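import Mathlib
import Cfsg.Agent.H29_Fm1
import Cfsg.Agent.H29_TrvFrm
import Cfsg.Agent.GUt2

set_option autoImplicit false

/-! symmetric forms in odd characteristic and long root elements -/

namespace Cfsg.Agent.H21.GUo

open Matrix Module Cfsg.Geo Cfsg.Agent.H29.Trv Cfsg.Agent.H29.Fm

variable {F : Type*} [Field F] {n : ℕ} {f : (Fin n → F) → (Fin n → F) → F}

/-- symmetric forms in odd characteristic -/
structure OF (f : (Fin n → F) → (Fin n → F) → F) : Prop extends SFm (RingEquiv.refl F) 1 f where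
  two : (2 : F) ≠ 0

theorem OF.sy (h : OF f) (x y : Fin n → F) : f x y = f y x := by
  rw [h.herm x y, one_mul]; rfl

theorem OF.sr (h : OF f) (c : F) (x y : Fin n → F) : f x (c • y) = c * f x y := h.toSFm.smul_right c x y

theorem OF.LL (h : OF f) : Cfsg.Agent.H29.Trv.LL f where
  add_left := h.add_left
  smul_left := h.smul_left
  add_right := h.toSFm.add_right
  nondeg := h.nd

theorem fr_smulO (h : OF f) (c : F) (v : Fin n → F) : fr h.LL (c • v) = c • fr h.LL v :=
  LinearMap.ext fun x => h.sr c x v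

theorem OF.adj (h : OF f) {x z : Fin n → F} (hx : f x x = 0) (hz : f z x ≠ 0) : ∃ a : F, f (z + a • x) (z + a • x) = 0 := by
  refine ⟨-(f z z) / (2 * f z x), ?_⟩
  rw [h.add_left, h.toSFm.add_right, h.toSFm.add_right, h.smul_left, h.smul_left, h.sr, h.sr, hx, h.sy x z]
  have := h.two
  field_simp
  ring

theorem OF.span_iso (h : OF f) {U W : Submodule F (Fin n → F)} {x z₀ : Fin n → F} (hx : x ∈ U) (hxx : f x x = 0)
    (hz : z₀ ∈ U) (hzx : f z₀ x ≠ 0) (hW : ∀ v ∈ U, f v v = 0 → v ∈ W) : U ≤ W := by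
  have hxW := hW x hx hxx
  have h1 : ∀ z ∈ U, f z x ≠ 0 → z ∈ W := by
    intro z hz hne
    obtain ⟨a, ha⟩ := h.adj hxx hne
    have h2 := hW _ (U.add_mem hz (U.smul_mem a hx)) ha
    exact (W.add_mem_iff_left (W.smul_mem a hxW)).1 h2
  intro z hzU
  by_cases h0 : f z x = 0
  · have h2 := h1 (z + z₀) (U.add_mem hzU hz) (by rw [h.add_left, h0, zero_add]; exact hzx)
    exact (W.add_mem_iff_left (h1 z₀ hz hzx)).1 h2
  · exact h1 z hzU h0

/-- representing elements by binary forms -/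
theorem binary [Fintype F] (hodd : Odd (Fintype.card F)) {a b c : F} (ha : a ≠ 0) (hb : b ≠ 0) :
    ∃ s t : F, a * (s * s) + b * (t * t) = c := by
  have h1 : (Polynomial.C a * Polynomial.X ^ 2 - Polynomial.C c : Polynomial F).degree = 2 := by
    rw [Polynomial.degree_sub_C]
    · exact Polynomial.degree_C_mul_X_pow 2 ha
    · rw [Polynomial.degree_C_mul_X_pow 2 ha]; norm_num
  have h2 : (Polynomial.C b * Polynomial.X ^ 2 : Polynomial F).degree = 2 := Polynomial.degree_C_mul_X_pow 2 hb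
  obtain ⟨s, t, hst⟩ := FiniteField.exists_root_sum_quadratic h1 h2 (Nat.odd_iff.1 hodd)
  refine ⟨s, t, ?_⟩
  simp only [Polynomial.eval_sub, Polynomial.eval_mul, Polynomial.eval_C, Polynomial.eval_pow, Polynomial.eval_X] at hst
  linear_combination hst

theorem exists_perp_in (h : OF f) {U : Submodule F (Fin n → F)} {k : ℕ} (B : Fin k → (Fin n → F)) (hU : k < finrank F U) :
    ∃ z ∈ U, z ≠ 0 ∧ ∀ i, f (B i) z = 0 := by
  let L : U →ₗ[F] (Fin k → F) :=
    { toFun := fun x i => f (B i) x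
      map_add' := fun x y => funext fun i => h.toSFm.add_right _ _ _
      map_smul' := fun c x => funext fun i => h.sr _ _ _ }
  have h1 : LinearMap.ker L ≠ ⊥ := by
    intro h0
    have h3 := LinearMap.finrank_range_add_finrank_ker L
    have h4 : finrank F (LinearMap.range L) ≤ k := by
      have := Submodule.finrank_le (LinearMap.range L)
      rwa [Module.finrank_fintype_fun_eq_card, Fintype.card_fin] at this
    rw [h0, finrank_bot] at h3
    omega
  obtain ⟨z, hz, hz0⟩ := (Submodule.ne_bot_iff _).1 h1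
  refine ⟨z, z.2, fun h0 => hz0 (Subtype.ext h0), fun i => ?_⟩
  exact congrFun (show L z = 0 from hz) i

/-- isotropic vectors in subspaces of dimension three -/
theorem OF.exists_iso [Fintype F] (hodd : Odd (Fintype.card F)) (h : OF f) {U : Submodule F (Fin n → F)} (hU : 3 ≤ finrank F U) :
    ∃ v ∈ U, v ≠ 0 ∧ f v v = 0 := by
  by_contra hcon
  push Not at hcon
  obtain ⟨x, hx, hx0, -⟩ := exists_perp_in h (U := U) (k := 0) ![] (by omega)
  obtain ⟨y, hy, hy0, hxy⟩ := exists_perp_in h (U := U) (k := 1) ![x] (by omega)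
  obtain ⟨z, hz, hz0, hxyz⟩ := exists_perp_in h (U := U) (k := 2) ![x, y] (by omega)
  have e1 : f x y = 0 := hxy 0
  have e2 : f x z = 0 := hxyz 0
  have e3 : f y z = 0 := hxyz 1
  obtain ⟨s, t, hst⟩ := binary hodd (hcon x hx hx0) (hcon y hy hy0) (c := -f z z)
  refine hcon (s • x + t • y + z) (U.add_mem (U.add_mem (U.smul_mem _ hx) (U.smul_mem _ hy)) hz) ?_ ?_
  · intro h0
    have h1 : f z (s • x + t • y + z) = 0 := by rw [h0, h.toSFm.zero_right]
    rw [h.toSFm.add_right, h.toSFm.add_right, h.sr, h.sr, h.sy z x, h.sy z y, e2, e3] at h1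
    apply hcon z hz hz0
    linear_combination h1
  · simp only [h.add_left, h.toSFm.add_right, h.smul_left, h.sr, h.sy y x, h.sy z x, h.sy z y, e1, e2, e3]
    linear_combination hst

/-- the perp of a finite family as a submodule -/
theorem finrank_perp_span (h : OF f) (Y : Submodule F (Fin n → F)) : finrank F (perp h.toSFm Y) = n - finrank F Y := by
  have := finrank_perp h.toSFm Y
  omega

/-- isotropic vectors separating -/
theorem OF.iso_sep [Fintype F] (hodd : Odd (Fintype.card F)) (h : OF f) {Y : Submodule F (Fin n → F)}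
    (hY : 2 * finrank F Y + 3 ≤ n) {z : Fin n → F} (hz : z ∉ Y) : ∃ w, f w w = 0 ∧ (∀ y ∈ Y, f w y = 0) ∧ f w z ≠ 0 := by
  by_contra hcon
  push Not at hcon
  set U := perp h.toSFm Y with hU
  -- complement of the radical
  obtain ⟨U', hU'⟩ : ∃ U' : Submodule F (Fin n → F), U' ≤ U ∧ U' ⊓ Y = ⊥ ∧ 3 ≤ finrank F U' := by
    obtain ⟨C, hC⟩ := Submodule.exists_isCompl (U ⊓ Y)
    refine ⟨U ⊓ C, inf_le_left, ?_, ?_⟩
    · rw [eq_bot_iff]
      rintro x ⟨⟨hx1, hx2⟩, hx3⟩
      have : x ∈ (U ⊓ Y) ⊓ C := ⟨⟨hx1, hx3⟩, hx2⟩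
      rwa [hC.inf_eq_bot] at this
    · have h1 := Submodule.finrank_sup_add_finrank_inf_eq U C
      have h2 : finrank F (U ⊓ Y : Submodule F (Fin n → F)) + finrank F C = n := by
        rw [Submodule.finrank_add_eq_of_isCompl hC, Module.finrank_fintype_fun_eq_card, Fintype.card_fin]
      have h3 : finrank F (U ⊔ C : Submodule F (Fin n → F)) ≤ n := by
        have := Submodule.finrank_le (U ⊔ C)
        rwa [Module.finrank_fintype_fun_eq_card, Fintype.card_fin] at this
      have h4 : finrank F (U ⊓ Y : Submodule F (Fin n → F)) ≤ finrank F Y := Submodule.finrank_mono inf_le_right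
      have h5 := finrank_perp_span h Y
      rw [← hU] at h5
      omega
  obtain ⟨hU'1, hU'2, hU'3⟩ := hU'
  obtain ⟨x, hx, hx0, hxx⟩ := h.exists_iso hodd hU'3
  have hxY : x ∉ Y := by
    intro hxY
    have : x ∈ U' ⊓ Y := ⟨hx, hxY⟩
    rw [hU'2] at this
    exact hx0 this
  obtain ⟨z₀, hz1, hz2⟩ := exists_sep h.LL Y hxY
  have hz₀U : z₀ ∈ U := fun y hy => h.toSFm.comm_zero (hz2 y hy)
  have hW : ∀ v, v ∈ perp h.toSFm (Submodule.span F {z}) ↔ f v z = 0 := by
    intro v
    constructor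
    · intro hv; exact hv z (Submodule.mem_span_singleton_self z)
    · intro hv w hw
      obtain ⟨t, rfl⟩ := Submodule.mem_span_singleton.1 hw
      rw [h.sr, hv, mul_zero]
  have hle := h.span_iso (U := U) (W := perp h.toSFm (Submodule.span F {z})) (hU'1 hx) hxx hz₀U
    (by rw [h.sy, hz1]; exact one_ne_zero) (fun v hv hvv => (hW v).2 (hcon v hvv hv))
  obtain ⟨s, hs1, hs2⟩ := exists_sep h.LL Y hz
  have := (hW s).1 (hle (fun y hy => h.toSFm.comm_zero (hs2 y hy)))
  rw [h.sy, hs1] at this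
  exact one_ne_zero this

/-- isotropic vectors avoiding a subspace -/
theorem OF.iso_avoid [Fintype F] (hodd : Odd (Fintype.card F)) (h : OF f) {Y W : Submodule F (Fin n → F)}
    (hY : finrank F Y + finrank F W + 3 ≤ n) : ∃ w, f w w = 0 ∧ (∀ y ∈ Y, f w y = 0) ∧ w ∉ W := by
  set U := perp h.toSFm Y with hU
  obtain ⟨C, hC⟩ := Submodule.exists_isCompl W
  have h1 := Submodule.finrank_sup_add_finrank_inf_eq U C
  have h2 : finrank F W + finrank F C = n := by
    rw [Submodule.finrank_add_eq_of_isCompl hC, Module.finrank_fintype_fun_eq_card, Fintype.card_fin]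
  have h3 : finrank F (U ⊔ C : Submodule F (Fin n → F)) ≤ n := by
    have := Submodule.finrank_le (U ⊔ C)
    rwa [Module.finrank_fintype_fun_eq_card, Fintype.card_fin] at this
  have h5 := finrank_perp_span h Y
  rw [← hU] at h5
  obtain ⟨x, hx, hx0, hxx⟩ := h.exists_iso hodd (U := U ⊓ C) (by omega)
  refine ⟨x, hxx, hx.1, fun hxW => ?_⟩
  have : x ∈ W ⊓ C := ⟨hxW, hx.2⟩
  rw [hC.inf_eq_bot] at this
  exact hx0 this

variable {M : Subgroup (GL (Fin n) F)}

/-- long root elements -/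
theorem exists_rho (h : OF f) {a b : Fin n → F} (haa : f a a = 0) (hbb : f b b = 0) (hab : f a b = 0) :
    ∃ g : GL (Fin n) F, g ∈ specialLinear (Fin n) F ∧
      (∀ x, (g : Matrix (Fin n) (Fin n) F) *ᵥ x = x + f x a • b - f x b • a) ∧
      ∀ x y, f ((g : Matrix (Fin n) (Fin n) F) *ᵥ x) ((g : Matrix (Fin n) (Fin n) F) *ᵥ y) = f x y := by
  have hba : f b a = 0 := by rw [h.sy, hab]
  let A : (Fin n → F) →ₗ[F] (Fin n → F) := LinearMap.smulRight (fr h.LL a) b - LinearMap.smulRight (fr h.LL b) a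
  have hA : ∀ x, A x = f x a • b - f x b • a := fun x => rfl
  have hA2 : ∀ x, A (A x) = 0 := by
    intro x
    rw [hA (A x), hA x, h.toSFm.sub_left, h.toSFm.sub_left, h.smul_left, h.smul_left, h.smul_left, h.smul_left,
      haa, hbb, hab, hba]
    simp
  let N := LinearMap.toMatrix' A
  have hN : IsNilpotent N := by
    refine ⟨2, ?_⟩
    apply ext_mulVec
    intro x
    rw [pow_two, ← mulVec_mulVec]
    show LinearMap.toMatrix' A *ᵥ (LinearMap.toMatrix' A *ᵥ x) = _
    rw [LinearMap.toMatrix'_mulVec, LinearMap.toMatrix'_mulVec, hA2, zero_mulVec]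
  have hdet := Cfsg.Agent.H21.GUt.det_one_add_nil hN
  let g : GL (Fin n) F := Matrix.GeneralLinearGroup.mkOfDetNeZero (1 + N) (by rw [hdet]; exact one_ne_zero)
  have hg : ∀ x, (g : Matrix (Fin n) (Fin n) F) *ᵥ x = x + f x a • b - f x b • a := by
    intro x
    show (1 + LinearMap.toMatrix' A) *ᵥ x = _
    rw [add_mulVec, one_mulVec, LinearMap.toMatrix'_mulVec, hA]
    abel
  refine ⟨g, (mem_SL_iff g).2 hdet, hg, ?_⟩
  intro x y
  rw [hg, hg]
  simp only [h.toSFm.sub_left, h.toSFm.sub_right, h.add_left, h.toSFm.add_right, h.smul_left, h.sr, haa, hbb, hab, hba]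
  rw [h.sy a y, h.sy b y]
  ring

end Cfsg.Agent.H21.GUo
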