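import Mathlib
import Cfsg.Agent.GUo1

set_option autoImplicit false

/-! long root elements and a transvection -/

namespace Cfsg.Agent.H21.GUo

open Matrix Module Cfsg.Geo Cfsg.Agent.H29.Trv Cfsg.Agent.H29.Fm

variable {F : Type*} [Field F] {n : ℕ} {f : (Fin n → F) → (Fin n → F) → F}

/-- `M` contains all long root elements -/
def RM (f : (Fin n → F) → (Fin n → F) → F) (M : Subgroup (GL (Fin n) F)) : Prop :=
  ∀ a b, f a a = 0 → f b b = 0 → f a b = 0 → ∃ g ∈ M, (∀ x, (g : Matrix (Fin n) (Fin n) F) *ᵥ x = x + f x a • b - f x b • a) ∧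
    ∀ x y, f ((g : Matrix (Fin n) (Fin n) F) *ᵥ x) ((g : Matrix (Fin n) (Fin n) F) *ᵥ y) = f x y

variable {M : Subgroup (GL (Fin n) F)}

theorem finrank_span_one (a : Fin n → F) : finrank F (Submodule.span F {a}) ≤ 1 := by
  have := finrank_span_le_card (R := F) ({a} : Set (Fin n → F))
  simpa using this

theorem finrank_span_two (a b : Fin n → F) : finrank F (Submodule.span F {a, b}) ≤ 2 := by
  classical
  have := finrank_span_finset_le_card (R := F) ({a, b} : Finset (Fin n → F))
  rw [Finset.coe_pair] at this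
  exact this.trans Finset.card_le_two

theorem finrank_span_three (a b c : Fin n → F) : finrank F (Submodule.span F {a, b, c}) ≤ 3 := by
  classical
  have := finrank_span_finset_le_card (R := F) ({a, b, c} : Finset (Fin n → F))
  rw [Finset.coe_insert, Finset.coe_pair] at this
  exact this.trans Finset.card_le_three

theorem zstep [Fintype F] (hodd : Odd (Fintype.card F)) (hn : 13 ≤ n) (h : OF f) (hR : RM f M) {c z w : Fin n → F}
    (hT : T M c (fr h.LL z)) (hw : f w w = 0) (hcw : f c w = 0) (hzw : f z w = 0) (hz : z ∉ Submodule.span F {c, w}) :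
    ∀ t : F, T M c (t • fr h.LL w) := by
  intro t
  obtain ⟨p, hp, hpY, hpz⟩ := h.iso_sep hodd (Y := Submodule.span F {c, w}) (by
    have := finrank_span_two (F := F) c w
    omega) hz
  have hpc : f p c = 0 := hpY c (Submodule.subset_span (by simp))
  have hpw : f p w = 0 := hpY w (Submodule.subset_span (by simp))
  obtain ⟨k, hk, hkx, hki⟩ := hR ((t / f p z) • p) w (by rw [h.smul_left, h.sr, hp, mul_zero, mul_zero]) hw
    (by rw [h.smul_left, hpw, mul_zero])
  have h1 := hT.conj_isom h.LL hk hki
  rw [hkx, hkx, hcw, hzw, h.sr, h.sr, h.sy c p, hpc, mul_zero, zero_smul, zero_smul, add_zero, sub_zero,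
    sub_zero, h.sy z p, div_mul_cancel₀ _ hpz, fr_add, fr_smulO h] at h1
  have h2 := h1.add_right hT.neg
  have e : fr h.LL z + t • fr h.LL w + -fr h.LL z = t • fr h.LL w := by abel
  rwa [e] at h2

/-- the span lemma for the perp of a line -/
theorem perp_le [Fintype F] (hodd : Odd (Fintype.card F)) (hn : 13 ≤ n) (h : OF f) {c : Fin n → F} {Z : Submodule F (Fin n → F)}
    (hZ : ∀ w, f w w = 0 → f c w = 0 → w ∈ Z) : ∀ w, f c w = 0 → w ∈ Z := by
  have hU : ∀ v, v ∈ perp h.toSFm (Submodule.span F {c}) ↔ f v c = 0 := by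
    intro v
    constructor
    · intro hv; exact hv c (Submodule.mem_span_singleton_self c)
    · intro hv w hw
      obtain ⟨t, rfl⟩ := Submodule.mem_span_singleton.1 hw
      rw [h.sr, hv, mul_zero]
  obtain ⟨x, hx, hxY, hxW⟩ := h.iso_avoid hodd (Y := Submodule.span F {c}) (W := Submodule.span F {c}) (by
    have := finrank_span_one (F := F) c
    omega)
  obtain ⟨z₀, hz1, hz2⟩ := exists_sep h.LL _ hxW
  have hle := h.span_iso (U := perp h.toSFm (Submodule.span F {c})) (W := Z) hxY hx
    ((hU z₀).2 (h.toSFm.comm_zero (hz2 c (Submodule.mem_span_singleton_self c))))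
    (by rw [h.sy, hz1]; exact one_ne_zero) (fun v hv hvv => hZ v hvv (by rw [h.sy]; exact (hU v).1 hv))
  intro w hw
  exact hle ((hU w).2 (by rw [h.sy]; exact hw))

theorem ctr_mem [Fintype F] (hodd : Odd (Fintype.card F)) (hn : 13 ≤ n) (h : OF f) (hR : RM f M) {c a : Fin n → F}
    (hT : T M c (fr h.LL a)) (ha : a ∉ Submodule.span F {c}) : c ∈ ctr M := by
  have key : ∀ w, f w w = 0 → f c w = 0 → ∀ t : F, T M c (t • fr h.LL w) := by
    intro w hw hcw
    obtain ⟨w1, hw1, hw1Y, hw1W⟩ := h.iso_avoid hodd (Y := Submodule.span F {c, a, w}) (W := Submodule.span F {c, a, w}) (by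
      have := finrank_span_three (F := F) c a w
      omega)
    have hw1c : f w1 c = 0 := hw1Y c (Submodule.subset_span (by simp))
    have hw1a : f w1 a = 0 := hw1Y a (Submodule.subset_span (by simp))
    have hw1w : f w1 w = 0 := hw1Y w (Submodule.subset_span (by simp))
    have m1 : a ∉ Submodule.span F {c, w1} := by
      intro hm
      obtain ⟨s, t, hst⟩ := Submodule.mem_span_pair.1 hm
      by_cases ht : t = 0
      · rw [ht, zero_smul, add_zero] at hst
        exact ha (Submodule.mem_span_singleton.2 ⟨s, hst⟩)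
      · apply hw1W
        have : w1 = t⁻¹ • (a - s • c) := by
          rw [← hst, add_sub_cancel_left, smul_smul, inv_mul_cancel₀ ht, one_smul]
        rw [this]
        exact Submodule.smul_mem _ _ (Submodule.sub_mem _ (Submodule.subset_span (by simp))
          (Submodule.smul_mem _ _ (Submodule.subset_span (by simp))))
    have m2 : w1 ∉ Submodule.span F {c, w} := fun hm =>
      hw1W (Submodule.span_mono (by intro x hx; simp at hx ⊢; tauto) hm)
    have h1 := zstep hodd hn h hR hT hw1 (by rw [h.sy]; exact hw1c) (by rw [h.sy]; exact hw1a) m1 1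
    rw [one_smul] at h1
    exact zstep hodd hn h hR h1 hw hcw hw1w m2
  let Z : Submodule F (Fin n → F) :=
    { carrier := {z | ∀ t : F, T M c (t • fr h.LL z)}
      zero_mem' := by
        intro t
        have : t • fr h.LL 0 = 0 := by
          apply LinearMap.ext
          intro x
          show t * f x 0 = 0
          rw [h.toSFm.zero_right, mul_zero]
        rw [this]
        exact T_zero_right c
      add_mem' := by
        intro a b ha hb t
        rw [fr_add, smul_add]
        exact (ha t).add_right (hb t)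
      smul_mem' := by
        intro s a ha t
        rw [fr_smulO h, smul_smul]
        exact ha _ }
  intro φ hφ
  obtain ⟨z, rfl⟩ := fr_surjective h.LL φ
  have h1 := perp_le hodd hn h (Z := Z) (fun w hw hcw => key w hw hcw) z hφ 1
  rwa [one_smul] at h1

theorem ctr_all [Fintype F] (hodd : Odd (Fintype.card F)) (hn : 13 ≤ n) (h : OF f) (hR : RM f M) {c : Fin n → F}
    (hc0 : c ≠ 0) (hc : c ∈ ctr M) : ctr M = ⊤ := by
  have step : ∀ c : Fin n → F, c ≠ 0 → c ∈ ctr M → ∀ w, f c w = 0 → w ∈ ctr M := by
    intro c hc0 hc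
    apply perp_le hodd hn h
    intro w hw hcw
    by_cases hm : c ∈ Submodule.span F {w}
    · obtain ⟨t, ht⟩ := Submodule.mem_span_singleton.1 hm
      have ht0 : t ≠ 0 := by
        rintro rfl
        rw [zero_smul] at ht
        exact hc0 ht.symm
      have : w = t⁻¹ • c := by rw [← ht, smul_smul, inv_mul_cancel₀ ht0, one_smul]
      rw [this]
      exact (ctr M).smul_mem _ hc
    · obtain ⟨p, hp, hpY, hpc⟩ := h.iso_sep hodd (Y := Submodule.span F {w}) (by
        have := finrank_span_one (F := F) w
        omega) hm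
      obtain ⟨k, hk, hkx, -⟩ := hR p w hp hw (hpY w (Submodule.mem_span_singleton_self w))
      have h1 := ctr_conj hc hk
      rw [hkx, hcw, zero_smul, sub_zero] at h1
      have h2 := ((ctr M).add_mem_iff_right hc).1 h1
      rw [h.sy] at h2
      exact ((ctr M).smul_mem_iff hpc).1 h2
  obtain ⟨w1, hw1, hw1Y, hw1W⟩ := h.iso_avoid hodd (Y := Submodule.span F {c}) (W := Submodule.span F {c}) (by
    have := finrank_span_one (F := F) c
    omega)
  have hw1c : f w1 c = 0 := hw1Y c (Submodule.mem_span_singleton_self c)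
  have hw10 : w1 ≠ 0 := by
    rintro rfl
    exact hw1W (Submodule.zero_mem _)
  have hw1M := step c hc0 hc w1 (by rw [h.sy]; exact hw1c)
  have hcns : c ∉ Submodule.span F {w1} := by
    intro hm
    obtain ⟨t, ht⟩ := Submodule.mem_span_singleton.1 hm
    have ht0 : t ≠ 0 := by
      rintro rfl
      rw [zero_smul] at ht
      exact hc0 ht.symm
    apply hw1W
    exact Submodule.mem_span_singleton.2 ⟨t⁻¹, by rw [← ht, smul_smul, inv_mul_cancel₀ ht0, one_smul]⟩
  obtain ⟨z, hz1, hz2⟩ := exists_sep h.LL _ hcns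
  have hzM := step w1 hw10 hw1M z (hz2 w1 (Submodule.mem_span_singleton_self w1))
  rw [eq_top_iff]
  intro x _
  have h1 : x - (f c x) • z ∈ ctr M := by
    apply step c hc0 hc
    rw [h.toSFm.sub_right, h.sr, hz1, mul_one, sub_self]
  have h2 := (ctr M).add_mem h1 ((ctr M).smul_mem (f c x) hzM)
  rwa [sub_add_cancel] at h2

end Cfsg.Agent.H21.GUo
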