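import Mathlib
import Cfsg.Agent.H29_TrvFrm
import Cfsg.Agent.H29_Fm1

set_option autoImplicit false

/-! commutators of quadratic elements for forms -/

namespace Cfsg.Agent.H21.GUp

open Matrix Module Cfsg.Geo Cfsg.Agent.H29.Trv

variable {ι : Type} [Fintype ι] [DecidableEq ι] {F : Type*} [Field F]

/-- sesquilinear reflexive nondegenerate forms -/
structure SG (τ : F ≃+* F) (ε : F) (f : (ι → F) → (ι → F) → F) : Prop extends LL f where
  eps : ε = 1 ∨ ε = -1
  inv : ∀ a, τ (τ a) = a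
  sr : ∀ (c : F) (v x : ι → F), f v (c • x) = τ c * f v x
  herm : ∀ u v, f u v = ε * τ (f v u)

variable {τ : F ≃+* F} {ε : F} {f : (ι → F) → (ι → F) → F}

theorem SG.z (h : SG τ ε f) {u v : ι → F} (huv : f u v = 0) : f v u = 0 := by
  rw [h.herm, huv, map_zero, mul_zero]

theorem SG.zero_left (h : SG τ ε f) (v : ι → F) : f 0 v = 0 := by
  have := h.smul_left 0 0 v
  rwa [zero_smul, zero_mul] at this

theorem SG.neg_left (h : SG τ ε f) (u v : ι → F) : f (-u) v = - f u v := by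
  have := h.smul_left (-1) u v
  rwa [neg_one_smul, neg_one_mul] at this

theorem SG.sub_left (h : SG τ ε f) (u w v : ι → F) : f (u - w) v = f u v - f w v := by
  rw [sub_eq_add_neg, h.add_left, h.neg_left, ← sub_eq_add_neg]

theorem SG.sub_right (h : SG τ ε f) (u v w : ι → F) : f u (v - w) = f u v - f u w := by
  rw [sub_eq_add_neg, h.add_right, h.toLL.neg_right, ← sub_eq_add_neg]

theorem SG.ee (h : SG τ ε f) : ε * ε = 1 := by
  rcases h.eps with rfl | rfl
  · exact one_mul 1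
  · rw [neg_mul_neg, one_mul]

theorem SG.e0 (h : SG τ ε f) : ε ≠ 0 := by
  intro h0
  have := h.ee
  rw [h0, zero_mul] at this
  exact zero_ne_one this

theorem SG.te (h : SG τ ε f) : τ ε = ε := by
  rcases h.eps with rfl | rfl
  · exact map_one τ
  · rw [map_neg, map_one]

theorem SG.sw (h : SG τ ε f) (u v : ι → F) : τ (f u v) = ε * f v u := by
  rw [h.herm v u, ← mul_assoc, h.ee, one_mul]

theorem SG.frs (h : SG τ ε f) (c : F) (v : ι → F) : fr h.toLL (c • v) = τ c • fr h.toLL v :=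
  LinearMap.ext fun x => h.sr c x v

/-- `M` contains the element `x ↦ x + f(x,w)u - ε f(x,u) w` -/
def KM (f : (ι → F) → (ι → F) → F) (ε : F) (M : Subgroup (GL ι F)) (u w : ι → F) : Prop :=
  ∃ g ∈ M, ∀ x, (g : Matrix ι ι F) *ᵥ x = x + f x w • u - (ε * f x u) • w

variable {M N : Subgroup (GL ι F)}

theorem KM.mono {u w : ι → F} (hk : KM f ε M u w) (hMN : M ≤ N) : KM f ε N u w := by
  obtain ⟨g, hg, hx⟩ := hk
  exact ⟨g, hMN hg, hx⟩

theorem inv_of (h : SG τ ε f) {u w : ι → F} (hu : f u u = 0) (hw : f w w = 0) (huw : f u w = 0) {g : GL ι F}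
    (hg : ∀ x, (g : Matrix ι ι F) *ᵥ x = x + f x w • u - (ε * f x u) • w) (x : ι → F) :
    ((g⁻¹ : GL ι F) : Matrix ι ι F) *ᵥ x = x - f x w • u + (ε * f x u) • w := by
  have : (g : Matrix ι ι F) *ᵥ (x - f x w • u + (ε * f x u) • w) = x := by
    rw [hg]
    simp only [h.sub_left, h.add_left, h.smul_left, hu, hw, huw, h.z huw]
    module
  conv_lhs => rw [← this]
  rw [inv_mulVec_self]

theorem KM.symm (h : SG τ ε f) {u w : ι → F} (hk : KM f ε M u w) (hu : f u u = 0) (hw : f w w = 0) (huw : f u w = 0) :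
    KM f ε M w u := by
  obtain ⟨g, hg, hx⟩ := hk
  rcases h.eps with rfl | rfl
  · refine ⟨g⁻¹, M.inv_mem hg, fun x => ?_⟩
    rw [inv_of h hu hw huw hx]
    module
  · refine ⟨g, hg, fun x => ?_⟩
    rw [hx]
    module

theorem KM.conj (h : SG τ ε f) {u w : ι → F} (hk : KM f ε M u w) {k : GL ι F} (hkM : k ∈ M)
    (hi : ∀ x y, f ((k : Matrix ι ι F) *ᵥ x) ((k : Matrix ι ι F) *ᵥ y) = f x y) :
    KM f ε M ((k : Matrix ι ι F) *ᵥ u) ((k : Matrix ι ι F) *ᵥ w) := by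
  obtain ⟨g, hg, hx⟩ := hk
  refine ⟨k * g * k⁻¹, M.mul_mem (M.mul_mem hkM hg) (M.inv_mem hkM), fun x => ?_⟩
  rw [Cfsg.Agent.H29.Trv.mul_apply, Cfsg.Agent.H29.Trv.mul_apply, hx]
  obtain ⟨y, rfl⟩ : ∃ y, x = (k : Matrix ι ι F) *ᵥ y := ⟨_, (self_inv_mulVec k x).symm⟩
  rw [inv_mulVec_self, hi, hi, mulVec_sub, mulVec_add, mulVec_smul, mulVec_smul]

/-- commutators of two elements with a common vector -/
theorem KM.comm1 (h : SG τ ε f) {u w w' : ι → F} (hk : KM f ε M u w) (hk' : KM f ε M u w') (hu : f u u = 0) (hw : f w w = 0)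
    (hw' : f w' w' = 0) (huw : f u w = 0) (huw' : f u w' = 0) : T M u ((ε * f w w' - τ (f w w')) • fr h.toLL u) := by
  obtain ⟨g, hg, hgx⟩ := hk
  obtain ⟨k, hk, hkx⟩ := hk'
  have hgi := inv_of h hu hw huw hgx
  have hki := inv_of h hu hw' huw' hkx
  refine ⟨?_, g * k * g⁻¹ * k⁻¹, M.mul_mem (M.mul_mem (M.mul_mem hg hk) (M.inv_mem hg)) (M.inv_mem hk), fun x => ?_⟩
  · rw [LinearMap.smul_apply, fr_apply, hu, smul_zero]
  · rw [Cfsg.Agent.H29.Trv.mul_apply, Cfsg.Agent.H29.Trv.mul_apply, Cfsg.Agent.H29.Trv.mul_apply, hki, hgi, hkx, hgx,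
      LinearMap.smul_apply, fr_apply, h.sw, smul_eq_mul]
    simp only [h.sub_left, h.add_left, h.smul_left, hu, hw, hw', huw, huw', h.z huw, h.z huw']
    rcases h.eps with rfl | rfl
    · module
    · module

/-- commutators of two elements producing a mixed one -/
theorem KM.comm2 (h : SG τ ε f) {u v u' v' : ι → F} (hk : KM f ε M u v) (hk' : KM f ε M u' v') (hu : f u u = 0)
    (hv : f v v = 0) (hu' : f u' u' = 0) (hv' : f v' v' = 0) (huv : f u v = 0) (huv' : f u' v' = 0)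
    (h1 : f u u' = 0) (h2 : f u v' = 0) (h3 : f v u' = 0) : KM f ε M u (-(f v v') • u') := by
  obtain ⟨g, hg, hgx⟩ := hk
  obtain ⟨k, hk, hkx⟩ := hk'
  have hgi := inv_of h hu hv huv hgx
  have hki := inv_of h hu' hv' huv' hkx
  refine ⟨g * k * g⁻¹ * k⁻¹, M.mul_mem (M.mul_mem (M.mul_mem hg hk) (M.inv_mem hg)) (M.inv_mem hk), fun x => ?_⟩
  rw [Cfsg.Agent.H29.Trv.mul_apply, Cfsg.Agent.H29.Trv.mul_apply, Cfsg.Agent.H29.Trv.mul_apply, hki, hgi, hkx, hgx,
    h.sr, map_neg, h.sw]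
  simp only [h.sub_left, h.add_left, h.smul_left, hu, hv, hu', hv', huv, huv', h.z huv, h.z huv', h1, h2, h3,
    h.z h1, h.z h2, h.z h3]
  rcases h.eps with rfl | rfl
  · module
  · module

end Cfsg.Agent.H21.GUp
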