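import Mathlib
import Cfsg.Agent.GUp1

set_option autoImplicit false

/-! pairs of complementary totally isotropic subspaces -/

namespace Cfsg.Agent.H21.GUp

open Matrix Module Cfsg.Geo Cfsg.Agent.H29.Trv

variable {ι : Type} [Fintype ι] [DecidableEq ι] {F : Type*} [Field F]
variable {τ : F ≃+* F} {ε : F} {f : (ι → F) → (ι → F) → F}

/-- complementary totally isotropic subspaces of dimension `m` -/
structure Pr (f : (ι → F) → (ι → F) → F) (m : ℕ) (A B : Submodule F (ι → F)) : Prop where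
  ia : ∀ u ∈ A, ∀ v ∈ A, f u v = 0
  ib : ∀ u ∈ B, ∀ v ∈ B, f u v = 0
  top : A ⊔ B = ⊤
  inf : A ⊓ B = ⊥
  fa : finrank F A = m
  fb : finrank F B = m

variable {m : ℕ} {A B A' B' : Submodule F (ι → F)}

theorem Pr.symm (hP : Pr f m A B) : Pr f m B A where
  ia := hP.ib
  ib := hP.ia
  top := by rw [sup_comm]; exact hP.top
  inf := by rw [inf_comm]; exact hP.inf
  fa := hP.fb
  fb := hP.fa

theorem Pr.perp (h : SG τ ε f) (hP : Pr f m A B) {z : ι → F} (hz : ∀ b ∈ B, f b z = 0) : z ∈ B := by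
  have hzt : z ∈ A ⊔ B := by rw [hP.top]; trivial
  obtain ⟨a, ha, b, hb, rfl⟩ := Submodule.mem_sup.1 hzt
  have ha0 : a = 0 := by
    by_contra hne
    obtain ⟨x, hx⟩ := h.nondeg a hne
    apply hx
    have hxt : x ∈ A ⊔ B := by rw [hP.top]; trivial
    obtain ⟨a', ha', b', hb', rfl⟩ := Submodule.mem_sup.1 hxt
    have h1 := hz b' hb'
    rw [h.add_right, hP.ib b' hb' b hb, add_zero] at h1
    rw [h.add_left, hP.ia a' ha' a ha, h1, add_zero]
  rw [ha0, zero_add]
  exact hb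

/-- a hyperplane section drops the dimension by at most one -/
theorem finrank_inf_ker (X : Submodule F (ι → F)) (φ : (ι → F) →ₗ[F] F) :
    finrank F X ≤ finrank F (X ⊓ LinearMap.ker φ : Submodule F (ι → F)) + 1 := by
  have h1 := LinearMap.finrank_range_add_finrank_ker (φ.domRestrict X)
  have h2 : finrank F (LinearMap.range (φ.domRestrict X)) ≤ 1 := by
    have := Submodule.finrank_le (LinearMap.range (φ.domRestrict X))
    rwa [Module.finrank_self] at this
  have h3 : finrank F (LinearMap.ker (φ.domRestrict X)) ≤ finrank F (X ⊓ LinearMap.ker φ : Submodule F (ι → F)) := by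
    let L : LinearMap.ker (φ.domRestrict X) →ₗ[F] (X ⊓ LinearMap.ker φ : Submodule F (ι → F)) :=
      { toFun := fun x => ⟨x.1.1, x.1.2, x.2⟩
        map_add' := fun x y => rfl
        map_smul' := fun c x => rfl }
    refine LinearMap.finrank_le_finrank_of_injective (f := L) (fun x y hxy => ?_)
    have h4 : (L x).1 = (L y).1 := congrArg _ hxy
    exact Subtype.ext (Subtype.ext h4)
  omega

theorem finrank_sup_span (B : Submodule F (ι → F)) (u : ι → F) :
    finrank F (B ⊔ Submodule.span F {u} : Submodule F (ι → F)) ≤ finrank F B + 1 := by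
  have h1 := Submodule.finrank_add_le_finrank_add_finrank B (Submodule.span F {u})
  have h2 := finrank_span_le_card (R := F) ({u} : Set (ι → F))
  simp only [Set.toFinset_singleton, Finset.card_singleton] at h2
  omega

theorem exists_notMem_of_lt {X Y : Submodule F (ι → F)} (h : finrank F (X ⊓ Y : Submodule F (ι → F)) < finrank F X) :
    ∃ x ∈ X, x ∉ Y := by
  by_contra hcon
  push Not at hcon
  have : X ⊓ Y = X := inf_eq_left.2 hcon
  rw [this] at h
  exact lt_irrefl _ h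

variable {M : Subgroup (GL ι F)}

/-- `M` contains all mixed elements -/
def KA (f : (ι → F) → (ι → F) → F) (ε : F) (M : Subgroup (GL ι F)) (A B : Submodule F (ι → F)) : Prop :=
  ∀ u ∈ A, ∀ v ∈ B, f u v = 0 → KM f ε M u v

theorem KA.symm (h : SG τ ε f) (hP : Pr f m A B) (hK : KA f ε M A B) : KA f ε M B A := by
  intro u hu v hv huv
  exact (hK v hv u hu (h.z huv)).symm h (hP.ia v hv v hv) (hP.ib u hu u hu) (h.z huv)

/-- full transvection group at `u` -/
def TA (h : SG τ ε f) (M : Subgroup (GL ι F)) (u : ι → F) : Prop :=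
  ∀ l : F, T M u ((ε * l - τ l) • fr h.toLL u)

theorem caseA [Finite F] (h : SG τ ε f) (hP : Pr f m A B) (hP' : Pr f m A' B') (hK : KA f ε M A B) (hK' : KA f ε M A' B')
    {u v' : ι → F} (hu : u ∈ A) (hu' : u ∈ A') (hv' : v' ∈ B') (huv' : f u v' = 0)
    (hn : v' ∉ B ⊔ Submodule.span F {u}) : TA h M u := by
  obtain ⟨v, hv1, hv2⟩ := exists_sep h.toLL _ hn
  have hvB : v ∈ B := hP.perp h (fun b hb => hv2 b (Submodule.mem_sup_left hb))
  have huv : f u v = 0 := hv2 u (Submodule.mem_sup_right (Submodule.mem_span_singleton_self u))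
  intro l
  have e1 : f u ((ε * l) • v) = 0 := by rw [h.sr, huv, mul_zero]
  have h1 := hK u hu _ (B.smul_mem (ε * l) hvB) e1
  have h2 := h1.comm1 h (hK' u hu' v' hv' huv') (hP.ia u hu u hu) (hP.ib _ (B.smul_mem _ hvB) _ (B.smul_mem _ hvB))
    (hP'.ib v' hv' v' hv') e1 huv'
  have e2 : f v v' = ε := by rw [h.herm, hv1, map_one, mul_one]
  have e3 : f ((ε * l) • v) v' = l := by
    rw [h.smul_left, e2]
    linear_combination l * h.ee
  rwa [e3] at h2

/-- if `A ∩ A'` is nonzero then either we get a transvection or `B ∩ B'` is large -/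
theorem large [Finite F] (h : SG τ ε f) (hP : Pr f m A B) (hP' : Pr f m A' B') (hK : KA f ε M A B) (hK' : KA f ε M A' B')
    (hno : ∀ u ∈ A, u ≠ 0 → ¬ TA h M u) {u : ι → F} (hu0 : u ≠ 0) (hu : u ∈ A) (hu' : u ∈ A') :
    m ≤ finrank F (B ⊓ B' : Submodule F (ι → F)) + 2 := by
  have key : ∀ v' ∈ B', f u v' = 0 → v' ∈ B ⊔ Submodule.span F {u} := by
    intro v' hv' huv'
    by_contra hn
    exact hno u hu hu0 (caseA h hP hP' hK hK' hu hu' hv' huv' hn)
  set X := B' ⊓ LinearMap.ker (fr h.toLL u) with hX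
  have h1 := finrank_inf_ker B' (fr h.toLL u)
  rw [← hX, hP'.fb] at h1
  have h2 : X ⊔ B ≤ B ⊔ Submodule.span F {u} := by
    apply sup_le _ le_sup_left
    intro x hx
    exact key x hx.1 (h.z hx.2)
  have h3 := Submodule.finrank_mono h2
  have h4 := finrank_sup_span B u
  have h5 := Submodule.finrank_sup_add_finrank_inf_eq X B
  have h6 : X ⊓ B ≤ B ⊓ B' := fun x hx => ⟨hx.2, hx.1.1⟩
  have h7 := Submodule.finrank_mono h6
  have h8 := hP.fb
  omega

theorem le_of_large [Finite F] (h : SG τ ε f) (hP : Pr f m A B) (hP' : Pr f m A' B') (hK : KA f ε M A B)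
    (hK' : KA f ε M A' B') (hno : ∀ u ∈ B, u ≠ 0 → ¬ TA h M u) (hl : 3 ≤ finrank F (B ⊓ B' : Submodule F (ι → F))) :
    A' = A := by
  have hle : A' ≤ A := by
    intro x hx
    set Z := (B ⊓ B') ⊓ LinearMap.ker (fr h.toLL x) with hZ
    have h1 := finrank_inf_ker (B ⊓ B') (fr h.toLL x)
    rw [← hZ] at h1
    have h2 : 1 < finrank F Z := by omega
    have h3 : ∃ w₁ ∈ Z, w₁ ≠ 0 := (Submodule.ne_bot_iff _).1 (by
      intro h0
      rw [h0, finrank_bot] at h2
      omega)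
    obtain ⟨w₁, hw₁, hw₁0⟩ := h3
    obtain ⟨w₂, hw₂, hw₂n⟩ := exists_notMem_of_lt (X := Z) (Y := Submodule.span F {w₁}) (by
      have h4 := Submodule.finrank_mono (inf_le_right : Z ⊓ Submodule.span F {w₁} ≤ Submodule.span F {w₁})
      have h5 := finrank_span_le_card (R := F) ({w₁} : Set (ι → F))
      simp only [Set.toFinset_singleton, Finset.card_singleton] at h5
      omega)
    have hw₂0 : w₂ ≠ 0 := by
      rintro rfl
      exact hw₂n (Submodule.zero_mem _)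
    have key : ∀ w ∈ Z, w ≠ 0 → x ∈ A ⊔ Submodule.span F {w} := by
      intro w hw hw0
      by_contra hn
      exact hno w hw.1.1 hw0 (caseA h hP.symm hP'.symm (hK.symm h hP) (hK'.symm h hP') hw.1.1 hw.1.2 hx hw.2 hn)
    obtain ⟨a₁, ha₁, b₁, hb₁, e₁⟩ := Submodule.mem_sup.1 (key w₁ hw₁ hw₁0)
    obtain ⟨a₂, ha₂, b₂, hb₂, e₂⟩ := Submodule.mem_sup.1 (key w₂ hw₂ hw₂0)
    obtain ⟨c₁, rfl⟩ := Submodule.mem_span_singleton.1 hb₁
    obtain ⟨c₂, rfl⟩ := Submodule.mem_span_singleton.1 hb₂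
    have h4 : a₁ - a₂ = c₂ • w₂ - c₁ • w₁ := by
      have : a₁ + c₁ • w₁ = a₂ + c₂ • w₂ := by rw [e₁, e₂]
      rw [sub_eq_sub_iff_add_eq_add]
      rw [this]
      abel
    have h5 : a₁ - a₂ ∈ A ⊓ B := ⟨A.sub_mem ha₁ ha₂, by
      rw [h4]
      exact B.sub_mem (B.smul_mem _ hw₂.1.1) (B.smul_mem _ hw₁.1.1)⟩
    rw [hP.inf, Submodule.mem_bot] at h5
    rw [h5] at h4
    have h6 : c₂ • w₂ = c₁ • w₁ := (sub_eq_zero.1 h4.symm)
    have h7 : c₂ = 0 := by
      by_contra h0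
      apply hw₂n
      refine Submodule.mem_span_singleton.2 ⟨c₂⁻¹ * c₁, ?_⟩
      rw [← smul_smul, ← h6, smul_smul, inv_mul_cancel₀ h0, one_smul]
    rw [h7, zero_smul, add_zero] at e₂
    rw [← e₂]
    exact ha₂
  exact Submodule.eq_of_le_of_finrank_eq hle (by rw [hP.fa, hP'.fa])

/-- the first case -/
theorem meet [Finite F] (h : SG τ ε f) (hm : 5 ≤ m) (hP : Pr f m A B) (hP' : Pr f m A' B') (hK : KA f ε M A B)
    (hK' : KA f ε M A' B') (hno : ∀ u ∈ A, u ≠ 0 → ¬ TA h M u) (hno' : ∀ u ∈ B, u ≠ 0 → ¬ TA h M u)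
    (hAA : A ⊓ A' ≠ ⊥) : A' = A ∧ B' = B := by
  obtain ⟨u, hu, hu0⟩ := (Submodule.ne_bot_iff _).1 hAA
  have h1 := large h hP hP' hK hK' hno hu0 hu.1 hu.2
  have h2 := le_of_large h hP hP' hK hK' hno' (by omega)
  refine ⟨h2, ?_⟩
  apply le_of_large h hP.symm hP'.symm (hK.symm h hP) (hK'.symm h hP') hno
  rw [h2, inf_idem, hP.fa]
  omega

/-- the second case -/
theorem generic [Finite F] (h : SG τ ε f) (hm : 5 ≤ m) (hP : Pr f m A B) (hP' : Pr f m A' B') (hK : KA f ε M A B)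
    (hK' : KA f ε M A' B') (h1 : A' ⊓ B = ⊥) (h2 : B' ⊓ B = ⊥) : ∃ u ∈ A, u ≠ 0 ∧ TA h M u := by
  obtain ⟨u, hu, hu0⟩ : ∃ u ∈ A, u ≠ 0 := (Submodule.ne_bot_iff _).1 (by
    intro h0
    have := hP.fa
    rw [h0, finrank_bot] at this
    omega)
  -- choose u'
  set X := A' ⊓ LinearMap.ker (fr h.toLL u) with hX
  have d1 := finrank_inf_ker A' (fr h.toLL u)
  rw [← hX, hP'.fa] at d1
  obtain ⟨u', hu', hu'n⟩ := exists_notMem_of_lt (X := X) (Y := B ⊔ Submodule.span F {u}) (by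
    set X' := X ⊓ (B ⊔ Submodule.span F {u}) with hX'
    have e1 : X' ⊓ B = ⊥ := by
      rw [eq_bot_iff, ← h1]
      exact fun x hx => ⟨hx.1.1.1, hx.2⟩
    have e2 := Submodule.finrank_sup_add_finrank_inf_eq X' B
    rw [e1, finrank_bot] at e2
    have e3 : X' ⊔ B ≤ B ⊔ Submodule.span F {u} := sup_le inf_le_right le_sup_left
    have e4 := Submodule.finrank_mono e3
    have e5 := finrank_sup_span B u
    have e6 := hP.fb
    omega)
  have hu'A : u' ∈ A' := hu'.1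
  have huu' : f u u' = 0 := h.z hu'.2
  -- choose v'
  set Y := (B' ⊓ LinearMap.ker (fr h.toLL u)) ⊓ LinearMap.ker (fr h.toLL u') with hY
  have d2 := finrank_inf_ker B' (fr h.toLL u)
  have d3 := finrank_inf_ker (B' ⊓ LinearMap.ker (fr h.toLL u)) (fr h.toLL u')
  rw [← hY] at d3
  rw [hP'.fb] at d2
  obtain ⟨v', hv', hv'n⟩ := exists_notMem_of_lt (X := Y) (Y := (B ⊔ Submodule.span F {u}) ⊔ Submodule.span F {u'}) (by
    set X' := Y ⊓ ((B ⊔ Submodule.span F {u}) ⊔ Submodule.span F {u'}) with hX'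
    have e1 : X' ⊓ B = ⊥ := by
      rw [eq_bot_iff, ← h2]
      exact fun x hx => ⟨hx.1.1.1.1, hx.2⟩
    have e2 := Submodule.finrank_sup_add_finrank_inf_eq X' B
    rw [e1, finrank_bot] at e2
    have e3 : X' ⊔ B ≤ (B ⊔ Submodule.span F {u}) ⊔ Submodule.span F {u'} :=
      sup_le inf_le_right (le_sup_left.trans le_sup_left)
    have e4 := Submodule.finrank_mono e3
    have e5 := finrank_sup_span B u
    have e7 := finrank_sup_span (B ⊔ Submodule.span F {u}) u'
    have e6 := hP.fb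
    omega)
  have hv'B : v' ∈ B' := hv'.1.1
  have huv' : f u v' = 0 := h.z hv'.1.2
  have hu'v' : f u' v' = 0 := h.z hv'.2
  obtain ⟨v, hv1, hv2⟩ := exists_sep h.toLL _ hv'n
  have hvB : v ∈ B := hP.perp h (fun b hb => hv2 b (Submodule.mem_sup_left (Submodule.mem_sup_left hb)))
  have huv : f u v = 0 := hv2 u (Submodule.mem_sup_left (Submodule.mem_sup_right (Submodule.mem_span_singleton_self u)))
  have hu'v : f u' v = 0 := hv2 u' (Submodule.mem_sup_right (Submodule.mem_span_singleton_self u'))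
  have hvv' : f v v' = ε := by rw [h.herm, hv1, map_one, mul_one]
  have hmix : ∀ c : F, KM f ε M u (c • u') := by
    intro c
    have e1 : f u ((-(ε * c)) • v) = 0 := by rw [h.sr, huv, mul_zero]
    have k1 := (hK u hu _ (B.smul_mem (-(ε * c)) hvB) e1).comm2 h (hK' u' hu'A v' hv'B hu'v') (hP.ia u hu u hu)
      (hP.ib _ (B.smul_mem _ hvB) _ (B.smul_mem _ hvB)) (hP'.ia u' hu'A u' hu'A) (hP'.ib v' hv'B v' hv'B) e1 hu'v'
      huu' huv' (by rw [h.smul_left, h.z hu'v, mul_zero])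
    have e2 : -(f (-(ε * c) • v) v') = c := by
      rw [h.smul_left, hvv']
      linear_combination c * h.ee
    rwa [e2] at k1
  -- choose v₁
  obtain ⟨v₁, hv₁1, hv₁2⟩ := exists_sep h.toLL _ hu'n
  have hv₁B : v₁ ∈ B := hP.perp h (fun b hb => hv₁2 b (Submodule.mem_sup_left hb))
  have huv₁ : f u v₁ = 0 := hv₁2 u (Submodule.mem_sup_right (Submodule.mem_span_singleton_self u))
  refine ⟨u, hu, hu0, fun l => ?_⟩
  have k2 := (hmix l).comm1 h (hK u hu v₁ hv₁B huv₁) (hP.ia u hu u hu) (by rw [h.smul_left, h.sr, hP'.ia u' hu'A u' hu'A, mul_zero,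
    mul_zero]) (hP.ib v₁ hv₁B v₁ hv₁B) (by rw [h.sr, huu', mul_zero]) huv₁
  have e2 : f (l • u') v₁ = l := by rw [h.smul_left, hv₁1, mul_one]
  rwa [e2] at k2

/-- stage one -/
theorem stage1 [Finite F] (h : SG τ ε f) (hm : 5 ≤ m) (hP : Pr f m A B) (hP' : Pr f m A' B') (hK : KA f ε M A B)
    (hK' : KA f ε M A' B') : (∃ u, (u ∈ A ∨ u ∈ B) ∧ u ≠ 0 ∧ TA h M u) ∨ (A' = A ∧ B' = B) ∨ (A' = B ∧ B' = A) := by
  by_cases hex : ∃ u, (u ∈ A ∨ u ∈ B) ∧ u ≠ 0 ∧ TA h M u
  · exact Or.inl hex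
  right
  push Not at hex
  have hno : ∀ u ∈ A, u ≠ 0 → ¬ TA h M u := fun u hu hu0 => hex u (Or.inl hu) hu0
  have hno' : ∀ u ∈ B, u ≠ 0 → ¬ TA h M u := fun u hu hu0 => hex u (Or.inr hu) hu0
  by_cases h1 : A ⊓ A' = ⊥
  · by_cases h2 : B ⊓ A' = ⊥
    · by_cases h3 : B ⊓ B' = ⊥
      · exfalso
        obtain ⟨u, hu, hu0, hT⟩ := generic h hm hP hP' hK hK' (by rw [inf_comm]; exact h2) (by rw [inf_comm]; exact h3)
        exact hno u hu hu0 hT
      · left
        obtain ⟨e1, e2⟩ := meet h hm hP.symm hP'.symm (hK.symm h hP) (hK'.symm h hP') hno' hno h3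
        exact ⟨e2, e1⟩
    · right
      obtain ⟨e1, e2⟩ := meet h hm hP.symm hP' (hK.symm h hP) hK' hno' hno h2
      exact ⟨e1, e2⟩
  · left
    exact meet h hm hP hP' hK hK' hno hno' h1

end Cfsg.Agent.H21.GUp
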