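import Mathlib
import Cfsg.Agent.GUp2

set_option autoImplicit false

/-! stabilisers of pairs of complementary totally isotropic subspaces are maximal -/

namespace Cfsg.Agent.H21.GUp

open Matrix Module Cfsg.Geo Cfsg.Agent.H29.Trv

variable {ι : Type} [Fintype ι] [DecidableEq ι] {F : Type*} [Field F]
variable {τ : F ≃+* F} {ε : F} {f : (ι → F) → (ι → F) → F}
variable {m : ℕ} {A B A' B' : Submodule F (ι → F)} {M N : Subgroup (GL ι F)}

/-- isometries -/
def Iso (f : (ι → F) → (ι → F) → F) (M : Subgroup (GL ι F)) : Prop :=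
  ∀ g ∈ M, ∀ x y, f ((g : Matrix ι ι F) *ᵥ x) ((g : Matrix ι ι F) *ᵥ y) = f x y

theorem T_conjS (h : SG τ ε f) (hi : Iso f M) {u : ι → F} {c : F} (hT : T M u (c • fr h.toLL u)) {g : GL ι F} (hg : g ∈ M) :
    T M ((g : Matrix ι ι F) *ᵥ u) (c • fr h.toLL ((g : Matrix ι ι F) *ᵥ u)) := by
  have h1 : T M u (fr h.toLL (τ c • u)) := by rwa [h.frs, h.inv]
  have h2 := h1.conj_isom h.toLL hg (hi g hg)
  rwa [mulVec_smul, h.frs, h.inv] at h2

theorem TA.conj (h : SG τ ε f) (hi : Iso f M) {u : ι → F} (hT : TA h M u) {g : GL ι F} (hg : g ∈ M) :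
    TA h M ((g : Matrix ι ι F) *ᵥ u) := fun l => T_conjS h hi (hT l) hg

theorem TA.smul {h : SG τ ε f} {u : ι → F} (hT : TA h M u) (a : F) : TA h M (a • u) := by
  intro l
  rw [h.frs, T_smul_iff, smul_smul, smul_smul]
  have h1 := hT (a * τ a * l)
  have e : ε * (a * τ a * l) - τ (a * τ a * l) = a * (ε * l - τ l) * τ a := by
    rw [map_mul, map_mul, h.inv]
    ring
  rwa [e] at h1

/-- from one vector of `A` to all of them -/
theorem spread [Finite F] (h : SG τ ε f) (hP : Pr f m A B) (hi : Iso f M) (hK : KA f ε M A B) {u : ι → F} (hu : u ∈ A)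
    (hu0 : u ≠ 0) (hT : TA h M u) : ∀ y ∈ A, TA h M y := by
  intro y hy
  by_cases hyu : y ∈ Submodule.span F {u}
  · obtain ⟨a, rfl⟩ := Submodule.mem_span_singleton.1 hyu
    exact hT.smul a
  have hn : u ∉ B ⊔ Submodule.span F {y - u} := by
    intro hm
    obtain ⟨b, hb, w, hw, e⟩ := Submodule.mem_sup.1 hm
    obtain ⟨c, rfl⟩ := Submodule.mem_span_singleton.1 hw
    have hb' : b ∈ A ⊓ B := ⟨by
      have : b = u - c • (y - u) := eq_sub_of_add_eq e
      rw [this]
      exact A.sub_mem hu (A.smul_mem _ (A.sub_mem hy hu)), hb⟩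
    rw [hP.inf, Submodule.mem_bot] at hb'
    rw [hb', zero_add] at e
    have hc : c ≠ 0 := by
      rintro rfl
      rw [zero_smul] at e
      exact hu0 e.symm
    apply hyu
    refine Submodule.mem_span_singleton.2 ⟨c⁻¹ * (1 + c), ?_⟩
    have : (1 + c) • u = c • y := by
      rw [add_smul, one_smul]
      nth_rewrite 1 [← e]
      module
    rw [← smul_smul, this, smul_smul, inv_mul_cancel₀ hc, one_smul]
  obtain ⟨z, hz1, hz2⟩ := exists_sep h.toLL _ hn
  have hzB : z ∈ B := hP.perp h (fun b hb => hz2 b (Submodule.mem_sup_left hb))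
  have hyz : f (y - u) z = 0 := hz2 _ (Submodule.mem_sup_right (Submodule.mem_span_singleton_self _))
  obtain ⟨g, hg, hgx⟩ := hK (y - u) (A.sub_mem hy hu) z hzB hyz
  have h1 := hT.conj h hi hg
  rw [hgx, hz1, one_smul, hP.ia u hu _ (A.sub_mem hy hu), mul_zero, zero_smul, sub_zero, add_sub_cancel] at h1
  exact h1

/-- the Weyl element of a hyperbolic pair -/
theorem weyl (h : SG τ ε f) (hNT : ∀ u, f u u = 0 → ∀ c, τ c = -(ε * c) → T N u (c • fr h.toLL u)) {c : F} (hc : c ≠ 0)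
    (hc2 : τ c = -(ε * c)) {e v : ι → F} (he : f e e = 0) (hv : f v v = 0) (hev : f e v = 1) :
    ∃ w ∈ N, (∃ a : F, (w : Matrix ι ι F) *ᵥ e = a • v) ∧ (∃ a : F, (w : Matrix ι ι F) *ᵥ v = a • e) ∧
      ∀ x, f x e = 0 → f x v = 0 → (w : Matrix ι ι F) *ᵥ x = x := by
  have hve : f v e = ε := by rw [h.herm, hev, map_one, mul_one]
  have hε := h.e0
  set c' := -(ε / c) with hc'
  have hee := h.ee
  have hc'2 : τ c' = -(ε * c') := by
    rw [hc', map_neg, map_div₀, h.te, hc2]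
    field_simp
    linear_combination -hee
  obtain ⟨-, p, hp, hpx'⟩ := hNT e he c hc2
  obtain ⟨-, r, hr, hrx'⟩ := hNT v hv c' hc'2
  have hpx : ∀ x, (p : Matrix ι ι F) *ᵥ x = x + (c * f x e) • e := fun x => by rw [hpx']; rfl
  have hrx : ∀ x, (r : Matrix ι ι F) *ᵥ x = x + (c' * f x v) • v := fun x => by rw [hrx']; rfl
  have e1 : 1 + ε * (c * c') = 0 := by
    rw [hc']
    field_simp
    linear_combination -hee
  refine ⟨p * r * p, N.mul_mem (N.mul_mem hp hr) hp, ⟨c', ?_⟩, ⟨c * ε, ?_⟩, ?_⟩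
  · have s1 : (p : Matrix ι ι F) *ᵥ e = e := by rw [hpx, he, mul_zero, zero_smul, add_zero]
    have s2 : (r : Matrix ι ι F) *ᵥ e = e + c' • v := by rw [hrx, hev, mul_one]
    have s3 : (p : Matrix ι ι F) *ᵥ v = v + (c * ε) • e := by rw [hpx, hve]
    rw [Cfsg.Agent.H29.Trv.mul_apply, Cfsg.Agent.H29.Trv.mul_apply, s1, s2, mulVec_add, mulVec_smul, s1, s3]
    have : e + c' • (v + (c * ε) • e) = c' • v + (1 + ε * (c * c')) • e := by module
    rw [this, e1, zero_smul, add_zero]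
  · have s1 : (p : Matrix ι ι F) *ᵥ e = e := by rw [hpx, he, mul_zero, zero_smul, add_zero]
    have s2 : (r : Matrix ι ι F) *ᵥ e = e + c' • v := by rw [hrx, hev, mul_one]
    have s3 : (p : Matrix ι ι F) *ᵥ v = v + (c * ε) • e := by rw [hpx, hve]
    have s4 : (r : Matrix ι ι F) *ᵥ v = v := by rw [hrx, hv, mul_zero, zero_smul, add_zero]
    have s5 : (r : Matrix ι ι F) *ᵥ (v + (c * ε) • e) = (c * ε) • e := by
      rw [mulVec_add, mulVec_smul, s4, s2]
      have : v + (c * ε) • (e + c' • v) = (c * ε) • e + (1 + ε * (c * c')) • v := by module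
      rw [this, e1, zero_smul, add_zero]
    rw [Cfsg.Agent.H29.Trv.mul_apply, Cfsg.Agent.H29.Trv.mul_apply, s3, s5, mulVec_smul, s1]
  · intro x hxe hxv
    have s1 : (p : Matrix ι ι F) *ᵥ x = x := by rw [hpx, hxe, mul_zero, zero_smul, add_zero]
    have s2 : (r : Matrix ι ι F) *ᵥ x = x := by rw [hrx, hxv, mul_zero, zero_smul, add_zero]
    rw [Cfsg.Agent.H29.Trv.mul_apply, Cfsg.Agent.H29.Trv.mul_apply, s1, s2, s1]

/-- there is an element interchanging the two subspaces -/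
theorem exists_swap [Finite F] (h : SG τ ε f) (hP : Pr f m A B)
    (hNT : ∀ u, f u u = 0 → ∀ c, τ c = -(ε * c) → T N u (c • fr h.toLL u)) {c : F} (hc : c ≠ 0)
    (hc2 : τ c = -(ε * c)) : ∃ s ∈ N, (∀ a ∈ A, (s : Matrix ι ι F) *ᵥ a ∈ B) ∧ ∀ b ∈ B, (s : Matrix ι ι F) *ᵥ b ∈ A := by
  classical
  let bA : Basis (Fin m) F A := Module.finBasisOfFinrankEq F A hP.fa
  let e : Fin m → (ι → F) := fun i => (bA i : ι → F)
  have heA : ∀ i, e i ∈ A := fun i => (bA i).2
  have hli : LinearIndependent F e := bA.linearIndependent.map' A.subtype (Submodule.ker_subtype A)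
  have hdual : ∀ j, ∃ v ∈ B, f (e j) v = 1 ∧ ∀ i, i ≠ j → f (e i) v = 0 := by
    intro j
    have hn : e j ∉ B ⊔ Submodule.span F (e '' {i | i ≠ j}) := by
      intro hm
      obtain ⟨b, hb, w, hw, e1⟩ := Submodule.mem_sup.1 hm
      have hwA : w ∈ A := by
        refine Submodule.span_le.2 ?_ hw
        rintro _ ⟨i, -, rfl⟩
        exact heA i
      have hb' : b ∈ A ⊓ B := ⟨by
        have : b = e j - w := eq_sub_of_add_eq e1
        rw [this]
        exact A.sub_mem (heA j) hwA, hb⟩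
      rw [hP.inf, Submodule.mem_bot] at hb'
      rw [hb', zero_add] at e1
      rw [e1] at hw
      exact hli.notMem_span_image (s := {i | i ≠ j}) (x := j) (by simp) hw
    obtain ⟨v, hv1, hv2⟩ := exists_sep h.toLL _ hn
    exact ⟨v, hP.perp h (fun b hb => hv2 b (Submodule.mem_sup_left hb)), hv1, fun i hi =>
      hv2 _ (Submodule.mem_sup_right (Submodule.subset_span ⟨i, hi, rfl⟩))⟩
  choose v hvB hv1 hv2 using hdual
  have key : ∀ S : Finset (Fin m), ∃ s ∈ N, (∀ j ∈ S, (∃ a : F, (s : Matrix ι ι F) *ᵥ e j = a • v j) ∧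
      (∃ a : F, (s : Matrix ι ι F) *ᵥ v j = a • e j)) ∧ ∀ j, j ∉ S → (s : Matrix ι ι F) *ᵥ e j = e j ∧
      (s : Matrix ι ι F) *ᵥ v j = v j := by
    intro S
    induction S using Finset.induction_on with
    | empty => exact ⟨1, N.one_mem, by simp, fun j _ => by simp⟩
    | insert k S hk ih =>
      obtain ⟨s, hs, hs1, hs2⟩ := ih
      obtain ⟨w, hw, ⟨a, hwe⟩, ⟨a', hwv⟩, hwx⟩ := weyl h hNT hc hc2 (hP.ia _ (heA k) _ (heA k)) (hP.ib _ (hvB k) _ (hvB k)) (hv1 k)
      have hfix : ∀ j, j ≠ k → (w : Matrix ι ι F) *ᵥ e j = e j ∧ (w : Matrix ι ι F) *ᵥ v j = v j := by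
        intro j hj
        refine ⟨hwx _ (hP.ia _ (heA j) _ (heA k)) (hv2 k j hj), hwx _ (h.z (hv2 j k hj.symm)) (hP.ib _ (hvB j) _ (hvB k))⟩
      refine ⟨s * w, N.mul_mem hs hw, ?_, ?_⟩
      · intro j hj
        rw [Finset.mem_insert] at hj
        by_cases hjk : j = k
        · subst hjk
          refine ⟨⟨a, ?_⟩, ⟨a', ?_⟩⟩
          · rw [Cfsg.Agent.H29.Trv.mul_apply, hwe, mulVec_smul, (hs2 j hk).2]
          · rw [Cfsg.Agent.H29.Trv.mul_apply, hwv, mulVec_smul, (hs2 j hk).1]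
        · rw [Cfsg.Agent.H29.Trv.mul_apply, Cfsg.Agent.H29.Trv.mul_apply, (hfix j hjk).1, (hfix j hjk).2]
          exact hs1 j (hj.resolve_left hjk)
      · intro j hj
        rw [Finset.mem_insert, not_or] at hj
        rw [Cfsg.Agent.H29.Trv.mul_apply, Cfsg.Agent.H29.Trv.mul_apply, (hfix j hj.1).1, (hfix j hj.1).2]
        exact hs2 j hj.2
  obtain ⟨s, hs, hs1, -⟩ := key Finset.univ
  have hAspan : A = Submodule.span F (Set.range e) := by
    have h1 := bA.span_eq
    have h2 := congrArg (Submodule.map A.subtype) h1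
    rw [Submodule.map_span, Submodule.map_subtype_top] at h2
    rw [← h2]
    congr 1
    ext x
    simp [e]
  have hA : ∀ a ∈ A, (s : Matrix ι ι F) *ᵥ a ∈ B := by
    intro a ha
    rw [hAspan] at ha
    induction ha using Submodule.span_induction with
    | mem x hx =>
      obtain ⟨j, rfl⟩ := hx
      obtain ⟨c, hc⟩ := (hs1 j (Finset.mem_univ j)).1
      rw [hc]
      exact B.smul_mem _ (hvB j)
    | zero => rw [mulVec_zero]; exact B.zero_mem
    | add x y _ _ hx hy => rw [mulVec_add]; exact B.add_mem hx hy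
    | smul c x _ hx => rw [mulVec_smul]; exact B.smul_mem _ hx
  have hAA : ∀ a ∈ A, (s : Matrix ι ι F) *ᵥ ((s : Matrix ι ι F) *ᵥ a) ∈ A := by
    intro a ha
    rw [hAspan] at ha
    induction ha using Submodule.span_induction with
    | mem x hx =>
      obtain ⟨j, rfl⟩ := hx
      obtain ⟨⟨c, hc⟩, ⟨c', hc'⟩⟩ := hs1 j (Finset.mem_univ j)
      rw [hc, mulVec_smul, hc']
      exact A.smul_mem _ (A.smul_mem _ (heA j))
    | zero => rw [mulVec_zero, mulVec_zero]; exact A.zero_mem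
    | add x y _ _ hx hy => rw [mulVec_add, mulVec_add]; exact A.add_mem hx hy
    | smul c x _ hx => rw [mulVec_smul, mulVec_smul]; exact A.smul_mem _ hx
  refine ⟨s, hs, hA, fun b hb => ?_⟩
  have hmap : A.map (linE s).toLinearMap = B := by
    apply Submodule.eq_of_le_of_finrank_eq
    · rintro _ ⟨a, ha, rfl⟩
      exact hA a ha
    · rw [LinearEquiv.finrank_map_eq, hP.fa, hP.fb]
  rw [← hmap] at hb
  obtain ⟨a, ha, rfl⟩ := hb
  exact hAA a ha

theorem map_eq_of {g : GL ι F} {X Y : Submodule F (ι → F)} (h : ∀ x ∈ X, (g : Matrix ι ι F) *ᵥ x ∈ Y)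
    (hf : finrank F X = finrank F Y) : X.map (Matrix.toLin' (g : Matrix ι ι F)) = Y := by
  have e : X.map (Matrix.toLin' (g : Matrix ι ι F)) = X.map (linE g).toLinearMap := rfl
  rw [e]
  apply Submodule.eq_of_le_of_finrank_eq
  · rintro _ ⟨a, ha, rfl⟩
    exact h a ha
  · rw [LinearEquiv.finrank_map_eq, hf]

/-- all transvections -/
theorem all_T [Finite F] (h : SG τ ε f) (hP : Pr f m A B) (hi : Iso f M) (hK : KA f ε M A B)
    (hsurj : ∀ c, τ c = -(ε * c) → ∃ l, c = ε * l - τ l) (hA : ∀ a ∈ A, TA h M a) (hB : ∀ b ∈ B, TA h M b) :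
    ∀ x, f x x = 0 → ∀ c, τ c = -(ε * c) → T M x (c • fr h.toLL x) := by
  intro x hx c hc
  have hxt : x ∈ A ⊔ B := by rw [hP.top]; trivial
  obtain ⟨a, ha, b, hb, rfl⟩ := Submodule.mem_sup.1 hxt
  have hTa : ∀ c, τ c = -(ε * c) → T M a (c • fr h.toLL a) := by
    intro c hc
    obtain ⟨l, rfl⟩ := hsurj c hc
    exact hA a ha l
  have hTb : ∀ c, τ c = -(ε * c) → T M b (c • fr h.toLL b) := by
    intro c hc
    obtain ⟨l, rfl⟩ := hsurj c hc
    exact hB b hb l
  have haa := hP.ia a ha a ha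
  have hbb := hP.ib b hb b hb
  by_cases hab : f a b = 0
  · obtain ⟨-, p, hp, hpx⟩ := hTa c hc
    obtain ⟨-, r, hr, hrx⟩ := hTb c hc
    obtain ⟨k, hk, hkx⟩ := hK a ha (-(ε * c) • b) (B.smul_mem _ hb) (by rw [h.sr, hab, mul_zero])
    refine ⟨by rw [LinearMap.smul_apply, fr_apply, hx, smul_zero], p * r * k, M.mul_mem (M.mul_mem hp hr) hk, fun x => ?_⟩
    rw [Cfsg.Agent.H29.Trv.mul_apply, Cfsg.Agent.H29.Trv.mul_apply, hkx, hrx, hpx]
    simp only [LinearMap.smul_apply, fr_apply, h.sub_left, h.add_left, h.smul_left, h.sr, h.add_right, haa, hbb, hab, h.z hab]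
    have e1 : τ (-(ε * c)) = c := by
      rw [← hc, h.inv]
    rw [e1]
    simp only [smul_eq_mul]
    have e2 : ε * (f x a) * (-(ε * c)) = -(c * f x a) := by linear_combination (-(f x a) * c) * h.ee
    have e3 : (ε * f x a) • (-(ε * c) • b) = (-(c * f x a)) • b := by rw [smul_smul, e2]
    rw [e3]
    module
  · have hba : f b a = -(f a b) := by
      rw [h.add_left, h.add_right, h.add_right, haa, hbb] at hx
      linear_combination hx
    have h1 : τ ((f a b)⁻¹) = -(ε * (f a b)⁻¹) := by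
      rw [map_inv₀, h.sw, hba, mul_neg, inv_neg, mul_inv]
      have h3 : ε⁻¹ = ε := inv_eq_of_mul_eq_one_left h.ee
      rw [h3]
    obtain ⟨-, r, hr, hrx⟩ := hTb _ h1
    have h2 := T_conjS h hi (hTa c hc) hr
    rw [hrx, LinearMap.smul_apply, fr_apply, smul_eq_mul, inv_mul_cancel₀ hab, one_smul] at h2
    exact h2

/-- the maximality theorem -/
theorem maximal [Finite F] (h : SG τ ε f) {D : Fin 2 → Submodule F (ι → F)} (hm : 5 ≤ m) (hP : Pr f m (D 0) (D 1))
    (hi : Iso f N) (hsurj : ∀ c, τ c = -(ε * c) → ∃ l, c = ε * l - τ l) {c₀ : F} (hc₀ : c₀ ≠ 0) (hc₀' : τ c₀ = -(ε * c₀))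
    (hNT : ∀ u, f u u = 0 → ∀ c, τ c = -(ε * c) → T N u (c • fr h.toLL u))
    (hNK : ∀ u v, f u u = 0 → f v v = 0 → f u v = 0 → KM f ε N u v)
    (hgen : ∀ M : Subgroup (GL ι F), M ≤ N → (∀ x, f x x = 0 → ∀ c, τ c = -(ε * c) → T M x (c • fr h.toLL x)) → N ≤ M) :
    IsMaximalIn N (decompositionStabilizer D ⊓ N) := by
  refine Cfsg.Agent.H29.Trv.isMaximalIn_of inf_le_right ?_ ?_
  · intro hle
    obtain ⟨b, hb, hb0⟩ : ∃ b ∈ D 1, b ≠ 0 := (Submodule.ne_bot_iff _).1 (by
      intro h0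
      have := hP.fb
      rw [h0, finrank_bot] at this
      omega)
    obtain ⟨a, ha, ha0⟩ : ∃ a ∈ (D 0) ⊓ LinearMap.ker (fr h.toLL b), a ≠ 0 := (Submodule.ne_bot_iff _).1 (by
      intro h0
      have := finrank_inf_ker (D 0) (fr h.toLL b)
      rw [h0, finrank_bot, hP.fa] at this
      omega)
    have hab : f a b = 0 := ha.2
    have hxx : f (a + b) (a + b) = 0 := by
      rw [h.add_left, h.add_right, h.add_right, hP.ia a ha.1 a ha.1, hP.ib b hb b hb, hab, h.z hab]
      ring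
    obtain ⟨-, t, ht, htx⟩ := hNT _ hxx c₀ hc₀'
    obtain ⟨σ, hσ⟩ := (hle ht).1
    have h1 : (t : Matrix ι ι F) *ᵥ a = a := by
      rw [htx, LinearMap.smul_apply, fr_apply, h.add_right, hP.ia a ha.1 a ha.1, hab, add_zero, smul_zero, zero_smul,
        add_zero]
    have h2 : a ∈ D (σ 0) := by
      rw [← hσ 0]
      exact ⟨a, ha.1, h1⟩
    have h3 : σ 0 = 0 := by
      by_contra hne
      have : σ 0 = 1 := by omega
      rw [this] at h2
      have h4 : a ∈ D 0 ⊓ D 1 := ⟨ha.1, h2⟩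
      rw [hP.inf] at h4
      exact ha0 h4
    obtain ⟨y, hy, hyb⟩ : ∃ y ∈ D 0, f y b ≠ 0 := by
      obtain ⟨z, hz⟩ := h.nondeg b hb0
      have hzt : z ∈ D 0 ⊔ D 1 := by rw [hP.top]; trivial
      obtain ⟨a', ha', b', hb', rfl⟩ := Submodule.mem_sup.1 hzt
      rw [h.add_left, hP.ib b' hb' b hb, add_zero] at hz
      exact ⟨a', ha', hz⟩
    have h5 : (t : Matrix ι ι F) *ᵥ y ∈ D 0 := by
      have := hσ 0
      rw [h3] at this
      rw [← this]
      exact ⟨y, hy, rfl⟩
    rw [htx, LinearMap.smul_apply, fr_apply, h.add_right, hP.ia y hy a ha.1, zero_add, smul_eq_mul] at h5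
    have h6 := (Submodule.add_mem_iff_right _ hy).1 h5
    have h7 := (Submodule.smul_mem_iff _ (mul_ne_zero hc₀ hyb)).1 h6
    have h8 := (Submodule.add_mem_iff_right _ ha.1).1 h7
    have h9 : b ∈ D 0 ⊓ D 1 := ⟨h8, hb⟩
    rw [hP.inf] at h9
    exact hb0 h9
  · intro M hM1 hM2 g hgM hgH
    have hiM : Iso f M := fun g hg => hi g (hM2 hg)
    have hK : KA f ε M (D 0) (D 1) := by
      intro u hu v hv huv
      obtain ⟨k, hk, hkx⟩ := hNK u v (hP.ia u hu u hu) (hP.ib v hv v hv) huv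
      refine ⟨k, hM1 ⟨⟨1, fun i => ?_⟩, hk⟩, hkx⟩
      fin_cases i
      · apply map_eq_of _ rfl
        intro x hx
        rw [hkx, hP.ia x hx u hu, mul_zero, zero_smul, sub_zero]
        exact (D 0).add_mem hx ((D 0).smul_mem _ hu)
      · apply map_eq_of _ rfl
        intro x hx
        rw [hkx, hP.ib x hx v hv, zero_smul, add_zero]
        exact (D 1).sub_mem hx ((D 1).smul_mem _ hv)
    have hinj : Function.Injective (Matrix.toLin' (g : Matrix ι ι F)) := fun x y hxy => mulVec_inj (g := g) hxy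
    have hsurjg : Function.Surjective (Matrix.toLin' (g : Matrix ι ι F)) := fun x => ⟨_, self_inv_mulVec g x⟩
    have hP' : Pr f m ((D 0).map (Matrix.toLin' (g : Matrix ι ι F))) ((D 1).map (Matrix.toLin' (g : Matrix ι ι F))) := by
      refine ⟨?_, ?_, ?_, ?_, ?_, ?_⟩
      · rintro _ ⟨u, hu, rfl⟩ _ ⟨v, hv, rfl⟩
        rw [Matrix.toLin'_apply, Matrix.toLin'_apply, hiM g hgM]
        exact hP.ia u hu v hv
      · rintro _ ⟨u, hu, rfl⟩ _ ⟨v, hv, rfl⟩
        rw [Matrix.toLin'_apply, Matrix.toLin'_apply, hiM g hgM]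
        exact hP.ib u hu v hv
      · rw [← Submodule.map_sup, hP.top, Submodule.map_top, LinearMap.range_eq_top]
        exact hsurjg
      · rw [← Submodule.map_inf _ hinj, hP.inf, Submodule.map_bot]
      · have e : (D 0).map (Matrix.toLin' (g : Matrix ι ι F)) = (D 0).map (linE g).toLinearMap := rfl
        rw [e, LinearEquiv.finrank_map_eq, hP.fa]
      · have e : (D 1).map (Matrix.toLin' (g : Matrix ι ι F)) = (D 1).map (linE g).toLinearMap := rfl
        rw [e, LinearEquiv.finrank_map_eq, hP.fb]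
    have hK' : KA f ε M ((D 0).map (Matrix.toLin' (g : Matrix ι ι F))) ((D 1).map (Matrix.toLin' (g : Matrix ι ι F))) := by
      rintro _ ⟨u, hu, rfl⟩ _ ⟨v, hv, rfl⟩ huv
      rw [Matrix.toLin'_apply, Matrix.toLin'_apply] at huv ⊢
      rw [hiM g hgM] at huv
      exact (hK u hu v hv huv).conj h hgM (hiM g hgM)
    obtain ⟨s, hs, hsA, hsB⟩ := exists_swap h hP hNT hc₀ hc₀'
    have hsM : s ∈ M := by
      refine hM1 ⟨⟨Equiv.swap 0 1, fun i => ?_⟩, hs⟩
      fin_cases i
      · exact map_eq_of hsA (by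
          show finrank F (D 0) = finrank F (D (Equiv.swap 0 1 0))
          rw [Equiv.swap_apply_left, hP.fa, hP.fb])
      · exact map_eq_of hsB (by
          show finrank F (D 1) = finrank F (D (Equiv.swap 0 1 1))
          rw [Equiv.swap_apply_right, hP.fa, hP.fb])
    rcases stage1 h hm hP hP' hK hK' with ⟨u, huD, hu0, hT⟩ | ⟨e0, e1⟩ | ⟨e0, e1⟩
    · have hA : ∀ a ∈ D 0, TA h M a := by
        rcases huD with hu | hu
        · exact spread h hP hiM hK hu hu0 hT
        · refine spread h hP hiM hK (hsB u hu) (fun h0 => hu0 ?_) (hT.conj h hiM hsM)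
          exact mulVec_inj (g := s) (by rw [h0, mulVec_zero])
      have hB : ∀ b ∈ D 1, TA h M b := by
        obtain ⟨a, ha, ha0⟩ : ∃ a ∈ D 0, a ≠ 0 := (Submodule.ne_bot_iff _).1 (by
          intro h0
          have := hP.fa
          rw [h0, finrank_bot] at this
          omega)
        refine spread h hP.symm hiM (hK.symm h hP) (hsA a ha) (fun h0 => ha0 ?_) ((hA a ha).conj h hiM hsM)
        exact mulVec_inj (g := s) (by rw [h0, mulVec_zero])
      exact hgen M hM2 (all_T h hP hiM hK hsurj hA hB)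
    · exfalso
      refine hgH ⟨⟨1, fun i => ?_⟩, hM2 hgM⟩
      fin_cases i
      · exact e0
      · exact e1
    · exfalso
      refine hgH ⟨⟨Equiv.swap 0 1, fun i => ?_⟩, hM2 hgM⟩
      fin_cases i
      · show _ = D (Equiv.swap 0 1 0)
        rw [Equiv.swap_apply_left]
        exact e0
      · show _ = D (Equiv.swap 0 1 1)
        rw [Equiv.swap_apply_right]
        exact e1

end Cfsg.Agent.H21.GUp
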