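import Mathlib
import Cfsg.Agent.GUp3
import Cfsg.Agent.GUt2

set_option autoImplicit false

/-! existence of the quadratic elements; pairs from decompositions -/

namespace Cfsg.Agent.H21.GUp

open Matrix Module Cfsg.Geo Cfsg.Agent.H29.Trv

variable {ι : Type} [Fintype ι] [DecidableEq ι] {F : Type*} [Field F]
variable {τ : F ≃+* F} {ε : F} {f : (ι → F) → (ι → F) → F}
variable {m : ℕ}

theorem det_one_add_nil' {N : Matrix ι ι F} (hN : IsNilpotent N) : (1 + N).det = 1 := by
  have h1 : IsNilpotent (-N) := hN.neg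
  have h2 : (-N).charpoly = Polynomial.X ^ (Fintype.card ι) := by
    have := Matrix.isNilpotent_charpoly_sub_pow_of_isNilpotent h1
    exact sub_eq_zero.1 this.eq_zero
  have h3 := Matrix.eval_charpoly (-N) 1
  rw [h2] at h3
  rw [Polynomial.eval_pow, Polynomial.eval_X, one_pow] at h3
  rw [h3]
  congr 1
  ext i j
  simp [Matrix.scalar_apply]

/-- the quadratic elements -/
theorem exists_K (h : SG τ ε f) {u v : ι → F} (hu : f u u = 0) (hv : f v v = 0) (huv : f u v = 0) :
    ∃ g : GL ι F, g ∈ specialLinear ι F ∧ (∀ x, (g : Matrix ι ι F) *ᵥ x = x + f x v • u - (ε * f x u) • v) ∧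
      ∀ x y, f ((g : Matrix ι ι F) *ᵥ x) ((g : Matrix ι ι F) *ᵥ y) = f x y := by
  have hvu : f v u = 0 := h.z huv
  let A : (ι → F) →ₗ[F] (ι → F) := LinearMap.smulRight (fr h.toLL v) u - LinearMap.smulRight (ε • fr h.toLL u) v
  have hA : ∀ x, A x = f x v • u - (ε * f x u) • v := fun x => rfl
  have hA2 : ∀ x, A (A x) = 0 := by
    intro x
    rw [hA (A x), hA x, h.sub_left, h.sub_left, h.smul_left, h.smul_left, h.smul_left, h.smul_left,
      hu, hv, huv, hvu]
    simp
  let N := LinearMap.toMatrix' A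
  have hN : IsNilpotent N := by
    refine ⟨2, ?_⟩
    apply ext_mulVec
    intro x
    rw [pow_two, ← mulVec_mulVec]
    show LinearMap.toMatrix' A *ᵥ (LinearMap.toMatrix' A *ᵥ x) = _
    rw [LinearMap.toMatrix'_mulVec, LinearMap.toMatrix'_mulVec, hA2, zero_mulVec]
  have hdet := det_one_add_nil' hN
  let g : GL ι F := Matrix.GeneralLinearGroup.mkOfDetNeZero (1 + N) (by rw [hdet]; exact one_ne_zero)
  have hg : ∀ x, (g : Matrix ι ι F) *ᵥ x = x + f x v • u - (ε * f x u) • v := by
    intro x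
    show (1 + LinearMap.toMatrix' A) *ᵥ x = _
    rw [add_mulVec, one_mulVec, LinearMap.toMatrix'_mulVec, hA]
    abel
  refine ⟨g, (mem_SL_iff g).2 hdet, hg, ?_⟩
  intro x y
  rw [hg, hg]
  simp only [h.sub_left, h.sub_right, h.add_left, h.add_right, h.smul_left, h.sr, hu, hv, huv, hvu, map_mul, h.sw, h.te]
  rw [h.herm u y, h.herm v y, h.sw, h.sw]
  have e2 := h.ee
  linear_combination (-(ε ^ 2 * f x v * f u y)) * e2

theorem Pr.of_decomp {D : Fin 2 → Submodule F (ι → F)} (hD : IsMDecomposition m D)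
    (hts : ∀ i, IsTotallySingularFor f (D i)) : Pr f m (D 0) (D 1) where
  ia := hts 0
  ib := hts 1
  top := by
    have h1 := hD.iSup_eq_top
    rw [eq_top_iff] at h1 ⊢
    refine h1.trans (iSup_le fun i => ?_)
    fin_cases i
    · exact le_sup_left
    · exact le_sup_right
  inf := by
    have h1 := hD.indep.pairwiseDisjoint (show (0 : Fin 2) ≠ 1 by decide)
    exact h1.eq_bot
  fa := hD.finrank_eq 0
  fb := hD.finrank_eq 1

end Cfsg.Agent.H21.GUp
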