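import Mathlib
import Cfsg.Agent.H29_TrvFrm
import Cfsg.Agent.H29_Fm10

set_option autoImplicit false

/-! rational structures -/

namespace Cfsg.Agent.H21.GUt

open Matrix Module Cfsg.Geo Cfsg.Agent.H29.Trv

variable {ι : Type} [Fintype ι] [DecidableEq ι] {F : Type*} [Field F]

/-- rational vectors -/
def Rt (F₀ : Subfield F) (P : GL ι F) (x : ι → F) : Prop :=
  ∀ i, (((P⁻¹ : GL ι F) : Matrix ι ι F) *ᵥ x) i ∈ F₀

variable {F₀ : Subfield F} {P : GL ι F}

theorem Rt.zero : Rt F₀ P 0 := fun i => by rw [mulVec_zero]; exact F₀.zero_mem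

theorem Rt.add {x y : ι → F} (hx : Rt F₀ P x) (hy : Rt F₀ P y) : Rt F₀ P (x + y) := fun i => by
  rw [mulVec_add]; exact F₀.add_mem (hx i) (hy i)

theorem Rt.sub {x y : ι → F} (hx : Rt F₀ P x) (hy : Rt F₀ P y) : Rt F₀ P (x - y) := fun i => by
  rw [mulVec_sub]; exact F₀.sub_mem (hx i) (hy i)

theorem Rt.neg {x : ι → F} (hx : Rt F₀ P x) : Rt F₀ P (-x) := fun i => by
  rw [mulVec_neg]; exact F₀.neg_mem (hx i)

theorem Rt.smul {x : ι → F} (hx : Rt F₀ P x) {c : F} (hc : c ∈ F₀) : Rt F₀ P (c • x) := fun i => by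
  rw [mulVec_smul]; exact F₀.mul_mem hc (hx i)

theorem Rt.mulVec {x : ι → F} (hx : ∀ i, x i ∈ F₀) : Rt F₀ P ((P : Matrix ι ι F) *ᵥ x) := fun i => by
  rw [inv_mulVec_self]; exact hx i

theorem Rt.basis (i : ι) : Rt F₀ P ((P : Matrix ι ι F) *ᵥ Pi.single i 1) := by
  apply Rt.mulVec
  intro j
  rw [Pi.single_apply]
  split_ifs
  · exact F₀.one_mem
  · exact F₀.zero_mem

theorem Rt.exists_vec {x : ι → F} (hx : Rt F₀ P x) : ∃ y : ι → F, (∀ i, y i ∈ F₀) ∧ x = (P : Matrix ι ι F) *ᵥ y :=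
  ⟨_, hx, (self_inv_mulVec P x).symm⟩

/-- ratios in relations of rational vectors -/
theorem Rt.ratio {r r₁ r₂ : ι → F} (h : Rt F₀ P r) (h1 : Rt F₀ P r₁) (h2 : Rt F₀ P r₂) {c₁ c₂ : F}
    (hr : r = c₁ • r₁ + c₂ • r₂) (hind : r₁ ∉ Submodule.span F {r₂}) : c₁ ∈ F₀ := by
  obtain ⟨s, hs, rfl⟩ := h.exists_vec
  obtain ⟨s₁, hs1, rfl⟩ := h1.exists_vec
  obtain ⟨s₂, hs2, rfl⟩ := h2.exists_vec
  have e : s = c₁ • s₁ + c₂ • s₂ := by
    have := congrArg (fun x => ((P⁻¹ : GL ι F) : Matrix ι ι F) *ᵥ x) hr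
    simpa only [mulVec_add, mulVec_smul, inv_mulVec_self] using this
  by_cases h0 : ∀ j, s₂ j = 0
  · have h00 : s₂ = 0 := funext h0
    obtain ⟨i, hi⟩ : ∃ i, s₁ i ≠ 0 := by
      by_contra hcon
      push Not at hcon
      apply hind
      have : s₁ = 0 := funext hcon
      rw [this, mulVec_zero]
      exact Submodule.zero_mem _
    have ei := congrFun e i
    rw [h00] at ei
    simp only [Pi.add_apply, Pi.smul_apply, smul_eq_mul, Pi.zero_apply, mul_zero, add_zero] at ei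
    have h4 : c₁ = s i / s₁ i := by rw [eq_div_iff hi]; exact ei.symm
    rw [h4]
    exact F₀.div_mem (hs _) (hs1 _)
  push Not at h0
  obtain ⟨j, hj⟩ := h0
  obtain ⟨i, hij⟩ : ∃ i, s₁ i * s₂ j - s₁ j * s₂ i ≠ 0 := by
    by_contra hcon
    push Not at hcon
    apply hind
    refine Submodule.mem_span_singleton.2 ⟨s₁ j / s₂ j, ?_⟩
    rw [← mulVec_smul]
    congr 1
    funext i
    rw [Pi.smul_apply, smul_eq_mul]
    have := hcon i
    field_simp
    linear_combination -this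
  have ei := congrFun e i
  have ej := congrFun e j
  simp only [Pi.add_apply, Pi.smul_apply, smul_eq_mul] at ei ej
  have h3 : c₁ * (s₁ i * s₂ j - s₁ j * s₂ i) = s i * s₂ j - s j * s₂ i := by rw [ei, ej]; ring
  have h4 : c₁ = (s i * s₂ j - s j * s₂ i) / (s₁ i * s₂ j - s₁ j * s₂ i) := by
    rw [eq_div_iff hij]; exact h3
  rw [h4]
  exact F₀.div_mem (F₀.sub_mem (F₀.mul_mem (hs _) (hs2 _)) (F₀.mul_mem (hs _) (hs2 _)))
    (F₀.sub_mem (F₀.mul_mem (hs1 _) (hs2 _)) (F₀.mul_mem (hs1 _) (hs2 _)))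

theorem mem_subfield_iff {g : GL ι F} :
    g ∈ subfieldSubgroup F₀ P ↔ P⁻¹ * g * P ∈
      ((Matrix.GeneralLinearGroup.map (n := ι) (F₀.subtype : F₀ →+* F)).range ⊔ scalars ι F) := by
  constructor
  · rintro ⟨x, hx, rfl⟩
    have : P⁻¹ * (MulAut.conj P).toMonoidHom x * P = x := by
      simp [mul_assoc]
    rw [this]; exact hx
  · intro h
    refine ⟨_, h, ?_⟩
    simp [mul_assoc]

/-- a matrix which becomes defined over `F₀` after multiplying with a nonzero scalar -/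
theorem mem_range_sup' (F₀ : Subfield F) (g : GL ι F) (c : F) (hc : c ≠ 0)
    (h : ∀ i j, c * (g : Matrix ι ι F) i j ∈ F₀) :
    g ∈ ((Matrix.GeneralLinearGroup.map (n := ι) (F₀.subtype : F₀ →+* F)).range ⊔ scalars ι F) := by
  let M : Matrix ι ι F₀ := Matrix.of fun i j => ⟨c * (g : Matrix ι ι F) i j, h i j⟩
  have hM : M.map (F₀.subtype : F₀ →+* F) = c • (g : Matrix ι ι F) := by
    ext i j; rfl
  have hdet : M.det ≠ 0 := by
    intro h0
    have h1 : (F₀.subtype : F₀ →+* F) M.det = (c • (g : Matrix ι ι F)).det := by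
      rw [RingHom.map_det, ← hM]; rfl
    rw [h0, map_zero, Matrix.det_smul] at h1
    have h2 : (g : Matrix ι ι F).det ≠ 0 :=
      ((Matrix.isUnit_iff_isUnit_det _).1 g.isUnit).ne_zero
    exact mul_ne_zero (pow_ne_zero _ hc) h2 h1.symm
  let m : GL ι F₀ := Matrix.GeneralLinearGroup.mkOfDetNeZero M hdet
  have hg : g = Matrix.GeneralLinearGroup.map (F₀.subtype : F₀ →+* F) m *
      (Units.map (Matrix.scalar ι : F →+* Matrix ι ι F).toMonoidHom (Units.mk0 c hc))⁻¹ := by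
    rw [eq_mul_inv_iff_mul_eq]
    apply Units.ext
    rw [Units.val_mul]
    show (g : Matrix ι ι F) * Matrix.scalar ι c = M.map (F₀.subtype : F₀ →+* F)
    rw [hM, Matrix.scalar_apply, ← Matrix.smul_one_eq_diagonal, Matrix.mul_smul, mul_one]
  rw [hg]
  apply Subgroup.mul_mem
  · exact Subgroup.mem_sup_left ⟨m, rfl⟩
  · exact Subgroup.mem_sup_right (Subgroup.inv_mem _ ⟨_, rfl⟩)

/-- criterion for membership in a subfield group -/
theorem mem_subfield_of {g : GL ι F} {c : F} (hc : c ≠ 0)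
    (h : ∀ i, Rt F₀ P (c • ((g : Matrix ι ι F) *ᵥ ((P : Matrix ι ι F) *ᵥ Pi.single i 1)))) :
    g ∈ subfieldSubgroup F₀ P := by
  rw [mem_subfield_iff]
  apply mem_range_sup' F₀ _ c hc
  intro i j
  have h1 := h j i
  rw [mulVec_smul, mulVec_mulVec, mulVec_mulVec, ← Units.val_mul, ← Units.val_mul, mulVec_single_one] at h1
  exact h1

/-- transvections in subfield groups -/
theorem T_sub {v : ι → F} {φ : (ι → F) →ₗ[F] F} (h0 : φ v = 0) (hv : Rt F₀ P v) (hφ : ∀ x, Rt F₀ P x → φ x ∈ F₀) :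
    T (subfieldSubgroup F₀ P) v φ := by
  rw [← trv_mem_iff h0]
  apply mem_subfield_of (one_ne_zero)
  intro i
  rw [one_smul, trv_apply]
  exact (Rt.basis i).add (hv.smul (hφ _ (Rt.basis i)))

/-- an irrational image -/
theorem exists_irr {g : GL ι F} (hg : g ∉ subfieldSubgroup F₀ P) :
    ∃ v, Rt F₀ P v ∧ v ≠ 0 ∧ ∀ c : F, c ≠ 0 → ¬ Rt F₀ P (c • ((g : Matrix ι ι F) *ᵥ v)) := by
  by_contra hcon
  push Not at hcon
  apply hg
  set b : ι → (ι → F) := fun i => (P : Matrix ι ι F) *ᵥ Pi.single i 1 with hb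
  have hbR : ∀ i, Rt F₀ P (b i) := fun i => Rt.basis i
  have hb0 : ∀ i, b i ≠ 0 := by
    intro i h0
    have h1 : (Pi.single i 1 : ι → F) = 0 := by
      apply mulVec_inj (g := P)
      rw [mulVec_zero]
      exact h0
    have := congrFun h1 i
    simp at this
  have hbi : ∀ i j, i ≠ j → (g : Matrix ι ι F) *ᵥ b i ∉ Submodule.span F {(g : Matrix ι ι F) *ᵥ b j} := by
    intro i j hij hmem
    obtain ⟨a, ha⟩ := Submodule.mem_span_singleton.1 hmem
    rw [← mulVec_smul] at ha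
    have h1 := mulVec_inj ha
    rw [hb] at h1
    simp only at h1
    rw [← mulVec_smul] at h1
    have h2 := congrFun (mulVec_inj h1) i
    rw [Pi.smul_apply, Pi.single_eq_of_ne hij, Pi.single_eq_same, smul_zero] at h2
    exact zero_ne_one h2
  have hc : ∀ i, ∃ c : F, c ≠ 0 ∧ Rt F₀ P (c • ((g : Matrix ι ι F) *ᵥ b i)) := fun i => hcon _ (hbR i) (hb0 i)
  choose c hc0 hcR using hc
  rcases isEmpty_or_nonempty ι with hι | ⟨⟨i₀⟩⟩
  · exact mem_subfield_of one_ne_zero (fun i => (hι.false i).elim)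
  refine mem_subfield_of (hc0 i₀) (fun i => ?_)
  change Rt F₀ P (c i₀ • ((g : Matrix ι ι F) *ᵥ b i))
  by_cases hi : i = i₀
  · rw [hi]; exact hcR i₀
  · obtain ⟨d, hd0, hd⟩ := hcon (b i + b i₀) ((hbR i).add (hbR i₀)) (by
      intro h0
      have h1 : b i = (-1 : F) • b i₀ := by
        rw [neg_one_smul]
        exact eq_neg_of_add_eq_zero_left h0
      apply hbi i i₀ hi
      rw [h1, mulVec_smul]
      exact Submodule.smul_mem _ _ (Submodule.mem_span_singleton_self _))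
    have e1 : d • ((g : Matrix ι ι F) *ᵥ (b i + b i₀)) = (d * (c i)⁻¹) • (c i • ((g : Matrix ι ι F) *ᵥ b i)) +
        (d * (c i₀)⁻¹) • (c i₀ • ((g : Matrix ι ι F) *ᵥ b i₀)) := by
      rw [smul_smul, smul_smul, mul_assoc, mul_assoc, inv_mul_cancel₀ (hc0 i), inv_mul_cancel₀ (hc0 i₀), mulVec_add]
      module
    have hns : ∀ i j, i ≠ j → c i • ((g : Matrix ι ι F) *ᵥ b i) ∉ Submodule.span F {c j • ((g : Matrix ι ι F) *ᵥ b j)} := by
      intro i j hij hmem
      apply hbi i j hij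
      have h1 := (Submodule.smul_mem_iff _ (hc0 i)).1 hmem
      obtain ⟨a, ha⟩ := Submodule.mem_span_singleton.1 h1
      rw [← ha]
      exact Submodule.smul_mem _ _ (Submodule.smul_mem _ _ (Submodule.mem_span_singleton_self _))
    have h1 := Rt.ratio hd (hcR i) (hcR i₀) e1 (hns i i₀ hi)
    have h2 := Rt.ratio hd (hcR i₀) (hcR i) (e1.trans (add_comm _ _)) (hns i₀ i (Ne.symm hi))
    have h3 : c i₀ / c i ∈ F₀ := by
      have := F₀.div_mem h1 h2
      have e2 : d * (c i)⁻¹ / (d * (c i₀)⁻¹) = c i₀ / c i := by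
        have := hc0 i
        have := hc0 i₀
        field_simp
      rwa [e2] at this
    have h4 := (hcR i).smul h3
    rwa [smul_smul, div_mul_cancel₀ _ (hc0 i)] at h4

theorem symm_mem [Fintype F] (σ : F ≃+* F) {x : F} (hx : x ∈ F₀) : σ.symm x ∈ F₀ := by
  rw [Cfsg.Agent.H29.Fm.subfield_mem_iff] at hx ⊢
  rw [← map_pow, hx]

/-- sesquilinear forms with a rational structure -/
structure RF (σ : F ≃+* F) (f : (ι → F) → (ι → F) → F) (F₀ : Subfield F) (P : GL ι F) (ζ : F) : Prop extends LL f where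
  smul_right : ∀ (c : F) (x v : ι → F), f x (c • v) = σ c * f x v
  z0 : ζ ≠ 0
  rat : ∀ x y, Rt F₀ P x → Rt F₀ P y → ζ * f x y ∈ F₀

variable {σ : F ≃+* F} {f : (ι → F) → (ι → F) → F} {ζ : F}

theorem RF.zero_right (h : RF σ f F₀ P ζ) (x : ι → F) : f x 0 = 0 := h.toLL.zero_right x

theorem RF.sum_right (h : RF σ f F₀ P ζ) {α : Type*} (s : Finset α) (u : α → (ι → F)) (v : ι → F) :
    f v (∑ i ∈ s, u i) = ∑ i ∈ s, f v (u i) := by
  classical
  induction s using Finset.induction_on with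
  | empty => rw [Finset.sum_empty, Finset.sum_empty, h.zero_right]
  | insert a s ha ih => rw [Finset.sum_insert ha, Finset.sum_insert ha, h.add_right, ih]

/-- rational separation -/
theorem RF.sep [Fintype F] (h : RF σ f F₀ P ζ) {B : Set (ι → F)} (hB : ∀ b ∈ B, Rt F₀ P b) {a : ι → F}
    (ha : a ∉ Submodule.span F B) : ∃ z, Rt F₀ P z ∧ (∀ b ∈ B, f b z = 0) ∧ f a z ≠ 0 := by
  obtain ⟨z, hz1, hz2⟩ := exists_sep h.toLL _ ha
  let β := Module.finBasis F₀ F
  let zk : Fin (Module.finrank F₀ F) → (ι → F) := fun k => (P : Matrix ι ι F) *ᵥ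
    (fun i => σ.symm (β.repr (σ ((((P⁻¹ : GL ι F) : Matrix ι ι F) *ᵥ z) i)) k : F))
  have hzk : ∀ k, Rt F₀ P (zk k) := fun k => Rt.mulVec (fun i => symm_mem σ (Subtype.mem _))
  have hz : z = ∑ k, σ.symm (β k) • zk k := by
    have e1 : z = (P : Matrix ι ι F) *ᵥ (((P⁻¹ : GL ι F) : Matrix ι ι F) *ᵥ z) := (self_inv_mulVec P z).symm
    conv_lhs => rw [e1]
    simp only [zk]
    simp only [← mulVec_smul]
    rw [← Matrix.mulVec_sum]
    congr 1
    funext i
    rw [Finset.sum_apply]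
    apply σ.injective
    rw [map_sum]
    have h2 := β.sum_repr (σ ((((P⁻¹ : GL ι F) : Matrix ι ι F) *ᵥ z) i))
    conv_lhs => rw [← h2]
    apply Finset.sum_congr rfl
    intro k _
    rw [Pi.smul_apply, smul_eq_mul, map_mul, σ.apply_symm_apply, σ.apply_symm_apply, mul_comm]
    rfl
  have hf : ∀ x, f x z = ∑ k, β k * f x (zk k) := by
    intro x
    conv_lhs => rw [hz]
    rw [h.sum_right]
    apply Finset.sum_congr rfl
    intro k _
    rw [h.smul_right, σ.apply_symm_apply]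
  have hzero : ∀ b ∈ B, ∀ k, f b (zk k) = 0 := by
    intro b hb k
    have h1 := hf b
    rw [hz2 b (Submodule.subset_span hb)] at h1
    have h3 : ∑ k, (⟨ζ * f b (zk k), h.rat _ _ (hB b hb) (hzk k)⟩ : F₀) • β k = 0 := by
      have : ∑ k, (⟨ζ * f b (zk k), h.rat _ _ (hB b hb) (hzk k)⟩ : F₀) • β k = ζ * ∑ k, β k * f b (zk k) := by
        rw [Finset.mul_sum]
        apply Finset.sum_congr rfl
        intro k _
        show ζ * f b (zk k) * β k = _
        ring
      rw [this, ← h1, mul_zero]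
    have h4 := Fintype.linearIndependent_iff.1 β.linearIndependent _ h3 k
    have h5 := congrArg Subtype.val h4
    exact (mul_eq_zero.1 h5).resolve_left h.z0
  obtain ⟨k, hk⟩ : ∃ k, f a (zk k) ≠ 0 := by
    by_contra hcon
    push Not at hcon
    have h1 := hf a
    rw [hz1] at h1
    simp only [hcon, mul_zero, Finset.sum_const_zero] at h1
    exact one_ne_zero h1
  exact ⟨zk k, hzk k, fun b hb => hzero b hb k, hk⟩

end Cfsg.Agent.H21.GUt
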