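import Mathlib
import Cfsg.Agent.GUt2

set_option autoImplicit false

/-! the unitary group in the linear group -/

namespace Cfsg.Agent.H21.GUt

open Matrix Module Cfsg.Geo Cfsg.Agent.H29.Trv Cfsg.Agent.H29.Fm

variable {F : Type*} [Field F] {n : ℕ} {τ : F ≃+* F} {f : (Fin n → F) → (Fin n → F) → F}
variable {M : Subgroup (GL (Fin n) F)}

theorem UF.ne_symm (h : UF τ f) {x y : Fin n → F} (hxy : f x y ≠ 0) : f y x ≠ 0 := by
  rw [← h.sw]; exact (map_ne_zero τ).2 hxy

theorem UF.zero_symm (h : UF τ f) {x y : Fin n → F} (hxy : f x y = 0) : f y x = 0 := by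
  rw [← h.sw, hxy, map_zero]

/-- isotropic vectors orthogonal to `y` and not to `z` -/
theorem UF.iso_sep [Fintype F] (h : UF τ f) (hn : 4 ≤ n) {y z : Fin n → F} (hy : y ≠ 0) (hz : z ∉ Submodule.span F {y}) :
    ∃ w, f w w = 0 ∧ f w y = 0 ∧ f w z ≠ 0 := by
  by_contra hcon
  push Not at hcon
  obtain ⟨e, he⟩ := h.nd' y hy
  have h2 : 2 ≤ finrank F (perp h.toSFm (Submodule.span F {y, e})) := by
    have h3 := finrank_perp h.toSFm (Submodule.span F {y, e})
    have h4 : finrank F (Submodule.span F {y, e}) ≤ 2 := by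
      classical
      have := finrank_span_finset_le_card (R := F) ({y, e} : Finset (Fin n → F))
      rw [Finset.coe_pair] at this
      exact this.trans Finset.card_le_two
    omega
  obtain ⟨x, hx, hx0, hxx⟩ := h.exists_iso h2
  have hxy : f x y = 0 := hx y (Submodule.subset_span (by simp))
  have hxe : f x e = 0 := hx e (Submodule.subset_span (by simp))
  have hxns : x ∉ Submodule.span F {y} := by
    intro hm
    obtain ⟨t, rfl⟩ := Submodule.mem_span_singleton.1 hm
    rw [h.smul_left] at hxe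
    rcases mul_eq_zero.1 hxe with h5 | h5
    · rw [h5, zero_smul] at hx0; exact hx0 rfl
    · exact he h5
  obtain ⟨z₀, hz1, hz2⟩ := exists_sep h.LL _ hxns
  have hyU : ∀ v, v ∈ perp h.toSFm (Submodule.span F {y}) ↔ f v y = 0 := by
    intro v
    constructor
    · intro hv; exact hv y (Submodule.mem_span_singleton_self y)
    · intro hv w hw
      obtain ⟨t, rfl⟩ := Submodule.mem_span_singleton.1 hw
      rw [h.toSFm.smul_right, hv, mul_zero]
  have hzU : ∀ v, v ∈ perp h.toSFm (Submodule.span F {z}) ↔ f v z = 0 := by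
    intro v
    constructor
    · intro hv; exact hv z (Submodule.mem_span_singleton_self z)
    · intro hv w hw
      obtain ⟨t, rfl⟩ := Submodule.mem_span_singleton.1 hw
      rw [h.toSFm.smul_right, hv, mul_zero]
  have hle := h.span_iso (U := perp h.toSFm (Submodule.span F {y})) (W := perp h.toSFm (Submodule.span F {z}))
    (x := x) (z₀ := z₀) ((hyU x).2 hxy) hxx ((hyU z₀).2 (h.zero_symm (hz2 y (Submodule.mem_span_singleton_self y))))
    (h.ne_symm (by rw [hz1]; exact one_ne_zero)) (fun v hv hvv => (hzU v).2 (hcon v hvv ((hyU v).1 hv)))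
  obtain ⟨s, hs1, hs2⟩ := exists_sep h.LL _ hz
  have := (hzU s).1 (hle ((hyU s).2 (h.zero_symm (hs2 y (Submodule.mem_span_singleton_self y)))))
  exact (h.ne_symm (by rw [hs1]; exact one_ne_zero)) this

/-- isotropic vectors not orthogonal to two given ones -/
theorem UF.iso_both [Fintype F] (h : UF τ f) {x y : Fin n → F} (hx : x ≠ 0) (hxx : f x x = 0)
    (hy : y ≠ 0) (hyy : f y y = 0) : ∃ w, f w w = 0 ∧ f w x ≠ 0 ∧ f w y ≠ 0 := by
  have one : ∀ x : Fin n → F, x ≠ 0 → f x x = 0 → ∃ w, f w w = 0 ∧ f w x ≠ 0 := by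
    intro x hx hxx
    obtain ⟨z, hz⟩ := h.nd x hx
    obtain ⟨a, ha⟩ := h.adj hxx hz (l := 0) (map_zero τ)
    refine ⟨_, ha, ?_⟩
    rw [h.add_left, h.smul_left, hxx, mul_zero, add_zero]
    exact hz
  obtain ⟨w1, hw1, hw1x⟩ := one x hx hxx
  obtain ⟨w2, hw2, hw2y⟩ := one y hy hyy
  by_cases h1 : f w1 y = 0
  · by_cases h2 : f w2 x = 0
    · -- w1 + t w2
      obtain ⟨κ, hκ, hκ2⟩ := h.tz
      obtain ⟨t, ht0, ht⟩ : ∃ t : F, t ≠ 0 ∧ t * f w2 w1 + τ t * f w1 w2 = 0 := by
        by_cases h3 : f w2 w1 = 0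
        · exact ⟨1, one_ne_zero, by rw [h3, h.zero_symm h3]; ring⟩
        · refine ⟨κ / f w2 w1, div_ne_zero hκ h3, ?_⟩
          rw [map_div₀, h.sw, div_mul_cancel₀ _ h3, div_mul_cancel₀ _ (h.ne_symm h3), hκ2]
      refine ⟨w1 + t • w2, ?_, ?_, ?_⟩
      · rw [h.add_left, h.toSFm.add_right, h.toSFm.add_right, h.smul_left, h.smul_left, h.toSFm.smul_right,
          h.toSFm.smul_right, hw1, hw2]
        linear_combination ht
      · rw [h.add_left, h.smul_left, h2, mul_zero, add_zero]; exact hw1x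
      · rw [h.add_left, h.smul_left, h1, zero_add]; exact mul_ne_zero ht0 hw2y
    · exact ⟨w2, hw2, h2, hw2y⟩
  · exact ⟨w1, hw1, hw1x, h1⟩

/-- all transvections with the given centre and axis its perp -/
def PT (h : UF τ f) (M : Subgroup (GL (Fin n) F)) (v : Fin n → F) : Prop :=
  ∀ a : F, T M v (a • fr h.LL v)

theorem PT.smul {h : UF τ f} {v : Fin n → F} (hv : PT h M v) (a : F) : PT h M (a • v) := by
  intro c
  rw [fr_smulU h, T_smul_iff, smul_smul, smul_smul]
  exact hv _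

theorem PT.of_smul {h : UF τ f} {v : Fin n → F} {a : F} (ha : a ≠ 0) (hv : PT h M (a • v)) : PT h M v := by
  have h1 := hv.smul a⁻¹
  rwa [smul_smul, inv_mul_cancel₀ ha, one_smul] at h1

theorem PT.conj {h : UF τ f} {v : Fin n → F} (hv : PT h M v) {g : GL (Fin n) F} (hg : g ∈ M)
    (hiso : ∀ x y, f ((g : Matrix (Fin n) (Fin n) F) *ᵥ x) ((g : Matrix (Fin n) (Fin n) F) *ᵥ y) = f x y) :
    PT h M ((g : Matrix (Fin n) (Fin n) F) *ᵥ v) := by
  intro c
  have h1 := hv c
  have h2 : T M v (fr h.LL (τ c • v)) := by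
    rwa [fr_smulU h, h.inv]
  have h3 := h2.conj_isom h.LL hg hiso
  rw [mulVec_smul, fr_smulU h, h.inv] at h3
  exact h3

theorem PT.line {h : UF τ f} {u v : Fin n → F} (hu : PT h M u) (huu : f u u = 0) (hv : FT h M v) (huv : f u v ≠ 0) {a : F}
    (ha : f (u + a • v) (u + a • v) = 0) : PT h M (u + a • v) := by
  have hvu : f v u ≠ 0 := h.ne_symm huv
  have h1 : a * f v u + τ a * f u v = 0 := by
    rw [h.add_left, h.toSFm.add_right, h.toSFm.add_right, h.smul_left, h.smul_left, h.toSFm.smul_right,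
      h.toSFm.smul_right, huu, hv.iso] at ha
    linear_combination ha
  have h2 : a / f u v + τ (a / f u v) = 0 := by
    rw [map_div₀, h.sw, div_add_div _ _ huv hvu]
    rw [div_eq_zero_iff]
    left
    linear_combination h1
  obtain ⟨-, g, hg, hgx⟩ := hv _ h2
  have hgx' : ∀ x, (g : Matrix (Fin n) (Fin n) F) *ᵥ x = x + (a / f u v * f x v) • v := fun x => by
    rw [hgx]; rfl
  have h3 := hu.conj hg (fun x y => by rw [hgx', hgx', h.isomT hv.iso h2])
  rw [hgx', div_mul_cancel₀ _ huv] at h3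
  exact h3

theorem PT.step {h : UF τ f} (hFull : ∀ v, f v v = 0 → FT h M v) {x y : Fin n → F} (hy : PT h M y) (hyy : f y y = 0)
    (hxx : f x x = 0) (hyx : f y x ≠ 0) : PT h M x := by
  obtain ⟨κ, hκ, hκ2⟩ := h.tz
  have hxy := h.ne_symm hyx
  set a := κ / f x y with ha
  have ha0 : a ≠ 0 := div_ne_zero hκ hxy
  have h1 : f (y + a • x) (y + a • x) = 0 := by
    rw [h.add_left, h.toSFm.add_right, h.toSFm.add_right, h.smul_left, h.smul_left, h.toSFm.smul_right,
      h.toSFm.smul_right, hxx, hyy, ha, map_div₀, h.sw, div_mul_cancel₀ _ hxy, div_mul_cancel₀ _ hyx]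
    linear_combination hκ2
  have h2 := hy.line hyy (hFull x hxx) hyx h1
  have h3 : y + a • x + (-1 : F) • y = a • x := by rw [neg_one_smul]; abel
  have h4 := h2.line h1 (hFull y hyy) (a := -1) (by
    rw [h.add_left, hyy, zero_add, h.smul_left]; exact mul_ne_zero ha0 hxy) (by
    rw [h3, h.smul_left, h.toSFm.smul_right, hxx, mul_zero, mul_zero])
  rw [h3] at h4
  exact h4.of_smul ha0

theorem PT.all [Fintype F] {h : UF τ f} (hFull : ∀ v, f v v = 0 → FT h M v) {y : Fin n → F} (hy : PT h M y)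
    (hy0 : y ≠ 0) (hyy : f y y = 0) {x : Fin n → F} (hxx : f x x = 0) : PT h M x := by
  by_cases hx0 : x = 0
  · subst hx0
    exact fun a => T_zero_left _
  obtain ⟨w, hw, hwx, hwy⟩ := h.iso_both hx0 hxx hy0 hyy
  exact (hy.step hFull hyy hw (h.ne_symm hwy)).step hFull hw hxx hwx

/-- all isometric transvections and one more -/
theorem ctr_top [Fintype F] {h : UF τ f} (hn : 4 ≤ n) (hFull : ∀ v, f v v = 0 → FT h M v) {y z₁ : Fin n → F} (hy0 : y ≠ 0)
    (hyy : f y y = 0) (hz : z₁ ∉ Submodule.span F {y}) (hT : T M y (fr h.LL z₁)) : ctr M = ⊤ := by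
  have hyz : f y z₁ = 0 := hT.1
  obtain ⟨κ, hκ, hκ2⟩ := h.tz
  -- moving
  have hmv : ∀ w, f w w = 0 → f y w = 0 → T M y (fr h.LL ((κ * f z₁ w) • w)) := by
    intro w hw hyw
    obtain ⟨-, k, hk, hkx⟩ := hFull w hw κ hκ2
    have hkx' : ∀ x, (k : Matrix (Fin n) (Fin n) F) *ᵥ x = x + (κ * f x w) • w := fun x => by
      rw [hkx]; rfl
    have h1 := hT.conj_isom h.LL hk (fun x y => by rw [hkx', hkx', h.isomT hw hκ2])
    rw [hkx', hkx', hyw, mul_zero, zero_smul, add_zero, fr_add] at h1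
    have h2 := h1.add_right hT.neg
    have e : fr h.LL z₁ + fr h.LL ((κ * f z₁ w) • w) + -fr h.LL z₁ = fr h.LL ((κ * f z₁ w) • w) := by abel
    rwa [e] at h2
  obtain ⟨w, hw, hwy, hwz⟩ := h.iso_sep hn hy0 hz
  have hyw := h.zero_symm hwy
  have hzw := h.ne_symm hwz
  have hPy : PT h M y := by
    intro a
    obtain ⟨s, hs⟩ : ∃ s : F, κ * f z₁ w * s = τ a := by
      refine ⟨τ a / (κ * f z₁ w), ?_⟩
      rw [mul_div_cancel₀ _ (mul_ne_zero hκ hzw)]
    have h1 := hmv w hw hyw
    have h2 := hmv (w + s • y) (by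
      rw [h.add_left, h.toSFm.add_right, h.toSFm.add_right, h.smul_left, h.smul_left, h.toSFm.smul_right,
        h.toSFm.smul_right, hw, hwy, hyw, hyy]; ring) (by
      rw [h.toSFm.add_right, h.toSFm.smul_right, hyy, hyw]; ring)
    have e1 : f z₁ (w + s • y) = f z₁ w := by
      rw [h.toSFm.add_right, h.toSFm.smul_right, h.zero_symm hyz, mul_zero, add_zero]
    rw [e1, smul_add, fr_add, smul_smul, hs] at h2
    have h3 := h2.add_right h1.neg
    have e : fr h.LL ((κ * f z₁ w) • w) + fr h.LL (τ a • y) + -fr h.LL ((κ * f z₁ w) • w) = a • fr h.LL y := by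
      rw [fr_smulU h (τ a), h.inv]; abel
    rwa [e] at h3
  have hPall : ∀ x, f x x = 0 → PT h M x := fun x hx => hPy.all hFull hy0 hyy hx
  -- the subspace
  let Z : Submodule F (Fin n → F) :=
    { carrier := {z | ∀ c : F, T M y (c • fr h.LL z)}
      zero_mem' := by
        intro c
        have : c • fr h.LL 0 = 0 := by
          have := fr_smulU h 0 (0 : Fin n → F)
          rw [zero_smul, map_zero, zero_smul] at this
          rw [this, smul_zero]
        rw [this]
        exact T_zero_right y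
      add_mem' := by
        intro a b ha hb c
        rw [fr_add, smul_add]
        exact (ha c).add_right (hb c)
      smul_mem' := by
        intro s a ha c
        rw [fr_smulU h, smul_smul]
        exact ha _ }
  have hZ1 : ∀ z, (∃ c : F, c ≠ 0 ∧ T M y (c • fr h.LL z)) → ∀ x, f x x = 0 → f y x = 0 → f x z ≠ 0 → x ∈ Z := by
    rintro z ⟨c, hc, hTz⟩ x hx hyx hxz a
    have h1 := T.comm (hPall x hx (a / (c * f x z))) hTz (by
      rw [LinearMap.smul_apply, fr_apply, hyx, smul_zero])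
    rw [LinearMap.smul_apply, fr_apply, smul_smul, smul_eq_mul, mul_div_cancel₀ _ (mul_ne_zero hc hxz)] at h1
    exact h1
  have hT1 : ∃ c : F, c ≠ 0 ∧ T M y (c • fr h.LL z₁) := ⟨1, one_ne_zero, by rwa [one_smul]⟩
  have hwZ : w ∈ Z := hZ1 z₁ hT1 w hw hyw hwz
  have hwns : w ∉ Submodule.span F {y} := by
    intro hm
    obtain ⟨t, rfl⟩ := Submodule.mem_span_singleton.1 hm
    rw [h.smul_left, hyz, mul_zero] at hwz
    exact hwz rfl
  obtain ⟨z₀, hz1, hz2⟩ := exists_sep h.LL _ hwns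
  have hyU : ∀ v, v ∈ perp h.toSFm (Submodule.span F {y}) ↔ f v y = 0 := by
    intro v
    constructor
    · intro hv; exact hv y (Submodule.mem_span_singleton_self y)
    · intro hv w hw
      obtain ⟨t, rfl⟩ := Submodule.mem_span_singleton.1 hw
      rw [h.toSFm.smul_right, hv, mul_zero]
  have hle := h.span_iso (U := perp h.toSFm (Submodule.span F {y})) (W := Z)
    (x := w) (z₀ := z₀) ((hyU w).2 hwy) hw ((hyU z₀).2 (h.zero_symm (hz2 y (Submodule.mem_span_singleton_self y))))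
    (h.ne_symm (by rw [hz1]; exact one_ne_zero)) (by
      intro x hxU hxx
      have hxy := (hyU x).1 hxU
      have hyx := h.zero_symm hxy
      by_cases h1 : f x z₁ = 0
      · by_cases h2 : f x w = 0
        · have h3 : x + w ∈ Z := hZ1 z₁ hT1 (x + w) (by
            rw [h.add_left, h.toSFm.add_right, h.toSFm.add_right, hxx, hw, h2, h.zero_symm h2]; ring) (by
            rw [h.toSFm.add_right, hyx, hyw, add_zero]) (by
            rw [h.add_left, h1, zero_add]; exact hwz)
          exact (Z.add_mem_iff_left hwZ).1 h3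
        · exact hZ1 w ⟨1, one_ne_zero, hwZ 1⟩ x hxx hyx h2
      · exact hZ1 z₁ hT1 x hxx hyx h1)
  have hyc : y ∈ ctr M := by
    intro φ hφ
    obtain ⟨z, rfl⟩ := fr_surjective h.LL φ
    have h1 := hle ((hyU z).2 (h.zero_symm hφ)) 1
    rwa [one_smul] at h1
  -- all of V
  have hc1 : ∀ x, f x x = 0 → f y x ≠ 0 → x ∈ ctr M := by
    intro x hxx hyx
    obtain ⟨-, k, hk, hkx⟩ := hFull x hxx κ hκ2
    have h1 := ctr_conj hyc hk
    rw [hkx, LinearMap.smul_apply, fr_apply, smul_eq_mul] at h1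
    exact ((ctr M).smul_mem_iff (mul_ne_zero hκ hyx)).1 (((ctr M).add_mem_iff_right hyc).1 h1)
  have hc2 : ∀ z, f z y ≠ 0 → z ∈ ctr M := by
    intro z hzy
    obtain ⟨a, ha⟩ := h.adj hyy hzy (l := 0) (map_zero τ)
    have h1 := hc1 _ ha (by
      rw [h.toSFm.add_right, h.toSFm.smul_right, hyy, mul_zero, add_zero]
      exact h.ne_symm hzy)
    exact ((ctr M).add_mem_iff_left ((ctr M).smul_mem a hyc)).1 h1
  obtain ⟨z₂, hz₂⟩ := h.nd y hy0
  rw [eq_top_iff]
  intro z _
  by_cases h0 : f z y = 0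
  · have h2 := hc2 (z + z₂) (by rw [h.add_left, h0, zero_add]; exact hz₂)
    exact ((ctr M).add_mem_iff_left (hc2 z₂ hz₂)).1 h2
  · exact hc2 z h0

end Cfsg.Agent.H21.GUt
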