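import Mathlib
import Cfsg.Agent.H29_TrvFrm

set_option autoImplicit false

/-! transvections in the symplectic group -/

namespace Cfsg.Agent.H29.Trv

open Matrix

section Full

variable {ι : Type} [Fintype ι] [DecidableEq ι] {F : Type*} [Field F]
variable {f : (ι → F) → (ι → F) → F} {M : Subgroup (GL ι F)}

theorem Full.smul (hf : Alt f) {v : ι → F} (h : Full hf M v) (c : F) : Full hf M (c • v) := by
  intro a
  rw [fr_smul hf, smul_smul, T_smul_iff, smul_smul]
  exact h _

theorem Full.zero (hf : Alt f) : Full hf M 0 := fun _ => T_zero_left _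

theorem Full.conj (hf : Alt f) {v : ι → F} (h : Full hf M v) {g : GL ι F} (hg : g ∈ M)
    (hiso : ∀ x y, f ((g : Matrix ι ι F) *ᵥ x) ((g : Matrix ι ι F) *ᵥ y) = f x y) :
    Full hf M ((g : Matrix ι ι F) *ᵥ v) := by
  intro a
  have := h a
  rw [← fr_smul hf] at this
  have h2 := this.conj_isom hf.toLL hg hiso
  rw [mulVec_smul, fr_smul hf] at h2
  exact h2

/-- moving a full vector along another full vector -/
theorem Full.move (hf : Alt f) {v u : ι → F} (hv : Full hf M v) (hu : Full hf M u) (a : F)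
    (hne : f u v ≠ 0) : Full hf M (u + a • v) := by
  obtain ⟨-, g, hg, h2⟩ := hv (a * (f u v)⁻¹)
  have hiso : ∀ p q, f ((g : Matrix ι ι F) *ᵥ p) ((g : Matrix ι ι F) *ᵥ q) = f p q := by
    intro p q
    rw [h2, h2]
    exact hf.isom v _ p q
  have h3 := hu.conj hf hg hiso
  rw [h2, LinearMap.smul_apply, fr_apply, smul_eq_mul, inv_mul_cancel_right₀ hne] at h3
  exact h3

end Full

section Std

variable {m : ℕ} {F : Type*} [Field F]

theorem altStd (m : ℕ) (F : Type*) [Field F] : Alt (Cfsg.sympForm m F) where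
  add_left := Cfsg.Agent.H5.Symp.add_left
  smul_left := Cfsg.Agent.H5.Symp.smul_left
  add_right := Cfsg.Agent.H5.Symp.add_right
  nondeg := by
    intro v hv
    obtain ⟨x, hx⟩ := Cfsg.Agent.H5.Symp.exists_ne hv
    refine ⟨x, ?_⟩
    rw [Cfsg.Agent.H5.Symp.swap]
    exact neg_ne_zero.2 hx
  smul_right := Cfsg.Agent.H5.Symp.smul_right
  self := Cfsg.Agent.H5.Symp.self

theorem mem_spGL_iff (g : GL (Fin m ⊕ Fin m) F) : g ∈ Cfsg.spGL m F ↔
    ∀ x y, Cfsg.sympForm m F ((g : Matrix _ _ F) *ᵥ x) ((g : Matrix _ _ F) *ᵥ y) =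
      Cfsg.sympForm m F x y := Iff.rfl

theorem T_spGL (v : Fin m ⊕ Fin m → F) : Full (altStd m F) (Cfsg.spGL m F) v := by
  intro a
  have h0 : (a • fr (altStd m F).toLL v) v = 0 := by simp [(altStd m F).self]
  rw [← trv_mem_iff h0, mem_spGL_iff]
  intro x y
  rw [trv_apply, trv_apply]
  simp only [LinearMap.smul_apply, fr_apply, smul_eq_mul]
  exact (altStd m F).isom v a x y

/-- If all vectors are full then `M` contains the symplectic group. -/
theorem Sp_le_of_full {M : Subgroup (GL (Fin m ⊕ Fin m) F)}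
    (h : ∀ v, Full (altStd m F) M v) : Cfsg.spGL m F ≤ M := by
  classical
  -- the monoid hom from Mathlib's symplectic group
  let ρ : Matrix.symplecticGroup (Fin m) F →* GL (Fin m ⊕ Fin m) F :=
    { toFun := fun A => ⟨A.1, (A⁻¹).1, by
        have := congrArg Subtype.val (mul_inv_cancel A)
        exact this, by
        have := congrArg Subtype.val (inv_mul_cancel A)
        exact this⟩
      map_one' := Units.ext rfl
      map_mul' := fun A B => Units.ext rfl }
  have hρ : ∀ A, (ρ A : Matrix (Fin m ⊕ Fin m) (Fin m ⊕ Fin m) F) = A.1 := fun A => rfl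
  have key : ∀ A, ρ A ∈ M := by
    intro A
    have hA : A ∈ Cfsg.Agent.H5.Symp.H m F := by
      rw [Cfsg.Agent.H5.Symp.H_eq_top]; trivial
    have hle : Cfsg.Agent.H5.Symp.H m F ≤ M.comap ρ := by
      unfold Cfsg.Agent.H5.Symp.H
      rw [Subgroup.closure_le]
      rintro B ⟨w, c, hB⟩
      show ρ B ∈ M
      obtain ⟨-, t, ht, h2⟩ := h w c
      have : ρ B = t := by
        apply GL_ext
        intro x
        rw [h2, hρ, hB, Cfsg.Agent.H5.Symp.T_mulVec]
        rfl
      rw [this]
      exact ht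
    exact hle hA
  intro g hg
  rw [mem_spGL_iff] at hg
  have hmem : (g : Matrix (Fin m ⊕ Fin m) (Fin m ⊕ Fin m) F) ∈ Matrix.symplecticGroup (Fin m) F := by
    rw [Cfsg.Agent.H5.Conc.mem_symplecticGroup_iff]
    exact hg
  have : g = ρ ⟨_, hmem⟩ := Units.ext rfl
  rw [this]
  exact key _

end Std

end Cfsg.Agent.H29.Trv
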