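import Mathlib
import Cfsg.Agent.H29_TrvSp

set_option autoImplicit false

/-! more on transvections in the symplectic group -/

namespace Cfsg.Agent.H29.Trv

open Matrix

section Full

variable {ι : Type} [Fintype ι] [DecidableEq ι] {F : Type*} [Field F]
variable {f : (ι → F) → (ι → F) → F} {M : Subgroup (GL ι F)}

/-- two vectors, each non-orthogonal to something in `U`, have a common non-orthogonal vector -/
theorem Alt.exists_both (hf : Alt f) (U : Submodule F (ι → F)) {u x : ι → F}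
    (hu : ∃ y ∈ U, f u y ≠ 0) (hx : ∃ y ∈ U, f x y ≠ 0) : ∃ y ∈ U, f u y ≠ 0 ∧ f x y ≠ 0 := by
  obtain ⟨y1, hy1, h1⟩ := hu
  obtain ⟨y2, hy2, h2⟩ := hx
  by_cases h3 : f x y1 = 0
  · by_cases h4 : f u y2 = 0
    · refine ⟨y1 + y2, U.add_mem hy1 hy2, ?_, ?_⟩
      · rw [hf.add_right, h4, add_zero]; exact h1
      · rw [hf.add_right, h3, zero_add]; exact h2
    · exact ⟨y2, hy2, h4, h2⟩
  · exact ⟨y1, hy1, h1, h3⟩

/-- replace the `U`-component -/
theorem Full.replace (hf : Alt f) {U : Submodule F (ι → F)} (hU : ∀ v ∈ U, Full hf M v)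
    (hnd : ∀ w ∈ U, w ≠ 0 → ∃ x ∈ U, f w x ≠ 0) {r w a : ι → F} (hr : ∀ v ∈ U, f r v = 0)
    (hw : w ∈ U) (hw0 : w ≠ 0) (ha : a ∈ U) (ha0 : a ≠ 0) (h : Full hf M (w + r)) :
    Full hf M (a + r) := by
  have step : ∀ w ∈ U, ∀ a ∈ U, f w a ≠ 0 → Full hf M (w + r) → Full hf M (a + r) := by
    intro w hw a ha hne h
    have h1 : f (w + r) (a - w) ≠ 0 := by
      rw [hf.add_left, hr _ (U.sub_mem ha hw), add_zero, sub_eq_add_neg, hf.add_right, hf.neg_right,
        hf.self, neg_zero, add_zero]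
      exact hne
    have h2 := Full.move hf (hU (a - w) (U.sub_mem ha hw)) h 1 h1
    have h3 : w + r + (1 : F) • (a - w) = a + r := by rw [one_smul]; abel
    rwa [h3] at h2
  obtain ⟨z, hz, hz1, hz2⟩ := hf.exists_both U (hnd w hw hw0) (hnd a ha ha0)
  refine step z hz a ha ?_ (step w hw z hz hz1 h)
  rw [hf.skew]
  exact neg_ne_zero.2 hz2

/-- elements of a group of isometries not stabilising `W` move the orthogonal complement -/
theorem Alt.exists_perp_moved [Finite F] (hf : Alt f) {W : Submodule F (ι → F)} {g : GL ι F}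
    (hiso : ∀ x y, f ((g : Matrix ι ι F) *ᵥ x) ((g : Matrix ι ι F) *ᵥ y) = f x y)
    (hg : g ∉ Cfsg.Geo.subspaceStabilizer W) :
    ∃ y, (∀ w ∈ W, f w y = 0) ∧ ∃ w ∈ W, f w ((g : Matrix ι ι F) *ᵥ y) ≠ 0 := by
  by_contra hcon
  push Not at hcon
  apply hg
  -- the complement
  let P : Submodule F (ι → F) :=
    { carrier := {y | ∀ w ∈ W, f w y = 0}
      zero_mem' := fun w _ => hf.zero_right w
      add_mem' := fun {a b} ha hb w hw => by rw [hf.add_right, ha w hw, hb w hw, add_zero]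
      smul_mem' := fun c a ha w hw => by rw [hf.smul_right, ha w hw, mul_zero] }
  have hgP : g ∈ Cfsg.Geo.subspaceStabilizer P := by
    rw [mem_stab_iff]
    exact fun y hy => hcon y hy
  have hgP' := (Cfsg.Geo.subspaceStabilizer P).inv_mem hgP
  rw [mem_stab_iff] at hgP' ⊢
  intro w hw
  by_contra hgw
  obtain ⟨z, hz1, hz2⟩ := exists_sep hf.toLL W hgw
  have h1 : ((g⁻¹ : GL ι F) : Matrix ι ι F) *ᵥ z ∈ P := hgP' z hz2
  have h2 := h1 w hw
  rw [← hiso, self_inv_mulVec, hz1] at h2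
  exact one_ne_zero h2

/-- the map `x ↦ x + f(x,y) z + f(x,z) y` for orthogonal `y, z` is an isometry -/
theorem Alt.isom2 (hf : Alt f) {y z : ι → F} (hyz : f y z = 0) (p q : ι → F) :
    f (p + f p y • z + f p z • y) (q + f q y • z + f q z • y) = f p q := by
  have hzy : f z y = 0 := by rw [hf.skew, hyz, neg_zero]
  simp only [hf.add_left, hf.add_right, hf.smul_left, hf.smul_right, hf.self, hyz, hzy]
  rw [hf.skew y q, hf.skew z q]
  ring

/-- an isometry which is a linear map gives an element of `GL` -/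
theorem Alt.exists_GL (hf : Alt f) (A : (ι → F) →ₗ[F] (ι → F))
    (hA : ∀ x y, f (A x) (A y) = f x y) : ∃ g : GL ι F, ∀ x, (g : Matrix ι ι F) *ᵥ x = A x := by
  have hinj : Function.Injective A := by
    rw [injective_iff_map_eq_zero]
    intro x hx
    by_contra h0
    obtain ⟨y, hy⟩ := hf.nondeg x h0
    apply hy
    rw [← hA, hx, hf.zero_right]
  have hker : LinearMap.ker A = ⊥ := LinearMap.ker_eq_bot.2 hinj
  let e := LinearEquiv.ofInjectiveEndo A hinj
  refine ⟨⟨LinearMap.toMatrix' A, LinearMap.toMatrix' e.symm.toLinearMap, ?_, ?_⟩, fun x => ?_⟩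
  · rw [← LinearMap.toMatrix'_comp]
    have : A ∘ₗ e.symm.toLinearMap = LinearMap.id := by
      apply LinearMap.ext
      intro x
      exact e.apply_symm_apply x
    rw [this, LinearMap.toMatrix'_id]
  · rw [← LinearMap.toMatrix'_comp]
    have : e.symm.toLinearMap ∘ₗ A = LinearMap.id := by
      apply LinearMap.ext
      intro x
      exact e.symm_apply_apply x
    rw [this, LinearMap.toMatrix'_id]
  · show LinearMap.toMatrix' A *ᵥ x = A x
    rw [LinearMap.toMatrix'_mulVec]

end Full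

end Cfsg.Agent.H29.Trv
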