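import Mathlib
import Cfsg.Agent.GUt3
import Cfsg.Agent.H29_TrvSp2

set_option autoImplicit false

/-! symplectic groups over subfields, I -/

namespace Cfsg.Agent.H21.GUt

open Matrix Module Cfsg.Geo Cfsg.Agent.H29.Trv

variable {ι : Type} [Fintype ι] [DecidableEq ι] {F : Type*} [Field F]
variable {F₀ : Subfield F} {P : GL ι F}

theorem mem_subfield_exists {g : GL ι F} (hg : g ∈ subfieldSubgroup F₀ P) :
    ∃ c : F, c ≠ 0 ∧ ∀ x, Rt F₀ P x → Rt F₀ P (c • ((g : Matrix ι ι F) *ᵥ x)) := by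
  rw [mem_subfield_iff, Subgroup.mem_sup_of_normal_right] at hg
  obtain ⟨A, ⟨m, hm⟩, s, hs, hAs⟩ := hg
  obtain ⟨c, hc⟩ := (mem_scalars_iff s).1 hs
  refine ⟨(c⁻¹ : Fˣ), Units.ne_zero _, fun x hx => ?_⟩
  intro i
  have e1 : ((P⁻¹ : GL ι F) : Matrix ι ι F) *ᵥ (((c⁻¹ : Fˣ) : F) • ((g : Matrix ι ι F) *ᵥ x)) =
      ((c⁻¹ : Fˣ) : F) • (((P⁻¹ * g * P : GL ι F) : Matrix ι ι F) *ᵥ (((P⁻¹ : GL ι F) : Matrix ι ι F) *ᵥ x)) := by
    rw [mulVec_smul]
    congr 1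
    rw [Cfsg.Agent.H29.Trv.mul_apply, self_inv_mulVec, Cfsg.Agent.H29.Trv.mul_apply]
  rw [e1, ← hAs, Cfsg.Agent.H29.Trv.mul_apply, hc, smul_mulVec, one_mulVec, mulVec_smul, smul_smul, Units.inv_mul, one_smul, ← hm]
  show ∑ j, ((Matrix.GeneralLinearGroup.map (F₀.subtype : F₀ →+* F) m : GL ι F) : Matrix ι ι F) i j * _ ∈ F₀
  apply F₀.sum_mem
  intro j _
  apply F₀.mul_mem
  · exact (m.1 i j).2
  · exact hx j

/-- rational centre implies rational functional -/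
theorem T_sub_rat {v : ι → F} {φ : (ι → F) →ₗ[F] F} (hT : T (subfieldSubgroup F₀ P) v φ) (hv : Rt F₀ P v) (hv0 : v ≠ 0)
    {x : ι → F} (hx : Rt F₀ P x) : φ x ∈ F₀ := by
  obtain ⟨h0, g, hg, hgx⟩ := hT
  obtain ⟨c, hc, hcR⟩ := mem_subfield_exists hg
  obtain ⟨i, hi⟩ : ∃ i, (((P⁻¹ : GL ι F) : Matrix ι ι F) *ᵥ v) i ≠ 0 := by
    by_contra hcon
    push Not at hcon
    apply hv0
    apply mulVec_inj (g := P⁻¹)
    rw [mulVec_zero]
    exact funext hcon
  have h1 := hcR v hv i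
  rw [hgx, h0, zero_smul, add_zero, mulVec_smul, Pi.smul_apply, smul_eq_mul] at h1
  have hcF : c ∈ F₀ := by
    have := F₀.div_mem h1 (hv i)
    rwa [mul_div_cancel_right₀ _ hi] at this
  have h2 := hcR x hx i
  rw [hgx, smul_add, mulVec_add, Pi.add_apply, mulVec_smul, Pi.smul_apply, smul_eq_mul, smul_smul, mulVec_smul,
    Pi.smul_apply, smul_eq_mul] at h2
  have h3 := F₀.sub_mem h2 (F₀.mul_mem hcF (hx i))
  rw [add_sub_cancel_left] at h3
  have h4 := F₀.div_mem h3 (F₀.mul_mem hcF (hv i))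
  have e : c * φ x * (((P⁻¹ : GL ι F) : Matrix ι ι F) *ᵥ v) i / (c * (((P⁻¹ : GL ι F) : Matrix ι ι F) *ᵥ v) i) = φ x := by
    field_simp
  rwa [e] at h4

variable {g : (ι → F) → (ι → F) → F}

/-- rational alternating forms -/
theorem Alt.rf (hg : Alt g) (hR : ∀ x y, Rt F₀ P x → Rt F₀ P y → g x y ∈ F₀) : RF (RingEquiv.refl F) g F₀ P 1 :=
  { hg.toLL with
    smul_right := hg.smul_right
    z0 := one_ne_zero
    rat := fun x y hx hy => by rw [one_mul]; exact hR x y hx hy }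

/-- decomposition of vectors -/
theorem rat_decomp [Fintype F] (P : GL ι F) (F₀ : Subfield F) : ∃ (d : ℕ) (β : Basis (Fin d) F₀ F), ∀ z : ι → F,
    ∃ zk : Fin d → (ι → F), (∀ k, Rt F₀ P (zk k)) ∧ z = ∑ k, β k • zk k := by
  refine ⟨_, Module.finBasis F₀ F, fun z => ?_⟩
  set β := Module.finBasis F₀ F
  refine ⟨fun k => (P : Matrix ι ι F) *ᵥ
    (fun i => (β.repr ((((P⁻¹ : GL ι F) : Matrix ι ι F) *ᵥ z) i) k : F)), fun k => Rt.mulVec (fun i => Subtype.mem _), ?_⟩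
  have e1 : z = (P : Matrix ι ι F) *ᵥ (((P⁻¹ : GL ι F) : Matrix ι ι F) *ᵥ z) := (self_inv_mulVec P z).symm
  conv_lhs => rw [e1]
  simp only [← mulVec_smul]
  rw [← Matrix.mulVec_sum]
  congr 1
  funext i
  rw [Finset.sum_apply]
  have h2 := β.sum_repr ((((P⁻¹ : GL ι F) : Matrix ι ι F) *ᵥ z) i)
  conv_lhs => rw [← h2]
  apply Finset.sum_congr rfl
  intro k _
  rw [Pi.smul_apply, smul_eq_mul, mul_comm]
  rfl

/-- the span of the rational vectors -/
theorem rat_span (P : GL ι F) (F₀ : Subfield F) {W : Submodule F (ι → F)} (h : ∀ x, Rt F₀ P x → x ∈ W) : W = ⊤ := by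
  rw [eq_top_iff]
  intro z _
  have e1 : z = (P : Matrix ι ι F) *ᵥ (((P⁻¹ : GL ι F) : Matrix ι ι F) *ᵥ z) := (self_inv_mulVec P z).symm
  have e2 : z = ∑ i, (((P⁻¹ : GL ι F) : Matrix ι ι F) *ᵥ z) i • ((P : Matrix ι ι F) *ᵥ (Pi.single i 1 : ι → F)) := by
    simp only [← mulVec_smul]
    rw [← Matrix.mulVec_sum]
    conv_lhs => rw [e1]
    congr 1
    funext j
    rw [Finset.sum_apply]
    simp [Pi.single_apply]
  rw [e2]
  exact W.sum_mem (fun i _ => W.smul_mem _ (h _ (Rt.basis i)))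

section AltE

variable (hg : Alt g) {M : Subgroup (GL ι F)}

/-- `M` contains the transvection with centre `v` and parameter `b` -/
def E (hg : Alt g) (M : Subgroup (GL ι F)) (v : ι → F) (b : F) : Prop := T M v (b • fr hg.toLL v)

variable {hg}

theorem E.add {v : ι → F} {b c : F} (h : E hg M v b) (h' : E hg M v c) : E hg M v (b + c) := by
  unfold E
  rw [add_smul]
  exact T.add_right h h'

theorem E.neg {v : ι → F} {b : F} (h : E hg M v b) : E hg M v (-b) := by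
  have e : (-b) • fr hg.toLL v = -(b • fr hg.toLL v) := by
    apply LinearMap.ext
    intro x
    show (-b) * g x v = -(b * g x v)
    ring
  show T M v ((-b) • fr hg.toLL v)
  rw [e]
  exact T.neg h

theorem E.of_neg {v : ι → F} {b : F} (h : E hg M v (-b)) : E hg M v b := by
  have := h.neg
  rwa [neg_neg] at this

theorem E_zero (v : ι → F) : E hg M v 0 := by
  unfold E
  rw [zero_smul]
  exact T_zero_right v

theorem E_smul_iff {v : ι → F} {b : F} (a : F) : E hg M (a • v) b ↔ E hg M v (a * a * b) := by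
  unfold E
  rw [fr_smul hg, T_smul_iff, smul_smul, smul_smul, mul_right_comm]

theorem E.get {v : ι → F} {b : F} (h : E hg M v b) : ∃ k ∈ M, (∀ x, (k : Matrix ι ι F) *ᵥ x = x + (b * g x v) • v) ∧
    ∀ x y, g ((k : Matrix ι ι F) *ᵥ x) ((k : Matrix ι ι F) *ᵥ y) = g x y := by
  obtain ⟨-, k, hk, hkx⟩ := h
  have h1 : ∀ x, (k : Matrix ι ι F) *ᵥ x = x + (b * g x v) • v := fun x => by rw [hkx]; rfl
  exact ⟨k, hk, h1, fun x y => by rw [h1, h1, hg.isom]⟩

theorem E_of {v : ι → F} {b : F} {k : GL ι F} (hk : k ∈ M) (h : ∀ x, (k : Matrix ι ι F) *ᵥ x = x + (b * g x v) • v) :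
    E hg M v b := ⟨by rw [LinearMap.smul_apply, fr_apply, hg.self, smul_zero], k, hk, fun x => h x⟩

theorem E.conj {v : ι → F} {b : F} (h : E hg M v b) {k : GL ι F} (hk : k ∈ M)
    (hiso : ∀ x y, g ((k : Matrix ι ι F) *ᵥ x) ((k : Matrix ι ι F) *ᵥ y) = g x y) :
    E hg M ((k : Matrix ι ι F) *ᵥ v) b := by
  unfold E at h ⊢
  rw [← fr_smul hg] at h ⊢
  have h2 := h.conj_isom hg.toLL hk hiso
  rwa [mulVec_smul] at h2

/-- moving -/
theorem E.move {v w : ι → F} {b c : F} (h : E hg M v b) (h' : E hg M w c) : E hg M (v + (c * g v w) • w) b := by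
  obtain ⟨k, hk, hkx, hiso⟩ := h'.get
  have := h.conj hk hiso
  rwa [hkx] at this

/-- the Siegel element -/
theorem K_of {a b : ι → F} {c : F} (hab : g a b = 0) (h1 : E hg M a c) (h2 : E hg M b c) (h3 : E hg M (a + b) c) :
    ∃ k ∈ M, (∀ x, (k : Matrix ι ι F) *ᵥ x = x + (c * g x a) • b + (c * g x b) • a) ∧
    ∀ x y, g ((k : Matrix ι ι F) *ᵥ x) ((k : Matrix ι ι F) *ᵥ y) = g x y := by
  have hba : g b a = 0 := by rw [hg.skew, hab, neg_zero]
  obtain ⟨k1, hk1, hkx1, hi1⟩ := h1.neg.get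
  obtain ⟨k2, hk2, hkx2, hi2⟩ := h2.neg.get
  obtain ⟨k3, hk3, hkx3, hi3⟩ := h3.get
  refine ⟨k3 * (k1 * k2), M.mul_mem hk3 (M.mul_mem hk1 hk2), fun x => ?_, fun x y => ?_⟩
  · rw [Cfsg.Agent.H29.Trv.mul_apply, Cfsg.Agent.H29.Trv.mul_apply, hkx2, hkx1, hkx3]
    simp only [hg.add_left, hg.add_right, hg.smul_left, hg.self, hab, hba, mul_zero, add_zero, zero_add]
    module
  · rw [Cfsg.Agent.H29.Trv.mul_apply, Cfsg.Agent.H29.Trv.mul_apply, Cfsg.Agent.H29.Trv.mul_apply,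
      Cfsg.Agent.H29.Trv.mul_apply, hi3, hi1, hi2]

/-- reduction -/
theorem E.red {u y v : ι → F} {μ b : F} (hu : E hg M u μ) (hu' : E hg M (u + y) μ) (huy : g u y = 0) (hv : E hg M v b)
    (hvy : g v y = 0) : E hg M (v - (μ * g v u) • y) b := by
  have hyu : g y u = 0 := by rw [hg.skew, huy, neg_zero]
  obtain ⟨k1, hk1, hkx1, hi1⟩ := hu.get
  obtain ⟨k2, hk2, hkx2, hi2⟩ := hu'.neg.get
  have h1 := hv.conj (M.mul_mem hk1 hk2) (fun x y => by
    rw [Cfsg.Agent.H29.Trv.mul_apply, Cfsg.Agent.H29.Trv.mul_apply, hi1, hi2])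
  rw [Cfsg.Agent.H29.Trv.mul_apply, hkx2, hkx1] at h1
  have e : v + (-μ * g v (u + y)) • (u + y) + (μ * g (v + (-μ * g v (u + y)) • (u + y)) u) • u =
      v - (μ * g v u) • y := by
    simp only [hg.add_left, hg.add_right, hg.smul_left, hg.self, hvy, hyu, mul_zero, add_zero]
    module
  rwa [e] at h1

end AltE

end Cfsg.Agent.H21.GUt
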