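import Mathlib
import Cfsg.Agent.GUp4
import Cfsg.Agent.GUo2
import Cfsg.Agent.GUt4
import Cfsg.Agent.GUt3
import Cfsg.Agent.GUt5

set_option autoImplicit false

/-! orthogonal structures in unitary spaces: basics -/

namespace Cfsg.Agent.H21.GUr

open Matrix Module Cfsg.Geo Cfsg.Agent.H29.Trv Cfsg.Agent.H21.GUp Cfsg.Agent.H21.GUo Cfsg.Agent.H21.GUt

variable {F : Type*} [Field F] {n : ℕ}

/-- the embedding of rational vectors -/
def Ph (F₀ : Subfield F) (P : GL (Fin n) F) (x : Fin n → F₀) : Fin n → F :=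
  (P : Matrix (Fin n) (Fin n) F) *ᵥ (fun i => (x i : F))

variable {F₀ : Subfield F} {P : GL (Fin n) F}

theorem Ph_add (x y : Fin n → F₀) : Ph F₀ P (x + y) = Ph F₀ P x + Ph F₀ P y := by
  unfold Ph
  rw [← mulVec_add]
  rfl

theorem Ph_smul (c : F₀) (x : Fin n → F₀) : Ph F₀ P (c • x) = (c : F) • Ph F₀ P x := by
  unfold Ph
  rw [← mulVec_smul]
  rfl

theorem Ph_zero : Ph F₀ P 0 = 0 := by
  have := Ph_smul (F₀ := F₀) (P := P) 0 0
  rwa [zero_smul, Subfield.coe_zero, zero_smul] at this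

theorem Ph_neg (x : Fin n → F₀) : Ph F₀ P (-x) = - Ph F₀ P x := by
  have := Ph_smul (F₀ := F₀) (P := P) (-1) x
  rwa [neg_one_smul, Subfield.coe_neg, Subfield.coe_one, neg_one_smul] at this

theorem Ph_sub (x y : Fin n → F₀) : Ph F₀ P (x - y) = Ph F₀ P x - Ph F₀ P y := by
  rw [sub_eq_add_neg, Ph_add, Ph_neg, ← sub_eq_add_neg]

theorem Ph_inj {x y : Fin n → F₀} (h : Ph F₀ P x = Ph F₀ P y) : x = y := by
  have h1 := mulVec_inj h
  funext i
  exact Subtype.ext (congrFun h1 i)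

theorem Ph_ne {x : Fin n → F₀} (h : x ≠ 0) : Ph F₀ P x ≠ 0 := fun h0 => h (Ph_inj (h0.trans Ph_zero.symm))

theorem rt_iff {x : Fin n → F} : Rt F₀ P x ↔ ∃ y, x = Ph F₀ P y := by
  constructor
  · intro h
    refine ⟨fun i => ⟨_, h i⟩, ?_⟩
    exact (self_inv_mulVec P x).symm
  · rintro ⟨y, rfl⟩
    exact Rt.mulVec (fun i => (y i).2)

theorem Ph_rt (x : Fin n → F₀) : Rt F₀ P (Ph F₀ P x) := rt_iff.2 ⟨x, rfl⟩

/-- the context -/
structure Cx (τ : F ≃+* F) (f : (Fin n → F) → (Fin n → F) → F) (F₀ : Subfield F) (P : GL (Fin n) F) (κ : F) : Prop extends UF τ f where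
  mem : ∀ x : F, x ∈ F₀ ↔ τ x = x
  two : (2 : F) ≠ 0
  k0 : κ ≠ 0
  tk : τ κ = -κ
  dec : ∀ x : F, ∃ s t : F₀, x = s + κ * t
  rat : ∀ x y : Fin n → F₀, f (Ph F₀ P x) (Ph F₀ P y) ∈ F₀

variable {τ : F ≃+* F} {f : (Fin n → F) → (Fin n → F) → F} {κ : F}

theorem Cx.kn (h : Cx τ f F₀ P κ) : κ ∉ F₀ := by
  intro hm
  have h1 := (h.mem κ).1 hm
  rw [h.tk] at h1
  have h2 : 2 * κ = 0 := by linear_combination -h1
  rcases mul_eq_zero.1 h2 with h3 | h3
  · exact h.two h3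
  · exact h.k0 h3

theorem Cx.ind (h : Cx τ f F₀ P κ) {a b : F₀} (hab : (a : F) + κ * b = 0) : a = 0 ∧ b = 0 := by
  by_cases hb : b = 0
  · rw [hb, Subfield.coe_zero, mul_zero, add_zero] at hab
    exact ⟨Subtype.ext hab, hb⟩
  · exfalso
    apply h.kn
    have hb' : (b : F) ≠ 0 := fun h0 => hb (Subtype.ext h0)
    have : κ = -(a : F) / b := by
      rw [eq_div_iff hb']
      linear_combination hab
    rw [this]
    exact F₀.div_mem (F₀.neg_mem a.2) b.2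

theorem Cx.decV (h : Cx τ f F₀ P κ) (x : Fin n → F) : ∃ p r, x = Ph F₀ P p + κ • Ph F₀ P r := by
  have h1 := fun i => h.dec ((((P⁻¹ : GL (Fin n) F) : Matrix (Fin n) (Fin n) F) *ᵥ x) i)
  choose s t hst using h1
  refine ⟨s, t, ?_⟩
  unfold Ph
  rw [← mulVec_smul, ← mulVec_add]
  have h2 : (fun i => (s i : F)) + κ • (fun i => (t i : F)) = ((P⁻¹ : GL (Fin n) F) : Matrix (Fin n) (Fin n) F) *ᵥ x := by
    funext i
    rw [Pi.add_apply, Pi.smul_apply, smul_eq_mul, hst]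
  rw [h2, self_inv_mulVec]

theorem Cx.uniq (h : Cx τ f F₀ P κ) {p r p' r' : Fin n → F₀}
    (e : Ph F₀ P p + κ • Ph F₀ P r = Ph F₀ P p' + κ • Ph F₀ P r') : p = p' ∧ r = r' := by
  have e1 : Ph F₀ P (p - p') + κ • Ph F₀ P (r - r') = 0 := by
    rw [Ph_sub, Ph_sub, smul_sub, ← sub_eq_zero.2 e]
    abel
  have e2 : (fun i => ((p - p') i : F)) + κ • (fun i => ((r - r') i : F)) = 0 := by
    apply mulVec_inj (g := P)
    rw [mulVec_zero, mulVec_add, mulVec_smul]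
    exact e1
  constructor
  · funext i
    have e3 := congrFun e2 i
    exact sub_eq_zero.1 (h.ind e3).1
  · funext i
    have e3 := congrFun e2 i
    exact sub_eq_zero.1 (h.ind e3).2

/-- the rational form -/
def f0 (h : Cx τ f F₀ P κ) (x y : Fin n → F₀) : F₀ := ⟨f (Ph F₀ P x) (Ph F₀ P y), h.rat x y⟩

theorem f0_coe (h : Cx τ f F₀ P κ) (x y : Fin n → F₀) : (f0 h x y : F) = f (Ph F₀ P x) (Ph F₀ P y) := rfl

theorem Cx.oF [Fintype F] (h : Cx τ f F₀ P κ) : OF (f0 h) where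
  eps := Or.inl rfl
  inv := fun _ => rfl
  add_left := fun x y v => Subtype.ext (by
    rw [f0_coe, Ph_add, h.add_left]; rfl)
  smul_left := fun c x v => Subtype.ext (by
    rw [f0_coe, Ph_smul, h.smul_left]; rfl)
  herm := fun u v => Subtype.ext (by
    rw [one_mul]
    show f (Ph F₀ P u) (Ph F₀ P v) = f (Ph F₀ P v) (Ph F₀ P u)
    rw [← h.toUF.sw (Ph F₀ P v)]
    exact (h.mem _).1 (h.rat v u))
  nd := by
    intro v hv
    by_contra hcon
    push Not at hcon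
    obtain ⟨x, hx⟩ := h.nd _ (Ph_ne (P := P) hv)
    apply hx
    obtain ⟨p, r, rfl⟩ := h.decV x
    have e1 := congrArg (Subtype.val) (hcon p)
    have e2 := congrArg (Subtype.val) (hcon r)
    rw [f0_coe] at e1 e2
    rw [h.add_left, h.smul_left, e1, e2]
    simp
  two := fun h0 => h.two (by
    have h1 : F₀.subtype 2 = F₀.subtype 0 := congrArg _ h0
    rwa [map_ofNat, map_zero] at h1)

theorem Cx.sg (h : Cx τ f F₀ P κ) : SG τ 1 f where
  toLL := h.toUF.LL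
  eps := Or.inl rfl
  inv := h.inv
  sr := fun c v x => h.toSFm.smul_right c v x
  herm := h.herm

/-- the form on decomposed vectors -/
theorem Cx.f1 (h : Cx τ f F₀ P κ) (y p r : Fin n → F₀) :
    f (Ph F₀ P p + κ • Ph F₀ P r) (Ph F₀ P y) = (f0 h p y : F) + κ * (f0 h r y : F) := by
  rw [h.add_left, h.smul_left]; rfl

theorem Cx.f2 [Fintype F] (h : Cx τ f F₀ P κ) (p r : Fin n → F₀) :
    f (Ph F₀ P p + κ • Ph F₀ P r) (Ph F₀ P p + κ • Ph F₀ P r) = (f0 h p p : F) - κ * κ * (f0 h r r : F) := by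
  have hs : f (Ph F₀ P r) (Ph F₀ P p) = f (Ph F₀ P p) (Ph F₀ P r) := congrArg Subtype.val (h.oF.sy r p)
  rw [h.add_left, h.toSFm.add_right, h.toSFm.add_right, h.smul_left, h.smul_left, h.toSFm.smul_right, h.toSFm.smul_right,
    h.tk, hs, f0_coe, f0_coe]
  ring

end Cfsg.Agent.H21.GUr
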