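import Mathlib
import Cfsg.Agent.GUr1

set_option autoImplicit false

/-! orthogonal structures in unitary spaces: producing a transvection -/

namespace Cfsg.Agent.H21.GUr

open Matrix Module Cfsg.Geo Cfsg.Agent.H29.Trv Cfsg.Agent.H21.GUp Cfsg.Agent.H21.GUo Cfsg.Agent.H21.GUt

variable {F : Type*} [Field F] {n : ℕ}
variable {F₀ : Subfield F} {P : GL (Fin n) F}
variable {τ : F ≃+* F} {f : (Fin n → F) → (Fin n → F) → F} {κ : F}

theorem Cx.ph_span (h : Cx τ f F₀ P κ) {x y : Fin n → F₀} (hxy : Ph F₀ P x ∈ Submodule.span F {Ph F₀ P y}) :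
    x ∈ Submodule.span F₀ {y} := by
  obtain ⟨a, ha⟩ := Submodule.mem_span_singleton.1 hxy
  obtain ⟨s, t, rfl⟩ := h.dec a
  have e : Ph F₀ P (s • y) + κ • Ph F₀ P (t • y) = Ph F₀ P x + κ • Ph F₀ P 0 := by
    rw [Ph_smul, Ph_smul, Ph_zero, ← ha]
    module
  exact Submodule.mem_span_singleton.2 ⟨s, (h.uniq e).1⟩

theorem span4 {K : Type*} [Field K] (a b c d : Fin n → K) : finrank K (Submodule.span K ({a, b, c, d} : Set (Fin n → K))) ≤ 4 := by
  classical
  have h1 := finrank_span_finset_le_card (R := K) ({a, b, c, d} : Finset (Fin n → K))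
  have h2 : (({a, b, c, d} : Finset (Fin n → K)) : Set (Fin n → K)) = {a, b, c, d} := by simp
  rw [h2] at h1
  exact h1.trans Finset.card_le_four

variable [Fintype F] {M : Subgroup (GL (Fin n) F)}

theorem card_odd (h : Cx τ f F₀ P κ) [Fintype F₀] : Odd (Fintype.card F₀) := by
  by_contra hcon
  rw [Nat.not_odd_iff_even] at hcon
  have h2 : ringChar F₀ = 2 := by
    by_contra hne
    have h3 := FiniteField.odd_card_of_char_ne_two hne
    rw [Nat.even_iff] at hcon
    omega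
  have h3 : (2 : F₀) = 0 := by
    have := ringChar.Nat.cast_ringChar (R := F₀)
    rw [h2] at this
    exact_mod_cast this
  exact h.oF.two h3

/-- stage A -/
theorem stageA (h : Cx τ f F₀ P κ) (hn : 13 ≤ n) {g : GL (Fin n) F} (hg : g ∉ subfieldSubgroup F₀ P) :
    ∃ x, f0 h x x = 0 ∧ ∀ (c : F) (y : Fin n → F₀), (g : Matrix (Fin n) (Fin n) F) *ᵥ Ph F₀ P x ≠ c • Ph F₀ P y := by
  classical
  haveI : Fintype F₀ := Fintype.ofFinite _
  have hodd := card_odd h
  have o := h.oF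
  by_contra hcon
  push Not at hcon
  apply hg
  have same : ∀ x y, x ≠ 0 → f0 h x x = 0 → f0 h y y = 0 → f0 h x y = 0 → y ∉ Submodule.span F₀ {x} → ∀ c : F, c ≠ 0 →
      Rt F₀ P (c⁻¹ • ((g : Matrix (Fin n) (Fin n) F) *ᵥ Ph F₀ P x)) →
      Rt F₀ P (c⁻¹ • ((g : Matrix (Fin n) (Fin n) F) *ᵥ Ph F₀ P y)) := by
    intro x y hx0 hx hy hxy hyx c hc hR
    have hy0 : y ≠ 0 := by
      rintro rfl
      exact hyx (Submodule.zero_mem _)
    have hxy' : x ∉ Submodule.span F₀ {y} := by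
      intro hm
      obtain ⟨t, ht⟩ := Submodule.mem_span_singleton.1 hm
      have ht0 : t ≠ 0 := by
        rintro rfl
        rw [zero_smul] at ht
        exact hx0 ht.symm
      apply hyx
      refine Submodule.mem_span_singleton.2 ⟨t⁻¹, ?_⟩
      rw [← ht, smul_smul, inv_mul_cancel₀ ht0, one_smul]
    obtain ⟨d, y', hd⟩ := hcon y hy
    obtain ⟨e, z', he⟩ := hcon (x + y) (by
      rw [o.add_left, o.toSFm.add_right, o.toSFm.add_right, hx, hy, hxy, o.sy y x, hxy]; simp)
    obtain ⟨X, hX⟩ : ∃ X, X = c⁻¹ • ((g : Matrix (Fin n) (Fin n) F) *ᵥ Ph F₀ P x) := ⟨_, rfl⟩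
    rw [← hX] at hR
    have hgx : (g : Matrix (Fin n) (Fin n) F) *ᵥ Ph F₀ P x = c • X := by
      rw [hX, smul_smul, mul_inv_cancel₀ hc, one_smul]
    have hd0 : d ≠ 0 := by
      rintro rfl
      rw [zero_smul] at hd
      exact Ph_ne (P := P) hy0 (mulVec_inj (g := g) (by rw [hd, mulVec_zero]))
    have hne : x + y ≠ 0 := by
      intro h0
      apply hyx
      refine Submodule.mem_span_singleton.2 ⟨-1, ?_⟩
      rw [neg_one_smul]
      exact neg_eq_of_add_eq_zero_right h0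
    have he0 : e ≠ 0 := by
      rintro rfl
      rw [zero_smul] at he
      exact Ph_ne (P := P) hne (mulVec_inj (g := g) (by rw [he, mulVec_zero]))
    have e1 : Ph F₀ P z' = (c / e) • X + (d / e) • Ph F₀ P y' := by
      have h1 : e • Ph F₀ P z' = c • X + d • Ph F₀ P y' := by
        rw [← he, ← hgx, ← hd, Ph_add, mulVec_add]
      have h2 : e⁻¹ • (e • Ph F₀ P z') = e⁻¹ • (c • X + d • Ph F₀ P y') := by rw [h1]
      rw [smul_smul, inv_mul_cancel₀ he0, one_smul, smul_add, smul_smul, smul_smul] at h2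
      rw [h2, div_eq_inv_mul, div_eq_inv_mul]
    have n1 : X ∉ Submodule.span F {Ph F₀ P y'} := by
      intro hm
      obtain ⟨t, ht⟩ := Submodule.mem_span_singleton.1 hm
      apply hxy'
      apply h.ph_span
      refine Submodule.mem_span_singleton.2 ⟨c * (t * d⁻¹), ?_⟩
      apply mulVec_inj (g := g)
      have e5 : c * (t * d⁻¹) * d = c * t := by field_simp
      rw [hgx, mulVec_smul, hd, ← ht, smul_smul, smul_smul, e5]
    have n2 : Ph F₀ P y' ∉ Submodule.span F {X} := by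
      intro hm
      obtain ⟨t, ht⟩ := Submodule.mem_span_singleton.1 hm
      apply hyx
      apply h.ph_span
      refine Submodule.mem_span_singleton.2 ⟨d * (t * c⁻¹), ?_⟩
      apply mulVec_inj (g := g)
      have e5 : d * (t * c⁻¹) * c = d * t := by field_simp
      rw [hd, mulVec_smul, hgx, ← ht, smul_smul, smul_smul, e5]
    have r1 := Rt.ratio (Ph_rt z') hR (Ph_rt y') e1 n1
    have r2 := Rt.ratio (Ph_rt z') (Ph_rt y') hR (e1.trans (add_comm _ _)) n2
    have r3 : d / c ∈ F₀ := by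
      have := F₀.div_mem r2 r1
      have e2 : d / e / (c / e) = d / c := by field_simp
      rwa [e2] at this
    rw [hd, smul_smul]
    have e3 : c⁻¹ * d = d / c := by rw [div_eq_inv_mul]
    rw [e3]
    exact (Ph_rt y').smul r3
  obtain ⟨x₀, hx₀, -, hx₀W⟩ := o.iso_avoid hodd (Y := (⊥ : Submodule F₀ (Fin n → F₀))) (W := ⊥) (by rw [finrank_bot]; omega)
  have hx₀0 : x₀ ≠ 0 := by
    rintro rfl
    exact hx₀W (Submodule.zero_mem _)
  obtain ⟨c, y₀, hc⟩ := hcon x₀ hx₀
  have hc0 : c ≠ 0 := by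
    rintro rfl
    rw [zero_smul] at hc
    exact Ph_ne (P := P) hx₀0 (mulVec_inj (g := g) (by rw [hc, mulVec_zero]))
  have hRx₀ : Rt F₀ P (c⁻¹ • ((g : Matrix (Fin n) (Fin n) F) *ᵥ Ph F₀ P x₀)) := by
    rw [hc, smul_smul, inv_mul_cancel₀ hc0, one_smul]
    exact Ph_rt y₀
  have hall : ∀ x, f0 h x x = 0 → Rt F₀ P (c⁻¹ • ((g : Matrix (Fin n) (Fin n) F) *ᵥ Ph F₀ P x)) := by
    intro x hx
    by_cases hx0 : x = 0
    · rw [hx0, Ph_zero, mulVec_zero, smul_zero]
      exact Rt.zero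
    obtain ⟨w, hw, hwY, hwW⟩ := o.iso_avoid hodd (Y := Submodule.span F₀ {x₀, x}) (W := Submodule.span F₀ {x₀, x}) (by
      have := finrank_span_two (F := F₀) x₀ x
      omega)
    have hw0 : w ≠ 0 := by
      rintro rfl
      exact hwW (Submodule.zero_mem _)
    have e1 : f0 h w x₀ = 0 := hwY x₀ (Submodule.subset_span (by simp))
    have e2 : f0 h w x = 0 := hwY x (Submodule.subset_span (by simp))
    have e3 := same x₀ w hx₀0 hx₀ hw (by rw [o.sy]; exact e1) (fun hm => hwW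
      (Submodule.span_mono (by intro x hx; simp at hx ⊢; tauto) hm)) c hc0 hRx₀
    refine same w x hw0 hw hx e2 (fun hm => ?_) c hc0 e3
    obtain ⟨t, ht⟩ := Submodule.mem_span_singleton.1 hm
    have ht0 : t ≠ 0 := by
      rintro rfl
      rw [zero_smul] at ht
      exact hx0 ht.symm
    apply hwW
    have : w = t⁻¹ • x := by rw [← ht, smul_smul, inv_mul_cancel₀ ht0, one_smul]
    rw [this]
    exact Submodule.smul_mem _ _ (Submodule.subset_span (by simp))
  let W : Submodule F₀ (Fin n → F₀) :=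
    { carrier := {x | Rt F₀ P (c⁻¹ • ((g : Matrix (Fin n) (Fin n) F) *ᵥ Ph F₀ P x))}
      zero_mem' := by
        show Rt F₀ P _
        rw [Ph_zero, mulVec_zero, smul_zero]
        exact Rt.zero
      add_mem' := by
        intro x y hx hy
        show Rt F₀ P _
        rw [Ph_add, mulVec_add, smul_add]
        exact Rt.add hx hy
      smul_mem' := by
        intro t x hx
        show Rt F₀ P _
        rw [Ph_smul, mulVec_smul, smul_comm]
        exact Rt.smul hx t.2 }
  obtain ⟨z₀, hz₀⟩ := o.nd x₀ hx₀0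
  have hle := o.span_iso (U := ⊤) (W := W) (x := x₀) (z₀ := z₀) trivial hx₀ trivial hz₀ (fun v _ hv => hall v hv)
  refine mem_subfield_of (inv_ne_zero hc0) (fun i => ?_)
  obtain ⟨y, hy⟩ := rt_iff.1 (Rt.basis (F₀ := F₀) (P := P) i)
  rw [hy]
  exact hle (show y ∈ ⊤ from trivial)

/-- stage B: a transvection -/
theorem stageB (h : Cx τ f F₀ P κ) (hn : 13 ≤ n) (hi : GUp.Iso f M)
    (hK : ∀ a b, f0 h a a = 0 → f0 h b b = 0 → f0 h a b = 0 → KM f 1 M (Ph F₀ P a) (Ph F₀ P b))
    {g : GL (Fin n) F} (hgM : g ∈ M) (hg : g ∉ subfieldSubgroup F₀ P) :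
    ∃ u, u ≠ 0 ∧ f0 h u u = 0 ∧ FT h.toUF M (Ph F₀ P u) := by
  classical
  haveI : Fintype F₀ := Fintype.ofFinite _
  have hodd := card_odd h
  have o := h.oF
  have hgi := hi g hgM
  obtain ⟨x', hx', hirr⟩ := stageA h hn hg
  have hx'0 : x' ≠ 0 := by
    rintro rfl
    apply hirr 0 0
    rw [Ph_zero, mulVec_zero, zero_smul]
  set u' := (g : Matrix (Fin n) (Fin n) F) *ᵥ Ph F₀ P x' with hu'
  obtain ⟨p, r, hpr⟩ := h.decV u'
  have hpr1 : p ∉ Submodule.span F₀ {r} := by
    intro hm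
    obtain ⟨s, rfl⟩ := Submodule.mem_span_singleton.1 hm
    apply hirr (s + κ) r
    rw [hpr, Ph_smul, add_smul]
  have hpr2 : r ∉ Submodule.span F₀ {p} := by
    intro hm
    obtain ⟨s, rfl⟩ := Submodule.mem_span_singleton.1 hm
    apply hirr (1 + κ * s) p
    rw [hpr, Ph_smul]
    module
  have hu'0 : u' ≠ 0 := fun h0 => Ph_ne (P := P) hx'0 (mulVec_inj (g := g) (by rw [← hu', h0, mulVec_zero]))
  have hu'u' : f u' u' = 0 := by rw [hu', hgi]; exact congrArg Subtype.val hx'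
  -- choose y'
  obtain ⟨y', hy', hxy', hyS⟩ : ∃ y', f0 h y' y' = 0 ∧ f0 h x' y' = 0 ∧
      (g : Matrix (Fin n) (Fin n) F) *ᵥ Ph F₀ P y' ∉ Submodule.span F {Ph F₀ P p, Ph F₀ P r} := by
    obtain ⟨y₁, hy₁, hy₁Y, hy₁W⟩ := o.iso_avoid hodd (Y := Submodule.span F₀ {x'}) (W := Submodule.span F₀ {x'}) (by
      have := finrank_span_one (F := F₀) x'
      omega)
    obtain ⟨y₂, hy₂, hy₂Y, hy₂y₁⟩ := o.iso_sep hodd (Y := Submodule.span F₀ {x'}) (by
      have := finrank_span_one (F := F₀) x'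
      omega) hy₁W
    have a1 : f0 h y₁ x' = 0 := hy₁Y x' (Submodule.mem_span_singleton_self x')
    have a2 : f0 h y₂ x' = 0 := hy₂Y x' (Submodule.mem_span_singleton_self x')
    by_contra hcon
    push Not at hcon
    have b1 := hcon y₁ hy₁ (by rw [o.sy]; exact a1)
    have b2 := hcon y₂ hy₂ (by rw [o.sy]; exact a2)
    have b0 : u' ∈ Submodule.span F {Ph F₀ P p, Ph F₀ P r} := by
      rw [hpr]
      exact Submodule.add_mem _ (Submodule.subset_span (by simp)) (Submodule.smul_mem _ _ (Submodule.subset_span (by simp)))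
    set w₁ := (g : Matrix (Fin n) (Fin n) F) *ᵥ Ph F₀ P y₁ with hw₁
    set w₂ := (g : Matrix (Fin n) (Fin n) F) *ᵥ Ph F₀ P y₂ with hw₂
    have g11 : f w₁ w₁ = 0 := by rw [hw₁, hgi]; exact congrArg Subtype.val hy₁
    have g22 : f w₂ w₂ = 0 := by rw [hw₂, hgi]; exact congrArg Subtype.val hy₂
    have g21 : f w₂ w₁ ≠ 0 := by
      rw [hw₁, hw₂, hgi]
      exact fun h0 => hy₂y₁ (Subtype.ext h0)
    have g12 : f w₁ w₂ ≠ 0 := fun h0 => g21 (h.sg.z h0)
    have g01 : f u' w₁ = 0 := by rw [hu', hw₁, hgi]; exact congrArg Subtype.val (show f0 h x' y₁ = 0 by rw [o.sy]; exact a1)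
    have g02 : f u' w₂ = 0 := by rw [hu', hw₂, hgi]; exact congrArg Subtype.val (show f0 h x' y₂ = 0 by rw [o.sy]; exact a2)
    have hli : LinearIndependent F ![u', w₁, w₂] := by
      rw [Fintype.linearIndependent_iff]
      intro c hc
      rw [Fin.sum_univ_three] at hc
      simp only [Matrix.cons_val_zero, Matrix.cons_val_one, Matrix.cons_val_two, Matrix.head_cons, Matrix.tail_cons] at hc
      have hc' : c 0 • u' + c 1 • w₁ + c 2 • w₂ = 0 := hc
      have e1 : c 2 * f w₂ w₁ = 0 := by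
        have := congrArg (fun v => f v w₁) hc'
        simp only [h.add_left, h.smul_left, g01, g11, h.toSFm.zero_left] at this
        linear_combination this
      have e2 : c 1 * f w₁ w₂ = 0 := by
        have := congrArg (fun v => f v w₂) hc'
        simp only [h.add_left, h.smul_left, g02, g22, h.toSFm.zero_left] at this
        linear_combination this
      have c2 : c 2 = 0 := (mul_eq_zero.1 e1).resolve_right g21
      have c1 : c 1 = 0 := (mul_eq_zero.1 e2).resolve_right g12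
      rw [c1, c2, zero_smul, zero_smul, add_zero, add_zero] at hc'
      have c0 : c 0 = 0 := (smul_eq_zero.1 hc').resolve_right hu'0
      intro i
      fin_cases i
      · exact c0
      · exact c1
      · exact c2
    have hle : Submodule.span F (Set.range ![u', w₁, w₂]) ≤ Submodule.span F {Ph F₀ P p, Ph F₀ P r} := by
      rw [Submodule.span_le]
      rintro _ ⟨i, rfl⟩
      fin_cases i
      · exact b0
      · exact b1
      · exact b2
    have h3 := Submodule.finrank_mono hle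
    rw [finrank_span_eq_card hli, Fintype.card_fin] at h3
    have h4 := finrank_span_two (F := F) (Ph F₀ P p) (Ph F₀ P r)
    omega
  set v' := (g : Matrix (Fin n) (Fin n) F) *ᵥ Ph F₀ P y' with hv'
  have hv'v' : f v' v' = 0 := by rw [hv', hgi]; exact congrArg Subtype.val hy'
  have hu'v' : f u' v' = 0 := by rw [hu', hv', hgi]; exact congrArg Subtype.val hxy'
  obtain ⟨p₂, r₂, hpr₂⟩ := h.decV v'
  -- choose u
  obtain ⟨u, hu, huY, huW⟩ := o.iso_avoid hodd (Y := Submodule.span F₀ {p, r, p₂, r₂}) (W := Submodule.span F₀ {p, r, p₂, r₂}) (by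
    have := span4 (K := F₀) p r p₂ r₂
    omega)
  have hup : f0 h u p = 0 := huY p (Submodule.subset_span (by simp))
  have hur : f0 h u r = 0 := huY r (Submodule.subset_span (by simp))
  have hup₂ : f0 h u p₂ = 0 := huY p₂ (Submodule.subset_span (by simp))
  have hur₂ : f0 h u r₂ = 0 := huY r₂ (Submodule.subset_span (by simp))
  have hu0 : u ≠ 0 := by
    rintro rfl
    exact huW (Submodule.zero_mem _)
  -- choose v
  obtain ⟨v, hv, hvu, hvp, hvr, hvv'⟩ : ∃ v, f0 h v v = 0 ∧ f0 h v u = 0 ∧ f0 h v p = 0 ∧ f0 h v r = 0 ∧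
      ¬ (f0 h p₂ v = 0 ∧ f0 h r₂ v = 0) := by
    have hsub : ∀ z, (z = p₂ ∨ z = r₂) → z ∈ Submodule.span F₀ {u, p, r} → z ∈ Submodule.span F₀ {p, r} := by
      intro z hz hm
      obtain ⟨a, y, hy, rfl⟩ := Submodule.mem_span_insert.1 hm
      by_cases ha : a = 0
      · rw [ha, zero_smul, zero_add]
        exact hy
      · exfalso
        apply huW
        have e : u = a⁻¹ • ((a • u + y) - y) := by
          rw [add_sub_cancel_right, smul_smul, inv_mul_cancel₀ ha, one_smul]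
        rw [e]
        refine Submodule.smul_mem _ _ (Submodule.sub_mem _ ?_ ?_)
        · rcases hz with h1 | h1
          · rw [h1]; exact Submodule.subset_span (by simp)
          · rw [h1]; exact Submodule.subset_span (by simp)
        · exact Submodule.span_mono (by intro x hx; simp at hx ⊢; tauto) hy
    have hz : ∃ z, (z = p₂ ∨ z = r₂) ∧ z ∉ Submodule.span F₀ {u, p, r} := by
      by_contra hcon
      push Not at hcon
      have h1 := hsub p₂ (Or.inl rfl) (hcon p₂ (Or.inl rfl))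
      have h2 := hsub r₂ (Or.inr rfl) (hcon r₂ (Or.inr rfl))
      apply hyS
      have hmem : ∀ z, z ∈ Submodule.span F₀ {p, r} → Ph F₀ P z ∈ Submodule.span F {Ph F₀ P p, Ph F₀ P r} := by
        intro z hz
        obtain ⟨a, b, rfl⟩ := Submodule.mem_span_pair.1 hz
        rw [Ph_add, Ph_smul, Ph_smul]
        exact Submodule.add_mem _ (Submodule.smul_mem _ _ (Submodule.subset_span (by simp)))
          (Submodule.smul_mem _ _ (Submodule.subset_span (by simp)))
      rw [hpr₂]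
      exact Submodule.add_mem _ (hmem _ h1) (Submodule.smul_mem _ _ (hmem _ h2))
    obtain ⟨z, hz, hzn⟩ := hz
    obtain ⟨v, hv, hvY, hvz⟩ := o.iso_sep hodd (Y := Submodule.span F₀ {u, p, r}) (by
      have := finrank_span_three (F := F₀) u p r
      omega) hzn
    refine ⟨v, hv, hvY u (Submodule.subset_span (by simp)), hvY p (Submodule.subset_span (by simp)),
      hvY r (Submodule.subset_span (by simp)), ?_⟩
    rintro ⟨h1, h2⟩
    rcases hz with rfl | rfl
    · exact hvz (by rw [o.sy]; exact h1)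
    · exact hvz (by rw [o.sy]; exact h2)
  have kk : KM f 1 M (Ph F₀ P u) (Ph F₀ P v) := hK u v hu hv (by rw [o.sy]; exact hvu)
  have kk' : KM f 1 M u' v' := (hK x' y' hx' hy' hxy').conj h.sg hgM hgi
  have c1 : f (Ph F₀ P u) u' = 0 := h.sg.z (by
    rw [hpr, h.f1, o.sy p u, o.sy r u, hup, hur]; simp)
  have c2 : f (Ph F₀ P u) v' = 0 := h.sg.z (by
    rw [hpr₂, h.f1, o.sy p₂ u, o.sy r₂ u, hup₂, hur₂]; simp)
  have c3 : f (Ph F₀ P v) u' = 0 := h.sg.z (by
    rw [hpr, h.f1, o.sy p v, o.sy r v, hvp, hvr]; simp)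
  have c4 : f (Ph F₀ P v) v' ≠ 0 := by
    intro h0
    have h1 := h.sg.z h0
    rw [hpr₂, h.f1] at h1
    exact hvv' (h.ind h1)
  have k3 := kk.comm2 h.sg kk' (congrArg Subtype.val hu) (congrArg Subtype.val hv) hu'u' hv'v'
    (congrArg Subtype.val (show f0 h u v = 0 by rw [o.sy]; exact hvu)) hu'v' c1 c2 c3
  set l := -(f (Ph F₀ P v) v') with hl
  have hl0 : l ≠ 0 := neg_ne_zero.2 c4
  obtain ⟨p₃, r₃, hpr₃⟩ := h.decV (l • u')
  have hr₃ : r₃ ∉ Submodule.span F₀ {u} := by
    intro hm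
    obtain ⟨s, rfl⟩ := Submodule.mem_span_singleton.1 hm
    obtain ⟨a₁, a₂, ha⟩ := h.dec l⁻¹
    obtain ⟨b₁, b₂, hb⟩ := h.dec (l⁻¹ * κ * s)
    have e1 : u' = l⁻¹ • Ph F₀ P p₃ + (l⁻¹ * κ * s) • Ph F₀ P u := by
      have : u' = l⁻¹ • (l • u') := by rw [smul_smul, inv_mul_cancel₀ hl0, one_smul]
      rw [this, hpr₃, Ph_smul]
      module
    rw [hpr, hb, ha] at e1
    have e2 : Ph F₀ P p + κ • Ph F₀ P r = Ph F₀ P (a₁ • p₃ + b₁ • u) + κ • Ph F₀ P (a₂ • p₃ + b₂ • u) := by
      rw [e1, Ph_add, Ph_add, Ph_smul, Ph_smul, Ph_smul, Ph_smul]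
      module
    obtain ⟨e3, e4⟩ := h.uniq e2
    have e5 : a₂ • p - a₁ • r = (a₂ * b₁ - a₁ * b₂) • u := by
      rw [e3, e4]
      module
    by_cases hdet : a₂ * b₁ - a₁ * b₂ = 0
    · rw [hdet, zero_smul, sub_eq_zero] at e5
      by_cases ha2 : a₂ = 0
      · rw [ha2, zero_smul] at e5
        have ha1 : a₁ ≠ 0 := by
          rintro rfl
          rw [ha2] at ha
          simp at ha
          exact hl0 ha
        have : r = 0 := (smul_eq_zero.1 e5.symm).resolve_left ha1
        exact hpr2 (by rw [this]; exact Submodule.zero_mem _)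
      · apply hpr1
        refine Submodule.mem_span_singleton.2 ⟨a₂⁻¹ * a₁, ?_⟩
        rw [← smul_smul, ← e5, smul_smul, inv_mul_cancel₀ ha2, one_smul]
    · apply huW
      have e6 : u = (a₂ * b₁ - a₁ * b₂)⁻¹ • (a₂ • p - a₁ • r) := by
        rw [e5, smul_smul, inv_mul_cancel₀ hdet, one_smul]
      rw [e6]
      exact Submodule.smul_mem _ _ (Submodule.sub_mem _ (Submodule.smul_mem _ _ (Submodule.subset_span (by simp)))
        (Submodule.smul_mem _ _ (Submodule.subset_span (by simp))))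
  obtain ⟨v₁, hv₁, hv₁Y, hv₁r⟩ := o.iso_sep hodd (Y := Submodule.span F₀ {u}) (by
    have := finrank_span_one (F := F₀) u
    omega) hr₃
  have hv₁u : f0 h v₁ u = 0 := hv₁Y u (Submodule.mem_span_singleton_self u)
  refine ⟨u, hu0, hu, fun d hd => ?_⟩
  -- scale
  set e := d / κ with he
  have heF : e ∈ F₀ := by
    rw [h.mem, he, map_div₀, h.tk, eq_neg_of_add_eq_zero_right hd, neg_div_neg_eq]
  set R := f0 h r₃ v₁ with hRdef
  have hR0 : R ≠ 0 := by rw [hRdef, o.sy]; exact hv₁r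
  set t : F₀ := ⟨e, heF⟩ / (2 * R) with ht
  have hk1 : KM f 1 M (Ph F₀ P u) (Ph F₀ P (t • v₁)) := hK u (t • v₁) hu (by rw [o.smul_left, o.sr, hv₁, mul_zero, mul_zero])
    (by rw [o.sr, o.sy, hv₁u, mul_zero])
  have hut : f (Ph F₀ P u) (Ph F₀ P (t • v₁)) = 0 := congrArg Subtype.val (show f0 h u (t • v₁) = 0 by
    rw [o.sr, o.sy, hv₁u, mul_zero])
  have k4 := k3.comm1 h.sg hk1 (congrArg Subtype.val hu) (by rw [h.smul_left, h.toSFm.smul_right, hu'u', mul_zero, mul_zero])
    (congrArg Subtype.val (show f0 h (t • v₁) (t • v₁) = 0 by rw [o.smul_left, o.sr, hv₁, mul_zero, mul_zero]))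
    (by rw [h.toSFm.smul_right, c1, mul_zero]) hut
  have e7 : f (l • u') (Ph F₀ P (t • v₁)) = (f0 h p₃ (t • v₁) : F) + κ * (f0 h r₃ (t • v₁) : F) := by
    rw [hpr₃, h.f1]
  have e8 : (1 : F) * f (l • u') (Ph F₀ P (t • v₁)) - τ (f (l • u') (Ph F₀ P (t • v₁))) = d := by
    rw [e7, map_add, map_mul, h.tk, (h.mem _).1 (f0 h p₃ (t • v₁)).2, (h.mem _).1 (f0 h r₃ (t • v₁)).2, o.sr t r₃ v₁, ← hRdef]
    have e9 : ((t * R : F₀) : F) = e / 2 := by
      have h2 : (2 : F₀) ≠ 0 := o.two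
      have : t * R = ⟨e, heF⟩ / 2 := by
        rw [ht]
        field_simp
      rw [this]
      show e / ((2 : F₀) : F) = e / 2
      congr 1
    rw [e9, he]
    have h2 := h.two
    have hk := h.k0
    field_simp
    ring
  rw [e8] at k4
  exact k4

end Cfsg.Agent.H21.GUr
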