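import Mathlib
import Cfsg.Agent.GUr2

set_option autoImplicit false

/-! orthogonal structures in unitary spaces: from one transvection to all of them -/

namespace Cfsg.Agent.H21.GUr

open Matrix Module Cfsg.Geo Cfsg.Agent.H29.Trv Cfsg.Agent.H21.GUp Cfsg.Agent.H21.GUo Cfsg.Agent.H21.GUt

variable {F : Type*} [Field F] {n : ℕ}
variable {F₀ : Subfield F} {P : GL (Fin n) F}
variable {τ : F ≃+* F} {f : (Fin n → F) → (Fin n → F) → F} {κ : F}
variable [Fintype F] {M : Subgroup (GL (Fin n) F)}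

/-- stage C -/
theorem stageC (h : Cx τ f F₀ P κ) (hn : 13 ≤ n) (hi : GUp.Iso f M)
    (hK : ∀ a b, f0 h a a = 0 → f0 h b b = 0 → f0 h a b = 0 → KM f 1 M (Ph F₀ P a) (Ph F₀ P b))
    {u : Fin n → F₀} (hu0 : u ≠ 0) (hu : f0 h u u = 0) (hT : FT h.toUF M (Ph F₀ P u)) :
    ∀ y, f0 h y y = 0 → FT h.toUF M (Ph F₀ P y) := by
  classical
  haveI : Fintype F₀ := Fintype.ofFinite _
  have hodd := card_odd h
  have o := h.oF
  have step : ∀ u y, u ≠ 0 → f0 h u u = 0 → FT h.toUF M (Ph F₀ P u) → f0 h y y = 0 → f0 h u y = 0 →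
      y ∉ Submodule.span F₀ {u} → FT h.toUF M (Ph F₀ P y) := by
    intro u y hu0 hu hT hy huy hyu
    have hn' : u ∉ Submodule.span F₀ {y - u} := by
      intro hm
      obtain ⟨c, hc⟩ := Submodule.mem_span_singleton.1 hm
      have e : (1 + c) • u = c • y := by
        rw [add_smul, one_smul]
        nth_rewrite 1 [← hc]
        module
      have hc0 : c ≠ 0 := by
        rintro rfl
        rw [zero_smul] at hc
        exact hu0 hc.symm
      apply hyu
      refine Submodule.mem_span_singleton.2 ⟨c⁻¹ * (1 + c), ?_⟩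
      rw [← smul_smul, e, smul_smul, inv_mul_cancel₀ hc0, one_smul]
    obtain ⟨b, hb, hbY, hbu⟩ := o.iso_sep hodd (Y := Submodule.span F₀ {y - u}) (by
      have := finrank_span_one (F := F₀) (y - u)
      omega) hn'
    have hbyu : f0 h b (y - u) = 0 := hbY _ (Submodule.mem_span_singleton_self _)
    have hyu2 : f0 h (y - u) (y - u) = 0 := by
      rw [o.toSFm.sub_left, o.toSFm.sub_right, o.toSFm.sub_right, hy, hu, huy, o.sy y u, huy]; ring
    obtain ⟨k, hk, hkx⟩ := hK (y - u) ((f0 h b u)⁻¹ • b) hyu2 (by rw [o.smul_left, o.sr, hb, mul_zero, mul_zero])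
      (by rw [o.sr, o.sy (y - u) b, hbyu, mul_zero])
    have h1 := hT.conj hk (hi k hk)
    have e1 : f (Ph F₀ P u) (Ph F₀ P ((f0 h b u)⁻¹ • b)) = 1 := by
      rw [← f0_coe h, o.sr, o.sy u b, inv_mul_cancel₀ hbu]
      rfl
    have e2 : f (Ph F₀ P u) (Ph F₀ P (y - u)) = 0 := by
      rw [← f0_coe h, o.toSFm.sub_right, huy, hu, sub_zero]
      rfl
    rw [hkx, e1, e2, one_smul, mul_zero, zero_smul, sub_zero, Ph_sub, add_sub_cancel] at h1
    exact h1
  intro y hy
  by_cases hyu : y ∈ Submodule.span F₀ {u}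
  · obtain ⟨c, rfl⟩ := Submodule.mem_span_singleton.1 hyu
    rw [Ph_smul]
    exact hT.smul _
  obtain ⟨w, hw, hwY, hwW⟩ := o.iso_avoid hodd (Y := Submodule.span F₀ {u, y}) (W := Submodule.span F₀ {u, y}) (by
    have := finrank_span_two (F := F₀) u y
    omega)
  have hw0 : w ≠ 0 := by
    rintro rfl
    exact hwW (Submodule.zero_mem _)
  have e1 : f0 h w u = 0 := hwY u (Submodule.subset_span (by simp))
  have e2 : f0 h w y = 0 := hwY y (Submodule.subset_span (by simp))
  have h1 := step u w hu0 hu hT hw (by rw [o.sy]; exact e1) (fun hm => hwW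
    (Submodule.span_mono (by intro x hx; simp at hx ⊢; tauto) hm))
  refine step w y hw0 hw h1 hy e2 (fun hm => ?_)
  obtain ⟨t, ht⟩ := Submodule.mem_span_singleton.1 hm
  have hy0 : y ≠ 0 := by
    rintro rfl
    exact hyu (Submodule.zero_mem _)
  have ht0 : t ≠ 0 := by
    rintro rfl
    rw [zero_smul] at ht
    exact hy0 ht.symm
  apply hwW
  have : w = t⁻¹ • y := by rw [← ht, smul_smul, inv_mul_cancel₀ ht0, one_smul]
  rw [this]
  exact Submodule.smul_mem _ _ (Submodule.subset_span (by simp))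

/-- stage D -/
theorem stageD (h : Cx τ f F₀ P κ) (hn : 13 ≤ n) (hR : ∀ y, f0 h y y = 0 → FT h.toUF M (Ph F₀ P y)) :
    ∀ x, f x x = 0 → FT h.toUF M x := by
  classical
  haveI : Fintype F₀ := Fintype.ofFinite _
  have hodd := card_odd h
  have o := h.oF
  obtain ⟨k2, hk2⟩ : ∃ k2 : F₀, (k2 : F) = κ * κ := ⟨⟨κ * κ, (h.mem _).2 (by rw [map_mul, h.tk]; ring)⟩, rfl⟩
  have iso : ∀ p r, f (Ph F₀ P p + κ • Ph F₀ P r) (Ph F₀ P p + κ • Ph F₀ P r) = 0 ↔ f0 h p p = k2 * f0 h r r := by
    intro p r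
    rw [h.f2, sub_eq_zero, ← hk2]
    constructor
    · intro h1
      exact Subtype.ext h1
    · intro h1
      rw [h1]
      rfl
  have nsq : ∀ m : F₀, m * m ≠ k2 := by
    intro m hm
    have h1 : (m : F) * m = κ * κ := by rw [← hk2, ← hm]; rfl
    have h2 : ((m : F) - κ) * (m + κ) = 0 := by linear_combination h1
    rcases mul_eq_zero.1 h2 with h3 | h3
    · apply h.kn
      rw [← sub_eq_zero.1 h3]
      exact m.2
    · apply h.kn
      have : κ = -(m : F) := by linear_combination h3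
      rw [this]
      exact F₀.neg_mem m.2
  have LB : ∀ x y (a : F), f x x = 0 → f0 h y y = 0 → f x (Ph F₀ P y) ≠ 0 → FT h.toUF M (x + a • Ph F₀ P y) →
      FT h.toUF M x := by
    intro x y a hx hy hxy hT
    have hyy : f (Ph F₀ P y) (Ph F₀ P y) = 0 := congrArg Subtype.val hy
    have e : x + a • Ph F₀ P y + (-a) • Ph F₀ P y = x := by module
    have h1 := hT.line (hR y hy) (by rw [h.add_left, h.smul_left, hyy, mul_zero, add_zero]; exact hxy) (a := -a) (by rw [e]; exact hx)
    rwa [e] at h1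
  have D1 : ∀ p r, f0 h p p = 0 → f0 h r r = 0 → f0 h p r ≠ 0 → FT h.toUF M (Ph F₀ P p + κ • Ph F₀ P r) := by
    intro p r hp hr hpr
    refine (hR p hp).line (hR r hr) (fun h0 => hpr (Subtype.ext h0)) ?_
    rw [iso, hp, hr, mul_zero]
  have two0 := o.two
  have D2 : ∀ p r, f0 h p p = k2 * f0 h r r → f0 h p r ≠ 0 → FT h.toUF M (Ph F₀ P p + κ • Ph F₀ P r) := by
    intro p r hpp hpr
    obtain ⟨ρ, hρ, hG⟩ : ∃ ρ : F₀, ρ * ρ = 1 ∧ 2 * f0 h p r - ρ * (1 + k2) * f0 h r r ≠ 0 := by
      by_contra hcon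
      push Not at hcon
      have h1 := hcon 1 (by ring)
      have h2 := hcon (-1) (by ring)
      have h3 : (2 * 2) * f0 h p r = 0 := by linear_combination h1 + h2
      exact hpr ((mul_eq_zero.1 h3).resolve_left (mul_ne_zero two0 two0))
    have hρ0 : ρ ≠ 0 := by
      rintro rfl
      rw [mul_zero] at hρ
      exact zero_ne_one hρ
    have hrn : r ∉ Submodule.span F₀ {p - ρ • r} := by
      intro hm
      obtain ⟨c, hc⟩ := Submodule.mem_span_singleton.1 hm
      have e : (1 + c * ρ) • r = c • p := by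
        rw [add_smul, one_smul]
        nth_rewrite 1 [← hc]
        module
      have hc0 : c ≠ 0 := by
        rintro rfl
        rw [zero_smul] at hc
        rw [← hc, o.toSFm.zero_right] at hpr
        exact hpr rfl
      have e2 : p = (c⁻¹ * (1 + c * ρ)) • r := by
        rw [← smul_smul, e, smul_smul, inv_mul_cancel₀ hc0, one_smul]
      set μ := c⁻¹ * (1 + c * ρ) with hμ
      rw [e2, o.smul_left] at hpr
      rw [e2, o.smul_left, o.sr] at hpp
      have hrr : f0 h r r ≠ 0 := right_ne_zero_of_mul hpr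
      apply nsq μ
      have : (μ * μ - k2) * f0 h r r = 0 := by linear_combination hpp
      exact sub_eq_zero.1 ((mul_eq_zero.1 this).resolve_right hrr)
    obtain ⟨y, hy, hyY, hyr⟩ := o.iso_sep hodd (Y := Submodule.span F₀ {p - ρ • r}) (by
      have := finrank_span_one (F := F₀) (p - ρ • r)
      omega) hrn
    have hyp : f0 h y p = ρ * f0 h y r := by
      have := hyY _ (Submodule.mem_span_singleton_self _)
      rw [o.toSFm.sub_right, o.sr] at this
      linear_combination this
    set t := f0 h y r with ht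
    set a₁ : F₀ := -(f0 h p p) / (2 * (ρ * t)) with ha₁
    set a₂ : F₀ := -(f0 h r r) / (2 * t) with ha₂
    have hpy : f0 h p y = ρ * t := by rw [o.sy, hyp]
    have hry : f0 h r y = t := by rw [o.sy]
    have e1 : f0 h (p + a₁ • y) (p + a₁ • y) = 0 := by
      rw [o.add_left, o.toSFm.add_right, o.toSFm.add_right, o.smul_left, o.smul_left, o.sr, o.sr, hy, hyp, hpy, ha₁]
      field_simp
      ring
    have e2 : f0 h (r + a₂ • y) (r + a₂ • y) = 0 := by
      rw [o.add_left, o.toSFm.add_right, o.toSFm.add_right, o.smul_left, o.smul_left, o.sr, o.sr, hy, hry, ← ht, ha₂]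
      field_simp
      ring
    have e3 : f0 h (p + a₁ • y) (r + a₂ • y) ≠ 0 := by
      rw [o.add_left, o.toSFm.add_right, o.toSFm.add_right, o.smul_left, o.smul_left, o.sr, o.sr, hy, hpy, ← ht, ha₁, ha₂, hpp]
      intro h0
      apply hG
      have hρi : ρ⁻¹ = ρ := inv_eq_of_mul_eq_one_left hρ
      have e4 : -(k2 * f0 h r r) / (2 * (ρ * t)) * t = -(ρ * k2 * f0 h r r) / 2 := by
        have : -(k2 * f0 h r r) / (2 * (ρ * t)) * t = -(k2 * f0 h r r) / 2 * ρ⁻¹ := by field_simp
        rw [this, hρi]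
        ring
      have e5 : -(f0 h r r) / (2 * t) * (ρ * t) = -(ρ * f0 h r r) / 2 := by field_simp
      have h1 : f0 h p r + -(f0 h r r) / (2 * t) * (ρ * t) + (-(k2 * f0 h r r) / (2 * (ρ * t)) * t) = 0 := by
        linear_combination h0
      rw [e4, e5] at h1
      have h2 : (2 : F₀) * (f0 h p r + -(ρ * f0 h r r) / 2 + -(ρ * k2 * f0 h r r) / 2) = 0 := by rw [h1, mul_zero]
      field_simp at h2
      linear_combination h2
    have hT := D1 _ _ e1 e2 e3
    refine LB _ y ((a₁ : F) + κ * a₂) ((iso p r).2 hpp) hy ?_ ?_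
    · rw [h.f1, hpy, hry]
      intro h0
      exact hyr (h.ind h0).2
    · have e4 : Ph F₀ P p + κ • Ph F₀ P r + ((a₁ : F) + κ * a₂) • Ph F₀ P y = Ph F₀ P (p + a₁ • y) + κ • Ph F₀ P (r + a₂ • y) := by
        rw [Ph_add, Ph_add, Ph_smul, Ph_smul]
        module
      rw [e4]
      exact hT
  intro x hx
  obtain ⟨p, r, rfl⟩ := h.decV x
  have hpp := (iso p r).1 hx
  by_cases hpr : f0 h p r = 0
  · by_cases hps : p ∈ Submodule.span F₀ {r}
    · obtain ⟨μ, rfl⟩ := Submodule.mem_span_singleton.1 hps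
      have hrr : f0 h r r = 0 := by
        rw [o.smul_left, o.sr] at hpp
        have : (μ * μ - k2) * f0 h r r = 0 := by linear_combination hpp
        exact (mul_eq_zero.1 this).resolve_left (sub_ne_zero.2 (nsq μ))
      have e : Ph F₀ P (μ • r) + κ • Ph F₀ P r = ((μ : F) + κ) • Ph F₀ P r := by
        rw [Ph_smul]
        module
      rw [e]
      exact (hR r hrr).smul _
    · obtain ⟨y, hy, hyY, hyp⟩ := o.iso_sep hodd (Y := Submodule.span F₀ {r}) (by
        have := finrank_span_one (F := F₀) r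
        omega) hps
      have hyr : f0 h y r = 0 := hyY r (Submodule.mem_span_singleton_self r)
      refine LB _ y κ hx hy ?_ ?_
      · rw [h.f1, o.sy p y, o.sy r y, hyr]
        intro h0
        exact hyp (h.ind h0).1
      · have e4 : Ph F₀ P p + κ • Ph F₀ P r + κ • Ph F₀ P y = Ph F₀ P p + κ • Ph F₀ P (r + y) := by
          rw [Ph_add]
          module
        rw [e4]
        apply D2
        · rw [o.add_left, o.toSFm.add_right, o.toSFm.add_right, hy, hyr, o.sy r y, hyr, hpp]
          ring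
        · rw [o.toSFm.add_right, hpr, zero_add, o.sy]
          exact hyp
  · exact D2 p r hpp hpr

end Cfsg.Agent.H21.GUr
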