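import Mathlib
import Cfsg.Agent.GUp4
import Cfsg.Agent.GUo1

set_option autoImplicit false

/-! symmetric forms in odd characteristic over a general index type -/

namespace Cfsg.Agent.H21.GUs

open Matrix Module Cfsg.Geo Cfsg.Agent.H29.Trv Cfsg.Agent.H21.GUp

variable {ι : Type} [Fintype ι] [DecidableEq ι] {F : Type*} [Field F]
variable {f : (ι → F) → (ι → F) → F}

/-- symmetric forms in odd characteristic -/
structure OG (f : (ι → F) → (ι → F) → F) : Prop extends SG (RingEquiv.refl F) 1 f where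
  two : (2 : F) ≠ 0

theorem OG.sy (h : OG f) (x y : ι → F) : f x y = f y x := by
  rw [h.herm x y, one_mul]; rfl

theorem OG.srr (h : OG f) (c : F) (x y : ι → F) : f x (c • y) = c * f x y := h.sr c x y

theorem OG.adj (h : OG f) {x z : ι → F} (hx : f x x = 0) (hz : f z x ≠ 0) : ∃ a : F, f (z + a • x) (z + a • x) = 0 := by
  refine ⟨-(f z z) / (2 * f z x), ?_⟩
  rw [h.add_left, h.add_right, h.add_right, h.smul_left, h.smul_left, h.srr, h.srr, hx, h.sy x z]
  have := h.two
  field_simp
  ring

theorem OG.span_iso (h : OG f) {U W : Submodule F (ι → F)} {x z₀ : ι → F} (hx : x ∈ U) (hxx : f x x = 0)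
    (hz : z₀ ∈ U) (hzx : f z₀ x ≠ 0) (hW : ∀ v ∈ U, f v v = 0 → v ∈ W) : U ≤ W := by
  have hxW := hW x hx hxx
  have h1 : ∀ z ∈ U, f z x ≠ 0 → z ∈ W := by
    intro z hz hne
    obtain ⟨a, ha⟩ := h.adj hxx hne
    have h2 := hW _ (U.add_mem hz (U.smul_mem a hx)) ha
    exact (W.add_mem_iff_left (W.smul_mem a hxW)).1 h2
  intro z hzU
  by_cases h0 : f z x = 0
  · have h2 := h1 (z + z₀) (U.add_mem hzU hz) (by rw [h.add_left, h0, zero_add]; exact hzx)
    exact (W.add_mem_iff_left (h1 z₀ hz hzx)).1 h2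
  · exact h1 z hzU h0

theorem exists_perp_in (h : OG f) {U : Submodule F (ι → F)} {k : ℕ} (B : Fin k → (ι → F)) (hU : k < finrank F U) :
    ∃ z ∈ U, z ≠ 0 ∧ ∀ i, f (B i) z = 0 := by
  let L : U →ₗ[F] (Fin k → F) :=
    { toFun := fun x i => f (B i) x
      map_add' := fun x y => funext fun i => h.add_right _ _ _
      map_smul' := fun c x => funext fun i => h.srr _ _ _ }
  have h1 : LinearMap.ker L ≠ ⊥ := by
    intro h0
    have h3 := LinearMap.finrank_range_add_finrank_ker L
    have h4 : finrank F (LinearMap.range L) ≤ k := by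
      have := Submodule.finrank_le (LinearMap.range L)
      rwa [Module.finrank_fintype_fun_eq_card, Fintype.card_fin] at this
    rw [h0, finrank_bot] at h3
    omega
  obtain ⟨z, hz, hz0⟩ := (Submodule.ne_bot_iff _).1 h1
  refine ⟨z, z.2, fun h0 => hz0 (Subtype.ext h0), fun i => ?_⟩
  exact congrFun (show L z = 0 from hz) i

/-- isotropic vectors in subspaces of dimension three -/
theorem OG.exists_iso [Fintype F] (hodd : Odd (Fintype.card F)) (h : OG f) {U : Submodule F (ι → F)} (hU : 3 ≤ finrank F U) :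
    ∃ v ∈ U, v ≠ 0 ∧ f v v = 0 := by
  by_contra hcon
  push Not at hcon
  obtain ⟨x, hx, hx0, -⟩ := exists_perp_in h (U := U) (k := 0) ![] (by omega)
  obtain ⟨y, hy, hy0, hxy⟩ := exists_perp_in h (U := U) (k := 1) ![x] (by omega)
  obtain ⟨z, hz, hz0, hxyz⟩ := exists_perp_in h (U := U) (k := 2) ![x, y] (by omega)
  have e1 : f x y = 0 := hxy 0
  have e2 : f x z = 0 := hxyz 0
  have e3 : f y z = 0 := hxyz 1
  obtain ⟨s, t, hst⟩ := Cfsg.Agent.H21.GUo.binary hodd (hcon x hx hx0) (hcon y hy hy0) (c := -f z z)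
  refine hcon (s • x + t • y + z) (U.add_mem (U.add_mem (U.smul_mem _ hx) (U.smul_mem _ hy)) hz) ?_ ?_
  · intro h0
    have h1 : f z (s • x + t • y + z) = 0 := by rw [h0, h.toLL.zero_right]
    rw [h.add_right, h.add_right, h.srr, h.srr, h.sy z x, h.sy z y, e2, e3] at h1
    apply hcon z hz hz0
    linear_combination h1
  · simp only [h.add_left, h.add_right, h.smul_left, h.srr, h.sy y x, h.sy z x, h.sy z y, e1, e2, e3]
    linear_combination hst

/-- the orthogonal space -/
def pp (h : OG f) (Y : Submodule F (ι → F)) : Submodule F (ι → F) where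
  carrier := {v | ∀ w ∈ Y, f v w = 0}
  zero_mem' := fun w _ => h.toSG.zero_left w
  add_mem' := fun {x y} hx hy w hw => by rw [h.add_left, hx w hw, hy w hw, add_zero]
  smul_mem' := fun c x hx w hw => by rw [h.smul_left, hx w hw, mul_zero]

theorem finrank_pp (h : OG f) (Y : Submodule F (ι → F)) : Fintype.card ι ≤ finrank F (pp h Y) + finrank F Y := by
  let L : (ι → F) →ₗ[F] (Module.Dual F Y) :=
    { toFun := fun x =>
        { toFun := fun y => f x y
          map_add' := fun y z => h.add_right _ _ _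
          map_smul' := fun c y => h.srr _ _ _ }
      map_add' := fun x y => LinearMap.ext fun z => h.add_left _ _ _
      map_smul' := fun c x => LinearMap.ext fun z => h.smul_left _ _ _ }
  have h1 := LinearMap.finrank_range_add_finrank_ker L
  have h2 : finrank F (LinearMap.range L) ≤ finrank F Y := by
    have := Submodule.finrank_le (LinearMap.range L)
    rwa [Subspace.dual_finrank_eq] at this
  have h3 : LinearMap.ker L ≤ pp h Y := by
    intro x hx w hw
    exact LinearMap.congr_fun (show L x = 0 from hx) ⟨w, hw⟩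
  have h4 := Submodule.finrank_mono h3
  rw [Module.finrank_fintype_fun_eq_card] at h1
  omega

/-- isotropic vectors separating -/
theorem OG.iso_sep [Fintype F] (hodd : Odd (Fintype.card F)) (h : OG f) {Y : Submodule F (ι → F)}
    (hY : 2 * finrank F Y + 3 ≤ Fintype.card ι) {z : ι → F} (hz : z ∉ Y) : ∃ w, f w w = 0 ∧ (∀ y ∈ Y, f w y = 0) ∧ f w z ≠ 0 := by
  by_contra hcon
  push Not at hcon
  set U := pp h Y with hU
  obtain ⟨U', hU'⟩ : ∃ U' : Submodule F (ι → F), U' ≤ U ∧ U' ⊓ Y = ⊥ ∧ 3 ≤ finrank F U' := by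
    obtain ⟨C, hC⟩ := Submodule.exists_isCompl (U ⊓ Y)
    refine ⟨U ⊓ C, inf_le_left, ?_, ?_⟩
    · rw [eq_bot_iff]
      rintro x ⟨⟨hx1, hx2⟩, hx3⟩
      have : x ∈ (U ⊓ Y) ⊓ C := ⟨⟨hx1, hx3⟩, hx2⟩
      rwa [hC.inf_eq_bot] at this
    · have h1 := Submodule.finrank_sup_add_finrank_inf_eq U C
      have h2 : finrank F (U ⊓ Y : Submodule F (ι → F)) + finrank F C = Fintype.card ι := by
        rw [Submodule.finrank_add_eq_of_isCompl hC, Module.finrank_fintype_fun_eq_card]
      have h3 : finrank F (U ⊔ C : Submodule F (ι → F)) ≤ Fintype.card ι := by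
        have := Submodule.finrank_le (U ⊔ C)
        rwa [Module.finrank_fintype_fun_eq_card] at this
      have h4 : finrank F (U ⊓ Y : Submodule F (ι → F)) ≤ finrank F Y := Submodule.finrank_mono inf_le_right
      have h5 := finrank_pp h Y
      rw [← hU] at h5
      omega
  obtain ⟨hU'1, hU'2, hU'3⟩ := hU'
  obtain ⟨x, hx, hx0, hxx⟩ := h.exists_iso hodd hU'3
  have hxY : x ∉ Y := by
    intro hxY
    have : x ∈ U' ⊓ Y := ⟨hx, hxY⟩
    rw [hU'2] at this
    exact hx0 this
  obtain ⟨z₀, hz1, hz2⟩ := exists_sep h.toLL Y hxY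
  have hz₀U : z₀ ∈ U := fun y hy => h.toSG.z (hz2 y hy)
  have hW : ∀ v, v ∈ pp h (Submodule.span F {z}) ↔ f v z = 0 := by
    intro v
    constructor
    · intro hv; exact hv z (Submodule.mem_span_singleton_self z)
    · intro hv w hw
      obtain ⟨t, rfl⟩ := Submodule.mem_span_singleton.1 hw
      rw [h.srr, hv, mul_zero]
  have hle := h.span_iso (U := U) (W := pp h (Submodule.span F {z})) (hU'1 hx) hxx hz₀U
    (by rw [h.sy, hz1]; exact one_ne_zero) (fun v hv hvv => (hW v).2 (hcon v hvv hv))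
  obtain ⟨s, hs1, hs2⟩ := exists_sep h.toLL Y hz
  have := (hW s).1 (hle (fun y hy => h.toSG.z (hs2 y hy)))
  rw [h.sy, hs1] at this
  exact one_ne_zero this

/-- isotropic vectors avoiding a subspace -/
theorem OG.iso_avoid [Fintype F] (hodd : Odd (Fintype.card F)) (h : OG f) {Y W : Submodule F (ι → F)}
    (hY : finrank F Y + finrank F W + 3 ≤ Fintype.card ι) : ∃ w, f w w = 0 ∧ (∀ y ∈ Y, f w y = 0) ∧ w ∉ W := by
  set U := pp h Y with hU
  obtain ⟨C, hC⟩ := Submodule.exists_isCompl W
  have h1 := Submodule.finrank_sup_add_finrank_inf_eq U C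
  have h2 : finrank F W + finrank F C = Fintype.card ι := by
    rw [Submodule.finrank_add_eq_of_isCompl hC, Module.finrank_fintype_fun_eq_card]
  have h3 : finrank F (U ⊔ C : Submodule F (ι → F)) ≤ Fintype.card ι := by
    have := Submodule.finrank_le (U ⊔ C)
    rwa [Module.finrank_fintype_fun_eq_card] at this
  have h5 := finrank_pp h Y
  rw [← hU] at h5
  obtain ⟨x, hx, hx0, hxx⟩ := h.exists_iso hodd (U := U ⊓ C) (by omega)
  refine ⟨x, hxx, hx.1, fun hxW => ?_⟩
  have : x ∈ W ⊓ C := ⟨hxW, hx.2⟩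
  rw [hC.inf_eq_bot] at this
  exact hx0 this

/-- dimension of spans of finite sets -/
theorem fr_le (S : Finset (ι → F)) : finrank F (Submodule.span F (S : Set (ι → F))) ≤ S.card :=
  finrank_span_finset_le_card S

theorem fr1 (a : ι → F) : finrank F (Submodule.span F ({a} : Set (ι → F))) ≤ 1 := by
  have := fr_le (F := F) ({a} : Finset (ι → F))
  rwa [Finset.coe_singleton, Finset.card_singleton] at this

theorem fr2 (a b : ι → F) : finrank F (Submodule.span F ({a, b} : Set (ι → F))) ≤ 2 := by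
  classical
  have := fr_le (F := F) ({a, b} : Finset (ι → F))
  rw [Finset.coe_pair] at this
  exact this.trans Finset.card_le_two

theorem fr3 (a b c : ι → F) : finrank F (Submodule.span F ({a, b, c} : Set (ι → F))) ≤ 3 := by
  classical
  have := fr_le (F := F) ({a, b, c} : Finset (ι → F))
  have h2 : (({a, b, c} : Finset (ι → F)) : Set (ι → F)) = {a, b, c} := by simp
  rw [h2] at this
  exact this.trans Finset.card_le_three

theorem fr4 (a b c d : ι → F) : finrank F (Submodule.span F ({a, b, c, d} : Set (ι → F))) ≤ 4 := by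
  classical
  have := fr_le (F := F) ({a, b, c, d} : Finset (ι → F))
  have h2 : (({a, b, c, d} : Finset (ι → F)) : Set (ι → F)) = {a, b, c, d} := by simp
  rw [h2] at this
  exact this.trans Finset.card_le_four

theorem fr6 (a b c d e g : ι → F) : finrank F (Submodule.span F ({a, b, c, d, e, g} : Set (ι → F))) ≤ 6 := by
  classical
  have := fr_le (F := F) ({a, b, c, d, e, g} : Finset (ι → F))
  have h2 : (({a, b, c, d, e, g} : Finset (ι → F)) : Set (ι → F)) = {a, b, c, d, e, g} := by simp
  rw [h2] at this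
  exact this.trans Finset.card_le_six

end Cfsg.Agent.H21.GUs
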