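import Mathlib
import Cfsg.Agent.GUs1
import Cfsg.Agent.H29_TrvSp

set_option autoImplicit false

/-! quadratic extension structures of unitary type in symplectic spaces: from one transvection to all -/

namespace Cfsg.Agent.H21.GUs

open Matrix Module Cfsg.Geo Cfsg.Agent.H29.Trv Cfsg.Agent.H21.GUp

variable {ι : Type} [Fintype ι] [DecidableEq ι] {F : Type*} [Field F]

/-- the context -/
structure JX (f : (ι → F) → (ι → F) → F) (J : (ι → F) →ₗ[F] (ι → F)) (δ : F) : Prop extends Alt f where
  two : (2 : F) ≠ 0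
  sq : ∀ x, J (J x) = δ • x
  ns : ∀ c : F, c * c ≠ δ
  adj : ∀ x y, f (J x) y = - f x (J y)

variable {f : (ι → F) → (ι → F) → F} {J : (ι → F) →ₗ[F] (ι → F)} {δ : F}

theorem JX.d0 (h : JX f J δ) : δ ≠ 0 := fun h0 => h.ns 0 (by rw [h0, mul_zero])

theorem JX.zl (h : JX f J δ) (y : ι → F) : f 0 y = 0 := by
  have := h.smul_left 0 0 y
  rwa [zero_smul, zero_mul] at this

theorem JX.sub_left (h : JX f J δ) (x y z : ι → F) : f (x - y) z = f x z - f y z := by
  have h1 := h.add_left x (-y) z
  have h2 := h.smul_left (-1) y z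
  rw [neg_one_smul] at h2
  rw [sub_eq_add_neg, h1, h2]
  ring

theorem JX.sub_right (h : JX f J δ) (x y z : ι → F) : f x (y - z) = f x y - f x z := by
  rw [sub_eq_add_neg, h.add_right, h.toLL.neg_right]
  ring

theorem JX.zero_symm (h : JX f J δ) {x y : ι → F} (hxy : f x y = 0) : f y x = 0 := by
  rw [h.toAlt.skew, hxy, neg_zero]

theorem JX.inj (h : JX f J δ) {x : ι → F} (hx : J x = 0) : x = 0 := by
  have h1 := h.sq x
  rw [hx, map_zero] at h1
  exact (smul_eq_zero.1 h1.symm).resolve_left h.d0

/-- the symmetric form -/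
theorem JX.og (h : JX f J δ) : OG (fun x y => f x (J y)) where
  add_left := fun x y v => h.add_left x y _
  smul_left := fun c x v => h.smul_left c x _
  add_right := fun v x y => by simp only [map_add, h.add_right]
  nondeg := fun v hv => h.nondeg (J v) (fun h0 => hv (h.inj h0))
  eps := Or.inl rfl
  inv := fun _ => rfl
  sr := fun c v x => by simp only [map_smul, h.smul_right]; rfl
  herm := fun u v => by
    rw [one_mul]
    show f u (J v) = f v (J u)
    rw [h.toAlt.skew, h.adj]
    ring
  two := h.two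

theorem JX.gs (h : JX f J δ) (x y : ι → F) : f x (J y) = f y (J x) := h.og.sy x y

theorem JX.iJ (h : JX f J δ) {x : ι → F} (hx : f x (J x) = 0) : f (J x) (J (J x)) = 0 := by
  rw [h.sq, h.smul_right, h.toAlt.skew, hx, neg_zero, mul_zero]

theorem JX.fJJ (h : JX f J δ) (x y : ι → F) : f (J x) (J y) = -δ * f x y := by
  rw [h.adj, h.sq, h.smul_right]
  ring

/-- `M` contains the transvections of the unitary group -/
def XM (f : (ι → F) → (ι → F) → F) (J : (ι → F) →ₗ[F] (ι → F)) (δ : F) (M : Subgroup (GL ι F)) : Prop :=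
  ∀ (c : F) (w : ι → F), f w (J w) = 0 → ∃ g ∈ M, ∀ x, (g : Matrix ι ι F) *ᵥ x = x + (c * f x (J w)) • J w - (δ * c * f x w) • w

variable {M : Subgroup (GL ι F)}

/-- membership in `K u` -/
theorem JX.mem_swap (h : JX f J δ) {v w : ι → F} {a b : F} (hab : a ≠ 0 ∨ b ≠ 0)
    (hm : a • w + b • J w ∈ Submodule.span F {v, J v}) : w ∈ Submodule.span F {v, J v} := by
  have hJ : ∀ x ∈ Submodule.span F {v, J v}, J x ∈ Submodule.span F {v, J v} := by
    intro x hx
    obtain ⟨s, t, rfl⟩ := Submodule.mem_span_pair.1 hx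
    refine Submodule.mem_span_pair.2 ⟨t * δ, s, ?_⟩
    rw [map_add, map_smul, map_smul, h.sq]
    module
  have h1 := (Submodule.span F {v, J v}).sub_mem ((Submodule.span F {v, J v}).smul_mem a hm)
    ((Submodule.span F {v, J v}).smul_mem b (hJ _ hm))
  have e : a • (a • w + b • J w) - b • J (a • w + b • J w) = (a * a - b * b * δ) • w := by
    rw [map_add, map_smul, map_smul, h.sq]
    module
  rw [e] at h1
  have hne : a * a - b * b * δ ≠ 0 := by
    intro h0
    by_cases hb : b = 0
    · rw [hb] at h0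
      have ha : a = 0 := by
        have : a * a = 0 := by linear_combination h0
        exact mul_self_eq_zero.1 this
      rcases hab with h2 | h2
      · exact h2 ha
      · exact h2 hb
    · apply h.ns (a / b)
      have : a * a = b * b * δ := by linear_combination h0
      field_simp
      linear_combination this
  exact (Submodule.smul_mem_iff _ hne).1 h1

theorem JX.mem_swap' (h : JX f J δ) {v w : ι → F} (hw : w ≠ 0) (hm : w ∈ Submodule.span F {v, J v}) :
    v ∈ Submodule.span F {w, J w} := by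
  obtain ⟨s, t, hst⟩ := Submodule.mem_span_pair.1 hm
  apply h.mem_swap (a := s) (b := t)
  · by_contra hcon
    push Not at hcon
    rw [hcon.1, hcon.2, zero_smul, zero_smul, add_zero] at hst
    exact hw hst.symm
  · rw [hst]
    exact Submodule.subset_span (by simp)

/-- first move -/
theorem S1 (h : JX f J δ) (hi : GUp.Iso f M) (hX : XM f J δ M) {u z : ι → F} (hu : Full h.toAlt M u) (hz : f z (J z) = 0)
    (huz : f u (J z) = 0) (hne : f u z ≠ 0) : Full h.toAlt M z := by
  -- w = δ⁻¹ J z
  set w := δ⁻¹ • J z with hw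
  have hJw : J w = z := by
    rw [hw, map_smul, h.sq, smul_smul, inv_mul_cancel₀ h.d0, one_smul]
  have hww : f w (J w) = 0 := by
    rw [hJw, hw, h.smul_left, h.toAlt.skew, hz, neg_zero, mul_zero]
  have huw : f u w = 0 := by rw [hw, h.smul_right, huz, mul_zero]
  obtain ⟨g, hg, hgx⟩ := hX (f u z)⁻¹ w hww
  have h1 := hu.conj h.toAlt hg (hi g hg)
  rw [hgx, hJw, huw, mul_zero, zero_smul, sub_zero, inv_mul_cancel₀ hne, one_smul] at h1
  have h2 := Full.move h.toAlt hu h1 (-1) (by
    rw [h.add_left, h.self, zero_add, h.toAlt.skew]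
    exact neg_ne_zero.2 hne)
  have e : u + z + (-1 : F) • u = z := by module
  rwa [e] at h2

/-- second move -/
theorem S2 [Fintype F] (h : JX f J δ) (hodd : Odd (Fintype.card F)) (hn : 14 ≤ Fintype.card ι) (hi : GUp.Iso f M)
    (hX : XM f J δ M) {u v : ι → F} (hu : Full h.toAlt M u) (huu : f u (J u) = 0)
    (hv : f v (J v) = 0) (huv : f u v = 0) (huJv : f u (J v) = 0) (hu0 : u ≠ 0) (hvn : v ∉ Submodule.span F {u, J u}) :
    Full h.toAlt M v := by
  have o := h.og
  have hv0 : v ≠ 0 := by
    rintro rfl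
    exact hvn (Submodule.zero_mem _)
  have hun : u ∉ Submodule.span F {v, J v} := fun hm => hvn (h.mem_swap' hu0 hm)
  -- choose z
  obtain ⟨z, hz, hzY, hzu⟩ := o.iso_sep hodd (Y := Submodule.span F {v, J v, u}) (z := J u) (by
    have := fr3 (F := F) v (J v) u
    omega) (by
    intro hm
    apply hun
    rw [show ({v, J v, u} : Set (ι → F)) = insert v (insert (J v) {u}) from rfl] at hm
    obtain ⟨a, y, hy, e1⟩ := Submodule.mem_span_insert.1 hm
    obtain ⟨b, c, e2⟩ := Submodule.mem_span_pair.1 hy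
    apply h.mem_swap (a := -c) (b := 1) (Or.inr one_ne_zero)
    have e3 : (-c) • u + (1 : F) • J u = a • v + b • J v := by
      rw [e1, ← e2]
      module
    rw [e3]
    exact Submodule.add_mem _ (Submodule.smul_mem _ _ (Submodule.subset_span (by simp)))
      (Submodule.smul_mem _ _ (Submodule.subset_span (by simp))))
  have hz' : f z (J z) = 0 := hz
  have hzv : f z (J v) = 0 := hzY v (Submodule.subset_span (by simp))
  have hzJv : f z v = 0 := by
    have h1 : f z (J (J v)) = 0 := hzY (J v) (Submodule.subset_span (by simp))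
    rw [h.sq, h.smul_right] at h1
    exact (mul_eq_zero.1 h1).resolve_left h.d0
  have hzu0 : f z (J u) = 0 := hzY u (Submodule.subset_span (by simp))
  have hzu1 : f z u ≠ 0 := by
    have h1 : f z (J (J u)) ≠ 0 := hzu
    rw [h.sq, h.smul_right] at h1
    exact right_ne_zero_of_mul h1
  have huz : f u (J z) = 0 := by rw [h.gs]; exact hzu0
  have huz1 : f u z ≠ 0 := by
    rw [h.toAlt.skew]; exact neg_ne_zero.2 hzu1
  -- choose v₂
  obtain ⟨v₂, hv₂, hv₂Y, hv₂v⟩ := o.iso_sep hodd (Y := Submodule.span F {u, J u, z, J z}) (z := J v) (by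
    have := fr4 (F := F) u (J u) z (J z)
    omega) (by
    intro hm
    rw [show ({u, J u, z, J z} : Set (ι → F)) = insert u (insert (J u) {z, J z}) from rfl] at hm
    obtain ⟨a, y, hy, e1⟩ := Submodule.mem_span_insert.1 hm
    obtain ⟨b, y', hy', e2⟩ := Submodule.mem_span_insert.1 hy
    obtain ⟨c, d, e3⟩ := Submodule.mem_span_pair.1 hy'
    have e4 : J v = a • u + b • J u + c • z + d • J z := by
      rw [e1, e2, ← e3]
      abel
    have g1 : f (J v) u = 0 := h.zero_symm huJv
    have g2 : f (J v) (J u) = 0 := by rw [h.fJJ, h.zero_symm huv, mul_zero]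
    have q1 : f (J u) u = 0 := h.zero_symm huu
    have q2 : f (J z) u = 0 := h.zero_symm huz
    have q3 : f (J z) (J u) = -δ * f z u := h.fJJ z u
    rw [e4, h.add_left, h.add_left, h.add_left, h.smul_left, h.smul_left, h.smul_left, h.smul_left, h.self, q1, q2] at g1
    rw [e4, h.add_left, h.add_left, h.add_left, h.smul_left, h.smul_left, h.smul_left, h.smul_left, h.self, huu, q3,
      hzu0] at g2
    have hc : c = 0 := by
      have : c * f z u = 0 := by linear_combination g1
      exact (mul_eq_zero.1 this).resolve_right hzu1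
    have hd : d = 0 := by
      have : d * (-δ * f z u) = 0 := by linear_combination g2
      exact (mul_eq_zero.1 this).resolve_right (mul_ne_zero (neg_ne_zero.2 h.d0) hzu1)
    rw [hc, hd, zero_smul, zero_smul, add_zero, add_zero] at e4
    apply hvn
    apply h.mem_swap (a := 0) (b := 1) (Or.inr one_ne_zero)
    rw [zero_smul, one_smul, zero_add, e4]
    exact Submodule.add_mem _ (Submodule.smul_mem _ _ (Submodule.subset_span (by simp)))
      (Submodule.smul_mem _ _ (Submodule.subset_span (by simp))))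
  have hv₂' : f v₂ (J v₂) = 0 := hv₂
  have hv₂v' : f v₂ v ≠ 0 := by
    have h1 : f v₂ (J (J v)) ≠ 0 := hv₂v
    rw [h.sq, h.smul_right] at h1
    exact right_ne_zero_of_mul h1
  have hv₂u : f v₂ (J u) = 0 := hv₂Y u (Submodule.subset_span (by simp))
  have hv₂u' : f v₂ u = 0 := by
    have h1 : f v₂ (J (J u)) = 0 := hv₂Y (J u) (Submodule.subset_span (by simp))
    rw [h.sq, h.smul_right] at h1
    exact (mul_eq_zero.1 h1).resolve_left h.d0
  have hv₂z : f v₂ (J z) = 0 := hv₂Y z (Submodule.subset_span (by simp))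
  have hv₂z' : f v₂ z = 0 := by
    have h1 : f v₂ (J (J z)) = 0 := hv₂Y (J z) (Submodule.subset_span (by simp))
    rw [h.sq, h.smul_right] at h1
    exact (mul_eq_zero.1 h1).resolve_left h.d0
  -- vectors z + v and z + c v₂
  have m1 : Full h.toAlt M (z + v) := by
    apply S1 h hi hX hu
    · rw [map_add, h.add_left, h.add_right, h.add_right, hz', hv, hzv, h.gs v z, hzv]; ring
    · rw [map_add, h.add_right, huz, huJv, add_zero]
    · rw [h.add_right, huv, add_zero]; exact huz1
  have m2 : ∀ c : F, Full h.toAlt M (z + c • v₂) := by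
    intro c
    apply S1 h hi hX hu
    · rw [map_add, map_smul, h.add_left, h.add_right, h.add_right, h.smul_left, h.smul_left, h.smul_right, h.smul_right, hz',
        hv₂', hv₂z, h.gs z v₂, hv₂z]; ring
    · rw [map_add, map_smul, h.add_right, h.smul_right, huz, h.gs u v₂, hv₂u]; ring
    · rw [h.add_right, h.smul_right, h.zero_symm hv₂u', mul_zero, add_zero]; exact huz1
  have m3 : ∀ c : F, c ≠ 0 → Full h.toAlt M (v - c • v₂) := by
    intro c hc
    have h1 := Full.move h.toAlt (m2 c) m1 (-1) (by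
      rw [h.add_left, h.add_right, h.add_right, h.smul_right, h.smul_right, h.self, h.zero_symm hv₂z', h.zero_symm hzJv]
      rw [mul_zero, add_zero, zero_add, zero_add]
      exact mul_ne_zero hc (fun h0 => hv₂v' (h.zero_symm h0)))
    have e : z + v + (-1 : F) • (z + c • v₂) = v - c • v₂ := by module
    rwa [e] at h1
  have e0 : f (v - (1 : F) • v₂) (v - (-1 : F) • v₂) = -(2 * f v₂ v) := by
    simp only [h.sub_left, h.sub_right, h.smul_left, h.smul_right, h.self]
    rw [h.toAlt.skew v v₂]
    ring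
  have m4 := Full.move h.toAlt (m3 (-1) (neg_ne_zero.2 one_ne_zero)) (m3 1 one_ne_zero) 1 (by
    rw [e0]
    exact neg_ne_zero.2 (mul_ne_zero h.two hv₂v'))
  have e : v - (1 : F) • v₂ + (1 : F) • (v - (-1 : F) • v₂) = (2 : F) • v := by module
  rw [e] at m4
  have m5 := Full.smul h.toAlt m4 (2 : F)⁻¹
  rwa [smul_smul, inv_mul_cancel₀ h.two, one_smul] at m5

/-- all isotropic vectors -/
theorem S3 [Fintype F] (h : JX f J δ) (hodd : Odd (Fintype.card F)) (hn : 14 ≤ Fintype.card ι) (hi : GUp.Iso f M)
    (hX : XM f J δ M) {u : ι → F} (hu : Full h.toAlt M u) (huu : f u (J u) = 0) (hu0 : u ≠ 0) :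
    ∀ x, f x (J x) = 0 → Full h.toAlt M x := by
  have o := h.og
  intro x hx
  by_cases hx0 : x = 0
  · rw [hx0]; exact Full.zero h.toAlt
  obtain ⟨w, hw, hwY, hwW⟩ := o.iso_avoid hodd (Y := Submodule.span F {u, J u, x, J x}) (W := Submodule.span F {u, J u, x, J x}) (by
    have := fr4 (F := F) u (J u) x (J x)
    omega)
  have hw0 : w ≠ 0 := by
    rintro rfl
    exact hwW (Submodule.zero_mem _)
  have aux : ∀ y, (y ∈ Submodule.span F {u, J u, x, J x}) → J y ∈ Submodule.span F {u, J u, x, J x} → f w (J y) = 0 ∧ f w y = 0 := by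
    intro y hy hJy
    refine ⟨hwY y hy, ?_⟩
    have h1 : f w (J (J y)) = 0 := hwY (J y) hJy
    rw [h.sq, h.smul_right] at h1
    exact (mul_eq_zero.1 h1).resolve_left h.d0
  obtain ⟨a1, a2⟩ := aux u (Submodule.subset_span (by simp)) (Submodule.subset_span (by simp))
  obtain ⟨b1, b2⟩ := aux x (Submodule.subset_span (by simp)) (Submodule.subset_span (by simp))
  have h1 : Full h.toAlt M w := by
    refine S2 h hodd hn hi hX hu huu hw (h.zero_symm a2) (by rw [h.gs]; exact a1) hu0 (fun hm => hwW ?_)
    exact Submodule.span_mono (by intro y hy; simp at hy ⊢; tauto) hm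
  refine S2 h hodd hn hi hX h1 hw hx b2 b1 hw0 (fun hm => hwW ?_)
  have h2 := h.mem_swap' hx0 hm
  exact Submodule.span_mono (by intro y hy; simp at hy ⊢; tauto) h2

/-- all vectors -/
theorem S4 [Fintype F] (h : JX f J δ) (hodd : Odd (Fintype.card F)) (hn : 14 ≤ Fintype.card ι)
    (hall : ∀ x, f x (J x) = 0 → Full h.toAlt M x) : ∀ x, Full h.toAlt M x := by
  have o := h.og
  intro x
  by_cases hx : f x (J x) = 0
  · exact hall x hx
  have hx0 : x ≠ 0 := by
    rintro rfl
    exact hx (h.zl _)
  obtain ⟨y₀, hy₀, hy₀Y, hy₀x⟩ := o.iso_sep hodd (Y := Submodule.span F {x - J x}) (z := x) (by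
    have := fr1 (F := F) (x - J x)
    omega) (by
    intro hm
    obtain ⟨c, hc⟩ := Submodule.mem_span_singleton.1 hm
    apply hx0
    have h1 : x ∈ Submodule.span F {(0 : ι → F), J 0} := by
      apply h.mem_swap (a := 1 - c) (b := c)
      · by_cases hc0 : c = 0
        · left; rw [hc0, sub_zero]; exact one_ne_zero
        · right; exact hc0
      · have : (1 - c) • x + c • J x = 0 := by
          have e : (1 - c) • x + c • J x = x - c • (x - J x) := by module
          rw [e, hc, sub_self]
        rw [this]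
        exact Submodule.zero_mem _
    rw [map_zero] at h1
    simpa using h1)
  have hy₀' : f y₀ (J y₀) = 0 := hy₀
  have hyx : f y₀ (J x) ≠ 0 := hy₀x
  have hyx2 : f y₀ (J x) = f y₀ (J (J x)) := by
    have h1 : f y₀ (J (x - J x)) = 0 := hy₀Y _ (Submodule.mem_span_singleton_self _)
    rw [map_sub, h.sub_right] at h1
    exact sub_eq_zero.1 h1
  have hyx3 : f y₀ x ≠ 0 := by
    rw [hyx2, h.sq, h.smul_right] at hyx
    exact right_ne_zero_of_mul hyx
  set c := f x (J x) / (2 * f y₀ (J x)) with hc
  have hc0 : c ≠ 0 := div_ne_zero hx (mul_ne_zero h.two hyx)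
  have h1 : Full h.toAlt M (c • y₀) := Full.smul h.toAlt (hall y₀ hy₀') c
  have h2 : Full h.toAlt M (x - c • y₀) := by
    apply hall
    rw [map_sub, map_smul, h.sub_left, h.sub_right, h.sub_right, h.smul_left, h.smul_left, h.smul_right, h.smul_right, hy₀',
      h.gs x y₀, hc]
    have := h.two
    field_simp
    ring
  have h3 := Full.move h.toAlt h1 h2 1 (by
    rw [h.sub_left, h.smul_left, h.smul_right, h.smul_right, h.self, mul_zero, mul_zero, sub_zero]
    exact mul_ne_zero hc0 (fun h0 => hyx3 (h.zero_symm h0)))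
  have e : x - c • y₀ + (1 : F) • (c • y₀) = x := by module
  rwa [e] at h3

end Cfsg.Agent.H21.GUs
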