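import Mathlib
import Cfsg.Agent.GUs2

set_option autoImplicit false

/-! quadratic extension structures of unitary type in symplectic spaces: producing a transvection -/

namespace Cfsg.Agent.H21.GUs

open Matrix Module Cfsg.Geo Cfsg.Agent.H29.Trv Cfsg.Agent.H21.GUp

variable {ι : Type} [Fintype ι] [DecidableEq ι] {F : Type*} [Field F]
variable {f : (ι → F) → (ι → F) → F} {J J' : (ι → F) →ₗ[F] (ι → F)} {δ : F}
variable {M : Subgroup (GL ι F)}

/-- if `J'` preserves all isotropic `K`-lines then `J' = ± J` -/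
theorem pm_of_lines [Fintype F] (h : JX f J δ) (h' : JX f J' δ) (hodd : Odd (Fintype.card F)) (hn : 14 ≤ Fintype.card ι)
    (hl : ∀ v, f v (J v) = 0 → J' v ∈ Submodule.span F {v, J v}) : (∀ x, J' x = J x) ∨ (∀ x, J' x = - J x) := by
  have o := h.og
  have same : ∀ v w : ι → F, v ≠ 0 → f v (J v) = 0 → f w (J w) = 0 → f v (J w) = 0 → w ∉ Submodule.span F {v, J v} →
      ∀ α β : F, J' v = α • v + β • J v → J' w = α • w + β • J w := by
    intro v w hv0 hv hw hvw hwn α β hJv
    obtain ⟨α₂, β₂, h2⟩ := Submodule.mem_span_pair.1 (hl w hw)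
    obtain ⟨α₃, β₃, h3⟩ := Submodule.mem_span_pair.1 (hl (v + w) (by
      rw [map_add, h.add_left, h.add_right, h.add_right, hv, hw, hvw, h.gs w v, hvw]; ring))
    rw [map_add J', hJv, ← h2, map_add J] at h3
    have e1 : (α₂ - α₃) • w + (β₂ - β₃) • J w = (α₃ - α) • v + (β₃ - β) • J v := by
      have : (α₂ - α₃) • w + (β₂ - β₃) • J w = (α • v + β • J v + (α₂ • w + β₂ • J w)) - α • v - β • J v - α₃ • w - β₃ • J w := by
        module
      rw [this, ← h3]
      module
    have hz : α₂ - α₃ = 0 ∧ β₂ - β₃ = 0 := by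
      by_contra hcon
      apply hwn
      apply h.mem_swap (a := α₂ - α₃) (b := β₂ - β₃)
      · rw [not_and_or] at hcon
        exact hcon
      · rw [e1]
        exact Submodule.add_mem _ (Submodule.smul_mem _ _ (Submodule.subset_span (by simp)))
          (Submodule.smul_mem _ _ (Submodule.subset_span (by simp)))
    rw [hz.1, hz.2, zero_smul, zero_smul, add_zero] at e1
    have hz2 : α₃ - α = 0 ∧ β₃ - β = 0 := by
      by_contra hcon
      apply hv0
      have h4 : v ∈ Submodule.span F {(0 : ι → F), J 0} := by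
        apply h.mem_swap (a := α₃ - α) (b := β₃ - β)
        · rw [not_and_or] at hcon
          exact hcon
        · rw [← e1]
          exact Submodule.zero_mem _
      rw [map_zero] at h4
      simpa using h4
    rw [← h2]
    have e2 : α₂ = α := by linear_combination hz.1 + hz2.1
    have e3 : β₂ = β := by linear_combination hz.2 + hz2.2
    rw [e2, e3]
  obtain ⟨v₀, hv₀, -, hv₀W⟩ := o.iso_avoid hodd (Y := (⊥ : Submodule F (ι → F))) (W := ⊥) (by rw [finrank_bot]; omega)
  have hv₀0 : v₀ ≠ 0 := by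
    rintro rfl
    exact hv₀W (Submodule.zero_mem _)
  obtain ⟨α, β, hαβ⟩ := Submodule.mem_span_pair.1 (hl v₀ hv₀)
  have hall : ∀ x, f x (J x) = 0 → J' x = α • x + β • J x := by
    intro x hx
    by_cases hx0 : x = 0
    · rw [hx0, map_zero, map_zero, smul_zero, smul_zero, add_zero]
    obtain ⟨w, hw, hwY, hwW⟩ := o.iso_avoid hodd (Y := Submodule.span F {v₀, x}) (W := Submodule.span F {v₀, J v₀, x, J x}) (by
      have := fr2 (F := F) v₀ x
      have := fr4 (F := F) v₀ (J v₀) x (J x)
      omega)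
    have hw0 : w ≠ 0 := by
      rintro rfl
      exact hwW (Submodule.zero_mem _)
    have e1 : f w (J v₀) = 0 := hwY v₀ (Submodule.subset_span (by simp))
    have e2 : f w (J x) = 0 := hwY x (Submodule.subset_span (by simp))
    have e3 := same v₀ w hv₀0 hv₀ hw (by rw [h.gs]; exact e1) (fun hm => hwW
      (Submodule.span_mono (by intro y hy; simp at hy ⊢; tauto) hm)) α β hαβ.symm
    refine same w x hw0 hw hx e2 (fun hm => ?_) α β e3
    apply hwW
    have h2 := h.mem_swap' hx0 hm
    exact Submodule.span_mono (by intro y hy; simp at hy ⊢; tauto) h2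
  let W : Submodule F (ι → F) := LinearMap.ker (J' - α • (LinearMap.id : (ι → F) →ₗ[F] (ι → F)) - β • J)
  have hW : ∀ x, x ∈ W ↔ J' x = α • x + β • J x := by
    intro x
    show (J' - α • (LinearMap.id : (ι → F) →ₗ[F] (ι → F)) - β • J) x = 0 ↔ _
    rw [LinearMap.sub_apply, LinearMap.sub_apply, LinearMap.smul_apply, LinearMap.smul_apply, LinearMap.id_apply, sub_sub,
      sub_eq_zero]
  obtain ⟨z₀, hz₀⟩ := o.nondeg v₀ hv₀0
  have hle := o.span_iso (U := ⊤) (W := W) (x := v₀) (z₀ := z₀) trivial hv₀ trivial hz₀ (fun v _ hv => (hW v).2 (hall v hv))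
  have hJ' : ∀ x, J' x = α • x + β • J x := fun x => (hW x).1 (hle trivial)
  -- α = 0
  have hα : α = 0 := by
    obtain ⟨y, hy⟩ := h.nondeg v₀ hv₀0
    have h1 := h'.adj y v₀
    rw [hJ', hJ', h.add_left, h.add_right, h.smul_left, h.smul_left, h.smul_right, h.smul_right, h.adj] at h1
    have h2 : (2 * f y v₀) * α = 0 := by linear_combination h1
    exact (mul_eq_zero.1 h2).resolve_left (mul_ne_zero h.two hy)
  have hβ : β * β = 1 := by
    have h1 := h'.sq v₀
    rw [hJ' (J' v₀), hJ' v₀, hα, zero_smul, zero_smul, zero_add, zero_add, map_smul, h.sq, smul_smul, smul_smul] at h1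
    have h2 : (β * β * δ - δ) • v₀ = 0 := by rw [sub_smul, h1, sub_self]
    have h3 := (smul_eq_zero.1 h2).resolve_right hv₀0
    have h4 : (β * β - 1) * δ = 0 := by linear_combination h3
    exact sub_eq_zero.1 ((mul_eq_zero.1 h4).resolve_right h.d0)
  rcases mul_self_eq_one_iff.1 hβ with h1 | h1
  · left
    intro x
    rw [hJ', hα, h1, zero_smul, zero_add, one_smul]
  · right
    intro x
    rw [hJ', hα, h1, zero_smul, zero_add, neg_one_smul]

/-- stage 0 -/
theorem stage0 [Fintype F] (h : JX f J δ) (h' : JX f J' δ) (hodd : Odd (Fintype.card F)) (hn : 14 ≤ Fintype.card ι)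
    (hne : ¬ ((∀ x, J' x = J x) ∨ (∀ x, J' x = - J x))) :
    ∃ v u', f v (J v) = 0 ∧ f u' (J' u') = 0 ∧ f v u' = 0 ∧ f (J v) u' = 0 ∧ f v (J' u') = 0 ∧ f (J v) (J' u') ≠ 0 := by
  have o' := h'.og
  obtain ⟨v, u', hv, hu', h1, h2, h3⟩ : ∃ v u', f v (J v) = 0 ∧ f u' (J' u') = 0 ∧ f v u' = 0 ∧ f (J v) u' = 0 ∧
      ¬ (f v (J' u') = 0 ∧ f (J v) (J' u') = 0) := by
    by_contra hcon
    push Not at hcon
    apply hne
    apply pm_of_lines h h' hodd hn
    intro v hv
    by_contra hmem
    have hv0 : v ≠ 0 := by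
      rintro rfl
      apply hmem
      rw [map_zero J']
      exact Submodule.zero_mem _
    -- z with f (J' v) z = 1, z ⟂ K v
    obtain ⟨z, hz1, hz2⟩ := exists_sep h.toLL _ hmem
    have hzv : f v z = 0 := hz2 v (Submodule.subset_span (by simp))
    have hzJv : f (J v) z = 0 := hz2 (J v) (Submodule.subset_span (by simp))
    -- W as a perp
    set Y := Submodule.span F {J' v, J' (J v)} with hY
    obtain ⟨x, hx, hxY, hxW⟩ := o'.iso_avoid hodd (Y := Y) (W := Y) (by
      have := fr2 (F := F) (J' v) (J' (J v))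
      rw [← hY] at this
      omega)
    obtain ⟨z₀, hz₀1, hz₀2⟩ := exists_sep o'.toLL _ hxW
    -- the condition of being in W
    have hWi : ∀ w, w ∈ pp o' Y → f w v = 0 ∧ f w (J v) = 0 := by
      intro w hw
      have e1 : f w (J' (J' v)) = 0 := hw _ (Submodule.subset_span (by simp))
      have e2 : f w (J' (J' (J v))) = 0 := hw _ (Submodule.subset_span (by simp))
      rw [h'.sq, h.smul_right] at e1 e2
      exact ⟨(mul_eq_zero.1 e1).resolve_left h.d0, (mul_eq_zero.1 e2).resolve_left h.d0⟩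
    have hle := o'.span_iso (U := pp o' Y) (W := (pp o' Y).comap J') (x := x) (z₀ := z₀) hxY hx
      (fun y hy => o'.toSG.z (hz₀2 y hy)) (by
        show f z₀ (J' x) ≠ 0
        rw [h'.gs]
        have : f x (J' z₀) = 1 := hz₀1
        rw [this]; exact one_ne_zero) (by
        intro w hw hww
        obtain ⟨e1, e2⟩ := hWi w hw
        obtain ⟨e3, e4⟩ := hcon v w hv hww (h.zero_symm e1) (h.zero_symm e2)
        intro y hy
        obtain ⟨s, t, rfl⟩ := Submodule.mem_span_pair.1 hy
        show f (J' w) (J' (s • J' v + t • J' (J v))) = 0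
        rw [map_add, map_smul, map_smul, h'.sq, h'.sq, h.add_right, h.smul_right, h.smul_right, h.smul_right, h.smul_right,
          h.zero_symm e3, h.zero_symm e4]
        ring)
    have hzW : z ∈ pp o' Y := by
      intro y hy
      obtain ⟨s, t, rfl⟩ := Submodule.mem_span_pair.1 hy
      show f z (J' (s • J' v + t • J' (J v))) = 0
      rw [map_add, map_smul, map_smul, h'.sq, h'.sq, h.add_right, h.smul_right, h.smul_right, h.smul_right, h.smul_right,
          h.zero_symm hzv, h.zero_symm hzJv]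
      ring
    have h5 := (hWi _ (hle hzW)).1
    rw [h'.adj, h.toAlt.skew, hz1] at h5
    norm_num at h5
  -- adjust v
  set α := f (J v) (J' u') with hα
  set β := f v (J' u') with hβ
  have hJJ : f (J v) (J v) = 0 := h.self _
  refine ⟨α • v - β • J v, u', ?_, hu', ?_, ?_, ?_, ?_⟩
  · rw [map_sub, map_smul, map_smul, h.sq, h.sub_left, h.sub_right, h.sub_right, h.smul_left, h.smul_left, h.smul_left,
      h.smul_left, h.smul_right, h.smul_right, h.smul_right, h.smul_right, h.smul_right, h.smul_right, hv, h.self, hJJ, h.zero_symm hv]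
    ring
  · rw [h.sub_left, h.smul_left, h.smul_left, h1, h2]; ring
  · rw [map_sub, map_smul, map_smul, h.sq, h.sub_left, h.smul_left, h.smul_left, h.smul_left, h1, h2]; ring
  · rw [h.sub_left, h.smul_left, h.smul_left, ← hα, ← hβ]; ring
  · rw [map_sub, map_smul, map_smul, h.sq, h.sub_left, h.smul_left, h.smul_left, h.smul_left, ← hα, ← hβ]
    intro h0
    by_cases hb : β = 0
    · have : α * α = 0 := by rw [hb] at h0; linear_combination h0
      exact h3 ⟨hb, mul_self_eq_zero.1 this⟩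
    · apply h.ns (α / β)
      have : α * α = β * β * δ := by linear_combination h0
      field_simp
      linear_combination this

/-- `M` contains the long elements of the unitary group -/
def EM (f : (ι → F) → (ι → F) → F) (J : (ι → F) →ₗ[F] (ι → F)) (M : Subgroup (GL ι F)) : Prop :=
  ∀ (c : F) (u v : ι → F), f u (J u) = 0 → f v (J v) = 0 → f u v = 0 → f u (J v) = 0 →
    ∃ g ∈ M, ∀ x, (g : Matrix ι ι F) *ᵥ x = x + c • (f x (J v) • u + f x u • J v - f x v • J u - f x (J u) • v)

/-- stage 1 -/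
theorem stage1 [Fintype F] (h : JX f J δ) (h' : JX f J' δ) (hodd : Odd (Fintype.card F)) (hn : 14 ≤ Fintype.card ι)
    (hi : GUp.Iso f M) (hE : EM f J M) (hX' : XM f J' δ M)
    (hne : ¬ ((∀ x, J' x = J x) ∨ (∀ x, J' x = - J x))) : ∃ u, u ≠ 0 ∧ f u (J u) = 0 ∧ Full h.toAlt M u := by
  have o := h.og
  obtain ⟨v, u', hv, hu', h1, h2, h3, h4⟩ := stage0 h h' hodd hn hne
  set b' := J' u' with hb'
  obtain ⟨u, hu, huY, huW⟩ := o.iso_avoid hodd (Y := Submodule.span F {v, J v, u', J u', b', J b'}) (W := ⊥) (by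
    have := fr6 (F := F) v (J v) u' (J u') b' (J b')
    rw [finrank_bot]
    omega)
  have hu0 : u ≠ 0 := by
    rintro rfl
    exact huW (Submodule.zero_mem _)
  have hu_ : f u (J u) = 0 := hu
  have aux : ∀ y, y ∈ Submodule.span F {v, J v, u', J u', b', J b'} → J y ∈ Submodule.span F {v, J v, u', J u', b', J b'} →
      f u (J y) = 0 ∧ f u y = 0 := by
    intro y hy hJy
    refine ⟨huY y hy, ?_⟩
    have h1 : f u (J (J y)) = 0 := huY (J y) hJy
    rw [h.sq, h.smul_right] at h1
    exact (mul_eq_zero.1 h1).resolve_left h.d0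
  obtain ⟨uv1, uv2⟩ := aux v (Submodule.subset_span (by simp)) (Submodule.subset_span (by simp))
  obtain ⟨uu1, uu2⟩ := aux u' (Submodule.subset_span (by simp)) (Submodule.subset_span (by simp))
  obtain ⟨ub1, ub2⟩ := aux b' (Submodule.subset_span (by simp)) (Submodule.subset_span (by simp))
  have p1 : f b' (J u) = 0 := by rw [h.gs]; exact ub1
  have p2 : f b' u = 0 := h.zero_symm ub2
  have p3 : f b' v = 0 := h.zero_symm h3
  have p4 : f u' (J u) = 0 := by rw [h.gs]; exact uu1
  have p5 : f u' u = 0 := h.zero_symm uu2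
  have p6 : f u' v = 0 := h.zero_symm h1
  have p7 : f u' (J v) = 0 := h.zero_symm h2
  set d := f b' (J v) with hd
  have hd0 : d ≠ 0 := by
    rw [hd, h.toAlt.skew]
    exact neg_ne_zero.2 h4
  refine ⟨u, hu0, hu_, fun t => ?_⟩
  set a := t / (2 * (d * d)) with ha
  obtain ⟨k, hk, hkx⟩ := hX' a u' hu'
  rw [← hb'] at hkx
  have hbu' : f b' u' = 0 := h.zero_symm hu'
  have hki : ∀ x, ((k⁻¹ : GL ι F) : Matrix ι ι F) *ᵥ x = x - (a * f x b') • b' + (δ * a * f x u') • u' := by
    intro x
    have : (k : Matrix ι ι F) *ᵥ (x - (a * f x b') • b' + (δ * a * f x u') • u') = x := by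
      rw [hkx]
      simp only [h.sub_left, h.add_left, h.smul_left, h.self, hbu', hu']
      module
    conv_lhs => rw [← this]
    rw [inv_mulVec_self]
  have key : ∀ c : F, ∃ p ∈ M, ∀ x, (p : Matrix ι ι F) *ᵥ x = x + (a * (c * d) * f x b') • u + (a * (c * d) * f x u) • b' +
      (a * (c * d) * (c * d) * f x u) • u := by
    intro c
    obtain ⟨e, he, hex⟩ := hE c u v hu_ hv uv2 uv1
    have heb : (e : Matrix ι ι F) *ᵥ b' = b' + (c * d) • u := by
      rw [hex, p1, p2, p3, ← hd]
      module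
    have heu : (e : Matrix ι ι F) *ᵥ u' = u' := by
      rw [hex, p4, p5, p6, p7]
      module
    refine ⟨e * k * e⁻¹ * k⁻¹, M.mul_mem (M.mul_mem (M.mul_mem he hk) (M.inv_mem he)) (M.inv_mem hk), fun x => ?_⟩
    have hconj : ∀ y, ((e * k * e⁻¹ : GL ι F) : Matrix ι ι F) *ᵥ y = y + (a * f y (b' + (c * d) • u)) • (b' + (c * d) • u) -
        (δ * a * f y u') • u' := by
      intro y
      obtain ⟨z, rfl⟩ : ∃ z, y = (e : Matrix ι ι F) *ᵥ z := ⟨_, (self_inv_mulVec e y).symm⟩
      rw [Cfsg.Agent.H29.Trv.mul_apply, Cfsg.Agent.H29.Trv.mul_apply, inv_mulVec_self, hkx, mulVec_sub, mulVec_add,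
        mulVec_smul, mulVec_smul, heb, heu]
      have e1 := hi e he z b'
      have e2 := hi e he z u'
      rw [heb] at e1
      rw [heu] at e2
      rw [e1, e2]
    rw [Cfsg.Agent.H29.Trv.mul_apply, hconj, hki]
    simp only [h.sub_left, h.add_left, h.smul_left, h.add_right, h.smul_right, h.self, hbu', hu', p2, p5]
    module
  obtain ⟨p, hp, hpx⟩ := key 1
  obtain ⟨r, hr, hrx⟩ := key (-1)
  refine ⟨by rw [LinearMap.smul_apply, fr_apply, h.self, smul_zero], p * r, M.mul_mem hp hr, fun x => ?_⟩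
  have hta : a * (2 * (d * d)) = t := div_mul_cancel₀ _ (mul_ne_zero h.two (mul_ne_zero hd0 hd0))
  rw [Cfsg.Agent.H29.Trv.mul_apply, hrx, hpx, LinearMap.smul_apply, fr_apply, smul_eq_mul, ← hta]
  simp only [h.sub_left, h.add_left, h.smul_left, h.self, p2, ub2]
  module

end Cfsg.Agent.H21.GUs
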