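import Mathlib
import Cfsg.Agent.GUs3

set_option autoImplicit false

/-! quadratic extension structures: the subalgebra and the group elements -/

namespace Cfsg.Agent.H21.GUs

open Matrix Module Cfsg.Geo Cfsg.Agent.H29.Trv Cfsg.Agent.H21.GUp

variable {ι : Type} [Fintype ι] [DecidableEq ι] {F : Type*} [Field F]
variable {f : (ι → F) → (ι → F) → F} {δ : F}

/-- the generator of the quadratic extension -/
theorem exists_J (hf : Alt f) (h2 : (2 : F) ≠ 0) {K : Subalgebra F (Matrix ι ι F)} (hK : IsFieldSubalgebra 2 K)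
    (hac : IsAdjointClosedFor f K) (hnsa : ¬ IsSelfAdjointFor f K) :
    ∃ (JM : Matrix ι ι F) (δ : F), JM ∈ K ∧ (∀ k ∈ K, ∃ a b : F, k = a • (1 : Matrix ι ι F) + b • JM) ∧
      JX f (Matrix.mulVecLin JM) δ := by
  unfold IsSelfAdjointFor at hnsa
  push Not at hnsa
  obtain ⟨k, hk, u₀, v₀, hne⟩ := hnsa
  obtain ⟨k', hk', hadj⟩ := hac k hk
  have zl : ∀ y, f 0 y = 0 := by
    intro y
    have := hf.smul_left 0 0 y
    rwa [zero_smul, zero_mul] at this
  have sub_right : ∀ x y z, f x (y - z) = f x y - f x z := by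
    intro x y z
    rw [sub_eq_add_neg, hf.add_right, hf.toLL.neg_right]; ring
  have sub_left : ∀ x y z, f (x - y) z = f x z - f y z := by
    intro x y z
    rw [hf.skew, sub_right, hf.skew x z, hf.skew y z]; ring
  have hadj' : ∀ u v, f (k' *ᵥ u) v = f u (k *ᵥ v) := by
    intro u v
    rw [hf.skew, ← hadj, hf.skew, neg_neg]
  set JM := k - k' with hJM
  have hJK : JM ∈ K := K.sub_mem hk hk'
  have hJadj : ∀ x y, f (JM *ᵥ x) y = - f x (JM *ᵥ y) := by
    intro x y
    rw [hJM, sub_mulVec, sub_mulVec, sub_left, sub_right, hadj, hadj']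
    ring
  have hJne : JM ≠ 0 := by
    intro h0
    apply hne
    have hkk : k = k' := sub_eq_zero.1 h0
    rw [hadj, ← hkk]
  have hJns : ∀ c : F, JM ≠ c • (1 : Matrix ι ι F) := by
    intro c hc
    have h1 := hJadj u₀ v₀
    apply hJne
    have hc0 : c = 0 := by
      by_contra hc0
      apply hJne
      apply ext_mulVec
      intro x
      rw [zero_mulVec]
      by_contra hx
      obtain ⟨y, hy⟩ := hf.nondeg _ hx
      apply hy
      have h3 := hJadj y x
      have h4 : f (JM *ᵥ y) x = c * f y x := by rw [hc, smul_mulVec, one_mulVec, hf.smul_left]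
      have h5 : f y (JM *ᵥ x) = c * f y x := by rw [hc, smul_mulVec, one_mulVec, hf.smul_right]
      rw [h4, h5] at h3
      rw [h5]
      have h6 : 2 * (c * f y x) = 0 := by linear_combination h3
      exact (mul_eq_zero.1 h6).resolve_left h2
    rw [hc, hc0, zero_smul]
  have hspan : ∀ k ∈ K, ∃ a b : F, k = a • (1 : Matrix ι ι F) + b • JM := by
    have hli : LinearIndependent F ![(1 : Matrix ι ι F), JM] := by
      rw [LinearIndependent.pair_iff]
      intro s t hst
      by_cases ht : t = 0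
      · rw [ht, zero_smul, add_zero] at hst
        have h1 : (1 : Matrix ι ι F) ≠ 0 := by
          intro h0
          apply hJne
          rw [← mul_one JM, h0, mul_zero]
        exact ⟨(smul_eq_zero.1 hst).resolve_right h1, ht⟩
      · exfalso
        apply hJns (-(t⁻¹ * s))
        have : t • JM = (-s) • (1 : Matrix ι ι F) := by
          rw [neg_smul]; exact eq_neg_of_add_eq_zero_right hst
        have h3 : JM = t⁻¹ • (t • JM) := by rw [smul_smul, inv_mul_cancel₀ ht, one_smul]
        rw [h3, this, smul_smul]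
        congr 1
        ring
    have hle : Submodule.span F (Set.range ![(1 : Matrix ι ι F), JM]) ≤ K.toSubmodule := by
      rw [Submodule.span_le]
      rintro _ ⟨i, rfl⟩
      fin_cases i
      · exact K.one_mem
      · exact hJK
    have heq : Submodule.span F (Set.range ![(1 : Matrix ι ι F), JM]) = K.toSubmodule := by
      apply Submodule.eq_of_le_of_finrank_eq hle
      rw [finrank_span_eq_card hli, Fintype.card_fin]
      exact hK.finrank_eq.symm
    intro k hk
    have hk2 : k ∈ K.toSubmodule := hk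
    rw [← heq] at hk2
    have : Set.range ![(1 : Matrix ι ι F), JM] = {1, JM} := by
      ext x
      simp only [Set.mem_range, Fin.exists_fin_two, Matrix.cons_val_zero, Matrix.cons_val_one,
        Set.mem_insert_iff, Set.mem_singleton_iff]
      constructor
      · rintro (h | h)
        · exact Or.inl h.symm
        · exact Or.inr h.symm
      · rintro (h | h)
        · exact Or.inl h.symm
        · exact Or.inr h.symm
    rw [this] at hk2
    obtain ⟨a, b, hab⟩ := Submodule.mem_span_pair.1 hk2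
    exact ⟨a, b, hab.symm⟩
  obtain ⟨δ, b, hδ⟩ := hspan _ (K.mul_mem hJK hJK)
  have hb : b = 0 := by
    by_contra hb
    apply hJne
    apply ext_mulVec
    intro x
    rw [zero_mulVec]
    by_contra hx
    obtain ⟨y, hy⟩ := hf.nondeg _ hx
    apply hy
    have h3 : f ((JM * JM) *ᵥ y) x = f y ((JM * JM) *ᵥ x) := by
      rw [← mulVec_mulVec, hJadj, hJadj, neg_neg, mulVec_mulVec]
    rw [hδ, add_mulVec, add_mulVec, smul_mulVec, smul_mulVec, smul_mulVec, smul_mulVec, one_mulVec, one_mulVec,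
      hf.add_left, hf.add_right, hf.smul_left, hf.smul_left, hf.smul_right, hf.smul_right, hJadj] at h3
    have h4 : (2 * b) * f y (JM *ᵥ x) = 0 := by linear_combination -h3
    exact (mul_eq_zero.1 h4).resolve_left (mul_ne_zero h2 hb)
  rw [hb, zero_smul, add_zero] at hδ
  refine ⟨JM, δ, hJK, hspan, ?_⟩
  exact
    { toAlt := hf
      two := h2
      sq := fun x => by
        rw [Matrix.mulVecLin_apply, Matrix.mulVecLin_apply, mulVec_mulVec, hδ, smul_mulVec, one_mulVec]
      ns := by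
        intro c hc
        have h1 : (JM - c • (1 : Matrix ι ι F)) * (JM + c • (1 : Matrix ι ι F)) = 0 := by
          rw [sub_mul, mul_add, mul_add, hδ, ← hc]
          simp only [smul_mul_assoc, mul_smul_comm, one_mul, mul_one, smul_add, smul_smul]
          abel
        have hne1 : JM - c • (1 : Matrix ι ι F) ≠ 0 := fun h0 => hJns c (sub_eq_zero.1 h0)
        have hm1 : JM - c • (1 : Matrix ι ι F) ∈ K := K.sub_mem hJK (K.smul_mem K.one_mem c)
        obtain ⟨y, hy, hy1⟩ := hK.inv _ hm1 hne1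
        rw [hK.comm _ hm1 _ hy] at hy1
        have h3 : JM + c • (1 : Matrix ι ι F) = 0 := by
          have h5 : y * ((JM - c • (1 : Matrix ι ι F)) * (JM + c • (1 : Matrix ι ι F))) = 0 := by rw [h1, mul_zero]
          rwa [← mul_assoc, hy1, one_mul] at h5
        apply hJns (-c)
        rw [neg_smul]
        exact eq_neg_of_add_eq_zero_left h3
      adj := fun x y => hJadj x y }

/-- membership in the normaliser -/
theorem mem_norm {K : Subalgebra F (Matrix ι ι F)} {JM : Matrix ι ι F} (hJK : JM ∈ K)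
    (hspan : ∀ k ∈ K, ∃ a b : F, k = a • (1 : Matrix ι ι F) + b • JM) {g : GL ι F} {s : F} (hs : s * s = 1)
    (hg : ∀ x, (g : Matrix ι ι F) *ᵥ (JM *ᵥ x) = s • (JM *ᵥ ((g : Matrix ι ι F) *ᵥ x))) : g ∈ subalgebraNormalizer K := by
  have h1 : (g : Matrix ι ι F) * JM = s • (JM * (g : Matrix ι ι F)) := by
    apply ext_mulVec
    intro x
    rw [← mulVec_mulVec, hg, smul_mulVec, mulVec_mulVec]
  have hgg : (g : Matrix ι ι F) * ((g⁻¹ : GL ι F) : Matrix ι ι F) = 1 := by
    rw [← Units.val_mul, mul_inv_cancel, Units.val_one]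
  have hgg' : ((g⁻¹ : GL ι F) : Matrix ι ι F) * (g : Matrix ι ι F) = 1 := by
    rw [← Units.val_mul, inv_mul_cancel, Units.val_one]
  have h2 : (g : Matrix ι ι F) * JM * ((g⁻¹ : GL ι F) : Matrix ι ι F) = s • JM := by
    rw [h1, smul_mul_assoc, mul_assoc, hgg, mul_one]
  have h3 : ((g⁻¹ : GL ι F) : Matrix ι ι F) * JM * (g : Matrix ι ι F) = s • JM := by
    have h4 : JM * (g : Matrix ι ι F) = s • ((g : Matrix ι ι F) * JM) := by
      rw [h1, smul_smul, hs, one_smul]
    rw [mul_assoc, h4, mul_smul_comm, ← mul_assoc, hgg', one_mul]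
  intro k
  constructor
  · intro hk
    obtain ⟨a, b, rfl⟩ := hspan k hk
    have : (g : Matrix ι ι F) * (a • (1 : Matrix ι ι F) + b • JM) * ((g⁻¹ : GL ι F) : Matrix ι ι F) =
        a • (1 : Matrix ι ι F) + b • ((g : Matrix ι ι F) * JM * ((g⁻¹ : GL ι F) : Matrix ι ι F)) := by
      rw [mul_add, add_mul, mul_smul_comm, mul_smul_comm, smul_mul_assoc, smul_mul_assoc, mul_one, hgg]
    rw [this, h2]
    exact K.add_mem (K.smul_mem K.one_mem a) (K.smul_mem (K.smul_mem hJK s) b)
  · intro hk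
    obtain ⟨a, b, hab⟩ := hspan _ hk
    have : k = ((g⁻¹ : GL ι F) : Matrix ι ι F) * ((g : Matrix ι ι F) * k * ((g⁻¹ : GL ι F) : Matrix ι ι F)) * (g : Matrix ι ι F) := by
      rw [← mul_assoc, ← mul_assoc, hgg', one_mul, mul_assoc, hgg', mul_one]
    rw [this, hab]
    have h5 : ((g⁻¹ : GL ι F) : Matrix ι ι F) * (a • (1 : Matrix ι ι F) + b • JM) * (g : Matrix ι ι F) =
        a • (1 : Matrix ι ι F) + b • (((g⁻¹ : GL ι F) : Matrix ι ι F) * JM * (g : Matrix ι ι F)) := by
      rw [mul_add, add_mul, mul_smul_comm, mul_smul_comm, smul_mul_assoc, smul_mul_assoc, mul_one, hgg']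
    rw [h5, h3]
    exact K.add_mem (K.smul_mem K.one_mem a) (K.smul_mem (K.smul_mem hJK s) b)

variable {J : (ι → F) →ₗ[F] (ι → F)}

/-- unitary transvections as products -/
theorem exists_X (h : JX f J δ) {N : Subgroup (GL ι F)} (hN : ∀ v, Full h.toAlt N v) (c : F) {w : ι → F} (hw : f w (J w) = 0) :
    ∃ g ∈ N, (∀ x, (g : Matrix ι ι F) *ᵥ x = x + (c * f x (J w)) • J w - (δ * c * f x w) • w) ∧
      ∀ x, (g : Matrix ι ι F) *ᵥ (J x) = J ((g : Matrix ι ι F) *ᵥ x) := by
  obtain ⟨-, k1, hk1, hk1x⟩ := hN (J w) c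
  obtain ⟨-, k2, hk2, hk2x⟩ := hN w (-(δ * c))
  have hJw : f (J w) w = 0 := h.zero_symm hw
  have hx : ∀ x, ((k1 * k2 : GL ι F) : Matrix ι ι F) *ᵥ x = x + (c * f x (J w)) • J w - (δ * c * f x w) • w := by
    intro x
    rw [Cfsg.Agent.H29.Trv.mul_apply, hk2x, hk1x]
    simp only [LinearMap.smul_apply, fr_apply, smul_eq_mul, h.add_left, h.smul_left, hw]
    module
  refine ⟨k1 * k2, N.mul_mem hk1 hk2, hx, fun x => ?_⟩
  rw [hx, hx, map_sub, map_add, map_smul, map_smul, h.sq, h.fJJ, h.adj x w]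
  module

/-- long elements -/
theorem exists_E (h : JX f J δ) {N : Subgroup (GL ι F)} (hN : ∀ u v, f u v = 0 → KM f (-1) N u v) (c : F) {u v : ι → F}
    (hu : f u (J u) = 0) (hv : f v (J v) = 0) (huv : f u v = 0) (huJv : f u (J v) = 0) :
    ∃ g ∈ N, (∀ x, (g : Matrix ι ι F) *ᵥ x = x + c • (f x (J v) • u + f x u • J v - f x v • J u - f x (J u) • v)) ∧
      ∀ x, (g : Matrix ι ι F) *ᵥ (J x) = J ((g : Matrix ι ι F) *ᵥ x) := by
  have g1 : f (J u) v = 0 := by rw [h.adj, huJv, neg_zero]
  obtain ⟨k1, hk1, hk1x⟩ := hN u (c • J v) (by rw [h.smul_right, huJv, mul_zero])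
  obtain ⟨k2, hk2, hk2x⟩ := hN (J u) (-c • v) (by rw [h.smul_right, g1, mul_zero])
  have g2 : f (J u) (J v) = 0 := by rw [h.fJJ, huv, mul_zero]
  have g3 : f (J u) u = 0 := h.zero_symm hu
  have g4 : f v u = 0 := h.zero_symm huv
  have hx : ∀ x, ((k1 * k2 : GL ι F) : Matrix ι ι F) *ᵥ x =
      x + c • (f x (J v) • u + f x u • J v - f x v • J u - f x (J u) • v) := by
    intro x
    rw [Cfsg.Agent.H29.Trv.mul_apply, hk2x, hk1x]
    simp only [h.sub_left, h.add_left, h.smul_left, h.smul_right, g2, g3, g4, hv]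
    module
  refine ⟨k1 * k2, N.mul_mem hk1 hk2, hx, fun x => ?_⟩
  rw [hx, hx]
  simp only [map_sub, map_add, map_smul, h.sq, h.fJJ, h.adj x u, h.adj x v]
  module

end Cfsg.Agent.H21.GUs
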