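import Mathlib
import Cfsg.Agent.GUt5

set_option autoImplicit false

/-! symplectic groups over subfields, II -/

namespace Cfsg.Agent.H21.GUt

open Matrix Module Cfsg.Geo Cfsg.Agent.H29.Trv

variable {ι : Type} [Fintype ι] [DecidableEq ι] {F : Type*} [Field F]
variable {F₀ : Subfield F} {P : GL ι F} {g : (ι → F) → (ι → F) → F}

/-- coefficients of relations over the subfield vanish -/
theorem coef_zero {d : ℕ} (β : Basis (Fin d) F₀ F) {c : Fin d → F} (hc : ∀ k, c k ∈ F₀) (h : ∑ k, β k * c k = 0) :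
    ∀ k, c k = 0 := by
  have h3 : ∑ k, (⟨c k, hc k⟩ : F₀) • β k = 0 := by
    rw [← h]
    apply Finset.sum_congr rfl
    intro k _
    show c k * β k = _
    ring
  intro k
  have h4 := Fintype.linearIndependent_iff.1 β.linearIndependent _ h3 k
  exact congrArg Subtype.val h4

theorem alt_sum_right (hg : Alt g) {α : Type*} (s : Finset α) (c : α → F) (u : α → (ι → F)) (v : ι → F) :
    g v (∑ i ∈ s, c i • u i) = ∑ i ∈ s, c i * g v (u i) := by
  classical
  induction s using Finset.induction_on with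
  | empty => rw [Finset.sum_empty, Finset.sum_empty, hg.toLL.zero_right]
  | insert a s ha ih => rw [Finset.sum_insert ha, Finset.sum_insert ha, hg.add_right, hg.smul_right, ih]

/-- rational vectors in the perp of rational vectors -/
theorem rat_pick [Fintype F] (hg : Alt g) (hR : ∀ x y, Rt F₀ P x → Rt F₀ P y → g x y ∈ F₀) {k : ℕ} (B : Fin k → (ι → F))
    (hB : ∀ i, Rt F₀ P (B i)) (W : Submodule F (ι → F)) (hW : finrank F W + k < Fintype.card ι) :
    ∃ e, Rt F₀ P e ∧ (∀ i, g (B i) e = 0) ∧ e ∉ W := by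
  let L : (ι → F) →ₗ[F] (Fin k → F) :=
    { toFun := fun x i => g (B i) x
      map_add' := fun x y => funext fun i => hg.add_right _ _ _
      map_smul' := fun c x => funext fun i => hg.smul_right _ _ _ }
  obtain ⟨e₀, he₀, he₀W⟩ : ∃ e₀ ∈ LinearMap.ker L, e₀ ∉ W := by
    by_contra hcon
    push Not at hcon
    have h1 : LinearMap.ker L ≤ W := fun x hx => hcon x hx
    have h2 := Submodule.finrank_mono h1
    have h3 := LinearMap.finrank_range_add_finrank_ker L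
    have h4 : finrank F (LinearMap.range L) ≤ k := by
      have := Submodule.finrank_le (LinearMap.range L)
      rwa [Module.finrank_fintype_fun_eq_card, Fintype.card_fin] at this
    rw [Module.finrank_fintype_fun_eq_card] at h3
    omega
  obtain ⟨d, β, hβ⟩ := rat_decomp P F₀
  obtain ⟨zk, hzk, hz⟩ := hβ e₀
  have h5 : ∀ i k, g (B i) (zk k) = 0 := by
    intro i
    apply coef_zero β (fun k => hR _ _ (hB i) (hzk k))
    have h6 : g (B i) e₀ = 0 := congrFun he₀ i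
    rwa [hz, alt_sum_right hg] at h6
  obtain ⟨k, hk⟩ : ∃ k, zk k ∉ W := by
    by_contra hcon
    push Not at hcon
    apply he₀W
    rw [hz]
    exact W.sum_mem (fun k _ => W.smul_mem _ (hcon k))
  exact ⟨zk k, hzk k, fun i => h5 i k, hk⟩

variable {hg : Alt g} {M : Subgroup (GL ι F)}

/-- the context -/
structure Cx (hg : Alt g) (F₀ : Subfield F) (P : GL ι F) (M : Subgroup (GL ι F)) : Prop where
  R : ∀ x y, Rt F₀ P x → Rt F₀ P y → g x y ∈ F₀
  E : ∀ v, Rt F₀ P v → ∀ b ∈ F₀, E hg M v b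
  iso : ∀ k : GL ι F, (∀ x y, g ((k : Matrix ι ι F) *ᵥ x) ((k : Matrix ι ι F) *ᵥ y) = g x y) →
    (∀ x, Rt F₀ P x → Rt F₀ P ((k : Matrix ι ι F) *ᵥ x)) → k ∈ M
  card : 13 ≤ Fintype.card ι

theorem Cx.sep [Fintype F] (C : Cx hg F₀ P M) {B : Set (ι → F)} (hB : ∀ b ∈ B, Rt F₀ P b) {a : ι → F}
    (ha : a ∉ Submodule.span F B) : ∃ z, Rt F₀ P z ∧ (∀ b ∈ B, g b z = 0) ∧ g a z ≠ 0 :=
  (Alt.rf hg C.R).sep hB ha

/-- Siegel elements -/
theorem Cx.K (C : Cx hg F₀ P M) {a b : ι → F} (ha : Rt F₀ P a) (hb : Rt F₀ P b) (hab : g a b = 0) :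
    ∃ k ∈ M, (∀ x, (k : Matrix ι ι F) *ᵥ x = x + g x a • b + g x b • a) ∧
    ∀ x y, g ((k : Matrix ι ι F) *ᵥ x) ((k : Matrix ι ι F) *ᵥ y) = g x y := by
  obtain ⟨k, h1, h2, h3⟩ := K_of hab (C.E a ha 1 F₀.one_mem) (C.E b hb 1 F₀.one_mem) (C.E (a + b) (ha.add hb) 1 F₀.one_mem)
  refine ⟨k, h1, fun x => ?_, h3⟩
  rw [h2, one_mul, one_mul]

/-- transitivity on rational vectors -/
theorem Cx.trans [Fintype F] (C : Cx hg F₀ P M) {e x : ι → F} {b : F} (he : Rt F₀ P e) (he0 : e ≠ 0) (hx : Rt F₀ P x)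
    (hE : Cfsg.Agent.H21.GUt.E hg M e b) : Cfsg.Agent.H21.GUt.E hg M x b := by
  by_cases hx0 : x = 0
  · rw [hx0]; exact ⟨by rw [map_zero], 1, M.one_mem, fun y => by simp⟩
  have step : ∀ e x, Rt F₀ P e → Rt F₀ P x → g e x ≠ 0 → Cfsg.Agent.H21.GUt.E hg M e b → Cfsg.Agent.H21.GUt.E hg M x b := by
    intro e x he hx hex hE
    have h1 : g e (x - e) = g e x := by
      rw [sub_eq_add_neg, hg.add_right, hg.neg_right, hg.self, neg_zero, add_zero]
    have h2 := hE.move (C.E (x - e) (hx.sub he) (g e x)⁻¹ (F₀.inv_mem (C.R _ _ he hx)))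
    rw [h1, inv_mul_cancel₀ hex, one_smul, add_sub_cancel] at h2
    exact h2
  have hne : ∀ y : ι → F, y ≠ 0 → ∃ z, Rt F₀ P z ∧ g y z ≠ 0 := by
    intro y hy
    obtain ⟨z, h1, -, h2⟩ := C.sep (B := ∅) (by simp) (a := y) (by simpa using hy)
    exact ⟨z, h1, h2⟩
  obtain ⟨z1, hz1, h1⟩ := hne e he0
  obtain ⟨z2, hz2, h2⟩ := hne x hx0
  obtain ⟨z, hz, hez, hxz⟩ : ∃ z, Rt F₀ P z ∧ g e z ≠ 0 ∧ g x z ≠ 0 := by
    by_cases h3 : g x z1 = 0
    · by_cases h4 : g e z2 = 0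
      · refine ⟨z1 + z2, hz1.add hz2, ?_, ?_⟩
        · rw [hg.add_right, h4, add_zero]; exact h1
        · rw [hg.add_right, h3, zero_add]; exact h2
      · exact ⟨z2, hz2, h4, h2⟩
    · exact ⟨z1, hz1, h1, h3⟩
  exact step z x hz hx (by rw [hg.skew]; exact neg_ne_zero.2 hxz) (step e z he hz hez hE)

end Cfsg.Agent.H21.GUt
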