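import Mathlib
import Cfsg.Agent.GUt6

set_option autoImplicit false

/-! symplectic groups over subfields, III -/

namespace Cfsg.Agent.H21.GUt

open Matrix Module Cfsg.Geo Cfsg.Agent.H29.Trv

variable {ι : Type} [Fintype ι] [DecidableEq ι] {F : Type*} [Field F]
variable {F₀ : Subfield F} {P : GL ι F} {g : (ι → F) → (ι → F) → F}
variable {hg : Alt g} {M : Subgroup (GL ι F)}

/-- elements of the unipotent radical attached to `e` -/
def LT (g : (ι → F) → (ι → F) → F) (M : Subgroup (GL ι F)) (p q e : ι → F) (a b c : F) : Prop :=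
  ∃ k ∈ M, ∀ x, (k : Matrix ι ι F) *ᵥ x = x + a • (g x p • e + g x e • p) + b • (g x q • e + g x e • q) +
    (c * g x e) • e

theorem LT.add (hg : Alt g) {p q e : ι → F} (hpq : g p q = 0) (hpe : g p e = 0) (hqe : g q e = 0) {a b c a' b' c' : F}
    (h : LT g M p q e a b c) (h' : LT g M p q e a' b' c') : LT g M p q e (a + a') (b + b') (c + c') := by
  obtain ⟨k, hk, hkx⟩ := h
  obtain ⟨k', hk', hkx'⟩ := h'
  have hqp : g q p = 0 := by rw [hg.skew, hpq, neg_zero]
  have hep : g e p = 0 := by rw [hg.skew, hpe, neg_zero]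
  have heq : g e q = 0 := by rw [hg.skew, hqe, neg_zero]
  refine ⟨k * k', M.mul_mem hk hk', fun x => ?_⟩
  rw [Cfsg.Agent.H29.Trv.mul_apply, hkx', hkx]
  simp only [hg.add_left, hg.smul_left, hg.self, hpq, hpe, hqe, hqp, hep, heq, mul_zero, add_zero]
  module

theorem LT.neg (hg : Alt g) {p q e : ι → F} (hpq : g p q = 0) (hpe : g p e = 0) (hqe : g q e = 0) {a b c : F}
    (h : LT g M p q e a b c) : LT g M p q e (-a) (-b) (-c) := by
  obtain ⟨k, hk, hkx⟩ := h
  have hqp : g q p = 0 := by rw [hg.skew, hpq, neg_zero]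
  have hep : g e p = 0 := by rw [hg.skew, hpe, neg_zero]
  have heq : g e q = 0 := by rw [hg.skew, hqe, neg_zero]
  refine ⟨k⁻¹, M.inv_mem hk, fun x => ?_⟩
  have h1 : (k : Matrix ι ι F) *ᵥ (x + (-a) • (g x p • e + g x e • p) + (-b) • (g x q • e + g x e • q) +
    ((-c) * g x e) • e) = x := by
    rw [hkx]
    simp only [hg.add_left, hg.smul_left, hg.self, hpq, hpe, hqe, hqp, hep, heq, mul_zero, add_zero]
    module
  conv_lhs => rw [← h1]
  rw [inv_mulVec_self]

theorem LT.sub (hg : Alt g) {p q e : ι → F} (hpq : g p q = 0) (hpe : g p e = 0) (hqe : g q e = 0) {a b c a' b' c' : F}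
    (h : LT g M p q e a b c) (h' : LT g M p q e a' b' c') : LT g M p q e (a - a') (b - b') (c - c') := by
  rw [sub_eq_add_neg, sub_eq_add_neg, sub_eq_add_neg]
  exact h.add hg hpq hpe hqe (h'.neg hg hpq hpe hqe)

/-- conjugation -/
theorem LT.conj {p q e p' q' e' : ι → F} {a b c : F} (h : LT g M p q e a b c) {k : GL ι F} (hk : k ∈ M)
    (hiso : ∀ x y, g ((k : Matrix ι ι F) *ᵥ x) ((k : Matrix ι ι F) *ᵥ y) = g x y)
    (hp : (k : Matrix ι ι F) *ᵥ p = p') (hq : (k : Matrix ι ι F) *ᵥ q = q') (he : (k : Matrix ι ι F) *ᵥ e = e') :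
    LT g M p' q' e' a b c := by
  obtain ⟨s, hs, hsx⟩ := h
  refine ⟨k * s * k⁻¹, M.mul_mem (M.mul_mem hk hs) (M.inv_mem hk), fun x => ?_⟩
  have h1 : ∀ y, g (((k⁻¹ : GL ι F) : Matrix ι ι F) *ᵥ x) y = g x ((k : Matrix ι ι F) *ᵥ y) := by
    intro y
    rw [← hiso, self_inv_mulVec]
  rw [Cfsg.Agent.H29.Trv.mul_apply, Cfsg.Agent.H29.Trv.mul_apply, hsx]
  simp only [mulVec_add, mulVec_smul, self_inv_mulVec, h1, hp, hq, he]

theorem cx_step4 [Fintype F] (C : Cx hg F₀ P M) {p q : ι → F} {κ μ : F} (hp : Rt F₀ P p) (hq : Rt F₀ P q) (hpq : g p q = 0)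
    (h1 : p ∉ Submodule.span F {q}) (h2 : q ∉ Submodule.span F {p}) (hu : E hg M (p + κ • q) μ) :
    ∃ e, Rt F₀ P e ∧ e ≠ 0 ∧ E hg M e (μ * (κ * κ)) ∧ E hg M e (2 * (μ * κ)) := by
  have hcard := C.card
  -- e
  obtain ⟨e, he, heB, heW⟩ := rat_pick hg C.R ![p, q] (by
    intro i; fin_cases i
    · exact hp
    · exact hq) (Submodule.span F {p, q}) (by
    have h4 : finrank F (Submodule.span F {p, q}) ≤ 2 := by
      classical
      have := finrank_span_finset_le_card (R := F) ({p, q} : Finset (ι → F))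
      rw [Finset.coe_pair] at this
      exact this.trans Finset.card_le_two
    omega)
  have hpe : g p e = 0 := heB 0
  have hqe : g q e = 0 := heB 1
  have hep : g e p = 0 := by rw [hg.skew, hpe, neg_zero]
  have heq : g e q = 0 := by rw [hg.skew, hqe, neg_zero]
  have hqp : g q p = 0 := by rw [hg.skew, hpq, neg_zero]
  have he0 : e ≠ 0 := by
    rintro rfl
    exact heW (Submodule.zero_mem _)
  -- membership facts
  have m1 : q ∉ Submodule.span F {p, e} := by
    intro hm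
    obtain ⟨s, t, hst⟩ := Submodule.mem_span_pair.1 hm
    by_cases ht : t = 0
    · rw [ht, zero_smul, add_zero] at hst
      exact h2 (Submodule.mem_span_singleton.2 ⟨s, hst⟩)
    · apply heW
      have : e = t⁻¹ • (q - s • p) := by
        rw [← hst, add_sub_cancel_left, smul_smul, inv_mul_cancel₀ ht, one_smul]
      rw [this]
      exact Submodule.smul_mem _ _ (Submodule.sub_mem _ (Submodule.subset_span (by simp))
        (Submodule.smul_mem _ _ (Submodule.subset_span (by simp))))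
  have m2 : p ∉ Submodule.span F {q, e} := by
    intro hm
    obtain ⟨s, t, hst⟩ := Submodule.mem_span_pair.1 hm
    by_cases ht : t = 0
    · rw [ht, zero_smul, add_zero] at hst
      exact h1 (Submodule.mem_span_singleton.2 ⟨s, hst⟩)
    · apply heW
      have : e = t⁻¹ • (p - s • q) := by
        rw [← hst, add_sub_cancel_left, smul_smul, inv_mul_cancel₀ ht, one_smul]
      rw [this]
      exact Submodule.smul_mem _ _ (Submodule.sub_mem _ (Submodule.subset_span (by simp))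
        (Submodule.smul_mem _ _ (Submodule.subset_span (by simp))))
  -- dual vectors
  obtain ⟨a, ha, hpa, hea, hqa⟩ : ∃ a, Rt F₀ P a ∧ g p a = 0 ∧ g e a = 0 ∧ g q a = 1 := by
    obtain ⟨z, hz, hzB, hqz⟩ := C.sep (B := {p, e}) (by
      intro b hb
      rcases hb with rfl | hb
      · exact hp
      · rw [Set.mem_singleton_iff.1 hb]; exact he) m1
    refine ⟨(g q z)⁻¹ • z, hz.smul (F₀.inv_mem (C.R _ _ hq hz)), ?_, ?_, ?_⟩
    · rw [hg.smul_right, hzB p (by simp), mul_zero]
    · rw [hg.smul_right, hzB e (by simp), mul_zero]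
    · rw [hg.smul_right, inv_mul_cancel₀ hqz]
  obtain ⟨a', ha', hqa', hea', hpa'⟩ : ∃ a, Rt F₀ P a ∧ g q a = 0 ∧ g e a = 0 ∧ g p a = 1 := by
    obtain ⟨z, hz, hzB, hqz⟩ := C.sep (B := {q, e}) (by
      intro b hb
      rcases hb with rfl | hb
      · exact hq
      · rw [Set.mem_singleton_iff.1 hb]; exact he) m2
    refine ⟨(g p z)⁻¹ • z, hz.smul (F₀.inv_mem (C.R _ _ hp hz)), ?_, ?_, ?_⟩
    · rw [hg.smul_right, hzB q (by simp), mul_zero]
    · rw [hg.smul_right, hzB e (by simp), mul_zero]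
    · rw [hg.smul_right, inv_mul_cancel₀ hqz]
  have hae : g a e = 0 := by rw [hg.skew, hea, neg_zero]
  have hap : g a p = 0 := by rw [hg.skew, hpa, neg_zero]
  have ha'q : g a' q = 0 := by rw [hg.skew, hqa', neg_zero]
  obtain ⟨ka, hka, hkax, hkai⟩ := C.K ha he hae
  obtain ⟨kb, hkb, hkbx, hkbi⟩ := C.K ha' hq ha'q
  obtain ⟨kc, hkc, hkcx, hkci⟩ := C.K ha hp hap
  have kap : (ka : Matrix ι ι F) *ᵥ p = p := by rw [hkax, hpa, hpe]; simp
  have kaq : (ka : Matrix ι ι F) *ᵥ q = q + e := by rw [hkax, hqa, hqe]; simp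
  have kae : (ka : Matrix ι ι F) *ᵥ e = e := by rw [hkax, hea, hg.self]; simp
  have kbp : (kb : Matrix ι ι F) *ᵥ p = p + q := by rw [hkbx, hpa', hpq]; simp
  have kbq : (kb : Matrix ι ι F) *ᵥ q = q := by rw [hkbx, hqa', hg.self]; simp
  have kbe : (kb : Matrix ι ι F) *ᵥ e = e := by rw [hkbx, hea', heq]; simp
  have kcp : (kc : Matrix ι ι F) *ᵥ p = p := by rw [hkcx, hpa, hg.self]; simp
  have kcq : (kc : Matrix ι ι F) *ᵥ q = q + p := by rw [hkcx, hqa, hqp]; simp
  have kce : (kc : Matrix ι ι F) *ᵥ e = e := by rw [hkcx, hea, hep]; simp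
  -- the first element
  have D1 : LT g M p q e (-(μ * κ)) (-(μ * (κ * κ))) (-(μ * (κ * κ))) := by
    have hu' := hu.conj hka hkai
    rw [mulVec_add, mulVec_smul, kap, kaq] at hu'
    obtain ⟨k1, hk1, hkx1, hi1⟩ := hu.get
    obtain ⟨k2, hk2, hkx2, hi2⟩ := hu'.neg.get
    refine ⟨k1 * k2, M.mul_mem hk1 hk2, fun x => ?_⟩
    rw [Cfsg.Agent.H29.Trv.mul_apply, hkx2, hkx1]
    simp only [hg.add_left, hg.add_right, hg.smul_left, hg.smul_right, hg.self, hpq, hpe, hqe, hqp, hep, heq, mul_zero,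
      add_zero]
    module
  have lin1 : ∀ {a b c : F}, LT g M (p + q) q e a b c → LT g M p q e a (a + b) c := by
    rintro a b c ⟨k, hk, hkx⟩
    refine ⟨k, hk, fun x => ?_⟩
    rw [hkx]
    simp only [hg.add_right]
    module
  have lin2 : ∀ {a b c : F}, LT g M p (q + p) e a b c → LT g M p q e (a + b) b c := by
    rintro a b c ⟨k, hk, hkx⟩
    refine ⟨k, hk, fun x => ?_⟩
    rw [hkx]
    simp only [hg.add_right]
    module
  have lin3 : ∀ {a b c : F}, LT g M p (q + e) e a b c → LT g M p q e a b (c + 2 * b) := by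
    rintro a b c ⟨k, hk, hkx⟩
    refine ⟨k, hk, fun x => ?_⟩
    rw [hkx]
    simp only [hg.add_right]
    module
  have cb : ∀ {a b c : F}, LT g M p q e a b c → LT g M p q e a (a + b) c :=
    fun h => lin1 (h.conj hkb hkbi kbp kbq kbe)
  have cc : ∀ {a b c : F}, LT g M p q e a b c → LT g M p q e (a + b) b c :=
    fun h => lin2 (h.conj hkc hkci kcp kcq kce)
  have ca : ∀ {a b c : F}, LT g M p q e a b c → LT g M p q e a b (c + 2 * b) :=
    fun h => lin3 (h.conj hka hkai kap kaq kae)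
  have sb : ∀ {a b c a' b' c' : F}, LT g M p q e a b c → LT g M p q e a' b' c' →
      LT g M p q e (a - a') (b - b') (c - c') := fun h h' => h.sub hg hpq hpe hqe h'
  have X := sb (cb D1) D1
  have Y := sb (cc D1) D1
  have X' := sb (cc X) X
  have Y' := sb (cb Y) Y
  have Z := sb (sb D1 X') Y'
  have W := sb (ca X) X
  have toE : ∀ {c : F}, LT g M p q e 0 0 c → E hg M e c := by
    rintro c ⟨k, hk, hkx⟩
    refine E_of hk (fun x => ?_)
    rw [hkx, zero_smul, zero_smul, add_zero, add_zero]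
  refine ⟨e, he, he0, ?_, ?_⟩
  · apply E.of_neg
    apply toE
    convert Z using 1 <;> ring
  · apply E.of_neg
    apply toE
    convert W using 1 <;> ring

end Cfsg.Agent.H21.GUt
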