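import Mathlib
import Cfsg.Agent.GUt7

set_option autoImplicit false

/-! symplectic groups over subfields, IV -/

namespace Cfsg.Agent.H21.GUt

open Matrix Module Cfsg.Geo Cfsg.Agent.H29.Trv

variable {ι : Type} [Fintype ι] [DecidableEq ι] {F : Type*} [Field F]
variable {F₀ : Subfield F} {P : GL ι F} {g : (ι → F) → (ι → F) → F}
variable {hg : Alt g} {M : Subgroup (GL ι F)}

theorem finrank_pair_le (a b : ι → F) : finrank F (Submodule.span F {a, b}) ≤ 2 := by
  classical
  have := finrank_span_finset_le_card (R := F) ({a, b} : Finset (ι → F))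
  rw [Finset.coe_pair] at this
  exact this.trans Finset.card_le_two

theorem finrank_triple_le (a b c : ι → F) : finrank F (Submodule.span F {a, b, c}) ≤ 3 := by
  classical
  have := finrank_span_finset_le_card (R := F) ({a, b, c} : Finset (ι → F))
  rw [Finset.coe_insert, Finset.coe_pair] at this
  exact this.trans Finset.card_le_three

/-- a pair of rational vectors with irrational product -/
theorem cx_pair [Fintype F] (C : Cx hg F₀ P M) {u : ι → F} (hu0 : u ≠ 0) (hu : ∀ c : F, c ≠ 0 → ¬ Rt F₀ P (c • u)) :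
    ∃ v e, Rt F₀ P v ∧ Rt F₀ P e ∧ g v e = 0 ∧ v ≠ 0 ∧ e ∉ Submodule.span F {v} ∧ g v u * g e u ∉ F₀ := by
  have hcard := C.card
  obtain ⟨d, β, hβ⟩ := rat_decomp P F₀
  obtain ⟨zk, hzk, hz⟩ := hβ u
  have hψ : ∀ x, g x u = ∑ k, β k * g x (zk k) := by
    intro x
    conv_lhs => rw [hz]
    rw [alt_sum_right hg]
  obtain ⟨k, hk⟩ : ∃ k, zk k ≠ 0 := by
    by_contra hcon
    push Not at hcon
    apply hu0
    rw [hz]
    exact Finset.sum_eq_zero (fun k _ => by rw [hcon, smul_zero])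
  obtain ⟨l, hl⟩ : ∃ l, zk l ∉ Submodule.span F {zk k} := by
    by_contra hcon
    push Not at hcon
    have h1 : u ∈ Submodule.span F {zk k} := by
      rw [hz]
      exact Submodule.sum_mem _ (fun j _ => Submodule.smul_mem _ _ (hcon j))
    obtain ⟨t, ht⟩ := Submodule.mem_span_singleton.1 h1
    have ht0 : t ≠ 0 := by
      rintro rfl
      rw [zero_smul] at ht
      exact hu0 ht.symm
    apply hu t⁻¹ (inv_ne_zero ht0)
    rw [← ht, smul_smul, inv_mul_cancel₀ ht0, one_smul]
    exact hzk k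
  obtain ⟨e₁, he₁, -, he₁k⟩ := C.sep (B := ∅) (by simp) (a := zk k) (by simpa using hk)
  obtain ⟨e₂, he₂, he₂k, he₂l⟩ := C.sep (B := {zk k}) (by
    intro b hb
    rw [Set.mem_singleton_iff.1 hb]; exact hzk k) hl
  have he₂k' : g e₂ (zk k) = 0 := by rw [hg.skew, he₂k _ rfl, neg_zero]
  have he₁k' : g e₁ (zk k) ≠ 0 := by rw [hg.skew]; exact neg_ne_zero.2 he₁k
  have he₂l' : g e₂ (zk l) ≠ 0 := by rw [hg.skew]; exact neg_ne_zero.2 he₂l
  have hψ1 : g e₁ u ≠ 0 := by
    intro h0
    rw [hψ] at h0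
    exact he₁k' (coef_zero β (fun j => C.R _ _ he₁ (hzk j)) h0 k)
  have hψ2 : g e₂ u ≠ 0 := by
    intro h0
    rw [hψ] at h0
    exact he₂l' (coef_zero β (fun j => C.R _ _ he₂ (hzk j)) h0 l)
  have hrat : g e₂ u / g e₁ u ∉ F₀ := by
    intro hs
    have h1 : ∑ j, β j * (g e₂ (zk j) - g e₂ u / g e₁ u * g e₁ (zk j)) = 0 := by
      have h2 : ∑ j, β j * (g e₂ (zk j) - g e₂ u / g e₁ u * g e₁ (zk j)) = g e₂ u - g e₂ u / g e₁ u * g e₁ u := by
        conv_rhs => rw [hψ e₂, hψ e₁]
        rw [Finset.mul_sum, ← Finset.sum_sub_distrib]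
        apply Finset.sum_congr rfl
        intro j _
        rw [← hψ e₂, ← hψ e₁]
        ring
      rw [h2, div_mul_cancel₀ _ hψ1, sub_self]
    have h3 := coef_zero β (fun j => F₀.sub_mem (C.R _ _ he₂ (hzk j)) (F₀.mul_mem hs (C.R _ _ he₁ (hzk j)))) h1
    have h4 := h3 k
    rw [he₂k', zero_sub, neg_eq_zero] at h4
    have h5 := (mul_eq_zero.1 h4).resolve_right he₁k'
    exact (div_ne_zero hψ2 hψ1) h5
  -- independence
  have hind12 : ∀ e₁' : ι → F, g e₁' u = g e₁ u → Rt F₀ P e₁' → (e₂ ∉ Submodule.span F {e₁'} ∧ e₁' ∉ Submodule.span F {e₂}) := by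
    intro e₁' h1 he₁'
    have key : ∀ x y : ι → F, Rt F₀ P x → Rt F₀ P y → g x u ≠ 0 → g y u ≠ 0 → g y u / g x u ∉ F₀ → y ∉ Submodule.span F {x} := by
      intro x y hx hy hxu hyu hr hm
      obtain ⟨t, rfl⟩ := Submodule.mem_span_singleton.1 hm
      apply hr
      rw [hg.smul_left, mul_div_cancel_right₀ _ hxu]
      obtain ⟨i, hi⟩ : ∃ i, (((P⁻¹ : GL ι F) : Matrix ι ι F) *ᵥ x) i ≠ 0 := by
        by_contra hcon
        push Not at hcon
        have : x = 0 := by
          apply mulVec_inj (g := P⁻¹)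
          rw [mulVec_zero]
          exact funext hcon
        rw [this, hg.skew, hg.toLL.zero_right, neg_zero] at hxu
        exact hxu rfl
      have h2 := hy i
      rw [mulVec_smul, Pi.smul_apply, smul_eq_mul] at h2
      have h3 := F₀.div_mem h2 (hx i)
      rwa [mul_div_cancel_right₀ _ hi] at h3
    constructor
    · exact key e₁' e₂ he₁' he₂ (by rw [h1]; exact hψ1) hψ2 (by rw [h1]; exact hrat)
    · refine key e₂ e₁' he₂ he₁' hψ2 (by rw [h1]; exact hψ1) ?_
      rw [h1]
      intro hc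
      apply hrat
      have := F₀.inv_mem hc
      rwa [inv_div] at this
  -- modify e₁
  obtain ⟨e₁', he₁', hψe, huns⟩ : ∃ e₁', Rt F₀ P e₁' ∧ g e₁' u = g e₁ u ∧ u ∉ Submodule.span F {e₁', e₂} := by
    by_cases hus : u ∈ Submodule.span F {e₁, e₂}
    · obtain ⟨x, hx, hxB, hxW⟩ := rat_pick hg C.R ![e₁, e₂] (by
        intro i; fin_cases i
        · exact he₁
        · exact he₂) (Submodule.span F {e₁, e₂}) (by
        have := finrank_pair_le (F := F) e₁ e₂
        omega)
      have hx1 : g e₁ x = 0 := hxB 0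
      have hx2 : g e₂ x = 0 := hxB 1
      obtain ⟨s, t, hst⟩ := Submodule.mem_span_pair.1 hus
      have hxu : g x u = 0 := by
        rw [hg.skew, ← hst, hg.add_left, hg.smul_left, hg.smul_left, hx1, hx2]
        simp
      refine ⟨e₁ + x, he₁.add hx, by rw [hg.add_left, hxu, add_zero], ?_⟩
      intro hm
      obtain ⟨s', t', hst'⟩ := Submodule.mem_span_pair.1 hm
      have hs' : s' = 0 := by
        by_contra h0
        apply hxW
        have e : x = s'⁻¹ • ((s - s') • e₁ + (t - t') • e₂) := by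
          have : s' • x = (s - s') • e₁ + (t - t') • e₂ := by
            have := hst'.trans hst.symm
            rw [smul_add] at this
            have e3 : s' • x = (s' • e₁ + s' • x + t' • e₂) - s' • e₁ - t' • e₂ := by abel
            rw [e3, this]
            module
          rw [← this, smul_smul, inv_mul_cancel₀ h0, one_smul]
        rw [e]
        exact Submodule.smul_mem _ _ (Submodule.add_mem _ (Submodule.smul_mem _ _ (Submodule.subset_span (by simp)))
          (Submodule.smul_mem _ _ (Submodule.subset_span (by simp))))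
      rw [hs', zero_smul, zero_add] at hst'
      have ht0 : t' ≠ 0 := by
        rintro rfl
        rw [zero_smul] at hst'
        exact hu0 hst'.symm
      apply hu t'⁻¹ (inv_ne_zero ht0)
      rw [← hst', smul_smul, inv_mul_cancel₀ ht0, one_smul]
      exact he₂
    · exact ⟨e₁, he₁, rfl, hus⟩
  obtain ⟨hi1, hi2⟩ := hind12 e₁' hψe he₁'
  obtain ⟨v, hv, hvB, huv⟩ := C.sep (B := {e₁', e₂}) (by
    intro b hb
    rcases hb with rfl | hb
    · exact he₁'
    · rw [Set.mem_singleton_iff.1 hb]; exact he₂) huns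
  have hv1 : g v e₁' = 0 := by rw [hg.skew, hvB _ (by simp), neg_zero]
  have hv2 : g v e₂ = 0 := by rw [hg.skew, hvB _ (by simp), neg_zero]
  have hvu : g v u ≠ 0 := by rw [hg.skew]; exact neg_ne_zero.2 huv
  have hv0 : v ≠ 0 := by
    rintro rfl
    rw [hg.skew, hg.toLL.zero_right, neg_zero] at hvu
    exact hvu rfl
  have hnot : ¬ (e₁' ∈ Submodule.span F {v} ∧ e₂ ∈ Submodule.span F {v}) := by
    rintro ⟨h1, h2⟩
    obtain ⟨s, hs⟩ := Submodule.mem_span_singleton.1 h1
    obtain ⟨t, ht⟩ := Submodule.mem_span_singleton.1 h2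
    have hs0 : s ≠ 0 := by
      rintro rfl
      rw [zero_smul] at hs
      apply hi2
      rw [← hs]
      exact Submodule.zero_mem _
    apply hi1
    refine Submodule.mem_span_singleton.2 ⟨t * s⁻¹, ?_⟩
    rw [← hs, ← ht, smul_smul, mul_assoc, inv_mul_cancel₀ hs0, mul_one]
  have hp12 : ¬ (g v u * g e₁' u ∈ F₀ ∧ g v u * g e₂ u ∈ F₀) := by
    rintro ⟨h1, h2⟩
    apply hrat
    have h3 := F₀.div_mem h2 h1
    rwa [hψe, mul_div_mul_left _ _ hvu] at h3
  by_cases a1 : g v u * g e₁' u ∈ F₀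
  · have a2 : g v u * g e₂ u ∉ F₀ := fun h => hp12 ⟨a1, h⟩
    by_cases b2 : e₂ ∈ Submodule.span F {v}
    · have b1 : e₁' ∉ Submodule.span F {v} := fun h => hnot ⟨h, b2⟩
      refine ⟨v, e₁' + e₂, hv, he₁'.add he₂, by rw [hg.add_right, hv1, hv2, add_zero], hv0, ?_, ?_⟩
      · exact fun h => b1 ((Submodule.add_mem_iff_left _ b2).1 h)
      · rw [hg.add_left, mul_add]
        exact fun h => a2 ((add_mem_cancel_left a1).1 h)
    · exact ⟨v, e₂, hv, he₂, hv2, hv0, b2, a2⟩
  · by_cases b1 : e₁' ∈ Submodule.span F {v}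
    · have b2 : e₂ ∉ Submodule.span F {v} := fun h => hnot ⟨b1, h⟩
      by_cases a2 : g v u * g e₂ u ∈ F₀
      · refine ⟨v, e₁' + e₂, hv, he₁'.add he₂, by rw [hg.add_right, hv1, hv2, add_zero], hv0, ?_, ?_⟩
        · exact fun h => b2 ((Submodule.add_mem_iff_right _ b1).1 h)
        · rw [hg.add_left, mul_add]
          exact fun h => a1 ((add_mem_cancel_right a2).1 h)
      · exact ⟨v, e₂, hv, he₂, hv2, hv0, b2, a2⟩
    · exact ⟨v, e₁', hv, he₁', hv1, hv0, b1, a1⟩

end Cfsg.Agent.H21.GUt
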