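import Mathlib
import Cfsg.Agent.GUt8

set_option autoImplicit false

/-! symplectic groups over subfields, V -/

namespace Cfsg.Agent.H21.GUt

open Matrix Module Cfsg.Geo Cfsg.Agent.H29.Trv

variable {ι : Type} [Fintype ι] [DecidableEq ι] {F : Type*} [Field F]
variable {F₀ : Subfield F} {P : GL ι F} {g : (ι → F) → (ι → F) → F}
variable {hg : Alt g} {M : Subgroup (GL ι F)}

/-- an irrational totally isotropic vector -/
theorem cx_irr [Fintype F] (C : Cx hg F₀ P M) {u : ι → F} (hu0 : u ≠ 0) (hu : ∀ c : F, c ≠ 0 → ¬ Rt F₀ P (c • u))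
    (hE : E hg M u 1) : ∃ p q κ, Rt F₀ P p ∧ Rt F₀ P q ∧ g p q = 0 ∧ p ∉ Submodule.span F {q} ∧
      q ∉ Submodule.span F {p} ∧ κ ∉ F₀ ∧ E hg M (p + κ • q) 1 := by
  have hcard := C.card
  obtain ⟨v, e, hv, he, hve, hv0, hev, hprod⟩ := cx_pair C hu0 hu
  have hev0 : g e v = 0 := by rw [hg.skew, hve, neg_zero]
  have he0 : e ≠ 0 := by
    rintro rfl
    exact hev (Submodule.zero_mem _)
  -- e'
  obtain ⟨z, hz, hzv, hez⟩ := C.sep (B := {v}) (by
    intro b hb
    rw [Set.mem_singleton_iff.1 hb]; exact hv) hev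
  have hvz : g v z = 0 := hzv v rfl
  obtain ⟨t, ht, htB, htW⟩ := rat_pick hg C.R ![v, e] (by
    intro i; fin_cases i
    · exact hv
    · exact he) (Submodule.span F {v, e, z}) (by
    have := finrank_triple_le (F := F) v e z
    omega)
  have hvt : g v t = 0 := htB 0
  have het : g e t = 0 := htB 1
  obtain ⟨e', he'd⟩ : ∃ e', e' = (2 * (g e z)⁻¹) • z + t := ⟨_, rfl⟩
  have h2F : (2 : F) ∈ F₀ := by
    have h1 := F₀.add_mem F₀.one_mem F₀.one_mem
    have h2 : (1 : F) + 1 = 2 := by norm_num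
    rwa [h2] at h1
  have he' : Rt F₀ P e' := by
    rw [he'd]
    exact (hz.smul (F₀.mul_mem h2F (F₀.inv_mem (C.R _ _ he hz)))).add ht
  have hve' : g v e' = 0 := by rw [he'd, hg.add_right, hg.smul_right, hvz, hvt, mul_zero, add_zero]
  have hee' : g e e' = 2 := by
    rw [he'd, hg.add_right, hg.smul_right, het, add_zero, mul_assoc, inv_mul_cancel₀ hez, mul_one]
  have he'W : e' ∉ Submodule.span F {v, e} := by
    intro hm
    apply htW
    have h1 : t = e' - (2 * (g e z)⁻¹) • z := by rw [he'd]; abel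
    rw [h1]
    refine Submodule.sub_mem _ ?_ (Submodule.smul_mem _ _ (Submodule.subset_span (by simp)))
    exact Submodule.span_mono (by intro x hx; simp at hx ⊢; tauto) hm
  have he'v : g e' v = 0 := by rw [hg.skew, hve', neg_zero]
  have he'e : g e' e = -2 := by rw [hg.skew, hee']
  -- the element k
  obtain ⟨k, hk⟩ := hg.exists_GL
    (LinearMap.id + LinearMap.smulRight (fr hg.toLL e) e' - LinearMap.smulRight (fr hg.toLL e') e)
    (fun p q => by
      simp only [LinearMap.add_apply, LinearMap.sub_apply, LinearMap.id_apply, LinearMap.smulRight_apply, fr_apply]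
      simp only [sub_eq_add_neg, hg.add_left, hg.add_right, hg.smul_left, hg.smul_right, hg.neg_right, ← neg_smul, hg.self,
        hee', he'e]
      rw [hg.skew e q, hg.skew e' q]
      ring)
  simp only [LinearMap.add_apply, LinearMap.sub_apply, LinearMap.id_apply, LinearMap.smulRight_apply, fr_apply] at hk
  have hkiso : ∀ p q, g ((k : Matrix _ _ F) *ᵥ p) ((k : Matrix _ _ F) *ᵥ q) = g p q := by
    intro p q
    rw [hk, hk]
    simp only [sub_eq_add_neg, hg.add_left, hg.add_right, hg.smul_left, hg.smul_right, hg.neg_right, ← neg_smul, hg.self,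
      hee', he'e]
    rw [hg.skew e q, hg.skew e' q]
    ring
  have hkM : k ∈ M := by
    apply C.iso k hkiso
    intro x hx
    rw [hk]
    exact (hx.add (he'.smul (C.R _ _ hx he))).sub (he.smul (C.R _ _ hx he'))
  have hku := hE.conj hkM hkiso
  obtain ⟨y, hy⟩ : ∃ y, y = g u e • e' - g u e' • e := ⟨_, rfl⟩
  have hkuy : (k : Matrix ι ι F) *ᵥ u = u + y := by rw [hk, hy]; abel
  rw [hkuy] at hku
  have huy : g u y = 0 := by
    rw [hy, sub_eq_add_neg, hg.add_right, ← neg_smul, hg.smul_right, hg.smul_right]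
    ring
  have hvy : g v y = 0 := by
    rw [hy, sub_eq_add_neg, hg.add_right, ← neg_smul, hg.smul_right, hg.smul_right, hve', hve]
    ring
  have hu₂ := hE.red hku huy (C.E v hv 1 F₀.one_mem) hvy
  obtain ⟨a, ha⟩ : ∃ a, a = -(g v u * g u e) := ⟨_, rfl⟩
  obtain ⟨b, hb⟩ : ∃ b, b = g v u * g u e' := ⟨_, rfl⟩
  obtain ⟨u₂, hu₂d⟩ : ∃ u₂, u₂ = v + a • e' + b • e := ⟨_, rfl⟩
  have e1 : v - (1 * g v u) • y = u₂ := by
    rw [hu₂d, hy, ha, hb]
    module
  rw [e1] at hu₂
  have haF : a ∉ F₀ := by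
    rw [ha, hg.skew u e]
    intro hc
    apply hprod
    have e2 : -(g v u * -g e u) = g v u * g e u := by ring
    rwa [e2] at hc
  -- step 3
  obtain ⟨w, hw, hwB, hwW⟩ := rat_pick hg C.R ![v, e, e'] (by
    intro i; fin_cases i
    · exact hv
    · exact he
    · exact he') (Submodule.span F {v, e, e'}) (by
    have := finrank_triple_le (F := F) v e e'
    omega)
  have hvw : g v w = 0 := hwB 0
  have hew : g e w = 0 := hwB 1
  have he'w : g e' w = 0 := hwB 2
  have hwW' : ∀ x ∈ Submodule.span F {v, e, e'}, ∀ c : F, c ≠ 0 → c • w ≠ x := by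
    intro x hx c hc hcx
    apply hwW
    rw [← hcx] at hx
    exact (Submodule.smul_mem_iff _ hc).1 hx
  have hin : ∀ r s t : F, r • v + s • e + t • e' ∈ Submodule.span F {v, e, e'} := by
    intro r s t
    exact Submodule.add_mem _ (Submodule.add_mem _ (Submodule.smul_mem _ _ (Submodule.subset_span (by simp)))
      (Submodule.smul_mem _ _ (Submodule.subset_span (by simp)))) (Submodule.smul_mem _ _ (Submodule.subset_span (by simp)))
  have m1 : v ∉ Submodule.span F {e, e', w} := by
    intro hm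
    obtain ⟨r, s, c, hsum⟩ := Submodule.mem_span_triple.1 hm
    by_cases hc : c = 0
    · rw [hc, zero_smul, add_zero] at hsum
      by_cases hs : s = 0
      · rw [hs, zero_smul, add_zero] at hsum
        by_cases hr : r = 0
        · rw [hr, zero_smul] at hsum
          exact hv0 hsum.symm
        · apply hev
          refine Submodule.mem_span_singleton.2 ⟨r⁻¹, ?_⟩
          rw [← hsum, smul_smul, inv_mul_cancel₀ hr, one_smul]
      · apply he'W
        refine Submodule.mem_span_pair.2 ⟨s⁻¹, -(s⁻¹ * r), ?_⟩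
        have h3 : s • e' = v - r • e := by rw [← hsum]; abel
        have h4 : e' = s⁻¹ • (v - r • e) := by rw [← h3, smul_smul, inv_mul_cancel₀ hs, one_smul]
        rw [h4]
        module
    · refine hwW' _ (hin 1 (-r) (-s)) c hc ?_
      have h3 : c • w = v - (r • e + s • e') := by rw [← hsum]; abel
      rw [h3]
      module
  have m2 : e' ∉ Submodule.span F {v, e, w} := by
    intro hm
    obtain ⟨r, s, c, hsum⟩ := Submodule.mem_span_triple.1 hm
    by_cases hc : c = 0
    · rw [hc, zero_smul, add_zero] at hsum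
      apply he'W
      exact Submodule.mem_span_pair.2 ⟨r, s, hsum⟩
    · refine hwW' _ (hin (-r) (-s) 1) c hc ?_
      have h3 : c • w = e' - (r • v + s • e) := by rw [← hsum]; abel
      rw [h3]
      module
  obtain ⟨v', hv', hv'B, hvv'⟩ := C.sep (B := {e, e', w}) (by
    intro b hb
    simp only [Set.mem_insert_iff, Set.mem_singleton_iff] at hb
    rcases hb with rfl | rfl | rfl
    · exact he
    · exact he'
    · exact hw) m1
  have hev' : g e v' = 0 := hv'B e (by simp)
  have he'v' : g e' v' = 0 := hv'B e' (by simp)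
  have hwv' : g w v' = 0 := hv'B w (by simp)
  obtain ⟨w₁, hw₁, hw₁B, he'w₁⟩ := C.sep (B := {v, e, w}) (by
    intro b hb
    simp only [Set.mem_insert_iff, Set.mem_singleton_iff] at hb
    rcases hb with rfl | rfl | rfl
    · exact hv
    · exact he
    · exact hw) m2
  have hvw₁ : g v w₁ = 0 := hw₁B v (by simp)
  have hew₁ : g e w₁ = 0 := hw₁B e (by simp)
  have hww₁ : g w w₁ = 0 := hw₁B w (by simp)
  have hw₁w : g w₁ w = 0 := by rw [hg.skew, hww₁, neg_zero]
  have hv'w : g v' w = 0 := by rw [hg.skew, hwv', neg_zero]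
  obtain ⟨k', hk', hk'x, hk'i⟩ := C.K hw₁ hw hw₁w
  have hk'u := hu₂.conj hk' hk'i
  have hu₂w : g u₂ w = 0 := by
    rw [hu₂d, hg.add_left, hg.add_left, hg.smul_left, hg.smul_left, hvw, hew, he'w]; ring
  have hu₂w₁ : g u₂ w₁ = a * g e' w₁ := by
    rw [hu₂d, hg.add_left, hg.add_left, hg.smul_left, hg.smul_left, hvw₁, hew₁]; ring
  rw [hk'x, hu₂w, zero_smul, add_zero] at hk'u
  have hred := hu₂.red hk'u (by rw [hg.smul_right, hu₂w, mul_zero]) (C.E v' hv' 1 F₀.one_mem)
    (by rw [hg.smul_right, hv'w, mul_zero])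
  have hv'u₂ : g v' u₂ = g v' v := by
    rw [hu₂d, hg.add_right, hg.add_right, hg.smul_right, hg.smul_right, hg.skew v' e', hg.skew v' e, he'v', hev']
    ring
  have hv'v : g v' v ≠ 0 := by rw [hg.skew]; exact neg_ne_zero.2 hvv'
  have e3 : v' - (1 * g v' u₂) • (g u₂ w₁ • w) = v' + (-(g v' v * g e' w₁ * a)) • w := by
    rw [hv'u₂, hu₂w₁]
    module
  rw [e3] at hred
  have hw0 : w ≠ 0 := by
    rintro rfl
    exact hwW (Submodule.zero_mem _)
  refine ⟨v', w, _, hv', hw, hv'w, ?_, ?_, ?_, hred⟩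
  · intro hm
    obtain ⟨c, rfl⟩ := Submodule.mem_span_singleton.1 hm
    apply hvv'
    rw [hg.smul_right, hvw, mul_zero]
  · intro hm
    obtain ⟨c, hc⟩ := Submodule.mem_span_singleton.1 hm
    have h5 : g v w = c * g v v' := by rw [← hc, hg.smul_right]
    rw [hvw] at h5
    rcases mul_eq_zero.1 h5.symm with h6 | h6
    · rw [h6, zero_smul] at hc
      exact hw0 hc.symm
    · exact hvv' h6
  · intro hc
    apply haF
    have h6 : g v' v * g e' w₁ ∈ F₀ := F₀.mul_mem (C.R _ _ hv' hv) (C.R _ _ he' hw₁)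
    have h7 := F₀.div_mem (F₀.neg_mem hc) h6
    rw [neg_neg, mul_div_cancel_left₀ _ (mul_ne_zero hv'v he'w₁)] at h7
    exact h7

end Cfsg.Agent.H21.GUt
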