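import Mathlib
import Cfsg.Agent.GUt9

set_option autoImplicit false

/-! symplectic groups over subfields, VI -/

namespace Cfsg.Agent.H21.GUt

open Matrix Module Cfsg.Geo Cfsg.Agent.H29.Trv

section Fields

variable {F : Type*} [Field F]

/-- a finite additive subgroup closed under multiplication gives a subfield -/
theorem exists_subfield [Fintype F] {B : Set F} (h1 : (1 : F) ∈ B) (h0 : (0 : F) ∈ B) (hadd : ∀ a ∈ B, ∀ b ∈ B, a + b ∈ B)
    (hneg : ∀ a ∈ B, -a ∈ B) (hmul : ∀ a ∈ B, ∀ b ∈ B, a * b ∈ B) : ∃ K : Subfield F, ∀ x, x ∈ K ↔ x ∈ B := by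
  have hpow : ∀ a ∈ B, ∀ n : ℕ, a ^ n ∈ B := by
    intro a ha n
    induction n with
    | zero => rw [pow_zero]; exact h1
    | succ n ih => rw [pow_succ]; exact hmul _ ih _ ha
  refine ⟨{ carrier := B
            mul_mem' := fun {a b} ha hb => hmul a ha b hb
            one_mem' := h1
            add_mem' := fun {a b} ha hb => hadd a ha b hb
            zero_mem' := h0
            neg_mem' := fun {a} ha => hneg a ha
            inv_mem' := fun a ha => ?_ }, fun x => Iff.rfl⟩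
  by_cases ha0 : a = 0
  · rw [ha0, _root_.inv_zero]; exact h0
  · have e : a⁻¹ = a ^ (Fintype.card F - 2) := by
      apply inv_eq_of_mul_eq_one_right
      rw [← pow_succ']
      have hc := Fintype.one_lt_card (α := F)
      rw [show Fintype.card F - 2 + 1 = Fintype.card F - 1 by omega]
      exact FiniteField.pow_card_sub_one_eq_one a ha0
    rw [e]
    exact hpow a ha _

/-- no field strictly between for prime degree -/
theorem subfield_prime [Fintype F] {F₀ K : Subfield F} (hle : F₀ ≤ K) (hne : ∃ x ∈ K, x ∉ F₀) {r : ℕ} (hr : r.Prime)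
    (hcard : Fintype.card F = Nat.card F₀ ^ r) : ∀ x, x ∈ K := by
  letI : Algebra F₀ K := (Subfield.inclusion hle).toAlgebra
  have hN0 : 1 < Nat.card F₀ := Finite.one_lt_card
  have e1 : Nat.card K = Nat.card F₀ ^ (Module.finrank F₀ K) := by
    have := Module.natCard_eq_pow_finrank (K := F₀) (V := K)
    exact this
  have e2 : Nat.card F = Nat.card K ^ (Module.finrank K F) := Module.natCard_eq_pow_finrank (K := K) (V := F)
  rw [← Nat.card_eq_fintype_card, e2, e1, ← pow_mul] at hcard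
  have e3 := Nat.pow_right_injective hN0 hcard
  have e3' : Module.finrank F₀ K * Module.finrank K F = r := e3
  rw [← e3'] at hr
  rcases Nat.prime_mul_iff.1 hr with ⟨-, h2⟩ | ⟨-, h2⟩
  · -- finrank K F = 1
    rw [h2, pow_one] at e2
    have h3 : (K : Set F) = Set.univ := by
      apply Set.eq_of_subset_of_ncard_le (Set.subset_univ _)
      rw [Set.ncard_univ, e2]
      rfl
    intro x
    have : x ∈ (K : Set F) := by rw [h3]; trivial
    exact this
  · rw [h2, pow_one] at e1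
    exfalso
    have h3 : (F₀ : Set F) = K := by
      apply Set.eq_of_subset_of_ncard_le hle
      show Nat.card K ≤ Nat.card F₀
      rw [e1]
    obtain ⟨x, hx, hx0⟩ := hne
    apply hx0
    have : x ∈ (K : Set F) := hx
    rw [← h3] at this
    exact this

end Fields

variable {ι : Type} [Fintype ι] [DecidableEq ι] {F : Type*} [Field F]
variable {F₀ : Subfield F} {P : GL ι F} {g : (ι → F) → (ι → F) → F}
variable {hg : Alt g} {M : Subgroup (GL ι F)}

/-- all parameters for rational vectors -/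
theorem cx_all [Fintype F] (C : Cx hg F₀ P M) {r : ℕ} (hr : r.Prime) (hcard : Fintype.card F = Nat.card F₀ ^ r)
    {u : ι → F} (hu0 : u ≠ 0) (hu : ∀ c : F, c ≠ 0 → ¬ Rt F₀ P (c • u)) (hE : E hg M u 1) :
    ∀ x, Rt F₀ P x → ∀ b : F, E hg M x b := by
  obtain ⟨p, q, κ, hp, hq, hpq, hpn, hqn, hκ, hEp⟩ := cx_irr C hu0 hu hE
  have hqp : g q p = 0 := by rw [hg.skew, hpq, neg_zero]
  obtain ⟨a, ha, hqa, hpa⟩ : ∃ a, Rt F₀ P a ∧ g q a = 0 ∧ g p a = 1 := by
    obtain ⟨z, hz, hzB, hpz⟩ := C.sep (B := {q}) (by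
      intro b hb
      rw [Set.mem_singleton_iff.1 hb]; exact hq) hpn
    refine ⟨(g p z)⁻¹ • z, hz.smul (F₀.inv_mem (C.R _ _ hp hz)), ?_, ?_⟩
    · rw [hg.smul_right, hzB q rfl, mul_zero]
    · rw [hg.smul_right, inv_mul_cancel₀ hpz]
  have haq : g a q = 0 := by rw [hg.skew, hqa, neg_zero]
  let B : Set F := {b | ∀ x, Rt F₀ P x → E hg M x b}
  have hF₀B : ∀ b ∈ F₀, b ∈ B := fun b hb x hx => C.E x hx b hb
  have hadd : ∀ b ∈ B, ∀ c ∈ B, b + c ∈ B := fun b hb c hc x hx => (hb x hx).add (hc x hx)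
  have hneg : ∀ b ∈ B, -b ∈ B := fun b hb x hx => (hb x hx).neg
  have key : ∀ b l : F, E hg M (p + l • q) b → b * (l * l) ∈ B ∧ 2 * (b * l) ∈ B := by
    intro b l h
    obtain ⟨e, he, he0, h1, h2⟩ := cx_step4 C hp hq hpq hpn hqn h
    exact ⟨fun x hx => C.trans he he0 hx h1, fun x hx => C.trans he he0 hx h2⟩
  have key2 : ∀ b ∈ B, ∀ l ∈ B, b * (l * l) ∈ B ∧ 2 * (b * l) ∈ B := by
    intro b hb l hl
    apply key
    obtain ⟨k, hk, hkx, hki⟩ := K_of haq (hl a ha) (hl q hq) (hl (a + q) (ha.add hq))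
    have h1 := (hb p hp).conj hk hki
    rw [hkx, hpa, hpq, mul_one, mul_zero, zero_smul, add_zero] at h1
    exact h1
  have h1B : (1 : F) ∈ B := hF₀B 1 F₀.one_mem
  have h2F : (2 : F) ∈ F₀ := by
    have h1 := F₀.add_mem F₀.one_mem F₀.one_mem
    have h2 : (1 : F) + 1 = 2 := by norm_num
    rwa [h2] at h1
  have hmul : ∀ b ∈ B, ∀ c ∈ B, b * c ∈ B := by
    intro b hb c hc
    by_cases h2 : (2 : F) = 0
    · -- characteristic two
      have hsq : (fun x : F => x * x) '' B ⊆ B := by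
        rintro _ ⟨x, hx, rfl⟩
        have := (key2 1 h1B x hx).1
        rwa [one_mul] at this
      have hinj : Function.Injective (fun x : F => x * x) := by
        intro x y hxy
        have hxy' : x * x = y * y := hxy
        have h3 : (x - y) * (x - y) = 0 := by linear_combination hxy' + (y * y - x * y) * h2
        exact sub_eq_zero.1 (mul_self_eq_zero.1 h3)
      have h4 := Set.eq_of_subset_of_ncard_le hsq (by rw [Set.ncard_image_of_injective _ hinj]) (Set.toFinite B)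
      rw [← h4] at hc
      obtain ⟨d, hd, rfl⟩ := hc
      exact (key2 b hb d hd).1
    · have h3 := (key2 b hb c hc).2
      have h4 : (2 : F)⁻¹ * (2 : F)⁻¹ ∈ B := hF₀B _ (F₀.mul_mem (F₀.inv_mem h2F) (F₀.inv_mem h2F))
      have h5 := (key2 _ h3 _ h4).2
      have e : 2 * (2 * (b * c) * ((2 : F)⁻¹ * (2 : F)⁻¹)) = b * c := by field_simp
      rwa [e] at h5
  obtain ⟨K, hK⟩ := exists_subfield h1B (hF₀B 0 F₀.zero_mem) hadd hneg hmul
  have hle : F₀ ≤ K := fun x hx => (hK x).2 (hF₀B x hx)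
  have hne : ∃ x ∈ K, x ∉ F₀ := by
    obtain ⟨h3, h4⟩ := key 1 κ hEp
    rw [one_mul] at h3 h4
    by_cases h2 : (2 : F) = 0
    · refine ⟨κ * κ, (hK _).2 h3, ?_⟩
      intro hc
      apply hκ
      rw [Cfsg.Agent.H29.Fm.subfield_mem_iff, mul_pow] at hc
      rw [Cfsg.Agent.H29.Fm.subfield_mem_iff]
      have h5 : (κ ^ Nat.card F₀ - κ) * (κ ^ Nat.card F₀ - κ) = 0 := by
        linear_combination hc + (κ * κ - κ ^ Nat.card F₀ * κ) * h2
      exact sub_eq_zero.1 (mul_self_eq_zero.1 h5)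
    · refine ⟨2 * κ, (hK _).2 h4, ?_⟩
      intro hc
      apply hκ
      have := F₀.div_mem hc h2F
      rwa [mul_div_cancel_left₀ _ h2] at this
  have hall := subfield_prime hle hne hr hcard
  intro x hx b
  exact (hK b).1 (hall b) x hx

/-- all vectors -/
theorem cx_full [Fintype F] (C : Cx hg F₀ P M) (hall : ∀ x, Rt F₀ P x → ∀ b : F, E hg M x b) : ∀ x, ∀ b : F, E hg M x b := by
  -- the radical at a rational vector
  have hQ : ∀ v, Rt F₀ P v → ∀ z, g v z = 0 → ∃ k ∈ M, (∀ x, (k : Matrix ι ι F) *ᵥ x = x + g x v • z + g x z • v) ∧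
      ∀ x y, g ((k : Matrix ι ι F) *ᵥ x) ((k : Matrix ι ι F) *ᵥ y) = g x y := by
    intro v hv z hvz
    obtain ⟨d, β, hβ⟩ := rat_decomp P F₀
    obtain ⟨zk, hzk, hz⟩ := hβ z
    have h5 : ∀ k, g v (zk k) = 0 := by
      apply coef_zero β (fun k => C.R _ _ hv (hzk k))
      rw [hz, alt_sum_right hg] at hvz
      exact hvz
    have h6 : ∀ s : Finset (Fin d), g v (∑ k ∈ s, β k • zk k) = 0 ∧ ∃ k₀ ∈ M,
        (∀ x, (k₀ : Matrix ι ι F) *ᵥ x = x + g x v • (∑ k ∈ s, β k • zk k) + g x (∑ k ∈ s, β k • zk k) • v) ∧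
      ∀ x y, g ((k₀ : Matrix ι ι F) *ᵥ x) ((k₀ : Matrix ι ι F) *ᵥ y) = g x y := by
      intro s
      classical
      induction s using Finset.induction_on with
      | empty =>
        rw [Finset.sum_empty]
        refine ⟨hg.toLL.zero_right v, 1, M.one_mem, fun x => ?_, fun x y => by simp⟩
        rw [hg.toLL.zero_right]
        simp
      | insert j s hj ih =>
        obtain ⟨ih1, k₁, hk₁, hk₁x, hk₁i⟩ := ih
        rw [Finset.sum_insert hj]
        obtain ⟨w, hw⟩ : ∃ w, w = ∑ k ∈ s, β k • zk k := ⟨_, rfl⟩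
        rw [← hw] at ih1 hk₁x ⊢
        have hvj := h5 j
        have hjv : g (zk j) v = 0 := by rw [hg.skew, hvj, neg_zero]
        have hwv : g w v = 0 := by rw [hg.skew, ih1, neg_zero]
        obtain ⟨k₂, hk₂, hk₂x, hk₂i⟩ := K_of hvj (hall v hv (β j)) (hall _ (hzk j) (β j)) (hall _ (hv.add (hzk j)) (β j))
        obtain ⟨k₃, hk₃, hk₃x, hk₃i⟩ := (hall v hv (-(β j * g w (zk j)))).get
        refine ⟨?_, k₃ * (k₂ * k₁), M.mul_mem hk₃ (M.mul_mem hk₂ hk₁), fun x => ?_, fun x y => ?_⟩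
        · rw [hg.add_right, hg.smul_right, hvj, ih1, mul_zero, add_zero]
        · rw [Cfsg.Agent.H29.Trv.mul_apply, Cfsg.Agent.H29.Trv.mul_apply, hk₁x, hk₂x, hk₃x]
          simp only [hg.add_left, hg.add_right, hg.smul_left, hg.smul_right, hg.self, hvj, hjv, hwv, ih1, mul_zero, add_zero]
          module
        · rw [Cfsg.Agent.H29.Trv.mul_apply, Cfsg.Agent.H29.Trv.mul_apply, Cfsg.Agent.H29.Trv.mul_apply,
            Cfsg.Agent.H29.Trv.mul_apply, hk₃i, hk₂i, hk₁i]
    have h7 := (h6 Finset.univ).2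
    rw [← hz] at h7
    exact h7
  have hne : ∀ y : ι → F, y ≠ 0 → ∃ z, Rt F₀ P z ∧ g y z ≠ 0 := by
    intro y hy
    obtain ⟨z, h1, -, h2⟩ := C.sep (B := ∅) (by simp) (a := y) (by simpa using hy)
    exact ⟨z, h1, h2⟩
  intro x b
  by_cases hx0 : x = 0
  · rw [hx0]; exact ⟨by rw [map_zero], 1, M.one_mem, fun y => by simp⟩
  obtain ⟨v, hv, hxv⟩ := hne x hx0
  have hv0 : v ≠ 0 := by
    rintro rfl
    exact hxv (hg.toLL.zero_right x)
  obtain ⟨v', hv', hvv'⟩ := hne v hv0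
  have hv'v : g v' v ≠ 0 := by rw [hg.skew]; exact neg_ne_zero.2 hvv'
  obtain ⟨t, ht⟩ : ∃ t, t = g v' v / g x v := ⟨_, rfl⟩
  have ht0 : t ≠ 0 := by rw [ht]; exact div_ne_zero hv'v hxv
  have htx : g (t • x) v = g v' v := by rw [hg.smul_left, ht, div_mul_cancel₀ _ hxv]
  have hw : g v ((g v' v)⁻¹ • (t • x - v')) = 0 := by
    rw [hg.smul_right, sub_eq_add_neg, hg.add_right, hg.neg_right, hg.skew v (t • x), htx, hg.skew v v']
    ring
  obtain ⟨k, hk, hkx, hki⟩ := hQ v hv _ hw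
  -- parameter
  have hgoal : ∀ b', E hg M (t • x) b' := by
    intro b'
    have h1 := (hall v' hv' b').conj hk hki
    rw [hkx, smul_smul, mul_inv_cancel₀ hv'v, one_smul] at h1
    obtain ⟨dd, hdd⟩ : ∃ dd, dd = g v' ((g v' v)⁻¹ • (t • x - v')) := ⟨_, rfl⟩
    rw [← hdd] at h1
    have e1 : v' + (t • x - v') + dd • v = t • x + dd • v := by abel
    rw [e1] at h1
    have h2 := h1.move (hall v hv (-dd / g v' v))
    have e2 : g (t • x + dd • v) v = g v' v := by
      rw [hg.add_left, hg.smul_left dd, hg.self, mul_zero, add_zero, htx]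
    rw [e2, div_mul_cancel₀ _ hv'v] at h2
    have e3 : t • x + dd • v + -dd • v = t • x := by module
    rwa [e3] at h2
  have h3 := (E_smul_iff t).1 (hgoal ((t * t)⁻¹ * b))
  have e4 : t * t * ((t * t)⁻¹ * b) = b := by
    rw [← mul_assoc, mul_inv_cancel₀ (mul_ne_zero ht0 ht0), one_mul]
  rwa [e4] at h3

end Cfsg.Agent.H21.GUt
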