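import Mathlib
import Cfsg.Agent.H5_Dk6

set_option autoImplicit false

/-! generation of `SL₂` by root elements, from Dickson's theorem -/

namespace Cfsg.Agent.H21.GUv

open Cfsg.Agent.H5 Cfsg.Agent.H5.SL2 Cfsg.Agent.H5.V4 Cfsg.Agent.H5.Dk
open scoped Pointwise

variable {E : Type*} [Field E]

theorem tr_conj (t s : S E) : (t * s * t⁻¹).1 0 0 + (t * s * t⁻¹).1 1 1 = s.1 0 0 + s.1 1 1 := by
  simp only [mul00, mul01, mul10, mul11, inv00, inv01, inv10, inv11]
  linear_combination (s.1 0 0 + s.1 1 1) * det_eq t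

theorem mem_of_sq [Fintype E] {K : Subfield E} (h2 : (2 : E) = 0) {x : E} (hx : x ^ 2 ∈ K) : x ∈ K := by
  have hinj : Function.Injective (fun y : K => y ^ 2) := by
    intro y z hyz
    simp only at hyz
    have h1 : (y : E) ^ 2 = (z : E) ^ 2 := by
      have := congrArg Subtype.val hyz
      simpa using this
    apply Subtype.ext
    have h3 : ((y : E) - z) ^ 2 = 0 := by linear_combination h1 + (z ^ 2 - (y : E) * z) * h2
    exact sub_eq_zero.1 (pow_eq_zero_iff (two_ne_zero) |>.1 h3)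
  haveI : Finite K := inferInstance
  obtain ⟨y, hy⟩ := (Finite.injective_iff_surjective.1 hinj) ⟨x ^ 2, hx⟩
  have h1 : (y : E) ^ 2 = x ^ 2 := by
    have := congrArg Subtype.val hy
    simpa using this
  have h3 : ((y : E) - x) ^ 2 = 0 := by linear_combination h1 + (x ^ 2 - (y : E) * x) * h2
  have h4 := sub_eq_zero.1 (pow_eq_zero_iff (two_ne_zero) |>.1 h3)
  rw [← h4]
  exact y.2

theorem sq_dvd_card [Fintype E] (p : ℕ) [Fact p.Prime] [CharP E p] (A : AddSubgroup E) {a₁ a₂ : E} (h1 : a₁ ∈ A) (h2 : a₂ ∈ A)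
    (ha0 : a₁ ≠ 0) (hind : ∀ c ∈ (⊥ : Subfield E), a₂ ≠ c * a₁) : p ^ 2 ∣ Nat.card A := by
  have hpp : p.Prime := Fact.out
  obtain ⟨n, -, hn⟩ := FiniteField.card E p
  have hdvd : Nat.card A ∣ p ^ (n : ℕ) := by
    rw [← hn, ← Nat.card_eq_fintype_card]
    exact AddSubgroup.card_addSubgroup_dvd_card A
  obtain ⟨k, -, hk⟩ := (Nat.dvd_prime_pow hpp).1 hdvd
  rw [hk]
  apply pow_dvd_pow
  by_contra hcon
  have hk2 : k = 0 ∨ k = 1 := by omega
  rcases hk2 with rfl | rfl
  · rw [pow_zero] at hk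
    have : A = ⊥ := by
      rw [AddSubgroup.eq_bot_iff_card]
      exact hk
    rw [this, AddSubgroup.mem_bot] at h1
    exact ha0 h1
  · rw [pow_one] at hk
    have hle : AddSubgroup.zmultiples a₁ ≤ A := by
      rw [AddSubgroup.zmultiples_le]
      exact h1
    have hcd : Nat.card (AddSubgroup.zmultiples a₁) ∣ p := by
      rw [← hk]
      exact AddSubgroup.card_dvd_of_le hle
    have hcp : Nat.card (AddSubgroup.zmultiples a₁) = p := by
      rcases (Nat.dvd_prime hpp).1 hcd with h3 | h3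
      · exfalso
        have : AddSubgroup.zmultiples a₁ = ⊥ := by
          rw [AddSubgroup.eq_bot_iff_card]
          exact h3
        rw [AddSubgroup.zmultiples_eq_bot] at this
        exact ha0 this
      · exact h3
    have heq : AddSubgroup.zmultiples a₁ = A := AddSubgroup.eq_of_le_of_card_ge hle (by rw [hcp, hk])
    rw [← heq, AddSubgroup.mem_zmultiples_iff] at h2
    obtain ⟨m, hm⟩ := h2
    apply hind (m : E) (Subfield.intCast_mem _ m)
    rw [← hm, zsmul_eq_mul]

/-- generation of SL₂ -/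
theorem sl2_gen [Fintype E] (Γ : Subgroup (S E)) {a₁ a₂ b : E} (h1 : u a₁ ∈ Γ) (h2 : u a₂ ∈ Γ) (hb : l b ∈ Γ) (ha0 : a₁ ≠ 0) (hb0 : b ≠ 0)
    (hind : ∀ c ∈ (⊥ : Subfield E), a₂ ≠ c * a₁) (hgen : ∀ K : Subfield E, (∀ a, u a ∈ Γ → a * b ∈ K) → K = ⊤) (s : S E) :
    s ∈ Γ ∨ -s ∈ Γ := by
  obtain ⟨p, hchar⟩ := CharP.exists E
  haveI : Fact p.Prime := ⟨CharP.char_is_prime E p⟩
  have hpp : p.Prime := Fact.out
  set H := Γ.map π with hH
  have hA : p ^ 2 ∣ Nat.card H := by
    have h3 : p ^ 2 ∣ Nat.card (Ag H) := sq_dvd_card p (Ag H) (a₁ := a₁) (a₂ := a₂)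
      (mem_Ag.2 (Subgroup.mem_map_of_mem _ h1)) (mem_Ag.2 (Subgroup.mem_map_of_mem _ h2)) ha0 hind
    rw [card_Ag] at h3
    exact h3.trans (Subgroup.card_dvd_of_le inf_le_left)
  have hpH : p ∣ Nat.card H := (dvd_pow_self p two_ne_zero).trans hA
  obtain ⟨g, hg⟩ := hub p H hpH
  obtain ⟨t, rfl⟩ := π_surj g
  have hmem : ∀ s ∈ Γ, π (t * s * t⁻¹) ∈ MulAut.conj (π t) • H := by
    intro s hs
    rw [map_mul, map_mul, map_inv]
    exact Subgroup.smul_mem_pointwise_smul _ (MulAut.conj (π t)) H (Subgroup.mem_map_of_mem _ hs)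
  have key : ∀ s ∈ Γ, ∀ s' ∈ Γ, s.1 0 0 + s.1 1 1 = 2 → s'.1 0 0 + s'.1 1 1 = 2 → (t * s * t⁻¹).1 1 0 = 0 → (t * s' * t⁻¹).1 1 0 = 0 →
      (s * s').1 0 0 + (s * s').1 1 1 = 2 := by
    intro s _ s' _ hs hs' h10 h10'
    have e1 := tr_conj t s
    have e2 := tr_conj t s'
    have e3 := tr_conj t (s * s')
    have e4 : t * (s * s') * t⁻¹ = (t * s * t⁻¹) * (t * s' * t⁻¹) := by group
    rw [e4] at e3
    have d1 := det_eq (t * s * t⁻¹)
    have d2 := det_eq (t * s' * t⁻¹)
    generalize t * s * t⁻¹ = x at *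
    generalize t * s' * t⁻¹ = y at *
    rw [hs] at e1
    rw [hs'] at e2
    rw [h10, mul_zero, sub_zero] at d1
    rw [h10', mul_zero, sub_zero] at d2
    have hx : x.1 0 0 = 1 := by
      have : (x.1 0 0 - 1) ^ 2 = 0 := by
        have e5 : x.1 1 1 = 2 - x.1 0 0 := by linear_combination e1
        rw [e5] at d1
        linear_combination -d1
      exact sub_eq_zero.1 (pow_eq_zero_iff (two_ne_zero) |>.1 this)
    have hy : y.1 0 0 = 1 := by
      have : (y.1 0 0 - 1) ^ 2 = 0 := by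
        have e5 : y.1 1 1 = 2 - y.1 0 0 := by linear_combination e2
        rw [e5] at d2
        linear_combination -d2
      exact sub_eq_zero.1 (pow_eq_zero_iff (two_ne_zero) |>.1 this)
    rw [hx, one_mul] at d1
    rw [hy, one_mul] at d2
    rw [← e3, mul00, mul11, hx, hy, d1, d2, h10, h10']
    norm_num
  have hT : u a₁ * l b ∈ Γ := Γ.mul_mem h1 hb
  have hne : a₁ * b ≠ 0 := mul_ne_zero ha0 hb0
  rcases hg with hg | ⟨hp2, k, hk, ⟨e⟩⟩ | ⟨hp3, h60, -⟩ | ⟨e, K0, hS, -, -⟩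
  · exfalso
    have h3 := key _ h1 _ hb (by simp; norm_num) (by simp; norm_num) (hg _ (hmem _ h1)) (hg _ (hmem _ hb))
    rw [mul00, mul11] at h3
    simp at h3
    apply hne
    linear_combination h3
  · exfalso
    subst hp2
    have hc : Nat.card H = 2 * k := by
      rw [Nat.card_congr e.toEquiv, DihedralGroup.nat_card]
    rw [hc] at hA
    obtain ⟨n, -, hn⟩ := FiniteField.card E 2
    have hn0 : (n : ℕ) ≠ 0 := n.ne_zero
    have h2q : 2 ∣ Fintype.card E := by
      rw [hn]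
      exact dvd_pow_self 2 hn0
    have h1q : 1 < Fintype.card E := Fintype.one_lt_card
    have hg1 : Nat.gcd 2 (Fintype.card E - 1) = 1 := by
      have : ¬ 2 ∣ (Fintype.card E - 1) := by omega
      exact (Nat.Prime.coprime_iff_not_dvd Nat.prime_two).2 this
    rw [hg1, Nat.div_one, Nat.div_one] at hk
    have h2k : 2 ∣ k := by omega
    rcases hk with hk | hk
    · have := h2k.trans hk
      omega
    · have := h2k.trans hk
      omega
  · exfalso
    subst hp3
    rw [h60] at hA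
    omega
  · have htr : ∀ s ∈ Γ, (s.1 0 0 + s.1 1 1) ^ 2 ∈ K0 := by
      intro s hs
      have := hS.htr _ (hmem s hs)
      rwa [tr_conj] at this
    have hcast : ∀ m : ℕ, (m : E) ∈ K0 := fun m => natCast_mem K0 m
    have hab : ∀ a c, u a ∈ Γ → l c ∈ Γ → a * c ∈ K0 := by
      intro a c ha hc
      have e1 := htr _ (Γ.mul_mem ha hc)
      rw [mul00, mul11] at e1
      simp only [u00, l00, u01, l10, u10, l01, u11, l11] at e1
      have e2 := htr _ (Γ.mul_mem ha (Γ.mul_mem hc hc))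
      rw [l_mul, mul00, mul11] at e2
      simp only [u00, l00, u01, l10, u10, l01, u11, l11] at e2
      by_cases h20 : (2 : E) = 0
      · apply mem_of_sq h20
        have e3 : (1 * 1 + a * c + (0 * 0 + 1 * 1)) ^ 2 = (a * c) ^ 2 := by linear_combination (2 * (a * c) + 2) * h20
        rwa [e3] at e1
      · have h4 : (4 : E) ∈ K0 := by exact_mod_cast hcast 4
        have h12 : (12 : E) ∈ K0 := by exact_mod_cast hcast 12
        have h8 : (8 : E) ∈ K0 := by exact_mod_cast hcast 8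
        have e3 : (1 * 1 + a * (c + c) + (0 * 0 + 1 * 1)) ^ 2 - 4 * (1 * 1 + a * c + (0 * 0 + 1 * 1)) ^ 2 + 12 = -(8 * (a * c)) := by ring
        have e4 : -(8 * (a * c)) ∈ K0 := by
          rw [← e3]
          exact K0.add_mem (K0.sub_mem e2 (K0.mul_mem h4 e1)) h12
        have h80 : (8 : E) ≠ 0 := by
          have : (8 : E) = 2 ^ 3 := by norm_num
          rw [this]
          exact pow_ne_zero 3 h20
        have e5 := K0.div_mem (K0.neg_mem e4) h8
        rwa [neg_neg, mul_div_cancel_left₀ _ h80] at e5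
    have hK0 : K0 = ⊤ := hgen K0 (fun a ha => hab a b ha hb)
    have hmemK : ∀ x : E, x ∈ K0 := fun x => by rw [hK0]; trivial
    have hH' : ∀ x : S E, π x ∈ MulAut.conj (π t) • H := by
      have htop : (MulAut.conj (π t) • H).comap π = ⊤ := by
        apply eq_top_of_ul
        · intro x
          have := hS.hu (((e⁻¹ : Eˣ) : E) * x) (hmemK _)
          rwa [← mul_assoc, Units.mul_inv, one_mul] at this
        · intro x
          have := hS.hl ((e : E) * x) (hmemK _)
          rwa [← mul_assoc, Units.inv_mul, one_mul] at this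
      intro x
      have : x ∈ (MulAut.conj (π t) • H).comap π := by rw [htop]; trivial
      exact this
    have h3 := hH' (t * s * t⁻¹)
    rw [Subgroup.mem_pointwise_smul_iff_inv_smul_mem, map_mul, map_mul, map_inv, ← map_inv, MulAut.smul_def, MulAut.conj_apply,
      inv_inv] at h3
    have e6 : (π t)⁻¹ * (π t * π s * (π t)⁻¹) * π t = π s := by group
    rw [e6] at h3
    obtain ⟨s', hs', he⟩ := Subgroup.mem_map.1 h3
    rcases π_eq.1 he with h4 | h4
    · left; rwa [← h4]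
    · right
      rw [h4] at hs'
      exact hs'

theorem sl2_top [Fintype E] (Γ : Subgroup (S E)) {a₁ a₂ b : E} (h1 : u a₁ ∈ Γ) (h2 : u a₂ ∈ Γ) (hb : l b ∈ Γ) (ha0 : a₁ ≠ 0) (hb0 : b ≠ 0)
    (hind : ∀ c ∈ (⊥ : Subfield E), a₂ ≠ c * a₁) (hgen : ∀ K : Subfield E, (∀ a, u a ∈ Γ → a * b ∈ K) → K = ⊤) : Γ = ⊤ := by
  have key := sl2_gen Γ h1 h2 hb ha0 hb0 hind hgen
  have hw : w (1 : Eˣ) * w (1 : Eˣ) = (-1 : S E) := by
    apply ext2 <;> simp [mul00, mul01, mul10, mul11, neg00, neg01, neg10, neg11, one00, one01, one10, one11]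
  have hneg : (-1 : S E) ∈ Γ := by
    rcases key (w 1) with h | h
    · rw [← hw]
      exact Γ.mul_mem h h
    · have h3 := Γ.mul_mem h h
      rwa [neg_mul_neg, hw] at h3
  rw [eq_top_iff]
  intro s _
  rcases key s with h | h
  · exact h
  · have h3 := Γ.mul_mem hneg h
    rwa [neg_mul_neg, one_mul] at h3

end Cfsg.Agent.H21.GUv
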