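import Mathlib
import Cfsg.Agent.GUv1
import Cfsg.Agent.GUt10

set_option autoImplicit false

/-! linear groups over subfields, I -/

namespace Cfsg.Agent.H21.GUv

open Matrix Module Cfsg.Geo Cfsg.Agent.H29.Trv Cfsg.Agent.H21.GUt Cfsg.Agent.H5 Cfsg.Agent.H5.SL2

variable {ι : Type} [Fintype ι] [DecidableEq ι] {F : Type*} [Field F]

/-- rational vectors -/
def Rv (F₀ : Subfield F) (v : ι → F) : Prop := ∀ i, v i ∈ F₀

/-- rational functionals -/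
def Rf (F₀ : Subfield F) (φ : (ι → F) →ₗ[F] F) : Prop := ∀ i, φ (Pi.single i 1) ∈ F₀

variable {F₀ : Subfield F} {M : Subgroup (GL ι F)}

theorem Rf.apply {φ : (ι → F) →ₗ[F] F} (hφ : Rf F₀ φ) {v : ι → F} (hv : Rv F₀ v) : φ v ∈ F₀ := by
  have e : v = ∑ i, v i • (Pi.single i 1 : ι → F) := by
    conv_lhs => rw [pi_eq_sum_univ' v]
  rw [e, map_sum]
  apply F₀.sum_mem
  intro i _
  rw [map_smul, smul_eq_mul]
  exact F₀.mul_mem (hv i) (hφ i)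

theorem Rv_single (i : ι) : Rv F₀ (Pi.single i 1 : ι → F) := by
  intro j
  rw [Pi.single_apply]
  split_ifs
  · exact F₀.one_mem
  · exact F₀.zero_mem

theorem Rf_proj (i : ι) : Rf F₀ (LinearMap.proj i : (ι → F) →ₗ[F] F) := by
  intro j
  show (Pi.single j 1 : ι → F) i ∈ F₀
  rw [Pi.single_apply]
  split_ifs
  · exact F₀.one_mem
  · exact F₀.zero_mem

theorem Rf.add {φ ψ : (ι → F) →ₗ[F] F} (hφ : Rf F₀ φ) (hψ : Rf F₀ ψ) : Rf F₀ (φ + ψ) := fun i => F₀.add_mem (hφ i) (hψ i)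

theorem Rf.sub {φ ψ : (ι → F) →ₗ[F] F} (hφ : Rf F₀ φ) (hψ : Rf F₀ ψ) : Rf F₀ (φ - ψ) := fun i => F₀.sub_mem (hφ i) (hψ i)

theorem Rf.smul {φ : (ι → F) →ₗ[F] F} (hφ : Rf F₀ φ) {c : F} (hc : c ∈ F₀) : Rf F₀ (c • φ) := fun i => F₀.mul_mem hc (hφ i)

theorem Rv.add {v w : ι → F} (hv : Rv F₀ v) (hw : Rv F₀ w) : Rv F₀ (v + w) := fun i => F₀.add_mem (hv i) (hw i)

/-- elements acting on a plane -/
def Gam (M : Subgroup (GL ι F)) (v a : ι → F) (R K W : Submodule F (ι → F)) (hR : R ≤ K) (hv : v ∈ W) (ha : a ∈ W) (hRW : R ≤ W) :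
    Subgroup (S F) where
  carrier := {γ | ∃ h ∈ M, (h : Matrix ι ι F) *ᵥ v - (γ.1 0 0 • v + γ.1 1 0 • a) ∈ R ∧
    (h : Matrix ι ι F) *ᵥ a - (γ.1 0 1 • v + γ.1 1 1 • a) ∈ R ∧ (∀ x ∈ K, (h : Matrix ι ι F) *ᵥ x = x) ∧
    ∀ x, (h : Matrix ι ι F) *ᵥ x - x ∈ W}
  one_mem' := by
    refine ⟨1, M.one_mem, ?_, ?_, fun x _ => ?_, fun x => ?_⟩
    · rw [one00, one10, Units.val_one, one_mulVec, one_smul, zero_smul, add_zero, sub_self]
      exact R.zero_mem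
    · rw [one01, one11, Units.val_one, one_mulVec, one_smul, zero_smul, zero_add, sub_self]
      exact R.zero_mem
    · rw [Units.val_one, one_mulVec]
    · rw [Units.val_one, one_mulVec, sub_self]
      exact W.zero_mem
  mul_mem' := by
    rintro γ γ' ⟨h, hh, h1, h2, h3, h4⟩ ⟨h', hh', h1', h2', h3', h4'⟩
    refine ⟨h * h', M.mul_mem hh hh', ?_, ?_, fun x hx => ?_, fun x => ?_⟩
    · rw [Cfsg.Agent.H29.Trv.mul_apply]
      have e : (h : Matrix ι ι F) *ᵥ ((h' : Matrix ι ι F) *ᵥ v) - ((γ * γ').1 0 0 • v + (γ * γ').1 1 0 • a) =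
          ((h' : Matrix ι ι F) *ᵥ v - (γ'.1 0 0 • v + γ'.1 1 0 • a)) +
          γ'.1 0 0 • ((h : Matrix ι ι F) *ᵥ v - (γ.1 0 0 • v + γ.1 1 0 • a)) +
          γ'.1 1 0 • ((h : Matrix ι ι F) *ᵥ a - (γ.1 0 1 • v + γ.1 1 1 • a)) := by
        have e1 : (h : Matrix ι ι F) *ᵥ ((h' : Matrix ι ι F) *ᵥ v) =
            (h : Matrix ι ι F) *ᵥ ((h' : Matrix ι ι F) *ᵥ v - (γ'.1 0 0 • v + γ'.1 1 0 • a)) +
            γ'.1 0 0 • ((h : Matrix ι ι F) *ᵥ v) + γ'.1 1 0 • ((h : Matrix ι ι F) *ᵥ a) := by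
          rw [← mulVec_smul, ← mulVec_smul, ← mulVec_add, ← mulVec_add]
          congr 1
          abel
        rw [e1, h3 _ (hR h1'), mul00, mul10]
        module
      rw [e]
      exact R.add_mem (R.add_mem h1' (R.smul_mem _ h1)) (R.smul_mem _ h2)
    · rw [Cfsg.Agent.H29.Trv.mul_apply]
      have e : (h : Matrix ι ι F) *ᵥ ((h' : Matrix ι ι F) *ᵥ a) - ((γ * γ').1 0 1 • v + (γ * γ').1 1 1 • a) =
          ((h' : Matrix ι ι F) *ᵥ a - (γ'.1 0 1 • v + γ'.1 1 1 • a)) +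
          γ'.1 0 1 • ((h : Matrix ι ι F) *ᵥ v - (γ.1 0 0 • v + γ.1 1 0 • a)) +
          γ'.1 1 1 • ((h : Matrix ι ι F) *ᵥ a - (γ.1 0 1 • v + γ.1 1 1 • a)) := by
        have e1 : (h : Matrix ι ι F) *ᵥ ((h' : Matrix ι ι F) *ᵥ a) =
            (h : Matrix ι ι F) *ᵥ ((h' : Matrix ι ι F) *ᵥ a - (γ'.1 0 1 • v + γ'.1 1 1 • a)) +
            γ'.1 0 1 • ((h : Matrix ι ι F) *ᵥ v) + γ'.1 1 1 • ((h : Matrix ι ι F) *ᵥ a) := by
          rw [← mulVec_smul, ← mulVec_smul, ← mulVec_add, ← mulVec_add]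
          congr 1
          abel
        rw [e1, h3 _ (hR h2'), mul01, mul11]
        module
      rw [e]
      exact R.add_mem (R.add_mem h2' (R.smul_mem _ h1)) (R.smul_mem _ h2)
    · rw [Cfsg.Agent.H29.Trv.mul_apply, h3' x hx, h3 x hx]
    · rw [Cfsg.Agent.H29.Trv.mul_apply]
      have e : (h : Matrix ι ι F) *ᵥ ((h' : Matrix ι ι F) *ᵥ x) - x =
          ((h : Matrix ι ι F) *ᵥ ((h' : Matrix ι ι F) *ᵥ x) - (h' : Matrix ι ι F) *ᵥ x) + ((h' : Matrix ι ι F) *ᵥ x - x) := by abel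
      rw [e]
      exact W.add_mem (h4 _) (h4' _)
  inv_mem' := by
    rintro γ ⟨h, hh, h1, h2, h3, h4⟩
    have hi3 : ∀ x ∈ K, ((h⁻¹ : GL ι F) : Matrix ι ι F) *ᵥ x = x := by
      intro x hx
      conv_lhs => rw [← h3 x hx]
      rw [inv_mulVec_self]
    refine ⟨h⁻¹, M.inv_mem hh, ?_, ?_, hi3, fun x => ?_⟩
    · have e : ((h⁻¹ : GL ι F) : Matrix ι ι F) *ᵥ v - (γ⁻¹.1 0 0 • v + γ⁻¹.1 1 0 • a) =
          -(γ.1 1 1 • ((h : Matrix ι ι F) *ᵥ v - (γ.1 0 0 • v + γ.1 1 0 • a))) +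
          γ.1 1 0 • ((h : Matrix ι ι F) *ᵥ a - (γ.1 0 1 • v + γ.1 1 1 • a)) := by
        apply mulVec_inj (g := h)
        have hd := det_eq γ
        rw [mulVec_sub, self_inv_mulVec, mulVec_add, mulVec_add, mulVec_neg, mulVec_smul, mulVec_smul, mulVec_smul, mulVec_smul,
          h3 _ (hR h1), h3 _ (hR h2), inv00, inv10]
        have e2 : v = (γ.1 0 0 * γ.1 1 1 - γ.1 0 1 * γ.1 1 0) • v := by rw [hd, one_smul]
        nth_rewrite 1 [e2]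
        module
      rw [e]
      exact R.add_mem (R.neg_mem (R.smul_mem _ h1)) (R.smul_mem _ h2)
    · have e : ((h⁻¹ : GL ι F) : Matrix ι ι F) *ᵥ a - (γ⁻¹.1 0 1 • v + γ⁻¹.1 1 1 • a) =
          γ.1 0 1 • ((h : Matrix ι ι F) *ᵥ v - (γ.1 0 0 • v + γ.1 1 0 • a)) +
          -(γ.1 0 0 • ((h : Matrix ι ι F) *ᵥ a - (γ.1 0 1 • v + γ.1 1 1 • a))) := by
        apply mulVec_inj (g := h)
        have hd := det_eq γ
        rw [mulVec_sub, self_inv_mulVec, mulVec_add, mulVec_add, mulVec_neg, mulVec_smul, mulVec_smul, mulVec_smul, mulVec_smul,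
          h3 _ (hR h1), h3 _ (hR h2), inv01, inv11]
        have e2 : a = (γ.1 0 0 * γ.1 1 1 - γ.1 0 1 * γ.1 1 0) • a := by rw [hd, one_smul]
        nth_rewrite 1 [e2]
        module
      rw [e]
      exact R.add_mem (R.smul_mem _ h1) (R.neg_mem (R.smul_mem _ h2))
    · have e := h4 (((h⁻¹ : GL ι F) : Matrix ι ι F) *ᵥ x)
      rw [self_inv_mulVec] at e
      have e2 := W.neg_mem e
      rwa [neg_sub] at e2

theorem mem_Gam {v a : ι → F} {R K W : Submodule F (ι → F)} {hR : R ≤ K} {hv : v ∈ W} {ha : a ∈ W} {hRW : R ≤ W} {γ : S F} :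
    γ ∈ Gam M v a R K W hR hv ha hRW ↔ ∃ h ∈ M, (h : Matrix ι ι F) *ᵥ v - (γ.1 0 0 • v + γ.1 1 0 • a) ∈ R ∧
    (h : Matrix ι ι F) *ᵥ a - (γ.1 0 1 • v + γ.1 1 1 • a) ∈ R ∧ (∀ x ∈ K, (h : Matrix ι ι F) *ᵥ x = x) ∧
    ∀ x, (h : Matrix ι ι F) *ᵥ x - x ∈ W := Iff.rfl

theorem exists_fourth (hc : 4 ≤ Fintype.card ι) (i j k : ι) : ∃ l, l ≠ i ∧ l ≠ j ∧ l ≠ k := by
  classical
  have h1 : ({i, j, k} : Finset ι).card < Fintype.card ι := by
    have := Finset.card_le_three (a := i) (b := j) (c := k)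
    omega
  obtain ⟨l, -, hl⟩ := Finset.exists_mem_notMem_of_card_lt_card (s := {i, j, k}) (t := Finset.univ) (by rwa [Finset.card_univ])
  simp only [Finset.mem_insert, Finset.mem_singleton, not_or] at hl
  exact ⟨l, hl⟩

/-- data for the three generator argument -/
def PK (F₀ : Subfield F) (a : ι → F) (ψ : (ι → F) →ₗ[F] F) (v e₁ e₂ : ι → F) (φ₁ φ₂ : (ι → F) →ₗ[F] F) (l : ι) : Prop :=
  (Rv F₀ v ∧ Rv F₀ e₁ ∧ Rv F₀ e₂ ∧ Rf F₀ φ₁ ∧ Rf F₀ φ₂) ∧ (φ₁ v = 0 ∧ φ₂ v = 0 ∧ ψ v ≠ 0 ∧ φ₁ a ≠ 0 ∧ φ₂ a / φ₁ a ∉ F₀) ∧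
    (φ₁ e₁ = 1 ∧ φ₂ e₁ = 0 ∧ φ₁ e₂ = 0 ∧ φ₂ e₂ = 1) ∧ v l = 0 ∧ φ₁ (Pi.single l 1) = 0 ∧ φ₂ (Pi.single l 1) = 0

theorem pickA (hc : 4 ≤ Fintype.card ι) {a : ι → F} {ψ : (ι → F) →ₗ[F] F} {i j k : ι} (hij : i ≠ j) (hik : i ≠ k) (hjk : j ≠ k)
    (hi : a i ≠ 0) (hj : a j / a i ∉ F₀) (hk : ψ (Pi.single k 1) ≠ 0) :
    ∃ v e₁ e₂ φ₁ φ₂ l, PK F₀ a ψ v e₁ e₂ φ₁ φ₂ l := by
  obtain ⟨l, hl1, hl2, hl3⟩ := exists_fourth hc i j k
  refine ⟨Pi.single k 1, Pi.single i 1, Pi.single j 1, LinearMap.proj i, LinearMap.proj j, l,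
    ⟨Rv_single k, Rv_single i, Rv_single j, Rf_proj i, Rf_proj j⟩, ⟨?_, ?_, hk, hi, hj⟩, ⟨?_, ?_, ?_, ?_⟩, ?_, ?_, ?_⟩ <;>
    simp [Pi.single_apply, hij, hik, hjk, hij.symm, hik.symm, hjk.symm, hl1, hl2, hl3, hl1.symm, hl2.symm, hl3.symm]

theorem pick (hc : 4 ≤ Fintype.card ι) {a : ι → F} (ha0 : a ≠ 0) (ha : ∀ c : F, c ≠ 0 → ¬ Rv F₀ (c • a)) {ψ : (ι → F) →ₗ[F] F}
    (hψ : ψ ≠ 0) (hψa : ψ a = 0) : ∃ v e₁ e₂ φ₁ φ₂ l, PK F₀ a ψ v e₁ e₂ φ₁ φ₂ l := by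
  obtain ⟨i, hi⟩ : ∃ i, a i ≠ 0 := by
    by_contra hcon
    push Not at hcon
    exact ha0 (funext hcon)
  obtain ⟨j, hj⟩ : ∃ j, a j / a i ∉ F₀ := by
    by_contra hcon
    push Not at hcon
    apply ha (a i)⁻¹ (inv_ne_zero hi)
    intro j
    rw [Pi.smul_apply, smul_eq_mul, mul_comm, ← div_eq_mul_inv]
    exact hcon j
  have hij : i ≠ j := by
    rintro rfl
    apply hj
    rw [div_self hi]
    exact F₀.one_mem
  have hj0 : a j ≠ 0 := by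
    intro h0
    apply hj
    rw [h0, zero_div]
    exact F₀.zero_mem
  by_cases hA : ∃ k, k ≠ i ∧ k ≠ j ∧ ψ (Pi.single k 1) ≠ 0
  · obtain ⟨k, hki, hkj, hk⟩ := hA
    exact pickA hc hij hki.symm hkj.symm hi hj hk
  push Not at hA
  have hs : ∀ x : ι → F, ψ x = x i * ψ (Pi.single i 1) + x j * ψ (Pi.single j 1) := by
    intro x
    have e : x = ∑ i, x i • (Pi.single i 1 : ι → F) := by
      conv_lhs => rw [pi_eq_sum_univ' x]
    conv_lhs => rw [e]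
    rw [map_sum, ← Finset.add_sum_erase _ _ (Finset.mem_univ i), ← Finset.add_sum_erase _ _ (Finset.mem_erase.2 ⟨hij.symm, Finset.mem_univ j⟩),
      Finset.sum_eq_zero, add_zero, map_smul, map_smul, smul_eq_mul, smul_eq_mul]
    intro k hk
    rw [Finset.mem_erase, Finset.mem_erase] at hk
    rw [map_smul, hA k hk.2.1 hk.1, smul_zero]
  have h1 := hs a
  rw [hψa] at h1
  have hne : ψ (Pi.single i 1) ≠ 0 ∧ ψ (Pi.single j 1) ≠ 0 := by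
    have h2 : ψ (Pi.single i 1) = 0 ∨ ψ (Pi.single j 1) = 0 → False := by
      intro h2
      apply hψ
      apply LinearMap.ext
      intro x
      rw [hs x, LinearMap.zero_apply]
      rcases h2 with h2 | h2
      · rw [h2, mul_zero, zero_add] at h1
        rw [h2, (mul_eq_zero.1 h1.symm).resolve_left hj0]
        ring
      · rw [h2, mul_zero, add_zero] at h1
        rw [h2, (mul_eq_zero.1 h1.symm).resolve_left hi]
        ring
    exact ⟨fun h => h2 (Or.inl h), fun h => h2 (Or.inr h)⟩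
  obtain ⟨k, hki, hkj, -⟩ := exists_fourth hc i j i
  by_cases hk0 : a k = 0
  · obtain ⟨l, hl1, hl2, hl3⟩ := exists_fourth hc i j k
    refine ⟨Pi.single i 1 + Pi.single k 1, Pi.single i 1, Pi.single j 1, LinearMap.proj i - LinearMap.proj k, LinearMap.proj j, l,
      ⟨(Rv_single i).add (Rv_single k), Rv_single i, Rv_single j, (Rf_proj i).sub (Rf_proj k), Rf_proj j⟩, ⟨?_, ?_, ?_, ?_, ?_⟩,
      ⟨?_, ?_, ?_, ?_⟩, ?_, ?_, ?_⟩
    · simp [Pi.single_apply, hki, hki.symm]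
    · simp [Pi.single_apply, hij.symm, hkj.symm]
    · rw [map_add, hA k hki hkj, add_zero]
      exact hne.1
    · simp [hk0, hi]
    · simpa [hk0] using hj
    · simp [Pi.single_apply, hki]
    · simp [Pi.single_apply, hij.symm]
    · simp [Pi.single_apply, hij, hkj]
    · simp
    · simp [Pi.single_apply, hl1, hl3]
    · simp [Pi.single_apply, hl1.symm, hl3.symm]
    · simp [Pi.single_apply, hl2.symm]
  · by_cases hki' : a k / a i ∈ F₀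
    · have hkj' : a k / a j ∉ F₀ := by
        intro hm
        apply hj
        have h3 := F₀.div_mem hki' hm
        have e : a k / a i / (a k / a j) = a j / a i := by
          field_simp
        rwa [e] at h3
      exact pickA hc hkj.symm hij.symm hki hj0 hkj' hne.1
    · exact pickA hc hki.symm hij hkj hi hki' hne.2

end Cfsg.Agent.H21.GUv
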