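import Mathlib
import Cfsg.Agent.GUv2
import Cfsg.Agent.GUo1

set_option autoImplicit false

/-! linear groups over subfields, II -/

namespace Cfsg.Agent.H21.GUv

open Matrix Module Cfsg.Geo Cfsg.Agent.H29.Trv Cfsg.Agent.H21.GUt Cfsg.Agent.H5 Cfsg.Agent.H5.SL2

variable {ι : Type} [Fintype ι] [DecidableEq ι] {F : Type*} [Field F]
variable {F₀ : Subfield F} {M : Subgroup (GL ι F)}

/-- `M` contains the rational transvections -/
def RatM (F₀ : Subfield F) (M : Subgroup (GL ι F)) : Prop :=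
  ∀ (v : ι → F) (φ : (ι → F) →ₗ[F] F), φ v = 0 → Rv F₀ v → Rf F₀ φ → T M v φ

theorem u_mem_Gam {v a : ι → F} {R K W : Submodule F (ι → F)} {hR : R ≤ K} {hv : v ∈ W} {ha : a ∈ W} {hRW : R ≤ W}
    {φ : (ι → F) →ₗ[F] F} (hT : T M v φ) (hK : ∀ x ∈ K, φ x = 0) : u (φ a) ∈ Gam M v a R K W hR hv ha hRW := by
  obtain ⟨h0, h, hh, hx⟩ := hT
  rw [mem_Gam]
  refine ⟨h, hh, ?_, ?_, fun x hxK => ?_, fun x => ?_⟩
  · rw [hx, h0, u00, u10, zero_smul, one_smul, zero_smul, add_zero, sub_self]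
    exact R.zero_mem
  · rw [hx, u01, u11, one_smul, add_comm, sub_self]
    exact R.zero_mem
  · rw [hx, hK x hxK, zero_smul, add_zero]
  · rw [hx, add_sub_cancel_left]
    exact W.smul_mem _ hv

theorem l_mem_Gam {v a : ι → F} {R K W : Submodule F (ι → F)} {hR : R ≤ K} {hv : v ∈ W} {ha : a ∈ W} {hRW : R ≤ W}
    {ψ : (ι → F) →ₗ[F] F} (hT : T M a ψ) (hK : ∀ x ∈ K, ψ x = 0) : l (ψ v) ∈ Gam M v a R K W hR hv ha hRW := by
  obtain ⟨h0, h, hh, hx⟩ := hT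
  rw [mem_Gam]
  refine ⟨h, hh, ?_, ?_, fun x hxK => ?_, fun x => ?_⟩
  · rw [hx, l00, l10, one_smul, sub_self]
    exact R.zero_mem
  · rw [hx, h0, l01, l11, zero_smul, one_smul, zero_smul, add_zero, zero_add, sub_self]
    exact R.zero_mem
  · rw [hx, hK x hxK, zero_smul, add_zero]
  · rw [hx, add_sub_cancel_left]
    exact W.smul_mem _ ha

/-- a subfield containing `F₀` and one more element -/
theorem eq_top_of [Fintype F] {r : ℕ} (hr : r.Prime) (hcard : Fintype.card F = Nat.card F₀ ^ r) {K : Subfield F} (hle : F₀ ≤ K)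
    {x : F} (hx : x ∈ K) (hx0 : x ∉ F₀) : K = ⊤ := by
  rw [eq_top_iff]
  intro y _
  exact subfield_prime hle ⟨x, hx, hx0⟩ hr hcard y

theorem exists_dt [Fintype F] (hM : RatM F₀ M) {r : ℕ} (hr : r.Prime) (hcard : Fintype.card F = Nat.card F₀ ^ r)
    {a v e₁ e₂ : ι → F} {ψ φ₁ φ₂ : (ι → F) →ₗ[F] F} {l : ι} (hP : PK F₀ a ψ v e₁ e₂ φ₁ φ₂ l) (hT : T M a ψ) {t : F} (ht : t ≠ 0) :
    ∃ h ∈ M, (h : Matrix ι ι F) *ᵥ v = t • v ∧ (h : Matrix ι ι F) *ᵥ a = t⁻¹ • a ∧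
      (∀ x, φ₁ x = 0 → φ₂ x = 0 → ψ x = 0 → (h : Matrix ι ι F) *ᵥ x = x) ∧
      ∀ x, (h : Matrix ι ι F) *ᵥ x - x ∈ Submodule.span F {v, a} := by
  obtain ⟨⟨hv, -, -, hφ₁, hφ₂⟩, ⟨hv1, hv2, hvψ, ha1, ha2⟩, -, -⟩ := hP
  set K : Submodule F (ι → F) := (LinearMap.ker φ₁ ⊓ LinearMap.ker φ₂) ⊓ LinearMap.ker ψ with hK
  have hvW : v ∈ Submodule.span F {v, a} := Submodule.subset_span (by simp)
  have haW : a ∈ Submodule.span F {v, a} := Submodule.subset_span (by simp)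
  have k1 : ∀ x ∈ K, φ₁ x = 0 := fun x hx => hx.1.1
  have k2 : ∀ x ∈ K, φ₂ x = 0 := fun x hx => hx.1.2
  have k3 : ∀ x ∈ K, ψ x = 0 := fun x hx => hx.2
  obtain ⟨Γ, hΓ⟩ : ∃ Γ, Γ = Gam M v a ⊥ K (Submodule.span F {v, a}) bot_le hvW haW bot_le := ⟨_, rfl⟩
  have m1 : ∀ c ∈ F₀, SL2.u (c * φ₁ a) ∈ Γ := by
    intro c hc
    have h1 : T M v (c • φ₁) := hM v _ (by rw [LinearMap.smul_apply, hv1, smul_zero]) hv (hφ₁.smul hc)
    have h2 := u_mem_Gam (a := a) (R := ⊥) (K := K) (W := Submodule.span F {v, a}) (hR := bot_le) (hv := hvW) (ha := haW)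
      (hRW := bot_le) h1 (fun x hx => by rw [LinearMap.smul_apply, k1 x hx, smul_zero])
    rw [← hΓ, LinearMap.smul_apply, smul_eq_mul] at h2
    exact h2
  have m2 : SL2.u (φ₂ a) ∈ Γ := by
    rw [hΓ]
    exact u_mem_Gam (hM v _ hv2 hv hφ₂) k2
  have m3 : SL2.l (ψ v) ∈ Γ := by
    rw [hΓ]
    exact l_mem_Gam hT k3
  have m1' : SL2.u (φ₁ a) ∈ Γ := by
    have := m1 1 F₀.one_mem
    rwa [one_mul] at this
  have hbot : ∀ c ∈ (⊥ : Subfield F), c ∈ F₀ := fun c hc => (bot_le : (⊥ : Subfield F) ≤ F₀) hc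
  have htop : Γ = ⊤ := by
    apply sl2_top Γ m1' m2 m3 ha1 hvψ
    · intro c hc h0
      apply ha2
      rw [h0, mul_div_cancel_right₀ _ ha1]
      exact hbot c hc
    · intro K' hK'
      have h1 := hK' _ m1'
      have hne : φ₁ a * ψ v ≠ 0 := mul_ne_zero ha1 hvψ
      refine eq_top_of hr hcard (F₀ := F₀) (fun c hc => ?_) (x := φ₂ a / φ₁ a) ?_ ha2
      · have h2 := K'.div_mem (hK' _ (m1 c hc)) h1
        rwa [mul_assoc, mul_div_cancel_right₀ _ hne] at h2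
      · have h2 := K'.div_mem (hK' _ m2) h1
        rwa [mul_div_mul_right _ _ hvψ] at h2
  have hd : SL2.d (Units.mk0 t ht) ∈ Γ := by rw [htop]; trivial
  rw [hΓ, mem_Gam] at hd
  obtain ⟨h, hh, h1, h2, h3, h4⟩ := hd
  refine ⟨h, hh, ?_, ?_, fun x h1 h2 h3' => h3 x ⟨⟨h1, h2⟩, h3'⟩, h4⟩
  · rw [d00, d10, zero_smul, add_zero, Submodule.mem_bot, sub_eq_zero] at h1
    exact h1
  · rw [d01, d11, zero_smul, zero_add, Submodule.mem_bot, sub_eq_zero, Units.val_inv_eq_inv_val] at h2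
    exact h2

theorem sum_squares [Fintype F] {Q : F → Prop} (hadd : ∀ a b, Q a → Q b → Q (a + b)) (hsq : ∀ t, Q (t * t)) : ∀ s, Q s := by
  intro s
  by_cases hodd : Odd (Fintype.card F)
  · obtain ⟨x, y, hxy⟩ := Cfsg.Agent.H21.GUo.binary (c := s) hodd (one_ne_zero : (1 : F) ≠ 0) (one_ne_zero : (1 : F) ≠ 0)
    rw [one_mul, one_mul] at hxy
    rw [← hxy]
    exact hadd _ _ (hsq x) (hsq y)
  · have h2 : ringChar F = 2 := by
      by_contra h2
      apply hodd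
      have := FiniteField.odd_card_of_char_ne_two h2
      exact Nat.odd_iff.2 this
    obtain ⟨x, hx⟩ := FiniteField.isSquare_of_char_two h2 s
    rw [hx]
    exact hsq x

/-- the first irrational transvection with rational centre -/
theorem stage [Fintype F] (hM : RatM F₀ M) {r : ℕ} (hr : r.Prime) (hcard : Fintype.card F = Nat.card F₀ ^ r) (hc : 4 ≤ Fintype.card ι)
    {a : ι → F} {ψ : (ι → F) →ₗ[F] F} (hT : T M a ψ) (ha0 : a ≠ 0) (ha : ∀ c : F, c ≠ 0 → ¬ Rv F₀ (c • a)) (hψ : ψ ≠ 0) :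
    ∃ (v : ι → F) (φ : (ι → F) →ₗ[F] F) (x : F), Rv F₀ v ∧ v ≠ 0 ∧ Rf F₀ φ ∧ φ ≠ 0 ∧ φ v = 0 ∧ x ∉ F₀ ∧ T M v (x • φ) := by
  obtain ⟨v, e₁, e₂, φ₁, φ₂, l, hP⟩ := pick hc ha0 ha hψ hT.1
  have hdt := fun t ht => exists_dt hM hr hcard hP hT (t := t) ht
  obtain ⟨⟨hv, he₁, he₂, hφ₁, hφ₂⟩, ⟨hv1, hv2, hvψ, ha1, ha2⟩, ⟨h11, h12, h21, h22⟩, hvl, hl1, hl2⟩ := hP
  have hv0 : v ≠ 0 := by
    rintro rfl
    exact hvψ (map_zero ψ)
  set σ := φ₂ a / φ₁ a with hσ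
  let Q : F → Prop := fun s => ∃ x y : F, T M v (x • φ₁ + y • φ₂) ∧ x + y * σ = s
  have hQ : ∀ s, Q s := by
    apply sum_squares
    · rintro s s' ⟨x, y, h1, h2⟩ ⟨x', y', h1', h2'⟩
      refine ⟨x + x', y + y', ?_, by rw [← h2, ← h2']; ring⟩
      have := h1.add_right h1'
      have e : x • φ₁ + y • φ₂ + (x' • φ₁ + y' • φ₂) = (x + x') • φ₁ + (y + y') • φ₂ := by module
      rwa [e] at this
    · intro t
      by_cases ht : t = 0
      · refine ⟨0, 0, ?_, by rw [ht]; ring⟩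
        rw [zero_smul, zero_smul, add_zero]
        exact T_zero_right v
      obtain ⟨h, hh, hhv, hha, hhK, -⟩ := hdt t ht
      have h1 := (hM v _ hv1 hv hφ₁).conj hh
      rw [hhv, T_smul_iff] at h1
      have hiv : ((h⁻¹ : GL ι F) : Matrix ι ι F) *ᵥ v = t⁻¹ • v := by
        apply mulVec_inj (g := h)
        rw [self_inv_mulVec, mulVec_smul, hhv, smul_smul, inv_mul_cancel₀ ht, one_smul]
      have hia : ((h⁻¹ : GL ι F) : Matrix ι ι F) *ᵥ a = t • a := by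
        apply mulVec_inj (g := h)
        rw [self_inv_mulVec, mulVec_smul, hha, smul_smul, mul_inv_cancel₀ ht, one_smul]
      have hiK : ∀ x, φ₁ x = 0 → φ₂ x = 0 → ψ x = 0 → ((h⁻¹ : GL ι F) : Matrix ι ι F) *ᵥ x = x := by
        intro x hx1 hx2 hx3
        apply mulVec_inj (g := h)
        rw [self_inv_mulVec, hhK x hx1 hx2 hx3]
      have hsp : t • φ₁ ∘ₗ lin h⁻¹ ∈ Submodule.span F (Set.range ![φ₁, φ₂, ψ]) := by
        apply mem_span_of_iInf_ker_le_ker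
        intro x hx
        rw [Submodule.mem_iInf] at hx
        have hx1 : φ₁ x = 0 := hx 0
        have hx2 : φ₂ x = 0 := hx 1
        have hx3 : ψ x = 0 := hx 2
        rw [LinearMap.mem_ker, LinearMap.smul_apply, LinearMap.comp_apply, lin_apply, hiK x hx1 hx2 hx3, hx1, smul_zero]
      rw [Submodule.mem_span_range_iff_exists_fun] at hsp
      obtain ⟨c, hc⟩ := hsp
      rw [Fin.sum_univ_three] at hc
      simp only [Matrix.cons_val_zero, Matrix.cons_val_one, Matrix.cons_val_two, Matrix.cons_val] at hc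
      have hz : c 2 = 0 := by
        have := LinearMap.congr_fun hc v
        simp only [LinearMap.add_apply, LinearMap.smul_apply, LinearMap.comp_apply, lin_apply, hiv, hv1, hv2, smul_eq_mul, mul_zero,
          zero_add, map_smul] at this
        exact (mul_eq_zero.1 this).resolve_right hvψ
      rw [hz, zero_smul, add_zero] at hc
      refine ⟨c 0, c 1, ?_, ?_⟩
      · rw [hc]
        exact h1
      · have := LinearMap.congr_fun hc a
        simp only [LinearMap.add_apply, LinearMap.smul_apply, LinearMap.comp_apply, lin_apply, hia, smul_eq_mul, map_smul] at this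
        rw [hσ]
        field_simp
        linear_combination this
  by_cases hcase : ∃ s : F, ∀ x ∈ F₀, ∀ y ∈ F₀, x + y * σ ≠ s
  · obtain ⟨s, hs⟩ := hcase
    obtain ⟨x, y, hxy, hs2⟩ := hQ s
    by_cases hx : x ∈ F₀
    · have hy : y ∉ F₀ := fun hy => hs x hx y hy hs2
      refine ⟨v, φ₁, y, hv, hv0, hφ₁, ?_, hv1, hy, ?_⟩
      · rintro rfl
        exact ha1 rfl
      · have h1 := (hM e₂ φ₁ h21 he₂ hφ₁).comm hxy hv1
        simp only [LinearMap.add_apply, LinearMap.smul_apply, h21, h22, smul_eq_mul, mul_one, mul_zero, zero_add] at h1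
        exact h1
    · refine ⟨v, φ₂, x, hv, hv0, hφ₂, ?_, hv2, hx, ?_⟩
      · rintro rfl
        simp at h22
      · have h1 := (hM e₁ φ₂ h12 he₁ hφ₂).comm hxy hv2
        simp only [LinearMap.add_apply, LinearMap.smul_apply, h11, h12, smul_eq_mul, mul_one, mul_zero, add_zero] at h1
        exact h1
  · push Not at hcase
    obtain ⟨x, hx, y, hy, hxy⟩ := hcase (a l / φ₁ a)
    have hal : a l = x * φ₁ a + y * φ₂ a := by
      have e : a l / φ₁ a * φ₁ a = (x + y * σ) * φ₁ a := by rw [hxy]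
      rw [div_mul_cancel₀ _ ha1, add_mul, mul_assoc, hσ, div_mul_cancel₀ _ ha1] at e
      exact e
    set φ₃ : (ι → F) →ₗ[F] F := LinearMap.proj l - x • φ₁ - y • φ₂ with hφ₃d
    have hφ₃ : Rf F₀ φ₃ := ((Rf_proj l).sub (hφ₁.smul hx)).sub (hφ₂.smul hy)
    have h3v : φ₃ v = 0 := by simp [hφ₃d, hvl, hv1, hv2]
    have h3a : φ₃ a = 0 := by
      simp only [hφ₃d, LinearMap.sub_apply, LinearMap.smul_apply, LinearMap.proj_apply, smul_eq_mul, hal]
      ring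
    have h3l : φ₃ (Pi.single l 1) = 1 := by simp [hφ₃d, hl1, hl2]
    obtain ⟨t, ht⟩ : ∃ t : F, t ∉ F₀ := ⟨σ, ha2⟩
    have ht0 : t ≠ 0 := by
      rintro rfl
      exact ht F₀.zero_mem
    refine ⟨v, φ₃, t, hv, hv0, hφ₃, ?_, h3v, ht, ?_⟩
    · intro h0
      rw [h0, LinearMap.zero_apply] at h3l
      exact zero_ne_one h3l
    obtain ⟨h, hh, hhv, hha, -, hhW⟩ := hdt t ht0
    have h1 := (hM v _ h3v hv hφ₃).conj hh
    rw [hhv, T_smul_iff] at h1
    have e : φ₃ ∘ₗ lin h⁻¹ = φ₃ := by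
      apply LinearMap.ext
      intro z
      rw [LinearMap.comp_apply, lin_apply]
      have h2 := hhW (((h⁻¹ : GL ι F) : Matrix ι ι F) *ᵥ z)
      rw [self_inv_mulVec] at h2
      obtain ⟨s, s', hss⟩ := Submodule.mem_span_pair.1 h2
      have h3 := congrArg φ₃ hss
      rw [map_add, map_smul, map_smul, h3v, h3a, smul_zero, smul_zero, add_zero, map_sub] at h3
      exact (sub_eq_zero.1 h3.symm).symm
    rwa [e] at h1

end Cfsg.Agent.H21.GUv
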