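import Mathlib
import Cfsg.Agent.GUv3

set_option autoImplicit false

/-! linear groups over subfields, III -/

namespace Cfsg.Agent.H21.GUv

open Matrix Module Cfsg.Geo Cfsg.Agent.H29.Trv Cfsg.Agent.H21.GUt

variable {ι : Type} [Fintype ι] [DecidableEq ι] {F : Type*} [Field F]
variable {F₀ : Subfield F} {M : Subgroup (GL ι F)}

/-- elementary transvections -/
def EE (M : Subgroup (GL ι F)) (x : F) : Prop :=
  ∀ i j : ι, i ≠ j → T M (Pi.single i 1) (x • (LinearMap.proj j : (ι → F) →ₗ[F] F))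

theorem proj_single {i j : ι} (h : i ≠ j) : (LinearMap.proj j : (ι → F) →ₗ[F] F) (Pi.single i 1) = 0 := by
  simp [Pi.single_apply, h, h.symm]

theorem proj_self (i : ι) : (LinearMap.proj i : (ι → F) →ₗ[F] F) (Pi.single i 1) = 1 := by
  simp

theorem EE_rat (hM : RatM F₀ M) {x : F} (hx : x ∈ F₀) : EE M x := fun i j hij =>
  hM _ _ (by rw [LinearMap.smul_apply, proj_single hij, smul_zero]) (Rv_single i) ((Rf_proj j).smul hx)

theorem ruleA (hM : RatM F₀ M) {x : F} {i j k : ι} (hik : i ≠ k) (hjk : j ≠ k)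
    (h : T M (Pi.single i 1) (x • (LinearMap.proj j : (ι → F) →ₗ[F] F))) :
    T M (Pi.single i 1) (x • (LinearMap.proj k : (ι → F) →ₗ[F] F)) := by
  have h1 := (hM (Pi.single j 1) (LinearMap.proj k) (proj_single hjk) (Rv_single j) (Rf_proj k)).comm h (proj_single hik)
  rwa [LinearMap.smul_apply, proj_self, smul_eq_mul, mul_one] at h1

theorem ruleB (hM : RatM F₀ M) {x : F} {i j k : ι} (hkj : k ≠ j) (hki : k ≠ i)
    (h : T M (Pi.single i 1) (x • (LinearMap.proj j : (ι → F) →ₗ[F] F))) :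
    T M (Pi.single k 1) (x • (LinearMap.proj j : (ι → F) →ₗ[F] F)) := by
  have h1 := h.comm (hM (Pi.single k 1) (LinearMap.proj i) (proj_single hki) (Rv_single k) (Rf_proj i))
    (by rw [LinearMap.smul_apply, proj_single hkj, smul_zero])
  rwa [proj_self, one_smul] at h1

theorem ruleA' (hM : RatM F₀ M) {x : F} {i j k : ι} (hik : i ≠ k)
    (h : T M (Pi.single i 1) (x • (LinearMap.proj j : (ι → F) →ₗ[F] F))) :
    T M (Pi.single i 1) (x • (LinearMap.proj k : (ι → F) →ₗ[F] F)) := by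
  by_cases hjk : j = k
  · rwa [← hjk]
  · exact ruleA hM hik hjk h

theorem ruleB' (hM : RatM F₀ M) {x : F} {i j k : ι} (hkj : k ≠ j)
    (h : T M (Pi.single i 1) (x • (LinearMap.proj j : (ι → F) →ₗ[F] F))) :
    T M (Pi.single k 1) (x • (LinearMap.proj j : (ι → F) →ₗ[F] F)) := by
  by_cases hki : k = i
  · rwa [hki]
  · exact ruleB hM hkj hki h

theorem EE_of (hM : RatM F₀ M) (hc : 4 ≤ Fintype.card ι) {x : F} {i j : ι}
    (h : T M (Pi.single i 1) (x • (LinearMap.proj j : (ι → F) →ₗ[F] F))) : EE M x := by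
  intro a b hab
  obtain ⟨m, hm1, hm2, -⟩ := exists_fourth hc i a a
  exact ruleA' hM hab (ruleB' hM hm2.symm (ruleA' hM hm1.symm h))

theorem EE_of_stage (hM : RatM F₀ M) (hc : 4 ≤ Fintype.card ι) {v : ι → F} {φ : (ι → F) →ₗ[F] F} {x : F} (hv : Rv F₀ v) (hv0 : v ≠ 0)
    (hφ : Rf F₀ φ) (hφ0 : φ ≠ 0) (hφv : φ v = 0) (hT : T M v (x • φ)) : EE M x := by
  obtain ⟨i, hi⟩ : ∃ i, v i ≠ 0 := by
    by_contra hcon
    push Not at hcon
    exact hv0 (funext hcon)
  obtain ⟨j, hji, hj⟩ : ∃ j, j ≠ i ∧ φ (Pi.single j 1) ≠ 0 := by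
    by_contra hcon
    push Not at hcon
    have hs : ∀ x : ι → F, φ x = x i * φ (Pi.single i 1) := by
      intro x
      have e : x = ∑ i, x i • (Pi.single i 1 : ι → F) := by
        conv_lhs => rw [pi_eq_sum_univ' x]
      conv_lhs => rw [e]
      rw [map_sum, ← Finset.add_sum_erase _ _ (Finset.mem_univ i), Finset.sum_eq_zero, add_zero, map_smul, smul_eq_mul]
      intro k hk
      rw [Finset.mem_erase] at hk
      rw [map_smul, hcon k hk.1, smul_zero]
    apply hφ0
    apply LinearMap.ext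
    intro y
    have h1 := hs v
    rw [hφv] at h1
    rw [hs y, (mul_eq_zero.1 h1.symm).resolve_left hi, mul_zero, LinearMap.zero_apply]
  obtain ⟨k, hki, hkj, -⟩ := exists_fourth hc i j j
  obtain ⟨l, hl1, hl2, hl3⟩ := exists_fourth hc i j k
  -- step 1
  set s := v k / v i with hs
  have hsF : s ∈ F₀ := F₀.div_mem (hv k) (hv i)
  set ψ : (ι → F) →ₗ[F] F := LinearMap.proj k - s • LinearMap.proj i with hψd
  have hψ : Rf F₀ ψ := (Rf_proj k).sub ((Rf_proj i).smul hsF)
  have hψv : ψ v = 0 := by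
    rw [hψd, LinearMap.sub_apply, LinearMap.smul_apply, LinearMap.proj_apply, LinearMap.proj_apply, hs, smul_eq_mul, div_mul_cancel₀ _ hi,
      sub_self]
  have hψj : ψ (Pi.single j 1) = 0 := by
    rw [hψd, LinearMap.sub_apply, LinearMap.smul_apply, proj_single hkj.symm, proj_single hji, smul_zero, sub_zero]
  have hψk : ψ (Pi.single k 1) = 1 := by
    rw [hψd, LinearMap.sub_apply, LinearMap.smul_apply, proj_self, proj_single hki, smul_zero, sub_zero]
  have hψl : ψ (Pi.single l 1) = 0 := by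
    rw [hψd, LinearMap.sub_apply, LinearMap.smul_apply, proj_single hl3, proj_single hl1, smul_zero, sub_zero]
  have h1 : T M v (x • ψ) := by
    have h0 := (hM ((φ (Pi.single j 1))⁻¹ • Pi.single j 1) ψ (by rw [map_smul, hψj, smul_zero])
      (fun a => F₀.mul_mem (F₀.inv_mem (hφ j)) (Rv_single j a)) hψ).comm hT hψv
    rwa [LinearMap.smul_apply, map_smul, smul_eq_mul, smul_eq_mul, inv_mul_cancel₀ hj, mul_one] at h0
  -- step 2
  have h2 : T M (Pi.single j 1) (x • ψ) := by
    have h0 := h1.comm (hM (Pi.single j 1) ((v i)⁻¹ • LinearMap.proj i) (by rw [LinearMap.smul_apply, proj_single hji, smul_zero])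
      (Rv_single j) ((Rf_proj i).smul (F₀.inv_mem (hv i)))) (by rw [LinearMap.smul_apply, hψj, smul_zero])
    rwa [LinearMap.smul_apply, LinearMap.proj_apply, smul_eq_mul, inv_mul_cancel₀ hi, one_smul] at h0
  -- step 3
  have h3 : T M (Pi.single j 1) (x • (LinearMap.proj l : (ι → F) →ₗ[F] F)) := by
    have h0 := (hM (Pi.single k 1) (LinearMap.proj l) (proj_single hl3.symm) (Rv_single k) (Rf_proj l)).comm h2 (proj_single hl2.symm)
    rwa [LinearMap.smul_apply, hψk, smul_eq_mul, mul_one] at h0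
  exact EE_of hM hc h3

theorem EE.add {x y : F} (hx : EE M x) (hy : EE M y) : EE M (x + y) := fun i j hij => by
  rw [add_smul]
  exact (hx i j hij).add_right (hy i j hij)

theorem EE.neg {x : F} (hx : EE M x) : EE M (-x) := fun i j hij => by
  have e : (-x) • (LinearMap.proj j : (ι → F) →ₗ[F] F) = -(x • (LinearMap.proj j : (ι → F) →ₗ[F] F)) :=
    LinearMap.ext fun y => by simp
  rw [e]
  exact (hx i j hij).neg

theorem EE.mul (hM : RatM F₀ M) (hc : 4 ≤ Fintype.card ι) {x y : F} (hx : EE M x) (hy : EE M y) : EE M (x * y) := by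
  haveI : Nontrivial ι := Fintype.one_lt_card_iff_nontrivial.1 (by omega)
  obtain ⟨a, b, hab⟩ := exists_pair_ne ι
  obtain ⟨c, hca, hcb, -⟩ := exists_fourth hc a b b
  have h1 := (hx b a hab.symm).comm (hy c b hcb) (by rw [LinearMap.smul_apply, proj_single hca, smul_zero])
  rw [LinearMap.smul_apply, proj_self, smul_smul, smul_eq_mul, mul_one, mul_comm] at h1
  exact EE_of hM hc h1

theorem SL_le_of_EE (h : ∀ x, EE M x) : specialLinear ι F ≤ M := by
  apply SL_le_of_ctr
  have hi : ∀ i : ι, (Pi.single i 1 : ι → F) ∈ ctr M := by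
    intro i φ hφ
    have e : φ = ∑ j, φ (Pi.single j 1) • (LinearMap.proj j : (ι → F) →ₗ[F] F) := by
      apply LinearMap.ext
      intro y
      have e : y = ∑ i, y i • (Pi.single i 1 : ι → F) := by
        conv_lhs => rw [pi_eq_sum_univ' y]
      conv_lhs => rw [e]
      rw [map_sum, LinearMap.sum_apply]
      apply Finset.sum_congr rfl
      intro j _
      rw [map_smul, LinearMap.smul_apply, LinearMap.proj_apply, smul_eq_mul, smul_eq_mul, mul_comm]
    rw [e]
    refine Finset.sum_induction _ (fun χ => T M (Pi.single i 1) χ) (fun _ _ ha hb => ha.add_right hb) (T_zero_right _) (fun j _ => ?_)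
    by_cases hij : i = j
    · rw [← hij, hφ, zero_smul]
      exact T_zero_right _
    · exact h _ i j hij
  rw [eq_top_iff]
  intro y _
  have e : y = ∑ i, y i • (Pi.single i 1 : ι → F) := by
    conv_lhs => rw [pi_eq_sum_univ' y]
  rw [e]
  exact Submodule.sum_mem _ (fun i _ => Submodule.smul_mem _ _ (hi i))

theorem SL_le [Fintype F] (hM : RatM F₀ M) {r : ℕ} (hr : r.Prime) (hcard : Fintype.card F = Nat.card F₀ ^ r) (hc : 4 ≤ Fintype.card ι)
    {x : F} (hx : x ∉ F₀) (hE : EE M x) : specialLinear ι F ≤ M := by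
  obtain ⟨K, hK⟩ := exists_subfield (B := {x : F | EE M x}) (EE_rat hM F₀.one_mem) (EE_rat hM F₀.zero_mem) (fun a ha b hb => EE.add ha hb)
    (fun a ha => EE.neg ha) (fun a ha b hb => EE.mul hM hc ha hb)
  apply SL_le_of_EE
  intro y
  exact (hK y).1 (subfield_prime (F₀ := F₀) (fun c hc => (hK c).2 (EE_rat hM hc)) ⟨x, (hK x).2 hE, hx⟩ hr hcard y)

theorem core [Fintype F] {r : ℕ} (hr : r.Prime) (hcard : Fintype.card F = Nat.card F₀ ^ r) (hc : 4 ≤ Fintype.card ι)
    (hN : subfieldSubgroup F₀ (1 : GL ι F) ⊓ specialLinear ι F ≤ M) {g : GL ι F} (hg : g ∈ M) (hgN : g ∉ subfieldSubgroup F₀ (1 : GL ι F)) :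
    specialLinear ι F ≤ M := by
  have hRt : ∀ x : ι → F, Rt F₀ (1 : GL ι F) x ↔ Rv F₀ x := by
    intro x
    constructor
    · intro h i
      have := h i
      rwa [inv_one, Units.val_one, one_mulVec] at this
    · intro h i
      rw [inv_one, Units.val_one, one_mulVec]
      exact h i
  have hM : RatM F₀ M := by
    intro v φ h0 hv hφ
    rw [← trv_mem_iff h0]
    apply hN
    exact ⟨(trv_mem_iff h0).2 (T_sub h0 ((hRt v).2 hv) (fun x hx => hφ.apply ((hRt x).1 hx))), trv_mem_SL v φ h0⟩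
  obtain ⟨v', hv', hv'0, hirr⟩ := exists_irr hgN
  have hv'R := (hRt v').1 hv'
  obtain ⟨i, hi⟩ : ∃ i, v' i ≠ 0 := by
    by_contra hcon
    push Not at hcon
    exact hv'0 (funext hcon)
  obtain ⟨k, hki, -⟩ := exists_fourth hc i i i
  set φ : (ι → F) →ₗ[F] F := LinearMap.proj k - (v' k / v' i) • LinearMap.proj i with hφd
  have hφ : Rf F₀ φ := (Rf_proj k).sub ((Rf_proj i).smul (F₀.div_mem (hv'R k) (hv'R i)))
  have hφv : φ v' = 0 := by
    rw [hφd, LinearMap.sub_apply, LinearMap.smul_apply, LinearMap.proj_apply, LinearMap.proj_apply, smul_eq_mul, div_mul_cancel₀ _ hi,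
      sub_self]
  have hφk : φ (Pi.single k 1) = 1 := by
    rw [hφd, LinearMap.sub_apply, LinearMap.smul_apply, proj_self, proj_single hki, smul_zero, sub_zero]
  have h1 := (hM v' φ hφv hv'R hφ).conj hg
  obtain ⟨v, χ, x, hv, hv0, hχ, hχ0, hχv, hx, hT⟩ := stage hM hr hcard hc h1
    (fun h0 => hv'0 (mulVec_inj (g := g) (by rw [h0, mulVec_zero]))) (fun c hc0 hR => hirr c hc0 ((hRt _).2 hR)) (by
      intro h0
      have h2 := LinearMap.congr_fun h0 ((g : Matrix ι ι F) *ᵥ Pi.single k 1)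
      rw [LinearMap.comp_apply, lin_apply, inv_mulVec_self, hφk, LinearMap.zero_apply] at h2
      exact one_ne_zero h2)
  exact SL_le hM hr hcard hc hx (EE_of_stage hM hc hv hv0 hχ hχ0 hχv hT)

end Cfsg.Agent.H21.GUv
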