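import Mathlib
import Cfsg.Agent.GUr1
import Cfsg.Agent.GUt10

set_option autoImplicit false

/-! unitary groups over subfields of odd index, I -/

namespace Cfsg.Agent.H21.GUw

open Matrix Module Cfsg.Geo Cfsg.Agent.H29.Trv Cfsg.Agent.H29.Fm Cfsg.Agent.H21.GUp Cfsg.Agent.H21.GUt

variable {F : Type*} [Field F] {n : ℕ} {F₀ : Subfield F} {P : GL (Fin n) F}

open Cfsg.Agent.H21.GUr (Ph Ph_add Ph_smul Ph_zero Ph_neg Ph_sub Ph_inj Ph_ne rt_iff Ph_rt)

/-- the context -/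
structure UX (τ : F ≃+* F) (f : (Fin n → F) → (Fin n → F) → F) (F₀ : Subfield F) (P : GL (Fin n) F) : Prop extends UF τ f where
  stab : ∀ x ∈ F₀, τ x ∈ F₀
  mv : ∃ x ∈ F₀, τ x ≠ x
  rat : ∀ x y : Fin n → F₀, f (Ph F₀ P x) (Ph F₀ P y) ∈ F₀

variable {τ : F ≃+* F} {f : (Fin n → F) → (Fin n → F) → F}

/-- the restricted automorphism -/
def tau0 (h : UX τ f F₀ P) : F₀ ≃+* F₀ where
  toFun x := ⟨τ x, h.stab x x.2⟩
  invFun x := ⟨τ x, h.stab x x.2⟩
  left_inv x := Subtype.ext (h.inv x)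
  right_inv x := Subtype.ext (h.inv x)
  map_mul' x y := Subtype.ext (map_mul τ _ _)
  map_add' x y := Subtype.ext (map_add τ _ _)

theorem tau0_coe (h : UX τ f F₀ P) (x : F₀) : (tau0 h x : F) = τ x := rfl

/-- the rational form -/
def f0 (h : UX τ f F₀ P) (x y : Fin n → F₀) : F₀ := ⟨f (Ph F₀ P x) (Ph F₀ P y), h.rat x y⟩

theorem f0_coe (h : UX τ f F₀ P) (x y : Fin n → F₀) : (f0 h x y : F) = f (Ph F₀ P x) (Ph F₀ P y) := rfl

theorem UX.uF [Fintype F] (h : UX τ f F₀ P) : UF (tau0 h) (f0 h) where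
  eps := Or.inl rfl
  inv := fun a => Subtype.ext (h.inv a)
  add_left := fun x y v => Subtype.ext (by
    rw [f0_coe, Ph_add, h.add_left]; rfl)
  smul_left := fun c x v => Subtype.ext (by
    rw [f0_coe, Ph_smul, h.smul_left]; rfl)
  herm := fun u v => Subtype.ext (by
    rw [one_mul]
    exact (h.toUF.sw (Ph F₀ P v) (Ph F₀ P u)).symm)
  nd := by
    intro v hv
    by_contra hcon
    push Not at hcon
    obtain ⟨x, hx⟩ := h.nd _ (Ph_ne (P := P) hv)
    apply hx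
    have htop := rat_span (W := LinearMap.ker (fr h.toUF.LL (Ph F₀ P v))) P F₀ (by
      intro y hy
      obtain ⟨z, rfl⟩ := rt_iff.1 hy
      exact congrArg Subtype.val (hcon z))
    have : x ∈ LinearMap.ker (fr h.toUF.LL (Ph F₀ P v)) := by rw [htop]; trivial
    exact this
  ne := by
    intro h0
    obtain ⟨x, hx, hxx⟩ := h.mv
    apply hxx
    have := congrArg (fun σ : F₀ ≃+* F₀ => (σ ⟨x, hx⟩ : F)) h0
    exact this

theorem UX.sg (h : UX τ f F₀ P) : SG τ 1 f where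
  toLL := h.toUF.LL
  eps := Or.inl rfl
  inv := h.inv
  sr := fun c v x => h.toSFm.smul_right c v x
  herm := h.herm

/-- the isotropic rational vectors span -/
theorem span_all [Fintype F] (h : UX τ f F₀ P) (hn : 2 ≤ n) {W : Submodule F₀ (Fin n → F₀)} (hW : ∀ v, f0 h v v = 0 → v ∈ W) :
    W = ⊤ := by
  haveI : Fintype F₀ := Fintype.ofFinite _
  have o := h.uF
  obtain ⟨x, -, hx0, hxx⟩ := o.exists_iso (U := ⊤) (by rw [finrank_top, Module.finrank_fintype_fun_eq_card, Fintype.card_fin]; exact hn)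
  obtain ⟨z, hz⟩ := o.nd x hx0
  rw [eq_top_iff]
  exact o.span_iso (U := ⊤) (W := W) (x := x) (z₀ := z) trivial hxx trivial hz (fun v _ hv => hW v hv)

/-- adjusting -/
theorem exists_comb [Fintype F] (h : UX τ f F₀ P) {x y : Fin n → F₀} (hx : f0 h x x = 0) (hy : f0 h y y = 0) :
    ∃ s : F₀, s ≠ 0 ∧ f0 h (x + s • y) (x + s • y) = 0 := by
  haveI : Fintype F₀ := Fintype.ofFinite _
  have o := h.uF
  obtain ⟨κ, hκ, hκ2⟩ := o.tz
  obtain ⟨t, ht0, ht⟩ : ∃ t : F₀, t ≠ 0 ∧ t * f0 h y x + tau0 h t * f0 h x y = 0 := by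
    by_cases h3 : f0 h y x = 0
    · exact ⟨1, one_ne_zero, by rw [h3, o.zero_symm h3]; ring⟩
    · refine ⟨κ / f0 h y x, div_ne_zero hκ h3, ?_⟩
      rw [map_div₀, o.sw, div_mul_cancel₀ _ h3, div_mul_cancel₀ _ (o.ne_symm h3), hκ2]
  refine ⟨t, ht0, ?_⟩
  rw [o.add_left, o.toSFm.add_right, o.toSFm.add_right, o.smul_left, o.smul_left, o.toSFm.smul_right, o.toSFm.smul_right, hx, hy]
  linear_combination ht

/-- an isotropic rational vector with irrational image -/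
theorem exists_irr_iso [Fintype F] (h : UX τ f F₀ P) (hn : 4 ≤ n) {g : GL (Fin n) F} (hg : g ∉ subfieldSubgroup F₀ P) :
    ∃ x : Fin n → F₀, f0 h x x = 0 ∧ x ≠ 0 ∧ ∀ c : F, c ≠ 0 → ¬ Rt F₀ P (c • ((g : Matrix (Fin n) (Fin n) F) *ᵥ Ph F₀ P x)) := by
  haveI : Fintype F₀ := Fintype.ofFinite _
  have o := h.uF
  by_contra hcon
  push Not at hcon
  apply hg
  obtain ⟨x₀, -, hx₀0, hx₀⟩ := o.exists_iso (U := ⊤) (by rw [finrank_top, Module.finrank_fintype_fun_eq_card, Fintype.card_fin]; omega)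
  obtain ⟨c₀, hc₀, hR₀⟩ := hcon x₀ hx₀ hx₀0
  have hiso : ∀ x, f0 h x x = 0 → Rt F₀ P (c₀ • ((g : Matrix (Fin n) (Fin n) F) *ᵥ Ph F₀ P x)) := by
    intro x hx
    by_cases hmem : x ∈ Submodule.span F₀ {x₀}
    · obtain ⟨t, rfl⟩ := Submodule.mem_span_singleton.1 hmem
      rw [Ph_smul, mulVec_smul, smul_comm]
      exact hR₀.smul t.2
    have hx0 : x ≠ 0 := by
      rintro rfl
      exact hmem (Submodule.zero_mem _)
    obtain ⟨s, hs0, hs⟩ := exists_comb h hx hx₀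
    have hne : x + s • x₀ ≠ 0 := by
      intro h0
      apply hmem
      have : x = (-s) • x₀ := by rw [neg_smul]; exact eq_neg_of_add_eq_zero_left h0
      rw [this]
      exact Submodule.smul_mem _ _ (Submodule.mem_span_singleton_self _)
    obtain ⟨c₁, hc₁, hR₁⟩ := hcon x hx hx0
    obtain ⟨c₃, hc₃, hR₃⟩ := hcon _ hs hne
    have hs' : (s : F) ≠ 0 := fun h0 => hs0 (Subtype.ext h0)
    have e1 : c₃ • ((g : Matrix (Fin n) (Fin n) F) *ᵥ Ph F₀ P (x + s • x₀)) =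
        (c₃ / c₁) • (c₁ • ((g : Matrix (Fin n) (Fin n) F) *ᵥ Ph F₀ P x)) +
        (c₃ * s / c₀) • (c₀ • ((g : Matrix (Fin n) (Fin n) F) *ᵥ Ph F₀ P x₀)) := by
      rw [smul_smul, smul_smul, div_mul_cancel₀ _ hc₁, div_mul_cancel₀ _ hc₀, Ph_add, Ph_smul, mulVec_add, mulVec_smul]
      module
    have hns : ∀ a b : Fin n → F₀, a ∉ Submodule.span F₀ {b} → ∀ c d : F, c ≠ 0 →
        Rt F₀ P (c • ((g : Matrix (Fin n) (Fin n) F) *ᵥ Ph F₀ P a)) → Rt F₀ P (d • ((g : Matrix (Fin n) (Fin n) F) *ᵥ Ph F₀ P b)) →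
        c • ((g : Matrix (Fin n) (Fin n) F) *ᵥ Ph F₀ P a) ∉ Submodule.span F {d • ((g : Matrix (Fin n) (Fin n) F) *ᵥ Ph F₀ P b)} := by
      intro a b hab c d hc hRa hRb hm
      obtain ⟨t, ht⟩ := Submodule.mem_span_singleton.1 hm
      rw [smul_smul, ← mulVec_smul, ← mulVec_smul] at ht
      have h1 := mulVec_inj ht
      have h2 : Ph F₀ P a = (c⁻¹ * (t * d)) • Ph F₀ P b := by
        rw [← smul_smul, h1, smul_smul, inv_mul_cancel₀ hc, one_smul]
      apply hab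
      have ha0 : a ≠ 0 := by
        rintro rfl
        exact hab (Submodule.zero_mem _)
      obtain ⟨i, hi⟩ : ∃ i, b i ≠ 0 := by
        by_contra hb
        push Not at hb
        have hb0 : b = 0 := funext hb
        rw [hb0, Ph_zero, smul_zero] at h2
        exact Ph_ne (P := P) ha0 h2
      have h3 : ∀ j, (a j : F) = (c⁻¹ * (t * d)) * b j := by
        have h4 := congrArg (fun z => ((P⁻¹ : GL (Fin n) F) : Matrix (Fin n) (Fin n) F) *ᵥ z) h2
        simp only [Cfsg.Agent.H21.GUr.Ph, mulVec_smul, inv_mulVec_self] at h4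
        intro j
        exact congrFun h4 j
      have hi' : (b i : F) ≠ 0 := fun h0 => hi (Subtype.ext h0)
      have h5 : c⁻¹ * (t * d) ∈ F₀ := by
        have := F₀.div_mem (a i).2 (b i).2
        rwa [h3 i, mul_div_cancel_right₀ _ hi'] at this
      refine Submodule.mem_span_singleton.2 ⟨⟨_, h5⟩, ?_⟩
      funext j
      exact Subtype.ext (h3 j).symm
    have hmem' : x₀ ∉ Submodule.span F₀ {x} := by
      intro hm
      obtain ⟨t, ht⟩ := Submodule.mem_span_singleton.1 hm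
      have ht0 : t ≠ 0 := by
        rintro rfl
        rw [zero_smul] at ht
        exact hx₀0 ht.symm
      apply hmem
      refine Submodule.mem_span_singleton.2 ⟨t⁻¹, ?_⟩
      rw [← ht, smul_smul, inv_mul_cancel₀ ht0, one_smul]
    have r1 := Rt.ratio hR₃ hR₁ hR₀ e1 (hns x x₀ hmem c₁ c₀ hc₁ hR₁ hR₀)
    have r2 := Rt.ratio hR₃ hR₀ hR₁ (e1.trans (add_comm _ _)) (hns x₀ x hmem' c₀ c₁ hc₀ hR₀ hR₁)
    have r3 : c₀ / c₁ ∈ F₀ := by
      have h6 := F₀.div_mem (F₀.mul_mem r1 s.2) r2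
      have e2 : c₃ / c₁ * s / (c₃ * s / c₀) = c₀ / c₁ := by
        field_simp
      rwa [e2] at h6
    have h7 := hR₁.smul r3
    rwa [smul_smul, div_mul_cancel₀ _ hc₁] at h7
  apply mem_subfield_of hc₀
  intro i
  obtain ⟨y, hy⟩ := rt_iff.1 (Rt.basis (F₀ := F₀) (P := P) i)
  rw [hy]
  let W : Submodule F₀ (Fin n → F₀) :=
    { carrier := {x | Rt F₀ P (c₀ • ((g : Matrix (Fin n) (Fin n) F) *ᵥ Ph F₀ P x))}
      zero_mem' := by
        show Rt F₀ P (c₀ • ((g : Matrix (Fin n) (Fin n) F) *ᵥ Ph F₀ P 0))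
        rw [Ph_zero, mulVec_zero, smul_zero]
        exact Rt.zero
      add_mem' := fun {a b} ha hb => by
        show Rt F₀ P (c₀ • ((g : Matrix (Fin n) (Fin n) F) *ᵥ Ph F₀ P (a + b)))
        rw [Ph_add, mulVec_add, smul_add]
        exact Rt.add ha hb
      smul_mem' := fun c a ha => by
        show Rt F₀ P (c₀ • ((g : Matrix (Fin n) (Fin n) F) *ᵥ Ph F₀ P (c • a)))
        rw [Ph_smul, mulVec_smul, smul_comm]
        exact Rt.smul ha c.2 }
  have hW : W = ⊤ := span_all h (by omega) hiso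
  have : y ∈ W := by rw [hW]; trivial
  exact this

end Cfsg.Agent.H21.GUw
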