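import Mathlib
import Cfsg.Agent.GUw1

set_option autoImplicit false

/-! unitary groups over subfields of odd index, II -/

namespace Cfsg.Agent.H21.GUw

open Matrix Module Cfsg.Geo Cfsg.Agent.H29.Trv Cfsg.Agent.H29.Fm Cfsg.Agent.H21.GUp Cfsg.Agent.H21.GUt

variable {F : Type*} [Field F] {n : ℕ} {F₀ : Subfield F} {P : GL (Fin n) F}

open Cfsg.Agent.H21.GUr (Ph Ph_add Ph_smul Ph_zero Ph_neg Ph_sub Ph_inj Ph_ne rt_iff Ph_rt)

variable {τ : F ≃+* F} {f : (Fin n → F) → (Fin n → F) → F}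

theorem span2 {K : Type*} [Field K] (a b : Fin n → K) : finrank K (Submodule.span K ({a, b} : Set (Fin n → K))) ≤ 2 := by
  classical
  have := finrank_span_finset_le_card (R := K) ({a, b} : Finset (Fin n → K))
  rw [Finset.coe_pair] at this
  exact this.trans Finset.card_le_two

/-- a hyperbolic pair in the perp of a hyperbolic plane -/
theorem hyp_perp [Fintype F] {σ : F ≃+* F} {g : (Fin n → F) → (Fin n → F) → F} (o : UF σ g) (hn : 4 ≤ n) {v w : Fin n → F}
    (hv : g v v = 0) (hw : g w w = 0) (hvw : g v w ≠ 0) :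
    ∃ z z', g z z = 0 ∧ g z' z' = 0 ∧ g z z' = 1 ∧ g z v = 0 ∧ g z w = 0 ∧ g z' v = 0 ∧ g z' w = 0 := by
  have hwv := o.ne_symm hvw
  have h2 : 2 ≤ finrank F (perp o.toSFm (Submodule.span F {v, w})) := by
    have h3 := finrank_perp o.toSFm (Submodule.span F {v, w})
    have h4 := span2 (K := F) v w
    omega
  obtain ⟨z, hz, hz0, hzz⟩ := o.exists_iso h2
  have hzv : g z v = 0 := hz v (Submodule.subset_span (by simp))
  have hzw : g z w = 0 := hz w (Submodule.subset_span (by simp))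
  have hzns : z ∉ Submodule.span F {v, w} := by
    intro hm
    obtain ⟨s, t, hst⟩ := Submodule.mem_span_pair.1 hm
    rw [← hst, o.add_left, o.smul_left, o.smul_left, hv, mul_zero, zero_add] at hzv
    rw [← hst, o.add_left, o.smul_left, o.smul_left, hw, mul_zero, add_zero] at hzw
    rw [(mul_eq_zero.1 hzv).resolve_right hwv, (mul_eq_zero.1 hzw).resolve_right hvw, zero_smul, zero_smul, add_zero] at hst
    exact hz0 hst.symm
  obtain ⟨z₁, hz1, hz2⟩ := exists_sep o.LL _ hzns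
  have hz₁z : g z₁ z ≠ 0 := o.ne_symm (by rw [hz1]; exact one_ne_zero)
  obtain ⟨a, ha⟩ := o.adj hzz hz₁z (l := 0) (map_zero σ)
  refine ⟨z, z₁ + a • z, hzz, ha, ?_, hzv, hzw, ?_, ?_⟩
  · rw [o.toSFm.add_right, o.toSFm.smul_right, hz1, hzz, mul_zero, add_zero]
  · rw [o.add_left, o.smul_left, hzv, mul_zero, add_zero]
    exact o.zero_symm (hz2 v (Submodule.subset_span (by simp)))
  · rw [o.add_left, o.smul_left, hzw, mul_zero, add_zero]
    exact o.zero_symm (hz2 w (Submodule.subset_span (by simp)))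

/-- if all rational values are rational up to a common factor, the vector is rational up to a scalar -/
theorem rat_of_values [Fintype F] (h : UX τ f F₀ P) {u : Fin n → F} (hu : ∀ x : Fin n → F₀, f (Ph F₀ P x) u ∈ F₀) : Rt F₀ P u := by
  haveI : Fintype F₀ := Fintype.ofFinite _
  have o := h.uF
  let φ : (Fin n → F₀) →ₗ[F₀] F₀ :=
    { toFun := fun x => ⟨f (Ph F₀ P x) u, hu x⟩
      map_add' := fun x y => Subtype.ext (by
        show f (Ph F₀ P (x + y)) u = _
        rw [Ph_add, h.add_left]; rfl)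
      map_smul' := fun c x => Subtype.ext (by
        show f (Ph F₀ P (c • x)) u = _
        rw [Ph_smul, h.smul_left]; rfl) }
  obtain ⟨y, hy⟩ := fr_surjective o.LL φ
  have h1 : ∀ x, f (Ph F₀ P x) (Ph F₀ P y - u) = 0 := by
    intro x
    have h2 := congrArg Subtype.val (LinearMap.congr_fun hy x)
    have h3 : f (Ph F₀ P x) (Ph F₀ P y) = f (Ph F₀ P x) u := h2
    rw [h.toSFm.sub_right, h3, sub_self]
  have h4 : Ph F₀ P y - u = 0 := by
    by_contra hne
    obtain ⟨x, hx⟩ := h.nd _ hne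
    apply hx
    have htop := rat_span (W := LinearMap.ker (fr h.toUF.LL (Ph F₀ P y - u))) P F₀ (by
      intro y' hy'
      obtain ⟨z, rfl⟩ := rt_iff.1 hy'
      exact h1 z)
    have : x ∈ LinearMap.ker (fr h.toUF.LL (Ph F₀ P y - u)) := by rw [htop]; trivial
    exact this
  rw [← sub_eq_zero.1 h4]
  exact Ph_rt y

/-- an orthogonal pair of isotropic rational vectors with irrational ratio of products -/
theorem pairP [Fintype F] (h : UX τ f F₀ P) (hn : 4 ≤ n) {u : Fin n → F} (hu0 : u ≠ 0) (hu : ∀ c : F, c ≠ 0 → ¬ Rt F₀ P (c • u)) :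
    ∃ v w : Fin n → F₀, f0 h v v = 0 ∧ f0 h w w = 0 ∧ f0 h v w = 0 ∧ f (Ph F₀ P v) u ≠ 0 ∧ f (Ph F₀ P w) u ≠ 0 ∧
      f (Ph F₀ P w) u / f (Ph F₀ P v) u ∉ F₀ := by
  haveI : Fintype F₀ := Fintype.ofFinite _
  have o := h.uF
  by_contra hcon
  have H : ∀ v w : Fin n → F₀, f0 h v v = 0 → f0 h w w = 0 → f0 h v w = 0 → f (Ph F₀ P v) u ≠ 0 →
      f (Ph F₀ P w) u / f (Ph F₀ P v) u ∈ F₀ := by
    intro v w hv hw hvw hφ
    by_contra hr
    apply hcon
    refine ⟨v, w, hv, hw, hvw, hφ, ?_, hr⟩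
    intro h0
    apply hr
    rw [h0, zero_div]
    exact F₀.zero_mem
  -- v₁
  obtain ⟨v₁, hv₁, hφ₁⟩ : ∃ v₁ : Fin n → F₀, f0 h v₁ v₁ = 0 ∧ f (Ph F₀ P v₁) u ≠ 0 := by
    by_contra hc
    push Not at hc
    let W : Submodule F₀ (Fin n → F₀) :=
      { carrier := {x | f (Ph F₀ P x) u = 0}
        zero_mem' := by
          show f (Ph F₀ P 0) u = 0
          rw [Ph_zero, h.toSFm.zero_left]
        add_mem' := fun {a b} ha hb => by
          show f (Ph F₀ P (a + b)) u = 0
          rw [Ph_add, h.add_left, ha, hb, add_zero]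
        smul_mem' := fun c a ha => by
          show f (Ph F₀ P (c • a)) u = 0
          rw [Ph_smul, h.smul_left, ha, mul_zero] }
    have hW : W = ⊤ := span_all h (by omega) hc
    obtain ⟨x, hx⟩ := h.nd u hu0
    apply hx
    have htop := rat_span (W := LinearMap.ker (fr h.toUF.LL u)) P F₀ (by
      intro y hy
      obtain ⟨z, rfl⟩ := rt_iff.1 hy
      have : z ∈ W := by rw [hW]; trivial
      exact this)
    have : x ∈ LinearMap.ker (fr h.toUF.LL u) := by rw [htop]; trivial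
    exact this
  -- v₃
  obtain ⟨v₃, hv₃, hφ₃⟩ : ∃ v₃ : Fin n → F₀, f0 h v₃ v₃ = 0 ∧ f (Ph F₀ P v₃) u / f (Ph F₀ P v₁) u ∉ F₀ := by
    by_contra hc
    push Not at hc
    let W : Submodule F₀ (Fin n → F₀) :=
      { carrier := {x | f (Ph F₀ P x) u / f (Ph F₀ P v₁) u ∈ F₀}
        zero_mem' := by
          show f (Ph F₀ P 0) u / f (Ph F₀ P v₁) u ∈ F₀
          rw [Ph_zero, h.toSFm.zero_left, zero_div]
          exact F₀.zero_mem
        add_mem' := fun {a b} ha hb => by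
          show f (Ph F₀ P (a + b)) u / f (Ph F₀ P v₁) u ∈ F₀
          rw [Ph_add, h.add_left, add_div]
          exact F₀.add_mem ha hb
        smul_mem' := fun c a ha => by
          show f (Ph F₀ P (c • a)) u / f (Ph F₀ P v₁) u ∈ F₀
          rw [Ph_smul, h.smul_left, mul_div_assoc]
          exact F₀.mul_mem c.2 ha }
    have hW : W = ⊤ := span_all h (by omega) hc
    apply hu (τ (f (Ph F₀ P v₁) u)⁻¹) ((map_ne_zero τ).2 (inv_ne_zero hφ₁))
    apply rat_of_values h
    intro x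
    have : x ∈ W := by rw [hW]; trivial
    rw [h.toSFm.smul_right, h.inv, mul_comm, ← div_eq_mul_inv]
    exact this
  have hφ₃0 : f (Ph F₀ P v₃) u ≠ 0 := by
    intro h0
    apply hφ₃
    rw [h0, zero_div]
    exact F₀.zero_mem
  have h13 : f0 h v₁ v₃ ≠ 0 := fun h0 => hφ₃ (H v₁ v₃ hv₁ hv₃ h0 hφ₁)
  obtain ⟨z, z', hz, hz', hzz', hzv, hzw, hz'v, hz'w⟩ := hyp_perp o hn hv₁ hv₃ h13
  have zero : ∀ y : Fin n → F₀, f0 h y y = 0 → f0 h y v₁ = 0 → f0 h y v₃ = 0 → f (Ph F₀ P y) u = 0 := by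
    intro y hy h1 h3
    by_contra hne
    apply hφ₃
    have r1 := H v₁ y hv₁ hy (o.zero_symm h1) hφ₁
    have r3 := H v₃ y hv₃ hy (o.zero_symm h3) hφ₃0
    have r5 := F₀.div_mem r1 r3
    have e : f (Ph F₀ P y) u / f (Ph F₀ P v₁) u / (f (Ph F₀ P y) u / f (Ph F₀ P v₃) u) = f (Ph F₀ P v₃) u / f (Ph F₀ P v₁) u := by
      field_simp
    rwa [e] at r5
  have zz := zero z hz hzv hzw
  have zz' := zero z' hz' hz'v hz'w
  set t : F₀ := -(tau0 h (f0 h v₁ v₃)) with ht
  apply hφ₃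
  have := H (v₁ + z) (v₃ + t • z') (by
    rw [o.add_left, o.toSFm.add_right, o.toSFm.add_right, hv₁, hz, hzv, o.zero_symm hzv]; ring) (by
    rw [o.add_left, o.toSFm.add_right, o.toSFm.add_right, o.smul_left, o.smul_left, o.toSFm.smul_right, o.toSFm.smul_right, hv₃, hz',
      hz'w, o.zero_symm hz'w]; ring) (by
    rw [o.add_left, o.toSFm.add_right, o.toSFm.add_right, o.toSFm.smul_right, o.toSFm.smul_right, hzw, hzz', o.zero_symm hz'v, ht,
      map_neg, o.inv]; ring) (by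
    rw [Ph_add, h.add_left, zz, add_zero]; exact hφ₁)
  rwa [Ph_add, Ph_add, Ph_smul, h.add_left, h.add_left, h.smul_left, zz, zz', add_zero, mul_zero, add_zero] at this

end Cfsg.Agent.H21.GUw
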