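import Mathlib
import Cfsg.Agent.GUw2

set_option autoImplicit false

/-! unitary groups over subfields of odd index, III: from one vector to all -/

namespace Cfsg.Agent.H21.GUw

open Matrix Module Cfsg.Geo Cfsg.Agent.H29.Trv Cfsg.Agent.H29.Fm Cfsg.Agent.H21.GUp Cfsg.Agent.H21.GUt

variable {F : Type*} [Field F] {n : ℕ} {F₀ : Subfield F} {P : GL (Fin n) F}

open Cfsg.Agent.H21.GUr (Ph Ph_add Ph_smul Ph_zero Ph_neg Ph_sub Ph_inj Ph_ne rt_iff Ph_rt)

variable {τ : F ≃+* F} {f : (Fin n → F) → (Fin n → F) → F} {M : Subgroup (GL (Fin n) F)}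

/-- stage C -/
theorem stageC [Fintype F] (h : UX τ f F₀ P) (hn : 6 ≤ n) (hi : GUp.Iso f M)
    (hK : ∀ a b, f0 h a a = 0 → f0 h b b = 0 → f0 h a b = 0 → KM f 1 M (Ph F₀ P a) (Ph F₀ P b))
    {u : Fin n → F₀} (hu0 : u ≠ 0) (hu : f0 h u u = 0) (hT : FT h.toUF M (Ph F₀ P u)) :
    ∀ y, f0 h y y = 0 → FT h.toUF M (Ph F₀ P y) := by
  classical
  haveI : Fintype F₀ := Fintype.ofFinite _
  have o := h.uF
  have step : ∀ u y, u ≠ 0 → f0 h u u = 0 → FT h.toUF M (Ph F₀ P u) → f0 h y y = 0 → f0 h u y = 0 →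
      y ∉ Submodule.span F₀ {u} → FT h.toUF M (Ph F₀ P y) := by
    intro u y hu0 hu hT hy huy hyu
    have hne : y - u ≠ 0 := by
      intro h0
      apply hyu
      rw [sub_eq_zero.1 h0]
      exact Submodule.mem_span_singleton_self _
    have hn' : u ∉ Submodule.span F₀ {y - u} := by
      intro hm
      obtain ⟨c, hc⟩ := Submodule.mem_span_singleton.1 hm
      have e : (1 + c) • u = c • y := by
        rw [add_smul, one_smul]
        nth_rewrite 1 [← hc]
        module
      have hc0 : c ≠ 0 := by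
        rintro rfl
        rw [zero_smul] at hc
        exact hu0 hc.symm
      apply hyu
      refine Submodule.mem_span_singleton.2 ⟨c⁻¹ * (1 + c), ?_⟩
      rw [← smul_smul, e, smul_smul, inv_mul_cancel₀ hc0, one_smul]
    obtain ⟨b, hb, hbyu, hbu⟩ := o.iso_sep (by omega) hne hn'
    have hub := o.ne_symm hbu
    have hyu2 : f0 h (y - u) (y - u) = 0 := by
      rw [o.toSFm.sub_left, o.toSFm.sub_right, o.toSFm.sub_right, hy, hu, huy, o.zero_symm huy]; ring
    obtain ⟨k, hk, hkx⟩ := hK (y - u) (tau0 h (f0 h u b)⁻¹ • b) hyu2 (by rw [o.smul_left, o.toSFm.smul_right, hb, mul_zero, mul_zero])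
      (by rw [o.toSFm.smul_right, o.zero_symm hbyu, mul_zero])
    have h1 := hT.conj hk (hi k hk)
    have e1 : f (Ph F₀ P u) (Ph F₀ P (tau0 h (f0 h u b)⁻¹ • b)) = 1 := by
      rw [← f0_coe h, o.toSFm.smul_right, o.inv, inv_mul_cancel₀ hub]
      rfl
    have e2 : f (Ph F₀ P u) (Ph F₀ P (y - u)) = 0 := by
      rw [← f0_coe h, o.toSFm.sub_right, huy, hu, sub_zero]
      rfl
    rw [hkx, e1, e2, one_smul, mul_zero, zero_smul, sub_zero, Ph_sub, add_sub_cancel] at h1
    exact h1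
  intro y hy
  by_cases hmem : y ∈ Submodule.span F₀ {u}
  · obtain ⟨t, rfl⟩ := Submodule.mem_span_singleton.1 hmem
    rw [Ph_smul]
    exact hT.smul _
  obtain ⟨w, hw, hw0, hwu, hwy, hwW⟩ : ∃ w, f0 h w w = 0 ∧ w ≠ 0 ∧ f0 h w u = 0 ∧ f0 h w y = 0 ∧ w ∉ Submodule.span F₀ {u, y} := by
    obtain ⟨C, hC⟩ := Submodule.exists_isCompl (Submodule.span F₀ {u, y})
    set U := perp o.toSFm (Submodule.span F₀ {u, y}) with hU
    have h1 := Submodule.finrank_sup_add_finrank_inf_eq U C
    have h2 : finrank F₀ (Submodule.span F₀ {u, y}) + finrank F₀ C = n := by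
      rw [Submodule.finrank_add_eq_of_isCompl hC, Module.finrank_fintype_fun_eq_card, Fintype.card_fin]
    have h3 : finrank F₀ (U ⊔ C : Submodule F₀ (Fin n → F₀)) ≤ n := by
      have := Submodule.finrank_le (U ⊔ C)
      rwa [Module.finrank_fintype_fun_eq_card, Fintype.card_fin] at this
    have h4 := span2 (K := F₀) u y
    have h5 := finrank_perp o.toSFm (Submodule.span F₀ {u, y})
    rw [← hU] at h5
    obtain ⟨w, hw, hw0, hww⟩ := o.exists_iso (U := U ⊓ C) (by omega)
    refine ⟨w, hww, hw0, hw.1 u (Submodule.subset_span (by simp)), hw.1 y (Submodule.subset_span (by simp)), ?_⟩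
    intro hm
    have : w ∈ Submodule.span F₀ {u, y} ⊓ C := ⟨hm, hw.2⟩
    rw [hC.inf_eq_bot] at this
    exact hw0 this
  have h1 : FT h.toUF M (Ph F₀ P w) := by
    refine step u w hu0 hu hT hw (o.zero_symm hwu) (fun hm => hwW ?_)
    exact Submodule.span_mono (by simp) hm
  refine step w y hw0 hw h1 hy hwy (fun hm => ?_)
  obtain ⟨t, ht⟩ := Submodule.mem_span_singleton.1 hm
  by_cases ht0 : t = 0
  · rw [ht0, zero_smul] at ht
    apply hmem
    rw [← ht]
    exact Submodule.zero_mem _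
  · apply hwW
    have : w = t⁻¹ • y := by rw [← ht, smul_smul, inv_mul_cancel₀ ht0, one_smul]
    rw [this]
    exact Submodule.smul_mem _ _ (Submodule.subset_span (by simp))

/-- an isotropic rational vector not orthogonal to a given one -/
theorem exists_iso_ne [Fintype F] (h : UX τ f F₀ P) (hn : 2 ≤ n) {u : Fin n → F} (hu0 : u ≠ 0) :
    ∃ v : Fin n → F₀, f0 h v v = 0 ∧ f (Ph F₀ P v) u ≠ 0 := by
  by_contra hc
  push Not at hc
  let W : Submodule F₀ (Fin n → F₀) :=
    { carrier := {x | f (Ph F₀ P x) u = 0}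
      zero_mem' := by
        show f (Ph F₀ P 0) u = 0
        rw [Ph_zero, h.toSFm.zero_left]
      add_mem' := fun {a b} ha hb => by
        show f (Ph F₀ P (a + b)) u = 0
        rw [Ph_add, h.add_left, ha, hb, add_zero]
      smul_mem' := fun c a ha => by
        show f (Ph F₀ P (c • a)) u = 0
        rw [Ph_smul, h.smul_left, ha, mul_zero] }
  have hW : W = ⊤ := span_all h (by omega) hc
  obtain ⟨x, hx⟩ := h.nd u hu0
  apply hx
  have htop := rat_span (W := LinearMap.ker (fr h.toUF.LL u)) P F₀ (by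
    intro y hy
    obtain ⟨z, rfl⟩ := rt_iff.1 hy
    have : z ∈ W := by rw [hW]; trivial
    exact this)
  have : x ∈ LinearMap.ker (fr h.toUF.LL u) := by rw [htop]; trivial
  exact this

/-- Siegel elements in `M` -/
def SZ (f : (Fin n → F) → (Fin n → F) → F) (M : Subgroup (GL (Fin n) F)) (v z : Fin n → F) : Prop :=
  f z v = 0 ∧ ∃ e : F, ∃ g ∈ M, ∀ x, (g : Matrix (Fin n) (Fin n) F) *ᵥ x = x + f x v • z - (f x z + e * f x v) • v

theorem SZ.add (h : UX τ f F₀ P) {v z z' : Fin n → F} (hv : f v v = 0) (hz : SZ f M v z) (hz' : SZ f M v z') : SZ f M v (z + z') := by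
  obtain ⟨h1, e, g, hg, hgx⟩ := hz
  obtain ⟨h1', e', g', hg', hgx'⟩ := hz'
  refine ⟨by rw [h.add_left, h1, h1', add_zero], e + e' + f z' z, g * g', M.mul_mem hg hg', fun x => ?_⟩
  have hvz : f v z = 0 := h.toUF.zero_symm h1
  rw [Cfsg.Agent.H29.Trv.mul_apply, hgx', hgx]
  simp only [h.add_left, h.toSFm.sub_left, h.smul_left, h.toSFm.add_right, hv, h1, h1', hvz]
  module

theorem SZ_basic (h : UX τ f F₀ P) {v w : Fin n → F₀} (hv : f0 h v v = 0) (hw : f0 h w w = 0) (hwv : f0 h w v = 0)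
    (hall : ∀ y, f0 h y y = 0 → FT h.toUF M (Ph F₀ P y)) {c : F} (hc : c + τ c = 0) {s : F₀} :
    SZ f M (Ph F₀ P v) ((c * τ s) • Ph F₀ P w) := by
  have hv' : f (Ph F₀ P v) (Ph F₀ P v) = 0 := congrArg Subtype.val hv
  have hw' : f (Ph F₀ P w) (Ph F₀ P w) = 0 := congrArg Subtype.val hw
  have hwv' : f (Ph F₀ P w) (Ph F₀ P v) = 0 := congrArg Subtype.val hwv
  have hvw' : f (Ph F₀ P v) (Ph F₀ P w) = 0 := h.toUF.zero_symm hwv'
  have hwsv : f0 h (w + s • v) (w + s • v) = 0 := by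
    apply Subtype.ext
    rw [f0_coe, Ph_add, Ph_smul, h.add_left, h.toSFm.add_right, h.toSFm.add_right, h.smul_left, h.smul_left, h.toSFm.smul_right,
      h.toSFm.smul_right, hw', hwv', hvw', hv']
    simp
  obtain ⟨-, g1, hg1, hg1x⟩ := hall _ hwsv c hc
  obtain ⟨-, g2, hg2, hg2x⟩ := hall _ hw (-c) (by rw [map_neg]; linear_combination -hc)
  obtain ⟨-, g3, hg3, hg3x⟩ := hall _ hv (-(c * (s * τ s))) (by
    rw [map_neg, map_mul, map_mul, h.inv]; linear_combination -(s * τ s) * hc)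
  refine ⟨by rw [h.smul_left, hwv', mul_zero], 0, g1 * (g2 * g3), M.mul_mem hg1 (M.mul_mem hg2 hg3), fun x => ?_⟩
  rw [Cfsg.Agent.H29.Trv.mul_apply, Cfsg.Agent.H29.Trv.mul_apply, hg3x, hg2x, hg1x]
  have hτc : τ c = -c := by linear_combination hc
  simp only [LinearMap.smul_apply, fr_apply, smul_eq_mul, Ph_add, Ph_smul, h.add_left, h.toSFm.add_right, h.smul_left, h.toSFm.smul_right,
    hv', hw', hwv', hvw', map_mul, h.inv, hτc]
  module

/-- stage D -/
theorem stageD [Fintype F] (h : UX τ f F₀ P) (hn : 4 ≤ n) (hi : GUp.Iso f M)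
    (hall : ∀ y, f0 h y y = 0 → FT h.toUF M (Ph F₀ P y)) : ∀ x, f x x = 0 → FT h.toUF M x := by
  haveI : Fintype F₀ := Fintype.ofFinite _
  have o := h.uF
  intro x hx
  by_cases hx0 : x = 0
  · have := (hall 0 (o.toSFm.zero_left _)).smul 0
    rwa [zero_smul, ← hx0] at this
  obtain ⟨v, hv, hvx⟩ := exists_iso_ne h (by omega) hx0
  have hv0 : v ≠ 0 := by
    rintro rfl
    rw [Ph_zero, h.toSFm.zero_left] at hvx
    exact hvx rfl
  have hv' : f (Ph F₀ P v) (Ph F₀ P v) = 0 := congrArg Subtype.val hv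
  -- v'
  obtain ⟨v', hv'i, hv'v⟩ : ∃ v' : Fin n → F₀, f0 h v' v' = 0 ∧ f0 h v' v = 1 := by
    obtain ⟨z, hz⟩ := o.nd v hv0
    obtain ⟨a, ha⟩ := o.adj hv hz (l := 0) (map_zero _)
    have hne : f0 h (z + a • v) v ≠ 0 := by
      rw [o.add_left, o.smul_left, hv, mul_zero, add_zero]
      exact hz
    refine ⟨(f0 h (z + a • v) v)⁻¹ • (z + a • v), ?_, ?_⟩
    · rw [o.smul_left, o.toSFm.smul_right, ha, mul_zero, mul_zero]
    · rw [o.smul_left, inv_mul_cancel₀ hne]
  have hv'v' : f (Ph F₀ P v') (Ph F₀ P v) = 1 := congrArg Subtype.val hv'v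
  -- all z
  have hμ : ∀ w : Fin n → F₀, f0 h w w = 0 → f0 h w v = 0 → ∀ μ : F, SZ f M (Ph F₀ P v) (μ • Ph F₀ P w) := by
    intro w hw hwv μ
    obtain ⟨ζ, hζ, hζζ⟩ := h.mv
    have hne : ζ - τ ζ ≠ 0 := fun h0 => hζζ (sub_eq_zero.1 h0).symm
    set c₂ := (μ + τ μ) / (ζ - τ ζ) with hc₂
    have t2 : c₂ + τ c₂ = 0 := by
      have e : τ (ζ - τ ζ) = -(ζ - τ ζ) := by rw [map_sub, h.inv]; ring
      rw [hc₂, map_div₀, e, map_add, h.inv, div_neg]
      ring
    have t2' : τ c₂ = -c₂ := by linear_combination t2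
    have e2 : c₂ * (ζ - τ ζ) = μ + τ μ := by rw [hc₂, div_mul_cancel₀ _ hne]
    have t1 : (μ - c₂ * ζ) + τ (μ - c₂ * ζ) = 0 := by
      rw [map_sub, map_mul, t2']
      linear_combination -e2
    have s1 := SZ_basic h hv hw hwv hall t1 (s := 1)
    have s2 := SZ_basic h hv hw hwv hall t2 (s := ⟨τ ζ, h.stab ζ hζ⟩)
    have s3 := s1.add h hv' s2
    have e3 : ((μ - c₂ * ζ) * τ ((1 : F₀) : F)) • Ph F₀ P w + (c₂ * τ (((⟨τ ζ, h.stab ζ hζ⟩ : F₀)) : F)) • Ph F₀ P w = μ • Ph F₀ P w := by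
      show ((μ - c₂ * ζ) * τ (1 : F)) • Ph F₀ P w + (c₂ * τ (τ ζ)) • Ph F₀ P w = μ • Ph F₀ P w
      rw [map_one, h.inv, ← add_smul]
      congr 1
      ring
    rwa [e3] at s3
  let D : Submodule F (Fin n → F) :=
    { carrier := {z | ∀ μ : F, SZ f M (Ph F₀ P v) (μ • z)}
      zero_mem' := by
        intro μ
        rw [smul_zero]
        have := hμ v hv hv 0
        rwa [zero_smul] at this
      add_mem' := fun {a b} ha hb μ => by
        rw [smul_add]
        exact (ha μ).add h hv' (hb μ)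
      smul_mem' := fun c a ha μ => by
        rw [smul_smul]
        exact ha _ }
  have hD : ∀ z, f z (Ph F₀ P v) = 0 → z ∈ D := by
    intro z hz
    by_contra hzD
    obtain ⟨y, hy1, hy2⟩ := exists_sep h.toUF.LL D hzD
    -- y is orthogonal to the rational perp of v
    have hperp : ∀ w : Fin n → F₀, f0 h w v = 0 → f (Ph F₀ P w) y = 0 := by
      let U : Submodule F₀ (Fin n → F₀) :=
        { carrier := {w | f0 h w v = 0}
          zero_mem' := o.toSFm.zero_left _
          add_mem' := fun {a b} ha hb => by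
            show f0 h (a + b) v = 0
            rw [o.add_left, ha, hb, add_zero]
          smul_mem' := fun c a ha => by
            show f0 h (c • a) v = 0
            rw [o.smul_left, ha, mul_zero] }
      let W : Submodule F₀ (Fin n → F₀) :=
        { carrier := {w | f (Ph F₀ P w) y = 0}
          zero_mem' := by
            show f (Ph F₀ P 0) y = 0
            rw [Ph_zero, h.toSFm.zero_left]
          add_mem' := fun {a b} ha hb => by
            show f (Ph F₀ P (a + b)) y = 0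
            rw [Ph_add, h.add_left, ha, hb, add_zero]
          smul_mem' := fun c a ha => by
            show f (Ph F₀ P (c • a)) y = 0
            rw [Ph_smul, h.smul_left, ha, mul_zero] }
      obtain ⟨a, a', ha, ha', haa', hav, -, ha'v, -⟩ := hyp_perp o hn hv hv'i (o.ne_symm (by rw [hv'v]; exact one_ne_zero))
      have hle : U ≤ W := o.span_iso (U := U) (W := W) (x := a') (z₀ := a) ha'v ha' hav (by rw [haa']; exact one_ne_zero) (by
        intro w hwU hww
        have : Ph F₀ P w ∈ D := hμ w hww hwU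
        exact hy2 _ this)
      intro w hw
      exact hle hw
    set c := τ (f (Ph F₀ P v') y) with hc
    have hy' : y = c • Ph F₀ P v := by
      have h4 : y - c • Ph F₀ P v = 0 := by
        by_contra hne
        obtain ⟨x', hx'⟩ := h.nd _ hne
        apply hx'
        have htop := rat_span (W := LinearMap.ker (fr h.toUF.LL (y - c • Ph F₀ P v))) P F₀ (by
          intro y' hy'
          obtain ⟨x₁, rfl⟩ := rt_iff.1 hy'
          show f (Ph F₀ P x₁) (y - c • Ph F₀ P v) = 0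
          have h6 := hperp (x₁ - f0 h x₁ v • v') (by rw [o.toSFm.sub_left, o.smul_left, hv'v, mul_one, sub_self])
          rw [Ph_sub, Ph_smul, h.toSFm.sub_left, h.smul_left, sub_eq_zero] at h6
          rw [h.toSFm.sub_right, h.toSFm.smul_right, h6, hc, h.inv, f0_coe]
          ring)
        have : x' ∈ LinearMap.ker (fr h.toUF.LL (y - c • Ph F₀ P v)) := by rw [htop]; trivial
        exact this
      exact sub_eq_zero.1 h4
    rw [hy', h.toSFm.smul_right, hz, mul_zero] at hy1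
    exact zero_ne_one hy1
  -- conclusion
  set c := f x (Ph F₀ P v) with hc
  have hc0 : c ≠ 0 := h.toUF.ne_symm hvx
  have hzD := hD (c⁻¹ • x - Ph F₀ P v') (by rw [h.toSFm.sub_left, h.smul_left, ← hc, inv_mul_cancel₀ hc0, hv'v', sub_self])
  obtain ⟨-, e, g, hg, hgx⟩ := hzD 1
  have h1 := (hall v' hv'i).conj hg (hi g hg)
  rw [hgx, hv'v', one_smul, one_smul, mul_one, add_sub_cancel] at h1
  set e' := f (Ph F₀ P v') (c⁻¹ • x - Ph F₀ P v') + e with he'
  have e4 : c⁻¹ • x - e' • Ph F₀ P v + e' • Ph F₀ P v = c⁻¹ • x := by module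
  have h2 := h1.line (hall v hv) (a := e') (by
    rw [h.toSFm.sub_left, h.smul_left, h.smul_left, hv', ← hc, inv_mul_cancel₀ hc0, mul_zero, sub_zero]
    exact one_ne_zero) (by rw [e4, h.smul_left, h.toSFm.smul_right, hx, mul_zero, mul_zero])
  rw [e4] at h2
  exact h2.of_smul (inv_ne_zero hc0)

end Cfsg.Agent.H21.GUw
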