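import Mathlib
import Cfsg.Agent.GUw3
import Cfsg.Agent.GUv3
import Cfsg.Agent.GUv5

set_option autoImplicit false

/-! unitary groups over subfields of odd index, IV: planes -/

namespace Cfsg.Agent.H21.GUw

open Matrix Module Cfsg.Geo Cfsg.Agent.H29.Trv Cfsg.Agent.H29.Fm Cfsg.Agent.H21.GUp Cfsg.Agent.H21.GUt Cfsg.Agent.H21.GUv
  Cfsg.Agent.H5 Cfsg.Agent.H5.SL2

variable {F : Type*} [Field F]

/-- the fixed field -/
def Ef (τ : F ≃+* F) : Subfield F := (τ : F →+* F).eqLocusField (RingHom.id F)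

theorem mem_Ef {τ : F ≃+* F} {x : F} : x ∈ Ef τ ↔ τ x = x := Iff.rfl

theorem card_fix [Finite F] (σ : F ≃+* F) (hinv : ∀ x, σ (σ x) = x) (hne : ∃ ζ, σ ζ ≠ ζ) : Nat.card F = Nat.card (Ef σ) ^ 2 := by
  obtain ⟨ζ, hζ⟩ := hne
  have hd : ζ - σ ζ ≠ 0 := fun h0 => hζ (sub_eq_zero.1 h0).symm
  have hb : Function.Bijective (fun p : Ef σ × Ef σ => (p.1 : F) + ζ * p.2) := by
    constructor
    · rintro ⟨s, t⟩ ⟨s', t'⟩ he
      simp only at he
      by_cases ht : (t : F) = t'
      · have hs : (s : F) = s' := by rw [ht] at he; exact add_right_cancel he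
        exact Prod.ext (Subtype.ext hs) (Subtype.ext ht)
      · exfalso
        apply hζ
        have h1 : ζ = (s' - s) / (t - t') := by
          rw [eq_div_iff (sub_ne_zero.2 ht)]
          linear_combination he
        have h2 : ζ ∈ Ef σ := by
          rw [h1]
          exact (Ef σ).div_mem ((Ef σ).sub_mem s'.2 s.2) ((Ef σ).sub_mem t.2 t'.2)
        exact h2
    · intro x
      have ht : (x - σ x) / (ζ - σ ζ) ∈ Ef σ := by
        rw [mem_Ef, map_div₀, map_sub, map_sub, hinv, hinv, ← neg_sub x, ← neg_sub ζ, neg_div_neg_eq]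
      have hs : x - ζ * ((x - σ x) / (ζ - σ ζ)) ∈ Ef σ := by
        have h1 := mem_Ef.1 ht
        have h2 : (x - σ x) / (ζ - σ ζ) * (ζ - σ ζ) = x - σ x := div_mul_cancel₀ _ hd
        rw [mem_Ef, map_sub, map_mul, h1]
        linear_combination h2
      refine ⟨(⟨_, hs⟩, ⟨_, ht⟩), ?_⟩
      simp only
      ring
  have := Nat.card_congr (Equiv.ofBijective _ hb)
  rw [Nat.card_prod] at this
  rw [← this, sq]

/-- the map on SL₂ -/
def mp (E : Subfield F) : S E →* S F := Matrix.SpecialLinearGroup.map E.subtype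

theorem mp_apply {E : Subfield F} (g : S E) (i j : Fin 2) : (mp E g).1 i j = (g.1 i j : F) := rfl

theorem mp_u {E : Subfield F} (x : E) : mp E (u x) = u (x : F) := by
  apply ext2 <;> rw [mp_apply] <;> rfl

theorem mp_l {E : Subfield F} (x : E) : mp E (l x) = l (x : F) := by
  apply ext2 <;> rw [mp_apply] <;> rfl

variable {n : ℕ} {τ : F ≃+* F} {f : (Fin n → F) → (Fin n → F) → F} {M : Subgroup (GL (Fin n) F)}

/-- the subgroup acting on a hyperbolic plane -/
def Gv (o : UF τ f) (M : Subgroup (GL (Fin n) F)) (v a : Fin n → F) : Subgroup (S F) :=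
  Gam M v a ⊥ (LinearMap.ker (fr o.LL v) ⊓ LinearMap.ker (fr o.LL a)) (Submodule.span F {v, a}) bot_le
    (Submodule.subset_span (by simp)) (Submodule.subset_span (by simp)) bot_le

/-- the subgroup over the fixed field -/
def GE (o : UF τ f) (M : Subgroup (GL (Fin n) F)) (v a : Fin n → F) : Subgroup (S (Ef τ)) := (Gv o M v a).comap (mp (Ef τ))

theorem mem_GE (o : UF τ f) {v a : Fin n → F} {g : S (Ef τ)} : g ∈ GE o M v a ↔ mp (Ef τ) g ∈ Gv o M v a := Iff.rfl

theorem f_symm (o : UF τ f) {κ : F} (hκ2 : κ + τ κ = 0) {v a : Fin n → F} (hav : κ * f a v = 1) : κ * f v a = -1 := by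
  have h1 := congrArg τ hav
  rw [map_mul, o.sw, map_one] at h1
  linear_combination (f v a) * hκ2 - h1

theorem u_mem_GE (o : UF τ f) {κ : F} {v a : Fin n → F} (hav : κ * f a v = 1) {c : Ef τ}
    (hT : T M v ((κ * c) • fr o.LL v)) : u c ∈ GE o M v a := by
  rw [mem_GE, mp_u]
  have h1 := u_mem_Gam (a := a) (R := ⊥) (K := (LinearMap.ker (fr o.LL v) ⊓ LinearMap.ker (fr o.LL a)))
    (W := Submodule.span F {v, a}) (hR := bot_le) (hv := Submodule.subset_span (by simp)) (ha := Submodule.subset_span (by simp))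
    (hRW := bot_le) hT (fun x hx => by
      rw [LinearMap.smul_apply, (show fr o.LL v x = 0 from hx.1), smul_zero])
  have e : ((κ * (c : F)) • fr o.LL v) a = c := by
    rw [LinearMap.smul_apply, fr_apply, smul_eq_mul]
    linear_combination (c : F) * hav
  rw [e] at h1
  exact h1

theorem l_mem_GE (o : UF τ f) {κ : F} (hκ2 : κ + τ κ = 0) {v a : Fin n → F} (hav : κ * f a v = 1) {c : Ef τ}
    (hT : T M a ((κ * c) • fr o.LL a)) : l (-c) ∈ GE o M v a := by
  rw [mem_GE, mp_l]
  have h1 := l_mem_Gam (v := v) (R := ⊥) (K := (LinearMap.ker (fr o.LL v) ⊓ LinearMap.ker (fr o.LL a)))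
    (W := Submodule.span F {v, a}) (hR := bot_le) (hv := Submodule.subset_span (by simp)) (ha := Submodule.subset_span (by simp))
    (hRW := bot_le) hT (fun x hx => by
      rw [LinearMap.smul_apply, (show fr o.LL a x = 0 from hx.2), smul_zero])
  have e : ((κ * (c : F)) • fr o.LL a) v = ((-c : Ef τ) : F) := by
    rw [LinearMap.smul_apply, fr_apply, smul_eq_mul]
    have := f_symm o hκ2 hav
    show κ * (c : F) * f v a = -(c : F)
    linear_combination (c : F) * this
  rw [e] at h1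
  exact h1

theorem of_GE_top (o : UF τ f) {κ : F} (hκ2 : κ + τ κ = 0) {v a : Fin n → F} (hv : f v v = 0) (ha : f a a = 0)
    (hav : κ * f a v = 1) (htop : GE o M v a = ⊤) (c : Ef τ) : T M v ((κ * c) • fr o.LL v) := by
  have hm : u c ∈ GE o M v a := by rw [htop]; trivial
  rw [mem_GE, mp_u, Gv, mem_Gam] at hm
  obtain ⟨g, hg, h1, h2, h3, -⟩ := hm
  rw [u00, u10, one_smul, zero_smul, add_zero, Submodule.mem_bot, sub_eq_zero] at h1
  rw [u01, u11, one_smul, Submodule.mem_bot, sub_eq_zero] at h2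
  refine ⟨by rw [LinearMap.smul_apply, fr_apply, hv, smul_zero], g, hg, fun x => ?_⟩
  have hva := f_symm o hκ2 hav
  have hy := h3 (x + (κ * f x a) • v - (κ * f x v) • a) (by
    constructor
    · show f _ v = 0
      rw [o.toSFm.sub_left, o.add_left, o.smul_left, o.smul_left, hv]
      linear_combination -(f x v) * hav
    · show f _ a = 0
      rw [o.toSFm.sub_left, o.add_left, o.smul_left, o.smul_left, ha]
      linear_combination (f x a) * hva)
  rw [mulVec_sub, mulVec_add, mulVec_smul, mulVec_smul, h1, h2] at hy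
  rw [LinearMap.smul_apply, fr_apply, smul_eq_mul]
  have e : (g : Matrix (Fin n) (Fin n) F) *ᵥ x = ((g : Matrix (Fin n) (Fin n) F) *ᵥ x + (κ * f x a) • v - (κ * f x v) • ((c : F) • v + a)) -
      (κ * f x a) • v + (κ * f x v) • ((c : F) • v + a) := by abel
  rw [e, hy]
  module

end Cfsg.Agent.H21.GUw
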