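import Mathlib
import Cfsg.Agent.GUw4

set_option autoImplicit false

/-! unitary groups over subfields of odd index, V: the generic case -/

namespace Cfsg.Agent.H21.GUw

open Matrix Module Cfsg.Geo Cfsg.Agent.H29.Trv Cfsg.Agent.H29.Fm Cfsg.Agent.H21.GUp Cfsg.Agent.H21.GUt Cfsg.Agent.H21.GUv
  Cfsg.Agent.H5 Cfsg.Agent.H5.SL2

open Cfsg.Agent.H21.GUr (Ph Ph_add Ph_smul Ph_zero Ph_neg Ph_sub Ph_inj Ph_ne rt_iff Ph_rt)

variable {F : Type*} [Field F] {n : ℕ} {F₀ : Subfield F} {P : GL (Fin n) F}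
variable {τ : F ≃+* F} {f : (Fin n → F) → (Fin n → F) → F} {M : Subgroup (GL (Fin n) F)}

/-- the rational part of the fixed field -/
def E0 (τ : F ≃+* F) (F₀ : Subfield F) : Subfield (Ef τ) := F₀.comap (Ef τ).subtype

theorem mem_E0 {c : Ef τ} : c ∈ E0 τ F₀ ↔ (c : F) ∈ F₀ := Iff.rfl

theorem card_Ef [Fintype F] (h : UX τ f F₀ P) {r : ℕ} (hcard : Fintype.card F = Nat.card F₀ ^ r) :
    Nat.card (Ef τ) = Nat.card (E0 τ F₀) ^ r := by
  have h1 := card_fix τ h.inv h.moved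
  have h2 := card_fix (tau0 h) (fun x => Subtype.ext (h.inv x)) (by
    obtain ⟨x, hx, hxx⟩ := h.mv
    exact ⟨⟨x, hx⟩, fun h0 => hxx (congrArg Subtype.val h0)⟩)
  have h3 : Nat.card (Ef (tau0 h)) = Nat.card (E0 τ F₀) := by
    apply Nat.card_congr
    refine ⟨fun x => ⟨⟨x.1, congrArg Subtype.val (mem_Ef.1 x.2)⟩, x.1.2⟩, fun x => ⟨⟨x.1, x.2⟩, ?_⟩, fun _ => rfl, fun _ => rfl⟩
    rw [mem_Ef]
    apply Subtype.ext
    exact mem_Ef.1 x.1.2
  rw [← Nat.card_eq_fintype_card, h1, h2, h3, ← pow_mul, mul_comm 2 r, pow_mul] at hcard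
  exact Nat.pow_left_injective (by norm_num : 2 ≠ 0) hcard

theorem gen_top [Fintype F] (h : UX τ f F₀ P) {r : ℕ} (hr : r.Prime) (hcard : Fintype.card F = Nat.card F₀ ^ r)
    {K : Subfield (Ef τ)} (hle : E0 τ F₀ ≤ K) {x : Ef τ} (hx : x ∈ K) (hx0 : x ∉ E0 τ F₀) : K = ⊤ := by
  haveI : Fintype (Ef τ) := Fintype.ofFinite _
  exact Cfsg.Agent.H21.GUv.eq_top_of hr (by rw [← Nat.card_eq_fintype_card]; exact card_Ef h hcard) hle hx hx0

/-- the plane lemma -/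
theorem plane_all [Fintype F] (o : UF τ f) {κ : F} (hκ2 : κ + τ κ = 0) {v a : Fin n → F} (hv : f v v = 0) (ha : f a a = 0)
    (hav : κ * f a v = 1) {a₁ : Ef τ} (ha₁ : a₁ ≠ 0) (h1 : T M v ((κ * a₁) • fr o.LL v)) (hl : T M a (κ • fr o.LL a))
    (hgen : ∀ K : Subfield (Ef τ), (∀ c : Ef τ, T M v ((κ * c) • fr o.LL v) → c ∈ K) → K = ⊤)
    (hsize : (∃ a₂ : Ef τ, T M v ((κ * a₂) • fr o.LL v) ∧ ∀ c ∈ (⊥ : Subfield (Ef τ)), a₂ ≠ c * a₁) ∨
      ((2 : F) ≠ 0 ∧ ((3 : F) = 0 → ¬ 5 ∣ Nat.card (Ef τ) * (Nat.card (Ef τ) - 1) * (Nat.card (Ef τ) + 1)))) (c : Ef τ) :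
    T M v ((κ * c) • fr o.LL v) := by
  haveI : Fintype (Ef τ) := Fintype.ofFinite _
  apply of_GE_top o hκ2 hv ha hav
  have m1 : u a₁ ∈ GE o M v a := u_mem_GE o hav h1
  have ml : l (-1 : Ef τ) ∈ GE o M v a := by
    apply l_mem_GE o hκ2 hav
    have e : κ * ((1 : Ef τ) : F) = κ := by show κ * (1 : F) = κ; rw [mul_one]
    rwa [e]
  have hg : ∀ K : Subfield (Ef τ), (∀ c, u c ∈ GE o M v a → c * (-1) ∈ K) → K = ⊤ := by
    intro K hK
    apply hgen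
    intro c hc
    have := K.neg_mem (hK c (u_mem_GE o hav hc))
    rwa [mul_neg_one, neg_neg] at this
  rcases hsize with ⟨a₂, h2, hind⟩ | ⟨h2, h3⟩
  · exact sl2_top (GE o M v a) m1 (u_mem_GE o hav h2) ml ha₁ (neg_ne_zero.2 one_ne_zero) hind hg
  · refine sl2_top' (GE o M v a) m1 ml ha₁ (neg_ne_zero.2 one_ne_zero) (fun h0 => h2 ?_) (fun h0 => ?_) hg
    · have := congrArg (Ef τ).subtype h0
      rwa [map_ofNat, map_zero] at this
    · rw [← Nat.card_eq_fintype_card]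
      apply h3
      have := congrArg (Ef τ).subtype h0
      rwa [map_ofNat, map_zero] at this

/-- scaling -/
theorem T_scale (o : UF τ f) {s d : F} {y : Fin n → F} : T M (s • y) (d • fr o.LL (s • y)) ↔ T M y ((s * τ s * d) • fr o.LL y) := by
  rw [fr_smulU o, T_smul_iff, smul_smul, smul_smul]
  have : s * d * τ s = s * τ s * d := by ring
  rw [this]

/-- irrational norms -/
theorem exists_norm [Fintype F] (h : UX τ f F₀ P) (hn : 4 ≤ n) {u : Fin n → F} (hu0 : u ≠ 0) (hu : ∀ c : F, c ≠ 0 → ¬ Rt F₀ P (c • u)) :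
    ∃ y : Fin n → F₀, f0 h y y = 0 ∧ f (Ph F₀ P y) u ≠ 0 ∧ f (Ph F₀ P y) u * τ (f (Ph F₀ P y) u) ∉ F₀ := by
  haveI : Fintype F₀ := Fintype.ofFinite _
  have o := h.uF
  obtain ⟨v, w, hv, hw, hvw, hφv, hφw, hr⟩ := pairP h hn hu0 hu
  by_contra hcon
  push Not at hcon
  have nv := hcon v hv hφv
  have nw := hcon w hw hφw
  have ncomb : ∀ t : F₀, f (Ph F₀ P (v + t • w)) u * τ (f (Ph F₀ P (v + t • w)) u) ∈ F₀ := by
    intro t
    by_cases h0 : f (Ph F₀ P (v + t • w)) u = 0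
    · rw [h0, zero_mul]
      exact F₀.zero_mem
    · refine hcon _ ?_ h0
      rw [o.add_left, o.toSFm.add_right, o.toSFm.add_right, o.smul_left, o.smul_left, o.toSFm.smul_right, o.toSFm.smul_right, hv, hw, hvw,
        o.zero_symm hvw]
      ring
  set φv := f (Ph F₀ P v) u with hφvd
  set φw := f (Ph F₀ P w) u with hφwd
  -- traces
  have tr : ∀ t : F₀, (t : F) * φw * τ φv + τ t * τ φw * φv ∈ F₀ := by
    intro t
    have h1 := ncomb t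
    rw [Ph_add, Ph_smul, h.add_left, h.smul_left, ← hφvd, ← hφwd] at h1
    have h2 := F₀.sub_mem (F₀.sub_mem h1 nv) (F₀.mul_mem (F₀.mul_mem t.2 (h.stab t t.2)) nw)
    have e : (φv + t * φw) * τ (φv + t * φw) - φv * τ φv - t * τ t * (φw * τ φw) = (t : F) * φw * τ φv + τ t * τ φw * φv := by
      rw [map_add, map_mul]; ring
    rwa [e] at h2
  obtain ⟨ζ, hζ, hζζ⟩ := h.mv
  have hd : ζ - τ ζ ≠ 0 := fun h0 => hζζ (sub_eq_zero.1 h0).symm
  have t1 := tr 1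
  have t2 := tr ⟨ζ, hζ⟩
  have t1' : φw * τ φv + τ φw * φv ∈ F₀ := by
    have e : ((1 : F₀) : F) * φw * τ φv + τ ((1 : F₀) : F) * τ φw * φv = φw * τ φv + τ φw * φv := by
      show (1 : F) * φw * τ φv + τ (1 : F) * τ φw * φv = _
      rw [map_one]; ring
    rwa [e] at t1
  have t2' : ζ * φw * τ φv + τ ζ * τ φw * φv ∈ F₀ := t2
  have h3 : (ζ - τ ζ) * (φw * τ φv) ∈ F₀ := by
    have := F₀.sub_mem t2' (F₀.mul_mem (h.stab ζ hζ) t1')
    have e : ζ * φw * τ φv + τ ζ * τ φw * φv - τ ζ * (φw * τ φv + τ φw * φv) = (ζ - τ ζ) * (φw * τ φv) := by ring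
    rwa [e] at this
  have h4 : φw * τ φv ∈ F₀ := by
    have := F₀.div_mem h3 (F₀.sub_mem hζ (h.stab ζ hζ))
    rwa [mul_div_cancel_left₀ _ hd] at this
  apply hr
  have h5 := F₀.div_mem h4 nv
  have hτv : τ φv ≠ 0 := (map_ne_zero τ).2 hφv
  rwa [mul_div_mul_right _ _ hτv] at h5

/-- the generic case -/
theorem caseI [Fintype F] (h : UX τ f F₀ P) (hn : 4 ≤ n) {r : ℕ} (hr : r.Prime) (hcard : Fintype.card F = Nat.card F₀ ^ r)
    (hR : ∀ y, f0 h y y = 0 → ∀ c ∈ F₀, c + τ c = 0 → T M (Ph F₀ P y) (c • fr h.toUF.LL (Ph F₀ P y)))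
    {κ : F} (hκ : κ ∈ F₀) (hκ0 : κ ≠ 0) (hκ2 : κ + τ κ = 0) {u : Fin n → F} (huu : f u u = 0) (hu0 : u ≠ 0)
    (hu : ∀ c : F, c ≠ 0 → ¬ Rt F₀ P (c • u)) (hT : T M u (κ • fr h.toUF.LL u))
    (hsize : (∃ e ∈ E0 τ F₀, e ∉ (⊥ : Subfield (Ef τ))) ∨
      ((2 : F) ≠ 0 ∧ ((3 : F) = 0 → ¬ 5 ∣ Nat.card (Ef τ) * (Nat.card (Ef τ) - 1) * (Nat.card (Ef τ) + 1)))) :
    ∃ y : Fin n → F₀, y ≠ 0 ∧ f0 h y y = 0 ∧ FT h.toUF M (Ph F₀ P y) := by
  have o := h.toUF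
  obtain ⟨y, hy, hφ, hN⟩ := exists_norm h hn hu0 hu
  have hyy : f (Ph F₀ P y) (Ph F₀ P y) = 0 := congrArg Subtype.val hy
  have hφ' := o.ne_symm hφ
  have hτκ : τ κ = -κ := by linear_combination hκ2
  obtain ⟨s, hs⟩ : ∃ s, s = τ ((κ * f u (Ph F₀ P y))⁻¹) := ⟨_, rfl⟩
  have hs0 : s ≠ 0 := by
    rw [hs]
    exact (map_ne_zero τ).2 (inv_ne_zero (mul_ne_zero hκ0 hφ'))
  have hτs : τ s = (κ * f u (Ph F₀ P y))⁻¹ := by rw [hs, o.inv]
  have hav : κ * f u (s • Ph F₀ P y) = 1 := by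
    rw [o.toSFm.smul_right, hτs]
    field_simp
  have hN1 : s * τ s * (κ * τ κ * (f (Ph F₀ P y) u * τ (f (Ph F₀ P y) u))) = 1 := by
    rw [hτs, hs, map_inv₀, map_mul, o.sw]
    have := h.toUF.sw (Ph F₀ P y) u
    rw [this]
    have hτκ0 : τ κ ≠ 0 := (map_ne_zero τ).2 hκ0
    field_simp
  have hNE : f (Ph F₀ P y) u * τ (f (Ph F₀ P y) u) ∈ Ef τ := by rw [mem_Ef, map_mul, h.inv, mul_comm]
  have hkE : κ * τ κ ∈ Ef τ := by rw [mem_Ef, map_mul, h.inv, mul_comm]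
  set N : Ef τ := ⟨_, hNE⟩ with hNd
  set k₂ : Ef τ := ⟨_, hkE⟩ with hk₂d
  have hk₂0 : k₂ ≠ 0 := fun h0 => mul_ne_zero hκ0 ((map_ne_zero τ).2 hκ0) (congrArg Subtype.val h0)
  have hk₂F : k₂ ∈ E0 τ F₀ := F₀.mul_mem hκ (h.stab κ hκ)
  have hN0 : N ≠ 0 := fun h0 => mul_ne_zero hφ ((map_ne_zero τ).2 hφ) (congrArg Subtype.val h0)
  have hNF : N ∉ E0 τ F₀ := hN
  have hTy : ∀ c ∈ E0 τ F₀, T M (s • Ph F₀ P y) ((κ * ((c * (k₂ * N) : Ef τ) : F)) • fr o.LL (s • Ph F₀ P y)) := by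
    intro c hc
    rw [T_scale o]
    have h1 := hR y hy (κ * c) (F₀.mul_mem hκ hc) (by
      rw [map_mul, (mem_Ef.1 c.2), hτκ]; ring)
    have e : s * τ s * (κ * ((c * (k₂ * N) : Ef τ) : F)) = κ * c := by
      show s * τ s * (κ * ((c : F) * (κ * τ κ * (f (Ph F₀ P y) u * τ (f (Ph F₀ P y) u))))) = κ * c
      linear_combination (κ * c) * hN1
    rwa [e]
  refine ⟨y, ?_, hy, ?_⟩
  · rintro rfl
    rw [Ph_zero, h.toSFm.zero_left] at hφ
    exact hφ rfl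
  apply FT.of_smul (a := s) hs0
  have hall := plane_all o hκ2 (v := s • Ph F₀ P y) (a := u) (by rw [o.smul_left, o.toSFm.smul_right, hyy, mul_zero, mul_zero]) huu hav
    (a₁ := k₂ * N) (mul_ne_zero hk₂0 hN0) (by
      have := hTy 1 (E0 τ F₀).one_mem
      rwa [one_mul] at this) hT (by
      intro K hK
      have m1 : k₂ * N ∈ K := by
        apply hK
        have := hTy 1 (E0 τ F₀).one_mem
        rwa [one_mul] at this
      have hle : E0 τ F₀ ≤ K := by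
        intro c hc
        have := K.div_mem (hK _ (hTy c hc)) m1
        rwa [mul_div_cancel_right₀ _ (mul_ne_zero hk₂0 hN0)] at this
      have m2 : N ∈ K := by
        have := K.div_mem m1 (hle hk₂F)
        rwa [mul_div_cancel_left₀ _ hk₂0] at this
      exact gen_top h hr hcard hle m2 hNF) (by
      rcases hsize with ⟨e, he, heb⟩ | hs2
      · left
        refine ⟨e * (k₂ * N), hTy e he, fun c hc h0 => heb ?_⟩
        rw [mul_right_cancel₀ (mul_ne_zero hk₂0 hN0) h0]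
        exact hc
      · right; exact hs2)
  intro d hd
  have hdE : d / κ ∈ Ef τ := by
    rw [mem_Ef, map_div₀, hτκ, (show τ d = -d by linear_combination hd), neg_div_neg_eq]
  have := hall ⟨_, hdE⟩
  rwa [mul_div_cancel₀ _ hκ0] at this

end Cfsg.Agent.H21.GUw
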