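import Mathlib
import Cfsg.Agent.GUw5

set_option autoImplicit false

/-! unitary groups over subfields of odd index, VI: hermitian matrices on a totally isotropic plane (characteristic two) -/

namespace Cfsg.Agent.H21.GUw

open Matrix Module Cfsg.Geo Cfsg.Agent.H29.Trv Cfsg.Agent.H29.Fm Cfsg.Agent.H21.GUp Cfsg.Agent.H21.GUt Cfsg.Agent.H21.GUv
  Cfsg.Agent.H5 Cfsg.Agent.H5.SL2

open Cfsg.Agent.H21.GUr (Ph Ph_add Ph_smul Ph_zero Ph_neg Ph_sub Ph_inj Ph_ne rt_iff Ph_rt)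

variable {F : Type*} [Field F] {n : ℕ} {F₀ : Subfield F} {P : GL (Fin n) F}
variable {τ : F ≃+* F} {f : (Fin n → F) → (Fin n → F) → F} {M : Subgroup (GL (Fin n) F)}

/-- `M` contains the element of the radical of the stabiliser of the plane with the given hermitian matrix -/
def LM (τ : F ≃+* F) (f : (Fin n → F) → (Fin n → F) → F) (M : Subgroup (GL (Fin n) F)) (V₁ V₂ : Fin n → F) (p q r : F) : Prop :=
  (τ p = p ∧ τ r = r) ∧ ∃ g ∈ M, ∀ x, (g : Matrix (Fin n) (Fin n) F) *ᵥ x =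
    x + (p * f x V₁ + q * f x V₂) • V₁ + (τ q * f x V₁ + r * f x V₂) • V₂

theorem LM.swap (hinv : ∀ a, τ (τ a) = a) {V₁ V₂ : Fin n → F} {p q r : F} (h : LM τ f M V₁ V₂ p q r) : LM τ f M V₂ V₁ r (τ q) p := by
  obtain ⟨⟨hp, hr⟩, g, hg, hgx⟩ := h
  refine ⟨⟨hr, hp⟩, g, hg, fun x => ?_⟩
  rw [hgx, hinv]
  module

theorem LM.add (o : UF τ f) {V₁ V₂ : Fin n → F} (h11 : f V₁ V₁ = 0) (h12 : f V₁ V₂ = 0) (h22 : f V₂ V₂ = 0) {p q r p' q' r' : F}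
    (h : LM τ f M V₁ V₂ p q r) (h' : LM τ f M V₁ V₂ p' q' r') : LM τ f M V₁ V₂ (p + p') (q + q') (r + r') := by
  have h21 := o.zero_symm h12
  obtain ⟨⟨hp, hr⟩, g, hg, hgx⟩ := h
  obtain ⟨⟨hp', hr'⟩, g', hg', hgx'⟩ := h'
  refine ⟨⟨by rw [map_add, hp, hp'], by rw [map_add, hr, hr']⟩, g * g', M.mul_mem hg hg', fun x => ?_⟩
  rw [Cfsg.Agent.H29.Trv.mul_apply, hgx', hgx]
  simp only [o.add_left, o.smul_left, h11, h12, h21, h22, map_add]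
  module

theorem LM.conj (o : UF τ f) (hi : GUp.Iso f M) {V₁ V₂ : Fin n → F} {p q r s : F} {k : GL (Fin n) F} (hk : k ∈ M)
    (hk1 : (k : Matrix (Fin n) (Fin n) F) *ᵥ V₁ = V₁) (hk2 : (k : Matrix (Fin n) (Fin n) F) *ᵥ V₂ = V₂ + s • V₁)
    (h : LM τ f M V₁ V₂ p q r) : LM τ f M V₁ V₂ (p + (q * τ s + s * τ q) + s * τ s * r) (q + s * r) r := by
  obtain ⟨⟨hp, hr⟩, g, hg, hgx⟩ := h
  have hiso := hi k hk
  have e1 : ∀ x, f (((k⁻¹ : GL (Fin n) F) : Matrix (Fin n) (Fin n) F) *ᵥ x) V₁ = f x V₁ := by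
    intro x
    rw [← hiso, self_inv_mulVec, hk1]
  have e2 : ∀ x, f (((k⁻¹ : GL (Fin n) F) : Matrix (Fin n) (Fin n) F) *ᵥ x) V₂ = f x V₂ + τ s * f x V₁ := by
    intro x
    rw [← hiso, self_inv_mulVec, hk2, o.toSFm.add_right, o.toSFm.smul_right]
  refine ⟨⟨?_, hr⟩, k * g * k⁻¹, M.mul_mem (M.mul_mem hk hg) (M.inv_mem hk), fun x => ?_⟩
  · simp only [map_add, map_mul, o.inv, hp, hr]
    ring
  · rw [Cfsg.Agent.H29.Trv.mul_apply, Cfsg.Agent.H29.Trv.mul_apply, hgx, mulVec_add, mulVec_add, mulVec_smul, mulVec_smul, hk1, hk2,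
      self_inv_mulVec, e1, e2, map_add, map_mul, hr]
    module

theorem LM.to_T (o : UF τ f) {V₁ V₂ : Fin n → F} (h11 : f V₁ V₁ = 0) {p : F} (h : LM τ f M V₁ V₂ p 0 0) :
    T M V₁ (p • fr o.LL V₁) := by
  obtain ⟨-, g, hg, hgx⟩ := h
  refine ⟨by rw [LinearMap.smul_apply, fr_apply, h11, smul_zero], g, hg, fun x => ?_⟩
  rw [hgx, map_zero, LinearMap.smul_apply, fr_apply, smul_eq_mul]
  simp

theorem LM_of_T (o : UF τ f) {V₁ V₂ : Fin n → F} {α β : F} (h : T M (α • V₁ + β • V₂) ((1 : F) • fr o.LL (α • V₁ + β • V₂))) :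
    LM τ f M V₁ V₂ (α * τ α) (α * τ β) (β * τ β) := by
  obtain ⟨-, g, hg, hgx⟩ := h
  refine ⟨⟨by rw [map_mul, o.inv, mul_comm], by rw [map_mul, o.inv, mul_comm]⟩, g, hg, fun x => ?_⟩
  rw [hgx, one_smul, fr_apply, o.toSFm.add_right, o.toSFm.smul_right, o.toSFm.smul_right, map_mul, o.inv]
  module

/-- rational moves of the plane -/
theorem exists_move [Fintype F] (h : UX τ f F₀ P) (hn : 4 ≤ n)
    (hK : ∀ a b, f0 h a a = 0 → f0 h b b = 0 → f0 h a b = 0 → KM f 1 M (Ph F₀ P a) (Ph F₀ P b))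
    {v₁ v₂ : Fin n → F₀} (h11 : f0 h v₁ v₁ = 0) (h12 : f0 h v₁ v₂ = 0) (hv₁ : v₁ ≠ 0)
    (hns : v₂ ∉ Submodule.span F₀ {v₁}) (s : F₀) : ∃ k ∈ M, (k : Matrix (Fin n) (Fin n) F) *ᵥ Ph F₀ P v₁ = Ph F₀ P v₁ ∧
      (k : Matrix (Fin n) (Fin n) F) *ᵥ Ph F₀ P v₂ = Ph F₀ P v₂ + (s : F) • Ph F₀ P v₁ := by
  haveI : Fintype F₀ := Fintype.ofFinite _
  have o := h.uF
  obtain ⟨w, hw, hwv₁, hwv₂⟩ := o.iso_sep hn hv₁ hns
  have hv₂w := o.ne_symm hwv₂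
  set c : F₀ := tau0 h (s / f0 h v₂ w) with hc
  obtain ⟨k, hk, hkx⟩ := hK v₁ (c • w) h11 (by rw [o.smul_left, o.toSFm.smul_right, hw, mul_zero, mul_zero])
    (by rw [o.toSFm.smul_right, o.zero_symm hwv₁, mul_zero])
  have e1 : f0 h v₁ (c • w) = 0 := by rw [o.toSFm.smul_right, o.zero_symm hwv₁, mul_zero]
  have e2 : f0 h v₂ (c • w) = s := by rw [o.toSFm.smul_right, hc, o.inv, div_mul_cancel₀ _ hv₂w]
  refine ⟨k, hk, ?_, ?_⟩
  · rw [hkx, ← f0_coe h, ← f0_coe h, e1, h11]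
    simp
  · rw [hkx, ← f0_coe h, ← f0_coe h, e2, o.zero_symm h12]
    simp

/-- an irrational hermitian matrix gives an irrational transvection -/
theorem lemH [Fintype F] (h : UX τ f F₀ P) (hn : 4 ≤ n) (h2 : (2 : F) = 0) (hi : GUp.Iso f M)
    (hK : ∀ a b, f0 h a a = 0 → f0 h b b = 0 → f0 h a b = 0 → KM f 1 M (Ph F₀ P a) (Ph F₀ P b))
    {v₁ v₂ : Fin n → F₀} (h11 : f0 h v₁ v₁ = 0) (h12 : f0 h v₁ v₂ = 0) (h22 : f0 h v₂ v₂ = 0) (hv₁ : v₁ ≠ 0)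
    (hns : v₂ ∉ Submodule.span F₀ {v₁}) {p q r : F} (hL : LM τ f M (Ph F₀ P v₁) (Ph F₀ P v₂) p q r)
    (hirr : r ∉ F₀ ∨ (r ∈ F₀ ∧ q ∉ F₀)) : ∃ c : F, c ∉ F₀ ∧ τ c = c ∧ T M (Ph F₀ P v₁) (c • fr h.toUF.LL (Ph F₀ P v₁)) := by
  have o := h.toUF
  have g11 : f (Ph F₀ P v₁) (Ph F₀ P v₁) = 0 := congrArg Subtype.val h11
  have g12 : f (Ph F₀ P v₁) (Ph F₀ P v₂) = 0 := congrArg Subtype.val h12
  have g22 : f (Ph F₀ P v₂) (Ph F₀ P v₂) = 0 := congrArg Subtype.val h22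
  have two : ∀ x : F, x + x = 0 := fun x => by linear_combination x * h2
  obtain ⟨ζ, hζ, hζζ⟩ := h.mv
  have hD : ∀ s : F₀, LM τ f M (Ph F₀ P v₁) (Ph F₀ P v₂) (q * τ s + s * τ q + s * τ s * r) (s * r) 0 := by
    intro s
    obtain ⟨k, hk, hk1, hk2⟩ := exists_move h hn hK h11 h12 hv₁ hns s
    have h3 := (hL.conj o hi hk hk1 hk2).add o g11 g12 g22 hL
    have e1 : p + (q * τ (s : F) + s * τ q) + s * τ s * r + p = q * τ s + s * τ q + s * τ s * r := by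
      linear_combination p * h2
    have e2 : q + (s : F) * r + q = s * r := by linear_combination q * h2
    rw [e1, e2, two] at h3
    exact h3
  rcases hirr with hr | ⟨hr, hq⟩
  · -- r irrational
    obtain ⟨k, hk, hk1, hk2⟩ := exists_move h hn hK h11 h12 hv₁ hns 1
    have h3 := hD ⟨ζ, hζ⟩
    have h4 := (h3.conj o hi hk hk1 hk2).add o g11 g12 g22 h3
    have hτr := hL.1.2
    have e1 : ∀ A : F, A + (ζ * r * τ ((1 : F₀) : F) + ((1 : F₀) : F) * τ (ζ * r)) + ((1 : F₀) : F) * τ ((1 : F₀) : F) * 0 + A =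
        (ζ - τ ζ) * r := by
      intro A
      show A + (ζ * r * τ (1 : F) + (1 : F) * τ (ζ * r)) + (1 : F) * τ (1 : F) * 0 + A = (ζ - τ ζ) * r
      rw [map_one, map_mul, hτr]
      linear_combination (A + τ ζ * r) * h2
    have e2 : ζ * r + ((1 : F₀) : F) * 0 + ζ * r = 0 := by
      show ζ * r + (1 : F) * 0 + ζ * r = 0
      linear_combination ζ * r * h2
    have h5 : LM τ f M (Ph F₀ P v₁) (Ph F₀ P v₂) ((ζ - τ ζ) * r) 0 0 := by
      have h6 := h4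
      rw [e1, two 0] at h6
      have h7 : ((⟨ζ, hζ⟩ : F₀) : F) * r + ((1 : F₀) : F) * 0 + ((⟨ζ, hζ⟩ : F₀) : F) * r = 0 := e2
      rw [h7] at h6
      exact h6
    have hd : ζ - τ ζ ≠ 0 := fun h0 => hζζ (sub_eq_zero.1 h0).symm
    refine ⟨(ζ - τ ζ) * r, fun hm => hr ?_, h5.1.1, h5.to_T o g11⟩
    have := F₀.div_mem hm (F₀.sub_mem hζ (h.stab ζ hζ))
    rwa [mul_div_cancel_left₀ _ hd] at this
  · -- q irrational
    have hrat : ∀ s : F₀, LM τ f M (Ph F₀ P v₁) (Ph F₀ P v₂) 0 (s * r) 0 := by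
      intro s
      have hsr : (s : F) * r ∈ F₀ := F₀.mul_mem s.2 hr
      obtain ⟨k, hk, hkx⟩ := hK ((⟨_, hsr⟩ : F₀) • v₁) v₂ (by
        have o' := h.uF
        rw [o'.smul_left, o'.toSFm.smul_right, h11, mul_zero, mul_zero]) h22 (by
        rw [h.uF.smul_left, h12, mul_zero])
      refine ⟨⟨map_zero _, map_zero _⟩, k, hk, fun x => ?_⟩
      rw [hkx, Ph_smul, h.toSFm.smul_right, one_mul]
      have e : -(τ ((s : F) * r) * f x (Ph F₀ P v₁)) = τ ((s : F) * r) * f x (Ph F₀ P v₁) := by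
        linear_combination -(τ ((s : F) * r) * f x (Ph F₀ P v₁)) * h2
      have e3 : (τ (((⟨_, hsr⟩ : F₀) : F)) * f x (Ph F₀ P v₁)) • Ph F₀ P v₂ = -((τ ((s : F) * r) * f x (Ph F₀ P v₁)) • Ph F₀ P v₂) := by
        show (τ ((s : F) * r) * f x (Ph F₀ P v₁)) • Ph F₀ P v₂ = _
        rw [← neg_smul, e]
      rw [e3]
      show x + f x (Ph F₀ P v₂) • (((s : F) * r) • Ph F₀ P v₁) - -((τ ((s : F) * r) * f x (Ph F₀ P v₁)) • Ph F₀ P v₂) = _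
      module
    have hx : ∀ s : F₀, LM τ f M (Ph F₀ P v₁) (Ph F₀ P v₂) (q * τ s + s * τ q + s * τ s * r) 0 0 := by
      intro s
      have h3 := (hD s).add o g11 g12 g22 (hrat s)
      rw [add_zero, add_zero, two] at h3
      exact h3
    by_cases c1 : q * τ ((1 : F₀) : F) + ((1 : F₀) : F) * τ q + ((1 : F₀) : F) * τ ((1 : F₀) : F) * r ∈ F₀
    · have c2 : q * τ (((⟨ζ, hζ⟩ : F₀) : F)) + ((⟨ζ, hζ⟩ : F₀) : F) * τ q + ((⟨ζ, hζ⟩ : F₀) : F) * τ ((⟨ζ, hζ⟩ : F₀) : F) * r ∉ F₀ := by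
        intro c2
        apply hq
        have c1' : q + τ q ∈ F₀ := by
          have := F₀.sub_mem c1 hr
          have e : q * τ ((1 : F₀) : F) + ((1 : F₀) : F) * τ q + ((1 : F₀) : F) * τ ((1 : F₀) : F) * r - r = q + τ q := by
            show q * τ (1 : F) + (1 : F) * τ q + (1 : F) * τ (1 : F) * r - r = q + τ q
            rw [map_one]; ring
          rwa [e] at this
        have c2' : q * τ ζ + ζ * τ q ∈ F₀ := by
          have := F₀.sub_mem c2 (F₀.mul_mem (F₀.mul_mem hζ (h.stab ζ hζ)) hr)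
          have e : q * τ (((⟨ζ, hζ⟩ : F₀) : F)) + ((⟨ζ, hζ⟩ : F₀) : F) * τ q + ((⟨ζ, hζ⟩ : F₀) : F) * τ ((⟨ζ, hζ⟩ : F₀) : F) * r -
              ζ * τ ζ * r = q * τ ζ + ζ * τ q := by
            show q * τ ζ + ζ * τ q + ζ * τ ζ * r - ζ * τ ζ * r = q * τ ζ + ζ * τ q
            ring
          rwa [e] at this
        have hd : ζ - τ ζ ≠ 0 := fun h0 => hζζ (sub_eq_zero.1 h0).symm
        have h6 : (ζ - τ ζ) * q ∈ F₀ := by
          have := F₀.sub_mem (F₀.mul_mem hζ c1') c2'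
          have e : ζ * (q + τ q) - (q * τ ζ + ζ * τ q) = (ζ - τ ζ) * q := by ring
          rwa [e] at this
        have := F₀.div_mem h6 (F₀.sub_mem hζ (h.stab ζ hζ))
        rwa [mul_div_cancel_left₀ _ hd] at this
      exact ⟨_, c2, (hx ⟨ζ, hζ⟩).1.1, (hx ⟨ζ, hζ⟩).to_T o g11⟩
    · exact ⟨_, c1, (hx 1).1.1, (hx 1).to_T o g11⟩

end Cfsg.Agent.H21.GUw
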