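import Mathlib
import Cfsg.Agent.GUw6

set_option autoImplicit false

/-! unitary groups over subfields of odd index, VII: the exceptional case -/

namespace Cfsg.Agent.H21.GUw

open Matrix Module Cfsg.Geo Cfsg.Agent.H29.Trv Cfsg.Agent.H29.Fm Cfsg.Agent.H21.GUp Cfsg.Agent.H21.GUt Cfsg.Agent.H21.GUv
  Cfsg.Agent.H5 Cfsg.Agent.H5.SL2

open Cfsg.Agent.H21.GUr (Ph Ph_add Ph_smul Ph_zero Ph_neg Ph_sub Ph_inj Ph_ne rt_iff Ph_rt)

variable {F : Type*} [Field F] {n : ℕ} {F₀ : Subfield F} {P : GL (Fin n) F}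
variable {τ : F ≃+* F} {f : (Fin n → F) → (Fin n → F) → F} {M : Subgroup (GL (Fin n) F)}

/-- irrational norms -/
theorem norm_irr (h : UX τ f F₀ P) {σ : F} (hσ : σ ∉ F₀) : ∃ α β : F₀, (α + β * σ) * τ (α + β * σ) ∉ F₀ := by
  by_contra hcon
  push Not at hcon
  apply hσ
  obtain ⟨ζ, hζ, hζζ⟩ := h.mv
  have hd : ζ - τ ζ ≠ 0 := fun h0 => hζζ (sub_eq_zero.1 h0).symm
  have n1 : σ * τ σ ∈ F₀ := by
    have := hcon 0 1
    have e : (((0 : F₀) : F) + ((1 : F₀) : F) * σ) * τ (((0 : F₀) : F) + ((1 : F₀) : F) * σ) = σ * τ σ := by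
      show ((0 : F) + 1 * σ) * τ ((0 : F) + 1 * σ) = σ * τ σ
      rw [zero_add, one_mul]
    rwa [e] at this
  have tr : ∀ t : F₀, (t : F) * σ + τ t * τ σ ∈ F₀ := by
    intro t
    have h1 := hcon 1 t
    have h2 := F₀.sub_mem (F₀.sub_mem h1 F₀.one_mem) (F₀.mul_mem (F₀.mul_mem t.2 (h.stab t t.2)) n1)
    have e : (((1 : F₀) : F) + t * σ) * τ (((1 : F₀) : F) + t * σ) - 1 - t * τ t * (σ * τ σ) = (t : F) * σ + τ t * τ σ := by
      show ((1 : F) + t * σ) * τ ((1 : F) + t * σ) - 1 - t * τ t * (σ * τ σ) = _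
      rw [map_add, map_mul, map_one]; ring
    rwa [e] at h2
  have t1 : σ + τ σ ∈ F₀ := by
    have := tr 1
    have e : ((1 : F₀) : F) * σ + τ ((1 : F₀) : F) * τ σ = σ + τ σ := by
      show (1 : F) * σ + τ (1 : F) * τ σ = σ + τ σ
      rw [map_one]; ring
    rwa [e] at this
  have t2 : ζ * σ + τ ζ * τ σ ∈ F₀ := tr ⟨ζ, hζ⟩
  have h3 : (ζ - τ ζ) * σ ∈ F₀ := by
    have := F₀.sub_mem t2 (F₀.mul_mem (h.stab ζ hζ) t1)
    have e : ζ * σ + τ ζ * τ σ - τ ζ * (σ + τ σ) = (ζ - τ ζ) * σ := by ring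
    rwa [e] at this
  have := F₀.div_mem h3 (F₀.sub_mem hζ (h.stab ζ hζ))
  rwa [mul_div_cancel_left₀ _ hd] at this

/-- the torus elements of the three generator group -/
theorem torus [Fintype F] (h : UX τ f F₀ P) {r : ℕ} (hr : r.Prime) (hcard : Fintype.card F = Nat.card F₀ ^ r)
    (hE0 : ∀ c ∈ E0 τ F₀, c = 0 ∨ c = 1)
    {u : Fin n → F} (huu : f u u = 0) (hT : T M u ((1 : F) • fr h.toUF.LL u)) {V₁ V₂ : Fin n → F}
    (h11 : f V₁ V₁ = 0) (h12 : f V₁ V₂ = 0) (h22 : f V₂ V₂ = 0)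
    (hR : ∀ α β : F₀, T M ((α : F) • V₁ + (β : F) • V₂) ((1 : F) • fr h.toUF.LL ((α : F) • V₁ + (β : F) • V₂)))
    (hφ : f V₁ u ≠ 0) (hσ : f V₂ u / f V₁ u ∉ F₀) {t : F} (ht : t ∈ Ef τ) (ht0 : t ≠ 0) :
    ∃ g ∈ M, ∃ j : F, (g : Matrix (Fin n) (Fin n) F) *ᵥ V₁ = t • V₁ + j • (V₂ - (f V₂ u / f V₁ u) • V₁) := by
  haveI : Fintype (Ef τ) := Fintype.ofFinite _
  have o := h.toUF
  have h21 := o.zero_symm h12
  set σ := f V₂ u / f V₁ u with hσd
  set w₀ := V₂ - σ • V₁ with hw₀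
  have w1 : f w₀ V₁ = 0 := by rw [hw₀, o.toSFm.sub_left, o.smul_left, h21, h11, mul_zero, sub_zero]
  have w2 : f w₀ V₂ = 0 := by rw [hw₀, o.toSFm.sub_left, o.smul_left, h22, h12, mul_zero, sub_zero]
  have wu : f w₀ u = 0 := by rw [hw₀, o.toSFm.sub_left, o.smul_left, hσd, div_mul_cancel₀ _ hφ, sub_self]
  have uw := o.zero_symm wu
  have hφ' := o.ne_symm hφ
  obtain ⟨s, hs⟩ : ∃ s, s = τ ((f u V₁)⁻¹) := ⟨_, rfl⟩
  have hs0 : s ≠ 0 := by
    rw [hs]
    exact (map_ne_zero τ).2 (inv_ne_zero hφ')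
  have hτs : τ s = (f u V₁)⁻¹ := by rw [hs, o.inv]
  have huv : f u (s • V₁) = 1 := by
    rw [o.toSFm.smul_right, hτs, inv_mul_cancel₀ hφ']
  have hvu : f (s • V₁) u = 1 := by rw [← o.sw, huv, map_one]
  have hs1 : s * f V₁ u = 1 := by rw [← hvu, o.smul_left]
  let K : Submodule F (Fin n → F) := (LinearMap.ker (fr o.LL V₁) ⊓ LinearMap.ker (fr o.LL V₂)) ⊓ LinearMap.ker (fr o.LL u)
  let W : Submodule F (Fin n → F) := Submodule.span F {V₁, V₂, u}
  have W1 : V₁ ∈ W := Submodule.subset_span (by simp)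
  have W2 : V₂ ∈ W := Submodule.subset_span (by simp)
  have Wu : u ∈ W := Submodule.subset_span (by simp)
  have hRK : Submodule.span F {w₀} ≤ K := by
    rw [Submodule.span_singleton_le_iff_mem]
    exact ⟨⟨w1, w2⟩, wu⟩
  have hRW : Submodule.span F {w₀} ≤ W := by
    rw [Submodule.span_singleton_le_iff_mem]
    exact W.sub_mem W2 (W.smul_mem _ W1)
  obtain ⟨Γ, hΓ⟩ : ∃ Γ, Γ = (Gam M (s • V₁) u (Submodule.span F {w₀}) K W hRK (W.smul_mem _ W1) Wu hRW).comap (mp (Ef τ)) := ⟨_, rfl⟩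
  have hmem : ∀ γ : S (Ef τ), γ ∈ Γ ↔ mp (Ef τ) γ ∈ Gam M (s • V₁) u (Submodule.span F {w₀}) K W hRK (W.smul_mem _ W1) Wu hRW := by
    intro γ
    rw [hΓ]
    exact Iff.rfl
  have hNE : ∀ x : F, x * τ x ∈ Ef τ := fun x => by rw [mem_Ef, map_mul, h.inv, mul_comm]
  -- upper elements
  have mu : ∀ α β : F₀, SL2.u (⟨((α : F) + β * σ) / s * τ (((α : F) + β * σ) / s), hNE _⟩ : Ef τ) ∈ Γ := by
    intro α β
    obtain ⟨-, g, hg, hgx⟩ := hR α β
    rw [hmem, mp_u, mem_Gam]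
    set y := (α : F) • V₁ + (β : F) • V₂ with hy
    have hy' : y = (((α : F) + β * σ) / s) • (s • V₁) + (β : F) • w₀ := by
      rw [smul_smul, div_mul_cancel₀ _ hs0, hy, hw₀]
      module
    have hgx' : ∀ x, (g : Matrix (Fin n) (Fin n) F) *ᵥ x = x + f x y • y := by
      intro x
      rw [hgx, one_smul]
      rfl
    have f1 : f V₁ y = 0 := by
      rw [hy, o.toSFm.add_right, o.toSFm.smul_right, o.toSFm.smul_right, h11, h12, mul_zero, mul_zero, add_zero]
    have fu : f u y = τ (((α : F) + β * σ) / s) := by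
      rw [hy', o.toSFm.add_right, o.toSFm.smul_right (((α : F) + β * σ) / s), o.toSFm.smul_right (β : F), uw, huv, mul_one, mul_zero, add_zero]
    refine ⟨g, hg, ?_, ?_, ?_, ?_⟩
    · rw [hgx', o.smul_left, f1, mul_zero, zero_smul, add_zero, u00, u10, one_smul, zero_smul, add_zero, sub_self]
      exact Submodule.zero_mem _
    · rw [hgx', fu, u01, u11, one_smul]
      refine Submodule.mem_span_singleton.2 ⟨τ (((α : F) + β * σ) / s) * β, ?_⟩
      show _ = u + τ (((α : F) + β * σ) / s) • y - ((((α : F) + β * σ) / s * τ (((α : F) + β * σ) / s)) • s • V₁ + u)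
      have e : u + τ (((α : F) + β * σ) / s) • y = u + τ (((α : F) + β * σ) / s) • ((((α : F) + β * σ) / s) • (s • V₁) + (β : F) • w₀) := by
        rw [← hy']
      rw [e]
      module
    · intro x hx
      have e1 : f x V₁ = 0 := hx.1.1
      have e2 : f x V₂ = 0 := hx.1.2
      have e3 : f x y = 0 := by
        rw [hy, o.toSFm.add_right, o.toSFm.smul_right, o.toSFm.smul_right, e1, e2, mul_zero, mul_zero, add_zero]
      rw [hgx', e3, zero_smul, add_zero]
    · intro x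
      rw [hgx', add_sub_cancel_left]
      exact W.smul_mem _ (W.add_mem (W.smul_mem _ W1) (W.smul_mem _ W2))
  have ml : l (1 : Ef τ) ∈ Γ := by
    obtain ⟨-, g, hg, hgx⟩ := hT
    rw [hmem, mp_l, mem_Gam]
    have hgx' : ∀ x, (g : Matrix (Fin n) (Fin n) F) *ᵥ x = x + f x u • u := by
      intro x
      rw [hgx, one_smul]
      rfl
    refine ⟨g, hg, ?_, ?_, ?_, ?_⟩
    · rw [hgx', hvu, l00, l10, one_smul, one_smul]
      show s • V₁ + u - (s • V₁ + (1 : F) • u) ∈ _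
      rw [one_smul, sub_self]
      exact Submodule.zero_mem _
    · rw [hgx', huu, l01, l11, zero_smul, one_smul, zero_smul, add_zero, zero_add, sub_self]
      exact Submodule.zero_mem _
    · intro x hx
      have e3 : f x u = 0 := hx.2
      rw [hgx', e3, zero_smul, add_zero]
    · intro x
      rw [hgx', add_sub_cancel_left]
      exact W.smul_mem _ Wu
  obtain ⟨α, β, hN⟩ := norm_irr h hσ
  have hτs0 : τ s ≠ 0 := (map_ne_zero τ).2 hs0
  set a₁ : Ef τ := ⟨(((1 : F₀) : F) + ((0 : F₀) : F) * σ) / s * τ ((((1 : F₀) : F) + ((0 : F₀) : F) * σ) / s), hNE _⟩ with ha₁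
  set a₂ : Ef τ := ⟨((α : F) + β * σ) / s * τ (((α : F) + β * σ) / s), hNE _⟩ with ha₂
  have ha₁v : (a₁ : F) = (s * τ s)⁻¹ := by
    show (((1 : F₀) : F) + ((0 : F₀) : F) * σ) / s * τ ((((1 : F₀) : F) + ((0 : F₀) : F) * σ) / s) = (s * τ s)⁻¹
    show ((1 : F) + (0 : F) * σ) / s * τ (((1 : F) + (0 : F) * σ) / s) = (s * τ s)⁻¹
    rw [zero_mul, add_zero, map_div₀, map_one]
    field_simp
  have ha₂v : (a₂ : F) = ((α : F) + β * σ) * τ ((α : F) + β * σ) * (s * τ s)⁻¹ := by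
    show ((α : F) + β * σ) / s * τ (((α : F) + β * σ) / s) = _
    rw [map_div₀]
    field_simp
  have ha₁0 : a₁ ≠ 0 := by
    intro h0
    have : (a₁ : F) = 0 := congrArg Subtype.val h0
    rw [ha₁v] at this
    exact inv_ne_zero (mul_ne_zero hs0 hτs0) this
  obtain ⟨N, hNd⟩ : ∃ N : Ef τ, (N : F) = ((α : F) + β * σ) * τ ((α : F) + β * σ) := ⟨⟨_, hNE _⟩, rfl⟩
  have ha₂N : a₂ = N * a₁ := by
    apply Subtype.ext
    show (a₂ : F) = N * a₁
    rw [ha₂v, ha₁v, hNd]
  have hNF : N ∉ E0 τ F₀ := by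
    rw [mem_E0, hNd]
    exact hN
  have htop : Γ = ⊤ := by
    refine sl2_top Γ (mu 1 0) (mu α β) ml ha₁0 one_ne_zero ?_ ?_
    · intro c hc h0
      apply hNF
      have h1 : N * a₁ = c * a₁ := by rw [← ha₂N]; exact h0
      rw [mul_right_cancel₀ ha₁0 h1]
      exact (bot_le : (⊥ : Subfield (Ef τ)) ≤ E0 τ F₀) hc
    · intro K' hK'
      have k1 : a₁ ∈ K' := by
        have := hK' _ (mu 1 0)
        rwa [mul_one] at this
      have k2 : N * a₁ ∈ K' := by
        have := hK' _ (mu α β)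
        rw [mul_one] at this
        rwa [← ha₂N]
      refine gen_top h hr hcard (fun c hc => ?_) (x := N) ?_ hNF
      · rcases hE0 c hc with rfl | rfl
        · exact K'.zero_mem
        · exact K'.one_mem
      · have := K'.div_mem k2 k1
        rwa [mul_div_cancel_right₀ _ ha₁0] at this
  have hd : SL2.d (Units.mk0 (⟨t, ht⟩ : Ef τ) (fun h0 => ht0 (congrArg Subtype.val h0))) ∈ Γ := by rw [htop]; trivial
  rw [hmem, mem_Gam] at hd
  obtain ⟨g, hg, h1, -, -, -⟩ := hd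
  rw [mp_apply, mp_apply, d00, d10] at h1
  obtain ⟨j, hj⟩ := Submodule.mem_span_singleton.1 h1
  refine ⟨g, hg, s⁻¹ * j, ?_⟩
  have hj' : j • w₀ = s • ((g : Matrix (Fin n) (Fin n) F) *ᵥ V₁) - t • (s • V₁) := by
    rw [hj, mulVec_smul]
    show _ - (t • s • V₁ + (0 : F) • u) = _
    rw [zero_smul, add_zero]
  have e : (g : Matrix (Fin n) (Fin n) F) *ᵥ V₁ = s⁻¹ • (s • ((g : Matrix (Fin n) (Fin n) F) *ᵥ V₁)) := by
    rw [smul_smul, inv_mul_cancel₀ hs0, one_smul]
  have e2 : s • ((g : Matrix (Fin n) (Fin n) F) *ᵥ V₁) = j • w₀ + t • (s • V₁) := by rw [hj', sub_add_cancel]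
  have e5 : s⁻¹ * t * s = t := by field_simp
  rw [e, e2, smul_add, smul_smul, smul_smul, smul_smul, e5, add_comm]

/-- one irrational rational-centre transvection suffices -/
theorem irr_full [Fintype F] (h : UX τ f F₀ P) {r : ℕ} (hr : r.Prime) (hcard : Fintype.card F = Nat.card F₀ ^ r) (h2 : (2 : F) = 0)
    (hR : ∀ y, f0 h y y = 0 → T M (Ph F₀ P y) ((1 : F) • fr h.toUF.LL (Ph F₀ P y)))
    (hE0 : ∀ c ∈ E0 τ F₀, c = 0 ∨ c = 1) {y : Fin n → F₀} (hy0 : y ≠ 0) (hy : f0 h y y = 0) {c : F} (hc : c ∉ F₀) (hcτ : τ c = c)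
    (hT : T M (Ph F₀ P y) (c • fr h.toUF.LL (Ph F₀ P y))) : FT h.toUF M (Ph F₀ P y) := by
  haveI : Fintype F₀ := Fintype.ofFinite _
  have o := h.uF
  obtain ⟨y', hy'i, hy'y⟩ : ∃ v' : Fin n → F₀, f0 h v' v' = 0 ∧ f0 h v' y = 1 := by
    obtain ⟨z, hz⟩ := o.nd y hy0
    obtain ⟨a, ha⟩ := o.adj hy hz (l := 0) (map_zero _)
    have hne : f0 h (z + a • y) y ≠ 0 := by
      rw [o.add_left, o.smul_left, hy, mul_zero, add_zero]
      exact hz
    refine ⟨(f0 h (z + a • y) y)⁻¹ • (z + a • y), ?_, ?_⟩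
    · rw [o.smul_left, o.toSFm.smul_right, ha, mul_zero, mul_zero]
    · rw [o.smul_left, inv_mul_cancel₀ hne]
  have k1 : (1 : F) + τ 1 = 0 := by rw [map_one]; linear_combination h2
  have hone : ∀ x : Ef τ, (1 : F) * x = x := fun x => one_mul _
  have hall := plane_all (M := M) h.toUF (κ := 1) k1 (v := Ph F₀ P y) (a := Ph F₀ P y') (congrArg Subtype.val hy) (congrArg Subtype.val hy'i)
    (by rw [one_mul]; exact congrArg Subtype.val hy'y) (a₁ := 1) one_ne_zero (by rw [hone]; exact hR y hy) (hR y' hy'i) (by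
      intro K hK
      have m1 : (1 : Ef τ) ∈ K := K.one_mem
      have m2 : (⟨c, hcτ⟩ : Ef τ) ∈ K := hK _ (by rw [hone]; exact hT)
      refine gen_top h hr hcard (fun d hd => ?_) m2 hc
      rcases hE0 d hd with rfl | rfl
      · exact K.zero_mem
      · exact K.one_mem) (by
      left
      refine ⟨⟨c, hcτ⟩, by rw [hone]; exact hT, fun d hd h0 => hc ?_⟩
      rw [mul_one] at h0
      have : (⟨c, hcτ⟩ : Ef τ) ∈ E0 τ F₀ := by
        rw [h0]
        exact (bot_le : (⊥ : Subfield (Ef τ)) ≤ E0 τ F₀) hd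
      exact this)
  intro d hd
  have hdE : d ∈ Ef τ := by
    rw [mem_Ef]
    linear_combination hd - d * h2
  have := hall ⟨d, hdE⟩
  rw [hone] at this
  exact this

/-- the exceptional case -/
theorem caseII [Fintype F] (h : UX τ f F₀ P) (hn : 4 ≤ n) {r : ℕ} (hr : r.Prime) (hr3 : 3 ≤ r) (hcard : Fintype.card F = Nat.card F₀ ^ r)
    (h2 : (2 : F) = 0) (hi : GUp.Iso f M)
    (hR : ∀ y, f0 h y y = 0 → T M (Ph F₀ P y) ((1 : F) • fr h.toUF.LL (Ph F₀ P y)))
    (hK : ∀ a b, f0 h a a = 0 → f0 h b b = 0 → f0 h a b = 0 → KM f 1 M (Ph F₀ P a) (Ph F₀ P b))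
    (hE0 : ∀ c ∈ E0 τ F₀, c = 0 ∨ c = 1)
    {u : Fin n → F} (huu : f u u = 0) (hu0 : u ≠ 0) (hu : ∀ c : F, c ≠ 0 → ¬ Rt F₀ P (c • u)) (hT : T M u ((1 : F) • fr h.toUF.LL u)) :
    ∃ y : Fin n → F₀, y ≠ 0 ∧ f0 h y y = 0 ∧ FT h.toUF M (Ph F₀ P y) := by
  classical
  haveI : Fintype F₀ := Fintype.ofFinite _
  haveI : Fintype (Ef τ) := Fintype.ofFinite _
  have o := h.uF
  obtain ⟨v₁, v₂, h11, h22, h12, hφ₁, hφ₂, hσ⟩ := pairP h hn hu0 hu
  have h21 := o.zero_symm h12
  set σ := f (Ph F₀ P v₂) u / f (Ph F₀ P v₁) u with hσd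
  have hv₁ : v₁ ≠ 0 := by
    rintro rfl
    rw [Ph_zero, h.toSFm.zero_left] at hφ₁
    exact hφ₁ rfl
  have hv₂ : v₂ ≠ 0 := by
    rintro rfl
    rw [Ph_zero, h.toSFm.zero_left] at hφ₂
    exact hφ₂ rfl
  have hns : v₂ ∉ Submodule.span F₀ {v₁} := by
    intro hm
    obtain ⟨c, hc⟩ := Submodule.mem_span_singleton.1 hm
    apply hσ
    rw [hσd, ← hc, Ph_smul, h.smul_left, mul_div_cancel_right₀ _ hφ₁]
    exact c.2
  have hns' : v₁ ∉ Submodule.span F₀ {v₂} := by
    intro hm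
    obtain ⟨c, hc⟩ := Submodule.mem_span_singleton.1 hm
    apply hσ
    have hc0 : (c : F) ≠ 0 := by
      intro h0
      have : c = 0 := Subtype.ext h0
      rw [this, zero_smul] at hc
      exact hv₁ hc.symm
    rw [hσd, ← hc, Ph_smul, h.smul_left]
    have e : f (Ph F₀ P v₂) u / ((c : F) * f (Ph F₀ P v₂) u) = (c : F)⁻¹ := by
      field_simp
    rw [e]
    exact F₀.inv_mem c.2
  have two : ∀ x : F, x + x = 0 := fun x => by linear_combination x * h2
  -- cardinalities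
  have hcE : 8 ≤ Fintype.card (Ef τ) := by
    rw [← Nat.card_eq_fintype_card, card_Ef h hcard]
    have h1 : 1 < Nat.card (E0 τ F₀) := Finite.one_lt_card
    calc 8 = 2 ^ 3 := by norm_num
      _ ≤ 2 ^ r := Nat.pow_le_pow_right (by norm_num) hr3
      _ ≤ Nat.card (E0 τ F₀) ^ r := Nat.pow_le_pow_left h1 r
  have hcE0 : Nat.card (E0 τ F₀) ≤ 2 := by
    have h1 : ((E0 τ F₀ : Subfield (Ef τ)) : Set (Ef τ)) ⊆ {0, 1} := by
      intro c hc
      exact hE0 c hc
    have h3 := Set.ncard_le_ncard h1 (Set.toFinite _)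
    have h4 : ({0, 1} : Set (Ef τ)).ncard ≤ 2 := Set.ncard_insert_le _ _ |>.trans (by rw [Set.ncard_singleton])
    exact h3.trans h4
  have hcF0 : Fintype.card F₀ ≤ 4 := by
    have h2' := card_fix (tau0 h) (fun x => Subtype.ext (h.inv x)) (by
      obtain ⟨x, hx, hxx⟩ := h.mv
      exact ⟨⟨x, hx⟩, fun h0 => hxx (congrArg Subtype.val h0)⟩)
    have h3 : Nat.card (Ef (tau0 h)) = Nat.card (E0 τ F₀) := by
      apply Nat.card_congr
      refine ⟨fun x => ⟨⟨x.1, congrArg Subtype.val (mem_Ef.1 x.2)⟩, x.1.2⟩, fun x => ⟨⟨x.1, x.2⟩, ?_⟩, fun _ => rfl, fun _ => rfl⟩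
      rw [mem_Ef]
      apply Subtype.ext
      exact mem_Ef.1 x.1.2
    rw [← Nat.card_eq_fintype_card, h2', h3]
    calc Nat.card (E0 τ F₀) ^ 2 ≤ 2 ^ 2 := Nat.pow_le_pow_left hcE0 2
      _ = 4 := by norm_num
  obtain ⟨t, htS⟩ : ∃ t : Ef τ, (t : F) * t ∉ ({0, 1, σ * τ σ} : Finset F) ∪
      ((Finset.univ : Finset F₀).erase 0).image (fun y : F₀ => (1 + (y : F) * σ) * τ (1 + (y : F) * σ)) := by
    by_contra hcon
    push Not at hcon
    have hinj : Function.Injective (fun t : Ef τ => (t : F) * t) := by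
      intro a b hab
      simp only at hab
      apply Subtype.ext
      have : ((a : F) - b) * (a - b) = 0 := by linear_combination hab + (b * b - (a : F) * b) * h2
      exact sub_eq_zero.1 (mul_self_eq_zero.1 this)
    have h3 : ((Finset.univ : Finset (Ef τ)).image (fun t : Ef τ => (t : F) * t)) ⊆ ({0, 1, σ * τ σ} : Finset F) ∪
      ((Finset.univ : Finset F₀).erase 0).image (fun y : F₀ => (1 + (y : F) * σ) * τ (1 + (y : F) * σ)) := by
      intro x hx
      obtain ⟨t, -, rfl⟩ := Finset.mem_image.1 hx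
      exact hcon t
    have h4 := Finset.card_le_card h3
    rw [Finset.card_image_of_injective _ hinj, Finset.card_univ] at h4
    have h5 := Finset.card_union_le ({0, 1, σ * τ σ} : Finset F) (((Finset.univ : Finset F₀).erase 0).image
      (fun y : F₀ => (1 + (y : F) * σ) * τ (1 + (y : F) * σ)))
    have h6 : ({0, 1, σ * τ σ} : Finset F).card ≤ 3 := Finset.card_le_three
    have h7 : (((Finset.univ : Finset F₀).erase 0).image (fun y : F₀ => (1 + (y : F) * σ) * τ (1 + (y : F) * σ))).card ≤ 3 := by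
      refine Finset.card_image_le.trans ?_
      rw [Finset.card_erase_of_mem (Finset.mem_univ _), Finset.card_univ]
      omega
    omega
  rw [Finset.mem_union, not_or] at htS
  obtain ⟨ht1, ht2⟩ := htS
  simp only [Finset.mem_insert, Finset.mem_singleton, not_or] at ht1
  obtain ⟨ht0, ht1, htσ⟩ := ht1
  have ht0' : (t : F) ≠ 0 := by
    intro h0
    apply ht0
    rw [h0, mul_zero]
  have tt : τ (t : F) = t := mem_Ef.1 t.2
  obtain ⟨g, hg, j, hgV⟩ := torus (M := M) h hr hcard hE0 huu hT (V₁ := Ph F₀ P v₁) (V₂ := Ph F₀ P v₂) (congrArg Subtype.val h11)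
    (congrArg Subtype.val h12) (congrArg Subtype.val h22) (by
      intro α β
      have := hR (α • v₁ + β • v₂) (by
        rw [o.add_left, o.toSFm.add_right, o.toSFm.add_right, o.smul_left, o.smul_left, o.toSFm.smul_right, o.toSFm.smul_right,
          o.smul_left, o.toSFm.smul_right, o.smul_left, o.toSFm.smul_right, h11, h12, h21, h22]
        ring)
      rwa [Ph_add, Ph_smul, Ph_smul] at this) hφ₁ hσ t.2 ht0'
  have h3 := T_conjS h.sg hi (hR v₁ h11) hg
  rw [← hσd] at hgV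
  set α := (t : F) - j * σ with hα
  have hgV' : (g : Matrix (Fin n) (Fin n) F) *ᵥ Ph F₀ P v₁ = α • Ph F₀ P v₁ + j • Ph F₀ P v₂ := by
    rw [hgV, hα]
    module
  rw [hgV'] at h3
  have hL := LM_of_T h.toUF h3
  have hEm : ∀ x : F, τ (x * τ x) = x * τ x := fun x => by rw [map_mul, h.inv, mul_comm]
  have fin1 : ∀ c : F, c ∉ F₀ → τ c = c → T M (Ph F₀ P v₁) (c • fr h.toUF.LL (Ph F₀ P v₁)) →
      ∃ y : Fin n → F₀, y ≠ 0 ∧ f0 h y y = 0 ∧ FT h.toUF M (Ph F₀ P y) := fun c hc hcτ hT =>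
    ⟨v₁, hv₁, h11, irr_full h hr hcard h2 hR hE0 hv₁ h11 hc hcτ hT⟩
  by_cases c1 : j * τ j ∈ F₀
  · by_cases c2 : α * τ j ∈ F₀
    · by_cases c3 : α * τ α ∈ F₀
      · exfalso
        have n1 := hE0 (⟨α * τ α, hEm α⟩ : Ef τ) c3
        have n2 := hE0 (⟨j * τ j, hEm j⟩ : Ef τ) c1
        have n1' : α * τ α = 0 ∨ α * τ α = 1 := by
          rcases n1 with n1 | n1
          · left; exact congrArg Subtype.val n1
          · right; exact congrArg Subtype.val n1
        have n2' : j * τ j = 0 ∨ j * τ j = 1 := by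
          rcases n2 with n2 | n2
          · left; exact congrArg Subtype.val n2
          · right; exact congrArg Subtype.val n2
        have htα : (t : F) = α + j * σ := by rw [hα]; ring
        have htt : (t : F) * t = (α + j * σ) * τ (α + j * σ) := by
          rw [← htα, tt]
        rcases n2' with n2 | n2
        · have hj : j = 0 := by
            rcases mul_eq_zero.1 n2 with h4 | h4
            · exact h4
            · exact (map_eq_zero τ).1 h4
          rw [hj, zero_mul, add_zero] at htt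
          rcases n1' with n1 | n1
          · exact ht0 (htt.trans n1)
          · exact ht1 (htt.trans n1)
        · rcases n1' with n1 | n1
          · have hα0 : α = 0 := by
              rcases mul_eq_zero.1 n1 with h4 | h4
              · exact h4
              · exact (map_eq_zero τ).1 h4
            rw [hα0, zero_add, map_mul] at htt
            apply htσ
            rw [htt]
            linear_combination (σ * τ σ) * n2
          · apply ht2
            have hjα : j * τ α ∈ F₀ := by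
              have := h.stab _ c2
              rwa [map_mul, h.inv, mul_comm] at this
            refine Finset.mem_image.2 ⟨⟨j * τ α, hjα⟩, ?_, ?_⟩
            · rw [Finset.mem_erase]
              refine ⟨?_, Finset.mem_univ _⟩
              intro h0
              have h5 : j * τ α = 0 := congrArg Subtype.val h0
              rcases mul_eq_zero.1 h5 with h6 | h6
              · rw [h6, zero_mul] at n2
                exact zero_ne_one n2
              · rw [h6, mul_zero] at n1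
                exact zero_ne_one n1
            · show (1 + (j * τ α) * σ) * τ (1 + (j * τ α) * σ) = (t : F) * t
              rw [htt]
              simp only [map_add, map_mul, map_one, h.inv]
              linear_combination (j * σ * τ j * τ σ - 1) * n1
      · have hL2 := hL.swap h.inv
        obtain ⟨c, hc, hcτ, hTc⟩ := lemH h hn h2 hi hK h22 h21 h11 hv₂ hns' hL2 (Or.inl c3)
        exact ⟨v₂, hv₂, h22, irr_full h hr hcard h2 hR hE0 hv₂ h22 hc hcτ hTc⟩
    · obtain ⟨c, hc, hcτ, hTc⟩ := lemH h hn h2 hi hK h11 h12 h22 hv₁ hns hL (Or.inr ⟨c1, c2⟩)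
      exact fin1 c hc hcτ hTc
  · obtain ⟨c, hc, hcτ, hTc⟩ := lemH h hn h2 hi hK h11 h12 h22 hv₁ hns hL (Or.inl c1)
    exact fin1 c hc hcτ hTc

end Cfsg.Agent.H21.GUw
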