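import Mathlib
import Cfsg.Agent.GUx8

set_option autoImplicit false

/-! symplectic groups over extension fields of prime degree, I: the form over the large field -/

namespace Cfsg.Agent.H21.GUy

open Module Cfsg.Agent.H21.GUx

variable {F K V : Type*} [Field F] [Field K] [Algebra F K] [AddCommGroup V] [Module F V] [Module K V] [IsScalarTower F K V]

/-- the context -/
structure SX (K : Type*) [Field K] [Module K V] (M : Subgroup (V ≃ₗ[F] V)) (f : V →ₗ[F] V →ₗ[F] F) : Prop where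
  nd : ∀ x, x ≠ 0 → ∃ y, f x y ≠ 0
  sa : ∀ (k : K) (x y : V), f (k • x) y = f x (k • y)
  alt : ∀ (k : K) (x : V), f (k • x) x = 0
  iso : ∀ g ∈ M, ∀ x y, f (g x) (g y) = f x y
  gen : ∀ (φ : V →ₗ[K] K) (v : V), (∀ x y, f (φ x • v) y = f (φ y • v) x) → ∃ g ∈ M, ∀ x, g x = x + φ x • v

/-- the form over the large field -/
structure KF (K : Type*) [Field K] [Algebra F K] [Module K V] (M : Subgroup (V ≃ₗ[F] V)) (f : V →ₗ[F] V →ₗ[F] F) (π : K →ₗ[F] F)
    (B : V → V → K) : Prop where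
  sx : SX K M f
  pi1 : π 1 ≠ 0
  pi : ∀ x y, π (B x y) = f x y
  al : ∀ x y z, B (x + y) z = B x z + B y z
  sl : ∀ (k : K) x z, B (k • x) z = k * B x z
  ar : ∀ x y z, B x (y + z) = B x y + B x z
  sr : ∀ (k : K) x z, B x (k • z) = k * B x z
  bb : ∀ x, B x x = 0

variable {M : Subgroup (V ≃ₗ[F] V)} {f : V →ₗ[F] V →ₗ[F] F} {π : K →ₗ[F] F} {B : V → V → K}

theorem pi_zero (hπ : π 1 ≠ 0) {b : K} (h : ∀ k : K, π (k * b) = 0) : b = 0 := by
  by_contra hb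
  apply hπ
  have := h b⁻¹
  rwa [inv_mul_cancel₀ hb] at this

theorem exists_KF [Finite F] [FiniteDimensional F K] [FiniteDimensional F V] (s : SX K M f) {π : K →ₗ[F] F} (hπ : π 1 ≠ 0) :
    ∃ B : V → V → K, KF K M f π B := by
  have h1 : ∀ v : V, ∃ φ : V →ₗ[K] K, ∀ x, π (φ x) = f x v := fun v => exists_lift hπ (f.flip v)
  choose Φ hΦ using h1
  have huniq : ∀ (φ ψ : V →ₗ[K] K), (∀ x, π (φ x) = π (ψ x)) → φ = ψ := by
    intro φ ψ h
    apply LinearMap.ext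
    intro x
    rw [← sub_eq_zero]
    apply pi_zero hπ
    intro k
    rw [mul_sub, map_sub, ← smul_eq_mul, ← smul_eq_mul, ← map_smul, ← map_smul, h, sub_self]
  refine ⟨fun x v => Φ v x, s, hπ, fun x y => hΦ y x, fun x y z => map_add _ _ _, fun k x z => map_smul _ _ _, fun x y z => ?_,
    fun k x z => ?_, fun x => ?_⟩
  · have : Φ (y + z) = Φ y + Φ z := huniq _ _ (fun x => by rw [LinearMap.add_apply, map_add, hΦ, hΦ, hΦ, map_add])
    show Φ (y + z) x = _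
    rw [this, LinearMap.add_apply]
  · have : Φ (k • z) = k • Φ z := huniq _ _ (fun x => by
      rw [hΦ, LinearMap.smul_apply, ← map_smul, hΦ, s.sa])
    show Φ (k • z) x = _
    rw [this, LinearMap.smul_apply, smul_eq_mul]
  · apply pi_zero hπ
    intro k
    show π (k * Φ x x) = 0
    rw [← smul_eq_mul, ← map_smul, hΦ, s.alt]

theorem KF.skew (b : KF K M f π B) (x y : V) : B y x = -B x y := by
  have h := b.bb (x + y)
  rw [b.al, b.ar, b.ar, b.bb, b.bb] at h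
  linear_combination h

theorem KF.fskew (b : KF K M f π B) (x y : V) : f y x = -f x y := by
  rw [← b.pi, ← b.pi, b.skew, map_neg]

theorem KF.zl (b : KF K M f π B) (y : V) : B 0 y = 0 := by
  have := b.sl 0 0 y
  rwa [zero_smul, zero_mul] at this

theorem KF.zr (b : KF K M f π B) (y : V) : B y 0 = 0 := by
  have := b.sr 0 y 0
  rwa [zero_smul, zero_mul] at this

theorem KF.nl (b : KF K M f π B) (x y : V) : B (-x) y = -B x y := by
  have := b.sl (-1) x y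
  rwa [neg_one_smul, neg_one_mul] at this

theorem KF.subl (b : KF K M f π B) (x y z : V) : B (x - y) z = B x z - B y z := by
  rw [sub_eq_add_neg, b.al, b.nl]; ring

theorem KF.lin (b : KF K M f π B) (v : V) : ∃ φ : V →ₗ[K] K, ∀ x, φ x = B x v :=
  ⟨{ toFun := fun x => B x v
     map_add' := fun x y => b.al x y v
     map_smul' := fun k x => b.sl k x v }, fun _ => rfl⟩

theorem KF.nd (b : KF K M f π B) {x : V} (hx : x ≠ 0) : ∃ y, B x y ≠ 0 := by
  obtain ⟨y, hy⟩ := b.sx.nd x hx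
  refine ⟨y, fun h => hy ?_⟩
  rw [← b.pi, h, map_zero]

theorem KF.rep [Finite F] [FiniteDimensional F K] [FiniteDimensional F V] (b : KF K M f π B) (φ : V →ₗ[K] K) :
    ∃ w, ∀ x, φ x = B x w := by
  haveI : FiniteDimensional K V := FiniteDimensional.right F K V
  haveI : Finite K := Module.finite_of_finite F
  haveI : Finite V := Module.finite_of_finite F
  haveI : Finite (V →ₗ[K] K) := Module.finite_of_finite K
  choose Φ hΦ using b.lin
  have hinj : Function.Injective Φ := by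
    intro v w h
    by_contra hne
    obtain ⟨y, hy⟩ := b.nd (sub_ne_zero.2 hne)
    apply hy
    have h1 := congrArg (fun φ : V →ₗ[K] K => φ y) h
    simp only [hΦ] at h1
    rw [b.subl, b.skew y v, b.skew y w, h1, sub_self]
  have hcard : Nat.card V = Nat.card (V →ₗ[K] K) := by
    rw [Module.natCard_eq_pow_finrank (K := K) (V := V), Module.natCard_eq_pow_finrank (K := K) (V := V →ₗ[K] K)]
    rw [show finrank K (V →ₗ[K] K) = finrank K V from Subspace.dual_finrank_eq]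
  obtain ⟨w, hw⟩ := ((Nat.bijective_iff_injective_and_card Φ).2 ⟨hinj, hcard⟩).2 φ
  exact ⟨w, fun x => by rw [← hw, hΦ]⟩

theorem KF.frep [Finite F] [FiniteDimensional F K] [FiniteDimensional F V] (b : KF K M f π B) (γ : V →ₗ[F] F) :
    ∃ w, ∀ x, γ x = f x w := by
  obtain ⟨φ, hφ⟩ := exists_lift b.pi1 γ
  obtain ⟨w, hw⟩ := b.rep φ
  exact ⟨w, fun x => by rw [← hφ, hw, b.pi]⟩

/-- transvections -/
theorem KF.tv (b : KF K M f π B) (l : K) (v : V) : ∃ g ∈ M, ∀ x, g x = x + (l * B x v) • v := by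
  obtain ⟨φ, hφ⟩ := b.lin v
  obtain ⟨g, hg, hgx⟩ := b.sx.gen (l • φ) v (fun x y => by
    rw [← b.pi, ← b.pi, LinearMap.smul_apply, LinearMap.smul_apply, b.sl, b.sl, hφ, hφ, smul_eq_mul, smul_eq_mul, b.skew y v, b.skew x v]
    congr 1
    ring)
  exact ⟨g, hg, fun x => by rw [hgx, LinearMap.smul_apply, hφ, smul_eq_mul]⟩

/-- Siegel elements -/
theorem KF.sieg (b : KF K M f π B) {v w : V} (hvw : B v w = 0) : ∃ g ∈ M, ∀ x, g x = x + B x v • w + B x w • v := by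
  have hwv : B w v = 0 := by rw [b.skew, hvw, neg_zero]
  obtain ⟨g₁, h₁, e₁⟩ := b.tv 1 (v + w)
  obtain ⟨g₂, h₂, e₂⟩ := b.tv (-1) v
  obtain ⟨g₃, h₃, e₃⟩ := b.tv (-1) w
  refine ⟨g₁ * (g₂ * g₃), M.mul_mem h₁ (M.mul_mem h₂ h₃), fun x => ?_⟩
  show g₁ (g₂ (g₃ x)) = _
  rw [e₁, e₂, e₃]
  simp only [b.al, b.sl, b.ar, b.bb, hvw, hwv, mul_zero, add_zero, zero_add, one_mul, neg_one_mul]
  module

/-- separation -/
theorem KF.sep [Finite F] [FiniteDimensional F K] [FiniteDimensional F V] (b : KF K M f π B) {P : Submodule K V} {x : V} (hx : x ∉ P) :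
    ∃ w, B x w = 1 ∧ ∀ p ∈ P, B p w = 0 := by
  obtain ⟨φ, h1, h2⟩ := exists_phi hx
  obtain ⟨w, hw⟩ := b.rep φ
  exact ⟨w, by rw [← hw, h1], fun p hp => by rw [← hw, h2 p hp]⟩

/-- transitivity -/
theorem KF.move (b : KF K M f π B) {u v : V} (hu : u ≠ 0) (hv : v ≠ 0) :
    ∃ g ∈ M, (∀ (k : K) x, g (k • x) = k • g x) ∧ g u = v := by
  have key : ∀ u v : V, B u v ≠ 0 → ∃ g ∈ M, (∀ (k : K) x, g (k • x) = k • g x) ∧ g u = v := by
    intro u v h
    obtain ⟨g, hg, hgx⟩ := b.tv (B u v)⁻¹ (v - u)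
    refine ⟨g, hg, fun k x => ?_, ?_⟩
    · rw [hgx, hgx, b.sl, smul_add, smul_smul]
      congr 2
      ring
    · have e : B u (v - u) = B u v := by
        rw [b.skew, b.subl, b.bb, b.skew, sub_zero, neg_neg]
      rw [hgx, e, inv_mul_cancel₀ h, one_smul, add_sub_cancel]
  by_cases h : B u v = 0
  swap
  · exact key u v h
  obtain ⟨p, hp⟩ := b.nd hu
  obtain ⟨q, hq⟩ := b.nd hv
  have hq' : B q v ≠ 0 := by rw [b.skew]; exact neg_ne_zero.2 hq
  obtain ⟨z, hz1, hz2⟩ : ∃ z, B u z ≠ 0 ∧ B z v ≠ 0 := by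
    by_cases h1 : B p v = 0
    · by_cases h2 : B u q = 0
      · exact ⟨p + q, by rw [b.ar, h2, add_zero]; exact hp, by rw [b.al, h1, zero_add]; exact hq'⟩
      · exact ⟨q, h2, hq'⟩
    · exact ⟨p, hp, h1⟩
  obtain ⟨g₁, hg₁, hl₁, e₁⟩ := key u z hz1
  obtain ⟨g₂, hg₂, hl₂, e₂⟩ := key z v hz2
  refine ⟨g₂ * g₁, M.mul_mem hg₂ hg₁, fun k y => ?_, ?_⟩
  · show g₂ (g₁ (k • y)) = k • g₂ (g₁ y)
    rw [hl₁, hl₂]
  · show g₂ (g₁ u) = v
    rw [e₁, e₂]

variable {N Z : Submodule F V}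

/-- translations along a member -/
theorem KF.mtrans [Finite F] [FiniteDimensional F K] [FiniteDimensional F V] (b : KF K M f π B) (h : Mb K M N) {x w : V}
    (hx : x ∉ N) (hw : w ∈ N) : ∃ g ∈ M, (∀ n ∈ N, g n = n) ∧ g x = x + w := by
  obtain ⟨g, hg, v, hv, hN⟩ := h
  obtain ⟨k, rfl⟩ := (hN w).1 hw
  have hx' : g⁻¹ x ∉ Submodule.span K {v} := by
    intro hm
    obtain ⟨c, hc⟩ := Submodule.mem_span_singleton.1 hm
    apply hx
    rw [hN]
    exact ⟨c, by rw [hc, ai]⟩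
  obtain ⟨s, hs, hsv, hsx⟩ : ∃ s ∈ M, (∀ c : K, s (c • v) = c • v) ∧ s (g⁻¹ x) = g⁻¹ x + k • v := by
    by_cases h0 : B (g⁻¹ x) v = 0
    · obtain ⟨w', hw1, hw2⟩ := b.sep hx'
      have hvw : B v w' = 0 := hw2 v (Submodule.mem_span_singleton_self v)
      obtain ⟨s, hs, hsx⟩ := b.sieg (v := v) (w := k • w') (by rw [b.sr, hvw, mul_zero])
      refine ⟨s, hs, fun c => ?_, ?_⟩
      · rw [hsx, b.sl, b.sl, b.bb, b.sr, hvw]
        simp
      · rw [hsx, h0, b.sr, hw1, zero_smul, add_zero, mul_one]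
    · obtain ⟨s, hs, hsx⟩ := b.tv (k * (B (g⁻¹ x) v)⁻¹) v
      refine ⟨s, hs, fun c => ?_, ?_⟩
      · rw [hsx, b.sl, b.bb]
        simp
      · rw [hsx, mul_assoc, inv_mul_cancel₀ h0, mul_one]
  refine ⟨g * s * g⁻¹, M.mul_mem (M.mul_mem hg hs) (M.inv_mem hg), fun n hn => ?_, ?_⟩
  · obtain ⟨c, rfl⟩ := (hN n).1 hn
    show g (s (g⁻¹ (g (c • v)))) = _
    rw [ia, hsv]
  · show g (s (g⁻¹ x)) = _
    rw [hsx, map_add, ai]

/-- members are isotropic -/
theorem KF.miso (b : KF K M f π B) (h : Mb K M N) {x y : V} (hx : x ∈ N) (hy : y ∈ N) : f x y = 0 := by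
  obtain ⟨g, hg, v, hv, hN⟩ := h
  obtain ⟨k, rfl⟩ := (hN x).1 hx
  obtain ⟨l, rfl⟩ := (hN y).1 hy
  rw [b.sx.iso g hg, ← b.pi, b.sl, b.sr, b.bb, mul_zero, mul_zero, map_zero]

/-- members are their own double perps -/
theorem KF.dperp [Finite F] [FiniteDimensional F K] [FiniteDimensional F V] (b : KF K M f π B) (h : Mb K M N) {x : V} (hx : x ∉ N) :
    ∃ y, (∀ n ∈ N, f n y = 0) ∧ f x y ≠ 0 := by
  obtain ⟨g, hg, v, hv, hN⟩ := h
  have hx' : g⁻¹ x ∉ Submodule.span K {v} := by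
    intro hm
    obtain ⟨c, hc⟩ := Submodule.mem_span_singleton.1 hm
    apply hx
    rw [hN]
    exact ⟨c, by rw [hc, ai]⟩
  obtain ⟨w, hw1, hw2⟩ := b.sep hx'
  have hvw : B v w = 0 := hw2 v (Submodule.mem_span_singleton_self v)
  refine ⟨g w, fun n hn => ?_, ?_⟩
  · obtain ⟨c, rfl⟩ := (hN n).1 hn
    rw [b.sx.iso g hg, ← b.pi, b.sl, hvw, mul_zero, map_zero]
  · have e : f x (g w) = f (g⁻¹ x) w := by rw [← b.sx.iso g hg (g⁻¹ x) w, ai]
    rw [e, ← b.pi, hw1]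
    exact b.pi1

/-- dual translations -/
theorem KF.mperp [Finite F] [FiniteDimensional F K] [FiniteDimensional F V] (b : KF K M f π B) (h : Mb K M N) {x w : V}
    (hx : x ∉ N) (hw : ∀ n ∈ N, f n w = 0) {T : Submodule F V} (hT : ∀ g ∈ M, (∀ n ∈ N, g n = n) → g x ∈ T) (hxT : x ∈ T) : w ∈ T := by
  obtain ⟨g, hg, v, hv, hN⟩ := h
  have hx' : g⁻¹ x ∉ Submodule.span K {v} := by
    intro hm
    obtain ⟨c, hc⟩ := Submodule.mem_span_singleton.1 hm
    apply hx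
    rw [hN]
    exact ⟨c, by rw [hc, ai]⟩
  have hvw : B v (g⁻¹ w) = 0 := by
    apply pi_zero b.pi1
    intro k
    rw [← b.sl, b.pi, ← b.sx.iso g hg, ai]
    exact hw _ ((hN _).2 ⟨k, rfl⟩)
  have key : ∀ y : V, B v y = 0 → B (g⁻¹ x) y ≠ 0 → g y ∈ T := by
    intro y hy hxy
    obtain ⟨s, hs, hsx⟩ := b.tv (B (g⁻¹ x) y)⁻¹ y
    have h1 := hT (g * s * g⁻¹) (M.mul_mem (M.mul_mem hg hs) (M.inv_mem hg)) (fun n hn => by
      obtain ⟨c, rfl⟩ := (hN n).1 hn
      show g (s (g⁻¹ (g (c • v)))) = _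
      rw [ia, hsx, b.sl, hy]
      simp)
    have h2 : (g * s * g⁻¹) x = x + g y := by
      show g (s (g⁻¹ x)) = _
      rw [hsx, inv_mul_cancel₀ hxy, one_smul, map_add, ai]
    rw [h2] at h1
    exact (T.add_mem_iff_right hxT).1 h1
  by_cases h0 : B (g⁻¹ x) (g⁻¹ w) = 0
  · obtain ⟨w', hw1, hw2⟩ := b.sep hx'
    have hvw' : B v w' = 0 := hw2 v (Submodule.mem_span_singleton_self v)
    have h1 := key w' hvw' (by rw [hw1]; exact one_ne_zero)
    have h2 := key (g⁻¹ w + w') (by rw [b.ar, hvw, hvw', add_zero]) (by rw [b.ar, h0, hw1, zero_add]; exact one_ne_zero)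
    rw [map_add, ai] at h2
    exact (T.add_mem_iff_left h1).1 h2
  · have := key _ hvw h0
    rwa [ai] at this

end Cfsg.Agent.H21.GUy
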