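import Mathlib
import Cfsg.Agent.GUy1

set_option autoImplicit false

/-! symplectic groups over extension fields of prime degree, II: transitivity -/

namespace Cfsg.Agent.H21.GUy

open Module Cfsg.Agent.H21.GUx

variable {F K V : Type*} [Field F] [Field K] [Algebra F K] [AddCommGroup V] [Module F V] [Module K V] [IsScalarTower F K V]
variable {M : Subgroup (V ≃ₗ[F] V)} {f : V →ₗ[F] V →ₗ[F] F} {π : K →ₗ[F] F} {B : V → V → K} {N Z N₁ N₂ : Submodule F V}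
variable [Finite F] [FiniteDimensional F K] [FiniteDimensional F V]

theorem KF.rel (b : KF K M f π B) (h : Mb K M N) (hZ : Z ≤ N) {x w : V} (hx : x ∉ N) (hw : w ∈ N) : Rel M Z x (x + w) := by
  obtain ⟨g, hg, h1, h2⟩ := b.mtrans h hx hw
  exact ⟨g, hg, fun z hz => h1 z (hZ hz), h2⟩

theorem KF.tl (b : KF K M f π B) (h₁ : Mb K M N₁) (h₂ : Mb K M N₂) (h21 : ¬ N₂ ≤ N₁) {t : V} (ht : t ∈ N₁) :
    TT M (N₁ ⊓ N₂) t := by
  intro x hx hxt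
  by_cases h1 : x ∈ N₁
  · have hx2 : x ∉ N₂ := fun h => hx ⟨h1, h⟩
    have hxt2 : x + t ∉ N₂ := fun h => hxt ⟨N₁.add_mem h1 ht, h⟩
    obtain ⟨w, hw2, hw1⟩ := SetLike.not_le_iff_exists.1 h21
    have r1 : Rel M (N₁ ⊓ N₂) x (x + w) := b.rel h₂ inf_le_right hx2 hw2
    have r2 : Rel M (N₁ ⊓ N₂) (x + w) (x + w + t) := b.rel h₁ inf_le_left (fun h => hw1 ((N₁.add_mem_iff_right h1).1 h)) ht
    have r3 : Rel M (N₁ ⊓ N₂) (x + t) (x + t + w) := b.rel h₂ inf_le_right hxt2 hw2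
    rw [add_right_comm] at r2
    exact (r1.trans r2).trans r3.symm
  · exact b.rel h₁ inf_le_left h1 ht

theorem KF.tadd (b : KF K M f π B) (h₁ : Mb K M N₁) (h₂ : Mb K M N₂) (h12 : ¬ N₁ ≤ N₂) (h21 : ¬ N₂ ≤ N₁) {t t' : V}
    (ht : TT M (N₁ ⊓ N₂) t) (ht' : TT M (N₁ ⊓ N₂) t') : TT M (N₁ ⊓ N₂) (t + t') := by
  intro x hx hxy
  rw [← add_assoc] at hxy ⊢
  by_cases h1 : x + t ∈ N₁ ⊓ N₂
  swap
  · exact (ht x hx h1).trans (ht' _ h1 hxy)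
  have key : ∀ N N' : Submodule F V, Mb K M N → N ⊓ N' = N₁ ⊓ N₂ → ¬ N ≤ N' → x ∉ N → x + t + t' ∉ N →
      Rel M (N₁ ⊓ N₂) x (x + t + t') := by
    intro N N' hN hZ hle hxN hyN
    have hZN : N₁ ⊓ N₂ ≤ N := hZ ▸ inf_le_left
    have hZN' : N₁ ⊓ N₂ ≤ N' := hZ ▸ inf_le_right
    obtain ⟨w, hw, hw'⟩ := SetLike.not_le_iff_exists.1 hle
    have r1 : Rel M (N₁ ⊓ N₂) x (x + w) := b.rel hN hZN hxN hw
    have a1 : x + w ∉ N₁ ⊓ N₂ := fun h => hxN ((N.add_mem_iff_left hw).1 (hZN h))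
    have a2 : x + w + t ∉ N₁ ⊓ N₂ := by
      rw [add_right_comm]
      intro h
      exact hw' ((N'.add_mem_iff_right (hZN' h1)).1 (hZN' h))
    have e : x + w + t + t' = (x + t + t') + w := by abel
    have a3 : x + w + t + t' ∉ N₁ ⊓ N₂ := by
      rw [e]
      exact fun h => hyN ((N.add_mem_iff_left hw).1 (hZN h))
    have r2 := ht _ a1 a2
    have r3 := ht' _ a2 a3
    have r4 : Rel M (N₁ ⊓ N₂) (x + t + t') (x + t + t' + w) := b.rel hN hZN hyN hw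
    rw [e] at r3
    exact ((r1.trans r2).trans r3).trans r4.symm
  have key2 : ∀ N N' : Submodule F V, Mb K M N → Mb K M N' → N ⊓ N' = N₁ ⊓ N₂ → x ∈ N → x + t + t' ∈ N' →
      Rel M (N₁ ⊓ N₂) x (x + t + t') := by
    intro N N' hN hN' hZ hxN hyN
    have hZN : N₁ ⊓ N₂ ≤ N := hZ ▸ inf_le_left
    have hZN' : N₁ ⊓ N₂ ≤ N' := hZ ▸ inf_le_right
    have b1 : x ∉ N' := fun h => hx (hZ ▸ ⟨hxN, h⟩)
    have b2 : x + t + t' ∉ N := fun h => hxy (hZ ▸ ⟨h, hyN⟩)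
    have r1 : Rel M (N₁ ⊓ N₂) x (x + (x + t + t')) := b.rel hN' hZN' b1 hyN
    have r2 : Rel M (N₁ ⊓ N₂) (x + t + t') (x + t + t' + x) := b.rel hN hZN b2 hxN
    rw [add_comm] at r1
    exact r1.trans r2.symm
  by_cases c1 : x ∈ N₁
  · have c2 : x ∉ N₂ := fun h => hx ⟨c1, h⟩
    by_cases c3 : x + t + t' ∈ N₂
    · exact key2 N₁ N₂ h₁ h₂ rfl c1 c3
    · exact key N₂ N₁ h₂ (inf_comm _ _) h21 c2 c3
  · by_cases c3 : x + t + t' ∈ N₁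
    · by_cases c4 : x ∈ N₂
      · exact key2 N₂ N₁ h₂ h₁ (inf_comm _ _) c4 c3
      · have c5 : x + t + t' ∉ N₂ := fun h => hxy ⟨c3, h⟩
        exact key N₂ N₁ h₂ (inf_comm _ _) h21 c4 c5
    · exact key N₁ N₂ h₁ rfl h12 c1 c3

/-- transitivity -/
theorem KF.tc (b : KF K M f π B) (h₁ : Mb K M N₁) (h₂ : Mb K M N₂) (h12 : ¬ N₁ ≤ N₂) (h21 : ¬ N₂ ≤ N₁) {x y : V}
    (hx : x ∉ N₁ ⊓ N₂) (hy : y ∉ N₁ ⊓ N₂) (hxp : ∀ z ∈ N₁ ⊓ N₂, f z x = 0) (hyp : ∀ z ∈ N₁ ⊓ N₂, f z y = 0) :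
    Rel M (N₁ ⊓ N₂) x y := by
  obtain ⟨T₁, hT₁⟩ : ∃ T₁ : Submodule F V, ∀ t, t ∈ T₁ ↔ ∀ a : F, TT M (N₁ ⊓ N₂) (a • t) :=
    ⟨{ carrier := {t | ∀ a : F, TT M (N₁ ⊓ N₂) (a • t)}
       add_mem' := fun {s t} hs ht a => by
         rw [smul_add]
         exact b.tadd h₁ h₂ h12 h21 (hs a) (ht a)
       zero_mem' := fun a x _ _ => by
         rw [smul_zero, add_zero]
         exact Rel.refl x
       smul_mem' := fun c t ht a => by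
         rw [smul_smul]
         exact ht _ }, fun t => Iff.rfl⟩
  have hstab : ∀ g ∈ M, (∀ z ∈ N₁ ⊓ N₂, g z = z) → ∀ t ∈ T₁, g t ∈ T₁ := by
    intro g hg hgZ t ht
    rw [hT₁] at ht ⊢
    intro a
    rw [← map_smul]
    exact TT.stab hg hgZ (ht a)
  have hN1T : N₁ ≤ T₁ := fun t ht => (hT₁ t).2 fun a => b.tl h₁ h₂ h21 (N₁.smul_mem a ht)
  have hN2T : N₂ ≤ T₁ := fun t ht => (hT₁ t).2 fun a => by
    rw [inf_comm]
    exact b.tl h₂ h₁ h12 (N₂.smul_mem a ht)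
  have hP1 : ∀ w, (∀ n ∈ N₁, f n w = 0) → w ∈ T₁ := by
    intro w hw
    obtain ⟨t, ht2, ht1⟩ := SetLike.not_le_iff_exists.1 h21
    exact b.mperp h₁ ht1 hw (fun g hg hgN => hstab g hg (fun z hz => hgN z hz.1) _ (hN2T ht2)) (hN2T ht2)
  have hP2 : ∀ w, (∀ n ∈ N₂, f n w = 0) → w ∈ T₁ := by
    intro w hw
    obtain ⟨t, ht2, ht1⟩ := SetLike.not_le_iff_exists.1 h12
    exact b.mperp h₂ ht1 hw (fun g hg hgN => hstab g hg (fun z hz => hgN z hz.2) _ (hN1T ht2)) (hN1T ht2)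
  have htop : ∀ v, (∀ z ∈ N₁ ⊓ N₂, f z v = 0) → v ∈ T₁ := by
    intro v hv
    by_contra hn
    obtain ⟨γ, hγ1, hγ⟩ := exists_phi (K := F) hn
    obtain ⟨w, hw⟩ := b.frep γ
    have hwN1 : w ∈ N₁ := by
      by_contra hc
      obtain ⟨y, hy1, hy2⟩ := b.dperp h₁ hc
      have h3 := hγ y (hP1 y hy1)
      rw [hw, b.fskew, neg_eq_zero] at h3
      exact hy2 h3
    have hwN2 : w ∈ N₂ := by
      by_contra hc
      obtain ⟨y, hy1, hy2⟩ := b.dperp h₂ hc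
      have h3 := hγ y (hP2 y hy1)
      rw [hw, b.fskew, neg_eq_zero] at h3
      exact hy2 h3
    rw [hw, b.fskew, hv w ⟨hwN1, hwN2⟩, neg_zero] at hγ1
    exact zero_ne_one hγ1
  have h3 := (hT₁ (y - x)).1 (htop _ (fun z hz => by rw [map_sub, hxp z hz, hyp z hz, sub_zero])) 1
  rw [one_smul] at h3
  have h4 := h3 x hx (by rwa [add_sub_cancel])
  rwa [add_sub_cancel] at h4

end Cfsg.Agent.H21.GUy
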