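import Mathlib
import Cfsg.Agent.GUy2

set_option autoImplicit false

/-! symplectic groups over extension fields of prime degree, III: codimension one -/

namespace Cfsg.Agent.H21.GUy

open Module Cfsg.Agent.H21.GUx

variable {F K V : Type*} [Field F] [Field K] [Algebra F K] [AddCommGroup V] [Module F V] [Module K V] [IsScalarTower F K V]
variable {M : Subgroup (V ≃ₗ[F] V)} {f : V →ₗ[F] V →ₗ[F] F} {π : K →ₗ[F] F} {B : V → V → K} {N Z N₁ N₂ : Submodule F V}
variable [Finite F] [FiniteDimensional F K] [FiniteDimensional F V]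

/-- the configuration -/
structure SCfg (K : Type*) [Field K] [Algebra F K] [Module K V] (M : Subgroup (V ≃ₗ[F] V)) (f : V →ₗ[F] V →ₗ[F] F) (u : V)
    (N₁ N₂ : Submodule F V) : Prop where
  sx : SX K M f
  prime : (finrank F K).Prime
  un : u ∉ N₂
  line : ∀ x, x ∈ N₁ ↔ ∃ k : K, k • u = x
  mb : Mb K M N₂
  fr : finrank F K = finrank F ↥(N₁ ⊓ N₂) + 1

theorem exists_pi0 : ∃ π : K →ₗ[F] F, π 1 ≠ 0 := by
  have h : (1 : K) ∉ (⊥ : Submodule F K) := by
    rw [Submodule.mem_bot]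
    exact one_ne_zero
  obtain ⟨γ, h1, -⟩ := exists_phi (K := F) h
  exact ⟨γ, by rw [h1]; exact one_ne_zero⟩

theorem exists_scfg (hp : (finrank F K).Prime) (s : SX K M f) {A B : Submodule F V} (hA : Mb K M A) (hB : Mb K M B) (hAB : A ≠ B)
    (hne : A ⊓ B ≠ ⊥) : ∃ (u : V) (N₁ N₂ : Submodule F V), SCfg K M f u N₁ N₂ := by
  classical
  haveI : Finite V := Module.finite_of_finite F
  haveI : Finite K := Module.finite_of_finite F
  obtain ⟨π, hπ⟩ := exists_pi0 (F := F) (K := K)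
  obtain ⟨BB, b⟩ := exists_KF s hπ
  let P : ℕ → Prop := fun s => ∃ A B : Submodule F V, Mb K M A ∧ Mb K M B ∧ A ≠ B ∧ finrank F ↥(A ⊓ B) = s
  have hbd : ∀ s, P s → s ≤ finrank F K := by
    rintro s ⟨A, B, hA, hB, -, rfl⟩
    rw [← hA.finrank]
    exact Submodule.finrank_mono inf_le_left
  have hP0 : P (finrank F ↥(A ⊓ B)) := ⟨A, B, hA, hB, hAB, rfl⟩
  obtain ⟨s', hs, hmax⟩ : ∃ s, P s ∧ ∀ s', P s' → s' ≤ s :=
    ⟨Nat.findGreatest P (finrank F K), Nat.findGreatest_spec (hbd _ hP0) hP0, fun s' hs' => Nat.le_findGreatest (hbd _ hs') hs'⟩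
  have hs1 : 1 ≤ s' := by
    refine le_trans ?_ (hmax _ hP0)
    rw [Nat.one_le_iff_ne_zero]
    intro h0
    exact hne (Submodule.finrank_eq_zero.1 h0)
  obtain ⟨A', B', hA', hB', hne', hfr⟩ := hs
  obtain ⟨g, hg, u₀, hu₀, hAu⟩ := hA'
  have hN₁ : ∀ x, x ∈ A'.map (g⁻¹ : V ≃ₗ[F] V).toLinearMap ↔ ∃ k : K, k • u₀ = x := by
    intro x
    rw [Submodule.mem_map]
    constructor
    · rintro ⟨y, hy, rfl⟩
      obtain ⟨k, rfl⟩ := (hAu y).1 hy
      exact ⟨k, (ia g _).symm⟩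
    · rintro ⟨k, rfl⟩
      exact ⟨g (k • u₀), (hAu _).2 ⟨k, rfl⟩, ia g _⟩
  have hN₂ : Mb K M (B'.map (g⁻¹ : V ≃ₗ[F] V).toLinearMap) := hB'.map (M.inv_mem hg)
  have hfr' : finrank F ↥(A'.map (g⁻¹ : V ≃ₗ[F] V).toLinearMap ⊓ B'.map (g⁻¹ : V ≃ₗ[F] V).toLinearMap) = s' := by
    rw [← Submodule.map_inf _ (g⁻¹ : V ≃ₗ[F] V).injective, ← hfr]
    exact LinearEquiv.finrank_map_eq (g⁻¹ : V ≃ₗ[F] V) _
  have hneq : A'.map (g⁻¹ : V ≃ₗ[F] V).toLinearMap ≠ B'.map (g⁻¹ : V ≃ₗ[F] V).toLinearMap := by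
    intro h
    exact hne' (Submodule.map_injective_of_injective (g⁻¹ : V ≃ₗ[F] V).injective h)
  generalize A'.map (g⁻¹ : V ≃ₗ[F] V).toLinearMap = N₁ at *
  generalize B'.map (g⁻¹ : V ≃ₗ[F] V).toLinearMap = N₂ at *
  have h₁ : Mb K M N₁ := mb_line hu₀ hN₁
  have h12 : ¬ N₁ ≤ N₂ := fun h => hneq (h₁.eq_of_le hN₂ h)
  have h21 : ¬ N₂ ≤ N₁ := fun h => hneq (hN₂.eq_of_le h₁ h).symm
  obtain ⟨u, hu1, hu2⟩ := SetLike.not_le_iff_exists.1 h12
  have hu : u ≠ 0 := by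
    rintro rfl
    exact hu2 N₂.zero_mem
  have hline : ∀ x, x ∈ N₁ ↔ ∃ k : K, k • u = x := by
    obtain ⟨k, rfl⟩ := (hN₁ u).1 hu1
    have hk : k ≠ 0 := by
      rintro rfl
      exact hu (zero_smul _ _)
    intro x
    rw [hN₁]
    constructor
    · rintro ⟨c, rfl⟩
      exact ⟨c * k⁻¹, by rw [smul_smul, mul_assoc, inv_mul_cancel₀ hk, mul_one]⟩
    · rintro ⟨c, rfl⟩
      exact ⟨c * k, by rw [smul_smul]⟩
  refine ⟨u, N₁, N₂, s, hp, hu2, hline, hN₂, ?_⟩
  have huniq : ∀ A B : Submodule F V, Mb K M A → Mb K M B → N₁ ⊓ N₂ ≤ A → N₁ ⊓ N₂ ≤ B → ∀ x, x ∉ N₁ ⊓ N₂ → x ∈ A → x ∈ B → A = B := by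
    intro A B hA hB hZA hZB x hx hxA hxB
    by_contra hne
    have h1 := hmax _ ⟨A, B, hA, hB, hne, rfl⟩
    have h3 : N₁ ⊓ N₂ < A ⊓ B := lt_of_le_of_ne (le_inf hZA hZB) (fun h => hx (h ▸ ⟨hxA, hxB⟩))
    have h4 := Submodule.finrank_lt_finrank_of_lt h3
    omega
  have hpres : ∀ g ∈ M, (∀ z ∈ N₁, g z = z) → ∀ x ∈ N₂, x ∉ N₁ → g x ∈ N₂ → ∀ y ∈ N₂, g y ∈ N₂ := by
    intro g hg hgN x hx hxN hgx y hy
    have hgxN : g x ∉ N₁ := by
      intro h
      have h1 := hgN _ h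
      rw [g.injective h1] at h
      exact hxN h
    have h1 : N₂.map (g : V →ₗ[F] V) = N₂ := huniq _ _ (hN₂.map hg) hN₂
      (fun z hz => Submodule.mem_map.2 ⟨z, hz.2, hgN z hz.1⟩) inf_le_right (g x) (fun h => hgxN h.1)
      (Submodule.mem_map.2 ⟨x, hx, rfl⟩) hgx
    rw [← h1]
    exact Submodule.mem_map.2 ⟨y, hy, rfl⟩
  -- the stabiliser of the intersection in the field
  have hstar : ∀ c : K, (∀ l : K, l • u ∈ N₁ ⊓ N₂ → (c * l) • u ∈ N₁ ⊓ N₂) → ∃ a : F, algebraMap F K a = c := by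
    intro c hc
    let L : Subalgebra F K :=
      { carrier := {c | ∀ l : K, l • u ∈ N₁ ⊓ N₂ → (c * l) • u ∈ N₁ ⊓ N₂}
        mul_mem' := fun {a b} ha hb l hl => by
          rw [mul_assoc]
          exact ha _ (hb l hl)
        add_mem' := fun {a b} ha hb l hl => by
          rw [add_mul, add_smul]
          exact Submodule.add_mem _ (ha l hl) (hb l hl)
        algebraMap_mem' := fun a l hl => by
          rw [← Algebra.smul_def, smul_assoc]
          exact Submodule.smul_mem _ a hl }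
    haveI := Subalgebra.isSimpleOrder_of_finrank_prime F K hp
    rcases eq_bot_or_eq_top L with hL | hL
    · have h1 : c ∈ L := hc
      rw [hL] at h1
      exact Algebra.mem_bot.1 h1
    · exfalso
      have h1 : N₁ ⊓ N₂ ≠ ⊥ := by
        intro h0
        rw [h0, finrank_bot] at hfr'
        omega
      obtain ⟨z, hz, hz0⟩ := (Submodule.ne_bot_iff _).1 h1
      obtain ⟨l, rfl⟩ := (hline z).1 hz.1
      have hl : l ≠ 0 := by
        rintro rfl
        exact hz0 (zero_smul _ _)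
      have h3 : l⁻¹ ∈ L := by rw [hL]; trivial
      have h4 := h3 l hz
      rw [inv_mul_cancel₀ hl, one_smul] at h4
      exact hu2 h4.2
  have hfix : ∀ g : V ≃ₗ[F] V, (∀ k : K, g (k • u) = k • u) → ∀ z ∈ N₁, g z = z := by
    intro g hg z hz
    obtain ⟨k, rfl⟩ := (hline z).1 hz
    exact hg k
  have hcodim : ∃ y₁ ∈ N₂, ∀ y₂ ∈ N₂, ∃ a : F, y₂ - a • y₁ ∈ N₁ ⊓ N₂ := by
    by_cases hcase : ∃ y ∈ N₂, BB y u ≠ 0
    · obtain ⟨y₁, hy₁, hb₁⟩ := hcase
      have hy₁N : y₁ ∉ N₁ := by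
        intro h
        obtain ⟨k, rfl⟩ := (hline y₁).1 h
        rw [b.sl, b.bb, mul_zero] at hb₁
        exact hb₁ rfl
      -- no further isotropic directions
      have hin : ∀ y ∈ N₂, BB y u = 0 → y ∈ N₁ := by
        intro y hy hyu
        by_contra hyN
        have huy : BB u y = 0 := by rw [b.skew, hyu, neg_zero]
        set e := BB y₁ u • y + BB y₁ y • u with he
        have hke : ∀ k : K, k • e ∈ N₂ := by
          intro k
          obtain ⟨g, hg, hgx⟩ := b.sieg (v := u) (w := k • y) (by rw [b.sr, huy, mul_zero])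
          have h1 := hpres g hg (hfix g (fun c => by rw [hgx, b.sl, b.sl, b.bb, b.sr, huy]; simp)) y hy hyN (by
            rw [hgx, hyu, b.sr, b.bb]
            simpa using hy) y₁ hy₁
          rw [hgx, b.sr, add_assoc] at h1
          have h3 := (N₂.add_mem_iff_right hy₁).1 h1
          have e1 : k • e = BB y₁ u • k • y + (k * BB y₁ y) • u := by
            rw [he, smul_add, smul_smul, smul_smul, smul_smul, mul_comm k (BB y₁ u)]
          rw [e1]
          exact h3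
        have he0 : e ≠ 0 := by
          intro h0
          apply hyN
          rw [hline]
          refine ⟨-((BB y₁ u)⁻¹ * BB y₁ y), ?_⟩
          have h1 : BB y₁ u • y = -(BB y₁ y • u) := eq_neg_of_add_eq_zero_left h0
          calc -((BB y₁ u)⁻¹ * BB y₁ y) • u = (BB y₁ u)⁻¹ • (-(BB y₁ y • u)) := by module
            _ = y := by rw [← h1, smul_smul, inv_mul_cancel₀ hb₁, one_smul]
        obtain ⟨N, hN⟩ := exists_line (F := F) (K := K) e
        have h3 : N ≤ N₂ := by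
          intro x hx
          obtain ⟨k, rfl⟩ := (hN x).1 hx
          exact hke k
        have h4 : N = N₂ := (mb_line he0 hN : Mb K M N).eq_of_le hN₂ h3
        have h5 : y₁ ∈ N := by rw [h4]; exact hy₁
        obtain ⟨k, hk⟩ := (hN y₁).1 h5
        apply hb₁
        rw [← hk, b.sl, he, b.al, b.sl, b.sl, hyu, b.bb]
        simp
      refine ⟨y₁, hy₁, fun y₂ hy₂ => ?_⟩
      obtain ⟨a, ha⟩ := hstar (BB y₂ u * (BB y₁ u)⁻¹) (fun l hl => by
        obtain ⟨g, hg, hgx⟩ := b.tv (l * (BB y₁ u)⁻¹) u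
        have h1 := hpres g hg (hfix g (fun c => by rw [hgx, b.sl, b.bb]; simp)) y₁ hy₁ hy₁N (by
          rw [hgx, mul_assoc, inv_mul_cancel₀ hb₁, mul_one]
          exact N₂.add_mem hy₁ hl.2) y₂ hy₂
        rw [hgx] at h1
        have h3 := (N₂.add_mem_iff_right hy₂).1 h1
        have e : BB y₂ u * (BB y₁ u)⁻¹ * l = l * (BB y₁ u)⁻¹ * BB y₂ u := by ring
        rw [e]
        exact ⟨(hline _).2 ⟨_, rfl⟩, h3⟩)
      refine ⟨a, ?_, N₂.sub_mem hy₂ (N₂.smul_mem _ hy₁)⟩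
      apply hin _ (N₂.sub_mem hy₂ (N₂.smul_mem _ hy₁))
      rw [b.subl, ← algebraMap_smul K a y₁, b.sl, ha, mul_assoc, inv_mul_cancel₀ hb₁, mul_one, sub_self]
    · push Not at hcase
      obtain ⟨y₁, hy₁, hy₁N⟩ := SetLike.not_le_iff_exists.1 h21
      have huy : ∀ y ∈ N₂, BB u y = 0 := fun y hy => by rw [b.skew, hcase y hy, neg_zero]
      refine ⟨y₁, hy₁, fun y₂ hy₂ => ?_⟩
      -- the basic computation
      have hcomp : ∀ w, BB u w = 0 → BB y₁ w = 1 → ∃ a : F, algebraMap F K a = BB y₂ w := by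
        intro w hw1 hw2
        apply hstar
        intro l hl
        obtain ⟨g, hg, hgx⟩ := b.sieg (v := u) (w := l • w) (by rw [b.sr, hw1, mul_zero])
        have h1 := hpres g hg (hfix g (fun c => by rw [hgx, b.sl, b.sl, b.bb, b.sr, hw1]; simp)) y₁ hy₁ hy₁N (by
          rw [hgx, hcase y₁ hy₁, b.sr, hw2, mul_one, zero_smul, add_zero]
          exact N₂.add_mem hy₁ hl.2) y₂ hy₂
        rw [hgx, hcase y₂ hy₂, b.sr, zero_smul, add_zero] at h1
        have h3 := (N₂.add_mem_iff_right hy₂).1 h1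
        rw [mul_comm]
        exact ⟨(hline _).2 ⟨_, rfl⟩, h3⟩
      have hy₁P : y₁ ∉ Submodule.span K {u} := fun h => hy₁N ((hline y₁).2 (Submodule.mem_span_singleton.1 h))
      obtain ⟨w₁, hw1, hw2⟩ := b.sep hy₁P
      have hw2 := hw2 u (Submodule.mem_span_singleton_self u)
      by_cases hm : y₂ ∈ Submodule.span K {u, y₁}
      · obtain ⟨α, β, hαβ⟩ := Submodule.mem_span_pair.1 hm
        obtain ⟨a, ha⟩ := hcomp w₁ hw2 hw1
        refine ⟨a, (hline _).2 ⟨α, ?_⟩, N₂.sub_mem hy₂ (N₂.smul_mem _ hy₁)⟩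
        have hβ : BB y₂ w₁ = β := by rw [← hαβ, b.al, b.sl, b.sl, hw2, hw1, mul_zero, zero_add, mul_one]
        rw [← algebraMap_smul K a y₁, ha, hβ, ← hαβ]
        abel
      · exfalso
        obtain ⟨w₂, hw3, hw4⟩ := b.sep hm
        have hw5 := hw4 u (Submodule.subset_span (by simp))
        have hw6 := hw4 y₁ (Submodule.subset_span (by simp))
        obtain ⟨c, -, hc⟩ := exists_irr_pow (F := F) (K := K) hp.two_le
        obtain ⟨a, ha⟩ := hcomp (w₁ + (c ^ (Nat.card F - 1) - BB y₂ w₁) • w₂) (by rw [b.ar, b.sr, hw2, hw5]; ring)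
          (by rw [b.ar, b.sr, hw1, hw6]; ring)
        apply hc
        rw [Algebra.mem_bot]
        refine ⟨a, ?_⟩
        rw [ha, b.ar, b.sr, hw3]
        ring
  obtain ⟨y₁, hy₁, hy⟩ := hcodim
  have h3 : N₂ ≤ (N₁ ⊓ N₂) ⊔ Submodule.span F {y₁} := by
    intro y hyN
    obtain ⟨a, ha⟩ := hy y hyN
    have e : y = (y - a • y₁) + a • y₁ := by abel
    rw [e]
    exact Submodule.add_mem_sup ha (Submodule.smul_mem _ _ (Submodule.mem_span_singleton_self _))
  have h4 := Submodule.finrank_mono h3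
  have h5 := Submodule.finrank_add_le_finrank_add_finrank (N₁ ⊓ N₂) (Submodule.span F {y₁})
  have h6 : finrank F (Submodule.span F ({y₁} : Set V)) ≤ 1 := by
    have := finrank_span_le_card (R := F) ({y₁} : Set V)
    simpa using this
  have h7 : N₁ ⊓ N₂ < N₂ := lt_of_le_of_ne inf_le_right (fun h => h21 (h ▸ inf_le_left))
  have h8 := Submodule.finrank_lt_finrank_of_lt h7
  have h9 := hN₂.finrank
  omega

end Cfsg.Agent.H21.GUy
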