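import Mathlib
import Cfsg.Agent.GUy3

set_option autoImplicit false

/-! symplectic groups over extension fields of prime degree, IV: unipotent elements -/

namespace Cfsg.Agent.H21.GUy

open Module Cfsg.Agent.H21.GUx

variable {F K V : Type*} [Field F] [Field K] [Algebra F K] [AddCommGroup V] [Module F V] [Module K V] [IsScalarTower F K V]
variable {M : Subgroup (V ≃ₗ[F] V)} {f : V →ₗ[F] V →ₗ[F] F} {π : K →ₗ[F] F} {B : V → V → K} {N Z N₁ N₂ : Submodule F V} {u : V}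
variable [Finite F] [FiniteDimensional F K] [FiniteDimensional F V]

theorem SCfg.u0 (c : SCfg K M f u N₁ N₂) : u ≠ 0 := by
  rintro rfl
  exact c.un N₂.zero_mem

theorem SCfg.u1 (c : SCfg K M f u N₁ N₂) : u ∈ N₁ := (c.line u).2 ⟨1, one_smul _ _⟩

theorem SCfg.mb1 (c : SCfg K M f u N₁ N₂) : Mb K M N₁ := mb_line c.u0 c.line

theorem SCfg.uZ (c : SCfg K M f u N₁ N₂) : u ∉ N₁ ⊓ N₂ := fun h => c.un h.2

/-- the functional and the form -/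
theorem SCfg.exists_pi (c : SCfg K M f u N₁ N₂) :
    ∃ (π : K →ₗ[F] F) (B : V → V → K), KF K M f π B ∧ π 1 = 1 ∧ ∀ k, k • u - π k • u ∈ N₁ ⊓ N₂ := by
  obtain ⟨lam, h1, h2⟩ := exists_phi (K := F) c.uZ
  have hk : ∀ k : K, k • u - lam (k • u) • u ∈ N₁ ⊓ N₂ := by
    intro k
    have h3 : N₁ ⊓ N₂ ≤ LinearMap.ker lam ⊓ N₁ := fun x hx => ⟨h2 x hx, hx.1⟩
    have h4 : LinearMap.ker lam ⊓ N₁ < N₁ := by
      refine lt_of_le_of_ne inf_le_right (fun h => ?_)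
      have := c.u1
      rw [← h] at this
      have h5 : lam u = 0 := this.1
      rw [h1] at h5
      exact one_ne_zero h5
    have h5 := Submodule.finrank_lt_finrank_of_lt h4
    rw [c.mb1.finrank, c.fr] at h5
    have h6 : N₁ ⊓ N₂ = LinearMap.ker lam ⊓ N₁ := Submodule.eq_of_le_of_finrank_le h3 (by omega)
    rw [h6]
    refine ⟨?_, N₁.sub_mem ((c.line _).2 ⟨k, rfl⟩) (N₁.smul_mem _ c.u1)⟩
    show lam (k • u - lam (k • u) • u) = 0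
    rw [map_sub, map_smul lam (lam (k • u)) u, h1, smul_eq_mul, mul_one, sub_self]
  have hπ1 : (lam.comp ((LinearMap.toSpanSingleton K V u).restrictScalars F)) 1 = 1 := by
    show lam ((1 : K) • u) = 1
    rw [one_smul, h1]
  obtain ⟨B, hB⟩ := exists_KF c.sx (π := lam.comp ((LinearMap.toSpanSingleton K V u).restrictScalars F)) (by rw [hπ1]; exact one_ne_zero)
  exact ⟨_, B, hB, hπ1, hk⟩

theorem SCfg.pi_zero (c : SCfg K M f u N₁ N₂) (hπ : ∀ k, k • u - π k • u ∈ N₁ ⊓ N₂) {k : K} :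
    k • u ∈ N₁ ⊓ N₂ ↔ π k = 0 := by
  constructor
  · intro h
    by_contra h0
    have h1 := (N₁ ⊓ N₂).sub_mem h (hπ k)
    rw [sub_sub_cancel] at h1
    have h3 := (N₁ ⊓ N₂).smul_mem (π k)⁻¹ h1
    rw [smul_smul, inv_mul_cancel₀ h0, one_smul] at h3
    exact c.uZ h3
  · intro h
    have := hπ k
    rwa [h, zero_smul, sub_zero] at this

theorem SCfg.tc (c : SCfg K M f u N₁ N₂) {x y : V}
    (hx : x ∉ N₁ ⊓ N₂) (hy : y ∉ N₁ ⊓ N₂) (hxp : ∀ z ∈ N₁ ⊓ N₂, f z x = 0) (hyp : ∀ z ∈ N₁ ⊓ N₂, f z y = 0) :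
    Rel M (N₁ ⊓ N₂) x y := by
  obtain ⟨π, B, b, -⟩ := c.exists_pi
  have hne : N₁ ≠ N₂ := by
    intro h
    exact c.un (h ▸ c.u1)
  exact b.tc c.mb1 c.mb (fun h => hne (c.mb1.eq_of_le c.mb h)) (fun h => hne (c.mb.eq_of_le c.mb1 h).symm) hx hy hxp hyp

theorem SCfg.perpu (c : SCfg K M f u N₁ N₂) (b : KF K M f π B) {n : V} (hn : n ∈ N₁) : ∀ z ∈ N₁ ⊓ N₂, f z n = 0 :=
  fun _ hz => b.miso c.mb1 hz.1 hn

/-- on the perp of the intersection the large form is rational -/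
theorem SCfg.rat (c : SCfg K M f u N₁ N₂) (b : KF K M f π B) (h1 : π 1 = 1) (hπ : ∀ k, k • u - π k • u ∈ N₁ ⊓ N₂) {x : V}
    (hx : ∀ z ∈ N₁ ⊓ N₂, f z x = 0) : B x u = algebraMap F K (f x u) := by
  rw [← sub_eq_zero]
  apply Cfsg.Agent.H21.GUy.pi_zero b.pi1
  intro k
  have hk : π ((k - algebraMap F K (π k)) * B x u) = 0 := by
    rw [← b.sr, b.pi, b.fskew, neg_eq_zero]
    apply hx
    rw [sub_smul, algebraMap_smul]
    exact hπ k
  rw [mul_sub, map_sub, mul_comm k (algebraMap F K (f x u)), ← Algebra.smul_def, map_smul, ← b.pi, smul_eq_mul]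
  rw [sub_mul, map_sub, ← Algebra.smul_def, map_smul, smul_eq_mul] at hk
  linear_combination hk

/-- the elements attached to a point of the intersection and a point of its perp -/
theorem SCfg.rho (c : SCfg K M f u N₁ N₂) {z w : V} (hz : z ∈ N₁ ⊓ N₂) (hw : w ∉ N₁ ⊓ N₂) (hwp : ∀ z ∈ N₁ ⊓ N₂, f z w = 0) :
    ∃ ρ ∈ M, (∀ x, (∀ z ∈ N₁ ⊓ N₂, f z x = 0) → ρ x = x + f x w • z) ∧ (∀ x, ρ x - x - f x z • w ∈ N₁ ⊓ N₂) := by
  obtain ⟨π, B, b, h1, hπ⟩ := c.exists_pi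
  obtain ⟨l, hl⟩ := (c.line z).1 hz.1
  obtain ⟨t, ht, htx⟩ := b.tv l u
  obtain ⟨g, hg, hgZ, hgu⟩ := c.tc c.uZ hw (c.perpu b c.u1) hwp
  refine ⟨g * t * g⁻¹, M.mul_mem (M.mul_mem hg ht) (M.inv_mem hg), fun x hx => ?_, fun x => ?_⟩
  · show g (t (g⁻¹ x)) = _
    have h3 : ∀ z ∈ N₁ ⊓ N₂, f z (g⁻¹ x) = 0 := by
      intro z' hz'
      rw [← b.sx.iso g hg, ai, hgZ _ hz']
      exact hx z' hz'
    rw [htx, c.rat b h1 hπ h3, mul_comm, mul_smul, hl, algebraMap_smul, map_add, ai, map_smul g (f (g⁻¹ x) u), hgZ z hz,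
      ← b.sx.iso g hg (g⁻¹ x) u, ai, hgu]
  · show g (t (g⁻¹ x)) - x - f x z • w ∈ _
    rw [htx, map_add, ai, add_sub_cancel_left]
    have h3 := hπ (l * B (g⁻¹ x) u)
    have h4 : π (l * B (g⁻¹ x) u) = f x z := by
      rw [← b.sr, hl, b.pi, ← b.sx.iso g hg (g⁻¹ x) z, ai, hgZ z hz]
    rw [h4] at h3
    have h5 := hgZ _ h3
    rw [map_sub, map_smul g (f x z), hgu] at h5
    rw [h5]
    exact h3

/-- the elements with image in the intersection -/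
def EE (M : Subgroup (V ≃ₗ[F] V)) (f : V →ₗ[F] V →ₗ[F] F) (z z' : V) (a : F) : Prop :=
  ∃ g ∈ M, ∀ x, g x = x + a • (f x z' • z + f x z • z')

omit [Finite F] [FiniteDimensional F V] [IsScalarTower F K V] [FiniteDimensional F K] [Algebra F K] in
theorem EE.conj (s : SX K M f) {z z' : V} {a : F} (h : EE M f z z' a) {g : V ≃ₗ[F] V} (hg : g ∈ M) : EE M f (g z) (g z') a := by
  obtain ⟨t, ht, htx⟩ := h
  refine ⟨g * t * g⁻¹, M.mul_mem (M.mul_mem hg ht) (M.inv_mem hg), fun x => ?_⟩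
  show g (t (g⁻¹ x)) = _
  rw [htx, map_add, ai, map_smul g a, map_add g, map_smul g, map_smul g, ← s.iso g hg (g⁻¹ x) z', ← s.iso g hg (g⁻¹ x) z, ai]

theorem SCfg.ee (c : SCfg K M f u N₁ N₂) {z z' : V} (hz : z ∈ N₁ ⊓ N₂) (hz' : z' ∈ N₁ ⊓ N₂) (a : F) : EE M f z z' a := by
  obtain ⟨π, B, b, h1, hπ⟩ := c.exists_pi
  by_cases ha : a = 0
  · exact ⟨1, M.one_mem, fun x => by rw [ha, zero_smul, add_zero]; rfl⟩
  obtain ⟨γ, hγ1, hγ0⟩ := exists_phi (K := F) c.uZ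
  obtain ⟨y, hy⟩ := b.frep γ
  have hyZ : ∀ z ∈ N₁ ⊓ N₂, f z y = 0 := fun z hz => by rw [← hy]; exact hγ0 z hz
  have huy : f u y = 1 := by rw [← hy]; exact hγ1
  have hayN : (-a) • y ∉ N₁ ⊓ N₂ := by
    intro hm
    have h3 := b.miso c.mb1 c.u1 hm.1
    rw [map_smul, huy, smul_eq_mul, mul_one, neg_eq_zero] at h3
    exact ha h3
  have hayZ : ∀ z ∈ N₁ ⊓ N₂, f z ((-a) • y) = 0 := fun z hz => by rw [map_smul, hyZ z hz, smul_zero]
  have hu := c.perpu b c.u1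
  obtain ⟨ρ, hρ, r1, r2⟩ := c.rho hz c.uZ hu
  obtain ⟨ρ', hρ', r1', r2'⟩ := c.rho hz' hayN hayZ
  have hZp : ∀ v ∈ N₁ ⊓ N₂, ∀ z ∈ N₁ ⊓ N₂, f z v = 0 := fun v hv => c.perpu b hv.1
  have hzu : ∀ v ∈ N₁ ⊓ N₂, f v u = 0 := hu
  have fix1 : ∀ v ∈ N₁ ⊓ N₂, ρ v = v := fun v hv => by rw [r1 v (hZp v hv), hzu v hv, zero_smul, add_zero]
  have fix2 : ∀ v ∈ N₁ ⊓ N₂, ρ' v = v := fun v hv => by rw [r1' v (hZp v hv), hayZ v hv, zero_smul, add_zero]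
  have hcom : ∀ x, ρ (ρ' x) = ρ' (ρ x) + a • (f x z' • z + f x z • z') := by
    intro x
    have e1 : ρ' x = x + f x z' • ((-a) • y) + (ρ' x - x - f x z' • ((-a) • y)) := by abel
    have e2 : ρ x = x + f x z • u + (ρ x - x - f x z • u) := by abel
    have k1 : ρ ((-a) • y) = (-a) • y + a • z := by
      rw [r1 _ hayZ, map_smul f, LinearMap.smul_apply, b.fskew, huy]
      module
    have k2 : ρ' u = u + (-a) • z' := by
      rw [r1' u hu, map_smul, huy]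
      module
    have l1 : ρ (ρ' x) = ρ x + f x z' • ((-a) • y + a • z) + (ρ' x - x - f x z' • ((-a) • y)) := by
      rw [e1, map_add ρ, map_add ρ, map_smul ρ, k1, fix1 _ (r2' x)]
      abel
    have l2 : ρ' (ρ x) = ρ' x + f x z • (u + (-a) • z') + (ρ x - x - f x z • u) := by
      rw [e2, map_add ρ', map_add ρ', map_smul ρ', k2, fix2 _ (r2 x)]
      abel
    rw [l1, l2]
    module
  refine ⟨(ρ * ρ') * (ρ' * ρ)⁻¹, M.mul_mem (M.mul_mem hρ hρ') (M.inv_mem (M.mul_mem hρ' hρ)), fun y => ?_⟩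
  have hx : ρ' (ρ ((ρ' * ρ)⁻¹ y)) = y := ai (ρ' * ρ) y
  show ρ (ρ' ((ρ' * ρ)⁻¹ y)) = _
  generalize (ρ' * ρ)⁻¹ y = x at *
  rw [hcom, hx]
  have hf : ∀ v ∈ N₁ ⊓ N₂, f x v = f y v := by
    intro v hv
    rw [← hx]
    nth_rewrite 2 [← fix2 v hv]
    nth_rewrite 2 [← fix1 v hv]
    rw [b.sx.iso _ hρ', b.sx.iso _ hρ]
  rw [hf z hz, hf z' hz']

end Cfsg.Agent.H21.GUy
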