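import Mathlib
import Cfsg.Agent.GUy4

set_option autoImplicit false

/-! symplectic groups over extension fields of prime degree, V: transvections -/

namespace Cfsg.Agent.H21.GUy

open Module Cfsg.Agent.H21.GUx

variable {F K V : Type*} [Field F] [Field K] [Algebra F K] [AddCommGroup V] [Module F V] [Module K V] [IsScalarTower F K V]
variable {M : Subgroup (V ≃ₗ[F] V)} {f : V →ₗ[F] V →ₗ[F] F} {π : K →ₗ[F] F} {B : V → V → K} {N Z N₁ N₂ : Submodule F V} {u : V}

/-- transvections in the group -/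
def SV (M : Subgroup (V ≃ₗ[F] V)) (f : V →ₗ[F] V →ₗ[F] F) (z : V) (a : F) : Prop := ∃ g ∈ M, ∀ x, g x = x + (a * f x z) • z

theorem SV.conj (s : SX K M f) {z : V} {a : F} (h : SV M f z a) {g : V ≃ₗ[F] V} (hg : g ∈ M) : SV M f (g z) a := by
  obtain ⟨t, ht, htx⟩ := h
  refine ⟨g * t * g⁻¹, M.mul_mem (M.mul_mem hg ht) (M.inv_mem hg), fun x => ?_⟩
  show g (t (g⁻¹ x)) = _
  rw [htx, map_add, ai, map_smul, ← s.iso g hg (g⁻¹ x) z, ai]

theorem SV.zero (a : F) : SV M f 0 a := ⟨1, M.one_mem, fun x => by rw [smul_zero, add_zero]; rfl⟩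

variable [Finite F] [FiniteDimensional F K] [FiniteDimensional F V]

theorem all_of_odd (b : KF K M f π B) {z : V} (hz : z ≠ 0) (h : ∀ a, SV M f z a) (v : V) (a : F) : SV M f v a := by
  by_cases hv : v = 0
  · rw [hv]; exact SV.zero a
  obtain ⟨g, hg, -, hgv⟩ := b.move hz hv
  rw [← hgv]
  exact (h a).conj b.sx hg

theorem exists_sqrt (h2 : (2 : F) = 0) (a : F) : ∃ s : F, s * s = a := by
  have hinj : Function.Injective (fun s : F => s * s) := by
    intro s t h
    simp only at h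
    have : (s - t) * (s - t) = 0 := by linear_combination h + (t * t - s * t) * h2
    exact sub_eq_zero.1 (mul_self_eq_zero.1 this)
  exact (Finite.injective_iff_surjective.1 hinj) a

theorem all_of_even (b : KF K M f π B) (h2 : (2 : F) = 0) {z : V} {a₀ : F} (hz : z ≠ 0) (ha₀ : a₀ ≠ 0) (h : SV M f z a₀) (v : V) (a : F) :
    SV M f v a := by
  obtain ⟨s, hs⟩ := exists_sqrt h2 (a / a₀)
  have hs' : a = a₀ * (s * s) := by rw [hs]; field_simp
  by_cases hv : s • v = 0
  · refine ⟨1, M.one_mem, fun x => ?_⟩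
    have e : (a * f x v) • v = (a₀ * s * f x v) • (s • v) := by rw [hs', smul_smul]; congr 1; ring
    rw [e, hv, smul_zero, add_zero]
    rfl
  obtain ⟨g, hg, -, hgv⟩ := b.move hz hv
  obtain ⟨t, ht, htx⟩ := h.conj b.sx hg
  refine ⟨t, ht, fun x => ?_⟩
  rw [htx, hgv, map_smul, smul_smul, smul_eq_mul, hs']
  congr 2
  ring

/-- odd characteristic -/
theorem SCfg.odd (c : SCfg K M f u N₁ N₂) (h2 : (2 : F) ≠ 0) (v : V) (a : F) : SV M f v a := by
  obtain ⟨π, B, b, h1, hπ⟩ := c.exists_pi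
  have h1 : N₁ ⊓ N₂ ≠ ⊥ := by
    intro h0
    have h3 := c.fr
    rw [h0, finrank_bot] at h3
    have := c.prime.two_le
    omega
  obtain ⟨z, hz, hz0⟩ := (Submodule.ne_bot_iff _).1 h1
  refine all_of_odd b hz0 (fun a => ?_) v a
  obtain ⟨g, hg, hgx⟩ := c.ee hz hz (a / 2)
  refine ⟨g, hg, fun x => ?_⟩
  rw [hgx, ← add_smul, smul_smul]
  congr 2
  field_simp
  ring

/-- all the elements on a line, degree at least three -/
theorem SCfg.ee1 (c : SCfg K M f u N₁ N₂) (hr : 3 ≤ finrank F K) {z z' : V} (hz : z ∈ N₁) (hz' : z' ∈ N₁) (a : F) : EE M f z z' a := by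
  obtain ⟨π, B, b, h1, hπ⟩ := c.exists_pi
  obtain ⟨α, rfl⟩ := (c.line z).1 hz
  obtain ⟨β, rfl⟩ := (c.line z').1 hz'
  obtain ⟨k, hk0, hk1, hk2⟩ : ∃ k : K, k ≠ 0 ∧ π (k * α) = 0 ∧ π (k * β) = 0 := by
    let L : K →ₗ[F] F × F :=
      { toFun := fun k => (π (k * α), π (k * β))
        map_add' := fun x y => by rw [add_mul, add_mul, map_add, map_add]; rfl
        map_smul' := fun s x => by rw [smul_mul_assoc, smul_mul_assoc, map_smul, map_smul]; rfl }
    have h3 : LinearMap.ker L ≠ ⊥ := by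
      intro h0
      have h4 := LinearMap.finrank_range_add_finrank_ker L
      have h5 : finrank F (LinearMap.range L) ≤ 2 := by
        have := Submodule.finrank_le (LinearMap.range L)
        rwa [Module.finrank_prod, Module.finrank_self] at this
      rw [h0, finrank_bot] at h4
      omega
    obtain ⟨k, hk, hk0⟩ := (Submodule.ne_bot_iff _).1 h3
    have hk' : L k = 0 := hk
    exact ⟨k, hk0, congrArg Prod.fst hk', congrArg Prod.snd hk'⟩
  obtain ⟨g, hg, hgl, hgu⟩ := b.move c.u0 (smul_ne_zero (inv_ne_zero hk0) c.u0)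
  have e1 : ∀ x : K, g ((k * x) • u) = x • u := by
    intro x
    rw [hgl, hgu, smul_smul]
    congr 1
    field_simp
  have h3 := (c.ee ((c.pi_zero hπ).2 hk1) ((c.pi_zero hπ).2 hk2) a).conj c.sx hg
  rwa [e1, e1] at h3

/-- decomposition of alternating tensors -/
theorem decomp (b : KF K M f π B) (h2 : (2 : F) = 0) (hN : Mb K M N) (hE : ∀ z ∈ N, ∀ z' ∈ N, ∀ a, EE M f z z' a) :
    ∀ (n : ℕ) (τ : V →ₗ[F] V), finrank F V - finrank F (LinearMap.ker τ) ≤ n → (∀ x, τ x ∈ N) → (∀ x, f (τ x) x = 0) →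
      ∃ g ∈ M, ∀ x, g x = x + τ x := by
  have dV : ∀ v : V, v + v = 0 := by
    intro v
    have : (2 : F) • v = 0 := by rw [h2, zero_smul]
    rwa [two_smul] at this
  have dF : ∀ a : F, a + a = 0 := fun a => by linear_combination a * h2
  have fs : ∀ x y, f y x = f x y := fun x y => by
    rw [b.fskew]
    linear_combination (-(f x y)) * h2
  intro n
  induction n with
  | zero =>
    intro τ hτ _ _
    have h3 : LinearMap.ker τ = ⊤ := by
      apply Submodule.eq_top_of_finrank_eq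
      have := Submodule.finrank_le (LinearMap.ker τ)
      omega
    refine ⟨1, M.one_mem, fun x => ?_⟩
    have h4 : τ x = 0 := by
      have : x ∈ LinearMap.ker τ := by rw [h3]; trivial
      exact this
    rw [h4, add_zero]
    rfl
  | succ n ih =>
    intro τ hτ hτN hτ0
    by_cases h0 : ∀ x, τ x = 0
    · exact ⟨1, M.one_mem, fun x => by rw [h0, add_zero]; rfl⟩
    push Not at h0
    obtain ⟨x₀, hx₀⟩ := h0
    obtain ⟨y₁, hy₁⟩ := b.sx.nd _ hx₀
    obtain ⟨y₀, hy₀⟩ : ∃ y₀, f (τ x₀) y₀ = 1 := ⟨(f (τ x₀) y₁)⁻¹ • y₁, by rw [map_smul, smul_eq_mul, inv_mul_cancel₀ hy₁]⟩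
    have hsym : ∀ x y, f (τ x) y = f (τ y) x := by
      intro x y
      have h := hτ0 (x + y)
      simp only [map_add, LinearMap.add_apply, hτ0, zero_add, add_zero] at h
      have h3 := dF (f (τ y) x)
      linear_combination h - h3
    obtain ⟨e, he⟩ : ∃ e : V →ₗ[F] V, ∀ x, e x = f x (τ y₀) • τ x₀ + f x (τ x₀) • τ y₀ :=
      ⟨(f.flip (τ y₀)).smulRight (τ x₀) + (f.flip (τ x₀)).smulRight (τ y₀), fun x => rfl⟩
    have heN : ∀ x ∈ N, e x = 0 := by
      intro x hx
      rw [he, b.miso hN hx (hτN _), b.miso hN hx (hτN _), zero_smul, zero_smul, add_zero]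
    have heN' : ∀ x, e x ∈ N := fun x => by
      rw [he]; exact N.add_mem (N.smul_mem _ (hτN _)) (N.smul_mem _ (hτN _))
    have hlt : LinearMap.ker τ < LinearMap.ker (τ + e) := by
      rw [SetLike.lt_iff_le_and_exists]
      refine ⟨fun x hx => ?_, x₀, ?_, hx₀⟩
      · have hx' : τ x = 0 := hx
        show τ x + e x = 0
        rw [he, hx', fs, hsym, hx', fs (τ x₀) x, hsym x₀ x, hx']
        simp
      · show τ x₀ + e x₀ = 0
        rw [he, fs (τ x₀) x₀, hτ0, fs (τ y₀) x₀, ← hsym, hy₀, one_smul, zero_smul, add_zero, dV]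
    have hlt' := Submodule.finrank_lt_finrank_of_lt hlt
    obtain ⟨g', hg', hgx'⟩ := ih (τ + e) (by omega) (fun x => N.add_mem (hτN x) (heN' x)) (fun x => by
      rw [LinearMap.add_apply, map_add, LinearMap.add_apply, hτ0, he, map_add, LinearMap.add_apply, map_smul, map_smul,
        LinearMap.smul_apply, LinearMap.smul_apply, smul_eq_mul, smul_eq_mul, fs x (τ x₀), fs x (τ y₀)]
      linear_combination (f x (τ y₀) * f x (τ x₀)) * h2)
    obtain ⟨g, hg, hgx⟩ := hE _ (hτN x₀) _ (hτN y₀) 1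
    have hge : ∀ x, g x = x + e x := fun x => by rw [hgx, he, one_smul]
    refine ⟨g * g', M.mul_mem hg hg', fun x => ?_⟩
    show g (g' x) = _
    have h5 : e ((τ + e) x) = 0 := heN _ (N.add_mem (hτN x) (heN' x))
    rw [hge, hgx', map_add e, h5, add_zero, LinearMap.add_apply, add_assoc, add_assoc, dV, add_zero]

/-- characteristic two, degree at least three -/
theorem SCfg.even3 (c : SCfg K M f u N₁ N₂) (h2 : (2 : F) = 0) (hr : 3 ≤ finrank F K) (v : V) (a : F) : SV M f v a := by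
  obtain ⟨π, B, b, h1, hπ⟩ := c.exists_pi
  have dV : ∀ v : V, v + v = 0 := by
    intro v
    have : (2 : F) • v = 0 := by rw [h2, zero_smul]
    rwa [two_smul] at this
  have dK : (2 : K) = 0 := by
    have : algebraMap F K 2 = 0 := by rw [h2, map_zero]
    rwa [map_ofNat] at this
  have fs : ∀ x y, f y x = f x y := fun x y => by
    rw [b.fskew]
    linear_combination (-(f x y)) * h2
  choose sq hsq using exists_sqrt h2
  have hinj : ∀ s t : F, s * s = t * t → s = t := by
    intro s t h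
    have : (s - t) * (s - t) = 0 := by linear_combination h + (t * t - s * t) * h2
    exact sub_eq_zero.1 (mul_self_eq_zero.1 this)
  obtain ⟨γ, hγ⟩ : ∃ γ : V →ₗ[F] F, ∀ x, γ x * γ x = π (B x u * B x u) :=
    ⟨{ toFun := fun x => sq (π (B x u * B x u))
       map_add' := fun x y => by
         apply hinj
         rw [hsq, b.al]
         have e : (B x u + B y u) * (B x u + B y u) = B x u * B x u + B y u * B y u := by
           linear_combination (B x u * B y u) * dK
         rw [e, map_add]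
         linear_combination -(hsq (π (B x u * B x u))) - hsq (π (B y u * B y u)) - (sq (π (B x u * B x u)) * sq (π (B y u * B y u))) * h2
       map_smul' := fun s x => by
         apply hinj
         rw [hsq, ← algebraMap_smul K s x, b.sl, RingHom.id_apply, smul_eq_mul]
         have e : algebraMap F K s * B x u * (algebraMap F K s * B x u) = (s * s) • (B x u * B x u) := by
           rw [Algebra.smul_def, map_mul]; ring
         rw [e, map_smul, smul_eq_mul]
         linear_combination (-(s * s)) * (hsq (π (B x u * B x u))) }, fun x => hsq _⟩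
  obtain ⟨z₀, hz₀⟩ := b.frep γ
  have hz₀N : z₀ ∈ N₁ := by
    by_contra hc
    obtain ⟨y, hy1, hy2⟩ := b.dperp c.mb1 hc
    apply hy2
    have h3 : B u y = 0 := by
      apply Cfsg.Agent.H21.GUy.pi_zero b.pi1
      intro k
      rw [← b.sl, b.pi]
      exact hy1 _ ((c.line _).2 ⟨k, rfl⟩)
    have h4 := hγ y
    rw [b.skew u y, h3, neg_zero, mul_zero, map_zero] at h4
    rw [fs, ← hz₀]
    exact mul_self_eq_zero.1 h4
  have hz₀0 : z₀ ≠ 0 := by
    intro h0
    obtain ⟨w, hw, -⟩ := b.sep (P := ⊥) (x := u) (by rw [Submodule.mem_bot]; exact c.u0)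
    have h4 := hγ w
    rw [b.skew u w, hw, hz₀, h0, map_zero, mul_zero, neg_mul_neg, one_mul, h1] at h4
    exact zero_ne_one h4
  obtain ⟨τ, hτ⟩ : ∃ τ : V →ₗ[F] V, ∀ x, τ x = B x u • u + f x z₀ • z₀ := by
    obtain ⟨φ, hφ⟩ := b.lin u
    refine ⟨((LinearMap.toSpanSingleton K V u).comp φ).restrictScalars F + (f.flip z₀).smulRight z₀, fun x => ?_⟩
    show φ x • u + f x z₀ • z₀ = _
    rw [hφ]
  obtain ⟨g, hg, hgx⟩ := decomp b h2 c.mb1 (fun z hz z' hz' a => c.ee1 hr hz hz' a) _ τ le_rfl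
    (fun x => by rw [hτ]; exact N₁.add_mem ((c.line _).2 ⟨_, rfl⟩) (N₁.smul_mem _ hz₀N)) (fun x => by
      rw [hτ, map_add, LinearMap.add_apply, map_smul f, LinearMap.smul_apply, ← b.pi (B x u • u) x, b.sl, b.skew x u, mul_neg, map_neg,
        ← hγ, hz₀, smul_eq_mul, fs x z₀]
      ring)
  obtain ⟨t, ht, htx⟩ := b.tv 1 u
  refine all_of_even b h2 hz₀0 one_ne_zero ⟨g * t, M.mul_mem hg ht, fun x => ?_⟩ v a
  show g (t x) = _
  have h3 : τ (B x u • u) = 0 := by
    rw [hτ, b.sl, b.bb, mul_zero, zero_smul, b.miso c.mb1 ((c.line _).2 ⟨_, rfl⟩) hz₀N, zero_smul, add_zero]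
  rw [htx, one_mul, one_mul, hgx, map_add, h3, hτ, add_zero]
  have e : x + B x u • u + (B x u • u + f x z₀ • z₀) = x + f x z₀ • z₀ + (B x u • u + B x u • u) := by abel
  rw [e, dV, add_zero]

end Cfsg.Agent.H21.GUy
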