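import Mathlib
import Cfsg.Agent.GUy5

set_option autoImplicit false

/-! symplectic groups over extension fields of prime degree, VI: degree two in characteristic two -/

namespace Cfsg.Agent.H21.GUy

open Module Cfsg.Agent.H21.GUx

variable {F K V : Type*} [Field F] [Field K] [Algebra F K] [AddCommGroup V] [Module F V] [Module K V] [IsScalarTower F K V]
variable {M : Subgroup (V ≃ₗ[F] V)} {f : V →ₗ[F] V →ₗ[F] F} {π : K →ₗ[F] F} {B : V → V → K} {N Z N₁ N₂ : Submodule F V} {u : V}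
variable [Finite F] [FiniteDimensional F K] [FiniteDimensional F V]

/-- the elements attached to a point, with their quadratic invariant -/
theorem SCfg.rho2 (c : SCfg K M f u N₁ N₂) (h2 : (2 : F) = 0) {z : V} (hz : z ∈ N₁ ⊓ N₂) (hpp : ∀ x, f z x = 0 → ∀ z' ∈ N₁ ⊓ N₂, f z' x = 0) :
    ∃ δ : V → F, ∀ w, w ∉ N₁ ⊓ N₂ → f z w = 0 → ∃ ρ ∈ M, (∀ x, f z x = 0 → ρ x = x + f x w • z) ∧
      (∀ x, ρ x - x - f x z • w ∈ N₁ ⊓ N₂) ∧ ∀ x, f (ρ x) x = δ x := by
  obtain ⟨π, B, b, h1, hπ⟩ := c.exists_pi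
  obtain ⟨l, hl⟩ := (c.line z).1 hz.1
  have hπl : π l = 0 := (c.pi_zero hπ).1 (by rw [hl]; exact hz)
  have dK : (2 : K) = 0 := by
    have : algebraMap F K 2 = 0 := by rw [h2, map_zero]
    rwa [map_ofNat] at this
  refine ⟨fun x => π (l * (B x u * B x u)), fun w hw hwp => ?_⟩
  obtain ⟨t, ht, htx⟩ := b.tv l u
  obtain ⟨g, hg, hgZ, hgu⟩ := c.tc c.uZ hw (c.perpu b c.u1) (hpp w hwp)
  refine ⟨g * t * g⁻¹, M.mul_mem (M.mul_mem hg ht) (M.inv_mem hg), fun x hx => ?_, fun x => ?_, fun x => ?_⟩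
  · show g (t (g⁻¹ x)) = _
    have h3 : ∀ z ∈ N₁ ⊓ N₂, f z (g⁻¹ x) = 0 := by
      intro z' hz'
      rw [← b.sx.iso g hg, ai, hgZ _ hz']
      exact hpp x hx z' hz'
    rw [htx, c.rat b h1 hπ h3, mul_comm, mul_smul, hl, algebraMap_smul, map_add, ai, map_smul g (f (g⁻¹ x) u), hgZ z hz,
      ← b.sx.iso g hg (g⁻¹ x) u, ai, hgu]
  · show g (t (g⁻¹ x)) - x - f x z • w ∈ _
    rw [htx, map_add, ai, add_sub_cancel_left]
    have h3 := hπ (l * B (g⁻¹ x) u)
    have h4 : π (l * B (g⁻¹ x) u) = f x z := by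
      rw [← b.sr, hl, b.pi, ← b.sx.iso g hg (g⁻¹ x) z, ai, hgZ z hz]
    rw [h4] at h3
    have h5 := hgZ _ h3
    rw [map_sub, map_smul g (f x z), hgu] at h5
    rw [h5]
    exact h3
  · show f (g (t (g⁻¹ x))) x = _
    have e0 : f (g (t (g⁻¹ x))) x = f (t (g⁻¹ x)) (g⁻¹ x) := by rw [← b.sx.iso g hg (t (g⁻¹ x)) (g⁻¹ x), ai]
    have h3 : ∀ z ∈ N₁ ⊓ N₂, f z (g⁻¹ x - x) = 0 := by
      intro z' hz'
      rw [map_sub, ← b.sx.iso g hg z' (g⁻¹ x), ai, hgZ _ hz', sub_self]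
    have h4 := c.rat b h1 hπ h3
    rw [b.subl] at h4
    have h5 : B (g⁻¹ x) u = B x u + algebraMap F K (f (g⁻¹ x - x) u) := by linear_combination h4
    have h6 : f (g⁻¹ x) (g⁻¹ x) = 0 := by
      have := b.sx.alt 1 (g⁻¹ x)
      rwa [one_smul] at this
    rw [e0, htx, map_add, LinearMap.add_apply, h6, zero_add, ← b.pi, b.sl, b.skew (g⁻¹ x) u, h5]
    have e : l * (B x u + algebraMap F K (f (g⁻¹ x - x) u)) * -(B x u + algebraMap F K (f (g⁻¹ x - x) u)) =
        l * (B x u * B x u) + (f (g⁻¹ x - x) u * f (g⁻¹ x - x) u) • l := by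
      rw [Algebra.smul_def, map_mul]
      linear_combination (-(l * (B x u * B x u)) - l * B x u * algebraMap F K (f (g⁻¹ x - x) u) -
        l * algebraMap F K (f (g⁻¹ x - x) u) * algebraMap F K (f (g⁻¹ x - x) u)) * dK
    rw [e, map_add, map_smul, hπl, smul_zero, add_zero]

/-- characteristic two, degree two -/
theorem SCfg.even2 (c : SCfg K M f u N₁ N₂) (h2 : (2 : F) = 0) (hr : finrank F K = 2) (h3 : 3 ≤ finrank K V) (v : V) (a : F) :
    SV M f v a := by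
  obtain ⟨π, B, b, h1, hπ⟩ := c.exists_pi
  haveI : FiniteDimensional K V := FiniteDimensional.right F K V
  have dV : ∀ v : V, v + v = 0 := by
    intro v
    have : (2 : F) • v = 0 := by rw [h2, zero_smul]
    rwa [two_smul] at this
  have fs : ∀ x y, f y x = f x y := fun x y => by
    rw [b.fskew]
    linear_combination (-(f x y)) * h2
  have hfr := c.fr
  have hZ1 : finrank F ↥(N₁ ⊓ N₂) = 1 := by omega
  obtain ⟨⟨z, hz⟩, hz0, hzs⟩ := finrank_eq_one_iff'.1 hZ1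
  have hz0' : z ≠ 0 := fun h => hz0 (Subtype.ext h)
  have hzs' : ∀ x ∈ N₁ ⊓ N₂, ∃ a : F, a • z = x := by
    intro x hx
    obtain ⟨a, ha⟩ := hzs ⟨x, hx⟩
    exact ⟨a, congrArg Subtype.val ha⟩
  have hpp : ∀ x, f z x = 0 → ∀ z' ∈ N₁ ⊓ N₂, f z' x = 0 := by
    intro x hx z' hz'
    obtain ⟨a, rfl⟩ := hzs' z' hz'
    rw [map_smul, LinearMap.smul_apply, hx, smul_zero]
  have hff : ∀ x, f x x = 0 := fun x => by
    have := b.sx.alt 1 x
    rwa [one_smul] at this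
  obtain ⟨δ, hδ⟩ := c.rho2 h2 hz hpp
  obtain ⟨x₁, hx₁⟩ := b.sx.nd z hz0'
  obtain ⟨x₀, hx₀⟩ : ∃ x₀, f x₀ z = 1 := ⟨(f z x₁)⁻¹ • x₁, by
    rw [map_smul, LinearMap.smul_apply, fs z x₁, smul_eq_mul, inv_mul_cancel₀ hx₁]⟩
  -- the construction
  have hmain : ∀ w w' : V, w ∉ N₁ ⊓ N₂ → w' ∉ N₁ ⊓ N₂ → w + w' ∉ N₁ ⊓ N₂ → f z w = 0 → f z w' = 0 → SV M f z (f w' w - δ x₀) := by
    intro w w' hw hw' hww hzw hzw'
    obtain ⟨ρ, hρ, r1, r2, r3⟩ := hδ w hw hzw
    obtain ⟨ρ', hρ', r1', r2', r3'⟩ := hδ w' hw' hzw'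
    have hzww : f z (w + w') = 0 := by rw [map_add, hzw, hzw', add_zero]
    obtain ⟨σ, hσ, s1, s2, s3⟩ := hδ (w + w') hww hzww
    have val : ∀ (τ : V ≃ₗ[F] V) (y : V), τ x₀ - x₀ - f x₀ z • y ∈ N₁ ⊓ N₂ → f (τ x₀) x₀ = δ x₀ →
        τ x₀ = x₀ + y + (δ x₀ - f y x₀) • z := by
      intro τ y h3 h4
      obtain ⟨a, ha⟩ := hzs' _ h3
      rw [hx₀, one_smul] at ha
      have h5 : τ x₀ = x₀ + y + a • z := by rw [ha]; abel
      rw [h5, map_add, map_add, map_smul f, LinearMap.add_apply, LinearMap.add_apply, LinearMap.smul_apply, hff, fs x₀ z, hx₀, zero_add,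
        smul_eq_mul, mul_one] at h4
      rw [h5, ← h4, add_sub_cancel_left]
    have v1 := val ρ w (r2 x₀) (r3 x₀)
    have v2 := val ρ' w' (r2' x₀) (r3' x₀)
    have v3 := val σ (w + w') (s2 x₀) (s3 x₀)
    have hzz : f z z = 0 := hff z
    have fz1 : ρ z = z := by rw [r1 z hzz, hzw, zero_smul, add_zero]
    have fz2 : ρ' z = z := by rw [r1' z hzz, hzw', zero_smul, add_zero]
    have fz3 : σ z = z := by rw [s1 z hzz, hzww, zero_smul, add_zero]
    have hperp : ∀ x, f z x = 0 → ρ (ρ' x) = σ x := by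
      intro x hx
      rw [r1' x hx, map_add, map_smul, fz1, r1 x hx, s1 x hx, map_add]
      module
    have hx0' : ρ (ρ' x₀) = σ x₀ + (f w' w - δ x₀) • z := by
      rw [v2, v3, map_add ρ, map_add ρ, map_smul ρ, v1, fz1, r1 w' hzw', map_add f w w', LinearMap.add_apply]
      have h5 : δ x₀ - f w x₀ + (δ x₀ - f w' x₀) + f w' w = (δ x₀ - (f w x₀ + f w' x₀)) + (f w' w - δ x₀) := by
        linear_combination (δ x₀) * h2
      have h6 : x₀ + w + (δ x₀ - f w x₀) • z + (w' + f w' w • z) + (δ x₀ - f w' x₀) • z =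
          x₀ + (w + w') + (δ x₀ - f w x₀ + (δ x₀ - f w' x₀) + f w' w) • z := by module
      rw [h6, h5]
      module
    refine ⟨(ρ * ρ') * σ⁻¹, M.mul_mem (M.mul_mem hρ hρ') (M.inv_mem hσ), fun y => ?_⟩
    have hy : σ (σ⁻¹ y) = y := ai σ y
    show ρ (ρ' (σ⁻¹ y)) = _
    generalize σ⁻¹ y = x at *
    have hfx : f y z = f x z := by rw [← hy, ← b.sx.iso σ hσ x z, fz3]
    have h7 : f z (x - f x z • x₀) = 0 := by
      rw [map_sub, map_smul, fs x z, fs x₀ z, hx₀, smul_eq_mul, mul_one, sub_self]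
    have h8 := hperp _ h7
    rw [map_sub, map_sub, map_sub, map_smul, map_smul, map_smul, hx0', hy] at h8
    have h9 : ρ (ρ' x) = y - f x z • σ x₀ + f x z • (σ x₀ + (f w' w - δ x₀) • z) := by
      rw [← h8]; abel
    rw [h9, hfx]
    module
  by_cases hd : δ x₀ = 0
  · obtain ⟨γ, hγ1, hγ0⟩ := exists_phi (K := F) c.uZ
    obtain ⟨y, hy⟩ := b.frep γ
    have hyZ : f z y = 0 := by rw [← hy]; exact hγ0 z hz
    have huy : f u y = 1 := by rw [← hy]; exact hγ1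
    have hmi : ∀ x ∈ N₁ ⊓ N₂, f u x = 0 := fun x hx => b.miso c.mb1 c.u1 hx.1
    have h4 := hmain u y c.uZ (fun h => by
      have := hmi _ h
      rw [huy] at this
      exact one_ne_zero this) (fun h => by
      have := hmi _ h
      rw [map_add, huy, hff, zero_add] at this
      exact one_ne_zero this) (b.miso c.mb1 hz.1 c.u1) hyZ
    refine all_of_even b h2 hz0' ?_ h4 v a
    rw [hd, sub_zero, fs u y, huy]
    exact one_ne_zero
  · obtain ⟨φ, hφ⟩ := b.lin u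
    have h4 : ¬ LinearMap.ker φ ≤ Submodule.span K {u} := by
      intro hle
      have h5 := Submodule.finrank_mono hle
      have h6 := LinearMap.finrank_range_add_finrank_ker φ
      have h7 : finrank K (LinearMap.range φ) ≤ 1 := by
        have := Submodule.finrank_le (LinearMap.range φ)
        rwa [Module.finrank_self] at this
      have h8 : finrank K (Submodule.span K ({u} : Set V)) ≤ 1 := by
        have := finrank_span_le_card (R := K) ({u} : Set V)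
        simpa using this
      omega
    obtain ⟨w', hw', hwu⟩ := SetLike.not_le_iff_exists.1 h4
    have hw1 : w' ∉ N₁ := fun h => hwu (Submodule.mem_span_singleton.2 ((c.line w').1 h))
    have hw2 : B w' u = 0 := by rw [← hφ]; exact hw'
    have hw3 : ∀ n ∈ N₁, f n w' = 0 := by
      intro n hn
      obtain ⟨k, rfl⟩ := (c.line n).1 hn
      rw [← b.pi, b.sl, b.skew w' u, hw2, neg_zero, mul_zero, map_zero]
    have h4 := hmain u w' c.uZ (fun h => hw1 h.1) (fun h => hw1 ((N₁.add_mem_iff_right c.u1).1 h.1)) (b.miso c.mb1 hz.1 c.u1) (hw3 z hz.1)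
    refine all_of_even b h2 hz0' ?_ h4 v a
    rw [fs u w', hw3 u c.u1, zero_sub]
    exact neg_ne_zero.2 hd

end Cfsg.Agent.H21.GUy
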