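import Mathlib
import Cfsg.Agent.GUy6
import Cfsg.Agent.GUx10
import Cfsg.Agent.H29_TrvSp

set_option autoImplicit false

/-! symplectic groups over extension fields of prime degree, VII: the dichotomy and matrices -/

namespace Cfsg.Agent.H21.GUy

open Module Cfsg.Agent.H21.GUx

section Abs

variable {F K V : Type*} [Field F] [Field K] [Algebra F K] [AddCommGroup V] [Module F V] [Module K V] [IsScalarTower F K V]
variable {M : Subgroup (V ≃ₗ[F] V)} {f : V →ₗ[F] V →ₗ[F] F}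

theorem dichotomy [Finite F] [FiniteDimensional F K] [FiniteDimensional F V] (hp : (finrank F K).Prime) (s : SX K M f)
    (h3 : finrank F K = 2 → 3 ≤ finrank K V) :
    (∀ (v : V) (a : F), SV M f v a) ∨ (∀ g ∈ M, ∀ (v : V) (k : K), ∃ k' : K, g (k • v) = k' • g v) := by
  by_cases hex : ∃ A B : Submodule F V, Mb K M A ∧ Mb K M B ∧ A ≠ B ∧ A ⊓ B ≠ ⊥
  · left
    obtain ⟨A, B, hA, hB, hAB, hne⟩ := hex
    obtain ⟨u, N₁, N₂, c⟩ := exists_scfg hp s hA hB hAB hne
    by_cases h2 : (2 : F) = 0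
    · by_cases hr : finrank F K = 2
      · exact fun v a => c.even2 h2 hr (h3 hr) v a
      · have := hp.two_le
        exact fun v a => c.even3 h2 (by omega) v a
    · exact fun v a => c.odd h2 v a
  · right
    intro g hg v k
    by_cases hv : v = 0
    · exact ⟨0, by rw [hv, smul_zero, map_zero, smul_zero]⟩
    obtain ⟨N, hN⟩ := exists_line (F := F) (K := K) v
    obtain ⟨N', hN'⟩ := exists_line (F := F) (K := K) (g v)
    have hgv : g v ≠ 0 := by
      intro h
      exact hv (g.injective (h.trans (map_zero g).symm))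
    have h1 : Mb K M (N.map (g : V →ₗ[F] V)) := (mb_line hv hN).map hg
    have h3 : Mb K M N' := mb_line hgv hN'
    have h4 : N.map (g : V →ₗ[F] V) = N' := by
      by_contra hne
      apply hex
      refine ⟨_, _, h1, h3, hne, ?_⟩
      intro h0
      apply hgv
      have h5 : g v ∈ N.map (g : V →ₗ[F] V) ⊓ N' := by
        refine ⟨Submodule.mem_map.2 ⟨v, (hN v).2 ⟨1, one_smul _ _⟩, rfl⟩, (hN' _).2 ⟨1, one_smul _ _⟩⟩
      rw [h0] at h5
      exact (Submodule.mem_bot F).1 h5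
    have h5 : g (k • v) ∈ N' := by
      rw [← h4]
      exact Submodule.mem_map.2 ⟨k • v, (hN _).2 ⟨k, rfl⟩, rfl⟩
    obtain ⟨k', hk'⟩ := (hN' _).1 h5
    exact ⟨k', hk'.symm⟩

/-- a vector outside a line -/
theorem exists_out [Finite F] [FiniteDimensional F K] [FiniteDimensional F V] [Nontrivial V] (s : SX K M f) (v : V) :
    ∃ x, x ∉ Submodule.span K {v} := by
  obtain ⟨π, hπ⟩ := exists_pi0 (F := F) (K := K)
  obtain ⟨B, b⟩ := exists_KF s hπ
  by_cases hv : v = 0
  · obtain ⟨x, hx⟩ := exists_ne (0 : V)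
    refine ⟨x, fun h => hx ?_⟩
    rw [hv] at h
    simpa using h
  · obtain ⟨x, hx⟩ := b.nd hv
    refine ⟨x, fun h => hx ?_⟩
    obtain ⟨k, rfl⟩ := Submodule.mem_span_singleton.1 h
    rw [b.sr, b.bb, mul_zero]

/-- a transvection not respecting the large field -/
theorem exists_bad [Finite F] [FiniteDimensional F K] [FiniteDimensional F V] [Nontrivial V] (s : SX K M f) (hp : (finrank F K).Prime) :
    ∃ (k : K) (y v : V), f y v = 0 ∧ f (k • y) v = 1 ∧ ∀ k' : K, k' • y ≠ k • y + v := by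
  obtain ⟨π, hπ⟩ := exists_pi0 (F := F) (K := K)
  obtain ⟨B, b⟩ := exists_KF s hπ
  obtain ⟨y, hy0⟩ := exists_ne (0 : V)
  obtain ⟨t, -, ht⟩ := exists_irr_pow (F := F) (K := K) hp.two_le
  generalize t ^ (Nat.card F - 1) = k at ht
  have hky : k • y ∉ Submodule.span F {y} := by
    intro hm
    obtain ⟨a, ha⟩ := Submodule.mem_span_singleton.1 hm
    apply ht
    rw [Algebra.mem_bot]
    refine ⟨a, ?_⟩
    have h3 : (algebraMap F K a - k) • y = 0 := by
      rw [sub_smul, algebraMap_smul, ha, sub_self]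
    exact sub_eq_zero.1 ((smul_eq_zero.1 h3).resolve_right hy0)
  obtain ⟨γ, hγ1, hγ0⟩ := exists_phi (K := F) hky
  obtain ⟨v, hv⟩ := b.frep γ
  refine ⟨k, y, v, by rw [← hv]; exact hγ0 y (Submodule.mem_span_singleton_self y), by rw [← hv, hγ1], fun k' h => ?_⟩
  have e : v = (k' - k) • y := by rw [sub_smul, h, add_sub_cancel_left]
  have h1 : f (k • y) v = 0 := by rw [e, ← b.pi, b.sl, b.sr, b.bb, mul_zero, mul_zero, map_zero]
  rw [← hv, hγ1] at h1
  exact one_ne_zero h1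

end Abs

section Mat

open Matrix Cfsg.Geo Cfsg.Agent.H29.Trv

variable {F : Type*} [Field F] {ι : Type} [Fintype ι] [DecidableEq ι] {r : ℕ} {K : Subalgebra F (Matrix ι ι F)}

theorem isField' [Nonempty ι] (hK : IsFieldSubalgebra r K) : IsField K := by
  refine ⟨⟨0, 1, zero_ne_one⟩, fun x y => Subtype.ext (hK.comm _ x.2 _ y.2), fun {a} ha => ?_⟩
  obtain ⟨y, hy, h⟩ := hK.inv a a.2 (fun h0 => ha (Subtype.ext h0))
  exact ⟨⟨y, hy⟩, Subtype.ext h⟩

/-- matrices as linear equivalences -/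
noncomputable def ei (F : Type*) [Field F] (ι : Type) [Fintype ι] [DecidableEq ι] : GL ι F ≃* ((ι → F) ≃ₗ[F] (ι → F)) :=
  Matrix.GeneralLinearGroup.toLin.trans (LinearMap.GeneralLinearGroup.generalLinearEquiv F (ι → F))

theorem ei_apply (g : GL ι F) (x : ι → F) : ei F ι g x = (g : Matrix ι ι F) *ᵥ x := rfl

/-- commuting matrices normalise -/
theorem mem_norm_of_comm' {g : GL ι F} (h : ∀ k ∈ K, (g : Matrix ι ι F) * k = k * g) : g ∈ subalgebraNormalizer K := by
  have key : ∀ g : GL ι F, (∀ k ∈ K, (g : Matrix ι ι F) * k = k * g) → ∀ k ∈ K,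
      (g : Matrix ι ι F) * k * ((g⁻¹ : GL ι F) : Matrix ι ι F) ∈ K := by
    intro g h k hk
    rw [h k hk, mul_assoc, ← Units.val_mul, mul_inv_cancel, Units.val_one, mul_one]
    exact hk
  have h' : ∀ k ∈ K, ((g⁻¹ : GL ι F) : Matrix ι ι F) * k = k * ((g⁻¹ : GL ι F) : Matrix ι ι F) := by
    intro k hk
    have h1 := h k hk
    have e1 : ((g⁻¹ : GL ι F) : Matrix ι ι F) * (g : Matrix ι ι F) = 1 := by
      rw [← Units.val_mul, inv_mul_cancel, Units.val_one]
    have e2 : (g : Matrix ι ι F) * ((g⁻¹ : GL ι F) : Matrix ι ι F) = 1 := by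
      rw [← Units.val_mul, mul_inv_cancel, Units.val_one]
    calc ((g⁻¹ : GL ι F) : Matrix ι ι F) * k
        = ((g⁻¹ : GL ι F) : Matrix ι ι F) * (k * g) * ((g⁻¹ : GL ι F) : Matrix ι ι F) := by
          rw [mul_assoc, mul_assoc, e2, mul_one]
      _ = k * ((g⁻¹ : GL ι F) : Matrix ι ι F) := by
          rw [← h1, ← mul_assoc, e1, one_mul]
  intro k
  constructor
  · exact key g h k
  · intro hk
    have h3 := key g⁻¹ h' _ hk
    have e : ((g⁻¹ : GL ι F) : Matrix ι ι F) * ((g : Matrix ι ι F) * k * ((g⁻¹ : GL ι F) : Matrix ι ι F)) *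
        ((g⁻¹⁻¹ : GL ι F) : Matrix ι ι F) = k := by
      rw [inv_inv, mul_assoc, mul_assoc, ← Units.val_mul, inv_mul_cancel, Units.val_one, mul_one, ← mul_assoc, ← Units.val_mul,
        inv_mul_cancel, Units.val_one, one_mul]
    rwa [e] at h3

theorem mem_norm_of_semi' {g : GL ι F} (h : ∀ k ∈ K, ∃ k' ∈ K, (g : Matrix ι ι F) * k = k' * g)
    (h' : ∀ k ∈ K, ∃ k' ∈ K, ((g⁻¹ : GL ι F) : Matrix ι ι F) * k = k' * ((g⁻¹ : GL ι F) : Matrix ι ι F)) :
    g ∈ subalgebraNormalizer K := by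
  intro k
  constructor
  · intro hk
    obtain ⟨k', hk', e⟩ := h k hk
    rw [e, mul_assoc, ← Units.val_mul, mul_inv_cancel, Units.val_one, mul_one]
    exact hk'
  · intro hk
    obtain ⟨k', hk', e⟩ := h' _ hk
    have e1 : k * ((g⁻¹ : GL ι F) : Matrix ι ι F) = k' * ((g⁻¹ : GL ι F) : Matrix ι ι F) := by
      rw [← e, ← mul_assoc, ← mul_assoc, ← Units.val_mul, inv_mul_cancel, Units.val_one, one_mul]
    have e2 : k = k' := by
      have := congrArg (· * (g : Matrix ι ι F)) e1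
      simp only [mul_assoc] at this
      rwa [← Units.val_mul, inv_mul_cancel, Units.val_one, mul_one, mul_one] at this
    rw [e2]
    exact hk'

variable {m : ℕ}

theorem sp_main [Fintype F] (hm : 7 ≤ m) (hr : r.Prime) {K : Subalgebra F (Matrix (Fin m ⊕ Fin m) (Fin m ⊕ Fin m) F)}
    (hK : IsFieldSubalgebra r K) (hsa : IsSelfAdjointFor (Cfsg.sympForm m F) K)
    (halt : ∀ k ∈ K, ∀ v : (Fin m ⊕ Fin m → F), Cfsg.sympForm m F (k *ᵥ v) v = 0) :
    (¬ Cfsg.spGL m F ≤ subalgebraNormalizer K) ∧ ∀ M : Subgroup (GL (Fin m ⊕ Fin m) F), subalgebraNormalizer K ⊓ Cfsg.spGL m F ≤ M →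
      M ≤ Cfsg.spGL m F → ∀ g ∈ M, g ∉ subalgebraNormalizer K → Cfsg.spGL m F ≤ M := by
  classical
  haveI : Nonempty (Fin m ⊕ Fin m) := ⟨Sum.inl ⟨0, by omega⟩⟩
  letI : Field K := (isField' hK).toField
  letI : Module K ((Fin m ⊕ Fin m) → F) :=
    { smul := fun k v => (k : Matrix (Fin m ⊕ Fin m) (Fin m ⊕ Fin m) F) *ᵥ v
      one_smul := fun v => one_mulVec v
      mul_smul := fun a b v => (mulVec_mulVec v (a : Matrix (Fin m ⊕ Fin m) (Fin m ⊕ Fin m) F) (b : Matrix (Fin m ⊕ Fin m) (Fin m ⊕ Fin m) F)).symm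
      smul_zero := fun a => mulVec_zero _
      smul_add := fun a x y => mulVec_add _ _ _
      add_smul := fun a b x => add_mulVec _ _ _
      zero_smul := fun x => zero_mulVec _ }
  have hsm : ∀ (k : K) (v : (Fin m ⊕ Fin m) → F), k • v = (k : Matrix (Fin m ⊕ Fin m) (Fin m ⊕ Fin m) F) *ᵥ v := fun k v => rfl
  haveI : IsScalarTower F K ((Fin m ⊕ Fin m) → F) := ⟨fun a k v => smul_mulVec a (k : Matrix (Fin m ⊕ Fin m) (Fin m ⊕ Fin m) F) v⟩
  haveI : FiniteDimensional F K := FiniteDimensional.finiteDimensional_submodule (Subalgebra.toSubmodule K)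
  haveI : FiniteDimensional K ((Fin m ⊕ Fin m) → F) := FiniteDimensional.right F K _
  have hfr : finrank F K = r := hK.finrank_eq
  have hp : (finrank F K).Prime := by rw [hfr]; exact hr
  have hA := altStd m F
  obtain ⟨f, hf⟩ : ∃ f : ((Fin m ⊕ Fin m) → F) →ₗ[F] ((Fin m ⊕ Fin m) → F) →ₗ[F] F, ∀ x y, f x y = Cfsg.sympForm m F x y :=
    ⟨LinearMap.mk₂ F (Cfsg.sympForm m F) (fun x y z => hA.add_left x y z) (fun c x y => hA.smul_left c x y)
      (fun x y z => hA.add_right x y z) (fun c x y => hA.smul_right c x y), fun x y => rfl⟩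
  have sx : ∀ M : Subgroup (GL (Fin m ⊕ Fin m) F), subalgebraNormalizer K ⊓ Cfsg.spGL m F ≤ M → M ≤ Cfsg.spGL m F →
      SX K (M.map (ei F (Fin m ⊕ Fin m)).toMonoidHom) f := by
    intro M h1 h2
    refine ⟨fun x hx => ?_, fun k x y => ?_, fun k x => ?_, ?_, ?_⟩
    · obtain ⟨y, hy⟩ := hA.nondeg x hx
      refine ⟨y, ?_⟩
      rw [hf, hA.skew]
      exact neg_ne_zero.2 hy
    · rw [hf, hf]
      exact hsa k k.2 x y
    · rw [hf]
      exact halt k k.2 x
    · rintro g hg x y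
      obtain ⟨t, ht, rfl⟩ := Subgroup.mem_map.1 hg
      rw [hf, hf]
      exact (mem_spGL_iff t).1 (h2 ht) x y
    · intro φ v hφ
      let A : ((Fin m ⊕ Fin m) → F) →ₗ[F] ((Fin m ⊕ Fin m) → F) :=
        ((LinearMap.toSpanSingleton K ((Fin m ⊕ Fin m) → F) v).comp φ).restrictScalars F
      have hAx : ∀ x : (Fin m ⊕ Fin m) → F, A x = φ x • v := fun x => rfl
      have hiso : ∀ x y : (Fin m ⊕ Fin m) → F, f (x + A x) (y + A y) = f x y := by
        intro x y
        have e1 : f (A x) (A y) = 0 := by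
          have h3 : f (A x) (A y) = f ((φ x * φ y) • v) v := by
            rw [hAx, hAx, hf, hf, mul_comm, mul_smul]
            exact (hsa _ (φ y).2 _ _).symm
          rw [h3, hf]
          exact halt _ (φ x * φ y).2 v
        have e2 : f x (A y) = - f (A y) x := by
          rw [hf, hf, hA.skew]
        rw [map_add, map_add, LinearMap.add_apply, LinearMap.add_apply, e1, e2, hAx, hAx, hφ x y]
        ring
      let S : ((Fin m ⊕ Fin m) → F) →ₗ[F] ((Fin m ⊕ Fin m) → F) := LinearMap.id + A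
      have hinj : Function.Injective S := by
        rw [← LinearMap.ker_eq_bot, LinearMap.ker_eq_bot']
        intro x hx
        by_contra hx0
        obtain ⟨y, hy⟩ := hA.nondeg x hx0
        apply hy
        have h3 : x + A x = 0 := hx
        have h4 := hiso x y
        rw [h3, map_zero, LinearMap.zero_apply] at h4
        rw [hA.skew, ← hf, ← h4, neg_zero]
      let T : ((Fin m ⊕ Fin m) → F) ≃ₗ[F] ((Fin m ⊕ Fin m) → F) := LinearEquiv.ofInjectiveEndo S hinj
      have hT : ∀ x : (Fin m ⊕ Fin m) → F, T x = x + A x := fun x => rfl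
      have hg : ∀ x : (Fin m ⊕ Fin m) → F, ((ei F (Fin m ⊕ Fin m)).symm T : Matrix (Fin m ⊕ Fin m) (Fin m ⊕ Fin m) F) *ᵥ x = x + A x := by
        intro x
        rw [← ei_apply, MulEquiv.apply_symm_apply, hT]
      refine ⟨T, Subgroup.mem_map.2 ⟨(ei F (Fin m ⊕ Fin m)).symm T, h1 ⟨?_, ?_⟩, (ei F (Fin m ⊕ Fin m)).apply_symm_apply T⟩, hT⟩
      · apply mem_norm_of_comm'
        intro k hk
        apply ext_mulVec
        intro x
        rw [← mulVec_mulVec, ← mulVec_mulVec, hg, hg]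
        have e1 : k *ᵥ x = (⟨k, hk⟩ : K) • x := rfl
        have e2 : k *ᵥ (x + A x) = (⟨k, hk⟩ : K) • (x + A x) := rfl
        rw [e1, e2, hAx, hAx, map_smul, smul_add, smul_smul, smul_eq_mul]
      · refine (mem_spGL_iff _).2 (fun x y => ?_)
        rw [hg, hg, ← hf, ← hf]
        exact hiso x y
  have hnt : Nontrivial ((Fin m ⊕ Fin m) → F) := inferInstance
  have hle0 : subalgebraNormalizer K ⊓ Cfsg.spGL m F ≤ Cfsg.spGL m F := inf_le_right
  constructor
  · intro hle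
    have s := sx (Cfsg.spGL m F) hle0 le_rfl
    obtain ⟨k, y, v, hy, hky, hk'⟩ := exists_bad s hp
    obtain ⟨-, t, ht, htx⟩ := T_spGL (m := m) (F := F) v 1
    have htx' : ∀ x, (t : Matrix (Fin m ⊕ Fin m) (Fin m ⊕ Fin m) F) *ᵥ x = x + f x v • v := by
      intro x
      rw [htx, one_smul, fr_apply, hf]
    have h3 := (hle ht (k : Matrix (Fin m ⊕ Fin m) (Fin m ⊕ Fin m) F)).1 k.2
    have h4 : (t : Matrix (Fin m ⊕ Fin m) (Fin m ⊕ Fin m) F) *ᵥ ((k : Matrix (Fin m ⊕ Fin m) (Fin m ⊕ Fin m) F) *ᵥ y) =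
        ((t : Matrix (Fin m ⊕ Fin m) (Fin m ⊕ Fin m) F) * (k : Matrix (Fin m ⊕ Fin m) (Fin m ⊕ Fin m) F) *
          ((t⁻¹ : GL (Fin m ⊕ Fin m) F) : Matrix (Fin m ⊕ Fin m) (Fin m ⊕ Fin m) F)) *ᵥ ((t : Matrix (Fin m ⊕ Fin m) (Fin m ⊕ Fin m) F) *ᵥ y) := by
      rw [mulVec_mulVec, mulVec_mulVec, mul_assoc, mul_assoc, ← Units.val_mul, inv_mul_cancel, Units.val_one, mul_one]
    rw [htx', htx' y, hy, zero_smul, add_zero, ← hsm k y, hky, one_smul] at h4
    exact hk' ⟨_, h3⟩ h4.symm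
  · intro M h1 h2 g hg hgK
    have s := sx M h1 h2
    have hout : ∀ v : (Fin m ⊕ Fin m) → F, ∃ x, x ∉ Submodule.span K {v} := fun v => exists_out s v
    have hdim : finrank F K = 2 → 3 ≤ finrank K ((Fin m ⊕ Fin m) → F) := by
      intro h3
      have h4 := Module.finrank_mul_finrank F K ((Fin m ⊕ Fin m) → F)
      rw [h3, Module.finrank_fintype_fun_eq_card, Fintype.card_sum, Fintype.card_fin] at h4
      omega
    rcases dichotomy hp s hdim with h | h
    · apply Sp_le_of_full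
      intro v a
      obtain ⟨t, ht, htx⟩ := h v a
      obtain ⟨s, hs, rfl⟩ := Subgroup.mem_map.1 ht
      refine ⟨by simp [hA.self], s, hs, fun x => ?_⟩
      rw [LinearMap.smul_apply, fr_apply, ← hf, smul_eq_mul]
      exact htx x
    · exfalso
      apply hgK
      have key : ∀ g ∈ M, ∀ k ∈ K, ∃ k' ∈ K, (g : Matrix (Fin m ⊕ Fin m) (Fin m ⊕ Fin m) F) * k = k' * g := by
        intro g hg k hk
        obtain ⟨k', hk'⟩ := semilin (g := ei F (Fin m ⊕ Fin m) g) hout (h _ (Subgroup.mem_map.2 ⟨g, hg, rfl⟩))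
          (h _ (Subgroup.inv_mem _ (Subgroup.mem_map.2 ⟨g, hg, rfl⟩))) ⟨k, hk⟩
        refine ⟨k', k'.2, ?_⟩
        apply ext_mulVec
        intro x
        rw [← mulVec_mulVec, ← mulVec_mulVec]
        exact hk' x
      exact mem_norm_of_semi' (key g hg) (key g⁻¹ (M.inv_mem hg))

end Mat

end Cfsg.Agent.H21.GUy
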