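import Mathlib
import Cfsg.Agent.GUt2
import Cfsg.Agent.GUp2
import Cfsg.Agent.H29_Fm4

set_option autoImplicit false

/-! unitary groups: stabilisers of non-degenerate subspaces -/

namespace Cfsg.Agent.H21.GUz

open Matrix Module Cfsg.Geo Cfsg.Agent.H29.Trv Cfsg.Agent.H29.Fm Cfsg.Agent.H21.GUt

variable {F : Type*} [Field F] {n : ℕ} {τ : F ≃+* F} {f : (Fin n → F) → (Fin n → F) → F} {h : UF τ f}
variable {M : Subgroup (GL (Fin n) F)} {U W : Submodule F (Fin n → F)}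

/-- reflections -/
theorem exists_refl (h : UF τ f) {d : Fin n → F} {μ : F} (hμ : μ ≠ 0) (hd : μ + τ μ = f d d) :
    ∃ g : GL (Fin n) F, (∀ x, (g : Matrix (Fin n) (Fin n) F) *ᵥ x = x - (μ⁻¹ * f x d) • d) ∧
      (∀ x y, f ((g : Matrix (Fin n) (Fin n) F) *ᵥ x) ((g : Matrix (Fin n) (Fin n) F) *ᵥ y) = f x y) ∧
      (g : Matrix (Fin n) (Fin n) F).det = - (μ⁻¹ * τ μ) := by
  classical
  have hτμ : τ μ ≠ 0 := (map_ne_zero τ).2 hμ
  have hsum : ∀ x : Fin n → F, f x d = ∑ j, x j * f (Pi.single j 1) d := by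
    intro x
    have h1 := Finset.univ_sum_single x
    have h2 : f x d = fr h.LL d x := rfl
    rw [h2]
    nth_rewrite 1 [← h1]
    rw [map_sum]
    refine Finset.sum_congr rfl (fun j _ => ?_)
    rw [fr_apply, ← h.smul_left]
    congr 1
    ext i
    by_cases hij : i = j
    · subst hij; simp
    · simp [hij]
  have hmul : ∀ x, (1 + replicateCol Unit d * replicateRow Unit (fun j => -(μ⁻¹ * f (Pi.single j 1) d))) *ᵥ x = x - (μ⁻¹ * f x d) • d := by
    intro x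
    rw [add_mulVec, one_mulVec, ← mulVec_mulVec, sub_eq_add_neg]
    congr 1
    ext i
    simp only [mulVec, dotProduct, replicateCol_apply, replicateRow_apply, Finset.univ_unique, Finset.sum_singleton, Pi.neg_apply,
      Pi.smul_apply, smul_eq_mul]
    rw [hsum x, Finset.mul_sum, Finset.mul_sum, Finset.sum_mul, ← Finset.sum_neg_distrib]
    refine Finset.sum_congr rfl (fun j _ => ?_)
    ring
  have hdet : (1 + replicateCol Unit d * replicateRow Unit (fun j => -(μ⁻¹ * f (Pi.single j 1) d))).det = - (μ⁻¹ * τ μ) := by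
    rw [det_one_add_replicateCol_mul_replicateRow]
    have e : (fun j => -(μ⁻¹ * f (Pi.single j 1) d)) ⬝ᵥ d = -(μ⁻¹ * f d d) := by
      rw [hsum d, dotProduct, Finset.mul_sum, ← Finset.sum_neg_distrib]
      refine Finset.sum_congr rfl (fun j _ => ?_)
      ring
    rw [e, ← hd, mul_add, inv_mul_cancel₀ hμ]
    ring
  refine ⟨Matrix.GeneralLinearGroup.mkOfDetNeZero _ (by rw [hdet]; exact neg_ne_zero.2 (mul_ne_zero (inv_ne_zero hμ) hτμ)), hmul, ?_, hdet⟩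
  intro x y
  have e1 : ∀ x, ((Matrix.GeneralLinearGroup.mkOfDetNeZero (1 + replicateCol Unit d * replicateRow Unit (fun j => -(μ⁻¹ * f (Pi.single j 1) d)))
      (by rw [hdet]; exact neg_ne_zero.2 (mul_ne_zero (inv_ne_zero hμ) hτμ)) : GL (Fin n) F) : Matrix (Fin n) (Fin n) F) *ᵥ x =
      x - (μ⁻¹ * f x d) • d := hmul
  rw [e1, e1, h.toSFm.sub_left, h.toSFm.sub_right, h.toSFm.sub_right, h.smul_left, h.smul_left, h.toSFm.smul_right, h.toSFm.smul_right,
    map_mul, h.sw, map_inv₀, ← hd]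
  field_simp
  ring

theorem span_iso' (h : UF τ f) {X : Submodule F (Fin n → F)} {x z₀ : Fin n → F} (hx : x ∈ U) (hxx : f x x = 0) (hxW : x ∈ X)
    (hz : z₀ ∈ U) (hzx : f z₀ x ≠ 0) (hW : ∀ v ∈ U, f v v = 0 → f v x ≠ 0 → v ∈ X) : U ≤ X := by
  have h1 : ∀ z ∈ U, f z x ≠ 0 → z ∈ X := by
    intro z hz hne
    obtain ⟨a, ha⟩ := h.adj hxx hne (l := 0) (map_zero τ)
    have h2 := hW _ (U.add_mem hz (U.smul_mem a hx)) ha (by rw [h.add_left, h.smul_left, hxx, mul_zero, add_zero]; exact hne)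
    exact (X.add_mem_iff_left (X.smul_mem a hxW)).1 h2
  intro z hzU
  by_cases h0 : f z x = 0
  · have h2 := h1 (z + z₀) (U.add_mem hzU hz) (by rw [h.add_left, h0, zero_add]; exact hzx)
    exact (X.add_mem_iff_left (h1 z₀ hz hzx)).1 h2
  · exact h1 z hzU h0

/-- the configuration -/
structure SS (h : UF τ f) (M : Subgroup (GL (Fin n) F)) (U W : Submodule F (Fin n → F)) : Prop where
  orth : ∀ u ∈ U, ∀ w ∈ W, f u w = 0
  sum : ∀ x, ∃ u ∈ U, ∃ w ∈ W, x = u + w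
  dim : 6 ≤ finrank F U
  gen : ∀ g : GL (Fin n) F, (∀ x y, f ((g : Matrix (Fin n) (Fin n) F) *ᵥ x) ((g : Matrix (Fin n) (Fin n) F) *ᵥ y) = f x y) →
    (g : Matrix (Fin n) (Fin n) F).det = 1 → (∀ w ∈ W, (g : Matrix (Fin n) (Fin n) F) *ᵥ w ∈ W) → g ∈ M
  ftU : ∀ v ∈ U, f v v = 0 → FT h M v
  ftW : ∀ v ∈ W, f v v = 0 → FT h M v

theorem SS.orth' (s : SS h M U W) {u w : Fin n → F} (hu : u ∈ U) (hw : w ∈ W) : f w u = 0 := by
  rw [← h.sw, s.orth u hu w hw, map_zero]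

variable [Fintype F]

theorem SS.sepU (s : SS h M U W) {x : Fin n → F} (hx : x ∈ U) {Y : Submodule F (Fin n → F)} (hY : Y ≤ U) (hxY : x ∉ Y) :
    ∃ z ∈ U, f x z = 1 ∧ ∀ y ∈ Y, f y z = 0 := by
  obtain ⟨z, h1, h2⟩ := exists_sep h.LL Y hxY
  obtain ⟨u, hu, w, hw, rfl⟩ := s.sum z
  refine ⟨u, hu, ?_, fun y hy => ?_⟩
  · rw [h.toSFm.add_right, s.orth x hx w hw, add_zero] at h1
    exact h1
  · have h3 := h2 y hy
    rw [h.toSFm.add_right, s.orth y (hY hy) w hw, add_zero] at h3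
    exact h3

theorem SS.sepW (s : SS h M U W) {x : Fin n → F} (hx : x ∈ W) (hx0 : x ≠ 0) : ∃ z ∈ W, f x z = 1 := by
  obtain ⟨z, h1, h2⟩ := exists_sep h.LL ⊥ (u := x) (by rw [Submodule.mem_bot]; exact hx0)
  obtain ⟨u, hu, w, hw, rfl⟩ := s.sum z
  refine ⟨w, hw, ?_⟩
  rw [h.toSFm.add_right, s.orth' hu hx, zero_add] at h1
  exact h1

theorem SS.sep1 (s : SS h M U W) {x : Fin n → F} (hx : x ∈ U) (hx0 : x ≠ 0) : ∃ z ∈ U, f x z = 1 := by
  obtain ⟨z, h1, h2, -⟩ := s.sepU hx (Y := ⊥) bot_le (by rw [Submodule.mem_bot]; exact hx0)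
  exact ⟨z, h1, h2⟩

theorem sw1 (h : UF τ f) {x z : Fin n → F} (h1 : f x z = 1) : f z x = 1 := by rw [← h.sw, h1, map_one]

theorem sw0 (h : UF τ f) {x z : Fin n → F} (h1 : f x z = 0) : f z x = 0 := by rw [← h.sw, h1, map_zero]

theorem SS.perp2 (s : SS h M U W) (a b : Fin n → F) : ∃ x ∈ U, x ≠ 0 ∧ f x x = 0 ∧ f x a = 0 ∧ f x b = 0 := by
  have h1 := Cfsg.Agent.H21.GUp.finrank_inf_ker U (fr h.LL a)
  have h2 := Cfsg.Agent.H21.GUp.finrank_inf_ker (U ⊓ LinearMap.ker (fr h.LL a)) (fr h.LL b)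
  have h3 := s.dim
  obtain ⟨x, hx, hx0, hxx⟩ := h.exists_iso (U := U ⊓ LinearMap.ker (fr h.LL a) ⊓ LinearMap.ker (fr h.LL b)) (by omega)
  exact ⟨x, hx.1.1, hx0, hxx, hx.1.2, hx.2⟩

theorem SS.isoMove (s : SS h M U W) {d u : Fin n → F} (hd : d ∈ U) (hu : u ∈ U) (hud : u ∉ Submodule.span F {d}) :
    ∃ v ∈ U, f v v = 0 ∧ f d v = 0 ∧ f u v = 1 := by
  have hspan : Submodule.span F {d} ≤ U := (Submodule.span_singleton_le_iff_mem _ _).2 hd
  by_contra hcon
  push Not at hcon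
  have hcon' : ∀ v ∈ U ⊓ LinearMap.ker (fr h.LL d), f v v = 0 → v ∈ LinearMap.ker (fr h.LL u) := by
    intro v hv hvv
    have hvd : f v d = 0 := hv.2
    by_contra hne
    have hne' : f v u ≠ 0 := hne
    have hne2 : f u v ≠ 0 := by
      rw [← h.sw]; exact (map_ne_zero τ).2 hne'
    apply hcon (τ (f u v)⁻¹ • v) (U.smul_mem _ hv.1) (by rw [h.smul_left, h.toSFm.smul_right, hvv, mul_zero, mul_zero])
      (by rw [h.toSFm.smul_right, sw0 h hvd, mul_zero])
    rw [h.toSFm.smul_right, h.inv, inv_mul_cancel₀ hne2]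
  obtain ⟨y, hyU, hy⟩ : ∃ y ∈ U, d ≠ 0 → f d y = 1 := by
    by_cases hd0 : d = 0
    · exact ⟨0, U.zero_mem, fun h => absurd hd0 h⟩
    · obtain ⟨y, hy1, hy2⟩ := s.sep1 hd hd0
      exact ⟨y, hy1, fun _ => hy2⟩
  obtain ⟨x, hxU, hx0, hxx, hxd, hxy⟩ := s.perp2 d y
  have hxs : x ∉ Submodule.span F {d} := by
    intro hm
    obtain ⟨c, rfl⟩ := Submodule.mem_span_singleton.1 hm
    have hd0 : d ≠ 0 := by
      rintro rfl
      exact hx0 (smul_zero c)
    rw [h.smul_left, hy hd0, mul_one] at hxy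
    exact hx0 (by rw [hxy, zero_smul])
  obtain ⟨z₀, hz₀U, hxz, hdz⟩ := s.sepU hxU hspan hxs
  have hle := h.span_iso (U := U ⊓ LinearMap.ker (fr h.LL d)) (W := LinearMap.ker (fr h.LL u)) (x := x) (z₀ := z₀)
    ⟨hxU, hxd⟩ hxx ⟨hz₀U, sw0 h (hdz d (Submodule.mem_span_singleton_self d))⟩ (by rw [sw1 h hxz]; exact one_ne_zero) hcon'
  obtain ⟨z, hzU, huz, hdz'⟩ := s.sepU hu hspan hud
  have h5 : f z u = 0 := hle ⟨hzU, sw0 h (hdz' d (Submodule.mem_span_singleton_self d))⟩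
  rw [sw1 h huz] at h5
  exact one_ne_zero h5

/-- moving the first component -/
theorem SS.move (s : SS h M U W) {u u' w : Fin n → F} (hu : u ∈ U) (hu' : u' ∈ U) (hw : w ∈ W) (hu0 : u ≠ 0)
    (hN : f u' u' = f u u) (hind : u' ∉ Submodule.span F {u}) (hF : FT h M (u + w)) : FT h M (u' + w) := by
  have hd : u' - u ∈ U := U.sub_mem hu' hu
  have hud : u ∉ Submodule.span F {u' - u} := by
    intro hm
    obtain ⟨c, hc⟩ := Submodule.mem_span_singleton.1 hm
    have hc0 : c ≠ 0 := by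
      rintro rfl
      exact hu0 (by rw [← hc, zero_smul])
    apply hind
    rw [Submodule.mem_span_singleton]
    refine ⟨c⁻¹ * (1 + c), ?_⟩
    have e : (1 + c) • u = c • u' := by
      rw [add_smul, one_smul]
      nth_rewrite 1 [← hc]
      rw [smul_sub]
      abel
    rw [mul_smul, e, smul_smul, inv_mul_cancel₀ hc0, one_smul]
  obtain ⟨v, hv, hvv, hdv, huv⟩ := s.isoMove hd hu hud
  obtain ⟨b, hb⟩ := h.tr (h.fix (u' - u))
  obtain ⟨g, hg1, hg2, hg3⟩ := siegel h hvv hdv hb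
  have hgM : g ∈ M := by
    apply s.gen g hg3 ((mem_SL_iff g).1 hg1)
    intro w hw
    rw [hg2, s.orth' hv hw, s.orth' hd hw]
    simpa using hw
  have h1 := hF.conj hgM hg3
  have e1 : f (u + w) v = 1 := by rw [h.add_left, huv, s.orth' hv hw, add_zero]
  obtain ⟨c, hc⟩ : ∃ c : F, c = f (u + w) (u' - u) + b * 1 := ⟨_, rfl⟩
  have e2 : (g : Matrix (Fin n) (Fin n) F) *ᵥ (u + w) = u' + w + (-c) • v := by
    rw [hg2, e1, hc]; module
  rw [e2] at h1
  have e3 : f (u' + w + (-c) • v) v ≠ 0 := by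
    have : f u' v = 1 := by
      have e : u' = u + (u' - u) := by abel
      rw [e, h.add_left, huv, hdv, add_zero]
    rw [h.add_left, h.add_left, this, s.orth' hv hw, h.smul_left, hvv, mul_zero, add_zero, add_zero]
    exact one_ne_zero
  have e4 : u' + w + (-c) • v + c • v = u' + w := by module
  have e5 : f (u' + w) (u' + w) = 0 := by
    have := hF.iso
    rw [h.add_left, h.toSFm.add_right, h.toSFm.add_right, s.orth u hu w hw, s.orth' hu hw] at this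
    rw [h.add_left, h.toSFm.add_right, h.toSFm.add_right, s.orth u' hu' w hw, s.orth' hu' hw, hN]
    exact this
  have h2 := h1.line (s.ftU v hv hvv) e3 (a := c) (by rw [e4]; exact e5)
  rwa [e4] at h2

/-- filling up -/
theorem SS.fill (s : SS h M U W) {u u' w : Fin n → F} (hu : u ∈ U) (hu' : u' ∈ U) (hw : w ∈ W) (hu0 : u ≠ 0) (hu0' : u' ≠ 0)
    (hN : f u' u' = f u u) (hF : FT h M (u + w)) : FT h M (u' + w) := by
  by_cases hind : u' ∉ Submodule.span F {u}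
  · exact s.move hu hu' hw hu0 hN hind hF
  push Not at hind
  obtain ⟨v, hv, hvv, -, huv⟩ := s.isoMove (d := 0) U.zero_mem hu (by
    rw [Submodule.mem_span_singleton]
    rintro ⟨c, hc⟩
    exact hu0 (by rw [← hc, smul_zero]))
  obtain ⟨κ, hκ, hκ2⟩ := h.tz
  have hvu := sw1 h huv
  have e1 : f (u + κ • v) (u + κ • v) = f u u := by
    rw [h.add_left, h.toSFm.add_right, h.toSFm.add_right, h.smul_left, h.smul_left, h.toSFm.smul_right, h.toSFm.smul_right, hvv, hvu, huv]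
    linear_combination hκ2
  have e2 : u + κ • v ∉ Submodule.span F {u} := by
    intro hm
    obtain ⟨c, hc⟩ := Submodule.mem_span_singleton.1 hm
    have e3 : κ • v = (c - 1) • u := by rw [sub_smul, one_smul, hc]; abel
    have e4 : v = (κ⁻¹ * (c - 1)) • u := by rw [mul_smul, ← e3, smul_smul, inv_mul_cancel₀ hκ, one_smul]
    rw [e4, h.toSFm.smul_right] at huv
    rw [e4, h.toSFm.smul_right, h.smul_left] at hvv
    have hne : τ (κ⁻¹ * (c - 1)) ≠ 0 := left_ne_zero_of_mul_eq_one huv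
    have hne2 : f u u ≠ 0 := right_ne_zero_of_mul_eq_one huv
    have hne3 : κ⁻¹ * (c - 1) ≠ 0 := (map_ne_zero τ).1 hne
    exact (mul_ne_zero hne (mul_ne_zero hne3 hne2)) hvv
  have hm' : u + κ • v ∈ U := U.add_mem hu (U.smul_mem _ hv)
  have h0' : u + κ • v ≠ 0 := fun h0 => e2 (by rw [h0]; exact Submodule.zero_mem _)
  refine s.move hm' hu' hw h0' (hN.trans e1.symm) ?_ (s.move hu hm' hw hu0 e1 e2 hF)
  intro hm
  obtain ⟨c, hc⟩ := Submodule.mem_span_singleton.1 hm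
  obtain ⟨c', hc'⟩ := Submodule.mem_span_singleton.1 hind
  have hc0 : c ≠ 0 := by
    rintro rfl
    exact hu0' (by rw [← hc, zero_smul])
  apply e2
  rw [Submodule.mem_span_singleton]
  refine ⟨c⁻¹ * c', ?_⟩
  rw [mul_smul, hc', ← hc, smul_smul, inv_mul_cancel₀ hc0, one_smul]

/-- the second components occurring -/
def PW (h : UF τ f) (M : Subgroup (GL (Fin n) F)) (U : Submodule F (Fin n → F)) (w : Fin n → F) : Prop :=
  ∃ u ∈ U, u ≠ 0 ∧ FT h M (u + w)

theorem SS.norm (s : SS h M U W) {u w : Fin n → F} (hu : u ∈ U) (hw : w ∈ W) : f (u + w) (u + w) = f u u + f w w := by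
  rw [h.add_left, h.toSFm.add_right, h.toSFm.add_right, s.orth u hu w hw, s.orth' hu hw]
  ring

theorem SS.fill' (s : SS h M U W) {u w : Fin n → F} (hu : u ∈ U) (hw : w ∈ W) (hu0 : u ≠ 0) (hP : PW h M U w)
    (hN : f u u + f w w = 0) : FT h M (u + w) := by
  obtain ⟨u₁, hu₁, hu₁0, hF⟩ := hP
  have h1 := hF.iso
  rw [s.norm hu₁ hw] at h1
  exact s.fill hu₁ hu hw hu₁0 hu0 (by linear_combination hN - h1) hF

omit [Fintype F] in
theorem PW.smul {w : Fin n → F} (hP : PW h M U w) {c : F} (hc : c ≠ 0) : PW h M U (c • w) := by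
  obtain ⟨u, hu, hu0, hF⟩ := hP
  refine ⟨c • u, U.smul_mem c hu, smul_ne_zero hc hu0, ?_⟩
  rw [← smul_add]
  exact hF.smul c

end Cfsg.Agent.H21.GUz
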