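import Mathlib
import Cfsg.Agent.GUz1

set_option autoImplicit false

/-! unitary groups: stabilisers of non-degenerate subspaces, II -/

namespace Cfsg.Agent.H21.GUz

open Matrix Module Cfsg.Geo Cfsg.Agent.H29.Trv Cfsg.Agent.H29.Fm Cfsg.Agent.H21.GUt

variable {F : Type*} [Field F] {n : ℕ} {τ : F ≃+* F} {f : (Fin n → F) → (Fin n → F) → F} {h : UF τ f}
variable {M : Subgroup (GL (Fin n) F)} {U W : Submodule F (Fin n → F)} [Fintype F]

/-- an anisotropic second component -/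
theorem SS.aniso (s : SS h M U W) {w₀ : Fin n → F} (hw₀ : w₀ ∈ W) (hw₀0 : w₀ ≠ 0) (hP : PW h M U w₀) :
    ∃ w ∈ W, f w w ≠ 0 ∧ PW h M U w := by
  by_cases h0 : f w₀ w₀ = 0
  swap
  · exact ⟨w₀, hw₀, h0, hP⟩
  obtain ⟨u₀, hu₀, hu₀0, hF⟩ := hP
  have hn0 := hF.iso
  rw [s.norm hu₀ hw₀, h0, add_zero] at hn0
  obtain ⟨κ, hκ, hκ2⟩ := h.tz
  obtain ⟨θ, hθ⟩ := h.moved
  obtain ⟨y₀, hy₀, hwy₀⟩ := s.sepW hw₀ hw₀0
  obtain ⟨a, ha⟩ := h.adj (x := w₀) (z := y₀) h0 (by rw [sw1 h hwy₀]; exact one_ne_zero) (l := 0) (map_zero τ)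
  obtain ⟨y, hyd⟩ : ∃ y, y = y₀ + a • w₀ := ⟨_, rfl⟩
  rw [← hyd] at ha
  have hy : y ∈ W := by rw [hyd]; exact W.add_mem hy₀ (W.smul_mem _ hw₀)
  have hwy : f w₀ y = 1 := by rw [hyd, h.toSFm.add_right, h.toSFm.smul_right, h0, hwy₀, mul_zero, add_zero]
  have hyw := sw1 h hwy
  have hw₁ : w₀ + κ • y ∈ W := W.add_mem hw₀ (W.smul_mem _ hy)
  have hn1 : f (w₀ + κ • y) (w₀ + κ • y) = 0 := by
    rw [h.add_left, h.toSFm.add_right, h.toSFm.add_right, h.smul_left, h.smul_left, h.toSFm.smul_right, h.toSFm.smul_right, ha, hwy, hyw, h0]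
    linear_combination hκ2
  have hF1 : FT h M (u₀ + (w₀ + κ • y)) := by
    have h1 := hF.line (s.ftW y hy ha) (by rw [h.add_left, s.orth u₀ hu₀ y hy, hwy, zero_add]; exact one_ne_zero) (a := κ) (by
      rw [add_assoc, s.norm hu₀ hw₁, hn1, hn0, add_zero])
    rwa [add_assoc] at h1
  -- another first component
  obtain ⟨z, hz, huz⟩ := s.sep1 hu₀ hu₀0
  have hθκ : θ * κ ≠ 0 := mul_ne_zero (by rintro rfl; exact hθ (map_zero τ)) hκ
  have hz1 : f ((θ * κ) • z) u₀ = θ * κ := by rw [h.smul_left, sw1 h huz, mul_one]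
  obtain ⟨c, hc⟩ := h.adj (x := u₀) (z := (θ * κ) • z) hn0 (by rw [hz1]; exact hθκ) (l := 0) (map_zero τ)
  obtain ⟨u₁, hu₁d⟩ : ∃ u₁, u₁ = (θ * κ) • z + c • u₀ := ⟨_, rfl⟩
  rw [← hu₁d] at hc
  have hu₁ : u₁ ∈ U := by rw [hu₁d]; exact U.add_mem (U.smul_mem _ hz) (U.smul_mem _ hu₀)
  have hu₁u₀ : f u₁ u₀ = θ * κ := by rw [hu₁d, h.add_left, hz1, h.smul_left, hn0, mul_zero, add_zero]
  have hu₁0 : u₁ ≠ 0 := by
    intro h1
    rw [h1, h.toSFm.zero_left] at hu₁u₀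
    exact hθκ hu₁u₀.symm
  have hF2 : FT h M (u₁ + (w₀ + κ • y)) := s.fill hu₀ hu₁ hw₁ hu₀0 hu₁0 (by rw [hc, hn0]) hF1
  have hw₁w₀ : f (w₀ + κ • y) w₀ = κ := by rw [h.add_left, h0, h.smul_left, hyw, mul_one, zero_add]
  have hθ1 : 1 + θ ≠ 0 := by
    intro h1
    apply hθ
    have : θ = -1 := by linear_combination h1
    rw [this, map_neg, map_one]
  have hx10 : f (u₁ + (w₀ + κ • y)) (u₀ + w₀) = κ * (1 + θ) := by
    rw [h.add_left, h.toSFm.add_right, h.toSFm.add_right, hu₁u₀, s.orth u₁ hu₁ w₀ hw₀, s.orth' hu₀ hw₁, hw₁w₀]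
    ring
  have hx01 : f (u₀ + w₀) (u₁ + (w₀ + κ • y)) = τ (κ * (1 + θ)) := by rw [← hx10, h.sw]
  have hτκ : τ κ = -κ := by linear_combination hκ2
  have hτθ1 : 1 + τ θ ≠ 0 := by
    have := (map_ne_zero τ).2 hθ1
    rwa [map_add, map_one] at this
  have huu : u₀ + (1 + θ)⁻¹ • u₁ ∈ U := U.add_mem hu₀ (U.smul_mem _ hu₁)
  have hww : w₀ + (1 + θ)⁻¹ • (w₀ + κ • y) ∈ W := W.add_mem hw₀ (W.smul_mem _ hw₁)
  have hsplit : u₀ + w₀ + (1 + θ)⁻¹ • (u₁ + (w₀ + κ • y)) = (u₀ + (1 + θ)⁻¹ • u₁) + (w₀ + (1 + θ)⁻¹ • (w₀ + κ • y)) := by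
    rw [smul_add]; abel
  have hnw : f (w₀ + (1 + θ)⁻¹ • (w₀ + κ • y)) (w₀ + (1 + θ)⁻¹ • (w₀ + κ • y)) = κ * ((1 + θ)⁻¹ - (1 + τ θ)⁻¹) := by
    rw [h.add_left, h.toSFm.add_right, h.toSFm.add_right, h.smul_left, h.smul_left, h.toSFm.smul_right, h.toSFm.smul_right, hn1, h0,
      hw₁w₀, ← h.sw (w₀ + κ • y) w₀, hw₁w₀, hτκ, map_inv₀, map_add, map_one]
    ring
  have hnu : f (u₀ + (1 + θ)⁻¹ • u₁) (u₀ + (1 + θ)⁻¹ • u₁) = κ * (θ * (1 + θ)⁻¹ - τ θ * (1 + τ θ)⁻¹) := by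
    rw [h.add_left, h.toSFm.add_right, h.toSFm.add_right, h.smul_left, h.smul_left, h.toSFm.smul_right, h.toSFm.smul_right, hc, hn0,
      hu₁u₀, ← h.sw u₁ u₀, hu₁u₀, map_mul, hτκ, map_inv₀, map_add, map_one]
    ring
  have hne : f (w₀ + (1 + θ)⁻¹ • (w₀ + κ • y)) (w₀ + (1 + θ)⁻¹ • (w₀ + κ • y)) ≠ 0 := by
    rw [hnw]
    refine mul_ne_zero hκ (fun h1 => hθ ?_)
    have h2 := inv_injective (sub_eq_zero.1 h1)
    linear_combination -h2
  have hsum : f (u₀ + (1 + θ)⁻¹ • u₁) (u₀ + (1 + θ)⁻¹ • u₁) +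
      f (w₀ + (1 + θ)⁻¹ • (w₀ + κ • y)) (w₀ + (1 + θ)⁻¹ • (w₀ + κ • y)) = 0 := by
    rw [hnu, hnw]
    field_simp
    ring
  refine ⟨_, hww, hne, _, huu, ?_, ?_⟩
  · intro h1
    rw [h1, h.toSFm.zero_left, zero_add] at hsum
    exact hne hsum
  · have h1 := hF.line hF2 (by rw [hx01]; exact (map_ne_zero τ).2 (mul_ne_zero hκ hθ1)) (a := (1 + θ)⁻¹) (by
      rw [hsplit, s.norm huu hww]
      exact hsum)
    rwa [hsplit] at h1

/-- moving the second component -/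
theorem SS.moveW (s : SS h M U W) {w₀ w : Fin n → F} (hw₀ : w₀ ∈ W) (hw : w ∈ W) (h0 : f w₀ w₀ ≠ 0) (hN : f w w = f w₀ w₀)
    (hμ : f w₀ (w₀ - w) ≠ 0) (hP : PW h M U w₀) : PW h M U w := by
  obtain ⟨u, hu, hu0, hF⟩ := hP
  have hnu : f u u ≠ 0 := by
    have h1 := hF.iso
    rw [s.norm hu hw₀] at h1
    intro h2
    rw [h2, zero_add] at h1
    exact h0 h1
  have hd : w₀ - w ∈ W := W.sub_mem hw₀ hw
  have hτμ : τ (f w₀ (w₀ - w)) ≠ 0 := (map_ne_zero τ).2 hμ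
  have hdd : f w₀ (w₀ - w) + τ (f w₀ (w₀ - w)) = f (w₀ - w) (w₀ - w) := by
    rw [h.sw]
    simp only [h.toSFm.sub_left, h.toSFm.sub_right, hN]
    ring
  obtain ⟨g₁, e1, i1, d1⟩ := exists_refl h hμ hdd
  have hg₁w : (g₁ : Matrix (Fin n) (Fin n) F) *ᵥ w₀ = w := by
    rw [e1, inv_mul_cancel₀ hμ, one_smul, sub_sub_cancel]
  have hg₁u : ∀ x ∈ U, (g₁ : Matrix (Fin n) (Fin n) F) *ᵥ x = x := by
    intro x hx
    rw [e1, s.orth x hx _ hd, mul_zero, zero_smul, sub_zero]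
  have hg₁W : ∀ x ∈ W, (g₁ : Matrix (Fin n) (Fin n) F) *ᵥ x ∈ W := by
    intro x hx
    rw [e1]
    exact W.sub_mem hx (W.smul_mem _ hd)
  -- the correcting element
  obtain ⟨g₂, i2, d2, hg₂W, hg₂U⟩ : ∃ g₂ : GL (Fin n) F,
      (∀ x y, f ((g₂ : Matrix (Fin n) (Fin n) F) *ᵥ x) ((g₂ : Matrix (Fin n) (Fin n) F) *ᵥ y) = f x y) ∧
      (g₁ : Matrix (Fin n) (Fin n) F).det * (g₂ : Matrix (Fin n) (Fin n) F).det = 1 ∧
      (∀ x ∈ W, (g₂ : Matrix (Fin n) (Fin n) F) *ᵥ x = x) ∧ (∀ x ∈ U, (g₂ : Matrix (Fin n) (Fin n) F) *ᵥ x ∈ U) := by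
    by_cases hz : f (w₀ - w) (w₀ - w) = 0
    · refine ⟨1, fun x y => by rw [Units.val_one, one_mulVec, one_mulVec], ?_, fun x _ => by rw [Units.val_one, one_mulVec],
        fun x hx => by rw [Units.val_one, one_mulVec]; exact hx⟩
      rw [Units.val_one, det_one, mul_one, d1]
      rw [hz] at hdd
      have : τ (f w₀ (w₀ - w)) = - f w₀ (w₀ - w) := by linear_combination hdd
      rw [this, mul_neg, neg_neg, inv_mul_cancel₀ hμ]
    · have hfix : τ (f u u / f (w₀ - w) (w₀ - w)) = f u u / f (w₀ - w) (w₀ - w) := by rw [map_div₀, h.fix, h.fix]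
      have ht0 : f u u / f (w₀ - w) (w₀ - w) ≠ 0 := div_ne_zero hnu hz
      have hν : τ (f w₀ (w₀ - w)) * (f u u / f (w₀ - w) (w₀ - w)) ≠ 0 := mul_ne_zero hτμ ht0
      obtain ⟨g₂, e2, i2, d2⟩ := exists_refl h (d := u) hν (by
        rw [map_mul, hfix, h.inv, ← add_mul, add_comm, hdd, mul_div_cancel₀ _ hz])
      refine ⟨g₂, i2, ?_, fun x hx => ?_, fun x hx => ?_⟩
      · rw [d1, d2, map_mul, hfix, h.inv]
        generalize f w₀ (w₀ - w) = μ at *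
        generalize f u u / f (w₀ - w) (w₀ - w) = t at *
        field_simp
      · rw [e2, s.orth' hu hx, mul_zero, zero_smul, sub_zero]
      · rw [e2]
        exact U.sub_mem hx (U.smul_mem _ hu)
  have hgM : g₁ * g₂ ∈ M := by
    apply s.gen
    · intro x y
      rw [Cfsg.Agent.H29.Trv.mul_apply, Cfsg.Agent.H29.Trv.mul_apply, i1, i2]
    · rw [Units.val_mul, det_mul, d2]
    · intro x hx
      rw [Cfsg.Agent.H29.Trv.mul_apply, hg₂W x hx]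
      exact hg₁W x hx
  have h1 := hF.conj hgM (fun x y => by
    rw [Cfsg.Agent.H29.Trv.mul_apply, Cfsg.Agent.H29.Trv.mul_apply, i1, i2])
  rw [Cfsg.Agent.H29.Trv.mul_apply, mulVec_add, hg₂W _ hw₀, mulVec_add, hg₁w, hg₁u _ (hg₂U u hu)] at h1
  refine ⟨_, hg₂U u hu, fun h2 => hu0 ?_, h1⟩
  have h3 : (g₂ : Matrix (Fin n) (Fin n) F) *ᵥ u = (g₂ : Matrix (Fin n) (Fin n) F) *ᵥ 0 := by rw [h2, mulVec_zero]
  exact mulVec_inj h3

/-- all anisotropic second components occur -/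
theorem SS.allW (s : SS h M U W) {w₀ w : Fin n → F} (hw₀ : w₀ ∈ W) (hw : w ∈ W) (h0 : f w₀ w₀ ≠ 0) (h1 : f w w ≠ 0)
    (hP : PW h M U w₀) : PW h M U w := by
  obtain ⟨e, he0, he⟩ := norm_surj h.ne h.inv (c := f w₀ w₀ / f w w) (div_ne_zero h0 h1) (by rw [map_div₀, h.fix, h.fix])
  have hn : f (e • w) (e • w) = f w₀ w₀ := by
    rw [h.smul_left, h.toSFm.smul_right, ← mul_assoc, he, div_mul_cancel₀ _ h1]
  have key : PW h M U (e • w) := by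
    by_cases hμ : f w₀ (w₀ - e • w) = 0
    · obtain ⟨θ, hθ⟩ := h.moved
      have hθ0 : θ ≠ 0 := by
        rintro rfl
        exact hθ (map_zero τ)
      have hτθ0 : τ θ ≠ 0 := (map_ne_zero τ).2 hθ0
      have hω : θ / τ θ ≠ 0 := div_ne_zero hθ0 hτθ0
      have hω1 : (θ / τ θ) * τ (θ / τ θ) = 1 := by
        rw [map_div₀, h.inv]
        field_simp
      have h2 : PW h M U ((θ / τ θ) • (e • w)) := by
        apply s.moveW hw₀ (W.smul_mem _ (W.smul_mem _ hw)) h0 _ _ hP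
        · rw [h.smul_left, h.toSFm.smul_right, ← mul_assoc, hω1, one_mul, hn]
        · rw [h.toSFm.sub_right, h.toSFm.smul_right]
          have h3 : f w₀ (e • w) = f w₀ w₀ := by
            rw [h.toSFm.sub_right] at hμ
            exact (sub_eq_zero.1 hμ).symm
          rw [h3, map_div₀, h.inv]
          intro h4
          apply hθ
          have h5 : (1 - τ θ / θ) * f w₀ w₀ = 0 := by linear_combination h4
          have h6 := (mul_eq_zero.1 h5).resolve_right h0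
          have h7 : τ θ / θ = 1 := by linear_combination -h6
          rwa [div_eq_one_iff_eq hθ0] at h7
      have h3 := h2.smul (inv_ne_zero hω)
      rwa [smul_smul, inv_mul_cancel₀ hω, one_smul] at h3
    · exact s.moveW hw₀ (W.smul_mem _ hw) h0 hn hμ hP
  have h3 := key.smul (inv_ne_zero he0)
  rwa [smul_smul, inv_mul_cancel₀ he0, one_smul] at h3

/-- everything -/
theorem SS.all (s : SS h M U W) {u₀ w₀ : Fin n → F} (hu₀ : u₀ ∈ U) (hw₀ : w₀ ∈ W) (hu₀0 : u₀ ≠ 0) (hw₀0 : w₀ ≠ 0)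
    (hF : FT h M (u₀ + w₀)) (v : Fin n → F) (hv : f v v = 0) : FT h M v := by
  obtain ⟨w₁, hw₁, hw₁0, hP⟩ := s.aniso hw₀ hw₀0 ⟨u₀, hu₀, hu₀0, hF⟩
  have hD : ∀ u ∈ U, ∀ w ∈ W, f w w ≠ 0 → f u u + f w w = 0 → FT h M (u + w) := by
    intro u hu w hw hw0 hN
    refine s.fill' hu hw ?_ (s.allW hw₁ hw hw₁0 hw0 hP) hN
    rintro rfl
    rw [h.toSFm.zero_left, zero_add] at hN
    exact hw0 hN
  obtain ⟨u, hu, w, hw, rfl⟩ := s.sum v
  by_cases hw0 : w = 0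
  · rw [hw0, add_zero] at hv ⊢
    exact s.ftU u hu hv
  by_cases hu0 : u = 0
  · rw [hu0, zero_add] at hv ⊢
    exact s.ftW w hw hv
  have hN := hv
  rw [s.norm hu hw] at hN
  by_cases hww : f w w = 0
  swap
  · exact hD u hu w hw hww hN
  have huu : f u u = 0 := by rw [hww, add_zero] at hN; exact hN
  obtain ⟨κ, hκ, hκ2⟩ := h.tz
  -- second component
  obtain ⟨y₀, hy₀, hwy₀⟩ := s.sepW hw hw0
  have hy1 : f (κ • y₀) w = κ := by rw [h.smul_left, sw1 h hwy₀, mul_one]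
  obtain ⟨a, ha⟩ := h.adj (x := w) (z := κ • y₀) hww (by rw [hy1]; exact hκ) (l := 1) (map_one τ)
  obtain ⟨w₂, hw₂d⟩ : ∃ w₂, w₂ = κ • y₀ + a • w := ⟨_, rfl⟩
  rw [← hw₂d] at ha
  have hw₂ : w₂ ∈ W := by rw [hw₂d]; exact W.add_mem (W.smul_mem _ hy₀) (W.smul_mem _ hw)
  have hw₂w : f w₂ w = κ := by rw [hw₂d, h.add_left, hy1, h.smul_left, hww, mul_zero, add_zero]
  have hww₂ : f w w₂ = -κ := by rw [← h.sw, hw₂w]; linear_combination hκ2
  -- first component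
  obtain ⟨y, hyU, huy⟩ := s.sep1 hu hu0
  obtain ⟨x, hxU, hx0, hxx, hxu, hxy⟩ := s.perp2 u y
  have hxs : x ∉ Submodule.span F {u} := by
    intro hm
    obtain ⟨c, rfl⟩ := Submodule.mem_span_singleton.1 hm
    rw [h.smul_left, huy, mul_one] at hxy
    exact hx0 (by rw [hxy, zero_smul])
  obtain ⟨z₀, hz₀, hxz, huz⟩ := s.sepU hxU ((Submodule.span_singleton_le_iff_mem _ _).2 hu) hxs
  have huz' : f z₀ u = 0 := sw0 h (huz u (Submodule.mem_span_singleton_self u))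
  obtain ⟨b, hb⟩ := h.adj (x := x) (z := z₀) hxx (by rw [sw1 h hxz]; exact one_ne_zero) (l := -1) (by rw [map_neg, map_one])
  obtain ⟨u₂, hu₂d⟩ : ∃ u₂, u₂ = z₀ + b • x := ⟨_, rfl⟩
  rw [← hu₂d] at hb
  have hu₂ : u₂ ∈ U := by rw [hu₂d]; exact U.add_mem hz₀ (U.smul_mem _ hxU)
  have hu₂u : f u₂ u = 0 := by rw [hu₂d, h.add_left, huz', h.smul_left, hxu, mul_zero, add_zero]
  have huu₂ := sw0 h hu₂u
  have hF1 : FT h M (u₂ + w₂) := hD u₂ hu₂ w₂ hw₂ (by rw [ha]; exact one_ne_zero) (by rw [ha, hb]; ring)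
  have n1 : f (w - w₂) (w - w₂) = 1 := by
    rw [h.toSFm.sub_left, h.toSFm.sub_right, h.toSFm.sub_right, hww, hww₂, hw₂w, ha]
    ring
  have n2 : f (u - u₂) (u - u₂) = -1 := by
    rw [h.toSFm.sub_left, h.toSFm.sub_right, h.toSFm.sub_right, huu, huu₂, hu₂u, hb]
    ring
  have hF2 : FT h M ((u - u₂) + (w - w₂)) := hD _ (U.sub_mem hu hu₂) _ (W.sub_mem hw hw₂) (by rw [n1]; exact one_ne_zero) (by rw [n1, n2]; ring)
  have e : u₂ + w₂ + (1 : F) • ((u - u₂) + (w - w₂)) = u + w := by rw [one_smul]; abel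
  have h1 := hF1.line hF2 (a := 1) (by
    rw [h.add_left, h.toSFm.add_right, h.toSFm.add_right, s.orth u₂ hu₂ _ (W.sub_mem hw hw₂), s.orth' (U.sub_mem hu hu₂) hw₂,
      h.toSFm.sub_right, h.toSFm.sub_right, hu₂u, hb, hw₂w, ha]
    have e2 : (0 : F) - -1 + 0 + (0 + (κ - 1)) = κ := by ring
    rw [e2]
    exact hκ) (by rw [e]; exact hv)
  rwa [e] at h1

/-- a moved vector -/
theorem SS.moved (s : SS h M U W) (hdim : finrank F W < finrank F U) {g : GL (Fin n) F}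
    (hg : ∀ x y, f ((g : Matrix (Fin n) (Fin n) F) *ᵥ x) ((g : Matrix (Fin n) (Fin n) F) *ᵥ y) = f x y)
    (hgW : ¬ ∀ w ∈ W, (g : Matrix (Fin n) (Fin n) F) *ᵥ w ∈ W) :
    ∃ v ∈ U, f v v = 0 ∧ (g : Matrix (Fin n) (Fin n) F) *ᵥ v ∉ U ∧ (g : Matrix (Fin n) (Fin n) F) *ᵥ v ∉ W := by
  by_contra hcon
  push Not at hcon
  obtain ⟨x, hx, hx0, hxx, -, -⟩ := s.perp2 0 0
  obtain ⟨z₀, hz₀, hxz⟩ := s.sep1 hx hx0
  have hzx : f z₀ x ≠ 0 := by rw [sw1 h hxz]; exact one_ne_zero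
  by_cases hgx : (g : Matrix (Fin n) (Fin n) F) *ᵥ x ∈ U
  · have hle : U ≤ U.comap (Matrix.mulVecLin (g : Matrix (Fin n) (Fin n) F)) := by
      refine span_iso' h hx hxx hgx hz₀ hzx (fun v hv hvv hvx => ?_)
      by_contra hne
      have h1 := hcon v hv hvv hne
      apply hvx
      rw [← hg]
      exact s.orth' hgx h1
    have hle' : ∀ v ∈ U, (g : Matrix (Fin n) (Fin n) F) *ᵥ v ∈ U := fun v hv => hle hv
    apply hgW
    intro w hw
    obtain ⟨u', hu', w', hw', e⟩ := s.sum ((g : Matrix (Fin n) (Fin n) F) *ᵥ w)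
    have hu'0 : u' = 0 := by
      by_contra hne
      obtain ⟨z, hz, huz⟩ := s.sep1 hu' hne
      obtain ⟨z', hz', rfl⟩ := surjOn_of_mapsTo (S := (U : Set (Fin n → F))) hle' hz
      have h1 : f ((g : Matrix (Fin n) (Fin n) F) *ᵥ w) ((g : Matrix (Fin n) (Fin n) F) *ᵥ z') = 0 := by
        rw [hg]
        exact s.orth' hz' hw
      rw [e, h.add_left, huz, s.orth' hz hw', add_zero] at h1
      exact one_ne_zero h1
    rw [e, hu'0, zero_add]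
    exact hw'
  · have hgx' := hcon x hx hxx hgx
    have hle : U ≤ W.comap (Matrix.mulVecLin (g : Matrix (Fin n) (Fin n) F)) := by
      refine span_iso' h hx hxx hgx' hz₀ hzx (fun v hv hvv hvx => ?_)
      refine hcon v hv hvv (fun h1 => hvx ?_)
      rw [← hg]
      exact s.orth _ h1 _ hgx'
    have hinj : Function.Injective (Matrix.mulVecLin (g : Matrix (Fin n) (Fin n) F)) := fun x y hxy => mulVec_inj hxy
    have h1 : U.map (Matrix.mulVecLin (g : Matrix (Fin n) (Fin n) F)) ≤ W := Submodule.map_le_iff_le_comap.2 hle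
    have h2 := Submodule.finrank_mono h1
    have h3 := (Submodule.equivMapOfInjective _ hinj U).finrank_eq
    omega

end Cfsg.Agent.H21.GUz
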