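import Mathlib

set_option autoImplicit false

/-! overgroups of monomial groups: frames -/

namespace Cfsg.Agent.H21.GV

open Module

variable {F V ι : Type*} [Field F] [AddCommGroup V] [Module F V] [Fintype ι] [DecidableEq ι]
variable {M : Subgroup (V ≃ₗ[F] V)} {b x : Basis ι F V} {S : Finset ι}

/-- the group contains the monomial elements of determinant one -/
def Gd (M : Subgroup (V ≃ₗ[F] V)) (b : Basis ι F V) : Prop :=
  ∀ (σ : Equiv.Perm ι) (c : ι → Fˣ), (((Equiv.Perm.sign σ : ℤˣ) : ℤ) : F) * ∏ i, (c i : F) = 1 →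
    ∃ g ∈ M, ∀ i, g (b i) = (c i : F) • b (σ i)

omit [Fintype ι] [DecidableEq ι] in
theorem ai' (g : V ≃ₗ[F] V) (v : V) : g (g⁻¹ v) = v := g.apply_symm_apply v

omit [Fintype ι] [DecidableEq ι] in
theorem ia' (g : V ≃ₗ[F] V) (v : V) : g⁻¹ (g v) = v := g.symm_apply_apply v

theorem Gd.map (h : Gd M b) {g : V ≃ₗ[F] V} (hg : g ∈ M) : Gd M (b.map g) := by
  intro σ c hc
  obtain ⟨t, ht, htb⟩ := h σ c hc
  refine ⟨g * t * g⁻¹, M.mul_mem (M.mul_mem hg ht) (M.inv_mem hg), fun i => ?_⟩
  rw [Basis.map_apply, Basis.map_apply]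
  show g (t (g⁻¹ (g (b i)))) = _
  rw [ia', htb, map_smul]

theorem Gd.reindex (h : Gd M b) (e : Equiv.Perm ι) : Gd M (b.reindex e) := by
  intro σ c hc
  obtain ⟨t, ht, htb⟩ := h (e⁻¹ * σ * e) (fun j => c (e j)) (by
    rw [map_mul, map_mul, map_inv, mul_right_comm, inv_mul_cancel, one_mul]
    rw [Equiv.prod_comp e (fun j => (c j : F))]
    exact hc)
  refine ⟨t, ht, fun i => ?_⟩
  rw [Basis.reindex_apply, Basis.reindex_apply, htb]
  simp [Equiv.Perm.mul_apply]

theorem Gd.smul (h : Gd M b) (w : ι → Fˣ) : Gd M (b.unitsSMul w) := by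
  intro σ c hc
  obtain ⟨t, ht, htb⟩ := h σ (fun i => c i * w (σ i) * (w i)⁻¹) (by
    simp only [Units.val_mul]
    rw [Finset.prod_mul_distrib, Finset.prod_mul_distrib, Equiv.prod_comp σ (fun j => (w j : F)), mul_assoc (∏ i, (c i : F)),
      ← Finset.prod_mul_distrib]
    have : ∏ i, ((w i : F) * (((w i)⁻¹ : Fˣ) : F)) = 1 := Finset.prod_eq_one (fun i _ => by rw [Units.mul_inv])
    rw [this, mul_one]
    exact hc)
  refine ⟨t, ht, fun i => ?_⟩
  rw [Basis.unitsSMul_apply, Basis.unitsSMul_apply, Units.smul_def, Units.smul_def, map_smul, htb, smul_smul, smul_smul]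
  congr 1
  simp only [Units.val_mul]
  rw [mul_comm (w i : F), mul_assoc, Units.inv_mul, mul_one]

omit [Fintype ι] in
theorem coord_self (b : Basis ι F V) (i : ι) : b.coord i (b i) = 1 := by simp

omit [Fintype ι] in
theorem coord_ne (b : Basis ι F V) {i j : ι} (h : i ≠ j) : b.coord i (b j) = 0 := by
  rw [Basis.coord_apply, Basis.repr_self, Finsupp.single_apply, if_neg (Ne.symm h)]

theorem Gd.tor (h : Gd M b) {i j : ι} (hij : i ≠ j) {a : F} (ha : a ≠ 0) :
    ∃ t ∈ M, ∀ v, t v = v + ((a - 1) * b.coord i v) • b i + ((a⁻¹ - 1) * b.coord j v) • b j := by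
  obtain ⟨t, ht, htb⟩ := h 1 (Function.update (Function.update 1 i (Units.mk0 a ha)) j (Units.mk0 a⁻¹ (inv_ne_zero ha))) (by
    rw [map_one, Units.val_one, Int.cast_one, one_mul]
    rw [← Finset.mul_prod_erase Finset.univ _ (Finset.mem_univ j), ← Finset.mul_prod_erase (Finset.univ.erase j) _
      (Finset.mem_erase.2 ⟨hij, Finset.mem_univ i⟩)]
    rw [Function.update_self, Function.update_of_ne hij, Function.update_self]
    rw [Finset.prod_eq_one, mul_one]
    · exact inv_mul_cancel₀ ha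
    · intro k hk
      rw [Finset.mem_erase, Finset.mem_erase] at hk
      rw [Function.update_of_ne hk.2.1, Function.update_of_ne hk.1]
      rfl)
  refine ⟨t, ht, fun v => ?_⟩
  let R : V →ₗ[F] V := LinearMap.id + ((a - 1) • b.coord i).smulRight (b i) + ((a⁻¹ - 1) • b.coord j).smulRight (b j)
  have hR : (t : V →ₗ[F] V) = R := by
    refine b.ext (fun k => ?_)
    show t (b k) = b k + ((a - 1) * b.coord i (b k)) • b i + ((a⁻¹ - 1) * b.coord j (b k)) • b j
    rw [htb, Equiv.Perm.one_apply]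
    by_cases hkj : k = j
    · subst hkj
      rw [Function.update_self, coord_self, coord_ne b hij, mul_zero, zero_smul, mul_one, Units.val_mk0]
      module
    · rw [Function.update_of_ne hkj, coord_ne b (Ne.symm hkj), mul_zero, zero_smul, add_zero]
      by_cases hki : k = i
      · subst hki
        rw [Function.update_self, coord_self, mul_one, Units.val_mk0]
        module
      · rw [Function.update_of_ne hki, coord_ne b (Ne.symm hki), mul_zero, zero_smul, add_zero]
        simp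
  exact congrArg (fun f : V →ₗ[F] V => f v) hR

theorem Gd.cyc (h : Gd M b) {i j l : ι} (hij : i ≠ j) (hil : i ≠ l) (hjl : j ≠ l) :
    ∃ t ∈ M, ∀ v, t v = v + (b.coord l v - b.coord i v) • b i + (b.coord i v - b.coord j v) • b j + (b.coord j v - b.coord l v) • b l := by
  obtain ⟨t, ht, htb⟩ := h (Equiv.swap i j * Equiv.swap j l) 1 (by
    rw [map_mul, Equiv.Perm.sign_swap hij, Equiv.Perm.sign_swap hjl]
    simp)
  refine ⟨t, ht, fun v => ?_⟩
  let R : V →ₗ[F] V := LinearMap.id + (b.coord l - b.coord i).smulRight (b i) + (b.coord i - b.coord j).smulRight (b j) +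
    (b.coord j - b.coord l).smulRight (b l)
  have hR : (t : V →ₗ[F] V) = R := by
    refine b.ext (fun k => ?_)
    show t (b k) = b k + (b.coord l (b k) - b.coord i (b k)) • b i + (b.coord i (b k) - b.coord j (b k)) • b j +
      (b.coord j (b k) - b.coord l (b k)) • b l
    rw [htb, Pi.one_apply, Units.val_one, one_smul, Equiv.Perm.mul_apply]
    by_cases hki : k = i
    · subst hki
      rw [Equiv.swap_apply_of_ne_of_ne hij hil, Equiv.swap_apply_left, coord_self, coord_ne b (Ne.symm hil), coord_ne b (Ne.symm hij)]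
      module
    by_cases hkj : k = j
    · subst hkj
      rw [Equiv.swap_apply_left, Equiv.swap_apply_of_ne_of_ne (Ne.symm hil) (Ne.symm hjl), coord_self, coord_ne b (Ne.symm hjl),
        coord_ne b hij]
      module
    by_cases hkl : k = l
    · subst hkl
      rw [Equiv.swap_apply_right, Equiv.swap_apply_right, coord_self, coord_ne b hil, coord_ne b hjl]
      module
    rw [Equiv.swap_apply_of_ne_of_ne hkj hkl, Equiv.swap_apply_of_ne_of_ne hki hkj, coord_ne b (Ne.symm hki), coord_ne b (Ne.symm hkj),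
      coord_ne b (Ne.symm hkl)]
    module
  exact congrArg (fun f : V →ₗ[F] V => f v) hR

theorem Gd.rot (h : Gd M b) {i j : ι} (hij : i ≠ j) :
    ∃ t ∈ M, ∀ v, t v = v - (b.coord i v + b.coord j v) • b i + (b.coord i v - b.coord j v) • b j := by
  obtain ⟨t, ht, htb⟩ := h (Equiv.swap i j) (Function.update 1 j (-1)) (by
    rw [Equiv.Perm.sign_swap hij, ← Finset.mul_prod_erase Finset.univ _ (Finset.mem_univ j), Function.update_self,
      Finset.prod_eq_one (fun k hk => by
        rw [Finset.mem_erase] at hk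
        rw [Function.update_of_ne hk.1]
        rfl)]
    simp)
  refine ⟨t, ht, fun v => ?_⟩
  let R : V →ₗ[F] V := LinearMap.id - (b.coord i + b.coord j).smulRight (b i) + (b.coord i - b.coord j).smulRight (b j)
  have hR : (t : V →ₗ[F] V) = R := by
    refine b.ext (fun k => ?_)
    show t (b k) = b k - (b.coord i (b k) + b.coord j (b k)) • b i + (b.coord i (b k) - b.coord j (b k)) • b j
    rw [htb]
    by_cases hki : k = i
    · subst hki
      rw [Function.update_of_ne hij, Equiv.swap_apply_left, coord_self, coord_ne b (Ne.symm hij), Pi.one_apply, Units.val_one]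
      module
    by_cases hkj : k = j
    · subst hkj
      rw [Function.update_self, Equiv.swap_apply_right, coord_self, coord_ne b hij, Units.val_neg, Units.val_one]
      module
    rw [Function.update_of_ne hkj, Equiv.swap_apply_of_ne_of_ne hki hkj, coord_ne b (Ne.symm hki), coord_ne b (Ne.symm hkj), Pi.one_apply,
      Units.val_one]
    module
  exact congrArg (fun f : V →ₗ[F] V => f v) hR

/-- the second frame consists of lines of the first -/
def SF (b b' : Basis ι F V) : Prop := ∀ i, ∃ j, ∃ c : F, b' i = c • b j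

/-- maximality of the number of common lines -/
def MP (M : Subgroup (V ≃ₗ[F] V)) (ι : Type*) [Fintype ι] [DecidableEq ι] (s : ℕ) : Prop :=
  ∀ b b' : Basis ι F V, Gd M b → Gd M b' → ∀ T : Finset ι, s < T.card → (∀ i ∈ T, ∃ c : F, b' i = c • b i) → SF b b'

/-- the configuration -/
structure CF (M : Subgroup (V ≃ₗ[F] V)) (b x : Basis ι F V) (S : Finset ι) : Prop where
  gb : Gd M b
  gx : Gd M x
  al : ∀ i ∈ S, x i = b i
  mp : MP M ι S.card
  ns : ¬ SF b x

theorem align {b b' : Basis ι F V} (hb' : Gd M b') (h : ∀ i ∈ S, ∃ c : F, b' i = c • b i) :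
    ∃ x : Basis ι F V, Gd M x ∧ (∀ i ∈ S, x i = b i) ∧ (∀ i ∉ S, x i = b' i) ∧ (∀ i, ∃ c : F, c ≠ 0 ∧ x i = c • b' i) ∧
      (∀ i ∉ S, ∀ v, x.coord i v = b'.coord i v) := by
  have h1 : ∀ i, ∃ w : Fˣ, (i ∈ S → (w : F) • b' i = b i) ∧ (i ∉ S → w = 1) := by
    intro i
    by_cases hi : i ∈ S
    · obtain ⟨c, hc⟩ := h i hi
      have hc0 : c ≠ 0 := by
        rintro rfl
        rw [zero_smul] at hc
        exact b'.ne_zero i hc
      refine ⟨Units.mk0 c⁻¹ (inv_ne_zero hc0), fun _ => ?_, fun h => absurd hi h⟩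
      rw [Units.val_mk0, hc, smul_smul, inv_mul_cancel₀ hc0, one_smul]
    · exact ⟨1, fun h => absurd h hi, fun _ => rfl⟩
  choose w hw1 hw2 using h1
  refine ⟨b'.unitsSMul w, hb'.smul w, fun i hi => ?_, fun i hi => ?_, fun i => ?_, fun i hi v => ?_⟩
  · rw [Basis.unitsSMul_apply, Units.smul_def, hw1 i hi]
  · rw [Basis.unitsSMul_apply, hw2 i hi, one_smul]
  · exact ⟨w i, (w i).ne_zero, by rw [Basis.unitsSMul_apply, Units.smul_def]⟩
  · have e : (b'.unitsSMul w).coord i = b'.coord i := by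
      refine (b'.unitsSMul w).ext (fun k => ?_)
      by_cases hk : i = k
      · subst hk
        rw [coord_self, Basis.unitsSMul_apply, hw2 i hi, one_smul, coord_self]
      · rw [coord_ne _ hk, Basis.unitsSMul_apply, Units.smul_def, map_smul, coord_ne _ hk, smul_zero]
    rw [e]

theorem SF.of_lines {b b' b'' : Basis ι F V} (h : SF b b') (h' : ∀ i, ∃ c : F, c ≠ 0 ∧ b' i = c • b'' i) : SF b b'' := by
  intro i
  obtain ⟨j, c, hc⟩ := h i
  obtain ⟨d, hd, hd'⟩ := h' i
  refine ⟨j, d⁻¹ * c, ?_⟩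
  rw [mul_smul, ← hc, hd', smul_smul, inv_mul_cancel₀ hd, one_smul]

/-- existence of the configuration -/
theorem exists_CF {b b' : Basis ι F V} (hb : Gd M b) (hb' : Gd M b') (hn : ¬ SF b b') :
    ∃ (b x : Basis ι F V) (S : Finset ι), CF M b x S := by
  classical
  let P : ℕ → Prop := fun s => ∃ (b b' : Basis ι F V) (T : Finset ι), Gd M b ∧ Gd M b' ∧ T.card = s ∧
    (∀ i ∈ T, ∃ c : F, b' i = c • b i) ∧ ¬ SF b b'
  have hP0 : P 0 := ⟨b, b', ∅, hb, hb', rfl, fun i hi => absurd hi (Finset.notMem_empty i), hn⟩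
  have hbd : ∀ s, P s → s ≤ Fintype.card ι := by
    rintro s ⟨_, _, T, -, -, rfl, -⟩
    exact Finset.card_le_univ T
  obtain ⟨s, hs, hmax⟩ : ∃ s, P s ∧ ∀ s', P s' → s' ≤ s :=
    ⟨Nat.findGreatest P (Fintype.card ι), Nat.findGreatest_spec (hbd _ hP0) hP0, fun s' hs' => Nat.le_findGreatest (hbd _ hs') hs'⟩
  obtain ⟨b₁, b₂, T, h1, h2, h3, h4, h5⟩ := hs
  obtain ⟨x, hx1, hx2, -, hx4, -⟩ := align h2 h4
  refine ⟨b₁, x, T, h1, hx1, hx2, ?_, fun h => h5 (h.of_lines hx4)⟩
  intro c c' hc hc' T' hT' hal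
  by_contra hcon
  have := hmax _ ⟨c, c', T', hc, hc', rfl, hal, hcon⟩
  omega

theorem CF.ne (C : CF M b x S) {k : ι} (hk : k ∉ S) (j : ι) (c : F) : x k ≠ c • b j := by
  intro h
  have hc : c ≠ 0 := by
    rintro rfl
    rw [zero_smul] at h
    exact x.ne_zero k h
  have hj : j ∉ S := by
    intro hj
    have hne : k ≠ j := by
      rintro rfl
      exact hk hj
    rw [← C.al j hj] at h
    have h1 := congrArg (x.coord k) h
    rw [coord_self, map_smul, coord_ne x hne, smul_zero] at h1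
    exact one_ne_zero h1
  apply C.ns
  have h1 := C.mp b (x.reindex (Equiv.swap k j)) C.gb (C.gx.reindex _) (insert j S) (by
    rw [Finset.card_insert_of_notMem hj]
    omega) (fun i hi => by
    rw [Finset.mem_insert] at hi
    rw [Basis.reindex_apply, Equiv.symm_swap]
    rcases hi with rfl | hi
    · rw [Equiv.swap_apply_right]
      exact ⟨c, h⟩
    · rw [Equiv.swap_apply_of_ne_of_ne (by rintro rfl; exact hk hi) (by rintro rfl; exact hj hi)]
      exact ⟨1, by rw [one_smul, C.al i hi]⟩)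
  intro i
  obtain ⟨j', c', h2⟩ := h1 (Equiv.swap k j i)
  rw [Basis.reindex_apply, Equiv.symm_apply_apply] at h2
  exact ⟨j', c', h2⟩

/-- elements fixing too many lines preserve the frame -/
theorem CF.t1 (C : CF M b x S) {h : V ≃ₗ[F] V} (hh : h ∈ M) (hS : ∀ i ∈ S, ∃ c : F, h (x i) = c • x i) {k : ι} (hk : k ∉ S)
    (hhk : ∃ c : F, h (x k) = c • x k) (i : ι) : ∃ j, ∃ c : F, h (x i) = c • x j := by
  have h1 := C.mp x (x.map h) C.gx (C.gx.map hh) (insert k S) (by
    rw [Finset.card_insert_of_notMem hk]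
    omega) (fun i hi => by
    rw [Finset.mem_insert] at hi
    rw [Basis.map_apply]
    rcases hi with rfl | hi
    · exact hhk
    · exact hS i hi)
  have h2 := h1 i
  rwa [Basis.map_apply] at h2

/-- new configurations -/
theorem CF.new (C : CF M b x S) {h : V ≃ₗ[F] V} (hh : h ∈ M) (hS : ∀ i ∈ S, ∃ c : F, h (x i) = c • x i)
    (hns : ¬ ∀ i, ∃ j, ∃ c : F, h (x i) = c • x j) :
    ∃ x' : Basis ι F V, CF M x x' S ∧ (∀ k ∉ S, x' k = h (x k)) := by
  obtain ⟨x', hx1, hx2, hx3, hx4, -⟩ := align (b := x) (b' := x.map h) (S := S) (C.gx.map hh) (fun i hi => by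
    rw [Basis.map_apply]
    exact hS i hi)
  refine ⟨x', ⟨C.gx, hx1, hx2, C.mp, fun hsf => hns ?_⟩, fun k hk => by rw [hx3 k hk, Basis.map_apply]⟩
  have := hsf.of_lines hx4
  intro i
  have h2 := this i
  rwa [Basis.map_apply] at h2

theorem CF.scale (C : CF M b x S) {w : ι → Fˣ} (hw : ∀ i ∈ S, w i = 1) : CF M (b.unitsSMul w) x S where
  gb := C.gb.smul w
  gx := C.gx
  al := fun i hi => by rw [Basis.unitsSMul_apply, hw i hi, one_smul, C.al i hi]
  mp := C.mp
  ns := fun h => C.ns (fun i => by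
    obtain ⟨j, c, hc⟩ := h i
    rw [Basis.unitsSMul_apply, Units.smul_def, smul_smul] at hc
    exact ⟨j, _, hc⟩)

end Cfsg.Agent.H21.GV
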