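import Mathlib
import Cfsg.Agent.GV1

set_option autoImplicit false

/-! overgroups of monomial groups: transvections -/

namespace Cfsg.Agent.H21.GV

open Module

variable {F V ι : Type*} [Field F] [AddCommGroup V] [Module F V]
variable {M : Subgroup (V ≃ₗ[F] V)}

/-- transvections in the group -/
def TV (M : Subgroup (V ≃ₗ[F] V)) (v : V) (φ : V →ₗ[F] F) : Prop := ∃ g ∈ M, ∀ u, g u = u + φ u • v

theorem TV.zero (v : V) : TV M v 0 := ⟨1, M.one_mem, fun u => by rw [LinearMap.zero_apply, zero_smul, add_zero]; rfl⟩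

theorem TV.zero' (φ : V →ₗ[F] F) : TV M 0 φ := ⟨1, M.one_mem, fun u => by rw [smul_zero, add_zero]; rfl⟩

theorem TV.add {v : V} {φ ψ : V →ₗ[F] F} (h : TV M v φ) (h' : TV M v ψ) (hφ : φ v = 0) : TV M v (φ + ψ) := by
  obtain ⟨g, hg, hgx⟩ := h
  obtain ⟨g', hg', hgx'⟩ := h'
  refine ⟨g * g', M.mul_mem hg hg', fun u => ?_⟩
  show g (g' u) = _
  rw [hgx, hgx', map_add, map_smul, hφ, smul_zero, add_zero, LinearMap.add_apply]
  module

theorem TV.add' {v w : V} {φ : V →ₗ[F] F} (h : TV M v φ) (h' : TV M w φ) (hφ : φ w = 0) : TV M (v + w) φ := by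
  obtain ⟨g, hg, hgx⟩ := h
  obtain ⟨g', hg', hgx'⟩ := h'
  refine ⟨g * g', M.mul_mem hg hg', fun u => ?_⟩
  show g (g' u) = _
  rw [hgx, hgx', map_add, map_smul, hφ, smul_zero, add_zero]
  module

theorem TV.conj {v : V} {φ ψ : V →ₗ[F] F} (h : TV M v φ) {g : V ≃ₗ[F] V} (hg : g ∈ M) (hψ : ∀ u, ψ (g u) = φ u) : TV M (g v) ψ := by
  obtain ⟨t, ht, htx⟩ := h
  refine ⟨g * t * g⁻¹, M.mul_mem (M.mul_mem hg ht) (M.inv_mem hg), fun u => ?_⟩
  show g (t (g⁻¹ u)) = _
  rw [htx, map_add, ai', map_smul, ← hψ, ai']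

theorem TV.smul {v : V} {φ : V →ₗ[F] F} {c : F} (h : TV M (c • v) φ) : TV M v (c • φ) := by
  obtain ⟨t, ht, htx⟩ := h
  exact ⟨t, ht, fun u => by rw [htx, LinearMap.smul_apply, smul_smul, smul_eq_mul, mul_comm]⟩

variable [Fintype ι] [DecidableEq ι] {b x : Basis ι F V} {S : Finset ι}

/-- extraction -/
theorem extract (hb : Gd M b) {a : F} (ha0 : a ≠ 0) (ha1 : a ≠ 1) {i l m : ι} (hil : i ≠ l) (him : i ≠ m) (hlm : l ≠ m) {φ : V →ₗ[F] F}
    (hφi : φ (b i) = 0) (hφl : φ (b l) = 0) (hφm : φ (b m) ≠ 0) (h : TV M (b i) φ) : ∃ c : F, c ≠ 0 ∧ TV M (b i) (c • b.coord m) := by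
  obtain ⟨t, ht, htx⟩ := hb.tor hlm ha0
  obtain ⟨g, hg, hgx⟩ := h
  refine ⟨(a - 1) * φ (b m), mul_ne_zero (sub_ne_zero.2 ha1) hφm, (t * g * t⁻¹) * g⁻¹,
    M.mul_mem (M.mul_mem (M.mul_mem ht hg) (M.inv_mem ht)) (M.inv_mem hg), fun v => ?_⟩
  have hv : g (g⁻¹ v) = v := ai' g v
  show t (g (t⁻¹ (g⁻¹ v))) = _
  generalize g⁻¹ v = y at *
  have hw : t (t⁻¹ y) = y := ai' t y
  generalize t⁻¹ y = w at *
  have e1 : φ y = φ w + (a⁻¹ - 1) * b.coord m w * φ (b m) := by
    rw [← hw, htx, map_add, map_add, map_smul, map_smul, hφl, smul_zero, add_zero, smul_eq_mul]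
  have e2 : b.coord m y = a⁻¹ * b.coord m w := by
    rw [← hw, htx, map_add, map_add, map_smul, map_smul, coord_self, coord_ne b (Ne.symm hlm), smul_zero, smul_eq_mul]
    ring
  have e3 : t (b i) = b i := by
    rw [htx, coord_ne b (Ne.symm hil), coord_ne b (Ne.symm him)]
    simp
  have e4 : b.coord m v = b.coord m y := by
    rw [← hv, hgx, map_add, map_smul, coord_ne b (Ne.symm him), smul_zero, add_zero]
  rw [hgx, map_add, map_smul, e3, hw, ← hv, hgx, LinearMap.smul_apply, map_add, map_smul (b.coord m), coord_ne b (Ne.symm him), smul_zero,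
    add_zero, e1, e2, smul_eq_mul, add_assoc, ← add_smul]
  congr 2
  field_simp
  ring

/-- generation -/
theorem gen (hb : Gd M b) (h3 : ∀ i j : ι, ∃ l, l ≠ i ∧ l ≠ j) {i j : ι} (hij : i ≠ j) {c : F} (hc : c ≠ 0)
    (h : TV M (b i) (c • b.coord j)) (v : V) (φ : V →ₗ[F] F) (hφ : φ v = 0) : TV M v φ := by
  have E0 : ∀ c' : F, TV M (b i) (c' • b.coord j) := by
    intro c'
    by_cases hc' : c' = 0
    · rw [hc', zero_smul]; exact TV.zero _
    obtain ⟨l, hli, hlj⟩ := h3 i j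
    obtain ⟨t, ht, htx⟩ := hb.tor (Ne.symm hli) (a := c' / c) (div_ne_zero hc' hc)
    have e1 : t (b i) = (c' / c) • b i := by
      rw [htx, coord_self, coord_ne b hli]
      module
    have h1 := h.conj (ψ := c • b.coord j) ht (fun u => by
      rw [LinearMap.smul_apply, LinearMap.smul_apply, htx, map_add, map_add, map_smul, map_smul, coord_ne b (Ne.symm hij),
        coord_ne b (Ne.symm hlj), smul_zero, smul_zero, add_zero, add_zero])
    rw [e1] at h1
    have h2 := h1.smul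
    rwa [smul_smul, div_mul_cancel₀ _ hc] at h2
  have A : ∀ p q r : ι, p ≠ q → r ≠ q → (∀ c : F, TV M (b p) (c • b.coord q)) → ∀ c : F, TV M (b r) (c • b.coord q) := by
    intro p q r hpq hrq hE c
    by_cases hpr : p = r
    · rw [← hpr]; exact hE c
    obtain ⟨t, ht, htx⟩ := hb.rot hpr
    have e1 : t (b p) = b r := by
      rw [htx, coord_self, coord_ne b (Ne.symm hpr)]
      module
    have h1 := (hE c).conj (ψ := c • b.coord q) ht (fun u => by
      rw [LinearMap.smul_apply, LinearMap.smul_apply, htx, map_add, map_sub, map_smul, map_smul, coord_ne b (Ne.symm hpq),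
        coord_ne b (Ne.symm hrq), smul_zero, smul_zero, add_zero, sub_zero])
    rwa [e1] at h1
  have B : ∀ p q r : ι, p ≠ q → p ≠ r → (∀ c : F, TV M (b p) (c • b.coord q)) → ∀ c : F, TV M (b p) (c • b.coord r) := by
    intro p q r hpq hpr hE c
    by_cases hqr : q = r
    · rw [← hqr]; exact hE c
    obtain ⟨t, ht, htx⟩ := hb.rot hqr
    have e1 : t (b p) = b p := by
      rw [htx, coord_ne b (Ne.symm hpq), coord_ne b (Ne.symm hpr)]
      simp
    have h1 := (hE c).conj (ψ := c • b.coord r) ht (fun u => by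
      rw [LinearMap.smul_apply, LinearMap.smul_apply, htx, map_add, map_sub, map_smul, map_smul, coord_ne b (Ne.symm hqr),
        coord_self, smul_zero, sub_zero, smul_eq_mul, smul_eq_mul, smul_eq_mul, mul_one]
      ring)
    rwa [e1] at h1
  have E1 : ∀ p q : ι, p ≠ q → ∀ c : F, TV M (b p) (c • b.coord q) := by
    intro p q hpq
    by_cases hpj : p = j
    · obtain ⟨l, hli, hlj⟩ := h3 i j
      have s1 := B i j l hij (Ne.symm hli) E0
      have s2 := A i l p (Ne.symm hli) (by rw [hpj]; exact Ne.symm hlj) s1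
      exact B p l q (by rw [hpj]; exact Ne.symm hlj) hpq s2
    · exact B p j q hpj hpq (A i j p hij hpj E0)
  have E2 : ∀ (p : ι) (ψ : V →ₗ[F] F), ψ (b p) = 0 → TV M (b p) ψ := by
    intro p ψ hψ
    have e : ψ = ∑ q, ψ (b q) • b.coord q := by
      refine b.ext (fun k => ?_)
      rw [LinearMap.sum_apply, Finset.sum_eq_single k]
      · rw [LinearMap.smul_apply, coord_self, smul_eq_mul, mul_one]
      · intro q _ hq
        rw [LinearMap.smul_apply, coord_ne b hq, smul_zero]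
      · intro h; exact absurd (Finset.mem_univ k) h
    rw [e]
    have key : ∀ T : Finset ι, TV M (b p) (∑ q ∈ T, ψ (b q) • b.coord q) ∧ (∑ q ∈ T, ψ (b q) • b.coord q) (b p) = 0 := by
      intro T
      induction T using Finset.induction_on with
      | empty => exact ⟨by rw [Finset.sum_empty]; exact TV.zero _, by rw [Finset.sum_empty]; rfl⟩
      | insert q T hq ih =>
        rw [Finset.sum_insert hq]
        by_cases hqp : q = p
        · rw [hqp, hψ, zero_smul, zero_add]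
          exact ih
        · have h0 : (ψ (b q) • b.coord q) (b p) = 0 := by rw [LinearMap.smul_apply, coord_ne b hqp, smul_zero]
          exact ⟨(E1 p q (Ne.symm hqp) _).add ih.1 h0, by rw [LinearMap.add_apply, h0, ih.2, add_zero]⟩
    exact (key Finset.univ).1
  have E3 : ∀ (p : ι) (w : V), b.coord p w = 0 → TV M w (b.coord p) := by
    intro p w hw
    have e : w = ∑ q, b.coord q w • b q := by
      simp only [Basis.coord_apply]
      exact (b.sum_repr w).symm
    rw [e]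
    have key : ∀ T : Finset ι, TV M (∑ q ∈ T, b.coord q w • b q) (b.coord p) ∧ b.coord p (∑ q ∈ T, b.coord q w • b q) = 0 := by
      intro T
      induction T using Finset.induction_on with
      | empty => exact ⟨by rw [Finset.sum_empty]; exact TV.zero' _, by rw [Finset.sum_empty, map_zero]⟩
      | insert q T hq ih =>
        rw [Finset.sum_insert hq]
        by_cases hqp : q = p
        · rw [hqp, hw, zero_smul, zero_add]
          exact ih
        · have h1 : TV M (b.coord q w • b q) (b.coord p) := by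
            obtain ⟨t, ht, htx⟩ := E1 q p hqp (b.coord q w)
            exact ⟨t, ht, fun u => by rw [htx, LinearMap.smul_apply, smul_smul, smul_eq_mul, mul_comm]⟩
          exact ⟨h1.add' ih.1 ih.2, by rw [map_add, ih.2, map_smul, coord_ne b (Ne.symm hqp), smul_zero, add_zero]⟩
    exact (key Finset.univ).1
  by_cases hv : v = 0
  · rw [hv]; exact TV.zero' _
  obtain ⟨p, hp⟩ : ∃ p, b.coord p v ≠ 0 := by
    by_contra hcon
    push Not at hcon
    apply hv
    rw [← b.sum_repr v]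
    exact Finset.sum_eq_zero (fun q _ => by
      have := hcon q
      rw [Basis.coord_apply] at this
      rw [this, zero_smul])
  obtain ⟨q, hqp, -⟩ := h3 p p
  obtain ⟨g₁, hg₁, hgx₁⟩ := E1 q p hqp ((1 - b.coord q v) / b.coord p v)
  have h1 : b.coord q (g₁ v) = 1 := by
    rw [hgx₁, LinearMap.smul_apply, map_add, map_smul, coord_self, smul_eq_mul, smul_eq_mul, div_mul_cancel₀ _ hp, mul_one]
    ring
  obtain ⟨g₂, hg₂, hgx₂⟩ := E3 q (b q - g₁ v) (by rw [map_sub, coord_self, h1, sub_self])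
  have h2 : g₂ (g₁ v) = b q := by
    rw [hgx₂, h1, one_smul]
    abel
  have h4 : (g₂ * g₁)⁻¹ (b q) = v := by
    rw [← h2]
    exact ia' (g₂ * g₁) v
  have h5 := (E2 q (φ.comp ((g₂ * g₁)⁻¹ : V ≃ₗ[F] V).toLinearMap) (by
    rw [LinearMap.comp_apply]
    show φ ((g₂ * g₁)⁻¹ (b q)) = 0
    rw [h4, hφ])).conj (g := (g₂ * g₁)⁻¹) (ψ := φ) (M.inv_mem (M.mul_mem hg₂ hg₁)) (fun u => rfl)
  rwa [h4] at h5

/-- the first case -/
theorem CF.claim1 (C : CF M b x S) (hS : 3 ≤ S.card) {a : F} (ha0 : a ≠ 0) (ha1 : a ≠ 1) {i k : ι} (hi : i ∈ S)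
    (hne : b.coord i (x k) ≠ 0) (hk : k ∉ S) : ∃ i j : ι, i ≠ j ∧ ∃ c : F, c ≠ 0 ∧ TV M (b i) (c • b.coord j) := by
  obtain ⟨j, hj, hij⟩ : ∃ j ∈ S, j ≠ i := by
    by_contra hcon
    push Not at hcon
    have h1 : S ⊆ {i} := fun j hj => Finset.mem_singleton.2 (hcon j hj)
    have := Finset.card_le_card h1
    rw [Finset.card_singleton] at this
    omega
  obtain ⟨m, hm, hmi, hmj⟩ : ∃ m ∈ S, m ≠ i ∧ m ≠ j := by
    by_contra hcon
    push Not at hcon
    have h1 : S ⊆ {i, j} := fun m hm => by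
      by_cases h : m = i
      · rw [h]; simp
      · rw [hcon m hm h]; simp
    have := Finset.card_le_card h1
    have := (Finset.card_le_two (a := i) (b := j))
    omega
  obtain ⟨t₁, ht₁, e₁⟩ := C.gx.tor (Ne.symm hij) (inv_ne_zero ha0)
  obtain ⟨t₂, ht₂, e₂⟩ := C.gb.tor (Ne.symm hij) ha0
  obtain ⟨h, hh, eh⟩ := C.gb.tor (Ne.symm hmi) ha0
  obtain ⟨ξ, hξ⟩ : ∃ ξ : ι → V →ₗ[F] F, ∀ i v, ξ i v = b.coord i v - x.coord i v := ⟨fun i => b.coord i - x.coord i, fun i v => rfl⟩
  have hξS : ∀ p, ∀ l ∈ S, ξ p (b l) = 0 := by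
    intro p l hl
    rw [hξ]
    nth_rewrite 2 [← C.al l hl]
    by_cases hpl : p = l
    · rw [hpl, coord_self, coord_self, sub_self]
    · rw [coord_ne b hpl, coord_ne x hpl, sub_self]
  have hu : ∀ v, (t₂ * t₁) v = v + ((a - 1) * ξ i v) • b i + ((a⁻¹ - 1) * ξ j v) • b j := by
    intro v
    show t₂ (t₁ v) = _
    rw [e₂, e₁, C.al i hi, C.al j hj, inv_inv]
    simp only [map_add, map_smul, coord_self, coord_ne b (Ne.symm hij), coord_ne b hij, hξ, smul_eq_mul, mul_zero, mul_one, add_zero]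
    have r1 : (a⁻¹ - 1) * x.coord i v + (a - 1) * (b.coord i v + (a⁻¹ - 1) * x.coord i v) = (a - 1) * (b.coord i v - x.coord i v) := by
      field_simp
      ring
    have r2 : (a - 1) * x.coord j v + (a⁻¹ - 1) * (b.coord j v + (a - 1) * x.coord j v) = (a⁻¹ - 1) * (b.coord j v - x.coord j v) := by
      field_simp
      ring
    rw [← r1, ← r2]
    module
  have hT : TV M (b i) (((a - 1) * (a - 1)) • ξ i) := by
    refine ⟨(h * (t₂ * t₁) * h⁻¹) * (t₂ * t₁)⁻¹, M.mul_mem (M.mul_mem (M.mul_mem hh (M.mul_mem ht₂ ht₁)) (M.inv_mem hh))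
      (M.inv_mem (M.mul_mem ht₂ ht₁)), fun v => ?_⟩
    have hv : (t₂ * t₁) ((t₂ * t₁)⁻¹ v) = v := ai' _ v
    show h ((t₂ * t₁) (h⁻¹ ((t₂ * t₁)⁻¹ v))) = _
    generalize (t₂ * t₁)⁻¹ v = y at *
    have hw : h (h⁻¹ y) = y := ai' h y
    generalize h⁻¹ y = w at *
    have f1 : ∀ p, ξ p y = ξ p w := by
      intro p
      rw [← hw, eh, map_add, map_add, map_smul, map_smul, hξS p i hi, hξS p m hm, smul_zero, smul_zero, add_zero, add_zero]
    have f2 : ∀ p, ξ p v = ξ p y := by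
      intro p
      rw [← hv, hu, map_add, map_add, map_smul, map_smul, hξS p i hi, hξS p j hj, smul_zero, smul_zero, add_zero, add_zero]
    have f3 : h (b i) = a • b i := by
      rw [eh, coord_self, coord_ne b hmi]
      module
    have f4 : h (b j) = b j := by
      rw [eh, coord_ne b (Ne.symm hij), coord_ne b hmj]
      simp
    rw [hu, map_add, map_add, map_smul h, map_smul h, f3, f4, hw, LinearMap.smul_apply, f2, f1]
    rw [← hv, hu, f1, f1]
    module
  obtain ⟨q, hq, hqS⟩ : ∃ q, ξ i (b q) ≠ 0 ∧ q ∉ S := by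
    by_contra hcon
    push Not at hcon
    have h1 : ξ i = 0 := b.ext (fun q => by
      by_contra h0
      exact h0 (hξS i q (hcon q h0)))
    have h2 := hξ i (x k)
    rw [h1, coord_ne x (by rintro rfl; exact hk hi : i ≠ k), sub_zero] at h2
    exact hne h2.symm
  obtain ⟨c, hc, hTc⟩ := extract C.gb ha0 ha1 (Ne.symm hij) (by rintro rfl; exact hqS hi : i ≠ q) (by rintro rfl; exact hqS hj : j ≠ q)
    (φ := ((a - 1) * (a - 1)) • ξ i) (by rw [LinearMap.smul_apply, hξS i i hi, smul_zero]) (by rw [LinearMap.smul_apply, hξS i j hj, smul_zero])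
    (by rw [LinearMap.smul_apply, smul_eq_mul]; exact mul_ne_zero (mul_ne_zero (sub_ne_zero.2 ha1) (sub_ne_zero.2 ha1)) hq) hT
  exact ⟨i, q, by rintro rfl; exact hqS hi, c, hc, hTc⟩

end Cfsg.Agent.H21.GV
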