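import Mathlib
import Cfsg.Agent.GV2

set_option autoImplicit false

/-! overgroups of monomial groups: frames with many common lines -/

namespace Cfsg.Agent.H21.GV

open Module

variable {F V ι : Type*} [Field F] [AddCommGroup V] [Module F V]
variable {M : Subgroup (V ≃ₗ[F] V)}
variable [Fintype ι] [DecidableEq ι] {b x : Basis ι F V} {S : Finset ι}

/-- an elementary transvection -/
def EL (M : Subgroup (V ≃ₗ[F] V)) (b : Basis ι F V) : Prop := ∃ i j : ι, i ≠ j ∧ ∃ c : F, c ≠ 0 ∧ TV M (b i) (c • b.coord j)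

/-- the second kind of configuration -/
structure CZ (M : Subgroup (V ≃ₗ[F] V)) (b x : Basis ι F V) (S : Finset ι) : Prop where
  cf : CF M b x S
  hz : ∀ i ∈ S, ∀ k ∉ S, b.coord i (x k) = 0

theorem CZ.chi (C : CZ M b x S) {i : ι} (hi : i ∈ S) : x.coord i = b.coord i := by
  refine x.ext (fun l => ?_)
  by_cases hl : l ∈ S
  · rw [C.cf.al l hl]
    nth_rewrite 1 [← C.cf.al l hl]
    by_cases hil : i = l
    · rw [hil, coord_self, coord_self]
    · rw [coord_ne x hil, coord_ne b hil]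
  · rw [C.hz i hi l hl, coord_ne x (by rintro rfl; exact hl hi)]

theorem CZ.chib (C : CZ M b x S) {i k : ι} (hi : i ∈ S) (hk : k ∉ S) : x.coord k (b i) = 0 := by
  rw [← C.cf.al i hi, coord_ne x (by rintro rfl; exact hk hi)]

theorem CZ.bx (C : CZ M b x S) {i j : ι} (hi : i ∈ S) (hj : j ∉ S) : b.coord j (x i) = 0 := by
  rw [C.cf.al i hi, coord_ne b (by rintro rfl; exact hj hi)]

/-- reflections preserving the frame -/
theorem CZ.refl (C : CZ M b x S) {l₀ j m : ι} (hl₀ : l₀ ∈ S) (hj : j ∉ S) (hm : m ∉ S) {β : F} (hβ0 : β ≠ 0) (hβ1 : β ≠ 1)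
    {t : V ≃ₗ[F] V} (ht : ∀ v, t v = v + ((β - 1) * b.coord j v) • b j + ((β⁻¹ - 1) * b.coord l₀ v) • b l₀)
    (hsf : ∀ i, ∃ m, ∃ c : F, t (x i) = c • x m) (hjm : b.coord j (x m) ≠ 0) :
    β * β = 1 ∧ ∃ m', m' ≠ m ∧ ∃ c : F, t (x m) = c • x m' := by
  have hjl : j ≠ l₀ := by rintro rfl; exact hj hl₀
  have e1 : t (x m) = x m + ((β - 1) * b.coord j (x m)) • b j := by
    rw [ht, C.hz l₀ hl₀ m hm, mul_zero, zero_smul, add_zero]
  have e2 : t (b j) = β • b j := by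
    rw [ht, coord_self, coord_ne b (Ne.symm hjl)]
    module
  have e3 : t (t (x m)) = x m + ((β * β - 1) * b.coord j (x m)) • b j := by
    rw [e1, map_add, map_smul, e2, e1]
    module
  have key : ∀ (γ c : F), γ ≠ 1 → x m + ((γ - 1) * b.coord j (x m)) • b j = c • x m → False := by
    intro γ c hγ h
    have h1 : (c - 1) • x m = ((γ - 1) * b.coord j (x m)) • b j := by rw [sub_smul, ← h]; module
    by_cases hc : c = 1
    · rw [hc, sub_self, zero_smul] at h1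
      rcases smul_eq_zero.1 h1.symm with h2 | h2
      · exact (mul_ne_zero (sub_ne_zero.2 hγ) hjm) h2
      · exact b.ne_zero j h2
    · apply C.cf.ne hm j ((c - 1)⁻¹ * ((γ - 1) * b.coord j (x m)))
      rw [mul_smul, ← h1, smul_smul, inv_mul_cancel₀ (sub_ne_zero.2 hc), one_smul]
  obtain ⟨m₁, c₁, h1⟩ := hsf m
  have hm₁ : m₁ ≠ m := by
    rintro rfl
    exact key β c₁ hβ1 (e1.symm.trans h1)
  refine ⟨?_, m₁, hm₁, c₁, h1⟩
  by_contra hββ
  obtain ⟨m₂, c₂, h2⟩ := hsf m₁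
  have h3 : t (t (x m)) = (c₁ * c₂) • x m₂ := by rw [h1, map_smul, h2, smul_smul]
  have hrel : t (t (x m)) - (1 + β) • t (x m) + β • x m = 0 := by
    rw [e3, e1]
    module
  have h4 := congrArg (x.coord m) hrel
  rw [h3, h1, map_add, map_sub, map_smul, map_smul, map_smul, map_smul, coord_self, coord_ne x (Ne.symm hm₁), map_zero] at h4
  by_cases hm₂ : m = m₂
  · subst hm₂
    exact key (β * β) (c₁ * c₂) hββ (e3.symm.trans h3)
  · rw [coord_ne x hm₂] at h4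
    apply hβ0
    simpa using h4

/-- full supports -/
theorem CZ.full (C : CZ M b x S) {l₀ : ι} (hl₀ : l₀ ∈ S) {a : F} (ha0 : a ≠ 0) (ha1 : a ≠ 1) (ha2 : a * a ≠ 1) {j k : ι} (hj : j ∉ S)
    (hk : k ∉ S) : b.coord j (x k) ≠ 0 := by
  intro h0
  have hjl : j ≠ l₀ := by rintro rfl; exact hj hl₀
  obtain ⟨t, ht, htx⟩ := C.cf.gb.tor hjl ha0
  have hsf := C.cf.t1 ht (fun i hi => by
    rw [htx, C.bx hi hj, C.cf.al i hi]
    by_cases hil : l₀ = i
    · subst hil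
      exact ⟨a⁻¹, by rw [coord_self]; module⟩
    · exact ⟨1, by rw [coord_ne b hil]; module⟩) hk ⟨1, by rw [htx, h0, C.hz l₀ hl₀ k hk]; module⟩
  obtain ⟨m, hm⟩ : ∃ m, b.coord j (x m) ≠ 0 := by
    by_contra hcon
    push Not at hcon
    have h1 : b.coord j = 0 := x.ext (fun m => by rw [hcon m]; rfl)
    have h2 := coord_self b j
    rw [h1] at h2
    exact zero_ne_one h2
  have hmS : m ∉ S := fun h => hm (C.bx h hj)
  exact ha2 (C.refl hl₀ hj hmS ha0 ha1 htx hsf hm).1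

/-- mismatched supports -/
theorem CZ.mism (C : CZ M b x S) {l₀ : ι} (hl₀ : l₀ ∈ S) {a : F} (ha0 : a ≠ 0) (ha1 : a ≠ 1) {j k : ι} (hj : j ∉ S)
    (hk : k ∉ S) (h1 : b.coord j (x k) ≠ 0) (h2 : x.coord k (b j) = 0) : EL M b := by
  have hjl : j ≠ l₀ := by rintro rfl; exact hj hl₀
  have hkl : k ≠ l₀ := by rintro rfl; exact hk hl₀
  obtain ⟨d, hd, ed⟩ := C.cf.gb.tor hjl ha0
  obtain ⟨s, hs, es⟩ := C.cf.gx.tor hkl ha0
  have hχ := C.chi hl₀
  have hT : TV M (b j) (((a - 1) * (a - 1) * b.coord j (x k) * a⁻¹) • x.coord k) := by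
    refine ⟨(d * s * d⁻¹) * s⁻¹, M.mul_mem (M.mul_mem (M.mul_mem hd hs) (M.inv_mem hd)) (M.inv_mem hs), fun v => ?_⟩
    have hv : s (s⁻¹ v) = v := ai' s v
    show d (s (d⁻¹ (s⁻¹ v))) = _
    generalize s⁻¹ v = y at *
    have hw : d (d⁻¹ y) = y := ai' d y
    generalize d⁻¹ y = w at *
    have f1 : x.coord k y = x.coord k w := by
      rw [← hw, ed, map_add, map_add, map_smul, map_smul, h2, C.chib hl₀ hk, smul_zero, smul_zero, add_zero, add_zero]
    have f2 : b.coord l₀ y = a⁻¹ * b.coord l₀ w := by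
      rw [← hw, ed, map_add, map_add, map_smul, map_smul, coord_self, coord_ne b (Ne.symm hjl), smul_zero, smul_eq_mul]
      ring
    have f3 : x.coord k v = a * x.coord k y := by
      rw [← hv, es, map_add, map_add, map_smul, map_smul, coord_self, coord_ne x hkl, smul_zero, smul_eq_mul]
      ring
    have f4 : d (x k) = x k + ((a - 1) * b.coord j (x k)) • b j := by
      rw [ed, C.hz l₀ hl₀ k hk]
      module
    have f5 : d (b l₀) = a⁻¹ • b l₀ := by
      rw [ed, coord_self, coord_ne b hjl]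
      module
    rw [es, C.cf.al l₀ hl₀, hχ, map_add, map_add, map_smul d, map_smul d, hw, f4, f5, LinearMap.smul_apply, f3, f1, smul_eq_mul]
    rw [← hv, es, C.cf.al l₀ hl₀, hχ, f1, f2]
    have r1 : (a - 1) * (a - 1) * b.coord j (x k) * a⁻¹ * (a * x.coord k w) = (a - 1) * (a - 1) * b.coord j (x k) * x.coord k w := by
      field_simp
    rw [r1]
    module
  obtain ⟨m, hm⟩ : ∃ m, x.coord k (b m) ≠ 0 := by
    by_contra hcon
    push Not at hcon
    have h1 : x.coord k = 0 := b.ext (fun m => by rw [hcon m]; rfl)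
    have h2 := coord_self x k
    rw [h1] at h2
    exact zero_ne_one h2
  have hmj : j ≠ m := by
    rintro rfl
    exact hm h2
  have hml : l₀ ≠ m := by
    rintro rfl
    exact hm (C.chib hl₀ hk)
  have hc : (a - 1) * (a - 1) * b.coord j (x k) * a⁻¹ ≠ 0 :=
    mul_ne_zero (mul_ne_zero (mul_ne_zero (sub_ne_zero.2 ha1) (sub_ne_zero.2 ha1)) h1) (inv_ne_zero ha0)
  obtain ⟨c, hc, hTc⟩ := extract C.cf.gb ha0 ha1 hjl hmj hml
    (φ := ((a - 1) * (a - 1) * b.coord j (x k) * a⁻¹) • x.coord k) (by rw [LinearMap.smul_apply, h2, smul_zero])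
    (by rw [LinearMap.smul_apply, C.chib hl₀ hk, smul_zero]) (by rw [LinearMap.smul_apply, smul_eq_mul]; exact mul_ne_zero hc hm) hT
  exact ⟨j, m, hmj, c, hc, hTc⟩

/-- diagonal elements killing a coordinate preserve the frame -/
theorem CZ.sf (C : CZ M b x S) {l₀ : ι} (hl₀ : l₀ ∈ S) {a : F} (ha0 : a ≠ 0) (ha1 : a ≠ 1) (ha2 : a * a ≠ 1)
    {t : V ≃ₗ[F] V} (ht : t ∈ M) (hS : ∀ i ∈ S, ∃ c : F, t (x i) = c • x i) (hz : ∀ i ∈ S, ∀ k ∉ S, x.coord i (t (x k)) = 0)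
    {k : ι} (hk : k ∉ S) (h0 : x.coord k (t (x k)) = 0) (i : ι) : ∃ m, ∃ c : F, t (x i) = c • x m := by
  by_contra hcon
  obtain ⟨x', C', hx'⟩ := C.cf.new ht hS (fun h => hcon (h i))
  have D : CZ M x x' S := ⟨C', fun i hi k hk => by rw [hx' k hk]; exact hz i hi k hk⟩
  have h1 := D.full hl₀ ha0 ha1 ha2 hk hk
  rw [hx' k hk] at h1
  exact h1 h0

theorem CZ.sum (C : CZ M b x S) {k : ι} (hk : k ∉ S) : ∑ j ∈ Sᶜ, b.coord j (x k) * x.coord k (b j) = 1 := by
  have h1 : x.coord k (∑ j, b.coord j (x k) • b j) = 1 := by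
    have e : ∑ j, b.coord j (x k) • b j = x k := by
      simp only [Basis.coord_apply]
      exact b.sum_repr (x k)
    rw [e, coord_self]
  rw [map_sum] at h1
  rw [← h1, ← Finset.sum_subset (Finset.subset_univ Sᶜ)]
  · exact Finset.sum_congr rfl (fun j _ => by rw [map_smul, smul_eq_mul])
  · intro j _ hj
    rw [Finset.mem_compl, not_not] at hj
    rw [map_smul, C.chib hj hk, smul_zero]

/-- a single reflection -/
theorem CZ.one (C : CZ M b x S) {l₀ : ι} (hl₀ : l₀ ∈ S) {a : F} (ha0 : a ≠ 0) (ha1 : a ≠ 1) (ha2 : a * a ≠ 1)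
    {j k : ι} (hj : j ∉ S) (hk : k ∉ S) (h1 : x.coord k (b j) ≠ 0) (hc : b.coord j (x k) * x.coord k (b j) ≠ 1) :
    (b.coord j (x k) * x.coord k (b j)) * 2 = 1 ∧ ∀ m ∉ S, m = k ∨ ∃ c : F, c ≠ 0 ∧
      (1 - (b.coord j (x k) * x.coord k (b j))⁻¹) * (1 - (b.coord j (x k) * x.coord k (b j))⁻¹) = 1 ∧
      x k + ((-(b.coord j (x k) * x.coord k (b j))⁻¹) * b.coord j (x k)) • b j = c • x m := by
  have hjl : j ≠ l₀ := by rintro rfl; exact hj hl₀
  have hkl : k ≠ l₀ := by rintro rfl; exact hk hl₀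
  have h2 := C.full hl₀ ha0 ha1 ha2 hj hk
  have hc0 : b.coord j (x k) * x.coord k (b j) ≠ 0 := mul_ne_zero h2 h1
  obtain ⟨γ, hγ⟩ : ∃ γ, γ = b.coord j (x k) * x.coord k (b j) := ⟨_, rfl⟩
  rw [← hγ] at hc hc0 ⊢
  have hβ0 : 1 - γ⁻¹ ≠ 0 := by
    intro h
    apply hc
    have : γ⁻¹ = 1 := by linear_combination -h
    rw [← inv_inv γ, this, inv_one]
  have hβ1 : 1 - γ⁻¹ ≠ 1 := by
    intro h
    have : γ⁻¹ = 0 := by linear_combination -h
    exact inv_ne_zero hc0 this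
  obtain ⟨t, ht, htx⟩ := C.cf.gb.tor hjl hβ0
  have hS : ∀ i ∈ S, ∃ c : F, t (x i) = c • x i := fun i hi => by
    rw [htx, C.bx hi hj, C.cf.al i hi]
    by_cases hil : l₀ = i
    · subst hil
      exact ⟨(1 - γ⁻¹)⁻¹, by rw [coord_self]; module⟩
    · exact ⟨1, by rw [coord_ne b hil]; module⟩
  have hsf := C.sf hl₀ ha0 ha1 ha2 ht hS (fun i hi k' hk' => by
    rw [htx, C.hz l₀ hl₀ k' hk', C.chi hi, map_add, map_add, map_smul, map_smul, C.hz i hi k' hk', coord_ne b (by rintro rfl; exact hj hi)]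
    simp) hk (by
    rw [htx, C.hz l₀ hl₀ k hk, map_add, map_add, map_smul, map_smul, coord_self, smul_eq_mul, smul_eq_mul, mul_zero, zero_mul, add_zero]
    have : (1 - γ⁻¹ - 1) * b.coord j (x k) * x.coord k (b j) = -1 := by
      rw [mul_assoc, ← hγ]
      field_simp
      ring
    rw [this]
    ring)
  obtain ⟨hββ, m₁, hm₁, c₁, hm⟩ := C.refl hl₀ hj hk hβ0 hβ1 htx hsf h2
  have h2γ : γ * 2 = 1 := by
    have e1 : (1 - γ⁻¹ - 1) * (1 - γ⁻¹ + 1) = 0 := by linear_combination hββ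
    have e2 := (mul_eq_zero.1 e1).resolve_left (sub_ne_zero.2 hβ1)
    have e3 : γ * (1 - γ⁻¹ + 1) = 0 := by rw [e2, mul_zero]
    have e4 : γ * γ⁻¹ = 1 := mul_inv_cancel₀ hc0
    linear_combination e3 + e4
  refine ⟨h2γ, fun m' hm'S => ?_⟩
  by_cases hm'k : m' = k
  · exact Or.inl hm'k
  right
  have hj' := C.full hl₀ ha0 ha1 ha2 hj hm'S
  obtain ⟨-, m₂, hm₂, c₂, hm2⟩ := C.refl hl₀ hj hm'S hβ0 hβ1 htx hsf hj'
  have ek : t (x k) = x k + ((-γ⁻¹) * b.coord j (x k)) • b j := by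
    rw [htx, C.hz l₀ hl₀ k hk]; module
  have em : t (x m') = x m' + ((-γ⁻¹) * b.coord j (x m')) • b j := by
    rw [htx, C.hz l₀ hl₀ m' hm'S]; module
  have hrel : b.coord j (x m') • (x k - t (x k)) - b.coord j (x k) • (x m' - t (x m')) = 0 := by
    rw [ek, em]
    module
  have h4 := congrArg (x.coord m') hrel
  rw [hm, hm2] at h4
  simp only [map_sub, map_smul, coord_self, coord_ne x hm'k, coord_ne x (Ne.symm hm₂), map_zero, smul_eq_mul] at h4
  by_cases hm'm₁ : m' = m₁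
  · refine ⟨c₁, ?_, hββ, by rw [← ek, hm, hm'm₁]⟩
    rintro rfl
    rw [zero_smul] at hm
    exact x.ne_zero k (t.injective (hm.trans (map_zero t).symm))
  · exfalso
    rw [coord_ne x hm'm₁] at h4
    apply h2
    linear_combination -h4

end Cfsg.Agent.H21.GV
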