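import Mathlib
import Cfsg.Agent.GV3

set_option autoImplicit false

/-! overgroups of monomial groups: frames with many common lines, II -/

namespace Cfsg.Agent.H21.GV

open Module

variable {F V ι : Type*} [Field F] [AddCommGroup V] [Module F V]
variable {M : Subgroup (V ≃ₗ[F] V)}

theorem TV.neg {v : V} {φ : V →ₗ[F] F} (h : TV M v φ) (hφ : φ v = 0) : TV M (-v) φ := by
  obtain ⟨g, hg, hgx⟩ := h
  refine ⟨g⁻¹, M.inv_mem hg, fun u => ?_⟩
  have h1 : g (u + φ u • -v) = u := by
    rw [hgx, map_add, map_smul, map_neg, hφ]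
    module
  nth_rewrite 1 [← h1]
  exact ia' g _

variable [Fintype ι] [DecidableEq ι] {b x : Basis ι F V} {S : Finset ι}

/-- the exceptional configuration -/
theorem two (hb : Gd M b) (hx : Gd M x) {p q r l₀ : ι} (hpq : p ≠ q) (hpr : p ≠ r) (hqr : q ≠ r) (hpl : p ≠ l₀) (hql : q ≠ l₀)
    (hrl : r ≠ l₀) (hxp : x p = b p + b q) (hxq : x q = b p - b q) (hxi : ∀ i, i ≠ p → i ≠ q → x i = b i) (h2 : (2 : F) ≠ 0)
    {a : F} (ha0 : a ≠ 0) (ha1 : a ≠ 1) : EL M b := by
  have hχ : x.coord q = (2 : F)⁻¹ • (b.coord p - b.coord q) := by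
    refine x.ext (fun i => ?_)
    rw [LinearMap.smul_apply, LinearMap.sub_apply]
    by_cases hip : i = p
    · subst hip
      rw [coord_ne x (Ne.symm hpq), hxp, map_add, map_add, coord_self, coord_self, coord_ne b hpq, coord_ne b (Ne.symm hpq)]
      simp
    by_cases hiq : i = q
    · subst hiq
      rw [coord_self, hxq, map_sub, map_sub, coord_self, coord_self, coord_ne b hpq, coord_ne b (Ne.symm hpq), smul_eq_mul]
      have : (1 : F) - 0 - (0 - 1) = 2 := by ring
      rw [this, inv_mul_cancel₀ h2]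
    · rw [coord_ne x (Ne.symm hiq), hxi i hip hiq, coord_ne b (Ne.symm hip), coord_ne b (Ne.symm hiq)]
      simp
  have hχ0 : x.coord l₀ = b.coord l₀ := by
    refine x.ext (fun i => ?_)
    by_cases hip : i = p
    · subst hip
      rw [coord_ne x (Ne.symm hpl), hxp, map_add, coord_ne b (Ne.symm hpl), coord_ne b (Ne.symm hql)]
      simp
    by_cases hiq : i = q
    · subst hiq
      rw [coord_ne x (Ne.symm hql), hxq, map_sub, coord_ne b (Ne.symm hpl), coord_ne b (Ne.symm hql)]
      simp
    · rw [hxi i hip hiq]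
      nth_rewrite 1 [← hxi i hip hiq]
      by_cases hil : l₀ = i
      · subst hil
        rw [coord_self, coord_self]
      · rw [coord_ne x hil, coord_ne b hil]
  obtain ⟨ρ, hρ, eρ⟩ := hb.cyc hpq hpr hqr
  have hu : Gd M (x.map ρ) := hx.map hρ
  obtain ⟨u, hud⟩ : ∃ u, u = x.map ρ := ⟨_, rfl⟩
  rw [← hud] at hu
  have up : u p = b q + b r := by
    rw [hud, Basis.map_apply, hxp, map_add, eρ, eρ]
    simp only [coord_self, coord_ne b hpq, coord_ne b (Ne.symm hpq), coord_ne b (Ne.symm hpr), coord_ne b (Ne.symm hqr)]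
    module
  have uq : u q = b q - b r := by
    rw [hud, Basis.map_apply, hxq, map_sub, eρ, eρ]
    simp only [coord_self, coord_ne b hpq, coord_ne b (Ne.symm hpq), coord_ne b (Ne.symm hpr), coord_ne b (Ne.symm hqr)]
    module
  have ur : u r = b p := by
    rw [hud, Basis.map_apply, hxi r (Ne.symm hpr) (Ne.symm hqr), eρ]
    simp only [coord_self, coord_ne b hpr, coord_ne b hqr]
    module
  have ui : ∀ i, i ≠ p → i ≠ q → i ≠ r → u i = b i := by
    intro i hip hiq hir
    rw [hud, Basis.map_apply, hxi i hip hiq, eρ]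
    simp only [coord_ne b (Ne.symm hip), coord_ne b (Ne.symm hiq), coord_ne b (Ne.symm hir)]
    module
  obtain ⟨m, hm, em⟩ := hu.rot hqr
  have mp : m (u p) = u p := by
    rw [em, coord_ne u (Ne.symm hpq), coord_ne u (Ne.symm hpr)]
    module
  have mq : m (u q) = u r := by
    rw [em, coord_self, coord_ne u (Ne.symm hqr)]
    module
  have mr : m (u r) = -u q := by
    rw [em, coord_self, coord_ne u hqr]
    module
  have h22 : (2 : F)⁻¹ + (2 : F)⁻¹ = 1 := by rw [← two_mul, mul_inv_cancel₀ h2]
  have bq : b q = (2 : F)⁻¹ • (u p + u q) := by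
    rw [up, uq]
    have : b q + b r + (b q - b r) = (2 : F) • b q := by module
    rw [this, smul_smul, inv_mul_cancel₀ h2, one_smul]
  have br : b r = (2 : F)⁻¹ • (u p - u q) := by
    rw [up, uq]
    have : b q + b r - (b q - b r) = (2 : F) • b r := by module
    rw [this, smul_smul, inv_mul_cancel₀ h2, one_smul]
  have mbq : m (b q) = (2 : F)⁻¹ • (b p + b q + b r) := by
    have h1 := congrArg m bq
    rw [map_smul, map_add, mp, mq, ur, up] at h1
    rw [h1]
    module
  have mbr : m (b r) = (2 : F)⁻¹ • (b q + b r - b p) := by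
    have h1 := congrArg m br
    rw [map_smul, map_sub, mp, mq, ur, up] at h1
    exact h1
  have mbp : m (b p) = b r - b q := by
    rw [← ur, mr, uq]
    abel
  have mbi : ∀ i, i ≠ p → i ≠ q → i ≠ r → m (b i) = b i := by
    intro i hip hiq hir
    rw [← ui i hip hiq hir, em, coord_ne u (Ne.symm hiq), coord_ne u (Ne.symm hir)]
    module
  obtain ⟨φ, hφ⟩ : ∃ φ : V →ₗ[F] F, ∀ v, φ v = b.coord p v + (2 : F)⁻¹ * (b.coord q v + b.coord r v) :=
    ⟨b.coord p + (2 : F)⁻¹ • (b.coord q + b.coord r), fun v => rfl⟩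
  have hφm : ∀ v, φ (m v) = b.coord q v := by
    have e : φ.comp (m : V →ₗ[F] V) = b.coord q := by
      refine b.ext (fun i => ?_)
      show φ (m (b i)) = _
      rw [hφ]
      by_cases hip : i = p
      · subst hip
        rw [mbp]
        simp only [map_sub, coord_self, coord_ne b hpq, coord_ne b hpr, coord_ne b hqr, coord_ne b (Ne.symm hpq), coord_ne b (Ne.symm hqr)]
        ring
      by_cases hiq : i = q
      · subst hiq
        rw [mbq]
        simp only [map_smul, map_add, coord_self, coord_ne b hpq, coord_ne b hpr, coord_ne b hqr, coord_ne b (Ne.symm hpq), coord_ne b (Ne.symm hqr),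
          coord_ne b (Ne.symm hpr), smul_eq_mul]
        linear_combination (2 : F)⁻¹ * h22 + h22
      by_cases hir : i = r
      · subst hir
        rw [mbr]
        simp only [map_smul, map_add, map_sub, coord_self, coord_ne b hpq, coord_ne b hpr, coord_ne b hqr, coord_ne b (Ne.symm hpq), coord_ne b (Ne.symm hqr),
          coord_ne b (Ne.symm hpr), smul_eq_mul]
        linear_combination (2 : F)⁻¹ * h22
      · rw [mbi i hip hiq hir, coord_ne b (Ne.symm hip), coord_ne b (Ne.symm hiq), coord_ne b (Ne.symm hir)]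
        ring
    intro v
    exact congrArg (fun f : V →ₗ[F] F => f v) e
  have hm0 : ∀ v, b.coord l₀ (m v) = b.coord l₀ v := by
    have e : (b.coord l₀).comp (m : V →ₗ[F] V) = b.coord l₀ := by
      refine b.ext (fun i => ?_)
      show b.coord l₀ (m (b i)) = _
      by_cases hip : i = p
      · subst hip
        rw [mbp]
        simp only [map_sub, coord_ne b (Ne.symm hpl), coord_ne b (Ne.symm hql), coord_ne b (Ne.symm hrl)]
        ring
      by_cases hiq : i = q
      · subst hiq
        rw [mbq]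
        simp only [map_smul, map_add, coord_ne b (Ne.symm hpl), coord_ne b (Ne.symm hql), coord_ne b (Ne.symm hrl), smul_eq_mul]
        ring
      by_cases hir : i = r
      · subst hir
        rw [mbr]
        simp only [map_smul, map_add, map_sub, coord_ne b (Ne.symm hpl), coord_ne b (Ne.symm hql), coord_ne b (Ne.symm hrl), smul_eq_mul]
        ring
      · rw [mbi i hip hiq hir]
    intro v
    exact congrArg (fun f : V →ₗ[F] F => f v) e
  have mb0 : m (b l₀) = b l₀ := mbi l₀ (Ne.symm hpl) (Ne.symm hql) (Ne.symm hrl)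
  obtain ⟨s₀, hs₀, es₀⟩ := hb.tor hql ha0
  obtain ⟨s, hs, es⟩ : ∃ s ∈ M, ∀ v, s v = v + ((a - 1) * φ v) • m (b q) + ((a⁻¹ - 1) * b.coord l₀ v) • b l₀ := by
    refine ⟨m * s₀ * m⁻¹, M.mul_mem (M.mul_mem hm hs₀) (M.inv_mem hm), fun v => ?_⟩
    have hv : m (m⁻¹ v) = v := ai' m v
    show m (s₀ (m⁻¹ v)) = _
    generalize m⁻¹ v = w at *
    rw [← hv, es₀, map_add, map_add, map_smul m, map_smul m, mb0, hφm, hm0]
  obtain ⟨d, hd, ed⟩ := hx.tor hql ha0
  have hx0 : x l₀ = b l₀ := hxi l₀ (Ne.symm hpl) (Ne.symm hql)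
  rw [hx0, hχ0] at ed
  obtain ⟨y', hy'⟩ : ∃ y', y' = m (b q) := ⟨_, rfl⟩
  rw [← hy'] at es
  rw [mbq] at hy'
  have hχv : ∀ v, x.coord q v = (2 : F)⁻¹ * (b.coord p v - b.coord q v) := fun v => by rw [hχ]; rfl
  have hχy : x.coord q y' = 0 := by
    rw [hχv, hy']
    simp only [map_smul, map_add, coord_self, coord_ne b hpq, coord_ne b hpr, coord_ne b hqr, coord_ne b (Ne.symm hpq), smul_eq_mul]
    ring
  have h0y : b.coord l₀ y' = 0 := by
    rw [hy']
    simp only [map_smul, map_add, coord_ne b (Ne.symm hpl), coord_ne b (Ne.symm hql), coord_ne b (Ne.symm hrl), smul_eq_mul]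
    ring
  have hχb0 : x.coord q (b l₀) = 0 := by rw [hχv, coord_ne b hpl, coord_ne b hql]; ring
  have hφ0 : φ (b l₀) = 0 := by rw [hφ, coord_ne b hpl, coord_ne b hql, coord_ne b hrl]; ring
  have hφxq : φ (x q) = (2 : F)⁻¹ := by
    rw [hφ, hxq]
    simp only [map_sub, coord_self, coord_ne b hpq, coord_ne b (Ne.symm hpq), coord_ne b (Ne.symm hpr), coord_ne b (Ne.symm hqr)]
    linear_combination -h22
  have h0xq : b.coord l₀ (x q) = 0 := by
    rw [hxq, map_sub, coord_ne b (Ne.symm hpl), coord_ne b (Ne.symm hql), sub_zero]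
  have hT : TV M y' ((-((a - 1) * (a - 1) * (2 : F)⁻¹ * a⁻¹)) • x.coord q) := by
    refine ⟨(d * s * d⁻¹) * s⁻¹, M.mul_mem (M.mul_mem (M.mul_mem hd hs) (M.inv_mem hd)) (M.inv_mem hs), fun v => ?_⟩
    have hv : s (s⁻¹ v) = v := ai' s v
    show d (s (d⁻¹ (s⁻¹ v))) = _
    generalize s⁻¹ v = y at *
    have hw : d (d⁻¹ y) = y := ai' d y
    generalize d⁻¹ y = w at *
    have f1 : φ y = φ w + (a - 1) * x.coord q w * (2 : F)⁻¹ := by
      rw [← hw, ed, map_add, map_add, map_smul, map_smul, hφxq, hφ0, smul_zero, add_zero, smul_eq_mul]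
    have f2 : b.coord l₀ y = a⁻¹ * b.coord l₀ w := by
      rw [← hw, ed, map_add, map_add, map_smul, map_smul, coord_self, h0xq, smul_zero, smul_eq_mul]
      ring
    have f3 : x.coord q y = a * x.coord q w := by
      rw [← hw, ed, map_add, map_add, map_smul, map_smul, coord_self, hχb0, smul_zero, smul_eq_mul]
      ring
    have f4 : x.coord q v = x.coord q y := by
      rw [← hv, es, map_add, map_add, map_smul, map_smul, hχy, hχb0, smul_zero, smul_zero, add_zero, add_zero]
    have f5 : d y' = y' := by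
      rw [ed, hχy, h0y]
      module
    have f6 : d (b l₀) = a⁻¹ • b l₀ := by
      rw [ed, coord_self, hχb0]
      module
    rw [es, map_add, map_add, map_smul d, map_smul d, hw, f5, f6, LinearMap.smul_apply, f4, f3, smul_eq_mul]
    rw [← hv, es, f1, f2]
    have r1 : -((a - 1) * (a - 1) * (2 : F)⁻¹ * a⁻¹) * (a * x.coord q w) = -((a - 1) * (a - 1) * (2 : F)⁻¹ * x.coord q w) := by
      field_simp
    rw [r1]
    module
  have hc0 : -((a - 1) * (a - 1) * (2 : F)⁻¹ * a⁻¹) ≠ 0 := neg_ne_zero.2 (mul_ne_zero (mul_ne_zero (mul_ne_zero (sub_ne_zero.2 ha1) (sub_ne_zero.2 ha1))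
    (inv_ne_zero h2)) (inv_ne_zero ha0))
  obtain ⟨c, hc⟩ : ∃ c, c = -((a - 1) * (a - 1) * (2 : F)⁻¹ * a⁻¹) := ⟨_, rfl⟩
  rw [← hc] at hT hc0
  obtain ⟨h, hh, eh⟩ := hb.tor hrl ha0
  have hχr : x.coord q (b r) = 0 := by rw [hχv, coord_ne b hpr, coord_ne b hqr]; ring
  have hT1 := hT.conj (ψ := c • x.coord q) hh (fun u => by
    rw [LinearMap.smul_apply, LinearMap.smul_apply, eh, map_add, map_add, map_smul, map_smul, hχr, hχb0, smul_zero, smul_zero, add_zero, add_zero])
  have hT2 := hT1.add' (hT.neg (by rw [LinearMap.smul_apply, hχy, smul_zero])) (by rw [LinearMap.smul_apply, map_neg, hχy, neg_zero, smul_zero])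
  have e1 : h y' + -y' = ((a - 1) * (2 : F)⁻¹) • b r := by
    have : b.coord r y' = (2 : F)⁻¹ := by
      rw [hy']
      simp only [map_smul, map_add, coord_self, coord_ne b (Ne.symm hpr), coord_ne b (Ne.symm hqr), smul_eq_mul]
      ring
    rw [eh, h0y, this]
    module
  rw [e1] at hT2
  have hT3 := hT2.smul
  obtain ⟨c', hc', hTc⟩ := extract hb ha0 ha1 hrl (Ne.symm hpr) (Ne.symm hpl)
    (φ := ((a - 1) * (2 : F)⁻¹) • (c • x.coord q)) (by rw [LinearMap.smul_apply, LinearMap.smul_apply, hχr, smul_zero, smul_zero])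
    (by rw [LinearMap.smul_apply, LinearMap.smul_apply, hχb0, smul_zero, smul_zero])
    (by
      rw [LinearMap.smul_apply, LinearMap.smul_apply, smul_eq_mul, smul_eq_mul, hχv, coord_self, coord_ne b (Ne.symm hpq), sub_zero, mul_one]
      exact mul_ne_zero (mul_ne_zero (sub_ne_zero.2 ha1) (inv_ne_zero h2)) (mul_ne_zero hc0 (inv_ne_zero h2))) hT3
  exact ⟨r, p, Ne.symm hpr, c', hc', hTc⟩

/-- the second case -/
theorem CZ.claim2 (C : CZ M b x S) (hS : 3 ≤ S.card) {a : F} (ha0 : a ≠ 0) (ha1 : a ≠ 1) (ha2 : a * a ≠ 1) (ha3 : a * a * a ≠ 1) :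
    EL M b := by
  by_contra hEL
  obtain ⟨l₀, hl₀⟩ : S.Nonempty := Finset.card_pos.1 (by omega)
  have hχ : ∀ k ∉ S, ∀ j ∉ S, x.coord k (b j) ≠ 0 := fun k hk j hj h0 =>
    hEL (C.mism hl₀ ha0 ha1 hj hk (C.full hl₀ ha0 ha1 ha2 hj hk) h0)
  have hSc : ∃ k, k ∉ S := by
    by_contra hcon
    push Not at hcon
    apply C.cf.ns
    intro i
    exact ⟨i, 1, by rw [one_smul, C.cf.al i (hcon i)]⟩
  obtain ⟨k, hk⟩ := hSc
  by_cases h3 : ∃ p q, p ∉ S ∧ q ∉ S ∧ p ≠ q ∧ p ≠ k ∧ q ≠ k
  · have h3' : ∀ k ∉ S, ∃ p q, p ∉ S ∧ q ∉ S ∧ p ≠ q ∧ p ≠ k ∧ q ≠ k := by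
      obtain ⟨p, q, hp, hq, hpq, hpk, hqk⟩ := h3
      intro k' hk'
      by_cases h1 : k' = p
      · exact ⟨k, q, hk, hq, Ne.symm hqk, by rw [h1]; exact Ne.symm hpk, by rw [h1]; exact Ne.symm hpq⟩
      by_cases h2 : k' = q
      · exact ⟨k, p, hk, hp, Ne.symm hpk, by rw [h2]; exact Ne.symm hqk, by rw [h2]; exact hpq⟩
      exact ⟨p, q, hp, hq, hpq, Ne.symm h1, Ne.symm h2⟩
    have hone : ∀ k ∉ S, ∀ j ∉ S, b.coord j (x k) * x.coord k (b j) = 1 := by
      intro k hk j hj
      by_contra hne
      obtain ⟨-, hh⟩ := C.one hl₀ ha0 ha1 ha2 hj hk (hχ k hk j hj) hne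
      obtain ⟨p, q, hp, hq, hpq, hpk, hqk⟩ := h3' k hk
      rcases hh p hp with h | ⟨c, hc, -, h⟩
      · exact hpk h
      rcases hh q hq with h' | ⟨c', hc', -, h'⟩
      · exact hqk h'
      rw [h] at h'
      have h4 := congrArg (x.coord p) h'
      rw [map_smul, map_smul, coord_self, coord_ne x hpq] at h4
      apply hc
      simpa using h4
    obtain ⟨p, q, hp, hq, hpq, hpk, hqk⟩ := h3
    have hpl : p ≠ l₀ := by rintro rfl; exact hp hl₀
    have hql : q ≠ l₀ := by rintro rfl; exact hq hl₀
    have hkl : k ≠ l₀ := by rintro rfl; exact hk hl₀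
    have ha' : 1 - a ≠ 0 := sub_ne_zero.2 (Ne.symm ha1)
    obtain ⟨t₁, ht₁, e₁⟩ := C.cf.gb.tor hpl ha0
    obtain ⟨t₂, ht₂, e₂⟩ := C.cf.gb.tor hql ha'
    have hy0 := C.hz l₀ hl₀ k hk
    have et : ∀ v, b.coord l₀ v = 0 → (t₁ * t₂) v = v + ((a - 1) * b.coord p v) • b p + ((1 - a - 1) * b.coord q v) • b q := by
      intro v hv
      show t₁ (t₂ v) = _
      rw [e₂, hv, e₁, map_add, map_add, map_add, map_add, map_smul, map_smul, map_smul, map_smul, hv, coord_ne b hpq, coord_ne b (Ne.symm hql)]
      simp only [mul_zero, zero_smul, smul_zero, add_zero]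
      module
    have hb0 : ∀ j ∉ S, b.coord l₀ (b j) = 0 := fun j hj => coord_ne b (by rintro rfl; exact hj hl₀)
    have hsf := C.sf hl₀ ha0 ha1 ha2 (M.mul_mem ht₁ ht₂) (fun i hi => by
      show ∃ c : F, t₁ (t₂ (x i)) = c • x i
      rw [e₂, e₁, C.cf.al i hi]
      simp only [map_add, map_smul, coord_ne b (show p ≠ i by rintro rfl; exact hp hi), coord_ne b (show q ≠ i by rintro rfl; exact hq hi),
        coord_ne b hpl, coord_self]
      by_cases hil : l₀ = i
      · subst hil
        exact ⟨1 + ((1 - a)⁻¹ - 1) + (a⁻¹ - 1) * (1 + ((1 - a)⁻¹ - 1)), by rw [coord_self]; simp only [smul_eq_mul]; module⟩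
      · exact ⟨1, by rw [coord_ne b hil]; simp⟩) (fun i hi k' hk' => by
      rw [et _ (C.hz l₀ hl₀ k' hk'), C.chi hi]
      simp only [map_add, map_smul, coord_ne b (show i ≠ p by rintro rfl; exact hp hi), coord_ne b (show i ≠ q by rintro rfl; exact hq hi),
        C.hz i hi k' hk', smul_zero, add_zero]) hk (by
      rw [et _ hy0]
      simp only [map_add, map_smul, coord_self, smul_eq_mul]
      have g1 := hone k hk p hp
      have g2 := hone k hk q hq
      linear_combination (a - 1) * g1 + (1 - a - 1) * g2)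
    have yp := C.full hl₀ ha0 ha1 ha2 hp hk
    have yk := C.full hl₀ ha0 ha1 ha2 hk hk
    obtain ⟨y, hyd⟩ : ∃ y, y = x k := ⟨_, rfl⟩
    have hy0' : b.coord l₀ y = 0 := by rw [hyd]; exact hy0
    have et2 : ∀ (α β : F), (t₁ * t₂) (y + α • b p + β • b q) =
        y + ((a - 1) * b.coord p y + a * α) • b p + ((1 - a - 1) * b.coord q y + (1 - a) * β) • b q := by
      intro α β
      rw [et _ (by rw [map_add, map_add, map_smul, map_smul, hy0', hb0 p hp, hb0 q hq]; simp)]
      simp only [map_add, map_smul, coord_self, coord_ne b hpq, coord_ne b (Ne.symm hpq), smul_eq_mul, mul_zero, add_zero, mul_one]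
      module
    have T1 : (t₁ * t₂) y = y + ((a - 1) * b.coord p y) • b p + ((1 - a - 1) * b.coord q y) • b q := et _ hy0'
    have T2 := congrArg (t₁ * t₂) T1
    rw [et2] at T2
    have T3 := congrArg (t₁ * t₂) T2
    rw [et2] at T3
    have key : ∀ (γ α β : F), γ ≠ 1 → ∀ c : F, y + (γ * b.coord p y - b.coord p y) • b p + β • b q = c • y → False := by
      intro γ α β hγ c h
      have h1 := congrArg (b.coord k) h
      simp only [map_add, map_smul, coord_ne b (Ne.symm hpk), coord_ne b (Ne.symm hqk), smul_eq_mul, mul_zero, add_zero] at h1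
      rw [hyd] at h1
      have hc1 : c = 1 := by
        have : (c - 1) * b.coord k (x k) = 0 := by linear_combination -h1
        exact sub_eq_zero.1 ((mul_eq_zero.1 this).resolve_right yk)
      have h5 := congrArg (b.coord p) h
      simp only [map_add, map_smul, coord_self, coord_ne b hpq, smul_eq_mul, mul_zero, add_zero, mul_one] at h5
      rw [hc1, hyd] at h5
      apply hγ
      have : (γ - 1) * b.coord p (x k) = 0 := by linear_combination h5
      exact sub_eq_zero.1 ((mul_eq_zero.1 this).resolve_right yp)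
    obtain ⟨m₁, c₁, h1⟩ := hsf k
    obtain ⟨m₂, c₂, h2⟩ := hsf m₁
    obtain ⟨m₃, c₃, h4⟩ := hsf m₂
    rw [← hyd] at h1
    have k1 : (t₁ * t₂) y = c₁ • x m₁ := h1
    have k2 : (t₁ * t₂) ((t₁ * t₂) y) = (c₁ * c₂) • x m₂ := by rw [k1, map_smul, h2, smul_smul]
    have k3 : (t₁ * t₂) ((t₁ * t₂) ((t₁ * t₂) y)) = (c₁ * c₂ * c₃) • x m₃ := by rw [k2, map_smul, h4, smul_smul]
    have n1 : k ≠ m₁ := by
      rintro rfl
      rw [← hyd] at k1
      apply key a 0 ((1 - a - 1) * b.coord q y) ha1 c₁
      rw [← k1, T1]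
      module
    have n2 : k ≠ m₂ := by
      rintro rfl
      rw [← hyd] at k2
      apply key (a * a) 0 ((1 - a - 1) * b.coord q y + (1 - a) * ((1 - a - 1) * b.coord q y)) ha2 (c₁ * c₂)
      rw [← k2, T2]
      module
    have n3 : k ≠ m₃ := by
      rintro rfl
      rw [← hyd] at k3
      apply key (a * a * a) 0 ((1 - a - 1) * b.coord q y + (1 - a) * ((1 - a - 1) * b.coord q y + (1 - a) * ((1 - a - 1) * b.coord q y))) ha3 (c₁ * c₂ * c₃)
      rw [← k3, T3]
      module
    have hrel : (t₁ * t₂) ((t₁ * t₂) ((t₁ * t₂) y)) - (2 : F) • (t₁ * t₂) ((t₁ * t₂) y) + (1 + a * (1 - a)) • (t₁ * t₂) y - (a * (1 - a)) • y = 0 := by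
      rw [T3, T2, T1]
      module
    have h5 := congrArg (x.coord k) hrel
    rw [k3, k2, k1, hyd] at h5
    simp only [map_add, map_sub, map_smul, coord_self, coord_ne x n1, coord_ne x n2, coord_ne x n3, map_zero, smul_zero] at h5
    apply mul_ne_zero ha0 ha'
    have : a * (1 - a) = 0 := by
      simp only [smul_eq_mul] at h5
      linear_combination -h5
    exact this
  · push Not at h3
    by_cases h2 : ∃ p, p ∉ S ∧ p ≠ k
    · obtain ⟨p, hp, hpk⟩ := h2
      have hSc : ∀ i, i ∉ S → i = k ∨ i = p := by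
        intro i hi
        by_cases hik : i = k
        · exact Or.inl hik
        · right
          by_contra hip
          exact hik (h3 p i hp hi (Ne.symm hip) hpk)
      have hScc : Sᶜ = {k, p} := by
        ext i
        rw [Finset.mem_compl, Finset.mem_insert, Finset.mem_singleton]
        constructor
        · exact hSc i
        · rintro (rfl | rfl)
          · exact hk
          · exact hp
      have hhalf : ∀ k' ∉ S, ∀ j ∉ S, (b.coord j (x k') * x.coord k' (b j)) * 2 = 1 := by
        intro k' hk' j hj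
        refine (C.one hl₀ ha0 ha1 ha2 hj hk' (hχ k' hk' j hj) ?_).1
        intro h1
        have hs := C.sum hk'
        rw [hScc, Finset.sum_insert (by rw [Finset.mem_singleton]; exact Ne.symm hpk), Finset.sum_singleton] at hs
        have g1 : b.coord k (x k') * x.coord k' (b k) ≠ 0 := mul_ne_zero (C.full hl₀ ha0 ha1 ha2 hk hk') (hχ k' hk' k hk)
        have g2 : b.coord p (x k') * x.coord k' (b p) ≠ 0 := mul_ne_zero (C.full hl₀ ha0 ha1 ha2 hp hk') (hχ k' hk' p hp)
        rcases hSc j hj with rfl | rfl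
        · exact g2 (by linear_combination hs - h1)
        · exact g1 (by linear_combination hs - h1)
      have h2 : (2 : F) ≠ 0 := by
        intro h0
        have := hhalf k hk k hk
        rw [h0, mul_zero] at this
        exact zero_ne_one this
      have hexp : ∀ k' ∉ S, x k' = b.coord k (x k') • b k + b.coord p (x k') • b p := by
        intro k' hk'
        have e : ∑ j, b.coord j (x k') • b j = x k' := by
          simp only [Basis.coord_apply]
          exact b.sum_repr (x k')
        rw [← Finset.sum_subset (Finset.subset_univ Sᶜ) (fun j _ hj => by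
          rw [Finset.mem_compl, not_not] at hj
          rw [C.hz j hj k' hk', zero_smul]), hScc, Finset.sum_insert (by rw [Finset.mem_singleton]; exact Ne.symm hpk), Finset.sum_singleton] at e
        exact e.symm
      -- rescale
      have a1 := C.full hl₀ ha0 ha1 ha2 hk hk
      have a2 := C.full hl₀ ha0 ha1 ha2 hp hk
      have a3 := C.full hl₀ ha0 ha1 ha2 hk hp
      obtain ⟨w, hwk, hwp, hwi⟩ : ∃ w : ι → Fˣ, (w k : F) = b.coord k (x k) ∧ (w p : F) = b.coord p (x k) ∧ ∀ i ∈ S, w i = 1 :=
        ⟨Function.update (Function.update 1 k (Units.mk0 _ a1)) p (Units.mk0 _ a2), by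
          rw [Function.update_of_ne (Ne.symm hpk), Function.update_self, Units.val_mk0], by rw [Function.update_self, Units.val_mk0],
          fun i hi => by
            rw [Function.update_of_ne (by rintro rfl; exact hp hi), Function.update_of_ne (by rintro rfl; exact hk hi)]; rfl⟩
      -- relation for the other vector
      have hg1 := hhalf k hk k hk
      have hg2 := hhalf k hk p hp
      have hrel : b.coord k (x p) * x.coord k (b k) + b.coord p (x p) * x.coord k (b p) = 0 := by
        have h5 := congrArg (x.coord k) (hexp p hp)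
        rw [coord_ne x (Ne.symm hpk), map_add, map_smul, map_smul, smul_eq_mul, smul_eq_mul] at h5
        exact h5.symm
      have hrel2 : b.coord k (x p) * b.coord p (x k) + b.coord p (x p) * b.coord k (x k) = 0 := by
        have u1 : x.coord k (b k) * b.coord k (x k) = x.coord k (b p) * b.coord p (x k) := by
          have : (x.coord k (b k) * b.coord k (x k) - x.coord k (b p) * b.coord p (x k)) * 2 = 0 := by linear_combination hg1 - hg2
          exact sub_eq_zero.1 ((mul_eq_zero.1 this).resolve_right h2)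
        have u2 : x.coord k (b k) ≠ 0 := hχ k hk k hk
        have : (b.coord k (x p) * b.coord p (x k) + b.coord p (x p) * b.coord k (x k)) * x.coord k (b k) = 0 := by
          linear_combination b.coord p (x k) * hrel + b.coord p (x p) * u1
        exact (mul_eq_zero.1 this).resolve_right u2
      obtain ⟨γ, hγ⟩ : ∃ γ : F, γ = b.coord k (x p) / b.coord k (x k) := ⟨_, rfl⟩
      have hγ0 : γ ≠ 0 := by rw [hγ]; exact div_ne_zero a3 a1
      have e1 : b.coord k (x p) = γ * b.coord k (x k) := by rw [hγ, div_mul_cancel₀ _ a1]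
      have e2 : b.coord p (x p) = -γ * b.coord p (x k) := by
        have : (b.coord p (x p) + γ * b.coord p (x k)) * b.coord k (x k) = 0 := by
          rw [e1] at hrel2
          linear_combination hrel2
        have := (mul_eq_zero.1 this).resolve_right a1
        linear_combination this
      obtain ⟨r, hr, hrl⟩ : ∃ r ∈ S, r ≠ l₀ := by
        by_contra hcon
        push Not at hcon
        have h1 : S ⊆ {l₀} := fun j hj => Finset.mem_singleton.2 (hcon j hj)
        have := Finset.card_le_card h1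
        rw [Finset.card_singleton] at this
        omega
      have hx' := C.cf.gx.smul (Function.update 1 p (Units.mk0 γ⁻¹ (inv_ne_zero hγ0)))
      have hb' := C.cf.gb.smul w
      have hxk : (x.unitsSMul (Function.update 1 p (Units.mk0 γ⁻¹ (inv_ne_zero hγ0)))) k = (b.unitsSMul w) k + (b.unitsSMul w) p := by
        rw [Basis.unitsSMul_apply, Basis.unitsSMul_apply, Basis.unitsSMul_apply, Function.update_of_ne (Ne.symm hpk), Units.smul_def,
          Units.smul_def, Units.smul_def, hwk, hwp, Pi.one_apply, Units.val_one, one_smul]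
        exact hexp k hk
      have hxp : (x.unitsSMul (Function.update 1 p (Units.mk0 γ⁻¹ (inv_ne_zero hγ0)))) p = (b.unitsSMul w) k - (b.unitsSMul w) p := by
        rw [Basis.unitsSMul_apply, Basis.unitsSMul_apply, Basis.unitsSMul_apply, Function.update_self, Units.smul_def,
          Units.smul_def, Units.smul_def, hwk, hwp, Units.val_mk0, hexp p hp, e1, e2, smul_add, smul_smul, smul_smul]
        have r1 : γ⁻¹ * (γ * b.coord k (x k)) = b.coord k (x k) := by field_simp
        have r2 : γ⁻¹ * (-γ * b.coord p (x k)) = -b.coord p (x k) := by field_simp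
        rw [r1, r2, neg_smul, sub_eq_add_neg]
      obtain ⟨i, j, hij, c, hc, hT⟩ := two hb' hx' (p := k) (q := p) (r := r) (l₀ := l₀) (Ne.symm hpk) (by rintro rfl; exact hk hr)
        (by rintro rfl; exact hp hr) (by rintro rfl; exact hk hl₀) (by rintro rfl; exact hp hl₀) hrl hxk hxp (fun i hik hip => by
          have hiS : i ∈ S := by
            by_contra hc
            rcases hSc i hc with h | h
            · exact hik h
            · exact hip h
          rw [Basis.unitsSMul_apply, Basis.unitsSMul_apply, Function.update_of_ne hip, hwi i hiS, Pi.one_apply, one_smul, one_smul, C.cf.al i hiS])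
        h2 ha0 ha1
      apply hEL
      obtain ⟨g, hg, hgx⟩ := hT
      have hcoord : (b.unitsSMul w).coord j = ((w j)⁻¹ : Fˣ) • b.coord j := by
        refine (b.unitsSMul w).ext (fun i => ?_)
        by_cases hji : j = i
        · subst hji
          rw [coord_self, LinearMap.smul_apply, Basis.unitsSMul_apply, Units.smul_def, Units.smul_def, map_smul, coord_self, smul_eq_mul, smul_eq_mul, mul_one,
            Units.inv_mul]
        · rw [coord_ne _ hji, LinearMap.smul_apply, Basis.unitsSMul_apply, Units.smul_def, Units.smul_def, map_smul, coord_ne b hji, smul_zero, smul_zero]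
      refine ⟨i, j, hij, (w i : F) * (c * (((w j)⁻¹ : Fˣ) : F)), mul_ne_zero (w i).ne_zero (mul_ne_zero hc (Units.ne_zero _)), g, hg, fun u => ?_⟩
      rw [hgx, hcoord, Basis.unitsSMul_apply, Units.smul_def, LinearMap.smul_apply, LinearMap.smul_apply, Units.smul_def, LinearMap.smul_apply, smul_eq_mul,
        smul_eq_mul, smul_eq_mul, smul_smul]
      congr 2
      ring
    · push Not at h2
      apply C.cf.ne hk k (b.coord k (x k))
      have e : ∑ j, b.coord j (x k) • b j = x k := by
        simp only [Basis.coord_apply]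
        exact b.sum_repr (x k)
      rw [Finset.sum_eq_single k] at e
      · exact e.symm
      · intro j _ hj
        have hjS : j ∈ S := by
          by_contra hc
          exact hj (h2 j hc)
        rw [C.hz j hjS k hk, zero_smul]
      · intro h; exact absurd (Finset.mem_univ k) h

end Cfsg.Agent.H21.GV
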