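import Cfsg.Agent.GV1

set_option autoImplicit false

/-! overgroups of monomial groups: few common lines -/

namespace Cfsg.Agent.H21.GV

open Module

variable {F V ι : Type*} [Field F] [AddCommGroup V] [Module F V] [Fintype ι] [DecidableEq ι]
variable {M : Subgroup (V ≃ₗ[F] V)} {b x : Basis ι F V} {S : Finset ι}

theorem CF.suppA (C : CF M b x S) {a : F} (ha0 : a ≠ 0) (ha1 : a ≠ 1) (ha2 : a * a ≠ 1) (ha3 : a * a * a ≠ 1) {i j k : ι}
    (hi : i ∉ S) (hj : j ∉ S) (hij : i ≠ j) (hk : k ∉ S) (h0i : b.coord i (x k) = 0) (h0j : b.coord j (x k) = 0) {m : ι}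
    (hm : b.coord i (x m) ≠ 0) {l : ι} (hli : l ≠ i) (hlj : l ≠ j) : b.coord l (x m) = 0 := by
  obtain ⟨t, ht, htx⟩ := C.gb.tor hij ha0
  have hsf := C.t1 ht (fun s hs => ⟨1, by
    have h1 : i ≠ s := by rintro rfl; exact hi hs
    have h2 : j ≠ s := by rintro rfl; exact hj hs
    rw [htx, C.al s hs, coord_ne b h1, coord_ne b h2]; module⟩) hk ⟨1, by rw [htx, h0i, h0j]; module⟩
  have ei : ∀ v, b.coord i (t v) = a * b.coord i v := by
    intro v
    rw [htx, map_add, map_add, map_smul, map_smul, coord_self, coord_ne b hij, smul_eq_mul, smul_eq_mul]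
    ring
  have ej : ∀ v, b.coord j (t v) = a⁻¹ * b.coord j v := by
    intro v
    rw [htx, map_add, map_add, map_smul, map_smul, coord_self, coord_ne b (Ne.symm hij), smul_eq_mul, smul_eq_mul]
    ring
  have el : ∀ v, b.coord l (t v) = b.coord l v := by
    intro v
    rw [htx, map_add, map_add, map_smul, map_smul, coord_ne b hli, coord_ne b hlj, smul_eq_mul, smul_eq_mul]
    ring
  obtain ⟨m1, c1, h1⟩ := hsf m
  obtain ⟨m2, c2, h2⟩ := hsf m1
  obtain ⟨m3, c3, h3⟩ := hsf m2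
  have k2 : t (t (x m)) = (c1 * c2) • x m2 := by rw [h1, map_smul, h2, smul_smul]
  have k3 : t (t (t (x m))) = (c1 * c2 * c3) • x m3 := by rw [k2, map_smul, h3, smul_smul]
  have rel : t (t (t (x m))) = (1 + a + a⁻¹) • t (t (x m)) - (1 + a + a⁻¹) • t (x m) + x m := by
    have r1 : t (x m) = x m + ((a - 1) * b.coord i (x m)) • b i + ((a⁻¹ - 1) * b.coord j (x m)) • b j := htx _
    have r2 : t (t (x m)) = x m + ((a * a - 1) * b.coord i (x m)) • b i + ((a⁻¹ * a⁻¹ - 1) * b.coord j (x m)) • b j := by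
      rw [htx (t (x m)), ei, ej, r1]
      module
    have r3 : t (t (t (x m))) = x m + ((a * a * a - 1) * b.coord i (x m)) • b i +
        ((a⁻¹ * a⁻¹ * a⁻¹ - 1) * b.coord j (x m)) • b j := by
      rw [htx (t (t (x m))), ei, ej, ei, ej, r2]
      module
    rw [r3, r2, r1]
    match_scalars <;> field_simp <;> ring
  by_contra hl
  rw [k3, k2, h1] at rel
  have rel' := congrArg (x.coord m) rel
  rw [map_add, map_sub, map_smul, map_smul, map_smul, map_smul, map_smul, coord_self] at rel'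
  by_cases e1 : m = m1
  · subst e1
    have z1 := congrArg (b.coord l) h1
    rw [el, map_smul, smul_eq_mul] at z1
    have z2 : c1 = 1 := mul_right_cancel₀ hl (by rw [one_mul]; exact z1.symm)
    have z3 := congrArg (b.coord i) h1
    rw [ei, map_smul, smul_eq_mul, z2] at z3
    exact ha1 (mul_right_cancel₀ hm z3)
  by_cases e2 : m = m2
  · subst e2
    have z1 := congrArg (b.coord l) k2
    rw [el, el, map_smul, smul_eq_mul] at z1
    have z2 : c1 * c2 = 1 := mul_right_cancel₀ hl (by rw [one_mul]; exact z1.symm)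
    have z3 := congrArg (b.coord i) k2
    rw [ei, ei, map_smul, smul_eq_mul, z2, ← mul_assoc] at z3
    exact ha2 (mul_right_cancel₀ hm z3)
  by_cases e3 : m = m3
  · subst e3
    have z1 := congrArg (b.coord l) k3
    rw [el, el, el, map_smul, smul_eq_mul] at z1
    have z2 : c1 * c2 * c3 = 1 := mul_right_cancel₀ hl (by rw [one_mul]; exact z1.symm)
    have z3 := congrArg (b.coord i) k3
    rw [ei, ei, ei, map_smul, smul_eq_mul, z2, ← mul_assoc, ← mul_assoc] at z3
    exact ha3 (mul_right_cancel₀ hm z3)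
  rw [coord_ne x e1, coord_ne x e2, coord_ne x e3, smul_zero, smul_zero, smul_zero, smul_zero, smul_zero, sub_zero, zero_add] at rel'
  exact zero_ne_one rel'

theorem CF.ex (b x : Basis ι F V) (φ : V →ₗ[F] F) (hφ : ∃ v, φ v ≠ 0) : ∃ m, φ (x m) ≠ 0 := by
  by_contra hcon
  push Not at hcon
  obtain ⟨v, hv⟩ := hφ
  have : φ = 0 := x.ext (fun m => by rw [hcon m]; rfl)
  rw [this] at hv
  exact hv rfl

theorem CF.oz (C : CF M b x S) {a : F} (ha0 : a ≠ 0) (ha1 : a ≠ 1) (ha2 : a * a ≠ 1) (ha3 : a * a * a ≠ 1)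
    (hN : 6 ≤ Sᶜ.card) {i j k : ι} (hi : i ∉ S) (hj : j ∉ S) (hij : i ≠ j) (hk : k ∉ S) (h0i : b.coord i (x k) = 0)
    (h0j : b.coord j (x k) = 0) : False := by
  obtain ⟨m, hm⟩ := CF.ex b x (b.coord i) ⟨b i, by rw [coord_self]; exact one_ne_zero⟩
  have hm1 : ∀ l, l ≠ i → l ≠ j → b.coord l (x m) = 0 := fun l hli hlj => C.suppA ha0 ha1 ha2 ha3 hi hj hij hk h0i h0j hm hli hlj
  have hmS : m ∉ S := by
    intro h
    rw [C.al m h, coord_ne b (by rintro rfl; exact hi h)] at hm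
    exact hm rfl
  have hc : 2 < ((Sᶜ.erase i).erase j).card := by
    rw [Finset.card_erase_of_mem (Finset.mem_erase.2 ⟨Ne.symm hij, Finset.mem_compl.2 hj⟩),
      Finset.card_erase_of_mem (Finset.mem_compl.2 hi)]
    omega
  obtain ⟨l1, m1, l2, m2, l3, m3, h12, h13, h23⟩ := Finset.two_lt_card.1 hc
  simp only [Finset.mem_erase, Finset.mem_compl] at m1 m2 m3
  obtain ⟨k', hk'⟩ := CF.ex b x (b.coord l1) ⟨b l1, by rw [coord_self]; exact one_ne_zero⟩
  have hk'S : k' ∉ S := by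
    intro h
    rw [C.al k' h, coord_ne b (by rintro rfl; exact m1.2.2 h)] at hk'
    exact hk' rfl
  have h2 : ∀ l, l ≠ l1 → b.coord l (x k') = 0 := by
    intro l hl
    by_cases hl2 : l = l2
    · exact C.suppA ha0 ha1 ha2 ha3 m1.2.2 m3.2.2 h13 hmS (hm1 _ m1.2.1 m1.1) (hm1 _ m3.2.1 m3.1) hk' hl (by rw [hl2]; exact h23)
    · exact C.suppA ha0 ha1 ha2 ha3 m1.2.2 m2.2.2 h12 hmS (hm1 _ m1.2.1 m1.1) (hm1 _ m2.2.1 m2.1) hk' hl hl2
  refine C.ne hk'S l1 (b.coord l1 (x k')) ?_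
  refine b.ext_elem (fun l => ?_)
  by_cases hl : l = l1
  · subst hl
    simp
  · have := h2 l hl
    rw [Basis.coord_apply] at this
    rw [this]
    simp [Finsupp.single_apply, Ne.symm hl]

theorem CF.pk (C : CF M b x S) {a : F} (ha0 : a ≠ 0) (ha1 : a ≠ 1) (ha2 : a * a ≠ 1) (ha3 : a * a * a ≠ 1)
    (hN : 6 ≤ Sᶜ.card) (T : Finset ι) (hT : T.card ≤ 4) {k : ι} (hk : k ∉ S) : ∃ p, p ∉ S ∧ p ∉ T ∧ b.coord p (x k) ≠ 0 := by
  have h1 : 1 < (Sᶜ \ T).card := by
    have := Finset.le_card_sdiff T Sᶜ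
    omega
  obtain ⟨p, hp, q, hq, hpq⟩ := Finset.one_lt_card.1 h1
  simp only [Finset.mem_sdiff, Finset.mem_compl] at hp hq
  by_cases hp0 : b.coord p (x k) = 0
  · exact ⟨q, hq.1, hq.2, fun hq0 => C.oz ha0 ha1 ha2 ha3 hN hp.1 hq.1 hpq hk hp0 hq0⟩
  · exact ⟨p, hp.1, hp.2, hp0⟩

/-- the cyclic permutation of three coordinates -/
noncomputable def cy (b : Basis ι F V) (i j l : ι) (v : V) : V :=
  v + (b.coord l v - b.coord i v) • b i + (b.coord i v - b.coord j v) • b j + (b.coord j v - b.coord l v) • b l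

omit [Fintype ι] in
theorem cy_i (b : Basis ι F V) {i j l : ι} (hij : i ≠ j) (hil : i ≠ l) (v : V) :
    b.coord i (cy b i j l v) = b.coord l v := by
  rw [cy, map_add, map_add, map_add, map_smul, map_smul, map_smul, coord_self, coord_ne b hij, coord_ne b hil]
  simp only [smul_eq_mul]
  ring

omit [Fintype ι] in
theorem cy_j (b : Basis ι F V) {i j l : ι} (hij : i ≠ j) (hjl : j ≠ l) (v : V) :
    b.coord j (cy b i j l v) = b.coord i v := by
  rw [cy, map_add, map_add, map_add, map_smul, map_smul, map_smul, coord_self, coord_ne b (Ne.symm hij), coord_ne b hjl]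
  simp only [smul_eq_mul]
  ring

omit [Fintype ι] in
theorem cy_l (b : Basis ι F V) {i j l : ι} (hil : i ≠ l) (hjl : j ≠ l) (v : V) :
    b.coord l (cy b i j l v) = b.coord j v := by
  rw [cy, map_add, map_add, map_add, map_smul, map_smul, map_smul, coord_self, coord_ne b (Ne.symm hil), coord_ne b (Ne.symm hjl)]
  simp only [smul_eq_mul]
  ring

omit [Fintype ι] in
theorem cy_p (b : Basis ι F V) {i j l p : ι} (hi : p ≠ i) (hj : p ≠ j) (hl : p ≠ l) (v : V) :
    b.coord p (cy b i j l v) = b.coord p v := by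
  rw [cy, map_add, map_add, map_add, map_smul, map_smul, map_smul, coord_ne b hi, coord_ne b hj, coord_ne b hl]
  simp only [smul_eq_mul]
  ring

/-- the configuration with constant coordinates -/
structure CO (M : Subgroup (V ≃ₗ[F] V)) (b x : Basis ι F V) (S : Finset ι) (k₀ : ι) (T : Finset ι) : Prop where
  cf : CF M b x S
  hk : k₀ ∉ S
  hTS : ∀ i ∈ T, i ∉ S
  hT : ∀ i ∈ T, b.coord i (x k₀) = 1

variable {k₀ : ι} {T : Finset ι}

theorem CO.nes (C : CO M b x S k₀ T) {i s : ι} (hi : i ∈ T) (hs : s ∈ S) : i ≠ s := fun h => C.hTS i hi (h ▸ hs)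

theorem CO.cyc (C : CO M b x S k₀ T) {i j l : ι} (hi : i ∈ T) (hj : j ∈ T) (hl : l ∈ T) (hij : i ≠ j) (hil : i ≠ l) (hjl : j ≠ l)
    (m : ι) : ∃ (m' : ι) (c : F), cy b i j l (x m) = c • x m' := by
  obtain ⟨t, ht, htx⟩ := C.cf.gb.cyc hij hil hjl
  have h1 : ∀ v, t v = cy b i j l v := htx
  rw [← h1]
  refine C.cf.t1 ht (fun s hs => ⟨1, ?_⟩) C.hk ⟨1, ?_⟩ m
  · rw [htx, C.cf.al s hs, coord_ne b (C.nes hi hs), coord_ne b (C.nes hj hs), coord_ne b (C.nes hl hs)]
    module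
  · rw [htx, C.hT i hi, C.hT j hj, C.hT l hl]
    module

theorem CO.claimB (C : CO M b x S k₀ T) {a : F} (ha0 : a ≠ 0) (ha1 : a ≠ 1) (ha2 : a * a ≠ 1) (ha3 : a * a * a ≠ 1)
    (hN : 6 ≤ Sᶜ.card) {i j l : ι} (hi : i ∈ T) (hj : j ∈ T) (hl : l ∈ T) (hij : i ≠ j) (hil : i ≠ l) (hjl : j ≠ l)
    {m m' : ι} (hm : ¬ (b.coord i (x m) = b.coord j (x m) ∧ b.coord j (x m) = b.coord l (x m)))
    (hm' : ¬ (b.coord i (x m') = b.coord j (x m') ∧ b.coord j (x m') = b.coord l (x m'))) :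
    ∃ c : F, x m' = c • x m ∨ x m' = c • cy b i j l (x m) ∨ x m' = c • cy b i j l (cy b i j l (x m)) := by
  have hnS : ∀ m, ¬ (b.coord i (x m) = b.coord j (x m) ∧ b.coord j (x m) = b.coord l (x m)) → m ∉ S := by
    intro m hm h
    apply hm
    rw [C.cf.al m h, coord_ne b (C.nes hi h), coord_ne b (C.nes hj h), coord_ne b (C.nes hl h)]
    exact ⟨rfl, rfl⟩
  have hcard : ({i, j, l} : Finset ι).card ≤ 4 := (Finset.card_le_three).trans (by norm_num)
  have hcy : ∀ m, ¬ (b.coord i (x m) = b.coord j (x m) ∧ b.coord j (x m) = b.coord l (x m)) → ∀ c : F, cy b i j l (x m) ≠ c • x m := by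
    intro m hm c h
    obtain ⟨p, -, hp, hp0⟩ := C.cf.pk ha0 ha1 ha2 ha3 hN {i, j, l} hcard (hnS m hm)
    simp only [Finset.mem_insert, Finset.mem_singleton, not_or] at hp
    have z1 := congrArg (b.coord p) h
    rw [cy_p b hp.1 hp.2.1 hp.2.2, map_smul, smul_eq_mul] at z1
    have z2 : c = 1 := mul_right_cancel₀ hp0 (by rw [one_mul]; exact z1.symm)
    have z3 := congrArg (b.coord i) h
    have z4 := congrArg (b.coord j) h
    rw [cy_i b hij hil, z2, one_smul] at z3
    rw [cy_j b hij hjl, z2, one_smul] at z4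
    exact hm ⟨z4, by rw [← z4, z3]⟩
  obtain ⟨m1, c1, h1⟩ := C.cyc hi hj hl hij hil hjl m
  obtain ⟨m2, c2, h2⟩ := C.cyc hi hj hl hij hil hjl m1
  obtain ⟨m1', c1', h1'⟩ := C.cyc hi hj hl hij hil hjl m'
  have hsm : ∀ (c : F) (v : V), cy b i j l (c • v) = c • cy b i j l v := by
    intro c v
    rw [cy, cy, map_smul, map_smul, map_smul]
    simp only [smul_eq_mul]
    module
  obtain ⟨p, -, hp, hp0⟩ := C.cf.pk ha0 ha1 ha2 ha3 hN {i, j, l} hcard (hnS m hm)
  simp only [Finset.mem_insert, Finset.mem_singleton, not_or] at hp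
  have hh : cy b i j l (cy b i j l (x m)) = (c1 * c2) • x m2 := by rw [h1, hsm, h2, smul_smul]
  have hc12 : c1 * c2 ≠ 0 := by
    intro h0
    rw [h0, zero_smul] at hh
    have := congrArg (b.coord p) hh
    rw [cy_p b hp.1 hp.2.1 hp.2.2, cy_p b hp.1 hp.2.1 hp.2.2, map_zero] at this
    exact hp0 this
  have hc1 : c1 ≠ 0 := left_ne_zero_of_mul hc12
  have hm1 : m1 ≠ m := by
    rintro rfl
    exact hcy _ hm c1 h1
  have hm2 : m2 ≠ m := by
    rintro rfl
    have z1 := congrArg (b.coord p) hh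
    rw [cy_p b hp.1 hp.2.1 hp.2.2, cy_p b hp.1 hp.2.1 hp.2.2, map_smul, smul_eq_mul] at z1
    have z2 : c1 * c2 = 1 := mul_right_cancel₀ hp0 (by rw [one_mul]; exact z1.symm)
    have z3 := congrArg (b.coord i) hh
    have z4 := congrArg (b.coord j) hh
    rw [cy_i b hij hil, cy_l b hil hjl, z2, one_smul] at z3
    rw [cy_j b hij hjl, cy_i b hij hil, z2, one_smul] at z4
    exact hm ⟨z3.symm, z4.symm⟩
  have hm12 : m2 ≠ m1 := by
    rintro rfl
    have h3 : cy b i j l (cy b i j l (x m)) = c2 • cy b i j l (x m) := by rw [hh, h1, smul_smul, mul_comm]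
    have z1 := congrArg (b.coord p) h3
    rw [map_smul, smul_eq_mul, cy_p b hp.1 hp.2.1 hp.2.2, cy_p b hp.1 hp.2.1 hp.2.2] at z1
    have z2 : c2 = 1 := mul_right_cancel₀ hp0 (by rw [one_mul]; exact z1.symm)
    have z3 := congrArg (b.coord i) h3
    have z4 := congrArg (b.coord j) h3
    rw [z2, one_smul, cy_i b hij hil, cy_i b hij hil, cy_l b hil hjl] at z3
    rw [z2, one_smul, cy_j b hij hjl, cy_j b hij hjl, cy_i b hij hil] at z4
    exact hm ⟨by rw [← z4, z3], z3⟩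
  have hm1' : m1' ≠ m' := by
    rintro rfl
    exact hcy _ hm' c1' h1'
  by_cases q0 : m' = m
  · exact ⟨1, Or.inl (by rw [q0, one_smul])⟩
  by_cases q1 : m' = m1
  · exact ⟨c1⁻¹, Or.inr (Or.inl (by rw [h1, smul_smul, inv_mul_cancel₀ hc1, one_smul, q1]))⟩
  by_cases q2 : m' = m2
  · exact ⟨(c1 * c2)⁻¹, Or.inr (Or.inr (by rw [hh, smul_smul, inv_mul_cancel₀ hc12, one_smul, q2]))⟩
  exfalso
  have f1 : cy b i j l (x m) = x m + (b.coord l (x m) - b.coord i (x m)) • b i + (b.coord i (x m) - b.coord j (x m)) • b j +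
    (b.coord j (x m) - b.coord l (x m)) • b l := rfl
  have f2 : cy b i j l (cy b i j l (x m)) = x m + (b.coord j (x m) - b.coord i (x m)) • b i +
      (b.coord l (x m) - b.coord j (x m)) • b j + (b.coord i (x m) - b.coord l (x m)) • b l := by
    rw [cy, cy_i b hij hil, cy_j b hij hjl, cy_l b hil hjl, cy]
    module
  have f1' : cy b i j l (x m') = x m' + (b.coord l (x m') - b.coord i (x m')) • b i + (b.coord i (x m') - b.coord j (x m')) • b j +
    (b.coord j (x m') - b.coord l (x m')) • b l := rfl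
  generalize b.coord i (x m) = yi at *
  generalize b.coord j (x m) = yj at *
  generalize b.coord l (x m) = yl at *
  generalize b.coord i (x m') = yi' at *
  generalize b.coord j (x m') = yj' at *
  generalize b.coord l (x m') = yl' at *
  have R1 : ((yi - yl) * (yj - yi) - (yl - yj) * (yl - yj)) • (x m' - cy b i j l (x m')) =
      ((yi' - yl') * (yj - yi) - (yl' - yj') * (yl - yj)) • (x m - cy b i j l (x m)) +
      ((yi - yl) * (yl' - yj') - (yl - yj) * (yi' - yl')) • (cy b i j l (x m) - cy b i j l (cy b i j l (x m))) := by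
    rw [f2, f1, f1']
    module
  have R2 := congrArg (x.coord m') R1
  rw [hh, h1, h1', map_smul, map_sub, map_smul, coord_self, coord_ne x (Ne.symm hm1'), map_add, map_smul, map_sub, map_smul,
    coord_ne x q0, coord_ne x q1, map_smul, map_sub, map_smul, map_smul, coord_ne x q1, coord_ne x q2] at R2
  simp only [smul_eq_mul, mul_zero, sub_zero, mul_one, add_zero] at R2
  have R3 : (yl - yj) • (x m - cy b i j l (x m)) = (yi - yl) • (cy b i j l (x m) - cy b i j l (cy b i j l (x m))) +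
      ((yi - yl) * (yj - yi) - (yl - yj) * (yl - yj)) • (b j - b l) := by
    rw [f2, f1]
    module
  rw [R2, zero_smul, add_zero, hh, h1] at R3
  have R4 := congrArg (x.coord m) R3
  have R5 := congrArg (x.coord m2) R3
  rw [map_smul, map_sub, map_smul, coord_self, coord_ne x (Ne.symm hm1), map_smul, map_sub, map_smul, map_smul,
    coord_ne x (Ne.symm hm1), coord_ne x (Ne.symm hm2)] at R4
  rw [map_smul, map_sub, map_smul, coord_ne x hm2, coord_ne x hm12, map_smul, map_sub, map_smul, map_smul,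
    coord_ne x hm12, coord_self] at R5
  simp only [smul_eq_mul, mul_zero, sub_zero, mul_one, zero_sub, mul_neg, zero_eq_neg] at R4 R5
  rcases mul_eq_zero.1 R5 with h | h
  · exact hm ⟨by rw [sub_eq_zero.1 h, sub_eq_zero.1 R4], (sub_eq_zero.1 R4).symm⟩
  · exact hc12 h

theorem CO.claimB' (C : CO M b x S k₀ T) {a : F} (ha0 : a ≠ 0) (ha1 : a ≠ 1) (ha2 : a * a ≠ 1) (ha3 : a * a * a ≠ 1)
    (hN : 6 ≤ Sᶜ.card) {i j l : ι} (hi : i ∈ T) (hj : j ∈ T) (hl : l ∈ T) (hij : i ≠ j) (hil : i ≠ l) (hjl : j ≠ l)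
    {m : ι} (hm : ¬ (b.coord i (x m) = b.coord j (x m) ∧ b.coord j (x m) = b.coord l (x m))) {v : V}
    (hv : ∃ (m' : ι) (c : F), v = c • x m') (hv' : ¬ (b.coord i v = b.coord j v ∧ b.coord j v = b.coord l v))
    {p : ι} (hpi : p ≠ i) (hpj : p ≠ j) (hpl : p ≠ l) (hp0 : b.coord p (x m) ≠ 0) (hp : b.coord p v = b.coord p (x m)) :
    v = x m ∨ v = cy b i j l (x m) ∨ v = cy b i j l (cy b i j l (x m)) := by
  obtain ⟨m', c, rfl⟩ := hv
  have hm' : ¬ (b.coord i (x m') = b.coord j (x m') ∧ b.coord j (x m') = b.coord l (x m')) := by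
    rintro ⟨h1, h2⟩
    exact hv' ⟨by rw [map_smul, map_smul, h1], by rw [map_smul, map_smul, h2]⟩
  obtain ⟨d, h | h | h⟩ := C.claimB ha0 ha1 ha2 ha3 hN hi hj hl hij hil hjl hm hm'
  · have h1 : c • x m' = (c * d) • x m := by rw [h, smul_smul]
    rw [h1, map_smul, smul_eq_mul] at hp
    have h2 : c * d = 1 := mul_right_cancel₀ hp0 (by rw [hp, one_mul])
    left
    rw [h1, h2, one_smul]
  · have h1 : c • x m' = (c * d) • cy b i j l (x m) := by rw [h, smul_smul]
    rw [h1, map_smul, smul_eq_mul, cy_p b hpi hpj hpl] at hp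
    have h2 : c * d = 1 := mul_right_cancel₀ hp0 (by rw [hp, one_mul])
    right; left
    rw [h1, h2, one_smul]
  · have h1 : c • x m' = (c * d) • cy b i j l (cy b i j l (x m)) := by rw [h, smul_smul]
    rw [h1, map_smul, smul_eq_mul, cy_p b hpi hpj hpl, cy_p b hpi hpj hpl] at hp
    have h2 : c * d = 1 := mul_right_cancel₀ hp0 (by rw [hp, one_mul])
    right; right
    rw [h1, h2, one_smul]

theorem CO.claimD (C : CO M b x S k₀ T) {a : F} (ha0 : a ≠ 0) (ha1 : a ≠ 1) (ha2 : a * a ≠ 1) (ha3 : a * a * a ≠ 1)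
    (hN : 6 ≤ Sᶜ.card) {i j l n : ι} (hi : i ∈ T) (hj : j ∈ T) (hl : l ∈ T) (hn : n ∈ T) (hij : i ≠ j) (hil : i ≠ l) (hjl : j ≠ l)
    (hin : i ≠ n) (hjn : j ≠ n) (hln : l ≠ n) {m : ι} (hm : b.coord i (x m) ≠ b.coord j (x m)) :
    b.coord l (x m) = b.coord n (x m) ∧ (b.coord l (x m) = b.coord i (x m) ∨ b.coord l (x m) = b.coord j (x m)) := by
  have hmS : m ∉ S := by
    intro h
    apply hm
    rw [C.cf.al m h, coord_ne b (C.nes hi h), coord_ne b (C.nes hj h)]
  obtain ⟨p, -, hp, hp0⟩ := C.cf.pk ha0 ha1 ha2 ha3 hN {i, j, l, n} Finset.card_le_four hmS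
  simp only [Finset.mem_insert, Finset.mem_singleton, not_or] at hp
  obtain ⟨hpi, hpj, hpl, hpn⟩ := hp
  have hsm : ∀ (c : F) (v : V), cy b i j l (c • v) = c • cy b i j l v := by
    intro c v
    rw [cy, cy, map_smul, map_smul, map_smul]
    simp only [smul_eq_mul]
    module
  obtain ⟨m1, c1, h1⟩ := C.cyc hi hj hl hij hil hjl m
  obtain ⟨m2, c2, h2⟩ := C.cyc hi hj hl hij hil hjl m1
  have hh : cy b i j l (cy b i j l (x m)) = (c1 * c2) • x m2 := by rw [h1, hsm, h2, smul_smul]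
  have hm' : ¬ (b.coord i (x m) = b.coord j (x m) ∧ b.coord j (x m) = b.coord n (x m)) := fun h => hm h.1
  have a1 : b.coord i (cy b i j l (x m)) = b.coord l (x m) := cy_i b hij hil _
  have a2 : b.coord j (cy b i j l (x m)) = b.coord i (x m) := cy_j b hij hjl _
  have a3 : b.coord l (cy b i j l (x m)) = b.coord j (x m) := cy_l b hil hjl _
  have a4 : b.coord n (cy b i j l (x m)) = b.coord n (x m) := cy_p b (Ne.symm hin) (Ne.symm hjn) (Ne.symm hln) _
  have a5 : b.coord p (cy b i j l (x m)) = b.coord p (x m) := cy_p b hpi hpj hpl _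
  have b1 : b.coord i (cy b i j l (cy b i j l (x m))) = b.coord j (x m) := by rw [cy_i b hij hil, a3]
  have b2 : b.coord j (cy b i j l (cy b i j l (x m))) = b.coord l (x m) := by rw [cy_j b hij hjl, a1]
  have b4 : b.coord n (cy b i j l (cy b i j l (x m))) = b.coord n (x m) := by
    rw [cy_p b (Ne.symm hin) (Ne.symm hjn) (Ne.symm hln), a4]
  have b5 : b.coord p (cy b i j l (cy b i j l (x m))) = b.coord p (x m) := by rw [cy_p b hpi hpj hpl, a5]
  have e1 : b.coord i (cy b i j n (x m)) = b.coord n (x m) := cy_i b hij hin _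
  have e2 : b.coord j (cy b i j n (x m)) = b.coord i (x m) := cy_j b hij hjn _
  have e3 : b.coord n (cy b i j n (x m)) = b.coord j (x m) := cy_l b hin hjn _
  have e4 : b.coord l (cy b i j n (x m)) = b.coord l (x m) := cy_p b (Ne.symm hil) (Ne.symm hjl) hln _
  have g1 : b.coord i (cy b i j n (cy b i j n (x m))) = b.coord j (x m) := by rw [cy_i b hij hin, e3]
  have g2 : b.coord j (cy b i j n (cy b i j n (x m))) = b.coord n (x m) := by rw [cy_j b hij hjn, e1]
  have g3 : b.coord n (cy b i j n (cy b i j n (x m))) = b.coord i (x m) := by rw [cy_l b hin hjn, e2]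
  have g4 : b.coord l (cy b i j n (cy b i j n (x m))) = b.coord l (x m) := by
    rw [cy_p b (Ne.symm hil) (Ne.symm hjl) hln, e4]
  by_cases hc1 : b.coord i (cy b i j l (x m)) = b.coord j (cy b i j l (x m)) ∧
      b.coord j (cy b i j l (x m)) = b.coord n (cy b i j l (x m))
  · rw [a1, a2, a4] at hc1
    exact ⟨by rw [hc1.1, hc1.2], Or.inl hc1.1⟩
  rcases C.claimB' ha0 ha1 ha2 ha3 hN hi hj hn hij hin hjn hm' ⟨m1, c1, h1⟩ hc1 hpi hpj hpn hp0 a5 with h | h | h
  · exfalso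
    have := congrArg (b.coord j) h
    rw [a2] at this
    exact hm this
  · have z1 := congrArg (b.coord i) h
    have z2 := congrArg (b.coord l) h
    rw [a1, e1] at z1
    rw [a3, e4] at z2
    exact ⟨z1, Or.inr z2.symm⟩
  · have z1 := congrArg (b.coord i) h
    have z2 := congrArg (b.coord j) h
    rw [a1, g1] at z1
    rw [a2, g2] at z2
    exfalso
    have hc2 : ¬ (b.coord i (cy b i j l (cy b i j l (x m))) = b.coord j (cy b i j l (cy b i j l (x m))) ∧
        b.coord j (cy b i j l (cy b i j l (x m))) = b.coord n (cy b i j l (cy b i j l (x m)))) := by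
      rw [b1, b2, b4, ← z2, z1]
      exact fun h => hm h.2.symm
    rcases C.claimB' ha0 ha1 ha2 ha3 hN hi hj hn hij hin hjn hm' ⟨m2, c1 * c2, hh⟩ hc2 hpi hpj hpn hp0 b5 with h | h | h
    · have z3 := congrArg (b.coord i) h
      rw [b1] at z3
      exact hm z3.symm
    · have z3 := congrArg (b.coord i) h
      rw [b1, e1, ← z2] at z3
      exact hm z3.symm
    · have z3 := congrArg (b.coord j) h
      rw [b2, g2, ← z2, z1] at z3
      exact hm z3.symm

/-- the special coordinate -/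
theorem CO.special (C : CO M b x S k₀ T) {a : F} (ha0 : a ≠ 0) (ha1 : a ≠ 1) (ha2 : a * a ≠ 1) (ha3 : a * a * a ≠ 1)
    (hN : 6 ≤ Sᶜ.card) (hT : 4 ≤ T.card) {i j : ι} (hi : i ∈ T) (hj : j ∈ T) {m : ι}
    (hm : b.coord i (x m) ≠ b.coord j (x m)) :
    ∃ s ∈ T, ∃ β : F, (s = i ∨ s = j) ∧ b.coord s (x m) ≠ β ∧ ∀ l ∈ T, l ≠ s → b.coord l (x m) = β := by
  have hij : i ≠ j := fun h => hm (by rw [h])
  have hc : 1 < ((T.erase i).erase j).card := by
    rw [Finset.card_erase_of_mem (Finset.mem_erase.2 ⟨Ne.symm hij, hj⟩), Finset.card_erase_of_mem hi]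
    omega
  obtain ⟨l, hl, n, hn, hln⟩ := Finset.one_lt_card.1 hc
  simp only [Finset.mem_erase] at hl hn
  have h1 : ∀ n' ∈ T, n' ≠ i → n' ≠ j → b.coord n' (x m) = b.coord l (x m) := by
    intro n' hn' h1 h2
    by_cases h3 : n' = l
    · rw [h3]
    · exact (C.claimD ha0 ha1 ha2 ha3 hN hi hj hn' hl.2.2 hij (Ne.symm h1) (Ne.symm h2) (Ne.symm hl.2.1) (Ne.symm hl.1) h3 hm).1
  rcases (C.claimD ha0 ha1 ha2 ha3 hN hi hj hl.2.2 hn.2.2 hij (Ne.symm hl.2.1) (Ne.symm hl.1) (Ne.symm hn.2.1) (Ne.symm hn.1) hln hm).2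
    with h2 | h2
  · refine ⟨j, hj, b.coord i (x m), Or.inr rfl, Ne.symm hm, fun n' hn' hne => ?_⟩
    by_cases h3 : n' = i
    · rw [h3]
    · rw [h1 n' hn' h3 hne, h2]
  · refine ⟨i, hi, b.coord j (x m), Or.inl rfl, hm, fun n' hn' hne => ?_⟩
    by_cases h3 : n' = j
    · rw [h3]
    · rw [h1 n' hn' hne h3, h2]

/-- the lines obtained from the special line -/
theorem CO.lines (C : CO M b x S k₀ T) {a : F} (ha0 : a ≠ 0) (ha1 : a ≠ 1) (ha2 : a * a ≠ 1) (ha3 : a * a * a ≠ 1)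
    (hN : 6 ≤ Sᶜ.card) (hT : 4 ≤ T.card) {m s : ι} {β : F} (hs : s ∈ T) (h1 : b.coord s (x m) ≠ β)
    (h2 : ∀ l ∈ T, l ≠ s → b.coord l (x m) = β) :
    ∃ (f : ι → ι) (c : ι → F), (∀ i ∈ T, f i ∉ S ∧ f i ≠ k₀ ∧ c i ≠ 0 ∧ x m + (b.coord s (x m) - β) • (b i - b s) = c i • x (f i)) ∧
      ∀ i ∈ T, ∀ j ∈ T, f i = f j → i = j := by
  have hmS : m ∉ S := by
    intro h
    obtain ⟨l, hl, hls⟩ : ∃ l ∈ T, l ≠ s := by
      have : 1 < T.card := by omega
      obtain ⟨u, hu, v, hv, huv⟩ := Finset.one_lt_card.1 this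
      by_cases hus : u = s
      · exact ⟨v, hv, fun h => huv (by rw [hus, h])⟩
      · exact ⟨u, hu, hus⟩
    apply h1
    rw [← h2 l hl hls, C.cf.al m h, coord_ne b (C.nes hs h), coord_ne b (C.nes hl h)]
  have hex : ∀ i, ∃ (k : ι) (c : F), i ∈ T → x m + (b.coord s (x m) - β) • (b i - b s) = c • x k := by
    intro i
    by_cases hi : i ∈ T
    swap
    · exact ⟨i, 0, fun h => absurd h hi⟩
    by_cases his : i = s
    · refine ⟨m, 1, fun _ => ?_⟩
      rw [his]
      module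
    obtain ⟨n, hn, hnn⟩ : ∃ n ∈ T, n ≠ s ∧ n ≠ i := by
      have : 0 < ((T.erase i).erase s).card := by
        rw [Finset.card_erase_of_mem (Finset.mem_erase.2 ⟨Ne.symm his, hs⟩), Finset.card_erase_of_mem hi]
        omega
      obtain ⟨n, hn⟩ := Finset.card_pos.1 this
      simp only [Finset.mem_erase] at hn
      exact ⟨n, hn.2.2, hn.1, hn.2.1⟩
    obtain ⟨k, c, hk⟩ := C.cyc hs hi hn (Ne.symm his) (Ne.symm hnn.1) (Ne.symm hnn.2) m
    refine ⟨k, c, fun _ => ?_⟩
    rw [← hk, cy, h2 i hi his, h2 n hn hnn.1]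
    module
  choose f c hf using hex
  have hcoord : ∀ i ∈ T, b.coord i (x m + (b.coord s (x m) - β) • (b i - b s)) = b.coord s (x m) := by
    intro i hi
    rw [map_add, map_smul, map_sub, coord_self]
    by_cases his : i = s
    · rw [his, coord_self]
      simp
    · rw [coord_ne b his, h2 i hi his]
      simp
  have hcoord' : ∀ i ∈ T, ∀ n ∈ T, n ≠ i → b.coord n (x m + (b.coord s (x m) - β) • (b i - b s)) = β := by
    intro i hi n hn hni
    rw [map_add, map_smul, map_sub, coord_ne b hni]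
    by_cases hns : n = s
    · rw [hns, coord_self]
      simp
    · rw [coord_ne b hns, h2 n hn hns]
      simp
  have hcp : ∀ i p, p ≠ i → p ≠ s → b.coord p (x m + (b.coord s (x m) - β) • (b i - b s)) = b.coord p (x m) := by
    intro i p h1 h2
    rw [map_add, map_smul, map_sub, coord_ne b h1, coord_ne b h2]
    simp
  have hne0 : ∀ i ∈ T, c i ≠ 0 := by
    intro i hi h0
    obtain ⟨p, -, hp, hp0⟩ := C.cf.pk ha0 ha1 ha2 ha3 hN {i, s} (Finset.card_le_two.trans (by norm_num)) hmS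
    simp only [Finset.mem_insert, Finset.mem_singleton, not_or] at hp
    apply hp0
    rw [← hcp i p hp.1 hp.2, hf i hi, h0, zero_smul, map_zero]
  refine ⟨f, c, fun i hi => ⟨?_, ?_, hne0 i hi, hf i hi⟩, fun i hi j hj hij => ?_⟩
  · intro hfi
    obtain ⟨p, hpS, hp, hp0⟩ := C.cf.pk ha0 ha1 ha2 ha3 hN {i, s} (Finset.card_le_two.trans (by norm_num)) hmS
    simp only [Finset.mem_insert, Finset.mem_singleton, not_or] at hp
    apply hp0
    rw [← hcp i p hp.1 hp.2, hf i hi, C.cf.al _ hfi, map_smul, coord_ne b (by rintro rfl; exact hpS hfi), smul_zero]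
  · intro hfi
    obtain ⟨n, hn, hni⟩ : ∃ l ∈ T, l ≠ i := by
      have : 1 < T.card := by omega
      obtain ⟨u, hu, v, hv, huv⟩ := Finset.one_lt_card.1 this
      by_cases hus : u = i
      · exact ⟨v, hv, fun h => huv (by rw [hus, h])⟩
      · exact ⟨u, hu, hus⟩
    apply h1
    have z1 := hcoord i hi
    have z2 := hcoord' i hi n hn hni
    rw [hf i hi, hfi, map_smul, C.hT i hi] at z1
    rw [hf i hi, hfi, map_smul, C.hT n hn] at z2
    rw [← z1, z2]
  · by_contra hne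
    obtain ⟨p, hpS, hp, hp0⟩ := C.cf.pk ha0 ha1 ha2 ha3 hN {i, j, s} (Finset.card_le_three.trans (by norm_num)) hmS
    simp only [Finset.mem_insert, Finset.mem_singleton, not_or] at hp
    have z1 := hcp i p hp.1 hp.2.2
    have z2 := hcp j p hp.2.1 hp.2.2
    rw [hf i hi, map_smul, smul_eq_mul] at z1
    rw [hf j hj, map_smul, smul_eq_mul, ← hij] at z2
    have z3 : b.coord p (x (f i)) ≠ 0 := by
      intro h
      rw [h, mul_zero] at z1
      exact hp0 z1.symm
    have z4 : c i = c j := mul_right_cancel₀ z3 (by rw [z1, z2])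
    have z5 := hcoord i hi
    have z6 := hcoord' j hj i hi hne
    rw [hf j hj, ← hij, ← z4, ← hf i hi, z5] at z6
    exact h1 z6

end Cfsg.Agent.H21.GV
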