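import Cfsg.Agent.GV5

set_option autoImplicit false

/-! overgroups of monomial groups: few common lines is impossible -/

namespace Cfsg.Agent.H21.GV

open Module

variable {F V ι : Type*} [Field F] [AddCommGroup V] [Module F V] [Fintype ι] [DecidableEq ι]
variable {M : Subgroup (V ≃ₗ[F] V)} {b x : Basis ι F V} {S : Finset ι}

omit [Fintype ι] [DecidableEq ι] in
theorem coord_us (b : Basis ι F V) (w : ι → Fˣ) (i : ι) (v : V) : (b.unitsSMul w).coord i v = ((w i)⁻¹ : Fˣ) * b.coord i v := by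
  rw [Basis.coord_unitsSMul]
  rfl

theorem CF.norm (C : CF M b x S) (k₀ : ι) :
    ∃ b' : Basis ι F V, CF M b' x S ∧ (∀ i, i ∉ S → b.coord i (x k₀) ≠ 0 → b'.coord i (x k₀) = 1) ∧
      (∀ i v, b'.coord i v = 0 ↔ b.coord i v = 0) := by
  classical
  let w : ι → Fˣ := fun i => if h : i ∉ S ∧ b.coord i (x k₀) ≠ 0 then Units.mk0 _ h.2 else 1
  refine ⟨b.unitsSMul w, C.scale (fun i hi => dif_neg (fun h => h.1 hi)), fun i hi h0 => ?_, fun i v => ?_⟩
  · rw [coord_us]
    have : w i = Units.mk0 _ h0 := dif_pos ⟨hi, h0⟩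
    rw [this, Units.val_inv_eq_inv_val, Units.val_mk0, inv_mul_cancel₀ h0]
  · rw [coord_us]
    simp

theorem CF.exz (C : CF M b x S) {a : F} (ha0 : a ≠ 0) (ha1 : a ≠ 1) (ha2 : a * a ≠ 1) (ha3 : a * a * a ≠ 1)
    (hN : 6 ≤ Sᶜ.card) {k₀ : ι} (hk : k₀ ∉ S) : ∃ z, z ∉ S ∧ b.coord z (x k₀) = 0 := by
  by_contra hcon
  push Not at hcon
  obtain ⟨b', C', h1, -⟩ := C.norm k₀
  have D : CO M b' x S k₀ Sᶜ := ⟨C', hk, fun i hi => Finset.mem_compl.1 hi, fun i hi =>
    h1 i (Finset.mem_compl.1 hi) (hcon i (Finset.mem_compl.1 hi))⟩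
  obtain ⟨i, hi, j, hj, hij⟩ := Finset.one_lt_card.1 (show 1 < Sᶜ.card by omega)
  obtain ⟨m, hm⟩ := CF.ex b' x (b'.coord i - b'.coord j) ⟨b' i, by
    rw [LinearMap.sub_apply, coord_self, coord_ne b' (Ne.symm hij), sub_zero]
    exact one_ne_zero⟩
  rw [LinearMap.sub_apply] at hm
  obtain ⟨s, hs, β, -, h2, h3⟩ := D.special ha0 ha1 ha2 ha3 hN (by omega) hi hj (sub_ne_zero.1 hm)
  obtain ⟨f, c, h4, h5⟩ := D.lines ha0 ha1 ha2 ha3 hN (by omega) hs h2 h3
  have h6 : Sᶜ.card ≤ (Sᶜ.erase k₀).card := Finset.card_le_card_of_injOn f (fun i hi => by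
    rw [Finset.mem_coe, Finset.mem_erase, Finset.mem_compl]
    exact ⟨(h4 i hi).2.1, (h4 i hi).1⟩) (fun i hi j hj h => h5 i hi j hj h)
  rw [Finset.card_erase_of_mem (Finset.mem_compl.2 hk)] at h6
  omega

theorem CF.few (C₀ : CF M b x S) {a : F} (ha0 : a ≠ 0) (ha1 : a ≠ 1) (ha2 : a * a ≠ 1) (ha3 : a * a * a ≠ 1)
    (hN : 6 ≤ Sᶜ.card) : False := by
  obtain ⟨k₀, hk₀⟩ := Finset.card_pos.1 (show 0 < Sᶜ.card by omega)
  rw [Finset.mem_compl] at hk₀
  obtain ⟨b', C, h1, h1'⟩ := C₀.norm k₀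
  obtain ⟨z, hz, hz0⟩ := C.exz ha0 ha1 ha2 ha3 hN hk₀
  have hzT : (Sᶜ.erase z).card = Sᶜ.card - 1 := Finset.card_erase_of_mem (Finset.mem_compl.2 hz)
  have D : CO M b' x S k₀ (Sᶜ.erase z) := ⟨C, hk₀, fun i hi => Finset.mem_compl.1 (Finset.mem_erase.1 hi).2, fun i hi => by
    rw [Finset.mem_erase, Finset.mem_compl] at hi
    refine h1 i hi.2 (fun h0 => ?_)
    exact C.oz ha0 ha1 ha2 ha3 hN hi.2 hz hi.1 hk₀ ((h1' _ _).2 h0) hz0⟩
  obtain ⟨T, hTdef⟩ : ∃ T, T = Sᶜ.erase z := ⟨_, rfl⟩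
  rw [← hTdef] at D hzT
  have hTm : ∀ i, i ∈ T ↔ i ≠ z ∧ i ∉ S := fun i => by rw [hTdef, Finset.mem_erase, Finset.mem_compl]
  have hT5 : 5 ≤ T.card := by omega
  obtain ⟨m, hm⟩ := CF.ex b' x (b'.coord z) ⟨b' z, by rw [coord_self]; exact one_ne_zero⟩
  have hmS : m ∉ S := by
    intro h
    rw [C.al m h, coord_ne b' (by rintro rfl; exact hz h)] at hm
    exact hm rfl
  obtain ⟨s, hs, hs0⟩ := C.exz ha0 ha1 ha2 ha3 hN hmS
  have hsz : s ≠ z := by
    rintro rfl
    exact hm hs0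
  have hsT : s ∈ T := (hTm s).2 ⟨hsz, hs⟩
  have hnz : ∀ l, l ∉ S → l ≠ s → b'.coord l (x m) ≠ 0 := fun l hl hls h => C.oz ha0 ha1 ha2 ha3 hN hl hs hls hmS h hs0
  have hpick : ∀ U : Finset ι, U.card ≤ 4 → ∃ l ∈ T, l ∉ U := by
    intro U hU
    by_contra hcon
    push Not at hcon
    have := Finset.card_le_card (show T ⊆ U from hcon)
    omega
  obtain ⟨j0, hj0, hj0s⟩ := hpick {s} (by simp)
  rw [Finset.mem_singleton] at hj0s
  obtain ⟨β, hβ0, hβ⟩ : ∃ β : F, β ≠ 0 ∧ ∀ l ∈ T, l ≠ s → b'.coord l (x m) = β := by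
    obtain ⟨s', hs', β, hor, h2, h3⟩ := D.special ha0 ha1 ha2 ha3 hN (by omega) hsT hj0 (m := m)
      (by rw [hs0]; exact Ne.symm (hnz j0 ((hTm j0).1 hj0).2 hj0s))
    rcases hor with rfl | rfl
    · exact ⟨β, fun h => hnz j0 ((hTm j0).1 hj0).2 hj0s (by rw [h3 j0 hj0 hj0s, h]), h3⟩
    · exfalso
      obtain ⟨n, hn, hnU⟩ := hpick {s, s'} (Finset.card_le_two.trans (by norm_num))
      simp only [Finset.mem_insert, Finset.mem_singleton, not_or] at hnU
      apply hnz n ((hTm n).1 hn).2 hnU.1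
      rw [h3 n hn hnU.2, ← h3 s hsT (Ne.symm hj0s), hs0]
  obtain ⟨f, c, hf, hinj⟩ := D.lines ha0 ha1 ha2 ha3 hN (by omega) (m := m) (β := β) hsT (by rw [hs0]; exact Ne.symm hβ0) hβ
  rw [hs0, zero_sub] at hf
  have hfsurj : ∀ k, k ∉ S → k ≠ k₀ → ∃ l ∈ T, f l = k := by
    have h2 : T.image f ⊆ Sᶜ.erase k₀ := by
      intro k hk
      obtain ⟨l, hl, rfl⟩ := Finset.mem_image.1 hk
      rw [Finset.mem_erase, Finset.mem_compl]
      exact ⟨(hf l hl).2.1, (hf l hl).1⟩
    have h3 : T.image f = Sᶜ.erase k₀ := by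
      refine Finset.eq_of_subset_of_card_le h2 ?_
      rw [Finset.card_image_of_injOn (fun i hi j hj h => hinj i hi j hj h), Finset.card_erase_of_mem (Finset.mem_compl.2 hk₀)]
      omega
    intro k hk hkk
    have h4 : k ∈ T.image f := by
      rw [h3, Finset.mem_erase, Finset.mem_compl]
      exact ⟨hkk, hk⟩
    obtain ⟨l, hl, h5⟩ := Finset.mem_image.1 h4
    exact ⟨l, hl, h5⟩
  -- sums
  have hsum : ∀ φ : V →ₗ[F] F, (∀ s ∈ S, φ (b' s) = 0) → φ (x k₀) = ∑ i ∈ T, φ (b' i) := by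
    intro φ hφ
    have e : ∑ j, b'.coord j (x k₀) • b' j = x k₀ := by
      simp only [Basis.coord_apply]
      exact b'.sum_repr (x k₀)
    have e2 : φ (x k₀) = ∑ j, b'.coord j (x k₀) * φ (b' j) := by
      rw [← e, map_sum, e]
      exact Finset.sum_congr rfl (fun j _ => by rw [map_smul, smul_eq_mul])
    rw [e2, ← Finset.sum_subset (Finset.subset_univ T)]
    · exact Finset.sum_congr rfl (fun j hj => by rw [D.hT j hj, one_mul])
    · intro j _ hj
      rw [hTm] at hj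
      by_cases hjz : j = z
      · rw [hjz, hz0, zero_mul]
      · by_cases hjS : j ∈ S
        · rw [hφ j hjS, mul_zero]
        · exact absurd ⟨hjz, hjS⟩ hj
  have hcS : ∀ k, k ∉ S → ∀ s ∈ S, x.coord k (b' s) = 0 := by
    intro k hk s hs
    rw [← C.al s hs, coord_ne x (by rintro rfl; exact hk hs)]
  -- the values of the functionals
  obtain ⟨f₀, hf₀, hf₀'⟩ : ∃ f₀ : F, (T.card : F) * f₀ = 1 ∧ ∀ i ∈ T, x.coord k₀ (b' i) = f₀ := by
    have h2 : ∀ i ∈ T, x.coord k₀ (b' i) = β⁻¹ * (x.coord k₀ (x m) + β * x.coord k₀ (b' s)) := by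
      intro i hi
      have h3 := congrArg (x.coord k₀) (hf i hi).2.2.2
      rw [map_smul, coord_ne x (Ne.symm (hf i hi).2.1), smul_zero, map_add, map_smul, map_sub, smul_eq_mul] at h3
      field_simp
      linear_combination -h3
    refine ⟨_, ?_, h2⟩
    have h3 := hsum (x.coord k₀) (hcS k₀ hk₀)
    rw [coord_self, Finset.sum_congr rfl h2, Finset.sum_const, nsmul_eq_mul] at h3
    exact h3.symm
  have hf₀0 : f₀ ≠ 0 := by
    rintro rfl
    rw [mul_zero] at hf₀
    exact zero_ne_one hf₀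
  have hK : ∀ l ∈ T, (∀ i ∈ T, i ≠ l → x.coord (f l) (b' i) = β⁻¹ * (c l * f₀)) ∧ x.coord (f l) (b' l) = β⁻¹ * (c l * (f₀ - 1)) := by
    intro l hl
    obtain ⟨K, hK⟩ : ∃ K, K = x.coord (f l) (x m) + β * x.coord (f l) (b' s) := ⟨_, rfl⟩
    have h2 : ∀ i ∈ T, x.coord (f l) (b' i) = β⁻¹ * (K - if i = l then c l else 0) := by
      intro i hi
      have h3 := congrArg (x.coord (f l)) (hf i hi).2.2.2
      rw [map_add, map_smul, map_sub, smul_eq_mul, map_smul] at h3
      by_cases hil : i = l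
      · subst hil
        rw [coord_self, smul_eq_mul, mul_one] at h3
        rw [if_pos rfl]
        field_simp
        rw [hK]
        linear_combination -h3
      · rw [coord_ne x (fun h => hil (hinj l hl i hi h).symm), smul_zero] at h3
        rw [if_neg hil]
        field_simp
        rw [hK]
        linear_combination -h3
    have h3 := hsum (x.coord (f l)) (hcS _ (hf l hl).1)
    rw [coord_ne x (hf l hl).2.1, Finset.sum_congr rfl h2, ← Finset.mul_sum, Finset.sum_sub_distrib, Finset.sum_const, nsmul_eq_mul,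
      Finset.sum_ite_eq' T l, if_pos hl] at h3
    have h4 : (T.card : F) * K = c l := by
      rcases mul_eq_zero.1 h3.symm with h | h
      · exact absurd h (inv_ne_zero hβ0)
      · exact sub_eq_zero.1 h
    have h5 : K = c l * f₀ := by
      rw [← h4]
      linear_combination (-K) * hf₀
    refine ⟨fun i hi hil => ?_, ?_⟩
    · rw [h2 i hi, if_neg hil, sub_zero, h5]
    · rw [h2 l hl, if_pos rfl, h5]
      ring
  obtain ⟨i, hi, hiU⟩ := hpick ∅ (by simp)
  obtain ⟨j, hj, hjU⟩ := hpick {i} (by simp)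
  obtain ⟨l₁, hl₁, hl₁U⟩ := hpick {i, j} (Finset.card_le_two.trans (by norm_num))
  simp only [Finset.mem_insert, Finset.mem_singleton, not_or] at hjU hl₁U
  have hij : i ≠ j := Ne.symm hjU
  have hbi : b'.coord i (c i • x (f i)) = 0 := by
    rw [← (hf i hi).2.2.2, map_add, map_smul, map_sub, coord_self]
    by_cases his : i = s
    · rw [his, coord_self, hs0]
      simp
    · rw [coord_ne b' his, hβ i hi his, smul_eq_mul]
      ring
  have hbj : b'.coord j (c i • x (f i)) = β := by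
    rw [← (hf i hi).2.2.2, map_add, map_smul, map_sub, coord_ne b' hjU]
    by_cases hjs : j = s
    · rw [hjs, coord_self, hs0, smul_eq_mul]
      ring
    · rw [coord_ne b' hjs, hβ j hj hjs, smul_eq_mul]
      ring
  have hci : c i ≠ 0 := (hf i hi).2.2.1
  have hinv : ∀ a' : F, a' ≠ 0 → a' ≠ 1 → a'⁻¹ - 1 ≠ 0 := by
    intro a' _ h2 h3
    exact h2 (inv_eq_one.1 (sub_eq_zero.1 h3))
  have hmain : ∀ a' : F, a' ≠ 0 → a' ≠ 1 → 1 + (a'⁻¹ - 1) * f₀ = 0 ∨ f₀ = 1 := by
    intro a' ha0' ha1'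
    obtain ⟨t, ht, htx⟩ := C.gb.tor hij ha0'
    have ht1 : t (c i • x (f i)) = c i • x (f i) + ((a'⁻¹ - 1) * β) • b' j := by
      rw [htx, hbi, hbj, mul_zero, zero_smul, add_zero]
    have v0 : x.coord k₀ (t (c i • x (f i))) ≠ 0 := by
      rw [ht1, map_add, map_smul, coord_ne x (Ne.symm (hf i hi).2.1), map_smul, hf₀' j hj, smul_zero, zero_add, smul_eq_mul]
      exact mul_ne_zero (mul_ne_zero (hinv a' ha0' ha1') hβ0) hf₀0
    have vl : ∀ l ∈ T, l ≠ i → l ≠ j → x.coord (f l) (t (c i • x (f i))) ≠ 0 := by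
      intro l hl hli hlj
      rw [ht1, map_add, map_smul, coord_ne x (fun h => hli (hinj l hl i hi h)), map_smul, (hK l hl).1 j hj (Ne.symm hlj),
        smul_zero, zero_add, smul_eq_mul]
      exact mul_ne_zero (mul_ne_zero (hinv a' ha0' ha1') hβ0) (mul_ne_zero (inv_ne_zero hβ0) (mul_ne_zero (hf l hl).2.2.1 hf₀0))
    have hSt : ∀ s ∈ S, ∃ c : F, t (x s) = c • x s := fun s hs => ⟨1, by
      rw [htx, C.al s hs, coord_ne b' (D.nes hi hs), coord_ne b' (D.nes hj hs)]; module⟩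
    obtain ⟨x', C', hx'⟩ := C.new ht hSt (by
      intro hall
      obtain ⟨k', d, h2⟩ := hall (f i)
      have e1 : k₀ = k' := by
        by_contra hne
        apply v0
        rw [map_smul, h2, map_smul, map_smul, coord_ne x hne, smul_zero, smul_zero]
      have e2 : f l₁ = k' := by
        by_contra hne
        apply vl l₁ hl₁ hl₁U.1 hl₁U.2
        rw [map_smul, h2, map_smul, map_smul, coord_ne x hne, smul_zero, smul_zero]
      exact (hf l₁ hl₁).2.1 (by rw [e2, e1]))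
    obtain ⟨z', hz', hz0'⟩ := C'.exz ha0 ha1 ha2 ha3 hN (hf i hi).1
    rw [hx' _ (hf i hi).1] at hz0'
    have hz1 : x.coord z' (t (c i • x (f i))) = 0 := by rw [map_smul, map_smul, hz0', smul_zero]
    by_cases hzk : z' = k₀
    · rw [hzk] at hz1
      exact absurd hz1 v0
    obtain ⟨l, hl, rfl⟩ := hfsurj z' hz' hzk
    by_cases hli : l = i
    · subst hli
      left
      rw [ht1, map_add, map_smul, coord_self, map_smul, (hK l hl).1 j hj hjU, smul_eq_mul, smul_eq_mul] at hz1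
      have : c l * (1 + (a'⁻¹ - 1) * f₀) = 0 := by
        rw [← hz1]
        field_simp
      exact (mul_eq_zero.1 this).resolve_left hci
    by_cases hlj : l = j
    · subst hlj
      right
      rw [ht1, map_add, map_smul, coord_ne x (fun h => hli (hinj l hl i hi h)), map_smul, (hK l hl).2, smul_zero, zero_add,
        smul_eq_mul] at hz1
      have h3 := (mul_eq_zero.1 hz1).resolve_left (mul_ne_zero (hinv a' ha0' ha1') hβ0)
      have h4 := (mul_eq_zero.1 h3).resolve_left (inv_ne_zero hβ0)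
      exact sub_eq_zero.1 ((mul_eq_zero.1 h4).resolve_left (hf l hl).2.2.1)
    exact absurd hz1 (vl l hl hli hlj)
  have haa0 : a * a ≠ 0 := mul_ne_zero ha0 ha0
  have hf1 : f₀ = 1 := by
    by_contra hne
    have e1 := (hmain a ha0 ha1).resolve_right hne
    have e2 := (hmain (a * a) haa0 ha2).resolve_right hne
    have e3 : (a⁻¹ - (a * a)⁻¹) * f₀ = 0 := by linear_combination e1 - e2
    have e4 := (mul_eq_zero.1 e3).resolve_right hf₀0
    have e5 : a⁻¹ = (a * a)⁻¹ := sub_eq_zero.1 e4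
    have e6 : a = a * a := inv_injective e5
    exact ha1 (mul_left_cancel₀ ha0 (by rw [mul_one]; exact e6.symm))
  subst hf1
  have hmain2 : ∀ a' : F, a' ≠ 0 → a' ≠ 1 → a' + a'⁻¹ - 1 = 0 := by
    intro a' ha0' ha1'
    obtain ⟨t, ht, htx⟩ := C.gb.tor hij ha0'
    have ht1 : t (x k₀) = x k₀ + (a' - 1) • b' i + (a'⁻¹ - 1) • b' j := by
      rw [htx, D.hT i hi, D.hT j hj, mul_one, mul_one]
    have vk : a' - 1 + (a'⁻¹ - 1) ≠ 0 := by
      intro h2
      have h3 : (a' - 1) * (a' - 1) = 0 := by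
        field_simp at h2
        linear_combination h2
      exact ha1' (sub_eq_zero.1 (mul_self_eq_zero.1 h3))
    have vl : ∀ l ∈ T, x.coord (f l) (t (x k₀)) ≠ 0 := by
      intro l hl
      rw [ht1, map_add, map_add, map_smul, map_smul, coord_ne x (hf l hl).2.1, zero_add, smul_eq_mul, smul_eq_mul]
      by_cases hli : l = i
      · subst hli
        rw [(hK l hl).2, (hK l hl).1 j hj hjU, sub_self, mul_zero, mul_zero, mul_zero, zero_add]
        exact mul_ne_zero (hinv a' ha0' ha1') (mul_ne_zero (inv_ne_zero hβ0) (mul_ne_zero hci one_ne_zero))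
      by_cases hlj : l = j
      · subst hlj
        rw [(hK l hl).2, (hK l hl).1 i hi (Ne.symm hli), sub_self, mul_zero, mul_zero, mul_zero, add_zero]
        exact mul_ne_zero (sub_ne_zero.2 ha1') (mul_ne_zero (inv_ne_zero hβ0) (mul_ne_zero (hf l hl).2.2.1 one_ne_zero))
      rw [(hK l hl).1 i hi (Ne.symm hli), (hK l hl).1 j hj (Ne.symm hlj), ← add_mul]
      exact mul_ne_zero vk (mul_ne_zero (inv_ne_zero hβ0) (mul_ne_zero (hf l hl).2.2.1 one_ne_zero))
    have hSt : ∀ s ∈ S, ∃ c : F, t (x s) = c • x s := fun s hs => ⟨1, by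
      rw [htx, C.al s hs, coord_ne b' (D.nes hi hs), coord_ne b' (D.nes hj hs)]; module⟩
    obtain ⟨x', C', hx'⟩ := C.new ht hSt (by
      intro hall
      obtain ⟨k', d, h2⟩ := hall k₀
      have e1 : f i = k' := by
        by_contra hne
        apply vl i hi
        rw [h2, map_smul, coord_ne x hne, smul_zero]
      have e2 : f j = k' := by
        by_contra hne
        apply vl j hj
        rw [h2, map_smul, coord_ne x hne, smul_zero]
      exact hij (hinj i hi j hj (by rw [e1, e2])))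
    obtain ⟨z', hz', hz0'⟩ := C'.exz ha0 ha1 ha2 ha3 hN hk₀
    rw [hx' _ hk₀] at hz0'
    by_cases hzk : z' = k₀
    · rw [hzk, ht1, map_add, map_add, coord_self, map_smul, map_smul, hf₀' i hi, hf₀' j hj, smul_eq_mul, smul_eq_mul] at hz0'
      linear_combination hz0'
    obtain ⟨l, hl, rfl⟩ := hfsurj z' hz' hzk
    exact absurd hz0' (vl l hl)
  have e1 := hmain2 a ha0 ha1
  have e2 := hmain2 (a * a) haa0 ha2
  have e3 : a * a - a + 1 = 0 := by
    field_simp at e1
    linear_combination e1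
  have e4 : a * a * (a * a) - a * a + 1 = 0 := by
    field_simp at e2
    linear_combination e2
  have e5 : (2 : F) * (1 - a) = 0 := by linear_combination e4 - (a * a + a - 1) * e3
  rcases mul_eq_zero.1 e5 with h | h
  · apply ha3
    linear_combination (a + 1) * e3 - h
  · exact ha1 (sub_eq_zero.1 h).symm

end Cfsg.Agent.H21.GV
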