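import Cfsg.Agent.GV6
import Cfsg.Agent.GV4
import Cfsg.Agent.GUx9

set_option autoImplicit false

/-! stabilisers of decompositions: infrastructure, and the case of lines -/

namespace Cfsg.Agent.H21.GV

open Module Matrix Cfsg.Geo Cfsg.Agent.H29.Trv Cfsg.Agent.H21.GUx

variable {F : Type*} [Field F] {n t m : ℕ} {D : Fin t → Submodule F (Fin n → F)}

theorem exists_basis (hD : IsMDecomposition m D) : ∃ e : Basis (Fin t × Fin m) F (Fin n → F), ∀ k, e k ∈ D k.1 := by
  classical
  have hI : DirectSum.IsInternal D := DirectSum.isInternal_submodule_of_iSupIndep_of_iSup_eq_top hD.indep hD.iSup_eq_top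
  let v : ∀ i, Basis (Fin m) F (D i) := fun i => Module.finBasisOfFinrankEq F (D i) (hD.finrank_eq i)
  refine ⟨(hI.collectedBasis v).reindex (Equiv.sigmaEquivProd (Fin t) (Fin m)), fun k => ?_⟩
  rw [Basis.reindex_apply]
  exact hI.collectedBasis_mem v ((Equiv.sigmaEquivProd (Fin t) (Fin m)).symm k)

theorem spanD (hD : IsMDecomposition m D) (e : Basis (Fin t × Fin m) F (Fin n → F)) (he : ∀ k, e k ∈ D k.1) (l : Fin t) :
    D l = Submodule.span F (Set.range (fun a : Fin m => e (l, a))) := by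
  symm
  have hle : Submodule.span F (Set.range (fun a : Fin m => e (l, a))) ≤ D l := by
    rw [Submodule.span_le]
    rintro _ ⟨a, rfl⟩
    exact he (l, a)
  refine Submodule.eq_of_le_of_finrank_eq hle ?_
  rw [hD.finrank_eq, finrank_span_eq_card, Fintype.card_fin]
  exact e.linearIndependent.comp (fun a : Fin m => ((l, a) : Fin t × Fin m)) (fun a b h => (Prod.mk.inj h).2)

theorem coordD (hD : IsMDecomposition m D) (e : Basis (Fin t × Fin m) F (Fin n → F)) (he : ∀ k, e k ∈ D k.1) {l : Fin t}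
    {x : Fin n → F} (hx : x ∈ D l) {k : Fin t × Fin m} (hk : k.1 ≠ l) : e.coord k x = 0 := by
  rw [spanD hD e he l] at hx
  induction hx using Submodule.span_induction with
  | mem x h =>
    obtain ⟨a, rfl⟩ := h
    exact coord_ne e (by rintro rfl; exact hk rfl)
  | zero => exact map_zero _
  | add x y _ _ h1 h2 => rw [map_add, h1, h2, add_zero]
  | smul c x _ h => rw [map_smul, h, smul_zero]

theorem mem_dec (hD : IsMDecomposition m D) (g : GL (Fin n) F) (σ : Equiv.Perm (Fin t))
    (h : ∀ i, ∀ x ∈ D i, (g : Matrix (Fin n) (Fin n) F) *ᵥ x ∈ D (σ i)) : g ∈ decompositionStabilizer D := by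
  refine ⟨σ, fun i => ?_⟩
  have hle : (D i).map (Matrix.toLin' (g : Matrix (Fin n) (Fin n) F)) ≤ D (σ i) := by
    rintro _ ⟨x, hx, rfl⟩
    rw [Matrix.toLin'_apply]
    exact h i x hx
  refine Submodule.eq_of_le_of_finrank_eq hle ?_
  have h1 : Matrix.toLin' (g : Matrix (Fin n) (Fin n) F) = (linE g : (Fin n → F) →ₗ[F] (Fin n → F)) :=
    LinearMap.ext (fun x => by rw [Matrix.toLin'_apply]; rfl)
  rw [hD.finrank_eq, h1, LinearEquiv.finrank_map_eq, hD.finrank_eq]

theorem mono_GL {κ : Type*} [Fintype κ] [DecidableEq κ] (e : Basis κ F (Fin n → F)) (τ : Equiv.Perm κ) (c : κ → Fˣ)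
    (h : (((Equiv.Perm.sign τ : ℤˣ) : ℤ) : F) * ∏ k, (c k : F) = 1) :
    ∃ g ∈ specialLinear (Fin n) F, ∀ k, (g : Matrix (Fin n) (Fin n) F) *ᵥ e k = (c k : F) • e (τ k) := by
  let A : Matrix κ κ F := (Matrix.diagonal (fun k => (c k : F))).submatrix (τ⁻¹ : Equiv.Perm κ) id
  have hA : A.det = 1 := by
    show ((Matrix.diagonal (fun k => (c k : F))).submatrix (τ⁻¹ : Equiv.Perm κ) id).det = 1
    rw [Matrix.det_permute, Equiv.Perm.sign_inv, Matrix.det_diagonal]
    exact h
  let f := Matrix.toLin e e A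
  have hf : ∀ k, f (e k) = (c k : F) • e (τ k) := by
    intro k
    show Matrix.toLin e e A (e k) = _
    rw [Matrix.toLin_self, Finset.sum_eq_single (τ k)]
    · show (Matrix.diagonal (fun k => (c k : F)) (τ⁻¹ (τ k)) k) • _ = _
      rw [show τ⁻¹ (τ k) = k from τ.symm_apply_apply k, Matrix.diagonal_apply_eq]
    · intro j _ hj
      show (Matrix.diagonal (fun k => (c k : F)) (τ⁻¹ j) k) • _ = 0
      rw [Matrix.diagonal_apply_ne, zero_smul]
      intro h
      apply hj
      rw [← h]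
      exact (τ.apply_symm_apply j).symm
    · intro h
      exact absurd (Finset.mem_univ _) h
  have hdet : (LinearMap.toMatrix' f).det = 1 := by
    rw [LinearMap.det_toMatrix', LinearMap.det_toLin]
    exact hA
  refine ⟨Matrix.GeneralLinearGroup.mk'' (LinearMap.toMatrix' f) (by rw [hdet]; exact isUnit_one), (mem_SL_iff _).2 hdet, fun k => ?_⟩
  show LinearMap.toMatrix' f *ᵥ e k = _
  rw [LinearMap.toMatrix'_mulVec, hf]

/-- properness -/
theorem not_SL_le_dec (hD : IsMDecomposition m D) : ¬ specialLinear (Fin n) F ≤ decompositionStabilizer D := by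
  intro hle
  obtain ⟨e, he⟩ := exists_basis hD
  have h2 := hD.two_le
  have hm := hD.pos
  let p : Fin t × Fin m := (⟨0, by omega⟩, ⟨0, hm⟩)
  let q : Fin t × Fin m := (⟨1, by omega⟩, ⟨0, hm⟩)
  have hpq : p.1 ≠ q.1 := by
    intro h
    exact zero_ne_one (congrArg Fin.val h)
  have hpq' : p ≠ q := fun h => hpq (congrArg Prod.fst h)
  have h0 : e.coord p (e q) = 0 := coord_ne e hpq'
  obtain ⟨-, g, hg, hgx⟩ := T_SL (e q) (e.coord p) h0
  obtain ⟨σ, hσ⟩ := hle hg
  have h3 : (g : Matrix (Fin n) (Fin n) F) *ᵥ e p ∈ D (σ p.1) := by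
    rw [← hσ p.1]
    exact ⟨e p, he p, Matrix.toLin'_apply _ _⟩
  rw [hgx, coord_self, one_smul] at h3
  by_cases h4 : p.1 = σ p.1
  · have h5 := coordD hD e he h3 (k := q) (by rw [← h4]; exact Ne.symm hpq)
    rw [map_add, coord_self, coord_ne e (Ne.symm hpq'), zero_add] at h5
    exact one_ne_zero h5
  · have h5 := coordD hD e he h3 (k := p) h4
    rw [map_add, coord_self, h0, add_zero] at h5
    exact one_ne_zero h5

theorem exists_a [Fintype F] (hq : 5 ≤ Fintype.card F) : ∃ a : F, a ≠ 0 ∧ a ≠ 1 ∧ a * a ≠ 1 ∧ a * a * a ≠ 1 := by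
  classical
  obtain ⟨u, hu⟩ := IsCyclic.exists_generator (α := Fˣ)
  have h1 : orderOf u = Fintype.card F - 1 := by
    rw [orderOf_eq_card_of_forall_mem_zpowers hu, Nat.card_eq_fintype_card, Fintype.card_units]
  have h2 : ∀ k, 0 < k → k < 4 → u ^ k ≠ 1 := by
    intro k h0 hk h
    have := Nat.le_of_dvd h0 (orderOf_dvd_of_pow_eq_one h)
    omega
  refine ⟨u, u.ne_zero, fun h => h2 1 (by norm_num) (by norm_num) (Units.ext (by simpa using h)),
    fun h => h2 2 (by norm_num) (by norm_num) (Units.ext (by rw [Units.val_pow_eq_pow_val, pow_two]; exact h)),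
    fun h => h2 3 (by norm_num) (by norm_num) (Units.ext (by rw [Units.val_pow_eq_pow_val, pow_three']; exact h))⟩

theorem SL_of_TV {M : Subgroup (GL (Fin n) F)}
    (h : ∀ (v : Fin n → F) (φ : (Fin n → F) →ₗ[F] F), φ v = 0 → TV (M.map (ee F n).toMonoidHom) v φ) :
    specialLinear (Fin n) F ≤ M := by
  apply SL_le_of_ctr
  rw [eq_top_iff]
  intro v _
  intro γ hγ
  obtain ⟨t, ht, htx⟩ := h v γ hγ
  obtain ⟨s, hs, rfl⟩ := Subgroup.mem_map.1 ht
  exact ⟨hγ, s, hs, fun x => htx x⟩

/-- the case of lines -/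
theorem main1 [Fintype F] (hn : 13 ≤ n) (hD : IsMDecomposition 1 D) (hq : 5 ≤ Fintype.card F) {M : Subgroup (GL (Fin n) F)}
    (hM : decompositionStabilizer D ⊓ specialLinear (Fin n) F ≤ M) {g : GL (Fin n) F} (hg : g ∈ M)
    (hgn : g ∉ decompositionStabilizer D) : specialLinear (Fin n) F ≤ M := by
  classical
  obtain ⟨e, he⟩ := exists_basis hD
  obtain ⟨b, hb⟩ : ∃ b : Basis (Fin t) F (Fin n → F), ∀ i, b i ∈ D i := by
    refine ⟨e.reindex (Equiv.prodUnique (Fin t) (Fin 1)), fun i => ?_⟩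
    rw [Basis.reindex_apply]
    exact he ((Equiv.prodUnique (Fin t) (Fin 1)).symm i)
  have hsp : ∀ i, ∀ x ∈ D i, ∃ r : F, x = r • b i := by
    intro i x hx
    have h1 : Submodule.span F {b i} = D i := by
      refine Submodule.eq_of_le_of_finrank_eq ((Submodule.span_singleton_le_iff_mem _ _).2 (hb i)) ?_
      rw [hD.finrank_eq, finrank_span_singleton (b.ne_zero i)]
    rw [← h1] at hx
    obtain ⟨r, hr⟩ := Submodule.mem_span_singleton.1 hx
    exact ⟨r, hr.symm⟩
  have htn : t = n := by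
    have h1 := Module.finrank_eq_card_basis b
    rw [Module.finrank_fintype_fun_eq_card, Fintype.card_fin, Fintype.card_fin] at h1
    exact h1.symm
  have hG : Gd (M.map (ee F n).toMonoidHom) b := by
    intro σ c hc
    obtain ⟨s, hs, hsx⟩ := mono_GL b σ c hc
    refine ⟨ee F n s, Subgroup.mem_map.2 ⟨s, hM ⟨mem_dec hD s σ (fun i x hx => ?_), hs⟩, rfl⟩, fun i => ?_⟩
    · obtain ⟨r, rfl⟩ := hsp i x hx
      rw [mulVec_smul, hsx]
      exact (D (σ i)).smul_mem _ ((D (σ i)).smul_mem _ (hb _))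
    · rw [ee_apply, hsx]
  have hgM : ee F n g ∈ M.map (ee F n).toMonoidHom := Subgroup.mem_map.2 ⟨g, hg, rfl⟩
  have hG' := hG.map hgM
  have hns : ¬ SF b (b.map (ee F n g)) := by
    intro h
    apply hgn
    choose s c hs using h
    have hs' : ∀ i, (g : Matrix (Fin n) (Fin n) F) *ᵥ b i = c i • b (s i) := by
      intro i
      rw [← hs i, Basis.map_apply]
      rfl
    have hc : ∀ i, c i ≠ 0 := by
      intro i h0
      have h1 := hs' i
      rw [h0, zero_smul] at h1
      have h2 := mulVec_inj (g := g) (x := b i) (y := 0) (by rw [h1, mulVec_zero])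
      exact b.ne_zero i h2
    have hinj : Function.Injective s := by
      intro i j hij
      by_contra hne
      have h1 : (g : Matrix (Fin n) (Fin n) F) *ᵥ (c j • b i) = (g : Matrix (Fin n) (Fin n) F) *ᵥ (c i • b j) := by
        rw [mulVec_smul, mulVec_smul, hs', hs', hij, smul_smul, smul_smul, mul_comm]
      have h2 := congrArg (b.coord i) (mulVec_inj h1)
      rw [map_smul, map_smul, coord_self, coord_ne b hne, smul_zero, smul_eq_mul, mul_one] at h2
      exact hc j h2
    refine mem_dec hD g (Equiv.ofBijective s (Finite.injective_iff_bijective.1 hinj)) (fun i x hx => ?_)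
    obtain ⟨r, rfl⟩ := hsp i x hx
    rw [mulVec_smul, hs']
    exact (D (s i)).smul_mem _ ((D (s i)).smul_mem _ (hb _))
  obtain ⟨b₁, x, S, C⟩ := exists_CF hG hG' hns
  obtain ⟨a, ha0, ha1, ha2, ha3⟩ := exists_a hq
  have hEL : EL (M.map (ee F n).toMonoidHom) b₁ := by
    by_cases hS : S.card ≤ 2
    · exfalso
      refine C.few ha0 ha1 ha2 ha3 ?_
      have h1 : Sᶜ.card = t - S.card := by rw [Finset.card_compl, Fintype.card_fin]
      omega
    · by_cases h : ∃ i ∈ S, ∃ k ∉ S, b₁.coord i (x k) ≠ 0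
      · obtain ⟨i, hi, k, hk, h1⟩ := h
        exact C.claim1 (by omega) ha0 ha1 hi h1 hk
      · push Not at h
        exact CZ.claim2 ⟨C, h⟩ (by omega) ha0 ha1 ha2 ha3
  obtain ⟨i, j, hij, c, hc, hT⟩ := hEL
  apply SL_of_TV
  intro v φ hφ
  refine gen C.gb (fun i j => ?_) hij hc hT v φ hφ
  by_contra hcon
  push Not at hcon
  have h1 : (Finset.univ : Finset (Fin t)) ⊆ {i, j} := by
    intro l _
    rw [Finset.mem_insert, Finset.mem_singleton]
    by_cases h : l = i
    · exact Or.inl h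
    · exact Or.inr (hcon l h)
  have h2 := (Finset.card_le_card h1).trans Finset.card_le_two
  rw [Finset.card_univ, Fintype.card_fin] at h2
  omega

end Cfsg.Agent.H21.GV
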