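import Cfsg.Agent.GV7

set_option autoImplicit false

/-! stabilisers of decompositions: blocks of dimension at least two -/

namespace Cfsg.Agent.H21.GV

open Module Matrix Cfsg.Geo Cfsg.Agent.H29.Trv Cfsg.Agent.H21.GUx

variable {F : Type*} [Field F] {n t m : ℕ} {D : Fin t → Submodule F (Fin n → F)}

/-- functionals living on one block -/
def Bl (D : Fin t → Submodule F (Fin n → F)) (l : Fin t) (χ : (Fin n → F) →ₗ[F] F) : Prop := ∀ i, i ≠ l → ∀ x ∈ D i, χ x = 0

/-- projections -/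
noncomputable def PP (e : Basis (Fin t × Fin m) F (Fin n → F)) (l : Fin t) : (Fin n → F) →ₗ[F] (Fin n → F) :=
  e.constr F (fun k => if k.1 = l then e k else 0)

theorem PP_basis (e : Basis (Fin t × Fin m) F (Fin n → F)) (l : Fin t) (k : Fin t × Fin m) :
    PP e l (e k) = if k.1 = l then e k else 0 := by
  rw [PP, Basis.constr_basis]

theorem PP_mem {e : Basis (Fin t × Fin m) F (Fin n → F)} (he : ∀ k, e k ∈ D k.1) (l : Fin t) (v : Fin n → F) :
    PP e l v ∈ D l := by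
  rw [← e.sum_repr v, map_sum]
  refine Submodule.sum_mem _ (fun k _ => ?_)
  rw [map_smul, PP_basis]
  refine (D l).smul_mem _ ?_
  by_cases h : k.1 = l
  · rw [if_pos h, ← h]
    exact he k
  · rw [if_neg h]
    exact (D l).zero_mem

theorem PP_self (hD : IsMDecomposition m D) {e : Basis (Fin t × Fin m) F (Fin n → F)} (he : ∀ k, e k ∈ D k.1) {l : Fin t}
    {v : Fin n → F} (hv : v ∈ D l) : PP e l v = v := by
  rw [spanD hD e he l] at hv
  induction hv using Submodule.span_induction with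
  | mem x h =>
    obtain ⟨a, rfl⟩ := h
    show PP e l (e (l, a)) = e (l, a)
    rw [PP_basis, if_pos rfl]
  | zero => exact map_zero _
  | add x y _ _ h1 h2 => rw [map_add, h1, h2]
  | smul c x _ h => rw [map_smul, h]

theorem PP_other (hD : IsMDecomposition m D) {e : Basis (Fin t × Fin m) F (Fin n → F)} (he : ∀ k, e k ∈ D k.1) {l i : Fin t}
    (hil : i ≠ l) {v : Fin n → F} (hv : v ∈ D i) : PP e l v = 0 := by
  rw [spanD hD e he i] at hv
  induction hv using Submodule.span_induction with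
  | mem x h =>
    obtain ⟨a, rfl⟩ := h
    show PP e l (e (i, a)) = 0
    rw [PP_basis, if_neg hil]
  | zero => exact map_zero _
  | add x y _ _ h1 h2 => rw [map_add, h1, h2, add_zero]
  | smul c x _ h => rw [map_smul, h, smul_zero]

theorem PP_sum (e : Basis (Fin t × Fin m) F (Fin n → F)) (v : Fin n → F) : ∑ l, PP e l v = v := by
  have h : (∑ l, PP e l) = LinearMap.id := by
    refine e.ext (fun k => ?_)
    rw [LinearMap.sum_apply, LinearMap.id_apply]
    simp only [PP_basis]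
    rw [Finset.sum_ite_eq Finset.univ k.1 (fun _ => e k), if_pos (Finset.mem_univ _)]
  have := congrArg (fun f : (Fin n → F) →ₗ[F] (Fin n → F) => f v) h
  simpa only [LinearMap.sum_apply, LinearMap.id_apply] using this

theorem Bl_comp (hD : IsMDecomposition m D) {e : Basis (Fin t × Fin m) F (Fin n → F)} (he : ∀ k, e k ∈ D k.1) (l : Fin t)
    (φ : (Fin n → F) →ₗ[F] F) : Bl D l (φ.comp (PP e l)) := by
  intro i hi x hx
  rw [LinearMap.comp_apply, PP_other hD he hi hx, map_zero]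

theorem T_dec (hD : IsMDecomposition m D) {l : Fin t} {w : Fin n → F} (hw : w ∈ D l) {χ : (Fin n → F) →ₗ[F] F}
    (hχ : Bl D l χ) (h0 : χ w = 0) : T (decompositionStabilizer D ⊓ specialLinear (Fin n) F) w χ := by
  obtain ⟨-, g, hg, hgx⟩ := T_SL w χ h0
  refine ⟨h0, g, ⟨mem_dec hD g 1 (fun i x hx => ?_), hg⟩, hgx⟩
  rw [Equiv.Perm.one_apply, hgx]
  by_cases hi : i = l
  · subst hi
    exact (D i).add_mem hx ((D i).smul_mem _ hw)
  · rw [hχ i hi x hx, zero_smul, add_zero]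
    exact hx

/-- products of two dilatations -/
theorem dil (hD : IsMDecomposition m D) {j k : Fin t} (hjk : j ≠ k) {w w' : Fin n → F} (hw : w ∈ D j) (hw' : w' ∈ D k)
    {χ χ' : (Fin n → F) →ₗ[F] F} (hχ : Bl D j χ) (hχ' : Bl D k χ') (h0 : (1 + χ w) * (1 + χ' w') = 1) :
    ∃ g ∈ decompositionStabilizer D ⊓ specialLinear (Fin n) F,
      ∀ x, (g : Matrix (Fin n) (Fin n) F) *ᵥ x = x + χ x • w + χ' x • w' := by
  let f : (Fin n → F) →ₗ[F] (Fin n → F) := (LinearMap.transvection χ w).comp (LinearMap.transvection χ' w')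
  have hf : ∀ x, f x = x + χ x • w + χ' x • w' := by
    intro x
    show LinearMap.transvection χ w (LinearMap.transvection χ' w' x) = _
    rw [LinearMap.transvection.apply, LinearMap.transvection.apply, map_add, map_smul, hχ k (Ne.symm hjk) w' hw', smul_zero, add_zero]
    abel
  have hdet : (LinearMap.toMatrix' f).det = 1 := by
    rw [LinearMap.det_toMatrix', LinearMap.det_comp, LinearMap.transvection.det, LinearMap.transvection.det, h0]
  have hg : ∀ x, ((Matrix.GeneralLinearGroup.mk'' (LinearMap.toMatrix' f) (by rw [hdet]; exact isUnit_one) : GL (Fin n) F) :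
      Matrix (Fin n) (Fin n) F) *ᵥ x = x + χ x • w + χ' x • w' := by
    intro x
    show LinearMap.toMatrix' f *ᵥ x = _
    rw [LinearMap.toMatrix'_mulVec, hf]
  refine ⟨Matrix.GeneralLinearGroup.mk'' (LinearMap.toMatrix' f) (by rw [hdet]; exact isUnit_one),
    ⟨mem_dec hD _ 1 (fun i x hx => ?_), (mem_SL_iff _).2 hdet⟩, hg⟩
  rw [Equiv.Perm.one_apply, hg]
  by_cases hi : i = j
  · subst hi
    rw [hχ' i hjk x hx, zero_smul, add_zero]
    exact (D i).add_mem hx ((D i).smul_mem _ hw)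
  · rw [hχ i hi x hx, zero_smul, add_zero]
    by_cases hk : i = k
    · subst hk
      exact (D i).add_mem hx ((D i).smul_mem _ hw')
    · rw [hχ' i hk x hx, zero_smul, add_zero]
      exact hx

/-- blocks meet kernels in large subspaces -/
theorem ker_big (W : Submodule F (Fin n → F)) (ψ : (Fin n → F) →ₗ[F] F) :
    finrank F W ≤ finrank F ↥(W ⊓ LinearMap.ker ψ) + 1 := by
  have h1 := Submodule.finrank_sup_add_finrank_inf_eq W (LinearMap.ker ψ)
  have h2 := LinearMap.finrank_range_add_finrank_ker ψ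
  have h3 : finrank F (LinearMap.range ψ) ≤ 1 := (Submodule.finrank_le _).trans (by rw [finrank_self])
  have h4 : finrank F ↥(W ⊔ LinearMap.ker ψ) ≤ finrank F (Fin n → F) := Submodule.finrank_le _
  omega

theorem exists_notMem (W : Submodule F (Fin n → F)) (hW : 2 ≤ finrank F W) (u : Fin n → F) :
    ∃ w ∈ W, w ∉ Submodule.span F {u} := by
  by_contra hcon
  push Not at hcon
  have h1 := Submodule.finrank_mono (show W ≤ Submodule.span F {u} from hcon)
  have h2 : finrank F (Submodule.span F {u}) ≤ 1 := (finrank_span_le_card ({u} : Set (Fin n → F))).trans (by simp)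
  omega

theorem exists_ne0 (W : Submodule F (Fin n → F)) (hW : 1 ≤ finrank F W) : ∃ w ∈ W, w ≠ 0 := by
  by_contra hcon
  push Not at hcon
  have h1 : W = ⊥ := by
    rw [eq_bot_iff]
    intro x hx
    rw [Submodule.mem_bot]
    exact hcon x hx
  rw [h1, finrank_bot] at hW
  omega

variable {M : Subgroup (GL (Fin n) F)}

theorem stepA (hD : IsMDecomposition m D) {e : Basis (Fin t × Fin m) F (Fin n → F)} (he : ∀ k, e k ∈ D k.1) (hm : 2 ≤ m)
    (hq : 3 ≤ m ∨ (3 ≤ t ∧ ∃ a : F, a ≠ 0 ∧ a ≠ 1))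
    (hM : decompositionStabilizer D ⊓ specialLinear (Fin n) F ≤ M) {u : Fin n → F} {ψ : (Fin n → F) →ₗ[F] F} (hT : T M u ψ)
    {j : Fin t} (hj : PP e j u ≠ 0) : ∃ z ∈ D j, z ≠ 0 ∧ T M z ψ := by
  by_cases hI : ∃ w ∈ D j, ψ w = 0 ∧ w ∉ Submodule.span F {PP e j u}
  · obtain ⟨w, hw, hψ, hws⟩ := hI
    have hw0 : w ≠ 0 := by
      rintro rfl
      exact hws (Submodule.zero_mem _)
    have hns : PP e j u ∉ Submodule.span F {w} := by
      intro h
      obtain ⟨c, hc⟩ := Submodule.mem_span_singleton.1 h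
      have hc0 : c ≠ 0 := by
        rintro rfl
        rw [zero_smul] at hc
        exact hj hc.symm
      apply hws
      rw [Submodule.mem_span_singleton]
      exact ⟨c⁻¹, by rw [← hc, smul_smul, inv_mul_cancel₀ hc0, one_smul]⟩
    obtain ⟨φ, h1, h2⟩ := exists_functional (Submodule.span F {w}) (PP e j u) hns
    have h3 : (φ.comp (PP e j)) w = 0 := by
      rw [LinearMap.comp_apply, PP_self hD he hw]
      exact h2 w (Submodule.mem_span_singleton_self w)
    have h4 := T.comm hT ((T_dec hD hw (Bl_comp hD he j φ) h3).mono hM) hψ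
    rw [LinearMap.comp_apply, h1, one_smul] at h4
    exact ⟨w, hw, hw0, h4⟩
  have hI' : ∀ w ∈ D j, ψ w = 0 → w ∈ Submodule.span F {PP e j u} := by
    intro w hw hψ
    by_contra h
    exact hI ⟨w, hw, hψ, h⟩
  have hkb : ∀ i, ∃ w ∈ D i, ψ w = 0 ∧ w ≠ 0 := by
    intro i
    have h1 := ker_big (D i) ψ
    rw [hD.finrank_eq] at h1
    obtain ⟨w, hw, hw0⟩ := exists_ne0 (D i ⊓ LinearMap.ker ψ) (by omega)
    exact ⟨w, hw.1, hw.2, hw0⟩
  have hq' : 3 ≤ t ∧ ∃ a : F, a ≠ 0 ∧ a ≠ 1 := by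
    rcases hq with h | h
    · exfalso
      have h1 := ker_big (D j) ψ
      rw [hD.finrank_eq] at h1
      obtain ⟨w, hw, hws⟩ := exists_notMem (D j ⊓ LinearMap.ker ψ) (by omega) (PP e j u)
      exact hws (hI' w hw.1 hw.2)
    · exact h
  obtain ⟨ht, a, ha0, ha1⟩ := hq'
  have hψu : ψ (PP e j u) = 0 := by
    obtain ⟨w, hw, hψ, hw0⟩ := hkb j
    obtain ⟨c, hc⟩ := Submodule.mem_span_singleton.1 (hI' w hw hψ)
    have hc0 : c ≠ 0 := by
      rintro rfl
      rw [zero_smul] at hc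
      exact hw0 hc.symm
    rw [← hc, map_smul, smul_eq_mul] at hψ
    exact (mul_eq_zero.1 hψ).resolve_left hc0
  obtain ⟨y, hy⟩ : ∃ y, y = PP e j u := ⟨_, rfl⟩
  rw [← hy] at hj hψu
  have hyD : y ∈ D j := by rw [hy]; exact PP_mem he j u
  obtain ⟨φ, h1, -⟩ := exists_functional ⊥ y (by rw [Submodule.mem_bot]; exact hj)
  -- the dilatation on the block j
  have hχ : Bl D j ((a - 1) • φ.comp (PP e j)) := fun i hi x hx => by
    rw [LinearMap.smul_apply, Bl_comp hD he j φ i hi x hx, smul_zero]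
  have hχy : ((a - 1) • φ.comp (PP e j)) y = a - 1 := by
    rw [LinearMap.smul_apply, LinearMap.comp_apply, PP_self hD he hyD, h1, smul_eq_mul, mul_one]
  have key : ∀ k, j ≠ k → ∃ w' ∈ D k, ∀ u', T M u' ψ → ∃ r' : F, T M (((a - 1) * φ (PP e j u')) • y + r' • w') ψ ∧
      (PP e k u' = 0 → r' = 0) := by
    intro k hjk
    obtain ⟨w', hw', hψ', hw0'⟩ := hkb k
    obtain ⟨φ', h1', -⟩ := exists_functional ⊥ w' (by rw [Submodule.mem_bot]; exact hw0')
    have hχ' : Bl D k ((a⁻¹ - 1) • φ'.comp (PP e k)) := fun i hi x hx => by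
      rw [LinearMap.smul_apply, Bl_comp hD he k φ' i hi x hx, smul_zero]
    have hχw' : ((a⁻¹ - 1) • φ'.comp (PP e k)) w' = a⁻¹ - 1 := by
      rw [LinearMap.smul_apply, LinearMap.comp_apply, PP_self hD he hw', h1', smul_eq_mul, mul_one]
    obtain ⟨h, hh, hhx⟩ := dil hD hjk hyD hw' hχ hχ' (by
      rw [hχy, hχw', add_sub_cancel, add_sub_cancel, mul_inv_cancel₀ ha0])
    refine ⟨w', hw', fun u' hu' => ⟨(a⁻¹ - 1) * φ' (PP e k u'), ?_, fun h0 => by rw [h0, map_zero, mul_zero]⟩⟩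
    have e1 : ψ ∘ₗ lin h = ψ := by
      refine LinearMap.ext (fun x => ?_)
      rw [LinearMap.comp_apply, lin_apply, hhx, map_add, map_add, map_smul, map_smul, hψu, hψ', smul_zero, smul_zero, add_zero, add_zero]
    have e2 : T M ((h : Matrix (Fin n) (Fin n) F) *ᵥ u') ψ := T.conj' (hM hh) (by rw [e1]; exact hu')
    have e3 : T M ((-1 : F) • u') ψ := by
      refine (T_smul_iff _).2 ?_
      have h10 : ((-1 : F) • ψ) = -ψ := LinearMap.ext (fun x => by simp)
      rw [h10]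
      exact hu'.neg
    have e4 := e2.add_left e3
    have e5 : (h : Matrix (Fin n) (Fin n) F) *ᵥ u' + (-1 : F) • u' =
        ((a - 1) * φ (PP e j u')) • y + ((a⁻¹ - 1) * φ' (PP e k u')) • w' := by
      rw [hhx, LinearMap.smul_apply, LinearMap.smul_apply, LinearMap.comp_apply, LinearMap.comp_apply, smul_eq_mul, smul_eq_mul]
      module
    rwa [e5] at e4
  have hjt := j.isLt
  obtain ⟨k₁, hk₁⟩ : ∃ k : Fin t, k ≠ j := by
    by_cases h0 : j.val = 0
    · exact ⟨⟨1, by omega⟩, fun h => by rw [← h] at h0; exact one_ne_zero h0⟩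
    · exact ⟨⟨0, by omega⟩, fun h => h0 (by rw [← h])⟩
  obtain ⟨k₂, hk₂j, hk₂⟩ : ∃ k : Fin t, k ≠ j ∧ k ≠ k₁ := by
    by_contra hcon
    push Not at hcon
    have h1 : (Finset.univ : Finset (Fin t)) ⊆ {j, k₁} := by
      intro l _
      rw [Finset.mem_insert, Finset.mem_singleton]
      by_cases h : l = j
      · exact Or.inl h
      · exact Or.inr (hcon l h)
    have h2 := (Finset.card_le_card h1).trans Finset.card_le_two
    rw [Finset.card_univ, Fintype.card_fin] at h2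
    omega
  obtain ⟨w₁, hw₁, K1⟩ := key k₁ (Ne.symm hk₁)
  obtain ⟨w₂, hw₂, K2⟩ := key k₂ (Ne.symm hk₂j)
  obtain ⟨r₁, hr₁, -⟩ := K1 u hT
  rw [← hy, h1, mul_one] at hr₁
  obtain ⟨r₂, hr₂, hr₂'⟩ := K2 _ hr₁
  have e6 : PP e k₂ ((a - 1) • y + r₁ • w₁) = 0 := by
    rw [map_add, map_smul, map_smul, PP_other hD he (Ne.symm hk₂j) hyD, PP_other hD he (Ne.symm hk₂) hw₁, smul_zero, smul_zero, add_zero]
  have e7 : PP e j ((a - 1) • y + r₁ • w₁) = (a - 1) • y := by
    rw [map_add, map_smul, map_smul, PP_self hD he hyD, PP_other hD he hk₁ hw₁, smul_zero, add_zero]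
  rw [hr₂' e6, e7, map_smul, h1, zero_smul, add_zero, smul_eq_mul, mul_one] at hr₂
  have ha1' : a - 1 ≠ 0 := sub_ne_zero.2 ha1
  exact ⟨_, (D j).smul_mem _ hyD, smul_ne_zero (mul_ne_zero ha1' ha1') hj, hr₂⟩

/-- one functional on another block -/
theorem stepB (hD : IsMDecomposition m D) {e : Basis (Fin t × Fin m) F (Fin n → F)} (he : ∀ k, e k ∈ D k.1) (hm : 2 ≤ m)
    (hM : decompositionStabilizer D ⊓ specialLinear (Fin n) F ≤ M) {z : Fin n → F} {ψ : (Fin n → F) →ₗ[F] F} (hT : T M z ψ)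
    {j l : Fin t} (hjl : j ≠ l) (hz : z ∈ D j) (hl : ∃ x ∈ D l, ψ x ≠ 0) : ∃ χ, Bl D l χ ∧ χ ≠ 0 ∧ T M z χ := by
  obtain ⟨w, hw, hψ⟩ := hl
  obtain ⟨w₂, hw₂, hns⟩ := exists_notMem (D l) (by rw [hD.finrank_eq]; exact hm) w
  obtain ⟨φ, h1, h2⟩ := exists_functional (Submodule.span F {w}) w₂ hns
  have h3 : (φ.comp (PP e l)) w = 0 := by
    rw [LinearMap.comp_apply, PP_self hD he hw]
    exact h2 w (Submodule.mem_span_singleton_self w)
  have h4 := T.comm ((T_dec hD hw (Bl_comp hD he l φ) h3).mono hM) hT (Bl_comp hD he l φ j hjl z hz)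
  refine ⟨_, fun i hi x hx => ?_, fun h0 => ?_, h4⟩
  · rw [LinearMap.smul_apply, Bl_comp hD he l φ i hi x hx, smul_zero]
  · have h5 := congrArg (fun f : (Fin n → F) →ₗ[F] F => f w₂) h0
    simp only [LinearMap.smul_apply, LinearMap.comp_apply, LinearMap.zero_apply] at h5
    rw [PP_self hD he hw₂, h1, smul_eq_mul, mul_one] at h5
    exact hψ h5

/-- all centres on the block -/
theorem stepC1 (hD : IsMDecomposition m D) {e : Basis (Fin t × Fin m) F (Fin n → F)} (he : ∀ k, e k ∈ D k.1) (hm : 2 ≤ m)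
    (hM : decompositionStabilizer D ⊓ specialLinear (Fin n) F ≤ M) {z : Fin n → F} {χ : (Fin n → F) →ₗ[F] F} (hT : T M z χ)
    {j l : Fin t} (hjl : j ≠ l) (hz : z ∈ D j) (hz0 : z ≠ 0) (hχ : Bl D l χ) : ∀ w ∈ D j, T M w χ := by
  have key : ∀ z ∈ D j, T M z χ → ∀ w ∈ D j, z ∉ Submodule.span F {w} → T M w χ := by
    intro z hz hT w hw hns
    obtain ⟨φ, h1, h2⟩ := exists_functional (Submodule.span F {w}) z hns
    have h3 : (φ.comp (PP e j)) w = 0 := by
      rw [LinearMap.comp_apply, PP_self hD he hw]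
      exact h2 w (Submodule.mem_span_singleton_self w)
    have h4 := T.comm hT ((T_dec hD hw (Bl_comp hD he j φ) h3).mono hM) (hχ j hjl w hw)
    rw [LinearMap.comp_apply, PP_self hD he hz, h1, one_smul] at h4
    exact h4
  intro w hw
  by_cases h : z ∈ Submodule.span F {w}
  · obtain ⟨w₁, hw₁, hns⟩ := exists_notMem (D j) (by rw [hD.finrank_eq]; exact hm) z
    obtain ⟨c, hc⟩ := Submodule.mem_span_singleton.1 h
    have hc0 : c ≠ 0 := by
      rintro rfl
      rw [zero_smul] at hc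
      exact hz0 hc.symm
    refine key w₁ hw₁ (key z hz hT w₁ hw₁ (fun h' => ?_)) w hw (fun h' => ?_)
    · obtain ⟨d, hd⟩ := Submodule.mem_span_singleton.1 h'
      have hd0 : d ≠ 0 := by
        rintro rfl
        rw [zero_smul] at hd
        exact hz0 hd.symm
      apply hns
      rw [Submodule.mem_span_singleton]
      exact ⟨d⁻¹, by rw [← hd, smul_smul, inv_mul_cancel₀ hd0, one_smul]⟩
    · obtain ⟨d, hd⟩ := Submodule.mem_span_singleton.1 h'
      apply hns
      rw [Submodule.mem_span_singleton]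
      exact ⟨d * c⁻¹, by rw [← hd, ← hc, smul_smul, mul_assoc, inv_mul_cancel₀ hc0, mul_one]⟩
  · exact key z hz hT w hw h

/-- all functionals on the block -/
theorem stepC2 (hD : IsMDecomposition m D) {e : Basis (Fin t × Fin m) F (Fin n → F)} (he : ∀ k, e k ∈ D k.1)
    (hM : decompositionStabilizer D ⊓ specialLinear (Fin n) F ≤ M) {χ₀ : (Fin n → F) →ₗ[F] F}
    {j l : Fin t} (hjl : j ≠ l) (hχ₀ : Bl D l χ₀) (hne : χ₀ ≠ 0) (hT : ∀ w ∈ D j, T M w χ₀) :
    ∀ w ∈ D j, ∀ χ, Bl D l χ → T M w χ := by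
  intro z hz χ hχ
  by_cases h : ∃ w ∈ D l, χ w = 0 ∧ χ₀ w ≠ 0
  · obtain ⟨w, hw, h1, h2⟩ := h
    have h3 := T.comm ((T_dec hD hw hχ h1).mono hM) (hT ((χ₀ w)⁻¹ • z) ((D j).smul_mem _ hz)) (hχ j hjl _ ((D j).smul_mem _ hz))
    rw [T_smul_iff, smul_smul, inv_mul_cancel₀ h2, one_smul] at h3
    exact h3
  · push Not at h
    obtain ⟨w₁, hw₁, h1⟩ : ∃ w ∈ D l, χ₀ w ≠ 0 := by
      by_contra hcon
      push Not at hcon
      apply hne
      refine e.ext (fun k => ?_)
      rw [LinearMap.zero_apply]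
      by_cases hk : k.1 = l
      · exact hcon _ (by rw [← hk]; exact he k)
      · exact hχ₀ k.1 hk _ (he k)
    have h2 : χ w₁ ≠ 0 := fun h0 => h1 (h w₁ hw₁ h0)
    have h3 : χ = (χ w₁ / χ₀ w₁) • χ₀ := by
      refine e.ext (fun k => ?_)
      rw [LinearMap.smul_apply]
      by_cases hk : k.1 = l
      · have hkD : e k ∈ D l := by rw [← hk]; exact he k
        have h4 := h (e k - (χ (e k) / χ w₁) • w₁) ((D l).sub_mem hkD ((D l).smul_mem _ hw₁)) (by
          rw [map_sub, map_smul, smul_eq_mul, div_mul_cancel₀ _ h2, sub_self])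
        rw [map_sub, map_smul, smul_eq_mul, sub_eq_zero] at h4
        rw [h4, smul_eq_mul]
        field_simp
      · rw [hχ k.1 hk _ (he k), hχ₀ k.1 hk _ (he k), smul_zero]
    rw [h3, ← T_smul_iff]
    exact hT _ ((D j).smul_mem _ hz)

theorem map_mem (hD : IsMDecomposition m D) {e : Basis (Fin t × Fin m) F (Fin n → F)} (he : ∀ k, e k ∈ D k.1)
    {g : GL (Fin n) F} {i i' : Fin t} (h : ∀ a, (g : Matrix (Fin n) (Fin n) F) *ᵥ e (i, a) ∈ D i') :
    ∀ x ∈ D i, (g : Matrix (Fin n) (Fin n) F) *ᵥ x ∈ D i' := by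
  intro x hx
  rw [spanD hD e he i] at hx
  induction hx using Submodule.span_induction with
  | mem x h' =>
    obtain ⟨a, rfl⟩ := h'
    exact h a
  | zero => rw [mulVec_zero]; exact (D i').zero_mem
  | add x y _ _ h1 h2 => rw [mulVec_add]; exact (D i').add_mem h1 h2
  | smul c x _ h => rw [mulVec_smul]; exact (D i').smul_mem _ h

theorem map_eq (hD : IsMDecomposition m D) {g : GL (Fin n) F} {i i' : Fin t}
    (h : ∀ x ∈ D i, (g : Matrix (Fin n) (Fin n) F) *ᵥ x ∈ D i') : ∀ z ∈ D i', ∃ v ∈ D i, (g : Matrix (Fin n) (Fin n) F) *ᵥ v = z := by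
  intro z hz
  have hle : (D i).map (linE g : (Fin n → F) →ₗ[F] (Fin n → F)) ≤ D i' := by
    rintro _ ⟨x, hx, rfl⟩
    exact h x hx
  have h1 : (D i).map (linE g : (Fin n → F) →ₗ[F] (Fin n → F)) = D i' := by
    refine Submodule.eq_of_le_of_finrank_eq hle ?_
    rw [hD.finrank_eq, LinearEquiv.finrank_map_eq, hD.finrank_eq]
  rw [← h1] at hz
  obtain ⟨v, hv, hv'⟩ := hz
  exact ⟨v, hv, hv'⟩

/-- moving the pair of blocks -/
theorem stepC3 (hD : IsMDecomposition m D) {e : Basis (Fin t × Fin m) F (Fin n → F)} (he : ∀ k, e k ∈ D k.1)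
    (hM : decompositionStabilizer D ⊓ specialLinear (Fin n) F ≤ M)
    {j l : Fin t} (hjl : j ≠ l) (hT : ∀ w ∈ D j, ∀ χ, Bl D l χ → T M w χ) {j' l' : Fin t} (hjl' : j' ≠ l') :
    ∀ w ∈ D j', ∀ χ, Bl D l' χ → T M w χ := by
  classical
  obtain ⟨σ, hσj, hσl⟩ : ∃ σ : Equiv.Perm (Fin t), σ j = j' ∧ σ l = l' := by
    refine ⟨Equiv.swap (Equiv.swap j j' l) l' * Equiv.swap j j', ?_, ?_⟩
    · rw [Equiv.Perm.mul_apply, Equiv.swap_apply_left, Equiv.swap_apply_of_ne_of_ne _ hjl']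
      intro h
      apply hjl
      have : Equiv.swap j j' j = Equiv.swap j j' l := by rw [Equiv.swap_apply_left]; exact h
      exact (Equiv.swap j j').injective this
    · rw [Equiv.Perm.mul_apply, Equiv.swap_apply_left]
  let τ : Equiv.Perm (Fin t × Fin m) := Equiv.prodCongr σ (Equiv.refl (Fin m))
  let s : Fˣ := Units.map (Int.castRingHom F : ℤ →* F) (Equiv.Perm.sign τ)
  have hs : (s : F) = (((Equiv.Perm.sign τ : ℤˣ) : ℤ) : F) := rfl
  have hss : (s : F) * s = 1 := by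
    rw [hs, ← Int.cast_mul, ← Units.val_mul, Int.units_mul_self]
    simp
  let p₀ : Fin t × Fin m := (j, ⟨0, hD.pos⟩)
  obtain ⟨g, hg, hgx⟩ := mono_GL e τ (Function.update 1 p₀ s) (by
    rw [← hs, ← Finset.mul_prod_erase Finset.univ _ (Finset.mem_univ p₀), Function.update_self,
      Finset.prod_eq_one (fun k hk => by
        rw [Finset.mem_erase] at hk
        rw [Function.update_of_ne hk.1]
        rfl), mul_one, hss])
  have hgD : ∀ i, ∀ x ∈ D i, (g : Matrix (Fin n) (Fin n) F) *ᵥ x ∈ D (σ i) := by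
    intro i
    refine map_mem hD he (fun a => ?_)
    rw [hgx]
    exact (D (σ i)).smul_mem _ (he (τ (i, a)))
  have hgM : g ∈ M := hM ⟨mem_dec hD g σ hgD, hg⟩
  intro w hw χ hχ
  obtain ⟨v, hv, rfl⟩ := map_eq hD (hgD j) w (by rw [hσj]; exact hw)
  apply T.conj' hgM
  refine hT v hv _ (fun i hi x hx => ?_)
  rw [LinearMap.comp_apply, lin_apply]
  exact hχ (σ i) (fun h => hi (σ.injective (by rw [h, hσl]))) _ (hgD i x hx)

theorem stepD (hD : IsMDecomposition m D) {e : Basis (Fin t × Fin m) F (Fin n → F)} (he : ∀ k, e k ∈ D k.1)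
    (hM : decompositionStabilizer D ⊓ specialLinear (Fin n) F ≤ M)
    (hT : ∀ j l : Fin t, j ≠ l → ∀ w ∈ D j, ∀ χ, Bl D l χ → T M w χ) : specialLinear (Fin n) F ≤ M := by
  classical
  apply SL_le_of_ctr
  rw [eq_top_iff, ← hD.iSup_eq_top]
  refine iSup_le (fun j v hv φ hφ => ?_)
  have h1 : φ = ∑ l, φ.comp (PP e l) := by
    refine LinearMap.ext (fun x => ?_)
    rw [LinearMap.sum_apply]
    simp only [LinearMap.comp_apply]
    rw [← map_sum, PP_sum]
  have h2 : ∀ l, T M v (φ.comp (PP e l)) := by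
    intro l
    by_cases hjl : j = l
    · subst hjl
      exact (T_dec hD hv (Bl_comp hD he j φ) (by rw [LinearMap.comp_apply, PP_self hD he hv, hφ])).mono hM
    · exact hT j l hjl v hv _ (Bl_comp hD he l φ)
  have h3 : ∀ s : Finset (Fin t), T M v (∑ l ∈ s, φ.comp (PP e l)) := by
    intro s
    induction s using Finset.induction_on with
    | empty => rw [Finset.sum_empty]; exact T_zero_right v
    | insert a s ha ih => rw [Finset.sum_insert ha]; exact (h2 a).add_right ih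
  rw [h1]
  exact h3 _

/-- elements outside the stabiliser -/
theorem exists_bad (hD : IsMDecomposition m D) {e : Basis (Fin t × Fin m) F (Fin n → F)} (he : ∀ k, e k ∈ D k.1)
    {g : GL (Fin n) F} (hg : g ∉ decompositionStabilizer D) : ∃ i, ∃ v ∈ D i, ∃ j₁ j₂, j₁ ≠ j₂ ∧
      PP e j₁ ((g : Matrix (Fin n) (Fin n) F) *ᵥ v) ≠ 0 ∧ PP e j₂ ((g : Matrix (Fin n) (Fin n) F) *ᵥ v) ≠ 0 := by
  classical
  by_contra hcon
  push Not at hcon
  have h1 : ∀ i, ∃ j, ∀ x ∈ D i, (g : Matrix (Fin n) (Fin n) F) *ᵥ x ∈ D j := by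
    intro i
    obtain ⟨v₀, hv₀, hv0⟩ := exists_ne0 (D i) (by rw [hD.finrank_eq]; exact hD.pos)
    obtain ⟨j, hj⟩ : ∃ j, PP e j ((g : Matrix (Fin n) (Fin n) F) *ᵥ v₀) ≠ 0 := by
      by_contra hc
      push Not at hc
      apply hv0
      apply mulVec_inj (g := g)
      rw [mulVec_zero, ← PP_sum e ((g : Matrix (Fin n) (Fin n) F) *ᵥ v₀)]
      exact Finset.sum_eq_zero (fun l _ => hc l)
    refine ⟨j, fun x hx => ?_⟩
    have h2 : ∀ l, l ≠ j → PP e l ((g : Matrix (Fin n) (Fin n) F) *ᵥ x) = 0 := by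
      intro l hl
      by_contra h3
      have h4 : PP e j ((g : Matrix (Fin n) (Fin n) F) *ᵥ x) = 0 := hcon i x hx l j hl h3
      have h5 : PP e l ((g : Matrix (Fin n) (Fin n) F) *ᵥ v₀) = 0 := hcon i v₀ hv₀ j l (Ne.symm hl) hj
      have h6 := hcon i (x + v₀) ((D i).add_mem hx hv₀) l j hl (by rw [mulVec_add, map_add, h5, add_zero]; exact h3)
      rw [mulVec_add, map_add, h4, zero_add] at h6
      exact hj h6
    rw [← PP_sum e ((g : Matrix (Fin n) (Fin n) F) *ᵥ x), Finset.sum_eq_single j (fun l _ hl => h2 l hl)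
      (fun h => absurd (Finset.mem_univ _) h)]
    exact PP_mem he j _
  choose s hs using h1
  have hinj : Function.Injective s := by
    intro i i' hii
    by_contra hne
    obtain ⟨v₀, hv₀, hv0⟩ := exists_ne0 (D i) (by rw [hD.finrank_eq]; exact hD.pos)
    obtain ⟨v, hv, hv'⟩ := map_eq hD (hs i') ((g : Matrix (Fin n) (Fin n) F) *ᵥ v₀) (by rw [← hii]; exact hs i v₀ hv₀)
    have h3 := mulVec_inj hv'
    apply hv0
    rw [← PP_self hD he hv₀, ← h3]
    exact PP_other hD he (Ne.symm hne) hv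
  exact hg (mem_dec hD g (Equiv.ofBijective s (Finite.injective_iff_bijective.1 hinj)) hs)

/-- blocks of dimension at least two -/
theorem main2 (hn : 13 ≤ n) (hD : IsMDecomposition m D) (hm : 2 ≤ m) (hq : m = 2 → ∃ a : F, a ≠ 0 ∧ a ≠ 1)
    (hM : decompositionStabilizer D ⊓ specialLinear (Fin n) F ≤ M) {g : GL (Fin n) F} (hg : g ∈ M)
    (hgn : g ∉ decompositionStabilizer D) : specialLinear (Fin n) F ≤ M := by
  classical
  obtain ⟨e, he⟩ := exists_basis hD
  have hnt : t * m = n := by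
    have h1 := Module.finrank_eq_card_basis e
    rw [Module.finrank_fintype_fun_eq_card, Fintype.card_prod, Fintype.card_fin, Fintype.card_fin, Fintype.card_fin] at h1
    exact h1.symm
  have hq' : 3 ≤ m ∨ (3 ≤ t ∧ ∃ a : F, a ≠ 0 ∧ a ≠ 1) := by
    by_cases h : 3 ≤ m
    · exact Or.inl h
    · have h2 : m = 2 := by omega
      refine Or.inr ⟨?_, hq h2⟩
      subst h2
      omega
  obtain ⟨i, v, hv, j₁, j₂, hj, h1, h2⟩ := exists_bad hD he hgn
  -- a transvection with centre v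
  obtain ⟨w₂, hw₂, hns⟩ := exists_notMem (D i) (by rw [hD.finrank_eq]; exact hm) v
  obtain ⟨φ, hφ1, hφ2⟩ := exists_functional (Submodule.span F {v}) w₂ hns
  have h3 : (φ.comp (PP e i)) v = 0 := by
    rw [LinearMap.comp_apply, PP_self hD he hv]
    exact hφ2 v (Submodule.mem_span_singleton_self v)
  have hT := ((T_dec hD hv (Bl_comp hD he i φ) h3).mono hM).conj hg
  have hψ0 : (φ.comp (PP e i)) ∘ₗ lin g⁻¹ ≠ 0 := by
    intro h0
    have h4 := congrArg (fun f : (Fin n → F) →ₗ[F] F => f ((g : Matrix (Fin n) (Fin n) F) *ᵥ w₂)) h0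
    simp only [LinearMap.comp_apply, LinearMap.zero_apply, lin_apply] at h4
    rw [inv_mulVec_self, PP_self hD he hw₂, hφ1] at h4
    exact one_ne_zero h4
  generalize (φ.comp (PP e i)) ∘ₗ lin g⁻¹ = ψ at hT hψ0
  generalize (g : Matrix (Fin n) (Fin n) F) *ᵥ v = u at *
  obtain ⟨k, hk⟩ : ∃ k, ψ (e k) ≠ 0 := by
    by_contra hcon
    push Not at hcon
    exact hψ0 (e.ext (fun k => by rw [hcon k]; rfl))
  obtain ⟨j, hjk, hju⟩ : ∃ j, j ≠ k.1 ∧ PP e j u ≠ 0 := by
    by_cases h : j₁ = k.1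
    · exact ⟨j₂, fun h' => hj (by rw [h, h']), h2⟩
    · exact ⟨j₁, h, h1⟩
  obtain ⟨z, hz, hz0, hTz⟩ := stepA hD he hm hq' hM hT hju
  obtain ⟨χ, hχ, hχ0, hTχ⟩ := stepB hD he hm hM hTz hjk hz ⟨e k, he k, hk⟩
  have h5 := stepC2 hD he hM hjk hχ hχ0 (stepC1 hD he hm hM hTχ hjk hz hz0 hχ)
  exact stepD hD he hM (fun j' l' hjl' => stepC3 hD he hM hjk h5 hjl')

end Cfsg.Agent.H21.GV
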