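import Mathlib
import Cfsg.Prelude.Def_Blocks
import Cfsg.Agent.H10_BlockHZ
import Cfsg.Agent.H10_BlockSMT2
import Cfsg.Agent.H26_Defect
import Cfsg.Agent.S0169

/-!
H10_BlockAbD: normal defect groups and height zero.
-/

set_option autoImplicit false
set_option linter.style.haveILetI false
set_option linter.unusedSectionVars false

namespace Cfsg.Agent.H10.BlockAbD

open Cfsg Cfsg.Agent.H3.CharIrr Cfsg.Agent.H3.CharComplete Cfsg.Agent.H3.CharInd Cfsg.Agent.H3.CharBasic
  Cfsg.Agent.H3.Clifford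
  Cfsg.Agent.H10.BlockLoc
  Cfsg.Agent.H10.Char Cfsg.Agent.H10.BlockAlg Cfsg.Agent.H10.BlockIdem Cfsg.Agent.H10.BlockNormal
  Cfsg.Agent.H10.BlockOrth Cfsg.Agent.H10.BlockDefect Cfsg.Agent.H10.BlockMain Cfsg.Agent.H10.BlockHZ
open scoped ComplexConjugate

variable {G : Type*} [Group G] [Fintype G] {p : ℕ} {M : Ideal AlgInt}

/-- groups all of whose irreducible characters are linear are commutative -/
theorem comm_of_linear (h : ∀ χ : IrrCharacter G, (χ : G → ℂ) 1 = 1) (a b : G) : a * b = b * a := by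
  classical
  haveI : Fintype (IrrCharacter G) := Fintype.ofFinite _
  have h1 := sum_one_mul (a * b * (b * a)⁻¹)
  have h2 : ∀ χ : IrrCharacter G, (χ : G → ℂ) (a * b * (b * a)⁻¹) = 1 := by
    intro χ
    obtain ⟨f, hf⟩ := IsChar.hom_of_one (isChar_of_irr χ.2) (h χ)
    have h2 : f ((b * a) * (b * a)⁻¹) = 1 := by rw [mul_inv_cancel, map_one]
    rw [hf, map_mul, map_mul, mul_comm (f a), ← map_mul, ← map_mul, h2]
  by_contra hne
  rw [if_neg (fun h3 => hne (mul_inv_eq_one.1 h3)), Finset.sum_congr rfl (fun χ _ => by rw [h2, h, one_mul])] at h1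
  rw [Finset.sum_const, Finset.card_univ, ← Nat.card_eq_fintype_card, nsmul_eq_mul, mul_one, Nat.cast_eq_zero] at h1
  haveI : Nonempty (IrrCharacter G) := ⟨⟨fun _ => 1, isIrr_one⟩⟩
  exact Nat.card_pos.ne' h1

/-- every irreducible character of a p-subgroup lies under a character of a given block -/
theorem exists_over_p [hp : Fact p.Prime] (hM : IsPModular p M) {B : Set (IrrCharacter G)} (hB : IsPBlock M B)
    (P : Subgroup G) [Fintype P] (hP : IsPGroup p P) (l : IrrCharacter P) :
    ∃ χ ∈ B, classInner (fun u : P => (χ : G → ℂ) u) (l : P → ℂ) ≠ 0 := by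
  classical
  haveI := hM.2.1
  haveI : Fintype (IrrCharacter G) := Fintype.ofFinite _
  by_contra hno
  push Not at hno
  have h1 : ∑ χ : IrrCharacter G, (if χ ∈ B then (χ : G → ℂ) 1 * ((Nat.card P : ℂ) *
      classInner (fun u : P => (χ : G → ℂ) u) (l : P → ℂ)) else 0) = 0 := by
    refine Finset.sum_eq_zero fun χ _ => ?_
    split_ifs with h
    · rw [hno χ h, mul_zero, mul_zero]
    · rfl
  have h2 : ∑ χ : IrrCharacter G, (if χ ∈ B then (χ : G → ℂ) 1 * ((Nat.card P : ℂ) *
      classInner (fun u : P => (χ : G → ℂ) u) (l : P → ℂ)) else 0) =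
      ∑ u : P, conj ((l : P → ℂ) u) * ∑ χ : IrrCharacter G, (if χ ∈ B then (χ : G → ℂ) u * (χ : G → ℂ) 1 else 0) := by
    simp_rw [Finset.mul_sum]
    rw [Finset.sum_comm]
    refine Finset.sum_congr rfl fun χ _ => ?_
    by_cases h : χ ∈ B
    · simp only [if_pos h]
      rw [classInner, ← mul_assoc (Nat.card P : ℂ), mul_inv_cancel₀ (Nat.cast_ne_zero.2 Nat.card_pos.ne'), one_mul,
        Finset.mul_sum]
      exact Finset.sum_congr rfl fun u _ => by ring
    · simp only [if_neg h, mul_zero, Finset.sum_const_zero]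
  rw [h2, Finset.sum_eq_single 1] at h1
  · rw [Subgroup.coe_one] at h1
    obtain ⟨n, hn, hn1⟩ := irr_one l.2
    rw [hn1, map_natCast] at h1
    have h3 := (mul_eq_zero.1 h1).resolve_left (Nat.cast_ne_zero.2 hn.ne')
    have h4 : ((∑ χ : IrrCharacter G, (if χ ∈ B then charDegree (χ : G → ℂ) * charDegree (χ : G → ℂ) else 0) : ℕ) : ℂ) = 0 := by
      push_cast
      refine Eq.trans (Finset.sum_congr rfl fun χ _ => ?_) h3
      rw [charDegree_eq χ.2]
    rw [Nat.cast_eq_zero, Finset.sum_eq_zero_iff] at h4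
    obtain ⟨χ, hχ⟩ := block_nonempty hB
    have h5 := h4 χ (Finset.mem_univ _)
    rw [if_pos hχ] at h5
    have := charDegree_pos χ.2
    have h6 := Nat.mul_pos this this
    omega
  · intro u _ hu
    have hu2 : p ∣ orderOf (u : G) := by
      obtain ⟨k, hk⟩ := (IsPGroup.iff_orderOf.1 hP) u
      rw [Subgroup.orderOf_coe, hk]
      apply dvd_pow_self
      rintro rfl
      rw [pow_zero, orderOf_eq_one_iff] at hk
      exact hu hk
    rw [weak_orth' hM hB 1 (u : G) (by rw [orderOf_one, Nat.dvd_one]; exact hp.out.one_lt.ne') hu2, mul_zero]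
  · intro h; exact absurd (Finset.mem_univ _) h

theorem normal_defect [hp : Fact p.Prime] (hM : IsPModular p M) {B : Set (IrrCharacter G)} (hB : IsPBlock M B)
    (P : Subgroup G) [hPn : P.Normal] (hP : IsDefectGroup p M B P) :
    (∀ a ∈ P, ∀ c ∈ P, a * c = c * a) ↔ ∀ χ ∈ B, blockHeight p B (χ : G → ℂ) = 0 := by
  classical
  haveI := hM.2.1
  obtain ⟨g, hg, hPg⟩ := isDefectGroup_iff.1 hP
  have hPp : IsPGroup p P := hPg.isPGroup
  have hidx : (Subgroup.centralizer ({g} : Set G)).index.factorization p = P.index.factorization p := by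
    have h1 := (Subgroup.centralizer ({g} : Set G)).card_mul_index
    have h2 := P.card_mul_index
    have h3 : (Nat.card (Subgroup.centralizer ({g} : Set G)) * (Subgroup.centralizer ({g} : Set G)).index).factorization p =
      (Nat.card P * P.index).factorization p := by rw [h1, h2]
    rw [Nat.factorization_mul Nat.card_pos.ne' Subgroup.index_ne_zero_of_finite,
      Nat.factorization_mul Nat.card_pos.ne' Subgroup.index_ne_zero_of_finite, Finsupp.add_apply, Finsupp.add_apply,
      hPg.card, Nat.factorization_pow, Finsupp.smul_apply, Nat.Prime.factorization_self hp.out, smul_eq_mul, mul_one] at h3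
    omega
  constructor
  · intro hab χ hχ
    rw [blockHeight_eq_zero_iff hM hB hg hχ, hidx]
    apply le_antisymm
    · obtain ⟨n, ρ, hρ, hρχ⟩ := χ.2
      have h1 := Cfsg.Agent.S0169.result ρ P hab
      have h2 : charDegree (χ : G → ℂ) = Module.finrank ℂ (Fin n → ℂ) := by
        have h3 : ((charDegree (χ : G → ℂ) : ℕ) : ℂ) = ((Module.finrank ℂ (Fin n → ℂ) : ℕ) : ℂ) := by
          rw [charDegree_eq χ.2, ← hρχ, Representation.char_one]
        exact_mod_cast h3
      rw [h2]
      exact (Nat.factorization_le_iff_dvd (by rw [← h2]; exact (charDegree_pos χ.2).ne') Subgroup.index_ne_zero_of_finite).2 h1 p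
    · rw [← hidx, ← sInf_eq hM hB hg]
      exact Nat.sInf_le ⟨χ, hχ, rfl⟩
  · intro hht
    haveI : Fintype P := Fintype.ofFinite _
    have hlin : ∀ l : IrrCharacter P, (l : P → ℂ) 1 = 1 := by
      intro l
      obtain ⟨χ, hχ, hl⟩ := exists_over_p hM hB P hPp l
      have hval := height_zero_value hM hB hg (Commute.one_left g) ⟨0, by rw [orderOf_one, pow_zero]⟩ hχ (hht χ hχ)
      rw [one_mul] at hval
      obtain ⟨μ, hμ⟩ := Cfsg.Agent.H26.Defect.exists_linear_constituent hM (isChar_of_irr χ.2) hval P hPp hPg.le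
      obtain ⟨x, hx⟩ := eq_cj_of_constituents hPn χ.2 (isIrr_of_hom_units μ) l.2 hμ hl
      rw [hx, cj_apply_one]
      simp
    intro a ha c hc
    exact congrArg Subtype.val (comm_of_linear hlin ⟨a, ha⟩ ⟨c, hc⟩)

end Cfsg.Agent.H10.BlockAbD
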