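import Mathlib
import Cfsg.Prelude.Def_Blocks
import Cfsg.Agent.H10_BlockMain
import Cfsg.Agent.H10_BlockOrth

/-!
H10_BlockCount: the number of blocks of large defect.
-/

set_option autoImplicit false
set_option linter.style.haveILetI false
set_option linter.unusedSectionVars false

namespace Cfsg.Agent.H10.BlockCount

open Cfsg Cfsg.Agent.H3.CharIrr Cfsg.Agent.H3.CharComplete Cfsg.Agent.H10.BlockLoc
  Cfsg.Agent.H10.Char Cfsg.Agent.H10.BlockAlg Cfsg.Agent.H10.BlockIdem Cfsg.Agent.H10.BlockNormal
  Cfsg.Agent.H10.BlockOrth Cfsg.Agent.H10.BlockDefect Cfsg.Agent.H10.BlockMain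

variable {G : Type*} [Group G] [Fintype G] {p : ℕ} {M : Ideal AlgInt}

/-- the p-part of the centralizer at a class where the central character is a unit -/
theorem defect_le_of_unit [hp : Fact p.Prime] (hM : IsPModular p M) {B : Set (IrrCharacter G)}
    (hB : IsPBlock M B) {h : G} {χ : IrrCharacter G} (hχ : χ ∈ B) (hh : ¬ MemLocalIdeal M (om χ (cs h))) :
    blockDefect p B ≤ (Nat.card (Subgroup.centralizer ({h} : Set G))).factorization p := by
  haveI := hM.2.1
  obtain ⟨D, hD⟩ := exists_defectGroup (p := p) hB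
  obtain ⟨h', hc, hh'⟩ := defect_centralizes hM hB hD hχ hh
  have hDp : IsPGroup p D := IsDefectGroup.isPGroup' hD
  obtain ⟨E, hE, hDE⟩ := exists_isCSyl_of_le hDp hh'
  have h1 : Nat.card D ≤ Nat.card E := Nat.card_mono (Set.toFinite _) hDE
  rw [card_defectGroup hM hB hD, IsCSyl.card hE, ← card_centralizer_eq_of_isConj hc] at h1
  exact (Nat.pow_le_pow_iff_right hp.out.one_lt).1 h1

theorem count [hp : Fact p.Prime] (hM : IsPModular p M) (d : ℕ) :
    Nat.card {B : Set (IrrCharacter G) // IsPBlock M B ∧ d ≤ blockDefect p B} ≤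
      Nat.card {C : ConjClasses G // ∃ g : G, ConjClasses.mk g = C ∧ IsPRegular p g ∧
        d ≤ (Nat.card (Subgroup.centralizer ({g} : Set G))).factorization p} := by
  classical
  haveI := hM.2.1
  letI := Ideal.Quotient.field M
  haveI : Fintype (ConjClasses G) := Fintype.ofFinite _
  haveI : Finite (IrrCharacter G) := inferInstance
  haveI : Fintype {B : Set (IrrCharacter G) // IsPBlock M B ∧ d ≤ blockDefect p B} := Fintype.ofFinite _
  haveI : Fintype {C : ConjClasses G // ∃ g : G, ConjClasses.mk g = C ∧ IsPRegular p g ∧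
        d ≤ (Nat.card (Subgroup.centralizer ({g} : Set G))).factorization p} := Fintype.ofFinite _
  set BB := {B : Set (IrrCharacter G) // IsPBlock M B ∧ d ≤ blockDefect p B}
  set CC := {C : ConjClasses G // ∃ g : G, ConjClasses.mk g = C ∧ IsPRegular p g ∧
        d ≤ (Nat.card (Subgroup.centralizer ({g} : Set G))).factorization p}
  choose c hc using fun B : BB => block_nonempty B.2.1
  let A : Matrix BB CC (AlgInt ⧸ M) := fun B C => res M ⟨blockCoeff B.1 (rep C.1), blockCoeff_mem B.2.1 _⟩
  let W : Matrix CC BB (AlgInt ⧸ M) := fun C B => res M ⟨om (c B) (cs (rep C.1)), om_cs_mem _ _⟩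
  have key : A * W = 1 := by
    ext B B'
    rw [Matrix.mul_apply]
    have h1 : ∀ C : CC, A B C * W C B' = res M ⟨blockCoeff B.1 (rep C.1) * om (c B') (cs (rep C.1)),
        ring_mul (blockCoeff_mem B.2.1 _) (om_cs_mem _ _)⟩ := by
      intro C
      rw [← map_mul]; rfl
    rw [Finset.sum_congr rfl (fun C _ => h1 C), ← map_sum]
    have h2 : ((∑ C : CC, (⟨blockCoeff B.1 (rep C.1) * om (c B') (cs (rep C.1)),
        ring_mul (blockCoeff_mem B.2.1 _) (om_cs_mem _ _)⟩ : locRing M) : locRing M) : ℂ) =
        ∑ C : CC, blockCoeff B.1 (rep C.1) * om (c B') (cs (rep C.1)) := by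
      push_cast; rfl
    have h3 : MemLocalIdeal M ((∑ C : CC, blockCoeff B.1 (rep C.1) * om (c B') (cs (rep C.1))) -
        om (c B') (eB B.1)) := by
      rw [om_eq_sum (c B') (eB B.1)]
      simp only [eB_coeff]
      have h4 : ∑ C : CC, blockCoeff B.1 (rep C.1) * om (c B') (cs (rep C.1)) =
          ∑ C ∈ Finset.univ.filter (fun C : ConjClasses G => ∃ g : G, ConjClasses.mk g = C ∧ IsPRegular p g ∧
            d ≤ (Nat.card (Subgroup.centralizer ({g} : Set G))).factorization p),
            blockCoeff B.1 (rep C) * om (c B') (cs (rep C)) := by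
        rw [Finset.sum_subtype (Finset.univ.filter (fun C : ConjClasses G => ∃ g : G, ConjClasses.mk g = C ∧ IsPRegular p g ∧
            d ≤ (Nat.card (Subgroup.centralizer ({g} : Set G))).factorization p)) (p := fun C => ∃ g : G, ConjClasses.mk g = C ∧ IsPRegular p g ∧
            d ≤ (Nat.card (Subgroup.centralizer ({g} : Set G))).factorization p) (by simp)]
      rw [h4, ← Finset.sum_filter_add_sum_filter_not Finset.univ (fun C : ConjClasses G => ∃ g : G, ConjClasses.mk g = C ∧ IsPRegular p g ∧
            d ≤ (Nat.card (Subgroup.centralizer ({g} : Set G))).factorization p) (fun C => blockCoeff B.1 (rep C) * om (c B') (cs (rep C))),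
            sub_add_cancel_left]
      apply ideal_neg
      refine ideal_sum _ _ fun C hC => ?_
      rw [Finset.mem_filter] at hC
      have hC2 := hC.2
      push Not at hC2
      by_cases hreg : p ∣ orderOf (rep C)
      · rw [blockCoeff_eq_zero hM B.2.1 _ hreg, zero_mul]; exact ideal_zero
      · refine ideal_mul_left (blockCoeff_mem B.2.1 _) ?_
        by_contra hno
        have h5 := defect_le_of_unit hM B'.2.1 (hc B') hno
        have h6 := hC2 (rep C) (mk_rep C) hreg
        have h7 := B'.2.2
        omega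
    by_cases hBB : B = B'
    · subst hBB
      rw [Matrix.one_apply_eq, ← map_one (res M), res_eq_iff, h2]
      rw [om_eB, if_pos (hc B)] at h3
      exact h3
    · rw [Matrix.one_apply_ne hBB, res_eq_zero_iff, h2]
      rw [om_eB, if_neg, sub_zero] at h3
      · exact h3
      · intro h
        exact hBB (Subtype.ext (block_eq_of_mem B.2.1 B'.2.1 h (hc B')))
  have h1 : (A * W).rank ≤ Fintype.card CC := (Matrix.rank_mul_le_left A W).trans (Matrix.rank_le_card_width A)
  rw [key, Matrix.rank_one] at h1
  rw [Nat.card_eq_fintype_card, Nat.card_eq_fintype_card]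
  exact h1

end Cfsg.Agent.H10.BlockCount
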