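import Mathlib
import Cfsg.Prelude.Def_Blocks
import Cfsg.Agent.H10_BlockFMT2

/-!
H10_BlockFMT3: S0929 - S0931, S0962.
-/

set_option autoImplicit false
set_option linter.style.haveILetI false
set_option linter.unusedSectionVars false

namespace Cfsg.Agent.H10.BlockFMT3

open Cfsg Cfsg.Agent.H3.CharIrr Cfsg.Agent.H3.CharComplete Cfsg.Agent.H3.CharInd
  Cfsg.Agent.H3.CharBasic Cfsg.Agent.H10.BlockLoc
  Cfsg.Agent.H10.BlockTrace Cfsg.Agent.H10.Char Cfsg.Agent.H10.BlockAlg Cfsg.Agent.H10.BlockIdem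
  Cfsg.Agent.H10.BlockOrth Cfsg.Agent.H10.BlockDefect Cfsg.Agent.H10.BlockNormal
  Cfsg.Agent.H10.BlockInd Cfsg.Agent.H10.BlockMain Cfsg.Agent.H10.PPart Cfsg.Agent.H10.BlockSMT
  Cfsg.Agent.H10.BlockSMT2 Cfsg.Agent.H10.BlockHZ Cfsg.Agent.H10.BlockFMT Cfsg.Agent.H10.BlockFMT2
open scoped ComplexConjugate

variable {G : Type*} [Group G] [Fintype G] {p : ℕ} {M : Ideal AlgInt}

/-- if the central character of ξ does not vanish mod M on a truncated class sum then the class
meets H in a class where it does not vanish -/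
theorem exists_class_of_om [M.IsMaximal] {z : ZC G} (hz : z ∈ ZI G M) {ξ : IrrCharacter G}
    (h : ¬ MemLocalIdeal M (om ξ z)) :
    ∃ g : G, ¬ MemLocalIdeal M ((z : MonoidAlgebra ℂ G).coeff g) ∧ ¬ MemLocalIdeal M (om ξ (cs g)) := by
  classical
  haveI : Fintype (ConjClasses G) := Fintype.ofFinite _
  by_contra hcon
  push Not at hcon
  apply h
  rw [om_eq_sum]
  apply ideal_sum
  intro C _
  by_cases hc : MemLocalIdeal M ((z : MonoidAlgebra ℂ G).coeff (rep C))
  · exact ideal_mul_right hc (om_cs_mem _ _)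
  · exact ideal_mul_left (hz _) (hcon _ hc)

/-- S0929 -/
theorem central_char_class [hp : Fact p.Prime] (hM : IsPModular p M) {B : Set (IrrCharacter G)} (hB : IsPBlock M B)
    {P : Subgroup G} (hP : IsDefectGroup p M B P) {g : G} {χ : IrrCharacter G} (hχ : χ ∈ B)
    (hg : ¬ MemLocalIdeal M (om χ (cs g))) :
    ∃ x : G, IsConj g x ∧ x ∈ Subgroup.centralizer (P : Set G) ∧
      ∀ z : G, IsPPart p x z → z ∈ P ∧ ∀ w ∈ P, z * w = w * z := by
  classical
  haveI := hM.2.1
  have hPp := IsDefectGroup.isPGroup' hP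
  set H : Subgroup G := P ⊔ Subgroup.centralizer (P : Set G) with hH
  haveI : Fintype H := Fintype.ofFinite _
  haveI : Fintype (IrrCharacter H) := Fintype.ofFinite _
  have hPH : P ≤ H := le_sup_left
  have hCH : Subgroup.centralizer (P : Set G) ≤ H := le_sup_right
  have hHN : H ≤ Subgroup.normalizer (P : Set G) :=
    sup_le Subgroup.le_normalizer (centralizer_le_normalizer P)
  obtain ⟨b, hb, hind⟩ := exists_inducing_of_le_defect P H hM hPp hPH hCH hHN hB hP (x := 1)
    (by rw [conj_map_one])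
  have hbD := defect_of_inducing hM hPp hPH hHN hB hP hind
  obtain ⟨ξ, hξ⟩ := block_nonempty hb
  have h1 := (isInducedBlock_iff_brauer P H hM hPp hPH hHN hb hB).1 hind ξ hξ χ hχ _ (cs_mem_ZI g)
  have h2 : ¬ MemLocalIdeal M (om ξ (truncC P H hHN (cs g))) := by
    intro hcon
    apply hg
    have := ideal_sub hcon h1
    rwa [sub_sub_cancel] at this
  obtain ⟨x, hx1, hx2⟩ := exists_class_of_om (truncC_mem P H hHN (cs_mem_ZI g)) h2
  rw [truncC_coeff] at hx1
  have hxC : (x : G) ∈ Subgroup.centralizer (P : Set G) := by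
    by_contra hnot
    rw [if_neg hnot] at hx1
    exact hx1 ideal_zero
  rw [if_pos hxC, cs_coeff] at hx1
  have hxg : IsConj g (x : G) := by
    by_contra hnot
    rw [if_neg hnot] at hx1
    exact hx1 ideal_zero
  refine ⟨x, hxg, hxC, ?_⟩
  intro z hz
  -- z lies in the centralizer of P
  have hzx : z ∈ Subgroup.zpowers (x : G) := ppart_mem_zpowers' hz
  have hzC : z ∈ Subgroup.centralizer (P : Set G) :=
    (Subgroup.zpowers_le.2 hxC) hzx
  have hzH : z ∈ H := hCH hzC
  -- the p-part of x in H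
  have hzH' : IsPPart p x (⟨z, hzH⟩ : H) := by
    obtain ⟨y, h1, h2, h3, h4⟩ := hz
    have hyH : y ∈ H := by
      have : y = z⁻¹ * x := by rw [← h1]; group
      rw [this]; exact H.mul_mem (H.inv_mem hzH) x.2
    refine ⟨⟨y, hyH⟩, Subtype.ext h1, Subtype.ext h2, ?_, ?_⟩
    · obtain ⟨k, hk⟩ := h3
      exact ⟨k, by rw [Subgroup.orderOf_mk]; exact hk⟩
    · rw [Subgroup.orderOf_mk]; exact h4
  -- some member of b does not vanish at x
  have hne : (ξ : H → ℂ) x ≠ 0 := by
    intro h0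
    apply hx2
    rw [om_cs]
    unfold centralChar
    rw [h0, mul_zero, zero_div]
    exact ideal_zero
  have hzD : z ∈ P := by
    by_contra hnot
    apply hne
    apply vanish_off_defect hM ξ hzH'
    intro E hE hzE
    rw [← block_eq_blockOf hb hξ] at hE
    obtain ⟨a, ha⟩ := defectGroup_conj hM hb hbD hE
    rw [ha, mem_conj_map, Subgroup.mem_subgroupOf] at hzE
    apply hnot
    have h5 : (a : G)⁻¹ * z * (a : G) ∈ P := hzE
    have h6 := Subgroup.mem_normalizer_iff.1 (hHN a.2) ((a : G)⁻¹ * z * (a : G))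
    have h7 := h6.1 h5
    have e : (a : G) * ((a : G)⁻¹ * z * (a : G)) * (a : G)⁻¹ = z := by group
    rwa [e] at h7
  refine ⟨hzD, fun w hw => ?_⟩
  exact (Subgroup.mem_centralizer_iff.1 hzC w hw).symm

/-- S0930 -/
theorem center_fusion [hp : Fact p.Prime] (hM : IsPModular p M) (H : Subgroup G) [Fintype H]
    {b : Set (IrrCharacter H)} {B : Set (IrrCharacter G)} (hind : IsInducedBlock M H b B)
    {D : Subgroup H} (hD : IsDefectGroup p M b D) {P : Subgroup G} (hP : IsDefectGroup p M B P)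
    {x : G} (hx : x ∈ P) (hxc : ∀ w ∈ P, x * w = w * x) :
    ∃ g : G, g * x * g⁻¹ ∈ D.map H.subtype ∧ ∀ w ∈ D.map H.subtype,
      (g * x * g⁻¹) * w = w * (g * x * g⁻¹) := by
  classical
  haveI := hM.2.1
  obtain ⟨y, hy, hPy⟩ := isDefectGroup_iff.1 hP
  obtain ⟨χ, hχ⟩ := block_nonempty hind.2.1
  obtain ⟨ξ, hξ⟩ := block_nonempty hind.1
  have h1 := central_section_unit hM hind.2.1 hy hPy hx hxc hχ
  rw [← om_cs] at h1
  have h2 := ((isInducedBlock_iff (M := M) H b B).1 hind).2.2 ξ hξ χ hχ _ (cs_mem_ZI (x * y))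
  have h3 : ¬ MemLocalIdeal M (om ξ (truncZ H (cs (x * y)))) := by
    intro hcon
    apply h1
    have := ideal_sub hcon h2
    rwa [sub_sub_cancel] at this
  obtain ⟨k, hk1, hk2⟩ := exists_class_of_om (truncZ_mem H (cs_mem_ZI (x * y))) h3
  rw [truncZ_coeff, cs_coeff] at hk1
  have hkc : IsConj (x * y) (k : G) := by
    by_contra hnot
    rw [if_neg hnot] at hk1
    exact hk1 ideal_zero
  obtain ⟨l, hl1, hl2, hl3⟩ := central_char_class hM hind.1 hD hξ hk2
  obtain ⟨z, hz⟩ := ppart_exists (p := p) l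
  obtain ⟨hzD, hzc⟩ := hl3 z hz
  -- p-part of l in G
  have hzG : IsPPart p (l : G) (z : G) := by
    obtain ⟨y, h1, h2, h3, h4⟩ := hz
    refine ⟨y, congrArg Subtype.val h1, congrArg Subtype.val h2, ?_, ?_⟩
    · rwa [Subgroup.orderOf_coe]
    · rwa [Subgroup.orderOf_coe]
  have hlc : IsConj (x * y) (l : G) := by
    obtain ⟨a, ha⟩ := isConj_iff.1 hl1
    refine hkc.trans (isConj_iff.2 ⟨a, ?_⟩)
    exact congrArg Subtype.val ha
  obtain ⟨g, hg⟩ := isConj_iff.1 hlc
  have hxy : Commute x y := Subgroup.mem_centralizer_singleton_iff.1 (hPy.le hx)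
  have hxp : ∃ k : ℕ, orderOf x = p ^ k := by
    obtain ⟨k, hk⟩ := IsPGroup.iff_orderOf.1 hPy.isPGroup ⟨x, hx⟩
    exact ⟨k, by rwa [← Subgroup.orderOf_mk x hx]⟩
  have h5 := conj_ppart (mk_ppart hxy hxp (defectClass_regular hM hind.2.1 hy)) g
  rw [hg] at h5
  have h6 : g * x * g⁻¹ = z := ppart_unique h5 hzG
  refine ⟨g, ?_, ?_⟩
  · rw [h6]; exact ⟨z, hzD, rfl⟩
  · rintro w ⟨w', hw', rfl⟩
    rw [h6]
    exact congrArg Subtype.val (hzc w' hw')

/-- S0931 -/
theorem induced_defect_zero [hp : Fact p.Prime] (hM : IsPModular p M) (H : Subgroup G) [Fintype H]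
    {b : Set (IrrCharacter H)} {B : Set (IrrCharacter G)} (hind : IsInducedBlock M H b B) :
    blockDefect p b = 0 ↔ blockDefect p B = 0 := by
  haveI := hM.2.1
  obtain ⟨D, hD⟩ := exists_defectGroup (p := p) hind.1
  obtain ⟨E, hE, hDE⟩ := induced_defect_le hM H hind hD
  have h1 := card_defectGroup hM hind.1 hD
  have h2 := card_defectGroup hM hind.2.1 hE
  constructor
  · intro h
    rw [h, pow_zero] at h1
    have hDbot : D = ⊥ := Subgroup.card_eq_one.1 h1
    have hE1 : E = ⊥ := by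
      by_contra hne
      have hEp := IsDefectGroup.isPGroup' hE
      haveI : Nontrivial E := (Subgroup.nontrivial_iff_ne_bot E).2 hne
      haveI := hEp.center_nontrivial
      obtain ⟨⟨z, hz⟩, hz1⟩ := exists_ne (1 : Subgroup.center E)
      rw [Subgroup.mem_center_iff] at hz
      obtain ⟨g, hg, _⟩ := center_fusion hM H hind hD hE z.2 (fun w hw => by
        have := hz ⟨w, hw⟩
        exact (congrArg Subtype.val this).symm)
      rw [hDbot, Subgroup.map_bot, Subgroup.mem_bot] at hg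
      apply hz1
      apply Subtype.ext
      apply Subtype.ext
      have : (z : G) = g⁻¹ * (g * z * g⁻¹) * g := by group
      rw [hg] at this
      simpa using this
    rw [hE1, Subgroup.card_bot] at h2
    by_contra hne
    exact (Nat.one_lt_pow hne hp.out.one_lt).ne h2
  · intro h
    rw [h, pow_zero] at h2
    have hEbot : E = ⊥ := Subgroup.card_eq_one.1 h2
    rw [hEbot, le_bot_iff, Subgroup.map_eq_bot_iff_of_injective _ H.subtype_injective] at hDE
    rw [hDE, Subgroup.card_bot] at h1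
    by_contra hne
    exact (Nat.one_lt_pow hne hp.out.one_lt).ne h1

end Cfsg.Agent.H10.BlockFMT3
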