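import Mathlib
import Cfsg.Agent.H26_Basic
import Cfsg.Agent.H10_BlockCov
import Cfsg.Agent.H10_BlockEFM
import Cfsg.Agent.H10_BlockFMT2
import Cfsg.Agent.H10_BlockK
import Cfsg.Agent.H1_Basic

/-!
H26_Stab: a stable block of a normal subgroup contains a height zero character whose stabilizer
has index prime to `p`.
-/

set_option autoImplicit false
set_option linter.style.haveILetI false

namespace Cfsg.Agent.H26.Stab

open Cfsg Cfsg.Agent.H3.CharIrr Cfsg.Agent.H3.CharComplete Cfsg.Agent.H3.CharInd Cfsg.Agent.H26.Basic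
  Cfsg.Agent.H3.Clifford Cfsg.Agent.H10.BlockLoc Cfsg.Agent.H10.BlockAlg Cfsg.Agent.H10.BlockIdem
  Cfsg.Agent.H10.BlockDefect Cfsg.Agent.H10.BlockInd Cfsg.Agent.H10.BlockMain Cfsg.Agent.H10.BlockCov
  Cfsg.Agent.H10.BlockEFM Cfsg.Agent.H10.BlockFMT2
open scoped ComplexConjugate

theorem cs_congr {K : Type*} [Group K] [Fintype K] {x y : K} (h : IsConj x y) : (cs x : ZC K) = cs y := by
  classical
  apply Subtype.ext
  apply ext_coeff
  intro z
  have h1 := cs_coeff x z
  have h2 := cs_coeff y z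
  rw [h1, h2]
  by_cases hz : IsConj x z
  · rw [if_pos hz, if_pos (h.symm.trans hz)]
  · rw [if_neg hz, if_neg (fun h' => hz (h.trans h'))]

variable {G : Type*} [Group G] [Fintype G] {p : ℕ} {M : Ideal AlgInt} {N : Subgroup G} (hN : N.Normal) [Fintype N]

theorem om_cs_cjI (g : G) (θ : IrrCharacter N) (n : N) :
    om (cjI hN g θ) (cs n) = om θ (cs (cjEquiv hN g n)) := by
  rw [om_cs, om_cs]
  exact centralChar_tr (cjEquiv hN g) θ n

/-- approximate version of `sum_sub_fixed` -/
theorem sum_sub_fixed' (hM : IsPModular p M) {Q X : Type*} [Group Q] [Finite Q] (hQ : IsPGroup p Q)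
    [MulAction Q X] [Fintype X] (F : X → ℂ) (hF : ∀ x, MemLocalRing M (F x))
    (hinv : ∀ (q : Q) (x : X), MemLocalIdeal M (F (q • x) - F x))
    (s : Finset X) (hs : ∀ x, x ∈ s ↔ ∀ q : Q, q • x = x) :
    MemLocalIdeal M (∑ x, F x - ∑ x ∈ s, F x) := by
  classical
  haveI := hM.2.1
  let r : X → X := fun x => Quotient.out (Quotient.mk (MulAction.orbitRel Q X) x)
  have hr : ∀ x, ∃ q : Q, q • x = r x := by
    intro x
    have h1 : MulAction.orbitRel Q X (r x) x := Quotient.exact (Quotient.out_eq (Quotient.mk (MulAction.orbitRel Q X) x))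
    rw [MulAction.orbitRel_apply] at h1
    exact h1
  have hrq : ∀ (q : Q) (x : X), r (q • x) = r x := by
    intro q x
    show Quotient.out _ = Quotient.out _
    congr 1
    apply Quotient.sound
    show MulAction.orbitRel Q X (q • x) x
    rw [MulAction.orbitRel_apply]
    exact ⟨q, rfl⟩
  have h1 := sum_sub_fixed hM hQ (fun x => F (r x)) (fun x => hF _) (fun q x => by
    show F (r (q • x)) = F (r x)
    rw [hrq]) s hs
  have h2 : ∀ x, MemLocalIdeal M (F (r x) - F x) := by
    intro x
    obtain ⟨q, hq⟩ := hr x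
    rw [← hq]; exact hinv q x
  have h3 : MemLocalIdeal M (∑ x, F (r x) - ∑ x, F x) := by
    rw [← Finset.sum_sub_distrib]
    exact ideal_sum _ _ fun x _ => h2 x
  have h4 : MemLocalIdeal M (∑ x ∈ s, F (r x) - ∑ x ∈ s, F x) := by
    rw [← Finset.sum_sub_distrib]
    exact ideal_sum _ _ fun x _ => h2 x
  have e : ∑ x, F x - ∑ x ∈ s, F x = (∑ x, F (r x) - ∑ x ∈ s, F (r x)) - (∑ x, F (r x) - ∑ x, F x) +
      (∑ x ∈ s, F (r x) - ∑ x ∈ s, F x) := by ring
  rw [e]
  exact ideal_add (ideal_sub h1 h3) h4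

/-- a `P`-stable class not in the kernel of the block -/
theorem exists_fixed_class (hM : IsPModular p M) {b : Set (IrrCharacter N)} (hb : IsPBlock M b)
    (hst : Stable hN b) (P : Subgroup G) (hP : IsPGroup p P) :
    ∃ n : N, ¬ MemLocalIdeal M (blockCoeff b n) ∧ (∀ θ ∈ b, ¬ MemLocalIdeal M (om θ (cs n))) ∧
      ∀ q ∈ P, IsConj (cjEquiv hN q n) n := by
  classical
  haveI := hM.2.1
  haveI : Fintype (ConjClasses N) := Fintype.ofFinite _
  haveI : Fintype (IrrCharacter N) := Fintype.ofFinite _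
  obtain ⟨θ₀, hθ₀⟩ := block_nonempty hb
  let act : G → ConjClasses N → ConjClasses N := fun g C => ConjClasses.map (cjEquiv hN g).toMonoidHom C
  have act_mk : ∀ (g : G) (n : N), act g (ConjClasses.mk n) = ConjClasses.mk (cjEquiv hN g n) := fun _ _ => rfl
  letI iA : MulAction P (ConjClasses N) :=
    { smul := fun q C => act q C
      one_smul := fun C => by
        obtain ⟨n, rfl⟩ := ConjClasses.mk_surjective C
        show act ((1 : P) : G) (ConjClasses.mk n) = _
        rw [act_mk]
        congr 1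
        apply Subtype.ext
        show ((1 : P) : G) * (n : G) * ((1 : P) : G)⁻¹ = n
        simp
      mul_smul := fun a c C => by
        obtain ⟨n, rfl⟩ := ConjClasses.mk_surjective C
        show act ((a * c : P) : G) (ConjClasses.mk n) = act (a : G) (act (c : G) (ConjClasses.mk n))
        rw [act_mk, act_mk, act_mk]
        congr 1
        apply Subtype.ext
        show ((a * c : P) : G) * (n : G) * ((a * c : P) : G)⁻¹ = a * (c * n * (c : G)⁻¹) * (a : G)⁻¹
        rw [Subgroup.coe_mul]; group }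
  have hsmul : ∀ (q : P) (C : ConjClasses N), q • C = act q C := fun _ _ => rfl
  let F : ConjClasses N → ℂ := fun C => blockCoeff b (rep C) * om θ₀ (cs (rep C))
  have hF : ∀ C, MemLocalRing M (F C) := fun C => ring_mul (blockCoeff_mem hb _) (om_cs_mem _ _)
  have hinv : ∀ (q : P) (C : ConjClasses N), MemLocalIdeal M (F (q • C) - F C) := by
    intro q C
    have h1 : IsConj (rep (q • C)) (cjEquiv hN (q : G) (rep C)) := by
      have h2 : ConjClasses.mk (rep (q • C)) = ConjClasses.mk (cjEquiv hN (q : G) (rep C)) := by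
        rw [mk_rep, hsmul, ← act_mk, mk_rep]
      exact ConjClasses.mk_eq_mk_iff_isConj.1 h2
    have h2 : blockCoeff b (rep (q • C)) = blockCoeff b (rep C) := by
      rw [IsClass.eq_of_isConj (blockCoeff_class b) h1]
      exact blockCoeff_stable hN hst (q : G) (rep C)
    have h3 : om θ₀ (cs (rep (q • C))) = om (cjI hN (q : G) θ₀) (cs (rep C)) := by
      rw [om_cs_cjI, cs_congr h1]
    have e : F (q • C) - F C = blockCoeff b (rep C) * (om (cjI hN (q : G) θ₀) (cs (rep C)) - om θ₀ (cs (rep C))) := by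
      show blockCoeff b (rep (q • C)) * om θ₀ (cs (rep (q • C))) - blockCoeff b (rep C) * om θ₀ (cs (rep C)) = _
      rw [h2, h3]; ring
    rw [e]
    refine ideal_mul_left (blockCoeff_mem hb _) ?_
    exact om_sub_mem_of_sameBlock (block_sameBlock hb (hst _ _ hθ₀) hθ₀) (cs_mem_ZI _)
  have h1 := sum_sub_fixed' hM hP F hF hinv
    (Finset.univ.filter (fun C => ∀ q : P, q • C = C)) (fun C => by simp)
  have h2 : ∑ C : ConjClasses N, F C = 1 := by
    have h3 := om_eB b θ₀
    rw [if_pos hθ₀, om_eq_sum] at h3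
    rw [← h3]
    exact Finset.sum_congr rfl fun C _ => by rw [eB_coeff]
  rw [h2] at h1
  obtain ⟨C, hC, hFC⟩ : ∃ C ∈ Finset.univ.filter (fun C : ConjClasses N => ∀ q : P, q • C = C), ¬ MemLocalIdeal M (F C) := by
    by_contra hcon
    push Not at hcon
    have h4 : MemLocalIdeal M (∑ C ∈ Finset.univ.filter (fun C : ConjClasses N => ∀ q : P, q • C = C), F C) :=
      ideal_sum _ _ hcon
    have h5 := ideal_add h1 h4
    rw [sub_add_cancel] at h5
    exact one_notMem_ideal h5
  refine ⟨rep C, ?_, ?_, ?_⟩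
  · intro h
    exact hFC (ideal_mul_right h (om_cs_mem _ _))
  · intro θ hθ h
    apply hFC
    have h4 := om_sub_mem_of_sameBlock (block_sameBlock hb hθ₀ hθ) (cs_mem_ZI (M := M) (rep C))
    have h5 := ideal_add h4 h
    rw [sub_add_cancel] at h5
    exact ideal_mul_left (blockCoeff_mem hb _) h5
  · intro q hq
    have h4 := (Finset.mem_filter.1 hC).2 ⟨q, hq⟩
    rw [hsmul] at h4
    have h5 : ConjClasses.mk (cjEquiv hN q (rep C)) = ConjClasses.mk (rep C) := by
      rw [← act_mk, mk_rep]; exact h4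
    exact ConjClasses.mk_eq_mk_iff_isConj.1 h5

include hN in
/-- index of centralizers -/
theorem index_centralizer (n : N) :
    (Subgroup.centralizer ({(n : G)} : Set G)).index =
      (Subgroup.centralizer ({n} : Set N)).index * (Subgroup.centralizer ({(n : G)} : Set G) ⊔ N).index ∧
    Nat.card (Subgroup.centralizer ({(n : G)} : Set G) ⊔ N : Subgroup G) =
      Nat.card (Subgroup.centralizer ({(n : G)} : Set G)) * (Subgroup.centralizer ({n} : Set N)).index := by
  haveI := hN
  have h1 := Cfsg.Agent.H1.Basic.card_sup_mul_card_inf (H := Subgroup.centralizer ({(n : G)} : Set G)) (K := N)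
    (by rw [Subgroup.normalizer_eq_top]; exact le_top)
  have h2 := card_centralizer_subgroup N n
  have h3 := Subgroup.card_mul_index (Subgroup.centralizer ({n} : Set N))
  rw [h2] at h3
  have hpos : 0 < Nat.card (Subgroup.centralizer ({(n : G)} : Set G) ⊓ N : Subgroup G) := Nat.card_pos
  have hposC : 0 < Nat.card (Subgroup.centralizer ({(n : G)} : Set G)) := Nat.card_pos
  have h4 : Nat.card (Subgroup.centralizer ({(n : G)} : Set G) ⊔ N : Subgroup G) =
      Nat.card (Subgroup.centralizer ({(n : G)} : Set G)) * (Subgroup.centralizer ({n} : Set N)).index := by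
    apply Nat.eq_of_mul_eq_mul_right hpos
    rw [h1, ← h3]; ring
  refine ⟨?_, h4⟩
  have h5 := Subgroup.card_mul_index (Subgroup.centralizer ({(n : G)} : Set G))
  have h6 := Subgroup.card_mul_index (Subgroup.centralizer ({(n : G)} : Set G) ⊔ N)
  apply Nat.eq_of_mul_eq_mul_left hposC
  rw [h5, ← h6, h4]; ring

/-- the class sum of `G` restricted to `N` modulo `M` -/
theorem om_trunc_cs (hM : IsPModular p M) {b : Set (IrrCharacter N)} (hb : IsPBlock M b)
    (hst : Stable hN b) {θ : IrrCharacter N} (hθ : θ ∈ b) (n : N) :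
    MemLocalIdeal M (om θ (truncZ N (cs (n : G))) -
      ((Subgroup.centralizer ({(n : G)} : Set G) ⊔ N).index : ℂ) * om θ (cs n)) := by
  classical
  haveI := hM.2.1
  haveI := hN
  set S : Subgroup G := Subgroup.centralizer ({(n : G)} : Set G) ⊔ N with hS
  haveI : Fintype (G ⧸ S) := Fintype.ofFinite _
  let f : G → ℂ := fun x => om (cjI hN x θ) (cs n)
  have hf : ∀ x, f x = ((Subgroup.centralizer ({n} : Set N)).index : ℂ) *
      extendByZero N (θ : N → ℂ) (x * n * x⁻¹) / (θ : N → ℂ) 1 := by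
    intro x
    show om (cjI hN x θ) (cs n) = _
    rw [om_cs, centralChar, ext_mem N _ (hN.conj_mem (n : G) n.2 x)]
    rw [cjI_coe, cj_apply_one, cj_apply]
  have hone : (θ : N → ℂ) 1 ≠ 0 := one_ne θ
  -- the truncated class sum
  have h1 : (Nat.card (Subgroup.centralizer ({(n : G)} : Set G)) : ℂ) * om θ (truncZ N (cs (n : G))) *
      ((Subgroup.centralizer ({n} : Set N)).index : ℂ) = ∑ x : G, f x := by
    have h2 := sum_conj (fun y => extendByZero N (θ : N → ℂ) y) (n : G)
    have h3 : om θ (truncZ N (cs (n : G))) = (∑ y ∈ Finset.univ.filter (IsConj (n : G)), extendByZero N (θ : N → ℂ) y) / (θ : N → ℂ) 1 := by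
      rw [om_apply, lin_apply]
      congr 1
      rw [Finset.sum_filter]
      have h4 : ∀ y : G, (if IsConj (n : G) y then extendByZero N (θ : N → ℂ) y else 0) =
          extendByZero N (θ : N → ℂ) y * (if IsConj (n : G) y then 1 else 0) := by
        intro y; split_ifs <;> simp
      rw [Finset.sum_congr rfl (fun y _ => h4 y), sum_ext_mul]
      refine Finset.sum_congr rfl fun y _ => ?_
      rw [truncZ_coeff, cs_coeff, mul_comm]
    rw [h3]
    have h5 : ∀ x, f x = ((Subgroup.centralizer ({n} : Set N)).index : ℂ) / (θ : N → ℂ) 1 *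
      extendByZero N (θ : N → ℂ) (x * n * x⁻¹) := by
      intro x; rw [hf]; ring
    rw [Finset.sum_congr rfl (fun x _ => h5 x), ← Finset.mul_sum, h2, nsmul_eq_mul]
    ring
  -- right invariance
  have hinv : ∀ x s, s ∈ S → f (x * s) = f x := by
    intro x s hs
    obtain ⟨c, hc, m, hm, rfl⟩ : ∃ c ∈ Subgroup.centralizer ({(n : G)} : Set G), ∃ m ∈ N, m * c = s := by
      have h2 := (Cfsg.Agent.H1.Basic.mem_sup_iff_of_le_normalizer (N := N) (H := Subgroup.centralizer ({(n : G)} : Set G))
        (by rw [Subgroup.normalizer_eq_top]; exact le_top) (x := s)).1 (by rw [sup_comm]; exact hs)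
      obtain ⟨m, hm, c, hc, h⟩ := h2
      exact ⟨c, hc, m, hm, h⟩
    rw [hf, hf]
    congr 2
    have h3 : c * (n : G) * c⁻¹ = n := by
      rw [mul_inv_eq_iff_eq_mul]
      exact ((Subgroup.mem_centralizer_iff.1 hc) (n : G) rfl).symm
    have h4 : x * (m * c) * (n : G) * (x * (m * c))⁻¹ = (x * m * x⁻¹) * (x * n * x⁻¹) * (x * m * x⁻¹)⁻¹ := by
      calc x * (m * c) * (n : G) * (x * (m * c))⁻¹ = x * m * (c * n * c⁻¹) * m⁻¹ * x⁻¹ := by group
        _ = x * m * n * m⁻¹ * x⁻¹ := by rw [h3]
        _ = _ := by group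
    rw [h4, ext_class N (IsIrr.isClass θ.2) (hN.conj_mem m hm x)]
  have h2 : ∑ x : G, f x = (Nat.card S : ℂ) * ∑ q : G ⧸ S, f (Quotient.out q) := by
    haveI : Fintype S := Fintype.ofFinite _
    have h3 : ∀ q : G ⧸ S, (Nat.card S : ℂ) * f (Quotient.out q) = ∑ s : S, f (Quotient.out q * s) := by
      intro q
      rw [Finset.sum_congr rfl (fun s _ => hinv _ _ s.2), Finset.sum_const, nsmul_eq_mul, Finset.card_univ,
        ← Nat.card_eq_fintype_card]
    rw [Finset.mul_sum, Finset.sum_congr rfl (fun q _ => h3 q), ← Fintype.sum_prod_type']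
    apply Fintype.sum_equiv (Subgroup.groupEquivQuotientProdSubgroup (s := S))
    intro x
    have h4 : (Subgroup.groupEquivQuotientProdSubgroup (s := S) x).1 = QuotientGroup.mk x := rfl
    rw [h4, hinv _ _ (Subtype.property _)]
    obtain ⟨s, hs⟩ := QuotientGroup.mk_out_eq_mul S x
    have h5 : Quotient.out (QuotientGroup.mk x : G ⧸ S) = x * s := hs
    rw [h5, hinv _ _ s.2]
  have hidx := index_centralizer hN n
  rw [← hS] at hidx
  have h3 : om θ (truncZ N (cs (n : G))) = ∑ q : G ⧸ S, f (Quotient.out q) := by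
    rw [h2, hidx.2] at h1
    have h4 : (Nat.card (Subgroup.centralizer ({(n : G)} : Set G)) : ℂ) ≠ 0 := card_cast_ne_zero
    have h5 : ((Subgroup.centralizer ({n} : Set N)).index : ℂ) ≠ 0 := by
      exact_mod_cast Subgroup.index_ne_zero_of_finite
    push_cast at h1
    have h6 : (Nat.card (Subgroup.centralizer ({(n : G)} : Set G)) : ℂ) * ((Subgroup.centralizer ({n} : Set N)).index : ℂ) ≠ 0 :=
      mul_ne_zero h4 h5
    apply mul_left_cancel₀ h6
    rw [← h1]; ring
  have h4 : ((S.index : ℕ) : ℂ) * om θ (cs n) = ∑ q : G ⧸ S, om θ (cs n) := by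
    rw [Finset.sum_const, nsmul_eq_mul, Finset.card_univ, Subgroup.index, Nat.card_eq_fintype_card]
  rw [h3, h4, ← Finset.sum_sub_distrib]
  refine ideal_sum _ _ fun q _ => ?_
  exact om_sub_mem_of_sameBlock (block_sameBlock hb (hst _ _ hθ) hθ) (cs_mem_ZI _)

/-- union of blocks: coefficients -/
theorem exists_block_coeff {K : Type*} [Group K] [Fintype K] [M.IsMaximal] {O : Set (IrrCharacter K)}
    (hcl : ∀ χ ∈ O, ∀ ψ : IrrCharacter K, SameBlock M (χ : K → ℂ) (ψ : K → ℂ) → ψ ∈ O) {g : K}
    (h : ¬ MemLocalIdeal M (blockCoeff O g)) :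
    ∃ χ ∈ O, ¬ MemLocalIdeal M (blockCoeff (blockOf M (χ : K → ℂ)) g) := by
  classical
  haveI : Fintype (IrrCharacter K) := Fintype.ofFinite _
  haveI : Fintype (Set (IrrCharacter K)) := Fintype.ofFinite _
  by_contra hcon
  push Not at hcon
  apply h
  have h1 : blockCoeff O g = ∑ B ∈ (Finset.univ.filter (fun χ => χ ∈ O)).image (fun χ : IrrCharacter K => blockOf M (χ : K → ℂ)),
      blockCoeff B g := by
    rw [blockCoeff_eq_sum]
    simp only [blockCoeff_eq_sum]
    rw [← Finset.mul_sum]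
    congr 1
    rw [← Finset.sum_filter, ← Finset.sum_fiberwise_of_maps_to (s := Finset.univ.filter (fun χ => χ ∈ O))
      (t := (Finset.univ.filter (fun χ => χ ∈ O)).image (fun χ : IrrCharacter K => blockOf M (χ : K → ℂ)))
      (g := fun χ : IrrCharacter K => blockOf M (χ : K → ℂ)) (fun χ hχ => Finset.mem_image_of_mem _ hχ)]
    refine Finset.sum_congr rfl fun B hB => ?_
    obtain ⟨χ, hχ, rfl⟩ := Finset.mem_image.1 hB
    have hχO := (Finset.mem_filter.1 hχ).2
    rw [← Finset.sum_filter]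
    refine Finset.sum_congr ?_ fun _ _ => rfl
    ext ψ
    simp only [Finset.mem_filter, Finset.mem_univ, true_and]
    constructor
    · rintro ⟨h1, h2⟩
      rw [← h2]; exact mem_blockOf_self ψ
    · intro h1
      refine ⟨hcl χ hχO ψ (mem_blockOf.1 h1), ?_⟩
      exact (block_eq_blockOf (isPBlock_blockOf χ) h1).symm
  rw [h1]
  refine ideal_sum _ _ fun B hB => ?_
  obtain ⟨χ, hχ, rfl⟩ := Finset.mem_image.1 hB
  exact hcon χ (Finset.mem_filter.1 hχ).2

/-- main statement, stable case -/
theorem stable_case [hp : Fact p.Prime] (hM : IsPModular p M) {b : Set (IrrCharacter N)} (hb : IsPBlock M b)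
    (hst : Stable hN b) :
    ∃ θ ∈ b, blockHeight p b (θ : N → ℂ) = 0 ∧ ¬ p ∣ (inertia hN (θ : N → ℂ)).index := by
  classical
  haveI := hM.2.1
  haveI : Fintype (IrrCharacter N) := Fintype.ofFinite _
  haveI : Fintype (IrrCharacter G) := Fintype.ofFinite _
  obtain ⟨P⟩ : Nonempty (Sylow p G) := inferInstance
  obtain ⟨n, hn1, hn2, hn3⟩ := exists_fixed_class hN hM hb hst (P : Subgroup G) P.isPGroup'
  set S : Subgroup G := Subgroup.centralizer ({(n : G)} : Set G) ⊔ N with hS
  have hPS : (P : Subgroup G) ≤ S := by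
    intro q hq
    obtain ⟨m, hm⟩ := isConj_iff.1 (hn3 q hq)
    -- m (q n q⁻¹) m⁻¹ = n
    have h1 : (m : G) * (q * n * q⁻¹) * (m : G)⁻¹ = n := congrArg Subtype.val hm
    have h2 : (m : G) * q ∈ Subgroup.centralizer ({(n : G)} : Set G) := by
      rw [Subgroup.mem_centralizer_iff]
      intro y hy
      rw [Set.mem_singleton_iff.1 hy]
      nth_rewrite 1 [← h1]
      group
    have h3 : q = (m : G)⁻¹ * (m * q) := by group
    rw [h3]
    exact S.mul_mem (Subgroup.mem_sup_right (N.inv_mem m.2)) (Subgroup.mem_sup_left h2)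
  have hSp : ¬ p ∣ S.index := by
    intro h
    exact P.not_dvd_index (h.trans (Subgroup.index_dvd_of_le hPS))
  have hidx := (index_centralizer hN n).1
  rw [← hS] at hidx
  have hfact : (Subgroup.centralizer ({(n : G)} : Set G)).index.factorization p =
      (Subgroup.centralizer ({n} : Set N)).index.factorization p := by
    rw [hidx, Nat.factorization_mul Subgroup.index_ne_zero_of_finite Subgroup.index_ne_zero_of_finite,
      Finsupp.add_apply, Nat.factorization_eq_zero_of_not_dvd hSp, add_zero]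
  -- the idempotent
  have heB : eB b ∈ ZI N M := eB_mem_ZI hb
  set f := fO hN b hst with hf
  let O : Set (IrrCharacter G) := {χ | om χ f ≠ 0}
  have hfO : f = eB O := by
    apply eq_eB
    intro χ
    rcases om_fO_eq_zero_or_one hN hst χ with h | h
    · rw [← hf] at h
      rw [h, if_neg]
      intro h'; exact h' h
    · rw [← hf] at h
      rw [h, if_pos]
      show om χ f ≠ 0
      rw [h]; exact one_ne_zero
  have hcl : ∀ χ ∈ O, ∀ ψ : IrrCharacter G, SameBlock M (χ : G → ℂ) (ψ : G → ℂ) → ψ ∈ O := by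
    intro χ hχ ψ h
    exact om_fO_sameBlock hN hst heB h hχ
  have hcoeff : ¬ MemLocalIdeal M (blockCoeff O (n : G)) := by
    rw [← eB_coeff, ← hfO, hf, fO_coeff_mem]
    exact hn1
  obtain ⟨χ₀, hχ₀, hχ₀c⟩ := exists_block_coeff hcl hcoeff
  set B := blockOf M (χ₀ : G → ℂ) with hBdef
  have hB : IsPBlock M B := isPBlock_blockOf χ₀
  have hBO : ∀ χ ∈ B, χ ∈ O := fun χ hχ => hcl χ₀ hχ₀ χ (mem_blockOf.1 hχ)
  have hom : ∀ χ ∈ B, ¬ MemLocalIdeal M (om χ (cs (n : G))) := by
    intro χ hχ h
    obtain ⟨θ, hθ, hθχ⟩ := exists_of_om_fO hN hst χ (hBO χ hχ)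
    rw [om_eq_of_constituent hN hθχ (cs_support hN n)] at h
    have h1 := om_trunc_cs hN hM hb hst hθ n
    have h2 := ideal_sub h h1
    rw [sub_sub_cancel] at h2
    -- index unit
    have h3 : MemLocalIdeal M (om θ (cs n)) := by
      by_contra hc
      have h4 : MemLocalIdeal M ((S.index : ℕ) : ℂ) := by
        rcases ideal_of_mul (ring_natCast _) (om_cs_mem _ _) h2 with h | h
        · exact h
        · exact absurd h hc
      exact hSp ((ideal_natCast_iff hM _).1 h4)
    exact hn2 θ hθ h3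
  have hdc : IsDefectClass M B (n : G) := (isDefectClass_iff hB).2 ⟨hχ₀c, hom⟩
  have hdcN : IsDefectClass M b n := (isDefectClass_iff hb).2 ⟨hn1, hn2⟩
  have hsB := sInf_eq hM hB hdc
  have hsb := sInf_eq hM hb hdcN
  -- a character of B with minimal degree valuation
  obtain ⟨χ, hχB, hχmin⟩ : ∃ χ ∈ B, (charDegree (χ : G → ℂ)).factorization p =
      (Subgroup.centralizer ({(n : G)} : Set G)).index.factorization p := by
    have hne : ((fun χ : IrrCharacter G => (charDegree (χ : G → ℂ)).factorization p) '' B).Nonempty :=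
      (block_nonempty hB).image _
    obtain ⟨χ, hχ, hχ'⟩ := Nat.sInf_mem hne
    exact ⟨χ, hχ, by rw [← hsB]; exact hχ'⟩
  obtain ⟨θ, hθ, hθχ⟩ := exists_of_om_fO hN hst χ (hBO χ hχB)
  have hdeg := clifford_degree hN χ.2 θ.2 hθχ
  obtain ⟨e, he⟩ := ci_char_nat (IsChar.res (IsIrr.isCharacter χ.2) N) (IsIrr.isCharacter θ.2)
  have he' : classInner (fun n : N => (χ : G → ℂ) n) (θ : N → ℂ) = e := he
  rw [he', ← cd_eq, ← cd_eq] at hdeg
  have hdeg' : charDegree (χ : G → ℂ) = e * (inertia hN (θ : N → ℂ)).index * charDegree (θ : N → ℂ) := by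
    exact_mod_cast hdeg
  have he0 : e ≠ 0 := by
    rintro rfl
    rw [he', Nat.cast_zero] at hθχ
    exact hθχ rfl
  have hi0 : (inertia hN (θ : N → ℂ)).index ≠ 0 := Subgroup.index_ne_zero_of_finite
  have hd0 : charDegree (θ : N → ℂ) ≠ 0 := (cd_pos θ).ne'
  have hfac : (charDegree (χ : G → ℂ)).factorization p = e.factorization p +
      (inertia hN (θ : N → ℂ)).index.factorization p + (charDegree (θ : N → ℂ)).factorization p := by
    rw [hdeg', Nat.factorization_mul (mul_ne_zero he0 hi0) hd0, Nat.factorization_mul he0 hi0]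
    rfl
  have hmin : (Subgroup.centralizer ({n} : Set N)).index.factorization p ≤ (charDegree (θ : N → ℂ)).factorization p := by
    rw [← hsb]
    exact Nat.sInf_le ⟨θ, hθ, rfl⟩
  rw [hχmin, hfact] at hfac
  refine ⟨θ, hθ, ?_, ?_⟩
  · rw [blockHeight, hsb]; omega
  · intro h
    have : 0 < (inertia hN (θ : N → ℂ)).index.factorization p := hp.out.factorization_pos_of_dvd hi0 h
    omega

end Cfsg.Agent.H26.Stab
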