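import Mathlib
import Cfsg.Prelude.Def_Blocks
import Cfsg.Agent.H10_BlockCov
import Cfsg.Agent.H10_BlockCount
import Cfsg.Agent.H26_Stab
import Cfsg.Agent.H4_Util
import Cfsg.Agent.H1_Basic

/-!
H10_BlockFong: blocks of maximal defect covering an invariant block.
-/

set_option autoImplicit false
set_option linter.style.haveILetI false
set_option linter.unusedSectionVars false

namespace Cfsg.Agent.H10.BlockFong

open Cfsg Cfsg.Agent.H3.CharIrr Cfsg.Agent.H3.CharComplete Cfsg.Agent.H3.CharInd Cfsg.Agent.H3.CharBasic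
  Cfsg.Agent.H3.Clifford
  Cfsg.Agent.H10.BlockLoc
  Cfsg.Agent.H10.Char Cfsg.Agent.H10.BlockAlg Cfsg.Agent.H10.BlockIdem Cfsg.Agent.H10.BlockNormal
  Cfsg.Agent.H10.BlockOrth Cfsg.Agent.H10.BlockDefect Cfsg.Agent.H10.BlockMain Cfsg.Agent.H10.BlockInd
  Cfsg.Agent.H10.BlockSMT Cfsg.Agent.H10.BlockSMT2 Cfsg.Agent.H10.BlockCov Cfsg.Agent.H10.BlockCount

variable {G : Type*} [Group G] [Fintype G] {p : ℕ} {M : Ideal AlgInt}

/-- closed sets of characters are unions of blocks -/
theorem eB_closed_sum [M.IsMaximal] {O : Set (IrrCharacter G)}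
    (h : ∀ θ ∈ O, ∀ θ' : IrrCharacter G, SameBlock M (θ : G → ℂ) (θ' : G → ℂ) → θ' ∈ O) [DecidablePred fun b : Set (IrrCharacter G) => b ⊆ O] :
    eB O = ∑ b ∈ (blocks G M).filter (fun b => b ⊆ O), eB b := by
  classical
  haveI : Fintype (IrrCharacter G) := Fintype.ofFinite _
  apply om_injective
  intro ψ
  rw [om_eB, map_sum]
  by_cases hψ : ψ ∈ O
  · rw [if_pos hψ, Finset.sum_eq_single (blockOf M (ψ : G → ℂ))]
    · rw [om_eB, if_pos (mem_blockOf_self ψ)]
    · intro b hb hne
      rw [om_eB, if_neg]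
      intro hmem
      exact hne (block_eq_of_mem (mem_blocks.1 (Finset.mem_filter.1 hb).1) (isPBlock_blockOf ψ) hmem (mem_blockOf_self ψ))
    · intro hnot
      exfalso
      apply hnot
      rw [Finset.mem_filter]
      exact ⟨mem_blocks.2 (isPBlock_blockOf ψ), fun θ hθ => h ψ hψ θ hθ⟩
  · rw [if_neg hψ]
    symm
    apply Finset.sum_eq_zero
    intro b hb
    rw [om_eB, if_neg]
    intro hmem
    exact hψ ((Finset.mem_filter.1 hb).2 hmem)

/-- truncation of a class sum to a normal subgroup -/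
theorem om_truncZ_classes {N : Subgroup G} [Fintype N] [Fintype (ConjClasses N)] (θ : IrrCharacter N) (x : N)
    [DecidablePred fun C : ConjClasses N => IsConj (x : G) (rep C : N)] :
    om θ (truncZ N (cs (x : G))) =
      ∑ C ∈ Finset.univ.filter (fun C : ConjClasses N => IsConj (x : G) (rep C : N)), om θ (cs (rep C)) := by
  classical
  rw [om_eq_sum, Finset.sum_filter]
  refine Finset.sum_congr rfl fun C _ => ?_
  rw [truncZ_coeff, cs_coeff]
  by_cases h : IsConj (x : G) ((rep C : N) : G)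
  · rw [if_pos h, if_pos h, one_mul]
  · rw [if_neg h, if_neg h, zero_mul]

theorem fong [hp : Fact p.Prime] (hM : IsPModular p M) {N : Subgroup G} (hN : N.Normal) [Fintype N]
    {b : Set (IrrCharacter N)} (hb : IsPBlock M b) (hst : Stable hN b) {B : Set (IrrCharacter G)} (hB : IsPBlock M B)
    (hcov : ∃ χ ∈ B, ∃ θ ∈ b, classInner (fun n : N => (χ : G → ℂ) n) (θ : N → ℂ) ≠ 0)
    (hmax : ∀ B' : Set (IrrCharacter G), IsPBlock M B' →
      (∃ χ ∈ B', ∃ θ ∈ b, classInner (fun n : N => (χ : G → ℂ) n) (θ : N → ℂ) ≠ 0) → blockDefect p B' ≤ blockDefect p B)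
    {P : Subgroup G} (hP : IsDefectGroup p M B P) :
    ¬ p ∣ (P ⊔ N).index ∧ IsDefectGroup p M b ((P ⊓ N).subgroupOf N) ∧
      blockDefect p B = blockDefect p b + N.index.factorization p := by
  classical
  haveI := hM.2.1
  haveI : Fintype (IrrCharacter G) := Fintype.ofFinite _
  haveI : Fintype (IrrCharacter N) := Fintype.ofFinite _
  haveI : Fintype (ConjClasses G) := Fintype.ofFinite _
  haveI : Fintype (ConjClasses N) := Fintype.ofFinite _
  obtain ⟨χ, hχ, θ, hθ, hχθ⟩ := hcov
  have hom1 := om_fO_of_mem hN hst χ hθ hχθ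
  -- a good class
  obtain ⟨C, hC⟩ : ∃ C : ConjClasses G, ¬ MemLocalIdeal M (((fO hN b hst : ZC G) : MonoidAlgebra ℂ G).coeff (rep C) *
      om χ (cs (rep C))) := by
    by_contra hno
    push Not at hno
    rw [om_eq_sum] at hom1
    apply one_notMem_ideal (M := M)
    rw [← hom1]
    exact ideal_sum _ _ fun C _ => hno C
  set x₀ := rep C with hx₀
  have hx₀N : x₀ ∈ N := by
    by_contra hno
    apply hC
    rw [fO_coeff_notMem hN hst hno, zero_mul]
    exact ideal_zero
  have hcoef := fO_coeff_mem hN hst ⟨x₀, hx₀N⟩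
  have hcoef' : ((fO hN b hst : ZC G) : MonoidAlgebra ℂ G).coeff x₀ = blockCoeff b ⟨x₀, hx₀N⟩ := hcoef
  rw [hcoef'] at hC
  have hbx₀ : ¬ MemLocalIdeal M (blockCoeff b ⟨x₀, hx₀N⟩) := fun h => hC (ideal_mul_right h (om_cs_mem χ x₀))
  have hωx₀ : ¬ MemLocalIdeal M (om χ (cs x₀)) := fun h => hC (ideal_mul_left (blockCoeff_mem hb _) h)
  -- fO is a sum of block idempotents
  set U : Set (IrrCharacter G) := {ψ | om ψ (fO hN b hst) ≠ 0} with hU
  have hfU : fO hN b hst = eB U := by
    apply eq_eB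
    intro ψ
    by_cases h : ψ ∈ U
    · rw [if_pos h]; exact (om_fO_eq_zero_or_one hN hst ψ).resolve_left h
    · rw [if_neg h]
      by_contra h'
      exact h h'
  have hfM : fO hN b hst ∈ ZI G M := fO_mem hN hst (eB_mem_ZI hb)
  have hUcl : ∀ ψ ∈ U, ∀ ψ' : IrrCharacter G, SameBlock M (ψ : G → ℂ) (ψ' : G → ℂ) → ψ' ∈ U := by
    intro ψ hψ ψ' hs h0
    have h1 := om_sub_mem_of_sameBlock hs hfM
    rw [(om_fO_eq_zero_or_one hN hst ψ).resolve_left hψ, h0, sub_zero] at h1
    exact one_notMem_ideal h1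
  obtain ⟨B₁, hB₁, hB₁U, hB₁c⟩ : ∃ B₁ : Set (IrrCharacter G), IsPBlock M B₁ ∧ B₁ ⊆ U ∧ ¬ MemLocalIdeal M (blockCoeff B₁ x₀) := by
    by_contra hno
    push Not at hno
    apply hbx₀
    have h1 : blockCoeff b ⟨x₀, hx₀N⟩ = ∑ B' ∈ (blocks G M).filter (fun b => b ⊆ U), blockCoeff B' x₀ := by
      rw [← hcoef', hfU, eB_closed_sum hUcl, AddSubmonoidClass.coe_finsetSum, MonoidAlgebra.coeff_sum, Finsupp.finsetSum_apply]
      rfl
    rw [h1]
    refine ideal_sum _ _ fun B' hB' => ?_
    rw [Finset.mem_filter] at hB'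
    exact hno B' (mem_blocks.1 hB'.1) hB'.2
  have hover : ∀ ψ ∈ U, ∃ θ' ∈ b, classInner (fun n : N => (ψ : G → ℂ) n) (θ' : N → ℂ) ≠ 0 := fun ψ hψ =>
    exists_of_om_fO hN hst ψ hψ
  have hωU : ∀ ψ ∈ U, MemLocalIdeal M (om ψ (cs x₀) - om χ (cs x₀)) := by
    intro ψ hψ
    obtain ⟨θ', hθ', hc⟩ := hover ψ hψ
    have h1 := om_eq_of_constituent hN hc (cs_support hN ⟨x₀, hx₀N⟩)
    have h2 := om_eq_of_constituent hN hχθ (cs_support hN ⟨x₀, hx₀N⟩)
    have h1' : om ψ (cs x₀) = om θ' (truncZ N (cs x₀)) := h1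
    have h2' : om χ (cs x₀) = om θ (truncZ N (cs x₀)) := h2
    rw [h1', h2']
    exact om_sub_mem_of_sameBlock (block_sameBlock hb hθ' hθ) (truncZ_mem N (cs_mem_ZI x₀))
  have hdef₁ : IsDefectClass M B₁ x₀ := by
    rw [isDefectClass_iff hB₁]
    refine ⟨hB₁c, fun ψ hψ h => hωx₀ ?_⟩
    have := ideal_sub h (hωU ψ (hB₁U hψ))
    rwa [sub_sub_cancel] at this
  obtain ⟨D₁, hD₁⟩ := exists_isCSyl (p := p) x₀
  have hcard₁ := card_defectGroup hM hB₁ (isDefectGroup_iff.2 ⟨x₀, hdef₁, hD₁⟩)
  rw [hD₁.card] at hcard₁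
  have hd₁ : (Nat.card (Subgroup.centralizer ({x₀} : Set G))).factorization p = blockDefect p B₁ :=
    Nat.pow_right_injective hp.out.two_le hcard₁
  have hle₁ : blockDefect p B₁ ≤ blockDefect p B := by
    apply hmax B₁ hB₁
    obtain ⟨ψ, hψ⟩ := block_nonempty hB₁
    obtain ⟨θ', hθ', hc⟩ := hover ψ (hB₁U hψ)
    exact ⟨ψ, hψ, θ', hθ', hc⟩
  have hle₂ := defect_le_of_unit hM hB hχ hωx₀
  have hdB : blockDefect p B = (Nat.card (Subgroup.centralizer ({x₀} : Set G))).factorization p := by omega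
  -- move x₀ into the centralizer of P
  obtain ⟨x, hxc, hxP⟩ := defect_centralizes hM hB hP hχ hωx₀
  have hxN : x ∈ N := by
    obtain ⟨a, ha⟩ := isConj_iff.1 hxc
    rw [← ha]; exact hN.conj_mem _ hx₀N a
  have hcc : Nat.card (Subgroup.centralizer ({x₀} : Set G)) = Nat.card (Subgroup.centralizer ({x} : Set G)) :=
    card_centralizer_eq_of_isConj hxc
  rw [hcc] at hdB
  have hPp : IsPGroup p P := IsDefectGroup.isPGroup' hP
  have hPcard := card_defectGroup hM hB hP
  obtain ⟨D, hD, hPD⟩ := exists_isCSyl_of_le hPp hxP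
  have hPeq : P = D := by
    apply eq_of_le_card hPD
    rw [hD.card, hPcard, hdB]
  subst hPeq
  set xN : N := ⟨x, hxN⟩ with hxNdef
  -- x is a defect class of b
  have hbx : ¬ MemLocalIdeal M (blockCoeff b xN) := by
    have h1 : blockCoeff b xN = blockCoeff b ⟨x₀, hx₀N⟩ := by
      rw [← hcoef', ← fO_coeff_mem hN hst xN]
      exact (center_class _ hxc).symm
    rw [h1]; exact hbx₀
  have hωx : ¬ MemLocalIdeal M (om χ (cs x)) := by
    intro h
    apply hωx₀
    have : om χ (cs x₀) = om χ (cs x) := by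
      rw [om_cs, om_cs, centralChar, centralChar, IsClass.eq_of_isConj (irr_class χ.2) hxc]
      congr 3
      have e1 := (Subgroup.centralizer ({x₀} : Set G)).card_mul_index
      have e2 := (Subgroup.centralizer ({x} : Set G)).card_mul_index
      rw [hcc] at e1
      exact Nat.eq_of_mul_eq_mul_left Nat.card_pos (e1.trans e2.symm)
    rwa [this]
  have htr : om χ (cs x) = om θ (truncZ N (cs ((xN : N) : G))) := om_eq_of_constituent hN hχθ (cs_support hN xN)
  rw [htr, om_truncZ_classes] at hωx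
  set S := Finset.univ.filter (fun C : ConjClasses N => IsConj ((xN : N) : G) (rep C : N)) with hS
  have hterm : ∀ (φ : IrrCharacter N), ∀ C ∈ S, ∃ a : G, om φ (cs (rep C)) = om (cjI hN a φ) (cs xN) := by
    intro φ C hC
    obtain ⟨a, ha⟩ := isConj_iff.1 (Finset.mem_filter.1 hC).2
    refine ⟨a, ?_⟩
    rw [Cfsg.Agent.H26.Stab.om_cs_cjI]
    congr 2
    apply Subtype.ext
    exact ha.symm
  have hdiff : ∀ C ∈ S, MemLocalIdeal M (om θ (cs (rep C)) - om θ (cs xN)) := by
    intro C hC
    obtain ⟨a, ha⟩ := hterm θ C hC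
    rw [ha]
    exact om_sub_mem_of_sameBlock (block_sameBlock hb (hst a θ hθ) hθ) (cs_mem_ZI _)
  have hsum : MemLocalIdeal M (∑ C ∈ S, om θ (cs (rep C)) - (S.card : ℂ) * om θ (cs xN)) := by
    have e : ∑ C ∈ S, om θ (cs (rep C)) - (S.card : ℂ) * om θ (cs xN) = ∑ C ∈ S, (om θ (cs (rep C)) - om θ (cs xN)) := by
      rw [Finset.sum_sub_distrib, Finset.sum_const, nsmul_eq_mul]
    rw [e]; exact ideal_sum _ _ hdiff
  have hmul : ¬ MemLocalIdeal M ((S.card : ℂ) * om θ (cs xN)) := by
    intro h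
    apply hωx
    have := ideal_add hsum h
    rwa [sub_add_cancel] at this
  have hωθ : ¬ MemLocalIdeal M (om θ (cs xN)) := fun h => hmul (ideal_mul_left (ring_natCast _) h)
  have hScard : ¬ p ∣ S.card := fun h => hmul (ideal_mul_right ((ideal_natCast_iff hM _).2 h) (om_cs_mem θ xN))
  have hdefb : IsDefectClass M b xN := by
    rw [isDefectClass_iff hb]
    refine ⟨hbx, fun φ hφ h => hωθ ?_⟩
    have h1 := om_sub_mem_of_sameBlock (block_sameBlock hb hθ hφ) (cs_mem_ZI (M := M) xN)
    have := ideal_add h1 h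
    rwa [sub_add_cancel] at this
  -- the counting formula
  have hcount : (Subgroup.centralizer ({x} : Set G)).index = S.card * (Subgroup.centralizer ({xN} : Set N)).index := by
    have htriv1 : ∀ g : G, om (⟨fun _ => 1, isIrr_one⟩ : IrrCharacter G) (cs g) = ((Subgroup.centralizer ({g} : Set G)).index : ℂ) := by
      intro g; rw [om_cs, centralChar]; simp
    have htriv2 : ∀ g : N, om (⟨fun _ => 1, isIrr_one⟩ : IrrCharacter N) (cs g) = ((Subgroup.centralizer ({g} : Set N)).index : ℂ) := by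
      intro g; rw [om_cs, centralChar]; simp
    have h1 : om (⟨fun _ => 1, isIrr_one⟩ : IrrCharacter G) (cs x) =
        om (⟨fun _ => 1, isIrr_one⟩ : IrrCharacter N) (truncZ N (cs ((xN : N) : G))) := by
      apply om_eq_of_constituent hN (χ := (⟨fun _ => 1, isIrr_one⟩ : IrrCharacter G)) (θ := (⟨fun _ => 1, isIrr_one⟩ : IrrCharacter N)) _
        (cs_support hN xN)
      have : classInner (fun n : N => (1 : ℂ)) (fun n : N => (1:ℂ)) = 1 := ci_irr_self isIrr_one
      show classInner (fun n : N => (1 : ℂ)) (fun n : N => (1:ℂ)) ≠ 0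
      rw [this]; exact one_ne_zero
    rw [htriv1, om_truncZ_classes, ← hS] at h1
    have h2 : ∀ C ∈ S, om (⟨fun _ => 1, isIrr_one⟩ : IrrCharacter N) (cs (rep C)) = ((Subgroup.centralizer ({xN} : Set N)).index : ℂ) := by
      intro C hC
      obtain ⟨a, ha⟩ := hterm (⟨fun _ => 1, isIrr_one⟩ : IrrCharacter N) C hC
      rw [ha]
      have : cjI hN a (⟨fun _ => 1, isIrr_one⟩ : IrrCharacter N) = ⟨fun _ => 1, isIrr_one⟩ := Subtype.ext rfl
      rw [this, htriv2]
    rw [Finset.sum_congr rfl h2, Finset.sum_const, nsmul_eq_mul] at h1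
    exact_mod_cast h1
  -- valuations
  set v := fun n : ℕ => n.factorization p with hv
  have hvm : ∀ a b : ℕ, a ≠ 0 → b ≠ 0 → v (a * b) = v a + v b := fun a b ha hb => by
    simp only [hv]; rw [Nat.factorization_mul ha hb]; rfl
  have hS0 : S.card ≠ 0 := by intro h; rw [h] at hScard; exact hScard (dvd_zero p)
  have e1 : v (Nat.card G) = v (Nat.card (Subgroup.centralizer ({x} : Set G))) + v (Subgroup.centralizer ({x} : Set G)).index := by
    rw [← hvm _ _ Nat.card_pos.ne' Subgroup.index_ne_zero_of_finite, Subgroup.card_mul_index]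
  have e2 : v (Nat.card N) = v (Nat.card (Subgroup.centralizer ({xN} : Set N))) + v (Subgroup.centralizer ({xN} : Set N)).index := by
    rw [← hvm _ _ Nat.card_pos.ne' Subgroup.index_ne_zero_of_finite, Subgroup.card_mul_index]
  have e3 : v (Nat.card G) = v (Nat.card N) + v N.index := by
    rw [← hvm _ _ Nat.card_pos.ne' Subgroup.index_ne_zero_of_finite, Subgroup.card_mul_index]
  have e4 : v (Subgroup.centralizer ({x} : Set G)).index = v (Subgroup.centralizer ({xN} : Set N)).index := by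
    rw [hcount, hvm _ _ hS0 Subgroup.index_ne_zero_of_finite]
    simp only [hv]
    rw [Nat.factorization_eq_zero_of_not_dvd hScard, zero_add]
  -- P ⊓ N is a Sylow subgroup of the centralizer of x in N
  obtain ⟨E, hE⟩ := exists_isCSyl (p := p) xN
  have hcardE := hE.card
  have hdefE := isDefectGroup_iff.2 ⟨xN, hdefb, hE⟩
  have hcardE2 := card_defectGroup hM hb hdefE
  have hdb : blockDefect p b = v (Nat.card (Subgroup.centralizer ({xN} : Set N))) :=
    Nat.pow_right_injective hp.out.two_le (hcardE2.symm.trans hcardE)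
  have hPcen : P ≤ Subgroup.centralizer ({x} : Set G) := hD.le
  obtain ⟨Q, hQ⟩ := hD
  -- the intersection
  have hinf : IsCSyl p xN ((P ⊓ N).subgroupOf N) := by
    have hle : (P ⊓ N).subgroupOf N ≤ Subgroup.centralizer ({xN} : Set N) := by
      intro y hy
      rw [Subgroup.mem_centralizer_singleton_iff]
      apply Subtype.ext
      have : (y : G) ∈ P := hy.1
      exact Subgroup.mem_centralizer_singleton_iff.1 (hPcen this)
    have hpg : IsPGroup p ((P ⊓ N).subgroupOf N) := by
      intro y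
      obtain ⟨k, hk⟩ := hPp ⟨((y : N) : G), y.2.1⟩
      refine ⟨k, ?_⟩
      apply Subtype.ext
      apply Subtype.ext
      have hk' := congrArg Subtype.val hk
      rw [SubgroupClass.coe_pow] at hk'
      rw [SubgroupClass.coe_pow, SubgroupClass.coe_pow]
      exact hk'
    have hcen : xN ∈ Subgroup.centralizer (((P ⊓ N).subgroupOf N : Subgroup N) : Set N) := by
      rw [Subgroup.mem_centralizer_iff]
      intro y hy
      exact (Subgroup.mem_centralizer_singleton_iff.1 (hle hy))
    obtain ⟨E', hE', hle'⟩ := exists_isCSyl_of_le hpg hcen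
    have hEeq : (P ⊓ N).subgroupOf N = E' := by
      apply eq_of_le_card hle'
      have hE'p : IsPGroup p E' := hE'.isPGroup
      have hE'c : ∀ y ∈ E', ((y : N) : G) ∈ Subgroup.centralizer ({x} : Set G) := by
        intro y hy
        have := hE'.le hy
        rw [Subgroup.mem_centralizer_singleton_iff] at this
        rw [Subgroup.mem_centralizer_singleton_iff]
        exact congrArg Subtype.val this
      -- embed
      let f : E' →* Subgroup.centralizer ({x} : Set G) :=
        { toFun := fun y => ⟨((y : N) : G), hE'c y y.2⟩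
          map_one' := rfl
          map_mul' := fun a b => rfl }
      have hfinj : Function.Injective f := by
        intro a b hab
        have h1 : ((a : N) : G) = ((b : N) : G) := congrArg (fun z : Subgroup.centralizer ({x} : Set G) => (z : G)) hab
        exact Subtype.ext (Subtype.ext h1)
      have hfr : IsPGroup p f.range := hE'p.of_surjective f.rangeRestrict f.rangeRestrict_surjective
      obtain ⟨c, hc⟩ := Cfsg.Agent.H4.Util.exists_conj_le Q _ hfr
      have hmem : ∀ y : E', ((c : Subgroup.centralizer ({x} : Set G)) : G) * ((y : N) : G) * ((c : Subgroup.centralizer ({x} : Set G)) : G)⁻¹ ∈ P ⊓ N := by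
        intro y
        refine ⟨?_, hN.conj_mem _ (y : N).2 _⟩
        have h1 := hc (f y) ⟨y, rfl⟩
        have h2 : ((c * f y * c⁻¹ : Subgroup.centralizer ({x} : Set G)) : G) ∈ (Q : Subgroup (Subgroup.centralizer ({x} : Set G))).map (Subgroup.centralizer ({x} : Set G)).subtype := ⟨_, h1, rfl⟩
        rw [← hQ] at h2
        exact h2
      refine Nat.card_le_card_of_injective (fun y : E' => (⟨⟨_, (hmem y).2⟩, hmem y⟩ : (P ⊓ N).subgroupOf N)) ?_
      intro a b hab
      have h1 := congrArg (fun z : (P ⊓ N).subgroupOf N => ((z : N) : G)) hab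
      have h2 : ((c : Subgroup.centralizer ({x} : Set G)) : G) * ((a : N) : G) * ((c : Subgroup.centralizer ({x} : Set G)) : G)⁻¹ = ((c : Subgroup.centralizer ({x} : Set G)) : G) * ((b : N) : G) * ((c : Subgroup.centralizer ({x} : Set G)) : G)⁻¹ := h1
      apply Subtype.ext
      apply Subtype.ext
      exact mul_left_cancel (mul_right_cancel h2)
    rw [hEeq]; exact hE'
  have hcardPN : v (Nat.card ((P ⊓ N : Subgroup G))) = v (Nat.card (Subgroup.centralizer ({xN} : Set N))) := by
    have h1 := hinf.card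
    have h2 : Nat.card ((P ⊓ N).subgroupOf N) = Nat.card (P ⊓ N : Subgroup G) :=
      Nat.card_congr (Subgroup.subgroupOfEquivOfLe (inf_le_right : P ⊓ N ≤ N)).toEquiv
    rw [h2] at h1
    simp only [hv]
    rw [h1, Nat.factorization_pow, Finsupp.smul_apply, Nat.Prime.factorization_self hp.out, smul_eq_mul, mul_one]
  have hcardP : v (Nat.card P) = v (Nat.card (Subgroup.centralizer ({x} : Set G))) := by
    simp only [hv]
    rw [hPcard, hdB, Nat.factorization_pow, Finsupp.smul_apply, Nat.Prime.factorization_self hp.out, smul_eq_mul, mul_one]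
  refine ⟨?_, isDefectGroup_iff.2 ⟨xN, hdefb, hinf⟩, ?_⟩
  · -- index of P ⊔ N
    have h1 : Nat.card (P ⊔ N : Subgroup G) * Nat.card (P ⊓ N : Subgroup G) = Nat.card P * Nat.card N :=
      Cfsg.Agent.H1.Basic.card_sup_mul_card_inf (Subgroup.le_normalizer_of_normal)
    have h2 : v (Nat.card (P ⊔ N : Subgroup G)) + v (Nat.card (P ⊓ N : Subgroup G)) = v (Nat.card P) + v (Nat.card N) := by
      rw [← hvm _ _ Nat.card_pos.ne' Nat.card_pos.ne', ← hvm _ _ Nat.card_pos.ne' Nat.card_pos.ne', h1]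
    have h3 : v (Nat.card G) = v (Nat.card (P ⊔ N : Subgroup G)) + v (P ⊔ N).index := by
      rw [← hvm _ _ Nat.card_pos.ne' Subgroup.index_ne_zero_of_finite, Subgroup.card_mul_index]
    have h4 : v (P ⊔ N).index = 0 := by omega
    intro hd
    have := (Nat.Prime.factorization_pos_of_dvd hp.out Subgroup.index_ne_zero_of_finite hd)
    simp only [hv] at h4
    omega
  · simp only [hv] at *
    omega

end Cfsg.Agent.H10.BlockFong
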