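import Mathlib
import Cfsg.Prelude.Def_Blocks
import Cfsg.Agent.H10_BlockKer
import Cfsg.Agent.H10_BlockK
import Cfsg.Agent.H10_BlockQuot
import Cfsg.Agent.H10_RegPart
import Cfsg.Agent.H3_CharCalc
import Cfsg.Agent.H25_BlockReg

/-!
H10_BlockPC: blocks of `P C_G(P)` with defect group `P` (S0968).
-/

set_option autoImplicit false
set_option linter.style.haveILetI false
set_option linter.unusedSectionVars false

namespace Cfsg.Agent.H10.BlockPC

open Cfsg Cfsg.Agent.H3.CharIrr Cfsg.Agent.H3.CharComplete Cfsg.Agent.H3.CharInd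
  Cfsg.Agent.H3.CharBasic Cfsg.Agent.H10.BlockLoc
  Cfsg.Agent.H10.Char Cfsg.Agent.H10.BlockAlg Cfsg.Agent.H10.BlockIdem Cfsg.Agent.H10.BlockNormal
  Cfsg.Agent.H10.BlockOrth Cfsg.Agent.H10.RegPart Cfsg.Agent.H10.BlockKer Cfsg.Agent.H10.PPart
  Cfsg.Agent.H10.BlockDefect Cfsg.Agent.H10.BlockHZ Cfsg.Agent.H10.BlockMain Cfsg.Agent.H10.BlockK
open scoped ComplexConjugate

variable {G : Type*} [Group G] [Fintype G] {p : ℕ} {M : Ideal AlgInt}

theorem normal_of_sup {P : Subgroup G} (hG : P ⊔ Subgroup.centralizer (P : Set G) = ⊤) : P.Normal := by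
  rw [← Subgroup.normalizer_eq_top_iff, eq_top_iff, ← hG, sup_le_iff]
  refine ⟨Subgroup.le_normalizer, BlockSMT2.centralizer_le_normalizer P⟩

/-- structure of irreducible characters of `P C(P)` -/
theorem struct {P : Subgroup G} (hG : P ⊔ Subgroup.centralizer (P : Set G) = ⊤) (χ : IrrCharacter G) :
    ∃ (l : IrrCharacter P) (ψ : IrrCharacter (Subgroup.centralizer (P : Set G))),
      ∀ (x : P) (c : Subgroup.centralizer (P : Set G)), (χ : G → ℂ) (x * c) = (l : P → ℂ) x * ψ.1 c := by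
  let π : P × Subgroup.centralizer (P : Set G) →* G :=
    { toFun := fun q => (q.1 : G) * (q.2 : G)
      map_one' := by simp
      map_mul' := fun a b => by
        have h := (Subgroup.mem_centralizer_iff.1 a.2.2) b.1 b.1.2
        simp only [Prod.fst_mul, Prod.snd_mul, Subgroup.coe_mul]
        calc (a.1 : G) * b.1 * (a.2 * b.2) = a.1 * (b.1 * a.2) * b.2 := by group
          _ = a.1 * (a.2 * b.1) * b.2 := by rw [h]
          _ = _ := by group }
  have hπ : Function.Surjective π := by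
    haveI := normal_of_sup hG
    intro g
    have hg : g ∈ P ⊔ Subgroup.centralizer (P : Set G) := by rw [hG]; exact Subgroup.mem_top g
    obtain ⟨x, hx, c, hc, e⟩ := Subgroup.mem_sup_of_normal_left.1 hg
    exact ⟨(⟨x, hx⟩, ⟨c, hc⟩), e⟩
  have h1 := IsIrr.comp χ.2 π hπ
  obtain ⟨φ, ψ, hφ, hψ, e⟩ := (H3.CharCalc.isIrr_prod_iff _).1 h1
  exact ⟨⟨φ, hφ⟩, ⟨ψ, hψ⟩, fun x c => congrFun e (x, c)⟩

theorem centralizer_index {P : Subgroup G} [hp : Fact p.Prime] (hP : IsPGroup p P) (hG : P ⊔ Subgroup.centralizer (P : Set G) = ⊤) :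
    ∃ k : ℕ, (Subgroup.centralizer (P : Set G)).index = p ^ k := by
  haveI := normal_of_sup hG
  haveI : (Subgroup.centralizer (P : Set G)).Normal := inferInstance
  have h1 : (Subgroup.centralizer (P : Set G)).relIndex P = (Subgroup.centralizer (P : Set G)).index := by
    have h2 := Subgroup.relIndex_sup_right P (Subgroup.centralizer (P : Set G))
    rw [hG] at h2
    rw [← h2, Subgroup.relIndex_top_right]
  rw [← h1]
  obtain ⟨n, hn⟩ := IsPGroup.iff_card.1 hP
  have h3 : (Subgroup.centralizer (P : Set G)).relIndex P ∣ p ^ n := by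
    rw [← hn]; exact Subgroup.relIndex_dvd_card _ _
  obtain ⟨k, -, hk⟩ := (Nat.dvd_prime_pow hp.out).1 h3
  exact ⟨k, hk⟩

theorem regular_mem_centralizer {P : Subgroup G} [hp : Fact p.Prime] (hP : IsPGroup p P)
    (hG : P ⊔ Subgroup.centralizer (P : Set G) = ⊤) {y : G} (hy : ¬ p ∣ orderOf y) :
    y ∈ Subgroup.centralizer (P : Set G) := by
  haveI := normal_of_sup hG
  haveI : (Subgroup.centralizer (P : Set G)).Normal := inferInstance
  exact regular_mem hp.out (centralizer_index hP hG) hy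

open Classical in
/-- sums over the elements whose p-part lies in P -/
theorem sum_section {P : Subgroup G} [Fintype P] [hp : Fact p.Prime] (hP : IsPGroup p P)
    (hG : P ⊔ Subgroup.centralizer (P : Set G) = ⊤) (F : G → ℂ) :
    ∑ g : G, (if g * (ppr p g)⁻¹ ∈ P then F g else 0) =
      ∑ x : P, ∑ y : G, (if p ∣ orderOf y then 0 else F (x * y)) := by
  rw [← Finset.sum_product', ← Finset.sum_filter]
  have e : ∀ q ∈ (Finset.univ : Finset P) ×ˢ (Finset.univ : Finset G),
      (if p ∣ orderOf q.2 then (0:ℂ) else F ((q.1 : G) * q.2)) =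
      (if ¬ p ∣ orderOf q.2 then F ((q.1 : G) * q.2) else 0) := fun q _ => by
    by_cases h : p ∣ orderOf q.2
    · rw [if_pos h, if_neg (not_not.2 h)]
    · rw [if_neg h, if_pos h]
  rw [Finset.sum_congr rfl e, ← Finset.sum_filter]
  have hpt : ∀ g : G, g * (ppr p g)⁻¹ ∈ P → ∃ k : ℕ, orderOf (g * (ppr p g)⁻¹) = p ^ k := by
    intro g _
    obtain ⟨x, hx, -, hk, -⟩ := ppr_spec (p := p) g
    have : g * (ppr p g)⁻¹ = x := by rw [mul_inv_eq_iff_eq_mul]; exact hx.symm
    rw [this]; exact hk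
  have key : ∀ (x : P) (y : G), ¬ p ∣ orderOf y → ppr p ((x : G) * y) = y := by
    intro x y hy
    apply ppr_eq
    · exact (Subgroup.mem_centralizer_iff.1 (regular_mem_centralizer hP hG hy)) x x.2
    · obtain ⟨k, hk⟩ := (IsPGroup.iff_orderOf.1 hP) x
      exact ⟨k, by rw [← hk, Subgroup.orderOf_coe]⟩
    · exact hy
  symm
  refine Finset.sum_bij (fun q _ => (q.1 : G) * q.2) ?_ ?_ ?_ ?_
  · intro q hq
    simp only [Finset.mem_filter] at hq ⊢
    refine ⟨Finset.mem_univ _, ?_⟩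
    rw [key q.1 q.2 hq.2, mul_inv_cancel_right]
    exact q.1.2
  · intro a ha b hb hab
    simp only [Finset.mem_filter] at ha hb
    have h1 := key a.1 a.2 ha.2
    have h2 := key b.1 b.2 hb.2
    have h3 : a.2 = b.2 := by rw [← h1, ← h2, hab]
    have h4 : (a.1 : G) = b.1 := by rw [h3] at hab; exact mul_right_cancel hab
    exact Prod.ext (Subtype.ext h4) h3
  · intro g hg
    simp only [Finset.mem_filter, Finset.mem_univ, true_and] at hg
    obtain ⟨-, -, -, -, hreg⟩ := ppr_spec (p := p) g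
    refine ⟨(⟨g * (ppr p g)⁻¹, hg⟩, ppr p g), ?_, ?_⟩
    · simp only [Finset.mem_filter, Finset.mem_product, Finset.mem_univ, true_and]
      exact hreg
    · exact inv_mul_cancel_right _ _
  · intro q _; rfl

section

variable {P : Subgroup G} [Fintype P] [hp : Fact p.Prime] (hP : IsPGroup p P)
    (hG : P ⊔ Subgroup.centralizer (P : Set G) = ⊤) {B : Set (IrrCharacter G)} (hM : IsPModular p M)
    (hB : IsPBlock M B) (hD : IsDefectGroup p M B P)

include hP hG hM hB hD

theorem vanish {χ : IrrCharacter G} (hχ : χ ∈ B) {g : G} (hg : g * (ppr p g)⁻¹ ∉ P) : (χ : G → ℂ) g = 0 := by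
  haveI := normal_of_sup hG
  by_contra hne
  obtain ⟨x, h1, h2, h3, h4⟩ := ppr_spec (p := p) g
  have hx : g * (ppr p g)⁻¹ = x := by rw [mul_inv_eq_iff_eq_mul]; exact h1.symm
  have hpp : IsPPart p g x := by
    have := mk_ppart (p := p) h2 h3 h4
    rwa [h1] at this
  obtain ⟨a, ha⟩ := mem_defect_of_ne_zero hM hB hD hχ hpp hne
  apply hg
  rw [hx]
  have := (inferInstance : P.Normal).conj_mem _ ha a⁻¹
  have e : a⁻¹ * (a * x * a⁻¹) * a⁻¹⁻¹ = x := by group
  rwa [e] at this

open Classical in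
/-- the norm -/
theorem norm_reg {χ : IrrCharacter G} (hχ : χ ∈ B) {l : IrrCharacter P}
    {ψ : Subgroup.centralizer (P : Set G) → ℂ}
    (h : ∀ (x : P) (c : Subgroup.centralizer (P : Set G)), (χ : G → ℂ) (x * c) = (l : P → ℂ) x * ψ c) :
    (Nat.card P : ℂ) * ∑ y : G, (if p ∣ orderOf y then 0 else (χ : G → ℂ) y * conj ((χ : G → ℂ) y)) =
      (Nat.card G : ℂ) * ((l : P → ℂ) 1) ^ 2 := by
  have h1 : ∑ g : G, (χ : G → ℂ) g * conj ((χ : G → ℂ) g) = Nat.card G := by
    have := ci_irr_self χ.2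
    rw [classInner] at this
    rw [inv_mul_eq_one₀ (Nat.cast_ne_zero.2 Nat.card_pos.ne')] at this
    convert this.symm
  have h2 : ∑ g : G, (if g * (ppr p g)⁻¹ ∈ P then (χ : G → ℂ) g * conj ((χ : G → ℂ) g) else 0) = Nat.card G := by
    rw [← h1]
    refine Finset.sum_congr rfl fun g _ => ?_
    by_cases hg : g * (ppr p g)⁻¹ ∈ P
    · rw [if_pos hg]
    · rw [if_neg hg, vanish hP hG hM hB hD hχ hg, zero_mul]
  rw [sum_section hP hG (fun g => (χ : G → ℂ) g * conj ((χ : G → ℂ) g))] at h2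
  have hl1 := irr_one_ne l.2
  obtain ⟨n, hn, hn1⟩ := irr_one l.2
  have h3 : ∀ (x : P) (y : G), (if p ∣ orderOf y then (0:ℂ) else
      (χ : G → ℂ) (x * y) * conj ((χ : G → ℂ) (x * y))) =
      ((l : P → ℂ) x * conj ((l : P → ℂ) x)) * ((((l : P → ℂ) 1) ^ 2)⁻¹ *
        (if p ∣ orderOf y then 0 else (χ : G → ℂ) y * conj ((χ : G → ℂ) y))) := by
    intro x y
    by_cases hy : p ∣ orderOf y
    · rw [if_pos hy, if_pos hy, mul_zero, mul_zero]
    · rw [if_neg hy, if_neg hy]
      have hc := regular_mem_centralizer hP hG hy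
      have e1 := h x ⟨y, hc⟩
      have e2 := h 1 ⟨y, hc⟩
      simp only [Subgroup.coe_one, one_mul] at e2
      simp only at e1
      rw [e1, e2, map_mul, map_mul, hn1, map_natCast]
      have : (n : ℂ) ≠ 0 := by rw [← hn1]; exact hl1
      field_simp
  rw [Finset.sum_congr rfl fun x _ => Finset.sum_congr rfl fun y _ => h3 x y] at h2
  simp only [← Finset.mul_sum] at h2
  rw [← Finset.sum_mul] at h2
  have h4 : ∑ g : P, (l : P → ℂ) g * conj ((l : P → ℂ) g) = Nat.card P := by
    have := ci_irr_self l.2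
    rw [classInner] at this
    rw [inv_mul_eq_one₀ (Nat.cast_ne_zero.2 Nat.card_pos.ne')] at this
    convert this.symm
  rw [h4] at h2
  rw [← h2]
  field_simp

theorem fact_index : (Nat.card G).factorization p = P.index.factorization p + (Nat.card P).factorization p := by
  rw [← Subgroup.index_mul_card P, Nat.factorization_mul Subgroup.index_ne_zero_of_finite Nat.card_pos.ne',
    Finsupp.add_apply]

/-- the divisibility of the degree of the `C(P)`-factor -/
theorem fact_le {χ : IrrCharacter G} (hχ : χ ∈ B) {l : IrrCharacter P}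
    {ψ : IrrCharacter (Subgroup.centralizer (P : Set G))}
    (h : ∀ (x : P) (c : Subgroup.centralizer (P : Set G)), (χ : G → ℂ) (x * c) = (l : P → ℂ) x * ψ.1 c) :
    P.index.factorization p ≤ (charDegree ψ.1).factorization p := by
  haveI := hM.2.1
  haveI := normal_of_sup hG
  haveI : Fintype (Subgroup.centralizer (P : Set G)) := Fintype.ofFinite _
  obtain ⟨y, hy, hcs⟩ := isDefectGroup_iff.1 hD
  have hcard := hcs.card
  have h1 := ((isDefectClass_iff hB).1 hy).2 χ hχ
  have hyc : y ∈ Subgroup.centralizer (P : Set G) := by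
    by_contra hno
    exact h1 (om_cs_mem_ideal hM P hP χ hno)
  by_contra hlt
  push Not at hlt
  apply h1
  have hl1 := irr_one_ne l.2
  have hψ1 := irr_one_ne ψ.2
  have e1 : (χ : G → ℂ) y = (l : P → ℂ) 1 * ψ.1 ⟨y, hyc⟩ := by
    have := h 1 ⟨y, hyc⟩
    simpa using this
  have e2 : (χ : G → ℂ) 1 = (l : P → ℂ) 1 * ψ.1 1 := by
    have := h 1 1
    simpa using this
  have e3 : om χ (cs y) = ((Subgroup.centralizer ({y} : Set G)).index : ℂ) / (charDegree ψ.1 : ℂ) *
      ψ.1 ⟨y, hyc⟩ := by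
    rw [om_cs, centralChar, e1, e2, charDegree_eq ψ.2]
    field_simp
  rw [e3]
  refine ideal_mul_right ?_ (char_mem_ring ψ _)
  rw [H25.BlockReg.ideal_nat_div_iff hM Subgroup.index_ne_zero_of_finite (charDegree_pos ψ.2).ne']
  refine lt_of_lt_of_le hlt (le_of_eq ?_)
  have h2 : (Nat.card G).factorization p = P.index.factorization p + (Nat.card P).factorization p :=
    fact_index hP hG hM hB hD
  have h3 : (Nat.card G).factorization p = (Subgroup.centralizer ({y} : Set G)).index.factorization p +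
      (Nat.card (Subgroup.centralizer ({y} : Set G))).factorization p := by
    rw [← Subgroup.index_mul_card (Subgroup.centralizer ({y} : Set G)),
      Nat.factorization_mul Subgroup.index_ne_zero_of_finite Nat.card_pos.ne', Finsupp.add_apply]
  have h4 : (Nat.card P).factorization p = (Nat.card (Subgroup.centralizer ({y} : Set G))).factorization p := by
    rw [hcard, hp.out.factorization_pow, Finsupp.single_eq_same]
  omega

open Classical in
theorem value_eq {χ θ : IrrCharacter G} (hχ : χ ∈ B) (hθ : θ ∈ B)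
    (hker : ∀ x ∈ P, (θ : G → ℂ) x = (θ : G → ℂ) 1) {l : IrrCharacter P}
    {ψ : IrrCharacter (Subgroup.centralizer (P : Set G))}
    (h : ∀ (x : P) (c : Subgroup.centralizer (P : Set G)), (χ : G → ℂ) (x * c) = (l : P → ℂ) x * ψ.1 c)
    {y : G} (hy : ¬ p ∣ orderOf y) : (χ : G → ℂ) y = (l : P → ℂ) 1 * (θ : G → ℂ) y := by
  haveI := hM.2.1
  haveI := normal_of_sup hG
  haveI : Fintype (Subgroup.centralizer (P : Set G)) := Fintype.ofFinite _
  have hl1 := irr_one_ne l.2
  have hψ1 := irr_one_ne ψ.2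
  have hχ1 := irr_one_ne χ.2
  have hθ1 := irr_one_ne θ.2
  have hG0 : (Nat.card G : ℂ) ≠ 0 := Nat.cast_ne_zero.2 Nat.card_pos.ne'
  have hP0 : (Nat.card P : ℂ) ≠ 0 := Nat.cast_ne_zero.2 Nat.card_pos.ne'
  have e2 : (χ : G → ℂ) 1 = (l : P → ℂ) 1 * ψ.1 1 := by
    have := h 1 1
    simpa using this
  -- norms
  have N1 := norm_reg hP hG hM hB hD hχ h
  have N2 := norm_reg hP hG hM hB hD hθ (l := triv P) (ψ := fun c => (θ : G → ℂ) c) (fun x c => by
    rw [triv_coe, one_mul]
    exact (ker_mul (isChar_of_irr θ.2) (hker x x.2) c).1)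
  rw [triv_coe, one_pow, mul_one] at N2
  set T : ℂ := ∑ y : G, (if p ∣ orderOf y then 0 else (χ : G → ℂ) y⁻¹ * (θ : G → ℂ) y) with hT
  -- the central element
  set f : G → ℂ := fun g => (χ : G → ℂ) g * ((l : P → ℂ) 1)⁻¹ with hf
  have hfc : IsClassFunction G f := fun a b => by
    show (χ : G → ℂ) (b * a * b⁻¹) * _ = (χ : G → ℂ) a * _
    rw [irr_class χ.2]
  have hz : zreg p f hfc ∈ ZI G M := by
    intro g
    rw [zreg_coeff]
    split_ifs with hg
    · exact ring_zero
    · have hg' : ¬ p ∣ orderOf g⁻¹ := by rwa [orderOf_inv]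
      have hc := regular_mem_centralizer hP hG hg'
      have e : f g⁻¹ = ψ.1 ⟨g⁻¹, hc⟩ := by
        have := h 1 ⟨g⁻¹, hc⟩
        simp only [Subgroup.coe_one, one_mul] at this
        simp only [hf]
        rw [this]
        field_simp
      rw [e]
      exact char_mem_ring ψ _
  have h1 : MemLocalIdeal M (om χ (zreg p f hfc) - om θ (zreg p f hfc)) :=
    om_sub_mem_of_sameBlock (block_sameBlock hB hχ hθ) hz
  have h2 : om θ (zreg p f hfc) = T * ((l : P → ℂ) 1)⁻¹ / (θ : G → ℂ) 1 := by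
    rw [om_zreg, hT, Finset.sum_mul]
    congr 1
    refine Finset.sum_congr rfl fun g _ => ?_
    by_cases hg : p ∣ orderOf g
    · rw [if_pos hg, if_pos hg, zero_mul]
    · rw [if_neg hg, if_neg hg]; simp only [hf]; ring
  have h3 : om χ (zreg p f hfc) = (P.index : ℂ) / (charDegree ψ.1 : ℂ) := by
    have e3 : ∑ g : G, (if p ∣ orderOf g then 0 else f g⁻¹ * (χ : G → ℂ) g) =
        ((l : P → ℂ) 1)⁻¹ * ∑ y : G, (if p ∣ orderOf y then 0 else (χ : G → ℂ) y * conj ((χ : G → ℂ) y)) := by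
      rw [Finset.mul_sum]
      refine Finset.sum_congr rfl fun g _ => ?_
      by_cases hg : p ∣ orderOf g
      · rw [if_pos hg, if_pos hg, mul_zero]
      · rw [if_neg hg, if_neg hg]; simp only [hf]
        rw [IsChar.inv_eq_conj (isChar_of_irr χ.2)]; ring
    rw [om_zreg, e3, charDegree_eq ψ.2, e2]
    have e4 : (Nat.card G : ℂ) = (P.index : ℂ) * (Nat.card P : ℂ) := by
      rw [← Nat.cast_mul, Subgroup.index_mul_card]
    rw [e4] at N1
    have e5 : ∑ y : G, (if p ∣ orderOf y then 0 else (χ : G → ℂ) y * conj ((χ : G → ℂ) y)) =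
        (P.index : ℂ) * ((l : P → ℂ) 1) ^ 2 := by
      apply mul_left_cancel₀ hP0
      rw [N1]; ring
    rw [e5]
    field_simp
  have h4 : ¬ MemLocalIdeal M (om χ (zreg p f hfc)) := by
    rw [h3, H25.BlockReg.ideal_nat_div_iff hM Subgroup.index_ne_zero_of_finite (charDegree_pos ψ.2).ne', not_lt]
    exact fact_le hP hG hM hB hD hχ h
  have hT0 : T ≠ 0 := by
    intro h0
    rw [h2, h0, zero_mul, zero_div, sub_zero] at h1
    exact h4 h1
  -- integrality
  have h5 : ∃ m : ℤ, T = (m : ℂ) * ((Nat.card G : ℂ) / (Nat.card P : ℂ) * (l : P → ℂ) 1) := by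
    have h6 := H25.BlockReg.nn_eq (p := p) θ χ
    obtain ⟨r, hr⟩ := H25.BlockReg.nn_dvd' (p := p) θ χ
    have h7 : ∑ x ∈ Finset.univ.filter (fun x : G => ¬ p ∣ orderOf x), (θ : G → ℂ) x * conj ((χ : G → ℂ) x) = T := by
      rw [hT, Finset.sum_filter]
      refine Finset.sum_congr rfl fun g _ => ?_
      by_cases hg : p ∣ orderOf g
      · rw [if_pos hg, if_neg (not_not.2 hg)]
      · rw [if_neg hg, if_pos hg, IsChar.inv_eq_conj (isChar_of_irr χ.2)]; ring
    rw [h7, hr] at h6
    obtain ⟨d, hd⟩ := IsPGroup.iff_card.1 hP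
    have hlc : (charDegree (l : P → ℂ)) ∣ p ^ d := by
      rw [← hd]; exact H26.Basic.cd_dvd_card l
    obtain ⟨j, -, hj⟩ := (Nat.dvd_prime_pow hp.out).1 hlc
    have hcd : charDegree (χ : G → ℂ) = charDegree (l : P → ℂ) * charDegree ψ.1 := by
      have : (charDegree (χ : G → ℂ) : ℂ) = ((charDegree (l : P → ℂ) * charDegree ψ.1 : ℕ) : ℂ) := by
        rw [Nat.cast_mul, charDegree_eq χ.2, charDegree_eq l.2, charDegree_eq ψ.2, e2]
      exact_mod_cast this
    have hvd : (charDegree (χ : G → ℂ)).factorization p = j + (charDegree ψ.1).factorization p := by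
      rw [hcd, Nat.factorization_mul (charDegree_pos l.2).ne' (charDegree_pos ψ.2).ne', Finsupp.add_apply, hj,
        hp.out.factorization_pow, Finsupp.single_eq_same]
    have hva : (Nat.card G).factorization p = P.index.factorization p + d := by
      rw [fact_index hP hG hM hB hD, hd, hp.out.factorization_pow, Finsupp.single_eq_same]
    obtain ⟨s, hs⟩ := Nat.exists_eq_add_of_le (fact_le hP hG hM hB hD hχ h)
    have hlj : (l : P → ℂ) 1 = (p : ℂ) ^ j := by
      rw [← charDegree_eq l.2, hj, Nat.cast_pow]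
    refine ⟨(p : ℤ) ^ s * r, ?_⟩
    rw [hvd, hs, hva] at h6
    have hp0 : (p : ℂ) ≠ 0 := Nat.cast_ne_zero.2 hp.out.ne_zero
    have hPd : (Nat.card P : ℂ) = (p : ℂ) ^ d := by rw [hd, Nat.cast_pow]
    rw [hlj, hPd]
    push_cast at h6 ⊢
    have h8 : T = (Nat.card G : ℂ) * (((p : ℂ) ^ (P.index.factorization p + d))⁻¹ *
        ((p : ℂ) ^ (j + (P.index.factorization p + s)) * r)) := by
      rw [h6]; field_simp
    rw [h8]
    simp only [pow_add]
    field_simp
  obtain ⟨m, hm⟩ := h5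
  have hm0 : m ≠ 0 := by
    rintro rfl
    rw [Int.cast_zero, zero_mul] at hm
    exact hT0 hm
  obtain ⟨n, hn, hn1⟩ := irr_one l.2
  have hn0 : (n : ℂ) ≠ 0 := by rw [← hn1]; exact hl1
  -- the final sum
  set D : G → ℂ := fun y => if p ∣ orderOf y then 0 else (χ : G → ℂ) y / n - m * (θ : G → ℂ) y with hDdef
  have hTc : ∑ y : G, (if p ∣ orderOf y then 0 else (χ : G → ℂ) y * conj ((θ : G → ℂ) y)) = conj T := by
    rw [hT, map_sum]
    refine Finset.sum_congr rfl fun g _ => ?_
    by_cases hg : p ∣ orderOf g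
    · rw [if_pos hg, if_pos hg, map_zero]
    · rw [if_neg hg, if_neg hg, IsChar.inv_eq_conj (isChar_of_irr χ.2), map_mul, Complex.conj_conj]
  have hTc' : ∑ y : G, (if p ∣ orderOf y then 0 else conj ((χ : G → ℂ) y) * (θ : G → ℂ) y) = T := by
    rw [hT]
    refine Finset.sum_congr rfl fun g _ => ?_
    by_cases hg : p ∣ orderOf g
    · rw [if_pos hg, if_pos hg]
    · rw [if_neg hg, if_neg hg, IsChar.inv_eq_conj (isChar_of_irr χ.2)]
  have hTreal : conj T = T := by
    rw [hm, hn1]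
    simp only [map_mul, map_div₀, map_intCast, map_natCast]
  have hsum : ∑ y : G, D y * conj (D y) = (Nat.card G : ℂ) / Nat.card P * (1 - m ^ 2) := by
    have e : ∀ y : G, D y * conj (D y) =
        (n : ℂ)⁻¹ ^ 2 * (if p ∣ orderOf y then 0 else (χ : G → ℂ) y * conj ((χ : G → ℂ) y)) -
        m * (n : ℂ)⁻¹ * (if p ∣ orderOf y then 0 else (χ : G → ℂ) y * conj ((θ : G → ℂ) y)) -
        m * (n : ℂ)⁻¹ * (if p ∣ orderOf y then 0 else conj ((χ : G → ℂ) y) * (θ : G → ℂ) y) +
        m ^ 2 * (if p ∣ orderOf y then 0 else (θ : G → ℂ) y * conj ((θ : G → ℂ) y)) := by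
      intro y
      simp only [hDdef]
      by_cases hy : p ∣ orderOf y
      · simp only [if_pos hy, mul_zero, zero_mul, sub_zero, add_zero]
      · simp only [if_neg hy, map_sub, map_div₀, map_mul, map_intCast, map_natCast]
        field_simp
        ring
    rw [Finset.sum_congr rfl fun y _ => e y, Finset.sum_add_distrib, Finset.sum_sub_distrib, Finset.sum_sub_distrib,
      ← Finset.mul_sum, ← Finset.mul_sum, ← Finset.mul_sum, ← Finset.mul_sum, hTc, hTc', hTreal]
    have N1' : ∑ y : G, (if p ∣ orderOf y then 0 else (χ : G → ℂ) y * conj ((χ : G → ℂ) y)) =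
        (Nat.card G : ℂ) * n ^ 2 / Nat.card P := by
      rw [eq_div_iff hP0, mul_comm, N1, hn1]
    have N2' : ∑ y : G, (if p ∣ orderOf y then 0 else (θ : G → ℂ) y * conj ((θ : G → ℂ) y)) =
        (Nat.card G : ℂ) / Nat.card P := by
      rw [eq_div_iff hP0, mul_comm, N2]
    rw [N1', N2', hm, hn1]
    field_simp
    ring
  have hre : ∑ y : G, Complex.normSq (D y) = (Nat.card G : ℝ) / Nat.card P * (1 - (m : ℝ) ^ 2) := by
    have : ((∑ y : G, Complex.normSq (D y) : ℝ) : ℂ) =
        (((Nat.card G : ℝ) / Nat.card P * (1 - (m : ℝ) ^ 2) : ℝ) : ℂ) := by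
      push_cast
      rw [← hsum]
      exact Finset.sum_congr rfl fun y _ => (Complex.mul_conj _).symm
    exact_mod_cast this
  have hnn : 0 ≤ ∑ y : G, Complex.normSq (D y) := Finset.sum_nonneg fun y _ => Complex.normSq_nonneg _
  have hpos : (0:ℝ) < (Nat.card G : ℝ) / Nat.card P :=
    div_pos (Nat.cast_pos.2 Nat.card_pos) (Nat.cast_pos.2 Nat.card_pos)
  have hm2 : m ^ 2 = 1 := by
    have h9 : (0 : ℝ) ≤ 1 - (m : ℝ) ^ 2 := by
      by_contra hneg
      push Not at hneg
      have := mul_neg_of_pos_of_neg hpos hneg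
      linarith
    have h10 : m ^ 2 ≤ 1 := by
      have : (m : ℝ) ^ 2 ≤ 1 := by linarith
      exact_mod_cast this
    have h11 : 0 < m ^ 2 := by positivity
    omega
  have hzero : ∀ y, D y = 0 := by
    have h12 : ∑ y : G, Complex.normSq (D y) = 0 := by
      have : (m : ℝ) ^ 2 = 1 := by exact_mod_cast hm2
      rw [hre, this]; ring
    intro y
    have := (Finset.sum_eq_zero_iff_of_nonneg fun y _ => Complex.normSq_nonneg _).1 h12 y (Finset.mem_univ _)
    exact Complex.normSq_eq_zero.1 this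
  have h1r : ¬ p ∣ orderOf (1 : G) := by
    rw [orderOf_one]; exact fun h => hp.out.one_lt.ne' (Nat.dvd_one.1 h)
  have hm1 : m = 1 := by
    have h13 := hzero 1
    simp only [hDdef] at h13
    rw [if_neg h1r] at h13
    obtain ⟨c, hc, hc1⟩ := irr_one χ.2
    obtain ⟨t, ht, ht1⟩ := irr_one θ.2
    rw [hc1, ht1, sub_eq_zero, div_eq_iff hn0] at h13
    have h14 : (c : ℤ) = m * t * n := by exact_mod_cast h13
    have hmm : (m - 1) * (m + 1) = 0 := by
      have : (m - 1) * (m + 1) = m ^ 2 - 1 := by ring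
      rw [this, hm2]; rfl
    rcases mul_eq_zero.1 hmm with h | h
    · omega
    · exfalso
      have h : m = -1 := by omega
      rw [h] at h14
      have : 0 < (t : ℤ) * n := by positivity
      have hc' : 0 < (c : ℤ) := by exact_mod_cast hc
      nlinarith
  have h15 := hzero y
  simp only [hDdef] at h15
  rw [if_neg hy, hm1, Int.cast_one, one_mul, sub_eq_zero, div_eq_iff hn0] at h15
  rw [h15, hn1]; ring

open Classical in
theorem value_full {χ θ : IrrCharacter G} (hχ : χ ∈ B) (hθ : θ ∈ B)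
    (hker : ∀ x ∈ P, (θ : G → ℂ) x = (θ : G → ℂ) 1) {l : IrrCharacter P}
    {ψ : IrrCharacter (Subgroup.centralizer (P : Set G))}
    (h : ∀ (x : P) (c : Subgroup.centralizer (P : Set G)), (χ : G → ℂ) (x * c) = (l : P → ℂ) x * ψ.1 c)
    (g : G) : (χ : G → ℂ) g = if hg : g * (ppr p g)⁻¹ ∈ P then (l : P → ℂ) ⟨_, hg⟩ * (θ : G → ℂ) (ppr p g) else 0 := by
  split_ifs with hg
  · obtain ⟨-, -, -, -, hreg⟩ := ppr_spec (p := p) g
    have hc := regular_mem_centralizer hP hG hreg
    have h1 := h ⟨_, hg⟩ ⟨_, hc⟩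
    have h2 := h 1 ⟨_, hc⟩
    simp only [inv_mul_cancel_right, Subgroup.coe_one, one_mul] at h1 h2
    rw [h1]
    have h3 := value_eq hP hG hM hB hD hχ hθ hker h hreg
    rw [h3] at h2
    rw [mul_left_cancel₀ (irr_one_ne l.2) h2]
  · exact vanish hP hG hM hB hD hχ hg

/-- every irreducible character of `P` occurs -/
theorem exists_over (l : IrrCharacter P) : ∃ χ ∈ B, ∃ ψ : IrrCharacter (Subgroup.centralizer (P : Set G)),
    ∀ (x : P) (c : Subgroup.centralizer (P : Set G)), (χ : G → ℂ) (x * c) = (l : P → ℂ) x * ψ.1 c := by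
  classical
  haveI := hM.2.1
  haveI : Fintype (IrrCharacter G) := Fintype.ofFinite _
  by_contra hcon
  push Not at hcon
  have h1 : ∑ x : P, blockCoeff B (x : G) * (l : P → ℂ) x = blockCoeff B 1 * (l : P → ℂ) 1 := by
    rw [Finset.sum_eq_single 1]
    · rfl
    · intro x _ hx
      rw [blockCoeff_eq_zero hM hB, zero_mul]
      exact pgroup_singular hP x.2 (fun h => hx (Subtype.ext h))
    · intro h; exact absurd (Finset.mem_univ _) h
  have h2 : ∑ x : P, blockCoeff B (x : G) * (l : P → ℂ) x = 0 := by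
    simp only [blockCoeff_eq_sum]
    have e : ∀ x : P, ((Nat.card G : ℂ))⁻¹ * (∑ χ : IrrCharacter G, if χ ∈ B then (χ : G → ℂ) 1 * conj ((χ : G → ℂ) x) else 0) * (l : P → ℂ) x
       = ((Nat.card G : ℂ))⁻¹ * ∑ χ : IrrCharacter G, if χ ∈ B then (χ : G → ℂ) 1 * (conj ((χ : G → ℂ) x) * (l : P → ℂ) x) else 0 := by
      intro x
      rw [mul_assoc, Finset.sum_mul]
      congr 1
      refine Finset.sum_congr rfl fun χ _ => ?_
      split_ifs <;> ring
    rw [Finset.sum_congr rfl fun x _ => e x, ← Finset.mul_sum, Finset.sum_comm]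
    apply mul_eq_zero_of_right
    refine Finset.sum_eq_zero fun χ _ => ?_
    by_cases hχ : χ ∈ B
    · simp only [if_pos hχ]
      rw [← Finset.mul_sum]
      apply mul_eq_zero_of_right
      obtain ⟨l', ψ, h⟩ := struct hG χ
      have hne : l' ≠ l := by
        rintro rfl
        obtain ⟨x, c, hxc⟩ := hcon χ hχ ψ
        exact hxc (h x c)
      have h3 : ∀ x : P, conj ((χ : G → ℂ) x) * (l : P → ℂ) x =
          conj (ψ.1 1) * ((l : P → ℂ) x * conj ((l' : P → ℂ) x)) := by
        intro x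
        have h4 := h x 1
        simp only [Subgroup.coe_one, mul_one] at h4
        rw [h4, map_mul]; ring
      rw [Finset.sum_congr rfl fun x _ => h3 x, ← Finset.mul_sum]
      apply mul_eq_zero_of_right
      have h5 := ci_irr_ne l.2 l'.2 (fun h => hne (Subtype.ext h.symm))
      rw [classInner] at h5
      have h6 := (mul_eq_zero.1 h5).resolve_left (inv_ne_zero (Nat.cast_ne_zero.2 Nat.card_pos.ne'))
      convert h6
    · simp only [if_neg hχ]; exact Finset.sum_const_zero
  rw [h2] at h1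
  exact mul_ne_zero (blockCoeff_one_ne_zero (M := M) (block_nonempty hB)) (irr_one_ne l.2) h1.symm

/-- the irreducible character of P below χ is unique -/
theorem l_unique {χ : IrrCharacter G} {l l' : IrrCharacter P}
    {ψ ψ' : IrrCharacter (Subgroup.centralizer (P : Set G))}
    (h : ∀ (x : P) (c : Subgroup.centralizer (P : Set G)), (χ : G → ℂ) (x * c) = (l : P → ℂ) x * ψ.1 c)
    (h' : ∀ (x : P) (c : Subgroup.centralizer (P : Set G)), (χ : G → ℂ) (x * c) = (l' : P → ℂ) x * ψ'.1 c) :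
    l = l' := by
  by_contra hne
  haveI : Fintype (Subgroup.centralizer (P : Set G)) := Fintype.ofFinite _
  have h5 := ci_irr_ne l.2 l'.2 (fun h => hne (Subtype.ext h))
  rw [classInner] at h5
  have h6 := (mul_eq_zero.1 h5).resolve_left (inv_ne_zero (Nat.cast_ne_zero.2 Nat.card_pos.ne'))
  have h7 := ci_irr_self l'.2
  rw [classInner, inv_mul_eq_one₀ (Nat.cast_ne_zero.2 Nat.card_pos.ne')] at h7
  have h8 : ∀ x : P, (l : P → ℂ) x * ψ.1 1 = (l' : P → ℂ) x * ψ'.1 1 := by
    intro x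
    rw [← h x 1, ← h' x 1]
  have h9 : (∑ x : P, (l : P → ℂ) x * conj ((l' : P → ℂ) x)) * ψ.1 1 =
    (∑ x : P, (l' : P → ℂ) x * conj ((l' : P → ℂ) x)) * ψ'.1 1 := by
    rw [Finset.sum_mul, Finset.sum_mul]
    refine Finset.sum_congr rfl fun x _ => ?_
    rw [mul_right_comm, h8, mul_right_comm]
  have h10 : (∑ x : P, (l : P → ℂ) x * conj ((l' : P → ℂ) x)) = 0 := by convert h6
  have h11 : (∑ x : P, (l' : P → ℂ) x * conj ((l' : P → ℂ) x)) = Nat.card P := by convert h7.symm
  rw [h10, h11, zero_mul] at h9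
  exact mul_ne_zero (Nat.cast_ne_zero.2 Nat.card_pos.ne') (irr_one_ne ψ'.2) h9.symm

theorem card_block : Nat.card B = Nat.card (ConjClasses P) := by
  classical
  haveI := hM.2.1
  haveI := normal_of_sup hG
  rw [← card_irr]
  obtain ⟨θ, hθ, hker⟩ := exists_mem_ker hM hB P hP
  choose L Ψ hL using fun χ : IrrCharacter G => struct hG χ
  refine Nat.card_congr (Equiv.ofBijective (fun χ : B => L χ.1) ⟨?_, ?_⟩)
  · intro χ χ' hχ
    apply Subtype.ext
    apply Subtype.ext
    funext g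
    have h1 := value_full hP hG hM hB hD χ.2 hθ hker (hL χ.1) g
    have h2 := value_full hP hG hM hB hD χ'.2 hθ hker (hL χ'.1) g
    have h3 : L χ.1 = L χ'.1 := hχ
    rw [h3] at h1
    rw [h1, h2]
  · intro l
    obtain ⟨χ, hχ, ψ, h⟩ := exists_over hP hG hM hB hD l
    exact ⟨⟨χ, hχ⟩, l_unique hP hG hM hB hD (hL χ) h⟩

theorem l_one {θ' : IrrCharacter G}
    (hker' : ∀ x ∈ P, (θ' : G → ℂ) x = (θ' : G → ℂ) 1) {l : IrrCharacter P}
    {ψ : IrrCharacter (Subgroup.centralizer (P : Set G))}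
    (h : ∀ (x : P) (c : Subgroup.centralizer (P : Set G)), (θ' : G → ℂ) (x * c) = (l : P → ℂ) x * ψ.1 c) (x : P) :
    (l : P → ℂ) x = 1 := by
  haveI : Fintype (Subgroup.centralizer (P : Set G)) := Fintype.ofFinite _
  have h1 : ∀ x : P, (l : P → ℂ) x = (l : P → ℂ) 1 := by
    intro x
    have h2 := h x 1
    have h3 := h 1 1
    simp only [Subgroup.coe_one, mul_one] at h2 h3
    rw [hker' x x.2, h3] at h2
    exact (mul_right_cancel₀ (irr_one_ne ψ.2) h2).symm
  have h4 := ci_irr_self l.2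
  rw [classInner, inv_mul_eq_one₀ (Nat.cast_ne_zero.2 Nat.card_pos.ne')] at h4
  have h11 : (∑ x : P, (l : P → ℂ) x * conj ((l : P → ℂ) x)) = Nat.card P := by convert h4.symm
  obtain ⟨n, hn, hn1⟩ := irr_one l.2
  rw [Finset.sum_congr rfl fun x _ => by rw [h1 x, hn1, map_natCast], Finset.sum_const, Finset.card_univ,
    ← Nat.card_eq_fintype_card, nsmul_eq_mul] at h11
  have hP0 : (Nat.card P : ℂ) ≠ 0 := Nat.cast_ne_zero.2 Nat.card_pos.ne'
  have h12 : (n : ℂ) * n = 1 := by
    apply mul_left_cancel₀ hP0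
    rw [h11, mul_one]
  have h13 : n = 1 := by
    have : n * n = 1 := by exact_mod_cast h12
    exact Nat.eq_one_of_mul_eq_one_left this
  rw [h1, hn1, h13, Nat.cast_one]

theorem ker_unique {θ θ' : IrrCharacter G} (hθ : θ ∈ B) (hker : ∀ x ∈ P, (θ : G → ℂ) x = (θ : G → ℂ) 1)
    (hθ' : θ' ∈ B) (hker' : ∀ x ∈ P, (θ' : G → ℂ) x = (θ' : G → ℂ) 1) : θ' = θ := by
  classical
  haveI := hM.2.1
  haveI := normal_of_sup hG
  obtain ⟨l, ψ, h⟩ := struct hG θ'
  obtain ⟨l1, ψ1, h1⟩ := struct hG θ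
  apply Subtype.ext
  funext g
  rw [value_full hP hG hM hB hD hθ' hθ hker h g, value_full hP hG hM hB hD hθ hθ hker h1 g]
  by_cases hg : g * (ppr p g)⁻¹ ∈ P
  · rw [dif_pos hg, dif_pos hg, l_one hP hG hM hB hD hker' h, l_one hP hG hM hB hD hker h1]
  · rw [dif_neg hg, dif_neg hg]

theorem degree {θ : IrrCharacter G} (hθ : θ ∈ B) (hker : ∀ x ∈ P, (θ : G → ℂ) x = (θ : G → ℂ) 1) :
    (charDegree (θ : G → ℂ)).factorization p = P.index.factorization p := by
  haveI := normal_of_sup hG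
  haveI : Fintype (Subgroup.centralizer (P : Set G)) := Fintype.ofFinite _
  haveI : Fintype (G ⧸ P) := Fintype.ofFinite _
  apply le_antisymm
  · obtain ⟨φ, hφ⟩ := BlockQuot.exists_infl P (ψ := θ) hker
    have h1 : charDegree (θ : G → ℂ) = charDegree (φ : G ⧸ P → ℂ) := by
      have : (charDegree (θ : G → ℂ) : ℂ) = charDegree (φ : G ⧸ P → ℂ) := by
        rw [charDegree_eq θ.2, charDegree_eq φ.2, ← hφ, BlockQuot.infl_apply]
        rfl
      exact_mod_cast this
    rw [h1, Subgroup.index_eq_card]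
    exact (Nat.factorization_le_iff_dvd (charDegree_pos φ.2).ne' Nat.card_pos.ne').2 (H26.Basic.cd_dvd_card φ) p
  · obtain ⟨l, ψ, h⟩ := struct hG θ
    have h1 : charDegree (θ : G → ℂ) = charDegree ψ.1 := by
      have : (charDegree (θ : G → ℂ) : ℂ) = charDegree ψ.1 := by
        rw [charDegree_eq θ.2, charDegree_eq ψ.2]
        have := h 1 1
        rw [l_one hP hG hM hB hD hker h, one_mul] at this
        simpa using this
      exact_mod_cast this
    rw [h1]
    exact fact_le hP hG hM hB hD hθ h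

end

end Cfsg.Agent.H10.BlockPC
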