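import Mathlib
import Cfsg.Agent.H10_Q8

/-!
H10_Q8b: the quotient of the centralizer of the involution when Sylow 2-subgroups are quaternion of order 8.
-/

set_option autoImplicit false
set_option linter.style.haveILetI false
set_option linter.unusedSectionVars false

namespace Cfsg.Agent.H10.Q8b

open Cfsg.Agent.H10.PPart Cfsg.Agent.H10.Homo Cfsg.Agent.H10.Q8

variable {G : Type*} [Group G]

/-- the element t of its centralizer -/
def tC (t : G) : Subgroup.centralizer ({t} : Set G) := ⟨t, Subgroup.mem_centralizer_singleton_iff.2 rfl⟩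

theorem tC_comm (t : G) (c : Subgroup.centralizer ({t} : Set G)) : c * tC t = tC t * c :=
  Subtype.ext (Subgroup.mem_centralizer_singleton_iff.1 c.2)

theorem tC_order (t : G) : orderOf (tC t) = orderOf t := Subgroup.orderOf_mk _ _

instance tN_normal (t : G) : (Subgroup.zpowers (tC t)).Normal := by
  constructor
  rintro _ ⟨i, rfl⟩ g
  refine ⟨i, ?_⟩
  show (tC t) ^ i = g * (tC t) ^ i * g⁻¹
  have h : Commute g (tC t) := tC_comm t g
  rw [(h.zpow_right i).eq, mul_inv_cancel_right]

theorem mem_tN {t : G} (ht : t * t = 1) {c : Subgroup.centralizer ({t} : Set G)} :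
    c ∈ Subgroup.zpowers (tC t) ↔ c = 1 ∨ c = tC t := by
  have h2 : tC t * tC t = 1 := Subtype.ext ht
  constructor
  · rintro ⟨i, rfl⟩
    have h3 : (tC t) ^ (2 : ℤ) = 1 := by rw [← h2]; exact zpow_two _
    rcases Int.even_or_odd' i with ⟨k, hk | hk⟩
    · left
      show (tC t) ^ i = 1
      rw [hk, zpow_mul, h3, one_zpow]
    · right
      show (tC t) ^ i = tC t
      rw [hk, zpow_add, zpow_mul, h3, one_zpow, one_mul, zpow_one]
  · rintro (rfl | rfl)
    · exact Subgroup.one_mem _
    · exact Subgroup.mem_zpowers _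

theorem card_tN {t : G} (ht : orderOf t = 2) : Nat.card (Subgroup.zpowers (tC t)) = 2 := by
  rw [Nat.card_zpowers, tC_order, ht]

theorem quotient_v4 [Finite G] (P : Sylow 2 G) (e : (P : Subgroup G) ≃* QuaternionGroup 2) {t : G}
    (h : QD (P : Subgroup G) t) (hnc : ¬ HasNormalPComplement 2 G) :
    (∃ R : Sylow 2 (Subgroup.centralizer ({t} : Set G) ⧸ Subgroup.zpowers (tC t)),
      IsKleinFour (R : Subgroup (Subgroup.centralizer ({t} : Set G) ⧸ Subgroup.zpowers (tC t)))) ∧
    ∀ u v : Subgroup.centralizer ({t} : Set G) ⧸ Subgroup.zpowers (tC t),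
      orderOf u = 2 → orderOf v = 2 → IsConj u v := by
  have hPC : (P : Subgroup G) ≤ Subgroup.centralizer ({t} : Set G) := by
    intro x hx
    exact Subgroup.mem_centralizer_singleton_iff.2 (h.tc x hx)
  have htt := h.tt
  constructor
  · set f := QuotientGroup.mk' (Subgroup.zpowers (tC t)) with hf
    have hfs : Function.Surjective f := QuotientGroup.mk'_surjective _
    set P1 : Sylow 2 (Subgroup.centralizer ({t} : Set G)) := P.subtype hPC with hP1
    refine ⟨P1.mapSurjective hfs, ?_, ?_⟩
    · have e1 : Nat.card (P1 : Subgroup (Subgroup.centralizer ({t} : Set G))) = 8 := by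
        rw [← h.card]
        exact Nat.card_congr (Subgroup.subgroupOfEquivOfLe hPC).toEquiv
      have e2 := P1.card_eq_multiplicity
      rw [e1] at e2
      have e3 : (Nat.card (Subgroup.centralizer ({t} : Set G))).factorization 2 = 3 := by
        have : (2:ℕ) ^ 3 = 2 ^ (Nat.card (Subgroup.centralizer ({t} : Set G))).factorization 2 := by
          rw [← e2]; norm_num
        exact (Nat.pow_right_injective le_rfl this).symm
      have e4 := (Subgroup.zpowers (tC t)).card_mul_index
      rw [card_tN h.t_order] at e4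
      have e5 : (Subgroup.zpowers (tC t)).index = Nat.card (Subgroup.centralizer ({t} : Set G) ⧸ Subgroup.zpowers (tC t)) := rfl
      have e6 : (Nat.card (Subgroup.centralizer ({t} : Set G) ⧸ Subgroup.zpowers (tC t))).factorization 2 = 2 := by
        rw [← e4, Nat.factorization_mul (by norm_num) Subgroup.index_ne_zero_of_finite, Finsupp.add_apply,
          Nat.Prime.factorization_self Nat.prime_two, e5] at e3
        omega
      rw [(P1.mapSurjective hfs).card_eq_multiplicity, e6]
      norm_num
    · have hsq : ∀ u : (P1.mapSurjective hfs : Subgroup (Subgroup.centralizer ({t} : Set G) ⧸ Subgroup.zpowers (tC t))), u ^ 2 = 1 := by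
        rintro ⟨u, hu⟩
        rw [Sylow.coe_mapSurjective] at hu
        obtain ⟨c, hc, rfl⟩ := hu
        apply Subtype.ext
        show f c ^ 2 = 1
        rw [← map_pow, hf, QuotientGroup.mk'_apply, QuotientGroup.eq_one_iff, mem_tN htt, sq]
        rcases h.cs (c : G) hc with h1 | h1 | h1
        · left; apply Subtype.ext; show (c : G) * c = 1; rw [h1, mul_one]
        · left; apply Subtype.ext; show (c : G) * c = 1; rw [h1, htt]
        · right; apply Subtype.ext; exact h1
      apply Nat.dvd_antisymm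
      · exact Monoid.exponent_dvd_of_forall_pow_eq_one hsq
      · -- some element of order two
        obtain ⟨x, hx, y, hy, hxx, hyy, h1, h2⟩ := h.f4
        have hxC : x ∈ Subgroup.centralizer ({t} : Set G) := hPC hx
        have hm : f ⟨x, hxC⟩ ∈ (P1.mapSurjective hfs : Subgroup _) := by
          rw [Sylow.coe_mapSurjective]
          exact ⟨⟨x, hxC⟩, hx, rfl⟩
        have h3 : (⟨f ⟨x, hxC⟩, hm⟩ : (P1.mapSurjective hfs : Subgroup (Subgroup.centralizer ({t} : Set G) ⧸ Subgroup.zpowers (tC t)))) ≠ 1 := by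
          intro hcon
          have h4 : f ⟨x, hxC⟩ = 1 := congrArg Subtype.val hcon
          rw [hf, QuotientGroup.mk'_apply, QuotientGroup.eq_one_iff, mem_tN htt] at h4
          rcases h4 with h4 | h4
          · have h5 : x = 1 := congrArg Subtype.val h4
            rw [h5, mul_one] at hxx; exact h.t1 hxx.symm
          · have h5 : x = t := congrArg Subtype.val h4
            rw [h5, htt] at hxx; exact h.t1 hxx.symm
        have h5 : orderOf (⟨f ⟨x, hxC⟩, hm⟩ : (P1.mapSurjective hfs : Subgroup (Subgroup.centralizer ({t} : Set G) ⧸ Subgroup.zpowers (tC t)))) = 2 :=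
          orderOf_eq_prime (hsq _) h3
        have h6 := Monoid.order_dvd_exponent (⟨f ⟨x, hxC⟩, hm⟩ : (P1.mapSurjective hfs : Subgroup (Subgroup.centralizer ({t} : Set G) ⧸ Subgroup.zpowers (tC t))))
        rw [h5] at h6
        exact h6
  · have key : ∀ c : Subgroup.centralizer ({t} : Set G),
        orderOf (QuotientGroup.mk c : Subgroup.centralizer ({t} : Set G) ⧸ Subgroup.zpowers (tC t)) = 2 →
        (c : G) * c = t := by
      intro c hc
      have h1 : (QuotientGroup.mk c : Subgroup.centralizer ({t} : Set G) ⧸ Subgroup.zpowers (tC t)) ^ 2 = 1 := by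
        rw [← hc, pow_orderOf_eq_one]
      have h2 : (QuotientGroup.mk c : Subgroup.centralizer ({t} : Set G) ⧸ Subgroup.zpowers (tC t)) ≠ 1 := by
        intro h3; rw [h3, orderOf_one] at hc; exact absurd hc (by norm_num)
      rw [← QuotientGroup.mk_pow, QuotientGroup.eq_one_iff, mem_tN htt] at h1
      rw [Ne, QuotientGroup.eq_one_iff, mem_tN htt] at h2
      push Not at h2
      rcases h1 with h1 | h1
      · exfalso
        have hcc : (c : G) * c = 1 := by rw [← sq]; exact congrArg Subtype.val h1
        have hc1 : (c : G) ≠ 1 := fun h3 => h2.1 (Subtype.ext h3)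
        have hct : (c : G) ≠ t := fun h3 => h2.2 (Subtype.ext h3)
        have hco : orderOf (c : G) = 2 := orderOf_eq_prime (by rw [sq]; exact hcc) hc1
        have hK : IsPGroup 2 (Subgroup.zpowers (c : G) ⊔ Subgroup.zpowers t : Subgroup G) := by
          apply Cfsg.Agent.H4.Util.isPGroup_sup_of_commute
          · exact Cfsg.Agent.H4.Util.zpowers_isPGroup (k := 1) (by rw [hco, pow_one])
          · exact Cfsg.Agent.H4.Util.zpowers_isPGroup (k := 1) (by rw [h.t_order, pow_one])
          · rintro _ ⟨i, rfl⟩ _ ⟨j, rfl⟩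
            have h3 : Commute (c : G) t := Subgroup.mem_centralizer_singleton_iff.1 c.2
            exact (h3.zpow_zpow i j).eq
        obtain ⟨P', hP', t', h'⟩ := QD.exists_sylow_mem P e hK
        have h4 := h'.unique_invol (hP' (Subgroup.mem_sup_left (Subgroup.mem_zpowers _))) hco
        have h5 := h'.unique_invol (hP' (Subgroup.mem_sup_right (Subgroup.mem_zpowers _))) h.t_order
        exact hct (h4.trans h5.symm)
      · rw [← sq]; exact congrArg Subtype.val h1
    intro u v hu hv
    obtain ⟨c, rfl⟩ := QuotientGroup.mk_surjective u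
    obtain ⟨d, rfl⟩ := QuotientGroup.mk_surjective v
    have hc := key c hu
    have hd := key d hv
    obtain ⟨g, hg⟩ := isConj_iff.1 (QD.conj_four P h hnc (h.order_four hc) (h.order_four hd))
    have hgt : g * t * g⁻¹ = t := by
      calc g * t * g⁻¹ = g * ((c : G) * c) * g⁻¹ := by rw [hc]
        _ = (g * c * g⁻¹) * (g * c * g⁻¹) := by group
        _ = t := by rw [hg, hd]
    have hgC : g ∈ Subgroup.centralizer ({t} : Set G) := by
      rw [Subgroup.mem_centralizer_singleton_iff]
      rwa [mul_inv_eq_iff_eq_mul] at hgt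
    have h6 : (⟨g, hgC⟩ : Subgroup.centralizer ({t} : Set G)) * c * ⟨g, hgC⟩⁻¹ = d := Subtype.ext hg
    refine isConj_iff.2 ⟨QuotientGroup.mk ⟨g, hgC⟩, ?_⟩
    rw [← QuotientGroup.mk_mul, ← QuotientGroup.mk_inv, ← QuotientGroup.mk_mul, h6]

/-- 2-parts of 2-singular elements -/
theorem singular_cases [Finite G] (P : Sylow 2 G) {t : G} (h : QD (P : Subgroup G) t)
    (hnc : ¬ HasNormalPComplement 2 G) {x : G} (hx : x ∈ (P : Subgroup G)) (hxx : x * x = t) {g : G}
    (hg : 2 ∣ orderOf g) : (∃ a : G, IsPPart 2 (a * g * a⁻¹) t) ∨ (∃ a : G, IsPPart 2 (a * g * a⁻¹) x) := by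
  obtain ⟨y, hy⟩ := ppart_exists (p := 2) g
  have hy' := hy
  obtain ⟨r, hyr, hc, ho, hr⟩ := hy'
  have hy1 : y ≠ 1 := by
    rintro rfl
    apply hr
    rw [← one_mul r, hyr]; exact hg
  obtain ⟨a, ha⟩ := conj_into_sylow P ho
  have ha1 : a * y * a⁻¹ ≠ 1 := by
    intro h1
    apply hy1
    rw [mul_inv_eq_one] at h1
    exact mul_eq_left.1 h1
  rcases h.cs _ ha with h1 | h1 | h1
  · exact absurd h1 ha1
  · left
    exact ⟨a, h1 ▸ conj_ppart hy a⟩
  · right
    obtain ⟨b, hb⟩ := isConj_iff.1 (QD.conj_four P h hnc (h.order_four h1) (h.order_four hxx))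
    refine ⟨b * a, ?_⟩
    have h2 := conj_ppart (conj_ppart hy a) b
    rw [hb] at h2
    have h3 : b * (a * g * a⁻¹) * b⁻¹ = b * a * g * (b * a)⁻¹ := by group
    rwa [h3] at h2

end Cfsg.Agent.H10.Q8b
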