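import Mathlib
import Cfsg.Prelude.Def_Blocks
import Cfsg.Agent.H10_BlockCen
import Cfsg.Agent.H10_Q8b

/-!
H10_BlockQ8: principal 2-block with quaternion Sylow subgroups of order eight.
-/

set_option autoImplicit false
set_option linter.style.haveILetI false
set_option linter.unusedSectionVars false

namespace Cfsg.Agent.H10.BlockQ8

open Cfsg Cfsg.Agent.H3.CharIrr Cfsg.Agent.H3.CharComplete Cfsg.Agent.H3.CharInd
  Cfsg.Agent.H3.CharBasic Cfsg.Agent.H10.BlockLoc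
  Cfsg.Agent.H10.BlockTrace Cfsg.Agent.H10.Char Cfsg.Agent.H10.BlockAlg Cfsg.Agent.H10.BlockIdem
  Cfsg.Agent.H10.BlockOrth Cfsg.Agent.H10.BlockDefect Cfsg.Agent.H10.BlockNormal
  Cfsg.Agent.H10.BlockInd Cfsg.Agent.H10.BlockMain Cfsg.Agent.H10.PPart Cfsg.Agent.H10.BlockSMT
  Cfsg.Agent.H10.BlockSMT2 Cfsg.Agent.H10.BlockHZ Cfsg.Agent.H10.BlockK Cfsg.Agent.H10.BlockKer
  Cfsg.Agent.H10.BlockPrin Cfsg.Agent.H10.Homo Cfsg.Agent.H10.BlockQuot Cfsg.Agent.H10.BlockV4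
  Cfsg.Agent.H10.RegPart Cfsg.Agent.H10.BlockCen Cfsg.Agent.H10.Q8 Cfsg.Agent.H10.Q8b
open scoped ComplexConjugate

theorem row (u v w X : ℤ) (hu : -1 ≤ u ∧ u ≤ 1) (hv : -1 ≤ v ∧ v ≤ 1) (hw : -1 ≤ w ∧ w ≤ 1)
    (hX : -1 ≤ X ∧ X ≤ 1) (huv : -1 ≤ u - v ∧ u - v ≤ 1) (huw : -1 ≤ u - w ∧ u - w ≤ 1)
    (hvw : -1 ≤ v - w ∧ v - w ≤ 1) (hpar : 2 ∣ X - (u + v + w))
    (hne : ¬ (u = 0 ∧ v = 0 ∧ w = 0 ∧ X = 0)) :
    3 * (u ^ 2 + v ^ 2 + w ^ 2) - 2 * (u * v + u * w + v * w) + X ^ 2 = 4 := by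
  obtain ⟨hu1, hu2⟩ := hu
  obtain ⟨hv1, hv2⟩ := hv
  obtain ⟨hw1, hw2⟩ := hw
  obtain ⟨hX1, hX2⟩ := hX
  interval_cases u <;> interval_cases v <;> interval_cases w <;> interval_cases X <;> first | omega | (exfalso; omega)

theorem small {ι : Type*} (S : Finset ι) (d f : ι → ℤ) (hd : ∀ i, 1 ≤ d i) (h4 : ∑ i ∈ S, f i ^ 2 = 4)
    (h0 : ∑ i ∈ S, d i * f i = 0) : ∀ i ∈ S, -1 ≤ f i ∧ f i ≤ 1 := by
  classical
  intro i hi
  by_contra hcon
  have h1 : 4 ≤ f i ^ 2 := by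
    have h2 : f i ≤ -2 ∨ 2 ≤ f i := by omega
    rcases h2 with h2 | h2 <;> nlinarith
  have h2 : f i ^ 2 + ∑ j ∈ S.erase i, f j ^ 2 = 4 := by
    rw [Finset.add_sum_erase S (fun j => f j ^ 2) hi]; exact h4
  have h3 : ∑ j ∈ S.erase i, f j ^ 2 = 0 := by
    have h5 : 0 ≤ ∑ j ∈ S.erase i, f j ^ 2 := Finset.sum_nonneg fun j _ => sq_nonneg _
    linarith
  have h5 : ∀ j ∈ S.erase i, f j = 0 := by
    intro j hj
    have := (Finset.sum_eq_zero_iff_of_nonneg (fun j _ => sq_nonneg _)).1 h3 j hj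
    exact pow_eq_zero_iff (two_ne_zero) |>.1 this
  rw [← Finset.add_sum_erase S (fun j => d j * f j) hi, Finset.sum_eq_zero (fun j hj => by
    rw [h5 j hj, mul_zero]), add_zero] at h0
  rcases mul_eq_zero.1 h0 with h6 | h6
  · have := hd i; omega
  · rw [h6] at h1; norm_num at h1

theorem count {ι : Type*} (S : Finset ι) (d a b c X : ι → ℤ) (hd : ∀ i, 1 ≤ d i)
    (haa : ∑ i ∈ S, a i * a i = 4) (hbb : ∑ i ∈ S, b i * b i = 4) (hcc : ∑ i ∈ S, c i * c i = 4)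
    (hab : ∑ i ∈ S, a i * b i = 2) (hac : ∑ i ∈ S, a i * c i = 2) (hbc : ∑ i ∈ S, b i * c i = 2)
    (hXX : ∑ i ∈ S, X i ^ 2 = 4) (hda : ∑ i ∈ S, d i * a i = 0) (hdb : ∑ i ∈ S, d i * b i = 0)
    (hdc : ∑ i ∈ S, d i * c i = 0) (hdX : ∑ i ∈ S, d i * X i = 0)
    (hpar : ∀ i ∈ S, 2 ∣ X i - (a i + b i + c i))
    (hne : ∀ i ∈ S, ¬ (a i = 0 ∧ b i = 0 ∧ c i = 0 ∧ X i = 0)) : S.card = 7 := by
  have e1 : ∀ f g : ι → ℤ, ∑ i ∈ S, (f i - g i) ^ 2 = ∑ i ∈ S, f i * f i - 2 * ∑ i ∈ S, f i * g i + ∑ i ∈ S, g i * g i := by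
    intro f g
    rw [Finset.mul_sum, ← Finset.sum_sub_distrib, ← Finset.sum_add_distrib]
    exact Finset.sum_congr rfl fun i _ => by ring
  have e2 : ∀ f g : ι → ℤ, ∑ i ∈ S, d i * (f i - g i) = ∑ i ∈ S, d i * f i - ∑ i ∈ S, d i * g i := by
    intro f g
    rw [← Finset.sum_sub_distrib]
    exact Finset.sum_congr rfl fun i _ => by ring
  have su := small S d a hd (by rw [← haa]; exact Finset.sum_congr rfl fun i _ => by ring) hda
  have sb := small S d b hd (by rw [← hbb]; exact Finset.sum_congr rfl fun i _ => by ring) hdb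
  have sc := small S d c hd (by rw [← hcc]; exact Finset.sum_congr rfl fun i _ => by ring) hdc
  have sX := small S d X hd hXX hdX
  have sv := small S d (fun i => a i - b i) hd (by rw [e1, haa, hab, hbb]; norm_num) (by rw [e2, hda, hdb]; norm_num)
  have sw := small S d (fun i => a i - c i) hd (by rw [e1, haa, hac, hcc]; norm_num) (by rw [e2, hda, hdc]; norm_num)
  have sbc := small S d (fun i => b i - c i) hd (by rw [e1, hbb, hbc, hcc]; norm_num) (by rw [e2, hdb, hdc]; norm_num)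
  have hrow : ∀ i ∈ S, 3 * (a i ^ 2 + (a i - b i) ^ 2 + (a i - c i) ^ 2) -
      2 * (a i * (a i - b i) + a i * (a i - c i) + (a i - b i) * (a i - c i)) + X i ^ 2 = 4 := by
    intro i hi
    have h1 := su i hi
    have h2 := sv i hi
    have h3 := sw i hi
    have h4 := sX i hi
    have h5 := sb i hi
    have h6 := sc i hi
    have h7 := sbc i hi
    have h8 := hpar i hi
    have h9 := hne i hi
    refine row (a i) (a i - b i) (a i - c i) (X i) h1 h2 h3 h4 ?_ ?_ ?_ ?_ ?_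
    · constructor <;> linarith [h5.1, h5.2]
    · constructor <;> linarith [h6.1, h6.2]
    · constructor <;> linarith [h7.1, h7.2]
    · omega
    · intro h10; apply h9; omega
  have hsum : ∑ i ∈ S, (3 * (a i ^ 2 + (a i - b i) ^ 2 + (a i - c i) ^ 2) -
      2 * (a i * (a i - b i) + a i * (a i - c i) + (a i - b i) * (a i - c i)) + X i ^ 2) = (4 * (S.card : ℤ) : ℤ) := by
    rw [Finset.sum_congr rfl hrow, Finset.sum_const, nsmul_eq_mul, mul_comm]
  have hsum2 : ∑ i ∈ S, (3 * (a i ^ 2 + (a i - b i) ^ 2 + (a i - c i) ^ 2) -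
      2 * (a i * (a i - b i) + a i * (a i - c i) + (a i - b i) * (a i - c i)) + X i ^ 2) =
      3 * ∑ i ∈ S, a i * a i + 3 * ∑ i ∈ S, b i * b i + 3 * ∑ i ∈ S, c i * c i
        - 2 * ∑ i ∈ S, a i * b i - 2 * ∑ i ∈ S, a i * c i - 2 * ∑ i ∈ S, b i * c i + ∑ i ∈ S, X i ^ 2 := by
    simp only [Finset.mul_sum, ← Finset.sum_sub_distrib, ← Finset.sum_add_distrib]
    exact Finset.sum_congr rfl fun i _ => by ring
  rw [hsum2, haa, hbb, hcc, hab, hac, hbc, hXX] at hsum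
  omega


section v4

variable {D : Type*} [Group D] [Fintype D]

/-- orthonormality used for linear independence on regular elements -/
theorem indep {ζ₂ ζ₃ ζ₄ : IrrCharacter D} (h2t : ζ₂ ≠ triv D) (h3t : ζ₃ ≠ triv D) (h4t : ζ₄ ≠ triv D)
    (h23 : ζ₂ ≠ ζ₃) (h24 : ζ₂ ≠ ζ₄) (h34 : ζ₃ ≠ ζ₄) {ε : ℤ} (hε : ε = 1 ∨ ε = -1)
    (hval : ∀ z : D, 2 ∣ orderOf z → (ζ₂ : D → ℂ) z = 1 ∧ (ζ₃ : D → ℂ) z = (ε : ℂ) ∧ (ζ₄ : D → ℂ) z = -1)
    {k1 k2 k3 : ℂ} (h : ∀ y : D, ¬ 2 ∣ orderOf y → k1 + k2 * (ζ₂ : D → ℂ) y + k3 * (ζ₃ : D → ℂ) y = 0) :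
    k1 = 0 ∧ k2 = 0 ∧ k3 = 0 := by
  classical
  have hεc : conj (ε : ℂ) = ε := by simp
  have hεε : (ε : ℂ) * ε = 1 := by rcases hε with h | h <;> rw [h] <;> norm_num
  set f : D → ℂ := fun y => k1 + k2 * (ζ₂ : D → ℂ) y + k3 * (ζ₃ : D → ℂ) y with hf
  have hfe : f = (k1 • ((triv D : IrrCharacter D) : D → ℂ) + k2 • (ζ₂ : D → ℂ)) + k3 • (ζ₃ : D → ℂ) := by
    funext y
    show k1 + k2 * (ζ₂ : D → ℂ) y + k3 * (ζ₃ : D → ℂ) y = (k1 * 1 + k2 * (ζ₂ : D → ℂ) y) + k3 * (ζ₃ : D → ℂ) y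
    ring
  have hn : ∀ {χ ψ : IrrCharacter D}, χ ≠ ψ → classInner (χ : D → ℂ) (ψ : D → ℂ) = 0 :=
    fun {χ ψ} hne => ci_irr_ne χ.2 ψ.2 (fun h => hne (Subtype.ext h))
  have hself : ∀ χ : IrrCharacter D, classInner (χ : D → ℂ) (χ : D → ℂ) = 1 := fun χ => ci_irr_self χ.2
  have c1 : classInner f ((triv D : IrrCharacter D) : D → ℂ) = k1 := by
    rw [hfe, ci_add_left, ci_add_left, ci_smul_left, ci_smul_left, ci_smul_left, hself, hn h2t, hn h3t]; ring
  have c2 : classInner f (ζ₂ : D → ℂ) = k2 := by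
    rw [hfe, ci_add_left, ci_add_left, ci_smul_left, ci_smul_left, ci_smul_left, hself, hn h2t.symm, hn h23.symm]; ring
  have c3 : classInner f (ζ₃ : D → ℂ) = k3 := by
    rw [hfe, ci_add_left, ci_add_left, ci_smul_left, ci_smul_left, ci_smul_left, hself, hn h3t.symm, hn h23]; ring
  have c4 : classInner f (ζ₄ : D → ℂ) = 0 := by
    rw [hfe, ci_add_left, ci_add_left, ci_smul_left, ci_smul_left, ci_smul_left, hn h4t.symm, hn h24, hn h34]; ring
  -- inner products with functions vanishing on singular elements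
  have hz : ∀ (s : ℂ) (χ : IrrCharacter D), (∀ z : D, 2 ∣ orderOf z → (χ : D → ℂ) z + s * (ζ₄ : D → ℂ) z = 0) →
      classInner f ((χ : D → ℂ) + s • (ζ₄ : D → ℂ)) = 0 := by
    intro s χ hs
    rw [classInner]
    apply mul_eq_zero_of_right
    apply Finset.sum_eq_zero
    intro y _
    by_cases hy : 2 ∣ orderOf y
    · have : ((χ : D → ℂ) + s • (ζ₄ : D → ℂ)) y = 0 := hs y hy
      rw [this, map_zero, mul_zero]
    · have : f y = 0 := h y hy
      rw [this, zero_mul]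
  refine ⟨?_, ?_, ?_⟩
  · have h5 := hz 1 (triv D) (fun z hz => by rw [(hval z hz).2.2, triv_coe]; ring)
    rw [ci_add_right, ci_smul_right, c1, c4, mul_zero, add_zero] at h5
    exact h5
  · have h5 := hz 1 ζ₂ (fun z hz => by rw [(hval z hz).2.2, (hval z hz).1]; ring)
    rw [ci_add_right, ci_smul_right, c2, c4, mul_zero, add_zero] at h5
    exact h5
  · have h5 := hz ε ζ₃ (fun z hz => by rw [(hval z hz).2.2, (hval z hz).2.1]; ring)
    rw [ci_add_right, ci_smul_right, c3, c4, mul_zero, add_zero] at h5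
    exact h5

open Classical in
theorem sum4 [Fintype (IrrCharacter D)] {B : Set (IrrCharacter D)} {ζ₁ ζ₂ ζ₃ ζ₄ : IrrCharacter D}
    (h12 : ζ₂ ≠ ζ₁) (h13 : ζ₃ ≠ ζ₁) (h14 : ζ₄ ≠ ζ₁)
    (h23 : ζ₂ ≠ ζ₃) (h24 : ζ₂ ≠ ζ₄) (h34 : ζ₃ ≠ ζ₄)
    (hmem : ∀ χ : IrrCharacter D, χ ∈ B ↔ χ = ζ₁ ∨ χ = ζ₂ ∨ χ = ζ₃ ∨ χ = ζ₄) (F : IrrCharacter D → ℂ) :
    ∑ φ : IrrCharacter D, (if φ ∈ B then F φ else 0) = F ζ₁ + F ζ₂ + F ζ₃ + F ζ₄ := by
  rw [← Finset.sum_filter]
  have : Finset.univ.filter (fun φ => φ ∈ B) = {ζ₁, ζ₂, ζ₃, ζ₄} := by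
    ext χ
    simp [hmem]
  rw [this, Finset.sum_insert, Finset.sum_insert, Finset.sum_insert, Finset.sum_singleton]
  · ring
  · simpa using h34
  · simp only [Finset.mem_insert, Finset.mem_singleton, not_or]; exact ⟨h23, h24⟩
  · simp only [Finset.mem_insert, Finset.mem_singleton, not_or]; exact ⟨h12.symm, h13.symm, h14.symm⟩

end v4

variable {G : Type*} [Group G] [Fintype G] {M : Ideal AlgInt}

theorem int_even_of_ideal (hM : IsPModular 2 M) {n : ℤ} (h : MemLocalIdeal M (n : ℂ)) : 2 ∣ n := by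
  have := (ideal_intCast_iff hM n).1 h
  exact_mod_cast this

/-- values at elements of order four conjugate to their inverse -/
theorem four_int (χ : IrrCharacter G) {x : G} (hx : orderOf x = 4) (hc : IsConj x x⁻¹) :
    ∃ n : ℤ, (χ : G → ℂ) x = n := by
  classical
  haveI : Fintype (Subgroup.zpowers x) := Fintype.ofFinite _
  obtain ⟨m, hm⟩ := sum_char_subgroup (isChar_of_irr χ.2) (Subgroup.zpowers x)
  have hxx : orderOf (x * x) = 2 := by
    rw [← sq, orderOf_pow, hx]; norm_num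
  obtain ⟨m', hm'⟩ := invol_int (isChar_of_irr χ.2) hxx
  have hcard : Nat.card (Subgroup.zpowers x) = 4 := by rw [Nat.card_zpowers, hx]
  have hinv : (χ : G → ℂ) x⁻¹ = (χ : G → ℂ) x := by
    obtain ⟨a, ha⟩ := isConj_iff.1 hc
    rw [← ha, irr_class χ.2]
  have hsum : ∑ u : Subgroup.zpowers x, (χ : G → ℂ) u = (χ : G → ℂ) 1 + (χ : G → ℂ) x + (χ : G → ℂ) (x * x) + (χ : G → ℂ) x⁻¹ := by
    have h1 : ∑ u : Subgroup.zpowers x, (χ : G → ℂ) u = ∑ i ∈ Finset.range 4, (χ : G → ℂ) (x ^ i) := by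
      rw [← hx]
      rw [← Fin.sum_univ_eq_sum_range (fun i => (χ : G → ℂ) (x ^ i))]
      exact (Equiv.sum_comp (finEquivZPowers (isOfFinOrder_of_finite x)) (fun u : Subgroup.zpowers x => (χ : G → ℂ) u)).symm
    rw [h1]
    simp only [Finset.sum_range_succ, Finset.sum_range_zero, zero_add, pow_zero, pow_one]
    have h2 : x ^ 3 = x⁻¹ := by
      rw [eq_inv_iff_mul_eq_one, ← pow_succ]
      show x ^ 4 = 1
      rw [← hx, pow_orderOf_eq_one]
    rw [h2, sq]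
  rw [hsum, hcard, hinv] at hm
  refine ⟨2 * m - m', ?_⟩
  push_cast
  push_cast at hm
  linear_combination hm / 2 - hm' / 2


theorem q8_count (hM : IsPModular 2 M) (P : Sylow 2 G) (e : (P : Subgroup G) ≃* QuaternionGroup 2)
    (hnc : ¬ HasNormalPComplement 2 G) : Nat.card (principalBlock M G) = 7 := by
  classical
  haveI := hM.2.1
  haveI : Fintype (IrrCharacter G) := Fintype.ofFinite _
  obtain ⟨t, h⟩ := QD.of_equiv e
  obtain ⟨⟨R, hR⟩, hone⟩ := quotient_v4 P e h hnc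
  haveI : Fintype (Subgroup.centralizer ({t} : Set G)) := Fintype.ofFinite _
  haveI : Fintype (IrrCharacter (Subgroup.centralizer ({t} : Set G))) := Fintype.ofFinite _
  haveI : Fintype (Subgroup.centralizer ({t} : Set G) ⧸ Subgroup.zpowers (tC t)) := Fintype.ofFinite _
  haveI : Fintype (IrrCharacter (Subgroup.centralizer ({t} : Set G) ⧸ Subgroup.zpowers (tC t))) := Fintype.ofFinite _
  obtain ⟨ζ₂, ζ₃, ζ₄, ε, hε, h2t, h3t, h4t, h23, h24, h34, hmem, hval, hd2, hd3, hd4, hrel⟩ :=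
    v4_structure hM R hR hone
  set z2 : Subgroup.centralizer ({t} : Set G) → ℂ := fun y =>
    (ζ₂ : Subgroup.centralizer ({t} : Set G) ⧸ Subgroup.zpowers (tC t) → ℂ) (QuotientGroup.mk y) with hz2
  set z3 : Subgroup.centralizer ({t} : Set G) → ℂ := fun y =>
    (ζ₃ : Subgroup.centralizer ({t} : Set G) ⧸ Subgroup.zpowers (tC t) → ℂ) (QuotientGroup.mk y) with hz3
  have hεε : (ε : ℂ) * ε = 1 := by rcases hε with h | h <;> rw [h] <;> norm_num
  have hεεZ : ε * ε = 1 := by rcases hε with h | h <;> rw [h] <;> norm_num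
  have htc : ∀ c : Subgroup.centralizer ({t} : Set G), c * tC t = tC t * c := tC_comm t
  have htt : tC t * tC t = 1 := Subtype.ext h.tt
  have ht1 : tC t ≠ 1 := fun h1 => h.t1 (congrArg Subtype.val h1)
  have hNt : ∀ c : Subgroup.centralizer ({t} : Set G), c ∈ Subgroup.zpowers (tC t) ↔ c = 1 ∨ c = tC t :=
    fun c => mem_tN h.tt
  have hto : ∃ k : ℕ, orderOf t = 2 ^ k := ⟨1, by rw [h.t_order, pow_one]⟩
  -- the expansion
  have hgen : ∀ χ : IrrCharacter G, IsGeneralizedCharacter (Subgroup.centralizer ({t} : Set G))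
      (fun c => (χ : G → ℂ) (t * (c : G))) := by
    intro χ
    exact translate_gen htc htt (IsGen.of_char (IsChar.res (isChar_of_irr χ.2) (Subgroup.centralizer ({t} : Set G))))
  choose a ha using fun χ : IrrCharacter G => expand_quot (Subgroup.zpowers (tC t)) hM htc htt hNt (hgen χ)
  set c1 : IrrCharacter G → ℤ := fun χ => a χ (triv _) + a χ ζ₄ with hc1
  set c2 : IrrCharacter G → ℤ := fun χ => a χ ζ₂ + a χ ζ₄ with hc2
  set c3 : IrrCharacter G → ℤ := fun χ => a χ ζ₃ + ε * a χ ζ₄ with hc3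
  have hexp : ∀ χ ∈ principalBlock M G, ∀ y : Subgroup.centralizer ({t} : Set G), ¬ 2 ∣ orderOf y →
      (χ : G → ℂ) (t * y) = c1 χ + c2 χ * z2 y + c3 χ * z3 y := by
    intro χ hχ y hy
    rw [principal_blockPart hM hχ hto y hy, ha χ y hy, sum4 h2t h3t h4t h23 h24 h34 hmem]
    have hy' : ¬ 2 ∣ orderOf (QuotientGroup.mk y : Subgroup.centralizer ({t} : Set G) ⧸ Subgroup.zpowers (tC t)) := by
      intro hd
      exact hy (hd.trans (orderOf_map_dvd (QuotientGroup.mk' (Subgroup.zpowers (tC t))) y))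
    have h1 := hrel _ hy'
    rw [triv_coe, hc1, hc2, hc3]
    push_cast
    linear_combination (-(a χ ζ₄ : ℂ)) * h1
  -- independence
  have hind : ∀ {k1 k2 k3 : ℂ}, (∀ y : Subgroup.centralizer ({t} : Set G), ¬ 2 ∣ orderOf y →
      k1 + k2 * z2 y + k3 * z3 y = 0) →
      k1 = 0 ∧ k2 = 0 ∧ k3 = 0 := by
    intro k1 k2 k3 hk
    apply indep h2t h3t h4t h23 h24 h34 hε hval
    intro u hu
    obtain ⟨c, rfl⟩ := QuotientGroup.mk_surjective u
    obtain ⟨x, h1, h2, h3, h4⟩ := ppr_spec (p := 2) c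
    have h5 : (QuotientGroup.mk c : Subgroup.centralizer ({t} : Set G) ⧸ Subgroup.zpowers (tC t)) =
        QuotientGroup.mk (ppr 2 c) := by
      have e1 := ppr_regular (p := 2) hu
      rw [← e1]
      have e2 : (QuotientGroup.mk c : Subgroup.centralizer ({t} : Set G) ⧸ Subgroup.zpowers (tC t)) =
        QuotientGroup.mk x * QuotientGroup.mk (ppr 2 c) := by rw [← QuotientGroup.mk_mul, h1]
      rw [e2]
      apply ppr_eq
      · show QuotientGroup.mk x * QuotientGroup.mk (ppr 2 c) = QuotientGroup.mk (ppr 2 c) * QuotientGroup.mk x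
        rw [← QuotientGroup.mk_mul, h2.eq, QuotientGroup.mk_mul]
      · obtain ⟨k, hk⟩ := h3
        have h6 := orderOf_map_dvd (QuotientGroup.mk' (Subgroup.zpowers (tC t))) x
        rw [hk] at h6
        obtain ⟨j, -, hj⟩ := (Nat.dvd_prime_pow Nat.prime_two).1 h6
        exact ⟨j, hj⟩
      · intro hd
        exact h4 (hd.trans (orderOf_map_dvd (QuotientGroup.mk' (Subgroup.zpowers (tC t))) (ppr 2 c)))
    rw [h5]
    exact hk _ h4
  set S : Finset (IrrCharacter G) := Finset.univ.filter (fun ζ => ζ ∈ principalBlock M G) with hS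
  have hmemS : ∀ ζ, ζ ∈ S ↔ ζ ∈ principalBlock M G := fun ζ => by simp [hS]
  -- the Gram relation
  have hgram : ∀ y y' : Subgroup.centralizer ({t} : Set G), ¬ 2 ∣ orderOf y → ¬ 2 ∣ orderOf y' →
      ∑ χ ∈ S, (χ : G → ℂ) (t * y) * conj ((χ : G → ℂ) (t * y')) =
      2 * (1 + z2 y * conj (z2 y') +
        z3 y * conj (z3 y') +
        (1 + z2 y + ε * z3 y) *
        (1 + conj (z2 y') + ε * conj (z3 y'))) := by
    intro y y' hy hy'
    have h1 := principal_norm2 hM hto y y' hy hy'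
    rw [← Finset.sum_filter, sum_total (Subgroup.zpowers (tC t)) hM htc htt ht1 hNt y y' hy hy',
      sum4 h2t h3t h4t h23 h24 h34 hmem] at h1
    rw [hS, h1]
    have hr : ∀ y : Subgroup.centralizer ({t} : Set G), ¬ 2 ∣ orderOf y →
        (ζ₄ : Subgroup.centralizer ({t} : Set G) ⧸ Subgroup.zpowers (tC t) → ℂ) (QuotientGroup.mk y) =
        1 + z2 y + ε * z3 y := by
      intro y hy
      have h2 := hrel (QuotientGroup.mk y) (by
        intro hd
        exact hy (hd.trans (orderOf_map_dvd (QuotientGroup.mk' (Subgroup.zpowers (tC t))) y)))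
      linear_combination -h2
    rw [hr y hy, hr y' hy', triv_coe, triv_coe]
    simp only [hz2, hz3, map_add, map_mul, map_one, map_intCast]
    ring
  -- Gram matrix of the coefficients
  have hlin : ∀ (y' : Subgroup.centralizer ({t} : Set G)), ¬ 2 ∣ orderOf y' →
      ∑ χ ∈ S, (c1 χ : ℂ) * conj ((χ : G → ℂ) (t * y')) = 2 * (1 + (1 + conj (z2 y') + ε * conj (z3 y'))) ∧
      ∑ χ ∈ S, (c2 χ : ℂ) * conj ((χ : G → ℂ) (t * y')) = 2 * (conj (z2 y') + (1 + conj (z2 y') + ε * conj (z3 y'))) ∧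
      ∑ χ ∈ S, (c3 χ : ℂ) * conj ((χ : G → ℂ) (t * y')) = 2 * (conj (z3 y') + ε * (1 + conj (z2 y') + ε * conj (z3 y'))) := by
    intro y' hy'
    have h1 := hind (k1 := ∑ χ ∈ S, (c1 χ : ℂ) * conj ((χ : G → ℂ) (t * y')) - 2 * (1 + (1 + conj (z2 y') + ε * conj (z3 y'))))
      (k2 := ∑ χ ∈ S, (c2 χ : ℂ) * conj ((χ : G → ℂ) (t * y')) - 2 * (conj (z2 y') + (1 + conj (z2 y') + ε * conj (z3 y'))))
      (k3 := ∑ χ ∈ S, (c3 χ : ℂ) * conj ((χ : G → ℂ) (t * y')) - 2 * (conj (z3 y') + ε * (1 + conj (z2 y') + ε * conj (z3 y')))) (by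
        intro y hy
        have h2 := hgram y y' hy hy'
        have h3 : ∑ χ ∈ S, (χ : G → ℂ) (t * y) * conj ((χ : G → ℂ) (t * y')) =
            (∑ χ ∈ S, (c1 χ : ℂ) * conj ((χ : G → ℂ) (t * y'))) + (∑ χ ∈ S, (c2 χ : ℂ) * conj ((χ : G → ℂ) (t * y'))) * z2 y
             + (∑ χ ∈ S, (c3 χ : ℂ) * conj ((χ : G → ℂ) (t * y'))) * z3 y := by
          rw [Finset.sum_mul, Finset.sum_mul, ← Finset.sum_add_distrib, ← Finset.sum_add_distrib]
          refine Finset.sum_congr rfl fun χ hχ => ?_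
          rw [hexp χ ((hmemS χ).1 hχ) y hy]
          ring
        rw [h3] at h2
        linear_combination h2)
    exact ⟨sub_eq_zero.1 h1.1, sub_eq_zero.1 h1.2.1, sub_eq_zero.1 h1.2.2⟩
  have hgr : ∀ c : IrrCharacter G → ℤ, ∀ (l1 l2 l3 : ℂ),
      (∀ y' : Subgroup.centralizer ({t} : Set G), ¬ 2 ∣ orderOf y' →
        ∑ χ ∈ S, (c χ : ℂ) * conj ((χ : G → ℂ) (t * y')) = conj l1 + conj l2 * conj (z2 y') + conj l3 * conj (z3 y')) →
      (∑ χ ∈ S, (c χ : ℂ) * c1 χ = l1 ∧ ∑ χ ∈ S, (c χ : ℂ) * c2 χ = l2 ∧ ∑ χ ∈ S, (c χ : ℂ) * c3 χ = l3) := by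
    intro c l1 l2 l3 hl
    have h1 := hind (k1 := ∑ χ ∈ S, (c χ : ℂ) * c1 χ - l1) (k2 := ∑ χ ∈ S, (c χ : ℂ) * c2 χ - l2)
      (k3 := ∑ χ ∈ S, (c χ : ℂ) * c3 χ - l3) (by
        intro y hy
        have h2 := congrArg (starRingEnd ℂ) (hl y hy)
        rw [map_sum] at h2
        simp only [map_add, map_mul, Complex.conj_conj, map_intCast] at h2
        have h3 : ∑ χ ∈ S, (c χ : ℂ) * (χ : G → ℂ) (t * y) =
            (∑ χ ∈ S, (c χ : ℂ) * c1 χ) + (∑ χ ∈ S, (c χ : ℂ) * c2 χ) * z2 y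
             + (∑ χ ∈ S, (c χ : ℂ) * c3 χ) * z3 y := by
          rw [Finset.sum_mul, Finset.sum_mul, ← Finset.sum_add_distrib, ← Finset.sum_add_distrib]
          refine Finset.sum_congr rfl fun χ hχ => ?_
          rw [hexp χ ((hmemS χ).1 hχ) y hy]
          ring
        rw [h3] at h2
        linear_combination h2)
    exact ⟨sub_eq_zero.1 h1.1, sub_eq_zero.1 h1.2.1, sub_eq_zero.1 h1.2.2⟩
  have g1 := hgr c1 4 2 (2 * ε) (fun y' hy' => by
    rw [(hlin y' hy').1]; simp only [map_mul, map_ofNat, map_intCast]; ring)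
  have g2 := hgr c2 2 4 (2 * ε) (fun y' hy' => by
    rw [(hlin y' hy').2.1]; simp only [map_mul, map_ofNat, map_intCast]; ring)
  have g3 := hgr c3 (2 * ε) (2 * ε) 4 (fun y' hy' => by
    rw [(hlin y' hy').2.2]; simp only [map_mul, map_ofNat, map_intCast]
    linear_combination (2 * conj (z3 y')) * hεε)
  -- element of order four
  obtain ⟨x, hx, hxx⟩ : ∃ x ∈ (P : Subgroup G), x * x = t := by
    obtain ⟨x, hx, -, -, hxx, -⟩ := h.f4
    exact ⟨x, hx, hxx⟩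
  have hx4 : orderOf x = 4 := h.order_four hxx
  have hxo : ∃ k : ℕ, orderOf x = 2 ^ k := ⟨2, by rw [hx4]; norm_num⟩
  choose X hX using fun χ : IrrCharacter G => four_int χ hx4 (QD.conj_four P h hnc hx4 (by rw [orderOf_inv, hx4]))
  obtain ⟨K, hK, hK2, hKi⟩ := QD.compl_four P e hx4
  have hKi' : ∃ k, K.index = 2 ^ k := ⟨2, by rw [hKi]; norm_num⟩
  have hXX : ∑ χ ∈ S, X χ ^ 2 = 4 := by
    have h1 := principal_norm_compl hM hxo hK hK2 hKi' 1 (by simp)
    rw [hKi, ← Finset.sum_filter] at h1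
    have h2 : ((∑ ζ ∈ S, X ζ ^ 2 : ℤ) : ℂ) = 4 := by
      push_cast
      rw [show (4 : ℂ) = ((4 : ℕ) : ℂ) by norm_num, ← h1]
      refine Finset.sum_congr rfl fun ζ _ => ?_
      rw [Subgroup.coe_one, mul_one, hX]
      simp [sq]
    exact_mod_cast h2
  -- degrees
  have hone2 : ¬ 2 ∣ orderOf (1 : G) := by simp
  have hdX : ∑ χ ∈ S, (charDegree (χ : G → ℂ) : ℤ) * X χ = 0 := by
    have h1 := weak_orth' hM (principal_isPBlock (M := M) (G := G)) 1 x hone2 (by rw [hx4]; norm_num)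
    rw [← Finset.sum_filter] at h1
    have h2 : ((∑ ζ ∈ S, (charDegree (ζ : G → ℂ) : ℤ) * X ζ : ℤ) : ℂ) = 0 := by
      push_cast
      rw [← h1]
      exact Finset.sum_congr rfl fun ζ _ => by rw [charDegree_eq ζ.2, hX, mul_comm]
    exact_mod_cast h2
  have hdc : (∑ χ ∈ S, (charDegree (χ : G → ℂ) : ℂ) * c1 χ = 0) ∧ (∑ χ ∈ S, (charDegree (χ : G → ℂ) : ℂ) * c2 χ = 0) ∧
      (∑ χ ∈ S, (charDegree (χ : G → ℂ) : ℂ) * c3 χ = 0) := by
    apply hind
    intro y hy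
    have hsing : 2 ∣ orderOf (t * (y : G)) := by
      have hcop : (orderOf t).Coprime (orderOf (y : G)) := by
        rw [h.t_order, Subgroup.orderOf_coe]; exact (Nat.Prime.coprime_iff_not_dvd Nat.prime_two).2 hy
      have hc : Commute t (y : G) := (Subgroup.mem_centralizer_singleton_iff.1 y.2).symm
      rw [hc.orderOf_mul_eq_mul_orderOf_of_coprime hcop, h.t_order]
      exact dvd_mul_right _ _
    have h1 := weak_orth' hM (principal_isPBlock (M := M) (G := G)) 1 (t * (y : G)) hone2 hsing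
    rw [← Finset.sum_filter] at h1
    rw [← h1, Finset.sum_mul, Finset.sum_mul, ← Finset.sum_add_distrib, ← Finset.sum_add_distrib]
    refine Finset.sum_congr rfl fun χ hχ => ?_
    rw [hexp χ ((hmemS χ).1 hχ) y hy, ← charDegree_eq χ.2]
    ring
  -- parity
  have hpar : ∀ χ ∈ S, 2 ∣ X χ - (c1 χ + c2 χ + c3 χ) := by
    intro χ hχ
    have h1 : MemLocalIdeal M ((χ : G → ℂ) x - (χ : G → ℂ) 1) := by
      have := char_sub_mem hM (isChar_of_irr χ.2) (Commute.one_right x) hxo hone2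
      rwa [mul_one] at this
    have h2 : MemLocalIdeal M ((χ : G → ℂ) t - (χ : G → ℂ) 1) := by
      have := char_sub_mem hM (isChar_of_irr χ.2) (Commute.one_right t) hto hone2
      rwa [mul_one] at this
    have h3 := ideal_sub h1 h2
    rw [sub_sub_sub_cancel_right] at h3
    have h4 := hexp χ ((hmemS χ).1 hχ) 1 (by simp)
    rw [Subgroup.coe_one, mul_one] at h4
    have hz21 : z2 1 = charDegree (ζ₂ : Subgroup.centralizer ({t} : Set G) ⧸ Subgroup.zpowers (tC t) → ℂ) := by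
      rw [charDegree_eq ζ₂.2]; rfl
    have hz31 : z3 1 = charDegree (ζ₃ : Subgroup.centralizer ({t} : Set G) ⧸ Subgroup.zpowers (tC t) → ℂ) := by
      rw [charDegree_eq ζ₃.2]; rfl
    rw [h4, hz21, hz31, hX] at h3
    have h5 : ((X χ : ℂ) - ((c1 χ : ℂ) + c2 χ * (charDegree (ζ₂ : Subgroup.centralizer ({t} : Set G) ⧸ Subgroup.zpowers (tC t) → ℂ) : ℂ)
       + c3 χ * (charDegree (ζ₃ : Subgroup.centralizer ({t} : Set G) ⧸ Subgroup.zpowers (tC t) → ℂ) : ℂ))) =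
      ((X χ - (c1 χ + c2 χ * (charDegree (ζ₂ : Subgroup.centralizer ({t} : Set G) ⧸ Subgroup.zpowers (tC t) → ℂ) : ℤ)
       + c3 χ * (charDegree (ζ₃ : Subgroup.centralizer ({t} : Set G) ⧸ Subgroup.zpowers (tC t) → ℂ) : ℤ)) : ℤ) : ℂ) := by
      push_cast; ring
    rw [h5] at h3
    have h6 := int_even_of_ideal hM h3
    obtain ⟨m2, hm2⟩ := hd2
    obtain ⟨m3, hm3⟩ := hd3
    have e2 : (charDegree (ζ₂ : Subgroup.centralizer ({t} : Set G) ⧸ Subgroup.zpowers (tC t) → ℂ) : ℤ) = 4 * m2 + 1 := by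
      linarith
    have e3 : (charDegree (ζ₃ : Subgroup.centralizer ({t} : Set G) ⧸ Subgroup.zpowers (tC t) → ℂ) : ℤ) = 4 * m3 + ε := by
      linarith
    rw [e2, e3] at h6
    obtain ⟨k, hk⟩ := h6
    rcases hε with hε | hε
    · rw [hε] at hk
      exact ⟨k + c2 χ * (2 * m2) + c3 χ * (2 * m3), by linear_combination hk⟩
    · rw [hε] at hk
      exact ⟨k + c2 χ * (2 * m2) + c3 χ * (2 * m3) - c3 χ, by linear_combination hk⟩
  have hne : ∀ χ ∈ S, ¬ (c1 χ = 0 ∧ c2 χ = 0 ∧ c3 χ = 0 ∧ X χ = 0) := by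
    rintro χ hχ ⟨h1, h2, h3, h4⟩
    have hχB := (hmemS χ).1 hχ
    by_cases htr : χ = triv G
    · have := hX (triv G)
      rw [triv_coe, ← htr, h4] at this
      norm_num at this
    · obtain ⟨g, hg, hg0⟩ := principal_nonvanish hM hχB htr
      apply hg0
      rcases singular_cases P h hnc hx hxx hg with ⟨b, hb⟩ | ⟨b, hb⟩
      · obtain ⟨y, hy1, hy2, hy3, hy4⟩ := hb
        have hyC : y ∈ Subgroup.centralizer ({t} : Set G) :=
          Subgroup.mem_centralizer_singleton_iff.2 hy2.eq.symm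
        have h5 := hexp χ hχB ⟨y, hyC⟩ (by rw [Subgroup.orderOf_mk]; exact hy4)
        rw [← irr_class χ.2 g b, ← hy1]
        rw [h1, h2, h3] at h5
        rw [h5]; simp
      · obtain ⟨y, hy1, hy2, hy3, hy4⟩ := hb
        have hyC : y ∈ Subgroup.centralizer ({x} : Set G) :=
          Subgroup.mem_centralizer_singleton_iff.2 hy2.eq.symm
        have h5 := singular_complement hM hxo hK hK2 hKi' ⟨y, hyC⟩ (by rw [Subgroup.orderOf_mk]; exact hy4) hχB
        rw [← irr_class χ.2 g b, ← hy1]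
        rw [hX, h4] at h5
        rw [h5]; simp
  have hcount := count S (fun χ => (charDegree (χ : G → ℂ) : ℤ)) c1 c2 (fun χ => ε * c3 χ) X
    (fun χ => by have := charDegree_pos χ.2; omega)
    (by exact_mod_cast g1.1) (by exact_mod_cast g2.2.1)
    (by
      have : ∑ χ ∈ S, c3 χ * c3 χ = 4 := by exact_mod_cast g3.2.2
      rw [← this]
      refine Finset.sum_congr rfl fun χ _ => ?_
      linear_combination (c3 χ * c3 χ) * hεεZ)
    (by exact_mod_cast g1.2.1)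
    (by
      have : ∑ χ ∈ S, c1 χ * c3 χ = 2 * ε := by exact_mod_cast g1.2.2
      have h1 : ∑ χ ∈ S, c1 χ * (ε * c3 χ) = ε * ∑ χ ∈ S, c1 χ * c3 χ := by
        rw [Finset.mul_sum]; exact Finset.sum_congr rfl fun χ _ => by ring
      rw [h1, this]; linear_combination 2 * hεεZ)
    (by
      have : ∑ χ ∈ S, c2 χ * c3 χ = 2 * ε := by exact_mod_cast g2.2.2
      have h1 : ∑ χ ∈ S, c2 χ * (ε * c3 χ) = ε * ∑ χ ∈ S, c2 χ * c3 χ := by
        rw [Finset.mul_sum]; exact Finset.sum_congr rfl fun χ _ => by ring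
      rw [h1, this]; linear_combination 2 * hεεZ)
    hXX (by exact_mod_cast hdc.1) (by exact_mod_cast hdc.2.1)
    (by
      have : ∑ χ ∈ S, (charDegree (χ : G → ℂ) : ℤ) * c3 χ = 0 := by exact_mod_cast hdc.2.2
      have h1 : ∑ χ ∈ S, (charDegree (χ : G → ℂ) : ℤ) * (ε * c3 χ) = ε * ∑ χ ∈ S, (charDegree (χ : G → ℂ) : ℤ) * c3 χ := by
        rw [Finset.mul_sum]; exact Finset.sum_congr rfl fun χ _ => by ring
      rw [h1, this, mul_zero])
    hdX
    (by
      intro χ hχ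
      have h1 := hpar χ hχ
      rcases hε with hε | hε
      · simp only [hε]; omega
      · simp only [hε]; omega)
    (by
      rintro χ hχ ⟨h1, h2, h3, h4⟩
      refine hne χ hχ ⟨h1, h2, ?_, h4⟩
      rcases hε with hε | hε
      · simp only [hε] at h3; omega
      · simp only [hε] at h3; omega)
  have hfin : Nat.card (principalBlock M G) = S.card := by
    rw [Nat.card_eq_fintype_card, ← Set.toFinset_card]
    congr 1
    ext χ
    simp [hS]
  rw [hfin, hcount]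

end Cfsg.Agent.H10.BlockQ8
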