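import Mathlib

set_option autoImplicit false

/-! Generators of a finite abelian group (piece CY of S4320). -/

namespace Cfsg.Agent.H10.CY

theorem CY (Q : Type*) [CommGroup Q] [Finite Q] : ∃ (n : ℕ) (x : Fin n → Q) (e : Fin n → ℕ),
    (∀ i, x i ^ e i = 1) ∧ Subgroup.closure (Set.range x) = ⊤ ∧ ∏ i, e i = Nat.card Q := by
  classical
  obtain ⟨ι, hι, m, hm, ⟨φ⟩⟩ := CommGroup.equiv_prod_multiplicative_zmod_of_finite Q
  let σ : ι ≃ Fin (Fintype.card ι) := Fintype.equivFin ι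
  let y : ι → Q := fun i => φ.symm (Pi.mulSingle i (Multiplicative.ofAdd (1 : ZMod (m i))))
  refine ⟨Fintype.card ι, fun j => y (σ.symm j), fun j => m (σ.symm j), ?_, ?_, ?_⟩
  · intro j
    show (φ.symm (Pi.mulSingle (σ.symm j) (Multiplicative.ofAdd (1 : ZMod (m (σ.symm j)))))) ^ m (σ.symm j) = 1
    rw [← map_pow, ← Pi.mulSingle_pow, ← ofAdd_nsmul, nsmul_eq_mul, mul_one, ZMod.natCast_self, ofAdd_zero, Pi.mulSingle_one, map_one]
  · rw [eq_top_iff]
    intro q _
    have h1 : q = φ.symm (φ q) := (φ.symm_apply_apply q).symm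
    have h2 : φ q = ∏ i, Pi.mulSingle i (φ q i) := (Finset.univ_prod_mulSingle (φ q)).symm
    rw [h1, h2, map_prod]
    refine Subgroup.prod_mem _ fun i _ => ?_
    haveI : NeZero (m i) := ⟨by have := hm i; omega⟩
    have h3 : φ q i = (Multiplicative.ofAdd (1 : ZMod (m i))) ^ (Multiplicative.toAdd (φ q i)).val := by
      rw [← ofAdd_nsmul, nsmul_eq_mul, mul_one, ZMod.natCast_zmod_val]
      rfl
    rw [h3, Pi.mulSingle_pow, map_pow]
    apply Subgroup.pow_mem
    apply Subgroup.subset_closure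
    refine ⟨σ i, ?_⟩
    show y (σ.symm (σ i)) = _
    rw [Equiv.symm_apply_apply]
  · rw [Nat.card_congr φ.toEquiv, Nat.card_pi]
    rw [← Equiv.prod_comp σ]
    refine Finset.prod_congr rfl fun i _ => ?_
    show m (σ.symm (σ i)) = _
    rw [Equiv.symm_apply_apply]
    exact (Nat.card_zmod (m i)).symm

end Cfsg.Agent.H10.CY
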