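import Mathlib
import Cfsg.Agent.H25_CovRel
import Cfsg.Agent.H3_Clifford2
import Cfsg.Agent.H25_BrauerP

/-!
# Fong–Reynolds
-/

set_option autoImplicit false
set_option linter.unusedSectionVars false
set_option linter.style.haveILetI false

namespace Cfsg.Agent.H25.FR

open Cfsg Cfsg.Agent.H10.BlockLoc Cfsg.Agent.H10.BlockAlg Cfsg.Agent.H10.BlockIdem Cfsg.Agent.H10.BlockDefect
  Cfsg.Agent.H10.BlockInd Cfsg.Agent.H10.BlockCov
  Cfsg.Agent.H3.CharBasic Cfsg.Agent.H3.CharIrr Cfsg.Agent.H3.CharComplete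
  Cfsg.Agent.H3.CharMult Cfsg.Agent.H3.CharInd Cfsg.Agent.H3.CharInt Cfsg.Agent.H3.Clifford
open scoped ComplexConjugate

section char

variable {G : Type*} [Group G] [Fintype G] {N : Subgroup G} (hN : N.Normal) [Fintype N]
  {T : Subgroup G} [Fintype T] (hNT : N ≤ T)

/-- multiplicities through an intermediate group -/
theorem multi {χ : G → ℂ} (hχ : IsIrrCharacter G χ) [Fintype (IrrCharacter T)] {θ : N → ℂ} (hθ : IsIrrCharacter N θ) :
    ∃ (n k : IrrCharacter T → ℕ) (e : ℕ),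
      (∀ φ : IrrCharacter T, classInner (fun t : T => χ t) (φ : T → ℂ) = n φ) ∧
      (∀ φ : IrrCharacter T, classInner (fun m : N => (φ : T → ℂ) ⟨(m : G), hNT m.2⟩) θ = k φ) ∧
      classInner (fun m : N => χ m) θ = e ∧ e = ∑ φ : IrrCharacter T, n φ * k φ := by
  classical
  obtain ⟨n, hn, hsum⟩ := IsChar.eq_sum_nat (IsChar.res (IsIrr.isCharacter hχ) T)
  have hres : (fun m : N => χ m) = ∑ ψ : IrrCharacter T, (n ψ : ℂ) •
      (fun m : N => (ψ : T → ℂ) ⟨(m : G), hNT m.2⟩) := by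
    ext m
    have := congrFun hsum ⟨(m : G), hNT m.2⟩
    simpa using this
  obtain ⟨e, he⟩ := ci_char_nat (IsChar.res (IsIrr.isCharacter hχ) N) (IsIrr.isCharacter hθ)
  choose k hk using fun φ : IrrCharacter T => ci_char_nat
      (IsChar.comp (IsIrr.isCharacter φ.2) (Subgroup.inclusion hNT)) (IsIrr.isCharacter hθ)
  refine ⟨n, k, e, hn, hk, he, ?_⟩
  have h2 : classInner (fun m : N => χ m) θ = ∑ φ : IrrCharacter T, (n φ : ℂ) *
      classInner (fun m : N => (φ : T → ℂ) ⟨(m : G), hNT m.2⟩) θ := by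
    rw [hres, ci_sum_left]
    exact Finset.sum_congr rfl fun φ _ => ci_smul_left _ _ _
  have h3 : ∀ φ : IrrCharacter T,
      classInner (fun m : N => (φ : T → ℂ) ⟨(m : G), hNT m.2⟩) θ = k φ := fun φ => hk φ
  rw [he] at h2
  simp only [h3] at h2
  exact_mod_cast h2

/-- degree formula in the intermediate group -/
theorem deg_T {ψ : IrrCharacter T} {θ : N → ℂ} (hθ : IsIrrCharacter N θ)
    (h1 : classInner (fun m : N => (ψ : T → ℂ) ⟨(m : G), hNT m.2⟩) θ ≠ 0) (hI : inertia hN θ ≤ T) :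
    (ψ : T → ℂ) 1 * T.index = classInner (fun m : N => (ψ : T → ℂ) ⟨(m : G), hNT m.2⟩) θ *
      (inertia hN θ).index * θ 1 := by
  classical
  have hfin : Fintype (N.subgroupOf T) := Fintype.ofFinite _
  have hNT' : (N.subgroupOf T).Normal := hN.subgroupOf T
  set θ' : N.subgroupOf T → ℂ := fun x => θ ⟨(x : T), Subgroup.mem_subgroupOf.mp x.2⟩ with hθ'
  have hθ'irr : IsIrrCharacter (N.subgroupOf T) θ' :=
    (isIrr_comp_iff (Subgroup.subgroupOfEquivOfLe hNT)).mpr hθ
  have hψres : classInner (fun x : N.subgroupOf T => (ψ : T → ℂ) x) θ' =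
      classInner (fun m : N => (ψ : T → ℂ) ⟨(m : G), hNT m.2⟩) θ := by
    rw [← ci_subgroupOf hNT (fun m : N => (ψ : T → ℂ) ⟨(m : G), hNT m.2⟩) θ]
  have hin : inertia hNT' θ' = (inertia hN θ).subgroupOf T := by
    ext g
    rw [Subgroup.mem_subgroupOf, mem_inertia, mem_inertia]
    constructor
    · intro h
      ext n
      have := congrFun h ⟨⟨(n : G), hNT n.2⟩, Subgroup.mem_subgroupOf.2 n.2⟩
      exact this
    · intro h
      ext x
      have := congrFun h ⟨(x : T), Subgroup.mem_subgroupOf.mp x.2⟩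
      exact this
  have hd := clifford_degree hNT' ψ.2 hθ'irr (by rw [hψres]; exact h1)
  have hidx : (inertia hN θ).relIndex T * T.index = (inertia hN θ).index := Subgroup.relIndex_mul_index hI
  have hθ1 : θ' 1 = θ 1 := rfl
  rw [hd, hψres, hin, hθ1]
  have e1 : (((inertia hN θ).subgroupOf T).index : ℂ) * T.index = (inertia hN θ).index := by
    rw [← hidx]; push_cast; rfl
  rw [← e1]; ring

/-- the Clifford correspondence over the stabilizer of a set containing the stabilizer of `θ` -/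
theorem cliffT {χ : G → ℂ} (hχ : IsIrrCharacter G χ) {ψ : IrrCharacter T} {θ : N → ℂ} (hθ : IsIrrCharacter N θ)
    (hI : inertia hN θ ≤ T) (h1 : classInner (fun t : T => χ t) (ψ : T → ℂ) ≠ 0)
    (h2 : classInner (fun m : N => (ψ : T → ℂ) ⟨(m : G), hNT m.2⟩) θ ≠ 0) :
    indFun T (ψ : T → ℂ) = χ ∧
      classInner (fun m : N => (ψ : T → ℂ) ⟨(m : G), hNT m.2⟩) θ = classInner (fun m : N => χ m) θ := by
  classical
  haveI := Fintype.ofFinite (IrrCharacter T)
  obtain ⟨n, k, e, hn, hk, he, hsum⟩ := multi hNT hχ hθ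
  have hnψ : n ψ ≠ 0 := by
    intro h0; apply h1; rw [hn, h0, Nat.cast_zero]
  have hkψ : k ψ ≠ 0 := by
    intro h0; apply h2; rw [hk, h0, Nat.cast_zero]
  have hfe : k ψ ≤ e := by
    have h6 : n ψ * k ψ ≤ e := by
      rw [hsum]; exact Finset.single_le_sum (f := fun φ : IrrCharacter T => n φ * k φ)
        (fun _ _ => Nat.zero_le _) (Finset.mem_univ ψ)
    exact (Nat.le_mul_of_pos_left _ (Nat.pos_of_ne_zero hnψ)).trans h6
  have hχθ : classInner (fun m : N => χ m) θ ≠ 0 := by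
    rw [he, Nat.cast_ne_zero]
    omega
  obtain ⟨a, ha⟩ := IsChar.one_eq_nat (IsIrr.isCharacter hχ)
  obtain ⟨b, hb0, hb⟩ := IsIrr.one_eq_nat hθ
  obtain ⟨c, hc0, hc⟩ := IsIrr.one_eq_nat ψ.2
  have hdT := deg_T hN hNT hθ h2 hI
  rw [hk, hc, hb] at hdT
  have hdT' : c * T.index = k ψ * (inertia hN θ).index * b := by exact_mod_cast hdT
  have hdeg := clifford_degree hN hχ hθ hχθ
  rw [he, ha, hb] at hdeg
  have hdeg' : a = e * (inertia hN θ).index * b := by exact_mod_cast hdeg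
  have hconst : classInner (indFun T (ψ : T → ℂ)) χ ≠ 0 := by
    rw [constituent_ind_iff (IsIrr.isCharacter hχ)]
    exact h1
  have hle := IsChar.degree_le' (IsChar.ind (IsIrr.isCharacter ψ.2)) hχ hconst
    (a := T.index * c) (by rw [ind_one, hc]; push_cast; ring) ha
  have hI0 : 0 < (inertia hN θ).index := Nat.pos_of_ne_zero Subgroup.FiniteIndex.index_ne_zero
  have hef : e = k ψ := by
    rw [mul_comm T.index c, hdT', hdeg'] at hle
    have h3 : e * ((inertia hN θ).index * b) ≤ k ψ * ((inertia hN θ).index * b) := by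
      calc e * ((inertia hN θ).index * b) = e * (inertia hN θ).index * b := by ring
        _ ≤ _ := hle
        _ = _ := by ring
    exact le_antisymm (Nat.le_of_mul_le_mul_right h3 (Nat.mul_pos hI0 hb0)) hfe
  refine ⟨?_, by rw [hk, he, hef]⟩
  apply IsChar.eq_of_degree (IsChar.ind (IsIrr.isCharacter ψ.2)) hχ hconst
  rw [ind_one, hc, ha, hdeg', hef, ← hdT']; push_cast; ring

/-- uniqueness -/
theorem cliffT_unique {χ : G → ℂ} (hχ : IsIrrCharacter G χ) {ψ ψ' : IrrCharacter T} {θ : N → ℂ} (hθ : IsIrrCharacter N θ)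
    (hI : inertia hN θ ≤ T) (h1 : classInner (fun t : T => χ t) (ψ : T → ℂ) ≠ 0)
    (h2 : classInner (fun m : N => (ψ : T → ℂ) ⟨(m : G), hNT m.2⟩) θ ≠ 0)
    (h1' : classInner (fun t : T => χ t) (ψ' : T → ℂ) ≠ 0)
    (h2' : classInner (fun m : N => (ψ' : T → ℂ) ⟨(m : G), hNT m.2⟩) θ ≠ 0) : ψ = ψ' := by
  classical
  haveI := Fintype.ofFinite (IrrCharacter T)
  by_contra hne
  obtain ⟨n, k, e, hn, hk, he, hsum⟩ := multi hNT hχ hθ
  have hnψ : n ψ ≠ 0 := by
    intro h0; apply h1; rw [hn, h0, Nat.cast_zero]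
  have hkψ : k ψ ≠ 0 := by
    intro h0; apply h2; rw [hk, h0, Nat.cast_zero]
  have hnψ' : n ψ' ≠ 0 := by
    intro h0; apply h1'; rw [hn, h0, Nat.cast_zero]
  have e1 : k ψ = e := by
    have := (cliffT hN hNT hχ hθ hI h1 h2).2
    rw [hk, he] at this
    exact_mod_cast this
  have e2 : k ψ' = e := by
    have := (cliffT hN hNT hχ hθ hI h1' h2').2
    rw [hk, he] at this
    exact_mod_cast this
  have h3 : n ψ * k ψ + n ψ' * k ψ' ≤ e := by
    rw [hsum, ← Finset.sum_pair (f := fun φ => n φ * k φ) hne]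
    exact Finset.sum_le_sum_of_subset (Finset.subset_univ _)
  have h4 : k ψ ≤ n ψ * k ψ := Nat.le_mul_of_pos_left _ (Nat.pos_of_ne_zero hnψ)
  have h5 : k ψ' ≤ n ψ' * k ψ' := Nat.le_mul_of_pos_left _ (Nat.pos_of_ne_zero hnψ')
  omega

/-- existence -/
theorem cliffT_exists {χ : G → ℂ} (hχ : IsIrrCharacter G χ) {θ : N → ℂ} (hθ : IsIrrCharacter N θ)
    (h : classInner (fun m : N => χ m) θ ≠ 0) : ∃ ψ : IrrCharacter T,
      classInner (fun t : T => χ t) (ψ : T → ℂ) ≠ 0 ∧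
      classInner (fun m : N => (ψ : T → ℂ) ⟨(m : G), hNT m.2⟩) θ ≠ 0 := by
  classical
  haveI := Fintype.ofFinite (IrrCharacter T)
  obtain ⟨n, k, e, hn, hk, he, hsum⟩ := multi hNT hχ hθ
  by_contra hcon
  push Not at hcon
  apply h
  rw [he, hsum, Nat.cast_eq_zero]
  apply Finset.sum_eq_zero
  intro φ _
  by_cases h0 : n φ = 0
  · rw [h0, zero_mul]
  · have := hcon φ (by rw [hn]; exact_mod_cast h0)
    rw [hk] at this
    have h1 : k φ = 0 := by exact_mod_cast this
    rw [h1, mul_zero]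

/-- the induced character is irreducible -/
theorem ind_irr {ψ : IrrCharacter T} {θ : N → ℂ} (hθ : IsIrrCharacter N θ)
    (hI : inertia hN θ ≤ T) (h2 : classInner (fun m : N => (ψ : T → ℂ) ⟨(m : G), hNT m.2⟩) θ ≠ 0) :
    ∃ χ : IrrCharacter G, (χ : G → ℂ) = indFun T (ψ : T → ℂ) ∧
      classInner (fun t : T => (χ : G → ℂ) t) (ψ : T → ℂ) ≠ 0 ∧ classInner (fun m : N => (χ : G → ℂ) m) θ ≠ 0 := by
  classical
  haveI := Fintype.ofFinite (IrrCharacter G)
  obtain ⟨n, hn, hsum⟩ := IsChar.eq_sum_nat (IsChar.ind (IsIrr.isCharacter ψ.2) (H := T))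
  obtain ⟨χ, hχ⟩ : ∃ χ : IrrCharacter G, n χ ≠ 0 := by
    by_contra hcon
    push Not at hcon
    have h1 := congrFun hsum 1
    rw [ind_one] at h1
    simp only [hcon, Nat.cast_zero, zero_smul, Finset.sum_const_zero, Pi.zero_apply] at h1
    have h3 : (T.index : ℂ) ≠ 0 := by exact_mod_cast Subgroup.FiniteIndex.index_ne_zero
    exact (mul_ne_zero h3 (IsIrr.one_ne_zero ψ.2)) h1
  have h1 : classInner (fun t : T => (χ : G → ℂ) t) (ψ : T → ℂ) ≠ 0 := by
    rw [← constituent_ind_iff (IsIrr.isCharacter χ.2), hn]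
    exact_mod_cast hχ
  obtain ⟨h3, h4⟩ := cliffT hN hNT χ.2 hθ hI h1 h2
  exact ⟨χ, h3.symm, h1, by rw [← h4]; exact h2⟩

end char

section om

variable {G : Type*} [Group G] [Fintype G] {T : Subgroup G} [Fintype T]

/-- central characters of induced characters -/
theorem om_ind {χ : IrrCharacter G} {ψ : IrrCharacter T} (h : (χ : G → ℂ) = indFun T (ψ : T → ℂ)) (z : ZC G) :
    om χ z = om ψ (truncZ T z) := by
  classical
  rw [om_apply, om_apply, lin_apply, lin_apply]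
  have hT0 : (Nat.card T : ℂ) ≠ 0 := by exact_mod_cast Nat.card_pos.ne'
  have hG0 : (Nat.card G : ℂ) ≠ 0 := by exact_mod_cast Nat.card_pos.ne'
  have h1 : ∀ x g : G, extendByZero T (ψ : T → ℂ) (x⁻¹ * g * x) =
      if hx : x⁻¹ * g * x ∈ T then (ψ : T → ℂ) ⟨x⁻¹ * g * x, hx⟩ else 0 := by
    intro x g
    split_ifs with hx
    · exact H25.BrauerP.extendByZero_of_mem T _ hx
    · exact H25.BrauerP.extendByZero_of_notMem T _ hx
  have h2 : ∑ g : G, (z : MonoidAlgebra ℂ G).coeff g * (χ : G → ℂ) g =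
      (Nat.card T : ℂ)⁻¹ * (Nat.card G * ∑ t : T, (z : MonoidAlgebra ℂ G).coeff t * (ψ : T → ℂ) t) := by
    rw [h]
    simp only [indFun]
    have e1 : ∀ g : G, (z : MonoidAlgebra ℂ G).coeff g * ((Nat.card T : ℂ)⁻¹ *
        ∑ x : G, extendByZero T (ψ : T → ℂ) (x⁻¹ * g * x)) =
        (Nat.card T : ℂ)⁻¹ * ∑ x : G, (z : MonoidAlgebra ℂ G).coeff g * extendByZero T (ψ : T → ℂ) (x⁻¹ * g * x) := by
      intro g
      rw [Finset.mul_sum, Finset.mul_sum, Finset.mul_sum]
      exact Finset.sum_congr rfl fun x _ => by ring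
    rw [Finset.sum_congr rfl fun g _ => e1 g, ← Finset.mul_sum, Finset.sum_comm]
    congr 1
    have e2 : ∀ x : G, ∑ g : G, (z : MonoidAlgebra ℂ G).coeff g * extendByZero T (ψ : T → ℂ) (x⁻¹ * g * x) =
        ∑ t : T, (z : MonoidAlgebra ℂ G).coeff t * (ψ : T → ℂ) t := by
      intro x
      rw [← H10.BlockInd.sum_mem_eq T (fun g => (z : MonoidAlgebra ℂ G).coeff g * extendByZero T (ψ : T → ℂ) g) |>.trans
        (Finset.sum_congr rfl fun t _ => by rw [H25.BrauerP.extendByZero_of_mem T _ t.2])]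
      rw [← Equiv.sum_comp (MulAut.conj x).toEquiv]
      refine Finset.sum_congr rfl fun g _ => ?_
      have e3 : x⁻¹ * ((MulAut.conj x).toEquiv g) * x = g := by
        show x⁻¹ * (x * g * x⁻¹) * x = g
        group
      have e4 : (z : MonoidAlgebra ℂ G).coeff ((MulAut.conj x).toEquiv g) = (z : MonoidAlgebra ℂ G).coeff g := by
        exact (mem_center_iff _).1 z.2 g x
      rw [e3, e4]
      split_ifs with hg
      · rfl
      · rw [H25.BrauerP.extendByZero_of_notMem T _ hg, mul_zero]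
    rw [Finset.sum_congr rfl fun x _ => e2 x, Finset.sum_const, Finset.card_univ, nsmul_eq_mul,
      Nat.card_eq_fintype_card]
  rw [h2]
  have h3 : (χ : G → ℂ) 1 = (T.index : ℂ) * (ψ : T → ℂ) 1 := by rw [h, ind_one]
  have h4 : (Nat.card G : ℂ) = Nat.card T * T.index := by
    rw [← Nat.cast_mul, Subgroup.card_mul_index]
  have hi0 : (T.index : ℂ) ≠ 0 := by exact_mod_cast Subgroup.FiniteIndex.index_ne_zero
  have hψ0 : (ψ : T → ℂ) 1 ≠ 0 := IsIrr.one_ne_zero ψ.2
  have h5 : ∀ t : T, (truncZ T z : MonoidAlgebra ℂ T).coeff t = (z : MonoidAlgebra ℂ G).coeff t := fun t => truncZ_coeff _ _ _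
  simp only [h5]
  rw [h3, h4]
  field_simp

end om

end Cfsg.Agent.H25.FR
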