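import Mathlib
import Cfsg.Agent.H25_FR

/-!
# Fong–Reynolds for blocks
-/

set_option autoImplicit false
set_option linter.unusedSectionVars false
set_option linter.style.haveILetI false

namespace Cfsg.Agent.H25.FR2

open Cfsg Cfsg.Agent.H10.BlockLoc Cfsg.Agent.H10.BlockAlg Cfsg.Agent.H10.BlockIdem Cfsg.Agent.H10.BlockDefect
  Cfsg.Agent.H10.BlockInd Cfsg.Agent.H10.BlockCov
  Cfsg.Agent.H3.CharIrr Cfsg.Agent.H25.Red Cfsg.Agent.H25.KG Cfsg.Agent.H25.BPTr Cfsg.Agent.H25.BPMain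
  Cfsg.Agent.H25.BPDef Cfsg.Agent.H25.BPNorm Cfsg.Agent.H25.BPSub Cfsg.Agent.H25.Cov Cfsg.Agent.H25.Up
  Cfsg.Agent.H25.Cov2 Cfsg.Agent.H25.Cov3 Cfsg.Agent.H25.FMT Cfsg.Agent.H25.IndQ Cfsg.Agent.H25.HK
  Cfsg.Agent.H25.CovRel Cfsg.Agent.H25.FR Cfsg.Agent.H3.Clifford
open scoped ComplexConjugate

section kg

variable {k : Type*} [Field k] {G : Type*} [Group G] [Fintype G]

noncomputable local instance fq (T : Subgroup G) : Fintype (G ⧸ T) := Fintype.ofFinite _

/-- trace from `T` -/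
noncomputable def frs (T : Subgroup G) (c : MonoidAlgebra k G) : MonoidAlgebra k G :=
  ∑ q : G ⧸ T, cnj (Quotient.out q) c

theorem cnj_out {T : Subgroup G} {c : MonoidAlgebra k G} (hc : Fix T c) (g : G) :
    cnj (Quotient.out (g : G ⧸ T)) c = cnj g c := by
  have h1 : g⁻¹ * Quotient.out (g : G ⧸ T) ∈ T := by
    rw [← QuotientGroup.eq]
    exact (Quotient.out_eq (g : G ⧸ T)).symm
  have h2 := hc _ h1
  have h3 : Quotient.out (g : G ⧸ T) = g * (g⁻¹ * Quotient.out (g : G ⧸ T)) := by group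
  rw [h3, cnj_mul_apply, h2]

theorem frs_fix {T : Subgroup G} {c : MonoidAlgebra k G} (hc : Fix T c) (g : G) : cnj g (frs T c) = frs T c := by
  rw [frs, map_sum]
  refine Eq.trans (Finset.sum_congr rfl fun q _ => ?_)
    (Equiv.sum_comp (MulAction.toPerm g : Equiv.Perm (G ⧸ T)) (fun q => cnj (Quotient.out q) c))
  have h1 : (MulAction.toPerm g : Equiv.Perm (G ⧸ T)) q = ((g * Quotient.out q : G) : G ⧸ T) := by
    show g • q = _
    conv_lhs => rw [← Quotient.out_eq q]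
    rfl
  rw [h1, cnj_out hc, cnj_mul_apply]

theorem frs_Z {T : Subgroup G} {c : MonoidAlgebra k G} (hc : Fix T c) : frs T c ∈ Z (⊤ : Subgroup G) :=
  ⟨fun _ _ => Subgroup.mem_top _, fun g _ => frs_fix hc g⟩

/-- truncation commutes with multiplication by elements supported on `T` -/
theorem tr_mul_supp {T : Subgroup G} {a b : MonoidAlgebra k G} (hb : Supp T b) : tr T (a * b) = tr T a * b := by
  apply ext_c; intro x
  by_cases hx : x ∈ T
  · rw [tr_c_of_mem _ hx, mul_c', mul_c']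
    refine Finset.sum_congr rfl fun y _ => ?_
    by_cases hy : b.coeff y = 0
    · rw [hy, mul_zero, mul_zero]
    · rw [tr_c_of_mem]
      exact T.mul_mem hx (T.inv_mem (hb y hy))
  · rw [tr_c_of_notMem _ hx, eq_comm]
    by_contra h
    exact hx ((supp_tr T a).mul hb x h)

theorem frs_tr {T : Subgroup G} {b c : MonoidAlgebra k G} (hc : Fix T c) (hcs : Supp T c) (hbs : Supp T b)
    (hcb : c * b = c) (horth : ∀ g, g ∉ T → cnj g b * b = 0) : tr T (frs T c) * b = c := by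
  classical
  rw [frs, map_sum, Finset.sum_mul, Finset.sum_eq_single ((1 : G) : G ⧸ T)]
  · rw [cnj_out hc, cnj_one_apply, tr_of_supp hcs, hcb]
  · intro q _ hq
    have hg : Quotient.out q ∉ T := by
      intro h
      apply hq
      rw [← Quotient.out_eq q]
      show ((Quotient.out q : G) : G ⧸ T) = _
      rw [QuotientGroup.eq, mul_one]
      exact T.inv_mem h
    have h2 : cnj (Quotient.out q) c * b = 0 := by
      conv_lhs => rw [← hcb]
      rw [map_mul, mul_assoc, horth _ hg, mul_zero]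
    rw [← tr_mul_supp hbs, h2, map_zero]
  · intro h; exact absurd (Finset.mem_univ _) h

end kg

section blk

variable {M : Ideal AlgInt} [hMax : M.IsMaximal] {G : Type*} [Group G] [Fintype G]
  {N : Subgroup G} (hN : N.Normal) [Fintype N]

theorem cjI_mem_iff {b b' : Set (IrrCharacter N)} (hb : IsPBlock M b) (hb' : IsPBlock M b') {θ : IrrCharacter N}
    (hθ : θ ∈ b) (g : G) : cjI hN g θ ∈ b' ↔ cnj g⁻¹ (ep M N b) = ep M N b' := by
  haveI := hN
  have hc : N = cs g⁻¹ N := (cs_normal g⁻¹).symm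
  rw [← ep_conj g⁻¹ hc]
  have h1 : cjI hN g θ ∈ tB (cI g⁻¹ hc) b := by
    refine ⟨θ, hθ, fun n => ?_⟩
    show (θ : N → ℂ) ⟨g * ((cI g⁻¹ hc n : N) : G) * g⁻¹, _⟩ = (θ : N → ℂ) n
    refine congrArg _ (Subtype.ext ?_)
    show g * (g⁻¹ * (n : G) * g⁻¹⁻¹) * g⁻¹ = n
    group
  constructor
  · intro h
    rw [block_eq_of_mem (isPBlock_tB _ hb) hb' h1 h]
  · intro h
    rw [← ep_inj (isPBlock_tB _ hb) hb' h]
    exact h1

variable {b : Set (IrrCharacter N)} (hb : IsPBlock M b) {T : Subgroup G}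
  (hT : ∀ g : G, g ∈ T ↔ ∀ θ ∈ b, cjI hN g θ ∈ b)

include hb hT in
theorem mem_T_iff (g : G) : g ∈ T ↔ cnj g (ep M N b) = ep M N b := by
  obtain ⟨θ, hθ⟩ := block_nonempty hb
  have h1 : (∀ θ ∈ b, cjI hN g θ ∈ b) ↔ cnj g⁻¹ (ep M N b) = ep M N b := by
    constructor
    · intro h; exact (cjI_mem_iff hN hb hb hθ g).1 (h θ hθ)
    · intro h θ' hθ'; exact (cjI_mem_iff hN hb hb hθ' g).2 h
  rw [hT, h1]
  constructor
  · intro h
    have := congrArg (cnj g) h
    rw [cnj_cnj_inv] at this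
    exact this.symm
  · intro h
    have := congrArg (cnj g⁻¹) h
    rw [cnj_inv_cnj] at this
    exact this.symm

include hb hT in
theorem inertia_le {θ : IrrCharacter N} (hθ : θ ∈ b) : inertia hN (θ : N → ℂ) ≤ T := by
  intro g hg
  rw [mem_T_iff hN hb hT]
  rw [mem_inertia] at hg
  have h1 : cjI hN g θ = θ := Subtype.ext hg
  have h2 := (cjI_mem_iff hN hb hb hθ g).1 (by rw [h1]; exact hθ)
  have := congrArg (cnj g) h2
  rw [cnj_cnj_inv] at this
  exact this.symm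

include hb hT in
theorem orth_T {g : G} (hg : g ∉ T) : cnj g (ep M N b) * ep M N b = 0 := by
  haveI := hN
  have h1 := isBlk_ep hb
  exact (cnj_blk h1 g).orth h1 (fun h => hg ((mem_T_iff hN hb hT g).2 h))

/-- relative version of `cov_all` -/
theorem cov_all_rel {K L : Subgroup G} [Fintype K] (hKL : K ≤ L) (hn : L ≤ Nm K) {c : Set (IrrCharacter L)} (hc : IsPBlock M c)
    {e : Set (IrrCharacter K)} (he : IsPBlock M e) (h : ep M L c * ep M K e ≠ 0) {ψ : IrrCharacter L} (hψ : ψ ∈ c) :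
    ∃ ξ ∈ e, classInner (fun l : K => (ψ : L → ℂ) ⟨(l : G), hKL l.2⟩) (ξ : K → ℂ) ≠ 0 := by
  haveI : Fintype L := Fintype.ofFinite _
  haveI : Fintype (K.subgroupOf L) := Fintype.ofFinite _
  have hnn : (K.subgroupOf L).Normal := normal_of hn
  have h2 : epG M c * ep M (K.subgroupOf L) (tB (sI hKL) e) ≠ 0 := by
    intro h0
    apply h
    rw [← up_ep hKL, ← up_epG (H := L), ← map_mul, h0, map_zero]
  obtain ⟨θ, hθ, h3⟩ := cov_all hnn hc (isPBlock_tB (sI hKL) he) h2 hψ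
  rw [mem_tB] at hθ
  refine ⟨_, hθ, ?_⟩
  rw [← classInner_iso (sI hKL)] at h3
  exact h3

variable [Fintype T] (hNT : N ≤ T)

omit hMax [Fintype N] in
include hN in
theorem le_Nm : T ≤ Nm N := by
  haveI := hN
  rw [Nm, Subgroup.normalizer_eq_top]; exact le_top

include hb hT hNT in
/-- injectivity of Fong–Reynolds -/
theorem fr_inj {B1 B2 : Set (IrrCharacter T)} (h1 : ep M T B1 * ep M N b ≠ 0)
    (h2 : ep M T B2 * ep M N b ≠ 0) {B : Set (IrrCharacter G)} (hi1 : IsInducedBlock M T B1 B)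
    (hi2 : IsInducedBlock M T B2 B) : B1 = B2 := by
  by_contra hne
  have hB1 := hi1.1
  have hB2 := hi2.1
  have hb1 := isBlk_ep hB1
  have hb2 := isBlk_ep hB2
  have hbb := isBlk_ep hb
  have hbZ : ep M N b ∈ Z T := ⟨hbb.mem.1.mono hNT, fun g hg => (mem_T_iff hN hb hT g).1 hg⟩
  have hcomm : ∀ B' : Set (IrrCharacter T), IsPBlock M B' → ep M T B' * ep M N b ≠ 0 →
      ep M T B' * ep M N b = ep M T B' := by
    intro B' hB' h
    have h3 := (isBlk_ep hB').prim _ hbZ hbb.idem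
    rw [Z_comm hbZ (isBlk_ep hB').mem] at h3
    exact h3.resolve_right h
  have e1 := hcomm B1 hB1 h1
  have e2 := hcomm B2 hB2 h2
  obtain ⟨z, hz⟩ := emb_surj (i := MonoidHom.id G) Function.injective_id
    (w := frs T (ep M T B1)) (by rw [range_id]; exact frs_Z hb1.mem.2)
  let y : ZI T M := ⟨truncZ T (z : ZC G), truncZ_mem T z.2⟩
  have hy : Red.emb T.subtype (Subgroup.subtype_injective T) y = tr T (frs T (ep M T B1)) := by
    rw [emb_apply]
    apply push_eq _ (Subgroup.subtype_injective T)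
    · intro t
      show (tr T (frs T (ep M T B1))).coeff (t : G) = rd M ((truncZ T (z : ZC G) : MonoidAlgebra ℂ T).coeff t)
      rw [tr_c_of_mem _ t.2, truncZ_coeff, ← hz]
      exact emb_c Function.injective_id z (t : G)
    · intro x hx
      rw [tr_c_of_notMem]
      intro h; exact hx ⟨⟨x, h⟩, rfl⟩
  have htr := frs_tr hb1.mem.2 hb1.mem.1 hbZ.1 e1 (fun g hg => orth_T hN hb hT hg)
  have f1 : Red.emb T.subtype (Subgroup.subtype_injective T) y * ep M T B1 = ep M T B1 := by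
    have : tr T (frs T (ep M T B1)) * ep M T B1 = tr T (frs T (ep M T B1)) * ep M N b * ep M T B1 := by
      rw [mul_assoc, Z_comm hbZ hb1.mem, e1]
    rw [hy, this, htr, hb1.idem]
  have f2 : Red.emb T.subtype (Subgroup.subtype_injective T) y * ep M T B2 = 0 := by
    have : tr T (frs T (ep M T B1)) * ep M T B2 = tr T (frs T (ep M T B1)) * ep M N b * ep M T B2 := by
      rw [mul_assoc, Z_comm hbZ hb2.mem, e2]
    rw [hy, this, htr]
    exact hb1.orth hb2 (fun h => hne (ep_inj hB1 hB2 h))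
  obtain ⟨ψ1, hψ1⟩ := block_nonempty hB1
  obtain ⟨ψ2, hψ2⟩ := block_nonempty hB2
  obtain ⟨χ, hχ⟩ := block_nonempty hi1.2.1
  have g1 : MemLocalIdeal M (omI ψ1 y - 1) := by
    have h3 : Red.emb T.subtype (Subgroup.subtype_injective T) ((y - 1) * eI hB1) = 0 := by
      rw [map_mul, map_sub, map_one, sub_mul, one_mul]
      have : Red.emb T.subtype (Subgroup.subtype_injective T) (eI hB1) = ep M T B1 := by
        rw [ep_eq, eps_eq (Subgroup.subtype_injective T) hB1]; rfl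
      rw [this, f1, sub_self]
    have h4 := omI_of_emb_zero (Subgroup.subtype_injective T) h3 ψ1
    rw [map_mul, omI_eI, if_pos hψ1, mul_one, map_sub, map_one] at h4
    exact h4
  have g2 : MemLocalIdeal M (omI ψ2 y) := by
    have h3 : Red.emb T.subtype (Subgroup.subtype_injective T) (y * eI hB2) = 0 := by
      rw [map_mul]
      have : Red.emb T.subtype (Subgroup.subtype_injective T) (eI hB2) = ep M T B2 := by
        rw [ep_eq, eps_eq (Subgroup.subtype_injective T) hB2]; rfl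
      rw [this, f2]
    have h4 := omI_of_emb_zero (Subgroup.subtype_injective T) h3 ψ2
    rw [map_mul, omI_eI, if_pos hψ2, mul_one] at h4
    exact h4
  have k1 := ((isInducedBlock_iff T B1 B).1 hi1).2.2 ψ1 hψ1 χ hχ _ z.2
  have k2 := ((isInducedBlock_iff T B2 B).1 hi2).2.2 ψ2 hψ2 χ hχ _ z.2
  have k3 := ideal_sub k1 k2
  have g1' : MemLocalIdeal M (om ψ1 (truncZ T (z : ZC G)) - 1) := g1
  have g2' : MemLocalIdeal M (om ψ2 (truncZ T (z : ZC G))) := g2
  have k4 := ideal_sub (ideal_sub k3 g1') (ideal_neg g2')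
  have k5 : om ψ1 (truncZ T (z : ZC G)) - om χ (z : ZC G) - (om ψ2 (truncZ T (z : ZC G)) - om χ (z : ZC G)) -
      (om ψ1 (truncZ T (z : ZC G)) - 1) - -om ψ2 (truncZ T (z : ZC G)) = 1 := by ring
  rw [k5] at k4
  exact one_notMem_ideal k4

include hb hT in
/-- induced block from a character -/
theorem ind_of_char {B' : Set (IrrCharacter T)} (hB' : IsPBlock M B') {ψ : IrrCharacter T}
    (hψ : ψ ∈ B') {χ : IrrCharacter G} (h : (χ : G → ℂ) = indFun T (ψ : T → ℂ)) :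
    IsInducedBlock M T B' (blockOf M (χ : G → ℂ)) := by
  apply isInducedBlock_of_mem T hB' (isPBlock_blockOf χ) hψ (mem_blockOf_self χ)
  intro z _
  rw [om_ind h, sub_self]
  exact ideal_zero

include hb hT hNT in
/-- Fong–Reynolds, main part -/
theorem fr_main {B' : Set (IrrCharacter T)} (hB' : IsPBlock M B') (hcov : ep M T B' * ep M N b ≠ 0) :
    ∃ B : Set (IrrCharacter G), IsInducedBlock M T B' B ∧
      (∃ χ ∈ B, ∃ θ ∈ b, classInner (fun n : N => (χ : G → ℂ) n) (θ : N → ℂ) ≠ 0) ∧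
      (∀ ψ ∈ B', IsIrrCharacter G (indFun T (ψ : T → ℂ))) ∧
      ∀ χ : IrrCharacter G, χ ∈ B ↔ ∃ ψ ∈ B', (χ : G → ℂ) = indFun T (ψ : T → ℂ) := by
  have hall : ∀ ψ ∈ B', ∃ ξ ∈ b, classInner (fun l : N => (ψ : T → ℂ) ⟨(l : G), hNT l.2⟩) (ξ : N → ℂ) ≠ 0 :=
    fun ψ hψ => cov_all_rel hNT (le_Nm hN) hB' hb hcov hψ
  obtain ⟨ψ0, hψ0⟩ := block_nonempty hB'
  obtain ⟨θ0, hθ0, h0⟩ := hall ψ0 hψ0
  obtain ⟨χ0, hχ0, _, hχθ⟩ := ind_irr hN hNT θ0.2 (inertia_le hN hb hT hθ0) h0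
  have hind := ind_of_char hN hb hT hB' hψ0 hχ0
  refine ⟨blockOf M (χ0 : G → ℂ), hind, ⟨χ0, mem_blockOf_self χ0, θ0, hθ0, hχθ⟩, ?_, ?_⟩
  · intro ψ hψ
    obtain ⟨θ, hθ, h⟩ := hall ψ hψ
    obtain ⟨χ, hχ, _⟩ := ind_irr hN hNT θ.2 (inertia_le hN hb hT hθ) h
    rw [← hχ]; exact χ.2
  · intro χ
    constructor
    · intro hχ
      obtain ⟨θ, hθ, h⟩ := cov_all hN (isPBlock_blockOf χ0) hb
        ((cov_iff hN (isPBlock_blockOf χ0) hb).1 ⟨χ0, mem_blockOf_self χ0, θ0, hθ0, hχθ⟩) hχ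
      obtain ⟨ψ, hψ1, hψ2⟩ := cliffT_exists hNT χ.2 θ.2 h
      obtain ⟨hψ3, _⟩ := cliffT hN hNT χ.2 θ.2 (inertia_le hN hb hT hθ) hψ1 hψ2
      have hblk : IsPBlock M (blockOf M (ψ : T → ℂ)) := isPBlock_blockOf ψ
      have hind' := ind_of_char hN hb hT hblk (mem_blockOf_self ψ) hψ3.symm
      have he : blockOf M (χ : G → ℂ) = blockOf M (χ0 : G → ℂ) :=
        block_eq_of_mem (isPBlock_blockOf χ) (isPBlock_blockOf χ0) (mem_blockOf_self χ) hχ
      rw [he] at hind'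
      have hcov' : ep M T (blockOf M (ψ : T → ℂ)) * ep M N b ≠ 0 :=
        (cov_rel hNT (le_Nm hN) hblk hb).1 ⟨ψ, mem_blockOf_self ψ, θ, hθ, hψ2⟩
      have := fr_inj hN hb hT hNT hcov' hcov hind' hind
      exact ⟨ψ, by rw [← this]; exact mem_blockOf_self ψ, hψ3.symm⟩
    · rintro ⟨ψ, hψ, h⟩
      have hind' := ind_of_char hN hb hT hB' hψ h
      have := isInducedBlock_unique T hind' hind
      rw [← this]; exact mem_blockOf_self χ

include hb hT hNT in
/-- Fong–Reynolds, surjectivity -/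
theorem fr_surj {B : Set (IrrCharacter G)} (hB : IsPBlock M B)
    (hcov : ∃ χ ∈ B, ∃ θ ∈ b, classInner (fun n : N => (χ : G → ℂ) n) (θ : N → ℂ) ≠ 0) :
    ∃ B' : Set (IrrCharacter T), IsPBlock M B' ∧ ep M T B' * ep M N b ≠ 0 ∧ IsInducedBlock M T B' B := by
  obtain ⟨χ, hχ, θ, hθ, h⟩ := hcov
  obtain ⟨ψ, hψ1, hψ2⟩ := cliffT_exists hNT χ.2 θ.2 h
  obtain ⟨hψ3, _⟩ := cliffT hN hNT χ.2 θ.2 (inertia_le hN hb hT hθ) hψ1 hψ2
  have hblk : IsPBlock M (blockOf M (ψ : T → ℂ)) := isPBlock_blockOf ψ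
  have hind' := ind_of_char hN hb hT hblk (mem_blockOf_self ψ) hψ3.symm
  have he : blockOf M (χ : G → ℂ) = B :=
    block_eq_of_mem (isPBlock_blockOf χ) hB (mem_blockOf_self χ) hχ
  rw [he] at hind'
  exact ⟨_, hblk, (cov_rel hNT (le_Nm hN) hblk hb).1 ⟨ψ, mem_blockOf_self ψ, θ, hθ, hψ2⟩, hind'⟩

end blk

end Cfsg.Agent.H25.FR2
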