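import Cfsg.Statements.S4436
import Cfsg.Agent.H25_FR2
import Cfsg.Agent.H25_BlockReg

set_option autoImplicit false
open Cfsg

namespace Cfsg.Agent.S4436

open Cfsg.Agent.H25.Red Cfsg.Agent.H25.KG Cfsg.Agent.H25.BPTr Cfsg.Agent.H25.CovRel Cfsg.Agent.H25.FR Cfsg.Agent.H25.FR2 Cfsg.Agent.H10.BlockCov Cfsg.Agent.H25.BlockReg

/-- Let N be a normal subgroup of the finite group G, b a block of N (relative to a maximal ideal M of the algebraic integers containing p), T the stabilizer of b in G, N ≤ T, and B′ a block of T covering b (some member of B′ has a constituent in b on restriction to N) that induces the block B of G. Then every defect group of B′ is a defect group of B, and for every ψ ∈ B′ the induced character ψ^G is an irreducible character of G lying in B with the same height as ψ. -/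
theorem result {G : Type*} [Group G] [Fintype G] (p : ℕ) [Fact p.Prime] (M : Ideal Cfsg.AlgInt) (hM : Cfsg.IsPModular p M) (N : Subgroup G) [hN : N.Normal] [Fintype N] (b : Set (Cfsg.IrrCharacter N)) (hb : Cfsg.IsPBlock M b) (T : Subgroup G) [Fintype T] (hT : ∀ g : G, g ∈ T ↔ ∀ θ ∈ b, ∀ θ' : Cfsg.IrrCharacter N, (∀ n : N, (θ' : N → ℂ) n = (θ : N → ℂ) ⟨g * n * g⁻¹, hN.conj_mem n n.2 g⟩) → θ' ∈ b) (hNT : N ≤ T) (B' : Set (Cfsg.IrrCharacter T)) (hB' : Cfsg.IsPBlock M B') (hcov : (∃ ψ ∈ B', ∃ θ ∈ b, Cfsg.classInner (fun n : N => (ψ : T → ℂ) ⟨(n : G), hNT n.2⟩) (θ : N → ℂ) ≠ 0)) (B : Set (Cfsg.IrrCharacter G)) (hind : Cfsg.IsInducedBlock M T B' B) : (∀ D : Subgroup T, Cfsg.IsDefectGroup p M B' D → Cfsg.IsDefectGroup p M B (D.map T.subtype)) ∧ ∀ ψ ∈ B', ∃ χ ∈ B, (χ : G → ℂ) = Cfsg.indFun T (ψ : T → ℂ) ∧ Cfsg.blockHeight p B (χ : G → ℂ) = Cfsg.blockHeight p B' (ψ : T → ℂ) := by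
  have := hM.2.1
  have := charP_KM M hM
  have hT' : ∀ g : G, g ∈ T ↔ ∀ θ ∈ b, cjI hN g θ ∈ b := by
    intro g
    rw [hT]
    constructor
    · intro h θ hθ
      exact h θ hθ _ (fun n => rfl)
    · intro h θ hθ θ' hθ'
      have : θ' = cjI hN g θ := Subtype.ext (funext hθ')
      rw [this]; exact h θ hθ
  rw [cov_rel hNT (le_Nm hN) hB' hb] at hcov
  obtain ⟨B0, hind0, _, hirr, hmem⟩ := fr_main hN hb hT' hNT hB' hcov
  have hBB : B0 = B := H10.BlockInd.isInducedBlock_unique T hind0 hind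
  subst hBB
  have hB := hind.2.1
  have hidx : T.index ≠ 0 := Subgroup.FiniteIndex.index_ne_zero
  have hdeg : ∀ (ψ : Cfsg.IrrCharacter T) (χ : Cfsg.IrrCharacter G), (χ : G → ℂ) = Cfsg.indFun T (ψ : T → ℂ) →
      (charDegree (χ : G → ℂ)).factorization p = T.index.factorization p + (charDegree (ψ : T → ℂ)).factorization p := by
    intro ψ χ h
    have h1 : charDegree (χ : G → ℂ) = T.index * charDegree (ψ : T → ℂ) := by
      have h2 := H10.Char.charDegree_eq χ.2
      rw [h, H3.CharInd.ind_one, ← H10.Char.charDegree_eq ψ.2, ← h] at h2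
      exact_mod_cast h2
    rw [h1, Nat.factorization_mul hidx (H10.Char.charDegree_pos ψ.2).ne', Finsupp.add_apply]
  have hmB : mB p B0 = T.index.factorization p + mB p B' := by
    apply le_antisymm
    · obtain ⟨ψ, hψ, h⟩ := Nat.sInf_mem (Set.Nonempty.image
        (fun χ : Cfsg.IrrCharacter T => (charDegree (χ : T → ℂ)).factorization p) (H10.BlockIdem.block_nonempty hB'))
      have h2 : (charDegree (ψ : T → ℂ)).factorization p = mB p B' := h
      let χ : Cfsg.IrrCharacter G := ⟨_, hirr ψ hψ⟩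
      have h3 := mB_le (p := p) ((hmem χ).2 ⟨ψ, hψ, rfl⟩)
      rw [hdeg ψ χ rfl, h2] at h3
      exact h3
    · obtain ⟨χ, hχ, h⟩ := Nat.sInf_mem (Set.Nonempty.image
        (fun χ : Cfsg.IrrCharacter G => (charDegree (χ : G → ℂ)).factorization p) (H10.BlockIdem.block_nonempty hB))
      have h2 : (charDegree (χ : G → ℂ)).factorization p = mB p B0 := h
      obtain ⟨ψ, hψ, h3⟩ := (hmem χ).1 hχ
      rw [hdeg ψ χ h3] at h2
      rw [← h2]
      exact Nat.add_le_add_left (mB_le hψ) _
  constructor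
  · intro D hD
    obtain ⟨E, hE, hle⟩ := H10.BlockMain.induced_defect_le hM T hind hD
    have h1 := H10.BlockMain.card_defectGroup hM hB hE
    have h2 := H10.BlockMain.card_defectGroup hM hB' hD
    have h3 : Nat.card (D.map T.subtype) = Nat.card D :=
      Subgroup.card_map_of_injective (Subgroup.subtype_injective T)
    obtain ⟨χ, hχ⟩ := H10.BlockIdem.block_nonempty hB
    obtain ⟨ψ, hψ⟩ := H10.BlockIdem.block_nonempty hB'
    have h4 := mB_add (p := p) hχ
    have h5 := mB_add (p := p) hψ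
    have h6 : (Nat.card G).factorization p = (Nat.card T).factorization p + T.index.factorization p := by
      rw [← Subgroup.card_mul_index T, Nat.factorization_mul Nat.card_pos.ne' hidx, Finsupp.add_apply]
    have h7 : blockDefect p B0 = blockDefect p B' := by omega
    have h8 : D.map T.subtype = E := Subgroup.eq_of_le_of_card_ge hle (by rw [h1, h3, h2, h7])
    rw [h8]; exact hE
  · intro ψ hψ
    let χ : Cfsg.IrrCharacter G := ⟨_, hirr ψ hψ⟩
    refine ⟨χ, (hmem χ).2 ⟨ψ, hψ, rfl⟩, rfl, ?_⟩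
    rw [height_eq, height_eq, hdeg ψ χ rfl, hmB]
    omega

end Cfsg.Agent.S4436
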