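import Mathlib
import Cfsg.Agent.H25_ExtFMT
import Cfsg.Agent.H11_AxB
import Cfsg.Agent.H1_Coprime

/-!
# Blocks covering stable blocks of normal `p'`-subgroups
-/

set_option autoImplicit false
set_option linter.unusedSectionVars false
set_option linter.style.haveILetI false

namespace Cfsg.Agent.H25.Star

open Cfsg Cfsg.Agent.H10.BlockLoc Cfsg.Agent.H10.BlockAlg Cfsg.Agent.H10.BlockIdem Cfsg.Agent.H10.BlockDefect
  Cfsg.Agent.H10.BlockInd
  Cfsg.Agent.H3.CharIrr Cfsg.Agent.H25.Red Cfsg.Agent.H25.KG Cfsg.Agent.H25.BPTr Cfsg.Agent.H25.BPMain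
  Cfsg.Agent.H25.BPDef Cfsg.Agent.H25.BPNorm Cfsg.Agent.H25.BPSub Cfsg.Agent.H25.Cov Cfsg.Agent.H25.Up
  Cfsg.Agent.H25.Cov2 Cfsg.Agent.H25.Cov3 Cfsg.Agent.H25.FMT Cfsg.Agent.H25.IndQ Cfsg.Agent.H25.HK
  Cfsg.Agent.H25.ExtFMT
open scoped ComplexConjugate

section grp

variable {G : Type*} [Group G] [Finite G] {p : ℕ} [hp : Fact p.Prime]

theorem inf_eq_bot {N R : Subgroup G} (hNp : ¬ p ∣ Nat.card N) (hR : IsPGroup p R) : N ⊓ R = ⊥ := by
  obtain ⟨n, hn⟩ := IsPGroup.iff_card.1 hR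
  apply (Subgroup.disjoint_of_coprime_natCard _).eq_bot
  rw [hn]
  exact ((Nat.Prime.coprime_iff_not_dvd hp.out).2 hNp).symm.pow_right n

/-- a `p`-subgroup which together with a `p'`-subgroup generates is Sylow -/
theorem isSyl_sup {N R : Subgroup G} (hNp : ¬ p ∣ Nat.card N) (hR : IsPGroup p R) (hn : R ≤ Nm N) :
    IsSyl p (N ⊔ R) R where
  le := le_sup_right
  pg := hR
  max S hS h1 h2 := by
    have h3 := H1.Coprime.card_sup_of_le_normalizer hn (by rw [inf_comm]; exact inf_eq_bot hNp hR)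
    rw [sup_comm] at h3
    have h4 : Nat.card S ∣ Nat.card R * Nat.card N := by
      rw [← h3]; exact Subgroup.card_dvd_of_le h2
    obtain ⟨n, hn⟩ := IsPGroup.iff_card.1 hS
    have h5 : Nat.card S ∣ Nat.card R := by
      refine Nat.Coprime.dvd_of_dvd_mul_right ?_ h4
      rw [hn]
      exact ((Nat.Prime.coprime_iff_not_dvd hp.out).2 hNp).pow_left n
    exact (Subgroup.eq_of_le_of_card_ge h1 (Nat.le_of_dvd Nat.card_pos h5)).symm

theorem mem_Ce_of_norm {N R : Subgroup G} (hNp : ¬ p ∣ Nat.card N) (hR : IsPGroup p R) (hn : R ≤ Nm N)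
    {x : G} (hx : x ∈ Nm R) (hxN : x ∈ N) : x ∈ Ce R := by
  rw [Subgroup.mem_centralizer_iff]
  intro r hr
  have h1 : x * r⁻¹ * x⁻¹ ∈ R := (Subgroup.mem_normalizer_iff.1 hx r⁻¹).1 (R.inv_mem hr)
  have h2 : r * x * r⁻¹ ∈ N := (Subgroup.mem_normalizer_iff.1 (hn hr) x).1 hxN
  have h3 : r * x * r⁻¹ * x⁻¹ ∈ N ⊓ R := by
    refine ⟨N.mul_mem h2 (N.inv_mem hxN), ?_⟩
    have : r * x * r⁻¹ * x⁻¹ = r * (x * r⁻¹ * x⁻¹) := by group
    rw [this]
    exact R.mul_mem hr h1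
  rw [inf_eq_bot hNp hR, Subgroup.mem_bot] at h3
  have h4 : r * x * r⁻¹ * x⁻¹ * (x * r) = 1 * (x * r) := by rw [h3]
  have h5 : r * x * r⁻¹ * x⁻¹ * (x * r) = r * x := by group
  rw [h5, one_mul] at h4
  exact h4

/-- the group theoretic lemma -/
theorem mem_of_cent {K L Q R Q' : Subgroup G} [hKn : K.Normal] (hKp : ¬ p ∣ Nat.card K)
    (hQ : IsPGroup p Q) (hKQ : K ⊔ Q = L) (hLn : L.Normal)
    (hCQ : Ce Q ≤ L) (hR : IsPGroup p R) (hQ'2 : L ⊓ Ce R ≤ K ⊔ Q')
    {x : G} (hx : x ∈ Ce R) (hxp : ¬ p ∣ orderOf x) (hxQ : x ∈ Ce Q') : x ∈ K := by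
  have hcop : ∀ {A : Subgroup G}, IsPGroup p A → (Nat.card A).Coprime (Nat.card K) := by
    intro A hA
    obtain ⟨n, hn⟩ := IsPGroup.iff_card.1 hA
    rw [hn]
    exact ((Nat.Prime.coprime_iff_not_dvd hp.out).2 hKp).pow_left n
  have hsol : ∀ {A : Subgroup G}, IsPGroup p A → Group.IsSolvable A := by
    intro A hA
    haveI := hA.isNilpotent
    infer_instance
  have hnK : ∀ A : Subgroup G, A ≤ Subgroup.normalizer (K : Set G) := by
    intro A a _
    rw [Subgroup.normalizer_eq_top K]; exact Subgroup.mem_top a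
  have hx' : (orderOf x).Coprime p := ((Nat.Prime.coprime_iff_not_dvd hp.out).2 hxp).symm
  set π := QuotientGroup.mk' K with hπ
  have hπ1 : ∀ g : G, π g = 1 ↔ g ∈ K := fun g => by
    rw [hπ, ← MonoidHom.mem_ker, QuotientGroup.ker_mk']
  have hmain : ∀ y ∈ Q.map π, Commute (π x) y := by
    haveI : (Q.map π).Normal := by
      have h1 : Q.map π = L.map π := by
        rw [← hKQ, Subgroup.map_sup]
        have : K.map π = ⊥ := by
          rw [hπ, (Subgroup.map_eq_bot_iff K), QuotientGroup.ker_mk']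
        rw [this, bot_sup_eq]
      rw [h1]
      exact hLn.map π (QuotientGroup.mk'_surjective K)
    have hnQ : ∀ a : G ⧸ K, a ∈ Subgroup.normalizer ((Q.map π : Subgroup (G ⧸ K)) : Set (G ⧸ K)) := by
      intro a
      rw [Subgroup.normalizer_eq_top (Q.map π)]; exact Subgroup.mem_top a
    refine H11.AxB.commute_of_AxB p (π x) ?_ (R.map π) (hR.map π) ?_ (Q.map π) (hQ.map π) (hnQ _) (fun a _ => hnQ a) ?_
    · exact Nat.Coprime.coprime_dvd_left (orderOf_map_dvd π x) hx'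
    · rintro b ⟨r, hr, rfl⟩
      have h1 := Subgroup.mem_centralizer_iff.1 hx r hr
      exact (show Commute x r from h1.symm).map π
    · rintro y ⟨q, hq, rfl⟩ hy
      obtain ⟨d, hd, hqd⟩ := H1.Coprime.exists_mul_mem_centralizer (hnK R) (hcop hR) (Or.inl (hsol hR)) q (by
        intro a ha
        rw [← hπ1]
        have h2 := hy (π a) ⟨a, ha, rfl⟩
        have h3 : π q * π a = π a * π q := h2
        rw [map_mul, map_mul, map_mul, map_inv, map_inv, ← h3]
        group)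
      have h4 : q * d ∈ K ⊔ Q' := hQ'2 ⟨L.mul_mem (hKQ ▸ Subgroup.mem_sup_right hq)
        (hKQ ▸ Subgroup.mem_sup_left hd), hqd⟩
      rw [← SetLike.mem_coe, Subgroup.normal_mul] at h4
      obtain ⟨k, hk, q', hq', h5⟩ := h4
      have h6 : π q = π q' := by
        have h7 := congrArg π h5
        simp only [map_mul] at h7
        rw [(hπ1 k).2 hk, (hπ1 d).2 hd, one_mul, mul_one] at h7
        exact h7.symm
      rw [h6]
      have h1 := Subgroup.mem_centralizer_iff.1 hxQ q' hq'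
      exact (show Commute x q' from h1.symm).map π
  obtain ⟨d, hd, hxd⟩ := H1.Coprime.exists_mul_mem_centralizer (hnK Q) (hcop hQ) (Or.inl (hsol hQ)) x (by
    intro a ha
    rw [← hπ1]
    have h2 := hmain (π a) ⟨a, ha, rfl⟩
    have h3 : π x * π a = π a * π x := h2
    rw [map_mul, map_mul, map_mul, map_inv, map_inv, ← h3]
    group)
  have h8 : x ∈ L := by
    have h9 := L.mul_mem (hCQ hxd) (L.inv_mem (hKQ ▸ Subgroup.mem_sup_left hd : d ∈ L))
    rwa [mul_inv_cancel_right] at h9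
  haveI : Fintype G := Fintype.ofFinite _
  exact mem_of_preg (hnK L) (hKQ ▸ relIndex_pow (hnK Q) hQ) h8 hxp

end grp

section main

variable {M : Ideal AlgInt} {G : Type*} [Group G] [Fintype G] {p : ℕ} [hp : Fact p.Prime]
  [hMax : M.IsMaximal] [hch : CharP (KM M) p]

/-- a block of a `p'`-subgroup `N` stable under a `p`-subgroup `R` is a block of `NR` with defect group `R` -/
theorem dgh_sup (hM : IsPModular p M) {N R : Subgroup G} (hNp : ¬ p ∣ Nat.card N) (hR : IsPGroup p R)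
    (hn : R ≤ Nm N) {e : MonoidAlgebra (KM M) G} (he : IsBlk N e) (hfix : Fix R e) :
    IsBlk (N ⊔ R) e ∧ DGH p (N ⊔ R) e R := by
  have hnL : N ⊔ R ≤ Nm N := sup_le Subgroup.le_normalizer hn
  have hfixL : Fix (N ⊔ R) e := fix_sup he.mem.2 hfix
  have hidx := relIndex_pow hn hR
  have heL : IsBlk (N ⊔ R) e := blk_of_index hM le_sup_left hnL hidx he hfixL
  refine ⟨heL, ?_⟩
  obtain ⟨D, hD⟩ := exists_DGH (p := p) hM heL
  have h1 := sup_eq_rel hM le_sup_left hnL hidx he hfixL hD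
  have hcD := H1.Coprime.card_sup_of_le_normalizer (A := D) (K := N) (hD.le.trans hnL)
    (by rw [inf_comm]; exact inf_eq_bot hNp hD.pg)
  have hcR := H1.Coprime.card_sup_of_le_normalizer hn
    (by rw [inf_comm]; exact inf_eq_bot hNp hR)
  rw [sup_comm, h1] at hcD
  rw [sup_comm, hcD] at hcR
  have hcard : Nat.card D = Nat.card R := Nat.eq_of_mul_eq_mul_right Nat.card_pos hcR
  obtain ⟨c, hc, h2⟩ := (isSyl_sup hNp hR hn).conj_eq hD.pg hD.le hcard
  have h3 : R = cs c⁻¹ D := by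
    rw [h2, ← cs_mul, inv_mul_cancel, cs_one]
  rw [h3]
  have h4 := hD.conj hfixL ((N ⊔ R).inv_mem hc)
  rw [← h3] at h4 ⊢
  exact h4

/-- the Brauer map sends an `R`-stable block of a `p'`-group `N` to a block of `C_N(R)` -/
theorem tr_blk (hM : IsPModular p M) {N R : Subgroup G} (hNp : ¬ p ∣ Nat.card N) (hR : IsPGroup p R)
    (hn : R ≤ Nm N) {e : MonoidAlgebra (KM M) G} (he : IsBlk N e) (hfix : Fix R e) :
    IsBlk (Ce R ⊓ N) (tr (Ce R) e) := by
  obtain ⟨h1, h2⟩ := dgh_sup hM hNp hR hn he hfix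
  obtain ⟨h3, h4⟩ := fmtA_rel hM h1 h2
  have hs : Supp (Ce R ⊓ N) (tr (Ce R) e) := by
    intro x hx
    by_cases hxC : x ∈ Ce R
    · rw [tr_c_of_mem _ hxC] at hx
      exact ⟨hxC, he.mem.1 x hx⟩
    · rw [tr_c_of_notMem _ hxC] at hx
      exact absurd rfl hx
  have hle : Ce R ⊓ N ≤ Nm R ⊓ (N ⊔ R) := le_inf (inf_le_left.trans (Ce_le_Nm R)) (inf_le_right.trans le_sup_left)
  refine ⟨⟨hs, h3.mem.2.mono hle⟩, h3.idem, h3.ne, ?_⟩
  intro z hz hzz
  apply h3.prim z _ hzz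
  refine ⟨hz.1.mono hle, ?_⟩
  intro g hg
  have hg2 : g ∈ R ⊔ N := by rw [sup_comm]; exact hg.2
  rw [← SetLike.mem_coe, Subgroup.coe_mul_of_left_le_normalizer_right _ _ hn] at hg2
  obtain ⟨r, hr, n, hnn, hrn⟩ := hg2
  have hrn' : r * n = g := hrn
  have hnR : n ∈ Nm R := by
    have h5 : n = r⁻¹ * g := by rw [← hrn']; group
    rw [h5]
    exact (Nm R).mul_mem ((Nm R).inv_mem (Subgroup.le_normalizer hr)) hg.1
  have hnC : n ∈ Ce R := mem_Ce_of_norm hNp hR hn hnR hnn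
  rw [← hrn', cnj_mul_apply, hz.2 n ⟨hnC, hnn⟩]
  exact fix_of_supp (hz.1.mono inf_le_left) r hr

theorem star (hM : IsPModular p M) {N Q : Subgroup G} [hN : N.Normal] (hNp : ¬ p ∣ Nat.card N)
    {e : MonoidAlgebra (KM M) G} (he : IsBlk N e) (hfix : Fix ⊤ e) (hQ : IsPGroup p Q)
    (hL : (N ⊔ Q).Normal) (hC : ∀ x ∈ Ce Q, ¬ p ∣ orderOf x → x ∈ N) : IsBlk ⊤ e := by
  have hnN : ∀ A : Subgroup G, A ≤ Nm N := fun A a _ => by
    show a ∈ Subgroup.normalizer (N : Set G)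
    rw [Subgroup.normalizer_eq_top N]; exact Subgroup.mem_top a
  obtain ⟨heL, hDL⟩ := dgh_sup hM hNp hQ (hnN Q) he (hfix.mono le_top)
  obtain ⟨h3, h4⟩ := fmtA_rel hM heL hDL
  have heT : e ∈ Z (⊤ : Subgroup G) := ⟨he.mem.1.mono le_top, hfix⟩
  have key : ∀ B, IsBlk ⊤ B → e * B = B → tr (Ce Q) B = tr (Ce Q) e := by
    intro B hB hBe
    have hBe' : B * e = B := by rw [Z_comm hB.mem heT, hBe]
    have hne : tr (Ce Q) B ≠ 0 :=
      tr_ne_of_cov' (N := N ⊔ Q) hB heL (by rw [hBe']; exact hB.ne) hQ le_sup_right hDL.ne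
    have hz : tr (Ce Q) B ∈ Z (Ce Q) := tr_mem_Z le_top hB.mem.2
    have hzz : tr (Ce Q) B * tr (Ce Q) B = tr (Ce Q) B := tr_idem hQ (fix_top hB Q) hB.idem
    have hsupp : Supp N (tr (Ce Q) B) := fun x hx => hC x (hz.1 x hx) (idem_preg hM hz hzz hx)
    have hz' : tr (Ce Q) B ∈ Z (Nm Q ⊓ (N ⊔ Q)) := by
      refine ⟨fun x hx => ⟨Ce_le_Nm Q (hz.1 x hx), Subgroup.mem_sup_left (hsupp x hx)⟩, ?_⟩
      exact Fix.tr (inf_le_left.trans (norm_le_norm_Ce Q)) (fix_top hB _)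
    have hmul : tr (Ce Q) B * tr (Ce Q) e = tr (Ce Q) B := by
      rw [← br_mul hQ (fix_top hB Q) (hfix.mono le_top), hBe']
    rcases h3.prim _ hz' hzz with h | h
    · rw [hmul] at h; exact h
    · rw [hmul] at h; exact absurd h hne
  obtain ⟨B, hB, hBe⟩ := exists_covering he
  have hBe' : e * B = B := by
    rcases hB.prim e heT he.idem with h | h
    · exact h
    · rw [Z_comm heT hB.mem] at h; exact absurd h hBe
  by_contra hnb
  have hne : e - B ≠ 0 := by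
    intro h
    rw [sub_eq_zero] at h
    rw [h] at hnb
    exact hnb hB
  have hw : e - B ∈ Z (⊤ : Subgroup G) := ⟨heT.1.sub hB.mem.1, heT.2.sub hB.mem.2⟩
  have hBe2 : B * e = B := by rw [Z_comm hB.mem heT, hBe']
  have hww : (e - B) * (e - B) = e - B := by
    rw [mul_sub, sub_mul, sub_mul, he.idem, hB.idem, hBe', hBe2]
    abel
  obtain ⟨B', hB', h5⟩ := exists_blk hw hww hne
  have h6 : B * B' = 0 := by
    rw [← h5, ← mul_assoc, mul_sub, hBe2, hB.idem, sub_self, zero_mul]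
  have h7 : e * B' = B' := by
    conv_lhs => rw [← h5, ← mul_assoc, mul_sub, he.idem, hBe']
    exact h5
  have h8 := br_mul hQ (fix_top hB Q) (fix_top hB' Q)
  rw [h6, map_zero, key B hB hBe', key B' hB' h7, tr_idem hQ (hfix.mono le_top) he.idem] at h8
  exact h3.ne h8.symm

theorem star_rel (hM : IsPModular p M) {N Q H : Subgroup G} (hNH : N ≤ H) (hn : H ≤ Nm N)
    (hNp : ¬ p ∣ Nat.card N) {e : MonoidAlgebra (KM M) G} (he : IsBlk N e) (hfix : Fix H e)
    (hQH : Q ≤ H) (hQ : IsPGroup p Q)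
    (hL : H ≤ Nm (N ⊔ Q)) (hC : ∀ x ∈ H, x ∈ Ce Q → ¬ p ∣ orderOf x → x ∈ N) : IsBlk H e := by
  haveI : Fintype H := Fintype.ofFinite _
  haveI := normal_of hn
  obtain ⟨e', rfl⟩ := up_surj (he.mem.1.mono hNH)
  rw [blk_top_iff]
  rw [blk_of_iff hNH] at he
  have hsup : (N.subgroupOf H ⊔ Q.subgroupOf H) = (N ⊔ Q).subgroupOf H := by
    apply Subgroup.map_injective (Subgroup.subtype_injective H)
    rw [Subgroup.map_sup, of_map hNH, of_map hQH, of_map (sup_le hNH hQH)]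
  refine star hM (N := N.subgroupOf H) (Q := Q.subgroupOf H) ?_ he ?_ ?_ ?_ ?_
  · rw [← Subgroup.card_map_of_injective (Subgroup.subtype_injective H), of_map hNH]
    exact hNp
  · rw [← fix_map_iff, top_map]
    exact hfix
  · rw [← pg_map_iff, of_map hQH]
    exact hQ
  · rw [hsup]
    exact normal_of hL
  · intro x hx hxp
    rw [Subgroup.mem_subgroupOf]
    refine hC x x.2 ?_ ?_
    · rw [Subgroup.mem_centralizer_iff] at hx ⊢
      intro q hq
      exact congrArg Subtype.val (hx ⟨q, hQH hq⟩ (Subgroup.mem_subgroupOf.2 hq))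
    · rwa [Subgroup.orderOf_coe]

/-- a `p`-subgroup of maximal order stabilizing a covered `p'`-block is a defect group -/
theorem full_defect (hM : IsPModular p M) {N S : Subgroup G} [hN : N.Normal] (hNp : ¬ p ∣ Nat.card N)
    {e : MonoidAlgebra (KM M) G} (he : IsBlk N e) (hfix : Fix ⊤ e) (heG : IsBlk ⊤ e) (hS : IsPGroup p S)
    (hmax : ∀ R : Subgroup G, IsPGroup p R → Nat.card R ≤ Nat.card S) : DGH p ⊤ e S := by
  obtain ⟨D, hD⟩ := exists_DGH (p := p) hM heG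
  have hnN : S ≤ Nm N := fun a _ => by
    show a ∈ Subgroup.normalizer (N : Set G)
    rw [Subgroup.normalizer_eq_top N]; exact Subgroup.mem_top a
  exact hD.of_card le_top hS (dgh_sup hM hNp hS hnN he (hfix.mono le_top)).2.ne (hmax D hD.pg)

end main

section chars

variable {M : Ideal AlgInt} {G : Type*} [Group G] [Fintype G] {p : ℕ} [hp : Fact p.Prime]
  [hMax : M.IsMaximal] [hch : CharP (KM M) p]

/-- blocks of a `p'`-group are singletons -/
theorem eq_of_sameBlock (hM : IsPModular p M) {K : Type*} [Group K] [Fintype K]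
    (hK : ¬ p ∣ Nat.card K) {θ θ' : IrrCharacter K} (h : SameBlock M (θ : K → ℂ) (θ' : K → ℂ)) : θ = θ' := by
  classical
  haveI : Fintype (IrrCharacter K) := Fintype.ofFinite _
  by_contra hne
  have h1 := om_sub_mem_of_sameBlock h (Cfsg.Agent.H10.BlockCov.eB_mem_of_coprime hM hK {θ})
  rw [om_eB, om_eB, if_pos (Set.mem_singleton θ), if_neg (by rw [Set.mem_singleton_iff]; exact fun h => hne h.symm),
    sub_zero] at h1
  exact one_notMem_ideal h1

theorem blockOf_coprime (hM : IsPModular p M) {K : Type*} [Group K] [Fintype K]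
    (hK : ¬ p ∣ Nat.card K) (θ : IrrCharacter K) : blockOf M (θ : K → ℂ) = {θ} := by
  ext θ'
  rw [mem_blockOf, Set.mem_singleton_iff]
  constructor
  · intro h; exact (eq_of_sameBlock hM hK h).symm
  · rintro rfl; exact sameBlock_refl _

variable {K : Subgroup G} [Fintype K]

theorem fix_ep (hM : IsPModular p M) [hKn : K.Normal] (hKp : ¬ p ∣ Nat.card K) {θ : IrrCharacter K} {H : Subgroup G}
    (hθ : ∀ g ∈ H, IsConjCharOf K g (θ : K → ℂ) (θ : K → ℂ)) : Fix H (ep M K (blockOf M (θ : K → ℂ))) := by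
  intro g hg
  refine ((stabilizes_iff (isPBlock_blockOf θ) g).1 ⟨?_, ?_⟩).2
  · rw [Subgroup.normalizer_eq_top K]; exact Subgroup.mem_top g
  · intro χ hχ
    rw [blockOf_coprime hM hKp, Set.mem_singleton_iff] at hχ
    rw [hχ]
    exact ⟨θ, mem_blockOf_self θ, hθ g hg⟩

theorem block_eq (hM : IsPModular p M) [hKn : K.Normal] (hKp : ¬ p ∣ Nat.card K) {θ : IrrCharacter K}
    (he : IsBlk ⊤ (ep M K (blockOf M (θ : K → ℂ)))) :
    ∃ B : Set (IrrCharacter G), IsPBlock M B ∧ epG M B = ep M K (blockOf M (θ : K → ℂ)) ∧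
      ∀ χ : IrrCharacter G, χ ∈ B ↔ classInner (fun n : K => (χ : G → ℂ) n) (θ : K → ℂ) ≠ 0 := by
  obtain ⟨B, hB, h1⟩ := exists_epG he
  refine ⟨B, hB, h1, fun χ => ⟨fun h => ?_, fun h => ?_⟩⟩
  · obtain ⟨θ', h2, h3⟩ := cov_all hKn hB (isPBlock_blockOf (M := M) θ) (by rw [h1, he.idem]; exact he.ne) h
    rw [blockOf_coprime hM hKp, Set.mem_singleton_iff] at h2
    rw [← h2]; exact h3
  · have h2 := cov_of_char (M := M) hKn (isPBlock_blockOf (M := M) θ) (mem_blockOf_self θ) h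
    rw [← h1] at h2
    have h3 := (isBlk_epG (isPBlock_blockOf (M := M) χ)).eq_of_mul (isBlk_epG hB) h2
    rw [← epG_inj (isPBlock_blockOf χ) hB h3]
    exact mem_blockOf_self χ

end chars

end Cfsg.Agent.H25.Star
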