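import Cfsg.Statements.S4492
import Cfsg.Agent.H25_Star
import Cfsg.Agent.H11_Cores
import Cfsg.Agent.H1_Nilp
import Cfsg.Agent.H22_PSolv
import Cfsg.Agent.H25_BPInd

set_option autoImplicit false
open Cfsg

namespace Cfsg.Agent.S4492

open Cfsg.Agent.H25.Red Cfsg.Agent.H25.KG Cfsg.Agent.H25.BPTr Cfsg.Agent.H25.BPMain Cfsg.Agent.H25.BPDef Cfsg.Agent.H25.BPNorm Cfsg.Agent.H25.BPSub Cfsg.Agent.H25.Cov Cfsg.Agent.H25.Cov2 Cfsg.Agent.H25.Star Cfsg.Agent.H10.BlockIdem Cfsg.Agent.H25.FMT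

/-- Let G be a finite p-solvable group, N = O_{p'}(G) its largest normal subgroup of order prime to p, and θ an irreducible character of N invariant under conjugation by G; fix a maximal ideal M of the algebraic integers containing p. Then the irreducible characters of G lying over θ (those whose restriction to N contains θ) form a single p-block of G, and the defect groups of that block are exactly the Sylow p-subgroups of G. -/
theorem result {G : Type*} [Group G] [Fintype G] (p : ℕ) [Fact p.Prime] (M : Ideal Cfsg.AlgInt) (hM : Cfsg.IsPModular p M) (hsolv : Cfsg.IsPSolvable p G) (N : Subgroup G) [hN : N.Normal] [Fintype N] (hNdef : N = Cfsg.pPrimeCore p G) (θ : Cfsg.IrrCharacter N) (hinv : ∀ (g : G) (n : N), (θ : N → ℂ) ⟨g * n * g⁻¹, hN.conj_mem n n.2 g⟩ = (θ : N → ℂ) n) : ∃ B : Set (Cfsg.IrrCharacter G), Cfsg.IsPBlock M B ∧ (∀ χ : Cfsg.IrrCharacter G, χ ∈ B ↔ Cfsg.classInner (fun n : N => (χ : G → ℂ) n) (θ : N → ℂ) ≠ 0) ∧ (∀ P : Sylow p G, Cfsg.IsDefectGroup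 p M B (P : Subgroup G)) ∧ ∀ D : Subgroup G, Cfsg.IsDefectGroup p M B D → ∃ P : Sylow p G, D = (P : Subgroup G) := by
  have := hM.2.1
  have := charP_KM M hM
  have hKp : ¬ p ∣ Nat.card N := by
    have h1 : (Nat.card N).Coprime p := by rw [hNdef]; exact H11.Cores.pPrimeCore_coprime p
    exact (Nat.Prime.coprime_iff_not_dvd Fact.out).1 h1.symm
  set C := Cfsg.pCore p (G ⧸ N) with hC
  have hCn : C.Normal := H1.Nilp.pCore_normal p
  set L := C.comap (QuotientGroup.mk' N) with hL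
  have hKL : N ≤ L := by
    intro x hx
    show QuotientGroup.mk' N x ∈ C
    rw [QuotientGroup.mk'_apply, (QuotientGroup.eq_one_iff x).2 hx]
    exact Subgroup.one_mem _
  have hLn : L.Normal := Subgroup.Normal.comap inferInstance _
  have hLmap : L.map (QuotientGroup.mk' N) = C := Subgroup.map_comap_eq_self_of_surjective (QuotientGroup.mk'_surjective N) _
  have hidx : ∃ m : ℕ, N.relIndex L = p ^ m := by
    have h1 : IsPGroup p (L.map (QuotientGroup.mk' N)) := by
      rw [hLmap]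
      exact (H11.Cores.pCore_isPGroup (p := p))
    obtain ⟨m, hm⟩ := IsPGroup.iff_card.1 h1
    refine ⟨m, ?_⟩
    rw [← hm, ← Subgroup.relIndex_ker, QuotientGroup.ker_mk']
  obtain ⟨Q, hQ, -⟩ := exists_isSyl (p := p) L (Q := ⊥) IsPGroup.of_bot bot_le
  have hQS : ¬ p ∣ Q.relIndex L := by
    obtain ⟨S, hS⟩ := hQ.exists_sylow
    rw [Subgroup.relIndex, ← hS]
    exact S.not_dvd_index
  have hKQ : N ⊔ Q = L := by
    apply le_antisymm (sup_le hKL hQ.le)
    rw [← Subgroup.relIndex_eq_one]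
    obtain ⟨m, hm⟩ := hidx
    have h1 : (N ⊔ Q).relIndex L ∣ p ^ m := hm ▸ Subgroup.relIndex_dvd_of_le_left L le_sup_left
    have h2 : (N ⊔ Q).relIndex L ∣ Q.relIndex L := Subgroup.relIndex_dvd_of_le_left L le_sup_right
    have h3 : Nat.Coprime (p ^ m) (Q.relIndex L) := ((Nat.Prime.coprime_iff_not_dvd Fact.out).2 hQS).pow_left m
    exact Nat.eq_one_of_dvd_coprimes h3 h1 h2
  have hCQ : Ce Q ≤ L := by
    intro x hx
    show QuotientGroup.mk' N x ∈ C
    have h1 : Cfsg.pPrimeCore p (G ⧸ N) = ⊥ := by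
      subst hNdef
      exact H11.Cores.pPrimeCore_quotient p
    refine H22.PSolv.centralizer_pCore_le (H22.PSolv.isPSolvable_quotient N hsolv) h1 ?_
    rw [Subgroup.mem_centralizer_iff]
    intro y hy
    have hy' : y ∈ L.map (QuotientGroup.mk' N) := by rw [hLmap]; exact hy
    rw [← hKQ, Subgroup.map_sup] at hy'
    have h2 : N.map (QuotientGroup.mk' N) = ⊥ := by
      rw [Subgroup.map_eq_bot_iff N, QuotientGroup.ker_mk']
    rw [h2, bot_sup_eq] at hy'
    obtain ⟨q, hq, rfl⟩ := hy'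
    have h3 := Subgroup.mem_centralizer_iff.1 hx q hq
    rw [← map_mul, ← map_mul, h3]
  have hnK : ∀ A : Subgroup G, A ≤ Nm N := fun A a _ => by
    show a ∈ Subgroup.normalizer (N : Set G)
    rw [Subgroup.normalizer_eq_top N]; exact Subgroup.mem_top a
  have hθ : ∀ g : G, Cfsg.IsConjCharOf N g (θ : N → ℂ) (θ : N → ℂ) := by
    intro g k k' hk
    rw [← hinv g k]
    exact congrArg _ (Subtype.ext hk)
  have hfix : Fix ⊤ (ep M N (blockOf M (θ : N → ℂ))) := fix_ep hM hKp (fun g _ => hθ g)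
  have heK := isBlk_ep (isPBlock_blockOf (M := M) θ)
  have hstar : IsBlk ⊤ (ep M N (blockOf M (θ : N → ℂ))) := by
    refine star hM hKp heK hfix hQ.pg (hKQ ▸ hLn) ?_
    intro x hx hxp
    exact mem_of_preg (hnK L) (hKQ ▸ H25.ExtFMT.relIndex_pow (hnK Q) hQ.pg) (hCQ hx) hxp
  obtain ⟨B', hB', hBe, h1⟩ := block_eq hM hKp hstar
  have hS : ∀ S : Sylow p G, DGH p ⊤ (epG M B') S := by
    intro S
    rw [hBe]
    refine full_defect hM hKp heK hfix hstar S.isPGroup' ?_
    intro R hR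
    obtain ⟨S', hS'⟩ := hR.exists_le_sylow
    calc Nat.card R ≤ Nat.card S' := Nat.card_le_card_of_injective _ (Subgroup.inclusion_injective hS')
      _ = Nat.card S := by rw [Sylow.card_eq_multiplicity, Sylow.card_eq_multiplicity]
  refine ⟨B', hB', h1, ?_, ?_⟩
  · intro S
    rw [defectG_iff hM hB']
    exact hS S
  · intro D hD
    rw [defectG_iff hM hB'] at hD
    obtain ⟨S, hDS⟩ := hD.pg.exists_le_sylow
    refine ⟨S, Subgroup.eq_of_le_of_card_ge hDS ?_⟩
    rw [(hS S).card_eq hD]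

end Cfsg.Agent.S4492
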