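import Mathlib
import Cfsg.Agent.S4435
import Cfsg.Agent.S4436
import Cfsg.Agent.S4492
import Cfsg.Agent.H3_GK
import Cfsg.Agent.H10_OOClif2

/-!
H10_Fong1: heights of characters in blocks of p-solvable groups.
-/

set_option autoImplicit false
set_option linter.all false

namespace Cfsg.Agent.H10.Fong1

open Cfsg Subgroup Cfsg.Agent.H3.CharIrr Cfsg.Agent.H3.CharComplete Cfsg.Agent.H3.CharInd Cfsg.Agent.H3.CharMult
  Cfsg.Agent.H3.CharBasic Cfsg.Agent.H3.Clifford Cfsg.Agent.H3.CharInt Cfsg.Agent.H3.CharQuot Cfsg.Agent.H3.Lift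
  Cfsg.Agent.H10.OOClif
open scoped ComplexConjugate

/-- degrees over an invariant character, abelian coprime quotient -/
theorem deg_eq {W : Type*} [Group W] [Fintype W] (N : Subgroup W) [hN : N.Normal] [Fintype N] (hcop : (Nat.card N).Coprime N.index)
    (hab : ∀ x y : W, x * y * x⁻¹ * y⁻¹ ∈ N) {θ : N → ℂ} (hθ : IsIrrCharacter N θ)
    (hinv : ∀ (g : W) (n : N), θ ⟨g * n * g⁻¹, hN.conj_mem (n : W) n.2 g⟩ = θ n) {ψ : W → ℂ} (hψ : IsIrrCharacter W ψ)
    (h0 : classInner (fun n : N => ψ n) θ ≠ 0) : ψ 1 = θ 1 := by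
  obtain ⟨χ, ⟨h1, h2, -⟩, -⟩ := Cfsg.Agent.H3.GK.canon N hcop hθ hinv
  have h3 : (fun n : N => χ n) = θ := funext h2
  obtain ⟨β, hβ, hβk, e⟩ := gallagher_exists hN h1 (by rw [h3]; exact hθ) hψ (by rw [h3]; exact h0)
  have h4 : ∀ n : N, β n = β 1 := fun n => by
    have := hβk n n.2 1
    rwa [mul_one] at this
  obtain ⟨h5, -⟩ := Cfsg.Agent.H10.OOClif2.linear_over hN hab hβ (by
    have h6 : (fun n : N => β n) = β 1 • (fun _ => (1:ℂ)) := by
      funext n
      rw [Pi.smul_apply, smul_eq_mul, mul_one, h4 n]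
    rw [h6, ci_smul_left, ci_irr_self isIrr_one, mul_one]
    exact IsIrr.one_ne_zero hβ)
  rw [e, Pi.mul_apply, h5, one_mul]
  exact h2 1

theorem deg_bound {G : Type*} [Group G] [Fintype G] (N W : Subgroup G) [hN : N.Normal] [hW : W.Normal] [Fintype N] (hNW : N ≤ W)
    (hcop : (Nat.card N).Coprime (N.relIndex W)) (hab : ∀ x ∈ W, ∀ y ∈ W, x * y * x⁻¹ * y⁻¹ ∈ N) {θ : N → ℂ} (hθ : IsIrrCharacter N θ)
    (hinv : ∀ (g : G) (n : N), θ ⟨g * n * g⁻¹, hN.conj_mem (n : G) n.2 g⟩ = θ n) {χ : G → ℂ} (hχ : IsIrrCharacter G χ)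
    (h0 : classInner (fun n : N => χ n) θ ≠ 0) : ∃ b : ℕ, χ 1 = b * θ 1 ∧ b ∣ W.index := by
  classical
  haveI := Fintype.ofFinite W
  haveI := Fintype.ofFinite (IrrCharacter W)
  haveI := Fintype.ofFinite (N.subgroupOf W)
  have hres : IsClassFunction W (fun w : W => χ w) := IsChar.isClass (IsChar.res (IsIrr.isCharacter hχ) W)
  have h1 : classInner (fun n : N => χ n) θ = ∑ ψ : IrrCharacter W, classInner (fun w : W => χ w) (ψ : W → ℂ) *
      classInner (fun n : N => (ψ : W → ℂ) ⟨n, hNW n.2⟩) θ := by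
    have h2 : (fun n : N => χ n) = ∑ ψ : IrrCharacter W, classInner (fun w : W => χ w) (ψ : W → ℂ) • (fun n : N => (ψ : W → ℂ) ⟨n, hNW n.2⟩) := by
      funext n
      rw [Finset.sum_apply]
      exact expand_apply _ hres ⟨n, hNW n.2⟩
    conv_lhs => rw [h2]
    rw [ci_sum_left]
    exact Finset.sum_congr rfl fun ψ _ => ci_smul_left _ _ _
  obtain ⟨ψ, -, h2⟩ := Finset.exists_ne_zero_of_sum_ne_zero (h1 ▸ h0)
  have h3 := left_ne_zero_of_mul h2
  have h4 := right_ne_zero_of_mul h2
  obtain ⟨b, hb, hbd⟩ := degree_dvd W hχ ψ.2 h3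
  refine ⟨b, ?_, hbd⟩
  rw [hb]
  congr 1
  obtain ⟨e, he⟩ : ∃ e : N.subgroupOf W ≃* N, ∀ x : N.subgroupOf W, ((e x : N) : G) = ((x : W) : G) :=
    ⟨Subgroup.subgroupOfEquivOfLe hNW, fun x => rfl⟩
  have hθT : IsIrrCharacter (N.subgroupOf W) (fun x => θ (e x)) := (isIrr_comp_iff e).mpr hθ
  have h5 := deg_eq (N.subgroupOf W) (by
      rw [Nat.card_congr e.toEquiv]; exact hcop) (fun x y => hab x x.2 y y.2) hθT (by
      intro g n
      rw [← hinv g (e n)]
      congr 1
      apply Subtype.ext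
      rw [he]
      simp only [Subgroup.coe_mul, Subgroup.coe_inv, he]) ψ.2 (by
      have h6 := ci_subgroupOf hNW (fun n : N => (ψ : W → ℂ) ⟨(n : G), hNW n.2⟩) θ
      rw [← h6] at h4
      have h7 : (fun x : N.subgroupOf W => θ (e x)) = fun x : N.subgroupOf W => θ ⟨(x : W), Subgroup.mem_subgroupOf.mp x.2⟩ := by
        funext x; congr 1; apply Subtype.ext; exact he x
      rw [h7]
      exact h4)
  rw [h5, map_one]

section Main

variable {p : ℕ} [hp : Fact p.Prime]

theorem center_index_congr {A B : Type*} [Group A] [Group B] [Finite A] [Finite B] (e : A ≃* B) :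
    (Subgroup.center A).index = (Subgroup.center B).index := by
  have h1 := Subgroup.card_mul_index (Subgroup.center A)
  have h2 := Subgroup.card_mul_index (Subgroup.center B)
  have h3 : Nat.card (Subgroup.center A) = Nat.card (Subgroup.center B) := Nat.card_congr (Subgroup.centerCongr e).toEquiv
  rw [Nat.card_congr e.toEquiv, ← h2, h3] at h1
  exact Nat.eq_of_mul_eq_mul_left Nat.card_pos h1

theorem deg_val {G : Type*} [Group G] [Fintype G] (hsolv : IsPSolvable p G) (N : Subgroup G) [hN : N.Normal] [Fintype N]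
    (hNdef : N = pPrimeCore p G) {θ : N → ℂ} (hθ : IsIrrCharacter N θ)
    (hinv : ∀ (g : G) (n : N), θ ⟨g * n * g⁻¹, hN.conj_mem (n : G) n.2 g⟩ = θ n) {χ : G → ℂ} (hχ : IsIrrCharacter G χ)
    (h0 : classInner (fun n : N => χ n) θ ≠ 0) (P : Sylow p G) :
    (charDegree χ).factorization p ≤ ((Subgroup.center (P : Subgroup G)).index).factorization p := by
  classical
  have hNp : (Nat.card N).Coprime p := by rw [hNdef]; exact H11.Cores.pPrimeCore_coprime p
  set C := Cfsg.pCore p (G ⧸ N) with hC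
  haveI hCn : C.Normal := H1.Nilp.pCore_normal p
  have hCp : IsPGroup p C := H11.Cores.pCore_isPGroup (p := p)
  set Z : Subgroup (G ⧸ N) := C ⊓ centralizer (C : Set (G ⧸ N)) with hZ
  haveI hZn : Z.Normal := inferInstance
  have hZp : IsPGroup p Z := hCp.to_le inf_le_left
  set W := Z.comap (QuotientGroup.mk' N) with hW
  haveI hWn : W.Normal := Subgroup.Normal.comap hZn _
  have hNW : N ≤ W := by
    intro x hx
    show QuotientGroup.mk' N x ∈ Z
    rw [QuotientGroup.mk'_apply, (QuotientGroup.eq_one_iff x).2 hx]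
    exact Subgroup.one_mem _
  have hWmap : W.map (QuotientGroup.mk' N) = Z := Subgroup.map_comap_eq_self_of_surjective (QuotientGroup.mk'_surjective N) _
  have hidx : N.relIndex W = Nat.card Z := by
    rw [← hWmap, ← Subgroup.relIndex_ker, QuotientGroup.ker_mk']
  obtain ⟨k, hk⟩ := IsPGroup.iff_card.1 hZp
  have hWi : W.index = Z.index := Subgroup.index_comap_of_surjective Z (QuotientGroup.mk'_surjective N)
  obtain ⟨b, hb, hbd⟩ := deg_bound N W hNW (by rw [hidx, hk]; exact Nat.Coprime.pow_right k hNp) (by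
    intro x hx y hy
    have hx' : QuotientGroup.mk' N x ∈ Z := hx
    have hy' : QuotientGroup.mk' N y ∈ Z := hy
    rw [← QuotientGroup.eq_one_iff]
    have h1 := Subgroup.mem_centralizer_iff.1 hx'.2 _ hy'.1
    have h2 : QuotientGroup.mk' N (x * y * x⁻¹ * y⁻¹) = 1 := by
      rw [map_mul, map_mul, map_mul, map_inv, map_inv, ← h1]; group
    exact h2) hθ hinv hχ h0
  -- degrees
  obtain ⟨d, hd0, hd⟩ := IsIrr.one_eq_nat hθ
  have hdeg : charDegree χ = b * d := by
    have h1 := H10.Char.charDegree_eq hχ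
    rw [hb, hd] at h1
    exact_mod_cast h1
  have hdp : ¬ p ∣ d := by
    intro h
    have h1 := H3.GK.degree_dvd_card hθ hd
    exact (Nat.Prime.coprime_iff_not_dvd Fact.out).1 hNp.symm (h.trans h1)
  have hb0 : b ≠ 0 := by
    rintro rfl
    rw [Nat.cast_zero, zero_mul] at hb
    exact IsIrr.one_ne_zero hχ hb
  have h1 : (charDegree χ).factorization p = b.factorization p := by
    rw [hdeg, Nat.factorization_mul hb0 hd0.ne', Finsupp.add_apply, Nat.factorization_eq_zero_of_not_dvd hdp, add_zero]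
  have h2 : b.factorization p ≤ Z.index.factorization p := by
    rw [hWi] at hbd
    exact (Nat.factorization_le_iff_dvd hb0 Subgroup.FiniteIndex.index_ne_zero).2 hbd p
  rw [h1]
  refine h2.trans ?_
  -- group theory
  have hcard : Nat.card G = Nat.card (G ⧸ N) * Nat.card N := Subgroup.card_eq_card_quotient_mul_card_subgroup N
  have hNf : (Nat.card N).factorization p = 0 := Nat.factorization_eq_zero_of_not_dvd (fun h => (Nat.Prime.coprime_iff_not_dvd Fact.out).1 hNp.symm h)
  have h3 : (Nat.card (G ⧸ N)).factorization p = (Nat.card G).factorization p := by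
    rw [hcard, Nat.factorization_mul Nat.card_pos.ne' Nat.card_pos.ne', Finsupp.add_apply, hNf, add_zero]
  have h4 : (Nat.card Z).factorization p + Z.index.factorization p = (Nat.card G).factorization p := by
    rw [← h3, ← Subgroup.card_mul_index Z, Nat.factorization_mul Nat.card_pos.ne' Subgroup.FiniteIndex.index_ne_zero, Finsupp.add_apply]
  have h5 : (Nat.card (Subgroup.center (P : Subgroup G))).factorization p + (Subgroup.center (P : Subgroup G)).index.factorization p =
      (Nat.card G).factorization p := by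
    have h6 : (Nat.card (P : Subgroup G)).factorization p = (Nat.card G).factorization p := by
      rw [P.card_eq_multiplicity, Nat.Prime.factorization_pow hp.out, Finsupp.single_eq_same]
    rw [← h6, ← Subgroup.card_mul_index (Subgroup.center (P : Subgroup G)), Nat.factorization_mul Nat.card_pos.ne' Subgroup.FiniteIndex.index_ne_zero,
      Finsupp.add_apply]
  have h6 : Nat.card (Subgroup.center (P : Subgroup G)) ∣ Nat.card Z := by
    have hCP : C ≤ (P : Subgroup G).map (QuotientGroup.mk' N) := by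
      have := hCp.le_sylow_of_normal (P.mapSurjective (QuotientGroup.mk'_surjective N))
      exact this
    have hcC : centralizer (C : Set (G ⧸ N)) ≤ C := by
      refine H22.PSolv.centralizer_pCore_le (H22.PSolv.isPSolvable_quotient N hsolv) ?_
      subst hNdef
      exact H11.Cores.pPrimeCore_quotient p
    let f : Subgroup.center (P : Subgroup G) →* G ⧸ N := (QuotientGroup.mk' N).comp ((P : Subgroup G).subtype.comp (Subgroup.center (P : Subgroup G)).subtype)
    have hf : Function.Injective f := by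
      rw [injective_iff_map_eq_one]
      rintro ⟨x, hx⟩ h
      have h7 : (x : G) ∈ N := by rw [← QuotientGroup.eq_one_iff]; exact h
      have h8 : (x : G) ∈ (P : Subgroup G) ⊓ N := ⟨x.2, h7⟩
      have h9 : (P : Subgroup G) ⊓ N = ⊥ := by
        apply Subgroup.inf_eq_bot_of_coprime
        obtain ⟨m, hm⟩ := IsPGroup.iff_card.1 P.2
        rw [hm]
        exact (Nat.Coprime.pow_right m hNp).symm
      rw [h9, Subgroup.mem_bot] at h8
      exact Subtype.ext (Subtype.ext h8)
    have hr : f.range ≤ Z := by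
      rintro _ ⟨⟨x, hx⟩, rfl⟩
      have h7 : f ⟨x, hx⟩ ∈ centralizer (C : Set (G ⧸ N)) := by
        rw [Subgroup.mem_centralizer_iff]
        intro c hc
        obtain ⟨y, hy, rfl⟩ := hCP hc
        have h8 := Subgroup.mem_center_iff.1 hx ⟨y, hy⟩
        have h9 : y * (x : G) = x * y := congrArg Subtype.val h8
        show QuotientGroup.mk' N y * QuotientGroup.mk' N x = QuotientGroup.mk' N x * QuotientGroup.mk' N y
        rw [← map_mul, ← map_mul, h9]
      exact ⟨hcC h7, h7⟩
    have h7 := Subgroup.card_dvd_of_le hr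
    rwa [← Nat.card_congr (MonoidHom.ofInjective hf).toEquiv] at h7
  have h7 : (Nat.card (Subgroup.center (P : Subgroup G))).factorization p ≤ (Nat.card Z).factorization p :=
    (Nat.factorization_le_iff_dvd Nat.card_pos.ne' Nat.card_pos.ne').2 h6 p
  omega

end Main

section Final

universe u

theorem main (p : ℕ) [hp : Fact p.Prime] (M : Ideal AlgInt) (hM : IsPModular p M) (n : ℕ) : ∀ {G : Type u} [Group G] [Fintype G] (_ : Nat.card G = n)
    (_ : IsPSolvable p G) (B : Set (IrrCharacter G)) (_ : IsPBlock M B) (P : Subgroup G) (_ : IsDefectGroup p M B P) (χ : IrrCharacter G) (_ : χ ∈ B),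
    blockHeight p B (χ : G → ℂ) ≤ ((Subgroup.center P).index).factorization p := by
  classical
  induction n using Nat.strong_induction_on with
  | _ n ih =>
  intro G _ _ hn hsolv B hB P hP χ hχ
  haveI := hM.2.1
  haveI := Cfsg.Agent.H25.Red.charP_KM M hM
  obtain ⟨N, hNdef⟩ : ∃ N : Subgroup G, N = pPrimeCore p G := ⟨_, rfl⟩
  haveI hN : N.Normal := hNdef ▸ H1.Nilp.pPrimeCore_normal p
  haveI := Fintype.ofFinite N
  have hNp : (Nat.card N).Coprime p := by rw [hNdef]; exact H11.Cores.pPrimeCore_coprime p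
  have hNp' : ¬ p ∣ Nat.card N := (Nat.Prime.coprime_iff_not_dvd Fact.out).1 hNp.symm
  obtain ⟨θ, hθ, h0⟩ := exists_constituent (IsChar.res (IsIrr.isCharacter χ.2) N) (by
    intro h
    exact IsIrr.one_ne_zero χ.2 (congrFun h 1))
  set θ' : IrrCharacter N := ⟨θ, hθ⟩ with hθ'
  have hbeq : blockOf M (θ' : N → ℂ) = {θ'} := H25.Star.blockOf_coprime hM hNp' θ'
  have hb : IsPBlock M (blockOf M (θ' : N → ℂ)) := ⟨θ', rfl⟩
  obtain ⟨T, hT⟩ : ∃ T : Subgroup G, T = inertia hN θ := ⟨_, rfl⟩
  have hmT : ∀ g : G, g ∈ T ↔ ∀ n : N, θ ⟨g * n * g⁻¹, hN.conj_mem n n.2 g⟩ = θ n := by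
    intro g
    rw [hT, mem_inertia]
    exact ⟨fun h n => congrFun h n, fun h => funext h⟩
  by_cases hTt : T = ⊤
  · obtain ⟨B₀, hB₀, h1, h2, h3⟩ := Cfsg.Agent.S4492.result p M hM hsolv N hNdef θ' (fun g n => (hmT g).1 (by rw [hTt]; trivial) n)
    have hBB : B = B₀ := H10.BlockIdem.block_eq_of_mem hB hB₀ hχ ((h1 χ).2 h0)
    subst hBB
    obtain ⟨S, rfl⟩ := h3 P hP
    refine (Nat.sub_le _ _).trans ?_
    exact deg_val hsolv N hNdef hθ (fun g n => (hmT g).1 (by rw [hTt]; trivial) n) χ.2 h0 S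
  · haveI := Fintype.ofFinite T
    have hNT : N ≤ T := by rw [hT]; exact le_inertia hN (IsChar.isClass (IsIrr.isCharacter hθ))
    have hTT : ∀ g : G, g ∈ T ↔ ∀ θ₁ ∈ blockOf M (θ' : N → ℂ), ∀ θ₂ : IrrCharacter N, (∀ n : N, (θ₂ : N → ℂ) n = (θ₁ : N → ℂ) ⟨g * n * g⁻¹, hN.conj_mem n n.2 g⟩) →
        θ₂ ∈ blockOf M (θ' : N → ℂ) := by
      intro g
      rw [hbeq, hmT]
      constructor
      · intro h θ₁ h1 θ₂ h2
        rw [Set.mem_singleton_iff] at h1 ⊢
        subst h1
        apply Subtype.ext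
        funext n
        rw [h2 n]
        exact h n
      · intro h n
        have h3 : IsIrrCharacter N (cj hN g θ) := (cj_isIrr hN g).2 hθ
        have h4 := h θ' rfl ⟨cj hN g θ, h3⟩ (fun n => rfl)
        rw [Set.mem_singleton_iff] at h4
        exact congrFun (congrArg Subtype.val h4) n
    obtain ⟨k1, k2, k3⟩ := Cfsg.Agent.S4435.result p M hM N _ hb T hTT hNT
    obtain ⟨B', hB', hcov, hind⟩ := k3 B hB ⟨χ, hχ, θ', by rw [hbeq]; rfl, h0⟩
    obtain ⟨B₁, hind₁, -, -, h5⟩ := k1 B' hB' hcov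
    have hBB : B₁ = B := H10.BlockInd.isInducedBlock_unique T hind₁ hind
    subst hBB
    obtain ⟨m1, m2⟩ := Cfsg.Agent.S4436.result p M hM N _ hb T hTT hNT B' hB' hcov B₁ hind
    obtain ⟨ψ, hψ, e⟩ := (h5 χ).1 hχ
    obtain ⟨χ', hχ', e', e2⟩ := m2 ψ hψ
    rw [← e] at e'
    rw [← e', e2]
    obtain ⟨D, hD⟩ := H10.BlockDefect.exists_defectGroup (p := p) (M := M) hB'
    have hlt : Nat.card T < n := by
      rw [← hn]
      exact H11.Cores.card_lt_of_lt_top (lt_top_iff_ne_top.2 hTt)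
    refine (ih _ hlt rfl (H22.PSolv.isPSolvable_subgroup T hsolv) B' hB' D hD ψ hψ).trans ?_
    obtain ⟨x, hx⟩ := H10.BlockDefect.defectGroup_conj hM hB (m1 D hD) hP
    have e1 : D ≃* ↥(D.map T.subtype) := D.equivMapOfInjective T.subtype T.subtype_injective
    have e2 : ↥(D.map T.subtype) ≃* ↥((D.map T.subtype).map (MulAut.conj x).toMonoidHom) :=
      (D.map T.subtype).equivMapOfInjective _ (MulAut.conj x).injective
    have h6 := center_index_congr (e1.trans e2)
    rw [h6, hx]

end Final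

end Cfsg.Agent.H10.Fong1
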