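import Mathlib
import Cfsg.Agent.H10_KTwo
import Cfsg.Agent.H25_Cyk2
import Cfsg.Agent.H25_Four
import Cfsg.Agent.H25_NilpAb
import Cfsg.Agent.H25_Dom

/-!
H10_KFour: blocks with one Brauer character and at most four characters are nilpotent.
-/

set_option autoImplicit false
set_option linter.style.haveILetI false
set_option linter.unusedSectionVars false

namespace Cfsg.Agent.H10.KFour

open Cfsg Cfsg.Agent.H10.BlockLoc Cfsg.Agent.H10.BlockIdem Cfsg.Agent.H10.BlockMain Cfsg.Agent.H10.BlockHZ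
  Cfsg.Agent.H10.BlockGreen Cfsg.Agent.H10.BlockFMT Cfsg.Agent.H10.BlockDefect
  Cfsg.Agent.H25.Red Cfsg.Agent.H25.KG Cfsg.Agent.H25.BPTr Cfsg.Agent.H25.BPMain
  Cfsg.Agent.H25.BPDef Cfsg.Agent.H25.BPSub Cfsg.Agent.H25.BPInd Cfsg.Agent.H25.FMT
  Cfsg.Agent.H25.Fus Cfsg.Agent.H25.Nilp Cfsg.Agent.H25.AbSec

variable {M : Ideal AlgInt} {G : Type*} [Group G] [Fintype G] {p : ℕ} [hp : Fact p.Prime]

theorem klein_of {D : Subgroup G} (h4 : Nat.card D = 4) (hc : ¬ IsCyclic D) : IsKleinFour D := by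
  haveI : Finite D := inferInstance
  refine ⟨h4, ?_⟩
  have h1 : Monoid.exponent D ∣ 2 := by
    rw [Monoid.exponent_dvd_iff_forall_pow_eq_one]
    intro x
    have h2 : orderOf x ∣ 2 ^ 2 := by
      have := orderOf_dvd_natCard x
      rw [h4] at this
      exact this
    obtain ⟨k, hk, hx⟩ := (Nat.dvd_prime_pow Nat.prime_two).1 h2
    have h3 : k ≠ 2 := by
      rintro rfl
      exact hc (isCyclic_of_orderOf_eq_card x (by rw [hx, h4]; norm_num))
    have h5 : orderOf x ∣ 2 := by
      rw [hx]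
      interval_cases k
      · norm_num
      · norm_num
      · exact absurd rfl h3
    exact orderOf_dvd_iff_pow_eq_one.1 h5
  rcases (Nat.dvd_prime Nat.prime_two).1 h1 with h2 | h2
  · exfalso
    have h3 := Monoid.exp_eq_one_iff.1 h2
    rw [Nat.card_eq_one_iff_unique.2 ⟨h3, ⟨1⟩⟩] at h4
    omega
  · exact h2

/-- a block inducing `B` from the centralizer of an abelian defect group -/
theorem exists_root (hM : IsPModular p M) {B : Set (IrrCharacter G)} (hB : IsPBlock M B)
    {D : Subgroup G} (hD : IsDefectGroup p M B D) (hab : ∀ x ∈ D, ∀ y ∈ D, x * y = y * x) :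
    ∃ c : Set (IrrCharacter (Subgroup.centralizer (D : Set G))), IsInducedBlock M (Subgroup.centralizer (D : Set G)) c B := by
  haveI : Fintype (Subgroup.centralizer (D : Set G)) := Fintype.ofFinite _
  obtain ⟨c, -, hc⟩ := exists_inducing_of_le_defect D (Subgroup.centralizer (D : Set G)) hM
    (IsDefectGroup.isPGroup' hD) (by
      intro x hx
      rw [Subgroup.mem_centralizer_iff]
      exact fun y hy => hab y hy x hx) le_rfl (Subgroup.centralizer_le_normalizer _) hB hD (x := 1) (by
      rintro _ ⟨z, hz, rfl⟩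
      simpa using hz)
  exact ⟨c, hc⟩

/-- defect group of order three -/
theorem three_case [hMax : M.IsMaximal] [CharP (KM M) p] (hM : IsPModular p M) {B : Set (IrrCharacter G)} (hB : IsPBlock M B)
    {D : Subgroup G} (h3 : Nat.card D = 3) (hab : ∀ x ∈ D, ∀ y ∈ D, x * y = y * x)
    {E : MonoidAlgebra (KM M) G}
    (hP : BP p (epG M B) D E) (htop : Cfsg.Agent.H25.KG.Top p D E) (hk : Nat.card B = 3) (hl : blockRank p B = 1) :
    Nf D E ≤ Ce D := by
  classical
  by_contra hcon
  obtain ⟨t, ht, htC⟩ := SetLike.not_le_iff_exists.1 hcon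
  -- every nontrivial element is inverted
  have hsq : ∀ y ∈ D, y ≠ 1 → ∀ z ∈ D, z ≠ 1 → z = y ∨ z = y⁻¹ := by
    intro y hy hy1 z hz hz1
    have hcyc : IsCyclic D := isCyclic_of_prime_card (p := 3) h3
    have hoy : orderOf (⟨y, hy⟩ : D) = 3 := by
      have h1 : orderOf (⟨y, hy⟩ : D) ∣ 3 := h3 ▸ orderOf_dvd_natCard _
      rcases (Nat.dvd_prime Nat.prime_three).1 h1 with h2 | h2
      · exact absurd (congrArg Subtype.val (orderOf_eq_one_iff.1 h2)) hy1
      · exact h2
    have hzp : Subgroup.zpowers (⟨y, hy⟩ : D) = ⊤ := by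
      apply Subgroup.eq_top_of_card_eq
      rw [Nat.card_zpowers, hoy, h3]
    have hzm : (⟨z, hz⟩ : D) ∈ Subgroup.zpowers (⟨y, hy⟩ : D) := by rw [hzp]; trivial
    obtain ⟨n, hn, hn'⟩ := (Subgroup.mem_zpowers_iff.1 hzm) |> fun h => (mem_powers_iff_mem_range_orderOf (x := (⟨y, hy⟩ : D)) (y := (⟨z, hz⟩ : D))).1
      ((mem_powers_iff_mem_zpowers).2 hzm) |> fun h => by
        rw [Finset.mem_image] at h
        exact h
    rw [Finset.mem_range, hoy] at hn
    have hzv : y ^ n = z := congrArg Subtype.val hn'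
    have hy3 : y ^ 3 = 1 := by
      have := pow_orderOf_eq_one (⟨y, hy⟩ : D)
      rw [hoy] at this
      exact congrArg Subtype.val this
    interval_cases n
    · rw [pow_zero] at hzv; exact absurd hzv.symm hz1
    · left; rw [← hzv, pow_one]
    · right
      rw [← hzv]
      apply eq_inv_of_mul_eq_one_left
      rw [← pow_succ]; exact hy3
  have htn : ∀ y ∈ D, t * y * t⁻¹ ∈ D := fun y hy => (Subgroup.mem_normalizer_iff.1 ht.1 y).1 hy
  have hinv : ∀ y ∈ D, y ≠ 1 → t * y * t⁻¹ = y⁻¹ := by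
    intro y hy hy1
    have h1 : t * y * t⁻¹ ≠ 1 := by
      intro h
      apply hy1
      have : y = t⁻¹ * (t * y * t⁻¹) * t := by group
      rw [this, h]; group
    rcases hsq y hy hy1 _ (htn y hy) h1 with h2 | h2
    · exfalso
      apply htC
      rw [Ce, Subgroup.mem_centralizer_iff]
      intro z hz
      by_cases hz1 : z = 1
      · rw [hz1, one_mul, mul_one]
      have h3 : t * z * t⁻¹ = z := by
        rcases hsq y hy hy1 z hz hz1 with rfl | rfl
        · exact h2
        · have : t * y⁻¹ * t⁻¹ = (t * y * t⁻¹)⁻¹ := by group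
          rw [this, h2]
      have h4 : t * z = z * t := by
        calc t * z = (t * z * t⁻¹) * t := by group
          _ = z * t := by rw [h3]
      exact h4.symm
    · exact h2
  -- at most one section
  have hone : ∀ s ∈ Cfsg.Agent.H25.AbSec2.secs p M B, ∀ s' ∈ Cfsg.Agent.H25.AbSec2.secs p M B, s = s' := by
    intro s hs s' hs'
    obtain ⟨y, hy, hy1, h1⟩ := Cfsg.Agent.H25.AbSec2.sec_surj hM hB hP htop hs
    obtain ⟨z, hz, hz1, h2⟩ := Cfsg.Agent.H25.AbSec2.sec_surj hM hB hP htop hs'
    rcases hsq y hy hy1 z hz hz1 with rfl | rfl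
    · exact Cfsg.Agent.H25.AbSec2.sec_unique hP hs hs' hy h1 h2
    · have h3 := phi_conj ht h1
      rw [hinv y hy hy1] at h3
      exact Cfsg.Agent.H25.AbSec2.sec_unique hP hs hs' hz h3 h2
  have hrank : ∀ s ∈ Cfsg.Agent.H25.AbSec2.secs p M B, blockRank p s.2 = 1 := by
    intro s hs
    obtain ⟨y, hy, hy1, h1⟩ := Cfsg.Agent.H25.AbSec2.sec_surj hM hB hP htop hs
    obtain ⟨-, -, g, hg, hle, hdef⟩ := Cfsg.Agent.H25.AbSec2.sec_defect hM hP htop hab hs h1
    haveI : Fintype (Subgroup.centralizer ({s.1} : Set G)) := Fintype.ofFinite _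
    refine Cfsg.Agent.H25.Dom.central_rank_one hM (Cfsg.Agent.H25.AbSec2.mem_secs.1 hs).2.2.1 hdef ?_
    intro x hx
    rw [Subgroup.mem_subgroupOf] at hx
    rw [Subgroup.mem_center_iff]
    intro c
    apply Subtype.ext
    show (c : G) * (x : G) = (x : G) * (c : G)
    have hc := Subgroup.mem_centralizer_singleton_iff.1 c.2
    obtain ⟨u, hu, hux⟩ := hx
    have hux' : g * u * g⁻¹ = (x : G) := hux
    by_cases hu1 : u = 1
    · rw [← hux', hu1]; simp
    have hx2 : (x : G) = s.1 ∨ (x : G) = (s.1)⁻¹ := by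
      rcases hsq y hy hy1 u hu hu1 with h | h
      · left; rw [← hux', h, hg]
      · right
        rw [← hux', h, ← hg]; group
    rcases hx2 with h | h
    · rw [h]; exact hc
    · rw [h]
      have h5 : Commute (c : G) s.1 := hc
      exact h5.inv_right.eq
  have h1 := Cfsg.Agent.H25.AbSec2.card_eq hM hB
  rw [hk, hl, Finset.sum_congr rfl hrank, Finset.sum_const, smul_eq_mul, mul_one] at h1
  have h2 : (Cfsg.Agent.H25.AbSec2.secs p M B).card ≤ 1 := Finset.card_le_one.2 hone
  omega

theorem main (hM : IsPModular p M) {B : Set (IrrCharacter G)} (hB : IsPBlock M B)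
    {D : Subgroup G} (hD : IsDefectGroup p M B D) (hD1 : D ≠ ⊥) (hl : blockRank p B = 1) (hk : Nat.card B ≤ 4) :
    IsNilpotentBlock p M B ∧ Nat.card D = Nat.card B ∧ (p = 2 ∨ p = 3) := by
  classical
  haveI hMax := hM.2.1
  haveI := charP_KM M hM
  have hc := H10.BasicAlg.card_eq hM hB hD hl hk
  have hcard := card_defectGroup hM hB hD
  have hD2 : 1 < Nat.card D := by
    rw [Subgroup.one_lt_card_iff_ne_bot]; exact hD1
  have hn0 : blockDefect p B ≠ 0 := by
    intro h; rw [h, pow_zero] at hcard; omega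
  have hple : p ≤ 4 := by
    have h1 : p ≤ p ^ blockDefect p B := Nat.le_self_pow hn0 p
    omega
  have hp23 : p = 2 ∨ p = 3 := by
    have h2 := hp.out.two_le
    interval_cases p
    · left; rfl
    · right; rfl
    · exact absurd hp.out (by norm_num)
  refine ⟨?_, hc, hp23⟩
  rw [nilp_iff, and_iff_right hB]
  by_cases hcyc : IsCyclic D
  · have hab := Cfsg.Agent.H25.Cyk.cyc_comm hcyc
    obtain ⟨c, hcB⟩ := exists_root hM hB hD hab
    obtain ⟨-, hP, htop⟩ := Cfsg.Agent.H25.NilpAb.data hM hB hD hcB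
    rw [nilp_ab_iff hM hP htop hab]
    rcases hp23 with h2 | h3
    · subst h2
      haveI hn : ((Subgroup.centralizer (D : Set G)).subgroupOf (Nf D (ep M (Ce D) c))).Normal :=
        (Subgroup.normal_subgroupOf_iff_le_normalizer (Ce_le_Nf hP.be)).2 (fun g hg => norm_le_norm_Ce D hg.1)
      have h1 := (Cfsg.Agent.H25.Cyk.quot_cyc hM hP htop hcyc hD1 (T := Nf D (ep M (Ce D) c)) rfl).2
      exact Subgroup.relIndex_eq_one.1 (Nat.dvd_one.1 h1)
    · subst h3
      have h1 : Nat.card D = 3 := by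
        rw [hcard]
        have h2 : blockDefect 3 B < 2 := by
          by_contra h
          have : 3 ^ 2 ≤ 3 ^ blockDefect 3 B := Nat.pow_le_pow_right (by norm_num) (not_lt.1 h)
          omega
        have h3 : blockDefect 3 B = 1 := by omega
        rw [h3, pow_one]
      exact three_case hM hB h1 hab hP htop (by omega) hl
  · have h4 : p = 2 ∧ Nat.card D = 4 := by
      rcases hp23 with h2 | h3
      · refine ⟨h2, ?_⟩
        subst h2
        have h5 : blockDefect 2 B ≤ 2 := by
          by_contra h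
          have : 2 ^ 3 ≤ 2 ^ blockDefect 2 B := Nat.pow_le_pow_right (by norm_num) (not_le.1 h)
          omega
        have h6 : blockDefect 2 B ≠ 1 := by
          intro h
          rw [h, pow_one] at hcard
          exact hcyc (isCyclic_of_prime_card (p := 2) hcard)
        have h7 : blockDefect 2 B = 2 := by omega
        rw [hcard, h7]; norm_num
      · exfalso
        subst h3
        have h5 : blockDefect 3 B < 2 := by
          by_contra h
          have : 3 ^ 2 ≤ 3 ^ blockDefect 3 B := Nat.pow_le_pow_right (by norm_num) (not_lt.1 h)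
          omega
        have h3 : blockDefect 3 B = 1 := by omega
        rw [h3, pow_one] at hcard
        exact hcyc (isCyclic_of_prime_card (p := 3) hcard)
    obtain ⟨rfl, h4⟩ := h4
    have hV := klein_of h4 hcyc
    have hab : ∀ x ∈ D, ∀ y ∈ D, x * y = y * x := by
      intro x hx y hy
      haveI := hV
      have := (IsKleinFour.isMulCommutative (G := D)).is_comm.comm ⟨x, hx⟩ ⟨y, hy⟩
      exact congrArg Subtype.val this
    obtain ⟨c, hcB⟩ := exists_root hM hB hD hab
    obtain ⟨hcb, hP, htop⟩ := Cfsg.Agent.H25.NilpAb.data hM hB hD hcB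
    rw [nilp_ab_iff hM hP htop hab]
    have h1 := Cfsg.Agent.H25.Four.s4637 M hM B hB D hD hV c hcB (Nf D (ep M (Ce D) c)) (by
      intro g
      constructor
      · intro hg
        exact ⟨hg.1, (stabilizes_iff hcb g).2 ⟨norm_le_norm_Ce D hg.1, hg.2⟩⟩
      · rintro ⟨h1, h2⟩
        exact ⟨h1, ((stabilizes_iff hcb g).1 h2).2⟩) _ rfl
    rw [hl] at h1
    exact Subgroup.relIndex_eq_one.1 h1.2.2.symm

end Cfsg.Agent.H10.KFour
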