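import Mathlib
import Cfsg.Agent.H1_Hall
import Cfsg.Agent.H1_Nilp
import Cfsg.Agent.H3_BlkGal

set_option autoImplicit false

/-! Prime power indices in solvable groups (H10). -/

namespace Cfsg.Agent.H10.P467

open Cfsg Cfsg.Agent

universe u

/-- `n` is not divisible by a prime power `≡ -1, 0, 1` modulo `p` -/
def Good (p n : ℕ) : Prop := ∀ q : ℕ, IsPrimePow q → q ∣ n →
  ¬ ((q : ℤ) ≡ -1 [ZMOD p] ∨ (q : ℤ) ≡ 0 [ZMOD p] ∨ (q : ℤ) ≡ 1 [ZMOD p])

theorem Good.dvd {p n m : ℕ} (h : Good p n) (hm : m ∣ n) : Good p m := fun q hq hqm => h q hq (hqm.trans hm)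

theorem Good.not_dvd {p n : ℕ} (hp : p.Prime) (h : Good p n) : ¬ p ∣ n := by
  intro hd
  apply h p hp.isPrimePow hd
  right; left
  exact (Int.modEq_zero_iff_dvd).2 dvd_rfl

theorem Good.one {p n : ℕ} (h : Good p n) {q : ℕ} (hq : IsPrimePow q) (hd : q ∣ n) : ¬ q ≡ 1 [MOD p] := by
  intro h1
  apply h q hq hd
  right; right
  exact_mod_cast (Int.natCast_modEq_iff).2 h1

section

variable {G : Type*} [Group G] [Finite G] {p : ℕ} [hp : Fact p.Prime]

theorem fix_mod (V : Subgroup G) [hV : V.Normal] {x : G} {k : ℕ} (hx : x ^ p ^ k = 1) :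
    Nat.card V ≡ Nat.card (V ⊓ Subgroup.centralizer {x} : Subgroup G) [MOD p] := by
  let f : V → V := fun v => ⟨x * v * x⁻¹, hV.conj_mem v v.2 x⟩
  have hit : ∀ (j : ℕ) (v : V), ((f^[j] v : V) : G) = x ^ j * v * (x ^ j)⁻¹ := by
    intro j
    induction j with
    | zero => intro v; simp
    | succ j ih =>
      intro v
      rw [Function.iterate_succ_apply']
      show x * ((f^[j] v : V) : G) * x⁻¹ = _
      rw [ih, pow_succ']
      group
  have hf : f^[p ^ k] = id := by
    funext v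
    apply Subtype.ext
    rw [hit, hx]; simp
  refine (H3.BlkGal.card_fixed_mod f hf).trans ?_
  have : Nat.card {a // f a = a} = Nat.card (V ⊓ Subgroup.centralizer {x} : Subgroup G) := by
    refine Nat.card_congr
      { toFun := fun a => ⟨(a.1 : G), a.1.2, ?_⟩
        invFun := fun a => ⟨⟨a, a.2.1⟩, ?_⟩
        left_inv := fun a => rfl
        right_inv := fun a => rfl }
    · have h1 : x * (a.1 : G) * x⁻¹ = a.1 := congrArg Subtype.val a.2
      show (a.1 : G) ∈ Subgroup.centralizer {x}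
      rw [Subgroup.mem_centralizer_singleton_iff]
      exact (mul_inv_eq_iff_eq_mul.1 h1).symm
    · apply Subtype.ext
      have h1 := Subgroup.mem_centralizer_singleton_iff.1 a.2.2
      show x * (a : G) * x⁻¹ = a
      rw [← h1, mul_inv_cancel_right]
  rw [this]

theorem index_mod (V : Subgroup G) [hV : V.Normal] (hVp : (Nat.card V).Coprime p) {x : G} {k : ℕ} (hx : x ^ p ^ k = 1) :
    (V ⊓ Subgroup.centralizer {x} : Subgroup G).relIndex V ≡ 1 [MOD p] := by
  have h1 := fix_mod V hx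
  set C := (V ⊓ Subgroup.centralizer {x} : Subgroup G) with hC
  have hCV : C ≤ V := inf_le_left
  have h2 : Nat.card C * C.relIndex V = Nat.card V := by
    rw [← Subgroup.relIndex_bot_left, ← Subgroup.relIndex_bot_left, Subgroup.relIndex_mul_relIndex _ _ _ bot_le hCV]
  rw [← h2] at h1
  have h3 : (Nat.card C).Coprime p := hVp.coprime_dvd_left (by rw [← h2]; exact dvd_mul_right _ _)
  have h4 : Nat.card C * C.relIndex V ≡ Nat.card C * 1 [MOD p] := by rw [mul_one]; exact h1
  exact Nat.ModEq.cancel_left_of_coprime (by rw [Nat.gcd_comm]; exact h3) h4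

/-- a `p`-element centralizes a normal `r`-subgroup of good order -/
theorem cent_of_good (V : Subgroup G) [hV : V.Normal] {r : ℕ} (hr : r.Prime) (hVr : IsPGroup r V)
    (hg : Good p (Nat.card V)) {x : G} {k : ℕ} (hx : x ^ p ^ k = 1) : V ≤ Subgroup.centralizer {x} := by
  haveI : Fact r.Prime := ⟨hr⟩
  have hVp : (Nat.card V).Coprime p := ((Nat.Prime.coprime_iff_not_dvd hp.out).2 (hg.not_dvd hp.out)).symm
  have h1 := index_mod V hVp hx
  set C := (V ⊓ Subgroup.centralizer {x} : Subgroup G) with hC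
  have hCV : C ≤ V := inf_le_left
  by_contra hne
  have h2 : C.relIndex V ≠ 1 := by
    intro h
    rw [Subgroup.relIndex_eq_one] at h
    exact hne (h.trans inf_le_right)
  obtain ⟨a, ha⟩ := IsPGroup.iff_card.1 hVr
  have h3 : C.relIndex V ∣ Nat.card V := Subgroup.relIndex_dvd_card _ _
  obtain ⟨b, -, hb⟩ := (Nat.dvd_prime_pow hr).1 (ha ▸ h3)
  have hb0 : b ≠ 0 := by
    rintro rfl
    exact h2 (by rw [hb, pow_zero])
  exact hg.one (by rw [hb]; exact hr.isPrimePow.pow hb0) h3 h1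

theorem mem_coatom (hs : Group.IsSolvable G) {M : Subgroup G} (hM : IsCoatom M) (hg : Good p M.index) {x : G} {k : ℕ}
    (hx : x ^ p ^ k = 1) : x ∈ M := by
  classical
  obtain ⟨L, hL⟩ : ∃ L, L = M.normalCore := ⟨_, rfl⟩
  haveI hLn : L.Normal := by rw [hL]; infer_instance
  have hLM : L ≤ M := by rw [hL]; exact Subgroup.normalCore_le M
  have hLtop : L ≠ ⊤ := fun e => hM.1 (top_le_iff.1 (e ▸ hLM))
  haveI : Nontrivial (G ⧸ L) := by
    rw [← not_subsingleton_iff_nontrivial]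
    intro h
    exact hLtop (QuotientGroup.subgroup_eq_top_of_subsingleton L h)
  haveI : Group.IsSolvable (G ⧸ L) := inferInstance
  obtain ⟨N', hN', hN'b, hmin⟩ := H1.Hall.exists_minimal_normal_of_nontrivial (G ⧸ L)
  obtain ⟨hcomm, r, hr, hel⟩ := H1.Hall.minimal_normal_elementary N' hN'b hmin
  obtain ⟨N, hN⟩ : ∃ N, N = N'.comap (QuotientGroup.mk' L) := ⟨_, rfl⟩
  haveI hNn : N.Normal := by rw [hN]; infer_instance
  have hLN : L ≤ N := by
    intro g hgL
    rw [hN, Subgroup.mem_comap, QuotientGroup.mk'_apply, (QuotientGroup.eq_one_iff g).2 hgL]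
    exact N'.one_mem
  have hNab : ∀ a ∈ N, ∀ b ∈ N, a * b * a⁻¹ * b⁻¹ ∈ L := by
    intro a ha b hb
    rw [hN] at ha hb
    have h1 : (QuotientGroup.mk' L a) * (QuotientGroup.mk' L b) = (QuotientGroup.mk' L b) * (QuotientGroup.mk' L a) :=
      congrArg Subtype.val (hcomm.is_comm.comm ⟨_, ha⟩ ⟨_, hb⟩)
    rw [← QuotientGroup.eq_one_iff]
    show (QuotientGroup.mk' L) (a * b * a⁻¹ * b⁻¹) = 1
    rw [map_mul, map_mul, map_mul, map_inv, map_inv, h1]
    group
  have hNM : ¬ N ≤ M := by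
    intro h
    have h1 : N ≤ L := by rw [hL]; exact Subgroup.normal_le_normalCore.2 h
    apply hN'b
    rw [eq_bot_iff]
    intro y hy
    obtain ⟨g, rfl⟩ := QuotientGroup.mk'_surjective L y
    have h2 : g ∈ N := by rw [hN]; exact hy
    rw [Subgroup.mem_bot]
    exact (QuotientGroup.eq_one_iff g).2 (h1 h2)
  have htop : M ⊔ N = ⊤ := hM.2 _ (lt_of_le_of_ne le_sup_left (fun e => hNM (by rw [e]; exact le_sup_right)))
  have hMN : M ⊓ N = L := by
    apply le_antisymm _ (le_inf hLM hLN)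
    have hn : (M ⊓ N).Normal := by
      constructor
      rintro m ⟨hm1, hm2⟩ g
      have hgt : g ∈ M ⊔ N := by rw [htop]; trivial
      obtain ⟨a, ha, b, hb, rfl⟩ := Subgroup.mem_sup_of_normal_right.1 hgt
      have h1 : b * m * b⁻¹ ∈ M := by
        have h2 := hNab b hb m hm2
        have h3 : b * m * b⁻¹ = (b * m * b⁻¹ * m⁻¹) * m := by group
        rw [h3]
        exact M.mul_mem (hLM h2) hm1
      refine ⟨?_, hNn.conj_mem m hm2 _⟩
      have h4 : a * b * m * (a * b)⁻¹ = a * (b * m * b⁻¹) * a⁻¹ := by group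
      rw [h4]
      exact M.mul_mem (M.mul_mem ha h1) (M.inv_mem ha)
    rw [hL]
    exact Subgroup.normal_le_normalCore.2 inf_le_left
  have hidx : M.index = Nat.card N' := by
    have e1 : (M ⊓ N).relIndex N * N.index = (M ⊓ N).index := Subgroup.relIndex_mul_index inf_le_right
    have e2 : (M ⊓ N).relIndex M * M.index = (M ⊓ N).index := Subgroup.relIndex_mul_index inf_le_left
    have e3 : N.index = (M ⊓ N).relIndex M := by
      rw [Subgroup.inf_relIndex_left, ← Subgroup.relIndex_sup_right (H := M) (K := N), htop, Subgroup.relIndex_top_right]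
    rw [← e2, ← e3, mul_comm] at e1
    have e4 : (M ⊓ N).relIndex N = M.index := Nat.eq_of_mul_eq_mul_left (Nat.pos_of_ne_zero Subgroup.index_ne_zero_of_finite) e1
    rw [← e4, hMN]
    have e5 := Subgroup.relIndex_ker (K := N) (QuotientGroup.mk' L)
    rw [QuotientGroup.ker_mk', hN, Subgroup.map_comap_eq_self_of_surjective (QuotientGroup.mk'_surjective L)] at e5
    rw [hN]; exact e5
  have hcent : ∀ y : G, (∃ j, y ^ p ^ j = 1) → ∀ n ∈ N, n * y * n⁻¹ * y⁻¹ ∈ L := by
    rintro y ⟨j, hy⟩ n hn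
    have hr' : IsPGroup r N' := fun z => ⟨1, Subtype.ext (by rw [pow_one]; exact hel z z.2)⟩
    have h1 := cent_of_good N' hr hr' (by rw [← hidx]; exact hg) (x := QuotientGroup.mk' L y) (k := j)
      (by rw [← map_pow, hy, map_one])
    rw [hN] at hn
    have h2 := Subgroup.mem_centralizer_singleton_iff.1 (h1 hn)
    rw [← QuotientGroup.eq_one_iff]
    show (QuotientGroup.mk' L) (n * y * n⁻¹ * y⁻¹) = 1
    rw [map_mul, map_mul, map_mul, map_inv, map_inv, h2]
    group
  -- a fixed coset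
  have h4 : ¬ p ∣ Nat.card (G ⧸ M) := fun h => hg.not_dvd hp.out h
  have hxp : IsPGroup p (Subgroup.zpowers x) := by
    rw [IsPGroup.iff_card]
    obtain ⟨j, -, hj⟩ := (Nat.dvd_prime_pow hp.out).1 (orderOf_dvd_of_pow_eq_one hx)
    exact ⟨j, by rw [Nat.card_zpowers, hj]⟩
  obtain ⟨q, hq⟩ := hxp.nonempty_fixed_point_of_prime_not_dvd_card (G ⧸ M) h4
  obtain ⟨g, rfl⟩ := QuotientGroup.mk_surjective q
  have h5 := hq ⟨x, Subgroup.mem_zpowers x⟩
  have h6 : (QuotientGroup.mk (x * g) : G ⧸ M) = QuotientGroup.mk g := h5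
  rw [eq_comm, QuotientGroup.eq] at h6
  have hy : (g⁻¹ * (x * g)) ^ p ^ k = 1 := by
    have e : g⁻¹ * (x * g) = g⁻¹ * x * g⁻¹⁻¹ := by group
    rw [e, conj_pow, hx]; group
  have hgt : g ∈ M ⊔ N := by rw [htop]; trivial
  obtain ⟨a, ha, b, hb, rfl⟩ := Subgroup.mem_sup_of_normal_right.1 hgt
  set y := (a * b)⁻¹ * (x * (a * b)) with hydef
  have h7 := hcent y ⟨k, hy⟩ b hb
  have h8 : x = a * ((b * y * b⁻¹ * y⁻¹) * y) * a⁻¹ := by rw [hydef]; group
  rw [h8]
  exact M.mul_mem (M.mul_mem ha (M.mul_mem (hLM h7) h6)) (M.inv_mem ha)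

/-- `p`-elements of a solvable group lie in each subgroup of good index -/
theorem mem_of_good (n : ℕ) : ∀ (G : Type u) [Group G] [Finite G], Nat.card G = n → Group.IsSolvable G →
    ∀ T : Subgroup G, Good p T.index → ∀ (x : G) (k : ℕ), x ^ p ^ k = 1 → x ∈ T := by
  induction n using Nat.strong_induction_on with | _ n ih => ?_
  intro G _ _ hn hs T hg x k hx
  rcases eq_top_or_exists_le_coatom T with rfl | ⟨M, hM, hTM⟩
  · trivial
  have hxM : x ∈ M := mem_coatom hs hM (hg.dvd (Subgroup.index_dvd_of_le hTM)) hx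
  have h1 := ih (Nat.card M) (by rw [← hn]; exact H1.SZ.card_subgroup_lt hM.1) M rfl inferInstance (T.subgroupOf M)
    (hg.dvd (by
      show T.relIndex M ∣ _
      rw [← Subgroup.relIndex_mul_index hTM]
      exact dvd_mul_right _ _)) ⟨x, hxM⟩ k (Subtype.ext hx)
  exact Subgroup.mem_subgroupOf.1 h1

end

end Cfsg.Agent.H10.P467
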