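import Mathlib
import Cfsg.Agent.H10_PrE5

set_option autoImplicit false
set_option linter.all false

/-! Peterfalvi (9.11): the propagation step and the sets of characters. -/

open scoped commutatorElement

namespace Cfsg.Agent.H10.PrE6

open Cfsg Cfsg.Agent.H3.CharBasic Cfsg.Agent.H3.CharIrr Cfsg.Agent.H3.CharComplete
  Cfsg.Agent.H3.CharMult Cfsg.Agent.H3.CharInd Cfsg.Agent.H3.CharInt Cfsg.Agent.H3.Clifford Cfsg.Agent.H3.CharQuot
  Cfsg.Agent.H10.OOClif Cfsg.Agent.H10.IndSet Cfsg.Agent.H10.IndSet2 Cfsg.Agent.H10.IndSet6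
  Cfsg.Agent.H10.Coh Cfsg.Agent.H10.Coh3 Cfsg.Agent.H10.Coh4 Cfsg.Agent.H10.PrD8 Cfsg.Agent.H10.PrD6
  Cfsg.Agent.H10.PrE1 Cfsg.Agent.H10.PrE2 Cfsg.Agent.H10.PrE3 Cfsg.Agent.H10.PrE4 Cfsg.Agent.H10.PrE5
open scoped ComplexConjugate

section Gen

variable {L : Type*} [Group L] [Fintype L] {G : Type*} [Group G] [Fintype G]
  {S : Set (L → ℂ)} {τ : (L → ℂ) → (G → ℂ)} {Rc : (L → ℂ) → Finset (G → ℂ)} (hS : IsCoherenceSystem S τ Rc)
include hS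

theorem step1 (hfin : S.Finite) (SW : Finset (L → ℂ)) (hSW : ↑SW ⊆ S) (hc : ∀ φ ∈ SW, conjFun φ ∈ SW) {χ₁ : L → ℂ} (hχ₁ : χ₁ ∈ SW)
    {q a u n p : ℕ} (ha : 0 < a) (hq : 0 < q) (hn : 0 < n) (hd1 : ∀ χ ∈ SW, χ 1 = ((q * a : ℕ) : ℂ))
    (hd : ∀ χ ∈ S, ∃ k : ℕ, χ 1 = ((q * k : ℕ) : ℂ) ∧ a ∣ k ∧ k ≤ u) (hun : u ≤ n) (h2a : 2 * a ≤ p - 1)
    (hsum : ∑ φ ∈ SW, (φ 1).re ^ 2 / (classInner φ φ).re = q ^ 2 * ((p - 1 : ℕ) : ℝ) * n) :
    IsCoherent S {1}ᶜ τ ∨ (u = n ∧ 2 * a = p - 1 ∧ ∀ χ ∈ S, χ ∉ SW → χ 1 = ((q * u : ℕ) : ℂ)) := by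
  classical
  have hcohW : IsCoherent (↑SW : Set (L → ℂ)) {1}ᶜ τ := by
    apply Cfsg.Agent.H10.Coh6.equal_deg (restrict_system hS hSW ⟨χ₁, hχ₁⟩ hc)
    intro φ hφ ψ hψ
    rw [hd1 φ hφ, hd1 ψ hψ]
  have hq' : (0 : ℝ) < q := by exact_mod_cast hq
  have ha' : (0 : ℝ) < a := by exact_mod_cast ha
  have hn' : (0 : ℝ) < n := by exact_mod_cast hn
  have hre : ∀ (k : ℕ) (χ : L → ℂ), χ 1 = ((q * k : ℕ) : ℂ) → (χ 1).re = q * k := fun k χ e => by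
    rw [e, Complex.natCast_re]; push_cast; rfl
  have h1re := hre a χ₁ (hd1 χ₁ hχ₁)
  have hdvd : ∀ ψ ∈ S, ∃ m : ℕ, ψ 1 = m * χ₁ 1 := by
    intro ψ hψ
    obtain ⟨k, hk, ⟨m, rfl⟩, -⟩ := hd ψ hψ
    exact ⟨m, by rw [hk, hd1 χ₁ hχ₁]; push_cast; ring⟩
  have hfinal : ∀ S₀ : Finset (L → ℂ), ↑S₀ ⊆ S → (∀ φ ∈ S₀, conjFun φ ∈ S₀) → IsCoherent (↑S₀ : Set (L → ℂ)) {1}ᶜ τ → χ₁ ∈ S₀ →
      2 * (q * u : ℝ) * (q * a) < ∑ φ ∈ S₀, (φ 1).re ^ 2 / (classInner φ φ).re → IsCoherent S {1}ᶜ τ := by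
    intro S₀ hS₀ hc₀ hcoh h1 hlt
    obtain ⟨S₁, h3, h4, h5, -, h6⟩ := propagate hS hfin S₀ hS₀ hc₀ hcoh S le_rfl χ₁ h1 hdvd (by
      intro ψ hψ _
      obtain ⟨k, hk, -, hku⟩ := hd ψ hψ
      rw [hre k ψ hk, h1re]
      refine lt_of_le_of_lt ?_ hlt
      have : (k : ℝ) ≤ u := by exact_mod_cast hku
      have h7 : (q : ℝ) * k ≤ q * u := mul_le_mul_of_nonneg_left this hq'.le
      nlinarith [mul_pos hq' ha'])
    rwa [Set.Subset.antisymm h3 h5] at h6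
  by_cases hlt : 2 * (q * u : ℝ) * (q * a) < q ^ 2 * ((p - 1 : ℕ) : ℝ) * n
  · left
    exact hfinal SW hSW hc hcohW hχ₁ (by rw [hsum]; exact hlt)
  · have hge : ((p - 1) * n : ℕ) ≤ 2 * u * a := by
      push Not at hlt
      have h2 : ((p - 1 : ℕ) : ℝ) * n ≤ 2 * u * a := by
        have e1 : q ^ 2 * ((p - 1 : ℕ) : ℝ) * n = q ^ 2 * (((p - 1 : ℕ) : ℝ) * n) := by ring
        have e2 : 2 * (q * u : ℝ) * (q * a) = q ^ 2 * (2 * u * a) := by ring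
        rw [e1, e2] at hlt
        exact le_of_mul_le_mul_left hlt (by positivity)
      exact_mod_cast h2
    have hun' : u = n := by
      by_contra hne
      have : u < n := lt_of_le_of_ne hun hne
      have h3 : 2 * u * a < 2 * n * a := by nlinarith
      have h4 : 2 * n * a ≤ (p - 1) * n := by nlinarith
      omega
    have h2a' : 2 * a = p - 1 := by
      apply le_antisymm h2a
      rw [hun'] at hge
      have h3 : (p - 1) * n ≤ (2 * a) * n := by nlinarith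
      exact Nat.le_of_mul_le_mul_right h3 hn
    have hval : q ^ 2 * ((p - 1 : ℕ) : ℝ) * n = 2 * (q * u : ℝ) * (q * a) := by
      rw [← h2a', hun']; push_cast; ring
    -- the members of degree less than `q u`
    let S' : Set (L → ℂ) := {χ | χ ∈ S ∧ (χ 1).re < q * u}
    obtain ⟨S₁, g1, g2, g3, g4, g5⟩ := propagate hS hfin SW hSW hc hcohW S' (fun χ hχ => hχ.1) χ₁ hχ₁ (fun ψ hψ => hdvd ψ hψ.1) (by
      rintro ψ ⟨hψ, hψ2⟩ _
      rw [hsum, hval, h1re]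
      have : 2 * (ψ 1).re < 2 * (q * u) := by linarith
      exact mul_lt_mul_of_pos_right this (mul_pos hq' ha'))
    by_cases hex : ∃ χ' ∈ S', χ' ∉ SW
    · left
      obtain ⟨χ', h3, h4⟩ := hex
      refine hfinal S₁ g1 g4 g5 (g2 hχ₁) ?_
      rw [← hval, ← hsum]
      have h5 : insert χ' SW ⊆ S₁ := by
        intro φ hφ
        rcases Finset.mem_insert.1 hφ with h6 | h6
        · rw [h6]; exact g3 h3
        · exact g2 h6
      refine lt_of_lt_of_le ?_ (Finset.sum_le_sum_of_subset_of_nonneg h5 (fun φ hφ _ => div_nonneg (sq_nonneg _) (norm_pos hS (g1 hφ)).le))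
      rw [Finset.sum_insert h4]
      have h6 : 0 < (χ' 1).re ^ 2 / (classInner χ' χ').re := by
        apply div_pos _ (norm_pos hS h3.1)
        obtain ⟨k, hk, -, -⟩ := hd χ' h3.1
        have h7 := one_ne hS h3.1
        rw [hre k χ' hk]
        have hk0 : k ≠ 0 := by rintro rfl; apply h7; rw [hk]; simp
        positivity
      linarith
    · right
      push Not at hex
      refine ⟨hun', h2a', fun χ hχ hχW => ?_⟩
      obtain ⟨k, hk, -, hku⟩ := hd χ hχ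
      have h3 : ¬ (χ 1).re < q * u := fun h4 => hχW (hex χ ⟨hχ, h4⟩)
      rw [hre k χ hk] at h3
      push Not at h3
      have h4 : (u : ℝ) ≤ k := le_of_mul_le_mul_left h3 hq'
      have h5 : u ≤ k := by exact_mod_cast h4
      rw [hk, le_antisymm hku h5]

end Gen

section Sets

variable {L : Type*} [Group L] [Fintype L] {K H H₀ U W : Subgroup L} {p q : ℕ}

theorem ker_cj (hK : K.Normal) {θ : K → ℂ} {X : Subgroup L} (g : L) : Ker (cj hK g θ) X ↔ Ker θ (cjs g X) := by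
  constructor
  · intro h1 k hk
    rw [mem_cjs] at hk
    have hm : g⁻¹ * (k : L) * g ∈ K := by
      have := hK.conj_mem k k.2 g⁻¹
      rwa [inv_inv] at this
    have h2 := h1 ⟨_, hm⟩ hk
    rw [cj_apply, cj_apply_one] at h2
    rw [← h2]
    congr 1
    apply Subtype.ext
    show (k : L) = g * (g⁻¹ * k * g) * g⁻¹
    group
  · intro h1 k hk
    rw [cj_apply, cj_apply_one]
    exact h1 _ (conj_mem_cjs hk)

theorem ker_conj {θ : K → ℂ} {X : Subgroup L} : Ker (conjFun θ) X ↔ Ker θ X := by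
  constructor
  · intro h1 k hk
    have := congrArg conj (h1 k hk)
    simpa [conjFun] using this
  · intro h1 k hk
    simp only [conjFun]; rw [h1 k hk]

open Classical in
/-- induced characters as a finite set -/
noncomputable def SI (K : Subgroup L) (P : (K → ℂ) → Prop) : Finset (L → ℂ) := (IS K P).image (fun θ : IrrCharacter K => indFun K (θ : K → ℂ))

theorem mem_SI {P : (K → ℂ) → Prop} {χ : L → ℂ} : χ ∈ SI K P ↔ ∃ θ, IsIrrCharacter K θ ∧ P θ ∧ χ = indFun K θ := by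
  classical
  rw [SI, Finset.mem_image]
  constructor
  · rintro ⟨θ, h1, h2⟩
    exact ⟨θ, θ.2, mem_IS.1 h1, h2.symm⟩
  · rintro ⟨θ, h1, h2, h3⟩
    exact ⟨⟨θ, h1⟩, mem_IS.2 h2, h3.symm⟩

theorem coe_SI_indD (M : Subgroup L) : (↑(SI K (fun θ => Ker θ M ∧ ¬ Ker θ H)) : Set (L → ℂ)) = indD K H M := by
  ext χ
  rw [Finset.mem_coe, mem_SI]
  constructor
  · rintro ⟨θ, h1, ⟨h2, h3⟩, h4⟩
    rw [Ker] at h3
    push Not at h3
    obtain ⟨k, hk, hne⟩ := h3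
    exact ⟨θ, h1, ⟨k, hk, hne⟩, h2, h4⟩
  · rintro ⟨θ, h1, ⟨k, hk, hne⟩, h2, h3⟩
    exact ⟨θ, h1, ⟨h2, fun h5 => hne (h5 k hk)⟩, h3⟩

theorem SI_conj {P : (K → ℂ) → Prop} (hP : ∀ θ, IsIrrCharacter K θ → P θ → P (conjFun θ)) {χ : L → ℂ} (hχ : χ ∈ SI K P) : conjFun χ ∈ SI K P := by
  haveI := Fintype.ofFinite K
  rw [mem_SI] at hχ ⊢
  obtain ⟨θ, h1, h2, rfl⟩ := hχ
  exact ⟨conjFun θ, IsIrr.conj h1, hP θ h1 h2, conj_ind θ⟩

theorem SI_sum (hK : K.Normal) {P : (K → ℂ) → Prop} (hP : ∀ θ, IsIrrCharacter K θ → P θ → ∀ g, P (cj hK g θ)) :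
    ∑ φ ∈ SI K P, (φ 1).re ^ 2 / (classInner φ φ).re = (K.index : ℝ) * ∑ θ ∈ IS K P, ((θ : K → ℂ) 1).re ^ 2 := by
  classical
  haveI := Fintype.ofFinite K
  rw [SI]
  exact sum_ind hK (IS K P) (fun θ hθ φ hφ => by
    rw [mem_IS] at hθ ⊢
    obtain ⟨g, hg⟩ := (mem_orb hK _ _).1 hφ
    rw [← hg]
    exact hP θ θ.2 hθ g)

variable (h : CD K H H₀ U W p q)
include h

theorem _root_.Cfsg.Agent.H10.PrE2.CD.index_pos : 0 < (⁅U, U⁆ : Subgroup L).relIndex U :=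
  Nat.pos_of_ne_zero (by
    intro h0
    have := Cfsg.Agent.H2.Card.card_mul_relIndex h.U'U
    rw [h0, mul_zero] at this
    exact Nat.card_pos.ne' this.symm)

theorem _root_.Cfsg.Agent.H10.PrE2.CD.decomp (g : L) : ∃ k ∈ K, ∃ w ∈ W, g = k * w := by
  have hg : g ∈ K ⊔ W := by rw [h.KW]; trivial
  haveI := h.K_normal
  obtain ⟨k, hk, v, hv, rfl⟩ := (Cfsg.Agent.H2.Card.mem_sup_iff' (Subgroup.le_normalizer_of_normal)).1 hg
  exact ⟨k, hk, v, hv, rfl⟩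

theorem _root_.Cfsg.Agent.H10.PrE2.CD.M₀_normal : (H₀ ⊔ ⁅U, U⁆ : Subgroup L).Normal := by
  have h1 := h.inv_U' (Inv.of_normal (K := K) h.H₀_normal) le_rfl h.lt.le
  refine ⟨fun n hn g => ?_⟩
  obtain ⟨k, hk, w, hw, rfl⟩ := h.decomp g
  have h2 : w * n * w⁻¹ ∈ (H₀ ⊔ ⁅U, U⁆ : Subgroup L) := by
    have key : (H₀ ⊔ ⁅U, U⁆ : Subgroup L) ≤ (H₀ ⊔ ⁅U, U⁆ : Subgroup L).comap (MulAut.conj w).toMonoidHom := by
      refine sup_le ?_ ?_
      · intro x hx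
        exact (le_sup_left : H₀ ≤ H₀ ⊔ ⁅U, U⁆) (h.H₀_normal.conj_mem x hx w)
      · rw [Subgroup.commutator_le]
        intro x hx y hy
        show (MulAut.conj w).toMonoidHom ⁅x, y⁆ ∈ (H₀ ⊔ ⁅U, U⁆ : Subgroup L)
        rw [map_commutatorElement]
        exact (le_sup_right : ⁅U, U⁆ ≤ H₀ ⊔ ⁅U, U⁆) (Subgroup.commutator_mem_commutator (h.WU w hw x hx) (h.WU w hw y hy))
    exact key hn
  have e : k * w * n * (k * w)⁻¹ = k * (w * n * w⁻¹) * k⁻¹ := by group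
  rw [e]
  exact h1 k hk _ h2

theorem _root_.Cfsg.Agent.H10.PrE2.CD.cjs_N {X N : ↥W → Subgroup L} (D : Dec K H H₀ W p X N) (g : L) :
    ∃ v : ↥W, ∀ w, cjs g (N w) = N (v * w) := by
  obtain ⟨k, hk, v, hv, rfl⟩ := h.decomp g
  refine ⟨⟨v, hv⟩, fun w => ?_⟩
  rw [← cjs_cjs, show cjs v (N w) = N (⟨v, hv⟩ * w) from (D.conjN ⟨v, hv⟩ w).symm]
  have hin := D.N_inv (⟨v, hv⟩ * w)
  apply le_antisymm
  · rintro _ ⟨x, hx, rfl⟩; exact hin k hk x hx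
  · intro x hx
    rw [mem_cjs]
    have := hin k⁻¹ (K.inv_mem hk) x hx
    rwa [inv_inv] at this

theorem _root_.Cfsg.Agent.H10.PrE2.CD.sum_F {X N : ↥W → Subgroup L} (D : Dec K H H₀ W p X N) :
    ∑ θ ∈ IS K (fun θ => Ker θ (H₀ ⊔ ⁅U, U⁆) ∧ (∃ w, Ker θ (N w)) ∧ ¬ Ker θ H), ((θ : K → ℂ) 1).re ^ 2 =
      q * (((p : ℝ) - 1) * ((⁅U, U⁆ : Subgroup L).relIndex U : ℝ)) := by
  classical
  haveI : Fintype W := Fintype.ofFinite _
  have h1 : IS K (fun θ => Ker θ (H₀ ⊔ ⁅U, U⁆) ∧ (∃ w, Ker θ (N w)) ∧ ¬ Ker θ H) =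
      Finset.univ.biUnion (fun w : W => IS K (fun θ => Ker θ (N w ⊔ ⁅U, U⁆) ∧ ¬ Ker θ H)) := by
    ext θ
    rw [mem_IS, Finset.mem_biUnion]
    constructor
    · rintro ⟨h2, ⟨w, h3⟩, h4⟩
      refine ⟨w, Finset.mem_univ _, mem_IS.2 ⟨?_, h4⟩⟩
      intro k hk
      have hkc : IsCharacter K (θ : K → ℂ) := IsIrr.isCharacter θ.2
      have hle : (N w ⊔ ⁅U, U⁆).subgroupOf K ≤ chKer (θ : K → ℂ) hkc := by
        rw [Subgroup.subgroupOf_sup ((D.N_le w).trans h.H_le) (h.U'U.trans h.U_le)]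
        exact sup_le (fun x hx => h3 x hx) (fun x hx => h2 x ((le_sup_right : ⁅U, U⁆ ≤ H₀ ⊔ ⁅U, U⁆) hx))
      exact hle hk
    · rintro ⟨w, -, h2⟩
      rw [mem_IS] at h2
      refine ⟨fun k hk => h2.1 k (sup_le_sup_right (D.N_lb w) _ hk), ⟨w, fun k hk => h2.1 k ((le_sup_left : N w ≤ _) hk)⟩, h2.2⟩
  rw [h1, Finset.sum_biUnion]
  · rw [Finset.sum_congr rfl (g := fun _ => (((p : ℝ) - 1) * ((⁅U, U⁆ : Subgroup L).relIndex U : ℝ))) (fun w _ => by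
      rw [h.sum_M (D.N_inv w) (D.N_lb w) (D.N_le w), D.N_idx w]), Finset.sum_const, Finset.card_univ, ← Nat.card_eq_fintype_card,
      h.cardW, nsmul_eq_mul]
  · intro w _ w' _ hne
    rw [Function.onFun, Finset.disjoint_left]
    intro θ h2 h3
    rw [mem_IS] at h2 h3
    apply h2.2
    intro k hk
    have hkc : IsCharacter K (θ : K → ℂ) := IsIrr.isCharacter θ.2
    have hle : (N w ⊔ N w').subgroupOf K ≤ chKer (θ : K → ℂ) hkc := by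
      rw [Subgroup.subgroupOf_sup ((D.N_le w).trans h.H_le) ((D.N_le w').trans h.H_le)]
      exact sup_le (fun x hx => h2.1 x ((le_sup_left : N w ≤ _) hx)) (fun x hx => h3.1 x ((le_sup_left : N w' ≤ _) hx))
    apply hle
    show (k : L) ∈ N w ⊔ N w'
    have h4 : H ≤ N w ⊔ N w' := by
      rw [← D.sup w]
      exact sup_le ((D.X_N w w' hne).trans le_sup_right) le_sup_left
    exact h4 hk

end Sets

end Cfsg.Agent.H10.PrE6
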