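import Mathlib
import Cfsg.Agent.H10_PrE6

set_option autoImplicit false
set_option linter.all false

/-! Peterfalvi (9.11): the exceptional configuration. -/

open scoped commutatorElement

namespace Cfsg.Agent.H10.PrE7

open Cfsg Cfsg.Agent.H3.CharBasic Cfsg.Agent.H3.CharIrr Cfsg.Agent.H3.CharComplete
  Cfsg.Agent.H3.CharMult Cfsg.Agent.H3.CharInd Cfsg.Agent.H3.CharInt Cfsg.Agent.H3.Clifford Cfsg.Agent.H3.CharQuot
  Cfsg.Agent.H10.OOClif Cfsg.Agent.H10.IndSet Cfsg.Agent.H10.IndSet2 Cfsg.Agent.H10.IndSet6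
  Cfsg.Agent.H10.PrE1 Cfsg.Agent.H10.PrE2 Cfsg.Agent.H10.PrE3 Cfsg.Agent.H10.PrE4 Cfsg.Agent.H10.PrE5 Cfsg.Agent.H10.PrE6
open scoped ComplexConjugate

theorem arith {a q : ℕ} (ha : 3 ≤ a) (hq : 3 ≤ q) :
    3 * q * a ^ 2 + q * (q + 2) * a ^ 3 + 3 * (1 + 2 * a * q) < 3 * (2 * a + 1) ^ q := by
  induction q, hq using Nat.le_induction with
  | base =>
    have h1 : 0 < a ^ 3 := by positivity
    have e : 3 * (2 * a + 1) ^ 3 = 3 * 3 * a ^ 2 + 3 * (3 + 2) * a ^ 3 + 3 * (1 + 2 * a * 3) + (9 * a ^ 3 + 27 * a ^ 2) := by ring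
    rw [e]; exact Nat.lt_add_of_pos_right (by positivity)
  | succ q hq ih =>
    have h1 : 3 * (2 * a + 1) ^ (q + 1) = (2 * a + 1) * (3 * (2 * a + 1) ^ q) := by ring
    rw [h1]
    have h2 : 7 * (3 * (2 * a + 1) ^ q) ≤ (2 * a + 1) * (3 * (2 * a + 1) ^ q) := Nat.mul_le_mul_right _ (by omega)
    refine lt_of_lt_of_le ?_ h2
    have h3 : 7 * (3 * q * a ^ 2 + q * (q + 2) * a ^ 3 + 3 * (1 + 2 * a * q)) < 7 * (3 * (2 * a + 1) ^ q) := by omega
    refine lt_of_le_of_lt ?_ h3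
    have h4 : 3 * (q + 1) * a ^ 2 ≤ 7 * (3 * q * a ^ 2) := by nlinarith [sq_nonneg a]
    have h5 : (q + 1) * (q + 1 + 2) * a ^ 3 ≤ 7 * (q * (q + 2) * a ^ 3) := by
      have : (q + 1) * (q + 1 + 2) ≤ 7 * (q * (q + 2)) := by nlinarith
      calc (q + 1) * (q + 1 + 2) * a ^ 3 ≤ (7 * (q * (q + 2))) * a ^ 3 := Nat.mul_le_mul_right _ this
        _ = _ := by ring
    have h6 : 3 * (1 + 2 * a * (q + 1)) ≤ 7 * (3 * (1 + 2 * a * q)) := by nlinarith
    calc _ ≤ 7 * (3 * q * a ^ 2) + 7 * (q * (q + 2) * a ^ 3) + 7 * (3 * (1 + 2 * a * q)) := by omega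
      _ = _ := by ring

section T

variable {L : Type*} [Group L] [Fintype L] {K H H₀ U W : Subgroup L} {p q : ℕ} (h : CD K H H₀ U W p q)
include h

theorem _root_.Cfsg.Agent.H10.PrE2.CD.deg_dvd_u {θ : K → ℂ} {φ : ↥H →* ℂˣ} {T : Subgroup L} (hd : DegS H U θ φ T) (hk : Ker θ (H₀ ⊔ ⁅U, U⁆)) :
    T.relIndex U ∣ (CC h.H₀_normal U H).relIndex U :=
  ⟨_, by rw [mul_comm]; exact (Subgroup.relIndex_mul_relIndex _ T U (h.C_le_T hd hk) hd.T_le).symm⟩

theorem _root_.Cfsg.Agent.H10.PrE2.CD.rel_pos {T : Subgroup L} (hT : T ≤ U) : 0 < T.relIndex U :=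
  Nat.pos_of_ne_zero (by
    intro h0
    have := Cfsg.Agent.H2.Card.card_mul_relIndex hT
    rw [h0, mul_zero] at this
    exact Nat.card_pos.ne' this.symm)

theorem _root_.Cfsg.Agent.H10.PrE2.CD.u_dvd_n : (CC h.H₀_normal U H).relIndex U ∣ (⁅U, U⁆ : Subgroup L).relIndex U :=
  ⟨_, by rw [mul_comm]; exact (Subgroup.relIndex_mul_relIndex _ _ U h.U'_le inf_le_left).symm⟩

variable {X N : ↥W → Subgroup L} (D : Dec K H H₀ W p X N)
include D

theorem _root_.Cfsg.Agent.H10.PrE2.CD.a_dvd_deg {θ : K → ℂ} {φ : ↥H →* ℂˣ} {T : Subgroup L} (hd : DegS H U θ φ T) (hk : Ker θ (H₀ ⊔ ⁅U, U⁆))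
    (hH : ¬ Ker θ H) : (Tw h.H₀_normal U X 1).relIndex U ∣ T.relIndex U := by
  obtain ⟨w, -, hw⟩ := h.T_le_some D hd hk hH
  rw [← h.tw_rel D w]
  exact ⟨_, by rw [mul_comm]; exact (Subgroup.relIndex_mul_relIndex T _ U hw inf_le_left).symm⟩

theorem _root_.Cfsg.Agent.H10.PrE2.CD.a_dvd_u : (Tw h.H₀_normal U X 1).relIndex U ∣ (CC h.H₀_normal U H).relIndex U := by
  have h1 : CC h.H₀_normal U H ≤ Tw h.H₀_normal U X 1 := by
    rintro t ⟨ht, ht2⟩
    exact ⟨ht, fun x hx => ht2 x (D.X_le 1 hx)⟩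
  exact ⟨_, by rw [mul_comm]; exact (Subgroup.relIndex_mul_relIndex _ _ U h1 inf_le_left).symm⟩

/-- no character has both `N w` and `N w'` in the kernel -/
theorem _root_.Cfsg.Agent.H10.PrE2.CD.not_both {θ : K → ℂ} (hθ : IsCharacter K θ) (hH : ¬ Ker θ H) {w w' : ↥W} (hne : w ≠ w') (h1 : Ker θ (N w)) :
    ¬ Ker θ (N w') := by
  intro h2
  apply hH
  intro k hk
  have hle : (N w ⊔ N w').subgroupOf K ≤ chKer θ hθ := by
    rw [Subgroup.subgroupOf_sup ((D.N_le w).trans h.H_le) ((D.N_le w').trans h.H_le)]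
    exact sup_le (fun x hx => h1 x hx) (fun x hx => h2 x hx)
  apply hle
  show (k : L) ∈ N w ⊔ N w'
  have h4 : H ≤ N w ⊔ N w' := by
    rw [← D.sup w]
    exact sup_le ((D.X_N w w' hne).trans le_sup_right) le_sup_left
  exact h4 hk

/-- the inertia group of a character with `N w` in the kernel is `K` -/
theorem _root_.Cfsg.Agent.H10.PrE2.CD.norm_one {θ : K → ℂ} (hθ : IsIrrCharacter K θ) (hH : ¬ Ker θ H) {w : ↥W} (h1 : Ker θ (N w)) :
    classInner (indFun K θ) (indFun K θ) = 1 := by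
  haveI := Fintype.ofFinite K
  rw [norm_ind h.K_normal hθ]
  have hin : inertia h.K_normal θ = K := by
    apply le_antisymm _ (le_inertia h.K_normal (IsIrr.isClass hθ))
    intro g hg
    rw [mem_inertia] at hg
    obtain ⟨k, hk, v, hv, rfl⟩ := h.decomp g
    by_cases hv1 : v = 1
    · rw [hv1, mul_one]; exact hk
    · exfalso
      have h2 : Ker (cj h.K_normal (k * v)⁻¹ θ) (N w) := by
        have : cj h.K_normal (k * v)⁻¹ θ = θ := by
          have h3 := congrArg (cj h.K_normal (k * v)⁻¹) hg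
          rw [cj_cj, mul_inv_cancel, cj_one] at h3
          exact h3.symm
        rw [this]; exact h1
      rw [ker_cj] at h2
      have h2' : Ker θ (cjs (k * v) (N w)) := by
        rw [← hg] at h1
        rwa [ker_cj] at h1
      have h3 : cjs (k * v) (N w) = N (⟨v, hv⟩ * w) := by
        rw [← cjs_cjs, show cjs v (N w) = N (⟨v, hv⟩ * w) from (D.conjN ⟨v, hv⟩ w).symm]
        have hinv := D.N_inv (⟨v, hv⟩ * w)
        apply le_antisymm
        · rintro _ ⟨x, hx, rfl⟩; exact hinv k hk x hx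
        · intro x hx
          rw [mem_cjs]
          have := hinv k⁻¹ (K.inv_mem hk) x hx
          rwa [inv_inv] at this
      rw [h3] at h2'
      refine h.not_both D (IsIrr.isCharacter hθ) hH (w := w) (w' := ⟨v, hv⟩ * w) ?_ h1 h2'
      intro he
      apply hv1
      have h5 : (1 : ↥W) * w = ⟨v, hv⟩ * w := by rw [one_mul]; exact he
      have h6 := mul_right_cancel h5
      exact (congrArg Subtype.val h6).symm
  rw [hin, div_self (cardH_ne_zero K)]

/-- two of the `Tw`: existence of a character with stabilizer `Tw w ⊓ Tw w'` -/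
theorem _root_.Cfsg.Agent.H10.PrE2.CD.exists_pair {w w' : ↥W} (hne : w ≠ w') :
    ∃ θ : K → ℂ, IsIrrCharacter K θ ∧ Ker θ (H₀ ⊔ ⁅U, U⁆) ∧ ¬ Ker θ H ∧ (∀ v, ¬ Ker θ (N v)) ∧
      θ 1 = ((Tw h.H₀_normal U X w ⊓ Tw h.H₀_normal U X w').relIndex U : ℂ) := by
  classical
  set V := N w ⊓ N w' with hV
  have hVinv : Inv K V := (D.N_inv w).inf (D.N_inv w')
  have hV0 : H₀ ≤ V := le_inf (D.N_lb w) (D.N_lb w')
  have hVH : V ≤ H := inf_le_left.trans (D.N_le w)
  have hsup : N w ⊔ N w' = H := by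
    apply le_antisymm (sup_le (D.N_le w) (D.N_le w'))
    rw [← D.sup w]
    exact sup_le ((D.X_N w w' hne).trans le_sup_right) le_sup_left
  have hVidx : V.relIndex H = p * p := by
    have h1 : V.relIndex (N w) = p := by
      rw [hV, Subgroup.inf_relIndex_left]
      have h2 := Cfsg.Agent.H2.Card.relIndex_sup_of_le_normalizer (((D.N_le w).trans h.H_le).trans (D.N_inv w').le_normalizer)
      rw [hsup, D.N_idx] at h2
      exact h2.symm
    rw [← Subgroup.relIndex_mul_relIndex V (N w) H inf_le_left (D.N_le w), h1, D.N_idx]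
  -- a character with V U' but neither N w nor N w' in the kernel
  obtain ⟨θ, hθ1, hθ2, hθ3⟩ : ∃ θ : IrrCharacter K, Ker (θ : K → ℂ) (V ⊔ ⁅U, U⁆) ∧ ¬ Ker (θ : K → ℂ) (N w) ∧ ¬ Ker (θ : K → ℂ) (N w') := by
    by_contra hcon
    push Not at hcon
    have hsub : IS K (fun θ => Ker θ (V ⊔ ⁅U, U⁆)) ⊆ IS K (fun θ => Ker θ (N w ⊔ ⁅U, U⁆)) ∪ IS K (fun θ => Ker θ (N w' ⊔ ⁅U, U⁆)) := by
      intro θ hθ
      rw [mem_IS] at hθ
      have hkc : IsCharacter K (θ : K → ℂ) := IsIrr.isCharacter θ.2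
      have hup : ∀ v : ↥W, Ker (θ : K → ℂ) (N v) → Ker (θ : K → ℂ) (N v ⊔ ⁅U, U⁆) := by
        intro v hv k hk
        have hle : (N v ⊔ ⁅U, U⁆).subgroupOf K ≤ chKer (θ : K → ℂ) hkc := by
          rw [Subgroup.subgroupOf_sup ((D.N_le v).trans h.H_le) (h.U'U.trans h.U_le)]
          exact sup_le (fun x hx => hv x hx) (fun x hx => hθ x ((le_sup_right : ⁅U, U⁆ ≤ V ⊔ ⁅U, U⁆) hx))
        exact hle hk
      rw [Finset.mem_union, mem_IS, mem_IS]
      by_cases h5 : Ker (θ : K → ℂ) (N w)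
      · exact Or.inl (hup w h5)
      · exact Or.inr (hup w' (hcon θ hθ h5))
    have h1 := Finset.sum_le_sum_of_subset_of_nonneg (f := fun θ : IrrCharacter K => ((θ : K → ℂ) 1).re ^ 2) hsub (fun i _ _ => sq_nonneg _)
    have h2 : ∑ θ ∈ IS K (fun θ => Ker θ (N w ⊔ ⁅U, U⁆)) ∪ IS K (fun θ => Ker θ (N w' ⊔ ⁅U, U⁆)), ((θ : K → ℂ) 1).re ^ 2 ≤
        ∑ θ ∈ IS K (fun θ => Ker θ (N w ⊔ ⁅U, U⁆)), ((θ : K → ℂ) 1).re ^ 2 + ∑ θ ∈ IS K (fun θ => Ker θ (N w' ⊔ ⁅U, U⁆)), ((θ : K → ℂ) 1).re ^ 2 := by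
      rw [← Finset.sum_union_inter]
      exact le_add_of_nonneg_right (Finset.sum_nonneg fun i _ => sq_nonneg _)
    have h3 := h1.trans h2
    rw [sum_ker (h.inv_U' hVinv hV0 hVH), sum_ker (h.inv_U' (D.N_inv w) (D.N_lb w) (D.N_le w)),
      sum_ker (h.inv_U' (D.N_inv w') (D.N_lb w') (D.N_le w')), h.rel_U' hVinv hVH, h.rel_U' (D.N_inv w) (D.N_le w),
      h.rel_U' (D.N_inv w') (D.N_le w'), hVidx, D.N_idx, D.N_idx] at h3
    have h4 : p * p * (⁅U, U⁆ : Subgroup L).relIndex U ≤ p * (⁅U, U⁆ : Subgroup L).relIndex U + p * (⁅U, U⁆ : Subgroup L).relIndex U := by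
      exact_mod_cast h3
    have h5 := h.index_pos
    have h6 := h.p3
    nlinarith [Nat.mul_pos (by omega : 0 < p) h5]
  have hk0 : Ker (θ : K → ℂ) (H₀ ⊔ ⁅U, U⁆) := fun k hk => hθ1 k (sup_le_sup_right hV0 _ hk)
  have hkH : ¬ Ker (θ : K → ℂ) H := fun h1 => hθ2 fun k hk => h1 k (D.N_le w hk)
  have hkc : IsCharacter K (θ : K → ℂ) := IsIrr.isCharacter θ.2
  have hX : ∀ v v' : ↥W, v ≠ v' → (v = w ∨ v = w') → (v' = w ∨ v' = w') → ¬ Ker (θ : K → ℂ) (N v') → ¬ Ker (θ : K → ℂ) (X v) := by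
    intro v v' hvv hv hv' h1 h2
    apply h1
    -- N v' = X v ⊔ V
    have h3 : N v' ≤ X v ⊔ V := by
      apply D.Nspan v' _ (hV0.trans le_sup_right)
      intro w₁ hw₁
      by_cases h4 : w₁ = v
      · rw [h4]; exact le_sup_left
      · refine le_trans ?_ (le_sup_right : V ≤ _)
        refine le_inf (D.X_N _ _ ?_) (D.X_N _ _ ?_)
        · rcases hv with rfl | rfl
          · exact h4
          · rcases hv' with rfl | rfl
            · exact hw₁
            · exact absurd rfl hvv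
        · rcases hv with rfl | rfl
          · rcases hv' with rfl | rfl
            · exact absurd rfl hvv
            · exact hw₁
          · exact h4
    intro k hk
    have hle : (X v ⊔ V).subgroupOf K ≤ chKer (θ : K → ℂ) hkc := by
      rw [Subgroup.subgroupOf_sup ((D.X_le v).trans h.H_le) (hVH.trans h.H_le)]
      exact sup_le (fun x hx => h2 x hx) (fun x hx => hθ1 x ((le_sup_left : V ≤ _) hx))
    exact hle (h3 hk)
  have hXw := hX w w' hne (Or.inl rfl) (Or.inr rfl) hθ3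
  have hXw' := hX w' w hne.symm (Or.inr rfl) (Or.inl rfl) hθ2
  have hNall : ∀ v, ¬ Ker (θ : K → ℂ) (N v) := by
    intro v hv
    by_cases h1 : v = w
    · rw [h1] at hv; exact hθ2 hv
    · exact hXw fun k hk => hv k (D.X_N w v (Ne.symm h1) hk)
  obtain ⟨φ, T, hd⟩ := h.degS θ.2 hk0
  refine ⟨θ, θ.2, hk0, hkH, hNall, ?_⟩
  have hT : T = Tw h.H₀_normal U X w ⊓ Tw h.H₀_normal U X w' := by
    apply le_antisymm
    · refine le_inf (le_inf hd.T_le ?_) (le_inf hd.T_le ?_)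
      · exact h.T_le_cq hd hk0 (D.X_lb w) (D.X_le w) (D.X_inv w) (D.X_idx w) hXw
      · exact h.T_le_cq hd hk0 (D.X_lb w') (D.X_le w') (D.X_inv w') (D.X_idx w') hXw'
    · rintro t ⟨⟨ht, ht1⟩, ⟨-, ht2⟩⟩
      refine h.cq_le_T hd hk0 hVH hVinv (fun k hk => hθ1 k ((le_sup_left : V ≤ _) hk)) ht ?_
      intro x hx
      have aux : ∀ v : ↥W, t ∈ cq h.H₀_normal (X v) → ⁅t, x⁆ ∈ N v := by
        intro v hv
        have hx' : x ∈ X v ⊔ N v := by rw [D.sup v]; exact hx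
        obtain ⟨a, ha, b, hb, rfl⟩ := (Cfsg.Agent.H2.Card.mem_sup_iff (((D.X_le v).trans h.H_le).trans (D.N_inv v).le_normalizer)).1 hx'
        have e : ⁅t, a * b⁆ = ⁅t, a⁆ * (a * (t * b * t⁻¹ * b⁻¹) * a⁻¹) := by simp only [commutatorElement_def]; group
        rw [e]
        refine (N v).mul_mem (D.N_lb v (hv a ha)) (D.N_inv v a (h.H_le (D.X_le v ha)) _ ?_)
        exact (N v).mul_mem (D.N_inv v t (h.U_le ht) b hb) ((N v).inv_mem hb)
      exact ⟨aux w ht1, aux w' ht2⟩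
  rw [hd.deg, hT]

omit D in
/-- elements of `H T` have nontrivial fixed points on `H` -/
theorem _root_.Cfsg.Agent.H10.PrE2.CD.fixed {θ : K → ℂ} {φ : ↥H →* ℂˣ} {T : Subgroup L} (hd : DegS H U θ φ T) (hH : ¬ Ker θ H)
    {z : L} (hz : z ∈ H ⊔ T) : ∃ y ∈ H, y ≠ 1 ∧ z * y = y * z := by
  classical
  have hTK : H ⊔ T ≤ K := sup_le h.H_le (hd.T_le.trans h.U_le)
  let H' : Subgroup K := H.subgroupOf K
  haveI hH' : H'.Normal := by haveI := h.H_normal; exact inferInstanceAs (H.subgroupOf K).Normal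
  let e : H' ≃* H := Subgroup.subgroupOfEquivOfLe h.H_le
  have hcop : Nat.Coprime (Nat.card H') H'.index := by
    have h1 : Nat.card H' = Nat.card H := Nat.card_congr e.toEquiv
    have h2 : H'.index = Nat.card U := by
      have h3 := H'.card_mul_index
      have h4 := h.card_sup' (Inv.of_normal h.H_normal) le_rfl (le_refl U)
      rw [h.sup] at h4
      rw [h1, h4] at h3
      exact Nat.eq_of_mul_eq_mul_left Nat.card_pos h3
    rw [h1, h2]; exact h.cop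
  have hφne : φ ≠ 1 := by
    rintro rfl
    apply hH
    rw [hd.ker H (Inv.of_normal h.H_normal) le_rfl]
    intro n hn; rfl
  have hconj : ∀ y : H, φ ⟨z * y * z⁻¹, h.H_normal.conj_mem y y.2 z⟩ = φ y := by
    haveI := h.H_normal
    obtain ⟨a, ha, t, ht, rfl⟩ := (Cfsg.Agent.H2.Card.mem_sup_iff' (Subgroup.le_normalizer_of_normal)).1 hz
    intro y
    have h1 := (hd.mem_T t (hd.T_le ht) (fun y hy => h.H_normal.conj_mem y hy t)).1 ht y
    have e1 : (⟨a * t * y * (a * t)⁻¹, h.H_normal.conj_mem y y.2 (a * t)⟩ : H) =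
        ⟨a, ha⟩ * ⟨t * y * t⁻¹, h.H_normal.conj_mem y y.2 t⟩ * ⟨a, ha⟩⁻¹ := by
      apply Subtype.ext
      show a * t * y * (a * t)⁻¹ = a * (t * y * t⁻¹) * a⁻¹
      group
    rw [e1, map_mul, map_mul, map_inv, mul_comm (φ ⟨a, ha⟩), mul_inv_cancel_right, h1]
  obtain ⟨y, hy, hy1, hc⟩ := (Cfsg.Agent.S1536.result H' hcop ⟨z, hTK hz⟩).1
    ⟨fun x => (φ (e x) : ℂ), isIrr_of_hom_units (φ.comp e.toMonoidHom), (by
      intro h0
      apply hφne
      apply MonoidHom.ext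
      intro x
      have := congrFun h0 (e.symm x)
      simp only [MulEquiv.apply_symm_apply] at this
      exact Units.ext this), (by
      funext x
      exact congrArg Units.val (hconj (e x)))⟩
  refine ⟨y, hy, fun h0 => hy1 (Subtype.ext h0), congrArg Subtype.val hc⟩

end T

end Cfsg.Agent.H10.PrE7
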