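import Mathlib
import Cfsg.Agent.H10_PrE7
import Cfsg.Agent.S1502

set_option autoImplicit false
set_option linter.all false

/-! Peterfalvi (9.11): coherence of the set `S_H(H₀ U')`. -/

open scoped commutatorElement

namespace Cfsg.Agent.H10.PrE8

open Cfsg Cfsg.Agent.H3.CharBasic Cfsg.Agent.H3.CharIrr Cfsg.Agent.H3.CharComplete
  Cfsg.Agent.H3.CharMult Cfsg.Agent.H3.CharInd Cfsg.Agent.H3.CharInt Cfsg.Agent.H3.Clifford Cfsg.Agent.H3.CharQuot
  Cfsg.Agent.H10.OOClif Cfsg.Agent.H10.IndSet Cfsg.Agent.H10.IndSet2 Cfsg.Agent.H10.IndSet6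
  Cfsg.Agent.H10.Coh Cfsg.Agent.H10.Coh3 Cfsg.Agent.H10.Coh4 Cfsg.Agent.H10.PrD8 Cfsg.Agent.H10.PrD6 Cfsg.Agent.H10.PrD7
  Cfsg.Agent.H10.PrD4 Cfsg.Agent.H10.PrD2
  Cfsg.Agent.H10.PrE1 Cfsg.Agent.H10.PrE2 Cfsg.Agent.H10.PrE3 Cfsg.Agent.H10.PrE4 Cfsg.Agent.H10.PrE5 Cfsg.Agent.H10.PrE6
  Cfsg.Agent.H10.PrE7
open scoped ComplexConjugate

section Rho

variable {L : Type*} [Group L] [Fintype L] {K H H₀ U W : Subgroup L} {p q : ℕ} (h : CD K H H₀ U W p q)
include h

variable {X N : ↥W → Subgroup L} (D : Dec K H H₀ W p X N)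
include D

theorem HT_inv (w : ↥W) : Inv K (H ⊔ Tw h.H₀_normal U X w) := by
  have hle : ⁅U, U⁆ ≤ Tw h.H₀_normal U X w := by
    refine h.U'_le.trans ?_
    rintro t ⟨ht, ht2⟩
    exact ⟨ht, fun x hx => ht2 x (D.X_le w hx)⟩
  intro k hk n hn
  have hk' : k ∈ H ⊔ U := by rw [h.sup]; exact hk
  haveI := h.H_normal
  obtain ⟨a, ha, u, hu, rfl⟩ := (Cfsg.Agent.H2.Card.mem_sup_iff' (Subgroup.le_normalizer_of_normal)).1 hk'
  have key : H ⊔ Tw h.H₀_normal U X w ≤ (H ⊔ Tw h.H₀_normal U X w).comap (MulAut.conj (a * u)).toMonoidHom := by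
    refine sup_le ?_ ?_
    · intro x hx
      exact (le_sup_left : H ≤ _) (h.H_normal.conj_mem x hx _)
    · intro x hx
      show a * u * x * (a * u)⁻¹ ∈ H ⊔ Tw h.H₀_normal U X w
      have h1 : u * x * u⁻¹ * x⁻¹ ∈ Tw h.H₀_normal U X w := hle (Subgroup.commutator_mem_commutator hu hx.1)
      have h2 : u * x * u⁻¹ ∈ Tw h.H₀_normal U X w := by
        have := (Tw h.H₀_normal U X w).mul_mem h1 hx
        rwa [inv_mul_cancel_right] at this
      have e : a * u * x * (a * u)⁻¹ = a * ((u * x * u⁻¹) * a⁻¹ * (u * x * u⁻¹)⁻¹) * (u * x * u⁻¹) := by group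
      rw [e]
      exact Subgroup.mul_mem_sup (H.mul_mem ha (h.H_normal.conj_mem _ (H.inv_mem ha) _)) h2
  exact key hn

theorem HT_conj (v w : ↥W) : cjs (v : L) (H ⊔ Tw h.H₀_normal U X w) = H ⊔ Tw h.H₀_normal U X (v * w) := by
  rw [h.tw_conj D v w, cjs, Subgroup.map_sup]
  congr 1
  exact cjs_normal h.H_normal v

theorem card_HT (w : ↥W) : Nat.card ↥(H ⊔ Tw h.H₀_normal U X w) * (Tw h.H₀_normal U X 1).relIndex U = Nat.card K := by
  have h1 := h.card_sup' (Inv.of_normal h.H_normal) le_rfl (show Tw h.H₀_normal U X w ≤ U from inf_le_left)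
  have h3 := h.card_sup' (Inv.of_normal h.H_normal) le_rfl (le_refl U)
  rw [h.sup] at h3
  have h2 := Cfsg.Agent.H2.Card.card_mul_relIndex (show Tw h.H₀_normal U X w ≤ U from inf_le_left)
  rw [h1, h3, ← h2, h.tw_rel D w, mul_assoc]

/-- the permutation character on `K / H T` -/
theorem exists_rho (w₁ : ↥W) (hpair : ∀ w w' : ↥W, w ≠ w' → Tw h.H₀_normal U X w ≠ Tw h.H₀_normal U X w') :
    ∃ ρ : K → ℂ, IsCharacter K ρ ∧ Ker ρ H ∧ ρ 1 = ((Tw h.H₀_normal U X 1).relIndex U : ℂ) ∧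
      (∀ k : K, (k : L) ∉ H ⊔ Tw h.H₀_normal U X w₁ → ρ k = 0) ∧
      (classInner (indFun K ρ) (indFun K ρ)).re ≤
        (Tw h.H₀_normal U X 1).relIndex U + ((q : ℝ) - 1) * (((Tw h.H₀_normal U X 1).relIndex U : ℝ) / 3) := by
  classical
  haveI : Fintype K := Fintype.ofFinite K
  set a := (Tw h.H₀_normal U X 1).relIndex U with ha
  set Y := H ⊔ Tw h.H₀_normal U X w₁ with hY
  have hYK : Y ≤ K := sup_le h.H_le (inf_le_left.trans h.U_le)
  have hYinv : Inv K Y := HT_inv h D w₁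
  let Y' : Subgroup K := Y.subgroupOf K
  haveI hY'n : Y'.Normal := ⟨fun n hn g => hYinv g g.2 n hn⟩
  haveI : Fintype Y' := Fintype.ofFinite _
  have hcY : Nat.card Y' = Nat.card Y := Nat.card_congr (Subgroup.subgroupOfEquivOfLe hYK).toEquiv
  have hidx : Y'.index = a := by
    have h1 := Y'.card_mul_index
    have h2 := card_HT h D w₁
    rw [← hY, ← hcY, ← h1] at h2
    exact (Nat.eq_of_mul_eq_mul_left Nat.card_pos h2).symm
  let ρ : K → ℂ := indFun Y' (fun _ => 1)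
  have hρin : ∀ k : K, (k : L) ∈ Y → ρ k = a := by
    intro k hk
    have h1 := ind_res hY'n (fun _ => (1 : ℂ)) ⟨k, hk⟩
    show indFun Y' (fun _ => 1) k = a
    rw [show indFun Y' (fun _ => 1) k = indFun Y' (fun _ => 1) ((⟨k, hk⟩ : Y') : K) from rfl, h1]
    simp only [cj_apply, Finset.sum_const, Finset.card_univ, nsmul_eq_mul, mul_one]
    rw [← Nat.card_eq_fintype_card, ← Y'.card_mul_index, hidx]
    have := cardH_ne_zero Y'
    push_cast; field_simp
  have hρout : ∀ k : K, (k : L) ∉ Y → ρ k = 0 := fun k hk => ind_of_not_mem hY'n _ hk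
  refine ⟨ρ, IsChar.ind (IsIrr.isCharacter isIrr_one), ?_, ?_, hρout, ?_⟩
  · intro k hk
    rw [hρin k ((le_sup_left : H ≤ Y) hk), hρin 1 Y.one_mem]
  · exact hρin 1 Y.one_mem
  · have h1 := ci_ind_ind h.K_normal ρ ρ
    -- each term
    have hterm : ∀ x : L, classInner ρ (cj h.K_normal x ρ) =
        ((a : ℂ) ^ 2 * (Nat.card ↥(Y ⊓ cjs x⁻¹ Y) : ℂ)) / Nat.card K := by
      intro x
      rw [classInner]
      have h2 : ∀ k : K, ρ k * conj (cj h.K_normal x ρ k) = if (k : L) ∈ Y ⊓ cjs x⁻¹ Y then (a : ℂ) ^ 2 else 0 := by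
        intro k
        rw [cj_apply]
        have hm : (k : L) ∈ cjs x⁻¹ Y ↔ x * (k : L) * x⁻¹ ∈ Y := by rw [mem_cjs, inv_inv]
        by_cases hk : (k : L) ∈ Y
        · by_cases hk2 : x * (k : L) * x⁻¹ ∈ Y
          · rw [hρin k hk, hρin ⟨x * k * x⁻¹, _⟩ hk2, if_pos ⟨hk, hm.2 hk2⟩]; simp; ring
          · rw [hρout ⟨x * k * x⁻¹, _⟩ hk2, map_zero, mul_zero, if_neg (fun hc => hk2 (hm.1 hc.2))]
        · rw [hρout k hk, zero_mul, if_neg (fun hc => hk hc.1)]
      rw [Finset.sum_congr rfl fun k _ => h2 k, ← Finset.sum_filter, Finset.sum_const, nsmul_eq_mul]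
      have h3 : (Finset.univ.filter (fun k : K => (k : L) ∈ Y ⊓ cjs x⁻¹ Y)).card = Nat.card ↥(Y ⊓ cjs x⁻¹ Y) := by
        rw [← Nat.card_congr (Subgroup.subgroupOfEquivOfLe (inf_le_left.trans hYK : Y ⊓ cjs x⁻¹ Y ≤ K)).toEquiv,
          Nat.card_eq_fintype_card, Fintype.card_subtype]
        rfl
      rw [h3]
      have := cardH_ne_zero K
      field_simp
    have hKpos : (0 : ℝ) < Nat.card K := by exact_mod_cast Nat.card_pos
    have hcardY : (Nat.card Y : ℝ) * a = Nat.card K := by exact_mod_cast card_HT h D w₁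
    have hapos : (0 : ℝ) < a := by
      have : 0 < a := h.rel_pos inf_le_left
      exact_mod_cast this
    have hreal : ∀ x : L, (classInner ρ (cj h.K_normal x ρ)).re = ((a : ℝ) ^ 2 * (Nat.card ↥(Y ⊓ cjs x⁻¹ Y) : ℝ)) / Nat.card K := by
      intro x
      rw [hterm x]
      have : ((a : ℂ) ^ 2 * (Nat.card ↥(Y ⊓ cjs x⁻¹ Y) : ℂ)) / Nat.card K =
        ((((a : ℝ) ^ 2 * (Nat.card ↥(Y ⊓ cjs x⁻¹ Y) : ℝ)) / Nat.card K : ℝ) : ℂ) := by push_cast; rfl
      rw [this, Complex.ofReal_re]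
    have hb1 : ∀ x : L, (classInner ρ (cj h.K_normal x ρ)).re ≤ a := by
      intro x
      rw [hreal, div_le_iff₀ hKpos, ← hcardY]
      have h4 : (Nat.card ↥(Y ⊓ cjs x⁻¹ Y) : ℝ) ≤ Nat.card Y := by
        exact_mod_cast Subgroup.card_le_of_le inf_le_left
      nlinarith [sq_nonneg (a : ℝ), mul_le_mul_of_nonneg_left h4 (sq_nonneg (a : ℝ))]
    have hb2 : ∀ x : L, x ∉ K → (classInner ρ (cj h.K_normal x ρ)).re ≤ (a : ℝ) / 3 := by
      intro x hx
      rw [hreal, div_le_iff₀ hKpos, ← hcardY]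
      -- the conjugate is another H T
      obtain ⟨w', hw', hcj⟩ : ∃ w' : ↥W, w' ≠ w₁ ∧ cjs x⁻¹ Y = H ⊔ Tw h.H₀_normal U X w' := by
        obtain ⟨k, hk, v, hv, hkv⟩ := h.decomp x⁻¹
        refine ⟨⟨v, hv⟩ * w₁, ?_, ?_⟩
        · intro he
          apply hx
          have h5 : (⟨v, hv⟩ : ↥W) = 1 := mul_right_cancel (he.trans (one_mul w₁).symm)
          have h6 : v = 1 := congrArg Subtype.val h5
          rw [h6, mul_one] at hkv
          have h7 : x = k⁻¹ := by rw [← hkv, inv_inv]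
          rw [h7]; exact K.inv_mem hk
        · rw [hkv, ← cjs_cjs, hY, show cjs v (H ⊔ Tw h.H₀_normal U X w₁) = _ from HT_conj h D ⟨v, hv⟩ w₁]
          have hinv := HT_inv h D (⟨v, hv⟩ * w₁)
          apply le_antisymm
          · rintro _ ⟨y, hy, rfl⟩; exact hinv k hk y hy
          · intro y hy
            rw [mem_cjs]
            have := hinv k⁻¹ (K.inv_mem hk) y hy
            rwa [inv_inv] at this
      have hlt : Y ⊓ cjs x⁻¹ Y ≠ Y := by
        intro he
        have hle : Y ≤ H ⊔ Tw h.H₀_normal U X w' := by rw [← hcj]; exact inf_eq_left.1 he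
        have hT : Tw h.H₀_normal U X w₁ ≤ Tw h.H₀_normal U X w' := by
          intro t ht
          have h5 := hle ((le_sup_right : Tw h.H₀_normal U X w₁ ≤ Y) ht)
          haveI := h.H_normal
          obtain ⟨b, hb, s, hs, e⟩ := (Cfsg.Agent.H2.Card.mem_sup_iff' (Subgroup.le_normalizer_of_normal)).1 h5
          have hb' : b ∈ H ⊓ U := ⟨hb, by
            have : b = t * s⁻¹ := by rw [← e]; group
            rw [this]; exact U.mul_mem ht.1 (U.inv_mem hs.1)⟩
          rw [h.inf, Subgroup.mem_bot] at hb'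
          rw [hb', one_mul] at e
          rw [← e]; exact hs
        apply hpair w₁ w' hw'.symm
        apply Cfsg.Agent.H2.Card.eq_of_le_of_card_eq hT
        have c1 := Cfsg.Agent.H2.Card.card_mul_relIndex (show Tw h.H₀_normal U X w₁ ≤ U from inf_le_left)
        have c2 := Cfsg.Agent.H2.Card.card_mul_relIndex (show Tw h.H₀_normal U X w' ≤ U from inf_le_left)
        rw [h.tw_rel D] at c1 c2
        exact Nat.eq_of_mul_eq_mul_right (h.rel_pos inf_le_left) (c1.trans c2.symm)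
      have h3 : 3 * Nat.card ↥(Y ⊓ cjs x⁻¹ Y) ≤ Nat.card Y := by
        have c1 := Cfsg.Agent.H2.Card.card_mul_relIndex (inf_le_left : Y ⊓ cjs x⁻¹ Y ≤ Y)
        have c2 : Odd ((Y ⊓ cjs x⁻¹ Y).relIndex Y) := odd_relIndex h.odd
        have c3 : (Y ⊓ cjs x⁻¹ Y).relIndex Y ≠ 1 := by
          intro h5
          rw [Subgroup.relIndex_eq_one] at h5
          exact hlt (le_antisymm inf_le_left h5)
        have c4 : 3 ≤ (Y ⊓ cjs x⁻¹ Y).relIndex Y := by obtain ⟨j, hj⟩ := c2; omega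
        rw [← c1, mul_comm]
        exact Nat.mul_le_mul_left _ c4
      have h3' : 3 * (Nat.card ↥(Y ⊓ cjs x⁻¹ Y) : ℝ) ≤ Nat.card Y := by exact_mod_cast h3
      nlinarith [mul_le_mul_of_nonneg_left h3' (sq_nonneg (a : ℝ))]
    have hsum : (Nat.card K : ℝ) * (classInner (indFun K ρ) (indFun K ρ)).re = ∑ x : L, (classInner ρ (cj h.K_normal x ρ)).re := by
      have := congrArg Complex.re h1
      rw [Complex.re_sum] at this
      rw [← this, ← Complex.ofReal_natCast, Complex.re_ofReal_mul]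
    have hbound : ∑ x : L, (classInner ρ (cj h.K_normal x ρ)).re ≤ ∑ x : L, (if x ∈ K then (a : ℝ) else (a : ℝ) / 3) := by
      apply Finset.sum_le_sum
      intro x _
      split_ifs with hx
      · exact hb1 x
      · exact hb2 x hx
    have hcard : ∑ x : L, (if x ∈ K then (a : ℝ) else (a : ℝ) / 3) = Nat.card K * a + (Nat.card L - Nat.card K : ℝ) * (a / 3) := by
      have e : ∀ x : L, (if x ∈ K then (a : ℝ) else (a : ℝ) / 3) = (a / 3 : ℝ) + (if x ∈ K then (a - a / 3 : ℝ) else 0) := by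
        intro x; split_ifs <;> ring
      rw [Finset.sum_congr rfl fun x _ => e x, Finset.sum_add_distrib, Finset.sum_const, ← Finset.sum_filter, Finset.sum_const,
        Finset.card_univ, ← Nat.card_eq_fintype_card, nsmul_eq_mul, nsmul_eq_mul]
      have : (Finset.univ.filter (fun x : L => x ∈ K)).card = Nat.card K := by
        rw [Nat.card_eq_fintype_card, Fintype.card_subtype]
      rw [this]; ring
    have hL : (Nat.card L : ℝ) = q * Nat.card K := by
      have h5 : Nat.card L = Nat.card K * Nat.card W := by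
        have h6 := Cfsg.Agent.H2.Card.card_sup_mul_card_inf (H := W) (N := K) (by haveI := h.K_normal; exact Subgroup.le_normalizer_of_normal)
        have h7 : W ⊓ K = ⊥ := by
          rw [inf_comm]; exact h.KWi
        rw [h7, Subgroup.card_bot, mul_one, sup_comm, h.KW] at h6
        rw [mul_comm, ← h6]; simp
      rw [h5, h.cardW]; push_cast; ring
    have hfin : (Nat.card K : ℝ) * (classInner (indFun K ρ) (indFun K ρ)).re ≤ Nat.card K * (a + ((q : ℝ) - 1) * (a / 3)) := by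
      rw [hsum]
      refine hbound.trans (le_of_eq ?_)
      rw [hcard, hL]; ring
    exact le_of_mul_le_mul_left hfin hKpos

end Rho

end Cfsg.Agent.H10.PrE8
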