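import Mathlib
import Cfsg.Agent.H10_PrE8

set_option autoImplicit false
set_option linter.all false

/-! Peterfalvi (9.11): coherence of the set `S_H(H₀ U')`. -/

open scoped commutatorElement

namespace Cfsg.Agent.H10.PrE9

open Cfsg Cfsg.Agent.H3.CharBasic Cfsg.Agent.H3.CharIrr Cfsg.Agent.H3.CharComplete
  Cfsg.Agent.H3.CharMult Cfsg.Agent.H3.CharInd Cfsg.Agent.H3.CharInt Cfsg.Agent.H3.Clifford Cfsg.Agent.H3.CharQuot
  Cfsg.Agent.H10.OOClif Cfsg.Agent.H10.IndSet Cfsg.Agent.H10.IndSet2 Cfsg.Agent.H10.IndSet6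
  Cfsg.Agent.H10.Coh Cfsg.Agent.H10.Coh3 Cfsg.Agent.H10.Coh4 Cfsg.Agent.H10.PrD8 Cfsg.Agent.H10.PrD6 Cfsg.Agent.H10.PrD7
  Cfsg.Agent.H10.PrD4 Cfsg.Agent.H10.PrD2 Cfsg.Agent.H10.Dade
  Cfsg.Agent.H10.PrE1 Cfsg.Agent.H10.PrE2 Cfsg.Agent.H10.PrE3 Cfsg.Agent.H10.PrE4 Cfsg.Agent.H10.PrE5 Cfsg.Agent.H10.PrE6
  Cfsg.Agent.H10.PrE7 Cfsg.Agent.H10.PrE8
open scoped ComplexConjugate

section

variable {G : Type*} [Group G] [Fintype G] {L : Subgroup G} [Fintype L] {K H H₀ U : Subgroup L} {W₁ W₂ : Subgroup G} {A : Set G}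
  {R : G → Subgroup G} {p q : ℕ} (h : PD L K H W₁ W₂ A R) (c : CD K H H₀ U (W₁.subgroupOf L) p q)
include h c

theorem indD_mono {M M' : Subgroup L} (hM : M ≤ M') : indD K H M' ⊆ indD K H M := by
  rintro χ ⟨θ, h1, h2, h3, h4⟩
  exact ⟨θ, h1, h2, fun k hk => h3 k (hM hk), h4⟩

theorem idx_q : K.index = q := by
  rw [index_K h.toPT, ← c.cardW]
  exact (Nat.card_congr (Subgroup.subgroupOfEquivOfLe h.W₁_le).toEquiv).symm

/-- the total sum -/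
theorem sum_all : ∑ φ ∈ SI K (fun θ => Ker θ (H₀ ⊔ ⁅U, U⁆) ∧ ¬ Ker θ H), (φ 1).re ^ 2 / (classInner φ φ).re =
    q * (((p : ℝ) ^ q - 1) * ((⁅U, U⁆ : Subgroup L).relIndex U : ℝ)) := by
  rw [SI_sum c.K_normal, idx_q h c, c.sum_M (Inv.of_normal c.H₀_normal) le_rfl c.lt.le, c.index]
  · push_cast; ring
  · intro θ _ hθ g
    rw [ker_cj, ker_cj, cjs_normal c.M₀_normal, cjs_normal c.H_normal]
    exact hθ

theorem indD_finite (M : Subgroup L) : (indD K H M).Finite := by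
  rw [← coe_SI_indD]; exact Finset.finite_toSet _

theorem indD_nonempty : (indD K H (H₀ ⊔ ⁅U, U⁆)).Nonempty := by
  rw [← coe_SI_indD]
  by_contra hcon
  rw [Set.not_nonempty_iff_eq_empty, Finset.coe_eq_empty] at hcon
  have h1 := sum_all h c
  rw [hcon, Finset.sum_empty] at h1
  have h2 : (0 : ℝ) < q := by exact_mod_cast c.hq.pos
  have h3 : (1 : ℝ) < (p : ℝ) ^ q := one_lt_pow₀ (by exact_mod_cast c.hp.one_lt) c.hq.pos.ne'
  have h4 : (0 : ℝ) < ((⁅U, U⁆ : Subgroup L).relIndex U : ℝ) := by exact_mod_cast c.index_pos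
  have : 0 < q * (((p : ℝ) ^ q - 1) * ((⁅U, U⁆ : Subgroup L).relIndex U : ℝ)) := mul_pos h2 (mul_pos (by linarith) h4)
  linarith

theorem ind_deg {θ : K → ℂ} : indFun K θ 1 = (q : ℂ) * θ 1 := by
  rw [ind_one, idx_q h c]

theorem exists_system {M : Subgroup L} (hM : M ≤ H₀ ⊔ ⁅U, U⁆) :
    ∃ Rc : (L → ℂ) → Finset (G → ℂ), IsCoherenceSystem (indD K H M) (dadeIsometry (A0 L W₁ W₂ A) L R) Rc := by
  obtain ⟨μ, δ, hμ⟩ := exists_MU h.toPT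
  obtain ⟨η, hη⟩ := Cfsg.Agent.S1502.result W₁ W₂ h.self (odd_W h.toPT)
  obtain ⟨Rc, h1, -⟩ := system h hμ hη (S := indD K H M) (indD_mono h c bot_le) ((indD_nonempty h c).mono (indD_mono h c hM))
    (fun χ hχ => indD_conj h hχ)
  exact ⟨Rc, h1⟩

/-- uniform degree case -/
theorem coh_uniform {u : ℕ} (hu : ∀ θ : K → ℂ, IsIrrCharacter K θ → Ker θ (H₀ ⊔ ⁅U, U⁆) → ¬ Ker θ H → θ 1 = (u : ℂ)) :
    IsCoherent (indD K H (H₀ ⊔ ⁅U, U⁆)) {1}ᶜ (dadeIsometry (A0 L W₁ W₂ A) L R) := by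
  obtain ⟨Rc, hS⟩ := exists_system h c (M := H₀ ⊔ ⁅U, U⁆) le_rfl
  apply Cfsg.Agent.H10.Coh6.equal_deg hS
  have key : ∀ φ ∈ indD K H (H₀ ⊔ ⁅U, U⁆), φ 1 = (q : ℂ) * u := by
    rintro φ ⟨θ, h1, ⟨k, hk, hne⟩, h3, rfl⟩
    rw [ind_deg h c, hu θ h1 h3 (fun hc => hne (hc k hk))]
  intro φ hφ ψ hψ
  rw [key φ hφ, key ψ hψ]

omit h in
theorem T_eq_C {θ : K → ℂ} (hθ : IsIrrCharacter K θ) (hk : Ker θ (H₀ ⊔ ⁅U, U⁆)) (hH : ¬ Ker θ H)
    (hf : ∀ t ∈ U, t ∉ cq c.H₀_normal H → ∀ x ∈ H, ⁅t, x⁆ ∈ H₀ → x ∈ H₀) : θ 1 = ((CC c.H₀_normal U H).relIndex U : ℂ) := by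
  obtain ⟨φ, T, hd⟩ := c.degS hθ hk
  have hT : T = CC c.H₀_normal U H := by
    apply le_antisymm _ (c.C_le_T hd hk)
    intro t ht
    refine ⟨hd.T_le ht, ?_⟩
    by_contra hc
    exact hH (c.fpf_T hd hk ht (hf t (hd.T_le ht) hc))
  rw [hd.deg, hT]

theorem norm_ind_one_of {ρ : K → ℂ} (hρ : IsCharacter K ρ) (hρH : Ker ρ H) {θ : K → ℂ} (hθ : IsIrrCharacter K θ) (hH : ¬ Ker θ H) :
    classInner (indFun K ρ) (indFun K θ) = 0 := by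
  haveI := Fintype.ofFinite K
  have h1 := ci_ind_ind c.K_normal ρ θ
  rw [Finset.sum_eq_zero] at h1
  · exact (mul_eq_zero.1 h1).resolve_left (cardH_ne_zero K)
  · intro x _
    by_contra hne
    have hθ' : IsIrrCharacter K (cj c.K_normal x θ) := (cj_isIrr c.K_normal x).2 hθ
    apply hH
    have h2 : Ker (cj c.K_normal x θ) H := fun k hk => ker_const hρ hθ' hne (hρH k hk)
    rw [ker_cj, cjs_normal c.H_normal] at h2
    exact h2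

set_option maxHeartbeats 1000000 in
/-- **Peterfalvi (9.11)** -/
theorem coh911 : IsCoherent (indD K H (H₀ ⊔ ⁅U, U⁆)) {1}ᶜ (dadeIsometry (A0 L W₁ W₂ A) L R) := by
  classical
  haveI : Fintype K := Fintype.ofFinite K
  by_cases hf : ∀ t ∈ U, t ∉ cq c.H₀_normal H → ∀ x ∈ H, ⁅t, x⁆ ∈ H₀ → x ∈ H₀
  · exact coh_uniform h c (fun θ h1 h2 h3 => T_eq_C c h1 h2 h3 hf)
  push Not at hf
  obtain ⟨t, ht, htc, x₀, hx₀, hc0, hx₀'⟩ := hf
  obtain ⟨X, N, D⟩ := exists_dec c ht htc hx₀ hx₀' hc0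
  obtain ⟨Rc, hS⟩ := exists_system h c (M := H₀ ⊔ ⁅U, U⁆) le_rfl
  set S := indD K H (H₀ ⊔ ⁅U, U⁆) with hSdef
  set τ := dadeIsometry (A0 L W₁ W₂ A) L R with hτdef
  set a := (Tw c.H₀_normal U X 1).relIndex U with ha
  set u := (CC c.H₀_normal U H).relIndex U with hu
  set n := (⁅U, U⁆ : Subgroup L).relIndex U with hn
  obtain ⟨h2a, ha3⟩ := c.two_a D
  have hq0 := c.hq.pos
  have hn0 := c.index_pos
  have hun : u ≤ n := Nat.le_of_dvd hn0 c.u_dvd_n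
  have hu0 : 0 < u := c.rel_pos inf_le_left
  let P₂ : (K → ℂ) → Prop := fun θ => Ker θ (H₀ ⊔ ⁅U, U⁆) ∧ (∃ w, Ker θ (N w)) ∧ ¬ Ker θ H
  let SW : Finset (L → ℂ) := SI K P₂
  have hP₂cj : ∀ θ, IsIrrCharacter K θ → P₂ θ → ∀ g, P₂ (cj c.K_normal g θ) := by
    rintro θ _ ⟨h1, ⟨w, h2⟩, h3⟩ g
    refine ⟨by rw [ker_cj, cjs_normal c.M₀_normal]; exact h1, ?_, by rw [ker_cj, cjs_normal c.H_normal]; exact h3⟩
    obtain ⟨v, hv⟩ := c.cjs_N D g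
    refine ⟨v⁻¹ * w, ?_⟩
    rw [ker_cj, hv, mul_inv_cancel_left]; exact h2
  have hSWsum : ∑ φ ∈ SW, (φ 1).re ^ 2 / (classInner φ φ).re = (q : ℝ) ^ 2 * ((p - 1 : ℕ) : ℝ) * n := by
    rw [SI_sum c.K_normal hP₂cj, idx_q h c, c.sum_F D, Nat.cast_sub c.hp.one_lt.le]
    push_cast; ring
  have hSWS : (↑SW : Set (L → ℂ)) ⊆ S := by
    intro χ hχ
    obtain ⟨θ, h1, ⟨h2, h3, h4⟩, rfl⟩ := mem_SI.1 hχ
    rw [hSdef, ← coe_SI_indD]
    exact mem_SI.2 ⟨θ, h1, ⟨h2, h4⟩, rfl⟩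
  have hSWc : ∀ φ ∈ SW, conjFun φ ∈ SW := fun φ hφ => SI_conj (P := P₂) (fun θ _ hθ => by
    obtain ⟨h1, ⟨w, h2⟩, h3⟩ := hθ
    exact ⟨ker_conj.2 h1, ⟨w, ker_conj.2 h2⟩, fun h4 => h3 (ker_conj.1 h4)⟩) hφ
  have hp1 : (1 : ℝ) ≤ ((p - 1 : ℕ) : ℝ) := by
    have := c.p3
    exact_mod_cast (by omega : 1 ≤ p - 1)
  have hq' : (0 : ℝ) < q := by exact_mod_cast hq0
  have hn' : (0 : ℝ) < n := by exact_mod_cast hn0
  obtain ⟨χ₁, hχ₁⟩ : SW.Nonempty := by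
    rw [Finset.nonempty_iff_ne_empty]
    intro he
    rw [he, Finset.sum_empty] at hSWsum
    have : 0 < (q : ℝ) ^ 2 * ((p - 1 : ℕ) : ℝ) * n := by positivity
    linarith
  have hdegP₂ : ∀ θ, IsIrrCharacter K θ → P₂ θ → θ 1 = (a : ℂ) := by
    rintro θ h1 ⟨h2, ⟨w, h3⟩, h4⟩
    obtain ⟨φ, T, hd⟩ := c.degS h1 h2
    rw [hd.deg, c.T_eq D hd h2 h4 h3, c.tw_rel D w]
  have hd1 : ∀ χ ∈ SW, χ 1 = ((q * a : ℕ) : ℂ) := by
    intro χ hχ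
    obtain ⟨θ, h1, h2, rfl⟩ := mem_SI.1 hχ
    rw [ind_deg h c, hdegP₂ θ h1 h2]; push_cast; rfl
  have hmemS : ∀ χ ∈ S, ∃ θ, IsIrrCharacter K θ ∧ Ker θ (H₀ ⊔ ⁅U, U⁆) ∧ ¬ Ker θ H ∧ χ = indFun K θ := by
    intro χ hχ
    rw [hSdef, ← coe_SI_indD] at hχ
    obtain ⟨θ, h1, ⟨h2, h3⟩, h4⟩ := mem_SI.1 hχ
    exact ⟨θ, h1, h2, h3, h4⟩
  have hdS : ∀ χ ∈ S, ∃ k : ℕ, χ 1 = ((q * k : ℕ) : ℂ) ∧ a ∣ k ∧ k ≤ u := by
    intro χ hχ
    obtain ⟨θ, h1, h2, h3, rfl⟩ := hmemS χ hχ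
    obtain ⟨φ, T, hd⟩ := c.degS h1 h2
    refine ⟨T.relIndex U, ?_, c.a_dvd_deg D hd h2 h3, Nat.le_of_dvd hu0 (c.deg_dvd_u hd h2)⟩
    rw [ind_deg h c, hd.deg]; push_cast; rfl
  rcases step1 hS (indD_finite h c _) SW hSWS hSWc hχ₁ (by omega) hq0 hn0 hd1 hdS hun h2a hSWsum with h1 | ⟨hun', h2a', hrest⟩
  · exact h1
  -- exceptional case
  replace hun' : u = n := hun'
  by_cases hau : a = u
  · apply Cfsg.Agent.H10.Coh6.equal_deg hS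
    have key : ∀ φ ∈ S, φ 1 = ((q * u : ℕ) : ℂ) := by
      intro φ hφ
      by_cases hφW : φ ∈ SW
      · rw [hd1 φ hφW, hau]
      · exact hrest φ hφ hφW
    intro φ hφ ψ hψ
    rw [key φ hφ, key ψ hψ]
  have hpair : ∀ w w' : ↥(W₁.subgroupOf L), w ≠ w' → (Tw c.H₀_normal U X w ⊓ Tw c.H₀_normal U X w').relIndex U = u := by
    intro w w' hne
    obtain ⟨θ, h1, h2, h3, h4, h5⟩ := c.exists_pair D hne
    have hχS : indFun K θ ∈ S := by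
      rw [hSdef, ← coe_SI_indD]
      exact mem_SI.2 ⟨θ, h1, ⟨h2, h3⟩, rfl⟩
    have hχW : indFun K θ ∉ SW := by
      intro hc
      obtain ⟨θ', g1, ⟨g2, ⟨v, g3⟩, g4⟩, g5⟩ := mem_SI.1 hc
      obtain ⟨g, hg⟩ := (mem_orb c.K_normal _ _).1 ((ind_eq_iff c.K_normal g1 h1).1 g5)
      obtain ⟨v', hv'⟩ := c.cjs_N D g
      have : Ker (cj c.K_normal g θ') (N (v'⁻¹ * v)) := by
        rw [ker_cj, hv', mul_inv_cancel_left]; exact g3
      rw [hg] at this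
      exact h4 _ this
    have h6 := hrest _ hχS hχW
    rw [ind_deg h c, h5] at h6
    have h7 : q * (Tw c.H₀_normal U X w ⊓ Tw c.H₀_normal U X w').relIndex U = q * u := by exact_mod_cast h6
    exact Nat.eq_of_mul_eq_mul_left hq0 h7
  have hTne : ∀ w w' : ↥(W₁.subgroupOf L), w ≠ w' → Tw c.H₀_normal U X w ≠ Tw c.H₀_normal U X w' := by
    intro w w' hne he
    have h1 := hpair w w' hne
    rw [← he, inf_idem, c.tw_rel D w] at h1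
    exact hau h1
  obtain ⟨w₁, w₂, hw12⟩ : ∃ w w' : ↥(W₁.subgroupOf L), w ≠ w' := by
    haveI : Nontrivial ↥(W₁.subgroupOf L) := by
      rw [← Finite.one_lt_card_iff_nontrivial, c.cardW]; exact c.hq.one_lt
    exact exists_pair_ne _
  have hua : u ≤ a ^ 2 := by
    rw [← hpair w₁ w₂ hw12, pow_two]
    refine (Subgroup.relIndex_inf_le).trans ?_
    rw [c.tw_rel D w₁, c.tw_rel D w₂]
  obtain ⟨m, hm⟩ := c.a_dvd_u D
  rw [← ha, ← hu] at hm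
  have hm2 : 2 ≤ m := by
    rcases Nat.lt_or_ge m 2 with h1 | h1
    · exfalso
      interval_cases m
      · omega
      · apply hau; omega
    · exact h1
  have hirr : ∀ χ ∈ SW, classInner χ χ = 1 := by
    intro χ hχ
    obtain ⟨θ, h1, ⟨h2, ⟨w, h3⟩, h4⟩, rfl⟩ := mem_SI.1 hχ
    exact c.norm_one D h1 h4 h3
  have hare : ∀ χ ∈ SW, (χ 1).re ^ 2 / (classInner χ χ).re = ((q : ℝ) * a) ^ 2 := by
    intro χ hχ
    rw [hirr χ hχ, hd1 χ hχ, Complex.natCast_re, Complex.one_re, div_one]; push_cast; rfl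
  have ha' : (0 : ℝ) < a := by exact_mod_cast (by omega : 0 < a)
  have hcard : SW.card = 2 * m := by
    have h1 := hSWsum
    rw [Finset.sum_congr rfl hare, Finset.sum_const, nsmul_eq_mul, ← h2a', ← hun', hm] at h1
    have h2 : ((q : ℝ) * a) ^ 2 * (SW.card : ℝ) = ((q : ℝ) * a) ^ 2 * (2 * m) := by
      push_cast at h1
      linear_combination h1
    have h3 := mul_left_cancel₀ (by positivity) h2
    exact_mod_cast h3
  let S₃ : Finset (L → ℂ) := (SI K (fun θ => Ker θ (H₀ ⊔ ⁅U, U⁆) ∧ ¬ Ker θ H)) \ SW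
  have hmem3 : ∀ χ, χ ∈ S₃ ↔ χ ∈ S ∧ χ ∉ SW := by
    intro χ
    rw [Finset.mem_sdiff, hSdef, ← coe_SI_indD, Finset.mem_coe]
  have hSWsub : SW ⊆ SI K (fun θ => Ker θ (H₀ ⊔ ⁅U, U⁆) ∧ ¬ Ker θ H) := by
    intro χ hχ
    have := hSWS hχ
    rw [hSdef, ← coe_SI_indD] at this
    exact this
  have hsum3 : ∑ μ ∈ S₃, 1 / (classInner μ μ).re = ((p : ℝ) ^ q - 1 - q * (p - 1)) / (q * n) := by
    have h1 := Finset.sum_sdiff (f := fun φ : L → ℂ => (φ 1).re ^ 2 / (classInner φ φ).re) hSWsub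
    rw [hSWsum, sum_all h c] at h1
    have h2 : ∑ φ ∈ S₃, (φ 1).re ^ 2 / (classInner φ φ).re = ((q : ℝ) * n) ^ 2 * ∑ μ ∈ S₃, 1 / (classInner μ μ).re := by
      rw [Finset.mul_sum]
      refine Finset.sum_congr rfl fun φ hφ => ?_
      obtain ⟨h3, h4⟩ := (hmem3 φ).1 hφ
      rw [hrest φ h3 h4, hun', Complex.natCast_re]; push_cast; ring
    rw [show (SI K (fun θ => Ker θ (H₀ ⊔ ⁅U, U⁆) ∧ ¬ Ker θ H)) \ SW = S₃ from rfl, h2, Nat.cast_sub c.hp.one_lt.le] at h1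
    have h3 : ((q : ℝ) * n) * (((q : ℝ) * n) * ∑ μ ∈ S₃, 1 / (classInner μ μ).re) = ((q : ℝ) * n) * ((p : ℝ) ^ q - 1 - q * (p - 1)) := by
      push_cast at h1
      linear_combination h1
    have h4 := mul_left_cancel₀ (by positivity) h3
    rw [eq_div_iff (by positivity), mul_comm]; exact h4
  -- numerical inequality
  have hnum : (1 : ℝ) + a + ((q : ℝ) - 1) * (a / 3) < ∑ μ ∈ S₃, 1 / (classInner μ μ).re := by
    rw [hsum3, lt_div_iff₀ (by positivity)]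
    have h1 := arith ha3 c.q3
    have hpa : p = 2 * a + 1 := by have := c.p3; omega
    have h2 : (3 * q * a ^ 2 + q * (q + 2) * a ^ 3 + 3 * (1 + 2 * a * q) : ℝ) < 3 * (2 * a + 1) ^ q := by exact_mod_cast h1
    have h3 : (n : ℝ) ≤ (a : ℝ) ^ 2 := by rw [← hun']; exact_mod_cast hua
    have h4 : (p : ℝ) = 2 * a + 1 := by rw [hpa]; push_cast; ring
    have hq3 : (3 : ℝ) ≤ q := by exact_mod_cast c.q3
    rw [h4]
    have h5 : (1 + a + ((q : ℝ) - 1) * (a / 3)) * (q * n) ≤ (1 + a + ((q : ℝ) - 1) * (a / 3)) * (q * a ^ 2) := by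
      apply mul_le_mul_of_nonneg_left _ (by nlinarith)
      exact mul_le_mul_of_nonneg_left h3 hq'.le
    have h6 : (1 + a + ((q : ℝ) - 1) * (a / 3)) * (q * a ^ 2) = (3 * q * a ^ 2 + q * (q + 2) * a ^ 3) / 3 := by ring
    linarith
  obtain ⟨θ₁, g1, ⟨g2, ⟨v₁, g3⟩, g4⟩, g5⟩ := mem_SI.1 hχ₁
  obtain ⟨φ₁, T₁, hd₁⟩ := c.degS g1 g2
  have hT₁ := c.T_eq D hd₁ g2 g4 g3
  obtain ⟨ρ, r1, r2, r3, r4, r5⟩ := exists_rho c D v₁ hTne
  -- the function α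
  let α : L → ℂ := indFun K (ρ - θ₁)
  have hαe : α = indFun K ρ - χ₁ := by rw [g5]; exact ind_sub K ρ θ₁
  have hαgen : IsGeneralizedCharacter L α := by
    rw [hαe]
    exact IsGen.sub (IsGen.of_char (IsChar.ind r1)) (IsGen.of_char (by rw [g5]; exact IsChar.ind (IsIrr.isCharacter g1)))
  have hα1 : α 1 = 0 := by
    show indFun K (ρ - θ₁) 1 = 0
    rw [ind_one, Pi.sub_apply, r3, hdegP₂ θ₁ g1 ⟨g2, ⟨v₁, g3⟩, g4⟩, sub_self, mul_zero]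
  have hαA : ∀ x : L, (x : G) ∉ A → α x = 0 := by
    intro x hxA
    by_cases hx1 : x = 1
    · rw [hx1]; exact hα1
    show indFun K (ρ - θ₁) x = 0
    rw [indFun, Finset.sum_eq_zero, mul_zero]
    intro y _
    by_cases hy : y⁻¹ * x * y ∈ K
    · rw [ext_mem K _ hy]
      have hzA : ((y⁻¹ * x * y : L) : G) ∉ A := by
        intro hc
        apply hxA
        have := h.A_conj y y.2 _ hc
        have e : (y : G) * ((y⁻¹ * x * y : L) : G) * (y : G)⁻¹ = (x : G) := by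
          push_cast; group
        rwa [e] at this
      have hz1 : y⁻¹ * x * y ≠ 1 := by
        intro hc
        apply hx1
        have : x = y * (y⁻¹ * x * y) * y⁻¹ := by group
        rw [this, hc]; group
      have hnot : (y⁻¹ * x * y) ∉ H ⊔ T₁ := by
        intro hc
        obtain ⟨b, hb, hb1, hbc⟩ := c.fixed hd₁ g4 hc
        exact hzA (h.A_cent _ hy hz1 ⟨b, hb, hb1, hbc⟩)
      rw [Pi.sub_apply, hd₁.van ⟨_, hy⟩ hnot, r4 ⟨_, hy⟩ (by rw [← hT₁]; exact hnot), sub_self]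
    · rw [ext_not_mem K _ hy]
  have hαA0 : ∀ x : L, (x : G) ∉ A0 L W₁ W₂ A → α x = 0 := fun x hx => hαA x fun hA => hx (Or.inl hA)
  have hτα : ∀ β ∈ zspanOn S {1}ᶜ, classInner (τ α) (τ β) = classInner α β := by
    intro β hβ
    exact isometry h.dade (IsGen.isClass hαgen) hαA0 (IsGen.isClass (zs_gen' h (indD_mono h c bot_le) hβ.1))
  have hρχ : ∀ χ ∈ S, classInner (indFun K ρ) χ = 0 := by
    intro χ hχ
    obtain ⟨θ, e1, e2, e3, rfl⟩ := hmemS χ hχ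
    exact norm_ind_one_of h c r1 r2 e1 e3
  have hαχ : ∀ χ ∈ S, χ ≠ χ₁ → classInner α χ = 0 := by
    intro χ hχ hne
    rw [hαe, ci_sub_left, hρχ χ hχ, hS.orthogonal χ₁ (hSWS hχ₁) χ hχ hne.symm, sub_zero]
  have hαχ₁ : classInner α χ₁ = -1 := by
    rw [hαe, ci_sub_left, hρχ χ₁ (hSWS hχ₁), hirr χ₁ hχ₁, zero_sub]
  have hd3 : ∀ μ ∈ S₃, μ 1 = (m : ℂ) * ((q * a : ℕ) : ℂ) := by
    intro μ hμ
    obtain ⟨h3, h4⟩ := (hmem3 μ).1 hμ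
    rw [hrest μ h3 h4, hm]; push_cast; ring
  refine exc hS hSWS (fun χ hχ => ((hmem3 χ).1 hχ).1) (fun φ hφ => ?_) hSWc (fun φ hφ => ?_) (fun φ hφ hc => ((hmem3 φ).1 hc).2 hφ)
    hd1 hm2 hd3 hirr hcard ?_ hχ₁ (f := τ α) ?_ ?_ ?_ ?_
  · by_cases h1 : φ ∈ SW
    · exact Or.inl h1
    · exact Or.inr ((hmem3 φ).2 ⟨hφ, h1⟩)
  · obtain ⟨h3, h4⟩ := (hmem3 φ).1 hφ
    refine (hmem3 _).2 ⟨hS.conj_mem φ h3, fun hc => h4 ?_⟩
    have := hSWc _ hc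
    rwa [conj_conj] at this
  · refine lt_of_le_of_lt ?_ hnum
    have h1 : (3 : ℝ) ≤ a := by exact_mod_cast ha3
    have hq3 : (3 : ℝ) ≤ q := by exact_mod_cast c.q3
    nlinarith
  · exact Cfsg.Agent.H10.Dade3.dade_gen h.dade hαgen hαA0
  · intro χ hχ hne
    have hz : χ - χ₁ ∈ zspanOn S {1}ᶜ := by
      rw [zo_iff]
      exact ⟨zs_diff (zs_sub (hSWS hχ)) (zs_sub (hSWS hχ₁)), by rw [Pi.sub_apply, hd1 χ hχ, hd1 χ₁ hχ₁, sub_self]⟩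
    rw [hτα _ hz, ci_sub_right, hαχ χ (hSWS hχ) hne, hαχ₁]; ring
  · intro μ hμ
    have h3 := (hmem3 μ).1 hμ
    have hz : μ - (m : ℤ) • χ₁ ∈ zspanOn S {1}ᶜ := by
      rw [zo_iff]
      refine ⟨zs_diff (zs_sub h3.1) (zs_zsmul _ (zs_sub (hSWS hχ₁))), ?_⟩
      rw [zc, Pi.sub_apply, Pi.smul_apply, smul_eq_mul, hd3 μ hμ, hd1 χ₁ hχ₁]; simp
    rw [hτα _ hz, zc, ci_sub_right, ci_smul_right, hαχ μ h3.1 (fun he => h3.2 (he ▸ hχ₁)), hαχ₁]; simp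
  · refine lt_of_le_of_lt ?_ hnum
    have h1 : classInner (τ α) (τ α) = classInner α α := isometry h.dade (IsGen.isClass hαgen) hαA0 (IsGen.isClass hαgen)
    have h2 : classInner α α = classInner (indFun K ρ) (indFun K ρ) + 1 := by
      conv_lhs => rw [hαe, ci_sub_left, ci_sub_right]
      rw [hρχ χ₁ (hSWS hχ₁), ← hαe]
      have h4 : classInner χ₁ α = -1 := by
        rw [← ci_conj_symm, hαχ₁]; simp
      rw [h4]; ring
    rw [h1, h2, Complex.add_re, Complex.one_re]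
    linarith

end

end Cfsg.Agent.H10.PrE9
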