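import Mathlib
import Cfsg.Prelude.Def_Blocks
import Cfsg.Agent.H10_BlockLoc

/-!
H10_RootLift: roots of unity of order prime to p modulo a maximal ideal of the algebraic integers.
-/

set_option autoImplicit false
set_option linter.style.haveILetI false
set_option linter.unusedSectionVars false

namespace Cfsg.Agent.H10.RootLift

open Cfsg Cfsg.Agent.H10.BlockLoc

variable {p : ℕ} {M : Ideal AlgInt}

theorem root_unique (hM : IsPModular p M) {x y : AlgInt} {m : ℕ} (hm : ¬ p ∣ m) (hx : x ^ m = 1) (hy : y ^ m = 1)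
    (hxy : x - y ∈ M) : x = y := by
  haveI := hM.2.1
  by_contra hne
  have hm0 : m ≠ 0 := by rintro rfl; exact hm (dvd_zero p)
  have h1 := (Commute.all x y).geom_sum₂_mul m
  rw [hx, hy, sub_self] at h1
  have h2 := (mul_eq_zero.1 h1).resolve_right (sub_ne_zero.2 hne)
  have hq : Ideal.Quotient.mk M x = Ideal.Quotient.mk M y := (Ideal.Quotient.eq).2 hxy
  have h3 := congrArg (Ideal.Quotient.mk M) h2
  rw [map_sum, map_zero] at h3
  have h4 : ∀ i ∈ Finset.range m, Ideal.Quotient.mk M (x ^ i * y ^ (m - 1 - i)) = Ideal.Quotient.mk M (y ^ (m - 1)) := by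
    intro i hi
    rw [map_mul, map_pow, hq, ← map_pow, ← map_mul, ← pow_add]
    congr 2
    have := Finset.mem_range.1 hi
    omega
  rw [Finset.sum_congr rfl h4, Finset.sum_const, Finset.card_range, ← map_nsmul, nsmul_eq_mul,
    Ideal.Quotient.eq_zero_iff_mem] at h3
  rcases (Ideal.IsPrime.mem_or_mem inferInstance h3) with h5 | h5
  · exact hm ((natCast_mem_iff hM m).1 h5)
  · have h6 : y * y ^ (m - 1) ∈ M := M.mul_mem_left _ h5
    rw [← pow_succ', Nat.sub_add_cancel (Nat.one_le_iff_ne_zero.2 hm0), hy] at h6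
    exact (Ideal.ne_top_iff_one M).1 (Ideal.IsPrime.ne_top inferInstance) h6

theorem finite_order (hM : IsPModular p M) {a : AlgInt} (ha : a ∉ M) : ∃ n : ℕ, ¬ p ∣ n ∧ a ^ n - 1 ∈ M := by
  haveI := hM.2.1
  haveI : Fact p.Prime := ⟨hM.1⟩
  haveI := charP_of hM
  letI := Ideal.Quotient.field M
  letI : Algebra (ZMod p) (AlgInt ⧸ M) := ZMod.algebra _ p
  haveI : IsScalarTower ℤ (ZMod p) (AlgInt ⧸ M) := ⟨fun n x y => by
    rw [zsmul_eq_mul, zsmul_eq_mul, Algebra.smul_def, Algebra.smul_def, map_mul, map_intCast, mul_assoc]⟩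
  set u : AlgInt ⧸ M := Ideal.Quotient.mk M a with hu
  have hu0 : u ≠ 0 := by rw [hu, Ne, Ideal.Quotient.eq_zero_iff_mem]; exact ha
  have hint : IsIntegral ℤ a := by
    obtain ⟨f, hf, hfa⟩ := a.2
    refine ⟨f, hf, ?_⟩
    apply Subtype.ext
    rw [← Polynomial.aeval_def] at hfa ⊢
    rw [ZeroMemClass.coe_zero, ← hfa]
    exact (Polynomial.aeval_algebraMap_apply ℂ a f).symm
  have hint2 : IsIntegral ℤ u := by
    have := hint.map (Ideal.Quotient.mkₐ ℤ M)
    exact this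
  have hint3 : IsIntegral (ZMod p) u := hint2.tower_top
  have hfg := hint3.fg_adjoin_singleton
  haveI : Module.Finite (ZMod p) (Subalgebra.toSubmodule (Algebra.adjoin (ZMod p) {u})) := Module.Finite.iff_fg.2 hfg
  haveI : Finite (Subalgebra.toSubmodule (Algebra.adjoin (ZMod p) {u})) := Module.finite_of_finite (ZMod p)
  obtain ⟨i, j, hij, h⟩ := Finite.exists_ne_map_eq_of_infinite
    (fun n : ℕ => (⟨u ^ n, Subalgebra.pow_mem _ (Algebra.self_mem_adjoin_singleton (ZMod p) u) n⟩ :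
      Subalgebra.toSubmodule (Algebra.adjoin (ZMod p) {u})))
  have h' : u ^ i = u ^ j := congrArg Subtype.val h
  obtain ⟨N, hN, hN1⟩ : ∃ N : ℕ, N ≠ 0 ∧ u ^ N = 1 := by
    rcases lt_or_gt_of_ne hij with hlt | hlt
    · refine ⟨j - i, by omega, ?_⟩
      have h1 : u ^ i * u ^ (j - i) = u ^ i * 1 := by rw [← pow_add, Nat.add_sub_cancel' hlt.le, mul_one, h']
      exact mul_left_cancel₀ (pow_ne_zero i hu0) h1
    · refine ⟨i - j, by omega, ?_⟩
      have h1 : u ^ j * u ^ (i - j) = u ^ j * 1 := by rw [← pow_add, Nat.add_sub_cancel' hlt.le, mul_one, h']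
      exact mul_left_cancel₀ (pow_ne_zero j hu0) h1
  obtain ⟨s, n, hpn, hNs⟩ := Nat.exists_eq_pow_mul_and_not_dvd hN p hM.1.ne_one
  refine ⟨n, hpn, ?_⟩
  rw [hNs] at hN1
  haveI : ExpChar (AlgInt ⧸ M) p := ExpChar.prime hM.1
  rw [ExpChar.pow_prime_pow_mul_eq_one_iff p s n u] at hN1
  rw [← Ideal.Quotient.eq_zero_iff_mem, map_sub, map_pow, map_one, ← hu, hN1, sub_self]

theorem root_exists (hM : IsPModular p M) {a : AlgInt} (ha : a ∉ M) :
    ∃ e : AlgInt, (∃ m : ℕ, ¬ p ∣ m ∧ e ^ m = 1) ∧ a - e ∈ M := by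
  haveI := hM.2.1
  obtain ⟨n, hn, h⟩ := finite_order hM ha
  have hn0 : n ≠ 0 := by rintro rfl; exact hn (dvd_zero p)
  haveI : NeZero n := ⟨hn0⟩
  have hζ := Complex.isPrimitiveRoot_exp n hn0
  have hint : IsIntegral ℤ (Complex.exp (2 * Real.pi * Complex.I / n)) := by
    refine ⟨Polynomial.X ^ n - 1, Polynomial.monic_X_pow_sub_C 1 hn0, ?_⟩
    simp [hζ.pow_eq_one]
  set z : AlgInt := ⟨_, hint⟩ with hz
  have hprim : IsPrimitiveRoot z n := IsPrimitiveRoot.coe_submonoidClass_iff.1 hζ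
  have h1 := Polynomial.X_pow_sub_one_eq_prod (Nat.pos_of_ne_zero hn0) hprim
  have h2 := congrArg (Polynomial.eval a) h1
  rw [Polynomial.eval_sub, Polynomial.eval_pow, Polynomial.eval_X, Polynomial.eval_one, Polynomial.eval_prod] at h2
  rw [h2] at h
  obtain ⟨e, he, heM⟩ := (Ideal.IsPrime.prod_mem_iff).1 h
  rw [Polynomial.eval_sub, Polynomial.eval_X, Polynomial.eval_C] at heM
  exact ⟨e, ⟨n, hn, (Polynomial.mem_nthRootsFinset (Nat.pos_of_ne_zero hn0) 1).1 he⟩, heM⟩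

end Cfsg.Agent.H10.RootLift
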