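import Cfsg.Agent.H11_Sub
import Cfsg.Agent.H4_ZCor
import Cfsg.Agent.H23_PQuat

set_option autoImplicit false
open Cfsg

/-!
Quasisimple groups of 2-rank 1.
-/

namespace Cfsg.Agent.H11.Cls

universe u

open Subgroup Cfsg.Agent.H11.Cores Cfsg.Agent.H11.Components Cfsg.Agent.H13.Syl
  Cfsg.Agent.H11.PComp Cfsg.Agent.H11.Bal Cfsg.Agent.H11.CompOf Cfsg.Agent.H11.Sub
open scoped commutatorElement

theorem sylow_bot_of_perfect {p : ℕ} [hp : Fact p.Prime] {K : Type u} [Group K] [Finite K]
    (hK : Group.IsPerfect K) (P : Sylow p K)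
    (hPc : normalizer (P : Set K) ≤ centralizer (P : Set K)) : (P : Subgroup K) = ⊥ := by
  have hcompl := MonoidHom.ker_transferSylow_isComplement' P hPc
  have hcomm : ∀ a b : (P : Subgroup K), a * b = b * a := by
    intro a b
    apply Subtype.ext
    exact (mem_centralizer_iff.mp (hPc (le_normalizer b.2)) a a.2)
  have htop : (MonoidHom.transferSylow P hPc).ker = ⊤ := by
    rw [eq_top_iff, ← hK.commutator_eq_top]
    rw [_root_.commutator_def, Subgroup.commutator_le]
    intro a _ b _
    rw [MonoidHom.mem_ker, map_commutatorElement]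
    rw [commutatorElement_eq_one_iff_mul_comm]
    exact hcomm _ _
  rw [htop, Subgroup.isComplement'_top_left] at hcompl
  exact hcompl

theorem qs_rank1 {L : Type u} [Group L] [Finite L] (hL : IsQuasisimple L)
    (heven : Even (Nat.card L)) (hrk : PRankLE 2 1 L) :
    (∃ z : L, orderOf z = 2 ∧ z ∈ center L) ∧
      ∀ S : Sylow 2 L, ∃ n : ℕ, Nonempty (↥(S : Subgroup L) ≃* QuaternionGroup (2 ^ (n + 1))) := by
  haveI : Fact (Nat.Prime 2) := ⟨Nat.prime_two⟩
  have hd : 2 ∣ Nat.card L := even_iff_two_dvd.mp heven
  constructor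
  · obtain ⟨S⟩ : Nonempty (Sylow 2 L) := inferInstance
    have hnk : ∀ E : Subgroup L, ¬ IsKleinFour E := by
      intro E hE
      have hsq : ∀ a : E, a * a = 1 := fun a => IsKleinFour.mul_self a
      have hcomm : ∀ a b : E, a * b = b * a := by
        intro a b
        have h1 : (a * b) * (a * b) = 1 := hsq _
        have h2 : a⁻¹ = a := inv_eq_of_mul_eq_one_left (hsq a)
        have h3 : b⁻¹ = b := inv_eq_of_mul_eq_one_left (hsq b)
        have h4 : a * b = (a * b)⁻¹ := (inv_eq_of_mul_eq_one_left h1).symm
        rw [mul_inv_rev, h2, h3] at h4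
        exact h4
      have h1 := hrk E ⟨⟨hcomm⟩⟩ (by
        intro a ha
        rw [pow_two]
        exact congrArg Subtype.val (hsq ⟨a, ha⟩))
      rw [hE.card_four] at h1
      omega
    obtain ⟨z, hzS, hz, hu⟩ := Cfsg.Agent.H4.ZCor.exists_unique_of_rank1 S hd hnk
    have hI := Cfsg.Agent.H4.ZCor.isolated_of_unique S hz hzS hu
    refine ⟨z, hz, ?_⟩
    have hO : oddCore L ≤ center L := by
      rcases IsQuasisimple.normal_eq_top_or_le_center hL (oddCore L) with h | h
      · exfalso
        have h1 : (Nat.card (pPrimeCore 2 L)).Coprime 2 := pPrimeCore_coprime 2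
        rw [show pPrimeCore 2 L = ⊤ from h, card_top] at h1
        exact (Nat.Prime.coprime_iff_not_dvd Nat.prime_two).mp h1.symm hd
      · exact h
    have hperf : ⁅(⊤ : Subgroup L), (⊤ : Subgroup L)⁆ = ⊤ := hL.1.commutator_eq_top
    have h2 : ⁅(⊤ : Subgroup L), zpowers z⁆ = ⊥ := by
      apply commutator_eq_bot_of_perfect hperf
      have h3 : ⁅(⊤ : Subgroup L), zpowers z⁆ ≤ center L := by
        rw [commutator_comm, commutator_le]
        rintro w hw g -
        have hz2 : w = 1 ∨ w = z := by
          classical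
          rw [mem_zpowers_iff_mem_range_orderOf, hz] at hw
          simp only [Finset.mem_image, Finset.mem_range] at hw
          obtain ⟨k, hk, rfl⟩ := hw
          interval_cases k
          · left; exact pow_zero z
          · right; exact pow_one z
        rcases hz2 with rfl | rfl
        · rw [commutatorElement_one_left]; exact one_mem _
        · exact hO (Cfsg.Agent.H4.ZStar.zstar hI g)
      rw [eq_bot_iff]
      refine (commutator_mono h3 le_rfl).trans ?_
      rw [commutator_comm, commutator_eq_bot_iff_le_centralizer.mpr]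
      intro x _
      rw [mem_centralizer_iff]
      intro c hc
      exact (mem_center_iff.mp hc x).symm
    rw [commutator_eq_bot_iff_le_centralizer] at h2
    rw [mem_center_iff]
    intro g
    exact (mem_centralizer_iff.mp (h2 (mem_top g)) z (mem_zpowers z)).symm
  · intro S
    have hnc : ¬ IsCyclic (S : Subgroup L) := by
      intro hc
      have h1 : (Nat.card L).minFac = 2 := (Nat.minFac_eq_two_iff _).mpr hd
      have h2 := sylow_bot_of_perfect hL.1 S (IsCyclic.normalizer_le_centralizer h1 hc)
      have h3 := S.dvd_card_of_dvd_card hd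
      rw [h2, card_bot] at h3
      omega
    rcases Cfsg.Agent.H23.PQuat.cyclic_or_quaternion_of_abelian S.isPGroup' (by
      intro A hA hAp
      have h1 := hrk (A.map (S : Subgroup L).subtype) ⟨⟨by
        rintro ⟨_, a, ha, rfl⟩ ⟨_, b, hb, rfl⟩
        apply Subtype.ext
        have := congrArg (fun z : A => ((z : (S : Subgroup L)) : L)) (hA.1.1 ⟨a, ha⟩ ⟨b, hb⟩)
        exact this⟩⟩ (by
        rintro _ ⟨a, ha, rfl⟩
        rw [← map_pow, hAp a ha, map_one])
      rw [Nat.card_congr (A.equivMapOfInjective _ (subtype_injective _)).symm.toEquiv] at h1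
      have h2 : 0 < Nat.card A := Nat.card_pos
      have h3 : Nat.card A = 1 ∨ Nat.card A = 2 := by omega
      rcases h3 with h3 | h3
      · haveI := (Nat.card_eq_one_iff_unique.mp h3).1
        exact isCyclic_of_subsingleton
      · exact isCyclic_of_prime_card h3) with h | ⟨-, n, hn⟩
    · exact absurd h hnc
    · rcases n with _ | n
      · exfalso
        apply hnc
        obtain ⟨e⟩ := hn
        haveI : IsCyclic (QuaternionGroup (2 ^ 0)) := QuaternionGroup.quaternionGroup_one_isCyclic
        exact isCyclic_of_surjective e.symm.toMonoidHom e.symm.surjective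
      · exact ⟨n, hn⟩

end Cfsg.Agent.H11.Cls
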