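import Cfsg.Agent.H11_Conn
import Cfsg.Agent.H12_SCN
import Cfsg.Agent.H23_PBasic
import Cfsg.Agent.H2_Rank2

set_option autoImplicit false
open Cfsg

/-!
A finite `p`-group of rank greater than `2` has a normal elementary abelian subgroup of order `p²`.
-/

namespace Cfsg.Agent.H11.Conn

universe u

open Subgroup Cfsg.Agent.H12.Narrow

variable {G : Type u} [Group G]

/-- A normal subgroup of order `p²` in a normal elementary abelian subgroup of order at least `p²`. -/
theorem exists_normal_sq [Finite G] {p : ℕ} [hp : Fact p.Prime] (hG : IsPGroup p G)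
    {O : Subgroup G} (hn : O.Normal) (hO : IsElementaryAbelian p O) (hc : p < Nat.card O) :
    ∃ U : Subgroup G, U ≤ O ∧ U.Normal ∧ IsElementaryAbelian p U ∧ Nat.card U = p ^ 2 := by
  have h0 : (⊥ : Subgroup G) < O := by
    rw [bot_lt_iff_ne_bot]
    rintro rfl
    rw [card_bot] at hc
    have := hp.out.one_lt
    omega
  obtain ⟨L, hLn, -, hLO, hL⟩ := H2.Rank2.exists_normal_above hG inferInstance hn h0
  rw [relIndex_bot_left] at hL
  have h1 : L < O := lt_of_le_of_ne hLO (by rintro rfl; omega)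
  obtain ⟨U, hUn, hLU, hUO, hU⟩ := H2.Rank2.exists_normal_above hG hLn hn h1
  refine ⟨U, hUO, hUn, ea_mono hO hUO, ?_⟩
  have h2 := relIndex_mul_relIndex _ _ _ (bot_le (a := L)) hLU
  rw [relIndex_bot_left, relIndex_bot_left, hL, hU] at h2
  rw [← h2, pow_two]

/-- The element computation in a `2`-group with cyclic self-centralizing normal subgroup. -/
theorem four_of_cyclic {A : Subgroup G} (hn : A.Normal) (hcA : centralizer (A : Set G) ≤ A)
    {b z c e : G} (hb : ∀ x ∈ A, x ∈ zpowers b) (hbA : b ∈ A)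
    (h2p : ∀ y ∈ A, y * y ≠ 1 → ∃ k : ℕ, y ^ k * y ^ k = z)
    (hz1 : z ≠ 1) (hzz : z * z = 1) (hzA : z ∈ A) (hu : ∀ x ∈ A, x * x = 1 → x = 1 ∨ x = z)
    (hzc : ∀ g : G, g * z = z * g)
    (hcAm : c ∈ A) (hcz : c * c = z) (hee : e * e = 1) (heA : e ∉ A) (hec : e * c = c * e) (g : G) :
    g * e * g⁻¹ = e ∨ g * e * g⁻¹ = z * e := by
  have hAc : ∀ x ∈ A, ∀ y ∈ A, x * y = y * x := by
    intro x hx y hy
    obtain ⟨i, rfl⟩ := hb x hx
    obtain ⟨j, rfl⟩ := hb y hy
    change b ^ i * b ^ j = b ^ j * b ^ i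
    rw [← zpow_add, ← zpow_add, add_comm]
  -- square roots of `z`
  have hroot : ∀ w ∈ A, w * w = z → w = c ∨ w = z * c := by
    intro w hw hwz
    have h1 : (w * c⁻¹) * (w * c⁻¹) = 1 := by
      have h2 := hAc _ (inv_mem hcAm) w hw
      calc (w * c⁻¹) * (w * c⁻¹) = w * (c⁻¹ * w) * c⁻¹ := by group
        _ = w * w * (c * c)⁻¹ := by rw [h2]; group
        _ = 1 := by rw [hwz, hcz]; group
    rcases hu _ (mul_mem hw (inv_mem hcAm)) h1 with h | h
    · left; exact mul_inv_eq_one.mp h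
    · right; exact mul_inv_eq_iff_eq_mul.mp h
  have hact : ∀ e' : G, e' * e' = 1 → e' * c = c * e' → ∀ x ∈ A, e' * x = x * e' ∨ e' * x = x * z * e' := by
    intro e' h1 h2 x hx
    have hei : e'⁻¹ = e' := inv_eq_of_mul_eq_one_left h1
    set y := e' * x * e'⁻¹ * x⁻¹ with hy
    have hyA : y ∈ A := mul_mem (hn.conj_mem x hx e') (inv_mem hx)
    have hinv : e' * y * e'⁻¹ = y⁻¹ := by
      rw [hy]
      calc e' * (e' * x * e'⁻¹ * x⁻¹) * e'⁻¹ = (e' * e') * x * e'⁻¹ * x⁻¹ * e'⁻¹ := by group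
        _ = x * e' * x⁻¹ * e'⁻¹ := by rw [h1, one_mul]; nth_rewrite 1 [hei]; rfl
        _ = _ := by group
    have hyy : y * y = 1 := by
      by_contra hcon
      obtain ⟨k, hk⟩ := h2p y hyA hcon
      have h3 : e' * y ^ k * e'⁻¹ = (y ^ k)⁻¹ := by
        rw [← conj_pow, hinv, inv_pow]
      have h4 : e' * y ^ k = y ^ k * e' := by
        rcases hroot _ (A.pow_mem hyA k) hk with h | h
        · rw [h, h2]
        · rw [h, ← mul_assoc, hzc, mul_assoc, h2, mul_assoc]
      rw [h4, mul_assoc, mul_inv_cancel, mul_one] at h3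
      apply hz1
      rw [← hk]
      nth_rewrite 1 [h3]
      group
    rcases hu y hyA hyy with h | h
    · left
      have h3 : e' * x * e'⁻¹ = x := mul_inv_eq_one.mp h
      exact mul_inv_eq_iff_eq_mul.mp h3
    · right
      have h3 : e' * x * e'⁻¹ = z * x := mul_inv_eq_iff_eq_mul.mp h
      have h4 := mul_inv_eq_iff_eq_mul.mp h3
      rw [h4, hzc x]
  have hb' : ∀ e' : G, e' * e' = 1 → e' ∉ A → e' * c = c * e' → e' * b = b * z * e' := by
    intro e' h1 h2 h3
    rcases hact e' h1 h3 b hbA with h | h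
    · exfalso
      apply h2
      apply hcA
      rw [mem_centralizer_iff]
      intro x hx
      obtain ⟨i, rfl⟩ := hb x hx
      exact ((show Commute e' b from h).zpow_right i).eq.symm
    · exact h
  have hgc : (g * e * g⁻¹) * c = c * (g * e * g⁻¹) := by
    have h1 : g⁻¹ * c * g ∈ A := by
      have := hn.conj_mem c hcAm g⁻¹
      rwa [inv_inv] at this
    have h2 : (g⁻¹ * c * g) * (g⁻¹ * c * g) = z := by
      calc (g⁻¹ * c * g) * (g⁻¹ * c * g) = g⁻¹ * (c * c) * g := by group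
        _ = g⁻¹ * (z * g) := by rw [hcz, mul_assoc]
        _ = z := by rw [← hzc g]; group
    have h3 : e * (g⁻¹ * c * g) = (g⁻¹ * c * g) * e := by
      rcases hroot _ h1 h2 with h | h
      · rw [h, hec]
      · rw [h, ← mul_assoc, hzc, mul_assoc, hec, mul_assoc]
    calc (g * e * g⁻¹) * c = g * (e * (g⁻¹ * c * g)) * g⁻¹ := by group
      _ = g * ((g⁻¹ * c * g) * e) * g⁻¹ := by rw [h3]
      _ = _ := by group
  have hgg : (g * e * g⁻¹) * (g * e * g⁻¹) = 1 := by
    calc (g * e * g⁻¹) * (g * e * g⁻¹) = g * (e * e) * g⁻¹ := by group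
      _ = 1 := by rw [hee]; group
  have hgA : g * e * g⁻¹ ∉ A := by
    intro h
    apply heA
    have h1 := hn.conj_mem _ h g⁻¹
    have h2 : g⁻¹ * (g * e * g⁻¹) * g⁻¹⁻¹ = e := by group
    rwa [h2] at h1
  generalize hge : g * e * g⁻¹ = f at *
  have hbe := hb' e hee heA hec
  have hbf := hb' f hgg hgA hgc
  set y := f * e with hy
  have hyA : y ∈ A := by
    apply hcA
    rw [mem_centralizer_iff]
    intro x hx
    obtain ⟨i, rfl⟩ := hb x hx
    refine ((show Commute y b from ?_).zpow_right i).eq.symm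
    change f * e * b = b * (f * e)
    calc f * e * b = f * (e * b) := by group
      _ = (f * b) * (z * e) := by rw [hbe]; group
      _ = b * (z * (f * z)) * e := by rw [hbf]; group
      _ = b * (z * z) * f * e := by rw [hzc f]; group
      _ = _ := by rw [hzz]; group
  have hfy : f = y * e := by rw [hy, mul_assoc, hee, mul_one]
  have hyye : y * (e * y) * e = 1 := by
    rw [← hgg, hfy]; group
  rcases hact e hee hec y hyA with h | h
  · have hyy : y * y = 1 := by
      rw [h] at hyye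
      calc y * y = y * (y * (e * e)) := by rw [hee, mul_one]
        _ = y * (y * e) * e := by group
        _ = 1 := hyye
    rcases hu y hyA hyy with h1 | h1
    · left; rw [hfy, h1, one_mul]
    · right; rw [hfy, h1]
  · exfalso
    have hyy : y * y * z = 1 := by
      rw [h] at hyye
      calc y * y * z = y * (y * z * (e * e)) := by rw [hee]; group
        _ = y * (y * z * e) * e := by group
        _ = 1 := hyye
    have hyy' : y * y = z := by
      calc y * y = y * y * z * z := by rw [mul_assoc (y * y), hzz, mul_one]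
        _ = z := by rw [hyy, one_mul]
    have h4 : e * y = y * e := by
      rcases hroot _ hyA hyy' with h | h
      · rw [h, hec]
      · rw [h, ← mul_assoc, hzc, mul_assoc, hec, mul_assoc]
    rw [h4] at hyye
    apply hz1
    rw [← hyy']
    calc y * y = y * (y * (e * e)) := by rw [hee, mul_one]
        _ = y * (y * e) * e := by group
        _ = 1 := hyye

/-- A finite `2`-group of rank greater than two has a normal four-subgroup. -/
theorem root_eq {A : Subgroup G} {c z w : G} (hAc : ∀ x ∈ A, ∀ y ∈ A, x * y = y * x)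
    (hu : ∀ x ∈ A, x * x = 1 → x = 1 ∨ x = z) (hc : c ∈ A) (hcz : c * c = z)
    (hw : w ∈ A) (hwz : w * w = z) : w = c ∨ w = z * c := by
  have h1 : (w * c⁻¹) * (w * c⁻¹) = 1 := by
    have h2 := hAc _ (inv_mem hc) w hw
    calc (w * c⁻¹) * (w * c⁻¹) = w * (c⁻¹ * w) * c⁻¹ := by group
      _ = w * w * (c * c)⁻¹ := by rw [h2]; group
      _ = 1 := by rw [hwz, hcz]; group
  rcases hu _ (mul_mem hw (inv_mem hc)) h1 with h | h
  · left; exact mul_inv_eq_one.mp h
  · right; exact mul_inv_eq_iff_eq_mul.mp h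

theorem exists_normal_four [Finite G] (hG : IsPGroup 2 G) (hr : ¬ PRankLE 2 2 G) :
    ∃ U : Subgroup G, U.Normal ∧ IsElementaryAbelian 2 U ∧ Nat.card U = 2 ^ 2 := by
  haveI : Fact (Nat.Prime 2) := ⟨Nat.prime_two⟩
  obtain ⟨A, -, hAn, hAcm, hCA⟩ := H12.SCN.exists_scn hG ⊥ inferInstance
  have hAc : ∀ x ∈ A, ∀ y ∈ A, x * y = y * x := fun x hx y hy =>
    congrArg Subtype.val (hAcm.1.comm ⟨x, hx⟩ ⟨y, hy⟩)
  by_cases hO : 2 < Nat.card (omegaOne 2 A)
  · obtain ⟨U, -, h1, h2, h3⟩ := exists_normal_sq hG (H2.Rank2.omegaOne_normal hAn)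
      (H2.ThompFact.omegaOne_ea hAc) hO
    exact ⟨U, h1, h2, h3⟩
  push Not at hO
  -- `A` is cyclic
  have hcyc : IsCyclic A := by
    refine H23.PBasic.cyclic_of_card_le (p := 2) _ A rfl (hG.to_subgroup A)
      (Or.inr fun a b => hAcm.1.comm a b) ?_
    refine le_trans ?_ hO
    refine Nat.card_le_card_of_injective
      (fun x : {x : A // x ^ 2 = 1} => (⟨((x : A) : G), (H2.ThompFact.mem_omegaOne_of_comm hAc).2
        ⟨x.1.2, congrArg Subtype.val x.2⟩⟩ : omegaOne 2 A)) ?_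
    intro x y hxy
    have h1 : ((x : A) : G) = ((y : A) : G) := congrArg (fun w : omegaOne 2 A => (w : G)) hxy
    exact Subtype.ext (Subtype.ext h1)
  obtain ⟨E, -, hE, hEc⟩ := H12.SCN.exists_of_not_pRankLE (A := (⊤ : Subgroup G)) (p := 2) (k := 2)
    (fun h => hr (H12.SCN.pRankLE_top_iff.mpr fun F hF => H12.SCN.pRankLE_iff.mp h F le_top hF))
  have hA2 : 2 < Nat.card A := by
    by_contra hcon
    push Not at hcon
    have h1 := H2.Rank2.le_center_of_card_le hG hAn hcon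
    have h2 : (⊤ : Subgroup G) ≤ centralizer (A : Set G) := by
      intro g _
      rw [mem_centralizer_iff]
      intro a ha
      exact (mem_center_iff.mp (h1 ha) g).symm
    rw [hCA] at h2
    have h3 := card_le_of_le (le_top.trans h2 : E ≤ A)
    omega
  obtain ⟨b, hb⟩ := hcyc.exists_generator
  have hb' : ∀ x ∈ A, x ∈ zpowers (b : G) := by
    intro x hx
    obtain ⟨i, hi⟩ := hb ⟨x, hx⟩
    exact ⟨i, by simpa using congrArg Subtype.val hi⟩
  have hbo : orderOf (b : G) = Nat.card A := by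
    rw [Subgroup.orderOf_coe]
    exact orderOf_eq_card_of_forall_mem_zpowers hb
  obtain ⟨n, hn⟩ := (hG.to_subgroup A).exists_card_eq
  have hn2 : 2 ≤ n := by
    by_contra hcon
    have h1 : 2 ^ n ≤ 2 ^ 1 := Nat.pow_le_pow_right (by norm_num) (show n ≤ 1 by omega)
    rw [← hn] at h1
    omega
  obtain ⟨m, rfl⟩ := Nat.exists_eq_add_of_le hn2
  have hbA : (b : G) ∈ A := b.2
  have hbo2 : orderOf (b : G) = 2 ^ (2 + m) := hbo.trans hn
  obtain ⟨c, hc⟩ : ∃ c : G, c = (b : G) ^ 2 ^ m := ⟨_, rfl⟩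
  obtain ⟨z, hz⟩ : ∃ z : G, z = (b : G) ^ 2 ^ (1 + m) := ⟨_, rfl⟩
  have hcA : c ∈ A := hc ▸ A.pow_mem hbA _
  have hzA : z ∈ A := hz ▸ A.pow_mem hbA _
  have hcz : c * c = z := by
    rw [hc, hz, ← pow_add, ← two_mul, ← pow_succ']
    congr 2; omega
  have hzz : z * z = 1 := by
    rw [hz, ← pow_add, ← two_mul, ← pow_succ', show 1 + m + 1 = 2 + m by omega, ← hbo2]
    exact pow_orderOf_eq_one _
  have hz1 : z ≠ 1 := by
    intro h
    rw [hz] at h
    have h1 := orderOf_dvd_of_pow_eq_one h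
    rw [hbo2, Nat.pow_dvd_pow_iff_le_right (by norm_num)] at h1
    omega
  have hz2 : z ^ 2 = 1 := by rw [pow_two]; exact hzz
  have hzo : orderOf z = 2 := orderOf_eq_prime hz2 hz1
  have hzO : zpowers z = omegaOne 2 A := by
    apply Subgroup.eq_of_le_of_card_ge
    · rw [zpowers_le, H2.ThompFact.mem_omegaOne_of_comm hAc]
      exact ⟨hzA, hz2⟩
    · rw [Nat.card_zpowers, hzo]; exact hO
  have hzp : ∀ x ∈ zpowers z, x = 1 ∨ x = z := by
    rintro x ⟨i, rfl⟩
    obtain ⟨j, hj | hj⟩ := Int.even_or_odd' i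
    · left; change z ^ i = 1
      rw [hj, zpow_mul]
      have : z ^ (2 : ℤ) = 1 := by exact_mod_cast hz2
      rw [this, one_zpow]
    · right; change z ^ i = z
      rw [hj, zpow_add, zpow_mul]
      have : z ^ (2 : ℤ) = 1 := by exact_mod_cast hz2
      rw [this, one_zpow, one_mul, zpow_one]
  have hu : ∀ x ∈ A, x * x = 1 → x = 1 ∨ x = z := by
    intro x hx hxx
    apply hzp
    rw [hzO, H2.ThompFact.mem_omegaOne_of_comm hAc]
    exact ⟨hx, by rw [pow_two]; exact hxx⟩
  have hzc : ∀ g : G, g * z = z * g := by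
    intro g
    have h1 : (g * z * g⁻¹) * (g * z * g⁻¹) = 1 := by
      calc (g * z * g⁻¹) * (g * z * g⁻¹) = g * (z * z) * g⁻¹ := by group
        _ = 1 := by rw [hzz]; group
    rcases hu _ (hAn.conj_mem z hzA g) h1 with h | h
    · exfalso
      apply hz1
      have h2 := mul_inv_eq_one.mp h
      exact mul_eq_left.mp h2
    · exact mul_inv_eq_iff_eq_mul.mp h
  have h2p : ∀ y ∈ A, y * y ≠ 1 → ∃ k : ℕ, y ^ k * y ^ k = z := by
    intro y hy hyy
    obtain ⟨k, hk⟩ := (IsPGroup.iff_orderOf.mp hG) y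
    have hk2 : 2 ≤ k := by
      by_contra hcon
      apply hyy
      rw [← pow_two, ← orderOf_dvd_iff_pow_eq_one, hk]
      exact pow_dvd_pow 2 (show k ≤ 1 by omega)
    obtain ⟨l, rfl⟩ := Nat.exists_eq_add_of_le hk2
    refine ⟨2 ^ l, ?_⟩
    have h1 : y ^ 2 ^ l * y ^ 2 ^ l = y ^ 2 ^ (1 + l) := by
      rw [← pow_add, ← two_mul, ← pow_succ']
      congr 2; omega
    rw [h1]
    have h2 : y ^ 2 ^ (1 + l) * y ^ 2 ^ (1 + l) = 1 := by
      rw [← pow_add, ← two_mul, ← pow_succ', show 1 + l + 1 = 2 + l by omega, ← hk]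
      exact pow_orderOf_eq_one _
    rcases hu _ (A.pow_mem hy _) h2 with h | h
    · exfalso
      have h3 := orderOf_dvd_of_pow_eq_one h
      rw [hk, Nat.pow_dvd_pow_iff_le_right (by norm_num)] at h3
      omega
    · exact h
  -- the conjugates of `c`
  have hcc : ∀ g : G, g * c = c * g ∨ g * c = z * c * g := by
    intro g
    have h1 : (g * c * g⁻¹) * (g * c * g⁻¹) = z := by
      calc (g * c * g⁻¹) * (g * c * g⁻¹) = g * (c * c) * g⁻¹ := by group
        _ = z := by rw [hcz, hzc g]; group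
    rcases root_eq hAc hu hcA hcz (hAn.conj_mem c hcA g) h1 with h | h
    · left; exact mul_inv_eq_iff_eq_mul.mp h
    · right; exact mul_inv_eq_iff_eq_mul.mp h
  obtain ⟨e₁, he₁E, he₁⟩ : ∃ e ∈ E, e ∉ A := by
    by_contra hcon
    push Not at hcon
    have h1 : E ≤ omegaOne 2 A := fun e he =>
      (H2.ThompFact.mem_omegaOne_of_comm hAc).2 ⟨hcon e he, hE.2 e he⟩
    have := card_le_of_le h1
    omega
  have he₁2 := hE.2 e₁ he₁E
  have hcomm : ∀ (x : G), ∀ a ∈ zpowers z, a * x = x * a := by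
    rintro x _ ⟨i, rfl⟩
    exact ((show Commute x z from hzc x).zpow_right i).eq.symm
  have hVc := card_adj (p := 2) he₁2 (hcomm e₁) (fun h => he₁ ((zpowers_le.mpr hzA) h))
  rw [Nat.card_zpowers, hzo] at hVc
  obtain ⟨e₂, he₂E, he₂⟩ : ∃ e ∈ E, e ∉ zpowers z ⊔ zpowers e₁ := by
    by_contra hcon
    push Not at hcon
    have := card_le_of_le (show E ≤ zpowers z ⊔ zpowers e₁ from hcon)
    omega
  have hAz : ∀ x ∈ A, x ∈ E → x ∈ zpowers z := by
    intro x hx hxE
    rw [hzO, H2.ThompFact.mem_omegaOne_of_comm hAc]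
    exact ⟨hx, hE.2 x hxE⟩
  have he₂A : e₂ ∉ A := fun h => he₂ (mem_sup_left (hAz _ h he₂E))
  have he₁₂ : e₁ * e₂ ∉ A := by
    intro h
    apply he₂
    have h1 := mem_sup_left (T := zpowers e₁) (hAz _ h (mul_mem he₁E he₂E))
    have h2 : e₂ = e₁⁻¹ * (e₁ * e₂) := by group
    rw [h2]
    exact mul_mem (inv_mem (mem_sup_right (mem_zpowers e₁))) h1
  obtain ⟨e, heE, heA, hec⟩ : ∃ e ∈ E, e ∉ A ∧ e * c = c * e := by
    rcases hcc e₁ with h1 | h1
    · exact ⟨e₁, he₁E, he₁, h1⟩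
    rcases hcc e₂ with h2 | h2
    · exact ⟨e₂, he₂E, he₂A, h2⟩
    refine ⟨e₁ * e₂, mul_mem he₁E he₂E, he₁₂, ?_⟩
    calc e₁ * e₂ * c = e₁ * (z * c * e₂) := by rw [mul_assoc, h2]
      _ = (e₁ * z) * c * e₂ := by group
      _ = z * (e₁ * c) * e₂ := by rw [hzc]; group
      _ = (z * z) * c * (e₁ * e₂) := by rw [h1]; group
      _ = _ := by rw [hzz, one_mul]
  have he2 := hE.2 e heE
  have hee : e * e = 1 := by rw [← pow_two]; exact he2
  have hmain := four_of_cyclic hAn hCA.le hb' hbA h2p hz1 hzz hzA hu hzc hcA hcz hee heA hec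
  have hU := ea_adj (p := 2) (ea_zpowers hz2) he2 (hcomm e)
  have hUc := card_adj (p := 2) he2 (hcomm e) (fun h => heA ((zpowers_le.mpr hzA) h))
  rw [Nat.card_zpowers, hzo] at hUc
  refine ⟨zpowers z ⊔ zpowers e, ⟨?_⟩, hU, by rw [hUc, pow_two]⟩
  intro x hx g
  rw [mem_sup_of_le_centralizer (by
    rw [zpowers_le, mem_centralizer_iff]; exact hcomm e)] at hx
  obtain ⟨_, ⟨i, rfl⟩, _, ⟨j, rfl⟩, rfl⟩ := hx
  change g * (z ^ i * e ^ j) * g⁻¹ ∈ _
  have h1 : g * (z ^ i * e ^ j) * g⁻¹ = z ^ i * (g * e * g⁻¹) ^ j := by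
    rw [conj_zpow]
    calc g * (z ^ i * e ^ j) * g⁻¹ = (g * z ^ i) * e ^ j * g⁻¹ := by group
      _ = (z ^ i * g) * e ^ j * g⁻¹ := by rw [((show Commute g z from hzc g).zpow_right i).eq]
      _ = _ := by group
  rw [h1]
  have hzm : z ∈ zpowers z ⊔ zpowers e := mem_sup_left (mem_zpowers z)
  have hem : e ∈ zpowers z ⊔ zpowers e := mem_sup_right (mem_zpowers e)
  apply mul_mem (zpow_mem hzm i)
  apply zpow_mem
  rcases hmain g with h | h
  · rw [h]; exact hem
  · rw [h]; exact mul_mem hzm hem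

end Cfsg.Agent.H11.Conn
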