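import Cfsg.Agent.H11_Conn2

set_option autoImplicit false
open Cfsg

/-!
Chains of elementary abelian `2`-subgroups of fixed order.
-/

namespace Cfsg.Agent.H11.Conn

universe u

open Subgroup Cfsg.Agent.H12.Narrow

variable {G : Type u} [Group G]

theorem comm_sup {A : Subgroup G} {x y : G} (hxA : ∀ a ∈ A, a * x = x * a)
    (hyA : ∀ a ∈ A, a * y = y * a) (hxy : x * y = y * x) : ∀ a ∈ A ⊔ zpowers x, a * y = y * a := by
  have h1 : A ⊔ zpowers x ≤ centralizer ({y} : Set G) := by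
    apply sup_le
    · intro a ha; exact mem_centralizer_singleton_iff.mpr (hyA a ha)
    · rw [zpowers_le]; exact mem_centralizer_singleton_iff.mpr hxy
  intro a ha
  exact mem_centralizer_singleton_iff.mp (h1 ha)

theorem comm_sup' {A B : Subgroup G} {x : G} (hA : ∀ a ∈ A, ∀ b ∈ B, a * b = b * a)
    (hx : ∀ b ∈ B, x * b = b * x) : ∀ a ∈ A ⊔ zpowers x, ∀ b ∈ B, a * b = b * a := by
  have h1 : A ⊔ zpowers x ≤ centralizer (B : Set G) := by
    apply sup_le
    · intro a ha; rw [mem_centralizer_iff]; exact fun b hb => (hA a ha b hb).symm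
    · rw [zpowers_le, mem_centralizer_iff]; exact fun b hb => (hx b hb).symm
  intro a ha b hb
  exact (mem_centralizer_iff.mp (h1 ha) b hb).symm

theorem inf_cent_pgroup (hG : IsPGroup 2 G) (E : Subgroup G) (x : G) :
    IsPGroup 2 (E ⊓ centralizer ({x} : Set G) : Subgroup G) := hG.to_subgroup _

/-- `C_E(x)` has order at least `2^(k+1)` when `|E| > 2^(2k)`. -/
theorem fix_two [Finite G] (hG : IsPGroup 2 G) {E : Subgroup G} (hE : IsElementaryAbelian 2 E) {x : G}
    (hx2 : x ^ 2 = 1) (hx : x ∈ normalizer (E : Set G)) {k : ℕ} (hk : (2 ^ k) ^ 2 < Nat.card E) :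
    2 ^ (k + 1) ≤ Nat.card (E ⊓ centralizer ({x} : Set G) : Subgroup G) := by
  haveI : Fact (Nat.Prime 2) := ⟨Nat.prime_two⟩
  refine card_of_lt (inf_cent_pgroup hG E x) ?_
  by_contra hcon
  push Not at hcon
  have h1 := card_fix_two hE hx2 hx
  have h2 := Nat.pow_le_pow_left hcon 2
  omega

/-- Two commuting involutions: `|C_E(x) ∩ C(y)| ≥ 4` if `|E| ≥ 32`. -/
theorem fix_two_two [Finite G] (hG : IsPGroup 2 G) {E : Subgroup G} [hn : E.Normal]
    (hE : IsElementaryAbelian 2 E) {x y : G}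
    (hx2 : x ^ 2 = 1) (hy2 : y ^ 2 = 1) (hxy : x * y = y * x) (hk : 32 ≤ Nat.card E) :
    4 ≤ Nat.card (E ⊓ centralizer ({x} : Set G) ⊓ centralizer ({y} : Set G) : Subgroup G) := by
  have h1 := fix_two hG hE hx2 (by rw [Subgroup.normalizer_eq_top E]; trivial) (k := 2) (by omega)
  refine fix_two hG (ea_mono hE inf_le_left) hy2 ?_ (k := 1) (by omega)
  rw [Subgroup.mem_normalizer_iff]
  have key : ∀ w : G, w * x = x * w → ∀ h ∈ E ⊓ centralizer ({x} : Set G), w * h * w⁻¹ ∈ E ⊓ centralizer ({x} : Set G) := by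
    intro w hw h hh
    refine ⟨hn.conj_mem h hh.1 w, ?_⟩
    refine mem_centralizer_singleton_iff.mpr ?_
    have h2 : Commute w x := hw
    have h3 : Commute h x := mem_centralizer_singleton_iff.mp hh.2
    exact ((h2.mul_left h3).mul_left h2.inv_left).eq
  intro h
  constructor
  · exact key y hxy.symm h
  · intro hh
    have h2 := key y⁻¹ ((show Commute y x from hxy.symm).inv_left.eq) _ hh
    have h3 : y⁻¹ * (y * h * y⁻¹) * y⁻¹⁻¹ = h := by group
    rwa [h3] at h2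

/-- chains of four-groups -/
theorem four_chain [Finite G] (hG : IsPGroup 2 G) {E : Subgroup G} [hn : E.Normal]
    (hE : IsElementaryAbelian 2 E) (hE8 : 8 ≤ Nat.card E) {F : Subgroup G} (hFE : F ≤ E)
    (hF : Nat.card F = 4) {A : Subgroup G} (hA : IsElementaryAbelian 2 A) (hAc : Nat.card A = 4) :
    Relation.ReflTransGen (fun A B : Subgroup G => (IsElementaryAbelian 2 A ∧ Nat.card A = 4) ∧
      (IsElementaryAbelian 2 B ∧ Nat.card B = 4) ∧ ∀ a ∈ A, ∀ b ∈ B, a * b = b * a) A F := by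
  haveI : Fact (Nat.Prime 2) := ⟨Nat.prime_two⟩
  have hFe := ea_mono hE hFE
  by_cases hAE : A ≤ E
  · exact Relation.ReflTransGen.single ⟨⟨hA, hAc⟩, ⟨hFe, hF⟩, fun a ha b hb =>
      ea_comm' hE (hAE ha) (hFE hb)⟩
  obtain ⟨x, hxA, hxE⟩ := Set.not_subset.mp hAE
  have hx2 := hA.2 x hxA
  have hEne : E ≠ ⊥ := by
    rintro rfl
    rw [card_bot] at hE8
    omega
  obtain ⟨z, hzE, hz, hzc⟩ := exists_central_mem hG E hEne
  have hz2 : z ^ 2 = 1 := by rw [← hz]; exact pow_orderOf_eq_one z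
  have hcx : ∀ a ∈ zpowers z, a * x = x * a := by
    rintro _ ⟨n, rfl⟩
    exact ((show Commute x z from hzc x).zpow_right n).eq.symm
  have hV1 := ea_adj (ea_zpowers (p := 2) hz2) hx2 hcx
  have hV1c := card_adj (p := 2) hx2 hcx (fun h => hxE ((zpowers_le.mpr hzE) h))
  rw [Nat.card_zpowers, hz] at hV1c
  have hfix := fix_two hG hE hx2 (by rw [Subgroup.normalizer_eq_top E]; trivial) (k := 1) (by omega)
  obtain ⟨V, hV, hVc⟩ := exists_sub (p := 2) (k := 2) (inf_cent_pgroup hG E x) hfix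
  have hVe : IsElementaryAbelian 2 V := ea_mono hE (hV.trans inf_le_left)
  have hxV : ∀ v ∈ V, x * v = v * x := fun v hv =>
    (mem_centralizer_singleton_iff.mp (hV hv).2).symm
  refine Relation.ReflTransGen.head (b := zpowers z ⊔ zpowers x)
    ⟨⟨hA, hAc⟩, ⟨hV1, hV1c⟩, ?_⟩ (Relation.ReflTransGen.head (b := V) ⟨⟨hV1, hV1c⟩, ⟨hVe, hVc⟩, ?_⟩
      (Relation.ReflTransGen.single ⟨⟨hVe, hVc⟩, ⟨hFe, hF⟩, ?_⟩))
  · intro a ha v hv
    refine (comm_sup' (B := A) ?_ ?_ v hv a ha).symm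
    · rintro _ ⟨n, rfl⟩ b hb
      exact ((show Commute b z from hzc b).zpow_right n).eq.symm
    · exact fun b hb => ea_comm' hA hxA hb
  · refine comm_sup' ?_ hxV
    rintro _ ⟨n, rfl⟩ b hb
    exact ((show Commute b z from hzc b).zpow_right n).eq.symm
  · exact fun a ha b hb => ea_comm' hE (hV ha).1 (hFE hb)

/-- chains of subgroups of order 8 -/
theorem eight_chain [Finite G] (hG : IsPGroup 2 G) {E : Subgroup G} [hn : E.Normal]
    (hE : IsElementaryAbelian 2 E) (hE32 : 32 ≤ Nat.card E) {F : Subgroup G} (hFE : F ≤ E)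
    (hF : Nat.card F = 8) {A : Subgroup G} (hA : IsElementaryAbelian 2 A) (hAc : Nat.card A = 8) :
    Relation.ReflTransGen (fun A B : Subgroup G => (IsElementaryAbelian 2 A ∧ Nat.card A = 8) ∧
      (IsElementaryAbelian 2 B ∧ Nat.card B = 8) ∧ ∀ a ∈ A, ∀ b ∈ B, a * b = b * a) A F := by
  haveI : Fact (Nat.Prime 2) := ⟨Nat.prime_two⟩
  have hFe := ea_mono hE hFE
  by_cases hAE : A ≤ E
  · exact Relation.ReflTransGen.single ⟨⟨hA, hAc⟩, ⟨hFe, hF⟩, fun a ha b hb =>
      ea_comm' hE (hAE ha) (hFE hb)⟩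
  obtain ⟨x, hxA, hxE⟩ := Set.not_subset.mp hAE
  have hx2 := hA.2 x hxA
  have hEne : E ≠ ⊥ := by
    rintro rfl
    rw [card_bot] at hE32
    omega
  obtain ⟨z, hzE, hz, hzc⟩ := exists_central_mem hG E hEne
  have hz2 : z ^ 2 = 1 := by rw [← hz]; exact pow_orderOf_eq_one z
  have hzc' : ∀ (y : G), ∀ a ∈ zpowers z, a * y = y * a := by
    rintro y _ ⟨n, rfl⟩
    exact ((show Commute y z from hzc y).zpow_right n).eq.symm
  have hV1 := ea_adj (ea_zpowers (p := 2) hz2) hx2 (hzc' x)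
  have hxz : x ∉ zpowers z := fun h => hxE ((zpowers_le.mpr hzE) h)
  have hV1c := card_adj (p := 2) hx2 (hzc' x) hxz
  rw [Nat.card_zpowers, hz] at hV1c
  obtain ⟨y, hyA, hyV⟩ : ∃ y ∈ A, y ∉ zpowers z ⊔ zpowers x := by
    by_contra hcon
    push Not at hcon
    have := card_le_of_le (show A ≤ zpowers z ⊔ zpowers x from hcon)
    omega
  have hy2 := hA.2 y hyA
  have hxy : x * y = y * x := ea_comm' hA hxA hyA
  have hcy := comm_sup (hzc' x) (hzc' y) hxy
  have hV2 := ea_adj hV1 hy2 hcy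
  have hV2c := card_adj (p := 2) hy2 hcy hyV
  rw [hV1c] at hV2c
  -- `W ≤ C_E(x, y)`
  obtain ⟨W, hW, hWc⟩ := exists_sub (p := 2) (k := 2) (hG.to_subgroup
    (E ⊓ centralizer ({x} : Set G) ⊓ centralizer ({y} : Set G))) (fix_two_two hG hE hx2 hy2 hxy hE32)
  have hWE : W ≤ E := hW.trans (inf_le_left.trans inf_le_left)
  have hWe := ea_mono hE hWE
  have hWx : ∀ w ∈ W, w * x = x * w := fun w hw => mem_centralizer_singleton_iff.mp (hW hw).1.2
  have hWy : ∀ w ∈ W, w * y = y * w := fun w hw => mem_centralizer_singleton_iff.mp (hW hw).2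
  have hV3 := ea_adj hWe hx2 hWx
  have hV3c := card_adj (p := 2) hx2 hWx (fun h => hxE (hWE h))
  rw [hWc] at hV3c
  -- `V ≤ C_E(x)`
  obtain ⟨V, hV, hVc⟩ := exists_sub (p := 2) (k := 3) (inf_cent_pgroup hG E x)
    (fix_two hG hE hx2 (by rw [Subgroup.normalizer_eq_top E]; trivial) (k := 2) (by omega))
  have hVe : IsElementaryAbelian 2 V := ea_mono hE (hV.trans inf_le_left)
  refine Relation.ReflTransGen.head (b := zpowers z ⊔ zpowers x ⊔ zpowers y)
    ⟨⟨hA, hAc⟩, ⟨hV2, hV2c⟩, ?_⟩ (Relation.ReflTransGen.head (b := W ⊔ zpowers x)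
      ⟨⟨hV2, hV2c⟩, ⟨hV3, hV3c⟩, ?_⟩ (Relation.ReflTransGen.head (b := V)
        ⟨⟨hV3, hV3c⟩, ⟨hVe, hVc⟩, ?_⟩
          (Relation.ReflTransGen.single ⟨⟨hVe, hVc⟩, ⟨hFe, hF⟩, ?_⟩)))
  · intro a ha v hv
    refine (comm_sup' (B := A) (comm_sup' ?_ ?_) ?_ v hv a ha).symm
    · exact fun c hc b hb => hzc' b c hc
    · exact fun b hb => ea_comm' hA hxA hb
    · exact fun b hb => ea_comm' hA hyA hb
  · intro a ha v hv
    refine (comm_sup' (B := zpowers z ⊔ zpowers x ⊔ zpowers y) ?_ ?_ v hv a ha).symm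
    · intro w hw
      intro b hb
      refine (comm_sup' (B := W) (comm_sup' ?_ ?_) ?_ b hb w hw).symm
      · exact fun c hc b hb => hzc' b c hc
      · exact fun b hb => (hWx b hb).symm
      · exact fun b hb => (hWy b hb).symm
    · intro b hb
      exact (comm_sup hcy (comm_sup (hzc' x) (hzc' x) rfl) hxy.symm b hb).symm
  · refine comm_sup' ?_ ?_
    · exact fun a ha b hb => ea_comm' hE (hWE ha) (hV hb).1
    · exact fun b hb => (mem_centralizer_singleton_iff.mp (hV hb).2).symm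
  · exact fun a ha b hb => ea_comm' hE (hV ha).1 (hFE hb)

theorem symm_chain {r : Subgroup G → Subgroup G → Prop} (hr : ∀ A B, r A B → r B A) {A B : Subgroup G}
    (h : Relation.ReflTransGen r A B) : Relation.ReflTransGen r B A := by
  induction h with
  | refl => exact .refl
  | tail _ h2 ih => exact Relation.ReflTransGen.head (hr _ _ h2) ih

end Cfsg.Agent.H11.Conn
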