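import Mathlib
import Cfsg.Prelude.Def_Local
import Cfsg.Agent.H11_Components
import Cfsg.Agent.H1_Basic

/-!
# The diagonal of `L` and its conjugate under an involution
-/

set_option autoImplicit false
set_option linter.all false

namespace Cfsg.Agent.H11.Diag

universe u v

open Subgroup Cfsg
open scoped commutatorElement

variable {G : Type u} [Group G]

theorem comm_of {x : G} {L : Subgroup G} (hcomm : ⁅L, L.map (MulAut.conj x).toMonoidHom⁆ = ⊥)
    {a b : G} (ha : a ∈ L) (hb : b ∈ L) : a * (x * b * x⁻¹) = (x * b * x⁻¹) * a := by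
  rw [Subgroup.commutator_eq_bot_iff_le_centralizer] at hcomm
  have h1 := hcomm ha
  rw [mem_centralizer_iff] at h1
  exact (h1 (x * b * x⁻¹) ⟨b, hb, rfl⟩).symm

/-- `l ↦ l · xlx⁻¹`. -/
def diagHom (x : G) (L : Subgroup G) (hcomm : ⁅L, L.map (MulAut.conj x).toMonoidHom⁆ = ⊥) :
    ↥L →* G where
  toFun l := (l : G) * (x * (l : G) * x⁻¹)
  map_one' := by simp
  map_mul' a b := by
    have h := comm_of hcomm b.2 a.2
    have h2 : (x * ((a * b : L) : G) * x⁻¹) = (x * (a : G) * x⁻¹) * (x * (b : G) * x⁻¹) := by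
      rw [Subgroup.coe_mul]; group
    rw [h2, Subgroup.coe_mul]
    calc (a : G) * b * ((x * (a : G) * x⁻¹) * (x * (b : G) * x⁻¹))
        = a * (b * (x * (a : G) * x⁻¹)) * (x * (b : G) * x⁻¹) := by group
      _ = a * ((x * (a : G) * x⁻¹) * b) * (x * (b : G) * x⁻¹) := by rw [h]
      _ = _ := by group

theorem diagHom_apply (x : G) (L : Subgroup G)
    (hcomm : ⁅L, L.map (MulAut.conj x).toMonoidHom⁆ = ⊥) (l : L) :
    diagHom x L hcomm l = (l : G) * (x * (l : G) * x⁻¹) := rfl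

theorem mem_inf_center {x : G} {L : Subgroup G} (hx : x * x = 1)
    (hcomm : ⁅L, L.map (MulAut.conj x).toMonoidHom⁆ = ⊥) {z : G} (h1 : z ∈ L)
    (h2 : z ∈ L.map (MulAut.conj x).toMonoidHom) :
    ∀ m ∈ L ⊔ L.map (MulAut.conj x).toMonoidHom, m * z = z * m := by
  have h3 : L ⊔ L.map (MulAut.conj x).toMonoidHom ≤ centralizer ({z} : Set G) := by
    rw [sup_le_iff]
    obtain ⟨w, hw, hwz⟩ := h2
    have hwz' : x * w * x⁻¹ = z := hwz
    constructor
    · intro l hl
      rw [mem_centralizer_singleton_iff, ← hwz']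
      exact comm_of hcomm hl hw
    · rintro _ ⟨l, hl, rfl⟩
      rw [mem_centralizer_singleton_iff]
      exact (comm_of hcomm h1 hl).symm
  intro m hm
  exact mem_centralizer_singleton_iff.mp (h3 hm)

theorem diagHom_ker {x : G} {L : Subgroup G}
    (hcomm : ⁅L, L.map (MulAut.conj x).toMonoidHom⁆ = ⊥) :
    (diagHom x L hcomm).ker ≤ center L := by
  intro l hl
  rw [MonoidHom.mem_ker, diagHom_apply] at hl
  have h1 : x * (l : G) * x⁻¹ = (l : G)⁻¹ := by rw [← mul_eq_one_iff_eq_inv'.mp hl]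
  rw [mem_center_iff]
  intro m
  apply Subtype.ext
  have h2 := comm_of hcomm m.2 l.2
  rw [h1] at h2
  show (m : G) * l = l * m
  have h3 : (l : G) * (m * (l : G)⁻¹) * l = l * ((l : G)⁻¹ * m) * l := by rw [h2]
  calc (m : G) * l = l * ((l : G)⁻¹ * m) * l := by group
    _ = l * (m * (l : G)⁻¹) * l := by rw [h3]
    _ = l * m := by group

theorem diagHom_range_le {x : G} {L : Subgroup G} (hx : x * x = 1)
    (hcomm : ⁅L, L.map (MulAut.conj x).toMonoidHom⁆ = ⊥) :
    (diagHom x L hcomm).range ≤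
      (L ⊔ L.map (MulAut.conj x).toMonoidHom) ⊓ centralizer ({x} : Set G) := by
  rintro _ ⟨l, rfl⟩
  rw [diagHom_apply]
  refine ⟨mul_mem (mem_sup_left l.2) (mem_sup_right ⟨l, l.2, rfl⟩), ?_⟩
  refine mem_centralizer_singleton_iff.mpr ?_
  have h := comm_of hcomm l.2 l.2
  have hx' : x⁻¹ = x := inv_eq_of_mul_eq_one_left hx
  calc (l : G) * (x * (l : G) * x⁻¹) * x = (x * (l : G) * x⁻¹) * l * x := by rw [h]
    _ = x * l * (x⁻¹ * l * x) := by group
    _ = x * l * (x * l * x⁻¹) := by rw [hx']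
    _ = x * (l * (x * l * x⁻¹)) := by group

theorem exists_factor {x : G} {L : Subgroup G} (hx : x * x = 1)
    (hcomm : ⁅L, L.map (MulAut.conj x).toMonoidHom⁆ = ⊥) {c : G}
    (hc : c ∈ (L ⊔ L.map (MulAut.conj x).toMonoidHom) ⊓ centralizer ({x} : Set G)) :
    ∃ (l : L) (z : G), (∀ m ∈ L ⊔ L.map (MulAut.conj x).toMonoidHom, m * z = z * m) ∧
      c = diagHom x L hcomm l * z := by
  have hx' : x⁻¹ = x := inv_eq_of_mul_eq_one_left hx
  have h1 : L.map (MulAut.conj x).toMonoidHom ≤ normalizer (L : Set G) := by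
    rw [Subgroup.commutator_comm, Subgroup.commutator_eq_bot_iff_le_centralizer] at hcomm
    exact hcomm.trans (centralizer_le_normalizer _)
  have hcM : c ∈ L ⊔ L.map (MulAut.conj x).toMonoidHom := hc.1
  have hcC : c * x = x * c := mem_centralizer_singleton_iff.mp hc.2
  rw [Cfsg.Agent.H1.Basic.mem_sup_iff_of_le_normalizer h1] at hcM
  obtain ⟨l, hl, _, ⟨m, hm, rfl⟩, rfl⟩ := hcM
  have e0 : l * (x * m * x⁻¹) * x = x * (l * (x * m * x⁻¹)) := hcC
  have e1 : l * (x * m * x⁻¹) = (x * l * x⁻¹) * m := by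
    have h2 : l * (x * m * x⁻¹) = x * (l * (x * m * x⁻¹)) * x⁻¹ := by rw [← e0]; group
    have h3 : x * (l * (x * m * x⁻¹)) * x⁻¹ = (x * l * x⁻¹) * ((x * x) * m * (x * x)⁻¹) := by group
    rw [h2, h3, hx]; group
  have e2 : m * (x * l * x⁻¹) = (x * l * x⁻¹) * m := comm_of hcomm hm hl
  have e3 : l⁻¹ * m = x * (m * l⁻¹) * x⁻¹ := by
    have h4 : m * (x * l * x⁻¹) = l * (x * m * x⁻¹) := by rw [e1, e2]
    calc l⁻¹ * m = l⁻¹ * (m * (x * l * x⁻¹)) * (x * l * x⁻¹)⁻¹ := by group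
      _ = l⁻¹ * (l * (x * m * x⁻¹)) * (x * l * x⁻¹)⁻¹ := by rw [h4]
      _ = x * (m * l⁻¹) * x⁻¹ := by group
  have hz1 : x * (l⁻¹ * m) * x⁻¹ ∈ L := by
    rw [e3]
    have : x * (x * (m * l⁻¹) * x⁻¹) * x⁻¹ = (x * x) * (m * l⁻¹) * (x * x)⁻¹ := by group
    rw [this, hx]
    simpa using mul_mem hm (inv_mem hl)
  have hz2 : x * (l⁻¹ * m) * x⁻¹ ∈ L.map (MulAut.conj x).toMonoidHom :=
    ⟨l⁻¹ * m, mul_mem (inv_mem hl) hm, rfl⟩
  refine ⟨⟨l, hl⟩, x * (l⁻¹ * m) * x⁻¹, mem_inf_center hx hcomm hz1 hz2, ?_⟩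
  rw [diagHom_apply]
  show l * (x * m * x⁻¹) = l * (x * l * x⁻¹) * (x * (l⁻¹ * m) * x⁻¹)
  group

theorem commutator_fixed {x : G} {L : Subgroup G} (hx : x * x = 1) (hperf : ⁅L, L⁆ = L)
    (hcomm : ⁅L, L.map (MulAut.conj x).toMonoidHom⁆ = ⊥) :
    ⁅(L ⊔ L.map (MulAut.conj x).toMonoidHom) ⊓ centralizer ({x} : Set G),
      (L ⊔ L.map (MulAut.conj x).toMonoidHom) ⊓ centralizer ({x} : Set G)⁆ =
      (diagHom x L hcomm).range := by
  have hr : ⁅(diagHom x L hcomm).range, (diagHom x L hcomm).range⁆ = (diagHom x L hcomm).range := by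
    rw [MonoidHom.range_eq_map, ← Subgroup.map_commutator]
    congr 1
    have := (Subgroup.isPerfect_iff (H := L)).mpr hperf
    exact this.commutator_eq_top
  apply le_antisymm
  · rw [Subgroup.commutator_le]
    intro c hc d hd
    obtain ⟨l, z, hz, rfl⟩ := exists_factor hx hcomm hc
    obtain ⟨m, w, hw, rfl⟩ := exists_factor hx hcomm hd
    have hl := (diagHom_range_le hx hcomm ⟨l, rfl⟩).1
    have hm := (diagHom_range_le hx hcomm ⟨m, rfl⟩).1
    have hwM : w ∈ L ⊔ L.map (MulAut.conj x).toMonoidHom := by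
      have h1 : diagHom x L hcomm m * w ∈ L ⊔ L.map (MulAut.conj x).toMonoidHom := hd.1
      exact (Subgroup.mul_mem_cancel_left _ hm).mp h1
    have hzM : z ∈ L ⊔ L.map (MulAut.conj x).toMonoidHom := by
      have h1 : diagHom x L hcomm l * z ∈ L ⊔ L.map (MulAut.conj x).toMonoidHom := hc.1
      exact (Subgroup.mul_mem_cancel_left _ hl).mp h1
    have h5 : ⁅diagHom x L hcomm l * z, diagHom x L hcomm m * w⁆ =
        ⁅diagHom x L hcomm l, diagHom x L hcomm m⁆ := by
      rw [commutatorElement_def, commutatorElement_def]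
      have a1 := hz _ hm
      have a2 := hw _ hl
      have a3 := hz _ hwM
      have a4 := hz _ hl
      have a5 := hw _ hm
      set A := diagHom x L hcomm l
      set B := diagHom x L hcomm m
      have c1 : Commute z B := a1.symm
      have c2 : Commute z w := a3.symm
      have c3 : Commute w A := a2.symm
      have c4 : Commute z A := a4.symm
      have c5 : Commute w B := a5.symm
      calc A * z * (B * w) * (A * z)⁻¹ * (B * w)⁻¹
          = A * (z * (B * w)) * z⁻¹ * A⁻¹ * w⁻¹ * B⁻¹ := by group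
        _ = A * ((B * w) * z) * z⁻¹ * A⁻¹ * w⁻¹ * B⁻¹ := by
            rw [(c1.mul_right c2).eq]
        _ = A * B * (w * A⁻¹) * w⁻¹ * B⁻¹ := by group
        _ = A * B * (A⁻¹ * w) * w⁻¹ * B⁻¹ := by rw [(c3.inv_right).eq]
        _ = A * B * A⁻¹ * B⁻¹ := by group
    rw [h5, ← map_commutatorElement]
    exact ⟨_, rfl⟩
  · conv_lhs => rw [← hr]
    exact Subgroup.commutator_mono (diagHom_range_le hx hcomm) (diagHom_range_le hx hcomm)

end Cfsg.Agent.H11.Diag
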