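import Cfsg.Agent.H6_TwPf2
import Cfsg.Agent.H11_F4S
import Cfsg.Agent.S1068
import Cfsg.Agent.S1110
import Cfsg.Agent.S1111

/-!
The normalizer of a Sylow 7-subgroup of `²F₄(q)`.
-/

set_option autoImplicit false
set_option linter.unusedSectionVars false
set_option maxRecDepth 100000

namespace Cfsg.Agent.H11.F4T

open Cfsg Cfsg.Lie Cfsg.Lie.ChevalleyDatum Cfsg.Agent.H6.Chev

section gen

variable {D : ChevalleyDatum} {m : Model D} {F : Type*} [Field F] {ι : Type}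

theorem conj_nf {h : GL D.Idx F} {χ : ℕ → F} {L : List ℕ}
    (hχ : ∀ r ∈ L, ∀ y, h * m.X r y * h⁻¹ = m.X r (χ r * y)) (t : ℕ → F) :
    h * m.nf L t * h⁻¹ = m.nf L (fun r => χ r * t r) := by
  induction L with
  | nil =>
    have : m.nf [] t = 1 := rfl
    have h2 : m.nf [] (fun r => χ r * t r) = 1 := rfl
    rw [this, h2, mul_one, mul_inv_cancel]
  | cons k L ih =>
    rw [Model.nf_cons, Model.nf_cons, ← ih (fun r hr => hχ r (List.mem_cons_of_mem _ hr)),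
      ← hχ k List.mem_cons_self]
    group

theorem nf_zero (L : List ℕ) : m.nf L (fun _ => (0 : F)) = 1 := by
  induction L with
  | nil => rfl
  | cons k L ih => rw [Model.nf_cons, ih, m.X_zero, mul_one]

/-- triviality of the centralizer in `U` of two torus elements -/
theorem cent_triv {h₁ h₂ : GL D.Idx F} {χ₁ χ₂ : ℕ → F}
    (hχ₁ : ∀ r ∈ List.range' m.N m.N, ∀ y, h₁ * m.X r y * h₁⁻¹ = m.X r (χ₁ r * y))
    (hχ₂ : ∀ r ∈ List.range' m.N m.N, ∀ y, h₂ * m.X r y * h₂⁻¹ = m.X r (χ₂ r * y))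
    (hne : ∀ r ∈ List.range' m.N m.N, χ₁ r ≠ 1 ∨ χ₂ r ≠ 1)
    {u : GL D.Idx F} (hu : u ∈ D.posUnipotent F) (hc₁ : h₁ * u = u * h₁) (hc₂ : h₂ * u = u * h₂) : u = 1 := by
  rw [m.pos_eq_UL] at hu
  have hG := m.good_pos
  obtain ⟨t, rfl⟩ := hG.exists_nf hu
  have e1 := conj_nf hχ₁ t
  have e2 := conj_nf hχ₂ t
  rw [hc₁, mul_inv_cancel_right] at e1
  rw [hc₂, mul_inv_cancel_right] at e2
  have f1 := hG.nf_inj e1
  have f2 := hG.nf_inj e2
  rw [← nf_zero (m := m) (F := F) (List.range' m.N m.N)]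
  apply m.nf_congr
  intro r hr
  rcases hne r hr with h | h
  · have := f1 r hr
    by_contra h0
    exact h (mul_right_cancel₀ h0 (by rw [one_mul]; exact this.symm))
  · have := f2 r hr
    by_contra h0
    exact h (mul_right_cancel₀ h0 (by rw [one_mul]; exact this.symm))

theorem norm_in_N {T : Tw m F ι} (P : TwG T) {Q : Subgroup (GL D.Idx F)} (hQ : Q ≤ D.diagonalSubgroup F)
    (hcent : ∀ u ∈ D.posUnipotent F, (∀ h ∈ Q, h * u = u * h) → u = 1) {g : GL D.Idx F}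
    (hg : g ∈ P.G1) (hn : ∀ h ∈ Q, g * h * g⁻¹ ∈ Q) (hn' : ∀ h ∈ Q, g⁻¹ * h * g ∈ Q) :
    g ∈ D.monomialSubgroup F := by
  obtain ⟨v, hv, hvG, n, hnN, hnG, w, hw, hact, u, hu, huG, rfl⟩ := P.bruhat hg
  have key : ∀ h₁ ∈ Q, h₁ * u = u * h₁ ∧ (v * n * u) * h₁ * (v * n * u)⁻¹ * v = v * ((v * n * u) * h₁ * (v * n * u)⁻¹) := by
    intro h₁ hh
    have h1 : h₁ ∈ D.diagonalSubgroup F := hQ hh
    have h2 := hQ (hn h₁ hh)
    obtain ⟨h₂, hc⟩ : ∃ h₂, v * n * u * h₁ * (v * n * u)⁻¹ = h₂ := ⟨_, rfl⟩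
    rw [hc] at h2 ⊢
    have h3 : n * h₁ * n⁻¹ ∈ D.diagonalSubgroup F :=
      (Subgroup.mem_normalizer_iff.1 (m.N_le_normalizer hnN) _).1 h1
    have hu' : h₁⁻¹ * u * h₁ ∈ m.Uw F w := by
      have := m.H_norm_Uw w (inv_mem h1) hu
      rwa [inv_inv] at this
    have hv' : h₂ * v * h₂⁻¹ ∈ D.posUnipotent F :=
      (Subgroup.mem_normalizer_iff.1 (m.H_le_normalizer_U h2) v).1 hv
    have h4 : (v * (n * h₁ * n⁻¹)) * n * (h₁⁻¹ * u * h₁) = ((h₂ * v * h₂⁻¹) * h₂) * n * u := by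
      have : v * n * u * h₁ = h₂ * (v * n * u) := by
        rw [← hc]; group
      calc (v * (n * h₁ * n⁻¹)) * n * (h₁⁻¹ * u * h₁) = v * n * u * h₁ := by group
        _ = _ := by rw [this]; group
    have h5 := m.bruhat_unique (mul_mem (Model.U_le_B hv) (Model.H_le_B h3))
      (mul_mem (Model.U_le_B hv') (Model.H_le_B h2)) hact hu' hu h4
    have h6 : (h₂ * v * h₂⁻¹)⁻¹ * v = h₂ * (n * h₁ * n⁻¹)⁻¹ := by
      rw [inv_mul_eq_iff_eq_mul, ← mul_assoc, ← h5.1]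
      group
    have h7 : (h₂ * v * h₂⁻¹)⁻¹ * v ∈ D.posUnipotent F ⊓ D.diagonalSubgroup F :=
      Subgroup.mem_inf.2 ⟨mul_mem (inv_mem hv') hv, by
        rw [h6]; exact mul_mem h2 (inv_mem h3)⟩
    rw [m.U_inf_H, Subgroup.mem_bot] at h7
    have h8 := inv_mul_eq_one.1 h7
    refine ⟨?_, ?_⟩
    · have h9 := h5.2
      rw [mul_assoc, inv_mul_eq_iff_eq_mul] at h9
      exact h9.symm
    · rw [mul_inv_eq_iff_eq_mul] at h8
      exact h8
  have hu1 : u = 1 := hcent u (m.Uw_le_U w hu) fun h hh => (key h hh).1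
  have hv1 : v = 1 := by
    apply hcent v hv
    intro h hh
    have h1 := (key _ (hn' h hh)).2
    have h2 : v * n * u * ((v * n * u)⁻¹ * h * (v * n * u)) * (v * n * u)⁻¹ = h := by group
    rw [h2] at h1
    exact h1
  rw [hu1, hv1, one_mul, mul_one]
  exact hnN

end gen

variable {K : Type*} [Field K]

def vv (r : ℕ) : List ℤ := [tabF4.c 0 r, tabF4.c 1 r, tabF4.c 2 r, tabF4.c 3 r]

theorem vv_ok (r : Fin 24) : (Nat.blt (r + 24) tabF4.n && allNat tabF4.l fun k => intEq (tabF4.c k (r + 24))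
    ((vv (r + 24)).getD k 0)) = true ∧
    ¬ ((7 : ℤ) ∣ 2 * (vv (r + 24)).getD 0 0 + (vv (r + 24)).getD 3 0 ∧
      (7 : ℤ) ∣ 2 * (vv (r + 24)).getD 1 0 + (vv (r + 24)).getD 2 0) := by
  revert r
  decide +kernel

section main

variable [Fintype K] {m : ℕ}

/-- torus elements -/
theorem torus_elts (hK : Fintype.card K = 2 ^ (2 * m + 1)) {ζ : Kˣ} (h7 : ζ ^ 7 = 1) (h1 : ζ ≠ 1) :
    ∃ h₁ h₂ : GL chevF4.Idx K, h₁ ∈ chevF4.diagonalSubgroup K ⊓ twistedF4 K (2 ^ m) ∧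
      h₂ ∈ chevF4.diagonalSubgroup K ⊓ twistedF4 K (2 ^ m) ∧ h₁ ^ 7 = 1 ∧ h₂ ^ 7 = 1 ∧
      ∀ u ∈ chevF4.posUnipotent K, h₁ * u = u * h₁ → h₂ * u = u * h₂ → u = 1 := by
  obtain ⟨hch, φ, hperf, hφ, hφ2, P, hP, hc⟩ := exists_pF4 hK
  have : Fact (Nat.Prime 7) := ⟨by norm_num⟩
  have hord : orderOf ζ = 7 := orderOf_eq_prime h7 h1
  -- `φ ζ = ζ ^ 2`
  have hφζ : φ (ζ : K) = (ζ : K) ^ 2 := by
    have hq : ζ ^ (2 ^ (2 * m + 1) - 1) = 1 := by
      have := pow_card_eq_one' (x := ζ)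
      rwa [Nat.card_units, Nat.card_eq_fintype_card, hK] at this
    have h7d : 7 ∣ 2 ^ (2 * m + 1) - 1 := by rw [← hord]; exact orderOf_dvd_of_pow_eq_one hq
    have hm3 : m % 3 = 1 := by
      have h2 : (2 ^ (2 * m + 1)) % 7 = 1 := by
        have h3 : 1 ≤ 2 ^ (2 * m + 1) := Nat.one_le_two_pow
        omega
      have h3 : m = 3 * (m / 3) + m % 3 := (Nat.div_add_mod m 3).symm
      have h4 : m % 3 < 3 := Nat.mod_lt _ (by norm_num)
      have h5 : (2 ^ (2 * m + 1)) % 7 = (2 ^ (2 * (m % 3) + 1)) % 7 := by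
        conv_lhs => rw [h3]
        have : 2 * (3 * (m / 3) + m % 3) + 1 = 6 * (m / 3) + (2 * (m % 3) + 1) := by ring
        rw [this, pow_add, pow_mul, Nat.mul_mod, Nat.pow_mod]
        norm_num
      rw [h5] at h2
      generalize m % 3 = j at *
      interval_cases j <;> omega
    rw [hφ]
    have h8 : ζ ^ (2 ^ m) = ζ ^ 2 := by
      rw [pow_eq_pow_iff_modEq, hord]
      have h3 : m = 3 * (m / 3) + 1 := by omega
      rw [h3, pow_add, pow_mul]
      have : (2 ^ 3) ^ (m / 3) ≡ 1 ^ (m / 3) [MOD 7] := Nat.ModEq.pow _ (by decide)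
      rw [one_pow] at this
      exact (this.mul_right _).trans (by decide)
    have := congrArg Units.val h8
    simpa using this
  let b : Kˣ → Kˣ → (Fin 4 → Kˣ) := fun s t => ![Units.map (φ : K →* K) s, Units.map (φ : K →* K) t, t, s]
  have hb : ∀ s t : Kˣ, modelF4.hT K (b s t) ∈ P.G1 := by
    intro s t
    apply f4_H0_le φ hperf hφ2 hφ P hP
    exact ⟨b s t, (f4_Tf φ hperf (b := b s t)).2 ⟨(hφ2 _).symm, (hφ2 _).symm, rfl, rfl⟩, rfl⟩
  have hb7 : ∀ s t : Kˣ, s ^ 7 = 1 → t ^ 7 = 1 → (modelF4.hT K (b s t)) ^ 7 = 1 := by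
    intro s t hs ht
    refine (map_pow (modelF4.hT K) (b s t) 7).symm.trans ?_
    have : (b s t) ^ 7 = 1 := by
      funext k
      fin_cases k
      · change (Units.map (φ : K →* K) s) ^ 7 = 1
        rw [← map_pow, hs, map_one]
      · change (Units.map (φ : K →* K) t) ^ 7 = 1
        rw [← map_pow, ht, map_one]
      · exact ht
      · exact hs
    have h2 : (modelF4.hT K) ((b s t) ^ 7) = (modelF4.hT K) 1 := congrArg _ this
    rw [map_one] at h2
    exact h2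
  have hX : ∀ (r : ℕ) (v : List ℤ) (h : (Nat.blt r tabF4.n && allNat tabF4.l fun k => intEq (tabF4.c k r)
      (v.getD k 0)) = true) (s t : Kˣ) (y : K),
      modelF4.hT K (b s t) * modelF4.X r y * (modelF4.hT K (b s t))⁻¹ =
      modelF4.X r ((φ s) ^ v.getD 0 0 * (φ t) ^ v.getD 1 0 * (t : K) ^ v.getD 2 0 * (s : K) ^ v.getD 3 0 * y) := by
    intro r v h s t y
    have h1 := hT_Xr modelF4 baseF4 v h (b s t) y
    rw [h1]
    congr 2
    have h2 : ∏ k : Fin 4, b s t k ^ v.getD k 0 = (Units.map (φ : K →* K) s) ^ v.getD 0 0 *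
        (Units.map (φ : K →* K) t) ^ v.getD 1 0 * t ^ v.getD 2 0 * s ^ v.getD 3 0 := by
      rw [Fin.prod_univ_four]; rfl
    have h3 : ((∏ k : Fin chevF4.rank, (b s t : Fin chevF4.rank → Kˣ) k ^ v.getD k 0 : Kˣ) : K) =
      (((Units.map (φ : K →* K) s) ^ v.getD 0 0 *
        (Units.map (φ : K →* K) t) ^ v.getD 1 0 * t ^ v.getD 2 0 * s ^ v.getD 3 0 : Kˣ) : K) := congrArg Units.val h2
    rw [h3, Units.val_mul, Units.val_mul, Units.val_mul, Units.val_zpow_eq_zpow_val, Units.val_zpow_eq_zpow_val,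
      Units.val_zpow_eq_zpow_val, Units.val_zpow_eq_zpow_val]
    rfl
  have hN : modelF4.N = 24 := by
    have h1 := modelF4.nroots_eq
    have h2 := baseF4.nroots
    have h3 : tabF4.n = 48 := rfl
    omega
  have hζ0 : (ζ : K) ≠ 0 := ζ.ne_zero
  have hφ1 : φ ((1 : Kˣ) : K) = 1 := by rw [Units.val_one, map_one]
  have hval : ∀ z : ℤ, (ζ : K) ^ z = 1 → (7 : ℤ) ∣ z := by
    intro z hz
    have h2 : ζ ^ z = 1 := by
      apply Units.ext
      rw [Units.val_zpow_eq_zpow_val, hz, Units.val_one]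
    have := orderOf_dvd_iff_zpow_eq_one.2 h2
    rw [hord] at this
    exact_mod_cast this
  refine ⟨modelF4.hT K (b ζ 1), modelF4.hT K (b 1 ζ), Subgroup.mem_inf.2 ⟨modelF4.hT_mem_H _, hP ▸ hb ζ 1⟩,
    Subgroup.mem_inf.2 ⟨modelF4.hT_mem_H _, hP ▸ hb 1 ζ⟩, hb7 _ _ h7 (one_pow _), hb7 _ _ (one_pow _) h7, ?_⟩
  intro u hu hc1 hc2
  refine cent_triv (m := modelF4)
    (χ₁ := fun r => (ζ : K) ^ (2 * (vv r).getD 0 0 + (vv r).getD 3 0))
    (χ₂ := fun r => (ζ : K) ^ (2 * (vv r).getD 1 0 + (vv r).getD 2 0)) ?_ ?_ ?_ hu hc1 hc2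
  · intro r hr y
    rw [hN, List.mem_range'_1] at hr
    have h := (vv_ok ⟨r - 24, by omega⟩).1
    have hr' : r - 24 + 24 = r := by omega
    simp only [hr'] at h
    rw [hX r (vv r) h ζ 1 y, hφζ, hφ1, Units.val_one, one_zpow, one_zpow, mul_one, mul_one, ← zpow_natCast,
      ← zpow_mul, ← zpow_add₀ hζ0]
    norm_num
  · intro r hr y
    rw [hN, List.mem_range'_1] at hr
    have h := (vv_ok ⟨r - 24, by omega⟩).1
    have hr' : r - 24 + 24 = r := by omega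
    simp only [hr'] at h
    rw [hX r (vv r) h 1 ζ y, hφζ, hφ1, Units.val_one, one_zpow, one_zpow, mul_one, one_mul, ← zpow_natCast,
      ← zpow_mul, ← zpow_add₀ hζ0]
    norm_num
  · intro r hr
    rw [hN, List.mem_range'_1] at hr
    have h := (vv_ok ⟨r - 24, by omega⟩).2
    have hr' : r - 24 + 24 = r := by omega
    simp only [hr'] at h
    by_contra hcon
    rw [not_or, not_not, not_not] at hcon
    exact h ⟨hval _ hcon.1, hval _ hcon.2⟩

theorem pow16_mem (hK : Fintype.card K = 2 ^ (2 * m + 1)) {g : GL chevF4.Idx K}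
    (h1 : g ∈ chevF4.monomialSubgroup K) (h2 : g ∈ twistedF4 K (2 ^ m)) :
    g ^ 16 ∈ chevF4.diagonalSubgroup K := by
  obtain ⟨ψ, -, hker⟩ := Cfsg.Agent.S1111.result (K := K) (m := m) hK
  set x : ↥(chevF4.monomialSubgroup K ⊓ twistedF4 K (2 ^ m)) := ⟨g, Subgroup.mem_inf.2 ⟨h1, h2⟩⟩ with hx
  have h3 : x ^ 16 ∈ ψ.ker := by
    rw [MonoidHom.mem_ker, map_pow]
    have h4 : Nat.card (DihedralGroup 8) = 16 := by rw [DihedralGroup.nat_card]
    rw [← h4]
    exact pow_card_eq_one'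
  rw [hker, Subgroup.mem_subgroupOf, Subgroup.mem_inf] at h3
  exact h3.1

/-- the Sylow 7-subgroups -/
theorem sylow7 (hK : Fintype.card K = 2 ^ (2 * m + 1)) :
    ∃ P : Sylow 7 ↥(twistedF4 K (2 ^ m)), (∀ a ∈ P, ∀ b ∈ P, a * b = b * a) ∧
      ∀ g ∈ Subgroup.normalizer ((P : Subgroup ↥(twistedF4 K (2 ^ m))) : Set ↥(twistedF4 K (2 ^ m))),
        ∀ a ∈ P, g ^ 16 * a = a * g ^ 16 := by
  have : Fact (Nat.Prime 7) := ⟨by norm_num⟩
  set G1 := twistedF4 K (2 ^ m) with hG1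
  let Hd : Subgroup ↥G1 := (chevF4.diagonalSubgroup K).subgroupOf G1
  have hcardHd : Nat.card Hd = (2 ^ (2 * m + 1) - 1) ^ 2 := by
    rw [← Cfsg.Agent.S1110.result (K := K) (m := m) hK]
    have h1 : Hd = (chevF4.diagonalSubgroup K ⊓ G1).subgroupOf G1 := (Subgroup.inf_subgroupOf_right _ _).symm
    rw [h1]
    exact Nat.card_congr (Subgroup.subgroupOfEquivOfLe inf_le_right).toEquiv
  have hcardG := Cfsg.Agent.S1068.result (K := K) (m := m) hK
  have hind : ¬ 7 ∣ Hd.index := by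
    have h1 := Hd.card_mul_index
    rw [hcardHd, ← hG1] at *
    have hq1 : 1 ≤ 2 ^ (2 * m + 1) := Nat.one_le_two_pow
    have hq2 : 2 ≤ 2 ^ (2 * m + 1) := by
      rw [pow_succ]; have : 1 ≤ 2 ^ (2 * m) := Nat.one_le_two_pow
      omega
    have hq7 : (2 ^ (2 * m + 1)) % 7 = 1 ∨ (2 ^ (2 * m + 1)) % 7 = 2 ∨ (2 ^ (2 * m + 1)) % 7 = 4 := by
      clear * -
      generalize 2 * m + 1 = k
      induction k with
      | zero => left; rfl
      | succ k ih => rw [pow_succ]; omega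
    rw [hcardG] at h1
    generalize 2 ^ (2 * m + 1) = q at *
    obtain ⟨x, rfl⟩ : ∃ x, q = x + 1 := ⟨q - 1, by omega⟩
    have e1 : (x + 1) ^ 4 - 1 = x * ((x + 1 + 1) * ((x + 1) ^ 2 + 1)) := by
      have : (x + 1) ^ 4 = x * ((x + 1 + 1) * ((x + 1) ^ 2 + 1)) + 1 := by ring
      omega
    have e2 : Hd.index = (x + 1) ^ 12 * ((x + 1) ^ 3 + 1) * ((x + 1 + 1) * ((x + 1) ^ 2 + 1)) * ((x + 1) ^ 6 + 1) := by
      rw [Nat.add_sub_cancel, e1] at h1
      have hx : 0 < x ^ 2 := by have : 0 < x := by omega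
                                positivity
      apply Nat.eq_of_mul_eq_mul_left hx
      rw [h1]; ring
    rw [e2]
    intro hd
    have hp : Nat.Prime 7 := by norm_num
    have hmod : ((x + 1) ^ 12 * ((x + 1) ^ 3 + 1) * ((x + 1 + 1) * ((x + 1) ^ 2 + 1)) * ((x + 1) ^ 6 + 1)) % 7 =
        (((x + 1) % 7) ^ 12 * (((x + 1) % 7) ^ 3 + 1) * (((x + 1) % 7 + 1) * (((x + 1) % 7) ^ 2 + 1)) *
          (((x + 1) % 7) ^ 6 + 1)) % 7 := by
      simp only [Nat.mul_mod, Nat.pow_mod, Nat.add_mod, Nat.mod_mod]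
    have hd' := Nat.mod_eq_zero_of_dvd hd
    rw [hmod] at hd'
    rcases hq7 with h | h | h <;> rw [h] at hd' <;> norm_num at hd'
  let Q0 : Sylow 7 Hd := default
  have hQp : IsPGroup 7 ((Q0 : Subgroup Hd).map Hd.subtype) := Q0.2.map _
  have hQi : ¬ 7 ∣ ((Q0 : Subgroup Hd).map Hd.subtype).index := by
    rw [Subgroup.index_map_subtype]
    intro h
    rcases (Nat.Prime.dvd_mul (by norm_num)).1 h with h | h
    · exact Q0.not_dvd_index h
    · exact hind h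
  refine ⟨hQp.toSylow hQi, ?_, ?_⟩
  · rintro a ha b hb
    rw [IsPGroup.mem_toSylow] at ha hb
    obtain ⟨a', -, rfl⟩ := ha
    obtain ⟨b', -, rfl⟩ := hb
    apply Subtype.ext
    exact modelF4.H_comm (Subgroup.mem_subgroupOf.1 a'.2) (Subgroup.mem_subgroupOf.1 b'.2)
  · intro g hg a ha
    have hag := ha
    rw [IsPGroup.mem_toSylow] at ha
    rw [IsPGroup.toSylow_coe] at hg
    set Q : Subgroup ↥G1 := (Q0 : Subgroup Hd).map Hd.subtype with hQ
    by_cases h7 : 7 ∣ 2 ^ (2 * m + 1) - 1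
    · -- the torus case
      obtain ⟨ζ, hζ⟩ : ∃ ζ : Kˣ, orderOf ζ = 7 := by
        apply exists_prime_orderOf_dvd_card' 7
        rw [Nat.card_units, Nat.card_eq_fintype_card, hK]
        exact h7
      obtain ⟨h₁, h₂, hm1, hm2, hp1, hp2, hcen⟩ := torus_elts (m := m) hK (ζ := ζ) (by rw [← hζ]; exact pow_orderOf_eq_one ζ)
        (fun h => by rw [h, orderOf_one] at hζ; omega)
      have hmemQ : ∀ (h : GL chevF4.Idx K) (hh : h ∈ chevF4.diagonalSubgroup K ⊓ G1), h ^ 7 = 1 →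
          (⟨h, (Subgroup.mem_inf.1 hh).2⟩ : ↥G1) ∈ Q := by
        intro h hh hh7
        let x : Hd := ⟨⟨h, (Subgroup.mem_inf.1 hh).2⟩, Subgroup.mem_subgroupOf.2 (Subgroup.mem_inf.1 hh).1⟩
        have hx7 : x ^ 7 = 1 := Subtype.ext (Subtype.ext hh7)
        have hcomm : ∀ y z : Hd, y * z = z * y := fun y z => Subtype.ext (Subtype.ext
          (modelF4.H_comm (Subgroup.mem_subgroupOf.1 y.2) (Subgroup.mem_subgroupOf.1 z.2)))
        have hnor : (Q0 : Subgroup Hd).Normal := ⟨fun y hy z => by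
          rw [hcomm z y, mul_inv_cancel_right]; exact hy⟩
        have hzp : IsPGroup 7 (Subgroup.zpowers x) := by
          rintro ⟨z, hz⟩
          obtain ⟨k, rfl⟩ := Subgroup.mem_zpowers_iff.1 hz
          refine ⟨1, Subtype.ext ?_⟩
          change (x ^ k) ^ (7 ^ 1) = 1
          rw [pow_one, ← zpow_natCast, ← zpow_mul, mul_comm, zpow_mul, zpow_natCast, hx7, one_zpow]
        obtain ⟨Q', hQ'⟩ := hzp.exists_le_sylow
        have hsub : Q' = Q0 := by
          have := Sylow.unique_of_normal Q0 hnor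
          exact Subsingleton.elim _ _
        refine ⟨x, ?_, rfl⟩
        rw [hsub] at hQ'
        exact hQ' (Subgroup.mem_zpowers x)
      obtain ⟨hch, φ, hperf, hφ, hφ2, P, hP, hc⟩ := exists_pF4 hK
      have hPG : ∀ y, y ∈ P.G1 ↔ y ∈ G1 := fun y => by rw [hP]
      have hgN : (g : GL chevF4.Idx K) ∈ chevF4.monomialSubgroup K := by
        refine norm_in_N P (Q := Q.map G1.subtype) ?_ ?_ ((hPG _).2 g.2) ?_ ?_
        · rintro _ ⟨_, ⟨y, -, rfl⟩, rfl⟩
          exact Subgroup.mem_subgroupOf.1 y.2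
        · intro u hu hall
          exact hcen u hu (hall _ ⟨_, hmemQ h₁ hm1 hp1, rfl⟩) (hall _ ⟨_, hmemQ h₂ hm2 hp2, rfl⟩)
        · rintro _ ⟨y, hy, rfl⟩
          exact ⟨_, ((Subgroup.mem_normalizer_iff.1 hg) y).1 hy, rfl⟩
        · rintro _ ⟨y, hy, rfl⟩
          refine ⟨g⁻¹ * y * g, ?_, rfl⟩
          have := ((Subgroup.mem_normalizer_iff.1 (inv_mem hg)) y).1 hy
          rwa [inv_inv] at this
      have h16 := pow16_mem hK hgN g.2
      obtain ⟨a', -, rfl⟩ := ha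
      apply Subtype.ext
      exact modelF4.H_comm h16 (Subgroup.mem_subgroupOf.1 a'.2)
    · -- trivial Sylow
      have hQ1 : Nat.card Q0 = 1 := by
        obtain ⟨k, hk⟩ := (IsPGroup.iff_card.1 Q0.2)
        rcases Nat.eq_zero_or_pos k with h0 | h0
        · rw [hk, h0, pow_zero]
        · exfalso
          have h1 : 7 ∣ Nat.card Hd := (dvd_pow_self 7 h0.ne').trans (by
            rw [← hk]; exact Subgroup.card_subgroup_dvd_card _)
          rw [hcardHd] at h1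
          exact h7 (Nat.Prime.dvd_of_dvd_pow (by norm_num) h1)
      have hQb : (Q0 : Subgroup Hd) = ⊥ := Subgroup.eq_bot_of_card_eq _ hQ1
      rw [hQ, hQb, Subgroup.map_bot, Subgroup.mem_bot] at ha
      rw [ha, mul_one, one_mul]

end main

end Cfsg.Agent.H11.F4T
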