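import Cfsg.Agent.H11_Cover
import Cfsg.Agent.H18_CD
import Cfsg.Agent.H13_Syl
import Cfsg.Agent.H1_Schmidt

set_option autoImplicit false
open Cfsg

/-!
Factorizations from the centralizers (coprime action of a noncyclic elementary abelian group).
-/

namespace Cfsg.Agent.H11.Fac

universe u

open Subgroup Cfsg.Agent.H13.Syl
open scoped Pointwise

variable {G : Type u} [Group G]

/-- Set product statement used throughout. -/
def Prod (Q X Y : Subgroup G) : Prop := ∀ k ∈ Q, ∃ x ∈ X, ∃ y ∈ Y, k = x * y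

theorem cz (a : G) : centralizer ((zpowers a : Subgroup G) : Set G) = centralizer {a} := by
  rw [zpowers_eq_closure, centralizer_closure]

theorem le_of_elements [Finite G] {p : ℕ} [hp : Fact p.Prime] {A K L : Subgroup G}
    (hA : IsElementaryAbelian p A) (hA2 : p ^ 2 ≤ Nat.card A) (hK : ¬ p ∣ Nat.card K)
    (hAK : A ≤ normalizer (K : Set G))
    (hL : ∀ a ∈ A, a ≠ 1 → K ⊓ centralizer {a} ≤ L) : K ≤ L := by
  apply Cfsg.Agent.H11.SF.le_of_hyperplanes hA hK hAK
  intro B hB hBi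
  have hcard := Cfsg.Agent.H11.SF.card_eq_mul_relIndex hB
  have hBne : B ≠ ⊥ := by
    rintro rfl
    rw [card_bot, one_mul] at hcard
    rw [hcard] at hBi
    have h1 := hA2.trans hBi
    have h2 := hp.out.one_lt
    nlinarith
  obtain ⟨b, hb, hb1⟩ := exists_ne_one_of_nontrivial' hBne
  refine le_trans (inf_le_inf_left _ ?_) (hL b (hB hb) hb1)
  exact centralizer_le (Set.singleton_subset_iff.mpr hb)
where
  exists_ne_one_of_nontrivial' {B : Subgroup G} (h : B ≠ ⊥) : ∃ b ∈ B, b ≠ 1 := by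
    obtain ⟨⟨b, hb⟩, hb1⟩ := ne_bot_iff_exists_ne_one.mp h
    exact ⟨b, hb, fun h => hb1 (Subtype.ext h)⟩

theorem nil_sub {M Q : Subgroup G} (h : M ≤ Q) (hQ : Group.IsNilpotent Q) : Group.IsNilpotent M := by
  have h1 : Group.IsNilpotent (M.subgroupOf Q) := inferInstance
  exact (Group.isNilpotent_congr (subgroupOfEquivOfLe h)).mp h1

/-- The nilpotent case. -/
theorem q1 [Finite G] {p : ℕ} [hp : Fact p.Prime] {A : Subgroup G}
    (hA : IsElementaryAbelian p A) (hA2 : p ^ 2 ≤ Nat.card A) (n : ℕ) :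
    ∀ Q X Y : Subgroup G, Nat.card Q ≤ n → ¬ p ∣ Nat.card Q → Group.IsNilpotent Q →
    A ≤ normalizer (Q : Set G) → X ≤ Q → Y ≤ Q → A ≤ normalizer (X : Set G) →
    A ≤ normalizer (Y : Set G) →
    (∀ a ∈ A, a ≠ 1 → Prod (Q ⊓ centralizer {a}) (X ⊓ centralizer {a}) (Y ⊓ centralizer {a})) →
    Prod Q X Y := by
  induction n with
  | zero =>
    intro Q X Y hQ
    have := Nat.card_pos (α := Q)
    omega
  | succ n ih =>
    intro Q X Y hQn hQp hQ hAQ hXQ hYQ hAX hAY hprod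
    by_cases hXe : X = Q
    · intro k hk
      exact ⟨k, by rw [hXe]; exact hk, 1, one_mem _, by rw [mul_one]⟩
    have hfin : ({M : Subgroup G | X ≤ M ∧ M < Q ∧ A ≤ normalizer (M : Set G)}).Finite :=
      Set.toFinite _
    obtain ⟨M, ⟨⟨hXM, hMQ, hAM⟩, hmax⟩⟩ := hfin.exists_maximal ⟨X, le_rfl, lt_of_le_of_ne hXQ hXe, hAX⟩
    -- `M` is normal in `Q`
    have hMN : Q ≤ normalizer (M : Set G) := by
      have h1 := Cfsg.Agent.H1.Schmidt.lt_inf_normalizer hMQ hQ
      by_contra hcon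
      have h2 : A ≤ normalizer ((Q ⊓ normalizer (M : Set G) : Subgroup G) : Set G) :=
        (le_inf hAQ (hAM.trans le_normalizer)).trans Subgroup.inf_normalizer_le_normalizer_inf
      have h3 : Q ⊓ normalizer (M : Set G) < Q := lt_of_le_of_ne inf_le_left
        (fun h => hcon (by rw [← h]; exact inf_le_right))
      have h4 := hmax ⟨hXM.trans (le_inf hMQ.le le_normalizer), h3, h2⟩ (le_inf hMQ.le le_normalizer)
      exact absurd h4 (not_le_of_gt h1)
    have hMlt := Cfsg.Agent.H11.SF.card_lt_of_lt hMQ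
    have hMprod : Prod M X (Y ⊓ M) := by
      apply ih M X (Y ⊓ M) (by omega) (fun h => hQp (h.trans (card_dvd_of_le hMQ.le)))
        (Cfsg.Agent.H11.Fac.nil_sub hMQ.le hQ) hAM hXM inf_le_right hAX
        ((le_inf hAY hAM).trans Subgroup.inf_normalizer_le_normalizer_inf)
      intro a ha ha1 k hk
      obtain ⟨x, hx, y, hy, he⟩ := hprod a ha ha1 k ⟨hMQ.le hk.1, hk.2⟩
      refine ⟨x, hx, y, ⟨⟨hy.1, ?_⟩, hy.2⟩, he⟩
      have : y = x⁻¹ * k := by rw [he]; group
      rw [this]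
      exact M.mul_mem (M.inv_mem (hXM hx.1)) hk.1
    have hgen : Q ≤ X ⊔ Y := by
      apply le_of_elements hA hA2 hQp hAQ
      intro a ha ha1 k hk
      obtain ⟨x, hx, y, hy, he⟩ := hprod a ha ha1 k hk
      rw [he]
      exact mul_mem_sup hx.1 hy.1
    intro k hk
    have h5 : k ∈ M ⊔ Y := (hgen.trans (sup_le_sup_right hXM _)) hk
    rw [← SetLike.mem_coe, Subgroup.coe_mul_of_right_le_normalizer_left _ _ (hYQ.trans hMN)] at h5
    obtain ⟨m, hm, y, hy, rfl⟩ := h5
    obtain ⟨x, hx, y', hy', rfl⟩ := hMprod m hm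
    exact ⟨x, hx, y' * y, mul_mem hy'.1 hy, by group⟩

theorem card_syl [Finite G] {q : ℕ} [hq : Fact q.Prime] {T K : Subgroup G} (h : IsSylIn q T K) :
    Nat.card T = q ^ (Nat.card K).factorization q := by
  obtain ⟨S, hS⟩ := h.exists_sylow
  have h1 := Sylow.card_eq_multiplicity S
  rw [← h1, hS]
  exact Nat.card_congr (subgroupOfEquivOfLe h.1).toEquiv.symm

theorem syl_conj [Finite G] {q : ℕ} [hq : Fact q.Prime] {A K T T' : Subgroup G}
    (hAK : A ≤ normalizer (K : Set G)) (hcop : (Nat.card A).Coprime (Nat.card K))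
    (hsolv : Group.IsSolvable A ∨ Group.IsSolvable K) (hT : IsSylIn q T K)
    (hT' : IsSylIn q T' K) (hAT : A ≤ normalizer (T : Set G)) (hAT' : A ≤ normalizer (T' : Set G)) :
    ∃ c ∈ K ⊓ centralizer (A : Set G), cj c T = T' := by
  obtain ⟨S, hS⟩ := hT.exists_sylow
  obtain ⟨S', hS'⟩ := hT'.exists_sylow
  have e1 : (S : Subgroup K).map K.subtype = T := by rw [hS, map_subgroupOf_eq_of_le hT.1]
  have e2 : (S' : Subgroup K).map K.subtype = T' := by rw [hS', map_subgroupOf_eq_of_le hT'.1]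
  obtain ⟨c, hc, hce⟩ := Cfsg.Agent.H1.Coprime.invariant_sylow_conj A K hAK hcop hsolv q S S'
    (by rw [e1]; exact hAT) (by rw [e2]; exact hAT')
  refine ⟨c, ⟨c.2, hc⟩, ?_⟩
  rw [← e1, ← e2, ← hce]
  ext x
  rw [mem_cj, mem_map, mem_map]
  constructor
  · rintro ⟨y, hy, he⟩
    refine ⟨c * y * c⁻¹, ?_, ?_⟩
    · rw [Sylow.pointwise_smul_def]
      have := smul_mem_pointwise_smul _ (MulAut.conj c) _ hy
      simpa using this
    · change (c : G) * (y : G) * (c : G)⁻¹ = x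
      have he' : (y : G) = (c : G)⁻¹ * x * (c : G) := he
      rw [he']; group
  · rintro ⟨y, hy, he⟩
    refine ⟨c⁻¹ * y * c, ?_, ?_⟩
    · rw [Sylow.pointwise_smul_def] at hy
      have := smul_mem_pointwise_smul _ (MulAut.conj c⁻¹) _ hy
      rw [← mul_smul, ← map_mul, inv_mul_cancel, map_one, one_smul] at this
      simpa using this
    · change (c : G)⁻¹ * (y : G) * (c : G) = (c : G)⁻¹ * x * (c : G)
      have he' : (y : G) = x := he
      rw [he']

theorem syl_ge [Finite G] {q : ℕ} [hq : Fact q.Prime] {A K U : Subgroup G}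
    (hAK : A ≤ normalizer (K : Set G)) (hcop : (Nat.card A).Coprime (Nat.card K))
    (hsolv : Group.IsSolvable A ∨ Group.IsSolvable K) (hUK : U ≤ K) (hU : IsPGroup q U)
    (hAU : A ≤ normalizer (U : Set G)) :
    ∃ T, U ≤ T ∧ IsSylIn q T K ∧ A ≤ normalizer (T : Set G) := by
  obtain ⟨P, hP, hAP⟩ := Cfsg.Agent.H1.Coprime.invariant_psubgroup_le A K hAK hcop hsolv q U hUK hU hAU
  exact ⟨_, hP, isSylIn_map_subtype P, hAP⟩

/-- If `Q` is an invariant Sylow subgroup of `K`, `C_Q(B)` is Sylow in `C_K(B)`. -/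
theorem cent_syl [Finite G] {q : ℕ} [hq : Fact q.Prime] {A K Q : Subgroup G}
    (hAK : A ≤ normalizer (K : Set G)) (hcop : (Nat.card A).Coprime (Nat.card K))
    (hsolv : Group.IsSolvable A ∨ Group.IsSolvable K) (hQ : IsSylIn q Q K)
    (hAQ : A ≤ normalizer (Q : Set G)) :
    IsSylIn q (Q ⊓ centralizer (A : Set G)) (K ⊓ centralizer (A : Set G)) := by
  obtain ⟨R, hR⟩ := exists_isSylIn (p := q) (K ⊓ centralizer (A : Set G))
  have hAR : A ≤ normalizer (R : Set G) := by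
    have h1 : A ≤ centralizer (R : Set G) := by
      intro a ha
      rw [mem_centralizer_iff]
      intro r hr
      exact (mem_centralizer_iff.mp (hR.1 hr).2 a ha).symm
    exact h1.trans (centralizer_le_normalizer _)
  obtain ⟨T, hRT, hT, hAT⟩ := syl_ge hAK hcop hsolv (hR.1.trans inf_le_left) hR.2.1 hAR
  obtain ⟨c, hc, he⟩ := syl_conj hAK hcop hsolv hT hQ hAT hAQ
  refine isSylIn_of_card_le hR (inf_le_inf_right _ hQ.1) (hQ.2.1.to_le inf_le_left) ?_
  have h2 : cj c R ≤ Q ⊓ centralizer (A : Set G) := by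
    refine le_inf ?_ ?_
    · rw [← he]; exact cj_mono hRT
    · have h3 := cj_mono (g := c) (hR.1.trans inf_le_right)
      rwa [cj_eq_of_mem hc.2] at h3
  rw [← card_cj c R]
  exact card_le_of_le h2

theorem cent_syl_el [Finite G] {q : ℕ} [hq : Fact q.Prime] {A K Q : Subgroup G}
    (hAK : A ≤ normalizer (K : Set G)) (hcop : (Nat.card A).Coprime (Nat.card K))
    (hsolv : Group.IsSolvable A) (hQ : IsSylIn q Q K)
    (hAQ : A ≤ normalizer (Q : Set G)) {a : G} (ha : a ∈ A) :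
    IsSylIn q (Q ⊓ centralizer {a}) (K ⊓ centralizer {a}) := by
  have hz : zpowers a ≤ A := by rwa [zpowers_le]
  have h := cent_syl (A := zpowers a) (hz.trans hAK) (hcop.coprime_dvd_left (card_dvd_of_le hz))
    (Or.inl (Group.isSolvable_of_comm (fun x y => mul_comm' x y))) hQ (hz.trans hAQ)
  rwa [cz] at h

theorem prod_card [Finite G] {Q X Y : Subgroup G} (hX : X ≤ Q) (hY : Y ≤ Q) (h : Prod Q X Y) :
    Nat.card Q * Nat.card (X ⊓ Y : Subgroup G) = Nat.card X * Nat.card Y := by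
  rw [← Cfsg.Agent.H18.CD.card_mul_set X Y]
  have h1 : ((X : Set G) * (Y : Set G)) = (Q : Set G) := by
    apply Set.Subset.antisymm
    · rintro _ ⟨x, hx, y, hy, rfl⟩
      exact mul_mem (hX hx) (hY hy)
    · intro k hk
      obtain ⟨x, hx, y, hy, rfl⟩ := h k hk
      exact ⟨x, hx, y, hy, rfl⟩
  rw [h1]; rfl

theorem prod_of_card [Finite G] {Q X Y : Subgroup G} (hX : X ≤ Q) (hY : Y ≤ Q)
    (h : Nat.card Q * Nat.card (X ⊓ Y : Subgroup G) ≤ Nat.card X * Nat.card Y) : Prod Q X Y := by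
  rw [← Cfsg.Agent.H18.CD.card_mul_set X Y] at h
  have hpos : 0 < Nat.card (X ⊓ Y : Subgroup G) := Nat.card_pos
  have h2 : Nat.card Q ≤ Nat.card ↥((X : Set G) * (Y : Set G)) := Nat.le_of_mul_le_mul_right h hpos
  have h1 : ((X : Set G) * (Y : Set G)) ⊆ (Q : Set G) := by
    rintro _ ⟨x, hx, y, hy, rfl⟩
    exact mul_mem (hX hx) (hY hy)
  have h3 := Set.eq_of_subset_of_ncard_le h1 h2
  intro k hk
  have h4 : k ∈ ((X : Set G) * (Y : Set G)) := by rw [h3]; exact hk
  obtain ⟨x, hx, y, hy, he⟩ := h4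
  exact ⟨x, hx, y, hy, he.symm⟩

theorem main [Finite G] {p : ℕ} [hp : Fact p.Prime] {A K X Y : Subgroup G}
    (hA : IsElementaryAbelian p A) (hA2 : p ^ 2 ≤ Nat.card A) (hK : ¬ p ∣ Nat.card K)
    (hAK : A ≤ normalizer (K : Set G)) (hX : X ≤ K) (hY : Y ≤ K)
    (hAX : A ≤ normalizer (X : Set G)) (hAY : A ≤ normalizer (Y : Set G))
    (hprod : ∀ a ∈ A, a ≠ 1 → Prod (K ⊓ centralizer {a}) (X ⊓ centralizer {a}) (Y ⊓ centralizer {a})) :
    Prod K X Y := by
  have hApg : IsPGroup p A := Cfsg.Agent.H11.Bal.ea_isPGroup hA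
  have hAs : Group.IsSolvable A := Group.isSolvable_of_comm (fun a b => hA.1.1.1 a b)
  have hcop : ∀ L : Subgroup G, L ≤ K → (Nat.card A).Coprime (Nat.card L) := fun L hL =>
    Cfsg.Agent.H11.SF.coprime_of_not_dvd hApg (fun h => hK (h.trans (card_dvd_of_le hL)))
  have hAne : ∃ a ∈ A, a ≠ 1 := by
    have : A ≠ ⊥ := by
      rintro rfl
      rw [card_bot] at hA2
      have h2 := hp.out.one_lt
      nlinarith
    obtain ⟨⟨b, hb⟩, hb1⟩ := ne_bot_iff_exists_ne_one.mp this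
    exact ⟨b, hb, fun h => hb1 (Subtype.ext h)⟩
  have hACa : ∀ a ∈ A, A ≤ centralizer {a} := by
    intro a ha b hb
    rw [mem_centralizer_singleton_iff]
    exact congrArg Subtype.val (hA.1.1.1 ⟨b, hb⟩ ⟨a, ha⟩)
  have hinv : ∀ (L : Subgroup G), A ≤ normalizer (L : Set G) → ∀ a ∈ A,
      A ≤ normalizer ((L ⊓ centralizer {a} : Subgroup G) : Set G) := fun L hL a ha =>
    (le_inf hL ((hACa a ha).trans le_normalizer)).trans Subgroup.inf_normalizer_le_normalizer_inf
  -- Step A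
  have hstepA : Prod (K ⊓ centralizer (A : Set G)) (X ⊓ centralizer (A : Set G))
      (Y ⊓ centralizer (A : Set G)) := by
    obtain ⟨a, ha, ha1⟩ := hAne
    intro k hk
    have hle : centralizer (A : Set G) ≤ centralizer {a} :=
      centralizer_le (Set.singleton_subset_iff.mpr ha)
    obtain ⟨x, hx, y, hy, he⟩ := Cfsg.Agent.H1.Coprime.centralizer_of_product A
      (K ⊓ centralizer {a}) (hcop _ inf_le_left) (Or.inl hAs) (X ⊓ centralizer {a})
      (Y ⊓ centralizer {a}) (inf_le_inf_right _ hX) (hinv X hAX a ha) (hinv Y hAY a ha)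
      (hprod a ha ha1) k ⟨⟨hk.1, hle hk.2⟩, hk.2⟩
    exact ⟨x, ⟨hx.1.1, hx.2⟩, y, ⟨hy.1.1, hy.2⟩, he⟩
  have hAcj : ∀ (T : Subgroup G) (c : G), A ≤ normalizer (T : Set G) → c ∈ centralizer (A : Set G) →
      A ≤ normalizer (cj c T : Set G) := by
    intro T c hT hc
    have h1 := cj_mono (g := c) hT
    rw [cj_normalizer] at h1
    have h2 : cj c A = A := by
      apply cj_eq_of_mem_normalizer
      exact (centralizer_le_normalizer (A : Set G)) hc
    rwa [h2] at h1
  -- Step B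
  have hstepB : ∀ q : ℕ, q.Prime → ∃ Q : Subgroup G, IsSylIn q Q K ∧ A ≤ normalizer (Q : Set G) ∧
      IsSylIn q (Q ⊓ X) X ∧ IsSylIn q (Q ⊓ Y) Y := by
    intro q hq
    haveI : Fact q.Prime := ⟨hq⟩
    have hnb : A ≤ normalizer ((⊥ : Subgroup G) : Set G) := by rw [normalizer_eq_top]; exact le_top
    obtain ⟨Xq, -, hXq, hAXq⟩ := syl_ge (q := q) hAX (hcop X hX) (Or.inl hAs) bot_le (IsPGroup.of_bot) hnb
    obtain ⟨Yq, -, hYq, hAYq⟩ := syl_ge (q := q) hAY (hcop Y hY) (Or.inl hAs) bot_le (IsPGroup.of_bot) hnb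
    obtain ⟨Q1, hXQ1, hQ1, hAQ1⟩ := syl_ge (q := q) hAK (hcop K le_rfl) (Or.inl hAs)
      (hXq.1.trans hX) hXq.2.1 hAXq
    obtain ⟨Q2, hYQ2, hQ2, hAQ2⟩ := syl_ge (q := q) hAK (hcop K le_rfl) (Or.inl hAs)
      (hYq.1.trans hY) hYq.2.1 hAYq
    obtain ⟨c, hc, hce⟩ := syl_conj hAK (hcop K le_rfl) (Or.inl hAs) hQ1 hQ2 hAQ1 hAQ2
    obtain ⟨x, hx, y, hy, hxy⟩ := hstepA c⁻¹ (inv_mem hc)
    have hcxy : c = y⁻¹ * x⁻¹ := by rw [← mul_inv_rev, ← hxy, inv_inv]
    have e1 : cj x⁻¹ Q1 = cj y Q2 := by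
      rw [← hce, hcxy, ← cj_mul]; congr 1; group
    refine ⟨cj x⁻¹ Q1, ?_, ?_, ?_, ?_⟩
    · have h1 := hQ1.cj x⁻¹
      rwa [cj_eq_of_mem (inv_mem (hX hx.1))] at h1
    · exact hAcj _ _ hAQ1 (inv_mem hx.2)
    · have h1 := hXq.cj x⁻¹
      rw [cj_eq_of_mem (inv_mem hx.1)] at h1
      have h2 : cj x⁻¹ Q1 ⊓ X = cj x⁻¹ Xq := by
        apply h1.eq_of_le
        · exact (isPGroup_cj hQ1.2.1).to_le inf_le_left
        · exact inf_le_right
        · exact le_inf (cj_mono hXQ1) h1.1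
      rw [h2]; exact h1
    · have h1 := hYq.cj y
      rw [cj_eq_of_mem hy.1] at h1
      have h2 : cj x⁻¹ Q1 ⊓ Y = cj y Yq := by
        apply h1.eq_of_le
        · exact (isPGroup_cj hQ1.2.1).to_le inf_le_left
        · exact inf_le_right
        · rw [e1]; exact le_inf (cj_mono hYQ2) h1.1
      rw [h2]; exact h1
  -- the main counting
  have hcount : ∀ q : ℕ, q.Prime → (Nat.card K).factorization q + (Nat.card (X ⊓ Y : Subgroup G)).factorization q
      = (Nat.card X).factorization q + (Nat.card Y).factorization q := by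
    intro q hq
    haveI : Fact q.Prime := ⟨hq⟩
    obtain ⟨Q, hQ, hAQ, hQX, hQY⟩ := hstepB q hq
    have hAQX : A ≤ normalizer ((Q ⊓ X : Subgroup G) : Set G) :=
      (le_inf hAQ hAX).trans Subgroup.inf_normalizer_le_normalizer_inf
    have hAQY : A ≤ normalizer ((Q ⊓ Y : Subgroup G) : Set G) :=
      (le_inf hAQ hAY).trans Subgroup.inf_normalizer_le_normalizer_inf
    have hAXY : A ≤ normalizer ((X ⊓ Y : Subgroup G) : Set G) :=
      (le_inf hAX hAY).trans Subgroup.inf_normalizer_le_normalizer_inf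
    have hAQXY : A ≤ normalizer ((Q ⊓ (X ⊓ Y) : Subgroup G) : Set G) :=
      (le_inf hAQ hAXY).trans Subgroup.inf_normalizer_le_normalizer_inf
    -- local information
    have hloc : ∀ a ∈ A, a ≠ 1 →
        Prod (Q ⊓ centralizer {a}) (Q ⊓ X ⊓ centralizer {a}) (Q ⊓ Y ⊓ centralizer {a}) ∧
        IsSylIn q (Q ⊓ (X ⊓ Y) ⊓ centralizer {a}) (X ⊓ Y ⊓ centralizer {a}) := by
      intro a ha ha1
      set C := centralizer ({a} : Set G) with hC
      have s1 : IsSylIn q (Q ⊓ C) (K ⊓ C) := cent_syl_el hAK (hcop K le_rfl) hAs hQ hAQ ha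
      have s2 : IsSylIn q (Q ⊓ X ⊓ C) (X ⊓ C) := cent_syl_el hAX (hcop X hX) hAs hQX hAQX ha
      have s3 : IsSylIn q (Q ⊓ Y ⊓ C) (Y ⊓ C) := cent_syl_el hAY (hcop Y hY) hAs hQY hAQY ha
      have c1 := card_syl s1
      have c2 := card_syl s2
      have c3 := card_syl s3
      have c4 := prod_card (inf_le_inf_right _ hX) (inf_le_inf_right _ hY) (hprod a ha ha1)
      have e4 : (X ⊓ C) ⊓ (Y ⊓ C) = X ⊓ Y ⊓ C := by
        apply le_antisymm
        · exact le_inf (le_inf (inf_le_left.trans inf_le_left) (inf_le_right.trans inf_le_left))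
            (inf_le_left.trans inf_le_right)
        · exact le_inf (inf_le_inf_right _ inf_le_left) (inf_le_inf_right _ inf_le_right)
      rw [e4] at c4
      have c5 : (Nat.card (K ⊓ C : Subgroup G)).factorization q + (Nat.card (X ⊓ Y ⊓ C : Subgroup G)).factorization q
          = (Nat.card (X ⊓ C : Subgroup G)).factorization q + (Nat.card (Y ⊓ C : Subgroup G)).factorization q := by
        have h1 := congrArg (fun n => n.factorization q) c4
        rw [Nat.factorization_mul Nat.card_pos.ne' Nat.card_pos.ne',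
          Nat.factorization_mul Nat.card_pos.ne' Nat.card_pos.ne'] at h1
        simpa using h1
      -- the Sylow of X ∩ Y ∩ C
      obtain ⟨R, hQR, hR⟩ := exists_isSylIn_ge (p := q) (A := Q ⊓ (X ⊓ Y) ⊓ C) (H := X ⊓ Y ⊓ C)
        (hQ.2.1.to_le (inf_le_left.trans inf_le_left)) (inf_le_inf_right _ inf_le_right)
      have c6 := card_syl hR
      have hle1 : Nat.card (Q ⊓ (X ⊓ Y) ⊓ C : Subgroup G) ≤ Nat.card R := card_le_of_le hQR
      have hprodc := Cfsg.Agent.H18.CD.card_mul_set (Q ⊓ X ⊓ C) (Q ⊓ Y ⊓ C)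
      have e5 : (Q ⊓ X ⊓ C) ⊓ (Q ⊓ Y ⊓ C) = Q ⊓ (X ⊓ Y) ⊓ C := by
        apply le_antisymm
        · exact le_inf (le_inf (inf_le_left.trans (inf_le_left.trans inf_le_left))
            (le_inf (inf_le_left.trans (inf_le_left.trans inf_le_right))
              (inf_le_right.trans (inf_le_left.trans inf_le_right)))) (inf_le_left.trans inf_le_right)
        · exact le_inf (inf_le_inf_right _ (inf_le_inf_left _ inf_le_left))
            (inf_le_inf_right _ (inf_le_inf_left _ inf_le_right))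
      have hkey : Nat.card (Q ⊓ C : Subgroup G) * Nat.card R = Nat.card (Q ⊓ X ⊓ C : Subgroup G) *
          Nat.card (Q ⊓ Y ⊓ C : Subgroup G) := by
        rw [c1, c2, c3, c6, ← pow_add, ← pow_add, c5]
      have hP : Prod (Q ⊓ C) (Q ⊓ X ⊓ C) (Q ⊓ Y ⊓ C) := by
        apply prod_of_card (inf_le_inf_right _ inf_le_left) (inf_le_inf_right _ inf_le_left)
        rw [← hkey, e5]
        exact Nat.mul_le_mul_left _ hle1
      refine ⟨hP, ?_⟩
      have h7 := prod_card (inf_le_inf_right _ inf_le_left) (inf_le_inf_right _ inf_le_left) hP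
      rw [e5, ← hkey] at h7
      have h8 : Nat.card (Q ⊓ (X ⊓ Y) ⊓ C : Subgroup G) = Nat.card R :=
        Nat.eq_of_mul_eq_mul_left Nat.card_pos h7
      rw [Subgroup.eq_of_le_of_card_ge hQR h8.ge]
      exact hR
    have hQnil : Group.IsNilpotent Q := IsPGroup.isNilpotent hQ.2.1
    have hQprod : Prod Q (Q ⊓ X) (Q ⊓ Y) := by
      apply q1 hA hA2 (Nat.card Q) Q (Q ⊓ X) (Q ⊓ Y) le_rfl
        (fun h => hK (h.trans (card_dvd_of_le hQ.1))) hQnil hAQ inf_le_left inf_le_left hAQX hAQY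
      intro a ha ha1
      exact (hloc a ha ha1).1
    have hsylXY : IsSylIn q (Q ⊓ (X ⊓ Y)) (X ⊓ Y) := by
      obtain ⟨R, hQR, hR, hAR⟩ := syl_ge (q := q) hAXY (hcop _ (inf_le_left.trans hX)) (Or.inl hAs)
        (U := Q ⊓ (X ⊓ Y)) inf_le_right (hQ.2.1.to_le inf_le_left) hAQXY
      have h1 : R ≤ Q ⊓ (X ⊓ Y) := by
        apply le_of_elements hA hA2 (fun h => hK (h.trans (card_dvd_of_le
          (hR.1.trans (inf_le_left.trans hX))))) hAR
        intro a ha ha1
        have h2 := (hloc a ha ha1).2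
        have h3 : R ⊓ centralizer {a} = Q ⊓ (X ⊓ Y) ⊓ centralizer {a} := by
          apply h2.eq_of_le (hR.2.1.to_le inf_le_left) (inf_le_inf_right _ hR.1)
            (inf_le_inf_right _ hQR)
        rw [h3]; exact inf_le_left
      rw [le_antisymm hQR h1]
      exact hR
    have d1 := card_syl hQ
    have d2 := card_syl hQX
    have d3 := card_syl hQY
    have d4 := card_syl hsylXY
    have d5 := prod_card inf_le_left inf_le_left hQprod
    have e6 : Q ⊓ X ⊓ (Q ⊓ Y) = Q ⊓ (X ⊓ Y) := by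
      apply le_antisymm
      · exact le_inf (inf_le_left.trans inf_le_left) (inf_le_inf inf_le_right inf_le_right)
      · exact le_inf (inf_le_inf_left _ inf_le_left) (inf_le_inf_left _ inf_le_right)
    rw [e6, d1, d2, d3, d4, ← pow_add, ← pow_add] at d5
    exact Nat.pow_right_injective hq.two_le d5
  apply prod_of_card hX hY
  apply le_of_eq
  apply Nat.eq_of_factorization_eq (mul_ne_zero Nat.card_pos.ne' Nat.card_pos.ne')
    (mul_ne_zero Nat.card_pos.ne' Nat.card_pos.ne')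
  intro q
  rw [Nat.factorization_mul Nat.card_pos.ne' Nat.card_pos.ne',
    Nat.factorization_mul Nat.card_pos.ne' Nat.card_pos.ne']
  by_cases hq : q.Prime
  · simpa using hcount q hq
  · simp [Nat.factorization_eq_zero_of_not_prime _ hq]

end Cfsg.Agent.H11.Fac
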