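import Mathlib
import Cfsg.Agent.H11_J1I
import Cfsg.Agent.H14_Schur

set_option autoImplicit false
set_option maxRecDepth 100000

/-!
The Schur multiplier of `J1`.
-/

namespace Cfsg.Agent.H11.J1

open Cfsg Cfsg.Agent.H11.KMat Subgroup
open scoped commutatorElement

theorem perfect_J1 : commutator ↥Spor.J1 = ⊤ := by
  have := simple_J1
  rcases (Subgroup.Normal.eq_bot_or_eq_top (inferInstance : (commutator ↥Spor.J1).Normal)) with h | h
  · exfalso
    apply tk_ne
    have h1 : ⁅jw wt, jw wk⁆ ∈ commutator ↥Spor.J1 := Subgroup.commutator_mem_commutator (mem_top _) (mem_top _)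
    rw [h, Subgroup.mem_bot, commutatorElement_eq_one_iff_mul_comm] at h1
    exact h1
  · exact h

/-- three elements of a central extension permuted by an element of order 7 commute -/
theorem comm_three {Γ : Type*} [Group Γ] (a d α β z : Γ) (hα : ∀ x, α * x = x * α) (hβ : ∀ x, β * x = x * β)
    (hz : ∀ x, z * x = x * z)
    (h01 : a * (d * a * d⁻¹) = α * (d * a * d⁻¹) * a)
    (h02 : a * (d * (d * a * d⁻¹) * d⁻¹) = β * (d * (d * a * d⁻¹) * d⁻¹) * a)
    (h3 : d * (d * (d * a * d⁻¹) * d⁻¹) * d⁻¹ = a * (d * a * d⁻¹) * z) : α = 1 ∧ β = 1 := by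
  set a1 := d * a * d⁻¹ with ha1
  set a2 := d * a1 * d⁻¹ with ha2
  set a3 := d * a2 * d⁻¹ with ha3
  have conj : ∀ x y γ : Γ, (∀ w, γ * w = w * γ) → x * y = γ * y * x →
      (d * x * d⁻¹) * (d * y * d⁻¹) = γ * (d * y * d⁻¹) * (d * x * d⁻¹) := by
    intro x y γ hγ h
    calc (d * x * d⁻¹) * (d * y * d⁻¹) = d * (x * y) * d⁻¹ := by group
      _ = d * (γ * y * x) * d⁻¹ := by rw [h]
      _ = (d * γ) * y * x * d⁻¹ := by group
      _ = (γ * d) * y * x * d⁻¹ := by rw [hγ d]
      _ = γ * (d * y * d⁻¹) * (d * x * d⁻¹) := by group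
  have h12 : a1 * a2 = α * a2 * a1 := conj a a1 α hα h01
  have h23 : a2 * a3 = α * a3 * a2 := conj a1 a2 α hα h12
  have h13 : a1 * a3 = β * a3 * a1 := conj a a2 β hβ h02
  -- first relation
  have e1 : β * α = 1 := by
    have h4 : a1 * (a * a1 * z) = β * (a * a1 * z) * a1 := by rw [← h3]; exact h13
    have h5 : a1 * (a * a1 * z) = (a1 * a) * (a1 * z) := by group
    have h6 : β * (a * a1 * z) * a1 = β * (α * (a1 * a)) * (a1 * z) := by
      calc β * (a * a1 * z) * a1 = β * (a * a1) * (z * a1) := by group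
        _ = β * (α * a1 * a) * (a1 * z) := by rw [h01, hz a1]
        _ = β * (α * (a1 * a)) * (a1 * z) := by group
    rw [h5, h6] at h4
    have h7 := mul_right_cancel h4
    have h8 : β * (α * (a1 * a)) = (β * α) * (a1 * a) := by group
    rw [h8] at h7
    exact (mul_eq_right.1 h7.symm)
  have e2 : α * (α * β) = 1 := by
    have h4 : a2 * (a * a1 * z) = α * (a * a1 * z) * a2 := by rw [← h3]; exact h23
    have h5 : α * (a * a1 * z) * a2 = (α * (α * β)) * (a2 * (a * a1 * z)) := by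
      calc α * (a * a1 * z) * a2 = α * (a * a1) * (z * a2) := by group
        _ = α * (a * (a1 * a2)) * z := by rw [hz a2]; group
        _ = α * (a * (α * a2 * a1)) * z := by rw [h12]
        _ = α * ((a * α) * a2 * a1) * z := by group
        _ = α * ((α * a) * a2 * a1) * z := by rw [hα a]
        _ = α * (α * (a * a2) * a1) * z := by group
        _ = α * (α * (β * a2 * a) * a1) * z := by rw [h02]
        _ = (α * (α * β)) * (a2 * (a * a1 * z)) := by group
    rw [h5] at h4
    exact (mul_eq_right.1 h4.symm)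
  have e3 : α * β = 1 := by rw [hα β]; exact e1
  have e4 : α = 1 := by rw [e3, mul_one] at e2; exact e2
  exact ⟨e4, by rw [e4, one_mul] at e3; exact e3⟩

theorem t2_eq : jw wd * jw wt * (jw wd)⁻¹ = jw wt2 := conj_step (a := wt) (b := wt2) (by decide +kernel)
theorem t3_eq : jw wd * jw wt2 * (jw wd)⁻¹ = jw wt3 := conj_step (a := wt2) (b := wt3) (by decide +kernel)
theorem t4_eq : jw wd * jw wt3 * (jw wd)⁻¹ = jw wt * jw wt2 := by
  have h := conj_step (a := wt3) (b := wt ++ wt2) (by decide +kernel)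
  rw [h, jw_append]

theorem two_part (Γ : Type) [Group Γ] [Finite Γ] (σ : Γ →* ↥Spor.J1) (hσ : IsStemExtension σ) :
    Nat.card σ.ker ≠ 2 := by
  intro hker
  have : Fact (Nat.Prime 2) := ⟨Nat.prime_two⟩
  have hc : ¬ 2 ∣ SS.index := by
    have h := SS.card_mul_index
    rw [card_SS, card_J1] at h
    have : SS.index = 21945 := by omega
    rw [this]; norm_num
  obtain ⟨hs, hcen, hd⟩ := id hσ
  obtain ⟨a, ha⟩ := hs (jw wt)
  obtain ⟨d, hd'⟩ := hs (jw wd)
  have hk : ∀ x : Γ, σ x = 1 → ∀ y, x * y = y * x := by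
    intro x hx y
    exact (Subgroup.mem_center_iff.1 (hcen (MonoidHom.mem_ker.2 hx)) y).symm
  set a1 := d * a * d⁻¹ with ha1
  set a2 := d * a1 * d⁻¹ with ha2
  set a3 := d * a2 * d⁻¹ with ha3
  have s1 : σ a1 = jw wt2 := by rw [ha1, map_mul, map_mul, map_inv, ha, hd', t2_eq]
  have s2 : σ a2 = jw wt3 := by rw [ha2, map_mul, map_mul, map_inv, s1, hd', t3_eq]
  have s3 : σ a3 = jw wt * jw wt2 := by rw [ha3, map_mul, map_mul, map_inv, s2, hd', t4_eq]
  have cc : ∀ x y : Γ, σ x * σ y = σ y * σ x → σ (x * y * x⁻¹ * y⁻¹) = 1 := by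
    intro x y h
    rw [map_mul, map_mul, map_mul, map_inv, map_inv, h, mul_inv_cancel_right, mul_inv_cancel]
  have k01 := cc a a1 (by rw [ha, s1]; exact c12)
  have k02 := cc a a2 (by rw [ha, s2]; exact c13)
  have key := comm_three a d (a * a1 * a⁻¹ * a1⁻¹) (a * a2 * a⁻¹ * a2⁻¹) ((a * a1)⁻¹ * a3) (hk _ k01) (hk _ k02)
    (hk _ (by rw [map_mul, map_inv, map_mul, s3, ha, s1, inv_mul_cancel])) (by rw [← ha1]; group) (by rw [← ha1, ← ha2]; group)
    (by rw [← ha1, ← ha2, ← ha3]; group)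
  have m01 : a * a1 = a1 * a := by
    have := key.1
    rwa [mul_inv_eq_one, mul_inv_eq_iff_eq_mul] at this
  have m02 : a * a2 = a2 * a := by
    have := key.2
    rwa [mul_inv_eq_one, mul_inv_eq_iff_eq_mul] at this
  have m12 : a1 * a2 = a2 * a1 := by
    calc a1 * a2 = d * (a * a1) * d⁻¹ := by rw [ha2, ha1]; group
      _ = d * (a1 * a) * d⁻¹ := by rw [m01]
      _ = a2 * a1 := by rw [ha2, ha1]; group
  refine Cfsg.Agent.H14.Schur.false_of_comm_le σ hσ hker SS isPGroup_SS hc ⊥ ?_ (fun x hx _ => hx)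
  have hSS : SS = Subgroup.closure (σ '' {a, a1, a2}) := by
    unfold SS
    congr 1
    rw [Set.image_insert_eq, Set.image_insert_eq, Set.image_singleton, ha, s1, s2]
  rw [Cfsg.Agent.H14.Schur.comap_eq σ _ _ hSS]
  apply Cfsg.Agent.H14.Schur.commutator_closure_le
  · intro s _ n hn
    rw [Subgroup.mem_bot] at hn
    subst hn
    simp
  · intro s hs' t ht
    rw [Subgroup.mem_bot, commutatorElement_eq_one_iff_mul_comm]
    rcases hs' with hs' | hs'
    · rcases ht with ht | ht
      · rcases hs' with rfl | rfl | rfl <;> rcases ht with rfl | rfl | rfl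
        · rfl
        · exact m01
        · exact m02
        · exact m01.symm
        · rfl
        · exact m12
        · exact m02.symm
        · exact m12.symm
        · rfl
      · exact (hk t (MonoidHom.mem_ker.1 ht) s).symm
    · exact hk s (MonoidHom.mem_ker.1 hs') t

theorem schur_J1 : HasCyclicSchurMultiplier ↥Spor.J1 1 := by
  apply Cfsg.Agent.H14.Schur.trivial_of_primes
  intro p hp Γ _ _ σ hσ
  by_cases h2 : p = 2
  · subst h2
    exact two_part Γ σ hσ
  · apply Cfsg.Agent.H14.Schur.ne_of_not_sq_dvd perfect_J1 (p := p) ?_ Γ σ hσ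
    rw [card_J1]
    intro h
    have h1 : p ∣ 175560 := dvd_trans (dvd_pow_self p two_ne_zero) h
    have h3 : p ^ 2 ∣ 8 * 21945 := h
    have hc : (p ^ 2).Coprime 8 := by
      have : (8 : ℕ) = 2 ^ 3 := by norm_num
      rw [this]
      apply Nat.Coprime.pow
      exact (Nat.coprime_primes hp.out Nat.prime_two).2 h2
    have h4 := hc.dvd_of_dvd_mul_left h3
    have hle : p ^ 2 ≤ 21945 := Nat.le_of_dvd (by norm_num) h4
    have hp2 : p < 149 := by nlinarith
    have : ∀ p : ℕ, p < 149 → 1 < p → ¬ p ^ 2 ∣ 21945 := by decide +kernel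
    exact this p hp2 hp.out.one_lt h4

end Cfsg.Agent.H11.J1
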