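import Mathlib

/-! Arithmetic of the numbers of elements of given order taking three values. -/

set_option autoImplicit false

namespace Cfsg.Agent.H11.Nse

theorem sum_cop (f : ℕ → ℤ) {m n : ℕ} (h : m.Coprime n) :
    ∑ d ∈ (m * n).divisors, f d = ∑ a ∈ m.divisors, ∑ b ∈ n.divisors, f (a * b) := by
  rw [Nat.divisors_mul, Finset.mul_def, Finset.sum_image, Finset.sum_product]
  rintro ⟨a, b⟩ hab ⟨a', b'⟩ hab' heq
  simp only [Finset.coe_product, Set.mem_prod, Finset.mem_coe, Nat.mem_divisors] at hab hab'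
  have heq' : a * b = a' * b' := heq
  have k1 : a.Coprime b' := (h.coprime_dvd_left hab.1.1).coprime_dvd_right hab'.2.1
  have k2 : a'.Coprime b := (h.coprime_dvd_left hab'.1.1).coprime_dvd_right hab.2.1
  have e1 : a ∣ a' := k1.dvd_of_dvd_mul_right (heq' ▸ dvd_mul_right a b)
  have e2 : a' ∣ a := k2.dvd_of_dvd_mul_right (heq'.symm ▸ dvd_mul_right a' b')
  have e3 : a = a' := Nat.dvd_antisymm e1 e2
  subst e3
  have ha : 0 < a := Nat.pos_of_ne_zero (fun h0 => hab.1.2 (by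
    have := hab.1.1; rw [h0] at this; exact Nat.eq_zero_of_zero_dvd this))
  have e4 : b = b' := Nat.eq_of_mul_eq_mul_left ha heq'
  rw [e4]

theorem sum_pr (f : ℕ → ℤ) {p : ℕ} (hp : p.Prime) : ∑ d ∈ p.divisors, f d = f 1 + f p := by
  rw [hp.divisors, Finset.sum_pair hp.one_lt.ne]

theorem div4 : (4 : ℕ).divisors = {1, 2, 4} := by decide

theorem sum_four (f : ℕ → ℤ) : ∑ d ∈ (4 : ℕ).divisors, f d = f 1 + f 2 + f 4 := by
  rw [div4, Finset.sum_insert (by decide), Finset.sum_pair (by decide)]; ring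

structure Dat0 (c : ℕ → ℕ) (N s s' : ℕ) : Prop where
  dv : ∀ n, n ∣ N → (n : ℤ) ∣ ∑ d ∈ n.divisors, (c d : ℤ)
  one : c 1 = 1
  pos : ∀ p : ℕ, p.Prime → p ∣ N → c p ≠ 0
  val : ∀ m, 3 ≤ m → c m = 0 ∨ c m = s ∨ c m = s'

structure Dat (c : ℕ → ℕ) (N s s' : ℕ) : Prop extends Dat0 c N s s' where
  le : ∀ n, n ≠ 0 → ∑ d ∈ n.divisors, (c d : ℤ) ≤ N
  tot : ∀ m, m.totient ∣ c m
  down : ∀ m k, m ≠ 0 → k ∣ m → c m ≠ 0 → c k ≠ 0
  dbl : 2 ∣ N → ∀ m, Odd m → c (2 * m) = c m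
  pN : 0 < N

variable {c : ℕ → ℕ} {N s s' : ℕ}

theorem Dat0.symm (D : Dat0 c N s s') : Dat0 c N s' s :=
  ⟨D.dv, D.one, D.pos, fun m hm => by rcases D.val m hm with h | h | h <;> simp [h]⟩

theorem Dat.symm (D : Dat c N s s') : Dat c N s' s :=
  { D.toDat0.symm with le := D.le, tot := D.tot, down := D.down, dbl := D.dbl, pN := D.pN }

theorem no1 {p : ℕ} (hp : 3 ≤ p) : ¬ (p : ℤ) ∣ 1 := by
  intro h
  have := Int.le_of_dvd (by norm_num) h
  omega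

theorem no2 {p : ℕ} (hp : 3 ≤ p) : ¬ (p : ℤ) ∣ 2 := by
  intro h
  have := Int.le_of_dvd (by norm_num) h
  omega

theorem Dat0.d1 (D : Dat0 c N s s') {p : ℕ} (hp : p.Prime) (hpN : p ∣ N) : (p : ℤ) ∣ 1 + c p := by
  have := D.dv p hpN
  rw [sum_pr _ hp, D.one] at this
  exact_mod_cast this

theorem Dat0.dpq (D : Dat0 c N s s') {p q : ℕ} (hp : p.Prime) (hq : q.Prime) (hpq : p ≠ q) (hpN : p ∣ N)
    (hqN : q ∣ N) : (p : ℤ) ∣ 1 + c q + (c p + c (p * q)) := by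
  have hcop : p.Coprime q := (Nat.coprime_primes hp hq).2 hpq
  have hd := D.dv (p * q) (hcop.mul_dvd_of_dvd_of_dvd hpN hqN)
  rw [sum_cop _ hcop, sum_pr _ hp, sum_pr _ hq, sum_pr _ hq] at hd
  simp only [one_mul, mul_one, D.one] at hd
  refine dvd_trans ⟨(q : ℤ), by push_cast; ring⟩ hd

theorem three_le_mul {p q : ℕ} (hp : 3 ≤ p) (hq : 3 ≤ q) : 3 ≤ p * q := by nlinarith

theorem Dat0.U1 (D : Dat0 c N s s') {p q : ℕ} (hp : p.Prime) (hq : q.Prime) (hp3 : 3 ≤ p) (hq3 : 3 ≤ q)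
    (hpq : p ≠ q) (hpN : p ∣ N) (hqN : q ∣ N) (h1 : c p = s) (h2 : c q = s) :
    c (p * q) = s' ∧ (p : ℤ) ∣ s' - 1 := by
  obtain ⟨k, hk⟩ := D.d1 hp hpN
  obtain ⟨l, hl⟩ := D.dpq hp hq hpq hpN hqN
  rw [h1] at hk
  rw [h1, h2] at hl
  rcases D.val (p * q) (three_le_mul hp3 hq3) with h | h | h
  · exfalso
    rw [h] at hl
    push_cast at hl
    exact no1 hp3 ⟨2 * k - l, by linear_combination 2 * hk - hl⟩
  · exfalso
    rw [h] at hl
    exact no2 hp3 ⟨3 * k - l, by linear_combination 3 * hk - hl⟩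
  · refine ⟨h, ?_⟩
    rw [h] at hl
    exact ⟨l - 2 * k, by linear_combination hl - 2 * hk⟩

theorem Dat0.U2 (D : Dat0 c N s s') {p q r : ℕ} (hp : p.Prime) (hq : q.Prime) (hr : r.Prime) (hp3 : 3 ≤ p)
    (hq3 : 3 ≤ q) (hr3 : 3 ≤ r)
    (hpq : p ≠ q) (hpr : p ≠ r) (hqr : q ≠ r) (hpN : p ∣ N) (hqN : q ∣ N) (hrN : r ∣ N) (h1 : c p = s) (h2 : c q = s)
    (h3 : c r = s') : False := by
  obtain ⟨kp, hkp⟩ := D.d1 hp hpN
  obtain ⟨kq, hkq⟩ := D.d1 hq hqN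
  obtain ⟨kr, hkr⟩ := D.d1 hr hrN
  rw [h1] at hkp; rw [h2] at hkq; rw [h3] at hkr
  obtain ⟨hpqv, lp, hlp⟩ := D.U1 hp hq hp3 hq3 hpq hpN hqN h1 h2
  obtain ⟨_, lq, hlq⟩ := D.U1 hq hp hq3 hp3 hpq.symm hqN hpN h2 h1
  -- c (p r) = s
  have hprv : c (p * r) = s := by
    obtain ⟨l, hl⟩ := D.dpq hp hr hpr hpN hrN
    rw [h1, h3] at hl
    rcases D.val (p * r) (three_le_mul hp3 hr3) with h | h | h
    · exfalso
      rw [h] at hl; push_cast at hl
      exact no1 hp3 ⟨l - kp - lp, by linear_combination hl - hkp - hlp⟩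
    · exact h
    · exfalso
      rw [h] at hl
      exact no2 hp3 ⟨l - kp - 2 * lp, by linear_combination hl - hkp - 2 * hlp⟩
  have hqrv : c (q * r) = s := by
    obtain ⟨l, hl⟩ := D.dpq hq hr hqr hqN hrN
    rw [h2, h3] at hl
    rcases D.val (q * r) (three_le_mul hq3 hr3) with h | h | h
    · exfalso
      rw [h] at hl; push_cast at hl
      exact no1 hq3 ⟨l - kq - lq, by linear_combination hl - hkq - hlq⟩
    · exact h
    · exfalso
      rw [h] at hl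
      exact no2 hq3 ⟨l - kq - 2 * lq, by linear_combination hl - hkq - 2 * hlq⟩
  -- r | 2 s
  have hrs : (r : ℤ) ∣ s := by
    obtain ⟨l, hl⟩ := D.dpq hr hp hpr.symm hrN hpN
    rw [mul_comm r p, hprv, h1, h3] at hl
    have h2s : (r : ℤ) ∣ 2 * s := ⟨l - kr, by linear_combination hl - hkr⟩
    have hr' : _root_.Prime (r : ℤ) := Nat.prime_iff_prime_int.1 hr
    rcases hr'.dvd_or_dvd h2s with h | h
    · exact absurd h (no2 hr3)
    · exact h
  obtain ⟨ls, hls⟩ := hrs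
  have c1 : p.Coprime q := (Nat.coprime_primes hp hq).2 hpq
  have c2 : (p * q).Coprime r := Nat.Coprime.mul_left ((Nat.coprime_primes hp hr).2 hpr) ((Nat.coprime_primes hq hr).2 hqr)
  have hd := D.dv (p * q * r) (c2.mul_dvd_of_dvd_of_dvd (c1.mul_dvd_of_dvd_of_dvd hpN hqN) hrN)
  rw [sum_cop _ c2, sum_cop _ c1, sum_pr _ hp, sum_pr _ hq, sum_pr _ hq, sum_pr _ hr, sum_pr _ hr, sum_pr _ hr,
    sum_pr _ hr] at hd
  simp only [one_mul, mul_one, D.one, h1, h2, h3, hpqv, hprv, hqrv] at hd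
  obtain ⟨l, hl⟩ := hd
  push_cast at hl
  rcases D.val (p * q * r) (three_le_mul (three_le_mul hp3 hq3) hr3) with h | h | h
  · rw [h] at hl
    push_cast at hl
    exact no1 hp3 ⟨4 * kp + 2 * lp - l * q * r, by linear_combination 4 * hkp + 2 * hlp - hl⟩
  · rw [h] at hl
    exact no2 hp3 ⟨5 * kp + 2 * lp - l * q * r, by linear_combination 5 * hkp + 2 * hlp - hl⟩
  · rw [h] at hl
    -- mod r
    exact no2 hr3 ⟨3 * kr + 4 * ls - l * p * q, by linear_combination 3 * hkr + 4 * hls - hl⟩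

end Cfsg.Agent.H11.Nse
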