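import Mathlib
import Cfsg.Agent.H11_Nse

/-! Arithmetic of the numbers of elements of given order taking three values, part 2. -/

set_option autoImplicit false

namespace Cfsg.Agent.H11.Nse

variable {c : ℕ → ℕ} {N s s' : ℕ}

theorem four_dvd_totient {p q : ℕ} (hp : p.Prime) (hq : q.Prime) (hp3 : 3 ≤ p) (hq3 : 3 ≤ q) (hpq : p ≠ q) :
    4 ∣ (p * q).totient := by
  rw [Nat.totient_mul ((Nat.coprime_primes hp hq).2 hpq), Nat.totient_prime hp, Nat.totient_prime hq]
  have h1 : 2 ∣ p - 1 := by have := hp.eq_two_or_odd; omega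
  have h2 : 2 ∣ q - 1 := by have := hq.eq_two_or_odd; omega
  exact mul_dvd_mul h1 h2

theorem Dat.c4 (D : Dat c N s s') (h4 : 4 ∣ N) : (4 : ℤ) ∣ 2 + c 4 := by
  have hd := D.dv 4 h4
  rw [sum_four] at hd
  have h2 : c 2 = 1 := by
    have := D.dbl ((by norm_num : 2 ∣ 4).trans h4) 1 odd_one
    rw [D.one] at this; simpa using this
  rw [D.one, h2] at hd
  push_cast at hd
  have : (2 : ℤ) + c 4 = 1 + 1 + c 4 := by ring
  rw [this]; exact hd

theorem Dat.c4p (D : Dat c N s s') (h4 : 4 ∣ N) {p : ℕ} (hp : p.Prime) (hp3 : 3 ≤ p) (hpN : p ∣ N) (h1 : c p = s)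
    (h : c 4 = s) : c (4 * p) = s' ∧ (p : ℤ) ∣ s' - 1 := by
  obtain ⟨k, hk⟩ := D.d1 hp hpN
  rw [h1] at hk
  have hodd : Odd p := hp.odd_of_ne_two (by omega)
  have hcop : (4 : ℕ).Coprime p := by
    have : (2 : ℕ).Coprime p := (Nat.coprime_primes Nat.prime_two hp).2 (by omega)
    exact Nat.Coprime.pow_left 2 this
  have h2N : 2 ∣ N := (by norm_num : 2 ∣ 4).trans h4
  have h2 : c 2 = 1 := by
    have := D.dbl h2N 1 odd_one
    rw [D.one] at this; simpa using this
  have h2p : c (2 * p) = s := by rw [D.dbl h2N p hodd, h1]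
  have hd := D.dv (4 * p) (hcop.mul_dvd_of_dvd_of_dvd h4 hpN)
  rw [sum_cop _ hcop, sum_four, sum_pr _ hp, sum_pr _ hp, sum_pr _ hp] at hd
  simp only [one_mul, mul_one, D.one, h1, h2, h2p, h] at hd
  obtain ⟨l, hl⟩ := hd
  push_cast at hl
  rcases D.val (4 * p) (by omega) with h' | h' | h'
  · exfalso
    rw [h'] at hl; push_cast at hl
    exact no1 hp3 ⟨3 * k - 4 * l, by linear_combination 3 * hk - hl⟩
  · exfalso
    rw [h'] at hl
    exact no2 hp3 ⟨4 * k - 4 * l, by linear_combination 4 * hk - hl⟩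
  · refine ⟨h', ?_⟩
    rw [h'] at hl
    exact ⟨4 * l - 3 * k, by linear_combination hl - 3 * hk⟩

theorem Dat.odd_dvd (D : Dat c N s s') {p q : ℕ} (hp : p.Prime) (hq : q.Prime) (hp3 : 3 ≤ p)
    (hq3 : 3 ≤ q) (hpq : p ≠ q) (hpN : p ∣ N) (hqN : q ∣ N) (h1 : c p = s) (h2 : c q = s)
    (M : ℕ) (hM : Odd M) (hMN : M ∣ N) : M ∣ 1 + s := by
  rw [Nat.dvd_iff_prime_pow_dvd_dvd]
  intro r k hr hrk
  rcases Nat.eq_zero_or_pos k with rfl | hk
  · simp
  have hrM : r ∣ M := (dvd_pow_self r hk.ne').trans hrk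
  have hrN : r ∣ N := hrM.trans hMN
  have hr2 : r ≠ 2 := by
    rintro rfl
    exact (Nat.not_even_iff_odd.2 hM) (even_iff_two_dvd.2 hrM)
  have hr3 : 3 ≤ r := by have := hr.two_le; omega
  have hrv : c r = s := by
    by_cases e1 : r = p
    · rw [e1, h1]
    by_cases e2 : r = q
    · rw [e2, h2]
    rcases D.val r hr3 with h | h | h
    · exact absurd h (D.pos r hr hrN)
    · exact h
    · exact absurd (D.U2 hp hq hr hp3 hq3 hr3 hpq (Ne.symm e1) (Ne.symm e2) hpN hqN hrN h1 h2 h) id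
  have hr1 : (r : ℤ) ∣ s' - 1 := by
    by_cases e1 : r = p
    · subst e1
      exact (D.U1 hr hq hr3 hq3 hpq hrN hqN hrv h2).2
    · exact (D.U1 hr hp hr3 hp3 e1 hrN hpN hrv h1).2
  obtain ⟨ls, hls⟩ := hr1
  obtain ⟨kr, hkr⟩ := D.d1 hr hrN
  rw [hrv] at hkr
  have hsq : c (r ^ 2) = 0 := by
    by_contra hne
    have ht : r ∣ c (r ^ 2) := by
      refine dvd_trans ?_ (D.tot (r ^ 2))
      rw [Nat.totient_prime_pow hr (by norm_num)]
      simp
    rcases D.val (r ^ 2) (by nlinarith) with h | h | h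
    · exact hne h
    · rw [h] at ht
      obtain ⟨t, ht⟩ := ht
      have ht' : (s : ℤ) = r * t := by exact_mod_cast ht
      exact no1 hr3 ⟨kr - t, by linear_combination hkr - ht'⟩
    · rw [h] at ht
      obtain ⟨t, ht⟩ := ht
      have ht' : (s' : ℤ) = r * t := by exact_mod_cast ht
      exact no1 hr3 ⟨t - ls, by linear_combination ht' - hls⟩
  have hz : ∀ i, 2 ≤ i → c (r ^ i) = 0 := by
    intro i hi
    by_contra hne
    exact D.down (r ^ i) (r ^ 2) (pow_ne_zero _ hr.ne_zero) (pow_dvd_pow r hi) hne hsq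
  have hd := D.dv (r ^ k) (hrk.trans hMN)
  rw [Nat.divisors_prime_pow hr, Finset.sum_map] at hd
  have hsum : ∑ x ∈ Finset.range (k + 1), (c (r ^ x) : ℤ) = 1 + s := by
    rw [← Finset.sum_subset (s₁ := Finset.range 2) (by intro x; simp only [Finset.mem_range]; omega)
      (fun x _ hx => by rw [hz x (by simp only [Finset.mem_range] at hx; omega)]; rfl)]
    rw [Finset.sum_range_succ, Finset.sum_range_one, pow_zero, pow_one, D.one, hrv]; rfl
  have hd' : ((r ^ k : ℕ) : ℤ) ∣ 1 + s := by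
    rw [← hsum]; exact hd
  exact_mod_cast hd'

theorem Dat.same (D : Dat c N s s') {p q : ℕ} (hp : p.Prime) (hq : q.Prime) (hp3 : 3 ≤ p)
    (hq3 : 3 ≤ q) (hpq : p ≠ q) (hpN : p ∣ N) (hqN : q ∣ N) (h1 : c p = s) (h2 : c q = s) : False := by
  have hM := D.odd_dvd hp hq hp3 hq3 hpq hpN hqN h1 h2
  have hcop : p.Coprime q := (Nat.coprime_primes hp hq).2 hpq
  obtain ⟨hpqv, lp, hlp⟩ := D.U1 hp hq hp3 hq3 hpq hpN hqN h1 h2
  have hs0 : s ≠ 0 := h1 ▸ D.pos p hp hpN
  have hop : Odd p := hp.odd_of_ne_two (by omega)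
  have hoq : Odd q := hq.odd_of_ne_two (by omega)
  rcases Nat.even_or_odd N with hev | hodd
  · have h2N : 2 ∣ N := even_iff_two_dvd.1 hev
    have hc2 : c 2 = 1 := by
      have := D.dbl h2N 1 odd_one
      rw [D.one] at this; simpa using this
    by_cases h4 : 4 ∣ N
    · -- 4 divides N
      have h44 := D.c4 h4
      have h4s' : 4 ∣ s' := by
        rw [← hpqv]; exact (four_dvd_totient hp hq hp3 hq3 hpq).trans (D.tot _)
      have hc4 : c 4 = s := by
        rcases D.val 4 (by norm_num) with h | h | h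
        · rw [h] at h44; norm_num at h44
        · exact h
        · exfalso
          rw [h] at h44
          have : (4 : ℤ) ∣ s' := by exact_mod_cast h4s'
          omega
      obtain ⟨h4p, _⟩ := D.c4p h4 hp hp3 hpN h1 hc4
      obtain ⟨h4q, _⟩ := D.c4p h4 hq hq3 hqN h2 hc4
      have h2p : c (2 * p) = s := by rw [D.dbl h2N p hop, h1]
      have h2q : c (2 * q) = s := by rw [D.dbl h2N q hoq, h2]
      have h2pq : c (2 * (p * q)) = s' := by rw [D.dbl h2N _ (hop.mul hoq), hpqv]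
      have c42 : (4 : ℕ).Coprime (p * q) := by
        have : (2 : ℕ).Coprime (p * q) := (Nat.coprime_two_left).2 (hop.mul hoq)
        exact Nat.Coprime.pow_left 2 this
      have hd := D.dv (4 * (p * q)) (c42.mul_dvd_of_dvd_of_dvd h4 (hcop.mul_dvd_of_dvd_of_dvd hpN hqN))
      rw [sum_cop _ c42, sum_four, sum_cop _ hcop, sum_cop (fun b => (c (2 * b) : ℤ)) hcop,
        sum_cop (fun b => (c (4 * b) : ℤ)) hcop] at hd
      simp only [sum_pr _ hp, sum_pr _ hq] at hd
      simp only [one_mul, mul_one, D.one, h1, h2, hpqv, hc2, h2p, h2q, h2pq, hc4, h4p, h4q] at hd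
      obtain ⟨l, hl⟩ := hd
      push_cast at hl
      obtain ⟨k, hk⟩ := D.d1 hp hpN
      rw [h1] at hk
      rcases D.val (4 * (p * q)) (by nlinarith) with h | h | h
      · rw [h] at hl; push_cast at hl
        exact no1 hp3 ⟨4 * l * q - 5 * k - 4 * lp, by linear_combination hl - 5 * hk - 4 * hlp⟩
      · have h4s : 4 ∣ s := by
          rw [← h]
          refine dvd_trans ?_ (D.tot _)
          rw [Nat.totient_mul c42]
          exact dvd_mul_of_dvd_right (four_dvd_totient hp hq hp3 hq3 hpq) _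
        rw [hc4] at h44
        have : (4 : ℤ) ∣ s := by exact_mod_cast h4s
        omega
      · rw [h] at hl
        exact no2 hp3 ⟨4 * l * q - 5 * k - 5 * lp, by linear_combination hl - 5 * hk - 5 * hlp⟩
    · -- N = 2 M
      obtain ⟨M, hMe⟩ := h2N
      have hMo : Odd M := by
        rw [← Nat.not_even_iff_odd, even_iff_two_dvd]
        rintro ⟨t, rfl⟩
        exact h4 ⟨t, by rw [hMe]; ring⟩
      have h5 := Nat.le_of_dvd (by omega) (hM M hMo ⟨2, by rw [hMe]; ring⟩)
      have h6 := D.le (p * q) (by positivity)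
      rw [sum_cop _ hcop, sum_pr _ hp, sum_pr _ hq, sum_pr _ hq] at h6
      have h7 := D.le (2 * (p * q)) (by have := hp.pos; have := hq.pos; positivity)
      have c22 : (2 : ℕ).Coprime (p * q) := (Nat.coprime_two_left).2 (hop.mul hoq)
      rw [sum_cop _ c22, sum_pr _ Nat.prime_two, sum_cop _ hcop, sum_cop (fun b => (c (2 * b) : ℤ)) hcop] at h7
      simp only [sum_pr _ hp, sum_pr _ hq] at h7
      simp only [one_mul, mul_one, D.one, h1, h2, hpqv, hc2, D.dbl ⟨M, hMe⟩ p hop, D.dbl ⟨M, hMe⟩ q hoq,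
        D.dbl ⟨M, hMe⟩ _ (hop.mul hoq)] at h7
      push_cast at h7
      omega
  · have h5 := Nat.le_of_dvd (by omega) (hM N hodd dvd_rfl)
    have h6 := D.le (p * q) (by have := hp.pos; have := hq.pos; positivity)
    rw [sum_cop _ hcop, sum_pr _ hp, sum_pr _ hq, sum_pr _ hq] at h6
    simp only [one_mul, mul_one, D.one, h1, h2, hpqv] at h6
    push_cast at h6
    omega

theorem Dat.diff_aux (D : Dat c N s s') (h4 : 4 ∣ N) {p q : ℕ} (hp : p.Prime) (hq : q.Prime) (hp3 : 3 ≤ p)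
    (hq3 : 3 ≤ q) (hpq : p ≠ q) (hpN : p ∣ N) (hqN : q ∣ N) (h1 : c p = s) (h2 : c q = s') (h : c 4 = s) : False := by
  obtain ⟨_, lp, hlp⟩ := D.c4p h4 hp hp3 hpN h1 h
  obtain ⟨k, hk⟩ := D.d1 hp hpN
  rw [h1] at hk
  have h44 := D.c4 h4
  obtain ⟨l, hl⟩ := D.dpq hp hq hpq hpN hqN
  rw [h1, h2] at hl
  rcases D.val (p * q) (three_le_mul hp3 hq3) with h' | h' | h'
  · rw [h'] at hl; push_cast at hl
    exact no1 hp3 ⟨l - k - lp, by linear_combination hl - hk - hlp⟩
  · have h4s : 4 ∣ s := by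
      rw [← h']; exact (four_dvd_totient hp hq hp3 hq3 hpq).trans (D.tot _)
    rw [h] at h44
    have : (4 : ℤ) ∣ s := by exact_mod_cast h4s
    omega
  · rw [h'] at hl
    exact no2 hp3 ⟨l - k - 2 * lp, by linear_combination hl - hk - 2 * hlp⟩

theorem Dat.diff (D : Dat c N s s') (h4 : 4 ∣ N) {p q : ℕ} (hp : p.Prime) (hq : q.Prime) (hp3 : 3 ≤ p)
    (hq3 : 3 ≤ q) (hpq : p ≠ q) (hpN : p ∣ N) (hqN : q ∣ N) (h1 : c p = s) (h2 : c q = s') : False := by
  rcases D.val 4 (by norm_num) with h | h | h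
  · have h44 := D.c4 h4
    rw [h] at h44; norm_num at h44
  · exact D.diff_aux h4 hp hq hp3 hq3 hpq hpN hqN h1 h2 h
  · exact D.symm.diff_aux h4 hq hp hq3 hp3 hpq.symm hqN hpN h2 h1 h

/-- at most two odd primes, and with two odd primes `4` does not divide `N` -/
theorem Dat.two (D : Dat c N s s') {p q : ℕ} (hp : p.Prime) (hq : q.Prime) (hp3 : 3 ≤ p)
    (hq3 : 3 ≤ q) (hpq : p ≠ q) (hpN : p ∣ N) (hqN : q ∣ N) :
    ¬ 4 ∣ N ∧ ∀ r : ℕ, r.Prime → 3 ≤ r → r ∣ N → r = p ∨ r = q := by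
  constructor
  · intro h4
    rcases D.val p hp3 with h | h | h
    · exact D.pos p hp hpN h
    · rcases D.val q hq3 with h' | h' | h'
      · exact D.pos q hq hqN h'
      · exact D.same hp hq hp3 hq3 hpq hpN hqN h h'
      · exact D.diff h4 hp hq hp3 hq3 hpq hpN hqN h h'
    · rcases D.val q hq3 with h' | h' | h'
      · exact D.pos q hq hqN h'
      · exact D.symm.diff h4 hp hq hp3 hq3 hpq hpN hqN h h'
      · exact D.symm.same hp hq hp3 hq3 hpq hpN hqN h h'
  · intro r hr hr3 hrN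
    by_contra hcon
    push Not at hcon
    obtain ⟨e1, e2⟩ := hcon
    rcases D.val p hp3 with h | h | h
    · exact D.pos p hp hpN h
    · rcases D.val q hq3 with h' | h' | h'
      · exact D.pos q hq hqN h'
      · exact D.same hp hq hp3 hq3 hpq hpN hqN h h'
      · rcases D.val r hr3 with h'' | h'' | h''
        · exact D.pos r hr hrN h''
        · exact D.same hp hr hp3 hr3 (Ne.symm e1) hpN hrN h h''
        · exact D.symm.same hq hr hq3 hr3 (Ne.symm e2) hqN hrN h' h''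
    · rcases D.val q hq3 with h' | h' | h'
      · exact D.pos q hq hqN h'
      · rcases D.val r hr3 with h'' | h'' | h''
        · exact D.pos r hr hrN h''
        · exact D.same hq hr hq3 hr3 (Ne.symm e2) hqN hrN h' h''
        · exact D.symm.same hp hr hp3 hr3 (Ne.symm e1) hpN hrN h h''
      · exact D.symm.same hp hq hp3 hq3 hpq hpN hqN h h'

end Cfsg.Agent.H11.Nse
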