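import Mathlib
import Cfsg.Agent.H11_Nse2
import Cfsg.Agent.H23_Count
import Cfsg.Agent.H3_Burnside

/-! Groups where the numbers of elements of given order take three values. -/

set_option autoImplicit false

namespace Cfsg.Agent.H11.Nse

open Subgroup

variable {G : Type*} [Group G] [Finite G]

omit [Finite G] in
theorem zpowers_eq_iff [Finite G] (x y : G) : zpowers y = zpowers x ↔ y ∈ zpowers x ∧ orderOf y = orderOf x := by
  constructor
  · intro h
    refine ⟨by rw [← h]; exact mem_zpowers y, ?_⟩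
    rw [← Nat.card_zpowers, ← Nat.card_zpowers, h]
  · rintro ⟨h1, h2⟩
    apply eq_of_le_of_card_ge (zpowers_le.2 h1)
    rw [Nat.card_zpowers, Nat.card_zpowers, h2]

omit [Finite G] in
theorem card_gen [Finite G] (x : G) : Nat.card {y : G // zpowers y = zpowers x} = Nat.totient (orderOf x) := by
  classical
  haveI : Fintype (zpowers x) := Fintype.ofFinite _
  have h1 := IsCyclic.card_orderOf_eq_totient (α := zpowers x) (d := orderOf x) (by
    rw [← Nat.card_eq_fintype_card, Nat.card_zpowers])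
  rw [← h1, ← Fintype.card_subtype, ← Nat.card_eq_fintype_card]
  apply Nat.card_congr
  refine ⟨fun y => ⟨⟨y.1, ((zpowers_eq_iff x y.1).1 y.2).1⟩, by rw [orderOf_mk]; exact ((zpowers_eq_iff x y.1).1 y.2).2⟩,
    fun y => ⟨y.1.1, (zpowers_eq_iff x y.1.1).2 ⟨y.1.2, (orderOf_coe y.1).trans y.2⟩⟩, fun y => rfl, fun y => rfl⟩

omit [Finite G] in
theorem dvd_card_of_gen [Finite G] (Y : Set G) (hY : ∀ y ∈ Y, ∀ z, zpowers z = zpowers y → z ∈ Y) (d : ℕ)
    (hd : ∀ y ∈ Y, d ∣ Nat.totient (orderOf y)) : d ∣ Nat.card Y := by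
  classical
  haveI := Fintype.ofFinite G
  rw [Nat.card_eq_fintype_card, ← Set.toFinset_card, Finset.card_eq_sum_card_image (fun y : G => zpowers y)]
  apply Finset.dvd_sum
  intro C hC
  rw [Finset.mem_image] at hC
  obtain ⟨y, hy, rfl⟩ := hC
  rw [Set.mem_toFinset] at hy
  have h1 : (Finset.filter (fun z => zpowers z = zpowers y) Y.toFinset).card = Nat.card {z : G // zpowers z = zpowers y} := by
    rw [Nat.card_eq_fintype_card, Fintype.card_subtype]
    congr 1
    ext z
    simp only [Finset.mem_filter, Set.mem_toFinset, Finset.mem_univ, true_and]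
    exact ⟨fun h => h.2, fun h => ⟨hY y hy z h, h⟩⟩
  rw [h1, card_gen]
  exact hd y hy

/-- number of elements of order `m` -/
noncomputable def cc (G : Type*) [Group G] (m : ℕ) : ℕ := Nat.card {g : G // orderOf g = m}

theorem sum_cc (n : ℕ) (hn : n ≠ 0) : ∑ d ∈ n.divisors, (cc G d : ℤ) = Nat.card {g : G // g ^ n = 1} := by
  classical
  haveI := Fintype.ofFinite G
  have h := sum_card_orderOf_eq_card_pow_eq_one (G := G) (n := n) hn
  have h1 : Nat.card {g : G // g ^ n = 1} = (Finset.univ.filter (fun x : G => x ^ n = 1)).card := by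
    rw [Nat.card_eq_fintype_card, Fintype.card_subtype]
  have h2 : ∀ d, cc G d = (Finset.univ.filter (fun x : G => orderOf x = d)).card := by
    intro d
    rw [cc, Nat.card_eq_fintype_card, Fintype.card_subtype]
  rw [h1, ← h]
  push_cast
  exact Finset.sum_congr rfl (fun d _ => by rw [h2 d])

theorem cc_one : cc G 1 = 1 := by
  rw [cc, Nat.card_eq_one_iff_unique]
  exact ⟨⟨fun a b => Subtype.ext (by rw [orderOf_eq_one_iff.1 a.2, orderOf_eq_one_iff.1 b.2])⟩, ⟨⟨1, orderOf_one⟩⟩⟩

theorem cc_ne {m : ℕ} : cc G m ≠ 0 ↔ ∃ g : G, orderOf g = m := by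
  rw [cc, Nat.card_ne_zero]
  constructor
  · rintro ⟨⟨g⟩, _⟩; exact ⟨g.1, g.2⟩
  · rintro ⟨g, hg⟩; exact ⟨⟨⟨g, hg⟩⟩, inferInstance⟩

theorem cc_tot (m : ℕ) : m.totient ∣ cc G m := by
  have := dvd_card_of_gen (G := G) {g | orderOf g = m}
    (fun y hy z hz => by
      have := ((zpowers_eq_iff y z).1 hz).2
      simp only [Set.mem_setOf_eq] at hy ⊢
      rw [this, hy]) m.totient (fun y hy => by simp only [Set.mem_setOf_eq] at hy; rw [hy])
  exact this

theorem cc_le (n : ℕ) (hn : n ≠ 0) : ∑ d ∈ n.divisors, (cc G d : ℤ) ≤ Nat.card G := by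
  rw [sum_cc n hn]
  exact_mod_cast Nat.card_le_card_of_injective _ Subtype.val_injective

theorem solv_of_primes (p q : ℕ) (hp : p.Prime) (hq : q.Prime) (hpq : p ≠ q)
    (h : ∀ r : ℕ, r.Prime → r ∣ Nat.card G → r = p ∨ r = q) : Group.IsSolvable G := by
  have hN : Nat.card G ≠ 0 := Nat.card_pos.ne'
  refine Cfsg.Agent.H3.Burnside.burnside (Nat.card G) G p q ((Nat.card G).factorization p)
    ((Nat.card G).factorization q) hp hq rfl ?_
  conv_lhs => rw [← Nat.prod_factorization_pow_eq_self hN]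
  rw [Finsupp.prod_of_support_subset (s := {p, q}) _ _ _ (by simp), Finset.prod_pair hpq]
  intro r hr
  rw [Nat.support_factorization, Nat.mem_primeFactors] at hr
  rcases h r hr.1 hr.2.1 with h | h <;> simp [h]

theorem unique_center (h2 : cc G 2 = 1) : ∃ z : G, orderOf z = 2 ∧ z ∈ Subgroup.center G ∧ ∀ g : G, orderOf g = 2 → g = z := by
  rw [cc, Nat.card_eq_one_iff_unique] at h2
  obtain ⟨⟨hu⟩, ⟨z, hz⟩⟩ := h2
  have huz : ∀ g : G, orderOf g = 2 → g = z := fun g hg => congrArg Subtype.val (hu ⟨g, hg⟩ ⟨z, hz⟩)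
  refine ⟨z, hz, ?_, huz⟩
  rw [Subgroup.mem_center_iff]
  intro g
  have := huz (g * z * g⁻¹) (by
    rw [← MulAut.conj_apply, MulEquiv.orderOf_eq, hz])
  calc g * z = (g * z * g⁻¹) * g := by group
    _ = z * g := by rw [this]

theorem cc_dbl (h2 : cc G 2 = 1) (m : ℕ) (hm : Odd m) : cc G (2 * m) = cc G m := by
  obtain ⟨z, hz, hzc, hu⟩ := unique_center h2
  have hzc' : ∀ g : G, Commute z g := fun g => (Subgroup.mem_center_iff.1 hzc g).symm
  have hz2 : z * z = 1 := by rw [← sq, ← hz]; exact pow_orderOf_eq_one z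
  symm
  apply Nat.card_congr
  refine Equiv.subtypeEquiv (Equiv.mulLeft z) (fun g => ?_)
  rw [Equiv.coe_mulLeft]
  constructor
  · intro hg
    rw [(hzc' g).orderOf_mul_eq_mul_orderOf_of_coprime (by rw [hz, hg]; exact Nat.coprime_two_left.2 hm), hz, hg]
  · intro hg
    set k := z * g with hk
    have hkm : k ^ m = z := hu _ (by
      rw [orderOf_pow' _ (by rintro rfl; exact absurd hm (by decide)), hg, Nat.gcd_eq_right (dvd_mul_left m 2)]
      exact Nat.mul_div_cancel _ hm.pos)
    have hgk : g = k ^ (m + 1) := by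
      rw [pow_succ, hkm, hk, ← mul_assoc, hz2, one_mul]
    rw [hgk, orderOf_pow' _ (by omega), hg]
    have hgcd : Nat.gcd (2 * m) (m + 1) = 2 := by
      have h1 : Nat.Coprime m (m + 1) := by simp
      rw [Nat.Coprime.gcd_mul_right_cancel _ h1]
      exact Nat.gcd_eq_left (by obtain ⟨t, rfl⟩ := hm; exact ⟨t + 1, by ring⟩)
    rw [hgcd]
    exact Nat.mul_div_cancel_left _ (by norm_num)

theorem dat0 {s s' : ℕ} (hv : ∀ m, 3 ≤ m → cc G m = 0 ∨ cc G m = s ∨ cc G m = s') :
    Dat0 (cc G) (Nat.card G) s s' where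
  dv := fun n hn => by
    rw [sum_cc n (fun h => Nat.card_pos.ne' (Nat.eq_zero_of_zero_dvd (h ▸ hn)))]
    exact_mod_cast Cfsg.Agent.H23.Count.frobenius n hn
  one := cc_one
  pos := fun p hp hpN => by
    haveI := Fact.mk hp
    exact cc_ne.2 (exists_prime_orderOf_dvd_card' p hpN)
  val := hv

theorem dat {s s' : ℕ} (hv : ∀ m, 3 ≤ m → cc G m = 0 ∨ cc G m = s ∨ cc G m = s') (h2 : cc G 2 ≤ 1) :
    Dat (cc G) (Nat.card G) s s' :=
  { dat0 hv with
    le := fun n hn => cc_le n hn
    tot := cc_tot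
    down := fun m k hm hkm h => by
      obtain ⟨g, hg⟩ := cc_ne.1 h
      obtain ⟨t, rfl⟩ := hkm
      refine cc_ne.2 ⟨g ^ t, ?_⟩
      have ht : t ≠ 0 := by rintro rfl; simp at hm
      rw [orderOf_pow' _ ht, hg, Nat.gcd_eq_right (dvd_mul_left t k)]
      exact Nat.mul_div_cancel _ (Nat.pos_of_ne_zero ht)
    dbl := fun h m hm => by
      haveI := Fact.mk Nat.prime_two
      have : cc G 2 ≠ 0 := cc_ne.2 (exists_prime_orderOf_dvd_card' 2 h)
      exact cc_dbl (by omega) m hm
    pN := Nat.card_pos }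

theorem solv_quot (z : G) (hzc : z ∈ Subgroup.center G) (h : ∀ (N : Subgroup G) [N.Normal], N = zpowers z → Group.IsSolvable (G ⧸ N)) :
    Group.IsSolvable G := by
  have hle : zpowers z ≤ Subgroup.center G := by rw [zpowers_le]; exact hzc
  haveI hn : (zpowers z).Normal := ⟨fun x hx g => by
    have := Subgroup.mem_center_iff.1 (hle hx) g
    rwa [this, mul_inv_cancel_right]⟩
  haveI := h (zpowers z) rfl
  exact solvable_of_ker_le_range (zpowers z).subtype (QuotientGroup.mk' (zpowers z)) (by simp)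

theorem solv {s s' : ℕ} (hv : ∀ m, 3 ≤ m → cc G m = 0 ∨ cc G m = s ∨ cc G m = s')
    (h2 : cc G 2 ≤ 1 ∨ s = s') : Group.IsSolvable G := by
  by_cases H : ∃ p q : ℕ, p.Prime ∧ q.Prime ∧ 3 ≤ p ∧ 3 ≤ q ∧ p ≠ q ∧ p ∣ Nat.card G ∧ q ∣ Nat.card G
  · obtain ⟨p, q, hp, hq, hp3, hq3, hpq, hpN, hqN⟩ := H
    rcases h2 with h2 | h2
    · have D := dat hv h2
      obtain ⟨h4, hr⟩ := D.two hp hq hp3 hq3 hpq hpN hqN
      by_cases h2N : 2 ∣ Nat.card G
      · have hc2 : cc G 2 = 1 := by
          haveI := Fact.mk Nat.prime_two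
          have : cc G 2 ≠ 0 := cc_ne.2 (exists_prime_orderOf_dvd_card' 2 h2N)
          omega
        obtain ⟨z, hz, hzc, _⟩ := unique_center hc2
        refine solv_quot z hzc (fun N _ hN => ?_)
        apply solv_of_primes p q hp hq hpq
        have hcard : Nat.card G = Nat.card (G ⧸ N) * 2 := by
          rw [Subgroup.card_eq_card_quotient_mul_card_subgroup N]
          congr 1
          rw [hN, Nat.card_zpowers, hz]
        intro r hr' hrd
        have hr2 : r ≠ 2 := by
          rintro rfl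
          obtain ⟨t, ht⟩ := hrd
          exact h4 ⟨t, by rw [hcard, ht]; ring⟩
        exact hr r hr' (by have := hr'.two_le; omega) (hcard ▸ dvd_mul_of_dvd_left hrd 2)
      · apply solv_of_primes p q hp hq hpq
        intro r hr' hrd
        have hr2 : r ≠ 2 := by rintro rfl; exact h2N hrd
        exact hr r hr' (by have := hr'.two_le; omega) hrd
    · exfalso
      subst h2
      have D := dat0 (G := G) hv
      have hv' : ∀ r : ℕ, r.Prime → 3 ≤ r → r ∣ Nat.card G → cc G r = s := by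
        intro r hr hr3 hrN
        rcases D.val r hr3 with h | h | h
        · exact absurd h (D.pos r hr hrN)
        · exact h
        · exact h
      obtain ⟨_, l, hl⟩ := D.U1 hp hq hp3 hq3 hpq hpN hqN (hv' p hp hp3 hpN) (hv' q hq hq3 hqN)
      obtain ⟨k, hk⟩ := D.d1 hp hpN
      rw [hv' p hp hp3 hpN] at hk
      exact no2 hp3 ⟨k - l, by linear_combination hk - hl⟩
  · by_cases H1 : ∃ p : ℕ, p.Prime ∧ 3 ≤ p ∧ p ∣ Nat.card G
    · obtain ⟨p, hp, hp3, hpN⟩ := H1
      apply solv_of_primes 2 p Nat.prime_two hp (by omega)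
      intro r hr hrN
      by_contra hcon
      push Not at hcon
      exact H ⟨p, r, hp, hr, hp3, by have := hr.two_le; omega, Ne.symm hcon.2, hpN, hrN⟩
    · apply solv_of_primes 2 3 Nat.prime_two Nat.prime_three (by omega)
      intro r hr hrN
      left
      by_contra hcon
      exact H1 ⟨r, hr, by have := hr.two_le; omega, hrN⟩

end Cfsg.Agent.H11.Nse
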