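import Mathlib
import Cfsg.Prelude.Def_Solvable

/-! Groups all of whose elements have order 1, p or q: Frobenius complements of prime order. -/

set_option autoImplicit false

namespace Cfsg.Agent.H11.Nse

open Subgroup

theorem PL {G W : Type*} [Group G] [CommGroup W] (φ : G →* MulAut W) {ι : Type*} [Fintype ι] (e : ι → G)
    (hQ : ∀ w : W, ∏ i, φ (e i) w = 1) (h : ι → G) (g : G) (l : ℕ) (hl : 0 < l)
    (hh : ∀ i (w : W), ∏ k ∈ Finset.range l, φ ((h i) ^ k) w = 1)
    (hw : ∀ k, 1 ≤ k → k < l → ∃ σ : ι ≃ ι, ∀ i, (h i) ^ k = e (σ i) * g ^ k) (w : W) :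
    w ^ (Fintype.card ι) = 1 := by
  have h1 : ∏ i, ∏ k ∈ Finset.range l, φ ((h i) ^ k) w = 1 := Finset.prod_eq_one (fun i _ => hh i w)
  rw [Finset.prod_comm] at h1
  obtain ⟨m, rfl⟩ : ∃ m, l = m + 1 := ⟨l - 1, by omega⟩
  rw [Finset.prod_range_succ'] at h1
  have h2 : ∏ k ∈ Finset.range m, ∏ i, φ ((h i) ^ (k + 1)) w = 1 := by
    apply Finset.prod_eq_one
    intro k hk
    obtain ⟨σ, hσ⟩ := hw (k + 1) (by omega) (by simp only [Finset.mem_range] at hk; omega)
    calc ∏ i, φ ((h i) ^ (k + 1)) w = ∏ i, φ (e (σ i)) (φ (g ^ (k + 1)) w) := by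
          apply Finset.prod_congr rfl; intro i _; rw [hσ, map_mul]; rfl
      _ = ∏ i, φ (e i) (φ (g ^ (k + 1)) w) := Equiv.prod_comp σ (fun i => φ (e i) (φ (g ^ (k + 1)) w))
      _ = 1 := hQ _
  rw [h2, one_mul] at h1
  simpa using h1

theorem prod_zpowers {G W : Type*} [Group G] [Finite G] [CommGroup W] (φ : G →* MulAut W) (y : G)
    [Fintype (zpowers y)] (hf : ∀ w : W, φ y w = w → w = 1) (w : W) : ∏ u : zpowers y, φ (u : G) w = 1 := by
  apply hf
  rw [map_prod]
  calc ∏ u : zpowers y, φ y (φ (u : G) w) = ∏ u : zpowers y, φ (((⟨y, mem_zpowers y⟩ : zpowers y) * u : zpowers y) : G) w := by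
        apply Finset.prod_congr rfl; intro u _
        rw [Subgroup.coe_mul, map_mul]; rfl
    _ = ∏ u : zpowers y, φ (u : G) w :=
        Equiv.prod_comp (Equiv.mulLeft (⟨y, mem_zpowers y⟩ : zpowers y)) (fun u => φ (u : G) w)

theorem prod_range_pow {G W : Type*} [Group G] [CommGroup W] (φ : G →* MulAut W) (y : G) (q : ℕ) (hy : y ^ q = 1)
    (hf : ∀ w : W, φ y w = w → w = 1) (w : W) : ∏ k ∈ Finset.range q, φ (y ^ k) w = 1 := by
  apply hf
  rw [map_prod]
  have h1 : ∏ k ∈ Finset.range q, φ y (φ (y ^ k) w) = ∏ k ∈ Finset.range q, φ (y ^ (k + 1)) w := by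
    apply Finset.prod_congr rfl; intro k _
    rw [pow_succ', map_mul]; rfl
  rw [h1]
  have h2 := Finset.prod_range_succ' (fun k => φ (y ^ k) w) q
  have h3 := Finset.prod_range_succ (fun k => φ (y ^ k) w) q
  rw [h2] at h3
  simp only [pow_zero, hy] at h3
  exact mul_right_cancel h3

theorem coe_prod_pow {G W : Type*} [Group G] [CommGroup W] (φ : G →* MulAut W) (j : W →* G)
    (hφ : ∀ (g : G) (v : W), j (φ g v) = g * j v * g⁻¹) (h : G) (w : W) (n : ℕ) :
    j (∏ k ∈ Finset.range n, φ (h ^ k) w) = (j w * h) ^ n * (h ^ n)⁻¹ := by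
  induction n with
  | zero => simp
  | succ n ih =>
    rw [Finset.prod_range_succ, map_mul, ih, hφ, pow_succ (j w * h), pow_succ' h]
    group

/-- the common set-up -/
structure Setup (G W : Type*) [Group G] [CommGroup W] (φ : G →* MulAut W) (j : W →* G) (p q : ℕ) : Prop where
  hp : p.Prime
  hq : q.Prime
  hpq : p ≠ q
  hO : ∀ g : G, orderOf g = 1 ∨ orderOf g = p ∨ orderOf g = q
  inj : Function.Injective j
  hφ : ∀ (g : G) (v : W), j (φ g v) = g * j v * g⁻¹
  hW : ∀ w : W, orderOf w ≠ q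
  hne : ∃ w : W, w ≠ 1

variable {G W : Type*} [Group G] [Finite G] [CommGroup W] {φ : G →* MulAut W} {j : W →* G} {p q : ℕ}

omit [Finite G] in
theorem Setup.no_pq (S : Setup G W φ j p q) (x y : G) (hx : orderOf x = p) (hy : orderOf y = q) (hc : Commute x y) : False := by
  have h := hc.orderOf_mul_eq_mul_orderOf_of_coprime (by rw [hx, hy]; exact (Nat.coprime_primes S.hp S.hq).2 S.hpq)
  rw [hx, hy] at h
  have hp2 := S.hp.two_le
  have hq2 := S.hq.two_le
  rcases S.hO (x * y) with h' | h' | h' <;> rw [h'] at h <;> nlinarith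

omit [Finite G] in
theorem Setup.ordW (S : Setup G W φ j p q) (w : W) (hw : w ≠ 1) : orderOf w = p := by
  have h := orderOf_injective j S.inj w
  rcases S.hO (j w) with h' | h' | h'
  · rw [h'] at h; exact absurd (orderOf_eq_one_iff.1 h.symm) hw
  · rw [← h, h']
  · exact absurd (h.symm.trans h') (S.hW w)

omit [Finite G] in
theorem Setup.fpf (S : Setup G W φ j p q) (y : G) (hy : orderOf y = q) (w : W) (h : φ y w = w) : w = 1 := by
  by_contra hne
  have h1 := S.ordW w hne
  rw [← orderOf_injective j S.inj] at h1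
  refine S.no_pq (j w) y h1 hy ?_
  have := S.hφ y w
  rw [h] at this
  show j w * y = y * j w
  nth_rewrite 1 [this]
  group

omit [Finite G] in
theorem Setup.normp (S : Setup G W φ j p q) (h : G) (hh : orderOf h = p) (w : W) :
    ∏ k ∈ Finset.range p, φ (h ^ k) w = 1 := by
  apply S.inj
  rw [map_one, coe_prod_pow φ j S.hφ, ← hh, pow_orderOf_eq_one, inv_one, mul_one, hh]
  rcases S.hO (j w * h) with h' | h' | h'
  · rw [orderOf_eq_one_iff.1 h', one_pow]
  · rw [← h']; exact pow_orderOf_eq_one _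
  · exfalso
    set w' := ∏ k ∈ Finset.range p, φ (h ^ k) w with hw'
    have h1 : j w' = (j w * h) ^ p := by
      rw [hw', coe_prod_pow φ j S.hφ, ← hh, pow_orderOf_eq_one, inv_one, mul_one]
    have h2 : orderOf w' = q := by
      rw [← orderOf_injective j S.inj, h1, Nat.Coprime.orderOf_pow, h']
      rw [h']; exact (Nat.coprime_primes S.hq S.hp).2 S.hpq.symm
    exact S.hW w' h2

theorem Setup.contra (S : Setup G W φ j p q) (h : ∀ w : W, w ^ q = 1) : False := by
  obtain ⟨w, hw⟩ := S.hne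
  have h1 := S.ordW w hw
  have h2 := orderOf_dvd_of_pow_eq_one (h w)
  rw [h1] at h2
  exact S.hpq ((Nat.prime_dvd_prime_iff_eq S.hp S.hq).1 h2)

/-- no element of order `p` normalizes a subgroup of order `q` -/
theorem Setup.caseT (S : Setup G W φ j p q) (y t : G) (hy : orderOf y = q) (ht : orderOf t = p)
    (hn : ∀ u ∈ zpowers y, t * u * t⁻¹ ∈ zpowers y) : False := by
  classical
  haveI : Fintype (zpowers y) := Fintype.ofFinite _
  apply S.contra
  intro w
  have hnk : ∀ (k : ℕ) (u : G), u ∈ zpowers y → t ^ k * u * (t ^ k)⁻¹ ∈ zpowers y := by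
    intro k
    induction k with
    | zero => intro u hu; simpa using hu
    | succ k ih =>
      intro u hu
      have := hn _ (ih u hu)
      rw [pow_succ', mul_inv_rev]
      convert this using 1
      group
  have hcard : Fintype.card (zpowers y) = q := by rw [← Nat.card_eq_fintype_card, Nat.card_zpowers, hy]
  rw [← hcard]
  refine PL φ (fun u : zpowers y => (u : G)) (prod_zpowers φ y (fun w hw => S.fpf y hy w hw))
    (fun u : zpowers y => (u : G) * t * (u : G)⁻¹) t p S.hp.pos (fun i w => ?_) (fun k hk1 hk2 => ?_) w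
  · refine S.normp _ ?_ w
    rw [← MulAut.conj_apply, MulEquiv.orderOf_eq, ht]
  · have hinj : Function.Injective (fun u : zpowers y => (⟨(u : G) * (t ^ k * (u : G)⁻¹ * (t ^ k)⁻¹),
        mul_mem u.2 (hnk k _ (inv_mem u.2))⟩ : zpowers y)) := by
      intro a b hab
      have hab' : (a : G) * (t ^ k * (a : G)⁻¹ * (t ^ k)⁻¹) = (b : G) * (t ^ k * (b : G)⁻¹ * (t ^ k)⁻¹) :=
        congrArg Subtype.val hab
      by_contra hne
      have hd1 : ((b : G)⁻¹ * a) ≠ 1 := fun h => hne (Subtype.ext (by rw [inv_mul_eq_one] at h; exact h.symm))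
      have hd2 : ((b : G)⁻¹ * a) ∈ zpowers y := mul_mem (inv_mem b.2) a.2
      have hdo : orderOf ((b : G)⁻¹ * a) = q := by
        have h1 : orderOf ((b : G)⁻¹ * a) ∣ q := by rw [← hy]; exact orderOf_dvd_of_mem_zpowers hd2
        rcases (Nat.dvd_prime S.hq).1 h1 with h | h
        · exact absurd (orderOf_eq_one_iff.1 h) hd1
        · exact h
      have hto : orderOf (t ^ k) = p := by
        rw [Nat.Coprime.orderOf_pow, ht]
        rw [ht]; exact Nat.coprime_of_lt_prime (by omega) hk2 S.hp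
      refine S.no_pq (t ^ k) ((b : G)⁻¹ * a) hto hdo ?_
      show t ^ k * ((b : G)⁻¹ * a) = ((b : G)⁻¹ * a) * t ^ k
      have h3 : (a : G) * t ^ k * (a : G)⁻¹ = (b : G) * t ^ k * (b : G)⁻¹ := by
        have := congrArg (· * t ^ k) hab'
        simpa [mul_assoc] using this
      calc t ^ k * ((b : G)⁻¹ * a) = (b : G)⁻¹ * ((b : G) * t ^ k * (b : G)⁻¹) * a := by group
        _ = (b : G)⁻¹ * ((a : G) * t ^ k * (a : G)⁻¹) * a := by rw [h3]
        _ = ((b : G)⁻¹ * a) * t ^ k := by group
    refine ⟨Equiv.ofBijective _ (Finite.injective_iff_bijective.1 hinj), fun i => ?_⟩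
    simp only [Equiv.ofBijective_apply]
    rw [conj_pow]
    group

/-- no two independent commuting elements of order `q` -/
theorem Setup.caseE (S : Setup G W φ j p q) (x y : G) (hx : orderOf x = q) (hy : orderOf y = q) (hc : Commute x y)
    (hxy : y ∉ zpowers x) : False := by
  classical
  haveI : Fintype (zpowers x) := Fintype.ofFinite _
  apply S.contra
  intro w
  have hcard' : Nat.card (zpowers x) = q := by rw [Nat.card_zpowers, hx]
  have hcard : Fintype.card (zpowers x) = q := by rw [← Nat.card_eq_fintype_card, hcard']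
  have hcu : ∀ u : zpowers x, Commute (u : G) y := by
    intro u
    obtain ⟨k, hk⟩ := mem_zpowers_iff.1 u.2
    rw [← hk]; exact hc.zpow_left k
  have huq : ∀ u : zpowers x, (u : G) ^ q = 1 := by
    intro u
    have := pow_card_eq_one' (x := u)
    rw [hcard'] at this
    exact congrArg Subtype.val this
  rw [← hcard]
  refine PL φ (fun u : zpowers x => (u : G)) (prod_zpowers φ x (fun w hw => S.fpf x hx w hw))
    (fun u : zpowers x => (u : G) * y) y q S.hq.pos (fun i w => ?_) (fun k hk1 hk2 => ?_) w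
  · have h1 : ((i : G) * y) ^ q = 1 := by
      rw [(hcu i).mul_pow, huq i, ← hy, pow_orderOf_eq_one, one_mul]
    have h2 : orderOf ((i : G) * y) = q := by
      have h3 := orderOf_dvd_of_pow_eq_one h1
      rcases (Nat.dvd_prime S.hq).1 h3 with h | h
      · exfalso
        rw [orderOf_eq_one_iff, mul_eq_one_iff_inv_eq] at h
        exact hxy (h ▸ inv_mem i.2)
      · exact h
    exact prod_range_pow φ _ q h1 (fun w hw => S.fpf _ h2 w hw) w
  · have hcop : (Nat.card (zpowers x)).Coprime k := by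
      rw [hcard']; exact Nat.coprime_of_lt_prime (by omega) hk2 S.hq
    refine ⟨powCoprime hcop, fun i => ?_⟩
    rw [(hcu i).mul_pow]
    rfl

end Cfsg.Agent.H11.Nse
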