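import Mathlib
import Cfsg.Agent.H11_Nse3
import Cfsg.Agent.H11_Nse4

/-! Odd order groups with three same-order class sizes. -/

set_option autoImplicit false

namespace Cfsg.Agent.H11.Nse

open Subgroup
open scoped Pointwise

variable {G W : Type*} [Group G] [Finite G] [CommGroup W] {φ : G →* MulAut W} {j : W →* G} {p q : ℕ}

theorem Setup.zp_eq (P : Subgroup G) (hq : q.Prime) (hP : Nat.card P = q) (z : G) (hz : z ∈ P) (hz1 : z ≠ 1) :
    zpowers z = P := by
  apply eq_of_le_of_card_ge (zpowers_le.2 hz)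
  rw [hP, Nat.card_zpowers]
  have h1 : orderOf z ∣ q := by rw [← hP]; exact orderOf_dvd_natCard P hz
  rcases (Nat.dvd_prime hq).1 h1 with h | h
  · exact absurd (orderOf_eq_one_iff.1 h) hz1
  · rw [h]

theorem Setup.frob (S : Setup G W φ j p q) (hpG : p ∣ Nat.card G) (hqG : q ∣ Nat.card G) :
    ∃ C : Subgroup G, Cfsg.IsFrobeniusComplement C ∧ (Nat.card ↥C).Prime := by
  classical
  haveI := Fact.mk S.hq
  haveI := Fact.mk S.hp
  obtain ⟨P⟩ : Nonempty (Sylow q G) := inferInstance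
  have hord : ∀ z ∈ (P : Subgroup G), z ≠ 1 → orderOf z = q := by
    intro z hz hz1
    obtain ⟨k, hk⟩ := (IsPGroup.iff_orderOf.1 P.isPGroup') ⟨z, hz⟩
    rw [orderOf_mk] at hk
    rcases S.hO z with h | h | h
    · exact absurd (orderOf_eq_one_iff.1 h) hz1
    · exfalso
      rw [h] at hk
      have h1 : p ∣ q ^ k := by rw [← hk]
      exact S.hpq ((Nat.prime_dvd_prime_iff_eq S.hp S.hq).1 (S.hp.dvd_of_dvd_pow h1))
    · exact h
  obtain ⟨y0, hy0⟩ := exists_prime_orderOf_dvd_card' q hqG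
  haveI hPn : Nontrivial (P : Subgroup G) := by
    rw [nontrivial_iff_ne_bot]
    exact P.ne_bot_of_dvd_card hqG
  haveI := P.isPGroup'.center_nontrivial
  obtain ⟨x, hx⟩ := exists_ne (1 : center (P : Subgroup G))
  have hxP : ((x : (P : Subgroup G)) : G) ∈ (P : Subgroup G) := (x : (P : Subgroup G)).2
  set x' : G := ((x : (P : Subgroup G)) : G) with hx'
  have hx1 : x' ≠ 1 := fun h => hx (Subtype.ext (Subtype.ext h))
  have hxo := hord x' hxP hx1
  have hPx : zpowers x' = (P : Subgroup G) := by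
    apply le_antisymm (zpowers_le.2 hxP)
    intro y hy
    by_contra hyx
    have hy1 : y ≠ 1 := by rintro rfl; exact hyx (one_mem _)
    refine S.caseE x' y hxo (hord y hy hy1) ?_ hyx
    have := Subgroup.mem_center_iff.1 x.2 ⟨y, hy⟩
    exact (congrArg Subtype.val this).symm
  have hcP : Nat.card (P : Subgroup G) = q := by rw [← hPx, Nat.card_zpowers, hxo]
  have hnorm : ∀ t : G, t ∈ normalizer ((P : Subgroup G) : Set G) → t ∈ (P : Subgroup G) := by
    intro t ht
    rcases S.hO t with h | h | h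
    · rw [orderOf_eq_one_iff.1 h]; exact one_mem _
    · exfalso
      refine S.caseT x' t hxo h (fun u hu => ?_)
      rw [hPx] at hu ⊢
      exact (Subgroup.mem_normalizer_iff.1 ht u).1 hu
    · have h1 : IsPGroup q (zpowers t) := IsPGroup.of_card (n := 1) (by rw [Nat.card_zpowers, h, pow_one])
      have h2 := IsPGroup.to_sup_of_normal_left' P.isPGroup' h1 (zpowers_le.2 ht)
      have h3 := P.is_maximal' h2 le_sup_left
      have h4 : t ∈ (P : Subgroup G) ⊔ zpowers t := (le_sup_right : zpowers t ≤ _) (mem_zpowers t)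
      rw [h3] at h4; exact h4
  refine ⟨P, ⟨(nontrivial_iff_ne_bot _).1 hPn, ?_, ?_⟩, by rw [hcP]; exact S.hq⟩
  · intro htop
    rw [htop, Subgroup.card_top] at hcP
    rw [hcP] at hpG
    exact S.hpq ((Nat.prime_dvd_prime_iff_eq S.hp S.hq).1 hpG)
  · intro g hg
    rw [eq_bot_iff]
    intro z hz
    rw [Subgroup.mem_inf, mem_pointwise_smul_iff_inv_smul_mem] at hz
    obtain ⟨hz1, hz2⟩ := hz
    rw [Subgroup.mem_bot]
    by_contra hne
    rw [← map_inv, MulAut.smul_def, MulAut.conj_apply, inv_inv] at hz2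
    have hz2' : g⁻¹ * z * g ≠ 1 := by
      intro h
      apply hne
      have : z = g * (g⁻¹ * z * g) * g⁻¹ := by group
      rw [this, h]; group
    have e1 := Setup.zp_eq (P : Subgroup G) S.hq hcP z hz1 hne
    have e2 := Setup.zp_eq (P : Subgroup G) S.hq hcP _ hz2 hz2'
    apply hg
    apply hnorm
    rw [Subgroup.mem_normalizer_iff]
    intro u
    constructor
    · intro hu
      have hu' : u ∈ (P : Subgroup G) := hu
      rw [← e2, mem_zpowers_iff] at hu'
      obtain ⟨k, hk⟩ := hu'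
      have : g * u * g⁻¹ = z ^ k := by
        rw [← hk]
        have h5 : g⁻¹ * z * g = g⁻¹ * z * (g⁻¹)⁻¹ := by rw [inv_inv]
        rw [h5, conj_zpow]; group
      rw [this]
      exact zpow_mem hz1 k
    · intro hu
      have hu' : g * u * g⁻¹ ∈ (P : Subgroup G) := hu
      rw [← e1, mem_zpowers_iff] at hu'
      obtain ⟨k, hk⟩ := hu'
      have : u = (g⁻¹ * z * g) ^ k := by
        have h5 : g⁻¹ * z * g = g⁻¹ * z * (g⁻¹)⁻¹ := by rw [inv_inv]
        rw [h5, conj_zpow, hk]; group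
      rw [this]
      exact zpow_mem hz2 k

omit [Finite G] in
theorem exists_abelian [Nontrivial G] (h : Group.IsSolvable G) :
    ∃ V : Subgroup G, V.Normal ∧ V ≠ ⊥ ∧ ∀ a ∈ V, ∀ b ∈ V, a * b = b * a := by
  classical
  obtain ⟨n, hn⟩ := h
  have hex : ∃ n, derivedSeries G n = ⊥ := ⟨n, hn⟩
  obtain ⟨m, hm⟩ : ∃ m, Nat.find hex = m + 1 := by
    refine ⟨Nat.find hex - 1, ?_⟩
    have : Nat.find hex ≠ 0 := by
      intro h0
      have := Nat.find_spec hex
      rw [h0, derivedSeries_zero] at this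
      exact top_ne_bot this
    omega
  refine ⟨derivedSeries G m, inferInstance, fun h => Nat.find_min hex (by omega : m < Nat.find hex) h, ?_⟩
  intro a ha b hb
  have h1 := Nat.find_spec hex
  rw [hm, derivedSeries_succ] at h1
  have h2 := commutator_mem_commutator ha hb
  rw [h1, Subgroup.mem_bot, commutatorElement_eq_one_iff_mul_comm] at h2
  exact h2

/-- if `p` does not divide the number of elements of order `q` then there are more elements of order `pq` than of
order `p` -/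
theorem FA (hp : p.Prime) (hq : q.Prime) (hq3 : 3 ≤ q) (hpq : p ≠ q) (hpG : p ∣ Nat.card G)
    (h : ¬ p ∣ cc G q) : cc G p < cc G (p * q) := by
  classical
  haveI := Fact.mk hp
  by_contra hcon
  push Not at hcon
  -- commuting elements
  have hcomm : ∀ x : G, orderOf x = p → ∃ y : G, orderOf y = q ∧ Commute x y := by
    intro x hx
    letI : MulAction (zpowers x) {g : G // orderOf g = q} :=
      { smul := fun u g => ⟨(u : G) * g.1 * (u : G)⁻¹, by rw [← MulAut.conj_apply, MulEquiv.orderOf_eq, g.2]⟩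
        one_smul := fun g => Subtype.ext (by
          show ((1 : zpowers x) : G) * g.1 * ((1 : zpowers x) : G)⁻¹ = g.1
          simp)
        mul_smul := fun u v g => Subtype.ext (by
          show ((u * v : zpowers x) : G) * g.1 * ((u * v : zpowers x) : G)⁻¹ = (u : G) * ((v : G) * g.1 * (v : G)⁻¹) * (u : G)⁻¹
          rw [Subgroup.coe_mul]; group) }
    have hPg : IsPGroup p (zpowers x) := IsPGroup.of_card (n := 1) (by rw [Nat.card_zpowers, hx, pow_one])
    obtain ⟨y, hy⟩ := hPg.nonempty_fixed_point_of_prime_not_dvd_card {g : G // orderOf g = q} h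
    refine ⟨y.1, y.2, ?_⟩
    have h1 := congrArg Subtype.val (hy ⟨x, mem_zpowers x⟩)
    have h2 : x * y.1 * x⁻¹ = y.1 := h1
    show x * y.1 = y.1 * x
    rw [← mul_inv_eq_iff_eq_mul]; exact h2
  have hprod : ∀ x y : G, orderOf x = p → orderOf y = q → Commute x y → orderOf (x * y) = p * q := by
    intro x y hx hy hc
    rw [hc.orderOf_mul_eq_mul_orderOf_of_coprime (by rw [hx, hy]; exact (Nat.coprime_primes hp hq).2 hpq), hx, hy]
  have hroot : ∀ x : G, orderOf x = p → ∃ x' : G, x' ∈ zpowers x ∧ orderOf x' = p ∧ x' ^ q = x := by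
    intro x hx
    obtain ⟨m, hm⟩ := exists_pow_eq_self_of_coprime (n := q) (x := x) (by rw [hx]; exact (Nat.coprime_primes hq hp).2 hpq.symm)
    have h1 : (x ^ m) ^ q = x := by rw [← pow_mul, mul_comm, pow_mul, hm]
    refine ⟨x ^ m, pow_mem (mem_zpowers x) m, ?_, h1⟩
    apply Nat.dvd_antisymm
    · rw [← hx]; exact orderOf_pow_dvd m
    · rw [← hx]
      calc orderOf x = orderOf ((x ^ m) ^ q) := by rw [h1]
        _ ∣ orderOf (x ^ m) := orderOf_pow_dvd q
  set f : {g : G // orderOf g = p * q} → {g : G // orderOf g = p} := fun g => ⟨g.1 ^ q, by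
    rw [orderOf_pow' _ hq.ne_zero, g.2, Nat.gcd_eq_right (dvd_mul_left q p)]
    exact Nat.mul_div_cancel _ hq.pos⟩ with hf
  have hsurj : Function.Surjective f := by
    rintro ⟨x, hx⟩
    obtain ⟨x', hx'1, hx'2, hx'3⟩ := hroot x hx
    obtain ⟨y, hy, hc⟩ := hcomm x' hx'2
    refine ⟨⟨x' * y, hprod x' y hx'2 hy hc⟩, Subtype.ext ?_⟩
    show (x' * y) ^ q = x
    rw [hc.mul_pow, hx'3, ← hy, pow_orderOf_eq_one, mul_one]
  have hbij := hsurj.bijective_of_nat_card_le hcon
  obtain ⟨x, hx⟩ := exists_prime_orderOf_dvd_card' (G := G) p hpG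
  obtain ⟨x', hx'1, hx'2, hx'3⟩ := hroot x hx
  obtain ⟨y, hy, hc⟩ := hcomm x' hx'2
  have hyi : orderOf y⁻¹ = q := by rw [orderOf_inv, hy]
  have e := @hbij.1 ⟨x' * y, hprod x' y hx'2 hy hc⟩ ⟨x' * y⁻¹, hprod x' y⁻¹ hx'2 hyi hc.inv_right⟩ (Subtype.ext (by
    show (x' * y) ^ q = (x' * y⁻¹) ^ q
    rw [hc.mul_pow, hc.inv_right.mul_pow, inv_pow, ← hy, pow_orderOf_eq_one, inv_one]))
  have e' : x' * y = x' * y⁻¹ := congrArg Subtype.val e
  have e2 : y ^ 2 = 1 := by
    rw [mul_left_cancel_iff] at e'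
    rw [sq]; nth_rewrite 2 [e']; exact mul_inv_cancel y
  have h3 := Nat.le_of_dvd (by norm_num) (orderOf_dvd_of_pow_eq_one e2)
  omega

end Cfsg.Agent.H11.Nse
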