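import Mathlib
import Cfsg.Agent.H11_Nse5

/-! Odd order groups with three same-order class sizes, part 2. -/

set_option autoImplicit false

namespace Cfsg.Agent.H11.Nse

open Subgroup
open scoped Pointwise

variable {G : Type*} [Group G] [Finite G] {p q s s' : ℕ}

theorem sum_sq (f : ℕ → ℤ) (hp : p.Prime) : ∑ d ∈ (p ^ 2).divisors, f d = f 1 + f p + f (p ^ 2) := by
  rw [Nat.divisors_prime_pow hp, Finset.sum_map]
  simp [Finset.sum_range_succ]

theorem pq_zero (D : Dat (cc G) (Nat.card G) s s') (hp : p.Prime) (hq : q.Prime) (hp3 : 3 ≤ p) (hq3 : 3 ≤ q)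
    (hpq : p ≠ q) (hpN : p ∣ Nat.card G) (hqN : q ∣ Nat.card G) (h1 : cc G p = s) (h2 : cc G q = s') :
    cc G (p * q) = 0 := by
  rcases D.val (p * q) (three_le_mul hp3 hq3) with h | h | h
  · exact h
  · exfalso
    obtain ⟨l, hl⟩ := D.dpq hp hq hpq hpN hqN
    obtain ⟨k, hk⟩ := D.d1 hp hpN
    have h3 : ¬ p ∣ cc G q := by
      rintro ⟨t, ht⟩
      rw [h2] at ht
      have ht' : (s' : ℤ) = p * t := by exact_mod_cast ht
      rw [h1, h2, h] at hl
      rw [h1] at hk
      exact no1 hp3 ⟨t - l + 2 * k, by linear_combination ht' - hl + 2 * hk⟩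
    have h4 := FA hp hq hq3 hpq hpN h3
    omega
  · exfalso
    obtain ⟨l, hl⟩ := D.dpq hq hp hpq.symm hqN hpN
    obtain ⟨k, hk⟩ := D.d1 hq hqN
    rw [mul_comm q p] at hl
    have h3 : ¬ q ∣ cc G p := by
      rintro ⟨t, ht⟩
      rw [h1] at ht
      have ht' : (s : ℤ) = q * t := by exact_mod_cast ht
      rw [h1, h2, h] at hl
      rw [h2] at hk
      exact no1 hq3 ⟨t - l + 2 * k, by linear_combination ht' - hl + 2 * hk⟩
    have h4 := FA hq hp hp3 hpq.symm hqN h3
    rw [mul_comm q p] at h4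
    omega

theorem sq_zero (D : Dat (cc G) (Nat.card G) s s') (hp : p.Prime) (hq : q.Prime) (hp3 : 3 ≤ p) (hq3 : 3 ≤ q)
    (hpq : p ≠ q) (hpN : p ∣ Nat.card G) (hqN : q ∣ Nat.card G) (h1 : cc G p = s) (h2 : cc G q = s')
    (h0 : cc G (p * q) = 0) : cc G (p ^ 2) = 0 := by
  by_contra hne
  have hp2N : p ^ 2 ∣ Nat.card G := by
    obtain ⟨g, hg⟩ := cc_ne.1 hne
    rw [← hg]; exact orderOf_dvd_natCard g
  have hcop : (p ^ 2).Coprime q := Nat.Coprime.pow_left 2 ((Nat.coprime_primes hp hq).2 hpq)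
  have hd := D.dv (p ^ 2 * q) (hcop.mul_dvd_of_dvd_of_dvd hp2N hqN)
  have h0' : cc G (p ^ 2 * q) = 0 := by
    by_contra hne'
    exact D.down (p ^ 2 * q) (p * q) (by have := hp.pos; have := hq.pos; positivity) ⟨p, by ring⟩ hne' h0
  rw [sum_cop _ hcop, sum_sq _ hp, sum_pr _ hq, sum_pr _ hq, sum_pr _ hq] at hd
  simp only [one_mul, mul_one, D.one, h1, h2, h0, h0'] at hd
  obtain ⟨l, hl⟩ := hd
  push_cast at hl
  obtain ⟨k, hk⟩ := D.d1 hq hqN
  rw [h2] at hk
  obtain ⟨l2, hl2⟩ := D.dpq hq hp hpq.symm hqN hpN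
  rw [mul_comm q p, h0, h1, h2] at hl2
  push_cast at hl2
  have hqc : (q : ℤ) ∣ cc G (p ^ 2) := ⟨p ^ 2 * l - l2, by linear_combination hl - hl2⟩
  have ht : p ∣ cc G (p ^ 2) := by
    refine dvd_trans ?_ (D.tot (p ^ 2))
    rw [Nat.totient_prime_pow hp (by norm_num)]
    simp
  obtain ⟨kp, hkp⟩ := D.d1 hp hpN
  rw [h1] at hkp
  rcases D.val (p ^ 2) (by nlinarith) with h | h | h
  · exact hne h
  · rw [h] at ht
    obtain ⟨t, ht⟩ := ht
    have ht' : (s : ℤ) = p * t := by exact_mod_cast ht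
    exact no1 hp3 ⟨kp - t, by linear_combination hkp - ht'⟩
  · rw [h] at hqc
    obtain ⟨t, ht⟩ := hqc
    exact no1 hq3 ⟨k - t, by linear_combination hk - ht⟩

theorem core (D : Dat (cc G) (Nat.card G) s s') (hp : p.Prime) (hq : q.Prime) (hp3 : 3 ≤ p) (hq3 : 3 ≤ q)
    (hpq : p ≠ q) (hpN : p ∣ Nat.card G) (hqN : q ∣ Nat.card G) (h1 : cc G p = s) (h2 : cc G q = s')
    (hpr : ∀ r : ℕ, r.Prime → r ∣ Nat.card G → r = p ∨ r = q) (g : G) :
    orderOf g = 1 ∨ orderOf g = p ∨ orderOf g = q := by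
  have h0 := pq_zero D hp hq hp3 hq3 hpq hpN hqN h1 h2
  have hp2 := sq_zero D hp hq hp3 hq3 hpq hpN hqN h1 h2 h0
  have hq2 := sq_zero D.symm hq hp hq3 hp3 hpq.symm hqN hpN h2 h1 (by rw [mul_comm]; exact h0)
  by_contra hcon
  push Not at hcon
  obtain ⟨e1, e2, e3⟩ := hcon
  obtain ⟨r, hr, m, hm⟩ := Nat.exists_prime_and_dvd e1
  have hrN : r ∣ Nat.card G := (Dvd.intro m hm.symm).trans (orderOf_dvd_natCard g)
  have hm1 : m ≠ 1 := by
    rintro rfl
    rw [mul_one] at hm
    rcases hpr r hr hrN with h | h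
    · exact e2 (hm.trans h)
    · exact e3 (hm.trans h)
  obtain ⟨r', hr', t, ht⟩ := Nat.exists_prime_and_dvd hm1
  have hrr : r * r' ∣ orderOf g := ⟨t, by rw [hm, ht]; ring⟩
  have hr'N : r' ∣ Nat.card G := ((dvd_mul_left r' r).trans hrr).trans (orderOf_dvd_natCard g)
  have h3 := D.down (orderOf g) (r * r') (orderOf_pos g).ne' hrr (cc_ne.2 ⟨g, rfl⟩)
  rcases hpr r hr hrN with h | h <;> rcases hpr r' hr' hr'N with h' | h' <;> subst h <;> subst h'
  · exact h3 (by rw [← sq]; exact hp2)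
  · exact h3 h0
  · exact h3 (by rw [mul_comm]; exact h0)
  · exact h3 (by rw [← sq]; exact hq2)

theorem struct (hp : p.Prime) (hq : q.Prime) (hpq : p ≠ q) (hpN : p ∣ Nat.card G) (hqN : q ∣ Nat.card G)
    (hO : ∀ g : G, orderOf g = 1 ∨ orderOf g = p ∨ orderOf g = q) (hsol : Group.IsSolvable G) :
    ∃ C : Subgroup G, Cfsg.IsFrobeniusComplement C ∧ (Nat.card ↥C).Prime := by
  classical
  haveI : Nontrivial G := by
    rw [← Finite.one_lt_card_iff_nontrivial]
    exact lt_of_lt_of_le hp.one_lt (Nat.le_of_dvd Nat.card_pos hpN)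
  obtain ⟨V, hVn, hV1, hVc⟩ := exists_abelian hsol
  letI : CommGroup V := { (inferInstance : Group V) with mul_comm := fun a b => Subtype.ext (hVc a a.2 b b.2) }
  obtain ⟨v0, hv0⟩ := (ne_bot_iff_exists_ne_one).1 hV1
  by_cases hVq : ∃ v : V, orderOf v = q
  · -- then no element of order p
    obtain ⟨v, hv⟩ := hVq
    have hno : ∀ w : V, orderOf w ≠ p := by
      intro w hw
      have hc : Commute (w : G) (v : G) := hVc w w.2 v v.2
      have hw' : orderOf (w : G) = p := by rw [orderOf_coe]; exact hw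
      have hv' : orderOf (v : G) = q := by rw [orderOf_coe]; exact hv
      have h := hc.orderOf_mul_eq_mul_orderOf_of_coprime (by rw [hw', hv']; exact (Nat.coprime_primes hp hq).2 hpq)
      rw [hw', hv'] at h
      have hp2 := hp.two_le
      have hq2 := hq.two_le
      rcases hO ((w : G) * v) with h' | h' | h' <;> rw [h'] at h <;> nlinarith
    have S : Setup G V (MulAut.conjNormal : G →* MulAut V) V.subtype q p :=
      { hp := hq, hq := hp, hpq := hpq.symm
        hO := fun g => by rcases hO g with h | h | h <;> simp [h]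
        inj := V.subtype_injective
        hφ := fun g v => MulAut.conjNormal_apply g v
        hW := hno
        hne := ⟨v0, hv0⟩ }
    exact S.frob hqN hpN
  · have S : Setup G V (MulAut.conjNormal : G →* MulAut V) V.subtype p q :=
      { hp := hp, hq := hq, hpq := hpq
        hO := hO
        inj := V.subtype_injective
        hφ := fun g v => MulAut.conjNormal_apply g v
        hW := fun w hw => hVq ⟨w, hw⟩
        hne := ⟨v0, hv0⟩ }
    exact S.frob hpN hqN

end Cfsg.Agent.H11.Nse
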