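import Mathlib
import Cfsg.Prelude.Def_Local
import Cfsg.Prelude.Def_Balance
import Cfsg.Agent.H11_SF2
import Cfsg.Agent.H11_PComp2

/-!
# Coprime action lemmas for signalizer functors
-/

set_option autoImplicit false
set_option linter.all false

namespace Cfsg.Agent.H11.SF

universe u v

open Subgroup Cfsg Cfsg.Agent.H11.Cores Cfsg.Agent.H13.Syl Cfsg.Agent.H11.PComp
  Cfsg.Agent.H11.FStar Cfsg.Agent.H11.Components Cfsg.Agent.H11.Local
open scoped commutatorElement

variable {G : Type u} [Group G]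

/-- In a solvable group with quotient by the `q'`-core: things centralizing `O_q` of the quotient
lie in it. -/
theorem centralizer_pCore_quot_le [Finite G] (q : ℕ) [hq : Fact q.Prime]
    (hG : Group.IsSolvable G) : centralizer (pCore q (G ⧸ pPrimeCore q G) : Set _) ≤
      pCore q (G ⧸ pPrimeCore q G) := by
  have h1 : layer (G ⧸ pPrimeCore q G) = ⊥ := layer_eq_bot_of_isSolvable inferInstance
  have h2 := generalizedFitting_eq_pCore_of_bot q (pPrimeCore_quotient (G := G) q) h1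
  have h3 := centralizer_generalizedFitting_le (G := G ⧸ pPrimeCore q G)
  rwa [h2] at h3

theorem eq_bot_of_pgroup_of_not_dvd [Finite G] {q : ℕ} [hq : Fact q.Prime] {U : Subgroup G}
    (hU : IsPGroup q U) (hn : ¬ q ∣ Nat.card U) : U = ⊥ := by
  obtain ⟨n, hc⟩ := hU.exists_card_eq
  rcases Nat.eq_zero_or_pos n with h | h
  · rw [h, pow_zero] at hc
    exact card_eq_one.mp hc
  · exact absurd (hc ▸ dvd_pow_self q h.ne') hn

theorem pPrimePCore_characteristic (q : ℕ) {K : Type u} [Group K] :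
    (pPrimePCore q K).Characteristic := by
  rw [characteristic_iff_map_le]
  intro φ
  rintro _ ⟨x, hx, rfl⟩
  have h1 := map_equiv_pPrimeCore (p := q) φ
  let e := QuotientGroup.congr (pPrimeCore q K) (pPrimeCore q K) φ h1
  have h2 := map_equiv_pCore (p := q) e
  show QuotientGroup.mk' (pPrimeCore q K) (φ x) ∈ pCore q (K ⧸ pPrimeCore q K)
  rw [← h2]
  exact ⟨QuotientGroup.mk' (pPrimeCore q K) x, hx, rfl⟩

/-- S1288. -/
theorem le_pPrimeCore_of_commutators [Finite G] {p q : ℕ} [hp : Fact p.Prime] [hq : Fact q.Prime]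
    {A K U : Subgroup G} (hA : IsElementaryAbelian p A) (hA2 : p ^ 2 ≤ Nat.card A)
    (hK : ¬ p ∣ Nat.card K) (hKs : Group.IsSolvable K) (hAK : A ≤ normalizer (K : Set G))
    (hU : U ≤ K) (hUq : ¬ q ∣ Nat.card U)
    (hcomm : ∀ B : Subgroup G, B ≤ A → B.relIndex A = p →
      ¬ q ∣ Nat.card ↥⁅U, K ⊓ centralizer (B : Set G)⁆) :
    U ≤ (pPrimeCore q K).map K.subtype := by
  -- the subgroup `O_{q',q}(K)` and an invariant Sylow subgroup
  have hAp := Cfsg.Agent.H11.Bal.ea_isPGroup hA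
  set W := (pPrimePCore q K).map K.subtype with hW
  have hWK : W ≤ K := map_subtype_le _
  haveI hchar : (pPrimePCore q K).Characteristic := pPrimePCore_characteristic q
  have hAW : A ≤ normalizer (W : Set G) :=
    hAK.trans (le_normalizer_map_subtype_of_characteristic K (pPrimePCore q K))
  have hWp : ¬ p ∣ Nat.card W := fun h => hK (h.trans (card_dvd_of_le hWK))
  have hWs : Group.IsSolvable W := isSolvable_of_le hWK hKs
  obtain ⟨P, hP⟩ := Cfsg.Agent.H1.Coprime.invariant_sylow_exists A W hAW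
    (coprime_of_not_dvd hAp hWp) (Or.inr hWs) q
  set Q := (P : Subgroup W).map W.subtype with hQ
  have hQs : IsSylIn q Q W := isSylIn_map_subtype P
  have hQK : Q ≤ K := hQs.1.trans hWK
  have hQs' : IsSylIn q (Q.subgroupOf K) (pPrimePCore q K) := by
    have e1 : (pPrimePCore q K) = W.subgroupOf K :=
      (comap_map_eq_self_of_injective (subtype_injective K) _).symm
    rw [e1]
    refine ⟨comap_mono hQs.1, ?_, ?_⟩
    · exact hQs.2.1.of_equiv (subgroupOfEquivOfLe hQK).symm
    · rw [relIndex_subgroupOf hWK]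
      exact hQs.2.2
  have hmap := map_sylow_pPrimePCore q hQs'
  -- `[U, Q]` is trivial modulo the core
  have hgen : Q ≤ ((centralizer (((U.subgroupOf K).map (pr q K) : Subgroup _) : Set _)).comap
      (pr q K)).map K.subtype := by
    apply le_of_hyperplanes hA (fun h => hWp (h.trans (card_dvd_of_le hQs.1))) hP
    intro B hB hBi
    have hBex : ∃ B' : Subgroup G, B' ≤ B ∧ B'.relIndex A = p := by
      obtain ⟨n, hn⟩ := hAp.exists_card_eq
      have hn2 : 2 ≤ n := by
        rw [hn] at hA2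
        exact (Nat.pow_le_pow_iff_right hp.out.one_lt).mp hA2
      have h3 : p ^ n = p ^ (n - 1) * p := by
        rw [← pow_succ]; congr 1; omega
      have h1 : p ^ (n - 1) ≤ Nat.card B := by
        have h2 := card_eq_mul_relIndex hB
        rw [hn] at h2
        have h4 : p ^ (n - 1) * p ≤ Nat.card B * p := by
          rw [← h3, ← h2]
          exact Nat.mul_le_mul_left _ hBi
        exact Nat.le_of_mul_le_mul_right h4 hp.out.pos
      obtain ⟨B', hB', hc⟩ := Cfsg.Agent.H11.Bal.exists_sub_card (hAp.to_le hB) h1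
      refine ⟨B', hB', ?_⟩
      have h2 := card_eq_mul_relIndex (hB'.trans hB)
      rw [hn, hc, h3] at h2
      exact Nat.eq_of_mul_eq_mul_left (pow_pos hp.out.pos _) h2
    obtain ⟨B', hB', hBi'⟩ := hBex
    have hc := hcomm B' (hB'.trans hB) hBi'
    intro y hy
    have hyQ : y ∈ Q := hy.1
    refine ⟨⟨y, hQK hyQ⟩, ?_, rfl⟩
    show pr q K ⟨y, hQK hyQ⟩ ∈ centralizer (((U.subgroupOf K).map (pr q K) : Subgroup _) : Set _)
    rw [mem_centralizer_iff]
    rintro _ ⟨⟨u, huK⟩, hu, rfl⟩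
    rw [← commutatorElement_eq_one_iff_mul_comm, ← map_commutatorElement]
    -- this commutator is both a `q`- and a `q'`-element
    have hmem : ⁅(⟨u, huK⟩ : K), (⟨y, hQK hyQ⟩ : K)⁆ ∈
        ⁅U, K ⊓ centralizer (B' : Set G)⁆.subgroupOf K := by
      rw [mem_subgroupOf]
      exact commutator_mem_commutator hu ⟨hQK hyQ, centralizer_le hB' hy.2⟩
    have h1 : (pr q K ⁅(⟨u, huK⟩ : K), (⟨y, hQK hyQ⟩ : K)⁆) ∈ pCore q (K ⧸ pPrimeCore q K) := by
      rw [map_commutatorElement]
      have h2 : pr q K ⟨y, hQK hyQ⟩ ∈ pCore q (K ⧸ pPrimeCore q K) := by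
        rw [← hmap]; exact mem_map_of_mem _ hyQ
      rw [commutatorElement_def]
      exact mul_mem ((inferInstance : (pCore q (K ⧸ pPrimeCore q K)).Normal).conj_mem _ h2 _)
        (inv_mem h2)
    have h3 : ¬ q ∣ orderOf (pr q K ⁅(⟨u, huK⟩ : K), (⟨y, hQK hyQ⟩ : K)⁆) := by
      intro h4
      have h5 : orderOf (pr q K ⁅(⟨u, huK⟩ : K), (⟨y, hQK hyQ⟩ : K)⁆) ∣
          orderOf ⁅(⟨u, huK⟩ : K), (⟨y, hQK hyQ⟩ : K)⁆ := orderOf_map_dvd _ _
      have h6 : orderOf ⁅(⟨u, huK⟩ : K), (⟨y, hQK hyQ⟩ : K)⁆ ∣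
          Nat.card ↥⁅U, K ⊓ centralizer (B' : Set G)⁆ := by
        rw [← orderOf_coe]
        exact orderOf_dvd_natCard _ hmem
      exact hc (h4.trans (h5.trans h6))
    have hpg : IsPGroup q (pCore q (K ⧸ pPrimeCore q K)) := pCore_isPGroup q
    have hpg2 := IsPGroup.iff_orderOf.mp hpg
    have hpg3 : ∀ z : K ⧸ pPrimeCore q K, z ∈ pCore q (K ⧸ pPrimeCore q K) →
        ∃ n : ℕ, orderOf z = q ^ n := by
      intro z hz
      obtain ⟨n, hn⟩ := hpg2 ⟨z, hz⟩
      rw [orderOf_mk] at hn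
      exact ⟨n, hn⟩
    obtain ⟨n, hn⟩ := hpg3 _ h1
    rcases Nat.eq_zero_or_pos n with h | h
    · rw [h, pow_zero, orderOf_eq_one_iff] at hn
      exact hn
    · exact absurd (hn ▸ dvd_pow_self q h.ne') h3
  -- conclusion
  have hcent : (U.subgroupOf K).map (pr q K) ≤ centralizer (pCore q (K ⧸ pPrimeCore q K) : Set _) := by
    rw [← hmap, le_centralizer_iff]
    rintro _ ⟨⟨y, hyK⟩, hy, rfl⟩
    obtain ⟨z, hz, he⟩ := hgen hy
    have : z = ⟨y, hyK⟩ := Subtype.ext he
    rw [this] at hz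
    exact hz
  have h1 := hcent.trans (centralizer_pCore_quot_le q hKs)
  have h2 : (U.subgroupOf K).map (pr q K) = ⊥ := by
    apply eq_bot_of_pgroup_of_not_dvd ((pCore_isPGroup q).to_le h1)
    intro h
    apply hUq
    have h3 : Nat.card ((U.subgroupOf K).map (pr q K)) ∣ Nat.card (U.subgroupOf K) :=
      card_map_dvd _ _
    rw [Nat.card_congr (subgroupOfEquivOfLe hU).toEquiv] at h3
    exact h.trans h3
  rw [Subgroup.map_eq_bot_iff, pr_ker] at h2
  have h3 := map_mono (f := K.subtype) h2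
  rwa [map_subgroupOf_eq_of_le hU] at h3


end Cfsg.Agent.H11.SF
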