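import Mathlib

/-!
Sections and a fusion condition at a prime.
-/

set_option autoImplicit false

namespace Cfsg.Agent.H11.SecA

open Subgroup

/-- Frattini argument, `⟨σ⟩` normal -/
theorem frat1 {ℓ : ℕ} [Fact ℓ.Prime] {M A : Type*} [Group M] [Finite M] [Group A] (f : M →* A) (σ : A)
    (h7 : σ ^ ℓ = 1) [hN : (zpowers σ).Normal] (hσ : ∃ x, f x = σ) (y : M) :
    ∃ (S : Subgroup M) (g : M), g ∈ normalizer (S : Set M) ∧ IsPGroup ℓ S ∧ (∃ x ∈ S, f x = σ) ∧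
      ∃ z ∈ zpowers σ, f g = z * f y := by
  set L : Subgroup M := (zpowers σ).comap f with hL
  have hLn : L.Normal := hN.comap f
  let S0 : Sylow ℓ L := default
  have hfr := Sylow.normalizer_sup_eq_top S0
  have hy : y ∈ normalizer (((S0 : Subgroup L).map L.subtype : Subgroup M) : Set M) ⊔ L := by
    rw [hfr]; exact mem_top y
  rw [sup_comm, Subgroup.mem_sup_of_normal_left] at hy
  obtain ⟨l, hl, g, hg, hlg⟩ := hy
  refine ⟨(S0 : Subgroup L).map L.subtype, g, hg, S0.2.map _, ?_, ?_⟩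
  · -- surjectivity of `S0` onto `⟨σ⟩`
    let f' : L →* zpowers σ := f.subgroupComap (zpowers σ)
    have hf' : Function.Surjective f' := by
      rintro ⟨z, hz⟩
      obtain ⟨k, rfl⟩ := mem_zpowers_iff.1 hz
      obtain ⟨x, hx⟩ := hσ
      refine ⟨⟨x ^ k, ?_⟩, ?_⟩
      · rw [hL, mem_comap, map_zpow, hx]; exact zpow_mem (mem_zpowers σ) k
      · apply Subtype.ext
        change f (x ^ k) = σ ^ k
        rw [map_zpow, hx]
    have hfin : Finite (zpowers σ) := Finite.of_surjective f' hf'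
    let S1 : Sylow ℓ (zpowers σ) := S0.mapSurjective hf'
    have hp : IsPGroup ℓ (zpowers σ) := by
      rintro ⟨z, hz⟩
      obtain ⟨k, rfl⟩ := mem_zpowers_iff.1 hz
      refine ⟨1, Subtype.ext ?_⟩
      change (σ ^ k) ^ (ℓ ^ 1) = 1
      rw [pow_one, ← zpow_natCast, ← zpow_mul, mul_comm, zpow_mul, zpow_natCast, h7, one_zpow]
    have htop : (S1 : Subgroup (zpowers σ)) = ⊤ := by
      refine (S1.is_maximal' (Q := ⊤) ?_ le_top).symm
      exact hp.of_injective (⊤ : Subgroup (zpowers σ)).subtype (Subtype.coe_injective)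
    have hm : (⟨σ, mem_zpowers σ⟩ : zpowers σ) ∈ (S1 : Subgroup (zpowers σ)) := by
      rw [htop]; exact mem_top _
    rw [Sylow.coe_mapSurjective] at hm
    obtain ⟨x, hx, hxe⟩ := hm
    exact ⟨x, ⟨x, hx, rfl⟩, congrArg Subtype.val hxe⟩
  · refine ⟨(f l)⁻¹, inv_mem hl, ?_⟩
    rw [← hlg, map_mul, inv_mul_cancel_left]

theorem frat {ℓ : ℕ} [Fact ℓ.Prime] {c : ℕ} {M A : Type*} [Group M] [Finite M] [Group A] (f : M →* A)
    (hf : Function.Surjective f) (σ τ : A) (h7 : σ ^ ℓ = 1) (hτ : τ * σ * τ⁻¹ = σ ^ c) :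
    ∃ (S : Subgroup M) (g : M), g ∈ normalizer (S : Set M) ∧ IsPGroup ℓ S ∧ (∃ x ∈ S, f x = σ) ∧
      f g * σ * (f g)⁻¹ = σ ^ c := by
  have hfA : Finite A := Finite.of_surjective f hf
  set A' : Subgroup A := normalizer ((zpowers σ : Subgroup A) : Set A) with hA'
  have hσA : σ ∈ A' := le_normalizer (mem_zpowers σ)
  have hτA : τ ∈ A' := by
    rw [hA', mem_normalizer_iff]
    have h1 : (zpowers σ).map (MulAut.conj τ).toMonoidHom ≤ zpowers σ := by
      rw [MonoidHom.map_zpowers, zpowers_le]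
      change τ * σ * τ⁻¹ ∈ _
      rw [hτ]
      exact pow_mem (mem_zpowers σ) c
    have h2 : (zpowers σ).map (MulAut.conj τ).toMonoidHom = zpowers σ := by
      apply Subgroup.eq_of_le_of_card_ge h1
      rw [Nat.card_congr ((zpowers σ).equivMapOfInjective (MulAut.conj τ).toMonoidHom
        (MulAut.conj τ).injective).toEquiv]
    intro z
    constructor
    · intro hz
      exact h1 ⟨z, hz, rfl⟩
    · intro hz
      rw [← h2] at hz
      obtain ⟨w, hw, hwe⟩ := hz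
      have : w = z := (MulAut.conj τ).injective hwe
      rw [← this]; exact hw
  set M' : Subgroup M := A'.comap f with hM'
  let f' : M' →* A' := f.subgroupComap A'
  have hNor : (zpowers (⟨σ, hσA⟩ : A')).Normal := by
    have : zpowers (⟨σ, hσA⟩ : A') = (zpowers σ).subgroupOf A' := by
      ext ⟨z, hz⟩
      rw [mem_subgroupOf, mem_zpowers_iff, mem_zpowers_iff]
      exact ⟨fun ⟨k, hk⟩ => ⟨k, congrArg Subtype.val hk⟩, fun ⟨k, hk⟩ => ⟨k, Subtype.ext hk⟩⟩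
    rw [this, hA']
    infer_instance
  obtain ⟨s, hs⟩ := hf σ
  obtain ⟨y, hy⟩ := hf τ
  have hsM : s ∈ M' := by rw [hM', mem_comap, hs]; exact hσA
  have hyM : y ∈ M' := by rw [hM', mem_comap, hy]; exact hτA
  obtain ⟨S, g, hg, hS, ⟨x, hx, hxe⟩, z, hz, hgz⟩ := frat1 f' (⟨σ, hσA⟩ : A') (Subtype.ext h7)
    ⟨⟨s, hsM⟩, Subtype.ext hs⟩ ⟨y, hyM⟩
  refine ⟨S.map M'.subtype, g, ?_, hS.map _, ⟨x, ⟨x, hx, rfl⟩, congrArg Subtype.val hxe⟩, ?_⟩
  · rw [mem_normalizer_iff] at hg ⊢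
    intro h
    constructor
    · rintro ⟨w, hw, rfl⟩
      exact ⟨g * w * g⁻¹, (hg w).1 hw, rfl⟩
    · rintro ⟨w, hw, hwe⟩
      have hw' : (w : M) = g * h * (g : M)⁻¹ := hwe
      have hhM : h ∈ M' := by
        have : h = (g : M)⁻¹ * w * g := by rw [hw']; group
        rw [this]
        exact mul_mem (mul_mem (inv_mem g.2) w.2) g.2
      refine ⟨⟨h, hhM⟩, ?_, rfl⟩
      refine (hg ⟨h, hhM⟩).2 ?_
      have : g * ⟨h, hhM⟩ * g⁻¹ = w := Subtype.ext hw'.symm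
      rw [this]
      exact hw
  · have h1 : f g = (z : A) * τ := by
      have := congrArg Subtype.val hgz
      change f g = z * f y at this
      rw [this, hy]
    obtain ⟨k, hk⟩ := mem_zpowers_iff.1 hz
    have hk' : σ ^ k = (z : A) := congrArg Subtype.val hk
    have h2 : (z : A) * σ ^ c = σ ^ c * z := by
      rw [← hk']
      exact ((Commute.refl σ).zpow_left k).pow_right c
    calc f g * σ * (f g)⁻¹ = z * (τ * σ * τ⁻¹) * (z : A)⁻¹ := by rw [h1]; group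
      _ = σ ^ c := by rw [hτ, h2, mul_inv_cancel_right]

/-- conjugation by powers -/
theorem pow_conj {G : Type*} [Group G] {S : Subgroup G} {g c : G} (hg : g ∈ normalizer (S : Set G))
    (hc : ∀ s ∈ S, c * s = s * c) (x : G) (hx : x ∈ S) (k : ℕ) :
    (c * g) ^ k * x * ((c * g) ^ k)⁻¹ = g ^ k * x * (g ^ k)⁻¹ ∧ g ^ k * x * (g ^ k)⁻¹ ∈ S := by
  induction k with
  | zero => simpa using hx
  | succ k ih =>
    have h1 : g ^ (k + 1) * x * (g ^ (k + 1))⁻¹ = g * (g ^ k * x * (g ^ k)⁻¹) * g⁻¹ := by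
      rw [pow_succ']; group
    have h2 : g * (g ^ k * x * (g ^ k)⁻¹) * g⁻¹ ∈ S := ((mem_normalizer_iff.1 hg) _).1 ih.2
    refine ⟨?_, by rw [h1]; exact h2⟩
    have h3 : (c * g) ^ (k + 1) * x * ((c * g) ^ (k + 1))⁻¹ =
        c * (g * ((c * g) ^ k * x * ((c * g) ^ k)⁻¹) * g⁻¹) * c⁻¹ := by
      rw [pow_succ', mul_inv_rev, mul_inv_rev]; simp only [mul_assoc]
    rw [h3, ih.1, hc _ h2, mul_inv_cancel_right, h1]

theorem fusion {ℓ : ℕ} [Fact ℓ.Prime] {e : ℕ} {G : Type*} [Group G] [Finite G] (P : Sylow ℓ G) (hab : ∀ a ∈ P, ∀ b ∈ P, a * b = b * a)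
    (hn : ∀ g ∈ normalizer ((P : Subgroup G) : Set G), ∀ a ∈ P, g ^ e * a = a * g ^ e)
    (S : Subgroup G) (hS : IsPGroup ℓ S) (g : G) (hg : g ∈ normalizer (S : Set G)) (x : G) (hx : x ∈ S) :
    g ^ e * x * (g ^ e)⁻¹ = x := by
  obtain ⟨P', hP'⟩ := hS.exists_le_sylow
  obtain ⟨a, ha⟩ := MulAction.exists_smul_eq G P P'
  have hm : ∀ z, z ∈ P' ↔ a⁻¹ * z * a ∈ P := by
    intro z
    rw [← ha]
    change z ∈ ((a • P : Sylow ℓ G) : Subgroup G) ↔ _
    rw [Sylow.coe_subgroup_smul, Subgroup.mem_pointwise_smul_iff_inv_smul_mem, ← map_inv]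
    change MulAut.conj a⁻¹ z ∈ (P : Subgroup G) ↔ _
    rw [MulAut.conj_apply, inv_inv]
    rfl
  have hab' : ∀ u ∈ P', ∀ v ∈ P', u * v = v * u := by
    intro u hu v hv
    have h1 := hab _ ((hm u).1 hu) _ ((hm v).1 hv)
    have h2 : a * (a⁻¹ * u * a * (a⁻¹ * v * a)) * a⁻¹ = a * (a⁻¹ * v * a * (a⁻¹ * u * a)) * a⁻¹ := by rw [h1]
    have h3 : a * (a⁻¹ * u * a * (a⁻¹ * v * a)) * a⁻¹ = u * v := by group
    have h4 : a * (a⁻¹ * v * a * (a⁻¹ * u * a)) * a⁻¹ = v * u := by group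
    rw [← h3, ← h4, h2]
  have hn' : ∀ g ∈ normalizer ((P' : Subgroup G) : Set G), ∀ u ∈ P', g ^ e * u = u * g ^ e := by
    intro g hg u hu
    have h1 : a⁻¹ * g * a ∈ normalizer ((P : Subgroup G) : Set G) := by
      rw [mem_normalizer_iff] at hg ⊢
      intro z
      have e1 : z ∈ (P : Subgroup G) ↔ a * z * a⁻¹ ∈ (P' : Subgroup G) := by
        refine Iff.trans ?_ (hm _).symm
        have : a⁻¹ * (a * z * a⁻¹) * a = z := by group
        rw [this]; rfl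
      have e2 : a⁻¹ * g * a * z * (a⁻¹ * g * a)⁻¹ ∈ (P : Subgroup G) ↔
          g * (a * z * a⁻¹) * g⁻¹ ∈ (P' : Subgroup G) := by
        refine Iff.trans ?_ (hm _).symm
        have : a⁻¹ * (g * (a * z * a⁻¹) * g⁻¹) * a = a⁻¹ * g * a * z * (a⁻¹ * g * a)⁻¹ := by group
        rw [this]; rfl
      rw [e1, e2]
      exact hg _
    have h2 := hn _ h1 _ ((hm u).1 hu)
    have h3 : (a⁻¹ * g * a) ^ e = a⁻¹ * g ^ e * a := by
      have := conj_pow (i := e) (a := a⁻¹) (b := g)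
      rwa [inv_inv] at this
    rw [h3] at h2
    have h4 : a * (a⁻¹ * g ^ e * a * (a⁻¹ * u * a)) * a⁻¹ = a * (a⁻¹ * u * a * (a⁻¹ * g ^ e * a)) * a⁻¹ := by
      rw [h2]
    have h5 : a * (a⁻¹ * g ^ e * a * (a⁻¹ * u * a)) * a⁻¹ = g ^ e * u := by group
    have h6 : a * (a⁻¹ * u * a * (a⁻¹ * g ^ e * a)) * a⁻¹ = u * g ^ e := by group
    rw [← h5, ← h6, h4]
  set C : Subgroup G := centralizer (S : Set G) with hC
  have h1 : (P' : Subgroup G) ≤ C := by
    intro p hp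
    rw [hC, mem_centralizer_iff]
    intro s hs
    exact hab' s (hP' hs) p hp
  have h2 : ((g • P' : Sylow ℓ G) : Subgroup G) ≤ C := by
    intro p hp
    rw [Sylow.coe_subgroup_smul, Subgroup.mem_pointwise_smul_iff_inv_smul_mem, ← map_inv] at hp
    change MulAut.conj g⁻¹ p ∈ (P' : Subgroup G) at hp
    rw [MulAut.conj_apply, inv_inv] at hp
    rw [hC, mem_centralizer_iff]
    intro s hs
    have h3 : g⁻¹ * s * g ∈ S := by
      have := ((mem_normalizer_iff.1 (inv_mem hg)) s).1 hs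
      rwa [inv_inv] at this
    have h4 := hab' _ (hP' h3) _ hp
    have h5 : g * (g⁻¹ * s * g * (g⁻¹ * p * g)) * g⁻¹ = g * (g⁻¹ * p * g * (g⁻¹ * s * g)) * g⁻¹ := by rw [h4]
    have h6 : g * (g⁻¹ * s * g * (g⁻¹ * p * g)) * g⁻¹ = s * p := by group
    have h7 : g * (g⁻¹ * p * g * (g⁻¹ * s * g)) * g⁻¹ = p * s := by group
    rw [← h6, ← h7, h5]
  obtain ⟨c, hc⟩ := MulAction.exists_smul_eq C (P'.subtype h1) ((g • P').subtype h2)
  rw [Sylow.smul_subtype] at hc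
  have hc' : (c : G) • P' = g • P' := Sylow.subtype_injective hc
  have h3 : (c : G)⁻¹ * g ∈ normalizer ((P' : Subgroup G) : Set G) := by
    refine Sylow.smul_eq_iff_mem_normalizer.1 ?_
    rw [mul_smul, ← hc', inv_smul_smul]
  have hcs : ∀ s ∈ S, (c : G)⁻¹ * s = s * (c : G)⁻¹ := by
    intro s hs
    have := (mem_centralizer_iff.1 (inv_mem c.2)) s hs
    exact this.symm
  have h4 := (pow_conj hg hcs x hx e).1
  rw [hn' _ h3 x (hP' hx), mul_inv_cancel_right] at h4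
  exact h4.symm

theorem exists_perm {n ℓ c e : ℕ} (s t : Equiv.Perm (Fin n)) (h1 : s ≠ 1) (h2 : s ^ ℓ = 1) (hℓ : Odd ℓ)
    (h3 : Equiv.Perm.sign t = 1) (h4 : t * s * t⁻¹ = s ^ c) {r : ℕ} (hr : n ≤ r) :
    ∃ σ τ : alternatingGroup (Fin r), σ ≠ 1 ∧ σ ^ ℓ = 1 ∧ τ * σ * τ⁻¹ = σ ^ c := by
  classical
  let e := Equiv.Perm.viaEmbeddingHom (Fin.castLEEmb hr)
  have he : Function.Injective e := Equiv.Perm.viaEmbeddingHom_injective _
  have hsg : ∀ (u : ℤˣ) (n : ℕ), Odd n → u ^ n = 1 → u = 1 := by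
    rintro u n ⟨k, rfl⟩ h
    rw [pow_add, pow_mul, Int.units_sq, one_pow, one_mul, pow_one] at h
    exact h
  have hs : Equiv.Perm.sign (e s) = 1 := by
    apply hsg _ ℓ hℓ
    rw [← map_pow, ← map_pow, h2, map_one, map_one]
  have ht : Equiv.Perm.sign (e t) = 1 := by
    have : e t = Equiv.Perm.viaFintypeEmbedding t (Fin.castLEEmb hr) := by
      ext x
      by_cases hx : x ∈ Set.range (Fin.castLEEmb hr)
      · obtain ⟨y, rfl⟩ := hx
        rw [Equiv.Perm.viaFintypeEmbedding_apply_image]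
        exact congrArg _ (Equiv.Perm.viaEmbedding_apply t (Fin.castLEEmb hr) y)
      · rw [Equiv.Perm.viaFintypeEmbedding_apply_notMem_range _ _ hx]
        exact congrArg _ (Equiv.Perm.viaEmbedding_apply_of_notMem t (Fin.castLEEmb hr) x hx)
    rw [this, Equiv.Perm.viaFintypeEmbedding_sign, h3]
  refine ⟨⟨e s, Equiv.Perm.mem_alternatingGroup.2 hs⟩, ⟨e t, Equiv.Perm.mem_alternatingGroup.2 ht⟩,
    ?_, ?_, ?_⟩
  · intro h
    have := congrArg Subtype.val h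
    exact h1 (he (by rw [map_one]; exact this))
  · apply Subtype.ext
    change e s ^ ℓ = 1
    rw [← map_pow, h2, map_one]
  · apply Subtype.ext
    change e t * e s * (e t)⁻¹ = e s ^ c
    rw [← map_pow, ← h4, map_mul, map_mul, map_inv]

/-- lifting an element normalizing a subgroup -/
theorem norm_map {G : Type*} [Group G] {H : Subgroup G} {S : Subgroup H} {g : H}
    (hg : g ∈ normalizer (S : Set H)) : (g : G) ∈ normalizer ((S.map H.subtype : Subgroup G) : Set G) := by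
  rw [mem_normalizer_iff] at hg ⊢
  intro h
  constructor
  · rintro ⟨w, hw, rfl⟩
    exact ⟨g * w * g⁻¹, (hg w).1 hw, rfl⟩
  · rintro ⟨w, hw, hwe⟩
    have hw' : (w : G) = g * h * (g : G)⁻¹ := hwe
    have hhM : h ∈ H := by
      have : h = (g : G)⁻¹ * w * g := by rw [hw']; group
      rw [this]
      exact mul_mem (mul_mem (inv_mem g.2) w.2) g.2
    refine ⟨⟨h, hhM⟩, ?_, rfl⟩
    refine (hg ⟨h, hhM⟩).2 ?_
    have : g * ⟨h, hhM⟩ * g⁻¹ = w := Subtype.ext hw'.symm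
    rw [this]
    exact hw

theorem no_section {ℓ : ℕ} [Fact ℓ.Prime] {e c : ℕ} (hce : ¬ c ^ e ≡ 1 [MOD ℓ]) {G : Type*} [Group G] [Finite G]
    (P : Sylow ℓ G) (hab : ∀ a ∈ P, ∀ b ∈ P, a * b = b * a)
    (hn : ∀ g ∈ normalizer ((P : Subgroup G) : Set G), ∀ a ∈ P, g ^ e * a = a * g ^ e)
    (H : Subgroup G) {A : Type*} [Group A] (f : H →* A) (hf : Function.Surjective f) {σ τ : A}
    (h1 : σ ≠ 1) (h7 : σ ^ ℓ = 1) (h2 : τ * σ * τ⁻¹ = σ ^ c) : False := by
  obtain ⟨S, g, hg, hS, ⟨x, hx, hxe⟩, he⟩ := frat f hf σ τ h7 h2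
  have h3 := fusion P hab hn (S.map H.subtype) (hS.map _) g (norm_map hg) x ⟨x, hx, rfl⟩
  have h4 : g ^ e * x * (g ^ e)⁻¹ = x := Subtype.ext h3
  have h5 : f g ^ e * σ * (f g ^ e)⁻¹ = σ := by
    have := congrArg f h4
    rw [map_mul, map_mul, map_inv, map_pow, hxe] at this
    exact this
  have h6 : ∀ k : ℕ, f g ^ k * σ * (f g ^ k)⁻¹ = σ ^ (c ^ k) := by
    intro k
    induction k with
    | zero => simp
    | succ k ih =>
      have e1 : f g ^ (k + 1) * σ * (f g ^ (k + 1))⁻¹ = f g ^ k * (f g * σ * (f g)⁻¹) * (f g ^ k)⁻¹ := by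
        rw [pow_succ]; group
      rw [e1, he]
      have e2 : f g ^ k * σ ^ c * (f g ^ k)⁻¹ = (f g ^ k * σ * (f g ^ k)⁻¹) ^ c := by
        rw [conj_pow]
      rw [e2, ih, ← pow_mul, ← pow_succ]
  rw [h6 e] at h5
  have hord : orderOf σ = ℓ := orderOf_eq_prime h7 h1
  apply hce
  rw [← hord]
  rw [← pow_eq_pow_iff_modEq, pow_one]
  exact h5

end Cfsg.Agent.H11.SecA
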