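import Cfsg.Agent.H11_SecA

/-!
A 2-local obstruction for sections isomorphic to alternating groups of degree at least 8.
-/

set_option autoImplicit false
set_option maxRecDepth 100000

namespace Cfsg.Agent.H11.SecB

open Subgroup

theorem sq_count {H A : Type*} [Group H] [Finite H] [Group A] (C : Subgroup H)
    (hab : ∀ a ∈ C, ∀ b ∈ C, a * b = b * a) (f : H →* A) (hf : ∀ x ∈ C, f x ^ 2 = 1) :
    Nat.card (C.map f) ≤ Nat.card {x : H // x ∈ C ∧ x ^ 2 = 1} := by
  let sq : C →* C :=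
    { toFun := fun x => x ^ 2
      map_one' := one_pow 2
      map_mul' := fun x y => by
        have : Commute x y := Subtype.ext (hab x x.2 y y.2)
        exact this.mul_pow 2 }
  let f' : C →* A := f.comp C.subtype
  have h1 : Nat.card sq.ker * Nat.card sq.range = Nat.card C := by
    rw [← Subgroup.index_ker, Subgroup.card_mul_index]
  have h2 : Nat.card f'.ker * Nat.card f'.range = Nat.card C := by
    rw [← Subgroup.index_ker, Subgroup.card_mul_index]
  have h3 : sq.range ≤ f'.ker := by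
    rintro _ ⟨x, rfl⟩
    rw [MonoidHom.mem_ker]
    change f ((x ^ 2 : C) : H) = 1
    rw [Subgroup.coe_pow, map_pow]
    exact hf x x.2
  have h4 : Nat.card sq.range ≤ Nat.card f'.ker := Subgroup.card_le_of_le h3
  have h5 : f'.range = C.map f := by
    rw [MonoidHom.range_eq_map, ← Subgroup.map_map, ← MonoidHom.range_eq_map, Subgroup.range_subtype]
  have h6 : Nat.card sq.ker = Nat.card {x : H // x ∈ C ∧ x ^ 2 = 1} := by
    apply Nat.card_congr
    exact
      { toFun := fun x => ⟨x.1.1, x.1.2, by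
          have := x.2
          rw [MonoidHom.mem_ker] at this
          exact congrArg Subtype.val this⟩
        invFun := fun x => ⟨⟨x.1, x.2.1⟩, by
          rw [MonoidHom.mem_ker]
          exact Subtype.ext x.2.2⟩
        left_inv := fun x => rfl
        right_inv := fun x => rfl }
  rw [← h5, ← h6]
  have h7 : 0 < Nat.card sq.range := Nat.card_pos
  have h8 : 0 < Nat.card f'.ker := Nat.card_pos
  by_contra hlt
  rw [not_le] at hlt
  have h9 : Nat.card sq.ker * Nat.card sq.range < Nat.card f'.ker * Nat.card f'.range := by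
    calc Nat.card sq.ker * Nat.card sq.range < Nat.card f'.range * Nat.card sq.range :=
          Nat.mul_lt_mul_of_pos_right hlt h7
      _ ≤ Nat.card f'.range * Nat.card f'.ker := Nat.mul_le_mul_left _ h4
      _ = _ := mul_comm _ _
  omega

/-- lifting a 2-subgroup -/
theorem lift {ℓ : ℕ} [Fact ℓ.Prime] {H A : Type*} [Group H] [Finite H] [Group A] (f : H →* A)
    (hf : Function.Surjective f) (T : Subgroup A) (hT : IsPGroup ℓ T) :
    ∃ R : Subgroup H, IsPGroup ℓ R ∧ R.map f = T := by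
  let M : Subgroup H := T.comap f
  let f' : M →* T := f.subgroupComap T
  have hf' : Function.Surjective f' := by
    rintro ⟨z, hz⟩
    obtain ⟨x, rfl⟩ := hf z
    exact ⟨⟨x, hz⟩, rfl⟩
  have hfin : Finite T := Finite.of_surjective f' hf'
  let S0 : Sylow ℓ M := default
  let S1 : Sylow ℓ T := S0.mapSurjective hf'
  have htop : (S1 : Subgroup T) = ⊤ :=
    (S1.is_maximal' (Q := ⊤) (hT.of_injective (⊤ : Subgroup T).subtype Subtype.coe_injective) le_top).symm
  refine ⟨(S0 : Subgroup M).map M.subtype, S0.2.map _, ?_⟩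
  apply le_antisymm
  · rintro _ ⟨_, ⟨x, -, rfl⟩, rfl⟩
    exact x.2
  · intro t ht
    have h1 : (⟨t, ht⟩ : T) ∈ (S1 : Subgroup T) := by rw [htop]; exact mem_top _
    rw [Sylow.coe_mapSurjective] at h1
    obtain ⟨x, hx, hxe⟩ := h1
    exact ⟨x, ⟨x, hx, rfl⟩, congrArg Subtype.val hxe⟩

theorem two_local {G : Type*} [Group G] [Finite G] (S : Sylow 2 G)
    (hab : ∀ a ∈ ⁅(S : Subgroup G), (S : Subgroup G)⁆, ∀ b ∈ ⁅(S : Subgroup G), (S : Subgroup G)⁆, a * b = b * a)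
    (h4 : Nat.card {x : G // x ∈ ⁅(S : Subgroup G), (S : Subgroup G)⁆ ∧ x ^ 2 = 1} ≤ 4)
    (H : Subgroup G) {A : Type*} [Group A] (f : H →* A) (hf : Function.Surjective f)
    (T V : Subgroup A) (hT : IsPGroup 2 T) (hV : V ≤ ⁅T, T⁆) (hV2 : ∀ v ∈ V, v ^ 2 = 1) : Nat.card V ≤ 4 := by
  obtain ⟨R, hR, hRT⟩ := lift f hf T hT
  have hR' : IsPGroup 2 (R.map H.subtype) := hR.map _
  obtain ⟨S', hS'⟩ := hR'.exists_le_sylow
  obtain ⟨a, ha⟩ := MulAction.exists_smul_eq G S' S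
  let ι : H →* G := (MulAut.conj a).toMonoidHom.comp H.subtype
  have hι : Function.Injective ι := (MulAut.conj a).injective.comp Subtype.coe_injective
  have h1 : R.map ι ≤ S := by
    rw [← ha, Sylow.coe_subgroup_smul]
    rintro _ ⟨x, hx, rfl⟩
    have h2 : (x : G) ∈ (S' : Subgroup G) := hS' ⟨x, hx, rfl⟩
    exact Subgroup.smul_mem_pointwise_smul (x : G) (MulAut.conj a) (S' : Subgroup G) h2
  have h2 : (⁅R, R⁆).map ι ≤ ⁅(S : Subgroup G), (S : Subgroup G)⁆ := by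
    rw [Subgroup.map_commutator]
    exact Subgroup.commutator_mono h1 h1
  let C : Subgroup H := ⁅R, R⁆ ⊓ V.comap f
  have hC : ∀ x ∈ C, ι x ∈ ⁅(S : Subgroup G), (S : Subgroup G)⁆ := fun x hx =>
    h2 ⟨x, (Subgroup.mem_inf.1 hx).1, rfl⟩
  have hCV : C.map f = V := by
    apply le_antisymm
    · rintro _ ⟨x, hx, rfl⟩
      exact (Subgroup.mem_inf.1 hx).2
    · intro v hv
      have h3 := hV hv
      rw [← hRT, ← Subgroup.map_commutator] at h3
      obtain ⟨x, hx, rfl⟩ := h3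
      exact ⟨x, Subgroup.mem_inf.2 ⟨hx, hv⟩, rfl⟩
  have h5 := sq_count C (fun a ha b hb => hι (by
    rw [map_mul, map_mul]; exact hab _ (hC a ha) _ (hC b hb))) f
    (fun x hx => hV2 _ (Subgroup.mem_inf.1 hx).2)
  rw [hCV] at h5
  refine h5.trans (le_trans ?_ h4)
  let j : {x : H // x ∈ C ∧ x ^ 2 = 1} → {x : G // x ∈ ⁅(S : Subgroup G), (S : Subgroup G)⁆ ∧ x ^ 2 = 1} :=
    fun x => ⟨ι x.1, hC _ x.2.1, by rw [← map_pow, x.2.2, map_one]⟩
  exact Nat.card_le_card_of_injective j fun x y hxy => Subtype.ext (hι (congrArg Subtype.val hxy))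

/-! ### the 2-group in degree 8 -/

def B1 (i : Fin 8) : Fin 2 := ⟨i / 4, by omega⟩
def B2 (i : Fin 8) : Fin 4 := ⟨i / 2, by omega⟩

def T0 : Subgroup (Equiv.Perm (Fin 8)) where
  carrier := {x | ∀ i j, (B1 i = B1 j ↔ B1 (x i) = B1 (x j)) ∧ (B2 i = B2 j ↔ B2 (x i) = B2 (x j))}
  mul_mem' := by
    intro x y hx hy i j
    exact ⟨(hy i j).1.trans (hx _ _).1, (hy i j).2.trans (hx _ _).2⟩
  one_mem' := fun i j => ⟨Iff.rfl, Iff.rfl⟩
  inv_mem' := by
    intro x hx i j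
    have := hx (x⁻¹ i) (x⁻¹ j)
    have e : ∀ i, x (x⁻¹ i) = i := fun i => x.apply_symm_apply i
    rw [e, e] at this
    exact ⟨this.1.symm, this.2.symm⟩

theorem fin2 : ∀ a b c : Fin 2, a ≠ b → b ≠ c → a = c := by decide
theorem pair1 : ∀ a b c : Fin 8, B1 a = B1 b → B1 b = B1 c → B2 a ≠ B2 b → B2 b ≠ B2 c → B2 a = B2 c := by
  decide +kernel
theorem pair2 : ∀ a b c : Fin 8, B2 a = B2 b → B2 b = B2 c → a ≠ b → b ≠ c → a = c := by
  decide +kernel

theorem T0_pow {x : Equiv.Perm (Fin 8)} (hx : x ∈ T0) : x ^ 8 = 1 := by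
  have h1 : ∀ i, B1 ((x * x) i) = B1 i := by
    intro i
    change B1 (x (x i)) = B1 i
    by_cases h : B1 i = B1 (x i)
    · exact ((hx i (x i)).1.1 h).symm.trans h.symm
    · have h2 : B1 (x i) ≠ B1 (x (x i)) := fun h3 => h ((hx i (x i)).1.2 h3)
      exact (fin2 _ _ _ h h2).symm
  have hxx : x * x ∈ T0 := mul_mem hx hx
  have h2 : ∀ i, B2 (((x * x) * (x * x)) i) = B2 i := by
    intro i
    change B2 ((x * x) ((x * x) i)) = B2 i
    by_cases h : B2 i = B2 ((x * x) i)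
    · exact ((hxx i ((x * x) i)).2.1 h).symm.trans h.symm
    · have h2 : B2 ((x * x) i) ≠ B2 ((x * x) ((x * x) i)) := fun h3 => h ((hxx i ((x * x) i)).2.2 h3)
      exact (pair1 _ _ _ (h1 i).symm (h1 _).symm h h2).symm
  set y := (x * x) * (x * x) with hy
  have h3 : ∀ i, (y * y) i = i := by
    intro i
    change y (y i) = i
    by_cases h : i = y i
    · rw [← h, ← h]
    · have h4 : y i ≠ y (y i) := fun h5 => h (y.injective h5)
      exact (pair2 _ _ _ (h2 i).symm (h2 _).symm h h4).symm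
  have h5 : x ^ 8 = y * y := by rw [hy]; simp only [← mul_assoc, pow_succ, pow_zero, one_mul]
  rw [h5]
  ext i
  rw [h3]; rfl

theorem T0_mem_iff (x : Equiv.Perm (Fin 8)) : x ∈ T0 ↔
    ∀ i j, (B1 i = B1 j ↔ B1 (x i) = B1 (x j)) ∧ (B2 i = B2 j ↔ B2 (x i) = B2 (x j)) := Iff.rfl

def swp (f g : Fin 8 → Fin 8) (h : ∀ i, g (f i) = i) (h' : ∀ i, f (g i) = i) : Equiv.Perm (Fin 8) := ⟨f, g, h, h'⟩

/-- square roots of the generators -/
def bs : Equiv.Perm (Fin 8) := swp ![1, 4, 3, 6, 5, 0, 7, 2] ![5, 0, 7, 2, 1, 4, 3, 6] (by decide) (by decide)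
def bg : Equiv.Perm (Fin 8) := swp ![1, 2, 3, 0, 4, 5, 6, 7] ![3, 0, 1, 2, 4, 5, 6, 7] (by decide) (by decide)
def bc : Equiv.Perm (Fin 8) := swp ![4, 5, 2, 3, 1, 0, 6, 7] ![5, 4, 2, 3, 0, 1, 6, 7] (by decide) (by decide)
def es : Equiv.Perm (Fin 8) := swp ![4, 5, 6, 7, 0, 1, 2, 3] ![4, 5, 6, 7, 0, 1, 2, 3] (by decide) (by decide)
def eg : Equiv.Perm (Fin 8) := swp ![2, 3, 0, 1, 4, 5, 6, 7] ![2, 3, 0, 1, 4, 5, 6, 7] (by decide) (by decide)
def ec : Equiv.Perm (Fin 8) := swp ![1, 0, 2, 3, 5, 4, 6, 7] ![1, 0, 2, 3, 5, 4, 6, 7] (by decide) (by decide)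
def z1 : Equiv.Perm (Fin 8) := swp ![1, 0, 3, 2, 4, 5, 6, 7] ![1, 0, 3, 2, 4, 5, 6, 7] (by decide) (by decide)
def z2 : Equiv.Perm (Fin 8) := swp ![0, 1, 2, 3, 5, 4, 7, 6] ![0, 1, 2, 3, 5, 4, 7, 6] (by decide) (by decide)
def zv : Equiv.Perm (Fin 8) := swp ![2, 3, 0, 1, 6, 7, 4, 5] ![2, 3, 0, 1, 6, 7, 4, 5] (by decide) (by decide)

theorem es_sq : es = bs * bs := by ext i; fin_cases i <;> rfl
theorem eg_sq : eg = bg * bg := by ext i; fin_cases i <;> rfl
theorem ec_sq : ec = bc * bc := by ext i; fin_cases i <;> rfl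
theorem sg_sq (b : Equiv.Perm (Fin 8)) : Equiv.Perm.sign (b * b) = 1 := by
  rw [map_mul]; exact Int.units_mul_self _
theorem es_sign : Equiv.Perm.sign es = 1 := by rw [es_sq]; exact sg_sq _
theorem eg_sign : Equiv.Perm.sign eg = 1 := by rw [eg_sq]; exact sg_sq _
theorem ec_sign : Equiv.Perm.sign ec = 1 := by rw [ec_sq]; exact sg_sq _
theorem es_mem : es ∈ T0 := by
  rw [T0_mem_iff]; intro i j; fin_cases i <;> fin_cases j <;> decide
theorem eg_mem : eg ∈ T0 := by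
  rw [T0_mem_iff]; intro i j; fin_cases i <;> fin_cases j <;> decide
theorem ec_mem : ec ∈ T0 := by
  rw [T0_mem_iff]; intro i j; fin_cases i <;> fin_cases j <;> decide

end Cfsg.Agent.H11.SecB
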