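import Cfsg.Agent.H11_SecB

/-!
A 2-local obstruction for sections isomorphic to alternating groups of degree at least 8, part 2.
-/

set_option autoImplicit false

namespace Cfsg.Agent.H11.SecB

open Subgroup

theorem com1 : z1 = ec * eg * ec⁻¹ * eg⁻¹ := by decide +kernel
theorem com2 : z2 = ec * (es * eg * es⁻¹) * ec⁻¹ * (es * eg * es⁻¹)⁻¹ := by decide +kernel
theorem comv : zv = es * eg * es⁻¹ * eg⁻¹ := by decide +kernel
theorem c12 : z1 * z2 = z2 * z1 := by decide +kernel
theorem c1v : z1 * zv = zv * z1 := by decide +kernel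
theorem c2v : z2 * zv = zv * z2 := by decide +kernel
theorem s1 : z1 * z1 = 1 := by decide +kernel
theorem s2 : z2 * z2 = 1 := by decide +kernel
theorem sv : zv * zv = 1 := by decide +kernel

def VK : Set (Equiv.Perm (Fin 8)) := {z1, z2, zv}

theorem VK_comm : ∀ x ∈ VK, ∀ y ∈ VK, x * y = y * x := by
  rintro x (rfl | rfl | rfl) y (rfl | rfl | rfl)
  · rfl
  · exact c12
  · exact c1v
  · exact c12.symm
  · rfl
  · exact c2v
  · exact c1v.symm
  · exact c2v.symm
  · rfl

def V0 : Subgroup (Equiv.Perm (Fin 8)) := Subgroup.closure VK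

theorem V0_comm {x y : Equiv.Perm (Fin 8)} (hx : x ∈ V0) (hy : y ∈ V0) : x * y = y * x := by
  haveI := Subgroup.isMulCommutative_closure VK_comm
  have := mul_comm' (⟨x, hx⟩ : closure VK) ⟨y, hy⟩
  exact congrArg Subtype.val this

theorem V0_sq {x : Equiv.Perm (Fin 8)} (hx : x ∈ V0) : x * x = 1 := by
  refine Subgroup.closure_induction (p := fun x _ => x * x = 1) ?_ ?_ ?_ ?_ hx
  · rintro x (rfl | rfl | rfl)
    · exact s1
    · exact s2
    · exact sv
  · rfl
  · intro x y hx hy h1 h2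
    have h3 : y * x = x * y := V0_comm hy hx
    calc x * y * (x * y) = x * (y * x) * y := by group
      _ = (x * x) * (y * y) := by rw [h3]; group
      _ = 1 := by rw [h1, h2, one_mul]
  · intro x hx h1
    rw [← mul_inv_rev, h1, inv_one]

abbrev A8 := alternatingGroup (Fin 8)

def T8 : Subgroup A8 := T0.comap (alternatingGroup (Fin 8)).subtype
def V8 : Subgroup A8 := V0.comap (alternatingGroup (Fin 8)).subtype

theorem T8_pgroup : IsPGroup 2 T8 := by
  rintro ⟨x, hx⟩
  refine ⟨3, Subtype.ext (Subtype.ext ?_)⟩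
  rw [Subgroup.coe_pow, Subgroup.coe_pow]
  exact T0_pow hx

theorem com_mem {a b : Equiv.Perm (Fin 8)} (ha : Equiv.Perm.sign a = 1) (hb : Equiv.Perm.sign b = 1)
    (hat : a ∈ T0) (hbt : b ∈ T0) : a * b * a⁻¹ * b⁻¹ ∈ (⁅T8, T8⁆).map (alternatingGroup (Fin 8)).subtype := by
  let a' : A8 := ⟨a, Equiv.Perm.mem_alternatingGroup.2 ha⟩
  let b' : A8 := ⟨b, Equiv.Perm.mem_alternatingGroup.2 hb⟩
  have h1 : a' ∈ T8 := hat
  have h2 : b' ∈ T8 := hbt
  refine ⟨a' * b' * a'⁻¹ * b'⁻¹, ?_, rfl⟩
  have := Subgroup.commutator_mem_commutator h1 h2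
  rwa [commutatorElement_def] at this

theorem V0_le : V0 ≤ (⁅T8, T8⁆).map (alternatingGroup (Fin 8)).subtype := by
  unfold V0
  rw [Subgroup.closure_le]
  rintro x (rfl | rfl | rfl)
  · rw [SetLike.mem_coe, com1]; exact com_mem ec_sign eg_sign ec_mem eg_mem
  · rw [SetLike.mem_coe, com2]
    refine com_mem ec_sign ?_ ec_mem (mul_mem (mul_mem es_mem eg_mem) (inv_mem es_mem))
    rw [map_mul, map_mul, map_inv, es_sign, eg_sign]; rfl
  · rw [SetLike.mem_coe, comv]; exact com_mem es_sign eg_sign es_mem eg_mem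

theorem V8_le : V8 ≤ ⁅T8, T8⁆ := by
  intro x hx
  obtain ⟨y, hy, hyx⟩ := V0_le hx
  rw [← (Subtype.ext hyx : y = x)]; exact hy

def vf : Fin 5 → Equiv.Perm (Fin 8) := ![1, z1, z2, z1 * z2, zv]

theorem vf_inj : Function.Injective vf := by
  intro i j h
  have h0 : vf i 0 = vf j 0 := by rw [h]
  have h4 : vf i 4 = vf j 4 := by rw [h]
  revert h0 h4
  clear h
  fin_cases i <;> fin_cases j <;> intro h0 h4 <;> first | rfl | exact absurd h0 (by decide) | exact absurd h4 (by decide)

theorem vf_mem (i : Fin 5) : vf i ∈ V0 := by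
  have h1 : z1 ∈ V0 := Subgroup.subset_closure (Or.inl rfl)
  have h2 : z2 ∈ V0 := Subgroup.subset_closure (Or.inr (Or.inl rfl))
  have h3 : zv ∈ V0 := Subgroup.subset_closure (Or.inr (Or.inr rfl))
  fin_cases i
  · exact one_mem _
  · exact h1
  · exact h2
  · exact mul_mem h1 h2
  · exact h3

theorem V8_card : 5 ≤ Nat.card V8 := by
  have h1 : ∀ i, vf i ∈ alternatingGroup (Fin 8) := by
    intro i
    obtain ⟨y, -, hyx⟩ := V0_le (vf_mem i)
    rw [← hyx]; exact y.2
  let j : Fin 5 → V8 := fun i => ⟨⟨vf i, h1 i⟩, vf_mem i⟩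
  have hj : Function.Injective j := fun a b h => vf_inj (congrArg (fun x : V8 => ((x : A8) : Equiv.Perm (Fin 8))) h)
  have := Nat.card_le_card_of_injective j hj
  rwa [Nat.card_eq_fintype_card, Fintype.card_fin] at this

/-- embedding of alternating groups -/
theorem exists_emb {n r : ℕ} (hr : n ≤ r) : ∃ E : alternatingGroup (Fin n) →* alternatingGroup (Fin r),
    Function.Injective E := by
  classical
  let e := Equiv.Perm.viaEmbeddingHom (Fin.castLEEmb hr)
  have he : Function.Injective e := Equiv.Perm.viaEmbeddingHom_injective _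
  have hsg : ∀ t : Equiv.Perm (Fin n), Equiv.Perm.sign (e t) = Equiv.Perm.sign t := by
    intro t
    have : e t = Equiv.Perm.viaFintypeEmbedding t (Fin.castLEEmb hr) := by
      ext x
      by_cases hx : x ∈ Set.range (Fin.castLEEmb hr)
      · obtain ⟨y, rfl⟩ := hx
        rw [Equiv.Perm.viaFintypeEmbedding_apply_image]
        exact congrArg _ (Equiv.Perm.viaEmbedding_apply t (Fin.castLEEmb hr) y)
      · rw [Equiv.Perm.viaFintypeEmbedding_apply_notMem_range _ _ hx]
        exact congrArg _ (Equiv.Perm.viaEmbedding_apply_of_notMem t (Fin.castLEEmb hr) x hx)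
    rw [this, Equiv.Perm.viaFintypeEmbedding_sign]
  refine ⟨(e.comp (alternatingGroup (Fin n)).subtype).codRestrict (alternatingGroup (Fin r)) ?_, ?_⟩
  · intro x
    rw [Equiv.Perm.mem_alternatingGroup]
    change Equiv.Perm.sign (e x) = 1
    rw [hsg]
    exact Equiv.Perm.mem_alternatingGroup.1 x.2
  · intro x y h
    have : e x = e y := congrArg Subtype.val h
    exact Subtype.ext (he this)

theorem no_A8 {G : Type*} [Group G] [Finite G] (S : Sylow 2 G)
    (hab : ∀ a ∈ ⁅(S : Subgroup G), (S : Subgroup G)⁆, ∀ b ∈ ⁅(S : Subgroup G), (S : Subgroup G)⁆, a * b = b * a)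
    (h4 : Nat.card {x : G // x ∈ ⁅(S : Subgroup G), (S : Subgroup G)⁆ ∧ x ^ 2 = 1} ≤ 4)
    (H : Subgroup G) {r : ℕ} (f : H →* alternatingGroup (Fin r)) (hf : Function.Surjective f) : r ≤ 7 := by
  by_contra hr
  obtain ⟨E, hE⟩ := exists_emb (n := 8) (r := r) (by omega)
  have h1 := two_local S hab h4 H f hf (T8.map E) (V8.map E) (T8_pgroup.map E)
    (by rw [← Subgroup.map_commutator]; exact Subgroup.map_mono V8_le)
    (by
      rintro _ ⟨x, hx, rfl⟩
      rw [← map_pow]
      have : x ^ 2 = 1 := Subtype.ext (by rw [Subgroup.coe_pow, sq]; exact V0_sq hx)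
      rw [this, map_one])
  have h2 : Nat.card (V8.map E) = Nat.card V8 :=
    (Nat.card_congr (V8.equivMapOfInjective E hE).toEquiv).symm
  have h3 := V8_card
  omega

end Cfsg.Agent.H11.SecB
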