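import Cfsg.Agent.H11_SecC
import Cfsg.Agent.H11_F4T
import Cfsg.Agent.S1092

/-!
Sylow subgroups and the torus normalizer, abstract part.
-/

set_option autoImplicit false
set_option linter.unusedSectionVars false

namespace Cfsg.Agent.H11.SecD

open Subgroup

/-- transport along an injective homomorphism -/
theorem no_section' {ℓ : ℕ} [Fact ℓ.Prime] {e c : ℕ} (hce : ¬ c ^ e ≡ 1 [MOD ℓ]) {G : Type*} [Group G] [Finite G]
    (P : Sylow ℓ G) (hab : ∀ a ∈ P, ∀ b ∈ P, a * b = b * a)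
    (hn : ∀ g ∈ normalizer ((P : Subgroup G) : Set G), ∀ a ∈ P, g ^ e * a = a * g ^ e)
    {H : Type*} [Group H] (ι : H →* G) (hι : Function.Injective ι)
    {A : Type*} [Group A] (f : H →* A) (hf : Function.Surjective f) {σ τ : A}
    (h1 : σ ≠ 1) (h7 : σ ^ ℓ = 1) (h2 : τ * σ * τ⁻¹ = σ ^ c) : False := by
  let j := MonoidHom.ofInjective hι
  exact SecA.no_section hce P hab hn ι.range (f.comp j.symm.toMonoidHom) (hf.comp j.symm.surjective) h1 h7 h2

theorem mk_sylow {ℓ : ℕ} [Fact ℓ.Prime] {e : ℕ} {G : Type*} [Group G] [Finite G] (Hd : Subgroup G)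
    (hab : ∀ a ∈ Hd, ∀ b ∈ Hd, a * b = b * a) (hind : ¬ ℓ ∣ Hd.index)
    (hN : ∀ g : G, ∀ Q : Subgroup G, Q ≤ Hd → (∀ h ∈ Hd, h ^ ℓ = 1 → h ∈ Q) →
      g ∈ normalizer (Q : Set G) → g ^ e ∈ Hd) :
    ∃ P : Sylow ℓ G, (∀ a ∈ P, ∀ b ∈ P, a * b = b * a) ∧
      ∀ g ∈ normalizer ((P : Subgroup G) : Set G), ∀ a ∈ P, g ^ e * a = a * g ^ e := by
  let Q0 : Sylow ℓ Hd := default
  have hQp : IsPGroup ℓ ((Q0 : Subgroup Hd).map Hd.subtype) := Q0.2.map _
  have hQi : ¬ ℓ ∣ ((Q0 : Subgroup Hd).map Hd.subtype).index := by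
    rw [Subgroup.index_map_subtype]
    intro h
    rcases (Nat.Prime.dvd_mul (Fact.out)).1 h with h | h
    · exact Q0.not_dvd_index h
    · exact hind h
  have hle : (Q0 : Subgroup Hd).map Hd.subtype ≤ Hd := by
    rintro _ ⟨x, -, rfl⟩
    exact x.2
  refine ⟨hQp.toSylow hQi, ?_, ?_⟩
  · rintro a ha b hb
    rw [IsPGroup.mem_toSylow] at ha hb
    exact hab _ (hle ha) _ (hle hb)
  · intro g hg a ha
    rw [IsPGroup.mem_toSylow] at ha
    rw [IsPGroup.toSylow_coe] at hg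
    have h16 := hN g _ hle ?_ hg
    · exact hab _ h16 _ (hle ha)
    · intro h hh hh7
      let x : Hd := ⟨h, hh⟩
      have hx7 : x ^ ℓ = 1 := Subtype.ext hh7
      have hcomm : ∀ y z : Hd, y * z = z * y := fun y z => Subtype.ext (hab _ y.2 _ z.2)
      have hnor : (Q0 : Subgroup Hd).Normal := ⟨fun y hy z => by
        rw [hcomm z y, mul_inv_cancel_right]; exact hy⟩
      have hzp : IsPGroup ℓ (Subgroup.zpowers x) := by
        rintro ⟨z, hz⟩
        obtain ⟨k, rfl⟩ := Subgroup.mem_zpowers_iff.1 hz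
        refine ⟨1, Subtype.ext ?_⟩
        change (x ^ k) ^ (ℓ ^ 1) = 1
        rw [pow_one, ← zpow_natCast, ← zpow_mul, mul_comm, zpow_mul, zpow_natCast, hx7, one_zpow]
      obtain ⟨Q', hQ'⟩ := hzp.exists_le_sylow
      have hsub : Q' = Q0 := by
        have := Sylow.unique_of_normal Q0 hnor
        exact Subsingleton.elim _ _
      refine ⟨x, ?_, rfl⟩
      rw [hsub] at hQ'
      exact hQ' (Subgroup.mem_zpowers x)

theorem comm_of_card12 {W : Type*} [Group W] (hW : Nat.card W = 12) (K : Subgroup W) (hK : IsPGroup 2 K) :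
    ∀ a ∈ K, ∀ b ∈ K, a * b = b * a := by
  have : Fact (Nat.Prime 2) := ⟨Nat.prime_two⟩
  have hfin : Finite W := Nat.finite_of_card_ne_zero (by omega)
  obtain ⟨k, hk⟩ := IsPGroup.iff_card.1 hK
  have hd : 2 ^ k ∣ 12 := by rw [← hk, ← hW]; exact Subgroup.card_subgroup_dvd_card K
  have hk2 : k ≤ 2 := by
    by_contra hlt
    have h8 : 2 ^ 3 ∣ 12 := (pow_dvd_pow 2 (by omega : 3 ≤ k)).trans hd
    omega
  have hc : ∀ x y : K, x * y = y * x := by
    intro x y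
    interval_cases k
    · have h1 : Nat.card K = 1 := by simpa using hk
      have : Subsingleton K := (Nat.card_eq_one_iff_unique.1 h1).1
      exact Subsingleton.elim _ _
    · have h1 : Nat.card K = 2 := by simpa using hk
      have : IsCyclic K := isCyclic_of_prime_card h1
      exact mul_comm' x y
    · have h1 : Nat.card K = 2 ^ 2 := hk
      letI := IsPGroup.commGroupOfCardEqPrimeSq h1
      exact mul_comm x y
  intro a ha b hb
  exact congrArg Subtype.val (hc ⟨a, ha⟩ ⟨b, hb⟩)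

theorem mk_sylow2 {G : Type*} [Group G] [Finite G] (Hd Nd : Subgroup G)
    (hab : ∀ a ∈ Hd, ∀ b ∈ Hd, a * b = b * a) (hind : ¬ 2 ∣ Nd.index) {W : Type*} [Group W]
    (hW : Nat.card W = 12) (ψ : Nd →* W) (hker : ∀ x : Nd, ψ x = 1 → (x : G) ∈ Hd)
    (h4 : Nat.card {x : G // x ∈ Hd ∧ x ^ 2 = 1} ≤ 4) :
    ∃ S : Sylow 2 G,
    (∀ a ∈ ⁅(S : Subgroup G), (S : Subgroup G)⁆, ∀ b ∈ ⁅(S : Subgroup G), (S : Subgroup G)⁆, a * b = b * a) ∧
    Nat.card {x : G // x ∈ ⁅(S : Subgroup G), (S : Subgroup G)⁆ ∧ x ^ 2 = 1} ≤ 4 := by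
  have : Fact (Nat.Prime 2) := ⟨Nat.prime_two⟩
  let S0 : Sylow 2 Nd := default
  have hQp : IsPGroup 2 ((S0 : Subgroup Nd).map Nd.subtype) := S0.2.map _
  have hQi : ¬ 2 ∣ ((S0 : Subgroup Nd).map Nd.subtype).index := by
    rw [Subgroup.index_map_subtype]
    intro h
    rcases (Nat.Prime.dvd_mul (Fact.out)).1 h with h | h
    · exact S0.not_dvd_index h
    · exact hind h
  have hle : ⁅(S0 : Subgroup Nd).map Nd.subtype, (S0 : Subgroup Nd).map Nd.subtype⁆ ≤ Hd := by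
    rw [← Subgroup.map_commutator]
    rintro _ ⟨x, hx, rfl⟩
    apply hker
    have h1 : ψ x ∈ (⁅(S0 : Subgroup Nd), (S0 : Subgroup Nd)⁆).map ψ := ⟨x, hx, rfl⟩
    rw [Subgroup.map_commutator] at h1
    have h2 : ⁅(S0 : Subgroup Nd).map ψ, (S0 : Subgroup Nd).map ψ⁆ = ⊥ := by
      rw [eq_bot_iff, Subgroup.commutator_le]
      intro a ha b hb
      rw [Subgroup.mem_bot, commutatorElement_def, comm_of_card12 hW _ (S0.2.map ψ) a ha b hb]
      group
    rw [h2, Subgroup.mem_bot] at h1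
    exact h1
  refine ⟨hQp.toSylow hQi, ?_, ?_⟩
  · rw [IsPGroup.toSylow_coe]
    intro a ha b hb
    exact hab _ (hle ha) _ (hle hb)
  · rw [IsPGroup.toSylow_coe]
    refine le_trans ?_ h4
    exact Nat.card_le_card_of_injective
      (fun x => (⟨x.1, hle x.2.1, x.2.2⟩ : {x : G // x ∈ Hd ∧ x ^ 2 = 1}))
      (fun x y hxy => Subtype.ext (congrArg (fun z => z.1) hxy))

/-! ### the Coxeter group of type `G₂` -/

theorem dihedral_pow {W : Type*} [Group W] {s t : W} (hs : s * s = 1) (ht : t * t = 1) (hst : (s * t) ^ 6 = 1)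
    {w : W} (hw : w ∈ Subgroup.closure {s, t}) : w ^ 6 = 1 := by
  have hsi : s⁻¹ = s := inv_eq_of_mul_eq_one_left hs
  have hti : t⁻¹ = t := inv_eq_of_mul_eq_one_left ht
  set x := s * t with hx
  have hxi : x⁻¹ = t * s := by rw [hx, mul_inv_rev, hsi, hti]
  have hsx : ∀ k : ℤ, s * x ^ k = x ^ (-k) * s := by
    intro k
    have h1 : s * x * s⁻¹ = x⁻¹ := by
      rw [hxi, hsi, hx]
      calc s * (s * t) * s = (s * s) * t * s := by group
        _ = t * s := by rw [hs, one_mul]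
    have h2 : s * x ^ k * s⁻¹ = x ^ (-k) := by
      rw [← conj_zpow, h1, inv_zpow, zpow_neg]
    rw [← h2]; group
  have key : ∀ w ∈ Subgroup.closure {s, t}, ∃ k : ℤ, w = x ^ k ∨ w = x ^ k * s := by
    intro w hw
    have hts : t = x⁻¹ * s := by rw [hxi, mul_assoc, hs, mul_one]
    have hmul : ∀ y, (∃ k : ℤ, y = x ^ k ∨ y = x ^ k * s) → (∃ k : ℤ, s * y = x ^ k ∨ s * y = x ^ k * s) := by
      rintro y ⟨k, rfl | rfl⟩
      · exact ⟨-k, Or.inr (hsx k)⟩
      · refine ⟨-k, Or.inl ?_⟩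
        rw [← mul_assoc, hsx, mul_assoc, hs, mul_one]
    have hmulx : ∀ y, (∃ k : ℤ, y = x ^ k ∨ y = x ^ k * s) → (∃ k : ℤ, x⁻¹ * y = x ^ k ∨ x⁻¹ * y = x ^ k * s) := by
      rintro y ⟨k, rfl | rfl⟩
      · refine ⟨-1 + k, Or.inl ?_⟩
        rw [zpow_add, zpow_neg_one]
      · refine ⟨-1 + k, Or.inr ?_⟩
        rw [zpow_add, zpow_neg_one, mul_assoc]
    refine Subgroup.closure_induction_left (p := fun w _ => ∃ k : ℤ, w = x ^ k ∨ w = x ^ k * s) ?_ ?_ ?_ hw
    · exact ⟨0, Or.inl (zpow_zero x).symm⟩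
    · rintro a (rfl | rfl) y _ hy
      · exact hmul y hy
      · rw [hts, mul_assoc]
        exact hmulx _ (hmul y hy)
    · rintro a (rfl | rfl) y _ hy
      · rw [hsi]; exact hmul y hy
      · rw [hti, hts, mul_assoc]
        exact hmulx _ (hmul y hy)
  obtain ⟨k, rfl | rfl⟩ := key w hw
  · rw [← zpow_natCast, ← zpow_mul, mul_comm, zpow_mul, zpow_natCast, hst, one_zpow]
  · have h1 : (x ^ k * s) * (x ^ k * s) = 1 := by
      calc (x ^ k * s) * (x ^ k * s) = x ^ k * (s * x ^ k) * s := by group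
        _ = x ^ k * x ^ (-k) * (s * s) := by rw [hsx]; group
        _ = 1 := by rw [hs, mul_one, ← zpow_add, add_neg_cancel, zpow_zero]
    have h2 : (x ^ k * s) ^ 6 = ((x ^ k * s) * (x ^ k * s)) ^ 3 := by
      rw [← sq, ← pow_mul]
    rw [h2, h1, one_pow]

theorem coxG2_pow (w : (CoxeterMatrix.G₂ : CoxeterMatrix (Fin 2)).Group) : w ^ 6 = 1 := by
  let cs := (CoxeterMatrix.G₂ : CoxeterMatrix (Fin 2)).toCoxeterSystem
  have h0 := cs.simple_mul_simple_self 0
  have h1 := cs.simple_mul_simple_self 1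
  have h2 := cs.simple_mul_simple_pow 0 1
  have h3 : (CoxeterMatrix.G₂ : CoxeterMatrix (Fin 2)) 0 1 = 6 := by decide
  rw [h3] at h2
  apply dihedral_pow h0 h1 h2
  have h4 := cs.subgroup_closure_range_simple
  have h5 : Set.range cs.simple = {cs.simple 0, cs.simple 1} := by
    ext x
    simp [Set.mem_range, Fin.exists_fin_two, eq_comm]
  rw [← h5, h4]
  exact mem_top w

theorem coxG2_card : Nat.card (CoxeterMatrix.G₂ : CoxeterMatrix (Fin 2)).Group = 12 :=
  Cfsg.Agent.S1092.result (⟨2, CoxeterMatrix.G₂⟩, 12) (by simp)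

end Cfsg.Agent.H11.SecD
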