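import Cfsg.Agent.H11_SecD
import Cfsg.Agent.S1059
import Cfsg.Agent.S1039
import Cfsg.Agent.H14_ChevW

/-!
Sylow subgroups of `G₂(q)` and the torus normalizer.
-/

set_option autoImplicit false
set_option linter.unusedSectionVars false
set_option maxRecDepth 100000

namespace Cfsg.Agent.H11.SecE

open Cfsg Cfsg.Lie Cfsg.Lie.ChevalleyDatum Cfsg.Agent.H6.Chev

section gen

variable {D : ChevalleyDatum} {m : Model D} {F : Type*} [Field F]

theorem norm_in_N (m : Model D) {Q : Subgroup (GL D.Idx F)} (hQ : Q ≤ D.diagonalSubgroup F)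
    (hcent : ∀ u ∈ D.posUnipotent F, (∀ h ∈ Q, h * u = u * h) → u = 1) {g : GL D.Idx F}
    (hg : g ∈ D.group F) (hn : ∀ h ∈ Q, g * h * g⁻¹ ∈ Q) (hn' : ∀ h ∈ Q, g⁻¹ * h * g ∈ Q) :
    g ∈ D.monomialSubgroup F := by
  obtain ⟨b, hb, n', hn'N, w, hw, hact', u, hu, rfl⟩ := m.exists_bruhat' hg
  obtain ⟨v, hv, h', hh', rfl⟩ := m.mem_B.1 hb
  obtain ⟨n, hne⟩ : ∃ n, h' * n' = n := ⟨_, rfl⟩
  have hnN : n ∈ D.monomialSubgroup F := by rw [← hne]; exact mul_mem (m.H_le_N hh') hn'N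
  have hact : m.Acts n w := by
    have := (m.acts_h hh').mul hact'
    rwa [one_mul, hne] at this
  have he : v * h' * n' * u = v * n * u := by rw [mul_assoc v, hne]
  rw [he] at hn hn' ⊢
  clear he hg hb
  have key : ∀ h₁ ∈ Q, h₁ * u = u * h₁ ∧ (v * n * u) * h₁ * (v * n * u)⁻¹ * v = v * ((v * n * u) * h₁ * (v * n * u)⁻¹) := by
    intro h₁ hh
    have h1 : h₁ ∈ D.diagonalSubgroup F := hQ hh
    have h2 := hQ (hn h₁ hh)
    obtain ⟨h₂, hc⟩ : ∃ h₂, v * n * u * h₁ * (v * n * u)⁻¹ = h₂ := ⟨_, rfl⟩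
    rw [hc] at h2 ⊢
    have h3 : n * h₁ * n⁻¹ ∈ D.diagonalSubgroup F :=
      (Subgroup.mem_normalizer_iff.1 (m.N_le_normalizer hnN) _).1 h1
    have hu' : h₁⁻¹ * u * h₁ ∈ m.Uw F w := by
      have := m.H_norm_Uw w (inv_mem h1) hu
      rwa [inv_inv] at this
    have hv' : h₂ * v * h₂⁻¹ ∈ D.posUnipotent F :=
      (Subgroup.mem_normalizer_iff.1 (m.H_le_normalizer_U h2) v).1 hv
    have h4 : (v * (n * h₁ * n⁻¹)) * n * (h₁⁻¹ * u * h₁) = ((h₂ * v * h₂⁻¹) * h₂) * n * u := by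
      have : v * n * u * h₁ = h₂ * (v * n * u) := by
        rw [← hc]; group
      calc (v * (n * h₁ * n⁻¹)) * n * (h₁⁻¹ * u * h₁) = v * n * u * h₁ := by group
        _ = _ := by rw [this]; group
    have h5 := m.bruhat_unique (mul_mem (Model.U_le_B hv) (Model.H_le_B h3))
      (mul_mem (Model.U_le_B hv') (Model.H_le_B h2)) hact hu' hu h4
    have h6 : (h₂ * v * h₂⁻¹)⁻¹ * v = h₂ * (n * h₁ * n⁻¹)⁻¹ := by
      rw [inv_mul_eq_iff_eq_mul, ← mul_assoc, ← h5.1]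
      group
    have h7 : (h₂ * v * h₂⁻¹)⁻¹ * v ∈ D.posUnipotent F ⊓ D.diagonalSubgroup F :=
      Subgroup.mem_inf.2 ⟨mul_mem (inv_mem hv') hv, by
        rw [h6]; exact mul_mem h2 (inv_mem h3)⟩
    rw [m.U_inf_H, Subgroup.mem_bot] at h7
    have h8 := inv_mul_eq_one.1 h7
    refine ⟨?_, ?_⟩
    · have h9 := h5.2
      rw [mul_assoc, inv_mul_eq_iff_eq_mul] at h9
      exact h9.symm
    · rw [mul_inv_eq_iff_eq_mul] at h8
      exact h8
  have hu1 : u = 1 := hcent u (m.Uw_le_U w hu) fun h hh => (key h hh).1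
  have hv1 : v = 1 := by
    apply hcent v hv
    intro h hh
    have h1 := (key _ (hn' h hh)).2
    have h2 : v * n * u * ((v * n * u)⁻¹ * h * (v * n * u)) * (v * n * u)⁻¹ = h := by group
    rw [h2] at h1
    exact h1
  rw [hu1, hv1, one_mul, mul_one]
  exact hnN

end gen

theorem count4 {X F : Type*} [Field F] (b : X → Fˣ × Fˣ) (hinj : Function.Injective b)
    (h1 : ∀ x, (b x).1 ^ 2 = 1) (h2 : ∀ x, (b x).2 ^ 2 = 1) : Nat.card X ≤ 4 := by
  have hsq : ∀ u : Fˣ, u ^ 2 = 1 → u = 1 ∨ u = -1 := by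
    intro u hu
    have h1 : (u : F) * u = 1 := by
      have := congrArg Units.val hu
      rwa [sq, Units.val_mul] at this
    rcases mul_self_eq_one_iff.1 h1 with h | h
    · left; exact Units.ext h
    · right; exact Units.ext h
  have key : ∀ u v : Fˣ, u ^ 2 = 1 → v ^ 2 = 1 → ((u = 1) = (v = 1)) → u = v := by
    intro u v hu hv h
    by_cases h3 : u = 1
    · have h4 : v = 1 := h ▸ h3
      rw [h3, h4]
    · have h4 : v ≠ 1 := fun h5 => h3 (h.symm ▸ h5)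
      rw [(hsq u hu).resolve_left h3, (hsq v hv).resolve_left h4]
  have h3 := Nat.card_le_card_of_injective (fun x => (((b x).1 = 1, (b x).2 = 1) : Prop × Prop)) (by
    intro x y hxy
    apply hinj
    exact Prod.ext (key _ _ (h1 x) (h1 y) (congrArg Prod.fst hxy)) (key _ _ (h2 x) (h2 y) (congrArg Prod.snd hxy)))
  have h4 : Nat.card (Prop × Prop) = 4 := by
    rw [Nat.card_prod, Nat.card_eq_fintype_card, Fintype.card_prop]
  omega

variable {F : Type*} [Field F]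

def vv (r : ℕ) : List ℤ := [tabG2.c 0 r, tabG2.c 1 r]

theorem vv_ok (r : Fin 6) : (Nat.blt (r + 6) tabG2.n && allNat tabG2.l fun k => intEq (tabG2.c k (r + 6))
    ((vv (r + 6)).getD k 0)) = true ∧
    ¬ ((5 : ℤ) ∣ (vv (r + 6)).getD 0 0 ∧ (5 : ℤ) ∣ (vv (r + 6)).getD 1 0) := by
  revert r
  decide +kernel

/-- torus elements of order 5 -/
theorem torus_elts {ζ : Fˣ} (h5 : ζ ^ 5 = 1) (h1 : ζ ≠ 1) :
    ∃ h₁ h₂ : GL chevG2.Idx F, h₁ ∈ chevG2.diagonalSubgroup F ∧ h₂ ∈ chevG2.diagonalSubgroup F ∧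
      h₁ ^ 5 = 1 ∧ h₂ ^ 5 = 1 ∧
      ∀ u ∈ chevG2.posUnipotent F, h₁ * u = u * h₁ → h₂ * u = u * h₂ → u = 1 := by
  have : Fact (Nat.Prime 5) := ⟨by norm_num⟩
  have hord : orderOf ζ = 5 := orderOf_eq_prime h5 h1
  let b : Fˣ → Fˣ → (Fin 2 → Fˣ) := fun s t => ![s, t]
  have hb5 : ∀ s t : Fˣ, s ^ 5 = 1 → t ^ 5 = 1 → (modelG2.hT F (b s t)) ^ 5 = 1 := by
    intro s t hs ht
    refine (map_pow (modelG2.hT F) (b s t) 5).symm.trans ?_
    have : (b s t) ^ 5 = 1 := by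
      funext k
      fin_cases k
      · exact hs
      · exact ht
    have h2 : (modelG2.hT F) ((b s t) ^ 5) = (modelG2.hT F) 1 := congrArg _ this
    rw [map_one] at h2
    exact h2
  have hX : ∀ (r : ℕ) (v : List ℤ) (h : (Nat.blt r tabG2.n && allNat tabG2.l fun k => intEq (tabG2.c k r)
      (v.getD k 0)) = true) (s t : Fˣ) (y : F),
      modelG2.hT F (b s t) * modelG2.X r y * (modelG2.hT F (b s t))⁻¹ =
      modelG2.X r ((s : F) ^ v.getD 0 0 * (t : F) ^ v.getD 1 0 * y) := by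
    intro r v h s t y
    have h1 := hT_Xr modelG2 baseG2 v h (b s t) y
    rw [h1]
    congr 2
    have h2 : ∏ k : Fin 2, b s t k ^ v.getD k 0 = s ^ v.getD 0 0 * t ^ v.getD 1 0 := by
      rw [Fin.prod_univ_two]; rfl
    have h3 : ((∏ k : Fin chevG2.rank, (b s t : Fin chevG2.rank → Fˣ) k ^ v.getD k 0 : Fˣ) : F) =
      ((s ^ v.getD 0 0 * t ^ v.getD 1 0 : Fˣ) : F) := congrArg Units.val h2
    rw [h3, Units.val_mul, Units.val_zpow_eq_zpow_val, Units.val_zpow_eq_zpow_val]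
  have hN : modelG2.N = 6 := by
    have h1 := modelG2.nroots_eq
    have h2 := baseG2.nroots
    have h3 : tabG2.n = 12 := rfl
    omega
  have hval : ∀ z : ℤ, (ζ : F) ^ z = 1 → (5 : ℤ) ∣ z := by
    intro z hz
    have h2 : ζ ^ z = 1 := by
      apply Units.ext
      rw [Units.val_zpow_eq_zpow_val, hz, Units.val_one]
    have := orderOf_dvd_iff_zpow_eq_one.2 h2
    rw [hord] at this
    exact_mod_cast this
  refine ⟨modelG2.hT F (b ζ 1), modelG2.hT F (b 1 ζ), modelG2.hT_mem_H _, modelG2.hT_mem_H _,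
    hb5 _ _ h5 (one_pow _), hb5 _ _ (one_pow _) h5, ?_⟩
  intro u hu hc1 hc2
  refine F4T.cent_triv (m := modelG2)
    (χ₁ := fun r => (ζ : F) ^ ((vv r).getD 0 0))
    (χ₂ := fun r => (ζ : F) ^ ((vv r).getD 1 0)) ?_ ?_ ?_ hu hc1 hc2
  · intro r hr y
    rw [hN, List.mem_range'_1] at hr
    have h := (vv_ok ⟨r - 6, by omega⟩).1
    have hr' : r - 6 + 6 = r := by omega
    simp only [hr'] at h
    rw [hX r (vv r) h ζ 1 y, Units.val_one, one_zpow, mul_one]
  · intro r hr y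
    rw [hN, List.mem_range'_1] at hr
    have h := (vv_ok ⟨r - 6, by omega⟩).1
    have hr' : r - 6 + 6 = r := by omega
    simp only [hr'] at h
    rw [hX r (vv r) h 1 ζ y, Units.val_one, one_zpow, one_mul]
  · intro r hr
    rw [hN, List.mem_range'_1] at hr
    have h := (vv_ok ⟨r - 6, by omega⟩).2
    have hr' : r - 6 + 6 = r := by omega
    simp only [hr'] at h
    by_contra hcon
    rw [not_or, not_not, not_not] at hcon
    exact h ⟨hval _ hcon.1, hval _ hcon.2⟩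

theorem diag_le : chevG2.diagonalSubgroup F ≤ chevG2.group F := modelG2.H_le_G
theorem mono_le : chevG2.monomialSubgroup F ≤ chevG2.group F := fun _ h => modelG2.N_le_G h

theorem card_H [Finite F] : Nat.card (chevG2.diagonalSubgroup F) = (Nat.card F - 1) ^ 2 := by
  have h1 : Function.Injective (modelG2.hT F) := by
    rw [injective_iff_map_eq_one]
    intro b hb
    exact g2_inj hb
  have h2 : Nat.card (Fin 2 → Fˣ) = Nat.card (chevG2.diagonalSubgroup F) := by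
    apply Nat.card_congr
    refine Equiv.ofBijective (fun b => (⟨modelG2.hT F b, modelG2.hT_mem_H _⟩ : chevG2.diagonalSubgroup F)) ⟨?_, ?_⟩
    · intro a b hab
      exact h1 (congrArg Subtype.val hab)
    · rintro ⟨g, hg⟩
      obtain ⟨b, rfl⟩ := modelG2.mem_H'.1 hg
      exact ⟨b, rfl⟩
  rw [← h2, Nat.card_fun, Nat.card_units, Nat.card_fin]

theorem exists_psi : ∃ ψ : ↥(chevG2.monomialSubgroup F) →* (CoxeterMatrix.G₂ : CoxeterMatrix (Fin 2)).Group,
    Function.Surjective ψ ∧ ψ.ker = (chevG2.diagonalSubgroup F).subgroupOf (chevG2.monomialSubgroup F) := by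
  obtain ⟨ψ, h1, h2, -⟩ := Cfsg.Agent.S1039.result (F := F) (chevG2, ⟨2, CoxeterMatrix.G₂⟩) (by simp)
  exact ⟨ψ, h1, h2⟩

theorem H_index [Finite F] {q : ℕ} (hq : Nat.card F = q + 1) :
    ((chevG2.diagonalSubgroup F).subgroupOf (chevG2.group F)).index =
      (q + 1) ^ 6 * (q + 2) * ((q + 1) ^ 5 + (q + 1) ^ 4 + (q + 1) ^ 3 + (q + 1) ^ 2 + (q + 1) + 1) := by
  have := Fintype.ofFinite F
  have hq1 : 0 < q := by
    have := Finite.one_lt_card (α := F)
    omega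
  have h1 := ((chevG2.diagonalSubgroup F).subgroupOf (chevG2.group F)).card_mul_index
  have h2 : Nat.card ((chevG2.diagonalSubgroup F).subgroupOf (chevG2.group F)) = q ^ 2 := by
    rw [Nat.card_congr (Subgroup.subgroupOfEquivOfLe diag_le).toEquiv, card_H, hq, Nat.add_sub_cancel]
  rw [h2, Cfsg.Agent.S1059.result (q := q + 1) (by rw [← Nat.card_eq_fintype_card]; exact hq)] at h1
  have e1 : (q + 1) ^ 2 - 1 = q * (q + 2) := by
    have : (q + 1) ^ 2 = q * (q + 2) + 1 := by ring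
    omega
  have e2 : (q + 1) ^ 6 - 1 = q * ((q + 1) ^ 5 + (q + 1) ^ 4 + (q + 1) ^ 3 + (q + 1) ^ 2 + (q + 1) + 1) := by
    have : (q + 1) ^ 6 = q * ((q + 1) ^ 5 + (q + 1) ^ 4 + (q + 1) ^ 3 + (q + 1) ^ 2 + (q + 1) + 1) + 1 := by ring
    omega
  rw [e1, e2] at h1
  apply Nat.eq_of_mul_eq_mul_left (pow_pos hq1 2)
  rw [h1]; ring

theorem sylow5 [Finite F] (h5 : 5 ∣ Nat.card F - 1) :
    ∃ P : Sylow 5 ↥(chevG2.group F), (∀ a ∈ P, ∀ b ∈ P, a * b = b * a) ∧
      ∀ g ∈ Subgroup.normalizer ((P : Subgroup ↥(chevG2.group F)) : Set ↥(chevG2.group F)),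
        ∀ a ∈ P, g ^ 6 * a = a * g ^ 6 := by
  have : Fact (Nat.Prime 5) := ⟨by norm_num⟩
  have hcF := Finite.one_lt_card (α := F)
  obtain ⟨q, hq⟩ : ∃ q, Nat.card F = q + 1 := ⟨Nat.card F - 1, by omega⟩
  rw [hq, Nat.add_sub_cancel] at h5
  obtain ⟨ζ, hζ⟩ : ∃ ζ : Fˣ, orderOf ζ = 5 := by
    apply exists_prime_orderOf_dvd_card' 5
    rw [Nat.card_units, hq, Nat.add_sub_cancel]
    exact h5
  obtain ⟨h₁, h₂, hm1, hm2, hp1, hp2, hcen⟩ := torus_elts (F := F) (ζ := ζ) (by rw [← hζ]; exact pow_orderOf_eq_one ζ)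
    (fun h => by rw [h, orderOf_one] at hζ; omega)
  refine SecD.mk_sylow ((chevG2.diagonalSubgroup F).subgroupOf (chevG2.group F)) ?_ ?_ ?_
  · intro a ha b hb
    exact Subtype.ext (modelG2.H_comm (Subgroup.mem_subgroupOf.1 ha) (Subgroup.mem_subgroupOf.1 hb))
  · rw [H_index hq]
    obtain ⟨k, rfl⟩ := h5
    intro hd
    have hd' := Nat.mod_eq_zero_of_dvd hd
    simp only [Nat.mul_mod, Nat.pow_mod, Nat.add_mod, Nat.mod_self, Nat.zero_mul, Nat.zero_mod, Nat.mod_mod] at hd'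
    norm_num at hd'
  · intro g Q hQ hQ5 hg
    have hgN : (g : GL chevG2.Idx F) ∈ chevG2.monomialSubgroup F := by
      refine norm_in_N modelG2 (Q := Q.map (chevG2.group F).subtype) ?_ ?_ g.2 ?_ ?_
      · rintro _ ⟨y, hy, rfl⟩
        exact Subgroup.mem_subgroupOf.1 (hQ hy)
      · intro u hu hall
        refine hcen u hu (hall _ ⟨⟨h₁, diag_le hm1⟩, hQ5 _ hm1 ?_, rfl⟩) (hall _ ⟨⟨h₂, diag_le hm2⟩, hQ5 _ hm2 ?_, rfl⟩)
        · exact Subtype.ext hp1
        · exact Subtype.ext hp2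
      · rintro _ ⟨y, hy, rfl⟩
        exact ⟨_, ((Subgroup.mem_normalizer_iff.1 hg) y).1 hy, rfl⟩
      · rintro _ ⟨y, hy, rfl⟩
        refine ⟨g⁻¹ * y * g, ?_, rfl⟩
        have := ((Subgroup.mem_normalizer_iff.1 (inv_mem hg)) y).1 hy
        rwa [inv_inv] at this
    obtain ⟨ψ, -, hker⟩ := exists_psi (F := F)
    have h3 : (⟨g, hgN⟩ : ↥(chevG2.monomialSubgroup F)) ^ 6 ∈ ψ.ker := by
      rw [MonoidHom.mem_ker, map_pow]
      exact SecD.coxG2_pow _
    rw [hker, Subgroup.mem_subgroupOf] at h3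
    exact Subgroup.mem_subgroupOf.2 h3

theorem sylow2 [Finite F] (h4 : 4 ∣ Nat.card F - 1) :
    ∃ S : Sylow 2 ↥(chevG2.group F),
    (∀ a ∈ ⁅(S : Subgroup ↥(chevG2.group F)), (S : Subgroup ↥(chevG2.group F))⁆,
      ∀ b ∈ ⁅(S : Subgroup ↥(chevG2.group F)), (S : Subgroup ↥(chevG2.group F))⁆, a * b = b * a) ∧
    Nat.card {x : ↥(chevG2.group F) // x ∈ ⁅(S : Subgroup ↥(chevG2.group F)), (S : Subgroup ↥(chevG2.group F))⁆ ∧
      x ^ 2 = 1} ≤ 4 := by
  have hcF := Finite.one_lt_card (α := F)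
  obtain ⟨q, hq⟩ : ∃ q, Nat.card F = q + 1 := ⟨Nat.card F - 1, by omega⟩
  rw [hq, Nat.add_sub_cancel] at h4
  obtain ⟨ψ, hψ, hker⟩ := exists_psi (F := F)
  have hNd : (chevG2.monomialSubgroup F).subgroupOf (chevG2.group F) ≃* chevG2.monomialSubgroup F :=
    Subgroup.subgroupOfEquivOfLe mono_le
  have hHN : chevG2.diagonalSubgroup F ≤ chevG2.monomialSubgroup F := modelG2.H_le_N
  refine SecD.mk_sylow2 ((chevG2.diagonalSubgroup F).subgroupOf (chevG2.group F))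
    ((chevG2.monomialSubgroup F).subgroupOf (chevG2.group F)) ?_ ?_ SecD.coxG2_card
    (ψ.comp (Subgroup.subgroupOfEquivOfLe mono_le).toMonoidHom) ?_ ?_
  · intro a ha b hb
    exact Subtype.ext (modelG2.H_comm (Subgroup.mem_subgroupOf.1 ha) (Subgroup.mem_subgroupOf.1 hb))
  · -- the index of `N`
    have h1 : ((chevG2.diagonalSubgroup F).subgroupOf (chevG2.monomialSubgroup F)).index = 12 := by
      rw [← hker, Subgroup.index_ker, MonoidHom.range_eq_top.2 hψ, Subgroup.card_top, SecD.coxG2_card]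
    have h2 : ((chevG2.diagonalSubgroup F).subgroupOf (chevG2.group F)).index =
        12 * ((chevG2.monomialSubgroup F).subgroupOf (chevG2.group F)).index := by
      rw [← h1]
      exact (Subgroup.relIndex_mul_relIndex _ _ _ hHN mono_le).symm
    rw [H_index hq] at h2
    obtain ⟨k, rfl⟩ := h4
    intro ⟨j, hj⟩
    rw [hj] at h2
    have h3 : 8 ∣ (4 * k + 1) ^ 6 * (4 * k + 2) * ((4 * k + 1) ^ 5 + (4 * k + 1) ^ 4 + (4 * k + 1) ^ 3 +
        (4 * k + 1) ^ 2 + (4 * k + 1) + 1) := by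
      rw [h2]; exact ⟨3 * j, by ring⟩
    have h5 : (4 * k + 1) ^ 6 * (4 * k + 2) * ((4 * k + 1) ^ 5 + (4 * k + 1) ^ 4 + (4 * k + 1) ^ 3 +
        (4 * k + 1) ^ 2 + (4 * k + 1) + 1) = 4 * ((4 * k + 1) ^ 6 * (2 * k + 1) *
        (2 * (k * ((4 * k + 1) ^ 4 + 2 * (4 * k + 1) ^ 3 + 3 * (4 * k + 1) ^ 2 + 4 * (4 * k + 1) + 5) + 1) + 1)) := by
      ring
    rw [h5] at h3
    have h6 : 2 ∣ (4 * k + 1) ^ 6 * (2 * k + 1) *
        (2 * (k * ((4 * k + 1) ^ 4 + 2 * (4 * k + 1) ^ 3 + 3 * (4 * k + 1) ^ 2 + 4 * (4 * k + 1) + 5) + 1) + 1) := by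
      have : 4 * 2 ∣ 4 * ((4 * k + 1) ^ 6 * (2 * k + 1) *
        (2 * (k * ((4 * k + 1) ^ 4 + 2 * (4 * k + 1) ^ 3 + 3 * (4 * k + 1) ^ 2 + 4 * (4 * k + 1) + 5) + 1) + 1)) := h3
      exact Nat.dvd_of_mul_dvd_mul_left (by norm_num) this
    rcases (Nat.Prime.dvd_mul Nat.prime_two).1 h6 with h | h
    · rcases (Nat.Prime.dvd_mul Nat.prime_two).1 h with h | h
      · have := Nat.Prime.dvd_of_dvd_pow Nat.prime_two h
        omega
      · omega
    · omega
  · intro x hx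
    rw [MonoidHom.comp_apply, ← MonoidHom.mem_ker, hker, Subgroup.mem_subgroupOf] at hx
    exact Subgroup.mem_subgroupOf.2 hx
  · -- involutions of the torus
    choose b hb using fun x : {x : ↥(chevG2.group F) // x ∈ (chevG2.diagonalSubgroup F).subgroupOf (chevG2.group F) ∧
      x ^ 2 = 1} => modelG2.mem_H'.1 (Subgroup.mem_subgroupOf.1 x.2.1)
    have hb2 : ∀ x, (b x : Fin 2 → Fˣ) ^ 2 = 1 := by
      intro x
      apply g2_inj
      have h1 : (modelG2.hT F) (b x) ^ 2 = 1 := by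
        rw [← hb x]
        exact congrArg Subtype.val x.2.2
      rw [← map_pow] at h1
      exact h1
    let b' : {x : ↥(chevG2.group F) // x ∈ (chevG2.diagonalSubgroup F).subgroupOf (chevG2.group F) ∧
      x ^ 2 = 1} → Fin 2 → Fˣ := b
    have hb2' : ∀ x, b' x ^ 2 = 1 := hb2
    refine count4 (fun x => (b' x 0, b' x 1)) ?_ (fun x => congrFun (hb2' x) 0)
      (fun x => congrFun (hb2' x) 1)
    intro x y hxy
    have h1 : b' x = b' y := by
      funext k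
      fin_cases k
      · exact congrArg Prod.fst hxy
      · exact congrArg Prod.snd hxy
    apply Subtype.ext
    apply Subtype.ext
    rw [hb x, hb y]
    exact congrArg (modelG2.hT F) h1

end Cfsg.Agent.H11.SecE
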