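import Cfsg.Agent.H11_SecE

/-!
The degree 7 elements and field extensions.
-/

set_option autoImplicit false

namespace Cfsg.Agent.H11.SecF

open Cfsg Cfsg.Lie Cfsg.Lie.ChevalleyDatum Cfsg.Agent.H6.Chev

def ps : Equiv.Perm (Fin 7) := ⟨![1, 2, 3, 4, 0, 5, 6], ![4, 0, 1, 2, 3, 5, 6], by decide, by decide⟩
def pt : Equiv.Perm (Fin 7) := ⟨![0, 2, 4, 1, 3, 6, 5], ![0, 3, 1, 4, 2, 6, 5], by decide, by decide⟩

theorem pt_sign : Equiv.Perm.sign pt = 1 := by
  have h : pt = Equiv.swap 1 2 * Equiv.swap 2 4 * Equiv.swap 4 3 * Equiv.swap 5 6 := by decide +kernel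
  rw [h, map_mul, map_mul, map_mul, Equiv.Perm.sign_swap (by decide), Equiv.Perm.sign_swap (by decide),
    Equiv.Perm.sign_swap (by decide), Equiv.Perm.sign_swap (by decide)]
  rfl

theorem ps_pow : ps ^ 5 = 1 := by decide +kernel
theorem ps_ne : ps ≠ 1 := by decide +kernel
theorem pt_conj : pt * ps * pt⁻¹ = ps ^ 2 := by decide +kernel

theorem exists7 {r : ℕ} (hr : 7 ≤ r) : ∃ σ τ : alternatingGroup (Fin r), σ ≠ 1 ∧ σ ^ 5 = 1 ∧
    τ * σ * τ⁻¹ = σ ^ 2 :=
  SecA.exists_perm (e := 0) ps pt ps_ne ps_pow (by decide) pt_sign pt_conj hr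

theorem five_dvd {p n : ℕ} (hp : p.Prime) (h5 : p ≠ 5) : 5 ∣ (p ^ n) ^ 4 - 1 := by
  have h1 : ¬ 5 ∣ p ^ n := by
    intro h
    have h2 := Nat.Prime.dvd_of_dvd_pow (by norm_num : Nat.Prime 5) h
    exact h5 ((Nat.prime_dvd_prime_iff_eq (by norm_num) hp).1 h2).symm
  generalize p ^ n = q at h1
  have h2 : q ^ 4 % 5 = 1 := by
    have h3 : q % 5 = 1 ∨ q % 5 = 2 ∨ q % 5 = 3 ∨ q % 5 = 4 := by omega
    rw [Nat.pow_mod]
    rcases h3 with h | h | h | h <;> rw [h]
  omega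

/-- base change -/
theorem exists_base {D : ChevalleyDatum} (m : Model D) {F L : Type*} [Field F] [Field L] (i : F →+* L) :
    ∃ j : ↥(D.group F) →* ↥(D.group L), Function.Injective j := by
  have h1 : D.group F ≤ (D.group L).comap (Matrix.GeneralLinearGroup.map (n := D.Idx) i) := by
    rw [m.group_eq, m.group_eq]
    apply m.gen_le
    intro r _ _ t
    rw [Subgroup.mem_comap, gl_map_X]
    exact m.X_mem_gen (R := fun _ => True) trivial _
  refine ⟨((Matrix.GeneralLinearGroup.map (n := D.Idx) i).comp (D.group F).subtype).codRestrict (D.group L)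
    (fun x => h1 x.2), ?_⟩
  intro x y h
  have h2 : Matrix.GeneralLinearGroup.map (n := D.Idx) i x = Matrix.GeneralLinearGroup.map (n := D.Idx) i y :=
    congrArg Subtype.val h
  exact Subtype.ext (Cfsg.Agent.H14.Chev.glmap_injective i h2)

end Cfsg.Agent.H11.SecF
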