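import Cfsg.Statements.S1067
import Cfsg.Agent.H6_TwHD4

set_option autoImplicit false
open Cfsg

namespace Cfsg.Agent.S1067

/-- `|³D₄(q)| = q¹² (q² - 1)(q⁶ - 1)(q⁸ + q⁴ + 1)`, the group being realised inside D₄ over the field with `q³` elements. -/
theorem result {K : Type*} [Field K] [Fintype K] {q : ℕ} (hq : IsPrimePow q) (hK : Fintype.card K = q ^ 3) :
    Nat.card ↥(Cfsg.Lie.twistedD4 K q) = q ^ 12 * (q ^ 2 - 1) * (q ^ 6 - 1) * (q ^ 8 + q ^ 4 + 1) := by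
  obtain ⟨φ, hφ, hφ3, P, hP, hc⟩ := Cfsg.Agent.H6.Chev.exists_pD4 hq hK
  have h1 := Cfsg.Agent.H6.Chev.d4_card_H φ (fun x => by rw [hφ, hφ, hφ]; exact hφ3 x) hφ hq.one_lt hK P hP
  have h2 := P.card_G1 (d := 1) one_pos Cfsg.Agent.H6.Chev.hkkD4 hc
  have hN : Cfsg.Agent.H6.Chev.modelD4.N / 1 = 12 := by
    have h1 := Cfsg.Agent.H6.Chev.modelD4.nroots_eq
    have h2 := Cfsg.Agent.H6.Chev.baseD4.nroots
    have h3 : Cfsg.Agent.H6.Chev.tabD4.n = 24 := rfl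
    omega
  have h4 : (Cfsg.Agent.H6.Chev.twD4 φ).PA Set.univ 1 q = _ := Cfsg.Agent.H6.Chev.paD4 q
  rw [hN, h1, h4] at h2
  rw [← hP, h2]
  have h3 := Cfsg.Agent.H6.Chev.ppD4 (q : ℤ)
  have hq1 : 1 ≤ q := hq.one_lt.le
  have e1 : ((q - 1 : ℕ) : ℤ) = (q : ℤ) - 1 := by rw [Nat.cast_sub hq1]; simp
  have e2 : ((q ^ 2 - 1 : ℕ) : ℤ) = (q : ℤ) ^ 2 - 1 := by rw [Nat.cast_sub (Nat.one_le_pow _ _ hq1)]; simp
  have e3 : ((q ^ 6 - 1 : ℕ) : ℤ) = (q : ℤ) ^ 6 - 1 := by rw [Nat.cast_sub (Nat.one_le_pow _ _ hq1)]; simp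
  zify
  rw [e1, e2, e3, Cfsg.Agent.H6.Chev.poly_cast, Cfsg.Agent.H6.Chev.poly_cast]
  linear_combination (q : ℤ) ^ 12 * h3

end Cfsg.Agent.S1067
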