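import Cfsg.Agent.H11_SecF
import Cfsg.Agent.S1067
import Cfsg.Agent.S1106
import Cfsg.Agent.S1107

/-!
Sylow subgroups of `³D₄(q)` and the torus normalizer.
-/

set_option autoImplicit false
set_option linter.unusedSectionVars false
set_option maxRecDepth 100000

namespace Cfsg.Agent.H11.SecH

open Cfsg Cfsg.Lie Cfsg.Lie.ChevalleyDatum Cfsg.Agent.H6.Chev

variable {K : Type*} [Field K]

def vv (r : ℕ) : List ℤ := [tabD4.c 0 r, tabD4.c 1 r, tabD4.c 2 r, tabD4.c 3 r]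

theorem vv_ok (r : Fin 12) : (Nat.blt (r + 12) tabD4.n && allNat tabD4.l fun k => intEq (tabD4.c k (r + 12))
    ((vv (r + 12)).getD k 0)) = true ∧
    ¬ ((5 : ℤ) ∣ (vv (r + 12)).getD 0 0 + (vv (r + 12)).getD 2 0 + (vv (r + 12)).getD 3 0 ∧
      (5 : ℤ) ∣ (vv (r + 12)).getD 1 0) := by
  revert r
  decide +kernel

/-- torus elements of order 5 -/
theorem torus_elts [Fintype K] {q : ℕ} (hq : IsPrimePow q) (hK : Fintype.card K = q ^ 3) (hq5 : 5 ∣ q - 1)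
    {ζ : Kˣ} (h5 : ζ ^ 5 = 1) (h1 : ζ ≠ 1) :
    ∃ h₁ h₂ : GL chevD4.Idx K, h₁ ∈ chevD4.diagonalSubgroup K ⊓ twistedD4 K q ∧
      h₂ ∈ chevD4.diagonalSubgroup K ⊓ twistedD4 K q ∧ h₁ ^ 5 = 1 ∧ h₂ ^ 5 = 1 ∧
      ∀ u ∈ chevD4.posUnipotent K, h₁ * u = u * h₁ → h₂ * u = u * h₂ → u = 1 := by
  obtain ⟨φ, hφ, hφ3', P, hP, hc⟩ := exists_pD4 hq hK
  have hφ3 : ∀ x, φ (φ (φ x)) = x := fun x => by rw [hφ, hφ, hφ]; exact hφ3' x
  have : Fact (Nat.Prime 5) := ⟨by norm_num⟩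
  have hord : orderOf ζ = 5 := orderOf_eq_prime h5 h1
  have hφζ : φ (ζ : K) = ζ := by
    rw [hφ]
    have h2 : ζ ^ (q - 1) = 1 := by
      obtain ⟨k, hk⟩ := hq5
      rw [hk, pow_mul, h5, one_pow]
    have h3 : ζ ^ q = ζ := by
      have hq1 : q = (q - 1) + 1 := by have := hq.one_lt; omega
      rw [hq1, pow_succ, h2, one_mul]
    have := congrArg Units.val h3
    simpa using this
  let b : Kˣ → Kˣ → (Fin 4 → Kˣ) := fun s t => ![s, t, s, s]
  have hb : ∀ s t : Kˣ, φ (s : K) = s → φ (t : K) = t → modelD4.hT K (b s t) ∈ P.G1 := by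
    intro s t hs ht
    apply d4_H0_le φ hφ3 hφ P hP
    exact ⟨b s t, (d4_Tf φ (b := b s t)).2 ⟨hs.symm, ht.symm, hs.symm, hs.symm⟩, rfl⟩
  have hb5 : ∀ s t : Kˣ, s ^ 5 = 1 → t ^ 5 = 1 → (modelD4.hT K (b s t)) ^ 5 = 1 := by
    intro s t hs ht
    refine (map_pow (modelD4.hT K) (b s t) 5).symm.trans ?_
    have : (b s t) ^ 5 = 1 := by
      funext k
      fin_cases k
      · exact hs
      · exact ht
      · exact hs
      · exact hs
    have h2 : (modelD4.hT K) ((b s t) ^ 5) = (modelD4.hT K) 1 := congrArg _ this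
    rw [map_one] at h2
    exact h2
  have hX : ∀ (r : ℕ) (v : List ℤ) (h : (Nat.blt r tabD4.n && allNat tabD4.l fun k => intEq (tabD4.c k r)
      (v.getD k 0)) = true) (s t : Kˣ) (y : K),
      modelD4.hT K (b s t) * modelD4.X r y * (modelD4.hT K (b s t))⁻¹ =
      modelD4.X r ((s : K) ^ v.getD 0 0 * (t : K) ^ v.getD 1 0 * (s : K) ^ v.getD 2 0 * (s : K) ^ v.getD 3 0 * y) := by
    intro r v h s t y
    have h1 := hT_Xr modelD4 baseD4 v h (b s t) y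
    rw [h1]
    congr 2
    have h2 : ∏ k : Fin 4, b s t k ^ v.getD k 0 = s ^ v.getD 0 0 * t ^ v.getD 1 0 * s ^ v.getD 2 0 *
        s ^ v.getD 3 0 := by
      rw [Fin.prod_univ_four]; rfl
    have h3 : ((∏ k : Fin chevD4.rank, (b s t : Fin chevD4.rank → Kˣ) k ^ v.getD k 0 : Kˣ) : K) =
      ((s ^ v.getD 0 0 * t ^ v.getD 1 0 * s ^ v.getD 2 0 * s ^ v.getD 3 0 : Kˣ) : K) := congrArg Units.val h2
    rw [h3, Units.val_mul, Units.val_mul, Units.val_mul, Units.val_zpow_eq_zpow_val, Units.val_zpow_eq_zpow_val,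
      Units.val_zpow_eq_zpow_val, Units.val_zpow_eq_zpow_val]
  have hN : modelD4.N = 12 := by
    have h1 := modelD4.nroots_eq
    have h2 := baseD4.nroots
    have h3 : tabD4.n = 24 := rfl
    omega
  have hζ0 : (ζ : K) ≠ 0 := ζ.ne_zero
  have hφ1 : φ ((1 : Kˣ) : K) = ((1 : Kˣ) : K) := by rw [Units.val_one, map_one]
  have hval : ∀ z : ℤ, (ζ : K) ^ z = 1 → (5 : ℤ) ∣ z := by
    intro z hz
    have h2 : ζ ^ z = 1 := by
      apply Units.ext
      rw [Units.val_zpow_eq_zpow_val, hz, Units.val_one]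
    have := orderOf_dvd_iff_zpow_eq_one.2 h2
    rw [hord] at this
    exact_mod_cast this
  refine ⟨modelD4.hT K (b ζ 1), modelD4.hT K (b 1 ζ),
    Subgroup.mem_inf.2 ⟨modelD4.hT_mem_H _, hP ▸ hb ζ 1 hφζ hφ1⟩,
    Subgroup.mem_inf.2 ⟨modelD4.hT_mem_H _, hP ▸ hb 1 ζ hφ1 hφζ⟩, hb5 _ _ h5 (one_pow _), hb5 _ _ (one_pow _) h5, ?_⟩
  intro u hu hc1 hc2
  refine F4T.cent_triv (m := modelD4)
    (χ₁ := fun r => (ζ : K) ^ ((vv r).getD 0 0 + (vv r).getD 2 0 + (vv r).getD 3 0))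
    (χ₂ := fun r => (ζ : K) ^ ((vv r).getD 1 0)) ?_ ?_ ?_ hu hc1 hc2
  · intro r hr y
    rw [hN, List.mem_range'_1] at hr
    have h := (vv_ok ⟨r - 12, by omega⟩).1
    have hr' : r - 12 + 12 = r := by omega
    simp only [hr'] at h
    rw [hX r (vv r) h ζ 1 y, Units.val_one, one_zpow, mul_one, ← zpow_add₀ hζ0, ← zpow_add₀ hζ0]
  · intro r hr y
    rw [hN, List.mem_range'_1] at hr
    have h := (vv_ok ⟨r - 12, by omega⟩).1
    have hr' : r - 12 + 12 = r := by omega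
    simp only [hr'] at h
    rw [hX r (vv r) h 1 ζ y, Units.val_one, one_zpow, one_zpow, one_zpow, mul_one, mul_one, one_mul]
  · intro r hr
    rw [hN, List.mem_range'_1] at hr
    have h := (vv_ok ⟨r - 12, by omega⟩).2
    have hr' : r - 12 + 12 = r := by omega
    simp only [hr'] at h
    by_contra hcon
    rw [not_or, not_not, not_not] at hcon
    exact h ⟨hval _ hcon.1, hval _ hcon.2⟩

variable [Fintype K] {q : ℕ}

/-- the torus as a subgroup -/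
abbrev Hd (K : Type*) [Field K] (q : ℕ) : Subgroup ↥(twistedD4 K q) :=
  (chevD4.diagonalSubgroup K).subgroupOf (twistedD4 K q)
abbrev Nd (K : Type*) [Field K] (q : ℕ) : Subgroup ↥(twistedD4 K q) :=
  (chevD4.monomialSubgroup K).subgroupOf (twistedD4 K q)

theorem Hd_comm : ∀ a ∈ Hd K q, ∀ b ∈ Hd K q, a * b = b * a := fun a ha b hb =>
  Subtype.ext (modelD4.H_comm (Subgroup.mem_subgroupOf.1 ha) (Subgroup.mem_subgroupOf.1 hb))

theorem exists_psi (hq : IsPrimePow q) (hK : Fintype.card K = q ^ 3) :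
    ∃ ψ : Nd K q →* (CoxeterMatrix.G₂ : CoxeterMatrix (Fin 2)).Group,
    Function.Surjective ψ ∧ ∀ x : Nd K q, ψ x = 1 ↔ (x : ↥(twistedD4 K q)) ∈ Hd K q := by
  obtain ⟨ψ, h1, h2⟩ := Cfsg.Agent.S1107.result (K := K) hq hK
  let j : Nd K q →* ↥(chevD4.monomialSubgroup K ⊓ twistedD4 K q) :=
    { toFun := fun x => ⟨((x : ↥(twistedD4 K q)) : GL chevD4.Idx K),
        Subgroup.mem_inf.2 ⟨Subgroup.mem_subgroupOf.1 x.2, x.1.2⟩⟩
      map_one' := rfl
      map_mul' := fun x y => rfl }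
  have hj : Function.Surjective j := by
    rintro ⟨g, hg⟩
    exact ⟨⟨⟨g, (Subgroup.mem_inf.1 hg).2⟩, Subgroup.mem_subgroupOf.2 (Subgroup.mem_inf.1 hg).1⟩, rfl⟩
  refine ⟨ψ.comp j, h1.comp hj, ?_⟩
  intro x
  rw [MonoidHom.comp_apply, ← MonoidHom.mem_ker, h2, Subgroup.mem_subgroupOf, Subgroup.mem_inf,
    Subgroup.mem_subgroupOf]
  exact ⟨fun h => h.1, fun h => ⟨h, x.1.2⟩⟩

theorem H_index (hq : IsPrimePow q) (hK : Fintype.card K = q ^ 3) :
    (Hd K q).index = q ^ 12 * (q + 1) * (q ^ 3 + 1) * (q ^ 8 + q ^ 4 + 1) := by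
  have h1 := (Hd K q).card_mul_index
  have h2 : Nat.card (Hd K q) = (q - 1) ^ 2 * (q ^ 2 + q + 1) := by
    rw [← Cfsg.Agent.S1106.result (K := K) hq hK]
    have h1 : Hd K q = (chevD4.diagonalSubgroup K ⊓ twistedD4 K q).subgroupOf (twistedD4 K q) :=
      (Subgroup.inf_subgroupOf_right _ _).symm
    rw [h1]
    exact Nat.card_congr (Subgroup.subgroupOfEquivOfLe inf_le_right).toEquiv
  rw [h2, Cfsg.Agent.S1067.result hq hK] at h1
  obtain ⟨x, rfl⟩ : ∃ x, q = x + 1 := ⟨q - 1, by have := hq.one_lt; omega⟩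
  have hx : 0 < x := by have := hq.one_lt; omega
  have e1 : (x + 1) ^ 2 - 1 = x * (x + 1 + 1) := by
    have : (x + 1) ^ 2 = x * (x + 1 + 1) + 1 := by ring
    omega
  have e2 : (x + 1) ^ 6 - 1 = x * ((x + 1) ^ 2 + (x + 1) + 1) * ((x + 1) ^ 3 + 1) := by
    have : (x + 1) ^ 6 = x * ((x + 1) ^ 2 + (x + 1) + 1) * ((x + 1) ^ 3 + 1) + 1 := by ring
    omega
  rw [e1, e2, Nat.add_sub_cancel] at h1
  apply Nat.eq_of_mul_eq_mul_left (show 0 < x ^ 2 * ((x + 1) ^ 2 + (x + 1) + 1) by positivity)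
  rw [h1]; ring

theorem sylow5 (hq : IsPrimePow q) (hK : Fintype.card K = q ^ 3) (h5 : 5 ∣ q - 1) :
    ∃ P : Sylow 5 ↥(twistedD4 K q), (∀ a ∈ P, ∀ b ∈ P, a * b = b * a) ∧
      ∀ g ∈ Subgroup.normalizer ((P : Subgroup ↥(twistedD4 K q)) : Set ↥(twistedD4 K q)),
        ∀ a ∈ P, g ^ 6 * a = a * g ^ 6 := by
  have : Fact (Nat.Prime 5) := ⟨by norm_num⟩
  obtain ⟨ζ, hζ⟩ : ∃ ζ : Kˣ, orderOf ζ = 5 := by
    apply exists_prime_orderOf_dvd_card' 5
    rw [Nat.card_units, Nat.card_eq_fintype_card, hK]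
    have := Nat.sub_dvd_pow_sub_pow q 1 3
    rw [one_pow] at this
    exact h5.trans this
  obtain ⟨h₁, h₂, hm1, hm2, hp1, hp2, hcen⟩ := torus_elts hq hK h5 (ζ := ζ) (by rw [← hζ]; exact pow_orderOf_eq_one ζ)
    (fun h => by rw [h, orderOf_one] at hζ; omega)
  obtain ⟨ψ, -, hker⟩ := exists_psi (K := K) hq hK
  obtain ⟨φ, hφ, hφ3', P, hP, hc⟩ := exists_pD4 hq hK
  have hPG : ∀ y, y ∈ P.G1 ↔ y ∈ twistedD4 K q := fun y => by rw [hP]
  refine SecD.mk_sylow (Hd K q) Hd_comm ?_ ?_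
  · rw [H_index hq hK]
    obtain ⟨k, hk⟩ := h5
    have hq1 : q = 5 * k + 1 := by have := hq.one_lt; omega
    intro hd
    rw [hq1] at hd
    have hd' := Nat.mod_eq_zero_of_dvd hd
    simp only [Nat.mul_mod, Nat.pow_mod, Nat.add_mod, Nat.mod_self, Nat.zero_mul, Nat.zero_mod, Nat.mod_mod] at hd'
    norm_num at hd'
  · intro g Q hQ hQ5 hg
    have hgN : (g : GL chevD4.Idx K) ∈ chevD4.monomialSubgroup K := by
      refine F4T.norm_in_N P (Q := Q.map (twistedD4 K q).subtype) ?_ ?_ ((hPG _).2 g.2) ?_ ?_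
      · rintro _ ⟨y, hy, rfl⟩
        exact Subgroup.mem_subgroupOf.1 (hQ hy)
      · intro u hu hall
        refine hcen u hu (hall _ ⟨⟨h₁, (Subgroup.mem_inf.1 hm1).2⟩, hQ5 _ (Subgroup.mem_subgroupOf.2 (Subgroup.mem_inf.1 hm1).1) ?_, rfl⟩)
          (hall _ ⟨⟨h₂, (Subgroup.mem_inf.1 hm2).2⟩, hQ5 _ (Subgroup.mem_subgroupOf.2 (Subgroup.mem_inf.1 hm2).1) ?_, rfl⟩)
        · exact Subtype.ext hp1
        · exact Subtype.ext hp2
      · rintro _ ⟨y, hy, rfl⟩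
        exact ⟨_, ((Subgroup.mem_normalizer_iff.1 hg) y).1 hy, rfl⟩
      · rintro _ ⟨y, hy, rfl⟩
        refine ⟨g⁻¹ * y * g, ?_, rfl⟩
        have := ((Subgroup.mem_normalizer_iff.1 (inv_mem hg)) y).1 hy
        rwa [inv_inv] at this
    have h3 : ψ ((⟨g, Subgroup.mem_subgroupOf.2 hgN⟩ : Nd K q) ^ 6) = 1 := by
      rw [map_pow]
      exact SecD.coxG2_pow _
    exact (hker _).1 h3

theorem sylow2 (hq : IsPrimePow q) (hK : Fintype.card K = q ^ 3) (h4 : 4 ∣ q - 1) :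
    ∃ S : Sylow 2 ↥(twistedD4 K q),
    (∀ a ∈ ⁅(S : Subgroup ↥(twistedD4 K q)), (S : Subgroup ↥(twistedD4 K q))⁆,
      ∀ b ∈ ⁅(S : Subgroup ↥(twistedD4 K q)), (S : Subgroup ↥(twistedD4 K q))⁆, a * b = b * a) ∧
    Nat.card {x : ↥(twistedD4 K q) // x ∈ ⁅(S : Subgroup ↥(twistedD4 K q)), (S : Subgroup ↥(twistedD4 K q))⁆ ∧
      x ^ 2 = 1} ≤ 4 := by
  obtain ⟨ψ, hψ, hker⟩ := exists_psi (K := K) hq hK
  refine SecD.mk_sylow2 (Hd K q) (Nd K q) Hd_comm ?_ SecD.coxG2_card ψ (fun x hx => (hker x).1 hx) ?_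
  · -- the index of `N`
    have hHN : Hd K q ≤ Nd K q := fun x hx => modelD4.H_le_N hx
    have h1 : ((Hd K q).subgroupOf (Nd K q)).index = 12 := by
      have h0 : ψ.ker = (Hd K q).subgroupOf (Nd K q) := by
        ext x
        rw [MonoidHom.mem_ker, hker]
        exact Subgroup.mem_subgroupOf.symm
      rw [← h0, Subgroup.index_ker, MonoidHom.range_eq_top.2 hψ, Subgroup.card_top, SecD.coxG2_card]
    have h2 : (Hd K q).index = 12 * (Nd K q).index := by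
      rw [← h1]
      exact (Subgroup.relIndex_mul_index hHN).symm
    rw [H_index hq hK] at h2
    obtain ⟨k, hk⟩ := h4
    have hq1 : q = 4 * k + 1 := by have := hq.one_lt; omega
    intro ⟨j, hj⟩
    rw [hj, hq1] at h2
    have h3 : 8 ∣ (4 * k + 1) ^ 12 * (4 * k + 1 + 1) * ((4 * k + 1) ^ 3 + 1) * ((4 * k + 1) ^ 8 + (4 * k + 1) ^ 4 + 1) := by
      rw [h2]; exact ⟨3 * j, by ring⟩
    have h5 : (4 * k + 1) ^ 12 * (4 * k + 1 + 1) * ((4 * k + 1) ^ 3 + 1) * ((4 * k + 1) ^ 8 + (4 * k + 1) ^ 4 + 1) =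
        4 * ((4 * k + 1) ^ 12 * (2 * k + 1) * (2 * (k * (16 * k ^ 2 + 12 * k + 3)) + 1) *
          ((4 * k + 1) ^ 8 + (4 * k + 1) ^ 4 + 1)) := by
      ring
    rw [h5] at h3
    have h6 : 2 ∣ (4 * k + 1) ^ 12 * (2 * k + 1) * (2 * (k * (16 * k ^ 2 + 12 * k + 3)) + 1) *
          ((4 * k + 1) ^ 8 + (4 * k + 1) ^ 4 + 1) := by
      have : 4 * 2 ∣ 4 * ((4 * k + 1) ^ 12 * (2 * k + 1) * (2 * (k * (16 * k ^ 2 + 12 * k + 3)) + 1) *
          ((4 * k + 1) ^ 8 + (4 * k + 1) ^ 4 + 1)) := h3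
      exact Nat.dvd_of_mul_dvd_mul_left (by norm_num) this
    have h7 := Nat.mod_eq_zero_of_dvd h6
    have h8 : (4 * k + 1) % 2 = 1 := by omega
    have h9 : (2 * k + 1) % 2 = 1 := by omega
    have h10 : (2 * (k * (16 * k ^ 2 + 12 * k + 3)) + 1) % 2 = 1 := by omega
    have h11 : ((4 * k + 1) ^ 12) % 2 = 1 := by rw [Nat.pow_mod, h8, one_pow, Nat.one_mod]
    have h12 : ((4 * k + 1) ^ 8) % 2 = 1 := by rw [Nat.pow_mod, h8, one_pow, Nat.one_mod]
    have h13 : ((4 * k + 1) ^ 4) % 2 = 1 := by rw [Nat.pow_mod, h8, one_pow, Nat.one_mod]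
    have h14 : ((4 * k + 1) ^ 8 + (4 * k + 1) ^ 4 + 1) % 2 = 1 := by omega
    rw [Nat.mul_mod, h14, Nat.mul_mod ((4 * k + 1) ^ 12 * (2 * k + 1)), h10, Nat.mul_mod ((4 * k + 1) ^ 12), h11, h9] at h7
    omega
  · -- involutions of the torus
    obtain ⟨φ, hφ, hφ3', P, hP, hc⟩ := exists_pD4 hq hK
    have hφ3 : ∀ x, φ (φ (φ x)) = x := fun x => by rw [hφ, hφ, hφ]; exact hφ3' x
    have hmem : ∀ x : {x : ↥(twistedD4 K q) // x ∈ Hd K q ∧ x ^ 2 = 1}, ∃ b : Fin 4 → Kˣ,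
        b ∈ (twD4 φ).Tf ∧ modelD4.hT K b = ((x : ↥(twistedD4 K q)) : GL chevD4.Idx K) := by
      intro x
      have h1 : ((x : ↥(twistedD4 K q)) : GL chevD4.Idx K) ∈ chevD4.diagonalSubgroup K ⊓ P.G1 :=
        Subgroup.mem_inf.2 ⟨Subgroup.mem_subgroupOf.1 x.2.1, by rw [hP]; exact x.1.2⟩
      rw [d4_H φ hφ3 hφ P hP] at h1
      obtain ⟨b, hb, hbe⟩ := h1
      exact ⟨b, hb, hbe⟩
    choose b hb hbe using hmem
    have hb2 : ∀ x, (b x) ^ 2 = 1 := by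
      intro x
      have h1 : (modelD4.hT K) (b x) ^ 2 = 1 := by
        rw [hbe x]
        exact congrArg Subtype.val x.2.2
      have h2 : (modelD4.hT K) ((b x : Fin chevD4.rank → Kˣ) ^ 2) = 1 := (map_pow (modelD4.hT K) (b x) 2).trans h1
      exact d4_inj φ hφ3 (Subgroup.pow_mem _ (hb x) 2) h2
    refine SecE.count4 (fun x => (b x 0, b x 1)) ?_ (fun x => congrFun (hb2 x) 0)
      (fun x => congrFun (hb2 x) 1)
    intro x y hxy
    obtain ⟨x0, x1, x2, x3⟩ := (d4_Tf φ).1 (hb x)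
    obtain ⟨y0, y1, y2, y3⟩ := (d4_Tf φ).1 (hb y)
    have e0 : b x 0 = b y 0 := congrArg Prod.fst hxy
    have e1 : b x 1 = b y 1 := congrArg Prod.snd hxy
    have e2 : b x 2 = b y 2 := Units.ext (by rw [x0, y0, e0])
    have e3 : b x 3 = b y 3 := Units.ext (by rw [x2, y2, e2])
    have h1 : b x = b y := by
      funext k
      fin_cases k
      · exact e0
      · exact e1
      · exact e2
      · exact e3
    apply Subtype.ext
    apply Subtype.ext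
    rw [← hbe x, ← hbe y]
    exact congrArg (modelD4.hT K) h1

/-- base change -/
theorem exists_base {L : Type*} [Field L] (i : K →+* L) (hK : Fintype.card K = q ^ 3) :
    ∃ j : ↥(twistedD4 K q) →* ↥(twistedD4 L (q ^ 4)), Function.Injective j := by
  have hpow : ∀ t : K, t ^ (q ^ 3) = t := fun t => by rw [← hK]; exact FiniteField.pow_card t
  have h1 : twistedD4 K q ≤ (twistedD4 L (q ^ 4)).comap (Matrix.GeneralLinearGroup.map (n := chevD4.Idx) i) := by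
    have hw : ∀ w : List (ℕ × K), Matrix.GeneralLinearGroup.map (n := chevD4.Idx) i (modelD4.word w) =
        modelD4.word (w.map fun p => (p.1, i p.2)) := by
      intro w
      induction w with
      | nil => rw [List.map_nil, Model.word_nil, Model.word_nil, map_one]
      | cons p l ih => rw [List.map_cons, Model.word_cons, Model.word_cons, map_mul, ih, gl_map_X]
    apply modelD4.genSub_le
    intro w hwm
    rw [Subgroup.mem_comap, hw]
    apply modelD4.word_mem_genSub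
    rcases hwm with ⟨t, ht, r, hr, rfl⟩ | ⟨t, rs, hrs, rfl⟩
    · left
      refine ⟨i t, ?_, r, hr, rfl⟩
      rw [← map_pow]
      congr 1
      have : q ^ 4 = q * (q * (q * q)) := by ring
      rw [this, pow_mul, ht, pow_mul, ht, pow_mul, ht, ht]
    · right
      refine ⟨i t, rs, hrs, ?_⟩
      rw [List.map_cons, List.map_cons, List.map_cons, List.map_nil, ← map_pow, ← map_pow]
      have e1 : t ^ (q ^ 4) = t ^ q := by
        have : q ^ 4 = q ^ 3 * q := by ring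
        rw [this, pow_mul, hpow]
      have e2 : t ^ ((q ^ 4) ^ 2) = t ^ (q ^ 2) := by
        have : (q ^ 4) ^ 2 = q ^ 3 * (q ^ 3 * q ^ 2) := by ring
        rw [this, pow_mul, hpow, pow_mul, hpow]
      rw [e1, e2]
  refine ⟨((Matrix.GeneralLinearGroup.map (n := chevD4.Idx) i).comp (twistedD4 K q).subtype).codRestrict
    (twistedD4 L (q ^ 4)) (fun x => h1 x.2), ?_⟩
  intro x y h
  have h2 : Matrix.GeneralLinearGroup.map (n := chevD4.Idx) i x = Matrix.GeneralLinearGroup.map (n := chevD4.Idx) i y :=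
    congrArg Subtype.val h
  exact Subtype.ext (Cfsg.Agent.H14.Chev.glmap_injective i h2)

end Cfsg.Agent.H11.SecH
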