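import Cfsg.Agent.H11_SecD

/-!
Elements of order 5 fused with their squares, with large centralizer sections.
-/

set_option autoImplicit false

namespace Cfsg.Agent.H11.SecI

open Subgroup

/-- Frattini argument, `⟨σ⟩` normal -/
theorem frat1 {ℓ : ℕ} [Fact ℓ.Prime] {M A : Type*} [Group M] [Finite M] [Group A] (f : M →* A) (σ : A)
    (h7 : σ ^ ℓ = 1) [hN : (zpowers σ).Normal] (hσ : ∃ x, f x = σ) :
    ∃ (S : Subgroup M), IsPGroup ℓ S ∧ (∃ x ∈ S, f x = σ) ∧
      ∀ y : M, ∃ g ∈ normalizer (S : Set M), ∃ z ∈ zpowers σ, f g = z * f y := by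
  set L : Subgroup M := (zpowers σ).comap f with hL
  have hLn : L.Normal := hN.comap f
  let S0 : Sylow ℓ L := default
  have hfr := Sylow.normalizer_sup_eq_top S0
  refine ⟨(S0 : Subgroup L).map L.subtype, S0.2.map _, ?_, ?_⟩
  · let f' : L →* zpowers σ := f.subgroupComap (zpowers σ)
    have hf' : Function.Surjective f' := by
      rintro ⟨z, hz⟩
      obtain ⟨k, rfl⟩ := mem_zpowers_iff.1 hz
      obtain ⟨x, hx⟩ := hσ
      refine ⟨⟨x ^ k, ?_⟩, ?_⟩
      · rw [hL, mem_comap, map_zpow, hx]; exact zpow_mem (mem_zpowers σ) k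
      · apply Subtype.ext
        change f (x ^ k) = σ ^ k
        rw [map_zpow, hx]
    have hfin : Finite (zpowers σ) := Finite.of_surjective f' hf'
    let S1 : Sylow ℓ (zpowers σ) := S0.mapSurjective hf'
    have hp : IsPGroup ℓ (zpowers σ) := by
      rintro ⟨z, hz⟩
      obtain ⟨k, rfl⟩ := mem_zpowers_iff.1 hz
      refine ⟨1, Subtype.ext ?_⟩
      change (σ ^ k) ^ (ℓ ^ 1) = 1
      rw [pow_one, ← zpow_natCast, ← zpow_mul, mul_comm, zpow_mul, zpow_natCast, h7, one_zpow]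
    have htop : (S1 : Subgroup (zpowers σ)) = ⊤ := by
      refine (S1.is_maximal' (Q := ⊤) ?_ le_top).symm
      exact hp.of_injective (⊤ : Subgroup (zpowers σ)).subtype (Subtype.coe_injective)
    have hm : (⟨σ, mem_zpowers σ⟩ : zpowers σ) ∈ (S1 : Subgroup (zpowers σ)) := by
      rw [htop]; exact mem_top _
    rw [Sylow.coe_mapSurjective] at hm
    obtain ⟨x, hx, hxe⟩ := hm
    exact ⟨x, ⟨x, hx, rfl⟩, congrArg Subtype.val hxe⟩
  · intro y
    have hy : y ∈ normalizer (((S0 : Subgroup L).map L.subtype : Subgroup M) : Set M) ⊔ L := by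
      rw [hfr]; exact mem_top y
    rw [sup_comm, Subgroup.mem_sup_of_normal_left] at hy
    obtain ⟨l, hl, g, hg, hlg⟩ := hy
    refine ⟨g, hg, (f l)⁻¹, inv_mem hl, ?_⟩
    rw [← hlg, map_mul, inv_mul_cancel_left]

theorem frat {ℓ : ℕ} [Fact ℓ.Prime] {M A : Type*} [Group M] [Finite M] [Group A] (f : M →* A)
    (hf : Function.Surjective f) (σ : A) (h7 : σ ^ ℓ = 1) :
    ∃ (S : Subgroup M), IsPGroup ℓ S ∧ (∃ x ∈ S, f x = σ) ∧
      ∀ a ∈ normalizer ((zpowers σ : Subgroup A) : Set A), ∃ g ∈ normalizer (S : Set M), ∃ z ∈ zpowers σ, f g = z * a := by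
  have hfA : Finite A := Finite.of_surjective f hf
  set A' : Subgroup A := normalizer ((zpowers σ : Subgroup A) : Set A) with hA'
  have hσA : σ ∈ A' := le_normalizer (mem_zpowers σ)
  set M' : Subgroup M := A'.comap f with hM'
  let f' : M' →* A' := f.subgroupComap A'
  have hNor : (zpowers (⟨σ, hσA⟩ : A')).Normal := by
    have : zpowers (⟨σ, hσA⟩ : A') = (zpowers σ).subgroupOf A' := by
      ext ⟨z, hz⟩
      rw [mem_subgroupOf, mem_zpowers_iff, mem_zpowers_iff]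
      exact ⟨fun ⟨k, hk⟩ => ⟨k, congrArg Subtype.val hk⟩, fun ⟨k, hk⟩ => ⟨k, Subtype.ext hk⟩⟩
    rw [this, hA']
    infer_instance
  obtain ⟨s, hs⟩ := hf σ
  have hsM : s ∈ M' := by rw [hM', mem_comap, hs]; exact hσA
  obtain ⟨S, hS, ⟨x, hx, hxe⟩, hall⟩ := frat1 f' (⟨σ, hσA⟩ : A') (Subtype.ext h7) ⟨⟨s, hsM⟩, Subtype.ext hs⟩
  refine ⟨S.map M'.subtype, hS.map _, ⟨x, ⟨x, hx, rfl⟩, congrArg Subtype.val hxe⟩, ?_⟩
  intro a ha
  obtain ⟨y, hy⟩ := hf a
  have hyM : y ∈ M' := by rw [hM', mem_comap, hy]; exact ha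
  obtain ⟨g, hg, z, hz, hgz⟩ := hall ⟨y, hyM⟩
  refine ⟨g, SecA.norm_map hg, z, ?_, ?_⟩
  · obtain ⟨k, hk⟩ := mem_zpowers_iff.1 hz
    exact mem_zpowers_iff.2 ⟨k, congrArg Subtype.val hk⟩
  · have := congrArg Subtype.val hgz
    change f g = z * f y at this
    rw [this, hy]

theorem eigen {M A : Type*} [Group M] [Finite M] [Group A] (f : M →* A) (S : Subgroup M) (hS : IsPGroup 5 S)
    (hab : ∀ a ∈ S, ∀ b ∈ S, a * b = b * a) {g : M} (hg : g ∈ normalizer (S : Set M)) {e : ℕ}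
    (he : ∀ x ∈ S, g ^ e * x * (g ^ e)⁻¹ = x) (he5 : ¬ 5 ∣ e) (he4 : 4 ∣ e) {x₀ : M} (hx₀ : x₀ ∈ S)
    (hσ : f x₀ ≠ 1) (hσ5 : f x₀ ^ 5 = 1) (hc : f g * f x₀ * (f g)⁻¹ = f x₀ ^ 2) :
    ∃ x ∈ S, x ≠ 1 ∧ x ^ 5 = 1 ∧ g * x * g⁻¹ = x ^ 2 := by
  have : Fact (Nat.Prime 5) := ⟨by norm_num⟩
  letI : CommGroup S := { (inferInstance : Group S) with mul_comm := fun a b => Subtype.ext (hab a a.2 b b.2) }
  let α : S →* S :=
    { toFun := fun x => ⟨g * x * g⁻¹, ((mem_normalizer_iff.1 hg) _).1 x.2⟩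
      map_one' := Subtype.ext (by change g * (1 : M) * g⁻¹ = 1; group)
      map_mul' := fun x y => Subtype.ext (by
        change g * (x * y : M) * g⁻¹ = (g * x * g⁻¹) * (g * y * g⁻¹)
        group) }
  obtain ⟨n, hn⟩ := IsPGroup.iff_card.1 hS
  have hpn : ∀ s : S, s ^ (5 ^ n) = 1 := fun s => by rw [← hn]; exact pow_card_eq_one'
  set ω : ℕ := 2 ^ (5 ^ n) with hω
  have hω5 : ω ≡ 2 [MOD 5] := by
    have h1 : 5 ^ n % 4 = 1 := by rw [Nat.pow_mod]; norm_num
    have h2 : 5 ^ n = 4 * (5 ^ n / 4) + 1 := by omega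
    rw [hω, h2, pow_add, pow_mul]
    have : (2 ^ 4) ^ (5 ^ n / 4) ≡ 1 ^ (5 ^ n / 4) [MOD 5] := Nat.ModEq.pow _ (by decide)
    rw [one_pow] at this
    simpa using this.mul_right 2
  have hω4 : ω ^ 4 ≡ 1 [MOD 5 ^ n] := by
    have h1 : ((5 : ℕ) : ℤ) ∣ (16 : ℤ) - 1 := by norm_num
    have h2 := dvd_sub_pow_of_dvd_sub h1 n
    have h3 : ((5 : ℤ) ^ n) ∣ (16 : ℤ) ^ (5 ^ n) - 1 := by
      have : (5 : ℤ) ^ n ∣ 5 ^ (n + 1) := pow_dvd_pow 5 (by omega)
      refine this.trans ?_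
      simpa using h2
    have h4 : ω ^ 4 = 16 ^ (5 ^ n) := by
      rw [hω, ← pow_mul, mul_comm, pow_mul]; norm_num
    rw [h4]
    refine (Nat.modEq_iff_dvd.2 ?_).symm
    push_cast
    exact h3
  have hsω : ∀ (s : S) (a b : ℕ), a ≡ b [MOD 5 ^ n] → s ^ a = s ^ b := by
    intro s a b hab
    rw [pow_eq_pow_iff_modEq]
    exact hab.of_dvd (orderOf_dvd_of_pow_eq_one (hpn s))
  let y : ℕ → S := fun k => (α^[k]) ⟨x₀, hx₀⟩
  have hy1 : ∀ k, α (y k) = y (k + 1) := fun k => (Function.iterate_succ_apply' α k _).symm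
  have hyk : ∀ k, ((y k : S) : M) = g ^ k * x₀ * (g ^ k)⁻¹ := by
    intro k
    induction k with
    | zero => simp [y]
    | succ k ih =>
      rw [← hy1]
      change g * (y k : M) * g⁻¹ = _
      rw [ih, pow_succ', mul_inv_rev]
      simp only [mul_assoc]
  have hye : y e = y 0 := by
    apply Subtype.ext
    rw [hyk, hyk, he x₀ hx₀]; simp
  have hfy : ∀ k, f (y k) = f x₀ ^ (2 ^ k) := by
    intro k
    induction k with
    | zero => rw [hyk]; simp
    | succ k ih =>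
      rw [← hy1]
      change f (g * (y k : M) * g⁻¹) = _
      rw [map_mul, map_mul, map_inv, ih, ← conj_pow, hc, ← pow_mul, ← pow_succ']
  set X : S := ∏ k ∈ Finset.range e, (y k) ^ (ω ^ (3 * k)) with hX
  have hαX : α X = X ^ ω := by
    let F : ℕ → S := fun k => (y k) ^ (ω ^ (3 * k + 1))
    have h1 : α X = ∏ k ∈ Finset.range e, F (k + 1) := by
      rw [hX, map_prod]
      apply Finset.prod_congr rfl
      intro k _
      rw [map_pow, hy1]
      apply hsω
      have h2 : ω ^ (3 * (k + 1) + 1) = ω ^ (3 * k) * ω ^ 4 := by rw [← pow_add]; ring_nf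
      rw [h2]
      simpa using (hω4.mul_left (ω ^ (3 * k))).symm
    have h2 : X ^ ω = ∏ k ∈ Finset.range e, F k := by
      rw [hX, ← Finset.prod_pow]
      apply Finset.prod_congr rfl
      intro k _
      change _ = (y k) ^ (ω ^ (3 * k + 1))
      rw [← pow_mul, pow_succ]
    have h3 : F e = F 0 := by
      change (y e) ^ (ω ^ (3 * e + 1)) = (y 0) ^ (ω ^ (3 * 0 + 1))
      rw [hye]
      apply hsω
      obtain ⟨j, rfl⟩ := he4
      have h4 : ω ^ (3 * (4 * j) + 1) = (ω ^ 4) ^ (3 * j) * ω :=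
        (fun w : ℕ => (by ring : w ^ (3 * (4 * j) + 1) = (w ^ 4) ^ (3 * j) * w)) ω
      have h5 : ω ^ (3 * 0 + 1) = 1 ^ (3 * j) * ω := by simp
      rw [h4, h5]
      exact (hω4.pow _).mul_right _
    have h4 := Finset.prod_range_succ F e
    have h5 := Finset.prod_range_succ' F e
    rw [h4, h3] at h5
    rw [h1, h2]
    exact (mul_right_cancel h5).symm
  have hfX : f X ≠ 1 := by
    have h1 : f (X : M) = f x₀ ^ e := by
      have h2 : ∀ m : ℕ, f ((∏ k ∈ Finset.range m, (y k) ^ (ω ^ (3 * k)) : S) : M) = f x₀ ^ m := by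
        intro m
        induction m with
        | zero => simp
        | succ m ih =>
          rw [Finset.prod_range_succ, Subgroup.coe_mul, map_mul, ih, Subgroup.coe_pow, map_pow, hfy, ← pow_mul,
            pow_succ (f x₀) m]
          congr 1
          have h3 : 2 ^ m * ω ^ (3 * m) ≡ 1 [MOD 5] := by
            have h4 : 2 ^ m * ω ^ (3 * m) ≡ 2 ^ m * 2 ^ (3 * m) [MOD 5] := (hω5.pow _).mul_left _
            refine h4.trans ?_
            have h5 : 2 ^ m * 2 ^ (3 * m) = (2 ^ 4) ^ m := by rw [← pow_add, ← pow_mul]; ring_nf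
            rw [h5]
            simpa using (show 2 ^ 4 ≡ 1 [MOD 5] by decide).pow m
          have hord : orderOf (f x₀) = 5 := orderOf_eq_prime hσ5 hσ
          have h6 : f x₀ ^ (2 ^ m * ω ^ (3 * m)) = f x₀ ^ 1 := by
            rw [pow_eq_pow_iff_modEq, hord]; exact h3
          rw [h6, pow_one]
      exact h2 e
    rw [h1]
    intro h
    have h2 := orderOf_dvd_of_pow_eq_one h
    rw [orderOf_eq_prime hσ5 hσ] at h2
    exact he5 h2
  have hX1 : X ≠ 1 := by
    intro h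
    apply hfX
    rw [h]; simp
  obtain ⟨m, hm⟩ := (IsPGroup.iff_orderOf.1 hS) X
  have hm0 : m ≠ 0 := by
    rintro rfl
    rw [pow_zero, orderOf_eq_one_iff] at hm
    exact hX1 hm
  obtain ⟨m', rfl⟩ := Nat.exists_eq_succ_of_ne_zero hm0
  set x : S := X ^ (5 ^ m') with hx
  have hx5 : x ^ 5 = 1 := by
    rw [hx, ← pow_mul, ← pow_succ, ← Nat.succ_eq_add_one, ← hm]
    exact pow_orderOf_eq_one X
  have hx1 : x ≠ 1 := by
    intro h
    have h1 := orderOf_dvd_of_pow_eq_one h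
    rw [hm] at h1
    have := (Nat.pow_dvd_pow_iff_le_right (by norm_num : 1 < 5)).1 h1
    omega
  have hαx : α x = x ^ 2 := by
    have h1 : α x = x ^ ω := by rw [hx, map_pow, hαX, ← pow_mul, ← pow_mul, mul_comm]
    rw [h1, pow_eq_pow_iff_modEq, orderOf_eq_prime hx5 hx1]
    exact hω5
  refine ⟨x, x.2, fun h => hx1 (Subtype.ext h), ?_, ?_⟩
  · have := congrArg Subtype.val hx5
    simpa using this
  · have := congrArg Subtype.val hαx
    change g * (x : M) * g⁻¹ = ((x ^ 2 : S) : M) at this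
    rw [this]; rfl

end Cfsg.Agent.H11.SecI
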