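import Cfsg.Agent.H11_SecI

/-!
Elements of order 5 fused with their squares, main abstract statement.
-/

set_option autoImplicit false

namespace Cfsg.Agent.H11.SecJ

open Subgroup

theorem norm_map {G M : Type*} [Group G] [Group M] {ι : M →* G} (hι : Function.Injective ι) {S : Subgroup M} {g : M}
    (hg : g ∈ normalizer (S : Set M)) : ι g ∈ normalizer ((S.map ι : Subgroup G) : Set G) := by
  have h1 : (S.map ι).map (MulAut.conj (ι g)).toMonoidHom = S.map ι := by
    apply le_antisymm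
    · rintro _ ⟨_, ⟨x, hx, rfl⟩, rfl⟩
      refine ⟨g * x * g⁻¹, ((mem_normalizer_iff.1 hg) x).1 hx, ?_⟩
      rw [map_mul, map_mul, map_inv]; rfl
    · rintro _ ⟨x, hx, rfl⟩
      refine ⟨ι (g⁻¹ * x * g), ⟨_, ?_, rfl⟩, ?_⟩
      · have := ((mem_normalizer_iff.1 (inv_mem hg)) x).1 hx
        rwa [inv_inv] at this
      · change ι g * ι (g⁻¹ * x * g) * (ι g)⁻¹ = ι x
        rw [← map_inv, ← map_mul, ← map_mul]
        congr 1
        group
  rw [mem_normalizer_iff]
  intro z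
  constructor
  · intro hz
    rw [← h1]
    exact ⟨z, hz, rfl⟩
  · intro hz
    rw [← h1] at hz
    obtain ⟨w, hw, hwe⟩ := hz
    have : w = z := (MulAut.conj (ι g)).injective hwe
    rw [← this]; exact hw

theorem mem_norm {A : Type*} [Group A] [Finite A] {σ τ : A} {c : ℕ} (hτ : τ * σ * τ⁻¹ = σ ^ c) :
    τ ∈ normalizer ((zpowers σ : Subgroup A) : Set A) := by
  have h1 : (zpowers σ).map (MulAut.conj τ).toMonoidHom ≤ zpowers σ := by
    rw [MonoidHom.map_zpowers, zpowers_le]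
    change τ * σ * τ⁻¹ ∈ _
    rw [hτ]
    exact pow_mem (mem_zpowers σ) c
  have h2 : (zpowers σ).map (MulAut.conj τ).toMonoidHom = zpowers σ := by
    apply Subgroup.eq_of_le_of_card_ge h1
    rw [Nat.card_congr ((zpowers σ).equivMapOfInjective (MulAut.conj τ).toMonoidHom
      (MulAut.conj τ).injective).toEquiv]
  rw [mem_normalizer_iff]
  intro z
  constructor
  · intro hz
    exact h1 ⟨z, hz, rfl⟩
  · intro hz
    rw [← h2] at hz
    obtain ⟨w, hw, hwe⟩ := hz
    have : w = z := (MulAut.conj τ).injective hwe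
    rw [← this]; exact hw

theorem main {G : Type*} [Group G] [Finite G] (P : Sylow 5 G) (hab : ∀ a ∈ P, ∀ b ∈ P, a * b = b * a)
    (hn : ∀ g ∈ normalizer ((P : Subgroup G) : Set G), ∀ a ∈ P, g ^ 1152 * a = a * g ^ 1152)
    {M : Type*} [Group M] (ι : M →* G) (hι : Function.Injective ι)
    {A : Type*} [Group A] (f : M →* A) (hf : Function.Surjective f) {σ τ : A} (hσ : σ ≠ 1) (h5 : σ ^ 5 = 1)
    (hτ : τ * σ * τ⁻¹ = σ ^ 2) :
    ∃ (x : G) (R : Subgroup M) (ι' : M →* G), Function.Injective ι' ∧ x ∈ P ∧ x ≠ 1 ∧ x ^ 5 = 1 ∧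
      (∃ g : G, g * x * g⁻¹ = x ^ 2) ∧ (∀ r ∈ R, ι' r * x = x * ι' r) ∧
      ∀ y : A, y * σ = σ * y → y ^ 35 = 1 → y ∈ R.map f := by
  have : Fact (Nat.Prime 5) := ⟨by norm_num⟩
  have hfM : Finite M := Finite.of_injective ι hι
  have hfA : Finite A := Finite.of_surjective f hf
  obtain ⟨S, hS, ⟨x₀, hx₀, hx₀e⟩, hall⟩ := SecI.frat f hf σ h5
  have he : ∀ g ∈ normalizer (S : Set M), ∀ x ∈ S, g ^ 1152 * x * (g ^ 1152)⁻¹ = x := by
    intro g hg x hx
    have h1 := SecA.fusion P hab hn (S.map ι) (hS.map ι) (ι g) (norm_map hι hg) (ι x) ⟨x, hx, rfl⟩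
    apply hι
    rw [map_mul, map_mul, map_inv, map_pow]
    exact h1
  obtain ⟨P', hP'⟩ := (hS.map ι).exists_le_sylow
  obtain ⟨a, ha⟩ := MulAction.exists_smul_eq G P' P
  let κ : M →* G := (MulAut.conj a).toMonoidHom.comp ι
  have hκ : Function.Injective κ := (MulAut.conj a).injective.comp hι
  have hSP : ∀ s ∈ S, κ s ∈ P := by
    intro s hs
    have h2 : ι s ∈ (P' : Subgroup G) := hP' ⟨s, hs, rfl⟩
    have h3 := Subgroup.smul_mem_pointwise_smul (ι s) (MulAut.conj a) (P' : Subgroup G) h2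
    rw [← ha]
    exact h3
  have hSab : ∀ u ∈ S, ∀ v ∈ S, u * v = v * u := by
    intro u hu v hv
    apply hκ
    rw [map_mul, map_mul]
    exact hab _ (hSP u hu) _ (hSP v hv)
  obtain ⟨g, hg, z, hz, hgz⟩ := hall τ (mem_norm hτ)
  have hzσ : ∀ z ∈ zpowers σ, z * σ = σ * z := by
    intro z hz
    obtain ⟨k, rfl⟩ := mem_zpowers_iff.1 hz
    exact ((Commute.refl σ).zpow_left k)
  have hgσ : f g * f x₀ * (f g)⁻¹ = f x₀ ^ 2 := by
    rw [hx₀e, hgz]
    have h1 : z * σ ^ 2 = σ ^ 2 * z := by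
      have : Commute z σ := hzσ z hz
      exact this.pow_right 2
    calc z * τ * σ * (z * τ)⁻¹ = z * (τ * σ * τ⁻¹) * z⁻¹ := by group
      _ = σ ^ 2 := by rw [hτ, h1, mul_inv_cancel_right]
  obtain ⟨x₁, hx₁, hx₁1, hx₁5, hx₁g⟩ := SecI.eigen f S hS hSab hg (e := 1152) (he g hg) (by norm_num) (by norm_num)
    hx₀ (by rw [hx₀e]; exact hσ) (by rw [hx₀e]; exact h5) hgσ
  refine ⟨κ x₁, centralizer (S : Set M), κ, hκ, hSP x₁ hx₁, ?_, ?_, ⟨κ g, ?_⟩, ?_, ?_⟩
  · intro h
    exact hx₁1 (hκ (by rw [map_one]; exact h))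
  · rw [← map_pow, hx₁5, map_one]
  · rw [← map_inv, ← map_mul, ← map_mul, hx₁g, map_pow]
  · intro r hr
    rw [← map_mul, ← map_mul]
    congr 1
    exact ((mem_centralizer_iff.1 hr) x₁ hx₁).symm
  · intro y hy hy35
    have hyN : y ∈ normalizer ((zpowers σ : Subgroup A) : Set A) := by
      apply mem_norm (c := 1)
      rw [hy, mul_inv_cancel_right, pow_one]
    obtain ⟨gy, hgy, w, hw, hfw⟩ := hall y hyN
    obtain ⟨k, hk⟩ := mem_zpowers_iff.1 hw
    have hcomm : Commute w y := by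
      rw [← hk]
      have : Commute σ y := hy.symm
      exact this.zpow_left k
    have hR : gy ^ 1152 ∈ centralizer (S : Set M) := by
      rw [mem_centralizer_iff]
      intro s hs
      have := he gy hgy s hs
      rw [mul_inv_eq_iff_eq_mul] at this
      exact this.symm
    have hxR : x₀ ∈ centralizer (S : Set M) := by
      rw [mem_centralizer_iff]
      intro s hs
      exact hSab s hs x₀ hx₀
    have h1 : f (gy ^ 1152) = w ^ 1152 * y ^ 1152 := by
      rw [map_pow, hfw, hcomm.mul_pow]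
    have h2 : y ^ 1152 ∈ (centralizer (S : Set M)).map f := by
      have h3 : y ^ 1152 = (f (x₀ ^ k) ^ 1152)⁻¹ * f (gy ^ 1152) := by
        rw [h1, map_zpow, hx₀e, hk, inv_mul_cancel_left]
      rw [h3]
      exact mul_mem (inv_mem (pow_mem (Subgroup.mem_map_of_mem f (zpow_mem hxR k)) _))
        (Subgroup.mem_map_of_mem f hR)
    have h4 : y = (y ^ 1152) ^ 23 := by
      have : (y ^ 1152) ^ 23 = (y ^ 35) ^ 757 * y := by
        rw [← pow_mul, ← pow_mul, ← pow_succ]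
      rw [this, hy35, one_pow, one_mul]
    rw [h4]
    exact pow_mem h2 23

end Cfsg.Agent.H11.SecJ
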