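import Cfsg.Agent.H11_SecJ
import Cfsg.Agent.H11_SecE
import Cfsg.Agent.S1062

/-!
The action of the Weyl group of type `F₄` on the elements of order 5 of the torus.
-/

set_option autoImplicit false
set_option linter.unusedSectionVars false
set_option maxRecDepth 100000

namespace Cfsg.Agent.H11.SecK

open Cfsg Cfsg.Lie Cfsg.Lie.ChevalleyDatum Cfsg.Agent.H6.Chev

def INV : ℕ := 127948393962905623615855327500100559793939660640394679308041282408589433460743407412774678342227357651497776023169054876208021749234749788469329296648300370563318276683682743803982186491610238290006245930707522012772727091436875990592918293453111447571985132237198531845466967674675196744033348671990569092995437634223599644586970647095458300308711194096563959556203190009477050174277119656996247673318458903443212304936106167399909675841530610189891794497818822308484190169480708046305567859355974585048851653096915269601820973219790024782666033769949617963641661827177570036142230479477803961929090133570830792332485208210978401422716794963133815619100956078869599496544192590201328306406377064203683857629981260684032593010454989033569624211116335632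
def RK : ℕ := 460315758086859376544345517687762413957211863686414183067920272773159393069622806921911283465616261050248805354476060325115340472963042158959513934269675420242662714859077788652583965338540552982370265733563154579869111056737009259956739351441421959781838872736216086995821952842029609230769133315876659204467058465167611539223014620491185548502536070820411740892619156949625670083850002154044559403690178262976838950868226559629342215708557825112553251561286474102149381530083819446103970122894662097700893574028298653959886240176167945690785681189511917440222294903593002261814724776153350273295772228072176696029930390000880126868666522412546855699137688227058028729942538207307065525077395208604837855081028588371034083137882790912472323296874286278703896740371491901946285975832289112792861636315369332804196803599654912062170575375833228292827620719361996462231180738950859538955670471494172937720372828793848615110904454920447983616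

def inv (c : ℕ) : ℕ := (INV >>> (4 * c)) % 16
def rk (c : ℕ) : ℕ := (RK >>> (5 * c)) % 32
def dig (k c : ℕ) : ℕ := c / 5 ^ k % 5
def dot (i c : ℕ) : ℕ := match i with
  | 0 => 3 * dig 0 c + dig 1 c
  | 1 => dig 0 c + 3 * dig 1 c + dig 2 c
  | 2 => 2 * dig 1 c + 3 * dig 2 c + dig 3 c
  | _ => dig 2 c + 3 * dig 3 c
def sN (i c : ℕ) : ℕ := c - dig i c * 5 ^ i + (dig i c + dot i c) % 5 * 5 ^ i
def dbl (c : ℕ) : ℕ := 2 * dig 0 c % 5 + 5 * (2 * dig 1 c % 5) + 25 * (2 * dig 2 c % 5) + 125 * (2 * dig 3 c % 5)

def ck1 (c i : ℕ) : Bool := Nat.beq (inv (sN i c)) (inv c) && (Nat.blt (sN i c) 625 && (Nat.beq (sN i (sN i c)) c &&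
  allNat 4 fun k => Nat.beq (dig k (sN i c)) (bif Nat.beq k i then (dig i c + dot i c) % 5 else dig k c)))
def ck2 (c : ℕ) : Bool := Nat.beq c 0 || (Nat.beq (inv c) 7 || !(Nat.beq (inv (dbl c)) (inv c)))
def ck3 (c : ℕ) : Bool := !(Nat.beq (inv c) 7) || (Nat.beq c 32 || (Nat.blt (rk (sN 0 c)) (rk c) ||
  (Nat.blt (rk (sN 1 c)) (rk c) || (Nat.blt (rk (sN 2 c)) (rk c) || Nat.blt (rk (sN 3 c)) (rk c)))))
def ck4 (c : ℕ) : Bool := Nat.blt (dbl c) 625 && allNat 4 fun k => Nat.beq (dig k (dbl c)) (2 * dig k c % 5)

theorem ck1_all : (allNat 625 fun c => allNat 4 fun i => ck1 c i) = true := by decide +kernel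
theorem ck2_all : (allNat 625 fun c => ck2 c) = true := by decide +kernel
theorem ck3_all : (allNat 625 fun c => ck3 c) = true := by decide +kernel
theorem ck4_all : (allNat 625 fun c => ck4 c) = true := by decide +kernel

def L7 : List ℕ := (List.range 625).filter fun c => Nat.beq (inv c) 7
theorem L7_len : L7.length = 144 := by decide +kernel

theorem blt_iff {a b : ℕ} (h : Nat.blt a b = true) : a < b := Nat.le_of_ble_eq_true h

theorem s1 {c i : ℕ} (hc : c < 625) (hi : i < 4) : inv (sN i c) = inv c ∧ sN i c < 625 ∧ sN i (sN i c) = c ∧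
    ∀ k < 4, dig k (sN i c) = if k = i then (dig i c + dot i c) % 5 else dig k c := by
  have h := allNat_iff (allNat_iff ck1_all c hc) i hi
  unfold ck1 at h
  rw [Bool.and_eq_true, Bool.and_eq_true, Bool.and_eq_true] at h
  refine ⟨Nat.eq_of_beq_eq_true h.1, blt_iff h.2.1, Nat.eq_of_beq_eq_true h.2.2.1, fun k hk => ?_⟩
  have h2 := Nat.eq_of_beq_eq_true (allNat_iff h.2.2.2 k hk)
  rw [h2]
  by_cases hki : k = i
  · have h4 : Nat.beq k i = true := by rw [hki]; exact Nat.beq_refl _
    rw [if_pos hki, h4]; rfl
  · have h3 : Nat.beq k i = false := by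
      rw [Bool.eq_false_iff]
      intro h4
      exact hki (Nat.eq_of_beq_eq_true h4)
    rw [if_neg hki, h3]; rfl

theorem s2 {c : ℕ} (hc : c < 625) (h0 : c ≠ 0) (h7 : inv (dbl c) = inv c) : inv c = 7 := by
  have h := allNat_iff ck2_all c hc
  unfold ck2 at h
  rw [Bool.or_eq_true, Bool.or_eq_true] at h
  rcases h with h | h | h
  · exact absurd (Nat.eq_of_beq_eq_true h) h0
  · exact Nat.eq_of_beq_eq_true h
  · rw [h7, Bool.not_eq_true'] at h
    have : Nat.beq (inv c) (inv c) = true := Nat.beq_refl _
    rw [this] at h
    exact absurd h (by decide)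

theorem s3 {c : ℕ} (hc : c < 625) (h7 : inv c = 7) (h0 : c ≠ 32) : ∃ i < 4, rk (sN i c) < rk c := by
  have h := allNat_iff ck3_all c hc
  unfold ck3 at h
  rw [Bool.or_eq_true, Bool.or_eq_true, Bool.or_eq_true, Bool.or_eq_true, Bool.or_eq_true] at h
  rcases h with h | h | h | h | h | h
  · rw [h7] at h
    exact absurd h (by decide)
  · exact absurd (Nat.eq_of_beq_eq_true h) h0
  · exact ⟨0, by norm_num, blt_iff h⟩
  · exact ⟨1, by norm_num, blt_iff h⟩
  · exact ⟨2, by norm_num, blt_iff h⟩
  · exact ⟨3, by norm_num, blt_iff h⟩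

theorem s4 {c : ℕ} (hc : c < 625) : dbl c < 625 ∧ ∀ k < 4, dig k (dbl c) = 2 * dig k c % 5 := by
  have h := allNat_iff ck4_all c hc
  unfold ck4 at h
  rw [Bool.and_eq_true] at h
  exact ⟨blt_iff h.1, fun k hk => Nat.eq_of_beq_eq_true (allNat_iff h.2 k hk)⟩

theorem dig_lt (k c : ℕ) : dig k c < 5 := Nat.mod_lt _ (by norm_num)

theorem dig_ext {c c' : ℕ} (hc : c < 625) (hc' : c' < 625) (h : ∀ k < 4, dig k c = dig k c') : c = c' := by
  have h0 := h 0 (by norm_num)
  have h1 := h 1 (by norm_num)
  have h2 := h 2 (by norm_num)
  have h3 := h 3 (by norm_num)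
  simp only [dig] at h0 h1 h2 h3
  omega

theorem exists_code (d : Fin 4 → ℕ) (hd : ∀ k, d k < 5) : ∃ c < 625, ∀ k : Fin 4, dig k c = d k := by
  refine ⟨d 0 + 5 * d 1 + 25 * d 2 + 125 * d 3, ?_, ?_⟩
  · have := hd 0; have := hd 1; have := hd 2; have := hd 3
    omega
  · have := hd 0; have := hd 1; have := hd 2; have := hd 3
    intro k
    fin_cases k
    · change (d 0 + 5 * d 1 + 25 * d 2 + 125 * d 3) / 5 ^ 0 % 5 = d 0
      omega
    · change (d 0 + 5 * d 1 + 25 * d 2 + 125 * d 3) / 5 ^ 1 % 5 = d 1
      omega
    · change (d 0 + 5 * d 1 + 25 * d 2 + 125 * d 3) / 5 ^ 2 % 5 = d 2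
      omega
    · change (d 0 + 5 * d 1 + 25 * d 2 + 125 * d 3) / 5 ^ 3 % 5 = d 3
      omega

end Cfsg.Agent.H11.SecK
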