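import Cfsg.Agent.H11_SecK

/-!
The action of the monomial group of type `F₄` on the elements of order 5 of the torus.
-/

set_option autoImplicit false
set_option linter.unusedSectionVars false
set_option maxRecDepth 100000

namespace Cfsg.Agent.H11.SecL

open Cfsg Cfsg.Lie Cfsg.Lie.ChevalleyDatum Cfsg.Agent.H6.Chev Cfsg.Agent.H11.SecK

variable {L : Type*} [Field L]

def am (j i : Fin 4) : ℤ := mt cmF4 j i

theorem cart_eq (j i : Fin 4) : chevF4.cartan j (chevF4.simple i) = am j i := by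
  have h1 : chevF4.simple i = nth tabF4.S i := baseF4.simple_eq i.2
  have h2 : nth tabF4.S i < tabF4.n := by revert i; decide +kernel
  rw [h1, baseF4.cartan_eq j.2 h2]
  revert j i
  decide +kernel

/-- the element with code `c` -/
def th (ζ : Lˣ) (c : ℕ) : GL chevF4.Idx L := modelF4.hT L (fun k : Fin 4 => ζ ^ dig k c)

theorem th_mem (ζ : Lˣ) (c : ℕ) : th ζ c ∈ chevF4.diagonalSubgroup L := modelF4.hT_mem_H _

variable {ζ : Lˣ}

theorem th_inj (hζ : orderOf ζ = 5) {c c' : ℕ} (hc : c < 625) (hc' : c' < 625) (h : th ζ c = th ζ c') : c = c' := by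
  have hinj : Function.Injective (modelF4.hT L) := (injective_iff_map_eq_one (modelF4.hT L)).2 (fun b hb => f4_inj hb)
  have h2 := hinj h
  apply dig_ext hc hc'
  intro k hk
  have h4 : ζ ^ dig k c = ζ ^ dig k c' := congrFun h2 (⟨k, hk⟩ : Fin 4)
  rw [pow_eq_pow_iff_modEq, hζ] at h4
  exact Nat.ModEq.eq_of_lt_of_lt h4 (dig_lt _ _) (dig_lt _ _)

theorem th_dbl (hζ : orderOf ζ = 5) {c : ℕ} (hc : c < 625) : th ζ (dbl c) = th ζ c ^ 2 := by
  unfold th
  refine Eq.trans ?_ (map_pow (modelF4.hT L) _ 2)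
  congr 1
  funext k
  change ζ ^ dig k (dbl c) = (ζ ^ dig k c) ^ 2
  rw [(s4 hc).2 k k.2, ← pow_mul, pow_eq_pow_iff_modEq, hζ, mul_comm]
  exact Nat.mod_modEq _ _

theorem th_surj (hζ : orderOf ζ = 5) {x : GL chevF4.Idx L} (hx : x ∈ chevF4.diagonalSubgroup L) (h5 : x ^ 5 = 1) :
    ∃ c < 625, x = th ζ c := by
  obtain ⟨b, rfl⟩ := modelF4.mem_H'.1 hx
  have h1 : (modelF4.hT L) (b ^ 5) = 1 := (map_pow (modelF4.hT L) b 5).trans h5
  have h2 : b ^ 5 = 1 := f4_inj h1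
  have hprim : IsPrimitiveRoot (ζ : L) 5 := by
    have h3 : IsPrimitiveRoot ζ 5 := by rw [← hζ]; exact IsPrimitiveRoot.orderOf ζ
    exact IsPrimitiveRoot.coe_units_iff.2 h3
  have h3 : ∀ k : Fin 4, ∃ i < 5, ζ ^ i = b k := by
    intro k
    have h4 : ((b k : Lˣ) : L) ^ 5 = 1 := by
      have h5 : (b k) ^ 5 = 1 := congrFun h2 k
      have h6 := congrArg Units.val h5
      rwa [Units.val_pow_eq_pow_val] at h6
    obtain ⟨i, hi, he⟩ := hprim.eq_pow_of_pow_eq_one h4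
    refine ⟨i, hi, Units.ext ?_⟩
    rw [Units.val_pow_eq_pow_val]; exact he
  choose d hd hde using h3
  obtain ⟨c, hc, hcd⟩ := exists_code d hd
  refine ⟨c, hc, ?_⟩
  unfold th
  congr 1
  funext k
  change b k = ζ ^ dig k c
  rw [hcd k, hde k]

theorem key_mod (k : Fin 4) (c : ℕ) : ((dig k c : ℕ) : ℤ) + (((dig (0 : Fin 4) c : ℕ) : ℤ) * -am 0 k +
    ((dig (1 : Fin 4) c : ℕ) : ℤ) * -am 1 k +
    ((dig (2 : Fin 4) c : ℕ) : ℤ) * -am 2 k + ((dig (3 : Fin 4) c : ℕ) : ℤ) * -am 3 k) ≡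
    (((dig k c + dot k c) % 5 : ℕ) : ℤ) [ZMOD 5] := by
  unfold Int.ModEq
  fin_cases k
  · have a0 : am 0 0 = 2 := rfl
    have a1 : am 1 0 = -1 := rfl
    have a2 : am 2 0 = 0 := rfl
    have a3 : am 3 0 = 0 := rfl
    simp only [Fin.zero_eta, a0, a1, a2, a3]
    change (((dig 0 c : ℕ) : ℤ) + (((dig 0 c : ℕ) : ℤ) * -2 + ((dig 1 c : ℕ) : ℤ) * -(-1) + ((dig 2 c : ℕ) : ℤ) * -0 +
      ((dig 3 c : ℕ) : ℤ) * -0)) % 5 = (((dig 0 c + (3 * dig 0 c + dig 1 c)) % 5 : ℕ) : ℤ) % 5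
    omega
  · have a0 : am 0 1 = -1 := rfl
    have a1 : am 1 1 = 2 := rfl
    have a2 : am 2 1 = -1 := rfl
    have a3 : am 3 1 = 0 := rfl
    simp only [Fin.mk_one, a0, a1, a2, a3]
    change (((dig 1 c : ℕ) : ℤ) + (((dig 0 c : ℕ) : ℤ) * -(-1) + ((dig 1 c : ℕ) : ℤ) * -2 + ((dig 2 c : ℕ) : ℤ) * -(-1) +
      ((dig 3 c : ℕ) : ℤ) * -0)) % 5 = (((dig 1 c + (dig 0 c + 3 * dig 1 c + dig 2 c)) % 5 : ℕ) : ℤ) % 5
    omega
  · have a0 : am 0 2 = 0 := rfl
    have a1 : am 1 2 = -2 := rfl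
    have a2 : am 2 2 = 2 := rfl
    have a3 : am 3 2 = -1 := rfl
    simp only [Fin.reduceFinMk, a0, a1, a2, a3]
    change (((dig 2 c : ℕ) : ℤ) + (((dig 0 c : ℕ) : ℤ) * -0 + ((dig 1 c : ℕ) : ℤ) * -(-2) + ((dig 2 c : ℕ) : ℤ) * -2 +
      ((dig 3 c : ℕ) : ℤ) * -(-1))) % 5 = (((dig 2 c + (2 * dig 1 c + 3 * dig 2 c + dig 3 c)) % 5 : ℕ) : ℤ) % 5
    omega
  · have a0 : am 0 3 = 0 := rfl
    have a1 : am 1 3 = 0 := rfl
    have a2 : am 2 3 = -1 := rfl
    have a3 : am 3 3 = 2 := rfl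
    simp only [Fin.reduceFinMk, a0, a1, a2, a3]
    change (((dig 3 c : ℕ) : ℤ) + (((dig 0 c : ℕ) : ℤ) * -0 + ((dig 1 c : ℕ) : ℤ) * -0 + ((dig 2 c : ℕ) : ℤ) * -(-1) +
      ((dig 3 c : ℕ) : ℤ) * -2)) % 5 = (((dig 3 c + (dig 2 c + 3 * dig 3 c)) % 5 : ℕ) : ℤ) % 5
    omega

theorem n_th (hζ : orderOf ζ = 5) (i : Fin 4) {c : ℕ} (hc : c < 625) :
    modelF4.n L i * th ζ c * (modelF4.n L i)⁻¹ = th ζ (sN i c) := by
  have h := modelF4.n_hT (F := L) i (fun k : Fin 4 => ζ ^ dig k c)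
  have h1 : modelF4.n L i * th ζ c = modelF4.hT L (Model.si chevF4 i (fun k : Fin 4 => ζ ^ dig k c)) * modelF4.n L i := h
  rw [mul_inv_eq_iff_eq_mul, h1]
  congr 1
  unfold th
  congr 1
  funext k
  obtain ⟨-, -, -, h4⟩ := s1 hc i.2
  have h5 := h4 k k.2
  change _ = ζ ^ dig k (sN i c)
  rw [h5]
  by_cases hki : (k : ℕ) = i
  · obtain rfl : k = i := Fin.ext hki
    have h6 : Model.si chevF4 k (fun k : Fin 4 => ζ ^ dig k c) k =
        ζ ^ dig k c * ∏ j : Fin 4, (ζ ^ dig j c) ^ (- am j k) := by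
      unfold Model.si
      rw [if_pos rfl]
      congr 1
      apply Finset.prod_congr rfl
      intro j _
      exact congrArg (fun z : ℤ => (ζ ^ dig j c) ^ (-z)) (cart_eq j k)
    refine h6.trans ?_
    rw [if_pos rfl, Fin.prod_univ_four]
    simp only [← zpow_natCast, ← zpow_mul, ← zpow_add]
    rw [zpow_eq_zpow_iff_modEq, hζ]
    exact key_mod k c
  · have hki' : ¬ k = i := fun h => hki (congrArg Fin.val h)
    rw [if_neg hki]
    unfold Model.si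
    rw [if_neg hki', mul_one]

theorem N_inv (hζ : orderOf ζ = 5) {g : GL chevF4.Idx L} (hg : g ∈ chevF4.monomialSubgroup L) :
    ∀ c < 625, ∃ c' < 625, g * th ζ c * g⁻¹ = th ζ c' ∧ inv c' = inv c := by
  let Pr : GL chevF4.Idx L → Prop := fun g => ∀ c < 625, ∃ c' < 625, g * th ζ c * g⁻¹ = th ζ c' ∧ inv c' = inv c
  let M : Subgroup (GL chevF4.Idx L) :=
    { carrier := {g | Pr g ∧ Pr g⁻¹}
      mul_mem' := by
        rintro a b ⟨ha, ha'⟩ ⟨hb, hb'⟩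
        refine ⟨fun c hc => ?_, fun c hc => ?_⟩
        · obtain ⟨c1, hc1, h1, h2⟩ := hb c hc
          obtain ⟨c2, hc2, h3, h4⟩ := ha c1 hc1
          refine ⟨c2, hc2, ?_, h4.trans h2⟩
          rw [← h3, ← h1]; group
        · obtain ⟨c1, hc1, h1, h2⟩ := ha' c hc
          obtain ⟨c2, hc2, h3, h4⟩ := hb' c1 hc1
          refine ⟨c2, hc2, ?_, h4.trans h2⟩
          rw [← h3, ← h1]; group
      one_mem' := ⟨fun c hc => ⟨c, hc, by group, rfl⟩, fun c hc => ⟨c, hc, by group, rfl⟩⟩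
      inv_mem' := by
        rintro a ⟨ha, ha'⟩
        exact ⟨ha', by rw [inv_inv]; exact ha⟩ }
  have hH : ∀ g ∈ chevF4.diagonalSubgroup L, Pr g := by
    intro g hg c hc
    refine ⟨c, hc, ?_, rfl⟩
    rw [modelF4.H_comm hg (th_mem ζ c), mul_inv_cancel_right]
  have hle : chevF4.monomialSubgroup L ≤ M := by
    rw [modelF4.monomial_eq]
    apply sup_le
    · intro g hg
      exact ⟨hH g hg, hH _ (inv_mem hg)⟩
    · rw [Subgroup.closure_le]
      rintro _ ⟨i, rfl⟩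
      refine ⟨fun c hc => ?_, fun c hc => ?_⟩
      · obtain ⟨h1, h2, h3, -⟩ := s1 hc i.2
        exact ⟨sN i c, h2, n_th hζ i hc, h1⟩
      · obtain ⟨h1, h2, h3, -⟩ := s1 hc i.2
        refine ⟨sN i c, h2, ?_, h1⟩
        have h4 := n_th hζ i h2
        rw [h3] at h4
        rw [← h4]; group
  exact (hle hg).1

theorem to32 (hζ : orderOf ζ = 5) : ∀ (j : ℕ) {c : ℕ}, rk c = j → c < 625 → inv c = 7 →
    ∃ n ∈ chevF4.monomialSubgroup L, n * th ζ c * n⁻¹ = th ζ 32 := by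
  intro j
  induction j using Nat.strong_induction_on with
  | _ j ih =>
    intro c hj hc h7
    by_cases h32 : c = 32
    · exact ⟨1, one_mem _, by rw [h32]; group⟩
    · obtain ⟨i, hi, hlt⟩ := s3 hc h7 h32
      obtain ⟨h1, h2, h3, -⟩ := s1 hc hi
      obtain ⟨n, hn, hne⟩ := ih (rk (sN i c)) (by rw [← hj]; exact hlt) rfl h2 (h1.trans h7)
      refine ⟨n * modelF4.n L i, mul_mem hn (modelF4.n_mem_N (⟨i, hi⟩ : Fin 4)), ?_⟩
      have h4 := n_th (L := L) hζ ⟨i, hi⟩ hc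
      have h5 : n * modelF4.n L i * th ζ c * (n * modelF4.n L i)⁻¹ =
          n * (modelF4.n L i * th ζ c * (modelF4.n L i)⁻¹) * n⁻¹ := by group
      rw [h5]
      refine Eq.trans ?_ hne
      congr 2

theorem index_big [Finite L] (hζ : orderOf ζ = 5) {x g : GL chevF4.Idx L} (hx : x ∈ chevF4.diagonalSubgroup L)
    (h5 : x ^ 5 = 1) (hx1 : x ≠ 1) (hg : g ∈ chevF4.monomialSubgroup L) (hgx : g * x * g⁻¹ = x ^ 2) :
    144 ≤ (chevF4.monomialSubgroup L ⊓ Subgroup.centralizer {x}).relIndex (chevF4.monomialSubgroup L) := by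
  obtain ⟨c, hc, rfl⟩ := th_surj hζ hx h5
  have hc0 : c ≠ 0 := by
    rintro rfl
    apply hx1
    have h1 : (fun k : Fin 4 => ζ ^ dig k 0) = 1 := by
      funext k
      have h3 : dig k 0 = 0 := by unfold dig; rw [Nat.zero_div, Nat.zero_mod]
      rw [h3, pow_zero]; rfl
    have h2 : (modelF4.hT L) (fun k : Fin 4 => ζ ^ dig k 0) = (modelF4.hT L) 1 := congrArg _ h1
    rw [map_one] at h2
    exact h2
  have h7 : inv c = 7 := by
    obtain ⟨c', hc', h1, h2⟩ := N_inv hζ hg c hc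
    rw [hgx, ← th_dbl hζ hc] at h1
    have h3 := th_inj hζ (s4 hc).1 hc' h1
    exact s2 hc hc0 (by rw [h3]; exact h2)
  obtain ⟨n0, hn0, h0⟩ := to32 (L := L) hζ _ rfl hc h7
  have hex : ∀ d : Fin L7.length, ∃ n ∈ chevF4.monomialSubgroup L, n * th ζ c * n⁻¹ = th ζ (L7.get d) := by
    intro d
    have hd : L7.get d ∈ L7 := List.get_mem _ _
    unfold L7 at hd
    rw [List.mem_filter, List.mem_range] at hd
    obtain ⟨n, hn, hne⟩ := to32 (L := L) hζ _ rfl hd.1 (Nat.eq_of_beq_eq_true hd.2)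
    refine ⟨n⁻¹ * n0, mul_mem (inv_mem hn) hn0, ?_⟩
    have h8 : n⁻¹ * n0 * th ζ c * (n⁻¹ * n0)⁻¹ = n⁻¹ * (n0 * th ζ c * n0⁻¹) * n := by group
    rw [h8, h0, ← hne]
    change _ = th ζ (L7.get d)
    group
    rfl
  choose n hn hne using hex
  have hlt : ∀ d : Fin L7.length, L7.get d < 625 := by
    intro d
    have hd : L7.get d ∈ L7 := List.get_mem _ _
    unfold L7 at hd
    rw [List.mem_filter, List.mem_range] at hd
    exact hd.1
  have hnod : L7.Nodup := List.Nodup.filter _ List.nodup_range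
  set N := chevF4.monomialSubgroup L
  set C := (N ⊓ Subgroup.centralizer {th ζ c}).subgroupOf N with hC
  let q : Fin L7.length → ↥N ⧸ C := fun d => QuotientGroup.mk ⟨n d, hn d⟩
  have hq : Function.Injective q := by
    intro d d' hdd
    have h1 : (⟨n d, hn d⟩ : N)⁻¹ * ⟨n d', hn d'⟩ ∈ C := QuotientGroup.eq.1 hdd
    rw [hC, Subgroup.mem_subgroupOf, Subgroup.mem_inf] at h1
    have h2 : (n d)⁻¹ * n d' ∈ Subgroup.centralizer {th ζ c} := h1.2
    rw [Subgroup.mem_centralizer_singleton_iff] at h2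
    have h3 : n d' * th ζ c * (n d')⁻¹ = n d * th ζ c * (n d)⁻¹ := by
      calc n d' * th ζ c * (n d')⁻¹ = n d * ((n d)⁻¹ * n d' * th ζ c) * (n d')⁻¹ := by group
        _ = n d * (th ζ c * ((n d)⁻¹ * n d')) * (n d')⁻¹ := by rw [h2]
        _ = _ := by group
    rw [hne, hne] at h3
    have h4 := th_inj hζ (hlt _) (hlt _) h3
    exact ((List.Nodup.get_inj_iff hnod).1 h4).symm
  have h9 := Nat.card_le_card_of_injective q hq
  rw [Nat.card_eq_fintype_card, Fintype.card_fin, L7_len] at h9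
  exact h9

end Cfsg.Agent.H11.SecL
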