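import Cfsg.Agent.H11_SecL
import Cfsg.Agent.H11_SecF

/-!
Sylow subgroups of `F₄(q)` and of centralizers of torus elements.
-/

set_option autoImplicit false
set_option linter.unusedSectionVars false
set_option maxRecDepth 100000

namespace Cfsg.Agent.H11.SecM

open Cfsg Cfsg.Lie Cfsg.Lie.ChevalleyDatum Cfsg.Agent.H6.Chev

section gen

variable {D : ChevalleyDatum} {m : Model D} {F : Type*} [Field F]

/-- triviality of the centralizer in `U` of a family of torus elements -/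
theorem cent_triv {J : Type*} {h : J → GL D.Idx F} {χ : J → ℕ → F}
    (hχ : ∀ j, ∀ r ∈ List.range' m.N m.N, ∀ y, h j * m.X r y * (h j)⁻¹ = m.X r (χ j r * y))
    (hne : ∀ r ∈ List.range' m.N m.N, ∃ j, χ j r ≠ 1)
    {u : GL D.Idx F} (hu : u ∈ D.posUnipotent F) (hc : ∀ j, h j * u = u * h j) : u = 1 := by
  rw [m.pos_eq_UL] at hu
  have hG := m.good_pos
  obtain ⟨t, rfl⟩ := hG.exists_nf hu
  rw [← F4T.nf_zero (m := m) (F := F) (List.range' m.N m.N)]
  apply m.nf_congr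
  intro r hr
  obtain ⟨j, hj⟩ := hne r hr
  have e1 := F4T.conj_nf (hχ j) t
  rw [hc j, mul_inv_cancel_right] at e1
  have := hG.nf_inj e1 r hr
  by_contra h0
  exact hj (mul_right_cancel₀ h0 (by rw [one_mul]; exact this.symm))

end gen

theorem mk_sylow {ℓ : ℕ} [Fact ℓ.Prime] {e : ℕ} {G : Type*} [Group G] [Finite G] (Hd : Subgroup G)
    (hab : ∀ a ∈ Hd, ∀ b ∈ Hd, a * b = b * a) (hind : ¬ ℓ ∣ Hd.index)
    (hN : ∀ g : G, ∀ Q : Subgroup G, Q ≤ Hd → (∀ h ∈ Hd, h ^ ℓ = 1 → h ∈ Q) →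
      g ∈ Subgroup.normalizer (Q : Set G) → g ^ e ∈ Hd) :
    ∃ P : Sylow ℓ G, (∀ a ∈ P, a ∈ Hd) ∧ (∀ a ∈ P, ∀ b ∈ P, a * b = b * a) ∧
      ∀ g ∈ Subgroup.normalizer ((P : Subgroup G) : Set G), ∀ a ∈ P, g ^ e * a = a * g ^ e := by
  let Q0 : Sylow ℓ Hd := default
  have hQp : IsPGroup ℓ ((Q0 : Subgroup Hd).map Hd.subtype) := Q0.2.map _
  have hQi : ¬ ℓ ∣ ((Q0 : Subgroup Hd).map Hd.subtype).index := by
    rw [Subgroup.index_map_subtype]
    intro h
    rcases (Nat.Prime.dvd_mul (Fact.out)).1 h with h | h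
    · exact Q0.not_dvd_index h
    · exact hind h
  have hle : (Q0 : Subgroup Hd).map Hd.subtype ≤ Hd := by
    rintro _ ⟨x, -, rfl⟩
    exact x.2
  refine ⟨hQp.toSylow hQi, ?_, ?_, ?_⟩
  · intro a ha
    rw [IsPGroup.mem_toSylow] at ha
    exact hle ha
  · rintro a ha b hb
    rw [IsPGroup.mem_toSylow] at ha hb
    exact hab _ (hle ha) _ (hle hb)
  · intro g hg a ha
    rw [IsPGroup.mem_toSylow] at ha
    rw [IsPGroup.toSylow_coe] at hg
    have h16 := hN g _ hle ?_ hg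
    · exact hab _ h16 _ (hle ha)
    · intro h hh hh7
      let x : Hd := ⟨h, hh⟩
      have hx7 : x ^ ℓ = 1 := Subtype.ext hh7
      have hcomm : ∀ y z : Hd, y * z = z * y := fun y z => Subtype.ext (hab _ y.2 _ z.2)
      have hnor : (Q0 : Subgroup Hd).Normal := ⟨fun y hy z => by
        rw [hcomm z y, mul_inv_cancel_right]; exact hy⟩
      have hzp : IsPGroup ℓ (Subgroup.zpowers x) := by
        rintro ⟨z, hz⟩
        obtain ⟨k, rfl⟩ := Subgroup.mem_zpowers_iff.1 hz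
        refine ⟨1, Subtype.ext ?_⟩
        change (x ^ k) ^ (ℓ ^ 1) = 1
        rw [pow_one, ← zpow_natCast, ← zpow_mul, mul_comm, zpow_mul, zpow_natCast, hx7, one_zpow]
      obtain ⟨Q', hQ'⟩ := hzp.exists_le_sylow
      have hsub : Q' = Q0 := by
        have := Sylow.unique_of_normal Q0 hnor
        exact Subsingleton.elim _ _
      refine ⟨x, ?_, rfl⟩
      rw [hsub] at hQ'
      exact hQ' (Subgroup.mem_zpowers x)

variable {L : Type*} [Field L]

def vv (r : ℕ) : List ℤ := [tabF4.c 0 r, tabF4.c 1 r, tabF4.c 2 r, tabF4.c 3 r]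

theorem vv_ok (r : Fin 24) : (Nat.blt (r + 24) tabF4.n && allNat tabF4.l fun k => intEq (tabF4.c k (r + 24))
    ((vv (r + 24)).getD k 0)) = true ∧
    ∃ j : Fin 4, (vv (r + 24)).getD j 0 ≠ 0 ∧ ((vv (r + 24)).getD j 0).natAbs < 5 := by
  revert r
  decide +kernel

/-- torus elements of order `ℓ` -/
theorem torus_elts {ℓ : ℕ} (hℓ : 5 ≤ ℓ) {ζ : Lˣ} (hord : orderOf ζ = ℓ) :
    ∃ h : Fin 4 → GL chevF4.Idx L, (∀ j, h j ∈ chevF4.diagonalSubgroup L) ∧ (∀ j, h j ^ ℓ = 1) ∧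
      ∀ u ∈ chevF4.posUnipotent L, (∀ j, h j * u = u * h j) → u = 1 := by
  have h5 : ζ ^ ℓ = 1 := by rw [← hord]; exact pow_orderOf_eq_one ζ
  let b : Fin 4 → (Fin 4 → Lˣ) := fun j => Pi.mulSingle j ζ
  have hN : modelF4.N = 24 := by
    have h1 := modelF4.nroots_eq
    have h2 := baseF4.nroots
    have h3 : tabF4.n = 48 := rfl
    omega
  refine ⟨fun j => modelF4.hT L (b j), fun j => modelF4.hT_mem_H _, fun j => ?_, fun u hu hc => ?_⟩
  · refine (map_pow (modelF4.hT L) (b j) ℓ).symm.trans ?_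
    have : (b j) ^ ℓ = 1 := by
      change (Pi.mulSingle j ζ : Fin 4 → Lˣ) ^ ℓ = 1
      rw [← Pi.mulSingle_pow, h5, Pi.mulSingle_one]
    have h2 : (modelF4.hT L) ((b j) ^ ℓ) = (modelF4.hT L) 1 := congrArg _ this
    rw [map_one] at h2
    exact h2
  · refine cent_triv (m := modelF4) (h := fun j => modelF4.hT L (b j))
      (χ := fun (j : Fin 4) r => ((ζ ^ (vv r).getD j 0 : Lˣ) : L)) ?_ ?_ hu hc
    · intro j r hr y
      rw [hN, List.mem_range'_1] at hr
      have h := (vv_ok ⟨r - 24, by omega⟩).1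
      have hr' : r - 24 + 24 = r := by omega
      simp only [hr'] at h
      have h1 := hT_Xr modelF4 baseF4 (vv r) h (b j) y
      refine h1.trans ?_
      congr 2
      have h2 : ∏ k : Fin 4, b j k ^ (vv r).getD k 0 = ζ ^ (vv r).getD j 0 := by
        rw [Finset.prod_eq_single j]
        · change (Pi.mulSingle j ζ : Fin 4 → Lˣ) j ^ (vv r).getD j 0 = _
          rw [Pi.mulSingle_eq_same]
        · intro k _ hk
          change (Pi.mulSingle j ζ : Fin 4 → Lˣ) k ^ (vv r).getD k 0 = _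
          rw [Pi.mulSingle_eq_of_ne hk, one_zpow]
        · intro h; exact absurd (Finset.mem_univ j) h
      exact congrArg Units.val h2
    · intro r hr
      rw [hN, List.mem_range'_1] at hr
      obtain ⟨j, h1, h2⟩ := (vv_ok ⟨r - 24, by omega⟩).2
      have hr' : r - 24 + 24 = r := by omega
      simp only [hr'] at h1 h2
      refine ⟨j, fun hcon => ?_⟩
      have h3 : ζ ^ (vv r).getD j 0 = 1 := Units.ext hcon
      have h4 := orderOf_dvd_iff_zpow_eq_one.2 h3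
      rw [hord] at h4
      have h6 := Int.natAbs_dvd_natAbs.2 h4
      rw [Int.natAbs_natCast] at h6
      have h7 : 0 < ((vv r).getD j 0).natAbs := Int.natAbs_pos.2 h1
      have := Nat.le_of_dvd h7 h6
      omega

theorem diag_le_mono : chevF4.diagonalSubgroup L ≤ chevF4.monomialSubgroup L := modelF4.H_le_N
theorem mono_le : chevF4.monomialSubgroup L ≤ chevF4.group L := fun _ h => modelF4.N_le_G h
theorem diag_le : chevF4.diagonalSubgroup L ≤ chevF4.group L := diag_le_mono.trans mono_le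

theorem card_H [Finite L] : Nat.card (chevF4.diagonalSubgroup L) = (Nat.card L - 1) ^ 4 := by
  have h1 : Function.Injective (modelF4.hT L) := by
    rw [injective_iff_map_eq_one]
    intro b hb
    exact f4_inj hb
  have h2 : Nat.card (Fin 4 → Lˣ) = Nat.card (chevF4.diagonalSubgroup L) := by
    apply Nat.card_congr
    refine Equiv.ofBijective (fun b => (⟨modelF4.hT L b, modelF4.hT_mem_H _⟩ : chevF4.diagonalSubgroup L)) ⟨?_, ?_⟩
    · intro a b hab
      exact h1 (congrArg Subtype.val hab)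
    · rintro ⟨g, hg⟩
      obtain ⟨b, rfl⟩ := modelF4.mem_H'.1 hg
      exact ⟨b, rfl⟩
  rw [← h2, Nat.card_fun, Nat.card_units, Nat.card_fin]

theorem N_index [Finite L] : (chevF4.diagonalSubgroup L).relIndex (chevF4.monomialSubgroup L) = 1152 := by
  obtain ⟨ψ, h1, h2, -⟩ := Cfsg.Agent.S1039.result (F := L) (chevF4, ⟨4, CoxeterMatrix.F₄⟩) (by simp)
  have h3 : Nat.card (CoxeterMatrix.F₄ : CoxeterMatrix (Fin 4)).Group = 1152 :=
    Cfsg.Agent.S1092.result (⟨4, CoxeterMatrix.F₄⟩, 1152) (by simp)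
  change ((chevF4.diagonalSubgroup L).subgroupOf (chevF4.monomialSubgroup L)).index = 1152
  have h4 : ψ.ker = (chevF4.diagonalSubgroup L).subgroupOf (chevF4.monomialSubgroup L) := h2
  rw [← h4, Subgroup.index_ker, MonoidHom.range_eq_top.2 h1, Subgroup.card_top]
  exact h3

/-- powers of elements of `N ⊓ C` -/
theorem pow_mem [Finite L] {C : Subgroup (GL chevF4.Idx L)} (hC : chevF4.diagonalSubgroup L ≤ C) {g : GL chevF4.Idx L}
    (hg : g ∈ chevF4.monomialSubgroup L ⊓ C) :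
    g ^ ((chevF4.diagonalSubgroup L).relIndex (chevF4.monomialSubgroup L ⊓ C)) ∈ chevF4.diagonalSubgroup L := by
  have hnor : ((chevF4.diagonalSubgroup L).subgroupOf (chevF4.monomialSubgroup L ⊓ C)).Normal := by
    constructor
    intro y hy z
    rw [Subgroup.mem_subgroupOf] at hy ⊢
    exact (Subgroup.mem_normalizer_iff.1 (modelF4.N_le_normalizer (Subgroup.mem_inf.1 z.2).1) _).1 hy
  have h := Subgroup.pow_index_mem ((chevF4.diagonalSubgroup L).subgroupOf (chevF4.monomialSubgroup L ⊓ C)) ⟨g, hg⟩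
  exact Subgroup.mem_subgroupOf.1 h

theorem H_index [Finite L] {ℓ : ℕ} (hℓ : ℓ.Prime) (hℓ5 : 5 ≤ ℓ) (h : ℓ ∣ Nat.card L - 1) :
    ¬ ℓ ∣ (chevF4.diagonalSubgroup L).relIndex (chevF4.group L) := by
  have := Fintype.ofFinite L
  have hcF := Finite.one_lt_card (α := L)
  obtain ⟨q, hq⟩ : ∃ q, Nat.card L = q + 1 := ⟨Nat.card L - 1, by omega⟩
  have hq0 : 0 < q := by omega
  rw [hq, Nat.add_sub_cancel] at h
  have h1 : Nat.card (chevF4.diagonalSubgroup L) * (chevF4.diagonalSubgroup L).relIndex (chevF4.group L) =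
      Nat.card (chevF4.group L) := by
    have h0 := ((chevF4.diagonalSubgroup L).subgroupOf (chevF4.group L)).card_mul_index
    rwa [Nat.card_congr (Subgroup.subgroupOfEquivOfLe diag_le).toEquiv] at h0
  rw [card_H, hq, Nat.add_sub_cancel, Cfsg.Agent.S1062.result (q := q + 1)
    (by rw [← Nat.card_eq_fintype_card]; exact hq)] at h1
  have hg : ∀ n, (q + 1) ^ n - 1 = (∑ i ∈ Finset.range n, (q + 1) ^ i) * q := by
    intro n
    have := geom_sum_mul_add q n
    omega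
  have hgm : ∀ n, (∑ i ∈ Finset.range n, (q + 1) ^ i) ≡ n [MOD ℓ] := by
    intro n
    induction n with
    | zero => rfl
    | succ n ih =>
      rw [Finset.sum_range_succ]
      apply Nat.ModEq.add ih
      have h2 : q + 1 ≡ 1 [MOD ℓ] := by
        have h3 : q ≡ 0 [MOD ℓ] := (Nat.modEq_zero_iff_dvd).2 h
        exact h3.add_right 1
      simpa using h2.pow n
  rw [hg, hg, hg, hg] at h1
  generalize hA : (∑ i ∈ Finset.range 2, (q + 1) ^ i) = a2 at h1
  generalize hB : (∑ i ∈ Finset.range 6, (q + 1) ^ i) = a6 at h1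
  generalize hC : (∑ i ∈ Finset.range 8, (q + 1) ^ i) = a8 at h1
  generalize hD : (∑ i ∈ Finset.range 12, (q + 1) ^ i) = a12 at h1
  have e : (chevF4.diagonalSubgroup L).relIndex (chevF4.group L) = (q + 1) ^ 24 * a2 * a6 * a8 * a12 := by
    apply Nat.eq_of_mul_eq_mul_left (pow_pos hq0 4)
    rw [h1]; ring
  rw [e]
  intro hd
  have c2 := hgm 2
  have c6 := hgm 6
  have c8 := hgm 8
  have c12 := hgm 12
  rw [hA] at c2
  rw [hB] at c6
  rw [hC] at c8
  rw [hD] at c12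
  have key : (q + 1) ^ 24 * a2 * a6 * a8 * a12 ≡ 1152 [MOD ℓ] := by
    have h2 : q + 1 ≡ 1 [MOD ℓ] := by
      have h3 : q ≡ 0 [MOD ℓ] := (Nat.modEq_zero_iff_dvd).2 h
      exact h3.add_right 1
    have := ((((h2.pow 24).mul c2).mul c6).mul c8).mul c12
    simpa using this
  have h3 : ℓ ∣ 1152 := (Nat.modEq_zero_iff_dvd).1 (key.symm.trans ((Nat.modEq_zero_iff_dvd).2 hd))
  have h4 : (1152 : ℕ) = 2 ^ 7 * 3 ^ 2 := by norm_num
  rw [h4] at h3
  rcases (Nat.Prime.dvd_mul hℓ).1 h3 with h | h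
  · have := (Nat.prime_dvd_prime_iff_eq hℓ Nat.prime_two).1 (hℓ.dvd_of_dvd_pow h)
    omega
  · have := (Nat.prime_dvd_prime_iff_eq hℓ Nat.prime_three).1 (hℓ.dvd_of_dvd_pow h)
    omega

theorem sylow_in [Finite L] {ℓ : ℕ} [hℓ : Fact ℓ.Prime] (hℓ5 : 5 ≤ ℓ) (h : ℓ ∣ Nat.card L - 1)
    {C : Subgroup (GL chevF4.Idx L)} (hTC : chevF4.diagonalSubgroup L ≤ C) (hCG : C ≤ chevF4.group L) {k : ℕ}
    (hk : (chevF4.diagonalSubgroup L).relIndex (chevF4.monomialSubgroup L ⊓ C) = k) :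
    ∃ P : Sylow ℓ ↥C, (∀ a ∈ P, (a : GL chevF4.Idx L) ∈ chevF4.diagonalSubgroup L) ∧
      (∀ a ∈ P, ∀ b ∈ P, a * b = b * a) ∧
      ∀ g ∈ Subgroup.normalizer ((P : Subgroup ↥C) : Set ↥C), ∀ a ∈ P, g ^ k * a = a * g ^ k := by
  obtain ⟨ζ, hζ⟩ : ∃ ζ : Lˣ, orderOf ζ = ℓ := by
    apply exists_prime_orderOf_dvd_card' ℓ
    rw [Nat.card_units]
    exact h
  obtain ⟨hh, hm, hp, hcen⟩ := torus_elts hℓ5 hζ
  obtain ⟨P, h1, h2, h3⟩ := mk_sylow (ℓ := ℓ) (e := k) ((chevF4.diagonalSubgroup L).subgroupOf C) (by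
      intro a ha b hb
      exact Subtype.ext (modelF4.H_comm (Subgroup.mem_subgroupOf.1 ha) (Subgroup.mem_subgroupOf.1 hb))) (by
      intro hd
      have h4 := Subgroup.relIndex_mul_relIndex _ _ _ hTC hCG
      exact H_index hℓ.out hℓ5 h (h4 ▸ (Dvd.dvd.mul_right hd _))) (by
      intro g Q hQ hQ5 hg
      have hgN : (g : GL chevF4.Idx L) ∈ chevF4.monomialSubgroup L := by
        refine SecE.norm_in_N modelF4 (Q := Q.map C.subtype) ?_ ?_ (hCG g.2) ?_ ?_
        · rintro _ ⟨y, hy, rfl⟩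
          exact Subgroup.mem_subgroupOf.1 (hQ hy)
        · intro u hu hall
          refine hcen u hu (fun j => hall _ ⟨⟨hh j, hTC (hm j)⟩, hQ5 _ (hm j) ?_, rfl⟩)
          exact Subtype.ext (hp j)
        · rintro _ ⟨y, hy, rfl⟩
          exact ⟨_, ((Subgroup.mem_normalizer_iff.1 hg) y).1 hy, rfl⟩
        · rintro _ ⟨y, hy, rfl⟩
          refine ⟨g⁻¹ * y * g, ?_, rfl⟩
          have := ((Subgroup.mem_normalizer_iff.1 (inv_mem hg)) y).1 hy
          rwa [inv_inv] at this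
      have h4 := pow_mem hTC (Subgroup.mem_inf.2 ⟨hgN, g.2⟩)
      rw [hk] at h4
      exact Subgroup.mem_subgroupOf.2 h4)
  exact ⟨P, fun a ha => Subgroup.mem_subgroupOf.1 (h1 a ha), h2, h3⟩

end Cfsg.Agent.H11.SecM
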