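import Cfsg.Agent.H11_SecM

/-!
Elements of alternating groups of degree 11 and 12.
-/

set_option autoImplicit false

namespace Cfsg.Agent.H11.SecN

def q0 : Equiv.Perm (Fin 12) := ⟨![1, 2, 3, 4, 0, 5, 6, 7, 8, 9, 10, 11], ![4, 0, 1, 2, 3, 5, 6, 7, 8, 9, 10, 11], by decide, by decide⟩
def qt : Equiv.Perm (Fin 12) := ⟨![0, 2, 4, 1, 3, 6, 5, 7, 8, 9, 10, 11], ![0, 3, 1, 4, 2, 6, 5, 7, 8, 9, 10, 11], by decide, by decide⟩
def q5 : Equiv.Perm (Fin 12) := ⟨![0, 1, 2, 3, 4, 6, 7, 8, 9, 5, 10, 11], ![0, 1, 2, 3, 4, 9, 5, 6, 7, 8, 10, 11], by decide, by decide⟩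
def q7 : Equiv.Perm (Fin 12) := ⟨![0, 1, 2, 3, 4, 6, 7, 8, 9, 10, 11, 5], ![0, 1, 2, 3, 4, 11, 5, 6, 7, 8, 9, 10], by decide, by decide⟩
def qb : Equiv.Perm (Fin 12) := ⟨![0, 1, 2, 3, 4, 11, 6, 8, 5, 7, 10, 9], ![0, 1, 2, 3, 4, 8, 6, 9, 7, 11, 10, 5], by decide, by decide⟩
def qc : Equiv.Perm (Fin 12) := ⟨![0, 1, 2, 3, 4, 6, 7, 8, 9, 11, 5, 10], ![0, 1, 2, 3, 4, 10, 5, 6, 7, 8, 11, 9], by decide, by decide⟩
def qd : Equiv.Perm (Fin 12) := ⟨![0, 1, 2, 3, 4, 10, 6, 8, 9, 5, 7, 11], ![0, 1, 2, 3, 4, 9, 6, 10, 7, 8, 5, 11], by decide, by decide⟩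

theorem q0_ne : q0 ≠ 1 := by decide +kernel
theorem q0_pow : q0 ^ 5 = 1 := by decide +kernel
theorem qt_conj : qt * q0 * qt⁻¹ = q0 ^ 2 := by decide +kernel
theorem q5_ne : q5 ≠ 1 := by decide +kernel
theorem q7_ne : q7 ≠ 1 := by decide +kernel
theorem q5_pow5 : q5 ^ 5 = 1 := by decide +kernel
theorem q7_pow7 : q7 ^ 7 = 1 := by decide +kernel
theorem qb_pow5 : (qb ^ 5) = 1 ∨ qb ^ 7 = 1 := by decide +kernel
theorem qc_pow7 : qc ^ 7 = 1 := by decide +kernel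
theorem qd_pow5 : (qd ^ 5) = 1 ∨ qd ^ 7 = 1 := by decide +kernel
theorem c5 : q5 * q0 = q0 * q5 := by decide +kernel
theorem c7 : q7 * q0 = q0 * q7 := by decide +kernel
theorem cb : qb * q0 = q0 * qb := by decide +kernel
theorem cc : qc * q0 = q0 * qc := by decide +kernel
theorem cd : qd * q0 = q0 * qd := by decide +kernel
theorem t5 : (q7 * qb) * q5 * (q7 * qb)⁻¹ = q5 ^ 2 := by decide +kernel
theorem t7 : (qc * qd) * q7 * (qc * qd)⁻¹ = q7 ^ 2 := by decide +kernel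

theorem qt_sign : Equiv.Perm.sign qt = 1 := by
  have h : qt = Equiv.swap 1 2 * Equiv.swap 2 4 * Equiv.swap 4 3 * Equiv.swap 5 6 := by decide +kernel
  rw [h, map_mul, map_mul, map_mul, Equiv.Perm.sign_swap (by decide), Equiv.Perm.sign_swap (by decide),
    Equiv.Perm.sign_swap (by decide), Equiv.Perm.sign_swap (by decide)]
  rfl

theorem sign_odd {n : ℕ} (s : Equiv.Perm (Fin n)) {k : ℕ} (hk : Odd k) (h : s ^ k = 1) : Equiv.Perm.sign s = 1 := by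
  have hsg : ∀ (u : ℤˣ) (n : ℕ), Odd n → u ^ n = 1 → u = 1 := by
    rintro u n ⟨k, rfl⟩ h
    rw [pow_add, pow_mul, Int.units_sq, one_pow, one_mul, pow_one] at h
    exact h
  apply hsg _ k hk
  rw [← map_pow, h, map_one]

theorem pow35 {n : ℕ} {s : Equiv.Perm (Fin n)} (h : s ^ 5 = 1 ∨ s ^ 7 = 1) : s ^ 35 = 1 := by
  rcases h with h | h
  · have : s ^ 35 = (s ^ 5) ^ 7 := by rw [← pow_mul]
    rw [this, h, one_pow]
  · have : s ^ 35 = (s ^ 7) ^ 5 := by rw [← pow_mul]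
    rw [this, h, one_pow]

/-- all elements in `A_r` -/
theorem exists12 {r : ℕ} (hr : 12 ≤ r) : ∃ σ τ s5 s7 b c d : alternatingGroup (Fin r),
    σ ≠ 1 ∧ σ ^ 5 = 1 ∧ τ * σ * τ⁻¹ = σ ^ 2 ∧ s5 ≠ 1 ∧ s5 ^ 5 = 1 ∧ s7 ≠ 1 ∧ s7 ^ 7 = 1 ∧
    (s7 * b) * s5 * (s7 * b)⁻¹ = s5 ^ 2 ∧ (c * d) * s7 * (c * d)⁻¹ = s7 ^ 2 ∧
    (∀ y ∈ ({s5, s7, b, c, d} : Set (alternatingGroup (Fin r))), y * σ = σ * y ∧ y ^ 35 = 1) := by
  obtain ⟨E, hE⟩ := SecB.exists_emb hr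
  have o35 : Odd 35 := by decide
  let mk : (s : Equiv.Perm (Fin 12)) → Equiv.Perm.sign s = 1 → alternatingGroup (Fin 12) :=
    fun s h => ⟨s, Equiv.Perm.mem_alternatingGroup.2 h⟩
  have hs0 := sign_odd q0 o35 (pow35 (Or.inl q0_pow))
  have hs5 := sign_odd q5 o35 (pow35 (Or.inl q5_pow5))
  have hs7 := sign_odd q7 o35 (pow35 (Or.inr q7_pow7))
  have hsb := sign_odd qb o35 (pow35 qb_pow5)
  have hsc := sign_odd qc o35 (pow35 (Or.inr qc_pow7))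
  have hsd := sign_odd qd o35 (pow35 qd_pow5)
  refine ⟨E (mk q0 hs0), E (mk qt qt_sign), E (mk q5 hs5), E (mk q7 hs7), E (mk qb hsb), E (mk qc hsc),
    E (mk qd hsd), ?_, ?_, ?_, ?_, ?_, ?_, ?_, ?_, ?_, ?_⟩
  · intro h
    rw [← map_one E] at h
    exact q0_ne (congrArg Subtype.val (hE h))
  · rw [← map_pow, ← map_one E]
    exact congrArg E (Subtype.ext q0_pow)
  · rw [← map_pow, ← map_inv, ← map_mul, ← map_mul]
    exact congrArg E (Subtype.ext qt_conj)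
  · intro h
    rw [← map_one E] at h
    exact q5_ne (congrArg Subtype.val (hE h))
  · rw [← map_pow, ← map_one E]
    exact congrArg E (Subtype.ext q5_pow5)
  · intro h
    rw [← map_one E] at h
    exact q7_ne (congrArg Subtype.val (hE h))
  · rw [← map_pow, ← map_one E]
    exact congrArg E (Subtype.ext q7_pow7)
  · rw [← map_pow, ← map_mul, ← map_inv, ← map_mul, ← map_mul]
    exact congrArg E (Subtype.ext t5)
  · rw [← map_pow, ← map_mul, ← map_inv, ← map_mul, ← map_mul]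
    exact congrArg E (Subtype.ext t7)
  · have key : ∀ (s : Equiv.Perm (Fin 12)) (hs : Equiv.Perm.sign s = 1), s * q0 = q0 * s → s ^ 35 = 1 →
        E (mk s hs) * E (mk q0 hs0) = E (mk q0 hs0) * E (mk s hs) ∧ E (mk s hs) ^ 35 = 1 := by
      intro s hs h1 h2
      refine ⟨?_, ?_⟩
      · rw [← map_mul, ← map_mul]
        exact congrArg E (Subtype.ext h1)
      · rw [← map_pow, ← map_one E]
        exact congrArg E (Subtype.ext h2)
    rintro y (rfl | rfl | rfl | rfl | rfl)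
    · exact key _ hs5 c5 (pow35 (Or.inl q5_pow5))
    · exact key _ hs7 c7 (pow35 (Or.inr q7_pow7))
    · exact key _ hsb cb (pow35 qb_pow5)
    · exact key _ hsc cc (pow35 (Or.inr qc_pow7))
    · exact key _ hsd cd (pow35 qd_pow5)

/-! ### degree 11 -/

def e1 : Equiv.Perm (Fin 11) := finRotate 11
def e3 : Equiv.Perm (Fin 11) := ⟨fun i => 3 * i, fun i => 4 * i, by decide, by decide⟩
theorem e1_ne : e1 ≠ 1 := by decide +kernel
theorem e1_pow : e1 ^ 11 = 1 := by decide +kernel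
theorem e3_pow : e3 ^ 5 = 1 := by decide +kernel
theorem e_conj : e3 * e1 * e3⁻¹ = e1 ^ 3 := by decide +kernel

theorem exists11 {r : ℕ} (hr : 11 ≤ r) : ∃ σ τ : alternatingGroup (Fin r), σ ≠ 1 ∧ σ ^ 11 = 1 ∧
    τ * σ * τ⁻¹ = σ ^ 3 :=
  SecA.exists_perm (e := 0) e1 e3 e1_ne e1_pow (by decide) (sign_odd e3 (by decide) e3_pow) e_conj hr

end Cfsg.Agent.H11.SecN
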