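import Cfsg.Agent.H11_SecN

/-!
Alternating sections of `F₄(q)`.
-/

set_option autoImplicit false
set_option linter.unusedSectionVars false
set_option maxRecDepth 100000

namespace Cfsg.Agent.H11.SecO

open Cfsg Cfsg.Lie Cfsg.Lie.ChevalleyDatum Cfsg.Agent.H6.Chev

theorem mod4 {k : ℕ} (h3 : 2 ^ k ≡ 1 [MOD 5]) : k % 4 = 0 := by
  have h1 : k = 4 * (k / 4) + k % 4 := (Nat.div_add_mod k 4).symm
  have h2 : (2 : ℕ) ^ k % 5 = 2 ^ (k % 4) % 5 := by
    conv_lhs => rw [h1, pow_add, pow_mul, Nat.mul_mod, Nat.pow_mod]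
    norm_num
  have h3 : (2 : ℕ) ^ k % 5 = 1 := h3
  rw [h2] at h3
  have h4 : k % 4 < 4 := Nat.mod_lt _ (by norm_num)
  clear h1 h2
  revert h3 h4
  generalize k % 4 = j
  intro h3 h4
  interval_cases j
  · rfl
  · exact absurd h3 (by decide)
  · exact absurd h3 (by decide)
  · exact absurd h3 (by decide)

theorem mod3 {k : ℕ} (h3 : 2 ^ k ≡ 1 [MOD 7]) : k % 3 = 0 := by
  have h1 : k = 3 * (k / 3) + k % 3 := (Nat.div_add_mod k 3).symm
  have h2 : (2 : ℕ) ^ k % 7 = 2 ^ (k % 3) % 7 := by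
    conv_lhs => rw [h1, pow_add, pow_mul, Nat.mul_mod, Nat.pow_mod]
    norm_num
  have h3 : (2 : ℕ) ^ k % 7 = 1 := h3
  rw [h2] at h3
  have h4 : k % 3 < 3 := Nat.mod_lt _ (by norm_num)
  clear h1 h2
  revert h3 h4
  generalize k % 3 = j
  intro h3 h4
  interval_cases j
  · rfl
  · exact absurd h3 (by decide)
  · exact absurd h3 (by decide)

variable {L : Type*} [Field L]

theorem relG [Finite L] : (chevF4.diagonalSubgroup L).relIndex (chevF4.monomialSubgroup L ⊓ chevF4.group L) = 1152 := by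
  rw [inf_eq_left.2 SecM.mono_le]; exact SecM.N_index

theorem no_A11 [Finite L] (h11 : 11 ∣ Nat.card L - 1) {M : Type*} [Group M] (ι : M →* ↥(chevF4.group L))
    (hι : Function.Injective ι) {r : ℕ} (hr : 11 ≤ r) (f : M →* alternatingGroup (Fin r))
    (hf : Function.Surjective f) : False := by
  have : Fact (Nat.Prime 11) := ⟨by norm_num⟩
  obtain ⟨P, -, hab, hn⟩ := SecM.sylow_in (ℓ := 11) (by norm_num) h11 (C := chevF4.group L) SecM.diag_le le_rfl relG
  obtain ⟨σ, τ, h1, h2, h3⟩ := SecN.exists11 hr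
  exact SecD.no_section' (ℓ := 11) (e := 1152) (c := 3) (by decide) P hab hn ι hι f hf h1 h2 h3

theorem no_A12 [Finite L] (h5 : 5 ∣ Nat.card L - 1) (h7 : 7 ∣ Nat.card L - 1) {M : Type*} [Group M]
    (ι : M →* ↥(chevF4.group L)) (hι : Function.Injective ι) {r : ℕ} (hr : 12 ≤ r)
    (f : M →* alternatingGroup (Fin r)) (hf : Function.Surjective f) : False := by
  have hF5 : Fact (Nat.Prime 5) := ⟨by norm_num⟩
  have hF7 : Fact (Nat.Prime 7) := ⟨by norm_num⟩
  obtain ⟨P, hPT, hab, hn⟩ := SecM.sylow_in (ℓ := 5) (by norm_num) h5 (C := chevF4.group L) SecM.diag_le le_rfl relG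
  obtain ⟨σ, τ, s5, s7, b, c, d, a1, a2, a3, a4, a5, a6, a7, a8, a9, hY⟩ := SecN.exists12 hr
  obtain ⟨x, R, ι', hι', hxP, hx1, hx5, ⟨g, hgx⟩, hRx, hR⟩ := SecJ.main P hab hn ι hι f hf a1 a2 a3
  set X : GL chevF4.Idx L := (x : GL chevF4.Idx L) with hX
  have hXT : X ∈ chevF4.diagonalSubgroup L := hPT x hxP
  have hX5 : X ^ 5 = 1 := congrArg Subtype.val hx5
  have hX1 : X ≠ 1 := fun h => hx1 (Subtype.ext h)
  have hgX : (g : GL chevF4.Idx L) * X * (g : GL chevF4.Idx L)⁻¹ = X ^ 2 := congrArg Subtype.val hgx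
  obtain ⟨n, hnN, hnX⟩ := modelF4.conj_in_N hXT (pow_mem hXT 2) g.2 hgX
  obtain ⟨ζ, hζ⟩ : ∃ ζ : Lˣ, orderOf ζ = 5 := by
    apply exists_prime_orderOf_dvd_card' 5
    rw [Nat.card_units]
    exact h5
  have hbig := SecL.index_big hζ hXT hX5 hX1 hnN hnX
  -- the centralizer
  set Z : Subgroup (GL chevF4.Idx L) := Subgroup.centralizer {X} with hZ
  have hTZ : chevF4.diagonalSubgroup L ≤ Z := by
    intro t ht
    rw [hZ, Subgroup.mem_centralizer_singleton_iff]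
    exact modelF4.H_comm ht hXT
  set C : Subgroup (GL chevF4.Idx L) := chevF4.group L ⊓ Z with hC
  have hTC : chevF4.diagonalSubgroup L ≤ C := le_inf SecM.diag_le hTZ
  have hCG : C ≤ chevF4.group L := inf_le_left
  have hNC : chevF4.monomialSubgroup L ⊓ C = chevF4.monomialSubgroup L ⊓ Z := by
    rw [hC, ← inf_assoc, inf_eq_left.2 SecM.mono_le]
  set k := (chevF4.diagonalSubgroup L).relIndex (chevF4.monomialSubgroup L ⊓ C) with hk
  have hmul : k * (chevF4.monomialSubgroup L ⊓ Z).relIndex (chevF4.monomialSubgroup L) = 1152 := by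
    rw [hk, hNC, ← SecM.N_index (L := L)]
    exact Subgroup.relIndex_mul_relIndex _ _ _ (le_inf SecM.diag_le_mono hTZ) inf_le_left
  have hk0 : 0 < k := Nat.pos_of_ne_zero (by rintro h; rw [h, zero_mul] at hmul; omega)
  -- the section
  let ι'' : R →* C :=
    { toFun := fun r => ⟨((ι' r : ↥(chevF4.group L)) : GL chevF4.Idx L), Subgroup.mem_inf.2 ⟨(ι' r).2, by
        rw [hZ, Subgroup.mem_centralizer_singleton_iff]
        exact congrArg Subtype.val (hRx r r.2)⟩⟩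
      map_one' := Subtype.ext (by
        change ((ι' (1 : M) : ↥(chevF4.group L)) : GL chevF4.Idx L) = 1
        rw [map_one]; rfl)
      map_mul' := fun u v => Subtype.ext (by
        change ((ι' ((u : M) * v) : ↥(chevF4.group L)) : GL chevF4.Idx L) = ι' u * ι' v
        rw [map_mul]; rfl) }
  have hι'' : Function.Injective ι'' := by
    intro u v huv
    have h1 : ((ι' u : ↥(chevF4.group L)) : GL chevF4.Idx L) = ι' v :=
      congrArg (fun z : C => (z : GL chevF4.Idx L)) huv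
    exact Subtype.ext (hι' (Subtype.ext h1))
  let f'' : R →* R.map f := f.subgroupMap R
  have hf'' : Function.Surjective f'' := f.subgroupMap_surjective R
  have m5 : s5 ∈ R.map f := hR s5 (hY s5 (by simp)).1 (hY s5 (by simp)).2
  have m7 : s7 ∈ R.map f := hR s7 (hY s7 (by simp)).1 (hY s7 (by simp)).2
  have mb : b ∈ R.map f := hR b (hY b (by simp)).1 (hY b (by simp)).2
  have mc : c ∈ R.map f := hR c (hY c (by simp)).1 (hY c (by simp)).2
  have md : d ∈ R.map f := hR d (hY d (by simp)).1 (hY d (by simp)).2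
  have d4 : 2 ^ k ≡ 1 [MOD 5] := by
    by_contra hcon
    obtain ⟨P', -, hab', hn'⟩ := SecM.sylow_in (ℓ := 5) (by norm_num) h5 hTC hCG hk.symm
    exact SecD.no_section' (ℓ := 5) (e := k) (c := 2) hcon P' hab' hn' ι'' hι'' f'' hf''
      (σ := ⟨s5, m5⟩) (τ := ⟨s7 * b, mul_mem m7 mb⟩) (fun h => a4 (congrArg Subtype.val h)) (Subtype.ext a5)
      (Subtype.ext a8)
  have d3 : 2 ^ k ≡ 1 [MOD 7] := by
    by_contra hcon
    obtain ⟨P', -, hab', hn'⟩ := SecM.sylow_in (ℓ := 7) (by norm_num) h7 hTC hCG hk.symm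
    exact SecD.no_section' (ℓ := 7) (e := k) (c := 2) hcon P' hab' hn' ι'' hι'' f'' hf''
      (σ := ⟨s7, m7⟩) (τ := ⟨c * d, mul_mem mc md⟩) (fun h => a6 (congrArg Subtype.val h)) (Subtype.ext a7)
      (Subtype.ext a9)
  have e4 : k % 4 = 0 := mod4 d4
  have e3 : k % 3 = 0 := mod3 d3
  have e12 : 12 ≤ k := by omega
  have : 12 * 144 ≤ k * (chevF4.monomialSubgroup L ⊓ Z).relIndex (chevF4.monomialSubgroup L) :=
    Nat.mul_le_mul e12 hbig
  omega

theorem dvd_pow_sub {ℓ p : ℕ} (hℓ : ℓ.Prime) (hp : p.Prime) (h : p ≠ ℓ) {n e : ℕ} (he : (ℓ - 1) ∣ e) :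
    ℓ ∣ (p ^ n) ^ e - 1 := by
  have : Fact ℓ.Prime := ⟨hℓ⟩
  have h1 : ¬ ℓ ∣ p ^ n := by
    intro h1
    have h2 := hℓ.dvd_of_dvd_pow h1
    exact h ((Nat.prime_dvd_prime_iff_eq hℓ hp).1 h2).symm
  have h2 : (p ^ n) ^ e ≡ 1 [MOD ℓ] := by
    obtain ⟨j, rfl⟩ := he
    have h3 : Nat.Coprime (p ^ n) ℓ := ((Nat.Prime.coprime_iff_not_dvd hℓ).2 h1).symm
    have h4 := Nat.ModEq.pow_totient h3
    rw [Nat.totient_prime hℓ] at h4
    rw [pow_mul]
    simpa using h4.pow j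
  exact (Nat.modEq_iff_dvd' (Nat.one_le_pow _ _ (pow_pos hp.pos n))).1 h2.symm

end Cfsg.Agent.H11.SecO
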