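import Mathlib
import Cfsg.Prelude.Def_ClassificationK
import Cfsg.Agent.H11_Local
import Cfsg.Agent.H11_TI
import Cfsg.Agent.H28_Xsp

/-!
# 2-groups of symplectic type, extraspecial 2-groups acted on by involutions
-/

set_option autoImplicit false
set_option linter.all false

namespace Cfsg.Agent.H11.Symp

universe u v

open Subgroup Cfsg Cfsg.Agent.H11.Cores Cfsg.Agent.H11.FStar Cfsg.Agent.H11.TI
open scoped commutatorElement

/-- unique involution in a cyclic group -/
theorem eq_of_orderOf_two {H : Type u} [Group H] [Finite H] (hH : IsCyclic H) {a b : H}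
    (ha : orderOf a = 2) (hb : orderOf b = 2) : a = b := by
  classical
  haveI := Fintype.ofFinite H
  by_contra hne
  have h1 := IsCyclic.card_pow_eq_one_le (α := H) (n := 2) (by norm_num)
  have h2 : ({1, a, b} : Finset H) ⊆ Finset.univ.filter (fun x : H => x ^ 2 = 1) := by
    intro x hx
    simp only [Finset.mem_insert, Finset.mem_singleton] at hx
    simp only [Finset.mem_filter, Finset.mem_univ, true_and]
    rcases hx with rfl | rfl | rfl
    · simp
    · rw [← ha]; exact pow_orderOf_eq_one _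
    · rw [← hb]; exact pow_orderOf_eq_one _
  have h3 : ({1, a, b} : Finset H).card = 3 := by
    rw [Finset.card_insert_of_notMem, Finset.card_insert_of_notMem, Finset.card_singleton]
    · simpa using hne
    · simp only [Finset.mem_insert, Finset.mem_singleton, not_or]
      constructor
      · rintro rfl; simp at ha
      · rintro rfl; simp at hb
  have := Finset.card_le_card h2
  omega

/-- a nontrivial element of a `p`-group has a power of order `p` -/
theorem exists_pow_orderOf_eq {H : Type u} [Group H] (p : ℕ) [hp : Fact p.Prime] {x : H} {k : ℕ}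
    (hx : x ^ p ^ k = 1) (hx1 : x ≠ 1) : ∃ n : ℕ, orderOf (x ^ n) = p := by
  obtain ⟨m, _, hm⟩ := (Nat.dvd_prime_pow hp.out).mp (orderOf_dvd_of_pow_eq_one hx)
  have hm0 : m ≠ 0 := by
    rintro rfl
    rw [pow_zero, orderOf_eq_one_iff] at hm
    exact hx1 hm
  obtain ⟨j, rfl⟩ := Nat.exists_eq_succ_of_ne_zero hm0
  refine ⟨p ^ j, ?_⟩
  have hdvd : p ^ j ∣ orderOf x := by rw [hm]; exact pow_dvd_pow p (Nat.le_succ j)
  rw [orderOf_pow_of_dvd (pow_ne_zero _ hp.out.ne_zero) hdvd, hm, pow_succ]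
  exact Nat.mul_div_cancel_left p (pow_pos hp.out.pos j)

section SympCentral

variable {G : Type u} [Group G] [Finite G]

/-- In the symplectic type setting, the involutions of a characteristic abelian subgroup. -/
theorem char_abelian_involution {Q : Type u} [Group Q] [Finite Q] (hQ : IsOfSymplecticType Q)
    (z : Q) (hz : orderOf z = 2) (hzc : z ∈ center Q) (B : Subgroup Q) (hBc : B.Characteristic)
    (hBa : IsMulCommutative B) (b : Q) (hb : b ∈ B) (hb2 : orderOf b = 2) : b = z := by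
  have hBcyc : IsCyclic B := hQ.2 B hBc hBa
  have hZcyc : IsCyclic (center Q) := hQ.2 (center Q) inferInstance inferInstance
  have hbz : b ∈ center Q := by
    rw [Subgroup.mem_center_iff]
    intro q
    have h1 : q * b * q⁻¹ ∈ B := (inferInstance : B.Normal).conj_mem b hb q
    have h2 : orderOf (q * b * q⁻¹) = 2 := by
      rw [← hb2]
      exact orderOf_injective (MulAut.conj q).toMonoidHom (MulAut.conj q).injective b
    have h3 : (⟨q * b * q⁻¹, h1⟩ : B) = ⟨b, hb⟩ := by
      apply eq_of_orderOf_two hBcyc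
      · rw [← Subgroup.orderOf_coe]; exact h2
      · rw [← Subgroup.orderOf_coe]; exact hb2
    have h4 : q * b * q⁻¹ = b := congrArg Subtype.val h3
    calc q * b = (q * b * q⁻¹) * q := by group
      _ = b * q := by rw [h4]
  have h5 : (⟨b, hbz⟩ : center Q) = ⟨z, hzc⟩ := by
    apply eq_of_orderOf_two hZcyc
    · rw [← Subgroup.orderOf_coe]; exact hb2
    · rw [← Subgroup.orderOf_coe]; exact hz
  exact congrArg Subtype.val h5

/-- `z ∈ F*(C_G(z))` and it is central there. -/
theorem mem_fstar (z : G) :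
    (⟨z, Subgroup.mem_centralizer_singleton_iff.mpr rfl⟩ : centralizer ({z} : Set G)) ∈
      generalizedFittingSubgroup ↥(centralizer ({z} : Set G)) := by
  apply centralizer_generalizedFitting_le
  rw [Subgroup.mem_centralizer_iff]
  intro x _
  apply Subtype.ext
  have := Subgroup.mem_centralizer_singleton_iff.mp x.2
  exact this

theorem ti_of_symplectic (z : G) (hz : orderOf z = 2) (C : Subgroup G)
    (hC : ∀ x : G, x ∈ C ↔ x * z = z * x) (Q : Subgroup C) [hQn : Q.Normal]
    (hzQ : ∃ h : z ∈ C, (⟨z, h⟩ : C) ∈ Q)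
    (hQ : IsOfSymplecticType ↥Q) (B : Subgroup Q)
    (hBc : B.Characteristic) (hBa : IsMulCommutative ↥B) (g : G) :
    ((B.map Q.subtype).map C.subtype).map (MulAut.conj g).toMonoidHom =
      (B.map Q.subtype).map C.subtype ∨
    ((B.map Q.subtype).map C.subtype).map (MulAut.conj g).toMonoidHom ⊓
      (B.map Q.subtype).map C.subtype = ⊥ := by
  haveI : Fact (Nat.Prime 2) := ⟨Nat.prime_two⟩
  set BG := (B.map Q.subtype).map C.subtype with hBG
  obtain ⟨hzC, hzQ⟩ := hzQ
  -- involutions of `BG`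
  have hinv : ∀ b ∈ BG, orderOf b = 2 → b = z := by
    rintro _ ⟨_, ⟨b, hb, rfl⟩, rfl⟩ hb2
    have h1 : b = ⟨⟨z, hzC⟩, hzQ⟩ := by
      apply char_abelian_involution hQ _ _ _ B hBc hBa b hb
      · rw [← Subgroup.orderOf_coe, ← Subgroup.orderOf_coe]; exact hb2
      · rw [← Subgroup.orderOf_coe, ← Subgroup.orderOf_coe]; exact hz
      · rw [Subgroup.mem_center_iff]
        intro q
        apply Subtype.ext
        apply Subtype.ext
        exact (hC _).mp q.1.2
    rw [h1]; rfl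
  by_cases hbot : BG.map (MulAut.conj g).toMonoidHom ⊓ BG = ⊥
  · exact Or.inr hbot
  · left
    obtain ⟨⟨x, hx⟩, hx1⟩ := Subgroup.ne_bot_iff_exists_ne_one.mp hbot
    have hx1' : x ≠ 1 := fun h => hx1 (Subtype.ext h)
    have hBGp : IsPGroup 2 BG := ((hQ.1.to_subgroup B).map _).map _
    obtain ⟨k, hk⟩ := hBGp ⟨x, hx.2⟩
    have hk' : x ^ 2 ^ k = 1 := congrArg Subtype.val hk
    obtain ⟨n, hn⟩ := exists_pow_orderOf_eq 2 hk' hx1'
    have h1 : x ^ n = z := hinv _ (Subgroup.pow_mem _ hx.2 n) hn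
    have h2 : x ^ n ∈ BG.map (MulAut.conj g).toMonoidHom := Subgroup.pow_mem _ hx.1 n
    rw [mem_map_conj, h1] at h2
    have h3 : orderOf (g⁻¹ * z * g) = 2 := by
      have := orderOf_injective (MulAut.conj g⁻¹).toMonoidHom (MulAut.conj g⁻¹).injective z
      rw [← hz, ← this]
      simp
    have h4 : g⁻¹ * z * g = z := hinv _ h2 h3
    have hgC : g ∈ C := by
      rw [hC]
      calc g * z = g * (g⁻¹ * z * g) := by rw [h4]
        _ = z * g := by group
    -- `B` is normal in `C`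
    rw [map_conj_eq_iff]
    have h5 : (B.map Q.subtype).Normal := inferInstance
    have h6 := Subgroup.le_normalizer_map (H := B.map Q.subtype) C.subtype
    rw [Subgroup.normalizer_eq_top] at h6
    apply h6
    exact ⟨⟨g, hgC⟩, trivial, rfl⟩

end SympCentral

/-! ### Extraspecial groups acted on by involutions -/

section Extraspecial

open Cfsg.Agent.H28.Xsp

variable {G : Type u} [Group G] {Q : Subgroup G} {z : G}

/-- bilinearity of the commutator form: `x` commutes with `y y'` iff it commutes with both or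
neither of `y, y'`. -/
theorem comm_mul_iff (h : Xsp Q z) {x y y' : G} (hx : x ∈ Q) (hy : y ∈ Q) (hy' : y' ∈ Q) :
    x * (y * y') = (y * y') * x ↔ (x * y = y * x ↔ x * y' = y' * x) := by
  constructor
  · intro h1
    constructor
    · intro h2
      have h3 : y * (x * y') = y * (y' * x) := by
        calc y * (x * y') = (y * x) * y' := by group
          _ = (x * y) * y' := by rw [h2]
          _ = (y * y') * x := by rw [mul_assoc, h1]
          _ = y * (y' * x) := by group
      exact mul_left_cancel h3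
    · intro h2
      have h3 : (x * y) * y' = (y * x) * y' := by
        calc (x * y) * y' = x * (y * y') := by group
          _ = (y * y') * x := h1
          _ = y * (y' * x) := by group
          _ = y * (x * y') := by rw [h2]
          _ = (y * x) * y' := by group
      exact mul_right_cancel h3
  · intro h1
    by_cases h2 : x * y = y * x
    · have h3 := h1.mp h2
      calc x * (y * y') = (x * y) * y' := by group
        _ = y * (x * y') := by rw [h2]; group
        _ = (y * y') * x := by rw [h3]; group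
    · exact h.not_comm_mul hx hy hy' h2 (fun h3 => h2 (h1.mpr h3))

theorem conj_comm_iff {t x y : G} : (t * x * t⁻¹) * (t * y * t⁻¹) = (t * y * t⁻¹) * (t * x * t⁻¹) ↔
    x * y = y * x := by
  constructor
  · intro h
    have h1 : t * (x * y) * t⁻¹ = t * (y * x) * t⁻¹ := by
      calc t * (x * y) * t⁻¹ = (t * x * t⁻¹) * (t * y * t⁻¹) := by group
        _ = (t * y * t⁻¹) * (t * x * t⁻¹) := h
        _ = _ := by group
    exact mul_left_cancel (mul_right_cancel h1)
  · intro h
    calc (t * x * t⁻¹) * (t * y * t⁻¹) = t * (x * y) * t⁻¹ := by group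
      _ = t * (y * x) * t⁻¹ := by rw [h]
      _ = _ := by group

theorem inv_comm_iff {x y : G} : x * y⁻¹ = y⁻¹ * x ↔ x * y = y * x := by
  constructor
  · intro h
    calc x * y = y * (y⁻¹ * x) * y := by group
      _ = y * (x * y⁻¹) * y := by rw [h]
      _ = y * x := by group
  · intro h
    calc x * y⁻¹ = y⁻¹ * (y * x) * y⁻¹ := by group
      _ = y⁻¹ * (x * y) * y⁻¹ := by rw [h]
      _ = y⁻¹ * x := by group

theorem normalizer_fix_z (h : Xsp Q z) {t : G} (ht : t ∈ normalizer (Q : Set G)) :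
    t * z * t⁻¹ = z := by
  have h1 : t * z * t⁻¹ ∈ Q := (Subgroup.mem_normalizer_iff.mp ht z).mp h.mem
  rcases h.cen _ h1 (fun y hy => by
    have h2 : t⁻¹ * y * t ∈ Q := by
      have := (Subgroup.mem_normalizer_iff.mp (Subgroup.inv_mem _ ht) y).mp hy
      simpa using this
    have h3 := h.zc _ h2
    calc t * z * t⁻¹ * y = t * (z * (t⁻¹ * y * t)) * t⁻¹ := by group
      _ = t * ((t⁻¹ * y * t) * z) * t⁻¹ := by rw [h3]
      _ = y * (t * z * t⁻¹) := by group) with h2 | h2
  · exfalso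
    apply h.ne
    calc z = t⁻¹ * (t * z * t⁻¹) * t := by group
      _ = 1 := by rw [h2]; group
  · exact h2

/-- S1756 -/
theorem mem_sup_centralizer_of_index_two [Finite G] (h : Xsp Q z) (t : G) (ht : t * t = 1)
    (htN : t ∈ normalizer (Q : Set G))
    (hi : (centralizer ({t} : Set G) ⊓ Q).relIndex Q ≤ 2) : t ∈ Q ⊔ centralizer (Q : Set G) := by
  set H := centralizer ({t} : Set G) ⊓ Q with hH
  have hHQ : H ≤ Q := inf_le_right
  have htz := normalizer_fix_z h htN
  have hHmem : ∀ x, x ∈ H ↔ x ∈ Q ∧ t * x * t⁻¹ = x := by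
    intro x
    rw [hH, Subgroup.mem_inf, Subgroup.mem_centralizer_singleton_iff]
    constructor
    · rintro ⟨h1, h2⟩; exact ⟨h2, by rw [← h1]; group⟩
    · rintro ⟨h1, h2⟩; exact ⟨by
        calc x * t = (t * x * t⁻¹) * t := by rw [h2]
          _ = t * x := by group, h1⟩
  have hzH : z ∈ H := (hHmem z).mpr ⟨h.mem, htz⟩
  by_cases hQH : Q ≤ H
  · apply (le_sup_right : centralizer (Q : Set G) ≤ _)
    rw [Subgroup.mem_centralizer_iff]
    intro x hx
    have := ((hHmem x).mp (hQH hx)).2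
    calc x * t = (t * x * t⁻¹) * t := by rw [this]
      _ = t * x := by group
  have hidx : H.relIndex Q = 2 := by
    have h1 : H.relIndex Q ≠ 0 := Subgroup.index_ne_zero_of_finite (H := H.subgroupOf Q)
    have h2 : H.relIndex Q ≠ 1 := by
      rw [Ne, Subgroup.relIndex_eq_one]; exact hQH
    omega
  obtain ⟨x, hxQ, hxH⟩ := Set.not_subset.mp hQH
  have hmulH : ∀ a ∈ Q, ∀ b ∈ Q, (a * b ∈ H ↔ (a ∈ H ↔ b ∈ H)) := by
    intro a ha b hb
    have := Subgroup.mul_mem_iff_of_index_two (G := Q) (H := H.subgroupOf Q) hidx (a := ⟨a, ha⟩) (b := ⟨b, hb⟩)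
    simpa [Subgroup.mem_subgroupOf] using this
  have hcentral : ∀ u ∈ Q, (∀ y ∈ H, u * y = y * u) → u * x = x * u → u = 1 ∨ u = z := by
    intro u hu huH hux
    apply h.cen u hu
    intro y hy
    by_cases hyH : y ∈ H
    · exact huH y hyH
    · have h1 : y * x⁻¹ ∈ H := by
        rw [hmulH y hy x⁻¹ (Q.inv_mem hxQ), Subgroup.inv_mem_iff]
        exact ⟨fun h => absurd h hyH, fun h => absurd h hxH⟩
      have h2 : y = (y * x⁻¹) * x := by group
      rw [h2, ← mul_assoc, huH _ h1, mul_assoc, hux, ← mul_assoc]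
  set c := t * x * t⁻¹ * x⁻¹ with hc
  have hcx : t * x * t⁻¹ = c * x := by rw [hc]; group
  have hcQ : c ∈ Q := Q.mul_mem ((Subgroup.mem_normalizer_iff.mp htN x).mp hxQ) (Q.inv_mem hxQ)
  have hHn : ∀ y ∈ H, x⁻¹ * y * x ∈ H := by
    intro y hy
    rcases h.conj_eq (Q.inv_mem hxQ) (hHQ hy) with h1 | h1
    · rw [inv_inv] at h1; rw [h1]; exact hy
    · rw [inv_inv] at h1; rw [h1]; exact H.mul_mem hzH hy
  have hcH : ∀ y ∈ H, c * y = y * c := by
    intro y hy
    have h1 := ((hHmem _).mp (hHn y hy)).2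
    have h2 := ((hHmem _).mp hy).2
    -- `t (x⁻¹ y x) t⁻¹ = (c x)⁻¹ y (c x)`
    have h3 : (c * x)⁻¹ * y * (c * x) = x⁻¹ * y * x := by
      calc (c * x)⁻¹ * y * (c * x) = (t * x * t⁻¹)⁻¹ * (t * y * t⁻¹) * (t * x * t⁻¹) := by
            rw [hcx, h2]
        _ = t * (x⁻¹ * y * x) * t⁻¹ := by group
        _ = x⁻¹ * y * x := h1
    have h4 : c⁻¹ * y * c = y := by
      calc c⁻¹ * y * c = x * ((c * x)⁻¹ * y * (c * x)) * x⁻¹ := by group
        _ = x * (x⁻¹ * y * x) * x⁻¹ := by rw [h3]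
        _ = y := by group
    calc c * y = c * (c⁻¹ * y * c) := by rw [h4]
      _ = y * c := by group
  have hczz : c = 1 ∨ c = z := by
    by_contra hcc
    have hcH' : c ∈ H := by
      by_contra hcn
      apply hcc
      apply hcentral c hcQ hcH
      have h1 : x * c ∈ H := by
        rw [hmulH x hxQ c hcQ]
        exact ⟨fun h => absurd h hxH, fun h => absurd h hcn⟩
      have h2 := hcH _ h1
      -- `c (x c) = (x c) c`
      have h3 : (c * x) * c = (x * c) * c := by rw [← h2]; group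
      exact mul_right_cancel h3
    have h1 : c * x ≠ x * c := fun h1 => hcc (hcentral c hcQ hcH h1)
    have h2 := (h.comm c hcQ x hxQ).resolve_left h1
    have h3 := ((hHmem c).mp hcH').2
    have h4 : c * c = 1 := by
      have h5 : t * (c * x) * t⁻¹ = x := by
        rw [← hcx]
        calc t * (t * x * t⁻¹) * t⁻¹ = (t * t) * x * (t * t)⁻¹ := by group
          _ = x := by rw [ht]; group
      have h6 : t * (c * x) * t⁻¹ = c * (c * x) := by
        calc t * (c * x) * t⁻¹ = (t * c * t⁻¹) * (t * x * t⁻¹) := by group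
          _ = c * (c * x) := by rw [h3, hcx]
      rw [h6] at h5
      calc c * c = (c * (c * x)) * x⁻¹ := by group
        _ = 1 := by rw [h5]; group
    have h5 : (c * x) * (c * x) = x * x := by
      calc (c * x) * (c * x) = t * (x * x) * t⁻¹ := by rw [← hcx]; group
        _ = x * x := by
          rcases h.sqr x hxQ with h6 | h6
          · rw [h6]; group
          · rw [h6, htz]
    have h6 : (c * x) * (c * x) = z * (x * x) := by
      calc (c * x) * (c * x) = z * (x * c) * (c * x) := by rw [h2]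
        _ = z * x * (c * c) * x := by group
        _ = z * (x * x) := by rw [h4]; group
    rw [h5] at h6
    exact h.ne (mul_eq_right.mp h6.symm)
  -- it suffices to find `u ∈ Q` with the same action on `H` and `x`
  have hfin : ∀ u ∈ Q, (∀ y ∈ H, u * y = y * u) → u⁻¹ * t * x * (u⁻¹ * t)⁻¹ = x →
      t ∈ Q ⊔ centralizer (Q : Set G) := by
    intro u hu huH hux
    have h1 : u⁻¹ * t ∈ centralizer (Q : Set G) := by
      rw [Subgroup.mem_centralizer_iff]
      have hyH : ∀ y ∈ H, (u⁻¹ * t) * y = y * (u⁻¹ * t) := by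
        intro y hy
        have h2 := ((hHmem y).mp hy).2
        have h3 := huH y hy
        calc (u⁻¹ * t) * y = u⁻¹ * (t * y * t⁻¹) * t := by group
          _ = u⁻¹ * (y * u) * u⁻¹ * t := by rw [h2]; group
          _ = u⁻¹ * (u * y) * u⁻¹ * t := by rw [h3]
          _ = y * (u⁻¹ * t) := by group
      have hx' : (u⁻¹ * t) * x = x * (u⁻¹ * t) := by
        calc (u⁻¹ * t) * x = (u⁻¹ * t * x * (u⁻¹ * t)⁻¹) * (u⁻¹ * t) := by group
          _ = x * (u⁻¹ * t) := by rw [hux]
      intro y hy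
      by_cases hyH' : y ∈ H
      · exact (hyH y hyH').symm
      · have h4 : y * x⁻¹ ∈ H := by
          rw [hmulH y hy x⁻¹ (Q.inv_mem hxQ), Subgroup.inv_mem_iff]
          exact ⟨fun h => absurd h hyH', fun h => absurd h hxH⟩
        have h5 := hyH _ h4
        calc y * (u⁻¹ * t) = (y * x⁻¹) * (x * (u⁻¹ * t)) := by group
          _ = (y * x⁻¹) * ((u⁻¹ * t) * x) := by rw [hx']
          _ = ((y * x⁻¹) * (u⁻¹ * t)) * x := by group
          _ = ((u⁻¹ * t) * (y * x⁻¹)) * x := by rw [h5]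
          _ = (u⁻¹ * t) * y := by group
    have h2 : t = u * (u⁻¹ * t) := by group
    rw [h2]
    exact Subgroup.mul_mem _ ((le_sup_left : Q ≤ _) hu) ((le_sup_right : centralizer (Q : Set G) ≤ _) h1)
  rcases hczz with hc1 | hc1
  · apply hfin 1 Q.one_mem (fun y _ => by simp)
    calc (1 : G)⁻¹ * t * x * ((1 : G)⁻¹ * t)⁻¹ = t * x * t⁻¹ := by group
      _ = x := by rw [hcx, hc1, one_mul]
  · -- find `u ∈ C_Q(H)` outside `⟨z⟩`
    have hdual := h.duality hzH hHQ
    have hcard : Nat.card Q = 2 * Nat.card H := by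
      have := Subgroup.card_mul_index (H.subgroupOf Q)
      rw [← this, Nat.card_congr (Subgroup.subgroupOfEquivOfLe hHQ).toEquiv]
      show Nat.card H * H.relIndex Q = _
      rw [hidx, mul_comm]
    have hC4 : Nat.card (Q ⊓ centralizer (H : Set G) : Subgroup G) = 4 := by
      have hpos : 0 < Nat.card H := Nat.card_pos
      rw [hcard] at hdual
      have : Nat.card H * Nat.card (Q ⊓ centralizer (H : Set G) : Subgroup G) = Nat.card H * 4 := by
        rw [hdual]; ring
      exact Nat.eq_of_mul_eq_mul_left hpos this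
    obtain ⟨u, huC, huz⟩ : ∃ u ∈ (Q ⊓ centralizer (H : Set G) : Subgroup G), u ∉ Subgroup.zpowers z := by
      by_contra hcon
      push Not at hcon
      have h1 : Nat.card (Q ⊓ centralizer (H : Set G) : Subgroup G) ≤ Nat.card (Subgroup.zpowers z) :=
        card_le_card hcon
      rw [hC4, h.card_zpowers] at h1
      omega
    have huQ : u ∈ Q := huC.1
    have huH : ∀ y ∈ H, u * y = y * u := fun y hy =>
      ((Subgroup.mem_centralizer_iff.mp huC.2) y hy).symm
    have hux : u * x ≠ x * u := by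
      intro h1
      apply huz
      rw [mem_zpowers_of_sq h.sq]
      exact hcentral u huQ huH h1
    apply hfin u huQ huH
    have h1 : u * x * u⁻¹ = z * x := h.conj_eq_of_not_comm huQ hxQ hux
    have h2 : t * x * t⁻¹ = z * x := by rw [hcx, hc1]
    calc u⁻¹ * t * x * (u⁻¹ * t)⁻¹ = u⁻¹ * (t * x * t⁻¹) * u := by group
      _ = u⁻¹ * (u * x * u⁻¹) * u := by rw [h2, ← h1]
      _ = x := by group

theorem S1784_a [Finite G] (h : Xsp Q z) (α : G) (hα2 : α * α = 1)
    (hαN : α ∈ normalizer (Q : Set G)) (hnon : ∃ q ∈ Q, α * q * α⁻¹ * q⁻¹ ∉ Subgroup.zpowers z)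
    (Q₀ : Subgroup G)
    (hQ₀ : ∀ q : G, q ∈ Q₀ ↔ (q ∈ Q ∧ α * q * α⁻¹ * q⁻¹ ∈ Subgroup.zpowers z)) :
    Subgroup.closure ((fun q : G => α * q * α⁻¹ * q⁻¹) '' (Q : Set G)) =
      (Subgroup.center ↥Q₀).map Q₀.subtype := by
  set D := Subgroup.closure ((fun q : G => α * q * α⁻¹ * q⁻¹) '' (Q : Set G)) with hD
  have hconjQ : ∀ q ∈ Q, α * q * α⁻¹ ∈ Q := fun q hq => (Subgroup.mem_normalizer_iff.mp hαN q).mp hq
  have hgen : ∀ q ∈ Q, α * q * α⁻¹ * q⁻¹ ∈ D := fun q hq => Subgroup.subset_closure ⟨q, hq, rfl⟩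
  have hgenQ : ∀ q ∈ Q, α * q * α⁻¹ * q⁻¹ ∈ Q := fun q hq => Q.mul_mem (hconjQ q hq) (Q.inv_mem hq)
  have hDQ : D ≤ Q := by
    rw [hD, Subgroup.closure_le]
    rintro _ ⟨q, hq, rfl⟩
    exact hgenQ q hq
  have hαα : ∀ x : G, α * (α * x * α⁻¹) * α⁻¹ = x := by
    intro x
    calc α * (α * x * α⁻¹) * α⁻¹ = (α * α) * x * (α * α)⁻¹ := by group
      _ = x := by rw [hα2]; group
  have hzD : z ∈ D := by
    obtain ⟨q, hq, hqz⟩ := hnon
    have h1 : ∃ x ∈ Q, (α * q * α⁻¹ * q⁻¹) * x ≠ x * (α * q * α⁻¹ * q⁻¹) := by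
      by_contra hcon
      push Not at hcon
      apply hqz
      rw [mem_zpowers_of_sq h.sq]
      exact h.cen _ (hgenQ q hq) hcon
    obtain ⟨x, hx, hxne⟩ := h1
    have h2 : x * (α * q * α⁻¹ * q⁻¹) * x⁻¹ = z * (α * q * α⁻¹ * q⁻¹) :=
      h.conj_eq_of_not_comm hx (hgenQ q hq) (fun h => hxne h.symm)
    have h3 : x * (α * q * α⁻¹ * q⁻¹) * x⁻¹ ∈ D := by
      have h4 : x * (α * q * α⁻¹ * q⁻¹) * x⁻¹ =
          (α * x * α⁻¹ * x⁻¹)⁻¹ * (α * (x * q) * α⁻¹ * (x * q)⁻¹) := by group
      rw [h4]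
      exact D.mul_mem (D.inv_mem (hgen x hx)) (hgen _ (Q.mul_mem hx hq))
    have h5 : z = (x * (α * q * α⁻¹ * q⁻¹) * x⁻¹) * (α * q * α⁻¹ * q⁻¹)⁻¹ := by rw [h2]; group
    rw [h5]
    exact D.mul_mem h3 (D.inv_mem (hgen q hq))
  -- the commutation identity
  have hid : ∀ x ∈ Q, ∀ q ∈ Q, (x * (α * q * α⁻¹ * q⁻¹) = (α * q * α⁻¹ * q⁻¹) * x ↔
      q * (α * x * α⁻¹ * x⁻¹) = (α * x * α⁻¹ * x⁻¹) * q) := by
    intro x hx q hq
    rw [comm_mul_iff h hx (hconjQ q hq) (Q.inv_mem hq), comm_mul_iff h hq (hconjQ x hx) (Q.inv_mem hx),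
      inv_comm_iff, inv_comm_iff]
    have h1 : x * (α * q * α⁻¹) = (α * q * α⁻¹) * x ↔ q * (α * x * α⁻¹) = (α * x * α⁻¹) * q := by
      rw [← conj_comm_iff (t := α), hαα]
      exact eq_comm
    rw [h1]
    have h2 : (x * q = q * x) ↔ (q * x = x * q) := eq_comm
    rw [h2]
  have hCD : Q ⊓ centralizer (D : Set G) = Q₀ := by
    ext x
    rw [hQ₀, Subgroup.mem_inf]
    constructor
    · rintro ⟨hx, hxD⟩
      refine ⟨hx, ?_⟩
      rw [mem_zpowers_of_sq h.sq]
      apply h.cen _ (hgenQ x hx)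
      intro q hq
      have h1 := (Subgroup.mem_centralizer_iff.mp hxD) _ (hgen q hq)
      exact ((hid x hx q hq).mp h1.symm).symm
    · rintro ⟨hx, hxz⟩
      refine ⟨hx, ?_⟩
      rw [hD, Subgroup.centralizer_closure, Subgroup.mem_centralizer_iff]
      rintro _ ⟨q, hq, rfl⟩
      apply Eq.symm
      apply (hid x hx q hq).mpr
      rw [mem_zpowers_of_sq h.sq] at hxz
      rcases hxz with h1 | h1
      · rw [h1]; group
      · rw [h1]; exact (h.zc q hq).symm
  have hDQ₀ : D ≤ Q₀ := by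
    rw [hD, Subgroup.closure_le]
    rintro _ ⟨q, hq, rfl⟩
    show α * q * α⁻¹ * q⁻¹ ∈ Q₀
    rw [hQ₀]
    refine ⟨hgenQ q hq, ?_⟩
    have h1 : α * (α * q * α⁻¹ * q⁻¹) * α⁻¹ = (α * q * α⁻¹ * q⁻¹)⁻¹ := by
      calc α * (α * q * α⁻¹ * q⁻¹) * α⁻¹ = (α * (α * q * α⁻¹) * α⁻¹) * (α * q * α⁻¹)⁻¹ := by group
        _ = q * (α * q * α⁻¹)⁻¹ := by rw [hαα]
        _ = _ := by group
    rw [h1]
    set d := α * q * α⁻¹ * q⁻¹
    have hd : d ∈ Q := hgenQ q hq
    rw [mem_zpowers_of_sq h.sq]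
    have h2 : d⁻¹ * d⁻¹ = (d * d)⁻¹ := by group
    rw [h2]
    rcases h.sqr d hd with h3 | h3
    · left; rw [h3]; group
    · right; rw [h3]; exact h.zinv
  have hdc := h.double_centralizer hzD hDQ
  rw [hCD] at hdc
  ext x
  constructor
  · intro hx
    have hx' := hx
    rw [← hdc] at hx'
    refine ⟨⟨x, hDQ₀ hx⟩, ?_, rfl⟩
    show (⟨x, hDQ₀ hx⟩ : Q₀) ∈ center Q₀
    rw [Subgroup.mem_center_iff]
    intro y
    exact Subtype.ext ((Subgroup.mem_centralizer_iff.mp hx'.2) y y.2)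
  · rintro ⟨⟨x, hxQ₀⟩, hx, rfl⟩
    show x ∈ D
    rw [← hdc]
    refine ⟨((hQ₀ x).mp hxQ₀).1, Subgroup.mem_centralizer_iff.mpr ?_⟩
    intro y hy
    exact congrArg Subtype.val (Subgroup.mem_center_iff.mp hx ⟨y, hy⟩)

theorem relIndex_le_two [Finite G] (h : Xsp Q z) (α : G) (hαN : α ∈ normalizer (Q : Set G))
    (hnon : ∀ q ∈ Q, α * q * α⁻¹ * q⁻¹ ∈ Subgroup.zpowers z) :
    (centralizer ({α} : Set G) ⊓ Q).relIndex Q ≤ 2 := by
  set H := centralizer ({α} : Set G) ⊓ Q with hH
  have hHmem : ∀ x ∈ Q, (x ∈ H ↔ α * x * α⁻¹ * x⁻¹ = 1) := by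
    intro x hx
    rw [hH, Subgroup.mem_inf, Subgroup.mem_centralizer_singleton_iff]
    constructor
    · rintro ⟨h1, _⟩
      rw [← h1]; group
    · intro h2
      refine ⟨?_, hx⟩
      calc x * α = (α * x * α⁻¹ * x⁻¹)⁻¹ * (α * x) := by group
        _ = α * x := by rw [h2]; group
  by_cases hQH : Q ≤ H
  · rw [Subgroup.relIndex_eq_one.mpr hQH]; norm_num
  obtain ⟨a, haQ, haH⟩ := Set.not_subset.mp hQH
  have hz : ∀ x ∈ Q, x ∉ H → α * x * α⁻¹ * x⁻¹ = z := by
    intro x hx hxH
    have := hnon x hx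
    rw [mem_zpowers_of_sq h.sq] at this
    exact this.resolve_left (fun h => hxH ((hHmem x hx).mpr h))
  have hmul : ∀ x ∈ Q, ∀ y ∈ Q, α * (x * y) * α⁻¹ * (x * y)⁻¹ =
      (α * x * α⁻¹ * x⁻¹) * (x * (α * y * α⁻¹ * y⁻¹) * x⁻¹) := by
    intro x _ y _; group
  have h2 : (H.subgroupOf Q).index = 2 := by
    rw [Subgroup.index_eq_two_iff]
    refine ⟨⟨a, haQ⟩, ?_⟩
    rintro ⟨b, hb⟩
    have ha := hz a haQ haH
    have hba := hmul b hb a haQ
    rw [ha] at hba
    have hbz : b * z * b⁻¹ = z := by rw [← h.zc b hb]; group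
    rw [hbz] at hba
    by_cases hbH : b ∈ H
    · refine Or.inr ⟨hbH, ?_⟩
      intro hmem
      have h3 : b * a ∈ H := hmem
      rw [hHmem _ (Q.mul_mem hb haQ), hba, (hHmem b hb).mp hbH, one_mul] at h3
      exact h.ne h3
    · refine Or.inl ⟨?_, hbH⟩
      show b * a ∈ H
      rw [hHmem _ (Q.mul_mem hb haQ), hba, hz b hb hbH, h.sq]
  exact le_of_eq h2

end Extraspecial


end Cfsg.Agent.H11.Symp
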