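import Mathlib
import Cfsg.Prelude.Def_ClassificationK
import Cfsg.Agent.H11_Symp

/-!
# 2-groups of symplectic type and exponent four
-/

set_option autoImplicit false
set_option linter.all false

namespace Cfsg.Agent.H11.Symp4

universe u v

open Subgroup Cfsg Cfsg.Agent.H11.Cores Cfsg.Agent.H11.FStar Cfsg.Agent.H11.TI
  Cfsg.Agent.H11.Symp
open scoped commutatorElement

/-- bilinearity -/
theorem comm_mul_iff' {G : Type u} [Group G] {z x y y' : G}
    (h1 : x * y = y * x ∨ x * y = z * (y * x)) (h2 : x * y' = y' * x ∨ x * y' = z * (y' * x))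
    (hz : z * z = 1) (hzy : z * y = y * z) :
    x * (y * y') = (y * y') * x ↔ (x * y = y * x ↔ x * y' = y' * x) := by
  constructor
  · intro h
    constructor
    · intro h2
      have h3 : y * (x * y') = y * (y' * x) := by
        calc y * (x * y') = (y * x) * y' := by group
          _ = (x * y) * y' := by rw [h2]
          _ = (y * y') * x := by rw [mul_assoc, h]
          _ = y * (y' * x) := by group
      exact mul_left_cancel h3
    · intro h2
      have h3 : (x * y) * y' = (y * x) * y' := by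
        calc (x * y) * y' = x * (y * y') := by group
          _ = (y * y') * x := h
          _ = y * (y' * x) := by group
          _ = y * (x * y') := by rw [h2]
          _ = (y * x) * y' := by group
      exact mul_right_cancel h3
  · intro h
    by_cases h3 : x * y = y * x
    · have h4 := h.mp h3
      calc x * (y * y') = (x * y) * y' := by group
        _ = y * (x * y') := by rw [h3]; group
        _ = (y * y') * x := by rw [h4]; group
    · have h4 : ¬ x * y' = y' * x := fun h5 => h3 (h.mpr h5)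
      have h5 := h1.resolve_left h3
      have h6 := h2.resolve_left h4
      calc x * (y * y') = (x * y) * y' := by group
        _ = z * y * (x * y') := by rw [h5]; group
        _ = z * y * (z * (y' * x)) := by rw [h6]
        _ = (z * (y * z)) * y' * x := by group
        _ = (z * z) * y * y' * x := by rw [← hzy]; group
        _ = (y * y') * x := by rw [hz]; group

/-- a finite `2`-group `Q` with exponent dividing `4`, all of whose characteristic abelian
subgroups are cyclic. -/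
def SX (Q : Type u) [Group Q] : Prop := IsOfSymplecticType Q ∧ ∀ q : Q, q ^ 4 = 1

variable {Q : Type u} [Group Q] [Finite Q]

theorem SX.sub (h : SX Q) (D : Subgroup Q) [hD : D.Characteristic] : SX D := by
  refine ⟨⟨h.1.1.to_subgroup D, ?_⟩, fun q => Subtype.ext (h.2 q)⟩
  intro A hA hAc
  have h1 : (A.map D.subtype).Characteristic := inferInstance
  have h2 : IsMulCommutative ↥(A.map D.subtype) := by
    refine ⟨⟨?_⟩⟩
    rintro ⟨_, a, ha, rfl⟩ ⟨_, b, hb, rfl⟩
    apply Subtype.ext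
    show D.subtype a * D.subtype b = D.subtype b * D.subtype a
    rw [← map_mul, ← map_mul]
    congr 1
    exact congrArg Subtype.val (hAc.is_comm.comm (⟨a, ha⟩ : A) ⟨b, hb⟩)
  have h3 := h.1.2 _ h1 h2
  exact (A.equivMapOfInjective D.subtype D.subtype_injective).symm.surjective |>
    fun hs => isCyclic_of_surjective (A.equivMapOfInjective D.subtype D.subtype_injective).symm hs

/-- a characteristic abelian subgroup is generated by an element -/
theorem SX.exists_gen (h : SX Q) (A : Subgroup Q) (hA : A.Characteristic)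
    (hAc : ∀ x ∈ A, ∀ y ∈ A, x * y = y * x) : ∃ y : Q, A = Subgroup.zpowers y := by
  have h2 : IsMulCommutative A := ⟨⟨fun a b => Subtype.ext (hAc a a.2 b b.2)⟩⟩
  obtain ⟨⟨y, hy⟩, hgen⟩ := h.1.2 A hA h2
  refine ⟨y, ?_⟩
  apply le_antisymm
  · intro x hx
    obtain ⟨k, hk⟩ := Subgroup.mem_zpowers_iff.mp (hgen ⟨x, hx⟩)
    exact Subgroup.mem_zpowers_iff.mpr ⟨k, congrArg Subtype.val hk⟩
  · rw [Subgroup.zpowers_le]; exact hy

theorem SX.card_le (h : SX Q) (y : Q) : Nat.card (Subgroup.zpowers y) ≤ 4 := by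
  rw [Nat.card_zpowers]
  exact Nat.le_of_dvd (by norm_num) (orderOf_dvd_of_pow_eq_one (h.2 y))

/-- a characteristic abelian subgroup containing an element `y` of order `4` is `⟨y⟩` -/
theorem SX.eq_zpowers (h : SX Q) (A : Subgroup Q) (hA : A.Characteristic)
    (hAc : ∀ x ∈ A, ∀ y ∈ A, x * y = y * x) (y : Q) (hy : y ∈ A) (hy4 : orderOf y = 4) :
    A = Subgroup.zpowers y := by
  obtain ⟨w, hw⟩ := h.exists_gen A hA hAc
  symm
  apply Subgroup.eq_of_le_of_card_ge
  · rw [Subgroup.zpowers_le]; exact hy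
  · rw [Nat.card_zpowers, hy4, hw]
    exact h.card_le w

theorem SX.key1 (h : SX Q) (hne : ¬ commutator Q ≤ center Q) :
    ∃ y : Q, orderOf y = 4 ∧ y ∈ commutator Q ∧ y ∉ center Q ∧
      (Subgroup.zpowers y).Characteristic := by
  haveI : Fact (Nat.Prime 2) := ⟨Nat.prime_two⟩
  haveI : Group.IsNilpotent Q := h.1.1.isNilpotent
  -- second centre
  set Z2 : Subgroup Q := (center (Q ⧸ center Q)).comap (QuotientGroup.mk' (center Q)) with hZ2
  haveI hZ2c : Z2.Characteristic := Subgroup.Characteristic.comap_quotient_mk inferInstance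
  set A := commutator Q ⊓ Z2 with hA
  haveI : (commutator Q).Characteristic := by rw [_root_.commutator_def]; infer_instance
  have hAchar : A.Characteristic := inferInstance
  have hAQ : ⁅A, (⊤ : Subgroup Q)⁆ ≤ center Q := by
    rw [Subgroup.commutator_le]
    intro a ha q _
    have h1 : QuotientGroup.mk' (center Q) a ∈ center (Q ⧸ center Q) := ha.2
    have h2 := Subgroup.mem_center_iff.mp h1 (QuotientGroup.mk' (center Q) q)
    have h3 : QuotientGroup.mk' (center Q) ⁅a, q⁆ = 1 := by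
      rw [map_commutatorElement, commutatorElement_eq_one_iff_mul_comm]
      exact h2.symm
    rwa [← MonoidHom.mem_ker, QuotientGroup.ker_mk'] at h3
  have hAcomm : ⁅commutator Q, A⁆ = ⊥ := by
    rw [_root_.commutator_def]
    have h1 : ⁅⁅A, (⊤ : Subgroup Q)⁆, (⊤ : Subgroup Q)⁆ = ⊥ := by
      rw [Subgroup.commutator_top_right_eq_bot_iff_le_center]; exact hAQ
    apply Subgroup.commutator_commutator_eq_bot_of_rotate
    · rw [Subgroup.commutator_comm ⊤ A]; exact h1
    · exact h1
  have hAc : ∀ x ∈ A, ∀ y ∈ A, x * y = y * x := by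
    intro x hx y hy
    exact commute_of_commutator_eq_bot hAcomm hx.1 hy
  have hAZ : ¬ A ≤ center Q := by
    intro hle
    -- the image of the commutator in `Q / Z`
    set f := QuotientGroup.mk' (center Q) with hf
    have hN : ((commutator Q).map f).Normal :=
      (inferInstance : (commutator Q).Normal).map f (QuotientGroup.mk'_surjective _)
    have hN1 : (commutator Q).map f ≠ ⊥ := by
      rw [Ne, Subgroup.map_eq_bot_iff, hf, QuotientGroup.ker_mk']
      exact hne
    obtain ⟨⟨w, hw⟩, hw1⟩ := Subgroup.ne_bot_iff_exists_ne_one.mp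
      (Cfsg.Agent.H1.Nilp.normal_inf_center_ne_bot _ hN1)
    obtain ⟨⟨c, hc, hcw⟩, hwc⟩ := hw
    apply hw1
    apply Subtype.ext
    show w = 1
    rw [← hcw, ← MonoidHom.mem_ker, hf, QuotientGroup.ker_mk']
    apply hle
    refine ⟨hc, ?_⟩
    show f c ∈ center _
    rw [hcw]; exact hwc
  obtain ⟨y, hy⟩ := h.exists_gen A hAchar hAc
  have hyA : y ∈ A := by rw [hy]; exact Subgroup.mem_zpowers y
  refine ⟨y, ?_, hyA.1, ?_, hy ▸ hAchar⟩
  · have hdvd : orderOf y ∣ 4 := orderOf_dvd_of_pow_eq_one (h.2 y)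
    have hle : orderOf y ≤ 4 := Nat.le_of_dvd (by norm_num) hdvd
    have hpos := orderOf_pos y
    by_contra h4
    apply hAZ
    rw [hy, Subgroup.zpowers_le, Subgroup.mem_center_iff]
    intro q
    have h1 : q * y * q⁻¹ ∈ Subgroup.zpowers y := by
      rw [← hy]; exact (inferInstance : A.Normal).conj_mem y hyA q
    have hy2 : y * y = 1 := by
      have : orderOf y ∣ 2 := by
        interval_cases hh : orderOf y <;> omega
      rw [← sq]; exact orderOf_dvd_iff_pow_eq_one.mp this
    rcases (Cfsg.Agent.H28.Xsp.mem_zpowers_of_sq hy2).mp h1 with h2 | h2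
    · have : y = 1 := by
        calc y = q⁻¹ * (q * y * q⁻¹) * q := by group
          _ = 1 := by rw [h2]; group
      rw [this]; group
    · calc q * y = (q * y * q⁻¹) * q := by group
        _ = y * q := by rw [h2]
  · intro hyc
    apply hAZ
    rw [hy, Subgroup.zpowers_le]; exact hyc

theorem pow_four_eq {G : Type u} [Group G] (x : G) : x ^ 4 = x * x * (x * x) := by
  rw [show (4 : ℕ) = 2 + 2 from rfl, pow_add, sq]

/-- exponent `4` argument -/
theorem sq_eq_one_of_pow_four {G : Type u} [Group G] {a b c : G} (hc : b * a = c * (a * b))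
    (hca : c * a = a * c) (hcb : c * b = b * c) (ha4 : a ^ 4 = 1) (hb4 : b ^ 4 = 1)
    (hab4 : (a * b) ^ 4 = 1) (hc4 : c ^ 4 = 1) : c * c = 1 := by
  rw [pow_four_eq] at ha4 hb4 hab4 hc4
  have h2 : (a * b) * (a * b) = c * ((a * a) * (b * b)) := by
    calc (a * b) * (a * b) = a * (b * a) * b := by simp only [mul_assoc]
      _ = (a * c) * (a * b) * b := by rw [hc]; simp only [mul_assoc]
      _ = c * ((a * a) * (b * b)) := by rw [← hca]; simp only [mul_assoc]
  have h3 : (b * b) * a = c * c * (a * (b * b)) := by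
    calc (b * b) * a = b * (b * a) := by simp only [mul_assoc]
      _ = (b * c) * (a * b) := by rw [hc]; simp only [mul_assoc]
      _ = c * (b * a) * b := by rw [← hcb]; simp only [mul_assoc]
      _ = c * c * (a * (b * b)) := by rw [hc]; simp only [mul_assoc]
  have hcc : (c * c) * a = a * (c * c) := by
    have e1 : Commute c a := hca
    exact (e1.mul_left e1).eq
  have h4 : (b * b) * (a * a) = (a * a) * (b * b) := by
    calc (b * b) * (a * a) = ((b * b) * a) * a := by simp only [mul_assoc]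
      _ = (c * c * (a * (b * b))) * a := by rw [h3]
      _ = c * c * a * ((b * b) * a) := by simp only [mul_assoc]
      _ = c * c * a * (c * c * (a * (b * b))) := by rw [h3]
      _ = (c * c) * (a * (c * c)) * (a * (b * b)) := by simp only [mul_assoc]
      _ = (c * c * (c * c)) * (a * (a * (b * b))) := by rw [← hcc]; simp only [mul_assoc]
      _ = (a * a) * (b * b) := by rw [hc4, one_mul]; simp only [mul_assoc]
  have h5 : ((a * a) * (b * b)) * ((a * a) * (b * b)) = 1 := by
    calc ((a * a) * (b * b)) * ((a * a) * (b * b)) = (a * a) * ((b * b) * (a * a)) * (b * b) := by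
          simp only [mul_assoc]
      _ = (a * a * (a * a)) * (b * b * (b * b)) := by rw [h4]; simp only [mul_assoc]
      _ = 1 := by rw [ha4, hb4, one_mul]
  have h6 : c * ((a * a) * (b * b)) = ((a * a) * (b * b)) * c := by
    have e1 : Commute c a := hca
    have e2 : Commute c b := hcb
    exact ((e1.mul_right e1).mul_right (e2.mul_right e2)).eq
  rw [h2] at hab4
  have h7 : c * (a * a * (b * b)) * (c * (a * a * (b * b))) =
      (c * c) * ((a * a * (b * b)) * (a * a * (b * b))) := by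
    calc c * (a * a * (b * b)) * (c * (a * a * (b * b))) =
        c * ((a * a * (b * b)) * c) * (a * a * (b * b)) := by simp only [mul_assoc]
      _ = _ := by rw [← h6]; simp only [mul_assoc]
  rw [h7, h5, mul_one] at hab4
  exact hab4

theorem mem_zpowers_four {G : Type u} [Group G] {y w : G} (hy : orderOf y = 4)
    (hw : w ∈ Subgroup.zpowers y) : w = 1 ∨ w = y ∨ w = y * y ∨ w = y⁻¹ := by
  obtain ⟨k, rfl⟩ := Subgroup.mem_zpowers_iff.mp hw
  have h1 : y ^ (k % (orderOf y : ℤ)) = y ^ k := zpow_mod_orderOf y k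
  rw [hy] at h1
  have h2 : 0 ≤ k % 4 := Int.emod_nonneg k (by norm_num)
  have h3 : k % 4 < 4 := Int.emod_lt_of_pos k (by norm_num)
  have hy4 : y ^ 4 = 1 := by rw [← hy]; exact pow_orderOf_eq_one y
  rw [← h1]
  push_cast
  have : k % 4 = 0 ∨ k % 4 = 1 ∨ k % 4 = 2 ∨ k % 4 = 3 := by omega
  rcases this with h | h | h | h
  · left; rw [h]; simp
  · right; left; rw [h]; simp
  · right; right; left; rw [h]; exact zpow_two y
  · right; right; right; rw [h, eq_inv_iff_mul_eq_one]
    calc y ^ (3 : ℤ) * y = y ^ 4 := by group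
      _ = 1 := hy4

theorem SX.key2 (h : SX Q) : commutator Q ≤ center Q := by
  by_contra hne
  obtain ⟨y, hy4, hycomm, hycen, hychar⟩ := h.key1 hne
  have hy1 : y ≠ 1 := by rintro rfl; simp at hy4
  have hyy : y * y ≠ 1 := by
    intro h1
    rw [← sq] at h1
    have := orderOf_dvd_of_pow_eq_one h1
    rw [hy4] at this
    norm_num at this
  set z := y * y with hz
  have hzz : z * z = 1 := by
    have : z * z = y ^ 4 := by rw [hz, pow_four_eq]
    rw [this]; exact h.2 y
  haveI := hychar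
  have hconj : ∀ q : Q, q * y * q⁻¹ = y ∨ q * y * q⁻¹ = y⁻¹ := by
    intro q
    have h1 : q * y * q⁻¹ ∈ Subgroup.zpowers y :=
      (inferInstance : (Subgroup.zpowers y).Normal).conj_mem y (Subgroup.mem_zpowers y) q
    rcases mem_zpowers_four hy4 h1 with h2 | h2 | h2 | h2
    · exfalso; apply hy1
      calc y = q⁻¹ * (q * y * q⁻¹) * q := by group
        _ = 1 := by rw [h2]; group
    · exact Or.inl h2
    · exfalso; apply hyy
      calc z = q⁻¹ * ((q * y * q⁻¹) * (q * y * q⁻¹)) * q := by rw [hz]; group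
        _ = 1 := by rw [h2, hzz]; group
    · exact Or.inr h2
  have hzcen : ∀ q : Q, q * z * q⁻¹ = z := by
    intro q
    have h1 : q * z * q⁻¹ = (q * y * q⁻¹) * (q * y * q⁻¹) := by rw [hz]; group
    rw [h1]
    rcases hconj q with h2 | h2
    · rw [h2]
    · rw [h2]
      calc y⁻¹ * y⁻¹ = (z * z)⁻¹ * z := by rw [hz]; group
        _ = z := by rw [hzz]; group
  have hzq : ∀ q : Q, z * q = q * z := by
    intro q
    calc z * q = (q * z * q⁻¹) * q := by rw [hzcen]
      _ = q * z := by group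
  set D := centralizer ((Subgroup.zpowers y : Subgroup Q) : Set Q) with hD
  have hmemD : ∀ x, x ∈ D ↔ x * y = y * x := by
    intro x
    rw [hD, Subgroup.mem_centralizer_iff]
    constructor
    · intro h1; exact (h1 y (Subgroup.mem_zpowers y)).symm
    · intro h1 w hw
      obtain ⟨k, rfl⟩ := Subgroup.mem_zpowers_iff.mp hw
      exact ((Commute.zpow_right (show Commute x y from h1) k).eq).symm
  have hDchar : D.Characteristic := inferInstance
  have hDn : D.Normal := inferInstance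
  have hyD : y ∈ D := (hmemD y).mpr rfl
  have hDsx : SX D := h.sub D
  have hout : ∀ x, x ∉ D → x * y * x⁻¹ = y⁻¹ := by
    intro x hx
    rcases hconj x with h1 | h1
    · exfalso; apply hx
      rw [hmemD]
      calc x * y = (x * y * x⁻¹) * x := by group
        _ = y * x := by rw [h1]
    · exact h1
  have hidx : ∀ x x', x ∉ D → x' ∉ D → x⁻¹ * x' ∈ D := by
    intro x x' hx hx'
    rw [hmemD]
    have h1 := hout x hx
    have h2 := hout x' hx'
    calc x⁻¹ * x' * y = x⁻¹ * (x' * y * x'⁻¹) * x' := by group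
      _ = x⁻¹ * (x * y * x⁻¹) * x' := by rw [h2, h1]
      _ = y * (x⁻¹ * x') := by group
  have hyDc : (⟨y, hyD⟩ : D) ∈ center D := by
    rw [Subgroup.mem_center_iff]
    intro d
    exact Subtype.ext ((hmemD d).mp d.2)
  have hy4D : orderOf (⟨y, hyD⟩ : D) = 4 := by rw [← Subgroup.orderOf_coe]; exact hy4
  have hZD : center D = Subgroup.zpowers (⟨y, hyD⟩ : D) := by
    apply hDsx.eq_zpowers (center D) inferInstance _ _ hyDc hy4D
    intro a ha b hb
    exact (Subgroup.mem_center_iff.mp hb a)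
  have hZD' : ∀ x ∈ D, (∀ d ∈ D, x * d = d * x) → x ∈ Subgroup.zpowers y := by
    intro x hx hxd
    have h1 : (⟨x, hx⟩ : D) ∈ center D := by
      rw [Subgroup.mem_center_iff]
      intro d
      exact Subtype.ext (hxd d d.2).symm
    rw [hZD] at h1
    obtain ⟨k, hk⟩ := Subgroup.mem_zpowers_iff.mp h1
    exact Subgroup.mem_zpowers_iff.mpr ⟨k, congrArg Subtype.val hk⟩
  have hcl : commutator D ≤ center D := by
    by_contra hneD
    obtain ⟨w, hw4, _, hwc, hwchar⟩ := hDsx.key1 hneD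
    haveI := hwchar
    have hA : (Subgroup.zpowers w ⊔ center D).Characteristic := inferInstance
    have hAc' : Subgroup.zpowers w ⊔ center D ≤
        centralizer ((Subgroup.zpowers w ⊔ center D : Subgroup D) : Set D) := by
      have hcen : center D ≤ centralizer ((Subgroup.zpowers w ⊔ center D : Subgroup D) : Set D) :=
        Subgroup.center_le_centralizer _
      apply sup_le _ hcen
      rw [Subgroup.le_centralizer_iff]
      apply sup_le
      · rw [Subgroup.zpowers_le, Subgroup.mem_centralizer_iff]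
        intro v hv
        obtain ⟨k, rfl⟩ := Subgroup.mem_zpowers_iff.mp hv
        exact ((Commute.refl w).zpow_left k).eq
      · exact Subgroup.center_le_centralizer _
    have hAc : ∀ a ∈ Subgroup.zpowers w ⊔ center D, ∀ b ∈ Subgroup.zpowers w ⊔ center D,
        a * b = b * a := by
      intro a ha b hb
      exact (Subgroup.mem_centralizer_iff.mp (hAc' hb)) a ha
    have h1 := hDsx.eq_zpowers _ hA hAc w
      ((le_sup_left : Subgroup.zpowers w ≤ _) (Subgroup.mem_zpowers w)) hw4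
    have h2 := hDsx.eq_zpowers _ hA hAc ⟨y, hyD⟩
      ((le_sup_right : center D ≤ _) hyDc) hy4D
    apply hwc
    rw [hZD, ← h2, h1]
    exact Subgroup.mem_zpowers w
  -- commutators in `D` are `1` or `z`
  have hbil : ∀ a ∈ D, ∀ b ∈ D, a * b = b * a ∨ a * b = z * (b * a) := by
    intro a ha b hb
    set c := a * b * a⁻¹ * b⁻¹ with hc
    have hcD : c ∈ D := D.mul_mem (D.mul_mem (D.mul_mem ha hb) (D.inv_mem ha)) (D.inv_mem hb)
    have hccen : ∀ d ∈ D, c * d = d * c := by
      intro d hd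
      have h1 : (⟨a, ha⟩ : D) * ⟨b, hb⟩ * ⟨a, ha⟩⁻¹ * ⟨b, hb⟩⁻¹ ∈ center D :=
        hcl (Subgroup.commutator_mem_commutator (Subgroup.mem_top _) (Subgroup.mem_top _))
      have h2 := Subgroup.mem_center_iff.mp h1 ⟨d, hd⟩
      exact (congrArg Subtype.val h2).symm
    have hcc : c * c = 1 := by
      apply sq_eq_one_of_pow_four (a := b) (b := a) (c := c) _ (hccen b hb) (hccen a ha)
        (h.2 b) (h.2 a) (h.2 _) (h.2 c)
      rw [hc]; group
    have hcz := hZD' c hcD hccen
    rcases mem_zpowers_four hy4 hcz with h2 | h2 | h2 | h2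
    · left
      calc a * b = c * (b * a) := by rw [hc]; group
        _ = b * a := by rw [h2, one_mul]
    · exfalso; rw [h2] at hcc; exact hyy hcc
    · right
      calc a * b = c * (b * a) := by rw [hc]; group
        _ = z * (b * a) := by rw [h2]
    · exfalso; rw [h2] at hcc
      apply hyy
      calc z = (y⁻¹ * y⁻¹)⁻¹ := by rw [hz, mul_inv_rev, inv_inv]
        _ = 1 := by rw [hcc]; group
  -- bilinear calculus
  have K1 : ∀ p ∈ D, ∀ q ∈ D, ∀ r ∈ D, (p * (q * r) = (q * r) * p ↔ (p * q = q * p ↔ p * r = r * p)) :=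
    fun p hp q hq r hr => comm_mul_iff' (hbil p hp q hq) (hbil p hp r hr) hzz (hzq q)
  have Kz : ∀ p q : Q, p * (z * q) = (z * q) * p ↔ p * q = q * p := by
    intro p q
    constructor
    · intro h1
      have : z * (p * q) = z * (q * p) := by
        calc z * (p * q) = p * (z * q) := by rw [← mul_assoc, hzq p]; group
          _ = (z * q) * p := h1
          _ = z * (q * p) := by group
      exact mul_left_cancel this
    · intro h1
      calc p * (z * q) = (z * p) * q := by rw [hzq p]; group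
        _ = (z * q) * p := by rw [mul_assoc, h1]; group
  have hcj : ∀ e ∈ D, ∀ d ∈ D, e * d * e⁻¹ = d ∨ e * d * e⁻¹ = z * d := by
    intro e he d hd
    rcases hbil e he d hd with h1 | h1
    · left; rw [h1]; group
    · right; rw [h1]; group
  have hcjD : ∀ x : Q, ∀ d ∈ D, x * d * x⁻¹ ∈ D := fun x d hd => hDn.conj_mem d hd x
  have hmain : ∀ x : Q, ∀ d ∈ D, ∀ d' ∈ D,
      (x * d * x⁻¹ * d⁻¹) * (x * d' * x⁻¹ * d'⁻¹) = (x * d' * x⁻¹ * d'⁻¹) * (x * d * x⁻¹ * d⁻¹) := by
    intro x d hd d' hd'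
    have hP := hcjD x d hd
    have hR := hcjD x d' hd'
    set P := x * d * x⁻¹ with hPdef
    set R := x * d' * x⁻¹ with hRdef
    have hxx : x * x ∈ D := by
      by_cases hx : x ∈ D
      · exact D.mul_mem hx hx
      · have : x⁻¹⁻¹ * x ∈ D := hidx x⁻¹ x (fun h => hx ((Subgroup.inv_mem_iff _).mp h)) hx
        simpa using this
    have hPR : P * R = R * P ↔ d * d' = d' * d := conj_comm_iff
    have hdP : d' * P = P * d' ↔ R * d = d * R := by
      rw [← conj_comm_iff (t := x)]
      have h1 : x * P * x⁻¹ = (x * x) * d * (x * x)⁻¹ := by rw [hPdef]; group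
      rw [← hRdef, h1]
      rcases hcj _ hxx d hd with h2 | h2
      · rw [h2]
      · rw [h2]; exact Kz R d
    have hPd : P * d⁻¹ ∈ D := D.mul_mem hP (D.inv_mem hd)
    rw [K1 _ hPd R hR d'⁻¹ (D.inv_mem hd'), inv_comm_iff]
    have e1 : (P * d⁻¹) * R = R * (P * d⁻¹) ↔ (R * P = P * R ↔ R * d = d * R) := by
      rw [eq_comm, K1 R hR P hP d⁻¹ (D.inv_mem hd), inv_comm_iff]
    have e2 : (P * d⁻¹) * d' = d' * (P * d⁻¹) ↔ (d' * P = P * d' ↔ d' * d = d * d') := by
      rw [eq_comm, K1 d' hd' P hP d⁻¹ (D.inv_mem hd), inv_comm_iff]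
    rw [e1, e2]
    have e3 : R * P = P * R ↔ d' * d = d * d' := by
      rw [eq_comm, hPR, eq_comm]
    rw [e3, hdP]
    tauto
  -- general commutation of commutators
  have hgen : ∀ x x' : Q, ∀ d ∈ D, ∀ d' ∈ D,
      ⁅x, d⁆ * ⁅x', d'⁆ = ⁅x', d'⁆ * ⁅x, d⁆ := by
    intro x x' d hd d' hd'
    have hc1 : ∀ a ∈ D, ∀ b ∈ D, ⁅a, b⁆ = 1 ∨ ⁅a, b⁆ = z := by
      intro a ha b hb
      rw [commutatorElement_def]
      rcases hcj a ha b hb with h1 | h1
      · left; rw [h1]; group
      · right; rw [h1]; group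
    by_cases hx : x ∈ D
    · rcases hc1 x hx d hd with h1 | h1
      · rw [h1]; group
      · rw [h1]; exact hzq _
    by_cases hx' : x' ∈ D
    · rcases hc1 x' hx' d' hd' with h1 | h1
      · rw [h1]; group
      · rw [h1]; exact (hzq _).symm
    have he := hidx x x' hx hx'
    set e := x⁻¹ * x' with hedef
    have hx'e : x' = x * e := by rw [hedef]; group
    have h1 : ⁅x', d'⁆ = x * (e * d' * e⁻¹) * x⁻¹ * d'⁻¹ := by
      rw [commutatorElement_def, hx'e]; group
    have h2 := hmain x d hd d' hd'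
    rw [h1, commutatorElement_def]
    rcases hcj e he d' hd' with h3 | h3
    · rw [h3]; exact h2
    · rw [h3]
      have h4 : x * (z * d') * x⁻¹ * d'⁻¹ = z * (x * d' * x⁻¹ * d'⁻¹) := by
        calc x * (z * d') * x⁻¹ * d'⁻¹ = (x * z) * d' * x⁻¹ * d'⁻¹ := by group
          _ = z * (x * d' * x⁻¹ * d'⁻¹) := by rw [← hzq x]; group
      rw [h4]
      exact (Kz _ _).mpr h2
  -- `W = [Q, D]⟨y⟩` is characteristic abelian
  set W := ⁅(⊤ : Subgroup Q), D⁆ ⊔ Subgroup.zpowers y with hW
  have hWD : ⁅(⊤ : Subgroup Q), D⁆ ≤ D := Subgroup.commutator_le_right _ _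
  have hWchar : W.Characteristic := inferInstance
  have hWcent : W ≤ centralizer (W : Set Q) := by
    have hyW : Subgroup.zpowers y ≤ centralizer (W : Set Q) := by
      rw [Subgroup.le_centralizer_iff]
      apply sup_le
      · exact hWD
      · rw [Subgroup.zpowers_le]; exact hyD
    apply sup_le _ hyW
    rw [Subgroup.le_centralizer_iff]
    apply sup_le
    · have : ⁅(⊤ : Subgroup Q), D⁆ = Subgroup.closure {g | ∃ g₁ ∈ (⊤ : Subgroup Q), ∃ g₂ ∈ D, ⁅g₁, g₂⁆ = g} := rfl
      rw [Subgroup.commutator_le]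
      intro x _ d hd
      rw [this, Subgroup.centralizer_closure, Subgroup.mem_centralizer_iff]
      rintro _ ⟨x', _, d', hd', rfl⟩
      exact hgen x' x d' hd' d hd
    · rw [Subgroup.le_centralizer_iff]
      exact hWD
  have hWeq : W = Subgroup.zpowers y := by
    apply h.eq_zpowers W hWchar _ y ((le_sup_right : Subgroup.zpowers y ≤ _) (Subgroup.mem_zpowers y)) hy4
    intro a ha b hb
    exact (Subgroup.mem_centralizer_iff.mp (hWcent hb)) a ha
  have hxd : ∀ x : Q, ∀ d ∈ D, x * d * x⁻¹ = d ∨ x * d * x⁻¹ = z * d := by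
    intro x d hd
    have h1 : ⁅x, d⁆ ∈ Subgroup.zpowers y := by
      rw [← hWeq]
      exact (le_sup_left : ⁅(⊤ : Subgroup Q), D⁆ ≤ _)
        (Subgroup.commutator_mem_commutator (Subgroup.mem_top x) hd)
    -- `d²` is central
    have hdd : d * d = 1 ∨ d * d = z := by
      have hddcen : ∀ b ∈ D, (d * d) * b = b * (d * d) := by
        intro b hb
        have := (K1 b hb d hd d hd).mpr Iff.rfl
        exact this.symm
      have h2 := hZD' (d * d) (D.mul_mem hd hd) hddcen
      have hd4 : (d * d) * (d * d) = 1 := by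
        have : (d * d) * (d * d) = d ^ 4 := by rw [pow_four_eq]
        rw [this]; exact h.2 d
      rcases mem_zpowers_four hy4 h2 with h3 | h3 | h3 | h3
      · exact Or.inl h3
      · exfalso; rw [h3] at hd4; exact hyy hd4
      · exact Or.inr h3
      · exfalso; rw [h3] at hd4
        apply hyy
        calc z = (y⁻¹ * y⁻¹)⁻¹ := by rw [hz, mul_inv_rev, inv_inv]
          _ = 1 := by rw [hd4]; group
    set w := ⁅x, d⁆ with hw
    have hxdw : x * d * x⁻¹ = w * d := by rw [hw, commutatorElement_def]; group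
    have hwd : w * d = d * w := by
      have hwc : w ∈ centralizer (D : Set Q) := by
        have : Subgroup.zpowers y ≤ centralizer (D : Set Q) := by
          rw [Subgroup.le_centralizer_iff]
        exact this h1
      exact ((Subgroup.mem_centralizer_iff.mp hwc) d hd).symm
    have h2 : (x * d * x⁻¹) * (x * d * x⁻¹) = d * d := by
      have : (x * d * x⁻¹) * (x * d * x⁻¹) = x * (d * d) * x⁻¹ := by group
      rw [this]
      rcases hdd with h3 | h3
      · rw [h3]; group
      · rw [h3]; exact hzcen x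
    rw [hxdw] at h2
    have h3 : w * w = 1 := by
      have h4 : (w * d) * (w * d) = (w * w) * (d * d) := by
        calc (w * d) * (w * d) = w * (d * w) * d := by group
          _ = (w * w) * (d * d) := by rw [← hwd]; group
      rw [h4] at h2
      exact mul_eq_right.mp h2
    rw [hxdw]
    rcases mem_zpowers_four hy4 h1 with h4 | h4 | h4 | h4
    · left; rw [h4, one_mul]
    · exfalso; rw [h4] at h3; exact hyy h3
    · right; rw [h4]
    · exfalso; rw [h4] at h3
      apply hyy
      calc z = (y⁻¹ * y⁻¹)⁻¹ := by rw [hz, mul_inv_rev, inv_inv]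
        _ = 1 := by rw [h3]; group
  -- all commutators are `1` or `z`
  have hall : ∀ x x' : Q, ⁅x, x'⁆ = 1 ∨ ⁅x, x'⁆ = z := by
    intro x x'
    by_cases hx' : x' ∈ D
    · rw [commutatorElement_def]
      rcases hxd x x' hx' with h1 | h1
      · left; rw [h1]; group
      · right; rw [h1]; group
    by_cases hx : x ∈ D
    · have h2 : ⁅x, x'⁆ = (x' * x * x'⁻¹ * x⁻¹)⁻¹ := by rw [commutatorElement_def]; group
      rw [h2]
      rcases hxd x' x hx with h1 | h1
      · left; rw [h1]; group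
      · right; rw [h1]
        calc (z * x * x⁻¹)⁻¹ = (z * z)⁻¹ * z := by group
          _ = z := by rw [hzz]; group
    have he := hidx x x' hx hx'
    set e := x⁻¹ * x' with hedef
    have hx'e : x' = x * e := by rw [hedef]; group
    have h1 : ⁅x, x'⁆ = x * (x * e * x⁻¹ * e⁻¹) * x⁻¹ := by
      rw [commutatorElement_def, hx'e]; group
    rw [h1]
    rcases hxd x e he with h2 | h2
    · left; rw [h2]; group
    · right; rw [h2]
      calc x * (z * e * e⁻¹) * x⁻¹ = x * z * x⁻¹ := by group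
        _ = z := hzcen x
  have hfin : commutator Q ≤ Subgroup.zpowers z := by
    rw [_root_.commutator_def, Subgroup.commutator_le]
    intro a _ b _
    rw [Cfsg.Agent.H28.Xsp.mem_zpowers_of_sq hzz]
    exact hall a b
  have h1 := hfin hycomm
  rcases (Cfsg.Agent.H28.Xsp.mem_zpowers_of_sq hzz).mp h1 with h2 | h2
  · exact hy1 h2
  · apply hy1
    calc y = (y * y) * y⁻¹ := by group
      _ = 1 := by rw [← hz, ← h2]; group

/-- commutators in a symplectic type `2`-group of exponent `4` -/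
theorem SX.comm (h : SX Q) {z : Q} (hz : orderOf z = 2) (hzc : z ∈ center Q) (a b : Q) :
    a * b = b * a ∨ a * b = z * (b * a) := by
  have hk := h.key2
  set c := a * b * a⁻¹ * b⁻¹ with hc
  have hcc : c ∈ center Q := hk (Subgroup.commutator_mem_commutator (Subgroup.mem_top _) (Subgroup.mem_top _))
  have hccen : ∀ d, c * d = d * c := fun d => (Subgroup.mem_center_iff.mp hcc d).symm
  have hc2 : c * c = 1 := by
    apply sq_eq_one_of_pow_four (a := b) (b := a) (c := c) _ (hccen b) (hccen a)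
      (h.2 b) (h.2 a) (h.2 _) (h.2 c)
    rw [hc]; group
  by_cases hc1 : c = 1
  · left
    calc a * b = c * (b * a) := by rw [hc]; group
      _ = b * a := by rw [hc1, one_mul]
  · right
    have hco : orderOf c = 2 := orderOf_eq_prime (by rw [sq]; exact hc2) hc1
    have hZcyc : IsCyclic (center Q) := h.1.2 (center Q) inferInstance inferInstance
    have h5 : (⟨c, hcc⟩ : center Q) = ⟨z, hzc⟩ := by
      apply eq_of_orderOf_two hZcyc
      · rw [← Subgroup.orderOf_coe]; exact hco
      · rw [← Subgroup.orderOf_coe]; exact hz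
    have h6 : c = z := congrArg Subtype.val h5
    calc a * b = c * (b * a) := by rw [hc]; group
      _ = z * (b * a) := by rw [h6]

/-- working form of "symplectic type of exponent `4` with central involution `z`" -/
structure SyX {G : Type u} [Group G] (Q : Subgroup G) (z : G) : Prop where
  mem : z ∈ Q
  ne : z ≠ 1
  sq : z * z = 1
  zc : ∀ x ∈ Q, z * x = x * z
  comm : ∀ x ∈ Q, ∀ y ∈ Q, x * y = y * x ∨ x * y = z * (y * x)
  sqr : ∀ x ∈ Q, x * x = 1 ∨ x * x = z
  cen : ∀ x ∈ Q, (∀ y ∈ Q, x * y = y * x) → x * x = 1 → x = 1 ∨ x = z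

theorem SX.syX (h : SX Q) {z : Q} (hz : orderOf z = 2) (hzc : z ∈ center Q) :
    SyX (⊤ : Subgroup Q) z := by
  have hZcyc : IsCyclic (center Q) := h.1.2 (center Q) inferInstance inferInstance
  have hzz : z * z = 1 := by rw [← sq, ← hz]; exact pow_orderOf_eq_one z
  have hcen : ∀ x : Q, (∀ y : Q, x * y = y * x) → x * x = 1 → x = 1 ∨ x = z := by
    intro x hx hxx
    by_cases hx1 : x = 1
    · exact Or.inl hx1
    · right
      have hxc : x ∈ center Q := Subgroup.mem_center_iff.mpr (fun y => (hx y).symm)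
      have hxo : orderOf x = 2 := orderOf_eq_prime (by rw [sq]; exact hxx) hx1
      have h5 : (⟨x, hxc⟩ : center Q) = ⟨z, hzc⟩ := by
        apply eq_of_orderOf_two hZcyc
        · rw [← Subgroup.orderOf_coe]; exact hxo
        · rw [← Subgroup.orderOf_coe]; exact hz
      exact congrArg Subtype.val h5
  refine ⟨Subgroup.mem_top _, ?_, hzz, fun x _ => (Subgroup.mem_center_iff.mp hzc x).symm,
    fun x _ y _ => h.comm hz hzc x y, ?_, fun x _ hx => hcen x (fun y => hx y (Subgroup.mem_top _))⟩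
  · rintro rfl; simp at hz
  · intro x _
    apply hcen
    · intro y
      have h1 := (comm_mul_iff' (h.comm hz hzc y x) (h.comm hz hzc y x) hzz
        (Subgroup.mem_center_iff.mp hzc x).symm).mpr Iff.rfl
      exact h1.symm
    · rw [← pow_four_eq]; exact h.2 x

theorem SyX.map {G H : Type u} [Group G] [Group H] {Q : Subgroup G} {z : G} (h : SyX Q z)
    (f : G →* H) (hf : Function.Injective f) : SyX (Q.map f) (f z) := by
  refine ⟨⟨z, h.mem, rfl⟩, fun h1 => h.ne (hf (by rw [h1, map_one])), by rw [← map_mul, h.sq, map_one],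
    ?_, ?_, ?_, ?_⟩
  · rintro _ ⟨x, hx, rfl⟩
    rw [← map_mul, h.zc x hx, map_mul]
  · rintro _ ⟨x, hx, rfl⟩ _ ⟨y, hy, rfl⟩
    rcases h.comm x hx y hy with h1 | h1
    · left; rw [← map_mul, h1, map_mul]
    · right; rw [← map_mul, h1, map_mul, map_mul]
  · rintro _ ⟨x, hx, rfl⟩
    rcases h.sqr x hx with h1 | h1
    · left; rw [← map_mul, h1, map_one]
    · right; rw [← map_mul, h1]
  · rintro _ ⟨x, hx, rfl⟩ hc hxx
    rcases h.cen x hx (fun y hy => hf (by rw [map_mul, map_mul]; exact hc _ ⟨y, hy, rfl⟩))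
      (hf (by rw [map_mul, map_one]; exact hxx)) with h1 | h1
    · left; rw [h1, map_one]
    · right; rw [h1]

section Core

variable {G : Type u} [Group G] {P Q : Subgroup G} {z z' : G}

theorem SyX.K1 (h : SyX Q z) {p q r : G} (hp : p ∈ Q) (hq : q ∈ Q) (hr : r ∈ Q) :
    p * (q * r) = (q * r) * p ↔ (p * q = q * p ↔ p * r = r * p) :=
  comm_mul_iff' (h.comm p hp q hq) (h.comm p hp r hr) h.sq (h.zc q hq)

theorem SyX.conj_eq (h : SyX Q z) {p q : G} (hp : p ∈ Q) (hq : q ∈ Q) :
    p * q * p⁻¹ = q ∨ p * q * p⁻¹ = z * q := by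
  rcases h.comm p hp q hq with h1 | h1
  · left; rw [h1]; group
  · right; rw [h1]; group

/-- property (E): commuting noncentral elements have central product -/
def PropE (Q : Subgroup G) : Prop := ∀ u ∈ Q, ∀ v ∈ Q, u * v = v * u →
  (∀ q ∈ Q, u * q = q * u) ∨ (∀ q ∈ Q, v * q = q * v) ∨ (∀ q ∈ Q, (u * v) * q = q * (u * v))

theorem SyX.propE (h : SyX Q z) (hz'Q : z' ∈ Q) (hz'z' : z' * z' = 1) {x : G} (hx : x ∈ Q)
    (hxz' : x * z' ≠ z' * x)
    (hR : ∀ a ∈ Q, a * z' = z' * a → ∀ b ∈ Q, b * z' = z' * b → a * b = b * a) : PropE Q := by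
  have hxz := (h.comm x hx z' hz'Q).resolve_left hxz'
  -- every element is in `R` or in `x R`
  have hdich : ∀ q ∈ Q, q * z' = z' * q ∨ (x⁻¹ * q) * z' = z' * (x⁻¹ * q) := by
    intro q hq
    by_cases hqz : q * z' = z' * q
    · exact Or.inl hqz
    · right
      have h1 := (h.K1 hz'Q (Q.inv_mem hx) hq).mpr ⟨fun h2 => absurd (inv_comm_iff.mp h2).symm hxz',
        fun h2 => absurd h2.symm hqz⟩
      exact h1.symm
  have hcent : ∀ r ∈ Q, r * z' = z' * r → r * x = x * r → ∀ q ∈ Q, r * q = q * r := by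
    intro r hr hrz hrx q hq
    rcases hdich q hq with h1 | h1
    · exact hR r hr hrz q hq h1
    · have h2 := hR r hr hrz _ (Q.mul_mem (Q.inv_mem hx) hq) h1
      calc r * q = (r * x) * (x⁻¹ * q) := by group
        _ = x * (r * (x⁻¹ * q)) := by rw [hrx]; group
        _ = q * r := by rw [h2]; group
  have hRz : ∀ r ∈ Q, r * z' = z' * r → (∀ q ∈ Q, r * q = q * r) ∨
      (∀ q ∈ Q, (r * z') * q = q * (r * z')) := by
    intro r hr hrz
    by_cases hrx : r * x = x * r
    · exact Or.inl (hcent r hr hrz hrx)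
    · right
      apply hcent (r * z') (Q.mul_mem hr hz'Q)
      · calc r * z' * z' = (z' * r) * z' := by rw [hrz]
          _ = z' * (r * z') := by rw [mul_assoc]
      · have h1 := (h.K1 hx hr hz'Q).mpr ⟨fun h2 => absurd h2.symm hrx, fun h2 => absurd h2 hxz'⟩
        exact h1.symm
  intro u hu v hv huv
  by_cases huR : u * z' = z' * u
  · by_cases hvR : v * z' = z' * v
    · rcases hRz u hu huR with h1 | h1
      · exact Or.inl h1
      · rcases hRz v hv hvR with h2 | h2
        · exact Or.inr (Or.inl h2)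
        · right; right
          intro q hq
          have h3 : u * v = (u * z') * (v * z') := by
            calc u * v = u * (z' * z') * v := by rw [hz'z', mul_one]
              _ = (u * z') * (z' * v) := by group
              _ = (u * z') * (v * z') := by rw [hvR]
          rw [h3, mul_assoc, h2 q hq, ← mul_assoc, h1 q hq, mul_assoc]
    · -- `v ∉ R`
      rcases hRz u hu huR with h1 | h1
      · exact Or.inl h1
      · exfalso
        apply hvR
        have h2 := h1 v hv
        have h3 := (h.K1 hv hu hz'Q).mp h2.symm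
        exact h3.mp huv.symm
  · by_cases hvR : v * z' = z' * v
    · rcases hRz v hv hvR with h1 | h1
      · exact Or.inr (Or.inl h1)
      · exfalso
        apply huR
        have h2 := h1 u hu
        exact ((h.K1 hu hv hz'Q).mp h2.symm).mp huv
    · right; right
      have huvR : (u * v) * z' = z' * (u * v) := by
        have h1 := (h.K1 hz'Q hu hv).mpr ⟨fun h2 => absurd h2.symm huR, fun h2 => absurd h2.symm hvR⟩
        exact h1.symm
      rcases hRz (u * v) (Q.mul_mem hu hv) huvR with h1 | h1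
      · exact h1
      · exfalso
        apply huR
        have h2 := h1 u hu
        have h3 : u * (u * v) = (u * v) * u := by rw [mul_assoc, ← huv]
        exact ((h.K1 hu (Q.mul_mem hu hv) hz'Q).mp h2.symm).mp h3

theorem PropE.conj (h : PropE Q) (g : G) : PropE (Q.map (MulAut.conj g).toMonoidHom) := by
  rintro _ ⟨u, hu, rfl⟩ _ ⟨v, hv, rfl⟩ huv
  have hinj : Function.Injective (MulAut.conj g).toMonoidHom := (MulAut.conj g).injective
  rw [← map_mul, ← map_mul] at huv
  rcases h u hu v hv (hinj huv) with h1 | h1 | h1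
  · left
    rintro _ ⟨q, hq, rfl⟩
    rw [← map_mul, h1 q hq, map_mul]
  · right; left
    rintro _ ⟨q, hq, rfl⟩
    rw [← map_mul, h1 q hq, map_mul]
  · right; right
    rintro _ ⟨q, hq, rfl⟩
    rw [← map_mul, ← map_mul, h1 q hq, map_mul]

end Core

section Core2

variable {G : Type u} [Group G] {P Q : Subgroup G} {z z' : G}

theorem SyX.exists_notComm (h : SyX Q z) (hz'Q : z' ∈ Q) (hz'1 : z' ≠ 1) (hz'z' : z' * z' = 1)
    (hne : z' ≠ z) : ∃ x ∈ Q, x * z' ≠ z' * x := by
  by_contra hcon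
  push Not at hcon
  rcases h.cen z' hz'Q (fun y hy => (hcon y hy).symm) hz'z' with h1 | h1
  · exact hz'1 h1
  · exact hne h1

/-- main case analysis: `z` commutes with all of `P` -/
theorem core_comm (hQ : SyX Q z) (hP : SyX P z') (hne : z' ≠ z) (hz'Q : z' ∈ Q)
    (hNQ : ∀ c, c * z = z * c → c ∈ normalizer (Q : Set G))
    (hNP : ∀ c, c * z' = z' * c → c ∈ normalizer (P : Set G))
    (g : G) (hPg : P = Q.map (MulAut.conj g).toMonoidHom) (hzP : z ∉ P)
    (hv : ∀ v ∈ P, v * z * v⁻¹ ≠ z' * z) : ∀ p ∈ P, p * z = z * p := by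
  have hzz' : z * z' = z' * z := hQ.zc z' hz'Q
  obtain ⟨x, hxQ, hxz'⟩ := hQ.exists_notComm hz'Q hP.ne hP.sq hne
  have hcN : ∀ {N : Subgroup G} {c q : G}, c ∈ normalizer (N : Set G) → q ∈ N → c * q * c⁻¹ ∈ N :=
    fun {N c q} hc hq => (Subgroup.mem_normalizer_iff.mp hc q).mp hq
  have hcomN : ∀ {N : Subgroup G} {c q : G}, c ∈ normalizer (N : Set G) → q ∈ N →
      c * q * c⁻¹ * q⁻¹ ∈ N := fun {N c q} hc hq => N.mul_mem (hcN hc hq) (N.inv_mem hq)
  have hcomN' : ∀ {N : Subgroup G} {c q : G}, c ∈ normalizer (N : Set G) → q ∈ N →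
      q * c * q⁻¹ * c⁻¹ ∈ N := fun {N c q} hc hq => by
    have : q * c * q⁻¹ * c⁻¹ = q * (c * q⁻¹ * c⁻¹) := by group
    rw [this]; exact N.mul_mem hq (hcN hc (N.inv_mem hq))
  -- `R ∩ P`
  have hQP : ∀ u ∈ Q, u ∈ P → u = 1 ∨ u = z' := by
    have hcR : ∀ u ∈ Q, u ∈ P → ∀ a ∈ Q, a * z' = z' * a → a * u = u * a := by
      intro u hu huP a ha haz
      rcases hQ.comm a ha u hu with h1 | h1
      · exact h1
      · exfalso
        apply hzP
        have h2 : z = a * u * a⁻¹ * u⁻¹ := by rw [h1]; group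
        rw [h2]
        exact hcomN (hNP a haz) huP
    have hdich : ∀ q ∈ Q, q * z' = z' * q ∨ (x⁻¹ * q) * z' = z' * (x⁻¹ * q) := by
      intro q hq
      by_cases hqz : q * z' = z' * q
      · exact Or.inl hqz
      · right
        have h1 := (hQ.K1 hz'Q (Q.inv_mem hxQ) hq).mpr ⟨fun h2 => absurd (inv_comm_iff.mp h2).symm hxz',
          fun h2 => absurd h2.symm hqz⟩
        exact h1.symm
    have hbase : ∀ u ∈ Q, u ∈ P → x * u = u * x → u = 1 := by
      intro u hu huP hxu
      have hcen : ∀ q ∈ Q, u * q = q * u := by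
        intro q hq
        rcases hdich q hq with h1 | h1
        · exact (hcR u hu huP q hq h1).symm
        · have h2 := hcR u hu huP _ (Q.mul_mem (Q.inv_mem hxQ) hq) h1
          calc u * q = (u * x) * (x⁻¹ * q) := by group
            _ = x * (u * (x⁻¹ * q)) := by rw [← hxu]; group
            _ = q * u := by rw [← h2]; group
      rcases hQ.sqr u hu with h1 | h1
      · rcases hQ.cen u hu hcen h1 with h2 | h2
        · exact h2
        · exfalso; rw [h2] at huP; exact hzP huP
      · exfalso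
        apply hzP
        rw [← h1]; exact P.mul_mem huP huP
    intro u hu huP
    by_cases hxu : x * u = u * x
    · exact Or.inl (hbase u hu huP hxu)
    · right
      have h1 := hbase (u * z') (Q.mul_mem hu hz'Q) (P.mul_mem huP hP.mem)
        ((hQ.K1 hxQ hu hz'Q).mpr ⟨fun h => absurd h hxu, fun h => absurd h hxz'⟩)
      calc u = (u * z') * z'⁻¹ := by group
        _ = z'⁻¹ := by rw [h1, one_mul]
        _ = z' := inv_eq_of_mul_eq_one_left hP.sq
  -- commutators of `C_P(z)` with `R`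
  have hCP : ∀ c ∈ P, c * z = z * c → ∀ a ∈ Q, a * z' = z' * a →
      c * a * c⁻¹ * a⁻¹ = 1 ∨ c * a * c⁻¹ * a⁻¹ = z' := by
    intro c hc hcz a ha haz
    apply hQP
    · exact hcomN (hNQ c hcz) ha
    · exact hcomN' (hNP a haz) hc
  have hzN : z ∈ normalizer (P : Set G) := hNP z hzz'
  have hwP : ∀ p ∈ P, p * z * p⁻¹ * z⁻¹ ∈ P := fun p hp => hcomN' hzN hp
  have hzinv : z⁻¹ = z := inv_eq_of_mul_eq_one_left hQ.sq
  have hz'inv : z'⁻¹ = z' := inv_eq_of_mul_eq_one_left hP.sq
  -- F1
  have hF1 : ∀ p ∈ P, (p * z * p⁻¹ * z⁻¹ = 1 ∨ p * z * p⁻¹ * z⁻¹ = z') → p * z = z * p := by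
    intro p hp h1
    rcases h1 with h1 | h1
    · calc p * z = (p * z * p⁻¹ * z⁻¹) * (z * p) := by group
        _ = z * p := by rw [h1, one_mul]
    · exfalso
      apply hv p hp
      calc p * z * p⁻¹ = (p * z * p⁻¹ * z⁻¹) * z := by group
        _ = z' * z := by rw [h1]
  -- F2
  have hF2 : ∀ p ∈ P, z * (p * z * p⁻¹ * z⁻¹) * z⁻¹ = (p * z * p⁻¹ * z⁻¹)⁻¹ := by
    intro p _
    calc z * (p * z * p⁻¹ * z⁻¹) * z⁻¹ = z * p * z * p⁻¹ * (z * z)⁻¹ := by group
      _ = z * p * z⁻¹ * p⁻¹ := by rw [hQ.sq, hzinv]; group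
      _ = _ := by group
  have hF2' : ∀ p ∈ P, (p * z * p⁻¹ * z⁻¹) * z = z * (p * z * p⁻¹ * z⁻¹) := by
    intro p hp
    apply hF1 _ (hwP p hp)
    set w := p * z * p⁻¹ * z⁻¹ with hw
    have h1 := hF2 p hp
    have h2 : w * z * w⁻¹ * z⁻¹ = w * w := by
      calc w * z * w⁻¹ * z⁻¹ = w * (z * w * z⁻¹)⁻¹ := by group
        _ = w * w := by rw [h1, inv_inv]
    rw [h2]
    exact hP.sqr w (hwP p hp)
  have hww : ∀ p ∈ P, (p * z * p⁻¹ * z⁻¹) * (p * z * p⁻¹ * z⁻¹) = 1 := by
    intro p hp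
    have h1 := hF2 p hp
    have h2 := hF2' p hp
    set w := p * z * p⁻¹ * z⁻¹ with hw
    have h3 : w = w⁻¹ := by
      calc w = z * w * z⁻¹ := by rw [← h2]; group
        _ = w⁻¹ := h1
    calc w * w = w * w⁻¹ := by rw [← h3]
      _ = 1 := by group
  by_cases hRab : ∀ a ∈ Q, a * z' = z' * a → ∀ b ∈ Q, b * z' = z' * b → a * b = b * a
  · -- `R` abelian
    have hE : PropE P := by
      rw [hPg]
      exact (hQ.propE hz'Q hP.sq hxQ hxz' hRab).conj g
    intro p hp
    set w := p * z * p⁻¹ * z⁻¹ with hw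
    have hwPm : w ∈ P := hwP p hp
    have hwz : w * z = z * w := hF2' p hp
    have hw2 : w * w = 1 := hww p hp
    -- it suffices that `w` is central in `P`
    have hred : (∀ q ∈ P, w * q = q * w) → p * z = z * p := by
      intro hc
      exact hF1 p hp (hP.cen w hwPm hc hw2)
    have hpz : p * z * p⁻¹ = w * z := by rw [hw]; group
    have hppz : (p * p) * z = z * (p * p) := by
      rcases hP.sqr p hp with h1 | h1
      · rw [h1]; group
      · rw [h1]; exact hzz'.symm
    have hpw : p * w = w * p := by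
      have h1 : p * (p * z * p⁻¹) * p⁻¹ = z := by
        calc p * (p * z * p⁻¹) * p⁻¹ = ((p * p) * z) * (p * p)⁻¹ := by group
          _ = z := by rw [hppz]; group
      rw [hpz] at h1
      have h2 : p * w * p⁻¹ * (w * z) = z := by
        calc p * w * p⁻¹ * (w * z) = p * w * p⁻¹ * (p * z * p⁻¹) := by rw [hpz]
          _ = p * (w * z) * p⁻¹ := by group
          _ = z := h1
      have h3 : p * w * p⁻¹ * w = 1 := by
        calc p * w * p⁻¹ * w = (p * w * p⁻¹ * (w * z)) * z⁻¹ := by group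
          _ = 1 := by rw [h2]; group
      have hwinv : w⁻¹ = w := inv_eq_of_mul_eq_one_left hw2
      have h4 : p * w * p⁻¹ = w := by
        calc p * w * p⁻¹ = (p * w * p⁻¹ * w) * w⁻¹ := by group
          _ = w := by rw [h3, one_mul, hwinv]
      calc p * w = (p * w * p⁻¹) * p := by group
        _ = w * p := by rw [h4]
    -- central elements are carried by `z` to central elements
    have hzcen : ∀ u ∈ P, (∀ q ∈ P, u * q = q * u) → ∀ q ∈ P, (z * u * z⁻¹) * q = q * (z * u * z⁻¹) := by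
      intro u hu huc q hq
      have h1 : z⁻¹ * q * z ∈ P := by
        have := hcN (Subgroup.inv_mem _ hzN) hq
        simpa using this
      have h2 := huc _ h1
      calc (z * u * z⁻¹) * q = z * (u * (z⁻¹ * q * z)) * z⁻¹ := by group
        _ = z * ((z⁻¹ * q * z) * u) * z⁻¹ := by rw [h2]
        _ = q * (z * u * z⁻¹) := by group
    have hpc : (∀ q ∈ P, p * q = q * p) → ∀ q ∈ P, w * q = q * w := by
      intro hc q hq
      have h1 := hzcen p hp hc
      have h2 : w = p * (z * p * z⁻¹)⁻¹ := by rw [hw]; group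
      have h3 : (z * p * z⁻¹)⁻¹ * q = q * (z * p * z⁻¹)⁻¹ := (inv_comm_iff.mpr (h1 q hq).symm).symm
      rw [h2, mul_assoc, h3, ← mul_assoc, hc q hq, mul_assoc]
    rcases hE p hp w hwPm hpw with h1 | h1 | h1
    · exact hred (hpc h1)
    · exact hred h1
    · apply hred
      apply hpc
      have h2 := hzcen _ (P.mul_mem hp hwPm) h1
      have h3 : z * (p * w) * z⁻¹ = p := by
        have h4 : z * p * z⁻¹ = w⁻¹ * p := by rw [hw]; group
        have h5 : z * w * z⁻¹ = w := by rw [← hwz]; group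
        calc z * (p * w) * z⁻¹ = (z * p * z⁻¹) * (z * w * z⁻¹) := by group
          _ = w⁻¹ * (p * w) := by rw [h4, h5]; group
          _ = p := by rw [hpw]; group
      rw [h3] at h2
      exact h2
  · -- `R` nonabelian: work modulo `z'`
    push Not at hRab
    obtain ⟨a, ha, haz, b, hb, hbz, hab⟩ := hRab
    have habz := (hQ.comm a ha b hb).resolve_left hab
    set C' := centralizer ({z'} : Set G) with hC'
    have hmem : ∀ {c : G}, c * z' = z' * c → c ∈ C' :=
      fun {c} h => Subgroup.mem_centralizer_singleton_iff.mpr h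
    have hz'C : z' ∈ C' := hmem rfl
    let N : Subgroup C' := Subgroup.zpowers ⟨z', hz'C⟩
    have hNle : N ≤ center C' := by
      rw [Subgroup.zpowers_le, Subgroup.mem_center_iff]
      intro c
      exact Subtype.ext (Subgroup.mem_centralizer_singleton_iff.mp c.2)
    haveI hNn : N.Normal := Cfsg.Agent.H11.Components.normal_of_le_center hNle
    have hNmem : ∀ c : C', c ∈ N ↔ (c : G) = 1 ∨ (c : G) = z' := by
      intro c
      have h1 : (⟨z', hz'C⟩ : C') * ⟨z', hz'C⟩ = 1 := Subtype.ext hP.sq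
      rw [Cfsg.Agent.H28.Xsp.mem_zpowers_of_sq h1]
      constructor
      · rintro (h | h)
        · left; rw [h]; rfl
        · right; rw [h]
      · rintro (h | h)
        · left; exact Subtype.ext h
        · right; exact Subtype.ext h
    let π := QuotientGroup.mk' N
    have hπ : ∀ c d : C', π c * π d = π d * π c ↔
        ((c : G) * d * (c : G)⁻¹ * (d : G)⁻¹ = 1 ∨ (c : G) * d * (c : G)⁻¹ * (d : G)⁻¹ = z') := by
      intro c d
      have h1 := hNmem (c * d * c⁻¹ * d⁻¹)
      have h2 : π (c * d * c⁻¹ * d⁻¹) = 1 ↔ π c * π d = π d * π c := by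
        rw [map_mul, map_mul, map_mul, map_inv, map_inv]
        exact commutatorElement_eq_one_iff_mul_comm
      rw [← h2, ← MonoidHom.mem_ker, QuotientGroup.ker_mk', h1]
      rfl
    have hzC : z ∈ C' := hmem hzz'
    have haC : a ∈ C' := hmem haz
    have hbC : b ∈ C' := hmem hbz
    have hPC : ∀ {p : G}, p ∈ P → p ∈ C' := fun {p} hp => hmem (hP.zc p hp).symm
    -- facts
    have G1 : ∀ (p : G) (hp : p ∈ P), π ⟨p, hPC hp⟩ * π ⟨z, hzC⟩ = π ⟨z, hzC⟩ * π ⟨p, hPC hp⟩ →
        p * z = z * p := by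
      intro p hp h
      exact hF1 p hp ((hπ _ _).mp h)
    have G3 : ∀ (c : G) (hc : c ∈ P), c * z = z * c → ∀ (r : G) (hr : r ∈ Q) (hrz : r * z' = z' * r),
        π ⟨c, hPC hc⟩ * π ⟨r, hmem hrz⟩ = π ⟨r, hmem hrz⟩ * π ⟨c, hPC hc⟩ := by
      intro c hc hcz r hr hrz
      exact (hπ _ _).mpr (hCP c hc hcz r hr hrz)
    have GP : ∀ (p : G) (hp : p ∈ P) (q : G) (hq : q ∈ P),
        π ⟨p, hPC hp⟩ * π ⟨q, hPC hq⟩ = π ⟨q, hPC hq⟩ * π ⟨p, hPC hp⟩ := by
      intro p hp q hq
      rw [hπ]
      rcases hP.comm p hp q hq with h | h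
      · left
        show p * q * p⁻¹ * q⁻¹ = 1
        rw [h]; group
      · right
        show p * q * p⁻¹ * q⁻¹ = z'
        rw [h]; group
    -- key: for `r ∈ R`, `p ∈ P`: `s = r p r⁻¹ p⁻¹` commutes with `z`
    have key : ∀ (r : G) (hr : r ∈ Q) (hrz : r * z' = z' * r) (p : G) (hp : p ∈ P),
        (r * p * r⁻¹ * p⁻¹) * z = z * (r * p * r⁻¹ * p⁻¹) := by
      intro r hr hrz p hp
      have hsP : r * p * r⁻¹ * p⁻¹ ∈ P := hcomN (hNP r hrz) hp
      apply G1 _ hsP
      -- `ω = z p z⁻¹ p⁻¹ ∈ P` commutes with `z`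
      have hωP : z * p * z⁻¹ * p⁻¹ ∈ P := hcomN hzN hp
      have hωz : (z * p * z⁻¹ * p⁻¹) * z = z * (z * p * z⁻¹ * p⁻¹) := by
        have h1 := hF2' p hp
        have h2 : z * p * z⁻¹ * p⁻¹ = (p * z * p⁻¹ * z⁻¹)⁻¹ := by group
        rw [h2]
        exact (inv_comm_iff.mpr h1.symm).symm
      have h3 := G3 _ hωP hωz r hr hrz
      -- set names in the quotient
      set R' := π ⟨r, hmem hrz⟩ with hR'
      set Z' := π ⟨z, hzC⟩ with hZ'
      set p' := π ⟨p, hPC hp⟩ with hp'
      set ω := π ⟨z * p * z⁻¹ * p⁻¹, hPC hωP⟩ with hω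
      have hωeq : ω = Z' * p' * Z'⁻¹ * p'⁻¹ := by
        rw [hω, hZ', hp', ← map_mul, ← map_inv, ← map_mul, ← map_inv, ← map_mul]; rfl
      have hRZ : R' * Z' = Z' * R' := by
        rw [hR', hZ', ← map_mul, ← map_mul]
        congr 1
        exact Subtype.ext (hQ.zc r hr).symm
      have hseq : π ⟨r * p * r⁻¹ * p⁻¹, hPC hsP⟩ = R' * p' * R'⁻¹ * p'⁻¹ := by
        rw [hR', hp', ← map_mul, ← map_inv, ← map_mul, ← map_inv, ← map_mul]; rfl
      have hcomm1 : π ⟨r * p * r⁻¹ * p⁻¹, hPC hsP⟩ * ω = ω * π ⟨r * p * r⁻¹ * p⁻¹, hPC hsP⟩ :=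
        GP _ hsP _ hωP
      rw [hseq] at hcomm1 ⊢
      -- `Z' s Z'⁻¹ = ω s ω⁻¹ = s`
      have h4 : Z' * (R' * p' * R'⁻¹ * p'⁻¹) * Z'⁻¹ = R' * p' * R'⁻¹ * p'⁻¹ := by
        calc Z' * (R' * p' * R'⁻¹ * p'⁻¹) * Z'⁻¹
            = (Z' * R') * p' * (Z' * R')⁻¹ * (Z' * p' * Z'⁻¹)⁻¹ := by group
          _ = (R' * Z') * p' * (R' * Z')⁻¹ * (Z' * p' * Z'⁻¹)⁻¹ := by rw [hRZ]
          _ = R' * (Z' * p' * Z'⁻¹) * R'⁻¹ * (Z' * p' * Z'⁻¹)⁻¹ := by group
          _ = R' * (ω * p') * R'⁻¹ * (ω * p')⁻¹ := by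
              have : Z' * p' * Z'⁻¹ = ω * p' := by rw [hωeq]; group
              rw [this]
          _ = (R' * ω * R'⁻¹) * (R' * p' * R'⁻¹ * p'⁻¹) * ω⁻¹ := by group
          _ = ω * (R' * p' * R'⁻¹ * p'⁻¹) * ω⁻¹ := by rw [← h3]; group
          _ = R' * p' * R'⁻¹ * p'⁻¹ := by rw [← hcomm1]; group
      calc (R' * p' * R'⁻¹ * p'⁻¹) * Z' = (Z' * (R' * p' * R'⁻¹ * p'⁻¹) * Z'⁻¹) * Z' := by rw [h4]
        _ = Z' * (R' * p' * R'⁻¹ * p'⁻¹) := by group
    -- conclusion
    intro q0 hq0
    -- `q0 = (b a) p (b a)⁻¹`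
    have hba : (b * a) * z' = z' * (b * a) := by rw [mul_assoc, haz, ← mul_assoc, hbz, mul_assoc]
    set p := (b * a)⁻¹ * q0 * (b * a) with hpdef
    have hp : p ∈ P := by
      have := hcN (Subgroup.inv_mem _ (hNP _ hba)) hq0
      simpa [hpdef] using this
    have hsP : a * p * a⁻¹ * p⁻¹ ∈ P := hcomN (hNP a haz) hp
    have htP : b * p * b⁻¹ * p⁻¹ ∈ P := hcomN (hNP b hbz) hp
    have e1 := G3 _ hsP (key a ha haz p hp) b hb hbz
    have e2 := G3 _ htP (key b hb hbz p hp) a ha haz
    have e3 := GP _ hsP _ htP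
    apply G1 q0 hq0
    set A := π ⟨a, hmem haz⟩ with hA
    set B := π ⟨b, hmem hbz⟩ with hB
    set Z' := π ⟨z, hzC⟩ with hZ'
    set p' := π ⟨p, hPC hp⟩ with hp'
    have hs : π ⟨a * p * a⁻¹ * p⁻¹, hPC hsP⟩ = A * p' * A⁻¹ * p'⁻¹ := by
      rw [hA, hp', ← map_mul, ← map_inv, ← map_mul, ← map_inv, ← map_mul]; rfl
    have ht : π ⟨b * p * b⁻¹ * p⁻¹, hPC htP⟩ = B * p' * B⁻¹ * p'⁻¹ := by
      rw [hB, hp', ← map_mul, ← map_inv, ← map_mul, ← map_inv, ← map_mul]; rfl
    rw [hs] at e1 e3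
    rw [ht] at e2 e3
    set s := A * p' * A⁻¹ * p'⁻¹ with hsdef
    set t := B * p' * B⁻¹ * p'⁻¹ with htdef
    have hABZ : A * B = Z' * (B * A) := by
      rw [hA, hB, hZ', ← map_mul, ← map_mul, ← map_mul]
      congr 1
      exact Subtype.ext habz
    have h5 : (A * B) * p' * (A * B)⁻¹ = t * s * p' := by
      have h6 : B * p' * B⁻¹ = t * p' := by rw [htdef]; group
      have h7 : A * p' * A⁻¹ = s * p' := by rw [hsdef]; group
      calc (A * B) * p' * (A * B)⁻¹ = A * (B * p' * B⁻¹) * A⁻¹ := by group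
        _ = (A * t * A⁻¹) * (A * p' * A⁻¹) := by rw [h6]; group
        _ = t * (s * p') := by rw [← e2, h7]; group
        _ = t * s * p' := by group
    have h6 : (B * A) * p' * (B * A)⁻¹ = t * s * p' := by
      have h6 : B * p' * B⁻¹ = t * p' := by rw [htdef]; group
      have h7 : A * p' * A⁻¹ = s * p' := by rw [hsdef]; group
      calc (B * A) * p' * (B * A)⁻¹ = B * (A * p' * A⁻¹) * B⁻¹ := by group
        _ = (B * s * B⁻¹) * (B * p' * B⁻¹) := by rw [h7]; group
        _ = s * t * p' := by rw [← e1, h6]; group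
        _ = t * s * p' := by rw [e3]
    have hq0' : π ⟨q0, hPC hq0⟩ = (B * A) * p' * (B * A)⁻¹ := by
      rw [hB, hA, hp', ← map_mul, ← map_mul, ← map_inv, ← map_mul]
      congr 1
      apply Subtype.ext
      show q0 = (b * a) * p * (b * a)⁻¹
      rw [hpdef]; group
    have h8 : Z' * ((B * A) * p' * (B * A)⁻¹) * Z'⁻¹ = (B * A) * p' * (B * A)⁻¹ := by
      calc Z' * ((B * A) * p' * (B * A)⁻¹) * Z'⁻¹ = (Z' * (B * A)) * p' * (Z' * (B * A))⁻¹ := by group
        _ = (B * A) * p' * (B * A)⁻¹ := by rw [← hABZ, h5, h6]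
    rw [hq0']
    calc ((B * A) * p' * (B * A)⁻¹) * Z' = (Z' * ((B * A) * p' * (B * A)⁻¹) * Z'⁻¹) * Z' := by rw [h8]
      _ = Z' * ((B * A) * p' * (B * A)⁻¹) := by group

end Core2

section Core3

variable {G : Type u} [Group G] {P Q : Subgroup G} {z z' : G}

theorem core_mem (hQ : SyX Q z) (hP : SyX P z') (hne : z' ≠ z) (hz'Q : z' ∈ Q)
    (hNQ : ∀ c, c * z = z * c → c ∈ normalizer (Q : Set G))
    (hNP : ∀ c, c * z' = z' * c → c ∈ normalizer (P : Set G))
    (hCP : ∀ c, (∀ p ∈ P, p * c = c * p) → c ∈ P)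
    (g : G) (hg : g * z * g⁻¹ = z') (hPg : P = Q.map (MulAut.conj g).toMonoidHom) : z ∈ P := by
  by_contra hzP
  have hzz' : z * z' = z' * z := hQ.zc z' hz'Q
  obtain ⟨x, hxQ, hxz'⟩ := hQ.exists_notComm hz'Q hP.ne hP.sq hne
  apply hzP
  apply hCP
  apply core_comm hQ hP hne hz'Q hNQ hNP g hPg hzP
  intro v hv hvz
  apply hzP
  -- `h = v x v` swaps `z` and `z'`
  have hxz : x * z' * x⁻¹ = z * z' := by
    rw [(hQ.comm x hxQ z' hz'Q).resolve_left hxz']; group
  have hxzz : x * z * x⁻¹ = z := by rw [← hQ.zc x hxQ]; group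
  have hvz' : v * z' * v⁻¹ = z' := by rw [← hP.zc v hv]; group
  set h := v * x * v with hh
  have h1 : h * z * h⁻¹ = z' := by
    calc h * z * h⁻¹ = v * (x * (v * z * v⁻¹) * x⁻¹) * v⁻¹ := by rw [hh]; group
      _ = v * ((x * z' * x⁻¹) * (x * z * x⁻¹)) * v⁻¹ := by rw [hvz]; group
      _ = v * (z * z' * z) * v⁻¹ := by rw [hxz, hxzz]
      _ = v * z' * v⁻¹ := by rw [hzz', mul_assoc z', hQ.sq, mul_one]
      _ = z' := hvz'
  have h2 : h * z' * h⁻¹ = z := by
    calc h * z' * h⁻¹ = v * (x * (v * z' * v⁻¹) * x⁻¹) * v⁻¹ := by rw [hh]; group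
      _ = v * (z * z') * v⁻¹ := by rw [hvz', hxz]
      _ = (v * z * v⁻¹) * (v * z' * v⁻¹) := by group
      _ = z' * z * z' := by rw [hvz, hvz']
      _ = z := by rw [← hzz', mul_assoc, hP.sq, mul_one]
  have h3 : (g⁻¹ * h) * z = z * (g⁻¹ * h) := by
    calc (g⁻¹ * h) * z = g⁻¹ * (h * z * h⁻¹) * h := by group
      _ = g⁻¹ * (g * z * g⁻¹) * h := by rw [h1, hg]
      _ = z * (g⁻¹ * h) := by group
  have h4 := map_conj_eq_iff.mpr (hNQ _ h3)
  have h5 : Q.map (MulAut.conj h).toMonoidHom = P := by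
    rw [hPg, ← congrArg (Subgroup.map (MulAut.conj g).toMonoidHom) h4, map_conj_mul]
    congr 2; group
  rw [← h5, ← h2]
  exact conj_mem_map_conj.mpr hz'Q

theorem core_aut (hQ : SyX Q z) (hP : SyX P z') (hne : z' ≠ z) (hz'Q : z' ∈ Q) (hzP : z ∈ P) :
    ∀ u ∈ Subgroup.closure ({z, z'} : Set G), ∀ v ∈ Subgroup.closure ({z, z'} : Set G),
      u ≠ 1 → v ≠ 1 → u ≠ v → ∃ x ∈ Q ⊔ P, x * z * x⁻¹ = u ∧ x * z' * x⁻¹ = v := by
  have hzz' : z * z' = z' * z := hQ.zc z' hz'Q
  obtain ⟨x, hxQ, hxz'⟩ := hQ.exists_notComm hz'Q hP.ne hP.sq hne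
  obtain ⟨y, hyP, hyz⟩ := hP.exists_notComm hzP hQ.ne hQ.sq (Ne.symm hne)
  have hx1 : x * z' * x⁻¹ = z * z' := by
    rw [(hQ.comm x hxQ z' hz'Q).resolve_left hxz']; group
  have hx2 : x * z * x⁻¹ = z := by rw [← hQ.zc x hxQ]; group
  have hy1 : y * z * y⁻¹ = z * z' := by
    rw [(hP.comm y hyP z hzP).resolve_left hyz, hzz']; group
  have hy2 : y * z' * y⁻¹ = z' := by rw [← hP.zc y hyP]; group
  have hz'zz : z' * (z * z') = z := by rw [hzz', ← mul_assoc, hP.sq, one_mul]
  have hzzz' : z * (z * z') = z' := by rw [← mul_assoc, hQ.sq, one_mul]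
  have hyx : y * (z * z') * y⁻¹ = z := by
    calc y * (z * z') * y⁻¹ = (y * z * y⁻¹) * (y * z' * y⁻¹) := by group
      _ = z * z' * z' := by rw [hy1, hy2]
      _ = z := by rw [mul_assoc, hP.sq, mul_one]
  have hxx : x * (z * z') * x⁻¹ = z' := by
    calc x * (z * z') * x⁻¹ = (x * z * x⁻¹) * (x * z' * x⁻¹) := by group
      _ = z * (z * z') := by rw [hx1, hx2]
      _ = z' := hzzz'
  have hcl : ∀ u ∈ Subgroup.closure ({z, z'} : Set G), u = 1 ∨ u = z ∨ u = z' ∨ u = z * z' := by
    intro u hu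
    induction hu using Subgroup.closure_induction with
    | mem u hu =>
      rcases hu with h | h
      · exact Or.inr (Or.inl h)
      · exact Or.inr (Or.inr (Or.inl h))
    | one => exact Or.inl rfl
    | mul a b _ _ iha ihb =>
      have e1 : z * z' * z = z' := by rw [mul_assoc, ← hzz', hzzz']
      have e2 : z * z' * z' = z := by rw [mul_assoc, hP.sq, mul_one]
      have e3 : z * z' * (z * z') = 1 := by rw [← mul_assoc, e1, hP.sq]
      rcases iha with h | h | h | h <;> rcases ihb with h' | h' | h' | h' <;> rw [h, h'] <;>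
        simp [hQ.sq, hP.sq, hzz'.symm, hzzz', hz'zz, e1, e2, e3]
    | inv a _ iha =>
      have e1 : z⁻¹ = z := inv_eq_of_mul_eq_one_left hQ.sq
      have e2 : z'⁻¹ = z' := inv_eq_of_mul_eq_one_left hP.sq
      rcases iha with h | h | h | h <;> rw [h] <;> simp [e1, e2, hzz'.symm]
  intro u hu v hv hu1 hv1 huv
  have hxM : x ∈ Q ⊔ P := (le_sup_left : Q ≤ _) hxQ
  have hyM : y ∈ Q ⊔ P := (le_sup_right : P ≤ _) hyP
  have comp : ∀ (s t w : G), (s * t) * w * (s * t)⁻¹ = s * (t * w * t⁻¹) * s⁻¹ := by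
    intro s t w; group
  rcases hcl u hu with h | h | h | h
  · exact absurd h hu1
  · -- `u = z`
    rcases hcl v hv with h' | h' | h' | h'
    · exact absurd h' hv1
    · exact absurd (h.trans h'.symm) huv
    · refine ⟨1, Subgroup.one_mem _, ?_, ?_⟩
      · rw [h]; group
      · rw [h']; group
    · exact ⟨x, hxM, by rw [h, hx2], by rw [h', hx1]⟩
  · -- `u = z'`
    rcases hcl v hv with h' | h' | h' | h'
    · exact absurd h' hv1
    · -- `z ↦ z'`, `z' ↦ z`: `y x y`
      refine ⟨y * (x * y), Subgroup.mul_mem _ hyM (Subgroup.mul_mem _ hxM hyM), ?_, ?_⟩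
      · rw [comp, comp, hy1, hxx, hy2, h]
      · rw [comp, comp, hy2, hx1, hyx, h']
    · exact absurd (h.trans h'.symm) huv
    · -- `z ↦ z'`, `z' ↦ z z'`: `x y`
      refine ⟨x * y, Subgroup.mul_mem _ hxM hyM, ?_, ?_⟩
      · rw [comp, hy1, hxx, h]
      · rw [comp, hy2, hx1, h']
  · -- `u = z z'`
    rcases hcl v hv with h' | h' | h' | h'
    · exact absurd h' hv1
    · -- `z ↦ z z'`, `z' ↦ z`: `y x`
      refine ⟨y * x, Subgroup.mul_mem _ hyM hxM, ?_, ?_⟩
      · rw [comp, hx2, hy1, h]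
      · rw [comp, hx1, hyx, h']
    · exact ⟨y, hyM, by rw [h, hy1], by rw [h', hy2]⟩
    · exact absurd (h.trans h'.symm) huv

end Core3

/-- S1774 -/
theorem S1774_main {G : Type u} [Group G] [Finite G] (z : G) (hz : orderOf z = 2) (C : Subgroup G)
    (hC : ∀ c, c ∈ C ↔ c * z = z * c) (F : Subgroup C) [hFn : F.Normal]
    (hFc : centralizer (F : Set C) ≤ F) (hF : IsOfSymplecticType ↥F)
    (h4 : ∀ q ∈ F.map C.subtype, q ^ 4 = 1) (g : G) (hne : g * z * g⁻¹ ≠ z)
    (hin : g * z * g⁻¹ ∈ F.map C.subtype) :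
    z ∈ (F.map C.subtype).map (MulAut.conj g).toMonoidHom ∧
      ∀ u ∈ Subgroup.closure ({z, g * z * g⁻¹} : Set G),
        ∀ v ∈ Subgroup.closure ({z, g * z * g⁻¹} : Set G),
        u ≠ 1 → v ≠ 1 → u ≠ v →
          ∃ x ∈ F.map C.subtype ⊔ (F.map C.subtype).map (MulAut.conj g).toMonoidHom,
            x * z * x⁻¹ = u ∧ x * (g * z * g⁻¹) * x⁻¹ = v := by
  have hzC : z ∈ C := (hC z).mpr rfl
  have hzF : (⟨z, hzC⟩ : C) ∈ F := by
    apply hFc
    rw [Subgroup.mem_centralizer_iff]
    intro y _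
    exact Subtype.ext ((hC y).mp y.2)
  have hSX : SX F := ⟨hF, fun q => by
    have := h4 (q : C) ⟨q, q.2, rfl⟩
    exact Subtype.ext (Subtype.ext this)⟩
  have hzF2 : orderOf (⟨⟨z, hzC⟩, hzF⟩ : F) = 2 := by
    rw [← Subgroup.orderOf_coe, ← Subgroup.orderOf_coe]; exact hz
  have hzFc : (⟨⟨z, hzC⟩, hzF⟩ : F) ∈ center F := by
    rw [Subgroup.mem_center_iff]
    intro y
    exact Subtype.ext (Subtype.ext ((hC y.1).mp y.1.2))
  have h1 := hSX.syX hzF2 hzFc
  have h2 := h1.map (C.subtype.comp F.subtype) (C.subtype_injective.comp F.subtype_injective)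
  rw [← Subgroup.map_map, ← MonoidHom.range_eq_map, Subgroup.range_subtype] at h2
  change SyX (F.map C.subtype) z at h2
  set Q := F.map C.subtype with hQ
  have h3 : SyX (Q.map (MulAut.conj g).toMonoidHom) (g * z * g⁻¹) :=
    h2.map (MulAut.conj g).toMonoidHom (MulAut.conj g).injective
  have hNQ : ∀ c, c * z = z * c → c ∈ normalizer (Q : Set G) := by
    intro c hc
    have h6 := Subgroup.le_normalizer_map (H := F) C.subtype
    rw [Subgroup.normalizer_eq_top] at h6
    exact h6 ⟨⟨c, (hC c).mpr hc⟩, trivial, rfl⟩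
  have hNP : ∀ c, c * (g * z * g⁻¹) = (g * z * g⁻¹) * c →
      c ∈ normalizer ((Q.map (MulAut.conj g).toMonoidHom : Subgroup G) : Set G) := by
    intro c hc
    have h4 : (g⁻¹ * c * g) * z = z * (g⁻¹ * c * g) := by
      calc (g⁻¹ * c * g) * z = g⁻¹ * (c * (g * z * g⁻¹)) * g := by group
        _ = g⁻¹ * ((g * z * g⁻¹) * c) * g := by rw [hc]
        _ = z * (g⁻¹ * c * g) := by group
    have h5 := map_conj_eq_iff.mpr (hNQ _ h4)
    rw [← map_conj_eq_iff, map_conj_mul]
    have h6 : c * g = g * (g⁻¹ * c * g) := by group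
    rw [h6, ← map_conj_mul, h5]
  have hCQ : ∀ c, (∀ p ∈ Q, p * c = c * p) → c ∈ Q := by
    intro c hc
    have hcC : c ∈ C := (hC c).mpr (hc z h2.mem).symm
    refine ⟨⟨c, hcC⟩, ?_, rfl⟩
    apply hFc
    rw [Subgroup.mem_centralizer_iff]
    intro y hy
    exact Subtype.ext (hc y ⟨y, hy, rfl⟩)
  have hCP : ∀ c, (∀ p ∈ Q.map (MulAut.conj g).toMonoidHom, p * c = c * p) →
      c ∈ Q.map (MulAut.conj g).toMonoidHom := by
    intro c hc
    rw [mem_map_conj]
    apply hCQ
    intro p hp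
    have := hc (g * p * g⁻¹) (conj_mem_map_conj.mpr hp)
    calc p * (g⁻¹ * c * g) = g⁻¹ * (g * p * g⁻¹ * c) * g := by group
      _ = g⁻¹ * (c * (g * p * g⁻¹)) * g := by rw [this]
      _ = (g⁻¹ * c * g) * p := by group
  have hzP := core_mem h2 h3 hne hin hNQ hNP hCP g rfl rfl
  exact ⟨hzP, core_aut h2 h3 hne hin hzP⟩

end Cfsg.Agent.H11.Symp4
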