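import Mathlib
set_option autoImplicit false

/-! Field-theoretic part of the last step of the odd order theorem. -/

namespace Cfsg.Agent.H12.FinalStep

/-- Core argument: a finite-dimensional extension `F` of `ZMod p` of dimension `q` and an element `a ≠ 1`
such that all `(1+(k+1)b)/(1+kb)` have norm one. -/
theorem le_of_closed {F : Type*} [Field F] (p q : ℕ) [Fact p.Prime] [Algebra (ZMod p) F]
    [FiniteDimensional (ZMod p) F]
    (hdim : Module.finrank (ZMod p) F = q)
    (E : Set F) (hE : ∀ a ∈ E, Algebra.norm (ZMod p) a = 1)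
    (hE2 : ∀ a ∈ E, 2 - a ∈ E) (hinv : ∀ a ∈ E, a⁻¹ ∈ E)
    (a : F) (ha : a ∈ E) (ha1 : a ≠ 1) : p ≤ q := by
  classical
  set b : F := a - 1 with hb
  have hb0 : b ≠ 0 := sub_ne_zero.mpr ha1
  have hpos : 0 < q := by
    rw [← hdim]; exact Module.finrank_pos
  -- iteration
  have key : ∀ k : ℕ, Algebra.norm (ZMod p) (1 + (k : F) * b) = 1 ∧
      (1 + ((k + 1 : ℕ) : F) * b) / (1 + (k : F) * b) ∈ E := by
    intro k
    induction k with
    | zero =>
      constructor
      · simp
      · simpa [hb] using ha
    | succ k ih =>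
      obtain ⟨ih1, ih2⟩ := ih
      have hk0 : (1 + (k : F) * b) ≠ 0 := by
        intro h0
        rw [h0, Algebra.norm_zero] at ih1
        exact zero_ne_one ih1
      have hN : Algebra.norm (ZMod p) (1 + ((k + 1 : ℕ) : F) * b) = 1 := by
        have h := hE _ ih2
        have e : (1 + ((k + 1 : ℕ) : F) * b) =
            (1 + ((k + 1 : ℕ) : F) * b) / (1 + (k : F) * b) * (1 + (k : F) * b) :=
          (div_mul_cancel₀ _ hk0).symm
        rw [e, map_mul, h, ih1, one_mul]
      have hk10 : (1 + ((k + 1 : ℕ) : F) * b) ≠ 0 := by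
        intro h0
        rw [h0, Algebra.norm_zero] at hN
        exact zero_ne_one hN
      refine ⟨hN, ?_⟩
      have h := hE2 _ (hinv _ ih2)
      convert h using 1
      push_cast at *
      field_simp
      ring
  -- characteristic polynomial of multiplication by -b
  set f : F →ₗ[ZMod p] F := LinearMap.mulLeft (ZMod p) (-b) with hf
  have hev : ∀ c : ZMod p, f.charpoly.eval c = Algebra.norm (ZMod p) (algebraMap (ZMod p) F c + b) := by
    intro c
    rw [LinearMap.eval_charpoly, Algebra.norm_apply]
    congr 1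
    ext x
    simp [hf, Algebra.algebraMap_eq_smul_one]
  have hval : ∀ c : ZMod p, c ≠ 0 → f.charpoly.eval c = c ^ q := by
    intro c hc
    rw [hev]
    have h1 := (key (c⁻¹.val)).1
    have h2 : ((c⁻¹.val : ℕ) : F) = algebraMap (ZMod p) F c⁻¹ := by
      rw [← map_natCast (algebraMap (ZMod p) F), ZMod.natCast_zmod_val]
    rw [h2] at h1
    have h3 : algebraMap (ZMod p) F c + b =
        algebraMap (ZMod p) F c * (1 + algebraMap (ZMod p) F c⁻¹ * b) := by
      have hc' : algebraMap (ZMod p) F c ≠ 0 := by
        simpa using hc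
      rw [map_inv₀]
      field_simp
    rw [h3, map_mul, h1, mul_one, Algebra.norm_algebraMap, hdim]
  -- the difference polynomial
  by_contra hlt
  push Not at hlt
  set g : Polynomial (ZMod p) := f.charpoly - Polynomial.X ^ q with hg
  have hdeg : g.degree < (q : WithBot ℕ) := by
    have hm : f.charpoly.Monic := LinearMap.charpoly_monic f
    have hdf : f.charpoly.natDegree = q := by rw [LinearMap.charpoly_natDegree, hdim]
    have h1 : f.charpoly.degree = (q : WithBot ℕ) := by
      rw [Polynomial.degree_eq_natDegree hm.ne_zero, hdf]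
    rw [← h1]
    apply Polynomial.degree_sub_lt_left
    · rw [h1, Polynomial.degree_X_pow]
    · exact hm.ne_zero
    · rw [hm.leadingCoeff, Polynomial.leadingCoeff_X_pow]
  have hg0 : g = 0 := by
    apply Polynomial.eq_zero_of_degree_lt_of_eval_finset_eq_zero (Finset.univ.erase (0 : ZMod p))
    · rw [Finset.card_erase_of_mem (Finset.mem_univ _), Finset.card_univ, ZMod.card]
      refine lt_of_lt_of_le hdeg ?_
      exact_mod_cast (by omega : q ≤ p - 1)
    · intro x hx
      have hx0 : x ≠ 0 := (Finset.mem_erase.mp hx).1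
      simp [hg, hval x hx0]
  have h0 : f.charpoly.eval 0 = 0 := by
    have : f.charpoly = Polynomial.X ^ q := by
      rw [← sub_eq_zero]; exact hg0
    rw [this]
    simp [hpos.ne']
  rw [hev] at h0
  simp only [map_zero, zero_add] at h0
  exact hb0 (Algebra.norm_eq_zero_iff.mp h0)

end Cfsg.Agent.H12.FinalStep
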