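import Mathlib
set_option autoImplicit false

/-! Two elements of the final-step set: character sums for q ≥ 5, a pigeonhole argument for q = 3. -/

namespace Cfsg.Agent.H12.FinalStepCount
open Finset Complex

theorem exists_ne_one_of_large {F : Type*} [Field F] [Fintype F] [DecidableEq F] (h2 : (2 : F) ≠ 0)
    (U : Finset F) (h1 : (1 : F) ∈ U) (h0 : (0 : F) ∉ U) (hmul : ∀ u ∈ U, ∀ v ∈ U, u * v ∈ U)
    (s : ℝ) (hs : 0 ≤ s) (hss : s * s = (Fintype.card F : ℝ))
    (hbig : (Fintype.card F : ℝ) + s * (Fintype.card F : ℝ) < (U.card : ℝ) ^ 2) :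
    ∃ x ∈ U, 2 - x ∈ U ∧ x ≠ 1 := by
  classical
  by_contra hcon
  push Not at hcon
  obtain ⟨ψ, hprim⟩ : ∃ ψ : AddChar F ℂ, ψ.IsPrimitive :=
    ⟨_, AddChar.FiniteField.primitiveChar_to_Complex_isPrimitive F⟩
  have hchar : 0 < ringChar F := by
    have := CharP.char_is_prime F (ringChar F)
    exact this.pos
  have hconj : ∀ a : F, (starRingEnd ℂ) (ψ a) = ψ (-a) := by
    intro a
    rw [AddChar.starComp_apply hchar, AddChar.inv_apply]
  have hsum : ∀ c : F, ∑ b : F, ψ (b * c) = if c = 0 then (Fintype.card F : ℂ) else 0 := by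
    intro c
    rw [AddChar.sum_mulShift c hprim]
    split_ifs <;> simp
  set S : F → ℂ := fun b => ∑ x ∈ U, ψ (x * b) with hS
  have hSconj : ∀ b, (starRingEnd ℂ) (S b) = S (-b) := by
    intro b
    simp only [hS, map_sum, hconj]
    apply Finset.sum_congr rfl
    intro x _
    congr 1
    ring
  set n : ℝ := (Fintype.card F : ℝ) with hn
  set u : ℝ := (U.card : ℝ) with hu
  have hUpos : 0 < U.card := Finset.card_pos.mpr ⟨1, h1⟩
  have hupos : 0 < u := by rw [hu]; exact_mod_cast hUpos
  -- Count
  have hcount : ∑ b : F, S b * S b * ψ (-(2 * b)) = (Fintype.card F : ℂ) := by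
    have e1 : ∀ b : F, S b * S b * ψ (-(2 * b)) = ∑ x ∈ U, ∑ y ∈ U, ψ (b * (x + y - 2)) := by
      intro b
      simp only [hS]
      rw [Finset.sum_mul_sum, Finset.sum_mul]
      apply Finset.sum_congr rfl
      intro x _
      rw [Finset.sum_mul]
      apply Finset.sum_congr rfl
      intro y _
      rw [← AddChar.map_add_eq_mul, ← AddChar.map_add_eq_mul]
      congr 1
      ring
    simp_rw [e1]
    rw [Finset.sum_comm]
    have e2 : ∀ x ∈ U, ∑ b : F, ∑ y ∈ U, ψ (b * (x + y - 2)) = if x = 1 then (Fintype.card F : ℂ) else 0 := by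
      intro x hx
      rw [Finset.sum_comm]
      simp_rw [hsum]
      by_cases hx1 : x = 1
      · rw [if_pos hx1, hx1]
        rw [Finset.sum_eq_single_of_mem 1 h1]
        · norm_num
        · intro y hy hy1
          rw [if_neg]
          intro h
          apply hy1
          linear_combination h
      · rw [if_neg hx1]
        apply Finset.sum_eq_zero
        intro y hy
        rw [if_neg]
        intro h
        apply hx1
        apply hcon x hx
        have : (2 : F) - x = y := by linear_combination -h
        rw [this]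
        exact hy
    rw [Finset.sum_congr rfl e2]
    rw [Finset.sum_ite_eq' U (1 : F), if_pos h1]
  -- Second moment
  have hmom : ∑ b : F, ‖S b‖ ^ 2 = n * u := by
    have e1 : ((∑ b : F, ‖S b‖ ^ 2 : ℝ) : ℂ) = ((n * u : ℝ) : ℂ) := by
      push_cast
      have : ∀ b : F, ((‖S b‖ : ℂ)) ^ 2 = S b * S (-b) := by
        intro b
        rw [← hSconj, Complex.mul_conj, Complex.normSq_eq_norm_sq]
        push_cast
        rfl
      simp_rw [this]
      have e3 : ∀ b : F, S b * S (-b) = ∑ x ∈ U, ∑ y ∈ U, ψ (b * (x - y)) := by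
        intro b
        simp only [hS]
        rw [Finset.sum_mul_sum]
        apply Finset.sum_congr rfl
        intro x _
        apply Finset.sum_congr rfl
        intro y _
        rw [← AddChar.map_add_eq_mul]
        congr 1
        ring
      simp_rw [e3]
      rw [Finset.sum_comm]
      have e2 : ∀ x ∈ U, ∑ b : F, ∑ y ∈ U, ψ (b * (x - y)) = (Fintype.card F : ℂ) := by
        intro x hx
        rw [Finset.sum_comm]
        simp_rw [hsum]
        rw [Finset.sum_eq_single_of_mem x hx]
        · simp
        · intro y hy hy1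
          rw [if_neg]
          intro h
          exact hy1 (sub_eq_zero.mp h).symm
      rw [Finset.sum_congr rfl e2]
      simp [hn, hu, mul_comm]
    exact_mod_cast e1
  -- bound for single value
  have hSinv : ∀ v ∈ U, ∀ b, S (v * b) = S b := by
    intro v hv b
    have hv0 : v ≠ 0 := fun h => h0 (h ▸ hv)
    have himg : U.image (fun x => x * v) = U := by
      apply Finset.eq_of_subset_of_card_le
      · intro y hy
        obtain ⟨x, hx, rfl⟩ := Finset.mem_image.mp hy
        exact hmul x hx v hv
      · rw [Finset.card_image_of_injective]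
        intro x y hxy
        exact mul_right_cancel₀ hv0 hxy
    simp only [hS]
    conv_rhs => rw [← himg]
    rw [Finset.sum_image]
    · apply Finset.sum_congr rfl
      intro x _
      congr 1
      ring
    · intro x _ y _ hxy
      exact mul_right_cancel₀ hv0 hxy
  have hbound : ∀ c : F, c ≠ 0 → ‖S c‖ ≤ s := by
    intro c hc
    have h1' : u * ‖S c‖ ^ 2 ≤ n * u := by
      rw [← hmom]
      have : u * ‖S c‖ ^ 2 = ∑ b ∈ U.image (fun v => v * c), ‖S b‖ ^ 2 := by
        rw [Finset.sum_image]
        · rw [Finset.sum_congr rfl (fun v hv => by rw [hSinv v hv c])]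
          simp [hu]
        · intro x _ y _ hxy
          exact mul_right_cancel₀ hc hxy
      rw [this]
      apply Finset.sum_le_sum_of_subset_of_nonneg (Finset.subset_univ _)
      intro i _ _
      positivity
    have h2' : ‖S c‖ ^ 2 ≤ n := by
      have : u * ‖S c‖ ^ 2 ≤ u * n := by linarith
      exact le_of_mul_le_mul_left this hupos
    have h3' : ‖S c‖ ^ 2 ≤ s ^ 2 := by rw [pow_two s, hss]; exact h2'
    exact le_of_sq_le_sq h3' hs
  -- the main estimate
  set T : ℂ := ∑ b ∈ Finset.univ.erase (0 : F), S b * S b * ψ (-(2 * b)) with hT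
  have hTval : T = (n : ℂ) - (u : ℂ) ^ 2 := by
    have : S 0 * S 0 * ψ (-(2 * 0)) + T = (Fintype.card F : ℂ) := by
      rw [hT, Finset.add_sum_erase _ (fun b => S b * S b * ψ (-(2 * b))) (Finset.mem_univ (0 : F))]
      exact hcount
    have hS0 : S 0 = (u : ℂ) := by simp [hS, hu]
    rw [hS0] at this
    simp only [mul_zero, neg_zero, AddChar.map_zero_eq_one, mul_one] at this
    rw [hn]
    push_cast
    linear_combination this
  have hTavg : (u : ℂ) * T = ∑ b ∈ Finset.univ.erase (0 : F), S b * S b * S (-(2 * b)) := by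
    have : ∀ v ∈ U, T = ∑ b ∈ Finset.univ.erase (0 : F), S b * S b * ψ (v * (-(2 * b))) := by
      intro v hv
      have hv0 : v ≠ 0 := fun h => h0 (h ▸ hv)
      rw [hT]
      symm
      apply Finset.sum_bij (fun b _ => v * b)
      · intro b hb
        simp only [Finset.mem_erase, Finset.mem_univ, and_true] at hb ⊢
        exact mul_ne_zero hv0 hb
      · intro a _ b _ hab
        exact mul_left_cancel₀ hv0 hab
      · intro b hb
        refine ⟨v⁻¹ * b, ?_, ?_⟩
        · simp only [Finset.mem_erase, Finset.mem_univ, and_true] at hb ⊢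
          exact mul_ne_zero (inv_ne_zero hv0) hb
        · field_simp
      · intro b hb
        rw [hSinv v hv]
        congr 2
        ring
    calc (u : ℂ) * T = ∑ v ∈ U, T := by simp [hu]
      _ = ∑ v ∈ U, ∑ b ∈ Finset.univ.erase (0 : F), S b * S b * ψ (v * (-(2 * b))) :=
          Finset.sum_congr rfl this
      _ = ∑ b ∈ Finset.univ.erase (0 : F), ∑ v ∈ U, S b * S b * ψ (v * (-(2 * b))) :=
          Finset.sum_comm
      _ = _ := by
          apply Finset.sum_congr rfl
          intro b _
          rw [← Finset.mul_sum]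
  have hfin : u * ‖T‖ ≤ u * (s * n) := by
    have h3 : ‖(u : ℂ) * T‖ ≤ ∑ b ∈ Finset.univ.erase (0 : F), ‖S b‖ ^ 2 * s := by
      rw [hTavg]
      refine (norm_sum_le _ _).trans ?_
      apply Finset.sum_le_sum
      intro b hb
      simp only [Finset.mem_erase, Finset.mem_univ, and_true] at hb
      rw [norm_mul, norm_mul]
      have : ‖S (-(2 * b))‖ ≤ s := hbound _ (neg_ne_zero.mpr (mul_ne_zero h2 hb))
      have h5 : 0 ≤ ‖S b‖ * ‖S b‖ := by positivity
      calc ‖S b‖ * ‖S b‖ * ‖S (-(2 * b))‖ ≤ ‖S b‖ * ‖S b‖ * s := by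
            exact mul_le_mul_of_nonneg_left this h5
        _ = ‖S b‖ ^ 2 * s := by ring
    rw [norm_mul, Complex.norm_real, Real.norm_of_nonneg hupos.le] at h3
    refine h3.trans ?_
    rw [← Finset.sum_mul]
    have h4 : ∑ b ∈ Finset.univ.erase (0 : F), ‖S b‖ ^ 2 ≤ n * u := by
      rw [← hmom]
      apply Finset.sum_le_sum_of_subset_of_nonneg (Finset.subset_univ _)
      intro i _ _
      positivity
    calc (∑ b ∈ Finset.univ.erase (0 : F), ‖S b‖ ^ 2) * s ≤ (n * u) * s :=
          mul_le_mul_of_nonneg_right h4 hs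
      _ = u * (s * n) := by ring
  have hfin2 : ‖T‖ ≤ s * n := le_of_mul_le_mul_left hfin hupos
  have hT' : T = ((n - u ^ 2 : ℝ) : ℂ) := by rw [hTval]; push_cast; ring
  rw [hT', Complex.norm_real, Real.norm_eq_abs] at hfin2
  have := neg_abs_le (n - u ^ 2)
  linarith


/-- kernel of the norm has `(p^q-1)/(p-1)` elements -/
theorem card_norm_one (p q : ℕ) [Fact p.Prime] {F : Type*} [Field F] [Fintype F] [DecidableEq F]
    [Algebra (ZMod p) F] (hF : Fintype.card F = p ^ q) :
    (Finset.univ.filter (fun x : F => Algebra.norm (ZMod p) x = 1)).card * (p - 1) = p ^ q - 1 := by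
  classical
  have hsurj := FiniteField.unitsMap_norm_surjective (ZMod p) F
  set φ : Fˣ →* (ZMod p)ˣ := Units.map (Algebra.norm (ZMod p) (S := F)) with hφ
  have h1 : Nat.card φ.ker * Nat.card φ.range = Nat.card Fˣ := by
    rw [← Subgroup.index_ker]
    exact Subgroup.card_mul_index _
  have h2 : Nat.card φ.range = p - 1 := by
    rw [MonoidHom.range_eq_top.mpr hsurj, Subgroup.card_top, Nat.card_eq_fintype_card, ZMod.card_units]
  have h3 : Nat.card Fˣ = p ^ q - 1 := by
    rw [Nat.card_eq_fintype_card, Fintype.card_units, hF]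
  rw [h2, h3] at h1
  rw [← h1]
  congr 1
  have e : φ.ker ≃ {x : F // x ∈ Finset.univ.filter (fun x : F => Algebra.norm (ZMod p) x = 1)} :=
    { toFun := fun x => ⟨(x.1 : F), by
        have := x.2
        rw [MonoidHom.mem_ker] at this
        have h := congrArg Units.val this
        simpa [hφ] using h⟩
      invFun := fun x => ⟨Units.mk0 x.1 (by
        intro h0
        have := x.2
        rw [Finset.mem_filter, h0, Algebra.norm_zero] at this
        exact zero_ne_one this.2), by
        rw [MonoidHom.mem_ker]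
        ext
        have := x.2
        rw [Finset.mem_filter] at this
        simpa [hφ] using this.2⟩
      left_inv := fun x => by
        ext; simp
      right_inv := fun x => by
        ext; simp }
  rw [Nat.card_congr e, Nat.card_eq_fintype_card, Fintype.card_coe]

theorem exists_ne_one_five (p q : ℕ) [Fact p.Prime] (hp : p ≠ 2) (hq : 5 ≤ q) {F : Type*} [Field F] [Fintype F]
    [Algebra (ZMod p) F] (hF : Fintype.card F = p ^ q) :
    ∃ x : F, Algebra.norm (ZMod p) x = 1 ∧ Algebra.norm (ZMod p) (2 - x) = 1 ∧ x ≠ 1 := by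
  classical
  have hp3 : 3 ≤ p := by
    have := (Fact.out : p.Prime).two_le
    omega
  have hcharF : CharP F p := by
    exact charP_of_injective_algebraMap' (ZMod p) (A := F) p
  have h2 : (2 : F) ≠ 0 := by
    intro h
    have h' : ((2 : ℕ) : F) = 0 := by exact_mod_cast h
    rw [CharP.cast_eq_zero_iff F p] at h'
    have := Nat.le_of_dvd (by norm_num) h'
    omega
  set U := Finset.univ.filter (fun x : F => Algebra.norm (ZMod p) x = 1) with hU
  have hcard := card_norm_one p q (F := F) hF
  rw [← hU] at hcard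
  set u := U.card with hu
  -- u ≥ p^(q-1) + p^(q-2)
  have hu1 : p ^ (q - 1) + p ^ (q - 2) ≤ u := by
    have hpow : p ^ q = p ^ (q - 2) * (p * p) := by
      have : q = (q - 2) + 2 := by omega
      conv_lhs => rw [this, pow_add]
      ring
    have hpow1 : p ^ (q - 1) = p ^ (q - 2) * p := by
      have : q - 1 = (q - 2) + 1 := by omega
      rw [this, pow_succ]
    have hpos : 1 ≤ p ^ (q - 2) := Nat.one_le_pow _ _ (by omega)
    obtain ⟨r, rfl⟩ : ∃ r, p = r + 1 := ⟨p - 1, by omega⟩
    set m := (r + 1) ^ (q - 2) with hm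
    have hr : 2 ≤ r := by omega
    rw [hpow] at hcard
    simp only [Nat.add_sub_cancel] at hcard
    rw [hpow1]
    by_contra hlt
    push Not at hlt
    have h1 : u * r ≤ (m * (r + 1) + m - 1) * r := Nat.mul_le_mul_right _ (by omega)
    have h3 : (m * (r + 1) + m - 1) * r = (m * (r + 2)) * r - r := by
      rw [Nat.sub_mul, one_mul]
      congr 1
    rw [h3, hcard] at h1
    have h4 : m * ((r + 1) * (r + 1)) = (m * (r + 2)) * r + m := by ring
    rw [h4] at h1
    have : r ≤ m * (r + 2) * r := by
      calc r = 1 * 1 * r := by ring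
        _ ≤ m * (r + 2) * r := by gcongr; omega
    omega
  set s : ℝ := Real.sqrt (Fintype.card F : ℝ) with hs
  have hs0 : 0 ≤ s := Real.sqrt_nonneg _
  have hss : s * s = (Fintype.card F : ℝ) := Real.mul_self_sqrt (by positivity)
  have hsle : s ≤ (p : ℝ) ^ (q - 2) := by
    rw [hs, Real.sqrt_le_left (by positivity), hF]
    push_cast
    rw [← pow_mul]
    apply pow_le_pow_right₀
    · exact_mod_cast (by omega : 1 ≤ p)
    · omega
  have h0 : (0 : F) ∉ U := by
    simp [hU, Algebra.norm_zero]
  have h1 : (1 : F) ∈ U := by simp [hU]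
  have hmul : ∀ u ∈ U, ∀ v ∈ U, u * v ∈ U := by
    intro a ha b hb
    simp only [hU, Finset.mem_filter, Finset.mem_univ, true_and] at *
    rw [map_mul, ha, hb, one_mul]
  obtain ⟨x, hx, hx2, hx1⟩ := exists_ne_one_of_large h2 U h1 h0 hmul s hs0 hss (by
    rw [← hu]
    have hu1' : (p : ℝ) ^ (q - 1) + (p : ℝ) ^ (q - 2) ≤ (u : ℝ) := by exact_mod_cast hu1
    have hb1 : (1 : ℝ) ≤ (p : ℝ) ^ (q - 2) := by
      apply one_le_pow₀
      exact_mod_cast (by omega : 1 ≤ p)
    have hn : (Fintype.card F : ℝ) = (p : ℝ) ^ (q - 2) * ((p : ℝ) * p) := by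
      rw [hF]
      push_cast
      have : q = (q - 2) + 2 := by omega
      conv_lhs => rw [this, pow_add]
      ring
    have hp1 : (p : ℝ) ^ (q - 1) = (p : ℝ) ^ (q - 2) * p := by
      have : q - 1 = (q - 2) + 1 := by omega
      rw [this, pow_succ]
    rw [hn]
    rw [hp1] at hu1'
    have hp3' : (3 : ℝ) ≤ p := by exact_mod_cast hp3
    set m : ℝ := (p : ℝ) ^ (q - 2) with hm
    have hmp : (p : ℝ) ≤ m := by
      rw [hm]
      calc (p : ℝ) = (p : ℝ) ^ 1 := by ring
        _ ≤ (p : ℝ) ^ (q - 2) := pow_le_pow_right₀ (by linarith) (by omega)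
    have h5 : s * (m * ((p : ℝ) * p)) ≤ m * (m * ((p : ℝ) * p)) := by
      apply mul_le_mul_of_nonneg_right hsle
      positivity
    have h6 : (m * p + m) ^ 2 ≤ (u : ℝ) ^ 2 := by
      apply pow_le_pow_left₀
      · positivity
      · exact hu1'
    have h7 : m * ((p : ℝ) * p) < 2 * (m * m * p) + m * m := by
      have : m * ((p : ℝ) * p) ≤ m * (m * p) := by
        apply mul_le_mul_of_nonneg_left _ (by linarith)
        apply mul_le_mul_of_nonneg_right hmp (by linarith)
      nlinarith [mul_pos (show (0 : ℝ) < m by linarith) (show (0 : ℝ) < m by linarith), mul_pos (mul_pos (show (0 : ℝ) < m by linarith) (show (0 : ℝ) < m by linarith)) (show (0 : ℝ) < (p : ℝ) by linarith)]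
    nlinarith)
  simp only [hU, Finset.mem_filter, Finset.mem_univ, true_and] at hx hx2
  exact ⟨x, hx, hx2, hx1⟩


open Polynomial in
theorem exists_ne_one_three (p : ℕ) [Fact p.Prime] (hp : p ≠ 2) :
    ∃ x : GaloisField p 3, Algebra.norm (ZMod p) x = 1 ∧ Algebra.norm (ZMod p) (2 - x) = 1 ∧ x ≠ 1 := by
  classical
  have h20 : (2 : ZMod p) ≠ 0 := by
    intro h
    have h' : ((2 : ℕ) : ZMod p) = 0 := by exact_mod_cast h
    rw [ZMod.natCast_eq_zero_iff] at h'
    have := Nat.le_of_dvd (by norm_num) h'
    have := (Fact.out : p.Prime).two_le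
    omega
  -- pigeonhole
  obtain ⟨c, hc⟩ : ∃ c : ZMod p, ∀ x : ZMod p, x ^ 3 - c * x ^ 2 + (2 * c - 3) * x - 1 ≠ 0 := by
    by_contra hcon
    push Not at hcon
    choose r hr using hcon
    have hinj : Function.Injective r := by
      intro c c' hcc
      have h1 := hr c
      have h2 := hr c'
      rw [← hcc] at h2
      set x := r c with hx
      have h3 : (c - c') * (x * (x - 2)) = 0 := by linear_combination h2 - h1
      rcases mul_eq_zero.mp h3 with h | h
      · exact sub_eq_zero.mp h
      · rcases mul_eq_zero.mp h with h | h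
        · rw [h] at h1
          norm_num at h1
        · have hx2 : x = 2 := sub_eq_zero.mp h
          rw [hx2] at h1
          have : (1 : ZMod p) = 0 := by linear_combination h1
          exact absurd this one_ne_zero
    have hsurj : Function.Surjective r := Finite.surjective_of_injective hinj
    obtain ⟨c0, hc0⟩ := hsurj 0
    have h1 := hr c0
    rw [hc0] at h1
    norm_num at h1
  set f : (ZMod p)[X] := X ^ 3 - C c * X ^ 2 + C (2 * c - 3) * X - 1 with hf
  have hdeg : f.natDegree = 3 := by
    rw [hf]; compute_degree!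
  have hmonic : f.Monic := by
    rw [Polynomial.Monic, Polynomial.leadingCoeff, hdeg, hf]
    simp [Polynomial.coeff_X, Polynomial.coeff_one]
  have hirr : Irreducible f := by
    apply Polynomial.irreducible_of_degree_le_three_of_not_isRoot
    · rw [hdeg]; simp
    · intro x hx
      rw [Polynomial.IsRoot, hf] at hx
      simp at hx
      exact hc x (by simpa using hx)
  haveI : Fact (Irreducible f) := ⟨hirr⟩
  haveI : Finite (AdjoinRoot f) := by
    haveI : Module.Finite (ZMod p) (AdjoinRoot f) := hmonic.finite_adjoinRoot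
    exact Module.finite_of_finite (ZMod p)
  have hfr : Module.finrank (ZMod p) (AdjoinRoot f) = 3 := by
    rw [← hdeg]
    exact finrank_quotient_span_eq_natDegree
  have hcard : Nat.card (AdjoinRoot f) = p ^ 3 := by
    haveI : Module.Finite (ZMod p) (AdjoinRoot f) := hmonic.finite_adjoinRoot
    rw [Module.natCard_eq_pow_finrank (K := ZMod p), hfr, Nat.card_eq_fintype_card, ZMod.card]
  have e : AdjoinRoot f ≃ₐ[ZMod p] GaloisField p 3 := GaloisField.algEquivGaloisField p 3 hcard
  set a : GaloisField p 3 := e (AdjoinRoot.root f) with ha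
  have hroot : aeval a f = 0 := by
    rw [ha, Polynomial.aeval_algEquiv]
    simp
  have hmin : minpoly (ZMod p) a = f := by
    exact (minpoly.eq_of_irreducible_of_monic hirr hroot hmonic).symm
  set φ : GaloisField p 3 →ₗ[ZMod p] GaloisField p 3 := LinearMap.mulLeft (ZMod p) a with hφ
  have hchar : φ.charpoly = f := by
    have h1 : φ.charpoly.Monic := LinearMap.charpoly_monic φ
    have h2 : φ.charpoly.natDegree = 3 := by
      rw [LinearMap.charpoly_natDegree]; exact GaloisField.finrank p (by norm_num)
    have h3 : aeval a φ.charpoly = 0 := by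
      have := LinearMap.aeval_self_charpoly φ
      have h4 : aeval φ φ.charpoly = LinearMap.mulLeft (ZMod p) (aeval a φ.charpoly) := by
        have : φ = Algebra.lmul (ZMod p) (GaloisField p 3) a := rfl
        rw [this, Polynomial.aeval_algHom_apply]
        rfl
      rw [h4] at this
      have h5 := congrArg (fun g => g 1) this
      simpa using h5
    have h6 : f ∣ φ.charpoly := by
      rw [← hmin]; exact minpoly.dvd _ _ h3
    exact (Polynomial.eq_of_monic_of_dvd_of_natDegree_le hmonic h1 h6 (by rw [h2, hdeg])).symm ▸ rfl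
  have hev : ∀ t : ZMod p, Algebra.norm (ZMod p) (algebraMap (ZMod p) _ t - a) = f.eval t := by
    intro t
    rw [← hchar, LinearMap.eval_charpoly, Algebra.norm_apply]
    congr 1
    ext x
    simp [hφ, Algebra.algebraMap_eq_smul_one]
  refine ⟨a, ?_, ?_, ?_⟩
  · have h := hev 0
    rw [map_zero, zero_sub] at h
    have h1 : Algebra.norm (ZMod p) (-a) = - Algebra.norm (ZMod p) a := by
      have : -a = algebraMap (ZMod p) (GaloisField p 3) (-1) * a := by simp
      rw [this, map_mul, Algebra.norm_algebraMap, GaloisField.finrank p (by norm_num)]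
      ring
    rw [h1] at h
    have h2 : f.eval 0 = -1 := by simp [hf]
    rw [h2] at h
    exact neg_injective h
  · have h := hev 2
    have h3 : (algebraMap (ZMod p) (GaloisField p 3)) 2 = 2 := map_ofNat _ 2
    rw [h3] at h
    rw [h, hf]
    simp
    ring
  · intro h1
    have h := hroot
    rw [h1] at h
    have : (aeval (1 : GaloisField p 3)) f = algebraMap (ZMod p) _ (f.eval 1) := by
      rw [← Polynomial.aeval_algebraMap_apply_eq_algebraMap_eval, map_one]
    rw [this] at h
    have h2 : f.eval 1 = 0 := by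
      have hinj := (algebraMap (ZMod p) (GaloisField p 3)).injective
      exact hinj (by rw [h, map_zero])
    apply hc 1
    rw [hf] at h2
    simpa using h2

theorem exists_ne_one (p q : ℕ) [Fact p.Prime] [Fact q.Prime] (hp : p ≠ 2) (hq : q ≠ 2) :
    ∃ x : GaloisField p q, Algebra.norm (ZMod p) x = 1 ∧ Algebra.norm (ZMod p) (2 - x) = 1 ∧ x ≠ 1 := by
  classical
  have hq2 := (Fact.out : q.Prime).two_le
  by_cases h3 : q = 3
  · subst h3
    exact exists_ne_one_three p hp
  · have hq4 : q ≠ 4 := by
      intro h4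
      have := (Fact.out : q.Prime)
      rw [h4] at this
      revert this
      decide
    haveI : Fintype (GaloisField p q) := Fintype.ofFinite _
    apply exists_ne_one_five p q hp (by omega)
    rw [← Nat.card_eq_fintype_card]
    exact GaloisField.card p q (by omega)

end Cfsg.Agent.H12.FinalStepCount
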