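import Mathlib
import Cfsg.Prelude.Def_LieTwisted
import Cfsg.Agent.H6_ChevPerf
import Cfsg.Agent.H6_TwMk

/-!
The 26-dimensional ideal (short roots) of F4 in characteristic 2; exponents of 2-elements.
-/

set_option autoImplicit false
set_option linter.unusedSectionVars false
set_option maxRecDepth 100000

namespace Cfsg.Agent.H13.F4J

open Cfsg Cfsg.Lie Cfsg.Lie.ChevalleyDatum
open Cfsg.Agent.H6.Chev

/-- short roots -/
def shl : List ℕ := [3, 7, 8, 9, 10, 11, 12, 13, 14, 18, 19, 20, 27, 28, 29, 33, 34, 35, 36, 37, 38, 39, 40, 44]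

def sh (n : ℕ) : Bool := shl.any fun k => Nat.beq k n

/-- all entries from short to long are even in the chain table -/
def ckRow (row : Array (ℕ × Array (ℕ × ℤ))) : Bool :=
  row.toList.all fun e => !sh e.1 || e.2.toList.all fun q => sh q.1 || q.2 % 2 == 0

theorem ckChain : (chevF4.chain.toList.all ckRow) = true := by decide +kernel

theorem ckCartan : ((List.range 48).all fun r => sh r ||
    ((chevF4.cartanSR.getD 0 #[]).getD r 0 % 2 == 0 && (chevF4.cartanSR.getD 1 #[]).getD r 0 % 2 == 0)) = true := by
  decide +kernel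

theorem ckCor : ((List.range 48).all fun r => !sh r ||
    ((chevF4.coroot.getD r #[]).getD 2 0 % 2 == 0 && (chevF4.coroot.getD r #[]).getD 3 0 % 2 == 0)) = true := by
  decide +kernel

theorem ckNeg : ((List.range 48).all fun r => sh (chevF4.negIdx.getD r 0) == sh r) = true := by
  decide +kernel

/-- the coordinates of the ideal -/
def J : chevF4.Idx → Prop
  | Sum.inl i => i.val < 2
  | Sum.inr s => sh s.val = true

instance : DecidablePred J := fun c => by
  rcases c with i | s
  · exact inferInstanceAs (Decidable (i.val < 2))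
  · exact inferInstanceAs (Decidable (sh s.val = true))

theorem card_J : Fintype.card {c : chevF4.Idx // J c} = 26 := by decide +kernel
theorem card_notJ : Fintype.card {c : chevF4.Idx // ¬ J c} = 26 := by decide +kernel

variable {F : Type*} [Field F]

/-- block condition -/
def P (g : Matrix chevF4.Idx chevF4.Idx F) : Prop := ∀ a b, ¬ J a → J b → g a b = 0

theorem P_one : P (1 : Matrix chevF4.Idx chevF4.Idx F) := by
  intro a b ha hb
  rw [Matrix.one_apply_ne]
  rintro rfl
  exact ha hb

theorem P_mul {g h : Matrix chevF4.Idx chevF4.Idx F} (hg : P g) (hh : P h) : P (g * h) := by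
  intro a b ha hb
  rw [Matrix.mul_apply]
  apply Finset.sum_eq_zero
  intro c _
  by_cases hc : J c
  · rw [hg a c ha hc, zero_mul]
  · rw [hh c b hc hb, mul_zero]

theorem cast_even [CharP F 2] {z : ℤ} (h : (z % 2 == 0) = true) : (z : F) = 0 := by
  have h1 : z % 2 = 0 := by simpa using h
  rw [CharP.intCast_eq_zero_iff F 2 z]
  exact Int.dvd_of_emod_eq_zero h1

theorem P_xMat [CharP F 2] (r : Fin chevF4.nroots) (t : F) : P (chevF4.xMat F r t) := by
  have hr48 : r.val < 48 := r.2
  intro a b ha hb
  rcases b with i | s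
  · rcases a with i' | u
    · simp only [ChevalleyDatum.xMat, Matrix.of_apply]
      rw [if_neg]
      rintro rfl
      exact ha hb
    · simp only [ChevalleyDatum.xMat, Matrix.of_apply]
      split_ifs with hur
      · subst hur
        have h1 := List.all_eq_true.1 ckCartan u.val (List.mem_range.2 u.2)
        have hu : sh u.val = false := by
          rw [Bool.eq_false_iff]; exact ha
        rw [hu, Bool.false_or, Bool.and_eq_true] at h1
        have hi : i.val = 0 ∨ i.val = 1 := by
          have : i.val < 2 := hb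
          omega
        have h2 : ((((chevF4.cartanSR.getD i.val #[]).getD u.val 0 : ℤ)) : F) = 0 := by
          rcases hi with h | h <;> rw [h]
          · exact cast_even h1.1
          · exact cast_even h1.2
        rw [h2, neg_zero, zero_mul]
      · rfl
  · simp only [ChevalleyDatum.xMat, Matrix.of_apply]
    have hs48 : s.val < 48 := s.2
    have hs : sh s.val = true := hb
    split_ifs with hsr hsn
    · rcases a with i' | u
      · rfl
      · simp only
        rw [if_neg]
        rintro rfl
        rw [← hsr] at ha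
        exact ha hb
    · have hneg := List.all_eq_true.1 ckNeg r.val (List.mem_range.2 hr48)
      have hshr : sh r.val = true := by
        have h3 : sh (chevF4.negIdx.getD r.val 0) = sh r.val := by simpa using hneg
        rw [← h3, ← hsn]; exact hs
      rcases a with i' | u
      · simp only
        have h1 := List.all_eq_true.1 ckCor r.val (List.mem_range.2 hr48)
        rw [hshr, Bool.not_true, Bool.false_or, Bool.and_eq_true] at h1
        have hi : i'.val = 2 ∨ i'.val = 3 := by
          have h4 : i'.val < 4 := i'.2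
          have : ¬ i'.val < 2 := ha
          omega
        have h2 : ((((chevF4.coroot.getD r.val #[]).getD i'.val 0 : ℤ)) : F) = 0 := by
          rcases hi with h | h <;> rw [h]
          · exact cast_even h1.1
          · exact cast_even h1.2
        rw [h2, zero_mul]
      · simp only
        rw [if_neg, if_neg]
        · rintro rfl; exact ha hshr
        · rintro rfl; exact ha hs
    · rcases a with i' | u
      · rfl
      · simp only
        have hu : sh u.val = false := by
          rw [Bool.eq_false_iff]; exact ha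
        rw [if_neg (by rintro rfl; exact ha hs), zero_add]
        apply List.sum_eq_zero
        intro x hx
        rw [List.mem_map] at hx
        obtain ⟨km, hkm, rfl⟩ := hx
        unfold ChevalleyDatum.chainCoeff at hkm
        rw [List.mem_flatMap] at hkm
        obtain ⟨e, he, hkm⟩ := hkm
        rw [List.mem_filter] at he
        rw [List.mem_map] at hkm
        obtain ⟨q, hq, rfl⟩ := hkm
        rw [List.mem_filter] at hq
        have hes : e.1 = s.val := by simpa using he.2
        have hqu : q.1.1 = u.val := by simpa using hq.2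
        have hq' : q.1 ∈ e.2.toList := by
          have := List.fst_mem_of_mem_zipIdx hq.1
          exact this
        have hrow : ckRow (chevF4.chain.getD r.val #[]) = true := by
          by_cases hlt : r.val < chevF4.chain.size
          · have h5 : chevF4.chain.getD r.val #[] ∈ chevF4.chain.toList := by
              rw [Array.getD_eq_getD_getElem?, Array.getElem?_eq_getElem hlt, Option.getD_some]
              exact Array.getElem_mem_toList hlt
            exact List.all_eq_true.1 ckChain _ h5
          · rw [Array.getD_eq_getD_getElem?, Array.getElem?_eq_none (by omega), Option.getD_none]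
            rfl
        have h6 := List.all_eq_true.1 hrow e he.1
        rw [hes, hs, Bool.not_true, Bool.false_or] at h6
        have h7 := List.all_eq_true.1 h6 q.1 hq'
        rw [hqu, hu, Bool.false_or] at h7
        rw [show ((q.1.2 : ℤ) : F) = 0 from cast_even h7, zero_mul]

theorem P_X [CharP F 2] (r : ℕ) (t : F) : P (modelF4.X r t : Matrix chevF4.Idx chevF4.Idx F) := by
  rw [modelF4.coe_X]
  by_cases hr : r < chevF4.nroots
  · rw [x_of_lt hr]; exact P_xMat _ _
  · rw [x_of_ge hr]; exact P_one

theorem P_group [CharP F 2] {g : GL chevF4.Idx F} (hg : g ∈ chevF4.group F) :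
    P (g : Matrix chevF4.Idx chevF4.Idx F) := by
  have key : P (g : Matrix chevF4.Idx chevF4.Idx F) ∧ P ((g⁻¹ : GL chevF4.Idx F) : Matrix chevF4.Idx chevF4.Idx F) := by
    unfold ChevalleyDatum.group at hg
    induction hg using Subgroup.closure_induction with
    | mem x hx =>
      obtain ⟨r, t, hx⟩ := hx
      have h1 : x = modelF4.X r.val t := Units.ext (by rw [hx, modelF4.coe_X, x_of_lt r.2])
      rw [h1, ← modelF4.X_neg]
      exact ⟨P_X _ _, P_X _ _⟩
    | one => rw [inv_one, Units.val_one]; exact ⟨P_one, P_one⟩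
    | mul x y _ _ hx hy =>
      rw [mul_inv_rev, Units.val_mul, Units.val_mul]
      exact ⟨P_mul hx.1 hy.1, P_mul hy.2 hx.2⟩
    | inv x _ hx => rw [inv_inv]; exact ⟨hx.2, hx.1⟩
  exact key.1

/-- the action on the ideal -/
def al (g : Matrix chevF4.Idx chevF4.Idx F) : Matrix {c : chevF4.Idx // J c} {c : chevF4.Idx // J c} F :=
  g.submatrix Subtype.val Subtype.val

/-- the action on the quotient -/
def ga (g : Matrix chevF4.Idx chevF4.Idx F) : Matrix {c : chevF4.Idx // ¬ J c} {c : chevF4.Idx // ¬ J c} F :=
  g.submatrix Subtype.val Subtype.val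

theorem al_mul {g h : Matrix chevF4.Idx chevF4.Idx F} (hh : P h) : al (g * h) = al g * al h := by
  ext ⟨a, ha⟩ ⟨b, hb⟩
  simp only [al, Matrix.submatrix_apply, Matrix.mul_apply]
  rw [← Fintype.sum_subtype_add_sum_subtype J (fun c => g a c * h c b)]
  rw [add_eq_left]
  apply Finset.sum_eq_zero
  rintro ⟨c, hc⟩ _
  simp only
  rw [hh c b hc hb, mul_zero]

theorem ga_mul {g h : Matrix chevF4.Idx chevF4.Idx F} (hg : P g) : ga (g * h) = ga g * ga h := by
  ext ⟨a, ha⟩ ⟨b, hb⟩
  simp only [ga, Matrix.submatrix_apply, Matrix.mul_apply]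
  rw [← Fintype.sum_subtype_add_sum_subtype J (fun c => g a c * h c b)]
  rw [add_eq_right]
  apply Finset.sum_eq_zero
  rintro ⟨c, hc⟩ _
  simp only
  rw [hg a c ha hc, zero_mul]

theorem al_one : al (1 : Matrix chevF4.Idx chevF4.Idx F) = 1 := by
  ext a b
  simp only [al, Matrix.submatrix_apply, Matrix.one_apply, Subtype.ext_iff]

theorem ga_one : ga (1 : Matrix chevF4.Idx chevF4.Idx F) = 1 := by
  ext a b
  simp only [ga, Matrix.submatrix_apply, Matrix.one_apply, Subtype.ext_iff]

/-- the pair of actions -/
noncomputable def Φ (F : Type*) [Field F] [CharP F 2] : ↥(chevF4.group F) →*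
    Matrix {c : chevF4.Idx // J c} {c : chevF4.Idx // J c} F × Matrix {c : chevF4.Idx // ¬ J c} {c : chevF4.Idx // ¬ J c} F where
  toFun g := (al (g.1 : Matrix chevF4.Idx chevF4.Idx F), ga (g.1 : Matrix chevF4.Idx chevF4.Idx F))
  map_one' := by
    rw [OneMemClass.coe_one, Units.val_one, al_one, ga_one]; rfl
  map_mul' g h := by
    rw [Subgroup.coe_mul, Units.val_mul, al_mul (P_group h.2), ga_mul (P_group g.2)]; rfl

theorem ker_comm [CharP F 2] {g h : ↥(chevF4.group F)} (hg : Φ F g = 1) (hh : Φ F h = 1) : g * h = h * g := by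
  have key : ∀ x : ↥(chevF4.group F), Φ F x = 1 → ∀ a b : chevF4.Idx, (J b ∨ ¬ J a) →
      (x.1 : Matrix chevF4.Idx chevF4.Idx F) a b = (1 : Matrix chevF4.Idx chevF4.Idx F) a b := by
    intro x hx a b hab
    by_cases ha : J a
    · by_cases hb : J b
      · have h1 := congrArg (fun z => z.1 ⟨a, ha⟩ ⟨b, hb⟩) hx
        simp only [Φ, MonoidHom.coe_mk, OneHom.coe_mk, al, Matrix.submatrix_apply, Prod.fst_one] at h1
        rw [h1, Matrix.one_apply, Matrix.one_apply]
        simp only [Subtype.mk.injEq]
      · exfalso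
        rcases hab with h | h
        · exact hb h
        · exact h ha
    · by_cases hb : J b
      · rw [P_group x.2 a b ha hb, Matrix.one_apply_ne]
        rintro rfl; exact ha hb
      · have h1 := congrArg (fun z => z.2 ⟨a, ha⟩ ⟨b, hb⟩) hx
        simp only [Φ, MonoidHom.coe_mk, OneHom.coe_mk, ga, Matrix.submatrix_apply, Prod.snd_one] at h1
        rw [h1, Matrix.one_apply, Matrix.one_apply]
        simp only [Subtype.mk.injEq]
  have mulf : ∀ x y : ↥(chevF4.group F), Φ F x = 1 → Φ F y = 1 → ∀ a b : chevF4.Idx, J a → ¬ J b →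
      ((x * y : ↥(chevF4.group F)).1 : Matrix chevF4.Idx chevF4.Idx F) a b =
        (y.1 : Matrix chevF4.Idx chevF4.Idx F) a b + (x.1 : Matrix chevF4.Idx chevF4.Idx F) a b := by
    intro x y hx hy a b ha hb
    rw [Subgroup.coe_mul, Units.val_mul, Matrix.mul_apply]
    rw [← Fintype.sum_subtype_add_sum_subtype J (fun c => (x.1 : Matrix chevF4.Idx chevF4.Idx F) a c *
      (y.1 : Matrix chevF4.Idx chevF4.Idx F) c b)]
    congr 1
    · rw [Finset.sum_eq_single ⟨a, ha⟩]
      · rw [key x hx a a (Or.inl ha), Matrix.one_apply_eq, one_mul]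
      · rintro ⟨c, hc⟩ _ hne
        simp only
        rw [key x hx a c (Or.inl hc), Matrix.one_apply_ne, zero_mul]
        rintro rfl; exact hne rfl
      · intro h; exact absurd (Finset.mem_univ _) h
    · rw [Finset.sum_eq_single ⟨b, hb⟩]
      · rw [key y hy b b (Or.inr hb), Matrix.one_apply_eq, mul_one]
      · rintro ⟨c, hc⟩ _ hne
        simp only
        rw [key y hy c b (Or.inr hc), Matrix.one_apply_ne, mul_zero]
        rintro rfl; exact hne rfl
      · intro h; exact absurd (Finset.mem_univ _) h
  apply Subtype.ext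
  apply Units.ext
  ext a b
  by_cases ha : J a
  · by_cases hb : J b
    · rw [key (g * h) (by rw [map_mul, hg, hh, one_mul]) a b (Or.inl hb),
        key (h * g) (by rw [map_mul, hg, hh, one_mul]) a b (Or.inl hb)]
    · rw [mulf g h hg hh a b ha hb, mulf h g hh hg a b ha hb, add_comm]
  · rw [key (g * h) (by rw [map_mul, hg, hh, one_mul]) a b (Or.inr ha),
      key (h * g) (by rw [map_mul, hg, hh, one_mul]) a b (Or.inr ha)]

theorem Φ_inj [CharP F 2] {g : ↥(chevF4.group F)} (hg : Φ F g = 1) : g = 1 := by
  obtain ⟨hs, hnc⟩ := modelF4.simple_of_perfect (perfect_F4 F)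
  have hN : (Φ F).ker.Normal := inferInstance
  rcases hN.eq_bot_or_eq_top with h | h
  · have : g ∈ (Φ F).ker := MonoidHom.mem_ker.2 hg
    rw [h] at this
    exact Subgroup.mem_bot.1 this
  · exfalso
    apply hnc
    refine ⟨⟨fun a b => ?_⟩⟩
    apply ker_comm <;> rw [← MonoidHom.mem_ker, h] <;> exact Subgroup.mem_top _

theorem pow_eq_one_of_card {ι : Type*} [Fintype ι] [DecidableEq ι] [CharP F 2] {A : Matrix ι ι F} {j : ℕ}
    (hA : A ^ 2 ^ j = 1) {k : ℕ} (hk : Fintype.card ι ≤ 2 ^ k) : A ^ 2 ^ k = 1 := by
  haveI : Fact (Nat.Prime 2) := ⟨Nat.prime_two⟩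
  haveI : CharP (Matrix ι ι F) 2 ∨ IsEmpty ι := by
    rcases isEmpty_or_nonempty ι with h | h
    · exact Or.inr h
    · exact Or.inl inferInstance
  rcases this with hc | he
  · have hcomm : Commute A 1 := Commute.one_right A
    have h1 : (A - 1) ^ 2 ^ j = 0 := by
      rw [sub_pow_char_pow_of_commute (p := 2) (n := j) hcomm, hA, one_pow, sub_self]
    have hnil : IsNilpotent (Matrix.toLin' (A - 1)) := by
      refine ⟨2 ^ j, ?_⟩
      rw [← Matrix.toLin'_pow, h1, map_zero]
    have h3 := IsNilpotent.charpoly_eq_X_pow_finrank hnil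
    have h4 := LinearMap.aeval_self_charpoly (Matrix.toLin' (A - 1))
    rw [h3, map_pow, Polynomial.aeval_X, Module.finrank_fintype_fun_eq_card, ← Matrix.toLin'_pow] at h4
    have h5 : (A - 1) ^ Fintype.card ι = 0 := by
      apply Matrix.toLin'.injective
      rw [h4, map_zero]
    have h6 : (A - 1) ^ 2 ^ k = 0 := pow_eq_zero_of_le hk h5
    rw [sub_pow_char_pow_of_commute (p := 2) (n := k) hcomm, one_pow, sub_eq_zero] at h6
    exact h6
  · exact Subsingleton.elim _ _

theorem twisted_le (e : ℕ) : twistedF4 F e ≤ chevF4.group F := by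
  apply modelF4.genSub_le
  intro w _
  unfold Model.word
  apply Subgroup.list_prod_mem
  intro x hx
  rw [List.mem_map] at hx
  obtain ⟨q, _, rfl⟩ := hx
  exact modelF4.X_mem_group _ _

theorem result {K : Type*} [Field K] [Fintype K] (m : ℕ) (hK : Fintype.card K = 2 ^ (2 * m + 1))
    (x : ↥(Cfsg.Lie.twistedF4 K (2 ^ m))) (hx : ∃ j : ℕ, orderOf x = 2 ^ j) : orderOf x ≤ 32 := by
  haveI : Fact (Nat.Prime 2) := ⟨Nat.prime_two⟩
  haveI : CharP K 2 := by
    obtain ⟨p, hp⟩ := CharP.exists K
    haveI := hp
    obtain ⟨n, hpp, hn⟩ := FiniteField.card K p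
    rw [hK] at hn
    have h1 : p ∣ 2 ^ (2 * m + 1) := by
      rw [hn]; exact dvd_pow_self p n.pos.ne'
    have h2 := (Nat.prime_dvd_prime_iff_eq hpp Nat.prime_two).1 (hpp.dvd_of_dvd_pow h1)
    rw [← h2]; exact hp
  obtain ⟨j, hj⟩ := hx
  set y : ↥(chevF4.group K) := ⟨x.1, twisted_le _ x.2⟩ with hy
  have hyj : y ^ 2 ^ j = 1 := by
    apply Subtype.ext
    have h1 : x ^ 2 ^ j = 1 := by rw [← hj]; exact pow_orderOf_eq_one x
    have h2 := congrArg Subtype.val h1
    simpa using h2
  have h1 : Φ K (y ^ 32) = 1 := by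
    have h2 : (Φ K y) ^ 2 ^ j = 1 := by rw [← map_pow, hyj, map_one]
    rw [map_pow]
    have h3 : (Φ K y).1 ^ 2 ^ j = 1 := by rw [← Prod.pow_fst, h2]; rfl
    have h4 : (Φ K y).2 ^ 2 ^ j = 1 := by rw [← Prod.pow_snd, h2]; rfl
    apply Prod.ext
    · rw [Prod.pow_fst]
      exact pow_eq_one_of_card (k := 5) h3 (by rw [card_J]; norm_num)
    · rw [Prod.pow_snd]
      exact pow_eq_one_of_card (k := 5) h4 (by rw [card_notJ]; norm_num)
  have h2 := Φ_inj h1
  have h3 : x ^ 32 = 1 := by
    apply Subtype.ext
    have := congrArg Subtype.val h2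
    simpa [hy] using this
  exact Nat.le_of_dvd (by norm_num) (orderOf_dvd_of_pow_eq_one h3)

end Cfsg.Agent.H13.F4J
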