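import Mathlib
import Cfsg.Prelude.Def_CaseTheorems
import Cfsg.Agent.H17_Stab
import Cfsg.Agent.H1_Nilp
import Cfsg.Agent.H1_Partition
set_option autoImplicit false
set_option linter.all false

namespace Cfsg.Agent.H13.NU

open Cfsg Subgroup Cfsg.Agent.H17.Base
open scoped commutatorElement

variable {G : Type*} [Group G] [Finite G]

theorem nz_zpowers {u : G} (hu : u * u = 1) : Nz (zpowers u) = centralizer ({u} : Set G) := by
  ext x
  constructor
  · intro hx
    rw [mem_centralizer_singleton_iff]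
    have h1 := (mem_normalizer_iff.1 hx u).1 (mem_zpowers u)
    obtain ⟨k, hk⟩ := mem_zpowers_iff.1 h1
    have hcases : x * u * x⁻¹ = 1 ∨ x * u * x⁻¹ = u := by
      rw [← hk]
      rcases Int.even_or_odd k with ⟨m, hm⟩ | ⟨m, hm⟩
      · left
        rw [hm, ← two_mul, zpow_mul]
        have : u ^ (2 : ℤ) = 1 := by rw [zpow_ofNat, pow_two, hu]
        rw [this, one_zpow]
      · right
        rw [hm, zpow_add, zpow_mul, zpow_one]
        have : u ^ (2 : ℤ) = 1 := by rw [zpow_ofNat, pow_two, hu]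
        rw [this, one_zpow, one_mul]
    rcases hcases with h | h
    · have : u = 1 := by
        have h2 : u = x⁻¹ * (x * u * x⁻¹) * x := by group
        rw [h2, h]; group
      rw [this]; simp
    · exact mul_inv_eq_iff_eq_mul.1 h
  · intro hx
    have : x ∈ Cz (zpowers u) := by
      rw [mem_centralizer_iff]
      intro y hy
      obtain ⟨k, rfl⟩ := mem_zpowers_iff.1 hy
      have h1 : Commute x u := (mem_centralizer_singleton_iff.1 hx)
      exact (h1.zpow_right k).eq.symm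
    exact Cz_le_Nz _ this

theorem zpowers_isPGroup {u : G} (hu : u * u = 1) : IsPGroup 2 (zpowers u) := by
  rintro ⟨x, hx⟩
  obtain ⟨k, rfl⟩ := mem_zpowers_iff.1 hx
  refine ⟨1, Subtype.ext ?_⟩
  change (u ^ k) ^ 2 ^ 1 = 1
  rw [pow_one, pow_two, ← zpow_add, ← two_mul, zpow_mul]
  have : u ^ (2 : ℤ) = 1 := by rw [zpow_ofNat, pow_two, hu]
  rw [this, one_zpow]

def CT (G : Type*) [Group G] : Prop := ∀ T : Subgroup G, IsPGroup 2 T → T ≠ ⊥ → IsOfCharacteristicTwo ↥(normalizer (T : Set G))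

theorem charp (h2 : CT G) {u : G} (hu : u * u = 1) (hu1 : u ≠ 1) :
    centralizer ({u} : Set G) ⊓ Cz (pCoreOf 2 (centralizer ({u} : Set G))) ≤ pCoreOf 2 (centralizer ({u} : Set G)) := by
  have h := h2 (zpowers u) (zpowers_isPGroup hu) (by rwa [Ne, zpowers_eq_bot])
  rw [← nz_zpowers hu]
  exact (ambient_charp_iff _).1 h

/-- a subgroup of `M` all of whose odd order elements are trivial is a 2-group -/
theorem isPGroup_of (W : Subgroup G) (h : ∀ x ∈ W, (orderOf x).Coprime 2 → x = 1) : IsPGroup 2 W := by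
  haveI : Fact (Nat.Prime 2) := ⟨Nat.prime_two⟩
  rw [IsPGroup.iff_orderOf]
  rintro ⟨x, hx⟩
  obtain ⟨a, b, h1, ⟨k, hk⟩, h3⟩ := exists_pp'_decomp (p := 2) x (isOfFinOrder_of_finite x)
  have h4 := h (x ^ b) (zpow_mem hx b) h3
  rw [h4, mul_one] at h1
  refine ⟨k, ?_⟩
  rw [Subgroup.orderOf_mk, h1, hk]

theorem part1 (h2 : CT G) {P U : Subgroup G} (hP : IsSylowIn 2 P ⊤) (hUP : U ≤ P) (hPU : P ≤ Nz U)
    (hU4 : Nat.card U = 4) (hUsq : ∀ x ∈ U, x * x = 1) {u : G} (hu : u ∈ U) (hu1 : u ≠ 1)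
    (hPu : P ≤ centralizer ({u} : Set G)) :
    U ≤ pCoreOf 2 (centralizer ({u} : Set G)) := by
  haveI : Fact (Nat.Prime 2) := ⟨Nat.prime_two⟩
  set M := centralizer ({u} : Set G) with hM
  set Q := pCoreOf 2 M with hQ
  have hPM : IsSylowIn 2 P M := hP.mono hPu le_top
  have hQP : Q ≤ P := pCoreOf_le_sylow hPM
  have hu2 := hUsq u hu
  have huz : zpowers u ≤ Q := by
    apply le_pCoreOf
    · rw [zpowers_le]; exact hPu (hUP hu)
    · rw [nz_zpowers hu2]
    · exact zpowers_isPGroup hu2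
  have huU : zpowers u ≤ U := by rw [zpowers_le]; exact hu
  have hcz : Nat.card (zpowers u) = 2 := by
    rw [Nat.card_zpowers]
    exact orderOf_eq_prime (by rw [pow_two]; exact hu2) hu1
  by_contra hcon
  have hQU : Q ⊓ U = zpowers u := by
    have h3 : Nat.card ↥(Q ⊓ U) ∣ 4 := by rw [← hU4]; exact Subgroup.card_dvd_of_le inf_le_right
    have h4 : Nat.card ↥(Q ⊓ U) ≠ 4 := by
      intro h
      have : Q ⊓ U = U := Subgroup.eq_of_le_of_card_ge inf_le_right (by rw [h, hU4])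
      exact hcon (this ▸ inf_le_left)
    have h5 : zpowers u ≤ Q ⊓ U := le_inf huz huU
    have h6 : Nat.card ↥(Q ⊓ U) ≤ 2 := by
      have h7 : Nat.card ↥(Q ⊓ U) ≤ 4 := Nat.le_of_dvd (by norm_num) h3
      by_contra h8
      have : Nat.card ↥(Q ⊓ U) = 3 := by omega
      rw [this] at h3; omega
    exact (Subgroup.eq_of_le_of_card_ge h5 (by rw [hcz]; exact h6)).symm
  -- the chain stabilizer
  set W := chainStab Q (zpowers u) ⊓ M with hW
  have hMQ : M ≤ Nz Q := le_Nz_pCoreOf M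
  have hMu : M ≤ Nz (zpowers u) := by rw [nz_zpowers hu2]
  have hWn : M ≤ Nz W := by
    refine le_trans (le_inf ((le_inf hMQ hMu).trans (Nz_inf_le_Nz_chainStab Q (zpowers u))) Subgroup.le_normalizer) (Nz_inf_le _ _)
  have hUW : U ≤ W := by
    intro x hx
    have hxM : x ∈ M := hPu (hUP hx)
    refine ⟨⟨hMQ hxM, fun q hq => ?_⟩, hxM⟩
    rw [← hQU]
    constructor
    · have h9 : x * q * x⁻¹ * q⁻¹ ∈ Q := mul_mem ((mem_normalizer_iff.1 (hMQ hxM) q).1 hq) (inv_mem hq)
      exact h9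
    · have h3 := (mem_normalizer_iff.1 (hPU (hQP hq)) x⁻¹).1 (inv_mem hx)
      have e : x * q * x⁻¹ * q⁻¹ = x * (q * x⁻¹ * q⁻¹) := by group
      rw [e]; exact mul_mem hx h3
  have hWp : IsPGroup 2 W := by
    apply isPGroup_of
    rintro x ⟨hx1, hx2⟩ hxo
    have hxu : x ∈ Cz (zpowers u) := by
      rw [mem_centralizer_iff]
      intro y hy
      obtain ⟨k, rfl⟩ := mem_zpowers_iff.1 hy
      have h1 : Commute x u := (mem_centralizer_singleton_iff.1 hx2)
      exact (h1.zpow_right k).eq.symm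
    have h3 := mem_Cz_of_chainStab_p (p := 2) (zpowers_isPGroup hu2) hx1 hxu hxo
    have h4 : x ∈ Q := charp h2 hu2 hu1 ⟨hx2, h3⟩
    obtain ⟨k, hk⟩ := (pCoreOf_isPGroup (p := 2) M) ⟨x, h4⟩
    have hk' : x ^ 2 ^ k = 1 := congrArg Subtype.val hk
    have h5 : orderOf x ∣ 2 ^ k := orderOf_dvd_of_pow_eq_one hk'
    have h6 : (orderOf x).Coprime (2 ^ k) := Nat.Coprime.pow_right k hxo
    exact orderOf_eq_one_iff.1 (Nat.eq_one_of_dvd_coprimes h6 dvd_rfl h5)
  exact hcon (hUW.trans (le_pCoreOf inf_le_right hWn hWp))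

/-- elements of the 2-core act trivially on odd order fixed points -/
theorem part2 {U K : Subgroup G} (hK : Odd (Nat.card K)) (hUK : U ≤ Nz K) {u : G}
    (h : U ≤ pCoreOf 2 (centralizer ({u} : Set G))) : K ⊓ centralizer ({u} : Set G) ≤ Cz U := by
  haveI : Fact (Nat.Prime 2) := ⟨Nat.prime_two⟩
  rintro c ⟨hcK0, hcu⟩
  have hcK : c ∈ K := hcK0
  rw [mem_centralizer_iff]
  intro a ha
  have h1 : a * c * a⁻¹ * c⁻¹ ∈ K := mul_mem ((mem_normalizer_iff.1 (hUK ha) c).1 hcK) (inv_mem hcK)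
  have h2 : a * c * a⁻¹ * c⁻¹ ∈ pCoreOf 2 (centralizer ({u} : Set G)) := by
    have h3 := (mem_normalizer_iff.1 (le_Nz_pCoreOf (p := 2) _ hcu) a⁻¹).1 (inv_mem (h ha))
    have e : a * c * a⁻¹ * c⁻¹ = a * (c * a⁻¹ * c⁻¹) := by group
    rw [e]; exact mul_mem (h ha) h3
  obtain ⟨k, hk⟩ := (pCoreOf_isPGroup (p := 2) _) ⟨_, h2⟩
  have hk' : (a * c * a⁻¹ * c⁻¹) ^ 2 ^ k = 1 := congrArg Subtype.val hk
  have h5 : orderOf (a * c * a⁻¹ * c⁻¹) ∣ 2 ^ k := orderOf_dvd_of_pow_eq_one hk'
  have h6 : orderOf (a * c * a⁻¹ * c⁻¹) ∣ Nat.card K := by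
    have := orderOf_dvd_natCard (⟨_, h1⟩ : K)
    rwa [Subgroup.orderOf_mk] at this
  have h7 : (Nat.card K).Coprime (2 ^ k) := Nat.Coprime.pow_right k (Nat.coprime_two_right.2 hK)
  have h8 := orderOf_eq_one_iff.1 (Nat.eq_one_of_dvd_coprimes h7 h6 h5)
  rw [mul_inv_eq_one, mul_inv_eq_iff_eq_mul] at h8
  exact h8

/-- the main case distinction -/
theorem part3 (h2 : CT G) {P U : Subgroup G} (hP : IsSylowIn 2 P ⊤) (hUP : U ≤ P) (hPU : P ≤ Nz U)
    (hU4 : Nat.card U = 4) (hUsq : ∀ x ∈ U, x * x = 1)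
    (hUZ : ¬ IsCyclic ↥(P ⊓ Cz P) → U ≤ Cz P) {v : G} (hv : v ∈ U) (hv1 : v ≠ 1) :
    U ≤ pCoreOf 2 (centralizer ({v} : Set G)) := by
  classical
  haveI : Fact (Nat.Prime 2) := ⟨Nat.prime_two⟩
  have hUc : ∀ x ∈ U, ∀ y ∈ U, x * y = y * x := by
    intro x hx y hy
    have h3 := hUsq _ (mul_mem hx hy)
    have h4 : x * y = (x * y)⁻¹ := (inv_eq_of_mul_eq_one_left h3).symm
    have h5 : x⁻¹ = x := inv_eq_of_mul_eq_one_left (hUsq x hx)
    have h6 : y⁻¹ = y := inv_eq_of_mul_eq_one_left (hUsq y hy)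
    rw [h4, mul_inv_rev, h5, h6]
  by_cases hvP : P ≤ centralizer ({v} : Set G)
  · exact part1 h2 hP hUP hPU hU4 hUsq hv hv1 hvP
  have hUnZ : ¬ U ≤ Cz P := by
    intro h
    apply hvP
    intro x hx
    rw [mem_centralizer_singleton_iff]
    exact mem_centralizer_iff.1 (h hv) x hx
  have hcyc : IsCyclic ↥(P ⊓ Cz P) := by
    by_contra h
    exact hUnZ (hUZ h)
  -- C = C_P(U)
  set C := P ⊓ Cz U with hC
  have hUC : U ≤ C := le_inf hUP (by
    intro x hx
    rw [mem_centralizer_iff]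
    intro y hy
    exact hUc y hy x hx)
  have hCv : C ≤ centralizer ({v} : Set G) := by
    rintro x ⟨_, hx⟩
    rw [mem_centralizer_singleton_iff]
    exact (mem_centralizer_iff.1 hx v hv).symm
  have hCp : IsPGroup 2 C := hP.isPGroup.to_le inf_le_left
  obtain ⟨T, hCT, hT⟩ := exists_isSylowIn_ge (p := 2) hCp hCv
  set M := centralizer ({v} : Set G) with hM
  by_cases hTC : T = C
  · -- C is Sylow in M
    subst hTC
    have h3 : pCoreOf 2 M ≤ Cz U := (pCoreOf_le_sylow hT).trans inf_le_right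
    have h4 : U ≤ M ⊓ Cz (pCoreOf 2 M) := le_inf (hUC.trans hCv) (le_Cz_comm.1 h3)
    exact h4.trans (charp h2 (hUsq v hv) hv1)
  -- an element of `U` central in `P`
  obtain ⟨u₀, hu0U, hu01, hu0P⟩ : ∃ u₀ ∈ U, u₀ ≠ 1 ∧ ∀ x ∈ P, x * u₀ = u₀ * x := by
    haveI : Group.IsNilpotent P := hP.isPGroup.isNilpotent
    haveI : (U.subgroupOf P).Normal := (Cfsg.Agent.H17.Base.normal_subgroupOf_iff hUP).2 hPU
    have h3 := Cfsg.Agent.H1.Nilp.normal_inf_center_ne_bot (U.subgroupOf P) (by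
      intro h
      rw [Subgroup.subgroupOf_eq_bot, disjoint_iff, inf_eq_left.2 hUP] at h
      rw [h, Subgroup.card_bot] at hU4
      norm_num at hU4)
    obtain ⟨z, hz1⟩ := Subgroup.ne_bot_iff_exists_ne_one.1 h3
    obtain ⟨hz2, hz3⟩ := z.2
    refine ⟨((z : P) : G), hz2, ?_, ?_⟩
    · intro h
      apply hz1
      apply Subtype.ext; apply Subtype.ext; exact h
    · intro x hx
      have := (mem_center_iff.1 hz3) ⟨x, hx⟩
      exact congrArg Subtype.val this
  -- central elements of square one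
  have hcen : ∀ z ∈ P, (∀ x ∈ P, x * z = z * x) → z * z = 1 → z = 1 ∨ z = u₀ := by
    intro z hz hzc hz2
    by_contra hne
    push Not at hne
    haveI := hcyc
    haveI : Fintype ↥(P ⊓ Cz P) := Fintype.ofFinite _
    have h3 := IsCyclic.card_pow_eq_one_le (α := ↥(P ⊓ Cz P)) (n := 2) (by norm_num)
    have hm : ∀ y ∈ P, (∀ x ∈ P, x * y = y * x) → y ∈ P ⊓ Cz P := fun y hy h =>
      ⟨hy, by change y ∈ Cz P; rw [mem_centralizer_iff]; exact h⟩
    obtain ⟨e1, he1⟩ : ∃ e1 : ↥(P ⊓ Cz P), e1 = 1 := ⟨_, rfl⟩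
    obtain ⟨e2, he2⟩ : ∃ e2 : ↥(P ⊓ Cz P), e2 = ⟨u₀, hm u₀ (hUP hu0U) hu0P⟩ := ⟨_, rfl⟩
    obtain ⟨e3, he3⟩ : ∃ e3 : ↥(P ⊓ Cz P), e3 = ⟨z, hm z hz hzc⟩ := ⟨_, rfl⟩
    have h4 : ({e1, e2, e3} : Finset ↥(P ⊓ Cz P)) ⊆ Finset.univ.filter (fun a => a ^ 2 = 1) := by
      intro a ha
      simp only [Finset.mem_insert, Finset.mem_singleton] at ha
      simp only [Finset.mem_filter, Finset.mem_univ, true_and]
      rcases ha with rfl | rfl | rfl
      · rw [he1]; exact one_pow 2
      · rw [he2]; apply Subtype.ext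
        change u₀ ^ 2 = 1
        rw [pow_two]; exact hUsq _ hu0U
      · rw [he3]; apply Subtype.ext
        change z ^ 2 = 1
        rw [pow_two]; exact hz2
    have h5 : ({e1, e2, e3} : Finset ↥(P ⊓ Cz P)).card = 3 := by
      rw [Finset.card_eq_three]
      refine ⟨e1, e2, e3, ?_, ?_, ?_, rfl⟩
      · rw [he1, he2]; intro h; exact hu01 (congrArg Subtype.val h).symm
      · rw [he1, he3]; intro h; exact hne.1 (congrArg Subtype.val h).symm
      · rw [he2, he3]; intro h; exact hne.2 (congrArg Subtype.val h).symm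
    have h6 := Finset.card_le_card h4
    omega
  have hv0 : v ≠ u₀ := by
    rintro rfl
    apply hvP
    intro x hx
    rw [mem_centralizer_singleton_iff]
    exact hu0P x hx
  have huv1 : u₀ * v ≠ 1 := by
    intro h
    apply hv0
    have := hUsq _ hu0U
    exact (mul_left_cancel (this.trans h.symm)).symm
  -- U = {1, u₀, v, u₀ v}
  have hU' : ∀ x ∈ U, x = 1 ∨ x = u₀ ∨ x = v ∨ x = u₀ * v := by
    intro x hx
    by_contra hne
    push Not at hne
    haveI : Fintype U := Fintype.ofFinite U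
    have h3 : ({1, ⟨u₀, hu0U⟩, ⟨v, hv⟩, ⟨u₀ * v, mul_mem hu0U hv⟩, ⟨x, hx⟩} : Finset U).card ≤ Fintype.card U := Finset.card_le_univ _
    rw [← Nat.card_eq_fintype_card, hU4] at h3
    have h4 : ({1, ⟨u₀, hu0U⟩, ⟨v, hv⟩, ⟨u₀ * v, mul_mem hu0U hv⟩, ⟨x, hx⟩} : Finset U).card = 5 := by
      rw [Finset.card_insert_of_notMem, Finset.card_insert_of_notMem, Finset.card_insert_of_notMem,
        Finset.card_insert_of_notMem, Finset.card_singleton]
      · simp only [Finset.mem_singleton, Subtype.mk.injEq]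
        exact fun h => hne.2.2.2 h.symm
      · simp only [Finset.mem_insert, Finset.mem_singleton, Subtype.mk.injEq, not_or]
        exact ⟨fun h => hu01 (by simpa using h), fun h => hne.2.2.1 h.symm⟩
      · simp only [Finset.mem_insert, Finset.mem_singleton, Subtype.mk.injEq, not_or]
        exact ⟨fun h => hv0 h.symm, fun h => hv1 (by simpa using h), fun h => hne.2.1 h.symm⟩
      · simp only [Finset.mem_insert, Finset.mem_singleton, not_or]
        exact ⟨fun h => hu01 (congrArg Subtype.val h).symm, fun h => hv1 (congrArg Subtype.val h).symm,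
          fun h => huv1 (congrArg Subtype.val h).symm, fun h => hne.1 (congrArg Subtype.val h).symm⟩
    omega
  -- action of elements of P on v
  have hact : ∀ x ∈ P, x ∉ C → x * v * x⁻¹ = u₀ * v := by
    intro x hx hxC
    have h3 : x * v * x⁻¹ ∈ U := (mem_normalizer_iff.1 (hPU hx) v).1 hv
    rcases hU' _ h3 with h | h | h | h
    · exfalso; apply hv1
      rw [mul_inv_eq_one] at h
      exact mul_left_cancel (h.trans (mul_one x).symm)
    · exfalso; apply hv0
      have : v = x⁻¹ * u₀ * x := by rw [← h]; group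
      rw [this, mul_assoc, ← hu0P x hx]; group
    · exfalso; apply hxC
      refine ⟨hx, ?_⟩
      change x ∈ Cz U
      rw [mem_centralizer_iff]
      have hxv : v * x = x * v := (mul_inv_eq_iff_eq_mul.1 h).symm
      intro y hy
      rcases hU' y hy with rfl | rfl | rfl | rfl
      · simp
      · exact (hu0P x hx).symm
      · exact hxv
      · rw [mul_assoc, hxv, ← mul_assoc, ← hu0P x hx, mul_assoc]
    · exact h
  obtain ⟨x₀, hx0, hx0C⟩ : ∃ x₀ ∈ P, x₀ ∉ C := by
    by_contra h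
    push Not at h
    exact hUnZ (by
      intro y hy
      rw [mem_centralizer_iff]
      intro x hx
      have := (h x hx).2
      exact (mem_centralizer_iff.1 this y hy).symm)
  have hCU : ∀ x ∈ P, x * v = v * x → x ∈ C := by
    intro x hx h
    by_contra hxC
    have h3 := hact x hx hxC
    rw [h, mul_inv_cancel_right] at h3
    exact hu01 (mul_eq_right.1 h3.symm)
  have hidx : C.relIndex P = 2 := by
    rw [Subgroup.relIndex_eq_two_iff]
    refine ⟨x₀, hx0, fun b hb => ?_⟩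
    by_cases hbC : b ∈ C
    · right
      refine ⟨hbC, fun h => hx0C ?_⟩
      have := mul_mem (inv_mem hbC) h
      rwa [inv_mul_cancel_left] at this
    · left
      refine ⟨?_, hbC⟩
      apply hCU _ (mul_mem hb hx0)
      have h3 := hact b hb hbC
      have h4 := hact x₀ hx0 hx0C
      have h5 : (b * x₀) * v * (b * x₀)⁻¹ = v := by
        calc (b * x₀) * v * (b * x₀)⁻¹ = b * (x₀ * v * x₀⁻¹) * b⁻¹ := by group
          _ = (b * u₀ * b⁻¹) * (b * v * b⁻¹) := by rw [h4]; group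
          _ = u₀ * (u₀ * v) := by rw [h3, hu0P b hb]; group
          _ = v := by rw [← mul_assoc, hUsq _ hu0U, one_mul]
      exact mul_inv_eq_iff_eq_mul.1 h5
  have hPC : Nat.card P = 2 * Nat.card C := by
    have := Cfsg.Agent.H1.Basic.relIndex_mul_card (K := C) (L := P) inf_le_left
    rw [← this, hidx]
  -- T is Sylow in G
  have hTidx : C.relIndex T = 2 ∧ IsSylowIn 2 T ⊤ := by
    have h3 := Cfsg.Agent.H1.Basic.relIndex_mul_card (K := C) (L := T) hCT
    have h4 : Nat.card T ≤ Nat.card P := hP.card_le hT.isPGroup le_top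
    have h5 : C.relIndex T ≠ 1 := by
      rw [Ne, Subgroup.relIndex_eq_one]
      intro h
      exact hTC (le_antisymm h hCT)
    have h6 : 0 < Nat.card C := Nat.card_pos
    have h7 : C.relIndex T ≤ 2 := by
      rw [← h3, hPC] at h4
      exact Nat.le_of_mul_le_mul_right h4 h6
    have h8 : C.relIndex T ≠ 0 := by
      intro h
      rw [h, zero_mul] at h3
      exact Nat.card_pos.ne' h3.symm
    have h9 : C.relIndex T = 2 := by omega
    refine ⟨h9, isSylowIn_of_card_le le_top hT.isPGroup hP ?_⟩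
    rw [← h3, h9, hPC]
  have hTC' : T ≤ Nz C := by
    have : (C.subgroupOf T).Normal := Subgroup.normal_of_index_eq_two hTidx.1
    exact (Cfsg.Agent.H17.Base.normal_subgroupOf_iff hCT).1 this
  have hPC' : P ≤ Nz C := by
    have : (C.subgroupOf P).Normal := Subgroup.normal_of_index_eq_two hidx
    exact (Cfsg.Agent.H17.Base.normal_subgroupOf_iff inf_le_left).1 this
  -- involutions of the center of C
  have hx02 : x₀ * x₀ ∈ C := by
    rcases (Subgroup.relIndex_eq_two_iff.1 hidx) with _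
    apply hCU _ (mul_mem hx0 hx0)
    have h4 := hact x₀ hx0 hx0C
    have h5 : (x₀ * x₀) * v * (x₀ * x₀)⁻¹ = v := by
      calc (x₀ * x₀) * v * (x₀ * x₀)⁻¹ = x₀ * (x₀ * v * x₀⁻¹) * x₀⁻¹ := by group
        _ = x₀ * (u₀ * v) * x₀⁻¹ := by rw [h4]
        _ = (x₀ * u₀ * x₀⁻¹) * (x₀ * v * x₀⁻¹) := by group
        _ = u₀ * (u₀ * v) := by rw [h4, hu0P x₀ hx0]; group
        _ = v := by rw [← mul_assoc, hUsq _ hu0U, one_mul]
    exact mul_inv_eq_iff_eq_mul.1 h5
  have hPgen : ∀ z : G, z * x₀ = x₀ * z → (∀ c ∈ C, c * z = z * c) → ∀ x ∈ P, x * z = z * x := by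
    intro z hz1 hz2 x hx
    by_cases hxC : x ∈ C
    · exact hz2 x hxC
    · have h3 : x * x₀ ∈ C := by
        apply hCU _ (mul_mem hx hx0)
        have h3 := hact x hx hxC
        have h4 := hact x₀ hx0 hx0C
        have h5 : (x * x₀) * v * (x * x₀)⁻¹ = v := by
          calc (x * x₀) * v * (x * x₀)⁻¹ = x * (x₀ * v * x₀⁻¹) * x⁻¹ := by group
            _ = (x * u₀ * x⁻¹) * (x * v * x⁻¹) := by rw [h4]; group
            _ = u₀ * (u₀ * v) := by rw [h3, hu0P x hx]; group
            _ = v := by rw [← mul_assoc, hUsq _ hu0U, one_mul]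
        exact mul_inv_eq_iff_eq_mul.1 h5
      have h4 := hz2 _ h3
      -- x x₀ z = z x x₀, x₀ z = z x₀
      have h5 : x * z * x₀ = z * x * x₀ := by
        rw [mul_assoc x z x₀, hz1, ← mul_assoc, h4, mul_assoc]
      exact mul_right_cancel h5
  have hstep : ∀ a ∈ C, (∀ c ∈ C, c * a = a * c) → a * a = 1 → x₀ * a * x₀⁻¹ = a → a = 1 ∨ a = u₀ := by
    intro a haC hac ha2 hax
    apply hcen a haC.1 _ ha2
    apply hPgen a (mul_inv_eq_iff_eq_mul.1 hax).symm hac
  have hclaim : ∀ a ∈ C, (∀ c ∈ C, c * a = a * c) → a * a = 1 → a ∈ U := by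
    intro a haC hac ha2
    set a' := x₀ * a * x₀⁻¹ with ha'
    have hnc : ∀ c ∈ C, x₀⁻¹ * c * x₀ ∈ C := by
      intro c hc
      have := (mem_normalizer_iff.1 (inv_mem (hPC' hx0)) c).1 hc
      rwa [inv_inv] at this
    have ha'C : a' ∈ C := (mem_normalizer_iff.1 (hPC' hx0) a).1 haC
    have ha'c : ∀ c ∈ C, c * a' = a' * c := by
      intro c hc
      have h3 := hac _ (hnc c hc)
      calc c * a' = x₀ * ((x₀⁻¹ * c * x₀) * a) * x₀⁻¹ := by rw [ha']; group
        _ = x₀ * (a * (x₀⁻¹ * c * x₀)) * x₀⁻¹ := by rw [h3]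
        _ = a' * c := by rw [ha']; group
    have ha'2 : a' * a' = 1 := by
      calc a' * a' = x₀ * (a * a) * x₀⁻¹ := by rw [ha']; group
        _ = 1 := by rw [ha2]; group
    have hxx : x₀ * a' * x₀⁻¹ = a := by
      have h3 := hac _ hx02
      calc x₀ * a' * x₀⁻¹ = (x₀ * x₀) * a * (x₀ * x₀)⁻¹ := by rw [ha']; group
        _ = a := by rw [h3, mul_inv_cancel_right]
    have haa' : a * a' = a' * a := ha'c a haC
    -- b = a a'
    have hbC : a * a' ∈ C := mul_mem haC ha'C
    have hbc : ∀ c ∈ C, c * (a * a') = (a * a') * c := by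
      intro c hc
      calc c * (a * a') = (c * a) * a' := (mul_assoc _ _ _).symm
        _ = a * (c * a') := by rw [hac c hc, mul_assoc]
        _ = a * (a' * c) := by rw [ha'c c hc]
        _ = (a * a') * c := (mul_assoc _ _ _).symm
    have hb2 : (a * a') * (a * a') = 1 := by
      calc (a * a') * (a * a') = a * (a' * a) * a' := by group
        _ = (a * a) * (a' * a') := by rw [← haa']; group
        _ = 1 := by rw [ha2, ha'2, one_mul]
    have hbx : x₀ * (a * a') * x₀⁻¹ = a * a' := by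
      calc x₀ * (a * a') * x₀⁻¹ = (x₀ * a * x₀⁻¹) * (x₀ * a' * x₀⁻¹) := by group
        _ = a' * a := by rw [hxx, ← ha']
        _ = a * a' := haa'.symm
    rcases hstep _ hbC hbc hb2 hbx with h | h
    · -- a = a'
      have h3 : a' = a := by
        have : a * a' = a * a := by rw [h, ha2]
        exact mul_left_cancel this
      rcases hstep a haC hac ha2 h3 with h4 | h4
      · rw [h4]; exact one_mem _
      · rw [h4]; exact hu0U
    · -- consider a v
      have hvC : v ∈ C := hUC hv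
      have hvc : ∀ c ∈ C, c * v = v * c := fun c hc => (mem_centralizer_iff.1 hc.2 v hv).symm
      have hcC : a * v ∈ C := mul_mem haC hvC
      have hcc : ∀ c ∈ C, c * (a * v) = (a * v) * c := by
        intro c hc
        rw [← mul_assoc, hac c hc, mul_assoc, hvc c hc, mul_assoc]
      have hc2 : (a * v) * (a * v) = 1 := by
        calc (a * v) * (a * v) = a * (v * a) * v := by group
          _ = (a * a) * (v * v) := by rw [← hvc a haC]; group
          _ = 1 := by rw [ha2, hUsq v hv, one_mul]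
      have hcx : x₀ * (a * v) * x₀⁻¹ = a * v := by
        have h4 := hact x₀ hx0 hx0C
        have h5 : a' = a * u₀ := by
          have : a * a' = a * (a * u₀) := by rw [h, ← mul_assoc, ha2, one_mul]
          exact mul_left_cancel this
        calc x₀ * (a * v) * x₀⁻¹ = (x₀ * a * x₀⁻¹) * (x₀ * v * x₀⁻¹) := by group
          _ = (a * u₀) * (u₀ * v) := by rw [h4, ← ha', h5]
          _ = a * (u₀ * u₀) * v := by group
          _ = a * v := by rw [hUsq _ hu0U, mul_one]
      have h5 : a * v ∈ U := by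
        rcases hstep _ hcC hcc hc2 hcx with h4 | h4
        · rw [h4]; exact one_mem _
        · rw [h4]; exact hu0U
      have := mul_mem h5 (inv_mem hv)
      rwa [mul_inv_cancel_right] at this
  have hTU : T ≤ Nz U := by
    rw [le_Nz_iff]
    intro t ht x hx
    have hxC : x ∈ C := hUC hx
    apply hclaim
    · exact (mem_normalizer_iff.1 (hTC' ht) x).1 hxC
    · intro c hc
      have h3 : t⁻¹ * c * t ∈ C := by
        have := (mem_normalizer_iff.1 (inv_mem (hTC' ht)) c).1 hc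
        rwa [inv_inv] at this
      have h4 : x * (t⁻¹ * c * t) = (t⁻¹ * c * t) * x := mem_centralizer_iff.1 h3.2 x hx
      calc c * (t * x * t⁻¹) = t * ((t⁻¹ * c * t) * x) * t⁻¹ := by group
        _ = t * (x * (t⁻¹ * c * t)) * t⁻¹ := by rw [h4]
        _ = t * x * t⁻¹ * c := by group
    · calc t * x * t⁻¹ * (t * x * t⁻¹) = t * (x * x) * t⁻¹ := by group
        _ = 1 := by rw [hUsq x hx]; group
  exact part1 h2 hTidx.2 (hUC.trans hCT) hTU hU4 hUsq hv hv1 hT.le

theorem result (h2 : CT G) (P : Sylow 2 G) (U : Subgroup G) (hUP : U ≤ (P : Subgroup G))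
    (hUn : (P : Subgroup G) ≤ Subgroup.normalizer (U : Set G)) (hU4 : IsKleinFour ↥U)
    (hUZ : ¬ IsCyclic ↥((P : Subgroup G) ⊓ Subgroup.centralizer ((P : Subgroup G) : Set G)) →
      U ≤ Subgroup.centralizer ((P : Subgroup G) : Set G))
    (K : Subgroup G) (hK : Odd (Nat.card K)) (hUK : U ≤ Subgroup.normalizer (K : Set G)) :
    U ≤ Subgroup.centralizer (K : Set G) := by
  have hUsq : ∀ x ∈ U, x * x = 1 := by
    intro x hx
    have := IsKleinFour.mul_self (⟨x, hx⟩ : U)
    exact congrArg Subtype.val this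
  have hc4 : Nat.card U = 4 := IsKleinFour.card_four
  haveI : IsMulCommutative U := ⟨⟨fun a b => by
    have h3 : ∀ x : U, x⁻¹ = x := fun x => inv_eq_of_mul_eq_one_left (IsKleinFour.mul_self x)
    have h4 := h3 (a * b)
    rw [mul_inv_rev, h3, h3] at h4
    exact h4.symm⟩⟩
  have hgen := Cfsg.Agent.H1.Partition.generation U K (by
    exact IsKleinFour.not_isCyclic) hUK (by
      rw [hc4]
      have : (Nat.card K).Coprime 2 := Nat.coprime_two_right.2 hK
      exact (Nat.Coprime.pow_right 2 this).symm)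
  rw [le_Cz_comm, ← hgen]
  apply iSup₂_le
  rintro v ⟨hv, hv1⟩
  exact part2 hK hUK (part3 h2 (isSylowIn_coe P) hUP hUn hc4 hUsq hUZ hv hv1)

end Cfsg.Agent.H13.NU
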