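import Mathlib
import Cfsg.Agent.H13_Cnt

/-!
# No simple group of order 459648
-/

set_option autoImplicit false

open Cfsg

namespace Cfsg.Agent.H13.Ord1022

open Subgroup Cfsg.Agent.H13.Cnt

theorem num19' : ∀ q < 1274, 24192 % (19 * q + 1) = 0 → q = 0 ∨ q = 5 ∨ q = 53 := by
  decide +kernel

theorem num19 (n : ℕ) (h1 : n % 19 = 1) (h2 : n ∣ 24192) : n = 1 ∨ n = 96 ∨ n = 1008 := by
  have h3 : n ≤ 24192 := Nat.le_of_dvd (by norm_num) h2
  have h4 : n = 19 * (n / 19) + 1 := by omega
  have h5 := num19' (n / 19) (by omega) (by rw [← h4]; exact Nat.mod_eq_zero_of_dvd h2)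
  omega

variable {G : Type*} [Group G] [Finite G]

theorem rel_cases (r : ℕ) (h : r ∣ 18) : r = 1 ∨ r = 2 ∨ r = 3 ∨ r = 6 ∨ r = 9 ∨ r = 18 := by
  have h3 : r ≤ 18 := Nat.le_of_dvd (by norm_num) h
  interval_cases r <;> omega

section last

variable [IsSimpleGroup G] (hG : ¬ IsMulCommutative G) (hcard : Nat.card G = 459648)
  [hp : Fact (Nat.Prime 19)] (P : Sylow 19 G) (hP : Nat.card (P : Subgroup G) = 19)
  (hN : Nat.card (normalizer ((P : Subgroup G) : Set G)) = 456)
  (t : G) (ht : orderOf t = 2) (hK : Nat.card (centralizer ({t} : Set G)) = 7296)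
  (hJ : Nat.card {g : G // IsConj t g ∧ g ∈ centralizer ((P : Subgroup G) : Set G)} = 6)

include hG hcard hP hN ht hK hJ in
theorem last (hJne : ∃ s, IsConj t s ∧ s ∈ centralizer ((P : Subgroup G) : Set G)) : False := by
  obtain ⟨u, hou, hz, hc⟩ := gen P hP
  haveI : Fact (Nat.Prime 2) := ⟨Nat.prime_two⟩
  have hcls : Nat.card {g : G // IsConj t g} = 63 := by
    have := card_cls t
    rw [hK, hcard] at this
    omega
  have hord : ∀ g : G, IsConj t g → orderOf g = 2 := by
    intro g hg
    obtain ⟨c, rfl⟩ := isConj_iff.1 hg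
    have := MulEquiv.orderOf_eq (MulAut.conj c) t
    rw [MulAut.conj_apply] at this
    rw [this, ht]
  have hJ' : Nat.card {g : G // IsConj t g ∧ g * u = u * g} = 6 := by
    rw [← hJ]
    apply Nat.card_congr
    apply Equiv.subtypeEquivRight
    intro g
    rw [hc]
  have key : ∀ s : G, IsConj t s → s ∈ centralizer ((P : Subgroup G) : Set G) →
      ∀ y : G, IsConj t y → y ∉ centralizer ((P : Subgroup G) : Set G) → y * s = s * y := by
    intro s hts hsC
    have hsu : s * u = u * s := (hc s).1 hsC
    have hs2 : s ^ 2 = 1 := by rw [← hord s hts]; exact pow_orderOf_eq_one s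
    obtain ⟨k, hk⟩ := cls_sign hG t s hs2
    rw [hcls] at hk
    have e1 := cls_mod t u (fun g => g * s = s * g) 19 1 (by
      intro g
      constructor
      · intro h
        calc u * g * u⁻¹ * s = u * g * (u⁻¹ * s) := by group
          _ = u * g * (s * u⁻¹) := by rw [(Commute.inv_right (show Commute s u from hsu)).eq]
          _ = u * (g * s) * u⁻¹ := by group
          _ = (u * s) * g * u⁻¹ := by rw [h]; group
          _ = s * (u * g * u⁻¹) := by rw [← hsu]; group
      · intro h
        have h1 : u * (g * s) * u⁻¹ = u * (s * g) * u⁻¹ := by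
          calc u * (g * s) * u⁻¹ = u * g * (s * u⁻¹) := by group
            _ = u * g * (u⁻¹ * s) := by rw [(Commute.inv_right (show Commute s u from hsu)).eq]
            _ = u * g * u⁻¹ * s := by group
            _ = s * (u * g * u⁻¹) := h
            _ = (s * u) * g * u⁻¹ := by group
            _ = u * (s * g) * u⁻¹ := by rw [hsu]; group
        exact mul_left_cancel (mul_right_cancel h1)) (by rw [pow_one, ← hou]; exact pow_orderOf_eq_one u)
    have e2 := cls_mod t s (fun g => g * u = u * g) 2 1 (by
      intro g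
      constructor
      · intro h
        calc s * g * s⁻¹ * u = s * g * (s⁻¹ * u) := by group
          _ = s * g * (u * s⁻¹) := by rw [(Commute.inv_left (show Commute s u from hsu)).eq]
          _ = s * (g * u) * s⁻¹ := by group
          _ = (s * u) * g * s⁻¹ := by rw [h]; group
          _ = u * (s * g * s⁻¹) := by rw [hsu]; group
      · intro h
        have h1 : s * (g * u) * s⁻¹ = s * (u * g) * s⁻¹ := by
          calc s * (g * u) * s⁻¹ = s * g * (u * s⁻¹) := by group
            _ = s * g * (s⁻¹ * u) := by rw [(Commute.inv_left (show Commute s u from hsu)).eq]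
            _ = s * g * s⁻¹ * u := by group
            _ = u * (s * g * s⁻¹) := h
            _ = (u * s) * g * s⁻¹ := by group
            _ = s * (u * g) * s⁻¹ := by rw [← hsu]; group
        exact mul_left_cancel (mul_right_cancel h1)) (by rw [pow_one]; exact hs2)
    rw [hJ'] at e2
    have e3 : Nat.card {g : G // IsConj t g ∧ g * s = s * g ∧ g * u = u * g} =
        Nat.card {g : G // IsConj t g ∧ g * u = u * g ∧ g * s = s * g} := by
      apply Nat.card_congr
      apply Equiv.subtypeEquivRight
      intro g
      constructor <;> rintro ⟨h1, h2, h3⟩ <;> exact ⟨h1, h3, h2⟩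
    rw [e3] at e1
    -- bound
    have hPs : (P : Subgroup G) ≤ centralizer ({s} : Set G) := by
      intro y hy
      rw [Subgroup.mem_centralizer_singleton_iff]
      exact Subgroup.mem_centralizer_iff.1 hsC y hy
    obtain ⟨m, hm1, hm2, hm3⟩ := sub_num P hP (centralizer ({s} : Set G)) hPs
    rw [card_cent_conj t s hts, hK] at hm2
    have hn' : Nat.card (normalizer ((P : Subgroup G) : Set G) ⊓ centralizer ({s} : Set G) : Subgroup G) ∣ 456 := by
      rw [← hN]; exact Subgroup.card_dvd_of_le inf_le_left
    set n' := Nat.card (normalizer ((P : Subgroup G) : Set G) ⊓ centralizer ({s} : Set G) : Subgroup G) with hn'def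
    have hmd : m ∣ 24192 := by
      obtain ⟨w, hw⟩ := hm3
      refine ⟨w * 63, ?_⟩
      rw [hw] at hm2
      have : m * w * 19 = 7296 := by rw [← hm2]; ring
      have : m * w = 384 := by omega
      calc 24192 = (m * w) * 63 := by rw [this]
        _ = m * (w * 63) := by ring
    have hn76 : n' = 76 := by
      have hle : n' ≤ 456 := Nat.le_of_dvd (by norm_num) hn'
      rcases num19 m hm1 hmd with h | h | h
      · rw [h] at hm2; omega
      · rw [h] at hm2; omega
      · rw [h] at hm2; omega
    have hB1 := inv_count P hP (by norm_num) (centralizer ((P : Subgroup G) : Set G) ⊓ centralizer ({s} : Set G))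
      (le_inf (by
        intro y hy
        rw [hc]
        rw [hz] at hy
        obtain ⟨j, rfl⟩ := mem_zpowers_iff.1 hy
        exact ((Commute.refl u).zpow_left j).eq) hPs) inf_le_left
    have hB2 := inv_succ s (hord s hts) (centralizer ((P : Subgroup G) : Set G) ⊓ centralizer ({s} : Set G))
    have hB3 : Nat.card (centralizer ((P : Subgroup G) : Set G) ⊓ centralizer ({s} : Set G) : Subgroup G) ≤ 76 := by
      rw [← hn76, hn'def]
      apply Subgroup.card_le_of_le
      exact inf_le_inf_right _ (Subgroup.centralizer_le_normalizer _)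
    have hB4 : Nat.card {g : G // IsConj s g ∧ g ∈ centralizer ((P : Subgroup G) : Set G) ⊓ centralizer ({s} : Set G)} =
        Nat.card {g : G // IsConj t g ∧ g * u = u * g ∧ g * s = s * g} := by
      apply Nat.card_congr
      apply Equiv.subtypeEquivRight
      intro g
      rw [Subgroup.mem_inf, hc, Subgroup.mem_centralizer_singleton_iff]
      exact ⟨fun h => ⟨hts.trans h.1, h.2⟩, fun h => ⟨hts.symm.trans h.1, h.2⟩⟩
    rw [hB4] at hB2
    have hd1 : 0 < Nat.card {g : G // IsConj t g ∧ g * u = u * g ∧ g * s = s * g} := by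
      have : Nonempty {g : G // IsConj t g ∧ g * u = u * g ∧ g * s = s * g} := ⟨⟨s, hts, hsu, rfl⟩⟩
      exact Nat.card_pos
    have hd : Nat.card {g : G // IsConj t g ∧ g * u = u * g ∧ g * s = s * g} = 2 := by
      unfold Nat.ModEq at e2
      omega
    have hcc : Nat.card {g : G // IsConj t g ∧ g * s = s * g} = 59 := by
      rw [hd] at e1
      unfold Nat.ModEq at e1
      omega
    have s1 := split (fun g => IsConj t g) (fun g => g * s = s * g)
    have s2 := split (fun g => IsConj t g ∧ g * u = u * g) (fun g => g * s = s * g)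
    rw [hcls, hcc] at s1
    have s3 : Nat.card {g : G // (IsConj t g ∧ g * u = u * g) ∧ g * s = s * g} = 2 := by
      rw [← hd]
      apply Nat.card_congr
      apply Equiv.subtypeEquivRight
      intro g
      exact and_assoc
    rw [hJ', s3] at s2
    have hsub : {g : G | (IsConj t g ∧ g * u = u * g) ∧ ¬ g * s = s * g} ⊆ {g : G | IsConj t g ∧ ¬ g * s = s * g} := by
      rintro g ⟨⟨h1, h2⟩, h3⟩
      exact ⟨h1, h3⟩
    have heq := Set.eq_of_subset_of_ncard_le hsub (by
      change Nat.card {g : G // IsConj t g ∧ ¬ g * s = s * g} ≤ Nat.card {g : G // (IsConj t g ∧ g * u = u * g) ∧ ¬ g * s = s * g}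
      omega) (Set.toFinite _)
    intro y hty hyC
    by_contra hys
    have : y ∈ {g : G | IsConj t g ∧ ¬ g * s = s * g} := ⟨hty, hys⟩
    rw [← heq] at this
    exact hyC ((hc y).2 this.1.2)
  -- conclusion
  set J : Set G := {g | IsConj t g ∧ g ∈ centralizer ((P : Subgroup G) : Set G)} with hJdef
  have hD1 : closure J ≤ centralizer ((P : Subgroup G) : Set G) := by
    rw [Subgroup.closure_le]
    intro g hg
    exact hg.2
  have hD2 : Subgroup.normalClosure ({t} : Set G) ≤ normalizer ((closure J : Subgroup G) : Set G) := by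
    unfold Subgroup.normalClosure
    rw [Subgroup.closure_le]
    intro y hy
    rw [Group.mem_conjugatesOfSet_iff] at hy
    obtain ⟨t', ht', hy⟩ := hy
    rw [Set.mem_singleton_iff] at ht'
    subst ht'
    by_cases hyC : y ∈ centralizer ((P : Subgroup G) : Set G)
    · exact Subgroup.le_normalizer (Subgroup.subset_closure ⟨hy, hyC⟩)
    · apply Subgroup.centralizer_le_normalizer
      rw [Subgroup.centralizer_closure]
      rw [Subgroup.mem_centralizer_iff]
      intro s hs
      exact (key s hs.1 hs.2 y hy hyC).symm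
  have hD3 : Subgroup.normalClosure ({t} : Set G) = ⊤ := by
    rcases (inferInstance : (Subgroup.normalClosure ({t} : Set G)).Normal).eq_bot_or_eq_top with h | h
    · exfalso
      have : t ∈ Subgroup.normalClosure ({t} : Set G) := Subgroup.subset_normalClosure rfl
      rw [h, Subgroup.mem_bot] at this
      rw [this, orderOf_one] at ht
      omega
    · exact h
  rw [hD3, top_le_iff, Subgroup.normalizer_eq_top_iff] at hD2
  obtain ⟨s, hts, hsC⟩ := hJne
  rcases hD2.eq_bot_or_eq_top with h | h
  · have : s ∈ closure J := Subgroup.subset_closure ⟨hts, hsC⟩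
    rw [h, Subgroup.mem_bot] at this
    have h2 := hord s hts
    rw [this, orderOf_one] at h2
    omega
  · rw [h, top_le_iff] at hD1
    have h1 : Nat.card (centralizer ((P : Subgroup G) : Set G)) ∣ 456 := by
      rw [← hN]; exact Subgroup.card_dvd_of_le (Subgroup.centralizer_le_normalizer _)
    rw [hD1, Subgroup.card_top, hcard] at h1
    exact absurd (Nat.le_of_dvd (by norm_num) h1) (by norm_num)

end last

theorem main [IsSimpleGroup G] : Nat.card G ≠ 459648 := by
  intro hcard
  have hG : ¬ IsMulCommutative G := H9.Small.not_comm (by rw [hcard]; norm_num)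
  haveI : Fact (Nat.Prime 19) := ⟨by norm_num⟩
  haveI : Fact (Nat.Prime 7) := ⟨by norm_num⟩
  haveI : Fact (Nat.Prime 2) := ⟨Nat.prime_two⟩
  obtain ⟨P⟩ : Nonempty (Sylow 19 G) := inferInstance
  obtain ⟨n, k, hn0, hnm, hn1, hn2, hnk, hP, hN, hidx, hNt, hfac⟩ := H9.Small.sylow_num hG 1 24192 (by rw [hcard]; norm_num) (by norm_num) one_ne_zero P
  rw [pow_one] at hP
  have hdvd : 19 ∣ Nat.card G := by rw [hcard]; norm_num
  have hr1 := H9.Small.relIndex_centralizer_dvd P hP
  have hr2 := H9.Small.relIndex_centralizer_ne_one hG hdvd P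
  have hr3 := H9.Small.card_centralizer_mul (P : Subgroup G)
  set r := (centralizer ((P : Subgroup G) : Set G)).relIndex (normalizer ((P : Subgroup G) : Set G)) with hr
  have hr4 := rel_cases r hr1
  have hPC : (P : Subgroup G) ≤ centralizer ((P : Subgroup G) : Set G) := by
    obtain ⟨u, hou, hz, hc⟩ := gen P hP
    intro y hy
    rw [hc]
    rw [hz] at hy
    obtain ⟨j, rfl⟩ := mem_zpowers_iff.1 hy
    exact ((Commute.refl u).zpow_left j).eq
  rcases num19 n hn1 hnm with h | h | h
  · exact hn2 h
  · -- 96 Sylow subgroups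
    subst h
    have hk : k = 252 := by omega
    rw [hN, hk, pow_one] at hr3
    have h7 : 7 ∣ Nat.card (centralizer ((P : Subgroup G) : Set G)) := by
      rcases hr4 with h | h | h | h | h | h <;> rw [h] at hr3 <;> omega
    obtain ⟨x, hxC, hx⟩ := exists_ord _ 7 h7
    have e1 := syl_mod P hP x hxC
    have e2 := coset_mod (normalizer ((P : Subgroup G) : Set G)) 7 1 x (by rw [pow_one, ← hx]; exact pow_orderOf_eq_one x)
    have e3 := lt_index (normalizer ((P : Subgroup G) : Set G)) hNt x (by
      rintro rfl
      rw [orderOf_one] at hx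
      omega)
    rw [← hidx] at e2 e3
    unfold Nat.ModEq at e1 e2
    omega
  -- 1008 Sylow subgroups
  subst h
  have hk : k = 24 := by omega
  subst hk
  rw [pow_one, show 19 * 24 = 456 by norm_num] at hN
  rw [hN] at hr3
  obtain ⟨t, htC, ht⟩ := exists_ord (centralizer ((P : Subgroup G) : Set G)) 2 (by
    rcases hr4 with h | h | h | h | h | h <;> rw [h] at hr3 <;> omega)
  have ht1 : t ≠ 1 := by
    rintro rfl
    rw [orderOf_one] at ht
    omega
  have ht2 : t ^ 2 = 1 := by rw [← ht]; exact pow_orderOf_eq_one t
  have f1 := syl_mod P hP t htC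
  obtain ⟨k1, f2⟩ := coset_sign hG (normalizer ((P : Subgroup G) : Set G)) t ht2
  have f3 := lt_index (normalizer ((P : Subgroup G) : Set G)) hNt t ht1
  have f4 := fix_card (normalizer ((P : Subgroup G) : Set G)) t (Subgroup.centralizer_le_normalizer _ htC)
  have f5 := conj_mod P hP t
  rw [← hidx] at f2 f3
  rw [hN] at f4
  have f6 : 54 < Nat.card (MulAction.fixedBy (G ⧸ normalizer ((P : Subgroup G) : Set G)) t) →
      Nat.card {g : G // IsConj t g ∧ g ∈ normalizer ((P : Subgroup G) : Set G)} =
      Nat.card {g : G // IsConj t g ∧ g ∈ centralizer ((P : Subgroup G) : Set G)} := by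
    intro hf
    apply Nat.card_congr
    apply Equiv.subtypeEquivRight
    intro g
    constructor
    · rintro ⟨h1, h2⟩
      refine ⟨h1, in_cent P hP t g h1 h2 ?_⟩
      rw [← hidx]
      omega
    · rintro ⟨h1, h2⟩
      exact ⟨h1, Subgroup.centralizer_le_normalizer _ h2⟩
  have f7 := inv_count P hP (by norm_num) (centralizer ((P : Subgroup G) : Set G)) hPC le_rfl
  have f8 := inv_succ t ht (centralizer ((P : Subgroup G) : Set G))
  set f := Nat.card (MulAction.fixedBy (G ⧸ normalizer ((P : Subgroup G) : Set G)) t) with hf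
  set j' := Nat.card {g : G // IsConj t g ∧ g ∈ normalizer ((P : Subgroup G) : Set G)} with hj'
  set j := Nat.card {g : G // IsConj t g ∧ g ∈ centralizer ((P : Subgroup G) : Set G)} with hj
  have hjle : j ≤ 11 := by
    have : Nat.card (centralizer ((P : Subgroup G) : Set G)) ≤ 228 := by
      rcases hr4 with h | h | h | h | h | h
      · exact absurd h hr2
      all_goals rw [h] at hr3; omega
    omega
  -- the centraliser of t
  have hPs : (P : Subgroup G) ≤ centralizer ({t} : Set G) := by
    intro y hy
    rw [Subgroup.mem_centralizer_singleton_iff]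
    exact Subgroup.mem_centralizer_iff.1 htC y hy
  obtain ⟨m, hm1, hm2, hm3⟩ := sub_num P hP (centralizer ({t} : Set G)) hPs
  have hn' : Nat.card (normalizer ((P : Subgroup G) : Set G) ⊓ centralizer ({t} : Set G) : Subgroup G) ∣ 456 := by
    rw [← hN]; exact Subgroup.card_dvd_of_le inf_le_left
  have hn4 : 4 ∣ Nat.card (normalizer ((P : Subgroup G) : Set G) ⊓ centralizer ({t} : Set G) : Subgroup G) := by
    have h4C : 4 ∣ Nat.card (centralizer ((P : Subgroup G) : Set G)) := by
      rcases hr4 with h | h | h | h | h | h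
      · exact absurd h hr2
      all_goals rw [h] at hr3; omega
    exact (four_dvd _ h4C t htC ht).trans (Subgroup.card_dvd_of_le (inf_le_inf_right _ (Subgroup.centralizer_le_normalizer _)))
  have hcls := card_cls t
  rw [hcard] at hcls
  have hKidx := Subgroup.card_mul_index (centralizer ({t} : Set G))
  rw [hcard] at hKidx
  have hKt := cent_ne_top hG t ht1
  have hKfac := H9.Small.two_mul_card_dvd hG _ hKt
  rw [hcard] at hKfac
  have h8 := eight_dvd hG (by rw [hcard]; norm_num) t ht
  set n' := Nat.card (normalizer ((P : Subgroup G) : Set G) ⊓ centralizer ({t} : Set G) : Subgroup G) with hn'def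
  obtain ⟨v, hv⟩ : 76 ∣ n' := by
    have := Nat.Coprime.mul_dvd_of_dvd_of_dvd (by norm_num) hn4 hm3
    exact this
  have hv6 : v = 1 ∨ v = 2 ∨ v = 3 ∨ v = 6 := by
    rw [hv] at hn'
    have h1 : v ∣ 6 := Nat.dvd_of_mul_dvd_mul_left (k := 76) (by norm_num) (by simpa using hn')
    have h2 : v ≤ 6 := Nat.le_of_dvd (by norm_num) h1
    interval_cases v <;> omega
  have hmd : m ∣ 24192 := by
    refine ⟨4 * v * (centralizer ({t} : Set G)).index, ?_⟩
    rw [← hm2, hv] at hKidx
    have : 19 * (m * (4 * v * (centralizer ({t} : Set G)).index)) = 19 * 24192 := by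
      rw [← show (459648 : ℕ) = 19 * 24192 by norm_num, ← hKidx]; ring
    omega
  rcases num19 m hm1 hmd with h | h | h
  · -- m = 1
    rw [h, one_mul, hv] at hm2
    rw [← hm2] at f4 h8
    have hf55 : f ≤ 54 := by
      by_contra hlt
      push Not at hlt
      have := f6 hlt
      rw [this] at f4
      rcases hv6 with h | h | h | h <;> rw [h] at f4 <;> omega
    have hf20 : f = 20 := by
      unfold Nat.ModEq at f1
      omega
    rw [hf20] at f4
    unfold Nat.ModEq at f5
    have hjv : v * j = 6 := by
      rcases hv6 with h | h | h | h <;> rw [h] at f4 h8 ⊢ <;> omega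
    obtain ⟨k2, g1⟩ := coset_sign hG (centralizer ((P : Subgroup G) : Set G)) t ht2
    have g2 := fix_card (centralizer ((P : Subgroup G) : Set G)) t htC
    rw [← hm2, ← hj] at g2
    have g3 := Subgroup.card_mul_index (centralizer ((P : Subgroup G) : Set G))
    rw [hcard] at g3
    have g4 : 76 * v * j = 456 := by rw [mul_assoc, hjv]; norm_num
    rw [g4] at g2
    rcases hr4 with h | h | h | h | h | h
    · exact hr2 h
    · rw [h] at hr3
      have : Nat.card (centralizer ((P : Subgroup G) : Set G)) = 228 := by omega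
      rw [this] at g2 g3
      omega
    · rw [h] at hr3
      have : Nat.card (centralizer ((P : Subgroup G) : Set G)) = 152 := by omega
      rw [this] at g2 g3
      omega
    · rw [h] at hr3
      have : Nat.card (centralizer ((P : Subgroup G) : Set G)) = 76 := by omega
      rw [this] at g2 g3
      omega
    · rw [h] at hr3; omega
    · rw [h] at hr3; omega
  · -- m = 96
    rw [h, hv] at hm2
    rw [← hm2] at hKidx f4
    rcases hv6 with h | h | h | h
    · -- v = 1
      rw [h] at hm2 f4
      have hff : f = 16 * j' := by omega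
      have hf55 : 54 < f := by
        unfold Nat.ModEq at f1
        omega
      have hjj := f6 hf55
      have hj6 : j = 6 := by
        unfold Nat.ModEq at f1
        omega
      exact last hG hcard P hP hN t ht (by omega) hj6 ⟨t, IsConj.refl _, htC⟩
    · rw [h] at hKidx; omega
    · -- v = 3
      rw [h] at hKidx
      have hidx21 : (centralizer ({t} : Set G)).index = 21 := by omega
      obtain ⟨u, hou, hz, hc⟩ := gen P hP
      have hu1 : u ≠ 1 := by
        rintro rfl
        rw [orderOf_one] at hou
        omega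
      have htu := (hc t).1 htC
      obtain ⟨k2, g1⟩ := coset_sign hG (centralizer ({t} : Set G)) t ht2
      have g2 := lt_index (centralizer ({t} : Set G)) hKt t ht1
      have g3 := coset_mod (centralizer ({t} : Set G)) 19 1 u (by rw [pow_one, ← hou]; exact pow_orderOf_eq_one u)
      have g4 := lt_index (centralizer ({t} : Set G)) hKt u hu1
      have g5 := coset_mod2 (centralizer ({t} : Set G)) 19 1 t u htu (by rw [pow_one, ← hou]; exact pow_orderOf_eq_one u)
      have g6 := coset_mod2 (centralizer ({t} : Set G)) 2 1 u t htu.symm (by rw [pow_one]; exact ht2)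
      have g7 : Nat.card {q : G ⧸ centralizer ({t} : Set G) // t • q = q ∧ u • q = q} =
          Nat.card {q : G ⧸ centralizer ({t} : Set G) // u • q = q ∧ t • q = q} := by
        apply Nat.card_congr
        apply Equiv.subtypeEquivRight
        intro q
        exact and_comm
      have g8 : Nat.card {q : G ⧸ centralizer ({t} : Set G) // u • q = q ∧ t • q = q} ≤
          Nat.card (MulAction.fixedBy (G ⧸ centralizer ({t} : Set G)) u) := by
        apply Nat.card_le_card_of_injective (fun q => (⟨q.1, q.2.1⟩ : MulAction.fixedBy (G ⧸ centralizer ({t} : Set G)) u))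
        intro a b hab
        exact Subtype.ext (congrArg (fun z : MulAction.fixedBy (G ⧸ centralizer ({t} : Set G)) u => (z : G ⧸ centralizer ({t} : Set G))) hab)
      rw [g7] at g5
      rw [hidx21] at g1 g2 g3 g4
      unfold Nat.ModEq at g3 g5 g6
      clear f1 f2 f3 f4 f5 f6 f7 f8 hjle hcls hKfac h8
      have hFu : Nat.card (MulAction.fixedBy (G ⧸ centralizer ({t} : Set G)) u) = 2 := by omega
      rw [hFu] at g6 g8
      have hD : Nat.card {q : G ⧸ centralizer ({t} : Set G) // u • q = q ∧ t • q = q} = 0 ∨
          Nat.card {q : G ⧸ centralizer ({t} : Set G) // u • q = q ∧ t • q = q} = 2 := by omega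
      rcases hD with hD | hD <;> rw [hD] at g5 <;> omega
    · rw [h] at hKidx; omega
  · -- m = 1008
    rw [h, hv] at hm2
    rw [← hm2] at hKidx
    have h9 : (centralizer ({t} : Set G)).index ≤ 6 := by
      rcases hv6 with h | h | h | h <;> rw [h] at hKidx <;> omega
    have h10 := hKfac.trans (Nat.factorial_dvd_factorial h9)
    norm_num [Nat.factorial] at h10

end Cfsg.Agent.H13.Ord1022
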