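import Mathlib
import Cfsg.Agent.H13_SC
import Cfsg.Agent.H13_Ord4032

/-!
# No simple groups of order 420, 600, 720, 840, 1008, 1080
-/

set_option autoImplicit false

open Cfsg

namespace Cfsg.Agent.H13.Ord496

open Subgroup Cfsg.Agent.H13.Cnt Cfsg.Agent.H13.Cnt2 Cfsg.Agent.H13.Ord4032

variable {G : Type*} [Group G] [Finite G]

/-- elements of order three in the centraliser -/
theorem cube_pow {p : ℕ} [hp : Fact p.Prime] (P : Sylow p G) (hP : Nat.card (P : Subgroup G) = p) (hp3 : p ≠ 3)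
    (hPC : (P : Subgroup G) ≤ centralizer ((P : Subgroup G) : Set G))
    (hC : Nat.card (centralizer ((P : Subgroup G) : Set G)) = 3 * p) (x : G)
    (hxC : x ∈ centralizer ((P : Subgroup G) : Set G)) (hx : orderOf x = 3) :
    ∀ g ∈ centralizer ((P : Subgroup G) : Set G), g ^ 3 = 1 → g ∈ zpowers x := by
  have hx3 : x ^ 3 = 1 := by rw [← hx]; exact pow_orderOf_eq_one x
  have hcop : (Nat.card (P : Subgroup G)).Coprime 3 := by
    rw [hP]
    exact (Nat.coprime_primes hp.out Nat.prime_three).2 hp3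
  have hcube : Nat.card {g : G // g ∈ centralizer ((P : Subgroup G) : Set G) ∧ g ^ 3 = 1} ≤ 3 := by
    have h1 : Nat.card {g : G // g ∈ centralizer ((P : Subgroup G) : Set G) ∧ g ^ 3 = 1} * Nat.card (P : Subgroup G) ≤
        Nat.card (centralizer ((P : Subgroup G) : Set G)) := by
      rw [← Nat.card_prod]
      apply Nat.card_le_card_of_injective (fun q : {g : G // g ∈ centralizer ((P : Subgroup G) : Set G) ∧ g ^ 3 = 1} × (P : Subgroup G) =>
        (⟨q.1.1 * q.2.1, mul_mem q.1.2.1 (hPC q.2.2)⟩ : centralizer ((P : Subgroup G) : Set G)))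
      rintro ⟨⟨a, ha, ha3⟩, ⟨u, hu⟩⟩ ⟨⟨b, hb, hb3⟩, ⟨v, hv⟩⟩ hab
      have h1 : a * u = b * v := congrArg Subtype.val hab
      have hau : Commute a u := ((Subgroup.mem_centralizer_iff.1 ha) u hu).symm
      have hbv : Commute b v := ((Subgroup.mem_centralizer_iff.1 hb) v hv).symm
      have h2 : u ^ 3 = v ^ 3 := by
        have := congrArg (fun x => x ^ 3) h1
        simp only [hau.mul_pow, hbv.mul_pow, ha3, hb3, one_mul] at this
        exact this
      have h3 : (⟨u, hu⟩ : (P : Subgroup G)) = ⟨v, hv⟩ := by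
        apply (powCoprime hcop).injective
        apply Subtype.ext
        exact h2
      have h3' : u = v := congrArg Subtype.val h3
      subst h3'
      have h4 : a = b := mul_right_cancel h1
      subst h4
      rfl
    rw [hC, hP] at h1
    exact Nat.le_of_mul_le_mul_right h1 hp.out.pos
  have hsub : ((zpowers x : Subgroup G) : Set G) ⊆ {g | g ∈ centralizer ((P : Subgroup G) : Set G) ∧ g ^ 3 = 1} := by
    intro g hg
    obtain ⟨i, rfl⟩ := mem_zpowers_iff.1 hg
    refine ⟨zpow_mem hxC i, ?_⟩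
    rw [← zpow_natCast, ← zpow_mul, mul_comm, zpow_mul, zpow_natCast, hx3, one_zpow]
  have heq := Set.eq_of_subset_of_ncard_le hsub (by
    change Nat.card {g : G // g ∈ centralizer ((P : Subgroup G) : Set G) ∧ g ^ 3 = 1} ≤ Nat.card (zpowers x)
    rw [Nat.card_zpowers, hx]; exact hcube) (Set.toFinite _)
  intro g hgC hg3
  have : g ∈ {g | g ∈ centralizer ((P : Subgroup G) : Set G) ∧ g ^ 3 = 1} := ⟨hgC, hg3⟩
  rw [← heq] at this
  exact this

theorem ord600 [IsSimpleGroup G] : Nat.card G ≠ 600 := by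
  intro hcard
  have hG : ¬ IsMulCommutative G := H9.Small.not_comm (by rw [hcard]; norm_num)
  haveI : Fact (Nat.Prime 5) := ⟨by norm_num⟩
  obtain ⟨P⟩ : Nonempty (Sylow 5 G) := inferInstance
  obtain ⟨n, k, hn0, hnm, hn1, hn2, hnk, hP, hN, hidx, hNt, hfac⟩ :=
    H9.Small.sylow_num hG 2 24 (by rw [hcard]; norm_num) (by norm_num) two_ne_zero P
  have hn : n = 6 := by
    have h3 : n ≤ 24 := Nat.le_of_dvd (by norm_num) hnm
    interval_cases n <;> omega
  rw [hn, hcard] at hfac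
  norm_num [Nat.factorial] at hfac

theorem ord420 [IsSimpleGroup G] : Nat.card G ≠ 420 := by
  intro hcard
  have hG : ¬ IsMulCommutative G := H9.Small.not_comm (by rw [hcard]; norm_num)
  haveI : Fact (Nat.Prime 7) := ⟨by norm_num⟩
  haveI : Fact (Nat.Prime 2) := ⟨Nat.prime_two⟩
  obtain ⟨P⟩ : Nonempty (Sylow 7 G) := inferInstance
  obtain ⟨n, k, r, hnm, hn1, hn2, hnk, hP, hN, hidx, hNt, hfac, hr1, hr2, hr3, hPC⟩ :=
    setup hG 7 60 (by rw [hcard]) (by norm_num) P
  have hr4 : r = 2 ∨ r = 3 ∨ r = 6 := by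
    have h3 : r ≤ 6 := Nat.le_of_dvd (by norm_num) hr1
    interval_cases r <;> omega
  have hn : n = 15 := by
    have h3 : n ≤ 60 := Nat.le_of_dvd (by norm_num) hnm
    interval_cases n <;> omega
  subst hn
  have hk : k = 4 := by omega
  rw [hk] at hr3 hN
  have hC : Nat.card (centralizer ((P : Subgroup G) : Set G)) = 14 := by
    rcases hr4 with h | h | h <;> rw [h] at hr3 <;> omega
  obtain ⟨t, htC, ht⟩ := exists_ord (centralizer ((P : Subgroup G) : Set G)) 2 (by rw [hC]; norm_num)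
  obtain ⟨f, j', j, K, I, k2, e1, e2, e3, e4, e5, e6, e7, e8, e9, e10, e11, e12, e13⟩ := inv_data hG (by norm_num) P hP hNt hPC t htC ht
  rw [← hidx] at e2 e3 e5
  omega

theorem ord840 [IsSimpleGroup G] : Nat.card G ≠ 840 := by
  intro hcard
  have hG : ¬ IsMulCommutative G := H9.Small.not_comm (by rw [hcard]; norm_num)
  haveI : Fact (Nat.Prime 7) := ⟨by norm_num⟩
  haveI : Fact (Nat.Prime 5) := ⟨by norm_num⟩
  haveI : Fact (Nat.Prime 2) := ⟨Nat.prime_two⟩
  obtain ⟨P⟩ : Nonempty (Sylow 7 G) := inferInstance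
  obtain ⟨n, k, r, hnm, hn1, hn2, hnk, hP, hN, hidx, hNt, hfac, hr1, hr2, hr3, hPC⟩ :=
    setup hG 7 120 (by rw [hcard]) (by norm_num) P
  have hr4 : r = 2 ∨ r = 3 ∨ r = 6 := by
    have h3 : r ≤ 6 := Nat.le_of_dvd (by norm_num) hr1
    interval_cases r <;> omega
  have hn : n = 8 ∨ n = 15 ∨ n = 120 := by
    have h3 : n ≤ 120 := Nat.le_of_dvd (by norm_num) hnm
    interval_cases n <;> omega
  rcases hn with h | h | h
  · subst h
    have hk : k = 15 := by omega
    rw [hk] at hr3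
    obtain ⟨x, hxC, hx⟩ := exists_ord (centralizer ((P : Subgroup G) : Set G)) 5 (by
      rcases hr4 with h | h | h <;> rw [h] at hr3 <;> omega)
    have e := elt_data P hP hNt 5 1 x hxC (by
      rintro rfl
      rw [orderOf_one] at hx
      omega) (by rw [pow_one, ← hx]; exact pow_orderOf_eq_one x)
    rw [← hidx] at e
    omega
  · subst h
    have hk : k = 8 := by omega
    rw [hk] at hr3 hN
    have hC : Nat.card (centralizer ((P : Subgroup G) : Set G)) = 28 := by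
      rcases hr4 with h | h | h <;> rw [h] at hr3 <;> omega
    obtain ⟨t, htC, ht⟩ := exists_ord (centralizer ((P : Subgroup G) : Set G)) 2 (by rw [hC]; norm_num)
    obtain ⟨f, j', j, K, I, k2, e1, e2, e3, e4, e5, e6, e7, e8, e9, e10, e11, e12, e13⟩ := inv_data hG (by norm_num) P hP hNt hPC t htC ht
    rw [← hidx] at e2 e3 e5
    omega
  · subst h
    have hk : k = 1 := by omega
    rw [hk] at hr3
    rcases hr4 with h | h | h <;> rw [h] at hr3 <;> omega

theorem ord1008 [IsSimpleGroup G] : Nat.card G ≠ 1008 := by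
  intro hcard
  have hG : ¬ IsMulCommutative G := H9.Small.not_comm (by rw [hcard]; norm_num)
  haveI : Fact (Nat.Prime 7) := ⟨by norm_num⟩
  haveI : Fact (Nat.Prime 3) := ⟨by norm_num⟩
  haveI : Fact (Nat.Prime 2) := ⟨Nat.prime_two⟩
  obtain ⟨P⟩ : Nonempty (Sylow 7 G) := inferInstance
  obtain ⟨n, k, r, hnm, hn1, hn2, hnk, hP, hN, hidx, hNt, hfac, hr1, hr2, hr3, hPC⟩ :=
    setup hG 7 144 (by rw [hcard]) (by norm_num) P
  have hr4 : r = 2 ∨ r = 3 ∨ r = 6 := by
    have h3 : r ≤ 6 := Nat.le_of_dvd (by norm_num) hr1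
    interval_cases r <;> omega
  have hn : n = 8 ∨ n = 36 := by
    have h3 : n ≤ 144 := Nat.le_of_dvd (by norm_num) hnm
    interval_cases n <;> omega
  rcases hn with h | h
  · subst h
    have hk : k = 18 := by omega
    rw [hk] at hr3
    obtain ⟨x, hxC, hx⟩ := exists_ord (centralizer ((P : Subgroup G) : Set G)) 3 (by
      rcases hr4 with h | h | h <;> rw [h] at hr3 <;> omega)
    have e := elt_data P hP hNt 3 1 x hxC (by
      rintro rfl
      rw [orderOf_one] at hx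
      omega) (by rw [pow_one, ← hx]; exact pow_orderOf_eq_one x)
    rw [← hidx] at e
    omega
  · subst h
    have hk : k = 4 := by omega
    rw [hk] at hr3 hN
    have hC : Nat.card (centralizer ((P : Subgroup G) : Set G)) = 14 := by
      rcases hr4 with h | h | h <;> rw [h] at hr3 <;> omega
    obtain ⟨t, htC, ht⟩ := exists_ord (centralizer ((P : Subgroup G) : Set G)) 2 (by rw [hC]; norm_num)
    obtain ⟨f, j', j, K, I, k2, e1, e2, e3, e4, e5, e6, e7, e8, e9, e10, e11, e12, e13⟩ := inv_data hG (by norm_num) P hP hNt hPC t htC ht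
    rw [← hidx] at e2 e3 e5
    rw [hN] at e4
    rw [hC] at e7
    rw [hcard] at e8
    have hf : f = 8 := by omega
    subst hf
    have hj := e5 (by norm_num)
    have hj1 : j' = 1 := by omega
    rw [hj1] at e4
    have hK : K = 224 := by omega
    rw [hK] at e8
    omega

theorem ord1080 [IsSimpleGroup G] : Nat.card G ≠ 1080 := by
  intro hcard
  have hG : ¬ IsMulCommutative G := H9.Small.not_comm (by rw [hcard]; norm_num)
  haveI : Fact (Nat.Prime 5) := ⟨by norm_num⟩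
  haveI : Fact (Nat.Prime 3) := ⟨by norm_num⟩
  obtain ⟨P⟩ : Nonempty (Sylow 5 G) := inferInstance
  obtain ⟨n, k, r, hnm, hn1, hn2, hnk, hP, hN, hidx, hNt, hfac, hr1, hr2, hr3, hPC⟩ :=
    setup hG 5 216 (by rw [hcard]) (by norm_num) P
  have hr4 : r = 2 ∨ r = 4 := by
    have h3 : r ≤ 4 := Nat.le_of_dvd (by norm_num) hr1
    interval_cases r <;> omega
  have hn : n = 6 ∨ n = 36 ∨ n = 216 := by
    have h3 : n ≤ 216 := Nat.le_of_dvd (by norm_num) hnm
    interval_cases n <;> omega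
  rcases hn with h | h | h
  · subst h
    rw [hcard] at hfac
    norm_num [Nat.factorial] at hfac
  · subst h
    have hk : k = 6 := by omega
    rw [hk] at hr3 hN
    have hC : Nat.card (centralizer ((P : Subgroup G) : Set G)) = 15 := by
      rcases hr4 with h | h <;> rw [h] at hr3 <;> omega
    obtain ⟨x, hxC, hx⟩ := exists_ord (centralizer ((P : Subgroup G) : Set G)) 3 (by rw [hC]; norm_num)
    have hx3 : x ^ 3 = 1 := by rw [← hx]; exact pow_orderOf_eq_one x
    have hpow := cube_pow P hP (by norm_num) hPC (by rw [hC]) x hxC hx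
    set L := normalizer ((zpowers x : Subgroup G) : Set G) with hL
    have hmem : ∀ g : G, g ∈ normalizer ((P : Subgroup G) : Set G) → g * x * g⁻¹ ∈ zpowers x := by
      intro g hg
      apply hpow
      · rw [Subgroup.mem_centralizer_iff]
        intro y hy
        have h1 : g⁻¹ * y * g ∈ (P : Subgroup G) := by
          have := (Subgroup.mem_normalizer_iff.1 (inv_mem hg) y).1 hy
          rwa [inv_inv] at this
        have h2 := Subgroup.mem_centralizer_iff.1 hxC _ h1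
        calc y * (g * x * g⁻¹) = g * ((g⁻¹ * y * g) * x) * g⁻¹ := by group
          _ = g * (x * (g⁻¹ * y * g)) * g⁻¹ := by rw [h2]
          _ = g * x * g⁻¹ * y := by group
      · have : (g * x * g⁻¹) ^ 3 = g * x ^ 3 * g⁻¹ := conj_pow
        rw [this, hx3]; group
    have hmem2 : ∀ g : G, g ∈ normalizer ((P : Subgroup G) : Set G) → ∀ y ∈ zpowers x, g * y * g⁻¹ ∈ zpowers x := by
      intro g hg y hy
      obtain ⟨i, rfl⟩ := mem_zpowers_iff.1 hy
      have : g * x ^ i * g⁻¹ = (g * x * g⁻¹) ^ i := conj_zpow.symm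
      rw [this]
      exact zpow_mem (hmem g hg) i
    have hNL : normalizer ((P : Subgroup G) : Set G) ≤ L := by
      intro g hg
      rw [hL, Subgroup.mem_normalizer_iff]
      intro y
      constructor
      · exact hmem2 g hg y
      · intro h
        have := hmem2 g⁻¹ (inv_mem hg) _ h
        have e : g⁻¹ * (g * y * g⁻¹) * g⁻¹⁻¹ = y := by group
        rwa [e] at this
    -- 9 divides |L|
    have h9 : 9 ∣ Nat.card L := by
      obtain ⟨Q, hQ, hle⟩ := Sylow.exists_subgroup_card_pow_prime_le (G := G) 3 (n := 1) (m := 2) (by rw [hcard]; norm_num) (zpowers x)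
        (by rw [Nat.card_zpowers, hx, pow_one]) (by norm_num)
      have hcomm : ∀ x ∈ Q, ∀ y ∈ Q, x * y = y * x := by
        intro x hx y hy
        have := (IsPGroup.isMulCommutative_of_card_eq_prime_sq (p := 3) hQ).is_comm.comm ⟨x, hx⟩ ⟨y, hy⟩
        exact congrArg Subtype.val this
      have h1 : Nat.card Q = 9 := by rw [hQ]; norm_num
      rw [← h1]
      exact Subgroup.card_dvd_of_le (H9.Small.le_normalizer_of_comm Q (zpowers x) hle hcomm)
    obtain ⟨m, hm1, hm2, hm3⟩ := sub_num P hP L (Subgroup.le_normalizer.trans hNL)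
    rw [inf_eq_left.2 hNL, hN] at hm2
    have hLi := Subgroup.card_mul_index L
    rw [hcard, ← hm2] at hLi
    rw [← hm2] at h9
    have hLt : L ≠ ⊤ := H9.Small.normalizer_ne_top' (zpowers x) (by
      intro h
      have : x ∈ zpowers x := mem_zpowers x
      rw [h, Subgroup.mem_bot] at this
      rw [this, orderOf_one] at hx
      omega) (by
      intro h
      have : Nat.card (zpowers x) = 1080 := by rw [h, Subgroup.card_top, hcard]
      rw [Nat.card_zpowers, hx] at this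
      omega)
    have hLfac := H9.Small.two_mul_card_dvd hG L hLt
    rw [hcard] at hLfac
    have hLi1 : L.index ≠ 1 := fun h => hLt (Subgroup.index_eq_one.1 h)
    have hLi0 : L.index ≠ 0 := Subgroup.index_ne_zero_of_finite
    have hmi : m * L.index = 36 := by
      have : 30 * (m * L.index) = 30 * 36 := by
        calc 30 * (m * L.index) = m * (5 * 6) * L.index := by ring
          _ = 30 * 36 := by rw [hLi]
      omega
    have hm36 : m ∣ 36 := ⟨_, hmi.symm⟩
    have hmle : m ≤ 36 := Nat.le_of_dvd (by norm_num) hm36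
    have hm6 : m = 6 := by
      have h3 : 3 ∣ m := by omega
      have : m = 6 ∨ m = 36 := by
        clear hLfac hfac
        interval_cases m <;> omega
      rcases this with h | h
      · exact h
      · rw [h] at hmi
        exact absurd (by omega) hLi1
    rw [hm6] at hmi
    have h6 : L.index = 6 := by omega
    rw [h6] at hLfac
    norm_num [Nat.factorial] at hLfac
  · subst h
    have hk : k = 1 := by omega
    rw [hk] at hr3
    rcases hr4 with h | h <;> rw [h] at hr3 <;> omega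

/-- the sign table -/
def D : Fin 5 → ℤ := ![1, 1, -1, -1, -1]
/-- the degree table -/
def F : Fin 5 → ℕ := ![6, 16, 4, 9, 24]
/-- the coefficient table -/
def C : Fin 5 → ℤ := ![24, 9, -36, -16, -6]

theorem key720 : ∀ i j k l : Fin 5, 1 + D i * F i + D j * F j + D k * F k + D l * F l = 0 →
    1 + F i ^ 2 + F j ^ 2 + F k ^ 2 + F l ^ 2 ≤ 720 →
    (C i = -16 ∧ C j % 3 = 0 ∧ C k % 3 = 0 ∧ C l % 3 = 0) ∨ (C j = -16 ∧ C i % 3 = 0 ∧ C k % 3 = 0 ∧ C l % 3 = 0) ∨
    (C k = -16 ∧ C i % 3 = 0 ∧ C j % 3 = 0 ∧ C l % 3 = 0) ∨ (C l = -16 ∧ C i % 3 = 0 ∧ C j % 3 = 0 ∧ C k % 3 = 0) := by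
  decide +kernel

theorem coef : ∀ i : Fin 5, D i * 144 = C i * F i := by decide

theorem Fpos : ∀ i : Fin 5, F i ≠ 0 := by decide

/-- arithmetic for the order 720 -/
theorem deg_cases (f : ℕ) (δ k : ℤ) (hδ : δ = 1 ∨ δ = -1) (hf : (f : ℤ) = 5 * k + δ) (hd : f ∣ 720) (h1 : f ≠ 1)
    (h26 : f ≤ 26) : ∃ i : Fin 5, δ = D i ∧ f = F i := by
  have h : (δ = 1 ∧ f = 6) ∨ (δ = 1 ∧ f = 16) ∨ (δ = -1 ∧ f = 4) ∨ (δ = -1 ∧ f = 9) ∨ (δ = -1 ∧ f = 24) := by
    rcases hδ with h | h <;> subst h <;> interval_cases f <;> omega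
  rcases h with ⟨h, h'⟩ | ⟨h, h'⟩ | ⟨h, h'⟩ | ⟨h, h'⟩ | ⟨h, h'⟩
  · exact ⟨0, h, h'⟩
  · exact ⟨1, h, h'⟩
  · exact ⟨2, h, h'⟩
  · exact ⟨3, h, h'⟩
  · exact ⟨4, h, h'⟩

theorem sq_mod3 (d : ℤ) : d ^ 2 % 3 = 0 ∨ d ^ 2 % 3 = 1 := by
  have h : d % 3 = 0 ∨ d % 3 = 1 ∨ d % 3 = 2 := by omega
  rcases h with h | h | h <;> simp [pow_two, Int.mul_emod, h]

theorem mod_mul (c x : ℤ) (h : c % 3 = 0) : (c * x) % 3 = 0 := by
  rw [Int.mul_emod, h]; simp

theorem coefQ (i : Fin 5) (v : ℤ) : ((D i : ℤ) : ℚ) * (v : ℚ) ^ 2 / ((F i : ℕ) : ℚ) * 144 = ((C i * v ^ 2 : ℤ) : ℚ) := by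
  have h1 : ((D i : ℤ) : ℚ) * 144 = (C i : ℚ) * ((F i : ℕ) : ℚ) := by exact_mod_cast coef i
  have h2 : ((F i : ℕ) : ℚ) ≠ 0 := by exact_mod_cast Fpos i
  push_cast
  field_simp
  linear_combination (v : ℚ) ^ 2 * h1

theorem arith720 (f1 f2 f3 g : ℕ) (d1 d2 d3 e v1 v2 v3 b k1 k2 k3 k4 : ℤ)
    (hd1 : d1 = 1 ∨ d1 = -1) (hd2 : d2 = 1 ∨ d2 = -1) (hd3 : d3 = 1 ∨ d3 = -1) (he : e = 1 ∨ e = -1)
    (h1 : (f1 : ℤ) = 5 * k1 + d1) (h2 : (f2 : ℤ) = 5 * k2 + d2) (h3 : (f3 : ℤ) = 5 * k3 + d3) (h4 : (g : ℤ) = 5 * k4 + e * 4)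
    (hf1 : f1 ∣ 720) (hf2 : f2 ∣ 720) (hf3 : f3 ∣ 720) (hg : g ∣ 720) (hn1 : f1 ≠ 1) (hn2 : f2 ≠ 1) (hn3 : f3 ≠ 1)
    (hn4 : g ≠ 1) (hrel : e * g = 1 + (d1 * f1 + (d2 * f2 + d3 * f3)))
    (hsq : 1 + (f1 ^ 2 + (f2 ^ 2 + f3 ^ 2)) + g ^ 2 ≤ 720)
    (hmain : (5 : ℚ) * 16 ^ 2 = 720 * (1 + ((d1 : ℚ) * v1 ^ 2 / f1 + ((d2 : ℚ) * v2 ^ 2 / f2 + (d3 : ℚ) * v3 ^ 2 / f3)) - (e : ℚ) * b ^ 2 / g)) :
    False := by
  have b1 : f1 ≤ 26 := by
    by_contra hlt
    push Not at hlt
    have : 27 ^ 2 ≤ f1 ^ 2 := Nat.pow_le_pow_left hlt 2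
    omega
  have b2 : f2 ≤ 26 := by
    by_contra hlt
    push Not at hlt
    have : 27 ^ 2 ≤ f2 ^ 2 := Nat.pow_le_pow_left hlt 2
    omega
  have b3 : f3 ≤ 26 := by
    by_contra hlt
    push Not at hlt
    have : 27 ^ 2 ≤ f3 ^ 2 := Nat.pow_le_pow_left hlt 2
    omega
  have b4 : g ≤ 26 := by
    by_contra hlt
    push Not at hlt
    have : 27 ^ 2 ≤ g ^ 2 := Nat.pow_le_pow_left hlt 2
    omega
  obtain ⟨i1, rfl, rfl⟩ := deg_cases f1 d1 k1 hd1 h1 hf1 hn1 b1
  obtain ⟨i2, rfl, rfl⟩ := deg_cases f2 d2 k2 hd2 h2 hf2 hn2 b2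
  obtain ⟨i3, rfl, rfl⟩ := deg_cases f3 d3 k3 hd3 h3 hf3 hn3 b3
  obtain ⟨i4, he4, rfl⟩ := deg_cases g (-e) (k4 + e) (by omega) (by omega) hg hn4 b4
  have he' : e = - D i4 := by omega
  subst he'
  have hkey := key720 i1 i2 i3 i4 (by linarith) (by linarith)
  have hE : (256 : ℤ) = 144 + C i1 * v1 ^ 2 + C i2 * v2 ^ 2 + C i3 * v3 ^ 2 + C i4 * b ^ 2 := by
    have q1 := coefQ i1 v1
    have q2 := coefQ i2 v2
    have q3 := coefQ i3 v3
    have q4 := coefQ i4 b
    have : (256 : ℚ) = 144 + ((C i1 * v1 ^ 2 : ℤ) : ℚ) + ((C i2 * v2 ^ 2 : ℤ) : ℚ) + ((C i3 * v3 ^ 2 : ℤ) : ℚ) + ((C i4 * b ^ 2 : ℤ) : ℚ) := by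
      rw [← q1, ← q2, ← q3, ← q4]
      push_cast at hmain
      have e4 : -((D i4 : ℤ) : ℚ) * (b : ℚ) ^ 2 / ((F i4 : ℕ) : ℚ) = -(((D i4 : ℤ) : ℚ) * (b : ℚ) ^ 2 / ((F i4 : ℕ) : ℚ)) := by ring
      rw [e4] at hmain
      linarith
    exact_mod_cast this
  have m1 := sq_mod3 v1
  have m2 := sq_mod3 v2
  have m3 := sq_mod3 v3
  have m4 := sq_mod3 b
  rcases hkey with ⟨h, ha, hb, hc⟩ | ⟨h, ha, hb, hc⟩ | ⟨h, ha, hb, hc⟩ | ⟨h, ha, hb, hc⟩
  · have n1 := mod_mul _ (v2 ^ 2) ha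
    have n2 := mod_mul _ (v3 ^ 2) hb
    have n3 := mod_mul _ (b ^ 2) hc
    rw [h] at hE
    omega
  · have n1 := mod_mul _ (v1 ^ 2) ha
    have n2 := mod_mul _ (v3 ^ 2) hb
    have n3 := mod_mul _ (b ^ 2) hc
    rw [h] at hE
    omega
  · have n1 := mod_mul _ (v1 ^ 2) ha
    have n2 := mod_mul _ (v2 ^ 2) hb
    have n3 := mod_mul _ (b ^ 2) hc
    rw [h] at hE
    omega
  · have n1 := mod_mul _ (v1 ^ 2) ha
    have n2 := mod_mul _ (v2 ^ 2) hb
    have n3 := mod_mul _ (v3 ^ 2) hc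
    rw [h] at hE
    omega

theorem ord720 [IsSimpleGroup G] : Nat.card G ≠ 720 := by
  classical
  intro hcard
  have _ := Fintype.ofFinite G
  have hG : ¬ IsMulCommutative G := H9.Small.not_comm (by rw [hcard]; norm_num)
  haveI : Fact (Nat.Prime 5) := ⟨by norm_num⟩
  haveI : Fact (Nat.Prime 2) := ⟨Nat.prime_two⟩
  obtain ⟨P⟩ : Nonempty (Sylow 5 G) := inferInstance
  obtain ⟨n, k, r', hnm, hn1, hn2, hnk, hP, hN, hidx, hNt, hfac, -, -, -, hPC⟩ :=
    setup hG 5 144 (by rw [hcard]) (by norm_num) P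
  have hdvd : 5 ∣ Nat.card G := by rw [hcard]; norm_num
  have hr1 := H9.Small.relIndex_centralizer_dvd P hP
  have hr2 := H9.Small.relIndex_centralizer_ne_one hG hdvd P
  have hr3 := H9.Small.card_centralizer_mul (P : Subgroup G)
  rw [hN] at hr3
  set r := (Subgroup.centralizer ((P : Subgroup G) : Set G)).relIndex (Subgroup.normalizer ((P : Subgroup G) : Set G)) with hr
  have hr4 : r = 2 ∨ r = 4 := by
    have h3 : r ≤ 4 := Nat.le_of_dvd (by norm_num) hr1
    interval_cases r <;> omega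
  obtain ⟨c, hc5⟩ : 5 ∣ Nat.card (Subgroup.centralizer ((P : Subgroup G) : Set G)) := by
    conv_lhs => rw [← hP]
    exact Subgroup.card_dvd_of_le hPC
  have hn : n = 6 ∨ n = 16 ∨ n = 36 := by
    have h3 : n ≤ 144 := Nat.le_of_dvd (by norm_num) hnm
    interval_cases n <;> omega
  rcases hn with h | h | h
  · subst h
    rw [hcard] at hfac
    norm_num [Nat.factorial] at hfac
  · subst h
    have hk : k = 9 := by omega
    rw [hk] at hr3
    rcases hr4 with h | h <;> rw [h] at hr3 <;> omega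
  subst h
  have hk : k = 4 := by omega
  rw [hk] at hr3 hN
  rcases hr4 with h | h
  · rw [h] at hr3
    have hC : Nat.card (centralizer ((P : Subgroup G) : Set G)) = 10 := by omega
    obtain ⟨t, htC, ht⟩ := exists_ord (centralizer ((P : Subgroup G) : Set G)) 2 (by rw [hC]; norm_num)
    obtain ⟨f, j', j, K, I, k2, e1, e2, e3, e4, e5, e6, e7, e8, e9, e10, e11, e12, e13⟩ := inv_data hG (by norm_num) P hP hNt hPC t htC ht
    rw [← hidx] at e2 e3 e5
    rw [hN] at e4
    rw [hC] at e7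
    rw [hcard] at e8
    have hf : f = 16 := by omega
    subst hf
    have hj := e5 (by norm_num)
    have hj1 : j' = 1 := by omega
    rw [hj1] at e4
    have hK : K = 320 := by omega
    rw [hK] at e8
    omega
  -- the self-centralising case
  rw [h] at hr3
  have hC : Nat.card (centralizer ((P : Subgroup G) : Set G)) = 5 := by omega
  obtain ⟨s, hsN, hs⟩ := exists_ord (normalizer ((P : Subgroup G) : Set G)) 2 (by rw [hN]; norm_num)
  have hss : s * s = 1 := by rw [← pow_two, ← hs]; exact pow_orderOf_eq_one s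
  have hs1 : s ≠ 1 := by
    rintro rfl
    rw [orderOf_one] at hs
    omega
  have hsi : s⁻¹ = s := by rw [inv_eq_iff_mul_eq_one]; exact hss
  have hnotC : ∀ g : G, orderOf g = 2 → g ∉ centralizer ((P : Subgroup G) : Set G) := by
    intro g hg h
    have := Subgroup.orderOf_dvd_natCard _ h
    rw [hC, hg] at this
    omega
  have hord : ∀ g : G, IsConj s g → orderOf g = 2 := by
    intro g hg
    obtain ⟨c, rfl⟩ := isConj_iff.1 hg
    have := MulEquiv.orderOf_eq (MulAut.conj c) s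
    rw [MulAut.conj_apply] at this
    rw [this, hs]
  have hsinv := inverts P hP s hss hsN (hnotC s hs)
  -- number of fixed points of s
  have f2 := coset_sign hG (normalizer ((P : Subgroup G) : Set G)) s (by rw [pow_two]; exact hss)
  obtain ⟨k1, f2⟩ := f2
  have f3 := (S1018.result 5 P hP).2 s hsN (hnotC s hs)
  have f3' := card_orbits P hP
  have f4 := fix_card (normalizer ((P : Subgroup G) : Set G)) s hsN
  have f5 := conj_mod P hP s
  have f6 : Nat.card {g : G // IsConj s g ∧ g ∈ centralizer ((P : Subgroup G) : Set G)} = 0 := by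
    rw [Nat.card_eq_zero]
    left
    exact ⟨fun q => hnotC q.1 (hord _ q.2.1) q.2.2⟩
  have f7 : Nat.card {g : G // IsConj s g ∧ g ∈ normalizer ((P : Subgroup G) : Set G)} ≤ 5 := by
    refine le_trans ?_ hC.le
    apply Nat.card_le_card_of_injective (fun q : {g : G // IsConj s g ∧ g ∈ normalizer ((P : Subgroup G) : Set G)} =>
      (⟨q.1 * s, by
        have hq := hord _ q.2.1
        have hqq : (q.1 : G) * q.1 = 1 := by rw [← pow_two, ← hq]; exact pow_orderOf_eq_one _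
        have hqinv := inverts P hP q.1 hqq q.2.2 (hnotC _ hq)
        rw [Subgroup.mem_centralizer_iff]
        intro y hy
        have e1 : s * y * s⁻¹ = y⁻¹ := hsinv y hy
        have e2 : (q.1 : G) * y⁻¹ * (q.1 : G)⁻¹ = y := by
          rw [hqinv _ (inv_mem hy), inv_inv]
        calc y * (q.1 * s) = ((q.1 : G) * y⁻¹ * (q.1 : G)⁻¹) * (q.1 * s) := by rw [e2]
          _ = q.1 * y⁻¹ * s := by group
          _ = q.1 * (s * y * s⁻¹) * s := by rw [e1]
          _ = q.1 * s * y := by group⟩ : centralizer ((P : Subgroup G) : Set G)))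
    intro a b hab
    apply Subtype.ext
    have := congrArg Subtype.val hab
    exact mul_right_cancel this
  have f8 : 0 < Nat.card {g : G // IsConj s g ∧ g ∈ normalizer ((P : Subgroup G) : Set G)} := by
    have : Nonempty {g : G // IsConj s g ∧ g ∈ normalizer ((P : Subgroup G) : Set G)} := ⟨⟨s, IsConj.refl _, hsN⟩⟩
    exact Nat.card_pos
  rw [f6] at f5
  unfold Nat.ModEq at f5
  have f9 : Nat.card {g : G // IsConj s g ∧ g ∈ normalizer ((P : Subgroup G) : Set G)} = 5 := by omega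
  rw [f9, hN] at f4
  rw [← hidx] at f2 f3'
  have f10 := Subgroup.card_mul_index (centralizer ({s} : Set G))
  rw [hcard] at f10
  have hK16 : Nat.card (centralizer ({s} : Set G)) = 16 := by
    have h1 : Nat.card (MulAction.fixedBy (G ⧸ normalizer ((P : Subgroup G) : Set G)) s) = 4 ∨
        Nat.card (MulAction.fixedBy (G ⧸ normalizer ((P : Subgroup G) : Set G)) s) = 8 := by
      have hpos : 0 < Nat.card (centralizer ({s} : Set G)) := Nat.card_pos
      omega
    rcases h1 with h1 | h1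
    · rw [h1] at f4; omega
    · exfalso
      rw [h1] at f4
      have : Nat.card (centralizer ({s} : Set G)) = 32 := by omega
      rw [this] at f10
      omega
  obtain ⟨X, Y, δ, v, ε, b, g, htX, hXc, hYc, hδt, hε, hX, ⟨kg, hg⟩, hgd, hg2, hrel, hsq, hvt, hXp, hgb, hrelv, hsum, hmain⟩ :=
    H13.SC.main hG 5 (by norm_num) P hP hC s hs hsinv 4 h
  have hYc1 : Y.card = 1 := by omega
  obtain ⟨χ1, χ2, χ3, h12, h13, h23, hχ⟩ : ∃ χ1 χ2 χ3, χ1 ≠ χ2 ∧ χ1 ≠ χ3 ∧ χ2 ≠ χ3 ∧ X.erase (H10.BlockKer.triv G) = {χ1, χ2, χ3} := by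
    rw [← Finset.card_eq_three, Finset.card_erase_of_mem htX, hXc]
  have hmem : ∀ χ ∈ ({χ1, χ2, χ3} : Finset (IrrCharacter G)), χ ∈ X ∧ charDegree (χ : G → ℂ) ≠ 1 := by
    intro χ h
    rw [← hχ] at h
    refine ⟨Finset.mem_of_mem_erase h, fun h' => ?_⟩
    exact Finset.ne_of_mem_erase h (H13.BrDeg.lin_triv hG h')
  have M1 := hmem χ1 (by simp)
  have M2 := hmem χ2 (by simp)
  have M3 := hmem χ3 (by simp)
  rw [← Finset.add_sum_erase _ _ htX, hχ, Finset.sum_insert (by simp [h12, h13]), Finset.sum_insert (by simp [h23]), Finset.sum_singleton,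
    hδt, H13.BrDeg.deg_triv] at hrel
  rw [← Finset.add_sum_erase _ _ htX, hχ, Finset.sum_insert (by simp [h12, h13]), Finset.sum_insert (by simp [h23]), Finset.sum_singleton,
    H13.BrDeg.deg_triv, hYc1, hcard] at hsq
  rw [← Finset.add_sum_erase _ _ htX, hχ, Finset.sum_insert (by simp [h12, h13]), Finset.sum_insert (by simp [h23]), Finset.sum_singleton,
    hδt, hvt, H13.BrDeg.deg_triv, hcard, hK16] at hmain
  obtain ⟨hd1, k1', hk1⟩ := hX χ1 M1.1
  obtain ⟨hd2, k2', hk2⟩ := hX χ2 M2.1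
  obtain ⟨hd3, k3', hk3⟩ := hX χ3 M3.1
  have dv1 := H10.BlockGreen.charDegree_dvd_card χ1
  have dv2 := H10.BlockGreen.charDegree_dvd_card χ2
  have dv3 := H10.BlockGreen.charDegree_dvd_card χ3
  rw [hcard] at dv1 dv2 dv3 hgd
  refine arith720 (charDegree (χ1 : G → ℂ)) (charDegree (χ2 : G → ℂ)) (charDegree (χ3 : G → ℂ)) g (δ χ1) (δ χ2) (δ χ3) ε
    (v χ1) (v χ2) (v χ3) b k1' k2' k3' kg hd1 hd2 hd3 hε hk1 hk2 hk3 (by exact_mod_cast hg) dv1 dv2 dv3 hgd M1.2 M2.2 M3.2 (by omega) ?_ ?_ ?_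
  · push_cast at hrel
    linarith
  · linarith
  · push_cast at hmain
    linarith

end Cfsg.Agent.H13.Ord496
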