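import Mathlib
import Cfsg.Prelude.Def_RootSubgroups
import Cfsg.Agent.H13_RO
set_option autoImplicit false
set_option linter.all false

namespace Cfsg.Agent.H13.QM

open Cfsg Cfsg.Agent.H13.RO

variable {X : Type*} [Group X] {N : Type*} [AddCommGroup N] [DistribMulAction X N]

/-- `[N, A]` -/
def cm (N : Type*) [AddCommGroup N] [DistribMulAction X N] (A : Subgroup X) : AddSubgroup N :=
  AddSubgroup.closure {m : N | ∃ a ∈ A, ∃ n : N, m = a • n - n}

/-- fixed points -/
def fx (N : Type*) [AddCommGroup N] [DistribMulAction X N] (A : Subgroup X) : AddSubgroup N where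
  carrier := {n | ∀ a ∈ A, a • n = n}
  add_mem' := by
    intro m n hm hn a ha
    rw [smul_add, hm a ha, hn a ha]
  zero_mem' := fun a _ => smul_zero a
  neg_mem' := by
    intro m hm a ha
    rw [smul_neg, hm a ha]

theorem mem_fx {A : Subgroup X} {n : N} : n ∈ fx N A ↔ ∀ a ∈ A, a • n = n := Iff.rfl

theorem sub_mem_cm {A : Subgroup X} {a : X} (ha : a ∈ A) (n : N) : a • n - n ∈ cm N A :=
  AddSubgroup.subset_closure ⟨a, ha, n, rfl⟩

theorem cm_mono {A B : Subgroup X} (h : A ≤ B) : cm N A ≤ cm N B := by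
  rw [cm, AddSubgroup.closure_le]
  rintro _ ⟨a, ha, n, rfl⟩
  exact sub_mem_cm (h ha) n

theorem cm_le_fx {A : Subgroup X} (hq : ∀ a ∈ A, ∀ a' ∈ A, ∀ n : N, a' • (a • n - n) = a • n - n) :
    cm N A ≤ fx N A := by
  rw [cm, AddSubgroup.closure_le]
  rintro _ ⟨a, ha, n, rfl⟩ a' ha'
  exact hq a ha a' ha' n

theorem cm_conj {A B : Subgroup X} {g : X} (h : ∀ a ∈ A, g * a * g⁻¹ ∈ B) {u : N} (hu : u ∈ cm N A) :
    g • u ∈ cm N B := by
  induction hu using AddSubgroup.closure_induction with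
  | mem y hy =>
    obtain ⟨a, ha, n, rfl⟩ := hy
    have := sub_mem_cm (h a ha) (g • n)
    rwa [smul_smul, inv_mul_cancel_right, ← smul_smul, ← smul_sub] at this
  | zero => rw [smul_zero]; exact zero_mem _
  | add x y _ _ hx hy => rw [smul_add]; exact add_mem hx hy
  | neg x _ hx => rw [smul_neg]; exact neg_mem hx

theorem cm_sup {A B : Subgroup X} : cm N (A ⊔ B) = cm N A ⊔ cm N B := by
  apply le_antisymm
  · rw [cm, AddSubgroup.closure_le]
    rintro _ ⟨x, hx, n, rfl⟩
    rw [Subgroup.sup_eq_closure] at hx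
    show x • n - n ∈ cm N A ⊔ cm N B
    induction hx using Subgroup.closure_induction generalizing n with
    | mem y hy =>
      rcases hy with hy | hy
      · exact AddSubgroup.mem_sup_left (sub_mem_cm hy n)
      · exact AddSubgroup.mem_sup_right (sub_mem_cm hy n)
    | one => rw [one_smul, sub_self]; exact zero_mem _
    | mul x y _ _ hx hy =>
      have : (x * y) • n - n = (x • (y • n) - y • n) + (y • n - n) := by rw [mul_smul]; abel
      rw [this]
      exact add_mem (hx _) (hy _)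
    | inv x _ hx =>
      have : x⁻¹ • n - n = -(x • (x⁻¹ • n) - x⁻¹ • n) := by rw [smul_inv_smul]; abel
      rw [this]
      exact neg_mem (hx _)
  · exact sup_le (cm_mono le_sup_left) (cm_mono le_sup_right)

theorem fx_sup {A B : Subgroup X} {n : N} (hA : n ∈ fx N A) (hB : n ∈ fx N B) :
    n ∈ fx N (A ⊔ B) := by
  intro x hx
  rw [Subgroup.sup_eq_closure] at hx
  induction hx using Subgroup.closure_induction with
  | mem y hy =>
    rcases hy with hy | hy
    · exact hA y hy
    · exact hB y hy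
  | one => rw [one_smul]
  | mul x y _ _ hx hy => rw [mul_smul, hy, hx]
  | inv x _ hx => rw [inv_smul_eq_iff, hx]

variable {A B : Subgroup X}

theorem quad_conj {A : Subgroup X} (hq : ∀ a ∈ A, ∀ a' ∈ A, ∀ n : N, a' • (a • n - n) = a • n - n) (x : X) :
    ∀ a ∈ conjBy A x, ∀ a' ∈ conjBy A x, ∀ n : N, a' • (a • n - n) = a • n - n := by
  intro a ha a' ha' n
  rw [mem_cj] at ha ha'
  have h := hq _ ha _ ha' (x⁻¹ • n)
  simp only [smul_sub, smul_smul] at h ⊢
  have h2 := congrArg (fun m => x • m) h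
  simp only [smul_sub, smul_smul] at h2
  have e1 : x * (x⁻¹ * a' * x * (x⁻¹ * a * x * x⁻¹)) = a' * a := by group
  have e2 : x * (x⁻¹ * a' * x * x⁻¹) = a' := by group
  have e3 : x * (x⁻¹ * a * x * x⁻¹) = a := by group
  have e4 : x * x⁻¹ = 1 := by group
  rw [e1, e2, e3, e4, one_smul] at h2
  exact h2

theorem inv_sub {A : Subgroup X} (hq : cm N A ≤ fx N A) {a : X} (ha : a ∈ A) (n : N) :
    a⁻¹ • n - n = -(a • n - n) := by
  have h1 := hq (sub_mem_cm (A.inv_mem ha) n) a ha
  rw [smul_sub, smul_inv_smul] at h1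
  have : a • n - n = -(n - a • n) := by abel
  rw [this, neg_neg, h1]

/-- `mod Z`: the key relation -/
theorem rel (h : IsRankOnePair A B) (hA : cm N A ≤ fx N A) (hB : cm N B ≤ fx N B) {a b : X}
    (ha : a ∈ A) (hb : b ∈ B) (hab : conjBy A b = conjBy B a) {u : N} (hu : u ∈ cm N A) :
    u - (a • (b • u - u) - (b • u - u)) ∈ fx N (A ⊔ B) := by
  -- a⁻¹ b u ∈ [N,B]
  have h1 : a⁻¹ • (b • u) ∈ cm N B := by
    rw [← mul_smul]
    refine cm_conj ?_ hu
    intro a1 ha1
    have h2 : b * a1 * b⁻¹ ∈ conjBy A b := by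
      rw [mem_cj]
      have : b⁻¹ * (b * a1 * b⁻¹) * b = a1 := by group
      rwa [this]
    rw [hab, mem_cj] at h2
    have : a⁻¹ * b * a1 * (a⁻¹ * b)⁻¹ = a⁻¹ * (b * a1 * b⁻¹) * a := by group
    rwa [this]
  set w := a⁻¹ • (b • u) with hw
  have hbw : a • w = b • u := by rw [hw, smul_inv_smul]
  -- w + (a w - w) = u + (b u - u)
  have hz : w - (b • u - u) ∈ fx N (A ⊔ B) := by
    apply fx_sup
    · have : w - (b • u - u) = u - (a • w - w) := by rw [hbw]; abel
      rw [this]
      exact sub_mem (hA hu) (hA (sub_mem_cm ha w))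
    · exact sub_mem (hB h1) (hB (sub_mem_cm hb u))
  have h3 := hz a (Subgroup.mem_sup_left ha)
  rw [smul_sub] at h3
  have h4 : a • (b • u - u) - (b • u - u) = a • w - w := by
    have : a • w - a • (b • u - u) = w - (b • u - u) := h3
    have h5 : a • w - w = a • (b • u - u) - (b • u - u) := by
      rw [sub_eq_sub_iff_add_eq_add] at this ⊢
      rw [this]; abel
    exact h5.symm
  rw [h4, hbw]
  have : u - (b • u - w) = w - (b • u - u) := by abel
  rw [this]
  exact hz

/-- a nonidentity element of `A` acts nontrivially on `[N,X]` modulo `C_N(X)`. -/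
theorem nontriv (h : IsRankOnePair A B) (hA : cm N A ≤ fx N A) (hB : cm N B ≤ fx N B)
    (hX : ¬ cm N (A ⊔ B) ≤ fx N (A ⊔ B)) {a : X} (ha : a ∈ A)
    (hac : ∀ v ∈ cm N (A ⊔ B), a • v - v ∈ fx N (A ⊔ B)) : a = 1 := by
  by_contra ha1
  obtain ⟨b, hb, hb1, hbe⟩ := cond h ha ha1
  apply hX
  have h1 : cm N B ≤ fx N (A ⊔ B) := by
    intro w hw
    have h2 := rel (symm h) hB hA hb ha hbe.symm hw
    have h3 : a • w - w ∈ fx N (A ⊔ B) := hac w (cm_mono le_sup_right hw)
    have h4 : b • (a • w - w) = a • w - w := h3 b (Subgroup.mem_sup_right hb)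
    rw [h4, sub_self, sub_zero, sup_comm] at h2
    exact h2
  have h2 : cm N A ≤ fx N (A ⊔ B) := by
    intro u hu
    have h2 := rel h hA hB ha hb hbe hu
    have h3 : b • u - u ∈ fx N (A ⊔ B) := h1 (sub_mem_cm hb u)
    have h4 : a • (b • u - u) = b • u - u := h3 a (Subgroup.mem_sup_left ha)
    rw [h4, sub_self, sub_zero] at h2
    exact h2
  rw [cm_sup]
  exact sup_le h2 h1

end Cfsg.Agent.H13.QM
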