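import Mathlib
import Cfsg.Prelude.Def_RootSubgroups
set_option autoImplicit false
set_option linter.all false

/-! root involutions -/
namespace Cfsg.Agent.H13.RI

open Cfsg

variable {G : Type*} [Group G] {D : Set G} {a b c d x y z : G}

theorem sq (hD : IsRootInvolutionSet D) (ha : a ∈ D) : a * a = 1 := by
  have := pow_orderOf_eq_one a
  rwa [hD.orderOf_eq a ha, pow_two] at this

theorem inv' (hD : IsRootInvolutionSet D) (ha : a ∈ D) : a⁻¹ = a :=
  inv_eq_of_mul_eq_one_left (sq hD ha)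

theorem ne_one (hD : IsRootInvolutionSet D) (ha : a ∈ D) : a ≠ 1 := by
  intro h
  have := hD.orderOf_eq a ha
  rw [h, orderOf_one] at this
  omega

theorem mul_comm_inv (ha : a * a = 1) (hb : b * b = 1) : (a * b)⁻¹ = b * a := by
  rw [mul_inv_rev, inv_eq_of_mul_eq_one_left ha, inv_eq_of_mul_eq_one_left hb]

theorem ord_symm (ha : a * a = 1) (hb : b * b = 1) : orderOf (a * b) = orderOf (b * a) := by
  rw [← mul_comm_inv ha hb, orderOf_inv]

theorem comm_ord (ha : a * a = 1) (hb : b * b = 1) (h : Commute a b) : orderOf (a * b) ∣ 2 := by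
  apply orderOf_dvd_of_pow_eq_one
  rw [h.mul_pow, pow_two, pow_two, ha, hb, one_mul]

theorem ord4_comm (ha : a * a = 1) (hb : b * b = 1) (h : orderOf (a * b) ∣ 4) : Commute a (b * a * b) := by
  have h1 := orderOf_dvd_iff_pow_eq_one.1 h
  show a * (b * a * b) = b * a * b * a
  have h2 : (a * (b * a * b)) * (b * a * b * a)⁻¹ = 1 := by
    have e : (b * a * b * a)⁻¹ = a * b * a * b := by
      rw [mul_inv_rev, mul_inv_rev, mul_inv_rev, inv_eq_of_mul_eq_one_left ha, inv_eq_of_mul_eq_one_left hb]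
      group
    rw [e, ← h1]
    group
    simp [pow_succ, mul_assoc]
  exact mul_inv_eq_one.1 h2

theorem odd_symm (hD : IsRootInvolutionSet D) (ha : a ∈ D) (h : b ∈ oddPartners D a) : a ∈ oddPartners D b :=
  ⟨ha, h.2.1.symm, by rw [ord_symm (sq hD h.1) (sq hD ha)]; exact h.2.2⟩

theorem odd_not_comm (hD : IsRootInvolutionSet D) (ha : a ∈ D) (h : b ∈ oddPartners D a) : ¬ Commute a b := by
  intro hc
  have h1 := comm_ord (sq hD ha) (sq hD h.1) hc
  have h2 : orderOf (a * b) = 1 := by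
    rcases (Nat.dvd_prime Nat.prime_two).1 h1 with h3 | h3
    · exact h3
    · have := h.2.2; rw [h3] at this; exact absurd this (by decide)
  rw [orderOf_eq_one_iff] at h2
  apply h.2.1
  have : b = a⁻¹ := by rw [eq_comm, inv_eq_iff_mul_eq_one]; exact h2
  rw [this, inv' hD ha]

theorem four_symm (hD : IsRootInvolutionSet D) (ha : a ∈ D) (h : b ∈ fourPartners D a) : a ∈ fourPartners D b :=
  ⟨ha, by rw [ord_symm (sq hD h.1) (sq hD ha)]; exact h.2⟩

theorem four_not_comm (hD : IsRootInvolutionSet D) (ha : a ∈ D) (h : b ∈ fourPartners D a) : ¬ Commute a b := by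
  intro hc
  have h1 := comm_ord (sq hD ha) (sq hD h.1) hc
  rw [h.2] at h1
  exact absurd h1 (by decide)

theorem four_not_odd (h : b ∈ fourPartners D a) : b ∉ oddPartners D a := by
  intro h1
  have := h1.2.2
  rw [h.2] at this
  exact absurd this (by decide)

theorem tri (hD : IsRootInvolutionSet D) (ha : a ∈ D) (hb : b ∈ D) :
    Commute a b ∨ b ∈ oddPartners D a ∨ b ∈ fourPartners D a := by
  rcases hD.pair a ha b hb with h | h | h
  · exact Or.inl h
  · by_cases hab : b = a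
    · left; rw [hab]
    · exact Or.inr (Or.inl ⟨hb, hab, h⟩)
  · exact Or.inr (Or.inr ⟨hb, h.1⟩)

theorem four_mem (hD : IsRootInvolutionSet D) (ha : a ∈ D) (h : b ∈ fourPartners D a) : (a * b) ^ 2 ∈ D := by
  rcases hD.pair a ha b h.1 with h1 | h1 | h1
  · exact absurd h1 (four_not_comm hD ha h)
  · rw [h.2] at h1; exact absurd h1 (by decide)
  · exact h1.2

theorem four_eq (a b : G) : (a * b) ^ 2 = a * (b * a * b) := by
  rw [pow_two]; group

/-- the commutator of a four pair: `c = (ab)²` with all relations -/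
theorem four_rel (hD : IsRootInvolutionSet D) (ha : a ∈ D) (h : b ∈ fourPartners D a) :
    ∃ c ∈ D, Commute c a ∧ Commute c b ∧ b * a * b = a * c ∧ a * b * a = b * c ∧ a * c ∈ D ∧ b * c ∈ D := by
  have h1 := four_mem hD ha h
  have ha2 := sq hD ha
  have hb2 := sq hD h.1
  have h2 := ord4_comm ha2 hb2 (by rw [h.2])
  have h3 := ord4_comm hb2 ha2 (by rw [ord_symm hb2 ha2, h.2])
  have e1 : b * a * b = a * (a * b) ^ 2 := by
    rw [four_eq, ← mul_assoc a a, ha2, one_mul]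
  have e2 : (a * b) ^ 2 = b * (a * b * a) := by
    rw [four_eq]
    have : a * (b * a * b) = b * a * b * a := h2
    rw [this]; group
  have e3 : a * b * a = b * (a * b) ^ 2 := by
    rw [e2, ← mul_assoc b b, hb2, one_mul]
  refine ⟨(a * b) ^ 2, h1, ?_, ?_, e1, e3, ?_, ?_⟩
  · rw [four_eq]
    exact ((Commute.refl a).mul_left h2.symm)
  · rw [e2]
    exact ((Commute.refl b).mul_left h3.symm)
  · rw [← e1]
    have := hD.conj_mem a ha b
    rwa [inv' hD h.1] at this
  · rw [← e3]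
    have := hD.conj_mem b h.1 a
    rwa [inv' hD ha] at this

/-- no product of members of `D` has order `2n`, `n ≠ 1` odd -/
theorem no_bad (hD : IsRootInvolutionSet D) (ha : a ∈ D) (hb : b ∈ D) {n : ℕ} (hn : Odd n) (hn1 : n ≠ 1)
    (h : orderOf (a * b) = 2 * n) : False := by
  obtain ⟨k, rfl⟩ := hn
  rcases hD.pair a ha b hb with h1 | h1 | h1
  · have := comm_ord (sq hD ha) (sq hD hb) h1
    rw [h] at this
    have h2 := Nat.le_of_dvd (by norm_num) this
    omega
  · rw [h] at h1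
    obtain ⟨j, hj⟩ := h1
    omega
  · rw [h] at h1
    omega

/-- (i) -/
theorem no_comm (hD : IsRootInvolutionSet D) (ha : a ∈ D) (hz : z ∈ D) (haz : Commute a z)
    (hm : a * z ∈ D) (hx : x ∈ oddPartners D a) : ¬ Commute z x := by
  intro hzx
  have h1 : Commute z (a * x) := (haz.symm).mul_right hzx
  have h2 : orderOf (z * (a * x)) = 2 * orderOf (a * x) := by
    rw [h1.orderOf_mul_eq_mul_orderOf_of_coprime, hD.orderOf_eq z hz]
    rw [hD.orderOf_eq z hz]
    exact (Nat.coprime_two_left).2 hx.2.2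
  have h3 : orderOf (a * x) ≠ 1 := by
    intro h
    rw [orderOf_eq_one_iff] at h
    apply hx.2.1
    have : x = a⁻¹ := by rw [eq_comm, inv_eq_iff_mul_eq_one]; exact h
    rw [this, inv' hD ha]
  refine no_bad hD hm hx.1 hx.2.2 h3 ?_
  rw [← h2, haz.eq]
  congr 1
  group

/-! ### dihedral configurations -/

theorem a_rho {ρ : G} (ha2 : a * a = 1) (h : a * ρ * a = ρ⁻¹) (i : ℤ) : a * ρ ^ i = ρ ^ (-i) * a := by
  have e : a * ρ * a⁻¹ = ρ⁻¹ := by rw [inv_eq_of_mul_eq_one_left ha2]; exact h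
  have := congrArg (fun g => g ^ i) e
  simp only [conj_zpow, inv_zpow'] at this
  rw [mul_inv_eq_iff_eq_mul] at this
  exact this

theorem rho_rel (ha2 : a * a = 1) (hx2 : x * x = 1) : a * (a * x) * a = (a * x)⁻¹ := by
  rw [mul_comm_inv ha2 hx2, ← mul_assoc, ha2, one_mul]

theorem rho_ne (hD : IsRootInvolutionSet D) (ha : a ∈ D) (hx : x ∈ oddPartners D a) : a * x ≠ 1 := by
  intro h
  apply hx.2.1
  have : x = a⁻¹ := by rw [eq_comm, inv_eq_iff_mul_eq_one]; exact h
  rw [this, inv' hD ha]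

theorem refl_mem (hD : IsRootInvolutionSet D) (ha : a ∈ D) {ρ : G} (h : a * ρ * a = ρ⁻¹) (hodd : Odd (orderOf ρ))
    (i : ℤ) : a * ρ ^ i ∈ D := by
  have ha2 := sq hD ha
  have key : ∀ j : ℤ, a * ρ ^ (2 * j) ∈ D := by
    intro j
    have h1 := hD.conj_mem a ha (ρ ^ (-j))
    have e : ρ ^ (-j) * a * (ρ ^ (-j))⁻¹ = a * ρ ^ (2 * j) := by
      rw [← a_rho ha2 h, mul_assoc, ← zpow_neg, neg_neg, ← zpow_add]
      congr 2; ring
    rwa [e] at h1
  rcases Int.even_or_odd i with ⟨j, hj⟩ | ⟨j, hj⟩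
  · rw [show i = 2 * j by omega]; exact key j
  · obtain ⟨m, hm⟩ := hodd
    have : ρ ^ i = ρ ^ (2 * (j + m + 1)) := by
      have h1 : ρ ^ ((2 * m + 1 : ℕ) : ℤ) = 1 := by
        rw [zpow_natCast, ← hm]; exact pow_orderOf_eq_one ρ
      have h2 : (2 * (j + m + 1) : ℤ) = i + ((2 * m + 1 : ℕ) : ℤ) := by
        rw [hj]; push_cast; ring
      rw [h2, zpow_add, h1, mul_one]
    rw [this]
    exact key _

theorem refl_odd (hD : IsRootInvolutionSet D) (ha : a ∈ D) {ρ : G} (h : a * ρ * a = ρ⁻¹) (hodd : Odd (orderOf ρ))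
    (i : ℤ) (hi : ρ ^ i ≠ 1) : a * ρ ^ i ∈ oddPartners D a := by
  refine ⟨refl_mem hD ha h hodd i, ?_, ?_⟩
  · intro h1
    apply hi
    exact mul_left_cancel (h1.trans (mul_one a).symm)
  · rw [← mul_assoc, sq hD ha, one_mul]
    exact Odd.of_dvd_nat hodd (orderOf_dvd_of_mem_zpowers ⟨i, rfl⟩)

/-- the conjugates `z^{ρ^j}` -/
def cz (z ρ : G) (j : ℤ) : G := ρ ^ (-j) * z * ρ ^ j

theorem cz_zero (z ρ : G) : cz z ρ 0 = z := by simp [cz]

theorem cz_conj (z ρ : G) (i j : ℤ) : ρ ^ (-i) * cz z ρ j * ρ ^ i = cz z ρ (j + i) := by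
  rw [cz, cz, show -(j + i) = -i + -j by ring, zpow_add, zpow_add]
  group

theorem cz_mem (hD : IsRootInvolutionSet D) (hz : z ∈ D) (ρ : G) (j : ℤ) : cz z ρ j ∈ D := by
  have := hD.conj_mem z hz (ρ ^ (-j))
  rwa [← zpow_neg, neg_neg] at this

theorem cz_comm_shift {ρ : G} {i j : ℤ} (k : ℤ) (h : Commute (cz z ρ i) (cz z ρ j)) :
    Commute (cz z ρ (i + k)) (cz z ρ (j + k)) := by
  rw [← cz_conj, ← cz_conj]
  have e : ∀ u : G, ρ ^ (-k) * u * ρ ^ k = ρ ^ (-k) * u * (ρ ^ (-k))⁻¹ := by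
    intro u; rw [← zpow_neg, neg_neg]
  rw [e, e]
  show _ * _ = _ * _
  have e2 : ∀ u v g : G, g * u * g⁻¹ * (g * v * g⁻¹) = g * (u * v) * g⁻¹ := by intro u v g; group
  rw [e2, e2, h.eq]

theorem cz_refl {ρ : G} (ha2 : a * a = 1) (h : a * ρ * a = ρ⁻¹) (haz : Commute a z) (j : ℤ) :
    (a * ρ ^ j) * z * (a * ρ ^ j) = cz z ρ j := by
  rw [cz, a_rho ha2 h]
  have : ρ ^ (-j) * a * z * (ρ ^ (-j) * a) = ρ ^ (-j) * (a * z) * (ρ ^ (-j) * a) := by group
  rw [this, haz.eq, ← a_rho ha2 h]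
  have : ρ ^ (-j) * (z * a) * (a * ρ ^ j) = ρ ^ (-j) * z * (a * a) * ρ ^ j := by group
  rw [this, ha2, mul_one]

/-- (VAB) : all conjugates commute -/
theorem vab_nat (hD : IsRootInvolutionSet D) (ha : a ∈ D) (hz : z ∈ D) (haz : Commute a z)
    (hx : x ∈ oddPartners D a) (hxz : x ∈ fourPartners D z) :
    ∀ j : ℕ, Commute z (cz z (a * x) (j : ℤ)) := by
  have ha2 := sq hD ha
  have hx2 := sq hD hx.1
  have hz2 := sq hD hz
  have h := rho_rel ha2 hx2
  set ρ := a * x with hρ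
  have e1 : a * ρ ^ (1 : ℤ) = x := by rw [zpow_one, hρ, ← mul_assoc, ha2, one_mul]
  have hc1 : cz z ρ 1 = x * z * x := by rw [← cz_refl ha2 h haz 1, e1]
  obtain ⟨g, hg, hgz, hgx, h1, -, hzg, -⟩ := four_rel hD hz hxz
  have hz1 : Commute z (cz z ρ 1) := by
    rw [hc1, h1]
    exact (Commute.refl z).mul_right hgz.symm
  have hl : z * cz z ρ 1 ∈ D := by
    rw [hc1, h1, ← mul_assoc, hz2, one_mul]; exact hg
  intro j
  induction j with
  | zero => simp [cz]
  | succ j ih =>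
    by_contra hnc
    have hr := refl_mem hD ha h hx.2.2 ((j + 1 : ℕ) : ℤ)
    have hr2 := sq hD hr
    have hcj := cz_mem hD hz ρ ((j + 1 : ℕ) : ℤ)
    have hodd : cz z ρ ((j + 1 : ℕ) : ℤ) ∈ oddPartners D z := by
      rcases tri hD hz hr with h2 | h2 | h2
      · exfalso
        apply hnc
        rw [← cz_refl ha2 h haz, ← h2.eq, mul_assoc, hr2, mul_one]
      · refine ⟨hcj, ?_, ?_⟩
        · intro h3; apply hnc; rw [h3]
        · rw [← cz_refl ha2 h haz]
          have : z * (a * ρ ^ ((j + 1 : ℕ) : ℤ) * z * (a * ρ ^ ((j + 1 : ℕ) : ℤ))) = (z * (a * ρ ^ ((j + 1 : ℕ) : ℤ))) ^ 2 := by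
            rw [pow_two]; group
          rw [this]
          exact Odd.of_dvd_nat h2.2.2 (orderOf_pow_dvd 2)
      · exfalso
        apply hnc
        rw [← cz_refl ha2 h haz]
        exact ord4_comm hz2 hr2 (by rw [h2.2])
    refine no_comm hD hz (cz_mem hD hz ρ 1) hz1 hl hodd ?_
    have := cz_comm_shift (z := z) (ρ := ρ) (i := 0) (j := (j : ℤ)) 1 (by rw [cz_zero]; exact ih)
    rw [zero_add] at this
    exact_mod_cast this

end Cfsg.Agent.H13.RI
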