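import Mathlib
import Cfsg.Prelude.Def_RootSubgroups
import Cfsg.Agent.H13_RI
set_option autoImplicit false
set_option linter.all false

/-! root involutions: the natural module element -/
namespace Cfsg.Agent.H13.RI

open Cfsg

variable {G : Type*} [Group G] {D : Set G} {a b c d x y z : G}

theorem vab (hD : IsRootInvolutionSet D) (ha : a ∈ D) (hz : z ∈ D) (haz : Commute a z)
    (hx : x ∈ oddPartners D a) (hxz : x ∈ fourPartners D z) (i j : ℤ) :
    Commute (cz z (a * x) i) (cz z (a * x) j) := by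
  have h0 : ∀ j : ℤ, Commute (cz z (a * x) 0) (cz z (a * x) j) := by
    intro j
    rw [cz_zero]
    set n := orderOf (a * x) with hn
    have hn0 : 0 < n := hx.2.2.pos
    have h1 := vab_nat hD ha hz haz hx hxz (j % (n : ℤ)).toNat
    have h2 : (((j % (n : ℤ)).toNat : ℕ) : ℤ) = j % n := Int.toNat_of_nonneg (Int.emod_nonneg _ (by omega))
    rw [h2] at h1
    have h3 : cz z (a * x) (j % n) = cz z (a * x) j := by
      have e : ∀ i : ℤ, (a * x) ^ (i % (n : ℤ)) = (a * x) ^ i := by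
        intro i; rw [hn, zpow_mod_orderOf]
      have e2 : (a * x) ^ (-(j % (n : ℤ))) = (a * x) ^ (-j) := by
        rw [zpow_neg, e, zpow_neg]
      rw [cz, cz, e, e2]
    rwa [h3] at h1
  have := cz_comm_shift (z := z) (ρ := a * x) (i := 0) (j := j - i) i (h0 _)
  rw [zero_add, sub_add_cancel] at this
  exact this

/-- the module `V` -/
def V (z ρ : G) : Subgroup G := Subgroup.closure (Set.range (cz z ρ))

def P (ρ w : G) : ℕ → G
  | 0 => 1
  | k + 1 => ρ⁻¹ * (P ρ w k * w) * ρ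

theorem P_pow (ρ w : G) (k : ℕ) : (w * ρ) ^ k = ρ ^ k * P ρ w k := by
  induction k with
  | zero => simp [P]
  | succ k ih =>
    rw [pow_succ, ih, P, pow_succ]
    group

theorem P_add (ρ w : G) (j k : ℕ) : P ρ w (j + k) = ρ ^ (-(k : ℤ)) * P ρ w j * ρ ^ (k : ℤ) * P ρ w k := by
  induction k with
  | zero => simp [P]
  | succ k ih =>
    rw [← add_assoc, P, ih, P]
    have e1 : ρ ^ (((k + 1 : ℕ) : ℤ)) = ρ ^ (k : ℤ) * ρ := by
      rw [Nat.cast_succ, zpow_add, zpow_one]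
    have e2 : ρ ^ (-((k + 1 : ℕ) : ℤ)) = ρ⁻¹ * ρ ^ (-(k : ℤ)) := by
      rw [zpow_neg, e1, mul_inv_rev, zpow_neg]
    rw [e1, e2]
    group

theorem P_conj (ρ w : G) (i : ℤ) (k : ℕ) : P ρ (ρ ^ (-i) * w * ρ ^ i) k = ρ ^ (-i) * P ρ w k * ρ ^ i := by
  induction k with
  | zero => simp [P]
  | succ k ih =>
    rw [P, ih, P]
    have e1 : ρ ^ i * ρ = ρ * ρ ^ i := by rw [← zpow_one_add, add_comm, zpow_add_one]
    have e2 : ρ⁻¹ * ρ ^ (-i) = ρ ^ (-i) * ρ⁻¹ := by rw [← zpow_neg_one, ← zpow_add, ← zpow_add, add_comm]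
    calc ρ⁻¹ * (ρ ^ (-i) * P ρ w k * ρ ^ i * (ρ ^ (-i) * w * ρ ^ i)) * ρ
        = (ρ⁻¹ * ρ ^ (-i)) * P ρ w k * (ρ ^ i * ρ ^ (-i)) * w * (ρ ^ i * ρ) := by group
      _ = _ := by rw [e1, e2, ← zpow_add, add_neg_cancel, zpow_zero]; group

theorem P_fix {ρ w : G} (h : Commute w ρ) (k : ℕ) : P ρ w k = w ^ k := by
  induction k with
  | zero => simp [P]
  | succ k ih =>
    rw [P, ih, ← pow_succ]
    have : Commute (w ^ (k + 1)) ρ := h.pow_left _
    rw [mul_assoc, this.eq]; group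

section Mod

variable {ρ : G} (hc : ∀ i j, Commute (cz z ρ i) (cz z ρ j)) (hz2 : z * z = 1)

theorem z_mem : z ∈ V z ρ := Subgroup.subset_closure ⟨0, cz_zero z ρ⟩

include hc in
theorem V_comm {u v : G} (hu : u ∈ V z ρ) (hv : v ∈ V z ρ) : Commute u v := by
  have h1 : V z ρ ≤ Subgroup.centralizer (V z ρ : Set G) := by
    rw [V, Subgroup.closure_le]
    rintro _ ⟨i, rfl⟩
    have h2 : V z ρ ≤ Subgroup.centralizer {cz z ρ i} := by
      rw [V, Subgroup.closure_le]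
      rintro _ ⟨j, rfl⟩
      rw [SetLike.mem_coe, Subgroup.mem_centralizer_iff]
      intro u hu
      rw [Set.mem_singleton_iff.1 hu]
      exact hc i j
    rw [SetLike.mem_coe, Subgroup.mem_centralizer_iff]
    intro g hg
    have := h2 hg
    rw [Subgroup.mem_centralizer_iff] at this
    exact (this _ rfl).symm
  exact (Subgroup.mem_centralizer_iff.1 (h1 hv)) u hu

include hz2 in
theorem cz_sq (i : ℤ) : cz z ρ i * cz z ρ i = 1 := by
  rw [cz]
  have : ρ ^ (-i) * z * ρ ^ i * (ρ ^ (-i) * z * ρ ^ i) = ρ ^ (-i) * (z * (ρ ^ i * ρ ^ (-i)) * z) * ρ ^ i := by group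
  rw [this, ← zpow_add, add_neg_cancel, zpow_zero, mul_one, hz2, mul_one, ← zpow_add, neg_add_cancel, zpow_zero]

include hc hz2 in
theorem V_sq {u : G} (hu : u ∈ V z ρ) : u * u = 1 := by
  have hu' := hu
  rw [V] at hu
  induction hu using Subgroup.closure_induction with
  | mem u hu => obtain ⟨i, rfl⟩ := hu; exact cz_sq hz2 i
  | one => simp
  | mul u v hu0 hv0 hu hv =>
    have h1 : Commute u v := V_comm hc hu0 hv0
    have e : u * v * (u * v) = u * (v * u) * v := by group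
    rw [e, ← h1.eq]
    have e2 : u * (u * v) * v = (u * u) * (v * v) := by group
    rw [e2, hu hu0, hv hv0, one_mul]
  | inv u hu0 hu =>
    rw [← mul_inv_rev, hu hu0, inv_one]

theorem V_conj {u : G} (hu : u ∈ V z ρ) (i : ℤ) : ρ ^ (-i) * u * ρ ^ i ∈ V z ρ := by
  rw [V] at hu
  induction hu using Subgroup.closure_induction with
  | mem u hu => obtain ⟨j, rfl⟩ := hu; rw [cz_conj]; exact Subgroup.subset_closure ⟨_, rfl⟩
  | one => rw [mul_one, ← zpow_add, neg_add_cancel, zpow_zero]; exact one_mem _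
  | mul u v _ _ hu hv =>
    have e : ρ ^ (-i) * (u * v) * ρ ^ i = (ρ ^ (-i) * u * ρ ^ i) * (ρ ^ (-i) * v * ρ ^ i) := by
      have : ρ ^ i * ρ ^ (-i) = 1 := by rw [← zpow_add, add_neg_cancel, zpow_zero]
      calc ρ ^ (-i) * (u * v) * ρ ^ i = ρ ^ (-i) * u * 1 * v * ρ ^ i := by group
        _ = _ := by rw [← this]; group
    rw [e]; exact mul_mem hu hv
  | inv u _ hu =>
    have e : ρ ^ (-i) * u⁻¹ * ρ ^ i = (ρ ^ (-i) * u * ρ ^ i)⁻¹ := by
      rw [mul_inv_rev, mul_inv_rev, ← zpow_neg, ← zpow_neg, neg_neg]; group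
    rw [e]; exact inv_mem hu

theorem V_conj' {u : G} (hu : u ∈ V z ρ) : ρ⁻¹ * u * ρ ∈ V z ρ := by
  have := V_conj hu 1
  rwa [zpow_neg_one, zpow_one] at this

theorem P_mem {w : G} (hw : w ∈ V z ρ) (k : ℕ) : P ρ w k ∈ V z ρ := by
  induction k with
  | zero => exact one_mem _
  | succ k ih => exact V_conj' (mul_mem ih hw)

include hc in
theorem P_mul {w w' : G} (hw : w ∈ V z ρ) (hw' : w' ∈ V z ρ) (k : ℕ) : P ρ (w * w') k = P ρ w k * P ρ w' k := by
  induction k with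
  | zero => simp [P]
  | succ k ih =>
    rw [P, ih, P, P]
    have h1 : Commute (P ρ w' k) w := V_comm hc (P_mem hw' k) hw
    have e : P ρ w k * P ρ w' k * (w * w') = P ρ w k * (P ρ w' k * w) * w' := by group
    rw [e, h1.eq]; group

include hc hz2 in
theorem P_inv {w : G} (hw : w ∈ V z ρ) (k : ℕ) : P ρ w⁻¹ k = (P ρ w k)⁻¹ := by
  have h1 := V_sq hc hz2 hw
  rw [inv_eq_of_mul_eq_one_left h1, inv_eq_of_mul_eq_one_left (V_sq hc hz2 (P_mem hw k))]

include hc hz2 in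
theorem P_norm {n : ℕ} (hn : P ρ z n = 1) {w : G} (hw : w ∈ V z ρ) : P ρ w n = 1 := by
  have hw' := hw
  rw [V] at hw
  induction hw using Subgroup.closure_induction with
  | mem u hu =>
    obtain ⟨i, rfl⟩ := hu
    rw [cz, P_conj, hn, mul_one, ← zpow_add, neg_add_cancel, zpow_zero]
  | one => 
    have := P_fix (Commute.one_left ρ) n
    rw [this, one_pow]
  | mul u v hu0 hv0 hu hv => rw [P_mul hc hu0 hv0, hu hu0, hv hv0, one_mul]
  | inv u hu0 hu => rw [P_inv hc hz2 hu0, hu hu0, inv_one]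

include hc hz2 in
theorem V_fix {n : ℕ} (hn : P ρ z n = 1) (hodd : Odd n) {w : G} (hw : w ∈ V z ρ) (h : Commute w ρ) : w = 1 := by
  have h1 := P_norm hc hz2 hn hw
  rw [P_fix h] at h1
  obtain ⟨m, rfl⟩ := hodd
  have h2 := V_sq hc hz2 hw
  rw [pow_succ, pow_mul, pow_two, h2, one_pow, one_mul] at h1
  exact h1

end Mod

/-- `(zρ)^n = 1` -/
theorem norm_one (hD : IsRootInvolutionSet D) (ha : a ∈ D) (hz : z ∈ D) (haz : Commute a z) (hm : a * z ∈ D)
    (hx : x ∈ oddPartners D a) (hxz : x ∈ fourPartners D z) : P (a * x) z (orderOf (a * x)) = 1 := by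
  have hc := vab hD ha hz haz hx hxz
  have hz2 := sq hD hz
  have ha2 := sq hD ha
  have hx2 := sq hD hx.1
  set ρ := a * x with hρ
  set n := orderOf ρ with hn
  have hnodd : Odd n := hx.2.2
  have hs2 := V_sq hc hz2 (P_mem z_mem n)
  have h1 : (z * ρ) ^ n = P ρ z n := by rw [P_pow, hn, pow_orderOf_eq_one, one_mul]
  by_contra hs
  have e : (a * z) * x = z * ρ := by rw [haz.eq, hρ]; group
  have h2 : orderOf (z * ρ) ∣ n * 2 := by
    apply orderOf_dvd_of_pow_eq_one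
    rw [pow_mul, h1, pow_two, hs2]
  have h3 : ¬ orderOf (z * ρ) ∣ n := by
    intro h
    apply hs
    rw [← h1]
    exact orderOf_dvd_iff_pow_eq_one.1 h
  obtain ⟨m, hm'⟩ := hnodd
  rcases hD.pair _ hm x hx.1 with h4 | h4 | h4
  · have h5 := comm_ord (sq hD hm) hx2 h4
    rw [e] at h5
    have h6 := orderOf_dvd_iff_pow_eq_one.1 h5
    have h7 : (z * ρ) ^ 2 = ρ ^ 2 * P ρ z 2 := P_pow ρ z 2
    rw [h6] at h7
    have h8 : ρ ^ 2 ∈ V z ρ := by
      have : ρ ^ 2 = (P ρ z 2)⁻¹ := eq_inv_of_mul_eq_one_left h7.symm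
      rw [this]; exact inv_mem (P_mem z_mem 2)
    have h9 := V_sq hc hz2 h8
    rw [← pow_add] at h9
    have h10 : n ∣ 2 + 2 := orderOf_dvd_of_pow_eq_one h9
    have h11 := Nat.le_of_dvd (by norm_num) h10
    have h12 : n ≠ 1 := by
      intro h
      rw [hn, orderOf_eq_one_iff] at h
      exact rho_ne hD ha hx h
    have : n = 3 := by omega
    rw [this] at h10; omega
  · rw [e] at h4
    apply h3
    have : Nat.Coprime (orderOf (z * ρ)) 2 := (Nat.coprime_two_right).2 h4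
    exact this.dvd_of_dvd_mul_right h2
  · rw [e] at h4
    rw [h4.1] at h2
    omega

/-- the natural module element -/
theorem natmod [Finite G] (hD : IsRootInvolutionSet D) (ha : a ∈ D) (hz : z ∈ D) (haz : Commute a z) (hm : a * z ∈ D)
    (hx : x ∈ oddPartners D a) (hxz : x ∈ fourPartners D z) :
    ∃ v ∈ D, v ∈ V z (a * x) ∧ Commute v z ∧ v * a * v = a * z := by
  have hc := vab hD ha hz haz hx hxz
  have hs := norm_one hD ha hz haz hm hx hxz
  have hz2 := sq hD hz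
  have ha2 := sq hD ha
  have hx2 := sq hD hx.1
  have hrel := rho_rel ha2 hx2
  have hnodd := hx.2.2
  set ρ := a * x with hρ
  obtain ⟨m, hn⟩ := hnodd
  rw [hn] at hs
  have hVm : P ρ z m ∈ V z ρ := P_mem z_mem m
  have hρn : ρ ^ ((2 * m + 1 : ℕ) : ℤ) = 1 := by
    rw [zpow_natCast, ← hn]; exact pow_orderOf_eq_one ρ
  have hρn' : ρ ^ (-((2 * m + 1 : ℕ) : ℤ)) = 1 := by rw [zpow_neg, hρn, inv_one]
  -- P (k+1) z = c_{k+1} P k z
  have hPs : ∀ k : ℕ, P ρ z (k + 1) = cz z ρ ((k : ℤ) + 1) * P ρ z k := by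
    intro k
    rw [add_comm, P_add]
    congr 1
    have : P ρ z 1 = cz z ρ 1 := by
      show ρ⁻¹ * (1 * z) * ρ = ρ ^ (-(1:ℤ)) * z * ρ ^ (1 : ℤ)
      rw [one_mul, zpow_neg_one, zpow_one]
    rw [this, cz_conj, add_comm]
  -- a (P k z) a = ρ^{k+1} (P k z) ρ^{-(k+1)}
  have haP : ∀ k : ℕ, a * P ρ z k * a = ρ ^ ((k : ℤ) + 1) * P ρ z k * ρ ^ (-((k : ℤ) + 1)) := by
    intro k
    induction k with
    | zero =>
      show a * 1 * a = _ * 1 * _
      rw [mul_one, ha2, mul_one, ← zpow_add, add_neg_cancel, zpow_zero]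
    | succ k ih =>
      have e1 : a * cz z ρ ((k : ℤ) + 1) * a = cz z ρ (-((k : ℤ) + 1)) := by
        rw [cz, cz, neg_neg]
        have h3 := a_rho ha2 hrel ((k : ℤ) + 1)
        have h4 := a_rho ha2 hrel (-((k : ℤ) + 1))
        rw [neg_neg] at h4
        calc a * (ρ ^ (-((k : ℤ) + 1)) * z * ρ ^ ((k : ℤ) + 1)) * a
            = (a * ρ ^ (-((k : ℤ) + 1))) * z * (ρ ^ ((k : ℤ) + 1) * a) := by group
          _ = ρ ^ ((k : ℤ) + 1) * (a * z) * (a * ρ ^ (-((k : ℤ) + 1))) := by rw [h4]; group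
          _ = ρ ^ ((k : ℤ) + 1) * z * (a * a) * ρ ^ (-((k : ℤ) + 1)) := by rw [haz.eq]; group
          _ = _ := by rw [ha2, mul_one]
      have e2 : a * P ρ z (k + 1) * a = (a * cz z ρ ((k : ℤ) + 1) * a) * (a * P ρ z k * a) := by
        rw [hPs]
        have : a * (cz z ρ ((k : ℤ) + 1) * P ρ z k) * a = a * cz z ρ ((k : ℤ) + 1) * (1 : G) * P ρ z k * a := by group
        rw [this, ← ha2]; group
      rw [e2, e1, ih]
      have e3 : P ρ z (k + 1) = ρ⁻¹ * (P ρ z k * z) * ρ := rfl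
      have e4 : Commute (cz z ρ (-((k : ℤ) + 1))) (ρ ^ ((k : ℤ) + 1) * P ρ z k * ρ ^ (-((k : ℤ) + 1))) := by
        refine V_comm hc (Subgroup.subset_closure ⟨_, rfl⟩) ?_
        have := V_conj (P_mem (ρ := ρ) (z_mem (z := z) (ρ := ρ)) k) (-((k : ℤ) + 1))
        rwa [neg_neg] at this
      rw [e4.eq, e3, cz, neg_neg]
      have e5 : ρ ^ (((k + 1 : ℕ) : ℤ) + 1) = ρ ^ ((k : ℤ) + 1) * ρ := by
        rw [Nat.cast_succ, zpow_add_one]
      have e6 : ρ ^ (-(((k + 1 : ℕ) : ℤ) + 1)) = ρ⁻¹ * ρ ^ (-((k : ℤ) + 1)) := by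
        rw [zpow_neg, e5, mul_inv_rev, zpow_neg]
      rw [e5, e6]
      have e7 : ρ ^ (-((k : ℤ) + 1)) * ρ ^ ((k : ℤ) + 1) = 1 := by rw [← zpow_add, neg_add_cancel, zpow_zero]
      calc ρ ^ ((k : ℤ) + 1) * P ρ z k * ρ ^ (-((k : ℤ) + 1)) * (ρ ^ ((k : ℤ) + 1) * z * ρ ^ (-((k : ℤ) + 1)))
          = ρ ^ ((k : ℤ) + 1) * P ρ z k * (ρ ^ (-((k : ℤ) + 1)) * ρ ^ ((k : ℤ) + 1)) * z * ρ ^ (-((k : ℤ) + 1)) := by group
        _ = ρ ^ ((k : ℤ) + 1) * P ρ z k * z * ρ ^ (-((k : ℤ) + 1)) := by rw [e7]; group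
        _ = _ := by group
  -- P (2m) z = z
  have h2m : P ρ z (2 * m) = z := by
    have h1 := hPs (2 * m)
    rw [hs] at h1
    have h2 : cz z ρ (((2 * m : ℕ) : ℤ) + 1) = z := by
      have : (((2 * m : ℕ) : ℤ) + 1) = ((2 * m + 1 : ℕ) : ℤ) := by push_cast; ring
      rw [cz, this, hρn', hρn, one_mul, mul_one]
    rw [h2] at h1
    have : P ρ z (2 * m) = z⁻¹ := eq_inv_of_mul_eq_one_right h1.symm
    rw [this, inv_eq_of_mul_eq_one_left hz2]
  -- v (a v a) = z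
  have hvav : P ρ z m * (a * P ρ z m * a) = z := by
    rw [haP m]
    have e1 : ρ ^ ((m : ℤ) + 1) = ρ ^ (-(m : ℤ)) := by
      have : ((m : ℤ) + 1) = -(m : ℤ) + ((2 * m + 1 : ℕ) : ℤ) := by push_cast; ring
      rw [this, zpow_add, hρn, mul_one]
    have e2 : ρ ^ (-((m : ℤ) + 1)) = ρ ^ (m : ℤ) := by
      rw [zpow_neg, e1, ← zpow_neg, neg_neg]
    rw [e1, e2]
    have h3 := P_add ρ z m m
    rw [← two_mul, h2m] at h3
    have h4 : Commute (P ρ z m) (ρ ^ (-(m : ℤ)) * P ρ z m * ρ ^ (m : ℤ)) := V_comm hc hVm (V_conj hVm _)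
    rw [h4.eq]; exact h3.symm
  have hv2 := V_sq hc hz2 hVm
  have hvaz : P ρ z m * a * P ρ z m = a * z := by
    have e1 : a * P ρ z m * a = P ρ z m * z := by
      calc a * P ρ z m * a = (P ρ z m * P ρ z m) * (a * P ρ z m * a) := by rw [hv2, one_mul]
        _ = P ρ z m * (P ρ z m * (a * P ρ z m * a)) := by group
        _ = P ρ z m * z := by rw [hvav]
    have e2 : a * P ρ z m = P ρ z m * z * a := by
      rw [← e1, mul_assoc, ha2, mul_one]
    rw [mul_assoc, e2, ← mul_assoc, ← mul_assoc, hv2, one_mul, haz.eq]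
  -- the set U
  let UU : Set G := {u | u ∈ V z ρ ∧ (u ∈ D ∨ u = 1) ∧ ∃ k : ℤ, a * u * a = ρ ^ (-k) * u * ρ ^ k}
  -- u ∈ UU ⇒ u u^{ρ^i} ∈ UU
  have hUU : ∀ u ∈ UU, ∀ i : ℤ, u * (ρ ^ (-i) * u * ρ ^ i) ∈ UU := by
    rintro u ⟨hu, huD, k, hk⟩ i
    have hui := V_conj hu i
    have hcomm : Commute u (ρ ^ (-i) * u * ρ ^ i) := V_comm hc hu hui
    refine ⟨mul_mem hu hui, ?_, k - i, ?_⟩
    · rcases huD with huD | rfl
      · -- e = a ρ^{i - k}... reflection with e u e = u^{ρ^i}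
        have hr := refl_mem hD ha hrel hx.2.2 (i - k)
        have hr2 := sq hD hr
        have e1 : (a * ρ ^ (i - k)) * u * (a * ρ ^ (i - k)) = ρ ^ (-i) * u * ρ ^ i := by
          have h3 := a_rho ha2 hrel (i - k)
          calc (a * ρ ^ (i - k)) * u * (a * ρ ^ (i - k)) = (ρ ^ (-(i - k)) * a) * u * (a * ρ ^ (i - k)) := by rw [h3]
            _ = ρ ^ (-(i - k)) * (a * u * a) * ρ ^ (i - k) := by group
            _ = ρ ^ (-(i - k)) * ρ ^ (-k) * u * (ρ ^ k * ρ ^ (i - k)) := by rw [hk]; group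
            _ = _ := by rw [← zpow_add, ← zpow_add]; congr 3 <;> ring
        have e2 : u * (ρ ^ (-i) * u * ρ ^ i) = (u * (a * ρ ^ (i - k))) ^ 2 := by
          rw [← e1, four_eq]
        have e3 : orderOf (u * (a * ρ ^ (i - k))) ∣ 4 := by
          apply orderOf_dvd_of_pow_eq_one
          rw [show 4 = 2 * 2 by norm_num, pow_mul, ← e2, pow_two]
          exact V_sq hc hz2 (mul_mem hu hui)
        rcases hD.pair u huD _ hr with h4 | h4 | h4
        · right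
          rw [e2]
          exact orderOf_dvd_iff_pow_eq_one.1 (comm_ord (sq hD huD) hr2 h4)
        · right
          have h5 : orderOf (u * (a * ρ ^ (i - k))) = 1 := by
            have : Nat.Coprime (orderOf (u * (a * ρ ^ (i - k)))) 4 :=
              Nat.Coprime.pow_right 2 ((Nat.coprime_two_right).2 h4)
            exact Nat.Coprime.eq_one_of_dvd this e3
          rw [e2, orderOf_eq_one_iff.1 h5, one_pow]
        · left; rw [e2]; exact h4.2
      · right; rw [one_mul, mul_one, ← zpow_add, neg_add_cancel, zpow_zero]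
    · -- palindromic
      have h3 := a_rho ha2 hrel (-i)
      have h4 := a_rho ha2 hrel i
      rw [neg_neg] at h3
      have e1 : a * (ρ ^ (-i) * u * ρ ^ i) * a = ρ ^ i * (a * u * a) * ρ ^ (-i) := by
        have h5 : ρ ^ i * a = a * ρ ^ (-i) := h3.symm
        calc a * (ρ ^ (-i) * u * ρ ^ i) * a = (a * ρ ^ (-i)) * u * (ρ ^ i * a) := by group
          _ = (ρ ^ i * a) * u * (a * ρ ^ (-i)) := by rw [← h3]
          _ = ρ ^ i * (a * u * a) * ρ ^ (-i) := by group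
      have e2 : a * (u * (ρ ^ (-i) * u * ρ ^ i)) * a = (a * u * a) * (a * (ρ ^ (-i) * u * ρ ^ i) * a) := by
        have : a * (u * (ρ ^ (-i) * u * ρ ^ i)) * a = a * u * (1 : G) * (ρ ^ (-i) * u * ρ ^ i) * a := by group
        rw [this, ← ha2]; group
      rw [e2, e1, hk]
      have hA : ρ ^ i * (ρ ^ (-k) * u * ρ ^ k) * ρ ^ (-i) = ρ ^ (-(k - i)) * u * ρ ^ (k - i) := by
        have e3 : ρ ^ (-(k - i)) = ρ ^ i * ρ ^ (-k) := by rw [← zpow_add]; congr 1; ring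
        have e4 : ρ ^ (k - i) = ρ ^ k * ρ ^ (-i) := by rw [← zpow_add]; congr 1
        rw [e3, e4]; group
      have hB : ρ ^ (-(k - i)) * (u * (ρ ^ (-i) * u * ρ ^ i)) * ρ ^ (k - i) =
          (ρ ^ (-(k - i)) * u * ρ ^ (k - i)) * (ρ ^ (-k) * u * ρ ^ k) := by
        have e3 : ρ ^ (-k) = ρ ^ (-(k - i)) * ρ ^ (-i) := by rw [← zpow_add]; congr 1; ring
        have e4 : ρ ^ k = ρ ^ i * ρ ^ (k - i) := by rw [← zpow_add]; congr 1; ring
        have e5 : ρ ^ (k - i) * ρ ^ (-(k - i)) = 1 := by rw [← zpow_add, add_neg_cancel, zpow_zero]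
        rw [e3, e4]
        calc ρ ^ (-(k - i)) * (u * (ρ ^ (-i) * u * ρ ^ i)) * ρ ^ (k - i)
            = ρ ^ (-(k - i)) * u * 1 * (ρ ^ (-i) * u * ρ ^ i) * ρ ^ (k - i) := by group
          _ = _ := by rw [← e5]; group
      rw [hA, hB]
      exact (V_comm hc (V_conj hu k) (V_conj hu (k - i))).eq
  -- z ∈ UU, conj by ρ
  have hzU : z ∈ UU := ⟨z_mem, Or.inl hz, 0, by
    rw [neg_zero, zpow_zero, one_mul, mul_one, haz.eq, mul_assoc, ha2, mul_one]⟩
  have hUc : ∀ u ∈ UU, ρ⁻¹ * u * ρ ∈ UU := by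
    rintro u ⟨hu, huD, k, hk⟩
    refine ⟨V_conj' hu, ?_, k - 2, ?_⟩
    · rcases huD with huD | rfl
      · left
        have := hD.conj_mem u huD ρ⁻¹
        rwa [inv_inv] at this
      · right; group
    · have h3 := a_rho ha2 hrel (-1)
      rw [neg_neg, zpow_neg_one, zpow_one] at h3
      have e1 : a * (ρ⁻¹ * u * ρ) * a = ρ * (a * u * a) * ρ⁻¹ := by
        calc a * (ρ⁻¹ * u * ρ) * a = (a * ρ⁻¹) * u * (ρ * a) := by group
          _ = (ρ * a) * u * (a * ρ⁻¹) := by rw [← h3]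
          _ = ρ * (a * u * a) * ρ⁻¹ := by group
      rw [e1, hk]
      have e3 : ρ ^ (-(k - 2)) * ρ⁻¹ = ρ * ρ ^ (-k) := by
        rw [← zpow_neg_one, ← zpow_add, ← zpow_one_add]; congr 1; ring
      have e4 : ρ * ρ ^ (k - 2) = ρ ^ k * ρ⁻¹ := by
        rw [← zpow_neg_one ρ, ← zpow_add, ← zpow_one_add]; congr 1; ring
      calc ρ * (ρ ^ (-k) * u * ρ ^ k) * ρ⁻¹ = (ρ * ρ ^ (-k)) * u * (ρ ^ k * ρ⁻¹) := by group
        _ = ρ ^ (-(k - 2)) * (ρ⁻¹ * u * ρ) * ρ ^ (k - 2) := by rw [← e3, ← e4]; group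
  -- w0 = τ(v)
  have hw0 : P ρ z m * (ρ⁻¹ * P ρ z m * ρ) ∈ UU := by
    have e1 : P ρ z m * (ρ⁻¹ * P ρ z m * ρ) = ρ⁻¹ * (z * cz z ρ m) * ρ := by
      have e2 : ρ⁻¹ * P ρ z m * ρ = P ρ z (m + 1) * cz z ρ 1 := by
        have e3 : P ρ z (m + 1) = ρ⁻¹ * (P ρ z m * z) * ρ := rfl
        have e4 : cz z ρ 1 = ρ⁻¹ * z * ρ := by rw [cz, zpow_neg_one, zpow_one]
        rw [e3, e4]
        calc ρ⁻¹ * P ρ z m * ρ = ρ⁻¹ * P ρ z m * (z * z) * ρ := by rw [hz2]; group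
          _ = _ := by group
      rw [e2, hPs]
      have h3 : Commute (P ρ z m) (cz z ρ ((m : ℤ) + 1)) := V_comm hc hVm (Subgroup.subset_closure ⟨_, rfl⟩)
      calc P ρ z m * (cz z ρ ((m : ℤ) + 1) * P ρ z m * cz z ρ 1)
          = (P ρ z m * cz z ρ ((m : ℤ) + 1)) * P ρ z m * cz z ρ 1 := by group
        _ = cz z ρ ((m : ℤ) + 1) * (P ρ z m * P ρ z m) * cz z ρ 1 := by rw [h3.eq]; group
        _ = cz z ρ ((m : ℤ) + 1) * cz z ρ 1 := by rw [hv2, mul_one]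
        _ = cz z ρ 1 * cz z ρ ((m : ℤ) + 1) := (hc _ _).eq
        _ = (ρ⁻¹ * z * ρ) * (ρ⁻¹ * cz z ρ m * ρ) := by
          have h5 := cz_conj z ρ 1 m
          rw [zpow_neg_one, zpow_one] at h5
          rw [h5, cz, zpow_neg_one, zpow_one]
        _ = _ := by group
    rw [e1]
    refine hUc _ ?_
    have := hUU z hzU m
    exact this
  -- τ : UU → UU injective hence surjective
  let τ : UU → UU := fun u => ⟨u.1 * (ρ⁻¹ * u.1 * ρ), by
    have := hUU u.1 u.2 1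
    rwa [zpow_neg_one, zpow_one] at this⟩
  have hinj : ∀ u ∈ V z ρ, ∀ v ∈ V z ρ, u * (ρ⁻¹ * u * ρ) = v * (ρ⁻¹ * v * ρ) → u = v := by
    intro u hu v hv huv
    have hu2 := V_sq hc hz2 hu
    have hv2 := V_sq hc hz2 hv
    have h3 : Commute (u * v) ρ := by
      have e1 : u * v * ρ = ρ * (ρ⁻¹ * u * ρ) * (ρ⁻¹ * v * ρ) := by group
      -- ρ⁻¹uρ = u v (ρ⁻¹ v ρ)
      have e2 : ρ⁻¹ * u * ρ = u * (v * (ρ⁻¹ * v * ρ)) := by
        rw [← huv, ← mul_assoc u u, hu2, one_mul]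
      have e3 : (ρ⁻¹ * v * ρ) * (ρ⁻¹ * v * ρ) = 1 := V_sq hc hz2 (V_conj' hv)
      show u * v * ρ = ρ * (u * v)
      rw [e1, e2]
      calc ρ * (u * (v * (ρ⁻¹ * v * ρ))) * (ρ⁻¹ * v * ρ) = ρ * (u * v) * ((ρ⁻¹ * v * ρ) * (ρ⁻¹ * v * ρ)) := by
            simp only [mul_assoc]
        _ = _ := by rw [e3, mul_one]
    have h4 := V_fix hc hz2 hs ⟨m, rfl⟩ (mul_mem hu hv) h3
    have : u = v⁻¹ := eq_inv_of_mul_eq_one_left h4
    rw [this, inv_eq_of_mul_eq_one_left hv2]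
  have hτ : Function.Surjective τ := by
    apply Finite.surjective_of_injective
    intro u v huv
    exact Subtype.ext (hinj _ u.2.1 _ v.2.1 (congrArg Subtype.val huv))
  obtain ⟨⟨u, hu⟩, hue⟩ := hτ ⟨_, hw0⟩
  have h5 : u = P ρ z m := hinj _ hu.1 _ hVm (congrArg Subtype.val hue)
  rw [h5] at hu
  refine ⟨P ρ z m, ?_, hVm, V_comm hc hVm z_mem, hvaz⟩
  rcases hu.2.1 with h6 | h6
  · exact h6
  · exfalso
    rw [h6, one_mul, mul_one] at hvaz
    exact ne_one hD hz (mul_left_cancel (hvaz.symm.trans (mul_one a).symm))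

end Cfsg.Agent.H13.RI
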