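import Mathlib
import Cfsg.Prelude.Def_RootSubgroups
import Cfsg.Agent.H13_RI2
import Cfsg.Agent.H19_BS
set_option autoImplicit false
set_option linter.all false

/-! root involutions: components, order 3, TI-classes -/
namespace Cfsg.Agent.H13.RI

open Cfsg

variable {G : Type*} [Group G] {D : Set G} {a b c d e x y z : G}

abbrev R (D : Set G) (a b : G) : Prop := Relation.ReflTransGen (OddAdj D) a b

theorem adj_of_odd (ha : a ∈ D) (hx : x ∈ oddPartners D a) : OddAdj D a x := ⟨ha, hx.1, hx.2.1.symm, hx.2.2⟩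

theorem odd_of_adj (h : OddAdj D a x) : x ∈ oddPartners D a := ⟨h.2.1, h.2.2.1.symm, h.2.2.2⟩

theorem adj_symm (hD : IsRootInvolutionSet D) (h : OddAdj D a b) : OddAdj D b a :=
  adj_of_odd h.2.1 (odd_symm hD h.1 (odd_of_adj h))

theorem R_symm (hD : IsRootInvolutionSet D) (h : R D a b) : R D b a := by
  induction h with
  | refl => exact Relation.ReflTransGen.refl
  | tail _ h ih => exact Relation.ReflTransGen.head (adj_symm hD h) ih

theorem ord_conj (g u v : G) : orderOf ((g * u * g⁻¹) * (g * v * g⁻¹)) = orderOf (u * v) := by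
  have : (g * u * g⁻¹) * (g * v * g⁻¹) = MulAut.conj g (u * v) := by
    rw [MulAut.conj_apply]; group
  rw [this]
  exact MulEquiv.orderOf_eq (MulAut.conj g) (u * v)

theorem odd_cj (hD : IsRootInvolutionSet D) (g : G) (h : x ∈ oddPartners D a) :
    g * x * g⁻¹ ∈ oddPartners D (g * a * g⁻¹) := by
  refine ⟨hD.conj_mem x h.1 g, ?_, by rw [ord_conj]; exact h.2.2⟩
  intro h1
  exact h.2.1 (mul_left_cancel (mul_right_cancel h1))

theorem four_cj (hD : IsRootInvolutionSet D) (g : G) (h : x ∈ fourPartners D a) :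
    g * x * g⁻¹ ∈ fourPartners D (g * a * g⁻¹) :=
  ⟨hD.conj_mem x h.1 g, by rw [ord_conj]; exact h.2⟩

theorem comm_cj (g : G) (h : Commute a b) : Commute (g * a * g⁻¹) (g * b * g⁻¹) := by
  show _ * _ = _ * _
  have e2 : ∀ u v g : G, g * u * g⁻¹ * (g * v * g⁻¹) = g * (u * v) * g⁻¹ := by intro u v g; group
  rw [e2, e2, h.eq]

theorem R_conj (hD : IsRootInvolutionSet D) (g : G) (h : R D a b) : R D (g * a * g⁻¹) (g * b * g⁻¹) := by
  induction h with
  | refl => exact Relation.ReflTransGen.refl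
  | tail _ h ih =>
    exact Relation.ReflTransGen.tail ih (adj_of_odd (hD.conj_mem _ h.1 g) (odd_cj hD g (odd_of_adj h)))

theorem R_mem (ha : a ∈ D) (h : R D a b) : b ∈ D := by
  cases h with
  | refl => exact ha
  | tail _ h => exact h.2.1

/-- half of the line lemma -/
theorem half [Finite G] (hD : IsRootInvolutionSet D) (ha : a ∈ D) (hz : z ∈ D) (haz : Commute a z) (hm : a * z ∈ D)
    (hx : x ∈ oddPartners D a) (hR : ¬ R D a z) : R D a (a * z) := by
  have hxz : x ∈ fourPartners D z := by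
    rcases tri hD hz hx.1 with h | h | h
    · exact absurd h (no_comm hD ha hz haz hm hx)
    · exfalso
      apply hR
      exact (Relation.ReflTransGen.single (adj_of_odd ha hx)).tail (adj_of_odd hx.1 (odd_symm hD hz h))
    · exact h
  obtain ⟨v, hv, hvV, -, hvaz⟩ := natmod hD ha hz haz hm hx hxz
  have ha2 := sq hD ha
  have hx2 := sq hD hx.1
  have hrel := rho_rel ha2 hx2
  have key : ∀ g ∈ V z (a * x), R D a (g * a * g⁻¹) := by
    intro g hg
    rw [V] at hg
    induction hg using Subgroup.closure_induction with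
    | mem u hu =>
      obtain ⟨j, rfl⟩ := hu
      set c := cz z (a * x) j with hc
      -- e = ρ^{-j} a ρ^j
      have he : cz a (a * x) j = a * (a * x) ^ (2 * j) := by
        rw [cz, ← a_rho ha2 hrel, mul_assoc, ← zpow_add]
        congr 2; ring
      have hRe : R D a (cz a (a * x) j) := by
        by_cases h1 : (a * x) ^ (2 * j) = 1
        · rw [he, h1, mul_one]
        · rw [he]
          exact Relation.ReflTransGen.single (adj_of_odd ha (refl_odd hD ha hrel hx.2.2 _ h1))
      have hce : Commute c (cz a (a * x) j) := by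
        rw [hc, cz, cz]
        have := comm_cj ((a * x) ^ (-j)) haz.symm
        rwa [← zpow_neg, neg_neg] at this
      have h2 := R_conj hD c hRe
      rw [hce.eq, mul_inv_cancel_right] at h2
      exact hRe.trans (R_symm hD h2)
    | one => simp; exact Relation.ReflTransGen.refl
    | mul g h _ _ hg hh =>
      have h1 := R_conj hD g hh
      have : g * h * a * (g * h)⁻¹ = g * (h * a * h⁻¹) * g⁻¹ := by group
      rw [this]
      exact hg.trans h1
    | inv g _ hg =>
      have h1 := R_conj hD g⁻¹ hg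
      have : g⁻¹ * (g * a * g⁻¹) * g⁻¹⁻¹ = a := by group
      rw [this] at h1
      exact R_symm hD h1
  have h1 := key v hvV
  rwa [inv' hD hv, hvaz] at h1

/-- the line lemma -/
theorem line [Finite G] (hD : IsRootInvolutionSet D) (ha : a ∈ D) (hz : z ∈ D) (haz : Commute a z) (hm : a * z ∈ D)
    (hx : x ∈ oddPartners D a) (hy : y ∈ oddPartners D z) : R D a z := by
  by_contra hR
  have h1 := half hD ha hz haz hm hx hR
  have h2 := half hD hz ha haz.symm (by rw [← haz.eq]; exact hm) hy (fun h => hR (R_symm hD h))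
  rw [← haz.eq] at h2
  exact hR (h1.trans (R_symm hD h2))

theorem isol_iff (hD : IsRootInvolutionSet D) (ha : a ∈ D) :
    ¬ IsIsolatedElem (OddAdj D) D a ↔ ∃ x, x ∈ oddPartners D a := by
  unfold IsIsolatedElem
  push Not
  constructor
  · intro h
    obtain ⟨b, hb⟩ := h ha
    by_cases h1 : OddAdj D a b
    · exact ⟨b, odd_of_adj h1⟩
    · exact ⟨b, odd_of_adj (adj_symm hD (hb h1))⟩
  · rintro ⟨x, hx⟩ -
    exact ⟨x, fun h => absurd (adj_of_odd ha hx) h⟩

theorem comp_nonisol (hD : IsRootInvolutionSet D) (h : ∃ a' ∈ elemComponentOf (OddAdj D) D a, a' ≠ a) :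
    ∃ x, x ∈ oddPartners D a := by
  obtain ⟨a', ha', hne⟩ := h
  rcases Relation.ReflTransGen.cases_head ha'.2 with h1 | ⟨c, h1, -⟩
  · exact absurd h1.symm hne
  · exact ⟨c, odd_of_adj h1⟩

/-- isolated members lie in `O₂(G)` -/
theorem isol_core [Finite G] (hD : IsRootInvolutionSet D) (ha : IsIsolatedElem (OddAdj D) D a) : a ∈ pCore 2 G := by
  by_contra hO
  obtain ⟨w, hw1, hw2, hw3, g, hg⟩ := H19.BS.exists_odd_inverted (hD.orderOf_eq a ha.1) hO
  have hD' := hD.conj_mem a ha.1 g
  rw [hg] at hD'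
  apply (ha.2 (a * w)).1
  refine ⟨ha.1, hD', ?_, ?_⟩
  · intro h
    exact hw1 (mul_left_cancel (h.symm.trans (mul_one a).symm))
  · rw [← mul_assoc, sq hD ha.1, one_mul]; exact hw2

/-- members of `D` in a normal 2-subgroup are isolated -/
theorem core_isol (hD : IsRootInvolutionSet D) {N : Subgroup G} (hN : N.Normal) (hp : IsPGroup 2 N) (ha : a ∈ D)
    (haN : a ∈ N) : IsIsolatedElem (OddAdj D) D a := by
  by_contra h
  obtain ⟨x, hx⟩ := (isol_iff hD ha).1 h
  have hax : (a * x) ^ 2 ∈ N := by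
    rw [four_eq]
    have := hN.conj_mem a haN x
    rw [inv' hD hx.1] at this
    exact N.mul_mem haN this
  obtain ⟨k, hk⟩ := hp ⟨_, hax⟩
  have hk' : ((a * x) ^ 2) ^ 2 ^ k = 1 := congrArg Subtype.val hk
  rw [← pow_mul] at hk'
  have h1 : orderOf (a * x) ∣ 2 * 2 ^ k := orderOf_dvd_of_pow_eq_one hk'
  have h2 : Nat.Coprime (orderOf (a * x)) (2 * 2 ^ k) :=
    Nat.Coprime.mul_right ((Nat.coprime_two_right).2 hx.2.2) (Nat.Coprime.pow_right k ((Nat.coprime_two_right).2 hx.2.2))
  have h3 := Nat.Coprime.eq_one_of_dvd h2 h1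
  rw [orderOf_eq_one_iff] at h3
  exact rho_ne hD ha hx h3

/-- the order three lemma -/
theorem ord3 (hD : IsRootInvolutionSet D) (ha : a ∈ D) (hv : d ∈ D) (hy : y ∈ D) (hc : c ∈ D)
    (hyc : Commute y c) (hac : Commute a c) (hay : a * y * a = y * c) (hdy : Commute d y) (hdc : d * c * d = c * y) :
    orderOf (a * d) = 3 := by
  have ha2 := sq hD ha
  have hd2 := sq hD hv
  have hy2 := sq hD hy
  have hc2 := sq hD hc
  have hy1 := ne_one hD hy
  have hc1 := ne_one hD hc
  -- conjugation by s = a d: s⁻¹ g s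
  set s := a * d with hs
  have hsi : s⁻¹ = d * a := by rw [hs, mul_comm_inv ha2 hd2]
  have f1 : s⁻¹ * c * s = c * y := by
    rw [hsi, hs]
    calc d * a * c * (a * d) = d * (a * c) * a * d := by group
      _ = d * c * (a * a) * d := by rw [hac.eq]; group
      _ = c * y := by rw [ha2, mul_one, hdc]
  have f2 : s⁻¹ * y * s = c := by
    rw [hsi, hs]
    calc d * a * y * (a * d) = d * (a * y * a) * d := by group
      _ = d * (y * c) * d := by rw [hay]
      _ = (d * y) * c * d := by group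
      _ = y * (d * c * d) := by rw [hdy.eq]; group
      _ = y * (c * y) := by rw [hdc]
      _ = c := by rw [← mul_assoc, hyc.eq, mul_assoc, hy2, mul_one]
  have f3 : s⁻¹ * (c * y) * s = y := by
    calc s⁻¹ * (c * y) * s = (s⁻¹ * c * s) * (s⁻¹ * y * s) := by group
      _ = c * y * c := by rw [f1, f2]
      _ = y := by rw [mul_assoc, hyc.eq, ← mul_assoc, hc2, one_mul]
  have hcomm_of : ∀ g u : G, g⁻¹ * u * g = u → Commute u g := by
    intro g u h
    show u * g = g * u
    conv_rhs => rw [← h]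
    group
  have g2c : (s ^ 2)⁻¹ * c * s ^ 2 = y := by
    calc (s ^ 2)⁻¹ * c * s ^ 2 = s⁻¹ * (s⁻¹ * c * s) * s := by
          simp only [pow_succ, pow_zero, one_mul, mul_inv_rev, mul_assoc]
      _ = y := by rw [f1, f3]
  have g3 : ∀ u, s⁻¹ * (s⁻¹ * (s⁻¹ * u * s) * s) * s = (s ^ 3)⁻¹ * u * s ^ 3 := by
    intro u; simp only [pow_succ, pow_zero, one_mul, mul_inv_rev, mul_assoc]
  have h3c : Commute c (s ^ 3) := hcomm_of _ _ (by rw [← g3, f1, f3, f2])
  have h3y : Commute y (s ^ 3) := hcomm_of _ _ (by rw [← g3, f2, f1, f3])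
  have hne : ∀ n : ℕ, s ^ n = 1 → 3 ∣ n := by
    intro n hn
    obtain ⟨q, r, hr, rfl⟩ : ∃ q r, r < 3 ∧ n = 3 * q + r := ⟨n / 3, n % 3, Nat.mod_lt _ (by norm_num), by omega⟩
    have h4 : Commute c (s ^ (3 * q)) := by rw [pow_mul]; exact h3c.pow_right q
    have h5 : Commute c (s ^ r) := by
      have : s ^ r = (s ^ (3 * q))⁻¹ := by
        rw [pow_add] at hn
        exact eq_inv_of_mul_eq_one_right hn
      rw [this]; exact h4.inv_right
    have h6 : (s ^ r)⁻¹ * c * s ^ r = c := by
      rw [mul_assoc, h5.eq]; group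
    interval_cases r
    · exact ⟨q, by ring⟩
    · exfalso
      rw [pow_one, f1] at h6
      exact hy1 (mul_left_cancel (h6.trans (mul_one c).symm))
    · exfalso
      rw [g2c] at h6
      rw [h6] at f1 f2
      rw [f2] at f1
      exact hc1 (mul_left_cancel (f1.symm.trans (mul_one c).symm))
  -- the odd part
  have hodd : Odd (orderOf s) := by
    rcases hD.pair a ha d hv with h | h | h
    · exfalso
      have := hne _ (orderOf_dvd_iff_pow_eq_one.1 (comm_ord ha2 hd2 h))
      omega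
    · exact h
    · exfalso
      have := hne 4 (by rw [← h.1]; exact pow_orderOf_eq_one s)
      omega
  have h3n := hne _ (pow_orderOf_eq_one s)
  -- τ = s^3
  have hac' : a * c ∈ D := by
    have h4 := hD.conj_mem a ha y
    rw [inv' hD hy] at h4
    have : y * a * y = a * c := by
      have h5 : y * a = a * (y * c) := by
        rw [← hay]
        calc y * a = (a * a) * y * a := by rw [ha2, one_mul]
          _ = _ := by group
      rw [h5]
      calc a * (y * c) * y = a * (y * (c * y)) := by group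
        _ = a * (y * (y * c)) := by rw [hyc.eq]
        _ = a * c := by rw [← mul_assoc y, hy2, one_mul]
    rwa [this] at h4
  have hinv : a * s ^ 3 * a = (s ^ 3)⁻¹ := by
    have h4 := a_rho ha2 (rho_rel ha2 hd2) 3
    have e1 : s ^ (3 : ℤ) = s ^ 3 := by norm_cast
    have e2 : s ^ (-3 : ℤ) = (s ^ 3)⁻¹ := by rw [zpow_neg]; norm_cast
    rw [← hs, e1, e2] at h4
    rw [h4, mul_assoc, ha2, mul_one]
  have hat : (s ^ 3)⁻¹ * a * s ^ 3 = a * (s ^ 3) ^ 2 := by
    rw [← hinv, pow_two]
    calc a * s ^ 3 * a * a * s ^ 3 = a * s ^ 3 * (a * a) * s ^ 3 := by group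
      _ = _ := by rw [ha2]; group
  have hatD : a * (s ^ 3) ^ 2 ∈ D := by
    rw [← hat]
    have := hD.conj_mem a ha (s ^ 3)⁻¹
    rwa [inv_inv] at this
  have hprod : (a * c) * (a * (s ^ 3) ^ 2) = c * (s ^ 3) ^ 2 := by
    rw [hac.eq]
    calc c * a * (a * (s ^ 3) ^ 2) = c * (a * a) * (s ^ 3) ^ 2 := by group
      _ = _ := by rw [ha2, mul_one]
  by_contra hne3
  have h4 : orderOf ((s ^ 3) ^ 2) ≠ 1 := by
    intro h
    rw [orderOf_eq_one_iff, ← pow_mul] at h
    have h5 : orderOf s ∣ 3 * 2 := orderOf_dvd_of_pow_eq_one h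
    have h6 : orderOf s ∣ 3 := (Nat.Coprime.dvd_of_dvd_mul_right ((Nat.coprime_two_right).2 hodd) h5)
    exact hne3 (Nat.dvd_antisymm h6 h3n)
  have h5 : Odd (orderOf ((s ^ 3) ^ 2)) := by
    rw [← pow_mul]
    exact Odd.of_dvd_nat hodd (orderOf_pow_dvd _)
  have h6 : orderOf (c * (s ^ 3) ^ 2) = 2 * orderOf ((s ^ 3) ^ 2) := by
    rw [(h3c.pow_right 2).orderOf_mul_eq_mul_orderOf_of_coprime, hD.orderOf_eq c hc]
    rw [hD.orderOf_eq c hc]
    exact (Nat.coprime_two_left).2 h5
  exact no_bad hD hac' hatD h5 h4 (by rw [hprod]; exact h6)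

end Cfsg.Agent.H13.RI
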