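import Mathlib
import Cfsg.Prelude.Def_RootSubgroups
import Cfsg.Agent.H13_RI3
set_option autoImplicit false
set_option linter.all false

/-! root involutions: connected 𝓕(D) -/
namespace Cfsg.Agent.H13.RI

open Cfsg

variable {G : Type*} [Group G] {D : Set G} {a b c d e x y z : G}

theorem adj_conj (hD : IsRootInvolutionSet D) (ha : a ∈ D) (hx : x ∈ oddPartners D a) : ∃ g : G, x = g * a * g⁻¹ := by
  have ha2 := sq hD ha
  have hrel := rho_rel ha2 (sq hD hx.1)
  obtain ⟨m, hm⟩ := hx.2.2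
  set ρ := a * x with hρ
  refine ⟨ρ ^ (-((m : ℤ) + 1)), ?_⟩
  have h1 : ρ ^ ((2 * m + 1 : ℕ) : ℤ) = 1 := by
    rw [zpow_natCast, ← hm]; exact pow_orderOf_eq_one ρ
  have h2 : x = a * ρ ^ (1 : ℤ) := by rw [zpow_one, hρ, ← mul_assoc, ha2, one_mul]
  have h3 : ρ ^ (1 : ℤ) = ρ ^ (((m : ℤ) + 1) + ((m : ℤ) + 1)) := by
    have : (((m : ℤ) + 1) + ((m : ℤ) + 1)) = 1 + ((2 * m + 1 : ℕ) : ℤ) := by push_cast; ring
    rw [this, zpow_add, h1, mul_one]
  rw [h2, h3, zpow_add, ← mul_assoc, a_rho ha2 hrel, ← zpow_neg, neg_neg]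

theorem R_exists_conj (hD : IsRootInvolutionSet D) (ha : a ∈ D) (h : R D a b) : ∃ g : G, b = g * a * g⁻¹ := by
  induction h with
  | refl => exact ⟨1, by simp⟩
  | tail _ h ih =>
    obtain ⟨g, rfl⟩ := ih
    obtain ⟨k, hk⟩ := adj_conj hD h.1 (odd_of_adj h)
    exact ⟨k * g, by rw [hk]; group⟩

theorem odd_image (hD : IsRootInvolutionSet D) (g : G) :
    oddPartners D (g * a * g⁻¹) = (fun x => g * x * g⁻¹) '' oddPartners D a := by
  ext x
  constructor
  · intro hx
    refine ⟨g⁻¹ * x * g, ?_, by show g * (g⁻¹ * x * g) * g⁻¹ = x; group⟩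
    have := odd_cj hD g⁻¹ hx
    have e : g⁻¹ * (g * a * g⁻¹) * g⁻¹⁻¹ = a := by group
    rwa [e, inv_inv] at this
  · rintro ⟨y, hy, rfl⟩
    exact odd_cj hD g hy

theorem comm_image (hD : IsRootInvolutionSet D) (g : G) :
    commutingMembers D (g * a * g⁻¹) = (fun x => g * x * g⁻¹) '' commutingMembers D a := by
  ext x
  constructor
  · intro hx
    refine ⟨g⁻¹ * x * g, ⟨?_, ?_⟩, by show g * (g⁻¹ * x * g) * g⁻¹ = x; group⟩
    · have := hD.conj_mem x hx.1 g⁻¹
      rwa [inv_inv] at this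
    · have := comm_cj g⁻¹ (show Commute x (g * a * g⁻¹) from hx.2)
      have e : g⁻¹ * (g * a * g⁻¹) * g⁻¹⁻¹ = a := by group
      rw [e, inv_inv] at this
      exact this.eq
  · rintro ⟨y, hy, rfl⟩
    exact ⟨hD.conj_mem y hy.1 g, (comm_cj g (show Commute y a from hy.2)).eq⟩

/-- the set of all members of `D` -/
theorem odd_card [Finite G] (hD : IsRootInvolutionSet D) (hc : IsConnectedSet (OddAdj D) D) (ha : a ∈ D) (hb : b ∈ D) :
    (oddPartners D a).ncard = (oddPartners D b).ncard := by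
  obtain ⟨g, rfl⟩ := R_exists_conj hD ha (hc a ha b hb)
  rw [odd_image hD g, Set.ncard_image_of_injective]
  intro u v huv
  exact mul_left_cancel (mul_right_cancel huv)

theorem comm_card [Finite G] (hD : IsRootInvolutionSet D) (hc : IsConnectedSet (OddAdj D) D) (ha : a ∈ D) (hb : b ∈ D) :
    (commutingMembers D a).ncard = (commutingMembers D b).ncard := by
  obtain ⟨g, rfl⟩ := R_exists_conj hD ha (hc a ha b hb)
  rw [comm_image hD g, Set.ncard_image_of_injective]
  intro u v huv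
  exact mul_left_cancel (mul_right_cancel huv)

theorem odd_eq_of_sub [Finite G] (hD : IsRootInvolutionSet D) (hc : IsConnectedSet (OddAdj D) D) (ha : a ∈ D) (hb : b ∈ D)
    (h : oddPartners D a ⊆ oddPartners D b) : oddPartners D a = oddPartners D b :=
  Set.eq_of_subset_of_ncard_le h (odd_card hD hc ha hb).ge (Set.toFinite _)

theorem comm_eq_of_sub [Finite G] (hD : IsRootInvolutionSet D) (hc : IsConnectedSet (OddAdj D) D) (ha : a ∈ D) (hb : b ∈ D)
    (h : commutingMembers D a ⊆ commutingMembers D b) : commutingMembers D a = commutingMembers D b :=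
  Set.eq_of_subset_of_ncard_le h (comm_card hD hc ha hb).ge (Set.toFinite _)

theorem connected_nonisol (hD : IsRootInvolutionSet D) (hc : IsConnectedSet (OddAdj D) D) (ha : a ∈ D) (hb : b ∈ D)
    (hne : a ≠ b) : ∃ x, x ∈ oddPartners D a := by
  rcases Relation.ReflTransGen.cases_head (hc a ha b hb) with h1 | ⟨c, h1, -⟩
  · exact absurd h1 hne
  · exact ⟨c, odd_of_adj h1⟩

/-- on a line `{c, a, b}`, `x ∈ A_c` is not in both `V_a` and `V_b`. -/
theorem line_unique (hD : IsRootInvolutionSet D) (hc : c ∈ D) (ha : a ∈ D) (hca : Commute c a)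
    (hm : c * a ∈ D) (hx : x ∈ oddPartners D c) (hxa : x ∈ fourPartners D a) (hxb : x ∈ fourPartners D (c * a)) : False := by
  have hc2 := sq hD hc
  have ha2 := sq hD ha
  have hx2 := sq hD hx.1
  have h1 := vab hD hc ha hca hx hxa
  have hcb : Commute c (c * a) := (Commute.refl c).mul_right hca
  have h2 := vab hD hc hm hcb hx hxb 0 1
  have hrel := rho_rel hc2 hx2
  set ρ := c * x with hρ
  clear_value ρ
  have ha2' : ∀ u ∈ V a ρ, u * u = 1 := fun u hu => V_sq h1 ha2 hu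
  -- c ρ c = ρ⁻¹
  have e0 : ρ⁻¹ * c = c * ρ := by
    rw [← hrel, mul_assoc, hc2, mul_one]
  have e1 : cz (c * a) ρ 1 = c * (ρ * ρ) * cz a ρ 1 := by
    rw [cz, cz, zpow_neg_one, zpow_one]
    calc ρ⁻¹ * (c * a) * ρ = (ρ⁻¹ * c) * ρ * (ρ⁻¹ * a * ρ) := by group
      _ = _ := by rw [e0]; simp only [mul_assoc]
  rw [cz_zero, e1] at h2
  have h3 : c * a * (c * (ρ * ρ) * cz a ρ 1) = c * (ρ * ρ) * cz a ρ 1 * (c * a) := h2
  -- left side
  have l1 : c * a * (c * (ρ * ρ) * cz a ρ 1) = (ρ * ρ) * (cz a ρ 2 * cz a ρ 1) := by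
    have e2 : cz a ρ 2 = (ρ * ρ)⁻¹ * a * (ρ * ρ) := by
      rw [cz, zpow_neg]
      have : ρ ^ (2 : ℤ) = ρ * ρ := zpow_two ρ
      rw [this]
    rw [e2]
    calc c * a * (c * (ρ * ρ) * cz a ρ 1) = c * (a * c) * (ρ * ρ) * cz a ρ 1 := by simp only [mul_assoc]
      _ = (c * c) * a * (ρ * ρ) * cz a ρ 1 := by rw [← hca.eq]; simp only [mul_assoc]
      _ = a * (ρ * ρ) * cz a ρ 1 := by rw [hc2, one_mul]
      _ = _ := by group
  have l2 : c * (ρ * ρ) * cz a ρ 1 * (c * a) = (ρ * ρ)⁻¹ * ((c * cz a ρ 1 * c) * a) := by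
    have e3 : c * (ρ * ρ) = (ρ * ρ)⁻¹ * c := by
      have h4 := a_rho hc2 hrel 2
      have e5 : ρ ^ (2 : ℤ) = ρ * ρ := zpow_two ρ
      rw [zpow_neg, e5] at h4
      exact h4
    rw [e3]; simp only [mul_assoc]
  rw [l1, l2] at h3
  have hmem : c * cz a ρ 1 * c ∈ V a ρ := by
    have e6 : c * cz a ρ 1 * c = cz a ρ (-1) := by
      rw [cz, cz, neg_neg, zpow_neg_one, zpow_one]
      have h4 : ρ * c = c * ρ⁻¹ := by
        rw [← hrel]
        calc ρ * c = (c * c) * ρ * c := by rw [hc2, one_mul]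
          _ = _ := by simp only [mul_assoc]
      calc c * (ρ⁻¹ * a * ρ) * c = (c * ρ⁻¹) * a * (ρ * c) := by simp only [mul_assoc]
        _ = ρ * (c * a) * (c * ρ⁻¹) := by rw [← h4]; simp only [mul_assoc]
        _ = ρ * a * (c * c) * ρ⁻¹ := by rw [hca.eq]; simp only [mul_assoc]
        _ = _ := by rw [hc2, mul_one]
    rw [e6]; exact Subgroup.subset_closure ⟨_, rfl⟩
  have h4 : (ρ * ρ) * (ρ * ρ) ∈ V a ρ := by
    have h5 : (ρ * ρ) * (ρ * ρ) = ((c * cz a ρ 1 * c) * a) * (cz a ρ 2 * cz a ρ 1)⁻¹ := by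
      rw [eq_mul_inv_iff_mul_eq, mul_assoc, h3, ← mul_assoc, mul_inv_cancel, one_mul]
    rw [h5]
    exact mul_mem (mul_mem hmem z_mem) (inv_mem (mul_mem (Subgroup.subset_closure ⟨_, rfl⟩)
      (Subgroup.subset_closure ⟨_, rfl⟩)))
  have h5 := ha2' _ h4
  have h6 : ρ ^ (2 ^ 3) = 1 := by
    rw [← h5]; show ρ ^ 8 = _
    simp only [pow_succ, pow_zero, one_mul, mul_assoc]
  have h7 : orderOf ρ ∣ 2 ^ 3 := orderOf_dvd_of_pow_eq_one h6
  have h8 : Nat.Coprime (orderOf ρ) (2 ^ 3) := Nat.Coprime.pow_right 3 ((Nat.coprime_two_right).2 (by rw [hρ]; exact hx.2.2))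
  have h9 := Nat.Coprime.eq_one_of_dvd h8 h7
  rw [orderOf_eq_one_iff, hρ] at h9
  exact rho_ne hD hc hx h9

/-- lines with two points in a class -/
theorem third_mem [Finite G] (hD : IsRootInvolutionSet D) (hF : IsConnectedSet (OddAdj D) D) (ha : a ∈ D) (hb : b ∈ D)
    (hab : Commute a b) (hm : a * b ∈ D) (hA : oddPartners D a = oddPartners D b) :
    oddPartners D (a * b) = oddPartners D a := by
  have ha2 := sq hD ha
  apply odd_eq_of_sub hD hF hm ha
  by_contra hsub
  obtain ⟨x, hx, hxa⟩ := Set.not_subset.1 hsub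
  have hca : Commute (a * b) a := (Commute.refl a).mul_left hab.symm
  have hcb : Commute (a * b) b := hab.mul_left (Commute.refl b)
  have e1 : (a * b) * a = b := by rw [hab.eq, mul_assoc, ha2, mul_one]
  have e2 : (a * b) * b = a := by rw [mul_assoc, sq hD hb, mul_one]
  have h1 : x ∈ fourPartners D a := by
    rcases tri hD ha hx.1 with h | h | h
    · exact absurd h (no_comm hD hm ha hca (by rw [e1]; exact hb) hx)
    · exact absurd h hxa
    · exact h
  have h2 : x ∈ fourPartners D b := by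
    rcases tri hD hb hx.1 with h | h | h
    · exact absurd h (no_comm hD hm hb hcb (by rw [e2]; exact ha) hx)
    · rw [← hA] at h; exact absurd h hxa
    · exact h
  exact line_unique hD hm ha hca (by rw [e1]; exact hb) hx h1 (by rw [e1]; exact h2)

/-- the 2-element `y` normalising `A_a`, not commuting with `a`: `A_y = A_a` -/
theorem T1 [Finite G] (hD : IsRootInvolutionSet D) (hF : IsConnectedSet (OddAdj D) D) (ha : a ∈ D)
    (hy : y ∈ fourPartners D a) (hN : oddPartners D (y * a * y) = oddPartners D a) :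
    oddPartners D y = oddPartners D a := by
  obtain ⟨c, hc, hca, hcy, h1, h2, h3, h4⟩ := four_rel hD ha hy
  -- y a y = a c, a y a = y c
  have ha2 := sq hD ha
  have hy2 := sq hD hy.1
  have hc2 := sq hD hc
  have hac : Commute a (a * c) := (Commute.refl a).mul_right hca.symm
  have e1 : a * (a * c) = c := by rw [← mul_assoc, ha2, one_mul]
  have hAc : oddPartners D c = oddPartners D a := by
    have := third_mem hD hF ha h3 hac (by rw [e1]; exact hc) (by rw [← h1, hN])
    rwa [e1] at this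
  by_contra hne
  -- x ∈ A_c \ A_y
  have hsub : ¬ oddPartners D c ⊆ oddPartners D y := by
    intro h
    apply hne
    rw [← hAc]
    exact (odd_eq_of_sub hD hF hc hy.1 h).symm
  obtain ⟨x, hx, hxy⟩ := Set.not_subset.1 hsub
  have hx4 : x ∈ fourPartners D y := by
    rcases tri hD hy.1 hx.1 with h | h | h
    · exact absurd h (no_comm hD hc hy.1 hcy (by rw [hcy.eq]; exact h4) hx)
    · exact absurd h hxy
    · exact h
  obtain ⟨v, hv, -, hvy, hvc⟩ := natmod hD hc hy.1 hcy (by rw [hcy.eq]; exact h4) hx hx4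
  have h5 := ord3 hD ha hv hy.1 hc hcy.symm hca.symm h2 hvy hvc
  have h6 : v ∈ oddPartners D a := by
    refine ⟨hv, ?_, by rw [h5]; decide⟩
    rintro rfl
    rw [ha2, orderOf_one] at h5
    omega
  rw [← hAc] at h6
  -- but v c v = c y
  have h7 : orderOf (c * v) ∣ 4 := by
    apply orderOf_dvd_of_pow_eq_one
    have e3 : (c * v) ^ 4 = (c * (v * c * v)) * (c * (v * c * v)) := by
      group
      simp [pow_succ, mul_assoc]
    rw [e3, hvc, ← mul_assoc c c, hc2, one_mul, hy2]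
  have h8 : Nat.Coprime (orderOf (c * v)) 4 := Nat.Coprime.pow_right 2 ((Nat.coprime_two_right).2 h6.2.2)
  have h9 := Nat.Coprime.eq_one_of_dvd h8 h7
  rw [orderOf_eq_one_iff] at h9
  exact rho_ne hD hc h6 h9

end Cfsg.Agent.H13.RI
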