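import Mathlib
import Cfsg.Prelude.Def_RootSubgroups
import Cfsg.Agent.H13_RI4
import Cfsg.Agent.H11_Cores
set_option autoImplicit false
set_option linter.all false

/-! root involutions: `A_a = A_b ↔ C_D(a) = C_D(b)` -/
namespace Cfsg.Agent.H13.RI

open Cfsg
open scoped commutatorElement

variable {G : Type*} [Group G] {D : Set G} {a b c d e h t x y z : G}

/-- the class of members with the same odd partners -/
def TT (D : Set G) (a : G) : Set G := {h | h ∈ D ∧ oddPartners D h = oddPartners D a}

theorem not_self_odd : a ∉ oddPartners D a := fun h => h.2.1 rfl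

theorem TT_not_odd (hh : h ∈ TT D a) (ht : t ∈ TT D a) : t ∉ oddPartners D h := by
  rw [hh.2, ← ht.2]; exact not_self_odd

/-- elements of `D` commuting with a member of `T` preserve `A` -/
theorem A_stable (hD : IsRootInvolutionSet D) (hh : h ∈ TT D a) (hy : y ∈ D) (hc : Commute y h) (ht : t ∈ TT D a) :
    y * t * y ∈ TT D a := by
  refine ⟨?_, ?_⟩
  · have := hD.conj_mem t ht.1 y
    rwa [inv' hD hy] at this
  · have h1 := odd_image (a := t) hD y
    rw [inv' hD hy] at h1
    have h2 := odd_image (a := h) hD y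
    rw [inv' hD hy] at h2
    have h3 : y * h * y = h := by rw [hc.eq, mul_assoc, sq hD hy, mul_one]
    rw [h3] at h2
    rw [h1, ht.2, ← hh.2, ← h2]

theorem self_mem (ha : a ∈ D) : a ∈ TT D a := ⟨ha, rfl⟩

theorem stepA [Finite G] (hD : IsRootInvolutionSet D) (hF : IsConnectedSet (OddAdj D) D)
    (hh : h ∈ TT D a) (ht : t ∈ TT D a) (hy : y ∈ D) (hyt : Commute y t) (hyh : ¬ Commute y h) : y ∈ TT D a := by
  have h1 : y ∈ fourPartners D h := by
    rcases tri hD hh.1 hy with h1 | h1 | h1
    · exact absurd h1.symm hyh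
    · exfalso
      rw [hh.2, ← ht.2] at h1
      exact odd_not_comm hD ht.1 h1 hyt.symm
    · exact h1
  have h2 := A_stable hD ht hy hyt hh
  exact ⟨hy, (T1 hD hF hh.1 h1 (by rw [h2.2, hh.2])).trans hh.2⟩

/-- commutators of noncommuting members of `T` are in `T` -/
theorem T_comm [Finite G] (hD : IsRootInvolutionSet D) (hF : IsConnectedSet (OddAdj D) D)
    (hh : h ∈ TT D a) (ht : t ∈ TT D a) (hht : ¬ Commute h t) : ⁅h, t⁆ ∈ TT D a := by
  have h1 : t ∈ fourPartners D h := by
    rcases tri hD hh.1 ht.1 with h1 | h1 | h1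
    · exact absurd h1 hht
    · exact absurd h1 (TT_not_odd hh ht)
    · exact h1
  obtain ⟨c, hc, hch, hct, e1, e2, e3, e4⟩ := four_rel hD hh.1 h1
  have h2 : ⁅h, t⁆ = c := by
    rw [commutatorElement_def, inv' hD hh.1, inv' hD ht.1, e2, mul_assoc, hct.eq, ← mul_assoc, sq hD ht.1, one_mul]
  rw [h2]
  have h3 := A_stable hD ht ht.1 (Commute.refl t) hh
  rw [e1] at h3
  have h4 : Commute h (h * c) := (Commute.refl h).mul_right hch.symm
  have h5 : h * (h * c) = c := by rw [← mul_assoc, sq hD hh.1, one_mul]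
  have h6 := third_mem hD hF hh.1 e3 h4 (by rw [h5]; exact hc) (by rw [hh.2, h3.2])
  rw [h5] at h6
  exact ⟨hc, h6.trans hh.2⟩

theorem T_conj (hD : IsRootInvolutionSet D) {g : G} (hg : g ∈ Subgroup.closure (TT D a)) :
    ∀ t ∈ TT D a, g * t * g⁻¹ ∈ TT D a := by
  have key : ∀ g ∈ Subgroup.closure (TT D a), (∀ t ∈ TT D a, g * t * g⁻¹ ∈ TT D a) ∧ (∀ t ∈ TT D a, g⁻¹ * t * g ∈ TT D a) := by
    intro g hg
    induction hg using Subgroup.closure_induction with
    | mem h hh =>
      have : ∀ t ∈ TT D a, h * t * h ∈ TT D a := fun t ht => A_stable hD hh hh.1 (Commute.refl h) ht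
      rw [inv' hD hh.1]
      exact ⟨this, this⟩
    | one => simp
    | mul u v _ _ hu hv =>
      constructor
      · intro t ht
        have : u * v * t * (u * v)⁻¹ = u * (v * t * v⁻¹) * u⁻¹ := by group
        rw [this]; exact hu.1 _ (hv.1 t ht)
      · intro t ht
        have : (u * v)⁻¹ * t * (u * v) = v⁻¹ * (u⁻¹ * t * u) * v := by group
        rw [this]; exact hv.2 _ (hu.2 t ht)
    | inv u _ hu =>
      rw [inv_inv]; exact ⟨hu.2, hu.1⟩
  exact (key g hg).1

theorem T_pgroup [Finite G] (hD : IsRootInvolutionSet D) : IsPGroup 2 ↥(Subgroup.closure (TT D a)) := by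
  have : Fact (Nat.Prime 2) := ⟨Nat.prime_two⟩
  set Q := Subgroup.closure (TT D a) with hQ
  have h1 : ∀ h ∈ TT D a, ∀ hh : h ∈ Q, (⟨h, hh⟩ : Q) ∈ pCore 2 Q := by
    intro h hh hhQ
    by_contra hO
    have ho : orderOf (⟨h, hhQ⟩ : Q) = 2 := by
      rw [Subgroup.orderOf_mk]; exact hD.orderOf_eq h hh.1
    obtain ⟨w, hw1, hw2, hw3, g, hg⟩ := H19.BS.exists_odd_inverted ho hO
    have h2 : (g : G) * h * (g : G)⁻¹ = h * w := congrArg Subtype.val hg
    have h3 := T_conj hD g.2 h hh
    rw [h2] at h3
    apply TT_not_odd hh h3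
    refine ⟨h3.1, ?_, ?_⟩
    · intro h4
      apply hw1
      apply Subtype.ext
      exact mul_left_cancel (h4.trans (mul_one h).symm)
    · rw [← mul_assoc, sq hD hh.1, one_mul, Subgroup.orderOf_coe]; exact hw2
  have h2 : pCore 2 Q = ⊤ := by
    have h3 : Q ≤ (pCore 2 Q).map Q.subtype := by
      conv_lhs => rw [hQ]
      rw [Subgroup.closure_le]
      intro h hh
      exact ⟨⟨h, Subgroup.subset_closure hh⟩, h1 h hh _, rfl⟩
    rw [eq_top_iff]
    intro q _
    obtain ⟨r, hr, hrq⟩ := h3 q.2
    have : r = q := Subtype.ext hrq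
    rw [← this]; exact hr
  have h3 := H11.Cores.pCore_isPGroup (p := 2) (G := Q)
  rw [h2] at h3
  exact h3.of_equiv Subgroup.topEquiv

/-- `T` contains a central element -/
theorem T_central [Finite G] (hD : IsRootInvolutionSet D) (hF : IsConnectedSet (OddAdj D) D) (ha : a ∈ D) :
    ∃ c ∈ TT D a, ∀ t ∈ TT D a, Commute c t := by
  have : Fact (Nat.Prime 2) := ⟨Nat.prime_two⟩
  by_contra hcon
  push Not at hcon
  set Q := Subgroup.closure (TT D a) with hQ
  have hnil : Group.IsNilpotent Q := (T_pgroup (a := a) hD).isNilpotent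
  obtain ⟨n, hn⟩ := (Subgroup.isNilpotent_iff_lowerCentralSeries Q).1 hnil
  have key : ∀ n, ∃ c ∈ TT D a, c ∈ Q.lowerCentralSeries n := by
    intro n
    induction n with
    | zero => exact ⟨a, self_mem ha, Subgroup.subset_closure (self_mem ha)⟩
    | succ n ih =>
      obtain ⟨c, hc, hcn⟩ := ih
      obtain ⟨t, ht, hct⟩ := hcon c hc
      refine ⟨⁅c, t⁆, T_comm hD hF hc ht hct, ?_⟩
      rw [Subgroup.lowerCentralSeries_succ]
      exact Subgroup.commutator_mem_commutator hcn (Subgroup.subset_closure ht)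
  obtain ⟨c, hc, hcn⟩ := key n
  rw [hn, Subgroup.mem_bot] at hcn
  exact ne_one hD hc.1 hcn

/-- (⇐) -/
theorem comm_of_odd [Finite G] (hD : IsRootInvolutionSet D) (hF : IsConnectedSet (OddAdj D) D) (ha : a ∈ D)
    (hh : h ∈ TT D a) : commutingMembers D h = commutingMembers D a := by
  obtain ⟨c, hc, hcc⟩ := T_central hD hF ha
  -- C_D(h) ⊆ C_D(c) for all h ∈ T
  have key : ∀ h ∈ TT D a, commutingMembers D h = commutingMembers D c := by
    intro h hh
    apply comm_eq_of_sub hD hF hh.1 hc.1
    rintro t ⟨ht, hth⟩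
    refine ⟨ht, ?_⟩
    by_contra hnc
    have h1 := stepA hD hF hc hh ht hth hnc
    exact hnc (hcc t h1).symm.eq
  rw [key h hh, key a (self_mem ha)]

/-- (⇒) -/
theorem odd_of_comm (hD : IsRootInvolutionSet D) (hd : d ∈ D) (he : e ∈ D)
    (h : commutingMembers D d = commutingMembers D e) : oddPartners D d ⊆ oddPartners D e := by
  intro x hx
  have hde : Commute d e := by
    have : d ∈ commutingMembers D e := by rw [← h]; exact ⟨hd, rfl⟩
    exact this.2
  have hx2 := sq hD hx.1
  rcases tri hD he hx.1 with h1 | h1 | h1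
  · exfalso
    have : x ∈ commutingMembers D d := by rw [h]; exact ⟨hx.1, h1.symm.eq⟩
    exact odd_not_comm hD hd hx (show Commute x d from this.2).symm
  · exact h1
  · exfalso
    obtain ⟨g, hg, hge, hgx, e1, e2, e3, e4⟩ := four_rel hD he h1
    have hgd : Commute g d := by
      have : g ∈ commutingMembers D d := by rw [h]; exact ⟨hg, hge⟩
      exact this.2
    -- x d x commutes with x e x = e g
    have hdD : x * d * x ∈ D := by
      have := hD.conj_mem d hd x
      rwa [inv' hD hx.1] at this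
    have c1 : Commute (x * d * x) (e * g) := by
      rw [← e1]
      have := comm_cj x hde
      rwa [inv' hD hx.1] at this
    have c2 : Commute (x * d * x) g := by
      have := comm_cj x hgd.symm
      rw [inv' hD hx.1] at this
      have e5 : x * g * x = g := by rw [hgx.symm.eq, mul_assoc, hx2, mul_one]
      rwa [e5] at this
    have c3 : Commute (x * d * x) e := by
      have := c1.mul_right c2
      rwa [mul_assoc e g g, sq hD hg, mul_one] at this
    have c4 : Commute (x * d * x) d := by
      have : x * d * x ∈ commutingMembers D d := by rw [h]; exact ⟨hdD, c3.eq⟩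
      exact this.2
    -- but then order of d x divides 4
    have h5 : orderOf (d * x) ∣ 4 := by
      apply orderOf_dvd_of_pow_eq_one
      have e6 : (d * x) ^ 4 = (d * (x * d * x)) * (d * (x * d * x)) := by
        simp only [pow_succ, pow_zero, one_mul, mul_assoc]
      rw [e6]
      have e7 : d * (x * d * x) = (x * d * x) * d := c4.eq.symm
      conv_lhs => rw [e7]
      have e8 : (x * d * x) * d * ((x * d * x) * d) = (x * d * x) * (d * (x * d * x)) * d := by group
      rw [e8, e7]
      have e9 : x * d * x * (x * d * x * d) * d = ((x * d * x) * (x * d * x)) * (d * d) := by group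
      rw [e9, sq hD hdD, sq hD hd, one_mul]
    have h6 : Nat.Coprime (orderOf (d * x)) 4 := Nat.Coprime.pow_right 2 ((Nat.coprime_two_right).2 hx.2.2)
    have h9 := Nat.Coprime.eq_one_of_dvd h6 h5
    rw [orderOf_eq_one_iff] at h9
    exact rho_ne hD hd hx h9

theorem union_eq (hD : IsRootInvolutionSet D) (hd : d ∈ D) :
    commutingMembers D d ∪ fourPartners D d = D \ oddPartners D d := by
  ext x
  constructor
  · rintro (hx | hx)
    · exact ⟨hx.1, fun h => odd_not_comm hD hd h (show Commute x d from hx.2).symm⟩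
    · exact ⟨hx.1, four_not_odd hx⟩
  · rintro ⟨hx, hno⟩
    rcases tri hD hd hx with h | h | h
    · exact Or.inl ⟨hx, h.symm.eq⟩
    · exact absurd h hno
    · exact Or.inr h

/-- S5046 -/
theorem same_iff [Finite G] (hD : IsRootInvolutionSet D) (hF : IsConnectedSet (OddAdj D) D) (hd : d ∈ D) (he : e ∈ D) :
    commutingMembers D d = commutingMembers D e ↔ oddPartners D d = oddPartners D e := by
  constructor
  · intro h
    exact (odd_of_comm hD hd he h).antisymm (odd_of_comm hD he hd h.symm)
  · intro h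
    exact comm_of_odd hD hF he ⟨hd, h⟩

/-- existence of the natural module element on each line not in a class -/
theorem natmod_line [Finite G] (hD : IsRootInvolutionSet D) (hF : IsConnectedSet (OddAdj D) D) (ha : a ∈ D) (hz : z ∈ D)
    (haz : Commute a z) (hm : a * z ∈ D) (hne : commutingMembers D a ≠ commutingMembers D z) :
    ∃ x ∈ oddPartners D a, x ∈ fourPartners D z := by
  have h1 : ¬ oddPartners D a ⊆ oddPartners D z := by
    intro h
    exact hne ((same_iff hD hF ha hz).2 (odd_eq_of_sub hD hF ha hz h))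
  obtain ⟨x, hx, hxz⟩ := Set.not_subset.1 h1
  refine ⟨x, hx, ?_⟩
  rcases tri hD hz hx.1 with h | h | h
  · exact absurd h (no_comm hD ha hz haz hm hx)
  · exact absurd h hxz
  · exact h

/-- S5047 -/
theorem ex_ord3 [Finite G] (hD : IsRootInvolutionSet D) (hF : IsConnectedSet (OddAdj D) D) (ha : a ∈ D)
    (hb : b ∈ D) (hab : Commute a b) (hm : a * b ∈ D) (hne : commutingMembers D a ≠ commutingMembers D b) :
    ∃ x ∈ fourPartners D b, orderOf (a * x) = 3 := by
  -- y ∈ C_D(b) \ C_D(a)
  have h1 : ¬ commutingMembers D b ⊆ commutingMembers D a := fun h => hne (comm_eq_of_sub hD hF hb ha h).symm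
  obtain ⟨y, hy, hya⟩ := Set.not_subset.1 h1
  have hyb : Commute y b := hy.2
  have hy4 : y ∈ fourPartners D a := by
    rcases tri hD ha hy.1 with h | h | h
    · exact absurd ⟨hy.1, h.symm.eq⟩ hya
    · exact absurd hyb.symm (no_comm hD ha hb hab hm h)
    · exact h
  obtain ⟨w, hw, hwa, hwy, e1, e2, e3, e4⟩ := four_rel hD ha hy4
  -- w, y : line; a commutes with w, not y
  have hne' : commutingMembers D w ≠ commutingMembers D y := by
    intro h
    have : a ∈ commutingMembers D y := by rw [← h]; exact ⟨ha, hwa.symm.eq⟩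
    exact hya ⟨hy.1, (show a * y = y * a from this.2).symm⟩
  have hwyD : w * y ∈ D := by rw [hwy.eq]; exact e4
  obtain ⟨x0, hx0, hx0y⟩ := natmod_line hD hF hw hy.1 hwy hwyD hne'
  obtain ⟨v, hv, -, hvy, hvw⟩ := natmod hD hw hy.1 hwy hwyD hx0 hx0y
  have h3 := ord3 hD ha hv hy.1 hw hwy.symm hwa.symm e2 hvy hvw
  refine ⟨v, ?_, h3⟩
  -- b commutes with y, w
  have hbw : Commute b w := by
    have : w = a * (y * a * y) := by rw [e1, ← mul_assoc, sq hD ha, one_mul]
    rw [this]
    exact hab.symm.mul_right ((hyb.symm.mul_right hab.symm).mul_right hyb.symm)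
  have hodd : v ∈ oddPartners D a := by
    refine ⟨hv, ?_, by rw [h3]; decide⟩
    rintro rfl
    rw [sq hD ha, orderOf_one] at h3
    omega
  rcases tri hD hb hv with h | h | h
  · exact absurd h (no_comm hD ha hb hab hm hodd)
  · exfalso
    -- s = b v odd order; acts on w, y
    have hv2 := sq hD hv
    have hb2 := sq hD hb
    have hy2 := sq hD hy.1
    have hsi : (b * v)⁻¹ = v * b := mul_comm_inv hb2 hv2
    have f1 : (b * v)⁻¹ * w * (b * v) = w * y := by
      rw [hsi]
      calc v * b * w * (b * v) = v * (b * w) * b * v := by group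
        _ = v * w * (b * b) * v := by rw [hbw.eq]; group
        _ = w * y := by rw [hb2, mul_one, hvw]
    have f2 : (b * v)⁻¹ * y * (b * v) = y := by
      rw [hsi]
      calc v * b * y * (b * v) = v * (b * y) * b * v := by group
        _ = v * y * (b * b) * v := by rw [hyb.symm.eq]; group
        _ = y := by rw [hb2, mul_one, hvy.eq, mul_assoc, hv2, mul_one]
    have f3 : (b * v)⁻¹ * ((b * v)⁻¹ * w * (b * v)) * (b * v) = w := by
      rw [f1]
      calc (b * v)⁻¹ * (w * y) * (b * v) = ((b * v)⁻¹ * w * (b * v)) * ((b * v)⁻¹ * y * (b * v)) := by group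
        _ = w * y * y := by rw [f1, f2]
        _ = w := by rw [mul_assoc, hy2, mul_one]
    have h5 : Commute w ((b * v) ^ 2) := by
      have e5 : (b * v)⁻¹ * ((b * v)⁻¹ * w * (b * v)) * (b * v) = ((b * v) ^ 2)⁻¹ * w * (b * v) ^ 2 := by
        simp only [pow_succ, pow_zero, one_mul, mul_inv_rev, mul_assoc]
      rw [e5] at f3
      show w * _ = _ * w
      conv_rhs => rw [← f3]
      group
    have h6 : Commute w (b * v) := by
      obtain ⟨m, hm'⟩ := h.2.2
      have e6 : b * v = ((b * v) ^ 2) ^ (m + 1) := by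
        rw [← pow_mul]
        have : 2 * (m + 1) = orderOf (b * v) + 1 := by rw [hm']; ring
        rw [this, pow_succ, pow_orderOf_eq_one, one_mul]
      rw [e6]; exact h5.pow_right _
    have h7 : (b * v)⁻¹ * w * (b * v) = w := by rw [mul_assoc, h6.eq]; group
    rw [h7] at f1
    exact ne_one hD hy.1 (mul_left_cancel (f1.symm.trans (mul_one w).symm))
  · exact h

end Cfsg.Agent.H13.RI
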