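import Mathlib
import Cfsg.Prelude.Def_RootSubgroups
import Cfsg.Agent.H13_RO
set_option autoImplicit false
set_option linter.all false

namespace Cfsg.Agent.H13.RS

open Cfsg Cfsg.Agent.H13.RO
open scoped commutatorElement

variable {G : Type*} [Group G] {S : Set (Subgroup G)} {A B C D E : Subgroup G}

theorem comm_iff {A B : Subgroup G} : ⁅A, B⁆ = ⊥ ↔ ∀ a ∈ A, ∀ b ∈ B, a * b = b * a := by
  rw [Subgroup.commutator_eq_bot_iff_le_centralizer]
  constructor
  · intro h a ha b hb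
    exact ((Subgroup.mem_centralizer_iff.1 (h ha)) b hb).symm
  · intro h a ha
    rw [Subgroup.mem_centralizer_iff]
    intro b hb
    exact (h a ha b hb).symm

theorem comm_symm {A B : Subgroup G} (h : ⁅A, B⁆ = ⊥) : ⁅B, A⁆ = ⊥ := by
  rw [Subgroup.commutator_comm]; exact h

theorem cen_iff {A : Subgroup G} {z : G} : z ∈ Subgroup.centralizer (A : Set G) ↔ ∀ a ∈ A, a * z = z * a := by
  rw [Subgroup.mem_centralizer_iff]
  rfl

theorem abel (hS : IsRootSubgroupSet S) (hA : A ∈ S) {a b : G} (ha : a ∈ A) (hb : b ∈ A) :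
    a * b = b * a := by
  have h := hS.commutative A hA
  have := h.is_comm.comm (⟨a, ha⟩ : A) ⟨b, hb⟩
  exact congrArg Subtype.val this

theorem cj_comm_bot {x : G} (h : ⁅A, B⁆ = ⊥) : ⁅conjBy A x, conjBy B x⁆ = ⊥ := by
  rw [← cj_comm, h]; exact Subgroup.map_bot _

/-- in a rank one pair with `B` abelian, `[a, b]` does not centralise `B`. -/
theorem comm_ne (hS : IsRootSubgroupSet S) (hB : B ∈ S) (h : IsRankOnePair A B) {a b : G}
    (ha : a ∈ A) (ha1 : a ≠ 1) (hb : b ∈ B) (hb1 : b ≠ 1)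
    (hc : ∀ b' ∈ B, b' * (a * b * a⁻¹ * b⁻¹) = (a * b * a⁻¹ * b⁻¹) * b') : False := by
  have h1 : a * b * a⁻¹ ∈ conjBy B a := by
    rw [mem_cj]
    have : a⁻¹ * (a * b * a⁻¹) * a = b := by group
    rwa [this]
  have h2 : conjBy B (a * b * a⁻¹) = B := by
    rw [cj_eq_iff]
    have h3 : a * b * a⁻¹ ∈ Subgroup.centralizer (B : Set G) := by
      rw [cen_iff]
      intro b' hb'
      have h4 := hc b' hb'
      have h5 := abel hS hB hb hb'
      calc b' * (a * b * a⁻¹) = b' * (a * b * a⁻¹ * b⁻¹) * b := by group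
        _ = (a * b * a⁻¹ * b⁻¹) * b' * b := by rw [h4]
        _ = (a * b * a⁻¹ * b⁻¹) * (b' * b) := by group
        _ = (a * b * a⁻¹ * b⁻¹) * (b * b') := by rw [h5]
        _ = (a * b * a⁻¹) * b' := by group
    exact Subgroup.centralizer_le_normalizer _ h3
  have h3 := fix_only h (cj_mem (right_mem h) (Subgroup.mem_sup_left ha)) (right_mem h) h1
    (fun h => hb1 (by
      have : b = a⁻¹ * (a * b * a⁻¹) * a := by group
      rw [this, h]; group)) h2
  exact (third h ha ha1).1 h3.symm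

/-- key transfer lemma -/
theorem transfer (hS : IsRootSubgroupSet S) (hB : B ∈ S) (hE : E ∈ S) (h : IsRankOnePair A B)
    {a e : G} (ha : a ∈ A) (ha1 : a ≠ 1) (he : e ∈ E)
    (hae : ∀ b ∈ B, e * b * e⁻¹ = a * b * a⁻¹) :
    IsRankOnePair E B ∧ ∃ b ∈ B, E = conjBy A b := by
  obtain ⟨b, hb, hb1⟩ := exists_ne (right_ne_bot h)
  have hnc : ¬ (a * b * a⁻¹ = b) := by
    intro h1
    have h2 : a * b * a⁻¹ ∈ conjBy B a := by
      rw [mem_cj]
      have : a⁻¹ * (a * b * a⁻¹) * a = b := by group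
      rwa [this]
    rw [h1] at h2
    exact (third h ha ha1).1 (inf_Om h (right_mem h)
      (cj_mem (right_mem h) (Subgroup.mem_sup_left ha)) hb hb1 h2)
  have he1 : e ≠ 1 := by
    rintro rfl
    have := hae b hb
    apply hnc
    rw [← this]; group
  rcases hS.pair E hE B hB with h1 | h1 | h1
  · exfalso
    have := comm_iff.1 h1 e he b hb
    apply hnc
    rw [← hae b hb, this]; group
  · refine ⟨h1, ?_⟩
    obtain ⟨b1, hb1, -, hbe1⟩ := cond h1 he he1
    obtain ⟨b2, hb2, -, hbe2⟩ := cond h ha ha1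
    have h2 : conjBy B e = conjBy B a := by
      ext x
      constructor
      · rintro ⟨b, hb, rfl⟩
        exact ⟨b, hb, by simpa [MulAut.conj_apply] using (hae b hb).symm⟩
      · rintro ⟨b, hb, rfl⟩
        exact ⟨b, hb, by simpa [MulAut.conj_apply] using (hae b hb)⟩
    refine ⟨b1⁻¹ * b2, B.mul_mem (B.inv_mem hb1) hb2, ?_⟩
    rw [← cj_mul, hbe2, ← h2, ← hbe1, cj_mul, inv_mul_cancel, cj_one]
  · exfalso
    refine comm_ne hS hB h ha ha1 hb hb1 ?_
    intro b' hb'
    have h2 : e * b * e⁻¹ * b⁻¹ ∈ ⁅E, B⁆ := Subgroup.commutator_mem_commutator he hb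
    rw [← hae b hb]
    exact (h1.2.1 _ h2 b' (Subgroup.mem_sup_right hb')).symm

/-- S5025 -/
theorem not_root (hS : IsRootSubgroupSet S) (hA : A ∈ S) (hB : B ∈ S) (h : IsRankOnePair A B)
    {z : G} (hz : z ∈ Subgroup.centralizer ((A ⊔ B : Subgroup G) : Set G)) {a : G} (ha : a ∈ A)
    (ha1 : a ≠ 1) (hE : E ∈ S) (hza : z * a ∈ E) : z = 1 ∧ E = A := by
  rw [cen_iff] at hz
  obtain ⟨h1, b, hb, rfl⟩ := transfer hS hB hE h ha ha1 hza (by
    intro b hb
    have h2 : a * b * a⁻¹ ∈ A ⊔ B := mul_mem (mul_mem (Subgroup.mem_sup_left ha)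
      (Subgroup.mem_sup_right hb)) (inv_mem (Subgroup.mem_sup_left ha))
    have h3 := hz _ h2
    calc z * a * b * (z * a)⁻¹ = z * (a * b * a⁻¹) * z⁻¹ := by group
      _ = (a * b * a⁻¹) * z * z⁻¹ := by rw [h3]
      _ = a * b * a⁻¹ := by group)
  have hza1 : z * a ≠ 1 := by
    intro h2
    have h3 : z = a⁻¹ := by rw [eq_comm, inv_eq_iff_mul_eq_one]; 
                            have := hz a (Subgroup.mem_sup_left ha); rw [this]; exact h2
    obtain ⟨b, hb, hb1⟩ := exists_ne (right_ne_bot h)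
    have h4 := hz b (Subgroup.mem_sup_right hb)
    have h5 : a⁻¹ ∈ Subgroup.normalizer (B : Set G) := by
      apply Subgroup.centralizer_le_normalizer
      rw [cen_iff, ← h3]
      intro b hb
      exact hz b (Subgroup.mem_sup_right hb)
    have h6 := eq_one h (A.inv_mem ha) (cj_eq_iff.2 h5)
    exact ha1 (by simpa using h6)
  have h2 : conjBy A (z * a) = A := by
    rw [← cj_mul, cj_self ha, cj_eq_iff]
    apply Subgroup.centralizer_le_normalizer
    rw [cen_iff]
    intro a ha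
    exact hz a (Subgroup.mem_sup_left ha)
  have h3 := fix_only h (cj_mem left_mem (Subgroup.mem_sup_right hb)) left_mem hza hza1 h2
  rw [← h3] at hza
  have h4 : z ∈ A := by
    have := A.mul_mem hza (A.inv_mem ha)
    simpa using this
  refine ⟨?_, h3.symm⟩
  refine eq_one h h4 (cj_eq_iff.2 ?_)
  apply Subgroup.centralizer_le_normalizer
  rw [cen_iff]
  intro a ha
  exact hz a (Subgroup.mem_sup_right ha)

theorem nonisol (hA : ¬ IsIsolatedIn (FAdj S) S A) (hAS : A ∈ S) :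
    ∃ B ∈ S, IsRankOnePair A B := by
  unfold IsIsolatedIn at hA
  push Not at hA
  obtain ⟨B, hB⟩ := hA hAS
  by_cases h1 : FAdj S A B
  · exact ⟨B, h1.2.1, h1.2.2⟩
  · obtain ⟨h2, h3, h4⟩ := hB h1
    exact ⟨B, h2, symm h4⟩

theorem isol_iff (hAS : A ∈ S) : ¬ IsIsolatedIn (FAdj S) S A ↔ ∃ B ∈ S, IsRankOnePair A B := by
  refine ⟨fun h => nonisol h hAS, ?_⟩
  rintro ⟨B, hB, h⟩ h2
  exact (h2.2 B).1 ⟨hAS, hB, h⟩

/-- S5028 -/
theorem ti (hS : IsRootSubgroupSet S) (hA : A ∈ S) (hB : B ∈ S) (h : IsRankOnePair A B)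
    (hE : E ∈ S) {a : G} (ha : a ∈ A) (ha1 : a ≠ 1) (haE : a ∈ E) : E = A :=
  (not_root hS hA hB h (z := 1) (one_mem _) ha ha1 hE (by rwa [one_mul])).2

/-- kernel of the action on Ω is central. -/
theorem central_of_fix (h : IsRankOnePair A B) {x : G} (hA : ∀ a ∈ A, a * x = x * a)
    (hxX : x ∈ A ⊔ B) (hB : conjBy B x = B) : x ∈ Subgroup.centralizer ((A ⊔ B : Subgroup G) : Set G) := by
  -- x centralises A, hence fixes all of Ω; [x, b] fixes all of Ω∖...
  have hfix : ∀ C ∈ unipotentSubgroups A B, conjBy C x = C := by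
    intro C hC
    rcases (mem_Om h).1 hC with rfl | ⟨a, ha, rfl⟩
    · rw [cj_eq_iff]
      apply Subgroup.centralizer_le_normalizer
      rw [cen_iff]; exact hA
    · rw [cj_mul, ← hA a ha, ← cj_mul, hB]
  have hcB : ∀ b ∈ B, b * x = x * b := by
    intro b hb
    have h1 : x * b * x⁻¹ ∈ B := by
      have := cj_eq_iff.1 hB
      exact (Subgroup.mem_normalizer_iff.1 this b).1 hb
    have h2 := unique_gen h (right_mem h) left_mem h.ne hb h1 (by
      rw [← cj_mul, ← cj_mul]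
      have hAx : conjBy A x⁻¹ = A := cj_inv_eq (hfix A left_mem).symm
      rw [hAx]
      exact (hfix _ (cj_mem left_mem (Subgroup.mem_sup_right hb))).symm)
    calc b * x = (x * b * x⁻¹) * x := by rw [← h2]
      _ = x * b := by group
  rw [cen_iff]
  have : A ⊔ B ≤ Subgroup.centralizer {x} := by
    rw [sup_le_iff]
    constructor
    · intro a ha
      rw [Subgroup.mem_centralizer_iff]
      rintro y rfl
      exact (hA a ha).symm
    · intro a ha
      rw [Subgroup.mem_centralizer_iff]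
      rintro y rfl
      exact (hcB a ha).symm
  intro a ha
  have := this ha
  rw [Subgroup.mem_centralizer_iff] at this
  exact (this x rfl).symm

/-- case (i): `E ∈ S` inside `⟨A,B⟩`, not central there, commuting with some `F ∈ Ω`. -/
theorem le_case1 (hS : IsRootSubgroupSet S) (hA : A ∈ S) (hB : B ∈ S) (h : IsRankOnePair A B)
    (hE : E ∈ S) (hEX : E ≤ A ⊔ B) {e : G} (he : e ∈ E)
    (hec : e ∉ Subgroup.centralizer ((A ⊔ B : Subgroup G) : Set G))
    {F : Subgroup G} (hF : F ∈ unipotentSubgroups A B) (hEF : ⁅E, F⁆ = ⊥) : E = F := by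
  have hSΩ : ∀ F ∈ unipotentSubgroups A B, F ∈ S := by
    rintro F ⟨x, hx, rfl⟩
    exact hS.conj_mem A hA x
  obtain ⟨F', hF', hFF'⟩ : ∃ F' ∈ unipotentSubgroups A B, F' ≠ F := by
    by_cases h1 : F = A
    · exact ⟨B, right_mem h, by rw [h1]; exact h.ne.symm⟩
    · exact ⟨A, left_mem, fun h2 => h1 h2.symm⟩
  have hp := pair_Om h hF hF' hFF'.symm
  have h1 : conjBy F' e ≠ F := by
    intro h2
    have h3 : conjBy F e = F := by
      rw [cj_eq_iff]
      apply Subgroup.centralizer_le_normalizer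
      rw [cen_iff]
      intro a ha
      exact (comm_iff.1 hEF e he a ha).symm
    rw [← h3] at h2
    exact hFF' (cj_inj h2)
  obtain ⟨f, hf, hfe⟩ := trans_gen h hF hF' (cj_mem hF' (hEX he)) hFF' h1
  have hz : e * f⁻¹ ∈ Subgroup.centralizer ((F ⊔ F' : Subgroup G) : Set G) := by
    have h4 : f⁻¹ * e ∈ Subgroup.centralizer ((F ⊔ F' : Subgroup G) : Set G) := by
      apply central_of_fix hp.1
      · intro a ha
        have h5 := comm_iff.1 hEF e he a ha
        have h6 := abel hS (hSΩ F hF) (F.inv_mem hf) ha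
        calc a * (f⁻¹ * e) = (a * f⁻¹) * e := by group
          _ = f⁻¹ * (a * e) := by rw [← h6]; group
          _ = f⁻¹ * e * a := by rw [← h5]; group
      · exact mul_mem (inv_mem (Subgroup.mem_sup_left hf)) (by rw [hp.2]; exact hEX he)
      · rw [← cj_mul, ← hfe, cj_mul, inv_mul_cancel, cj_one]
    have h5 := comm_iff.1 hEF e he f⁻¹ (F.inv_mem hf)
    rw [h5]; exact h4
  have hf1 : f ≠ 1 := by
    rintro rfl
    apply hec
    rw [inv_one, mul_one, hp.2] at hz
    exact hz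
  exact (not_root hS (hSΩ F hF) (hSΩ F' hF') hp.1 hz hf hf1 hE (by simpa using he)).2

/-- L2 -/
theorem mem_Om_of_le (hS : IsRootSubgroupSet S) (hA : A ∈ S) (hB : B ∈ S) (h : IsRankOnePair A B)
    (hE : E ∈ S) (hEX : E ≤ A ⊔ B)
    (hec : ¬ E ≤ Subgroup.centralizer ((A ⊔ B : Subgroup G) : Set G)) :
    E ∈ unipotentSubgroups A B := by
  have hSΩ : ∀ F ∈ unipotentSubgroups A B, F ∈ S := by
    rintro F ⟨x, hx, rfl⟩
    exact hS.conj_mem A hA x
  obtain ⟨e, he, hec'⟩ := Set.not_subset.1 hec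
  rcases hS.pair E hE A hA with h1 | h1 | h1
  · rw [le_case1 hS hA hB h hE hEX he hec' left_mem h1]
    exact left_mem
  · obtain ⟨e, he, he1⟩ := exists_ne (hS.ne_bot E hE)
    obtain ⟨a, ha, ha1, hae⟩ := cond h1 he he1
    have h2 : conjBy A e ∈ unipotentSubgroups A B := cj_mem left_mem (hEX he)
    rw [← hae] at h2
    have h3 := cj_mem h2 (inv_mem (Subgroup.mem_sup_left (T := B) ha))
    rwa [cj_mul, inv_mul_cancel, cj_one] at h3
  · exfalso
    have hK : ⁅E, A⁆ ∈ S := h1.1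
    have hKX : ⁅E, A⁆ ≤ A ⊔ B := by
      rw [Subgroup.commutator_le]
      intro x hx y hy
      exact mul_mem (mul_mem (mul_mem (hEX hx) (Subgroup.mem_sup_left hy)) (inv_mem (hEX hx)))
        (inv_mem (Subgroup.mem_sup_left hy))
    have hKA : ⁅⁅E, A⁆, A⁆ = ⊥ := by
      rw [comm_iff]
      intro k hk a ha
      exact h1.2.1 k hk a (Subgroup.mem_sup_right ha)
    have hKE : ⁅⁅E, A⁆, E⁆ = ⊥ := by
      rw [comm_iff]
      intro k hk a ha
      exact h1.2.1 k hk a (Subgroup.mem_sup_left ha)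
    have hKc : ⁅E, A⁆ ≤ Subgroup.centralizer ((A ⊔ B : Subgroup G) : Set G) := by
      by_contra hcon
      obtain ⟨k, hk, hkc⟩ := Set.not_subset.1 hcon
      have h2 := le_case1 hS hA hB h hK hKX hk hkc left_mem hKA
      rw [h2] at hKE
      have h3 : ⁅E, A⁆ = ⊥ := comm_symm hKE
      exact hS.ne_bot _ hK h3
    apply hS.ne_bot _ hK
    rw [eq_bot_iff, Subgroup.commutator_le]
    intro x hx y hy
    rw [Subgroup.mem_bot]
    by_cases hy1 : y = 1
    · rw [hy1]; simp
    · have h2 : ⁅x, y⁆ ∈ Subgroup.centralizer ((A ⊔ B : Subgroup G) : Set G) :=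
        hKc (Subgroup.commutator_mem_commutator hx hy)
      have h3 : ⁅x, y⁆ * y ∈ conjBy A x := by
        rw [mem_cj]
        have : x⁻¹ * (⁅x, y⁆ * y) * x = y := by rw [commutatorElement_def]; group
        rwa [this]
      exact (not_root hS hA hB h h2 hy hy1 (hS.conj_mem A hA x) h3).1

/-- S5024 -/
theorem sub_pair (hS : IsRootSubgroupSet S) (hA : A ∈ S) (hB : B ∈ S) (h : IsRankOnePair A B)
    (hC : C ∈ S) (hD : D ∈ S) (hCD : IsRankOnePair C D) (hle : A ⊔ B ≤ C ⊔ D) :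
    A ⊔ B = C ⊔ D ∧ C ∈ unipotentSubgroups A B ∧ D ∈ unipotentSubgroups A B := by
  have hnc : ∀ A B : Subgroup G, IsRankOnePair A B → A ⊔ B ≤ C ⊔ D →
      ¬ A ≤ Subgroup.centralizer ((C ⊔ D : Subgroup G) : Set G) := by
    intro A B h hle hcon
    obtain ⟨a, ha, ha1⟩ := exists_ne (left_ne_bot h)
    apply ha1
    apply eq_one h ha
    rw [cj_eq_iff]
    apply Subgroup.centralizer_le_normalizer
    rw [cen_iff]
    intro b hb
    exact cen_iff.1 (hcon ha) b (hle (Subgroup.mem_sup_right hb))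
  have h1 := mem_Om_of_le hS hC hD hCD hA (le_sup_left.trans hle) (hnc A B h hle)
  have h2 := mem_Om_of_le hS hC hD hCD hB (le_sup_right.trans hle) (hnc B A (symm h) (by rwa [sup_comm]))
  have h3 := pair_Om hCD h1 h2 h.ne
  refine ⟨h3.2, ?_, ?_⟩
  · rw [Om_eq hCD h1 h2 h.ne]; exact left_mem
  · rw [Om_eq hCD h1 h2 h.ne]; exact right_mem hCD

end Cfsg.Agent.H13.RS
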