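import Mathlib
import Cfsg.Prelude.Def_RootSubgroups
import Cfsg.Agent.H13_RO
import Cfsg.Agent.H13_RS
set_option autoImplicit false
set_option linter.all false

namespace Cfsg.Agent.H13.RS

open Cfsg Cfsg.Agent.H13.RO
open scoped commutatorElement

variable {G : Type*} [Group G] {S : Set (Subgroup G)} {A B C D E F K : Subgroup G}

theorem rcc_central (h : RootCommutatorCase S A B) {c x : G} (hc : c ∈ ⁅A, B⁆) (hx : x ∈ A ⊔ B) :
    c * x = x * c := h.2.1 c hc x hx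

theorem rcc_excl (hS : IsRootSubgroupSet S) (hB : B ∈ S) (h : RootCommutatorCase S A B) :
    ¬ IsRankOnePair A B := by
  intro h1
  obtain ⟨a, ha, ha1⟩ := exists_ne (left_ne_bot h1)
  obtain ⟨b, hb, hb1⟩ := exists_ne (right_ne_bot h1)
  exact comm_ne hS hB h1 ha ha1 hb hb1 (fun b' hb' =>
    (h.2.1 _ (Subgroup.commutator_mem_commutator ha hb) b' (Subgroup.mem_sup_right hb')).symm)

theorem comm_excl (hS : IsRootSubgroupSet S) (h : RootCommutatorCase S A B) : ¬ ⁅A, B⁆ = ⊥ :=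
  hS.ne_bot _ h.1

theorem rank_noncomm (h : IsRankOnePair A B) : ¬ ⁅A, B⁆ = ⊥ := by
  intro h1
  obtain ⟨a, ha, ha1⟩ := exists_ne (left_ne_bot h)
  apply ha1
  apply eq_one h ha
  rw [cj_eq_iff]
  apply Subgroup.centralizer_le_normalizer
  rw [cen_iff]
  intro b hb
  exact (comm_iff.1 h1 a ha b hb).symm

theorem rcc_of_mem (hS : IsRootSubgroupSet S) (hA : A ∈ S) (hB : B ∈ S) (h : ⁅A, B⁆ ∈ S) :
    RootCommutatorCase S A B := by
  rcases hS.pair A hA B hB with h1 | h1 | h1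
  · exact absurd h1 (hS.ne_bot _ h)
  · exfalso
    have hle : ⁅A, B⁆ ≤ A ⊔ B := by
      rw [Subgroup.commutator_le]
      intro x hx y hy
      exact mul_mem (mul_mem (mul_mem (Subgroup.mem_sup_left hx) (Subgroup.mem_sup_right hy))
        (inv_mem (Subgroup.mem_sup_left hx))) (inv_mem (Subgroup.mem_sup_right hy))
    by_cases hc : ⁅A, B⁆ ≤ Subgroup.centralizer ((A ⊔ B : Subgroup G) : Set G)
    · obtain ⟨a, ha, ha1⟩ := exists_ne (left_ne_bot h1)
      obtain ⟨b, hb, hb1⟩ := exists_ne (right_ne_bot h1)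
      exact comm_ne hS hB h1 ha ha1 hb hb1 (fun b' hb' =>
        cen_iff.1 (hc (Subgroup.commutator_mem_commutator ha hb)) b' (Subgroup.mem_sup_right hb'))
    · have hΩ := mem_Om_of_le hS hA hB h1 h hle hc
      have hfix : ∀ g ∈ A ⊔ B, conjBy ⁅A, B⁆ g = ⁅A, B⁆ := by
        intro g hg
        rw [cj_eq_iff]
        have h2 : A ≤ Subgroup.normalizer ((⁅A, B⁆ : Subgroup G) : Set G) :=
          Subgroup.normalizer_commutator_ge_left _ _
        have h3 : B ≤ Subgroup.normalizer ((⁅A, B⁆ : Subgroup G) : Set G) :=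
          Subgroup.normalizer_commutator_ge_right _ _
        exact (sup_le h2 h3) hg
      obtain ⟨a, ha, ha1⟩ := exists_ne (left_ne_bot h1)
      obtain ⟨b, hb, hb1⟩ := exists_ne (right_ne_bot h1)
      have h4 := fix_only h1 left_mem hΩ ha ha1 (hfix a (Subgroup.mem_sup_left ha))
      have h5 := fix_only h1 (right_mem h1) hΩ hb hb1 (hfix b (Subgroup.mem_sup_right hb))
      exact h1.ne (h4.symm.trans h5)
  · exact h1

theorem rcc_symm (h : RootCommutatorCase S A B) : RootCommutatorCase S B A := by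
  have hc : ⁅B, A⁆ = ⁅A, B⁆ := Subgroup.commutator_comm B A
  refine ⟨by rw [hc]; exact h.1, ?_, ?_, ?_⟩
  · intro c hc' x hx
    rw [hc] at hc'
    rw [sup_comm] at hx
    exact h.2.1 c hc' x hx
  · intro b hb hb1
    rw [hc, ← h.2.2.2 b hb hb1]
    apply le_antisymm
    · rw [Subgroup.closure_le]
      rintro _ ⟨a, ha, rfl⟩
      have h1 : (fun a : G => a * b * a⁻¹ * b⁻¹) a ∈ Subgroup.closure ((fun a : G => a * b * a⁻¹ * b⁻¹) '' (A : Set G)) :=
        Subgroup.subset_closure ⟨a, ha, rfl⟩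
      have h2 := inv_mem h1
      have e : (a * b * a⁻¹ * b⁻¹)⁻¹ = b * a * b⁻¹ * a⁻¹ := by group
      simp only [e] at h2
      exact h2
    · rw [Subgroup.closure_le]
      rintro _ ⟨a, ha, rfl⟩
      have h1 : (fun a : G => b * a * b⁻¹ * a⁻¹) a ∈ Subgroup.closure ((fun a : G => b * a * b⁻¹ * a⁻¹) '' (A : Set G)) :=
        Subgroup.subset_closure ⟨a, ha, rfl⟩
      have h2 := inv_mem h1
      have e : (b * a * b⁻¹ * a⁻¹)⁻¹ = a * b * a⁻¹ * b⁻¹ := by group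
      simp only [e] at h2
      exact h2
  · intro a ha ha1
    rw [hc, ← h.2.2.1 a ha ha1]
    apply le_antisymm
    · rw [Subgroup.closure_le]
      rintro _ ⟨b, hb, rfl⟩
      have h1 : (fun b : G => a * b * a⁻¹ * b⁻¹) b ∈ Subgroup.closure ((fun b : G => a * b * a⁻¹ * b⁻¹) '' (B : Set G)) :=
        Subgroup.subset_closure ⟨b, hb, rfl⟩
      have h2 := inv_mem h1
      have e : (a * b * a⁻¹ * b⁻¹)⁻¹ = b * a * b⁻¹ * a⁻¹ := by group
      simp only [e] at h2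
      exact h2
    · rw [Subgroup.closure_le]
      rintro _ ⟨b, hb, rfl⟩
      have h1 : (fun b : G => b * a * b⁻¹ * a⁻¹) b ∈ Subgroup.closure ((fun b : G => b * a * b⁻¹ * a⁻¹) '' (B : Set G)) :=
        Subgroup.subset_closure ⟨b, hb, rfl⟩
      have h2 := inv_mem h1
      have e : (b * a * b⁻¹ * a⁻¹)⁻¹ = a * b * a⁻¹ * b⁻¹ := by group
      simp only [e] at h2
      exact h2

theorem rcc_cj (hS : IsRootSubgroupSet S) (hA : A ∈ S) (hB : B ∈ S) (h : RootCommutatorCase S A B) (g : G) :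
    RootCommutatorCase S (conjBy A g) (conjBy B g) :=
  rcc_of_mem hS (hS.conj_mem A hA g) (hS.conj_mem B hB g) (by
    rw [← cj_comm]; exact hS.conj_mem _ h.1 g)

/-- surjectivity of `b ↦ [a, b]`. -/
theorem rcc_surj (h : RootCommutatorCase S A B) {a : G} (ha : a ∈ A) (ha1 : a ≠ 1) {c : G}
    (hc : c ∈ ⁅A, B⁆) : ∃ b ∈ B, ⁅a, b⁆ = c := by
  have hcl := h.2.2.1 a ha ha1
  rw [← hcl] at hc
  have key : ∀ b ∈ B, ∀ b' ∈ B, ⁅a, b * b'⁆ = ⁅a, b⁆ * ⁅a, b'⁆ := by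
    intro b hb b' hb'
    have h1 : ⁅a, b'⁆ ∈ ⁅A, B⁆ := Subgroup.commutator_mem_commutator ha hb'
    have h2 := h.2.1 _ h1 b (Subgroup.mem_sup_right hb)
    rw [commutatorElement_def, commutatorElement_def, commutatorElement_def] at *
    calc a * (b * b') * a⁻¹ * (b * b')⁻¹ = a * b * a⁻¹ * (a * b' * a⁻¹ * b'⁻¹) * b⁻¹ := by group
      _ = a * b * a⁻¹ * (b⁻¹ * b * (a * b' * a⁻¹ * b'⁻¹) * b⁻¹) := by group
      _ = a * b * a⁻¹ * (b⁻¹ * (b * (a * b' * a⁻¹ * b'⁻¹)) * b⁻¹) := by group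
      _ = a * b * a⁻¹ * (b⁻¹ * ((a * b' * a⁻¹ * b'⁻¹) * b) * b⁻¹) := by rw [h2]
      _ = a * b * a⁻¹ * b⁻¹ * (a * b' * a⁻¹ * b'⁻¹) := by group
  induction hc using Subgroup.closure_induction with
  | mem y hy =>
    obtain ⟨b, hb, rfl⟩ := hy
    exact ⟨b, hb, rfl⟩
  | one => exact ⟨1, B.one_mem, by simp⟩
  | mul x y _ _ hx hy =>
    obtain ⟨b, hb, rfl⟩ := hx
    obtain ⟨b', hb', rfl⟩ := hy
    exact ⟨b * b', B.mul_mem hb hb', key b hb b' hb'⟩
  | inv x _ hx =>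
    obtain ⟨b, hb, rfl⟩ := hx
    refine ⟨b⁻¹, B.inv_mem hb, ?_⟩
    have := key b hb b⁻¹ (B.inv_mem hb)
    rw [mul_inv_cancel, commutatorElement_one_right] at this
    exact eq_inv_of_mul_eq_one_right this.symm

theorem rcc_mul_right (h : RootCommutatorCase S A B) {a b b' : G} (ha : a ∈ A) (hb : b ∈ B) (hb' : b' ∈ B) :
    ⁅a, b * b'⁆ = ⁅a, b⁆ * ⁅a, b'⁆ := by
  have h1 : ⁅a, b'⁆ ∈ ⁅A, B⁆ := Subgroup.commutator_mem_commutator ha hb'
  have h2 := h.2.1 _ h1 b (Subgroup.mem_sup_right hb)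
  rw [commutatorElement_def, commutatorElement_def, commutatorElement_def] at *
  calc a * (b * b') * a⁻¹ * (b * b')⁻¹ = a * b * a⁻¹ * (a * b' * a⁻¹ * b'⁻¹) * b⁻¹ := by group
    _ = a * b * a⁻¹ * (b⁻¹ * b * (a * b' * a⁻¹ * b'⁻¹) * b⁻¹) := by group
    _ = a * b * a⁻¹ * (b⁻¹ * (b * (a * b' * a⁻¹ * b'⁻¹)) * b⁻¹) := by group
    _ = a * b * a⁻¹ * (b⁻¹ * ((a * b' * a⁻¹ * b'⁻¹) * b) * b⁻¹) := by rw [h2]
    _ = a * b * a⁻¹ * b⁻¹ * (a * b' * a⁻¹ * b'⁻¹) := by group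

theorem rcc_mul_left (h : RootCommutatorCase S A B) {a a' b : G} (ha : a ∈ A) (ha' : a' ∈ A) (hb : b ∈ B) :
    ⁅a * a', b⁆ = ⁅a, b⁆ * ⁅a', b⁆ := by
  have h1 := rcc_mul_right (rcc_symm h) hb ha ha'
  have h2 : ⁅a * a', b⁆ = ⁅b, a * a'⁆⁻¹ := (commutatorElement_inv b (a * a')).symm
  have h3 : ⁅a, b⁆ = ⁅b, a⁆⁻¹ := (commutatorElement_inv b a).symm
  have h4 : ⁅a', b⁆ = ⁅b, a'⁆⁻¹ := (commutatorElement_inv b a').symm
  have h5 : ⁅b, a⁆ ∈ ⁅B, A⁆ := Subgroup.commutator_mem_commutator hb ha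
  have h6 : ⁅b, a'⁆ ∈ ⁅B, A⁆ := Subgroup.commutator_mem_commutator hb ha'
  have h7 : ⁅b, a⁆ * ⁅b, a'⁆ = ⁅b, a'⁆ * ⁅b, a⁆ := by
    refine (rcc_symm h).2.1 _ h5 _ ?_
    have hle : ⁅B, A⁆ ≤ B ⊔ A := by
      rw [Subgroup.commutator_le]
      intro x hx y hy
      exact mul_mem (mul_mem (mul_mem (Subgroup.mem_sup_left hx) (Subgroup.mem_sup_right hy))
        (inv_mem (Subgroup.mem_sup_left hx))) (inv_mem (Subgroup.mem_sup_right hy))
    exact hle h6
  rw [h2, h3, h4, h1, h7, mul_inv_rev]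

/-- rank one partner for `A` -/
def NI (S : Set (Subgroup G)) (A : Subgroup G) : Prop := ∃ B ∈ S, IsRankOnePair A B

theorem NI.cj (hS : IsRootSubgroupSet S) (h : NI S A) (g : G) : NI S (conjBy A g) := by
  obtain ⟨B, hB, h⟩ := h
  exact ⟨conjBy B g, hS.conj_mem B hB g, cj_pair h g⟩

theorem ti' (hS : IsRootSubgroupSet S) (hA : A ∈ S) (hN : NI S A) (hE : E ∈ S) {a : G} (ha : a ∈ A)
    (ha1 : a ≠ 1) (haE : a ∈ E) : E = A := by
  obtain ⟨B, hB, h⟩ := hN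
  exact ti hS hA hB h hE ha ha1 haE

theorem rcc_inf (hS : IsRootSubgroupSet S) (hA : A ∈ S) (h : RootCommutatorCase S A B) :
    A ⊓ ⁅A, B⁆ = ⊥ := by
  rw [Subgroup.eq_bot_iff_forall]
  intro a ha
  obtain ⟨ha, hc⟩ := Subgroup.mem_inf.1 ha
  by_contra ha1
  apply hS.ne_bot _ h.1
  rw [← h.2.2.1 a ha ha1, eq_bot_iff, Subgroup.closure_le]
  rintro _ ⟨b, hb, rfl⟩
  have := h.2.1 a hc b (Subgroup.mem_sup_right hb)
  show a * b * a⁻¹ * b⁻¹ = 1
  rw [this]; group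

theorem rcc_ne (hS : IsRootSubgroupSet S) (hA : A ∈ S) (h : RootCommutatorCase S A B) : A ≠ ⁅A, B⁆ := by
  intro h1
  have h2 := rcc_inf hS hA h
  rw [← h1, inf_idem] at h2
  exact hS.ne_bot A hA h2

/-- injectivity -/
theorem rcc_inj (hS : IsRootSubgroupSet S) (hA : A ∈ S) (hN : NI S A) (h : RootCommutatorCase S A B)
    {a b : G} (ha : a ∈ A) (ha1 : a ≠ 1) (hb : b ∈ B) (hab : ⁅a, b⁆ = 1) : b = 1 := by
  by_contra hb1
  rw [commutatorElement_eq_one_iff_mul_comm] at hab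
  have h1 : a ∈ conjBy A b := by
    rw [mem_cj]
    have : b⁻¹ * a * b = a := by rw [mul_assoc, hab]; group
    rwa [this]
  have h2 := ti' hS hA hN (hS.conj_mem A hA b) ha ha1 h1
  -- closure [A, b] ≤ A
  have h3 : ⁅A, B⁆ ≤ A := by
    rw [← h.2.2.2 b hb hb1, Subgroup.closure_le]
    rintro _ ⟨x, hx, rfl⟩
    have h4 : b * x⁻¹ * b⁻¹ ∈ conjBy A b := by
      rw [mem_cj]
      have : b⁻¹ * (b * x⁻¹ * b⁻¹) * b = x⁻¹ := by group
      rw [this]; exact A.inv_mem hx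
    rw [h2] at h4
    have := A.mul_mem hx h4
    simpa [mul_assoc] using this
  have h4 := rcc_inf hS hA h
  rw [inf_eq_right.2 h3] at h4
  exact hS.ne_bot _ h.1 h4

theorem mem_sup_comm (h : ∀ a ∈ A, ∀ c ∈ C, a * c = c * a) {x : G} (hx : x ∈ A ⊔ C) :
    ∃ a ∈ A, ∃ c ∈ C, x = a * c := by
  rw [Subgroup.sup_eq_closure] at hx
  induction hx using Subgroup.closure_induction with
  | mem y hy =>
    rcases hy with hy | hy
    · exact ⟨y, hy, 1, C.one_mem, (mul_one y).symm⟩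
    · exact ⟨1, A.one_mem, y, hy, (one_mul y).symm⟩
  | one => exact ⟨1, A.one_mem, 1, C.one_mem, (mul_one 1).symm⟩
  | mul x y _ _ hx hy =>
    obtain ⟨a, ha, c, hc, rfl⟩ := hx
    obtain ⟨a', ha', c', hc', rfl⟩ := hy
    refine ⟨a * a', A.mul_mem ha ha', c * c', C.mul_mem hc hc', ?_⟩
    have := h a' ha' c hc
    calc a * c * (a' * c') = a * (c * a') * c' := by group
      _ = a * (a' * c) * c' := by rw [this]
      _ = a * a' * (c * c') := by group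
  | inv x _ hx =>
    obtain ⟨a, ha, c, hc, rfl⟩ := hx
    refine ⟨a⁻¹, A.inv_mem ha, c⁻¹, C.inv_mem hc, ?_⟩
    rw [h a ha c hc, mul_inv_rev]

theorem rcc_comm_left (h : RootCommutatorCase S A B) : ∀ a ∈ A, ∀ c ∈ ⁅A, B⁆, a * c = c * a :=
  fun a ha c hc => (h.2.1 c hc a (Subgroup.mem_sup_left ha)).symm

theorem rcc_comm_right (h : RootCommutatorCase S A B) : ∀ a ∈ B, ∀ c ∈ ⁅A, B⁆, a * c = c * a :=
  fun a ha c hc => (h.2.1 c hc a (Subgroup.mem_sup_right ha)).symm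

/-- for a rank one partner `D` of `A`: `[A,B]` and `D` do not commute -/
theorem C_cases (hS : IsRootSubgroupSet S) (hA : A ∈ S) (hD : D ∈ S) (hAD : IsRankOnePair A D)
    (h : RootCommutatorCase S A B) :
    IsRankOnePair ⁅A, B⁆ D ∨ RootCommutatorCase S ⁅A, B⁆ D := by
  rcases hS.pair _ h.1 D hD with h1 | h1 | h1
  · exfalso
    have hNI : NI S A := ⟨D, hD, hAD⟩
    obtain ⟨a, ha, ha1⟩ := exists_ne (left_ne_bot hAD)
    obtain ⟨b, hb, hab⟩ : ∃ b ∈ B, ⁅a, b⁆ ≠ 1 := by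
      by_contra hcon
      push Not at hcon
      apply hS.ne_bot _ h.1
      rw [← h.2.2.1 a ha ha1, eq_bot_iff, Subgroup.closure_le]
      rintro _ ⟨b, hb, rfl⟩
      exact hcon b hb
    have hc : ⁅a, b⁆ ∈ ⁅A, B⁆ := Subgroup.commutator_mem_commutator ha hb
    have h2 := not_root hS hA hD hAD (z := ⁅a, b⁆⁻¹) (by
      rw [cen_iff]
      have : A ⊔ D ≤ Subgroup.centralizer {⁅a, b⁆⁻¹} := by
        rw [sup_le_iff]
        constructor
        · intro x hx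
          rw [Subgroup.mem_centralizer_iff]
          rintro y rfl
          exact (rcc_comm_left h x hx _ (inv_mem hc)).symm
        · intro x hx
          rw [Subgroup.mem_centralizer_iff]
          rintro y rfl
          exact comm_iff.1 h1 _ (inv_mem hc) x hx
      intro x hx
      have := this hx
      rw [Subgroup.mem_centralizer_iff] at this
      exact (this _ rfl).symm) ha ha1 (hS.conj_mem A hA b) (by
      rw [mem_cj]
      have : b⁻¹ * (⁅a, b⁆⁻¹ * a) * b = a := by rw [commutatorElement_def]; group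
      rwa [this])
    exact hab (inv_eq_one.1 h2.1)
  · exact Or.inl h1
  · exact Or.inr h1

/-- members of `S` inside `[A,B]` -/
theorem C_le (hS : IsRootSubgroupSet S) (hA : A ∈ S) (hNI : NI S A)
    (h : RootCommutatorCase S A B) (hE : E ∈ S) (hEC : E ≤ ⁅A, B⁆) : E = ⁅A, B⁆ := by
  obtain ⟨D, hD, hAD⟩ := hNI
  obtain ⟨e, he, he1⟩ := exists_ne (hS.ne_bot E hE)
  rcases C_cases hS hA hD hAD h with h1 | h1
  · exact ti hS h.1 hD h1 hE (hEC he) he1 he
  · set C := ⁅A, B⁆ with hCdef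
    have hC : C ∈ S := h.1
    have hnc : ∀ e ∈ C, e ≠ 1 → ¬ ∀ d ∈ D, e * d = d * e := by
      intro e he he1 hcon
      apply hS.ne_bot _ h1.1
      rw [← h1.2.2.1 e he he1, eq_bot_iff, Subgroup.closure_le]
      rintro _ ⟨d, hd, rfl⟩
      show e * d * e⁻¹ * d⁻¹ = 1
      rw [hcon d hd]; group
    have hED : RootCommutatorCase S E D := by
      rcases hS.pair E hE D hD with h2 | h2 | h2
      · exact absurd (fun d hd => comm_iff.1 h2 e he d hd) (hnc e (hEC he) he1)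
      · exfalso
        have := transfer hS hD hC h2 he he1 (hEC he) (fun b _ => rfl)
        exact rcc_excl hS hD h1 this.1
      · exact h2
    have hF : ⁅E, D⁆ = ⁅C, D⁆ := by
      rw [← hED.2.2.1 e he he1, h1.2.2.1 e (hEC he) he1]
    apply le_antisymm hEC
    intro c hc
    obtain ⟨d, hd, hd1⟩ := exists_ne (hS.ne_bot D hD)
    have h3 : ⁅d, c⁆ ∈ ⁅D, E⁆ := by
      rw [Subgroup.commutator_comm, hF, Subgroup.commutator_comm]
      exact Subgroup.commutator_mem_commutator hd hc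
    obtain ⟨e', he', hee⟩ := rcc_surj (rcc_symm hED) hd hd1 h3
    have h4 : ⁅d, c * e'⁻¹⁆ = 1 := by
      rw [rcc_mul_right (rcc_symm h1) hd hc (C.inv_mem (hEC he')), ← hee]
      have := rcc_mul_right (rcc_symm h1) hd (hEC he') (C.inv_mem (hEC he'))
      rw [mul_inv_cancel, commutatorElement_one_right] at this
      exact this.symm
    have h5 := rcc_inj hS hD ⟨A, hA, symm hAD⟩ (rcc_symm h1) hd hd1 (C.mul_mem hc (C.inv_mem (hEC he'))) h4
    rw [mul_inv_eq_one] at h5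
    rw [h5]; exact he'

theorem rcc_cj_mem {a b : G} (h : RootCommutatorCase S A B) (ha : a ∈ A) (hb : b ∈ B) :
    b * a * b⁻¹ ∈ A ⊔ ⁅A, B⁆ := by
  have : b * a * b⁻¹ = ⁅a, b⁆⁻¹ * a := by rw [commutatorElement_def]; group
  rw [this]
  exact mul_mem (inv_mem (Subgroup.mem_sup_right (Subgroup.commutator_mem_commutator ha hb)))
    (Subgroup.mem_sup_left ha)

theorem rcc_cj_le (h : RootCommutatorCase S A B) {b : G} (hb : b ∈ B) :
    conjBy A b ≤ A ⊔ ⁅A, B⁆ := by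
  intro x hx
  rw [mem_cj] at hx
  have := rcc_cj_mem h hx hb
  have e : b * (b⁻¹ * x * b) * b⁻¹ = x := by group
  rwa [e] at this

/-- every nonidentity element of `A C` lies in `C` or some `A^b`. -/
theorem rcc_cover (h : RootCommutatorCase S A B) {x : G} (hx : x ∈ A ⊔ ⁅A, B⁆) :
    x ∈ ⁅A, B⁆ ∨ ∃ b ∈ B, x ∈ conjBy A b := by
  obtain ⟨a, ha, c, hc, rfl⟩ := mem_sup_comm (rcc_comm_left h) hx
  by_cases ha1 : a = 1
  · left; rw [ha1, one_mul]; exact hc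
  · right
    obtain ⟨b, hb, hbc⟩ := rcc_surj h ha ha1 (inv_mem hc)
    refine ⟨b, hb, ?_⟩
    rw [mem_cj]
    have h1 := rcc_comm_left h a ha c hc
    have : b⁻¹ * (a * c) * b = a := by
      rw [h1, ← inv_inv c, ← hbc, commutatorElement_def]; group
    rwa [this]

theorem members (hS : IsRootSubgroupSet S) (hA : A ∈ S) (hNI : NI S A)
    (h : RootCommutatorCase S A B) (hE : E ∈ S) (hEC : E ≤ A ⊔ ⁅A, B⁆) :
    E = ⁅A, B⁆ ∨ ∃ b ∈ B, E = conjBy A b := by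
  by_cases h1 : E ≤ ⁅A, B⁆
  · exact Or.inl (C_le hS hA hNI h hE h1)
  · right
    obtain ⟨e, he, hec⟩ := Set.not_subset.1 h1
    rcases rcc_cover h (hEC he) with h2 | ⟨b, hb, h2⟩
    · exact absurd h2 hec
    · have he1 : e ≠ 1 := by rintro rfl; exact hec (one_mem _)
      exact ⟨b, hb, ti' hS (hS.conj_mem A hA b) (hNI.cj hS b) hE h2 he1 he⟩

theorem membersIn_eq (hS : IsRootSubgroupSet S) (hA : A ∈ S) (hNI : NI S A)
    (h : RootCommutatorCase S A B) :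
    membersIn S (A ⊔ ⁅A, B⁆) = (fun b : G => conjBy A b) '' (B : Set G) ∪ {⁅A, B⁆} := by
  ext E
  constructor
  · rintro ⟨hE, hEC⟩
    rcases members hS hA hNI h hE hEC with h1 | ⟨b, hb, h1⟩
    · right; exact h1
    · left; exact ⟨b, hb, h1.symm⟩
  · rintro (⟨b, hb, rfl⟩ | rfl)
    · exact ⟨hS.conj_mem A hA b, rcc_cj_le h hb⟩
    · exact ⟨h.1, le_sup_right⟩

theorem partition (hS : IsRootSubgroupSet S) (hA : A ∈ S) (hNI : NI S A)
    (h : RootCommutatorCase S A B) :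
    IsSubgroupPartition (A ⊔ ⁅A, B⁆) (membersIn S (A ⊔ ⁅A, B⁆)) := by
  refine ⟨fun C hC => hC.2, ?_, ?_⟩
  · intro x hx hx1
    rcases rcc_cover h hx with h2 | ⟨b, hb, h2⟩
    · exact ⟨⁅A, B⁆, ⟨h.1, le_sup_right⟩, h2⟩
    · exact ⟨conjBy A b, ⟨hS.conj_mem A hA b, rcc_cj_le h hb⟩, h2⟩
  · intro E hE F hF hEF
    rw [Subgroup.eq_bot_iff_forall]
    intro x hx
    obtain ⟨hxE, hxF⟩ := Subgroup.mem_inf.1 hx
    by_contra hx1
    apply hEF
    rcases members hS hA hNI h hE.1 hE.2 with h1 | ⟨b, hb, h1⟩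
    · rcases members hS hA hNI h hF.1 hF.2 with h2 | ⟨b', hb', h2⟩
      · rw [h1, h2]
      · subst h2
        exact ti' hS (hS.conj_mem A hA b') (hNI.cj hS b') hE.1 hxF hx1 hxE
    · subst h1
      exact (ti' hS (hS.conj_mem A hA b) (hNI.cj hS b) hF.1 hxE hx1 hxF).symm

end Cfsg.Agent.H13.RS
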