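import Mathlib
import Cfsg.Prelude.Def_RootSubgroups
import Cfsg.Agent.H13_RO
import Cfsg.Agent.H13_RS
import Cfsg.Agent.H13_RS2
set_option autoImplicit false
set_option linter.all false

namespace Cfsg.Agent.H13.RS

open Cfsg Cfsg.Agent.H13.RO
open scoped commutatorElement

variable {G : Type*} [Group G] {S : Set (Subgroup G)} {A B C D E F K : Subgroup G}

theorem rcc_noncomm (hS : IsRootSubgroupSet S) (h : RootCommutatorCase S C D) {c : G} (hc : c ∈ C) (hc1 : c ≠ 1) :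
    ¬ ∀ d ∈ D, c * d = d * c := by
  intro hcon
  apply hS.ne_bot _ h.1
  rw [← h.2.2.1 c hc hc1, eq_bot_iff, Subgroup.closure_le]
  rintro _ ⟨d, hd, rfl⟩
  show c * d * c⁻¹ * d⁻¹ = 1
  rw [hcon d hd]; group

theorem cen_sup {x : G} (hA : ∀ a ∈ A, a * x = x * a) (hB : ∀ b ∈ B, b * x = x * b) :
    x ∈ Subgroup.centralizer ((A ⊔ B : Subgroup G) : Set G) := by
  rw [cen_iff]
  have : A ⊔ B ≤ Subgroup.centralizer {x} := by
    rw [sup_le_iff]
    constructor
    · intro a ha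
      rw [Subgroup.mem_centralizer_iff]
      rintro y rfl
      exact (hA a ha).symm
    · intro a ha
      rw [Subgroup.mem_centralizer_iff]
      rintro y rfl
      exact (hB a ha).symm
  intro a ha
  have := this ha
  rw [Subgroup.mem_centralizer_iff] at this
  exact (this x rfl).symm

/-- Lemma M -/
theorem lemM (hS : IsRootSubgroupSet S) (hA : A ∈ S) (hC : C ∈ S) (hD : D ∈ S)
    (hAD : IsRankOnePair A D) (hAC : ∀ a ∈ A, ∀ c ∈ C, a * c = c * a) (h : RootCommutatorCase S C D) :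
    RootCommutatorCase S A ⁅C, D⁆ ∧ ∀ c ∈ C, c ≠ 1 → ∃ k ∈ ⁅A, ⁅C, D⁆⁆, k ≠ 1 ∧
      k * c ∈ Subgroup.centralizer ((A ⊔ D : Subgroup G) : Set G) := by
  set F := ⁅C, D⁆ with hFdef
  have hF : F ∈ S := h.1
  obtain ⟨a, ha, ha1⟩ := exists_ne (left_ne_bot hAD)
  obtain ⟨d, hd, hd1, hda⟩ := cond hAD ha ha1
  -- d c d⁻¹ commutes with conjBy D a
  have h1 : ∀ c ∈ C, ∀ x ∈ conjBy A d, x * (d * c * d⁻¹) = (d * c * d⁻¹) * x := by
    intro c hc x hx
    rw [mem_cj] at hx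
    have := hAC _ hx c hc
    calc x * (d * c * d⁻¹) = d * ((d⁻¹ * x * d) * c) * d⁻¹ := by group
      _ = d * (c * (d⁻¹ * x * d)) * d⁻¹ := by rw [this]
      _ = (d * c * d⁻¹) * x := by group
  have h2 : ∀ c ∈ C, ∀ δ ∈ D, δ * ((a⁻¹ * ⁅d, c⁆ * a) * c) = ((a⁻¹ * ⁅d, c⁆ * a) * c) * δ := by
    intro c hc δ hδ
    have h3 : a * δ * a⁻¹ ∈ conjBy A d := by
      rw [hda, mem_cj]
      have : a⁻¹ * (a * δ * a⁻¹) * a = δ := by group
      rwa [this]
    have h4 := h1 c hc _ h3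
    have h5 : (a⁻¹ * ⁅d, c⁆ * a) * c = a⁻¹ * (d * c * d⁻¹) * a := by
      have e : (a⁻¹ * ⁅d, c⁆ * a) * c = a⁻¹ * ⁅d, c⁆ * (a * c) := by group
      rw [e, hAC a ha c hc, commutatorElement_def]; group
    rw [h5]
    calc δ * (a⁻¹ * (d * c * d⁻¹) * a) = a⁻¹ * ((a * δ * a⁻¹) * (d * c * d⁻¹)) * a := by group
      _ = a⁻¹ * ((d * c * d⁻¹) * (a * δ * a⁻¹)) * a := by rw [h4]
      _ = (a⁻¹ * (d * c * d⁻¹) * a) * δ := by group
  have hfF : ∀ c ∈ C, ⁅d, c⁆ ∈ F := by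
    intro c hc
    rw [hFdef, Subgroup.commutator_comm]
    exact Subgroup.commutator_mem_commutator hd hc
  have hfD : ∀ f ∈ F, ∀ δ ∈ D, f * δ = δ * f := fun f hf δ hδ => (rcc_comm_right h δ hδ f hf).symm
  obtain ⟨c0, hc0, hc01⟩ := exists_ne (hS.ne_bot C hC)
  have hRCC : RootCommutatorCase S A F := by
    rcases hS.pair A hA F hF with h3 | h3 | h3
    · exfalso
      have h4 : d * c0 * d⁻¹ ∈ Subgroup.centralizer ((A ⊔ conjBy A d : Subgroup G) : Set G) := by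
        apply cen_sup
        · intro x hx
          have e : d * c0 * d⁻¹ = ⁅d, c0⁆ * c0 := by rw [commutatorElement_def]; group
          have e1 := comm_iff.1 h3 x hx _ (hfF c0 hc0)
          have e2 := hAC x hx c0 hc0
          rw [e]
          calc x * (⁅d, c0⁆ * c0) = (x * ⁅d, c0⁆) * c0 := by group
            _ = ⁅d, c0⁆ * (x * c0) := by rw [e1]; group
            _ = ⁅d, c0⁆ * c0 * x := by rw [e2]; group
        · exact h1 c0 hc0
      have h5 := (third (symm hAD) hd hd1)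
      have h6 := pair_Om hAD left_mem (cj_mem left_mem (Subgroup.mem_sup_right hd)) h5.1.symm
      rw [h6.2, cen_iff] at h4
      apply rcc_noncomm hS h hc0 hc01
      intro δ hδ
      have h7 := h4 (d * δ * d⁻¹) (Subgroup.mem_sup_right (D.mul_mem (D.mul_mem hd hδ) (D.inv_mem hd)))
      calc c0 * δ = d⁻¹ * ((d * c0 * d⁻¹) * (d * δ * d⁻¹)) * d := by group
        _ = d⁻¹ * ((d * δ * d⁻¹) * (d * c0 * d⁻¹)) * d := by rw [h7]
        _ = δ * c0 := by group
    · exfalso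
      set F' := conjBy F a⁻¹ with hF'
      have hF'S : F' ∈ S := hS.conj_mem F hF a⁻¹
      set g := a⁻¹ * ⁅d, c0⁆ * a with hg
      have hgF' : g ∈ F' := by
        rw [hF', mem_cj, hg]
        have : a⁻¹⁻¹ * (a⁻¹ * ⁅d, c0⁆ * a) * a⁻¹ = ⁅d, c0⁆ := by group
        rw [this]; exact hfF c0 hc0
      have hact : ∀ δ ∈ D, c0 * δ * c0⁻¹ = g⁻¹ * δ * g⁻¹⁻¹ := by
        intro δ hδ
        have h4 := h2 c0 hc0 δ hδ
        rw [← hg] at h4
        calc c0 * δ * c0⁻¹ = g⁻¹ * (g * c0 * δ) * c0⁻¹ := by group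
          _ = g⁻¹ * (δ * (g * c0)) * c0⁻¹ := by rw [h4]
          _ = g⁻¹ * δ * g⁻¹⁻¹ := by group
      have hg1 : g⁻¹ ≠ 1 := by
        intro hg1
        apply rcc_noncomm hS h hc0 hc01
        intro δ hδ
        have := hact δ hδ
        rw [hg1, inv_one, one_mul, mul_one] at this
        exact mul_inv_eq_iff_eq_mul.1 this
      rcases hS.pair F' hF'S D hD with h4 | h4 | h4
      · apply rcc_noncomm hS h hc0 hc01
        intro δ hδ
        have h5 := comm_iff.1 h4 g⁻¹ (F'.inv_mem hgF') δ hδ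
        have := hact δ hδ
        rw [h5, mul_inv_cancel_right] at this
        exact mul_inv_eq_iff_eq_mul.1 this
      · exact rcc_excl hS hD h (transfer hS hD hC h4 (F'.inv_mem hgF') hg1 hc0 hact).1
      · have h5 : ⁅F', D⁆ = F := by
          rw [hFdef, ← h4.2.2.1 g⁻¹ (F'.inv_mem hgF') hg1, ← h.2.2.1 c0 hc0 hc01]
          congr 1
          apply Set.image_congr
          intro δ hδ
          show g⁻¹ * δ * g⁻¹⁻¹ * δ⁻¹ = c0 * δ * c0⁻¹ * δ⁻¹
          rw [hact δ hδ]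
        have h6 : ⁅F', F⁆ = ⊥ := by
          rw [comm_iff]
          intro x hx f hf
          rw [← h5] at hf
          exact rcc_comm_left h4 x hx f hf
        have h7 := third h3 (A.inv_mem ha) (inv_ne_one.2 ha1)
        have h8 := pair_Om h3 (cj_mem (right_mem h3) (Subgroup.mem_sup_left (A.inv_mem ha))) (right_mem h3) h7.1
        exact rank_noncomm h8.1 h6
    · exact h3
  refine ⟨hRCC, ?_⟩
  intro c hc hc1
  refine ⟨⁅⁅d, c⁆⁻¹, a⁻¹⁆, ?_, ?_, ?_⟩
  · rw [Subgroup.commutator_comm]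
    exact Subgroup.commutator_mem_commutator (F.inv_mem (hfF c hc)) (A.inv_mem ha)
  · intro hk
    apply rcc_noncomm hS h hc hc1
    intro δ hδ
    have h4 := h2 c hc δ hδ
    have e : a⁻¹ * ⁅d, c⁆ * a = ⁅d, c⁆ * ⁅⁅d, c⁆⁻¹, a⁻¹⁆ := by
      rw [commutatorElement_def (⁅d, c⁆⁻¹)]; group
    rw [e, hk, mul_one] at h4
    have h5 := hfD _ (hfF c hc) δ hδ
    have h6 : ⁅d, c⁆ * (δ * c) = ⁅d, c⁆ * (c * δ) := by
      calc ⁅d, c⁆ * (δ * c) = (⁅d, c⁆ * δ) * c := by group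
        _ = δ * (⁅d, c⁆ * c) := by rw [h5]; group
        _ = ⁅d, c⁆ * c * δ := h4
        _ = ⁅d, c⁆ * (c * δ) := by group
    exact (mul_left_cancel h6).symm
  · have hkK : ⁅⁅d, c⁆⁻¹, a⁻¹⁆ ∈ ⁅A, F⁆ := by
      rw [Subgroup.commutator_comm]
      exact Subgroup.commutator_mem_commutator (F.inv_mem (hfF c hc)) (A.inv_mem ha)
    apply cen_sup
    · intro x hx
      have e1 := rcc_comm_left hRCC x hx _ hkK
      have e2 := hAC x hx c hc
      calc x * (⁅⁅d, c⁆⁻¹, a⁻¹⁆ * c) = (x * ⁅⁅d, c⁆⁻¹, a⁻¹⁆) * c := by group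
        _ = ⁅⁅d, c⁆⁻¹, a⁻¹⁆ * (x * c) := by rw [e1]; group
        _ = _ := by rw [e2]; group
    · intro δ hδ
      have h4 := h2 c hc δ hδ
      have e : a⁻¹ * ⁅d, c⁆ * a = ⁅d, c⁆ * ⁅⁅d, c⁆⁻¹, a⁻¹⁆ := by
        rw [commutatorElement_def (⁅d, c⁆⁻¹)]; group
      rw [e] at h4
      have h5 := hfD _ (hfF c hc) δ hδ
      have h6 : ⁅d, c⁆ * (δ * (⁅⁅d, c⁆⁻¹, a⁻¹⁆ * c)) = ⁅d, c⁆ * ((⁅⁅d, c⁆⁻¹, a⁻¹⁆ * c) * δ) := by
        calc ⁅d, c⁆ * (δ * (⁅⁅d, c⁆⁻¹, a⁻¹⁆ * c)) = (⁅d, c⁆ * δ) * (⁅⁅d, c⁆⁻¹, a⁻¹⁆ * c) := by group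
          _ = δ * (⁅d, c⁆ * ⁅⁅d, c⁆⁻¹, a⁻¹⁆ * c) := by rw [h5]; group
          _ = ⁅d, c⁆ * ⁅⁅d, c⁆⁻¹, a⁻¹⁆ * c * δ := h4
          _ = _ := by group
      exact mul_left_cancel h6

/-! ### components of 𝓕 -/

theorem FAdj_symm {Λ : Set (Subgroup G)} (h : FAdj Λ A B) : FAdj Λ B A := ⟨h.2.1, h.1, symm h.2.2⟩

theorem R_symm {Λ : Set (Subgroup G)} (h : Relation.ReflTransGen (FAdj Λ) A B) : Relation.ReflTransGen (FAdj Λ) B A := by
  induction h with
  | refl => exact Relation.ReflTransGen.refl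
  | tail _ h ih => exact Relation.ReflTransGen.head (FAdj_symm h) ih

theorem R_mem (hA : A ∈ S) (h : Relation.ReflTransGen (FAdj S) A B) : B ∈ S := by
  cases h with
  | refl => exact hA
  | tail _ h => exact h.2.1

theorem R_NI (h : Relation.ReflTransGen (FAdj S) A B) (hne : B ≠ A) : NI S A := by
  rcases Relation.ReflTransGen.cases_head h with h1 | ⟨C, h1, -⟩
  · exact absurd h1.symm hne
  · exact ⟨C, h1.2.1, h1.2.2⟩

theorem R_cj (hS : IsRootSubgroupSet S) (g : G) (h : Relation.ReflTransGen (FAdj S) A B) :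
    Relation.ReflTransGen (FAdj S) (conjBy A g) (conjBy B g) := by
  induction h with
  | refl => exact Relation.ReflTransGen.refl
  | tail _ h ih =>
    exact Relation.ReflTransGen.tail ih ⟨hS.conj_mem _ h.1 g, hS.conj_mem _ h.2.1 g, cj_pair h.2.2 g⟩

theorem R_via (hS : IsRootSubgroupSet S) (hA : A ∈ S) (hD : D ∈ S) (hAD : IsRankOnePair A D) {g : G}
    (hg : conjBy D g = D) : Relation.ReflTransGen (FAdj S) A (conjBy A g) := by
  have h1 : FAdj S A D := ⟨hA, hD, hAD⟩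
  have h2 : FAdj S D (conjBy A g) := by
    refine ⟨hD, hS.conj_mem A hA g, ?_⟩
    have := cj_pair hAD g
    rw [hg] at this
    exact symm this
  exact Relation.ReflTransGen.tail (Relation.ReflTransGen.single h1) h2

theorem cj_cent {g : G} (h : ∀ d ∈ D, g * d = d * g) : conjBy D g = D := by
  rw [cj_eq_iff]
  apply Subgroup.centralizer_le_normalizer
  rw [cen_iff]
  intro d hd
  exact (h d hd).symm

theorem half (hS : IsRootSubgroupSet S) (hA : A ∈ S) (hB : B ∈ S) (hNA : NI S A) (hNB : NI S B)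
    (hAB : ∀ a ∈ A, ∀ b ∈ B, a * b = b * a) (hne : A ≠ B)
    (hpart : ∀ x ∈ A ⊔ B, x ≠ 1 → ∃ C ∈ S, C ≤ A ⊔ B ∧ x ∈ C)
    (hR : ¬ Relation.ReflTransGen (FAdj S) A B) (hC : C ∈ S) (hCle : C ≤ A ⊔ B) (hCB : C ≠ B) :
    Relation.ReflTransGen (FAdj S) A C := by
  obtain ⟨A', hA', hAA'⟩ := hNA
  have hNA : NI S A := ⟨A', hA', hAA'⟩
  obtain ⟨a, ha, ha1⟩ := exists_ne (hS.ne_bot A hA)
  obtain ⟨b, hb, hb1⟩ := exists_ne (hS.ne_bot B hB)
  have hdisj : ∀ x ∈ A, x ≠ 1 → x ∉ B := by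
    intro x hx hx1 hxB
    exact hne (ti' hS hA hNA hB hx hx1 hxB).symm
  have hRCC : RootCommutatorCase S B A' := by
    rcases hS.pair B hB A' hA' with h1 | h1 | h1
    · exfalso
      have hba1 : b * a ≠ 1 := by
        intro h
        have : a = b⁻¹ := by rw [eq_comm, inv_eq_iff_mul_eq_one]; exact h
        exact hdisj a ha ha1 (by rw [this]; exact B.inv_mem hb)
      obtain ⟨E, hE, -, hbaE⟩ := hpart (b * a) (mul_mem (Subgroup.mem_sup_right hb) (Subgroup.mem_sup_left ha)) hba1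
      have := not_root hS hA hA' hAA' (z := b) (cen_sup (fun x hx => hAB x hx b hb)
        (fun x hx => (comm_iff.1 h1 b hb x hx).symm)) ha ha1 hE hbaE
      exact hb1 this.1
    · exfalso
      apply hR
      exact Relation.ReflTransGen.tail (Relation.ReflTransGen.single ⟨hA, hA', hAA'⟩) ⟨hA', hB, symm h1⟩
    · exact h1
  obtain ⟨hAF, hk⟩ := lemM hS hA hB hA' hAA' hAB hRCC
  set F := ⁅B, A'⁆ with hFdef
  have hFA' : ∀ f ∈ F, ∀ x ∈ A', f * x = x * f := fun f hf x hx => (rcc_comm_right hRCC x hx f hf).symm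
  have hFB : ∀ f ∈ F, ∀ x ∈ B, f * x = x * f := fun f hf x hx => (rcc_comm_left hRCC x hx f hf).symm
  have hRf : ∀ f ∈ F, Relation.ReflTransGen (FAdj S) A (conjBy A f) := fun f hf =>
    R_via hS hA hA' hAA' (cj_cent (hFA' f hf))
  set K := ⁅A, F⁆ with hKdef
  have hKA : ∀ x ∈ A, ∀ k ∈ K, x * k = k * x := rcc_comm_left hAF
  have hKB : ∀ x ∈ B, ∀ k ∈ K, x * k = k * x := by
    intro x hx k hk
    have : K ≤ Subgroup.centralizer {x} := by
      rw [hKdef, Subgroup.commutator_le]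
      intro y hy z hz
      rw [Subgroup.mem_centralizer_iff]
      intro u hu
      rw [Set.mem_singleton_iff.1 hu]
      have e1 := hAB y hy x hx
      have e2 := hFB z hz x hx
      have e3 : x * y⁻¹ = y⁻¹ * x := by
        rw [eq_inv_mul_iff_mul_eq, ← mul_assoc, e1, mul_assoc, mul_inv_cancel, mul_one]
      have e4 : x * z⁻¹ = z⁻¹ * x := by
        rw [eq_inv_mul_iff_mul_eq, ← mul_assoc, e2, mul_assoc, mul_inv_cancel, mul_one]
      rw [commutatorElement_def]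
      calc x * (y * z * y⁻¹ * z⁻¹) = (x * y) * z * y⁻¹ * z⁻¹ := by group
        _ = y * (x * z) * y⁻¹ * z⁻¹ := by rw [← e1]; group
        _ = y * z * (x * y⁻¹) * z⁻¹ := by rw [← e2]; group
        _ = y * z * y⁻¹ * (x * z⁻¹) := by rw [e3]; group
        _ = y * z * y⁻¹ * z⁻¹ * x := by rw [e4]; group
    have h2 := this hk
    rw [Subgroup.mem_centralizer_iff] at h2
    exact h2 x rfl
  have hKB' : K = B := by
    obtain ⟨k, hkK, hk1, hz⟩ := hk b hb hb1
    rw [cen_iff] at hz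
    have hab1 : a * b⁻¹ ≠ 1 := by
      intro h
      have : a = b := mul_inv_eq_one.1 h
      exact hdisj a ha ha1 (by rw [this]; exact hb)
    obtain ⟨C', hC', hC'le, habC'⟩ := hpart (a * b⁻¹) (mul_mem (Subgroup.mem_sup_left ha)
      (inv_mem (Subgroup.mem_sup_right hb))) hab1
    have hak : a * k ∈ A ⊔ K := mul_mem (Subgroup.mem_sup_left ha) (Subgroup.mem_sup_right hkK)
    have hakK : a * k ∉ K := by
      intro h
      have h1 : a ∈ K := by
        have := K.mul_mem h (K.inv_mem hkK)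
        rwa [mul_inv_cancel_right] at this
      have h2 := rcc_inf hS hA hAF
      rw [Subgroup.eq_bot_iff_forall] at h2
      exact ha1 (h2 a (Subgroup.mem_inf.2 ⟨ha, h1⟩))
    rcases rcc_cover hAF hak with h1 | ⟨f, hf, h1⟩
    · exact absurd h1 hakK
    have hEA' : IsRankOnePair (conjBy A f) A' := by
      have := cj_pair hAA' f
      rwa [cj_cent (hFA' f hf)] at this
    have hak1 : a * k ≠ 1 := fun h => hakK (by rw [h]; exact one_mem _)
    have htr := transfer hS hA' hC' hEA' h1 hak1 habC' (by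
      intro x hx
      have h2 := hz x (Subgroup.mem_sup_right hx)
      have h3 : a * b⁻¹ = (a * k) * (k * b)⁻¹ := by
        rw [← hKB b hb k hkK]; group
      have h4 : (k * b)⁻¹ * x * (k * b) = x := by rw [mul_assoc, h2]; group
      calc a * b⁻¹ * x * (a * b⁻¹)⁻¹ = (a * k) * ((k * b)⁻¹ * x * (k * b)) * (a * k)⁻¹ := by
            rw [h3]; group
        _ = a * k * x * (a * k)⁻¹ := by rw [h4])
    obtain ⟨-, x, hx, hC'e⟩ := htr
    have hC'Ω : C' ∈ unipotentSubgroups (conjBy A f) A' := by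
      rw [hC'e]; exact cj_mem left_mem (Subgroup.mem_sup_right hx)
    have hC'E : C' = conjBy A f := by
      by_contra hne'
      have h2 := (pair_Om hEA' hC'Ω left_mem hne').1
      apply rank_noncomm h2
      rw [comm_iff]
      intro u hu v hv
      obtain ⟨u1, hu1, u2, hu2, rfl⟩ := mem_sup_comm hAB (hC'le hu)
      obtain ⟨v1, hv1, v2, hv2, rfl⟩ := mem_sup_comm hKA (rcc_cj_le hAF hf hv)
      have e1 := abel hS hA hu1 hv1
      have e2 := hKA u1 hu1 v2 hv2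
      have e3 := hAB v1 hv1 u2 hu2
      have e4 := hKB u2 hu2 v2 hv2
      calc u1 * u2 * (v1 * v2) = u1 * (u2 * v1) * v2 := by group
        _ = (u1 * v1) * (u2 * v2) := by rw [← e3]; group
        _ = v1 * (u1 * v2) * u2 := by rw [e1, e4]; group
        _ = v1 * v2 * (u1 * u2) := by rw [e2]; group
    have hbAK : b ∈ A ⊔ K := by
      rw [hC'E] at habC'
      have h2 := rcc_cj_le hAF hf habC'
      have h3 := mul_mem (inv_mem h2) (Subgroup.mem_sup_left (T := K) ha)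
      have e : (a * b⁻¹)⁻¹ * a = b := by group
      rwa [e] at h3
    rcases rcc_cover hAF hbAK with h2 | ⟨f', hf', h2⟩
    · exact ti' hS hB hNB hAF.1 hb hb1 h2
    · exfalso
      have h3 := ti' hS hB hNB (hS.conj_mem A hA f') hb hb1 h2
      apply hR
      rw [← h3]
      exact hRf f' hf'
  rw [← hKB'] at hCle hCB
  rcases members hS hA hNA hAF hC hCle with h1 | ⟨f, hf, h1⟩
  · exact absurd h1 hCB
  · rw [h1]; exact hRf f hf

/-- S5031 core: two nonisolated members on a line are in the same 𝓕-component. -/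
theorem line_comp (hS : IsRootSubgroupSet S) (hA : A ∈ S) (hNA : NI S A) (hNB : NI S B)
    (hl : B ∈ linePartners S A) : Relation.ReflTransGen (FAdj S) A B := by
  by_contra hR
  obtain ⟨⟨hB, hBA, hcomm⟩, hpart⟩ := hl
  have hAB := comm_iff.1 hcomm
  have hp : ∀ x ∈ A ⊔ B, x ≠ 1 → ∃ C ∈ S, C ≤ A ⊔ B ∧ x ∈ C := by
    intro x hx hx1
    obtain ⟨C, hC, hxC⟩ := hpart.2.1 x hx hx1
    exact ⟨C, hC.1, hC.2, hxC⟩
  obtain ⟨a, ha, ha1⟩ := exists_ne (hS.ne_bot A hA)
  obtain ⟨b, hb, hb1⟩ := exists_ne (hS.ne_bot B hB)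
  have hdisj : ∀ x ∈ A, x ≠ 1 → x ∉ B := by
    intro x hx hx1 hxB
    exact hBA (ti' hS hA hNA hB hx hx1 hxB)
  have hab1 : a * b ≠ 1 := by
    intro h
    have : a = b⁻¹ := eq_inv_of_mul_eq_one_left h
    exact hdisj a ha ha1 (by rw [this]; exact B.inv_mem hb)
  obtain ⟨C, hC, hCle, habC⟩ := hp (a * b) (mul_mem (Subgroup.mem_sup_left ha) (Subgroup.mem_sup_right hb)) hab1
  have hCB : C ≠ B := by
    rintro rfl
    exact hdisj a ha ha1 (by have := C.mul_mem habC (C.inv_mem hb); rwa [mul_inv_cancel_right] at this)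
  have hCA : C ≠ A := by
    rintro rfl
    have h1 : b ∈ C := by have := C.mul_mem (C.inv_mem ha) habC; rwa [inv_mul_cancel_left] at this
    exact hdisj b h1 hb1 hb
  have h1 := half hS hA hB hNA hNB hAB hBA.symm hp hR hC hCle hCB
  have h2 := half hS hB hA hNB hNA (fun b hb a ha => (hAB a ha b hb).symm) hBA
    (by rw [sup_comm]; exact hp) (fun h => hR (R_symm h)) hC (by rwa [sup_comm]) hCA
  exact hR (h1.trans (R_symm h2))

theorem line_of_rcc (hS : IsRootSubgroupSet S) (hA : A ∈ S) (hNI : NI S A)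
    (h : RootCommutatorCase S A B) : A ∈ linePartners S ⁅A, B⁆ := by
  refine ⟨⟨hA, rcc_ne hS hA h, ?_⟩, ?_⟩
  · rw [comm_iff]
    intro c hc a ha
    exact (rcc_comm_left h a ha c hc).symm
  · rw [sup_comm]
    exact partition hS hA hNI h

theorem R_conj_mem (hS : IsRootSubgroupSet S) (hNI : ∀ A ∈ S, NI S A) (hC : C ∈ S) (hD : D ∈ S) {d : G}
    (hd : d ∈ D) : Relation.ReflTransGen (FAdj S) C (conjBy C d) := by
  rcases hS.pair C hC D hD with h | h | h
  · rw [cj_cent (fun c hc => (comm_iff.1 h c hc d hd).symm)]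
  · exact R_via hS hC hD h (cj_self hd)
  · have h1 := line_comp hS h.1 (hNI _ h.1) (hNI C hC) (line_of_rcc hS hC (hNI C hC) h)
    have h2 := R_cj hS d h1
    rw [cj_cent (D := ⁅C, D⁆) (fun c hc => rcc_comm_right h d hd c hc)] at h2
    exact (R_symm h1).trans h2

theorem R_conj (hS : IsRootSubgroupSet S) (hNI : ∀ A ∈ S, NI S A) (g : G) :
    ∀ C ∈ S, Relation.ReflTransGen (FAdj S) C (conjBy C g) := by
  have hg : g ∈ (⨆ A ∈ S, A : Subgroup G) := by rw [hS.generates]; exact Subgroup.mem_top g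
  have hle : (⨆ A ∈ S, A : Subgroup G) ≤ Subgroup.closure (⋃ A ∈ S, (A : Set G)) := by
    refine iSup₂_le ?_
    intro A hA x hx
    exact Subgroup.subset_closure (Set.mem_biUnion hA hx)
  have hg' := hle hg
  induction hg' using Subgroup.closure_induction with
  | mem y hy =>
    intro C hC
    obtain ⟨D, hD, hyD⟩ := Set.mem_iUnion₂.1 hy
    exact R_conj_mem hS hNI hC hD hyD
  | one => intro C hC; rw [cj_one]
  | mul x y hx' hy' hx hy =>
    intro C hC
    rw [← cj_mul]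
    exact (hy (by rw [hS.generates]; exact Subgroup.mem_top _) C hC).trans
      (hx (by rw [hS.generates]; exact Subgroup.mem_top _) _ (hS.conj_mem C hC y))
  | inv x _ hx =>
    intro C hC
    have := hx (by rw [hS.generates]; exact Subgroup.mem_top _) _ (hS.conj_mem C hC x⁻¹)
    rw [cj_mul, mul_inv_cancel, cj_one] at this
    exact R_symm this

theorem R_exists_conj (h : Relation.ReflTransGen (FAdj S) A B) : ∃ g : G, B = conjBy A g := by
  induction h with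
  | refl => exact ⟨1, (cj_one _).symm⟩
  | tail _ h ih =>
    obtain ⟨g, rfl⟩ := ih
    obtain ⟨x, -, hx⟩ := right_mem h.2.2
    exact ⟨x * g, by rw [hx, cj_mul]⟩

theorem connected_iff (hS : IsRootSubgroupSet S) (h2 : ∃ A ∈ S, ∃ B ∈ S, A ≠ B) :
    IsConnectedFamily (FAdj S) S ↔ (IsConjClassOfSubgroups S ∧ ∃ A ∈ S, NI S A) := by
  constructor
  · intro h
    obtain ⟨A, hA, B, hB, hAB⟩ := h2
    exact ⟨⟨⟨A, hA⟩, fun A hA B hB => R_exists_conj (h A hA B hB)⟩, A, hA, R_NI (h A hA B hB) hAB.symm⟩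
  · rintro ⟨⟨-, hcl⟩, A₀, hA₀, hN₀⟩ A hA B hB
    have hNI : ∀ A ∈ S, NI S A := by
      intro A hA
      obtain ⟨g, rfl⟩ := hcl A₀ hA₀ A hA
      exact hN₀.cj hS g
    obtain ⟨g, rfl⟩ := hcl A hA B hB
    exact R_conj hS hNI g A hA

end Cfsg.Agent.H13.RS
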