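import Mathlib
import Cfsg.Prelude.Def_RootSubgroups
import Cfsg.Agent.H13_RO
import Cfsg.Agent.H13_RS
import Cfsg.Agent.H13_RS2
import Cfsg.Agent.H13_RS3
set_option autoImplicit false
set_option linter.all false

namespace Cfsg.Agent.H13.RS

open Cfsg Cfsg.Agent.H13.RO
open scoped commutatorElement

variable {G : Type*} [Group G] {S : Set (Subgroup G)} {A B C D E F K V : Subgroup G}

/-- `C_V(E)` -/
def Phi (V E : Subgroup G) : Subgroup G := V ⊓ Subgroup.centralizer (E : Set G)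

theorem mem_Phi {x : G} : x ∈ Phi V E ↔ x ∈ V ∧ ∀ e ∈ E, e * x = x * e := by
  rw [Phi, Subgroup.mem_inf, cen_iff]

theorem Phi_cj {g : G} (hg : conjBy V g = V) : Phi V (conjBy E g) = conjBy (Phi V E) g := by
  ext x
  rw [mem_cj, mem_Phi, mem_Phi, ← mem_cj, hg]
  constructor
  · rintro ⟨h1, h2⟩
    refine ⟨h1, fun e he => ?_⟩
    have h3 := h2 (g * e * g⁻¹) (by
      rw [mem_cj]
      have : g⁻¹ * (g * e * g⁻¹) * g = e := by group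
      rwa [this])
    calc e * (g⁻¹ * x * g) = g⁻¹ * ((g * e * g⁻¹) * x) * g := by group
      _ = g⁻¹ * (x * (g * e * g⁻¹)) * g := by rw [h3]
      _ = g⁻¹ * x * g * e := by group
  · rintro ⟨h1, h2⟩
    refine ⟨h1, fun e he => ?_⟩
    rw [mem_cj] at he
    have h3 := h2 _ he
    calc e * x = g * ((g⁻¹ * e * g) * (g⁻¹ * x * g)) * g⁻¹ := by group
      _ = g * ((g⁻¹ * x * g) * (g⁻¹ * e * g)) * g⁻¹ := by rw [h3]
      _ = x * e := by group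

theorem cj_sup_rcc (hA : A ∈ S) (h : RootCommutatorCase S A B) {b : G} (hb : b ∈ B) :
    conjBy (A ⊔ ⁅A, B⁆) b = A ⊔ ⁅A, B⁆ := by
  apply le_antisymm
  · rw [cj_sup, sup_le_iff]
    refine ⟨rcc_cj_le h hb, ?_⟩
    rw [cj_cent (D := ⁅A, B⁆) (fun c hc => rcc_comm_right h b hb c hc)]
    exact le_sup_right
  · have h1 : conjBy (A ⊔ ⁅A, B⁆) b⁻¹ ≤ A ⊔ ⁅A, B⁆ := by
      rw [cj_sup, sup_le_iff]
      refine ⟨rcc_cj_le h (B.inv_mem hb), ?_⟩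
      rw [cj_cent (D := ⁅A, B⁆) (fun c hc => rcc_comm_right h b⁻¹ (B.inv_mem hb) c hc)]
      exact le_sup_right
    have h2 := cj_mono h1 b
    rwa [cj_mul, mul_inv_cancel, cj_one] at h2

structure NatMod (S : Set (Subgroup G)) (A B D : Subgroup G) : Prop where
  hS : IsRootSubgroupSet S
  hA : A ∈ S
  hB : B ∈ S
  hC : ⁅A, B⁆ ∈ S
  hD : D ∈ S
  hDC : ⁅D, ⁅A, B⁆⁆ = A

namespace NatMod

variable (h : NatMod S A B D)
include h

theorem r1 : RootCommutatorCase S A B := rcc_of_mem h.hS h.hA h.hB h.hC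

theorem r2 : RootCommutatorCase S D ⁅A, B⁆ := rcc_of_mem h.hS h.hD h.hC (by rw [h.hDC]; exact h.hA)

theorem sup_eq : (⁅A, B⁆ : Subgroup G) ⊔ ⁅⁅A, B⁆, D⁆ = A ⊔ ⁅A, B⁆ := by
  rw [Subgroup.commutator_comm ⁅A, B⁆ D, h.hDC, sup_comm]

theorem cjD {d : G} (hd : d ∈ D) : conjBy (A ⊔ ⁅A, B⁆) d = A ⊔ ⁅A, B⁆ := by
  have := cj_sup_rcc h.hC (rcc_symm h.r2) hd
  rwa [h.sup_eq] at this

theorem cjB {b : G} (hb : b ∈ B) : conjBy (A ⊔ ⁅A, B⁆) b = A ⊔ ⁅A, B⁆ := cj_sup_rcc h.hA h.r1 hb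

theorem norm_le : B ⊔ D ≤ Subgroup.normalizer ((A ⊔ ⁅A, B⁆ : Subgroup G) : Set G) := by
  rw [sup_le_iff]
  exact ⟨fun b hb => cj_eq_iff.1 (h.cjB hb), fun d hd => cj_eq_iff.1 (h.cjD hd)⟩

theorem cjX {x : G} (hx : x ∈ B ⊔ D) : conjBy (A ⊔ ⁅A, B⁆) x = A ⊔ ⁅A, B⁆ :=
  cj_eq_iff.2 (h.norm_le hx)

theorem commAC : ∀ a ∈ A, ∀ c ∈ ⁅A, B⁆, a * c = c * a := rcc_comm_left h.r1

theorem commBC : ∀ b ∈ B, ∀ c ∈ ⁅A, B⁆, b * c = c * b := rcc_comm_right h.r1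

theorem commDA : ∀ d ∈ D, ∀ a ∈ A, d * a = a * d := by
  intro d hd a ha
  have := rcc_comm_left h.r2 d hd a (by rw [h.hDC]; exact ha)
  exact this

theorem PhiB : Phi (A ⊔ ⁅A, B⁆) B = ⁅A, B⁆ := by
  ext x
  rw [mem_Phi]
  constructor
  · rintro ⟨hx, hx2⟩
    obtain ⟨a, ha, c, hc, rfl⟩ := mem_sup_comm h.commAC hx
    by_cases ha1 : a = 1
    · rw [ha1, one_mul]; exact hc
    · exfalso
      apply rcc_noncomm h.hS h.r1 ha ha1
      intro b hb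
      have h3 := hx2 b hb
      have h4 := h.commBC b hb c hc
      have h5 : (a * b) * c = (b * a) * c := by
        calc (a * b) * c = a * (b * c) := by group
          _ = (a * c) * b := by rw [h4]; group
          _ = b * (a * c) := h3.symm
          _ = (b * a) * c := by group
      exact mul_right_cancel h5
  · intro hx
    exact ⟨Subgroup.mem_sup_right hx, fun b hb => h.commBC b hb x hx⟩

theorem PhiD : Phi (A ⊔ ⁅A, B⁆) D = A := by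
  ext x
  rw [mem_Phi]
  constructor
  · rintro ⟨hx, hx2⟩
    obtain ⟨a, ha, c, hc, rfl⟩ := mem_sup_comm h.commAC hx
    by_cases hc1 : c = 1
    · rw [hc1, mul_one]; exact ha
    · exfalso
      apply rcc_noncomm h.hS (rcc_symm h.r2) hc hc1
      intro d hd
      have h3 := hx2 d hd
      have h4 := h.commDA d hd a ha
      have h5 : a * (c * d) = a * (d * c) := by
        calc a * (c * d) = (a * c) * d := by group
          _ = d * (a * c) := h3.symm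
          _ = (a * d) * c := by rw [← h4]; group
          _ = a * (d * c) := by group
      exact mul_left_cancel h5
  · intro hx
    exact ⟨Subgroup.mem_sup_left hx, fun b hb => h.commDA b hb x hx⟩

theorem rank : IsRankOnePair B D := by
  obtain ⟨a0, ha0, ha01⟩ := exists_ne (h.hS.ne_bot A h.hA)
  obtain ⟨c0, hc0, hc01⟩ := exists_ne (h.hS.ne_bot _ h.hC)
  rcases h.hS.pair B h.hB D h.hD with h1 | h1 | h1
  · exfalso
    apply rcc_noncomm h.hS (rcc_symm h.r2) hc0 hc01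
    intro d hd
    obtain ⟨b, hb, hbc⟩ := rcc_surj h.r1 ha0 ha01 hc0
    have e1 := comm_iff.1 h1 b hb d hd
    have e2 := h.commDA d hd a0 ha0
    have e3 : Commute d ⁅a0, b⁆ := by
      have c1 : Commute d a0 := e2
      have c2 : Commute d b := e1.symm
      rw [commutatorElement_def]
      exact ((c1.mul_right c2).mul_right c1.inv_right).mul_right c2.inv_right
    rw [← hbc]
    exact e3.symm
  · exact h1
  · exfalso
    apply rcc_noncomm h.hS (rcc_symm h.r2) hc0 hc01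
    intro d hd
    by_cases hd1 : d = 1
    · rw [hd1, mul_one, one_mul]
    have hd' := D.inv_mem hd
    have hd1' : d⁻¹ ≠ 1 := inv_ne_one.2 hd1
    -- elements of C ∩ C^d commute with d
    have k1 : ∀ x ∈ ⁅A, B⁆, d⁻¹ * x * d ∈ ⁅A, B⁆ → x * d = d * x := by
      intro x hx hx2
      have e1 : ⁅d⁻¹, x⁆ ∈ A := by
        have := Subgroup.commutator_mem_commutator hd' hx
        rwa [h.hDC] at this
      have e2 : ⁅d⁻¹, x⁆ ∈ ⁅A, B⁆ := by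
        rw [commutatorElement_def, inv_inv]
        exact mul_mem hx2 (inv_mem hx)
      have e3 := rcc_inf h.hS h.hA h.r1
      rw [Subgroup.eq_bot_iff_forall] at e3
      have e4 := e3 _ (Subgroup.mem_inf.2 ⟨e1, e2⟩)
      rw [commutatorElement_eq_one_iff_mul_comm] at e4
      calc x * d = d * (d⁻¹ * x) * d := by group
        _ = d * (x * d⁻¹) * d := by rw [e4]
        _ = d * x := by group
    -- ⁅d b d⁻¹, c⁆ ∈ C ∩ C^d
    have k2 : ∀ b ∈ B, ∀ c ∈ ⁅A, B⁆, ⁅d * b * d⁻¹, c⁆ * d = d * ⁅d * b * d⁻¹, c⁆ := by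
      intro b hb c hc
      apply k1
      · -- in C
        have e1 : d * b * d⁻¹ = ⁅d, b⁆ * b := by rw [commutatorElement_def]; group
        have e2 : ⁅d, b⁆ ∈ ⁅B, D⁆ := by
          rw [Subgroup.commutator_comm]; exact Subgroup.commutator_mem_commutator hd hb
        have e2X : ⁅d, b⁆ ∈ B ⊔ D := mul_mem (mul_mem (mul_mem (Subgroup.mem_sup_right hd)
          (Subgroup.mem_sup_left hb)) (inv_mem (Subgroup.mem_sup_right hd))) (inv_mem (Subgroup.mem_sup_left hb))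
        have e3 : ⁅d, b⁆ * c * ⁅d, b⁆⁻¹ ∈ ⁅A, B⁆ := by
          have h4 : conjBy (Phi (A ⊔ ⁅A, B⁆) B) ⁅d, b⁆ = Phi (A ⊔ ⁅A, B⁆) B := by
            rw [← Phi_cj (h.cjX e2X), cj_cent (D := B) (fun x hx => (rcc_comm_left h1 x hx _ e2).symm)]
          rw [h.PhiB] at h4
          rw [← h4, mem_cj]
          have : ⁅d, b⁆⁻¹ * (⁅d, b⁆ * c * ⁅d, b⁆⁻¹) * ⁅d, b⁆ = c := by group
          rwa [this]
        have e4 : ⁅d * b * d⁻¹, c⁆ = (⁅d, b⁆ * c * ⁅d, b⁆⁻¹) * c⁻¹ := by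
          rw [e1, commutatorElement_def]
          have e5 := h.commBC b hb c hc
          calc ⁅d, b⁆ * b * c * (⁅d, b⁆ * b)⁻¹ * c⁻¹ = ⁅d, b⁆ * (b * c) * b⁻¹ * ⁅d, b⁆⁻¹ * c⁻¹ := by group
            _ = (⁅d, b⁆ * c * ⁅d, b⁆⁻¹) * c⁻¹ := by rw [e5]; group
        rw [e4]
        exact mul_mem e3 (inv_mem hc)
      · -- d⁻¹ ⁅..⁆ d = ⁅b, d⁻¹ c d⁆ ∈ C
        have e1 : d⁻¹ * ⁅d * b * d⁻¹, c⁆ * d = ⁅b, d⁻¹ * c * d⁆ := by
          rw [commutatorElement_def, commutatorElement_def]; group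
        have e2 : d⁻¹ * c * d = ⁅d⁻¹, c⁆ * c := by rw [commutatorElement_def]; group
        have e3 : ⁅d⁻¹, c⁆ ∈ A := by
          have := Subgroup.commutator_mem_commutator hd' hc
          rwa [h.hDC] at this
        have e5 : ⁅b, ⁅d⁻¹, c⁆ * c⁆ = ⁅b, ⁅d⁻¹, c⁆⁆ := by
          have e6 := h.commBC b hb c hc
          rw [commutatorElement_def b, commutatorElement_def b]
          calc b * (⁅d⁻¹, c⁆ * c) * b⁻¹ * (⁅d⁻¹, c⁆ * c)⁻¹ = b * ⁅d⁻¹, c⁆ * (c * b⁻¹) * c⁻¹ * ⁅d⁻¹, c⁆⁻¹ := by group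
            _ = b * ⁅d⁻¹, c⁆ * (b⁻¹ * (b * c) * b⁻¹) * c⁻¹ * ⁅d⁻¹, c⁆⁻¹ := by group
            _ = b * ⁅d⁻¹, c⁆ * b⁻¹ * ⁅d⁻¹, c⁆⁻¹ := by rw [e6]; group
        rw [e1, e2, e5, Subgroup.commutator_comm]
        exact Subgroup.commutator_mem_commutator hb e3
    -- so all ⁅b,a⁆ commute with d
    obtain ⟨b, hb, hbc⟩ := rcc_surj (rcc_symm h.r1 |> rcc_symm) ha0 ha01 hc0
    -- a0 = ⁅d⁻¹, c⁆ for some c
    obtain ⟨c, hc, hca⟩ := rcc_surj h.r2 hd' hd1' (c := a0) (by rw [h.hDC]; exact ha0)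
    have e0 := k2 b hb c hc
    have e1 : d⁻¹ * ⁅d * b * d⁻¹, c⁆ * d = ⁅b, d⁻¹ * c * d⁆ := by
      rw [commutatorElement_def, commutatorElement_def]; group
    have e2 : d⁻¹ * c * d = ⁅d⁻¹, c⁆ * c := by rw [commutatorElement_def]; group
    have e5 : ⁅b, ⁅d⁻¹, c⁆ * c⁆ = ⁅b, ⁅d⁻¹, c⁆⁆ := by
      have e6 := h.commBC b hb c hc
      rw [commutatorElement_def b, commutatorElement_def b]
      calc b * (⁅d⁻¹, c⁆ * c) * b⁻¹ * (⁅d⁻¹, c⁆ * c)⁻¹ = b * ⁅d⁻¹, c⁆ * (c * b⁻¹) * c⁻¹ * ⁅d⁻¹, c⁆⁻¹ := by group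
        _ = b * ⁅d⁻¹, c⁆ * (b⁻¹ * (b * c) * b⁻¹) * c⁻¹ * ⁅d⁻¹, c⁆⁻¹ := by group
        _ = b * ⁅d⁻¹, c⁆ * b⁻¹ * ⁅d⁻¹, c⁆⁻¹ := by rw [e6]; group
    have e7 : d⁻¹ * ⁅d * b * d⁻¹, c⁆ * d = ⁅d * b * d⁻¹, c⁆ := by
      rw [mul_assoc, e0]; group
    rw [e7, e2, e5, hca] at e1
    rw [e1] at e0
    -- ⁅b, a0⁆ commutes with d
    have e8 : c0 = ⁅b, a0⁆⁻¹ := by rw [← hbc, commutatorElement_inv]
    rw [e8]
    have : Commute ⁅b, a0⁆ d := e0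
    exact this.inv_left

theorem orbit_eq {C' : Subgroup G} : (∃ x ∈ B ⊔ D, C' = conjBy A x) ↔
    ∃ P ∈ unipotentSubgroups B D, C' = Phi (A ⊔ ⁅A, B⁆) P := by
  have hr := h.rank
  constructor
  · rintro ⟨x, hx, rfl⟩
    refine ⟨conjBy D x, cj_mem (right_mem hr) hx, ?_⟩
    rw [Phi_cj (h.cjX hx), h.PhiD]
  · rintro ⟨P, hP, rfl⟩
    obtain ⟨x, hx, rfl⟩ := hP
    obtain ⟨y, hy, hye⟩ : ∃ y ∈ B ⊔ D, conjBy D y = B := by
      obtain ⟨z, hz, hze⟩ := right_mem hr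
      exact ⟨z⁻¹, inv_mem hz, cj_inv_eq hze⟩
    refine ⟨x * y, mul_mem hx hy, ?_⟩
    have e : conjBy B x = conjBy D (x * y) := by rw [← cj_mul, hye]
    rw [e, Phi_cj (h.cjX (mul_mem hx hy)), h.PhiD]

theorem orbit_eq' {C' : Subgroup G} : (∃ x ∈ B ⊔ D, C' = conjBy ⁅A, B⁆ x) ↔
    ∃ P ∈ unipotentSubgroups B D, C' = Phi (A ⊔ ⁅A, B⁆) P := by
  constructor
  · rintro ⟨x, hx, rfl⟩
    refine ⟨conjBy B x, cj_mem left_mem hx, ?_⟩
    rw [Phi_cj (h.cjX hx), h.PhiB]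
  · rintro ⟨P, hP, rfl⟩
    obtain ⟨x, hx, rfl⟩ := hP
    refine ⟨x, hx, ?_⟩
    rw [Phi_cj (h.cjX hx), h.PhiB]

theorem Phi_inf {P Q : Subgroup G} (hP : P ∈ unipotentSubgroups B D) (hQ : Q ∈ unipotentSubgroups B D)
    (hPQ : P ≠ Q) : Phi (A ⊔ ⁅A, B⁆) P ⊓ Phi (A ⊔ ⁅A, B⁆) Q = ⊥ := by
  have hr := h.rank
  obtain ⟨x, hx, rfl, rfl⟩ := two_trans hr left_mem (right_mem hr) hP hQ hr.ne hPQ
  rw [Phi_cj (h.cjX hx), Phi_cj (h.cjX hx), h.PhiB, h.PhiD, ← cj_inf, cj_eq_bot, inf_comm]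
  exact rcc_inf h.hS h.hA h.r1

theorem Phi_ne {P : Subgroup G} (hP : P ∈ unipotentSubgroups B D) : Phi (A ⊔ ⁅A, B⁆) P ≠ ⊥ := by
  obtain ⟨x, hx, rfl⟩ := hP
  rw [Phi_cj (h.cjX hx), h.PhiB, Ne, cj_eq_bot]
  exact h.hS.ne_bot _ h.hC

theorem Phi_inj {P Q : Subgroup G} (hP : P ∈ unipotentSubgroups B D) (hQ : Q ∈ unipotentSubgroups B D)
    (hPQ : Phi (A ⊔ ⁅A, B⁆) P = Phi (A ⊔ ⁅A, B⁆) Q) : P = Q := by
  by_contra hne
  have := h.Phi_inf hP hQ hne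
  rw [← hPQ, inf_idem] at this
  exact h.Phi_ne hP this

theorem set1 : {E | ∃ x ∈ B ⊔ D, E = conjBy A x} = {E | ∃ x ∈ B ⊔ D, E = conjBy ⁅A, B⁆ x} := by
  ext E
  exact h.orbit_eq.trans h.orbit_eq'.symm

theorem set2 : {E | ∃ x ∈ B ⊔ D, E = conjBy A x} = (fun b : G => conjBy A b) '' (B : Set G) ∪ {⁅A, B⁆} := by
  have hr := h.rank
  ext E
  constructor
  · intro hE
    obtain ⟨P, hP, rfl⟩ := h.orbit_eq.1 hE
    rcases (mem_Om hr).1 hP with rfl | ⟨b, hb, rfl⟩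
    · right; exact h.PhiB
    · left
      refine ⟨b, hb, ?_⟩
      rw [Phi_cj (h.cjB hb), h.PhiD]
  · rintro (⟨b, hb, rfl⟩ | hE)
    · exact ⟨b, Subgroup.mem_sup_left hb, rfl⟩
    · have hE' : E = ⁅A, B⁆ := hE
      subst hE'
      exact h.orbit_eq.2 ⟨B, left_mem, h.PhiB.symm⟩

theorem set3 : {E | ∃ x ∈ B ⊔ D, E = conjBy A x} = (fun d : G => conjBy ⁅A, B⁆ d) '' (D : Set G) ∪ {A} := by
  have hr := h.rank
  have hΩ : unipotentSubgroups D B = unipotentSubgroups B D := Om_eq hr (right_mem hr) left_mem hr.ne.symm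
  ext E
  constructor
  · intro hE
    obtain ⟨P, hP, rfl⟩ := h.orbit_eq.1 hE
    rw [← hΩ] at hP
    rcases (mem_Om (symm hr)).1 hP with rfl | ⟨b, hb, rfl⟩
    · right; exact h.PhiD
    · left
      refine ⟨b, hb, ?_⟩
      rw [Phi_cj (h.cjD hb), h.PhiB]
  · rintro (⟨b, hb, rfl⟩ | hE)
    · exact h.orbit_eq.2 (h.orbit_eq'.1 ⟨b, Subgroup.mem_sup_right hb, rfl⟩)
    · have hE' : E = A := hE
      subst hE'
      exact ⟨1, one_mem _, (cj_one _).symm⟩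

theorem part : IsSubgroupPartition (A ⊔ ⁅A, B⁆) {E | ∃ x ∈ B ⊔ D, E = conjBy A x} := by
  refine ⟨?_, ?_, ?_⟩
  · rintro E ⟨x, hx, rfl⟩
    have := cj_mono (le_sup_left : A ≤ A ⊔ ⁅A, B⁆) x
    rwa [h.cjX hx] at this
  · intro x hx hx1
    rcases rcc_cover h.r1 hx with h1 | ⟨b, hb, h1⟩
    · refine ⟨⁅A, B⁆, ?_, h1⟩
      rw [h.set2]; right; rfl
    · refine ⟨conjBy A b, ?_, h1⟩
      exact ⟨b, Subgroup.mem_sup_left hb, rfl⟩
  · intro E hE F hF hne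
    obtain ⟨P, hP, rfl⟩ := h.orbit_eq.1 hE
    obtain ⟨Q, hQ, rfl⟩ := h.orbit_eq.1 hF
    exact h.Phi_inf hP hQ (fun h => hne (by rw [h]))

theorem central_of {x : G} (hx : x ∈ B ⊔ D)
    (hxV : x ∈ Subgroup.centralizer ((A ⊔ ⁅A, B⁆ : Subgroup G) : Set G)) :
    ∀ y ∈ B ⊔ D, x * y = y * x := by
  have hr := h.rank
  have hfix : ∀ x ∈ B ⊔ D, x ∈ Subgroup.centralizer ((A ⊔ ⁅A, B⁆ : Subgroup G) : Set G) →
      ∀ P ∈ unipotentSubgroups B D, conjBy P x = P := by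
    intro x hx hxV P hP
    apply h.Phi_inj (cj_mem hP hx) hP
    rw [Phi_cj (h.cjX hx)]
    apply cj_cent
    intro d hd
    rw [cen_iff] at hxV
    exact (hxV d (mem_Phi.1 hd).1).symm
  have hnorm : ∀ y ∈ B ⊔ D, y * x⁻¹ * y⁻¹ ∈ Subgroup.centralizer ((A ⊔ ⁅A, B⁆ : Subgroup G) : Set G) := by
    intro y hy
    rw [cen_iff] at hxV ⊢
    intro v hv
    have h1 : y⁻¹ * v * y ∈ A ⊔ ⁅A, B⁆ := by
      rw [← mem_cj, h.cjX hy]; exact hv
    have h2 := hxV _ h1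
    have h3 : (y⁻¹ * v * y) * x⁻¹ = x⁻¹ * (y⁻¹ * v * y) := by
      have : Commute (y⁻¹ * v * y) x := h2
      exact this.inv_right
    calc v * (y * x⁻¹ * y⁻¹) = y * ((y⁻¹ * v * y) * x⁻¹) * y⁻¹ := by group
      _ = y * (x⁻¹ * (y⁻¹ * v * y)) * y⁻¹ := by rw [h3]
      _ = y * x⁻¹ * y⁻¹ * v := by group
  have key : ∀ P Q : Subgroup G, IsRankOnePair P Q → P ∈ unipotentSubgroups B D →
      Q ∈ unipotentSubgroups B D → ∀ p ∈ P, p * x = x * p := by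
    intro P Q hPQ hP hQ p hp
    have hpX : p ∈ B ⊔ D := Om_le hP hp
    have h1 : x * p * x⁻¹ * p⁻¹ ∈ P := by
      refine P.mul_mem ?_ (P.inv_mem hp)
      have := cj_eq_iff.1 (hfix x hx hxV P hP)
      exact (Subgroup.mem_normalizer_iff.1 this p).1 hp
    have h2 : x * p * x⁻¹ * p⁻¹ ∈ B ⊔ D := mul_mem (mul_mem (mul_mem hx hpX) (inv_mem hx)) (inv_mem hpX)
    have h3 : x * p * x⁻¹ * p⁻¹ ∈ Subgroup.centralizer ((A ⊔ ⁅A, B⁆ : Subgroup G) : Set G) := by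
      have e : x * p * x⁻¹ * p⁻¹ = x * (p * x⁻¹ * p⁻¹) := by group
      rw [e]
      exact mul_mem hxV (hnorm p hpX)
    have h4 := eq_one hPQ h1 (hfix _ h2 h3 Q hQ)
    have : x * p = p * x := by
      calc x * p = (x * p * x⁻¹ * p⁻¹) * (p * x) := by group
        _ = p * x := by rw [h4, one_mul]
    exact this.symm
  have h5 := cen_sup (key B D hr left_mem (right_mem hr)) (key D B (symm hr) (right_mem hr) left_mem)
  intro y hy
  exact (cen_iff.1 h5 y hy).symm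

end NatMod

end Cfsg.Agent.H13.RS
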