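import Mathlib
import Cfsg.Prelude.Def_RootSubgroups
import Cfsg.Agent.H13_RO
import Cfsg.Agent.H13_RS
import Cfsg.Agent.H13_RS2
import Cfsg.Agent.H13_RS3
set_option autoImplicit false
set_option linter.all false

namespace Cfsg.Agent.H13.RS

open Cfsg Cfsg.Agent.H13.RO
open scoped commutatorElement

variable {G : Type*} [Group G] {S : Set (Subgroup G)} {A B C D E F K : Subgroup G}

theorem sup_cj_eq (h : RootCommutatorCase S A F) {y : G} (hy : y ∈ F) (hy1 : y ≠ 1) :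
    A ⊔ conjBy A y = A ⊔ ⁅A, F⁆ := by
  apply le_antisymm
  · exact sup_le le_sup_left (rcc_cj_le h hy)
  · refine sup_le le_sup_left ?_
    rw [← h.2.2.2 y hy hy1, Subgroup.closure_le]
    rintro _ ⟨a, ha, rfl⟩
    have e : a * y * a⁻¹ * y⁻¹ = a * (y * a⁻¹ * y⁻¹) := by group
    show a * y * a⁻¹ * y⁻¹ ∈ A ⊔ conjBy A y
    rw [e]
    refine mul_mem (Subgroup.mem_sup_left ha) (Subgroup.mem_sup_right ?_)
    rw [mem_cj]
    have : y⁻¹ * (y * a⁻¹ * y⁻¹) * y = a⁻¹ := by group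
    rw [this]; exact A.inv_mem ha

/-- the case `(B, A')` in the commutator case. -/
theorem line_rcc (hS : IsRootSubgroupSet S) (hA : A ∈ S) (hB : B ∈ S) {A' : Subgroup G} (hA' : A' ∈ S)
    (hAA' : IsRankOnePair A A') (hNB : NI S B)
    (hAB : ∀ a ∈ A, ∀ b ∈ B, a * b = b * a) (hne : A ≠ B)
    (hpart : ∀ x ∈ A ⊔ B, x ≠ 1 → ∃ C ∈ S, C ≤ A ⊔ B ∧ x ∈ C)
    (hRCC : RootCommutatorCase S B A') :
    RootCommutatorCase S A ⁅B, A'⁆ ∧ (B = ⁅A, ⁅B, A'⁆⁆ ∨ ∃ f ∈ ⁅B, A'⁆, B = conjBy A f) := by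
  have hNA : NI S A := ⟨A', hA', hAA'⟩
  obtain ⟨a, ha, ha1⟩ := exists_ne (hS.ne_bot A hA)
  obtain ⟨b, hb, hb1⟩ := exists_ne (hS.ne_bot B hB)
  have hdisj : ∀ x ∈ A, x ≠ 1 → x ∉ B := by
    intro x hx hx1 hxB
    exact hne (ti' hS hA hNA hB hx hx1 hxB).symm
  obtain ⟨hAF, hk⟩ := lemM hS hA hB hA' hAA' hAB hRCC
  refine ⟨hAF, ?_⟩
  set F := ⁅B, A'⁆ with hFdef
  have hFA' : ∀ f ∈ F, ∀ x ∈ A', f * x = x * f := fun f hf x hx => (rcc_comm_right hRCC x hx f hf).symm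
  have hFB : ∀ f ∈ F, ∀ x ∈ B, f * x = x * f := fun f hf x hx => (rcc_comm_left hRCC x hx f hf).symm
  set K := ⁅A, F⁆ with hKdef
  have hKA : ∀ x ∈ A, ∀ k ∈ K, x * k = k * x := rcc_comm_left hAF
  have hKB : ∀ x ∈ B, ∀ k ∈ K, x * k = k * x := by
    intro x hx k hk
    have : K ≤ Subgroup.centralizer {x} := by
      rw [hKdef, Subgroup.commutator_le]
      intro y hy z hz
      rw [Subgroup.mem_centralizer_iff]
      intro u hu
      rw [Set.mem_singleton_iff.1 hu]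
      have e1 : Commute x y := (hAB y hy x hx).symm
      have e2 : Commute x z := (hFB z hz x hx).symm
      rw [commutatorElement_def]
      exact ((e1.mul_right e2).mul_right e1.inv_right).mul_right e2.inv_right
    have h2 := this hk
    rw [Subgroup.mem_centralizer_iff] at h2
    exact h2 x rfl
  obtain ⟨k, hkK, hk1, hz⟩ := hk b hb hb1
  rw [cen_iff] at hz
  have hab1 : a * b⁻¹ ≠ 1 := by
    intro h
    have : a = b := mul_inv_eq_one.1 h
    exact hdisj a ha ha1 (by rw [this]; exact hb)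
  obtain ⟨C', hC', hC'le, habC'⟩ := hpart (a * b⁻¹) (mul_mem (Subgroup.mem_sup_left ha)
    (inv_mem (Subgroup.mem_sup_right hb))) hab1
  have hak : a * k ∈ A ⊔ K := mul_mem (Subgroup.mem_sup_left ha) (Subgroup.mem_sup_right hkK)
  have hakK : a * k ∉ K := by
    intro h
    have h1 : a ∈ K := by
      have := K.mul_mem h (K.inv_mem hkK)
      rwa [mul_inv_cancel_right] at this
    have h2 := rcc_inf hS hA hAF
    rw [Subgroup.eq_bot_iff_forall] at h2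
    exact ha1 (h2 a (Subgroup.mem_inf.2 ⟨ha, h1⟩))
  rcases rcc_cover hAF hak with h1 | ⟨f, hf, h1⟩
  · exact absurd h1 hakK
  have hEA' : IsRankOnePair (conjBy A f) A' := by
    have := cj_pair hAA' f
    rwa [cj_cent (hFA' f hf)] at this
  have hak1 : a * k ≠ 1 := fun h => hakK (by rw [h]; exact one_mem _)
  have htr := transfer hS hA' hC' hEA' h1 hak1 habC' (by
    intro x hx
    have h2 := hz x (Subgroup.mem_sup_right hx)
    have h3 : a * b⁻¹ = (a * k) * (k * b)⁻¹ := by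
      rw [← hKB b hb k hkK]; group
    have h4 : (k * b)⁻¹ * x * (k * b) = x := by rw [mul_assoc, h2]; group
    calc a * b⁻¹ * x * (a * b⁻¹)⁻¹ = (a * k) * ((k * b)⁻¹ * x * (k * b)) * (a * k)⁻¹ := by
          rw [h3]; group
      _ = a * k * x * (a * k)⁻¹ := by rw [h4])
  obtain ⟨-, x, hx, hC'e⟩ := htr
  have hC'Ω : C' ∈ unipotentSubgroups (conjBy A f) A' := by
    rw [hC'e]; exact cj_mem left_mem (Subgroup.mem_sup_right hx)
  have hC'E : C' = conjBy A f := by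
    by_contra hne'
    have h2 := (pair_Om hEA' hC'Ω left_mem hne').1
    apply rank_noncomm h2
    rw [comm_iff]
    intro u hu v hv
    obtain ⟨u1, hu1, u2, hu2, rfl⟩ := mem_sup_comm hAB (hC'le hu)
    obtain ⟨v1, hv1, v2, hv2, rfl⟩ := mem_sup_comm hKA (rcc_cj_le hAF hf hv)
    have e1 : Commute u1 v1 := abel hS hA hu1 hv1
    have e2 : Commute u1 v2 := hKA u1 hu1 v2 hv2
    have e3 : Commute u2 v1 := (hAB v1 hv1 u2 hu2).symm
    have e4 : Commute u2 v2 := hKB u2 hu2 v2 hv2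
    exact (e1.mul_right e2).mul_left (e3.mul_right e4)
  have hbAK : b ∈ A ⊔ K := by
    rw [hC'E] at habC'
    have h2 := rcc_cj_le hAF hf habC'
    have h3 := mul_mem (inv_mem h2) (Subgroup.mem_sup_left (T := K) ha)
    have e : (a * b⁻¹)⁻¹ * a = b := by group
    rwa [e] at h3
  rcases rcc_cover hAF hbAK with h2 | ⟨f', hf', h2⟩
  · exact Or.inl (ti' hS hB hNB hAF.1 hb hb1 h2).symm
  · exact Or.inr ⟨f', hf', (ti' hS hB hNB (hS.conj_mem A hA f') hb hb1 h2).symm⟩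

/-- every line (of nonisolated members) comes from a commutator -/
theorem line_exists (hS : IsRootSubgroupSet S) (hA : A ∈ S) (hNA : NI S A) (hNB : NI S B)
    (hl : B ∈ linePartners S A) : ∃ F ∈ S, RootCommutatorCase S A F ∧ A ⊔ B = A ⊔ ⁅A, F⁆ := by
  obtain ⟨⟨hB, hBA, hcomm⟩, hpart⟩ := hl
  have hAB := comm_iff.1 hcomm
  have hp : ∀ x ∈ A ⊔ B, x ≠ 1 → ∃ C ∈ S, C ≤ A ⊔ B ∧ x ∈ C := by
    intro x hx hx1
    obtain ⟨C, hC, hxC⟩ := hpart.2.1 x hx hx1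
    exact ⟨C, hC.1, hC.2, hxC⟩
  obtain ⟨a, ha, ha1⟩ := exists_ne (hS.ne_bot A hA)
  obtain ⟨b, hb, hb1⟩ := exists_ne (hS.ne_bot B hB)
  have hdisj : ∀ x ∈ A, x ≠ 1 → x ∉ B := by
    intro x hx hx1 hxB
    exact hBA (ti' hS hA hNA hB hx hx1 hxB)
  obtain ⟨D, hD, hAD⟩ := hNA
  have fin : ∀ F ∈ S, RootCommutatorCase S A F → ∀ y ∈ F, B = conjBy A y →
      A ⊔ B = A ⊔ ⁅A, F⁆ := by
    intro F hF hAF y hy hBy
    have hy1 : y ≠ 1 := by
      rintro rfl
      rw [cj_one] at hBy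
      exact hBA hBy
    rw [hBy]; exact sup_cj_eq hAF hy hy1
  rcases hS.pair B hB D hD with h1 | h1 | h1
  · exfalso
    have hba1 : b * a ≠ 1 := by
      intro h
      have : a = b⁻¹ := by rw [eq_comm, inv_eq_iff_mul_eq_one]; exact h
      exact hdisj a ha ha1 (by rw [this]; exact B.inv_mem hb)
    obtain ⟨E, hE, -, hbaE⟩ := hp (b * a) (mul_mem (Subgroup.mem_sup_right hb) (Subgroup.mem_sup_left ha)) hba1
    have := not_root hS hA hD hAD (z := b) (cen_sup (fun x hx => hAB x hx b hb)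
      (fun x hx => (comm_iff.1 h1 b hb x hx).symm)) ha ha1 hE hbaE
    exact hb1 this.1
  · obtain ⟨d, hd, hd1⟩ := exists_ne (hS.ne_bot D hD)
    obtain ⟨a, ha, ha1, hae⟩ := cond (symm hAD) hd hd1
    obtain ⟨b, hb, hb1, hbe⟩ := cond (symm h1) hd hd1
    -- conjBy D a = conjBy A d ; conjBy D b = conjBy B d
    have hBy : B = conjBy A (d⁻¹ * (b * a⁻¹) * d) := by
      have e1 : conjBy A (a⁻¹ * d) = D := by
        rw [← cj_mul, ← hae, cj_mul, inv_mul_cancel, cj_one]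
      have e2 : conjBy D (d⁻¹ * b) = B := by
        rw [← cj_mul, hbe, cj_mul, inv_mul_cancel, cj_one]
      rw [← e2, ← e1, cj_mul]
      congr 1; group
    have hx1 : b * a⁻¹ ≠ 1 := by
      intro h
      have : b = a := mul_inv_eq_one.1 h
      exact hdisj a ha ha1 (by rw [← this]; exact hb)
    obtain ⟨C, hC, -, hxC⟩ := hp (b * a⁻¹) (mul_mem (Subgroup.mem_sup_right hb)
      (inv_mem (Subgroup.mem_sup_left ha))) hx1
    have hF : conjBy C d⁻¹ ∈ S := hS.conj_mem C hC _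
    have hy : d⁻¹ * (b * a⁻¹) * d ∈ conjBy C d⁻¹ := by
      rw [mem_cj]
      have : d⁻¹⁻¹ * (d⁻¹ * (b * a⁻¹) * d) * d⁻¹ = b * a⁻¹ := by group
      rwa [this]
    rcases hS.pair A hA _ hF with h2 | h2 | h2
    · exfalso
      rw [cj_cent (fun x hx => (comm_iff.1 h2 x hx _ hy).symm)] at hBy
      exact hBA hBy
    · exfalso
      have h3 : B ∈ unipotentSubgroups A (conjBy C d⁻¹) := by
        rw [hBy]; exact cj_mem left_mem (Subgroup.mem_sup_right hy)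
      have h4 := (pair_Om h2 left_mem h3 hBA.symm).1
      exact rank_noncomm h4 hcomm
    · exact ⟨_, hF, h2, fin _ hF h2 _ hy hBy⟩
  · obtain ⟨h2, h3⟩ := line_rcc hS hA hB hD hAD hNB hAB hBA.symm hp h1
    refine ⟨⁅B, D⁆, h1.1, h2, ?_⟩
    rcases h3 with h3 | ⟨f, hf, h3⟩
    · rw [← h3]
    · exact fin _ h1.1 h2 f hf h3

/-- S5038 -/
theorem line_trans (hS : IsRootSubgroupSet S) (hNI : ∀ A ∈ S, NI S A) (hA : A ∈ S) (hl : B ∈ linePartners S A)
    {N : Subgroup G} (hN : N = ⨆ E ∈ normalizingMembers S (A ⊔ B), E) :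
    ∀ C₁ ∈ membersIn S (A ⊔ B), ∀ C₂ ∈ membersIn S (A ⊔ B), ∀ D₁ ∈ membersIn S (A ⊔ B),
      ∀ D₂ ∈ membersIn S (A ⊔ B), C₁ ≠ C₂ → D₁ ≠ D₂ → ∃ x ∈ N, conjBy C₁ x = D₁ ∧ conjBy C₂ x = D₂ := by
  have hB : B ∈ S := hl.1.1
  obtain ⟨F, hF, hAF, hL⟩ := line_exists hS hA (hNI A hA) (hNI B hB) hl
  obtain ⟨F', hF', hKF', hL'⟩ := line_exists hS hAF.1 (hNI _ hAF.1) (hNI A hA) (line_of_rcc hS hA (hNI A hA) hAF)
  set K := ⁅A, F⁆ with hKdef
  set K' := ⁅K, F'⁆ with hK'def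
  set L := A ⊔ B with hLdef
  have hL2 : L = K ⊔ K' := by rw [hL, sup_comm]; exact hL'
  have hNle : ∀ E ∈ S, E ≤ Subgroup.normalizer (L : Set G) → E ≤ N := by
    intro E hE hEL
    rw [hN]
    exact le_iSup₂_of_le (f := fun (E : Subgroup G) (_ : E ∈ normalizingMembers S L) => E) E ⟨hE, hEL⟩ le_rfl
  have hnorm : ∀ A F : Subgroup G, RootCommutatorCase S A F → F ≤ Subgroup.normalizer ((A ⊔ ⁅A, F⁆ : Subgroup G) : Set G) := by
    intro A F h f hf
    rw [← cj_eq_iff]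
    have hle : ∀ f ∈ F, conjBy (A ⊔ ⁅A, F⁆) f ≤ A ⊔ ⁅A, F⁆ := by
      intro f hf
      rw [cj_sup, sup_le_iff]
      refine ⟨rcc_cj_le h hf, ?_⟩
      rw [cj_cent (D := ⁅A, F⁆) (fun c hc => rcc_comm_right h f hf c hc)]
      exact le_sup_right
    apply le_antisymm (hle f hf)
    have h2 := cj_mono (hle f⁻¹ (F.inv_mem hf)) f
    rwa [cj_mul, mul_inv_cancel, cj_one] at h2
  have hFN : F ≤ N := hNle F hF (by rw [hL]; exact hnorm A F hAF)
  have hF'N : F' ≤ N := hNle F' hF' (by rw [hL2]; exact hnorm K F' hKF')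
  -- one orbit statements
  have horb : ∀ A F : Subgroup G, A ∈ S → RootCommutatorCase S A F → ∀ C ∈ S, C ≤ A ⊔ ⁅A, F⁆ → C ≠ ⁅A, F⁆ →
      ∃ f ∈ F, C = conjBy A f := by
    intro A F hA h C hC hCle hCne
    rcases members hS hA (hNI A hA) h hC hCle with h1 | h1
    · exact absurd h1 hCne
    · exact h1
  have htr1 : ∀ C ∈ membersIn S L, ∀ D ∈ membersIn S L, C ≠ K → D ≠ K → ∃ x ∈ F, conjBy C x = D := by
    rintro C ⟨hC, hCL⟩ D ⟨hD, hDL⟩ hCK hDK
    rw [hL] at hCL hDL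
    obtain ⟨f, hf, rfl⟩ := horb A F hA hAF C hC hCL hCK
    obtain ⟨f', hf', rfl⟩ := horb A F hA hAF D hD hDL hDK
    exact ⟨f' * f⁻¹, F.mul_mem hf' (F.inv_mem hf), by rw [cj_mul]; congr 1; group⟩
  have htr2 : ∀ C ∈ membersIn S L, ∀ D ∈ membersIn S L, C ≠ K' → D ≠ K' → ∃ x ∈ F', conjBy C x = D := by
    rintro C ⟨hC, hCL⟩ D ⟨hD, hDL⟩ hCK hDK
    rw [hL2] at hCL hDL
    obtain ⟨f, hf, rfl⟩ := horb K F' hAF.1 hKF' C hC hCL hCK
    obtain ⟨f', hf', rfl⟩ := horb K F' hAF.1 hKF' D hD hDL hDK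
    exact ⟨f' * f⁻¹, F'.mul_mem hf' (F'.inv_mem hf), by rw [cj_mul]; congr 1; group⟩
  have hKfix : ∀ f ∈ F, conjBy K f = K := fun f hf => cj_cent (fun c hc => rcc_comm_right hAF f hf c hc)
  have hNmem : ∀ x ∈ N, ∀ C ∈ membersIn S L, conjBy C x ∈ membersIn S L := by
    intro x hx C hC
    have h1 : N ≤ Subgroup.normalizer (L : Set G) := by
      rw [hN]
      exact iSup₂_le fun E hE => hE.2
    refine ⟨hS.conj_mem C hC.1 x, ?_⟩
    have h2 := cj_mono hC.2 x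
    rwa [cj_eq_iff.2 (h1 hx)] at h2
  have hKm : K ∈ membersIn S L := ⟨hAF.1, by rw [hL]; exact le_sup_right⟩
  have hK'm : K' ∈ membersIn S L := ⟨hKF'.1, by rw [hL2]; exact le_sup_right⟩
  have hKK' : K ≠ K' := rcc_ne hS hAF.1 hKF'
  -- transitivity: everything conjugate to K
  have htoK : ∀ C ∈ membersIn S L, ∃ x ∈ N, conjBy C x = K := by
    intro C hC
    by_cases h1 : C = K'
    · -- move K' by F to something ≠ K', then by F' to K
      obtain ⟨f, hf, hf1⟩ := exists_ne (hS.ne_bot F hF)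
      have h2 : conjBy K' f ∈ membersIn S L := hNmem f (hFN hf) K' hK'm
      have h3 : conjBy K' f ≠ K' := by
        intro h3
        -- K' = conjBy A f0, so conjBy A (..)=A
        obtain ⟨f0, hf0, hf0e⟩ := horb A F hA hAF K' hKF'.1 (by rw [← hL]; exact hK'm.2) hKK'.symm
        rw [hf0e, cj_mul] at h3
        have h4 : conjBy A (f0⁻¹ * f * f0) = A := by
          have := congrArg (fun C => conjBy C f0⁻¹) h3
          simp only [cj_mul] at this
          rw [inv_mul_cancel, cj_one] at this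
          rw [mul_assoc]; exact this
        have h5 : f0⁻¹ * f * f0 = f := by
          rw [mul_assoc, abel hS hF hf hf0]; group
        rw [h5] at h4
        -- [A,f] ≤ A
        have h6 : ⁅A, F⁆ ≤ A := by
          rw [← hAF.2.2.2 f hf hf1, Subgroup.closure_le]
          rintro _ ⟨x, hx, rfl⟩
          have h7 : f * x⁻¹ * f⁻¹ ∈ conjBy A f := by
            rw [mem_cj]
            have : f⁻¹ * (f * x⁻¹ * f⁻¹) * f = x⁻¹ := by group
            rw [this]; exact A.inv_mem hx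
          rw [h4] at h7
          have := A.mul_mem hx h7
          simpa [mul_assoc] using this
        have h7 := rcc_inf hS hA hAF
        rw [inf_eq_right.2 h6] at h7
        exact hS.ne_bot _ hAF.1 h7
      obtain ⟨x, hx, hxe⟩ := htr2 _ h2 K hKm h3 hKK'
      exact ⟨x * f, mul_mem (hF'N hx) (hFN hf), by rw [h1, ← cj_mul, hxe]⟩
    · obtain ⟨x, hx, hxe⟩ := htr2 C hC K hKm h1 hKK'
      exact ⟨x, hF'N hx, hxe⟩
  intro C₁ h1 C₂ h2 D₁ h3 D₂ h4 hC hD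
  obtain ⟨x, hx, hxe⟩ := htoK C₁ h1
  obtain ⟨y, hy, hye⟩ := htoK D₁ h3
  obtain ⟨f, hf, hfe⟩ := htr1 (conjBy C₂ x) (hNmem x hx C₂ h2) (conjBy D₂ y) (hNmem y hy D₂ h4)
    (by rw [← hxe]; exact fun h => hC (cj_inj h).symm) (by rw [← hye]; exact fun h => hD (cj_inj h).symm)
  refine ⟨y⁻¹ * f * x, mul_mem (mul_mem (inv_mem hy) (hFN hf)) hx, ?_, ?_⟩
  · rw [← cj_mul, ← cj_mul, hxe, hKfix f hf, ← hye, cj_mul, inv_mul_cancel, cj_one]
  · rw [← cj_mul, ← cj_mul, hfe, cj_mul, inv_mul_cancel, cj_one]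

end Cfsg.Agent.H13.RS
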