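import Mathlib
import Cfsg.Prelude.Def_RootSubgroups
import Cfsg.Agent.H13_RO
import Cfsg.Agent.H13_RS
import Cfsg.Agent.H13_RS2
import Cfsg.Agent.H13_RS3
import Cfsg.Agent.H13_RS5
set_option autoImplicit false
set_option linter.all false

namespace Cfsg.Agent.H13.RS

open Cfsg Cfsg.Agent.H13.RO
open scoped commutatorElement

variable {G : Type*} [Group G] {S : Set (Subgroup G)} {A B C D E F K M P Q Y : Subgroup G}

theorem comm_sup_left (hM : P ⊔ Q ≤ Subgroup.normalizer (M : Set G)) (h1 : ⁅P, Y⁆ ≤ M) (h2 : ⁅Q, Y⁆ ≤ M) :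
    ⁅P ⊔ Q, Y⁆ ≤ M := by
  rw [Subgroup.commutator_le]
  intro x hx y hy
  have hx0 := hx
  rw [Subgroup.sup_eq_closure] at hx
  have : x ∈ P ⊔ Q ∧ ⁅x, y⁆ ∈ M := by
    induction hx using Subgroup.closure_induction with
    | mem z hz =>
      rcases hz with hz | hz
      · exact ⟨Subgroup.mem_sup_left hz, h1 (Subgroup.commutator_mem_commutator hz hy)⟩
      · exact ⟨Subgroup.mem_sup_right hz, h2 (Subgroup.commutator_mem_commutator hz hy)⟩
    | one => exact ⟨one_mem _, by rw [commutatorElement_one_left]; exact one_mem _⟩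
    | mul u v hu' hv' hu hv =>
      rw [← Subgroup.sup_eq_closure] at hu' hv'
      have hu := hu hu'
      have hv := hv hv'
      refine ⟨mul_mem hu.1 hv.1, ?_⟩
      have e : ⁅u * v, y⁆ = (u * ⁅v, y⁆ * u⁻¹) * ⁅u, y⁆ := by
        rw [commutatorElement_def, commutatorElement_def, commutatorElement_def]; group
      rw [e]
      exact mul_mem ((Subgroup.mem_normalizer_iff.1 (hM hu.1) _).1 hv.2) hu.2
    | inv u hu' hu =>
      rw [← Subgroup.sup_eq_closure] at hu'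
      have hu := hu hu'
      refine ⟨inv_mem hu.1, ?_⟩
      have e : ⁅u⁻¹, y⁆ = u⁻¹ * ⁅u, y⁆⁻¹ * u⁻¹⁻¹ := by
        rw [commutatorElement_def, commutatorElement_def]; group
      rw [e]
      exact (Subgroup.mem_normalizer_iff.1 (hM (inv_mem hu.1)) _).1 (inv_mem hu.2)
  exact this.2

theorem comm_sup_right (hM : P ⊔ Q ≤ Subgroup.normalizer (M : Set G)) (h1 : ⁅Y, P⁆ ≤ M) (h2 : ⁅Y, Q⁆ ≤ M) :
    ⁅Y, P ⊔ Q⁆ ≤ M := by
  rw [Subgroup.commutator_comm] at h1 h2 ⊢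
  exact comm_sup_left hM h1 h2

theorem comm_sup_sup {P1 P2 Q1 Q2 : Subgroup G} (h11 : ∀ x ∈ P1, ∀ y ∈ Q1, x * y = y * x)
    (h12 : ∀ x ∈ P1, ∀ y ∈ Q2, x * y = y * x) (h21 : ∀ x ∈ P2, ∀ y ∈ Q1, x * y = y * x)
    (h22 : ∀ x ∈ P2, ∀ y ∈ Q2, x * y = y * x) : ∀ x ∈ P1 ⊔ P2, ∀ y ∈ Q1 ⊔ Q2, x * y = y * x := by
  intro x hx y hy
  have h1 : ∀ q ∈ Q1 ⊔ Q2, q ∈ Subgroup.centralizer ((P1 ⊔ P2 : Subgroup G) : Set G) := by
    intro q hq
    have hle : Q1 ⊔ Q2 ≤ Subgroup.centralizer ((P1 ⊔ P2 : Subgroup G) : Set G) := by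
      rw [sup_le_iff]
      constructor
      · intro z hz
        exact cen_sup (fun a ha => h11 a ha z hz) (fun a ha => h21 a ha z hz)
      · intro z hz
        exact cen_sup (fun a ha => h12 a ha z hz) (fun a ha => h22 a ha z hz)
    exact hle hq
  exact cen_iff.1 (h1 y hy) x hx

structure Tri (S : Set (Subgroup G)) (A B C : Subgroup G) : Prop where
  hS : IsRootSubgroupSet S
  hA : A ∈ S
  hB : B ∈ S
  hC : C ∈ S
  rA : RootCommutatorCase S A B
  rC : RootCommutatorCase S C B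
  cAC : ∀ a ∈ A, ∀ c ∈ C, a * c = c * a

namespace Tri

theorem symm (h : Tri S A B C) : Tri S C B A :=
  ⟨h.hS, h.hC, h.hB, h.hA, h.rC, h.rA, fun c hc a ha => (h.cAC a ha c hc).symm⟩

theorem abelAD (hS : IsRootSubgroupSet S) (hA : A ∈ S) (r : RootCommutatorCase S A B) :
    ∀ x ∈ A ⊔ ⁅A, B⁆, ∀ y ∈ A ⊔ ⁅A, B⁆, x * y = y * x :=
  comm_sup_sup (fun x hx y hy => abel hS hA hx hy) (rcc_comm_left r)
    (fun x hx y hy => (rcc_comm_left r y hy x hx).symm) (fun x hx y hy => abel hS r.1 hx hy)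

theorem commAAb (h : Tri S A B C) {β : G} (hβ : β ∈ B) : ∀ a ∈ A, ∀ x ∈ conjBy A β, a * x = x * a :=
  fun a ha x hx => abelAD h.hS h.hA h.rA a (Subgroup.mem_sup_left ha) x (rcc_cj_le h.rA hβ hx)

theorem commCb (h : Tri S A B C) {β : G} : ∀ a ∈ conjBy A β, ∀ c ∈ conjBy C β, a * c = c * a := by
  intro a ha c hc
  rw [mem_cj] at ha hc
  have := h.cAC _ ha _ hc
  calc a * c = β * ((β⁻¹ * a * β) * (β⁻¹ * c * β)) * β⁻¹ := by group
    _ = β * ((β⁻¹ * c * β) * (β⁻¹ * a * β)) * β⁻¹ := by rw [this]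
    _ = c * a := by group

/-- `[N₁, N₂] = 1` -/
theorem N12 (h : Tri S A B C) {β : G} (hβ : β ∈ B) :
    ∀ x ∈ A ⊔ conjBy C β, ∀ y ∈ conjBy A β ⊔ C, x * y = y * x :=
  comm_sup_sup (h.commAAb hβ) h.cAC (fun x hx y hy => (h.commCb y hy x hx).symm)
    (fun x hx y hy => (h.symm.commAAb hβ y hy x hx).symm)

theorem not_rank (h : Tri S A B C) {β : G} (hβ : β ∈ B) : ¬ IsRankOnePair A (conjBy C β) := by
  intro hr
  obtain ⟨c, hc, hc1⟩ := exists_ne (h.hS.ne_bot C h.hC)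
  have hcβ : β * c * β⁻¹ ∈ conjBy C β := by
    rw [mem_cj]
    have : β⁻¹ * (β * c * β⁻¹) * β = c := by group
    rwa [this]
  have hcβ1 : β * c * β⁻¹ ≠ 1 := by
    intro h1
    apply hc1
    have : c = β⁻¹ * (β * c * β⁻¹) * β := by group
    rw [this, h1]; group
  have h1 := not_root h.hS (h.hS.conj_mem C h.hC β) h.hA (RO.symm hr) (z := c⁻¹)
    (cen_sup (fun x hx => by
      have : Commute x c := (h.symm.commAAb hβ c hc x hx).symm
      exact this.inv_right) (fun a ha => by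
      have : Commute a c := h.cAC a ha c hc
      exact this.inv_right)) hcβ hcβ1 h.rC.1 (by
      have e : c⁻¹ * (β * c * β⁻¹) = ⁅c⁻¹, β⁆ := by rw [commutatorElement_def]; group
      rw [e]
      exact Subgroup.commutator_mem_commutator (C.inv_mem hc) hβ)
  exact hc1 (inv_eq_one.1 h1.1)

theorem cases (h : Tri S A B C) {β : G} (hβ : β ∈ B) :
    ⁅A, conjBy C β⁆ = ⊥ ∨ RootCommutatorCase S A (conjBy C β) := by
  rcases h.hS.pair A h.hA _ (h.hS.conj_mem C h.hC β) with h1 | h1 | h1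
  · exact Or.inl h1
  · exact absurd h1 (h.not_rank hβ)
  · exact Or.inr h1

theorem supC (h : Tri S A B C) {β : G} (hβ : β ∈ B) (hβ1 : β ≠ 1) : C ⊔ conjBy C β = C ⊔ ⁅C, B⁆ :=
  sup_cj_eq h.rC hβ hβ1

/-- `K₁` commutes with everything in `N₁` and `N₂`. -/
theorem K1_cen (h : Tri S A B C) {β : G} (hβ : β ∈ B) {k : G} (hk : k ∈ ⁅A, conjBy C β⁆) :
    (∀ x ∈ A ⊔ conjBy C β, k * x = x * k) ∧ (∀ x ∈ conjBy A β ⊔ C, k * x = x * k) := by
  constructor
  · rcases h.cases hβ with h1 | h1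
    · rw [h1, Subgroup.mem_bot] at hk
      intro x hx
      rw [hk, mul_one, one_mul]
    · exact fun x hx => h1.2.1 k hk x hx
  · intro x hx
    have hle : ⁅A, conjBy C β⁆ ≤ A ⊔ conjBy C β := by
      rw [Subgroup.commutator_le]
      intro x hx y hy
      exact mul_mem (mul_mem (mul_mem (Subgroup.mem_sup_left hx) (Subgroup.mem_sup_right hy))
        (inv_mem (Subgroup.mem_sup_left hx))) (inv_mem (Subgroup.mem_sup_right hy))
    exact h.N12 hβ k (hle hk) x hx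

/-- `K₁(β) = [A, C [C,B]]`, independent of β -/
theorem K1_eq (h : Tri S A B C) {β : G} (hβ : β ∈ B) (hβ1 : β ≠ 1) :
    ⁅A, conjBy C β⁆ = ⁅A, C ⊔ ⁅C, B⁆⁆ := by
  apply le_antisymm
  · apply Subgroup.commutator_mono le_rfl
    exact rcc_cj_le h.rC hβ
  · rw [Subgroup.commutator_le]
    intro a ha y hy
    rw [← h.supC hβ hβ1] at hy
    obtain ⟨c, hc, x, hx, rfl⟩ := mem_sup_comm (h.symm.commAAb hβ) hy
    have hk : ⁅a, x⁆ ∈ ⁅A, conjBy C β⁆ := Subgroup.commutator_mem_commutator ha hx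
    have e1 := h.cAC a ha c hc
    have e2 := (h.K1_cen hβ hk).2 c (Subgroup.mem_sup_right hc)
    have e3 : ⁅a, c * x⁆ = ⁅a, x⁆ := by
      calc ⁅a, c * x⁆ = (a * c) * x * a⁻¹ * x⁻¹ * c⁻¹ := by rw [commutatorElement_def]; group
        _ = c * ⁅a, x⁆ * c⁻¹ := by rw [e1, commutatorElement_def]; group
        _ = ⁅a, x⁆ := by rw [← e2]; group
    rw [e3]; exact hk

theorem K2_eq (h : Tri S A B C) {β : G} (hβ : β ∈ B) (hβ1 : β ≠ 1) :
    ⁅C, A ⊔ ⁅A, B⁆⁆ = conjBy ⁅A, C ⊔ ⁅C, B⁆⁆ β := by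
  rw [← h.symm.K1_eq hβ hβ1, ← h.K1_eq (B.inv_mem hβ) (inv_ne_one.2 hβ1), cj_comm, cj_mul, mul_inv_cancel, cj_one,
    Subgroup.commutator_comm]

theorem hK (h : Tri S A B C) (β : G) (hβ : β ∈ B) (hβ1 : β ≠ 1) :
    conjBy ⁅A, C ⊔ ⁅C, B⁆⁆ β = ⁅C, A ⊔ ⁅A, B⁆⁆ ∧ conjBy ⁅C, A ⊔ ⁅A, B⁆⁆ β = ⁅A, C ⊔ ⁅C, B⁆⁆ :=
  ⟨(h.K2_eq hβ hβ1).symm, (h.symm.K2_eq hβ hβ1).symm⟩

/-- trivial iff trivial -/
theorem bot_iff (h : Tri S A B C) {β : G} (hβ : β ∈ B) (hβ1 : β ≠ 1) :
    ⁅A, conjBy C β⁆ = ⊥ ↔ ⁅C, conjBy A β⁆ = ⊥ := by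
  rw [h.K1_eq hβ hβ1, h.symm.K1_eq hβ hβ1, ← (h.hK β hβ hβ1).1, cj_eq_bot]

theorem le_norm_of {P M : Subgroup G} (h : ∀ x ∈ P, ∀ m ∈ M, x * m * x⁻¹ ∈ M) :
    P ≤ Subgroup.normalizer (M : Set G) := by
  intro x hx
  rw [Subgroup.mem_normalizer_iff]
  intro m
  refine ⟨fun hm => h x hx m hm, fun hm => ?_⟩
  have := h x⁻¹ (P.inv_mem hx) _ hm
  have e : x⁻¹ * (x * m * x⁻¹) * x⁻¹⁻¹ = m := by group
  rwa [e] at this

theorem norm_of_cent {P M : Subgroup G} (h : ∀ x ∈ P, ∀ m ∈ M, x * m = m * x) :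
    P ≤ Subgroup.normalizer (M : Set G) :=
  le_norm_of (fun x hx m hm => by rw [h x hx m hm]; simpa using hm)

theorem norm_sup {P M N : Subgroup G} (h1 : P ≤ Subgroup.normalizer (M : Set G))
    (h2 : P ≤ Subgroup.normalizer (N : Set G)) : P ≤ Subgroup.normalizer ((M ⊔ N : Subgroup G) : Set G) := by
  intro x hx
  rw [← cj_eq_iff, cj_sup, cj_eq_iff.2 (h1 hx), cj_eq_iff.2 (h2 hx)]

variable {β : G}

/-- the group `L` -/
def LL (A B C : Subgroup G) : Subgroup G := (A ⊔ ⁅A, B⁆) ⊔ (C ⊔ ⁅C, B⁆)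
/-- the group `K` -/
def KK (A B C : Subgroup G) : Subgroup G := ⁅A, C ⊔ ⁅C, B⁆⁆ ⊔ ⁅C, A ⊔ ⁅A, B⁆⁆

theorem L_eq (h : Tri S A B C) (hβ : β ∈ B) (hβ1 : β ≠ 1) :
    (A ⊔ conjBy C β) ⊔ (conjBy A β ⊔ C) = LL A B C := by
  have e1 := h.supC hβ hβ1
  have e2 := h.symm.supC hβ hβ1
  rw [LL, ← e1, ← e2]
  apply le_antisymm
  · refine sup_le (sup_le (le_sup_of_le_left le_sup_left) (le_sup_of_le_right le_sup_right))
      (sup_le (le_sup_of_le_left le_sup_right) (le_sup_of_le_right le_sup_left))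
  · refine sup_le (sup_le (le_sup_of_le_left le_sup_left) (le_sup_of_le_right le_sup_left))
      (sup_le (le_sup_of_le_right le_sup_right) (le_sup_of_le_left le_sup_right))

theorem K1_le_L (h : Tri S A B C) : ⁅A, C ⊔ ⁅C, B⁆⁆ ≤ LL A B C := by
  rw [Subgroup.commutator_le]
  intro x hx y hy
  have h1 : x ∈ LL A B C := Subgroup.mem_sup_left (Subgroup.mem_sup_left hx)
  have h2 : y ∈ LL A B C := Subgroup.mem_sup_right hy
  exact mul_mem (mul_mem (mul_mem h1 h2) (inv_mem h1)) (inv_mem h2)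

theorem LL_symm : LL C B A = LL A B C := sup_comm _ _
theorem KK_symm : KK C B A = KK A B C := sup_comm _ _

theorem KK_le (h : Tri S A B C) : KK A B C ≤ LL A B C := by
  refine sup_le h.K1_le_L ?_
  rw [← LL_symm]
  exact h.symm.K1_le_L

theorem K1_L (h : Tri S A B C) (hβ : β ∈ B) (hβ1 : β ≠ 1) :
    ∀ x ∈ LL A B C, ∀ k ∈ ⁅A, C ⊔ ⁅C, B⁆⁆, x * k = k * x := by
  intro x hx k hk
  rw [← h.K1_eq hβ hβ1] at hk
  rw [← h.L_eq hβ hβ1] at hx
  have h1 := h.K1_cen hβ hk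
  have h2 := cen_sup (x := k) (fun a ha => (h1.1 a ha).symm) (fun a ha => (h1.2 a ha).symm)
  exact cen_iff.1 h2 x hx

theorem KK_L (h : Tri S A B C) (hβ : β ∈ B) (hβ1 : β ≠ 1) :
    ∀ x ∈ LL A B C, ∀ k ∈ KK A B C, x * k = k * x := by
  intro x hx k hk
  have : KK A B C ≤ Subgroup.centralizer {x} := by
    rw [KK, sup_le_iff]
    constructor
    · intro k hk
      rw [Subgroup.mem_centralizer_iff]
      intro u hu
      rw [Set.mem_singleton_iff.1 hu]
      exact h.K1_L hβ hβ1 x hx k hk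
    · intro k hk
      rw [Subgroup.mem_centralizer_iff]
      intro u hu
      rw [Set.mem_singleton_iff.1 hu]
      exact h.symm.K1_L hβ hβ1 x (by rw [LL_symm]; exact hx) k hk
  have h2 := this hk
  rw [Subgroup.mem_centralizer_iff] at h2
  exact h2 x rfl

theorem LL_comm (h : Tri S A B C) (hβ : β ∈ B) (hβ1 : β ≠ 1) : ⁅LL A B C, LL A B C⁆ ≤ KK A B C := by
  have hn : LL A B C ≤ Subgroup.normalizer ((KK A B C : Subgroup G) : Set G) :=
    norm_of_cent (h.KK_L hβ hβ1)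
  have hAD : A ⊔ ⁅A, B⁆ ≤ LL A B C := le_sup_left
  have hCE : C ⊔ ⁅C, B⁆ ≤ LL A B C := le_sup_right
  have bot_le' : ∀ P Q : Subgroup G, (∀ x ∈ P, ∀ y ∈ Q, x * y = y * x) → ⁅P, Q⁆ ≤ KK A B C := by
    intro P Q hPQ
    rw [comm_iff.2 hPQ]; exact bot_le
  have h1 : ⁅A ⊔ ⁅A, B⁆, C ⊔ ⁅C, B⁆⁆ ≤ KK A B C := by
    apply comm_sup_left (hAD.trans hn)
    · exact le_sup_left
    · -- ⁅D, C ⊔ E⁆ : D ≤ A ⊔ A^β... use rotation: D, E commute? via sup
      apply comm_sup_right (hCE.trans hn)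
      · rw [Subgroup.commutator_comm]
        exact (Subgroup.commutator_mono le_rfl le_sup_right).trans le_sup_right
      · -- D ≤ A ⊔ A^β, E ≤ C ⊔ C^β
        have e1 := h.supC hβ hβ1
        have e2 := h.symm.supC hβ hβ1
        have hD : ⁅A, B⁆ ≤ A ⊔ conjBy A β := by rw [e2]; exact le_sup_right
        have hE : ⁅C, B⁆ ≤ C ⊔ conjBy C β := by rw [e1]; exact le_sup_right
        refine (Subgroup.commutator_mono hD hE).trans ?_
        have hAb : A ⊔ conjBy A β ≤ LL A B C := by rw [e2]; exact le_sup_left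
        have hCb : C ⊔ conjBy C β ≤ LL A B C := by rw [e1]; exact le_sup_right
        apply comm_sup_left (hAb.trans hn)
        · apply comm_sup_right (hCb.trans hn)
          · exact bot_le' _ _ h.cAC
          · rw [h.K1_eq hβ hβ1]; exact le_sup_left
        · apply comm_sup_right (hCb.trans hn)
          · rw [Subgroup.commutator_comm, h.symm.K1_eq hβ hβ1]; exact le_sup_right
          · exact bot_le' _ _ h.commCb
  have h2 : ⁅A ⊔ ⁅A, B⁆, A ⊔ ⁅A, B⁆⁆ ≤ KK A B C := bot_le' _ _ (abelAD h.hS h.hA h.rA)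
  have h3 : ⁅C ⊔ ⁅C, B⁆, C ⊔ ⁅C, B⁆⁆ ≤ KK A B C := bot_le' _ _ (abelAD h.hS h.hC h.rC)
  show ⁅(A ⊔ ⁅A, B⁆) ⊔ (C ⊔ ⁅C, B⁆), (A ⊔ ⁅A, B⁆) ⊔ (C ⊔ ⁅C, B⁆)⁆ ≤ KK A B C
  apply comm_sup_left hn
  · exact comm_sup_right hn h2 h1
  · apply comm_sup_right hn
    · rw [Subgroup.commutator_comm]; exact h1
    · exact h3

theorem B_norm_K (h : Tri S A B C) : B ≤ Subgroup.normalizer ((KK A B C : Subgroup G) : Set G) := by
  intro b hb
  rw [← cj_eq_iff]
  by_cases hb1 : b = 1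
  · rw [hb1, cj_one]
  · have := h.hK b hb hb1
    rw [KK, cj_sup, this.1, this.2, sup_comm]

theorem B_norm_L (h : Tri S A B C) : B ≤ Subgroup.normalizer ((LL A B C : Subgroup G) : Set G) := by
  have key : ∀ A : Subgroup G, RootCommutatorCase S A B → B ≤ Subgroup.normalizer ((A ⊔ ⁅A, B⁆ : Subgroup G) : Set G) := by
    intro A rA
    apply le_norm_of
    intro x hx m hm
    have hle : conjBy (A ⊔ ⁅A, B⁆) x ≤ A ⊔ ⁅A, B⁆ := by
      rw [cj_sup, sup_le_iff]
      refine ⟨rcc_cj_le rA hx, ?_⟩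
      rw [cj_cent (D := ⁅A, B⁆) (fun c hc => rcc_comm_right rA x hx c hc)]
      exact le_sup_right
    apply hle
    rw [mem_cj]
    have : x⁻¹ * (x * m * x⁻¹) * x = m := by group
    rwa [this]
  exact norm_sup (key A h.rA) (key C h.rC)

theorem R_norm_L (h : Tri S A B C) : A ⊔ B ⊔ C ≤ Subgroup.normalizer ((LL A B C : Subgroup G) : Set G) := by
  have hA : A ≤ LL A B C := le_sup_left.trans le_sup_left
  have hC : C ≤ LL A B C := le_sup_left.trans le_sup_right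
  exact sup_le (sup_le (hA.trans Subgroup.le_normalizer) h.B_norm_L) (hC.trans Subgroup.le_normalizer)

theorem L_sup_B (h : Tri S A B C) : LL A B C ⊔ B = A ⊔ B ⊔ C := by
  have hcomm : ∀ P : Subgroup G, ⁅P, B⁆ ≤ P ⊔ B := by
    intro P
    rw [Subgroup.commutator_le]
    intro x hx y hy
    exact mul_mem (mul_mem (mul_mem (Subgroup.mem_sup_left hx) (Subgroup.mem_sup_right hy))
      (inv_mem (Subgroup.mem_sup_left hx))) (inv_mem (Subgroup.mem_sup_right hy))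
  have hA : A ≤ A ⊔ B ⊔ C := le_sup_left.trans le_sup_left
  have hB : B ≤ A ⊔ B ⊔ C := le_sup_right.trans le_sup_left
  have hC : C ≤ A ⊔ B ⊔ C := le_sup_right
  apply le_antisymm
  · refine sup_le (sup_le (sup_le hA ((hcomm A).trans (sup_le hA hB))) (sup_le hC ((hcomm C).trans (sup_le hC hB)))) hB
  · exact sup_le (sup_le (le_sup_of_le_left (le_sup_left.trans le_sup_left)) le_sup_right)
      (le_sup_of_le_left (le_sup_left.trans le_sup_right))

/-- `[K, B, B] = 1` -/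
theorem KBB (h : Tri S A B C) (hβ : β ∈ B) (hβ1 : β ≠ 1) : ⁅⁅KK A B C, B⁆, B⁆ = ⊥ := by
  rcases h.cases hβ with h0 | h0
  · -- K = ⊥
    have h1 : ⁅A, C ⊔ ⁅C, B⁆⁆ = ⊥ := by rw [← h.K1_eq hβ hβ1]; exact h0
    have h2 : ⁅C, A ⊔ ⁅A, B⁆⁆ = ⊥ := by rw [← (h.hK β hβ hβ1).1, h1, cj_eq_bot]
    rw [KK, h1, h2, bot_sup_eq, Subgroup.commutator_bot_left, Subgroup.commutator_bot_left]
  · have hK1S : ⁅A, C ⊔ ⁅C, B⁆⁆ ∈ S := by rw [← h.K1_eq hβ hβ1]; exact h0.1
    by_cases hB2 : ∃ x ∈ B, ∃ y ∈ B, x ≠ 1 ∧ y ≠ 1 ∧ x * y ≠ 1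
    · obtain ⟨x, hx, y, hy, hx1, hy1, hxy⟩ := hB2
      have h12 : ⁅A, C ⊔ ⁅C, B⁆⁆ = ⁅C, A ⊔ ⁅A, B⁆⁆ := by
        have e1 := (h.hK (x * y) (B.mul_mem hx hy) hxy).1
        rw [← cj_mul, (h.hK y hy hy1).1, (h.hK x hx hx1).2] at e1
        exact e1
      have hKK : KK A B C = ⁅A, C ⊔ ⁅C, B⁆⁆ := by rw [KK, ← h12, sup_idem]
      have hnorm := h.B_norm_K
      rw [hKK] at hnorm ⊢
      have : ⁅⁅A, C ⊔ ⁅C, B⁆⁆, B⁆ = ⊥ := by
        rcases h.hS.pair _ hK1S B h.hB with h1 | h1 | h1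
        · exact h1
        · exact absurd (eq_one (RO.symm h1) hβ (cj_eq_iff.2 (hnorm hβ))) hβ1
        · exfalso
          have h2 : ⁅⁅A, C ⊔ ⁅C, B⁆⁆, B⁆ ≤ ⁅A, C ⊔ ⁅C, B⁆⁆ := by
            rw [Subgroup.commutator_le]
            intro u hu v hv
            have h3 := (Subgroup.mem_normalizer_iff.1 (hnorm hv) u⁻¹).1 (inv_mem hu)
            have e : ⁅u, v⁆ = u * (v * u⁻¹ * v⁻¹) := by rw [commutatorElement_def]; group
            rw [e]
            exact mul_mem hu h3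
          have h3 := rcc_inf h.hS hK1S h1
          rw [inf_eq_right.2 h2] at h3
          exact h.hS.ne_bot _ h1.1 h3
      rw [this, Subgroup.commutator_bot_left]
    · push Not at hB2
      have hββ : β * β = 1 := hB2 β hβ β hβ hβ1 hβ1
      have hBel : ∀ x ∈ B, x = 1 ∨ x = β := by
        intro x hx
        by_cases hx1 : x = 1
        · exact Or.inl hx1
        · right
          have := hB2 x hx β hβ hx1 hβ1
          rw [← hββ] at this
          exact mul_right_cancel this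
      have hBsq : ∀ x ∈ B, x * x = 1 := by
        intro x hx
        rcases hBel x hx with rfl | rfl
        · simp
        · exact hββ
      -- exponent 2
      have hEsq : ∀ e ∈ ⁅C, B⁆, e * e = 1 := by
        intro e he
        obtain ⟨c, hc, hc1⟩ := exists_ne (h.hS.ne_bot C h.hC)
        obtain ⟨b, hb, rfl⟩ := rcc_surj h.rC hc hc1 he
        rw [← rcc_mul_right h.rC hc hb hb, hBsq b hb, commutatorElement_one_right]
      have hK1sq : ∀ k ∈ ⁅A, C ⊔ ⁅C, B⁆⁆, k * k = 1 := by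
        intro k hk
        rw [← h.K1_eq hβ hβ1] at hk
        obtain ⟨a, ha, ha1⟩ := exists_ne (h.hS.ne_bot A h.hA)
        obtain ⟨x, hx, rfl⟩ := rcc_surj h0 ha ha1 hk
        have hcent : ∀ l ∈ LL A B C, ∀ k ∈ ⁅A, C ⊔ ⁅C, B⁆⁆, l * k = k * l := h.K1_L hβ hβ1
        have hxy : ∀ u ∈ C ⊔ ⁅C, B⁆, ∀ v ∈ C ⊔ ⁅C, B⁆, ⁅a, u * v⁆ = ⁅a, u⁆ * ⁅a, v⁆ := by
          intro u hu v hv
          have e1 := hcent u (Subgroup.mem_sup_right hu) ⁅a, v⁆ (Subgroup.commutator_mem_commutator ha hv)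
          have e2 : ⁅a, u * v⁆ = ⁅a, u⁆ * (u * ⁅a, v⁆ * u⁻¹) := by
            rw [commutatorElement_def, commutatorElement_def, commutatorElement_def]; group
          rw [e2, e1]; group
        rw [mem_cj] at hx
        set c := β⁻¹ * x * β with hc
        have hxe : x = ⁅β, c⁆ * c := by rw [commutatorElement_def, hc]; group
        have he : ⁅β, c⁆ ∈ ⁅C, B⁆ := by
          rw [Subgroup.commutator_comm]
          exact Subgroup.commutator_mem_commutator hβ hx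
        have hac : ⁅a, c⁆ = 1 := by
          rw [commutatorElement_eq_one_iff_mul_comm]; exact h.cAC a ha c hx
        rw [hxe, hxy _ (Subgroup.mem_sup_right he) _ (Subgroup.mem_sup_left hx), hac, mul_one,
          ← hxy _ (Subgroup.mem_sup_right he) _ (Subgroup.mem_sup_right he), hEsq _ he, commutatorElement_one_right]
      have hK2sq : ∀ k ∈ ⁅C, A ⊔ ⁅A, B⁆⁆, k * k = 1 := by
        intro k hk
        rw [← (h.hK β hβ hβ1).1, mem_cj] at hk
        have := hK1sq _ hk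
        have e : k * k = β * ((β⁻¹ * k * β) * (β⁻¹ * k * β)) * β⁻¹ := by group
        rw [e, this]; group
      have hKc : ∀ x ∈ KK A B C, ∀ y ∈ KK A B C, x * y = y * x :=
        fun x hx y hy => h.KK_L hβ hβ1 x (h.KK_le hx) y hy
      have hKsq : ∀ k ∈ KK A B C, k * k = 1 := by
        intro k hk
        obtain ⟨x, hx, y, hy, rfl⟩ := mem_sup_comm (fun a ha c hc => hKc a (Subgroup.mem_sup_left ha) c
          (Subgroup.mem_sup_right hc)) hk
        have e := hKc x (Subgroup.mem_sup_left hx) y (Subgroup.mem_sup_right hy)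
        calc x * y * (x * y) = x * (y * x) * y := by group
          _ = (x * x) * (y * y) := by rw [← e]; group
          _ = 1 := by rw [hK1sq x hx, hK2sq y hy, one_mul]
      have hnorm := h.B_norm_K
      have hle : ⁅KK A B C, B⁆ ≤ Subgroup.centralizer {β} := by
        rw [Subgroup.commutator_le]
        intro k hk b hb
        rw [Subgroup.mem_centralizer_iff]
        intro u hu
        rw [Set.mem_singleton_iff.1 hu]
        rcases hBel b hb with rfl | rfl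
        · rw [commutatorElement_one_right]; simp
        · -- b = β
          have hkb : b * k * b⁻¹ ∈ KK A B C := (Subgroup.mem_normalizer_iff.1 (hnorm hb) k).1 hk
          have hbi : b⁻¹ = b := by rw [inv_eq_iff_mul_eq_one]; exact hββ
          have hki : k⁻¹ = k := by rw [inv_eq_iff_mul_eq_one]; exact hKsq k hk
          have e1 : ⁅k, b⁆ = k * (b * k * b⁻¹) := by
            have : ⁅k, b⁆ = k * (b * k⁻¹ * b⁻¹) := by rw [commutatorElement_def]; group
            rw [this, hki]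
          have e2 := hKc k hk _ hkb
          rw [e1]
          calc b * (k * (b * k * b⁻¹)) = (b * k * b⁻¹) * k * b := by simp only [hbi, mul_assoc]
            _ = k * (b * k * b⁻¹) * b := by rw [e2]
      rw [comm_iff]
      intro x hx b hb
      rcases hBel b hb with rfl | rfl
      · simp
      · have h2 := hle hx
        rw [Subgroup.mem_centralizer_iff] at h2
        exact (h2 b rfl).symm

theorem nilp (h : Tri S A B C) (hβ : β ∈ B) (hβ1 : β ≠ 1) : Group.IsNilpotent ↥(A ⊔ B ⊔ C) := by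
  set R := A ⊔ B ⊔ C with hR
  set L := LL A B C with hL
  set K := KK A B C with hKd
  have hLc := h.LL_comm hβ hβ1
  have hAL : A ≤ L := le_sup_left.trans le_sup_left
  have hDL : ⁅A, B⁆ ≤ L := le_sup_right.trans le_sup_left
  have hCL : C ≤ L := le_sup_left.trans le_sup_right
  have hEL : ⁅C, B⁆ ≤ L := le_sup_right.trans le_sup_right
  have hKL : K ≤ L := h.KK_le
  have hRL : R ≤ Subgroup.normalizer (L : Set G) := h.R_norm_L
  have hLR : ∀ x ∈ L, ∀ k ∈ K, x * k = k * x := h.KK_L hβ hβ1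
  have hRK : R ≤ Subgroup.normalizer (K : Set G) :=
    sup_le (sup_le (hAL.trans (norm_of_cent hLR)) h.B_norm_K) (hCL.trans (norm_of_cent hLR))
  have cDB : ⁅⁅A, B⁆, B⁆ = ⊥ := comm_iff.2 (fun x hx y hy => (rcc_comm_right h.rA y hy x hx).symm)
  have cEB : ⁅⁅C, B⁆, B⁆ = ⊥ := comm_iff.2 (fun x hx y hy => (rcc_comm_right h.rC y hy x hx).symm)
  have cBB : ⁅B, B⁆ = ⊥ := comm_iff.2 (fun x hx y hy => abel h.hS h.hB hx hy)
  set M := ⁅A, B⁆ ⊔ ⁅C, B⁆ ⊔ K with hM
  have hML : M ≤ L := sup_le (sup_le hDL hEL) hKL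
  have hLM : L ≤ Subgroup.normalizer (M : Set G) := by
    apply le_norm_of
    intro x hx m hm
    have e : x * m * x⁻¹ = ⁅x, m⁆ * m := by rw [commutatorElement_def]; group
    rw [e]
    exact mul_mem (Subgroup.mem_sup_right (hLc (Subgroup.commutator_mem_commutator hx (hML hm)))) hm
  have hBM : B ≤ Subgroup.normalizer (M : Set G) := by
    refine norm_sup (norm_sup ?_ ?_) h.B_norm_K
    · exact norm_of_cent (rcc_comm_right h.rA)
    · exact norm_of_cent (rcc_comm_right h.rC)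
  have hRM : R ≤ Subgroup.normalizer (M : Set G) := sup_le (sup_le (hAL.trans hLM) hBM) (hCL.trans hLM)
  set K' := ⁅K, B⁆ with hK'
  have hK'K : K' ≤ K := by
    rw [hK', Subgroup.commutator_le]
    intro u hu v hv
    have h3 := (Subgroup.mem_normalizer_iff.1 (h.B_norm_K hv) u⁻¹).1 (inv_mem hu)
    have e : ⁅u, v⁆ = u * (v * u⁻¹ * v⁻¹) := by rw [commutatorElement_def]; group
    rw [e]
    exact mul_mem hu h3
  have hRK' : R ≤ Subgroup.normalizer (K' : Set G) := by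
    refine sup_le (sup_le ?_ ?_) ?_
    · exact norm_of_cent (fun x hx k hk => hLR x (hAL hx) k (hK'K hk))
    · exact Subgroup.normalizer_commutator_ge_right _ _
    · exact norm_of_cent (fun x hx k hk => hLR x (hCL hx) k (hK'K hk))
  have hABle : A ⊔ B ≤ R := le_sup_left
  -- chain
  have s1 : ⁅R, R⁆ ≤ L := by
    have aux : ∀ Y : Subgroup G, ⁅A, Y⁆ ≤ L → ⁅B, Y⁆ ≤ L → ⁅C, Y⁆ ≤ L → ⁅R, Y⁆ ≤ L :=
      fun Y h1 h2 h3 => comm_sup_left hRL (comm_sup_left (hABle.trans hRL) h1 h2) h3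
    have hLL : ∀ P Q : Subgroup G, P ≤ L → Q ≤ L → ⁅P, Q⁆ ≤ L := fun P Q hP hQ =>
      (Subgroup.commutator_mono hP hQ).trans (hLc.trans hKL)
    apply aux
    · rw [Subgroup.commutator_comm]
      exact aux A (hLL _ _ hAL hAL) (by rw [Subgroup.commutator_comm]; exact hDL) (hLL _ _ hCL hAL)
    · rw [Subgroup.commutator_comm]
      exact aux B hDL (by rw [cBB]; exact bot_le) hEL
    · rw [Subgroup.commutator_comm]
      exact aux C (hLL _ _ hAL hCL) (by rw [Subgroup.commutator_comm]; exact hEL) (hLL _ _ hCL hCL)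
  have s2 : ⁅L, R⁆ ≤ M := by
    have hLLM : ⁅L, L⁆ ≤ M := hLc.trans le_sup_right
    apply comm_sup_right hRM
    · apply comm_sup_right (hABle.trans hRM)
      · exact (Subgroup.commutator_mono le_rfl hAL).trans hLLM
      · show ⁅(A ⊔ ⁅A, B⁆) ⊔ (C ⊔ ⁅C, B⁆), B⁆ ≤ M
        have hADL : A ⊔ ⁅A, B⁆ ≤ L := le_sup_left
        have hCEL : C ⊔ ⁅C, B⁆ ≤ L := le_sup_right
        apply comm_sup_left hLM
        · apply comm_sup_left (hADL.trans hLM)
          · exact le_sup_left.trans le_sup_left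
          · rw [cDB]; exact bot_le
        · apply comm_sup_left (hCEL.trans hLM)
          · exact le_sup_right.trans le_sup_left
          · rw [cEB]; exact bot_le
    · exact (Subgroup.commutator_mono le_rfl hCL).trans hLLM
  have s3 : ⁅M, R⁆ ≤ K := by
    apply comm_sup_right hRK
    · apply comm_sup_right (hABle.trans hRK)
      · exact (Subgroup.commutator_mono hML hAL).trans hLc
      · show ⁅⁅A, B⁆ ⊔ ⁅C, B⁆ ⊔ K, B⁆ ≤ K
        have hLK : L ≤ Subgroup.normalizer (K : Set G) := norm_of_cent hLR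
        apply comm_sup_left (hML.trans hLK)
        · apply comm_sup_left ((sup_le hDL hEL).trans hLK)
          · rw [cDB]; exact bot_le
          · rw [cEB]; exact bot_le
        · exact hK'K
    · exact (Subgroup.commutator_mono hML hCL).trans hLc
  have cKA : ⁅K, A⁆ = ⊥ := comm_iff.2 (fun x hx y hy => (hLR y (hAL hy) x hx).symm)
  have cKC : ⁅K, C⁆ = ⊥ := comm_iff.2 (fun x hx y hy => (hLR y (hCL hy) x hx).symm)
  have s4 : ⁅K, R⁆ ≤ K' := by
    apply comm_sup_right hRK'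
    · apply comm_sup_right (hABle.trans hRK')
      · rw [cKA]; exact bot_le
      · exact le_rfl
    · rw [cKC]; exact bot_le
  have s5 : ⁅K', R⁆ ≤ ⊥ := by
    have hb : R ≤ Subgroup.normalizer ((⊥ : Subgroup G) : Set G) := by
      apply norm_of_cent
      intro x _ m hm
      rw [Subgroup.mem_bot.1 hm]; simp
    apply comm_sup_right hb
    · apply comm_sup_right (hABle.trans hb)
      · exact (Subgroup.commutator_mono hK'K le_rfl).trans (by rw [cKA])
      · rw [h.KBB hβ hβ1]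
    · exact (Subgroup.commutator_mono hK'K le_rfl).trans (by rw [cKC])
  have t1 : R.lowerCentralSeries 1 ≤ L := s1
  have t2 : R.lowerCentralSeries 2 ≤ M := (Subgroup.commutator_mono t1 le_rfl).trans s2
  have t3 : R.lowerCentralSeries 3 ≤ K := (Subgroup.commutator_mono t2 le_rfl).trans s3
  have t4 : R.lowerCentralSeries 4 ≤ K' := (Subgroup.commutator_mono t3 le_rfl).trans s4
  have t5 : R.lowerCentralSeries 5 ≤ ⊥ := (Subgroup.commutator_mono t4 le_rfl).trans s5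
  exact Subgroup.isNilpotent_of_lowerCentralSeries_eq_bot (le_bot_iff.1 t5)

theorem isComm_iff {P : Subgroup G} : IsMulCommutative ↥P ↔ ∀ x ∈ P, ∀ y ∈ P, x * y = y * x := by
  constructor
  · intro h x hx y hy
    exact congrArg Subtype.val (h.is_comm.comm (⟨x, hx⟩ : P) ⟨y, hy⟩)
  · intro h
    exact ⟨⟨fun x y => Subtype.ext (h x x.2 y y.2)⟩⟩

/-- dichotomy for `N₁` -/
theorem N1_comm (h : Tri S A B C) (hβ : β ∈ B) (hb : ⁅A, conjBy C β⁆ = ⊥) :
    IsMulCommutative ↥(A ⊔ conjBy C β) := by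
  rw [isComm_iff]
  have h1 := comm_iff.1 hb
  exact comm_sup_sup (fun x hx y hy => abel h.hS h.hA hx hy) h1 (fun x hx y hy => (h1 y hy x hx).symm)
    (fun x hx y hy => abel h.hS (h.hS.conj_mem C h.hC β) hx hy)

theorem N1_noncomm (h : Tri S A B C) (hβ : β ∈ B) (hb : ⁅A, conjBy C β⁆ ≠ ⊥) :
    ¬ IsMulCommutative ↥(A ⊔ conjBy C β) ∧ ⁅⁅A ⊔ conjBy C β, A ⊔ conjBy C β⁆, A ⊔ conjBy C β⁆ = ⊥ := by
  constructor
  · intro hc
    rw [isComm_iff] at hc
    exact hb (comm_iff.2 (fun x hx y hy => hc x (Subgroup.mem_sup_left hx) y (Subgroup.mem_sup_right hy)))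
  · set K1 := ⁅A, conjBy C β⁆ with hK1
    have hcen : ∀ x ∈ A ⊔ conjBy C β, ∀ k ∈ K1, x * k = k * x := fun x hx k hk => ((h.K1_cen hβ hk).1 x hx).symm
    have hn := norm_of_cent hcen
    have hle : ⁅A ⊔ conjBy C β, A ⊔ conjBy C β⁆ ≤ K1 := by
      apply comm_sup_left hn
      · apply comm_sup_right hn
        · rw [comm_iff.2 (fun x hx y hy => abel h.hS h.hA hx hy)]; exact bot_le
        · exact le_rfl
      · apply comm_sup_right hn
        · rw [Subgroup.commutator_comm]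
        · rw [comm_iff.2 (fun x hx y hy => abel h.hS (h.hS.conj_mem C h.hC β) hx hy)]; exact bot_le
    rw [comm_iff]
    intro x hx y hy
    exact (hcen y hy x (hle hx)).symm

end Tri

end Cfsg.Agent.H13.RS
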