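import Mathlib
import Cfsg.Prelude.Def_RootSubgroups
import Cfsg.Agent.H13_RO
import Cfsg.Agent.H13_RS
import Cfsg.Agent.H13_RS2
import Cfsg.Agent.H13_RS3
import Cfsg.Agent.H13_RS4
import Cfsg.Agent.H13_RS5
set_option autoImplicit false
set_option linter.all false

namespace Cfsg.Agent.H13.RS

open Cfsg Cfsg.Agent.H13.RO
open scoped commutatorElement

variable {G : Type*} [Group G] {S : Set (Subgroup G)} {A B C D E F K M P Q Y : Subgroup G}

theorem line_symm (hA : A ∈ S) (h : B ∈ linePartners S A) : A ∈ linePartners S B :=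
  ⟨⟨hA, h.1.2.1.symm, comm_symm h.1.2.2⟩, by rw [sup_comm]; exact h.2⟩

theorem line_span (hS : IsRootSubgroupSet S) (hNI : ∀ A ∈ S, NI S A) (hA : A ∈ S) (hl : B ∈ linePartners S A)
    {C₁ C₂ : Subgroup G} (h1 : C₁ ∈ membersIn S (A ⊔ B)) (h2 : C₂ ∈ membersIn S (A ⊔ B)) (hne : C₁ ≠ C₂) :
    C₁ ⊔ C₂ = A ⊔ B ∧ C₂ ∈ linePartners S C₁ := by
  obtain ⟨x, hx, hx1, hx2⟩ := line_trans hS hNI hA hl rfl A ⟨hA, le_sup_left⟩ B ⟨hl.1.1, le_sup_right⟩ C₁ h1 C₂ h2
    hl.1.2.1.symm hne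
  have hN : (⨆ E ∈ normalizingMembers S (A ⊔ B), E) ≤ Subgroup.normalizer ((A ⊔ B : Subgroup G) : Set G) :=
    iSup₂_le fun E hE => hE.2
  have hL : C₁ ⊔ C₂ = A ⊔ B := by
    rw [← hx1, ← hx2, ← cj_sup, cj_eq_iff.2 (hN hx)]
  refine ⟨hL, ⟨h2.1, hne.symm, ?_⟩, ?_⟩
  · rw [← hx1, ← hx2]; exact cj_comm_bot hl.1.2.2
  · rw [hL]; exact hl.2

theorem line_part (hl : B ∈ linePartners S A) : ∀ x ∈ A ⊔ B, x ≠ 1 → ∃ C ∈ S, C ≤ A ⊔ B ∧ x ∈ C := by
  intro x hx hx1
  obtain ⟨C, hC, hxC⟩ := hl.2.2.1 x hx hx1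
  exact ⟨C, hC.1, hC.2, hxC⟩

theorem line_abel (hS : IsRootSubgroupSet S) (hA : A ∈ S) (hl : B ∈ linePartners S A) :
    ∀ x ∈ A ⊔ B, ∀ y ∈ A ⊔ B, x * y = y * x := by
  have hAB := comm_iff.1 hl.1.2.2
  intro x hx y hy
  obtain ⟨a, ha, b, hb, rfl⟩ := mem_sup_comm hAB hx
  obtain ⟨a', ha', b', hb', rfl⟩ := mem_sup_comm hAB hy
  have e1 : Commute a a' := abel hS hA ha ha'
  have e2 : Commute b b' := abel hS hl.1.1 hb hb'
  have e3 : Commute a b' := hAB a ha b' hb'
  have e4 : Commute b a' := (hAB a' ha' b hb).symm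
  exact (e1.mul_right e3).mul_left (e4.mul_right e2)

/-- a member of a line (other than `A`) does not commute with a rank one partner of `A` -/
theorem line_noncomm (hS : IsRootSubgroupSet S) (hA : A ∈ S) (hl : B ∈ linePartners S A) (hC : C ∈ membersIn S (A ⊔ B))
    (hCA : C ≠ A) (hD : D ∈ S) (hAD : IsRankOnePair A D) : ¬ ⁅C, D⁆ = ⊥ := by
  intro h1
  obtain ⟨a, ha, ha1⟩ := exists_ne (hS.ne_bot A hA)
  obtain ⟨c, hc, hc1⟩ := exists_ne (hS.ne_bot C hC.1)
  have hca1 : c * a ≠ 1 := by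
    intro h
    have h2 : c = a⁻¹ := eq_inv_of_mul_eq_one_left h
    exact hCA (ti hS hA hD hAD hC.1 (by rw [h2]; exact A.inv_mem ha) hc1 hc)
  obtain ⟨E, hE, -, hcaE⟩ := line_part hl (c * a) (mul_mem (hC.2 hc) (Subgroup.mem_sup_left ha)) hca1
  have := not_root hS hA hD hAD (z := c) (cen_sup
    (fun x hx => line_abel hS hA hl x (Subgroup.mem_sup_left hx) c (hC.2 hc))
    (fun x hx => (comm_iff.1 h1 c hc x hx).symm)) ha ha1 hE hcaE
  exact hc1 this.1

/-- the pencil lemma -/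
theorem pencil (hS : IsRootSubgroupSet S) (hNI : ∀ A ∈ S, NI S A) (hA : A ∈ S) (hl : B ∈ linePartners S A)
    (hD : D ∈ S) (hAD : IsRankOnePair A D) :
    ∃ C ∈ membersIn S (A ⊔ B), C ≠ A ∧ RootCommutatorCase S C D := by
  have hB := hl.1.1
  have hBA := hl.1.2.1
  have hab := line_abel hS hA hl
  have hnA : ∀ x ∈ B, x ∈ A → x = 1 := by
    intro x hx hxA
    by_contra hx1
    exact hBA (ti hS hA hD hAD hB hxA hx1 hx)
  rcases hS.pair B hB D hD with h1 | h1 | h1
  · exact absurd h1 (line_noncomm hS hA hl ⟨hB, le_sup_right⟩ hBA hD hAD)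
  · obtain ⟨d, hd, hd1⟩ := exists_ne (hS.ne_bot D hD)
    obtain ⟨a, ha, ha1, hae⟩ := cond (symm hAD) hd hd1
    obtain ⟨b, hb, hb1, hbe⟩ := cond (symm h1) hd hd1
    have hBy : B = conjBy A (d⁻¹ * (b * a⁻¹) * d) := by
      have e1 : conjBy A (a⁻¹ * d) = D := by
        rw [← cj_mul, ← hae, cj_mul, inv_mul_cancel, cj_one]
      have e2 : conjBy D (d⁻¹ * b) = B := by
        rw [← cj_mul, hbe, cj_mul, inv_mul_cancel, cj_one]
      rw [← e2, ← e1, cj_mul]
      congr 1; group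
    have hx1 : b * a⁻¹ ≠ 1 := by
      intro h
      have h2 : b = a := mul_inv_eq_one.1 h
      exact hb1 (hnA b hb (by rw [h2]; exact ha))
    obtain ⟨C, hC, hCL, hxC⟩ := line_part hl (b * a⁻¹) (mul_mem (Subgroup.mem_sup_right hb)
      (inv_mem (Subgroup.mem_sup_left ha))) hx1
    have hCA : C ≠ A := by
      rintro rfl
      have := C.mul_mem hxC ha
      rw [inv_mul_cancel_right] at this
      exact hb1 (hnA b hb this)
    refine ⟨C, ⟨hC, hCL⟩, hCA, ?_⟩
    rcases hS.pair C hC D hD with h3 | h3 | h3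
    · exact absurd h3 (line_noncomm hS hA hl ⟨hC, hCL⟩ hCA hD hAD)
    · exfalso
      have hF : conjBy C d⁻¹ ∈ S := hS.conj_mem C hC _
      have hy : d⁻¹ * (b * a⁻¹) * d ∈ conjBy C d⁻¹ := by
        rw [mem_cj]
        have : d⁻¹⁻¹ * (d⁻¹ * (b * a⁻¹) * d) * d⁻¹ = b * a⁻¹ := by group
        rwa [this]
      have hy1 : d⁻¹ * (b * a⁻¹) * d ≠ 1 := by
        intro h
        apply hx1
        have : b * a⁻¹ = d * (d⁻¹ * (b * a⁻¹) * d) * d⁻¹ := by group
        rw [this, h]; group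
      have hAF : RootCommutatorCase S A (conjBy C d⁻¹) := by
        rcases hS.pair A hA _ hF with h2 | h2 | h2
        · exfalso
          rw [cj_cent (fun x hx => (comm_iff.1 h2 x hx _ hy).symm)] at hBy
          exact hBA hBy
        · exfalso
          have h4 : B ∈ unipotentSubgroups A (conjBy C d⁻¹) := by
            rw [hBy]; exact cj_mem left_mem (Subgroup.mem_sup_right hy)
          exact rank_noncomm (pair_Om h2 left_mem h4 hBA.symm).1 hl.1.2.2
        · exact h2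
      have hsup := sup_cj_eq hAF hy hy1
      rw [← hBy] at hsup
      have hKm : ⁅A, conjBy C d⁻¹⁆ ∈ membersIn S (A ⊔ B) := ⟨hAF.1, by rw [hsup]; exact le_sup_right⟩
      apply line_noncomm hS hA hl hKm (rcc_ne hS hA hAF).symm hD hAD
      -- K commutes with C and conj C d⁻¹
      have h5 := third (symm h3) (D.inv_mem hd) (inv_ne_one.2 hd1)
      have h6 := pair_Om h3 left_mem (cj_mem left_mem (Subgroup.mem_sup_right (D.inv_mem hd))) h5.1.symm
      rw [comm_iff]
      intro k hk x hx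
      have h7 : k ∈ Subgroup.centralizer ((C ⊔ conjBy C d⁻¹ : Subgroup G) : Set G) := by
        apply cen_sup
        · intro c hc
          exact hab c (hCL hc) k (hKm.2 hk)
        · intro c hc
          exact rcc_comm_right hAF c hc k hk
      rw [h6.2, cen_iff] at h7
      exact (h7 x (Subgroup.mem_sup_right hx)).symm
    · exact h3
  · exact ⟨B, ⟨hB, le_sup_right⟩, hBA, h1⟩

theorem natmod_exists (hS : IsRootSubgroupSet S) (hNI : ∀ A ∈ S, NI S A) (hA : A ∈ S) (hB : B ∈ S)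
    (h : RootCommutatorCase S A B) : ∃ D, NatMod S A B D := by
  have hC := h.1
  have hl : ⁅A, B⁆ ∈ linePartners S A := line_symm hC (line_of_rcc hS hA (hNI A hA) h)
  obtain ⟨x, hx, hx1, hx2⟩ := line_trans hS hNI hA hl rfl A ⟨hA, le_sup_left⟩ ⁅A, B⁆ ⟨hC, le_sup_right⟩
    ⁅A, B⁆ ⟨hC, le_sup_right⟩ A ⟨hA, le_sup_left⟩ (rcc_ne hS hA h) (rcc_ne hS hA h).symm
  refine ⟨conjBy B x, hS, hA, hB, hC, hS.conj_mem B hB x, ?_⟩
  have e : ⁅conjBy A x, conjBy B x⁆ = A := by rw [← cj_comm]; exact hx2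
  rw [hx1] at e
  rw [Subgroup.commutator_comm]
  exact e

namespace NatMod

variable (h : NatMod S A B D)
include h

/-- `B, D` is special -/
theorem special : IsSpecialRankOnePair B D := by
  have hr := h.rank
  refine ⟨hr, ?_⟩
  -- left version
  have main : ∀ b ∈ B, ∀ d ∈ D, conjBy B d = conjBy D b → d * b⁻¹ * d⁻¹ = b * d * b⁻¹ := by
    intro b hb d hd hbd
    set V := A ⊔ ⁅A, B⁆ with hV
    set C := ⁅A, B⁆ with hC
    have hVab : ∀ x ∈ V, ∀ y ∈ V, x * y = y * x := by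
      have hAC := h.commAC
      intro x hx y hy
      obtain ⟨a, ha, c, hc, rfl⟩ := mem_sup_comm hAC hx
      obtain ⟨a', ha', c', hc', rfl⟩ := mem_sup_comm hAC hy
      have e1 : Commute a a' := abel h.hS h.hA ha ha'
      have e2 : Commute c c' := abel h.hS h.hC hc hc'
      have e3 : Commute a c' := hAC a ha c' hc'
      have e4 : Commute c a' := (hAC a' ha' c hc).symm
      exact (e1.mul_right e3).mul_left (e4.mul_right e2)
    have hinf : ∀ x ∈ A, x ∈ C → x = 1 := by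
      intro x hx hxC
      have := rcc_inf h.hS h.hA h.r1
      rw [Subgroup.eq_bot_iff_forall] at this
      exact this x (Subgroup.mem_inf.2 ⟨hx, hxC⟩)
    have hPhi : conjBy C d = conjBy A b := by
      have e1 := Phi_cj (E := B) (h.cjD hd)
      have e2 := Phi_cj (E := D) (h.cjB hb)
      rw [h.PhiB] at e1
      rw [h.PhiD] at e2
      rw [← e1, ← e2, hbd]
    -- key facts
    have k1 : ∀ u ∈ C, ∃ w ∈ A, d * u * d⁻¹ = w * u ∧ b * w * b⁻¹ = u * w := by
      intro u hu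
      have hw : ⁅d, u⁆ ∈ A := by
        have := Subgroup.commutator_mem_commutator hd hu
        rwa [h.hDC] at this
      refine ⟨⁅d, u⁆, hw, by rw [commutatorElement_def]; group, ?_⟩
      have e1 : d * u * d⁻¹ ∈ conjBy A b := by
        rw [← hPhi, mem_cj]
        have : d⁻¹ * (d * u * d⁻¹) * d = u := by group
        rwa [this]
      rw [mem_cj] at e1
      set w := ⁅d, u⁆ with hwd
      have e2 : d * u * d⁻¹ = w * u := by rw [hwd, commutatorElement_def]; group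
      have hbu : b⁻¹ * u * b = u := by
        have := h.commBC b⁻¹ (B.inv_mem hb) u hu
        rw [this]; group
      have e3 : b⁻¹ * (w * u) * b = (b⁻¹ * w * b) * u := by
        calc b⁻¹ * (w * u) * b = (b⁻¹ * w * b) * (b⁻¹ * u * b) := by group
          _ = (b⁻¹ * w * b) * u := by rw [hbu]
      rw [e2, e3] at e1
      -- b⁻¹ w b = g w with g ∈ C
      have hg : ⁅b⁻¹, w⁆ ∈ C := by
        rw [hC, Subgroup.commutator_comm]
        exact Subgroup.commutator_mem_commutator (B.inv_mem hb) hw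
      have e4 : b⁻¹ * w * b = ⁅b⁻¹, w⁆ * w := by rw [commutatorElement_def]; group
      rw [e4] at e1
      have e5 : ⁅b⁻¹, w⁆ * u = 1 := by
        apply hinf _ _ (C.mul_mem hg hu)
        have e6 := h.commAC w hw u hu
        have e7 := h.commAC w hw _ hg
        have : ⁅b⁻¹, w⁆ * u = (⁅b⁻¹, w⁆ * w * u) * w⁻¹ := by
          rw [mul_assoc (⁅b⁻¹, w⁆) w u, e6]; group
        rw [this]
        exact A.mul_mem e1 (A.inv_mem hw)
      have e8 : ⁅b⁻¹, w⁆ = u⁻¹ := eq_inv_of_mul_eq_one_left e5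
      rw [e8] at e4
      have e9 : b * u * b⁻¹ = u := by
        have := h.commBC b hb u hu
        rw [this]; group
      calc b * w * b⁻¹ = b * (u * (b⁻¹ * w * b)) * b⁻¹ * 1 := by rw [e4]; group
        _ = (b * u * b⁻¹) * w := by group
        _ = u * w := by rw [e9]
    have k2 : ∀ w ∈ A, ∃ u ∈ C, b * w * b⁻¹ = u * w ∧ d * u * d⁻¹ = u * w := by
      intro w hw
      have hu : ⁅b, w⁆ ∈ C := by
        rw [hC, Subgroup.commutator_comm]
        exact Subgroup.commutator_mem_commutator hb hw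
      refine ⟨⁅b, w⁆, hu, by rw [commutatorElement_def]; group, ?_⟩
      have e1 : b * w * b⁻¹ ∈ conjBy C d := by
        rw [hPhi, mem_cj]
        have : b⁻¹ * (b * w * b⁻¹) * b = w := by group
        rwa [this]
      rw [mem_cj] at e1
      set u := ⁅b, w⁆ with hud
      have e2 : b * w * b⁻¹ = u * w := by rw [hud, commutatorElement_def]; group
      have hdw : d⁻¹ * w * d = w := by
        have := h.commDA d⁻¹ (D.inv_mem hd) w hw
        rw [this]; group
      have e3 : d⁻¹ * (u * w) * d = (d⁻¹ * u * d) * w := by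
        calc d⁻¹ * (u * w) * d = (d⁻¹ * u * d) * (d⁻¹ * w * d) := by group
          _ = (d⁻¹ * u * d) * w := by rw [hdw]
      rw [e2, e3] at e1
      have hg : ⁅d⁻¹, u⁆ ∈ A := by
        have := Subgroup.commutator_mem_commutator (D.inv_mem hd) hu
        rwa [h.hDC] at this
      have e4 : d⁻¹ * u * d = ⁅d⁻¹, u⁆ * u := by rw [commutatorElement_def]; group
      rw [e4] at e1
      have e5 : ⁅d⁻¹, u⁆ * w = 1 := by
        apply hinf _ (A.mul_mem hg hw)
        have e6 := h.commAC w hw u hu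
        have : ⁅d⁻¹, u⁆ * w = (⁅d⁻¹, u⁆ * u * w) * u⁻¹ := by
          rw [mul_assoc (⁅d⁻¹, u⁆) u w, ← e6]; group
        rw [this]
        exact C.mul_mem e1 (C.inv_mem hu)
      have e8 : ⁅d⁻¹, u⁆ = w⁻¹ := eq_inv_of_mul_eq_one_left e5
      rw [e8] at e4
      have e9 : d * w * d⁻¹ = w := by
        have := h.commDA d hd w hw
        rw [this]; group
      calc d * u * d⁻¹ = d * (w * (d⁻¹ * u * d)) * d⁻¹ := by rw [e4]; group
        _ = (d * w * d⁻¹) * u := by group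
        _ = w * u := by rw [e9]
        _ = u * w := h.commAC w hw u hu
    -- compare actions
    have act : ∀ v ∈ V, (d * b⁻¹ * d⁻¹) * v * (d * b⁻¹ * d⁻¹)⁻¹ = (b * d * b⁻¹) * v * (b * d * b⁻¹)⁻¹ := by
      have onC : ∀ u ∈ C, (d * b⁻¹ * d⁻¹) * u * (d * b⁻¹ * d⁻¹)⁻¹ = (b * d * b⁻¹) * u * (b * d * b⁻¹)⁻¹ := by
        intro u hu
        obtain ⟨w, hw, e1, e2⟩ := k1 u hu
        have huV : u ∈ V := Subgroup.mem_sup_right hu
        have hwV : w ∈ V := Subgroup.mem_sup_left hw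
        have c1 := hVab u huV w hwV
        have hbu : b * u * b⁻¹ = u := by have := h.commBC b hb u hu; rw [this]; group
        have hbu' : b⁻¹ * u * b = u := by have := h.commBC b⁻¹ (B.inv_mem hb) u hu; rw [this]; group
        have hdw : d * w * d⁻¹ = w := by have := h.commDA d hd w hw; rw [this]; group
        have hdw' : d⁻¹ * w * d = w := by have := h.commDA d⁻¹ (D.inv_mem hd) w hw; rw [this]; group
        -- d⁻¹ u d = u w⁻¹
        have e3 : d⁻¹ * u * d = u * w⁻¹ := by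
          calc d⁻¹ * u * d = d⁻¹ * (w⁻¹ * (w * u)) * d := by group
            _ = (d⁻¹ * w * d)⁻¹ * (d⁻¹ * (w * u) * d) := by group
            _ = w⁻¹ * (d⁻¹ * (d * u * d⁻¹) * d) := by rw [hdw', e1]
            _ = w⁻¹ * u := by group
            _ = u * w⁻¹ := by
              rw [inv_mul_eq_iff_eq_mul, ← mul_assoc, ← c1, mul_assoc, mul_inv_cancel, mul_one]
        -- b⁻¹ w b = u⁻¹ w
        have e4 : b⁻¹ * w * b = u⁻¹ * w := by
          calc b⁻¹ * w * b = b⁻¹ * (u⁻¹ * (u * w)) * b := by group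
            _ = (b⁻¹ * u * b)⁻¹ * (b⁻¹ * (u * w) * b) := by group
            _ = u⁻¹ * (b⁻¹ * (b * w * b⁻¹) * b) := by rw [hbu', e2]
            _ = u⁻¹ * w := by group
        have l1 : (d * b⁻¹ * d⁻¹) * u * (d * b⁻¹ * d⁻¹)⁻¹ = d * (b⁻¹ * (d⁻¹ * u * d) * b) * d⁻¹ := by group
        have l2 : b⁻¹ * (u * w⁻¹) * b = u * (w⁻¹ * u) := by
          calc b⁻¹ * (u * w⁻¹) * b = (b⁻¹ * u * b) * (b⁻¹ * w * b)⁻¹ := by group
            _ = u * (u⁻¹ * w)⁻¹ := by rw [hbu', e4]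
            _ = u * (w⁻¹ * u) := by group
        have l3 : d * (u * (w⁻¹ * u)) * d⁻¹ = (w * u) * (w⁻¹ * (w * u)) := by
          calc d * (u * (w⁻¹ * u)) * d⁻¹ = (d * u * d⁻¹) * ((d * w * d⁻¹)⁻¹ * (d * u * d⁻¹)) := by group
            _ = (w * u) * (w⁻¹ * (w * u)) := by rw [e1, hdw]
        have r1 : (b * d * b⁻¹) * u * (b * d * b⁻¹)⁻¹ = b * (d * (b⁻¹ * u * b) * d⁻¹) * b⁻¹ := by group
        have r2 : b * (w * u) * b⁻¹ = (u * w) * u := by
          calc b * (w * u) * b⁻¹ = (b * w * b⁻¹) * (b * u * b⁻¹) := by group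
            _ = (u * w) * u := by rw [e2, hbu]
        rw [l1, e3, l2, l3, r1, hbu', e1, r2, c1]
        group
      have onA : ∀ w ∈ A, (d * b⁻¹ * d⁻¹) * w * (d * b⁻¹ * d⁻¹)⁻¹ = (b * d * b⁻¹) * w * (b * d * b⁻¹)⁻¹ := by
        intro w hw
        obtain ⟨u, hu, e1, e2⟩ := k2 w hw
        have huV : u ∈ V := Subgroup.mem_sup_right hu
        have hwV : w ∈ V := Subgroup.mem_sup_left hw
        have c1 := hVab u huV w hwV
        have hbu : b * u * b⁻¹ = u := by have := h.commBC b hb u hu; rw [this]; group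
        have hbu' : b⁻¹ * u * b = u := by have := h.commBC b⁻¹ (B.inv_mem hb) u hu; rw [this]; group
        have hdw : d * w * d⁻¹ = w := by have := h.commDA d hd w hw; rw [this]; group
        have hdw' : d⁻¹ * w * d = w := by have := h.commDA d⁻¹ (D.inv_mem hd) w hw; rw [this]; group
        have e4 : b⁻¹ * w * b = u⁻¹ * w := by
          calc b⁻¹ * w * b = b⁻¹ * (u⁻¹ * (u * w)) * b := by group
            _ = (b⁻¹ * u * b)⁻¹ * (b⁻¹ * (u * w) * b) := by group
            _ = u⁻¹ * (b⁻¹ * (b * w * b⁻¹) * b) := by rw [hbu', e1]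
            _ = u⁻¹ * w := by group
        have l1 : (d * b⁻¹ * d⁻¹) * w * (d * b⁻¹ * d⁻¹)⁻¹ = d * (b⁻¹ * (d⁻¹ * w * d) * b) * d⁻¹ := by group
        have l2 : d * (u⁻¹ * w) * d⁻¹ = (u * w)⁻¹ * w := by
          calc d * (u⁻¹ * w) * d⁻¹ = (d * u * d⁻¹)⁻¹ * (d * w * d⁻¹) := by group
            _ = (u * w)⁻¹ * w := by rw [e2, hdw]
        have l3 : (u * w)⁻¹ * w = u⁻¹ := by rw [c1]; group
        have r1 : (b * d * b⁻¹) * w * (b * d * b⁻¹)⁻¹ = b * (d * (b⁻¹ * w * b) * d⁻¹) * b⁻¹ := by group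
        have r2 : b * u⁻¹ * b⁻¹ = u⁻¹ := by
          calc b * u⁻¹ * b⁻¹ = (b * u * b⁻¹)⁻¹ := by group
            _ = u⁻¹ := by rw [hbu]
        rw [l1, hdw', e4, l2, l3, r1, e4, l2, l3, r2]
      intro v hv
      obtain ⟨a, ha, c, hc, rfl⟩ := mem_sup_comm h.commAC hv
      have s1 : ∀ g : G, g * (a * c) * g⁻¹ = (g * a * g⁻¹) * (g * c * g⁻¹) := by intro g; group
      rw [s1, s1, onA a ha, onC c hc]
    -- conclude
    set y := (b * d * b⁻¹)⁻¹ * (d * b⁻¹ * d⁻¹) with hy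
    have hyV : y ∈ Subgroup.centralizer ((A ⊔ ⁅A, B⁆ : Subgroup G) : Set G) := by
      rw [cen_iff]
      intro v hv
      have h1 := act v hv
      have h2 : y * v * y⁻¹ = v := by
        calc y * v * y⁻¹ = (b * d * b⁻¹)⁻¹ * ((d * b⁻¹ * d⁻¹) * v * (d * b⁻¹ * d⁻¹)⁻¹) * (b * d * b⁻¹) := by
              rw [hy]; group
          _ = (b * d * b⁻¹)⁻¹ * ((b * d * b⁻¹) * v * (b * d * b⁻¹)⁻¹) * (b * d * b⁻¹) := by rw [h1]
          _ = v := by group
      calc v * y = (y * v * y⁻¹) * y := by rw [h2]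
        _ = y * v := by group
    have hyB : y ∈ conjBy B d := by
      refine mul_mem (inv_mem ?_) ?_
      · rw [hbd, mem_cj]
        have : b⁻¹ * (b * d * b⁻¹) * b = d := by group
        rwa [this]
      · rw [mem_cj]
        have : d⁻¹ * (d * b⁻¹ * d⁻¹) * d = b⁻¹ := by group
        rw [this]; exact B.inv_mem hb
    have hyX : y ∈ B ⊔ D := Om_le (cj_mem left_mem (Subgroup.mem_sup_right hd)) hyB
    have hyc := h.central_of hyX hyV
    have hy1 : y = 1 := by
      by_contra hy1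
      have f1 := fix_only hr (cj_mem left_mem (Subgroup.mem_sup_right hd)) left_mem hyB hy1
        (cj_cent (fun x hx => hyc x (Subgroup.mem_sup_left hx)))
      have f2 := fix_only hr (cj_mem left_mem (Subgroup.mem_sup_right hd)) (right_mem hr) hyB hy1
        (cj_cent (fun x hx => hyc x (Subgroup.mem_sup_right hx)))
      exact hr.ne (f1.trans f2.symm)
    exact (inv_mul_eq_one.1 hy1).symm
  intro b hb hb1 d hd hd1 hbd
  have h1 := main b⁻¹ (B.inv_mem hb) d⁻¹ (D.inv_mem hd) hbd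
  simpa using h1

end NatMod

end Cfsg.Agent.H13.RS
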