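import Mathlib
import Cfsg.Prelude.Def_RootSubgroups
import Cfsg.Agent.H13_RO
import Cfsg.Agent.H13_RS
import Cfsg.Agent.H13_RS2
import Cfsg.Agent.H13_RS3
import Cfsg.Agent.H13_RS4
import Cfsg.Agent.H13_RS5
import Cfsg.Agent.H13_RS7
set_option autoImplicit false
set_option linter.all false

namespace Cfsg.Agent.H13.RS

open Cfsg Cfsg.Agent.H13.RO
open scoped commutatorElement

variable {G : Type*} [Group G] {S : Set (Subgroup G)} {A B C D E F K M P Q X Y : Subgroup G}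

theorem class_NI (hcl : IsConjClassOfSubgroups S) (hS : IsRootSubgroupSet S) (h : ∃ A ∈ S, ∃ B ∈ S, IsRankOnePair A B) :
    ∀ A ∈ S, NI S A := by
  obtain ⟨A0, hA0, B0, hB0, h⟩ := h
  intro A hA
  obtain ⟨g, rfl⟩ := hcl.2 A0 hA0 A hA
  exact NI.cj hS ⟨B0, hB0, h⟩ g

theorem class_rcc (hcl : IsConjClassOfSubgroups S) (hS : IsRootSubgroupSet S)
    (h : ∃ A ∈ S, ∃ B ∈ S, RootCommutatorCase S A B) :
    ∀ A ∈ S, ∃ P ∈ S, RootCommutatorCase S A P := by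
  obtain ⟨A0, hA0, B0, hB0, h⟩ := h
  intro A hA
  obtain ⟨g, rfl⟩ := hcl.2 A0 hA0 A hA
  exact ⟨conjBy B0 g, hS.conj_mem B0 hB0 g, rcc_cj hS hA0 hB0 h g⟩

/-- from a rank one pair and a line: the natural module -/
theorem line_natmod (hS : IsRootSubgroupSet S) (hNI : ∀ A ∈ S, NI S A) (hX : X ∈ S) (hY : Y ∈ S)
    (hXY : IsRankOnePair X Y) (hl : C ∈ linePartners S X) :
    ∃ C3 ∈ membersIn S (X ⊔ C), C3 ∈ linePartners S X ∧ RootCommutatorCase S C3 Y ∧ X ⊔ C3 = X ⊔ C ∧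
      NatMod S ⁅C3, Y⁆ X Y ∧ C3 = ⁅X, ⁅C3, Y⁆⁆ := by
  obtain ⟨C3, hC3, hC3X, hr⟩ := pencil hS hNI hX hl hY hXY
  obtain ⟨hsp, hl3⟩ := line_span hS hNI hX hl ⟨hX, le_sup_left⟩ hC3 hC3X.symm
  obtain ⟨h1, h2⟩ := line_rcc hS hX hC3.1 hY hXY (hNI _ hC3.1) (comm_iff.1 hl3.1.2.2) hC3X.symm (line_part hl3) hr
  have h3 : C3 = ⁅X, ⁅C3, Y⁆⁆ := by
    rcases h2 with h2 | ⟨f, hf, h2⟩
    · exact h2
    · exfalso
      apply rcc_excl hS hY hr
      have := cj_pair hXY f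
      rw [cj_cent (D := Y) (fun y hy => (rcc_comm_right hr y hy f hf).symm), ← h2] at this
      exact this
  refine ⟨C3, hC3, hl3, hr, hsp, ⟨hS, hr.1, hX, ?_, hY, ?_⟩, h3⟩
  · rw [Subgroup.commutator_comm, ← h3]; exact hC3.1
  · rw [Subgroup.commutator_comm ⁅C3, Y⁆ X, ← h3, Subgroup.commutator_comm]

theorem line_orbit (hS : IsRootSubgroupSet S) (hNI : ∀ A ∈ S, NI S A) (hX : X ∈ S) (hY : Y ∈ S)
    (hXY : IsRankOnePair X Y) (hl : C ∈ linePartners S X) :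
    ∃ C3 F D', C3 ∈ linePartners S X ∧ F = ⁅C3, Y⁆ ∧ F ∈ S ∧ D' ∈ S ∧ D' ∈ linePartners S X ∧
      (∀ f ∈ F, ∀ y ∈ Y, f * y = y * f) ∧
      ∀ E ∈ membersIn S (X ⊔ C), ∃ f ∈ F, ∃ d ∈ D', E = conjBy X (d * f) := by
  obtain ⟨C3, hC3, hl3, hr, hsp, hn, h3⟩ := line_natmod hS hNI hX hY hXY hl
  set F := ⁅C3, Y⁆ with hF
  have hXF : RootCommutatorCase S X F := rcc_of_mem hS hX hr.1 (by rw [← h3]; exact hC3.1)
  obtain ⟨D', hD'⟩ := natmod_exists hS hNI hX hr.1 hXF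
  have hDC : ⁅D', C3⁆ = X := by
    have := hD'.hDC
    rwa [← h3] at this
  have hrD : RootCommutatorCase S D' C3 := rcc_of_mem hS hD'.hD hC3.1 (by rw [hDC]; exact hX)
  have hlD : D' ∈ linePartners S X := by
    have := line_of_rcc hS hD'.hD (hNI _ hD'.hD) hrD
    rwa [hDC] at this
  refine ⟨C3, F, D', hl3, rfl, hr.1, hD'.hD, hlD, fun f hf y hy => (rcc_comm_right hr y hy f hf).symm, ?_⟩
  have hmem : ∀ E ∈ membersIn S (X ⊔ C), E = C3 ∨ ∃ f ∈ F, E = conjBy X f := by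
    intro E hE
    have h4 := members hS hX (hNI X hX) hXF hE.1 (by rw [← h3, hsp]; exact hE.2)
    rwa [← h3] at h4
  intro E hE
  rcases hmem E hE with rfl | ⟨f, hf, rfl⟩
  · obtain ⟨d, hd, hd1⟩ := exists_ne (hS.ne_bot D' hD'.hD)
    have hm : conjBy E d ∈ membersIn S (X ⊔ C) := by
      refine ⟨hS.conj_mem E hE.1 d, ?_⟩
      have h4 := rcc_cj_le (rcc_symm hrD) hd
      rw [Subgroup.commutator_comm E D', hDC] at h4
      refine h4.trans ?_
      rw [sup_comm, hsp]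
    rcases hmem _ hm with h5 | ⟨f, hf, h5⟩
    · exfalso
      obtain ⟨c, hc, hc1⟩ := exists_ne (hS.ne_bot E hE.1)
      have h6 : ⁅d, c⁆ ∈ X := by rw [← hDC]; exact Subgroup.commutator_mem_commutator hd hc
      have h7 : ⁅d, c⁆ ∈ E := by
        have h8 : d * c * d⁻¹ ∈ conjBy E d := by
          rw [mem_cj]
          have : d⁻¹ * (d * c * d⁻¹) * d = c := by group
          rwa [this]
        rw [h5] at h8
        exact E.mul_mem h8 (E.inv_mem hc)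
      have h9 : ⁅d, c⁆ = 1 := by
        by_contra h10
        exact hl3.1.2.1 (ti' hS hX (hNI X hX) hE.1 h6 h10 h7)
      exact hc1 (rcc_inj hS hD'.hD (hNI _ hD'.hD) hrD hd hd1 hc h9)
    · refine ⟨f, hf, d⁻¹, D'.inv_mem hd, ?_⟩
      rw [← cj_mul, ← h5, cj_mul, inv_mul_cancel, cj_one]
  · exact ⟨f, hf, 1, D'.one_mem, by rw [one_mul]⟩

section TI

variable (hS : IsRootSubgroupSet S) (hNI : ∀ A ∈ S, NI S A) {Δ : Set (Subgroup G)}
  (hΔ : Δ ⊆ S) (hTI : ∀ d ∈ rootElements S, (fun A => conjBy A d) '' Δ = Δ ∨ Disjoint ((fun A => conjBy A d) '' Δ) Δ)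

include hTI in
theorem ti_norm (hE : E ∈ S) (hX : X ∈ Δ) (hfix : ∀ e ∈ E, conjBy X e = X) :
    ∀ e ∈ E, ∀ A ∈ Δ, conjBy A e ∈ Δ := by
  intro e he A hA
  by_cases he1 : e = 1
  · rw [he1, cj_one]; exact hA
  · rcases hTI e ⟨he1, E, hE, he⟩ with h | h
    · rw [← h]; exact ⟨A, hA, rfl⟩
    · exfalso
      exact Set.disjoint_left.1 h ⟨X, hX, hfix e he⟩ hX

/-- good members -/
def Good (Δ : Set (Subgroup G)) (X : Subgroup G) : Prop := X ∈ Δ ∧ ∃ Y ∈ Δ, IsRankOnePair X Y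

include hS hNI hΔ hTI in
theorem good_line (hX : Good Δ X) (hl : C ∈ linePartners S X) : Good Δ C := by
  obtain ⟨hXΔ, Y, hYΔ, hXY⟩ := hX
  obtain ⟨C3, F, D', -, -, hF, hD', hlD, hFY, horb⟩ := line_orbit hS hNI (hΔ hXΔ) (hΔ hYΔ) hXY hl
  obtain ⟨f, hf, d, hd, rfl⟩ := horb C ⟨hl.1.1, le_sup_right⟩
  have nF := ti_norm hTI hF hYΔ (fun e he => cj_cent (hFY e he))
  have hXD := comm_iff.1 hlD.1.2.2
  have nD := ti_norm hTI hD' hXΔ (fun e he => cj_cent (fun x hx => (hXD x hx e he).symm))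
  refine ⟨?_, conjBy Y (d * f), ?_, cj_pair hXY _⟩
  · rw [← cj_mul]; exact nD d hd _ (nF f hf _ hXΔ)
  · rw [← cj_mul]; exact nD d hd _ (nF f hf _ hYΔ)

include hS hNI hΔ hTI in
theorem good_rcc (hP : P ∈ S) (hX : Good Δ X) (h : RootCommutatorCase S X P) : Good Δ P := by
  have hXS := hΔ hX.1
  have h1 := good_line hS hNI hΔ hTI hX (line_symm h.1 (line_of_rcc hS hXS (hNI X hXS) h))
  have h2 : P ∈ linePartners S ⁅X, P⁆ := by
    have := line_of_rcc hS hP (hNI P hP) (rcc_symm h)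
    rwa [Subgroup.commutator_comm P X] at this
  exact good_line hS hNI hΔ hTI h1 h2

include hS hNI hΔ hTI in
theorem good_norm (hex : ∀ A ∈ S, ∃ P ∈ S, RootCommutatorCase S A P) (hX : Good Δ X) (hE : E ∈ S) :
    ∀ e ∈ E, ∀ A ∈ Δ, conjBy A e ∈ Δ := by
  have hXS := hΔ hX.1
  have selfn : Good Δ E → ∀ e ∈ E, ∀ A ∈ Δ, conjBy A e ∈ Δ := fun h =>
    ti_norm hTI hE h.1 (fun e he => cj_self he)
  rcases hS.pair X hXS E hE with h | h | h
  · exact ti_norm hTI hE hX.1 (fun e he => cj_cent (fun x hx => (comm_iff.1 h x hx e he).symm))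
  · apply selfn
    obtain ⟨P, hP, hr⟩ := hex X hXS
    have hl : ⁅X, P⁆ ∈ linePartners S X := line_symm hr.1 (line_of_rcc hS hXS (hNI X hXS) hr)
    obtain ⟨C', hC', hC'X, hr'⟩ := pencil hS hNI hXS hl hE h
    obtain ⟨-, hl'⟩ := line_span hS hNI hXS hl ⟨hXS, le_sup_left⟩ hC' hC'X.symm
    exact good_rcc hS hNI hΔ hTI hE (good_line hS hNI hΔ hTI hX hl') hr'
  · exact selfn (good_rcc hS hNI hΔ hTI hE hX h)

include hS hNI hΔ hTI in
theorem good_all (hcl : IsConjClassOfSubgroups S) (hex : ∀ A ∈ S, ∃ P ∈ S, RootCommutatorCase S A P) (hX : Good Δ X) :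
    Δ = S := by
  apply Set.Subset.antisymm hΔ
  intro E hE
  obtain ⟨g, rfl⟩ := hcl.2 X (hΔ hX.1) E hE
  have key : ∀ g : G, ∀ A ∈ Δ, conjBy A g ∈ Δ ∧ conjBy A g⁻¹ ∈ Δ := by
    intro g
    have hg : g ∈ (⨆ A ∈ S, A : Subgroup G) := by rw [hS.generates]; exact Subgroup.mem_top g
    have hle : (⨆ A ∈ S, A : Subgroup G) ≤ Subgroup.closure (⋃ A ∈ S, (A : Set G)) := by
      refine iSup₂_le ?_
      intro A hA x hx
      exact Subgroup.subset_closure (Set.mem_biUnion hA hx)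
    have hg' := hle hg
    clear hg
    induction hg' using Subgroup.closure_induction with
    | mem y hy =>
      intro A hA
      obtain ⟨D, hD, hyD⟩ := Set.mem_iUnion₂.1 hy
      have := good_norm hS hNI hΔ hTI hex hX hD
      exact ⟨this y hyD A hA, this y⁻¹ (D.inv_mem hyD) A hA⟩
    | one => intro A hA; rw [inv_one, cj_one]; exact ⟨hA, hA⟩
    | mul x y _ _ hx hy =>
      intro A hA
      rw [mul_inv_rev, ← cj_mul, ← cj_mul]
      exact ⟨(hx _ (hy A hA).1).1, (hy _ (hx A hA).2).2⟩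
    | inv x _ hx =>
      intro A hA
      rw [inv_inv]
      exact ⟨(hx A hA).2, (hx A hA).1⟩
  exact (key g X hX.1).1

include hS hNI hΔ hTI in
theorem ti_abel (hcl : IsConjClassOfSubgroups S) (hex : ∀ A ∈ S, ∃ P ∈ S, RootCommutatorCase S A P)
    (hne : Δ ≠ S) : ∀ A ∈ Δ, ∀ B ∈ Δ, ⁅A, B⁆ = ⊥ := by
  intro A hA B hB
  rcases hS.pair A (hΔ hA) B (hΔ hB) with h | h | h
  · exact h
  · exact absurd (good_all hS hNI hΔ hTI hcl hex ⟨hA, B, hB, h⟩) hne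
  · exfalso
    obtain ⟨D, hD⟩ := natmod_exists hS hNI (hΔ hA) (hΔ hB) h
    have nD := ti_norm hTI hD.hD hA (fun e he => cj_cent (hD.commDA e he))
    have hr := hD.rank
    obtain ⟨d, hd, hd1⟩ := exists_ne (hS.ne_bot D hD.hD)
    have h5 := third (symm hr) hd hd1
    have h6 := pair_Om hr left_mem (cj_mem left_mem (Subgroup.mem_sup_right hd)) h5.1.symm
    exact hne (good_all hS hNI hΔ hTI hcl hex ⟨hB, _, nD d hd B hB, h6.1⟩)

end TI

/-! ### 𝓔-connectivity -/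

theorem line_cj (hS : IsRootSubgroupSet S) (h : B ∈ linePartners S A) (g : G) :
    conjBy B g ∈ linePartners S (conjBy A g) := by
  refine ⟨⟨hS.conj_mem B h.1.1 g, fun h1 => h.1.2.1 (cj_inj h1), cj_comm_bot h.1.2.2⟩, ?_⟩
  rw [← cj_sup]
  obtain ⟨p1, p2, p3⟩ := h.2
  refine ⟨fun C hC => hC.2, ?_, ?_⟩
  · intro x hx hx1
    rw [mem_cj] at hx
    obtain ⟨C, hC, hxC⟩ := p2 _ hx (fun h => hx1 (by
      have : x = g * (g⁻¹ * x * g) * g⁻¹ := by group
      rw [this, h]; group))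
    exact ⟨conjBy C g, ⟨hS.conj_mem C hC.1 g, cj_mono hC.2 g⟩, mem_cj.2 hxC⟩
  · intro C hC D hD hCD
    have hC' : conjBy C g⁻¹ ∈ membersIn S (A ⊔ B) := by
      refine ⟨hS.conj_mem C hC.1 _, ?_⟩
      have := cj_mono hC.2 g⁻¹
      rwa [cj_mul, inv_mul_cancel, cj_one] at this
    have hD' : conjBy D g⁻¹ ∈ membersIn S (A ⊔ B) := by
      refine ⟨hS.conj_mem D hD.1 _, ?_⟩
      have := cj_mono hD.2 g⁻¹
      rwa [cj_mul, inv_mul_cancel, cj_one] at this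
    have h3 := p3 _ hC' _ hD' (fun h => hCD (cj_inj h))
    rw [← cj_inf, cj_eq_bot] at h3
    exact h3

theorem EAdj_symm (h : EAdj S S A B) : EAdj S S B A := ⟨h.2.1, h.1, line_symm h.1 h.2.2⟩

theorem ER_symm (h : Relation.ReflTransGen (EAdj S S) A B) : Relation.ReflTransGen (EAdj S S) B A := by
  induction h with
  | refl => exact Relation.ReflTransGen.refl
  | tail _ h ih => exact Relation.ReflTransGen.head (EAdj_symm h) ih

theorem ER_cj (hS : IsRootSubgroupSet S) (g : G) (h : Relation.ReflTransGen (EAdj S S) A B) :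
    Relation.ReflTransGen (EAdj S S) (conjBy A g) (conjBy B g) := by
  induction h with
  | refl => exact Relation.ReflTransGen.refl
  | tail _ h ih =>
    exact Relation.ReflTransGen.tail ih ⟨hS.conj_mem _ h.1 g, hS.conj_mem _ h.2.1 g, line_cj hS h.2.2 g⟩

theorem E_connected (hS : IsRootSubgroupSet S) (hcl : IsConjClassOfSubgroups S) (hNI : ∀ A ∈ S, NI S A)
    (hex : ∀ A ∈ S, ∃ P ∈ S, RootCommutatorCase S A P) : IsConnectedFamily (EAdj S S) S := by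
  intro A hA B hB
  set Δ : Set (Subgroup G) := {C | C ∈ S ∧ Relation.ReflTransGen (EAdj S S) A C} with hΔdef
  obtain ⟨P, hP, hr⟩ := hex A hA
  have hAC : EAdj S S A ⁅A, P⁆ := ⟨hA, hr.1, line_symm hr.1 (line_of_rcc hS hA (hNI A hA) hr)⟩
  have hCP : EAdj S S ⁅A, P⁆ P := by
    refine ⟨hr.1, hP, ?_⟩
    have := line_of_rcc hS hP (hNI P hP) (rcc_symm hr)
    rwa [Subgroup.commutator_comm P A] at this
  have hPΔ : P ∈ Δ := ⟨hP, (Relation.ReflTransGen.single hAC).tail hCP⟩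
  have hAΔ : A ∈ Δ := ⟨hA, Relation.ReflTransGen.refl⟩
  have hTI : ∀ d ∈ rootElements S, (fun A => conjBy A d) '' Δ = Δ ∨ Disjoint ((fun A => conjBy A d) '' Δ) Δ := by
    intro d _
    by_cases hd : Disjoint ((fun A => conjBy A d) '' Δ) Δ
    · exact Or.inr hd
    · left
      rw [Set.not_disjoint_iff] at hd
      obtain ⟨_, ⟨C, hC, rfl⟩, hC2⟩ := hd
      -- A ~ C, A ~ C^d, so A^d ~ C^d ~ A
      have h1 : Relation.ReflTransGen (EAdj S S) A (conjBy A d) :=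
        hC2.2.trans (ER_symm (ER_cj hS d hC.2))
      ext E
      constructor
      · rintro ⟨E', hE', rfl⟩
        exact ⟨hS.conj_mem E' hE'.1 d, h1.trans (ER_cj hS d hE'.2)⟩
      · intro hE
        refine ⟨conjBy E d⁻¹, ⟨hS.conj_mem E hE.1 _, ?_⟩, ?_⟩
        · have h2 := ER_cj hS d⁻¹ ((ER_symm h1).trans hE.2)
          rwa [cj_mul, inv_mul_cancel, cj_one] at h2
        · show conjBy (conjBy E d⁻¹) d = E
          rw [cj_mul, mul_inv_cancel, cj_one]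
  by_cases hne : Δ = S
  · have : B ∈ Δ := by rw [hne]; exact hB
    exact this.2
  · exfalso
    exact comm_excl hS hr (ti_abel hS hNI (fun C hC => hC.1) hTI hcl hex hne A hAΔ P hPΔ)

/-- S5042 -/
theorem gen_line (hS : IsRootSubgroupSet S) (hcl : IsConjClassOfSubgroups S) (hNI : ∀ A ∈ S, NI S A)
    (hex : ∀ A ∈ S, ∃ P ∈ S, RootCommutatorCase S A P) (hA : A ∈ S) (hB : B ∈ S) (hAB : IsRankOnePair A B) :
    (⨆ C ∈ linePartners S A, C) ⊔ B = ⊤ := by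
  obtain ⟨R, hR⟩ : ∃ R : Subgroup G, R = (⨆ C ∈ linePartners S A, C) ⊔ B := ⟨_, rfl⟩
  rw [← hR]
  have hlR : ∀ C ∈ linePartners S A, C ≤ R := by
    intro C hC
    rw [hR]
    exact le_sup_of_le_left (le_iSup₂_of_le (f := fun (C : Subgroup G) (_ : C ∈ linePartners S A) => C) C hC le_rfl)
  have hBR : B ≤ R := by rw [hR]; exact le_sup_right
  clear hR
  have hAR : A ≤ R := by
    obtain ⟨P, hP, hr⟩ := hex A hA
    have hl : ⁅A, P⁆ ∈ linePartners S A := line_symm hr.1 (line_of_rcc hS hA (hNI A hA) hr)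
    -- third member
    obtain ⟨p, hp, hp1⟩ := exists_ne (hS.ne_bot P hP)
    have hm : conjBy A p ∈ membersIn S (A ⊔ ⁅A, P⁆) := ⟨hS.conj_mem A hA p, rcc_cj_le hr hp⟩
    have hne1 : conjBy A p ≠ A := by
      intro h
      have := sup_cj_eq hr hp hp1
      rw [h, sup_idem] at this
      have h2 : ⁅A, P⁆ ≤ A := le_of_le_of_eq le_sup_right this.symm
      have h3 := rcc_inf hS hA hr
      rw [inf_eq_right.2 h2] at h3
      exact hS.ne_bot _ hr.1 h3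
    have hne2 : ⁅A, P⁆ ≠ conjBy A p := by
      intro h
      have h2 : conjBy ⁅A, P⁆ p⁻¹ = A := by rw [h, cj_mul, inv_mul_cancel, cj_one]
      rw [cj_cent (D := ⁅A, P⁆) (fun c hc => rcc_comm_right hr p⁻¹ (P.inv_mem hp) c hc)] at h2
      exact rcc_ne hS hA hr h2.symm
    obtain ⟨-, hl1⟩ := line_span hS hNI hA hl ⟨hA, le_sup_left⟩ hm hne1.symm
    obtain ⟨hsp, -⟩ := line_span hS hNI hA hl ⟨hr.1, le_sup_right⟩ hm hne2
    have : A ≤ ⁅A, P⁆ ⊔ conjBy A p := by rw [hsp]; exact le_sup_left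
    exact this.trans (sup_le (hlR _ hl) (hlR _ hl1))
  -- the property
  let Q : Subgroup G → Prop := fun X => X ≤ R ∧ (∀ C ∈ linePartners S X, C ≤ R) ∧ ∃ Y ∈ S, Y ≤ R ∧ IsRankOnePair X Y
  have hcjR : ∀ C : Subgroup G, C ≤ R → ∀ g ∈ R, conjBy C g ≤ R := fun C hC g hg => cj_le_self hC hg
  have hQcj : ∀ X : Subgroup G, Q X → ∀ g ∈ R, Q (conjBy X g) := by
    rintro X ⟨h1, h2, Y, hY, hYR, hXY⟩ g hg
    refine ⟨hcjR X h1 g hg, ?_, conjBy Y g, hS.conj_mem Y hY g, hcjR Y hYR g hg, cj_pair hXY g⟩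
    intro C hC
    have h3 := line_cj hS hC g⁻¹
    rw [cj_mul, inv_mul_cancel, cj_one] at h3
    have h4 := hcjR _ (h2 _ h3) g hg
    rwa [cj_mul, mul_inv_cancel, cj_one] at h4
  have hQ0 : Q A := ⟨hAR, hlR, B, hB, hBR, hAB⟩
  have hstep : ∀ X ∈ S, Q X → ∀ C ∈ linePartners S X, Q C := by
    rintro X hX ⟨h1, h2, Y, hY, hYR, hXY⟩ C hl
    obtain ⟨C3, F, D', hl3, hFe, hF, hD', hlD, hFY, horb⟩ := line_orbit hS hNI hX hY hXY hl
    obtain ⟨f, hf, d, hd, rfl⟩ := horb C ⟨hl.1.1, le_sup_right⟩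
    apply hQcj X ⟨h1, h2, Y, hY, hYR, hXY⟩
    refine mul_mem (h2 D' hlD hd) ?_
    have hFR : F ≤ R := by
      rw [hFe, Subgroup.commutator_le]
      intro x hx y hy
      have hx' := h2 C3 hl3 hx
      have hy' := hYR hy
      exact mul_mem (mul_mem (mul_mem hx' hy') (inv_mem hx')) (inv_mem hy')
    exact hFR hf
  have hall : ∀ E ∈ S, Q E := by
    intro E hE
    have := E_connected hS hcl hNI hex A hA E hE
    induction this with
    | refl => exact hQ0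
    | tail h' h ih => exact hstep _ h.1 (ih h.1) _ h.2.2
  rw [eq_top_iff, ← hS.generates]
  exact iSup₂_le fun E hE => (hall E hE).1

end Cfsg.Agent.H13.RS
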