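import Mathlib
import Cfsg.Prelude.Def_RootSubgroups
import Cfsg.Agent.H13_RO
import Cfsg.Agent.H13_RS
import Cfsg.Agent.H13_RS2
import Cfsg.Agent.H13_RS3
import Cfsg.Agent.H13_RS4
import Cfsg.Agent.H13_RS5
import Cfsg.Agent.H13_RS7
import Cfsg.Agent.H13_RS8
set_option autoImplicit false
set_option linter.all false

namespace Cfsg.Agent.H13.RS

open Cfsg Cfsg.Agent.H13.RO
open scoped commutatorElement

variable {G : Type*} [Group G] {S : Set (Subgroup G)} {A B C D E F K M P Q X Y : Subgroup G}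

theorem mem_Om' (hS : IsRootSubgroupSet S) {g : G} : D ∈ rankOnePartners S (conjBy A g) ↔ conjBy D g⁻¹ ∈ rankOnePartners S A := by
  constructor
  · rintro ⟨h1, h2⟩
    refine ⟨hS.conj_mem D h1 _, ?_⟩
    have := cj_pair h2 g⁻¹
    rwa [cj_mul, inv_mul_cancel, cj_one] at this
  · rintro ⟨h1, h2⟩
    have h3 := hS.conj_mem _ h1 g
    rw [cj_mul, mul_inv_cancel, cj_one] at h3
    refine ⟨h3, ?_⟩
    have := cj_pair h2 g
    rwa [cj_mul, mul_inv_cancel, cj_one] at this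

/-- the monoid `P` -/
def PP (S : Set (Subgroup G)) (B : Subgroup G) (g : G) : Prop :=
  rankOnePartners S B ⊆ rankOnePartners S (conjBy B g)

theorem PP_mul (hS : IsRootSubgroupSet S) {g h : G} (hg : PP S B g) (hh : PP S B h) : PP S B (h * g) := by
  intro D hD
  have h1 := hh hD
  rw [mem_Om' hS] at h1
  have h2 := hg h1
  rw [mem_Om' hS] at h2 ⊢
  rw [cj_mul] at h2
  rw [mul_inv_rev]
  exact h2

theorem PP_not (hS : IsRootSubgroupSet S) (hB : B ∈ S) {g : G} (h : PP S B g) : ¬ IsRankOnePair B (conjBy B g) := by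
  intro h1
  have h2 := h ⟨hS.conj_mem B hB g, h1⟩
  exact h2.2.ne rfl

theorem PP_not' (hS : IsRootSubgroupSet S) (hB : B ∈ S) {g : G} (h : PP S B g) (hg1 : g ≠ 1) (hgC : g ∈ C) :
    ¬ IsRankOnePair C B := by
  intro h1
  apply PP_not hS hB h
  have h2 := third h1 hgC hg1
  exact (pair_Om h1 (right_mem h1) (cj_mem (right_mem h1) (Subgroup.mem_sup_left hgC)) h2.1.symm).1

/-- for `α ∈ A#` there are `b, γ` -/
theorem PP_ex (hS : IsRootSubgroupSet S) (hAB : IsRankOnePair A B) (hCB : IsRankOnePair C B)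
    (hsub : rankOnePartners S A ⊆ rankOnePartners S C) {α : G} (hα : α ∈ A) (hα1 : α ≠ 1) :
    ∃ γ ∈ C, γ ≠ 1 ∧ PP S B (α * γ) ∧ ∃ n : G, conjBy A n = B ∧ conjBy C n = conjBy B (α * γ) := by
  obtain ⟨b, hb, hb1, hbe⟩ := cond hAB (A.inv_mem hα) (inv_ne_one.2 hα1)
  obtain ⟨γ, hγ, hγ1, hγe⟩ := cond (symm hCB) hb hb1
  -- conjBy A b = conjBy B α⁻¹; conjBy B γ = conjBy C b
  have h1 : conjBy A (α * b) = B := by
    rw [← cj_mul, hbe, cj_mul, mul_inv_cancel, cj_one]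
  have h2 : conjBy C (α * b) = conjBy B (α * γ) := by
    rw [← cj_mul, ← hγe, cj_mul]
  refine ⟨γ, hγ, hγ1, ?_, α * b, h1, h2⟩
  intro D hD
  rw [← h2]
  rw [← h1] at hD
  rw [mem_Om' hS] at hD ⊢
  exact hsub hD

theorem comm_case (hS : IsRootSubgroupSet S) (hB : B ∈ S)
    (hAC : ∀ a ∈ A, ∀ c ∈ C, a * c = c * a) (hAB : IsRankOnePair A B)
    (hsub : rankOnePartners S A ⊆ rankOnePartners S C) : rankOnePartners S C ⊆ rankOnePartners S A := by
  have hCB : IsRankOnePair C B := (hsub ⟨hB, hAB⟩).2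
  obtain ⟨α, hα, hα1⟩ := exists_ne (left_ne_bot hAB)
  obtain ⟨γ, hγ, hγ1, hP, n, hn1, hn2⟩ := PP_ex hS hAB hCB hsub hα hα1
  obtain ⟨γ', hγ', hγ1', hP', -⟩ := PP_ex hS hAB hCB hsub (A.inv_mem hα) (inv_ne_one.2 hα1)
  have h1 := PP_mul hS hP' hP
  have h2 : α * γ * (α⁻¹ * γ') = γ * γ' := by
    rw [hAC α hα γ hγ]; group
  rw [h2] at h1
  have h3 : γ * γ' = 1 := by
    by_contra h3
    exact PP_not' hS hB h1 h3 (C.mul_mem hγ hγ') hCB
  have h4 : γ' = γ⁻¹ := eq_inv_of_mul_eq_one_right h3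
  have h5 : α⁻¹ * γ' = (α * γ)⁻¹ := by
    rw [h4, mul_inv_rev]
    have c1 : Commute α γ := hAC α hα γ hγ
    exact (c1.inv_left.inv_right)
  rw [h5] at hP'
  intro D hD
  -- conj D n ∈ Ω_{conj B g}
  have h6 : conjBy D n ∈ rankOnePartners S (conjBy B (α * γ)) := by
    rw [← hn2, mem_Om' hS, cj_mul, inv_mul_cancel, cj_one]; exact hD
  rw [mem_Om' hS] at h6
  have h7 := hP' h6
  rw [mem_Om' hS, cj_mul, inv_inv, mul_inv_cancel, cj_one, ← hn1, mem_Om' hS, cj_mul, inv_mul_cancel, cj_one] at h7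
  exact h7

theorem line_eq_absurd (hS : IsRootSubgroupSet S) (hNI : ∀ A ∈ S, NI S A) (hA : A ∈ S) (hl : C ∈ linePartners S A)
    (hB : B ∈ membersIn S (A ⊔ C)) (hBA : B ≠ A) (hsub : rankOnePartners S A ⊆ rankOnePartners S B) : False := by
  obtain ⟨D, hD, hAD⟩ := hNI A hA
  obtain ⟨C', hC', hC'A, hr⟩ := pencil hS hNI hA hl hD hAD
  obtain ⟨x, hx, hx1, hx2⟩ := line_trans hS hNI hA hl rfl A ⟨hA, le_sup_left⟩ B hB A ⟨hA, le_sup_left⟩ C' hC'
    hBA.symm hC'A.symm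
  have h1 : D ∈ rankOnePartners S C' := by
    rw [← hx2, mem_Om' hS]
    apply hsub
    rw [← mem_Om' hS, hx1]
    exact ⟨hD, hAD⟩
  exact rcc_excl hS hD hr h1.2

theorem rcc_case (hS : IsRootSubgroupSet S) (hNI : ∀ A ∈ S, NI S A) (hA : A ∈ S) (hC : C ∈ S)
    (hr : RootCommutatorCase S A C) (hsub : rankOnePartners S A ⊆ rankOnePartners S C) : False := by
  obtain ⟨B, hB, hAB⟩ := hNI A hA
  have hCB : IsRankOnePair C B := (hsub ⟨hB, hAB⟩).2
  obtain ⟨α, hα, hα1⟩ := exists_ne (left_ne_bot hAB)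
  obtain ⟨γ, hγ, hγ1, hP, -⟩ := PP_ex hS hAB hCB hsub hα hα1
  obtain ⟨γ', hγ', hγ1', hP', -⟩ := PP_ex hS hAB hCB hsub (A.inv_mem hα) (inv_ne_one.2 hα1)
  have h1 := PP_mul hS hP' hP
  have h2 : α * γ * (α⁻¹ * γ') = ⁅α, γ⁆ * (γ * γ') := by rw [commutatorElement_def]; group
  rw [h2] at h1
  have hk : ⁅α, γ⁆ ∈ ⁅A, C⁆ := Subgroup.commutator_mem_commutator hα hγ
  have hk1 : ⁅α, γ⁆ ≠ 1 := fun h => hγ1 (rcc_inj hS hA (hNI A hA) hr hα hα1 hγ h)
  by_cases h3 : γ * γ' = 1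
  · rw [h3, mul_one] at h1
    rcases C_cases hS hA hB hAB hr with h4 | h4
    · exact PP_not' hS hB h1 hk1 hk h4
    · have h5 := rcc_symm h4
      have hm : conjBy B ⁅α, γ⁆ ∈ membersIn S (B ⊔ ⁅B, ⁅A, C⁆⁆) := ⟨hS.conj_mem B hB _, rcc_cj_le h5 hk⟩
      have hne : conjBy B ⁅α, γ⁆ ≠ B := by
        intro h6
        have h7 := sup_cj_eq h5 hk hk1
        rw [h6, sup_idem] at h7
        have h8 : ⁅B, ⁅A, C⁆⁆ ≤ B := le_of_le_of_eq le_sup_right h7.symm
        have h9 := rcc_inf hS hB h5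
        rw [inf_eq_right.2 h8] at h9
        exact hS.ne_bot _ h5.1 h9
      exact line_eq_absurd hS hNI hB (line_symm h5.1 (line_of_rcc hS hB (hNI B hB) h5)) hm hne h1
  · have hC' : γ * γ' ∈ C := C.mul_mem hγ hγ'
    have hr' := rcc_symm hr
    have hmem : ⁅α, γ⁆ * (γ * γ') ∈ C ⊔ ⁅C, A⁆ := by
      rw [Subgroup.commutator_comm C A]
      exact mul_mem (Subgroup.mem_sup_right hk) (Subgroup.mem_sup_left hC')
    rcases rcc_cover hr' hmem with h4 | ⟨α', hα', h4⟩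
    · rw [Subgroup.commutator_comm C A] at h4
      have h5 : γ * γ' ∈ ⁅A, C⁆ := by
        have := mul_mem (inv_mem hk) h4
        rwa [inv_mul_cancel_left] at this
      have h6 := rcc_inf hS hC hr'
      rw [Subgroup.eq_bot_iff_forall] at h6
      exact h3 (h6 _ (Subgroup.mem_inf.2 ⟨hC', by rw [Subgroup.commutator_comm]; exact h5⟩))
    · have h5 : IsRankOnePair (conjBy C α') B := by
        have h6 : conjBy B α'⁻¹ ∈ rankOnePartners S A := by
          refine ⟨hS.conj_mem B hB _, ?_⟩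
          have := cj_pair hAB α'⁻¹
          rwa [cj_self (A.inv_mem hα')] at this
        have h7 := (hsub h6).2
        have := cj_pair h7 α'
        rwa [cj_mul, mul_inv_cancel, cj_one] at this
      have hne : ⁅α, γ⁆ * (γ * γ') ≠ 1 := by
        intro h6
        have h7 : γ * γ' = ⁅α, γ⁆⁻¹ := eq_inv_of_mul_eq_one_right h6
        have h8 := rcc_inf hS hC hr'
        rw [Subgroup.eq_bot_iff_forall] at h8
        exact h3 (h8 _ (Subgroup.mem_inf.2 ⟨hC', by rw [Subgroup.commutator_comm, h7]; exact inv_mem hk⟩))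
      exact PP_not' hS hB h1 hne h4 h5

theorem part2 (hS : IsRootSubgroupSet S) (hcl : IsConjClassOfSubgroups S)
    (hdn : IsDegenerateRootSet S ∨ IsNondegenerateRootSet S) (hA : A ∈ S) (hC : C ∈ S) (hAC : A ≠ C)
    (hsub : rankOnePartners S A ⊆ rankOnePartners S C) :
    ⁅A, C⁆ = ⊥ ∧ rankOnePartners S A = rankOnePartners S C := by
  have hcomm : ⁅A, C⁆ = ⊥ := by
    rcases hS.pair A hA C hC with h | h | h
    · exact h
    · exact absurd rfl (hsub ⟨hC, h⟩).2.ne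
    · exfalso
      rcases hdn with hd | hn
      · exact hd A hA C hC h
      · exact rcc_case hS (class_NI hcl hS hn.2.1) hA hC h hsub
  refine ⟨hcomm, Set.Subset.antisymm hsub ?_⟩
  by_cases hNI : NI S A
  · obtain ⟨B, hB, hAB⟩ := hNI
    exact comm_case hS hB (comm_iff.1 hcomm) hAB hsub
  · intro D hD
    exfalso
    apply hNI
    obtain ⟨g, rfl⟩ := hcl.2 C hC A hA
    exact NI.cj hS ⟨D, hD.1, hD.2⟩ g

theorem mem_cS : E ∈ centralizingMembers S A ↔ E ∈ S ∧ ⁅E, A⁆ = ⊥ := by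
  unfold centralizingMembers
  rw [Set.mem_setOf_eq, Subgroup.commutator_eq_bot_iff_le_centralizer]

theorem part1 (hS : IsRootSubgroupSet S) (hcl : IsConjClassOfSubgroups S)
    (hdn : IsDegenerateRootSet S ∨ IsNondegenerateRootSet S) (hA : A ∈ S) (hC : C ∈ S) (hAC : A ≠ C)
    (hsub : centralizingMembers S A ⊆ centralizingMembers S C) :
    centralizingMembers S A = centralizingMembers S C := by
  have hcomm : ⁅A, C⁆ = ⊥ := by
    have h1 : A ∈ centralizingMembers S A := mem_cS.2 ⟨hA, comm_iff.2 (fun x hx y hy => abel hS hA hx hy)⟩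
    exact (mem_cS.1 (hsub h1)).2
  have h1 : rankOnePartners S C ⊆ rankOnePartners S A := by
    rintro E ⟨hE, hCE⟩
    refine ⟨hE, ?_⟩
    rcases hS.pair A hA E hE with h | h | h
    · exfalso
      have h2 := hsub (mem_cS.2 ⟨hE, comm_symm h⟩)
      exact rank_noncomm (symm hCE) (mem_cS.1 h2).2
    · exact h
    · exfalso
      have h3 := rcc_symm h
      have h4 := hsub (mem_cS.2 ⟨h.1, comm_iff.2 (fun x hx y hy => (rcc_comm_left h y hy x hx).symm)⟩)
      have h5 := (mem_cS.1 h4).2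
      rcases C_cases hS hE hC (symm hCE) h3 with h6 | h6
      · rw [Subgroup.commutator_comm E A] at h6
        exact rank_noncomm h6 h5
      · rw [Subgroup.commutator_comm E A] at h6
        exact comm_excl hS h6 h5
  have h2 := (part2 hS hcl hdn hC hA hAC.symm h1).2
  apply Set.Subset.antisymm hsub
  intro E hE
  rw [mem_cS] at hE ⊢
  refine ⟨hE.1, ?_⟩
  rcases hS.pair A hA E hE.1 with h | h | h
  · exact comm_symm h
  · exfalso
    have h3 : E ∈ rankOnePartners S C := by rw [h2]; exact ⟨hE.1, h⟩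
    exact rank_noncomm (symm h3.2) hE.2
  · exfalso
    have hNI : ∀ A ∈ S, NI S A := by
      rcases hdn with hd | hn
      · exact absurd h (hd A hA E hE.1)
      · exact class_NI hcl hS hn.2.1
    obtain ⟨ε, hε, hε1⟩ := exists_ne (hS.ne_bot E hE.1)
    have hm : conjBy A ε ∈ membersIn S (A ⊔ ⁅A, E⁆) := ⟨hS.conj_mem A hA _, rcc_cj_le h hε⟩
    have hne : conjBy A ε ≠ A := by
      intro h6
      have h7 := sup_cj_eq h hε hε1
      rw [h6, sup_idem] at h7
      have h8 : ⁅A, E⁆ ≤ A := le_of_le_of_eq le_sup_right h7.symm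
      have h9 := rcc_inf hS hA h
      rw [inf_eq_right.2 h8] at h9
      exact hS.ne_bot _ h.1 h9
    refine line_eq_absurd hS hNI hA (line_symm h.1 (line_of_rcc hS hA (hNI A hA) h)) hm hne ?_
    intro D hD
    rw [← h2] at hD
    rw [mem_Om' hS, ← h2]
    have hCe : conjBy C ε = C := cj_cent (fun c hc => comm_iff.1 hE.2 ε hε c hc)
    rw [← mem_Om' hS, hCe]
    exact hD

end Cfsg.Agent.H13.RS
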