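import Mathlib
import Cfsg.Prelude.Def_RootSubgroups
import Cfsg.Agent.H13_RO
import Cfsg.Agent.H13_RS
import Cfsg.Agent.H13_RS2
import Cfsg.Agent.H13_RS3
set_option autoImplicit false
set_option linter.all false

namespace Cfsg.Agent.H13.RS

open Cfsg Cfsg.Agent.H13.RO
open scoped commutatorElement

variable {G H : Type*} [Group G] [Group H] {S : Set (Subgroup G)} {A B C D E F K : Subgroup G}

theorem map_cj (f : G →* H) (A : Subgroup G) (g : G) : (conjBy A g).map f = conjBy (A.map f) (f g) := by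
  ext x
  constructor
  · rintro ⟨y, hy, rfl⟩
    rw [SetLike.mem_coe, mem_cj] at hy
    rw [mem_cj]
    exact ⟨g⁻¹ * y * g, hy, by simp⟩
  · intro hx
    rw [mem_cj] at hx
    obtain ⟨y, hy, hyx⟩ := hx
    refine ⟨g * y * g⁻¹, ?_, ?_⟩
    · rw [SetLike.mem_coe, mem_cj]
      have : g⁻¹ * (g * y * g⁻¹) * g = y := by group
      rwa [this]
    · rw [map_mul, map_mul, hyx, map_inv]; group

theorem map_rank (f : G →* H) (h : IsRankOnePair A B) (hne : A.map f ≠ B.map f) :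
    IsRankOnePair (A.map f) (B.map f) := by
  have nil : ∀ C : Subgroup G, Group.IsNilpotent C → Group.IsNilpotent (C.map f) := by
    intro C hC
    exact Group.nilpotent_of_surjective (f.subgroupMap C) (f.subgroupMap_surjective C)
  have cnd : ∀ C D : Subgroup G, C.map f ≠ D.map f → RankOneCondition C D →
      RankOneCondition (C.map f) (D.map f) := by
    rintro C D hne hCD _ ⟨a, ha, rfl⟩ ha1
    obtain ⟨b, hb, hb1, hbe⟩ := hCD a ha (fun h => ha1 (by rw [h, map_one]))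
    have h2 := congrArg (fun C => C.map f) hbe
    simp only [map_cj] at h2
    refine ⟨f b, ⟨b, hb, rfl⟩, ?_, ?_⟩
    · intro h3
      rw [map_inv, h3, inv_one, cj_one, map_inv] at h2
      apply hne
      have h4 : conjBy (C.map f) (f a)⁻¹ = C.map f := cj_self (inv_mem ⟨a, ha, rfl⟩)
      rw [← h4] at h2
      exact cj_inj h2
    · rw [← map_inv, ← map_inv]; exact h2
  exact ⟨hne, nil _ h.nilpotent_left, nil _ h.nilpotent_right, cnd _ _ hne h.cond_left,
    cnd _ _ hne.symm h.cond_right⟩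

theorem map_root (hS : IsRootSubgroupSet S) (f : G →* H) (hf : Function.Surjective f)
    (hne : ∀ A ∈ S, A.map f ≠ ⊥) : IsRootSubgroupSet ((fun A : Subgroup G => A.map f) '' S) := by
  refine ⟨?_, ?_, ?_, ?_, ?_⟩
  · rintro _ ⟨A, hA, rfl⟩
    refine ⟨⟨?_⟩⟩
    rintro ⟨_, a, ha, rfl⟩ ⟨_, b, hb, rfl⟩
    apply Subtype.ext
    show f a * f b = f b * f a
    rw [← map_mul, ← map_mul, abel hS hA ha hb]
  · rintro _ ⟨A, hA, rfl⟩
    exact hne A hA
  · rw [eq_top_iff]
    intro y _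
    obtain ⟨x, rfl⟩ := hf y
    have hx : x ∈ (⨆ A ∈ S, A : Subgroup G) := by rw [hS.generates]; exact Subgroup.mem_top x
    have hle : (⨆ A ∈ S, A : Subgroup G) ≤ (⨆ A ∈ (fun A : Subgroup G => A.map f) '' S, A).comap f := by
      refine iSup₂_le ?_
      intro A hA a ha
      rw [Subgroup.mem_comap]
      exact (le_iSup₂_of_le (f := fun (A : Subgroup H) (_ : A ∈ (fun A : Subgroup G => A.map f) '' S) => A)
        (A.map f) ⟨A, hA, rfl⟩ le_rfl) ⟨a, ha, rfl⟩
    exact hle hx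
  · rintro _ ⟨A, hA, rfl⟩ g
    obtain ⟨x, rfl⟩ := hf g
    exact ⟨conjBy A x, hS.conj_mem A hA x, map_cj f A x⟩
  · rintro _ ⟨A, hA, rfl⟩ _ ⟨B, hB, rfl⟩
    rcases hS.pair A hA B hB with h | h | h
    · left
      show ⁅A.map f, B.map f⁆ = ⊥
      rw [← Subgroup.map_commutator, h, Subgroup.map_bot]
    · by_cases heq : A.map f = B.map f
      · left
        show ⁅A.map f, B.map f⁆ = ⊥
        rw [← heq, comm_iff]
        rintro _ ⟨a, ha, rfl⟩ _ ⟨b, hb, rfl⟩
        rw [← map_mul, ← map_mul, abel hS hA ha hb]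
      · right; left
        exact map_rank f h heq
    · right; right
      have hcomm : ⁅A.map f, B.map f⁆ = ⁅A, B⁆.map f := (Subgroup.map_commutator _ _ _).symm
      refine ⟨?_, ?_, ?_, ?_⟩
      · show ⁅A.map f, B.map f⁆ ∈ _
        rw [hcomm]; exact ⟨_, h.1, rfl⟩
      · show ∀ c ∈ ⁅A.map f, B.map f⁆, ∀ x ∈ A.map f ⊔ B.map f, c * x = x * c
        rw [hcomm, ← Subgroup.map_sup]
        rintro _ ⟨c, hc, rfl⟩ _ ⟨x, hx, rfl⟩
        rw [← map_mul, ← map_mul, h.2.1 c hc x hx]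
      · show ∀ a ∈ A.map f, a ≠ 1 → _ = ⁅A.map f, B.map f⁆
        rintro _ ⟨a, ha, rfl⟩ ha1
        have ha1' : a ≠ 1 := by rintro rfl; exact ha1 (map_one f)
        rw [hcomm, ← h.2.2.1 a ha ha1', MonoidHom.map_closure]
        congr 1
        ext y
        constructor
        · rintro ⟨_, ⟨b, hb, rfl⟩, rfl⟩
          exact ⟨_, ⟨b, hb, rfl⟩, by simp⟩
        · rintro ⟨_, ⟨b, hb, rfl⟩, rfl⟩
          exact ⟨f b, ⟨b, hb, rfl⟩, by simp⟩
      · show ∀ b ∈ B.map f, b ≠ 1 → _ = ⁅A.map f, B.map f⁆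
        rintro _ ⟨b, hb, rfl⟩ hb1
        have hb1' : b ≠ 1 := by rintro rfl; exact hb1 (map_one f)
        rw [hcomm, ← h.2.2.2 b hb hb1', MonoidHom.map_closure]
        congr 1
        ext y
        constructor
        · rintro ⟨_, ⟨a, ha, rfl⟩, rfl⟩
          exact ⟨_, ⟨a, ha, rfl⟩, by simp⟩
        · rintro ⟨_, ⟨a, ha, rfl⟩, rfl⟩
          exact ⟨f a, ⟨a, ha, rfl⟩, by simp⟩

theorem map_R (f : G →* H) (h : Relation.ReflTransGen (FAdj S) A B) :
    Relation.ReflTransGen (FAdj ((fun A : Subgroup G => A.map f) '' S)) (A.map f) (B.map f) := by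
  induction h with
  | refl => exact Relation.ReflTransGen.refl
  | @tail C D _ h ih =>
    by_cases heq : C.map f = D.map f
    · rwa [← heq]
    · exact Relation.ReflTransGen.tail ih ⟨⟨C, h.1, rfl⟩, ⟨D, h.2.1, rfl⟩, map_rank f h.2.2 heq⟩

end Cfsg.Agent.H13.RS
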