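import Mathlib
import Cfsg.Prelude.Def_RootSubgroups
import Cfsg.Agent.H13_RO
set_option autoImplicit false
set_option linter.all false

namespace Cfsg.Agent.H13.SP

open Cfsg Cfsg.Agent.H13.RO

variable {G : Type*} [Group G] {A B : Subgroup G}

/-- basic relations of a special pair, left-hand version. -/
theorem rel1 (hs : IsSpecialRankOnePair A B) {a b : G} (ha : a ∈ A) (ha1 : a ≠ 1) (hb : b ∈ B)
    (hb1 : b ≠ 1) (hab : conjBy A b = conjBy B a) : a * b * a⁻¹ = b * a⁻¹ * b⁻¹ := by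
  have := hs.2 a⁻¹ (A.inv_mem ha) (inv_ne_one.2 ha1) b⁻¹ (B.inv_mem hb) (inv_ne_one.2 hb1)
    (by rw [inv_inv, inv_inv]; exact hab)
  simpa using this.symm

/-- `a⁻¹ b a = b⁻¹ a⁻¹ b` -/
theorem rel2 {a b : G} (h : a * b * a⁻¹ = b * a⁻¹ * b⁻¹) : a⁻¹ * b * a = b⁻¹ * a⁻¹ * b := by
  have h1 : a * b * a⁻¹ * b = b * a⁻¹ := by rw [h]; group
  have h2 : b * a⁻¹ * b = a⁻¹ * b * a⁻¹ := by
    have : b * a⁻¹ * b = a⁻¹ * (a * b * a⁻¹ * b) := by group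
    rw [this, h1]; group
  have : a⁻¹ * b * a = b⁻¹ * (b * a⁻¹ * b) * a := by group
  rw [this, h2]
  have h3 : b⁻¹ * (a⁻¹ * b * a⁻¹) * a = b⁻¹ * a⁻¹ * b := by group
  exact h3

theorem inv_cond (hs : IsSpecialRankOnePair A B) {a b : G} (ha : a ∈ A) (ha1 : a ≠ 1) (hb : b ∈ B)
    (hb1 : b ≠ 1) (hab : conjBy A b = conjBy B a) : conjBy A b⁻¹ = conjBy B a⁻¹ := by
  have h2 := rel2 (rel1 hs ha ha1 hb hb1 hab)
  refine inf_Om hs.1 (cj_mem (right_mem hs.1) (inv_mem (Subgroup.mem_sup_left ha)))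
    (cj_mem left_mem (inv_mem (Subgroup.mem_sup_right hb)))
    (c := a⁻¹ * b * a) ?_ ?_ ?_
  · rw [mem_cj]
    have : a⁻¹⁻¹ * (a⁻¹ * b * a) * a⁻¹ = b := by group
    rwa [this]
  · intro h
    apply hb1
    have : b = a * (a⁻¹ * b * a) * a⁻¹ := by group
    rw [this, h]; group
  · rw [h2, mem_cj]
    have : b⁻¹⁻¹ * (b⁻¹ * a⁻¹ * b) * b⁻¹ = a⁻¹ := by group
    rw [this]; exact A.inv_mem ha

theorem special_symm (hs : IsSpecialRankOnePair A B) : IsSpecialRankOnePair B A := by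
  refine ⟨symm hs.1, ?_⟩
  intro b hb hb1 a ha ha1 hba
  have h1 := hs.2 a ha ha1 b hb hb1 hba.symm
  have h2 := congrArg (fun x => x⁻¹) h1
  simp only [mul_inv_rev, inv_inv] at h2
  rw [mul_assoc, mul_assoc] at *
  exact h2.symm

/-- `μ(a) = a⁻¹ b a⁻¹` -/
def mu (a b : G) : G := a⁻¹ * b * a⁻¹

theorem mu_eq {a b : G} (h : a * b * a⁻¹ = b * a⁻¹ * b⁻¹) : mu a b = b * a⁻¹ * b := by
  have h1 : a * b * a⁻¹ * b = b * a⁻¹ := by rw [h]; group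
  have h2 : b * a⁻¹ * b = a⁻¹ * b * a⁻¹ := by
    have : b * a⁻¹ * b = a⁻¹ * (a * b * a⁻¹ * b) := by group
    rw [this, h1]; group
  exact h2.symm

theorem mu_a {a b : G} (h : a * b * a⁻¹ = b * a⁻¹ * b⁻¹) : mu a b * a * (mu a b)⁻¹ = b⁻¹ := by
  have h1 : b * a * b⁻¹ = a * b⁻¹ * a⁻¹ := by
    have := congrArg (fun x => x⁻¹) h
    simp only [mul_inv_rev, inv_inv] at this
    rw [mul_assoc, mul_assoc, ← mul_assoc b, ← mul_assoc a] at *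
    rw [this.symm]
  rw [mu_eq h]
  have : b * a⁻¹ * b * a * (b * a⁻¹ * b)⁻¹ = b * a⁻¹ * (b * a * b⁻¹) * a * b⁻¹ := by group
  rw [this, h1]; group

theorem mu_b {a b : G} (h : a * b * a⁻¹ = b * a⁻¹ * b⁻¹) : mu a b * b * (mu a b)⁻¹ = a⁻¹ := by
  have h2 := rel2 h
  rw [mu]
  have : a⁻¹ * b * a⁻¹ * b * (a⁻¹ * b * a⁻¹)⁻¹ = a⁻¹ * b * (a⁻¹ * b * a) * b⁻¹ * a := by group
  rw [this, h2]; group

theorem mu_A (hs : IsSpecialRankOnePair A B) {a b : G} (ha : a ∈ A) (ha1 : a ≠ 1) (hb : b ∈ B)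
    (hb1 : b ≠ 1) (hab : conjBy A b = conjBy B a) : conjBy A (mu a b) = B := by
  rw [mu, ← cj_mul, ← cj_mul, cj_self (A.inv_mem ha), hab, cj_mul, inv_mul_cancel, cj_one]

theorem mu_B (hs : IsSpecialRankOnePair A B) {a b : G} (ha : a ∈ A) (ha1 : a ≠ 1) (hb : b ∈ B)
    (hb1 : b ≠ 1) (hab : conjBy A b = conjBy B a) : conjBy B (mu a b) = A := by
  rw [mu_eq (rel1 hs ha ha1 hb hb1 hab), ← cj_mul, ← cj_mul, cj_self hb,
    ← inv_cond hs ha ha1 hb hb1 hab, cj_mul, mul_inv_cancel, cj_one]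

/-- F1 : for `x, y, xy ≠ 1`, with `bx = β(x)` etc.:  `β (y * μ(y) β(xy) μ(y)⁻¹) = β(y) β(x)`. -/
theorem F1 (hs : IsSpecialRankOnePair A B) (hAc : ∀ x ∈ A, ∀ y ∈ A, x * y = y * x)
    {x y bx bY bxy : G} (hx : x ∈ A) (hy : y ∈ A) (hx1 : x ≠ 1) (hy1 : y ≠ 1) (hxy1 : x * y ≠ 1)
    (hbx : bx ∈ B) (hbx1 : bx ≠ 1) (hbxe : conjBy A bx = conjBy B x)
    (hby : bY ∈ B) (hby1 : bY ≠ 1) (hbye : conjBy A bY = conjBy B y)
    (hbxy : bxy ∈ B) (hbxy1 : bxy ≠ 1) (hbxye : conjBy A bxy = conjBy B (x * y)) :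
    y * (mu y bY * bxy * (mu y bY)⁻¹) ∈ A ∧ bY * bx ≠ 1 ∧
      conjBy A (bY * bx) = conjBy B (y * (mu y bY * bxy * (mu y bY)⁻¹)) := by
  have hm := mu_B hs hy hy1 hby hby1 hbye
  have hmA := mu_A hs hy hy1 hby hby1 hbye
  have h1 : mu y bY * bxy * (mu y bY)⁻¹ ∈ A := by
    rw [← hm, mem_cj]
    have : (mu y bY)⁻¹ * (mu y bY * bxy * (mu y bY)⁻¹) * mu y bY = bxy := by group
    rwa [this]
  refine ⟨A.mul_mem hy h1, ?_, ?_⟩
  · intro h2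
    have h3 : bx = bY⁻¹ := eq_inv_of_mul_eq_one_right h2
    rw [h3] at hbxe
    rw [inv_cond hs hy hy1 hby hby1 hbye] at hbxe
    have h4 := unique_gen hs.1 left_mem (right_mem hs.1) hs.1.ne.symm (A.inv_mem hy) hx hbxe
    apply hxy1
    rw [← h4]; group
  · -- μ · P(xy)
    have h2 : conjBy (conjBy B (x * y)) (mu y bY) = conjBy (conjBy B x) (y⁻¹ * bY) := by
      rw [mu, hAc x hx y hy, cj_mul, cj_mul]
      congr 1; group
    rw [← hbxye, ← hbxe, cj_mul, cj_mul] at h2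
    have h3 : conjBy B (mu y bY * bxy * (mu y bY)⁻¹) = conjBy A (mu y bY * bxy) := by
      rw [← hmA, cj_mul]
      congr 1; group
    have h4 : conjBy (conjBy A (mu y bY * bxy)) y = conjBy (conjBy A (y⁻¹ * bY * bx)) y := by
      rw [h2]
    rw [← h3, cj_mul, cj_mul] at h4
    rw [h4]
    congr 1; group

theorem exα (h : IsRankOnePair A B) {b : G} (hb : b ∈ B) (hb1 : b ≠ 1) :
    ∃ a ∈ A, a ≠ 1 ∧ conjBy A b = conjBy B a := by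
  obtain ⟨a, ha, ha1, hae⟩ := cond (symm h) hb hb1
  exact ⟨a, ha, ha1, hae.symm⟩

/-- the core relation -/
theorem core (hs : IsSpecialRankOnePair A B) (hAc : ∀ x ∈ A, ∀ y ∈ A, x * y = y * x)
    (hBc : ∀ x ∈ B, ∀ y ∈ B, x * y = y * x) {z y : G} (hz : z ∈ A) (hy : y ∈ A) (hz1 : z ≠ 1)
    (hy1 : y ≠ 1) (hzy : z ≠ y) :
    ∃ b ∈ B, ∃ g1 g2 g3 : G, conjBy B g1 = A ∧ conjBy B g2 = A ∧ conjBy A g3 = B ∧
      b⁻¹ = g3 * z * g3⁻¹ ∧ y * y = z * (g2 * b * g2⁻¹) * (g1 * b * g1⁻¹)⁻¹ := by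
  have hx : z * y⁻¹ ∈ A := A.mul_mem hz (A.inv_mem hy)
  have hx1 : z * y⁻¹ ≠ 1 := fun h => hzy (mul_inv_eq_one.1 h)
  obtain ⟨b, hb, hb1, hbe⟩ := cond hs.1 hz hz1
  obtain ⟨by', hby, hby1, hbye⟩ := cond hs.1 hy hy1
  obtain ⟨bx, hbx, hbx1, hbxe⟩ := cond hs.1 hx hx1
  have e1 : z * y⁻¹ * y = z := by group
  have e2 : y * (z * y⁻¹) = z := by rw [hAc y hy _ hx]; group
  obtain ⟨f1, -, f2⟩ := F1 hs hAc hx hy hx1 hy1 (by rw [e1]; exact hz1) hbx hbx1 hbxe hby hby1 hbye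
    hb hb1 (by rw [e1]; exact hbe)
  obtain ⟨f3, -, f4⟩ := F1 hs hAc hy hx hy1 hx1 (by rw [e2]; exact hz1) hby hby1 hbye hbx hbx1 hbxe
    hb hb1 (by rw [e2]; exact hbe)
  refine ⟨b, hb, mu y by', mu (z * y⁻¹) bx, mu z b, mu_B hs hy hy1 hby hby1 hbye,
    mu_B hs hx hx1 hbx hbx1 hbxe, mu_A hs hz hz1 hb hb1 hbe, ?_, ?_⟩
  · exact (mu_a (rel1 hs hz hz1 hb hb1 hbe)).symm
  · rw [hBc bx hbx _ hby, f2] at f4
    have h1 := unique_gen hs.1 left_mem (right_mem hs.1) hs.1.ne.symm f1 f3 f4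
    set c1 := mu y by' * b * (mu y by')⁻¹ with hc1
    set c2 := mu (z * y⁻¹) bx * b * (mu (z * y⁻¹) bx)⁻¹ with hc2
    have hc1A : c1 ∈ A := by
      rw [← mu_B hs hy hy1 hby hby1 hbye, mem_cj, hc1]
      have : (mu y by')⁻¹ * (mu y by' * b * (mu y by')⁻¹) * mu y by' = b := by group
      rwa [this]
    have hc2A : c2 ∈ A := by
      rw [← mu_B hs hx hx1 hbx hbx1 hbxe, mem_cj, hc2]
      have : (mu (z * y⁻¹) bx)⁻¹ * (mu (z * y⁻¹) bx * b * (mu (z * y⁻¹) bx)⁻¹) * mu (z * y⁻¹) bx = b := by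
        group
      rwa [this]
    -- y * c1 = z * y⁻¹ * c2
    have h2 : y = z * y⁻¹ * c2 * c1⁻¹ := by rw [← h1]; group
    calc y * y = y * (z * y⁻¹ * c2 * c1⁻¹) := by rw [← h2]
      _ = (y * (z * y⁻¹)) * c2 * c1⁻¹ := by group
      _ = z * c2 * c1⁻¹ := by rw [e2]

theorem conj_pow' (g x : G) (n : ℕ) : (g * x * g⁻¹) ^ n = g * x ^ n * g⁻¹ := by
  exact conj_pow

theorem mul_pow_comm {A : Subgroup G} (hAc : ∀ x ∈ A, ∀ y ∈ A, x * y = y * x) {x y : G}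
    (hx : x ∈ A) (hy : y ∈ A) (n : ℕ) : (x * y) ^ n = x ^ n * y ^ n :=
  (show Commute x y from hAc x hx y hy).mul_pow n

theorem conj_mem_of {C D : Subgroup G} {g x : G} (h : conjBy C g = D) (hx : x ∈ C) : g * x * g⁻¹ ∈ D := by
  rw [← h, mem_cj]
  have : g⁻¹ * (g * x * g⁻¹) * g = x := by group
  rwa [this]

/-- (T) -/
theorem torsion (hs : IsSpecialRankOnePair A B) (hAc : ∀ x ∈ A, ∀ y ∈ A, x * y = y * x)
    (hBc : ∀ x ∈ B, ∀ y ∈ B, x * y = y * x) {z y : G} {n : ℕ} (hz : z ∈ A) (hy : y ∈ A) (hz1 : z ≠ 1)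
    (hzn : z ^ n = 1) (hyn : y ^ n ≠ 1) : y ^ (2 * n) = 1 := by
  have hy1 : y ≠ 1 := by rintro rfl; exact hyn (one_pow n)
  have hzy : z ≠ y := by rintro rfl; exact hyn hzn
  obtain ⟨b, hb, g1, g2, g3, h1, h2, h3, h4, h5⟩ := core hs hAc hBc hz hy hz1 hy1 hzy
  have hbn : b ^ n = 1 := by
    have := congrArg (fun x => x ^ n) h4
    simp only [conj_pow', hzn, mul_one, mul_inv_cancel, inv_pow, inv_eq_one] at this
    exact this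
  have e1 := conj_mem_of h1 hb
  have e2 := conj_mem_of h2 hb
  rw [pow_mul, pow_two, h5, mul_pow_comm hAc (A.mul_mem hz e2) (A.inv_mem e1),
    mul_pow_comm hAc hz e2, hzn, inv_pow, conj_pow', conj_pow', hbn]
  simp

/-- (D) -/
theorem divis (hs : IsSpecialRankOnePair A B) (hAc : ∀ x ∈ A, ∀ y ∈ A, x * y = y * x)
    (hBc : ∀ x ∈ B, ∀ y ∈ B, x * y = y * x) {w y : G} {n : ℕ} (hw : w ∈ A) (hy : y ∈ A)
    (hwn : w ^ n ≠ 1) (hyn : ∀ v ∈ A, v ^ n ≠ y) (hn : n ≠ 0) : ∃ v ∈ A, v ^ n = y * y := by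
  have hy1 : y ≠ 1 := by rintro rfl; exact hyn 1 A.one_mem (one_pow n)
  obtain ⟨b, hb, g1, g2, g3, h1, h2, h3, h4, h5⟩ := core hs hAc hBc (A.pow_mem hw n) hy hwn hy1 (hyn w hw)
  have hbn : b = (g3 * w⁻¹ * g3⁻¹) ^ n := by
    rw [conj_pow', inv_pow, ← inv_inj, h4]; group
  have hd : g3 * w⁻¹ * g3⁻¹ ∈ B := conj_mem_of h3 (A.inv_mem hw)
  have e1 := conj_mem_of h1 hd
  have e2 := conj_mem_of h2 hd
  refine ⟨w * (g2 * (g3 * w⁻¹ * g3⁻¹) * g2⁻¹) * (g1 * (g3 * w⁻¹ * g3⁻¹) * g1⁻¹)⁻¹,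
    A.mul_mem (A.mul_mem hw e2) (A.inv_mem e1), ?_⟩
  rw [mul_pow_comm hAc (A.mul_mem hw e2) (A.inv_mem e1), mul_pow_comm hAc hw e2, inv_pow, conj_pow', conj_pow' g1,
    ← hbn, h5]

/-- no elements of order 4 -/
theorem no_four (hs : IsSpecialRankOnePair A B) (hAc : ∀ x ∈ A, ∀ y ∈ A, x * y = y * x)
    (hBc : ∀ x ∈ B, ∀ y ∈ B, x * y = y * x) {a : G} (ha : a ∈ A) (ha4 : a ^ 4 = 1) : a ^ 2 = 1 := by
  by_contra ha2
  have ha1 : a ≠ 1 := by rintro rfl; exact ha2 (one_pow 2)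
  obtain ⟨b, hb, hb1, hbe⟩ := cond hs.1 ha ha1
  have ha2' : a * a ≠ 1 := by rwa [← pow_two]
  obtain ⟨c, hc, hc1, hce⟩ := cond hs.1 (A.mul_mem ha ha) ha2'
  obtain ⟨f1, f2, f3⟩ := F1 hs hAc ha ha ha1 ha1 ha2' hb hb1 hbe hb hb1 hbe hc hc1 hce
  -- orders
  have hord : ∀ x ∈ A, x ≠ 1 → ∀ y ∈ B, y ≠ 1 → conjBy A y = conjBy B x → ∀ n : ℕ, (x ^ n = 1 ↔ y ^ n = 1) := by
    intro x hx hx1 y hy hy1 hxy n
    have h4 := mu_a (rel1 hs hx hx1 hy hy1 hxy)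
    have h5 := congrArg (fun x => x ^ n) h4
    simp only [conj_pow', inv_pow] at h5
    rw [← inv_eq_one (a := y ^ n), ← h5]
    constructor
    · intro h; rw [h]; group
    · intro h
      have := congrArg (fun u => (mu x y)⁻¹ * u * mu x y) h
      simpa [mul_assoc] using this
  have hc2 : c ^ 2 = 1 := by
    rw [← hord _ (A.mul_mem ha ha) ha2' c hc hc1 hce, ← pow_two, ← pow_mul]; exact ha4
  set s := a * (mu a b * c * (mu a b)⁻¹) with hs'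
  have hs1 : s ≠ 1 := by
    intro h
    rw [h, cj_one] at f3
    have h6 := cj_eq_symm f3
    rw [cj_self (B.inv_mem (B.mul_mem hb hb))] at h6
    exact hs.1.ne h6
  have hs2 : s ^ 2 = 1 := by
    rw [hord s f1 hs1 (b * b) (B.mul_mem hb hb) f2 f3, ← pow_two, ← pow_mul,
      ← hord a ha ha1 b hb hb1 hbe]
    exact ha4
  have hcA : mu a b * c * (mu a b)⁻¹ ∈ A := conj_mem_of (mu_B hs ha ha1 hb hb1 hbe) hc
  apply ha2
  have : a = s * (mu a b * c * (mu a b)⁻¹)⁻¹ := by rw [hs']; group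
  rw [this, mul_pow_comm hAc f1 (A.inv_mem hcA), hs2, inv_pow, conj_pow', hc2]
  simp

end Cfsg.Agent.H13.SP
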