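import Mathlib
import Cfsg.Prelude.Def_RootSubgroups
import Cfsg.Agent.H13_RO
import Cfsg.Agent.H13_SP
set_option autoImplicit false
set_option linter.all false

/-! special rank one groups: `A = [A,H]` -/
namespace Cfsg.Agent.H13.SP

open Cfsg Cfsg.Agent.H13.RO

variable {G : Type*} [Group G] {A B : Subgroup G}

theorem mu_mem {a b : G} (ha : a ∈ A) (hb : b ∈ B) : mu a b ∈ A ⊔ B :=
  mul_mem (mul_mem (inv_mem (Subgroup.mem_sup_left ha)) (Subgroup.mem_sup_right hb))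
    (inv_mem (Subgroup.mem_sup_left ha))

/-- the core relation, with elements of the diagonal group `H` -/
theorem coreH (hs : IsSpecialRankOnePair A B) (hAc : ∀ x ∈ A, ∀ y ∈ A, x * y = y * x)
    (hBc : ∀ x ∈ B, ∀ y ∈ B, x * y = y * x) {z y : G} (hz : z ∈ A) (hy : y ∈ A) (hz1 : z ≠ 1)
    (hy1 : y ≠ 1) (hzy : z ≠ y) :
    ∃ h1 ∈ rankOneDiagonal A B, ∃ h2 ∈ rankOneDiagonal A B,
      y * y = z * (h2 * z⁻¹ * h2⁻¹) * (h1 * z * h1⁻¹) := by
  have hx : z * y⁻¹ ∈ A := A.mul_mem hz (A.inv_mem hy)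
  have hx1 : z * y⁻¹ ≠ 1 := fun h => hzy (mul_inv_eq_one.1 h)
  obtain ⟨b, hb, hb1, hbe⟩ := cond hs.1 hz hz1
  obtain ⟨by', hby, hby1, hbye⟩ := cond hs.1 hy hy1
  obtain ⟨bx, hbx, hbx1, hbxe⟩ := cond hs.1 hx hx1
  have e1 : z * y⁻¹ * y = z := by group
  have e2 : y * (z * y⁻¹) = z := by rw [hAc y hy _ hx]; group
  obtain ⟨f1, -, f2⟩ := F1 hs hAc hx hy hx1 hy1 (by rw [e1]; exact hz1) hbx hbx1 hbxe hby hby1 hbye
    hb hb1 (by rw [e1]; exact hbe)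
  obtain ⟨f3, -, f4⟩ := F1 hs hAc hy hx hy1 hx1 (by rw [e2]; exact hz1) hby hby1 hbye hbx hbx1 hbxe
    hb hb1 (by rw [e2]; exact hbe)
  have hH : ∀ u ∈ A, u ≠ 1 → ∀ v ∈ B, v ≠ 1 → conjBy A v = conjBy B u →
      mu u v * mu z b ∈ rankOneDiagonal A B := by
    intro u hu hu1 v hv hv1 huv
    refine Subgroup.mem_inf.2 ⟨Subgroup.mem_inf.2 ⟨mul_mem (mu_mem hu hv) (mu_mem hz hb), ?_⟩, ?_⟩
    · rw [← cj_eq_iff, ← cj_mul, mu_A hs hz hz1 hb hb1 hbe, mu_B hs hu hu1 hv hv1 huv]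
    · rw [← cj_eq_iff, ← cj_mul, mu_B hs hz hz1 hb hb1 hbe, mu_A hs hu hu1 hv hv1 huv]
  refine ⟨mu y by' * mu z b, hH y hy hy1 by' hby hby1 hbye,
    mu (z * y⁻¹) bx * mu z b, hH _ hx hx1 bx hbx hbx1 hbxe, ?_⟩
  have hbz : b = mu z b * z⁻¹ * (mu z b)⁻¹ := by
    have := mu_a (rel1 hs hz hz1 hb hb1 hbe)
    rw [← inv_inj, ← this]; group
  rw [hBc bx hbx _ hby, f2] at f4
  have h1 := unique_gen hs.1 left_mem (right_mem hs.1) hs.1.ne.symm f1 f3 f4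
  set c1 := mu y by' * b * (mu y by')⁻¹ with hc1
  set c2 := mu (z * y⁻¹) bx * b * (mu (z * y⁻¹) bx)⁻¹ with hc2
  have h2 : y = z * y⁻¹ * c2 * c1⁻¹ := by rw [← h1]; group
  have h3 : y * y = z * c2 * c1⁻¹ := by
    calc y * y = y * (z * y⁻¹ * c2 * c1⁻¹) := by rw [← h2]
      _ = (y * (z * y⁻¹)) * c2 * c1⁻¹ := by group
      _ = z * c2 * c1⁻¹ := by rw [e2]
  rw [h3]
  have e3 : c2 = mu (z * y⁻¹) bx * mu z b * z⁻¹ * (mu (z * y⁻¹) bx * mu z b)⁻¹ := by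
    rw [hc2]; conv_lhs => rw [hbz]
    group
  have e4 : c1⁻¹ = mu y by' * mu z b * z * (mu y by' * mu z b)⁻¹ := by
    rw [hc1]; conv_lhs => rw [hbz]
    group
  rw [e3, e4]

theorem exists_notin {A : Subgroup G} (hA : 3 < ENat.card A) (x y z : G) :
    ∃ w ∈ A, w ≠ x ∧ w ≠ y ∧ w ≠ z := by
  by_contra h
  push Not at h
  have hsub : (A : Set G) ⊆ {x, y, z} := by
    intro w hw
    simp only [Set.mem_insert_iff, Set.mem_singleton_iff]
    by_cases h1 : w = x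
    · exact Or.inl h1
    by_cases h2 : w = y
    · exact Or.inr (Or.inl h2)
    exact Or.inr (Or.inr (h w hw h1 h2))
  have h1 : Set.encard (A : Set G) ≤ 3 := by
    refine (Set.encard_le_encard hsub).trans ?_
    refine (Set.encard_insert_le _ _).trans ?_
    have : Set.encard ({y, z} : Set G) ≤ 2 := by
      refine (Set.encard_insert_le _ _).trans ?_
      rw [Set.encard_singleton]; norm_num
    calc Set.encard ({y, z} : Set G) + 1 ≤ 2 + 1 := by gcongr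
      _ = 3 := by norm_num
  have h2 : Set.encard (A : Set G) = ENat.card A := rfl
  rw [h2] at h1
  exact absurd h1 (not_le.2 hA)

theorem comm_le (A B : Subgroup G) : ⁅A, rankOneDiagonal A B⁆ ≤ A := by
  rw [Subgroup.commutator_le]
  intro a ha h hh
  have h1 := (Subgroup.mem_inf.1 (Subgroup.mem_inf.1 hh).1).2
  rw [commutatorElement_def]
  have : a * h * a⁻¹ * h⁻¹ = a * (h * a⁻¹ * h⁻¹) := by group
  rw [this]
  exact A.mul_mem ha ((Subgroup.mem_normalizer_iff.1 h1 _).1 (A.inv_mem ha))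

theorem comm_eq (hs : IsSpecialRankOnePair A B) (hAc : ∀ x ∈ A, ∀ y ∈ A, x * y = y * x)
    (hBc : ∀ x ∈ B, ∀ y ∈ B, x * y = y * x) (hA : 3 < ENat.card A) :
    ⁅A, rankOneDiagonal A B⁆ = A := by
  refine le_antisymm (comm_le A B) ?_
  set C := ⁅A, rankOneDiagonal A B⁆ with hC
  have hCA : C ≤ A := comm_le A B
  have hmod : ∀ z ∈ A, ∀ h ∈ rankOneDiagonal A B, (h * z * h⁻¹) * z⁻¹ ∈ C := by
    intro z hz h hh
    have h1 := Subgroup.commutator_mem_commutator hz hh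
    rw [commutatorElement_def] at h1
    have h2 := C.inv_mem h1
    have : (z * h * z⁻¹ * h⁻¹)⁻¹ = (h * z * h⁻¹) * z⁻¹ := by group
    rwa [this] at h2
  have key : ∀ z ∈ A, ∀ y ∈ A, z ≠ 1 → y ≠ 1 → z ≠ y → y * y * z⁻¹ ∈ C := by
    intro z hz y hy hz1 hy1 hzy
    obtain ⟨h1, hh1, h2, hh2, he⟩ := coreH hs hAc hBc hz hy hz1 hy1 hzy
    rw [he]
    have m1 := hmod z hz h1 hh1
    have m2 := hmod _ (A.inv_mem hz) h2 hh2
    have : z * (h2 * z⁻¹ * h2⁻¹) * (h1 * z * h1⁻¹) * z⁻¹ =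
        (h2 * z⁻¹ * h2⁻¹ * z⁻¹⁻¹) * ((h1 * z * h1⁻¹) * z⁻¹) := by
      have e : z * (h2 * z⁻¹ * h2⁻¹) = (h2 * z⁻¹ * h2⁻¹) * z := by
        have hm := (Subgroup.mem_inf.1 (Subgroup.mem_inf.1 hh2).1).2
        exact hAc _ hz _ ((Subgroup.mem_normalizer_iff.1 hm _).1 (A.inv_mem hz))
      rw [e]; group
    rw [this]
    exact C.mul_mem m2 m1
  have key2 : ∀ z ∈ A, ∀ w ∈ A, z ≠ 1 → w ≠ 1 → z * w⁻¹ ∈ C := by
    intro z hz w hw hz1 hw1
    obtain ⟨y, hy, hy1, hyz, hyw⟩ := exists_notin hA 1 z w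
    have h1 := key z hz y hy hz1 hy1 hyz.symm
    have h2 := key w hw y hy hw1 hy1 hyw.symm
    have := C.mul_mem (C.inv_mem h1) h2
    have e : (y * y * z⁻¹)⁻¹ * (y * y * w⁻¹) = z * w⁻¹ := by group
    rwa [e] at this
  intro w hw
  by_cases hw1 : w = 1
  · rw [hw1]; exact one_mem _
  obtain ⟨z, hz, hz1, hzw, -⟩ := exists_notin hA 1 w⁻¹ 1
  have h1 : z * w ≠ 1 := fun h => hzw (eq_inv_of_mul_eq_one_left h)
  have h2 := key2 (z * w) (A.mul_mem hz hw) z hz h1 hz1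
  rw [hAc z hz w hw] at h2
  have e : w * z * z⁻¹ = w := by group
  rwa [e] at h2

theorem comm_le_sup (A B : Subgroup G) (h : ⁅A, rankOneDiagonal A B⁆ = A) :
    A ≤ ⁅A ⊔ B, A ⊔ B⁆ := by
  conv_lhs => rw [← h]
  exact Subgroup.commutator_mono le_sup_left (inf_le_left.trans inf_le_left)

theorem diag_symm (A B : Subgroup G) : rankOneDiagonal B A = rankOneDiagonal A B := by
  rw [rankOneDiagonal, rankOneDiagonal, sup_comm, inf_assoc, inf_assoc,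
    inf_comm (Subgroup.normalizer (B : Set G))]

theorem card_eq (h : IsRankOnePair A B) : ENat.card A = ENat.card B := by
  -- via conjugation
  obtain ⟨x, hx, he⟩ := right_mem h
  rw [he]
  exact ENat.card_congr (A.equivMapOfInjective _ (MulAut.conj x).injective).toEquiv

theorem sup_perfect (hs : IsSpecialRankOnePair A B) (hAc : ∀ x ∈ A, ∀ y ∈ A, x * y = y * x)
    (hBc : ∀ x ∈ B, ∀ y ∈ B, x * y = y * x) (hA : 3 < ENat.card A) : ⁅A ⊔ B, A ⊔ B⁆ = A ⊔ B := by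
  refine le_antisymm (Subgroup.commutator_le_self _) ?_
  rw [sup_le_iff]
  refine ⟨comm_le_sup A B (comm_eq hs hAc hBc hA), ?_⟩
  have h2 := comm_le_sup B A (comm_eq (special_symm hs) hBc hAc (by rw [← card_eq hs.1]; exact hA))
  rwa [sup_comm] at h2

end Cfsg.Agent.H13.SP
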