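import Mathlib
import Cfsg.Prelude.Def_RootSubgroups
import Cfsg.Agent.H13_RO
import Cfsg.Agent.H13_SL
import Cfsg.Agent.H20_TC
set_option autoImplicit false
set_option linter.all false

/-! recognition of `SL₂(p)`, `PSL₂(p)` -/
namespace Cfsg.Agent.H13.SPR

open Cfsg Cfsg.Agent.H13.RO Cfsg.Agent.H13.SL

/-- homomorphisms from the order of a fibre product -/
theorem hom_of {S X : Type*} [Group S] [Group X] [Finite S] {u l : S} {a b : X}
    (hS : Subgroup.closure {u, l} = ⊤) (hX : Subgroup.closure {a, b} = ⊤)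
    (hf : Finite (Subgroup.closure {((u, a) : S × X), (l, b)}))
    (hc : Nat.card (Subgroup.closure {((u, a) : S × X), (l, b)}) ≤ Nat.card S) :
    ∃ φ : S →* X, Function.Surjective φ ∧ φ u = a ∧ φ l = b := by
  set D := Subgroup.closure {((u, a) : S × X), (l, b)} with hD
  have hu : ((u, a) : S × X) ∈ D := Subgroup.subset_closure (by simp)
  have hl : ((l, b) : S × X) ∈ D := Subgroup.subset_closure (by simp)
  let p1 : D →* S := (MonoidHom.fst S X).comp D.subtype
  let p2 : D →* X := (MonoidHom.snd S X).comp D.subtype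
  have h1 : Function.Surjective p1 := by
    rw [← MonoidHom.range_eq_top, eq_top_iff, ← hS, Subgroup.closure_le]
    rintro x (rfl | rfl)
    · exact ⟨⟨_, hu⟩, rfl⟩
    · exact ⟨⟨_, hl⟩, rfl⟩
  have h2 : Function.Surjective p2 := by
    rw [← MonoidHom.range_eq_top, eq_top_iff, ← hX, Subgroup.closure_le]
    rintro x (rfl | rfl)
    · exact ⟨⟨_, hu⟩, rfl⟩
    · exact ⟨⟨_, hl⟩, rfl⟩
  have h3 : Function.Bijective p1 := by
    apply (Nat.bijective_iff_surjective_and_card p1).mpr
    exact ⟨h1, le_antisymm hc (Nat.card_le_card_of_surjective p1 h1)⟩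
  let e : D ≃* S := MulEquiv.ofBijective p1 h3
  refine ⟨p2.comp e.symm.toMonoidHom, h2.comp e.symm.surjective, ?_, ?_⟩
  · have : e.symm u = ⟨_, hu⟩ := by
      rw [MulEquiv.symm_apply_eq]; rfl
    show p2 (e.symm u) = a
    rw [this]; rfl
  · have : e.symm l = ⟨_, hl⟩ := by
      rw [MulEquiv.symm_apply_eq]; rfl
    show p2 (e.symm l) = b
    rw [this]; rfl

variable {k : Type*} [Field k]

theorem group : IsRankOneGroup (Matrix.SpecialLinearGroup (Fin 2) k) (lowerUnipotentSL2 k) (upperUnipotentSL2 k) :=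
  ⟨by rw [eq_top_iff]; intro x _; exact closure_le x, pair⟩

/-- recognition from a surjection -/
theorem of_surj {X : Type*} [Group X] (φ : Matrix.SpecialLinearGroup (Fin 2) k →* X)
    (hφ : Function.Surjective φ) (hX : ∃ x y : X, x * y ≠ y * x) :
    Nonempty (X ≃* Matrix.SpecialLinearGroup (Fin 2) k) ∨
    Nonempty (X ≃* Matrix.ProjectiveSpecialLinearGroup (Fin 2) k) := by
  have h1 : φ.ker ≤ Subgroup.center (Matrix.SpecialLinearGroup (Fin 2) k) := by
    rcases normal_or group φ.ker inferInstance with h | h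
    · exfalso
      obtain ⟨x, y, hxy⟩ := hX
      obtain ⟨g, rfl⟩ := hφ x
      obtain ⟨g', rfl⟩ := hφ y
      have key : ∀ g, ∃ u ∈ lowerUnipotentSL2 k, φ u = φ g := by
        intro g
        have hg : g ∈ φ.ker ⊔ lowerUnipotentSL2 k := by rw [h]; exact Subgroup.mem_top _
        rw [Subgroup.mem_sup_of_normal_left] at hg
        obtain ⟨n, hn, u, hu, rfl⟩ := hg
        exact ⟨u, hu, by rw [map_mul, MonoidHom.mem_ker.1 hn, one_mul]⟩
      obtain ⟨u, hu, hue⟩ := key g
      obtain ⟨v, hv, hve⟩ := key g'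
      apply hxy
      rw [← hue, ← hve, ← map_mul, ← map_mul]
      congr 1
      exact congrArg Subtype.val (comm_lower.is_comm.comm (⟨u, hu⟩ : lowerUnipotentSL2 k) ⟨v, hv⟩)
    · exact h
  have h2 : φ.ker = ⊥ ∨ φ.ker = Subgroup.center (Matrix.SpecialLinearGroup (Fin 2) k) := by
    by_cases hb : φ.ker = ⊥
    · exact Or.inl hb
    right
    apply le_antisymm h1
    obtain ⟨z, hz, hz1⟩ := exists_ne hb
    have hzc := h1 hz
    have key : ∀ w ∈ Subgroup.center (Matrix.SpecialLinearGroup (Fin 2) k), w = 1 ∨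
        (w : Matrix (Fin 2) (Fin 2) k) = Matrix.scalar (Fin 2) (-1) := by
      intro w hw
      obtain ⟨r, hr, hrw⟩ := Matrix.SpecialLinearGroup.mem_center_iff.1 hw
      have h3 : r * r = 1 := by simpa [pow_two] using hr
      rcases mul_self_eq_one_iff.1 h3 with rfl | rfl
      · left
        apply Subtype.ext
        rw [← hrw]; simp
      · exact Or.inr hrw.symm
    intro w hw
    rcases key w hw with rfl | h4
    · exact one_mem _
    rcases key z hzc with h5 | h5
    · exact absurd h5 hz1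
    have : w = z := Subtype.ext (h4.trans h5.symm)
    rw [this]; exact hz
  have e := QuotientGroup.quotientKerEquivOfSurjective φ hφ
  rcases h2 with h2 | h2
  · left
    exact ⟨(e.symm.trans (QuotientGroup.quotientMulEquivOfEq h2)).trans QuotientGroup.quotientBot⟩
  · right
    exact ⟨e.symm.trans (QuotientGroup.quotientMulEquivOfEq h2)⟩

theorem rel_SL : (U (1 : k)) * L 1 * (U 1)⁻¹ = L 1 * (U 1)⁻¹ * (L 1)⁻¹ := by
  rw [U_inv, L_inv]
  ext i j
  fin_cases i <;> fin_cases j <;> simp [coeU, coeL, Matrix.SpecialLinearGroup.coe_mul, Matrix.mul_apply, Fin.sum_univ_two]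

theorem U_pow (s : k) (n : ℕ) : U s ^ n = U (n * s) := by
  induction n with
  | zero => simp [U_zero]
  | succ n ih => rw [pow_succ, ih, U_mul]; congr 1; push_cast; ring

theorem L_pow (s : k) (n : ℕ) : L s ^ n = L (n * s) := by
  induction n with
  | zero => simp [L_zero]
  | succ n ih => rw [pow_succ, ih, SL.L_mul]; congr 1; push_cast; ring

theorem closure_UL (p : ℕ) [Fact p.Prime] :
    Subgroup.closure {(U (1 : ZMod p)), L 1} = ⊤ := by
  rw [eq_top_iff, ← (group (k := ZMod p)).1, sup_le_iff]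
  constructor
  · intro x hx
    obtain ⟨t, rfl⟩ := mem_lower.1 hx
    have : L t = L 1 ^ t.val := by rw [L_pow, mul_one, ZMod.natCast_zmod_val]
    rw [this]
    exact pow_mem (Subgroup.subset_closure (by simp)) _
  · intro x hx
    obtain ⟨t, rfl⟩ := mem_upper.1 hx
    have : U t = U 1 ^ t.val := by rw [U_pow, mul_one, ZMod.natCast_zmod_val]
    rw [this]
    exact pow_mem (Subgroup.subset_closure (by simp)) _

/-! ### p = 2, 3 by coset enumeration -/

open Cfsg.Agent.H20.TC in
theorem card_le3 {X : Type*} [Group X] {a b : X} (ha : a ^ 3 = 1) (hb : b ^ 3 = 1)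
    (hab : a * b * a⁻¹ = b * a⁻¹ * b⁻¹) (hX : Subgroup.closure {a, b} = ⊤) :
    Finite X ∧ Nat.card X ≤ 24 := by
  have hfin : Finite (Subgroup.zpowers a) :=
    (finite_zpowers.mpr (isOfFinOrder_iff_pow_eq_one.mpr ⟨3, by norm_num, ha⟩)).to_subtype
  have hc : Nat.card (Subgroup.zpowers a) ≤ 3 := by
    rw [Nat.card_zpowers]
    exact orderOf_le_of_pow_eq_one (by norm_num) ha
  let g : ℕ → X := fun i => if i = 0 then a else b
  have h := card_le g (Subgroup.zpowers a) (k := 2) (rels := [[0,0,0],[2,2,2],[0,2,1,2,0,3]])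
    (sub := [[0]]) (D := [(0, 2), (0, 3), (1, 0), (1, 1), (2, 0), (2, 1), (3, 2)])
    (S := [(0, 1, 1), (0, 3, 0), (1, 0, 1), (2, 0, 1), (2, 2, 1), (5, 2, 1), (6, 1, 2), (7, 2, 0), (0, 2, 3)]) (by
      intro w hw
      simp only [List.mem_cons, List.not_mem_nil, or_false] at hw
      rcases hw with rfl | rfl | rfl
      · simp [ev, lx, g]
        rw [← ha]; simp only [pow_succ, pow_zero, one_mul, mul_assoc]
      · simp [ev, lx, g]
        rw [← hb]; simp only [pow_succ, pow_zero, one_mul, mul_assoc]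
      · simp [ev, lx, g]
        have : a * (b * (a⁻¹ * (b * (a * b⁻¹)))) = (a * b * a⁻¹) * (b * a⁻¹ * b⁻¹)⁻¹ := by group
        rw [this, hab, mul_inv_cancel]) (by
      intro w hw
      simp only [List.mem_cons, List.not_mem_nil, or_false] at hw
      subst hw
      simp [ev, lx, g]) (by decide) (by decide +kernel) (by
      rw [eq_top_iff, ← hX, Subgroup.closure_le]
      rintro x (rfl | rfl)
      · exact Subgroup.subset_closure ⟨0, by simp, by simp [g]⟩
      · exact Subgroup.subset_closure ⟨1, by simp, by simp [g]⟩)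
  refine ⟨h.1, h.2.trans ?_⟩
  simp only [List.length_cons, List.length_nil]
  omega

open Cfsg.Agent.H20.TC in
theorem card_le2 {X : Type*} [Group X] {a b : X} (ha : a ^ 2 = 1) (hb : b ^ 2 = 1)
    (hab : a * b * a⁻¹ = b * a⁻¹ * b⁻¹) (hX : Subgroup.closure {a, b} = ⊤) :
    Finite X ∧ Nat.card X ≤ 6 := by
  have hfin : Finite (Subgroup.zpowers a) :=
    (finite_zpowers.mpr (isOfFinOrder_iff_pow_eq_one.mpr ⟨2, by norm_num, ha⟩)).to_subtype
  have hc : Nat.card (Subgroup.zpowers a) ≤ 2 := by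
    rw [Nat.card_zpowers]
    exact orderOf_le_of_pow_eq_one (by norm_num) ha
  let g : ℕ → X := fun i => if i = 0 then a else b
  have h := card_le g (Subgroup.zpowers a) (k := 2) (rels := [[0,0],[2,2],[0,2,1,2,0,3]])
    (sub := [[0]]) (D := [(0, 2), (1, 0)])
    (S := [(0, 1, 1), (0, 3, 0), (1, 0, 1), (1, 2, 1)]) (by
      intro w hw
      simp only [List.mem_cons, List.not_mem_nil, or_false] at hw
      rcases hw with rfl | rfl | rfl
      · simp [ev, lx, g]
        rw [← ha]; simp only [pow_succ, pow_zero, one_mul, mul_assoc]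
      · simp [ev, lx, g]
        rw [← hb]; simp only [pow_succ, pow_zero, one_mul, mul_assoc]
      · simp [ev, lx, g]
        have : a * (b * (a⁻¹ * (b * (a * b⁻¹)))) = (a * b * a⁻¹) * (b * a⁻¹ * b⁻¹)⁻¹ := by group
        rw [this, hab, mul_inv_cancel]) (by
      intro w hw
      simp only [List.mem_cons, List.not_mem_nil, or_false] at hw
      subst hw
      simp [ev, lx, g]) (by decide) (by decide +kernel) (by
      rw [eq_top_iff, ← hX, Subgroup.closure_le]
      rintro x (rfl | rfl)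
      · exact Subgroup.subset_closure ⟨0, by simp, by simp [g]⟩
      · exact Subgroup.subset_closure ⟨1, by simp, by simp [g]⟩)
  refine ⟨h.1, h.2.trans ?_⟩
  simp only [List.length_cons, List.length_nil]
  omega

theorem card_SL3 : Nat.card (Matrix.SpecialLinearGroup (Fin 2) (ZMod 3)) = 24 := by
  rw [Nat.card_eq_fintype_card]
  decide +kernel

theorem card_SL2 : Nat.card (Matrix.SpecialLinearGroup (Fin 2) (ZMod 2)) = 6 := by
  rw [Nat.card_eq_fintype_card]
  decide +kernel

theorem closure_pair {S X : Type*} [Group S] [Group X] (u l : S) (a b : X) :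
    Subgroup.closure {(⟨(u, a), Subgroup.subset_closure (by simp)⟩ : Subgroup.closure {((u, a) : S × X), (l, b)}),
      ⟨(l, b), Subgroup.subset_closure (by simp)⟩} = ⊤ := by
  have h := Subgroup.closure_closure_coe_preimage (k := {((u, a) : S × X), (l, b)})
  rw [← h]
  congr 1
  ext ⟨x, hx⟩
  simp [Subtype.ext_iff]

theorem rec3 {X : Type*} [Group X] {a b : X} (ha : a ^ 3 = 1) (hb : b ^ 3 = 1)
    (hab : a * b * a⁻¹ = b * a⁻¹ * b⁻¹) (hX : Subgroup.closure {a, b} = ⊤) (hne : a * b ≠ b * a) :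
    Nonempty (X ≃* Matrix.SpecialLinearGroup (Fin 2) (ZMod 3)) ∨
    Nonempty (X ≃* Matrix.ProjectiveSpecialLinearGroup (Fin 2) (ZMod 3)) := by
  have hU : (U (1 : ZMod 3)) ^ 3 = 1 := by
    rw [U_pow, ← U_zero]; congr 1
  have hL : (L (1 : ZMod 3)) ^ 3 = 1 := by
    rw [L_pow, ← L_zero]; congr 1
  obtain ⟨h1, h2⟩ := card_le3 (X := Subgroup.closure {((U (1 : ZMod 3), a) : _ × X), (L 1, b)})
    (a := ⟨(U 1, a), Subgroup.subset_closure (by simp)⟩) (b := ⟨(L 1, b), Subgroup.subset_closure (by simp)⟩)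
    (Subtype.ext (Prod.ext hU ha)) (Subtype.ext (Prod.ext hL hb)) (Subtype.ext (Prod.ext rel_SL hab))
    (closure_pair _ _ _ _)
  obtain ⟨φ, h3, h4, h5⟩ := hom_of (closure_UL 3) hX h1 (by rw [card_SL3]; exact h2)
  exact of_surj φ h3 ⟨a, b, hne⟩

theorem rec2 {X : Type*} [Group X] {a b : X} (ha : a ^ 2 = 1) (hb : b ^ 2 = 1)
    (hab : a * b * a⁻¹ = b * a⁻¹ * b⁻¹) (hX : Subgroup.closure {a, b} = ⊤) (hne : a * b ≠ b * a) :
    Nonempty (X ≃* Matrix.SpecialLinearGroup (Fin 2) (ZMod 2)) ∨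
    Nonempty (X ≃* Matrix.ProjectiveSpecialLinearGroup (Fin 2) (ZMod 2)) := by
  have hU : (U (1 : ZMod 2)) ^ 2 = 1 := by
    rw [U_pow, ← U_zero]; congr 1
  have hL : (L (1 : ZMod 2)) ^ 2 = 1 := by
    rw [L_pow, ← L_zero]; congr 1
  obtain ⟨h1, h2⟩ := card_le2 (X := Subgroup.closure {((U (1 : ZMod 2), a) : _ × X), (L 1, b)})
    (a := ⟨(U 1, a), Subgroup.subset_closure (by simp)⟩) (b := ⟨(L 1, b), Subgroup.subset_closure (by simp)⟩)
    (Subtype.ext (Prod.ext hU ha)) (Subtype.ext (Prod.ext hL hb)) (Subtype.ext (Prod.ext rel_SL hab))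
    (closure_pair _ _ _ _)
  obtain ⟨φ, h3, h4, h5⟩ := hom_of (closure_UL 2) hX h1 (by rw [card_SL2]; exact h2)
  exact of_surj φ h3 ⟨a, b, hne⟩

theorem center2 : Subgroup.center (Matrix.SpecialLinearGroup (Fin 2) (ZMod 2)) = ⊥ := by
  rw [Subgroup.eq_bot_iff_forall]
  intro w hw
  obtain ⟨r, hr, hrw⟩ := Matrix.SpecialLinearGroup.mem_center_iff.1 hw
  have h3 : r * r = 1 := by simpa [pow_two] using hr
  have h4 : r = 1 := by
    clear hr hrw
    revert r; decide
  subst h4
  apply Subtype.ext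
  rw [← hrw]; simp

theorem rec2' {X : Type*} [Group X] {a b : X} (ha : a ^ 2 = 1) (hb : b ^ 2 = 1)
    (hab : a * b * a⁻¹ = b * a⁻¹ * b⁻¹) (hX : Subgroup.closure {a, b} = ⊤) (hne : a * b ≠ b * a) :
    Nonempty (X ≃* Matrix.SpecialLinearGroup (Fin 2) (ZMod 2)) := by
  rcases rec2 ha hb hab hX hne with h | h
  · exact h
  · obtain ⟨e⟩ := h
    exact ⟨e.trans ((QuotientGroup.quotientMulEquivOfEq center2).trans QuotientGroup.quotientBot)⟩

end Cfsg.Agent.H13.SPR
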