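import Cfsg.Agent.H13_KT
import Cfsg.Agent.H3_Burnside

/-!
Groups whose Sylow subgroups are self-normalizing.
-/

set_option autoImplicit false

namespace Cfsg.Agent.H13.SelfN

universe u

open Subgroup Cfsg.Agent.H13.Syl

variable {G : Type u} [Group G] [Finite G]

/-- with a normal subgroup of prime index `q` and self-normalizing Sylow subgroups, `G` is a `q`-group. -/
theorem isPGroup_of_index (h : ∀ r : ℕ, r.Prime → r ∣ Nat.card G → ∀ R : Sylow r G,
      normalizer ((R : Subgroup G) : Set G) = R) {q : ℕ} (hq : q.Prime) (N : Subgroup G) [hN : N.Normal]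
    (hidx : N.index = q) : IsPGroup q G := by
  have : Fact q.Prime := ⟨hq⟩
  rw [IsPGroup.iff_card]
  have h1 : ∀ r : ℕ, r.Prime → r ∣ Nat.card G → r = q := by
    intro r hr hrd
    by_contra hne
    have : Fact r.Prime := ⟨hr⟩
    obtain ⟨R⟩ : Nonempty (Sylow r G) := inferInstance
    have hRN : (R : Subgroup G) ≤ N := by
      intro x hx
      rw [← QuotientGroup.eq_one_iff]
      have hc : Nat.card (G ⧸ N) = q := by rw [← hidx]; rfl
      have h2 : orderOf (x : G ⧸ N) ∣ q := by rw [← hc]; exact orderOf_dvd_natCard _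
      obtain ⟨k, hk⟩ := R.isPGroup' ⟨x, hx⟩
      have h3 : x ^ r ^ k = 1 := congrArg Subtype.val hk
      have h4 : orderOf (x : G ⧸ N) ∣ r ^ k := by
        apply orderOf_dvd_of_pow_eq_one
        rw [← QuotientGroup.mk_pow, h3]; rfl
      rcases (Nat.dvd_prime hq).1 h2 with h5 | h5
      · rwa [orderOf_eq_one_iff] at h5
      · rw [h5] at h4
        exact absurd ((Nat.prime_dvd_prime_iff_eq hq hr).1 (hq.dvd_of_dvd_pow h4)).symm hne
    have hRs := isSylIn_sylow_top R
    have hRsN : IsSylIn r (R : Subgroup G) N := hRs.mono hRN le_top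
    have hall : ∀ g : G, g ∈ N := by
      intro g
      obtain ⟨n, hn, m, hm, rfl⟩ := hRsN.frattini (H := ⊤) le_top (by
        rw [Subgroup.normalizer_eq_top N]) (Subgroup.mem_top g)
      refine mul_mem hn (hRN ?_)
      rw [← h r hr hrd R]
      exact (Subgroup.mem_inf.1 hm).2
    have : N = ⊤ := eq_top_iff.2 fun g _ => hall g
    rw [this, Subgroup.index_top] at hidx
    exact hq.one_lt.ne hidx
  exact ⟨_, Nat.eq_prime_pow_of_unique_prime_dvd Nat.card_pos.ne' (fun {r} hr hrd => h1 r hr hrd)⟩

theorem main (h : ∀ r : ℕ, r.Prime → r ∣ Nat.card G → ∀ R : Sylow r G,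
      normalizer ((R : Subgroup G) : Set G) = R) : ∃ q : ℕ, q.Prime ∧ IsPGroup q G := by
  by_cases hbig : ∃ q : ℕ, q.Prime ∧ 5 ≤ q ∧ q ∣ Nat.card G
  · obtain ⟨q, hq, hq5, hqd⟩ := hbig
    have : Fact q.Prime := ⟨hq⟩
    obtain ⟨S⟩ : Nonempty (Sylow q G) := inferInstance
    have hS1 : (S : Subgroup G) ≠ ⊥ := by
      intro h0
      have h1 := S.card_eq_multiplicity
      rw [h0, Subgroup.card_bot] at h1
      have h2 := (hq.dvd_iff_one_le_factorization Nat.card_pos.ne').1 hqd
      have h3 : 1 < q ^ (Nat.card G).factorization q := Nat.one_lt_pow (by omega) hq.one_lt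
      omega
    obtain ⟨N, hN, hidx⟩ := KT.index_p hq5 (isSylIn_sylow_top S) hS1 (by
      intro g hg hgo
      rw [h q hq hqd S] at hg
      have h1 : g = 1 := Bad.eq_one_of_pow_coprime S.isPGroup' hg hgo (pow_orderOf_eq_one g)
      rw [h1]; exact one_mem _)
    exact ⟨q, hq, isPGroup_of_index h hq N hidx⟩
  · push Not at hbig
    have hsol : Group.IsSolvable G := by
      have hcard : ∃ a b, Nat.card G = 2 ^ a * 3 ^ b := by
        have key : ∀ n : ℕ, n ≠ 0 → (∀ q : ℕ, q.Prime → 5 ≤ q → ¬ q ∣ n) → ∃ a b, n = 2 ^ a * 3 ^ b := by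
          intro n
          induction n using Nat.strong_induction_on with
          | _ n ih =>
            intro hn hq
            by_cases h1 : n = 1
            · exact ⟨0, 0, by simp [h1]⟩
            · obtain ⟨r, hr, hrd⟩ := Nat.exists_prime_and_dvd h1
              obtain ⟨m, rfl⟩ := hrd
              have hm : m ≠ 0 := by rintro rfl; simp at hn
              have hlt : m < r * m := by
                have := hr.two_le
                have := Nat.pos_of_ne_zero hm
                nlinarith
              obtain ⟨a, b, hab⟩ := ih m hlt hm (fun q hq1 hq2 hq3 => hq q hq1 hq2 (Dvd.dvd.mul_left hq3 r))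
              have hr5 : r < 5 := by
                by_contra h5
                exact hq r hr (by omega) (Dvd.intro _ rfl)
              have : r = 2 ∨ r = 3 := by
                have h2 := hr.two_le
                interval_cases r
                · exact Or.inl rfl
                · exact Or.inr rfl
                · exact absurd hr (by norm_num)
              rcases this with rfl | rfl
              · exact ⟨a + 1, b, by rw [hab]; ring⟩
              · exact ⟨a, b + 1, by rw [hab]; ring⟩
        exact key _ Nat.card_pos.ne' (fun q h1 h2 h3 => hbig q h1 h2 h3)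
      obtain ⟨a, b, hab⟩ := hcard
      exact H3.Burnside.burnside (Nat.card G) G 2 3 a b Nat.prime_two Nat.prime_three (by omega) hab
    by_cases hnt : Nontrivial G
    · have hne : commutator G ≠ ⊤ := (Group.IsSolvable.commutator_lt_top_of_nontrivial G).ne
      have hidx : (commutator G).index ≠ 1 := fun h => hne (Subgroup.index_eq_one.1 h)
      obtain ⟨q, hq, hqd⟩ := Nat.exists_prime_and_dvd hidx
      have : Fact q.Prime := ⟨hq⟩
      obtain ⟨S⟩ : Nonempty (Sylow q G) := inferInstance
      have hnle : ¬ (S : Subgroup G) ≤ commutator G := by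
        intro hle
        exact S.not_dvd_index (hqd.trans (Subgroup.index_dvd_of_le hle))
      obtain ⟨s, hs, hsc⟩ := SetLike.not_le_iff_exists.1 hnle
      obtain ⟨k, hk⟩ := S.isPGroup' ⟨s, hs⟩
      obtain ⟨N, hN, hNi⟩ := H13.IdxP.exists_index_p_of_not_le (p := q) (s := s)
        ⟨k, congrArg Subtype.val hk⟩ hsc
      exact ⟨q, hq, isPGroup_of_index h hq N hNi⟩
    · rw [not_nontrivial_iff_subsingleton] at hnt
      exact ⟨2, Nat.prime_two, fun g => ⟨0, Subsingleton.elim _ _⟩⟩

end Cfsg.Agent.H13.SelfN
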