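import Cfsg.Agent.H13_AG3
import Cfsg.Agent.H13_Sec5
import Cfsg.Agent.H11_Bal3
import Cfsg.Prelude.Def_LocalEven

/-!
Glauberman's triple factorizations.
-/

set_option autoImplicit false
set_option linter.all false

namespace Cfsg.Agent.H13.TF

universe u

open Subgroup Cfsg.Agent.H13.Syl Cfsg.Agent.H13.Alp Cfsg.Agent.H13.AG Cfsg.Agent.H13.Sec Cfsg

variable {G : Type u} [Group G] {p : ℕ}

/-- `Ω₁ Z(S)` -/
abbrev OZ (p : ℕ) (S : Subgroup G) : Subgroup G := omegaOne p (S ⊓ centralizer (S : Set G))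

theorem mem_OZ {S : Subgroup G} {z : G} : z ∈ OZ p S ↔ z ∈ S ∧ z ∈ centralizer (S : Set G) ∧ z ^ p = 1 := by
  constructor
  · intro h
    induction h using Subgroup.closure_induction with
    | mem x hx => exact ⟨hx.1.1, hx.1.2, hx.2⟩
    | one => exact ⟨one_mem _, one_mem _, one_pow _⟩
    | mul x y _ _ hx hy =>
      refine ⟨mul_mem hx.1 hy.1, mul_mem hx.2.1 hy.2.1, ?_⟩
      have hc : Commute x y := Subgroup.mem_centralizer_iff.1 hy.2.1 x hx.1
      rw [hc.mul_pow, hx.2.2, hy.2.2, one_mul]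
    | inv x _ hx => exact ⟨inv_mem hx.1, inv_mem hx.2.1, by rw [inv_pow, hx.2.2, inv_one]⟩
  · rintro ⟨h1, h2, h3⟩
    exact Subgroup.subset_closure ⟨⟨h1, h2⟩, h3⟩

theorem OZ_le (S : Subgroup G) : OZ p S ≤ S := fun z hz => (mem_OZ.1 hz).1

theorem OZ_elem (S : Subgroup G) : IsElementaryAbelian p (OZ p S) := by
  refine ⟨⟨⟨?_⟩⟩, fun a ha => (mem_OZ.1 ha).2.2⟩
  rintro ⟨a, ha⟩ ⟨b, hb⟩
  exact Subtype.ext (Subgroup.mem_centralizer_iff.1 (mem_OZ.1 hb).2.1 a (mem_OZ.1 ha).1)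

theorem OZ_cj (S : Subgroup G) (g : G) : cj g (OZ p S) = OZ p (cj g S) := by
  ext x
  rw [mem_cj, mem_OZ, mem_OZ, ← cj_centralizer, mem_cj, mem_cj]
  have : (g⁻¹ * x * g) ^ p = g⁻¹ * x ^ p * g := by
    have := conj_pow (i := p) (a := g⁻¹) (b := x)
    rwa [inv_inv] at this
  rw [this]
  constructor
  · rintro ⟨h1, h2, h3⟩
    refine ⟨h1, h2, ?_⟩
    calc x ^ p = g * (g⁻¹ * x ^ p * g) * g⁻¹ := by group
      _ = 1 := by rw [h3]; group
  · rintro ⟨h1, h2, h3⟩
    exact ⟨h1, h2, by rw [h3]; group⟩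

/-- the normal closure of `Z` in `H` -/
abbrev NC (Z H : Subgroup G) : Subgroup G :=
  (Subgroup.normalClosure ((Z.subgroupOf H : Subgroup ↥H) : Set ↥H)).map H.subtype

theorem NC_le_iff {Z H B : Subgroup G} (hZH : Z ≤ H) :
    NC Z H ≤ B ↔ ∀ h ∈ H, ∀ z ∈ Z, h * z * h⁻¹ ∈ B := by
  constructor
  · intro hle h hh z hz
    apply hle
    refine ⟨⟨h, hh⟩ * ⟨z, hZH hz⟩ * ⟨h, hh⟩⁻¹, ?_, rfl⟩
    have h1 : (⟨z, hZH hz⟩ : H) ∈ Subgroup.normalClosure ((Z.subgroupOf H : Subgroup ↥H) : Set ↥H) :=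
      Subgroup.subset_normalClosure (show (⟨z, hZH hz⟩ : H) ∈ ((Z.subgroupOf H : Subgroup ↥H) : Set ↥H) from hz)
    exact Subgroup.normalClosure_normal.conj_mem _ h1 _
  · intro h
    rw [Subgroup.map_le_iff_le_comap, Subgroup.normalClosure, Subgroup.closure_le]
    intro x hx
    rw [Group.mem_conjugatesOfSet_iff] at hx
    obtain ⟨z, hz, hc⟩ := hx
    rw [isConj_iff] at hc
    obtain ⟨c, rfl⟩ := hc
    exact h c.1 c.2 z.1 hz

theorem NC_norm (Z H : Subgroup G) : H ≤ normalizer ((NC Z H : Subgroup G) : Set G) :=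
  le_normalizer_map_subtype H _

theorem le_NC {Z H : Subgroup G} (hZH : Z ≤ H) : Z ≤ NC Z H := by
  intro z hz
  have := (NC_le_iff hZH).1 le_rfl 1 (one_mem _) z hz
  simpa using this

variable [Finite G] [hp : Fact p.Prime]

/-- The quotient by `O_{p'}` is constrained. -/
theorem constrained_quot {K T S R : Subgroup G} (hS : IsSylIn p S K) (hTS : T ≤ S)
    (hn : K ≤ normalizer (T : Set G)) (hC : S ⊓ centralizer (T : Set G) ≤ T) (hR : R = PC p K)
    [hRn : (R.subgroupOf K).Normal] :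
    centralizer ((pCore p (↥K ⧸ R.subgroupOf K) : Subgroup (↥K ⧸ R.subgroupOf K)) : Set (↥K ⧸ R.subgroupOf K)) ≤
      pCore p (↥K ⧸ R.subgroupOf K) := by
  set π := QuotientGroup.mk' (R.subgroupOf K) with hπ
  have hπs : Function.Surjective π := QuotientGroup.mk'_surjective _
  have hRe : R.subgroupOf K = pPrimeCore p K := by
    rw [hR, Subgroup.subgroupOf, Subgroup.comap_map_eq_self_of_injective K.subtype_injective]
  have hTK : T ≤ K := hTS.trans hS.1
  have hTp : IsPGroup p T := hS.2.1.to_le hTS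
  have hTn : (T.subgroupOf K).Normal := (Subgroup.normal_subgroupOf_iff_le_normalizer hTK).2 hn
  have hT'p : IsPGroup p (T.subgroupOf K) := hTp.comap_subtype
  have hker : (Nat.card π.ker).Coprime p := by
    rw [hπ, QuotientGroup.ker_mk', hRe]; exact H11.Cores.pPrimeCore_coprime p
  have hTπ : (T.subgroupOf K).map π ≤ pCore p (↥K ⧸ R.subgroupOf K) := by
    have : ((T.subgroupOf K).map π).Normal := Subgroup.Normal.map hTn _ hπs
    exact H11.Cores.le_pCore p (hT'p.map π)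
  intro x' hx'
  have h1 : x' ∈ centralizer (((T.subgroupOf K).map π : Subgroup (↥K ⧸ R.subgroupOf K)) : Set (↥K ⧸ R.subgroupOf K)) :=
    Subgroup.centralizer_le (SetLike.coe_subset_coe.2 hTπ) hx'
  rw [← H11.Bal.map_centralizer_of_coprime_ker π hπs p hker hT'p] at h1
  obtain ⟨x, hx, rfl⟩ := h1
  -- `x` centralizes `T`
  have hxT : (x : G) ∈ K ⊓ centralizer (T : Set G) := by
    refine ⟨x.2, ?_⟩
    change (x : G) ∈ centralizer (T : Set G)
    rw [Subgroup.mem_centralizer_iff]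
    intro t ht
    exact congrArg Subtype.val (Subgroup.mem_centralizer_iff.1 hx ⟨t, hTK ht⟩ ht)
  set D := K ⊓ centralizer (T : Set G) with hD
  have hDn : K ≤ normalizer (D : Set G) := by
    intro k hk
    rw [mem_normalizer_iff_cj, hD, cj_inf, cj_centralizer, cj_eq_of_mem hk,
      cj_eq_of_mem_normalizer (hn hk)]
  have hSD : IsSylIn p (S ⊓ D) D := hS.inf_of_le_normalizer inf_le_left hDn
  have hSDT : S ⊓ D ≤ T := le_trans (inf_le_inf_left _ inf_le_right) hC
  have h2 := central_eq hSD (by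
    intro y hy
    rw [Subgroup.mem_centralizer_iff]
    intro d hd
    exact (Subgroup.mem_centralizer_iff.1 hd.2 y (hSDT hy)).symm)
  have h3 : PC p D ≤ R := by
    rw [hR]
    apply le_pc ((pc_le _).trans inf_le_left) _ (pc_cop _)
    have key : ∀ k ∈ K, cj k (PC p D) ≤ PC p D := by
      intro k hk
      have hkD : cj k D = D := cj_eq_of_mem_normalizer (hDn hk)
      apply le_pc
      · conv_rhs => rw [← hkD]
        exact cj_mono (pc_le _)
      · conv_lhs => rw [← hkD]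
        rw [← cj_normalizer]; exact cj_mono (pc_norm _)
      · rw [card_cj]; exact pc_cop _
    intro k hk
    rw [mem_normalizer_iff_cj]
    apply le_antisymm (key k hk)
    have := key k⁻¹ (inv_mem hk)
    rwa [cj_le_iff, inv_inv] at this
  have h4 : D ≤ ((pCore p (↥K ⧸ R.subgroupOf K)).comap π).map K.subtype := by
    rw [h2]
    refine sup_le (h3.trans ?_) (hSDT.trans ?_)
    · intro r hr
      have hrK : r ∈ K := by rw [hR] at hr; exact pc_le _ hr
      refine ⟨⟨r, hrK⟩, ?_, rfl⟩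
      have : π ⟨r, hrK⟩ = 1 := by
        rw [← MonoidHom.mem_ker, hπ, QuotientGroup.ker_mk']; exact hr
      rw [SetLike.mem_coe, Subgroup.mem_comap, this]; exact one_mem _
    · intro t ht
      exact ⟨⟨t, hTK ht⟩, hTπ ⟨⟨t, hTK ht⟩, ht, rfl⟩, rfl⟩
  obtain ⟨y, hy, hyx⟩ := h4 hxT
  have : y = x := Subtype.ext hyx
  rw [← this]; exact hy

/-- Lifting a factorization. -/
theorem fac_lift {W : ∀ (Q : Type u) [Group Q], Subgroup Q} (hW : IsCharPFunctor.{u} p W)
    {K S R : Subgroup G} (hS : IsSylIn p S K) (hR : R = PC p K) [hRn : (R.subgroupOf K).Normal]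
    (h : ∀ T : Sylow p (↥K ⧸ R.subgroupOf K), ∀ x : (↥K ⧸ R.subgroupOf K),
      ∃ a ∈ centralizer ((OZ p (T : Subgroup (↥K ⧸ R.subgroupOf K)) :
          Subgroup (↥K ⧸ R.subgroupOf K)) : Set (↥K ⧸ R.subgroupOf K)),
        ∃ b ∈ normalizer ((inducedFunctor (G := (↥K ⧸ R.subgroupOf K)) W
          (T : Subgroup (↥K ⧸ R.subgroupOf K)) : Subgroup (↥K ⧸ R.subgroupOf K)) :
            Set (↥K ⧸ R.subgroupOf K)), x = a * b) :
    ∀ k ∈ K, ∃ a ∈ K ⊓ centralizer ((OZ p S : Subgroup G) : Set G),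
      ∃ b ∈ K ⊓ normalizer ((inducedFunctor (G := G) W S : Subgroup G) : Set G), ∃ r ∈ R, k = a * b * r := by
  intro k hk
  set π := QuotientGroup.mk' (R.subgroupOf K) with hπ
  have hπs : Function.Surjective π := QuotientGroup.mk'_surjective _
  have hRe : R.subgroupOf K = pPrimeCore p K := by
    rw [hR, Subgroup.subgroupOf, Subgroup.comap_map_eq_self_of_injective K.subtype_injective]
  have hker : (Nat.card π.ker).Coprime p := by
    rw [hπ, QuotientGroup.ker_mk', hRe]; exact H11.Cores.pPrimeCore_coprime p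
  set S' := S.subgroupOf K with hS'
  have hS'p : IsPGroup p S' := hS.2.1.comap_subtype
  have hS'm : S'.map K.subtype = S := Subgroup.map_subgroupOf_eq_of_le hS.1
  have hsyl := isSylIn_map_surj π hπs (isSylIn_subgroupOf hS)
  obtain ⟨T, hT⟩ := hsyl.exists_sylow_top
  obtain ⟨a, ha, b, hb, hab⟩ := h T (π ⟨k, hk⟩)
  -- the functor
  have hW1 : inducedFunctor (G := (↥K ⧸ R.subgroupOf K)) W (T : Subgroup (↥K ⧸ R.subgroupOf K)) =
      (inducedFunctor (G := K) W S').map π := by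
    rw [hT]
    apply induced_map hW π hS'p
    intro x hx h1
    have h2 : x ∈ π.ker := h1
    rw [hπ, QuotientGroup.ker_mk', hRe] at h2
    have h3 := inf_eq_bot_of_cop (H11.Cores.pPrimeCore_coprime (G := K) p) hS'p
    have h4 : x ∈ pPrimeCore p K ⊓ S' := ⟨h2, hx⟩
    rw [h3] at h4; exact h4
  have hW2 : inducedFunctor (G := G) W S = (inducedFunctor (G := K) W S').map K.subtype := by
    rw [← hS'm]
    exact induced_map hW K.subtype hS'p (fun x _ h1 => K.subtype_injective (by rw [h1, map_one]))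
  have hWp : IsPGroup p (inducedFunctor (G := K) W S') := hS'p.to_le (induced_le _)
  rw [hW1, ← H11.PComp.map_normalizer_of_coprime_ker π hπs p hker hWp] at hb
  obtain ⟨b', hb', rfl⟩ := hb
  -- the centre
  have hZ : ((OZ p S).subgroupOf K).map π ≤ OZ p (T : Subgroup (↥K ⧸ R.subgroupOf K)) := by
    rintro _ ⟨z, hz, rfl⟩
    have hz' := mem_OZ.1 (show (z : G) ∈ OZ p S from hz)
    rw [mem_OZ, hT]
    refine ⟨⟨z, hz'.1, rfl⟩, ?_, ?_⟩
    · rw [Subgroup.mem_centralizer_iff]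
      rintro _ ⟨s, hs, rfl⟩
      rw [← map_mul, ← map_mul]
      congr 1
      exact Subtype.ext (Subgroup.mem_centralizer_iff.1 hz'.2.1 s hs)
    · rw [← map_pow]
      have : z ^ p = 1 := Subtype.ext (by simpa using hz'.2.2)
      rw [this, map_one]
  have ha1 : a ∈ centralizer ((((OZ p S).subgroupOf K).map π : Subgroup _) : Set (↥K ⧸ R.subgroupOf K)) :=
    Subgroup.centralizer_le (SetLike.coe_subset_coe.2 hZ) ha
  have hZp : IsPGroup p ((OZ p S).subgroupOf K) := (hS.2.1.to_le (OZ_le S)).comap_subtype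
  rw [← H11.Bal.map_centralizer_of_coprime_ker π hπs p hker hZp] at ha1
  obtain ⟨a', ha', rfl⟩ := ha1
  rw [← map_mul] at hab
  have hr : (a' * b')⁻¹ * ⟨k, hk⟩ ∈ R.subgroupOf K := by
    have : (a' * b')⁻¹ * ⟨k, hk⟩ ∈ π.ker := by
      rw [MonoidHom.mem_ker, map_mul, map_inv, hab, inv_mul_cancel]
    rwa [hπ, QuotientGroup.ker_mk'] at this
  refine ⟨a', ⟨a'.2, ?_⟩, b', ⟨b'.2, ?_⟩, _, hr, ?_⟩
  · change (a' : G) ∈ centralizer _
    rw [Subgroup.mem_centralizer_iff]
    intro z hz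
    exact congrArg Subtype.val (Subgroup.mem_centralizer_iff.1 ha' ⟨z, hS.1 (OZ_le S hz)⟩ hz)
  · change (b' : G) ∈ normalizer _
    rw [hW2]
    exact Subgroup.le_normalizer_map K.subtype ⟨b', hb', rfl⟩
  · change k = (a' : G) * b' * (((a' : G) * b')⁻¹ * k)
    group

/-- The hypothesis of a factorization on constrained sections. -/
def Fac (p : ℕ) (W : ∀ (Q : Type u) [Group Q], Subgroup Q) (G : Type u) [Group G] : Prop :=
  ∀ (K R : Subgroup G) [hR : (R.subgroupOf K).Normal],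
    centralizer ((pCore p (↥K ⧸ R.subgroupOf K) : Subgroup (↥K ⧸ R.subgroupOf K)) : Set (↥K ⧸ R.subgroupOf K)) ≤
      pCore p (↥K ⧸ R.subgroupOf K) →
    ∀ T : Sylow p (↥K ⧸ R.subgroupOf K), ∀ x : (↥K ⧸ R.subgroupOf K),
      ∃ a ∈ centralizer ((OZ p (T : Subgroup (↥K ⧸ R.subgroupOf K)) :
          Subgroup (↥K ⧸ R.subgroupOf K)) : Set (↥K ⧸ R.subgroupOf K)),
        ∃ b ∈ normalizer ((inducedFunctor (G := (↥K ⧸ R.subgroupOf K)) W
          (T : Subgroup (↥K ⧸ R.subgroupOf K)) : Subgroup (↥K ⧸ R.subgroupOf K)) :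
            Set (↥K ⧸ R.subgroupOf K)), x = a * b

theorem le_of_fac {W : ∀ (Q : Type u) [Group Q], Subgroup Q} (hW : IsCharPFunctor.{u} p W)
    (hF : Fac p W G) {S H : Subgroup G} (hS : IsSylIn p S H)
    (hAS : NC (OZ p S) H ≤ S) (hAe : IsElementaryAbelian p (NC (OZ p S) H)) :
    NC (OZ p S) H ≤ NC (OZ p S) (normalizer ((inducedFunctor (G := G) W S : Subgroup G) : Set G)) := by
  set A := NC (OZ p S) H with hA
  have hZS : OZ p S ≤ S := OZ_le S
  have hZH : OZ p S ≤ H := hZS.trans hS.1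
  have hZN : OZ p S ≤ normalizer ((inducedFunctor (G := G) W S : Subgroup G) : Set G) :=
    hZS.trans (Subgroup.le_normalizer.trans
      (H13.CF.normalizer_le_normalizer_W (induced_isConjugacyFunctor hW) hS.2.1))
  rw [hA, NC_le_iff hZH]
  have hAn : H ≤ normalizer (A : Set G) := NC_norm _ _
  have hAab : A ≤ centralizer (A : Set G) := by
    intro a ha
    rw [Subgroup.mem_centralizer_iff]
    intro b hb
    have := hAe.1.is_comm.comm ⟨b, hb⟩ ⟨a, ha⟩
    exact congrArg Subtype.val this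
  set C := H ⊓ centralizer (A : Set G) with hC
  have hCn : H ≤ normalizer (C : Set G) := by
    intro k hk
    rw [mem_normalizer_iff_cj, hC, cj_inf, cj_centralizer, cj_eq_of_mem hk,
      cj_eq_of_mem_normalizer (hAn hk)]
  set T := S ⊓ C with hT
  have hTsyl : IsSylIn p T C := hS.inf_of_le_normalizer inf_le_left hCn
  set K := H ⊓ normalizer (T : Set G) with hK
  have hSK : S ≤ K := by
    refine le_inf hS.1 ?_
    intro s hs
    rw [mem_normalizer_iff_cj, hT, cj_inf, cj_eq_of_mem hs, cj_eq_of_mem_normalizer (hCn (hS.1 hs))]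
  have hSK' : IsSylIn p S K := hS.mono hSK inf_le_left
  have hAT : A ≤ T := le_inf hAS (le_inf (hAS.trans hS.1) hAab)
  have hCT : S ⊓ centralizer (T : Set G) ≤ T := by
    rintro x ⟨hx1, hx2⟩
    exact ⟨hx1, hS.1 hx1, Subgroup.centralizer_le hAT hx2⟩
  have hRn : ((PC p K).subgroupOf K).Normal :=
    (Subgroup.normal_subgroupOf_iff_le_normalizer (pc_le K)).2 (pc_norm K)
  have hcon := constrained_quot (R := PC p K) hSK' (T := T) inf_le_left inf_le_right hCT rfl
  have hfl := fac_lift hW hSK' (R := PC p K) rfl (hF K (PC p K) hcon)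
  intro h hh z hz
  obtain ⟨c, hc, m, hm, rfl⟩ := hTsyl.frattini (N := C) inf_le_left hCn hh
  obtain ⟨a, ha, b, hb, r, hr, hkr⟩ := hfl m⁻¹ (inv_mem hm)
  have hTp : IsPGroup p T := hS.2.1.to_le inf_le_left
  have hrA : r ∈ centralizer (A : Set G) := by
    have h1 := pc_comm (p := p) (H := K) hTp (inf_le_left.trans hSK) inf_le_right r hr
    rw [Subgroup.mem_centralizer_iff]
    intro y hy
    exact (h1 y (hAT hy)).symm
  have hm' : m = r⁻¹ * b⁻¹ * a⁻¹ := by
    rw [← inv_inv m, hkr]; group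
  have haz : a⁻¹ * z * a = z := by
    have := Subgroup.mem_centralizer_iff.1 ha.2 z hz
    rw [mul_assoc, this, inv_mul_cancel_left]
  have hbzA : b⁻¹ * z * b ∈ A := by
    have := (NC_le_iff hZH).1 (le_refl A) b⁻¹ (inv_mem hb.1.1) z hz
    rwa [inv_inv] at this
  have hbz2 : b⁻¹ * z * b ∈ NC (OZ p S) (normalizer ((inducedFunctor (G := G) W S : Subgroup G) : Set G)) := by
    have := (NC_le_iff hZN).1 le_rfl b⁻¹ (inv_mem hb.2) z hz
    rwa [inv_inv] at this
  have e1 : c * m * z * (c * m)⁻¹ = c * (r⁻¹ * (b⁻¹ * (a⁻¹ * z * a) * b) * r) * c⁻¹ := by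
    rw [hm']; group
  have e2 : ∀ u ∈ centralizer (A : Set G), u * (b⁻¹ * z * b) * u⁻¹ = b⁻¹ * z * b := by
    intro u hu
    rw [← Subgroup.mem_centralizer_iff.1 hu _ hbzA]; group
  have e3 : r⁻¹ * (b⁻¹ * z * b) * r = b⁻¹ * z * b := by
    have := e2 r⁻¹ (inv_mem hrA)
    rwa [inv_inv] at this
  rw [e1, haz, e3, e2 c hc.2]
  exact hbz2

/-- the final statement -/
theorem result {W₁ W₂ : ∀ (Q : Type u) [Group Q], Subgroup Q} (hW₁ : IsCharPFunctor.{u} p W₁)
    (hW₂ : IsCharPFunctor.{u} p W₂) (hF₁ : Fac p W₁ G) (hF₂ : Fac p W₂ G)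
    (hcs : FamilyControlsStrongFusionIn p {inducedFunctor (G := G) W₁, inducedFunctor (G := G) W₂} ⊤)
    (S : Sylow p G)
    (hZ : OZ p (S : Subgroup G) ≤
      inducedFunctor (G := G) W₁ (S : Subgroup G) ⊓ inducedFunctor (G := G) W₂ (S : Subgroup G)) :
    NC (OZ p (S : Subgroup G)) (normalizer ((inducedFunctor (G := G) W₁ (S : Subgroup G) : Subgroup G) : Set G))
      ≤ (S : Subgroup G) ∧
    IsElementaryAbelian p (NC (OZ p (S : Subgroup G))
      (normalizer ((inducedFunctor (G := G) W₁ (S : Subgroup G) : Subgroup G) : Set G))) ∧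
    IsStronglyClosed (NC (OZ p (S : Subgroup G))
      (normalizer ((inducedFunctor (G := G) W₁ (S : Subgroup G) : Subgroup G) : Set G))) (S : Subgroup G) ∧
    ControlsStrongFusion p (NC (OZ p (S : Subgroup G))
      (normalizer ((inducedFunctor (G := G) W₁ (S : Subgroup G) : Subgroup G) : Set G))) := by
  have hSy : IsSylIn p (S : Subgroup G) ⊤ := isSylIn_sylow_top S
  -- facts for one functor
  have facts : ∀ W : ∀ (Q : Type u) [Group Q], Subgroup Q, IsCharPFunctor.{u} p W →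
      OZ p (S : Subgroup G) ≤ inducedFunctor (G := G) W (S : Subgroup G) →
      (S : Subgroup G) ≤ normalizer ((inducedFunctor (G := G) W (S : Subgroup G) : Subgroup G) : Set G) ∧
      NC (OZ p (S : Subgroup G)) (normalizer ((inducedFunctor (G := G) W (S : Subgroup G) : Subgroup G) : Set G)) ≤ S ∧
      IsElementaryAbelian p (NC (OZ p (S : Subgroup G))
        (normalizer ((inducedFunctor (G := G) W (S : Subgroup G) : Subgroup G) : Set G))) := by
    intro W hW hZW
    have h1 : (S : Subgroup G) ≤ normalizer ((inducedFunctor (G := G) W (S : Subgroup G) : Subgroup G) : Set G) :=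
      Subgroup.le_normalizer.trans
        (H13.CF.normalizer_le_normalizer_W (induced_isConjugacyFunctor hW) hSy.2.1)
    set P := inducedFunctor (G := G) W (S : Subgroup G) with hP
    have hPS : P ≤ S := induced_le _
    have h2 : NC (OZ p (S : Subgroup G)) (normalizer (P : Set G)) ≤ OZ p P := by
      rw [NC_le_iff ((OZ_le _).trans h1)]
      intro h hh z hz
      have hz' := mem_OZ.1 hz
      have hzP : z ∈ OZ p P := mem_OZ.2 ⟨hZW hz, Subgroup.centralizer_le (SetLike.coe_subset_coe.2 hPS) hz'.2.1, hz'.2.2⟩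
      have h3 := conj_mem_cj (g := h) hzP
      rw [OZ_cj, cj_eq_of_mem_normalizer hh] at h3
      exact h3
    refine ⟨h1, h2.trans ((OZ_le P).trans hPS), ?_⟩
    have h4 := OZ_elem (p := p) P
    refine ⟨⟨⟨?_⟩⟩, fun a ha => h4.2 a (h2 ha)⟩
    rintro ⟨a, ha⟩ ⟨b, hb⟩
    have := congrArg Subtype.val (h4.1.is_comm.comm ⟨a, h2 ha⟩ ⟨b, h2 hb⟩)
    exact Subtype.ext this
  obtain ⟨hS1, hA1S, hA1e⟩ := facts W₁ hW₁ (hZ.trans inf_le_left)
  obtain ⟨hS2, hA2S, hA2e⟩ := facts W₂ hW₂ (hZ.trans inf_le_right)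
  set N₁ := normalizer ((inducedFunctor (G := G) W₁ (S : Subgroup G) : Subgroup G) : Set G) with hN₁
  set N₂ := normalizer ((inducedFunctor (G := G) W₂ (S : Subgroup G) : Subgroup G) : Set G) with hN₂
  have hle1 := le_of_fac hW₂ hF₂ (hSy.mono hS1 le_top) hA1S hA1e
  have hle2 := le_of_fac hW₁ hF₁ (hSy.mono hS2 le_top) hA2S hA2e
  rw [← hN₂] at hle1
  rw [← hN₁] at hle2
  have heq := le_antisymm hle1 hle2
  set A := NC (OZ p (S : Subgroup G)) N₁ with hA
  have hn1 : N₁ ≤ normalizer (A : Set G) := NC_norm _ _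
  have hn2 : N₂ ≤ normalizer (A : Set G) := by rw [heq]; exact NC_norm _ _
  have hcsf : ∀ B : Set G, B ⊆ (S : Subgroup G) → ∀ g : G, (∀ a ∈ B, g * a * g⁻¹ ∈ (S : Subgroup G)) →
      ∃ x ∈ normalizer (A : Set G), ∀ a ∈ B, g * a * g⁻¹ = x * a * x⁻¹ := by
    intro B hB g hg
    obtain ⟨c, hc, hc2⟩ := H13.CF.fcsf_all (by
      rintro W (rfl | rfl)
      · exact induced_isConjugacyFunctor hW₁
      · exact induced_isConjugacyFunctor hW₂) hcs hSy B g trivial hB hg
    refine ⟨c, ?_, fun a ha => (hc2 a ha).symm⟩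
    clear hc2
    induction hc with
    | refl => exact one_mem _
    | tail _ hst ih =>
      obtain ⟨⟨N, ⟨W, hW, rfl⟩, hN⟩, -⟩ := hst
      have h3 := (normalizer (A : Set G)).mul_mem (show _ ∈ normalizer (A : Set G) from (by
        rcases hW with rfl | rfl
        · exact hn1 hN.2
        · exact hn2 hN.2)) ih
      simpa using h3
  refine ⟨hA1S, hA1e, ⟨hA1S, ?_⟩, S, hA1S, ?_⟩
  · intro x hx g hg
    obtain ⟨n, hn, hn2⟩ := hcsf {x} (by rw [Set.singleton_subset_iff]; exact hA1S hx) g (by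
      intro a ha
      rw [Set.mem_singleton_iff] at ha
      rw [ha]; exact hg)
    rw [hn2 x rfl]
    exact ((Subgroup.mem_normalizer_iff.1 hn) x).1 hx
  · intro B hB
    refine ⟨hB, fun g hg => ?_⟩
    exact hcsf B hB g (fun a ha => hg ⟨a, ha, rfl⟩)

end Cfsg.Agent.H13.TF
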