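import Mathlib
import Cfsg.Agent.H25_Brauer
import Cfsg.Agent.H3_CharComplete
import Cfsg.Agent.H3_CharInd
import Cfsg.Agent.H3_CharInt

set_option autoImplicit false
set_option linter.unusedSectionVars false

/-!
Quotients of generalized characters, and generalized characters depending only on the `p'`-part.
-/

namespace Cfsg.Agent.H14.CharGen

open Cfsg Cfsg.Agent.H3.CharBasic Cfsg.Agent.H3.CharIrr Cfsg.Agent.H3.CharComplete Cfsg.Agent.H3.CharInd Cfsg.Agent.H3.CharInt
open scoped ComplexConjugate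

section div

variable {H : Type*} [Group H] [Fintype H]

theorem const_gen (z : ℤ) : IsGeneralizedCharacter H (fun _ => (z : ℂ)) := by
  have h := IsGen.intsmul (IsGen.of_char (IsChar.one (G := H))) z
  have e : ((z : ℂ) • (fun _ => 1 : H → ℂ)) = fun _ => (z : ℂ) := by
    funext x; simp
  rwa [e] at h

theorem exists_inv_gen {b : H → ℂ} (hb : IsGeneralizedCharacter H b) (S : Finset ℤ) :
    ∃ d : H → ℂ, IsGeneralizedCharacter H d ∧ ∀ h, ∏ c ∈ S, (b h - (c : ℂ)) = b h * d h + ∏ c ∈ S, (-(c : ℂ)) := by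
  classical
  induction S using Finset.induction with
  | empty => exact ⟨0, IsGen.zero, fun h => by simp⟩
  | insert c S hc ih =>
    obtain ⟨d, hd, h⟩ := ih
    refine ⟨b * d + (fun _ => ((∏ c ∈ S, (-c) : ℤ) : ℂ)) - (c : ℂ) • d, ?_, fun x => ?_⟩
    · exact IsGen.sub (IsGen.add (IsGen.mul hb hd) (const_gen _)) (IsGen.intsmul hd c)
    · rw [Finset.prod_insert hc, Finset.prod_insert hc, h x]
      simp only [Pi.add_apply, Pi.sub_apply, Pi.mul_apply, Pi.smul_apply, smul_eq_mul]
      push_cast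
      ring

theorem gen_div {p : ℕ} (hp : p.Prime) (hpH : ¬ p ∣ Nat.card H) {a b c : H → ℂ} (ha : IsGeneralizedCharacter H a)
    (hb : IsGeneralizedCharacter H b) (hbv : ∀ h, ∃ k : ℕ, b h = ((p ^ k : ℕ) : ℂ) ∨ b h = -((p ^ k : ℕ) : ℂ))
    (habc : ∀ h, a h = b h * c h) (hc : ∀ h, IsIntegral ℤ (c h)) : IsGeneralizedCharacter H c := by
  classical
  have hz : ∀ h, ∃ z : ℤ, b h = z ∧ ∃ k : ℕ, z.natAbs = p ^ k := by
    intro h
    obtain ⟨k, hk | hk⟩ := hbv h
    · exact ⟨(p ^ k : ℕ), by rw [hk]; push_cast; rfl, k, by simp⟩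
    · exact ⟨-(p ^ k : ℕ), by rw [hk]; push_cast; rfl, k, by simp⟩
  choose z hz hzk using hz
  obtain ⟨d, hd, hprod⟩ := exists_inv_gen hb (Finset.univ.image z)
  obtain ⟨P, hP⟩ : ∃ P : ℤ, P = ∏ c ∈ Finset.univ.image z, (-c) := ⟨_, rfl⟩
  have h0 : ∀ h, b h * d h = -(P : ℂ) := by
    intro h
    have h1 := hprod h
    rw [Finset.prod_eq_zero (Finset.mem_image_of_mem z (Finset.mem_univ h)) (by rw [hz h]; ring)] at h1
    rw [hP]; push_cast
    rw [eq_neg_iff_add_eq_zero, ← h1]
  -- P is coprime to |H|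
  have hcop : IsCoprime P (Nat.card H : ℤ) := by
    rw [hP]
    apply IsCoprime.prod_left
    intro y hy
    obtain ⟨h, -, rfl⟩ := Finset.mem_image.1 hy
    obtain ⟨k, hk⟩ := hzk h
    rw [IsCoprime.neg_left_iff, Int.isCoprime_iff_gcd_eq_one, Int.gcd, hk, Int.natAbs_natCast]
    exact Nat.Coprime.pow_left k ((Nat.Prime.coprime_iff_not_dvd hp).2 hpH)
  have hP0 : (P : ℂ) ≠ 0 := by
    rw [hP]
    push_cast
    rw [Finset.prod_ne_zero_iff]
    intro y hy
    obtain ⟨h, -, rfl⟩ := Finset.mem_image.1 hy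
    obtain ⟨k, hk⟩ := hzk h
    have : z h ≠ 0 := by
      intro h0
      rw [h0, Int.natAbs_zero] at hk
      exact (pow_pos hp.pos k).ne hk
    simpa using this
  have hcP : ∀ h, (P : ℂ) * c h = -(a h * d h) := by
    intro h
    have h1 := h0 h
    rw [habc h]
    have : (P : ℂ) = -(b h * d h) := by rw [h1]; ring
    rw [this]; ring
  have hPc : IsGeneralizedCharacter H ((P : ℂ) • c) := by
    have h1 := IsGen.neg (IsGen.mul ha hd)
    have e : (P : ℂ) • c = -(a * d) := by
      funext h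
      rw [Pi.smul_apply, smul_eq_mul, hcP]; rfl
    rw [e]; exact h1
  have hcl : IsClassFunction H c := by
    intro g h
    have h1 := IsGen.isClass hPc g h
    rw [Pi.smul_apply, Pi.smul_apply, smul_eq_mul, smul_eq_mul] at h1
    exact mul_left_cancel₀ hP0 h1
  refine isGen_of_int hcl ?_
  intro θ hθ
  obtain ⟨n, hn⟩ := ci_gen_int hPc (IsGen.of_irr hθ)
  rw [ci_smul_left] at hn
  set A := classInner c θ with hA
  have hint : IsIntegral ℤ ((Nat.card H : ℂ) * A) := by
    have hne : (Nat.card H : ℂ) ≠ 0 := by exact_mod_cast Nat.card_pos.ne'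
    rw [hA, classInner, ← mul_assoc, mul_inv_cancel₀ hne, one_mul]
    apply IsIntegral.sum
    intro x _
    exact (hc x).mul (Cfsg.Agent.H25.Brauer.isIntegral_conj ((IsChar.isIntegral (IsIrr.isCharacter hθ)) x))
  obtain ⟨u, v, huv⟩ := hcop
  have hAint : IsIntegral ℤ A := by
    have e : A = (u : ℂ) * n + (v : ℂ) * ((Nat.card H : ℂ) * A) := by
      have h1 : ((u * P + v * (Nat.card H : ℤ) : ℤ) : ℂ) = 1 := by rw [huv]; simp
      push_cast at h1
      calc A = ((u : ℂ) * P + v * (Nat.card H : ℂ)) * A := by rw [h1, one_mul]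
        _ = (u : ℂ) * ((P : ℂ) * A) + v * ((Nat.card H : ℂ) * A) := by ring
        _ = _ := by rw [hn]
    rw [e]
    exact ((isIntegral_algebraMap (R := ℤ) (A := ℂ) (x := u)).mul (isIntegral_algebraMap (R := ℤ) (A := ℂ) (x := n))).add
      ((isIntegral_algebraMap (R := ℤ) (A := ℂ) (x := v)).mul hint)
  have hrat : A = ((n / P : ℚ) : ℂ) := by
    push_cast
    rw [eq_div_iff hP0, mul_comm]
    exact hn
  rw [hrat] at hAint ⊢
  obtain ⟨k, hk⟩ := Cfsg.Agent.H25.Brauer.int_of_rat_integral _ hAint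
  exact ⟨k, hk.symm⟩

end div

section power

theorem pow_index_center {E : Type*} [Group E] [Finite E] (x : E) : x ^ (Subgroup.center E).index ∈ Subgroup.center E := by
  rw [← MonoidHom.transferCenterPow_apply x]
  exact (MonoidHom.transferCenterPow E x).2

theorem pow_mul_center {E : Type*} [Group E] [Finite E] {n : ℕ} (h : (Subgroup.center E).index ∣ n) (x y : E) :
    (x * y) ^ n = x ^ n * y ^ n ∧ ∀ z : E, x ^ n * z = z * x ^ n := by
  obtain ⟨k, rfl⟩ := h
  have h1 : (x * y) ^ (Subgroup.center E).index = x ^ (Subgroup.center E).index * y ^ (Subgroup.center E).index := by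
    have := congrArg Subtype.val (map_mul (MonoidHom.transferCenterPow E) x y)
    rwa [Subgroup.coe_mul, MonoidHom.transferCenterPow_apply, MonoidHom.transferCenterPow_apply, MonoidHom.transferCenterPow_apply] at this
  have h2 := Subgroup.mem_center_iff.1 (pow_index_center x)
  constructor
  · rw [pow_mul, pow_mul, pow_mul, h1]
    have : Commute (x ^ (Subgroup.center E).index) (y ^ (Subgroup.center E).index) := (h2 _).symm
    exact this.mul_pow k
  · intro z
    rw [pow_mul]
    have : Commute (x ^ (Subgroup.center E).index) z := (h2 z).symm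
    exact this.pow_left k

/-- in an elementary group the passage to the `p'`-part is multiplicative -/
theorem pow_mul_elementary {E : Type*} [Group E] [Finite E] {r p K : ℕ} (hr : r.Prime) (hp : p.Prime) (hE : IsElementary r E)
    (hK0 : p ^ (Nat.card E).factorization p ∣ K) (hK1 : Nat.card E / p ^ (Nat.card E).factorization p ∣ K - 1) (hK : 1 ≤ K) (x y : E) :
    (x * y) ^ K = x ^ K * y ^ K := by
  obtain ⟨z, hz, _, k, hk⟩ := hE
  have h1 : Subgroup.zpowers z ≤ Subgroup.center E := by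
    rw [Subgroup.zpowers_le]; exact hz
  have h2 : (Subgroup.center E).index ∣ r ^ k := by
    rw [← hk]; exact Subgroup.index_dvd_of_le h1
  obtain ⟨j, _, hj⟩ := (Nat.dvd_prime_pow hr).1 h2
  have hcard : (Subgroup.center E).index ∣ Nat.card E := Subgroup.index_dvd_card _
  have hE0 : Nat.card E ≠ 0 := Nat.card_pos.ne'
  by_cases hrp : r = p
  · subst hrp
    have h3 : (Subgroup.center E).index ∣ K := by
      apply dvd_trans _ hK0
      rw [hj]
      apply pow_dvd_pow
      rw [← hr.pow_dvd_iff_le_factorization hE0, ← hj]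
      exact hcard
    exact (pow_mul_center h3 x y).1
  · have h3 : (Subgroup.center E).index ∣ K - 1 := by
      apply dvd_trans _ hK1
      have h4 : Nat.card E = p ^ (Nat.card E).factorization p * (Nat.card E / p ^ (Nat.card E).factorization p) :=
        (Nat.mul_div_cancel' (Nat.ordProj_dvd _ _)).symm
      have h5 : Nat.Coprime (r ^ j) (p ^ (Nat.card E).factorization p) :=
        Nat.Coprime.pow _ _ ((Nat.coprime_primes hr hp).2 hrp)
      rw [hj] at hcard ⊢
      rw [h4] at hcard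
      exact h5.dvd_of_dvd_mul_left hcard
    obtain ⟨h4, h5⟩ := pow_mul_center h3 x y
    have e : ∀ w : E, w ^ K = w * w ^ (K - 1) := by
      intro w
      rw [← pow_succ', Nat.sub_add_cancel hK]
    rw [e (x * y), e x, e y, h4]
    calc x * y * (x ^ (K - 1) * y ^ (K - 1)) = x * (y * x ^ (K - 1)) * y ^ (K - 1) := by group
      _ = x * (x ^ (K - 1) * y) * y ^ (K - 1) := by rw [h5 y]
      _ = _ := by group

/-- generalized characters depending only on the `p'`-part -/
theorem gen_of_parts {G : Type*} [Group G] [Fintype G] {p K : ℕ} (hp : p.Prime) (hK0 : p ^ (Nat.card G).factorization p ∣ K)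
    (hK1 : Nat.card G / p ^ (Nat.card G).factorization p ∣ K - 1) (hK : 1 ≤ K) {a b c : G → ℂ} (ha : IsGeneralizedCharacter G a)
    (hb : IsGeneralizedCharacter G b) (hbv : ∀ h, ¬ p ∣ orderOf h → ∃ k : ℕ, b h = ((p ^ k : ℕ) : ℂ) ∨ b h = -((p ^ k : ℕ) : ℂ))
    (habc : ∀ h, ¬ p ∣ orderOf h → a h = b h * c h) (hc : ∀ h, ¬ p ∣ orderOf h → IsIntegral ℤ (c h)) :
    IsGeneralizedCharacter G (fun g => c (g ^ K)) := by
  classical
  have hG0 : Nat.card G ≠ 0 := Nat.card_pos.ne'
  have hreg : ∀ g : G, ¬ p ∣ orderOf (g ^ K) := by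
    intro g hd
    have h1 : (g ^ K) ^ (Nat.card G / p ^ (Nat.card G).factorization p) = 1 := by
      obtain ⟨j, hj⟩ := hK0
      rw [hj, ← pow_mul]
      have : p ^ (Nat.card G).factorization p * j * (Nat.card G / p ^ (Nat.card G).factorization p) = Nat.card G * j := by
        conv_rhs => rw [← Nat.mul_div_cancel' (Nat.ordProj_dvd (Nat.card G) p)]
        ring
      rw [this, pow_mul, pow_card_eq_one', one_pow]
    exact Nat.not_dvd_ordCompl hp hG0 (dvd_trans hd (orderOf_dvd_of_pow_eq_one h1))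
  have hcl : IsClassFunction G (fun g => c (g ^ K)) := by
    intro g h
    beta_reduce
    have h1 : (h * g * h⁻¹) ^ K = h * g ^ K * h⁻¹ := conj_pow
    rw [h1]
    have h2 : ¬ p ∣ orderOf (h * g ^ K * h⁻¹) := by rw [← h1]; exact hreg _
    have h3 := habc _ (hreg g)
    have h4 := habc _ h2
    rw [IsGen.isClass ha, IsGen.isClass hb, h3] at h4
    have hb0 : b (g ^ K) ≠ 0 := by
      have : ((p : ℕ) : ℂ) ≠ 0 := by exact_mod_cast hp.ne_zero
      obtain ⟨k, hk | hk⟩ := hbv _ (hreg g)
      · rw [hk]; push_cast; exact pow_ne_zero k this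
      · rw [hk]; push_cast; exact neg_ne_zero.2 (pow_ne_zero k this)
    exact (mul_left_cancel₀ hb0 h4).symm
  refine Cfsg.Agent.H25.Brauer.isGen_of_elementary hcl ?_
  intro E r hr hE
  have hEG : Nat.card E ∣ Nat.card G := Subgroup.card_subgroup_dvd_card E
  have hKE0 : p ^ (Nat.card E).factorization p ∣ K := dvd_trans (Nat.ordProj_dvd_ordProj_of_dvd hG0 hEG p) hK0
  have hKE1 : Nat.card E / p ^ (Nat.card E).factorization p ∣ K - 1 := dvd_trans (Nat.ordCompl_dvd_ordCompl_of_dvd hEG p) hK1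
  let π : E →* E :=
    { toFun := fun x => x ^ K
      map_one' := one_pow K
      map_mul' := pow_mul_elementary hr hp hE hKE0 hKE1 hK }
  have : Fintype π.range := Fintype.ofFinite _
  have hπreg : ∀ h : π.range, ¬ p ∣ orderOf ((h : E) : G) := by
    rintro ⟨_, ⟨x, rfl⟩⟩
    exact hreg (x : G)
  have hπ : ¬ p ∣ Nat.card π.range := by
    intro hd
    have : Fact p.Prime := ⟨hp⟩
    obtain ⟨h, hh⟩ := exists_prime_orderOf_dvd_card' p hd
    apply hπreg h
    rw [Subgroup.orderOf_coe, Subgroup.orderOf_coe, hh]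
  let ι : π.range →* G := E.subtype.comp π.range.subtype
  have h1 : IsGeneralizedCharacter π.range (fun h => c (ι h)) := by
    refine gen_div hp hπ (a := fun h => a (ι h)) (b := fun h => b (ι h)) (IsGen.comp ha ι) (IsGen.comp hb ι) ?_ ?_ ?_
    · intro h; exact hbv _ (hπreg h)
    · intro h; exact habc _ (hπreg h)
    · intro h; exact hc _ (hπreg h)
  have h2 := IsGen.comp h1 π.rangeRestrict
  exact h2

end power

/-- integrality of `χ(g)/|C(g)|_p` for characters of defect zero -/
theorem integral_defect_zero {G : Type*} [Group G] [Fintype G] {p : ℕ} (hp : p.Prime) {χ : G → ℂ} (hχ : IsIrrCharacter G χ)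
    {d : ℕ} (hd : χ 1 = d) (hdvd : p ^ (Nat.card G).factorization p ∣ d) (g : G) :
    IsIntegral ℤ (χ g / ((p ^ (Nat.card (Subgroup.centralizer ({g} : Set G))).factorization p : ℕ) : ℂ)) := by
  set C := Nat.card (Subgroup.centralizer ({g} : Set G)) with hC
  set P := p ^ C.factorization p with hP
  have hG0 : Nat.card G ≠ 0 := Nat.card_pos.ne'
  have hC0 : C ≠ 0 := Nat.card_pos.ne'
  obtain ⟨n, hn, hn1, hnd⟩ := IsIrr.dvd_card hχ
  have hnd' : n = d := by
    have : (n : ℂ) = d := by rw [← hn1, hd]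
    exact_mod_cast this
  subst hnd'
  have h1 := IsIrr.omega_class hχ g
  rw [hd] at h1
  -- index * C = |G|
  have h2 : (Subgroup.centralizer ({g} : Set G)).index * C = Nat.card G := by rw [hC]; exact Subgroup.index_mul_card _
  obtain ⟨e, he⟩ := hdvd
  obtain ⟨m', hm', hm''⟩ : ∃ m', Nat.card G = p ^ (Nat.card G).factorization p * m' ∧ m' = Nat.card G / p ^ (Nat.card G).factorization p :=
    ⟨_, (Nat.mul_div_cancel' (Nat.ordProj_dvd _ _)).symm, rfl⟩
  have hpm' : ¬ p ∣ m' := by
    rw [hm'']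
    exact Nat.not_dvd_ordCompl hp hG0
  obtain ⟨c', hc'⟩ : ∃ c', C = P * c' := ⟨_, (Nat.mul_div_cancel' (Nat.ordProj_dvd _ _)).symm⟩
  have hP0 : (P : ℂ) ≠ 0 := by exact_mod_cast (pow_pos hp.pos _).ne'
  have hn0 : (n : ℂ) ≠ 0 := by exact_mod_cast hn.ne'
  -- m' * (χ g / P) is integral
  have h3 : IsIntegral ℤ ((m' : ℂ) * (χ g / P)) := by
    have e1 : (m' : ℂ) * (χ g / P) = ((c' * e : ℕ) : ℂ) * (((Subgroup.centralizer ({g} : Set G)).index : ℂ) * χ g / n) := by
      have e2 : ((Subgroup.centralizer ({g} : Set G)).index : ℂ) * ((P : ℂ) * c') = ((p ^ (Nat.card G).factorization p : ℕ) : ℂ) * m' := by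
        have : (Subgroup.centralizer ({g} : Set G)).index * (P * c') = p ^ (Nat.card G).factorization p * m' := by
          rw [← hc', h2]; exact hm'
        exact_mod_cast this
      have e3 : (n : ℂ) = ((p ^ (Nat.card G).factorization p : ℕ) : ℂ) * e := by exact_mod_cast he
      rw [mul_div_assoc', mul_div_assoc', div_eq_div_iff hP0 hn0, e3]
      push_cast at e2 ⊢
      calc (m' : ℂ) * χ g * ((p : ℂ) ^ (Nat.card G).factorization p * e) = ((p : ℂ) ^ (Nat.card G).factorization p * m') * (χ g * e) := by ring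
        _ = _ := by rw [← e2]; ring
    rw [e1]
    exact (isIntegral_algebraMap (R := ℤ) (A := ℂ) (x := ((c' * e : ℕ) : ℤ))).mul h1 |> fun h => by simpa using h
  have h4 : IsIntegral ℤ ((P : ℂ) * (χ g / P)) := by
    rw [mul_div_cancel₀ _ hP0]
    exact IsChar.isIntegral (IsIrr.isCharacter hχ) g
  have hcop : IsCoprime (P : ℤ) (m' : ℤ) := by
    rw [Int.isCoprime_iff_gcd_eq_one]
    change Nat.gcd _ _ = 1
    rw [Int.natAbs_natCast, Int.natAbs_natCast]
    exact Nat.Coprime.pow_left _ ((Nat.Prime.coprime_iff_not_dvd hp).2 hpm')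
  obtain ⟨u, v, huv⟩ := hcop
  have e : χ g / P = (u : ℂ) * ((P : ℂ) * (χ g / P)) + (v : ℂ) * ((m' : ℂ) * (χ g / P)) := by
    have h1 : ((u * P + v * m' : ℤ) : ℂ) = 1 := by rw [huv]; simp
    push_cast at h1
    calc χ g / P = ((u : ℂ) * P + v * m') * (χ g / P) := by rw [h1, one_mul]
      _ = _ := by ring
  rw [e]
  exact ((isIntegral_algebraMap (R := ℤ) (A := ℂ) (x := u)).mul h4).add
      ((isIntegral_algebraMap (R := ℤ) (A := ℂ) (x := v)).mul h3)

end Cfsg.Agent.H14.CharGen
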