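import Mathlib
import Cfsg.Agent.H14_ChevJ

set_option autoImplicit false
set_option linter.unusedSectionVars false

/-!
Chevalley groups: field and graph automorphisms commute; generation by simple root subgroups and their negatives.
-/

namespace Cfsg.Agent.H14.Chev

open Cfsg Cfsg.Lie Cfsg.Lie.ChevalleyDatum Cfsg.Agent.H6 Cfsg.Agent.H6.Chev Cfsg.Agent.H6.Chev.Model
open scoped Matrix

variable {D : ChevalleyDatum} {F : Type*} [Field F] (m : Model D)

include m in
theorem s2160 (f g : ↥(D.group F) ≃* ↥(D.group F)) (hf : D.IsFieldAut f) (hg : D.IsGraphAut g) (y : ↥(D.group F)) :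
    f (g y) = g (f y) := by
  obtain ⟨σ, hσ⟩ := hf
  obtain ⟨π, -, hπ⟩ := hg
  have h1 : ∀ (r : Fin D.nroots) (t : F), f (xg m r t) = xg m r (σ t) := fun r t =>
    Subtype.ext (Units.ext (hσ (xg m r t) r t r.2 rfl))
  have h2 : ∀ (i : Fin D.rank) (t : F), g (xg m (m.p i) t) = xg m (m.p (π i)) (t ^ D.graphExp (ringChar F) i (π i)) :=
    fun i t => Subtype.ext (Units.ext ((hπ (xg m (m.p i) t) i t).1 rfl))
  have h3 : ∀ (i : Fin D.rank) (t : F), g (xg m (m.ng (m.p i)) t) = xg m (m.ng (m.p (π i))) (t ^ D.graphExp (ringChar F) i (π i)) :=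
    fun i t => Subtype.ext (Units.ext ((hπ (xg m (m.ng (m.p i)) t) i t).2 rfl))
  have h4 : g.trans f = f.trans g := by
    apply aut_ext m
    · intro i t
      rw [MulEquiv.trans_apply, MulEquiv.trans_apply, h2, h1, h1, h2, map_pow]
    · intro i t
      rw [MulEquiv.trans_apply, MulEquiv.trans_apply, h3, h1, h1, h3, map_pow]
  exact congrArg (fun e : ↥(D.group F) ≃* ↥(D.group F) => e y) h4

/-- the simple roots and their negatives -/
def RS (D : ChevalleyDatum) (r : ℕ) : Prop := ∃ i < D.rank, r = D.simple i ∨ r = D.neg (D.simple i)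

theorem n_mem_RS {i : ℕ} (hi : i < D.rank) : m.n F i ∈ m.gen F (RS D) :=
  nn_mem_gen m ⟨i, hi, Or.inl rfl⟩ ⟨i, hi, Or.inr rfl⟩ 1

theorem gen_RS : m.gen F (RS D) = D.group F := by
  apply le_antisymm
  · exact m.gen_le fun r _ _ t => m.X_mem_group r t
  · rw [m.group_eq]
    apply m.gen_le
    intro r hr _ t
    refine m.root_induction (P := fun r => ∀ t : F, m.X r t ∈ m.gen F (RS D)) ?_ ?_ r hr t
    · intro i hi t
      exact m.X_mem_gen ⟨i, hi, Or.inl rfl⟩ t
    · intro i hi r hr ih t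
      have e : m.X (D.reflectRoot i r) t = m.n F i * m.X r (((m.eta i r : ℤ) : F) * t) * (m.n F i)⁻¹ := by
        rw [m.n_X hi hr, mul_inv_cancel_right, ← mul_assoc, m.etaF_mul_self hi hr, one_mul]
      rw [e]
      exact mul_mem (mul_mem (n_mem_RS m hi) (ih _)) (inv_mem (n_mem_RS m hi))

end Cfsg.Agent.H14.Chev
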