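import Mathlib
import Cfsg.Agent.H14_ChevN

set_option autoImplicit false
set_option linter.unusedSectionVars false

/-!
Chevalley groups: construction of graph automorphisms as subgroups of `G × G`.
-/

namespace Cfsg.Agent.H14.Chev

open Cfsg Cfsg.Lie Cfsg.Lie.ChevalleyDatum Cfsg.Agent.H6 Cfsg.Agent.H6.Chev Cfsg.Agent.H6.Chev.Model
open scoped Matrix

variable {D : ChevalleyDatum} {F : Type*} [Field F] {m : Model D}

/-- transported commutator terms -/
def termsL (D : ChevalleyDatum) (P : ℤ) (ρ : ℕ → ℕ) (ε : ℕ → ℤ) (q : ℕ → ℕ) (k s : ℕ) : List (ℕ × ℤ × ℕ × ℕ) :=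
  ((D.commTerms k s).filter fun c => decide (c.2.1 % P ≠ 0)).map fun c =>
    (ρ c.1, (ε c.1 * c.2.1 * (-1) ^ c.2.2.1) % P, c.2.2.1 * q c.1, c.2.2.2 * q c.1)

/-- commutator terms of the transported elements -/
def termsR (D : ChevalleyDatum) (P : ℤ) (ρ : ℕ → ℕ) (ε : ℕ → ℤ) (q : ℕ → ℕ) (k s : ℕ) : List (ℕ × ℤ × ℕ × ℕ) :=
  ((D.commTerms (ρ k) (ρ s)).filter fun c => decide (c.2.1 % P ≠ 0)).map fun c =>
    (c.1, (c.2.1 * (-ε k) ^ c.2.2.1 * (ε s) ^ c.2.2.2) % P, q k * c.2.2.1, q s * c.2.2.2)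

/-- data for a graph automorphism -/
structure GD (m : Model D) (F : Type*) [Field F] where
  P : ℤ
  hP : (P : F) = 0
  π : Equiv.Perm (Fin D.rank)
  ρ : ℕ → ℕ
  ε : ℕ → ℤ
  q : ℕ → ℕ
  fr : ℕ → (F →+* F)
  hfr : ∀ r t, fr r t = t ^ q r
  q_ne : ∀ r, q r ≠ 0
  ρ_lt : ∀ r < D.nroots, ρ r < D.nroots
  ρ_inj : ∀ r < D.nroots, ∀ s < D.nroots, ρ r = ρ s → r = s
  ρ_p : ∀ i : Fin D.rank, ρ (m.p i) = m.p (π i)
  ρ_neg : ∀ r < D.nroots, ρ (D.neg r) = D.neg (ρ r)
  ρ_pos : ∀ r, m.N ≤ r → r < D.nroots → m.N ≤ ρ r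
  ε_p : ∀ i : Fin D.rank, ε (m.p i) = 1
  ε_np : ∀ i : Fin D.rank, ε (m.ng (m.p i)) = 1
  q_neg : ∀ r < D.nroots, q (D.neg r) = q r
  ρ_refl : ∀ i : Fin D.rank, ∀ r < D.nroots, ρ (D.reflectRoot i r) = D.reflectRoot (π i) (ρ r)
  q_refl : ∀ i : Fin D.rank, ∀ r < D.nroots, q (D.reflectRoot i r) = q r
  ε_refl : ∀ i : Fin D.rank, ∀ r < D.nroots, P ∣ ε (D.reflectRoot i r) * m.eta i r - m.eta (π i) (ρ r) * ε r
  cart : ∀ i : Fin D.rank, ∀ r < D.nroots, D.cartan i r * q r = q (m.p i) * D.cartan (π i) (ρ r)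
  comm : ∀ k s, m.N ≤ k → k < s → s < D.nroots → (termsR D P ρ ε q k s).Perm (termsL D P ρ ε q k s) ∧
    ∀ c ∈ termsR D P ρ ε q k s, ∀ c' ∈ termsR D P ρ ε q k s, c.1 = c'.1 ∨ ∀ d ∈ D.commTerms c.1 c'.1, d.2.1 % P = 0

namespace GD

variable (d : GD m F)

/-- the parameter map -/
def f (r : ℕ) (t : F) : F := (d.ε r : F) * t ^ d.q r

theorem f_add (r : ℕ) (t u : F) : d.f r (t + u) = d.f r t + d.f r u := by
  unfold f
  rw [← d.hfr, ← d.hfr, ← d.hfr, map_add, mul_add]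

theorem f_zero (r : ℕ) : d.f r 0 = 0 := by
  unfold f
  rw [zero_pow (d.q_ne r), mul_zero]

theorem int_pow (r : ℕ) (z : ℤ) : (z : F) ^ d.q r = z := by
  rw [← d.hfr, map_intCast]

theorem cast_of_dvd {a b : ℤ} (h : d.P ∣ a - b) : (a : F) = b := by
  obtain ⟨c, hc⟩ := h
  have : ((a - b : ℤ) : F) = 0 := by rw [hc]; push_cast; rw [d.hP, zero_mul]
  push_cast at this
  exact sub_eq_zero.1 this

theorem cast_emod (a : ℤ) : ((a % d.P : ℤ) : F) = a := by
  apply d.cast_of_dvd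
  have : a % d.P - a = - (d.P * (a / d.P)) := by
    have := Int.emod_add_mul_ediv a d.P
    linarith
  rw [this]
  exact (dvd_mul_right _ _).neg_right

theorem cast_zero {a : ℤ} (h : a % d.P = 0) : (a : F) = 0 := by
  rw [← d.cast_emod, h, Int.cast_zero]

/-- the pair of root elements -/
def Pr (r : ℕ) (t : F) : GL D.Idx F × GL D.Idx F := (m.X r t, m.X (d.ρ r) (d.f r t))

theorem Pr_add (r : ℕ) (t u : F) : d.Pr r (t + u) = d.Pr r t * d.Pr r u := by
  unfold Pr
  rw [m.X_add, d.f_add, m.X_add]; rfl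

theorem Pr_zero (r : ℕ) : d.Pr r 0 = 1 := by
  unfold Pr
  rw [m.X_zero, d.f_zero, m.X_zero]; rfl

theorem Pr_neg (r : ℕ) (t : F) : d.Pr r (-t) = (d.Pr r t)⁻¹ := by
  rw [eq_inv_iff_mul_eq_one, ← Pr_add, neg_add_cancel, Pr_zero]

/-- the group generated by pairs -/
def gen2 (R : ℕ → Prop) : Subgroup (GL D.Idx F × GL D.Idx F) :=
  Subgroup.closure {g | ∃ (r : ℕ) (t : F), R r ∧ r < D.nroots ∧ g = d.Pr r t}

theorem Pr_mem {R : ℕ → Prop} {r : ℕ} (h : R r) (hr : r < D.nroots) (t : F) : d.Pr r t ∈ d.gen2 R :=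
  Subgroup.subset_closure ⟨r, t, h, hr, rfl⟩

theorem gen2_mono {R R' : ℕ → Prop} (h : ∀ r, r < D.nroots → R r → R' r) : d.gen2 R ≤ d.gen2 R' := by
  apply Subgroup.closure_mono
  rintro _ ⟨r, t, hR, hr, rfl⟩
  exact ⟨r, t, h r hr hR, hr, rfl⟩

theorem gen2_fst {R : ℕ → Prop} {g : GL D.Idx F × GL D.Idx F} (h : g ∈ d.gen2 R) : g.1 ∈ m.gen F R := by
  induction h using Subgroup.closure_induction with
  | mem x hx => obtain ⟨r, t, hR, _, rfl⟩ := hx; exact m.X_mem_gen hR t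
  | one => exact one_mem _
  | mul x y _ _ hx hy => exact mul_mem hx hy
  | inv x _ hx => exact inv_mem hx

theorem gen2_snd {R R' : ℕ → Prop} (hR' : ∀ r, r < D.nroots → R r → R' (d.ρ r)) {g : GL D.Idx F × GL D.Idx F}
    (h : g ∈ d.gen2 R) : g.2 ∈ m.gen F R' := by
  induction h using Subgroup.closure_induction with
  | mem x hx => obtain ⟨r, t, hR, hr, rfl⟩ := hx; exact m.X_mem_gen (hR' r hr hR) _
  | one => exact one_mem _
  | mul x y _ _ hx hy => exact mul_mem hx hy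
  | inv x _ hx => exact inv_mem hx

theorem prod_filter {α G : Type*} [Monoid G] (l : List α) (p : α → Bool) (g : α → G) (h : ∀ c ∈ l, p c = false → g c = 1) :
    (l.map g).prod = ((l.filter p).map g).prod := by
  induction l with
  | nil => rfl
  | cons a l ih =>
    have ih' := ih (fun c hc => h c (List.mem_cons_of_mem _ hc))
    by_cases hp : p a
    · rw [List.filter_cons_of_pos hp, List.map_cons, List.map_cons, List.prod_cons, List.prod_cons, ih']
    · rw [List.filter_cons_of_neg hp, List.map_cons, List.prod_cons, ih', h a List.mem_cons_self (by simpa using hp), one_mul]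

/-- the value of a commutator term -/
def val (t u : F) (c : ℕ × ℤ × ℕ × ℕ) : GL D.Idx F := m.X c.1 ((c.2.1 : F) * t ^ c.2.2.1 * u ^ c.2.2.2)

theorem word_eq (k s : ℕ) (t u : F) : m.word (D.commWord F k s t u) =
    (((D.commTerms k s).filter fun c => decide (c.2.1 % d.P ≠ 0)).map fun c =>
      m.X c.1 ((c.2.1 : F) * (-t) ^ c.2.2.1 * u ^ c.2.2.2)).prod := by
  unfold Model.word ChevalleyDatum.commWord
  rw [List.map_map]
  rw [prod_filter _ (fun c => decide (c.2.1 % d.P ≠ 0))]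
  · rfl
  · intro c _ hc
    have hc' : c.2.1 % d.P = 0 := by simpa using hc
    change m.X c.1 ((c.2.1 : F) * (-t) ^ c.2.2.1 * u ^ c.2.2.2) = 1
    rw [d.cast_zero hc', zero_mul, zero_mul, m.X_zero]

theorem snd_L (k s : ℕ) (t u : F) :
    (((D.commTerms k s).filter fun c => decide (c.2.1 % d.P ≠ 0)).map fun c =>
      m.X (d.ρ c.1) (d.f c.1 ((c.2.1 : F) * (-t) ^ c.2.2.1 * u ^ c.2.2.2))).prod =
    ((termsL D d.P d.ρ d.ε d.q k s).map (val (m := m) t u)).prod := by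
  unfold termsL
  rw [List.map_map]
  congr 1
  apply List.map_congr_left
  intro c _
  simp only [Function.comp, val]
  congr 1
  rw [d.cast_emod]
  unfold f
  push_cast
  rw [mul_pow, mul_pow, d.int_pow, neg_pow t, mul_pow]
  have h1 : (((-1 : F)) ^ c.2.2.1) ^ d.q c.1 = (-1) ^ c.2.2.1 := by
    have := d.int_pow c.1 ((-1) ^ c.2.2.1)
    push_cast at this
    exact this
  rw [h1, ← pow_mul, ← pow_mul]
  ring

theorem snd_R (k s : ℕ) (t u : F) :
    m.word (D.commWord F (d.ρ k) (d.ρ s) (d.f k t) (d.f s u)) =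
    ((termsR D d.P d.ρ d.ε d.q k s).map (val (m := m) t u)).prod := by
  rw [d.word_eq]
  unfold termsR
  rw [List.map_map]
  congr 1
  apply List.map_congr_left
  intro c _
  simp only [Function.comp, val]
  congr 1
  rw [d.cast_emod]
  unfold f
  push_cast
  rw [← neg_mul, mul_pow, mul_pow, pow_mul, pow_mul]
  ring

theorem pair_word {k s : ℕ} (hk : m.N ≤ k) (hks : k < s) (hs : s < D.nroots) (t u : F) :
    (m.word (D.commWord F k s t u), m.word (D.commWord F (d.ρ k) (d.ρ s) (d.f k t) (d.f s u))) ∈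
      d.gen2 (fun c => ∃ e ∈ D.commTerms k s, e.1 = c) := by
  have hkn : k < D.nroots := by omega
  have hks' : s ≠ k := by omega
  have hρk := d.ρ_pos k hk hkn
  have hρs := d.ρ_pos s (by omega) hs
  have hne : d.ρ s ≠ d.ρ k := fun h => hks' (d.ρ_inj _ hs _ hkn h)
  obtain ⟨hperm, hcomm⟩ := d.comm k s hk hks hs
  have hneg : s ≠ D.neg k := by
    have := (m.neg_lt_iff hkn).2 hk
    omega
  -- commutation of the second coordinates
  have hpos : ∀ c ∈ termsR D d.P d.ρ d.ε d.q k s, m.N ≤ c.1 ∧ c.1 < D.nroots := by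
    intro c hc
    unfold termsR at hc
    rw [List.mem_map] at hc
    obtain ⟨e, he, rfl⟩ := hc
    have h1 := m.comm_gt hρk hρs (d.ρ_lt k hkn) (d.ρ_lt s hs) hne (List.mem_filter.1 he).1
    exact ⟨by change m.N ≤ e.1; omega, h1.2.2⟩
  have hC : ∀ c ∈ termsR D d.P d.ρ d.ε d.q k s, ∀ c' ∈ termsR D d.P d.ρ d.ε d.q k s,
      Commute (val (m := m) t u c) (val (m := m) t u c') := by
    intro c hc c' hc'
    unfold val
    rcases hcomm c hc c' hc' with h1 | h1
    · rw [h1]; exact m.X_comm _ _ _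
    · by_cases h2 : c'.1 = c.1
      · rw [h2]; exact m.X_comm _ _ _
      · have p1 := hpos c hc
        have p2 := hpos c' hc'
        have h3 : c'.1 ≠ D.neg c.1 := by
          have := (m.neg_lt_iff p1.2).2 p1.1
          omega
        have h4 := m.X_comm_formula p1.2 p2.2 h2 h3 ((c.2.1 : F) * t ^ c.2.2.1 * u ^ c.2.2.2) ((c'.2.1 : F) * t ^ c'.2.2.1 * u ^ c'.2.2.2)
        have h5 : m.word (D.commWord F c.1 c'.1 ((c.2.1 : F) * t ^ c.2.2.1 * u ^ c.2.2.2) ((c'.2.1 : F) * t ^ c'.2.2.1 * u ^ c'.2.2.2)) = 1 := by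
          rw [d.word_eq, List.filter_eq_nil_iff.2]
          · rfl
          · intro e he
            simp [h1 e he]
        rw [h5, mul_one] at h4
        exact h4.symm
  have h2 : m.word (D.commWord F (d.ρ k) (d.ρ s) (d.f k t) (d.f s u)) =
      (((D.commTerms k s).filter fun c => decide (c.2.1 % d.P ≠ 0)).map fun c =>
      m.X (d.ρ c.1) (d.f c.1 ((c.2.1 : F) * (-t) ^ c.2.2.1 * u ^ c.2.2.2))).prod := by
    rw [d.snd_L, d.snd_R]
    apply List.Perm.prod_eq' (hperm.map _)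
    rw [List.pairwise_map]
    exact List.pairwise_of_forall_mem_list hC
  rw [h2, d.word_eq]
  have h3 : ∀ l : List (ℕ × ℤ × ℕ × ℕ), (∀ c ∈ l, c ∈ D.commTerms k s) →
      ((l.map fun c => m.X c.1 ((c.2.1 : F) * (-t) ^ c.2.2.1 * u ^ c.2.2.2)).prod,
        (l.map fun c => m.X (d.ρ c.1) (d.f c.1 ((c.2.1 : F) * (-t) ^ c.2.2.1 * u ^ c.2.2.2))).prod) ∈
      d.gen2 (fun c => ∃ e ∈ D.commTerms k s, e.1 = c) := by
    intro l
    induction l with
    | nil => intro _; exact one_mem _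
    | cons a l ih =>
      intro hl
      have h4 := ih (fun c hc => hl c (List.mem_cons_of_mem _ hc))
      have ha := hl a List.mem_cons_self
      have h5 := d.Pr_mem (R := fun c => ∃ e ∈ D.commTerms k s, e.1 = c) ⟨a, ha, rfl⟩
        (m.comm_lt k hkn s hs hks' hneg a ha).1 ((a.2.1 : F) * (-t) ^ a.2.2.1 * u ^ a.2.2.2)
      have h6 := mul_mem h5 h4
      simp only [List.map_cons, List.prod_cons]
      exact h6
  exact h3 _ (fun c hc => (List.mem_filter.1 hc).1)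

/-- the commutator relation for pairs -/
theorem pair_comm {k s : ℕ} (hk : m.N ≤ k) (hks : k < s) (hs : s < D.nroots) (t u : F) :
    ∃ W ∈ d.gen2 (fun c => ∃ e ∈ D.commTerms k s, e.1 = c), d.Pr s u * d.Pr k t = d.Pr k t * d.Pr s u * W := by
  refine ⟨_, d.pair_word hk hks hs t u, ?_⟩
  have hkn : k < D.nroots := by omega
  have hks' : s ≠ k := by omega
  have hneg : s ≠ D.neg k := by
    have := (m.neg_lt_iff hkn).2 hk
    omega
  have hρk := d.ρ_pos k hk hkn
  have hρs := d.ρ_pos s (by omega) hs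
  have hne : d.ρ s ≠ d.ρ k := fun h => hks' (d.ρ_inj _ hs _ hkn h)
  have hneg' : d.ρ s ≠ D.neg (d.ρ k) := by
    have := (m.neg_lt_iff (d.ρ_lt k hkn)).2 hρk
    omega
  unfold Pr
  apply Prod.ext
  · exact m.X_comm_formula hkn hs hks' hneg t u
  · exact m.X_comm_formula (d.ρ_lt k hkn) (d.ρ_lt s hs) hne hneg' _ _

/-- conjugation inside the positive part -/
theorem conj_mem {R : ℕ → Prop} {k : ℕ} (hk : m.N ≤ k) (hkn : k < D.nroots)
    (h : ∀ s, s < D.nroots → R s → m.N ≤ s ∧ (s ≠ k → ∀ c ∈ D.commTerms k s, R c.1) ∧ (s ≠ k → ∀ c ∈ D.commTerms s k, R c.1))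
    (t : F) : d.Pr k t ∈ Subgroup.normalizer (d.gen2 R : Set (GL D.Idx F × GL D.Idx F)) := by
  have key : ∀ t : F, ∀ g ∈ d.gen2 R, (d.Pr k t)⁻¹ * g * d.Pr k t ∈ d.gen2 R := by
    intro t g hg
    induction hg using Subgroup.closure_induction with
    | mem x hx =>
      obtain ⟨s, u, hR, hs, rfl⟩ := hx
      obtain ⟨h1, h2, h3⟩ := h s hs hR
      by_cases hsk : s = k
      · subst hsk
        rw [← d.Pr_neg, ← d.Pr_add, ← d.Pr_add]
        exact d.Pr_mem hR hs _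
      · rcases lt_or_gt_of_ne hsk with hlt | hgt
        · obtain ⟨W, hW, he⟩ := d.pair_comm h1 hlt hkn u t
          have h4 : (d.Pr k t)⁻¹ * d.Pr s u * d.Pr k t = d.Pr s u * W⁻¹ := by
            have h5 : d.Pr s u * d.Pr k t = d.Pr k t * d.Pr s u * W⁻¹ := by rw [he]; group
            rw [mul_assoc, h5]; group
          rw [h4]
          refine mul_mem (d.Pr_mem hR hs _) (inv_mem (d.gen2_mono ?_ hW))
          rintro r hr ⟨e, he', rfl⟩
          exact h3 hsk e he'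
        · obtain ⟨W, hW, he⟩ := d.pair_comm hk hgt hs t u
          have h4 : (d.Pr k t)⁻¹ * d.Pr s u * d.Pr k t = d.Pr s u * W := by
            rw [mul_assoc, he]; group
          rw [h4]
          refine mul_mem (d.Pr_mem hR hs _) (d.gen2_mono ?_ hW)
          rintro r hr ⟨e, he', rfl⟩
          exact h2 hsk e he'
    | one => simp
    | mul x y _ _ hx hy =>
      have e : (d.Pr k t)⁻¹ * (x * y) * d.Pr k t = ((d.Pr k t)⁻¹ * x * d.Pr k t) * ((d.Pr k t)⁻¹ * y * d.Pr k t) := by group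
      rw [e]; exact mul_mem hx hy
    | inv x _ hx =>
      have e : (d.Pr k t)⁻¹ * x⁻¹ * d.Pr k t = ((d.Pr k t)⁻¹ * x * d.Pr k t)⁻¹ := by group
      rw [e]; exact inv_mem hx
  apply mem_normalizer_of_conj
  · exact key t
  · intro g hg
    have := key (-t) g hg
    rwa [d.Pr_neg, inv_inv] at this

end GD

end Cfsg.Agent.H14.Chev
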