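import Mathlib
import Cfsg.Agent.H14_ChevO

set_option autoImplicit false
set_option linter.unusedSectionVars false

/-!
Chevalley groups: construction of graph automorphisms as subgroups of `G × G`, Bruhat decomposition.
-/

namespace Cfsg.Agent.H14.Chev

open Cfsg Cfsg.Lie Cfsg.Lie.ChevalleyDatum Cfsg.Agent.H6 Cfsg.Agent.H6.Chev Cfsg.Agent.H6.Chev.Model
open scoped Matrix

variable {D : ChevalleyDatum} {F : Type*} [Field F] {m : Model D}

theorem eq_zero_of_mem_gt {k : ℕ} (hk : m.N ≤ k) (hkn : k < D.nroots) {t : F}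
    (h : m.X k t ∈ m.gen F (fun r => k + 1 ≤ r)) : t = 0 := by
  have h0 := m.lam_pos hkn hk
  have h1 := m.Sh_gen' (φ := m.wt) (S := {z | m.lam k < z}) (fun a ha b hb => by
    change m.lam k < a + b
    change m.lam k < a at ha
    change m.lam k < b at hb
    omega) (fun r hr hkr => by
      change m.lam k < _
      exact m.lam_strictMono (by omega) hr) h
  apply m.eq_zero_of_Sh hkn h1
  change ¬ m.lam k < m.lam k
  exact lt_irrefl _

theorem nn_X (i : Fin D.rank) (s : Fˣ) {r : ℕ} (hr : r < D.nroots) (t : F) :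
    m.nn (m.p i) (s : F) * m.X r t = m.X (D.reflectRoot i r)
      (((s ^ D.cartan i (D.reflectRoot i r) : Fˣ) : F) * (((m.eta i r : ℤ) : F) * t)) * m.nn (m.p i) (s : F) := by
  have h1 : m.nn (m.p i) (s : F) = m.hh (m.p i) (s : F) * m.n F i := m.nn_mul_nn_inv _ _
  have h2 : pair D (m.p i) (D.reflectRoot i r) = D.cartan i (D.reflectRoot i r) := m.pair_simple i.2 _
  rw [h1, mul_assoc, m.n_X i.2 hr, ← mul_assoc, m.hh_eq (m.p i).2, m.dm_X, m.chi_hc _ _ (m.refl_lt i i.2 r hr), h2]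
  group

namespace GD

variable (d : GD m F)

theorem mem_single {k : ℕ} {g : GL D.Idx F × GL D.Idx F} (h : g ∈ d.gen2 (fun r => r = k)) :
    ∃ t, g = d.Pr k t := by
  induction h using Subgroup.closure_induction with
  | mem x hx => obtain ⟨r, t, rfl, _, rfl⟩ := hx; exact ⟨t, rfl⟩
  | one => exact ⟨0, (d.Pr_zero k).symm⟩
  | mul x y _ _ hx hy =>
    obtain ⟨t, rfl⟩ := hx
    obtain ⟨u, rfl⟩ := hy
    exact ⟨t + u, (d.Pr_add k t u).symm⟩
  | inv x _ hx =>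
    obtain ⟨t, rfl⟩ := hx
    exact ⟨-t, (d.Pr_neg k t).symm⟩

theorem exists_mul {R R' : ℕ → Prop} {k : ℕ} (hk : m.N ≤ k) (hkn : k < D.nroots)
    (h : ∀ s, s < D.nroots → R s → m.N ≤ s ∧ (s ≠ k → ∀ c ∈ D.commTerms k s, R c.1) ∧ (s ≠ k → ∀ c ∈ D.commTerms s k, R c.1))
    (hR' : ∀ r, r < D.nroots → R' r → r = k ∨ R r) {g : GL D.Idx F × GL D.Idx F} (hg : g ∈ d.gen2 R') :
    ∃ t, ∃ g' ∈ d.gen2 R, g = d.Pr k t * g' := by
  have h1 : d.gen2 R' ≤ d.gen2 (fun r => r = k) ⊔ d.gen2 R := by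
    apply (Subgroup.closure_le _).2
    rintro _ ⟨r, t, hr, hrn, rfl⟩
    rcases hR' r hrn hr with h2 | h2
    · exact Subgroup.mem_sup_left (d.Pr_mem (R := fun r => r = k) h2 hrn t)
    · exact Subgroup.mem_sup_right (d.Pr_mem h2 hrn t)
  have h2 : d.gen2 (fun r => r = k) ≤ Subgroup.normalizer (d.gen2 R : Set (GL D.Idx F × GL D.Idx F)) := by
    apply (Subgroup.closure_le _).2
    rintro _ ⟨r, t, rfl, hrn, rfl⟩
    exact d.conj_mem hk hkn h t
  obtain ⟨a, ha, b, hb, rfl⟩ := (mem_sup_norm h2).1 (h1 hg)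
  obtain ⟨t, rfl⟩ := d.mem_single ha
  exact ⟨t, b, hb, rfl⟩

/-- the positive part is a graph -/
theorem one_of_fst : ∀ (j k : ℕ), D.nroots - k ≤ j → m.N ≤ k → ∀ g : GL D.Idx F × GL D.Idx F,
    g ∈ d.gen2 (fun r => k ≤ r) → g.1 = 1 → g = 1 := by
  intro j
  induction j with
  | zero =>
    intro k hj hk g hg _
    have h1 : d.gen2 (fun r => k ≤ r) ≤ ⊥ := by
      apply (Subgroup.closure_le _).2
      rintro _ ⟨r, t, hr, hrn, rfl⟩
      omega
    exact Subgroup.mem_bot.1 (h1 hg)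
  | succ j ih =>
    intro k hj hk g hg h1
    by_cases hkn : k < D.nroots
    · obtain ⟨t, g', hg', rfl⟩ := d.exists_mul (R := fun r => k + 1 ≤ r) (R' := fun r => k ≤ r) hk hkn (by
        intro s hs hks
        refine ⟨by omega, fun hne c hc => ?_, fun hne c hc => ?_⟩
        · have := m.comm_gt hk (by omega) hkn hs hne hc
          omega
        · have := m.comm_gt (by omega) hk hs hkn (Ne.symm hne) hc
          omega) (fun r _ hr => by omega) hg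
      have h2 : m.X k t * g'.1 = 1 := h1
      have h3 : m.X k t = (g'.1)⁻¹ := eq_inv_of_mul_eq_one_left h2
      have h4 : t = 0 := by
        apply eq_zero_of_mem_gt hk hkn
        rw [h3]
        exact inv_mem (d.gen2_fst hg')
      subst h4
      rw [d.Pr_zero, one_mul]
      rw [m.X_zero, one_mul] at h2
      exact ih (k + 1) (by omega) (by omega) g' hg' h2
    · have h1 : d.gen2 (fun r => k ≤ r) ≤ ⊥ := by
        apply (Subgroup.closure_le _).2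
        rintro _ ⟨r, t, hr, hrn, rfl⟩
        omega
      exact Subgroup.mem_bot.1 (h1 hg)

/-! ### The monomial part -/

/-- the pair of monomial elements -/
def nu (i : Fin D.rank) (s : F) : GL D.Idx F × GL D.Idx F := (m.nn (m.p i) s, m.nn (m.p (d.π i)) (d.f (m.p i) s))

theorem f_p (i : Fin D.rank) (s : F) : d.f (m.p i) s = s ^ d.q (m.p i) := by
  unfold f
  rw [d.ε_p, Int.cast_one, one_mul]

theorem f_np (i : Fin D.rank) (s : F) : d.f (m.ng (m.p i)) s = s ^ d.q (m.p i) := by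
  unfold f
  rw [d.ε_np, Int.cast_one, one_mul, m.coe_ng, d.q_neg _ (m.p i).2]

theorem ρ_np (i : Fin D.rank) : d.ρ (m.ng (m.p i)) = m.ng (m.p (d.π i)) := by
  rw [m.coe_ng, d.ρ_neg _ (m.p i).2, d.ρ_p, m.coe_ng]

theorem nu_eq (i : Fin D.rank) (s : F) :
    d.nu i s = d.Pr (m.p i) s * d.Pr (m.ng (m.p i)) (-s⁻¹) * d.Pr (m.p i) s := by
  unfold nu Pr
  apply Prod.ext
  · rfl
  · change m.nn (m.p (d.π i)) (d.f (m.p i) s) = m.X (d.ρ (m.p i)) (d.f (m.p i) s) *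
      m.X (d.ρ (m.ng (m.p i))) (d.f (m.ng (m.p i)) (-s⁻¹)) * m.X (d.ρ (m.p i)) (d.f (m.p i) s)
    rw [d.ρ_p, d.ρ_np, d.f_np, d.f_p]
    have h1 : (-s⁻¹) ^ d.q (m.p i) = -(s ^ d.q (m.p i))⁻¹ := by
      rw [← d.hfr, map_neg, map_inv₀, d.hfr]
    rw [h1]
    rfl

theorem nu_neg (i : Fin D.rank) (s : F) : d.nu i (-s) = (d.nu i s)⁻¹ := by
  unfold nu
  apply Prod.ext
  · exact m.nn_neg _ _
  · change m.nn (m.p (d.π i)) (d.f (m.p i) (-s)) = (m.nn (m.p (d.π i)) (d.f (m.p i) s))⁻¹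
    have h1 : d.f (m.p i) (-s) = - d.f (m.p i) s := by
      rw [d.f_p, d.f_p, ← d.hfr, map_neg, d.hfr]
    rw [h1, m.nn_neg]

/-- the parameter multiplier of `nu` -/
def cn (m : Model D) (i : Fin D.rank) (s : Fˣ) (r : ℕ) : F :=
  ((s ^ D.cartan i (D.reflectRoot i r) : Fˣ) : F) * ((m.eta i r : ℤ) : F)

theorem nu_Pr (i : Fin D.rank) (s : Fˣ) {r : ℕ} (hr : r < D.nroots) (t : F) :
    d.nu i (s : F) * d.Pr r t = d.Pr (D.reflectRoot i r) (cn m i s r * t) * d.nu i (s : F) := by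
  unfold nu Pr cn
  apply Prod.ext
  · change m.nn (m.p i) (s : F) * m.X r t = m.X (D.reflectRoot i r) _ * m.nn (m.p i) (s : F)
    rw [nn_X i s hr, mul_assoc]
  · change m.nn (m.p (d.π i)) (d.f (m.p i) s) * m.X (d.ρ r) (d.f r t) =
      m.X (d.ρ (D.reflectRoot i r)) (d.f (D.reflectRoot i r) _) * m.nn (m.p (d.π i)) (d.f (m.p i) s)
    have hs : d.f (m.p i) s = ((s ^ d.q (m.p i) : Fˣ) : F) := by
      rw [d.f_p]; push_cast; rfl
    have hr' := m.refl_lt i i.2 r hr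
    rw [hs, nn_X (d.π i) (s ^ d.q (m.p i)) (d.ρ_lt r hr), d.ρ_refl i r hr]
    congr 2
    have h1 := d.cart i (D.reflectRoot i r) hr'
    rw [d.ρ_refl i r hr, d.q_refl i r hr] at h1
    have h2 := d.cast_of_dvd (d.ε_refl i r hr)
    push_cast at h2
    have h3 : ((((s ^ d.q (m.p i)) ^ D.cartan (d.π i) (D.reflectRoot (d.π i) (d.ρ r))) : Fˣ) : F) =
        (((s ^ D.cartan i (D.reflectRoot i r) : Fˣ) : F)) ^ d.q r := by
      rw [← Units.val_pow_eq_pow_val]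
      congr 1
      rw [← zpow_natCast, ← zpow_natCast, ← zpow_mul, ← zpow_mul, h1]
    rw [h3]
    unfold f
    rw [d.q_refl i r hr, mul_pow, mul_pow, d.int_pow]
    calc (((s ^ D.cartan i (D.reflectRoot i r) : Fˣ) : F)) ^ d.q r * (((m.eta (d.π i) (d.ρ r) : ℤ) : F) * ((d.ε r : F) * t ^ d.q r))
        = (((s ^ D.cartan i (D.reflectRoot i r) : Fˣ) : F)) ^ d.q r * t ^ d.q r * (((m.eta (d.π i) (d.ρ r) : ℤ) : F) * (d.ε r : F)) := by ring
      _ = _ := by rw [← h2]; ring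

/-- how elements of the monomial part act -/
structure Act2 (ν : GL D.Idx F × GL D.Idx F) (w : Equiv.Perm (Fin D.nroots)) (c : Fin D.nroots → Fˣ) : Prop where
  memN : ν.1 ∈ D.monomialSubgroup F
  memN' : ν.2 ∈ D.monomialSubgroup F
  memW : w ∈ m.Wg
  acts : m.Acts ν.1 w
  acts' : ∃ w', m.Acts ν.2 w' ∧ ∀ r : Fin D.nroots, ((w' ⟨d.ρ r, d.ρ_lt r r.2⟩ : Fin D.nroots) : ℕ) = d.ρ (w r)
  conj : ∀ (r : Fin D.nroots) (t : F), ν * d.Pr r t = d.Pr (w r) ((c r : F) * t) * ν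

theorem acts_nn (i : Fin D.rank) (s : Fˣ) : m.Acts (m.nn (m.p i) (s : F)) (m.sr i) := by
  have h1 : m.nn (m.p i) (s : F) = m.hh (m.p i) (s : F) * m.n F i := m.nn_mul_nn_inv _ _
  rw [h1]
  have h2 := (m.acts_h (m.hh_mem_H (m.p i).2 s)).mul (m.acts_n (F := F) i)
  rwa [one_mul] at h2

theorem act2_nu (i : Fin D.rank) (s : Fˣ) : ∃ c, d.Act2 (d.nu i (s : F)) (m.sr i) c := by
  have hs : d.f (m.p i) s = ((s ^ d.q (m.p i) : Fˣ) : F) := by
    rw [d.f_p]; push_cast; rfl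
  have heta : ∀ r < D.nroots, ((m.eta i r : ℤ) : F) ≠ 0 := by
    intro r hr h0
    have := m.etaF_mul_self (F := F) i.2 hr
    rw [h0, zero_mul] at this
    exact zero_ne_one this
  refine ⟨fun r => s ^ D.cartan i (D.reflectRoot i r) * Units.mk0 _ (heta r r.2), ?_, ?_, ?_, acts_nn i s, ⟨m.sr (d.π i), ?_, ?_⟩, ?_⟩
  · exact nn_mem_N m i s.ne_zero
  · change m.nn (m.p (d.π i)) (d.f (m.p i) s) ∈ _
    rw [hs]
    exact nn_mem_N m _ (Units.ne_zero _)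
  · exact Subgroup.subset_closure ⟨i, rfl⟩
  · change m.Acts (m.nn (m.p (d.π i)) (d.f (m.p i) s)) _
    rw [hs]
    exact acts_nn _ _
  · intro r
    exact (d.ρ_refl i r r.2).symm
  · intro r t
    rw [d.nu_Pr i s r.2]
    rfl

theorem Act2.mul {ν ν' : GL D.Idx F × GL D.Idx F} {w w' : Equiv.Perm (Fin D.nroots)} {c c' : Fin D.nroots → Fˣ}
    (h : d.Act2 ν w c) (h' : d.Act2 ν' w' c') : d.Act2 (ν * ν') (w * w') (fun r => c (w' r) * c' r) where
  memN := mul_mem h.memN h'.memN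
  memN' := mul_mem h.memN' h'.memN'
  memW := mul_mem h.memW h'.memW
  acts := h.acts.mul h'.acts
  acts' := by
    obtain ⟨v, hv, hv'⟩ := h.acts'
    obtain ⟨v', hv2, hv2'⟩ := h'.acts'
    refine ⟨v * v', hv.mul hv2, fun r => ?_⟩
    have h1 : v' ⟨d.ρ r, d.ρ_lt r r.2⟩ = ⟨d.ρ (w' r), d.ρ_lt _ (w' r).2⟩ := Fin.ext (hv2' r)
    rw [Equiv.Perm.mul_apply, h1, hv']
    rfl
  conj r t := by
    rw [mul_assoc, h'.conj, ← mul_assoc, h.conj, mul_assoc, Units.val_mul, mul_assoc]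
    rfl

theorem Act2.inv {ν : GL D.Idx F × GL D.Idx F} {w : Equiv.Perm (Fin D.nroots)} {c : Fin D.nroots → Fˣ}
    (h : d.Act2 ν w c) : d.Act2 ν⁻¹ w⁻¹ (fun r => (c (w⁻¹ r))⁻¹) where
  memN := inv_mem h.memN
  memN' := inv_mem h.memN'
  memW := inv_mem h.memW
  acts := m.acts_inv h.memN h.acts
  acts' := by
    obtain ⟨v, hv, hv'⟩ := h.acts'
    refine ⟨v⁻¹, m.acts_inv h.memN' hv, fun r => ?_⟩
    have h1 := hv' (w⁻¹ r)
    have h2 : w (w⁻¹ r) = r := w.apply_symm_apply r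
    rw [h2] at h1
    have h3 : v ⟨d.ρ (w⁻¹ r : Fin D.nroots), d.ρ_lt _ (w⁻¹ r).2⟩ = ⟨d.ρ r, d.ρ_lt r r.2⟩ := Fin.ext h1
    rw [← h3]
    exact congrArg Fin.val (v.symm_apply_apply _)
  conj r t := by
    have h1 := h.conj (w⁻¹ r) ((((c (w⁻¹ r))⁻¹ : Fˣ) : F) * t)
    have h2 : w (w⁻¹ r) = r := w.apply_symm_apply r
    rw [h2, ← mul_assoc, ← Units.val_mul, mul_inv_cancel, Units.val_one, one_mul] at h1
    rw [inv_mul_eq_iff_eq_mul, ← mul_assoc, h1]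
    group

/-- the monomial part -/
def N2 : Subgroup (GL D.Idx F × GL D.Idx F) := Subgroup.closure {g | ∃ (i : Fin D.rank) (s : Fˣ), g = d.nu i (s : F)}

theorem exists_act2 {ν : GL D.Idx F × GL D.Idx F} (h : ν ∈ d.N2) : ∃ w c, d.Act2 ν w c := by
  induction h using Subgroup.closure_induction with
  | mem x hx => obtain ⟨i, s, rfl⟩ := hx; exact ⟨_, d.act2_nu i s⟩
  | one =>
    refine ⟨1, fun _ => 1, one_mem _, one_mem _, one_mem _, ?_, ⟨1, ?_, fun r => rfl⟩, fun r t => ?_⟩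
    · have := m.acts_dm (F := F) 1
      rw [map_one] at this; exact this
    · have := m.acts_dm (F := F) 1
      rw [map_one] at this; exact this
    · simp
  | mul x y _ _ hx hy =>
    obtain ⟨w, c, h⟩ := hx
    obtain ⟨w', c', h'⟩ := hy
    exact ⟨_, _, Act2.mul d h h'⟩
  | inv x _ hx =>
    obtain ⟨w, c, h⟩ := hx
    exact ⟨_, _, Act2.inv d h⟩

theorem nu_mem (i : Fin D.rank) (s : Fˣ) : d.nu i (s : F) ∈ d.N2 := Subgroup.subset_closure ⟨i, s, rfl⟩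

/-- the positive part -/
def U2 : Subgroup (GL D.Idx F × GL D.Idx F) := d.gen2 (fun r => m.N ≤ r)

/-- moving a simple root pair through a monomial element -/
theorem move {ν : GL D.Idx F × GL D.Idx F} {w : Equiv.Perm (Fin D.nroots)} {c : Fin D.nroots → Fˣ}
    (h : d.Act2 ν w c) (i : Fin D.rank) (hw : m.N ≤ (w⁻¹ (m.p i) : Fin D.nroots)) (t : F) :
    ∃ u ∈ d.U2, d.Pr (m.p i) t * ν = ν * u := by
  have h1 := h.conj (w⁻¹ (m.p i)) ((((c (w⁻¹ (m.p i)))⁻¹ : Fˣ) : F) * t)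
  have h2 : w (w⁻¹ (m.p i)) = m.p i := w.apply_symm_apply _
  rw [h2, ← mul_assoc, ← Units.val_mul, mul_inv_cancel, Units.val_one, one_mul] at h1
  exact ⟨_, d.Pr_mem hw (w⁻¹ (m.p i)).2 _, h1.symm⟩

theorem decomp (i : Fin D.rank) {u : GL D.Idx F × GL D.Idx F} (hu : u ∈ d.U2) :
    ∃ v ∈ d.gen2 (fun r => m.N ≤ r ∧ r ≠ m.p i), ∃ t, u = v * d.Pr (m.p i) t := by
  obtain ⟨t, v, hv, he⟩ := d.exists_mul (R := fun r => m.N ≤ r ∧ r ≠ m.p i) (R' := fun r => m.N ≤ r) (m.p_pos i) (m.p i).2 (by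
    rintro s hs ⟨h1, h2⟩
    refine ⟨h1, fun _ c hc => ?_, fun _ c hc => ?_⟩
    · have := m.comm_gt (m.p_pos i) h1 (m.p i).2 hs h2 hc
      have h4 := m.p_pos i
      exact ⟨by omega, m.comm_ne_simple (m.p_pos i) h1 (m.p i).2 hs h2 hc i⟩
    · have := m.comm_gt h1 (m.p_pos i) hs (m.p i).2 (Ne.symm h2) hc
      have h4 := m.p_pos i
      exact ⟨by omega, m.comm_ne_simple h1 (m.p_pos i) hs (m.p i).2 (Ne.symm h2) hc i⟩)
    (fun r _ hr => by
      by_cases h : r = m.p i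
      · exact Or.inl h
      · exact Or.inr ⟨hr, h⟩) (inv_mem hu)
  refine ⟨v⁻¹, inv_mem hv, -t, ?_⟩
  rw [d.Pr_neg, ← mul_inv_rev, ← he, inv_inv]

theorem nu_conj (i : Fin D.rank) (s : Fˣ) {v : GL D.Idx F × GL D.Idx F} (hv : v ∈ d.gen2 (fun r => m.N ≤ r ∧ r ≠ m.p i)) :
    d.nu i (s : F) * v * (d.nu i (s : F))⁻¹ ∈ d.U2 := by
  induction hv using Subgroup.closure_induction with
  | mem x hx =>
    obtain ⟨r, t, ⟨h1, h2⟩, hr, rfl⟩ := hx
    rw [d.nu_Pr i s hr, mul_inv_cancel_right]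
    exact d.Pr_mem (m.refl_pos i i.2 r h1 hr h2) (m.refl_lt i i.2 r hr) _
  | one => simp
  | mul x y _ _ hx hy =>
    have e : d.nu i (s : F) * (x * y) * (d.nu i (s : F))⁻¹ = (d.nu i (s : F) * x * (d.nu i (s : F))⁻¹) * (d.nu i (s : F) * y * (d.nu i (s : F))⁻¹) := by group
    rw [e]; exact mul_mem hx hy
  | inv x _ hx =>
    have e : d.nu i (s : F) * x⁻¹ * (d.nu i (s : F))⁻¹ = (d.nu i (s : F) * x * (d.nu i (s : F))⁻¹)⁻¹ := by group
    rw [e]; exact inv_mem hx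

/-- the big set -/
def S2 : Set (GL D.Idx F × GL D.Idx F) := {g | ∃ u ∈ d.U2, ∃ ν ∈ d.N2, ∃ u' ∈ d.U2, g = u * ν * u'}

theorem S2_left {u g : GL D.Idx F × GL D.Idx F} (hu : u ∈ d.U2) (hg : g ∈ d.S2) : u * g ∈ d.S2 := by
  obtain ⟨v, hv, ν, hν, v', hv', rfl⟩ := hg
  exact ⟨u * v, mul_mem hu hv, ν, hν, v', hv', by group⟩

theorem Pr_np (i : Fin D.rank) (s : F) :
    d.Pr (m.ng (m.p i)) (-s⁻¹) = d.Pr (m.p i) (-s) * d.nu i s * d.Pr (m.p i) (-s) := by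
  rw [d.nu_eq, d.Pr_neg (m.p i) s]; group

theorem Pr_np' (i : Fin D.rank) {t : F} (ht : t ≠ 0) : ∃ s : Fˣ,
    d.Pr (m.ng (m.p i)) t = d.Pr (m.p i) (-(s : F)) * d.nu i (s : F) * d.Pr (m.p i) (-(s : F)) := by
  refine ⟨Units.mk0 (-t⁻¹) (neg_ne_zero.2 (inv_ne_zero ht)), ?_⟩
  rw [Units.val_mk0, ← d.Pr_np]
  congr 1
  rw [inv_neg, inv_inv, _root_.neg_neg]

theorem S2_nu (i : Fin D.rank) (s : Fˣ) {g : GL D.Idx F × GL D.Idx F} (hg : g ∈ d.S2) : d.nu i (s : F) * g ∈ d.S2 := by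
  obtain ⟨u, hu, ν, hν, u', hu', rfl⟩ := hg
  obtain ⟨v, hv, t, rfl⟩ := d.decomp i hu
  have hv' := d.nu_conj i s hv
  obtain ⟨w, c, hact⟩ := d.exists_act2 hν
  have e : d.nu i (s : F) * (v * d.Pr (m.p i) t * ν * u') =
      (d.nu i (s : F) * v * (d.nu i (s : F))⁻¹) * (d.nu i (s : F) * (d.Pr (m.p i) t * ν) * u') := by group
  rw [e]
  apply d.S2_left hv'
  by_cases hw : m.N ≤ (w⁻¹ (m.p i) : Fin D.nroots)
  · obtain ⟨x, hx, he⟩ := d.move hact i hw t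
    rw [he]
    exact ⟨1, one_mem _, d.nu i (s : F) * ν, mul_mem (d.nu_mem i s) hν, x * u', mul_mem hx hu', by group⟩
  · by_cases ht : t = 0
    · subst ht
      rw [d.Pr_zero, one_mul]
      exact ⟨1, one_mem _, d.nu i (s : F) * ν, mul_mem (d.nu_mem i s) hν, u', hu', by group⟩
    · -- `ν_i(s) x_i(t) = x_{-i}(t') ν_i(s)`
      have h1 := d.nu_Pr i s (m.p i).2 t
      have h2 : D.reflectRoot i (m.p i) = m.ng (m.p i) := congrArg Fin.val (m.sr_p i)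
      rw [h2] at h1
      have ht' : cn m i s (m.p i) * t ≠ 0 := by
        apply mul_ne_zero _ ht
        unfold cn
        apply mul_ne_zero (Units.ne_zero _)
        intro h0
        have := m.etaF_mul_self (F := F) i.2 (m.p i).2
        rw [h0, zero_mul] at this
        exact zero_ne_one this
      obtain ⟨s', hs'⟩ := d.Pr_np' i ht'
      obtain ⟨c0, hc0⟩ := d.act2_nu i s
      have hact2 := Act2.mul d hc0 hact
      have hw2 : m.N ≤ ((m.sr i * w)⁻¹ (m.p i) : Fin D.nroots) := by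
        rw [mul_inv_rev, m.sr_inv, Equiv.Perm.mul_apply, m.sr_p, (m.isW (inv_mem hact.memW)).neg, m.ng_ge_iff]
        exact not_le.1 hw
      obtain ⟨x, hx, he⟩ := d.move hact2 i hw2 (-(s' : F))
      have e2 : d.nu i (s : F) * (d.Pr (m.p i) t * ν) * u' =
          d.Pr (m.p i) (-(s' : F)) * (d.nu i (s' : F) * (d.Pr (m.p i) (-(s' : F)) * (d.nu i (s : F) * ν)) * u') := by
        rw [← mul_assoc (d.nu i (s : F)), h1, hs']
        group
      rw [e2, he]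
      apply d.S2_left (d.Pr_mem (m.p_pos i) (m.p i).2 _)
      exact ⟨1, one_mem _, d.nu i (s' : F) * (d.nu i (s : F) * ν), mul_mem (d.nu_mem i s') (mul_mem (d.nu_mem i s) hν),
        x * u', mul_mem hx hu', by group⟩

theorem Delta_le {g : GL D.Idx F × GL D.Idx F} (hg : g ∈ d.gen2 (RS D)) : g ∈ d.S2 := by
  have key : ∀ (i : ℕ) (t : F), RS D i → ∀ y ∈ d.S2, d.Pr i t * y ∈ d.S2 := by
    rintro r t ⟨i, hi, rfl | rfl⟩ y hy
    · exact d.S2_left (d.Pr_mem (m.p_pos ⟨i, hi⟩) (m.p ⟨i, hi⟩).2 t) hy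
    · by_cases ht : t = 0
      · rw [ht, d.Pr_zero, one_mul]; exact hy
      · obtain ⟨s, hs⟩ := d.Pr_np' ⟨i, hi⟩ ht
        change d.Pr (m.ng (m.p ⟨i, hi⟩)) t * y ∈ _
        rw [hs, mul_assoc, mul_assoc]
        have hU := d.Pr_mem (R := fun r => m.N ≤ r) (m.p_pos ⟨i, hi⟩) (m.p ⟨i, hi⟩).2 (-(s : F))
        exact d.S2_left hU (d.S2_nu _ s (d.S2_left hU hy))
  induction hg using Subgroup.closure_induction_left with
  | one => exact ⟨1, one_mem _, 1, one_mem _, 1, one_mem _, by simp⟩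
  | mul_left x hx y _ hy =>
    obtain ⟨r, t, hr, _, rfl⟩ := hx
    exact key r t hr y hy
  | inv_mul_cancel x hx y _ hy =>
    obtain ⟨r, t, hr, _, rfl⟩ := hx
    rw [← d.Pr_neg]
    exact key r (-t) hr y hy

end GD

end Cfsg.Agent.H14.Chev
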