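import Mathlib
import Cfsg.Agent.H14_ChevP
import Cfsg.Agent.H14_ChevK

set_option autoImplicit false
set_option linter.unusedSectionVars false

/-!
Chevalley groups: existence of graph automorphisms.
-/

namespace Cfsg.Agent.H14.Chev

open Cfsg Cfsg.Lie Cfsg.Lie.ChevalleyDatum Cfsg.Agent.H6 Cfsg.Agent.H6.Chev Cfsg.Agent.H6.Chev.Model
open scoped Matrix

universe u

variable {D : ChevalleyDatum} {F : Type u} [Field F] {m : Model D}

namespace GD

variable (d : GD m F)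

theorem rho_surj (r : Fin D.nroots) : ∃ s : Fin D.nroots, d.ρ s = r := by
  have h1 : Function.Injective (fun s : Fin D.nroots => (⟨d.ρ s, d.ρ_lt s s.2⟩ : Fin D.nroots)) := by
    intro a b h
    exact Fin.ext (d.ρ_inj a a.2 b b.2 (congrArg Fin.val h))
  obtain ⟨s, hs⟩ := Finite.surjective_of_injective h1 r
  exact ⟨s, congrArg Fin.val hs⟩

theorem mem_B_of {g : GL D.Idx F} (hg : ((1 : GL D.Idx F), g) ∈ d.gen2 (RS D)) : g ∈ D.borelSubgroup F := by
  obtain ⟨u, hu, ν, hν, u', hu', he⟩ := d.Delta_le hg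
  obtain ⟨w, c, hact⟩ := d.exists_act2 hν
  have h1 : (1 : GL D.Idx F) = u.1 * ν.1 * u'.1 := congrArg Prod.fst he
  have h2 : g = u.2 * ν.2 * u'.2 := congrArg Prod.snd he
  have hu1 := d.gen2_fst hu
  have hu1' := d.gen2_fst hu'
  rw [← m.posUnipotent_eq] at hu1 hu1'
  have h3 : ν.1 = 1 := by
    have h4 : ν.1 = (u.1)⁻¹ * (u'.1)⁻¹ := by
      have : ν.1 = (u.1)⁻¹ * (u.1 * ν.1 * u'.1) * (u'.1)⁻¹ := by group
      rw [← h1, mul_one] at this
      exact this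
    have h6 : ν.1 ∈ D.posUnipotent F := by
      rw [h4]; exact mul_mem (inv_mem hu1) (inv_mem hu1')
    have h5 : ν.1 ∈ D.posUnipotent F ⊓ D.monomialSubgroup F := ⟨h6, hact.memN⟩
    rw [m.U_inf_N, Subgroup.mem_bot] at h5
    exact h5
  have hw : w = 1 := by
    have h4 := hact.acts
    rw [h3] at h4
    have h5 := m.acts_dm (F := F) 1
    rw [map_one] at h5
    exact m.acts_unique h4 h5
  obtain ⟨w', hw', hρ⟩ := hact.acts'
  have hw1 : w' = 1 := by
    ext r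
    obtain ⟨s, hs⟩ := d.rho_surj r
    have h4 := hρ s
    rw [hw] at h4
    have h5 : (⟨d.ρ s, d.ρ_lt s s.2⟩ : Fin D.nroots) = r := Fin.ext hs
    rw [h5] at h4
    rw [h4]
    exact hs
  rw [hw1] at hw'
  have hH := m.mem_H_of_acts_one hact.memN' hw'
  have hu2 : u.2 ∈ D.posUnipotent F := by
    rw [m.posUnipotent_eq]
    exact d.gen2_snd (fun r hr h => d.ρ_pos r h hr) hu
  have hu2' : u'.2 ∈ D.posUnipotent F := by
    rw [m.posUnipotent_eq]
    exact d.gen2_snd (fun r hr h => d.ρ_pos r h hr) hu'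
  rw [h2]
  exact mul_mem (mul_mem (U_le_B hu2) (H_le_B hH)) (U_le_B hu2')

theorem fst_le : (d.gen2 (RS D)).map (MonoidHom.fst _ _) = D.group F := by
  apply le_antisymm
  · rintro _ ⟨g, hg, rfl⟩
    have := d.gen2_fst hg
    rw [gen_RS] at this
    exact this
  · rw [← gen_RS m]
    apply m.gen_le
    intro r hr hR t
    exact ⟨_, d.Pr_mem hR hr t, rfl⟩

theorem fr_surj [Finite F] (r : ℕ) : Function.Surjective (d.fr r) :=
  Finite.surjective_of_injective (d.fr r).injective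

theorem snd_le [Finite F] : (d.gen2 (RS D)).map (MonoidHom.snd _ _) = D.group F := by
  apply le_antisymm
  · rintro _ ⟨g, hg, rfl⟩
    have := d.gen2_snd (R' := RS D) (by
      rintro r hr ⟨i, hi, rfl | rfl⟩
      · exact ⟨d.π ⟨i, hi⟩, (d.π ⟨i, hi⟩).2, Or.inl (d.ρ_p ⟨i, hi⟩)⟩
      · exact ⟨d.π ⟨i, hi⟩, (d.π ⟨i, hi⟩).2, Or.inr (d.ρ_np ⟨i, hi⟩)⟩) hg
    rw [gen_RS] at this
    exact this
  · rw [← gen_RS m]
    apply m.gen_le
    rintro r hr ⟨i, hi, rfl | rfl⟩ t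
    · obtain ⟨j, hj⟩ := d.π.surjective ⟨i, hi⟩
      obtain ⟨t', ht'⟩ := d.fr_surj (m.p j) t
      refine ⟨_, d.Pr_mem (R := RS D) ⟨j, j.2, Or.inl rfl⟩ (m.p j).2 t', ?_⟩
      change m.X (d.ρ (m.p j)) (d.f (m.p j) t') = _
      rw [d.ρ_p, hj, d.f_p, ← d.hfr, ht']
      rfl
    · obtain ⟨j, hj⟩ := d.π.surjective ⟨i, hi⟩
      obtain ⟨t', ht'⟩ := d.fr_surj (m.p j) t
      refine ⟨_, d.Pr_mem (R := RS D) ⟨j, j.2, Or.inr rfl⟩ (m.ng (m.p j)).2 t', ?_⟩
      change m.X (d.ρ (m.ng (m.p j))) (d.f (m.ng (m.p j)) t') = _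
      rw [d.ρ_np, hj, d.f_np, ← d.hfr, ht']
      rfl

theorem eq_one_of [Finite F] {g : GL D.Idx F} (hg : ((1 : GL D.Idx F), g) ∈ d.gen2 (RS D)) : g = 1 := by
  set K : Subgroup (GL D.Idx F) := (d.gen2 (RS D)).comap (MonoidHom.inr _ _) with hK
  have hKB : K ≤ D.borelSubgroup F := fun x hx => d.mem_B_of hx
  have hn : ∀ x ∈ D.group F, ∀ k ∈ K, x * k * x⁻¹ ∈ K := by
    intro x hx k hk
    rw [← d.snd_le] at hx
    obtain ⟨y, hy, rfl⟩ := hx
    have h1 := mul_mem (mul_mem hy hk) (inv_mem hy)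
    have e : y * (MonoidHom.inr (GL D.Idx F) (GL D.Idx F) k) * y⁻¹ =
        MonoidHom.inr (GL D.Idx F) (GL D.Idx F) (y.2 * k * (y.2)⁻¹) := by
      apply Prod.ext
      · simp
      · simp
    rw [e] at h1
    exact h1
  have hnorm : (K.subgroupOf (D.group F)).Normal := ⟨fun k hk x => hn x x.2 k hk⟩
  have hle : K.subgroupOf (D.group F) ≤ ((D.borelSubgroup F).subgroupOf (D.group F)).normalCore :=
    Subgroup.normal_le_normalCore.2 (fun k hk => hKB hk)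
  rw [m.core_eq_bot] at hle
  have h1 : (⟨g, m.B_le_G (hKB hg)⟩ : ↥(D.group F)) ∈ K.subgroupOf (D.group F) := hg
  exact congrArg Subtype.val (Subgroup.mem_bot.1 (hle h1))

/-- all pairs lie in `Δ` -/
theorem Pr_mem_Delta (r : ℕ) (hr : r < D.nroots) (t : F) : d.Pr r t ∈ d.gen2 (RS D) := by
  have hnu : ∀ i : Fin D.rank, ∀ s : F, d.nu i s ∈ d.gen2 (RS D) := by
    intro i s
    rw [d.nu_eq]
    have h1 : ∀ t, d.Pr (m.p i) t ∈ d.gen2 (RS D) := fun t => d.Pr_mem ⟨i, i.2, Or.inl rfl⟩ (m.p i).2 t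
    have h2 : ∀ t, d.Pr (m.ng (m.p i)) t ∈ d.gen2 (RS D) := fun t => d.Pr_mem ⟨i, i.2, Or.inr rfl⟩ (m.ng (m.p i)).2 t
    exact mul_mem (mul_mem (h1 _) (h2 _)) (h1 _)
  refine m.root_induction (P := fun r => ∀ t : F, d.Pr r t ∈ d.gen2 (RS D)) ?_ ?_ r hr t
  · intro i hi t
    exact d.Pr_mem ⟨i, hi, Or.inl rfl⟩ (m.simple_lt i hi) t
  · intro i hi r hr ih t
    have heta : ((m.eta i r : ℤ) : F) ≠ 0 := by
      intro h0
      have := m.etaF_mul_self (F := F) hi hr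
      rw [h0, zero_mul] at this
      exact zero_ne_one this
    have h1 := d.nu_Pr ⟨i, hi⟩ 1 hr ((cn m ⟨i, hi⟩ (1 : Fˣ) r)⁻¹ * t)
    have h2 : cn m ⟨i, hi⟩ (1 : Fˣ) r ≠ 0 := by
      unfold cn
      rw [one_zpow, Units.val_one, one_mul]
      exact heta
    rw [← mul_assoc, mul_inv_cancel₀ h2, one_mul] at h1
    have h3 : d.Pr (D.reflectRoot i r) t = d.nu ⟨i, hi⟩ ((1 : Fˣ) : F) * d.Pr r ((cn m ⟨i, hi⟩ (1 : Fˣ) r)⁻¹ * t) * (d.nu ⟨i, hi⟩ ((1 : Fˣ) : F))⁻¹ := by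
      rw [h1]; group
    rw [h3]
    exact mul_mem (mul_mem (hnu _ _) (ih _)) (inv_mem (hnu _ _))

open Classical in
/-- the graph automorphism -/
theorem exists_aut [Finite F] : ∃ α : MulAut ↥(D.group F), ∀ (r : Fin D.nroots) (t : F),
    α (xg m r t) = xg m ⟨d.ρ r, d.ρ_lt r r.2⟩ (d.f r t) := by
  set G := ↥(D.group F)
  let Δ : Subgroup (G × G) := (d.gen2 (RS D)).comap ((D.group F).subtype.prodMap (D.group F).subtype)
  have hbij : Function.Bijective (Prod.fst ∘ Δ.subtype) := by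
    constructor
    · rintro ⟨⟨a, b⟩, hab⟩ ⟨⟨a', b'⟩, hab'⟩ h
      have h1 : a = a' := h
      subst h1
      have h2 : ((a : GL D.Idx F), (b : GL D.Idx F)) ∈ d.gen2 (RS D) := hab
      have h3 : ((a : GL D.Idx F), (b' : GL D.Idx F)) ∈ d.gen2 (RS D) := hab'
      have h4 := mul_mem (inv_mem h2) h3
      have e : ((a : GL D.Idx F), (b : GL D.Idx F))⁻¹ * ((a : GL D.Idx F), (b' : GL D.Idx F)) = (1, (b : GL D.Idx F)⁻¹ * b') := by
        simp
      rw [e] at h4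
      have h5 := d.eq_one_of h4
      have h6 : b = b' := Subtype.ext (inv_mul_eq_one.1 h5)
      subst h6
      rfl
    · intro a
      have ha : (a : GL D.Idx F) ∈ (d.gen2 (RS D)).map (MonoidHom.fst _ _) := by rw [d.fst_le]; exact a.2
      obtain ⟨y, hy, he⟩ := ha
      have hy2 : y.2 ∈ D.group F := by
        rw [← d.snd_le]; exact ⟨y, hy, rfl⟩
      refine ⟨⟨(a, ⟨y.2, hy2⟩), ?_⟩, rfl⟩
      change ((a : GL D.Idx F), y.2) ∈ d.gen2 (RS D)
      have : ((a : GL D.Idx F), y.2) = y := Prod.ext he.symm rfl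
      rw [this]; exact hy
  obtain ⟨φ, hφ⟩ := Subgroup.exists_eq_graph hbij
  have hval : ∀ (r : Fin D.nroots) (t : F), φ (xg m r t) = xg m ⟨d.ρ r, d.ρ_lt r r.2⟩ (d.f r t) := by
    intro r t
    have h1 : ((xg m r t, xg m ⟨d.ρ r, d.ρ_lt r r.2⟩ (d.f r t)) : G × G) ∈ Δ := d.Pr_mem_Delta r r.2 t
    rw [hφ, MonoidHom.mem_graph] at h1
    exact h1
  have hsurj : Function.Surjective φ := by
    intro b
    have hb : (b : GL D.Idx F) ∈ (d.gen2 (RS D)).map (MonoidHom.snd _ _) := by rw [d.snd_le]; exact b.2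
    obtain ⟨y, hy, he⟩ := hb
    have hy1 : y.1 ∈ D.group F := by
      rw [← d.fst_le]; exact ⟨y, hy, rfl⟩
    refine ⟨⟨y.1, hy1⟩, ?_⟩
    have h1 : (((⟨y.1, hy1⟩ : ↥(D.group F)), b) : G × G) ∈ Δ := by
      change (y.1, (b : GL D.Idx F)) ∈ d.gen2 (RS D)
      have : (y.1, (b : GL D.Idx F)) = y := Prod.ext rfl he.symm
      rw [this]; exact hy
    rw [hφ, MonoidHom.mem_graph] at h1
    exact h1
  exact ⟨MulEquiv.ofBijective φ ⟨Finite.injective_iff_surjective.2 hsurj, hsurj⟩, hval⟩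

theorem exists_A1 [Finite F] : ∃ α : A1 D F, rho m F α = d.π ∧ ∀ (r : Fin D.nroots) (t : F),
    α.1 (xg m r t) = xg m ⟨d.ρ r, d.ρ_lt r r.2⟩ (d.f r t) := by
  obtain ⟨α, hα⟩ := d.exists_aut
  have key : ∀ R : ℕ → Prop, (∀ r, r < D.nroots → R r → R (d.ρ r)) → MT α (m.gen F R) (m.gen F R) := by
    intro R hR
    rw [MT_iff_map]
    have hle : ((m.gen F R).subgroupOf (D.group F)).map α.toMonoidHom ≤ (m.gen F R).subgroupOf (D.group F) := by
      rintro _ ⟨g, hg, rfl⟩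
      have hle : m.gen F R ≤ ((((m.gen F R).subgroupOf (D.group F)).comap α.toMonoidHom).map (D.group F).subtype) := by
        apply m.gen_le
        intro r hr hRr t
        refine ⟨xg m ⟨r, hr⟩ t, ?_, rfl⟩
        change α (xg m ⟨r, hr⟩ t) ∈ (m.gen F R).subgroupOf (D.group F)
        rw [hα, Subgroup.mem_subgroupOf]
        exact m.X_mem_gen (hR r hr hRr) _
      obtain ⟨g', hg', he⟩ := hle hg
      have : g' = g := Subtype.ext he
      rw [← this]
      exact hg'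
    apply Subgroup.eq_of_le_of_card_ge hle
    exact (Nat.card_congr (((m.gen F R).subgroupOf (D.group F)).equivMapOfInjective _ α.injective).toEquiv).le
  have hU : MT α (D.posUnipotent F) (D.posUnipotent F) := by
    rw [m.posUnipotent_eq]
    exact key _ (fun r hr h => d.ρ_pos r h hr)
  have hV : MT α (D.negUnipotent F) (D.negUnipotent F) := by
    rw [m.negUnipotent_eq]
    apply key
    intro r hr h
    have h1 := d.ρ_pos (D.neg r) ((m.neg_ge_iff hr).2 h) (m.neg_lt hr)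
    rw [d.ρ_neg r hr] at h1
    exact (m.neg_ge_iff (d.ρ_lt r hr)).1 h1
  refine ⟨⟨α, hU, hV⟩, ?_, hα⟩
  apply rho_eq m (lam := fun i t => d.f (m.p i) t) (mu := fun i t => d.f (m.ng (m.p i)) t)
  refine ⟨hU, hV, fun i t => ?_, fun i t => ?_⟩
  · rw [hα]
    congr 1
    exact Fin.ext (d.ρ_p i)
  · rw [hα]
    congr 1
    exact Fin.ext (d.ρ_np i)

end GD

end Cfsg.Agent.H14.Chev
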