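import Mathlib
import Cfsg.Agent.H14_ChevR
import Cfsg.Agent.H14_ChevQ

set_option autoImplicit false
set_option linter.unusedSectionVars false

/-!
Chevalley groups: `Out` of `E6`, `F4`, `G2`.
-/

namespace Cfsg.Agent.H14.Chev

open Cfsg Cfsg.Lie Cfsg.Lie.ChevalleyDatum Cfsg.Agent.H6 Cfsg.Agent.H6.Chev Cfsg.Agent.H6.Chev.Model
open scoped Matrix

universe u

theorem card_two_of {G : Type*} [Group G] {R : Subgroup G} {a : G} (ha : a ∈ R) (hne : a ≠ 1) (h : ∀ x ∈ R, x = 1 ∨ x = a) :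
    Nat.card R = 2 := by
  have : (R : Set G) = {1, a} := by
    ext x
    simp only [SetLike.mem_coe, Set.mem_insert_iff, Set.mem_singleton_iff]
    refine ⟨h x, ?_⟩
    rintro (rfl | rfl)
    · exact one_mem _
    · exact ha
  change Nat.card (R : Set G) = 2
  rw [this, Nat.card_coe_set_eq, Set.ncard_pair hne.symm]

theorem card_one_of {G : Type*} [Group G] {R : Subgroup G} (h : ∀ x ∈ R, x = 1) : Nat.card R = 1 := by
  have : R = ⊥ := by
    rw [eq_bot_iff]
    exact fun x hx => Subgroup.mem_bot.2 (h x hx)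
  rw [this]
  exact Subgroup.card_bot

theorem rho_data {D : ChevalleyDatum} {F : Type u} [Field F] [Finite F] (m : Model D) (θ : A1 D F) :
    CZ D (rho m F θ) ∧ ∃ σ : Fin D.rank → (F ≃+* F), Rel D (rho m F θ) σ := by
  obtain ⟨lam, mu, hP⟩ := rho_spec m θ
  obtain ⟨c, σ, hP', hCZ, hR⟩ := exists_normal' m hP
  exact ⟨hCZ, σ, hR⟩

variable {F : Type u} [Field F]

theorem range_E6 [Finite F] : Nat.card (rho modelE6 F).range = 2 := by
  apply card_two_of (a := flipE6)
  · let d : GD modelE6 F := cdE6.toGD (by simp) (fun _ => RingHom.id F) (fun r t => (pow_one t).symm)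
    obtain ⟨α, hα, -⟩ := d.exists_A1
    exact ⟨α, hα⟩
  · intro h
    have := congrArg (fun π : Equiv.Perm (Fin chevE6.rank) => (π ⟨0, by decide⟩ : ℕ)) h
    revert this
    decide
  · rintro _ ⟨θ, rfl⟩
    exact symE6 (rho_data modelE6 θ).1

theorem s2123 {F : Type*} [Field F] [Fintype F] (p f : ℕ) [Fact p.Prime] [CharP F p] (hF : Fintype.card F = p ^ f) :
    Nat.card (Cfsg.Out ↥(Cfsg.Lie.chevE6.group F)) = 2 * Nat.gcd 3 (p ^ f - 1) * f := by
  rw [card_out modelE6 (by simp), ker_E6, card_ringAut p f hF, range_E6,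
    Nat.card_eq_fintype_card, hF, Nat.gcd_comm]
  ring

theorem eq_swF4 {π : Equiv.Perm (Fin chevF4.rank)} (h : ∀ i, (π i : ℕ) = 3 - i) : π = swF4 := by
  ext ⟨i, hi⟩
  have hi' : i < 4 := hi
  rw [h]
  interval_cases i <;> rfl

theorem swF4_ne : swF4 ≠ 1 := by
  intro h
  have := congrArg (fun π : Equiv.Perm (Fin chevF4.rank) => (π ⟨0, by decide⟩ : ℕ)) h
  revert this
  decide

theorem range_F4_two [Finite F] [CharP F 2] : Nat.card (rho modelF4 F).range = 2 := by
  have : Fact (Nat.Prime 2) := ⟨Nat.prime_two⟩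
  apply card_two_of (a := swF4)
  · let d : GD modelF4 F := cdF4.toGD (by
      have := CharP.cast_eq_zero F 2
      exact_mod_cast this) (fun r => iterateFrobenius F 2 ([0, 0, 0, 1, 0, 0, 0, 1, 1, 1, 1, 1, 1, 1, 1, 0, 0, 0, 1, 1, 1, 0, 0, 0, 0, 0, 0, 1, 1, 1, 0, 0, 0, 1, 1, 1, 1, 1, 1, 1, 1, 0, 0, 0, 1, 0, 0, 0].getD r 0))
      (fun r t => iterateFrobenius_def _ _ _)
    obtain ⟨α, hα, -⟩ := d.exists_A1
    exact ⟨α, hα⟩
  · exact swF4_ne
  · rintro _ ⟨θ, rfl⟩
    rcases pF4 _ (rho_data modelF4 θ).1 with h | h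
    · exact Or.inl h
    · exact Or.inr (eq_swF4 h)

theorem range_F4_one [Finite F] (hF : ringChar F ≠ 2) : Nat.card (rho modelF4 F).range = 1 := by
  apply card_one_of
  rintro _ ⟨θ, rfl⟩
  obtain ⟨hCZ, σ, hR⟩ := rho_data modelF4 θ
  rcases pF4 _ hCZ with h | h
  · exact h
  · exfalso
    apply hF
    exact (char_two_of (σ₁ := σ ⟨1, by decide⟩) (σ₂ := σ ⟨2, by decide⟩) (by
      intro t
      have h1 : rho modelF4 F θ ⟨1, by decide⟩ = ⟨2, by decide⟩ := Fin.ext (h _)
      have h2 : rho modelF4 F θ ⟨2, by decide⟩ = ⟨1, by decide⟩ := Fin.ext (h _)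
      have := hR ⟨1, by decide⟩ ⟨2, by decide⟩ t
      rw [h1, h2] at this
      exact this)).1

theorem s2122 {F : Type*} [Field F] [Fintype F] (p f : ℕ) [Fact p.Prime] [CharP F p] (hF : Fintype.card F = p ^ f) :
    Nat.card (Cfsg.Out ↥(Cfsg.Lie.chevF4.group F)) = Nat.gcd 2 p * f := by
  have hp : p.Prime := Fact.out
  rw [card_out modelF4 (by simp), ker_F4, card_ringAut p f hF]
  by_cases h2 : p = 2
  · subst h2
    rw [range_F4_two, Nat.gcd_self]
    ring
  · have h3 : ringChar F ≠ 2 := by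
      rw [ringChar.eq F p]; exact h2
    rw [range_F4_one h3]
    have h4 : Nat.gcd 2 p = 1 := (Nat.coprime_primes Nat.prime_two hp).2 (Ne.symm h2)
    rw [h4]
    ring

theorem three_or {σ₁ σ₂ : F ≃+* F} (h : ∀ t : Fˣ, σ₂ ((t ^ (-3 : ℤ) : Fˣ) : F) = ((Units.map (σ₁ : F →* F) t ^ (-1 : ℤ) : Fˣ) : F)) :
    (3 : F) = 0 ∨ ∀ x : F, x * (x + 1) = 0 := by
  have h1 : ∀ t, σ₁ t = σ₂ t ^ 3 := by
    intro t
    by_cases ht : t = 0
    · rw [ht, map_zero, map_zero, zero_pow three_ne_zero]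
    · have h3 := h (Units.mk0 t ht)
      rw [zpow_neg, zpow_neg_one, Units.val_inv_eq_inv_val, Units.val_inv_eq_inv_val, map_inv₀] at h3
      have h4 := inv_injective h3
      change σ₂ ((((Units.mk0 t ht) ^ (3 : ℤ) : Fˣ)) : F) = σ₁ t at h4
      rw [← h4, show (3 : ℤ) = ((3 : ℕ) : ℤ) from rfl, zpow_natCast, Units.val_pow_eq_pow_val, map_pow]
      rfl
  have h2 : ∀ x y : F, 3 * (x * y * (x + y)) = 0 := by
    intro x y
    have h3 := h1 (σ₂.symm x + σ₂.symm y)
    rw [map_add, h1, h1, map_add, RingEquiv.apply_symm_apply, RingEquiv.apply_symm_apply] at h3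
    linear_combination -h3
  by_cases h3 : (3 : F) = 0
  · exact Or.inl h3
  · right
    intro x
    have := (mul_eq_zero.1 (h2 x 1)).resolve_left h3
    rwa [mul_one] at this

theorem eq_swG2 {π : Equiv.Perm (Fin chevG2.rank)} (h : ∀ i, (π i : ℕ) = 1 - i) : π = swG2 := by
  ext ⟨i, hi⟩
  have hi' : i < 2 := hi
  rw [h]
  interval_cases i <;> rfl

theorem swG2_ne : swG2 ≠ 1 := by
  intro h
  have := congrArg (fun π : Equiv.Perm (Fin chevG2.rank) => (π ⟨0, by decide⟩ : ℕ)) h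
  revert this
  decide

theorem range_G2_two [Finite F] [CharP F 3] : Nat.card (rho modelG2 F).range = 2 := by
  have : Fact (Nat.Prime 3) := ⟨Nat.prime_three⟩
  apply card_two_of (a := swG2)
  · let d : GD modelG2 F := cdG2.toGD (by
      have := CharP.cast_eq_zero F 3
      exact_mod_cast this) (fun r => iterateFrobenius F 3 ([0, 0, 1, 1, 1, 0, 0, 1, 1, 1, 0, 0].getD r 0))
      (fun r t => iterateFrobenius_def _ _ _)
    obtain ⟨α, hα, -⟩ := d.exists_A1
    exact ⟨α, hα⟩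
  · exact swG2_ne
  · rintro _ ⟨θ, rfl⟩
    rcases pG2 (rho modelG2 F θ) with h | h
    · exact Or.inl h
    · exact Or.inr (eq_swG2 h)

theorem range_G2_one [Fintype F] (hF : (3 : F) ≠ 0) (hq : 3 ≤ Fintype.card F) : Nat.card (rho modelG2 F).range = 1 := by
  apply card_one_of
  rintro _ ⟨θ, rfl⟩
  obtain ⟨hCZ, σ, hR⟩ := rho_data modelG2 θ
  rcases pG2 (rho modelG2 F θ) with h | h
  · exact h
  · exfalso
    rcases three_or (σ₁ := σ ⟨0, by decide⟩) (σ₂ := σ ⟨1, by decide⟩) (by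
      intro t
      have h1 : rho modelG2 F θ ⟨0, by decide⟩ = ⟨1, by decide⟩ := Fin.ext (h _)
      have h2 : rho modelG2 F θ ⟨1, by decide⟩ = ⟨0, by decide⟩ := Fin.ext (h _)
      have := hR ⟨0, by decide⟩ ⟨1, by decide⟩ t
      rw [h1, h2] at this
      exact this) with h3 | h3
    · exact hF h3
    · classical
      have h4 : (Finset.univ : Finset F) ⊆ {0, -1} := by
        intro x _
        rcases mul_eq_zero.1 (h3 x) with h5 | h5
        · simp [h5]
        · simp [eq_neg_of_add_eq_zero_left h5]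
      have h5 := Finset.card_le_card h4
      have h6 : ({0, -1} : Finset F).card ≤ 2 := Finset.card_le_two
      rw [Finset.card_univ] at h5
      omega

theorem s2121 {F : Type*} [Field F] [Fintype F] (p f : ℕ) [Fact p.Prime] [CharP F p] (hF : Fintype.card F = p ^ f)
    (hq : 3 ≤ p ^ f) : Nat.card (Cfsg.Out ↥(Cfsg.Lie.chevG2.group F)) = (if p = 3 then 2 * f else f) := by
  have hp : p.Prime := Fact.out
  rw [card_out modelG2 (by simp), ker_G2, card_ringAut p f hF]
  by_cases h3 : p = 3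
  · subst h3
    rw [range_G2_two, if_pos rfl]
    ring
  · have h4 : (3 : F) ≠ 0 := by
      intro h
      have h5 : p ∣ 3 := by
        rw [← CharP.cast_eq_zero_iff F p]
        exact_mod_cast h
      exact h3 ((Nat.prime_dvd_prime_iff_eq hp Nat.prime_three).1 h5)
    rw [range_G2_one h4 (by rw [hF]; exact hq), if_neg h3]
    ring

end Cfsg.Agent.H14.Chev
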