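import Mathlib
import Cfsg.Agent.H14_ChevI

set_option autoImplicit false
set_option linter.unusedSectionVars false

/-!
Generation of Chevalley groups by `N` and one or two fundamental root subgroups.
-/

namespace Cfsg.Agent.H14.Chev

open Cfsg Cfsg.Lie Cfsg.Lie.ChevalleyDatum Cfsg.Agent.H6 Cfsg.Agent.H6.Chev Cfsg.Agent.H6.Chev.Model
open scoped Matrix

variable {D : ChevalleyDatum} {F : Type*} [Field F] (m : Model D)

/-- all the elements `x_r(t)` lie in `M` -/
def InM (m : Model D) (M : Subgroup (GL D.Idx F)) (r : ℕ) : Prop := ∀ t : F, m.X r t ∈ M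

variable {M : Subgroup (GL D.Idx F)}

theorem InM.refl (hN : D.monomialSubgroup F ≤ M) {r i : ℕ} (hi : i < D.rank) (hr : r < D.nroots) (h : InM m M r) :
    InM m M (D.reflectRoot i r) := by
  intro t
  have h1 := m.n_X (F := F) hi hr (((m.eta i r : ℤ) : F) * t)
  have h2 : ((m.eta i r : ℤ) : F) * (((m.eta i r : ℤ) : F) * t) = t := by
    rcases m.eta_sq i hi r hr with h | h <;> simp [h]
  rw [h2] at h1
  have h3 : m.X (D.reflectRoot i r) t = m.n F i * m.X r (((m.eta i r : ℤ) : F) * t) * (m.n F i)⁻¹ := by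
    rw [h1]; group
  rw [h3]
  have hn : m.n F i ∈ M := hN (m.n_mem_N ⟨i, hi⟩)
  exact mul_mem (mul_mem hn (h _)) (inv_mem hn)

theorem InM.comm {r s k : ℕ} {c : ℤ} (hr : r < D.nroots) (hs : s < D.nroots) (hrs : s ≠ r) (hneg : s ≠ D.neg r)
    (hc : D.commTerms r s = [(k, c, 1, 1)]) (hc0 : (c : F) ≠ 0) (h1 : InM m M r) (h2 : InM m M s) : InM m M k := by
  intro t
  have h := m.X_comm_formula (F := F) hr hs hrs hneg (-(t / (c : F))) 1
  have hw : m.word (D.commWord F r s (-(t / (c : F))) 1) = m.X k t := by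
    unfold ChevalleyDatum.commWord
    rw [hc]
    simp only [List.map_cons, List.map_nil, pow_one, mul_one, word_cons, word_nil]
    rw [_root_.neg_neg, mul_div_cancel₀ _ hc0]
  rw [hw] at h
  have h3 : m.X k t = (m.X r (-(t / (c : F))) * m.X s 1)⁻¹ * (m.X s 1 * m.X r (-(t / (c : F)))) := by rw [h]; group
  rw [h3]
  exact mul_mem (inv_mem (mul_mem (h1 _) (h2 _))) (mul_mem (h2 _) (h1 _))

theorem group_le_of_simple (hN : D.monomialSubgroup F ≤ M) (h : ∀ i < D.rank, InM m M (D.simple i)) : D.group F ≤ M := by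
  rw [m.group_eq]
  apply m.gen_le
  intro r hr _
  exact m.root_induction (P := fun r => InM m M r) h (fun i hi r hr h => InM.refl m hN hi hr h) r hr

include m in
/-- two simple roots joined by a single bond -/
theorem refl_refl_simple {i j : ℕ} (hi : i < D.rank) (hj : j < D.rank) (h1 : D.cartan i (D.simple j) = -1)
    (h2 : D.cartan j (D.simple i) = -1) : D.reflectRoot i (D.reflectRoot j (D.simple i)) = D.simple j := by
  have hlt := m.refl_lt j hj (D.simple i) (m.simple_lt i hi)
  have key := m.ext_coef (r := ⟨D.reflectRoot i (D.reflectRoot j (D.simple i)), m.refl_lt i hi _ hlt⟩)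
    (s := ⟨D.simple j, m.simple_lt j hj⟩) (fun k hk => by
      change m.coef (D.reflectRoot i (D.reflectRoot j (D.simple i))) k = m.coef (D.simple j) k
      rw [m.coef_refl i hi _ hlt k hk, m.coef_refl j hj _ (m.simple_lt i hi) k hk, m.coef_simple i hi k hk, m.coef_simple j hj k hk]
      have e : D.cartan i (D.reflectRoot j (D.simple i)) = 1 := by
        have := m.cartan_refl hj hi (m.simple_lt i hi) (i := j) (j := i) (s := D.simple i)
        rw [this, h2, h1, m.cartan_self i hi]; ring
      rw [e, h2]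
      have hji : j ≠ i := by
        rintro rfl
        rw [m.cartan_self j hj] at h1
        omega
      by_cases hik : i = k
      · subst hik
        simp [hji]
      · by_cases hjk : j = k
        · subst hjk; simp
        · simp [hik, hjk])
  exact congrArg Fin.val key

theorem InM.bond (hN : D.monomialSubgroup F ≤ M) {i j : ℕ} (hi : i < D.rank) (hj : j < D.rank) (h1 : D.cartan i (D.simple j) = -1)
    (h2 : D.cartan j (D.simple i) = -1) (h : InM m M (D.simple i)) : InM m M (D.simple j) := by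
  rw [← refl_refl_simple m hi hj h1 h2]
  exact InM.refl m hN hi (m.refl_lt j hj _ (m.simple_lt i hi)) (InM.refl m hN hj (m.simple_lt i hi) h)

theorem gen_SL (hSL : SL D = true) (hN : D.monomialSubgroup F ≤ M) {i : ℕ} (hi : i < D.rank) (h : InM m M (D.simple i)) :
    D.group F ≤ M := by
  apply group_le_of_simple m hN
  intro j hj
  by_contra hne
  obtain ⟨a, ha, b, hb, h1, h2, h3⟩ := m.conn (fun k => InM m M (D.simple k)) ⟨i, hi, h⟩ ⟨j, hj, hne⟩
  have hab : a ≠ b := by rintro rfl; exact h2 h1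
  have h4 : D.cartan a (D.simple b) = -1 := by
    rcases SL.cartan hSL ha hb hab with h | h
    · exact absurd h h3
    · exact h
  have h5 : D.cartan b (D.simple a) = -1 := by
    rcases SL.cartan hSL hb ha (Ne.symm hab) with h | h
    · exfalso
      apply h3
      exact cartan_symm_zero m (i := ⟨b, hb⟩) (j := ⟨a, ha⟩) (fun h => hab (congrArg Fin.val h).symm) h
    · exact h
  exact h2 (InM.bond m hN ha hb h4 h5 h1)

theorem rootSubgroup_InM {i : ℕ} (h : D.rootSubgroup F (D.simple i) ≤ M) : InM m M (D.simple i) := by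
  intro t
  exact h (m.mem_rootSubgroup.2 ⟨t, rfl⟩)

theorem fB2 : chevB2.rank = 2 ∧ chevB2.nroots = 8 ∧ chevB2.simple 0 = 5 ∧ chevB2.simple 1 = 4 ∧ chevB2.isLong 5 = false ∧ chevB2.isLong 4 = true ∧
    chevB2.reflectRoot 1 5 = 6 ∧ chevB2.reflectRoot 0 7 = 4 ∧ chevB2.commTerms 5 6 = [(7, 2, 1, 1)] ∧ chevB2.neg 5 ≠ 6 := by
  decide +kernel

theorem fG2 : chevG2.rank = 2 ∧ chevG2.nroots = 12 ∧ chevG2.simple 0 = 7 ∧ chevG2.simple 1 = 6 ∧ chevG2.isLong 7 = false ∧ chevG2.isLong 6 = true ∧
    chevG2.reflectRoot 1 7 = 8 ∧ chevG2.reflectRoot 0 8 = 9 ∧ chevG2.reflectRoot 0 10 = 6 ∧ chevG2.commTerms 7 9 = [(10, 3, 1, 1)] ∧ chevG2.neg 7 ≠ 9 := by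
  decide +kernel

theorem fF4 : chevF4.rank = 4 ∧ chevF4.nroots = 48 ∧ (chevF4.simple 0 = 33 ∧ chevF4.simple 1 = 27 ∧ chevF4.simple 2 = 25 ∧ chevF4.simple 3 = 24) ∧
    (chevF4.isLong 33 = false ∧ chevF4.isLong 27 = false ∧ chevF4.isLong 25 = true ∧ chevF4.isLong 24 = true) ∧
    (chevF4.cartan 0 (chevF4.simple 1) = -1 ∧ chevF4.cartan 1 (chevF4.simple 0) = -1 ∧ chevF4.cartan 2 (chevF4.simple 3) = -1 ∧ chevF4.cartan 3 (chevF4.simple 2) = -1) ∧
    chevF4.reflectRoot 2 27 = 28 ∧ chevF4.reflectRoot 1 30 = 25 ∧ chevF4.commTerms 27 28 = [(30, 2, 1, 1)] ∧ chevF4.neg 27 ≠ 28 := by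
  decide +kernel

theorem gen_B2 (m : Model chevB2) {M : Subgroup (GL chevB2.Idx F)} (hN : chevB2.monomialSubgroup F ≤ M) (h0 : InM m M 5) (h1 : InM m M 4) :
    chevB2.group F ≤ M := by
  obtain ⟨e1, e2, e3, e4, _⟩ := fB2
  apply group_le_of_simple m hN
  intro i hi
  rw [e1] at hi
  interval_cases i
  · rw [e3]; exact h0
  · rw [e4]; exact h1

theorem gen_B2' (m : Model chevB2) {M : Subgroup (GL chevB2.Idx F)} (hN : chevB2.monomialSubgroup F ≤ M) (h2 : (2 : F) ≠ 0) (h0 : InM m M 5) :
    chevB2.group F ≤ M := by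
  obtain ⟨e1, e2, e3, e4, e5, e6, e7, e8, e9, e10⟩ := fB2
  have h6 : InM m M 6 := by
    have := InM.refl m hN (i := 1) (by rw [e1]; norm_num) (by rw [e2]; norm_num) h0
    rwa [e7] at this
  have h7 : InM m M 7 := InM.comm m (r := 5) (s := 6) (c := 2) (by rw [e2]; norm_num) (by rw [e2]; norm_num) (by norm_num) (Ne.symm e10) e9
    (by exact_mod_cast h2) h0 h6
  have h4 : InM m M 4 := by
    have := InM.refl m hN (i := 0) (by rw [e1]; norm_num) (by rw [e2]; norm_num) h7
    rwa [e8] at this
  exact gen_B2 m hN h0 h4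

theorem gen_G2 (m : Model chevG2) {M : Subgroup (GL chevG2.Idx F)} (hN : chevG2.monomialSubgroup F ≤ M) (h0 : InM m M 7) (h1 : InM m M 6) :
    chevG2.group F ≤ M := by
  obtain ⟨e1, e2, e3, e4, _⟩ := fG2
  apply group_le_of_simple m hN
  intro i hi
  rw [e1] at hi
  interval_cases i
  · rw [e3]; exact h0
  · rw [e4]; exact h1

theorem gen_G2' (m : Model chevG2) {M : Subgroup (GL chevG2.Idx F)} (hN : chevG2.monomialSubgroup F ≤ M) (h3 : (3 : F) ≠ 0) (h0 : InM m M 7) :
    chevG2.group F ≤ M := by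
  obtain ⟨e1, e2, e3, e4, e5, e6, e7, e8, e9, e10, e11⟩ := fG2
  have h8 : InM m M 8 := by
    have := InM.refl m hN (i := 1) (by rw [e1]; norm_num) (by rw [e2]; norm_num) h0
    rwa [e7] at this
  have h9 : InM m M 9 := by
    have := InM.refl m hN (i := 0) (by rw [e1]; norm_num) (by rw [e2]; norm_num) h8
    rwa [e8] at this
  have h10 : InM m M 10 := InM.comm m (r := 7) (s := 9) (c := 3) (by rw [e2]; norm_num) (by rw [e2]; norm_num) (by norm_num) (Ne.symm e11) e10
    (by exact_mod_cast h3) h0 h9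
  have h6 : InM m M 6 := by
    have := InM.refl m hN (i := 0) (by rw [e1]; norm_num) (by rw [e2]; norm_num) h10
    rwa [e9] at this
  exact gen_G2 m hN h0 h6

theorem gen_F4 (m : Model chevF4) {M : Subgroup (GL chevF4.Idx F)} (hN : chevF4.monomialSubgroup F ≤ M)
    (h0 : InM m M 33 ∨ InM m M 27) (h1 : InM m M 25 ∨ InM m M 24) : chevF4.group F ≤ M := by
  obtain ⟨e1, e2, ⟨e3, e4, e5, e6⟩, _, ⟨c1, c2, c3, c4⟩, _⟩ := fF4
  have a0 : InM m M 33 ∧ InM m M 27 := by
    rcases h0 with h | h
    · refine ⟨h, ?_⟩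
      have := InM.bond m hN (i := 0) (j := 1) (by rw [e1]; norm_num) (by rw [e1]; norm_num) c1 c2 (by rw [e3]; exact h)
      rwa [e4] at this
    · refine ⟨?_, h⟩
      have := InM.bond m hN (i := 1) (j := 0) (by rw [e1]; norm_num) (by rw [e1]; norm_num) c2 c1 (by rw [e4]; exact h)
      rwa [e3] at this
  have a1 : InM m M 25 ∧ InM m M 24 := by
    rcases h1 with h | h
    · refine ⟨h, ?_⟩
      have := InM.bond m hN (i := 2) (j := 3) (by rw [e1]; norm_num) (by rw [e1]; norm_num) c3 c4 (by rw [e5]; exact h)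
      rwa [e6] at this
    · refine ⟨?_, h⟩
      have := InM.bond m hN (i := 3) (j := 2) (by rw [e1]; norm_num) (by rw [e1]; norm_num) c4 c3 (by rw [e6]; exact h)
      rwa [e5] at this
  apply group_le_of_simple m hN
  intro i hi
  rw [e1] at hi
  interval_cases i
  · rw [e3]; exact a0.1
  · rw [e4]; exact a0.2
  · rw [e5]; exact a1.1
  · rw [e6]; exact a1.2

theorem gen_F4' (m : Model chevF4) {M : Subgroup (GL chevF4.Idx F)} (hN : chevF4.monomialSubgroup F ≤ M) (h2 : (2 : F) ≠ 0)
    (h0 : InM m M 33 ∨ InM m M 27) : chevF4.group F ≤ M := by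
  obtain ⟨e1, e2, ⟨e3, e4, e5, e6⟩, _, ⟨c1, c2, c3, c4⟩, e7, e8, e9, e10⟩ := fF4
  have a0 : InM m M 27 := by
    rcases h0 with h | h
    · have := InM.bond m hN (i := 0) (j := 1) (by rw [e1]; norm_num) (by rw [e1]; norm_num) c1 c2 (by rw [e3]; exact h)
      rwa [e4] at this
    · exact h
  have h28 : InM m M 28 := by
    have := InM.refl m hN (i := 2) (by rw [e1]; norm_num) (by rw [e2]; norm_num) a0
    rwa [e7] at this
  have h30 : InM m M 30 := InM.comm m (r := 27) (s := 28) (c := 2) (by rw [e2]; norm_num) (by rw [e2]; norm_num) (by norm_num) (Ne.symm e10) e9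
    (by exact_mod_cast h2) a0 h28
  have h25 : InM m M 25 := by
    have := InM.refl m hN (i := 1) (by rw [e1]; norm_num) (by rw [e2]; norm_num) h30
    rwa [e8] at this
  exact gen_F4 m hN h0 (Or.inl h25)

theorem s2416 {K : Type*} [Field K] (D : ChevalleyDatum) (hD : D ∈ [chevG2, chevB2, chevD4, chevF4, chevE6, chevE7, chevE8])
    (h2 : D ∈ [chevB2, chevF4] → ringChar K ≠ 2) (h3 : D = chevG2 → ringChar K ≠ 3)
    (i : ℕ) (hi : i < D.rank) (hshort : D.isLong (D.simple i) = false) :
    D.group K ≤ D.monomialSubgroup K ⊔ D.rootSubgroup K (D.simple i) := by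
  have hD' := hD
  obtain ⟨m⟩ := exists_model hD
  have hN : D.monomialSubgroup K ≤ D.monomialSubgroup K ⊔ D.rootSubgroup K (D.simple i) := le_sup_left
  have hX : InM m (D.monomialSubgroup K ⊔ D.rootSubgroup K (D.simple i)) (D.simple i) := rootSubgroup_InM m le_sup_right
  have h2' : ringChar K ≠ 2 → (2 : K) ≠ 0 := fun h => Ring.two_ne_zero h
  have h3' : ringChar K ≠ 3 → (3 : K) ≠ 0 := by
    intro h h0
    apply h
    have h4 : ringChar K ∣ 3 := (ringChar.spec K 3).1 (by exact_mod_cast h0)
    rcases (Nat.dvd_prime Nat.prime_three).1 h4 with h5 | h5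
    · exfalso
      have : ((1 : ℕ) : K) = 0 := (ringChar.spec K 1).2 (by rw [h5])
      simp at this
    · exact h5
  simp only [List.mem_cons, List.not_mem_nil, or_false] at hD'
  rcases hD' with rfl | rfl | rfl | rfl | rfl | rfl | rfl
  · obtain ⟨e1, e2, e3, e4, e5, e6, _⟩ := fG2
    rw [e1] at hi
    interval_cases i
    · rw [e3] at hX
      exact gen_G2' m hN (h3' (h3 rfl)) (by rw [e3]; exact hX)
    · rw [e4, e6] at hshort; exact absurd hshort (by simp)
  · obtain ⟨e1, e2, e3, e4, e5, e6, _⟩ := fB2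
    rw [e1] at hi
    interval_cases i
    · exact gen_B2' m hN (h2' (h2 (by simp))) (by rw [e3] at hX ⊢; exact hX)
    · rw [e4, e6] at hshort; exact absurd hshort (by simp)
  · exact gen_SL m slD4 hN hi hX
  · obtain ⟨e1, e2, ⟨e3, e4, e5, e6⟩, ⟨l1, l2, l3, l4⟩, _⟩ := fF4
    rw [e1] at hi
    interval_cases i
    · exact gen_F4' m hN (h2' (h2 (by simp))) (Or.inl (by rw [e3] at hX ⊢; exact hX))
    · exact gen_F4' m hN (h2' (h2 (by simp))) (Or.inr (by rw [e4] at hX ⊢; exact hX))
    · rw [e5, l3] at hshort; exact absurd hshort (by simp)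
    · rw [e6, l4] at hshort; exact absurd hshort (by simp)
  · exact gen_SL m slE6 hN hi hX
  · exact gen_SL m slE7 hN hi hX
  · exact gen_SL m slE8 hN hi hX

theorem s2417 {K : Type*} [Field K] (e : ChevalleyDatum × ℕ)
    (he : e ∈ [(chevB2, 2), (chevF4, 2), (chevG2, 3)])
    (i j : ℕ) (hi : i < e.1.rank) (hj : j < e.1.rank) (hshort : e.1.isLong (e.1.simple i) = false)
    (hlong : e.1.isLong (e.1.simple j) = true) :
    e.1.group K ≤ e.1.monomialSubgroup K ⊔ e.1.rootSubgroup K (e.1.simple i) ⊔ e.1.rootSubgroup K (e.1.simple j) := by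
  simp only [List.mem_cons, List.not_mem_nil, or_false] at he
  rcases he with rfl | rfl | rfl
  · change i < chevB2.rank at hi
    change j < chevB2.rank at hj
    change chevB2.isLong (chevB2.simple i) = false at hshort
    change chevB2.isLong (chevB2.simple j) = true at hlong
    change chevB2.group K ≤ chevB2.monomialSubgroup K ⊔ chevB2.rootSubgroup K (chevB2.simple i) ⊔ chevB2.rootSubgroup K (chevB2.simple j)
    obtain ⟨m⟩ := exists_model (D := chevB2) (by simp)
    obtain ⟨e1, e2, e3, e4, e5, e6, _⟩ := fB2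
    rw [e1] at hi hj
    interval_cases i
    · interval_cases j
      · rw [e3, e5] at hlong; exact absurd hlong (by simp)
      · refine gen_B2 m (le_trans le_sup_left le_sup_left) ?_ ?_
        · have := rootSubgroup_InM m (i := 0) (M := chevB2.monomialSubgroup K ⊔ chevB2.rootSubgroup K (chevB2.simple 0) ⊔ chevB2.rootSubgroup K (chevB2.simple 1)) (le_trans le_sup_right le_sup_left)
          rw [e3] at this ⊢; exact this
        · have := rootSubgroup_InM m (i := 1) (M := chevB2.monomialSubgroup K ⊔ chevB2.rootSubgroup K (chevB2.simple 0) ⊔ chevB2.rootSubgroup K (chevB2.simple 1)) le_sup_right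
          rw [e4] at this ⊢; exact this
    · rw [e4, e6] at hshort; exact absurd hshort (by simp)
  · change i < chevF4.rank at hi
    change j < chevF4.rank at hj
    change chevF4.isLong (chevF4.simple i) = false at hshort
    change chevF4.isLong (chevF4.simple j) = true at hlong
    change chevF4.group K ≤ chevF4.monomialSubgroup K ⊔ chevF4.rootSubgroup K (chevF4.simple i) ⊔ chevF4.rootSubgroup K (chevF4.simple j)
    obtain ⟨m⟩ := exists_model (D := chevF4) (by simp)
    obtain ⟨e1, e2, ⟨e3, e4, e5, e6⟩, ⟨l1, l2, l3, l4⟩, _⟩ := fF4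
    have hI := rootSubgroup_InM m (i := i) (M := chevF4.monomialSubgroup K ⊔ chevF4.rootSubgroup K (chevF4.simple i) ⊔ chevF4.rootSubgroup K (chevF4.simple j)) (le_trans le_sup_right le_sup_left)
    have hJ := rootSubgroup_InM m (i := j) (M := chevF4.monomialSubgroup K ⊔ chevF4.rootSubgroup K (chevF4.simple i) ⊔ chevF4.rootSubgroup K (chevF4.simple j)) le_sup_right
    refine gen_F4 m (le_trans le_sup_left le_sup_left) ?_ ?_
    · rw [e1] at hi
      have : chevF4.simple i = 33 ∨ chevF4.simple i = 27 := by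
        interval_cases i
        · exact Or.inl e3
        · exact Or.inr e4
        · rw [e5, l3] at hshort; exact absurd hshort (by simp)
        · rw [e6, l4] at hshort; exact absurd hshort (by simp)
      rcases this with h | h
      · left; rw [← h]; exact hI
      · right; rw [← h]; exact hI
    · rw [e1] at hj
      have : chevF4.simple j = 25 ∨ chevF4.simple j = 24 := by
        interval_cases j
        · rw [e3, l1] at hlong; exact absurd hlong (by simp)
        · rw [e4, l2] at hlong; exact absurd hlong (by simp)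
        · exact Or.inl e5
        · exact Or.inr e6
      rcases this with h | h
      · left; rw [← h]; exact hJ
      · right; rw [← h]; exact hJ
  · change i < chevG2.rank at hi
    change j < chevG2.rank at hj
    change chevG2.isLong (chevG2.simple i) = false at hshort
    change chevG2.isLong (chevG2.simple j) = true at hlong
    change chevG2.group K ≤ chevG2.monomialSubgroup K ⊔ chevG2.rootSubgroup K (chevG2.simple i) ⊔ chevG2.rootSubgroup K (chevG2.simple j)
    obtain ⟨m⟩ := exists_model (D := chevG2) (by simp)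
    obtain ⟨e1, e2, e3, e4, e5, e6, _⟩ := fG2
    rw [e1] at hi hj
    interval_cases i
    · interval_cases j
      · rw [e3, e5] at hlong; exact absurd hlong (by simp)
      · refine gen_G2 m (le_trans le_sup_left le_sup_left) ?_ ?_
        · have := rootSubgroup_InM m (i := 0) (M := chevG2.monomialSubgroup K ⊔ chevG2.rootSubgroup K (chevG2.simple 0) ⊔ chevG2.rootSubgroup K (chevG2.simple 1)) (le_trans le_sup_right le_sup_left)
          rw [e3] at this ⊢; exact this
        · have := rootSubgroup_InM m (i := 1) (M := chevG2.monomialSubgroup K ⊔ chevG2.rootSubgroup K (chevG2.simple 0) ⊔ chevG2.rootSubgroup K (chevG2.simple 1)) le_sup_right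
          rw [e4] at this ⊢; exact this
    · rw [e4, e6] at hshort; exact absurd hshort (by simp)

end Cfsg.Agent.H14.Chev
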