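import Mathlib

/-!
# Polynomial families of matrices

If two polynomial matrices have ranks adding up to a constant at every point of an infinite set, each of the
two ranks is constant on that set.
-/

set_option autoImplicit false

namespace Cfsg.Agent.H14.Hk
open Polynomial

theorem exists_uv {m n : Type*} [Fintype m] [Fintype n] [DecidableEq m] [DecidableEq n] (A : Matrix m n ℂ) :
    ∃ (U : Matrix (Fin A.rank) m ℂ) (V : Matrix n (Fin A.rank) ℂ), U * A * V = 1 := by
  classical
  have hfin : Module.finrank ℂ (LinearMap.range A.mulVecLin) = A.rank := rfl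
  let b := (Module.finBasisOfFinrankEq ℂ (LinearMap.range A.mulVecLin) hfin)
  have hpre : ∀ j, ∃ v : n → ℂ, A.mulVecLin v = (b j : m → ℂ) := fun j => (b j).2
  choose v hv using hpre
  let V : Matrix n (Fin A.rank) ℂ := Matrix.of fun i j => v j i
  have hinj : LinearMap.ker (A * V).mulVecLin = ⊥ := by
    rw [LinearMap.ker_eq_bot']
    intro x hx
    have h1 : ((∑ j, x j • b j : LinearMap.range A.mulVecLin) : m → ℂ) = 0 := by
      rw [← hx]
      ext i
      simp only [AddSubmonoidClass.coe_finsetSum, Submodule.coe_smul, Finset.sum_apply, Pi.smul_apply, smul_eq_mul,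
        Matrix.mulVecLin_apply, Matrix.mulVec, dotProduct]
      apply Finset.sum_congr rfl
      intro j _
      rw [← hv j, Matrix.mul_apply, Matrix.mulVecLin_apply]
      simp only [Matrix.mulVec, dotProduct, V, Matrix.of_apply]
      ring
    have h2 : (∑ j, x j • b j : LinearMap.range A.mulVecLin) = 0 := Subtype.ext h1
    have h3 := Fintype.linearIndependent_iff.1 b.linearIndependent x h2
    exact funext h3
  obtain ⟨g, hg⟩ := LinearMap.exists_leftInverse_of_injective _ hinj
  refine ⟨LinearMap.toMatrix' g, V, ?_⟩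
  rw [Matrix.mul_assoc]
  have h4 : LinearMap.toMatrix' (g ∘ₗ (A * V).mulVecLin) = LinearMap.toMatrix' g * (A * V) := by
    rw [LinearMap.toMatrix'_comp, ← Matrix.toLin'_apply', LinearMap.toMatrix'_toLin']
  rw [← h4, hg, LinearMap.toMatrix'_id]

/-- evaluation of a polynomial matrix -/
noncomputable def ev {m n : Type*} (A : Matrix m n ℂ[X]) (s : ℂ) : Matrix m n ℂ := A.map (Polynomial.eval s)

theorem ev_mul {l m n : Type*} [Fintype m] (A : Matrix l m ℂ[X]) (B : Matrix m n ℂ[X]) (s : ℂ) :
    ev (A * B) s = ev A s * ev B s := by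
  ext i j
  simp [ev, Matrix.mul_apply, Polynomial.eval_finsetSum]

theorem ev_C {m n : Type*} (A : Matrix m n ℂ) (s : ℂ) : ev (A.map Polynomial.C) s = A := by
  ext i j
  simp [ev]

theorem rank_finite {m n : Type*} [Fintype m] [Fintype n] [DecidableEq m] [DecidableEq n] (A : Matrix m n ℂ[X])
    (s₀ : ℂ) : {s : ℂ | (ev A s).rank < (ev A s₀).rank}.Finite := by
  classical
  obtain ⟨U, V, hUV⟩ := exists_uv (ev A s₀)
  set P : Matrix (Fin (ev A s₀).rank) (Fin (ev A s₀).rank) ℂ[X] := U.map Polynomial.C * A * V.map Polynomial.C with hP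
  have hev : ∀ s, ev P s = U * ev A s * V := by
    intro s
    rw [hP, ev_mul, ev_mul, ev_C, ev_C]
  have hdet : ∀ s, P.det.eval s = (U * ev A s * V).det := by
    intro s
    rw [← hev s]
    have h0 : ev P s = (Polynomial.evalRingHom s).mapMatrix P := rfl
    rw [h0, ← RingHom.map_det]
    rfl
  have hne : P.det ≠ 0 := by
    intro h
    have := hdet s₀
    rw [hUV, h] at this
    simp at this
  apply Set.Finite.subset (P.det.roots.toFinset.finite_toSet)
  intro s hs
  simp only [Set.mem_ofPred_eq] at hs
  simp only [Finset.mem_coe, Multiset.mem_toFinset, Polynomial.mem_roots hne, Polynomial.IsRoot.def]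
  by_contra hc
  rw [hdet s] at hc
  have h1 : (U * ev A s * V).rank = (ev A s₀).rank := by
    have := Matrix.rank_of_isUnit (U * ev A s * V) ((Matrix.isUnit_iff_isUnit_det _).2 (isUnit_iff_ne_zero.2 hc))
    rw [this, Fintype.card_fin]
  have h2 : (U * ev A s * V).rank ≤ (ev A s).rank :=
    (Matrix.rank_mul_le_left _ _).trans (Matrix.rank_mul_le_right _ _)
  omega

theorem family {m n m' n' : Type*} [Fintype m] [Fintype n] [DecidableEq m] [DecidableEq n]
    [Fintype m'] [Fintype n'] [DecidableEq m'] [DecidableEq n'] (A : Matrix m n ℂ[X]) (K : Matrix m' n' ℂ[X])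
    (N : ℕ) (S : Set ℂ) (hS : S.Infinite) (h : ∀ s ∈ S, (ev A s).rank + (ev K s).rank = N) {s s' : ℂ}
    (hs : s ∈ S) (hs' : s' ∈ S) : (ev A s).rank = (ev A s').rank := by
  have hfin := ((rank_finite A s).union (rank_finite K s)).union ((rank_finite A s').union (rank_finite K s'))
  obtain ⟨t, htS, ht⟩ := (hS.sdiff hfin).nonempty
  simp only [Set.mem_union, Set.mem_ofPred_eq, not_or, not_lt] at ht
  have h1 := h s hs
  have h2 := h s' hs'
  have h3 := h t htS
  omega

end Cfsg.Agent.H14.Hk
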