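import Mathlib

/-!
# Hecke algebras: the rank of the Casimir map

Abstract structure constants of an algebra with a positive definite symmetrizing trace form: the rank of the
Casimir operator and the rank of the commutation relations add up to the dimension.
-/

set_option autoImplicit false

namespace Cfsg.Agent.H14.Hk
open scoped ComplexConjugate

structure HD {I : Type*} [Fintype I] [DecidableEq I] (c : I → I → I → ℤ) (inv : I → I) (q : I → ℤ) (o : I) : Prop where
  q_pos : ∀ u, 0 < q u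
  inv_inv : ∀ u, inv (inv u) = u
  assoc : ∀ i j l m, ∑ k, c i j k * c k l m = ∑ k, c j l k * c i k m
  one_right : ∀ j k, c j o k = if j = k then 1 else 0
  anti : ∀ i j k, c i j k = c (inv j) (inv i) (inv k)
  adj : ∀ u v w, c u v w * q w = c (inv u) w v * q v

variable {I : Type*} [Fintype I] [DecidableEq I] (c : I → I → I → ℤ) (inv : I → I) (q : I → ℤ) (o : I)

def Lm (u : I) : Matrix I I ℂ := Matrix.of fun w v => (c u v w : ℂ)
def Rm (u : I) : Matrix I I ℂ := Matrix.of fun w v => (c v u w : ℂ)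
noncomputable def Cm : Matrix I I ℂ := ∑ u, ((q u : ℂ))⁻¹ • (Lm c u * Rm c (inv u))
def Km : Matrix (I × I) I ℂ := Matrix.of fun p w => (c p.1 w p.2 : ℂ) - (c w p.1 p.2 : ℂ)

variable {c inv q o}

theorem HD.LL (h : HD c inv q o) (v u : I) : Lm c v * Lm c u = ∑ k, (c v u k : ℂ) • Lm c k := by
  ext w x
  rw [Matrix.mul_apply, Matrix.sum_apply]
  simp only [Lm, Matrix.of_apply, Matrix.smul_apply, smul_eq_mul]
  have := h.assoc v u x w
  have h2 : (∑ j, (c v j w : ℂ) * (c u x j : ℂ)) = ((∑ k, c u x k * c v k w : ℤ) : ℂ) := by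
    push_cast
    exact Finset.sum_congr rfl fun j _ => mul_comm _ _
  rw [h2, ← this]
  push_cast
  rfl

theorem HD.RR (h : HD c inv q o) (v u : I) : Rm c v * Rm c u = ∑ k, (c u v k : ℂ) • Rm c k := by
  ext w x
  rw [Matrix.mul_apply, Matrix.sum_apply]
  simp only [Rm, Matrix.of_apply, Matrix.smul_apply, smul_eq_mul]
  have := h.assoc x u v w
  have h2 : (∑ j, (c j v w : ℂ) * (c x u j : ℂ)) = ((∑ k, c x u k * c k v w : ℤ) : ℂ) := by
    push_cast
    exact Finset.sum_congr rfl fun j _ => mul_comm _ _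
  rw [h2, this]
  push_cast
  rfl

theorem HD.LR (h : HD c inv q o) (u v : I) : Lm c u * Rm c v = Rm c v * Lm c u := by
  ext w x
  rw [Matrix.mul_apply, Matrix.mul_apply]
  simp only [Rm, Lm, Matrix.of_apply]
  have := h.assoc u x v w
  have h2 : (∑ j, (c j v w : ℂ) * (c u x j : ℂ)) = ((∑ k, c u x k * c k v w : ℤ) : ℂ) := by
    push_cast
    exact Finset.sum_congr rfl fun j _ => mul_comm _ _
  have h3 : (∑ j, (c u j w : ℂ) * (c x v j : ℂ)) = ((∑ k, c x v k * c u k w : ℤ) : ℂ) := by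
    push_cast
    exact Finset.sum_congr rfl fun j _ => mul_comm _ _
  rw [h2, h3, this]

theorem HD.sum_inv (h : HD c inv q o) {M : Type*} [AddCommMonoid M] (f : I → M) : ∑ u, f (inv u) = ∑ u, f u :=
  Equiv.sum_comp ⟨inv, inv, h.inv_inv, h.inv_inv⟩ f

theorem HD.comm (h : HD c inv q o) (v : I) : Lm c v * Cm c inv q = Rm c v * Cm c inv q := by
  unfold Cm
  rw [Finset.mul_sum, Finset.mul_sum]
  have h1 : ∀ u, Lm c v * ((q u : ℂ)⁻¹ • (Lm c u * Rm c (inv u))) =
      ∑ k, ((q u : ℂ)⁻¹ * (c v u k : ℂ)) • (Lm c k * Rm c (inv u)) := by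
    intro u
    rw [Matrix.mul_smul, ← Matrix.mul_assoc, h.LL, Finset.sum_mul, Finset.smul_sum]
    apply Finset.sum_congr rfl
    intro k _
    rw [Matrix.smul_mul, smul_smul]
  have h2 : ∀ u, Rm c v * ((q u : ℂ)⁻¹ • (Lm c u * Rm c (inv u))) =
      ∑ k, ((q u : ℂ)⁻¹ * (c (inv u) v (inv k) : ℂ)) • (Lm c u * Rm c (inv k)) := by
    intro u
    rw [Matrix.mul_smul, ← Matrix.mul_assoc, ← h.LR, Matrix.mul_assoc, h.RR, Finset.mul_sum, Finset.smul_sum,
      h.sum_inv (fun k => ((q u : ℂ)⁻¹ * (c (inv u) v k : ℂ)) • (Lm c u * Rm c k))]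
    apply Finset.sum_congr rfl
    intro k _
    rw [Matrix.mul_smul, smul_smul]
  rw [Finset.sum_congr rfl fun u _ => h1 u, Finset.sum_congr rfl fun u _ => h2 u, Finset.sum_comm]
  apply Finset.sum_congr rfl
  intro k _
  apply Finset.sum_congr rfl
  intro u _
  congr 1
  have h3 : c (inv k) v (inv u) = c (inv v) k u := by
    rw [h.anti (inv k) v (inv u), h.inv_inv, h.inv_inv]
  have h4 := h.adj v u k
  rw [h3]
  have hu : (q u : ℂ) ≠ 0 := by exact_mod_cast (h.q_pos u).ne'
  have hk : (q k : ℂ) ≠ 0 := by exact_mod_cast (h.q_pos k).ne'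
  have h5 : (c v u k : ℂ) * (q k : ℂ) = (c (inv v) k u : ℂ) * (q u : ℂ) := by exact_mod_cast h4
  field_simp
  linear_combination h5

theorem HD.form (h : HD c inv q o) (u : I) (x y : I → ℂ) :
    ∑ w, (q w : ℂ) * (Lm c u).mulVec x w * conj (y w) =
      ∑ w, (q w : ℂ) * x w * conj ((Lm c (inv u)).mulVec y w) := by
  simp only [Matrix.mulVec, dotProduct, Lm, Matrix.of_apply, map_sum, map_mul, Finset.mul_sum, Finset.sum_mul]
  rw [Finset.sum_comm]
  apply Finset.sum_congr rfl
  intro v _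
  apply Finset.sum_congr rfl
  intro w _
  have h4 : (c u v w : ℂ) * (q w : ℂ) = (c (inv u) w v : ℂ) * (q v : ℂ) := by exact_mod_cast h.adj u v w
  have h5 : (conj ((c (inv u) w v : ℤ) : ℂ)) = ((c (inv u) w v : ℤ) : ℂ) := by simp
  rw [h5]
  linear_combination (x v * conj (y w)) * h4

theorem HD.inj (h : HD c inv q o) (z : I → ℂ) (hz : (Km c).mulVec z = 0) (hC : (Cm c inv q).mulVec z = 0) : z = 0 := by
  have h1 : ∀ u, (Lm c u).mulVec z = (Rm c u).mulVec z := by
    intro u
    ext x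
    have := congrFun hz (u, x)
    simp only [Matrix.mulVec, dotProduct, Km, Matrix.of_apply, Pi.zero_apply, sub_mul, Finset.sum_sub_distrib] at this
    simp only [Matrix.mulVec, dotProduct, Lm, Rm, Matrix.of_apply]
    exact sub_eq_zero.1 this
  have h2 : ∑ u, ((q u : ℂ))⁻¹ * ∑ w, (q w : ℂ) * (Lm c u).mulVec ((Rm c (inv u)).mulVec z) w * conj (z w) = 0 := by
    have h3 : ∑ w, (q w : ℂ) * ((Cm c inv q).mulVec z) w * conj (z w) = 0 := by
      rw [hC]; simp
    rw [← h3]
    simp only [Finset.mul_sum]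
    rw [Finset.sum_comm]
    apply Finset.sum_congr rfl
    intro w _
    have h4 : (Cm c inv q).mulVec z w = ∑ u, ((q u : ℂ))⁻¹ * (Lm c u).mulVec ((Rm c (inv u)).mulVec z) w := by
      unfold Cm
      rw [Matrix.sum_mulVec, Finset.sum_apply]
      apply Finset.sum_congr rfl
      intro u _
      rw [Matrix.smul_mulVec, Pi.smul_apply, smul_eq_mul, Matrix.mulVec_mulVec]
    rw [h4, Finset.mul_sum, Finset.sum_mul]
    apply Finset.sum_congr rfl
    intro u _
    ring
  have h3 : ∑ u, ((q u : ℂ))⁻¹ * ∑ w, (q w : ℂ) * ((Rm c (inv u)).mulVec z w * conj ((Rm c (inv u)).mulVec z w)) = 0 := by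
    rw [← h2]
    apply Finset.sum_congr rfl
    intro u _
    rw [h.form u, h1 (inv u)]
    congr 1
    apply Finset.sum_congr rfl
    intro w _
    ring
  have h4 : ∑ u, ((q u : ℝ))⁻¹ * ∑ w, (q w : ℝ) * ‖(Rm c (inv u)).mulVec z w‖ ^ 2 = 0 := by
    have : ((∑ u, ((q u : ℝ))⁻¹ * ∑ w, (q w : ℝ) * ‖(Rm c (inv u)).mulVec z w‖ ^ 2 : ℝ) : ℂ) = 0 := by
      rw [← h3]
      push_cast
      apply Finset.sum_congr rfl
      intro u _
      congr 1
      apply Finset.sum_congr rfl
      intro w _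
      rw [Complex.mul_conj, Complex.normSq_eq_norm_sq]
      push_cast
      ring
    exact_mod_cast this
  have hq : ∀ u, (0 : ℝ) < (q u : ℝ) := fun u => by exact_mod_cast h.q_pos u
  have h5 := (Finset.sum_eq_zero_iff_of_nonneg (fun u _ => mul_nonneg (inv_nonneg.2 (hq u).le)
    (Finset.sum_nonneg fun w _ => mul_nonneg (hq w).le (sq_nonneg _)))).1 h4 (inv o) (Finset.mem_univ _)
  rw [h.inv_inv] at h5
  have h6 := (mul_eq_zero.1 h5).resolve_left (inv_ne_zero (hq _).ne')
  have h7 := (Finset.sum_eq_zero_iff_of_nonneg (fun w _ => mul_nonneg (hq w).le (sq_nonneg _))).1 h6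
  ext w
  have h8 := h7 w (Finset.mem_univ _)
  have h9 := (mul_eq_zero.1 h8).resolve_left (hq w).ne'
  have h10 : (Rm c o).mulVec z w = 0 := by
    rw [← norm_eq_zero]
    exact pow_eq_zero_iff (two_ne_zero) |>.1 h9
  have h11 : (Rm c o).mulVec z w = z w := by
    simp only [Matrix.mulVec, dotProduct, Rm, Matrix.of_apply, h.one_right]
    simp
  rw [← h11, h10]
  rfl

theorem HD.rank_add (h : HD c inv q o) : (Cm c inv q).rank + (Km c).rank = Fintype.card I := by
  have h1 : LinearMap.range (Cm c inv q).mulVecLin ≤ LinearMap.ker (Km c).mulVecLin := by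
    rintro _ ⟨z, rfl⟩
    rw [LinearMap.mem_ker]
    ext ⟨u, x⟩
    have := congrArg (fun M => M.mulVec z x) (h.comm u)
    simp only [← Matrix.mulVec_mulVec] at this
    simp only [Matrix.mulVecLin_apply, Pi.zero_apply]
    simp only [Matrix.mulVec, dotProduct, Km, Lm, Rm, Matrix.of_apply] at this ⊢
    simp only [sub_mul, Finset.sum_sub_distrib]
    rw [sub_eq_zero]
    exact this
  have h2 : (Cm c inv q).rank ≤ Module.finrank ℂ (LinearMap.ker (Km c).mulVecLin) := Submodule.finrank_mono h1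
  let f : LinearMap.ker (Km c).mulVecLin →ₗ[ℂ] LinearMap.range (Cm c inv q).mulVecLin :=
    (Cm c inv q).mulVecLin.rangeRestrict.comp (LinearMap.ker (Km c).mulVecLin).subtype
  have h3 : Function.Injective f := by
    rw [← LinearMap.ker_eq_bot, LinearMap.ker_eq_bot']
    intro z hz
    apply Subtype.ext
    apply h.inj
    · exact LinearMap.mem_ker.1 z.2
    · exact congrArg Subtype.val hz
  have h4 : Module.finrank ℂ (LinearMap.ker (Km c).mulVecLin) ≤ (Cm c inv q).rank :=
    LinearMap.finrank_le_finrank_of_injective h3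
  have h5 := LinearMap.finrank_range_add_finrank_ker (Km c).mulVecLin
  rw [Module.finrank_fintype_fun_eq_card] at h5
  have h6 : (Km c).rank = Module.finrank ℂ (LinearMap.range (Km c).mulVecLin) := rfl
  omega

end Cfsg.Agent.H14.Hk
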