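import Cfsg.Agent.H14_HkB

/-!
# Structure constants of the double coset algebra of a finite group
-/

set_option autoImplicit false
set_option linter.unusedSectionVars false

namespace Cfsg.Agent.H14.Hk
open scoped ComplexConjugate

variable {G I : Type*} [Group G] [Fintype G] [Fintype I] [DecidableEq I]

def dl (a b : I) : ℤ := if a = b then 1 else 0

omit [Fintype I] in
theorem dl_self (a : I) : dl a a = 1 := if_pos rfl

theorem sum_dl (f : I → ℤ) (a : I) : ∑ k, f k * dl a k = f a := by
  simp [dl]

structure GD (pos : G → I) (B : Subgroup G) (c : I → I → I → ℤ) (inv : I → I) (q : I → ℤ) : Prop where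
  surj : Function.Surjective pos
  rel : ∀ g h, pos g = pos h ↔ ∃ b ∈ B, ∃ b' ∈ B, h = b * g * b'
  inv_pos : ∀ g, pos g⁻¹ = inv (pos g)
  cN : ∀ u v g, ∑ y, dl (pos y) u * dl (pos (y⁻¹ * g)) v = Nat.card B * c u v (pos g)
  cq : ∀ u, ∑ y, dl (pos y) u = Nat.card B * q u

variable {pos : G → I} {B : Subgroup G} {c : I → I → I → ℤ} {inv : I → I} {q : I → ℤ}

omit [Fintype G] [Fintype I] [DecidableEq I] in
theorem one_iff (hrel : ∀ g h, pos g = pos h ↔ ∃ b ∈ B, ∃ b' ∈ B, h = b * g * b') (g : G) :
    pos g = pos 1 ↔ g ∈ B := by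
  rw [hrel]
  constructor
  · rintro ⟨b, hb, b', hb', h⟩
    have : g = b⁻¹ * b'⁻¹ := by
      have h1 : b⁻¹ * (b * g * b') * b'⁻¹ = g := by group
      rw [← h1, ← h]
      group
    rw [this]
    exact B.mul_mem (B.inv_mem hb) (B.inv_mem hb')
  · intro h
    exact ⟨g⁻¹, B.inv_mem h, 1, B.one_mem, by simp⟩

theorem GD.card_pos (_h : GD pos B c inv q) : (0 : ℤ) < Nat.card B := by
  have : 0 < Nat.card B := Nat.card_pos
  exact_mod_cast this

theorem GD.mul_left (h : GD pos B c inv q) {b : G} (hb : b ∈ B) (g : G) : pos (b * g) = pos g :=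
  ((h.rel g (b * g)).2 ⟨b, hb, 1, B.one_mem, by simp⟩).symm

theorem GD.mul_right (h : GD pos B c inv q) {b : G} (hb : b ∈ B) (g : G) : pos (g * b) = pos g :=
  ((h.rel g (g * b)).2 ⟨1, B.one_mem, b, hb, by simp⟩).symm

theorem GD.inv_inv (h : GD pos B c inv q) (u : I) : inv (inv u) = u := by
  obtain ⟨g, rfl⟩ := h.surj u
  rw [← h.inv_pos, ← h.inv_pos, _root_.inv_inv]

theorem GD.dl_inv (h : GD pos B c inv q) (u v : I) : dl (inv u) (inv v) = dl u v := by
  unfold dl
  by_cases huv : u = v
  · rw [if_pos huv, if_pos (by rw [huv])]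
  · rw [if_neg huv, if_neg]
    intro h1
    exact huv (by rw [← h.inv_inv u, h1, h.inv_inv])

theorem GD.q_one (h : GD pos B c inv q) : q (pos 1) = 1 := by
  classical
  have h1 := h.cq (pos 1)
  have h2 : ∑ y, dl (pos y) (pos 1) = (Nat.card B : ℤ) := by
    have : ∀ y, dl (pos y) (pos 1) = if y ∈ B then (1 : ℤ) else 0 := by
      intro y
      unfold dl
      simp only [one_iff h.rel y]
    rw [Finset.sum_congr rfl fun y _ => this y, Finset.sum_boole, Nat.card_eq_fintype_card,
      ← Fintype.card_subtype (fun y => y ∈ B)]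
  rw [h2] at h1
  have := h.card_pos
  have h3 : (Nat.card B : ℤ) * (q (pos 1) - 1) = 0 := by linarith
  rcases mul_eq_zero.1 h3 with h4 | h4 <;> omega

theorem GD.hd (h : GD pos B c inv q) : HD c inv q (pos 1) where
  q_pos u := by
    have h1 := h.cq u
    obtain ⟨g, hg⟩ := h.surj u
    have h2 : 0 < ∑ y, dl (pos y) u := by
      apply Finset.sum_pos'
      · intro y _
        unfold dl
        split_ifs <;> omega
      · refine ⟨g, Finset.mem_univ _, ?_⟩
        rw [hg, dl_self]
        omega
    rw [h1] at h2
    exact (pos_iff_pos_of_mul_pos h2).1 h.card_pos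
  inv_inv := h.inv_inv
  assoc i j l m := by
    obtain ⟨g, rfl⟩ := h.surj m
    have hB := h.card_pos
    have h1 : (Nat.card B : ℤ) * Nat.card B * ∑ k, c i j k * c k l (pos g) =
        ∑ y, ∑ z, dl (pos z) i * dl (pos (z⁻¹ * y)) j * dl (pos (y⁻¹ * g)) l := by
      calc _ = ∑ k, (Nat.card B * c i j k) * ∑ y, dl (pos y) k * dl (pos (y⁻¹ * g)) l := by
            rw [Finset.mul_sum]
            apply Finset.sum_congr rfl
            intro k _
            rw [h.cN]
            ring
        _ = ∑ y, (∑ k, (Nat.card B * c i j k) * dl (pos y) k) * dl (pos (y⁻¹ * g)) l := by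
            simp only [Finset.mul_sum, Finset.sum_mul]
            rw [Finset.sum_comm]
            apply Finset.sum_congr rfl
            intro y _
            apply Finset.sum_congr rfl
            intro k _
            ring
        _ = _ := by
            apply Finset.sum_congr rfl
            intro y _
            rw [sum_dl, ← h.cN, Finset.sum_mul]
    have h2 : (Nat.card B : ℤ) * Nat.card B * ∑ k, c j l k * c i k (pos g) =
        ∑ y, ∑ z, dl (pos z) i * dl (pos (z⁻¹ * y)) j * dl (pos (y⁻¹ * g)) l := by
      calc _ = ∑ k, (Nat.card B * c j l k) * ∑ z, dl (pos z) i * dl (pos (z⁻¹ * g)) k := by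
            rw [Finset.mul_sum]
            apply Finset.sum_congr rfl
            intro k _
            rw [h.cN]
            ring
        _ = ∑ z, dl (pos z) i * ∑ k, (Nat.card B * c j l k) * dl (pos (z⁻¹ * g)) k := by
            simp only [Finset.mul_sum]
            rw [Finset.sum_comm]
            apply Finset.sum_congr rfl
            intro z _
            apply Finset.sum_congr rfl
            intro k _
            ring
        _ = ∑ z, ∑ y, dl (pos z) i * dl (pos (z⁻¹ * y)) j * dl (pos (y⁻¹ * g)) l := by
            apply Finset.sum_congr rfl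
            intro z _
            rw [sum_dl, ← h.cN, ← Equiv.sum_comp (Equiv.mulLeft z⁻¹), Finset.mul_sum]
            apply Finset.sum_congr rfl
            intro y _
            simp only [Equiv.coe_mulLeft]
            have : (z⁻¹ * y)⁻¹ * (z⁻¹ * g) = y⁻¹ * g := by group
            rw [this]
            ring
        _ = _ := Finset.sum_comm
    have h3 := h1.trans h2.symm
    exact mul_left_cancel₀ (mul_ne_zero hB.ne' hB.ne') h3
  one_right j k := by
    obtain ⟨g, rfl⟩ := h.surj k
    have hB := h.card_pos
    have h1 := h.cN j (pos 1) g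
    have h2 : ∑ y, dl (pos y) j * dl (pos (y⁻¹ * g)) (pos 1) = dl (pos g) j * Nat.card B := by
      have h3 : ∀ y, dl (pos y) j * dl (pos (y⁻¹ * g)) (pos 1) = dl (pos g) j * dl (pos (y⁻¹ * g)) (pos 1) := by
        intro y
        by_cases hy : pos (y⁻¹ * g) = pos 1
        · have h4 := (one_iff h.rel _).1 hy
          have h5 := h.mul_right h4 y
          rw [mul_inv_cancel_left] at h5
          rw [h5]
        · have : dl (pos (y⁻¹ * g)) (pos 1) = 0 := if_neg hy
          rw [this, mul_zero, mul_zero]
      rw [Finset.sum_congr rfl fun y _ => h3 y, ← Finset.mul_sum]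
      congr 1
      have h4 : ∑ y, dl (pos (y⁻¹ * g)) (pos 1) = ∑ t, dl (pos t) (pos 1) := by
        rw [← Equiv.sum_comp (Equiv.inv G)]
        simp only [Equiv.inv_apply, _root_.inv_inv]
        exact Equiv.sum_comp (Equiv.mulRight g) (fun t => dl (pos t) (pos 1))
      rw [h4, h.cq, h.q_one, mul_one]
    rw [h2] at h1
    have h3 : (Nat.card B : ℤ) * c j (pos 1) (pos g) = Nat.card B * dl (pos g) j := by linarith
    rw [mul_left_cancel₀ hB.ne' h3]
    unfold dl
    by_cases hj : pos g = j
    · rw [if_pos hj, if_pos hj.symm]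
    · rw [if_neg hj, if_neg (fun h => hj h.symm)]
  anti i j k := by
    obtain ⟨g, rfl⟩ := h.surj k
    have hB := h.card_pos
    apply mul_left_cancel₀ hB.ne'
    rw [← h.cN, ← h.inv_pos, ← h.cN, ← Equiv.sum_comp (Equiv.mulLeft g⁻¹) (fun y => dl (pos y) (inv j) * dl (pos (y⁻¹ * g⁻¹)) (inv i))]
    apply Finset.sum_congr rfl
    intro t _
    simp only [Equiv.coe_mulLeft]
    have h1 : (g⁻¹ * t)⁻¹ * g⁻¹ = t⁻¹ := by group
    have h2 : g⁻¹ * t = (t⁻¹ * g)⁻¹ := by group
    rw [h1, h2, h.inv_pos, h.inv_pos, h.dl_inv, h.dl_inv, mul_comm]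
  adj u v w := by
    have hB := h.card_pos
    apply mul_left_cancel₀ (mul_ne_zero hB.ne' hB.ne')
    have h1 : (Nat.card B : ℤ) * Nat.card B * (c u v w * q w) =
        ∑ g, ∑ y, dl (pos g) w * dl (pos y) u * dl (pos (y⁻¹ * g)) v := by
      calc _ = (∑ g, dl (pos g) w) * (Nat.card B * c u v w) := by rw [h.cq]; ring
        _ = ∑ g, dl (pos g) w * (Nat.card B * c u v (pos g)) := by
            rw [Finset.sum_mul]
            apply Finset.sum_congr rfl
            intro g _
            by_cases hg : pos g = w
            · rw [hg]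
            · have : dl (pos g) w = 0 := if_neg hg
              rw [this, zero_mul, zero_mul]
        _ = _ := by
            apply Finset.sum_congr rfl
            intro g _
            rw [← h.cN, Finset.mul_sum]
            apply Finset.sum_congr rfl
            intro y _
            ring
    have h2 : (Nat.card B : ℤ) * Nat.card B * (c (inv u) w v * q v) =
        ∑ g, ∑ y, dl (pos g) w * dl (pos y) u * dl (pos (y⁻¹ * g)) v := by
      calc _ = (∑ g, dl (pos g) v) * (Nat.card B * c (inv u) w v) := by rw [h.cq]; ring
        _ = ∑ g, dl (pos g) v * (Nat.card B * c (inv u) w (pos g)) := by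
            rw [Finset.sum_mul]
            apply Finset.sum_congr rfl
            intro g _
            by_cases hg : pos g = v
            · rw [hg]
            · have : dl (pos g) v = 0 := if_neg hg
              rw [this, zero_mul, zero_mul]
        _ = ∑ g, ∑ y, dl (pos g) v * (dl (pos y) u * dl (pos (y * g)) w) := by
            apply Finset.sum_congr rfl
            intro g _
            rw [← h.cN, Finset.mul_sum, ← Equiv.sum_comp (Equiv.inv G)]
            apply Finset.sum_congr rfl
            intro y _
            simp only [Equiv.inv_apply, _root_.inv_inv]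
            rw [h.inv_pos, h.dl_inv]
        _ = ∑ y, ∑ g, dl (pos g) v * (dl (pos y) u * dl (pos (y * g)) w) := Finset.sum_comm
        _ = ∑ y, ∑ g, dl (pos g) w * dl (pos y) u * dl (pos (y⁻¹ * g)) v := by
            apply Finset.sum_congr rfl
            intro y _
            rw [← Equiv.sum_comp (Equiv.mulLeft y⁻¹)]
            apply Finset.sum_congr rfl
            intro g _
            simp only [Equiv.coe_mulLeft, mul_inv_cancel_left]
            ring
        _ = _ := Finset.sum_comm
    rw [h1, h2]

/-- conjugation counts -/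
theorem GD.conj_count (h : GD pos B c inv q) (u x w : I) :
    q u * ∑ y, ∑ g, dl (pos y) u * (dl (pos g) x * dl (pos (y * g * y⁻¹)) w) =
      Nat.card B * Nat.card B * q w * ∑ k, c x (inv u) k * c u k w := by
  have hB := h.card_pos
  apply mul_left_cancel₀ hB.ne'
  have hT : ∀ y t t', pos t = pos t' → ∑ g, dl (pos g) x * dl (pos (y * g * t)) w =
      ∑ g, dl (pos g) x * dl (pos (y * g * t')) w := by
    intro y t t' ht
    obtain ⟨b, hb, b', hb', rfl⟩ := (h.rel t t').1 ht
    rw [← Equiv.sum_comp (Equiv.mulRight b⁻¹) (fun g => dl (pos g) x * dl (pos (y * g * (b * t * b'))) w)]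
    apply Finset.sum_congr rfl
    intro g _
    simp only [Equiv.coe_mulRight]
    have h1 : y * (g * b⁻¹) * (b * t * b') = y * g * t * b' := by group
    rw [h1, h.mul_right hb', h.mul_right (B.inv_mem hb)]
  have h1 : (Nat.card B : ℤ) * (q u * ∑ y, ∑ g, dl (pos y) u * (dl (pos g) x * dl (pos (y * g * y⁻¹)) w)) =
      ∑ y, dl (pos y) u * ∑ t, dl (pos t) (inv u) * ∑ g, dl (pos g) x * dl (pos (y * g * t)) w := by
    have hq : (Nat.card B : ℤ) * q u = ∑ t, dl (pos t) (inv u) := by
      rw [← h.cq, ← Equiv.sum_comp (Equiv.inv G) (fun t => dl (pos t) (inv u))]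
      apply Finset.sum_congr rfl
      intro t _
      simp only [Equiv.inv_apply]
      rw [h.inv_pos, h.dl_inv]
    rw [← mul_assoc, hq, Finset.mul_sum]
    apply Finset.sum_congr rfl
    intro y _
    by_cases hy : pos y = u
    · have h2 : ∑ t, dl (pos t) (inv u) * ∑ g, dl (pos g) x * dl (pos (y * g * t)) w =
          ∑ t, dl (pos t) (inv u) * ∑ g, dl (pos g) x * dl (pos (y * g * y⁻¹)) w := by
        apply Finset.sum_congr rfl
        intro t _
        by_cases ht : pos t = inv u
        · congr 1
          apply hT
          rw [ht, h.inv_pos, hy]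
        · have : dl (pos t) (inv u) = 0 := if_neg ht
          rw [this, zero_mul, zero_mul]
      rw [h2, ← Finset.sum_mul, ← Finset.mul_sum]
      ring
    · have : dl (pos y) u = 0 := if_neg hy
      simp only [this, zero_mul, Finset.sum_const_zero, mul_zero]
  rw [h1]
  calc _ = ∑ y, ∑ g, ∑ t, dl (pos y) u * dl (pos g) x * (dl (pos t) (inv u) * dl (pos (y * g * t)) w) := by
        apply Finset.sum_congr rfl
        intro y _
        simp only [Finset.mul_sum]
        rw [Finset.sum_comm]
        apply Finset.sum_congr rfl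
        intro g _
        apply Finset.sum_congr rfl
        intro t _
        ring
    _ = ∑ y, ∑ g, ∑ s, dl (pos y) u * dl (pos g) x * (dl (pos (g⁻¹ * (y⁻¹ * s))) (inv u) * dl (pos s) w) := by
        apply Finset.sum_congr rfl
        intro y _
        apply Finset.sum_congr rfl
        intro g _
        rw [← Equiv.sum_comp (Equiv.mulLeft (y * g)⁻¹)]
        apply Finset.sum_congr rfl
        intro s _
        simp only [Equiv.coe_mulLeft]
        have h2 : y * g * ((y * g)⁻¹ * s) = s := by group
        have h3 : (y * g)⁻¹ * s = g⁻¹ * (y⁻¹ * s) := by group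
        rw [h2, h3]
    _ = ∑ s, ∑ y, ∑ g, dl (pos y) u * dl (pos g) x * (dl (pos (g⁻¹ * (y⁻¹ * s))) (inv u) * dl (pos s) w) := by
        rw [Finset.sum_congr rfl fun y _ => Finset.sum_comm, Finset.sum_comm]
    _ = ∑ s, dl (pos s) w * ∑ y, dl (pos y) u * (Nat.card B * c x (inv u) (pos (y⁻¹ * s))) := by
        apply Finset.sum_congr rfl
        intro s _
        rw [Finset.mul_sum]
        apply Finset.sum_congr rfl
        intro y _
        rw [← h.cN, Finset.mul_sum, Finset.mul_sum]
        apply Finset.sum_congr rfl
        intro g _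
        ring
    _ = ∑ s, dl (pos s) w * ∑ k, (Nat.card B * c x (inv u) k) * (Nat.card B * c u k (pos s)) := by
        apply Finset.sum_congr rfl
        intro s _
        congr 1
        calc _ = ∑ y, ∑ k, dl (pos y) u * ((Nat.card B * c x (inv u) k) * dl (pos (y⁻¹ * s)) k) := by
              apply Finset.sum_congr rfl
              intro y _
              rw [← Finset.mul_sum, sum_dl]
          _ = _ := by
              rw [Finset.sum_comm]
              apply Finset.sum_congr rfl
              intro k _
              rw [← h.cN, Finset.mul_sum]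
              apply Finset.sum_congr rfl
              intro y _
              ring
    _ = ∑ s, dl (pos s) w * ∑ k, (Nat.card B * c x (inv u) k) * (Nat.card B * c u k w) := by
        apply Finset.sum_congr rfl
        intro s _
        by_cases hs : pos s = w
        · rw [hs]
        · have : dl (pos s) w = 0 := if_neg hs
          rw [this, zero_mul, zero_mul]
    _ = _ := by
        rw [← Finset.sum_mul, h.cq, Finset.mul_sum, Finset.mul_sum, Finset.mul_sum]
        apply Finset.sum_congr rfl
        intro k _
        ring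

end Cfsg.Agent.H14.Hk
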