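import Cfsg.Agent.H14_HkC
import Cfsg.Agent.H3_PermInd
import Cfsg.Agent.H3_CharMult
import Cfsg.Prelude.Def_ParabolicCharacters

/-!
# The number of constituents of a permutation character as the rank of a double coset matrix
-/

set_option autoImplicit false
set_option linter.unusedSectionVars false

namespace Cfsg.Agent.H14.Hk
open scoped ComplexConjugate ComplexOrder
open Cfsg Cfsg.Agent.H3.CharIrr Cfsg.Agent.H3.CharComplete Cfsg.Agent.H3.CharMult

section Conv
variable {G : Type*} [Group G] [Fintype G]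

theorem class_mul {φ : G → ℂ} (hφ : IsClassFunction G φ) {χ : G → ℂ} (hχ : IsIrrCharacter G χ) (b : G) :
    ∑ g, φ g * χ (g * b) = (∑ g, φ g * χ g) / χ 1 * χ b := by
  obtain ⟨n, ρ, hρ, rfl⟩ := hχ
  have h1 := op_irr φ hφ ρ hρ
  have h2 : LinearMap.trace ℂ _ (op φ ρ ∘ₗ ρ b) = ∑ g, φ g * ρ.character (g * b) := by
    have : op φ ρ ∘ₗ ρ b = ∑ g, φ g • ρ (g * b) := by
      ext1 i
      ext1
      simp only [LinearMap.comp_apply, op_apply, LinearMap.sum_apply, LinearMap.smul_apply, map_mul]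
      rfl
    rw [this, map_sum]
    apply Finset.sum_congr rfl
    intro g _
    rw [map_smul]
    rfl
  rw [← h2, h1, LinearMap.smul_comp, LinearMap.id_comp, map_smul, smul_eq_mul, Representation.char_one]
  rfl

variable (B : Subgroup G) [Fintype B]

noncomputable def av (χ : G → ℂ) (g : G) : ℂ := ∑ b : B, χ (g * b)

theorem av_norm {χ : G → ℂ} (hχ : IsIrrCharacter G χ) :
    ∑ g, av B χ g * conj (av B χ g) = (Nat.card B : ℂ) * (Nat.card G : ℂ) / χ 1 * ∑ b : B, χ b := by
  have hc : IsClassFunction G (fun g => conj (χ g)) := IsChar.isClass (IsChar.conj (IsIrr.isCharacter hχ))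
  have h1 : ∀ b b' : B, ∑ g, χ (g * b) * conj (χ (g * b')) = (Nat.card G : ℂ) / χ 1 * χ (b'⁻¹ * b : B) := by
    intro b b'
    rw [← Equiv.sum_comp (Equiv.mulRight (b'⁻¹ : G))]
    simp only [Equiv.coe_mulRight, inv_mul_cancel_right]
    have h2 := class_mul hc hχ ((b' : G)⁻¹ * b)
    have h3 : ∑ g, conj (χ g) * χ g = (Nat.card G : ℂ) := by
      have h4 := ci_irr_self hχ
      unfold classInner at h4
      have h5 : (Nat.card G : ℂ) ≠ 0 := card_cast_ne_zero
      have h6 : ∑ g, χ g * conj (χ g) = (Nat.card G : ℂ) := by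
        field_simp at h4
        simpa using h4
      rw [← h6]
      exact Finset.sum_congr rfl fun g _ => mul_comm _ _
    rw [h3] at h2
    push_cast
    rw [← h2]
    apply Finset.sum_congr rfl
    intro g _
    rw [mul_comm, mul_assoc]
  have h2 : ∑ g, av B χ g * conj (av B χ g) = ∑ b : B, ∑ b' : B, ∑ g, χ (g * b) * conj (χ (g * b')) := by
    simp only [av, map_sum, Finset.sum_mul_sum]
    rw [Finset.sum_comm]
    apply Finset.sum_congr rfl
    intro b _
    rw [Finset.sum_comm]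
  rw [h2]
  have h3 : ∀ b' : B, ∑ b : B, (Nat.card G : ℂ) / χ 1 * χ (b'⁻¹ * b : B) = (Nat.card G : ℂ) / χ 1 * ∑ b : B, χ b := by
    intro b'
    rw [← Finset.mul_sum]
    congr 1
    exact Equiv.sum_comp (Equiv.mulLeft b'⁻¹) (fun b : B => χ b)
  rw [Finset.sum_comm]
  rw [Finset.sum_congr rfl fun b' _ => Finset.sum_congr rfl fun b _ => h1 b b']
  rw [Finset.sum_congr rfl fun b' _ => h3 b', Finset.sum_const, Finset.card_univ, Nat.card_eq_fintype_card (α := B), nsmul_eq_mul]
  ring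

theorem av_zero {χ : G → ℂ} (hχ : IsIrrCharacter G χ) (h : ∑ b : B, χ b = 0) (g : G) : av B χ g = 0 := by
  have h1 := av_norm B hχ
  rw [h, mul_zero] at h1
  have h2 : ∑ g, ‖av B χ g‖ ^ 2 = 0 := by
    have : ((∑ g, ‖av B χ g‖ ^ 2 : ℝ) : ℂ) = 0 := by
      rw [← h1]
      push_cast
      apply Finset.sum_congr rfl
      intro g _
      rw [Complex.mul_conj, Complex.normSq_eq_norm_sq]
      push_cast
      rfl
    exact_mod_cast this
  have h3 := (Finset.sum_eq_zero_iff_of_nonneg (fun g _ => sq_nonneg _)).1 h2 g (Finset.mem_univ _)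
  rw [← norm_eq_zero]
  exact pow_eq_zero_iff (two_ne_zero) |>.1 h3

theorem constituent_iff {χ : G → ℂ} (hχ : IsIrrCharacter G χ) :
    (∃ φ : G → ℂ, IsCharacter G φ ∧ fixedPointCharacter B = χ + φ) ↔ ∑ b : B, χ b ≠ 0 := by
  classical
  have h0 : fixedPointCharacter B = Cfsg.Agent.H3.CharPerm2.perm G (G ⧸ B) := rfl
  have hch : IsCharacter G (fixedPointCharacter B) := by
    rw [h0]
    exact Cfsg.Agent.H3.CharPerm2.isChar_perm G (G ⧸ B)
  have h1 : (∃ φ : G → ℂ, IsCharacter G φ ∧ fixedPointCharacter B = χ + φ) ↔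
      classInner (fixedPointCharacter B) χ ≠ 0 := by
    constructor
    · rintro ⟨φ, hφ, he⟩
      obtain ⟨n, hn⟩ := ci_char_nat hφ (IsIrr.isCharacter hχ)
      rw [he, ci_add_left, ci_irr_self hχ, hn]
      norm_cast
      omega
    · intro h
      obtain ⟨n, hn⟩ := ci_char_nat hch (IsIrr.isCharacter hχ)
      have hn1 : 1 ≤ n := by
        rcases Nat.eq_zero_or_pos n with h2 | h2
        · rw [hn, h2] at h
          simp at h
        · exact h2
      refine ⟨_, IsChar.sub_constituent hch hχ hn hn1, ?_⟩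
      ext g
      simp
  rw [h1, h0, Cfsg.Agent.H3.PermInd.perm_quot, constituent_ind_iff (IsIrr.isCharacter hχ)]
  have h2 : classInner (fun h : B => χ h) (fun _ => 1) = (Nat.card B : ℂ)⁻¹ * ∑ b : B, χ b := by
    unfold classInner
    simp
  rw [h2]
  have h3 : (Nat.card B : ℂ) ≠ 0 := card_cast_ne_zero
  constructor
  · intro h h4
    exact h (by rw [h4, mul_zero])
  · intro h
    exact mul_ne_zero (inv_ne_zero h3) h

end Conv

section Rank
variable {G I : Type*} [Group G] [Fintype G] [Fintype I] [DecidableEq I]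
variable {pos : G → I} {B : Subgroup G} [Fintype B] {c : I → I → I → ℤ} {inv : I → I} {q : I → ℤ}

noncomputable def vv (pos : G → I) (χ : G → ℂ) (x : I) : ℂ := ∑ g, (dl (pos g) x : ℂ) * χ g

theorem sum_dlC (f : I → ℂ) (a : I) : ∑ k, f k * (dl a k : ℂ) = f a := by
  simp [dl]

theorem vv_eq_zero (h : GD pos B c inv q) {χ : G → ℂ} (hχ : IsIrrCharacter G χ) (h0 : ∑ b : B, χ b = 0) (x : I) :
    vv pos χ x = 0 := by
  have h1 : ∑ b : B, vv pos χ x = 0 := by
    have h2 : ∀ b : B, vv pos χ x = ∑ g, (dl (pos g) x : ℂ) * χ (g * b) := by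
      intro b
      unfold vv
      rw [← Equiv.sum_comp (Equiv.mulRight (b : G))]
      apply Finset.sum_congr rfl
      intro g _
      simp only [Equiv.coe_mulRight]
      rw [h.mul_right b.2]
    rw [Finset.sum_congr rfl fun b _ => h2 b, Finset.sum_comm]
    apply Finset.sum_eq_zero
    intro g _
    rw [← Finset.mul_sum]
    have := av_zero B hχ h0 g
    unfold av at this
    rw [this, mul_zero]
  rw [Finset.sum_const, Finset.card_univ, nsmul_eq_mul] at h1
  refine (mul_eq_zero.1 h1).resolve_left ?_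
  have : 0 < Fintype.card B := Fintype.card_pos
  exact_mod_cast this.ne'

theorem av_const (h : GD pos B c inv q) {χ : G → ℂ} (hχ : IsClassFunction G χ) {g g' : G} (hg : pos g = pos g') :
    av B χ g = av B χ g' := by
  obtain ⟨b, hb, b', hb', rfl⟩ := (h.rel g g').1 hg
  unfold av
  have h1 : ∀ t : B, χ (b * g * b' * t) = χ (g * ((⟨b', hb'⟩ * t * ⟨b, hb⟩ : B) : G)) := by
    intro t
    rw [← hχ _ b⁻¹]
    congr 1
    push_cast
    group
  rw [Finset.sum_congr rfl fun t _ => h1 t]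
  exact (Equiv.sum_comp ((Equiv.mulLeft (⟨b', hb'⟩ : B)).trans (Equiv.mulRight (⟨b, hb⟩ : B))) (fun t : B => χ (g * t))).symm

theorem vv_li (h : GD pos B c inv q) :
    LinearIndependent ℂ (fun χ : {χ : IrrCharacter G // ∑ b : B, (χ : G → ℂ) b ≠ 0} => vv pos (χ : G → ℂ)) := by
  classical
  have : Fintype (IrrCharacter G) := Fintype.ofFinite _
  rw [Fintype.linearIndependent_iff]
  intro a ha χ₀
  set φ : G → ℂ := ∑ χ : {χ : IrrCharacter G // ∑ b : B, (χ : G → ℂ) b ≠ 0}, a χ • ((χ : IrrCharacter G) : G → ℂ) with hφ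
  have hφc : IsClassFunction G φ := isClass_sum _ _ fun χ _ => isClass_smul _ _ (IsIrr.isClass χ.1.2)
  have hφc' : IsClassFunction G (fun g => conj (φ g)) := fun g x => by
    show conj (φ _) = conj (φ _)
    rw [hφc g x]
  have h1 : ∀ x, vv pos φ x = 0 := by
    intro x
    have h2 := congrFun ha x
    refine Eq.trans ?_ h2
    simp only [vv, hφ, Finset.sum_apply, Pi.smul_apply, smul_eq_mul, Finset.mul_sum]
    rw [Finset.sum_comm]
    apply Finset.sum_congr rfl
    intro χ _
    apply Finset.sum_congr rfl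
    intro g _
    ring
  choose rep hrep using h.surj
  have h2 : ∑ g, conj (φ g) * av B (χ₀ : G → ℂ) g = 0 := by
    have h3 : ∀ g, av B (χ₀ : G → ℂ) g = ∑ x, av B (χ₀ : G → ℂ) (rep x) * (dl (pos g) x : ℂ) := by
      intro g
      rw [sum_dlC]
      exact av_const h (IsIrr.isClass χ₀.1.2) (hrep _).symm
    rw [Finset.sum_congr rfl fun g _ => by rw [h3 g, Finset.mul_sum]]
    rw [Finset.sum_comm]
    apply Finset.sum_eq_zero
    intro x _
    have h4 := h1 x
    have h5 : ∑ g, conj (φ g) * (av B (χ₀ : G → ℂ) (rep x) * (dl (pos g) x : ℂ)) =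
        av B (χ₀ : G → ℂ) (rep x) * conj (vv pos φ x) := by
      unfold vv
      rw [map_sum, Finset.mul_sum]
      apply Finset.sum_congr rfl
      intro g _
      rw [map_mul]
      have : conj ((dl (pos g) x : ℤ) : ℂ) = ((dl (pos g) x : ℤ) : ℂ) := by simp
      rw [this]
      ring
    rw [h5, h4, map_zero, mul_zero]
  have h3 : ∑ g, conj (φ g) * av B (χ₀ : G → ℂ) g =
      (∑ g, conj (φ g) * (χ₀ : G → ℂ) g) / (χ₀ : G → ℂ) 1 * ∑ b : B, (χ₀ : G → ℂ) b := by
    unfold av
    rw [Finset.mul_sum]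
    simp only [Finset.mul_sum]
    rw [Finset.sum_comm]
    apply Finset.sum_congr rfl
    intro b _
    exact class_mul hφc' χ₀.1.2 b
  rw [h3] at h2
  have h4 := (mul_eq_zero.1 h2).resolve_right χ₀.2
  have h5 := (div_eq_zero_iff.1 h4).resolve_right (IsIrr.one_ne_zero χ₀.1.2)
  have h6 : classInner φ (χ₀ : G → ℂ) = a χ₀ := by
    rw [hφ, ci_sum_left]
    rw [Finset.sum_eq_single χ₀]
    · rw [ci_smul_left, ci_irr_self χ₀.1.2, mul_one]
    · intro χ _ hne
      rw [ci_smul_left, ci_irr_ne χ.1.2 χ₀.1.2, mul_zero]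
      intro he
      exact hne (Subtype.ext (Subtype.ext he))
    · intro h; exact absurd (Finset.mem_univ _) h
  rw [← h6]
  unfold classInner
  have h7 : ∑ g, φ g * conj ((χ₀ : G → ℂ) g) = conj (∑ g, conj (φ g) * (χ₀ : G → ℂ) g) := by
    rw [map_sum]
    apply Finset.sum_congr rfl
    intro g _
    rw [map_mul, Complex.conj_conj]
  rw [h7, h5, map_zero, mul_zero]

theorem rank_V (h : GD pos B c inv q) [Fintype (IrrCharacter G)] :
    (Matrix.of fun (x : I) (χ : IrrCharacter G) => vv pos (χ : G → ℂ) x).rank =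
      Nat.card {χ : IrrCharacter G // ∑ b : B, (χ : G → ℂ) b ≠ 0} := by
  classical
  rw [Matrix.rank_eq_finrank_span_cols]
  have h1 : Submodule.span ℂ (Set.range (Matrix.of fun (x : I) (χ : IrrCharacter G) => vv pos (χ : G → ℂ) x).col) =
      Submodule.span ℂ (Set.range (fun χ : {χ : IrrCharacter G // ∑ b : B, (χ : G → ℂ) b ≠ 0} => vv pos (χ : G → ℂ))) := by
    apply le_antisymm
    · rw [Submodule.span_le]
      rintro _ ⟨χ, rfl⟩
      by_cases hχ : ∑ b : B, (χ : G → ℂ) b = 0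
      · have : (Matrix.of fun (x : I) (χ : IrrCharacter G) => vv pos (χ : G → ℂ) x).col χ = 0 := by
          ext x
          exact vv_eq_zero h χ.2 hχ x
        rw [this]
        exact Submodule.zero_mem _
      · exact Submodule.subset_span ⟨⟨χ, hχ⟩, rfl⟩
    · apply Submodule.span_mono
      rintro _ ⟨χ, rfl⟩
      exact ⟨χ.1, rfl⟩
  rw [h1, finrank_span_eq_card (vv_li h), Nat.card_eq_fintype_card]

theorem conj_sum [Fintype (IrrCharacter G)] (x w : I) :
    ((∑ y, ∑ g, dl (pos g) x * dl (pos (y * g * y⁻¹)) w : ℤ) : ℂ) =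
      ∑ χ : IrrCharacter G, vv pos (χ : G → ℂ) x * conj (vv pos (χ : G → ℂ) w) := by
  classical
  rw [Finset.sum_comm]
  have h1 : ∀ g : G, (∑ y, (dl (pos (y * g * y⁻¹)) w : ℂ)) =
      ∑ s, (dl (pos s) w : ℂ) * ∑ χ : IrrCharacter G, (χ : G → ℂ) g * conj ((χ : G → ℂ) s) := by
    intro g
    rw [sum_conj (fun s => (dl (pos s) w : ℂ)) g, Finset.sum_filter, Finset.smul_sum]
    apply Finset.sum_congr rfl
    intro s _
    rw [orth2]
    split_ifs
    · rw [nsmul_eq_mul, mul_comm]
    · simp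
  push_cast
  simp only [← Finset.mul_sum]
  rw [Finset.sum_congr rfl fun g _ => by rw [h1 g]]
  simp only [vv, map_sum, map_mul, Finset.mul_sum, Finset.sum_mul]
  have h2 : ∀ g s : G, ∀ χ : IrrCharacter G,
      (dl (pos g) x : ℂ) * ((dl (pos s) w : ℂ) * ((χ : G → ℂ) g * conj ((χ : G → ℂ) s))) =
      (dl (pos g) x : ℂ) * (χ : G → ℂ) g * (conj (dl (pos s) w : ℂ) * conj ((χ : G → ℂ) s)) := by
    intro g s χ
    have : conj ((dl (pos s) w : ℤ) : ℂ) = ((dl (pos s) w : ℤ) : ℂ) := by simp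
    rw [this]
    ring
  calc _ = ∑ g, ∑ s, ∑ χ : IrrCharacter G, (dl (pos g) x : ℂ) * (χ : G → ℂ) g * (conj (dl (pos s) w : ℂ) * conj ((χ : G → ℂ) s)) := by
        apply Finset.sum_congr rfl
        intro g _
        apply Finset.sum_congr rfl
        intro s _
        apply Finset.sum_congr rfl
        intro χ _
        exact h2 g s χ
    _ = ∑ g, ∑ χ : IrrCharacter G, ∑ s, (dl (pos g) x : ℂ) * (χ : G → ℂ) g * (conj (dl (pos s) w : ℂ) * conj ((χ : G → ℂ) s)) := by
        apply Finset.sum_congr rfl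
        intro g _
        rw [Finset.sum_comm]
    _ = _ := by
        rw [Finset.sum_comm]
        apply Finset.sum_congr rfl
        intro χ _
        rw [Finset.sum_comm]

theorem GD.M_eq (h : GD pos B c inv q) (x w : I) :
    ((∑ y, ∑ g, dl (pos g) x * dl (pos (y * g * y⁻¹)) w : ℤ) : ℂ) =
      ((Nat.card B : ℂ) * Nat.card B * q w) * Cm c inv q w x := by
  have h1 : ∀ y, (1 : ℤ) = ∑ u, dl (pos y) u := by
    intro y
    have := sum_dl (fun _ => (1 : ℤ)) (pos y)
    simpa using this.symm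
  have h2 : (∑ y, ∑ g, dl (pos g) x * dl (pos (y * g * y⁻¹)) w : ℤ) =
      ∑ u, ∑ y, ∑ g, dl (pos y) u * (dl (pos g) x * dl (pos (y * g * y⁻¹)) w) := by
    rw [Finset.sum_comm (γ := I)]
    apply Finset.sum_congr rfl
    intro y _
    rw [Finset.sum_comm]
    apply Finset.sum_congr rfl
    intro g _
    rw [← Finset.sum_mul, ← h1 y, one_mul]
  rw [h2]
  push_cast
  have h3 : Cm c inv q w x = ∑ u, (q u : ℂ)⁻¹ * ∑ k, (c x (inv u) k : ℂ) * (c u k w : ℂ) := by
    unfold Cm
    rw [Matrix.sum_apply]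
    apply Finset.sum_congr rfl
    intro u _
    rw [Matrix.smul_apply, Matrix.mul_apply, smul_eq_mul]
    congr 1
    apply Finset.sum_congr rfl
    intro k _
    exact mul_comm _ _
  rw [h3, Finset.mul_sum]
  apply Finset.sum_congr rfl
  intro u _
  have h4 : (q u : ℂ) * ∑ y, ∑ g, (dl (pos y) u : ℂ) * ((dl (pos g) x : ℂ) * (dl (pos (y * g * y⁻¹)) w : ℂ)) =
      (Nat.card B : ℂ) * Nat.card B * q w * ∑ k, (c x (inv u) k : ℂ) * (c u k w : ℂ) := by
    exact_mod_cast h.conj_count u x w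
  have hu : (q u : ℂ) ≠ 0 := by exact_mod_cast (h.hd.q_pos u).ne'
  rw [← mul_right_inj' hu, h4]
  field_simp

theorem GD.rank_C (h : GD pos B c inv q) : (Cm c inv q).rank =
    Nat.card {χ : IrrCharacter G // ∃ φ : G → ℂ, IsCharacter G φ ∧ fixedPointCharacter B = (χ : G → ℂ) + φ} := by
  classical
  have : Fintype (IrrCharacter G) := Fintype.ofFinite _
  set V : Matrix I (IrrCharacter G) ℂ := Matrix.of fun (x : I) (χ : IrrCharacter G) => vv pos (χ : G → ℂ) x with hV
  have h1 : V * V.conjTranspose = (Cm c inv q).transpose * Matrix.diagonal (fun w => ((Nat.card B : ℂ) * Nat.card B * q w)) := by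
    ext x w
    rw [Matrix.mul_diagonal, Matrix.transpose_apply, mul_comm, ← h.M_eq, conj_sum, Matrix.mul_apply]
    rfl
  have h2 : IsUnit (Matrix.diagonal (fun w => ((Nat.card B : ℂ) * Nat.card B * q w))).det := by
    rw [Matrix.det_diagonal, isUnit_iff_ne_zero, Finset.prod_ne_zero_iff]
    intro w _
    have hB : (Nat.card B : ℂ) ≠ 0 := card_cast_ne_zero
    have hw : (q w : ℂ) ≠ 0 := by exact_mod_cast (h.hd.q_pos w).ne'
    exact mul_ne_zero (mul_ne_zero hB hB) hw
  have h3 : (Cm c inv q).rank = V.rank := by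
    rw [← Matrix.rank_transpose, ← Matrix.rank_mul_eq_left_of_isUnit_det _ _ h2, ← h1, Matrix.rank_self_mul_conjTranspose]
  rw [h3, rank_V h]
  apply Nat.card_congr
  apply Equiv.subtypeEquivRight
  intro χ
  exact (constituent_iff B χ.2).symm

end Rank

end Cfsg.Agent.H14.Hk
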