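import Cfsg.Agent.H14_HkC
import Cfsg.Agent.H14_HkA

/-!
# The generic Hecke algebra and groups with a BN-pair of parameter `q`
-/

set_option autoImplicit false
set_option linter.unusedSectionVars false

namespace Cfsg.Agent.H14.Hk

/-- length data on a Coxeter group -/
structure CD {W ι : Type*} [Group W] (σ : ι → W) (len : W → ℕ) : Prop where
  sq : ∀ i, σ i * σ i = 1
  len_one : len 1 = 0
  dich : ∀ i w, len (σ i * w) = len w + 1 ∨ len w = len (σ i * w) + 1
  desc : ∀ w, w ≠ 1 → ∃ i, len w = len (σ i * w) + 1

variable {W ι : Type*} [Group W] [Fintype W] [DecidableEq W] {σ : ι → W} {len : W → ℕ}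

theorem CD.cancel (C : CD σ len) (i : ι) (w : W) : σ i * (σ i * w) = w := by
  rw [← mul_assoc, C.sq, one_mul]

theorem CD.inv_σ (C : CD σ len) (i : ι) : (σ i)⁻¹ = σ i := inv_eq_of_mul_eq_one_left (C.sq i)

theorem CD.len_σ (C : CD σ len) (i : ι) : len (σ i) = 1 := by
  rcases C.dich i 1 with h | h
  · rw [mul_one, C.len_one] at h; exact h
  · rw [C.len_one] at h; omega

theorem CD.mul_ne (C : CD σ len) (i : ι) (w : W) : σ i * w ≠ w := by
  intro h
  rcases C.dich i w with h1 | h1 <;> rw [h] at h1 <;> omega

/-- reduced words -/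
inductive RW (σ : ι → W) (len : W → ℕ) : List ι → W → Prop
  | nil : RW σ len [] 1
  | cons (i : ι) (l : List ι) (w : W) : RW σ len l w → len (σ i * w) = len w + 1 → RW σ len (i :: l) (σ i * w)

theorem CD.exists_word (C : CD σ len) : ∀ (n : ℕ) (w : W), len w = n → ∃ l, RW σ len l w := by
  intro n
  induction n with
  | zero =>
    intro w hw
    by_cases h1 : w = 1
    · rw [h1]; exact ⟨_, RW.nil⟩
    · obtain ⟨i, hi⟩ := C.desc w h1
      omega
  | succ n ih =>
    intro w hw
    have h1 : w ≠ 1 := by
      rintro rfl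
      rw [C.len_one] at hw
      omega
    obtain ⟨i, hi⟩ := C.desc w h1
    obtain ⟨l, hl⟩ := ih (σ i * w) (by omega)
    have := RW.cons i l _ hl (by rw [C.cancel]; omega)
    rw [C.cancel] at this
    exact ⟨_, this⟩

variable (σ len) in
/-- left multiplication by a generator in the generic algebra -/
def Smat {R : Type*} [CommRing R] (x : R) (i : ι) : Matrix W W R :=
  Matrix.of fun w v => if v = σ i * w then (if len w < len (σ i * w) then x else 1)
    else if v = w then (if len w < len (σ i * w) then 0 else x - 1) else 0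

variable (σ len) in
def Lmat {R : Type*} [CommRing R] (x : R) (l : List ι) : Matrix W W R := (l.map (Smat σ len x)).prod

theorem Lmat_map {R S : Type*} [CommRing R] [CommRing S] (f : R →+* S) (x : R) (l : List ι) :
    (Lmat σ len x l).map f = Lmat σ len (f x) l := by
  have h0 : ∀ i, (Smat σ len x i).map f = Smat σ len (f x) i := by
    intro i
    ext w v
    simp only [Smat, Matrix.map_apply, Matrix.of_apply]
    split_ifs <;> simp
  induction l with
  | nil =>
    simp [Lmat]
  | cons i l ih =>
    have h1 : Lmat σ len x (i :: l) = Smat σ len x i * Lmat σ len x l := by simp [Lmat]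
    have h2 : Lmat σ len (f x) (i :: l) = Smat σ len (f x) i * Lmat σ len (f x) l := by simp [Lmat]
    rw [h1, h2, Matrix.map_mul, h0, ih]

/-- a group with a BN-pair of parameter `q` -/
structure BD {G : Type*} [Group G] [Fintype G] (pos : G → W) (B : Subgroup G)
    (σ : ι → W) (len : W → ℕ) (q : ℕ) : Prop where
  surj : Function.Surjective pos
  rel : ∀ g h, pos g = pos h ↔ ∃ b ∈ B, ∃ b' ∈ B, h = b * g * b'
  pos_one : pos 1 = 1
  inv_pos : ∀ g, pos g⁻¹ = (pos g)⁻¹
  q_pos : 0 < q
  card : ∀ w, ∑ y, dl (pos y) w = Nat.card B * (q : ℤ) ^ len w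
  step : ∀ i x g, pos x = σ i → pos (x * g) = σ i * pos g ∨ pos (x * g) = pos g
  up : ∀ i x g, pos x = σ i → len (pos g) < len (σ i * pos g) → pos (x * g) = σ i * pos g

variable {G : Type*} [Group G] [Fintype G] {pos : G → W} {B : Subgroup G} {q : ℕ}

theorem BD.mul_left (h : BD pos B σ len q) {b : G} (hb : b ∈ B) (g : G) : pos (b * g) = pos g :=
  ((h.rel g (b * g)).2 ⟨b, hb, 1, B.one_mem, by simp⟩).symm

theorem BD.mul_right (h : BD pos B σ len q) {b : G} (hb : b ∈ B) (g : G) : pos (g * b) = pos g :=
  ((h.rel g (g * b)).2 ⟨1, B.one_mem, b, hb, by simp⟩).symm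

theorem BD.const (h : BD pos B σ len q) (u v : W) {g g' : G} (hg : pos g = pos g') :
    ∑ y, dl (pos y) u * dl (pos (y⁻¹ * g)) v = ∑ y, dl (pos y) u * dl (pos (y⁻¹ * g')) v := by
  obtain ⟨b, hb, b', hb', rfl⟩ := (h.rel g g').1 hg
  rw [← Equiv.sum_comp (Equiv.mulLeft b) (fun y => dl (pos y) u * dl (pos (y⁻¹ * (b * g * b'))) v)]
  apply Finset.sum_congr rfl
  intro y _
  simp only [Equiv.coe_mulLeft]
  have h1 : (b * y)⁻¹ * (b * g * b') = y⁻¹ * g * b' := by group
  rw [h1, h.mul_right hb', h.mul_left hb]

theorem BD.card_pos (_h : BD pos B σ len q) : (0 : ℤ) < Nat.card B := by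
  have : 0 < Nat.card B := Nat.card_pos
  exact_mod_cast this

theorem BD.mem_iff (h : BD pos B σ len q) (g : G) : pos g = 1 ↔ g ∈ B := by
  rw [← h.pos_one]; exact one_iff h.rel g

theorem BD.pos_inv_σ (C : CD σ len) (h : BD pos B σ len q) {i : ι} {y : G} (hy : pos y = σ i) : pos y⁻¹ = σ i := by
  rw [h.inv_pos, hy, C.inv_σ]

/-- products with a simple double coset -/
theorem BD.simple (C : CD σ len) (h : BD pos B σ len q) (i : ι) (v : W) (g : G) :
    ∑ y, dl (pos y) (σ i) * dl (pos (y⁻¹ * g)) v = Nat.card B * Smat σ len (q : ℤ) i (pos g) v := by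
  have hB := h.card_pos
  have hs : ∑ y, dl (pos y) (σ i) = Nat.card B * (q : ℤ) := by
    rw [h.card, C.len_σ, pow_one]
  by_cases hup : len (pos g) < len (σ i * pos g)
  · have h1 : ∀ y, dl (pos y) (σ i) * dl (pos (y⁻¹ * g)) v = dl (pos y) (σ i) * dl (σ i * pos g) v := by
      intro y
      by_cases hy : pos y = σ i
      · rw [h.up i _ g (h.pos_inv_σ C hy) hup]
      · have : dl (pos y) (σ i) = 0 := if_neg hy
        rw [this, zero_mul, zero_mul]
    rw [Finset.sum_congr rfl fun y _ => h1 y, ← Finset.sum_mul, hs]
    simp only [Smat, Matrix.of_apply, if_pos hup]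
    unfold dl
    by_cases hv : v = σ i * pos g
    · rw [if_pos hv.symm, if_pos hv]; ring
    · rw [if_neg (fun h => hv h.symm), if_neg hv]
      simp
  · have hlen : len (pos g) = len (σ i * pos g) + 1 := by
      rcases C.dich i (pos g) with h1 | h1
      · omega
      · exact h1
    have hne := C.mul_ne i (pos g)
    -- the count for `v = s w`
    have h1 : ∑ y, dl (pos y) (σ i) * dl (pos (y⁻¹ * g)) (σ i * pos g) = Nat.card B := by
      have h2 : (∑ g', dl (pos g') (pos g)) * ∑ y, dl (pos y) (σ i) * dl (pos (y⁻¹ * g)) (σ i * pos g) =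
          ∑ g', ∑ y, dl (pos g') (pos g) * (dl (pos y) (σ i) * dl (pos (y⁻¹ * g')) (σ i * pos g)) := by
        rw [Finset.sum_mul]
        apply Finset.sum_congr rfl
        intro g' _
        by_cases hg : pos g' = pos g
        · rw [h.const _ _ hg.symm, Finset.mul_sum]
        · have : dl (pos g') (pos g) = 0 := if_neg hg
          simp only [this, zero_mul, Finset.sum_const_zero]
      have h3 : ∑ g', ∑ y, dl (pos g') (pos g) * (dl (pos y) (σ i) * dl (pos (y⁻¹ * g')) (σ i * pos g)) =
          (∑ y, dl (pos y) (σ i)) * ∑ z, dl (pos z) (σ i * pos g) := by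
        rw [Finset.sum_comm, Finset.sum_mul]
        apply Finset.sum_congr rfl
        intro y _
        rw [Finset.mul_sum, ← Equiv.sum_comp (Equiv.mulLeft y)]
        apply Finset.sum_congr rfl
        intro z _
        simp only [Equiv.coe_mulLeft, inv_mul_cancel_left]
        by_cases hy : pos y = σ i
        · by_cases hz : pos z = σ i * pos g
          · have h4 : pos (y * z) = pos g := by
              rw [h.up i y z hy, hz, C.cancel]
              rw [hz, C.cancel]
              omega
            rw [h4, dl_self, one_mul]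
          · have : dl (pos z) (σ i * pos g) = 0 := if_neg hz
            simp only [this, mul_zero]
        · have : dl (pos y) (σ i) = 0 := if_neg hy
          simp only [this, mul_zero, zero_mul]
      rw [h3, hs, h.card, h.card, hlen, pow_succ] at h2
      have hq : (0 : ℤ) < (q : ℤ) ^ len (σ i * pos g) * q := by
        have := h.q_pos
        positivity
      have h5 : (Nat.card B : ℤ) * ((q : ℤ) ^ len (σ i * pos g) * q) ≠ 0 := mul_ne_zero hB.ne' hq.ne'
      apply mul_left_cancel₀ h5
      rw [h2]
      ring
    by_cases hv : v = σ i * pos g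
    · rw [hv, h1]
      simp only [Smat, Matrix.of_apply, if_true, if_neg hup, mul_one]
    · by_cases hv2 : v = pos g
      · have h6 : ∀ y, dl (pos y) (σ i) * dl (pos (y⁻¹ * g)) (pos g) =
            dl (pos y) (σ i) - dl (pos y) (σ i) * dl (pos (y⁻¹ * g)) (σ i * pos g) := by
          intro y
          by_cases hy : pos y = σ i
          · rw [hy, dl_self, one_mul, one_mul]
            rcases h.step i _ g (h.pos_inv_σ C hy) with h7 | h7
            · rw [h7, dl_self]
              unfold dl
              rw [if_neg hne]; rfl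
            · rw [h7, dl_self]
              unfold dl
              rw [if_neg hne.symm]; rfl
          · have : dl (pos y) (σ i) = 0 := if_neg hy
            rw [this, zero_mul, zero_mul, sub_zero]
        rw [hv2, Finset.sum_congr rfl fun y _ => h6 y, Finset.sum_sub_distrib, hs, h1]
        simp only [Smat, Matrix.of_apply, if_neg hne.symm, if_true, if_neg hup]
        ring
      · simp only [Smat, Matrix.of_apply, if_neg hv, if_neg hv2, mul_zero]
        apply Finset.sum_eq_zero
        intro y _
        by_cases hy : pos y = σ i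
        · rcases h.step i _ g (h.pos_inv_σ C hy) with h7 | h7
          · have : dl (pos (y⁻¹ * g)) v = 0 := if_neg (by rw [h7]; exact fun h => hv h.symm)
            rw [this, mul_zero]
          · have : dl (pos (y⁻¹ * g)) v = 0 := if_neg (by rw [h7]; exact fun h => hv2 h.symm)
            rw [this, mul_zero]
        · have : dl (pos y) (σ i) = 0 := if_neg hy
          rw [this, zero_mul]

theorem BD.word (C : CD σ len) (h : BD pos B σ len q) {l : List ι} {u : W} (hl : RW σ len l u) (v : W) :
    ∀ g, ∑ y, dl (pos y) u * dl (pos (y⁻¹ * g)) v = Nat.card B * Lmat σ len (q : ℤ) l (pos g) v := by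
  have hB := h.card_pos
  induction hl with
  | nil =>
    intro g
    have h1 : ∀ y, dl (pos y) 1 * dl (pos (y⁻¹ * g)) v = dl (pos y) 1 * dl (pos g) v := by
      intro y
      by_cases hy : pos y = 1
      · rw [h.mul_left (B.inv_mem ((h.mem_iff y).1 hy))]
      · have : dl (pos y) 1 = 0 := if_neg hy
        rw [this, zero_mul, zero_mul]
    rw [Finset.sum_congr rfl fun y _ => h1 y, ← Finset.sum_mul, h.card, C.len_one, pow_zero, mul_one]
    simp only [Lmat, List.map_nil, List.prod_nil, Matrix.one_apply, dl]
  | cons i l u hl hlen ih =>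
    intro g
    have h1 : Lmat σ len (q : ℤ) (i :: l) = Smat σ len (q : ℤ) i * Lmat σ len (q : ℤ) l := by simp [Lmat]
    rw [h1, Matrix.mul_apply]
    apply mul_left_cancel₀ hB.ne'
    have h2 : ∀ y, (Nat.card B : ℤ) * dl (pos y) (σ i * u) = ∑ a, dl (pos a) (σ i) * dl (pos (a⁻¹ * y)) u := by
      intro y
      rw [h.simple C]
      congr 1
      simp only [Smat, Matrix.of_apply]
      unfold dl
      by_cases hy : pos y = σ i * u
      · rw [if_pos hy, if_pos (by rw [hy, C.cancel]), if_neg]
        rw [hy, C.cancel]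
        omega
      · rw [if_neg hy, if_neg]
        · by_cases hu : u = pos y
          · rw [if_pos hu, if_pos]
            rw [← hu]; omega
          · rw [if_neg hu]
        · intro hc
          apply hy
          rw [hc, C.cancel]
    calc (Nat.card B : ℤ) * ∑ y, dl (pos y) (σ i * u) * dl (pos (y⁻¹ * g)) v
        = ∑ y, ∑ a, dl (pos a) (σ i) * dl (pos (a⁻¹ * y)) u * dl (pos (y⁻¹ * g)) v := by
          rw [Finset.mul_sum]
          apply Finset.sum_congr rfl
          intro y _
          rw [← mul_assoc, h2, Finset.sum_mul]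
      _ = ∑ a, ∑ b, dl (pos a) (σ i) * (dl (pos b) u * dl (pos (b⁻¹ * (a⁻¹ * g))) v) := by
          rw [Finset.sum_comm]
          apply Finset.sum_congr rfl
          intro a _
          rw [← Equiv.sum_comp (Equiv.mulLeft a)]
          apply Finset.sum_congr rfl
          intro b _
          simp only [Equiv.coe_mulLeft, inv_mul_cancel_left]
          have : (a * b)⁻¹ * g = b⁻¹ * (a⁻¹ * g) := by group
          rw [this]
          ring
      _ = ∑ a, dl (pos a) (σ i) * (Nat.card B * ∑ k, Lmat σ len (q : ℤ) l k v * dl (pos (a⁻¹ * g)) k) := by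
          apply Finset.sum_congr rfl
          intro a _
          rw [← Finset.mul_sum, ih (a⁻¹ * g), sum_dl (fun k => Lmat σ len (q : ℤ) l k v)]
      _ = ∑ k, Nat.card B * (Lmat σ len (q : ℤ) l k v * ∑ a, dl (pos a) (σ i) * dl (pos (a⁻¹ * g)) k) := by
          simp only [Finset.mul_sum]
          rw [Finset.sum_comm]
          apply Finset.sum_congr rfl
          intro k _
          apply Finset.sum_congr rfl
          intro a _
          ring
      _ = _ := by
          rw [Finset.mul_sum, Finset.mul_sum]
          apply Finset.sum_congr rfl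
          intro k _
          rw [h.simple C]
          ring

/-- a choice of reduced words -/
noncomputable def CD.wd (C : CD σ len) (u : W) : List ι := (C.exists_word (len u) u rfl).choose

theorem CD.wd_spec (C : CD σ len) (u : W) : RW σ len (C.wd u) u := (C.exists_word (len u) u rfl).choose_spec

theorem BD.gd (C : CD σ len) (h : BD pos B σ len q) :
    GD pos B (fun u v w => Lmat σ len (q : ℤ) (C.wd u) w v) (fun u => u⁻¹) (fun u => (q : ℤ) ^ len u) where
  surj := h.surj
  rel := h.rel
  inv_pos := h.inv_pos
  cN u v g := h.word C (C.wd_spec u) v g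
  cq := h.card

end Cfsg.Agent.H14.Hk
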