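import Cfsg.Agent.H14_HkD
import Cfsg.Agent.H14_HkE

/-!
# Specialization of the generic Hecke algebra: constituents of `1_B^G` and classes of `W`
-/

set_option autoImplicit false
set_option linter.unusedSectionVars false

namespace Cfsg.Agent.H14.Hk
open Polynomial
open Cfsg Cfsg.Agent.H3.CharIrr Cfsg.Agent.H3.CharComplete Cfsg.Agent.H3.CharMult

variable {W ι : Type*} [Group W] [Fintype W] [DecidableEq W] {σ : ι → W} {len : W → ℕ}

noncomputable def CP (C : CD σ len) : Matrix W W ℂ[X] :=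
  ∑ u, (X : ℂ[X]) ^ (Finset.univ.sup len - len u) •
    (Lmat σ len X (C.wd u) * Matrix.of fun w x => Lmat σ len (X : ℂ[X]) (C.wd x) w u⁻¹)

noncomputable def KP (C : CD σ len) : Matrix (W × W) W ℂ[X] :=
  Matrix.of fun p w => Lmat σ len (X : ℂ[X]) (C.wd p.1) p.2 w - Lmat σ len (X : ℂ[X]) (C.wd w) p.2 p.1

theorem eval_L (s : ℂ) (l : List ι) (w v : W) : (Lmat σ len (X : ℂ[X]) l w v).eval s = Lmat σ len s l w v := by
  have := Lmat_map (σ := σ) (len := len) (Polynomial.evalRingHom s) (X : ℂ[X]) l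
  have h2 := congrFun (congrFun this w) v
  simpa using h2

theorem cast_L (q : ℕ) (l : List ι) (w v : W) : ((Lmat σ len (q : ℤ) l w v : ℤ) : ℂ) = Lmat σ len (q : ℂ) l w v := by
  have := Lmat_map (σ := σ) (len := len) (Int.castRingHom ℂ) (q : ℤ) l
  have h2 := congrFun (congrFun this w) v
  simpa using h2

variable {G : Type*} [Group G] [Fintype G] {pos : G → W} {B : Subgroup G} {q : ℕ}

theorem ev_CP (C : CD σ len) (q : ℕ) (hq : 0 < q) : ev (CP C) (q : ℂ) = ((q : ℂ) ^ (Finset.univ.sup len)) •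
    Cm (fun u v w => Lmat σ len (q : ℤ) (C.wd u) w v) (fun u => u⁻¹) (fun u => (q : ℤ) ^ len u) := by
  have hq' : (q : ℂ) ≠ 0 := by exact_mod_cast hq.ne'
  ext w x
  simp only [ev, CP, Cm, Matrix.map_apply, Matrix.sum_apply, Matrix.smul_apply, Matrix.mul_apply, smul_eq_mul,
    Polynomial.eval_finsetSum, Polynomial.eval_mul, Polynomial.eval_pow, Polynomial.eval_X, Matrix.of_apply, eval_L,
    Lm, Rm, cast_L]
  rw [Finset.mul_sum]
  apply Finset.sum_congr rfl
  intro u _
  rw [← mul_assoc]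
  congr 1
  have hle : len u ≤ Finset.univ.sup len := Finset.le_sup (Finset.mem_univ u)
  push_cast
  rw [pow_sub₀ _ hq' hle]

theorem ev_KP (C : CD σ len) (q : ℕ) : ev (KP C) (q : ℂ) =
    Km (fun u v w => Lmat σ len (q : ℤ) (C.wd u) w v) := by
  ext ⟨u, x⟩ w
  simp only [ev, KP, Km, Matrix.map_apply, Matrix.of_apply, Polynomial.eval_sub, eval_L, cast_L]

theorem rank_smul' {m n : Type*} [Fintype m] [Fintype n] [DecidableEq m] [DecidableEq n] (a : ℂ) (ha : a ≠ 0)
    (A : Matrix m n ℂ) : (a • A).rank = A.rank := by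
  have h1 : a • A = A * Matrix.diagonal (fun _ : n => a) := by
    ext i j
    rw [Matrix.mul_diagonal, Matrix.smul_apply, smul_eq_mul, mul_comm]
  rw [h1, Matrix.rank_mul_eq_left_of_isUnit_det]
  rw [Matrix.det_diagonal, isUnit_iff_ne_zero, Finset.prod_ne_zero_iff]
  intro _ _
  exact ha

theorem BD.rank_CP (C : CD σ len) (h : BD pos B σ len q) : (ev (CP C) (q : ℂ)).rank =
    Nat.card {χ : IrrCharacter G // ∃ φ : G → ℂ, IsCharacter G φ ∧ fixedPointCharacter B = (χ : G → ℂ) + φ} := by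
  classical
  have hq' : (q : ℂ) ≠ 0 := by exact_mod_cast h.q_pos.ne'
  rw [ev_CP C q h.q_pos, rank_smul' _ (pow_ne_zero _ hq')]
  exact (h.gd C).rank_C

theorem BD.rank_add (C : CD σ len) (h : BD pos B σ len q) :
    (ev (CP C) (q : ℂ)).rank + (ev (KP C) (q : ℂ)).rank = Fintype.card W := by
  have hq' : (q : ℂ) ≠ 0 := by exact_mod_cast h.q_pos.ne'
  rw [ev_CP C q h.q_pos, rank_smul' _ (pow_ne_zero _ hq'), ev_KP]
  exact (h.gd C).hd.rank_add

/-- the Weyl group itself, with parameter `1` -/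
theorem bd_one (C : CD σ len) : BD (id : W → W) (⊥ : Subgroup W) σ len 1 where
  surj := Function.surjective_id
  rel g h := by
    simp only [id, Subgroup.mem_bot, exists_eq_left, one_mul, mul_one]
    exact eq_comm
  pos_one := rfl
  inv_pos _ := rfl
  q_pos := one_pos
  card w := by
    simp [dl]
  step i x g hx := by
    left
    simp only [id] at hx ⊢
    rw [hx]
  up i x g hx _ := by
    simp only [id] at hx ⊢
    rw [hx]

theorem card_one (W : Type*) [Group W] [Fintype W] : Nat.card {χ : IrrCharacter W // ∃ φ : W → ℂ, IsCharacter W φ ∧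
      fixedPointCharacter (⊥ : Subgroup W) = (χ : W → ℂ) + φ} = Nat.card (ConjClasses W) := by
  classical
  rw [← card_irr (G := W)]
  apply Nat.card_congr
  apply Equiv.subtypeUnivEquiv
  intro χ
  rw [constituent_iff _ χ.2]
  have h1 : ∑ b : (⊥ : Subgroup W), (χ : W → ℂ) b = (χ : W → ℂ) 1 := by
    rw [Fintype.sum_eq_single (1 : (⊥ : Subgroup W))]
    · rfl
    · intro b hb
      exact absurd (Subsingleton.elim _ _) hb
  rw [h1]
  exact IsIrr.one_ne_zero χ.2

theorem main (C : CD σ len) (hinf : {q : ℕ | ∃ (G : Type) (_ : Group G) (_ : Fintype G) (pos : G → W)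
      (B : Subgroup G), BD pos B σ len q}.Infinite) (h : BD pos B σ len q) :
    Nat.card {χ : IrrCharacter G // ∃ φ : G → ℂ, IsCharacter G φ ∧ fixedPointCharacter B = (χ : G → ℂ) + φ} =
      Nat.card (ConjClasses W) := by
  rw [← card_one W, ← h.rank_CP C, ← (bd_one C).rank_CP C]
  apply family (CP C) (KP C) (Fintype.card W) {s | (ev (CP C) s).rank + (ev (KP C) s).rank = Fintype.card W} ?_
    (fun s hs => hs)
  · exact h.rank_add C
  · exact (bd_one C).rank_add C
  · refine (hinf.image (f := fun q : ℕ => (q : ℂ)) (Nat.cast_injective.injOn)).mono ?_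
    rintro _ ⟨q, ⟨G, _, _, pos, B, hG⟩, rfl⟩
    exact hG.rank_add C

end Cfsg.Agent.H14.Hk
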