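import Cfsg.Agent.H14_HkF
import Cfsg.Agent.H14_StB
import Cfsg.Agent.H6_ChevCox
import Cfsg.Agent.H6_ChevCard

/-!
# Principal series constituents of Chevalley groups
-/

set_option autoImplicit false
set_option linter.unusedSectionVars false

namespace Cfsg.Agent.H14.Chev

open Cfsg Cfsg.Lie Cfsg.Lie.ChevalleyDatum Cfsg.Agent.H6 Cfsg.Agent.H6.Chev Cfsg.Agent.H6.Chev.Model
open Cfsg.Agent.H14.Hk
open scoped Matrix

variable {D : ChevalleyDatum} {F : Type*} [Field F] (m : Model D)

theorem cdW : CD m.σ (Cox.len m.σ) where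
  sq := m.invGen.sq
  len_one := Cox.len_one
  dich i w := by
    have h1 := m.invGen.len_simple_mul_le i w
    have h2 := m.invGen.le_len_simple_mul i w
    have h3 : Cox.len m.σ (m.σ i * w) ≠ Cox.len m.σ w := by
      have := m.len_mul_ne w⁻¹ i
      rw [← m.invGen.len_inv (w⁻¹ * m.σ i), m.invGen.len_inv w, mul_inv_rev, _root_.inv_inv, m.invGen.inv] at this
      exact this
    omega
  desc w hw := by
    obtain ⟨i, hi⟩ := m.invGen.exists_cons hw
    exact ⟨i, hi.symm⟩

noncomputable def posW (g : ↥(D.group F)) : ↥m.Wg := ⟨pos m g, pos_mem m g⟩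

theorem WJ_single {i : Fin D.rank} {a : Equiv.Perm (Fin D.nroots)} (ha : a ∈ m.WJ {(i : ℕ)}) : a = 1 ∨ a = m.sr i := by
  refine Subgroup.closure_induction (p := fun a _ => a = 1 ∨ a = m.sr i) ?_ ?_ ?_ ?_ ha
  · rintro _ ⟨j, hj, rfl⟩
    right
    have : j = i := Fin.ext hj
    rw [this]
  · left; rfl
  · rintro x y _ _ (rfl | rfl) (rfl | rfl)
    · left; simp
    · right; simp
    · right; simp
    · left; exact m.sr_mul_self i
  · rintro x _ (rfl | rfl)
    · left; simp
    · right; exact m.sr_inv i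

theorem mem_of_pos {i : Fin D.rank} {x : ↥(D.group F)} (hx : posW m x = m.σ i) :
    (x : GL D.Idx F) ∈ D.parabolicSubgroup F ({(i : ℕ)} : Set ℕ) := by
  rw [mem_parabolic_iff m]
  have : pos m x = m.sr i := congrArg Subtype.val hx
  rw [this]
  exact m.sr_mem_WJ rfl

theorem posW_surj : Function.Surjective (posW m (F := F)) := by
  rintro ⟨w, hw⟩
  obtain ⟨n, hn, hact⟩ := m.exists_acts (F := F) hw
  refine ⟨⟨n, m.N_le_G hn⟩, Subtype.ext ?_⟩
  exact pos_eq m (one_mem _) hn (one_mem _) hact (by group)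

theorem card_fiber [Fintype F] (w : ↥m.Wg) : Nat.card {y : ↥(D.group F) // posW m y = w} =
    Nat.card (BG D F) * Fintype.card F ^ Cox.len m.σ w := by
  obtain ⟨w, hw⟩ := w
  obtain ⟨n, hn, hact⟩ := m.exists_acts (F := F) hw
  have hcB : Nat.card (BG D F) = Nat.card (D.borelSubgroup F) :=
    Nat.card_congr (Subgroup.subgroupOfEquivOfLe m.B_le_G).toEquiv
  rw [m.len_eq_card_inv, ← m.card_Uw (F := F) (m.isW hw), hcB, ← Nat.card_prod]
  symm
  refine Nat.card_congr (Equiv.ofBijective
    (fun x : (D.borelSubgroup F) × (m.Uw F w) => (⟨⟨x.1.1 * n * x.2.1, mul_mem (mul_mem (m.B_le_G x.1.2) (m.N_le_G hn))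
        (m.B_le_G (U_le_B (m.Uw_le_U _ x.2.2)))⟩, Subtype.ext (pos_eq m x.1.2 hn (U_le_B (m.Uw_le_U _ x.2.2)) hact rfl)⟩ :
        {y : ↥(D.group F) // posW m y = ⟨w, hw⟩})) ⟨?_, ?_⟩)
  · rintro ⟨b, u⟩ ⟨b', u'⟩ he
    have he' : b.1 * n * u.1 = b'.1 * n * u'.1 := congrArg (fun z => ((z.1 : ↥(D.group F)) : GL D.Idx F)) he
    obtain ⟨e1, e2⟩ := m.bruhat_unique b.2 b'.2 hact u.2 u'.2 he'
    rw [Subtype.ext e1, Subtype.ext e2]
  · rintro ⟨⟨g, hg⟩, hpos⟩
    obtain ⟨b, hb, n', hn', w', hw', ha, u, hu, he⟩ := m.exists_bruhat' hg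
    have h1 : w' = w := by
      have h2 := pos_eq m (g := ⟨g, hg⟩) hb hn' (U_le_B (m.Uw_le_U _ hu)) ha he
      rw [← h2]
      exact congrArg Subtype.val hpos
    subst h1
    have h2 : n' * n⁻¹ ∈ D.diagonalSubgroup F := by
      apply m.mem_H_of_acts_one (mul_mem hn' (inv_mem hn))
      have := ha.mul (m.acts_inv hn hact)
      rwa [mul_inv_cancel] at this
    refine ⟨⟨⟨b * (n' * n⁻¹), mul_mem hb (H_le_B h2)⟩, ⟨u, hu⟩⟩, ?_⟩
    apply Subtype.ext
    apply Subtype.ext
    show b * (n' * n⁻¹) * n * u = g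
    rw [he]
    group

open scoped Classical in
theorem bdW [Fintype F] [Fintype ↥(D.group F)] : BD (posW m (F := F)) (BG D F) m.σ (Cox.len m.σ) (Fintype.card F) where
  surj := posW_surj m
  rel g h := by
    constructor
    · intro he
      have he' : pos m g = pos m h := congrArg Subtype.val he
      obtain ⟨b, hb, n, hn, b', hb', hact, hg⟩ := pos_spec m g
      obtain ⟨c, hc, n', hn', c', hc', hact', hh⟩ := pos_spec m h
      rw [← he'] at hact'
      have h2 : n' * n⁻¹ ∈ D.diagonalSubgroup F := by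
        apply m.mem_H_of_acts_one (mul_mem hn' (inv_mem hn))
        have := hact'.mul (m.acts_inv hn hact)
        rwa [mul_inv_cancel] at this
      have hb1 : c * (n' * n⁻¹) * b⁻¹ ∈ D.borelSubgroup F := mul_mem (mul_mem hc (H_le_B h2)) (inv_mem hb)
      have hb2 : b'⁻¹ * c' ∈ D.borelSubgroup F := mul_mem (inv_mem hb') hc'
      refine ⟨⟨_, m.B_le_G hb1⟩, hb1, ⟨_, m.B_le_G hb2⟩, hb2, ?_⟩
      apply Subtype.ext
      show (h : GL D.Idx F) = c * (n' * n⁻¹) * b⁻¹ * g * (b'⁻¹ * c')
      rw [hh, hg]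
      group
    · rintro ⟨b, hb, b', hb', rfl⟩
      apply Subtype.ext
      show pos m g = pos m (b * g * b')
      rw [pos_mul_right m hb', pos_mul_left m hb]
  pos_one := Subtype.ext ((pos_one_iff m).2 (one_mem _))
  inv_pos g := Subtype.ext (pos_inv m g)
  q_pos := Fintype.card_pos
  card w := by
    have h1 := card_fiber m (F := F) w
    have h2 : ∑ y, dl (posW m (F := F) y) w = (Nat.card {y : ↥(D.group F) // posW m y = w} : ℤ) := by
      simp only [dl]
      rw [Finset.sum_boole, Nat.card_eq_fintype_card, ← Fintype.card_subtype]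
    rw [h2, h1]
    push_cast
    rfl
  step i x g hx := by
    obtain ⟨a, ha, h1⟩ := pos_parabolic_mul m (mem_of_pos m hx) g
    rcases WJ_single m ha with rfl | rfl
    · right
      apply Subtype.ext
      show pos m (x * g) = pos m g
      rw [h1, one_mul]
    · left
      apply Subtype.ext
      exact h1
  up i x g hx hlen := by
    have h1 := (m.len_left_lt_iff (posW m g) i).not.1 (by omega)
    rw [not_lt] at h1
    have h2 : ∀ j : Fin D.rank, (j : ℕ) ∈ ({(i : ℕ)} : Set ℕ) → m.N ≤ pos m g⁻¹ (m.p j) := by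
      intro j hj
      have : j = i := Fin.ext hj
      rw [this, pos_inv]
      exact h1
    have h3 := pos_mul_parabolic m h2 (x := x⁻¹) (by
      rw [Subgroup.coe_inv]
      exact inv_mem (mem_of_pos m hx))
    rw [← mul_inv_rev, pos_inv, pos_inv, pos_inv, ← mul_inv_rev, inv_inj] at h3
    have hx' : pos m x = m.sr i := congrArg Subtype.val hx
    apply Subtype.ext
    show pos m (x * g) = m.sr i * pos m g
    rw [h3, hx']

theorem s2319 [Fintype F] [Fintype ↥(D.group F)] (M : CoxeterMatrix (Fin D.rank)) (hM : ∀ i j, orderOf (m.wl [i, j]) = M i j) :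
    Nat.card {χ : Cfsg.IrrCharacter ↥(D.group F) // ∃ φ : ↥(D.group F) → ℂ, Cfsg.IsCharacter ↥(D.group F) φ ∧
        Cfsg.fixedPointCharacter ((D.borelSubgroup F).subgroupOf (D.group F)) = (χ : ↥(D.group F) → ℂ) + φ} =
      Nat.card (ConjClasses M.Group) := by
  classical
  obtain ⟨e, -⟩ := m.exists_cox M hM
  have h1 : Nat.card (ConjClasses M.Group) = Nat.card (ConjClasses ↥m.Wg) := by
    apply Nat.card_congr
    exact {
      toFun := ConjClasses.map e.symm.toMonoidHom
      invFun := ConjClasses.map e.toMonoidHom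
      left_inv := by
        intro c
        obtain ⟨x, rfl⟩ := ConjClasses.exists_rep c
        show ConjClasses.mk (e (e.symm x)) = _
        rw [e.apply_symm_apply]
      right_inv := by
        intro c
        obtain ⟨x, rfl⟩ := ConjClasses.exists_rep c
        show ConjClasses.mk (e.symm (e x)) = _
        rw [e.symm_apply_apply] }
  rw [h1]
  have : Fintype ↥(BG D F) := Fintype.ofFinite _
  refine Cfsg.Agent.H14.Hk.main (cdW m) ?_ (bdW m)
  have hp : {p : ℕ | p.Prime}.Infinite := Nat.infinite_setOfPred_prime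
  refine hp.mono ?_
  intro p hp
  have hpf : Fact p.Prime := ⟨hp⟩
  have h3 : Finite (GL D.Idx (ZMod p)) := inferInstance
  have : Fintype ↥(D.group (ZMod p)) := Fintype.ofFinite _
  refine ⟨↥(D.group (ZMod p)), inferInstance, this, posW m, BG D (ZMod p), ?_⟩
  have := bdW m (F := ZMod p)
  rwa [ZMod.card] at this

end Cfsg.Agent.H14.Chev
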