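import Mathlib
import Cfsg.Agent.H14_M24Out

set_option autoImplicit false

/-!
The Mathieu groups are perfect.
-/

namespace Cfsg.Agent.H14.M24Perf

open Cfsg Cfsg.Agent.H7.Golay Cfsg.Agent.H7.Oct Cfsg.Agent.H7.M24 Cfsg.Agent.H14.M24Eng Cfsg.Agent.H14.M24Gen
open Cfsg.Agent.H14.M24Out
open scoped Pointwise

theorem perfect_of {P : Type*} [Group P] {M : Subgroup P}
    (h : ∀ K : Subgroup P, K ≤ M → (∀ x : M, Abelianization.of x = 1 → (x : P) ∈ K) → K = M) :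
    commutator M = ⊤ := by
  have h1 := h ((commutator M).map M.subtype) (by rintro _ ⟨x, _, rfl⟩; exact x.2) (fun x hx => ?_)
  · rw [eq_top_iff]
    intro x _
    have h2 : (x : P) ∈ (commutator M).map M.subtype := by rw [h1]; exact x.2
    obtain ⟨y, hy, hyx⟩ := h2
    have : y = x := Subtype.ext hyx
    rwa [← this]
  · refine ⟨x, ?_, rfl⟩
    have : x ∈ (Abelianization.of : M →* Abelianization M).ker := hx
    rwa [Abelianization.ker_of] at this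

theorem eq_one_of_pows {A : Type*} [Group A] (x : A) (m n : ℕ) (h : Nat.Coprime m n) (hm : x ^ m = 1) (hn : x ^ n = 1) :
    x = 1 := by
  have h1 : orderOf x ∣ m := orderOf_dvd_of_pow_eq_one hm
  have h2 : orderOf x ∣ n := orderOf_dvd_of_pow_eq_one hn
  have h3 := Nat.dvd_gcd h1 h2
  rw [Nat.Coprime] at h
  rw [h, Nat.dvd_one, orderOf_eq_one_iff] at h3
  exact h3

variable {A : Type*} [CommGroup A] {M : Subgroup (Equiv.Perm GolayPt)} (f : M →* A)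

/-- `b a = a ^ (k+1) b` kills `a ^ k` -/
theorem kill {a b : M} {k n : ℕ} (h : b * a = a ^ (k + 1) * b) (hn : a ^ n = 1) (hk : Nat.Coprime k n) : f a = 1 := by
  apply eq_one_of_pows (f a) k n hk
  · have h1 := congrArg f h
    rw [map_mul, map_mul, map_pow, mul_comm] at h1
    have h2 := mul_right_cancel h1
    rw [pow_succ] at h2
    have h3 : 1 * f a = f a ^ k * f a := by rw [one_mul]; exact h2
    exact (mul_right_cancel h3).symm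
  · rw [← map_pow, hn, map_one]

theorem pow_T : eT ^ 11 = 1 := eq_of_reps (rep_powl rep_T 11) rep_one (by decide +kernel)
theorem pow_V : eV ^ 5 = 1 := eq_of_reps (rep_powl rep_V 5) rep_one (by decide +kernel)
theorem pow_S : eS ^ 23 = 1 := eq_of_reps (rep_powl rep_S 23) rep_one (by decide +kernel)
theorem pow_U : eU ^ 4 = 1 := eq_of_reps (rep_powl rep_U 4) rep_one (by decide +kernel)
theorem pow_X : eX ^ 4 = 1 := eq_of_reps (rep_powl rep_X 4) rep_one (by decide +kernel)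
theorem pow_Z : eZ ^ 2 = 1 := eq_of_reps (rep_powl rep_Z 2) rep_one (by decide +kernel)
theorem pow_W : eW ^ 2 = 1 := eq_of_reps (rep_powl rep_W 2) rep_one (by decide +kernel)
theorem pow_WS : (eW * eS) ^ 3 = 1 := eq_of_reps (rep_powl (rep_mul rep_W rep_S) 3) rep_one (by decide +kernel)
theorem pow_TZ : (eT * eZ) ^ 11 = 1 := eq_of_reps (rep_powl (rep_mul rep_T rep_Z) 11) rep_one (by decide +kernel)

theorem f_T (hT : eT ∈ M) (hV : eV ∈ M) : f ⟨eT, hT⟩ = 1 :=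
  kill f (a := ⟨eT, hT⟩) (b := ⟨eV, hV⟩) (k := 2) (n := 11) (Subtype.ext rel_VT) (Subtype.ext pow_T) (by norm_num)

theorem f_V (hV : eV ∈ M) (hU : eU ∈ M) : f ⟨eV, hV⟩ = 1 :=
  kill f (a := ⟨eV, hV⟩) (b := ⟨eU, hU⟩) (k := 1) (n := 5) (Subtype.ext rel_UV) (Subtype.ext pow_V) (by norm_num)

theorem f_V' (hV : eV ∈ M) (hX : eX ∈ M) : f ⟨eV, hV⟩ = 1 :=
  kill f (a := ⟨eV, hV⟩) (b := ⟨eX, hX⟩) (k := 1) (n := 5) (Subtype.ext rel_XV) (Subtype.ext pow_V) (by norm_num)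

theorem f_S (hS : eS ∈ M) (hT : eT ∈ M) : f ⟨eS, hS⟩ = 1 :=
  kill f (a := ⟨eS, hS⟩) (b := ⟨eT, hT⟩) (k := 1) (n := 23) (Subtype.ext rel_TS) (Subtype.ext pow_S) (by norm_num)

theorem f_U (hT : eT ∈ M) (hV : eV ∈ M) (hU : eU ∈ M) : f ⟨eU, hU⟩ = 1 := by
  apply eq_one_of_pows _ 5 4 (by norm_num)
  · have h1 : ((⟨eT, hT⟩ : M) * ⟨eU, hU⟩ * ⟨eV, hV⟩) ^ 5 = 1 := Subtype.ext rel_TUV
    have h2 := congrArg f h1
    rw [map_pow, map_mul, map_mul, f_T f hT hV, f_V f hV hU, one_mul, mul_one, map_one] at h2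
    exact h2
  · have h1 : (⟨eU, hU⟩ : M) ^ 4 = 1 := Subtype.ext pow_U
    rw [← map_pow, h1, map_one]

theorem f_X (hT : eT ∈ M) (hV : eV ∈ M) (hX : eX ∈ M) : f ⟨eX, hX⟩ = 1 := by
  apply eq_one_of_pows _ 11 4 (by norm_num)
  · have h1 : ((⟨eT, hT⟩ : M) * ⟨eX, hX⟩) ^ 11 = 1 := Subtype.ext rel_TX
    have h2 := congrArg f h1
    rw [map_pow, map_mul, f_T f hT hV, one_mul, map_one] at h2
    exact h2
  · have h1 : (⟨eX, hX⟩ : M) ^ 4 = 1 := Subtype.ext pow_X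
    rw [← map_pow, h1, map_one]

theorem f_Z (hT : eT ∈ M) (hV : eV ∈ M) (hZ : eZ ∈ M) : f ⟨eZ, hZ⟩ = 1 := by
  apply eq_one_of_pows _ 11 2 (by norm_num)
  · have h1 : ((⟨eT, hT⟩ : M) * ⟨eZ, hZ⟩) ^ 11 = 1 := Subtype.ext pow_TZ
    have h2 := congrArg f h1
    rw [map_pow, map_mul, f_T f hT hV, one_mul, map_one] at h2
    exact h2
  · have h1 : (⟨eZ, hZ⟩ : M) ^ 2 = 1 := Subtype.ext pow_Z
    rw [← map_pow, h1, map_one]

theorem f_W (hS : eS ∈ M) (hT : eT ∈ M) (hW : eW ∈ M) : f ⟨eW, hW⟩ = 1 := by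
  apply eq_one_of_pows _ 3 2 (by norm_num)
  · have h1 : ((⟨eW, hW⟩ : M) * ⟨eS, hS⟩) ^ 3 = 1 := Subtype.ext pow_WS
    have h2 := congrArg f h1
    rw [map_pow, map_mul, f_S f hS hT, mul_one, map_one] at h2
    exact h2
  · have h1 : (⟨eW, hW⟩ : M) ^ 2 = 1 := Subtype.ext pow_W
    rw [← map_pow, h1, map_one]

theorem X_mem23 : eX ∈ Spor.M23 := (mem_M22.1 X_mem22).1

theorem perfect_M11 : commutator Spor.M11 = ⊤ := perfect_of fun _ hK h =>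
  eq_M11 hK (h ⟨eT, T_mem11⟩ (f_T _ T_mem11 V_mem11)) (h ⟨eV, V_mem11⟩ (f_V _ V_mem11 U_mem11))
    (h ⟨eU, U_mem11⟩ (f_U _ T_mem11 V_mem11 U_mem11))

theorem perfect_M12 : commutator Spor.M12 = ⊤ := perfect_of fun _ hK h =>
  eq_M12 hK (h ⟨eT, T_mem12⟩ (f_T _ T_mem12 V_mem12)) (h ⟨eV, V_mem12⟩ (f_V _ V_mem12 U_mem12))
    (h ⟨eU, U_mem12⟩ (f_U _ T_mem12 V_mem12 U_mem12)) (h ⟨eZ, Z_mem12⟩ (f_Z _ T_mem12 V_mem12 Z_mem12))

theorem perfect_M22 : commutator Spor.M22 = ⊤ := perfect_of fun _ hK h =>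
  eq_M22 hK (h ⟨eT, T_mem22⟩ (f_T _ T_mem22 V_mem22)) (h ⟨eV, V_mem22⟩ (f_V' _ V_mem22 X_mem22))
    (h ⟨eX, X_mem22⟩ (f_X _ T_mem22 V_mem22 X_mem22))

theorem perfect_M23 : commutator Spor.M23 = ⊤ := perfect_of fun _ hK h =>
  eq_M23 hK (h ⟨eS, S_mem23⟩ (f_S _ S_mem23 T_mem23)) (h ⟨eT, T_mem23⟩ (f_T _ T_mem23 V_mem23))
    (h ⟨eV, V_mem23⟩ (f_V' _ V_mem23 X_mem23))

theorem perfect_M24 : commutator M24 = ⊤ := perfect_of fun _ hK h =>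
  eq_M24 hK (h ⟨eS, mem_S⟩ (f_S _ mem_S mem_T)) (h ⟨eT, mem_T⟩ (f_T _ mem_T mem_V))
    (h ⟨eV, mem_V⟩ (f_V _ mem_V mem_U)) (h ⟨eW, mem_W⟩ (f_W _ mem_S mem_T mem_W))

end Cfsg.Agent.H14.M24Perf
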