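import Mathlib
import Cfsg.Agent.H14_PmD
import Cfsg.Agent.H5_Exc4
import Cfsg.Agent.S0248

set_option autoImplicit false
set_option linter.all false

/-!
Schur multipliers of `PSL_n(q)`.
-/

namespace Cfsg.Agent.H14.Pm

open Subgroup Cfsg Cfsg.Agent.H14.Schur Cfsg.Agent.H14.Yk
open scoped Pointwise commutatorElement

universe u v w

theorem center_cyclic {F : Type u} [Field F] [Fintype F] {n : ℕ} (hn : 1 ≤ n) :
    Nonempty (Subgroup.center (Matrix.SpecialLinearGroup (Fin n) F) ≃* Multiplicative (ZMod (Nat.gcd n (Fintype.card F - 1)))) := by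
  haveI : NeZero n := ⟨by omega⟩
  have e := Matrix.SpecialLinearGroup.center_equiv_rootsOfUnity' (R := F) (0 : Fin n)
  have hc : IsCyclic (Subgroup.center (Matrix.SpecialLinearGroup (Fin n) F)) :=
    isCyclic_of_injective e.toMonoidHom e.injective
  have h1 := zmodCyclicMulEquiv hc
  rw [Cfsg.Agent.H5.GL.card_center_SL rfl n hn] at h1
  exact ⟨h1.symm⟩

theorem s2086 {F : Type u} [Field F] [Fintype F] {q : ℕ} (hF : Fintype.card F = q) (n : ℕ) (hn : 2 ≤ n) (h2 : n = 2 → 4 ≤ q)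
    (hexc : (n, q) ∉ ({(2, 4), (2, 9), (3, 2), (3, 4), (4, 2)} : Set (ℕ × ℕ))) :
    Cfsg.HasCyclicSchurMultiplier (Matrix.ProjectiveSpecialLinearGroup (Fin n) F) (Nat.gcd n (q - 1)) := by
  subst hF
  simp only [Set.mem_insert_iff, Set.mem_singleton_iff, Prod.mk.injEq, not_or] at hexc
  obtain ⟨x1, x2, x3, x4, x5⟩ := hexc
  obtain ⟨e⟩ := center_cyclic (F := F) (n := n) (by omega)
  have main : commutator (Matrix.SpecialLinearGroup (Fin n) F) = ⊤ ∧ HasCyclicSchurMultiplier (Matrix.SpecialLinearGroup (Fin n) F) 1 := by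
    by_cases hn3 : 3 ≤ n
    · exact ⟨Cfsg.Agent.S0248.result n hn3, mult_SLn hn3 x3 x4 x5⟩
    · have hn2 : n = 2 := by omega
      subst hn2
      have h4 := h2 rfl
      exact ⟨Cfsg.Agent.H5.Exc.perfect_SL2 h4, mult_SL2 (fun h => x1 ⟨rfl, h⟩) (fun h => x2 ⟨rfl, h⟩)⟩
  refine mult_of_cover (QuotientGroup.mk' (Subgroup.center (Matrix.SpecialLinearGroup (Fin n) F))) (QuotientGroup.mk'_surjective _) ?_ main.1 main.2 ?_
  · rw [QuotientGroup.ker_mk']
  · rw [QuotientGroup.ker_mk']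
    exact e

end Cfsg.Agent.H14.Pm
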