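import Mathlib

set_option autoImplicit false
set_option linter.all false

/-!
A counting argument for actions of abelian groups.
-/

namespace Cfsg.Agent.H14.Px

open MulAction Finset

section count

variable {V Ω : Type*} [CommGroup V] [Fintype V] [Fintype Ω] [MulAction V Ω]

open Classical in
/-- number of fixed points -/
noncomputable def fx (Ω : Type*) [Fintype Ω] [MulAction V Ω] (v : V) : ℕ := (univ.filter (fun ω : Ω => v • ω = ω)).card

open Classical in
/-- order of the stabiliser -/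
noncomputable def st (V : Type*) [CommGroup V] [Fintype V] [MulAction V Ω] (ω : Ω) : ℕ := (univ.filter (fun v : V => v • ω = ω)).card

open Classical in
noncomputable def st2 (V : Type*) [CommGroup V] [Fintype V] [MulAction V Ω] (ω ω' : Ω) : ℕ := (univ.filter (fun v : V => v • ω = ω ∧ v • ω' = ω')).card

theorem sum_st : ∑ ω : Ω, st V ω = ∑ v : V, fx Ω v := by
  simp only [st, fx, card_filter]
  exact sum_comm

theorem sum_st2 : ∑ ω : Ω, ∑ ω' : Ω, st2 V ω ω' = ∑ v : V, (fx Ω v) ^ 2 := by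
  classical
  simp only [st2, fx, card_filter]
  have h1 : ∀ ω : Ω, ∑ ω' : Ω, ∑ v : V, (if v • ω = ω ∧ v • ω' = ω' then 1 else 0) = ∑ v : V, ∑ ω' : Ω, (if v • ω = ω ∧ v • ω' = ω' then 1 else 0) :=
    fun ω => sum_comm
  simp only [h1]
  rw [sum_comm]
  refine sum_congr rfl fun v _ => ?_
  rw [pow_two, sum_mul_sum]
  refine sum_congr rfl fun ω _ => sum_congr rfl fun ω' _ => ?_
  by_cases h1 : v • ω = ω <;> by_cases h2 : v • ω' = ω' <;> simp [h1, h2]

theorem burn : Fintype.card V ∣ ∑ v : V, fx Ω v := by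
  classical
  have h := MulAction.sum_card_fixedBy_eq_card_orbits_mul_card_group V Ω
  have e : ∀ v : V, fx Ω v = Fintype.card (fixedBy Ω v) := by
    intro v
    unfold fx
    rw [Fintype.card_subtype]
    congr 1
  rw [sum_congr rfl (fun v _ => e v), h]
  exact Dvd.intro_left _ rfl

theorem st_eq (ω : Ω) : st V ω = Nat.card (stabilizer V ω) := by
  classical
  unfold st
  rw [Nat.card_eq_fintype_card, Fintype.card_subtype]
  congr 1

theorem st2_eq (ω ω' : Ω) : st2 V ω ω' = Nat.card (stabilizer V ω ⊓ stabilizer V ω' : Subgroup V) := by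
  classical
  unfold st2
  rw [Nat.card_eq_fintype_card, Fintype.card_subtype]
  congr 1
  ext v
  simp [Subgroup.mem_inf, mem_stabilizer_iff]

open Classical in
theorem orb (ω : Ω) : (univ.filter (fun ω' : Ω => ω' ∈ orbit V ω)).card * st V ω = Fintype.card V := by
  rw [st_eq, Nat.card_eq_fintype_card, ← MulAction.card_orbit_mul_card_stabilizer_eq_card_group V ω]
  congr 1
  rw [← Set.toFinset_card]
  congr 1
  ext x; simp

theorem same {ω ω' : Ω} (h : ω' ∈ orbit V ω) : st V ω' = st V ω ∧ st2 V ω ω' = st V ω := by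
  classical
  obtain ⟨u, rfl⟩ := h
  have key : ∀ v : V, v • u • ω = u • ω ↔ v • ω = ω := by
    intro v
    rw [smul_smul, mul_comm, ← smul_smul]
    exact smul_left_cancel_iff u
  constructor
  · unfold st
    congr 1
    ext v
    simp only [mem_filter, mem_univ, true_and]
    exact key v
  · unfold st2 st
    congr 1
    ext v
    simp only [mem_filter, mem_univ, true_and]
    constructor
    · exact fun h => h.1
    · exact fun h => ⟨h, (key v).2 h⟩

theorem ineq (ω ω' : Ω) : st V ω * st V ω' ≤ Fintype.card V * st2 V ω ω' := by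
  rw [st_eq, st_eq, st2_eq]
  set A := stabilizer V ω
  set B := stabilizer V ω'
  have h1 : Nat.card A = Nat.card (A ⊓ B : Subgroup V) * B.relIndex A := by
    have := Subgroup.card_mul_index (B.subgroupOf A)
    rw [← this]
    congr 1
    have e : (B.subgroupOf A) = (A ⊓ B).subgroupOf A := by
      ext x; simp [Subgroup.mem_subgroupOf]
    rw [e]
    exact Nat.card_congr (Subgroup.subgroupOfEquivOfLe inf_le_left).toEquiv
  have h2 : B.relIndex A ≤ B.index := Nat.le_of_dvd (Nat.pos_of_ne_zero Subgroup.index_ne_zero_of_finite) (Subgroup.relIndex_dvd_index_of_normal B A)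
  have h3 : Nat.card B * B.index = Fintype.card V := by rw [Subgroup.card_mul_index, Nat.card_eq_fintype_card]
  calc Nat.card A * Nat.card B = Nat.card (A ⊓ B : Subgroup V) * (B.relIndex A * Nat.card B) := by rw [h1]; ring
    _ ≤ Nat.card (A ⊓ B : Subgroup V) * (B.index * Nat.card B) := Nat.mul_le_mul_left _ (Nat.mul_le_mul_right _ h2)
    _ = _ := by rw [mul_comm B.index, h3, mul_comm]

theorem count {φ N m : ℕ} (hN : Fintype.card V = N) (hm : Fintype.card Ω = m) (hφ : ∀ v : V, v ≠ 1 → fx Ω v = φ)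
    (hnt : φ < m) (h2 : m < 2 * N) :
    m = φ + N ∧ (∑ ω : Ω, st V ω = N * (φ + 1)) ∧ ∀ ω ω' : Ω, ω' ∉ orbit V ω → N * st2 V ω ω' = st V ω * st V ω' := by
  classical
  have hN1 : 1 ≤ N := by rw [← hN]; exact Fintype.card_pos
  have hf1 : fx Ω (1 : V) = m := by
    unfold fx
    rw [← hm, ← card_univ]
    congr 1
    ext ω; simp
  have hsum : ∀ g : ℕ → ℕ, ∑ v : V, g (fx Ω v) = g m + (N - 1) * g φ := by
    intro g
    rw [← add_sum_erase univ _ (mem_univ (1 : V)), hf1]
    congr 1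
    rw [sum_congr rfl (fun v hv => by rw [hφ v (ne_of_mem_erase hv)]), sum_const, card_erase_of_mem (mem_univ _), card_univ, hN, smul_eq_mul]
  have hS : ∑ v : V, fx Ω v = m + (N - 1) * φ := hsum id
  have hS2 : ∑ v : V, (fx Ω v) ^ 2 = m ^ 2 + (N - 1) * φ ^ 2 := hsum (fun a => a ^ 2)
  have hd := burn (V := V) (Ω := Ω)
  rw [hS, hN] at hd
  obtain ⟨N', rfl⟩ : ∃ N', N = N' + 1 := ⟨N - 1, by omega⟩
  obtain ⟨k, rfl⟩ : ∃ k, m = φ + k := ⟨m - φ, by omega⟩
  have hd' : (N' + 1) ∣ k := by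
    have e : φ + k + (N' + 1 - 1) * φ = k + (N' + 1) * φ := by rw [Nat.add_sub_cancel]; ring
    rw [e] at hd
    exact (Nat.dvd_add_left (Dvd.intro _ rfl)).1 hd
  have hk : k = N' + 1 := by
    obtain ⟨c, rfl⟩ := hd'
    have hc1 : c ≠ 0 := by rintro rfl; omega
    have hc2 : c < 2 := by
      by_contra hc
      have : (N' + 1) * 2 ≤ (N' + 1) * c := Nat.mul_le_mul_left _ (by omega)
      omega
    have : c = 1 := by omega
    rw [this, mul_one]
  subst hk
  have hF : ∑ ω : Ω, st V ω = (N' + 1) * (φ + 1) := by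
    rw [sum_st, hS, Nat.add_sub_cancel]; ring
  refine ⟨rfl, hF, ?_⟩
  -- the defect
  let d : Ω → Ω → ℤ := fun ω ω' => (N' + 1 : ℤ) * st2 V ω ω' - st V ω * st V ω'
  have hd0 : ∀ ω ω', 0 ≤ d ω ω' := by
    intro ω ω'
    have := ineq (V := V) ω ω'
    rw [hN] at this
    have h' : ((st V ω * st V ω' : ℕ) : ℤ) ≤ (((N' + 1) * st2 V ω ω' : ℕ) : ℤ) := by exact_mod_cast this
    push_cast at h'
    show 0 ≤ (N' + 1 : ℤ) * st2 V ω ω' - st V ω * st V ω'
    linarith
  have hFz : ∑ ω : Ω, (st V ω : ℤ) = (N' + 1) * (φ + 1) := by exact_mod_cast hF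
  have htot : ∑ ω : Ω, ∑ ω' : Ω, d ω ω' = (N' + 1) ^ 2 * N' := by
    have e1 : ∑ ω : Ω, ∑ ω' : Ω, d ω ω' = (N' + 1 : ℤ) * (∑ ω : Ω, ∑ ω' : Ω, (st2 V ω ω' : ℤ)) - (∑ ω : Ω, (st V ω : ℤ)) * (∑ ω : Ω, (st V ω : ℤ)) := by
      simp only [d, sum_sub_distrib]
      congr 1
      · simp only [mul_sum]
      · rw [sum_mul_sum]
    have e2 : ∑ ω : Ω, ∑ ω' : Ω, (st2 V ω ω' : ℤ) = ((φ + (N' + 1)) ^ 2 + N' * φ ^ 2 : ℤ) := by
      have := sum_st2 (V := V) (Ω := Ω)
      rw [hS2, Nat.add_sub_cancel] at this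
      exact_mod_cast this
    rw [e1, e2, hFz]
    ring
  have hsame : ∑ ω : Ω, ∑ ω' : Ω, (if ω' ∈ orbit V ω then d ω ω' else 0) = (N' + 1) ^ 2 * N' := by
    have e1 : ∀ ω : Ω, ∑ ω' : Ω, (if ω' ∈ orbit V ω then d ω ω' else 0) = (N' + 1 : ℤ) * ((N' + 1 : ℤ) - st V ω) := by
      intro ω
      rw [← sum_filter]
      have e2 : ∀ ω' ∈ univ.filter (fun ω' : Ω => ω' ∈ orbit V ω), d ω ω' = (N' + 1 : ℤ) * st V ω - st V ω * st V ω := by
        intro ω' hω'
        obtain ⟨h1, h2⟩ := same (V := V) (mem_filter.1 hω').2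
        show (N' + 1 : ℤ) * st2 V ω ω' - st V ω * st V ω' = _
        rw [h1, h2]
      rw [sum_congr rfl e2, sum_const, nsmul_eq_mul]
      have h3 := orb (V := V) ω
      rw [hN] at h3
      have h4 : ((univ.filter (fun ω' : Ω => ω' ∈ orbit V ω)).card : ℤ) * st V ω = N' + 1 := by exact_mod_cast h3
      linear_combination ((N' + 1 : ℤ) - st V ω) * h4
    rw [sum_congr rfl (fun ω _ => e1 ω), ← mul_sum, sum_sub_distrib, hFz, sum_const, card_univ, hm]
    simp only [nsmul_eq_mul]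
    push_cast
    ring
  have hdiff : ∑ ω : Ω, ∑ ω' : Ω, (if ω' ∈ orbit V ω then 0 else d ω ω') = 0 := by
    have e : ∑ ω : Ω, ∑ ω' : Ω, d ω ω' = ∑ ω : Ω, ∑ ω' : Ω, (if ω' ∈ orbit V ω then d ω ω' else 0) + ∑ ω : Ω, ∑ ω' : Ω, (if ω' ∈ orbit V ω then 0 else d ω ω') := by
      rw [← sum_add_distrib]
      refine sum_congr rfl fun ω _ => ?_
      rw [← sum_add_distrib]
      refine sum_congr rfl fun ω' _ => ?_
      split_ifs <;> ring
    rw [htot, hsame] at e
    linarith
  intro ω ω' hω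
  have h5 : ∀ ω ∈ (univ : Finset Ω), 0 ≤ ∑ ω' : Ω, (if ω' ∈ orbit V ω then 0 else d ω ω') := by
    intro ω _
    refine sum_nonneg fun ω' _ => ?_
    split_ifs
    · exact le_rfl
    · exact hd0 _ _
  have h6 := (sum_eq_zero_iff_of_nonneg h5).1 hdiff ω (mem_univ _)
  have h7 := (sum_eq_zero_iff_of_nonneg (fun ω' _ => by split_ifs; exacts [le_rfl, hd0 _ _])).1 h6 ω' (mem_univ _)
  rw [if_neg hω] at h7
  have h8 : (N' + 1 : ℤ) * st2 V ω ω' = st V ω * st V ω' := by
    have : (N' + 1 : ℤ) * st2 V ω ω' - st V ω * st V ω' = 0 := h7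
    linarith
  exact_mod_cast h8

end count

end Cfsg.Agent.H14.Px
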