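import Mathlib
import Cfsg.Agent.H16_AutL
import Cfsg.Agent.H14_YE
import Cfsg.Agent.H14_PxA

set_option autoImplicit false
set_option linter.all false

/-!
Subgroups of small index in `SL_n(q)`: set up.
-/

namespace Cfsg.Agent.H14.Px

open Matrix Cfsg.Agent.H16.AutL MulAction

section basic

variable {F : Type*} [Field F] {n : ℕ}

local notation "SLn" => Matrix.SpecialLinearGroup (Fin n) F

theorem conj_tv (g : SLn) (v φ : Fin n → F) :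
    g * tv v φ * g⁻¹ = tv (g.1 *ᵥ v) (φ ᵥ* (g⁻¹).1) := by
  have hgg : (g⁻¹).1 * g.1 = 1 := by
    have := congrArg Subtype.val (inv_mul_cancel g)
    exact this
  have hgg' : g.1 * (g⁻¹).1 = 1 := by
    have := congrArg Subtype.val (mul_inv_cancel g)
    exact this
  have hd : (φ ᵥ* (g⁻¹).1) ⬝ᵥ (g.1 *ᵥ v) = φ ⬝ᵥ v := by
    rw [dotProduct_mulVec, vecMul_vecMul, hgg, vecMul_one]
  by_cases h : φ ⬝ᵥ v = 0
  · refine sl_ext fun x => ?_
    show (g.1 * (tv v φ : SLn).1 * (g⁻¹).1) *ᵥ x = _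
    rw [tv_mulVec (by rw [hd, h]), ← mulVec_mulVec, ← mulVec_mulVec, tv_mulVec h, mulVec_add, mulVec_smul, mulVec_mulVec, hgg', one_mulVec,
      dotProduct_mulVec]
  · rw [tv_neg h, tv_neg (by rw [hd]; exact h)]; group

theorem tvi {w ψ : Fin n → F} (h : ψ ⬝ᵥ w = 0) : (tv w ψ : SLn)⁻¹ = tv (-w) ψ := tv_inv h

theorem tconj {v w φ ψ : Fin n → F} (h : ψ ⬝ᵥ w = 0) :
    tv w ψ * tv v φ * (tv w ψ)⁻¹ = tv (v + (ψ ⬝ᵥ v) • w) (φ - (φ ⬝ᵥ w) • ψ) := by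
  rw [conj_tv, tv_mulVec h, tv_inv h, vecMul_tv (by rw [dotProduct_neg, h, neg_zero]), dotProduct_neg, neg_smul, sub_eq_add_neg]

theorem tv_one_iff {v φ : Fin n → F} (h : φ ⬝ᵥ v = 0) : (tv v φ : SLn) = 1 ↔ v = 0 ∨ φ = 0 := by
  constructor
  · intro h1
    by_contra hcon
    push Not at hcon
    obtain ⟨hv, hφ⟩ := hcon
    apply hφ
    ext j
    have h2 := tv_mulVec h (Pi.single j 1)
    rw [h1] at h2
    have h3 : (φ ⬝ᵥ Pi.single j 1) • v = 0 := by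
      have : ((1 : SLn) : Matrix (Fin n) (Fin n) F) *ᵥ Pi.single j 1 = Pi.single j 1 := by
        rw [Matrix.SpecialLinearGroup.coe_one, one_mulVec]
      rw [this] at h2
      exact (add_eq_left.1 h2.symm)
    rw [dotProduct_single, mul_one] at h3
    exact (smul_eq_zero.1 h3).resolve_right hv
  · rintro (rfl | rfl)
    · exact tv_zero_left _
    · exact tv_zero_right _

/-- existence of vectors with prescribed products -/
theorem ex1 {φ : Fin n → F} (h : φ ≠ 0) : ∃ w, φ ⬝ᵥ w = 1 := by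
  obtain ⟨j, hj⟩ := Function.ne_iff.1 h
  refine ⟨Pi.single j (φ j)⁻¹, ?_⟩
  rw [dotProduct_single]
  exact mul_inv_cancel₀ hj

theorem ex2 {φ ψ : Fin n → F} (h : ∀ c : F, φ ≠ c • ψ) (hψ : ψ ≠ 0) (a b : F) : ∃ w, φ ⬝ᵥ w = a ∧ ψ ⬝ᵥ w = b := by
  obtain ⟨w1, hw1⟩ := ex1 hψ
  -- φ' = φ - φ(w1) ψ ≠ 0 kills w1
  have h1 : φ - (φ ⬝ᵥ w1) • ψ ≠ 0 := by
    intro h0
    exact h _ (sub_eq_zero.1 h0)
  obtain ⟨w2, hw2⟩ := ex1 h1
  -- w3 = w2 - ψ(w2) w1 : ψ(w3) = 0, φ(w3) = φ(w2) - ψ(w2) φ(w1) = 1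
  refine ⟨(a - b * (φ ⬝ᵥ w1)) • (w2 - (ψ ⬝ᵥ w2) • w1) + b • w1, ?_, ?_⟩
  · rw [sub_dotProduct, smul_dotProduct, smul_eq_mul] at hw2
    rw [dotProduct_add, dotProduct_smul, dotProduct_sub, dotProduct_smul, dotProduct_smul, smul_eq_mul, smul_eq_mul, smul_eq_mul]
    linear_combination (a - b * (φ ⬝ᵥ w1)) * hw2
  · rw [dotProduct_add, dotProduct_smul, dotProduct_sub, dotProduct_smul, dotProduct_smul, smul_eq_mul, smul_eq_mul, smul_eq_mul, hw1]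
    ring

/-- the orthogonal space -/
def K (v : Fin n → F) : Submodule F (Fin n → F) where
  carrier := {φ | φ ⬝ᵥ v = 0}
  add_mem' := fun {a b} ha hb => by
    show (a + b) ⬝ᵥ v = 0
    rw [add_dotProduct, ha, hb, add_zero]
  zero_mem' := by show (0 : Fin n → F) ⬝ᵥ v = 0; simp
  smul_mem' := fun c a ha => by
    show (c • a) ⬝ᵥ v = 0
    rw [smul_dotProduct, ha, smul_zero]

theorem mem_K {v φ : Fin n → F} : φ ∈ K v ↔ φ ⬝ᵥ v = 0 := Iff.rfl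

/-- in dimension `≥ 3` there are orthogonal vectors outside a line -/
theorem ex_out (hn : 3 ≤ n) (v φ : Fin n → F) : ∃ ψ, ψ ⬝ᵥ v = 0 ∧ (∀ c : F, ψ ≠ c • φ) := by
  classical
  by_contra hcon
  push Not at hcon
  -- K v ≤ span φ
  have h1 : K v ≤ Submodule.span F {φ} := by
    intro ψ hψ
    obtain ⟨c, hc⟩ := hcon ψ hψ
    rw [hc]; exact Submodule.smul_mem _ _ (Submodule.mem_span_singleton_self φ)
  let f : (Fin n → F) →ₗ[F] F := { toFun := fun φ => φ ⬝ᵥ v, map_add' := fun a b => add_dotProduct a b v, map_smul' := fun c a => smul_dotProduct c a v }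
  have hf : K v = LinearMap.ker f := by ext; rfl
  have h2 := LinearMap.finrank_range_add_finrank_ker f
  rw [← hf, Module.finrank_fin_fun] at h2
  have h3 : Module.finrank F (LinearMap.range f) ≤ 1 := by
    have := Submodule.finrank_le (LinearMap.range f)
    rwa [Module.finrank_self] at this
  have h4 : Module.finrank F (K v) ≤ 1 := (Submodule.finrank_mono h1).trans ((finrank_span_le_card ({φ} : Set (Fin n → F))).trans (by simp))
  omega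

theorem trans_vec (hn : 3 ≤ n) {v w : Fin n → F} (hv : v ≠ 0) (hw : w ≠ 0) : ∃ g : SLn, g.1 *ᵥ v = w := by
  have key : ∀ v w : Fin n → F, v ≠ 0 → w ≠ 0 → (∀ c : F, w ≠ c • v) → ∃ g : SLn, g.1 *ᵥ v = w := by
    intro v w hv hw hc
    obtain ⟨ψ, h1, h2⟩ := ex2 (φ := w) (ψ := v) hc hv 1 1
    rw [dotProduct_comm] at h1 h2
    refine ⟨tv (w - v) ψ, ?_⟩
    rw [tv_mulVec (by rw [dotProduct_sub, h1, h2, sub_self]), h2, one_smul]
    abel
  by_cases hc : ∀ c : F, w ≠ c • v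
  · exact key v w hv hw hc
  · push Not at hc
    obtain ⟨c, rfl⟩ := hc
    obtain ⟨u, -, hu⟩ := ex_out hn 0 v
    have hu0 : u ≠ 0 := by rintro rfl; exact hu 0 (by simp)
    have hcu : ∀ d : F, c • v ≠ d • u := by
      intro d hd
      have hd0 : d ≠ 0 := by rintro rfl; rw [zero_smul] at hd; exact hw hd
      apply hu (d⁻¹ * c)
      rw [mul_smul, hd, smul_smul, inv_mul_cancel₀ hd0, one_smul]
    obtain ⟨g, hg⟩ := key v u hv hu0 hu
    obtain ⟨g', hg'⟩ := key u (c • v) hu0 hw hcu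
    refine ⟨g' * g, ?_⟩
    rw [Matrix.SpecialLinearGroup.coe_mul, ← mulVec_mulVec, hg, hg']

theorem trans_dual (hn : 3 ≤ n) {v φ φ' : Fin n → F} (hφ : φ ≠ 0) (hφ' : φ' ≠ 0) (h : φ ⬝ᵥ v = 0) (h' : φ' ⬝ᵥ v = 0) :
    ∃ g : SLn, g * tv v φ * g⁻¹ = tv v φ' := by
  have key : ∀ φ φ' : Fin n → F, φ ≠ 0 → φ' ≠ 0 → φ ⬝ᵥ v = 0 → φ' ⬝ᵥ v = 0 → (∀ c : F, φ' ≠ c • φ) → ∃ g : SLn, g * tv v φ * g⁻¹ = tv v φ' := by
    intro φ φ' hφ hφ' h h' hc
    obtain ⟨w, h1, h2⟩ := ex2 hc hφ (-1) (-1)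
    refine ⟨tv w (φ' - φ), ?_⟩
    rw [tconj (by rw [sub_dotProduct, h1, h2, sub_self]), sub_dotProduct, h, h', sub_zero, zero_smul, add_zero, h2]
    congr 1
    rw [neg_smul, one_smul]; abel
  by_cases hc : ∀ c : F, φ' ≠ c • φ
  · exact key φ φ' hφ hφ' h h' hc
  · push Not at hc
    obtain ⟨c, rfl⟩ := hc
    obtain ⟨u, hu1, hu⟩ := ex_out hn v φ
    have hu0 : u ≠ 0 := by rintro rfl; exact hu 0 (by simp)
    have hcu : ∀ d : F, c • φ ≠ d • u := by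
      intro d hd
      have hd0 : d ≠ 0 := by rintro rfl; rw [zero_smul] at hd; exact hφ' hd
      apply hu (d⁻¹ * c)
      rw [mul_smul, hd, smul_smul, inv_mul_cancel₀ hd0, one_smul]
    obtain ⟨g, hg⟩ := key φ u hφ hu0 h hu1 hu
    obtain ⟨g', hg'⟩ := key u (c • φ) hu0 hφ' hu1 h' hcu
    refine ⟨g' * g, ?_⟩
    rw [← hg', ← hg]; group

theorem gvm {g : SLn} {v φ : Fin n → F} (h : φ ⬝ᵥ v = 0) : (φ ᵥ* (g⁻¹).1) ⬝ᵥ (g.1 *ᵥ v) = 0 := by
  have hgg : (g⁻¹).1 * g.1 = 1 := congrArg Subtype.val (inv_mul_cancel g)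
  rw [dotProduct_mulVec, vecMul_vecMul, hgg, vecMul_one, h]

theorem gvne {g : SLn} {φ : Fin n → F} (h : φ ≠ 0) : φ ᵥ* (g⁻¹).1 ≠ 0 := by
  intro h0
  apply h
  have hgg : (g⁻¹).1 * g.1 = 1 := congrArg Subtype.val (inv_mul_cancel g)
  have : (φ ᵥ* (g⁻¹).1) ᵥ* g.1 = (0 : Fin n → F) ᵥ* g.1 := by rw [h0]
  rw [vecMul_vecMul, hgg, vecMul_one, zero_vecMul] at this
  exact this

theorem all_conj (hn : 3 ≤ n) {v w φ ψ : Fin n → F} (hv : v ≠ 0) (hw : w ≠ 0) (hφ : φ ≠ 0) (hψ : ψ ≠ 0) (h : φ ⬝ᵥ v = 0) (h' : ψ ⬝ᵥ w = 0) :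
    ∃ g : SLn, g * tv v φ * g⁻¹ = tv w ψ := by
  obtain ⟨g, hg⟩ := trans_vec (F := F) hn hv hw
  have h1 := conj_tv g v φ
  rw [hg] at h1
  obtain ⟨g', hg'⟩ := trans_dual (F := F) hn (v := w) (gvne (g := g) hφ) hψ (by rw [← hg]; exact gvm h) h'
  refine ⟨g' * g, ?_⟩
  rw [← hg', ← h1]; group

theorem top_of_all (hn : 3 ≤ n) {H : Subgroup SLn} (h : ∀ w ψ : Fin n → F, ψ ⬝ᵥ w = 0 → tv w ψ ∈ H) : H = ⊤ := by
  rw [eq_top_iff, ← Cfsg.Agent.H14.Yk.gen_tr n (by omega)]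
  refine (Subgroup.closure_le _).2 ?_
  rintro _ ⟨i, j, t, hij, rfl⟩
  have hd : (Pi.single j (1 : F) : Fin n → F) ⬝ᵥ (Pi.single i t : Fin n → F) = 0 := by
    rw [single_dotProduct, Pi.single_eq_of_ne hij.symm, mul_zero]
  have e : Cfsg.Agent.H14.Yk.tr i j t = tv (Pi.single i t) (Pi.single j 1) := by
    apply Subtype.ext
    rw [Cfsg.Agent.H14.Yk.tr_coe hij]
    show _ = (tv (Pi.single i t) (Pi.single j 1) : SLn).1
    rw [tv_coe hd]
    unfold Matrix.transvection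
    congr 1
    ext r s
    rw [vecMulVec_apply, Matrix.single_apply, Pi.single_apply, Pi.single_apply]
    by_cases h1 : i = r <;> by_cases h2 : j = s <;> simp [h1, h2, eq_comm]
  show Cfsg.Agent.H14.Yk.tr i j t ∈ H
  rw [e]
  exact h _ _ hd

end basic

end Cfsg.Agent.H14.Px
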