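import Mathlib
import Cfsg.Agent.H14_PxB

set_option autoImplicit false
set_option linter.all false

/-!
Subgroups of small index in `SL_n(q)`: the counting argument.
-/

namespace Cfsg.Agent.H14.Px

open Matrix Cfsg.Agent.H16.AutL MulAction

section cnt

variable {F : Type*} [Field F] {n : ℕ}

local notation "SLn" => Matrix.SpecialLinearGroup (Fin n) F

/-- trace of a conjugate of `H` on the transvection group with centre `v` -/
def Wg (H : Subgroup SLn) (v : Fin n → F) (g : SLn) : AddSubgroup (Fin n → F) where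
  carrier := {φ | φ ⬝ᵥ v = 0 ∧ g⁻¹ * tv v φ * g ∈ H}
  add_mem' := fun {a b} ha hb => by
    refine ⟨by rw [add_dotProduct, ha.1, hb.1, add_zero], ?_⟩
    rw [← tv_mul_right ha.1 hb.1]
    have e : g⁻¹ * (tv v a * tv v b) * g = (g⁻¹ * tv v a * g) * (g⁻¹ * tv v b * g) := by group
    rw [e]
    exact H.mul_mem ha.2 hb.2
  zero_mem' := ⟨by simp, by rw [tv_zero_right]; simpa using H.one_mem⟩
  neg_mem' := fun {a} ha => by
    have h1 : (-a) ⬝ᵥ v = 0 := by rw [neg_dotProduct, ha.1, neg_zero]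
    refine ⟨h1, ?_⟩
    have e : (tv v (-a) : SLn) = (tv v a)⁻¹ := by
      rw [eq_inv_iff_mul_eq_one, tv_mul_right h1 ha.1, neg_add_cancel, tv_zero_right]
    rw [e]
    have e2 : g⁻¹ * (tv v a)⁻¹ * g = (g⁻¹ * tv v a * g)⁻¹ := by group
    rw [e2]
    exact H.inv_mem ha.2

theorem mem_Wg {H : Subgroup SLn} {v φ : Fin n → F} {g : SLn} : φ ∈ Wg H v g ↔ φ ⬝ᵥ v = 0 ∧ g⁻¹ * tv v φ * g ∈ H := Iff.rfl

theorem Wg_tau {H : Subgroup SLn} {v w φ ψ : Fin n → F} {g : SLn} (h1 : ψ ⬝ᵥ w = 0) (h2 : ψ ⬝ᵥ v = 0) :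
    φ ∈ Wg H v (tv w ψ * g) ↔ φ + (φ ⬝ᵥ w) • ψ ∈ Wg H v g := by
  rw [mem_Wg, mem_Wg]
  have e1 : (φ + (φ ⬝ᵥ w) • ψ) ⬝ᵥ v = φ ⬝ᵥ v := by rw [add_dotProduct, smul_dotProduct, h2, smul_zero, add_zero]
  have e2 : (tv w ψ * g)⁻¹ * tv v φ * (tv w ψ * g) = g⁻¹ * tv v (φ + (φ ⬝ᵥ w) • ψ) * g := by
    have h3 : (tv w ψ : SLn)⁻¹ * tv v φ * tv w ψ = tv v (φ + (φ ⬝ᵥ w) • ψ) := by
      have h4 : ψ ⬝ᵥ (-w) = 0 := by rw [dotProduct_neg, h1, neg_zero]
      have := tconj (v := v) (φ := φ) h4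
      rw [← tv_inv h1, inv_inv] at this
      rw [this, h2, zero_smul, add_zero, dotProduct_neg, neg_smul, sub_neg_eq_add]
    rw [← h3]; group
  rw [e1, e2]

variable [Finite F]

theorem card_K {v : Fin n → F} (hv : v ≠ 0) : Nat.card (K v) = Nat.card F ^ (n - 1) := by
  let f : (Fin n → F) →ₗ[F] F := { toFun := fun φ => φ ⬝ᵥ v, map_add' := fun a b => add_dotProduct a b v, map_smul' := fun c a => smul_dotProduct c a v }
  have hf : K v = LinearMap.ker f := by ext; rfl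
  have hs : Function.Surjective f := by
    intro c
    obtain ⟨w, hw⟩ := ex1 hv
    refine ⟨c • w, ?_⟩
    show (c • w) ⬝ᵥ v = c
    rw [smul_dotProduct, dotProduct_comm, hw, smul_eq_mul, mul_one]
  have h2 := LinearMap.finrank_range_add_finrank_ker f
  rw [← hf, Module.finrank_fin_fun, LinearMap.range_eq_top.2 hs, finrank_top, Module.finrank_self] at h2
  have h3 : Nat.card (K v) = Nat.card F ^ Module.finrank F (K v) := Module.natCard_eq_pow_finrank
  rw [h3]; congr 1; omega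

/-- the transvection group -/
noncomputable def rho (v : Fin n → F) : Multiplicative (K v) →* SLn where
  toFun φ := tv v (Multiplicative.toAdd φ).1
  map_one' := tv_zero_right v
  map_mul' a b := (tv_mul_right (Multiplicative.toAdd a).2 (Multiplicative.toAdd b).2).symm

omit [Finite F] in
theorem fix_iff {H : Subgroup SLn} {t g : SLn} : t • (g : SLn ⧸ H) = g ↔ g⁻¹ * t * g ∈ H := by
  rw [MulAction.Quotient.smul_coe, eq_comm, QuotientGroup.eq, smul_eq_mul, mul_assoc]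

theorem fixed_conj {H : Subgroup SLn} {t t' x : SLn} (h : x * t * x⁻¹ = t') : Nat.card (fixedBy (SLn ⧸ H) t) = Nat.card (fixedBy (SLn ⧸ H) t') := by
  refine Nat.card_congr
    { toFun := fun ω => ⟨x • ω.1, ?_⟩
      invFun := fun ω => ⟨x⁻¹ • ω.1, ?_⟩
      left_inv := fun ω => Subtype.ext (inv_smul_smul x ω.1)
      right_inv := fun ω => Subtype.ext (smul_inv_smul x ω.1) }
  · show t' • x • ω.1 = x • ω.1
    have h1 : t • ω.1 = ω.1 := ω.2
    rw [← h, smul_smul]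
    have e : x * t * x⁻¹ * x = x * t := by group
    rw [e, ← smul_smul, h1]
  · show t • x⁻¹ • ω.1 = x⁻¹ • ω.1
    have h1 : t' • ω.1 = ω.1 := ω.2
    have e : t * x⁻¹ = x⁻¹ * t' := by rw [← h]; group
    rw [smul_smul, e, ← smul_smul, h1]

theorem main_count (hn : 3 ≤ n) {H : Subgroup SLn} (hH : H ≠ ⊤) (hlt : (Nat.card F - 1) * (H.index + 1) ≤ Nat.card F ^ n - 1)
    {v : Fin n → F} (hv : v ≠ 0) : ∃ φ0 : ℕ, H.index = φ0 + Nat.card F ^ (n - 1) ∧
      (∀ φ : Fin n → F, φ ≠ 0 → φ ⬝ᵥ v = 0 → Nat.card (fixedBy (SLn ⧸ H) (tv v φ)) = φ0) ∧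
      (∀ g g' : SLn, (Nat.card (Wg H v g ⊓ Wg H v g' : AddSubgroup (Fin n → F)) = Nat.card (Wg H v g) ∧ Nat.card (Wg H v g') = Nat.card (Wg H v g)) ∨
        Nat.card F ^ (n - 1) * Nat.card (Wg H v g ⊓ Wg H v g' : AddSubgroup (Fin n → F)) = Nat.card (Wg H v g) * Nat.card (Wg H v g')) ∧
      ((∀ g, Nat.card F ^ (n - 1) ≤ Nat.card F * Nat.card (Wg H v g)) → ∀ g, Nat.card F * Nat.card (Wg H v g) = Nat.card F ^ (n - 1)) := by
  classical
  letI : Fintype F := Fintype.ofFinite F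
  letI : Fintype (SLn ⧸ H) := Fintype.ofFinite _
  letI : MulAction (Multiplicative (K v)) (SLn ⧸ H) := MulAction.compHom _ (rho v)
  letI : Fintype (Multiplicative (K v)) := Fintype.ofFinite _
  have hact : ∀ (φ : Multiplicative (K v)) (ω : SLn ⧸ H), φ • ω = (tv v (Multiplicative.toAdd φ).1 : SLn) • ω := fun φ ω => rfl
  set q := Nat.card F with hq
  have hq2 : 2 ≤ q := Finite.one_lt_card
  set N := q ^ (n - 1) with hN
  have hcV : Fintype.card (Multiplicative (K v)) = N := by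
    rw [← Nat.card_eq_fintype_card]
    exact card_K hv
  have hcO : Fintype.card (SLn ⧸ H) = H.index := by
    rw [← Nat.card_eq_fintype_card]; rfl
  obtain ⟨φ1, hφ1v, hφ1'⟩ := ex_out hn v 0
  have hφ1 : φ1 ≠ 0 := by rintro rfl; exact hφ1' 0 (by simp)
  have hfix : ∀ φ : Fin n → F, φ ≠ 0 → φ ⬝ᵥ v = 0 → Nat.card (fixedBy (SLn ⧸ H) (tv v φ)) = Nat.card (fixedBy (SLn ⧸ H) (tv v φ1)) := by
    intro φ hφ h
    obtain ⟨x, hx⟩ := trans_dual (F := F) hn hφ hφ1 h hφ1v
    exact fixed_conj hx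
  have hfx : ∀ φ : Multiplicative (K v), fx (SLn ⧸ H) φ = Nat.card (fixedBy (SLn ⧸ H) (tv v (Multiplicative.toAdd φ).1)) := by
    intro φ
    unfold fx
    rw [Nat.card_eq_fintype_card, Fintype.card_subtype]
    congr 1
    ext ω
    simp only [Finset.mem_filter, Finset.mem_univ, true_and, mem_fixedBy]
    rw [hact]
  have hφc : ∀ φ : Multiplicative (K v), φ ≠ 1 → fx (SLn ⧸ H) φ = Nat.card (fixedBy (SLn ⧸ H) (tv v φ1)) := by
    intro φ hφ
    rw [hfx]
    refine hfix _ ?_ (Multiplicative.toAdd φ).2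
    intro h0
    apply hφ
    apply Multiplicative.toAdd.injective
    exact Subtype.ext h0
  have hnt : Nat.card (fixedBy (SLn ⧸ H) (tv v φ1)) < H.index := by
    rw [← hcO, ← Nat.card_eq_fintype_card]
    by_contra hge
    push Not at hge
    apply hH
    have hall : ∀ ω : SLn ⧸ H, (tv v φ1 : SLn) • ω = ω := by
      have hle : Nat.card (SLn ⧸ H) = Nat.card (fixedBy (SLn ⧸ H) (tv v φ1)) :=
        le_antisymm hge (Nat.card_le_card_of_injective Subtype.val Subtype.val_injective)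
      have hu : fixedBy (SLn ⧸ H) (tv v φ1) = Set.univ := by
        apply Set.eq_of_subset_of_ncard_le (Set.subset_univ _)
        rw [Set.ncard_univ]
        exact hge
      intro ω
      have : ω ∈ fixedBy (SLn ⧸ H) (tv v φ1) := by rw [hu]; trivial
      exact this
    refine top_of_all hn fun w ψ hwψ => ?_
    by_cases hw : w = 0
    · rw [hw, tv_zero_left]; exact H.one_mem
    by_cases hψ : ψ = 0
    · rw [hψ, tv_zero_right]; exact H.one_mem
    obtain ⟨g, hg⟩ := all_conj (F := F) hn hv hw hφ1 hψ hφ1v hwψ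
    have := fix_iff.1 (hall ((g⁻¹ : SLn) : SLn ⧸ H))
    rw [inv_inv, hg] at this
    exact this
  have hN1 : 1 ≤ N := Nat.one_le_pow _ _ (by omega)
  have hqn : q ^ n = q * N := by
    rw [hN, ← pow_succ']; congr 1; omega
  rw [hqn] at hlt
  have h2 : H.index < 2 * N := by
    by_contra hge
    push Not at hge
    obtain ⟨q', hq'⟩ : ∃ q', q = q' + 2 := ⟨q - 2, by omega⟩
    rw [hq'] at hlt
    have e1 : q' + 2 - 1 = q' + 1 := by omega
    rw [e1] at hlt
    have e2 : (q' + 1) * (2 * N + 1) ≤ (q' + 1) * (H.index + 1) := Nat.mul_le_mul_left _ (by omega)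
    have e3 : (q' + 1) * (2 * N + 1) = (q' + 2) * N + q' * N + (q' + 1) := by ring
    have e4 : 1 ≤ (q' + 2) * N := Nat.mul_pos (by omega) hN1
    omega
  obtain ⟨c1, c2, c3⟩ := count (V := Multiplicative (K v)) (Ω := SLn ⧸ H) hcV hcO hφc hnt h2
  have hst : ∀ g : SLn, st (Multiplicative (K v)) (g : SLn ⧸ H) = Nat.card (Wg H v g) := by
    intro g
    rw [st_eq]
    refine Nat.card_congr
      { toFun := fun φ => ⟨(Multiplicative.toAdd φ.1).1, (Multiplicative.toAdd φ.1).2, fix_iff.1 φ.2⟩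
        invFun := fun φ => ⟨Multiplicative.ofAdd ⟨φ.1, φ.2.1⟩, fix_iff.2 φ.2.2⟩
        left_inv := fun φ => rfl
        right_inv := fun φ => rfl }
  have hst2 : ∀ g g' : SLn, st2 (Multiplicative (K v)) (g : SLn ⧸ H) (g' : SLn ⧸ H) = Nat.card (Wg H v g ⊓ Wg H v g' : AddSubgroup (Fin n → F)) := by
    intro g g'
    rw [st2_eq]
    refine Nat.card_congr
      { toFun := fun φ => ⟨(Multiplicative.toAdd φ.1).1, ⟨(Multiplicative.toAdd φ.1).2, fix_iff.1 φ.2.1⟩, ⟨(Multiplicative.toAdd φ.1).2, fix_iff.1 φ.2.2⟩⟩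
        invFun := fun φ => ⟨Multiplicative.ofAdd ⟨φ.1, φ.2.1.1⟩, fix_iff.2 φ.2.1.2, fix_iff.2 φ.2.2.2⟩
        left_inv := fun φ => rfl
        right_inv := fun φ => rfl }
  refine ⟨Nat.card (fixedBy (SLn ⧸ H) (tv v φ1)), c1, hfix, ?_, ?_⟩
  · intro g g'
    by_cases hor : (g' : SLn ⧸ H) ∈ orbit (Multiplicative (K v)) (g : SLn ⧸ H)
    · left
      obtain ⟨s1, s2⟩ := same hor
      rw [hst, hst] at s1
      rw [hst2, hst] at s2
      exact ⟨s2, s1⟩
    · right
      have := c3 _ _ hor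
      rwa [hst2, hst, hst] at this
  · intro hall
    have hall' : ∀ ω : SLn ⧸ H, N ≤ q * st (Multiplicative (K v)) ω := by
      intro ω
      induction ω using QuotientGroup.induction_on with
      | H g => rw [hst]; exact hall g
    set φ0 := Nat.card (fixedBy (SLn ⧸ H) (tv v φ1)) with hφ0
    -- sums
    have hs1 : ∑ ω : SLn ⧸ H, N = (φ0 + N) * N := by
      rw [Finset.sum_const, Finset.card_univ, hcO, c1, smul_eq_mul]
    have hs2 : ∑ ω : SLn ⧸ H, q * st (Multiplicative (K v)) ω = q * (N * (φ0 + 1)) := by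
      rw [← Finset.mul_sum, c2]
    have hle : (φ0 + N) * N ≤ q * (N * (φ0 + 1)) := by
      rw [← hs1, ← hs2]
      exact Finset.sum_le_sum fun ω _ => hall' ω
    have hle2 : φ0 + N ≤ q * (φ0 + 1) := by
      have : N * (φ0 + N) ≤ N * (q * (φ0 + 1)) := by
        calc N * (φ0 + N) = (φ0 + N) * N := mul_comm _ _
          _ ≤ q * (N * (φ0 + 1)) := hle
          _ = _ := by ring
      exact Nat.le_of_mul_le_mul_left this hN1
    have heq : q * (φ0 + 1) = φ0 + N := by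
      rw [c1] at hlt
      obtain ⟨q', hq'⟩ : ∃ q', q = q' + 2 := ⟨q - 2, by omega⟩
      rw [hq'] at hlt hle2 ⊢
      have e1 : q' + 2 - 1 = q' + 1 := by omega
      rw [e1] at hlt
      have e4 : 1 ≤ (q' + 2) * N := Nat.mul_pos (by omega) hN1
      have e5 : (q' + 1) * (φ0 + N + 1) + 1 ≤ (q' + 2) * N := by omega
      nlinarith
    have hsum : ∑ ω : SLn ⧸ H, N = ∑ ω : SLn ⧸ H, q * st (Multiplicative (K v)) ω := by
      rw [hs1, hs2, ← heq]; ring
    have hterm := (Finset.sum_eq_sum_iff_of_le (fun ω _ => hall' ω)).1 hsum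
    intro g
    rw [← hst]
    exact (hterm _ (Finset.mem_univ _)).symm

end cnt

end Cfsg.Agent.H14.Px
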