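import Mathlib
import Cfsg.Agent.H14_PxC

set_option autoImplicit false
set_option linter.all false

/-!
Subgroups of small index in `SL_n(q)`: the dichotomy.
-/

namespace Cfsg.Agent.H14.Px

open Matrix Cfsg.Agent.H16.AutL MulAction

section dich

variable {F : Type*} [Field F] {n : ℕ}

local notation "SLn" => Matrix.SpecialLinearGroup (Fin n) F

theorem tau_inv {w ψ φ : Fin n → F} (h : ψ ⬝ᵥ w = 0) : (φ - (φ ⬝ᵥ w) • ψ) + ((φ - (φ ⬝ᵥ w) • ψ) ⬝ᵥ w) • ψ = φ := by
  rw [sub_dotProduct, smul_dotProduct, h, smul_zero, sub_zero]; abel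

variable [Finite F]

theorem card_tau {H : Subgroup SLn} {v w ψ : Fin n → F} {g : SLn} (h1 : ψ ⬝ᵥ w = 0) (h2 : ψ ⬝ᵥ v = 0) :
    Nat.card (Wg H v (tv w ψ * g)) = Nat.card (Wg H v g) := by
  refine Nat.card_congr
    { toFun := fun φ => ⟨φ.1 + (φ.1 ⬝ᵥ w) • ψ, (Wg_tau h1 h2).1 φ.2⟩
      invFun := fun φ => ⟨φ.1 - (φ.1 ⬝ᵥ w) • ψ, (Wg_tau h1 h2).2 (by rw [tau_inv h1]; exact φ.2)⟩
      left_inv := fun φ => Subtype.ext (by
        show (φ.1 + (φ.1 ⬝ᵥ w) • ψ) - ((φ.1 + (φ.1 ⬝ᵥ w) • ψ) ⬝ᵥ w) • ψ = φ.1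
        rw [add_dotProduct, smul_dotProduct, h1, smul_zero, add_zero]; abel)
      right_inv := fun φ => Subtype.ext (tau_inv h1) }

/-- evaluation at `w` -/
def ev (A : AddSubgroup (Fin n → F)) (w : Fin n → F) : A →+ F where
  toFun φ := φ.1 ⬝ᵥ w
  map_zero' := by show (0 : Fin n → F) ⬝ᵥ w = 0; simp
  map_add' a b := add_dotProduct _ _ _

theorem ev_card (A : AddSubgroup (Fin n → F)) (w : Fin n → F) : Nat.card (ev A w).ker * Nat.card (ev A w).range = Nat.card A := by
  rw [← AddSubgroup.index_ker, AddSubgroup.card_mul_index]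

theorem ker_le {H : Subgroup SLn} {v w ψ : Fin n → F} {g : SLn} (h1 : ψ ⬝ᵥ w = 0) (h2 : ψ ⬝ᵥ v = 0) :
    Nat.card (ev (Wg H v g) w).ker ≤ Nat.card (Wg H v g ⊓ Wg H v (tv w ψ * g) : AddSubgroup (Fin n → F)) := by
  refine Nat.card_le_card_of_injective
    (fun φ => (⟨φ.1.1, φ.1.2, (Wg_tau h1 h2).2 (by
      have h3 : φ.1.1 ⬝ᵥ w = 0 := φ.2
      rw [h3, zero_smul, add_zero]; exact φ.1.2)⟩ : (Wg H v g ⊓ Wg H v (tv w ψ * g) : AddSubgroup (Fin n → F)))) ?_
  intro a b hab
  have : a.1.1 = b.1.1 := congrArg (fun z : (Wg H v g ⊓ Wg H v (tv w ψ * g) : AddSubgroup (Fin n → F)) => (z : Fin n → F)) hab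
  exact Subtype.ext (Subtype.ext this)

theorem eq_of_card {A B : AddSubgroup (Fin n → F)} (h1 : Nat.card (A ⊓ B : AddSubgroup (Fin n → F)) = Nat.card A) (h2 : Nat.card B = Nat.card A) : A = B := by
  have e1 : A ⊓ B = A := AddSubgroup.eq_of_le_of_card_ge inf_le_left h1.ge
  have e2 : A ⊓ B = B := AddSubgroup.eq_of_le_of_card_ge inf_le_right (by rw [h1, h2])
  exact e1.symm.trans e2

theorem full_of_card {H : Subgroup SLn} {v : Fin n → F} (hv : v ≠ 0) {g : SLn} (h : Nat.card (Wg H v g) = Nat.card F ^ (n - 1)) {φ : Fin n → F}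
    (hφ : φ ⬝ᵥ v = 0) : φ ∈ Wg H v g := by
  have hle : Wg H v g ≤ (K v).toAddSubgroup := fun ψ hψ => hψ.1
  have e : Wg H v g = (K v).toAddSubgroup := AddSubgroup.eq_of_le_of_card_ge hle (by
    rw [h, ← card_K hv]; exact le_of_eq (Nat.card_congr (Equiv.refl _)))
  rw [e]; exact hφ

theorem dich (hn : 3 ≤ n) {H : Subgroup SLn} (hH : H ≠ ⊤) (hlt : (Nat.card F - 1) * (H.index + 1) ≤ Nat.card F ^ n - 1)
    {v : Fin n → F} (hv : v ≠ 0) : (∀ g, Nat.card (Wg H v g) = 1 ∨ Nat.card (Wg H v g) = Nat.card F ^ (n - 1)) ∨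
      (∀ g, Nat.card F * Nat.card (Wg H v g) = Nat.card F ^ (n - 1) ∧ ∀ e ∈ Wg H v g, ∀ c : F, c • e ∈ Wg H v g) := by
  obtain ⟨φ0, c1, c2, c3, c4⟩ := main_count hn hH hlt hv
  have hq2 : 2 ≤ Nat.card F := Finite.one_lt_card
  by_cases hc : ∃ g, Nat.card (Wg H v g) = 1
  · left
    obtain ⟨g0, hg0⟩ := hc
    intro g
    rcases c3 g0 g with ⟨h1, h2⟩ | h1
    · left; rw [h2, hg0]
    · right
      have h3 : Nat.card (Wg H v g0 ⊓ Wg H v g : AddSubgroup (Fin n → F)) = 1 := by
        have : Nat.card (Wg H v g0 ⊓ Wg H v g : AddSubgroup (Fin n → F)) ≤ Nat.card (Wg H v g0) :=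
          AddSubgroup.card_le_of_le inf_le_left
        have h4 : 0 < Nat.card (Wg H v g0 ⊓ Wg H v g : AddSubgroup (Fin n → F)) := Nat.card_pos
        omega
      rw [h3, hg0, mul_one, one_mul] at h1
      exact h1.symm
  · push Not at hc
    right
    have hind : ∀ g, Nat.card F ^ (n - 1) ≤ Nat.card F * Nat.card (Wg H v g) := by
      intro g
      by_cases hall : ∀ w ψ : Fin n → F, ψ ⬝ᵥ w = 0 → ψ ⬝ᵥ v = 0 → ∀ φ ∈ Wg H v g, φ - (φ ⬝ᵥ w) • ψ ∈ Wg H v g
      · -- then everything
        obtain ⟨e, he, he0⟩ : ∃ e ∈ Wg H v g, e ≠ 0 := by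
          by_contra hcon
          push Not at hcon
          apply hc g
          have : Wg H v g = ⊥ := by
            rw [eq_bot_iff]; intro x hx; exact hcon x hx
          rw [this]; simp
        have key : ∀ ψ : Fin n → F, ψ ⬝ᵥ v = 0 → (∀ c : F, ψ ≠ c • e) → ψ ∈ Wg H v g := by
          intro ψ hψ hce
          obtain ⟨w, h1, h2⟩ := ex2 hce he0 0 (-1)
          have := hall w ψ h1 hψ e he
          rw [h2, neg_smul, one_smul, sub_neg_eq_add] at this
          have h3 := (Wg H v g).sub_mem this he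
          rwa [add_sub_cancel_left] at h3
        obtain ⟨u, hu1, hu⟩ := ex_out (F := F) hn v e
        have huW := key u hu1 hu
        have hfull : ∀ ψ : Fin n → F, ψ ⬝ᵥ v = 0 → ψ ∈ Wg H v g := by
          intro ψ hψ
          by_cases hce : ∀ c : F, ψ ≠ c • e
          · exact key ψ hψ hce
          · push Not at hce
            obtain ⟨c, rfl⟩ := hce
            have h4 : c • e + u ∈ Wg H v g := by
              refine key _ (by rw [add_dotProduct, hψ, hu1, add_zero]) ?_
              intro d hd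
              apply hu (d - c)
              rw [sub_smul, ← hd]; abel
            have h5 := (Wg H v g).sub_mem h4 huW
            rwa [add_sub_cancel_right] at h5
        have e : Wg H v g = (K v).toAddSubgroup := le_antisymm (fun ψ hψ => hψ.1) (fun ψ hψ => hfull ψ hψ)
        have e2 : Nat.card (Wg H v g) = Nat.card F ^ (n - 1) := by
          rw [e, ← card_K hv]; exact Nat.card_congr (Equiv.refl _)
        rw [e2]
        exact Nat.le_mul_of_pos_left _ (by omega)
      · push Not at hall
        obtain ⟨w, ψ, h1, h2, φ, hφ, hφ'⟩ := hall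
        rcases c3 g (tv w ψ * g) with ⟨h3, h4⟩ | h3
        · exfalso
          have e := eq_of_card h3 h4
          apply hφ'
          rw [e, Wg_tau h1 h2, tau_inv h1]
          exact hφ
        · rw [card_tau h1 h2] at h3
          have h5 := ev_card (Wg H v g) w
          have h6 := ker_le (H := H) (g := g) h1 h2
          have h7 : Nat.card (ev (Wg H v g) w).range ≤ Nat.card F := Nat.card_le_card_of_injective _ Subtype.val_injective
          have hpos : 0 < Nat.card (Wg H v g ⊓ Wg H v (tv w ψ * g) : AddSubgroup (Fin n → F)) := Nat.card_pos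
          generalize Nat.card (Wg H v g ⊓ Wg H v (tv w ψ * g) : AddSubgroup (Fin n → F)) = I at *
          generalize Nat.card (ev (Wg H v g) w).ker = k at *
          generalize Nat.card (ev (Wg H v g) w).range = r at *
          generalize Nat.card (Wg H v g) = W at *
          generalize Nat.card F ^ (n - 1) = N at *
          generalize Nat.card F = q at *
          -- N I = W W, k r = W, k ≤ I, r ≤ q
          have h8 : W ≤ q * I := by
            rw [← h5, mul_comm q]
            exact Nat.mul_le_mul h6 h7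
          have h9 : N * I ≤ (q * W) * I := by
            calc N * I = W * W := h3
              _ ≤ W * (q * I) := Nat.mul_le_mul_left _ h8
              _ = (q * W) * I := by ring
          exact Nat.le_of_mul_le_mul_right h9 hpos
    have hex := c4 hind
    intro g
    refine ⟨hex g, ?_⟩
    have hcW : Nat.card (Wg H v g) = Nat.card F ^ (n - 2) := by
      have h1 := hex g
      have h2 : Nat.card F ^ (n - 1) = Nat.card F * Nat.card F ^ (n - 2) := by
        rw [← pow_succ']; congr 1; omega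
      rw [h2] at h1
      exact Nat.eq_of_mul_eq_mul_left (by omega) h1
    intro e he c
    by_cases hc0 : c = 0
    · rw [hc0, zero_smul]; exact zero_mem _
    by_cases he0 : e = 0
    · rw [he0, smul_zero]; exact zero_mem _
    have hev : e ⬝ᵥ v = 0 := he.1
    have claim : ∀ w : Fin n → F, e ⬝ᵥ w = 0 → ∀ φ ∈ Wg H v g, (φ ⬝ᵥ w) • (c • e) ∈ Wg H v g := by
      intro w hw
      have h1 : (c • e) ⬝ᵥ w = 0 := by rw [smul_dotProduct, hw, smul_zero]
      have h2 : (c • e) ⬝ᵥ v = 0 := by rw [smul_dotProduct, hev, smul_zero]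
      rcases c3 g (tv w (c • e) * g) with ⟨h3, h4⟩ | h3
      · have e1 := eq_of_card h3 h4
        intro φ hφ
        have h5 : φ ∈ Wg H v (tv w (c • e) * g) := by rw [← e1]; exact hφ
        rw [Wg_tau h1 h2] at h5
        have h6 := (Wg H v g).sub_mem h5 hφ
        rwa [add_sub_cancel_left] at h6
      · exfalso
        rw [card_tau h1 h2] at h3
        have h5 := ev_card (Wg H v g) w
        have h6 := ker_le (H := H) (g := g) h1 h2
        have h7 : Nat.card (ev (Wg H v g) w).range ≤ Nat.card F := Nat.card_le_card_of_injective _ Subtype.val_injective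
        have hpW : 0 < Nat.card (Wg H v g) := Nat.card_pos
        have hpk : 0 < Nat.card (ev (Wg H v g) w).ker := Nat.card_pos
        have h8 := hex g
        -- q I = W
        have h9 : Nat.card F * Nat.card (Wg H v g ⊓ Wg H v (tv w (c • e) * g) : AddSubgroup (Fin n → F)) = Nat.card (Wg H v g) := by
          rw [← h8] at h3
          have : Nat.card (Wg H v g) * (Nat.card F * Nat.card (Wg H v g ⊓ Wg H v (tv w (c • e) * g) : AddSubgroup (Fin n → F))) =
              Nat.card (Wg H v g) * Nat.card (Wg H v g) := by rw [← h3]; ring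
          exact Nat.eq_of_mul_eq_mul_left hpW this
        have h10 : Nat.card F ≤ Nat.card (ev (Wg H v g) w).range := by
          have : Nat.card (ev (Wg H v g) w).ker * Nat.card F ≤ Nat.card (ev (Wg H v g) w).ker * Nat.card (ev (Wg H v g) w).range := by
            rw [h5, ← h9, mul_comm]
            exact Nat.mul_le_mul_left _ h6
          exact Nat.le_of_mul_le_mul_left this hpk
        have hsurj : (ev (Wg H v g) w).range = ⊤ := by
          apply AddSubgroup.eq_top_of_le_card
          exact h10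
        have hcr : Nat.card (ev (Wg H v g) w).range = Nat.card F := le_antisymm h7 h10
        have hkI : Nat.card (ev (Wg H v g) w).ker = Nat.card (Wg H v g ⊓ Wg H v (tv w (c • e) * g) : AddSubgroup (Fin n → F)) := by
          rw [hcr, ← h9, mul_comm] at h5
          exact Nat.eq_of_mul_eq_mul_left (by omega) h5
        obtain ⟨φ, hφ⟩ : c⁻¹ ∈ (ev (Wg H v g) w).range := by rw [hsurj]; trivial
        have hφw : φ.1 ⬝ᵥ w = c⁻¹ := hφ
        -- φ ∈ intersection but not in the kernel
        have hφI : φ.1 ∈ (Wg H v g ⊓ Wg H v (tv w (c • e) * g) : AddSubgroup (Fin n → F)) := by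
          refine ⟨φ.2, (Wg_tau h1 h2).2 ?_⟩
          rw [hφw, smul_smul, inv_mul_cancel₀ hc0, one_smul]
          exact (Wg H v g).add_mem φ.2 he
        have hker : (ev (Wg H v g) w).ker.map (Wg H v g).subtype ≤ (Wg H v g ⊓ Wg H v (tv w (c • e) * g) : AddSubgroup (Fin n → F)) := by
          rintro _ ⟨ψ, hψ, rfl⟩
          refine ⟨ψ.2, (Wg_tau h1 h2).2 ?_⟩
          have h3 : ψ.1 ⬝ᵥ w = 0 := hψ
          show ψ.1 + (ψ.1 ⬝ᵥ w) • (c • e) ∈ Wg H v g
          rw [h3, zero_smul, add_zero]; exact ψ.2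
        have hck : Nat.card ((ev (Wg H v g) w).ker.map (Wg H v g).subtype) = Nat.card (ev (Wg H v g) w).ker :=
          Nat.card_congr ((ev (Wg H v g) w).ker.equivMapOfInjective _ (AddSubgroup.subtype_injective _)).symm.toEquiv
        have heq := AddSubgroup.eq_of_le_of_card_ge hker (by rw [hck, hkI])
        rw [← heq] at hφI
        obtain ⟨ψ, hψ, hψφ⟩ := hφI
        have h11 : ψ = φ := Subtype.ext hψφ
        rw [h11] at hψ
        have h12 : φ.1 ⬝ᵥ w = 0 := hψ
        rw [hφw] at h12
        exact (inv_ne_zero hc0) h12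
    by_cases hex2 : ∃ φ ∈ Wg H v g, ∀ d : F, φ ≠ d • e
    · obtain ⟨φ, hφ, hd⟩ := hex2
      obtain ⟨w, h1, h2⟩ := ex2 hd he0 1 0
      have := claim w h2 φ hφ
      rwa [h1, one_smul] at this
    · push Not at hex2
      -- W ⊆ F e
      have h1 : Wg H v g ≤ (Submodule.span F {e}).toAddSubgroup := by
        intro φ hφ
        obtain ⟨d, rfl⟩ := hex2 φ hφ
        exact Submodule.smul_mem _ _ (Submodule.mem_span_singleton_self e)
      have h2 : Nat.card (Submodule.span F {e}).toAddSubgroup ≤ Nat.card (Wg H v g) := by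
        have h3 : Nat.card (Submodule.span F {e}) = Nat.card F ^ Module.finrank F (Submodule.span F {e}) := Module.natCard_eq_pow_finrank
        have h4 : Nat.card (Submodule.span F {e}).toAddSubgroup = Nat.card (Submodule.span F {e}) := Nat.card_congr (Equiv.refl _)
        rw [h4, h3, finrank_span_singleton he0, hcW]
        exact Nat.pow_le_pow_right (by omega) (by omega)
      have h5 := AddSubgroup.eq_of_le_of_card_ge h1 h2
      rw [h5]
      exact Submodule.smul_mem _ _ (Submodule.mem_span_singleton_self e)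

end dich

end Cfsg.Agent.H14.Px
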