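import Mathlib
import Cfsg.Agent.H14_PxD

set_option autoImplicit false
set_option linter.all false

/-!
Subgroups of small index in `SL_n(q)`: no transvections.
-/

namespace Cfsg.Agent.H14.Px

open Matrix Cfsg.Agent.H16.AutL MulAction

section types

variable {F : Type*} [Field F] {n : ℕ}

local notation "SLn" => Matrix.SpecialLinearGroup (Fin n) F

theorem ex_van (hn : 3 ≤ n) (φ1 φ2 : Fin n → F) : ∃ v : Fin n → F, v ≠ 0 ∧ φ1 ⬝ᵥ v = 0 ∧ φ2 ⬝ᵥ v = 0 := by
  let f : (Fin n → F) →ₗ[F] (Fin 2 → F) :=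
    { toFun := fun v => ![φ1 ⬝ᵥ v, φ2 ⬝ᵥ v]
      map_add' := fun a b => by ext i; fin_cases i <;> simp [dotProduct_add]
      map_smul' := fun c a => by ext i; fin_cases i <;> simp [dotProduct_smul] }
  have h1 : LinearMap.ker f ≠ ⊥ := LinearMap.ker_ne_bot_of_finrank_lt (by rw [Module.finrank_fin_fun, Module.finrank_fin_fun]; omega)
  obtain ⟨v, hv, hv0⟩ := (Submodule.ne_bot_iff _).1 h1
  have h2 : f v = 0 := hv
  exact ⟨v, hv0, congrFun h2 0, congrFun h2 1⟩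

theorem dualW {H : Subgroup SLn} {v φ : Fin n → F} {g : SLn} :
    φ ∈ Wg H v g ↔ v ∈ Wg (H.map (iS : MulAut SLn).toMonoidHom) φ (iS g) := by
  have h1 : φ ∈ Wg H v g ↔ -φ ∈ Wg H v g := (AddSubgroup.neg_mem_iff _).symm
  rw [h1, mem_Wg, mem_Wg]
  have e1 : (tv φ v : SLn) = iS (tv v (-φ)) := by rw [iS_tv, neg_neg]
  have e2 : (iS g)⁻¹ * tv φ v * iS g = iS (g⁻¹ * tv v (-φ) * g) := by
    rw [e1, _root_.map_mul, _root_.map_mul, _root_.map_inv]
  rw [e2]
  have e3 : iS (g⁻¹ * tv v (-φ) * g) ∈ H.map (iS : MulAut SLn).toMonoidHom ↔ g⁻¹ * tv v (-φ) * g ∈ H := by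
    constructor
    · rintro ⟨y, hy, hy'⟩
      have : y = g⁻¹ * tv v (-φ) * g := (iS : MulAut SLn).injective hy'
      rwa [← this]
    · intro h; exact ⟨_, h, rfl⟩
  rw [e3, neg_dotProduct, neg_eq_zero, dotProduct_comm]

variable [Finite F]

def TA (H : Subgroup SLn) : Prop := ∀ v : Fin n → F, v ≠ 0 → ∀ g, Nat.card F * Nat.card (Wg H v g) = Nat.card F ^ (n - 1) ∧
  ∀ e ∈ Wg H v g, ∀ c : F, c • e ∈ Wg H v g

def TB (H : Subgroup SLn) : Prop := ∀ v : Fin n → F, v ≠ 0 → ∀ g, Nat.card (Wg H v g) = 1 ∨ Nat.card (Wg H v g) = Nat.card F ^ (n - 1)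

omit [Finite F] in
theorem transport {H : Subgroup SLn} {v : Fin n → F} (x g : SLn) : Nat.card (Wg H (x.1 *ᵥ v) g) = Nat.card (Wg H v (x⁻¹ * g)) := by
  have hxx : x.1 * (x⁻¹).1 = 1 := congrArg Subtype.val (mul_inv_cancel x)
  have hxx' : (x⁻¹).1 * x.1 = 1 := congrArg Subtype.val (inv_mul_cancel x)
  have key : ∀ φ : Fin n → F, φ ᵥ* (x⁻¹).1 ∈ Wg H (x.1 *ᵥ v) g ↔ φ ∈ Wg H v (x⁻¹ * g) := by
    intro φ
    rw [mem_Wg, mem_Wg, ← conj_tv]
    have e1 : (φ ᵥ* (x⁻¹).1) ⬝ᵥ (x.1 *ᵥ v) = φ ⬝ᵥ v := by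
      rw [dotProduct_mulVec, vecMul_vecMul, hxx', vecMul_one]
    have e2 : g⁻¹ * (x * tv v φ * x⁻¹) * g = (x⁻¹ * g)⁻¹ * tv v φ * (x⁻¹ * g) := by group
    rw [e1, e2]
  refine Nat.card_congr
    { toFun := fun φ => ⟨φ.1 ᵥ* x.1, (key _).1 (by rw [vecMul_vecMul, hxx, vecMul_one]; exact φ.2)⟩
      invFun := fun φ => ⟨φ.1 ᵥ* (x⁻¹).1, (key _).2 φ.2⟩
      left_inv := fun φ => Subtype.ext (by show (φ.1 ᵥ* x.1) ᵥ* (x⁻¹).1 = φ.1; rw [vecMul_vecMul, hxx, vecMul_one])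
      right_inv := fun φ => Subtype.ext (by show (φ.1 ᵥ* (x⁻¹).1) ᵥ* x.1 = φ.1; rw [vecMul_vecMul, hxx', vecMul_one]) }

theorem types (hn : 3 ≤ n) {H : Subgroup SLn} (hH : H ≠ ⊤) (hlt : (Nat.card F - 1) * (H.index + 1) ≤ Nat.card F ^ n - 1) : TA H ∨ TB H := by
  have hq2 : 2 ≤ Nat.card F := Finite.one_lt_card
  have hv0 : (Pi.single ⟨0, by omega⟩ 1 : Fin n → F) ≠ 0 := by
    intro h
    have := congrFun h ⟨0, by omega⟩
    simp at this
  set v0 : Fin n → F := Pi.single ⟨0, by omega⟩ 1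
  rcases dich hn hH hlt hv0 with h | h
  · right
    intro v hv g
    obtain ⟨x, rfl⟩ := trans_vec (F := F) hn hv0 hv
    rw [transport]
    exact h _
  · left
    intro v hv
    rcases dich hn hH hlt hv with h' | h'
    · exfalso
      obtain ⟨x, rfl⟩ := trans_vec (F := F) hn hv0 hv
      have h1 := (h (x⁻¹ * 1)).1
      have h2 := h' 1
      rw [transport] at h2
      have h3 : Nat.card F ^ (n - 1) = Nat.card F * Nat.card F ^ (n - 2) := by
        rw [← pow_succ']; congr 1; omega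
      have h4 : 2 ≤ Nat.card F ^ (n - 2) := by
        calc 2 ≤ Nat.card F ^ 1 := by rw [pow_one]; exact hq2
          _ ≤ _ := Nat.pow_le_pow_right (by omega) (by omega)
      rw [h3] at h1 h2
      have h5 := Nat.eq_of_mul_eq_mul_left (by omega) h1
      rw [h5] at h2
      rcases h2 with h2 | h2
      · omega
      · have : 1 * Nat.card F ^ (n - 2) < Nat.card F * Nat.card F ^ (n - 2) := Nat.mul_lt_mul_of_pos_right (by omega) (by omega)
        omega
    · exact h'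

theorem exists_ne_of_card {A : AddSubgroup (Fin n → F)} (h : Nat.card A ≠ 1) : ∃ φ ∈ A, φ ≠ 0 := by
  by_contra hcon
  push Not at hcon
  apply h
  have : A = ⊥ := by rw [eq_bot_iff]; intro x hx; exact hcon x hx
  rw [this]; simp

theorem no_AA (hn : 3 ≤ n) {H H' : Subgroup SLn} (hrel : ∀ v φ : Fin n → F, φ ∈ Wg H v 1 ↔ v ∈ Wg H' φ 1) (hA : TA H) (hA' : TA H') : False := by
  have hq2 : 2 ≤ Nat.card F := Finite.one_lt_card
  have hv0 : (Pi.single ⟨0, by omega⟩ 1 : Fin n → F) ≠ 0 := by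
    intro h
    have := congrFun h ⟨0, by omega⟩
    simp at this
  set v0 : Fin n → F := Pi.single ⟨0, by omega⟩ 1
  obtain ⟨c1, c2⟩ := hA v0 hv0 1
  have hN : Nat.card F ^ (n - 1) = Nat.card F * Nat.card F ^ (n - 2) := by
    rw [← pow_succ']; congr 1; omega
  have hN2 : 2 ≤ Nat.card F ^ (n - 2) := by
    calc 2 ≤ Nat.card F ^ 1 := by rw [pow_one]; exact hq2
      _ ≤ _ := Nat.pow_le_pow_right (by omega) (by omega)
  -- ψ outside
  obtain ⟨ψ, hψ, hψW⟩ : ∃ ψ : Fin n → F, ψ ⬝ᵥ v0 = 0 ∧ ψ ∉ Wg H v0 1 := by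
    by_contra hcon
    push Not at hcon
    have e : Wg H v0 1 = (K v0).toAddSubgroup := le_antisymm (fun ψ hψ => hψ.1) (fun ψ hψ => hcon ψ hψ)
    have e2 : Nat.card (Wg H v0 1) = Nat.card F ^ (n - 1) := by
      rw [e, ← card_K hv0]; exact Nat.card_congr (Equiv.refl _)
    rw [e2] at c1
    have : 1 * Nat.card F ^ (n - 1) < Nat.card F * Nat.card F ^ (n - 1) := Nat.mul_lt_mul_of_pos_right (by omega) (by positivity)
    omega
  have hψ0 : ψ ≠ 0 := by rintro rfl; exact hψW (zero_mem _)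
  obtain ⟨w, hw, hw0⟩ := exists_ne_of_card (A := Wg H' ψ 1) (by
    intro h1
    have := (hA' ψ hψ0 1).1
    rw [h1, mul_one, hN] at this
    have h2 : Nat.card F * 1 = Nat.card F * Nat.card F ^ (n - 2) := by rw [mul_one]; exact this
    have := Nat.eq_of_mul_eq_mul_left (by omega) h2
    omega)
  have hψw := (hrel w ψ).2 hw
  have hψw0 : ψ ⬝ᵥ w = 0 := hψw.1
  have hwH : tv w ψ ∈ H := by have := hψw.2; simpa using this
  have hmem : ∀ {v φ : Fin n → F}, φ ⬝ᵥ v = 0 → (tv v φ ∈ H ↔ φ ∈ Wg H v 1) := by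
    intro v φ h
    rw [mem_Wg, inv_one, one_mul, mul_one]
    exact ⟨fun h' => ⟨h, h'⟩, fun h' => h'.2⟩
  have hzero : ∀ φ ∈ Wg H v0 1, φ ⬝ᵥ w = 0 := by
    intro φ hφ
    by_contra hne
    apply hψW
    have hφv : φ ⬝ᵥ v0 = 0 := hφ.1
    have h1 : tv v0 φ * tv w ψ * (tv v0 φ)⁻¹ = (tv (w + (φ ⬝ᵥ w) • v0) ψ : SLn) := by
      rw [tconj hφv, hψ, zero_smul, sub_zero]
    have h2 : (tv (w + (φ ⬝ᵥ w) • v0) ψ : SLn) ∈ H := by
      rw [← h1]
      exact H.mul_mem (H.mul_mem ((hmem hφv).2 hφ) hwH) (H.inv_mem ((hmem hφv).2 hφ))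
    have h3 : ψ ⬝ᵥ ((φ ⬝ᵥ w) • v0) = 0 := by rw [dotProduct_smul, hψ, smul_zero]
    rw [← tv_mul_left hψw0 h3] at h2
    have h4 : (tv ((φ ⬝ᵥ w) • v0) ψ : SLn) ∈ H := (H.mul_mem_cancel_left hwH).1 h2
    rw [tv_smul] at h4
    have h5 := (hmem (by rw [smul_dotProduct, hψ, smul_zero])).1 h4
    have h6 := c2 _ h5 (φ ⬝ᵥ w)⁻¹
    rwa [smul_smul, inv_mul_cancel₀ hne, one_smul] at h6
  by_cases hwv : ∀ c : F, w ≠ c • v0
  · -- counting
    obtain ⟨φ1, h1, h2⟩ := ex2 hwv hv0 1 0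
    rw [dotProduct_comm] at h1 h2
    let Z : AddSubgroup (Fin n → F) := (K v0).toAddSubgroup ⊓ (K w).toAddSubgroup
    have hZ : Wg H v0 1 ≤ Z := fun φ hφ => ⟨hφ.1, hzero φ hφ⟩
    have hψZ : ψ ∈ Z := ⟨hψ, hψw0⟩
    have hcard : Nat.card F * Nat.card Z ≤ Nat.card F ^ (n - 1) := by
      rw [← card_K hv0, ← Nat.card_prod]
      refine Nat.card_le_card_of_injective (fun x : F × Z => (⟨x.1 • φ1 + x.2.1, by
        show (x.1 • φ1 + x.2.1) ⬝ᵥ v0 = 0
        have : x.2.1 ⬝ᵥ v0 = 0 := x.2.2.1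
        rw [add_dotProduct, smul_dotProduct, h2, smul_zero, this, add_zero]⟩ : K v0)) ?_
      rintro ⟨a, z⟩ ⟨b, y⟩ hab
      have e1 : a • φ1 + z.1 = b • φ1 + y.1 := congrArg (fun x : K v0 => (x : Fin n → F)) hab
      have hz : z.1 ⬝ᵥ w = 0 := z.2.2
      have hy : y.1 ⬝ᵥ w = 0 := y.2.2
      have e2 := congrArg (fun x => x ⬝ᵥ w) e1
      simp only [add_dotProduct, smul_dotProduct, h1, hz, hy, smul_eq_mul, mul_one, add_zero] at e2
      subst e2
      have e3 : z.1 = y.1 := add_left_cancel e1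
      rw [Subtype.ext e3]
    rw [← c1] at hcard
    have h3 := Nat.le_of_mul_le_mul_left hcard (by omega)
    have h4 := AddSubgroup.eq_of_le_of_card_ge hZ h3
    apply hψW
    rw [h4]; exact hψZ
  · push Not at hwv
    obtain ⟨c, rfl⟩ := hwv
    have hc0 : c ≠ 0 := by rintro rfl; exact hw0 (zero_smul _ _)
    rw [tv_smul] at hwH
    have h5 := (hmem (by rw [smul_dotProduct, hψ, smul_zero])).1 hwH
    have h6 := c2 _ h5 c⁻¹
    rw [smul_smul, inv_mul_cancel₀ hc0, one_smul] at h6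
    exact hψW h6

theorem no_AB (hn : 3 ≤ n) {H H' : Subgroup SLn} (hrel : ∀ v φ : Fin n → F, φ ∈ Wg H v 1 ↔ v ∈ Wg H' φ 1) (hA : TA H) (hB : TB H') : False := by
  have hq2 : 2 ≤ Nat.card F := Finite.one_lt_card
  have hN : Nat.card F ^ (n - 1) = Nat.card F * Nat.card F ^ (n - 2) := by
    rw [← pow_succ']; congr 1; omega
  have hN2 : 2 ≤ Nat.card F ^ (n - 2) := by
    calc 2 ≤ Nat.card F ^ 1 := by rw [pow_one]; exact hq2
      _ ≤ _ := Nat.pow_le_pow_right (by omega) (by omega)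
  have hcW : ∀ v : Fin n → F, v ≠ 0 → Nat.card (Wg H v 1) = Nat.card F ^ (n - 2) := by
    intro v hv
    have := (hA v hv 1).1
    rw [hN] at this
    exact Nat.eq_of_mul_eq_mul_left (by omega) this
  have k1 : ∀ φ v : Fin n → F, φ ≠ 0 → v ≠ 0 → φ ∈ Wg H v 1 → ∀ u, φ ⬝ᵥ u = 0 → φ ∈ Wg H u 1 := by
    intro φ v hφ hv h u hu
    have h1 := (hrel v φ).1 h
    rcases hB φ hφ 1 with h2 | h2
    · exfalso
      have h3 : Wg H' φ 1 = ⊥ := AddSubgroup.eq_bot_of_card_eq _ h2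
      rw [h3] at h1
      exact hv h1
    · exact (hrel u φ).2 (full_of_card hφ h2 (by rw [dotProduct_comm]; exact hu))
  have hW0 : ∀ φ : Fin n → F, φ ∈ Wg H 0 1 := by
    intro φ
    rw [mem_Wg, tv_zero_left]
    exact ⟨by simp, by simpa using H.one_mem⟩
  let 𝓕 : Submodule F (Fin n → F) :=
    { carrier := {φ | ∀ u, φ ⬝ᵥ u = 0 → φ ∈ Wg H u 1}
      add_mem' := fun {a b} ha hb u hu => by
        by_cases h0 : a + b = 0
        · rw [h0]; exact zero_mem _
        obtain ⟨v, hv, h1, h2⟩ := ex_van hn a b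
        exact k1 (a + b) v h0 hv ((Wg H v 1).add_mem (ha v h1) (hb v h2)) u hu
      zero_mem' := fun u _ => zero_mem _
      smul_mem' := fun c a ha u hu => by
        by_cases hc : c = 0
        · rw [hc, zero_smul]; exact zero_mem _
        by_cases hu0 : u = 0
        · rw [hu0]; exact hW0 _
        rw [smul_dotProduct, smul_eq_mul] at hu
        exact (hA u hu0 1).2 _ (ha u ((mul_eq_zero.1 hu).resolve_left hc)) c }
  have hF : ∀ {φ v : Fin n → F}, v ≠ 0 → φ ∈ Wg H v 1 → φ ∈ 𝓕 := by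
    intro φ v hv h
    by_cases hφ : φ = 0
    · rw [hφ]; exact zero_mem _
    · exact k1 φ v hφ hv h
  have hv0 : (Pi.single ⟨0, by omega⟩ 1 : Fin n → F) ≠ 0 := by
    intro h
    have := congrFun h ⟨0, by omega⟩
    simp at this
  set v0 : Fin n → F := Pi.single ⟨0, by omega⟩ 1
  by_cases htop : 𝓕 = ⊤
  · have e : Wg H v0 1 = (K v0).toAddSubgroup := by
      refine le_antisymm (fun ψ hψ => hψ.1) (fun ψ hψ => ?_)
      have : ψ ∈ 𝓕 := by rw [htop]; trivial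
      exact this v0 hψ
    have e2 : Nat.card (Wg H v0 1) = Nat.card F ^ (n - 1) := by
      rw [e, ← card_K hv0]; exact Nat.card_congr (Equiv.refl _)
    rw [hcW v0 hv0, hN] at e2
    have : 1 * Nat.card F ^ (n - 2) < Nat.card F * Nat.card F ^ (n - 2) := Nat.mul_lt_mul_of_pos_right (by omega) (by omega)
    omega
  · obtain ⟨f, hf0, hf⟩ := Submodule.exists_le_ker_of_lt_top 𝓕 (lt_top_iff_ne_top.2 htop)
    let v1 : Fin n → F := fun i => f (Pi.single i 1)
    have hfv : ∀ φ : Fin n → F, f φ = φ ⬝ᵥ v1 := by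
      intro φ
      conv_lhs => rw [← Finset.univ_sum_single φ]
      rw [map_sum]
      unfold dotProduct
      refine Finset.sum_congr rfl (fun j _ => ?_)
      have : (Pi.single j (φ j) : Fin n → F) = φ j • Pi.single j 1 := by
        rw [← Pi.single_smul, smul_eq_mul, mul_one]
      rw [this, map_smul, smul_eq_mul]
    have hv1 : v1 ≠ 0 := by
      rintro h
      apply hf0
      ext φ
      simp only [LinearMap.coe_comp, Function.comp_apply, LinearMap.zero_apply]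
      rw [hfv, h, dotProduct_zero]
    have e1 : (Wg H v1 1 : Set (Fin n → F)) = 𝓕 := by
      ext φ
      constructor
      · intro h; exact hF hv1 h
      · intro h
        have h2 : f φ = 0 := hf h
        rw [hfv] at h2
        exact h v1 h2
    obtain ⟨φ, hφ, hφ0⟩ := exists_ne_of_card (A := Wg H v1 1) (by rw [hcW v1 hv1]; omega)
    obtain ⟨v, hv⟩ := ex1 hφ0
    have hv' : v ≠ 0 := by rintro rfl; rw [dotProduct_zero] at hv; exact zero_ne_one hv
    have hle : Wg H v 1 ≤ Wg H v1 1 := by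
      intro ψ hψ
      have : ψ ∈ (Wg H v1 1 : Set (Fin n → F)) := by rw [e1]; exact hF hv' hψ
      exact this
    have heq := AddSubgroup.eq_of_le_of_card_ge hle (by rw [hcW v hv', hcW v1 hv1])
    rw [← heq] at hφ
    have := hφ.1
    rw [hv] at this
    exact one_ne_zero this

theorem reduce (hn : 3 ≤ n) {H : Subgroup SLn} (hH : H ≠ ⊤) (hlt : (Nat.card F - 1) * (H.index + 1) ≤ Nat.card F ^ n - 1) :
    H.index = Nat.card F ^ (n - 1) ∧ ∀ (v φ : Fin n → F) (g : SLn), v ≠ 0 → φ ≠ 0 → φ ⬝ᵥ v = 0 → g⁻¹ * tv v φ * g ∉ H := by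
  have hq2 : 2 ≤ Nat.card F := Finite.one_lt_card
  set H' : Subgroup SLn := H.map (iS : MulAut SLn).toMonoidHom with hH'
  have hi : H'.index = H.index := Subgroup.index_map_equiv H (iS : MulAut SLn)
  have hH'top : H' ≠ ⊤ := by
    intro h
    apply hH
    rw [← Subgroup.index_eq_one] at h ⊢
    rw [← hi, h]
  have hlt' : (Nat.card F - 1) * (H'.index + 1) ≤ Nat.card F ^ n - 1 := by rw [hi]; exact hlt
  have hrel : ∀ v φ : Fin n → F, φ ∈ Wg H v 1 ↔ v ∈ Wg H' φ 1 := by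
    intro v φ
    rw [dualW, _root_.map_one]
  have hTB : TB H ∧ TB H' := by
    rcases types hn hH hlt with h | h <;> rcases types hn hH'top hlt' with h' | h'
    · exact (no_AA hn hrel h h').elim
    · exact (no_AB hn hrel h h').elim
    · exact (no_AB hn (fun v φ => (hrel φ v).symm) h' h).elim
    · exact ⟨h, h'⟩
  have hN2 : Nat.card F ^ (n - 1) ≠ 1 := by
    have : 2 ^ 1 ≤ Nat.card F ^ (n - 1) := (Nat.pow_le_pow_left hq2 1).trans (Nat.pow_le_pow_right (by omega) (by omega))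
    omega
  have hone : ∀ v : Fin n → F, v ≠ 0 → ∀ g, Nat.card (Wg H v g) = 1 := by
    intro v hv g
    rcases hTB.1 v hv g with h | h
    · exact h
    exfalso
    apply hH
    refine top_of_all hn fun w ψ hwψ => ?_
    by_cases hw : w = 0
    · rw [hw, tv_zero_left]; exact H.one_mem
    -- full at w for g
    have hfull : ∀ w : Fin n → F, w ≠ 0 → Nat.card (Wg H w g) = Nat.card F ^ (n - 1) := by
      intro w hw
      obtain ⟨φ, hφ0, h1, h2⟩ := ex_van hn v w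
      rw [dotProduct_comm] at h1 h2
      have h3 : φ ∈ Wg H v g := full_of_card hv h h1
      have h4 := dualW.1 h3
      have h5 : Nat.card (Wg H' φ (iS g)) = Nat.card F ^ (n - 1) := by
        rcases hTB.2 φ hφ0 (iS g) with h5 | h5
        · exfalso
          have h6 : Wg H' φ (iS g) = ⊥ := AddSubgroup.eq_bot_of_card_eq _ h5
          rw [h6] at h4
          exact hv h4
        · exact h5
      have h7 : w ∈ Wg H' φ (iS g) := full_of_card hφ0 h5 (by rw [dotProduct_comm]; exact h2)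
      have h8 : φ ∈ Wg H w g := dualW.2 h7
      rcases hTB.1 w hw g with h9 | h9
      · exfalso
        have h6 : Wg H w g = ⊥ := AddSubgroup.eq_bot_of_card_eq _ h9
        rw [h6] at h8
        exact hφ0 h8
      · exact h9
    -- conjugate
    have hall : ∀ w ψ : Fin n → F, ψ ⬝ᵥ w = 0 → g⁻¹ * tv w ψ * g ∈ H := by
      intro w ψ hwψ
      by_cases hw : w = 0
      · rw [hw, tv_zero_left]; simpa using H.one_mem
      · exact (full_of_card hw (hfull w hw) hwψ).2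
    have h10 := conj_tv g w ψ
    have h11 := hall (g.1 *ᵥ w) (ψ ᵥ* (g⁻¹).1) (gvm hwψ)
    rw [← h10] at h11
    have h12 : g⁻¹ * (g * tv w ψ * g⁻¹) * g = tv w ψ := by group
    rwa [h12] at h11
  have hno : ∀ (v φ : Fin n → F) (g : SLn), v ≠ 0 → φ ≠ 0 → φ ⬝ᵥ v = 0 → g⁻¹ * tv v φ * g ∉ H := by
    intro v φ g hv hφ h hmem
    have h1 : φ ∈ Wg H v g := ⟨h, hmem⟩
    have h2 : Wg H v g = ⊥ := AddSubgroup.eq_bot_of_card_eq _ (hone v hv g)
    rw [h2] at h1
    exact hφ h1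
  refine ⟨?_, hno⟩
  have hv0 : (Pi.single ⟨0, by omega⟩ 1 : Fin n → F) ≠ 0 := by
    intro h
    have := congrFun h ⟨0, by omega⟩
    simp at this
  set v0 : Fin n → F := Pi.single ⟨0, by omega⟩ 1
  obtain ⟨φ0, c1, c2, -, -⟩ := main_count hn hH hlt hv0
  obtain ⟨φ, h1, h2⟩ := ex_out (F := F) hn v0 0
  have hφ0 : φ ≠ 0 := by rintro rfl; exact h2 0 (by simp)
  have h3 := c2 φ hφ0 h1
  have h4 : Nat.card (fixedBy (SLn ⧸ H) (tv v0 φ)) = 0 := by
    rw [Nat.card_eq_zero]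
    left
    refine ⟨fun ω => ?_⟩
    obtain ⟨ω, hω⟩ := ω
    induction ω using QuotientGroup.induction_on with
    | H g => exact hno v0 φ g hv0 hφ0 h1 (fix_iff.1 hω)
  rw [h4] at h3
  rw [c1, ← h3, zero_add]

end types

end Cfsg.Agent.H14.Px
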