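import Mathlib
import Cfsg.Agent.H14_PxE

set_option autoImplicit false
set_option linter.all false

/-!
Subgroups of small index in `SL_n(q)`: the final case.
-/

namespace Cfsg.Agent.H14.Px

open Matrix Cfsg.Agent.H16.AutL MulAction

section fin

variable {F : Type*} [Field F] {n : ℕ}


/-- everything needed about the complement -/
structure Cmp (H : Subgroup (Matrix.SpecialLinearGroup (Fin n) F)) (i0 il : Fin n) (θ : (Fin n → F) → (Fin n → F)) : Prop where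
  ne : i0 ≠ il
  ex : ∀ g : Matrix.SpecialLinearGroup (Fin n) F, ∃ η : Fin n → F, η ⬝ᵥ (Pi.single i0 1) = 0 ∧ (tv (Pi.single i0 1) η * g : Matrix.SpecialLinearGroup (Fin n) F) ∈ H
  uq : ∀ (g : Matrix.SpecialLinearGroup (Fin n) F) (η η' : Fin n → F), η ⬝ᵥ (Pi.single i0 1) = 0 → η' ⬝ᵥ (Pi.single i0 1) = 0 →
    tv (Pi.single i0 1) η * g ∈ H → tv (Pi.single i0 1) η' * g ∈ H → η = η'
  no : ∀ (v φ : Fin n → F), v ≠ 0 → φ ≠ 0 → φ ⬝ᵥ v = 0 → tv v φ ∉ H
  th1 : ∀ a, θ a ⬝ᵥ (Pi.single i0 1) = 0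
  th2 : ∀ a, tv (Pi.single i0 1) (θ a) * tv a (Pi.single il 1) ∈ H

namespace Cmp

variable {H : Subgroup (Matrix.SpecialLinearGroup (Fin n) F)} {i0 il : Fin n} {θ : (Fin n → F) → (Fin n → F)} (C : Cmp H i0 il θ)
include C

theorem p1 : (Pi.single il (1 : F) : Fin n → F) ⬝ᵥ Pi.single i0 1 = 0 := by
  rw [single_dotProduct, Pi.single_eq_of_ne C.ne.symm, mul_zero]

theorem fn_ne : (Pi.single il (1 : F) : Fin n → F) ≠ 0 := by
  intro h
  have := congrFun h il
  rw [Pi.single_eq_same] at this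
  exact one_ne_zero this

omit C in
theorem fd {a : Fin n → F} : (Pi.single il (1 : F) : Fin n → F) ⬝ᵥ a = a il := by
  rw [single_dotProduct, one_mul]

/-- additivity up to the centre -/
theorem add {a a' : Fin n → F} (ha : a il = 0) (ha' : a' il = 0) :
    θ (a + a') = θ a + θ a' - (θ a' ⬝ᵥ a) • Pi.single il 1 := by
  have hfa : (Pi.single il (1 : F) : Fin n → F) ⬝ᵥ a = 0 := by rw [fd, ha]
  have hfa' : (Pi.single il (1 : F) : Fin n → F) ⬝ᵥ a' = 0 := by rw [fd, ha']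
  have h1 := tconj (v := Pi.single i0 1) (φ := θ a') hfa
  rw [C.p1, zero_smul, add_zero] at h1
  have h0 : (θ a' - (θ a' ⬝ᵥ a) • Pi.single il 1) ⬝ᵥ (Pi.single i0 1 : Fin n → F) = 0 := by
    rw [sub_dotProduct, smul_dotProduct, C.p1, C.th1, smul_zero, sub_zero]
  have h2 : (tv (Pi.single i0 1) (θ a) * tv a (Pi.single il 1)) * (tv (Pi.single i0 1) (θ a') * tv a' (Pi.single il 1)) =
      tv (Pi.single i0 1) (θ a + (θ a' - (θ a' ⬝ᵥ a) • Pi.single il 1)) * (tv (a + a') (Pi.single il 1) : (Matrix.SpecialLinearGroup (Fin n) F)) := by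
    rw [← tv_mul_right (C.th1 a) h0, ← tv_mul_left hfa hfa', ← h1]
    group
  have h3 := H.mul_mem (C.th2 a) (C.th2 a')
  rw [h2] at h3
  have h4 := C.uq _ _ _ (C.th1 (a + a')) (by rw [add_dotProduct, C.th1, h0, add_zero]) (C.th2 (a + a')) h3
  rw [h4]; abel

theorem symm {a a' : Fin n → F} (ha : a il = 0) (ha' : a' il = 0) : θ a ⬝ᵥ a' = θ a' ⬝ᵥ a := by
  have h1 := C.add ha ha'
  have h2 := C.add ha' ha
  rw [add_comm a' a, h1] at h2
  have h3 := congrFun h2 il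
  simp only [Pi.sub_apply, Pi.add_apply, Pi.smul_apply, Pi.single_eq_same, smul_eq_mul, mul_one] at h3
  linear_combination h3

theorem zero : θ 0 = 0 := by
  refine C.uq 1 _ _ (C.th1 0) (by simp) ?_ ?_
  · have := C.th2 0
    rwa [tv_zero_left] at this
  · rw [tv_zero_right, mul_one]; exact H.one_mem

theorem nv {a : Fin n → F} (ha0 : a ≠ 0) (h0 : a i0 = 0) (hl : a il = 0) : ∃ j, j ≠ i0 ∧ j ≠ il ∧ θ a j ≠ 0 := by
  by_contra hcon
  push Not at hcon
  have h1 : θ a = (θ a il) • Pi.single il 1 := by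
    ext j
    rw [Pi.smul_apply, smul_eq_mul]
    by_cases hj : j = il
    · rw [hj, Pi.single_eq_same, mul_one]
    · rw [Pi.single_eq_of_ne hj, mul_zero]
      by_cases hj0 : j = i0
      · rw [hj0]
        have := C.th1 a
        rwa [dotProduct_single, mul_one] at this
      · exact hcon j hj0 hj
  have h2 := C.th2 a
  rw [h1, ← tv_smul, tv_mul_left (by rw [dotProduct_smul, C.p1, smul_zero]) (by rw [fd, hl])] at h2
  refine C.no _ _ ?_ C.fn_ne ?_ h2
  · intro h3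
    apply ha0
    ext j
    by_cases hj : j = i0
    · rw [hj, h0]; rfl
    · have := congrFun h3 j
      simp only [Pi.add_apply, Pi.smul_apply, Pi.single_eq_of_ne hj, smul_zero, zero_add, Pi.zero_apply] at this
      rw [this]; rfl
  · rw [dotProduct_add, dotProduct_smul, C.p1, smul_zero, zero_add, fd, hl]

/-- equivariance -/
theorem eqv {g : (Matrix.SpecialLinearGroup (Fin n) F)} {α : F} (hg1 : g.1 *ᵥ (Pi.single i0 1) = α • Pi.single i0 1) (hg2 : (Pi.single il 1) ᵥ* g.1 = Pi.single il 1)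
    {a x : Fin n → F} (ha : a il = 0) (hga : (g.1 *ᵥ a) il = 0) (hgx : (g.1 *ᵥ x) il = 0) :
    θ (g.1 *ᵥ a) ⬝ᵥ (g.1 *ᵥ x) = α * (θ a ⬝ᵥ x) := by
  have hgg : g.1 * (g⁻¹).1 = 1 := congrArg Subtype.val (mul_inv_cancel g)
  have hgg' : (g⁻¹).1 * g.1 = 1 := congrArg Subtype.val (inv_mul_cancel g)
  have hg3 : (Pi.single il (1 : F) : Fin n → F) ᵥ* (g⁻¹).1 = Pi.single il 1 := by
    conv_lhs => rw [← hg2]
    rw [vecMul_vecMul, hgg, vecMul_one]
  obtain ⟨η, hη, hH⟩ := C.ex g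
  have h1 : g * (tv (Pi.single i0 1) (θ a) * tv a (Pi.single il 1)) * g⁻¹ =
      tv (Pi.single i0 1) (α • (θ a ᵥ* (g⁻¹).1)) * tv (g.1 *ᵥ a) (Pi.single il 1) := by
    have e1 : g * (tv (Pi.single i0 1) (θ a) * tv a (Pi.single il 1)) * g⁻¹ =
        (g * tv (Pi.single i0 1) (θ a) * g⁻¹) * (g * tv a (Pi.single il 1) * g⁻¹) := by group
    rw [e1, conj_tv, conj_tv, hg1, hg3, tv_smul]
  set a' := g.1 *ᵥ a with ha'
  set b := α • (θ a ᵥ* (g⁻¹).1) with hb
  have hfa' : (Pi.single il (1 : F) : Fin n → F) ⬝ᵥ a' = 0 := by rw [fd, hga]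
  have hb0 : b ⬝ᵥ (Pi.single i0 1 : Fin n → F) = 0 := by
    have h2 : (θ a ᵥ* (g⁻¹).1) ⬝ᵥ (g.1 *ᵥ (Pi.single i0 1)) = 0 := gvm (C.th1 a)
    rw [hg1, dotProduct_smul, smul_eq_mul] at h2
    rw [hb, smul_dotProduct, smul_eq_mul, h2]
  have h2 := tconj (v := a') (φ := (Pi.single il 1 : Fin n → F)) hη
  rw [C.p1, zero_smul, sub_zero] at h2
  have h3 : (tv (Pi.single i0 1) η * g) * (tv (Pi.single i0 1) (θ a) * tv a (Pi.single il 1)) * (tv (Pi.single i0 1) η * g)⁻¹ =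
      tv (Pi.single i0 1) (b + (η ⬝ᵥ a') • Pi.single il 1) * (tv a' (Pi.single il 1) : (Matrix.SpecialLinearGroup (Fin n) F)) := by
    have e1 : (tv (Pi.single i0 1) η * g) * (tv (Pi.single i0 1) (θ a) * tv a (Pi.single il 1)) * (tv (Pi.single i0 1) η * g)⁻¹ =
        tv (Pi.single i0 1) η * (g * (tv (Pi.single i0 1) (θ a) * tv a (Pi.single il 1)) * g⁻¹) * (tv (Pi.single i0 1) η : (Matrix.SpecialLinearGroup (Fin n) F))⁻¹ := by group
    rw [e1, h1]
    have e2 : (tv (Pi.single i0 1) η : (Matrix.SpecialLinearGroup (Fin n) F)) * tv (Pi.single i0 1) b = tv (Pi.single i0 1) b * tv (Pi.single i0 1) η := by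
      rw [tv_mul_right hη hb0, tv_mul_right hb0 hη, add_comm]
    have e3 : (tv (Pi.single i0 1) η : (Matrix.SpecialLinearGroup (Fin n) F)) * (tv (Pi.single i0 1) b * tv a' (Pi.single il 1)) * (tv (Pi.single i0 1) η)⁻¹ =
        tv (Pi.single i0 1) b * (tv (Pi.single i0 1) η * tv a' (Pi.single il 1) * (tv (Pi.single i0 1) η)⁻¹) := by
      rw [← mul_assoc, e2]; group
    have e4 : (tv (a' + (η ⬝ᵥ a') • Pi.single i0 1) (Pi.single il 1) : (Matrix.SpecialLinearGroup (Fin n) F)) = tv (Pi.single i0 1) ((η ⬝ᵥ a') • Pi.single il 1) * tv a' (Pi.single il 1) := by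
      rw [← tv_smul, tv_mul_left (by rw [dotProduct_smul, C.p1, smul_zero]) hfa', add_comm]
    rw [e3, h2, e4, ← mul_assoc, tv_mul_right hb0 (by rw [smul_dotProduct, C.p1, smul_zero])]
  have h4 : (tv (Pi.single i0 1) η * g) * (tv (Pi.single i0 1) (θ a) * tv a (Pi.single il 1)) * (tv (Pi.single i0 1) η * g)⁻¹ ∈ H :=
    H.mul_mem (H.mul_mem hH (C.th2 a)) (H.inv_mem hH)
  rw [h3] at h4
  have h5 := C.uq _ _ _ (C.th1 a') (by rw [add_dotProduct, hb0, smul_dotProduct, C.p1, smul_zero, add_zero]) (C.th2 a') h4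
  have e5 : ((η ⬝ᵥ a') • (Pi.single il 1 : Fin n → F)) ⬝ᵥ (g.1 *ᵥ x) = 0 := by
    rw [smul_dotProduct, single_dotProduct, hgx, mul_zero, smul_zero]
  rw [h5, add_dotProduct, e5, add_zero, hb, smul_dotProduct, smul_eq_mul]
  congr 1
  rw [dotProduct_mulVec, vecMul_vecMul, hgg', vecMul_one]

/-- transvection equivariance -/
theorem eqt {i j : Fin n} (hij : i ≠ j) (hi0 : i ≠ i0) (hil : i ≠ il) (hj0 : j ≠ i0) (hjl : j ≠ il) {a x : Fin n → F}
    (ha : a il = 0) (hx : x il = 0) :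
    θ (a + a j • Pi.single i 1) ⬝ᵥ (x + x j • Pi.single i 1) = θ a ⬝ᵥ x := by
  have hd : (Pi.single j (1 : F) : Fin n → F) ⬝ᵥ Pi.single i 1 = 0 := by
    rw [single_dotProduct, Pi.single_eq_of_ne hij.symm, mul_zero]
  have hm : ∀ y : Fin n → F, (tv (Pi.single i 1) (Pi.single j 1) : (Matrix.SpecialLinearGroup (Fin n) F)).1 *ᵥ y = y + y j • Pi.single i 1 := by
    intro y
    have := tv_mulVec hd y
    rw [single_dotProduct, one_mul] at this
    exact this
  have h1 := C.eqv (g := tv (Pi.single i 1) (Pi.single j 1)) (α := 1) (by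
      rw [hm, Pi.single_eq_of_ne hj0, zero_smul, add_zero, one_smul]) (by
      have := vecMul_tv hd (Pi.single il 1)
      rw [single_dotProduct, Pi.single_eq_of_ne hil.symm, mul_zero, zero_smul, add_zero] at this
      exact this) (a := a) (x := x) ha (by rw [hm]; simp [ha, Pi.single_eq_of_ne hil.symm]) (by rw [hm]; simp [hx, Pi.single_eq_of_ne hil.symm])
  rw [hm, hm, one_mul] at h1
  exact h1

theorem zero_coord {i j l : Fin n} (hij : i ≠ j) (hlj : l ≠ j) (hi0 : i ≠ i0) (hil : i ≠ il) (hj0 : j ≠ i0) (hjl : j ≠ il) (hl0 : l ≠ i0) (hll : l ≠ il) (c : F) :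
    θ (Pi.single l c) i = 0 := by
  have h1 := C.eqt hij hi0 hil hj0 hjl (a := Pi.single l c) (x := Pi.single j 1) (by rw [Pi.single_eq_of_ne hll.symm]) (by rw [Pi.single_eq_of_ne hjl.symm])
  rw [Pi.single_eq_of_ne hlj.symm, zero_smul, add_zero, Pi.single_eq_same, one_smul, dotProduct_add, dotProduct_single, dotProduct_single, mul_one, mul_one] at h1
  exact (add_eq_left.1 h1)

theorem big (h : ∀ l i : Fin n, ∃ j, i ≠ j ∧ l ≠ j ∧ j ≠ i0 ∧ j ≠ il) : False := by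
  obtain ⟨l, -, -, hl0, hll⟩ := h i0 i0
  obtain ⟨i, hi0, hil, hne⟩ := C.nv (a := Pi.single l 1) (by
    intro h0
    have := congrFun h0 l
    rw [Pi.single_eq_same] at this
    exact one_ne_zero this) (Pi.single_eq_of_ne hl0.symm _) (Pi.single_eq_of_ne hll.symm _)
  obtain ⟨j, h1, h2, h3, h4⟩ := h l i
  exact hne (C.zero_coord h1 h2 hi0 hil h3 h4 hl0 hll 1)

end Cmp

end fin

end Cfsg.Agent.H14.Px
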