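import Mathlib
import Cfsg.Agent.H14_PxF

set_option autoImplicit false
set_option linter.all false

/-!
Subgroups of small index in `SL_n(q)` and `PSL_n(q)`: conclusion.
-/

namespace Cfsg.Agent.H14.Px

open Matrix Cfsg.Agent.H16.AutL MulAction

section fin

variable {F : Type*} [Field F]

/-- diagonal elements -/
def dgx {n : ℕ} (a : Fin n → F) (h : ∏ i, a i = 1) : Matrix.SpecialLinearGroup (Fin n) F := ⟨Matrix.diagonal a, by rw [Matrix.det_diagonal, h]⟩

theorem dgx_mulVec {n : ℕ} (a : Fin n → F) (h : ∏ i, a i = 1) (x : Fin n → F) : (dgx a h).1 *ᵥ x = a * x := by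
  ext i
  show (Matrix.diagonal a *ᵥ x) i = _
  rw [Matrix.mulVec_diagonal]; rfl

theorem dgx_vecMul {n : ℕ} (a : Fin n → F) (h : ∏ i, a i = 1) (x : Fin n → F) : x ᵥ* (dgx a h).1 = x * a := by
  ext i
  show (x ᵥ* Matrix.diagonal a) i = _
  rw [Matrix.vecMul_diagonal]; rfl

theorem three {H : Subgroup (Matrix.SpecialLinearGroup (Fin 3) F)} {θ : (Fin 3 → F) → (Fin 3 → F)} (C : Cmp H 0 2 θ) : False := by
  set e1 : Fin 3 → F := Pi.single 1 1 with he1
  have h1l : e1 2 = 0 := Pi.single_eq_of_ne (by decide) _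
  have h10 : e1 0 = 0 := Pi.single_eq_of_ne (by decide) _
  have h11 : e1 1 = 1 := Pi.single_eq_same _ _
  have hne : e1 ≠ 0 := by
    intro h; rw [h] at h11; exact zero_ne_one h11
  obtain ⟨j, hj0, hj2, hj⟩ := C.nv hne h10 h1l
  have hj1 : j = 1 := by clear hj; revert hj0 hj2; revert j; decide
  subst hj1
  set β := θ e1 1 with hβ
  have hd : ∀ φ : Fin 3 → F, φ ⬝ᵥ e1 = φ 1 := fun φ => by rw [he1, dotProduct_single, mul_one]
  have ht : ∀ t : F, t ≠ 0 → t ^ 3 = 1 := by
    intro t ht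
    have hp : ∏ i, (![t⁻¹, t, 1] : Fin 3 → F) i = 1 := by simp [Fin.prod_univ_three, ht]
    have hge : (dgx _ hp).1 *ᵥ e1 = t • e1 := by
      rw [dgx_mulVec, he1]
      ext i; fin_cases i <;> simp [Pi.single_apply]
    have h1 := C.eqv (g := dgx _ hp) (α := t⁻¹) (by
        rw [dgx_mulVec]
        ext i; fin_cases i <;> simp [Pi.single_apply]) (by
        rw [dgx_vecMul]
        ext i; fin_cases i <;> simp [Pi.single_apply]) (a := e1) (x := e1) h1l (by rw [hge]; simp [h1l]) (by rw [hge]; simp [h1l])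
    rw [hge, dotProduct_smul, C.symm (a := t • e1) (a' := e1) (by simp [h1l]) h1l, dotProduct_smul, hd, smul_eq_mul, smul_eq_mul] at h1
    have h2 : (t ^ 3) * θ e1 1 = θ e1 1 := by
      have : t * (t * (t * θ e1 1)) = t * (t⁻¹ * θ e1 1) := by rw [h1]
      rw [mul_inv_cancel_left₀ ht] at this
      linear_combination this
    exact mul_right_cancel₀ hj (by rw [h2, one_mul])
  have h2 : (2 : F) = 0 := by
    have := ht (-1) (by simp)
    linear_combination -this
  have h3 := C.add h1l h1l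
  have h4 : e1 + e1 = 0 := by
    ext i
    show e1 i + e1 i = 0
    linear_combination (e1 i) * h2
  rw [h4, C.zero, hd] at h3
  have h5 := congrFun h3 2
  simp only [Pi.zero_apply, Pi.sub_apply, Pi.add_apply, Pi.smul_apply, Pi.single_eq_same, smul_eq_mul, mul_one] at h5
  apply hj
  linear_combination (θ e1 2) * h2 + h5

theorem four {H : Subgroup (Matrix.SpecialLinearGroup (Fin 4) F)} {θ : (Fin 4 → F) → (Fin 4 → F)} (C : Cmp H 0 3 θ)
    (hq : ∃ t : F, t ≠ 0 ∧ t ≠ 1) : False := by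
  set e1 : Fin 4 → F := Pi.single 1 1 with he1
  set e2 : Fin 4 → F := Pi.single 2 1 with he2
  have h13 : e1 3 = 0 := Pi.single_eq_of_ne (by decide) _
  have h10 : e1 0 = 0 := Pi.single_eq_of_ne (by decide) _
  have h11 : e1 1 = 1 := Pi.single_eq_same _ _
  have h12 : e1 2 = 0 := Pi.single_eq_of_ne (by decide) _
  have h23 : e2 3 = 0 := Pi.single_eq_of_ne (by decide) _
  have h21 : e2 1 = 0 := Pi.single_eq_of_ne (by decide) _
  have h22 : e2 2 = 1 := Pi.single_eq_same _ _
  have hne : e1 ≠ 0 := by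
    intro h; rw [h] at h11; exact zero_ne_one h11
  have hd1 : ∀ φ : Fin 4 → F, φ ⬝ᵥ e1 = φ 1 := fun φ => by rw [he1, dotProduct_single, mul_one]
  have hd2 : ∀ φ : Fin 4 → F, φ ⬝ᵥ e2 = φ 2 := fun φ => by rw [he2, dotProduct_single, mul_one]
  have z1 : θ e1 1 = 0 := C.zero_coord (i := 1) (j := 2) (l := 1) (by decide) (by decide) (by decide) (by decide) (by decide) (by decide) (by decide) (by decide) 1
  have z2 : θ e2 2 = 0 := C.zero_coord (i := 2) (j := 1) (l := 2) (by decide) (by decide) (by decide) (by decide) (by decide) (by decide) (by decide) (by decide) 1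
  obtain ⟨j, hj0, hj3, hj⟩ := C.nv hne h10 h13
  have hj1 : j = 1 ∨ j = 2 := by revert hj0 hj3; clear hj; revert j; decide
  rcases hj1 with rfl | rfl
  · exact hj z1
  have hs : θ e1 2 = θ e2 1 := by
    have := C.symm h13 h23
    rwa [hd1, hd2] at this
  have h1 := C.eqt (i := 1) (j := 2) (by decide) (by decide) (by decide) (by decide) (by decide) (a := e2) (x := e2) h23 h23
  rw [h22, one_smul, hd2, z2] at h1
  change θ (e2 + e1) ⬝ᵥ (e2 + e1) = 0 at h1
  rw [C.add h23 h13, dotProduct_add, hd1, hd2] at h1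
  simp only [Pi.sub_apply, Pi.add_apply, Pi.smul_apply, smul_eq_mul] at h1
  rw [z1, z2, ← hs, Pi.single_eq_of_ne (by decide : (2 : Fin 4) ≠ 3), Pi.single_eq_of_ne (by decide : (1 : Fin 4) ≠ 3)] at h1
  have h2 : (2 : F) = 0 := by
    have : 2 * θ e1 2 = 0 := by linear_combination h1
    exact (mul_eq_zero.1 this).resolve_right hj
  obtain ⟨t, ht0, ht1⟩ := hq
  have hp : ∏ i, (![t⁻¹, t, 1, 1] : Fin 4 → F) i = 1 := by simp [Fin.prod_univ_four, ht0]
  have hge1 : (dgx _ hp).1 *ᵥ e1 = t • e1 := by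
    rw [dgx_mulVec, he1]
    ext i; fin_cases i <;> simp [Pi.single_apply]
  have hge2 : (dgx _ hp).1 *ᵥ e2 = e2 := by
    rw [dgx_mulVec, he2]
    ext i; fin_cases i <;> simp [Pi.single_apply]
  have h3 := C.eqv (g := dgx _ hp) (α := t⁻¹) (by
      rw [dgx_mulVec]
      ext i; fin_cases i <;> simp [Pi.single_apply]) (by
      rw [dgx_vecMul]
      ext i; fin_cases i <;> simp [Pi.single_apply]) (a := e1) (x := e2) h13 (by rw [hge1]; simp [h13]) (by rw [hge2]; exact h23)
  rw [hge1, hge2, C.symm (a := t • e1) (a' := e2) (by simp [h13]) h23, dotProduct_smul, hd1, hd2, ← hs, smul_eq_mul] at h3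
  have h4 : t ^ 2 * θ e1 2 = θ e1 2 := by
    have : t * (t * θ e1 2) = t * (t⁻¹ * θ e1 2) := by rw [h3]
    rw [mul_inv_cancel_left₀ ht0] at this
    linear_combination this
  have h5 : t ^ 2 = 1 := mul_right_cancel₀ hj (by rw [h4, one_mul])
  have h6 : (t - 1) ^ 2 = 0 := by linear_combination h5 + (1 - t) * h2
  exact ht1 (sub_eq_zero.1 (pow_eq_zero_iff (two_ne_zero) |>.1 h6))

theorem exists_Cmp [Finite F] {n : ℕ} (hn : 3 ≤ n) {H : Subgroup (Matrix.SpecialLinearGroup (Fin n) F)} (hH : H ≠ ⊤)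
    (hlt : (Nat.card F - 1) * (H.index + 1) ≤ Nat.card F ^ n - 1) {i0 il : Fin n} (hne : i0 ≠ il) : ∃ θ, Cmp H i0 il θ := by
  obtain ⟨hi, hno⟩ := reduce hn hH hlt
  have hno' : ∀ (v φ : Fin n → F), v ≠ 0 → φ ≠ 0 → φ ⬝ᵥ v = 0 → tv v φ ∉ H := by
    intro v φ hv hφ h
    have := hno v φ 1 hv hφ h
    simpa using this
  have hv0 : (Pi.single i0 1 : Fin n → F) ≠ 0 := by
    intro h
    have := congrFun h i0
    rw [Pi.single_eq_same] at this
    exact one_ne_zero this
  have huq : ∀ (g : Matrix.SpecialLinearGroup (Fin n) F) (η η' : Fin n → F), η ⬝ᵥ (Pi.single i0 1) = 0 → η' ⬝ᵥ (Pi.single i0 1) = 0 →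
      tv (Pi.single i0 1) η * g ∈ H → tv (Pi.single i0 1) η' * g ∈ H → η = η' := by
    intro g η η' h1 h2 h3 h4
    by_contra hcon
    have h5 : (tv (Pi.single i0 1) (η - η') : Matrix.SpecialLinearGroup (Fin n) F) ∈ H := by
      have h6 := H.mul_mem h3 (H.inv_mem h4)
      have e0 : (tv (Pi.single i0 1) η' : Matrix.SpecialLinearGroup (Fin n) F)⁻¹ = tv (Pi.single i0 1) (-η') := by
        rw [inv_eq_iff_mul_eq_one, tv_mul_right h2 (by rw [neg_dotProduct, h2, neg_zero]), add_neg_cancel, tv_zero_right]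
      have e1 : tv (Pi.single i0 1) η * g * (tv (Pi.single i0 1) η' * g)⁻¹ = tv (Pi.single i0 1) (η - η') := by
        calc tv (Pi.single i0 1) η * g * (tv (Pi.single i0 1) η' * g)⁻¹ = tv (Pi.single i0 1) η * (tv (Pi.single i0 1) η')⁻¹ := by group
          _ = _ := by rw [e0, tv_mul_right h1 (by rw [neg_dotProduct, h2, neg_zero]), sub_eq_add_neg]
      rwa [e1] at h6
    exact hno' _ _ hv0 (sub_ne_zero.2 hcon) (by rw [sub_dotProduct, h1, h2, sub_zero]) h5
  let f : K (Pi.single i0 1 : Fin n → F) → (Matrix.SpecialLinearGroup (Fin n) F ⧸ H) := fun η => (tv (Pi.single i0 1) η.1 : Matrix.SpecialLinearGroup (Fin n) F)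
  have hnegv : ∀ η : Fin n → F, η ⬝ᵥ (Pi.single i0 1 : Fin n → F) = 0 → (tv (Pi.single i0 1) η : Matrix.SpecialLinearGroup (Fin n) F)⁻¹ = tv (Pi.single i0 1) (-η) := by
    intro η h
    rw [inv_eq_iff_mul_eq_one, tv_mul_right h (by rw [neg_dotProduct, h, neg_zero]), add_neg_cancel, tv_zero_right]
  have hinj : Function.Injective f := by
    intro a b hab
    have h1 : (tv (Pi.single i0 1) a.1 : Matrix.SpecialLinearGroup (Fin n) F)⁻¹ * tv (Pi.single i0 1) b.1 ∈ H := QuotientGroup.eq.1 hab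
    rw [hnegv _ a.2] at h1
    have h2 : tv (Pi.single i0 1) (-b.1) * tv (Pi.single i0 1) b.1 ∈ H := by
      rw [← hnegv _ b.2, inv_mul_cancel]; exact H.one_mem
    have h3 := huq _ (-a.1) (-b.1) (by rw [neg_dotProduct, a.2, neg_zero]) (by rw [neg_dotProduct, b.2, neg_zero]) h1 h2
    exact Subtype.ext (neg_injective h3)
  have hbij : Function.Bijective f := by
    refine (Nat.bijective_iff_injective_and_card f).2 ⟨hinj, ?_⟩
    rw [card_K hv0, ← hi]; rfl
  have hex : ∀ g : Matrix.SpecialLinearGroup (Fin n) F, ∃ η : Fin n → F, η ⬝ᵥ (Pi.single i0 1) = 0 ∧ tv (Pi.single i0 1) η * g ∈ H := by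
    intro g
    obtain ⟨η, hη⟩ := hbij.2 (g : Matrix.SpecialLinearGroup (Fin n) F ⧸ H)
    have h1 : (tv (Pi.single i0 1) η.1 : Matrix.SpecialLinearGroup (Fin n) F)⁻¹ * g ∈ H := QuotientGroup.eq.1 hη
    rw [hnegv _ η.2] at h1
    exact ⟨-η.1, by rw [neg_dotProduct, η.2, neg_zero], h1⟩
  choose θ hθ1 hθ2 using fun a : Fin n → F => hex (tv a (Pi.single il 1))
  exact ⟨θ, hne, hex, huq, hno', hθ1, hθ2⟩

theorem main_SL [Finite F] {n : ℕ} (hn : 3 ≤ n) (hexc : ¬ (n = 4 ∧ Nat.card F = 2)) {H : Subgroup (Matrix.SpecialLinearGroup (Fin n) F)} (hH : H ≠ ⊤) :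
    ¬ ((Nat.card F - 1) * (H.index + 1) ≤ Nat.card F ^ n - 1) := by
  intro hlt
  have h3 : n = 3 ∨ n = 4 ∨ 5 ≤ n := by omega
  rcases h3 with rfl | rfl | h5
  · obtain ⟨θ, C⟩ := exists_Cmp hn hH hlt (i0 := 0) (il := 2) (by decide)
    exact three C
  · obtain ⟨θ, C⟩ := exists_Cmp hn hH hlt (i0 := 0) (il := 3) (by decide)
    refine four C ?_
    by_contra hcon
    push Not at hcon
    apply hexc
    refine ⟨rfl, ?_⟩
    have h1 : 1 < Nat.card F := Finite.one_lt_card
    have h2 : Nat.card F ≤ 2 := by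
      classical
      have hinj : Function.Injective (fun x : F => (if x = 0 then (0 : Fin 2) else 1)) := by
        intro a b hab
        simp only at hab
        by_cases ha : a = 0 <;> by_cases hb : b = 0
        · rw [ha, hb]
        · rw [if_pos ha, if_neg hb] at hab; exact absurd hab (by decide)
        · rw [if_neg ha, if_pos hb] at hab; exact absurd hab (by decide)
        · rw [hcon a ha, hcon b hb]
      have := Nat.card_le_card_of_injective _ hinj
      simpa using this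
    omega
  · have hne : (⟨0, by omega⟩ : Fin n) ≠ ⟨1, by omega⟩ := by
      intro h; simp [Fin.ext_iff] at h
    obtain ⟨θ, C⟩ := exists_Cmp hn hH hlt hne
    refine C.big fun l i => ?_
    classical
    by_contra hcon
    push Not at hcon
    have hsub : (Finset.univ : Finset (Fin n)) ⊆ {i, l, ⟨0, by omega⟩, ⟨1, by omega⟩} := by
      intro j _
      simp only [Finset.mem_insert, Finset.mem_singleton]
      by_cases h1 : i = j
      · exact Or.inl h1.symm
      by_cases h2 : l = j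
      · exact Or.inr (Or.inl h2.symm)
      by_cases h3 : j = ⟨0, by omega⟩
      · exact Or.inr (Or.inr (Or.inl h3))
      exact Or.inr (Or.inr (Or.inr (hcon j h1 h2 h3)))
    have h6 := Finset.card_le_card hsub
    rw [Finset.card_univ, Fintype.card_fin] at h6
    have h7 : ({i, l, ⟨0, by omega⟩, ⟨1, by omega⟩} : Finset (Fin n)).card ≤ 4 := Finset.card_le_four
    omega

end fin

theorem s2140 {F : Type*} [Field F] [Fintype F] {q : ℕ} (hF : Fintype.card F = q) (n : ℕ) (hn : 3 ≤ n) (hexc : ¬ (n = 4 ∧ q = 2)) : (∀ H : Subgroup (Matrix.ProjectiveSpecialLinearGroup (Fin n) F), H ≠ ⊤ → (q ^ n - 1) / (q - 1) ≤ H.index) ∧ (∃ H : Subgroup (Matrix.ProjectiveSpecialLinearGroup (Fin n) F), H.index = (q ^ n - 1) / (q - 1)) := by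
  have hcF : Nat.card F = q := by rw [Nat.card_eq_fintype_card, hF]
  constructor
  · intro H hH
    by_contra hcon
    push Not at hcon
    let π : Matrix.SpecialLinearGroup (Fin n) F →* Matrix.ProjectiveSpecialLinearGroup (Fin n) F := QuotientGroup.mk' _
    have hs : Function.Surjective π := QuotientGroup.mk'_surjective _
    have hi : (H.comap π).index = H.index := Subgroup.index_comap_of_surjective H hs
    have hne : H.comap π ≠ ⊤ := by
      intro h
      apply hH
      rw [← Subgroup.index_eq_one] at h ⊢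
      rw [← hi, h]
    refine main_SL (F := F) hn (by rw [hcF]; exact hexc) hne ?_
    rw [hi, hcF]
    calc (q - 1) * (H.index + 1) ≤ (q - 1) * ((q ^ n - 1) / (q - 1)) := Nat.mul_le_mul_left _ hcon
      _ ≤ q ^ n - 1 := Nat.mul_div_le _ _
  · have hv : (Pi.single ⟨0, by omega⟩ 1 : Fin n → F) ≠ 0 := by
      intro h
      have := congrFun h ⟨0, by omega⟩
      simp at this
    refine ⟨stabilizer (Matrix.ProjectiveSpecialLinearGroup (Fin n) F) (Projectivization.mk F _ hv), ?_⟩
    rw [index_stabilizer_of_transitive, Projectivization.card'', hcF]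
    congr 2
    rw [Nat.card_fun, hcF, Nat.card_eq_fintype_card, Fintype.card_fin]

end Cfsg.Agent.H14.Px
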