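import Mathlib
import Cfsg.Agent.H14_Schur2

set_option autoImplicit false

/-!
Schur multipliers, prime 2: involutions lifting to involutions, splitting over `E : T` with the help of an element
of order 3; prime 3: extraspecial Sylow subgroup of order 27.
-/

namespace Cfsg.Agent.H14.Schur

open Subgroup Cfsg
open scoped Pointwise commutatorElement

universe u v

section

variable {Γ : Type u} {G : Type v} [Group Γ] [Group G] [Finite Γ] {σ : Γ →* G}

omit [Finite Γ] in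
theorem sq_of_ker (hcard : Nat.card σ.ker = 2) {z : Γ} (hz : z ∈ σ.ker) : z * z = 1 := by
  have : (⟨z, hz⟩ : σ.ker) ^ Nat.card σ.ker = 1 := pow_card_eq_one'
  rw [hcard, pow_two] at this
  exact congrArg Subtype.val this

omit [Finite Γ] in
theorem eq_of_ne_one (hcard : Nat.card σ.ker = 2) {z w : Γ} (hz : z ∈ σ.ker) (hw : w ∈ σ.ker) (hz1 : z ≠ 1)
    (hw1 : w ≠ 1) : z = w := by
  obtain ⟨a, b, hab, hu⟩ := Nat.card_eq_two_iff.1 hcard
  have h1 : (1 : σ.ker) ∈ ({a, b} : Set σ.ker) := by rw [hu]; trivial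
  have h2 : (⟨z, hz⟩ : σ.ker) ∈ ({a, b} : Set σ.ker) := by rw [hu]; trivial
  have h3 : (⟨w, hw⟩ : σ.ker) ∈ ({a, b} : Set σ.ker) := by rw [hu]; trivial
  have hz1' : (⟨z, hz⟩ : σ.ker) ≠ 1 := fun h => hz1 (congrArg Subtype.val h)
  have hw1' : (⟨w, hw⟩ : σ.ker) ≠ 1 := fun h => hw1 (congrArg Subtype.val h)
  have h4 : (⟨z, hz⟩ : σ.ker) = ⟨w, hw⟩ := by
    rcases h1 with h1 | h1
    · have h2' : (⟨z, hz⟩ : σ.ker) = b := h2.resolve_left (fun h => hz1' (h.trans h1.symm))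
      have h3' : (⟨w, hw⟩ : σ.ker) = b := h3.resolve_left (fun h => hw1' (h.trans h1.symm))
      rw [h2', h3']
    · have h2' : (⟨z, hz⟩ : σ.ker) = a := h2.resolve_right (fun h => hz1' (h.trans h1.symm))
      have h3' : (⟨w, hw⟩ : σ.ker) = a := h3.resolve_right (fun h => hw1' (h.trans h1.symm))
      rw [h2', h3']
  exact congrArg Subtype.val h4

/-- all lifts of `t` are involutions (or trivial) -/
def Good (σ : Γ →* G) (t : G) : Prop := ∀ x : Γ, σ x = t → x * x = 1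

omit [Finite Γ] in
theorem good_of_lift (hc : σ.ker ≤ center Γ) (hcard : Nat.card σ.ker = 2) {x : Γ} (hx : x * x = 1) : Good σ (σ x) := by
  intro y hy
  obtain ⟨z, hz, hzk, rfl⟩ := eq_mul_ker hc hy
  have h : ∀ g, g * z = z * g := fun g => Subgroup.mem_center_iff.1 hz g
  calc x * z * (x * z) = x * (z * x) * z := by group
    _ = (x * x) * (z * z) := by rw [← h]; group
    _ = 1 := by rw [hx, sq_of_ker hcard hzk, one_mul]

omit [Finite Γ] in
theorem good_conj (hs : Function.Surjective σ) (hc : σ.ker ≤ center Γ) (hcard : Nat.card σ.ker = 2) {t : G}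
    (h : Good σ t) (g : G) : Good σ (g * t * g⁻¹) := by
  obtain ⟨x, rfl⟩ := hs t
  obtain ⟨y, rfl⟩ := hs g
  have h1 := h x rfl
  have h2 : (y * x * y⁻¹) * (y * x * y⁻¹) = 1 := by
    calc (y * x * y⁻¹) * (y * x * y⁻¹) = y * (x * x) * y⁻¹ := by group
      _ = 1 := by rw [h1, mul_one, mul_inv_cancel]
  have := good_of_lift hc hcard h2
  rwa [map_mul, map_mul, map_inv] at this

omit [Finite Γ] in
theorem comm_of_good {s t : G} (hs : Good σ s) (ht : Good σ t) (hst : Good σ (s * t)) {x y : Γ} (hx : σ x = s)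
    (hy : σ y = t) : x * y = y * x := by
  have h1 := hs x hx
  have h2 := ht y hy
  have h3 := hst (x * y) (by rw [map_mul, hx, hy])
  have h4 : x⁻¹ = x := inv_eq_of_mul_eq_one_left h1
  have h5 : y⁻¹ = y := inv_eq_of_mul_eq_one_left h2
  have h6 : (x * y)⁻¹ = x * y := inv_eq_of_mul_eq_one_left h3
  rw [mul_inv_rev, h4, h5] at h6
  exact h6.symm

omit [Finite Γ] in
theorem good_mul (hs' : Function.Surjective σ) {s t : G} (hs : Good σ s) (ht : Good σ t)
    (hst : ∀ x y : Γ, σ x = s → σ y = t → x * y = y * x) (hc : σ.ker ≤ center Γ) (hcard : Nat.card σ.ker = 2) :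
    Good σ (s * t) := by
  obtain ⟨x, rfl⟩ := hs' s
  obtain ⟨y, rfl⟩ := hs' t
  have h : x * y * (x * y) = 1 := by
    calc x * y * (x * y) = x * (y * x) * y := by group
      _ = (x * x) * (y * y) := by rw [← hst x y rfl rfl]; group
      _ = 1 := by rw [hs x rfl, ht y rfl, one_mul]
  have := good_of_lift hc hcard h
  rwa [map_mul] at this

omit [Finite Γ] in
/-- a conjugacy class of involutions containing all nontrivial elements of a subgroup of order 8 is good -/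
theorem good_of_eight (hs : Function.Surjective σ) (hc : σ.ker ≤ center Γ) (hcard : Nat.card σ.ker = 2)
    (e f g : G) (he : e * e = 1) (hf : f * f = 1) (hg : g * g = 1) (hef : e * f * (e * f) = 1)
    (heg : e * g * (e * g) = 1) (hefg : e * (f * g) * (e * (f * g)) = 1) (hfg : f * g * (f * g) = 1)
    (c1 : IsConj e f) (c2 : IsConj e g) (c3 : IsConj e (e * f)) (c4 : IsConj e (e * g)) (c5 : IsConj e (f * g))
    (c6 : IsConj e (e * (f * g))) : Good σ e := by
  by_contra hbad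
  obtain ⟨x, hx, hxx⟩ : ∃ x : Γ, σ x = e ∧ x * x ≠ 1 := by
    unfold Good at hbad; push Not at hbad; exact hbad
  set z := x * x with hz
  have hzk : z ∈ σ.ker := by rw [MonoidHom.mem_ker, hz, map_mul, hx, he]
  -- all squares of lifts of conjugates are z
  have key : ∀ t : G, IsConj e t → t * t = 1 → ∀ y : Γ, σ y = t → y * y = z := by
    intro t ht htt y hy
    have hyk : y * y ∈ σ.ker := by rw [MonoidHom.mem_ker, map_mul, hy, htt]
    refine (eq_of_ne_one hcard hzk hyk hxx ?_).symm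
    intro hyy
    have h1 : Good σ t := by rw [← hy]; exact good_of_lift hc hcard hyy
    obtain ⟨g, hg⟩ := isConj_iff.1 ht
    have h2 := good_conj hs hc hcard h1 g⁻¹
    have h3 : g⁻¹ * t * g⁻¹⁻¹ = e := by rw [← hg]; group
    rw [h3] at h2
    exact hxx (h2 x hx)
  have hzc : ∀ g, g * z = z * g := fun g => Subgroup.mem_center_iff.1 (hc hzk) g
  have hzz := sq_of_ker hcard hzk
  -- anticommutation
  have anti : ∀ y : Γ, ∀ t : G, σ y = t → IsConj e t → t * t = 1 → IsConj e (e * t) → e * t * (e * t) = 1 →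
      x * y = z * (y * x) := by
    intro y t hy h1 h2 h3 h4
    have e1 := key t h1 h2 y hy
    have e2 := key (e * t) h3 h4 (x * y) (by rw [map_mul, hx, hy])
    -- x y x y = z, so x y = z y⁻¹ x⁻¹ = z (z y) (z x)
    have e3 : y⁻¹ = y * z := by
      rw [inv_eq_iff_mul_eq_one, ← mul_assoc, e1, hzz]
    have e4 : x⁻¹ = x * z := by
      rw [inv_eq_iff_mul_eq_one, ← mul_assoc, ← hz, hzz]
    have e5 : x * y = z * (y⁻¹ * x⁻¹) := by
      rw [← e2]; group
    rw [e5, e3, e4]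
    calc z * (y * z * (x * z)) = z * (y * (z * x) * z) := by group
      _ = z * (y * x) * (z * z) := by rw [← hzc x]; group
      _ = z * (y * x) := by rw [hzz, mul_one]
  obtain ⟨y, hy⟩ := hs f
  obtain ⟨w, hw⟩ := hs g
  have a1 := anti y f hy c1 hf c3 hef
  have a2 := anti w g hw c2 hg c4 heg
  have a3 := anti (y * w) (f * g) (by rw [map_mul, hy, hw]) c5 hfg c6 hefg
  have a4 : x * (y * w) = y * w * x := by
    calc x * (y * w) = (x * y) * w := by group
      _ = z * y * (x * w) := by rw [a1]; group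
      _ = z * y * z * (w * x) := by rw [a2]; group
      _ = (z * z) * (y * w * x) := by rw [mul_assoc z y z, hzc y]; group
      _ = y * w * x := by rw [hzz, one_mul]
  rw [a4] at a3
  have : z = 1 := by
    have h := a3.symm
    nth_rw 2 [← one_mul (y * w * x)] at h
    exact mul_right_cancel h
  exact hxx this

/-- the splitting argument for `E : T` -/
theorem false_of_Ed (hσ : IsStemExtension σ) (hcard : Nat.card σ.ker = 2) (E T : Subgroup G) (d : G) (hd : d ^ 3 = 1)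
    (hEab : ∀ x y : Γ, σ x ∈ E → σ y ∈ E → x * y = y * x)
    (hdE : ∀ e ∈ E, d * e * d⁻¹ ∈ E)
    (hgen : ∀ e ∈ E, ∃ x ∈ E, x * d * x⁻¹ * d⁻¹ = e)
    (hTE : ∀ t ∈ T, ∀ e ∈ E, t * e * t⁻¹ ∈ E)
    (hTd : ∀ t ∈ T, t * d * t⁻¹ = d ∨ t * d * t⁻¹ = d⁻¹)
    (hTE1 : ∀ t ∈ T, t ∈ E → t = 1)
    (S0 : Subgroup Γ) (hS0 : S0.map σ = T) (hS01 : ∀ x ∈ S0, σ x = 1 → x = 1)
    (hQ : IsPGroup 2 (E ⊔ T : Subgroup G)) (hQi : ¬ 2 ∣ (E ⊔ T).index) : False := by
  obtain ⟨hs, hc, _⟩ := id hσ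
  obtain ⟨d0, hd0⟩ := hs d
  set δ := d0 ^ 4 with hδ
  have hσδ : σ δ = d := by
    rw [hδ, map_pow, hd0, show (4 : ℕ) = 3 + 1 from rfl, pow_succ, hd, one_mul]
  have hδ3 : δ ^ 3 = 1 := by
    have h1 : d0 ^ 3 ∈ σ.ker := by rw [MonoidHom.mem_ker, map_pow, hd0, hd]
    have h2 := sq_of_ker hcard h1
    rw [hδ, ← pow_mul, show 4 * 3 = 3 * 2 * 2 by norm_num, pow_mul, pow_mul, pow_two (d0 ^ 3), h2, one_pow]
  -- conjugation by δ preserves the preimage of E
  have hδE : ∀ x, σ x ∈ E → σ (δ * x * δ⁻¹) ∈ E := by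
    intro x hx
    rw [map_mul, map_mul, map_inv, hσδ]
    exact hdE _ hx
  have hδE' : ∀ x, σ x ∈ E → σ (δ⁻¹ * x * δ) ∈ E := by
    intro x hx
    have h1 := hδE _ (hδE x hx)
    have h2 : δ * (δ * x * δ⁻¹) * δ⁻¹ = δ⁻¹ * x * δ := by
      have h3 : δ * δ = δ⁻¹ := by
        rw [eq_inv_iff_mul_eq_one, ← hδ3, pow_succ, pow_two]
      calc δ * (δ * x * δ⁻¹) * δ⁻¹ = (δ * δ) * x * (δ * δ)⁻¹ := by group
        _ = δ⁻¹ * x * δ := by rw [h3, inv_inv]
    rwa [h2] at h1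
  -- kappa
  let κ : Γ → Γ := fun x => x * δ * x⁻¹ * δ⁻¹
  have hκE : ∀ x, σ x ∈ E → σ (κ x) ∈ E := by
    intro x hx
    have h1 := hδE x⁻¹ (by rw [map_inv]; exact inv_mem hx)
    have h2 : κ x = x * (δ * x⁻¹ * δ⁻¹) := by simp only [κ]; group
    rw [h2, map_mul]
    exact mul_mem hx h1
  have hκmul : ∀ x y, σ x ∈ E → σ y ∈ E → κ x * κ y = κ (x * y) := by
    intro x y hx hy
    have h1 : κ (x * y) = x * κ y * (δ * x⁻¹ * δ⁻¹) := by simp only [κ]; group
    have h2 := hEab (κ y) (δ * x⁻¹ * δ⁻¹) (hκE y hy) (hδE _ (by rw [map_inv]; exact inv_mem hx))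
    have h3 : κ x = x * (δ * x⁻¹ * δ⁻¹) := by simp only [κ]; group
    rw [h1, h3, mul_assoc x (κ y), h2, mul_assoc x]
  have hκinv : ∀ x, σ x ∈ E → (κ x)⁻¹ = κ x⁻¹ := by
    intro x hx
    rw [inv_eq_iff_mul_eq_one, hκmul x x⁻¹ hx (by rw [map_inv]; exact inv_mem hx), mul_inv_cancel]
    simp [κ]
  have hκ1 : ∀ x, σ (κ x) = 1 → κ x = 1 := by
    intro x hx
    have hk : κ x ∈ σ.ker := hx
    have hkc : ∀ g, g * κ x = κ x * g := fun g => Subgroup.mem_center_iff.1 (hc hk) g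
    have hkk := sq_of_ker hcard hk
    obtain ⟨k, hkdef⟩ : ∃ k, k = κ x := ⟨_, rfl⟩
    rw [← hkdef] at hkc hkk ⊢
    -- x δ x⁻¹ = k δ
    have h1 : x * δ * x⁻¹ = k * δ := by rw [hkdef]; simp only [κ]; group
    have h2 : (x * δ * x⁻¹) ^ 3 = 1 := by
      rw [conj_pow, hδ3, mul_one, mul_inv_cancel]
    have h3 : Commute k δ := (hkc δ).symm
    rw [h1, h3.mul_pow, hδ3, mul_one, pow_succ, pow_two, hkk, one_mul] at h2
    exact h2
  -- S0 normalizes the range of κ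
  have hnorm : ∀ s, σ s ∈ T → ∀ x, σ x ∈ E → ∃ y, σ y ∈ E ∧ s * κ x * s⁻¹ = κ y := by
    intro s hsT x hx
    have hx' : σ (s * x * s⁻¹) ∈ E := by
      rw [map_mul, map_mul, map_inv]; exact hTE _ hsT _ hx
    rcases hTd _ hsT with h | h
    · obtain ⟨z, hz, _, hz'⟩ := eq_mul_ker hc (x := s * δ * s⁻¹) (y := δ) (by
        rw [map_mul, map_mul, map_inv, hσδ, h])
      refine ⟨s * x * s⁻¹, hx', ?_⟩
      have h1 : s * κ x * s⁻¹ = (s * x * s⁻¹) * (s * δ * s⁻¹) * (s * x * s⁻¹)⁻¹ * (s * δ * s⁻¹)⁻¹ := by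
        simp only [κ]; group
      rw [h1, ← commutatorElement_def, hz', comm_mul_right hz]
      rfl
    · obtain ⟨z, hz, _, hz'⟩ := eq_mul_ker hc (x := s * δ * s⁻¹) (y := δ⁻¹) (by
        rw [map_mul, map_mul, map_inv, map_inv, hσδ, h])
      set x' := s * x * s⁻¹ with hx'def
      have hx'' : σ (δ⁻¹ * x' * δ) ∈ E := hδE' _ hx'
      refine ⟨(δ⁻¹ * x' * δ)⁻¹, by rw [map_inv]; exact inv_mem hx'', ?_⟩
      have h1 : s * κ x * s⁻¹ = x' * (s * δ * s⁻¹) * x'⁻¹ * (s * δ * s⁻¹)⁻¹ := by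
        simp only [κ, hx'def]; group
      rw [h1, ← commutatorElement_def, hz', comm_mul_right hz, ← hκinv _ hx'']
      simp only [κ, commutatorElement_def]; group
  let N : Subgroup Γ :=
    { carrier := {y | ∃ x s, σ x ∈ E ∧ s ∈ S0 ∧ y = κ x * s}
      one_mem' := ⟨1, 1, by rw [map_one]; exact one_mem _, one_mem _, by simp [κ]⟩
      mul_mem' := by
        rintro _ _ ⟨x, s, hx, hsS, rfl⟩ ⟨x2, s2, hx2, hs2, rfl⟩
        obtain ⟨y, hy, hy'⟩ := hnorm s (by rw [← hS0]; exact ⟨s, hsS, rfl⟩) x2 hx2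
        refine ⟨x * y, s * s2, by rw [map_mul]; exact mul_mem hx hy, mul_mem hsS hs2, ?_⟩
        rw [← hκmul x y hx hy, ← hy']; group
      inv_mem' := by
        rintro _ ⟨x, s, hx, hsS, rfl⟩
        obtain ⟨y, hy, hy'⟩ := hnorm s⁻¹ (by rw [← hS0]; exact ⟨s⁻¹, inv_mem hsS, rfl⟩) x⁻¹
          (by rw [map_inv]; exact inv_mem hx)
        refine ⟨y, s⁻¹, hy, inv_mem hsS, ?_⟩
        rw [← hy', ← hκinv x hx]; group }
  refine false_of_split σ hσ hcard _ hQ hQi N ?_ ?_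
  · rw [sup_le_iff]
    constructor
    · intro e he
      obtain ⟨x, hx, hxe⟩ := hgen e he
      obtain ⟨x', rfl⟩ := hs x
      refine ⟨κ x' * 1, ⟨x', 1, hx, one_mem _, rfl⟩, ?_⟩
      rw [mul_one, ← hxe]
      simp only [κ, map_mul, map_inv, hσδ]
    · rw [← hS0]
      rintro _ ⟨s, hsS, rfl⟩
      exact ⟨s, ⟨1, s, by rw [map_one]; exact one_mem _, hsS, by simp [κ]⟩, rfl⟩
  · rintro _ ⟨x, s, hx, hsS, rfl⟩ h1
    rw [map_mul] at h1
    have h2 : σ s ∈ T := by rw [← hS0]; exact ⟨s, hsS, rfl⟩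
    have h3 : σ s = (σ (κ x))⁻¹ := eq_inv_of_mul_eq_one_right h1
    have h4 : σ s = 1 := hTE1 _ h2 (by rw [h3]; exact inv_mem (hκE x hx))
    have h5 := hS01 s hsS h4
    rw [h4, mul_one] at h1
    rw [h5, mul_one]
    exact hκ1 x h1

/-! ### the complement `T` -/

omit [Finite Γ] in
/-- dihedral group of order 8: lifts -/
theorem inj_dih8 {a b : Γ} (ha : a ^ 4 = 1) (hb : b * b = 1) (hab : b * a * b⁻¹ = a⁻¹)
    (hσa : orderOf (σ a) = 4) (hσb : σ b ∉ zpowers (σ a)) :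
    ∀ x ∈ closure ({a, b} : Set Γ), σ x = 1 → x = 1 := by
  have hform : ∀ x ∈ closure ({a, b} : Set Γ), (∃ i : ℤ, x = a ^ i) ∨ (∃ i : ℤ, x = a ^ i * b) := by
    have hba : ∀ i : ℤ, b * a ^ i = a ^ (-i) * b := by
      intro i
      have h1 : b * a ^ i * b⁻¹ = (b * a * b⁻¹) ^ i := (conj_zpow).symm
      rw [hab, inv_zpow, ← zpow_neg] at h1
      rw [← h1]; group
    have hbi : b⁻¹ = b := inv_eq_of_mul_eq_one_left hb
    intro x hx
    induction hx using Subgroup.closure_induction with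
    | mem x hx =>
      rcases hx with rfl | rfl
      · exact Or.inl ⟨1, by rw [zpow_one]⟩
      · exact Or.inr ⟨0, by rw [zpow_zero, one_mul]⟩
    | one => exact Or.inl ⟨0, by rw [zpow_zero]⟩
    | mul x y _ _ h1 h2 =>
      rcases h1 with ⟨i, rfl⟩ | ⟨i, rfl⟩ <;> rcases h2 with ⟨j, rfl⟩ | ⟨j, rfl⟩
      · exact Or.inl ⟨i + j, by rw [zpow_add]⟩
      · exact Or.inr ⟨i + j, by rw [zpow_add, mul_assoc]⟩
      · exact Or.inr ⟨i + -j, by rw [mul_assoc, hba, zpow_add, mul_assoc]⟩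
      · refine Or.inl ⟨i + -j, ?_⟩
        calc a ^ i * b * (a ^ j * b) = a ^ i * (b * a ^ j) * b := by group
          _ = a ^ i * a ^ (-j) * (b * b) := by rw [hba]; group
          _ = a ^ (i + -j) := by rw [hb, mul_one, zpow_add]
    | inv x _ h1 =>
      rcases h1 with ⟨i, rfl⟩ | ⟨i, rfl⟩
      · exact Or.inl ⟨-i, by rw [zpow_neg]⟩
      · refine Or.inr ⟨i, ?_⟩
        rw [mul_inv_rev, hbi, ← zpow_neg, hba, neg_neg]
  intro x hx h1
  rcases hform x hx with ⟨i, rfl⟩ | ⟨i, rfl⟩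
  · rw [map_zpow, ← orderOf_dvd_iff_zpow_eq_one, hσa] at h1
    obtain ⟨k, rfl⟩ := h1
    have : a ^ (4 : ℤ) = 1 := by rw [show (4 : ℤ) = ((4 : ℕ) : ℤ) from rfl, zpow_natCast, ha]
    push_cast
    rw [zpow_mul, this, one_zpow]
  · exfalso
    apply hσb
    rw [map_mul, map_zpow] at h1
    have h2 : σ b = (σ a ^ i)⁻¹ := eq_inv_of_mul_eq_one_right h1
    rw [h2]
    exact inv_mem (zpow_mem (mem_zpowers _) _)

omit [Finite Γ] in
/-- adding a central involution -/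
theorem inj_sup {S : Set Γ} {c : Γ} (hS : ∀ x ∈ closure S, σ x = 1 → x = 1) (hc : c * c = 1)
    (hcomm : ∀ s ∈ S, c * s = s * c) (hσc : σ c ∉ closure (σ '' S)) :
    ∀ x ∈ closure (insert c S), σ x = 1 → x = 1 := by
  have hcom' : ∀ s ∈ closure S, c * s = s * c := by
    intro s hs
    induction hs using Subgroup.closure_induction with
    | mem x hx => exact hcomm x hx
    | one => simp
    | mul x y _ _ h1 h2 => rw [← mul_assoc, h1, mul_assoc, h2, mul_assoc]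
    | inv x _ h1 =>
      rw [eq_inv_mul_iff_mul_eq, ← mul_assoc, ← h1, mul_inv_cancel_right]
  have hci : c⁻¹ = c := inv_eq_of_mul_eq_one_left hc
  have hform : ∀ x ∈ closure (insert c S), ∃ s ∈ closure S, x = s ∨ x = s * c := by
    intro x hx
    induction hx using Subgroup.closure_induction with
    | mem x hx =>
      rcases hx with rfl | hx
      · exact ⟨1, one_mem _, Or.inr (by rw [one_mul])⟩
      · exact ⟨x, subset_closure hx, Or.inl rfl⟩
    | one => exact ⟨1, one_mem _, Or.inl rfl⟩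
    | mul x y _ _ h1 h2 =>
      obtain ⟨s, hs, h1⟩ := h1
      obtain ⟨t, ht, h2⟩ := h2
      refine ⟨s * t, mul_mem hs ht, ?_⟩
      rcases h1 with rfl | rfl <;> rcases h2 with rfl | rfl
      · exact Or.inl rfl
      · exact Or.inr (by rw [mul_assoc])
      · exact Or.inr (by rw [mul_assoc, hcom' _ ht, mul_assoc])
      · left
        calc s * c * (t * c) = s * (c * t) * c := by group
          _ = s * t * (c * c) := by rw [hcom' _ ht]; group
          _ = s * t := by rw [hc, mul_one]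
    | inv x _ h1 =>
      obtain ⟨s, hs, h1⟩ := h1
      refine ⟨s⁻¹, inv_mem hs, ?_⟩
      rcases h1 with rfl | rfl
      · exact Or.inl rfl
      · right
        rw [mul_inv_rev, hci, hcom' _ (inv_mem hs)]
  intro x hx h1
  obtain ⟨s, hs, h2⟩ := hform x hx
  rcases h2 with rfl | rfl
  · exact hS _ hs h1
  · exfalso
    apply hσc
    rw [map_mul] at h1
    have h2 : σ c = (σ s)⁻¹ := eq_inv_of_mul_eq_one_right h1
    rw [h2]
    apply inv_mem
    rw [← MonoidHom.map_closure]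
    exact ⟨s, hs, rfl⟩

/-! ### extraspecial Sylow 3-subgroup -/

theorem false_of_extraspecial (hσ : IsStemExtension σ) (hcard : Nat.card σ.ker = 3)
    (x y c g : G) (hx3 : x ^ 3 = 1) (hc3 : orderOf c = 3) (hxy : ⁅x, y⁆ = c) (hxc : x * c = c * x) (hyc : y * c = c * y)
    (i j : ℕ) (hgx : g * x * g⁻¹ = x⁻¹ * c ^ i) (hgy : g * y * g⁻¹ = y⁻¹ * c ^ j)
    (hQ : IsPGroup 3 (closure ({x, y} : Set G))) (hQi : ¬ 3 ∣ (closure ({x, y} : Set G)).index) : False := by
  obtain ⟨hs, hc, hd⟩ := id hσ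
  have hp3 : Fact (Nat.Prime 3) := ⟨by norm_num⟩
  obtain ⟨x', rfl⟩ := hs x
  obtain ⟨y', rfl⟩ := hs y
  obtain ⟨g', rfl⟩ := hs g
  set c' := ⁅x', y'⁆ with hc'
  have hσc : σ c' = c := by rw [hc', map_commutatorElement, hxy]
  have hcube : ∀ z ∈ σ.ker, z ^ 3 = 1 := by
    intro z hz
    have : (⟨z, hz⟩ : σ.ker) ^ Nat.card σ.ker = 1 := pow_card_eq_one'
    rw [hcard] at this
    exact congrArg Subtype.val this
  obtain ⟨z1, hz1, _, h1⟩ := eq_mul_ker hc (x := g' * x' * g'⁻¹) (y := x'⁻¹ * c' ^ i) (by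
    rw [map_mul, map_mul, map_inv, map_mul, map_inv, map_pow, hσc, hgx])
  obtain ⟨z2, hz2, _, h2⟩ := eq_mul_ker hc (x := g' * y' * g'⁻¹) (y := y'⁻¹ * c' ^ j) (by
    rw [map_mul, map_mul, map_inv, map_mul, map_inv, map_pow, hσc, hgy])
  -- g centralizes c
  have hgc : σ (g' * c' * g'⁻¹) = σ c' := by
    have e1 : g' * c' * g'⁻¹ = ⁅g' * x' * g'⁻¹, g' * y' * g'⁻¹⁆ := by
      simp only [hc', commutatorElement_def]; group
    rw [e1, h1, h2, comm_mul_left hz1, comm_mul_right hz2, map_commutatorElement, map_mul, map_mul, map_inv, map_inv,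
      map_pow, map_pow, hσc]
    -- ⁅x⁻¹ c^i, y⁻¹ c^j⁆ = c
    have cx : Commute (σ x') c := hxc
    have cy : Commute (σ y') c := hyc
    have e2 : ⁅(σ x')⁻¹ * c ^ i, (σ y')⁻¹ * c ^ j⁆ = ⁅(σ x')⁻¹, (σ y')⁻¹⁆ := by
      rw [commutatorElement_def, commutatorElement_def, mul_inv_rev, mul_inv_rev, inv_inv, inv_inv]
      have f1 : c ^ i * (σ y')⁻¹ = (σ y')⁻¹ * c ^ i := ((cy.inv_left).pow_right i).eq.symm
      have f2 : c ^ j * (c ^ i)⁻¹ = (c ^ i)⁻¹ * c ^ j := by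
        rw [mul_inv_eq_iff_eq_mul, mul_assoc, ← pow_add, add_comm, pow_add, inv_mul_cancel_left]
      have f3 : c ^ j * σ x' = σ x' * c ^ j := (cx.pow_right j).eq.symm
      calc (σ x')⁻¹ * c ^ i * ((σ y')⁻¹ * c ^ j) * ((c ^ i)⁻¹ * σ x') * ((c ^ j)⁻¹ * σ y')
          = (σ x')⁻¹ * (c ^ i * (σ y')⁻¹) * (c ^ j * (c ^ i)⁻¹) * σ x' * (c ^ j)⁻¹ * σ y' := by group
        _ = (σ x')⁻¹ * (σ y')⁻¹ * (c ^ j * σ x') * (c ^ j)⁻¹ * σ y' := by rw [f1, f2]; group
        _ = (σ x')⁻¹ * (σ y')⁻¹ * σ x' * σ y' := by rw [f3]; group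
    have e3 : ⁅(σ x')⁻¹, (σ y')⁻¹⁆ = c := by
      have e4 : ⁅(σ x')⁻¹, (σ y')⁻¹⁆ = (σ x')⁻¹ * ((σ y')⁻¹ * ⁅σ x', σ y'⁆ * σ y') * σ x' := by
        simp only [commutatorElement_def]; group
      rw [e4, hxy, mul_assoc (σ y')⁻¹, ← hyc, inv_mul_cancel_left, mul_assoc, ← hxc, inv_mul_cancel_left]
    rw [e2, e3]
  obtain ⟨z3, hz3, _, h3⟩ := eq_mul_ker hc hgc
  -- lambda is trivial
  have hlam : ∀ w : Γ, ∀ k : ℕ, ∀ z ∈ center Γ, σ w * c = c * σ w → g' * w * g'⁻¹ = w⁻¹ * c' ^ k * z → ⁅w, c'⁆ = 1 := by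
    intro w k z hz hwc hgw
    have hlk : ⁅w, c'⁆ ∈ σ.ker := by
      rw [MonoidHom.mem_ker, map_commutatorElement, hσc, commutatorElement_eq_one_iff_mul_comm]; exact hwc
    have hlc := hc hlk
    have e1 : g' * ⁅w, c'⁆ * g'⁻¹ = ⁅w, c'⁆ := by
      rw [Subgroup.mem_center_iff.1 hlc g', mul_inv_cancel_right]
    have e2 : g' * ⁅w, c'⁆ * g'⁻¹ = ⁅g' * w * g'⁻¹, g' * c' * g'⁻¹⁆ := by
      simp only [commutatorElement_def]; group
    have e3 : ⁅w⁻¹ * c' ^ k, c'⁆ = ⁅w, c'⁆⁻¹ := by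
      have : ⁅w⁻¹ * c' ^ k, c'⁆ = ⁅w⁻¹, c'⁆ := by
        simp only [commutatorElement_def]; group
      rw [this]
      have : ⁅w⁻¹, c'⁆ = w⁻¹ * ⁅w, c'⁆⁻¹ * w := by simp only [commutatorElement_def]; group
      rw [this, Subgroup.mem_center_iff.1 (inv_mem hlc) w⁻¹, inv_mul_cancel_right]
    rw [hgw, h3, comm_mul_left hz, comm_mul_right hz3, e3, e1] at e2
    have e4 : ⁅w, c'⁆ ^ 2 = 1 := by
      rw [pow_two]; nth_rw 1 [e2]; rw [inv_mul_cancel]
    have e5 := hcube _ hlk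
    have e6 : ⁅w, c'⁆ = ⁅w, c'⁆ ^ 3 * (⁅w, c'⁆ ^ 2)⁻¹ := by group
    rw [e6, e4, e5, inv_one, mul_one]
  have lx := hlam x' i z1 hz1 hxc h1
  have ly := hlam y' j z2 hz2 hyc h2
  have cx : x' * c' = c' * x' := commutatorElement_eq_one_iff_mul_comm.1 lx
  have cy : y' * c' = c' * y' := commutatorElement_eq_one_iff_mul_comm.1 ly
  have hxy' : x' * y' = c' * y' * x' := by rw [hc', commutatorElement_def]; group
  have hpow : ∀ n : ℕ, x' ^ n * y' = c' ^ n * y' * x' ^ n := by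
    intro n
    induction n with
    | zero => simp
    | succ n ih =>
      have hcn : x' * c' ^ n = c' ^ n * x' := ((show Commute x' c' from cx).pow_right n).eq
      calc x' ^ (n + 1) * y' = x' * (x' ^ n * y') := by rw [pow_succ']; group
        _ = (x' * c' ^ n) * y' * x' ^ n := by rw [ih]; group
        _ = c' ^ n * (x' * y') * x' ^ n := by rw [hcn]; group
        _ = c' ^ n * (c' * y' * x') * x' ^ n := by rw [hxy']
        _ = c' ^ (n + 1) * y' * x' ^ (n + 1) := by rw [pow_succ, pow_succ' x']; group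
  have hx3k : x' ^ 3 ∈ center Γ := hc (by rw [MonoidHom.mem_ker, map_pow, hx3])
  have hc'3 : c' ^ 3 = 1 := by
    have e1 := hpow 3
    rw [← Subgroup.mem_center_iff.1 hx3k y'] at e1
    have e2 : 1 * (y' * x' ^ 3) = c' ^ 3 * (y' * x' ^ 3) := by rw [one_mul, ← mul_assoc]; exact e1
    exact (mul_right_cancel e2).symm
  refine false_of_comm_le σ hσ (p := 3) hcard _ hQ hQi (zpowers c') ?_ ?_
  · rw [comap_eq σ {x', y'} _ (by rw [Set.image_pair])]
    have hcen : ∀ z ∈ (σ.ker : Set Γ), ∀ w : Γ, ⁅w, z⁆ = 1 ∧ ⁅z, w⁆ = 1 := by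
      intro z hz w
      have := Subgroup.mem_center_iff.1 (hc hz) w
      exact ⟨commutatorElement_eq_one_iff_mul_comm.2 this, commutatorElement_eq_one_iff_mul_comm.2 this.symm⟩
    apply commutator_closure_le
    · intro s hs' n hn
      have hsc : Commute s c' := by
        rcases hs' with (rfl | rfl) | hs'
        · exact cx
        · exact cy
        · exact (Subgroup.mem_center_iff.1 (hc hs') c').symm
      obtain ⟨k, rfl⟩ := hn
      have h5 := (hsc.zpow_right k).eq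
      constructor
      · change s * c' ^ k * s⁻¹ ∈ _
        rw [h5, mul_inv_cancel_right]; exact zpow_mem (mem_zpowers _) _
      · change s⁻¹ * c' ^ k * s ∈ _
        rw [mul_assoc, ← h5, inv_mul_cancel_left]; exact zpow_mem (mem_zpowers _) _
    · rintro s (hs' | hs') t (ht | ht)
      · rcases hs' with rfl | rfl <;> rcases ht with rfl | rfl
        · rw [commutatorElement_self]; exact one_mem _
        · exact mem_zpowers c'
        · rw [← commutatorElement_inv]; exact inv_mem (mem_zpowers c')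
        · rw [commutatorElement_self]; exact one_mem _
      · rw [(hcen t ht s).1]; exact one_mem _
      · rw [(hcen s hs' t).2]; exact one_mem _
      · rw [(hcen t ht s).1]; exact one_mem _
  · rintro _ ⟨k, rfl⟩ hk
    change σ (c' ^ k) = 1 at hk
    rw [map_zpow, hσc, ← orderOf_dvd_iff_zpow_eq_one, hc3] at hk
    obtain ⟨m, rfl⟩ := hk
    have : c' ^ (3 : ℤ) = 1 := by rw [show (3 : ℤ) = ((3 : ℕ) : ℤ) from rfl, zpow_natCast, hc'3]
    change c' ^ (((3 : ℕ) : ℤ) * m) = 1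
    rw [zpow_mul]
    push_cast
    rw [this, one_zpow]

end

end Cfsg.Agent.H14.Schur
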