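import Mathlib
import Cfsg.Agent.H14_M24Perf
import Cfsg.Agent.H14_Schur2

set_option autoImplicit false

/-!
The Schur multiplier of `M11`.
-/

namespace Cfsg.Agent.H14.SchurM

open Cfsg Cfsg.Agent.H7.Golay Cfsg.Agent.H7.Oct Cfsg.Agent.H7.M24 Cfsg.Agent.H14.M24Eng Cfsg.Agent.H14.M24Gen
open Cfsg.Agent.H14.M24Out Cfsg.Agent.H14.M24Perf Cfsg.Agent.H14.Schur Subgroup
open scoped Pointwise

theorem mem_normalizer_zpowers {G : Type*} [Group G] [Finite G] {a b : G} (h : b * a * b⁻¹ ∈ zpowers a) :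
    b ∈ normalizer ((zpowers a : Subgroup G) : Set G) := by
  have h1 : (zpowers a).map (MulAut.conj b).toMonoidHom ≤ zpowers a := by
    rw [MonoidHom.map_zpowers]
    rw [Subgroup.zpowers_le]
    exact h
  have h2 : (zpowers a).map (MulAut.conj b).toMonoidHom = zpowers a := by
    apply Subgroup.eq_of_le_of_card_ge h1
    exact (Nat.card_congr (Subgroup.equivMapOfInjective (zpowers a) (MulAut.conj b).toMonoidHom
      (MulAut.conj b).injective).toEquiv).le
  rw [Subgroup.mem_normalizer_iff]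
  intro x
  constructor
  · intro hx
    rw [← h2]
    exact ⟨x, hx, rfl⟩
  · intro hx
    rw [← h2] at hx
    obtain ⟨y, hy, hyx⟩ := hx
    have : y = x := (MulAut.conj b).injective hyx
    rwa [← this]

theorem isPGroup_zpowers {G : Type*} [Group G] {p n : ℕ} {a : G} (h : a ^ p ^ n = 1) : IsPGroup p (zpowers a) := by
  rintro ⟨_, k, rfl⟩
  refine ⟨n, Subtype.ext ?_⟩
  change (a ^ k) ^ p ^ n = 1
  rw [← zpow_natCast, ← zpow_mul, mul_comm, zpow_mul, zpow_natCast, h, one_zpow]

theorem closure_pair {G : Type*} [Group G] (a b : G) : closure ({a, b} : Set G) = zpowers a ⊔ zpowers b := by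
  rw [← Set.singleton_union, Subgroup.closure_union, Subgroup.zpowers_eq_closure, Subgroup.zpowers_eq_closure]

theorem isPGroup_pair {G : Type*} [Group G] [Finite G] {p n m : ℕ} [Fact p.Prime] {a b : G} (ha : a ^ p ^ n = 1)
    (hb : b ^ p ^ m = 1) (h : b * a * b⁻¹ ∈ zpowers a) : IsPGroup p (closure ({a, b} : Set G)) := by
  rw [closure_pair]
  apply IsPGroup.to_sup_of_normal_left' (isPGroup_zpowers ha) (isPGroup_zpowers hb)
  rw [Subgroup.zpowers_le]
  exact mem_normalizer_zpowers h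

/-- index prime to `p` from a lower bound on the order -/
theorem index_of_card_lt {G : Type*} [Group G] [Finite G] {p k : ℕ} [hp : Fact p.Prime] {Q : Subgroup G}
    (hQ : IsPGroup p Q) (hk : ¬ p ^ (k + 1) ∣ Nat.card G) (hlt : p ^ k ≤ Nat.card Q) : ¬ p ∣ Q.index := by
  obtain ⟨n, hn⟩ := hQ.exists_card_eq
  intro h
  have h1 := Q.card_mul_index
  have h2 : k ≤ n := by
    rw [hn] at hlt
    exact (Nat.pow_le_pow_iff_right hp.out.one_lt).1 hlt
  apply hk
  rw [← h1, hn, pow_succ]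
  exact mul_dvd_mul (pow_dvd_pow p h2) h

theorem card_pair {G : Type*} [Group G] [Finite G] {p k : ℕ} [hp : Fact p.Prime] {a b : G}
    (hQ : IsPGroup p (closure ({a, b} : Set G))) (ha : orderOf a = p ^ k) (hb : b ∉ zpowers a) :
    p ^ (k + 1) ≤ Nat.card (closure ({a, b} : Set G)) := by
  obtain ⟨n, hn⟩ := hQ.exists_card_eq
  have h1 : zpowers a < closure ({a, b} : Set G) := by
    rw [closure_pair]
    refine lt_of_le_of_ne le_sup_left fun h => hb ?_
    rw [h]
    exact Subgroup.mem_sup_right (mem_zpowers b)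
  have h2 : Nat.card (zpowers a) < Nat.card (closure ({a, b} : Set G)) := by
    apply lt_of_le_of_ne (Subgroup.card_le_of_le h1.le)
    intro h
    exact h1.ne (Subgroup.eq_of_le_of_card_ge h1.le h.ge)
  rw [Nat.card_zpowers, ha, hn] at h2
  rw [hn]
  exact Nat.pow_le_pow_right hp.out.pos ((Nat.pow_lt_pow_iff_right hp.out.one_lt).1 h2)

theorem exists_mem11 {l : List ℕ} (h : (isM24 l && (Nat.beq (act l sqM) sqM && Nat.beq (l.getD 0 0) 0)) = true) :
    ∃ g ∈ Spor.M11, Rep g l := by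
  simp only [Bool.and_eq_true] at h
  obtain ⟨g, hg, hr⟩ := exists_M24 h.1
  exact ⟨g, mem_M11.2 ⟨⟨hg, dod_of_rep hr h.2.1⟩, fix_of_rep hr 0 (by norm_num) h.2.2⟩, hr⟩

theorem not_mem_zpowers {M : Subgroup (Equiv.Perm GolayPt)} {a b : M} {la lb : List ℕ} {n : ℕ} (ha : Rep a la)
    (hb : Rep b lb) (han : orderOf a = n) (h : (List.range n).all (fun k => !(powl la k == lb)) = true) :
    b ∉ zpowers a := by
  classical
  intro hmem
  have h1 := (mem_powers_iff_mem_zpowers (x := a)).2 hmem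
  rw [mem_powers_iff_mem_range_orderOf, Finset.mem_image] at h1
  obtain ⟨k, hk, hk'⟩ := h1
  rw [Finset.mem_range, han] at hk
  have h2 := List.all_eq_true.1 h k (List.mem_range.2 hk)
  have h3 := beq_of_reps (rep_powl ha k) hb (congrArg Subtype.val hk')
  rw [h3] at h2
  exact absurd h2 (by decide)

/-- the 3-part, for a group whose order is exactly divisible by 9, containing `M11` -/
def lx : List ℕ := [0, 6, 18, 4, 13, 14, 12, 7, 8, 2, 11, 21, 1, 3, 17, 19, 16, 5, 9, 23, 20, 10, 22, 15]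
/-- commuting with `lx` -/
def ly : List ℕ := [0, 4, 6, 18, 9, 17, 13, 20, 8, 1, 10, 11, 3, 2, 5, 19, 16, 14, 12, 23, 22, 21, 7, 15]
/-- inverting `lx`, centralizing `ly` -/
def lg : List ℕ := [0, 6, 9, 3, 13, 23, 1, 7, 16, 2, 21, 11, 12, 4, 19, 17, 8, 15, 18, 14, 20, 10, 22, 5]

theorem three_part {M : Subgroup (Equiv.Perm GolayPt)} (hM : Spor.M11 ≤ M) (hcard : ¬ 3 ^ 3 ∣ Nat.card M)
    (Γ : Type) [Group Γ] [Finite Γ] (σ : Γ →* M) (hσ : IsStemExtension σ) : Nat.card σ.ker ≠ 3 := by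
  intro hker
  have : Fact (Nat.Prime 3) := ⟨by norm_num⟩
  obtain ⟨x, hx, rx⟩ := exists_mem11 (l := lx) (by decide +kernel)
  obtain ⟨y, hy, ry⟩ := exists_mem11 (l := ly) (by decide +kernel)
  obtain ⟨g, hg, rg⟩ := exists_mem11 (l := lg) (by decide +kernel)
  have hxo : orderOf x = 3 := orderOf_eq_prime (eq_of_reps (rep_powl rx 3) rep_one (by decide +kernel))
    (ne_of_reps rx rep_one (by decide +kernel))
  have hxy : x * y = y * x := eq_of_reps (rep_mul rx ry) (rep_mul ry rx) (by decide +kernel)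
  let X : M := ⟨x, hM hx⟩
  let Y : M := ⟨y, hM hy⟩
  have hXo : orderOf X = 3 := by rw [Subgroup.orderOf_mk, hxo]
  have hXY : X * Y = Y * X := Subtype.ext hxy
  have hpg : IsPGroup 3 (closure ({X, Y} : Set M)) := by
    apply isPGroup_pair (p := 3) (n := 1) (m := 1)
    · exact Subtype.ext (eq_of_reps (rep_powl rx 3) rep_one (by decide +kernel))
    · exact Subtype.ext (eq_of_reps (rep_powl ry 3) rep_one (by decide +kernel))
    · rw [← hXY, mul_inv_cancel_right]; exact mem_zpowers X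
  have hYX : Y ∉ zpowers X := not_mem_zpowers (a := X) (b := Y) rx ry hXo (by decide +kernel)
  refine false_of_pp σ hσ (p := 3) (by norm_num) hker X Y ⟨g, hM hg⟩ hXY ?_ ?_ hpg ?_
  · apply Subtype.ext
    exact eq_of_reps (rep_mul (rep_mul rg rx) (rep_inv rg)) (rep_inv rx) (by decide +kernel)
  · apply Subtype.ext
    exact eq_of_reps (rep_mul (rep_mul rg ry) (rep_inv rg)) ry (by decide +kernel)
  · exact index_of_card_lt (k := 2) hpg hcard (card_pair (k := 1) hpg (by rw [hXo]; norm_num) hYX)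

/-- element of order 8 of a Sylow 2-subgroup of `M11` -/
def la : List ℕ := [0, 1, 13, 8, 12, 11, 18, 19, 9, 16, 21, 14, 4, 6, 22, 7, 2, 20, 3, 17, 10, 23, 5, 15]
/-- involution -/
def lb : List ℕ := [0, 1, 9, 6, 12, 14, 3, 17, 8, 2, 23, 11, 4, 13, 5, 15, 18, 7, 16, 21, 20, 19, 22, 10]

theorem two_part_M11 (Γ : Type) [Group Γ] [Finite Γ] (σ : Γ →* Spor.M11) (hσ : IsStemExtension σ) :
    Nat.card σ.ker ≠ 2 := by
  intro hker
  obtain ⟨a, ha, ra⟩ := exists_mem11 (l := la) (by decide +kernel)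
  obtain ⟨b, hb, rb⟩ := exists_mem11 (l := lb) (by decide +kernel)
  have ha8 : a ^ 8 = 1 := eq_of_reps (rep_powl ra 8) rep_one (by decide +kernel)
  have ha4 : a ^ 4 ≠ 1 := ne_of_reps (rep_powl ra 4) rep_one (by decide +kernel)
  have hao : orderOf a = 2 ^ 3 := orderOf_eq_prime_pow (p := 2) (n := 2) ha4 ha8
  have hbb : b * b = 1 := eq_of_reps (rep_mul rb rb) rep_one (by decide +kernel)
  let A : Spor.M11 := ⟨a, ha⟩
  let B : Spor.M11 := ⟨b, hb⟩
  have hAo : orderOf A = 2 ^ 3 := by rw [Subgroup.orderOf_mk, hao]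
  have hBA : B * A * B⁻¹ = A ^ 3 :=
    Subtype.ext (eq_of_reps (rep_mul (rep_mul rb ra) (rep_inv rb)) (rep_powl ra 3) (by decide +kernel))
  have hpg : IsPGroup 2 (closure ({A, B} : Set Spor.M11)) := by
    apply isPGroup_pair (p := 2) (n := 3) (m := 1)
    · exact Subtype.ext ha8
    · apply Subtype.ext
      change b ^ 2 ^ 1 = 1
      rw [pow_one, pow_two, hbb]
    · rw [hBA]; exact pow_mem (mem_zpowers A) 3
  have hBA' : B ∉ zpowers A := not_mem_zpowers (a := A) (b := B) ra rb (by rw [hAo]) (by decide +kernel)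
  refine false_of_sd16 σ hσ hker A B (by rw [hAo]; norm_num) (Subtype.ext hbb) hBA hpg ?_
  exact index_of_card_lt (k := 4) hpg (by rw [card_M11]; norm_num) (card_pair (k := 3) hpg hAo hBA')

theorem schur_M11 : HasCyclicSchurMultiplier Spor.M11 1 := by
  apply trivial_of_primes
  intro p hp Γ _ _ σ hσ
  by_cases h2 : p = 2
  · subst h2; exact two_part_M11 Γ σ hσ
  by_cases h3 : p = 3
  · subst h3; exact three_part le_rfl (by rw [card_M11]; norm_num) Γ σ hσ
  · apply ne_of_not_sq_dvd perfect_M11 _ Γ σ hσ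
    rw [card_M11]
    intro hd
    have hp' := hp.out
    have h4 : p ∣ 7920 := (dvd_pow_self p (by norm_num)).trans hd
    have h5 : p ∈ Nat.primeFactors 7920 := Nat.mem_primeFactors.2 ⟨hp', h4, by norm_num⟩
    have h6 : Nat.primeFactors 7920 = {2, 3, 5, 11} := by
      rw [show 7920 = 2 ^ 4 * (3 ^ 2 * (5 * 11)) by norm_num]
      rw [Nat.primeFactors_mul (by norm_num) (by norm_num), Nat.primeFactors_mul (by norm_num) (by norm_num),
        Nat.primeFactors_mul (by norm_num) (by norm_num), Nat.primeFactors_prime_pow (by norm_num) (by norm_num),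
        Nat.primeFactors_prime_pow (by norm_num) (by norm_num), Nat.Prime.primeFactors (by norm_num),
        Nat.Prime.primeFactors (by norm_num)]
      rfl
    rw [h6] at h5
    simp only [Finset.mem_insert, Finset.mem_singleton] at h5
    rcases h5 with h5 | h5 | h5 | h5
    · exact h2 h5
    · exact h3 h5
    · subst h5; norm_num at hd
    · subst h5; norm_num at hd

end Cfsg.Agent.H14.SchurM
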