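import Mathlib
import Cfsg.Agent.H14_SchurM11
import Cfsg.Agent.H14_Schur3

set_option autoImplicit false

/-!
The 2-part of the Schur multiplier of `M23` and `M24`: a list-based check.
-/

namespace Cfsg.Agent.H14.SchurM

open Cfsg Cfsg.Agent.H7.Golay Cfsg.Agent.H7.Oct Cfsg.Agent.H7.M24 Cfsg.Agent.H14.M24Eng Cfsg.Agent.H14.M24Gen
open Cfsg.Agent.H14.M24Out Cfsg.Agent.H14.M24Perf Cfsg.Agent.H14.Schur Subgroup
open scoped Pointwise

/-- all products with factors from the given lists -/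
def prods : List (List (List ℕ)) → List (List ℕ)
  | [] => [List.range 24]
  | A :: As => A.flatMap fun a => (prods As).map (comp a)

variable {M : Subgroup (Equiv.Perm GolayPt)}

/-- every list is the list of an element of `E` -/
def HasS (E : Subgroup M) (L : List (List ℕ)) : Prop := ∀ r ∈ L, ∃ g ∈ E, Rep (g : Equiv.Perm GolayPt) r

theorem hasS_prods {E : Subgroup M} {As : List (List (List ℕ))} (h : ∀ A ∈ As, HasS E A) : HasS E (prods As) := by
  induction As with
  | nil =>
    intro r hr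
    rw [prods, List.mem_singleton] at hr
    subst hr
    exact ⟨1, one_mem _, rep_one⟩
  | cons A As ih =>
    intro r hr
    rw [prods, List.mem_flatMap] at hr
    obtain ⟨a, ha, hr⟩ := hr
    rw [List.mem_map] at hr
    obtain ⟨b, hb, rfl⟩ := hr
    obtain ⟨g, hg, hgr⟩ := h A (List.mem_cons_self) a ha
    obtain ⟨g', hg', hgr'⟩ := ih (fun B hB => h B (List.mem_cons_of_mem _ hB)) b hb
    exact ⟨g * g', mul_mem hg hg', rep_mul hgr hgr'⟩

/-- conjugation of lists -/
def conjl (a b : List ℕ) : List ℕ := comp (comp a b) (invl a)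

theorem rep_conjl {g h : Equiv.Perm GolayPt} {a b : List ℕ} (hg : Rep g a) (hh : Rep h b) :
    Rep (g * h * g⁻¹) (conjl a b) := rep_mul (rep_mul hg hh) (rep_inv hg)

/-- `L` is stable under left multiplication by `gens` -/
def stableL (gens L : List (List ℕ)) : Bool :=
  L.contains (List.range 24) && gens.all fun l => L.all fun r => L.contains (comp l r)

theorem closure_sub (S : Set M) (gens L : List (List ℕ)) (hS : ∀ s ∈ S, ∃ l ∈ gens, Rep (s : Equiv.Perm GolayPt) l)
    (h : stableL gens L = true) : ∀ g ∈ closure S, ∃ r ∈ L, Rep (g : Equiv.Perm GolayPt) r := by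
  rw [stableL, Bool.and_eq_true] at h
  obtain ⟨h1, h2⟩ := h
  have h3 : ∀ x ∈ S, ∀ y : M, (∃ r ∈ L, Rep (y : Equiv.Perm GolayPt) r) → ∃ r ∈ L, Rep ((x * y : M) : Equiv.Perm GolayPt) r := by
    rintro x hx y ⟨r, hr, hyr⟩
    obtain ⟨l, hl, hxl⟩ := hS x hx
    have h4 := List.all_eq_true.1 (List.all_eq_true.1 h2 l hl) r hr
    exact ⟨comp l r, List.contains_iff_mem.1 h4, rep_mul hxl hyr⟩
  intro g hg
  induction hg using Subgroup.closure_induction_left with
  | one => exact ⟨_, List.contains_iff_mem.1 h1, rep_one⟩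
  | mul_left x hx y _ ih => exact h3 x hx y ih
  | inv_mul_cancel x hx y _ ih =>
    have h5 : ∀ n : ℕ, ∃ r ∈ L, Rep ((x ^ n * y : M) : Equiv.Perm GolayPt) r := by
      intro n
      induction n with
      | zero => simpa using ih
      | succ n ihn =>
        rw [pow_succ', mul_assoc]
        exact h3 x hx _ ihn
    have h6 : x⁻¹ = x ^ (orderOf x - 1) := by
      rw [inv_eq_iff_mul_eq_one, ← pow_succ', Nat.sub_add_cancel (orderOf_pos x), pow_orderOf_eq_one]
    rw [h6]
    exact h5 _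

/-- no repetitions -/
def ndup : List (List ℕ) → Bool
  | [] => true
  | x :: xs => !(xs.contains x) && ndup xs

theorem nodup_of_ndup {L : List (List ℕ)} (h : ndup L = true) : L.Nodup := by
  induction L with
  | nil => exact List.nodup_nil
  | cons x xs ih =>
    simp only [ndup, Bool.and_eq_true, Bool.not_eq_true'] at h
    rw [List.nodup_cons]
    refine ⟨fun hx => ?_, ih h.2⟩
    rw [List.contains_iff_mem.2 hx] at h
    exact absurd h.1 (by decide)

theorem card_ge {E : Subgroup M} {L : List (List ℕ)} (hE : HasS E L) (hL : ndup L = true) : L.length ≤ Nat.card E := by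
  classical
  have h1 := List.toFinset_card_of_nodup (nodup_of_ndup hL)
  have h0 : Nat.card {x // x ∈ L.toFinset} = L.toFinset.card := by rw [Nat.card_eq_fintype_card, Fintype.card_coe]
  rw [← h1, ← h0]
  let f : {x // x ∈ L.toFinset} → E := fun x => ⟨(hE x.1 (List.mem_toFinset.1 x.2)).choose, (hE x.1 (List.mem_toFinset.1 x.2)).choose_spec.1⟩
  apply Nat.card_le_card_of_injective f
  intro x y hxy
  have h2 := (hE x.1 (List.mem_toFinset.1 x.2)).choose_spec.2
  have h3 := (hE y.1 (List.mem_toFinset.1 y.2)).choose_spec.2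
  have h4 : (hE x.1 (List.mem_toFinset.1 x.2)).choose = (hE y.1 (List.mem_toFinset.1 y.2)).choose :=
    congrArg Subtype.val hxy
  rw [← h4] at h3
  exact Subtype.ext (rep_eq_list h2 h3)

theorem card_sup_ge {G : Type*} [Group G] [Finite G] (E T : Subgroup G) (h : ∀ t ∈ T, t ∈ E → t = 1) :
    Nat.card E * Nat.card T ≤ Nat.card (E ⊔ T : Subgroup G) := by
  rw [← Nat.card_prod]
  let f : E × T → (E ⊔ T : Subgroup G) := fun x => ⟨x.1 * x.2, mul_mem (Subgroup.mem_sup_left x.1.2) (Subgroup.mem_sup_right x.2.2)⟩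
  apply Nat.card_le_card_of_injective f
  rintro ⟨⟨a, ha⟩, ⟨b, hb⟩⟩ ⟨⟨c, hc⟩, ⟨d, hd⟩⟩ hxy
  have h1 : a * b = c * d := congrArg Subtype.val hxy
  have h2 : c⁻¹ * a = d * b⁻¹ := by
    rw [inv_mul_eq_iff_eq_mul, ← mul_assoc, ← h1, mul_inv_cancel_right]
  have h3 : d * b⁻¹ = 1 := h _ (mul_mem hd (inv_mem hb)) (by rw [← h2]; exact mul_mem (inv_mem hc) ha)
  have h4 : d = b := mul_inv_eq_one.1 h3
  rw [h3, inv_mul_eq_one] at h2
  subst h2 h4
  rfl

/-- the check -/
def chk (ld : List ℕ) (LE LT : List (List ℕ)) : Bool :=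
  (powl ld 3 == List.range 24) && (ndup LE && (ndup LT &&
  (LE.all fun r => (comp r r == List.range 24) && (LE.contains (conjl ld r) &&
    (comp (conjl (conjl ld r) ld) (invl ld) == r)))
  && (LT.all fun t => (powl t 4 == List.range 24) && (((conjl t ld == ld) || (conjl t ld == invl ld)) &&
    ((!(LE.contains t) || (t == List.range 24)) && LE.all fun r => LE.contains (conjl t r))))))

theorem two_core {Γ : Type} [Group Γ] [Finite Γ] (σ : Γ →* M) (hσ : IsStemExtension σ) (hker : Nat.card σ.ker = 2)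
    (E T : Subgroup M) (d : M) (ld : List ℕ) (rd : Rep (d : Equiv.Perm GolayPt) ld) (LE LT : List (List ℕ))
    (hE : ∀ g ∈ E, ∃ r ∈ LE, Rep (g : Equiv.Perm GolayPt) r) (hE' : HasS E LE)
    (hT : ∀ g ∈ T, ∃ r ∈ LT, Rep (g : Equiv.Perm GolayPt) r) (hT' : HasS T LT)
    (good : ∀ g ∈ E, Good σ g) (hchk : chk ld LE LT = true)
    (S0 : Subgroup Γ) (hS0 : S0.map σ = T) (hS01 : ∀ x ∈ S0, σ x = 1 → x = 1) (k : ℕ)
    (hk : ¬ 2 ^ (k + 1) ∣ Nat.card M) (hcard : 2 ^ k ≤ LE.length * LT.length) : False := by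
  have : Fact (Nat.Prime 2) := ⟨Nat.prime_two⟩
  simp only [chk, Bool.and_eq_true, List.all_eq_true] at hchk
  obtain ⟨h1, h2, ⟨h3, h4⟩, h5⟩ := hchk
  have hmemE : ∀ (g : M) (r : List ℕ), Rep (g : Equiv.Perm GolayPt) r → LE.contains r = true → g ∈ E := by
    intro g r hgr hr
    obtain ⟨g', hg', hr'⟩ := hE' r (List.contains_iff_mem.1 hr)
    have : g = g' := Subtype.ext (hgr.unique hr')
    rw [this]; exact hg'
  have hTE : ∀ t ∈ T, ∀ e ∈ E, t * e * t⁻¹ ∈ E := by
    intro t ht e he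
    obtain ⟨lt, hlt, rt⟩ := hT t ht
    obtain ⟨le, hle, re⟩ := hE e he
    exact hmemE _ _ (rep_conjl rt re) ((h5 lt hlt).2.2.2 le hle)
  have hTE1 : ∀ t ∈ T, t ∈ E → t = 1 := by
    intro t ht hte
    obtain ⟨lt, hlt, rt⟩ := hT t ht
    obtain ⟨le, hle, re⟩ := hE t hte
    have h6 := (h5 lt hlt).2.2.1
    rw [rep_eq_list re rt] at hle
    rw [List.contains_iff_mem.2 hle] at h6
    have h7 : (lt == List.range 24) = true := by simpa using h6
    exact Subtype.ext (eq_of_reps rt rep_one h7)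
  have hEp : IsPGroup 2 E := by
    rintro ⟨e, he⟩
    obtain ⟨le, hle, re⟩ := hE e he
    refine ⟨1, Subtype.ext (Subtype.ext ?_)⟩
    change (e : Equiv.Perm GolayPt) ^ 2 ^ 1 = 1
    rw [pow_one, pow_two]
    exact eq_of_reps (rep_mul re re) rep_one (h4 le hle).1
  have hTp : IsPGroup 2 T := by
    rintro ⟨t, ht⟩
    obtain ⟨lt, hlt, rt⟩ := hT t ht
    refine ⟨2, Subtype.ext (Subtype.ext ?_)⟩
    change (t : Equiv.Perm GolayPt) ^ 2 ^ 2 = 1
    exact eq_of_reps (rep_powl rt 4) rep_one (h5 lt hlt).1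
  have hTn : T ≤ normalizer (E : Set M) := by
    intro t ht
    rw [Subgroup.mem_normalizer_iff]
    intro x
    refine ⟨hTE t ht x, fun hx => ?_⟩
    have := hTE t⁻¹ (inv_mem ht) _ hx
    rwa [inv_inv, show t⁻¹ * (t * x * t⁻¹) * t = x by group] at this
  have hQ : IsPGroup 2 (E ⊔ T : Subgroup M) := IsPGroup.to_sup_of_normal_left' hEp hTp hTn
  refine false_of_Ed hσ hker E T d ?_ ?_ ?_ ?_ hTE ?_ hTE1 S0 hS0 hS01 hQ ?_
  · exact Subtype.ext (eq_of_reps (rep_powl rd 3) rep_one h1)
  · intro x y hx hy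
    exact comm_of_good (good _ hx) (good _ hy) (good _ (mul_mem hx hy)) rfl rfl
  · intro e he
    obtain ⟨le, hle, re⟩ := hE e he
    exact hmemE _ _ (rep_conjl rd re) (h4 le hle).2.1
  · intro e he
    obtain ⟨le, hle, re⟩ := hE e he
    refine ⟨d * e * d⁻¹, hmemE _ _ (rep_conjl rd re) (h4 le hle).2.1, ?_⟩
    exact Subtype.ext (eq_of_reps (rep_mul (rep_conjl (rep_conjl rd re) rd) (rep_inv rd)) re (h4 le hle).2.2)
  · intro t ht
    obtain ⟨lt, hlt, rt⟩ := hT t ht
    have h6 := (h5 lt hlt).2.1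
    rw [Bool.or_eq_true] at h6
    rcases h6 with h6 | h6
    · exact Or.inl (Subtype.ext (eq_of_reps (rep_conjl rt rd) rd h6))
    · exact Or.inr (Subtype.ext (eq_of_reps (rep_conjl rt rd) (rep_inv rd) h6))
  · apply index_of_card_lt (k := k) hQ hk
    exact hcard.trans ((Nat.mul_le_mul (card_ge hE' h2) (card_ge hT' h3)).trans (card_sup_ge E T hTE1))

/-! ### classes of involutions -/

/-- conjugates of `base`: pairs (element, conjugator) -/
noncomputable def conjsOK (P : List ℕ → Bool) (base : List ℕ) (L : List (List ℕ × List ℕ)) : Bool :=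
  L.all fun x => P x.2 && (comp x.2 base == comp x.1 x.2)

theorem isConj_of {P : List ℕ → Bool} (hP : ∀ l, P l = true → ∃ g ∈ M, Rep g l) {base : List ℕ}
    {L : List (List ℕ × List ℕ)} (h : conjsOK P base L = true) {b g : M} (hb : Rep (b : Equiv.Perm GolayPt) base)
    {r : List ℕ} (hr : r ∈ L.map Prod.fst) (hg : Rep (g : Equiv.Perm GolayPt) r) : IsConj b g := by
  rw [List.mem_map] at hr
  obtain ⟨⟨r', q⟩, hr', rfl⟩ := hr
  have h1 := List.all_eq_true.1 h _ hr'
  rw [Bool.and_eq_true] at h1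
  obtain ⟨c, hc, rc⟩ := hP _ h1.1
  rw [isConj_iff]
  refine ⟨⟨c, hc⟩, Subtype.ext ?_⟩
  change c * b * c⁻¹ = g
  rw [mul_inv_eq_iff_eq_mul]
  exact eq_of_reps (rep_mul rc hb) (rep_mul hg rc) h1.2

theorem good_of_isConj {Γ : Type} [Group Γ] [Finite Γ] {σ : Γ →* M} (hs : Function.Surjective σ)
    (hc : σ.ker ≤ center Γ) (hker : Nat.card σ.ker = 2) {b g : M} (h : IsConj b g) (hb : Good σ b) : Good σ g := by
  obtain ⟨c, rfl⟩ := isConj_iff.1 h
  exact good_conj hs hc hker hb c

/-- the check for a triple generating a subgroup of order 8 with all nontrivial elements in a class -/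
def tripleOK (C : List (List ℕ)) (e f g : List ℕ) : Bool :=
  (comp e e == List.range 24) && (C.all (fun r => comp r r == List.range 24) && (C.contains f && (C.contains g &&
  (C.contains (comp e f) && (C.contains (comp e g) && (C.contains (comp f g) && C.contains (comp e (comp f g))))))))

theorem good_triple {Γ : Type} [Group Γ] [Finite Γ] {σ : Γ →* M} (hs : Function.Surjective σ)
    (hc : σ.ker ≤ center Γ) (hker : Nat.card σ.ker = 2) {P : List ℕ → Bool}
    (hP : ∀ l, P l = true → ∃ g ∈ M, Rep g l) {L : List (List ℕ × List ℕ)} {e f g : M} {le lf lg : List ℕ}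
    (h : conjsOK P le L = true)
    (re : Rep (e : Equiv.Perm GolayPt) le) (rf : Rep (f : Equiv.Perm GolayPt) lf) (rg : Rep (g : Equiv.Perm GolayPt) lg)
    (h2 : tripleOK (L.map Prod.fst) le lf lg = true) : Good σ e := by
  simp only [tripleOK, Bool.and_eq_true, List.all_eq_true] at h2
  obtain ⟨a1, a2, a3, a4, a5, a6, a7, a8⟩ := h2
  have sq : ∀ (x : M) (r : List ℕ), Rep (x : Equiv.Perm GolayPt) r → (L.map Prod.fst).contains r = true → x * x = 1 := by
    intro x r hx hr
    exact Subtype.ext (eq_of_reps (rep_mul hx hx) rep_one (a2 r (List.contains_iff_mem.1 hr)))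
  have cj : ∀ (x : M) (r : List ℕ), Rep (x : Equiv.Perm GolayPt) r → (L.map Prod.fst).contains r = true → IsConj e x := by
    intro x r hx hr
    exact isConj_of hP h re (List.contains_iff_mem.1 hr) hx
  have ref : Rep ((e * f : M) : Equiv.Perm GolayPt) (comp le lf) := rep_mul re rf
  have reg : Rep ((e * g : M) : Equiv.Perm GolayPt) (comp le lg) := rep_mul re rg
  have rfg : Rep ((f * g : M) : Equiv.Perm GolayPt) (comp lf lg) := rep_mul rf rg
  have refg : Rep ((e * (f * g) : M) : Equiv.Perm GolayPt) (comp le (comp lf lg)) := rep_mul re rfg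
  exact good_of_eight hs hc hker e f g (Subtype.ext (eq_of_reps (rep_mul re re) rep_one a1)) (sq f _ rf a3)
    (sq g _ rg a4) (sq _ _ ref a5) (sq _ _ reg a6) (sq _ _ refg a8) (sq _ _ rfg a7) (cj f _ rf a3) (cj g _ rg a4)
    (cj _ _ ref a5) (cj _ _ reg a6) (cj _ _ rfg a7) (cj _ _ refg a8)

end Cfsg.Agent.H14.SchurM
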