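import Mathlib
import Cfsg.Agent.H14_Schur5

set_option autoImplicit false

/-!
The Schur multiplier of `M23`.
-/

namespace Cfsg.Agent.H14.SchurM

open Cfsg Cfsg.Agent.H7.Golay Cfsg.Agent.H7.Oct Cfsg.Agent.H7.M24 Cfsg.Agent.H14.M24Eng Cfsg.Agent.H14.M24Gen
open Cfsg.Agent.H14.M24Out Cfsg.Agent.H14.M24Perf Cfsg.Agent.H14.Schur Subgroup
open scoped Pointwise

/-- membership test for `M23` -/
noncomputable def P23 (l : List ℕ) : Bool := isM24 l && Nat.beq (l.getD 23 0) 23

theorem exists_mem23 {l : List ℕ} (h : P23 l = true) : ∃ g ∈ Spor.M23, Rep g l := by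
  simp only [P23, Bool.and_eq_true] at h
  obtain ⟨g, hg, hr⟩ := exists_M24 h.1
  exact ⟨g, mem_M23.2 ⟨hg, fix_of_rep hr 23 (by norm_num) h.2⟩, hr⟩

variable {M : Subgroup (Equiv.Perm GolayPt)}

/-- subgroup generated by the elements with lists in `L` -/
def genS (M : Subgroup (Equiv.Perm GolayPt)) (L : List (List ℕ)) : Subgroup M :=
  closure {x : M | ∃ l ∈ L, Rep (x : Equiv.Perm GolayPt) l}

theorem genS_sub {gens L : List (List ℕ)} (h : stableL gens L = true) :
    ∀ g ∈ genS M gens, ∃ r ∈ L, Rep (g : Equiv.Perm GolayPt) r :=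
  closure_sub _ gens L (fun _ hs => hs) h

theorem hasS_genS {gens L : List (List ℕ)} {As : List (List (List ℕ))} {P : List ℕ → Bool}
    (hP : ∀ l, P l = true → ∃ g ∈ M, Rep g l) (h1 : gens.all P = true)
    (h2 : As = gens.map fun l => [List.range 24, l])
    (h3 : (L.all fun r => (prods As).contains r) = true) : HasS (genS M gens) L := by
  have h4 : HasS (genS M gens) (prods As) := by
    apply hasS_prods
    intro A hA r hr
    rw [h2, List.mem_map] at hA
    obtain ⟨l, hl, rfl⟩ := hA
    simp only [List.mem_cons, List.not_mem_nil, or_false] at hr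
    rcases hr with rfl | rfl
    · exact ⟨1, one_mem _, rep_one⟩
    · obtain ⟨g, hg, rg⟩ := hP _ (List.all_eq_true.1 h1 _ hl)
      exact ⟨⟨g, hg⟩, subset_closure ⟨_, hl, rg⟩, rg⟩
  exact fun r hr => h4 r (List.contains_iff_mem.1 (List.all_eq_true.1 h3 r hr))

theorem good_one {Γ : Type} [Group Γ] [Finite Γ] {σ : Γ →* M} (hker : Nat.card σ.ker = 2) : Good σ 1 :=
  fun _ hx => sq_of_ker hker hx

theorem cj23_ok : conjsOK P23 te23 cj23 = true := by decide +kernel

theorem two_part_M23 (Γ : Type) [Group Γ] [Finite Γ] (σ : Γ →* Spor.M23) (hσ : IsStemExtension σ) :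
    Nat.card σ.ker ≠ 2 := by
  intro hker
  obtain ⟨hs, hc, _⟩ := id hσ
  have hP : ∀ l, P23 l = true → ∃ g ∈ Spor.M23, Rep g l := fun l h => exists_mem23 h
  obtain ⟨e, he, re⟩ := hP te23 (by decide +kernel)
  obtain ⟨f, hf, rf⟩ := hP tf23 (by decide +kernel)
  obtain ⟨g, hg, rg⟩ := hP tg23 (by decide +kernel)
  have ge : Good σ ⟨e, he⟩ := good_triple hs hc hker hP (L := cj23) (e := ⟨e, he⟩) (f := ⟨f, hf⟩) (g := ⟨g, hg⟩)
    cj23_ok re rf rg (by decide +kernel)
  have gall : ∀ (x : Spor.M23) (r : List ℕ), Rep (x : Equiv.Perm GolayPt) r → (cj23.map Prod.fst).contains r = true →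
      Good σ x := fun x r hx hr =>
    good_of_isConj hs hc hker (isConj_of hP cj23_ok (b := ⟨e, he⟩) re (List.contains_iff_mem.1 hr) hx) ge
  obtain ⟨d, hd, rd⟩ := hP ld (by decide +kernel)
  obtain ⟨a, ha, ra⟩ := hP la23 (by decide +kernel)
  obtain ⟨b, hb, rb⟩ := hP lb23 (by decide +kernel)
  have hE := genS_sub (M := Spor.M23) (gens := es23) (L := LE23) (by decide +kernel)
  have hE' := hasS_genS (M := Spor.M23) (gens := es23) (L := LE23) hP (by decide +kernel) rfl (by decide +kernel)
  set A : Spor.M23 := ⟨a, ha⟩ with hA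
  set B : Spor.M23 := ⟨b, hb⟩ with hB
  have hT := closure_sub ({A, B} : Set Spor.M23) [la23, lb23] LT23 (by
    rintro s (rfl | rfl)
    · exact ⟨_, by simp, ra⟩
    · exact ⟨_, by simp, rb⟩) (by decide +kernel)
  have hT' : HasS (closure ({A, B} : Set Spor.M23)) LT23 := by
    have h1 : HasS (closure ({A, B} : Set Spor.M23))
        (prods [[powl la23 0, powl la23 1, powl la23 2, powl la23 3], [powl lb23 0, powl lb23 1]]) := by
      apply hasS_prods
      intro L hL r hr
      simp only [List.mem_cons, List.not_mem_nil, or_false] at hL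
      have hA' : A ∈ closure ({A, B} : Set Spor.M23) := subset_closure (by simp)
      have hB' : B ∈ closure ({A, B} : Set Spor.M23) := subset_closure (by simp)
      rcases hL with rfl | rfl
      · simp only [List.mem_cons, List.not_mem_nil, or_false] at hr
        rcases hr with rfl | rfl | rfl | rfl
        · exact ⟨A ^ 0, pow_mem hA' 0, rep_powl ra 0⟩
        · exact ⟨A ^ 1, pow_mem hA' 1, rep_powl ra 1⟩
        · exact ⟨A ^ 2, pow_mem hA' 2, rep_powl ra 2⟩
        · exact ⟨A ^ 3, pow_mem hA' 3, rep_powl ra 3⟩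
      · simp only [List.mem_cons, List.not_mem_nil, or_false] at hr
        rcases hr with rfl | rfl
        · exact ⟨B ^ 0, pow_mem hB' 0, rep_powl rb 0⟩
        · exact ⟨B ^ 1, pow_mem hB' 1, rep_powl rb 1⟩
    have h2 : (LT23.all fun r => (prods [[powl la23 0, powl la23 1, powl la23 2, powl la23 3],
      [powl lb23 0, powl lb23 1]]).contains r) = true := by decide +kernel
    exact fun r hr => h1 r (List.contains_iff_mem.1 (List.all_eq_true.1 h2 r hr))
  have hgood : ∀ x ∈ genS Spor.M23 es23, Good σ x := by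
    intro x hx
    obtain ⟨r, hr, rx⟩ := hE x hx
    have h1 : (LE23.all fun r => (r == List.range 24) || (cj23.map Prod.fst).contains r) = true := by decide +kernel
    have h2 := List.all_eq_true.1 h1 r hr
    rw [Bool.or_eq_true] at h2
    rcases h2 with h2 | h2
    · have : x = 1 := Subtype.ext (eq_of_reps rx rep_one h2)
      rw [this]; exact good_one hker
    · exact gall x r rx h2
  -- lifts
  obtain ⟨a', ha'⟩ := hs A
  obtain ⟨b', hb'⟩ := hs B
  have gA2 : Good σ (A * A) := gall _ (comp la23 la23) (rep_mul ra ra) (by decide +kernel)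
  have gB : Good σ B := gall _ lb23 rb (by decide +kernel)
  have gAB : Good σ (A * B) := gall _ (comp la23 lb23) (rep_mul ra rb) (by decide +kernel)
  have ha4 : a' ^ 4 = 1 := by
    have := gA2 (a' * a') (by rw [map_mul, ha'])
    rw [show (4 : ℕ) = 2 * 2 from rfl, pow_mul, pow_two, pow_two]; exact this
  have hbb : b' * b' = 1 := gB b' hb'
  have hab : b' * a' * b'⁻¹ = a'⁻¹ := by
    have h1 := gAB (a' * b') (by rw [map_mul, ha', hb'])
    have h2 : b'⁻¹ = b' := inv_eq_of_mul_eq_one_left hbb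
    rw [h2, eq_inv_iff_mul_eq_one]
    calc b' * a' * b' * a' = b' * (a' * b' * (a' * b')) * b'⁻¹ := by group
      _ = 1 := by rw [h1, mul_one, mul_inv_cancel]
  have hAo : orderOf A = 2 ^ 2 := by
    have : Fact (Nat.Prime 2) := ⟨Nat.prime_two⟩
    apply orderOf_eq_prime_pow
    · intro h
      exact ne_of_reps (rep_powl ra 2) rep_one (by decide +kernel) (congrArg Subtype.val h)
    · exact Subtype.ext (eq_of_reps (rep_powl ra 4) rep_one (by decide +kernel))
  have hBA : B ∉ zpowers A := not_mem_zpowers (a := A) (b := B) ra rb hAo (by decide +kernel)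
  have hinj := inj_dih8 (σ := σ) ha4 hbb hab (by rw [ha', hAo]; norm_num) (by rw [ha', hb']; exact hBA)
  refine two_core σ hσ hker (genS Spor.M23 es23) (closure ({A, B} : Set Spor.M23)) ⟨d, hd⟩ ld rd LE23 LT23 hE hE' hT hT'
    hgood (by decide +kernel) (closure ({a', b'} : Set Γ)) ?_ hinj 7 (by rw [card_M23]; norm_num) (by decide)
  rw [MonoidHom.map_closure, Set.image_pair, ha', hb']

theorem three_part_M23 (Γ : Type) [Group Γ] [Finite Γ] (σ : Γ →* Spor.M23) (hσ : IsStemExtension σ) :
    Nat.card σ.ker ≠ 3 := by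
  intro hker
  have : Fact (Nat.Prime 3) := ⟨by norm_num⟩
  obtain ⟨x, hx, rx⟩ := exists_mem23 (l := lx23) (by decide +kernel)
  obtain ⟨y, hy, ry⟩ := exists_mem23 (l := ly23) (by decide +kernel)
  obtain ⟨g, hg, rg⟩ := exists_mem23 (l := lg23) (by decide +kernel)
  have hxo : orderOf x = 3 := orderOf_eq_prime (eq_of_reps (rep_powl rx 3) rep_one (by decide +kernel))
    (ne_of_reps rx rep_one (by decide +kernel))
  have hxy : x * y = y * x := eq_of_reps (rep_mul rx ry) (rep_mul ry rx) (by decide +kernel)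
  let X : Spor.M23 := ⟨x, hx⟩
  let Y : Spor.M23 := ⟨y, hy⟩
  have hXo : orderOf X = 3 := by rw [Subgroup.orderOf_mk, hxo]
  have hXY : X * Y = Y * X := Subtype.ext hxy
  have hpg : IsPGroup 3 (closure ({X, Y} : Set Spor.M23)) := by
    apply isPGroup_pair (p := 3) (n := 1) (m := 1)
    · exact Subtype.ext (eq_of_reps (rep_powl rx 3) rep_one (by decide +kernel))
    · exact Subtype.ext (eq_of_reps (rep_powl ry 3) rep_one (by decide +kernel))
    · rw [← hXY, mul_inv_cancel_right]; exact mem_zpowers X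
  have hYX : Y ∉ zpowers X := not_mem_zpowers (a := X) (b := Y) rx ry hXo (by decide +kernel)
  refine false_of_pp σ hσ (p := 3) (by norm_num) hker X Y ⟨g, hg⟩ hXY ?_ ?_ hpg ?_
  · apply Subtype.ext
    exact eq_of_reps (rep_mul (rep_mul rg rx) (rep_inv rg)) (rep_inv rx) (by decide +kernel)
  · apply Subtype.ext
    exact eq_of_reps (rep_mul (rep_mul rg ry) (rep_inv rg)) ry (by decide +kernel)
  · exact index_of_card_lt (k := 2) hpg (by rw [card_M23]; norm_num) (card_pair (k := 1) hpg (by rw [hXo]; norm_num) hYX)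

theorem prime_cases {n p : ℕ} (hp : p.Prime) {L : List ℕ} (hL : L.all Nat.Prime = true) (hn : n ∣ L.prod)
    (h : p ∣ n) : p ∈ L := by
  have h1 : p ∣ L.prod := h.trans hn
  rw [hp.prime.dvd_prod_iff] at h1
  obtain ⟨a, ha, hpa⟩ := h1
  have h2 : a.Prime := by simpa using List.all_eq_true.1 hL a ha
  rwa [(Nat.prime_dvd_prime_iff_eq hp h2).1 hpa]

theorem schur_M23 : HasCyclicSchurMultiplier Spor.M23 1 := by
  apply trivial_of_primes
  intro p hp Γ _ _ σ hσ
  by_cases h2 : p = 2
  · subst h2; exact two_part_M23 Γ σ hσ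
  by_cases h3 : p = 3
  · subst h3; exact three_part_M23 Γ σ hσ
  · apply ne_of_not_sq_dvd perfect_M23 _ Γ σ hσ
    rw [card_M23]
    intro hd
    have h4 : p ∣ 10200960 := (dvd_pow_self p (by norm_num)).trans hd
    have h5 := prime_cases hp.out (L := [2, 2, 2, 2, 2, 2, 2, 3, 3, 5, 7, 11, 23]) (by simp; norm_num) (by norm_num) h4
    simp only [List.mem_cons, List.not_mem_nil, or_false] at h5
    rcases h5 with h5 | h5 | h5 | h5 | h5 | h5 | h5 | h5 | h5 | h5 | h5 | h5 | h5
    all_goals first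
      | exact h2 h5
      | exact h3 h5
      | (subst h5; norm_num at hd)

end Cfsg.Agent.H14.SchurM
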