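import Mathlib
import Cfsg.Agent.H14_SchurM23

set_option autoImplicit false

/-!
The Schur multiplier of `M24`.
-/

namespace Cfsg.Agent.H14.SchurM

open Cfsg Cfsg.Agent.H7.Golay Cfsg.Agent.H7.Oct Cfsg.Agent.H7.M24 Cfsg.Agent.H14.M24Eng Cfsg.Agent.H14.M24Gen
open Cfsg.Agent.H14.M24Out Cfsg.Agent.H14.M24Perf Cfsg.Agent.H14.Schur Subgroup
open scoped Pointwise

theorem cj24_ok : conjsOK isM24 te24 cj24 = true := by decide +kernel

theorem cj24b_ok : conjsOK isM24 (comp ue24 (comp uf24 ug24)) cj24b = true := by decide +kernel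

set_option maxHeartbeats 4000000 in
theorem two_part_M24 (Γ : Type) [Group Γ] [Finite Γ] (σ : Γ →* M24) (hσ : IsStemExtension σ) :
    Nat.card σ.ker ≠ 2 := by
  intro hker
  obtain ⟨hs, hc, _⟩ := id hσ
  have hP : ∀ l, isM24 l = true → ∃ g ∈ M24, Rep g l := fun l h => exists_M24 h
  obtain ⟨e, he, re⟩ := hP te24 (by decide +kernel)
  obtain ⟨f, hf, rf⟩ := hP tf24 (by decide +kernel)
  obtain ⟨g, hg, rg⟩ := hP tg24 (by decide +kernel)
  have ge : Good σ ⟨e, he⟩ := good_triple hs hc hker hP (L := cj24) (e := ⟨e, he⟩) (f := ⟨f, hf⟩) (g := ⟨g, hg⟩)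
    cj24_ok re rf rg (by decide +kernel)
  have gall1 : ∀ (x : M24) (r : List ℕ), Rep (x : Equiv.Perm GolayPt) r → (cj24.map Prod.fst).contains r = true →
      Good σ x := fun x r hx hr =>
    good_of_isConj hs hc hker (isConj_of hP cj24_ok (b := ⟨e, he⟩) re (List.contains_iff_mem.1 hr) hx) ge
  -- second class
  obtain ⟨u, hu, ru⟩ := hP ue24 (by decide +kernel)
  obtain ⟨v, hv, rv⟩ := hP uf24 (by decide +kernel)
  obtain ⟨w, hw, rw'⟩ := hP ug24 (by decide +kernel)
  set U : M24 := ⟨u, hu⟩ with hU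
  set V : M24 := ⟨v, hv⟩ with hV
  set W : M24 := ⟨w, hw⟩ with hW
  have gU : Good σ U := gall1 _ ue24 ru (by decide +kernel)
  have gV : Good σ V := gall1 _ uf24 rv (by decide +kernel)
  have gW : Good σ W := gall1 _ ug24 rw' (by decide +kernel)
  have gUV : Good σ (U * V) := gall1 _ (comp ue24 uf24) (rep_mul ru rv) (by decide +kernel)
  have gUW : Good σ (U * W) := gall1 _ (comp ue24 ug24) (rep_mul ru rw') (by decide +kernel)
  have gVW : Good σ (V * W) := gall1 _ (comp uf24 ug24) (rep_mul rv rw') (by decide +kernel)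
  have gUVW : Good σ (U * (V * W)) := by
    apply good_mul hs gU gVW _ hc hker
    intro x y hx hy
    obtain ⟨v', hv'⟩ := hs V
    obtain ⟨w', hw'⟩ := hs W
    obtain ⟨z, hz, _, rfl⟩ := eq_mul_ker hc (x := y) (y := v' * w') (by rw [hy, map_mul, hv', hw'])
    have h1 : x * v' = v' * x := comm_of_good gU gV gUV hx hv'
    have h2 : x * w' = w' * x := comm_of_good gU gW gUW hx hw'
    calc x * (v' * w' * z) = (x * v') * w' * z := by group
      _ = v' * (x * w') * z := by rw [h1]; group
      _ = v' * w' * (x * z) := by rw [h2]; group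
      _ = v' * w' * z * x := by rw [Subgroup.mem_center_iff.1 hz x]; group
  have gall2 : ∀ (x : M24) (r : List ℕ), Rep (x : Equiv.Perm GolayPt) r → (cj24b.map Prod.fst).contains r = true →
      Good σ x := fun x r hx hr =>
    good_of_isConj hs hc hker (isConj_of hP cj24b_ok (b := U * (V * W)) (rep_mul ru (rep_mul rv rw'))
      (List.contains_iff_mem.1 hr) hx) gUVW
  have gall : ∀ (x : M24) (r : List ℕ), Rep (x : Equiv.Perm GolayPt) r →
      ((cj24.map Prod.fst).contains r || (cj24b.map Prod.fst).contains r) = true → Good σ x := by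
    intro x r hx hr
    rw [Bool.or_eq_true] at hr
    exact hr.elim (gall1 x r hx) (gall2 x r hx)
  obtain ⟨d, hd, rd⟩ := hP ld (by decide +kernel)
  obtain ⟨a, ha, ra⟩ := hP la24 (by decide +kernel)
  obtain ⟨b, hb, rb⟩ := hP lb24 (by decide +kernel)
  obtain ⟨c, hc', rc⟩ := hP lc24 (by decide +kernel)
  have hE := genS_sub (M := M24) (gens := es24) (L := LE24) (by decide +kernel)
  have hE' := hasS_genS (M := M24) (gens := es24) (L := LE24) hP (by decide +kernel) rfl (by decide +kernel)
  set A : M24 := ⟨a, ha⟩ with hA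
  set B : M24 := ⟨b, hb⟩ with hB
  set C : M24 := ⟨c, hc'⟩ with hC
  have hT := closure_sub (insert C ({A, B} : Set M24)) [lc24, la24, lb24] LT24 (by
    rintro s (rfl | rfl | rfl)
    · exact ⟨_, by simp, rc⟩
    · exact ⟨_, by simp, ra⟩
    · exact ⟨_, by simp, rb⟩) (by decide +kernel)
  have hT' : HasS (closure (insert C ({A, B} : Set M24))) LT24 := by
    have h1 : HasS (closure (insert C ({A, B} : Set M24)))
        (prods [[powl la24 0, powl la24 1, powl la24 2, powl la24 3], [powl lb24 0, powl lb24 1],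
          [powl lc24 0, powl lc24 1]]) := by
      apply hasS_prods
      intro L hL r hr
      simp only [List.mem_cons, List.not_mem_nil, or_false] at hL
      have hA' : A ∈ closure (insert C ({A, B} : Set M24)) := subset_closure (by simp)
      have hB' : B ∈ closure (insert C ({A, B} : Set M24)) := subset_closure (by simp)
      have hC' : C ∈ closure (insert C ({A, B} : Set M24)) := subset_closure (by simp)
      rcases hL with rfl | rfl | rfl
      · simp only [List.mem_cons, List.not_mem_nil, or_false] at hr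
        rcases hr with rfl | rfl | rfl | rfl
        · exact ⟨A ^ 0, pow_mem hA' 0, rep_powl ra 0⟩
        · exact ⟨A ^ 1, pow_mem hA' 1, rep_powl ra 1⟩
        · exact ⟨A ^ 2, pow_mem hA' 2, rep_powl ra 2⟩
        · exact ⟨A ^ 3, pow_mem hA' 3, rep_powl ra 3⟩
      · simp only [List.mem_cons, List.not_mem_nil, or_false] at hr
        rcases hr with rfl | rfl
        · exact ⟨B ^ 0, pow_mem hB' 0, rep_powl rb 0⟩
        · exact ⟨B ^ 1, pow_mem hB' 1, rep_powl rb 1⟩
      · simp only [List.mem_cons, List.not_mem_nil, or_false] at hr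
        rcases hr with rfl | rfl
        · exact ⟨C ^ 0, pow_mem hC' 0, rep_powl rc 0⟩
        · exact ⟨C ^ 1, pow_mem hC' 1, rep_powl rc 1⟩
    have h2 : (LT24.all fun r => (prods [[powl la24 0, powl la24 1, powl la24 2, powl la24 3],
      [powl lb24 0, powl lb24 1], [powl lc24 0, powl lc24 1]]).contains r) = true := by decide +kernel
    exact fun r hr => h1 r (List.contains_iff_mem.1 (List.all_eq_true.1 h2 r hr))
  have hgood : ∀ x ∈ genS M24 es24, Good σ x := by
    intro x hx
    obtain ⟨r, hr, rx⟩ := hE x hx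
    have h1 : (LE24.all fun r => (r == List.range 24) ||
      ((cj24.map Prod.fst).contains r || (cj24b.map Prod.fst).contains r)) = true := by decide +kernel
    have h2 := List.all_eq_true.1 h1 r hr
    rw [Bool.or_eq_true] at h2
    rcases h2 with h2 | h2
    · have : x = 1 := Subtype.ext (eq_of_reps rx rep_one h2)
      rw [this]; exact good_one hker
    · exact gall x r rx h2
  -- lifts
  obtain ⟨a', ha'⟩ := hs A
  obtain ⟨b', hb'⟩ := hs B
  obtain ⟨c', hc''⟩ := hs C
  have gA2 : Good σ (A * A) := gall _ (comp la24 la24) (rep_mul ra ra) (by decide +kernel)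
  have gB : Good σ B := gall _ lb24 rb (by decide +kernel)
  have gC : Good σ C := gall _ lc24 rc (by decide +kernel)
  have gAB : Good σ (A * B) := gall _ (comp la24 lb24) (rep_mul ra rb) (by decide +kernel)
  have gCB : Good σ (C * B) := gall _ (comp lc24 lb24) (rep_mul rc rb) (by decide +kernel)
  have gCAB : Good σ (C * (A * B)) := gall _ (comp lc24 (comp la24 lb24)) (rep_mul rc (rep_mul ra rb)) (by decide +kernel)
  have ha4 : a' ^ 4 = 1 := by
    have := gA2 (a' * a') (by rw [map_mul, ha'])
    rw [show (4 : ℕ) = 2 * 2 from rfl, pow_mul, pow_two, pow_two]; exact this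
  have hbb : b' * b' = 1 := gB b' hb'
  have hcc : c' * c' = 1 := gC c' hc''
  have hab : b' * a' * b'⁻¹ = a'⁻¹ := by
    have h1 := gAB (a' * b') (by rw [map_mul, ha', hb'])
    have h2 : b'⁻¹ = b' := inv_eq_of_mul_eq_one_left hbb
    rw [h2, eq_inv_iff_mul_eq_one]
    calc b' * a' * b' * a' = b' * (a' * b' * (a' * b')) * b'⁻¹ := by group
      _ = 1 := by rw [h1, mul_one, mul_inv_cancel]
  have hcb : c' * b' = b' * c' := comm_of_good gC gB gCB hc'' hb'
  have hcab : c' * (a' * b') = (a' * b') * c' := comm_of_good gC gAB gCAB hc'' (by rw [map_mul, ha', hb'])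
  have hca : c' * a' = a' * c' := by
    apply mul_right_cancel (b := b')
    rw [mul_assoc, hcab, mul_assoc, ← hcb]
    group
  have hAo : orderOf A = 2 ^ 2 := by
    have : Fact (Nat.Prime 2) := ⟨Nat.prime_two⟩
    apply orderOf_eq_prime_pow
    · intro h
      exact ne_of_reps (rep_powl ra 2) rep_one (by decide +kernel) (congrArg Subtype.val h)
    · exact Subtype.ext (eq_of_reps (rep_powl ra 4) rep_one (by decide +kernel))
  have hBA : B ∉ zpowers A := not_mem_zpowers (a := A) (b := B) ra rb hAo (by decide +kernel)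
  have hinj := inj_dih8 (σ := σ) ha4 hbb hab (by rw [ha', hAo]; norm_num) (by rw [ha', hb']; exact hBA)
  have himg : σ '' {a', b'} = {A, B} := by rw [Set.image_pair, ha', hb']
  have hinj2 := inj_sup (σ := σ) (c := c') hinj hcc (by
    rintro s (rfl | rfl)
    · exact hca
    · exact hcb) (by
    rw [himg, hc'']
    intro hmem
    obtain ⟨r, hr, hr'⟩ := closure_sub ({A, B} : Set M24) [la24, lb24]
      (prods [[powl la24 0, powl la24 1, powl la24 2, powl la24 3], [powl lb24 0, powl lb24 1]]) (by
      rintro s (rfl | rfl)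
      · exact ⟨_, by simp, ra⟩
      · exact ⟨_, by simp, rb⟩) (by decide +kernel) C hmem
    rw [rep_eq_list hr' rc] at hr
    have h2 : (prods [[powl la24 0, powl la24 1, powl la24 2, powl la24 3],
      [powl lb24 0, powl lb24 1]]).contains lc24 = false := by decide +kernel
    rw [List.contains_iff_mem.2 hr] at h2
    exact absurd h2 (by decide))
  refine two_core σ hσ hker (genS M24 es24) (closure (insert C ({A, B} : Set M24))) ⟨d, hd⟩ ld rd LE24 LT24 hE hE' hT hT'
    hgood (by decide +kernel) (closure (insert c' ({a', b'} : Set Γ))) ?_ hinj2 10 (by rw [card_M24]; norm_num) (by decide)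
  rw [MonoidHom.map_closure, Set.image_insert_eq, himg, hc'']

/-- products for the Sylow 3-subgroup -/
noncomputable def prS : List (List ℕ) :=
  prods [[powl lx24 0, powl lx24 1, powl lx24 2], [powl ly24 0, powl ly24 1, powl ly24 2],
    [powl ld 0, powl ld 1, powl ld 2]]

theorem three_part_M24 (Γ : Type) [Group Γ] [Finite Γ] (σ : Γ →* M24) (hσ : IsStemExtension σ) :
    Nat.card σ.ker ≠ 3 := by
  intro hker
  have : Fact (Nat.Prime 3) := ⟨by norm_num⟩
  obtain ⟨x, hx, rx⟩ := exists_M24 (l := lx24) (by decide +kernel)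
  obtain ⟨y, hy, ry⟩ := exists_M24 (l := ly24) (by decide +kernel)
  obtain ⟨c, hc, rc⟩ := exists_M24 (l := ld) (by decide +kernel)
  obtain ⟨g, hg, rg⟩ := exists_M24 (l := lg24) (by decide +kernel)
  set X : M24 := ⟨x, hx⟩ with hX
  set Y : M24 := ⟨y, hy⟩ with hY
  set C : M24 := ⟨c, hc⟩ with hC
  have hC3 : orderOf C = 3 := by
    apply orderOf_eq_prime
    · exact Subtype.ext (eq_of_reps (rep_powl rc 3) rep_one (by decide +kernel))
    · intro h
      exact ne_of_reps rc rep_one (by decide +kernel) (congrArg Subtype.val h)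
  have hXY : X * Y * X⁻¹ * Y⁻¹ = C :=
    Subtype.ext (eq_of_reps (rep_mul (rep_mul (rep_mul rx ry) (rep_inv rx)) (rep_inv ry)) rc (by decide +kernel))
  have hXC : X * C = C * X := Subtype.ext (eq_of_reps (rep_mul rx rc) (rep_mul rc rx) (by decide +kernel))
  have hYC : Y * C = C * Y := Subtype.ext (eq_of_reps (rep_mul ry rc) (rep_mul rc ry) (by decide +kernel))
  have hsub := closure_sub ({X, Y} : Set M24) [lx24, ly24] prS (by
    rintro s (rfl | rfl)
    · exact ⟨_, by simp, rx⟩
    · exact ⟨_, by simp, ry⟩) (by decide +kernel)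
  have hX' : X ∈ closure ({X, Y} : Set M24) := subset_closure (by simp)
  have hY' : Y ∈ closure ({X, Y} : Set M24) := subset_closure (by simp)
  have hC' : C ∈ closure ({X, Y} : Set M24) := by
    rw [← hXY]
    exact mul_mem (mul_mem (mul_mem hX' hY') (inv_mem hX')) (inv_mem hY')
  have hhas : HasS (closure ({X, Y} : Set M24)) prS := by
    apply hasS_prods
    intro L hL r hr
    simp only [List.mem_cons, List.not_mem_nil, or_false] at hL
    rcases hL with rfl | rfl | rfl
    · simp only [List.mem_cons, List.not_mem_nil, or_false] at hr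
      rcases hr with rfl | rfl | rfl
      · exact ⟨X ^ 0, pow_mem hX' 0, rep_powl rx 0⟩
      · exact ⟨X ^ 1, pow_mem hX' 1, rep_powl rx 1⟩
      · exact ⟨X ^ 2, pow_mem hX' 2, rep_powl rx 2⟩
    · simp only [List.mem_cons, List.not_mem_nil, or_false] at hr
      rcases hr with rfl | rfl | rfl
      · exact ⟨Y ^ 0, pow_mem hY' 0, rep_powl ry 0⟩
      · exact ⟨Y ^ 1, pow_mem hY' 1, rep_powl ry 1⟩
      · exact ⟨Y ^ 2, pow_mem hY' 2, rep_powl ry 2⟩
    · simp only [List.mem_cons, List.not_mem_nil, or_false] at hr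
      rcases hr with rfl | rfl | rfl
      · exact ⟨C ^ 0, pow_mem hC' 0, rep_powl rc 0⟩
      · exact ⟨C ^ 1, pow_mem hC' 1, rep_powl rc 1⟩
      · exact ⟨C ^ 2, pow_mem hC' 2, rep_powl rc 2⟩
  have hpg : IsPGroup 3 (closure ({X, Y} : Set M24)) := by
    rintro ⟨t, ht⟩
    obtain ⟨l, hl, rt⟩ := hsub t ht
    refine ⟨1, Subtype.ext (Subtype.ext ?_)⟩
    change (t : Equiv.Perm GolayPt) ^ 3 ^ 1 = 1
    have h1 : (prS.all fun r => powl r 3 == List.range 24) = true := by decide +kernel
    exact eq_of_reps (rep_powl rt 3) rep_one (List.all_eq_true.1 h1 l hl)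
  refine false_of_extraspecial (σ := σ) hσ hker X Y C ⟨g, hg⟩ ?_ hC3 ?_ hXC hYC 0 0 ?_ ?_ hpg ?_
  · exact Subtype.ext (eq_of_reps (rep_powl rx 3) rep_one (by decide +kernel))
  · rw [commutatorElement_def]; exact hXY
  · rw [pow_zero, mul_one]
    exact Subtype.ext (eq_of_reps (rep_mul (rep_mul rg rx) (rep_inv rg)) (rep_inv rx) (by decide +kernel))
  · rw [pow_zero, mul_one]
    exact Subtype.ext (eq_of_reps (rep_mul (rep_mul rg ry) (rep_inv rg)) (rep_inv ry) (by decide +kernel))
  · apply index_of_card_lt (k := 3) hpg (by rw [card_M24]; norm_num)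
    have h1 := card_ge hhas (by decide +kernel)
    have h2 : prS.length = 27 := by decide +kernel
    rw [h2] at h1
    exact h1

theorem schur_M24 : HasCyclicSchurMultiplier M24 1 := by
  apply trivial_of_primes
  intro p hp Γ _ _ σ hσ
  by_cases h2 : p = 2
  · subst h2; exact two_part_M24 Γ σ hσ
  by_cases h3 : p = 3
  · subst h3; exact three_part_M24 Γ σ hσ
  · apply ne_of_not_sq_dvd perfect_M24 _ Γ σ hσ
    rw [card_M24]
    intro hd
    have h4 : p ∣ 244823040 := (dvd_pow_self p (by norm_num)).trans hd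
    have h5 := prime_cases hp.out (L := [2, 2, 2, 2, 2, 2, 2, 2, 2, 2, 3, 3, 3, 5, 7, 11, 23]) (by simp; norm_num)
      (by norm_num) h4
    simp only [List.mem_cons, List.not_mem_nil, or_false] at h5
    rcases h5 with h5 | h5 | h5 | h5 | h5 | h5 | h5 | h5 | h5 | h5 | h5 | h5 | h5 | h5 | h5 | h5 | h5
    all_goals first
      | exact h2 h5
      | exact h3 h5
      | (subst h5; norm_num at hd)

end Cfsg.Agent.H14.SchurM
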