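import Mathlib
import Cfsg.Agent.H14_StO

set_option autoImplicit false
set_option linter.unusedSectionVars false

/-!
The number of `p`-elements commuting with a semisimple element is the square of the Steinberg character value.
-/

namespace Cfsg.Agent.H14.Chev

open Cfsg Cfsg.Lie Cfsg.Lie.ChevalleyDatum Cfsg.Agent.H6 Cfsg.Agent.H6.Chev Cfsg.Agent.H6.Chev.Model
open Cfsg.Agent.H3.CharIrr
open scoped Matrix Pointwise

section grp

variable {G : Type*} [Group G] [Finite G]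

/-- cosets in `P` fixed by `g`, counted with multiplicity -/
theorem card_fixIn_mul (P K : Subgroup G) (h : K ≤ P) (g : G) :
    Nat.card (FixIn P K g) * Nat.card K = Nat.card {x : G // x ∈ P ∧ x⁻¹ * g * x ∈ K} := by
  classical
  rw [← Nat.card_prod]
  have h1 : ∀ z : FixIn P K g, ∃ x ∈ P, (x : G ⧸ K) = z.1 := fun z => z.2.1
  choose r hr hr2 using h1
  apply Nat.card_congr
  have hfix : ∀ (z : FixIn P K g), (r z)⁻¹ * g * r z ∈ K := by
    intro z
    have := z.2.2
    rw [← hr2 z, smul_mk_iff] at this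
    exact this
  have hmk : ∀ x : {x : G // x ∈ P ∧ x⁻¹ * g * x ∈ K}, ((x.1 : G) : G ⧸ K) ∈ FixIn P K g := fun x => ⟨⟨x.1, x.2.1, rfl⟩, smul_mk_iff.2 x.2.2⟩
  have hrK : ∀ x : {x : G // x ∈ P ∧ x⁻¹ * g * x ∈ K}, (r ⟨((x.1 : G) : G ⧸ K), hmk x⟩)⁻¹ * x.1 ∈ K := by
    intro x
    rw [← QuotientGroup.eq]
    exact hr2 _
  refine
    { toFun := fun y => ⟨r y.1 * y.2.1, mul_mem (hr y.1) (h y.2.2), ?_⟩
      invFun := fun x => (⟨((x.1 : G) : G ⧸ K), hmk x⟩, ⟨_, hrK x⟩)
      left_inv := ?_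
      right_inv := ?_ }
  · have e : (r y.1 * y.2.1)⁻¹ * g * (r y.1 * y.2.1) = (y.2.1)⁻¹ * ((r y.1)⁻¹ * g * r y.1) * y.2.1 := by group
    rw [e]
    exact mul_mem (mul_mem (inv_mem y.2.2) (hfix y.1)) y.2.2
  · rintro ⟨z, k⟩
    have e1 : (⟨((r z * k.1 : G) : G ⧸ K), hmk ⟨r z * k.1, mul_mem (hr z) (h k.2), by
        have e : (r z * k.1)⁻¹ * g * (r z * k.1) = (k.1)⁻¹ * ((r z)⁻¹ * g * r z) * k.1 := by group
        rw [e]
        exact mul_mem (mul_mem (inv_mem k.2) (hfix z)) k.2⟩⟩ : FixIn P K g) = z := by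
      apply Subtype.ext
      change ((r z * k.1 : G) : G ⧸ K) = z.1
      rw [← hr2 z, QuotientGroup.eq]
      have e : (r z * k.1)⁻¹ * r z = (k.1)⁻¹ := by group
      rw [e]; exact inv_mem k.2
    apply Prod.ext
    · exact e1
    · apply Subtype.ext
      change (r _)⁻¹ * (r z * k.1) = k.1
      rw [e1]; group
  · intro x
    apply Subtype.ext
    change r _ * ((r _)⁻¹ * x.1) = x.1
    group

theorem fixIn_top (K : Subgroup G) (g : G) : Nat.card (FixIn ⊤ K g) = Nat.card (MulAction.fixedBy (G ⧸ K) g) := by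
  apply Nat.card_congr
  apply Equiv.subtypeEquivRight
  intro z
  constructor
  · rintro ⟨_, h⟩; exact h
  · intro h
    obtain ⟨x, rfl⟩ := QuotientGroup.mk_surjective z
    exact ⟨⟨x, Subgroup.mem_top _, rfl⟩, h⟩

theorem card_fixedBy_mul (K : Subgroup G) (g : G) :
    Nat.card (MulAction.fixedBy (G ⧸ K) g) * Nat.card K = Nat.card {x : G // x⁻¹ * g * x ∈ K} := by
  rw [← fixIn_top, card_fixIn_mul ⊤ K le_top]
  apply Nat.card_congr
  exact Equiv.subtypeEquivRight fun x => by simp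

theorem sum_fixIn_conj [Fintype G] (P K : Subgroup G) (h : K ≤ P) (g : G) :
    ∑ x : G, Nat.card (FixIn P K (x⁻¹ * g * x)) = Nat.card P * Nat.card (MulAction.fixedBy (G ⧸ K) g) := by
  classical
  have hK : 0 < Nat.card K := Nat.card_pos
  apply Nat.eq_of_mul_eq_mul_right hK
  rw [Finset.sum_mul, Finset.sum_congr rfl (fun x _ => card_fixIn_mul P K h _), mul_assoc, card_fixedBy_mul, ← Nat.card_prod]
  rw [← Nat.card_sigma]
  apply Nat.card_congr
  refine
    { toFun := fun y => (⟨y.2.1, y.2.2.1⟩, ⟨y.1 * y.2.1, ?_⟩)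
      invFun := fun y => ⟨y.2.1 * y.1.1⁻¹, ⟨y.1.1, y.1.2, ?_⟩⟩
      left_inv := ?_
      right_inv := ?_ }
  · have e : (y.1 * y.2.1)⁻¹ * g * (y.1 * y.2.1) = (y.2.1)⁻¹ * (y.1⁻¹ * g * y.1) * y.2.1 := by group
    rw [e]; exact y.2.2.2
  · have e : (y.1.1)⁻¹ * ((y.2.1 * y.1.1⁻¹)⁻¹ * g * (y.2.1 * y.1.1⁻¹)) * y.1.1 = y.2.1⁻¹ * g * y.2.1 := by group
    rw [e]; exact y.2.2
  · rintro ⟨x, y, hy, hxy⟩
    have e : x * y * y⁻¹ = x := by group
    exact Sigma.subtype_ext e rfl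
  · rintro ⟨⟨y, hy⟩, ⟨z, hz⟩⟩
    simp

theorem fixIn_empty (P K : Subgroup G) (h : K ≤ P) {g : G} (hg : g ∉ P) : Nat.card (FixIn P K g) = 0 := by
  rw [Nat.card_eq_zero]
  left
  constructor
  rintro ⟨_, ⟨x, hx, rfl⟩, hz⟩
  rw [smul_mk_iff] at hz
  apply hg
  have e : g = x * (x⁻¹ * g * x) * x⁻¹ := by group
  rw [e]
  exact mul_mem (mul_mem hx (h hz)) (inv_mem hx)

/-- powers recover the `p`-regular part -/
theorem mem_of_mul_mem {p : ℕ} [hp : Fact p.Prime] {P : Subgroup G} {s u : G} (hc : Commute s u) (hs : ¬ p ∣ orderOf s)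
    (hu : ∃ k : ℕ, u ^ p ^ k = 1) (h : s * u ∈ P) : s ∈ P ∧ u ∈ P := by
  obtain ⟨k, hk⟩ := hu
  have hcop : Nat.Coprime (orderOf s) (p ^ k) := Nat.Coprime.pow_right k ((Nat.Prime.coprime_iff_not_dvd hp.out).2 hs).symm
  have h1 : s ^ p ^ k ∈ P := by
    have := pow_mem h (p ^ k)
    rwa [hc.mul_pow, hk, mul_one] at this
  have h2 : s ∈ P := by
    have h3 : s ∈ Subgroup.zpowers (s ^ p ^ k) := by
      obtain ⟨j, hj⟩ := exists_pow_eq_self_of_coprime (x := s) (n := p ^ k) hcop.symm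
      exact Subgroup.mem_zpowers_iff.2 ⟨j, by rw [zpow_natCast]; exact hj⟩
    exact (Subgroup.zpowers_le.2 h1) h3
  refine ⟨h2, ?_⟩
  have := mul_mem (inv_mem h2) h
  rwa [inv_mul_cancel_left] at this

end grp

variable {D : ChevalleyDatum} {F : Type*} [Field F] (m : Model D)

include m in
theorem parabolicIn_mono {J K : Finset ℕ} (h : K ⊆ J) : D.parabolicIn F K ≤ D.parabolicIn F J := by
  intro x hx
  exact parabolic_mono m (J := (J : Set ℕ)) (K := (K : Set ℕ)) (by exact_mod_cast h) hx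

include m in
theorem sum_stJ_conj [Fintype F] [Fintype ↥(D.group F)] (J : Finset ℕ) (g : ↥(D.group F)) :
    ∑ x : ↥(D.group F), stJ D F J (x⁻¹ * g * x) =
      (Nat.card (D.parabolicIn F J) : ℂ) * ∑ K ∈ J.powerset, (-1 : ℂ) ^ K.card * (Nat.card (MulAction.fixedBy (↥(D.group F) ⧸ D.parabolicIn F K) g) : ℂ) := by
  classical
  unfold stJ
  rw [Finset.sum_comm, Finset.mul_sum]
  apply Finset.sum_congr rfl
  intro K hK
  rw [← Finset.mul_sum, ← Nat.cast_sum, sum_fixIn_conj _ _ (parabolicIn_mono m (Finset.mem_powerset.1 hK))]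
  push_cast
  ring

include m in
theorem stJ_outside {J : Finset ℕ} [Finite F] {g : ↥(D.group F)} (hg : g ∉ D.parabolicIn F J) : stJ D F J g = 0 := by
  unfold stJ
  apply Finset.sum_eq_zero
  intro K hK
  rw [fixIn_empty _ _ (parabolicIn_mono m (Finset.mem_powerset.1 hK)) hg]
  simp

include m in
/-- `stJ` is invariant under the radical -/
theorem stJ_mul_radical {J : Finset ℕ} [Finite F] {g v : ↥(D.group F)}
    (hv : (v : GL D.Idx F) ∈ D.unipotentRadical F (J : Set ℕ)) : stJ D F J (g * v) = stJ D F J g := by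
  unfold stJ
  apply Finset.sum_congr rfl
  intro K hK
  congr 2
  apply Nat.card_congr
  apply Equiv.subtypeEquivRight
  intro z
  apply and_congr_right
  rintro ⟨x, hx, rfl⟩
  have hxv : x⁻¹ * v * x ∈ D.parabolicIn F K := by
    have h1 := (Subgroup.mem_normalizer_iff.1 (m.parabolic_norm (F := F) (J : Set ℕ) (inv_mem hx)) (v : GL D.Idx F)).1 hv
    rw [inv_inv] at h1
    rw [mem_parabolicIn]
    apply m.B_le_parabolic
    apply U_le_B
    apply m.radical_le_U (J : Set ℕ)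
    have e : ((x⁻¹ * v * x : ↥(D.group F)) : GL D.Idx F) = (x : GL D.Idx F)⁻¹ * v * x := by
      simp only [Subgroup.coe_mul, Subgroup.coe_inv]
    rw [e]; exact h1
  rw [smul_mk_iff, smul_mk_iff]
  have e : x⁻¹ * (g * v) * x = (x⁻¹ * g * x) * (x⁻¹ * v * x) := by group
  rw [e]
  constructor
  · intro h
    have := mul_mem h (inv_mem hxv)
    rwa [mul_inv_cancel_right] at this
  · intro h; exact mul_mem h hxv

include m in
/-- `stJ` vanishes on elements whose `p`-part is outside the radical -/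
theorem stJ_vanish [Fintype F] {p : ℕ} [hp : Fact p.Prime] [CharP F p] {J : Finset ℕ} (hJ : J ⊆ Finset.range D.rank)
    {s u : ↥(D.group F)} (hs : s ∈ D.parabolicIn F J) (hu : u ∈ D.parabolicIn F J) (hc : Commute s u) (hsp : ¬ p ∣ orderOf s)
    (hup : ∃ k : ℕ, u ^ p ^ k = 1) (hur : (u : GL D.Idx F) ∉ D.unipotentRadical F (J : Set ℕ)) : stJ D F J (s * u) = 0 := by
  have hg : s * u ∈ D.parabolicIn F J := mul_mem hs hu
  have hy' : ((s * u : ↥(D.group F)) : GL D.Idx F) ∈ D.unipotentRadical F (J : Set ℕ) ⊔ D.leviSubgroup F (J : Set ℕ) := by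
    rw [m.radical_sup_levi]; exact hg
  rw [sup_comm, mem_sup_norm (le_trans (levi_le_parabolic m _) (m.parabolic_norm _))] at hy'
  obtain ⟨l0, hl0, u0, hu0, he⟩ := hy'
  obtain ⟨l, hl⟩ : ∃ l : ↥(D.group F), (l : GL D.Idx F) = l0 := ⟨⟨l0, m.parabolic_le_G _ (levi_le_parabolic m _ hl0)⟩, rfl⟩
  obtain ⟨v, hv⟩ : ∃ v : ↥(D.group F), (v : GL D.Idx F) = u0 := ⟨⟨u0, m.B_le_G (U_le_B (m.radical_le_U _ hu0))⟩, rfl⟩
  have hsu : s * u = l * v := Subtype.ext (by rw [he, Subgroup.coe_mul, hl, hv])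
  have hlL : (l : GL D.Idx F) ∈ D.leviSubgroup F (J : Set ℕ) := by rw [hl]; exact hl0
  have hlP : l ∈ D.parabolicIn F J := levi_le_parabolic m _ hlL
  have hvU : (v : GL D.Idx F) ∈ D.unipotentRadical F (J : Set ℕ) := by rw [hv]; exact hu0
  rw [hsu, stJ_mul_radical m hvU]
  -- l is p-singular
  have hl1 : p ∣ orderOf l := by
    by_contra hnd
    apply hur
    obtain ⟨n, hn⟩ : ∃ n, n = orderOf l := ⟨_, rfl⟩
    have hln : l ^ n = 1 := by rw [hn]; exact pow_orderOf_eq_one l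
    have hN : (D.parabolicIn F J) ≤ Subgroup.normalizer (((D.unipotentRadical F (J : Set ℕ)).subgroupOf (D.group F) : Subgroup ↥(D.group F)) : Set ↥(D.group F)) := by
      intro x hx
      rw [Subgroup.mem_normalizer_iff]
      intro h
      exact Subgroup.mem_normalizer_iff.1 (m.parabolic_norm (F := F) _ hx) h
    obtain ⟨w, hw, hwn⟩ := mul_pow_norm (N := (D.unipotentRadical F (J : Set ℕ)).subgroupOf (D.group F)) (hN hlP) (u := v) hvU n
    rw [← hsu, hln, one_mul, hc.mul_pow] at hwn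
    have hU : IsPGroup p ↥((D.unipotentRadical F (J : Set ℕ)).subgroupOf (D.group F)) := by
      apply IsPGroup.comap_subtype
      exact (isPGroup_U m (F := F) (p := p)).to_le (m.radical_le_U _)
    obtain ⟨a, ha⟩ := hup
    obtain ⟨b, hb⟩ := hU ⟨w, hw⟩
    have hb' : w ^ p ^ b = 1 := by
      have := congrArg Subtype.val hb
      simpa using this
    -- s^n = 1
    have hsn : s ^ n = 1 := by
      have h1 : s ^ (n * p ^ (a + b)) = 1 := by
        have h2 : (s ^ n * u ^ n) ^ p ^ (a + b) = 1 := by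
          rw [hwn, pow_add, mul_comm (p ^ a), pow_mul, hb', one_pow]
        have hcn : Commute (s ^ n) (u ^ n) := (hc.pow_left n).pow_right n
        rw [hcn.mul_pow] at h2
        have h3 : (u ^ n) ^ p ^ (a + b) = 1 := by
          rw [← pow_mul, mul_comm, pow_mul, pow_add, pow_mul, ha, one_pow, one_pow]
        rw [h3, mul_one, ← pow_mul] at h2
        exact h2
      have h2 : orderOf s ∣ n * p ^ (a + b) := orderOf_dvd_of_pow_eq_one h1
      have h3 : (orderOf s).Coprime (p ^ (a + b)) := Nat.Coprime.pow_right _ ((Nat.Prime.coprime_iff_not_dvd hp.out).2 hsp).symm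
      exact orderOf_dvd_iff_pow_eq_one.1 (h3.dvd_of_dvd_mul_right h2)
    rw [hsn, one_mul] at hwn
    have hcop : Nat.Coprime n (orderOf u) := by
      have h1 : orderOf u ∣ p ^ a := orderOf_dvd_of_pow_eq_one ha
      have h2 : Nat.Coprime n (p ^ a) := by
        rw [hn]
        exact Nat.Coprime.pow_right _ ((Nat.Prime.coprime_iff_not_dvd hp.out).2 hnd).symm
      exact Nat.Coprime.coprime_dvd_right h1 h2
    obtain ⟨j, hj⟩ := exists_pow_eq_self_of_coprime (x := u) (n := n) hcop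
    have h5 : u ∈ (D.unipotentRadical F (J : Set ℕ)).subgroupOf (D.group F) := by
      rw [← hj, hwn]
      exact pow_mem hw j
    exact h5
  have h1 := steinberg_restrict m hJ hlP
  rw [steinberg_vanish m (p := p) hl1] at h1
  rcases mul_eq_zero.1 h1.symm with h | h
  · exfalso
    have h2 : Nat.card (FixIn (D.parabolicIn F J) (LevG D F J) l) = 0 := by exact_mod_cast h
    have h3 : ((1 : ↥(D.group F)) : ↥(D.group F) ⧸ LevG D F J) ∈ FixIn (D.parabolicIn F J) (LevG D F J) l :=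
      ⟨⟨1, one_mem _, rfl⟩, smul_mk_iff.2 (by rw [inv_one, one_mul, mul_one]; exact hlL)⟩
    rw [Nat.card_eq_zero] at h2
    rcases h2 with h2 | h2
    · exact h2.false ⟨_, h3⟩
    · exact h2.not_finite inferInstance
  · exact h

end Cfsg.Agent.H14.Chev
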