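import Mathlib
import Cfsg.Agent.H14_StP

set_option autoImplicit false
set_option linter.unusedSectionVars false

/-!
The number of `p`-elements commuting with a semisimple element is the square of the Steinberg character value, part 2.
-/

namespace Cfsg.Agent.H14.Chev

open Cfsg Cfsg.Lie Cfsg.Lie.ChevalleyDatum Cfsg.Agent.H6 Cfsg.Agent.H6.Chev Cfsg.Agent.H6.Chev.Model
open Cfsg.Agent.H3.CharIrr
open scoped Matrix Pointwise

variable {D : ChevalleyDatum} {F : Type*} [Field F] (m : Model D)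

/-- the unipotent radical inside the group -/
abbrev RadG (D : ChevalleyDatum) (F : Type*) [Field F] (J : Finset ℕ) : Subgroup ↥(D.group F) :=
  (D.unipotentRadical F (J : Set ℕ)).subgroupOf (D.group F)

include m in
theorem isPGroup_RadG [Fintype F] {p : ℕ} [hp : Fact p.Prime] [CharP F p] (J : Finset ℕ) : IsPGroup p (RadG D F J) := by
  apply IsPGroup.comap_subtype
  exact (isPGroup_U m (F := F) (p := p)).to_le (m.radical_le_U _)

include m in
theorem card_fixIn_levi [Fintype F] {p : ℕ} [hp : Fact p.Prime] [CharP F p] {J : Finset ℕ} {s : ↥(D.group F)}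
    (hy : s ∈ D.parabolicIn F J) (hsp : ¬ p ∣ orderOf s) :
    Nat.card (FixIn (D.parabolicIn F J) (LevG D F J) s) = Nat.card ↥(RadG D F J ⊓ Subgroup.centralizer ({s} : Set ↥(D.group F)) : Subgroup ↥(D.group F)) := by
  refine card_fixIn_compl (p := p) (D.parabolicIn F J) (LevG D F J) ((D.unipotentRadical F (J : Set ℕ)).subgroupOf (D.group F))
    (fun x hx => levi_le_parabolic m _ hx) (fun x hx => m.B_le_parabolic _ (U_le_B (m.radical_le_U _ hx)))
    (by
      intro x hx
      rw [Subgroup.mem_normalizer_iff]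
      intro h
      exact Subgroup.mem_normalizer_iff.1 (m.parabolic_norm (F := F) _ hx) h) (isPGroup_RadG m J)
    (by
      rw [eq_bot_iff]
      rintro x ⟨h1, h2⟩
      have h3 : (x : GL D.Idx F) ∈ D.unipotentRadical F (J : Set ℕ) ⊓ D.leviSubgroup F (J : Set ℕ) := Subgroup.mem_inf.2 ⟨h2, h1⟩
      rw [m.radical_inf_levi, Subgroup.mem_bot] at h3
      rw [Subgroup.mem_bot]
      exact Subtype.ext h3)
    (by
      intro y hy
      have hy' : (y : GL D.Idx F) ∈ D.unipotentRadical F (J : Set ℕ) ⊔ D.leviSubgroup F (J : Set ℕ) := by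
        rw [m.radical_sup_levi]; exact hy
      rw [sup_comm, mem_sup_norm (le_trans (levi_le_parabolic m _) (m.parabolic_norm _))] at hy'
      obtain ⟨l0, hl0, u0, hu0, he⟩ := hy'
      exact ⟨⟨l0, m.parabolic_le_G _ (levi_le_parabolic m _ hl0)⟩, hl0, ⟨u0, m.B_le_G (U_le_B (m.radical_le_U _ hu0))⟩, hu0, Subtype.ext he⟩)
    hy hsp

open Classical in
/-- the `p`-elements commuting with `s` -/
noncomputable def pcs {G : Type*} [Group G] [Fintype G] (p : ℕ) (s : G) : Finset G :=
  Finset.univ.filter fun u => Commute s u ∧ ∃ k : ℕ, u ^ p ^ k = 1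

theorem mem_pcs {G : Type*} [Group G] [Fintype G] {p : ℕ} {s u : G} : u ∈ pcs p s ↔ Commute s u ∧ ∃ k : ℕ, u ^ p ^ k = 1 := by
  unfold pcs; simp

theorem sum_pcs_conj {G : Type*} [Group G] [Fintype G] {p : ℕ} {s : G} (x : G) (f : G → ℂ) :
    ∑ u ∈ pcs p s, f (x⁻¹ * (s * u) * x) = ∑ u ∈ pcs p (x⁻¹ * s * x), f (x⁻¹ * s * x * u) := by
  have hpow : ∀ (y u : G) (k : ℕ), (y⁻¹ * u * y) ^ k = y⁻¹ * u ^ k * y := by
    intro y u k
    have := conj_pow (i := k) (a := y⁻¹) (b := u)
    rwa [inv_inv] at this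
  refine Finset.sum_bij' (fun u _ => x⁻¹ * u * x) (fun u _ => x * u * x⁻¹) ?_ ?_ ?_ ?_ ?_
  · intro u hu
    rw [mem_pcs] at hu ⊢
    obtain ⟨h1, k, h2⟩ := hu
    refine ⟨?_, k, ?_⟩
    · change x⁻¹ * s * x * (x⁻¹ * u * x) = x⁻¹ * u * x * (x⁻¹ * s * x)
      calc x⁻¹ * s * x * (x⁻¹ * u * x) = x⁻¹ * (s * u) * x := by group
        _ = x⁻¹ * (u * s) * x := by rw [h1.eq]
        _ = _ := by group
    · rw [hpow, h2]; group
  · intro u hu
    rw [mem_pcs] at hu ⊢
    obtain ⟨h1, k, h2⟩ := hu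
    refine ⟨?_, k, ?_⟩
    · change s * (x * u * x⁻¹) = x * u * x⁻¹ * s
      calc s * (x * u * x⁻¹) = x * ((x⁻¹ * s * x) * u) * x⁻¹ := by group
        _ = x * (u * (x⁻¹ * s * x)) * x⁻¹ := by rw [h1.eq]
        _ = _ := by group
    · have := hpow x⁻¹ u (p ^ k)
      rw [inv_inv] at this
      rw [this, h2]; group
  · intro u _; group
  · intro u _; group
  · intro u _
    congr 1
    group

include m in
theorem sum_inner [Fintype F] [Fintype ↥(D.group F)] {p : ℕ} [hp : Fact p.Prime] [CharP F p] {J : Finset ℕ} (hJ : J ⊆ Finset.range D.rank)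
    {s : ↥(D.group F)} (hs : s ∈ D.parabolicIn F J) (hsp : ¬ p ∣ orderOf s) :
    ∑ u ∈ pcs p s, stJ D F J (s * u) = D.steinbergCharacter F s := by
  classical
  have h1 : ∀ u ∈ pcs p s, stJ D F J (s * u) = if u ∈ RadG D F J then stJ D F J s else 0 := by
    intro u hu
    rw [mem_pcs] at hu
    split_ifs with h
    · exact stJ_mul_radical m h
    · by_cases hP : u ∈ D.parabolicIn F J
      · exact stJ_vanish m (p := p) hJ hs hP hu.1 hsp hu.2 h
      · apply stJ_outside m
        intro h2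
        exact hP (mem_of_mul_mem hu.1 hsp hu.2 h2).2
  rw [Finset.sum_congr rfl h1, ← Finset.sum_filter, Finset.sum_const, nsmul_eq_mul, steinberg_restrict m hJ hs, card_fixIn_levi m (p := p) hs hsp]
  congr 2
  rw [← Fintype.card_coe, ← Nat.card_eq_fintype_card]
  apply Nat.card_congr
  apply Equiv.subtypeEquivRight
  intro u
  rw [Finset.mem_filter, mem_pcs, Subgroup.mem_inf, Subgroup.mem_centralizer_singleton_iff]
  constructor
  · rintro ⟨⟨h1, _⟩, h2⟩
    exact ⟨h2, h1.eq.symm⟩
  · rintro ⟨h2, h3⟩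
    refine ⟨⟨h3.symm, ?_⟩, h2⟩
    obtain ⟨k, hk⟩ := isPGroup_RadG m (p := p) J ⟨u, h2⟩
    exact ⟨k, by have := congrArg Subtype.val hk; simpa using this⟩

include m in
/-- the number of `p`-elements commuting with a `p`-regular element `s` is `St(s)²` -/
theorem card_pcs [Fintype F] [Fintype ↥(D.group F)] {p : ℕ} [hp : Fact p.Prime] [CharP F p]
    {s : ↥(D.group F)} (hsp : ¬ p ∣ orderOf s) :
    ((pcs p s).card : ℂ) = D.steinbergCharacter F s ^ 2 := by
  classical
  have hordc : ∀ x : ↥(D.group F), ¬ p ∣ orderOf (x⁻¹ * s * x) := by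
    intro x
    have : orderOf (x⁻¹ * s * x) = orderOf s := by
      have e : x⁻¹ * s * x = MulAut.conj x⁻¹ s := by rw [MulAut.conj_apply, inv_inv]
      rw [e]
      exact MulEquiv.orderOf_eq _ _
    rw [this]; exact hsp
  let a : Finset ℕ → ℂ := fun K => ∑ u ∈ pcs p s, (Nat.card (MulAction.fixedBy (↥(D.group F) ⧸ D.parabolicIn F K) (s * u)) : ℂ)
  have hT : ∀ J ∈ (Finset.range D.rank).powerset, ∑ K ∈ J.powerset, (-1 : ℂ) ^ K.card * a K =
      D.steinbergCharacter F s * (Nat.card (MulAction.fixedBy (↥(D.group F) ⧸ D.parabolicIn F J) s) : ℂ) := by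
    intro J hJ
    rw [Finset.mem_powerset] at hJ
    have hP0 : (Nat.card (D.parabolicIn F J) : ℂ) ≠ 0 := by exact_mod_cast Nat.card_pos.ne'
    apply mul_left_cancel₀ hP0
    have e1 : (Nat.card (D.parabolicIn F J) : ℂ) * ∑ K ∈ J.powerset, (-1 : ℂ) ^ K.card * a K =
        ∑ u ∈ pcs p s, ∑ x : ↥(D.group F), stJ D F J (x⁻¹ * (s * u) * x) := by
      rw [Finset.sum_congr rfl (fun u _ => sum_stJ_conj m J (s * u)), ← Finset.mul_sum]
      congr 1
      rw [Finset.sum_comm]
      apply Finset.sum_congr rfl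
      intro K _
      rw [← Finset.mul_sum]
    rw [e1, Finset.sum_comm]
    have e2 : ∀ x : ↥(D.group F), ∑ u ∈ pcs p s, stJ D F J (x⁻¹ * (s * u) * x) =
        if x⁻¹ * s * x ∈ D.parabolicIn F J then D.steinbergCharacter F s else 0 := by
      intro x
      rw [sum_pcs_conj x (stJ D F J)]
      split_ifs with h
      · rw [sum_inner m (p := p) hJ h (hordc x)]
        have := steinberg_conj s x⁻¹
        rwa [inv_inv] at this
      · apply Finset.sum_eq_zero
        intro u hu
        rw [mem_pcs] at hu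
        apply stJ_outside m
        intro h2
        exact h (mem_of_mul_mem hu.1 (hordc x) hu.2 h2).1
    rw [Finset.sum_congr rfl (fun x _ => e2 x), ← Finset.sum_filter, Finset.sum_const, nsmul_eq_mul]
    have e3 : (Finset.univ.filter (fun x : ↥(D.group F) => x⁻¹ * s * x ∈ D.parabolicIn F J)).card =
        Nat.card (MulAction.fixedBy (↥(D.group F) ⧸ D.parabolicIn F J) s) * Nat.card (D.parabolicIn F J) := by
      rw [card_fixedBy_mul, ← Fintype.card_subtype, ← Nat.card_eq_fintype_card]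
    rw [e3]
    push_cast
    ring
  have hmob := mobius (Finset.range D.rank) a
  rw [Finset.sum_congr rfl (fun J hJ => by rw [hT J hJ])] at hmob
  have h2 : D.parabolicIn F (Finset.range D.rank) = ⊤ := by
    unfold ChevalleyDatum.parabolicIn
    rw [parabolic_full m (fun i hi => by simpa using hi), Subgroup.subgroupOf_self]
  have h3 : a (Finset.range D.rank) = ((pcs p s).card : ℂ) := by
    change ∑ u ∈ pcs p s, (Nat.card (MulAction.fixedBy (↥(D.group F) ⧸ D.parabolicIn F (Finset.range D.rank)) (s * u)) : ℂ) = _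
    rw [h2]
    have : ∀ u : ↥(D.group F), (Nat.card (MulAction.fixedBy (↥(D.group F) ⧸ (⊤ : Subgroup ↥(D.group F))) (s * u)) : ℂ) = 1 := by
      intro u
      have h4 := card_fixedBy_mul (⊤ : Subgroup ↥(D.group F)) (s * u)
      have h5 : Nat.card {x : ↥(D.group F) // x⁻¹ * (s * u) * x ∈ (⊤ : Subgroup ↥(D.group F))} = Nat.card ↥(D.group F) := by
        apply Nat.card_congr
        exact (Equiv.subtypeUnivEquiv fun x => Subgroup.mem_top _)
      rw [h5, Subgroup.card_top] at h4
      have h6 : 0 < Nat.card ↥(D.group F) := Nat.card_pos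
      have h7 : Nat.card (MulAction.fixedBy (↥(D.group F) ⧸ (⊤ : Subgroup ↥(D.group F))) (s * u)) = 1 :=
        Nat.eq_of_mul_eq_mul_right h6 (by rw [h4, one_mul])
      rw [h7]; simp
    rw [Finset.sum_congr rfl (fun u _ => this u)]
    simp
  rw [h3] at hmob
  rw [← hmob, pow_two]
  conv_rhs => rw [show D.steinbergCharacter F s * D.steinbergCharacter F s = D.steinbergCharacter F s * ∑ J ∈ (Finset.range D.rank).powerset,
    (-1 : ℂ) ^ J.card * fixedPointCharacter (D.parabolicIn F J) s from rfl]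
  rw [Finset.mul_sum]
  apply Finset.sum_congr rfl
  intro J _
  unfold fixedPointCharacter
  ring

end Cfsg.Agent.H14.Chev
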