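import Mathlib
import Cfsg.Agent.H14_StQ
import Cfsg.Agent.H14_CharGen
import Cfsg.Agent.H3_CharQuot

set_option autoImplicit false
set_option linter.unusedSectionVars false

/-!
The Steinberg character is the only irreducible character of defect zero.
-/

namespace Cfsg.Agent.H14.Chev

open Cfsg Cfsg.Lie Cfsg.Lie.ChevalleyDatum Cfsg.Agent.H6 Cfsg.Agent.H6.Chev Cfsg.Agent.H6.Chev.Model
open Cfsg.Agent.H3.CharIrr Cfsg.Agent.H3.CharComplete
open scoped Matrix Pointwise ComplexConjugate

variable {D : ChevalleyDatum} {F : Type*} [Field F] (m : Model D)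

theorem exists_K {n p : ℕ} (hp : p.Prime) (hn : n ≠ 0) : ∃ K : ℕ, 1 ≤ K ∧ p ^ n.factorization p ∣ K ∧ n / p ^ n.factorization p ∣ K - 1 := by
  have hcop : Nat.Coprime (p ^ n.factorization p) (n / p ^ n.factorization p) :=
    Nat.Coprime.pow_left _ (Nat.coprime_ordCompl hp hn)
  obtain ⟨k, h1, h2⟩ := Nat.chineseRemainder hcop 0 1
  have hpos : 0 < p ^ n.factorization p * (n / p ^ n.factorization p) :=
    Nat.mul_pos (pow_pos hp.pos _) (Nat.div_pos (Nat.le_of_dvd (Nat.pos_of_ne_zero hn) (Nat.ordProj_dvd _ _)) (pow_pos hp.pos _))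
  refine ⟨k + p ^ n.factorization p * (n / p ^ n.factorization p), by omega, ?_, ?_⟩
  · exact dvd_add ((Nat.modEq_zero_iff_dvd).1 h1) (dvd_mul_right _ _)
  · have h3 : k + p ^ n.factorization p * (n / p ^ n.factorization p) ≡ 1 [MOD n / p ^ n.factorization p] := by
      have := h2.add_right (p ^ n.factorization p * (n / p ^ n.factorization p))
      refine this.trans ?_
      have h4 : 1 + p ^ n.factorization p * (n / p ^ n.factorization p) ≡ 1 + 0 [MOD n / p ^ n.factorization p] :=
        Nat.ModEq.add_left 1 ((Nat.modEq_zero_iff_dvd).2 (dvd_mul_left _ _))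
      simp at h4 ⊢; try exact h4
    exact (Nat.modEq_iff_dvd' (by omega)).1 h3.symm

include m in
theorem defect_zero_unique [Fintype F] {p : ℕ} [hp : Fact p.Prime] [CharP F p] {χ : ↥(D.group F) → ℂ}
    (hχ : IsIrrCharacter ↥(D.group F) χ) {d : ℕ} (hd : χ 1 = d) (hdvd : p ^ (Nat.card ↥(D.group F)).factorization p ∣ d) :
    χ = D.steinbergCharacter F := by
  classical
  have : Fintype ↥(D.group F) := Fintype.ofFinite _
  have hG0 : Nat.card ↥(D.group F) ≠ 0 := Nat.card_pos.ne'
  obtain ⟨K, hK, hK0, hK1⟩ := exists_K hp.out hG0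
  have hst := steinberg_irr m (F := F)
  obtain ⟨n, hcard, hpn⟩ := card_U_G m (F := F) (p := p)
  obtain ⟨f, hpF, hf⟩ := FiniteField.card F p
  have hN := N_pos m
  have hq : Fintype.card F ^ m.N = p ^ (f * m.N) := by rw [hf, ← pow_mul]
  have hfN : 0 < (f : ℕ) * m.N := Nat.mul_pos f.pos hN
  have hfac : p ^ (Nat.card ↥(D.group F)).factorization p = p ^ (f * m.N) := by
    rw [hcard, hq, Nat.factorization_mul (pow_ne_zero _ hpF.ne_zero) (by rintro rfl; exact hpn (dvd_zero _)), Finsupp.add_apply,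
      Nat.factorization_pow, Finsupp.smul_apply, hpF.factorization_self, Nat.factorization_eq_zero_of_not_dvd hpn]
    simp
  -- vanishing
  have hχv : ∀ g : ↥(D.group F), p ∣ orderOf g → χ g = 0 := by
    intro g hg
    obtain ⟨e, he⟩ := hdvd
    refine Cfsg.Agent.H3.DefectZero.vanish (p := p) (m := p ^ (f * m.N)) (n := n) (d := e) hpF (by rw [hcard, hq])
      ⟨f * m.N - 1, by rw [Nat.sub_add_cancel hfN]⟩ hpn hχ ?_ hg
    rw [hd, he, hfac]
  -- values
  have hval : ∀ s : ↥(D.group F), ¬ p ∣ orderOf s → ∃ k : ℕ, D.steinbergCharacter F s = ((p ^ k : ℕ) : ℂ) ∨ D.steinbergCharacter F s = -((p ^ k : ℕ) : ℂ) := by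
    intro s hs
    exact ⟨_, steinberg_value m hs⟩
  have hne : ∀ s : ↥(D.group F), ¬ p ∣ orderOf s → D.steinbergCharacter F s ≠ 0 := by
    intro s hs
    have : ((p : ℕ) : ℂ) ≠ 0 := by exact_mod_cast hpF.ne_zero
    obtain ⟨k, hk | hk⟩ := hval s hs
    · rw [hk]; push_cast; exact pow_ne_zero k this
    · rw [hk]; push_cast; exact neg_ne_zero.2 (pow_ne_zero k this)
  let c : ↥(D.group F) → ℂ := fun g => χ g / D.steinbergCharacter F g
  have hgen := Cfsg.Agent.H14.CharGen.gen_of_parts (G := ↥(D.group F)) (K := K) hpF hK0 hK1 hK (IsGen.of_irr hχ) (IsGen.of_irr hst) hval (c := c)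
    (fun h hh => by
      change χ h = D.steinbergCharacter F h * (χ h / D.steinbergCharacter F h)
      rw [mul_div_cancel₀ _ (hne h hh)])
    (fun h hh => by
      change IsIntegral ℤ (χ h / D.steinbergCharacter F h)
      have h1 := Cfsg.Agent.H14.CharGen.integral_defect_zero hpF hχ hd hdvd h
      rcases steinberg_value m hh (p := p) with h2 | h2
      · rw [h2]; exact h1
      · rw [h2, div_neg]; exact h1.neg)
  -- the power map
  have hreg : ∀ g : ↥(D.group F), ¬ p ∣ orderOf (g ^ K) := by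
    intro g hd
    have h1 : (g ^ K) ^ (Nat.card ↥(D.group F) / p ^ (Nat.card ↥(D.group F)).factorization p) = 1 := by
      obtain ⟨j, hj⟩ := hK0
      rw [hj, ← pow_mul]
      have : p ^ (Nat.card ↥(D.group F)).factorization p * j * (Nat.card ↥(D.group F) / p ^ (Nat.card ↥(D.group F)).factorization p) = Nat.card ↥(D.group F) * j := by
        conv_rhs => rw [← Nat.mul_div_cancel' (Nat.ordProj_dvd (Nat.card ↥(D.group F)) p)]
        ring
      rw [this, pow_mul, pow_card_eq_one', one_pow]
    exact Nat.not_dvd_ordCompl hpF hG0 (dvd_trans hd (orderOf_dvd_of_pow_eq_one h1))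
  have hfix : ∀ s : ↥(D.group F), ¬ p ∣ orderOf s → s ^ K = s := by
    intro s hs
    have h1 : orderOf s ∣ Nat.card ↥(D.group F) / p ^ (Nat.card ↥(D.group F)).factorization p := by
      have h2 : orderOf s ∣ p ^ (Nat.card ↥(D.group F)).factorization p * (Nat.card ↥(D.group F) / p ^ (Nat.card ↥(D.group F)).factorization p) := by
        rw [Nat.mul_div_cancel' (Nat.ordProj_dvd _ _)]
        exact orderOf_dvd_natCard s
      exact (Nat.Coprime.pow_right _ ((Nat.Prime.coprime_iff_not_dvd hpF).2 hs).symm).dvd_of_dvd_mul_left h2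
    have h2 : s ^ (K - 1) = 1 := orderOf_dvd_iff_pow_eq_one.1 (dvd_trans h1 hK1)
    calc s ^ K = s ^ (K - 1 + 1) := by rw [Nat.sub_add_cancel hK]
      _ = s := by rw [pow_succ, h2, one_mul]
  have hpel : ∀ u : ↥(D.group F), (∃ k : ℕ, u ^ p ^ k = 1) → u ^ K = 1 := by
    rintro u ⟨k, hk⟩
    have h1 : orderOf u ∣ p ^ (Nat.card ↥(D.group F)).factorization p := by
      obtain ⟨j, _, hj⟩ := (Nat.dvd_prime_pow hpF).1 (orderOf_dvd_of_pow_eq_one hk)
      rw [hj]
      apply pow_dvd_pow
      rw [← hpF.pow_dvd_iff_le_factorization hG0, ← hj]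
      exact orderOf_dvd_natCard u
    exact orderOf_dvd_iff_pow_eq_one.1 (dvd_trans h1 hK0)
  -- fibres of the power map
  have hfib : ∀ s : ↥(D.group F), ¬ p ∣ orderOf s → (Finset.univ.filter (fun g : ↥(D.group F) => g ^ K = s)).card = (pcs p s).card := by
    intro s hs
    apply Finset.card_bij' (fun g _ => s⁻¹ * g) (fun u _ => s * u)
    · intro g hg
      rw [Finset.mem_filter] at hg
      rw [mem_pcs]
      have hcom : Commute g s := by rw [← hg.2]; exact (Commute.refl g).pow_right K
      refine ⟨?_, (Nat.card ↥(D.group F)).factorization p, ?_⟩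
      · have : Commute s s⁻¹ := (Commute.refl s).inv_right
        exact this.mul_right hcom.symm
      · have e1 : s⁻¹ * g = (g ^ (K - 1))⁻¹ := by
          rw [← hg.2]
          have : g ^ K = g ^ (K - 1) * g := by rw [← pow_succ, Nat.sub_add_cancel hK]
          rw [this]; group
        rw [e1, inv_pow, ← pow_mul]
        have : g ^ ((K - 1) * p ^ (Nat.card ↥(D.group F)).factorization p) = 1 := by
          obtain ⟨j, hj⟩ := hK1
          rw [hj]
          have e2 : Nat.card ↥(D.group F) / p ^ (Nat.card ↥(D.group F)).factorization p * j * p ^ (Nat.card ↥(D.group F)).factorization p =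
              Nat.card ↥(D.group F) * j := by
            conv_rhs => rw [← Nat.mul_div_cancel' (Nat.ordProj_dvd (Nat.card ↥(D.group F)) p)]
            ring
          rw [e2, pow_mul, pow_card_eq_one', one_pow]
        rw [this, inv_one]
    · intro u hu
      rw [mem_pcs] at hu
      rw [Finset.mem_filter]
      refine ⟨Finset.mem_univ _, ?_⟩
      rw [hu.1.mul_pow, hfix s hs, hpel u hu.2, mul_one]
    · intro g _; group
    · intro u _; group
  obtain ⟨φ, hφ⟩ : ∃ φ : ↥(D.group F) → ℂ, φ = fun g => c (g ^ K) := ⟨_, rfl⟩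
  rw [← hφ] at hgen
  have hstreal : ∀ g, conj (D.steinbergCharacter F g) = D.steinbergCharacter F g := by
    intro g
    by_cases hg : p ∣ orderOf g
    · rw [steinberg_vanish m (p := p) hg]; simp
    · obtain ⟨k, hk | hk⟩ := hval g hg
      · rw [hk]; simp
      · rw [hk]; simp
  have hnorm : classInner φ φ = 1 := by
    have h1 : classInner χ χ = 1 := ci_irr_self hχ
    rw [← h1]
    unfold classInner
    congr 1
    have h2 : ∑ g : ↥(D.group F), φ g * conj (φ g) = ∑ g : ↥(D.group F), (c (g ^ K) * conj (c (g ^ K))) := by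
      apply Finset.sum_congr rfl
      intro g _
      rw [hφ]
    rw [h2, Finset.sum_comp (fun s => c s * conj (c s)) (fun g : ↥(D.group F) => g ^ K)]
    rw [← Finset.sum_subset (Finset.subset_univ (Finset.univ.image (fun g : ↥(D.group F) => g ^ K)))]
    · apply Finset.sum_congr rfl
      intro s hs
      obtain ⟨g, -, hg⟩ := Finset.mem_image.1 hs
      have hsr : ¬ p ∣ orderOf s := by rw [← hg]; exact hreg g
      rw [hfib s hsr, nsmul_eq_mul, card_pcs m (p := p) hsr]
      change D.steinbergCharacter F s ^ 2 * (χ s / D.steinbergCharacter F s * conj (χ s / D.steinbergCharacter F s)) = _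
      rw [map_div₀, hstreal]
      field_simp [hne s hsr]
    · intro s _ hs
      rw [hχv s, zero_mul]
      by_contra hnd
      apply hs
      rw [Finset.mem_image]
      exact ⟨s, Finset.mem_univ _, hfix s hnd⟩
  have hφ1 : φ 1 = χ 1 / D.steinbergCharacter F 1 := by
    rw [hφ]
    change χ (1 ^ K) / D.steinbergCharacter F (1 ^ K) = _
    rw [one_pow]
  have hpos : ∃ r : ℝ, 0 < r ∧ φ 1 = r := by
    obtain ⟨a, ha, ha1⟩ := IsIrr.one_eq_nat hχ
    obtain ⟨b, hb, hb1⟩ := IsIrr.one_eq_nat hst
    refine ⟨(a : ℝ) / b, div_pos (by exact_mod_cast ha) (by exact_mod_cast hb), ?_⟩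
    rw [hφ1, ha1, hb1]; push_cast; rfl
  obtain ⟨r, hr, hr1⟩ := hpos
  have hirr : IsIrrCharacter ↥(D.group F) φ := by
    rcases isGen_norm_one hgen hnorm with h | h
    · exact h
    · exfalso
      obtain ⟨a, ha, ha1⟩ := IsIrr.one_eq_nat h
      rw [Pi.neg_apply, hr1] at ha1
      have : -r = (a : ℝ) := by exact_mod_cast ha1
      have : (0 : ℝ) < a := by exact_mod_cast ha
      linarith
  -- kernel
  have hker : ∀ g : ↥(D.group F), φ g = φ 1 := by
    have hch := IsIrr.isCharacter hirr
    have hpk : ∀ u : ↥(D.group F), (∃ k : ℕ, u ^ p ^ k = 1) → φ u = φ 1 := by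
      intro u hu
      rw [hφ]
      change c (u ^ K) = c (1 ^ K)
      rw [hpel u hu, one_pow]
    have h1 : ∀ g : GL D.Idx F, ∀ hg : g ∈ D.group F, φ ⟨g, hg⟩ = φ 1 := by
      intro g hg
      have hg' := hg
      rw [m.group_eq] at hg'
      unfold Model.gen at hg'
      refine Subgroup.closure_induction (p := fun g _ => ∀ hg : g ∈ D.group F, φ ⟨g, hg⟩ = φ 1) ?_ ?_ ?_ ?_ hg' hg
      · rintro _ ⟨r, t, _, rfl⟩ hx
        apply hpk
        refine ⟨1, Subtype.ext ?_⟩
        rw [Subgroup.coe_pow, pow_one]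
        change (m.X r t) ^ p = 1
        have h3 : ∀ k : ℕ, (m.X r t) ^ k = m.X r ((k : F) * t) := by
          intro k
          induction k with
          | zero => rw [pow_zero, Nat.cast_zero, zero_mul, m.X_zero]
          | succ k ih => rw [pow_succ, ih, ← m.X_add]; congr 1; push_cast; ring
        rw [h3, CharP.cast_eq_zero, zero_mul, m.X_zero]
      · intro _; rfl
      · intro x y hx hy ihx ihy hxy
        have hxG : x ∈ D.group F := by rw [m.group_eq]; exact hx
        have hyG : y ∈ D.group F := by rw [m.group_eq]; exact hy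
        have e : (⟨x * y, hxy⟩ : ↥(D.group F)) = ⟨x, hxG⟩ * ⟨y, hyG⟩ := rfl
        rw [e, Cfsg.Agent.H3.CharQuot.IsChar.mul_ker hch (ihx hxG), ihy hyG]
      · intro x hx ihx hxi
        have hxG : x ∈ D.group F := by rw [m.group_eq]; exact hx
        have h4 := Cfsg.Agent.H3.CharQuot.IsChar.mul_ker hch (ihx hxG) ⟨x⁻¹, hxi⟩
        have e : (⟨x, hxG⟩ : ↥(D.group F)) * ⟨x⁻¹, hxi⟩ = 1 := Subtype.ext (by simp)
        rw [e] at h4
        exact h4.symm
    intro g
    exact h1 g.1 g.2
  have hr2 : r = 1 := by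
    have h1 : classInner φ φ = (r : ℂ) * r := by
      unfold classInner
      have : ∀ g : ↥(D.group F), φ g * conj (φ g) = (r : ℂ) * r := by
        intro g
        rw [hker g, hr1, Complex.conj_ofReal]
      rw [Finset.sum_congr rfl (fun g _ => this g), Finset.sum_const, Finset.card_univ, nsmul_eq_mul, ← Nat.card_eq_fintype_card, ← mul_assoc,
        inv_mul_cancel₀ (by exact_mod_cast hG0), one_mul]
    rw [hnorm] at h1
    have h2 : (1 : ℝ) = r * r := by exact_mod_cast h1
    nlinarith
  funext g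
  by_cases hg : p ∣ orderOf g
  · rw [hχv g hg, steinberg_vanish m (p := p) hg]
  · have h1 : φ g = 1 := by rw [hker g, hr1, hr2]; simp
    rw [hφ] at h1
    change χ (g ^ K) / D.steinbergCharacter F (g ^ K) = 1 at h1
    rw [hfix g hg, div_eq_one_iff_eq (hne g hg)] at h1
    exact h1

end Cfsg.Agent.H14.Chev
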