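import Mathlib

set_option autoImplicit false
set_option linter.style.haveILetI false
set_option linter.dupNamespace false

/-!
The transfer as a product over the cosets.
-/

namespace Cfsg.Agent.H14.TR

open Subgroup Subgroup.leftTransversals

theorem TR {G : Type*} [Group G] (A : Subgroup G) [A.FiniteIndex] [hFt : Fintype (G ⧸ A)] {C : Type*} [CommGroup C] (f : A →* C)
    (s : G ⧸ A → G) (hs : ∀ q, (QuotientGroup.mk (s q) : G ⧸ A) = q)
    (h : ∀ (g : G) (q : G ⧸ A), (s (g • q))⁻¹ * (g * s q) ∈ A) (g : G) :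
    MonoidHom.transfer f g = ∏ q : G ⧸ A, f ⟨(s (g • q))⁻¹ * (g * s q), h g q⟩ := by
  obtain rfl : hFt = Subgroup.fintypeQuotientOfFiniteIndex := Subsingleton.elim _ _
  letI : Fintype (G ⧸ A) := Subgroup.fintypeQuotientOfFiniteIndex
  let T : A.LeftTransversal := ⟨Set.range s, isComplement_range_left hs⟩
  have hT : ∀ q : G ⧸ A, (T.2.leftQuotientEquiv q : G) = s q := fun q => IsComplement.leftQuotientEquiv_apply hs q
  have hgT : ∀ q : G ⧸ A, ((g • T).2.leftQuotientEquiv q : G) = g * s (g⁻¹ • q) := by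
    intro q
    rw [smul_apply_eq_smul_apply_inv_smul, hT, smul_eq_mul]
  have e1 : MonoidHom.transfer f g = diff f T (g • T) := MonoidHom.transfer_def f T g
  rw [e1]
  unfold diff
  symm
  refine Fintype.prod_equiv (MulAction.toPerm g) _ _ fun q => ?_
  congr 1
  apply Subtype.ext
  change (s (g • q))⁻¹ * (g * s q) = _
  simp only [MulAction.toPerm_apply]
  rw [hT, hgT, inv_smul_smul]

end Cfsg.Agent.H14.TR
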