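import Mathlib
import Cfsg.Agent.H14_UcB

set_option autoImplicit false
set_option maxRecDepth 100000

/-!
Lifting Steinberg's relations to central extensions: tables for `E6`.
-/

namespace Cfsg.Agent.H14.Chev

open Cfsg.Agent.H6.Chev

theorem ckPE6 : tabE6.ckPall = true := by decide +kernel

theorem ckGE6 : tabE6.ckGall = true := by decide +kernel

theorem ckCE6 : tabE6.ckC0all = true := by decide +kernel

end Cfsg.Agent.H14.Chev
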