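import Mathlib
import Cfsg.Agent.H14_UcB
import Cfsg.Prelude.Def_KGroupFacts

set_option autoImplicit false
set_option linter.unusedSectionVars false
set_option maxRecDepth 100000
set_option linter.style.haveILetI false

/-!
Schur multipliers from universal central extensions.
-/

namespace Cfsg.Agent.H14.Chev

open Cfsg Cfsg.Lie Cfsg.Lie.ChevalleyDatum Cfsg.Agent.H6 Cfsg.Agent.H6.Chev
open scoped commutatorElement

universe u

/-- finite central extensions of quotients of `Δ` split over `Δ` -/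
def FLift (Δ : Type u) [Group Δ] : Prop :=
  ∀ (G₁ E : Type u) [Group G₁] [Group E] [Finite E] (π₁ : E →* G₁), Function.Surjective π₁ →
    π₁.ker ≤ Subgroup.center E → ∀ σ : Δ →* G₁, ∃ τ : Δ →* E, π₁.comp τ = σ

theorem FLift.congr {Δ Δ' : Type u} [Group Δ] [Group Δ'] (e : Δ ≃* Δ') (h : FLift Δ) : FLift Δ' := by
  intro G₁ E _ _ _ π₁ hπ hc σ
  obtain ⟨τ, hτ⟩ := h G₁ E π₁ hπ hc (σ.comp e.toMonoidHom)
  refine ⟨τ.comp e.symm.toMonoidHom, ?_⟩
  rw [← MonoidHom.comp_assoc, hτ]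
  ext g
  simp

theorem range_top_of_stem {Δ Γ G : Type*} [Group Δ] [Group Γ] [Group G] {σ : Γ →* G} (hσ : IsStemExtension σ)
    {θ : Δ →* G} (hθ : Function.Surjective θ) {τ : Δ →* Γ} (h : σ.comp τ = θ) : Function.Surjective τ := by
  obtain ⟨-, h2, h3⟩ := hσ
  have h4 : commutator Γ ≤ τ.range := by
    unfold commutator
    rw [Subgroup.commutator_le]
    have key : ∀ a : Γ, ∃ g : Δ, ∃ z ∈ Subgroup.center Γ, a = τ g * z := by
      intro a
      obtain ⟨g, hg⟩ := hθ (σ a)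
      refine ⟨g, (τ g)⁻¹ * a, h2 ?_, by group⟩
      rw [MonoidHom.mem_ker, map_mul, map_inv]
      have : σ (τ g) = θ g := congrArg (fun f => f g) h
      rw [this, hg, inv_mul_cancel]
    intro a _ b _
    obtain ⟨g, z, hz, rfl⟩ := key a
    obtain ⟨g', z', hz', rfl⟩ := key b
    rw [Subgroup.mem_center_iff] at hz hz'
    have e : ⁅τ g * z, τ g' * z'⁆ = ⁅τ g, τ g'⁆ := by
      simp only [commutatorElement_def]
      calc τ g * z * (τ g' * z') * (τ g * z)⁻¹ * (τ g' * z')⁻¹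
          = τ g * (z * τ g') * (z' * (z⁻¹ * (τ g)⁻¹)) * z'⁻¹ * (τ g')⁻¹ := by group
        _ = τ g * (τ g' * z) * ((z⁻¹ * (τ g)⁻¹) * z') * z'⁻¹ * (τ g')⁻¹ := by rw [← hz, ← hz']
        _ = _ := by group
    rw [e, ← map_commutatorElement]
    exact ⟨_, rfl⟩
  intro a
  obtain ⟨g, hg⟩ := hθ (σ a)
  have h5 : (τ g)⁻¹ * a ∈ σ.ker := by
    rw [MonoidHom.mem_ker, map_mul, map_inv]
    have : σ (τ g) = θ g := congrArg (fun f => f g) h
    rw [this, hg, inv_mul_cancel]
  obtain ⟨g', hg'⟩ := h4 (h3 h5)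
  refine ⟨g * g', ?_⟩
  rw [map_mul, hg']
  group

theorem schur_of_univ {Δ G : Type u} [Group Δ] [Group G] [Finite Δ] (hp : commutator Δ = ⊤) (hl : FLift Δ)
    (θ : Δ →* G) (hθ : Function.Surjective θ) (hc : θ.ker ≤ Subgroup.center Δ) {n : ℕ}
    (e : Nonempty (θ.ker ≃* Multiplicative (ZMod n))) : HasCyclicSchurMultiplier G n := by
  obtain ⟨e⟩ := e
  refine ⟨⟨Δ, inferInstance, inferInstance, θ, ⟨hθ, hc, by rw [hp]; exact le_top⟩, ⟨e⟩⟩, ?_⟩
  intro Γ _ _ σ hσ
  obtain ⟨τ, hτ⟩ := hl G Γ σ hσ.1 hσ.2.1 θ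
  have hs := range_top_of_stem hσ hθ hτ
  have hστ : ∀ g, σ (τ g) = θ g := fun g => congrArg (fun f => f g) hτ
  let f : θ.ker →* σ.ker :=
    { toFun := fun g => ⟨τ g, by rw [MonoidHom.mem_ker, hστ]; exact g.2⟩
      map_one' := by ext; simp
      map_mul' := fun a b => by ext; simp }
  refine ⟨f.comp e.symm.toMonoidHom, ?_⟩
  rintro ⟨z, hz⟩
  obtain ⟨g, rfl⟩ := hs z
  have hg : g ∈ θ.ker := by
    rw [MonoidHom.mem_ker, ← hστ]; exact hz
  refine ⟨e ⟨g, hg⟩, ?_⟩
  ext
  simp [f]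

theorem ker_one_of_center {Δ G : Type*} [Group Δ] [Group G] {θ : Δ →* G} (h : θ.ker = ⊥) :
    Nonempty (θ.ker ≃* Multiplicative (ZMod 1)) := by
  rw [h]
  haveI : Unique (Multiplicative (ZMod 1)) := ⟨⟨1⟩, fun a => Subsingleton.elim _ _⟩
  haveI : Unique (⊥ : Subgroup Δ) := ⟨⟨1⟩, fun a => Subsingleton.elim _ _⟩
  exact ⟨MulEquiv.ofUnique⟩

section

variable {D : ChevalleyDatum} (m : Model D) {F : Type u} [Field F] [Finite F]

theorem st_finite (dec : m.Dec) : Finite (D.SteinbergGroup F) := by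
  obtain ⟨θ, hθ⟩ := exists_pres_hom (F := F) m
  obtain ⟨-, h2⟩ := kernel_eq_center m dec θ hθ
  obtain ⟨Ψ, -, h3⟩ := exists_center_param (F := F) m dec
  haveI h4 : Finite (Subgroup.center (D.SteinbergGroup F)) := by
    rw [h3]
    have : Set.Finite ((((tm (G := Fˣ) D.rank (fun i j => D.cartan i (D.simple j))).ker.map Ψ : Subgroup (D.SteinbergGroup F))) : Set (D.SteinbergGroup F)) := by
      apply Set.Finite.subset (Set.finite_range Ψ)
      rintro _ ⟨b, -, rfl⟩
      exact ⟨b, rfl⟩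
    exact this.to_subtype
  haveI h5 : Finite θ.ker := by rw [h2]; exact h4
  haveI h6 : Finite (D.SteinbergGroup F ⧸ θ.ker) := by
    have := (QuotientGroup.quotientKerEquivRange θ).toEquiv
    have h7 : Finite θ.range := Finite.of_injective (fun x : θ.range => (x : GL D.Idx F)) Subtype.coe_injective
    exact Finite.of_equiv _ this.symm
  exact Finite.of_subgroup_quotient θ.ker

theorem sc_finite (dec : m.Dec) : Finite (D.SteinbergCover F) := by
  haveI := st_finite (F := F) m dec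
  obtain ⟨e, -⟩ := s2397_of (F := F) m dec
  exact Finite.of_equiv _ e.symm.toEquiv

/-- the multiplier of the presented group -/
theorem schur_cover (hp : commutator (D.SteinbergCover F) = ⊤) (dec : m.Dec) (hl : FLift (D.SteinbergCover F)) :
    HasCyclicSchurMultiplier (D.SteinbergGroup F) 1 := by
  haveI := sc_finite (F := F) m dec
  obtain ⟨e, -⟩ := s2397_of (F := F) m dec
  refine schur_of_univ hp hl e.toMonoidHom e.surjective ?_ (ker_one_of_center ?_)
  · intro g hg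
    have : g = 1 := e.injective (by rw [map_one]; exact hg)
    rw [this]; exact one_mem _
  · rw [MonoidHom.ker_eq_bot_iff]
    exact e.injective

/-- the multiplier of the Chevalley group -/
theorem schur_group (hp : commutator (D.SteinbergCover F) = ⊤) (dec : m.Dec) (hl : FLift (D.SteinbergCover F)) {n : ℕ}
    (hz : Nonempty (Subgroup.center (D.SteinbergGroup F) ≃* Multiplicative (ZMod n))) :
    HasCyclicSchurMultiplier ↥(D.group F) n := by
  haveI := sc_finite (F := F) m dec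
  obtain ⟨θ, h1, h2, h3⟩ := exists_thG (F := F) m dec
  obtain ⟨e, -⟩ := s2397_of (F := F) m dec
  refine schur_of_univ hp hl θ h1 h2.le ?_
  obtain ⟨ez⟩ := hz
  rw [h2]
  exact ⟨(Subgroup.centerCongr e).trans ez⟩

theorem schur_group_one (hp : commutator (D.SteinbergCover F) = ⊤) (dec : m.Dec) (hl : FLift (D.SteinbergCover F))
    (hz : Subgroup.center (D.SteinbergGroup F) = ⊥) :
    HasCyclicSchurMultiplier ↥(D.group F) 1 := by
  apply schur_group m hp dec hl
  rw [hz]
  haveI : Unique (Multiplicative (ZMod 1)) := ⟨⟨1⟩, fun a => Subsingleton.elim _ _⟩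
  haveI : Unique (⊥ : Subgroup (D.SteinbergGroup F)) := ⟨⟨1⟩, fun a => Subsingleton.elim _ _⟩
  exact ⟨MulEquiv.ofUnique⟩

end

end Cfsg.Agent.H14.Chev
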