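import Mathlib
import Cfsg.Agent.H14_UcS
import Cfsg.Agent.H14_UcE6
import Cfsg.Agent.H14_UcE7
import Cfsg.Agent.H14_UcE8
import Cfsg.Agent.H14_CovC
import Cfsg.Agent.H14_CovD

set_option autoImplicit false
set_option linter.unusedSectionVars false
set_option maxRecDepth 100000

/-!
Steinberg covers of type E₆, E₇, E₈ lift through central extensions.
-/

namespace Cfsg.Agent.H14.Chev

open Cfsg Cfsg.Lie Cfsg.Lie.ChevalleyDatum Cfsg.Agent.H6 Cfsg.Agent.H6.Chev
open scoped commutatorElement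

universe u

theorem flift_E6 {F : Type u} [Field F] : FLift (chevE6.SteinbergCover F) :=
  fun _ _ _ _ _ π₁ hπ hc σ => exists_lift_sl baseE6 rfl ckPE6 ckGE6 ckCE6 π₁ hπ hc σ

theorem flift_E7 {F : Type u} [Field F] : FLift (chevE7.SteinbergCover F) :=
  fun _ _ _ _ _ π₁ hπ hc σ => exists_lift_sl baseE7 rfl ckPE7 ckGE7 ckCE7 π₁ hπ hc σ

theorem flift_E8 {F : Type u} [Field F] : FLift (chevE8.SteinbergCover F) :=
  fun _ _ _ _ _ π₁ hπ hc σ => exists_lift_sl baseE8 rfl ckPE8 ckGE8 ckCE8 π₁ hπ hc σ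

theorem s2107 {F : Type*} [Field F] [Fintype F] (hz : Subgroup.center (chevE8.SteinbergGroup F) = ⊥) :
    Cfsg.HasCyclicSchurMultiplier ↥(Cfsg.Lie.chevE8.group F) 1 :=
  schur_group_one modelE8 scp_E8 decE8 flift_E8 hz

end Cfsg.Agent.H14.Chev
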