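import Mathlib
import Cfsg.Agent.H14_VcB
import Cfsg.Agent.H14_UcB

set_option autoImplicit false
set_option linter.unusedSectionVars false
set_option maxRecDepth 100000

/-!
Commuting lifts; the lifting theorem.
-/

namespace Cfsg.Agent.H14.Chev

open Cfsg Cfsg.Lie Cfsg.Lie.ChevalleyDatum Cfsg.Agent.H6 Cfsg.Agent.H6.Chev

/-- the model root elements -/
abbrev mX {D : ChevalleyDatum} (m : Model D) (F : Type*) [Field F] : ℕ → F → GL D.Idx F := fun r t => m.X (F := F) r t

section

variable {D : ChevalleyDatum} {m : Model D} {F : Type*} [Field F] {E : Type*} [Group E]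
  {θ : E →* GL D.Idx F} (hc : θ.ker ≤ Subgroup.center E)

include hc

theorem kk_central {P Q : E} (h : θ P * θ Q = θ Q * θ P) : kk P Q ∈ Subgroup.center E := by
  apply hc
  rw [MonoidHom.mem_ker, map_kk, kk_eq_one]
  exact h

theorem kk_conj_central {P Q g : E} (h : θ P * θ Q = θ Q * θ P) : kk (g * P * g⁻¹) (g * Q * g⁻¹) = kk P Q := by
  have h1 := kk_central hc h
  rw [Subgroup.mem_center_iff] at h1
  have e : kk (g * P * g⁻¹) (g * Q * g⁻¹) = g * kk P Q * g⁻¹ := by unfold kk; group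
  rw [e, h1 g, mul_inv_cancel_right]

theorem kk_mul_left' {P P' Q : E} (h : θ P * θ Q = θ Q * θ P) : kk (P * P') Q = kk P Q * kk P' Q :=
  kk_mul_left ((Subgroup.mem_center_iff.1 (kk_central hc h)) P')

theorem kk_mul_right' {P Q Q' : E} (h : θ P * θ Q = θ Q * θ P) : kk P (Q * Q') = kk P Q' * kk P Q :=
  kk_mul_right ((Subgroup.mem_center_iff.1 (kk_central hc h)) Q')

/-- torus argument for commuting root elements -/
theorem Cm_of_Tc (hl : ∀ r t, ∃ g, θ g = m.X r t) {p q : ℕ} (h : Tc m θ p q)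
    (hcomm : ∀ t u : F, m.X p t * m.X q u = m.X q u * m.X p t) : Cm θ (mX m F) p q := by
  obtain ⟨g, χ, hg, h1, h2⟩ := h
  choose X hX using hl
  have key : ∀ t u, kk (X p t) (X q u) = 1 := by
    intro t u
    set α : F := ((m.chi χ q : Fˣ) : F) with hα
    have hα1 : α - 1 ≠ 0 := by
      intro h
      apply h2
      apply Units.ext
      rw [Units.val_one]
      exact sub_eq_zero.1 h
    set v : F := (α - 1)⁻¹ * u with hv
    have e0 : α * v = v + u := by
      rw [hv]
      field_simp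
      ring
    have hc' : ∀ t u, θ (X p t) * θ (X q u) = θ (X q u) * θ (X p t) := fun t u => by
      rw [hX, hX]; exact hcomm t u
    have e1 : kk (X p t) (X q (α * v)) = kk (X p t) (X q u) * kk (X p t) (X q v) := by
      rw [← kk_mul_right' hc (hc' t v)]
      exact ce_kk hc rfl (by rw [hX, map_mul, hX, hX, e0, m.X_add])
    have e2 : kk (X p t) (X q (α * v)) = kk (X p t) (X q v) := by
      rw [← kk_conj_central hc (g := g) (hc' t v)]
      apply ce_kk hc
      · have := m.dm_X χ p t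
        rw [h1, Units.val_one, one_mul] at this
        rw [map_mul, map_mul, map_inv, hg, hX, this, mul_inv_cancel_right]
      · have := m.dm_X χ q v
        rw [map_mul, map_mul, map_inv, hg, hX, hX, this, mul_inv_cancel_right]
    rw [e2] at e1
    exact right_eq_mul.1 e1
  intro t u a b ha hb
  rw [← kk_eq_one, ce_kk hc (ha.trans (hX p t).symm) (hb.trans (hX q u).symm)]
  exact key t u

/-- a root subgroup commutes with itself, if the torus acts transitively enough -/
theorem Cm_self_of_trick (hl : ∀ r t, ∃ g, θ g = m.X r t) {r : ℕ}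
    (hT : ∀ v : Fˣ, ∃ g : E, ∃ χ : ℕ → Fˣ, θ g = m.dmHom χ ∧ m.chi χ r = v)
    (hF : ∃ v : F, v ≠ 0 ∧ v ≠ 1 ∧ v * v - v + 1 ≠ 0) : Cm θ (mX m F) r r := by
  choose X hX using hl
  have hc' : ∀ t u, θ (X r t) * θ (X r u) = θ (X r u) * θ (X r t) := fun t u => by
    rw [hX, hX, ← m.X_add, ← m.X_add, add_comm]
  have hadd1 : ∀ t t' u, kk (X r (t + t')) (X r u) = kk (X r t) (X r u) * kk (X r t') (X r u) := by
    intro t t' u
    rw [← kk_mul_left' hc (hc' t u)]
    exact ce_kk hc (by rw [hX, map_mul, hX, hX, m.X_add]) rfl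
  have hadd2 : ∀ t u u', kk (X r t) (X r (u + u')) = kk (X r t) (X r u) * kk (X r t) (X r u') := by
    intro t u u'
    rw [← kk_mul_right' hc (hc' t u')]
    exact ce_kk hc rfl (by rw [hX, map_mul, hX, hX, ← m.X_add, add_comm])
  have hinv : ∀ v : F, v ≠ 0 → ∀ t u, kk (X r (v * t)) (X r u) = kk (X r t) (X r (v⁻¹ * u)) := by
    intro v hv t u
    obtain ⟨g, χ, hg, h1⟩ := hT (Units.mk0 v hv)
    rw [← kk_conj_central hc (g := g) (hc' t (v⁻¹ * u))]
    apply ce_kk hc
    · have := m.dm_X χ r t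
      rw [map_mul, map_mul, map_inv, hg, hX, hX, this, mul_inv_cancel_right, h1, Units.val_mk0]
    · have := m.dm_X χ r (v⁻¹ * u)
      rw [map_mul, map_mul, map_inv, hg, hX, hX, this, mul_inv_cancel_right, h1, Units.val_mk0, ← mul_assoc,
        mul_inv_cancel₀ hv, one_mul]
  obtain ⟨v, hv0, hv1, hv2⟩ := hF
  have hw0 : 1 - v ≠ 0 := fun h => hv1 (sub_eq_zero.1 h).symm
  have e1 : ∀ t u, kk (X r t) (X r u) = kk (X r t) (X r ((v⁻¹ + (1 - v)⁻¹) * u)) := by
    intro t u
    have h1 : t = v * t + (1 - v) * t := by ring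
    conv_lhs => rw [h1]
    rw [hadd1, hinv v hv0, hinv (1 - v) hw0, ← hadd2]
    congr 2
    ring
  set κ : F := v⁻¹ + (1 - v)⁻¹ - 1 with hκ
  have hκ0 : κ ≠ 0 := by
    have : κ = (v * v - v + 1) / (v * (1 - v)) := by
      rw [hκ]
      field_simp
      ring
    rw [this]
    exact div_ne_zero hv2 (mul_ne_zero hv0 hw0)
  have e2 : ∀ t u, kk (X r t) (X r (κ * u)) = 1 := by
    intro t u
    have h1 := e1 t u
    have h2 : (v⁻¹ + (1 - v)⁻¹) * u = κ * u + u := by rw [hκ]; ring
    rw [h2, hadd2] at h1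
    exact right_eq_mul.1 h1
  intro t u a b ha hb
  have e3 : κ * (κ⁻¹ * u) = u := by rw [← mul_assoc, mul_inv_cancel₀ hκ0, one_mul]
  rw [← kk_eq_one, ce_kk hc (ha.trans (hX r t).symm) (hb.trans (hX r u).symm), ← e3]
  exact e2 t _

/-- the multi-term commutator argument -/
theorem Cm_of_P2 (hl : ∀ r t, ∃ g, θ g = m.X r t) {s a b c r : ℕ} {ε ε' : F} (hε' : ε' * ε' = 1)
    (hd : ∀ t : F, kk (m.X a t) (m.X b 1) = m.X c (ε * t) * m.X r (ε' * t))
    (h1 : ∀ t u : F, m.X s t * m.X a u = m.X a u * m.X s t) (h2 : ∀ t u : F, m.X s t * m.X b u = m.X b u * m.X s t)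
    (h3 : Cm θ (mX m F) s c) : Cm θ (mX m F) s r := by
  intro t u g g' hg hg'
  obtain ⟨A, hA⟩ := hl a (ε' * u)
  obtain ⟨B, hB⟩ := hl b 1
  obtain ⟨C, hC⟩ := hl c (ε * (ε' * u))
  have e1 : g * kk A B = kk A B * g := by
    refine ce_comm hc (a := A) (b := B) ?_ ?_ (map_kk θ A B)
    · rw [hg, hA]; exact h1 _ _
    · rw [hg, hB]; exact h2 _ _
  have e2 : g * C = C * g := h3 _ _ _ _ hg hC
  have e3 : θ g' = θ (C⁻¹ * kk A B) := by
    rw [hg', map_mul, map_inv, map_kk, hA, hB, hC, hd, inv_mul_cancel_left, ← mul_assoc, hε', one_mul]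
  obtain ⟨z, hz, hz2⟩ := ce_diff hc e3
  rw [Subgroup.mem_center_iff] at hz
  have e4 : g * C⁻¹ = C⁻¹ * g := by
    rw [eq_inv_mul_iff_mul_eq, ← mul_assoc, ← e2, mul_assoc, mul_inv_cancel, mul_one]
  rw [hz2, ← mul_assoc, ← mul_assoc, e4, mul_assoc C⁻¹, e1, mul_assoc _ z g, ← hz g]
  group

end

theorem rel_all {D : ChevalleyDatum} {m : Model D} {F : Type*} [Field F] {E : Type*} [Group E]
    {θ : E →* GL D.Idx F} (hc : θ.ker ≤ Subgroup.center E) {Y : ℕ → F → E} (hYθ : ∀ r t, θ (Y r t) = m.X r t)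
    (hYadd : ∀ r < D.nroots, ∀ t u, Y r (t + u) = Y r t * Y r u)
    (hYT : ∀ r < D.nroots, ∀ (k : E) (χ : ℕ → Fˣ), θ k = m.dmHom χ → ∀ t,
      k * Y r t = Y r (((m.chi χ r : Fˣ) : F) * t) * k)
    (hcert : ∀ r < D.nroots, ∀ s < D.nroots, s ≠ r → s ≠ D.neg r → Tc m θ r s ∨ Cm θ (mX m F) r s)
    {r s : ℕ} (hr : r < D.nroots) (hs : s < D.nroots) (h1 : s ≠ r) (h2 : s ≠ D.neg r) : Rel D Y r s := by
  obtain ⟨w, hw, a, b, ha, hb, ha', hb', hab⟩ := exists_pos_pair m ⟨r, hr⟩ ⟨s, hs⟩ (fun h => h1 (congrArg Fin.val h))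
    (fun h => h2 (congrArg Fin.val h))
  have key : ∀ (d k : ℕ), m.N ≤ k → D.nroots ≤ k + d → ∀ a b : Fin D.nroots, k ≤ a → k ≤ b → a ≠ b →
      Rel D Y (w a) (w b) := by
    intro d
    induction d with
    | zero =>
      intro k _ hk a b ha _ _
      have := a.2
      omega
    | succ d ih =>
      intro k hkN hk a b ha hb hab
      have H : ∀ a b : Fin D.nroots, k < a → k < b → a ≠ b → Rel D Y (w a) (w b) := fun a b ha hb hab =>
        ih (k + 1) (by omega) (by omega) a b (by omega) (by omega) hab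
      have hne : ∀ (p q : Fin D.nroots), m.N ≤ p → m.N ≤ q → p ≠ q → ((w q : Fin D.nroots) : ℕ) ≠ (w p : Fin D.nroots) ∧
          ((w q : Fin D.nroots) : ℕ) ≠ D.neg (w p : Fin D.nroots) := by
        intro p q hp hq hpq
        refine ⟨fun h => hpq (w.injective (Fin.ext h)).symm, fun h => ?_⟩
        rw [← m.coe_ng, ← (m.isW hw).neg] at h
        have h3 := w.injective (Fin.ext h)
        have h4 := (m.ng_lt_iff p).2 hp
        rw [← h3] at h4
        omega
      by_cases hak : (a : ℕ) = k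
      · have hkb : (a : ℕ) < b := by
          have : (a : ℕ) ≠ b := fun h => hab (Fin.ext h)
          omega
        obtain ⟨n1, n2⟩ := hne a b (by omega) (by omega) hab
        exact (rel_step hYθ hYadd hc hYT hw (k := a) (by omega)
          (fun a' b' ha' hb' h' => H a' b' (by omega) (by omega) h') hkb (hcert _ (w a).2 _ (w b).2 n1 n2)).1
      · by_cases hbk : (b : ℕ) = k
        · have hka : (b : ℕ) < a := by omega
          obtain ⟨n1, n2⟩ := hne b a (by omega) (by omega) hab.symm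
          exact (rel_step hYθ hYadd hc hYT hw (k := b) (by omega)
            (fun a' b' ha' hb' h' => H a' b' (by omega) (by omega) h') hka (hcert _ (w b).2 _ (w a).2 n1 n2)).2
        · exact H a b (by omega) (by omega) hab
  have := key D.nroots m.N le_rfl (by omega) a b ha hb hab
  rw [← ha', ← hb'] at this
  exact this

/-- the certificates needed for the torus argument -/
def Cert.{u, v} {D : ChevalleyDatum} (m : Model D) (F : Type u) [Field F] : Prop :=
  ∀ (P : Type v) [Group P] (θ : P →* GL D.Idx F), θ.ker ≤ Subgroup.center P → (∀ g ∈ D.group F, ∃ p, θ p = g) →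
    (∀ r < D.nroots, Cm θ (mX m F) r r) ∧
    (∀ r < D.nroots, ∀ s < D.nroots, s ≠ r → s ≠ D.neg r → Tc m θ r s ∨ Cm θ (mX m F) r s) ∧
    ∀ r < D.nroots, ∃ g : P, ∃ χ : ℕ → Fˣ, θ g = m.dmHom χ ∧ m.chi χ r ≠ 1

/-- central elements of central extensions of perfect groups -/
theorem mem_center_of_perfect {P Δ : Type*} [Group P] [Group Δ] (pr : P →* Δ) (hs : Function.Surjective pr)
    (hc : pr.ker ≤ Subgroup.center P) (hp : commutator Δ = ⊤) {p : P} (h : pr p ∈ Subgroup.center Δ) :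
    p ∈ Subgroup.center P := by
  have h1 : ∀ q, kk p q ∈ Subgroup.center P := fun q => by
    apply hc
    rw [MonoidHom.mem_ker, map_kk, kk_eq_one]
    exact (Subgroup.mem_center_iff.1 h (pr q)).symm
  have h2 : ∀ q q', kk p (q * q') = kk p q' * kk p q := fun q q' =>
    kk_mul_right (Subgroup.mem_center_iff.1 (h1 q) q')
  let δ : P →* Subgroup.center P :=
    { toFun := fun q => ⟨kk p q, h1 q⟩
      map_one' := by ext; simp [kk]
      map_mul' := fun q q' => by
        ext
        change kk p (q * q') = kk p q * kk p q'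
        rw [h2]
        exact (Subgroup.mem_center_iff.1 (h1 q) _) }
  have h3 : pr.ker ≤ δ.ker := by
    intro z hz
    rw [MonoidHom.mem_ker]
    apply Subtype.ext
    change kk p z = 1
    rw [kk_eq_one]
    exact Subgroup.mem_center_iff.1 (hc hz) p
  have h4 : commutator P ≤ δ.ker := by
    unfold commutator
    rw [Subgroup.commutator_le]
    intro a _ b _
    rw [MonoidHom.mem_ker, map_commutatorElement]
    exact commutatorElement_eq_one_iff_mul_comm.2 (Subtype.ext (Subgroup.mem_center_iff.1 (δ b).2 (δ a)))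
  have h5 : ∀ q, q ∈ δ.ker := by
    intro q
    have h6 : pr q ∈ (commutator P).map pr := by
      have : (commutator P).map pr = commutator Δ := by
        rw [commutator_def, Subgroup.map_commutator, ← MonoidHom.range_eq_map, MonoidHom.range_eq_top.2 hs,
          ← commutator_def]
      rw [this, hp]
      exact Subgroup.mem_top _
    obtain ⟨c, hc', hcq⟩ := h6
    have h7 : c⁻¹ * q ∈ pr.ker := by
      rw [MonoidHom.mem_ker, map_mul, map_inv, hcq, inv_mul_cancel]
    have : q = c * (c⁻¹ * q) := by group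
    rw [this]
    exact mul_mem (h4 hc') (h3 h7)
  rw [Subgroup.mem_center_iff]
  intro q
  have h6 := congrArg Subtype.val (h5 q)
  change kk p q = 1 at h6
  exact (kk_eq_one.1 h6).symm

/-- lifting theorem with torus certificates -/
theorem exists_lift_torus.{u, v, w} {D : ChevalleyDatum} (m : Model D) (dec : m.Dec) {F : Type u} [Field F]
    (hp : commutator (D.SteinbergCover F) = ⊤) (hcert : Cert.{u, max u w} m F) {G₁ : Type v} {E : Type w}
    [Group G₁] [Group E] (π₁ : E →* G₁)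
    (hπ : Function.Surjective π₁) (hc : π₁.ker ≤ Subgroup.center E) (σ : D.SteinbergCover F →* G₁) :
    ∃ τ : D.SteinbergCover F →* E, π₁.comp τ = σ := by
  obtain ⟨θ, hθ⟩ := exists_th (F := F) m
  have hθr := th_range m hθ
  have hθk := th_central m dec hθ
  let P : Subgroup (E × D.SteinbergCover F) :=
    (π₁.comp (MonoidHom.fst E (D.SteinbergCover F))).eqLocus (σ.comp (MonoidHom.snd E (D.SteinbergCover F)))
  have hP : ∀ p : E × D.SteinbergCover F, p ∈ P ↔ π₁ p.1 = σ p.2 := fun p => Iff.rfl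
  let pr : P →* D.SteinbergCover F := (MonoidHom.snd E (D.SteinbergCover F)).comp P.subtype
  let pe : P →* E := (MonoidHom.fst E (D.SteinbergCover F)).comp P.subtype
  have hprs : Function.Surjective pr := by
    intro δ
    obtain ⟨e, he⟩ := hπ (σ δ)
    exact ⟨⟨(e, δ), he⟩, rfl⟩
  have hprc : pr.ker ≤ Subgroup.center P := by
    rintro ⟨⟨e, δ⟩, he⟩ h
    have hδ : δ = 1 := h
    subst hδ
    have he' : π₁ e = 1 := by
      have := (hP _).1 he
      simpa using this
    have h1 := hc he'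
    rw [Subgroup.mem_center_iff] at h1 ⊢
    rintro ⟨⟨e', δ'⟩, he2⟩
    apply Subtype.ext
    apply Prod.ext
    · exact h1 e'
    · change δ' * 1 = 1 * δ'
      rw [mul_one, one_mul]
  let θ' : P →* GL D.Idx F := θ.comp pr
  have hθ'c : θ'.ker ≤ Subgroup.center P := by
    intro p hp'
    apply mem_center_of_perfect pr hprs hprc hp
    rw [← hθk]
    exact hp'
  have hθ'l : ∀ g ∈ D.group F, ∃ p, θ' p = g := by
    intro g hg
    rw [← hθr] at hg
    obtain ⟨δ, rfl⟩ := hg
    obtain ⟨p, rfl⟩ := hprs δ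
    exact ⟨p, rfl⟩
  obtain ⟨hA, hB, hN⟩ := hcert P θ' hθ'c hθ'l
  obtain ⟨Y, hY1, hY2, hY3, hY4⟩ := exists_Y hθ'c (fun r t => hθ'l _ (m.X_mem_group r t)) hN hA
  obtain ⟨τ', hτ'⟩ := exists_sc_hom (D := D) (F := F) Y hY2 hY3
    (fun {r s} hr hs hsr hsn u v => rel_all hθ'c hY1 hY3 hY4 hB hr hs hsr hsn u v)
  have h1 : pr.comp τ' = MonoidHom.id _ := by
    apply lift_unique hp (π₁ := θ) (by rw [hθk])
    apply sc_hom_ext
    intro r t _
    change θ' (τ' (D.scGen F r t)) = θ (D.scGen F r t)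
    rw [hτ', hY1, hθ]
  refine ⟨pe.comp τ', ?_⟩
  refine MonoidHom.ext fun δ => ?_
  have h2 : π₁ (pe (τ' δ)) = σ (pr (τ' δ)) := (hP _).1 (τ' δ).2
  have h3 : pr (τ' δ) = δ := congrArg (fun f => f δ) h1
  change π₁ (pe (τ' δ)) = σ δ
  rw [h2, h3]

end Cfsg.Agent.H14.Chev
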