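import Mathlib
import Cfsg.Agent.H14_VcC

set_option autoImplicit false
set_option linter.unusedSectionVars false
set_option maxRecDepth 100000

/-!
Table checks for the torus certificates.
-/

namespace Cfsg.Agent.H6.Chev.Tab

variable (t : Tab) (Z Gd Al Em : ℤ → Bool)

/-- pairing of the coroot `j` with the root `r` -/
def pr (j r : ℕ) : ℤ := sumNat t.l fun i => t.o j i * t.c i r

/-- torus certificate: a cocharacter trivial on `r` and not on `s` -/
def ckT (r s : ℕ) : Bool := (anyNat t.n fun j => Z (t.pr j r) && Gd (t.pr j s)) ||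
  (Z (2 * t.pr s r - t.pr s r * t.pr r r) && Gd (2 * t.pr s s - t.pr s r * t.pr r s))

def fb (a r : ℕ) : ℕ := match t.ch (t.ng a) r with
  | [] => t.n
  | p :: _ => p.1

def ckD (a b r : ℕ) : Bool := !(Nat.beq a b) && (!(Nat.beq a (t.ng b)) && match t.cm b a with
  | [(p, c, i, j)] => Nat.beq p r && (Al c && (Nat.beq i 1 && Nat.beq j 1))
  | _ => false)

def okC (s a : ℕ) : Bool := Nat.beq a s || (!(Nat.beq a (t.ng s)) && (t.cm s a).all fun e => Em e.2.1)

def ckPc (s r : ℕ) : Bool := anyNat t.n fun a => Nat.blt (t.fb a r) t.n &&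
  (t.ckD Al a (t.fb a r) r && (t.okC Em s a && t.okC Em s (t.fb a r)))

def ckAll : Bool := allNat t.n fun r => t.ckPc Al Em r r

def ckNall : Bool := allNat t.n fun r => anyNat t.n fun j => Gd (t.pr j r)

def ckBall : Bool := allNat t.n fun r => allNat t.n fun s => Nat.beq s r || (Nat.beq s (t.ng r) ||
  (t.ckT Z Gd r s || t.ckPc Al Em r s))

end Cfsg.Agent.H6.Chev.Tab
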