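import Mathlib
import Cfsg.Agent.H14_VcD
import Cfsg.Agent.H6_ChevDec

set_option autoImplicit false
set_option linter.unusedSectionVars false
set_option maxRecDepth 100000

/-!
Soundness of the table checks for the torus certificates.
-/

namespace Cfsg.Agent.H14.Chev

open Cfsg Cfsg.Lie Cfsg.Lie.ChevalleyDatum Cfsg.Agent.H6 Cfsg.Agent.H6.Chev

/-- soundness of the arithmetic predicates for the field `F` -/
structure FP (F : Type*) [Field F] (Z Gd Al Em : ℤ → Bool) : Prop where
  z : ∀ k, Z k = true → ∀ v : Fˣ, v ^ k = 1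
  g : ∀ k, Gd k = true → ∃ v : Fˣ, v ^ k ≠ 1
  a : ∀ c, Al c = true → (c : F) * (c : F) = 1
  e : ∀ c, Em c = true → (c : F) = 0

section

variable {t : Tab} {D : ChevalleyDatum} (b : t.Base D) (m : Model D) {F : Type*} [Field F]

include b in
theorem chi_L (v : Fˣ) (L : ℕ → ℤ) {r : ℕ} (hr : r < t.n) :
    m.chi (Model.hC D (fun i => v ^ L i)) r = v ^ (∑ i ∈ Finset.range t.l, L i * t.c i r) := by
  rw [m.chi_hC _ (by rw [b.nroots]; exact hr), b.rank]
  have h1 : ∀ i ∈ Finset.range t.l, ((fun i => v ^ L i) i) ^ D.cartan i r = v ^ (L i * t.c i r) := by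
    intro i hi
    rw [b.cartan_eq (Finset.mem_range.1 hi) hr, zpow_mul]
  rw [Finset.prod_congr rfl h1]
  generalize Finset.range t.l = S
  classical
  induction S using Finset.induction_on with
  | empty => simp
  | insert a s ha ih => rw [Finset.prod_insert ha, Finset.sum_insert ha, zpow_add, ih]

theorem pr_eq (j r : ℕ) : t.pr j r = ∑ i ∈ Finset.range t.l, t.o j i * t.c i r := sumNat_eq _ _

variable {E : Type*} [Group E] {θ : E →* GL D.Idx F} (hl : ∀ g ∈ D.group F, ∃ p, θ p = g)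
  {Z Gd Al Em : ℤ → Bool} (fp : FP F Z Gd Al Em)

include hl b in
theorem exists_torus_lift (v : Fˣ) (L : ℕ → ℤ) : ∃ g : E, ∃ χ : ℕ → Fˣ, θ g = m.dmHom χ ∧
    ∀ r < t.n, m.chi χ r = v ^ (∑ i ∈ Finset.range t.l, L i * t.c i r) := by
  obtain ⟨g, hg⟩ := hl _ (m.H_le_G (m.hHom_mem (fun i => v ^ L i)))
  exact ⟨g, _, hg, fun r hr => chi_L b m v L hr⟩

include hl b fp in
theorem ckT_sound {r s : ℕ} (hr : r < t.n) (hs : s < t.n) (h : t.ckT Z Gd r s = true) : Tc m θ r s := by
  have key : ∀ L : ℕ → ℤ, Z (∑ i ∈ Finset.range t.l, L i * t.c i r) = true →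
      Gd (∑ i ∈ Finset.range t.l, L i * t.c i s) = true → Tc m θ r s := by
    intro L h1 h2
    obtain ⟨v, hv⟩ := fp.g _ h2
    obtain ⟨g, χ, hg, hχ⟩ := exists_torus_lift b m hl v L
    refine ⟨g, χ, hg, ?_, ?_⟩
    · rw [hχ r hr]
      exact fp.z _ h1 v
    · rw [hχ s hs]
      exact hv
  unfold Tab.ckT at h
  rw [Bool.or_eq_true] at h
  rcases h with h | h
  · obtain ⟨j, hj, h⟩ := anyNat_iff h
    rw [Bool.and_eq_true] at h
    exact key (t.o j) (by rw [← pr_eq]; exact h.1) (by rw [← pr_eq]; exact h.2)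
  · rw [Bool.and_eq_true] at h
    have e : ∀ q, ∑ i ∈ Finset.range t.l, (2 * t.o s i - t.pr s r * t.o r i) * t.c i q =
        2 * t.pr s q - t.pr s r * t.pr r q := by
      intro q
      rw [pr_eq s q, pr_eq r q, Finset.mul_sum, Finset.mul_sum, ← Finset.sum_sub_distrib]
      apply Finset.sum_congr rfl
      intro i _
      ring
    exact key (fun i => 2 * t.o s i - t.pr s r * t.o r i) (by rw [e]; exact h.1) (by rw [e]; exact h.2)

include hl b fp in
theorem ckN_sound (h : t.ckNall Gd = true) {r : ℕ} (hr : r < t.n) :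
    ∃ g : E, ∃ χ : ℕ → Fˣ, θ g = m.dmHom χ ∧ m.chi χ r ≠ 1 := by
  obtain ⟨j, hj, h1⟩ := anyNat_iff (allNat_iff h r hr)
  obtain ⟨v, hv⟩ := fp.g _ h1
  obtain ⟨g, χ, hg, hχ⟩ := exists_torus_lift b m hl v (t.o j)
  refine ⟨g, χ, hg, ?_⟩
  rw [hχ r hr, ← pr_eq]
  exact hv

variable (ck : t.Checks D)

include b ck fp in
theorem okC_sound {s a : ℕ} (hs : s < t.n) (ha : a < t.n) (h : t.okC Em s a = true) (u v : F) :
    m.X s u * m.X a v = m.X a v * m.X s u := by
  unfold Tab.okC at h
  rw [Bool.or_eq_true, beq_iff] at h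
  rcases h with rfl | h
  · rw [← m.X_add, ← m.X_add, add_comm]
  · by_cases has : a = s
    · rw [has, ← m.X_add, ← m.X_add, add_comm]
    rw [Bool.and_eq_true] at h
    obtain ⟨h1, h2⟩ := h
    have h3 : a ≠ D.neg s := by
      rw [b.ng_eq hs]
      intro h'
      rw [h'] at h1
      simp at h1
    have h4 := m.X_comm_formula (F := F) (r := s) (s := a) (by rw [b.nroots]; exact hs) (by rw [b.nroots]; exact ha) has h3 u v
    have h5 : m.word (D.commWord F s a u v) = 1 := by
      unfold ChevalleyDatum.commWord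
      rw [Tab.commTerms_eq b ck hs ha]
      rw [List.all_eq_true] at h2
      revert h2
      generalize t.cm s a = l
      intro h2
      induction l with
      | nil => rfl
      | cons e l ih =>
        rw [List.map_cons, Model.word_cons, ih fun e' he' => h2 e' (List.mem_cons_of_mem _ he'), mul_one]
        have := fp.e _ (h2 e List.mem_cons_self)
        change m.X e.1 (((e.2.1 : ℤ) : F) * _ * _) = 1
        rw [this, zero_mul, zero_mul, m.X_zero]
    rw [h5, mul_one] at h4
    exact h4.symm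

include b ck fp in
theorem ckD_sound {p q r : ℕ} (hp : p < t.n) (hq : q < t.n) (h : t.ckD Al p q r = true) :
    ∃ ν : F, Dc (mX m F) p q r ν := by
  unfold Tab.ckD at h
  rw [Bool.and_eq_true, Bool.and_eq_true] at h
  obtain ⟨h1, h2, h3⟩ := h
  have hpq : p ≠ q := by rintro rfl; simp at h1
  have hpn : p ≠ D.neg q := by
    rw [b.ng_eq hq]
    intro h'
    rw [← h'] at h2
    simp at h2
  split at h3
  · rename_i p' c i j heq
    rw [Bool.and_eq_true, Bool.and_eq_true, Bool.and_eq_true, beq_iff, beq_iff, beq_iff] at h3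
    obtain ⟨rfl, h4, rfl, rfl⟩ := h3
    refine ⟨-(c : F), by rw [neg_mul_neg]; exact fp.a _ h4, fun u v => ?_⟩
    have h5 := m.X_comm_formula (F := F) (r := q) (s := p) (by rw [b.nroots]; exact hq) (by rw [b.nroots]; exact hp) hpq hpn v u
    have h6 : m.word (D.commWord F q p v u) = m.X p' (-(c : F) * u * v) := by
      unfold ChevalleyDatum.commWord
      rw [Tab.commTerms_eq b ck hq hp, heq]
      simp
      congr 1
      ring
    rw [h6] at h5
    change kk (m.X p u) (m.X q v) = _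
    unfold kk
    rw [mul_assoc, mul_assoc, h5]
    group
  · exact absurd h3 (by simp)

include hl b ck fp in
theorem ckPc_sound (hc : θ.ker ≤ Subgroup.center E) {s r : ℕ} (hs : s < t.n) (hr : r < t.n)
    (h : t.ckPc Al Em s r = true) : Cm θ (mX m F) s r := by
  obtain ⟨a, ha, h⟩ := anyNat_iff h
  rw [Bool.and_eq_true, Bool.and_eq_true, Bool.and_eq_true, blt_iff] at h
  obtain ⟨h1, h2, h3, h4⟩ := h
  obtain ⟨ν, hν⟩ := ckD_sound b m fp ck ha h1 h2
  exact Cm.of_Dc hc hν (fun r t => hl _ (m.X_mem_group r t)) (okC_sound b m fp ck hs ha h3)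
    (okC_sound b m fp ck hs h1 h4)

include b ck in
/-- all certificates from table checks -/
theorem cert_of_checks.{u, v} {F : Type u} [Field F] {Z Gd Al Em : ℤ → Bool} (fp : FP F Z Gd Al Em)
    (hN : t.ckNall Gd = true) (hB : t.ckBall Z Gd Al Em = true)
    (hA : ∀ (P : Type v) [Group P] (θ : P →* GL D.Idx F), θ.ker ≤ Subgroup.center P → (∀ g ∈ D.group F, ∃ p, θ p = g) →
      ∀ r < t.n, Cm θ (mX m F) r r) : Cert.{u, v} m F := by
  intro P _ θ hc hl
  refine ⟨fun r hr => hA P θ hc hl r (by rw [← b.nroots]; exact hr), ?_, fun r hr =>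
    ckN_sound b m hl fp hN (by rw [← b.nroots]; exact hr)⟩
  intro r hr s hs h1 h2
  rw [b.nroots] at hr hs
  have h3 := allNat_iff (allNat_iff hB r hr) s hs
  rw [Bool.or_eq_true, Bool.or_eq_true, Bool.or_eq_true, beq_iff, beq_iff] at h3
  rcases h3 with h3 | h3 | h3 | h3
  · exact absurd h3 h1
  · rw [b.ng_eq hr] at h2
    exact absurd h3 h2
  · exact Or.inl (ckT_sound b m hl fp hr hs h3)
  · exact Or.inr (ckPc_sound b m hl fp ck hc hr hs h3)

end

end Cfsg.Agent.H14.Chev
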