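import Mathlib
import Cfsg.Agent.H14_VcE
import Cfsg.Agent.H14_CovC

set_option autoImplicit false
set_option linter.unusedSectionVars false
set_option maxRecDepth 100000

/-!
Certificates for the types G₂, B₂, D₄, F₄.
-/

namespace Cfsg.Agent.H14.Chev

open Cfsg Cfsg.Lie Cfsg.Lie.ChevalleyDatum Cfsg.Agent.H6 Cfsg.Agent.H6.Chev

def Z0 (k : ℤ) : Bool := k == 0
def G0 (k : ℤ) : Bool := k == 1 || k == -1 || k == 2 || k == -2 || k == 3 || k == -3
def A0 (k : ℤ) : Bool := k == 1 || k == -1
def Z4 (k : ℤ) : Bool := k % 3 == 0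
def G4 (k : ℤ) : Bool := k % 3 != 0
def A4 (k : ℤ) : Bool := k % 2 == 1
def E4 (k : ℤ) : Bool := k % 2 == 0
def Z3 (k : ℤ) : Bool := k % 2 == 0
def G3 (k : ℤ) : Bool := k % 2 != 0
def A3 (k : ℤ) : Bool := k % 3 != 0
def E3 (k : ℤ) : Bool := k % 3 == 0

section big

open Polynomial

variable {F : Type*} [Field F]

theorem exists_ne_of_big (hF : ∃ s : Finset F, 4 < s.card) {p : F[X]} (hp : p ≠ 0) (hd : p.natDegree ≤ 4) :
    ∃ v : F, p.eval v ≠ 0 := by
  classical
  obtain ⟨s, hs⟩ := hF
  by_contra hcon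
  push Not at hcon
  have h1 : s ⊆ p.roots.toFinset := by
    intro v _
    rw [Multiset.mem_toFinset, mem_roots hp]
    exact hcon v
  have h2 := Finset.card_le_card h1
  have h3 := Multiset.toFinset_card_le p.roots
  have h4 := p.card_roots'
  omega

theorem big_pow (hF : ∃ s : Finset F, 4 < s.card) {k : ℕ} (hk0 : 0 < k) (hk : k ≤ 3) : ∃ v : Fˣ, v ^ k ≠ 1 := by
  have hp : (X ^ (k + 1) - X : F[X]) ≠ 0 := by
    intro h
    have := congrArg (fun q => q.coeff 1) h
    simp only [coeff_sub, coeff_X_pow, coeff_X_one, coeff_zero] at this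
    rw [if_neg (by omega)] at this
    simp at this
  obtain ⟨v, hv⟩ := exists_ne_of_big hF hp (by
    refine (natDegree_sub_le _ _).trans ?_
    rw [natDegree_X_pow, natDegree_X]
    omega)
  simp only [eval_sub, eval_pow, eval_X] at hv
  have hv0 : v ≠ 0 := by
    rintro rfl
    simp at hv
  refine ⟨Units.mk0 v hv0, fun h => hv ?_⟩
  have h1 := congrArg (fun u : Fˣ => (u : F)) h
  simp only [Units.val_pow_eq_pow_val, Units.val_mk0, Units.val_one] at h1
  rw [pow_succ, h1, one_mul, sub_self]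

theorem big_trick (hF : ∃ s : Finset F, 4 < s.card) : ∃ v : F, v ≠ 0 ∧ v ≠ 1 ∧ v * v - v + 1 ≠ 0 := by
  have hmon : (X * (X - C 1) * (X * X - X + 1) : F[X]).Monic := by
    refine (monic_X.mul (monic_X_sub_C 1)).mul ?_
    have : (X * X - X + 1 : F[X]) = X ^ 2 + (-X + 1) := by ring
    rw [this]
    apply monic_X_pow_add
    refine lt_of_le_of_lt (degree_add_le _ _) ?_
    rw [degree_neg, degree_X, degree_one]
    decide
  have hdeg : (X * (X - C 1) * (X * X - X + 1) : F[X]).natDegree ≤ 4 := by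
    refine natDegree_mul_le.trans ?_
    have h1 : (X * (X - C 1) : F[X]).natDegree ≤ 2 := by
      refine natDegree_mul_le.trans ?_
      rw [natDegree_X, natDegree_X_sub_C]
    have h2 : (X * X - X + 1 : F[X]).natDegree ≤ 2 := by
      compute_degree
    omega
  obtain ⟨v, hv⟩ := exists_ne_of_big hF hmon.ne_zero hdeg
  simp only [eval_mul, eval_X, eval_sub, eval_C, eval_add, eval_one] at hv
  refine ⟨v, ?_, ?_, ?_⟩
  · rintro rfl; simp at hv
  · rintro rfl; simp at hv
  · intro h; rw [h] at hv; simp at hv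

theorem fp_big (hF : ∃ s : Finset F, 4 < s.card) : FP F Z0 G0 A0 Z0 where
  z k hk v := by
    have : k = 0 := by simpa [Z0] using hk
    rw [this, zpow_zero]
  g k hk := by
    have h : k = 1 ∨ k = -1 ∨ k = 2 ∨ k = -2 ∨ k = 3 ∨ k = -3 := by
      simpa [G0, or_assoc] using hk
    obtain ⟨v1, hv1⟩ := big_pow hF (k := 1) (by omega) (by omega)
    obtain ⟨v2, hv2⟩ := big_pow hF (k := 2) (by omega) (by omega)
    obtain ⟨v3, hv3⟩ := big_pow hF (k := 3) (by omega) (by omega)
    rcases h with rfl | rfl | rfl | rfl | rfl | rfl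
    · exact ⟨v1, by exact_mod_cast hv1⟩
    · exact ⟨v1, by rw [zpow_neg, Ne, inv_eq_one]; exact_mod_cast hv1⟩
    · exact ⟨v2, by exact_mod_cast hv2⟩
    · exact ⟨v2, by rw [zpow_neg, Ne, inv_eq_one]; exact_mod_cast hv2⟩
    · exact ⟨v3, by exact_mod_cast hv3⟩
    · exact ⟨v3, by rw [zpow_neg, Ne, inv_eq_one]; exact_mod_cast hv3⟩
  a c hc := by
    have : c = 1 ∨ c = -1 := by simpa [A0] using hc
    rcases this with rfl | rfl <;> simp
  e c hc := by
    have : c = 0 := by simpa [Z0] using hc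
    rw [this, Int.cast_zero]

end big

section small

variable {F : Type*} [Field F] [Fintype F]

theorem exists_gen_units : ∃ v : Fˣ, orderOf v = Fintype.card F - 1 := by
  obtain ⟨v, hv⟩ := IsCyclic.exists_ofOrder_eq_natCard (α := Fˣ)
  exact ⟨v, by rw [hv, Nat.card_units, Nat.card_eq_fintype_card]⟩

theorem zpow_eq_one_of_dvd {k : ℤ} (h : ((Fintype.card F - 1 : ℕ) : ℤ) ∣ k) (v : Fˣ) : v ^ k = 1 := by
  obtain ⟨c, rfl⟩ := h
  have h1 : v ^ (Fintype.card F - 1) = 1 := by
    rw [← Nat.card_eq_fintype_card, ← Nat.card_units]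
    exact pow_card_eq_one'
  rw [zpow_mul, zpow_natCast, h1, one_zpow]

theorem fp_four (hF : Fintype.card F = 4) : FP F Z4 G4 A4 E4 where
  z k hk v := by
    apply zpow_eq_one_of_dvd
    rw [hF]
    have : k % 3 = 0 := by simpa [Z4] using hk
    exact Int.dvd_of_emod_eq_zero this
  g k hk := by
    obtain ⟨v, hv⟩ := exists_gen_units (F := F)
    refine ⟨v, fun h => ?_⟩
    have h1 := orderOf_dvd_iff_zpow_eq_one.2 h
    rw [hv, hF] at h1
    have h2 : k % 3 ≠ 0 := by simpa [G4] using hk
    exact h2 (Int.emod_eq_zero_of_dvd h1)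
  a c hc := by
    have h1 : c % 2 = 1 := by simpa [A4] using hc
    have h2 : (2 : F) = 0 := by
      have h3 := FiniteField.cast_card_eq_zero F
      rw [hF] at h3
      have h4 : (2 : F) * 2 = 0 := by rw [← h3]; norm_num
      exact (mul_self_eq_zero.1 h4)
    have h3 : (c : F) = 1 := by
      have : c = 2 * (c / 2) + 1 := by omega
      rw [this]
      push_cast
      rw [h2]
      ring
    rw [h3, one_mul]
  e c hc := by
    have h1 : c % 2 = 0 := by simpa [E4] using hc
    have h2 : (2 : F) = 0 := by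
      have h3 := FiniteField.cast_card_eq_zero F
      rw [hF] at h3
      have h4 : (2 : F) * 2 = 0 := by rw [← h3]; norm_num
      exact (mul_self_eq_zero.1 h4)
    have : c = 2 * (c / 2) := by omega
    rw [this]
    push_cast
    rw [h2]
    ring

theorem fp_three (hF : Fintype.card F = 3) : FP F Z3 G3 A3 E3 where
  z k hk v := by
    apply zpow_eq_one_of_dvd
    rw [hF]
    have : k % 2 = 0 := by simpa [Z3] using hk
    exact Int.dvd_of_emod_eq_zero this
  g k hk := by
    obtain ⟨v, hv⟩ := exists_gen_units (F := F)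
    refine ⟨v, fun h => ?_⟩
    have h1 := orderOf_dvd_iff_zpow_eq_one.2 h
    rw [hv, hF] at h1
    have h2 : ¬ k % 2 = 0 := by simpa [G3] using hk
    exact h2 (Int.emod_eq_zero_of_dvd h1)
  a c hc := by
    have h1 : ¬ c % 3 = 0 := by simpa [A3] using hc
    have h2 : (3 : F) = 0 := by
      have h3 := FiniteField.cast_card_eq_zero F
      rw [hF] at h3
      exact_mod_cast h3
    have h4 : c = 3 * (c / 3) + c % 3 := by omega
    have h5 : c % 3 = 1 ∨ c % 3 = 2 := by omega
    rcases h5 with h5 | h5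
    · rw [h4, h5]
      push_cast
      rw [h2]
      ring
    · rw [h4, h5]
      push_cast
      rw [h2]
      linear_combination h2
  e c hc := by
    have h1 : c % 3 = 0 := by simpa [E3] using hc
    have h2 : (3 : F) = 0 := by
      have h3 := FiniteField.cast_card_eq_zero F
      rw [hF] at h3
      exact_mod_cast h3
    have : c = 3 * (c / 3) := by omega
    rw [this]
    push_cast
    rw [h2]
    ring

end small

end Cfsg.Agent.H14.Chev
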