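import Mathlib
import Cfsg.Agent.H14_VcF

set_option autoImplicit false
set_option linter.unusedSectionVars false
set_option maxRecDepth 100000

/-!
Certificates for the types G₂, B₂, D₄, F₄.
-/

namespace Cfsg.Agent.H6.Chev.Tab

variable (t : Tab) (Z Gd Al Em : ℤ → Bool)

def ckTr (r : ℕ) : Bool := anyNat t.n fun j => t.pr j r == 1 || t.pr j r == -1

def ckP2a (r p : ℕ) (C : ℤ) (q : ℕ) : Bool := Nat.beq p r && (Al C && (Nat.blt q t.n && (t.okC Em r q && t.ckT Z Gd r q)))

def ckP2 (r : ℕ) : Bool := anyNat t.n fun a => anyNat t.n fun b => !(Nat.beq a b) && (!(Nat.beq a (t.ng b)) &&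
  (t.okC Em r a && (t.okC Em r b && match t.cm b a with
  | [(p, C, i, j), (p', C', i', j')] => (Nat.beq i 1 && (Nat.beq j 1 && (Nat.beq i' 2 && Nat.beq j' 1))) &&
      (t.ckP2a Z Gd Al Em r p' C' p || t.ckP2a Z Gd Al Em r p C p')
  | _ => false)))

end Cfsg.Agent.H6.Chev.Tab

namespace Cfsg.Agent.H14.Chev

open Cfsg Cfsg.Lie Cfsg.Lie.ChevalleyDatum Cfsg.Agent.H6 Cfsg.Agent.H6.Chev

section

variable {t : Tab} {D : ChevalleyDatum} (b : t.Base D) (m : Model D) {F : Type*} [Field F]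
  {E : Type*} [Group E] {θ : E →* GL D.Idx F} (hl : ∀ g ∈ D.group F, ∃ p, θ p = g)
  {Z Gd Al Em : ℤ → Bool} (fp : FP F Z Gd Al Em) (ck : t.Checks D) (hc : θ.ker ≤ Subgroup.center E)

include hl b hc in
theorem ckTr_sound (hF : ∃ v : F, v ≠ 0 ∧ v ≠ 1 ∧ v * v - v + 1 ≠ 0) {r : ℕ} (hr : r < t.n) (h : t.ckTr r = true) :
    Cm θ (mX m F) r r := by
  obtain ⟨j, hj, h1⟩ := anyNat_iff h
  have h2 : t.pr j r * t.pr j r = 1 := by
    have : t.pr j r = 1 ∨ t.pr j r = -1 := by simpa using h1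
    rcases this with h | h <;> rw [h] <;> norm_num
  apply Cm_self_of_trick hc (fun r t => hl _ (m.X_mem_group r t)) _ hF
  intro v
  obtain ⟨g, χ, hg, hχ⟩ := exists_torus_lift b m hl v (fun k => t.pr j r * t.o j k)
  refine ⟨g, χ, hg, ?_⟩
  have e : ∑ i ∈ Finset.range t.l, (t.pr j r * t.o j i) * t.c i r = t.pr j r * t.pr j r := by
    conv_rhs => rw [pr_eq j r, ← pr_eq j r, pr_eq j r]
    rw [Finset.mul_sum]
    apply Finset.sum_congr rfl
    intro i _
    rw [← pr_eq]
    ring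
  rw [hχ r hr, e, h2, zpow_one]

include hl b fp ck hc in
theorem ckP2_sound {r : ℕ} (hr : r < t.n) (h : t.ckP2 Z Gd Al Em r = true) : Cm θ (mX m F) r r := by
  obtain ⟨a, ha, h⟩ := anyNat_iff h
  obtain ⟨c, hb, h⟩ := anyNat_iff h
  rw [Bool.and_eq_true, Bool.and_eq_true, Bool.and_eq_true, Bool.and_eq_true] at h
  obtain ⟨h1, h2, h3, h4, h5⟩ := h
  have hab : a ≠ c := by rintro rfl; simp at h1
  have hneg : a ≠ D.neg c := by
    rw [b.ng_eq hb]
    intro h'
    rw [← h'] at h2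
    simp at h2
  have c1 := okC_sound b m fp ck hr ha h3
  have c2 := okC_sound b m fp ck hr hb h4
  have hl' : ∀ r t, ∃ g, θ g = m.X r t := fun r t => hl _ (m.X_mem_group r t)
  split at h5
  · rename_i p C i j p' C' i' j' heq
    rw [Bool.and_eq_true, Bool.and_eq_true, Bool.and_eq_true, Bool.and_eq_true, beq_iff, beq_iff, beq_iff, beq_iff,
      Bool.or_eq_true] at h5
    obtain ⟨⟨rfl, rfl, rfl, rfl⟩, h6⟩ := h5
    have hk : ∀ u : F, kk (m.X a u) (m.X c 1) = m.X p (-(C : F) * u) * m.X p' ((C' : F) * u) := by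
      intro u
      have h5 := m.X_comm_formula (F := F) (r := c) (s := a) (by rw [b.nroots]; exact hb) (by rw [b.nroots]; exact ha)
        hab hneg 1 u
      have h6 : m.word (D.commWord F c a 1 u) = m.X p (-(C : F) * u) * m.X p' ((C' : F) * u) := by
        unfold ChevalleyDatum.commWord
        rw [Tab.commTerms_eq b ck hb ha, heq]
        simp
      rw [h6] at h5
      unfold kk
      rw [mul_assoc, mul_assoc, h5]
      group
    rcases h6 with h6 | h6
    · unfold Tab.ckP2a at h6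
      rw [Bool.and_eq_true, Bool.and_eq_true, Bool.and_eq_true, Bool.and_eq_true, beq_iff, blt_iff] at h6
      obtain ⟨rfl, h7, h8, h9, h10⟩ := h6
      exact Cm_of_P2 hc hl' (fp.a _ h7) hk c1 c2
        (Cm_of_Tc hc hl' (ckT_sound b m hl fp hr h8 h10) (okC_sound b m fp ck hr h8 h9))
    · unfold Tab.ckP2a at h6
      rw [Bool.and_eq_true, Bool.and_eq_true, Bool.and_eq_true, Bool.and_eq_true, beq_iff, blt_iff] at h6
      obtain ⟨rfl, h7, h8, h9, h10⟩ := h6
      have hcomm := okC_sound (F := F) b m fp ck hr h8 h9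
      refine Cm_of_P2 (ε := (C' : F)) (ε' := -(C : F)) hc hl' (by rw [neg_mul_neg]; exact fp.a _ h7) (fun u => ?_) c1 c2
        (Cm_of_Tc hc hl' (ckT_sound b m hl fp hr h8 h10) hcomm)
      rw [hk, hcomm]
  · exact absurd h5 (by simp)

end

theorem cert_P.{u, v} {t : Tab} {D : ChevalleyDatum} (b : t.Base D) (m : Model D) {F : Type u} [Field F]
    {Z Gd Al Em : ℤ → Bool} (fp : FP F Z Gd Al Em) (ck : t.Checks D) (hN : t.ckNall Gd = true)
    (hB : t.ckBall Z Gd Al Em = true) (hA : t.ckAll Al Em = true) : Cert.{u, v} m F :=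
  cert_of_checks b m ck fp hN hB fun P _ θ hc hl r hr => ckPc_sound b m hl fp ck hc hr hr (allNat_iff hA r hr)

theorem cert_Tr.{u, v} {t : Tab} {D : ChevalleyDatum} (b : t.Base D) (m : Model D) {F : Type u} [Field F]
    {Z Gd Al Em : ℤ → Bool} (fp : FP F Z Gd Al Em) (ck : t.Checks D) (hN : t.ckNall Gd = true)
    (hB : t.ckBall Z Gd Al Em = true) (hF : ∃ v : F, v ≠ 0 ∧ v ≠ 1 ∧ v * v - v + 1 ≠ 0)
    (hA : allNat t.n (fun r => t.ckTr r || t.ckP2 Z Gd Al Em r) = true) : Cert.{u, v} m F :=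
  cert_of_checks b m ck fp hN hB fun P _ θ hc hl r hr => by
    have := allNat_iff hA r hr
    rw [Bool.or_eq_true] at this
    rcases this with h | h
    · exact ckTr_sound b m hl hc hF hr h
    · exact ckP2_sound b m hl fp ck hc hr h

theorem cert_P2.{u, v} {t : Tab} {D : ChevalleyDatum} (b : t.Base D) (m : Model D) {F : Type u} [Field F]
    {Z Gd Al Em : ℤ → Bool} (fp : FP F Z Gd Al Em) (ck : t.Checks D) (hN : t.ckNall Gd = true)
    (hB : t.ckBall Z Gd Al Em = true)
    (hA : allNat t.n (fun r => t.ckP2 Z Gd Al Em r) = true) : Cert.{u, v} m F :=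
  cert_of_checks b m ck fp hN hB fun P _ θ hc hl r hr => ckP2_sound b m hl fp ck hc hr (allNat_iff hA r hr)

theorem nG2 : tabG2.ckNall G0 = true := by decide +kernel
theorem bG2 : tabG2.ckBall Z0 G0 A0 Z0 = true := by decide +kernel
theorem aG2 : allNat tabG2.n (fun r => tabG2.ckTr r || tabG2.ckP2 Z0 G0 A0 Z0 r) = true := by decide +kernel
theorem nB2 : tabB2.ckNall G0 = true := by decide +kernel
theorem bB2 : tabB2.ckBall Z0 G0 A0 Z0 = true := by decide +kernel
theorem aB2 : allNat tabB2.n (fun r => tabB2.ckTr r || tabB2.ckP2 Z0 G0 A0 Z0 r) = true := by decide +kernel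
theorem nD4 : tabD4.ckNall G0 = true := by decide +kernel
theorem bD4 : tabD4.ckBall Z0 G0 A0 Z0 = true := by decide +kernel
theorem aD4 : tabD4.ckAll A0 Z0 = true := by decide +kernel
theorem nF4 : tabF4.ckNall G0 = true := by decide +kernel
theorem bF4 : tabF4.ckBall Z0 G0 A0 Z0 = true := by decide +kernel
theorem aF4 : tabF4.ckAll A0 Z0 = true := by decide +kernel
theorem n4B2 : tabB2.ckNall G4 = true := by decide +kernel
theorem b4B2 : tabB2.ckBall Z4 G4 A4 E4 = true := by decide +kernel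
theorem a4B2 : allNat tabB2.n (fun r => tabB2.ckP2 Z4 G4 A4 E4 r) = true := by decide +kernel
theorem n4D4 : tabD4.ckNall G4 = true := by decide +kernel
theorem b4D4 : tabD4.ckBall Z4 G4 A4 E4 = true := by decide +kernel
theorem a4D4 : tabD4.ckAll A4 E4 = true := by decide +kernel
theorem n4F4 : tabF4.ckNall G4 = true := by decide +kernel
theorem b4F4 : tabF4.ckBall Z4 G4 A4 E4 = true := by decide +kernel
theorem a4F4 : tabF4.ckAll A4 E4 = true := by decide +kernel
theorem n3F4 : tabF4.ckNall G3 = true := by decide +kernel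
theorem b3F4 : tabF4.ckBall Z3 G3 A3 E3 = true := by decide +kernel
theorem a3F4 : tabF4.ckAll A3 E3 = true := by decide +kernel

end Cfsg.Agent.H14.Chev
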