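import Mathlib
import Cfsg.Agent.H14_VcG
import Cfsg.Agent.H14_UcT

set_option autoImplicit false
set_option linter.unusedSectionVars false
set_option maxRecDepth 100000

/-!
Universality of the Steinberg cover and Schur multipliers.
-/

namespace Cfsg.Agent.H14.Chev

open Cfsg Cfsg.Lie Cfsg.Lie.ChevalleyDatum Cfsg.Agent.H6 Cfsg.Agent.H6.Chev

theorem cert_G2.{u, v} {F : Type u} [Field F] (hF : ∃ s : Finset F, 4 < s.card) : Cert.{u, v} modelG2 F :=
  cert_Tr baseG2 modelG2 (fp_big hF) checksG2 nG2 bG2 (big_trick hF) aG2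

theorem cert_B2.{u, v} {F : Type u} [Field F] (hF : ∃ s : Finset F, 4 < s.card) : Cert.{u, v} modelB2 F :=
  cert_Tr baseB2 modelB2 (fp_big hF) checksB2 nB2 bB2 (big_trick hF) aB2

theorem cert_D4.{u, v} {F : Type u} [Field F] (hF : ∃ s : Finset F, 4 < s.card) : Cert.{u, v} modelD4 F :=
  cert_P baseD4 modelD4 (fp_big hF) checksD4 nD4 bD4 aD4

theorem cert_F4.{u, v} {F : Type u} [Field F] (hF : ∃ s : Finset F, 4 < s.card) : Cert.{u, v} modelF4 F :=
  cert_P baseF4 modelF4 (fp_big hF) checksF4 nF4 bF4 aF4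

theorem cert_B2_4.{u, v} {F : Type u} [Field F] [Fintype F] (hF : Fintype.card F = 4) : Cert.{u, v} modelB2 F :=
  cert_P2 baseB2 modelB2 (fp_four hF) checksB2 n4B2 b4B2 a4B2

theorem cert_D4_4.{u, v} {F : Type u} [Field F] [Fintype F] (hF : Fintype.card F = 4) : Cert.{u, v} modelD4 F :=
  cert_P baseD4 modelD4 (fp_four hF) checksD4 n4D4 b4D4 a4D4

theorem cert_F4_4.{u, v} {F : Type u} [Field F] [Fintype F] (hF : Fintype.card F = 4) : Cert.{u, v} modelF4 F :=
  cert_P baseF4 modelF4 (fp_four hF) checksF4 n4F4 b4F4 a4F4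

theorem cert_F4_3.{u, v} {F : Type u} [Field F] [Fintype F] (hF : Fintype.card F = 3) : Cert.{u, v} modelF4 F :=
  cert_P baseF4 modelF4 (fp_three hF) checksF4 n3F4 b3F4 a3F4

theorem ne_of_big {F : Type*} [Field F] (hF : ∃ s : Finset F, 4 < s.card) : ∃ a : F, a ≠ 0 ∧ a ≠ 1 := by
  obtain ⟨v, h0, h1, -⟩ := big_trick hF
  exact ⟨v, h0, h1⟩

theorem s2398 {K : Type*} [Field K] (hK5 : ∃ s : Finset K, 4 < s.card) (D : Cfsg.Lie.ChevalleyDatum)
    (hD : D ∈ [Cfsg.Lie.chevG2, Cfsg.Lie.chevB2, Cfsg.Lie.chevD4, Cfsg.Lie.chevF4, Cfsg.Lie.chevE6, Cfsg.Lie.chevE7, Cfsg.Lie.chevE8])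
    {G₁ E : Type*} [Group G₁] [Group E] (π₁ : E →* G₁) (hπ : Function.Surjective π₁) (hc : π₁.ker ≤ Subgroup.center E)
    (σ : D.SteinbergCover K →* G₁) : ∃! τ : D.SteinbergCover K →* E, π₁.comp τ = σ := by
  have hperf : commutator (D.SteinbergCover K) = ⊤ := s2395 D hD fun _ => ne_of_big hK5
  suffices h : ∃ τ : D.SteinbergCover K →* E, π₁.comp τ = σ by
    obtain ⟨τ, hτ⟩ := h
    exact ⟨τ, hτ, fun τ' hτ' => lift_unique hperf hc (hτ'.trans hτ.symm)⟩
  simp only [List.mem_cons, List.not_mem_nil, or_false] at hD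
  rcases hD with rfl | rfl | rfl | rfl | rfl | rfl | rfl
  · exact exists_lift_torus modelG2 decG2 hperf (cert_G2 hK5) π₁ hπ hc σ
  · exact exists_lift_torus modelB2 decB2 hperf (cert_B2 hK5) π₁ hπ hc σ
  · exact exists_lift_torus modelD4 decD4 hperf (cert_D4 hK5) π₁ hπ hc σ
  · exact exists_lift_torus modelF4 decF4 hperf (cert_F4 hK5) π₁ hπ hc σ
  · exact exists_lift_sl baseE6 rfl ckPE6 ckGE6 ckCE6 π₁ hπ hc σ
  · exact exists_lift_sl baseE7 rfl ckPE7 ckGE7 ckCE7 π₁ hπ hc σ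
  · exact exists_lift_sl baseE8 rfl ckPE8 ckGE8 ckCE8 π₁ hπ hc σ

universe u

theorem flift_torus {D : ChevalleyDatum} (m : Model D) (dec : m.Dec) {F : Type u} [Field F]
    (hp : commutator (D.SteinbergCover F) = ⊤) (hcert : Cert.{u, u} m F) : FLift (D.SteinbergCover F) :=
  fun _ _ _ _ _ π₁ hπ hc σ => exists_lift_torus m dec hp hcert π₁ hπ hc σ

theorem big_of_card {F : Type*} [Field F] [Fintype F] (h : 5 ≤ Fintype.card F) : ∃ s : Finset F, 4 < s.card :=
  ⟨Finset.univ, by rw [Finset.card_univ]; omega⟩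

theorem s2100 {F : Type*} [Field F] [Fintype F] (hF : 5 ≤ Fintype.card F)
    (hz : Subgroup.center (chevG2.SteinbergGroup F) = ⊥) :
    Cfsg.HasCyclicSchurMultiplier ↥(Cfsg.Lie.chevG2.group F) 1 :=
  schur_group_one modelG2 (scp_G2 (ne_of_big (big_of_card hF))) decG2
    (flift_torus modelG2 decG2 (scp_G2 (ne_of_big (big_of_card hF))) (cert_G2 (big_of_card hF))) hz

theorem flift_F4 {F : Type u} [Field F] [Fintype F] (hF : 3 ≤ Fintype.card F) : FLift (chevF4.SteinbergCover F) := by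
  by_cases h5 : 5 ≤ Fintype.card F
  · exact flift_torus modelF4 decF4 scp_F4 (cert_F4 (big_of_card h5))
  · by_cases h4 : Fintype.card F = 4
    · exact flift_torus modelF4 decF4 scp_F4 (cert_F4_4 h4)
    · exact flift_torus modelF4 decF4 scp_F4 (cert_F4_3 (by omega))

theorem s2103 {F : Type*} [Field F] [Fintype F] (hF : 3 ≤ Fintype.card F)
    (hz : Subgroup.center (chevF4.SteinbergGroup F) = ⊥) :
    Cfsg.HasCyclicSchurMultiplier ↥(Cfsg.Lie.chevF4.group F) 1 :=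
  schur_group_one modelF4 scp_F4 decF4 (flift_F4 hF) hz

end Cfsg.Agent.H14.Chev
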