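import Mathlib
import Cfsg.Agent.H14_VcC
import Cfsg.Agent.H14_UcS
import Cfsg.Agent.H14_ChevC

set_option autoImplicit false
set_option linter.unusedSectionVars false
set_option maxRecDepth 100000
set_option linter.style.haveILetI false

/-!
Lifting through central extensions whose kernel has no `p`-torsion, `p` the characteristic.
-/

namespace Cfsg.Agent.H14.Chev

open Cfsg Cfsg.Lie Cfsg.Lie.ChevalleyDatum Cfsg.Agent.H6 Cfsg.Agent.H6.Chev
open scoped commutatorElement

theorem finite_commutator_of_central {P Δ : Type*} [Group P] [Group Δ] [Finite Δ] (pr : P →* Δ)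
    (hs : Function.Surjective pr) (hc : pr.ker ≤ Subgroup.center P) : Finite (commutator P) := by
  choose X hX using hs
  haveI : Finite (commutatorSet P) := by
    apply Set.Finite.to_subtype
    refine (Set.finite_range (fun x : Δ × Δ => kk (X x.1) (X x.2))).subset ?_
    rintro _ ⟨a, b, rfl⟩
    refine ⟨(pr a⁻¹, pr b⁻¹), ?_⟩
    change kk (X (pr a⁻¹)) (X (pr b⁻¹)) = ⁅a, b⁆
    rw [ce_kk hc (hX (pr a⁻¹)) (hX (pr b⁻¹))]
    unfold kk
    rw [commutatorElement_def]
    group
  infer_instance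

/-- lifts of `p`-elements -/
theorem exists_plift {Q Δ : Type*} [Group Q] [Group Δ] [Finite Q] {p : ℕ} [Fact p.Prime] (f : Q →* Δ)
    (hs : Function.Surjective f) (hc : f.ker ≤ Subgroup.center Q) (ht : ∀ z ∈ f.ker, z ^ p = 1 → z = 1) :
    ∃ ℓ : Δ → Q, ∀ A : Subgroup Δ, IsPGroup p A → (∀ a ∈ A, f (ℓ a) = a) ∧ ∀ a ∈ A, ∀ b ∈ A, ℓ (a * b) = ℓ a * ℓ b := by
  classical
  have ht' : ∀ k : ℕ, ∀ z ∈ f.ker, z ^ p ^ k = 1 → z = 1 := by
    intro k
    induction k with
    | zero => intro z _ hz; simpa using hz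
    | succ k ih =>
      intro z hz hz2
      rw [pow_succ, pow_mul] at hz2
      exact ih z hz (ht _ (pow_mem hz _) hz2)
  have huniq : ∀ x y : Q, f x = f y → (∃ k : ℕ, x ^ p ^ k = 1) → (∃ k : ℕ, y ^ p ^ k = 1) → x = y := by
    rintro x y hxy ⟨k, hk⟩ ⟨l, hl⟩
    obtain ⟨z, hz, hxz⟩ := ce_diff hc hxy
    have hz' : z ∈ f.ker := by
      rw [hxz, map_mul] at hxy
      exact mul_eq_left.1 hxy
    have h1 : Commute y z := (Subgroup.mem_center_iff.1 hz) y
    have h2 : z ^ p ^ (k + l) = 1 := by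
      have e1 : x ^ p ^ (k + l) = 1 := by rw [pow_add, pow_mul, hk, one_pow]
      have e2 : y ^ p ^ (k + l) = 1 := by rw [add_comm, pow_add, pow_mul, hl, one_pow]
      rw [hxz, h1.mul_pow, e2, one_mul] at e1
      exact e1
    rw [hxz, ht' _ z hz' h2, mul_one]
  have hex : ∀ A : Subgroup Δ, IsPGroup p A → ∀ a ∈ A, ∃ x, f x = a ∧ ∃ k : ℕ, x ^ p ^ k = 1 := by
    intro A hA a ha
    let f' : A.comap f →* A := (f.comp (A.comap f).subtype).codRestrict A fun x => x.2
    have hf' : Function.Surjective f' := by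
      rintro ⟨b, hb⟩
      obtain ⟨x, rfl⟩ := hs b
      exact ⟨⟨x, hb⟩, rfl⟩
    obtain ⟨S⟩ : Nonempty (Sylow p (A.comap f)) := inferInstance
    have h1 : ((S : Subgroup (A.comap f)).map f').index ∣ (S : Subgroup (A.comap f)).index :=
      Subgroup.index_map_dvd _ hf'
    have h2 : ¬ p ∣ (S : Subgroup (A.comap f)).index := S.not_dvd_index
    haveI : Finite A := Finite.of_surjective f' hf'
    obtain ⟨k, hk⟩ := hA.index ((S : Subgroup (A.comap f)).map f')
    have h3 : ((S : Subgroup (A.comap f)).map f') = ⊤ := by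
      rw [← Subgroup.index_eq_one, hk]
      cases k with
      | zero => rfl
      | succ k =>
        exfalso
        apply h2
        refine dvd_trans ?_ h1
        rw [hk, pow_succ]
        exact Dvd.intro_left _ rfl
    have h4 : (⟨a, ha⟩ : A) ∈ ((S : Subgroup (A.comap f)).map f') := by rw [h3]; exact Subgroup.mem_top _
    obtain ⟨x, hx, hxa⟩ := h4
    obtain ⟨k, hk⟩ := S.isPGroup' ⟨x, hx⟩
    refine ⟨x, congrArg Subtype.val hxa, k, ?_⟩
    have := congrArg Subtype.val (congrArg Subtype.val hk)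
    simpa using this
  have hex2 : ∀ A : Subgroup Δ, IsPGroup p A → ∃ s : A → Q, (∀ a, f (s a) = a) ∧ (∀ a b, s (a * b) = s a * s b) ∧
      ∀ a, ∃ k : ℕ, s a ^ p ^ k = 1 := by
    intro A hA
    let f' : A.comap f →* A := (f.comp (A.comap f).subtype).codRestrict A fun x => x.2
    have hf' : Function.Surjective f' := by
      rintro ⟨b, hb⟩
      obtain ⟨x, rfl⟩ := hs b
      exact ⟨⟨x, hb⟩, rfl⟩
    obtain ⟨S⟩ : Nonempty (Sylow p (A.comap f)) := inferInstance
    have h1 : ((S : Subgroup (A.comap f)).map f').index ∣ (S : Subgroup (A.comap f)).index :=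
      Subgroup.index_map_dvd _ hf'
    have h2 : ¬ p ∣ (S : Subgroup (A.comap f)).index := S.not_dvd_index
    haveI : Finite A := Finite.of_surjective f' hf'
    obtain ⟨k, hk⟩ := hA.index ((S : Subgroup (A.comap f)).map f')
    have h3 : ((S : Subgroup (A.comap f)).map f') = ⊤ := by
      rw [← Subgroup.index_eq_one, hk]
      cases k with
      | zero => rfl
      | succ k =>
        exfalso
        apply h2
        refine dvd_trans ?_ h1
        rw [hk, pow_succ]
        exact Dvd.intro_left _ rfl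
    have h4 : ∀ a : A, ∃ x : A.comap f, x ∈ S ∧ f' x = a := by
      intro a
      have : a ∈ ((S : Subgroup (A.comap f)).map f') := by rw [h3]; exact Subgroup.mem_top _
      exact this
    choose s hs1 hs2 using h4
    have hp : ∀ x : A.comap f, x ∈ S → ∃ k : ℕ, (x : Q) ^ p ^ k = 1 := by
      intro x hx
      obtain ⟨k, hk⟩ := S.isPGroup' ⟨x, hx⟩
      refine ⟨k, ?_⟩
      have := congrArg Subtype.val (congrArg Subtype.val hk)
      simpa using this
    refine ⟨fun a => (s a : Q), fun a => congrArg Subtype.val (hs2 a), fun a b => ?_, fun a => hp _ (hs1 a)⟩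
    apply huniq
    · have e1 : f (s (a * b) : Q) = (a * b : A) := congrArg Subtype.val (hs2 (a * b))
      have e2 : f (s a : Q) = a := congrArg Subtype.val (hs2 a)
      have e3 : f (s b : Q) = b := congrArg Subtype.val (hs2 b)
      rw [e1, map_mul, e2, e3]
      rfl
    · exact hp _ (hs1 _)
    · have := hp (s a * s b) (mul_mem (hs1 a) (hs1 b))
      simpa using this
  let ℓ : Δ → Q := fun a => if h : ∃ x, f x = a ∧ ∃ k : ℕ, x ^ p ^ k = 1 then h.choose else 1
  have hℓ : ∀ (A : Subgroup Δ), IsPGroup p A → ∀ a ∈ A, f (ℓ a) = a ∧ ∃ k : ℕ, ℓ a ^ p ^ k = 1 := by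
    intro A hA a ha
    have h := hex A hA a ha
    simp only [ℓ]
    rw [dif_pos h]
    exact h.choose_spec
  refine ⟨ℓ, fun A hA => ⟨fun a ha => (hℓ A hA a ha).1, fun a ha b hb => ?_⟩⟩
  obtain ⟨s, hs1, hs2, hs3⟩ := hex2 A hA
  have key : ∀ a (ha : a ∈ A), ℓ a = s ⟨a, ha⟩ := fun a ha =>
    huniq _ _ ((hℓ A hA a ha).1.trans (hs1 ⟨a, ha⟩).symm) (hℓ A hA a ha).2 (hs3 _)
  rw [key _ (mul_mem ha hb), key a ha, key b hb, ← hs2]
  rfl

/-- unipotent subgroups of the cover are `p`-groups -/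
theorem Sys0.isPGroup_Rw {D : ChevalleyDatum} {m : Model D} {F : Type*} [Field F] [Finite F] {Γ : Type*} [Group Γ]
    (S : Sys0 m F Γ) {p : ℕ} [Fact p.Prime] [CharP F p] {w : Equiv.Perm (Fin D.nroots)} (hw : w ∈ m.Wg) :
    IsPGroup p (S.G (Sys0.Rw w m.N)) := by
  haveI := Fintype.ofFinite F
  obtain ⟨n, -, hact⟩ := exists_acts (F := F) m (inv_mem hw)
  have h1 : IsPGroup p (m.gen F (Sys0.Rw w m.N)) := by
    apply isPGroup_of_map (g := n) (isPGroup_U m (F := F) (p := p))
    rw [m.posUnipotent_eq]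
    apply m.map_gen_acts hact
    rintro r ⟨s, hs, he⟩
    have : r = w s := Fin.ext he
    rw [this, ← Equiv.Perm.mul_apply, inv_mul_cancel, Equiv.Perm.one_apply]
    exact hs
  rintro ⟨a, ha⟩
  obtain ⟨k, hk⟩ := h1 ⟨S.θ a, S.θ_mem ha⟩
  refine ⟨k, Subtype.ext ?_⟩
  change a ^ p ^ k = 1
  apply S.inj hw (pow_mem ha _) (one_mem _)
  have := congrArg Subtype.val hk
  rw [map_pow, map_one]
  exact this

/-- lifting theorem for kernels without `p`-torsion -/
theorem exists_lift_p' {D : ChevalleyDatum} (m : Model D) (dec : m.Dec) {F : Type*} [Field F] [Finite F]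
    {p : ℕ} [Fact p.Prime] [CharP F p]
    (hp : commutator (D.SteinbergCover F) = ⊤) {G₁ : Type*} {E : Type*}
    [Group G₁] [Group E] (π₁ : E →* G₁)
    (hπ : Function.Surjective π₁) (hc : π₁.ker ≤ Subgroup.center E) (ht : ∀ z ∈ π₁.ker, z ^ p = 1 → z = 1)
    (σ : D.SteinbergCover F →* G₁) :
    ∃ τ : D.SteinbergCover F →* E, π₁.comp τ = σ := by
  haveI := sc_finite (F := F) m dec
  obtain ⟨θ, hθ⟩ := exists_th (F := F) m
  let S := scSys m θ hθ
  let P : Subgroup (E × D.SteinbergCover F) :=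
    (π₁.comp (MonoidHom.fst E (D.SteinbergCover F))).eqLocus (σ.comp (MonoidHom.snd E (D.SteinbergCover F)))
  have hP : ∀ p : E × D.SteinbergCover F, p ∈ P ↔ π₁ p.1 = σ p.2 := fun p => Iff.rfl
  let pr : P →* D.SteinbergCover F := (MonoidHom.snd E (D.SteinbergCover F)).comp P.subtype
  let pe : P →* E := (MonoidHom.fst E (D.SteinbergCover F)).comp P.subtype
  have hprs : Function.Surjective pr := by
    intro δ
    obtain ⟨e, he⟩ := hπ (σ δ)
    exact ⟨⟨(e, δ), he⟩, rfl⟩
  have hprk : ∀ x ∈ pr.ker, π₁ (pe x) = 1 := by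
    rintro ⟨⟨e, δ⟩, he⟩ h
    have hδ : δ = 1 := h
    subst hδ
    have := (hP _).1 he
    rw [map_one] at this
    exact this
  have hprc : pr.ker ≤ Subgroup.center P := by
    intro x hx
    have h1 := hc (hprk x hx)
    rw [Subgroup.mem_center_iff] at h1 ⊢
    intro y
    apply Subtype.ext
    apply Prod.ext
    · exact h1 (pe y)
    · have hδ : pr x = 1 := hx
      change pr y * pr x = pr x * pr y
      rw [hδ, mul_one, one_mul]
  haveI hfin : Finite (commutator P) := finite_commutator_of_central pr hprs hprc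
  let f : commutator P →* D.SteinbergCover F := pr.comp (commutator P).subtype
  have hfs : Function.Surjective f := by
    intro δ
    have h6 : δ ∈ (commutator P).map pr := by
      have : (commutator P).map pr = commutator (D.SteinbergCover F) := by
        rw [commutator_def, Subgroup.map_commutator, ← MonoidHom.range_eq_map, MonoidHom.range_eq_top.2 hprs,
          ← commutator_def]
      rw [this, hp]
      exact Subgroup.mem_top _
    obtain ⟨x, hx, hxδ⟩ := h6
    exact ⟨⟨x, hx⟩, hxδ⟩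
  have hfc : f.ker ≤ Subgroup.center (commutator P) := by
    intro x hx
    have h1 := hprc (show (x : P) ∈ pr.ker from hx)
    rw [Subgroup.mem_center_iff] at h1 ⊢
    exact fun y => Subtype.ext (h1 y)
  have hft : ∀ z ∈ f.ker, z ^ p = 1 → z = 1 := by
    intro z hz hzp
    have h1 : π₁ (pe z) = 1 := hprk _ hz
    have h2 : (pe z) ^ p = 1 := by
      have := congrArg (fun y : commutator P => pe y) hzp
      simpa using this
    have h3 := ht _ h1 h2
    apply Subtype.ext
    apply Subtype.ext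
    apply Prod.ext
    · exact h3
    · exact hz
  obtain ⟨ℓ, hℓ⟩ := exists_plift (p := p) f hfs hfc hft
  have hxm : ∀ (w : Equiv.Perm (Fin D.nroots)), ∀ r < D.nroots, Sys0.Rw w m.N r → ∀ t : F,
      D.scGen F r t ∈ S.G (Sys0.Rw w m.N) := fun w r hr hR t => S.x_mem hr hR t
  have hwm : ∀ (w : Equiv.Perm (Fin D.nroots)), ∀ l : List (ℕ × F), (∀ q ∈ l, q.1 < D.nroots ∧ Sys0.Rw w m.N q.1) →
      (l.map fun q => D.scGen F q.1 q.2).prod ∈ S.G (Sys0.Rw w m.N) := fun w l h => S.wd_mem h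
  have hmulw : ∀ (w : Equiv.Perm (Fin D.nroots)), w ∈ m.Wg → ∀ l : List (ℕ × F),
      (∀ q ∈ l, q.1 < D.nroots ∧ Sys0.Rw w m.N q.1) →
      ℓ ((l.map fun q => D.scGen F q.1 q.2).prod) = (l.map fun q => ℓ (D.scGen F q.1 q.2)).prod := by
    intro w hw l
    have hA := hℓ _ (S.isPGroup_Rw (p := p) hw)
    have hone : ℓ 1 = 1 := by
      have := hA.2 1 (one_mem _) 1 (one_mem _)
      rw [mul_one] at this
      exact left_eq_mul.1 this
    induction l with
    | nil => intro _; simpa using hone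
    | cons a l ih =>
      intro h
      rw [List.map_cons, List.prod_cons, List.map_cons, List.prod_cons,
        hA.2 _ (hxm w _ (h a List.mem_cons_self).1 (h a List.mem_cons_self).2 _) _
          (hwm w _ fun q hq => h q (List.mem_cons_of_mem _ hq)), ih fun q hq => h q (List.mem_cons_of_mem _ hq)]
  have hpos : ∀ r < D.nroots, ∃ w ∈ m.Wg, Sys0.Rw w m.N r := by
    intro r hr
    obtain ⟨w, hw, i, hi⟩ := m.exists_simple ⟨r, hr⟩
    exact ⟨w, hw, m.p i, m.p_pos i, by rw [hi]⟩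
  have hYadd : ∀ r < D.nroots, ∀ u v : F, ℓ (D.scGen F r (u + v)) = ℓ (D.scGen F r u) * ℓ (D.scGen F r v) := by
    intro r hr u v
    obtain ⟨w, hw, hR⟩ := hpos r hr
    rw [sc_add]
    exact (hℓ _ (S.isPGroup_Rw (p := p) hw)).2 _ (S.x_mem hr hR u) _ (S.x_mem hr hR v)
  have hℓone : ℓ 1 = 1 := by
    have := (hℓ ⊥ IsPGroup.of_bot).2 1 (one_mem _) 1 (one_mem _)
    rw [mul_one] at this
    exact left_eq_mul.1 this
  have hYcomm : ∀ {r s : ℕ}, r < D.nroots → s < D.nroots → s ≠ r → s ≠ D.neg r → ∀ u v : F,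
      ℓ (D.scGen F s v) * ℓ (D.scGen F r u) = ℓ (D.scGen F r u) * ℓ (D.scGen F s v) *
        ((D.commWord F r s u v).map fun p => ℓ (D.scGen F p.1 p.2)).prod := by
    intro r s hr hs h1 h2 u v
    obtain ⟨w, hw, a, b, ha, hb, ha', hb', hab⟩ := exists_pos_pair m ⟨r, hr⟩ ⟨s, hs⟩ (fun h => h1 (congrArg Fin.val h))
      (fun h => h2 (congrArg Fin.val h))
    have hRr : Sys0.Rw w m.N r := ⟨a, ha, congrArg Fin.val ha'⟩
    have hRs : Sys0.Rw w m.N s := ⟨b, hb, congrArg Fin.val hb'⟩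
    have hA := hℓ _ (S.isPGroup_Rw (p := p) hw)
    have hw' : ∀ q ∈ D.commWord F r s u v, q.1 < D.nroots ∧ Sys0.Rw w m.N q.1 := by
      intro c hc
      unfold ChevalleyDatum.commWord at hc
      rw [List.mem_map] at hc
      obtain ⟨c, hc, rfl⟩ := hc
      have e1 : r = (w a : Fin D.nroots) := congrArg Fin.val ha'
      have e2 : s = (w b : Fin D.nroots) := congrArg Fin.val hb'
      rw [e1, e2] at hc
      obtain ⟨c', hc', hac, hbc⟩ := Sys0.shift hw ha hb hab hc
      change c.1 < _ ∧ Sys0.Rw w _ c.1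
      rw [hc']
      exact ⟨(w c').2, c', by omega, rfl⟩
    rw [← hA.2 _ (hxm w s hs hRs v) _ (hxm w r hr hRr u), ← hmulw w hw _ hw',
      ← hA.2 _ (hxm w r hr hRr u) _ (hxm w s hs hRs v),
      ← hA.2 _ (mul_mem (hxm w r hr hRr u) (hxm w s hs hRs v)) _ (hwm w _ hw')]
    congr 1
    exact sc_comm hr hs h1 h2 u v
  obtain ⟨τ', hτ'⟩ := exists_sc_hom (D := D) (F := F) (fun r u => ℓ (D.scGen F r u))
    (fun r hr t => by rw [scGen_of_ge hr, hℓone]) hYadd hYcomm
  have h1 : f.comp τ' = MonoidHom.id _ := by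
    apply sc_hom_ext
    intro r t hr
    obtain ⟨w, hw, hR⟩ := hpos r hr
    change f (τ' (D.scGen F r t)) = D.scGen F r t
    rw [hτ']
    exact (hℓ _ (S.isPGroup_Rw (p := p) hw)).1 _ (S.x_mem hr hR t)
  refine ⟨(pe.comp (commutator P).subtype).comp τ', ?_⟩
  refine MonoidHom.ext fun δ => ?_
  have h2 : π₁ (pe (τ' δ)) = σ (pr (τ' δ)) := (hP _).1 (τ' δ : P).2
  have h3 : pr (τ' δ) = δ := congrArg (fun f => f δ) h1
  change π₁ (pe (τ' δ)) = σ δ
  rw [h2, h3]

end Cfsg.Agent.H14.Chev
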