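import Mathlib
import Cfsg.Agent.H14_VpA
import Cfsg.Agent.H14_VcH

set_option autoImplicit false
set_option linter.unusedSectionVars false
set_option maxRecDepth 100000
set_option linter.style.haveILetI false

/-!
Projective representations in the natural characteristic.
-/

namespace Cfsg.Agent.H14.Chev

open Cfsg Cfsg.Lie Cfsg.Lie.ChevalleyDatum Cfsg.Agent.H6 Cfsg.Agent.H6.Chev

theorem center_GL_torsion {L : Type*} [Field L] {p : ℕ} [Fact p.Prime] [CharP L p] {n : ℕ} {z : GL (Fin n) L}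
    (hz : z ∈ Subgroup.center (GL (Fin n) L)) (h : z ^ p = 1) : z = 1 := by
  cases n with
  | zero => exact Subsingleton.elim _ _
  | succ n =>
    rw [Matrix.GeneralLinearGroup.center_eq_range_scalar] at hz
    obtain ⟨c, rfl⟩ := hz
    rw [← map_pow] at h
    have h1 := congrArg (fun g : GL (Fin (n + 1)) L => (g : Matrix (Fin (n + 1)) (Fin (n + 1)) L) 0 0) h
    have h2 : ((c : L)) ^ p = 1 := by
      simpa [Matrix.diagonal_pow] using h1
    have h3 : ((c : L) - 1) ^ p = 0 := by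
      rw [sub_pow_char, h2, one_pow, sub_self]
    have h4 : (c : L) = 1 := sub_eq_zero.1 (pow_eq_zero_iff (Fact.out : p.Prime).ne_zero |>.1 h3)
    have h5 : c = 1 := Units.ext h4
    rw [h5, map_one]

theorem s2399 {K : Type*} [Field K] (D : Cfsg.Lie.ChevalleyDatum) (hD : D ∈ [Cfsg.Lie.chevG2, Cfsg.Lie.chevB2, Cfsg.Lie.chevD4, Cfsg.Lie.chevF4, Cfsg.Lie.chevE6, Cfsg.Lie.chevE7, Cfsg.Lie.chevE8]) (hK : D ∈ [Cfsg.Lie.chevB2, Cfsg.Lie.chevG2] → ∃ x : K, x ≠ 0 ∧ x ≠ 1)
    (θ : D.SteinbergCover K →* ↥(D.group K))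
    {L : Type*} [Field L] (hL : ringChar L = ringChar K) {n : ℕ}
    (φ : ↥(D.group K) →* GL (Fin n) L ⧸ Subgroup.center (GL (Fin n) L)) :
    ∃! ψ : D.SteinbergCover K →* GL (Fin n) L, (QuotientGroup.mk' (Subgroup.center (GL (Fin n) L))).comp ψ = φ.comp θ := by
  have hperf : commutator (D.SteinbergCover K) = ⊤ := s2395 D hD hK
  have hc : (QuotientGroup.mk' (Subgroup.center (GL (Fin n) L))).ker ≤ Subgroup.center (GL (Fin n) L) := by
    rw [QuotientGroup.ker_mk']
  have hs := QuotientGroup.mk'_surjective (Subgroup.center (GL (Fin n) L))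
  by_cases hbig : ∃ s : Finset K, 4 < s.card
  · exact s2398 hbig D hD _ hs hc _
  · suffices h : ∃ τ : D.SteinbergCover K →* GL (Fin n) L,
        (QuotientGroup.mk' (Subgroup.center (GL (Fin n) L))).comp τ = φ.comp θ by
      obtain ⟨τ, hτ⟩ := h
      exact ⟨τ, hτ, fun τ' hτ' => lift_unique hperf hc (hτ'.trans hτ.symm)⟩
    haveI : Finite K := by
      by_contra hinf
      rw [not_finite_iff_infinite] at hinf
      obtain ⟨s, hs⟩ := Infinite.exists_subset_card_eq K 5
      exact hbig ⟨s, by omega⟩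
    haveI : Fact (ringChar K).Prime := ⟨CharP.char_is_prime K _⟩
    haveI : CharP L (ringChar K) := ringChar.of_eq hL
    have ht : ∀ z ∈ (QuotientGroup.mk' (Subgroup.center (GL (Fin n) L))).ker, z ^ ringChar K = 1 → z = 1 :=
      fun z hz h => center_GL_torsion (hc hz) h
    obtain ⟨m, dec⟩ := exists_model_dec hD
    exact exists_lift_p' m dec hperf _ hs hc ht _

end Cfsg.Agent.H14.Chev
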