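import Mathlib
import Cfsg.Agent.H14_VcH

set_option autoImplicit false
set_option linter.unusedSectionVars false
set_option maxRecDepth 100000

/-!
Type D4 over the field of three elements.
-/

namespace Cfsg.Agent.H6.Chev.Tab

variable (t : Tab) (Z Gd Al Em : ℤ → Bool)

def cs (a b : ℕ) : ℤ := match t.cm b a with
  | [(_, c, _, _)] => -c
  | _ => 0

def ckTC (a b : ℕ) : Bool := t.ckT Z Gd a b && t.okC Em a b

def ckCy1 (a b c d e d' : ℕ) : Bool :=
  (Nat.blt d t.n && (Nat.blt e t.n && (Nat.blt d' t.n && (t.ckD Al c d a && (t.ckD Al d b e &&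
  (t.ckD Al e d' a && (t.ckD Al d' b c && (intEq (t.cs c d * t.cs d b) (t.cs e d' * t.cs d' b) &&
  ((intEq (t.cs c d) 1 || intEq (t.cs c d) (-1)) && ((intEq (t.cs d b) 1 || intEq (t.cs d b) (-1)) &&
  ((intEq (t.cs e d') 1 || intEq (t.cs e d') (-1)) && ((intEq (t.cs d' b) 1 || intEq (t.cs d' b) (-1)) &&
  (t.okC Em c e && (t.ckTC Z Gd Em c b && (t.ckTC Z Gd Em e b && (t.ckTC Z Gd Em a e && t.ckTC Z Gd Em a c))))))))))))))))

def ckCy (a b : ℕ) : Bool := t.okC Em a b && anyNat t.n fun c =>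
  t.ckCy1 Z Gd Al Em a b c (t.fb c a) (t.fb (t.ng (t.fb c a)) b) (t.fb (t.fb (t.ng (t.fb c a)) b) a)

def ckBcy : Bool := allNat t.n fun r => allNat t.n fun s => Nat.beq s r || (Nat.beq s (t.ng r) ||
  (t.ckT Z Gd r s || t.ckCy Z Gd Al Em r s))

end Cfsg.Agent.H6.Chev.Tab

namespace Cfsg.Agent.H14.Chev

open Cfsg Cfsg.Lie Cfsg.Lie.ChevalleyDatum Cfsg.Agent.H6 Cfsg.Agent.H6.Chev

theorem b3cyD4 : tabD4.ckBcy Z3 G3 A3 E3 = true := by decide +kernel
theorem n3D4 : tabD4.ckNall G3 = true := by decide +kernel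

section

variable {D : ChevalleyDatum} {m : Model D} {F : Type*} [Field F] {E : Type*} [Group E]
  {θ : E →* GL D.Idx F} (hc : θ.ker ≤ Subgroup.center E)

include hc

theorem kk_inv_left {P Q : E} (h : θ P * θ Q = θ Q * θ P) : kk P⁻¹ Q = (kk P Q)⁻¹ := by
  have h1 := kk_mul_left' (P := P⁻¹) (P' := P) (Q := Q) hc (by
    rw [map_inv, inv_mul_eq_iff_eq_mul, ← mul_assoc, h, mul_inv_cancel_right])
  rw [inv_mul_cancel] at h1
  have h2 : kk (1 : E) Q = 1 := by unfold kk; group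
  rw [h2] at h1
  exact eq_inv_of_mul_eq_one_left h1.symm

theorem kk_inv_right {P Q : E} (h : θ P * θ Q = θ Q * θ P) : kk P Q⁻¹ = (kk P Q)⁻¹ := by
  rw [← kk_inv Q P, ← kk_inv Q⁻¹ P, kk_inv_left hc h.symm]

theorem Cm_of_one (hF : ∀ t : F, t = 0 ∨ t = 1 ∨ t = -1) {a b : ℕ} {A B : E} (hA : θ A = m.X a 1) (hB : θ B = m.X b 1)
    (hab : ∀ t u : F, m.X a t * m.X b u = m.X b u * m.X a t) (h : kk A B = 1) : Cm θ (mX m F) a b := by
  have hAB : ∀ t u g g', θ g = m.X (F := F) a t → θ g' = m.X (F := F) b u → θ g * θ g' = θ g' * θ g := by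
    intro t u g g' h1 h2; rw [h1, h2, hab]
  have h1 : ∀ u g', θ g' = m.X (F := F) b u → kk A g' = 1 := by
    intro u g' hg'
    rcases hF u with rfl | rfl | rfl
    · rw [m.X_zero] at hg'
      have := Subgroup.mem_center_iff.1 (hc (MonoidHom.mem_ker.2 hg')) A
      exact kk_eq_one.2 this
    · rw [← h]
      exact ce_kk hc rfl (hg'.trans hB.symm)
    · have : kk A g' = kk A B⁻¹ := ce_kk hc rfl (by rw [hg', m.X_neg, map_inv, hB])
      rw [this, kk_inv_right hc (hAB _ _ _ _ hA hB), h, inv_one]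
  intro t u g g' hg hg'
  apply kk_eq_one.1
  change θ g = m.X a t at hg
  change θ g' = m.X b u at hg'
  rcases hF t with rfl | rfl | rfl
  · rw [m.X_zero] at hg
    have := Subgroup.mem_center_iff.1 (hc (MonoidHom.mem_ker.2 hg)) g'
    exact kk_eq_one.2 this.symm
  · rw [← h1 u g' hg']
    exact ce_kk hc (hg.trans hA.symm) rfl
  · have : kk g g' = kk A⁻¹ g' := ce_kk hc (by rw [hg, m.X_neg, map_inv, hA]) rfl
    rw [this, kk_inv_left hc (hAB _ _ _ _ hA hg'), h1 u g' hg', inv_one]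

theorem Cm_of_sq (hF : ∀ t : F, t = 0 ∨ t = 1 ∨ t = -1) (h3 : (1 : F) + 1 + 1 = 0) {a b : ℕ} {A B : E} (hA : θ A = m.X a 1)
    (hB : θ B = m.X b 1)
    (hab : ∀ t u : F, m.X a t * m.X b u = m.X b u * m.X a t) (h : kk A B * kk A B = 1) : Cm θ (mX m F) a b := by
  apply Cm_of_one hc hF hA hB hab
  have hcomm : θ A * θ B = θ B * θ A := by rw [hA, hB, hab]
  have h1 : kk (A * A * A) B = kk A B * kk A B * kk A B := by
    rw [kk_mul_left' hc, kk_mul_left' hc hcomm]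
    rw [map_mul, mul_assoc, hcomm, ← mul_assoc, hcomm, mul_assoc]
  have h2 : kk (A * A * A) B = 1 := by
    apply kk_eq_one.2
    have : θ (A * A * A) = 1 := by
      rw [map_mul, map_mul, hA, ← m.X_add, ← m.X_add, h3, m.X_zero]
    exact (Subgroup.mem_center_iff.1 (hc (MonoidHom.mem_ker.2 this)) B).symm
  rw [h1, h, one_mul] at h2
  exact h2

theorem half_cycle (hl : ∀ r t, ∃ g, θ g = m.X r t)
    {a b c e d : ℕ} {n1 n2 : ℤ} (hn1 : n1 = 1 ∨ n1 = -1) (hn2 : n2 = 1 ∨ n2 = -1)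
    (h1 : Dc (mX m F) c d a n1) (h2 : Dc (mX m F) d b e n2)
    (k1 : Cm θ (mX m F) c b) (k3 : Cm θ (mX m F) a e) (hab : ∀ t u : F, m.X a t * m.X b u = m.X b u * m.X a t)
    (hce : ∀ t u : F, m.X c t * m.X e u = m.X e u * m.X c t) {A B C T : E} (hA : θ A = m.X a 1) (hB : θ B = m.X b 1)
    (hC : θ C = m.X c 1) (hT : θ T = m.X e 1) :
    (kk A B) ^ n1 = (kk C T) ^ n2 := by
  obtain ⟨G, hG⟩ := hl d 1
  have e1 : θ (kk C G) = m.X a (n1 : F) := by
    rw [map_kk, hC, hG]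
    have := h1.2 1 1
    rw [mul_one, mul_one] at this
    exact this
  have e2 : θ (kk G B) = m.X e (n2 : F) := by
    rw [map_kk, hG, hB]
    have := h2.2 1 1
    rw [mul_one, mul_one] at this
    exact this
  have z2 : kk C (kk G B) ∈ Subgroup.center E := kk_central hc (by rw [hC, e2, hce])
  have e3 := kk_hall (x := C) (y := G) (z := B) (k1 1 1 C B hC hB) (k3 _ _ _ _ e1 e2)
    ((Subgroup.mem_center_iff.1 z2 _).symm)
  have hAB : θ A * θ B = θ B * θ A := by rw [hA, hB, hab]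
  have hCT : θ C * θ T = θ T * θ C := by rw [hC, hT, hce]
  have e4 : kk (kk C G) B = (kk A B) ^ n1 := by
    rcases hn1 with rfl | rfl
    · rw [zpow_one]
      exact ce_kk hc (by rw [e1, hA, Int.cast_one]) rfl
    · rw [zpow_neg_one, ← kk_inv_left hc hAB]
      exact ce_kk hc (by rw [e1, map_inv, hA, Int.cast_neg, Int.cast_one, m.X_neg]) rfl
  have e5 : kk C (kk G B) = (kk C T) ^ n2 := by
    rcases hn2 with rfl | rfl
    · rw [zpow_one]
      exact ce_kk hc rfl (by rw [e2, hT, Int.cast_one])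
    · rw [zpow_neg_one, ← kk_inv_right hc hCT]
      exact ce_kk hc rfl (by rw [e2, map_inv, hT, Int.cast_neg, Int.cast_one, m.X_neg])
  rw [← e4, ← e5, e3]

theorem Cm_of_cycle (hl : ∀ r t, ∃ g, θ g = m.X r t) (hF : ∀ t : F, t = 0 ∨ t = 1 ∨ t = -1) (h3 : (1 : F) + 1 + 1 = 0)
    {a b c e d d' : ℕ} {n1 n2 n3 n4 : ℤ} (hn1 : n1 = 1 ∨ n1 = -1) (hn2 : n2 = 1 ∨ n2 = -1) (hn3 : n3 = 1 ∨ n3 = -1)
    (hn4 : n4 = 1 ∨ n4 = -1) (hn : n1 * n2 = n3 * n4)
    (h1 : Dc (mX m F) c d a n1) (h2 : Dc (mX m F) d b e n2) (h3' : Dc (mX m F) e d' a n3) (h4 : Dc (mX m F) d' b c n4)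
    (k1 : Cm θ (mX m F) c b) (k2 : Cm θ (mX m F) e b) (k3 : Cm θ (mX m F) a e) (k4 : Cm θ (mX m F) a c)
    (hab : ∀ t u : F, m.X a t * m.X b u = m.X b u * m.X a t)
    (hce : ∀ t u : F, m.X c t * m.X e u = m.X e u * m.X c t) : Cm θ (mX m F) a b := by
  obtain ⟨A, hA⟩ := hl a 1
  obtain ⟨B, hB⟩ := hl b 1
  obtain ⟨C, hC⟩ := hl c 1
  obtain ⟨T, hT⟩ := hl e 1
  have e1 := half_cycle hc hl hn1 hn2 h1 h2 k1 k3 hab hce hA hB hC hT
  have e2 := half_cycle hc hl hn3 hn4 h3' h4 k2 k4 hab (fun t u => (hce u t).symm) hA hB hT hC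
  apply Cm_of_sq hc hF h3 hA hB hab
  rw [← kk_inv C T] at e2
  have sq : ∀ n : ℤ, (n = 1 ∨ n = -1) → n * n = 1 := by
    rintro n (rfl | rfl) <;> norm_num
  have p1 : kk A B = (kk C T) ^ (n1 * n2) := by
    calc kk A B = ((kk A B) ^ n1) ^ n1 := by rw [← zpow_mul, sq n1 hn1, zpow_one]
      _ = ((kk C T) ^ n2) ^ n1 := by rw [e1]
      _ = _ := by rw [← zpow_mul, mul_comm]
  have p2 : kk A B = ((kk C T) ^ (n3 * n4))⁻¹ := by
    calc kk A B = ((kk A B) ^ n3) ^ n3 := by rw [← zpow_mul, sq n3 hn3, zpow_one]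
      _ = (((kk C T)⁻¹) ^ n4) ^ n3 := by rw [e2]
      _ = _ := by rw [← zpow_mul, inv_zpow, mul_comm]
  rw [mul_eq_one_iff_eq_inv]
  calc kk A B = ((kk C T) ^ (n3 * n4))⁻¹ := p2
    _ = ((kk C T) ^ (n1 * n2))⁻¹ := by rw [hn]
    _ = (kk A B)⁻¹ := by rw [← p1]

end

section

variable {t : Tab} {D : ChevalleyDatum} (b : t.Base D) (m : Model D) {F : Type*} [Field F]
  {E : Type*} [Group E] {θ : E →* GL D.Idx F} (hl : ∀ g ∈ D.group F, ∃ p, θ p = g)
  {Z Gd Al Em : ℤ → Bool} (fp : FP F Z Gd Al Em) (ck : t.Checks D) (hc : θ.ker ≤ Subgroup.center E)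

include b ck fp in
theorem ckD_sound' {p q r : ℕ} (hp : p < t.n) (hq : q < t.n) (h : t.ckD Al p q r = true) :
    Dc (mX m F) p q r ((t.cs p q : ℤ) : F) := by
  unfold Tab.ckD at h
  rw [Bool.and_eq_true, Bool.and_eq_true] at h
  obtain ⟨h1, h2, h3⟩ := h
  have hpq : p ≠ q := by rintro rfl; simp at h1
  have hpn : p ≠ D.neg q := by
    rw [b.ng_eq hq]
    intro h'
    rw [← h'] at h2
    simp at h2
  split at h3
  · rename_i p' c i j heq
    rw [Bool.and_eq_true, Bool.and_eq_true, Bool.and_eq_true, beq_iff, beq_iff, beq_iff] at h3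
    obtain ⟨rfl, h4, rfl, rfl⟩ := h3
    have hcs : ((t.cs p q : ℤ) : F) = -(c : F) := by
      unfold Tab.cs
      rw [heq]
      simp
    rw [hcs]
    refine ⟨by rw [neg_mul_neg]; exact fp.a _ h4, fun u v => ?_⟩
    have h5 := m.X_comm_formula (F := F) (r := q) (s := p) (by rw [b.nroots]; exact hq) (by rw [b.nroots]; exact hp) hpq hpn v u
    have h6 : m.word (D.commWord F q p v u) = m.X p' (-(c : F) * u * v) := by
      unfold ChevalleyDatum.commWord
      rw [Tab.commTerms_eq b ck hq hp, heq]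
      simp
      congr 1
      ring
    rw [h6] at h5
    change kk (m.X p u) (m.X q v) = _
    unfold kk
    rw [mul_assoc, mul_assoc, h5]
    group
  · exact absurd h3 (by simp)

include hl b fp ck hc in
theorem ckTC_sound {p q : ℕ} (hp : p < t.n) (hq : q < t.n) (h : t.ckTC Z Gd Em p q = true) : Cm θ (mX m F) p q := by
  unfold Tab.ckTC at h
  rw [Bool.and_eq_true] at h
  exact Cm_of_Tc hc (fun r t => hl _ (m.X_mem_group r t)) (ckT_sound b m hl fp hp hq h.1)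
    (okC_sound b m fp ck hp hq h.2)

include hl b fp ck hc in
theorem ckCy_sound (hF : ∀ t : F, t = 0 ∨ t = 1 ∨ t = -1) (h3 : (1 : F) + 1 + 1 = 0) {p q : ℕ} (hp : p < t.n)
    (hq : q < t.n) (h : t.ckCy Z Gd Al Em p q = true) : Cm θ (mX m F) p q := by
  unfold Tab.ckCy at h
  rw [Bool.and_eq_true] at h
  obtain ⟨hab, h⟩ := h
  obtain ⟨c, hcn, h⟩ := anyNat_iff h
  unfold Tab.ckCy1 at h
  generalize t.fb c p = d at h
  generalize t.fb (t.ng d) q = e at h
  generalize t.fb e p = d' at h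
  simp only [Bool.and_eq_true, Bool.or_eq_true, blt_iff] at h
  obtain ⟨hd, he, hd', g1, g2, g3, g4, hs, s1, s2, s3, s4, hce, t1, t2, t3, t4⟩ := h
  exact Cm_of_cycle hc (fun r t => hl _ (m.X_mem_group r t)) hF h3 (s1.imp intEq_iff intEq_iff)
    (s2.imp intEq_iff intEq_iff) (s3.imp intEq_iff intEq_iff) (s4.imp intEq_iff intEq_iff) (intEq_iff hs)
    (ckD_sound' b m fp ck hcn hd g1) (ckD_sound' b m fp ck hd hq g2) (ckD_sound' b m fp ck he hd' g3)
    (ckD_sound' b m fp ck hd' hq g4) (ckTC_sound b m hl fp ck hc hcn hq t1) (ckTC_sound b m hl fp ck hc he hq t2)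
    (ckTC_sound b m hl fp ck hc hp he t3) (ckTC_sound b m hl fp ck hc hp hcn t4)
    (okC_sound b m fp ck hp hq hab) (okC_sound b m fp ck hcn he hce)

end

/-- the field of three elements -/
theorem three_elts {F : Type*} [Field F] [Fintype F] (h : Fintype.card F = 3) :
    (∀ t : F, t = 0 ∨ t = 1 ∨ t = -1) ∧ (1 : F) + 1 + 1 = 0 := by
  classical
  have h3 : (1 : F) + 1 + 1 = 0 := by
    have := Nat.cast_card_eq_zero F
    rw [h] at this
    norm_num at this ⊢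
    exact this
  have h1 : (1 : F) ≠ -1 := by
    intro h'
    have : (1 : F) + 1 = 0 := by
      nth_rewrite 1 [h']
      exact neg_add_cancel 1
    rw [this, zero_add] at h3
    exact one_ne_zero h3
  refine ⟨fun t => ?_, h3⟩
  by_contra hcon
  push Not at hcon
  obtain ⟨n0, n1, n2⟩ := hcon
  have : ({0, 1, -1, t} : Finset F).card = 4 := by
    rw [Finset.card_insert_of_notMem, Finset.card_insert_of_notMem, Finset.card_insert_of_notMem, Finset.card_singleton]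
    · simp [n2.symm]
    · simp [h1, n1.symm]
    · simp [n0.symm]
  have h4 := Finset.card_le_univ ({0, 1, -1, t} : Finset F)
  omega

theorem Cm_self_three {D : ChevalleyDatum} {m : Model D} {F : Type*} [Field F] {E : Type*} [Group E]
    {θ : E →* GL D.Idx F} (hc : θ.ker ≤ Subgroup.center E) (hl : ∀ r t, ∃ g, θ g = m.X r t)
    (hF : ∀ t : F, t = 0 ∨ t = 1 ∨ t = -1) (r : ℕ) : Cm θ (mX m F) r r := by
  obtain ⟨A, hA⟩ := hl r 1
  exact Cm_of_one hc hF hA hA (fun t u => by rw [← m.X_add, ← m.X_add, add_comm]) (by unfold kk; group)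

theorem cert_D4_3.{u, v} {F : Type u} [Field F] [Fintype F] (hF : Fintype.card F = 3) : Cert.{u, v} modelD4 F := by
  obtain ⟨h1, h2⟩ := three_elts hF
  intro P _ θ hc hl
  have fp := fp_three hF
  refine ⟨fun r hr => Cm_self_three hc (fun r t => hl _ (modelD4.X_mem_group r t)) h1 r, ?_, fun r hr =>
    ckN_sound baseD4 modelD4 hl fp n3D4 (by rw [← baseD4.nroots]; exact hr)⟩
  intro r hr s hs g1 g2
  rw [baseD4.nroots] at hr hs
  have h3 := allNat_iff (allNat_iff b3cyD4 r hr) s hs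
  rw [Bool.or_eq_true, Bool.or_eq_true, Bool.or_eq_true, beq_iff, beq_iff] at h3
  rcases h3 with h3 | h3 | h3 | h3
  · exact absurd h3 g1
  · rw [baseD4.ng_eq hr] at g2
    exact absurd h3 g2
  · exact Or.inl (ckT_sound baseD4 modelD4 hl fp hr hs h3)
  · exact Or.inr (ckCy_sound baseD4 modelD4 hl fp checksD4 hc h1 h2 hr hs h3)

end Cfsg.Agent.H14.Chev
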