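import Mathlib
import Cfsg.Agent.H14_YcA

set_option autoImplicit false
set_option linter.unusedSectionVars false
set_option maxRecDepth 100000

/-!
Type B2 over the field of three elements.
-/

namespace Cfsg.Agent.H14.Chev

open Cfsg Cfsg.Lie Cfsg.Lie.ChevalleyDatum Cfsg.Agent.H6 Cfsg.Agent.H6.Chev

section

variable {D : ChevalleyDatum} {m : Model D} {F : Type*} [Field F] {E : Type*} [Group E]
  {θ : E →* GL D.Idx F} (hc : θ.ker ≤ Subgroup.center E)

include hc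

theorem exists_Y1 (hl : ∀ r t, ∃ g, θ g = m.X r t) {r : ℕ}
    (hN : ∃ g : E, ∃ χ : ℕ → Fˣ, θ g = m.dmHom χ ∧ m.chi χ r ≠ 1) (hA : Cm θ (mX m F) r r) :
    ∃ Y : F → E, (∀ t, θ (Y t) = m.X r t) ∧ (∀ t u, Y (t + u) = Y t * Y u) ∧
      (∀ (k : E) (χ : ℕ → Fˣ), θ k = m.dmHom χ → ∀ t, k * Y t = Y (((m.chi χ r : Fˣ) : F) * t) * k) := by
  classical
  choose X hX using fun t => hl r t
  obtain ⟨g, χ, hg1, hg2⟩ := hN
  set c : F := 1 - (((m.chi χ r)⁻¹ : Fˣ) : F) with hcdef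
  have hc0 : c ≠ 0 := by
    intro h
    have h1 : (((m.chi χ r)⁻¹ : Fˣ) : F) = 1 := (sub_eq_zero.1 h).symm
    have h2 : (m.chi χ r)⁻¹ = 1 := Units.ext h1
    exact hg2 (inv_eq_one.1 h2)
  have hgX : ∀ t, kk (m.dmHom χ) (m.X r t) = m.X r (c * t) := by
    intro t
    have h1 := m.dm_X χ r ((((m.chi χ r)⁻¹ : Fˣ) : F) * (-t))
    rw [← mul_assoc, ← Units.val_mul, mul_inv_cancel, Units.val_one, one_mul] at h1
    have h2 : (m.dmHom χ)⁻¹ * m.X r (-t) * m.dmHom χ = m.X r ((((m.chi χ r)⁻¹ : Fˣ) : F) * (-t)) := by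
      rw [mul_assoc, ← h1]; group
    unfold kk
    rw [← m.X_neg, h2, ← m.X_add]
    congr 1
    rw [hcdef]
    ring
  have hY : ∀ t, θ (kk g (X (c⁻¹ * t))) = m.X r t := by
    intro t
    rw [map_kk, hg1, hX, hgX, ← mul_assoc, mul_inv_cancel₀ hc0, one_mul]
  refine ⟨fun t => kk g (X (c⁻¹ * t)), hY, ?_, ?_⟩
  · intro t u
    have e1 : kk g (X (c⁻¹ * (t + u))) = kk g (X (c⁻¹ * u) * X (c⁻¹ * t)) := by
      refine ce_kk hc rfl ?_
      rw [hX, map_mul, hX, hX, ← m.X_add]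
      congr 1
      ring
    change kk g (X (c⁻¹ * (t + u))) = _
    rw [e1, kk_mul_right]
    exact hA _ _ _ _ (hX _) (hY _)
  · intro k κ hk t
    have h1 : k⁻¹ * kk g (X (c⁻¹ * (((m.chi κ r : Fˣ) : F) * t))) * k = kk g (X (c⁻¹ * t)) := by
      have e : k⁻¹ * kk g (X (c⁻¹ * (((m.chi κ r : Fˣ) : F) * t))) * k =
          kk (k⁻¹ * g * k) (k⁻¹ * X (c⁻¹ * (((m.chi κ r : Fˣ) : F) * t)) * k) := by
        unfold kk; group
      rw [e]
      refine ce_kk hc ?_ ?_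
      · rw [map_mul, map_mul, map_inv, hk, hg1, ← map_inv, ← map_mul, ← map_mul]
        congr 1
        rw [mul_comm κ⁻¹, mul_assoc, inv_mul_cancel, mul_one]
      · rw [map_mul, map_mul, map_inv, hk, hX, hX, mul_assoc]
        have h2 := m.dm_X κ r (c⁻¹ * t)
        have e3 : c⁻¹ * (((m.chi κ r : Fˣ) : F) * t) = ((m.chi κ r : Fˣ) : F) * (c⁻¹ * t) := by ring
        rw [e3, ← h2]
        group
    change k * kk g (X (c⁻¹ * t)) = kk g (X (c⁻¹ * (((m.chi κ r : Fˣ) : F) * t))) * k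
    rw [← h1]
    group

/-- long roots from short roots -/
theorem long_Y {p q r : ℕ} (hr : r < D.nroots) {ν : F} (hd : Dc (mX m F) p q r ν) (hF : ∀ t : F, t = 0 ∨ t = 1 ∨ t = -1)
    {Yp Yq : F → E} (hp1 : ∀ t, θ (Yp t) = m.X p t) (hq1 : ∀ t, θ (Yq t) = m.X q t)
    (hp2 : ∀ t u, Yp (t + u) = Yp t * Yp u) (hq2 : ∀ t u, Yq (t + u) = Yq t * Yq u)
    (hp3 : ∀ (k : E) (χ : ℕ → Fˣ), θ k = m.dmHom χ → ∀ t, k * Yp t = Yp (((m.chi χ p : Fˣ) : F) * t) * k)
    (hq3 : ∀ (k : E) (χ : ℕ → Fˣ), θ k = m.dmHom χ → ∀ t, k * Yq t = Yq (((m.chi χ q : Fˣ) : F) * t) * k)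
    (cp : Cm θ (mX m F) p r) (cq : Cm θ (mX m F) q r) :
    ∃ Z : F → E, (∀ t, θ (Z t) = m.X r t) ∧ (∀ t u, Z (t + u) = Z t * Z u) ∧
      (∀ (k : E) (χ : ℕ → Fˣ), θ k = m.dmHom χ → ∀ t, k * Z t = Z (((m.chi χ r : Fˣ) : F) * t) * k) ∧
      (∀ t u, kk (Yp t) (Yq u) = Z (ν * t * u)) := by
  have hZ1 : ∀ t, θ (kk (Yp (ν * t)) (Yq 1)) = m.X r t := by
    intro t
    rw [map_kk, hp1, hq1]
    have h := hd.2 (ν * t) 1
    have e : ν * (ν * t) * 1 = t := by
      linear_combination t * hd.1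
    rw [e] at h
    exact h
  have hZ2 : ∀ t u, kk (Yp (ν * (t + u))) (Yq 1) = kk (Yp (ν * t)) (Yq 1) * kk (Yp (ν * u)) (Yq 1) := by
    intro t u
    rw [mul_add, hp2, kk_mul_left]
    exact cp _ _ _ _ (hp1 _) (hZ1 _)
  have hZ0 : kk (Yp (ν * 0)) (Yq 1) = 1 := by
    have := hZ2 0 0
    rw [add_zero] at this
    exact left_eq_mul.1 this
  have hZn : ∀ t, kk (Yp (ν * (-t))) (Yq 1) = (kk (Yp (ν * t)) (Yq 1))⁻¹ := by
    intro t
    rw [eq_inv_iff_mul_eq_one, ← hZ2, neg_add_cancel, hZ0]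
  have hq0 : Yq 0 = 1 := by
    have := hq2 0 0
    rw [add_zero] at this
    exact left_eq_mul.1 this
  have hZ4 : ∀ t u, kk (Yp t) (Yq u) = kk (Yp (ν * (ν * t * u))) (Yq 1) := by
    intro t u
    have e1 : ν * (ν * t * u) = t * u := by linear_combination (t * u) * hd.1
    have e2 : t = ν * (ν * t) := by linear_combination (-t) * hd.1
    rcases hF u with rfl | rfl | rfl
    · rw [hq0, mul_zero, hZ0]
      unfold kk
      group
    · rw [e1, mul_one]
    · have e3 : ν * t * -1 = -(ν * t) := by ring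
      rw [e3, hZn, ← e2]
      have h1 : kk (Yp t) (Yq 1 * Yq (-1)) = kk (Yp t) (Yq (-1)) * kk (Yp t) (Yq 1) := by
        apply kk_mul_right
        have := hZ1 (ν * t)
        rw [← e2] at this
        exact cq _ _ _ _ (hq1 _) this
      rw [← hq2, add_neg_cancel, hq0] at h1
      have h2 : kk (Yp t) (1 : E) = 1 := by unfold kk; group
      rw [h2] at h1
      exact eq_inv_of_mul_eq_one_left h1.symm
  refine ⟨fun t => kk (Yp (ν * t)) (Yq 1), hZ1, hZ2, ?_, hZ4⟩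
  intro k χ hk t
  change k * kk (Yp (ν * t)) (Yq 1) = kk (Yp (ν * (((m.chi χ r : Fˣ) : F) * t))) (Yq 1) * k
  have e1 : k * kk (Yp (ν * t)) (Yq 1) * k⁻¹ = kk (k * Yp (ν * t) * k⁻¹) (k * Yq 1 * k⁻¹) := by
    unfold kk; group
  rw [hp3 k χ hk, hq3 k χ hk, mul_inv_cancel_right, mul_inv_cancel_right,
    hZ4 (((m.chi χ p : Fˣ) : F) * (ν * t))] at e1
  have e2 := congrArg θ e1
  rw [hZ1, map_mul, map_mul, map_inv, hZ1, hk, m.dm_X, mul_inv_cancel_right] at e2
  have e3 := m.X_inj hr e2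
  rw [← e3] at e1
  rw [← e1]
  group

/-- orthogonal long roots -/
theorem Cm_long (hl : ∀ r t, ∃ g, θ g = m.X r t) {l s q r : ℕ} {ν : F} (hd : Dc (mX m F) s q r ν)
    (hconj : ∀ v t : F, ∃ a b : F, (m.X l v)⁻¹ * m.X s t * m.X l v = m.X s t * (m.X q a * m.X r b))
    (c1 : Cm θ (mX m F) l q) (c2 : Cm θ (mX m F) q q) (c3 : Cm θ (mX m F) r q) (c4 : Cm θ (mX m F) r r) :
    Cm θ (mX m F) l r := by
  intro v w g g' hg hg'
  change θ g = m.X l v at hg
  change θ g' = m.X r w at hg'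
  obtain ⟨S, hS⟩ := hl s (ν * w)
  obtain ⟨Q, hQ⟩ := hl q 1
  obtain ⟨a, c, hac⟩ := hconj v (ν * w)
  obtain ⟨A, hA⟩ := hl q a
  obtain ⟨B, hB⟩ := hl r c
  have hK : θ (kk S Q) = m.X r w := by
    rw [map_kk, hS, hQ]
    have h := hd.2 (ν * w) 1
    have e : ν * (ν * w) * 1 = w := by linear_combination w * hd.1
    rw [e] at h
    exact h
  have e1 : g * Q = Q * g := c1 _ _ _ _ hg hQ
  have e2 : g⁻¹ * Q * g = Q := by rw [mul_assoc, ← e1, inv_mul_cancel_left]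
  have e3 : θ (g⁻¹ * S * g) = θ (S * (A * B)) := by
    rw [map_mul, map_mul, map_inv, hg, hS, hac, map_mul, map_mul, hS, hA, hB]
  have e4 : kk (g⁻¹ * S * g) Q = kk (S * (A * B)) Q := ce_kk hc e3 rfl
  have hAQ : A * Q = Q * A := c2 _ _ _ _ hA hQ
  have hBQ : B * Q = Q * B := c3 _ _ _ _ hB hQ
  have hAK : A * kk S Q = kk S Q * A := (c3 _ _ _ _ hK hA).symm
  have hBK : B * kk S Q = kk S Q * B := c4 _ _ _ _ hB hK
  have e5 : kk (S * (A * B)) Q = kk S Q := by
    rw [kk_mul_left]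
    · have : kk (A * B) Q = 1 := by
        apply kk_eq_one.2
        rw [mul_assoc, hBQ, ← mul_assoc, hAQ, mul_assoc]
      rw [this, mul_one]
    · rw [mul_assoc, hBK, ← mul_assoc, hAK, mul_assoc]
  have e6 : g⁻¹ * kk S Q * g = kk S Q := by
    calc g⁻¹ * kk S Q * g = kk (g⁻¹ * S * g) (g⁻¹ * Q * g) := by unfold kk; group
      _ = kk S Q := by rw [e2, e4, e5]
  obtain ⟨z, hz, hz2⟩ := ce_diff hc (hg'.trans hK.symm)
  rw [Subgroup.mem_center_iff] at hz
  have e7 : g * kk S Q = kk S Q * g := by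
    nth_rewrite 1 [← e6]
    group
  rw [hz2, ← mul_assoc, e7, mul_assoc, hz g, ← mul_assoc]

end

theorem Rel_of_kk {D : ChevalleyDatum} {F : Type*} [Field F] {E : Type*} [Group E] {Y : ℕ → F → E} {q p r : ℕ} {C : ℤ}
    (h : D.commTerms q p = [(r, C, 1, 1)]) (hk : ∀ t u, kk (Y p u) (Y q t) = Y r ((C : F) * (-t) * u)) : Rel D Y q p := by
  intro t u
  unfold ChevalleyDatum.commWord
  rw [h]
  simp only [List.map_cons, List.map_nil, List.prod_cons, List.prod_nil, mul_one, pow_one]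
  rw [← hk]
  unfold kk
  group

theorem Rel_pair {D : ChevalleyDatum} {F : Type*} [Field F] {E : Type*} [Group E] {Y : ℕ → F → E} {q p r : ℕ} {C C' : ℤ}
    {ν : F} (h : D.commTerms q p = [(r, C, 1, 1)]) (h' : D.commTerms p q = [(r, C', 1, 1)]) (hC : (C : F) = -ν)
    (hC' : (C' : F) = ν) (hadd : ∀ t u, Y r (t + u) = Y r t * Y r u)
    (hk : ∀ t u, kk (Y p t) (Y q u) = Y r (ν * t * u)) : Rel D Y q p ∧ Rel D Y p q := by
  refine ⟨Rel_of_kk h fun t u => ?_, Rel_of_kk h' fun t u => ?_⟩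
  · rw [hk, hC]
    congr 1
    ring
  · rw [← kk_inv, hk, hC']
    have h0 : Y r 0 = 1 := by
      have := hadd 0 0
      rw [add_zero] at this
      exact left_eq_mul.1 this
    rw [inv_eq_iff_mul_eq_one, ← hadd, ← h0]
    congr 1
    ring

theorem rel_all' {D : ChevalleyDatum} {m : Model D} {F : Type*} [Field F] {E : Type*} [Group E]
    {θ : E →* GL D.Idx F} (hc : θ.ker ≤ Subgroup.center E) {Y : ℕ → F → E} (hYθ : ∀ r t, θ (Y r t) = m.X r t)
    (hYadd : ∀ r < D.nroots, ∀ t u, Y r (t + u) = Y r t * Y r u)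
    (hYT : ∀ r < D.nroots, ∀ (k : E) (χ : ℕ → Fˣ), θ k = m.dmHom χ → ∀ t,
      k * Y r t = Y r (((m.chi χ r : Fˣ) : F) * t) * k)
    (hgood : ∀ k b : Fin D.nroots, m.N ≤ k → k < b → Model.pair D k b ≠ -2)
    (hcert : ∀ r < D.nroots, ∀ s < D.nroots, s ≠ r → s ≠ D.neg r → Model.pair D r s ≠ -2 →
      Tc m θ r s ∨ Cm θ (mX m F) r s ∨ (Rel D Y r s ∧ Rel D Y s r))
    {r s : ℕ} (hr : r < D.nroots) (hs : s < D.nroots) (h1 : s ≠ r) (h2 : s ≠ D.neg r) : Rel D Y r s := by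
  obtain ⟨w, hw, a, b, ha, hb, ha', hb', hab⟩ := exists_pos_pair m ⟨r, hr⟩ ⟨s, hs⟩ (fun h => h1 (congrArg Fin.val h))
    (fun h => h2 (congrArg Fin.val h))
  have key : ∀ (d k : ℕ), m.N ≤ k → D.nroots ≤ k + d → ∀ a b : Fin D.nroots, k ≤ a → k ≤ b → a ≠ b →
      Rel D Y (w a) (w b) := by
    intro d
    induction d with
    | zero =>
      intro k _ hk a b ha _ _
      have := a.2
      omega
    | succ d ih =>
      intro k hkN hk a b ha hb hab
      have H : ∀ a b : Fin D.nroots, k < a → k < b → a ≠ b → Rel D Y (w a) (w b) := fun a b ha hb hab =>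
        ih (k + 1) (by omega) (by omega) a b (by omega) (by omega) hab
      have hne : ∀ (p q : Fin D.nroots), m.N ≤ p → m.N ≤ q → p ≠ q → ((w q : Fin D.nroots) : ℕ) ≠ (w p : Fin D.nroots) ∧
          ((w q : Fin D.nroots) : ℕ) ≠ D.neg (w p : Fin D.nroots) := by
        intro p q hp hq hpq
        refine ⟨fun h => hpq (w.injective (Fin.ext h)).symm, fun h => ?_⟩
        rw [← m.coe_ng, ← (m.isW hw).neg] at h
        have h3 := w.injective (Fin.ext h)
        have h4 := (m.ng_lt_iff p).2 hp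
        rw [← h3] at h4
        omega
      have step : ∀ a b : Fin D.nroots, (a : ℕ) = k → (a : ℕ) < b → Rel D Y (w a) (w b) ∧ Rel D Y (w b) (w a) := by
        intro a b hak hkb
        have hab : a ≠ b := by rintro rfl; omega
        obtain ⟨n1, n2⟩ := hne a b (by omega) (by omega) hab
        have n3 : Model.pair D (w a : Fin D.nroots) (w b : Fin D.nroots) ≠ -2 := by
          rw [(m.isW hw).pair]
          exact hgood a b (by omega) (by omega)
        rcases hcert _ (w a).2 _ (w b).2 n1 n2 n3 with h | h | h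
        · exact rel_step hYθ hYadd hc hYT hw (k := a) (by omega)
            (fun a' b' ha' hb' h' => H a' b' (by omega) (by omega) h') hkb (Or.inl h)
        · exact rel_step hYθ hYadd hc hYT hw (k := a) (by omega)
            (fun a' b' ha' hb' h' => H a' b' (by omega) (by omega) h') hkb (Or.inr h)
        · exact h
      by_cases hak : (a : ℕ) = k
      · have hkb : (a : ℕ) < b := by
          have : (a : ℕ) ≠ b := fun h => hab (Fin.ext h)
          omega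
        exact (step a b hak hkb).1
      · by_cases hbk : (b : ℕ) = k
        · exact (step b a hbk (by omega)).2
        · exact H a b (by omega) (by omega) hab
  have := key D.nroots m.N le_rfl (by omega) a b ha hb hab
  rw [← ha', ← hb'] at this
  exact this

/-- the lifting theorem, from lifts of the root elements -/
theorem exists_lift_Y.{u, v, w} {D : ChevalleyDatum} (m : Model D) (dec : m.Dec) {F : Type u} [Field F]
    (hp : commutator (D.SteinbergCover F) = ⊤)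
    (H : ∀ (P : Type (max u w)) [Group P] (θ : P →* GL D.Idx F), θ.ker ≤ Subgroup.center P →
      (∀ g ∈ D.group F, ∃ p, θ p = g) → ∃ Y : ℕ → F → P, (∀ r t, θ (Y r t) = m.X r t) ∧
      (∀ r, ¬ r < D.nroots → ∀ t, Y r t = 1) ∧ (∀ r < D.nroots, ∀ t u, Y r (t + u) = Y r t * Y r u) ∧
      ∀ r s : ℕ, r < D.nroots → s < D.nroots → s ≠ r → s ≠ D.neg r → Rel D Y r s) {G₁ : Type v} {E : Type w}
    [Group G₁] [Group E] (π₁ : E →* G₁)
    (hπ : Function.Surjective π₁) (hc : π₁.ker ≤ Subgroup.center E) (σ : D.SteinbergCover F →* G₁) :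
    ∃ τ : D.SteinbergCover F →* E, π₁.comp τ = σ := by
  obtain ⟨θ, hθ⟩ := exists_th (F := F) m
  have hθr := th_range m hθ
  have hθk := th_central m dec hθ
  let P : Subgroup (E × D.SteinbergCover F) :=
    (π₁.comp (MonoidHom.fst E (D.SteinbergCover F))).eqLocus (σ.comp (MonoidHom.snd E (D.SteinbergCover F)))
  have hP : ∀ p : E × D.SteinbergCover F, p ∈ P ↔ π₁ p.1 = σ p.2 := fun p => Iff.rfl
  let pr : P →* D.SteinbergCover F := (MonoidHom.snd E (D.SteinbergCover F)).comp P.subtype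
  let pe : P →* E := (MonoidHom.fst E (D.SteinbergCover F)).comp P.subtype
  have hprs : Function.Surjective pr := by
    intro δ
    obtain ⟨e, he⟩ := hπ (σ δ)
    exact ⟨⟨(e, δ), he⟩, rfl⟩
  have hprc : pr.ker ≤ Subgroup.center P := by
    rintro ⟨⟨e, δ⟩, he⟩ h
    have hδ : δ = 1 := h
    subst hδ
    have he' : π₁ e = 1 := by
      have := (hP _).1 he
      simpa using this
    have h1 := hc he'
    rw [Subgroup.mem_center_iff] at h1 ⊢
    rintro ⟨⟨e', δ'⟩, he2⟩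
    apply Subtype.ext
    apply Prod.ext
    · exact h1 e'
    · change δ' * 1 = 1 * δ'
      rw [mul_one, one_mul]
  let θ' : P →* GL D.Idx F := θ.comp pr
  have hθ'c : θ'.ker ≤ Subgroup.center P := by
    intro p hp'
    apply mem_center_of_perfect pr hprs hprc hp
    rw [← hθk]
    exact hp'
  have hθ'l : ∀ g ∈ D.group F, ∃ p, θ' p = g := by
    intro g hg
    rw [← hθr] at hg
    obtain ⟨δ, rfl⟩ := hg
    obtain ⟨p, rfl⟩ := hprs δ
    exact ⟨p, rfl⟩
  obtain ⟨Y, hY1, hY2, hY3, hY4⟩ := H P θ' hθ'c hθ'l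
  obtain ⟨τ', hτ'⟩ := exists_sc_hom (D := D) (F := F) Y hY2 hY3
    (fun {r s} hr hs hsr hsn u v => hY4 r s hr hs hsr hsn u v)
  have h1 : pr.comp τ' = MonoidHom.id _ := by
    apply lift_unique hp (π₁ := θ) (by rw [hθk])
    apply sc_hom_ext
    intro r t _
    change θ' (τ' (D.scGen F r t)) = θ (D.scGen F r t)
    rw [hτ', hY1, hθ]
  refine ⟨pe.comp τ', ?_⟩
  refine MonoidHom.ext fun δ => ?_
  have h2 : π₁ (pe (τ' δ)) = σ (pr (τ' δ)) := (hP _).1 (τ' δ).2
  have h3 : pr (τ' δ) = δ := congrArg (fun f => f δ) h1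
  change π₁ (pe (τ' δ)) = σ δ
  rw [h2, h3]

end Cfsg.Agent.H14.Chev
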