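import Mathlib
import Cfsg.Agent.H14_YcB

set_option autoImplicit false
set_option linter.unusedSectionVars false
set_option maxRecDepth 100000

/-!
Type B2 over the field of three elements, assembly; trivial Schur multipliers.
-/

namespace Cfsg.Agent.H14.Chev

open Cfsg Cfsg.Lie Cfsg.Lie.ChevalleyDatum Cfsg.Agent.H6 Cfsg.Agent.H6.Chev

def LLst : List (ℕ × ℕ) := [(0, 3), (3, 0), (0, 4), (4, 0), (3, 7), (7, 3), (4, 7), (7, 4)]
def SSst : List (ℕ × ℕ) := [(1, 2), (2, 1), (1, 5), (5, 1), (2, 6), (6, 2), (5, 6), (6, 5)]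

theorem ckB2a : (allNat 8 fun r => allNat 8 fun s => Nat.beq s r || (Nat.beq s (tabB2.ng r) ||
    (intEq (tabB2.pr r s) (-2) || (tabB2.ckT Z3 G3 r s || (tabB2.ckTC Z3 G3 E3 s r ||
    (LLst.elem (r, s) || SSst.elem (r, s))))))) = true := by decide +kernel

theorem ckB2b : (allNat 8 fun k => allNat 8 fun b => Nat.blt k 4 || (Nat.ble b k || !(intEq (tabB2.pr k b) (-2)))) = true := by
  decide +kernel

theorem pair_tab {t : Tab} {D : ChevalleyDatum} (b : t.Base D) {r s : ℕ} (hr : r < t.n) (hs : s < t.n) :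
    Model.pair D r s = t.pr r s := by
  unfold Model.pair
  rw [pr_eq, b.rank]
  apply Finset.sum_congr rfl
  intro i hi
  rw [b.cor_eq hr (Finset.mem_range.1 hi), b.cartan_eq (Finset.mem_range.1 hi) hs]

theorem intEq_of_eq {a c : ℤ} (h : a = c) : intEq a c = true := by
  subst h
  cases a with
  | ofNat n => simp [intEq]
  | negSucc n => simp [intEq]

theorem hconj_of {D : ChevalleyDatum} (m : Model D) {F : Type*} [Field F] {l s q r : ℕ} {C C' : ℤ}
    (hl : l < D.nroots) (hs : s < D.nroots) (h1 : s ≠ l) (h2 : s ≠ D.neg l)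
    (h : D.commTerms l s = [(q, C, 1, 1), (r, C', 1, 2)]) (v t : F) :
    ∃ a b : F, (m.X l v)⁻¹ * m.X s t * m.X l v = m.X s t * (m.X q a * m.X r b) := by
  have h3 := m.X_comm_formula (F := F) hl hs h1 h2 v t
  unfold ChevalleyDatum.commWord at h3
  rw [h] at h3
  simp only [List.map_cons, List.map_nil, Model.word_cons, Model.word_nil, mul_one] at h3
  refine ⟨(C : F) * (-v) ^ 1 * t ^ 1, (C' : F) * (-v) ^ 1 * t ^ 2, ?_⟩
  rw [mul_assoc, h3, mul_assoc, inv_mul_cancel_left]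

theorem b2cm {r s : ℕ} (hr : r < 8) (hs : s < 8) : chevB2.commTerms r s = tabB2.cm r s :=
  Tab.commTerms_eq baseB2 checksB2 hr hs

section

variable {F : Type*} [Field F] [Fintype F] (hF : Fintype.card F = 3) {P : Type*} [Group P]
  (θ : P →* GL chevB2.Idx F) (hc : θ.ker ≤ Subgroup.center P) (hl : ∀ g ∈ chevB2.group F, ∃ p, θ p = g)

include hF hc hl

theorem b2TC {p q : ℕ} (hp : p < 8) (hq : q < 8) (h : tabB2.ckTC Z3 G3 E3 p q = true) : Cm θ (mX modelB2 F) p q :=
  ckTC_sound baseB2 modelB2 hl (fp_three hF) checksB2 hc hp hq h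

theorem b2Y1 {r : ℕ} (hr : r < 8) (h : tabB2.ckT Z3 G3 0 r = true) :
    ∃ Y : F → P, (∀ t, θ (Y t) = modelB2.X r t) ∧ (∀ t u, Y (t + u) = Y t * Y u) ∧
      (∀ (k : P) (χ : ℕ → Fˣ), θ k = modelB2.dmHom χ → ∀ t, k * Y t = Y (((modelB2.chi χ r : Fˣ) : F) * t) * k) := by
  have hl' : ∀ r t, ∃ g, θ g = modelB2.X (F := F) r t := fun r t => hl _ (modelB2.X_mem_group r t)
  obtain ⟨g, χ, h1, -, h3⟩ := ckT_sound baseB2 modelB2 hl (fp_three hF) (r := 0) (s := r)
    (by decide) hr h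
  exact exists_Y1 hc hl' ⟨g, χ, h1, h3⟩ (Cm_self_three hc hl' (three_elts hF).1 r)

theorem b2L {l s q r : ℕ} {C C' : ℤ} (hln : l < 8) (hs : s < 8) (hq : q < 8) (hr : r < 8) (h1 : s ≠ l)
    (h2 : s ≠ tabB2.ng l) (h : tabB2.cm l s = [(q, C, 1, 1), (r, C', 1, 2)]) (h3 : tabB2.ckD A3 s q r = true)
    (h4 : tabB2.ckTC Z3 G3 E3 l q = true) (h5 : tabB2.ckTC Z3 G3 E3 r q = true) : Cm θ (mX modelB2 F) l r := by
  have hl' : ∀ r t, ∃ g, θ g = modelB2.X (F := F) r t := fun r t => hl _ (modelB2.X_mem_group r t)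
  have self := Cm_self_three (m := modelB2) hc hl' (three_elts hF).1
  exact Cm_long hc hl' (ckD_sound' baseB2 modelB2 (fp_three hF) checksB2 hs hq h3)
    (hconj_of modelB2 (by rw [baseB2.nroots]; exact hln) (by rw [baseB2.nroots]; exact hs) h1
      (by rw [baseB2.ng_eq hln]; exact h2) ((b2cm hln hs).trans h))
    (b2TC hF θ hc hl hln hq h4) (self q) (b2TC hF θ hc hl hr hq h5) (self r)

theorem b2LL : ∀ x ∈ LLst, Cm θ (mX modelB2 F) x.1 x.2 := by
  have c30 : Cm θ (mX modelB2 F) 3 0 := b2L hF θ hc hl (l := 3) (s := 2) (q := 1) (r := 0) (C := -1) (C' := -1)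
    (by decide) (by decide) (by decide) (by decide) (by decide) (by decide +kernel) (by decide +kernel) (by decide +kernel)
    (by decide +kernel) (by decide +kernel)
  have c40 : Cm θ (mX modelB2 F) 4 0 := b2L hF θ hc hl (l := 4) (s := 1) (q := 2) (r := 0) (C := -1) (C' := 1)
    (by decide) (by decide) (by decide) (by decide) (by decide) (by decide +kernel) (by decide +kernel) (by decide +kernel)
    (by decide +kernel) (by decide +kernel)
  have c37 : Cm θ (mX modelB2 F) 3 7 := b2L hF θ hc hl (l := 3) (s := 6) (q := 5) (r := 7) (C := 1) (C' := 1)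
    (by decide) (by decide) (by decide) (by decide) (by decide) (by decide +kernel) (by decide +kernel) (by decide +kernel)
    (by decide +kernel) (by decide +kernel)
  have c47 : Cm θ (mX modelB2 F) 4 7 := b2L hF θ hc hl (l := 4) (s := 5) (q := 6) (r := 7) (C := 1) (C' := -1)
    (by decide) (by decide) (by decide) (by decide) (by decide) (by decide +kernel) (by decide +kernel) (by decide +kernel)
    (by decide +kernel) (by decide +kernel)
  intro x hx
  simp only [LLst, List.mem_cons, List.not_mem_nil, or_false] at hx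
  rcases hx with rfl | rfl | rfl | rfl | rfl | rfl | rfl | rfl
  · exact c30.symm
  · exact c30
  · exact c40.symm
  · exact c40
  · exact c37
  · exact c37.symm
  · exact c47
  · exact c47.symm

theorem b2_Y : ∃ Y : ℕ → F → P, (∀ r t, θ (Y r t) = modelB2.X r t) ∧
      (∀ r, ¬ r < chevB2.nroots → ∀ t, Y r t = 1) ∧ (∀ r < chevB2.nroots, ∀ t u, Y r (t + u) = Y r t * Y r u) ∧
      ∀ r s : ℕ, r < chevB2.nroots → s < chevB2.nroots → s ≠ r → s ≠ chevB2.neg r → Rel chevB2 Y r s := by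
  have hn : chevB2.nroots = 8 := baseB2.nroots
  obtain ⟨hF3, h3⟩ := three_elts hF
  have fp := fp_three hF
  obtain ⟨Y1, a1, b1, c1⟩ := b2Y1 hF θ hc hl (r := 1) (by decide) (by decide +kernel)
  obtain ⟨Y2, a2, b2, c2⟩ := b2Y1 hF θ hc hl (r := 2) (by decide) (by decide +kernel)
  obtain ⟨Y5, a5, b5, c5⟩ := b2Y1 hF θ hc hl (r := 5) (by decide) (by decide +kernel)
  obtain ⟨Y6, a6, b6, c6⟩ := b2Y1 hF θ hc hl (r := 6) (by decide) (by decide +kernel)
  have long : ∀ {p q r : ℕ} (hp : p < 8) (hq : q < 8) (hr : r < 8) (h1 : tabB2.ckD A3 p q r = true)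
      (h2 : tabB2.ckTC Z3 G3 E3 r p = true) (h3 : tabB2.ckTC Z3 G3 E3 r q = true) {Yp Yq : F → P}
      (hp1 : ∀ t, θ (Yp t) = modelB2.X p t) (hq1 : ∀ t, θ (Yq t) = modelB2.X q t)
      (hp2 : ∀ t u, Yp (t + u) = Yp t * Yp u) (hq2 : ∀ t u, Yq (t + u) = Yq t * Yq u)
      (hp3 : ∀ (k : P) (χ : ℕ → Fˣ), θ k = modelB2.dmHom χ → ∀ t, k * Yp t = Yp (((modelB2.chi χ p : Fˣ) : F) * t) * k)
      (hq3 : ∀ (k : P) (χ : ℕ → Fˣ), θ k = modelB2.dmHom χ → ∀ t, k * Yq t = Yq (((modelB2.chi χ q : Fˣ) : F) * t) * k),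
      ∃ Z : F → P, (∀ t, θ (Z t) = modelB2.X r t) ∧ (∀ t u, Z (t + u) = Z t * Z u) ∧
      (∀ (k : P) (χ : ℕ → Fˣ), θ k = modelB2.dmHom χ → ∀ t, k * Z t = Z (((modelB2.chi χ r : Fˣ) : F) * t) * k) ∧
      (∀ t u, kk (Yp t) (Yq u) = Z (((tabB2.cs p q : ℤ) : F) * t * u)) := by
    intro p q r hp hq hr h1 h2 h3 Yp Yq hp1 hq1 hp2 hq2 hp3 hq3
    exact long_Y hc (by rw [hn]; exact hr) (ckD_sound' baseB2 modelB2 fp checksB2 hp hq h1) hF3 hp1 hq1 hp2 hq2 hp3 hq3
      (b2TC hF θ hc hl hr hp h2).symm (b2TC hF θ hc hl hr hq h3).symm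
  obtain ⟨Y0, a0, b0, c0, d0⟩ := long (p := 1) (q := 2) (r := 0) (by decide) (by decide) (by decide) (by decide +kernel)
    (by decide +kernel) (by decide +kernel) a1 a2 b1 b2 c1 c2
  obtain ⟨Y3, a3, b3, c3, d3⟩ := long (p := 1) (q := 5) (r := 3) (by decide) (by decide) (by decide) (by decide +kernel)
    (by decide +kernel) (by decide +kernel) a1 a5 b1 b5 c1 c5
  obtain ⟨Y4, a4, b4, c4, d4⟩ := long (p := 2) (q := 6) (r := 4) (by decide) (by decide) (by decide) (by decide +kernel)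
    (by decide +kernel) (by decide +kernel) a2 a6 b2 b6 c2 c6
  obtain ⟨Y7, a7, b7, c7, d7⟩ := long (p := 5) (q := 6) (r := 7) (by decide) (by decide) (by decide) (by decide +kernel)
    (by decide +kernel) (by decide +kernel) a5 a6 b5 b6 c5 c6
  let Y : ℕ → F → P := fun r => match r with
    | 0 => Y0
    | 1 => Y1
    | 2 => Y2
    | 3 => Y3
    | 4 => Y4
    | 5 => Y5
    | 6 => Y6
    | 7 => Y7
    | _ => fun _ => 1
  have hY1 : ∀ r t, θ (Y r t) = modelB2.X r t := by
    intro r t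
    by_cases hr : r < 8
    · interval_cases r
      · exact a0 t
      · exact a1 t
      · exact a2 t
      · exact a3 t
      · exact a4 t
      · exact a5 t
      · exact a6 t
      · exact a7 t
    · obtain ⟨k, rfl⟩ := Nat.exists_eq_add_of_le' (not_lt.1 hr)
      change θ 1 = _
      rw [map_one, modelB2.X_of_ge (by rw [hn]; exact hr)]
  have hY2 : ∀ r, ¬ r < chevB2.nroots → ∀ t, Y r t = 1 := by
    intro r hr t
    rw [hn] at hr
    obtain ⟨k, rfl⟩ := Nat.exists_eq_add_of_le' (not_lt.1 hr)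
    rfl
  have hY3 : ∀ r < chevB2.nroots, ∀ t u, Y r (t + u) = Y r t * Y r u := by
    intro r hr t u
    rw [hn] at hr
    interval_cases r
    · exact b0 t u
    · exact b1 t u
    · exact b2 t u
    · exact b3 t u
    · exact b4 t u
    · exact b5 t u
    · exact b6 t u
    · exact b7 t u
  have hY4 : ∀ r < chevB2.nroots, ∀ (k : P) (χ : ℕ → Fˣ), θ k = modelB2.dmHom χ → ∀ t,
      k * Y r t = Y r (((modelB2.chi χ r : Fˣ) : F) * t) * k := by
    intro r hr k χ hk t
    rw [hn] at hr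
    interval_cases r
    · exact c0 k χ hk t
    · exact c1 k χ hk t
    · exact c2 k χ hk t
    · exact c3 k χ hk t
    · exact c4 k χ hk t
    · exact c5 k χ hk t
    · exact c6 k χ hk t
    · exact c7 k χ hk t
  have e0 : tabB2.cs 1 2 = 2 := by decide +kernel
  have e3 : tabB2.cs 1 5 = -2 := by decide +kernel
  have e4 : tabB2.cs 2 6 = -2 := by decide +kernel
  have e7 : tabB2.cs 5 6 = 2 := by decide +kernel
  have r0 : Rel chevB2 Y 2 1 ∧ Rel chevB2 Y 1 2 := Rel_pair (r := 0) (C := -2) (C' := 2) (ν := ((tabB2.cs 1 2 : ℤ) : F))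
    ((b2cm (by decide) (by decide)).trans (by decide +kernel)) ((b2cm (by decide) (by decide)).trans (by decide +kernel))
    (by rw [e0]; push_cast; ring) (by rw [e0]) b0 d0
  have r3 : Rel chevB2 Y 5 1 ∧ Rel chevB2 Y 1 5 := Rel_pair (r := 3) (C := 2) (C' := -2) (ν := ((tabB2.cs 1 5 : ℤ) : F))
    ((b2cm (by decide) (by decide)).trans (by decide +kernel)) ((b2cm (by decide) (by decide)).trans (by decide +kernel))
    (by rw [e3]; push_cast; ring) (by rw [e3]) b3 d3
  have r4 : Rel chevB2 Y 6 2 ∧ Rel chevB2 Y 2 6 := Rel_pair (r := 4) (C := 2) (C' := -2) (ν := ((tabB2.cs 2 6 : ℤ) : F))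
    ((b2cm (by decide) (by decide)).trans (by decide +kernel)) ((b2cm (by decide) (by decide)).trans (by decide +kernel))
    (by rw [e4]; push_cast; ring) (by rw [e4]) b4 d4
  have r7 : Rel chevB2 Y 6 5 ∧ Rel chevB2 Y 5 6 := Rel_pair (r := 7) (C := -2) (C' := 2) (ν := ((tabB2.cs 5 6 : ℤ) : F))
    ((b2cm (by decide) (by decide)).trans (by decide +kernel)) ((b2cm (by decide) (by decide)).trans (by decide +kernel))
    (by rw [e7]; push_cast; ring) (by rw [e7]) b7 d7
  have hSS : ∀ x ∈ SSst, Rel chevB2 Y x.1 x.2 ∧ Rel chevB2 Y x.2 x.1 := by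
    intro x hx
    simp only [SSst, List.mem_cons, List.not_mem_nil, or_false] at hx
    rcases hx with rfl | rfl | rfl | rfl | rfl | rfl | rfl | rfl
    · exact r0.symm
    · exact r0
    · exact r3.symm
    · exact r3
    · exact r4.symm
    · exact r4
    · exact r7.symm
    · exact r7
  refine ⟨Y, hY1, hY2, hY3, fun r s hr hs g1 g2 => rel_all' hc hY1 hY3 hY4 ?_ ?_ hr hs g1 g2⟩
  · intro k c hk hkc hp
    have hk8 : (k : ℕ) < 8 := lt_of_lt_of_eq k.2 hn
    have hc8 : (c : ℕ) < 8 := lt_of_lt_of_eq c.2 hn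
    have hkc' : (k : ℕ) < c := hkc
    have hN : modelB2.N = 4 := rfl
    rw [hN] at hk
    rw [pair_tab baseB2 hk8 hc8] at hp
    have h := allNat_iff (allNat_iff ckB2b _ hk8) _ hc8
    rw [Bool.or_eq_true, Bool.or_eq_true, blt_iff, intEq_of_eq hp, Nat.ble_eq] at h
    simp at h
    omega
  · intro r hr s hs g1 g2 g3
    rw [hn] at hr hs
    have h := allNat_iff (allNat_iff ckB2a r hr) s hs
    rw [Bool.or_eq_true, Bool.or_eq_true, Bool.or_eq_true, Bool.or_eq_true, Bool.or_eq_true, Bool.or_eq_true,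
      beq_iff, beq_iff] at h
    rcases h with h | h | h | h | h | h | h
    · exact absurd h g1
    · rw [baseB2.ng_eq hr] at g2
      exact absurd h g2
    · rw [pair_tab baseB2 hr hs] at g3
      exact absurd (intEq_iff h) g3
    · exact Or.inl (ckT_sound baseB2 modelB2 hl fp hr hs h)
    · exact Or.inr (Or.inl (b2TC hF θ hc hl hs hr h).symm)
    · exact Or.inr (Or.inl (b2LL hF θ hc hl (r, s) (List.elem_iff.1 h)))
    · exact Or.inr (Or.inr (hSS (r, s) (List.elem_iff.1 h)))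

end

universe u

theorem exists_unit_ne {F : Type*} [Field F] [Fintype F] (h : 3 ≤ Fintype.card F) : ∃ a : F, a ≠ 0 ∧ a ≠ 1 := by
  classical
  by_contra hcon
  push Not at hcon
  have h1 : (Finset.univ : Finset F) ⊆ {0, 1} := by
    intro x _
    by_cases hx : x = 0
    · simp [hx]
    · simp [hcon x hx]
  have h2 := Finset.card_le_card h1
  rw [Finset.card_univ] at h2
  have h3 : ({0, 1} : Finset F).card ≤ 2 := Finset.card_le_two
  omega

theorem flift_B2 {F : Type u} [Field F] [Fintype F] (hF : 3 ≤ Fintype.card F) : FLift (chevB2.SteinbergCover F) := by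
  have hne : ∃ a : F, a ≠ 0 ∧ a ≠ 1 := by
    exact exists_unit_ne (F := F) (by omega)
  by_cases h5 : 5 ≤ Fintype.card F
  · exact flift_torus modelB2 decB2 (scp_B2 hne) (cert_B2 (big_of_card h5))
  · by_cases h4 : Fintype.card F = 4
    · exact flift_torus modelB2 decB2 (scp_B2 hne) (cert_B2_4 h4)
    · exact fun _ _ _ _ _ π₁ hπ hc σ => exists_lift_Y modelB2 decB2 (scp_B2 hne)
        (fun P _ θ hc hl => b2_Y (by omega) θ hc hl) π₁ hπ hc σ

theorem flift_D4 {F : Type u} [Field F] [Fintype F] (hF : 3 ≤ Fintype.card F) : FLift (chevD4.SteinbergCover F) := by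
  by_cases h5 : 5 ≤ Fintype.card F
  · exact flift_torus modelD4 decD4 scp_D4 (cert_D4 (big_of_card h5))
  · by_cases h4 : Fintype.card F = 4
    · exact flift_torus modelD4 decD4 scp_D4 (cert_D4_4 h4)
    · exact flift_torus modelD4 decD4 scp_D4 (cert_D4_3 (by omega))

theorem s2400 {K : Type*} [Field K] [Fintype K] (e : Cfsg.Lie.ChevalleyDatum × ℕ)
    (he : e ∈ [(Cfsg.Lie.chevE6, 0), (Cfsg.Lie.chevE7, 0), (Cfsg.Lie.chevB2, 2), (Cfsg.Lie.chevD4, 2)]) (hK : Fintype.card K ≠ e.2) :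
    Cfsg.HasCyclicSchurMultiplier (e.1.SteinbergGroup K) 1 := by
  have h1 : 1 < Fintype.card K := Fintype.one_lt_card
  simp only [List.mem_cons, List.not_mem_nil, or_false] at he
  rcases he with rfl | rfl | rfl | rfl
  · exact schur_cover modelE6 scp_E6 decE6 flift_E6
  · exact schur_cover modelE7 scp_E7 decE7 flift_E7
  · have hK' : Fintype.card K ≠ 2 := hK
    obtain ⟨v, hv⟩ := exists_unit_ne (F := K) (by omega)
    exact schur_cover modelB2 (scp_B2 ⟨v, hv⟩) decB2 (flift_B2 (by omega))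
  · have hK' : Fintype.card K ≠ 2 := hK
    exact schur_cover modelD4 scp_D4 decD4 (flift_D4 (by omega))

end Cfsg.Agent.H14.Chev
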