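import Mathlib
import Cfsg.Agent.H6_ChevDec

/-!
Homomorphisms from Steinberg's group given by sparse integer matrices (minuscule representations).
-/

set_option autoImplicit false
set_option linter.unusedSectionVars false

namespace Cfsg.Agent.H6.MR

open Cfsg.Lie

section Rels

variable {D : ChevalleyDatum} {F : Type*} [Field F] {Γ : Type*} [Group Γ]

/-- the universal property of Steinberg's group -/
theorem exists_hom (X : ℕ → F → Γ) (hge : ∀ r t, D.nroots ≤ r → X r t = 1)
    (hadd : ∀ r t u, r < D.nroots → X r t * X r u = X r (t + u))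
    (hcomm : ∀ r s t u, r < D.nroots → s < D.nroots → s ≠ r → s ≠ D.neg r →
      X s u * X r t = X r t * X s u * ((D.commWord F r s t u).map fun p => X p.1 p.2).prod)
    (hh : ∀ r t u, r < D.nroots → t ≠ 0 → u ≠ 0 → ((D.hWord r t).map fun p => X p.1 p.2).prod *
      ((D.hWord r u).map fun p => X p.1 p.2).prod = ((D.hWord r (t * u)).map fun p => X p.1 p.2).prod) :
    ∃ f : D.SteinbergGroup F →* Γ, ∀ (r : ℕ) (t : F), r < D.nroots → f (D.stGen F r t) = X r t := by
  let f : Fin D.nroots × F → Γ := fun p => X p.1 p.2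
  have hx : ∀ (r : ℕ) (t : F), FreeGroup.lift f (D.stX r t) = X r t := by
    intro r t
    unfold ChevalleyDatum.stX
    by_cases hr : r < D.nroots
    · rw [dif_pos hr, FreeGroup.lift_apply_of]
    · rw [dif_neg hr, hge r t (not_lt.1 hr), map_one]
  have hw : ∀ w : List (ℕ × F), FreeGroup.lift f (D.stWord w) = (w.map fun p => X p.1 p.2).prod := by
    intro w
    unfold ChevalleyDatum.stWord
    rw [map_list_prod, List.map_map]
    congr 1
    apply List.map_congr_left
    intro p _
    exact hx p.1 p.2
  have hrel : ∀ r ∈ D.steinbergRels F, FreeGroup.lift f r = 1 := by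
    rintro g ((⟨r, t, u, hr, rfl⟩ | ⟨r, s, t, u, hr, hs, hsr, hsn, rfl⟩) | ⟨r, t, u, hr, ht, hu, rfl⟩)
    · rw [map_mul, map_mul, map_inv, hx, hx, hx, hadd r t u hr, mul_inv_cancel]
    · rw [map_mul, map_inv, hw]
      simp only [map_mul, map_inv, hx]
      rw [mul_inv_eq_one, mul_assoc _ (X s u), hcomm r s t u hr hs hsr hsn]
      group
    · unfold ChevalleyDatum.stH
      rw [map_mul, map_mul, map_inv, hw, hw, hw, mul_inv_eq_one, hh r t u hr ht hu]
  refine ⟨PresentedGroup.toGroup hrel, ?_⟩
  intro r t hr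
  rw [← hx r t]
  unfold ChevalleyDatum.stGen
  exact QuotientGroup.lift_mk _ _ _

end Rels

/-! ### Sparse matrices -/

/-- sparse integer matrices -/
abbrev SM := List (ℕ × ℕ × ℤ)

/-- the coefficient of a sparse matrix -/
def coef : SM → ℕ → ℕ → ℤ
  | [], _, _ => 0
  | e :: A, i, j => cond (Nat.beq e.1 i && Nat.beq e.2.1 j) (e.2.2 + coef A i j) (coef A i j)

/-- the product with one entry -/
def mulE (a : ℕ × ℕ × ℤ) : SM → SM
  | [] => []
  | b :: B => cond (Nat.beq a.2.1 b.1) ((a.1, b.2.1, a.2.2 * b.2.2) :: mulE a B) (mulE a B)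

/-- the product -/
def mulS : SM → SM → SM
  | [], _ => []
  | a :: A, B => mulE a B ++ mulS A B

/-- scaling -/
def sc (c : ℤ) : SM → SM
  | [] => []
  | e :: A => (e.1, e.2.1, c * e.2.2) :: sc c A

/-- zero test for integers -/
def zr : ℤ → Bool
  | Int.ofNat 0 => true
  | _ => false

/-- zero test for sparse matrices -/
def isZ (A : SM) : Bool := A.all fun e => zr (coef A e.1 e.2.1)

theorem zr_iff {z : ℤ} (h : zr z = true) : z = 0 := by
  cases z with
  | ofNat n =>
    cases n with
    | zero => rfl
    | succ n => exact absurd h (by show ¬ (false = true); decide)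
  | negSucc n => exact absurd h (by show ¬ (false = true); decide)

theorem nbeq {a b : ℕ} (h : a ≠ b) : Nat.beq a b = false := by
  cases hb : Nat.beq a b
  · rfl
  · exact absurd (Nat.eq_of_beq_eq_true hb) h

theorem nbeq' {a b : ℕ} (h : a = b) : Nat.beq a b = true := by
  subst h; exact Nat.beq_refl a

theorem coef_cons (e : ℕ × ℕ × ℤ) (A : SM) (i j : ℕ) :
    coef (e :: A) i j = (if e.1 = i ∧ e.2.1 = j then e.2.2 else 0) + coef A i j := by
  rw [coef]
  by_cases h1 : e.1 = i <;> by_cases h2 : e.2.1 = j
  · simp [h1, h2]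
  · simp [h2, nbeq h2]
  · simp [h1, nbeq h1]
  · simp [h1, nbeq h1]

theorem coef_append (A B : SM) (i j : ℕ) : coef (A ++ B) i j = coef A i j + coef B i j := by
  induction A with
  | nil => simp [coef]
  | cons a A ih => rw [List.cons_append, coef_cons, coef_cons, ih, add_assoc]

theorem coef_sc (c : ℤ) (A : SM) (i j : ℕ) : coef (sc c A) i j = c * coef A i j := by
  induction A with
  | nil => simp [coef, sc]
  | cons a A ih =>
    rw [sc, coef_cons, coef_cons, ih, mul_add]
    congr 1
    split_ifs <;> simp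

theorem coef_mulE (a : ℕ × ℕ × ℤ) (B : SM) (i j : ℕ) :
    coef (mulE a B) i j = if a.1 = i then a.2.2 * coef B a.2.1 j else 0 := by
  induction B with
  | nil => simp [mulE, coef]
  | cons b B ih =>
    rw [mulE, coef_cons]
    by_cases h : a.2.1 = b.1
    · rw [nbeq' h, cond_true, coef_cons, ih]
      by_cases h1 : a.1 = i
      · simp only [h1, true_and, if_true, h, mul_add]
        congr 1
        split_ifs <;> simp
      · simp [h1]
    · rw [nbeq h, cond_false, ih]
      by_cases h1 : a.1 = i
      · simp only [h1, if_true, if_neg (fun h' : b.1 = a.2.1 ∧ b.2.1 = j => h h'.1.symm), zero_add]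
      · simp [h1]

theorem coef_eq_zero {A : SM} (h : isZ A = true) (i j : ℕ) : coef A i j = 0 := by
  by_cases hex : ∃ e ∈ A, e.1 = i ∧ e.2.1 = j
  · obtain ⟨e, he, rfl, rfl⟩ := hex
    exact zr_iff (List.all_eq_true.1 h e he)
  · clear h
    induction A with
    | nil => rfl
    | cons a A ih =>
      rw [coef_cons, if_neg (fun h' => hex ⟨a, List.mem_cons_self, h'⟩), zero_add]
      exact ih (fun ⟨e, he, h'⟩ => hex ⟨e, List.mem_cons_of_mem _ he, h'⟩)

section Ev

variable {ι : Type*} [Fintype ι] [DecidableEq ι] (code : ι → ℕ) (F : Type*) [Field F]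

/-- the matrix of a sparse matrix -/
def ev (A : SM) : Matrix ι ι F := Matrix.of fun i j => ((coef A (code i) (code j) : ℤ) : F)

theorem ev_apply (A : SM) (i j : ι) : ev code F A i j = ((coef A (code i) (code j) : ℤ) : F) := rfl

theorem ev_append (A B : SM) : ev code F (A ++ B) = ev code F A + ev code F B := by
  ext i j
  rw [Matrix.add_apply, ev_apply, ev_apply, ev_apply, coef_append, Int.cast_add]

theorem ev_sc (c : ℤ) (A : SM) : ev code F (sc c A) = (c : F) • ev code F A := by
  ext i j
  rw [Matrix.smul_apply, ev_apply, ev_apply, coef_sc, Int.cast_mul, smul_eq_mul]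

theorem ev_zero {A : SM} (h : isZ A = true) : ev code F A = 0 := by
  ext i j
  rw [ev_apply, coef_eq_zero h]; simp

/-- column indices are codes -/
def Bd (A : SM) : Prop := ∀ e ∈ A, ∃ k, code k = e.2.1

variable {code}

theorem ev_mul (hc : Function.Injective code) {A : SM} (hA : Bd code A) (B : SM) :
    ev code F A * ev code F B = ev code F (mulS A B) := by
  ext i j
  rw [Matrix.mul_apply]
  simp only [ev_apply]
  induction A with
  | nil => simp [coef, mulS]
  | cons a A ih =>
    have ih' := ih (fun e he => hA e (List.mem_cons_of_mem _ he))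
    obtain ⟨k0, hk0⟩ := hA a List.mem_cons_self
    rw [mulS, coef_append, Int.cast_add, ← ih', coef_mulE]
    simp only [coef_cons, Int.cast_add, add_mul]
    rw [Finset.sum_add_distrib]
    congr 1
    rw [Finset.sum_eq_single k0]
    · rw [hk0]
      by_cases h : a.1 = code i
      · simp [h]
      · simp [h]
    · intro k _ hk
      rw [if_neg, Int.cast_zero, zero_mul]
      rintro ⟨_, h⟩
      exact hk (hc (by rw [hk0, h]))
    · intro h; exact absurd (Finset.mem_univ _) h

end Ev

end Cfsg.Agent.H6.MR
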