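import Mathlib
import Cfsg.Agent.H14_UcB
import Cfsg.Agent.H6_ChevSt4
import Cfsg.Agent.H6_MR1

set_option autoImplicit false
set_option linter.unusedSectionVars false
set_option maxRecDepth 100000
set_option linter.style.haveILetI false

/-!
Subsystem homomorphisms between Steinberg groups of simply laced type.
-/

namespace Cfsg.Agent.H6.Chev.Tab

def ckSubPair (t t' : Tab) (I : List ℕ) (r s : ℕ) : Bool :=
  (Nat.beq r s || !(Nat.beq (nth I r) (nth I s))) &&
  ((Nat.blt (t.en r s) 256 && Nat.blt (t'.en (nth I r) (nth I s)) 256) ||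
  ((!(Nat.blt (t.en r s) 256) && !(Nat.blt (t'.en (nth I r) (nth I s)) 256)) &&
     (Nat.blt (Nat.land (t.en r s) 255) t.n &&
     (Nat.beq (nth I (Nat.land (t.en r s) 255)) (Nat.land (t'.en (nth I r) (nth I s)) 255) &&
     Nat.beq (Nat.shiftRight (t.en r s) 8) (Nat.shiftRight (t'.en (nth I r) (nth I s)) 8)))))

def ckSub (t t' : Tab) (I : List ℕ) : Bool := allNat t.n fun r =>
  Nat.blt (nth I r) t'.n && (Nat.beq (nth I (t.ng r)) (t'.ng (nth I r)) && allNat t.n fun s => ckSubPair t t' I r s)

def ckSimp (t t' : Tab) (I : List ℕ) : Bool := Nat.blt t.l (t'.l + 1) && allNat t.l fun i => Nat.beq (nth I (nth t.S i)) (nth t'.S i)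

end Cfsg.Agent.H6.Chev.Tab

namespace Cfsg.Agent.H14.Chev

open Cfsg Cfsg.Lie Cfsg.Lie.ChevalleyDatum Cfsg.Agent.H6 Cfsg.Agent.H6.Chev
open scoped commutatorElement

section sub

variable {t t' : Tab} {D D' : ChevalleyDatum} (b : t.Base D) (b' : t'.Base D') (hK : t.K = 1) (hK' : t'.K = 1)
  {I : List ℕ} (hI : t.ckSub t' I = true)

include hI in
theorem ckSub_lt {r : ℕ} (hr : r < t.n) : nth I r < t'.n := by
  have h1 := allNat_iff hI r hr
  rw [Bool.and_eq_true, blt_iff] at h1
  exact h1.1

include hI in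
theorem ckSub_ng {r : ℕ} (hr : r < t.n) : nth I (t.ng r) = t'.ng (nth I r) := by
  have h1 := allNat_iff hI r hr
  rw [Bool.and_eq_true, Bool.and_eq_true, beq_iff] at h1
  exact h1.2.1

include hI in
theorem ckSub_pair {r s : ℕ} (hr : r < t.n) (hs : s < t.n) : t.ckSubPair t' I r s = true := by
  have h1 := allNat_iff hI r hr
  rw [Bool.and_eq_true, Bool.and_eq_true] at h1
  exact allNat_iff h1.2.2 s hs

include hI in
theorem ckSub_inj {r s : ℕ} (hr : r < t.n) (hs : s < t.n) (h : nth I r = nth I s) : r = s := by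
  have h1 := ckSub_pair hI hr hs
  unfold Tab.ckSubPair at h1
  rw [Bool.and_eq_true, Bool.or_eq_true, beq_iff] at h1
  rcases h1.1 with h2 | h2
  · exact h2
  · rw [h] at h2
    simp at h2

include b b' hK hK' hI in
theorem commWord_sub {F : Type*} [Field F] {r s : ℕ} (hr : r < t.n) (hs : s < t.n) (u v : F) :
    D'.commWord F (nth I r) (nth I s) u v = (D.commWord F r s u v).map (fun p => (nth I p.1, p.2)) ∧
      ∀ p ∈ D.commWord F r s u v, p.1 < t.n := by
  have h1 := ckSub_pair hI hr hs
  have hr' := ckSub_lt hI hr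
  have hs' := ckSub_lt hI hs
  unfold Tab.ckSubPair at h1
  rw [Bool.and_eq_true, Bool.or_eq_true, Bool.or_eq_true, Bool.and_eq_true, Bool.and_eq_true, Bool.and_eq_true, Bool.and_eq_true,
    Bool.and_eq_true, blt_iff, blt_iff, blt_iff] at h1
  rcases h1.2 with ⟨h2, h3⟩ | ⟨⟨h2, h3⟩, h4, h5, h6⟩
  · rw [ChevalleyDatum.commWord, ChevalleyDatum.commWord, commTerms_ch b hK hr hs, ch_en hK, if_pos h2,
      commTerms_ch b' hK' hr' hs', ch_en hK', if_pos h3]
    simp
  · have h2' : ¬ t.en r s < 256 := by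
      intro hlt
      rw [blt_iff.2 hlt] at h2
      simp at h2
    have h3' : ¬ t'.en (nth I r) (nth I s) < 256 := by
      intro hlt
      rw [blt_iff.2 hlt] at h3
      simp at h3
    rw [beq_iff] at h5 h6
    rw [ChevalleyDatum.commWord, ChevalleyDatum.commWord, commTerms_ch b hK hr hs, ch_en hK, if_neg h2',
      commTerms_ch b' hK' hr' hs', ch_en hK', if_neg h3', ← h5, ← h6]
    simp
    exact h4

variable {F : Type*} [Field F] {Γ : Type*} [Group Γ] {m' : Model D'} (S : Sys m' F Γ)

include b b' hK hK' hI in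
theorem exists_sub_hom : ∃ f : D.SteinbergGroup F →* Γ, ∀ (r : ℕ) (u : F), r < D.nroots →
    f (D.stGen F r u) = S.x (nth I r) u := by
  have hcomm : ∀ r s (u v : F), r < D.nroots → s < D.nroots → s ≠ r → s ≠ D.neg r →
      (if s < D.nroots then S.x (nth I s) v else 1) * (if r < D.nroots then S.x (nth I r) u else 1) =
      (if r < D.nroots then S.x (nth I r) u else 1) * (if s < D.nroots then S.x (nth I s) v else 1) *
      ((D.commWord F r s u v).map fun p => if p.1 < D.nroots then S.x (nth I p.1) p.2 else 1).prod := by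
    intro r s u v hr hs h1 h2
    have hr1 : r < t.n := by rw [← b.nroots]; exact hr
    have hs1 : s < t.n := by rw [← b.nroots]; exact hs
    have hn1 : D.neg r < t.n := by rw [b.ng_eq hr1]; unfold Tab.ng; simp only [Nat.sub_eq]; omega
    obtain ⟨h3, h4⟩ := commWord_sub b b' hK hK' hI hr1 hs1 u v
    simp only [if_pos hr, if_pos hs]
    have h5 : ((D.commWord F r s u v).map fun p => if p.1 < D.nroots then S.x (nth I p.1) p.2 else 1) =
        (D'.commWord F (nth I r) (nth I s) u v).map fun p => S.x p.1 p.2 := by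
      rw [h3, List.map_map]
      apply List.map_congr_left
      intro p hp
      rw [if_pos (by rw [b.nroots]; exact h4 p hp)]
      rfl
    rw [h5]
    apply S.x_comm
    · rw [b'.nroots]; exact ckSub_lt hI hr1
    · rw [b'.nroots]; exact ckSub_lt hI hs1
    · intro h
      exact h1 (ckSub_inj hI hs1 hr1 h)
    · intro h
      rw [b'.ng_eq (ckSub_lt hI hr1), ← ckSub_ng hI hr1, ← b.ng_eq hr1] at h
      exact h2 (ckSub_inj hI hs1 hn1 h)
  have hh : ∀ r (u v : F), r < D.nroots → u ≠ 0 → v ≠ 0 →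
      ((D.hWord r u).map fun p => if p.1 < D.nroots then S.x (nth I p.1) p.2 else 1).prod *
      ((D.hWord r v).map fun p => if p.1 < D.nroots then S.x (nth I p.1) p.2 else 1).prod =
      ((D.hWord r (u * v)).map fun p => if p.1 < D.nroots then S.x (nth I p.1) p.2 else 1).prod := by
    intro r u v hr hu hv
    have hr1 : r < t.n := by rw [← b.nroots]; exact hr
    have hn1 : D.neg r < t.n := by rw [b.ng_eq hr1]; unfold Tab.ng; simp only [Nat.sub_eq]; omega
    have hn2 : D.neg r < D.nroots := by rw [b.nroots]; exact hn1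
    have h3 := S.h_mul' (r := nth I r) (by rw [b'.nroots]; exact ckSub_lt hI hr1) u v hu hv
    rw [b'.ng_eq (ckSub_lt hI hr1), ← ckSub_ng hI hr1, ← b.ng_eq hr1] at h3
    simp only [ChevalleyDatum.hWord, ChevalleyDatum.nWord, List.map_append, List.map_cons, List.map_nil,
      List.prod_append, List.prod_cons, List.prod_nil, mul_one, if_pos hr, if_pos hn2]
    simpa only [mul_assoc] using h3
  obtain ⟨f, hf⟩ := H6.MR.exists_hom (D := D) (F := F) (Γ := Γ)
    (fun r u => if r < D.nroots then S.x (nth I r) u else 1)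
    (fun r u hr => if_neg (by omega))
    (fun r u v hr => by simp only [if_pos hr]; rw [S.x_add]) hcomm hh
  exact ⟨f, fun r u hr => by rw [hf r u hr, if_pos hr]⟩

end sub

end Cfsg.Agent.H14.Chev
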