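import Mathlib
import Cfsg.Agent.H14_ZtA

set_option autoImplicit false
set_option linter.unusedSectionVars false
set_option maxRecDepth 100000
set_option linter.style.haveILetI false

/-!
Centres of the Steinberg groups of type E₆, E₇.
-/

namespace Cfsg.Agent.H14.Chev

open Cfsg Cfsg.Lie Cfsg.Lie.ChevalleyDatum Cfsg.Agent.H6 Cfsg.Agent.H6.Chev
open scoped commutatorElement

/-- extension of tuples -/
def extHom (G : Type*) [CommGroup G] (l l' : ℕ) : (Fin l → G) →* (Fin l' → G) where
  toFun b := fun k => if h : k.1 < l then b ⟨k.1, h⟩ else 1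
  map_one' := by
    funext k
    by_cases h : k.1 < l
    · simp [h]
    · simp [h]
  map_mul' b c := by
    funext k
    by_cases h : k.1 < l
    · simp [h]
    · simp [h]

theorem extHom_single {G : Type*} [CommGroup G] {l l' : ℕ} (hl : l ≤ l') (i : Fin l) (x : G) :
    extHom G l l' (Pi.mulSingle i x) = Pi.mulSingle ⟨i.1, by omega⟩ x := by
  funext k
  change (if h : k.1 < l then (Pi.mulSingle i x : Fin l → G) ⟨k.1, h⟩ else 1) = _
  by_cases hk : k.1 = i.1
  · have e1 : k = ⟨i.1, by omega⟩ := Fin.ext hk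
    rw [e1, Pi.mulSingle_eq_same]
    simp
  · rw [Pi.mulSingle_eq_of_ne (by intro h; exact hk (congrArg Fin.val h))]
    by_cases h : k.1 < l
    · rw [dif_pos h, Pi.mulSingle_eq_of_ne (by intro h'; exact hk (congrArg Fin.val h'))]
    · rw [dif_neg h]

theorem extHom_inj {G : Type*} [CommGroup G] {l l' : ℕ} (hl : l ≤ l') : Function.Injective (extHom G l l') := by
  intro b c h
  funext i
  have := congrFun h ⟨i.1, by omega⟩
  change (if h : i.1 < l then b ⟨i.1, h⟩ else 1) = (if h : i.1 < l then c ⟨i.1, h⟩ else 1) at this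
  rwa [dif_pos i.2, dif_pos i.2] at this

theorem pi_hom_ext {G Γ : Type*} [CommGroup G] [Group Γ] {l : ℕ} {f g : (Fin l → G) →* Γ}
    (h : ∀ i x, f (Pi.mulSingle i x) = g (Pi.mulSingle i x)) : f = g := by
  have h1 : ∀ b, b ∈ f.eqLocus g := by
    intro b
    rw [← Finset.univ_prod_mulSingle b]
    exact Subgroup.prod_mem _ fun i _ => h i (b i)
  exact MonoidHom.ext h1

section inj

variable {t t' : Tab} {D D' : ChevalleyDatum} (b : t.Base D) (b' : t'.Base D') (hK : t.K = 1) (hK' : t'.K = 1)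
  {I : List ℕ} (hI : t.ckSub t' I = true) (hS : t.ckSimp t' I = true)

include b b' hK hK' hI hS in
theorem torus_inj {F : Type*} [Field F] {m : Model D} {m' : Model D'} (dec' : m'.Dec) {B : ℕ → ℕ → ℤ}
    (hB : ckMul t'.l (fun i j => t'.c i (nth t'.S j)) B idm = true) (ck' : t'.Checks D')
    (θ : D.SteinbergGroup F →* GL D.Idx F)
    (hθ : ∀ (r : ℕ) (t : F), r < D.nroots → θ (D.stGen F r t) = m.X r t)
    (Ψ : (Fin D.rank → Fˣ) →* D.SteinbergGroup F)
    (hΨ : ∀ i t, Ψ (Pi.mulSingle i t) = (presSys m θ hθ).hb (D.simple i) ((t : Fˣ) : F)) : Function.Injective Ψ := by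
  obtain ⟨θ', hθ'⟩ := exists_pres_hom (F := F) m'
  set S' := presSys m' θ' hθ' with hS'
  obtain ⟨f, hf⟩ := exists_sub_hom b b' hK hK' hI S'
  obtain ⟨Ψ', hr, hs, hb⟩ := S'.exists_torus dec'
  have hS1 := hS
  unfold Tab.ckSimp at hS1
  rw [Bool.and_eq_true, blt_iff] at hS1
  have hl : D.rank ≤ D'.rank := by rw [b.rank, b'.rank]; omega
  have hSx : ∀ r t, (presSys m θ hθ).x r t = D.stGen F r t := fun r t => rfl
  have e1 : f.comp Ψ = Ψ'.comp (extHom Fˣ D.rank D'.rank) := by
    apply pi_hom_ext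
    intro i x
    rw [MonoidHom.comp_apply, MonoidHom.comp_apply, extHom_single hl, hs, hΨ]
    have hi : i.1 < t.l := by rw [← b.rank]; exact i.2
    have hi' : i.1 < t'.l := by omega
    have h1 : nth I (D.simple i) = D'.simple i := by
      rw [b.simple_eq hi, b'.simple_eq hi']
      exact beq_iff.1 (allNat_iff hS1.2 i hi)
    have h2 : D.simple i < D.nroots := (m.p i).2
    have h2' : D.simple i < t.n := by rw [← b.nroots]; exact h2
    have h3 : nth I (D.neg (D.simple i)) = D'.neg (D'.simple i) := by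
      rw [← h1, b.ng_eq h2', b'.ng_eq (ckSub_lt hI h2'), ckSub_ng hI h2']
    have h4 : D.neg (D.simple i) < D.nroots := m.neg_lt h2
    have h5 : ∀ u : F, f ((presSys m θ hθ).x (D.simple i) u) = S'.x (D'.simple i) u := by
      intro u
      rw [hSx, hf _ _ h2, h1]
    have h6 : ∀ u : F, f ((presSys m θ hθ).x (D.neg (D.simple i)) u) = S'.x (D'.neg (D'.simple i)) u := by
      intro u
      rw [hSx, hf _ _ h4, h3]
    change f ((presSys m θ hθ).hb (D.simple i) (x : F)) = S'.hb (D'.simple i) (x : F)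
    unfold Sys.hb Sys.nb
    simp only [map_mul, h5, h6]
  rw [injective_iff_map_eq_one]
  intro a ha
  have h7 : Ψ' (extHom Fˣ D.rank D'.rank a) = 1 := by
    have := congrArg (fun g => g a) e1
    change f (Ψ a) = Ψ' _ at this
    rw [← this, ha, map_one]
  have h8 := hb (extHom Fˣ D.rank D'.rank a)
  rw [h7, map_one] at h8
  have h9 := (hHom_ex_eq_one m' (extHom Fˣ D.rank D'.rank a)).1 h8.symm
  have h10 : tm (G := Fˣ) D'.rank (fun i j => D'.cartan i (D'.simple j)) =
      tm D'.rank (fun i j => t'.c i (nth t'.S j)) := by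
    apply tm_congr
    intro i hi j hj
    have hl := b'.rank
    rw [b'.simple_eq (by omega)]
    exact b'.cartan_eq (by omega) (Tab.S_facts b' ck' (by omega)).1
  rw [h10] at h9
  have h11 : Function.Injective (tm (G := Fˣ) D'.rank (fun i j => t'.c i (nth t'.S j))) := by
    rw [b'.rank]
    exact tm_inj_of hB
  have h12 := h11 (h9.trans (map_one _).symm)
  exact extHom_inj hl (h12.trans (map_one _).symm)

end inj

end Cfsg.Agent.H14.Chev
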