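import Mathlib
import Cfsg.Agent.H14_ZtB

set_option autoImplicit false
set_option linter.unusedSectionVars false
set_option maxRecDepth 1000000

/-!
E₆ and E₇ inside E₈.
-/

namespace Cfsg.Agent.H14.Chev

open Cfsg Cfsg.Lie Cfsg.Lie.ChevalleyDatum Cfsg.Agent.H6 Cfsg.Agent.H6.Chev

def ixE6 : List ℕ := [35, 45, 51, 54, 55, 61, 64, 65, 68, 69, 70, 73, 74, 75, 76, 77, 83, 86, 87, 90, 91, 92, 95, 96, 97, 98, 101, 102, 103, 104, 107, 108, 109, 112, 113, 116, 123, 126, 127, 130, 131, 132, 135, 136, 137, 138, 141, 142, 143, 144, 147, 148, 149, 152, 153, 156, 162, 163, 164, 165, 166, 169, 170, 171, 174, 175, 178, 184, 185, 188, 194, 204]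

def ixE7 : List ℕ := [13, 20, 25, 29, 32, 34, 35, 39, 42, 44, 45, 48, 50, 51, 53, 54, 55, 58, 60, 61, 63, 64, 65, 67, 68, 69, 70, 72, 73, 74, 75, 76, 77, 80, 82, 83, 85, 86, 87, 89, 90, 91, 92, 94, 95, 96, 97, 98, 100, 101, 102, 103, 104, 106, 107, 108, 109, 111, 112, 113, 115, 116, 118, 121, 123, 124, 126, 127, 128, 130, 131, 132, 133, 135, 136, 137, 138, 139, 141, 142, 143, 144, 145, 147, 148, 149, 150, 152, 153, 154, 156, 157, 159, 162, 163, 164, 165, 166, 167, 169, 170, 171, 172, 174, 175, 176, 178, 179, 181, 184, 185, 186, 188, 189, 191, 194, 195, 197, 200, 204, 205, 207, 210, 214, 219, 226]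

theorem subE6 : tabE6.ckSub tabE8 ixE6 = true := by decide +kernel
theorem simpE6 : tabE6.ckSimp tabE8 ixE6 = true := by decide +kernel
theorem subE7 : tabE7.ckSub tabE8 ixE7 = true := by decide +kernel
theorem simpE7 : tabE7.ckSimp tabE8 ixE7 = true := by decide +kernel

end Cfsg.Agent.H14.Chev
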