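import Mathlib
import Cfsg.Agent.H14_ZtB
import Cfsg.Agent.H14_ZtC
import Cfsg.Agent.H14_UcT

set_option autoImplicit false
set_option linter.unusedSectionVars false
set_option maxRecDepth 100000
set_option linter.style.haveILetI false

/-!
Centres of the Steinberg groups of type E₆, E₇ are cyclic of order gcd(3, q-1), gcd(2, q-1).
-/

namespace Cfsg.Agent.H14.Chev

open Cfsg Cfsg.Lie Cfsg.Lie.ChevalleyDatum Cfsg.Agent.H6 Cfsg.Agent.H6.Chev
open scoped commutatorElement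

def Pm (κ : ℕ → ℕ) (i0 k : ℕ) (i j : ℕ) : ℤ :=
  if j = i0 then (if i = i0 then (k : ℤ) else 0) else if i = j then 1 else if i = i0 then -(κ j : ℤ) else 0

theorem tm_Pm {G : Type*} [CommGroup G] {l : ℕ} (κ : ℕ → ℕ) {i0 k : ℕ} (hi0 : i0 < l) (b : Fin l → G) (j : Fin l) :
    tm l (Pm κ i0 k) b j = if j.1 = i0 then b ⟨i0, hi0⟩ ^ k else b j * (b ⟨i0, hi0⟩ ^ κ j.1)⁻¹ := by
  rw [tm_apply]
  split_ifs with h
  · rw [Finset.prod_eq_single (⟨i0, hi0⟩ : Fin l)]
    · simp [Pm, h]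
    · intro i _ hi
      have : i.1 ≠ i0 := fun h' => hi (Fin.ext h')
      simp [Pm, h, this]
    · intro h'; exact absurd (Finset.mem_univ _) h'
  · have hne : j ≠ (⟨i0, hi0⟩ : Fin l) := fun h' => h (congrArg Fin.val h')
    rw [← Finset.prod_subset (Finset.subset_univ {j, (⟨i0, hi0⟩ : Fin l)})]
    · rw [Finset.prod_pair hne]
      have h1 : Pm κ i0 k j.1 j.1 = 1 := by simp [Pm, h]
      have h2 : Pm κ i0 k i0 j.1 = -(κ j.1 : ℤ) := by
        have : ¬ i0 = j.1 := fun h' => h h'.symm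
        simp [Pm, h, this]
      change b j ^ Pm κ i0 k j.1 j.1 * b ⟨i0, hi0⟩ ^ Pm κ i0 k i0 j.1 = _
      rw [h1, h2, zpow_one, zpow_neg, zpow_natCast]
    · intro i _ hi
      simp only [Finset.mem_insert, Finset.mem_singleton, not_or] at hi
      have h3 : ¬ i.1 = j.1 := fun h' => hi.1 (Fin.ext h')
      have h4 : ¬ i.1 = i0 := fun h' => hi.2 (Fin.ext h')
      simp [Pm, h, h3, h4]

theorem prod_zpow_sum {G : Type*} [CommGroup G] (z : G) (f : ℕ → ℤ) (s : Finset ℕ) :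
    ∏ i ∈ s, z ^ f i = z ^ ∑ i ∈ s, f i := by
  induction s using Finset.induction_on with
  | empty => simp
  | insert a s ha ih => rw [Finset.prod_insert ha, Finset.sum_insert ha, zpow_add, ih]

/-- the kernel of a torus homomorphism with determinant `k` -/
theorem exists_ker_equiv {G : Type*} [CommGroup G] {l : ℕ} {A B : ℕ → ℕ → ℤ} {κ : ℕ → ℕ} {i0 k : ℕ} (hi0 : i0 < l)
    (hB : ckMul l A B (Pm κ i0 k) = true) (hκ : ∀ j < l, (k : ℤ) ∣ ∑ i ∈ Finset.range l, (κ i : ℤ) * A i j)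
    (hκ0 : κ i0 = 1) : Nonempty ((tm (G := G) l A).ker ≃* (powMonoidHom k : G →* G).ker) := by
  have e1 : ∀ b : Fin l → G, tm l A b = 1 → ∀ j : Fin l, (if j.1 = i0 then b ⟨i0, hi0⟩ ^ k else
      b j * (b ⟨i0, hi0⟩ ^ κ j.1)⁻¹) = 1 := by
    intro b hb j
    rw [← tm_Pm κ hi0 b j, tm_comp l (ckMul_sound hB), MonoidHom.comp_apply, hb, map_one]
    rfl
  let φ : (tm (G := G) l A).ker →* (powMonoidHom k : G →* G).ker :=
    { toFun := fun b => ⟨b.1 ⟨i0, hi0⟩, by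
        have := e1 b.1 b.2 ⟨i0, hi0⟩
        rw [if_pos rfl] at this
        exact this⟩
      map_one' := rfl
      map_mul' := fun _ _ => rfl }
  refine ⟨MulEquiv.ofBijective φ ⟨?_, ?_⟩⟩
  · rw [injective_iff_map_eq_one]
    intro b hb
    have hb' : b.1 ⟨i0, hi0⟩ = 1 := congrArg Subtype.val hb
    apply Subtype.ext
    funext j
    change b.1 j = 1
    by_cases hj : j.1 = i0
    · have : j = ⟨i0, hi0⟩ := Fin.ext hj
      rw [this]; exact hb'
    · have := e1 b.1 b.2 j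
      rw [if_neg hj, hb', one_pow, inv_one, mul_one] at this
      exact this
  · rintro ⟨z, hz⟩
    have hz' : z ^ k = 1 := hz
    refine ⟨⟨fun j => z ^ κ j.1, ?_⟩, ?_⟩
    · rw [MonoidHom.mem_ker]
      funext j
      rw [tm_apply]
      change ∏ i : Fin l, (z ^ κ i.1) ^ A i.1 j.1 = 1
      obtain ⟨c, hc⟩ := hκ j.1 j.2
      have h1 : ∀ i : Fin l, (z ^ κ i.1) ^ A i.1 j.1 = z ^ ((κ i.1 : ℤ) * A i.1 j.1) := by
        intro i
        rw [zpow_mul, zpow_natCast]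
      rw [Finset.prod_congr rfl fun i _ => h1 i, Finset.prod_fin_eq_prod_range]
      have h2 : ∀ i ∈ Finset.range l, (if h : i < l then z ^ ((κ i : ℤ) * A i j.1) else 1) = z ^ ((κ i : ℤ) * A i j.1) := by
        intro i hi
        rw [dif_pos (Finset.mem_range.1 hi)]
      rw [Finset.prod_congr rfl h2, prod_zpow_sum, hc, zpow_mul, zpow_natCast, hz', one_zpow]
    · apply Subtype.ext
      change z ^ κ i0 = z
      rw [hκ0, pow_one]

section main

variable {t t' : Tab} {D D' : ChevalleyDatum} (b : t.Base D) (b' : t'.Base D') (hK : t.K = 1) (hK' : t'.K = 1)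
  {I : List ℕ} (hI : t.ckSub t' I = true) (hS : t.ckSimp t' I = true)

include b b' hK hK' hI hS in
theorem center_equiv {F : Type*} [Field F] (m : Model D) (dec : m.Dec) (m' : Model D') (dec' : m'.Dec) {B' : ℕ → ℕ → ℤ}
    (hB' : ckMul t'.l (fun i j => t'.c i (nth t'.S j)) B' idm = true) (ck' : t'.Checks D') (ck : t.Checks D)
    {B : ℕ → ℕ → ℤ} {κ : ℕ → ℕ} {i0 k : ℕ} (hi0 : i0 < t.l)
    (hB : ckMul t.l (fun i j => t.c i (nth t.S j)) B (Pm κ i0 k) = true)
    (hκ : ∀ j < t.l, (k : ℤ) ∣ ∑ i ∈ Finset.range t.l, (κ i : ℤ) * t.c i (nth t.S j))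
    (hκ0 : κ i0 = 1) : Nonempty (Subgroup.center (D.SteinbergGroup F) ≃* (powMonoidHom k : Fˣ →* Fˣ).ker) := by
  obtain ⟨θ, hθ⟩ := exists_pres_hom (F := F) m
  obtain ⟨-, h2⟩ := kernel_eq_center m dec θ hθ
  obtain ⟨Ψ, hr, hs, hb⟩ := (presSys m θ hθ).exists_torus dec
  have hinj := torus_inj b b' hK hK' hI hS dec' hB' ck' θ hθ Ψ hs
  have hb' : ∀ b, θ (Ψ b) = m.hHom (ex b) := hb
  have hcen : Subgroup.center (D.SteinbergGroup F) =
      (tm (G := Fˣ) D.rank (fun i j => D.cartan i (D.simple j))).ker.map Ψ := by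
    rw [← h2]
    ext g
    rw [MonoidHom.mem_ker, Subgroup.mem_map]
    constructor
    · intro hg
      have h3 := kernel_le_H m dec θ hθ hg
      have h4 : g ∈ (presSys m θ hθ).Hb := by
        unfold Sys.Hb
        simp only [← stH_eq m θ hθ]
        exact h3
      rw [← hr] at h4
      obtain ⟨b, rfl⟩ := h4
      refine ⟨b, ?_, rfl⟩
      rw [MonoidHom.mem_ker, ← hHom_ex_eq_one m, ← hb']
      exact hg
    · rintro ⟨b, hb1, rfl⟩
      rw [MonoidHom.mem_ker, ← hHom_ex_eq_one m] at hb1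
      rw [hb', hb1]
  have h10 : tm (G := Fˣ) D.rank (fun i j => D.cartan i (D.simple j)) =
      tm D.rank (fun i j => t.c i (nth t.S j)) := by
    apply tm_congr
    intro i hi j hj
    have hl := b.rank
    rw [b.simple_eq (by omega)]
    exact b.cartan_eq (by omega) (Tab.S_facts b ck (by omega)).1
  have hl := b.rank
  have e1 : Nonempty ((tm (G := Fˣ) D.rank (fun i j => t.c i (nth t.S j))).ker ≃* (powMonoidHom k : Fˣ →* Fˣ).ker) := by
    rw [hl]
    exact exists_ker_equiv hi0 hB hκ hκ0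
  obtain ⟨e1⟩ := e1
  rw [hcen, h10]
  exact ⟨((tm (G := Fˣ) D.rank (fun i j => t.c i (nth t.S j))).ker.equivMapOfInjective Ψ hinj).symm.trans e1⟩

end main

theorem ker_pow_equiv {F : Type*} [Field F] [Finite F] (k : ℕ) :
    Nonempty ((powMonoidHom k : Fˣ →* Fˣ).ker ≃* Multiplicative (ZMod (Nat.gcd k (Nat.card F - 1)))) := by
  haveI : Finite Fˣ := inferInstance
  have h1 : Nat.card (powMonoidHom k : Fˣ →* Fˣ).ker = Nat.gcd k (Nat.card F - 1) := by
    rw [IsCyclic.card_powMonoidHom_ker, Nat.gcd_comm, Nat.card_units]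
  have hpos : 0 < Nat.gcd k (Nat.card F - 1) := by
    rw [← h1]; exact Nat.card_pos
  haveI : NeZero (Nat.gcd k (Nat.card F - 1)) := ⟨hpos.ne'⟩
  exact ⟨mulEquivOfCyclicCardEq (by rw [h1]; simp)⟩

def E8inv : List (List ℤ) := [[4, 5, 7, 10, 8, 6, 4, 2], [5, 8, 10, 15, 12, 9, 6, 3], [7, 10, 14, 20, 16, 12, 8, 4], [10, 15, 20, 30, 24, 18, 12, 6], [8, 12, 16, 24, 20, 15, 10, 5], [6, 9, 12, 18, 15, 12, 8, 4], [4, 6, 8, 12, 10, 8, 6, 3], [2, 3, 4, 6, 5, 4, 3, 2]]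

theorem center_E6 {F : Type*} [Field F] :
    Nonempty (Subgroup.center (chevE6.SteinbergGroup F) ≃* (powMonoidHom 3 : Fˣ →* Fˣ).ker) :=
  center_equiv baseE6 baseE8 rfl rfl subE6 simpE6 modelE6 decE6 modelE8 decE8 (B' := mt E8inv) (by decide +kernel)
    checksE8 checksE6
    (B := mt [[4, 1, -1, 2, 0, -2], [3, 2, 0, 3, 1, -1], [5, 2, 0, 4, 1, -2], [6, 3, 0, 6, 2, -2], [4, 2, 0, 4, 2, -1], [2, 1, 0, 2, 1, 0]])
    (κ := fun i => [1, 0, 2, 0, 1, 2].getD i 0) (i0 := 0) (by decide +kernel) (by decide +kernel) (by decide +kernel) rfl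

theorem center_E7 {F : Type*} [Field F] :
    Nonempty (Subgroup.center (chevE7.SteinbergGroup F) ≃* (powMonoidHom 2 : Fˣ →* Fˣ).ker) :=
  center_equiv baseE7 baseE8 rfl rfl subE7 simpE7 modelE7 decE7 modelE8 decE8 (B' := mt E8inv) (by decide +kernel)
    checksE8 checksE7
    (B := mt [[2, 4, 3, 4, 1, 2, -1], [2, 7, 4, 6, 1, 3, -2], [3, 8, 6, 8, 2, 4, -2], [4, 12, 8, 12, 3, 6, -3], [3, 9, 6, 9, 3, 5, -2], [2, 6, 4, 6, 2, 4, -1], [1, 3, 2, 3, 1, 2, 0]])
    (κ := fun i => [0, 1, 0, 0, 1, 0, 1].getD i 0) (i0 := 1) (by decide +kernel) (by decide +kernel) (by decide +kernel) rfl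

theorem center_E6_cyc {F : Type*} [Field F] [Finite F] :
    Nonempty (Subgroup.center (chevE6.SteinbergGroup F) ≃* Multiplicative (ZMod (Nat.gcd 3 (Nat.card F - 1)))) := by
  obtain ⟨e⟩ := center_E6 (F := F)
  obtain ⟨e'⟩ := ker_pow_equiv (F := F) 3
  exact ⟨e.trans e'⟩

theorem center_E7_cyc {F : Type*} [Field F] [Finite F] :
    Nonempty (Subgroup.center (chevE7.SteinbergGroup F) ≃* Multiplicative (ZMod (Nat.gcd 2 (Nat.card F - 1)))) := by
  obtain ⟨e⟩ := center_E7 (F := F)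
  obtain ⟨e'⟩ := ker_pow_equiv (F := F) 2
  exact ⟨e.trans e'⟩

theorem s1079 {K : Type*} [Field K] [Fintype K] {q : ℕ} (hq : Fintype.card K = q)
    (p : Cfsg.Lie.ChevalleyDatum × ℕ) (hp : p ∈ [(Cfsg.Lie.chevE6, 3), (Cfsg.Lie.chevE7, 2)]) :
    Nat.card (Subgroup.center (p.1.SteinbergGroup K)) = Nat.gcd p.2 (q - 1) := by
  have hq' : Nat.card K = q := by rw [Nat.card_eq_fintype_card, hq]
  simp only [List.mem_cons, List.not_mem_nil, or_false] at hp
  rcases hp with rfl | rfl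
  · obtain ⟨e⟩ := center_E6_cyc (F := K)
    rw [hq'] at e
    rw [Nat.card_congr e.toEquiv, Nat.card_congr Multiplicative.toAdd, Nat.card_zmod]
  · obtain ⟨e⟩ := center_E7_cyc (F := K)
    rw [hq'] at e
    rw [Nat.card_congr e.toEquiv, Nat.card_congr Multiplicative.toAdd, Nat.card_zmod]

theorem s2105 {F : Type*} [Field F] [Fintype F] {q : ℕ} (hF : Fintype.card F = q) :
    Cfsg.HasCyclicSchurMultiplier ↥(Cfsg.Lie.chevE6.group F) (Nat.gcd 3 (q - 1)) := by
  have hq' : Nat.card F = q := by rw [Nat.card_eq_fintype_card, hF]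
  exact schur_group modelE6 scp_E6 decE6 flift_E6 (hq' ▸ center_E6_cyc)

theorem s2106 {F : Type*} [Field F] [Fintype F] {q : ℕ} (hF : Fintype.card F = q) :
    Cfsg.HasCyclicSchurMultiplier ↥(Cfsg.Lie.chevE7.group F) (Nat.gcd 2 (q - 1)) := by
  have hq' : Nat.card F = q := by rw [Nat.card_eq_fintype_card, hF]
  exact schur_group modelE7 scp_E7 decE7 flift_E7 (hq' ▸ center_E7_cyc)

end Cfsg.Agent.H14.Chev
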