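import Mathlib
import Cfsg.Agent.H5_GL

set_option autoImplicit false
open Module

namespace Cfsg.Agent.H15.CEN

section lin

variable {F V : Type*} [Field F] [AddCommGroup V] [Module F V]

/-- no fixed vectors in the image of `β - 1` -/
theorem fix_range {r : ℕ} (hr : (r : F) ≠ 0) {β : Module.End F V} (hβ : β ^ r = 1) {v : V} (hv : v ∈ LinearMap.range (β - 1))
    (hf : β v = v) : v = 0 := by
  obtain ⟨u, hu⟩ := hv
  have h1 : β u = u + v := by rw [← hu]; simp
  have h2 : ∀ j : ℕ, (β ^ j) u = u + (j : F) • v := by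
    intro j
    induction j with
    | zero => simp
    | succ j ih =>
      rw [pow_succ', Module.End.mul_apply, ih, map_add, map_smul, hf, h1]
      push_cast
      rw [add_smul, one_smul]
      abel
  have h3 := h2 r
  rw [hβ, Module.End.one_apply] at h3
  have h4 : (r : F) • v = 0 := by
    have := congrArg (fun x => x - u) h3
    simpa using this.symm
  exact (smul_eq_zero.mp h4).resolve_left hr

theorem dvd_card [Finite V] {r : ℕ} [Fact r.Prime] {β : Module.End F V} (hβ : β ^ r = 1)
    (hfix : ∀ v, β v = v → v = 0) : Nat.card V ≡ 1 [MOD r] := by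
  classical
  haveI := Fintype.ofFinite V
  let f : Function.End V := fun v => β v
  have hf : ∀ j : ℕ, f ^ j = fun v => (β ^ j) v := by
    intro j
    induction j with
    | zero => rfl
    | succ j ih =>
      rw [pow_succ, ih]
      rfl
  have h1 : f ^ r ^ 1 = 1 := by
    rw [pow_one, hf, hβ]; rfl
  have h2 := Equiv.Perm.card_fixedPoints_modEq h1
  rw [Nat.card_eq_fintype_card]
  have h3 : Fintype.card (Function.fixedPoints f) = 1 := by
    rw [Fintype.card_eq_one_iff]
    refine ⟨⟨0, map_zero β⟩, ?_⟩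
    rintro ⟨v, hv⟩
    exact Subtype.ext (hfix v hv)
  rwa [h3] at h2

theorem dvd_sub [Finite V] [Fintype F] [Module.Finite F V] {r : ℕ} [Fact r.Prime] (hr : (r : F) ≠ 0) {β : Module.End F V} (hβ : β ^ r = 1) (U : Submodule F V)
    (hU : ∀ u ∈ U, β u ∈ U) (hle : U ≤ LinearMap.range (β - 1)) : r ∣ Fintype.card F ^ finrank F U - 1 := by
  have h1 : (β.restrict hU) ^ r = 1 := by
    apply LinearMap.ext
    intro u
    apply Subtype.ext
    have h2 : ∀ j : ℕ, (((β.restrict hU) ^ j) u : V) = (β ^ j) (u : V) := by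
      intro j
      induction j with
      | zero => rfl
      | succ j ih =>
        rw [pow_succ', Module.End.mul_apply, LinearMap.restrict_coe_apply, ih, pow_succ', Module.End.mul_apply]
    rw [h2, hβ]; rfl
  have h2 := dvd_card h1 (fun v hv => by
    apply Subtype.ext
    apply fix_range hr hβ (hle v.2)
    have := congrArg Subtype.val hv
    rwa [LinearMap.restrict_coe_apply] at this)
  rw [Module.natCard_eq_pow_finrank (K := F), Nat.card_eq_fintype_card] at h2
  exact (Nat.modEq_iff_dvd' (Nat.one_le_pow _ _ Fintype.card_pos)).mp h2.symm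

theorem main_lin [Finite V] [Fintype F] [Module.Finite F V] {r : ℕ} [Fact r.Prime] (hr : (r : F) ≠ 0)
    (hn : 4 ≤ finrank F V) {β N : Module.End F V} (hβ : β ^ r = 1) (hβ1 : β ≠ 1) (hN : IsNilpotent N) (hN0 : N ≠ 0)
    (hc : β * N = N * β) : ∃ k, 1 ≤ k ∧ k ≤ finrank F V - 2 ∧ r ∣ Fintype.card F ^ k - 1 := by
  set W := LinearMap.range (β - 1) with hW
  have hW0 : W ≠ ⊥ := by
    rw [hW, Ne, LinearMap.range_eq_bot, sub_eq_zero]; exact hβ1
  have hβW : ∀ w ∈ W, β w ∈ W := by
    rintro _ ⟨u, rfl⟩
    refine ⟨β u, ?_⟩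
    simp
  have hcv : ∀ v, β (N v) = N (β v) := fun v => LinearMap.congr_fun hc v
  have hNW : ∀ w ∈ W, N w ∈ W := by
    rintro _ ⟨u, rfl⟩
    refine ⟨N u, ?_⟩
    simp [hcv]
  have hpos : ∀ U : Submodule F V, U ≠ ⊥ → 1 ≤ finrank F U := fun U hU => by
    rw [Nat.one_le_iff_ne_zero]
    intro h; exact hU (Submodule.finrank_eq_zero.mp h)
  have hrk := LinearMap.finrank_range_add_finrank_ker (β - 1)
  obtain ⟨m, hm⟩ := hN
  by_cases hcase : ∀ w ∈ W, N w = 0
  · refine ⟨finrank F W, hpos W hW0, ?_, dvd_sub hr hβ W hβW le_rfl⟩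
    -- the fixed space has dimension at least two
    by_contra hcon
    have hk : finrank F (LinearMap.ker (β - 1)) ≤ 1 := by
      rw [← hW] at hrk
      omega
    apply hN0
    have hker : ∀ v ∈ LinearMap.ker (β - 1), N v = 0 := by
      intro v hv
      by_cases hv0 : v = 0
      · rw [hv0, map_zero]
      · have hβv : β v = v := by
          rw [LinearMap.mem_ker, LinearMap.sub_apply, Module.End.one_apply, sub_eq_zero] at hv; exact hv
        have hNv : N v ∈ LinearMap.ker (β - 1) := by
          rw [LinearMap.mem_ker, LinearMap.sub_apply, Module.End.one_apply, sub_eq_zero, hcv, hβv]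
        have hsp : ∃ c : F, N v = c • v := by
          have h1 := finrank_le_one_iff.mp hk
          obtain ⟨v0, hv0'⟩ := h1
          obtain ⟨c, hc1⟩ := hv0' ⟨v, hv⟩
          obtain ⟨c', hc2⟩ := hv0' ⟨N v, hNv⟩
          have e1 : c • (v0 : V) = v := congrArg Subtype.val hc1
          have e2 : c' • (v0 : V) = N v := congrArg Subtype.val hc2
          have hc0 : c ≠ 0 := by
            rintro rfl
            apply hv0; rw [← e1, zero_smul]
          refine ⟨c' * c⁻¹, ?_⟩
          rw [← e2, ← e1, smul_smul, mul_assoc, inv_mul_cancel₀ hc0, mul_one]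
        obtain ⟨c, hc1⟩ := hsp
        have h2 : ∀ j : ℕ, (N ^ j) v = c ^ j • v := by
          intro j
          induction j with
          | zero => simp
          | succ j ih => rw [pow_succ', Module.End.mul_apply, ih, map_smul, hc1, smul_smul, pow_succ]
        have h3 := h2 m
        rw [hm, LinearMap.zero_apply] at h3
        have h4 := (smul_eq_zero.mp h3.symm).resolve_right hv0
        have h5 : c = 0 := eq_zero_of_pow_eq_zero h4
        rw [hc1, h5, zero_smul]
    have hdisj : W ⊓ LinearMap.ker (β - 1) = ⊥ := by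
      rw [eq_bot_iff]
      rintro v ⟨h1, h2⟩
      rw [Submodule.mem_bot]
      apply fix_range hr hβ h1
      rw [SetLike.mem_coe, LinearMap.mem_ker, LinearMap.sub_apply, Module.End.one_apply, sub_eq_zero] at h2; exact h2
    have hsup : W ⊔ LinearMap.ker (β - 1) = ⊤ := by
      apply Submodule.eq_top_of_finrank_eq
      have h1 := Submodule.finrank_sup_add_finrank_inf_eq W (LinearMap.ker (β - 1))
      rw [hdisj, finrank_bot, add_zero] at h1
      rw [h1]; exact hrk
    apply LinearMap.ext
    intro v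
    have hv : v ∈ W ⊔ LinearMap.ker (β - 1) := by rw [hsup]; exact Submodule.mem_top
    obtain ⟨w, hw, z, hz, rfl⟩ := Submodule.mem_sup.mp hv
    rw [map_add, hcase w hw, hker z hz, add_zero]; rfl
  · push Not at hcase
    obtain ⟨w0, hw0, hNw0⟩ := hcase
    set g : W →ₗ[F] V := N.domRestrict W with hg
    have hrk2 := LinearMap.finrank_range_add_finrank_ker g
    set W1 : Submodule F V := (LinearMap.ker g).map W.subtype with hW1
    have hW1f : finrank F W1 = finrank F (LinearMap.ker g) := by
      rw [hW1]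
      exact Submodule.finrank_map_subtype_eq W _
    have hmem1 : ∀ v, v ∈ W1 ↔ v ∈ W ∧ N v = 0 := by
      intro v
      constructor
      · rintro ⟨u, hu, rfl⟩
        exact ⟨u.2, hu⟩
      · rintro ⟨h1, h2⟩
        exact ⟨⟨v, h1⟩, h2, rfl⟩
    set W2 : Submodule F V := LinearMap.range g with hW2
    have hmem2 : ∀ v, v ∈ W2 ↔ ∃ w ∈ W, N w = v := by
      intro v
      constructor
      · rintro ⟨u, hu⟩
        exact ⟨u, u.2, hu⟩
      · rintro ⟨w, h1, h2⟩
        exact ⟨⟨w, h1⟩, h2⟩
    have hW2le : W2 ≤ W := by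
      intro v hv
      obtain ⟨w, hw, rfl⟩ := (hmem2 v).mp hv
      exact hNW w hw
    have hW2ne : W2 ≠ ⊥ := by
      intro h
      have h1 : N w0 ∈ W2 := (hmem2 _).mpr ⟨w0, hw0, rfl⟩
      rw [h, Submodule.mem_bot] at h1
      exact hNw0 h1
    have hW1ne : W1 ≠ ⊥ := by
      intro h
      have h1 : ∀ j : ℕ, (N ^ j) w0 ∈ W ∧ (N ^ j) w0 ≠ 0 := by
        intro j
        induction j with
        | zero =>
          refine ⟨hw0, ?_⟩
          intro h0
          apply hNw0
          have : w0 = 0 := h0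
          rw [this, map_zero]
        | succ j ih =>
          rw [pow_succ', Module.End.mul_apply]
          refine ⟨hNW _ ih.1, ?_⟩
          intro h2
          have h3 : (N ^ j) w0 ∈ W1 := (hmem1 _).mpr ⟨ih.1, h2⟩
          rw [h, Submodule.mem_bot] at h3
          exact ih.2 h3
      have h2 := (h1 m).2
      rw [hm] at h2
      exact h2 rfl
    have hle : finrank F W ≤ finrank F V := Submodule.finrank_le W
    rw [← hW1f] at hrk2
    have hβ1' : ∀ u ∈ W1, β u ∈ W1 := by
      intro u hu
      rw [hmem1] at hu ⊢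
      exact ⟨hβW u hu.1, by rw [← hcv, hu.2, map_zero]⟩
    have hβ2' : ∀ u ∈ W2, β u ∈ W2 := by
      intro u hu
      rw [hmem2] at hu ⊢
      obtain ⟨w, hw, rfl⟩ := hu
      exact ⟨β w, hβW w hw, (hcv w).symm⟩
    have hW1le : W1 ≤ W := fun v hv => ((hmem1 v).mp hv).1
    rcases le_total (finrank F W1) (finrank F W2) with h | h
    · exact ⟨finrank F W1, hpos _ hW1ne, by omega, dvd_sub hr hβ W1 hβ1' hW1le⟩
    · exact ⟨finrank F W2, hpos _ hW2ne, by omega, dvd_sub hr hβ W2 hβ2' hW2le⟩

end lin

end Cfsg.Agent.H15.CEN
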