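import Mathlib
import Cfsg.Agent.H15_CEN1

set_option autoImplicit false
open Module

namespace Cfsg.Agent.H15.CEN

variable {F : Type*} [Field F] [Fintype F]

theorem card_SL_two (m : ℕ) : Nat.card (Matrix.SpecialLinearGroup (Fin (m + 2)) F) =
    (∏ i : Fin m, (Fintype.card F ^ (m + 2) - Fintype.card F ^ (i : ℕ))) *
      (Fintype.card F ^ (m + 2) - Fintype.card F ^ m) * Fintype.card F ^ (m + 1) := by
  classical
  have hq : 1 < Fintype.card F := Fintype.one_lt_card
  have h1 := Cfsg.Agent.H5.GL.card_SL (F := F) rfl (m + 2) (by omega)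
  rw [Fin.prod_univ_castSucc, Fin.prod_univ_castSucc] at h1
  simp only [Fin.val_castSucc, Fin.val_last] at h1
  have h2 : Fintype.card F ^ (m + 2) - Fintype.card F ^ (m + 1) = Fintype.card F ^ (m + 1) * (Fintype.card F - 1) := by
    rw [Nat.mul_sub, mul_one, ← pow_succ]
  rw [h2] at h1
  apply Nat.eq_of_mul_eq_mul_left (show 0 < Fintype.card F - 1 by omega)
  rw [h1]; ring

theorem dvd_SL_of_dvd {r m k : ℕ} (hk : 2 ≤ k) (hkm : k ≤ m + 2) (h : r ∣ Fintype.card F ^ k - 1) :
    r ∣ Nat.card (Matrix.SpecialLinearGroup (Fin (m + 2)) F) := by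
  rw [card_SL_two]
  apply Dvd.dvd.mul_right
  have e : Fintype.card F ^ (m + 2) - Fintype.card F ^ (m + 2 - k) = Fintype.card F ^ (m + 2 - k) * (Fintype.card F ^ k - 1) := by
    rw [Nat.mul_sub, mul_one, ← pow_add]
    congr 2
    omega
  by_cases hk2 : k = 2
  · subst hk2
    apply Dvd.dvd.mul_left
    have e' : m + 2 - 2 = m := by omega
    rw [e'] at e
    rw [e]; exact h.mul_left _
  · apply Dvd.dvd.mul_right
    have h1 : Fintype.card F ^ (m + 2) - Fintype.card F ^ (m + 2 - k) ∣ ∏ i : Fin m, (Fintype.card F ^ (m + 2) - Fintype.card F ^ (i : ℕ)) := by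
      have := Finset.dvd_prod_of_mem (fun i : Fin m => (Fintype.card F ^ (m + 2) - Fintype.card F ^ (i : ℕ))) (Finset.mem_univ (⟨m + 2 - k, by omega⟩ : Fin m))
      exact this
    exact (by rw [e]; exact h.mul_left _ : r ∣ Fintype.card F ^ (m + 2) - Fintype.card F ^ (m + 2 - k)).trans h1

variable (p : ℕ) [hp : Fact p.Prime] [CharP F p]

theorem p_dvd_card : p ∣ Fintype.card F := by
  obtain ⟨n, _, hn⟩ := FiniteField.card F p
  rw [hn]
  exact dvd_pow_self p n.pos.ne'

/-- lifting an element of order `p` of `PSL_n` -/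
theorem lift_p {n : ℕ} (hn : 1 ≤ n) (a : Matrix.ProjectiveSpecialLinearGroup (Fin n) F) (ha : orderOf a = p) :
    ∃ A : Matrix.SpecialLinearGroup (Fin n) F, QuotientGroup.mk A = a ∧ A ^ p = 1 := by
  haveI : Nonempty (Fin n) := ⟨⟨0, hn⟩⟩
  obtain ⟨A, rfl⟩ := QuotientGroup.mk_surjective a
  have h1 : A ^ p ∈ Subgroup.center (Matrix.SpecialLinearGroup (Fin n) F) := by
    rw [← QuotientGroup.eq_one_iff, QuotientGroup.mk_pow, ← ha, pow_orderOf_eq_one]
  obtain ⟨ζ, hζ, hA⟩ := Matrix.SpecialLinearGroup.mem_center_iff.mp h1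
  rw [Fintype.card_fin] at hζ
  obtain ⟨η, hη⟩ := (frobeniusEquiv F p).surjective ζ
  rw [frobeniusEquiv_apply, frobenius_def] at hη
  have hη1 : η ^ n = 1 := by
    have h2 : (η ^ n) ^ p = 1 ^ p := by rw [← pow_mul, mul_comm, pow_mul, hη, hζ, one_pow]
    exact frobenius_inj F p (by rw [frobenius_def, frobenius_def]; exact h2)
  let S : Matrix.SpecialLinearGroup (Fin n) F := ⟨Matrix.scalar (Fin n) η, by
    rw [Matrix.scalar_apply, Matrix.det_diagonal, Finset.prod_const, Finset.card_univ, Fintype.card_fin, hη1]⟩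
  have hS : S ∈ Subgroup.center (Matrix.SpecialLinearGroup (Fin n) F) :=
    Matrix.SpecialLinearGroup.mem_center_iff.mpr ⟨η, by rw [Fintype.card_fin]; exact hη1, rfl⟩
  have hSp : S ^ p = A ^ p := by
    apply Subtype.ext
    rw [← hA, Matrix.SpecialLinearGroup.coe_pow]
    show (Matrix.scalar (Fin n) η) ^ p = _
    rw [← map_pow, hη]
  refine ⟨A * S⁻¹, ?_, ?_⟩
  · rw [QuotientGroup.mk_mul, (QuotientGroup.eq_one_iff _).mpr (Subgroup.inv_mem _ hS), mul_one]
  · have hc : Commute A S⁻¹ := (Subgroup.mem_center_iff.mp (Subgroup.inv_mem _ hS) A)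
    rw [hc.mul_pow, inv_pow, hSp, mul_inv_cancel]

theorem lift_r {n : ℕ} {r : ℕ} (hrq : ¬ r ∣ Fintype.card F - 1) [hr : Fact r.Prime]
    (b : Matrix.ProjectiveSpecialLinearGroup (Fin n) F) (hb : orderOf b = r) :
    ∃ (B : Matrix.SpecialLinearGroup (Fin n) F), QuotientGroup.mk B = b ^ (Fintype.card F - 1) ∧ B ^ r = 1 ∧ B ≠ 1 := by
  obtain ⟨B, rfl⟩ := QuotientGroup.mk_surjective b
  have h1 : B ^ r ∈ Subgroup.center (Matrix.SpecialLinearGroup (Fin n) F) := by
    rw [← QuotientGroup.eq_one_iff, QuotientGroup.mk_pow, ← hb, pow_orderOf_eq_one]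
  obtain ⟨ζ, hζ, hA⟩ := Matrix.SpecialLinearGroup.mem_center_iff.mp h1
  rcases Nat.eq_zero_or_pos n with hn | hn
  · exfalso
    subst hn
    have : B = 1 := Subsingleton.elim _ _
    rw [this, QuotientGroup.mk_one, orderOf_one] at hb
    exact hr.out.one_lt.ne hb
  have hζ0 : ζ ≠ 0 := by
    rintro rfl
    rw [Fintype.card_fin, zero_pow (by omega)] at hζ
    exact zero_ne_one hζ
  refine ⟨B ^ (Fintype.card F - 1), QuotientGroup.mk_pow _ _ _, ?_, ?_⟩
  · rw [← pow_mul, mul_comm, pow_mul]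
    apply Subtype.ext
    rw [Matrix.SpecialLinearGroup.coe_pow, ← hA, ← map_pow, FiniteField.pow_card_sub_one_eq_one ζ hζ0, map_one]
    rfl
  · intro h
    have h2 := congrArg (QuotientGroup.mk (s := Subgroup.center (Matrix.SpecialLinearGroup (Fin n) F))) h
    rw [QuotientGroup.mk_pow, QuotientGroup.mk_one] at h2
    have h3 := orderOf_dvd_of_pow_eq_one h2
    rw [hb] at h3
    exact hrq h3

theorem s2364 (n : ℕ) (hn : 4 ≤ n)
    (a b : Matrix.ProjectiveSpecialLinearGroup (Fin n) F) (ha : orderOf a = p) (hab : Commute a b) :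
    (orderOf b).primeFactors ⊆ (Nat.card (Matrix.SpecialLinearGroup (Fin (n - 2)) F)).primeFactors := by
  classical
  obtain ⟨m, rfl⟩ : ∃ m, n = m + 4 := ⟨n - 4, by omega⟩
  have e : m + 4 - 2 = m + 2 := by omega
  rw [e]
  have hq : 1 < Fintype.card F := Fintype.one_lt_card
  intro r hr
  rw [Nat.mem_primeFactors] at hr ⊢
  obtain ⟨hrp, hrb, hb0⟩ := hr
  haveI : Fact r.Prime := ⟨hrp⟩
  refine ⟨hrp, ?_, Nat.card_pos.ne'⟩
  by_cases hrp' : r = p
  · rw [hrp', card_SL_two]
    apply Dvd.dvd.mul_left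
    exact (p_dvd_card p).pow (by omega)
  by_cases hrq : r ∣ Fintype.card F - 1
  · apply dvd_SL_of_dvd (le_refl 2) (by omega)
    exact hrq.trans (by
      have := Nat.sub_dvd_pow_sub_pow (Fintype.card F) 1 2
      rwa [one_pow] at this)
  -- the element of order `r`
  set b1 := b ^ (orderOf b / r) with hb1
  have hb1o : orderOf b1 = r := orderOf_pow_orderOf_div hb0 hrb
  obtain ⟨B, hB, hBr, hB1⟩ := lift_r hrq b1 hb1o
  obtain ⟨A, hA, hAp⟩ := lift_p p (by omega) a ha
  have hA1 : A ≠ 1 := by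
    rintro rfl
    rw [QuotientGroup.mk_one] at hA
    rw [← hA, orderOf_one] at ha
    exact hp.out.one_lt.ne ha
  have hcomm : Commute a (b1 ^ (Fintype.card F - 1)) := (hab.pow_right _).pow_right _
  -- they commute
  have hAB : B * A = A * B := by
    have h1 : B * A * B⁻¹ * A⁻¹ ∈ Subgroup.center (Matrix.SpecialLinearGroup (Fin (m + 4)) F) := by
      rw [← QuotientGroup.eq_one_iff]
      simp only [QuotientGroup.mk_mul, QuotientGroup.mk_inv, hA, hB]
      rw [← hcomm.eq]
      group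
    obtain ⟨s, hs, hsA⟩ := Matrix.SpecialLinearGroup.mem_center_iff.mp h1
    have h2 : (B * A * B⁻¹) ^ p = 1 := by
      have : (B * A * B⁻¹) ^ p = B * A ^ p * B⁻¹ := by
        rw [← MulAut.conj_apply, ← map_pow, MulAut.conj_apply]
      rw [this, hAp]; group
    have h3 : B * A * B⁻¹ = (B * A * B⁻¹ * A⁻¹) * A := by group
    have h4 : Commute (B * A * B⁻¹ * A⁻¹) A := (Subgroup.mem_center_iff.mp h1 A).symm
    rw [h3, h4.mul_pow, hAp, mul_one] at h2
    have h5 : s ^ p = 1 := by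
      have h6 := congrArg (fun X : Matrix.SpecialLinearGroup (Fin (m + 4)) F => (X : Matrix (Fin (m + 4)) (Fin (m + 4)) F) 0 0) h2
      simp only [Matrix.SpecialLinearGroup.coe_pow] at h6
      rw [← hsA, ← map_pow] at h6
      simpa using h6
    have h6 : s = 1 := by
      apply frobenius_inj F p
      rw [frobenius_def, frobenius_def, h5, one_pow]
    have h7 : B * A * B⁻¹ * A⁻¹ = 1 := by
      apply Subtype.ext
      rw [← hsA, h6, map_one]; rfl
    have h8 : B * A * B⁻¹ = A := by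
      have := mul_inv_eq_one.mp h7
      exact this
    rw [mul_inv_eq_iff_eq_mul] at h8
    exact h8
  -- linear maps
  let L := Matrix.toLinAlgEquiv' (R := F) (n := Fin (m + 4))
  set β := L (B : Matrix (Fin (m + 4)) (Fin (m + 4)) F) with hβ
  set Nm : Matrix (Fin (m + 4)) (Fin (m + 4)) F := (A : Matrix (Fin (m + 4)) (Fin (m + 4)) F) - 1 with hNm
  have hNp : Nm ^ p = 0 := by
    haveI : CharP (Matrix (Fin (m + 4)) (Fin (m + 4)) F) p := inferInstance
    rw [hNm, sub_pow_char_of_commute _ (Commute.one_right _), one_pow, ← Matrix.SpecialLinearGroup.coe_pow, hAp]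
    simp
  have hr0 : (r : F) ≠ 0 := by
    intro h
    rw [CharP.cast_eq_zero_iff F p] at h
    exact hrp' ((Nat.prime_dvd_prime_iff_eq hp.out hrp).mp h).symm
  have hfr : finrank F (Fin (m + 4) → F) = m + 4 := by rw [Module.finrank_fintype_fun_eq_card, Fintype.card_fin]
  obtain ⟨k, hk1, hk2, hk3⟩ := main_lin (F := F) (V := Fin (m + 4) → F) hr0 (by rw [hfr]; omega) (β := β) (N := L Nm)
    (by rw [hβ, ← map_pow, ← Matrix.SpecialLinearGroup.coe_pow, hBr, Matrix.SpecialLinearGroup.coe_one, map_one])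
    (by
      intro h
      apply hB1
      apply Subtype.ext
      apply L.injective
      rw [← hβ, h, Matrix.SpecialLinearGroup.coe_one, map_one])
    ⟨p, by rw [← map_pow, hNp, map_zero]⟩
    (by
      intro h
      rw [← map_zero L] at h
      have h1 := L.injective h
      apply hA1
      apply Subtype.ext
      exact sub_eq_zero.mp h1)
    (by
      rw [hβ, ← map_mul, ← map_mul]
      congr 1
      rw [hNm, mul_sub, sub_mul, mul_one, one_mul, ← Matrix.SpecialLinearGroup.coe_mul, ← Matrix.SpecialLinearGroup.coe_mul, hAB])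
  rw [hfr] at hk2
  apply dvd_SL_of_dvd (k := k) _ (by omega) hk3
  by_contra hcon
  have : k = 1 := by omega
  rw [this, pow_one] at hk3
  exact hrq hk3

end Cfsg.Agent.H15.CEN
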