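import Mathlib
import Cfsg.Agent.H15_FM3

set_option autoImplicit false
open Module Polynomial Matrix

namespace Cfsg.Agent.H15.FM

open Cfsg.Agent.H15.SS

section sp

variable {F : Type*} [Field F] {n : ℕ}

/-- the standard alternating form -/
def spB (n : ℕ) (x y : Fin n ⊕ Fin n → F) : F := x ⬝ᵥ (J (Fin n) F *ᵥ y)

theorem spB_formula (x y : Fin n ⊕ Fin n → F) : spB n x y = ∑ i, (x (Sum.inr i) * y (Sum.inl i) - x (Sum.inl i) * y (Sum.inr i)) := by
  have h1 : ∀ i, (J (Fin n) F *ᵥ y) (Sum.inl i) = - y (Sum.inr i) := by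
    intro i
    rw [Matrix.mulVec, dotProduct, Fintype.sum_sum_type, J]
    simp [Matrix.fromBlocks_apply₁₁, Matrix.one_apply]
  have h2 : ∀ i, (J (Fin n) F *ᵥ y) (Sum.inr i) = y (Sum.inl i) := by
    intro i
    rw [Matrix.mulVec, dotProduct, Fintype.sum_sum_type, J]
    simp [Matrix.one_apply]
  rw [spB, dotProduct, Fintype.sum_sum_type, Finset.sum_sub_distrib]
  simp only [h1, h2, mul_neg, Finset.sum_neg_distrib]
  ring

theorem spFrm : Frm (RingHom.id F) (-1) (spB (F := F) n) where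
  add_left x y z := by
    rw [spB, spB, spB, add_dotProduct]
  smul_left a x y := by
    rw [spB, spB, smul_dotProduct, smul_eq_mul]
  symm x y := by
    rw [spB_formula, spB_formula, RingHom.id_apply, neg_one_mul, ← Finset.sum_neg_distrib]
    apply Finset.sum_congr rfl
    intro i _
    ring
  alt _ x := by
    rw [spB_formula]
    apply Finset.sum_eq_zero
    intro i _
    ring
  nondeg x h := by
    funext i
    rcases i with i | i
    · have := h (Pi.single (Sum.inr i) 1)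
      rw [spB_formula, Finset.sum_eq_single i] at this
      · simpa using this
      · intro j _ hj
        simp [hj]
      · intro h; exact absurd (Finset.mem_univ i) h
    · have := h (Pi.single (Sum.inl i) 1)
      rw [spB_formula, Finset.sum_eq_single i] at this
      · simpa using this
      · intro j _ hj
        simp [hj]
      · intro h; exact absurd (Finset.mem_univ i) h

theorem spB_mul (A : Matrix (Fin n ⊕ Fin n) (Fin n ⊕ Fin n) F) (x y : Fin n ⊕ Fin n → F) :
    spB n (A *ᵥ x) (A *ᵥ y) = x ⬝ᵥ ((Aᵀ * J (Fin n) F * A) *ᵥ y) := by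
  rw [spB, Matrix.mul_assoc, ← Matrix.mulVec_mulVec, ← Matrix.mulVec_mulVec, Matrix.dotProduct_mulVec x, Matrix.vecMul_transpose]

theorem spB_mem {A : Matrix (Fin n ⊕ Fin n) (Fin n ⊕ Fin n) F} : A ∈ Matrix.symplecticGroup (Fin n) F ↔
    ∀ x y, spB n (A *ᵥ x) (A *ᵥ y) = spB n x y := by
  rw [SymplecticGroup.mem_iff']
  constructor
  · intro h x y
    rw [spB_mul, h]; rfl
  · intro h
    ext i j
    have := h (Pi.single i 1) (Pi.single j 1)
    rw [spB_mul, spB] at this
    simpa using this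

theorem toLin'_pow {ι : Type*} [Fintype ι] [DecidableEq ι] (M : Matrix ι ι F) (k : ℕ) : (Matrix.toLin' M : Module.End F (ι → F)) ^ k = Matrix.toLin' (M ^ k) :=
  (map_pow (Matrix.toLinAlgEquiv' : Matrix ι ι F ≃ₐ[F] _) M k).symm

theorem sp_conj [Finite F] (p : ℕ) [Fact p.Prime] [CharP F p]
    (g h : ↥(Matrix.symplecticGroup (Fin n) F)) (hg : (orderOf g).Coprime p) (hh : (orderOf h).Coprime p)
    (hc : (g : Matrix (Fin n ⊕ Fin n) (Fin n ⊕ Fin n) F).charpoly = (h : Matrix (Fin n ⊕ Fin n) (Fin n ⊕ Fin n) F).charpoly) :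
    IsConj g h := by
  have hp : p.Prime := Fact.out
  have hne : ∀ k : ℕ, k.Coprime p → k ≠ 0 := by
    rintro k hk rfl
    rw [Nat.coprime_zero_left] at hk
    exact hp.one_lt.ne' hk
  have hm : 0 < orderOf g * orderOf h := Nat.pos_of_ne_zero (mul_ne_zero (hne _ hg) (hne _ hh))
  have hmc : (orderOf g * orderOf h).Coprime p := Nat.Coprime.mul_left hg hh
  have hmF : ((orderOf g * orderOf h : ℕ) : F) ≠ 0 := by
    intro h0
    rw [CharP.cast_eq_zero_iff F p] at h0
    exact hp.one_lt.ne' (Nat.Coprime.eq_one_of_dvd hmc.symm h0)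
  have hg1 : (Matrix.toLin' (g : Matrix (Fin n ⊕ Fin n) (Fin n ⊕ Fin n) F) : Module.End F _) ^ (orderOf g * orderOf h) = 1 := by
    rw [toLin'_pow, ← SubmonoidClass.coe_pow, pow_mul, pow_orderOf_eq_one, one_pow]
    exact Matrix.toLin'_one
  have hh1 : (Matrix.toLin' (h : Matrix (Fin n ⊕ Fin n) (Fin n ⊕ Fin n) F) : Module.End F _) ^ (orderOf g * orderOf h) = 1 := by
    rw [toLin'_pow, ← SubmonoidClass.coe_pow, mul_comm, pow_mul, pow_orderOf_eq_one, one_pow]
    exact Matrix.toLin'_one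
  obtain ⟨e, he1, he2⟩ := main (σ := RingHom.id F) (ε := -1) (fun a => rfl) (neg_ne_zero.mpr one_ne_zero) hm hmF _ (spFrm (F := F) (n := n)) (spFrm (F := F) (n := n))
    (g := Matrix.toLin' (g : Matrix (Fin n ⊕ Fin n) (Fin n ⊕ Fin n) F)) (h := Matrix.toLin' (h : Matrix (Fin n ⊕ Fin n) (Fin n ⊕ Fin n) F))
    (spB_mem.mp g.2) (spB_mem.mp h.2) hg1 hh1 rfl (by rw [Matrix.charpoly_toLin', Matrix.charpoly_toLin', hc])
  let E : Matrix (Fin n ⊕ Fin n) (Fin n ⊕ Fin n) F := LinearMap.toMatrix' (e : (Fin n ⊕ Fin n → F) →ₗ[F] (Fin n ⊕ Fin n → F))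
  have hE : ∀ x, E *ᵥ x = e x := by
    intro x
    rw [← Matrix.toLin'_apply, Matrix.toLin'_toMatrix']; rfl
  have hEm : E ∈ Matrix.symplecticGroup (Fin n) F := by
    rw [spB_mem]
    intro x y
    rw [hE, hE]
    exact he2 x y
  rw [isConj_iff]
  refine ⟨⟨E, hEm⟩, ?_⟩
  rw [mul_inv_eq_iff_eq_mul]
  apply Subtype.ext
  change E * (g : Matrix (Fin n ⊕ Fin n) (Fin n ⊕ Fin n) F) = (h : Matrix (Fin n ⊕ Fin n) (Fin n ⊕ Fin n) F) * E
  apply Matrix.toLin'.injective
  rw [Matrix.toLin'_mul, Matrix.toLin'_mul]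
  apply LinearMap.ext
  intro v
  rw [LinearMap.comp_apply, LinearMap.comp_apply, Matrix.toLin'_toMatrix']
  exact he1 v

end sp

end Cfsg.Agent.H15.FM
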