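import Mathlib

/-!
Counting fixed cosets in a rank two building.
-/

set_option autoImplicit false

namespace Cfsg.Agent.H15.FX

open Subgroup

variable {G : Type*} [Group G]

theorem smul_mk_eq {H : Subgroup G} {t g : G} : t • (g : G ⧸ H) = (g : G ⧸ H) ↔ g⁻¹ * t * g ∈ H := by
  rw [MulAction.Quotient.smul_coe, smul_eq_mul, eq_comm, QuotientGroup.eq, mul_assoc]

/-- commuting elements act on fixed points -/
theorem dvd_card_fix [Finite G] (H : Subgroup G) {t x : G} (h : Commute t x) {r : ℕ} (hr : r.Prime)
    (hx : orderOf x = r) (hH : ¬ r ∣ Nat.card H) : r ∣ Nat.card {y : G ⧸ H // t • y = y} := by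
  haveI : Fact r.Prime := ⟨hr⟩
  have hc : ∀ z ∈ zpowers x, Commute t z := by
    rintro _ ⟨k, rfl⟩; exact h.zpow_right k
  letI : MulAction (zpowers x) {y : G ⧸ H // t • y = y} :=
    { smul := fun z y => ⟨(z : G) • (y : G ⧸ H), by rw [smul_smul, (hc z z.2).eq, ← smul_smul, y.2]⟩
      one_smul := fun y => Subtype.ext (one_smul G (y : G ⧸ H))
      mul_smul := fun a b y => Subtype.ext (mul_smul (a : G) (b : G) (y : G ⧸ H)) }
  have hp : IsPGroup r (zpowers x) := IsPGroup.of_card (n := 1) (by rw [Nat.card_zpowers, hx, pow_one])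
  have h1 := hp.card_modEq_card_fixedPoints {y : G ⧸ H // t • y = y}
  have h2 : Nat.card (MulAction.fixedPoints (zpowers x) {y : G ⧸ H // t • y = y}) = 0 := by
    rw [Nat.card_eq_zero]
    left
    refine ⟨fun y => ?_⟩
    obtain ⟨⟨y, hy⟩, hf⟩ := y
    have h3 := congrArg Subtype.val (hf ⟨x, mem_zpowers x⟩)
    change x • y = y at h3
    induction y using QuotientGroup.induction_on with
    | _ g =>
      rw [smul_mk_eq] at h3
      apply hH
      rw [← hx]
      have h4 : orderOf (⟨g⁻¹ * x * g, h3⟩ : H) = orderOf x := by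
        rw [← Subgroup.orderOf_coe]
        have := orderOf_injective (MulAut.conj g⁻¹).toMonoidHom (MulAut.conj g⁻¹).injective x
        simpa using this
      rw [← h4]
      exact orderOf_dvd_natCard _
  rw [h2] at h1
  exact (Nat.modEq_zero_iff_dvd).1 h1

/-- the count of fixed vertices and fixed chambers -/
theorem count_fixed [Finite G] (B : Subgroup G) (P : Fin 2 → Subgroup G) (hBP : ∀ j, B ≤ P j)
    (A : Fin 2 → G → Prop)
    (hl : ∀ j g b, b ∈ B → A j g → A j (b * g)) (hr : ∀ j g b, b ∈ B → A j g → A j (g * b))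
    (hex : ∀ j g, ∃ p ∈ P j, A j (g * p))
    (hu : ∀ j g p, p ∈ P j → A j g → A j (g * p) → p ∈ B)
    (hboth : ∀ g, A 0 g → A 1 g → g ∈ B) (h01 : ∀ j, A j 1)
    (t : G) (ht : t ∈ B) (hany : ∀ g, g⁻¹ * t * g ∈ B → A 0 g ∨ A 1 g) :
    Nat.card {x : G ⧸ P 0 // t • x = x} + Nat.card {x : G ⧸ P 1 // t • x = x} =
      Nat.card {x : G ⧸ B // t • x = x} + 1 := by
  classical
  haveI := Fintype.ofFinite (G ⧸ B)
  let A' : Fin 2 → G ⧸ B → Prop := fun j x => Quotient.liftOn' x (A j) (fun a b hab => by
    have hab' : a⁻¹ * b ∈ B := QuotientGroup.leftRel_apply.1 hab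
    apply propext
    constructor
    · intro h
      have := hr j a _ hab' h
      rwa [mul_inv_cancel_left] at this
    · intro h
      have := hr j b _ (inv_mem hab') h
      rwa [mul_inv_rev, inv_inv, mul_inv_cancel_left] at this)
  have hA' : ∀ j (g : G), A' j (g : G ⧸ B) ↔ A j g := fun j g => Iff.rfl
  have key : ∀ j, Nat.card {x : G ⧸ P j // t • x = x} = Nat.card {x : G ⧸ B // t • x = x ∧ A' j x} := by
    intro j
    symm
    let f : {x : G ⧸ B // t • x = x ∧ A' j x} → {x : G ⧸ P j // t • x = x} := fun x =>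
      ⟨Quotient.map' (s₂ := QuotientGroup.leftRel (P j)) id (fun a b hab => by
        rw [QuotientGroup.leftRel_apply] at hab ⊢
        exact hBP j hab) x.1, by
        obtain ⟨x, hx, -⟩ := x
        induction x using QuotientGroup.induction_on with
        | _ g =>
          change t • ((g : G) : G ⧸ P j) = ((g : G) : G ⧸ P j)
          rw [smul_mk_eq] at hx ⊢
          exact hBP j hx⟩
    refine Nat.card_congr (Equiv.ofBijective f ⟨?_, ?_⟩)
    · rintro ⟨x, hx, hxA⟩ ⟨y, hy, hyA⟩ he
      apply Subtype.ext
      change x = y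
      have he' := congrArg Subtype.val he
      induction x using QuotientGroup.induction_on with
      | _ g =>
      induction y using QuotientGroup.induction_on with
      | _ g' =>
        change ((g : G) : G ⧸ P j) = ((g' : G) : G ⧸ P j) at he'
        rw [QuotientGroup.eq] at he' ⊢
        exact hu j g _ he' hxA (by rw [mul_inv_cancel_left]; exact hyA)
    · rintro ⟨y, hy⟩
      induction y using QuotientGroup.induction_on with
      | _ g =>
        obtain ⟨p, hp, hA⟩ := hex j g
        rw [smul_mk_eq] at hy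
        have h1 : (g * p)⁻¹ * t * (g * p) ∈ P j := by
          have : (g * p)⁻¹ * t * (g * p) = p⁻¹ * (g⁻¹ * t * g) * p := by group
          rw [this]
          exact mul_mem (mul_mem (inv_mem hp) hy) hp
        have h2 : (g * p)⁻¹ * t * (g * p) ∈ B := by
          apply hu j (g * p) _ h1 hA
          have : g * p * ((g * p)⁻¹ * t * (g * p)) = t * (g * p) := by group
          rw [this]
          exact hl j _ t ht hA
        refine ⟨⟨((g * p : G) : G ⧸ B), smul_mk_eq.2 h2, hA⟩, ?_⟩
        apply Subtype.ext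
        change ((g * p : G) : G ⧸ P j) = ((g : G) : G ⧸ P j)
        rw [QuotientGroup.eq]
        have : (g * p)⁻¹ * g = p⁻¹ := by group
        rw [this]
        exact inv_mem hp
  rw [key 0, key 1]
  have e0 : ∀ j, Nat.card {x : G ⧸ B // t • x = x ∧ A' j x} =
      (Finset.univ.filter fun x : G ⧸ B => t • x = x ∧ A' j x).card := fun j => by
    rw [Nat.card_eq_fintype_card, Fintype.card_subtype]
  have e1 : Nat.card {x : G ⧸ B // t • x = x} = (Finset.univ.filter fun x : G ⧸ B => t • x = x).card := by
    rw [Nat.card_eq_fintype_card, Fintype.card_subtype]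
  rw [e0, e0, e1, ← Finset.card_union_add_card_inter]
  have h1 : ((1 : G) : G ⧸ B) = ((1 : G) : G ⧸ B) := rfl
  congr 1
  · congr 1
    ext x
    simp only [Finset.mem_union, Finset.mem_filter, Finset.mem_univ, true_and]
    constructor
    · rintro (h | h) <;> exact h.1
    · intro h
      induction x using QuotientGroup.induction_on with
      | _ g =>
        rcases hany g (smul_mk_eq.1 h) with h' | h'
        · exact Or.inl ⟨h, h'⟩
        · exact Or.inr ⟨h, h'⟩
  · rw [Finset.card_eq_one]
    refine ⟨((1 : G) : G ⧸ B), ?_⟩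
    ext x
    simp only [Finset.mem_inter, Finset.mem_filter, Finset.mem_univ, true_and, Finset.mem_singleton]
    constructor
    · rintro ⟨⟨-, h0⟩, -, h1⟩
      induction x using QuotientGroup.induction_on with
      | _ g =>
        have := hboth g h0 h1
        rw [QuotientGroup.eq, mul_one]
        exact inv_mem this
    · rintro rfl
      have h2 : t • ((1 : G) : G ⧸ B) = ((1 : G) : G ⧸ B) := smul_mk_eq.2 (by simpa using ht)
      exact ⟨⟨h2, h01 0⟩, h2, h01 1⟩

end Cfsg.Agent.H15.FX
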