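import Cfsg.Agent.H6_TwBN
import Cfsg.Agent.H6_TwH
import Cfsg.Agent.H15_FX1

/-!
Twisted groups of rank two: fixed cosets.
-/

set_option autoImplicit false
set_option linter.unusedSectionVars false

namespace Cfsg.Agent.H15.FX

open Cfsg Cfsg.Lie Cfsg.Lie.ChevalleyDatum Cfsg.Agent.H6.Chev

variable {D : ChevalleyDatum} {m : Model D} {F : Type*} [Field F] {ι : Type} {T : Tw m F ι} (P : TwG T)

/-- the Borel subgroup -/
def B1 : Subgroup ↥P.G1 := (D.borelSubgroup F).subgroupOf P.G1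

theorem mem_B1 {g : ↥P.G1} : g ∈ B1 P ↔ (g : GL D.Idx F) ∈ D.borelSubgroup F := Iff.rfl

/-- the element `n_j` -/
noncomputable def nj (j : ι) : ↥P.G1 := ⟨P.nj j, P.nj_G j⟩

theorem H_mem {g : ↥P.G1} (h : (g : GL D.Idx F) ∈ D.diagonalSubgroup F) : g ∈ B1 P := Model.H_le_B h

/-- the ascent predicate -/
def Asc (j : ι) (g : ↥P.G1) : Prop := ∃ b n b' : ↥P.G1, b ∈ B1 P ∧ b' ∈ B1 P ∧
  (n : GL D.Idx F) ∈ D.monomialSubgroup F ∧ ∃ w ∈ T.W1, m.Acts (n : GL D.Idx F) w ∧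
    (∀ i, T.o i = j → m.N ≤ (w (m.p i) : ℕ)) ∧ g = b * n * b'

theorem nj_conj_H (j : ι) {h : GL D.Idx F} (hh : h ∈ D.diagonalSubgroup F) :
    P.nj j * h * (P.nj j)⁻¹ ∈ D.diagonalSubgroup F :=
  (Subgroup.mem_normalizer_iff.1 (m.N_le_normalizer (P.nj_N j)) _).1 hh

theorem nj_conj_H' (j : ι) {h : GL D.Idx F} (hh : h ∈ D.diagonalSubgroup F) :
    (P.nj j)⁻¹ * h * P.nj j ∈ D.diagonalSubgroup F := by
  apply (Subgroup.mem_normalizer_iff.1 (m.N_le_normalizer (P.nj_N j)) _).2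
  have : P.nj j * ((P.nj j)⁻¹ * h * P.nj j) * (P.nj j)⁻¹ = h := by group
  rw [this]; exact hh

/-- the parabolic subgroup -/
def Pj (j : ι) : Subgroup ↥P.G1 where
  carrier := {g | g ∈ B1 P ∨ ∃ b ∈ B1 P, ∃ b' ∈ B1 P, g = b * nj P j * b'}
  one_mem' := Or.inl (one_mem _)
  mul_mem' := by
    rintro x y (hx | ⟨b, hb, b', hb', rfl⟩) (hy | ⟨c, hc, c', hc', rfl⟩)
    · exact Or.inl (mul_mem hx hy)
    · exact Or.inr ⟨x * c, mul_mem hx hc, c', hc', by group⟩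
    · exact Or.inr ⟨b, hb, b' * y, mul_mem hb' hy, by group⟩
    · have h1 : b' * c ∈ B1 P := mul_mem hb' hc
      rcases P.nj_mul_B_mul_N j h1 (b' * c).2 (P.nj_N j) (P.nj_G j) with
        ⟨d, hd, hdG, d', hd', hdG', he⟩ | ⟨d, hd, hdG, d', hd', hdG', he⟩
      · left
        have e : b * nj P j * b' * (c * nj P j * c') =
            b * (⟨d, hdG⟩ * (nj P j * nj P j) * ⟨d', hdG'⟩) * c' := by
          apply Subtype.ext
          change (b : GL D.Idx F) * P.nj j * b' * (c * P.nj j * c') = b * (d * (P.nj j * P.nj j) * d') * c'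
          have he' : P.nj j * ((b' : GL D.Idx F) * c) * P.nj j = d * (P.nj j * P.nj j) * d' := he
          rw [← he']; group
        rw [e]
        exact mul_mem (mul_mem hb (mul_mem (mul_mem hd (H_mem P (P.nj_sq j))) hd')) hc'
      · right
        refine ⟨b * ⟨d, hdG⟩, mul_mem hb hd, ⟨d', hdG'⟩ * c', mul_mem hd' hc', ?_⟩
        apply Subtype.ext
        change (b : GL D.Idx F) * P.nj j * b' * (c * P.nj j * c') = b * d * P.nj j * (d' * c')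
        have he' : P.nj j * ((b' : GL D.Idx F) * c) * P.nj j = d * P.nj j * d' := he
        calc (b : GL D.Idx F) * P.nj j * b' * (c * P.nj j * c') = b * (P.nj j * ((b' : GL D.Idx F) * c) * P.nj j) * c' := by
              group
          _ = _ := by rw [he']; group
  inv_mem' := by
    rintro x (hx | ⟨b, hb, b', hb', rfl⟩)
    · exact Or.inl (inv_mem hx)
    · refine Or.inr ⟨b'⁻¹ * (nj P j * nj P j)⁻¹, mul_mem (inv_mem hb') (inv_mem (H_mem P (P.nj_sq j))), b⁻¹,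
        inv_mem hb, by group⟩

theorem mem_Pj {j : ι} {g : ↥P.G1} : g ∈ Pj P j ↔ g ∈ B1 P ∨ ∃ b ∈ B1 P, ∃ b' ∈ B1 P, g = b * nj P j * b' :=
  Iff.rfl

theorem B1_le (j : ι) : B1 P ≤ Pj P j := fun _ h => Or.inl h

theorem nj_mem (j : ι) : nj P j ∈ Pj P j := Or.inr ⟨1, one_mem _, 1, one_mem _, by group⟩

/-- `n b n_j` when `w` is positive on the orbit -/
theorem mul_cell {n b : ↥P.G1} (hb : b ∈ B1 P) {w : Equiv.Perm (Fin D.nroots)} (hw : w ∈ T.W1)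
    (hact : m.Acts (n : GL D.Idx F) w) {j : ι} (hpos : ∀ i, T.o i = j → m.N ≤ (w (m.p i) : ℕ)) :
    ∃ c ∈ B1 P, ∃ c' ∈ B1 P, n * b * nj P j = c * (n * nj P j) * c' := by
  obtain ⟨u, hu, huG, h, hh, hhG, he⟩ := P.mem_B1 b.2 hb
  obtain ⟨v, hv, hvf, a, ha, haf, rfl⟩ := T.split_fix j hu (P.le_fix huG)
  have hvG : v ∈ P.G1 := P.UJ_le j v hv hvf
  have haG : a ∈ P.G1 := by
    have : a = v⁻¹ * (v * a) := by group
    rw [this]; exact mul_mem (inv_mem hvG) huG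
  have h1 := TwN.conj_pos n.2 hw hact hpos hv hvf
  have h2 : (P.nj j)⁻¹ * a * P.nj j ∈ D.posUnipotent F := by
    have h1 := m.acts_inv (P.nj_N j) (P.nj_acts j)
    rw [T.wj_inv] at h1
    rw [m.posUnipotent_eq]
    have h2 := m.map_gen_acts (F := F) h1 (R := fun r => m.N ≤ r ∧ ¬ D.InRootSub (T.Js j) r) (R' := fun r => m.N ≤ r)
      (fun r hr => T.wj_pos hr.1 hr.2)
    have h3 := h2 ⟨a, ha, rfl⟩
    change (P.nj j)⁻¹ * a * ((P.nj j)⁻¹)⁻¹ ∈ _ at h3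
    rwa [inv_inv] at h3
  have h3 := nj_conj_H' P j hh
  have m1 : n * ⟨v, hvG⟩ * n⁻¹ ∈ B1 P := Model.U_le_B (Subgroup.mem_inf.1 h1).1
  have m2 : (nj P j)⁻¹ * ⟨a, haG⟩ * nj P j ∈ B1 P := Model.U_le_B h2
  have m3 : (nj P j)⁻¹ * ⟨h, hhG⟩ * nj P j ∈ B1 P := Model.H_le_B h3
  have e4 : b = ⟨v, hvG⟩ * ⟨a, haG⟩ * ⟨h, hhG⟩ := Subtype.ext he
  refine ⟨_, m1, _, mul_mem m2 m3, ?_⟩
  rw [e4]
  group

theorem asc_left {j : ι} {g b : ↥P.G1} (hb : b ∈ B1 P) (h : Asc P j g) : Asc P j (b * g) := by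
  obtain ⟨c, n, c', hc, hc', hn, w, hw, hact, hpos, rfl⟩ := h
  exact ⟨b * c, n, c', mul_mem hb hc, hc', hn, w, hw, hact, hpos, by group⟩

theorem asc_right {j : ι} {g b : ↥P.G1} (hb : b ∈ B1 P) (h : Asc P j g) : Asc P j (g * b) := by
  obtain ⟨c, n, c', hc, hc', hn, w, hw, hact, hpos, rfl⟩ := h
  exact ⟨c, n, c' * b, hc, mul_mem hc' hb, hn, w, hw, hact, hpos, by group⟩

/-- the Bruhat decomposition in `G1` -/
theorem bruhat1 (g : ↥P.G1) : ∃ b n u : ↥P.G1, b ∈ B1 P ∧ u ∈ B1 P ∧ (n : GL D.Idx F) ∈ D.monomialSubgroup F ∧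
    ∃ w ∈ T.W1, m.Acts (n : GL D.Idx F) w ∧ (u : GL D.Idx F) ∈ m.Uw F w ∧ g = b * n * u := by
  obtain ⟨u₁, hu₁, hu₁G, n, hn, hnG, w, hw, ha, u, hu, huG, he⟩ := P.bruhat g.2
  exact ⟨⟨u₁, hu₁G⟩, ⟨n, hnG⟩, ⟨u, huG⟩, Model.U_le_B hu₁, Model.U_le_B (m.Uw_le_U _ hu), hn, w, hw, ha, hu,
    Subtype.ext he⟩

theorem asc_ex (j : ι) (g : ↥P.G1) : ∃ p ∈ Pj P j, Asc P j (g * p) := by
  obtain ⟨b, n, u, hb, hu, hn, w, hw, hact, -, rfl⟩ := bruhat1 P g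
  by_cases hpos : ∀ i, T.o i = j → m.N ≤ (w (m.p i) : ℕ)
  · exact ⟨1, one_mem _, b, n, u, hb, hu, hn, w, hw, hact, hpos, by group⟩
  · push Not at hpos
    obtain ⟨i₀, hi₀, hneg⟩ := hpos
    have hneg' : ∀ i, T.o i = j → (w (m.p i) : ℕ) < m.N := fun i hi =>
      (T.W1_sign hw (hi₀.trans hi.symm)).1 hneg
    refine ⟨u⁻¹ * nj P j, mul_mem (inv_mem (B1_le P j hu)) (nj_mem P j), b, n * nj P j, 1, hb, one_mem _,
      mul_mem hn (P.nj_N j), w * T.wj j, mul_mem hw (T.wj_mem_W1 j), hact.mul (P.nj_acts j),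
      fun i hi => T.mul_wj_pos hw.1 hneg' hi, by group⟩

/-- uniqueness of the cell -/
theorem cell_unique {b n b' c k c' : ↥P.G1} (hb : b ∈ B1 P) (hb' : b' ∈ B1 P) (hc : c ∈ B1 P) (hc' : c' ∈ B1 P)
    (hn : (n : GL D.Idx F) ∈ D.monomialSubgroup F) (hk : (k : GL D.Idx F) ∈ D.monomialSubgroup F)
    {w v : Equiv.Perm (Fin D.nroots)} (hw : m.Acts (n : GL D.Idx F) w) (hv : m.Acts (k : GL D.Idx F) v)
    (he : b * n * b' = c * k * c') : w = v := by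
  have h1 := m.bruhat_unique_N hb hc hn hk hb' hc' (congrArg Subtype.val he)
  have h2 := m.acts_h h1
  have h3 : m.Acts (k : GL D.Idx F) w := by
    have := hw.mul h2
    rwa [mul_inv_cancel_left, mul_one] at this
  exact m.acts_unique h3 hv

theorem asc_unique {j : ι} {g p : ↥P.G1} (hp : p ∈ Pj P j) (hg : Asc P j g) (hgp : Asc P j (g * p)) :
    p ∈ B1 P := by
  rcases hp with hp | ⟨c, hc, c', hc', rfl⟩
  · exact hp
  exfalso
  obtain ⟨b, n, b', hb, hb', hn, w, hw, hact, hpos, rfl⟩ := hg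
  obtain ⟨d, k, d', hd, hd', hk, v, hv, hact', hpos', he⟩ := hgp
  obtain ⟨e, he1, e', he1', he2⟩ := mul_cell P (mul_mem hb' hc) hw hact hpos
  have h1 : (b * e) * (n * nj P j) * (e' * c') = d * k * d' := by
    rw [← he]
    calc (b * e) * (n * nj P j) * (e' * c') = b * (e * (n * nj P j) * e') * c' := by group
      _ = _ := by rw [← he2]; group
  have h2 := cell_unique P (mul_mem hb he1) (mul_mem he1' hc') hd hd' (mul_mem hn (P.nj_N j)) hk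
    (hact.mul (P.nj_acts j)) hact' h1
  obtain ⟨i, hi⟩ := T.o_surj j
  have h3 := T.mul_wj_neg hw.1 hpos hi
  have h4 := hpos' i hi
  rw [← h2] at h4
  omega

theorem asc_one (j : ι) : Asc P j 1 :=
  ⟨1, 1, 1, one_mem _, one_mem _, one_mem _, 1, one_mem _, by
    have := m.acts_dm (F := F) 1
    rw [map_one] at this
    exact this, fun i _ => m.p_pos i, by group⟩

theorem mem_of_asc {g : ↥P.G1} (h : ∀ j, Asc P j g) [Nonempty ι] : g ∈ B1 P := by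
  obtain ⟨b, n, u, hb, hu, hn, w, hw, hact, -, rfl⟩ := bruhat1 P g
  have h1 : ∀ i, m.N ≤ (w (m.p i) : ℕ) := by
    intro i
    obtain ⟨c, k, c', hc, hc', hk, v, hv, hact', hpos', he⟩ := h (T.o i)
    have := cell_unique P hb hu hc hc' hn hk hact hact' he
    rw [this]
    exact hpos' i rfl
  have h2 := m.eq_one_of_pos hw.1 h1
  rw [h2] at hact
  exact mul_mem (mul_mem hb (Model.H_le_B (m.mem_H_of_acts_one hn hact))) hu

/-- an element fixing opposite chambers is conjugate into `H` -/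
theorem exists_H {g t : ↥P.G1} (h : ∀ j, ¬ Asc P j g) (ht : t ∈ B1 P) (hg : g⁻¹ * t * g ∈ B1 P) :
    ∃ k : ↥P.G1, ((k⁻¹ * t * k : ↥P.G1) : GL D.Idx F) ∈ D.diagonalSubgroup F := by
  obtain ⟨b, n, u, hb, hu, hn, w, hw, hact, -, rfl⟩ := bruhat1 P g
  have h1 : ∀ i, (w (m.p i) : ℕ) < m.N := by
    intro i
    by_contra hc
    rw [not_lt] at hc
    exact h (T.o i) ⟨b, n, u, hb, hu, hn, w, hw, hact, fun i' hi' => (T.W1_sign' hw hi').2 hc, rfl⟩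
  have h2 : ∀ r : Fin D.nroots, m.N ≤ r → (w r : ℕ) < m.N := fun r hr => (m.isW hw.1).neg_of_simple h1 hr
  have h3 : ∀ r : Fin D.nroots, m.N ≤ r → ((w⁻¹) r : ℕ) < m.N := by
    intro r hr
    by_contra hc
    rw [not_lt] at hc
    have := h2 _ hc
    rw [← Equiv.Perm.mul_apply, mul_inv_cancel, Equiv.Perm.one_apply] at this
    omega
  have ht' : b⁻¹ * t * b ∈ B1 P := mul_mem (mul_mem (inv_mem hb) ht) hb
  have hn' : n⁻¹ * (b⁻¹ * t * b) * n ∈ B1 P := by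
    have e : n⁻¹ * (b⁻¹ * t * b) * n = u * ((b * n * u)⁻¹ * t * (b * n * u)) * u⁻¹ := by group
    rw [e]
    exact mul_mem (mul_mem hu hg) (inv_mem hu)
  obtain ⟨v, hv, hvG, k, hk, hkG, he⟩ := P.mem_B1 (b⁻¹ * t * b).2 ht'
  refine ⟨b, ?_⟩
  have h4 : (n : GL D.Idx F)⁻¹ * k * n ∈ D.diagonalSubgroup F := by
    apply (Subgroup.mem_normalizer_iff.1 (m.N_le_normalizer hn) _).2
    have : (n : GL D.Idx F) * ((n : GL D.Idx F)⁻¹ * k * n) * (n : GL D.Idx F)⁻¹ = k := by group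
    rw [this]; exact hk
  have h5 : (n : GL D.Idx F)⁻¹ * v * n ∈ D.borelSubgroup F := by
    have e : (n : GL D.Idx F)⁻¹ * v * n = ((n⁻¹ * (b⁻¹ * t * b) * n : ↥P.G1) : GL D.Idx F) *
        ((n : GL D.Idx F)⁻¹ * k * n)⁻¹ := by
      have e1 : ((n⁻¹ * (b⁻¹ * t * b) * n : ↥P.G1) : GL D.Idx F) =
          (n : GL D.Idx F)⁻¹ * ((b⁻¹ * t * b : ↥P.G1) : GL D.Idx F) * n := rfl
      rw [e1, he]; group
    rw [e]
    exact mul_mem hn' (inv_mem (Model.H_le_B h4))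
  have h6 : (n : GL D.Idx F)⁻¹ * v * n ∈ D.negUnipotent F := by
    have h7 := m.acts_inv hn hact
    rw [m.posUnipotent_eq] at hv
    rw [m.negUnipotent_eq]
    have h8 := m.map_gen_acts (F := F) h7 (R := fun r => m.N ≤ r) (R' := fun r => r < m.N) (fun r hr => h3 r hr)
    have h9 := h8 ⟨v, hv, rfl⟩
    change (n : GL D.Idx F)⁻¹ * v * ((n : GL D.Idx F)⁻¹)⁻¹ ∈ _ at h9
    rwa [inv_inv] at h9
  have h7 : (n : GL D.Idx F)⁻¹ * v * n ∈ D.borelSubgroup F ⊓ D.negUnipotent F := ⟨h5, h6⟩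
  rw [m.B_inf_V, Subgroup.mem_bot] at h7
  have h8 : v = 1 := by
    have : v = (n : GL D.Idx F) * ((n : GL D.Idx F)⁻¹ * v * n) * (n : GL D.Idx F)⁻¹ := by group
    rw [this, h7]; group
  rw [he, h8, one_mul]
  exact hk

end Cfsg.Agent.H15.FX
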