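import Cfsg.Agent.H6_TwOrd
import Cfsg.Agent.H15_FX2

/-!
Twisted groups of rank two: centralizers of unipotent elements.
-/

set_option autoImplicit false
set_option linter.unusedSectionVars false

namespace Cfsg.Agent.H15.FX

open Cfsg Cfsg.Lie Cfsg.Lie.ChevalleyDatum Cfsg.Agent.H6.Chev

section
variable {D : ChevalleyDatum} {m : Model D} {F : Type*} [Field F] {ι : Type} {T : Tw m F ι} (P : TwG T)

theorem card_B1 : Nat.card (B1 P) = Nat.card ↥(D.posUnipotent F ⊓ P.G1) * Nat.card ↥(D.diagonalSubgroup F ⊓ P.G1) := by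
  rw [← Nat.card_prod]
  symm
  refine Nat.card_congr (Equiv.ofBijective
    (fun x : ↥(D.posUnipotent F ⊓ P.G1) × ↥(D.diagonalSubgroup F ⊓ P.G1) =>
      (⟨⟨x.1.1 * x.2.1, mul_mem (Subgroup.mem_inf.1 x.1.2).2 (Subgroup.mem_inf.1 x.2.2).2⟩,
        m.mem_B.2 ⟨x.1.1, (Subgroup.mem_inf.1 x.1.2).1, x.2.1, (Subgroup.mem_inf.1 x.2.2).1, rfl⟩⟩ :
        ↥(B1 P))) ⟨?_, ?_⟩)
  · rintro ⟨⟨u, hu⟩, ⟨h, hh⟩⟩ ⟨⟨u', hu'⟩, ⟨h', hh'⟩⟩ he
    have he' : u * h = u' * h' := congrArg Subtype.val (congrArg Subtype.val he)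
    have h1 : u'⁻¹ * u = h' * h⁻¹ := by
      rw [inv_mul_eq_iff_eq_mul, ← mul_assoc, ← he', mul_inv_cancel_right]
    have h2 : u'⁻¹ * u ∈ D.posUnipotent F ⊓ D.diagonalSubgroup F :=
      Subgroup.mem_inf.2 ⟨mul_mem (inv_mem (Subgroup.mem_inf.1 hu').1) (Subgroup.mem_inf.1 hu).1, by
        rw [h1]; exact mul_mem (Subgroup.mem_inf.1 hh').1 (inv_mem (Subgroup.mem_inf.1 hh).1)⟩
    rw [m.U_inf_H, Subgroup.mem_bot] at h2
    rw [h2] at h1
    have e1 : u' = u := inv_mul_eq_one.1 h2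
    have e2 : h' = h := mul_inv_eq_one.1 h1.symm
    subst e1 e2
    rfl
  · rintro ⟨⟨b, hbG⟩, hb⟩
    obtain ⟨u, hu, huG, h, hh, hhG, rfl⟩ := P.mem_B1 hbG hb
    exact ⟨(⟨u, Subgroup.mem_inf.2 ⟨hu, huG⟩⟩, ⟨h, Subgroup.mem_inf.2 ⟨hh, hhG⟩⟩), rfl⟩

theorem nj_not_mem (j : ι) : nj P j ∉ B1 P := by
  intro h
  have h2 := m.acts_one_of_mem_B h (P.nj_acts j)
  obtain ⟨i, hi⟩ := T.o_surj j
  have h3 := T.wd_neg j i hi
  have h4 : (T.wj j (m.p i) : ℕ) < m.N := h3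
  rw [h2] at h4
  have := m.p_pos i
  change ((m.p i : Fin D.nroots) : ℕ) < m.N at h4
  omega

theorem card_Pj [Finite F] (j : ι) : Nat.card (Pj P j) = Nat.card (B1 P) * (1 + Nat.card ↥(T.UJ j ⊓ P.G1)) := by
  classical
  haveI : Finite (GL D.Idx F) := inferInstance
  have e : Nat.card (Pj P j) = Nat.card (B1 P ⊕ (B1 P × ↥(T.UJ j ⊓ P.G1))) := by
    symm
    let f : (B1 P ⊕ (B1 P × ↥(T.UJ j ⊓ P.G1))) → Pj P j := fun x => match x with
      | Sum.inl b => ⟨b, Or.inl b.2⟩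
      | Sum.inr (b, u) => ⟨(b : ↥P.G1) * nj P j * ⟨u.1, u.2.2⟩, Or.inr ⟨b, b.2, ⟨u.1, u.2.2⟩,
          Model.U_le_B (T.UJ_le_U j u.2.1), rfl⟩⟩
    refine Nat.card_congr (Equiv.ofBijective f ⟨?_, ?_⟩)
    · rintro (b | ⟨b, u⟩) (c | ⟨c, v⟩) he
      · have := congrArg Subtype.val he
        exact congrArg Sum.inl (Subtype.ext this)
      · exfalso
        have h1 : (b : ↥P.G1) = (c : ↥P.G1) * nj P j * ⟨v.1, v.2.2⟩ := congrArg Subtype.val he
        have hv : (⟨v.1, v.2.2⟩ : ↥P.G1) ∈ B1 P := Model.U_le_B (T.UJ_le_U j v.2.1)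
        apply nj_not_mem P j
        have h2 : nj P j = (c : ↥P.G1)⁻¹ * b * (⟨v.1, v.2.2⟩ : ↥P.G1)⁻¹ := by rw [h1]; group
        rw [h2]
        exact mul_mem (mul_mem (inv_mem c.2) b.2) (inv_mem hv)
      · exfalso
        have h1 : (b : ↥P.G1) * nj P j * ⟨u.1, u.2.2⟩ = (c : ↥P.G1) := congrArg Subtype.val he
        have hv : (⟨u.1, u.2.2⟩ : ↥P.G1) ∈ B1 P := Model.U_le_B (T.UJ_le_U j u.2.1)
        apply nj_not_mem P j
        have h2 : nj P j = (b : ↥P.G1)⁻¹ * c * (⟨u.1, u.2.2⟩ : ↥P.G1)⁻¹ := by rw [← h1]; group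
        rw [h2]
        exact mul_mem (mul_mem (inv_mem b.2) c.2) (inv_mem hv)
      · have h1 : (b : ↥P.G1) * nj P j * ⟨u.1, u.2.2⟩ = (c : ↥P.G1) * nj P j * ⟨v.1, v.2.2⟩ :=
          congrArg Subtype.val he
        have h2 : ((b : ↥P.G1) : GL D.Idx F) * P.nj j * u.1 = ((c : ↥P.G1) : GL D.Idx F) * P.nj j * v.1 :=
          congrArg Subtype.val h1
        have hu : u.1 ∈ m.Uw F (T.wj j) := by rw [T.Uw_wj]; exact u.2.1
        have hv : v.1 ∈ m.Uw F (T.wj j) := by rw [T.Uw_wj]; exact v.2.1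
        obtain ⟨e1, e2⟩ := m.bruhat_unique b.2 c.2 (P.nj_acts j) hu hv h2
        have e3 : b = c := Subtype.ext (Subtype.ext e1)
        have e4 : u = v := Subtype.ext e2
        rw [e3, e4]
    · rintro ⟨g, hg⟩
      rcases hg with hg | ⟨b, hb, b', hb', rfl⟩
      · exact ⟨Sum.inl ⟨g, hg⟩, rfl⟩
      · obtain ⟨c, n, u, hc, hu, hn, w, hw, hact, huw, he⟩ := bruhat1 P (b * nj P j * b')
        have h1 := cell_unique P hb hb' hc hu (P.nj_N j) hn (P.nj_acts j) hact he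
        rw [← h1, T.Uw_wj] at huw
        rw [← h1] at hact
        have h2 : n * (nj P j)⁻¹ ∈ B1 P := by
          apply H_mem P
          apply m.mem_H_of_acts_one (mul_mem hn (inv_mem (P.nj_N j)))
          have := hact.mul (m.acts_inv (P.nj_N j) (P.nj_acts j))
          rwa [mul_inv_cancel] at this
        refine ⟨Sum.inr (⟨c * (n * (nj P j)⁻¹), mul_mem hc h2⟩, ⟨u, huw, u.2⟩), ?_⟩
        apply Subtype.ext
        change c * (n * (nj P j)⁻¹) * nj P j * u = b * nj P j * b'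
        rw [he]; group
  rw [e, Nat.card_sum, Nat.card_prod]
  ring

end

section
variable {D : ChevalleyDatum} {m : Model D} {F : Type*} [Field F] {T : Tw m F (Fin 2)} (P : TwG T)

theorem no_commute [Finite F] {p r : ℕ} (hp : p.Prime) (hr : r.Prime) {t x : ↥P.G1} (ht : orderOf t = p)
    (hx : orderOf x = r) (h : Commute t x) (hpH : ¬ p ∣ Nat.card ↥(D.diagonalSubgroup F ⊓ P.G1))
    (hpB : ¬ p ∣ (B1 P).index) (hrB : ¬ r ∣ Nat.card (B1 P))
    (hrP : ∀ j, ¬ r ∣ 1 + Nat.card ↥(T.UJ j ⊓ P.G1)) : False := by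
  haveI : Finite (GL D.Idx F) := inferInstance
  haveI : Finite ↥P.G1 := inferInstance
  haveI : Fact p.Prime := ⟨hp⟩
  -- a fixed chamber
  obtain ⟨g, hg⟩ : ∃ g : ↥P.G1, g⁻¹ * t * g ∈ B1 P := by
    have hpg : IsPGroup p (Subgroup.zpowers t) := IsPGroup.of_card (n := 1) (by rw [Nat.card_zpowers, ht, pow_one])
    have h1 := hpg.card_modEq_card_fixedPoints (↥P.G1 ⧸ B1 P)
    have h2 : Nat.card (MulAction.fixedPoints (Subgroup.zpowers t) (↥P.G1 ⧸ B1 P)) ≠ 0 := by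
      intro h0
      rw [h0] at h1
      exact hpB ((Nat.modEq_zero_iff_dvd).1 h1)
    obtain ⟨⟨y, hy⟩⟩ := (Nat.card_ne_zero.1 h2).1
    have h3 := hy ⟨t, Subgroup.mem_zpowers t⟩
    change t • y = y at h3
    induction y using QuotientGroup.induction_on with
    | _ g => exact ⟨g, smul_mk_eq.1 h3⟩
  have hc : Commute (g⁻¹ * t * g) (g⁻¹ * x * g) := by
    have h1 : t * x = x * t := h
    change g⁻¹ * t * g * (g⁻¹ * x * g) = g⁻¹ * x * g * (g⁻¹ * t * g)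
    calc g⁻¹ * t * g * (g⁻¹ * x * g) = g⁻¹ * (t * x) * g := by group
      _ = _ := by rw [h1]; group
  have ho : ∀ y k : ↥P.G1, orderOf (k⁻¹ * y * k) = orderOf y := fun y k => by
    have := orderOf_injective (MulAut.conj k⁻¹).toMonoidHom (MulAut.conj k⁻¹).injective y
    simpa using this
  have hx' : orderOf (g⁻¹ * x * g) = r := by rw [ho, hx]
  have ht' : orderOf (g⁻¹ * t * g) = p := by rw [ho, ht]
  have key := count_fixed (B1 P) (fun j : Fin 2 => Pj P j) (fun j => B1_le P j) (fun j => Asc P j)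
    (fun j g b hb h => asc_left P hb h) (fun j g b hb h => asc_right P hb h) (fun j g => asc_ex P j g)
    (fun j g p hp h1 h2 => asc_unique P hp h1 h2)
    (fun g h0 h1 => mem_of_asc P (fun j => by
      fin_cases j
      · exact h0
      · exact h1))
    (fun j => asc_one P j) (g⁻¹ * t * g) hg (fun k hk => by
      by_contra hcon
      push Not at hcon
      obtain ⟨z, hz⟩ := exists_H P (g := k) (t := g⁻¹ * t * g) (fun j => by
        fin_cases j
        · exact hcon.1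
        · exact hcon.2) hg hk
      apply hpH
      have h5 : orderOf (⟨((z⁻¹ * (g⁻¹ * t * g) * z : ↥P.G1) : GL D.Idx F), hz,
          (z⁻¹ * (g⁻¹ * t * g) * z : ↥P.G1).2⟩ : ↥(D.diagonalSubgroup F ⊓ P.G1)) = p := by
        rw [← Subgroup.orderOf_coe]
        change orderOf ((z⁻¹ * (g⁻¹ * t * g) * z : ↥P.G1) : GL D.Idx F) = p
        rw [Subgroup.orderOf_coe, ho, ht']
      rw [← h5]
      exact orderOf_dvd_natCard _)
  have hP : ∀ j, ¬ r ∣ Nat.card (Pj P j) := fun j => by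
    rw [card_Pj, hr.dvd_mul]
    rintro (h | h)
    · exact hrB h
    · exact hrP j h
  have d0 := dvd_card_fix (Pj P 0) hc hr hx' (hP 0)
  have d1 := dvd_card_fix (Pj P 1) hc hr hx' (hP 1)
  have d2 := dvd_card_fix (B1 P) hc hr hx' hrB
  have h6 := Nat.dvd_add d0 d1
  rw [key] at h6
  exact hr.one_lt.ne' (Nat.dvd_one.1 ((Nat.dvd_add_right d2).1 h6))

end

end Cfsg.Agent.H15.FX
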