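import Mathlib

set_option autoImplicit false
open Module Polynomial

namespace Cfsg.Agent.H15.HS

/-- `r ∣ q ^ i - 1` iff the order divides `i` -/
theorem dvd_iff {r q : ℕ} (hq : 1 ≤ q) (i : ℕ) : r ∣ q ^ i - 1 ↔ orderOf (q : ZMod r) ∣ i := by
  rw [orderOf_dvd_iff_pow_eq_one, ← Nat.cast_pow, ← sub_eq_zero, ← Nat.cast_one (R := ZMod r), ← Nat.cast_sub (Nat.one_le_pow _ _ hq), ZMod.natCast_eq_zero_iff]

/-- the valuation of `Q ^ j - 1` for `Q = 1` modulo `r` and `j` prime to `r` -/
theorem val_pow {r Q : ℕ} [Fact r.Prime] (hQ : 2 ≤ Q) (h : r ∣ Q - 1) {j : ℕ} (hj0 : ¬ r ∣ j) :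
    (Q ^ j - 1).factorization r = (Q - 1).factorization r := by
  have hj : j ≠ 0 := by rintro rfl; exact hj0 (dvd_zero _)
  have h1 : Q ^ j - 1 = (Q - 1) * (∑ i ∈ Finset.range j, Q ^ i) := by
    have := Nat.geomSum_eq hQ j
    rw [this, Nat.mul_div_cancel']
    have := Nat.sub_dvd_pow_sub_pow Q 1 j
    rwa [one_pow] at this
  have h2 : ¬ r ∣ ∑ i ∈ Finset.range j, Q ^ i := by
    intro hd
    apply hj0
    rw [← ZMod.natCast_eq_zero_iff] at hd ⊢
    have h3 : (Q : ZMod r) = 1 := by
      rw [← ZMod.natCast_eq_zero_iff, Nat.cast_sub (by omega), sub_eq_zero] at h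
      rw [h]; simp
    push_cast at hd
    rw [h3] at hd
    simpa using hd
  have hs0 : ∑ i ∈ Finset.range j, Q ^ i ≠ 0 := by
    intro h3; rw [h3] at h2; exact h2 (dvd_zero _)
  rw [h1, Nat.factorization_mul (by omega) hs0, Finsupp.add_apply, Nat.factorization_eq_zero_of_not_dvd h2, add_zero]

/-- the valuation of `q ^ d - 1` is that of the cyclotomic value -/
theorem val_cyclo {r q : ℕ} [Fact r.Prime] (hq : 2 ≤ q) (hrq : ¬ r ∣ q) :
    (q ^ orderOf (q : ZMod r) - 1).factorization r =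
      padicValNat r ((Polynomial.cyclotomic (orderOf (q : ZMod r)) ℤ).eval (q : ℤ)).natAbs := by
  set d := orderOf (q : ZMod r) with hd
  have hunit : IsUnit (q : ZMod r) := by
    rw [isUnit_iff_ne_zero, Ne, ZMod.natCast_eq_zero_iff]; exact hrq
  have hd0 : 0 < d := by
    rw [hd, orderOf_pos_iff, isOfFinOrder_iff_pow_eq_one]
    exact ⟨r - 1, Nat.sub_pos_of_lt (Fact.out : r.Prime).one_lt, ZMod.pow_card_sub_one_eq_one hunit.ne_zero⟩
  have hq1 : ∀ i, 1 ≤ q ^ i := fun i => Nat.one_le_pow _ _ (by omega)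
  have h1 : ((q ^ d - 1 : ℕ) : ℤ) = ∏ i ∈ Nat.divisors d, (cyclotomic i ℤ).eval (q : ℤ) := by
    rw [← Polynomial.eval_prod, prod_cyclotomic_eq_X_pow_sub_one hd0, Nat.cast_sub (hq1 d)]
    simp
  have h2 : q ^ d - 1 = ∏ i ∈ Nat.divisors d, ((cyclotomic i ℤ).eval (q : ℤ)).natAbs := by
    have := congrArg Int.natAbs h1
    rw [Int.natAbs_natCast] at this
    rw [this, ← Int.natAbsHom_apply, map_prod]
    rfl
  have hne : ∀ i ∈ Nat.divisors d, ((cyclotomic i ℤ).eval (q : ℤ)).natAbs ≠ 0 := by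
    intro i hi h0
    have h3 : q ^ d - 1 = 0 := by rw [h2]; exact Finset.prod_eq_zero hi h0
    have h4 : 2 ≤ q ^ d := by
      calc 2 ≤ q := hq
        _ = q ^ 1 := (pow_one q).symm
        _ ≤ q ^ d := Nat.pow_le_pow_right (by omega) hd0
    omega
  rw [h2, Nat.factorization_prod hne, Finsupp.finset_sum_apply]
  rw [Finset.sum_eq_single d]
  · rw [Nat.factorization_def _ Fact.out]
  · intro i hi hid
    apply Nat.factorization_eq_zero_of_not_dvd
    intro hr
    have hi' := Nat.dvd_of_mem_divisors hi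
    have hipos := Nat.pos_of_mem_divisors hi
    have h3 : ((cyclotomic i ℤ).eval (q : ℤ)).natAbs ∣ q ^ i - 1 := by
      rw [← Int.natCast_dvd_natCast, Int.natCast_natAbs, abs_dvd, Nat.cast_sub (hq1 i)]
      have h4 := Polynomial.cyclotomic.dvd_X_pow_sub_one i ℤ
      have h5 := Polynomial.eval_dvd (x := (q : ℤ)) h4
      simpa using h5
    have h4 := (dvd_iff (by omega) i).mp (hr.trans h3)
    have h5 := Nat.dvd_antisymm hi' h4
    exact hid h5
  · intro h
    exact absurd (Nat.mem_divisors_self d hd0.ne') h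

theorem val_one {r q : ℕ} [Fact r.Prime] (hq : 2 ≤ q) (hrq : ¬ r ∣ q) {i : ℕ} (hi : 0 < i) (hir : ∀ j, i = orderOf (q : ZMod r) * j → ¬ r ∣ j) :
    (q ^ i - 1).factorization r =
      if orderOf (q : ZMod r) ∣ i then padicValNat r ((Polynomial.cyclotomic (orderOf (q : ZMod r)) ℤ).eval (q : ℤ)).natAbs else 0 := by
  split_ifs with h
  · obtain ⟨j, hj⟩ := h
    rw [← val_cyclo hq hrq]
    conv_lhs => rw [hj, pow_mul]
    have hd0 : 0 < orderOf (q : ZMod r) := Nat.pos_of_ne_zero (by rintro h0; rw [h0, zero_mul] at hj; omega)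
    apply val_pow
    · calc 2 ≤ q := hq
        _ = q ^ 1 := (pow_one q).symm
        _ ≤ q ^ orderOf (q : ZMod r) := Nat.pow_le_pow_right (by omega) hd0
    · exact (dvd_iff (by omega) _).mpr dvd_rfl
    · exact hir j hj
  · apply Nat.factorization_eq_zero_of_not_dvd
    rw [dvd_iff (by omega)]
    exact h

theorem val_prod_GL {r q : ℕ} [Fact r.Prime] (hq : 2 ≤ q) (hrq : ¬ r ∣ q) {n : ℕ} (hrn : n < r) :
    (∏ i : Fin n, (q ^ n - q ^ (i : ℕ))).factorization r =
      padicValNat r ((Polynomial.cyclotomic (orderOf (q : ZMod r)) ℤ).eval (q : ℤ)).natAbs * (n / orderOf (q : ZMod r)) := by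
  set d := orderOf (q : ZMod r) with hd
  set v := padicValNat r ((Polynomial.cyclotomic d ℤ).eval (q : ℤ)).natAbs with hv
  have hne : ∀ i : Fin n, q ^ n - q ^ (i : ℕ) ≠ 0 := by
    intro i
    have := Nat.pow_lt_pow_right (show 1 < q by omega) i.2
    omega
  have hterm : ∀ i : Fin n, (q ^ n - q ^ (i : ℕ)).factorization r = if d ∣ (n - i) then v else 0 := by
    intro i
    have h1 : q ^ n - q ^ (i : ℕ) = q ^ (i : ℕ) * (q ^ (n - i) - 1) := by
      rw [Nat.mul_sub, mul_one, ← pow_add]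
      congr 2
      omega
    have h2 : q ^ (n - (i : ℕ)) - 1 ≠ 0 := by
      intro h0
      apply hne i
      rw [h1, h0, mul_zero]
    rw [h1, Nat.factorization_mul (pow_ne_zero _ (by omega)) h2, Finsupp.add_apply, Nat.factorization_pow, Finsupp.smul_apply,
      Nat.factorization_eq_zero_of_not_dvd hrq, smul_zero, zero_add]
    apply val_one hq hrq (by omega)
    intro j hj hrj
    have h3 : j ≠ 0 := by rintro rfl; omega
    have h4 := Nat.le_of_dvd (Nat.pos_of_ne_zero h3) hrj
    have h5 : j ≤ n - i := by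
      rw [hj]
      apply Nat.le_mul_of_pos_left
      apply Nat.pos_of_ne_zero
      intro h0; rw [h0, zero_mul] at hj; omega
    omega
  rw [Nat.factorization_prod (fun i _ => hne i), Finsupp.finset_sum_apply, Finset.sum_congr rfl (fun i _ => hterm i)]
  rw [Fin.sum_univ_eq_sum_range (fun i => if d ∣ (n - i) then v else 0) n]
  rw [← Finset.sum_range_reflect]
  rw [Finset.sum_congr rfl (fun j hj => show (if d ∣ n - (n - 1 - j) then v else 0) = (if d ∣ j + 1 then v else 0) by
    have := Finset.mem_range.mp hj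
    rw [show n - (n - 1 - j) = j + 1 by omega])]
  rw [← Finset.sum_filter, Finset.sum_const, Nat.card_multiples, smul_eq_mul, mul_comm]

/-- torus hom into the units of an algebra -/
theorem exists_hom {F : Type*} [Field F] {n : ℕ} {R : Type*} [CommRing R] [Algebra F R] (hR : finrank F R = n) [Module.Finite F R]
    {T : Type*} [CommGroup T] (θ : T →* Rˣ) (hθ : Function.Injective θ) :
    ∃ Φ : T →* GL (Fin n) F, Function.Injective Φ := by
  let b : Basis (Fin n) F R := Module.finBasisOfFinrankEq F R hR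
  refine ⟨(Units.map (Algebra.leftMulMatrix b : R →* Matrix (Fin n) (Fin n) F)).comp θ, ?_⟩
  exact (Units.map_injective (Algebra.leftMulMatrix_injective b)).comp hθ

/-- an element of given order in a finite field -/
theorem exists_order {K : Type*} [Field K] [Finite K] {m : ℕ} (hm : m ∣ Nat.card K - 1) :
    ∃ θ : Multiplicative (ZMod m) →* Kˣ, Function.Injective θ := by
  classical
  haveI := Fintype.ofFinite K
  haveI := Fintype.ofFinite Kˣ
  obtain ⟨g, hg⟩ := IsCyclic.exists_generator (α := Kˣ)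
  have hcard : Nat.card Kˣ = Nat.card K - 1 := Nat.card_units K
  have hpos : 0 < Nat.card Kˣ := Nat.card_pos
  rw [← hcard] at hm
  have hog : orderOf g = Nat.card Kˣ := orderOf_eq_card_of_forall_mem_zpowers hg
  have hm0 : m ≠ 0 := by
    rintro rfl
    rw [zero_dvd_iff] at hm
    omega
  have hord : orderOf (g ^ (Nat.card Kˣ / m)) = m := by
    rw [orderOf_pow, hog, Nat.gcd_eq_right (Nat.div_dvd_of_dvd hm), Nat.div_div_self hm hpos.ne']
  set z := g ^ (Nat.card Kˣ / m) with hz
  have hc : Nat.card (Subgroup.zpowers z) = m := by rw [Nat.card_zpowers, hord]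
  have e : Multiplicative (ZMod (Nat.card (Subgroup.zpowers z))) ≃* Subgroup.zpowers z := zmodCyclicMulEquiv inferInstance
  rw [hc] at e
  exact ⟨(Subgroup.zpowers z).subtype.comp e.toMonoidHom, (Subgroup.zpowers z).subtype_injective.comp e.injective⟩

/-- a Sylow subgroup from an injective hom -/
theorem syl_equiv {G : Type*} [Group G] [Finite G] {r : ℕ} [Fact r.Prime] {T : Type*} [Group T] (Φ : T →* G) (hΦ : Function.Injective Φ)
    (hc : Nat.card T = r ^ (Nat.card G).factorization r) (P : Sylow r G) : Nonempty (P ≃* T) := by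
  have h1 : Nat.card Φ.range = r ^ (Nat.card G).factorization r := by
    rw [← hc]
    exact Nat.card_congr (MonoidHom.ofInjective hΦ).symm.toEquiv
  exact ⟨(P.equiv (Sylow.ofCard Φ.range h1)).trans (MonoidHom.ofInjective hΦ).symm⟩

end Cfsg.Agent.H15.HS
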