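import Mathlib
import Cfsg.Agent.H15_HS1
import Cfsg.Agent.H5_GL

set_option autoImplicit false
open Module Polynomial

namespace Cfsg.Agent.H15.HS

theorem exists_ext (F : Type*) [Field F] [Finite F] (d : ℕ) (hd : 0 < d) :
    ∃ (K : Type) (_ : Field K) (_ : Algebra F K), finrank F K = d ∧ Nat.card K = Nat.card F ^ d ∧ Finite K ∧ Module.Finite F K := by
  obtain ⟨p, hp⟩ := CharP.exists F
  haveI := hp
  haveI : Fact p.Prime := ⟨CharP.char_is_prime F p⟩
  haveI : NeZero d := ⟨hd.ne'⟩
  refine ⟨FiniteField.Extension F p d, inferInstance, inferInstance, FiniteField.finrank_extension F p d, FiniteField.natCard_extension F p d, inferInstance, inferInstance⟩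

/-- the torus in the algebra -/
theorem exists_theta {F K : Type*} [Field F] [Field K] [Algebra F K] [Finite K] (a b : ℕ) {m : ℕ} (hm : m ∣ Nat.card K - 1) :
    ∃ θ : (Fin a → Multiplicative (ZMod m)) →* ((Fin a → K) × (Fin b → F))ˣ, Function.Injective θ := by
  obtain ⟨θ0, h0⟩ := exists_order hm
  refine ⟨(MulEquiv.prodUnits.symm.toMonoidHom.comp ((MonoidHom.inl ((Fin a → K))ˣ (Fin b → F)ˣ).comp (MulEquiv.piUnits.symm.toMonoidHom.comp
    (MonoidHom.compLeft θ0 (Fin a))))), ?_⟩
  apply MulEquiv.prodUnits.symm.injective.comp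
  apply Function.Injective.comp (g := (MonoidHom.inl ((Fin a → K))ˣ (Fin b → F)ˣ)) (fun x y h => congrArg Prod.fst h)
  apply MulEquiv.piUnits.symm.injective.comp
  intro x y h
  funext i
  exact h0 (congrFun h i)

theorem gl_hom {F : Type*} [Field F] [Fintype F] {q : ℕ} (hq : Fintype.card F = q) (n : ℕ)
    (r : ℕ) [Fact r.Prime] (hrq : ¬ r ∣ q) :
    ∃ Φ : (Fin (n / orderOf (q : ZMod r)) →
        Multiplicative (ZMod (r ^ padicValNat r ((Polynomial.cyclotomic (orderOf (q : ZMod r)) ℤ).eval (q : ℤ)).natAbs))) →* GL (Fin n) F,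
      Function.Injective Φ := by
  have hq2 : 2 ≤ q := hq ▸ Fintype.one_lt_card
  set d := orderOf (q : ZMod r) with hd
  have hd0 : 0 < d := by
    rw [hd, orderOf_pos_iff, isOfFinOrder_iff_pow_eq_one]
    have hu : (q : ZMod r) ≠ 0 := by rw [Ne, ZMod.natCast_eq_zero_iff]; exact hrq
    exact ⟨r - 1, Nat.sub_pos_of_lt (Fact.out : r.Prime).one_lt, ZMod.pow_card_sub_one_eq_one hu⟩
  obtain ⟨K, _, _, hK1, hK2, _, _⟩ := exists_ext F d hd0
  have hKc : Nat.card K = q ^ d := by rw [hK2, Nat.card_eq_fintype_card, hq]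
  have hm : r ^ padicValNat r ((Polynomial.cyclotomic d ℤ).eval (q : ℤ)).natAbs ∣ Nat.card K - 1 := by
    rw [hKc, ← val_cyclo hq2 hrq]
    exact Nat.ordProj_dvd _ _
  obtain ⟨θ, hθ⟩ := exists_theta (F := F) (K := K) (n / d) (n % d) hm
  apply exists_hom (R := (Fin (n / d) → K) × (Fin (n % d) → F)) _ θ hθ
  rw [Module.finrank_prod, Module.finrank_fin_fun, Module.finrank_pi_fintype]
  simp only [hK1, Finset.sum_const, Finset.card_univ, Fintype.card_fin, smul_eq_mul]
  exact Nat.div_add_mod' n d

theorem gl_syl {F : Type*} [Field F] [Fintype F] {q : ℕ} (hq : Fintype.card F = q) (n : ℕ)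
    (r : ℕ) [Fact r.Prime] (hrn : n < r) (hrq : ¬ r ∣ q) (P : Sylow r (GL (Fin n) F)) :
    Nonempty (↥(P : Subgroup (GL (Fin n) F)) ≃*
      (Fin (n / orderOf (q : ZMod r)) →
        Multiplicative (ZMod (r ^ padicValNat r ((Polynomial.cyclotomic (orderOf (q : ZMod r)) ℤ).eval (q : ℤ)).natAbs)))) := by
  have hq2 : 2 ≤ q := hq ▸ Fintype.one_lt_card
  obtain ⟨Φ, hΦ⟩ := gl_hom hq n r hrq
  apply syl_equiv Φ hΦ
  rw [Matrix.card_GL_field, hq, val_prod_GL hq2 hrq hrn, Nat.card_fun, Nat.card_eq_fintype_card (α := Fin _), Fintype.card_fin, pow_mul]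
  congr 1
  exact Nat.card_zmod _

theorem icc_filter {n d : ℕ} (hd : 2 ≤ d) : ((Finset.Icc 2 n).filter (fun i => d ∣ i)).card = n / d := by
  rw [← Nat.card_multiples n d]
  apply Finset.card_bij (fun i _ => i - 1)
  · intro i hi
    rw [Finset.mem_filter, Finset.mem_Icc] at hi
    rw [Finset.mem_filter, Finset.mem_range]
    refine ⟨by omega, ?_⟩
    rw [show i - 1 + 1 = i by omega]; exact hi.2
  · intro i hi j hj h
    rw [Finset.mem_filter, Finset.mem_Icc] at hi hj
    omega
  · intro j hj
    rw [Finset.mem_filter, Finset.mem_range] at hj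
    have := Nat.le_of_dvd (by omega) hj.2
    refine ⟨j + 1, ?_, by omega⟩
    rw [Finset.mem_filter, Finset.mem_Icc]
    exact ⟨by omega, hj.2⟩

theorem sl_syl {F : Type*} [Field F] [Fintype F] {q : ℕ} (hq : Fintype.card F = q) (n : ℕ)
    (r : ℕ) [Fact r.Prime] (hrn : n < r) (hrq : ¬ r ∣ q) (P : Sylow r (Matrix.SpecialLinearGroup (Fin n) F)) :
    Nonempty (↥(P : Subgroup (Matrix.SpecialLinearGroup (Fin n) F)) ≃*
      (Fin ((Finset.Icc 2 n).filter (fun i => orderOf (q : ZMod r) ∣ i)).card →
        Multiplicative (ZMod (r ^ padicValNat r ((Polynomial.cyclotomic (orderOf (q : ZMod r)) ℤ).eval (q : ℤ)).natAbs)))) := by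
  have hq2 : 2 ≤ q := hq ▸ Fintype.one_lt_card
  have hr : r.Prime := Fact.out
  have hu : (q : ZMod r) ≠ 0 := by rw [Ne, ZMod.natCast_eq_zero_iff]; exact hrq
  have hd0 : 0 < orderOf (q : ZMod r) := by
    rw [orderOf_pos_iff, isOfFinOrder_iff_pow_eq_one]
    exact ⟨r - 1, Nat.sub_pos_of_lt (Fact.out : r.Prime).one_lt, ZMod.pow_card_sub_one_eq_one hu⟩
  rcases Nat.eq_zero_or_pos n with h0 | hn'
  · subst h0
    have h1 : Nat.card (Matrix.SpecialLinearGroup (Fin 0) F) = 1 := by
      rw [Nat.card_eq_one_iff_unique]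
      exact ⟨⟨fun a b => Subtype.ext (Subsingleton.elim _ _)⟩, ⟨1⟩⟩
    have h2 : ((Finset.Icc 2 0).filter (fun i => orderOf (q : ZMod r) ∣ i)).card = 0 := rfl
    rw [h2]
    apply syl_equiv (1 : _ →* _)
    · intro x y _
      funext i
      exact i.elim0
    · rw [h1, Nat.factorization_one, Finsupp.coe_zero, Pi.zero_apply, pow_zero]
      rw [Nat.card_fun, Nat.card_eq_fintype_card (α := Fin 0), Fintype.card_fin, pow_zero]
  have hn : 1 ≤ n := hn'
  have hcard := Cfsg.Agent.H5.GL.card_SL hq n hn
  have hne : Nat.card (Matrix.SpecialLinearGroup (Fin n) F) ≠ 0 := Nat.card_pos.ne'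
  have hfac := congrArg (fun x => x.factorization r) hcard
  simp only [Nat.factorization_mul (show q - 1 ≠ 0 by omega) hne, Finsupp.add_apply] at hfac
  rw [val_prod_GL hq2 hrq hrn] at hfac
  rcases Nat.lt_or_ge (orderOf (q : ZMod r)) 2 with hd1 | hd2
  · -- the order is one
    have hd : orderOf (q : ZMod r) = 1 := by omega
    have hv := val_cyclo hq2 hrq
    have hfl : ((Finset.Icc 2 n).filter (fun i => orderOf (q : ZMod r) ∣ i)).card = n - 1 := by
      rw [Finset.filter_true_of_mem (fun i _ => by rw [hd]; exact one_dvd _), Nat.card_Icc]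
      omega
    rw [hfl]
    rw [hd] at hfac hv ⊢
    rw [pow_one] at hv
    rw [Nat.div_one] at hfac
    rw [← hv] at hfac ⊢
    obtain ⟨m, rfl⟩ := Nat.exists_eq_add_of_le' hn
    have hfac' : (Nat.card (Matrix.SpecialLinearGroup (Fin (m + 1)) F)).factorization r = (q - 1).factorization r * m := by
      rw [mul_add, mul_one] at hfac
      omega
    rw [Nat.add_sub_cancel]
    have hm : r ^ (q - 1).factorization r ∣ Nat.card F - 1 := by
      rw [Nat.card_eq_fintype_card, hq]
      exact Nat.ordProj_dvd _ _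
    obtain ⟨θ, hθ⟩ := exists_order hm
    let f : (Fin m → Multiplicative (ZMod (r ^ (q - 1).factorization r))) →* Matrix.SpecialLinearGroup (Fin (m + 1)) F :=
      { toFun := fun x => ⟨Matrix.diagonal (Fin.cons (((∏ i, θ (x i))⁻¹ : Fˣ) : F) (fun i => ((θ (x i) : Fˣ) : F)) : Fin (m + 1) → F), by
          rw [Matrix.det_diagonal, Fin.prod_univ_succ, Fin.cons_zero]
          simp only [Fin.cons_succ]
          rw [← Units.coe_prod, ← Units.val_mul, inv_mul_cancel, Units.val_one]⟩
        map_one' := by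
          apply Subtype.ext
          change Matrix.diagonal _ = 1
          rw [← Matrix.diagonal_one]
          congr 1
          funext i
          refine Fin.cases ?_ (fun i => ?_) i
          · simp
          · simp
        map_mul' := fun x y => by
          apply Subtype.ext
          change Matrix.diagonal _ = Matrix.diagonal _ * Matrix.diagonal _
          rw [Matrix.diagonal_mul_diagonal]
          congr 1
          funext i
          refine Fin.cases ?_ (fun i => ?_) i
          · simp [Finset.prod_mul_distrib, mul_comm]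
          · simp }
    apply syl_equiv f
    · intro x y h
      have h1 := congrArg Subtype.val h
      have h2 := Matrix.diagonal_injective h1
      funext i
      have h3 := congrFun h2 i.succ
      simp only [Fin.cons_succ] at h3
      exact hθ (Units.ext h3)
    · rw [hfac', Nat.card_fun, Nat.card_eq_fintype_card (α := Fin _), Fintype.card_fin, pow_mul]
      congr 1
      exact Nat.card_zmod _
  · rw [icc_filter hd2]
    have hr1 : ¬ r ∣ q - 1 := by
      intro h
      have h1 := (dvd_iff (r := r) (q := q) (by omega) 1).mp (by rw [pow_one]; exact h)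
      have := Nat.le_of_dvd one_pos h1
      omega
    rw [Nat.factorization_eq_zero_of_not_dvd hr1, zero_add] at hfac
    obtain ⟨Φ, hΦ⟩ := gl_hom hq n r hrq
    have hdet : ∀ x, (Φ x : Matrix (Fin n) (Fin n) F).det = 1 := by
      intro x
      have h1 : (Matrix.GeneralLinearGroup.det (Φ x)) ^ (r ^ padicValNat r ((Polynomial.cyclotomic (orderOf (q : ZMod r)) ℤ).eval (q : ℤ)).natAbs) = 1 := by
        rw [← map_pow, ← map_pow]
        have : x ^ (r ^ padicValNat r ((Polynomial.cyclotomic (orderOf (q : ZMod r)) ℤ).eval (q : ℤ)).natAbs) = 1 := by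
          funext i
          rw [Pi.pow_apply]
          apply Multiplicative.toAdd.injective
          rw [toAdd_pow, nsmul_eq_mul, ZMod.natCast_self, zero_mul]; rfl
        rw [this, map_one, map_one]
      have h2 : (Matrix.GeneralLinearGroup.det (Φ x)) ^ (q - 1) = 1 := by
        apply Units.ext
        rw [Units.val_pow_eq_pow_val]
        have h5 := FiniteField.pow_card_sub_one_eq_one _ (Units.ne_zero (Matrix.GeneralLinearGroup.det (Φ x)))
        rwa [hq] at h5
      have h3 := Nat.dvd_gcd (orderOf_dvd_of_pow_eq_one h1) (orderOf_dvd_of_pow_eq_one h2)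
      have h4 : Nat.gcd (r ^ padicValNat r ((Polynomial.cyclotomic (orderOf (q : ZMod r)) ℤ).eval (q : ℤ)).natAbs) (q - 1) = 1 :=
        Nat.Coprime.pow_left _ ((Nat.Prime.coprime_iff_not_dvd hr).mpr hr1)
      rw [h4, Nat.dvd_one, orderOf_eq_one_iff] at h3
      exact congrArg Units.val h3
    let f : (Fin (n / orderOf (q : ZMod r)) →
        Multiplicative (ZMod (r ^ padicValNat r ((Polynomial.cyclotomic (orderOf (q : ZMod r)) ℤ).eval (q : ℤ)).natAbs))) →* Matrix.SpecialLinearGroup (Fin n) F :=
      { toFun := fun x => ⟨(Φ x : Matrix (Fin n) (Fin n) F), hdet x⟩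
        map_one' := by
          apply Subtype.ext
          change (Φ 1 : Matrix (Fin n) (Fin n) F) = 1
          rw [map_one]; rfl
        map_mul' := fun x y => by
          apply Subtype.ext
          change (Φ (x * y) : Matrix (Fin n) (Fin n) F) = (Φ x : Matrix (Fin n) (Fin n) F) * (Φ y : Matrix (Fin n) (Fin n) F)
          rw [map_mul]; rfl }
    apply syl_equiv f
    · intro x y h
      exact hΦ (Units.ext (congrArg Subtype.val h))
    · rw [hfac, Nat.card_fun, Nat.card_eq_fintype_card (α := Fin _), Fintype.card_fin, pow_mul]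
      congr 1
      exact Nat.card_zmod _

end Cfsg.Agent.H15.HS
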