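import Mathlib
import Cfsg.Agent.H15_HS2

set_option autoImplicit false
set_option maxHeartbeats 1000000

/-! A cyclic subgroup of `SL₃`. -/

namespace Cfsg.Agent.H15.G8

open Matrix Polynomial Module IntermediateField

section Singer

variable {F K : Type*} [Field F] [Field K] [Algebra F K]

theorem conj_ne [Finite F] [Finite K] (h3 : finrank F K = 3) {θ : K} (hθ : θ ≠ 0) (hsq : θ ^ 2 ≠ 1) : aeval θ⁻¹ (minpoly F θ) ≠ 0 := by
  intro h
  haveI : Module.Finite F K := Module.finite_of_finrank_pos (by omega)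
  have h0 : IsIntegral F θ := Algebra.IsIntegral.isIntegral θ
  obtain ⟨σ, hσ⟩ := isConjRoot_iff_exists_algEquiv.1 (isConjRoot_of_aeval_eq_zero h0 h)
  have hσ' : σ θ = θ⁻¹ := by
    rw [← _root_.inv_inj, ← map_inv₀, hσ, _root_.inv_inv]
  have hc : Nat.card Gal(K/F) = 3 := by rw [IsGalois.card_aut_eq_finrank, h3]
  have h4 : σ ^ 3 = 1 := by rw [← hc]; exact pow_card_eq_one'
  have h5 : σ (σ (σ θ)) = θ := by
    have := congrArg (fun τ : Gal(K/F) => τ θ) h4
    exact this
  rw [hσ', hσ, hσ'] at h5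
  apply hsq
  rw [pow_two]
  nth_rewrite 1 [← h5]
  exact inv_mul_cancel₀ hθ

theorem adjoin_top (h3 : finrank F K = 3) {θ : K} (h : ∀ c : F, algebraMap F K c ≠ θ) : Algebra.adjoin F {θ} = ⊤ := by
  haveI : Module.Finite F K := Module.finite_of_finrank_pos (by omega)
  have h1 := Module.finrank_mul_finrank F F⟮θ⟯ K
  rw [h3] at h1
  have h2 : finrank F F⟮θ⟯ ∣ 3 := ⟨_, h1.symm⟩
  rcases (Nat.dvd_prime Nat.prime_three).1 h2 with h4 | h4
  · rw [IntermediateField.finrank_adjoin_simple_eq_one_iff, IntermediateField.mem_bot] at h4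
    obtain ⟨c, hc⟩ := h4
    exact absurd hc (h c)
  · rw [h4] at h1
    have h5 : finrank F⟮θ⟯ K = 1 := by omega
    have h6 : F⟮θ⟯ = ⊤ := IntermediateField.finrank_eq_one_iff_eq_top.1 h5
    have h7 := IntermediateField.adjoin_simple_toSubalgebra_of_isAlgebraic (F := F) (α := θ) (Algebra.IsAlgebraic.isAlgebraic θ)
    rw [← h7, h6, IntermediateField.top_toSubalgebra]

theorem of_commute_all {n : ℕ} (b : Basis (Fin n) F K) {X : Matrix (Fin n) (Fin n) F}
    (h : ∀ a : K, X * Algebra.leftMulMatrix b a = Algebra.leftMulMatrix b a * X) : ∃ a, X = Algebra.leftMulMatrix b a := by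
  have h1 : ∀ a x, Matrix.toLin b b X (a * x) = a * Matrix.toLin b b X x := by
    intro a x
    have h2 := congrArg (fun M => Matrix.toLin b b M x) (h a)
    simp only [Matrix.toLin_mul b b b, LinearMap.comp_apply, Algebra.leftMulMatrix_apply, Matrix.toLin_toMatrix] at h2
    exact h2
  refine ⟨Matrix.toLin b b X 1, ?_⟩
  rw [Algebra.leftMulMatrix_apply, ← LinearMap.toMatrix_toLin b b X]
  congr 1
  rw [LinearMap.toMatrix_toLin]
  refine LinearMap.ext fun a => ?_
  have h2 := h1 a 1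
  rw [mul_one] at h2
  rw [h2, mul_comm]
  rfl

theorem of_commute {n : ℕ} (b : Basis (Fin n) F K) {θ : K} (hθ : Algebra.adjoin F {θ} = ⊤) {X : Matrix (Fin n) (Fin n) F}
    (h : X * Algebra.leftMulMatrix b θ = Algebra.leftMulMatrix b θ * X) : ∃ a, X = Algebra.leftMulMatrix b a := by
  apply of_commute_all b
  intro a
  have h1 : a ∈ Algebra.adjoin F {θ} := by rw [hθ]; trivial
  have h2 : Algebra.adjoin F {θ} ≤ (Subalgebra.centralizer F {X}).comap (Algebra.leftMulMatrix b) := by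
    apply Algebra.adjoin_le
    intro x hx
    rw [Set.mem_singleton_iff.1 hx]
    show Algebra.leftMulMatrix b θ ∈ Subalgebra.centralizer F {X}
    rw [Subalgebra.mem_centralizer_iff]
    rintro _ rfl
    exact h
  have h3 := h2 h1
  exact (Subalgebra.mem_centralizer_iff F).1 h3 X rfl

theorem aeval_intertwine {n : ℕ} {X L M : Matrix (Fin n) (Fin n) F} (h : X * L = M * X) (p : F[X]) : X * aeval L p = aeval M p * X := by
  induction p using Polynomial.induction_on' with
  | add p q hp hq => rw [map_add, map_add, mul_add, add_mul, hp, hq]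
  | monomial k a =>
    rw [aeval_monomial, aeval_monomial]
    have h1 : X * L ^ k = M ^ k * X := by
      induction k with
      | zero => simp
      | succ k ih => rw [pow_succ, ← mul_assoc, ih, mul_assoc, h, ← mul_assoc, ← pow_succ]
    rw [← mul_assoc, ← Algebra.commutes, mul_assoc, h1, mul_assoc]

theorem aeval_transpose {n : ℕ} (L : Matrix (Fin n) (Fin n) F) (p : F[X]) : aeval Lᵀ p = (aeval L p)ᵀ := by
  induction p using Polynomial.induction_on' with
  | add p q hp hq => rw [map_add, map_add, hp, hq, Matrix.transpose_add]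
  | monomial k a =>
    rw [aeval_monomial, aeval_monomial, Matrix.transpose_mul, Matrix.transpose_pow, Algebra.commutes]
    congr 1
    rw [Matrix.algebraMap_eq_diagonal, Matrix.diagonal_transpose]

theorem lm_mul_inv {n : ℕ} (b : Basis (Fin n) F K) {a : K} (ha : a ≠ 0) : Algebra.leftMulMatrix b a * Algebra.leftMulMatrix b a⁻¹ = 1 := by
  rw [← map_mul, mul_inv_cancel₀ ha, map_one]

theorem lm_inv_mul {n : ℕ} (b : Basis (Fin n) F K) {a : K} (ha : a ≠ 0) : Algebra.leftMulMatrix b a⁻¹ * Algebra.leftMulMatrix b a = 1 := by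
  rw [← map_mul, inv_mul_cancel₀ ha, map_one]

theorem inter1 {n : ℕ} (b : Basis (Fin n) F K) {θ : K} (hθ : aeval θ⁻¹ (minpoly F θ) ≠ 0) {X : Matrix (Fin n) (Fin n) F}
    (h : X * Algebra.leftMulMatrix b θ = (Algebra.leftMulMatrix b θ⁻¹)ᵀ * X) : X = 0 := by
  have h1 := aeval_intertwine h (minpoly F θ)
  rw [aeval_transpose, aeval_algHom_apply, aeval_algHom_apply, minpoly.aeval, map_zero, mul_zero] at h1
  have h2 := congrArg (fun Y => (Algebra.leftMulMatrix b (aeval θ⁻¹ (minpoly F θ))⁻¹)ᵀ * Y) h1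
  simp only [mul_zero] at h2
  rw [← mul_assoc, ← Matrix.transpose_mul, lm_mul_inv b hθ, Matrix.transpose_one, one_mul] at h2
  exact h2.symm

theorem inter2 {n : ℕ} (b : Basis (Fin n) F K) {θ : K} (hθ : aeval θ⁻¹ (minpoly F θ) ≠ 0) {X : Matrix (Fin n) (Fin n) F}
    (h : X * (Algebra.leftMulMatrix b θ⁻¹)ᵀ = Algebra.leftMulMatrix b θ * X) : X = 0 := by
  have h1 := aeval_intertwine h (minpoly F θ)
  rw [aeval_transpose, aeval_algHom_apply, aeval_algHom_apply, minpoly.aeval, map_zero, zero_mul] at h1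
  have h2 := congrArg (fun Y => Y * (Algebra.leftMulMatrix b (aeval θ⁻¹ (minpoly F θ))⁻¹)ᵀ) h1
  simp only [zero_mul] at h2
  rw [mul_assoc, ← Matrix.transpose_mul, lm_inv_mul b hθ, Matrix.transpose_one, mul_one] at h2
  exact h2

theorem fix1 {n : ℕ} (b : Basis (Fin n) F K) {θ : K} (hθ : θ ≠ 1) {v : Fin n → F} (h : Algebra.leftMulMatrix b θ *ᵥ v = v) : v = 0 := by
  have h0 : θ - 1 ≠ 0 := sub_ne_zero.2 hθ
  have h1 : Algebra.leftMulMatrix b (θ - 1) *ᵥ v = 0 := by
    rw [map_sub, map_one, Matrix.sub_mulVec, h, Matrix.one_mulVec, sub_self]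
  have h2 := congrArg (fun w => Algebra.leftMulMatrix b (θ - 1)⁻¹ *ᵥ w) h1
  simp only [Matrix.mulVec_mulVec, lm_inv_mul b h0, Matrix.one_mulVec, Matrix.mulVec_zero] at h2
  exact h2

theorem fix2 {n : ℕ} (b : Basis (Fin n) F K) {θ : K} (hθ : θ ≠ 1) {v : Fin n → F} (h : v ᵥ* Algebra.leftMulMatrix b θ = v) : v = 0 := by
  have h0 : θ - 1 ≠ 0 := sub_ne_zero.2 hθ
  have h1 : v ᵥ* Algebra.leftMulMatrix b (θ - 1) = 0 := by
    rw [map_sub, map_one, Matrix.vecMul_sub, h, Matrix.vecMul_one, sub_self]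
  have h2 := congrArg (fun w => w ᵥ* Algebra.leftMulMatrix b (θ - 1)⁻¹) h1
  simp only [Matrix.vecMul_vecMul, lm_mul_inv b h0, Matrix.vecMul_one, Matrix.zero_vecMul] at h2
  exact h2

theorem fix3 {n : ℕ} (b : Basis (Fin n) F K) {θ : K} (hθ : θ ≠ 1) {v : Fin n → F} (h : (Algebra.leftMulMatrix b θ⁻¹)ᵀ *ᵥ v = v) : v = 0 := by
  apply fix2 b (θ := θ⁻¹) (by rwa [Ne, inv_eq_one])
  rwa [← Matrix.mulVec_transpose]

theorem fix4 {n : ℕ} (b : Basis (Fin n) F K) {θ : K} (hθ : θ ≠ 1) {v : Fin n → F} (h : v ᵥ* (Algebra.leftMulMatrix b θ⁻¹)ᵀ = v) : v = 0 := by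
  apply fix1 b (θ := θ⁻¹) (by rwa [Ne, inv_eq_one])
  rwa [← Matrix.vecMul_transpose]

end Singer

end Cfsg.Agent.H15.G8
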