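import Mathlib
import Cfsg.Agent.H5_SL

set_option autoImplicit false
open Matrix Module

namespace Cfsg.Agent.H15.GEN

open scoped Fin.CommRing

variable {K : Type*} [Field K] {n : ℕ}

local notation "SLn" => Matrix.SpecialLinearGroup (Fin (n + 1)) K
local notation "Mn" => Matrix (Fin (n + 1)) (Fin (n + 1)) K

/-- transvections -/
abbrev T {n : ℕ} {i j : Fin (n + 1)} (h : i ≠ j) (t : K) : Matrix.SpecialLinearGroup (Fin (n + 1)) K :=
  Matrix.SpecialLinearGroup.transvection h t

theorem T_coe {i j : Fin (n + 1)} (h : i ≠ j) (t : K) : (T h t : Mn) = 1 + Matrix.single i j t := rfl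

/-- the signs -/
def cs (K : Type*) [Field K] (n : ℕ) (b : Fin (n + 1)) : K := if b = 0 then (-1) ^ n else 1

theorem cs_ne (b : Fin (n + 1)) : cs K n b ≠ 0 := by
  rw [cs]; split_ifs
  · exact pow_ne_zero _ (neg_ne_zero.mpr one_ne_zero)
  · exact one_ne_zero

theorem w_apply (hn : 1 ≤ n) (a b : Fin (n + 1)) : (Matrix.of (fun i j : Fin (n + 1) => if j.val = i.val + 1 then (1 : K) else if i.val = n ∧ j.val = 0 then (-1) ^ n else 0)) a b =
    if b = a + 1 then cs K n b else 0 := by
  rw [Matrix.of_apply, cs]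
  have h1 : (a + 1).val = if a.val = n then 0 else a.val + 1 := by
    rw [Fin.val_add_one]
    by_cases h : a = Fin.last n
    · rw [if_pos h, if_pos (by rw [h]; rfl)]
    · rw [if_neg h, if_neg (by intro h2; exact h (Fin.ext h2))]
  have e1 : b = a + 1 ↔ b.val = if a.val = n then 0 else a.val + 1 := by rw [Fin.ext_iff, h1]
  have e2 : b = 0 ↔ b.val = 0 := by rw [Fin.ext_iff]; rfl
  have hb := b.isLt
  simp only [e1, e2]
  split_ifs <;> first | rfl | omega

/-- conjugation by the monomial element -/
theorem w_conj (hn : 1 ≤ n) {w : SLn} (hw : (w : Mn) = Matrix.of (fun i j : Fin (n + 1) => if j.val = i.val + 1 then (1 : K) else if i.val = n ∧ j.val = 0 then (-1) ^ n else 0))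
    {i j : Fin (n + 1)} (h : i ≠ j) (h' : i - 1 ≠ j - 1) (t : K) :
    w * T h t * w⁻¹ = T h' (t * cs K n i * (cs K n j)⁻¹) := by
  rw [mul_inv_eq_iff_eq_mul]
  apply Subtype.ext
  show (w : Mn) * (T h t : Mn) = (T h' (t * cs K n i * (cs K n j)⁻¹) : Mn) * (w : Mn)
  have hwa : ∀ a b, (w : Mn) a b = if b = a + 1 then cs K n b else 0 := by
    intro a b; rw [hw]; exact w_apply hn a b
  rw [T_coe, T_coe, Matrix.mul_add, Matrix.mul_one, Matrix.add_mul, Matrix.one_mul]
  congr 1
  ext a b
  by_cases hb : b = j
  · subst hb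
    rw [Matrix.mul_single_apply_same, hwa]
    by_cases ha : a = i - 1
    · subst ha
      rw [Matrix.single_mul_apply_same, hwa, if_pos (by rw [sub_add_cancel]), if_pos (by rw [sub_add_cancel])]
      have := cs_ne (K := K) b
      field_simp
    · rw [Matrix.single_mul_apply_of_ne _ _ _ _ _ ha, if_neg, zero_mul]
      intro h3; apply ha; rw [h3, add_sub_cancel_right]
  · rw [Matrix.mul_single_apply_of_ne _ _ _ _ _ hb]
    by_cases ha : a = i - 1
    · subst ha
      rw [Matrix.single_mul_apply_same, hwa, if_neg, mul_zero]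
      rw [sub_add_cancel]; exact hb
    · rw [Matrix.single_mul_apply_of_ne _ _ _ _ _ ha]

theorem gen_top (hn : 1 ≤ n) {w : SLn} (hw : (w : Mn) = Matrix.of (fun i j : Fin (n + 1) => if j.val = i.val + 1 then (1 : K) else if i.val = n ∧ j.val = 0 then (-1) ^ n else 0))
    (H : Subgroup SLn) (hwH : w ∈ H) (h01 : (0 : Fin (n + 1)) ≠ 1) (hT : ∀ t : K, T h01 t ∈ H) : H = ⊤ := by
  have hstep : ∀ (i j : Fin (n + 1)) (h : i ≠ j) (h' : i - 1 ≠ j - 1), (∀ t : K, T h t ∈ H) → ∀ t : K, T h' t ∈ H := by
    intro i j h h' hall t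
    have h1 := H.mul_mem (H.mul_mem hwH (hall (t * cs K n j * (cs K n i)⁻¹))) (H.inv_mem hwH)
    rw [w_conj hn hw h h'] at h1
    have e : t * cs K n j * (cs K n i)⁻¹ * cs K n i * (cs K n j)⁻¹ = t := by
      have := cs_ne (K := K) i
      have := cs_ne (K := K) j
      field_simp
    rwa [e] at h1
  -- all consecutive ones
  have hcons : ∀ (m : ℕ) (h : -(m : Fin (n + 1)) ≠ -(m : Fin (n + 1)) + 1) (t : K), T h t ∈ H := by
    intro m
    induction m with
    | zero =>
      intro h t
      have e0 : (-((0 : ℕ) : Fin (n + 1))) = 0 := by simp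
      have e1 : (-((0 : ℕ) : Fin (n + 1))) + 1 = 1 := by simp
      have := hT t
      convert this using 2 <;> simp
    | succ m ih =>
      intro h t
      have h0 : -(m : Fin (n + 1)) ≠ -(m : Fin (n + 1)) + 1 := by
        intro hc
        apply h01
        have := congrArg (fun x => x + (m : Fin (n + 1))) hc
        simp only [neg_add_cancel] at this
        rw [this]; ring
      have e1 : (-(m : Fin (n + 1))) - 1 = -((m + 1 : ℕ) : Fin (n + 1)) := by push_cast; ring
      have e2 : (-(m : Fin (n + 1)) + 1) - 1 = -((m + 1 : ℕ) : Fin (n + 1)) + 1 := by push_cast; ring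
      have h1 := hstep _ _ h0 (by rw [e1, e2]; exact h) (ih h0) t
      convert h1 using 2
      · exact e1.symm
      · exact e2.symm
  have hcons' : ∀ (i : Fin (n + 1)) (h : i ≠ i + 1) (t : K), T h t ∈ H := by
    intro i h t
    have e1 : i = -(((-i : Fin (n + 1)).val : ℕ) : Fin (n + 1)) := by
      rw [Fin.cast_val_eq_self, neg_neg]
    have h2 := hcons ((-i : Fin (n + 1)).val) (by rw [← e1]; exact h) t
    convert h2 using 2
    rw [← e1]
  have hall : ∀ (m : ℕ) (i : Fin (n + 1)) (h : i ≠ i + (m : Fin (n + 1))) (t : K), m ≤ n → T h t ∈ H := by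
    intro m
    induction m with
    | zero =>
      intro i h t _
      exact absurd (by simp) h
    | succ m ih =>
      intro i h t hm
      by_cases hm0 : m = 0
      · subst hm0
        have e : i + ((0 + 1 : ℕ) : Fin (n + 1)) = i + 1 := by push_cast; ring
        have h1 := hcons' i (by rw [← e]; exact h) t
        convert h1 using 2
      · have hne1 : i ≠ i + (m : Fin (n + 1)) := by
          intro hc
          have h3 : (m : Fin (n + 1)) = 0 := by
            have := add_left_cancel (a := i) (b := (0 : Fin (n + 1))) (c := (m : Fin (n + 1))) (by rw [add_zero]; exact hc)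
            exact this.symm
          rw [Fin.natCast_eq_zero] at h3
          have := Nat.le_of_dvd (by omega) h3
          omega
        have hne2 : i + (m : Fin (n + 1)) ≠ i + (m : Fin (n + 1)) + 1 := by
          intro hc
          apply h01
          have := add_left_cancel (a := i + (m : Fin (n + 1))) (b := (0 : Fin (n + 1))) (c := 1) (by rw [add_zero]; exact hc)
          exact this
        have e : i + ((m + 1 : ℕ) : Fin (n + 1)) = i + (m : Fin (n + 1)) + 1 := by push_cast; ring
        have h3 : i ≠ i + (m : Fin (n + 1)) + 1 := by rw [← e]; exact h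
        have h4 := Cfsg.Agent.H5.SL.commutator_transvection hne1 hne2 h3 t 1
        rw [mul_one] at h4
        have h5 : T h3 t ∈ H := by
          show Matrix.SpecialLinearGroup.transvection h3 t ∈ H
          rw [← h4, commutatorElement_def]
          exact H.mul_mem (H.mul_mem (H.mul_mem (ih i hne1 t (by omega)) (hcons' _ hne2 1)) (H.inv_mem (ih i hne1 t (by omega)))) (H.inv_mem (hcons' _ hne2 1))
        convert h5 using 2
  haveI : Nontrivial (Fin (n + 1)) := ⟨⟨0, 1, h01⟩⟩
  rw [eq_top_iff, ← Cfsg.Agent.H5.SL.closure_transvections, Subgroup.closure_le]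
  rintro _ ⟨i, j, hij, a, rfl⟩
  have e : j = i + (((j - i).val : ℕ) : Fin (n + 1)) := by rw [Fin.cast_val_eq_self]; ring
  have h1 := hall (j - i).val i (by rw [← e]; exact hij) a (by omega)
  have h2 : T hij a ∈ H := by
    convert h1 using 2
  exact h2

end Cfsg.Agent.H15.GEN
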