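import Mathlib
import Cfsg.Agent.H15_GEN1

set_option autoImplicit false
open Matrix Module

namespace Cfsg.Agent.H15.GEN

variable {K : Type*} [Field K] {n : ℕ}

local notation "SLn" => Matrix.SpecialLinearGroup (Fin (n + 1)) K
local notation "Mn" => Matrix (Fin (n + 1)) (Fin (n + 1)) K

theorem zero_ne_one' (hn : 1 ≤ n) : (0 : Fin (n + 1)) ≠ 1 := by
  intro h
  have := congrArg Fin.val h
  obtain ⟨m, rfl⟩ : ∃ m, n = m + 1 := ⟨n - 1, by omega⟩
  simp at this

theorem T_add {i j : Fin (n + 1)} (h : i ≠ j) (s t : K) : T h s * T h t = T h (s + t) := by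
  apply Subtype.ext
  show (T h s : Mn) * (T h t : Mn) = (T h (s + t) : Mn)
  rw [T_coe, T_coe, T_coe, Matrix.mul_add, Matrix.add_mul, Matrix.add_mul, Matrix.mul_one, Matrix.mul_one, Matrix.one_mul,
    Matrix.single_mul_single_of_ne _ _ _ _ h.symm, Matrix.single_add]
  abel

theorem T_zero {i j : Fin (n + 1)} (h : i ≠ j) : T h (0 : K) = 1 := by
  apply Subtype.ext
  rw [T_coe, Matrix.single_zero, add_zero]; rfl

theorem T_neg {i j : Fin (n + 1)} (h : i ≠ j) (s : K) : T h (-s) = (T h s)⁻¹ := by
  rw [eq_inv_iff_mul_eq_one, T_add, neg_add_cancel, T_zero]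

/-- transvections in a subgroup form an additive group -/
def TA {i j : Fin (n + 1)} (h : i ≠ j) (H : Subgroup (Matrix.SpecialLinearGroup (Fin (n + 1)) K)) : AddSubgroup K where
  carrier := {t | T h t ∈ H}
  zero_mem' := by
    show T h 0 ∈ H
    rw [T_zero]; exact H.one_mem
  add_mem' := fun {a b} (ha : T h a ∈ H) (hb : T h b ∈ H) => by
    show T h (a + b) ∈ H
    rw [← T_add]; exact H.mul_mem ha hb
  neg_mem' := fun {a} (ha : T h a ∈ H) => by
    show T h (-a) ∈ H
    rw [T_neg]; exact H.inv_mem ha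

theorem mem_TA {i j : Fin (n + 1)} (h : i ≠ j) (H : Subgroup SLn) (t : K) : t ∈ TA h H ↔ T h t ∈ H := Iff.rfl

theorem s2403 [Fintype K] (hK : Fintype.card K ≤ 3) (hn : 1 ≤ n) (x w : SLn)
    (hx : (x : Mn) = Matrix.transvection (0 : Fin (n + 1)) (1 : Fin (n + 1)) 1)
    (hw : (w : Mn) = Matrix.of (fun i j => if j.val = i.val + 1 then 1 else if i.val = n ∧ j.val = 0 then (-1) ^ n else 0)) :
    Subgroup.closure ({x, w} : Set SLn) ⊔ Subgroup.center SLn = ⊤ := by
  have h01 := zero_ne_one' hn
  have hx' : x = T h01 1 := Subtype.ext hx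
  have hxm : x ∈ Subgroup.closure ({x, w} : Set SLn) := Subgroup.subset_closure (by simp)
  have hwm : w ∈ Subgroup.closure ({x, w} : Set SLn) := Subgroup.subset_closure (by simp)
  have hcl : Subgroup.closure ({x, w} : Set SLn) = ⊤ := by
    apply gen_top hn hw _ hwm h01
    intro t
    have h1 : (1 : K) ∈ TA h01 (Subgroup.closure ({x, w} : Set SLn)) := by
      rw [mem_TA, ← hx']; exact hxm
    show t ∈ TA h01 (Subgroup.closure ({x, w} : Set SLn))
    by_cases ht : t = 0
    · rw [ht]; exact zero_mem _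
    · have h3 := FiniteField.pow_card_sub_one_eq_one t ht
      have h4 : 1 < Fintype.card K := Fintype.one_lt_card
      have h5 : Fintype.card K = 2 ∨ Fintype.card K = 3 := by omega
      have h6 : t = 1 ∨ t = -1 := by
        rcases h5 with h5 | h5
        · rw [h5] at h3
          left; simpa using h3
        · rw [h5] at h3
          apply mul_self_eq_one_iff.mp
          rw [← sq]; exact h3
      rcases h6 with rfl | rfl
      · exact h1
      · exact neg_mem h1
  rw [hcl, top_sup_eq]

/-- the field generated by squares -/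
theorem squares_span [Fintype K] (hK : 3 < Fintype.card K) (k : Kˣ) (hk : ∀ u : Kˣ, u ∈ Subgroup.zpowers k)
    (A : AddSubgroup K) {s : K} (hs : s ≠ 0) (hsA : s ∈ A) (hA : ∀ a ∈ A, (k : K) ^ 2 * a ∈ A) (t : K) : t ∈ A := by
  classical
  -- the multiplier ring
  let R : Subring K :=
    { carrier := {r | ∀ a ∈ A, r * a ∈ A}
      mul_mem' := fun {x y} hx hy a ha => by rw [mul_assoc]; exact hx _ (hy a ha)
      one_mem' := fun a ha => by rw [one_mul]; exact ha
      add_mem' := fun {x y} hx hy a ha => by rw [add_mul]; exact A.add_mem (hx a ha) (hy a ha)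
      zero_mem' := fun a ha => by rw [zero_mul]; exact A.zero_mem
      neg_mem' := fun {x} hx a ha => by rw [neg_mul]; exact A.neg_mem (hx a ha) }
  have hkR : (k : K) ^ 2 ∈ R := hA
  have hR : ∀ u : Kˣ, (u : K) ^ 2 ∈ R := by
    intro u
    obtain ⟨m, hm⟩ := (mem_powers_iff_mem_zpowers (x := k) (y := u)).mpr (hk u)
    have h1 : (u : K) ^ 2 = ((k : K) ^ 2) ^ m := by
      rw [← hm, Units.val_pow_eq_pow_val, ← pow_mul, ← pow_mul, mul_comm]
    rw [h1]
    exact pow_mem hkR m
  have htop : (R.toAddSubgroup) = ⊤ := by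
    -- index argument
    by_contra hne
    have h1 : R.toAddSubgroup.index ≠ 1 := by rwa [Ne, AddSubgroup.index_eq_one]
    have h2 := R.toAddSubgroup.card_mul_index
    have hidx0 : R.toAddSubgroup.index ≠ 0 := AddSubgroup.index_ne_zero_of_finite
    have hidx : 2 ≤ R.toAddSubgroup.index := by omega
    rw [Nat.card_eq_fintype_card (α := K)] at h2
    -- lower bound for the size
    have hsq : Fintype.card K + 1 ≤ 2 * Nat.card R.toAddSubgroup := by
      have h3 : Fintype.card K ≤ 2 * (Finset.univ.image (fun z : K => z ^ 2)).card - 1 := by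
        have h4 : (Finset.univ : Finset K).card ≤ 1 + ∑ y ∈ (Finset.univ.image (fun z : K => z ^ 2)).erase 0, 2 := by
          have h5 : (Finset.univ : Finset K).card = ∑ y ∈ Finset.univ.image (fun z : K => z ^ 2), (Finset.univ.filter (fun z : K => z ^ 2 = y)).card :=
            Finset.card_eq_sum_card_image _ _
          have h0 : (0 : K) ∈ Finset.univ.image (fun z : K => z ^ 2) := Finset.mem_image.mpr ⟨0, Finset.mem_univ _, by simp⟩
          rw [h5, ← Finset.add_sum_erase _ _ h0]
          apply Nat.add_le_add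
          · have : (Finset.univ.filter (fun z : K => z ^ 2 = 0)) = {0} := by
              ext z; simp
            rw [this, Finset.card_singleton]
          · apply Finset.sum_le_sum
            intro y hy
            obtain ⟨z, _, hz⟩ := Finset.mem_image.mp (Finset.mem_of_mem_erase hy)
            have : (Finset.univ.filter (fun z : K => z ^ 2 = y)) ⊆ {z, -z} := by
              intro v hv
              rw [Finset.mem_filter, ← hz] at hv
              rw [Finset.mem_insert, Finset.mem_singleton]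
              exact sq_eq_sq_iff_eq_or_eq_neg.mp hv.2
            exact (Finset.card_le_card this).trans Finset.card_le_two
        have h0 : (0 : K) ∈ Finset.univ.image (fun z : K => z ^ 2) := Finset.mem_image.mpr ⟨0, Finset.mem_univ _, by simp⟩
        rw [Finset.sum_const, Finset.card_erase_of_mem h0, smul_eq_mul, Finset.card_univ] at h4
        have := Finset.card_pos.mpr ⟨_, h0⟩
        omega
      have h6 : (Finset.univ.image (fun z : K => z ^ 2)).card ≤ Nat.card R.toAddSubgroup := by
        rw [← Nat.card_eq_finsetCard]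
        apply Nat.card_le_card_of_injective (fun y : (Finset.univ.image (fun z : K => z ^ 2)) => (⟨y.1, by
          obtain ⟨z, _, hz⟩ := Finset.mem_image.mp y.2
          rw [← hz]
          show z ^ 2 ∈ R
          by_cases hz0 : z = 0
          · rw [hz0, zero_pow (by norm_num)]; exact R.zero_mem
          · exact hR (Units.mk0 z hz0)⟩ : R.toAddSubgroup))
        intro a b hab
        exact Subtype.ext (congrArg (fun x : R.toAddSubgroup => (x : K)) hab)
      omega
    have := Nat.mul_le_mul_left (Nat.card R.toAddSubgroup) hidx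
    omega
  have h1 : t * s⁻¹ ∈ R.toAddSubgroup := by rw [htop]; trivial
  have h2 : t * s⁻¹ * s ∈ A := h1 s hsA
  rwa [inv_mul_cancel_right₀ hs] at h2

theorem diag_T {d : Fin (n + 1) → K} {g : SLn} (hg : (g : Mn) = Matrix.diagonal d) {i j : Fin (n + 1)} (h : i ≠ j) (hd : d j ≠ 0) (t : K) :
    g * T h t * g⁻¹ = T h (d i * t * (d j)⁻¹) := by
  rw [mul_inv_eq_iff_eq_mul]
  apply Subtype.ext
  show (g : Mn) * (T h t : Mn) = (T h (d i * t * (d j)⁻¹) : Mn) * (g : Mn)
  rw [hg, T_coe, T_coe, Matrix.mul_add, Matrix.mul_one, Matrix.add_mul, Matrix.one_mul, Cfsg.Agent.H5.SL.diagonal_mul_single,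
    Cfsg.Agent.H5.SL.single_mul_diagonal, inv_mul_cancel_right₀ hd]

theorem w_diag (hn : 1 ≤ n) {w g : SLn} (hw : (w : Mn) = Matrix.of (fun i j : Fin (n + 1) => if j.val = i.val + 1 then (1 : K) else if i.val = n ∧ j.val = 0 then (-1) ^ n else 0))
    {d : Fin (n + 1) → K} (hg : (g : Mn) = Matrix.diagonal d) : ((w * g * w⁻¹ : SLn) : Mn) = Matrix.diagonal (fun i => d (i + 1)) := by
  have h1 : (w : Mn) * (g : Mn) = Matrix.diagonal (fun i => d (i + 1)) * (w : Mn) := by
    have hwa : ∀ a b, (w : Mn) a b = if b = a + 1 then cs K n b else 0 := by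
      intro a b; rw [hw]; exact w_apply hn a b
    rw [hg]
    ext a b
    rw [Matrix.mul_diagonal, Matrix.diagonal_mul, hwa]
    split_ifs with h
    · rw [h, mul_comm]
    · ring
  have h2 : ((w * g * w⁻¹ : SLn) : Mn) * (w : Mn) = Matrix.diagonal (fun i => d (i + 1)) * (w : Mn) := by
    rw [← h1]
    have : w * g * w⁻¹ * w = w * g := by group
    exact congrArg Subtype.val this
  have h3 : (w : Mn) * ((w⁻¹ : SLn) : Mn) = 1 := congrArg Subtype.val (mul_inv_cancel w)
  calc ((w * g * w⁻¹ : SLn) : Mn) = ((w * g * w⁻¹ : SLn) : Mn) * (w : Mn) * ((w⁻¹ : SLn) : Mn) := by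
        rw [Matrix.mul_assoc, h3, Matrix.mul_one]
    _ = _ := by rw [h2, Matrix.mul_assoc, h3, Matrix.mul_one]

theorem s2402 [Fintype K] (hK : 3 < Fintype.card K) (hn : 1 ≤ n)
    (k : Kˣ) (hk : ∀ u : Kˣ, u ∈ Subgroup.zpowers k)
    (h x w : SLn)
    (hh : (h : Mn) = Matrix.diagonal (fun i => if i.val = 0 then (k : K) else if i.val = 1 then ((k⁻¹ : Kˣ) : K) else 1))
    (hx : (x : Mn) = Matrix.transvection (0 : Fin (n + 1)) (1 : Fin (n + 1)) 1)
    (hw : (w : Mn) = Matrix.of (fun i j => if j.val = i.val + 1 then 1 else if i.val = n ∧ j.val = 0 then (-1) ^ n else 0)) :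
    Subgroup.closure ({h, x * w} : Set SLn) ⊔ Subgroup.center SLn = ⊤ := by
  classical
  have h01 := zero_ne_one' hn
  have hx' : x = T h01 1 := Subtype.ext hx
  set H := Subgroup.closure ({h, x * w} : Set SLn) with hH
  have hhH : h ∈ H := Subgroup.subset_closure (by simp)
  have hyH : x * w ∈ H := Subgroup.subset_closure (by simp)
  set D : Fin (n + 1) → K := fun i => if i.val = 0 then (k : K) else if i.val = 1 then ((k⁻¹ : Kˣ) : K) else 1 with hD
  have hv1 : (1 : Fin (n + 1)).val = 1 := by
    obtain ⟨m, rfl⟩ : ∃ m, n = m + 1 := ⟨n - 1, by omega⟩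
    simp
  have hD0 : D 0 = (k : K) := by rw [hD]; simp
  have hD1 : D 1 = ((k⁻¹ : Kˣ) : K) := by
    rw [hD]
    simp only [hv1]
    norm_num
  have hk0 : (k : K) ≠ 0 := k.ne_zero
  have hki : ((k⁻¹ : Kˣ) : K) = (k : K)⁻¹ := Units.val_inv_eq_inv_val k
  have hk2 : (k : K) ^ 2 ≠ 1 := by
    intro h2
    have h3 : k ^ 2 = 1 := Units.ext (by rw [Units.val_pow_eq_pow_val, h2, Units.val_one])
    have h4 : orderOf k ∣ 2 := orderOf_dvd_of_pow_eq_one h3
    have h5 : orderOf k = Fintype.card Kˣ := by
      rw [← Nat.card_eq_fintype_card, ← Nat.card_zpowers]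
      have : Subgroup.zpowers k = ⊤ := by rw [eq_top_iff]; exact fun u _ => hk u
      rw [this, Nat.card_congr Subgroup.topEquiv.toEquiv]
    have h6 := Nat.le_of_dvd (by norm_num) h4
    rw [h5, Fintype.card_units] at h6
    omega
  have hk1 : (k : K) ≠ 1 := by
    intro h2; apply hk2; rw [h2, one_pow]
  -- closed under multiplication by `k ^ 2`
  have hAk : ∀ a ∈ TA h01 H, (k : K) ^ 2 * a ∈ TA h01 H := by
    intro a ha
    have h1 : h * T h01 a * h⁻¹ ∈ H := H.mul_mem (H.mul_mem hhH ha) (H.inv_mem hhH)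
    rw [diag_T hh h01 (by show D 1 ≠ 0; rw [hD1]; exact Units.ne_zero _)] at h1
    have e : D 0 * a * (D 1)⁻¹ = (k : K) ^ 2 * a := by
      rw [hD0, hD1, hki]; field_simp
    show T h01 ((k : K) ^ 2 * a) ∈ H
    rw [← e]; exact h1
  -- the conjugate
  set d := w * h * w⁻¹ with hd
  have hdm : (d : Mn) = Matrix.diagonal (fun i => D (i + 1)) := w_diag hn hw hh
  have hz : x * d * x⁻¹ ∈ H := by
    have : x * d * x⁻¹ = (x * w) * h * (x * w)⁻¹ := by rw [hd]; group
    rw [this]
    exact H.mul_mem (H.mul_mem hyH hhH) (H.inv_mem hyH)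
  have hE0 : D (0 + 1) = (k : K)⁻¹ := by rw [zero_add, hD1, hki]
  have hE1ne : D (1 + 1) ≠ 0 := by
    rw [hD]
    simp only
    split_ifs
    · exact hk0
    · exact Units.ne_zero _
    · exact one_ne_zero
  have hz2 : x * d * x⁻¹ = d * T h01 ((k : K) * D (1 + 1) - 1) := by
    have h1 : d * T h01 ((k : K) * D (1 + 1)) * d⁻¹ = T h01 1 := by
      rw [diag_T hdm h01 hE1ne, hE0]
      congr 1
      field_simp
    rw [hx', sub_eq_add_neg, ← T_add, T_neg]
    rw [mul_inv_eq_iff_eq_mul] at h1
    rw [← mul_assoc d, h1]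
  rw [hz2] at hz
  have hs : ∃ s : K, s ≠ 0 ∧ s ∈ TA h01 H := by
    by_cases hn1 : n = 1
    · -- rank one
      have hE1 : D (1 + 1) = (k : K) := by
        subst hn1
        exact hD0
      have hdh : d = h⁻¹ := by
        rw [eq_inv_iff_mul_eq_one]
        apply Subtype.ext
        show (d : Mn) * (h : Mn) = 1
        rw [hdm, hh, Matrix.diagonal_mul_diagonal, ← Matrix.diagonal_one]
        congr 1
        funext i
        subst hn1
        fin_cases i
        · show D (0 + 1) * D 0 = 1
          rw [hE0, hD0, inv_mul_cancel₀ hk0]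
        · show D (1 + 1) * D 1 = 1
          rw [hE1, hD1, hki, mul_inv_cancel₀ hk0]
      refine ⟨(k : K) * D (1 + 1) - 1, ?_, ?_⟩
      · rw [hE1, ← sq]; exact sub_ne_zero.mpr hk2
      · rw [mem_TA]
        have := H.mul_mem hhH hz
        rwa [hdh, ← mul_assoc, mul_inv_cancel, one_mul] at this
    · -- higher rank
      have hE1 : D (1 + 1) = 1 := by
        have hv2 : ((1 : Fin (n + 1)) + 1).val = 2 := by
          rw [Fin.val_add_one, if_neg, hv1]
          intro h2
          have := congrArg Fin.val h2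
          rw [hv1, Fin.val_last] at this
          omega
        rw [hD]
        simp only [hv2]
        norm_num
      set c := (k : K) * D (1 + 1) - 1 with hc
      have hc' : c = (k : K) - 1 := by rw [hc, hE1, mul_one]
      refine ⟨(k : K)⁻¹ * (((k : K) ^ 2 - 1) * ((k : K) - 1)), ?_, ?_⟩
      · exact mul_ne_zero (inv_ne_zero hk0) (mul_ne_zero (sub_ne_zero.mpr hk2) (sub_ne_zero.mpr hk1))
      · rw [mem_TA]
        have h1 : h * (d * T h01 c) * h⁻¹ * (d * T h01 c)⁻¹ ∈ H :=
          H.mul_mem (H.mul_mem (H.mul_mem hhH hz) (H.inv_mem hhH)) (H.inv_mem hz)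
        have hcomm : h * d = d * h := by
          apply Subtype.ext
          show (h : Mn) * (d : Mn) = (d : Mn) * (h : Mn)
          rw [hdm, hh, Matrix.diagonal_mul_diagonal, Matrix.diagonal_mul_diagonal]
          congr 1
          funext i
          exact mul_comm _ _
        have e1 : h * (d * T h01 c) * h⁻¹ * (d * T h01 c)⁻¹ = d * ((h * T h01 c * h⁻¹) * (T h01 c)⁻¹) * d⁻¹ := by
          calc h * (d * T h01 c) * h⁻¹ * (d * T h01 c)⁻¹ = (h * d) * T h01 c * h⁻¹ * (T h01 c)⁻¹ * d⁻¹ := by group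
            _ = _ := by rw [hcomm]; group
        have e2 : h * T h01 c * h⁻¹ = T h01 ((k : K) ^ 2 * c) := by
          rw [diag_T hh h01 (by show D 1 ≠ 0; rw [hD1]; exact Units.ne_zero _)]
          congr 1
          show D 0 * c * (D 1)⁻¹ = _
          rw [hD0, hD1, hki]; field_simp
        rw [e1, e2, ← T_neg, T_add, diag_T hdm h01 hE1ne, hE0, hE1, hc'] at h1
        convert h1 using 2
        rw [inv_one]; ring
  obtain ⟨s, hs0, hsA⟩ := hs
  have hall : ∀ t : K, T h01 t ∈ H := fun t => squares_span hK k hk (TA h01 H) hs0 hsA hAk t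
  have hwH : w ∈ H := by
    have h1 : x ∈ H := by rw [hx']; exact hall 1
    have := H.mul_mem (H.inv_mem h1) hyH
    rwa [inv_mul_cancel_left] at this
  rw [gen_top hn hw H hwH h01 hall, top_sup_eq]

end Cfsg.Agent.H15.GEN
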