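import Mathlib
import Cfsg.Agent.H15_HS2
import Cfsg.Agent.S0245

set_option autoImplicit false
open Module Polynomial Matrix

namespace Cfsg.Agent.H15.HS

section gram

variable {F : Type*} [Field F] {n : ℕ} {R : Type*} [CommRing R] [Algebra F R] (b : Basis (Fin n) F R) (lam : R →ₗ[F] F)

/-- the Gram matrix -/
noncomputable def gram : Matrix (Fin n) (Fin n) F := Matrix.of fun i j => lam (b i * b j)

local notation "L" => Algebra.leftMulMatrix b
local notation "G" => gram b lam

theorem gram_mul (x : R) (i j : Fin n) : (G * L x) i j = lam (b i * (x * b j)) := by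
  rw [Matrix.mul_apply]
  have h : x * b j = ∑ k, (L x) k j • b k := by
    conv_lhs => rw [← b.sum_repr (x * b j)]
    apply Finset.sum_congr rfl
    intro k _
    rw [Algebra.leftMulMatrix_eq_repr_mul]
  rw [h, Finset.mul_sum, map_sum]
  apply Finset.sum_congr rfl
  intro k _
  rw [mul_smul_comm, map_smul, smul_eq_mul, mul_comm]
  rfl

theorem gram_tr (x : R) : (L x)ᵀ * G = G * L x := by
  have hs : (G)ᵀ = G := by
    ext i j
    change lam (b j * b i) = lam (b i * b j)
    rw [mul_comm]
  have h : (G * L x)ᵀ = G * L x := by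
    ext i j
    rw [Matrix.transpose_apply, gram_mul, gram_mul]
    congr 1
    ring
  rw [Matrix.transpose_mul, hs] at h
  exact h

theorem gram_symm : (G)ᵀ = G := by
  ext i j
  change lam (b j * b i) = lam (b i * b j)
  rw [mul_comm]

theorem gram_det (hl : ∀ z : R, (∀ w, lam (w * z) = 0) → z = 0) : IsUnit (G).det := by
  rw [isUnit_iff_ne_zero]
  intro h
  rw [← Matrix.exists_mulVec_eq_zero_iff] at h
  obtain ⟨v, hv, hGv⟩ := h
  apply hv
  have h1 : ∑ j, v j • b j = 0 := by
    apply hl
    intro w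
    have h2 : ∀ i, lam (b i * ∑ j, v j • b j) = 0 := by
      intro i
      have h3 := congrFun hGv i
      rw [Finset.mul_sum, map_sum]
      refine Eq.trans ?_ h3
      apply Finset.sum_congr rfl
      intro j _
      rw [mul_smul_comm, map_smul, smul_eq_mul, mul_comm]
      rfl
    rw [← b.sum_repr w, Finset.sum_mul, map_sum]
    apply Finset.sum_eq_zero
    intro i _
    rw [smul_mul_assoc, map_smul, h2, smul_zero]
  have h2 := b.linearIndependent
  rw [Fintype.linearIndependent_iff] at h2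
  funext i
  exact h2 v h1 i

/-- the embedding of `SL_2(R)` in the symplectic group -/
noncomputable def slEmb (hG : IsUnit (G).det) : SpecialLinearGroup (Fin 2) R →* ↥(Matrix.symplecticGroup (Fin n) F) where
  toFun g := ⟨fromBlocks (L (g.1 0 0)) (L (g.1 0 1) * (G)⁻¹) (G * L (g.1 1 0)) (G * L (g.1 1 1) * (G)⁻¹), by
    have hGi : (G)⁻¹ᵀ = (G)⁻¹ := by rw [Matrix.transpose_nonsing_inv, gram_symm]
    have hLG : ∀ x, (G * L x)ᵀ = G * L x := fun x => by rw [Matrix.transpose_mul, gram_symm, gram_tr]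
    have hLL : ∀ x y, L x * L y = L y * L x := fun x y => by rw [← map_mul, mul_comm, map_mul]
    have hdet : g.1 0 0 * g.1 1 1 - g.1 1 0 * g.1 0 1 = 1 := by
      have := g.2
      rw [det_fin_two] at this
      rw [mul_comm (g.1 1 0)]; exact this
    rw [SymplecticGroup.fromBlocks_mem_iff]
    refine ⟨?_, ?_, ?_⟩
    · rw [hLG, ← Matrix.mul_assoc, gram_tr, Matrix.mul_assoc, Matrix.mul_assoc, hLL]
    · rw [Matrix.transpose_mul, hGi, Matrix.transpose_mul, hGi, hLG]
      rw [Matrix.mul_assoc, ← Matrix.mul_assoc _ (G * L _), ← Matrix.mul_assoc _ (G), gram_tr, ← Matrix.mul_assoc, ← Matrix.mul_assoc,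
        ← Matrix.mul_assoc, Matrix.nonsing_inv_mul _ hG, ← Matrix.mul_assoc, ← Matrix.mul_assoc, Matrix.nonsing_inv_mul _ hG, Matrix.one_mul, Matrix.one_mul, hLL]
    · rw [hLG, ← Matrix.mul_assoc, ← Matrix.mul_assoc, gram_tr, ← Matrix.mul_assoc, ← Matrix.sub_mul, Matrix.mul_assoc (G), Matrix.mul_assoc (G), ← Matrix.mul_sub,
        ← map_mul, ← map_mul, ← map_sub, hdet, map_one, Matrix.mul_one, Matrix.mul_nonsing_inv _ hG]⟩
  map_one' := by
    apply Subtype.ext
    have e1 : ((1 : SpecialLinearGroup (Fin 2) R)).1 0 0 = 1 := rfl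
    have e2 : ((1 : SpecialLinearGroup (Fin 2) R)).1 0 1 = 0 := rfl
    have e3 : ((1 : SpecialLinearGroup (Fin 2) R)).1 1 0 = 0 := rfl
    have e4 : ((1 : SpecialLinearGroup (Fin 2) R)).1 1 1 = 1 := rfl
    change fromBlocks _ _ _ _ = 1
    rw [e1, e2, e3, e4, map_one, map_zero, Matrix.mul_one, Matrix.mul_zero, Matrix.zero_mul, Matrix.mul_nonsing_inv _ hG, fromBlocks_one]
  map_mul' g h := by
    apply Subtype.ext
    have hm : ∀ i j, (g * h).1 i j = g.1 i 0 * h.1 0 j + g.1 i 1 * h.1 1 j := by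
      intro i j
      have : (g * h).1 = g.1 * h.1 := rfl
      rw [this, Matrix.mul_apply, Fin.sum_univ_two]
    change fromBlocks _ _ _ _ = fromBlocks _ _ _ _ * fromBlocks _ _ _ _
    rw [fromBlocks_multiply, hm, hm, hm, hm]
    have hc1 : ∀ x : Matrix (Fin n) (Fin n) F, (G)⁻¹ * (G * x) = x := fun x => by rw [← Matrix.mul_assoc, Matrix.nonsing_inv_mul _ hG, Matrix.one_mul]
    congr 1
    · simp only [map_add, map_mul, Matrix.mul_assoc, hc1]
    · simp only [map_add, map_mul, Matrix.mul_assoc, hc1, Matrix.add_mul]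
    · simp only [map_add, map_mul, Matrix.mul_assoc, hc1, Matrix.mul_add]
    · simp only [map_add, map_mul, Matrix.mul_assoc, hc1, Matrix.mul_add, Matrix.add_mul]

theorem slEmb_inj (hG : IsUnit (G).det) : Function.Injective (slEmb b lam hG) := by
  intro g h hgh
  have h1 := congrArg Subtype.val hgh
  change fromBlocks _ _ _ _ = fromBlocks _ _ _ _ at h1
  rw [fromBlocks_inj] at h1
  obtain ⟨h2, h3, h4, h5⟩ := h1
  have hL : Function.Injective (Algebra.leftMulMatrix b) := Algebra.leftMulMatrix_injective b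
  have hc : ∀ x y : Matrix (Fin n) (Fin n) F, G * x = G * y → x = y := by
    intro x y hxy
    have := congrArg (fun z => (G)⁻¹ * z) hxy
    simpa only [← Matrix.mul_assoc, Matrix.nonsing_inv_mul _ hG, Matrix.one_mul] using this
  have hc' : ∀ x y : Matrix (Fin n) (Fin n) F, x * (G)⁻¹ = y * (G)⁻¹ → x = y := by
    intro x y hxy
    have := congrArg (fun z => z * G) hxy
    simpa only [Matrix.mul_assoc, Matrix.nonsing_inv_mul _ hG, Matrix.mul_one] using this
  apply Subtype.ext
  ext i j
  fin_cases i <;> fin_cases j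
  · exact hL h2
  · exact hL (hc' _ _ h3)
  · exact hL (hc _ _ h4)
  · exact hL (hc _ _ (hc' _ _ h5))

end gram

end Cfsg.Agent.H15.HS
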