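import Mathlib
import Cfsg.Agent.H15_HS3

set_option autoImplicit false
open Module Polynomial Matrix

namespace Cfsg.Agent.H15.HS

section emb

variable {F K : Type*} [Field F] [Field K] [Algebra F K]

/-- componentwise matrices -/
def compEmb (a b : ℕ) : (Fin a → SpecialLinearGroup (Fin 2) K) →* SpecialLinearGroup (Fin 2) ((Fin a → K) × (Fin b → F)) where
  toFun g := ⟨!![(fun i => (g i).1 0 0, 1), (fun i => (g i).1 0 1, 0); (fun i => (g i).1 1 0, 0), (fun i => (g i).1 1 1, 1)], by
    rw [det_fin_two]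
    apply Prod.ext
    · funext i
      have := (g i).2
      rw [det_fin_two] at this
      exact this
    · funext i
      simp⟩
  map_one' := by
    apply Subtype.ext
    ext i j
    · fin_cases i <;> fin_cases j <;> rfl
    · fin_cases i <;> fin_cases j <;> rfl
  map_mul' g h := by
    apply Subtype.ext
    have hm : ∀ k i j, (g k * h k).1 i j = (g k).1 i 0 * (h k).1 0 j + (g k).1 i 1 * (h k).1 1 j := by
      intro k i j
      have : (g k * h k).1 = (g k).1 * (h k).1 := rfl
      rw [this, Matrix.mul_apply, Fin.sum_univ_two]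
    change !![_, _; _, _] = !![_, _; _, _] * !![_, _; _, _]
    rw [Matrix.mul_fin_two]
    congr 1
    funext i
    fin_cases i
    · funext j
      fin_cases j
      · apply Prod.ext
        · funext k; exact hm k 0 0
        · simp
      · apply Prod.ext
        · funext k; exact hm k 0 1
        · simp
    · funext j
      fin_cases j
      · apply Prod.ext
        · funext k; exact hm k 1 0
        · simp
      · apply Prod.ext
        · funext k; exact hm k 1 1
        · simp

theorem compEmb_inj (a b : ℕ) : Function.Injective (compEmb (F := F) (K := K) a b) := by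
  intro g h hgh
  have h1 := congrArg Subtype.val hgh
  funext k
  apply Subtype.ext
  ext i j
  have h2 := congrFun (congrFun h1 i) j
  have h3 := congrFun (congrArg Prod.fst h2) k
  fin_cases i <;> fin_cases j <;> exact h3

/-- elements of order dividing `Q + 1` -/
theorem exists_nonsplit [Finite K] {m : ℕ} (hm : m ∣ Nat.card K + 1) :
    ∃ θ : Multiplicative (ZMod m) →* SpecialLinearGroup (Fin 2) K, Function.Injective θ := by
  obtain ⟨L, _, _, hL1, hL2, _, _⟩ := exists_ext K 2 (by norm_num)
  have hK2 : 2 ≤ Nat.card K := Finite.one_lt_card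
  have hfac : Nat.card K ^ 2 - 1 = (Nat.card K + 1) * (Nat.card K - 1) := by
    have := Nat.sq_sub_sq (Nat.card K) 1
    rwa [one_pow] at this
  obtain ⟨θ, hθ⟩ := exists_order (K := L) (m := m) (by rw [hL2, hfac]; exact Dvd.dvd.mul_right hm _)
  let b : Basis (Fin 2) K L := Module.finBasisOfFinrankEq K L hL1
  have hpow : ∀ x : Multiplicative (ZMod m), x ^ m = 1 := by
    intro x
    apply Multiplicative.toAdd.injective
    rw [toAdd_pow, nsmul_eq_mul, ZMod.natCast_self, zero_mul]; rfl
  have hdet : ∀ x, (Algebra.leftMulMatrix b ((θ x : Lˣ) : L)).det = 1 := by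
    intro x
    rw [← Algebra.norm_eq_matrix_det b]
    apply (algebraMap K L).injective
    rw [FiniteField.algebraMap_norm_eq_pow, map_one, hL2, hfac, Nat.mul_div_cancel _ (by omega)]
    obtain ⟨k, hk⟩ := hm
    rw [hk, pow_mul, ← Units.val_pow_eq_pow_val, ← map_pow, hpow, map_one, Units.val_one, one_pow]
  refine ⟨{ toFun := fun x => ⟨Algebra.leftMulMatrix b ((θ x : Lˣ) : L), hdet x⟩, map_one' := ?_, map_mul' := ?_ }, ?_⟩
  · apply Subtype.ext
    change Algebra.leftMulMatrix b ((θ 1 : Lˣ) : L) = 1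
    rw [map_one, Units.val_one, map_one]
  · intro x y
    apply Subtype.ext
    change Algebra.leftMulMatrix b ((θ (x * y) : Lˣ) : L) = Algebra.leftMulMatrix b ((θ x : Lˣ) : L) * Algebra.leftMulMatrix b ((θ y : Lˣ) : L)
    rw [map_mul, Units.val_mul, map_mul]
  · intro x y h
    exact hθ (Units.ext (Algebra.leftMulMatrix_injective b (congrArg Subtype.val h)))

/-- a nondegenerate functional -/
theorem exists_lam (a b : ℕ) : ∃ lam : ((Fin a → K) × (Fin b → F)) →ₗ[F] F, ∀ z, (∀ w, lam (w * z) = 0) → z = 0 := by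
  obtain ⟨l0, hl0⟩ : ∃ l0 : Module.Dual F K, l0 1 ≠ 0 := by
    by_contra hcon
    push Not at hcon
    exact one_ne_zero ((Module.forall_dual_apply_eq_zero_iff F (1 : K)).mp hcon)
  refine ⟨(∑ i : Fin a, l0 ∘ₗ (LinearMap.proj i : (Fin a → K) →ₗ[F] K)) ∘ₗ (LinearMap.fst F (Fin a → K) (Fin b → F)) +
    (∑ i : Fin b, (LinearMap.proj i : (Fin b → F) →ₗ[F] F)) ∘ₗ (LinearMap.snd F (Fin a → K) (Fin b → F)), ?_⟩
  intro z hz
  have hz' : ∀ w : (Fin a → K) × (Fin b → F), ∑ i, l0 (w.1 i * z.1 i) + ∑ i, w.2 i * z.2 i = 0 := by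
    intro w
    have := hz w
    simpa using this
  apply Prod.ext
  · funext i
    by_contra h
    have h0 : z.1 i ≠ 0 := h
    have h1 := hz' (Pi.single i (z.1 i)⁻¹, 0)
    rw [Finset.sum_eq_single i] at h1
    · simp only [Pi.single_eq_same, inv_mul_cancel₀ h0, Pi.zero_apply, zero_mul, Finset.sum_const_zero, add_zero] at h1
      exact hl0 h1
    · intro j _ hj
      change l0 ((Pi.single i (z.1 i)⁻¹ : Fin a → K) j * z.1 j) = 0
      rw [Pi.single_eq_of_ne hj, zero_mul, map_zero]
    · intro h2; exact absurd (Finset.mem_univ i) h2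
  · funext i
    have h1 := hz' (0, Pi.single i 1)
    rw [Finset.sum_eq_single (f := fun j => ((0, Pi.single i 1) : (Fin a → K) × (Fin b → F)).2 j * z.2 j) i] at h1
    · simpa using h1
    · intro j _ hj
      change (Pi.single i 1 : Fin b → F) j * _ = 0
      rw [Pi.single_eq_of_ne hj, zero_mul]
    · intro h2; exact absurd (Finset.mem_univ i) h2

end emb

/-- the hyperbolic embedding of `GL_n` -/
noncomputable def glSp {F : Type*} [Field F] (n : ℕ) : GL (Fin n) F →* ↥(Matrix.symplecticGroup (Fin n) F) where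
  toFun A := ⟨fromBlocks (A : Matrix (Fin n) (Fin n) F) 0 0 ((A⁻¹ : GL (Fin n) F) : Matrix (Fin n) (Fin n) F)ᵀ, by
    rw [SymplecticGroup.fromBlocks_mem_iff]
    refine ⟨by simp, by simp, ?_⟩
    rw [Matrix.mul_zero, sub_zero, ← Matrix.transpose_mul, ← Units.val_mul, inv_mul_cancel, Units.val_one, Matrix.transpose_one]⟩
  map_one' := by
    apply Subtype.ext
    change fromBlocks _ _ _ _ = 1
    rw [inv_one, Units.val_one, Matrix.transpose_one, fromBlocks_one]
  map_mul' A B := by
    apply Subtype.ext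
    change fromBlocks _ _ _ _ = fromBlocks _ _ _ _ * fromBlocks _ _ _ _
    rw [fromBlocks_multiply, _root_.mul_inv_rev]
    congr 1
    · simp
    · simp
    · simp
    · rw [Units.val_mul, Matrix.transpose_mul]; simp

theorem glSp_inj {F : Type*} [Field F] (n : ℕ) : Function.Injective (glSp (F := F) n) := by
  intro g h hgh
  have h1 := congrArg Subtype.val hgh
  change fromBlocks _ _ _ _ = fromBlocks _ _ _ _ at h1
  rw [fromBlocks_inj] at h1
  exact Units.ext h1.1

theorem sp_val {F : Type*} [Field F] [Fintype F] {q : ℕ} (hq : Fintype.card F = q) (n : ℕ)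
    (r : ℕ) [Fact r.Prime] (hr2 : r ≠ 2) (hrn : n < r) (hrq : ¬ r ∣ q) :
    (Nat.card ↥(Matrix.symplecticGroup (Fin n) F)).factorization r =
      padicValNat r ((Polynomial.cyclotomic (orderOf (q : ZMod r)) ℤ).eval (q : ℤ)).natAbs * ((Finset.Icc 1 n).filter (fun i => orderOf (q : ZMod r) ∣ 2 * i)).card := by
  have hq2 : 2 ≤ q := hq ▸ Fintype.one_lt_card
  have hr : r.Prime := Fact.out
  rw [Cfsg.Agent.S0245.result hq n]
  have hne : ∀ i ∈ Finset.range n, q ^ (2 * (i + 1)) - 1 ≠ 0 := by
    intro i _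
    have := Nat.pow_lt_pow_right (show 1 < q by omega) (show 0 < 2 * (i + 1) by omega)
    rw [pow_zero] at this
    omega
  rw [Nat.factorization_mul (pow_ne_zero _ (by omega)) (Finset.prod_ne_zero_iff.mpr hne), Finsupp.add_apply, Nat.factorization_pow, Finsupp.smul_apply,
    Nat.factorization_eq_zero_of_not_dvd hrq, smul_zero, zero_add, Nat.factorization_prod hne, Finsupp.finset_sum_apply]
  rw [Finset.sum_congr rfl (fun i hi => val_one hq2 hrq (i := 2 * (i + 1)) (by omega) (by
    intro j hj hrj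
    have h1 : r ∣ 2 * (i + 1) := by rw [hj]; exact Dvd.dvd.mul_left hrj _
    rcases (Nat.Prime.dvd_mul hr).mp h1 with h2 | h2
    · have := (Nat.prime_dvd_prime_iff_eq hr Nat.prime_two).mp h2
      exact hr2 this
    · have := Nat.le_of_dvd (by omega) h2
      have := Finset.mem_range.mp hi
      omega))]
  rw [← Finset.sum_filter, Finset.sum_const, smul_eq_mul, mul_comm]
  congr 1
  apply Finset.card_bij (fun i _ => i + 1)
  · intro i hi
    rw [Finset.mem_filter, Finset.mem_range] at hi
    rw [Finset.mem_filter, Finset.mem_Icc]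
    exact ⟨by omega, hi.2⟩
  · intro i hi j hj h
    omega
  · intro j hj
    rw [Finset.mem_filter, Finset.mem_Icc] at hj
    refine ⟨j - 1, ?_, by omega⟩
    rw [Finset.mem_filter, Finset.mem_range, show j - 1 + 1 = j by omega]
    exact ⟨by omega, hj.2⟩

theorem icc_filter2 {n d : ℕ} : ((Finset.Icc 1 n).filter (fun i => d ∣ i)).card = n / d := by
  rw [← Nat.card_multiples n d]
  apply Finset.card_bij (fun i _ => i - 1)
  · intro i hi
    rw [Finset.mem_filter, Finset.mem_Icc] at hi
    rw [Finset.mem_filter, Finset.mem_range]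
    refine ⟨by omega, ?_⟩
    rw [show i - 1 + 1 = i by omega]; exact hi.2
  · intro i hi j hj h
    rw [Finset.mem_filter, Finset.mem_Icc] at hi hj
    omega
  · intro j hj
    rw [Finset.mem_filter, Finset.mem_range] at hj
    refine ⟨j + 1, ?_, by omega⟩
    rw [Finset.mem_filter, Finset.mem_Icc]
    exact ⟨by omega, hj.2⟩

theorem sp_syl {F : Type*} [Field F] [Fintype F] {q : ℕ} (hq : Fintype.card F = q) (n : ℕ)
    (r : ℕ) [Fact r.Prime] (hr2 : r ≠ 2) (hrn : n < r) (hrq : ¬ r ∣ q) (P : Sylow r ↥(Matrix.symplecticGroup (Fin n) F)) :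
    Nonempty (↥(P : Subgroup ↥(Matrix.symplecticGroup (Fin n) F)) ≃*
      (Fin ((Finset.Icc 1 n).filter (fun i => orderOf (q : ZMod r) ∣ 2 * i)).card →
        Multiplicative (ZMod (r ^ padicValNat r ((Polynomial.cyclotomic (orderOf (q : ZMod r)) ℤ).eval (q : ℤ)).natAbs)))) := by
  have hq2 : 2 ≤ q := hq ▸ Fintype.one_lt_card
  have hr : r.Prime := Fact.out
  have hu : (q : ZMod r) ≠ 0 := by rw [Ne, ZMod.natCast_eq_zero_iff]; exact hrq
  have hd0 : 0 < orderOf (q : ZMod r) := by
    rw [orderOf_pos_iff, isOfFinOrder_iff_pow_eq_one]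
    exact ⟨r - 1, Nat.sub_pos_of_lt (Fact.out : r.Prime).one_lt, ZMod.pow_card_sub_one_eq_one hu⟩
  have hval := sp_val hq n r hr2 hrn hrq
  suffices h : ∃ Φ : (Fin ((Finset.Icc 1 n).filter (fun i => orderOf (q : ZMod r) ∣ 2 * i)).card →
        Multiplicative (ZMod (r ^ padicValNat r ((Polynomial.cyclotomic (orderOf (q : ZMod r)) ℤ).eval (q : ℤ)).natAbs))) →* ↥(Matrix.symplecticGroup (Fin n) F),
      Function.Injective Φ by
    obtain ⟨Φ, hΦ⟩ := h
    apply syl_equiv Φ hΦ
    rw [hval, Nat.card_fun, Nat.card_eq_fintype_card (α := Fin _), Fintype.card_fin, pow_mul]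
    congr 1
    exact Nat.card_zmod _
  rcases Nat.even_or_odd (orderOf (q : ZMod r)) with ⟨e, he⟩ | hodd
  · have he2 : orderOf (q : ZMod r) = 2 * e := by omega
    have hcard : ((Finset.Icc 1 n).filter (fun i => orderOf (q : ZMod r) ∣ 2 * i)).card = n / e := by
      rw [← icc_filter2 (n := n) (d := e)]
      congr 1
      apply Finset.filter_congr
      intro i _
      rw [he2]
      exact Nat.mul_dvd_mul_iff_left (by norm_num)
    rw [hcard]
    have he0 : 0 < e := by omega
    obtain ⟨K, _, _, hK1, hK2, _, _⟩ := exists_ext F e he0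
    have hKc : Nat.card K = q ^ e := by rw [hK2, Nat.card_eq_fintype_card, hq]
    have hm : r ^ padicValNat r ((Polynomial.cyclotomic (orderOf (q : ZMod r)) ℤ).eval (q : ℤ)).natAbs ∣ Nat.card K + 1 := by
      rw [← val_cyclo hq2 hrq, hKc]
      have h1 : q ^ orderOf (q : ZMod r) - 1 = (q ^ e + 1) * (q ^ e - 1) := by
        rw [he2, mul_comm 2 e, pow_mul]
        have := Nat.sq_sub_sq (q ^ e) 1
        rwa [one_pow] at this
      have h2 : r ^ (q ^ orderOf (q : ZMod r) - 1).factorization r ∣ (q ^ e + 1) * (q ^ e - 1) := by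
        rw [← h1]; exact Nat.ordProj_dvd _ _
      apply Nat.Coprime.dvd_of_dvd_mul_right _ h2
      apply Nat.Coprime.pow_left
      rw [Nat.Prime.coprime_iff_not_dvd hr]
      intro h3
      have h4 := (dvd_iff (by omega) e).mp h3
      have h5 := Nat.le_of_dvd he0 h4
      omega
    obtain ⟨θ, hθ⟩ := exists_nonsplit hm
    obtain ⟨lam, hlam⟩ := exists_lam (F := F) (K := K) (n / e) (n % e)
    have hfin : finrank F ((Fin (n / e) → K) × (Fin (n % e) → F)) = n := by
      rw [Module.finrank_prod, Module.finrank_fin_fun, Module.finrank_pi_fintype]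
      simp only [hK1, Finset.sum_const, Finset.card_univ, Fintype.card_fin, smul_eq_mul]
      exact Nat.div_add_mod' n e
    let b : Basis (Fin n) F ((Fin (n / e) → K) × (Fin (n % e) → F)) := Module.finBasisOfFinrankEq F _ hfin
    refine ⟨(slEmb b lam (gram_det b lam hlam)).comp ((compEmb (n / e) (n % e)).comp (MonoidHom.compLeft θ (Fin (n / e)))), ?_⟩
    apply (slEmb_inj b lam (gram_det b lam hlam)).comp
    apply (compEmb_inj (n / e) (n % e)).comp
    intro x y h
    funext i
    exact hθ (congrFun h i)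
  · have hcard : ((Finset.Icc 1 n).filter (fun i => orderOf (q : ZMod r) ∣ 2 * i)).card = n / orderOf (q : ZMod r) := by
      rw [← icc_filter2 (n := n) (d := orderOf (q : ZMod r))]
      congr 1
      apply Finset.filter_congr
      intro i _
      exact Nat.Coprime.dvd_mul_left (Nat.Coprime.symm (Nat.coprime_two_left.mpr hodd))
    rw [hcard]
    obtain ⟨Φ, hΦ⟩ := gl_hom hq n r hrq
    exact ⟨(glSp n).comp Φ, (glSp_inj n).comp hΦ⟩

end Cfsg.Agent.H15.HS
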