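import Cfsg.Statements.S0294
import Mathlib
import Cfsg.Agent.H5_OmCard
import Cfsg.Agent.H16_Std
import Cfsg.Agent.S0288
import Cfsg.Agent.S0791

set_option autoImplicit false
open Cfsg

namespace Cfsg.Agent.S0294


theorem two_ne {F : Type*} [Field F] [Fintype F] {q : ℕ} (hF : Fintype.card F = q) (hodd : Odd q) : (2 : F) ≠ 0 := by
  intro h2
  have h3 : ringChar F = 2 := by
    have h4 := ringChar.dvd (R := F) (x := 2) (by exact_mod_cast h2)
    exact (Nat.prime_dvd_prime_iff_eq (CharP.char_is_prime F (ringChar F)) Nat.prime_two).1 h4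
  have h5 := FiniteField.even_card_iff_char_two.1 h3
  rw [hF] at h5
  rw [Nat.odd_iff] at hodd
  omega

theorem two_eq {F : Type*} [Field F] [Fintype F] {q : ℕ} (hF : Fintype.card F = q) (hev : ¬ Odd q) : (2 : F) = 0 := by
  have h3 : ringChar F = 2 := by
    apply FiniteField.even_card_iff_char_two.2
    rw [Nat.odd_iff] at hev
    rw [hF]; omega
  have := CharP.cast_eq_zero F (ringChar F)
  rw [h3] at this
  exact_mod_cast this

theorem gcd4 (a : ℕ) : Nat.gcd 4 a = if a % 4 = 0 then 4 else if a % 2 = 0 then 2 else 1 := by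
  rw [Nat.gcd_rec]
  have h : a % 4 < 4 := Nat.mod_lt _ (by norm_num)
  have h2 : a % 2 = (a % 4) % 2 := by omega
  rw [h2]
  generalize a % 4 = b at h
  interval_cases b <;> rfl

/-- gcd(4, q^m + 1) |PΩ^-_{2m}(q)| = q^(m(m-1)) (q^m + 1) prod_{i=1}^{m-1} (q^(2i) - 1), m at least 4 (type ²D_m). -/
theorem result {F : Type*} [Field F] [Fintype F] {q : ℕ} (hF : Fintype.card F = q) (m : ℕ) (hm : 4 ≤ m) (a b : F) (hab : ∀ z₁ z₂ : F, z₁ ^ 2 + a * z₁ * z₂ + b * z₂ ^ 2 = 0 → z₁ = 0 ∧ z₂ = 0) : Nat.gcd 4 (q ^ m + 1) * Nat.card (Cfsg.POmega F (Cfsg.quadFormMinus (m - 1) F a b)) = q ^ (m * (m - 1)) * (q ^ m + 1) * ∏ i ∈ Finset.range (m - 1), (q ^ (2 * (i + 1)) - 1) := by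
  have h1 := Cfsg.Agent.S0288.result hF m (by omega) a b hab
  have hm1 := Cfsg.Agent.S0791.result (F := F) hF
  rw [← Cfsg.Agent.H16.Quad.coe_minusQ] at h1 ⊢
  have hQ := H16.Quad.nd_minusQ (m - 1) hab
  have hc : 5 ≤ Fintype.card ((Fin (m - 1) ⊕ Fin (m - 1)) ⊕ Fin 2) := by simp; omega
  have hfr : Module.finrank F ((Fin (m - 1) ⊕ Fin (m - 1)) ⊕ Fin 2 → F) = 2 * m := by
    rw [Module.finrank_fintype_fun_eq_card]; simp; omega
  rw [H5.OmSim.card_iso_eq] at h1
  have hqpos : 1 ≤ q ^ m := Nat.one_le_pow _ _ (by rw [← hF]; exact Fintype.card_pos)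
  by_cases hodd : Odd q
  · have h2 := two_ne hF hodd
    have h3 : (Cfsg.Omega F ⇑(H16.Quad.minusQ F (m - 1) a b)).index = 4 := H16.Quad.Omega_index_odd hQ h2 (by omega)
    have hqodd : (q ^ m) % 2 = 1 := Nat.odd_iff.1 (hodd.pow)
    by_cases h4 : q ^ m % 4 = 3
    · have h5 := (hm1 hodd m (by omega) a b hab).2 h4
      rw [← Cfsg.Agent.H16.Quad.coe_minusQ] at h5
      rw [h3, H5.OmSim.center_two hQ hc h2 h5] at h1
      have h6 : Nat.gcd 4 (q ^ m + 1) = 4 := by
        rw [gcd4, if_pos (by omega)]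
      rw [h6]
      linarith
    · have h5 := mt (hm1 hodd m (by omega) a b hab).1 h4
      rw [← Cfsg.Agent.H16.Quad.coe_minusQ] at h5
      rw [h3, H5.OmSim.center_eq_bot hQ hc h5] at h1
      have h6 : Nat.gcd 4 (q ^ m + 1) = 2 := by
        rw [gcd4, if_neg (by omega), if_pos (by omega)]
      rw [h6]
      linarith
  · have h2 := two_eq hF hodd
    have h3 : (Cfsg.Omega F ⇑(H16.Quad.minusQ F (m - 1) a b)).index = 2 :=
      H16.Quad.Omega_index_two hQ h2 (by omega) (Or.inr (by omega))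
    have hqev : (q ^ m) % 2 = 0 := by
      rw [← Nat.even_iff]
      exact (Nat.not_odd_iff_even.1 hodd).pow_of_ne_zero (by omega)
    rw [h3, H5.OmSim.center_char_two hQ hc h2] at h1
    have h6 : Nat.gcd 4 (q ^ m + 1) = 1 := by
      rw [gcd4, if_neg (by omega), if_neg (by omega)]
    rw [h6]
    linarith

end Cfsg.Agent.S0294
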