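import Cfsg.Statements.S1066
import Cfsg.Agent.H6_TwHE6

set_option autoImplicit false
open Cfsg

namespace Cfsg.Agent.S1066

/-- `gcd(3, q+1) · |²E₆(q)| = q³⁶ (q² - 1)(q⁵ + 1)(q⁶ - 1)(q⁸ - 1)(q⁹ + 1)(q¹² - 1)`, the group being realised inside E₆ over the field with `q²` elements. -/
theorem result {K : Type*} [Field K] [Fintype K] {q : ℕ} (hq : IsPrimePow q) (hK : Fintype.card K = q ^ 2) :
    Nat.gcd 3 (q + 1) * Nat.card ↥(Cfsg.Lie.twistedE6 K q) =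
      q ^ 36 * (q ^ 2 - 1) * (q ^ 5 + 1) * (q ^ 6 - 1) * (q ^ 8 - 1) * (q ^ 9 + 1) * (q ^ 12 - 1) := by
  obtain ⟨φ, hφ, hφ2, P, hP, hc⟩ := Cfsg.Agent.H6.Chev.exists_pE6 hq hK
  have h1 := Cfsg.Agent.H6.Chev.e6_card_H φ hφ hφ2 hq.one_lt hK P hP
  have h2 := P.card_G1 (d := 1) one_pos Cfsg.Agent.H6.Chev.hkkE6 hc
  have hN : Cfsg.Agent.H6.Chev.modelE6.N / 1 = 36 := by
    have h1 := Cfsg.Agent.H6.Chev.modelE6.nroots_eq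
    have h2 := Cfsg.Agent.H6.Chev.baseE6.nroots
    have h3 : Cfsg.Agent.H6.Chev.tabE6.n = 72 := rfl
    omega
  have h4 : (Cfsg.Agent.H6.Chev.twE6 φ).PA Set.univ 1 q = _ := Cfsg.Agent.H6.Chev.paE6 q
  rw [hN, h4] at h2
  rw [← hP, h2]
  have h3 := Cfsg.Agent.H6.Chev.ppE6 (q : ℤ)
  have hq1 : 1 ≤ q := hq.one_lt.le
  have e1 : ((q - 1 : ℕ) : ℤ) = (q : ℤ) - 1 := by rw [Nat.cast_sub hq1]; simp
  have e2 : ((q ^ 2 - 1 : ℕ) : ℤ) = (q : ℤ) ^ 2 - 1 := by rw [Nat.cast_sub (Nat.one_le_pow _ _ hq1)]; simp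
  have e6 : ((q ^ 6 - 1 : ℕ) : ℤ) = (q : ℤ) ^ 6 - 1 := by rw [Nat.cast_sub (Nat.one_le_pow _ _ hq1)]; simp
  have e8 : ((q ^ 8 - 1 : ℕ) : ℤ) = (q : ℤ) ^ 8 - 1 := by rw [Nat.cast_sub (Nat.one_le_pow _ _ hq1)]; simp
  have e12 : ((q ^ 12 - 1 : ℕ) : ℤ) = (q : ℤ) ^ 12 - 1 := by rw [Nat.cast_sub (Nat.one_le_pow _ _ hq1)]; simp
  zify at h1 ⊢
  rw [e1] at h1
  rw [e2, e6, e8, e12, Cfsg.Agent.H6.Chev.poly_cast, Cfsg.Agent.H6.Chev.poly_cast, Cfsg.Agent.H6.Chev.poly_cast, Cfsg.Agent.H6.Chev.poly_cast]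
  generalize Cfsg.Agent.H6.Chev.poly [1, 1, 1, 0, 1, 1, 2, 1, 1, 1, 2, 2, 1, 1, 1, 2, 1, 1, 0, 1, 1, 1] (q : ℤ) *
    Cfsg.Agent.H6.Chev.poly [1, 0, 1, 0, 1, 1, 0, 1, 0, 1] (q : ℤ) * Cfsg.Agent.H6.Chev.poly [1, 1, 0, 1, 1] (q : ℤ) * Cfsg.Agent.H6.Chev.poly [1, 0, 1] (q : ℤ) = A at h3 ⊢
  linear_combination (q : ℤ) ^ 36 * h3 + (q : ℤ) ^ 36 * A * h1

end Cfsg.Agent.S1066
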