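import Cfsg.Statements.S1069
import Cfsg.Agent.H6_TwHG2

set_option autoImplicit false
open Cfsg

namespace Cfsg.Agent.S1069

theorem aux (m : ℕ) : 3 ^ (2 * m + 1) % 8 = 3 := by
  induction m with
  | zero => rfl
  | succ k ih =>
    have : 3 ^ (2 * (k + 1) + 1) = 3 ^ (2 * k + 1) * 9 := by ring
    rw [this, Nat.mul_mod, ih]

/-- `|²G₂(q)| = q³ (q - 1)(q³ + 1)` for `q = 3^(2m+1)` (θ = 3^m-th power map), every `m ≥ 0`. -/
theorem result {K : Type*} [Field K] [Fintype K] {m : ℕ} (hK : Fintype.card K = 3 ^ (2 * m + 1)) :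
    Nat.card ↥(Cfsg.Lie.twistedG2 K (3 ^ m)) = (3 ^ (2 * m + 1)) ^ 3 * (3 ^ (2 * m + 1) - 1) * ((3 ^ (2 * m + 1)) ^ 3 + 1) := by
  obtain ⟨h3, φ, hperf, hφ, hφ2, P, hP, hc⟩ := Cfsg.Agent.H6.Chev.exists_pG2 hK
  have hq : Nat.card K = 3 ^ (2 * m + 1) := by rw [Nat.card_eq_fintype_card, hK]
  have ha := aux m
  have h1 := Cfsg.Agent.H6.Chev.g2_card_H φ hperf hφ2 hφ (by rw [hq]; omega) (by rw [hq]; omega) P hP
  have h2 := P.card_G1 (d := 2) two_pos Cfsg.Agent.H6.Chev.hkkG2 hc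
  have hN : Cfsg.Agent.H6.Chev.modelG2.N / 2 = 3 := by
    have h1 := Cfsg.Agent.H6.Chev.modelG2.nroots_eq
    have h2 := Cfsg.Agent.H6.Chev.baseG2.nroots
    have h3 : Cfsg.Agent.H6.Chev.tabG2.n = 12 := rfl
    omega
  have h4 : (Cfsg.Agent.H6.Chev.twG2 φ hperf).PA Set.univ 2 (3 ^ (2 * m + 1)) = _ := Cfsg.Agent.H6.Chev.paG2 (3 ^ (2 * m + 1))
  rw [hN, h1, h4] at h2
  rw [← hP, h2, hq]
  have h5 : Cfsg.Agent.H6.Chev.poly [1, 0, 0, 1] (3 ^ (2 * m + 1)) = (3 ^ (2 * m + 1)) ^ 3 + 1 := by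
    simp only [Cfsg.Agent.H6.Chev.poly]
    ring
  rw [h5]

end Cfsg.Agent.S1069
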