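import Cfsg.Agent.S0243
import Cfsg.Agent.S0245
import Cfsg.Agent.S0246
import Cfsg.Agent.S0280
import Cfsg.Agent.S0292
import Cfsg.Agent.S0293
import Cfsg.Agent.S0294
import Cfsg.Agent.S1163
import Cfsg.Agent.S1059
import Cfsg.Agent.S1062
import Cfsg.Agent.S1063
import Cfsg.Agent.S1064
import Cfsg.Agent.S1065
import Cfsg.Agent.S1066
import Cfsg.Agent.S1067
import Cfsg.Agent.S1068
import Cfsg.Agent.S1069
import Cfsg.Prelude.Def_LieTypeChar

set_option autoImplicit false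

namespace Cfsg.Agent.H15.LO

/-- order data: `d * c = q ^ N * A`, `q` a power of `p`, `d`, `A` prime to `p`, `A < q ^ M`. -/
structure Od (p q N M c : ℕ) : Prop where
  pow : ∃ f, 1 ≤ f ∧ q = p ^ f
  fac : ∃ d A, d * c = q ^ N * A ∧ p.Coprime d ∧ p.Coprime A ∧ A < q ^ M ∧ 0 < d

theorem Od.ppart {p q N M c : ℕ} (hp : p.Prime) (h : Od p q N M c) : q ^ N = p ^ (c.factorization p) := by
  obtain ⟨f, hf, rfl⟩ := h.pow
  obtain ⟨d, A, e, cd, cA, lt, d0⟩ := h.fac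
  have hA0 : A ≠ 0 := by
    rintro rfl
    rw [Nat.coprime_zero_right] at cA
    exact hp.one_lt.ne' cA
  have hd : d.factorization p = 0 := Nat.factorization_eq_zero_of_not_dvd (fun hh => (Nat.Prime.coprime_iff_not_dvd hp).1 cd hh)
  have hA : A.factorization p = 0 := Nat.factorization_eq_zero_of_not_dvd (fun hh => (Nat.Prime.coprime_iff_not_dvd hp).1 cA hh)
  have hc0 : c ≠ 0 := by
    rintro rfl
    rw [mul_zero] at e
    have : (p ^ f) ^ N * A ≠ 0 := mul_ne_zero (pow_ne_zero _ (pow_ne_zero _ hp.ne_zero)) hA0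
    exact this e.symm
  have h1 := congrArg (fun t => Nat.factorization t p) e
  rw [Nat.factorization_mul d0.ne' hc0, Nat.factorization_mul (pow_ne_zero _ (pow_ne_zero _ hp.ne_zero)) hA0,
    Finsupp.add_apply, Finsupp.add_apply, hd, hA, ← pow_mul, hp.factorization_pow, Finsupp.single_eq_same, zero_add, add_zero] at h1
  rw [h1, ← pow_mul]

theorem Od.lt {p q N M c : ℕ} (hp : p.Prime) (h : Od p q N M c) : c < q ^ (N + M) := by
  obtain ⟨f, hf, hq⟩ := h.pow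
  obtain ⟨d, A, e, cd, cA, lt, d0⟩ := h.fac
  have q0 : 0 < q := by rw [hq]; exact pow_pos hp.pos _
  calc c ≤ d * c := Nat.le_mul_of_pos_left _ d0
    _ = q ^ N * A := e
    _ < q ^ N * q ^ M := Nat.mul_lt_mul_of_pos_left lt (pow_pos q0 _)
    _ = q ^ (N + M) := (pow_add _ _ _).symm

theorem Od.main1 {p q N M c : ℕ} (hp : p.Prime) (h : Od p q N M c) (h1 : M ≤ 2 * N) :
    c < p ^ (3 * c.factorization p) := by
  obtain ⟨f, hf, hq⟩ := h.pow
  have q0 : 1 ≤ q := by rw [hq]; exact Nat.pos_of_ne_zero (pow_ne_zero _ hp.ne_zero)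
  rw [mul_comm, pow_mul, ← h.ppart hp, ← pow_mul]
  exact lt_of_lt_of_le (h.lt hp) (Nat.pow_le_pow_right q0 (by omega))

theorem Od.main2 {p q N M c : ℕ} (hp : p.Prime) (h : Od p q N M c) (h1 : 3 * M ≤ 5 * N) :
    c ^ 3 < p ^ (8 * c.factorization p) := by
  obtain ⟨f, hf, hq⟩ := h.pow
  have q0 : 1 ≤ q := by rw [hq]; exact Nat.pos_of_ne_zero (pow_ne_zero _ hp.ne_zero)
  rw [mul_comm, pow_mul, ← h.ppart hp, ← pow_mul]
  calc c ^ 3 < (q ^ (N + M)) ^ 3 := Nat.pow_lt_pow_left (h.lt hp) (by norm_num)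
    _ = q ^ (3 * (N + M)) := by rw [← pow_mul, mul_comm]
    _ ≤ _ := Nat.pow_le_pow_right q0 (by omega)

/-! ### coprimality and bounds -/

theorem cs {p q : ℕ} (hp : p.Prime) (hpq : p ∣ q) (q0 : 0 < q) {i : ℕ} (hi : i ≠ 0) : p.Coprime (q ^ i - 1) := by
  rw [Nat.Prime.coprime_iff_not_dvd hp]
  intro h
  have h1 : p ∣ q ^ i := dvd_pow hpq hi
  have h2 : 1 ≤ q ^ i := Nat.pos_of_ne_zero (pow_ne_zero _ q0.ne')
  have h3 : p ∣ q ^ i - (q ^ i - 1) := Nat.dvd_sub h1 h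
  rw [Nat.sub_sub_self h2] at h3
  exact hp.one_lt.ne' (Nat.dvd_one.1 h3)

theorem ca {p q : ℕ} (hp : p.Prime) (hpq : p ∣ q) {i : ℕ} (hi : i ≠ 0) : p.Coprime (q ^ i + 1) := by
  rw [Nat.Prime.coprime_iff_not_dvd hp]
  intro h
  have h1 : p ∣ q ^ i := dvd_pow hpq hi
  have h3 := (Nat.dvd_add_right h1).1 h
  exact hp.one_lt.ne' (Nat.dvd_one.1 h3)

theorem ls {q : ℕ} (q0 : 0 < q) (i : ℕ) : q ^ i - 1 < q ^ i := Nat.sub_lt (pow_pos q0 _) one_pos

theorem la {q : ℕ} (q0 : 2 ≤ q) {i : ℕ} (hi : i ≠ 0) : q ^ i + 1 < q ^ (i + 1) := by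
  have h1 : 2 ≤ q ^ i := le_trans q0 (Nat.le_self_pow hi q)
  calc q ^ i + 1 < q ^ i + q ^ i := by omega
    _ = q ^ i * 2 := by ring
    _ ≤ q ^ i * q := Nat.mul_le_mul_left _ q0
    _ = q ^ (i + 1) := (pow_succ _ _).symm

theorem mlt {q a b i j : ℕ} (h1 : a < q ^ i) (h2 : b < q ^ j) : a * b < q ^ (i + j) := by
  rw [pow_add]; exact Nat.mul_lt_mul'' h1 h2

/-- `∏ (q^(i+2) - 1) < q ^ ∑ (i+2)`. -/
theorem prod_lt {q : ℕ} (q0 : 1 ≤ q) (e : ℕ → ℕ) : ∀ k, 1 ≤ k → ∏ i ∈ Finset.range k, (q ^ (e i) - 1) < q ^ (∑ i ∈ Finset.range k, e i)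
  | 0, h => absurd h (by norm_num)
  | 1, _ => by
    rw [Finset.prod_range_one, Finset.sum_range_one]
    exact ls q0 _
  | k + 2, _ => by
    rw [Finset.prod_range_succ, Finset.sum_range_succ]
    exact mlt (prod_lt q0 e (k + 1) (by omega)) (ls q0 _)

theorem sum2 (m : ℕ) : ∑ i ∈ Finset.range m, 2 * (i + 1) = m * (m + 1) := by
  induction m with
  | zero => rfl
  | succ m ih => rw [Finset.sum_range_succ, ih]; ring

theorem sum1 (k : ℕ) : 2 * ∑ i ∈ Finset.range k, (i + 2) = k * (k + 3) := by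
  induction k with
  | zero => rfl
  | succ m ih => rw [Finset.sum_range_succ, mul_add, ih]; ring

theorem char_q {F : Type} [Field F] [Fintype F] {p : ℕ} [CharP F p] (hp : p.Prime) : ∃ f, 1 ≤ f ∧ Fintype.card F = p ^ f := by
  haveI : Fact p.Prime := ⟨hp⟩
  obtain ⟨n, hn, e⟩ := FiniteField.card F p
  exact ⟨n, n.2, e⟩

theorem char_q' {F : Type} [Field F] [Fintype F] {p : ℕ} [CharP F p] (hp : p.Prime) {q e : ℕ} (he : e ≠ 0) (h : Fintype.card F = q ^ e) :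
    ∃ f, 1 ≤ f ∧ q = p ^ f := by
  obtain ⟨n, hn, e1⟩ := char_q (F := F) hp
  rw [h] at e1
  have : q ∣ p ^ n := e1 ▸ dvd_pow_self q he
  obtain ⟨f, hf, rfl⟩ := (Nat.dvd_prime_pow hp).1 this
  refine ⟨f, ?_, rfl⟩
  by_contra hcon
  have : f = 0 := by omega
  subst this
  rw [pow_zero, one_pow] at e1
  exact absurd e1 (Nat.one_lt_pow (by omega) hp.one_lt).ne

theorem pow_dvd {p q : ℕ} (h : ∃ f, 1 ≤ f ∧ q = p ^ f) : p ∣ q := by
  obtain ⟨f, hf, rfl⟩ := h
  exact dvd_pow_self p (by omega)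

theorem pow_two_le {p q : ℕ} (hp : p.Prime) (h : ∃ f, 1 ≤ f ∧ q = p ^ f) : 2 ≤ q := by
  obtain ⟨f, hf, rfl⟩ := h
  exact le_trans hp.two_le (Nat.le_self_pow (by omega) p)

/-! ### the classical families -/

theorem prodPSL (q n : ℕ) : ∏ i : Fin (n + 1), (q ^ (n + 1) - q ^ (i : ℕ)) =
    q ^ (∑ i ∈ Finset.range (n + 1), i) * ((q - 1) * ∏ i ∈ Finset.range n, (q ^ (i + 2) - 1)) := by
  rw [Fin.prod_univ_eq_prod_range (fun i => q ^ (n + 1) - q ^ i) (n + 1)]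
  have h1 : ∀ i ∈ Finset.range (n + 1), q ^ (n + 1) - q ^ i = q ^ i * (q ^ (n + 1 - i) - 1) := by
    intro i hi
    have hi' : i ≤ n + 1 := (Finset.mem_range.1 hi).le
    rw [Nat.mul_sub, mul_one, ← pow_add, Nat.add_sub_cancel' hi']
  rw [Finset.prod_congr rfl h1, Finset.prod_mul_distrib, Finset.prod_pow_eq_pow_sum]
  congr 1
  rw [← Finset.prod_range_reflect]
  have h2 : ∀ i ∈ Finset.range (n + 1), q ^ (n + 1 - (n + 1 - 1 - i)) - 1 = q ^ (i + 1) - 1 := by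
    intro i hi
    have hi' := Finset.mem_range.1 hi
    congr 2
    omega
  rw [Finset.prod_congr rfl h2, Finset.prod_range_succ', mul_comm, pow_one]

theorem odPSL {F : Type} [Field F] [Fintype F] {p : ℕ} [CharP F p] (hp : p.Prime) (k : ℕ) (hk : 1 ≤ k) :
    Od p (Fintype.card F) (∑ i ∈ Finset.range (k + 1), i) (∑ i ∈ Finset.range k, (i + 2))
      (Nat.card (Matrix.ProjectiveSpecialLinearGroup (Fin (k + 1)) F)) := by
  have hf := char_q (F := F) hp
  have q2 := pow_two_le hp hf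
  have hpq := pow_dvd hf
  set q := Fintype.card F with hq
  refine ⟨hf, Nat.gcd (k + 1) (q - 1), ∏ i ∈ Finset.range k, (q ^ (i + 2) - 1), ?_, ?_, ?_, ?_, ?_⟩
  · have h := Cfsg.Agent.S0243.result (F := F) hq.symm (k + 1) (by omega)
    rw [prodPSL] at h
    have h3 : (q - 1) * (Nat.gcd (k + 1) (q - 1) * Nat.card (Matrix.ProjectiveSpecialLinearGroup (Fin (k + 1)) F)) =
        (q - 1) * (q ^ (∑ i ∈ Finset.range (k + 1), i) * ∏ i ∈ Finset.range k, (q ^ (i + 2) - 1)) := by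
      rw [mul_left_comm (q - 1), h]; ring
    exact Nat.eq_of_mul_eq_mul_left (by omega) h3
  · have := cs hp hpq (by omega) (i := 1) one_ne_zero
    rw [pow_one] at this
    exact Nat.Coprime.coprime_dvd_right (Nat.gcd_dvd_right _ _) this
  · exact Nat.Coprime.prod_right (fun i _ => cs hp hpq (by omega) (by omega))
  · exact prod_lt (by omega) (fun i => i + 2) k hk
  · exact Nat.gcd_pos_of_pos_left _ (by omega)

theorem odPSp {F : Type} [Field F] [Fintype F] {p : ℕ} [CharP F p] (hp : p.Prime) (m : ℕ) (hm : 1 ≤ m) :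
    Od p (Fintype.card F) (m ^ 2) (m * (m + 1)) (Nat.card (Cfsg.PSp m F)) := by
  have hf := char_q (F := F) hp
  have q2 := pow_two_le hp hf
  have hpq := pow_dvd hf
  set q := Fintype.card F with hq
  refine ⟨hf, Nat.gcd 2 (q - 1), ∏ i ∈ Finset.range m, (q ^ (2 * (i + 1)) - 1), ?_, ?_, ?_, ?_, ?_⟩
  · have h := Cfsg.Agent.S0245.result (F := F) hq.symm m
    have h2 := Cfsg.Agent.S0246.result (F := F) hq.symm m hm
    rw [← h, ← h2]
    rw [mul_comm]
    exact (Subgroup.card_eq_card_quotient_mul_card_subgroup _).symm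
  · have := cs hp hpq (by omega) (i := 1) one_ne_zero
    rw [pow_one] at this
    exact Nat.Coprime.coprime_dvd_right (Nat.gcd_dvd_right _ _) this
  · exact Nat.Coprime.prod_right (fun i _ => cs hp hpq (by omega) (by omega))
  · have := prod_lt (q := q) (by omega) (fun i => 2 * (i + 1)) m hm
    rwa [sum2] at this
  · exact Nat.gcd_pos_of_pos_left _ (by omega)

theorem ulast {q : ℕ} (q2 : 2 ≤ q) (j : ℕ) : (q ^ (2 * j + 2) - 1) * (q ^ (2 * j + 1 + 2) + 1) < q ^ (2 * j + 2) * q ^ (2 * j + 1 + 2) := by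
  have h1 : 1 ≤ q ^ (2 * j + 2) := Nat.pos_of_ne_zero (pow_ne_zero _ (by omega))
  obtain ⟨a, ha⟩ := Nat.exists_eq_add_of_le' h1
  rw [show 2 * j + 1 + 2 = (2 * j + 2) + 1 by ring, pow_succ q (2 * j + 2), ha, Nat.add_sub_cancel]
  nlinarith

theorem ustep {q : ℕ} (j : ℕ) (f : ℕ → ℕ) : q ^ (∑ i ∈ Finset.range (2 * j + 1 + 1), f i) =
    q ^ (∑ i ∈ Finset.range (2 * j), f i) * (q ^ f (2 * j) * q ^ f (2 * j + 1)) := by
  rw [Finset.sum_range_succ, Finset.sum_range_succ, add_assoc, Nat.pow_add, Nat.pow_add q (f (2 * j))]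

theorem uprod {q : ℕ} (q2 : 2 ≤ q) : ∀ j, (∏ i ∈ Finset.range (2 * j), (if Even (i + 1) then q ^ (i + 2) + 1 else q ^ (i + 2) - 1)) ≤
    q ^ (∑ i ∈ Finset.range (2 * j), (i + 2))
  | 0 => by simp
  | j + 1 => by
    rw [show 2 * (j + 1) = 2 * j + 1 + 1 by ring, Finset.prod_range_succ, Finset.prod_range_succ, mul_assoc, ustep j (fun i => i + 2)]
    refine Nat.mul_le_mul (uprod q2 j) (le_of_lt ?_)
    rw [if_neg (by rw [Nat.not_even_iff_odd]; exact ⟨j, rfl⟩), if_pos ⟨j + 1, by ring⟩]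
    exact ulast q2 j

theorem uprod_lt {q : ℕ} (q2 : 2 ≤ q) (k : ℕ) (hk : 1 ≤ k) :
    (∏ i ∈ Finset.range k, (if Even (i + 1) then q ^ (i + 2) + 1 else q ^ (i + 2) - 1)) < q ^ (∑ i ∈ Finset.range k, (i + 2)) := by
  obtain ⟨j, rfl | rfl⟩ := Nat.even_or_odd' k
  · obtain ⟨l, rfl⟩ : ∃ l, j = l + 1 := ⟨j - 1, by omega⟩
    rw [show 2 * (l + 1) = 2 * l + 1 + 1 by ring, Finset.prod_range_succ, Finset.prod_range_succ, mul_assoc, ustep l (fun i => i + 2)]
    rw [if_neg (by rw [Nat.not_even_iff_odd]; exact ⟨l, rfl⟩), if_pos ⟨l + 1, by ring⟩]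
    exact Nat.mul_lt_mul_of_le_of_lt (uprod q2 l) (ulast q2 l) (pow_pos (by omega) _)
  · rw [Finset.prod_range_succ, Finset.sum_range_succ, Nat.pow_add q (∑ i ∈ Finset.range (2 * j), (i + 2)) (2 * j + 2), if_neg (by rw [Nat.not_even_iff_odd]; exact ⟨j, rfl⟩)]
    exact Nat.mul_lt_mul_of_le_of_lt (uprod q2 j) (ls (by omega) _) (pow_pos (by omega) _)

theorem odPSU {F : Type} [Field F] [Fintype F] {p : ℕ} [CharP F p] (hp : p.Prime) {q : ℕ} (hq : Fintype.card F = q ^ 2) (k : ℕ) (hk : 1 ≤ k) :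
    Od p q (∑ i ∈ Finset.range (k + 1), i) (∑ i ∈ Finset.range k, (i + 2))
      (Nat.card (Cfsg.PSU (k + 1) F q)) := by
  have hf := char_q' (F := F) hp two_ne_zero hq
  have q2 := pow_two_le hp hf
  have hpq := pow_dvd hf
  have c1 : p.Coprime (q + 1) := by
    have := ca hp hpq (i := 1) one_ne_zero
    rwa [pow_one] at this
  refine ⟨hf, Nat.gcd (k + 1) (q + 1), ∏ i ∈ Finset.range k, (if Even (i + 1) then q ^ (i + 2) + 1 else q ^ (i + 2) - 1), ?_, ?_, ?_, ?_, ?_⟩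
  · have h := Cfsg.Agent.S0280.result (F := F) hq (k + 1) (by omega)
    rw [Finset.prod_range_succ', if_pos (by decide), zero_add, pow_one] at h
    have hs : (k + 1) * (k + 1 - 1) / 2 = ∑ i ∈ Finset.range (k + 1), i := (Finset.sum_range_id (k + 1)).symm
    rw [hs] at h
    have h3 : (q + 1) * (Nat.gcd (k + 1) (q + 1) * Nat.card (Cfsg.PSU (k + 1) F q)) =
        (q + 1) * (q ^ (∑ i ∈ Finset.range (k + 1), i) * ∏ i ∈ Finset.range k, (if Even (i + 1) then q ^ (i + 2) + 1 else q ^ (i + 2) - 1)) := by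
      rw [mul_left_comm (q + 1), h]; ring
    exact Nat.eq_of_mul_eq_mul_left (by omega) h3
  · exact Nat.Coprime.coprime_dvd_right (Nat.gcd_dvd_right _ _) c1
  · refine Nat.Coprime.prod_right (fun i _ => ?_)
    split_ifs
    · exact ca hp hpq (by omega)
    · exact cs hp hpq (by omega) (by omega)
  · exact uprod_lt q2 k hk
  · exact Nat.gcd_pos_of_pos_left _ (by omega)

theorem odPOo {F : Type} [Field F] [Fintype F] {p : ℕ} [CharP F p] (hp : p.Prime) (m : ℕ) (hm : 3 ≤ m) (ho : Odd (Fintype.card F)) :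
    Od p (Fintype.card F) (m ^ 2) (m * (m + 1)) (Nat.card (Cfsg.POmega F (Cfsg.quadFormOdd m F))) := by
  have hf := char_q (F := F) hp
  have q2 := pow_two_le hp hf
  have hpq := pow_dvd hf
  set q := Fintype.card F with hq
  refine ⟨hf, 2, ∏ i ∈ Finset.range m, (q ^ (2 * (i + 1)) - 1), ?_, ?_, ?_, ?_, ?_⟩
  · exact Cfsg.Agent.S0292.result (F := F) hq.symm ho m hm
  · rw [Nat.coprime_comm, Nat.Prime.coprime_iff_not_dvd Nat.prime_two]
    intro h
    exact (Nat.not_even_iff_odd.2 ho) (even_iff_two_dvd.2 (h.trans hpq))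
  · exact Nat.Coprime.prod_right (fun i _ => cs hp hpq (by omega) (by omega))
  · have := prod_lt (q := q) (by omega) (fun i => 2 * (i + 1)) m (by omega)
    rwa [sum2] at this
  · norm_num

theorem odPOp {F : Type} [Field F] [Fintype F] {p : ℕ} [CharP F p] (hp : p.Prime) (m : ℕ) (hm : 4 ≤ m) :
    Od p (Fintype.card F) (m * (m - 1)) (m + (m - 1) * m) (Nat.card (Cfsg.POmega F (Cfsg.quadFormPlus m F))) := by
  have hf := char_q (F := F) hp
  have q2 := pow_two_le hp hf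
  have hpq := pow_dvd hf
  set q := Fintype.card F with hq
  refine ⟨hf, Nat.gcd 4 (q ^ m - 1), (q ^ m - 1) * ∏ i ∈ Finset.range (m - 1), (q ^ (2 * (i + 1)) - 1), ?_, ?_, ?_, ?_, ?_⟩
  · rw [Cfsg.Agent.S0293.result (F := F) hq.symm m hm, mul_assoc]
  · exact Nat.Coprime.coprime_dvd_right (Nat.gcd_dvd_right _ _) (cs hp hpq (by omega) (by omega))
  · exact Nat.Coprime.mul_right (cs hp hpq (by omega) (by omega)) (Nat.Coprime.prod_right (fun i _ => cs hp hpq (by omega) (by omega)))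
  · have := prod_lt (q := q) (by omega) (fun i => 2 * (i + 1)) (m - 1) (by omega)
    rw [sum2, Nat.sub_add_cancel (by omega)] at this
    exact mlt (ls (by omega) _) this
  · exact Nat.gcd_pos_of_pos_left _ (by omega)

theorem odPOm {F : Type} [Field F] [Fintype F] {p : ℕ} [CharP F p] (hp : p.Prime) (m : ℕ) (hm : 4 ≤ m) (a b : F)
    (hab : ∀ z₁ z₂ : F, z₁ ^ 2 + a * z₁ * z₂ + b * z₂ ^ 2 = 0 → z₁ = 0 ∧ z₂ = 0) :
    Od p (Fintype.card F) (m * (m - 1)) (m + 1 + (m - 1) * m) (Nat.card (Cfsg.POmega F (Cfsg.quadFormMinus (m - 1) F a b))) := by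
  have hf := char_q (F := F) hp
  have q2 := pow_two_le hp hf
  have hpq := pow_dvd hf
  set q := Fintype.card F with hq
  refine ⟨hf, Nat.gcd 4 (q ^ m + 1), (q ^ m + 1) * ∏ i ∈ Finset.range (m - 1), (q ^ (2 * (i + 1)) - 1), ?_, ?_, ?_, ?_, ?_⟩
  · rw [Cfsg.Agent.S0294.result (F := F) hq.symm m hm a b hab, mul_assoc]
  · exact Nat.Coprime.coprime_dvd_right (Nat.gcd_dvd_right _ _) (ca hp hpq (by omega))
  · exact Nat.Coprime.mul_right (ca hp hpq (by omega)) (Nat.Coprime.prod_right (fun i _ => cs hp hpq (by omega) (by omega)))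
  · have := prod_lt (q := q) (by omega) (fun i => 2 * (i + 1)) (m - 1) (by omega)
    rw [sum2, Nat.sub_add_cancel (by omega)] at this
    exact mlt (la q2 (by omega)) this
  · exact Nat.gcd_pos_of_pos_left _ (by omega)

/-! ### exceptional families -/

theorem odG2 {F : Type} [Field F] [Fintype F] {p : ℕ} [CharP F p] (hp : p.Prime) :
    Od p (Fintype.card F) 6 8 (Nat.card (Cfsg.Lie.chevG2.group F)) := by
  have hf := char_q (F := F) hp
  have q2 := pow_two_le hp hf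
  have hpq := pow_dvd hf
  set q := Fintype.card F with hq
  refine ⟨hf, 1, (q ^ 2 - 1) * (q ^ 6 - 1), ?_, ?_, ?_, ?_, ?_⟩
  · rw [Cfsg.Agent.S1059.result (F := F) hq.symm]; ring
  · exact Nat.coprime_one_right p
  · refine Nat.Coprime.mul_right ?_ ?_ <;> exact cs hp hpq (by omega) (by norm_num)
  · exact mlt (ls (by omega) _) (ls (by omega) _)
  · norm_num

theorem odF4 {F : Type} [Field F] [Fintype F] {p : ℕ} [CharP F p] (hp : p.Prime) :
    Od p (Fintype.card F) 24 (2 + 6 + 8 + 12) (Nat.card (Cfsg.Lie.chevF4.group F)) := by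
  have hf := char_q (F := F) hp
  have q2 := pow_two_le hp hf
  have hpq := pow_dvd hf
  set q := Fintype.card F with hq
  refine ⟨hf, 1, (q ^ 2 - 1) * (q ^ 6 - 1) * (q ^ 8 - 1) * (q ^ 12 - 1), ?_, ?_, ?_, ?_, ?_⟩
  · rw [Cfsg.Agent.S1062.result (F := F) hq.symm]; ring
  · exact Nat.coprime_one_right p
  · refine Nat.Coprime.mul_right (Nat.Coprime.mul_right (Nat.Coprime.mul_right ?_ ?_) ?_) ?_ <;> exact cs hp hpq (by omega) (by norm_num)
  · exact mlt (mlt (mlt (ls (by omega) _) (ls (by omega) _)) (ls (by omega) _)) (ls (by omega) _)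
  · norm_num

theorem odE6 {F : Type} [Field F] [Fintype F] {p : ℕ} [CharP F p] (hp : p.Prime) :
    Od p (Fintype.card F) 36 (2 + 5 + 6 + 8 + 9 + 12) (Nat.card (Cfsg.Lie.chevE6.group F)) := by
  have hf := char_q (F := F) hp
  have q2 := pow_two_le hp hf
  have hpq := pow_dvd hf
  set q := Fintype.card F with hq
  refine ⟨hf, Nat.gcd 3 (q - 1), (q ^ 2 - 1) * (q ^ 5 - 1) * (q ^ 6 - 1) * (q ^ 8 - 1) * (q ^ 9 - 1) * (q ^ 12 - 1), ?_, ?_, ?_, ?_, ?_⟩
  · rw [Cfsg.Agent.S1063.result (F := F) hq.symm]; ring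
  · have := cs hp hpq (by omega) (i := 1) one_ne_zero
    rw [pow_one] at this
    exact Nat.Coprime.coprime_dvd_right (Nat.gcd_dvd_right _ _) this
  · refine Nat.Coprime.mul_right (Nat.Coprime.mul_right (Nat.Coprime.mul_right (Nat.Coprime.mul_right (Nat.Coprime.mul_right ?_ ?_) ?_) ?_) ?_) ?_ <;>
      exact cs hp hpq (by omega) (by norm_num)
  · exact mlt (mlt (mlt (mlt (mlt (ls (by omega) _) (ls (by omega) _)) (ls (by omega) _)) (ls (by omega) _)) (ls (by omega) _)) (ls (by omega) _)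
  · exact Nat.gcd_pos_of_pos_left _ (by norm_num)

theorem odE7 {F : Type} [Field F] [Fintype F] {p : ℕ} [CharP F p] (hp : p.Prime) :
    Od p (Fintype.card F) 63 (2 + 6 + 8 + 10 + 12 + 14 + 18) (Nat.card (Cfsg.Lie.chevE7.group F)) := by
  have hf := char_q (F := F) hp
  have q2 := pow_two_le hp hf
  have hpq := pow_dvd hf
  set q := Fintype.card F with hq
  refine ⟨hf, Nat.gcd 2 (q - 1), (q ^ 2 - 1) * (q ^ 6 - 1) * (q ^ 8 - 1) * (q ^ 10 - 1) * (q ^ 12 - 1) * (q ^ 14 - 1) * (q ^ 18 - 1), ?_, ?_, ?_, ?_, ?_⟩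
  · rw [Cfsg.Agent.S1064.result (F := F) hq.symm]; ring
  · have := cs hp hpq (by omega) (i := 1) one_ne_zero
    rw [pow_one] at this
    exact Nat.Coprime.coprime_dvd_right (Nat.gcd_dvd_right _ _) this
  · refine Nat.Coprime.mul_right (Nat.Coprime.mul_right (Nat.Coprime.mul_right (Nat.Coprime.mul_right (Nat.Coprime.mul_right (Nat.Coprime.mul_right ?_ ?_) ?_) ?_) ?_) ?_) ?_ <;>
      exact cs hp hpq (by omega) (by norm_num)
  · exact mlt (mlt (mlt (mlt (mlt (mlt (ls (by omega) _) (ls (by omega) _)) (ls (by omega) _)) (ls (by omega) _)) (ls (by omega) _)) (ls (by omega) _)) (ls (by omega) _)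
  · exact Nat.gcd_pos_of_pos_left _ (by norm_num)

theorem odE8 {F : Type} [Field F] [Fintype F] {p : ℕ} [CharP F p] (hp : p.Prime) :
    Od p (Fintype.card F) 120 (2 + 8 + 12 + 14 + 18 + 20 + 24 + 30) (Nat.card (Cfsg.Lie.chevE8.group F)) := by
  have hf := char_q (F := F) hp
  have q2 := pow_two_le hp hf
  have hpq := pow_dvd hf
  set q := Fintype.card F with hq
  refine ⟨hf, 1, (q ^ 2 - 1) * (q ^ 8 - 1) * (q ^ 12 - 1) * (q ^ 14 - 1) * (q ^ 18 - 1) * (q ^ 20 - 1) * (q ^ 24 - 1) * (q ^ 30 - 1), ?_, ?_, ?_, ?_, ?_⟩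
  · rw [Cfsg.Agent.S1065.result (F := F) hq.symm]; ring
  · exact Nat.coprime_one_right p
  · refine Nat.Coprime.mul_right (Nat.Coprime.mul_right (Nat.Coprime.mul_right (Nat.Coprime.mul_right (Nat.Coprime.mul_right (Nat.Coprime.mul_right (Nat.Coprime.mul_right ?_ ?_) ?_) ?_) ?_) ?_) ?_) ?_ <;>
      exact cs hp hpq (by omega) (by norm_num)
  · exact mlt (mlt (mlt (mlt (mlt (mlt (mlt (ls (by omega) _) (ls (by omega) _)) (ls (by omega) _)) (ls (by omega) _)) (ls (by omega) _)) (ls (by omega) _)) (ls (by omega) _)) (ls (by omega) _)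
  · norm_num

theorem od2E6 {K : Type} [Field K] [Fintype K] {p : ℕ} [CharP K p] (hp : p.Prime) {q : ℕ} (hpp : IsPrimePow q) (hK : Fintype.card K = q ^ 2) :
    Od p q 36 (2 + 6 + 6 + 8 + 10 + 12) (Nat.card (Cfsg.Lie.twistedE6 K q)) := by
  have hf := char_q' (F := K) hp two_ne_zero hK
  have q2 := pow_two_le hp hf
  have hpq := pow_dvd hf
  refine ⟨hf, Nat.gcd 3 (q + 1), (q ^ 2 - 1) * (q ^ 5 + 1) * (q ^ 6 - 1) * (q ^ 8 - 1) * (q ^ 9 + 1) * (q ^ 12 - 1), ?_, ?_, ?_, ?_, ?_⟩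
  · rw [Cfsg.Agent.S1066.result (K := K) hpp hK]; ring
  · have := ca hp hpq (i := 1) one_ne_zero
    rw [pow_one] at this
    exact Nat.Coprime.coprime_dvd_right (Nat.gcd_dvd_right _ _) this
  · refine Nat.Coprime.mul_right (Nat.Coprime.mul_right (Nat.Coprime.mul_right (Nat.Coprime.mul_right (Nat.Coprime.mul_right ?_ ?_) ?_) ?_) ?_) ?_ <;>
      first | exact cs hp hpq (by omega) (by norm_num) | exact ca hp hpq (by norm_num)
  · exact mlt (mlt (mlt (mlt (mlt (ls (by omega) _) (la q2 (by norm_num))) (ls (by omega) _)) (ls (by omega) _)) (la q2 (by norm_num))) (ls (by omega) _)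
  · exact Nat.gcd_pos_of_pos_left _ (by norm_num)

theorem od3D4 {K : Type} [Field K] [Fintype K] {p : ℕ} [CharP K p] (hp : p.Prime) {q : ℕ} (hpp : IsPrimePow q) (hK : Fintype.card K = q ^ 3) :
    Od p q 12 (2 + 6 + 9) (Nat.card (Cfsg.Lie.twistedD4 K q)) := by
  have hf := char_q' (F := K) hp (by norm_num) hK
  have q2 := pow_two_le hp hf
  have hpq := pow_dvd hf
  refine ⟨hf, 1, (q ^ 2 - 1) * (q ^ 6 - 1) * (q ^ 8 + q ^ 4 + 1), ?_, ?_, ?_, ?_, ?_⟩
  · rw [Cfsg.Agent.S1067.result (K := K) hpp hK]; ring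
  · exact Nat.coprime_one_right p
  · refine Nat.Coprime.mul_right (Nat.Coprime.mul_right ?_ ?_) ?_
    · exact cs hp hpq (by omega) (by norm_num)
    · exact cs hp hpq (by omega) (by norm_num)
    · rw [Nat.Prime.coprime_iff_not_dvd hp]
      intro h
      have h1 : p ∣ q ^ 8 + q ^ 4 := dvd_add (dvd_pow hpq (by norm_num)) (dvd_pow hpq (by norm_num))
      have h3 := (Nat.dvd_add_right h1).1 h
      exact hp.one_lt.ne' (Nat.dvd_one.1 h3)
  · refine mlt (mlt (ls (by omega) _) (ls (by omega) _)) ?_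
    have h1 : q ^ 4 + 1 < q ^ 5 := la q2 (by norm_num)
    have h2 : q ^ 5 ≤ q ^ 8 := Nat.pow_le_pow_right (by omega) (by norm_num)
    calc q ^ 8 + q ^ 4 + 1 < q ^ 8 + q ^ 8 := by omega
      _ = q ^ 8 * 2 := by ring
      _ ≤ q ^ 8 * q := Nat.mul_le_mul_left _ q2
      _ = q ^ 9 := (pow_succ _ _).symm
  · norm_num

theorem od2F4 {K : Type} [Field K] [Fintype K] {m : ℕ} (hK : Fintype.card K = 2 ^ (2 * m + 1)) :
    Od 2 (2 ^ (2 * m + 1)) 12 (1 + 4 + 4 + 7) (Nat.card (Cfsg.Lie.twistedF4 K (2 ^ m))) := by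
  have hf : ∃ f, 1 ≤ f ∧ 2 ^ (2 * m + 1) = 2 ^ f := ⟨2 * m + 1, by omega, rfl⟩
  have hp := Nat.prime_two
  have q2 := pow_two_le hp hf
  have hpq := pow_dvd hf
  have h := Cfsg.Agent.S1068.result (K := K) hK
  generalize hq : 2 ^ (2 * m + 1) = q at *
  refine ⟨hf, 1, (q ^ 1 - 1) * (q ^ 3 + 1) * (q ^ 4 - 1) * (q ^ 6 + 1), ?_, ?_, ?_, ?_, ?_⟩
  · rw [h, pow_one]; ring
  · exact Nat.coprime_one_right 2
  · refine Nat.Coprime.mul_right (Nat.Coprime.mul_right (Nat.Coprime.mul_right ?_ ?_) ?_) ?_ <;>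
      first | exact cs hp hpq (by omega) (by norm_num) | exact ca hp hpq (by norm_num)
  · exact mlt (mlt (mlt (ls (by omega) _) (la q2 (by norm_num))) (ls (by omega) _)) (la q2 (by norm_num))
  · norm_num

theorem od2G2 {K : Type} [Field K] [Fintype K] {m : ℕ} (hK : Fintype.card K = 3 ^ (2 * m + 1)) :
    Od 3 (3 ^ (2 * m + 1)) 3 4 (Nat.card (Cfsg.Lie.twistedG2 K (3 ^ m))) := by
  have hf : ∃ f, 1 ≤ f ∧ 3 ^ (2 * m + 1) = 3 ^ f := ⟨2 * m + 1, by omega, rfl⟩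
  have hp := Nat.prime_three
  have q2 := pow_two_le hp hf
  have hpq := pow_dvd hf
  have h := Cfsg.Agent.S1069.result (K := K) hK
  generalize hq : 3 ^ (2 * m + 1) = q at *
  refine ⟨hf, 1, (q ^ 1 - 1) * (q ^ 3 + 1), ?_, ?_, ?_, ?_, ?_⟩
  · rw [h, pow_one]; ring
  · exact Nat.coprime_one_right 3
  · refine Nat.Coprime.mul_right ?_ ?_ <;>
      first | exact cs hp hpq (by omega) (by norm_num) | exact ca hp hpq (by norm_num)
  · obtain ⟨a, rfl⟩ := Nat.exists_eq_add_of_le' q2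
    rw [pow_one, show a + 2 - 1 = a + 1 by omega]
    nlinarith [sq_nonneg a]
  · norm_num

theorem odSz {K : Type} [Field K] [Fintype K] {m : ℕ} (hm : 1 ≤ m) (hK : Fintype.card K = 2 ^ (2 * m + 1)) :
    Od 2 (2 ^ (2 * m + 1)) 2 3 (Nat.card (Cfsg.Lie.Sz K (2 ^ (m + 1)))) := by
  have hf : ∃ f, 1 ≤ f ∧ 2 ^ (2 * m + 1) = 2 ^ f := ⟨2 * m + 1, by omega, rfl⟩
  have hp := Nat.prime_two
  have q2 := pow_two_le hp hf
  have hpq := pow_dvd hf
  have h := (Cfsg.Agent.S1163.result (F := K) hm hK).1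
  generalize hq : 2 ^ (2 * m + 1) = q at *
  refine ⟨hf, 1, (q ^ 1 - 1) * (q ^ 2 + 1), ?_, ?_, ?_, ?_, ?_⟩
  · rw [h, pow_one]; ring
  · exact Nat.coprime_one_right 2
  · refine Nat.Coprime.mul_right ?_ ?_ <;>
      first | exact cs hp hpq (by omega) (by norm_num) | exact ca hp hpq (by norm_num)
  · obtain ⟨a, rfl⟩ := Nat.exists_eq_add_of_le' q2
    rw [pow_one, show a + 2 - 1 = a + 1 by omega]
    nlinarith [sq_nonneg a]
  · norm_num

theorem main {G : Type*} [Group G] (p : ℕ) (hp : p.Prime) (hG : Cfsg.IsLieTypeChar p G) :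
    (∃ q N M, Od p q N M (Nat.card G) ∧ M ≤ 2 * N ∧ 3 * M ≤ 5 * N) ∨
      (∃ (F : Type) (_ : Field F) (_ : Fintype F), Od p (Fintype.card F) 1 2 (Nat.card G) ∧
        Nonempty (G ≃* Matrix.ProjectiveSpecialLinearGroup (Fin 2) F)) := by
  rcases hG with h | h | h | h | h | h | h | h | h | h | h
  · obtain ⟨F, _, _, _, n, hn, -, ⟨e⟩⟩ := h
    obtain ⟨k, rfl⟩ : ∃ k, n = k + 1 := ⟨n - 1, by omega⟩
    have hod := odPSL (F := F) hp k (by omega)
    rw [← Nat.card_congr e.toEquiv] at hod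
    by_cases hk : k = 1
    · right
      subst hk
      refine ⟨F, inferInstance, inferInstance, ?_, ⟨e⟩⟩
      simpa [Finset.sum_range_succ] using hod
    · left
      have h1 : 2 * ∑ i ∈ Finset.range (k + 1), i = k * (k + 1) := by
        rw [mul_comm, Finset.sum_range_id_mul_two]; ring_nf; simp; ring
      have h2 := sum1 k
      obtain ⟨j, rfl⟩ : ∃ j, k = j + 2 := ⟨k - 2, by omega⟩
      refine ⟨_, _, _, hod, ?_, ?_⟩ <;> nlinarith
  · obtain ⟨F, _, _, _, m, hm, -, ⟨e⟩⟩ := h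
    have hod := odPSp (F := F) hp m (by omega)
    rw [← Nat.card_congr e.toEquiv] at hod
    left
    obtain ⟨j, rfl⟩ : ∃ j, m = j + 2 := ⟨m - 2, by omega⟩
    refine ⟨_, _, _, hod, ?_, ?_⟩ <;> nlinarith
  · obtain ⟨F, _, _, _, n, q, hq, hn, -, ⟨e⟩⟩ := h
    obtain ⟨k, rfl⟩ : ∃ k, n = k + 1 := ⟨n - 1, by omega⟩
    have hod := odPSU (F := F) hp hq k (by omega)
    rw [← Nat.card_congr e.toEquiv] at hod
    left
    have h1 : 2 * ∑ i ∈ Finset.range (k + 1), i = k * (k + 1) := by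
      rw [mul_comm, Finset.sum_range_id_mul_two]; ring_nf; simp; ring
    have h2 := sum1 k
    obtain ⟨j, rfl⟩ : ∃ j, k = j + 2 := ⟨k - 2, by omega⟩
    refine ⟨_, _, _, hod, ?_, ?_⟩ <;> nlinarith
  · obtain ⟨F, _, _, _, m, hm, ho, ⟨e⟩⟩ := h
    have hod := odPOo (F := F) hp m (by omega) ho
    rw [← Nat.card_congr e.toEquiv] at hod
    left
    obtain ⟨j, rfl⟩ : ∃ j, m = j + 3 := ⟨m - 3, by omega⟩
    refine ⟨_, _, _, hod, ?_, ?_⟩ <;> nlinarith
  · obtain ⟨F, _, _, _, m, hm, ⟨e⟩⟩ := h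
    have hod := odPOp (F := F) hp m (by omega)
    rw [← Nat.card_congr e.toEquiv] at hod
    left
    obtain ⟨j, rfl⟩ : ∃ j, m = j + 4 := ⟨m - 4, by omega⟩
    rw [show j + 4 - 1 = j + 3 by omega] at hod
    refine ⟨_, _, _, hod, ?_, ?_⟩ <;> nlinarith
  · obtain ⟨F, _, _, _, m, a, b, hm, hab, ⟨e⟩⟩ := h
    have hod := odPOm (F := F) hp m (by omega) a b hab
    rw [← Nat.card_congr e.toEquiv] at hod
    left
    obtain ⟨j, rfl⟩ : ∃ j, m = j + 4 := ⟨m - 4, by omega⟩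
    rw [show j + 4 - 1 = j + 3 by omega] at hod
    refine ⟨_, _, _, hod, ?_, ?_⟩ <;> nlinarith
  · left
    obtain ⟨F, _, _, _, h⟩ := h
    rcases h with ⟨-, ⟨e⟩⟩ | ⟨⟨e⟩⟩ | ⟨⟨e⟩⟩ | ⟨⟨e⟩⟩ | ⟨⟨e⟩⟩
    · have hod := odG2 (F := F) hp
      rw [← Nat.card_congr e.toEquiv] at hod
      exact ⟨_, _, _, hod, by norm_num, by norm_num⟩
    · have hod := odF4 (F := F) hp
      rw [← Nat.card_congr e.toEquiv] at hod
      exact ⟨_, _, _, hod, by norm_num, by norm_num⟩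
    · have hod := odE6 (F := F) hp
      rw [← Nat.card_congr e.toEquiv] at hod
      exact ⟨_, _, _, hod, by norm_num, by norm_num⟩
    · have hod := odE7 (F := F) hp
      rw [← Nat.card_congr e.toEquiv] at hod
      exact ⟨_, _, _, hod, by norm_num, by norm_num⟩
    · have hod := odE8 (F := F) hp
      rw [← Nat.card_congr e.toEquiv] at hod
      exact ⟨_, _, _, hod, by norm_num, by norm_num⟩
  · left
    obtain ⟨K, _, _, _, q, hq, h⟩ := h
    rcases h with ⟨hK, ⟨e⟩⟩ | ⟨hK, ⟨e⟩⟩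
    · have hod := od2E6 (K := K) hp hq hK
      rw [← Nat.card_congr e.toEquiv] at hod
      exact ⟨_, _, _, hod, by norm_num, by norm_num⟩
    · have hod := od3D4 (K := K) hp hq hK
      rw [← Nat.card_congr e.toEquiv] at hod
      exact ⟨_, _, _, hod, by norm_num, by norm_num⟩
  · left
    obtain ⟨rfl, K, _, _, m, hm, hK, ⟨e⟩⟩ := h
    have hod := odSz (K := K) hm hK
    rw [← Nat.card_congr e.toEquiv] at hod
    exact ⟨_, _, _, hod, by norm_num, by norm_num⟩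
  · left
    obtain ⟨rfl, K, _, _, m, hm, hK, ⟨e⟩⟩ := h
    have hod := od2F4 (K := K) hK
    rw [← Nat.card_congr e.toEquiv] at hod
    exact ⟨_, _, _, hod, by norm_num, by norm_num⟩
  · left
    obtain ⟨rfl, K, _, _, m, hm, hK, ⟨e⟩⟩ := h
    have hod := od2G2 (K := K) hK
    rw [← Nat.card_congr e.toEquiv] at hod
    exact ⟨_, _, _, hod, by norm_num, by norm_num⟩

end Cfsg.Agent.H15.LO
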