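import Mathlib
import Cfsg.Agent.H15_MK3

set_option autoImplicit false
open Matrix Module

namespace Cfsg.Agent.H15.TOR

open Cfsg.Agent.H15.M2 Cfsg.Agent.H15.PS

open scoped Pointwise

variable {F : Type*} [Field F] [Fintype F] [DecidableEq F]

local notation "M₂" => Matrix (Fin 2) (Fin 2) F
local notation "SL₂" => Matrix.SpecialLinearGroup (Fin 2) F

theorem lhs_two (hodd : Odd (Fintype.card F)) :
    Nat.card {χ : Cfsg.IrrCharacter SL₂ // ¬ 2 ∣ Cfsg.charDegree (χ : SL₂ → ℂ)} = 4 := by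
  have h3 := odd_of_two_ne hodd
  rw [count_lhs hodd 2 (by norm_num)]
  obtain ⟨k, hk⟩ := hodd
  rw [if_neg (show ¬ 2 ∣ Fintype.card F by omega), if_pos (show 2 ∣ Fintype.card F + 1 by omega),
    if_pos (show 2 ∣ Fintype.card F - 1 by omega)]
  by_cases h : 2 ∣ (Fintype.card F + 1) / 2
  · rw [if_pos h, if_neg (show ¬ 2 ∣ (Fintype.card F - 1) / 2 by omega)]
    omega
  · rw [if_neg h, if_pos (show 2 ∣ (Fintype.card F - 1) / 2 by omega)]
    omega

theorem mk_two_a (hodd : Odd (Fintype.card F)) (S : Sylow 2 SL₂) {c : SL₂} (hc : (c : M₂).trace ^ 2 ≠ 4)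
    (h4 : 4 ∣ Nat.card (TE c))
    (hS : (S : Subgroup SL₂) ≤ Subgroup.normalizer ((TE c : Subgroup SL₂) : Set SL₂))
    (hcS : Nat.card S = 2 * 2 ^ (Nat.card (TE c)).factorization 2)
    (hN : Subgroup.normalizer ((S : Subgroup SL₂) : Set SL₂) = (S : Subgroup SL₂)) :
    Nat.card {ψ : Cfsg.IrrCharacter (Subgroup.normalizer ((S : Subgroup SL₂) : Set SL₂)) //
        ¬ 2 ∣ Cfsg.charDegree (ψ : Subgroup.normalizer ((S : Subgroup SL₂) : Set SL₂) → ℂ)} = 4 := by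
  classical
  have h2 := two_ne_zero_of_odd hodd
  have hns := NS_of_disc hc
  obtain ⟨w, hwS, hwT⟩ := exists_out S hcS
  have hw := ((norm_iff h2 hc w).mp (hS hwS)).resolve_left hwT
  set N := Subgroup.normalizer ((S : Subgroup SL₂) : Set SL₂) with hNdef
  have hwN : w ∈ N := by rw [hN]; exact hwS
  have hNS : ∀ g : SL₂, g ∈ N → g ∈ (S : Subgroup SL₂) := fun g hg => by rw [← hN]; exact hg
  have hcov : ∀ g : N, g ∉ (TE c).subgroupOf N → g * (⟨w, hwN⟩ : N)⁻¹ ∈ (TE c).subgroupOf N := by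
    intro g hg
    rw [Subgroup.mem_subgroupOf] at hg ⊢
    exact mul_inv_mem h2 hc (hS (hNS g g.2)) (hS hwS) hg hwT
  have hcomm : ∀ x ∈ (TE c).subgroupOf N, ∀ y ∈ (TE c).subgroupOf N, x * y = y * x := by
    intro x hx y hy
    rw [Subgroup.mem_subgroupOf] at hx hy
    have h3 : (x : SL₂) * (y : SL₂) = (y : SL₂) * (x : SL₂) := congrArg Subtype.val (TE_comm hns ⟨x, hx⟩ ⟨y, hy⟩)
    exact Subtype.ext h3
  have hm : (-1 : F) * -1 = 1 := by ring
  have key := card_classes ((TE c).subgroupOf N) hcomm ⟨w, hwN⟩ (fun h => hwT (Subgroup.mem_subgroupOf.mp h)) hcov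
    (fun x hx => by
      rw [Subgroup.mem_subgroupOf] at hx
      exact Subtype.ext (inverts hns hw hx))
    (by
      refine (Nat.card_congr (Equiv.ofBijective (fun x => ?_) ⟨?_, ?_⟩)).trans (card_sq_one (F := F) h2)
      · refine ⟨((x.1 : SL₂) : M₂) 0 0, ?_⟩
        have h3 : (x.1 : SL₂) * (x.1 : SL₂) = 1 := congrArg Subtype.val x.2.2
        obtain ⟨e, he, h4⟩ := eq_sc_of_not_NS (sq_one h2 h3)
        rw [h4]; exact he
      · intro x y hxy
        have h3 : (x.1 : SL₂) * (x.1 : SL₂) = 1 := congrArg Subtype.val x.2.2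
        obtain ⟨e, he, h4⟩ := eq_sc_of_not_NS (sq_one h2 h3)
        have h5 : (y.1 : SL₂) * (y.1 : SL₂) = 1 := congrArg Subtype.val y.2.2
        obtain ⟨e', he', h6⟩ := eq_sc_of_not_NS (sq_one h2 h5)
        have h7 : ((x.1 : SL₂) : M₂) 0 0 = ((y.1 : SL₂) : M₂) 0 0 := congrArg Subtype.val hxy
        rw [h4, h6] at h7
        have h8 : e = e' := h7
        apply Subtype.ext
        apply Subtype.ext
        rw [h4, h6, sc_eq_iff]
        exact h8
      · rintro ⟨e, he⟩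
        have h5 : sc e he ∈ (S : Subgroup SL₂) := two_mem hodd S hc hS (sc_mem c e he) (k := 1) (by rw [pow_one, sq]; exact sc_sq e he)
        refine ⟨⟨⟨sc e he, ?_⟩, Subgroup.mem_subgroupOf.mpr (sc_mem c e he), Subtype.ext (sc_sq e he)⟩, rfl⟩
        rw [hN]; exact h5)
  haveI : ((TE c).subgroupOf N).Normal := by
    constructor
    intro x hx g
    rw [Subgroup.mem_subgroupOf] at hx ⊢
    exact (Subgroup.mem_normalizer_iff.mp (hS (hNS g g.2)) x).mp hx
  apply count_two ((TE c).subgroupOf N) hcomm _ key.2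
  have h5 := Subgroup.index_mul_card ((TE c).subgroupOf N)
  rw [key.1] at h5
  exact Nat.eq_of_mul_eq_mul_right Nat.card_pos h5

theorem mk_two_b (hodd : Odd (Fintype.card F)) (S : Sylow 2 SL₂) {c : SL₂} (hc : (c : M₂).trace ^ 2 ≠ 4)
    (h4 : 4 ∣ Nat.card (TE c)) (h8 : ¬ 8 ∣ Nat.card (TE c))
    (hS : (S : Subgroup SL₂) ≤ Subgroup.normalizer ((TE c : Subgroup SL₂) : Set SL₂))
    (hcS : Nat.card S = 2 * 2 ^ (Nat.card (TE c)).factorization 2) :
    Nat.card {ψ : Cfsg.IrrCharacter (Subgroup.normalizer ((S : Subgroup SL₂) : Set SL₂)) //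
        ¬ 2 ∣ Cfsg.charDegree (ψ : Subgroup.normalizer ((S : Subgroup SL₂) : Set SL₂) → ℂ)} = 4 := by
  classical
  obtain ⟨hc8, hc24, i, j, o, hi, hj, ho, hii, hjj, hji, hoi, hoj, ho3, ho1, hgen⟩ := norm_eight hodd S hc h4 h8 hS hcS
  apply count_24 hc24
  have hle : (S : Subgroup SL₂) ≤ Subgroup.normalizer ((S : Subgroup SL₂) : Set SL₂) := Subgroup.le_normalizer
  set N := Subgroup.normalizer ((S : Subgroup SL₂) : Set SL₂) with hNdef
  haveI := Fintype.ofFinite N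
  haveI := Fintype.ofFinite (Cfsg.IrrCharacter N)
  have horder : orderOf o = 3 := orderOf_eq_prime ho3 ho1
  -- a linear character is determined by its value at `o`
  have hhom : ∀ ψ : Cfsg.IrrCharacter N, Cfsg.charDegree (ψ : N → ℂ) = 1 → ∃ f : N →* ℂˣ, ∀ g, (ψ : N → ℂ) g = (f g : ℂ) := by
    intro ψ hψ
    apply Cfsg.Agent.H3.CharInd.IsChar.hom_units_of_one (Cfsg.Agent.H3.CharIrr.IsIrr.isCharacter ψ.2)
    rw [← Cfsg.Agent.H1.Deg.coe_deg (Cfsg.Agent.H3.CharIrr.IsIrr.isCharacter ψ.2), hψ, Nat.cast_one]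
  have hij : ∀ f : N →* ℂˣ, f ⟨i, hle hi⟩ = 1 ∧ f ⟨j, hle hj⟩ = 1 := by
    intro f
    have h5 : f ⟨i, hle hi⟩ = f ⟨j, hle hj⟩ := by
      have : (⟨j, hle hj⟩ : N) = ⟨o, ho⟩ * ⟨i, hle hi⟩ * ⟨o, ho⟩⁻¹ := Subtype.ext hoi.symm
      rw [this, map_mul, map_mul, map_inv, mul_comm (f ⟨o, ho⟩), mul_inv_cancel_right]
    have h6 : f ⟨j, hle hj⟩ = f ⟨i, hle hi⟩ * f ⟨j, hle hj⟩ := by
      have : (⟨i, hle hi⟩ * ⟨j, hle hj⟩ : N) = ⟨o, ho⟩ * ⟨j, hle hj⟩ * ⟨o, ho⟩⁻¹ := Subtype.ext hoj.symm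
      rw [← map_mul, this, map_mul, map_mul, map_inv, mul_comm (f ⟨o, ho⟩), mul_inv_cancel_right]
    have h7 : f ⟨i, hle hi⟩ = 1 := right_eq_mul.mp h6
    exact ⟨h7, h5 ▸ h7⟩
  have hdet : ∀ f g : N →* ℂˣ, f ⟨o, ho⟩ = g ⟨o, ho⟩ → f = g := by
    intro f g hfg
    have h5 : MonoidHom.eqLocus f g = ⊤ := by
      apply Subgroup.eq_top_of_card_eq
      rw [hc24]
      have hd : Nat.card (MonoidHom.eqLocus f g) ∣ 24 := by
        rw [← hc24]; exact Subgroup.card_subgroup_dvd_card _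
      have hSle : (S : Subgroup SL₂) ≤ (MonoidHom.eqLocus f g).map N.subtype := by
        rw [hgen, Subgroup.closure_le]
        rintro x (rfl | rfl)
        · exact ⟨⟨x, hle hi⟩, (hij f).1.trans (hij g).1.symm, rfl⟩
        · exact ⟨⟨x, hle hj⟩, (hij f).2.trans (hij g).2.symm, rfl⟩
      have hcE : Nat.card ((MonoidHom.eqLocus f g).map N.subtype) = Nat.card (MonoidHom.eqLocus f g) :=
        (Nat.card_congr (Subgroup.equivMapOfInjective _ _ N.subtype_injective).toEquiv).symm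
      have h6 : 8 ∣ Nat.card (MonoidHom.eqLocus f g) := by
        rw [← hc8, ← hcE]
        exact Subgroup.card_dvd_of_le hSle
      have h7 : 3 ∣ Nat.card (MonoidHom.eqLocus f g) := by
        rw [← horder, ← hcE]
        exact Subgroup.orderOf_dvd_natCard _ ⟨⟨o, ho⟩, hfg, rfl⟩
      have h9 : 24 ∣ Nat.card (MonoidHom.eqLocus f g) := Nat.Coprime.mul_dvd_of_dvd_of_dvd (m := 8) (n := 3) (by norm_num) h6 h7
      exact Nat.dvd_antisymm hd h9
    ext x
    have h6 : x ∈ MonoidHom.eqLocus f g := by rw [h5]; exact Subgroup.mem_top x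
    exact congrArg Units.val h6
  -- count
  have h10 : Nat.card {ψ : Cfsg.IrrCharacter N // Cfsg.charDegree (ψ : N → ℂ) = 1} ≤ (Polynomial.nthRoots 3 (1 : ℂ)).toFinset.card := by
    rw [← Nat.card_eq_finsetCard]
    refine Nat.card_le_card_of_injective (fun ψ => ⟨(ψ.1 : N → ℂ) ⟨o, ho⟩, ?_⟩) ?_
    · obtain ⟨f, hf⟩ := hhom ψ.1 ψ.2
      rw [Multiset.mem_toFinset, Polynomial.mem_nthRoots (by norm_num), hf, ← Units.val_pow_eq_pow_val, ← map_pow]
      have : (⟨o, ho⟩ : N) ^ 3 = 1 := Subtype.ext ho3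
      rw [this, map_one, Units.val_one]
    · intro ψ ψ' h
      obtain ⟨f, hf⟩ := hhom ψ.1 ψ.2
      obtain ⟨f', hf'⟩ := hhom ψ'.1 ψ'.2
      have h5 : (ψ.1 : N → ℂ) ⟨o, ho⟩ = (ψ'.1 : N → ℂ) ⟨o, ho⟩ := congrArg Subtype.val h
      rw [hf, hf'] at h5
      have h6 := hdet f f' (Units.ext h5)
      apply Subtype.ext
      apply Subtype.ext
      funext x
      rw [hf, hf', h6]
  exact h10.trans ((Multiset.toFinset_card_le _).trans (Polynomial.card_nthRoots 3 1))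

/-- the McKay equality for `SL₂` -/
theorem mckay (hodd : Odd (Fintype.card F)) (l : ℕ) [Fact l.Prime] (S : Sylow l SL₂) :
    Nat.card {χ : Cfsg.IrrCharacter SL₂ // ¬ l ∣ Cfsg.charDegree (χ : SL₂ → ℂ)} =
      Nat.card {ψ : Cfsg.IrrCharacter (Subgroup.normalizer ((S : Subgroup SL₂) : Set SL₂)) //
        ¬ l ∣ Cfsg.charDegree (ψ : Subgroup.normalizer ((S : Subgroup SL₂) : Set SL₂) → ℂ)} := by
  have hlp : l.Prime := Fact.out
  by_cases hl0 : l ∣ Nat.card SL₂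
  · by_cases hl2 : l = 2
    · subst hl2
      rw [lhs_two hodd]
      obtain ⟨c, hc, h4, hS, hcS, _⟩ := sylow_two hodd S
      by_cases h8 : 8 ∣ Nat.card (TE c)
      · exact (mk_two_a hodd S hc h4 hS hcS (norm_eq_of_eight hodd S hc h4 hS hcS h8)).symm
      · exact (mk_two_b hodd S hc h4 h8 hS hcS).symm
    · rw [card_G_mul, hlp.dvd_mul, hlp.dvd_mul] at hl0
      rcases hl0 with h | h | h
      · exact mk_p hodd l S h
      · exact mk_odd hodd l hl2 S (Or.inr h)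
      · exact mk_odd hodd l hl2 S (Or.inl h)
  · exact mk_triv l S hl0

end Cfsg.Agent.H15.TOR
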