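import Mathlib
import Cfsg.Agent.H15_SS1

set_option autoImplicit false
open Module Polynomial

namespace Cfsg.Agent.H15.NIL

open Cfsg.Agent.H15.SS

variable {F : Type*} [Field F] {V : Type*} [AddCommGroup V] [Module F V]

/-- endomorphisms with given restriction to `W` and nilpotent on the quotient -/
def E (W : Submodule F V) (B : W → W) : Set (Module.End F V) := {T | (∀ w : W, T w = B w) ∧ ∃ N : ℕ, ∀ x, (T ^ N) x ∈ W}

theorem E_shift (W : Submodule F V) (B B' : Module.End F W) (π : V →ₗ[F] W) (hπ : ∀ w : W, π w = w) {T : Module.End F V} (hT : T ∈ E W B) :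
    T + W.subtype ∘ₗ (B' - B) ∘ₗ π ∈ E W B' := by
  obtain ⟨h1, N, h2⟩ := hT
  constructor
  · intro w
    rw [LinearMap.add_apply, h1, LinearMap.comp_apply, LinearMap.comp_apply, hπ, LinearMap.sub_apply]
    simp
  · refine ⟨N, ?_⟩
    have hTW : ∀ w ∈ W, T w ∈ W := fun w hw => by rw [h1 ⟨w, hw⟩]; exact (B ⟨w, hw⟩).2
    have hkey : ∀ (j : ℕ) x, ((T + W.subtype ∘ₗ (B' - B) ∘ₗ π) ^ j) x - (T ^ j) x ∈ W := by
      intro j
      induction j with
      | zero => intro x; simp
      | succ j ih =>
        intro x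
        rw [pow_succ', pow_succ', Module.End.mul_apply, Module.End.mul_apply, LinearMap.add_apply]
        have e1 : T (((T + W.subtype ∘ₗ (B' - B) ∘ₗ π) ^ j) x) - T ((T ^ j) x) ∈ W := by
          rw [← map_sub]; exact hTW _ (ih x)
        have e2 : (W.subtype ∘ₗ (B' - B) ∘ₗ π) (((T + W.subtype ∘ₗ (B' - B) ∘ₗ π) ^ j) x) ∈ W := by
          rw [LinearMap.comp_apply]
          exact ((((B' - B) ∘ₗ π) _ : W)).2
        have := W.add_mem e1 e2
        rwa [show T (((T + W.subtype ∘ₗ (B' - B) ∘ₗ π) ^ j) x) - T ((T ^ j) x) + (W.subtype ∘ₗ (B' - B) ∘ₗ π) (((T + W.subtype ∘ₗ (B' - B) ∘ₗ π) ^ j) x) =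
          T (((T + W.subtype ∘ₗ (B' - B) ∘ₗ π) ^ j) x) + (W.subtype ∘ₗ (B' - B) ∘ₗ π) (((T + W.subtype ∘ₗ (B' - B) ∘ₗ π) ^ j) x) - T ((T ^ j) x) by abel] at this
    intro x
    have := W.add_mem (hkey N x) (h2 x)
    rwa [sub_add_cancel] at this

theorem card_E (W : Submodule F V) (B B' : Module.End F W) : Nat.card (E W B) = Nat.card (E W B') := by
  obtain ⟨π, hπ⟩ := LinearMap.exists_leftInverse_of_injective W.subtype (Submodule.ker_subtype W)
  have hπ' : ∀ w : W, π w = w := fun w => LinearMap.congr_fun hπ w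
  apply Nat.card_congr
  refine ⟨fun T => ⟨_, E_shift W B B' π hπ' T.2⟩, fun T => ⟨_, E_shift W B' B π hπ' T.2⟩, ?_, ?_⟩
  · intro T
    apply Subtype.ext
    apply LinearMap.ext
    intro x
    simp
    abel
  · intro T
    apply Subtype.ext
    apply LinearMap.ext
    intro x
    simp
    abel

/-- cyclic nilpotent pairs -/
def Cyc (W : Type*) [AddCommGroup W] [Module F W] : Set (Module.End F W × W) := {c | IsNilpotent c.1 ∧ LinearMap.range (ev c.1 c.2) = ⊤}

theorem ev_inj {W : Type*} [AddCommGroup W] [Module F W] {J : Module.End F W} {v : W} (hc : LinearMap.range (ev J v) = ⊤) {k : ℕ} (hJ : J ^ k = 0)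
    [Module.Finite F W] (hk : finrank F W = k) : ∃ φ : AdjoinRoot (X ^ k : F[X]) ≃ₗ[F] W, ∀ p, φ (AdjoinRoot.mk _ p) = aeval J p v := by
  haveI : Module.Finite F (AdjoinRoot (X ^ k : F[X])) := (AdjoinRoot.powerBasis (pow_ne_zero k X_ne_zero)).finite
  have hfin : finrank F (AdjoinRoot (X ^ k : F[X])) = k := by
    rw [(AdjoinRoot.powerBasis (pow_ne_zero k (X_ne_zero (R := F)))).finrank, AdjoinRoot.powerBasis_dim, natDegree_X_pow]
  have hle : (Ideal.span {(X ^ k : F[X])}).restrictScalars F ≤ LinearMap.ker (ev J v) := by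
    intro p hp
    rw [Submodule.restrictScalars_mem, Ideal.mem_span_singleton] at hp
    obtain ⟨c, rfl⟩ := hp
    rw [LinearMap.mem_ker, ev_apply, mul_comm, map_mul, map_pow, aeval_X, hJ, mul_zero]; rfl
  let φ0 : AdjoinRoot (X ^ k : F[X]) →ₗ[F] W := Submodule.liftQ ((Ideal.span {(X ^ k : F[X])}).restrictScalars F) (ev J v) hle
  have hφ0 : ∀ p, φ0 (AdjoinRoot.mk _ p) = aeval J p v := fun p => rfl
  have hsurj : Function.Surjective φ0 := by
    intro w
    have : w ∈ LinearMap.range (ev J v) := by rw [hc]; exact Submodule.mem_top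
    obtain ⟨p, rfl⟩ := this
    exact ⟨AdjoinRoot.mk _ p, rfl⟩
  have hinj : Function.Injective φ0 := (LinearMap.injective_iff_surjective_of_finrank_eq_finrank (by rw [hfin, hk])).mpr hsurj
  exact ⟨LinearEquiv.ofBijective φ0 ⟨hinj, hsurj⟩, hφ0⟩

theorem pow_zero_of_nil {W : Type*} [AddCommGroup W] [Module F W] [Module.Finite F W] {J : Module.End F W} (hJ : IsNilpotent J) : J ^ finrank F W = 0 := by
  obtain ⟨m, hm⟩ := hJ
  have h1 : ∀ m, LinearMap.ker (J ^ m) ≤ LinearMap.ker (J ^ finrank F W) := Module.End.ker_pow_le_ker_pow_finrank J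
  have h2 := h1 m
  rw [hm, LinearMap.ker_zero, top_le_iff, LinearMap.ker_eq_top] at h2
  exact h2

theorem card_Cyc (W : Type*) [AddCommGroup W] [Module F W] [Module.Finite F W] : Nat.card (Cyc (F := F) W) = Nat.card (W ≃ₗ[F] W) := by
  set k := finrank F W with hk
  haveI : Module.Finite F (AdjoinRoot (X ^ k : F[X])) := (AdjoinRoot.powerBasis (pow_ne_zero k X_ne_zero)).finite
  have hfin : finrank F (AdjoinRoot (X ^ k : F[X])) = k := by
    rw [(AdjoinRoot.powerBasis (pow_ne_zero k (X_ne_zero (R := F)))).finrank, AdjoinRoot.powerBasis_dim, natDegree_X_pow]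
  have hcalc : ∀ (φ : AdjoinRoot (X ^ k : F[X]) ≃ₗ[F] W) (p : F[X]), aeval (φ.conj (LinearMap.mulLeft F (AdjoinRoot.root _))) p (φ 1) = φ (AdjoinRoot.mk _ p) := by
    intro φ p
    induction p using Polynomial.induction_on' with
    | add p q hp hq => rw [map_add, LinearMap.add_apply, hp, hq, map_add, map_add]
    | monomial n a =>
      induction n with
      | zero =>
        rw [monomial_zero_left, aeval_C, AdjoinRoot.mk_C]
        change a • φ 1 = φ (AdjoinRoot.of _ a)
        rw [← map_smul, ← AdjoinRoot.algebraMap_eq, Algebra.algebraMap_eq_smul_one]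
      | succ n ih =>
        rw [← monomial_mul_X, mul_comm, map_mul, aeval_X, Module.End.mul_apply, ih, map_mul]
        change φ (AdjoinRoot.root _ * (φ.symm (φ _))) = _
        rw [LinearEquiv.symm_apply_apply]
        rfl
  have e0 : W ≃ₗ[F] AdjoinRoot (X ^ k : F[X]) := LinearEquiv.ofFinrankEq _ _ (by rw [hfin])
  have c1 : Nat.card (W ≃ₗ[F] W) = Nat.card (AdjoinRoot (X ^ k : F[X]) ≃ₗ[F] W) := by
    apply Nat.card_congr
    exact ⟨fun g => e0.symm.trans g, fun h => e0.trans h, fun g => by ext x; simp, fun h => by ext x; simp⟩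
  rw [c1]
  symm
  apply Nat.card_congr
  refine Equiv.ofBijective (fun φ : AdjoinRoot (X ^ k : F[X]) ≃ₗ[F] W => (⟨(φ.conj (LinearMap.mulLeft F (AdjoinRoot.root _)), φ 1), ?_, ?_⟩ : Cyc (F := F) W)) ⟨?_, ?_⟩
  · refine ⟨k, ?_⟩
    apply LinearMap.ext
    intro w
    obtain ⟨x, rfl⟩ := φ.surjective w
    obtain ⟨p, rfl⟩ := AdjoinRoot.mk_surjective x
    change (φ.conj (LinearMap.mulLeft F (AdjoinRoot.root _)) ^ k) (φ (AdjoinRoot.mk _ p)) = 0
    rw [← hcalc, ← Module.End.mul_apply]
    have : φ.conj (LinearMap.mulLeft F (AdjoinRoot.root (X ^ k : F[X]))) ^ k * aeval (φ.conj (LinearMap.mulLeft F (AdjoinRoot.root _))) p =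
        aeval (φ.conj (LinearMap.mulLeft F (AdjoinRoot.root _))) (X ^ k * p) := by
      rw [map_mul, map_pow, aeval_X]
    rw [this, hcalc, map_mul, AdjoinRoot.mk_self, zero_mul, map_zero]
  · rw [eq_top_iff]
    intro w _
    obtain ⟨x, rfl⟩ := φ.surjective w
    obtain ⟨p, rfl⟩ := AdjoinRoot.mk_surjective x
    exact ⟨p, hcalc φ p⟩
  · intro φ ψ h
    have h1 := congrArg Subtype.val h
    have h2 := congrArg Prod.fst h1
    have h3 := congrArg Prod.snd h1
    simp only at h2 h3
    apply LinearEquiv.ext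
    intro x
    obtain ⟨p, rfl⟩ := AdjoinRoot.mk_surjective x
    rw [← hcalc, ← hcalc, h2, h3]
  · rintro ⟨⟨J, v⟩, h1, h2⟩
    obtain ⟨φ, hφ⟩ := ev_inj (J := J) (v := v) h2 (pow_zero_of_nil h1) hk.symm
    refine ⟨φ, ?_⟩
    apply Subtype.ext
    have hφ1 : φ 1 = v := by
      have := hφ 1
      rw [map_one (AdjoinRoot.mk _), map_one (aeval J)] at this
      exact this
    apply Prod.ext
    · apply LinearMap.ext
      intro w
      obtain ⟨x, rfl⟩ := φ.surjective w
      obtain ⟨p, rfl⟩ := AdjoinRoot.mk_surjective x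
      change φ (AdjoinRoot.root _ * (φ.symm (φ _))) = J (φ _)
      rw [LinearEquiv.symm_apply_apply, hφ, show AdjoinRoot.root (X ^ k : F[X]) = AdjoinRoot.mk _ X from rfl, ← map_mul, hφ, map_mul, aeval_X, Module.End.mul_apply]
    · exact hφ1

section fit

variable [Module.Finite F V]

/-- the Fitting component -/
noncomputable def Wf (T : Module.End F V) : Submodule F V := LinearMap.range (T ^ finrank F V)

theorem range_pow_eq (T : Module.End F V) {M : ℕ} (hM : finrank F V ≤ M) : LinearMap.range (T ^ M) = Wf T := by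
  apply Submodule.eq_of_le_of_finrank_eq
  · rintro _ ⟨x, rfl⟩
    obtain ⟨c, rfl⟩ := Nat.exists_eq_add_of_le hM
    exact ⟨(T ^ c) x, by rw [← Module.End.mul_apply, ← pow_add]⟩
  · have h1 := LinearMap.finrank_range_add_finrank_ker (T ^ M)
    have h2 := LinearMap.finrank_range_add_finrank_ker (T ^ finrank F V)
    have h3 : LinearMap.ker (T ^ M) = LinearMap.ker (T ^ finrank F V) := Module.End.ker_pow_eq_ker_pow_finrank_of_le hM
    rw [h3] at h1
    change _ = finrank F (LinearMap.range (T ^ finrank F V))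
    omega

theorem Wf_unique {T : Module.End F V} {W : Submodule F V} (A : W ≃ₗ[F] W) (hT : T ∈ E W A) : Wf T = W := by
  obtain ⟨h1, N, h2⟩ := hT
  have hpow : ∀ (j : ℕ) (w : W), ∃ w' : W, (T ^ j) w' = w := by
    intro j
    induction j with
    | zero => intro w; exact ⟨w, rfl⟩
    | succ j ih =>
      intro w
      obtain ⟨w1, hw1⟩ := ih w
      refine ⟨A.symm w1, ?_⟩
      rw [pow_succ, Module.End.mul_apply, h1, LinearEquiv.apply_symm_apply, hw1]
  have hTW : ∀ w ∈ W, T w ∈ W := fun w hw => by rw [h1 ⟨w, hw⟩]; exact (A ⟨w, hw⟩).2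
  have hTW' : ∀ (j : ℕ), ∀ w ∈ W, (T ^ j) w ∈ W := by
    intro j
    induction j with
    | zero => intro w hw; exact hw
    | succ j ih => intro w hw; rw [pow_succ', Module.End.mul_apply]; exact hTW _ (ih w hw)
  rw [← range_pow_eq T (le_max_left (finrank F V) N)]
  apply le_antisymm
  · rintro _ ⟨x, rfl⟩
    obtain ⟨c, hc⟩ := Nat.exists_eq_add_of_le (le_max_right (finrank F V) N)
    rw [hc, add_comm, pow_add, Module.End.mul_apply]
    exact hTW' _ _ (h2 x)
  · intro w hw
    obtain ⟨w', hw'⟩ := hpow (max (finrank F V) N) ⟨w, hw⟩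
    exact ⟨w', hw'⟩

theorem Wf_exists (T : Module.End F V) : ∃ A : Wf T ≃ₗ[F] Wf T, T ∈ E (Wf T) A := by
  have hinv : ∀ w ∈ Wf T, T w ∈ Wf T := by
    rintro _ ⟨x, rfl⟩
    exact ⟨T x, by rw [← Module.End.mul_apply, ← pow_succ, pow_succ', Module.End.mul_apply]⟩
  have hsurj : Function.Surjective (T.restrict hinv) := by
    rintro ⟨w, hw⟩
    have hw' := hw
    rw [← range_pow_eq T (Nat.le_succ _)] at hw'
    obtain ⟨x, hx⟩ := hw'
    refine ⟨⟨(T ^ finrank F V) x, ⟨x, rfl⟩⟩, ?_⟩
    apply Subtype.ext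
    change T ((T ^ finrank F V) x) = w
    rw [← Module.End.mul_apply, ← pow_succ']
    exact hx
  have hbij : Function.Bijective (T.restrict hinv) := ⟨LinearMap.injective_iff_surjective.mpr hsurj, hsurj⟩
  refine ⟨LinearEquiv.ofBijective (T.restrict hinv) hbij, ?_, finrank F V, fun x => ⟨x, rfl⟩⟩
  intro w
  rfl

theorem card_nil [Finite F] : Nat.card {T : Module.End F V // IsNilpotent T} * Nat.card V = Nat.card (Module.End F V) := by
  classical
  haveI : Finite V := Module.finite_of_finite F
  haveI : Finite (Module.End F V) := Module.finite_of_finite F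
  haveI : Finite (Submodule F V) := inferInstance
  haveI := Fintype.ofFinite (Submodule F V)
  -- the count of all endomorphisms
  have h1 : Nat.card (Module.End F V) = ∑ W : Submodule F V, Nat.card (W ≃ₗ[F] W) * Nat.card (E W (0 : Module.End F W)) := by
    rw [← Nat.card_congr (Equiv.sigmaFiberEquiv (fun T : Module.End F V => Wf T)), Nat.card_sigma]
    apply Finset.sum_congr rfl
    intro W _
    haveI : Finite (W ≃ₗ[F] W) := Finite.of_injective (fun g : W ≃ₗ[F] W => (g : W → W)) (fun a b h => LinearEquiv.ext (fun x => congrFun h x))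
    haveI := Fintype.ofFinite (W ≃ₗ[F] W)
    have e : (Σ A : W ≃ₗ[F] W, E W A) ≃ {T : Module.End F V // Wf T = W} := by
      refine Equiv.ofBijective (fun x => ⟨x.2.1, Wf_unique x.1 x.2.2⟩) ⟨?_, ?_⟩
      · rintro ⟨A, T, hT⟩ ⟨A', T', hT'⟩ h
        have h1 : T = T' := congrArg Subtype.val h
        subst h1
        have h2 : A = A' := by
          apply LinearEquiv.ext
          intro w
          apply Subtype.ext
          rw [← hT.1, hT'.1]
        subst h2
        rfl
      · rintro ⟨T, rfl⟩
        obtain ⟨A, hA⟩ := Wf_exists T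
        exact ⟨⟨A, T, hA⟩, rfl⟩
    rw [← Nat.card_congr e, Nat.card_sigma]
    trans (∑ _A : W ≃ₗ[F] W, Nat.card (E W (0 : Module.End F W)))
    · exact Finset.sum_congr rfl (fun A _ => (card_E W (A : Module.End F W) 0 : _))
    rw [Finset.sum_const, Finset.card_univ, smul_eq_mul, Nat.card_eq_fintype_card (α := W ≃ₗ[F] W)]
  -- the count of pairs
  have h2 : Nat.card {T : Module.End F V // IsNilpotent T} * Nat.card V = ∑ W : Submodule F V, Nat.card (Cyc (F := F) W) * Nat.card (E W (0 : Module.End F W)) := by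
    rw [← Nat.card_prod, ← Nat.card_congr (Equiv.sigmaFiberEquiv (fun x : {T : Module.End F V // IsNilpotent T} × V => LinearMap.range (ev x.1.1 x.2))), Nat.card_sigma]
    apply Finset.sum_congr rfl
    intro W _
    haveI : Finite (Cyc (F := F) W) := by
      haveI : Finite (Module.End F W) := Module.finite_of_finite F
      exact Finite.of_injective (fun c : Cyc (F := F) W => (c : Module.End F W × W)) Subtype.val_injective
    haveI := Fintype.ofFinite (Cyc (F := F) W)
    have hev : ∀ (c : Cyc (F := F) W) (T : Module.End F V), T ∈ E W (c.1.1) → ∀ p : F[X], aeval T p (c.1.2 : V) = (aeval c.1.1 p c.1.2 : W) := by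
      intro c T hT p
      induction p using Polynomial.induction_on' with
      | add p q hp hq => rw [map_add, map_add, LinearMap.add_apply, LinearMap.add_apply, hp, hq]; rfl
      | monomial n a =>
        induction n with
        | zero => rw [monomial_zero_left, aeval_C, aeval_C]; rfl
        | succ n ih => rw [← monomial_mul_X, mul_comm, map_mul, map_mul, aeval_X, aeval_X, Module.End.mul_apply, Module.End.mul_apply, ih, hT.1]
    have e : (Σ c : Cyc (F := F) W, E W c.1.1) ≃ {x : {T : Module.End F V // IsNilpotent T} × V // LinearMap.range (ev x.1.1 x.2) = W} := by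
      refine Equiv.ofBijective (fun x => ⟨(⟨x.2.1, ?_⟩, (x.1.1.2 : V)), ?_⟩) ⟨?_, ?_⟩
      · obtain ⟨h1, N, h2⟩ := x.2.2
        obtain ⟨M, hM⟩ := x.1.2.1
        refine ⟨M + N, ?_⟩
        apply LinearMap.ext
        intro y
        rw [pow_add, Module.End.mul_apply]
        have h3 : ∀ (j : ℕ) (w : W), (x.2.1 ^ j) (w : V) = ((x.1.1.1 ^ j) w : W) := by
          intro j
          induction j with
          | zero => intro w; rfl
          | succ j ih => intro w; rw [pow_succ', pow_succ', Module.End.mul_apply, Module.End.mul_apply, ih, h1]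
        rw [h3 M ⟨_, h2 y⟩, hM]; rfl
      · apply le_antisymm
        · rintro _ ⟨p, rfl⟩
          rw [ev_apply]
          change aeval x.2.1 p (x.1.1.2 : V) ∈ W
          rw [hev x.1 x.2.1 x.2.2]
          exact Subtype.mem _
        · intro w hw
          have h4 : (⟨w, hw⟩ : W) ∈ LinearMap.range (ev x.1.1.1 x.1.1.2) := by rw [x.1.2.2]; exact Submodule.mem_top
          obtain ⟨p, hp⟩ := h4
          refine ⟨p, ?_⟩
          rw [ev_apply]
          change aeval x.2.1 p (x.1.1.2 : V) = w
          rw [hev x.1 x.2.1 x.2.2]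
          rw [ev_apply] at hp
          exact congrArg Subtype.val hp
      · rintro ⟨⟨⟨J, v⟩, hc⟩, T, hT⟩ ⟨⟨⟨J', v'⟩, hc'⟩, T', hT'⟩ h
        have h1 := congrArg Subtype.val h
        have h2 : T = T' := congrArg (fun y => y.1.1) h1
        have h3 : (v : V) = v' := congrArg (fun y => y.2) h1
        subst h2
        have h4 : v = v' := Subtype.ext h3
        subst h4
        have h5 : J = J' := by
          apply LinearMap.ext
          intro w
          apply Subtype.ext
          have e1 := hT.1 w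
          have e2 := hT'.1 w
          simp only at e1 e2
          rw [← e1, ← e2]
        subst h5
        rfl
      · rintro ⟨⟨⟨T, hT⟩, v⟩, rfl⟩
        simp only
        have hinv := range_inv T v
        have hv : v ∈ LinearMap.range (ev T v) := ⟨1, by rw [ev_apply, map_one]; rfl⟩
        have hrp : ∀ (j : ℕ) (w : LinearMap.range (ev T v)), (((T.restrict hinv) ^ j) w : V) = (T ^ j) (w : V) := by
          intro j
          induction j with
          | zero => intro w; rfl
          | succ j ih => intro w; rw [pow_succ', pow_succ', Module.End.mul_apply, Module.End.mul_apply, LinearMap.restrict_coe_apply, ih]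
        have hae : ∀ (p : F[X]) (w : LinearMap.range (ev T v)), (aeval (T.restrict hinv) p w : V) = aeval T p (w : V) := by
          intro p w
          induction p using Polynomial.induction_on' with
          | add p q hp hq => rw [map_add, map_add, LinearMap.add_apply, LinearMap.add_apply, ← hp, ← hq]; rfl
          | monomial n a =>
            induction n with
            | zero => rw [monomial_zero_left, aeval_C, aeval_C]; rfl
            | succ n ih => rw [← monomial_mul_X, mul_comm, map_mul, map_mul, aeval_X, aeval_X, Module.End.mul_apply, Module.End.mul_apply, ← ih]; rfl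
        have hcyc : ((T.restrict hinv, ⟨v, hv⟩) : Module.End F (LinearMap.range (ev T v)) × LinearMap.range (ev T v)) ∈ Cyc (F := F) (LinearMap.range (ev T v)) := by
          constructor
          · obtain ⟨M, hM⟩ := hT
            refine ⟨M, ?_⟩
            apply LinearMap.ext
            intro w
            apply Subtype.ext
            change (((T.restrict hinv) ^ M) w : V) = 0
            rw [hrp, hM]; rfl
          · rw [eq_top_iff]
            rintro ⟨_, p, rfl⟩ _
            refine ⟨p, ?_⟩
            apply Subtype.ext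
            rw [ev_apply]
            change (aeval (T.restrict hinv) p (⟨v, hv⟩ : LinearMap.range (ev T v)) : V) = _
            rw [hae]; rfl
        have hE : T ∈ E (LinearMap.range (ev T v)) (T.restrict hinv) := by
          obtain ⟨M, hM⟩ := hT
          refine ⟨fun w => rfl, M, fun x => ?_⟩
          rw [hM]
          exact Submodule.zero_mem _
        exact ⟨⟨⟨_, hcyc⟩, ⟨T, hE⟩⟩, rfl⟩
    rw [← Nat.card_congr e, Nat.card_sigma]
    rw [Finset.sum_congr rfl (fun (c : Cyc (F := F) W) _ => card_E W (c.1.1 : Module.End F W) 0), Finset.sum_const, Finset.card_univ, smul_eq_mul,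
      Nat.card_eq_fintype_card (α := Cyc (F := F) W)]
  rw [h1, h2]
  apply Finset.sum_congr rfl
  intro W _
  rw [card_Cyc]

end fit

/-- number of nilpotent matrices -/
theorem card_nil_mat [Fintype F] (n : ℕ) : Nat.card {N : Matrix (Fin n) (Fin n) F // IsNilpotent N} = Fintype.card F ^ (n * (n - 1)) := by
  have h := card_nil (F := F) (V := Fin n → F)
  have e : {N : Matrix (Fin n) (Fin n) F // IsNilpotent N} ≃ {T : Module.End F (Fin n → F) // IsNilpotent T} := by
    refine (Matrix.toLinAlgEquiv' : Matrix (Fin n) (Fin n) F ≃ₐ[F] _).toEquiv.subtypeEquiv ?_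
    intro N
    exact (IsNilpotent.map_iff (Matrix.toLinAlgEquiv' : Matrix (Fin n) (Fin n) F ≃ₐ[F] ((Fin n → F) →ₗ[F] (Fin n → F))).injective).symm
  rw [← Nat.card_congr e, Module.natCard_eq_pow_finrank (K := F) (V := Fin n → F), Module.natCard_eq_pow_finrank (K := F) (V := Module.End F (Fin n → F)),
    Module.finrank_linearMap, Module.finrank_fin_fun, Nat.card_eq_fintype_card (α := F)] at h
  have hq : 0 < Fintype.card F := Fintype.card_pos
  have h2 : n * n = n * (n - 1) + n := by
    rcases n with _ | n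
    · rfl
    · rw [Nat.add_sub_cancel]; ring
  rw [h2, pow_add] at h
  exact Nat.eq_of_mul_eq_mul_right (pow_pos hq n) h

theorem card_uni [Fintype F] (p : ℕ) [Fact p.Prime] [CharP F p] (n : ℕ) :
    Nat.card {g : Matrix.GeneralLinearGroup (Fin n) F // ∃ k : ℕ, orderOf g = p ^ k} = Fintype.card F ^ (n * (n - 1)) := by
  classical
  have hp : p.Prime := Fact.out
  rw [← card_nil_mat n]
  have hkey : ∀ (g : Matrix.GeneralLinearGroup (Fin n) F) (k : ℕ), ((g : Matrix (Fin n) (Fin n) F) - 1) ^ p ^ k = (g : Matrix (Fin n) (Fin n) F) ^ p ^ k - 1 := by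
    intro g k
    rcases Nat.eq_zero_or_pos n with h0 | h0
    · subst h0
      exact Subsingleton.elim _ _
    · haveI : Nonempty (Fin n) := ⟨⟨0, h0⟩⟩
      haveI : CharP (Matrix (Fin n) (Fin n) F) p := Matrix.charP p
      rw [sub_pow_char_pow_of_commute p k (Commute.one_right (g : Matrix (Fin n) (Fin n) F)), one_pow]
  have hnil : ∀ g : Matrix.GeneralLinearGroup (Fin n) F, (∃ k : ℕ, orderOf g = p ^ k) ↔ IsNilpotent ((g : Matrix (Fin n) (Fin n) F) - 1) := by
    intro g
    constructor
    · rintro ⟨k, hk⟩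
      refine ⟨p ^ k, ?_⟩
      rw [hkey, ← Units.val_pow_eq_pow_val, ← hk, pow_orderOf_eq_one, Units.val_one, sub_self]
    · rintro ⟨m, hm⟩
      have h1 : g ^ p ^ m = 1 := by
        apply Units.ext
        rw [Units.val_pow_eq_pow_val, Units.val_one, ← sub_eq_zero, ← hkey]
        exact pow_eq_zero_of_le (Nat.lt_pow_self hp.one_lt).le hm
      obtain ⟨k, _, hk⟩ := (Nat.dvd_prime_pow hp).mp (orderOf_dvd_of_pow_eq_one h1)
      exact ⟨k, hk⟩
  apply Nat.card_congr
  refine Equiv.ofBijective (fun g => ⟨(g.1 : Matrix (Fin n) (Fin n) F) - 1, (hnil g.1).mp g.2⟩) ⟨?_, ?_⟩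
  · rintro ⟨g, hg⟩ ⟨h, hh⟩ e
    apply Subtype.ext
    apply Units.ext
    have := congrArg Subtype.val e
    simp only [sub_left_inj] at this
    exact this
  · rintro ⟨N, hN⟩
    have hu : IsUnit (1 + N) := by
      have := hN.isUnit_add_one
      rwa [add_comm] at this
    obtain ⟨u, hu'⟩ := hu
    refine ⟨⟨u, ?_⟩, ?_⟩
    · rw [hnil]
      change IsNilpotent ((u : Matrix (Fin n) (Fin n) F) - 1)
      rw [hu', add_sub_cancel_left]
      exact hN
    · apply Subtype.ext
      change (u : Matrix (Fin n) (Fin n) F) - 1 = N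
      rw [hu', add_sub_cancel_left]

end Cfsg.Agent.H15.NIL
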