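import Mathlib
import Cfsg.Agent.H15_SS1

set_option autoImplicit false
open Module Polynomial

namespace Cfsg.Agent.H15.SS

variable {F : Type*} [Field F]

theorem exists_companion {n : ℕ} {f : F[X]} (hf : f.Monic) (hn : f.natDegree = n) : ∃ A : Matrix (Fin n) (Fin n) F, A.charpoly = f := by
  subst hn
  refine ⟨Algebra.leftMulMatrix (AdjoinRoot.powerBasis hf.ne_zero).basis (AdjoinRoot.powerBasis hf.ne_zero).gen, ?_⟩
  have h := charpoly_leftMulMatrix (AdjoinRoot.powerBasis hf.ne_zero)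
  rw [AdjoinRoot.minpoly_powerBasis_gen_of_monic hf] at h
  exact h

/-- iterating the Frobenius power -/
theorem charpoly_iter [Fintype F] {n : ℕ} (M : Matrix (Fin n) (Fin n) F) (k : ℕ) :
    (M ^ (Fintype.card F ^ k)).charpoly = M.charpoly := by
  induction k with
  | zero => rw [pow_zero, pow_one]
  | succ k ih => rw [pow_succ, pow_mul, FiniteField.Matrix.charpoly_pow_card, ih]

theorem exists_semi [Fintype F] (p : ℕ) [Fact p.Prime] [CharP F p] {n : ℕ} {f : F[X]} (hf : f.Monic) (hn : f.natDegree = n)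
    (h0 : f.coeff 0 ≠ 0) : ∃ g : Matrix.GeneralLinearGroup (Fin n) F, (orderOf g).Coprime p ∧ (g : Matrix (Fin n) (Fin n) F).charpoly = f := by
  classical
  obtain ⟨A, hA⟩ := exists_companion hf hn
  have hdet : IsUnit A.det := by
    rw [Matrix.det_eq_sign_charpoly_coeff, hA]
    exact (IsUnit.pow _ isUnit_one.neg).mul (Ne.isUnit h0)
  let g0 : Matrix.GeneralLinearGroup (Fin n) F := Matrix.GeneralLinearGroup.mk'' A hdet
  have hp : p.Prime := Fact.out
  have hord : orderOf g0 ≠ 0 := (orderOf_pos g0).ne'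
  obtain ⟨a, m, hm, hN⟩ := Nat.exists_eq_pow_mul_and_not_dvd hord p hp.ne_one
  obtain ⟨k, _, hk⟩ := FiniteField.card F p
  refine ⟨g0 ^ (Fintype.card F ^ a), ?_, ?_⟩
  · have h1 : (g0 ^ (Fintype.card F ^ a)) ^ m = 1 := by
      rw [← pow_mul]
      apply orderOf_dvd_iff_pow_eq_one.mp
      rw [hN, hk, ← pow_mul]
      apply Nat.mul_dvd_mul_right
      apply pow_dvd_pow
      exact Nat.le_mul_of_pos_left _ k.pos
    have h2 := orderOf_dvd_iff_pow_eq_one.mpr h1
    exact Nat.Coprime.coprime_dvd_left h2 ((Nat.Prime.coprime_iff_not_dvd hp).mpr hm).symm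
  · rw [Units.val_pow_eq_pow_val, charpoly_iter]
    exact hA

/-- the monic polynomial with the given lower coefficients -/
noncomputable def mpoly {n : ℕ} (c : Fin n → F) : F[X] := X ^ n + ((degreeLTEquiv F n).symm c : F[X])

theorem mpoly_deg {n : ℕ} (c : Fin n → F) : ((degreeLTEquiv F n).symm c : F[X]).degree < n :=
  mem_degreeLT.mp ((degreeLTEquiv F n).symm c).2

theorem mpoly_monic {n : ℕ} (c : Fin n → F) : (mpoly c).Monic := monic_X_pow_add (mpoly_deg c)

theorem mpoly_natDegree {n : ℕ} (c : Fin n → F) : (mpoly c).natDegree = n := by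
  apply natDegree_eq_of_degree_eq_some
  unfold mpoly
  rw [degree_add_eq_left_of_degree_lt (by rw [degree_X_pow]; exact mpoly_deg c), degree_X_pow]

theorem mpoly_coeff {n : ℕ} (c : Fin n → F) (i : Fin n) : (mpoly c).coeff i = c i := by
  unfold mpoly
  rw [coeff_add, coeff_X_pow, if_neg i.2.ne, zero_add]
  have := congrFun ((degreeLTEquiv F n).apply_symm_apply c) i
  exact this

theorem mpoly_inj {n : ℕ} : Function.Injective (mpoly (F := F) (n := n)) := by
  intro c d h
  funext i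
  rw [← mpoly_coeff c i, h, mpoly_coeff]

theorem mpoly_surj {n : ℕ} {f : F[X]} (hf : f.Monic) (hn : f.natDegree = n) : mpoly (fun i : Fin n => f.coeff i) = f := by
  ext j
  rcases lt_trichotomy j n with h | h | h
  · exact mpoly_coeff _ ⟨j, h⟩
  · have h1 := (mpoly_monic (fun i : Fin n => f.coeff i)).coeff_natDegree
    have h2 := hf.coeff_natDegree
    rw [mpoly_natDegree] at h1
    rw [hn] at h2
    rw [h, h1, h2]
  · rw [coeff_eq_zero_of_natDegree_lt (by rw [mpoly_natDegree]; exact h), coeff_eq_zero_of_natDegree_lt (by rw [hn]; exact h)]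

theorem mpoly_cons {m : ℕ} {f : F[X]} (hf : f.Monic) (hn : f.natDegree = m + 1) :
    mpoly (Fin.cons (f.coeff 0) (fun i : Fin m => f.coeff (i.succ : Fin (m + 1))) : Fin (m + 1) → F) = f := by
  conv_rhs => rw [← mpoly_surj hf hn]
  congr 1
  funext i
  refine Fin.cases ?_ (fun j => ?_) i
  · rw [Fin.cons_zero]; rfl
  · rw [Fin.cons_succ]

theorem gl_count [Fintype F] {q : ℕ} (hq : Fintype.card F = q) (p : ℕ) [Fact p.Prime] [CharP F p] (n : ℕ) (hn : 1 ≤ n) :
    Nat.card {c : ConjClasses (Matrix.GeneralLinearGroup (Fin n) F) // ∃ g : Matrix.GeneralLinearGroup (Fin n) F, ConjClasses.mk g = c ∧ (orderOf g).Coprime p} = (q - 1) * q ^ (n - 1) := by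
  classical
  obtain ⟨m, rfl⟩ := Nat.exists_eq_add_of_le' hn
  have hpol : ∀ x : Fˣ × (Fin m → F), (mpoly (Fin.cons (x.1 : F) x.2 : Fin (m + 1) → F)).coeff 0 = x.1 := fun x =>
    mpoly_coeff (Fin.cons (x.1 : F) x.2 : Fin (m + 1) → F) 0
  choose T hT1 hT2 using fun x : Fˣ × (Fin m → F) => exists_semi p (mpoly_monic (Fin.cons (x.1 : F) x.2 : Fin (m + 1) → F)) (mpoly_natDegree _)
    (by rw [hpol]; exact x.1.ne_zero)
  have hbij : Function.Bijective (fun x : Fˣ × (Fin m → F) => (⟨ConjClasses.mk (T x), T x, rfl, hT1 x⟩ :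
      {c : ConjClasses (Matrix.GeneralLinearGroup (Fin (m + 1)) F) // ∃ g : Matrix.GeneralLinearGroup (Fin (m + 1)) F, ConjClasses.mk g = c ∧ (orderOf g).Coprime p})) := by
    constructor
    · intro x y hxy
      have h1 := congrArg Subtype.val hxy
      change ConjClasses.mk (T x) = ConjClasses.mk (T y) at h1
      rw [ConjClasses.mk_eq_mk_iff_isConj, isConj_iff] at h1
      obtain ⟨c, hc⟩ := h1
      have h2 : ((T y : Matrix.GeneralLinearGroup (Fin (m + 1)) F) : Matrix (Fin (m + 1)) (Fin (m + 1)) F).charpoly = ((T x : Matrix.GeneralLinearGroup (Fin (m + 1)) F) : Matrix (Fin (m + 1)) (Fin (m + 1)) F).charpoly := by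
        rw [← hc, Units.val_mul, Units.val_mul, Matrix.coe_units_inv]
        exact Matrix.charpoly_units_conj c (T x : Matrix (Fin (m + 1)) (Fin (m + 1)) F)
      rw [hT2, hT2] at h2
      have h3 := Fin.cons_injective2 (mpoly_inj h2)
      exact Prod.ext (Units.ext h3.1.symm) h3.2.symm
    · rintro ⟨_, g, rfl, hg⟩
      have hm := (g : Matrix (Fin (m + 1)) (Fin (m + 1)) F).charpoly_monic
      have hd : (g : Matrix (Fin (m + 1)) (Fin (m + 1)) F).charpoly.natDegree = m + 1 := by
        rw [Matrix.charpoly_natDegree_eq_dim, Fintype.card_fin]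
      have h0 : (g : Matrix (Fin (m + 1)) (Fin (m + 1)) F).charpoly.coeff 0 ≠ 0 := by
        intro h
        have h1 := Matrix.det_eq_sign_charpoly_coeff (g : Matrix (Fin (m + 1)) (Fin (m + 1)) F)
        rw [h, mul_zero] at h1
        exact (Matrix.isUnits_det_units g).ne_zero h1
      refine ⟨(Units.mk0 _ h0, fun i => (g : Matrix (Fin (m + 1)) (Fin (m + 1)) F).charpoly.coeff (i.succ : Fin (m + 1))), ?_⟩
      apply Subtype.ext
      rw [ConjClasses.mk_eq_mk_iff_isConj]
      apply gl_conj p _ _ (hT1 _) hg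
      rw [hT2]
      exact mpoly_cons hm hd
  rw [← Nat.card_congr (Equiv.ofBijective _ hbij), Nat.card_prod, Nat.card_units, Nat.card_fun, Nat.card_eq_fintype_card, Nat.card_eq_fintype_card,
    Fintype.card_fin, hq, Nat.add_sub_cancel]

theorem exists_semi_sl [Fintype F] (p : ℕ) [Fact p.Prime] [CharP F p] {n : ℕ} {f : F[X]} (hf : f.Monic) (hn : f.natDegree = n)
    (h0 : f.coeff 0 = (-1) ^ n) : ∃ g : Matrix.SpecialLinearGroup (Fin n) F, (orderOf g).Coprime p ∧ (g : Matrix (Fin n) (Fin n) F).charpoly = f := by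
  obtain ⟨g, hg1, hg2⟩ := exists_semi p hf hn (by rw [h0]; exact pow_ne_zero _ (neg_ne_zero.mpr one_ne_zero))
  have hdet : (g : Matrix (Fin n) (Fin n) F).det = 1 := by
    rw [Matrix.det_eq_sign_charpoly_coeff, hg2, h0, Fintype.card_fin, ← mul_pow]
    simp
  let B : Matrix.SpecialLinearGroup (Fin n) F := ⟨(g : Matrix (Fin n) (Fin n) F), hdet⟩
  refine ⟨B, ?_, hg2⟩
  have h1 : B ^ orderOf g = 1 := by
    apply Subtype.ext
    change (g : Matrix (Fin n) (Fin n) F) ^ orderOf g = 1
    rw [← Units.val_pow_eq_pow_val, pow_orderOf_eq_one]; rfl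
  exact Nat.Coprime.coprime_dvd_left (orderOf_dvd_iff_pow_eq_one.mpr h1) hg1

theorem sl_count [Fintype F] {q : ℕ} (hq : Fintype.card F = q) (p : ℕ) [Fact p.Prime] [CharP F p] (n : ℕ) (hn : 1 ≤ n) :
    Nat.card {c : ConjClasses (Matrix.SpecialLinearGroup (Fin n) F) // ∃ g : Matrix.SpecialLinearGroup (Fin n) F, ConjClasses.mk g = c ∧ (orderOf g).Coprime p} = q ^ (n - 1) := by
  classical
  obtain ⟨m, rfl⟩ := Nat.exists_eq_add_of_le' hn
  have hpol : ∀ x : Fin m → F, (mpoly (Fin.cons ((-1) ^ (m + 1)) x : Fin (m + 1) → F)).coeff 0 = (-1) ^ (m + 1) := fun x =>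
    mpoly_coeff (Fin.cons ((-1) ^ (m + 1)) x : Fin (m + 1) → F) 0
  choose T hT1 hT2 using fun x : Fin m → F => exists_semi_sl p (mpoly_monic (Fin.cons ((-1) ^ (m + 1)) x : Fin (m + 1) → F)) (mpoly_natDegree _)
    (hpol x)
  have hbij : Function.Bijective (fun x : Fin m → F => (⟨ConjClasses.mk (T x), T x, rfl, hT1 x⟩ :
      {c : ConjClasses (Matrix.SpecialLinearGroup (Fin (m + 1)) F) // ∃ g : Matrix.SpecialLinearGroup (Fin (m + 1)) F, ConjClasses.mk g = c ∧ (orderOf g).Coprime p})) := by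
    constructor
    · intro x y hxy
      have h1 := congrArg Subtype.val hxy
      change ConjClasses.mk (T x) = ConjClasses.mk (T y) at h1
      rw [ConjClasses.mk_eq_mk_iff_isConj, isConj_iff] at h1
      obtain ⟨c, hc⟩ := h1
      have h2 : ((T y : Matrix.SpecialLinearGroup (Fin (m + 1)) F) : Matrix (Fin (m + 1)) (Fin (m + 1)) F).charpoly = ((T x : Matrix.SpecialLinearGroup (Fin (m + 1)) F) : Matrix (Fin (m + 1)) (Fin (m + 1)) F).charpoly := by
        have h3 := Matrix.charpoly_units_conj (Matrix.SpecialLinearGroup.toGL c) (T x : Matrix (Fin (m + 1)) (Fin (m + 1)) F)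
        rw [← Matrix.coe_units_inv, ← map_inv] at h3
        rw [← hc]
        exact h3
      rw [hT2, hT2] at h2
      have h3 := Fin.cons_injective2 (mpoly_inj h2)
      exact h3.2.symm
    · rintro ⟨_, g, rfl, hg⟩
      have hm := (g : Matrix (Fin (m + 1)) (Fin (m + 1)) F).charpoly_monic
      have hd : (g : Matrix (Fin (m + 1)) (Fin (m + 1)) F).charpoly.natDegree = m + 1 := by
        rw [Matrix.charpoly_natDegree_eq_dim, Fintype.card_fin]
      have h0 : (g : Matrix (Fin (m + 1)) (Fin (m + 1)) F).charpoly.coeff 0 = (-1) ^ (m + 1) := by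
        have h1 := Matrix.det_eq_sign_charpoly_coeff (g : Matrix (Fin (m + 1)) (Fin (m + 1)) F)
        have h2 : (g : Matrix (Fin (m + 1)) (Fin (m + 1)) F).det = 1 := g.2
        rw [h2, Fintype.card_fin] at h1
        have h3 : ((-1 : F) ^ (m + 1)) * (-1) ^ (m + 1) = 1 := by rw [← mul_pow]; simp
        calc (g : Matrix (Fin (m + 1)) (Fin (m + 1)) F).charpoly.coeff 0 = (((-1 : F) ^ (m + 1)) * (-1) ^ (m + 1)) * (g : Matrix (Fin (m + 1)) (Fin (m + 1)) F).charpoly.coeff 0 := by rw [h3, one_mul]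
          _ = (-1) ^ (m + 1) := by rw [mul_assoc, ← h1, mul_one]
      refine ⟨fun i => (g : Matrix (Fin (m + 1)) (Fin (m + 1)) F).charpoly.coeff (i.succ : Fin (m + 1)), ?_⟩
      apply Subtype.ext
      rw [ConjClasses.mk_eq_mk_iff_isConj]
      apply sl_conj p _ _ (hT1 _) hg
      rw [hT2, ← h0]
      exact mpoly_cons hm hd
  rw [← Nat.card_congr (Equiv.ofBijective _ hbij), Nat.card_fun, Nat.card_eq_fintype_card, Nat.card_eq_fintype_card,
    Fintype.card_fin, hq, Nat.add_sub_cancel]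

end Cfsg.Agent.H15.SS
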