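import Mathlib
import Cfsg.Agent.H15_FM4
import Cfsg.Agent.H15_SS2
import Cfsg.Agent.H15_HS3

set_option autoImplicit false
open Module Polynomial Matrix

namespace Cfsg.Agent.H15.FM

open Cfsg.Agent.H15.SS Cfsg.Agent.H15.HS

section sp

variable {F : Type*} [Field F] {n : ℕ}

theorem sp_pal {A : Matrix (Fin n ⊕ Fin n) (Fin n ⊕ Fin n) F} (hA : A ∈ Matrix.symplecticGroup (Fin n) F) : A.charpoly.reverse = A.charpoly := by
  have hdet := SymplecticGroup.det_eq_one hA
  rw [Matrix.reverse_charpoly]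
  have h1 := Matrix.charpoly_inv A ((Matrix.isUnit_iff_isUnit_det A).mpr (by rw [hdet]; exact isUnit_one))
  rw [hdet, Ring.inverse_one, map_one, mul_one, Fintype.card_sum, Fintype.card_fin, Even.neg_one_pow ⟨n, rfl⟩, one_mul] at h1
  rw [← h1, SymplecticGroup.inv_eq_symplectic_inv A hA, Matrix.mul_assoc, Matrix.charpoly_mul_comm, Matrix.mul_assoc, Matrix.mul_neg, Matrix.J_squared, neg_neg,
    Matrix.mul_one, Matrix.charpoly_transpose]

theorem sp_pal_coeff {A : Matrix (Fin n ⊕ Fin n) (Fin n ⊕ Fin n) F} (hA : A ∈ Matrix.symplecticGroup (Fin n) F) {i : ℕ} (hi : i ≤ 2 * n) :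
    A.charpoly.coeff i = A.charpoly.coeff (2 * n - i) := by
  conv_lhs => rw [← sp_pal hA]
  rw [Polynomial.coeff_reverse, Matrix.charpoly_natDegree_eq_dim, Fintype.card_sum, Fintype.card_fin, ← two_mul, Polynomial.revAt_le hi]

theorem sp_charpoly_ext {A B : Matrix (Fin n ⊕ Fin n) (Fin n ⊕ Fin n) F} (hA : A ∈ Matrix.symplecticGroup (Fin n) F) (hB : B ∈ Matrix.symplecticGroup (Fin n) F)
    (h : ∀ i : Fin n, A.charpoly.coeff (i + 1) = B.charpoly.coeff (i + 1)) : A.charpoly = B.charpoly := by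
  have hd : ∀ C : Matrix (Fin n ⊕ Fin n) (Fin n ⊕ Fin n) F, C.charpoly.natDegree = 2 * n := by
    intro C
    rw [Matrix.charpoly_natDegree_eq_dim, Fintype.card_sum, Fintype.card_fin, ← two_mul]
  have htop : ∀ C : Matrix (Fin n ⊕ Fin n) (Fin n ⊕ Fin n) F, C.charpoly.coeff (2 * n) = 1 := by
    intro C
    have := C.charpoly_monic.coeff_natDegree
    rwa [hd] at this
  have hlow : ∀ i ≤ n, A.charpoly.coeff i = B.charpoly.coeff i := by
    intro i hi
    rcases Nat.eq_zero_or_pos i with h0 | h0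
    · subst h0
      rw [sp_pal_coeff hA (Nat.zero_le _), sp_pal_coeff hB (Nat.zero_le _), Nat.sub_zero, htop, htop]
    · have := h ⟨i - 1, by omega⟩
      simp only at this
      rwa [show i - 1 + 1 = i by omega] at this
  ext i
  rcases Nat.lt_or_ge (2 * n) i with h1 | h1
  · rw [coeff_eq_zero_of_natDegree_lt (by rw [hd]; exact h1), coeff_eq_zero_of_natDegree_lt (by rw [hd]; exact h1)]
  · rcases Nat.lt_or_ge n i with h2 | h2
    · rw [sp_pal_coeff hA h1, sp_pal_coeff hB h1]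
      exact hlow _ (by omega)
    · exact hlow _ h2

theorem sp_coe_pow (g : ↥(Matrix.symplecticGroup (Fin n) F)) (k : ℕ) : ((g ^ k : ↥(Matrix.symplecticGroup (Fin n) F)) : Matrix (Fin n ⊕ Fin n) (Fin n ⊕ Fin n) F) =
    (g : Matrix (Fin n ⊕ Fin n) (Fin n ⊕ Fin n) F) ^ k := SubmonoidClass.coe_pow g k

theorem charpoly_iter' {ι : Type*} [Fintype ι] [DecidableEq ι] [Fintype F] (M : Matrix ι ι F) (k : ℕ) :
    (M ^ (Fintype.card F ^ k)).charpoly = M.charpoly := by
  induction k with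
  | zero => rw [pow_zero, pow_one]
  | succ k ih => rw [pow_succ, pow_mul, FiniteField.Matrix.charpoly_pow_card, ih]

/-- the semisimple part in a finite group -/
theorem exists_pow_coprime {G : Type*} [Group G] [Finite G] [Fintype F] (p : ℕ) [Fact p.Prime] [CharP F p] (g0 : G) :
    ∃ a : ℕ, (orderOf (g0 ^ (Fintype.card F ^ a))).Coprime p := by
  have hp : p.Prime := Fact.out
  have hord : orderOf g0 ≠ 0 := (orderOf_pos g0).ne'
  obtain ⟨a, m, hm, hN⟩ := Nat.exists_eq_pow_mul_and_not_dvd hord p hp.ne_one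
  obtain ⟨k, _, hk⟩ := FiniteField.card F p
  refine ⟨a, ?_⟩
  have h1 : (g0 ^ (Fintype.card F ^ a)) ^ m = 1 := by
    rw [← pow_mul]
    apply orderOf_dvd_iff_pow_eq_one.mp
    rw [hN, hk, ← pow_mul]
    apply Nat.mul_dvd_mul_right
    apply pow_dvd_pow
    exact Nat.le_mul_of_pos_left _ k.pos
  exact Nat.Coprime.coprime_dvd_left (orderOf_dvd_iff_pow_eq_one.mpr h1) ((Nat.Prime.coprime_iff_not_dvd hp).mpr hm).symm

/-- a symmetric matrix making a companion matrix self-adjoint -/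
theorem exists_sym {f : F[X]} (hf : f.Monic) (hn : f.natDegree = n) :
    ∃ A G : Matrix (Fin n) (Fin n) F, A.charpoly = f ∧ IsUnit G.det ∧ Gᵀ = G ∧ Aᵀ * G = G * A := by
  rcases Nat.eq_zero_or_pos n with h0 | hpos
  · subst h0
    have hf1 : f = 1 := Polynomial.eq_one_of_monic_natDegree_zero hf hn
    refine ⟨0, 0, ?_, ?_, ?_, ?_⟩
    · rw [hf1, Matrix.charpoly_isEmpty]
    · rw [Matrix.det_isEmpty]; exact isUnit_one
    · exact Matrix.transpose_zero
    · rw [Matrix.mul_zero, Matrix.zero_mul]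
  · haveI : Module.Finite F (AdjoinRoot f) := (AdjoinRoot.powerBasis hf.ne_zero).finite
    have hfin : finrank F (AdjoinRoot f) = n := by
      rw [(AdjoinRoot.powerBasis hf.ne_zero).finrank, AdjoinRoot.powerBasis_dim, hn]
    let b : Basis (Fin n) F (AdjoinRoot f) := Module.finBasisOfFinrankEq F _ hfin
    let lam : AdjoinRoot f →ₗ[F] F := (Polynomial.lcoeff F (n - 1)).comp (AdjoinRoot.modByMonicHom hf)
    have hlam : ∀ p, lam (AdjoinRoot.mk f p) = (p %ₘ f).coeff (n - 1) := fun p => rfl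
    have hnd : ∀ z : AdjoinRoot f, (∀ w, lam (w * z) = 0) → z = 0 := by
      intro z hz
      by_contra hz0
      obtain ⟨p, rfl⟩ := AdjoinRoot.mk_surjective z
      have hp0 : p %ₘ f ≠ 0 := by
        intro h
        apply hz0
        rw [AdjoinRoot.mk_eq_zero]
        exact (modByMonic_eq_zero_iff_dvd hf).mp h
      have hlt : (p %ₘ f).natDegree < n := by
        rw [← hn]
        apply Polynomial.natDegree_modByMonic_lt _ hf
        intro h1
        rw [h1, natDegree_one] at hn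
        omega
      have h1 := hz (AdjoinRoot.mk f (X ^ (n - 1 - (p %ₘ f).natDegree)))
      have h2 : AdjoinRoot.mk f p = AdjoinRoot.mk f (p %ₘ f) := by
        rw [AdjoinRoot.mk_eq_mk, modByMonic_eq_sub_mul_div]
        rw [sub_sub_cancel]
        exact dvd_mul_right _ _
      rw [h2, ← map_mul, hlam] at h1
      have hdeg : (X ^ (n - 1 - (p %ₘ f).natDegree) * (p %ₘ f)).natDegree = n - 1 := by
        rw [natDegree_X_pow_mul _ hp0]
        omega
      rw [(modByMonic_eq_self_iff hf).mpr (by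
        apply degree_lt_degree
        rw [hdeg, hn]; omega)] at h1
      have h3 : (X ^ (n - 1 - (p %ₘ f).natDegree) * (p %ₘ f)).leadingCoeff = 0 := by
        rw [leadingCoeff, hdeg]; exact h1
      rw [leadingCoeff_eq_zero] at h3
      rcases mul_eq_zero.mp h3 with h4 | h4
      · exact pow_ne_zero _ X_ne_zero h4
      · exact hp0 h4
    refine ⟨Algebra.leftMulMatrix b (AdjoinRoot.root f), gram b lam, ?_, gram_det b lam hnd, gram_symm b lam, gram_tr b lam _⟩
    have h1 := charpoly_leftMulMatrix (AdjoinRoot.powerBasis hf.ne_zero)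
    rw [AdjoinRoot.minpoly_powerBasis_gen_of_monic hf, AdjoinRoot.powerBasis_gen] at h1
    rw [Algebra.leftMulMatrix_apply, LinearMap.charpoly_toMatrix] at h1 ⊢
    exact h1

/-- evaluation of the characteristic polynomial -/
theorem eval_big {K : Type*} [Field K] (A G : Matrix (Fin n) (Fin n) K) (hG : IsUnit G.det) {t : K} (ht : t ≠ 0) :
    (fromBlocks A (-G⁻¹) G 0).charpoly.eval t = t ^ n * A.charpoly.eval (t + t⁻¹) := by
  rw [Matrix.eval_charpoly, Matrix.eval_charpoly]
  have h1 : (Matrix.scalar (Fin n ⊕ Fin n) t - fromBlocks A (-G⁻¹) G 0) = fromBlocks (Matrix.scalar (Fin n) t - A) G⁻¹ (-G) (Matrix.scalar (Fin n) t) := by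
    ext i j
    rcases i with i | i <;> rcases j with j | j <;> simp [Matrix.scalar_apply, Matrix.diagonal_apply]
  have hinv : ∀ s : K, s ≠ 0 → Matrix.scalar (Fin n) s⁻¹ * Matrix.scalar (Fin n) s = 1 := by
    intro s hs
    rw [← map_mul, inv_mul_cancel₀ hs, map_one]
  letI : Invertible (Matrix.scalar (Fin n) t) := ⟨Matrix.scalar (Fin n) t⁻¹, hinv t ht, by
    have := hinv t⁻¹ (inv_ne_zero ht)
    rwa [inv_inv] at this⟩
  have h2 : ⅟(Matrix.scalar (Fin n) t) = Matrix.scalar (Fin n) t⁻¹ := rfl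
  have h3 : G⁻¹ * Matrix.scalar (Fin n) t⁻¹ * (-G) = - Matrix.scalar (Fin n) t⁻¹ := by
    have h4 : Matrix.scalar (Fin n) t⁻¹ = t⁻¹ • (1 : Matrix (Fin n) (Fin n) K) := by
      rw [Matrix.scalar_apply, Matrix.smul_one_eq_diagonal]
    rw [h4, Matrix.mul_smul, Matrix.mul_one, Matrix.mul_neg, Matrix.smul_mul, Matrix.nonsing_inv_mul _ hG]
  rw [h1, Matrix.det_fromBlocks₂₂, h2, h3, sub_neg_eq_add]
  congr 1
  · rw [Matrix.scalar_apply, Matrix.det_diagonal, Finset.prod_const, Finset.card_univ, Fintype.card_fin]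
  · rw [map_add]
    congr 1
    abel

/-- the polynomial is determined by the big characteristic polynomial -/
theorem big_inj [Fintype F] {A G A' G' : Matrix (Fin n) (Fin n) F} (hG : IsUnit G.det) (hG' : IsUnit G'.det)
    (h : (fromBlocks A (-G⁻¹) G 0).charpoly = (fromBlocks A' (-G'⁻¹) G' 0).charpoly) : A.charpoly = A'.charpoly := by
  let K := AlgebraicClosure F
  let φ : F →+* K := algebraMap F K
  have key : ∀ (A G : Matrix (Fin n) (Fin n) F), IsUnit G.det → ∀ t : K, t ≠ 0 → ((fromBlocks A (-G⁻¹) G 0).charpoly.map φ).eval t = t ^ n * (A.charpoly.map φ).eval (t + t⁻¹) := by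
    intro A G hG t ht
    have h1 : (fromBlocks A (-G⁻¹) G 0).map φ = fromBlocks (A.map φ) (-(G.map φ)⁻¹) (G.map φ) 0 := by
      have h2 : (G⁻¹).map φ = (G.map φ)⁻¹ := by
        symm
        apply Matrix.inv_eq_left_inv
        rw [← Matrix.map_mul, Matrix.nonsing_inv_mul _ hG, Matrix.map_one _ (map_zero φ) (map_one φ)]
      rw [Matrix.fromBlocks_map, ← h2]
      congr 1
      · ext i j; simp
      · ext i j; simp
    rw [← Matrix.charpoly_map, ← Matrix.charpoly_map, h1]
    apply eval_big _ _ _ ht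
    have : (G.map φ).det = φ G.det := (RingHom.map_det φ G).symm
    rw [this]
    exact hG.map φ
  apply Polynomial.map_injective φ φ.injective
  apply Polynomial.funext
  intro s
  obtain ⟨t, ht0, hts⟩ : ∃ t : K, t ≠ 0 ∧ t + t⁻¹ = s := by
    obtain ⟨t, ht⟩ := IsAlgClosed.exists_root (X ^ 2 - C s * X + 1 : K[X]) (by
      have : (X ^ 2 - C s * X + 1 : K[X]).degree = 2 := by compute_degree!
      rw [this]; norm_num)
    have h1 : t ^ 2 - s * t + 1 = 0 := by simpa [Polynomial.IsRoot] using ht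
    have ht0 : t ≠ 0 := by
      rintro rfl
      norm_num at h1
    refine ⟨t, ht0, ?_⟩
    apply mul_left_cancel₀ ht0
    rw [mul_add, mul_inv_cancel₀ ht0]
    linear_combination h1
  have e1 := key A G hG t ht0
  have e2 := key A' G' hG' t ht0
  rw [h, e2, hts] at e1
  exact mul_left_cancel₀ (pow_ne_zero _ ht0) e1.symm

theorem sp_count [Fintype F] {q : ℕ} (hq : Fintype.card F = q) (p : ℕ) [Fact p.Prime] [CharP F p] (n : ℕ) :
    Nat.card {c : ConjClasses ↥(Matrix.symplecticGroup (Fin n) F) //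
      ∃ g : ↥(Matrix.symplecticGroup (Fin n) F), ConjClasses.mk g = c ∧ (orderOf g).Coprime p} = q ^ n := by
  classical
  have hcardF : Nat.card (Fin n → F) = q ^ n := by
    rw [Nat.card_fun, Nat.card_eq_fintype_card, Nat.card_eq_fintype_card, Fintype.card_fin, hq]
  have hconj : ∀ g h : ↥(Matrix.symplecticGroup (Fin n) F), IsConj g h → (g : Matrix (Fin n ⊕ Fin n) (Fin n ⊕ Fin n) F).charpoly = (h : Matrix (Fin n ⊕ Fin n) (Fin n ⊕ Fin n) F).charpoly := by
    intro g h hgh
    rw [isConj_iff] at hgh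
    obtain ⟨c, hc⟩ := hgh
    have h1 : (h : Matrix (Fin n ⊕ Fin n) (Fin n ⊕ Fin n) F) = (c : Matrix (Fin n ⊕ Fin n) (Fin n ⊕ Fin n) F) * g * ((c⁻¹ : ↥(Matrix.symplecticGroup (Fin n) F)) : Matrix (Fin n ⊕ Fin n) (Fin n ⊕ Fin n) F) := by
      rw [← hc]; rfl
    have h2 : ((c⁻¹ : ↥(Matrix.symplecticGroup (Fin n) F)) : Matrix (Fin n ⊕ Fin n) (Fin n ⊕ Fin n) F) * (c : Matrix (Fin n ⊕ Fin n) (Fin n ⊕ Fin n) F) = 1 := by
      have := inv_mul_cancel c
      exact congrArg Subtype.val this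
    rw [h1, Matrix.charpoly_mul_comm, ← Matrix.mul_assoc, h2, Matrix.one_mul]
  apply le_antisymm
  · rw [← hcardF]
    choose rep hrep1 hrep2 using fun c : {c : ConjClasses ↥(Matrix.symplecticGroup (Fin n) F) //
      ∃ g : ↥(Matrix.symplecticGroup (Fin n) F), ConjClasses.mk g = c ∧ (orderOf g).Coprime p} => c.2
    apply Nat.card_le_card_of_injective (fun c => fun i : Fin n => (rep c : Matrix (Fin n ⊕ Fin n) (Fin n ⊕ Fin n) F).charpoly.coeff (i + 1))
    intro c d hcd
    apply Subtype.ext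
    rw [← hrep1, ← hrep1, ConjClasses.mk_eq_mk_iff_isConj]
    apply sp_conj p _ _ (hrep2 c) (hrep2 d)
    apply sp_charpoly_ext (rep c).2 (rep d).2
    intro i
    exact congrFun hcd i
  · rw [← hcardF]
    have hex : ∀ c : Fin n → F, ∃ g : ↥(Matrix.symplecticGroup (Fin n) F), (orderOf g).Coprime p ∧ ∃ A G : Matrix (Fin n) (Fin n) F, A.charpoly = mpoly c ∧ IsUnit G.det ∧
        (g : Matrix (Fin n ⊕ Fin n) (Fin n ⊕ Fin n) F).charpoly = (fromBlocks A (-G⁻¹) G 0).charpoly := by
      intro c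
      obtain ⟨A, G, h1, h2, h3, h4⟩ := exists_sym (mpoly_monic c) (mpoly_natDegree c)
      have hmem : fromBlocks A (-G⁻¹) G 0 ∈ Matrix.symplecticGroup (Fin n) F := by
        rw [SymplecticGroup.fromBlocks_mem_iff]
        refine ⟨?_, ?_, ?_⟩
        · rw [h4, h3]
        · rw [Matrix.mul_zero, Matrix.transpose_zero, Matrix.zero_mul]
        · rw [Matrix.mul_zero, zero_sub, h3, Matrix.mul_neg, neg_neg, Matrix.mul_nonsing_inv _ h2]
      obtain ⟨a, ha⟩ := exists_pow_coprime (F := F) p (⟨_, hmem⟩ : ↥(Matrix.symplecticGroup (Fin n) F))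
      refine ⟨_, ha, A, G, h1, h2, ?_⟩
      rw [sp_coe_pow, charpoly_iter']
    choose T hT1 A G hA hG hT2 using hex
    apply Nat.card_le_card_of_injective (fun c : Fin n → F => (⟨ConjClasses.mk (T c), T c, rfl, hT1 c⟩ : {c : ConjClasses ↥(Matrix.symplecticGroup (Fin n) F) //
      ∃ g : ↥(Matrix.symplecticGroup (Fin n) F), ConjClasses.mk g = c ∧ (orderOf g).Coprime p}))
    intro c d hcd
    have h1 := congrArg Subtype.val hcd
    change ConjClasses.mk (T c) = ConjClasses.mk (T d) at h1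
    rw [ConjClasses.mk_eq_mk_iff_isConj] at h1
    have h2 := hconj _ _ h1
    rw [hT2, hT2] at h2
    have h3 := big_inj (hG c) (hG d) h2
    rw [hA, hA] at h3
    exact mpoly_inj h3

end sp

end Cfsg.Agent.H15.FM
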