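import Mathlib
import Cfsg.Agent.H2_SL23
set_option autoImplicit false

namespace Cfsg.Agent.H15.SL23

local notation "G" => Matrix.SpecialLinearGroup (Fin 2) (ZMod 3)

theorem a1 : ∀ a b : G, a ^ 4 = 1 → b ^ 4 = 1 → (a * b) ^ 4 = 1 := by decide +kernel
theorem a2 : ∀ a b : G, (a * b * a⁻¹ * b⁻¹) ^ 4 = 1 := by decide +kernel
theorem a3 : (Finset.univ.filter (fun a : G => a ^ 4 = 1)).card = 8 := by decide +kernel
theorem a4 : ∀ a b : G, (a ^ 4 = 1 ∧ a ^ 2 ≠ 1) → (b ^ 4 = 1 ∧ b ^ 2 ≠ 1) → ∃ x : G, x * a * x⁻¹ = b := by decide +kernel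
theorem a5 : ∀ a : G, a ^ 4 ≠ 1 → ∃ x : G, (a * x * a⁻¹ * x⁻¹) ^ 2 ≠ 1 := by decide +kernel
theorem a6 : (Finset.univ.filter (fun a : G => a ^ 2 = 1)).card = 2 := by decide +kernel
theorem a7 : ∀ a : G, a ^ 2 = 1 → ∀ b : G, b * a = a * b := by decide +kernel
theorem a8 : ∀ a : G, a ^ 2 ≠ 1 → ∃ b : G, b * a ≠ a * b := by decide +kernel
theorem a9 : ∀ a : G, a ^ 4 = 1 → ∃ x y : G, x * y * x⁻¹ * y⁻¹ = a := by decide +kernel
theorem a10 : ∀ a : G, a ^ 2 = 1 → ∃ b : G, b ^ 4 = 1 ∧ b ^ 2 ≠ 1 ∧ (b⁻¹ * a) ^ 4 = 1 ∧ (b⁻¹ * a) ^ 2 ≠ 1 := by decide +kernel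

/-- the quaternion subgroup -/
def Q : Subgroup G where
  carrier := {a | a ^ 4 = 1}
  one_mem' := one_pow 4
  mul_mem' := fun {a b} ha hb => a1 a b ha hb
  inv_mem' := fun {a} (ha : a ^ 4 = 1) => by
    show a⁻¹ ^ 4 = 1
    rw [inv_pow, ha, inv_one]

theorem mem_Q (a : G) : a ∈ Q ↔ a ^ 4 = 1 := Iff.rfl

theorem comm_eq : commutator G = Q := by
  apply le_antisymm
  · rw [commutator_def, Subgroup.commutator_le]
    intro a _ b _
    rw [commutatorElement_def]
    exact a2 a b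
  · intro a ha
    obtain ⟨x, y, hxy⟩ := a9 a ha
    rw [← hxy, ← commutatorElement_def, commutator_def]
    exact Subgroup.commutator_mem_commutator (Subgroup.mem_top x) (Subgroup.mem_top y)

theorem card_Q : Nat.card Q = 8 := by
  rw [← a3, ← Nat.card_eq_finsetCard]
  exact Nat.card_congr (Equiv.subtypeEquivRight (fun a => by simp [mem_Q]))

theorem mem_center (a : G) : a ∈ Subgroup.center G ↔ a ^ 2 = 1 := by
  rw [Subgroup.mem_center_iff]
  constructor
  · intro h
    by_contra hn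
    obtain ⟨b, hb⟩ := a8 a hn
    exact hb (h b)
  · exact fun h b => a7 a h b

theorem card_center : Nat.card (Subgroup.center G) = 2 := by
  refine Eq.trans ?_ ((Nat.card_eq_finsetCard (Finset.univ.filter (fun a : G => a ^ 2 = 1))).trans a6)
  exact Nat.card_congr (Equiv.subtypeEquivRight (fun a => by simp [mem_center]))

open Cfsg.Agent.H2.SL23 Cfsg.Agent.H4.Dih

theorem range_eq : (f₁ sl_data).range = Q := by
  apply Subgroup.eq_of_le_of_card_ge
  · rintro _ ⟨n, rfl⟩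
    rw [mem_Q, ← map_pow]
    have : ∀ n : QuaternionGroup 2, n ^ 4 = 1 := by decide +kernel
    rw [this, map_one]
  · rw [card_Q]
    have i1 : Function.Injective (f₁ sl_data) := quatHom_injective 2 _ _ sl_data.i4 sl_data.hji sl_data.hc sl_data.hi sl_data.j_not_mem
    rw [← Nat.card_congr (MonoidHom.ofInjective i1).toEquiv, Nat.card_eq_fintype_card]
    decide +kernel

theorem iso : Nonempty (Q ≃* QuaternionGroup 2) := by
  have i1 : Function.Injective (f₁ sl_data) := quatHom_injective 2 _ _ sl_data.i4 sl_data.hji sl_data.hc sl_data.hi sl_data.j_not_mem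
  rw [← range_eq]
  exact ⟨(MonoidHom.ofInjective i1).symm⟩

theorem Q_le_of {N : Subgroup G} (hN : N.Normal) {a : G} (ha : a ∈ N) (h4 : a ^ 4 = 1) (h2 : a ^ 2 ≠ 1) : Q ≤ N := by
  have key : ∀ b : G, b ^ 4 = 1 → b ^ 2 ≠ 1 → b ∈ N := by
    intro b hb hb2
    obtain ⟨x, hx⟩ := a4 a b ⟨h4, h2⟩ ⟨hb, hb2⟩
    rw [← hx]
    exact hN.conj_mem a ha x
  intro b hb
  by_cases hb2 : b ^ 2 = 1
  · obtain ⟨d, h5, h6, h7, h8⟩ := a10 b hb2
    have := N.mul_mem (key d h5 h6) (key _ h7 h8)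
    rwa [mul_inv_cancel_left] at this
  · exact key b hb hb2

theorem normal_cases (N : Subgroup G) (hN : N.Normal) : N = ⊥ ∨ N = ⊤ ∨ N = Subgroup.center G ∨ N = Q := by
  by_cases hle : N ≤ Q
  · by_cases hz : ∀ a ∈ N, a ^ 2 = 1
    · have hz' : N ≤ Subgroup.center G := fun a ha => (mem_center a).mpr (hz a ha)
      have h1 := Subgroup.card_dvd_of_le hz'
      rw [card_center, Nat.dvd_prime Nat.prime_two] at h1
      rcases h1 with h1 | h1
      · exact Or.inl ((Subgroup.card_eq_one).mp h1)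
      · exact Or.inr (Or.inr (Or.inl (Subgroup.eq_of_le_of_card_ge hz' (by rw [card_center, h1]))))
    · push Not at hz
      obtain ⟨a, ha, h2⟩ := hz
      exact Or.inr (Or.inr (Or.inr (le_antisymm hle (Q_le_of hN ha (hle ha) h2))))
  · right; left
    obtain ⟨a, ha, haQ⟩ := SetLike.not_le_iff_exists.mp hle
    obtain ⟨x, hx⟩ := a5 a haQ
    have h1 : a * x * a⁻¹ * x⁻¹ ∈ N := by
      have h2 : x * a⁻¹ * x⁻¹ ∈ N := hN.conj_mem _ (N.inv_mem ha) x
      have := N.mul_mem ha h2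
      rwa [show a * (x * a⁻¹ * x⁻¹) = a * x * a⁻¹ * x⁻¹ by group] at this
    have hQ := Q_le_of hN h1 (a2 a x) hx
    apply Subgroup.eq_top_of_card_eq
    have h3 : Nat.card N ∣ 24 := by rw [← card_sl]; exact Subgroup.card_subgroup_dvd_card N
    have h4 : 8 ∣ Nat.card N := by rw [← card_Q]; exact Subgroup.card_dvd_of_le hQ
    rw [card_sl]
    obtain ⟨k, hk⟩ := h4
    have h5 : k ∣ 3 := by
      rw [hk] at h3
      exact Nat.dvd_of_mul_dvd_mul_left (by norm_num) (show 8 * k ∣ 8 * 3 from h3)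
    rcases (Nat.dvd_prime Nat.prime_three).mp h5 with rfl | rfl
    · exfalso
      have h6 : Q = N := Subgroup.eq_of_le_of_card_ge hQ (by rw [card_Q, hk])
      exact haQ (h6 ▸ ha)
    · omega

theorem sylow_compl (P : Sylow 3 G) : Subgroup.IsComplement' Q (P : Subgroup G) := by
  have hP : Nat.card P = 3 := by
    rw [P.card_eq_multiplicity, card_sl]
    have : (24 : ℕ).factorization 3 = 1 := by
      rw [show (24 : ℕ) = 8 * 3 by norm_num, Nat.factorization_mul (by norm_num) (by norm_num), Finsupp.add_apply,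
        Nat.factorization_eq_zero_of_not_dvd (n := 8) (by norm_num), Nat.prime_three.factorization, Finsupp.single_eq_same]
    rw [this, pow_one]
  apply Subgroup.isComplement'_of_coprime
  · rw [hP, card_Q, card_sl]
  · rw [hP, card_Q]; norm_num

end Cfsg.Agent.H15.SL23
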