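import Mathlib
import Cfsg.Agent.H15_CEN1

set_option autoImplicit false
open Module

namespace Cfsg.Agent.H15.SPD

open Cfsg.Agent.H15.CEN

variable {F : Type*} [Field F]

/-- the index of the kernel on an irreducible submodule -/
theorem irr_step {A : Type*} [CommGroup A] [Finite A] {V : Type*} [AddCommGroup V] [Module F V] [Nontrivial V]
    (ρ : A →* Module.End F V) (hirr : ∀ U : Submodule F V, (∀ a, ∀ u ∈ U, ρ a u ∈ U) → U = ⊥ ∨ U = ⊤)
    (B : Subgroup A) {l : ℕ} (hl : l.Prime) (hB : ∀ b ∈ B, b ^ l = 1) :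
    ∃ K : Subgroup A, K ≤ B ∧ Nat.card B ≤ Nat.card K * l ∧ ∀ k ∈ K, ρ k = 1 := by
  classical
  have hcomm : ∀ x ∈ Set.range ρ, ∀ y ∈ Set.range ρ, x * y = y * x := by
    rintro _ ⟨a, rfl⟩ _ ⟨b, rfl⟩
    rw [← map_mul, ← map_mul, mul_comm]
  let E := Algebra.adjoin F (Set.range ρ)
  letI : CommRing E := Algebra.adjoinCommRingOfComm F hcomm
  have hEc : ∀ (x : E) (a : A), (x : Module.End F V) * ρ a = ρ a * x := by
    intro x a
    have h1 : (⟨ρ a, Algebra.subset_adjoin ⟨a, rfl⟩⟩ : E) * x = x * ⟨ρ a, Algebra.subset_adjoin ⟨a, rfl⟩⟩ := mul_comm _ _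
    exact (congrArg Subtype.val h1).symm
  haveI : NoZeroDivisors E := by
    constructor
    intro x y hxy
    have h1 : (x : Module.End F V) * y = 0 := congrArg Subtype.val hxy
    rcases hirr (LinearMap.ker (x : Module.End F V)) (fun a u hu => by
      rw [LinearMap.mem_ker] at hu ⊢
      have := LinearMap.congr_fun (hEc x a) u
      rw [Module.End.mul_apply, Module.End.mul_apply, hu, map_zero] at this
      exact this) with h2 | h2
    · right
      apply Subtype.ext
      apply LinearMap.ext
      intro v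
      have h3 : (y : Module.End F V) v ∈ LinearMap.ker (x : Module.End F V) := by
        rw [LinearMap.mem_ker]
        exact LinearMap.congr_fun h1 v
      rw [h2, Submodule.mem_bot] at h3
      exact h3
    · left
      apply Subtype.ext
      exact LinearMap.ker_eq_top.mp h2
  haveI : Nontrivial E := by
    refine ⟨0, 1, ?_⟩
    intro h
    have h1 : (0 : Module.End F V) = 1 := congrArg Subtype.val h
    obtain ⟨v, hv⟩ := exists_ne (0 : V)
    apply hv
    have := LinearMap.congr_fun h1 v
    exact this.symm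
  haveI : IsDomain E := NoZeroDivisors.to_isDomain E
  let f : B →* E :=
    { toFun := fun b => ⟨ρ (b : A), Algebra.subset_adjoin ⟨(b : A), rfl⟩⟩
      map_one' := Subtype.ext (map_one ρ)
      map_mul' := fun a b => Subtype.ext (map_mul ρ (a : A) b) }
  let g : B →* Eˣ := f.toHomUnits
  have hg : g.range ≤ rootsOfUnity l E := by
    rintro _ ⟨b, rfl⟩
    rw [mem_rootsOfUnity]
    rw [← map_pow]
    have : b ^ l = 1 := Subtype.ext (hB b b.2)
    rw [this, map_one]
  haveI : NeZero l := ⟨hl.ne_zero⟩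
  refine ⟨g.ker.map B.subtype, ?_, ?_, ?_⟩
  · rintro _ ⟨b, _, rfl⟩
    exact b.2
  · have h1 : Nat.card (g.ker.map B.subtype) = Nat.card g.ker :=
      (Nat.card_congr (Subgroup.equivMapOfInjective g.ker B.subtype B.subtype_injective).toEquiv).symm
    rw [h1, ← Subgroup.card_mul_index g.ker]
    apply Nat.mul_le_mul_left
    rw [Subgroup.index_ker]
    calc Nat.card g.range ≤ Nat.card (rootsOfUnity l E) := Subgroup.card_le_of_le hg
      _ ≤ l := card_rootsOfUnity E l
  · rintro _ ⟨b, hb, rfl⟩
    have h1 : g b = 1 := MonoidHom.mem_ker.mp hb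
    have h2 : ((g b : Eˣ) : E) = 1 := by rw [h1]; rfl
    exact congrArg Subtype.val h2

/-- a character on a line -/
theorem line_triv {A : Type*} [CommGroup A] {V : Type*} [AddCommGroup V] [Module F V] (h1 : finrank F V = 1)
    (ρ : A →* Module.End F V) (b : A) (hχ : ∀ χ : A →* Fˣ, χ b = 1) : ρ b = 1 := by
  obtain ⟨v, hv, hsp⟩ := finrank_eq_one_iff'.mp h1
  choose c hc using fun a : A => hsp (ρ a v)
  have hact : ∀ a w, ρ a w = c a • w := by
    intro a w
    obtain ⟨t, rfl⟩ := hsp w
    rw [map_smul, ← hc, smul_comm]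
  have hc1 : c 1 = 1 := by
    have h2 := hc 1
    rw [map_one, Module.End.one_apply] at h2
    have h3 : (c 1 - 1) • v = 0 := by rw [sub_smul, h2, one_smul, sub_self]
    exact sub_eq_zero.mp ((smul_eq_zero.mp h3).resolve_right hv)
  have hcm : ∀ x y, c (x * y) = c x * c y := by
    intro x y
    have h2 := hc (x * y)
    rw [map_mul, Module.End.mul_apply, hact x, hact y, smul_smul] at h2
    have h3 : (c (x * y) - c x * c y) • v = 0 := by rw [sub_smul, h2, sub_self]
    exact sub_eq_zero.mp ((smul_eq_zero.mp h3).resolve_right hv)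
  let f : A →* F := { toFun := c, map_one' := hc1, map_mul' := hcm }
  have h2 := hχ f.toHomUnits
  have h3 : c b = 1 := congrArg (fun u : Fˣ => (u : F)) h2
  apply LinearMap.ext
  intro w
  rw [hact, h3, one_smul]; rfl

/-- restriction of a representation to an invariant subspace -/
noncomputable def resRep {A : Type*} [CommGroup A] {V : Type*} [AddCommGroup V] [Module F V] (ρ : A →* Module.End F V)
    (U : Submodule F V) (hU : ∀ a, ∀ u ∈ U, ρ a u ∈ U) : A →* Module.End F U where
  toFun a := (ρ a).restrict (hU a)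
  map_one' := by
    apply LinearMap.ext
    intro u
    apply Subtype.ext
    rw [LinearMap.restrict_coe_apply, map_one]; rfl
  map_mul' a b := by
    apply LinearMap.ext
    intro u
    apply Subtype.ext
    rw [LinearMap.restrict_coe_apply, map_mul]; rfl

/-- the quotient representation -/
noncomputable def quoRep {A : Type*} [CommGroup A] {V : Type*} [AddCommGroup V] [Module F V] (ρ : A →* Module.End F V)
    (U : Submodule F V) (hU : ∀ a, ∀ u ∈ U, ρ a u ∈ U) : A →* Module.End F (V ⧸ U) where
  toFun a := U.mapQ U (ρ a) (fun u hu => hU a u hu)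
  map_one' := by
    apply LinearMap.ext
    intro u
    obtain ⟨v, rfl⟩ := Submodule.mkQ_surjective U u
    rw [Submodule.mkQ_apply, Submodule.mapQ_apply, map_one]; rfl
  map_mul' a b := by
    apply LinearMap.ext
    intro u
    obtain ⟨v, rfl⟩ := Submodule.mkQ_surjective U u
    rw [Submodule.mkQ_apply, Submodule.mapQ_apply, map_mul]; rfl

theorem main_ind {A : Type*} [CommGroup A] [Finite A] {l : ℕ} (hl : l.Prime) (hlF : (l : F) ≠ 0) (n : ℕ) :
    ∀ {V : Type*} [AddCommGroup V] [Module F V] [Module.Finite F V] (_ : finrank F V = n)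
    (ρ : A →* Module.End F V) (B : Subgroup A) (_ : ∀ b ∈ B, b ^ l = 1)
    (_ : ∀ b ∈ B, ∀ χ : A →* Fˣ, χ b = 1),
    ∃ K : Subgroup A, K ≤ B ∧ Nat.card B ≤ Nat.card K * l ^ (n / 2) ∧ ∀ k ∈ K, ρ k = 1 := by
  induction n using Nat.strong_induction_on with
  | _ n ih =>
  intro V _ _ _ hn ρ B hB hχ
  rcases Nat.eq_zero_or_pos n with h0 | hpos
  · subst h0
    refine ⟨B, le_rfl, by simp, ?_⟩
    intro k _
    haveI : Subsingleton V := finrank_zero_iff.mp hn
    apply LinearMap.ext
    intro v
    exact Subsingleton.elim _ _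
  haveI : Nontrivial V := by
    apply nontrivial_of_finrank_pos (R := F)
    omega
  by_cases hirr : ∀ U : Submodule F V, (∀ a, ∀ u ∈ U, ρ a u ∈ U) → U = ⊥ ∨ U = ⊤
  · rcases Nat.lt_or_ge n 2 with h1 | h2
    · refine ⟨B, le_rfl, ?_, ?_⟩
      · exact Nat.le_mul_of_pos_right _ (pow_pos hl.pos _)
      · intro k hk
        exact line_triv (by omega) ρ k (hχ k hk)
    · obtain ⟨K, h3, h4, h5⟩ := irr_step ρ hirr B hl hB
      refine ⟨K, h3, h4.trans (Nat.mul_le_mul_left _ ?_), h5⟩
      calc l = l ^ 1 := (pow_one l).symm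
        _ ≤ l ^ (n / 2) := Nat.pow_le_pow_right hl.pos (by omega)
  · push Not at hirr
    obtain ⟨U, hU, hU0, hU1⟩ := hirr
    have hlt : finrank F U < n := by
      rw [← hn]
      exact Submodule.finrank_lt hU1
    have hp : 0 < finrank F U := by
      rw [Nat.pos_iff_ne_zero]
      intro h
      exact hU0 (Submodule.finrank_eq_zero.mp h)
    have hq : finrank F (V ⧸ U) + finrank F U = n := by
      rw [Submodule.finrank_quotient_add_finrank, hn]
    obtain ⟨K1, h1, h2, h3⟩ := ih _ hlt rfl (resRep ρ U hU) B hB hχ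
    obtain ⟨K2, h4, h5, h6⟩ := ih (finrank F (V ⧸ U)) (by omega) rfl (quoRep ρ U hU) K1 (fun b hb => hB b (h1 hb)) (fun b hb => hχ b (h1 hb))
    refine ⟨K2, h4.trans h1, ?_, ?_⟩
    · calc Nat.card B ≤ Nat.card K1 * l ^ (finrank F U / 2) := h2
        _ ≤ (Nat.card K2 * l ^ (finrank F (V ⧸ U) / 2)) * l ^ (finrank F U / 2) := Nat.mul_le_mul_right _ h5
        _ = Nat.card K2 * l ^ (finrank F (V ⧸ U) / 2 + finrank F U / 2) := by rw [mul_assoc, ← pow_add]
        _ ≤ Nat.card K2 * l ^ (n / 2) := by
          apply Nat.mul_le_mul_left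
          apply Nat.pow_le_pow_right hl.pos
          omega
    · intro k hk
      have hkl : (ρ k) ^ l = 1 := by
        rw [← map_pow, hB k (h1 (h4 hk)), map_one]
      apply LinearMap.ext
      intro v
      have e1 : ρ k v - v ∈ U := by
        have := LinearMap.congr_fun (h6 k hk) (U.mkQ v)
        change U.mkQ (ρ k v) = U.mkQ v at this
        rw [← sub_eq_zero, ← map_sub, Submodule.mkQ_apply, Submodule.Quotient.mk_eq_zero] at this
        exact this
      have e2 : ρ k (ρ k v - v) = ρ k v - v := by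
        have := LinearMap.congr_fun (h3 k (h4 hk)) ⟨_, e1⟩
        exact congrArg Subtype.val this
      have e3 := fix_range hlF hkl (v := ρ k v - v) ⟨v, by simp⟩ e2
      rw [sub_eq_zero] at e3
      rw [e3]; rfl

end Cfsg.Agent.H15.SPD
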