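import Mathlib
import Cfsg.Agent.H15_SPD1
import Cfsg.Agent.H15_TOR5

set_option autoImplicit false
open Module Matrix

namespace Cfsg.Agent.H15.SPD

variable {F : Type*} [Field F]

/-- the diagonal embedding of `SL_2^n` in `Sp_{2n}` -/
def slSp (n : ℕ) : (Fin n → SpecialLinearGroup (Fin 2) F) →* ↥(Matrix.symplecticGroup (Fin n) F) where
  toFun g := ⟨fromBlocks (diagonal fun i => (g i).1 0 0) (diagonal fun i => (g i).1 0 1) (diagonal fun i => (g i).1 1 0)
      (diagonal fun i => (g i).1 1 1), by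
    rw [SymplecticGroup.fromBlocks_mem_iff]
    refine ⟨?_, ?_, ?_⟩
    · simp only [diagonal_transpose, diagonal_mul_diagonal]
      congr 1
      funext i
      ring
    · simp only [diagonal_transpose, diagonal_mul_diagonal]
      congr 1
      funext i
      ring
    · simp only [diagonal_transpose, diagonal_mul_diagonal, diagonal_sub]
      rw [← diagonal_one]
      congr 1
      funext i
      have h := (g i).2
      rw [det_fin_two] at h
      have h' : (g i).1 0 0 * (g i).1 1 1 - (g i).1 1 0 * (g i).1 0 1 = 1 := by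
        rw [mul_comm ((g i).1 1 0)]; exact h
      exact h'⟩
  map_one' := by
    apply Subtype.ext
    change fromBlocks _ _ _ _ = 1
    simp [← fromBlocks_one]
  map_mul' g h := by
    apply Subtype.ext
    change fromBlocks _ _ _ _ = fromBlocks _ _ _ _ * fromBlocks _ _ _ _
    rw [fromBlocks_multiply]
    simp only [diagonal_mul_diagonal, diagonal_add, Pi.mul_apply]
    have hm : ∀ i a b, ((g i * h i : SpecialLinearGroup (Fin 2) F)).1 a b = (g i).1 a 0 * (h i).1 0 b + (g i).1 a 1 * (h i).1 1 b := by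
      intro i a b
      have : ((g i * h i : SpecialLinearGroup (Fin 2) F)).1 = (g i).1 * (h i).1 := rfl
      rw [this, Matrix.mul_apply, Fin.sum_univ_two]
    simp only [hm]

theorem slSp_inj (n : ℕ) : Function.Injective (slSp (F := F) n) := by
  intro g h hgh
  have h1 := congrArg Subtype.val hgh
  change fromBlocks _ _ _ _ = fromBlocks _ _ _ _ at h1
  rw [fromBlocks_inj] at h1
  obtain ⟨h2, h3, h4, h5⟩ := h1
  funext i
  apply Subtype.ext
  ext a b
  fin_cases a <;> fin_cases b
  · exact congrFun (diagonal_injective h2) i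
  · exact congrFun (diagonal_injective h3) i
  · exact congrFun (diagonal_injective h4) i
  · exact congrFun (diagonal_injective h5) i

/-- the general conclusion -/
theorem concl {n d : ℕ} {A : Type*} [CommGroup A] [Finite A] {l : ℕ} (hl : l.Prime) (hlF : (l : F) ≠ 0)
    (ρ : A →* GL (Fin d) F) (hρ : Function.Injective ρ) (B : Subgroup A) (hB : ∀ b ∈ B, b ^ l = 1)
    (hχ : ∀ b ∈ B, ∀ χ : A →* Fˣ, χ b = 1) (hcard : l ^ n ≤ Nat.card B) : 2 * n ≤ d := by
  let ρ' : A →* Module.End F (Fin d → F) :=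
    ((Matrix.toLinAlgEquiv' : Matrix (Fin d) (Fin d) F ≃ₐ[F] ((Fin d → F) →ₗ[F] (Fin d → F))) :
      Matrix (Fin d) (Fin d) F →* Module.End F (Fin d → F)).comp ((Units.coeHom _).comp ρ)
  obtain ⟨K, h1, h2, h3⟩ := main_ind hl hlF d (V := Fin d → F) (by simp) ρ' B hB hχ
  have hK : K = ⊥ := by
    rw [eq_bot_iff]
    intro k hk
    rw [Subgroup.mem_bot]
    apply hρ
    rw [map_one]
    apply Units.ext
    have h4 := h3 k hk
    have h5 : Matrix.toLinAlgEquiv' ((ρ k : GL (Fin d) F) : Matrix (Fin d) (Fin d) F) = 1 := h4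
    apply (Matrix.toLinAlgEquiv' : Matrix (Fin d) (Fin d) F ≃ₐ[F] ((Fin d → F) →ₗ[F] (Fin d → F))).injective
    rw [h5, Units.val_one, map_one]
  rw [hK, Subgroup.card_bot, one_mul] at h2
  have h4 := hcard.trans h2
  have h5 := (Nat.pow_le_pow_iff_right hl.one_lt).mp h4
  omega

theorem char_dvd [Fintype F] : ringChar F ∣ Fintype.card F := by
  obtain ⟨n, hp, hn⟩ := FiniteField.card F (ringChar F)
  rw [hn]
  exact dvd_pow_self _ n.ne_zero

theorem ne_zero_of [Fintype F] {r : ℕ} (hr : r.Prime) (hrd : ¬ r ∣ Fintype.card F) : (r : F) ≠ 0 := by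
  intro h
  have h1 := (ringChar.spec F r).mp h
  have h3 : (ringChar F).Prime := CharP.char_is_prime F (ringChar F)
  have h5 : ringChar F = r := (Nat.prime_dvd_prime_iff_eq h3 hr).mp h1
  apply hrd
  rw [← h5]; exact char_dvd

theorem chi_pow [Fintype F] {A : Type*} [CommGroup A] (χ : A →* Fˣ) (a : A) {m : ℕ} (ha : a ^ m = 1) :
    χ a ^ (Nat.gcd m (Fintype.card F - 1)) = 1 := by
  classical
  have e1 : χ a ^ m = 1 := by rw [← map_pow, ha, map_one]
  have e2 : χ a ^ (Fintype.card F - 1) = 1 := by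
    apply Units.ext
    rw [Units.val_pow_eq_pow_val, Units.val_one]
    exact FiniteField.pow_card_sub_one_eq_one _ (χ a).ne_zero
  rw [← orderOf_dvd_iff_pow_eq_one] at e1 e2 ⊢
  exact Nat.dvd_gcd e1 e2

theorem main_even [Fintype F] {n d : ℕ} (ρ : ↥(Matrix.symplecticGroup (Fin n) F) →* GL (Fin d) F) (hρ : Function.Injective ρ)
    (h4 : 4 ∣ Fintype.card F + 1) {C : Type*} [CommGroup C] [Finite C] (ψ : C →* SpecialLinearGroup (Fin 2) F)
    (hψ : Function.Injective ψ) (x : C) (hx4 : ∀ y : C, y ^ 4 = 1) (hx2 : x ^ 2 ≠ 1) : 2 * n ≤ d := by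
  classical
  let φ : (Fin n → C) →* ↥(Matrix.symplecticGroup (Fin n) F) := (slSp n).comp (ψ.compLeft (Fin n))
  have hφ : Function.Injective φ := (slSp_inj n).comp (fun a b h => funext fun i => hψ (congrFun h i))
  have hcyc : ∀ χ : (Fin n → C) →* Fˣ, ∀ a, χ a ^ 2 = 1 := by
    intro χ a
    have e3 := chi_pow χ a (m := 4) (funext fun i => hx4 _)
    have e4 : Nat.gcd 4 (Fintype.card F - 1) = 2 := by
      obtain ⟨m, hm⟩ := h4
      have : Fintype.card F - 1 = 2 + 4 * (m - 1) := by omega
      rw [this, Nat.gcd_add_mul_left_right]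
      rfl
    rwa [e4] at e3
  refine concl (l := 2) Nat.prime_two ?_ (ρ.comp φ) (hρ.comp hφ) (powMonoidHom 2 : (Fin n → C) →* (Fin n → C)).range ?_ ?_ ?_
  · apply ne_zero_of Nat.prime_two
    omega
  · rintro _ ⟨a, rfl⟩
    rw [powMonoidHom_apply, ← pow_mul]
    exact funext fun i => hx4 _
  · rintro _ ⟨a, rfl⟩ χ
    rw [powMonoidHom_apply, map_pow]
    exact hcyc χ a
  · let g : (Fin n → Fin 2) → (powMonoidHom 2 : (Fin n → C) →* (Fin n → C)).range := fun ε =>
      ⟨(fun i => (if ε i = 0 then 1 else x : C)) ^ 2, ⟨_, rfl⟩⟩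
    have hg : Function.Injective g := by
      intro a b hab
      funext i
      have h1 := congrFun (congrArg Subtype.val hab) i
      change (if a i = 0 then (1 : C) else x) ^ 2 = (if b i = 0 then (1 : C) else x) ^ 2 at h1
      by_cases ha : a i = 0 <;> by_cases hb : b i = 0
      · rw [ha, hb]
      · rw [if_pos ha, if_neg hb, one_pow] at h1
        exact absurd h1.symm hx2
      · rw [if_neg ha, if_pos hb, one_pow] at h1
        exact absurd h1 hx2
      · omega
    have := Nat.card_le_card_of_injective g hg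
    rw [Nat.card_eq_fintype_card, Fintype.card_fun, Fintype.card_fin, Fintype.card_fin] at this
    exact this

theorem main_odd [Fintype F] {n d : ℕ} (ρ : ↥(Matrix.symplecticGroup (Fin n) F) →* GL (Fin d) F) (hρ : Function.Injective ρ)
    {r : ℕ} (hr : r.Prime) (hodd : Odd r) (hrd : r ∣ Fintype.card F + 1) {C : Type*} [CommGroup C] [Finite C]
    (ψ : C →* SpecialLinearGroup (Fin 2) F) (hψ : Function.Injective ψ) (hC : Nat.card C = r) : 2 * n ≤ d := by
  classical
  let φ : (Fin n → C) →* ↥(Matrix.symplecticGroup (Fin n) F) := (slSp n).comp (ψ.compLeft (Fin n))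
  have hφ : Function.Injective φ := (slSp_inj n).comp (fun a b h => funext fun i => hψ (congrFun h i))
  have hxr : ∀ y : C, y ^ r = 1 := by
    intro y
    rw [← hC]
    exact pow_card_eq_one'
  refine concl (l := r) hr ?_ (ρ.comp φ) (hρ.comp hφ) (⊤ : Subgroup (Fin n → C)) ?_ ?_ ?_
  · apply ne_zero_of hr
    intro h
    have := (Nat.dvd_add_right h).mp hrd
    exact hr.one_lt.ne' (Nat.dvd_one.mp this)
  · intro b _
    exact funext fun i => hxr _
  · intro a _ χ
    have e3 := chi_pow χ a (m := r) (funext fun i => hxr _)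
    have e4 : Nat.gcd r (Fintype.card F - 1) = 1 := by
      rw [← Nat.coprime_iff_gcd_eq_one, Nat.Prime.coprime_iff_not_dvd hr]
      intro h
      have hq : 2 ≤ Fintype.card F := Fintype.one_lt_card
      have h1 : Fintype.card F + 1 = (Fintype.card F - 1) + 2 := by omega
      rw [h1] at hrd
      have h2 := (Nat.dvd_add_right h).mp hrd
      have h3 := Nat.le_of_dvd (by norm_num) h2
      have h4 := hr.two_le
      have h5 : r = 2 := by omega
      rw [h5] at hodd
      exact absurd hodd (by decide)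
    rwa [e4, pow_one] at e3
  · rw [Subgroup.card_top, Nat.card_fun, hC, Nat.card_eq_fintype_card, Fintype.card_fin]

theorem exists_c (hF2 : ((2 : ℕ) : F) ≠ 0) : ∃ c : SpecialLinearGroup (Fin 2) F, c ^ 4 = 1 ∧ c ^ 2 ≠ 1 := by
  refine ⟨⟨!![0, -1; 1, 0], by simp [det_fin_two]⟩, ?_, ?_⟩
  · apply Subtype.ext
    change (!![0, -1; 1, 0] : Matrix (Fin 2) (Fin 2) F) ^ 4 = 1
    ext i j
    fin_cases i <;> fin_cases j <;> simp [pow_succ, Matrix.mul_apply, Fin.sum_univ_two]
  · intro h
    have h1 : (!![0, -1; 1, 0] : Matrix (Fin 2) (Fin 2) F) ^ 2 = 1 := congrArg Subtype.val h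
    have h2 := congrFun (congrFun h1 0) 0
    have h3 : (-1 : F) = 1 := by simpa [pow_succ, Matrix.mul_apply, Fin.sum_univ_two] using h2
    apply hF2
    push_cast
    linear_combination -h3

open scoped IsMulCommutative in
theorem main_sp [Fintype F] {n d : ℕ} (ρ : ↥(Matrix.symplecticGroup (Fin n) F) →* GL (Fin d) F) (hρ : Function.Injective ρ) :
    2 * n ≤ d := by
  classical
  rcases Nat.eq_two_pow_or_exists_odd_prime_and_dvd (Fintype.card F + 1) with ⟨k, hk⟩ | ⟨r, hr, hrd, hodd⟩
  · -- the order of the field is `3` modulo `4`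
    have hq : 2 ≤ Fintype.card F := Fintype.one_lt_card
    have hk2 : 2 ≤ k := by
      by_contra hc
      interval_cases k <;> omega
    obtain ⟨k', rfl⟩ := Nat.exists_eq_add_of_le hk2
    have h4 : 4 ∣ Fintype.card F + 1 := ⟨2 ^ k', by rw [hk, pow_add]; norm_num⟩
    have hF2 : ((2 : ℕ) : F) ≠ 0 := ne_zero_of Nat.prime_two (by omega)
    obtain ⟨c, hc4, hc2'⟩ := exists_c hF2
    refine main_even ρ hρ h4 (C := Subgroup.zpowers c) (Subgroup.zpowers c).subtype (Subgroup.zpowers c).subtype_injective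
      ⟨c, Subgroup.mem_zpowers c⟩ ?_ (fun h => hc2' (congrArg Subtype.val h))
    rintro ⟨_, k, rfl⟩
    apply Subtype.ext
    change (c ^ k) ^ 4 = 1
    rw [← zpow_natCast, ← _root_.zpow_mul, mul_comm, _root_.zpow_mul, zpow_natCast, hc4, _root_.one_zpow]
  · haveI : Fact r.Prime := ⟨hr⟩
    haveI : Fintype (SpecialLinearGroup (Fin 2) F) := Fintype.ofFinite _
    obtain ⟨c, hc⟩ := exists_prime_orderOf_dvd_card (G := SpecialLinearGroup (Fin 2) F) r (by
      rw [← Nat.card_eq_fintype_card, TOR.card_G_mul]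
      exact Dvd.dvd.mul_left (Dvd.dvd.mul_right hrd _) _)
    exact main_odd ρ hρ hr hodd hrd (C := Subgroup.zpowers c) (Subgroup.zpowers c).subtype (Subgroup.zpowers c).subtype_injective
      (by rw [Nat.card_zpowers, hc])

end Cfsg.Agent.H15.SPD
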