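import Mathlib
import Cfsg.Agent.H15_UC2
import Cfsg.Agent.H15_SC1

set_option autoImplicit false
open Module Polynomial Matrix

namespace Cfsg.Agent.H15.FM

open Cfsg.Agent.H15.SS

section nd

variable {F : Type*} [Field F] {n : ℕ}

/-- the top coefficient functional -/
noncomputable def topF {P : F[X]} (hP : P.Monic) (n : ℕ) : AdjoinRoot P →ₗ[F] F := (Polynomial.lcoeff F (n - 1)).comp (AdjoinRoot.modByMonicHom hP)

theorem topF_mk {P : F[X]} (hP : P.Monic) (p : F[X]) : topF hP n (AdjoinRoot.mk P p) = (p %ₘ P).coeff (n - 1) := rfl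

theorem topF_low {P : F[X]} (hP : P.Monic) (hn : P.natDegree = n) {p : F[X]} (hp : p.natDegree < n) : topF hP n (AdjoinRoot.mk P p) = p.coeff (n - 1) := by
  rw [topF_mk, (modByMonic_eq_self_iff hP).mpr (by apply degree_lt_degree; rw [hn]; exact hp)]

theorem topF_nd {P : F[X]} (hP : P.Monic) (hn : P.natDegree = n) (hpos : 0 < n) (z : AdjoinRoot P) (hz : ∀ w, topF hP n (w * z) = 0) : z = 0 := by
  by_contra hz0
  obtain ⟨p, rfl⟩ := AdjoinRoot.mk_surjective z
  have hp0 : p %ₘ P ≠ 0 := by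
    intro h
    apply hz0
    rw [AdjoinRoot.mk_eq_zero]
    exact (modByMonic_eq_zero_iff_dvd hP).mp h
  have hlt : (p %ₘ P).natDegree < n := by
    rw [← hn]
    apply Polynomial.natDegree_modByMonic_lt _ hP
    intro h1
    rw [h1, natDegree_one] at hn
    omega
  have h1 := hz (AdjoinRoot.mk P (X ^ (n - 1 - (p %ₘ P).natDegree)))
  have h2 : AdjoinRoot.mk P p = AdjoinRoot.mk P (p %ₘ P) := by
    rw [AdjoinRoot.mk_eq_mk, modByMonic_eq_sub_mul_div]
    rw [sub_sub_cancel]
    exact dvd_mul_right _ _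
  have hdeg : (X ^ (n - 1 - (p %ₘ P).natDegree) * (p %ₘ P)).natDegree = n - 1 := by
    rw [natDegree_X_pow_mul _ hp0]
    omega
  rw [h2, ← map_mul, topF_low hP hn (by rw [hdeg]; omega)] at h1
  have h3 : (X ^ (n - 1 - (p %ₘ P).natDegree) * (p %ₘ P)).leadingCoeff = 0 := by
    rw [leadingCoeff, hdeg]; exact h1
  rw [leadingCoeff_eq_zero] at h3
  rcases mul_eq_zero.mp h3 with h4 | h4
  · exact pow_ne_zero _ X_ne_zero h4
  · exact hp0 h4

end nd

section ex

universe u

variable {F : Type u} [Field F] {σ : F →+* F} {n : ℕ}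

/-- the self-duality condition -/
def SD (σ : F →+* F) (n : ℕ) (P : F[X]) : Prop := ∀ i ≤ n, P.coeff i = (-1) ^ n * σ (P.coeff (n - i))

theorem exists_form [Finite F] (hσ : ∀ a, σ (σ a) = a) (hσ1 : ∃ a, σ a ≠ a) {k : ℕ} {P : F[X]} (hP : P.Monic) (hn : P.natDegree = 2 * k + 2) (hsd : SD σ (2 * k + 2) P) :
    ∃ (V : Type u) (_ : AddCommGroup V) (_ : Module F V) (_ : Module.Finite F V) (B : V → V → F) (g : Module.End F V),
      Frm σ 1 B ∧ (∀ x y, B (g x) (g y) = B x y) ∧ finrank F V = 2 * k + 2 ∧ g.charpoly = P := by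
  haveI : Module.Finite F (AdjoinRoot P) := (AdjoinRoot.powerBasis hP.ne_zero).finite
  haveI : Finite (AdjoinRoot P) := Module.finite_of_finite F
  have htop : P.coeff (2 * k + 2) = 1 := by
    have := hP.coeff_natDegree
    rwa [hn] at this
  have h0 : P.coeff 0 = 1 := by
    rw [hsd 0 (Nat.zero_le _), Nat.sub_zero, htop, map_one, mul_one, Even.neg_one_pow ⟨k + 1, by ring⟩]
  set x : AdjoinRoot P := AdjoinRoot.root P with hx
  have hxmk : x = AdjoinRoot.mk P X := rfl
  have hinv0 : x * (- AdjoinRoot.mk P P.divX) = 1 := by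
    have h1 : AdjoinRoot.mk P (P.divX * X + C (P.coeff 0)) = 0 := by
      rw [Polynomial.divX_mul_X_add, AdjoinRoot.mk_self]
    rw [map_add, map_mul, h0, map_one, map_one, ← hxmk] at h1
    linear_combination -h1
  obtain ⟨m, hm, hxm⟩ : ∃ m, 0 < m ∧ x ^ m = 1 := by
    let u : (AdjoinRoot P)ˣ := ⟨x, _, hinv0, by rw [mul_comm]; exact hinv0⟩
    refine ⟨orderOf u, orderOf_pos u, ?_⟩
    have := congrArg Units.val (pow_orderOf_eq_one u)
    rwa [Units.val_pow_eq_pow_val, Units.val_one] at this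
  have hPm : P ∣ X ^ m - 1 := by
    rw [← AdjoinRoot.mk_eq_mk, map_pow, map_one, ← hxmk, hxm]
  set y : AdjoinRoot P := x ^ (m - 1) with hy
  have hxy : x * y = 1 := by
    rw [hy, ← pow_succ', Nat.sub_add_cancel hm, hxm]
  have hyx : y * x = 1 := by rw [mul_comm, hxy]
  have hyval : y = - AdjoinRoot.mk P P.divX := by
    calc y = y * (x * (- AdjoinRoot.mk P P.divX)) := by rw [hinv0, mul_one]
      _ = (y * x) * (- AdjoinRoot.mk P P.divX) := by rw [mul_assoc]
      _ = _ := by rw [hyx, one_mul]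
  have hxyp : ∀ a b : ℕ, b ≤ a → x ^ a * y ^ b = x ^ (a - b) := by
    intro a b hab
    obtain ⟨c, rfl⟩ := Nat.exists_eq_add_of_le hab
    rw [Nat.add_sub_cancel_left, pow_add, mul_right_comm, ← mul_pow, hxy, one_pow, one_mul]
  -- the bar map on sums
  have hbarsum : ∀ (p : F[X]) (N : ℕ), p.natDegree < N → AdjoinRoot.mk P (bar σ m p) = ∑ i ∈ Finset.range N, AdjoinRoot.mk P (C (σ (p.coeff i))) * y ^ i := by
    intro p N hN
    conv_lhs => rw [p.as_sum_range' N hN]
    rw [map_sum, map_sum]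
    apply Finset.sum_congr rfl
    intro i _
    rw [← C_mul_X_pow_eq_monomial, map_mul, map_pow, bar_C, bar_X, map_mul, map_pow, map_pow, ← hxmk]
  have hmksum : ∀ (p : F[X]) (N : ℕ), p.natDegree < N → AdjoinRoot.mk P p = ∑ i ∈ Finset.range N, AdjoinRoot.mk P (C (p.coeff i)) * x ^ i := by
    intro p N hN
    conv_lhs => rw [p.as_sum_range' N hN]
    rw [map_sum]
    apply Finset.sum_congr rfl
    intro i _
    rw [← C_mul_X_pow_eq_monomial, map_mul, map_pow, ← hxmk]
  have hbarP : P ∣ bar σ m P := by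
    rw [← AdjoinRoot.mk_eq_zero]
    have h1 : x ^ (2 * k + 2) * AdjoinRoot.mk P (bar σ m P) = 0 := by
      rw [hbarsum P (2 * k + 3) (by omega), Finset.mul_sum]
      have h2 := hmksum P (2 * k + 3) (by omega)
      rw [AdjoinRoot.mk_self, ← Finset.sum_range_reflect] at h2
      rw [h2]
      apply Finset.sum_congr rfl
      intro i hi
      have hi' := Finset.mem_range.mp hi
      rw [mul_left_comm, hxyp _ _ (by omega), show 2 * k + 3 - 1 - i = 2 * k + 2 - i by omega]
      congr 3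
      have := hsd (2 * k + 2 - i) (by omega)
      rw [show 2 * k + 2 - (2 * k + 2 - i) = i by omega, Even.neg_one_pow ⟨k + 1, by ring⟩, one_mul] at this
      exact this.symm
    calc AdjoinRoot.mk P (bar σ m P) = y ^ (2 * k + 2) * (x ^ (2 * k + 2) * AdjoinRoot.mk P (bar σ m P)) := by
          rw [← mul_assoc, ← mul_pow, hyx, one_pow, one_mul]
      _ = 0 := by rw [h1, mul_zero]
  have hβ : ∀ p, P ∣ p → P ∣ bar σ m p := by
    rintro _ ⟨c, rfl⟩
    rw [map_mul]
    exact Dvd.dvd.mul_right hbarP _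
  set β := beta σ m hβ with hβd
  have hββ : ∀ v, β (β v) = v := by
    intro v
    obtain ⟨p, rfl⟩ := AdjoinRoot.mk_surjective v
    rw [hβd, beta_mk, beta_mk]
    exact AdjoinRoot.mk_eq_mk.mpr (bar_bar hσ hm hPm p)
  have hβx : β x = y := by
    rw [hxmk, hβd, beta_mk, bar_X, map_pow, ← hxmk]
  have hβy : β y = x := by rw [← hβx, hββ]
  obtain ⟨μ, hμ0, hμ⟩ : ∃ μ : F, μ ≠ 0 ∧ σ μ = -μ := by
    obtain ⟨a, ha⟩ := hσ1
    refine ⟨a - σ a, sub_ne_zero.mpr (Ne.symm ha), ?_⟩
    rw [map_sub, hσ]; ring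
  let lam0 := topF hP (2 * k + 2)
  have hl0 : ∀ i, i ≤ 2 * k → lam0 (x ^ i) = 0 := by
    intro i hi
    rw [hxmk, ← map_pow]
    change topF hP (2 * k + 2) _ = 0
    rw [topF_low hP hn (by rw [natDegree_X_pow]; omega), coeff_X_pow, if_neg (by omega)]
  have hl1 : lam0 y = -1 := by
    rw [hyval, map_neg]
    change - topF hP (2 * k + 2) _ = -1
    rw [topF_low hP hn (by rw [natDegree_divX_eq_natDegree_tsub_one, hn]; omega), coeff_divX, show 2 * k + 2 - 1 + 1 = 2 * k + 2 by omega, htop]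
  let lam : AdjoinRoot P →ₗ[F] F := μ • (lam0.comp (LinearMap.mulLeft F (x ^ k)))
  have hlam : ∀ v, lam v = μ * lam0 (x ^ k * v) := fun v => rfl
  have hC : ∀ (a : F) (v : AdjoinRoot P), AdjoinRoot.mk P (C a) * v = a • v := by
    intro a v
    rw [AdjoinRoot.mk_C, ← AdjoinRoot.algebraMap_eq, Algebra.smul_def]
  have hherm : ∀ v, lam (β v) = σ (lam v) := by
    intro v
    obtain ⟨w, hw⟩ : ∃ w, w = x ^ k * v := ⟨_, rfl⟩
    have hv : v = y ^ k * w := by rw [hw, ← mul_assoc, ← mul_pow, hyx, one_pow, one_mul]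
    obtain ⟨p, hp1, hp2⟩ : ∃ p : F[X], AdjoinRoot.mk P p = w ∧ p.natDegree < 2 * k + 2 := by
      obtain ⟨p, rfl⟩ := AdjoinRoot.mk_surjective w
      refine ⟨p %ₘ P, ?_, ?_⟩
      · rw [AdjoinRoot.mk_eq_mk, modByMonic_eq_sub_mul_div, sub_sub_cancel_left]
        exact (dvd_mul_right _ _).neg_right
      · rw [← hn]
        apply Polynomial.natDegree_modByMonic_lt _ hP
        intro h1
        rw [h1, natDegree_one] at hn
        omega
    rw [hlam, hlam, hv, ← mul_assoc (x ^ k) (y ^ k) w, ← mul_pow x y k, hxy, one_pow, one_mul]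
    rw [map_mul β, map_pow β, hβy, ← mul_assoc, ← pow_add, ← hp1]
    change μ * lam0 (x ^ (k + k) * AdjoinRoot.mk P (bar σ m p)) = σ (μ * topF hP (2 * k + 2) (AdjoinRoot.mk P p))
    rw [hbarsum p _ hp2, Finset.mul_sum, map_sum, topF_low hP hn hp2, map_mul, hμ, Finset.sum_range_succ]
    rw [Finset.sum_eq_zero]
    · rw [zero_add, mul_left_comm, hC, map_smul]
      have h2 : x ^ (k + k) * y ^ (2 * k + 1) = y := by
        rw [pow_succ, ← mul_assoc, ← two_mul, ← mul_pow, hxy, one_pow, one_mul]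
      rw [h2, hl1, show 2 * k + 2 - 1 = 2 * k + 1 by omega, smul_eq_mul]
      ring
    · intro i hi
      have hi' := Finset.mem_range.mp hi
      rw [mul_left_comm, hC, map_smul, hxyp _ _ (by omega), hl0 _ (by omega), smul_zero]
  refine ⟨AdjoinRoot P, inferInstance, inferInstance, inferInstance, fun v w => lam (v * β w), LinearMap.mulLeft F x, ?_, ?_, ?_, ?_⟩
  · refine ⟨?_, ?_, ?_, ?_, ?_⟩
    · intro a b c
      rw [add_mul, map_add]
    · intro a v w
      rw [smul_mul_assoc, map_smul, smul_eq_mul]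
    · intro v w
      rw [one_mul, ← hherm, map_mul β, hββ, mul_comm]
    · intro h
      obtain ⟨a, ha⟩ := hσ1
      exact absurd (h a) ha
    · intro v hv
      have h1 : x ^ k * v = 0 := by
        apply topF_nd hP hn (by omega)
        intro w
        have h2 := hv (β w)
        rw [hββ, hlam] at h2
        have h3 := (mul_eq_zero.mp h2).resolve_left hμ0
        rw [show w * (x ^ k * v) = x ^ k * (v * w) by ring]
        exact h3
      calc v = y ^ k * (x ^ k * v) := by rw [← mul_assoc, ← mul_pow, hyx, one_pow, one_mul]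
        _ = 0 := by rw [h1, mul_zero]
  · intro v w
    change lam (x * v * β (x * w)) = lam (v * β w)
    rw [map_mul β, hβx, show x * v * (y * β w) = (x * y) * (v * β w) by ring, hxy, one_mul]
  · rw [(AdjoinRoot.powerBasis hP.ne_zero).finrank, AdjoinRoot.powerBasis_dim, hn]
  · have h1 := charpoly_leftMulMatrix (AdjoinRoot.powerBasis hP.ne_zero)
    rw [AdjoinRoot.minpoly_powerBasis_gen_of_monic hP, AdjoinRoot.powerBasis_gen] at h1
    rw [Algebra.leftMulMatrix_apply, LinearMap.charpoly_toMatrix] at h1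
    exact h1

/-- `X ^ n`-reverse of the characteristic polynomial of a unitary matrix -/
theorem sd_of_unitary {M : Matrix (Fin n) (Fin n) F} (hM : Mᵀ * M.map σ = 1) (hdet : M.det = 1) : SD σ n M.charpoly := by
  have h1 : M.charpoly.map σ = (-1) ^ n * M.charpoly.reverse := by
    have h2 : (M.map σ)ᵀ * M = 1 := by
      have := congrArg Matrix.transpose hM
      rwa [Matrix.transpose_mul, Matrix.transpose_transpose, Matrix.transpose_one] at this
    have h3 : M⁻¹ = (M.map σ)ᵀ := Matrix.inv_eq_left_inv h2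
    have h4 := Matrix.charpoly_inv M ((Matrix.isUnit_iff_isUnit_det M).mpr (by rw [hdet]; exact isUnit_one))
    rw [hdet, Ring.inverse_one, map_one, mul_one, h3, Matrix.charpoly_transpose, Fintype.card_fin] at h4
    rw [← Matrix.charpoly_map, Matrix.reverse_charpoly]
    exact h4
  intro i hi
  have h2 := congrArg (fun p => p.coeff (n - i)) h1
  simp only [coeff_map] at h2
  rw [h2]
  have h3 : ((-1 : F[X]) ^ n * M.charpoly.reverse).coeff (n - i) = (-1) ^ n * M.charpoly.coeff i := by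
    have : ((-1 : F[X]) ^ n) = C ((-1) ^ n) := by rw [map_pow, map_neg, map_one]
    rw [this, coeff_C_mul, Polynomial.coeff_reverse, Matrix.charpoly_natDegree_eq_dim, Fintype.card_fin, Polynomial.revAt_le (by omega), Nat.sub_sub_self hi]
  rw [h3, ← mul_assoc, ← mul_pow]
  simp

theorem sd_mul {k : ℕ} {P : F[X]} (hP : P.natDegree = 2 * k + 1) (hsd : SD σ (2 * k + 1) P) :
    SD σ (2 * k + 2) (P * (X - 1)) := by
  have hodd : ((-1 : F)) ^ (2 * k + 1) = -1 := Odd.neg_one_pow ⟨k, rfl⟩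
  have heven : ((-1 : F)) ^ (2 * k + 2) = 1 := Even.neg_one_pow ⟨k + 1, by ring⟩
  have hc0 : (P * (X - 1)).coeff 0 = - P.coeff 0 := by
    rw [mul_sub, mul_one, coeff_sub, coeff_mul_X_zero, zero_sub]
  have hcs : ∀ i, (P * (X - 1)).coeff (i + 1) = P.coeff i - P.coeff (i + 1) := by
    intro i
    rw [mul_sub, mul_one, coeff_sub, coeff_mul_X]
  have hbig : P.coeff (2 * k + 2) = 0 := coeff_eq_zero_of_natDegree_lt (by omega)
  intro i hi
  rw [heven, one_mul]
  rcases Nat.eq_zero_or_pos i with h0 | h0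
  · subst h0
    rw [Nat.sub_zero, hc0, hcs, hbig, sub_zero, hsd 0 (Nat.zero_le _), hodd, Nat.sub_zero]
    ring
  · obtain ⟨j, rfl⟩ := Nat.exists_eq_add_of_le' h0
    rw [hcs]
    rcases Nat.eq_or_lt_of_le hi with h1 | h1
    · have hj : j = 2 * k + 1 := by omega
      subst hj
      rw [show 2 * k + 2 - (2 * k + 1 + 1) = 0 by omega, hc0, show 2 * k + 1 + 1 = 2 * k + 2 by rfl, hbig, sub_zero, hsd (2 * k + 1) le_rfl, hodd, Nat.sub_self, map_neg]
      ring
    · rw [show 2 * k + 2 - (j + 1) = (2 * k + 1 - (j + 1)) + 1 by omega, hcs, hsd j (by omega), hsd (j + 1) (by omega), hodd, map_sub,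
        show 2 * k + 1 - (j + 1) + 1 = 2 * k + 1 - j by omega]
      ring

end ex

section tr

universe u

variable {F : Type u} [Field F] [Fintype F] {q : ℕ} (hF : Fintype.card F = q ^ 2) {n : ℕ}

theorem transfer (hF : Fintype.card F = q ^ 2) {V : Type*} [AddCommGroup V] [Module F V] [Module.Finite F V] {B : V → V → F} {g : Module.End F V}
    (hB : Frm (Cfsg.Agent.H5.Fld.frob hF) 1 B) (hg : ∀ x y, B (g x) (g y) = B x y) (hn : finrank F V = n) (h0 : g.charpoly.coeff 0 = (-1) ^ n) :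
    ∃ M : ↥(Cfsg.SU n F q), ((M : Matrix.SpecialLinearGroup (Fin n) F) : Matrix (Fin n) (Fin n) F).charpoly = g.charpoly := by
  have hfr : finrank F (Fin n → F) = n := Module.finrank_fin_fun F
  obtain ⟨e, _, he⟩ := main (Cfsg.Agent.H5.Fld.frob_frob hF) one_ne_zero one_pos (by rw [Nat.cast_one]; exact one_ne_zero) n hB (hermFrm' hF n)
    (g := (1 : Module.End F V)) (h := (1 : Module.End F (Fin n → F))) (fun x y => rfl) (fun x y => rfl) (one_pow 1) (one_pow 1) hn
    (by rw [LinearMap.charpoly_one, LinearMap.charpoly_one, hn, hfr])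
  let M : Matrix (Fin n) (Fin n) F := LinearMap.toMatrix' (e.conj g)
  have hM : ∀ x, M *ᵥ x = e (g (e.symm x)) := by
    intro x
    rw [← Matrix.toLin'_apply, Matrix.toLin'_toMatrix']; rfl
  have hcp : M.charpoly = g.charpoly := by
    rw [← Matrix.charpoly_toLin', Matrix.toLin'_toMatrix', LinearEquiv.charpoly_conj]
  have hdet : M.det = 1 := by
    rw [Matrix.det_eq_sign_charpoly_coeff, hcp, h0, Fintype.card_fin, ← mul_pow]
    simp
  let M0 : Matrix.SpecialLinearGroup (Fin n) F := ⟨M, hdet⟩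
  have hM0 : M0 ∈ Cfsg.SU n F q := by
    intro x y
    change Cfsg.hermForm n F q (M *ᵥ x) (M *ᵥ y) = Cfsg.hermForm n F q x y
    rw [hM, hM, he, hg, ← he, LinearEquiv.apply_symm_apply, LinearEquiv.apply_symm_apply]
  exact ⟨⟨M0, hM0⟩, hcp⟩

theorem su_semi (hF : Fintype.card F = q ^ 2) (p : ℕ) [Fact p.Prime] [CharP F p] (M : ↥(Cfsg.SU n F q)) :
    ∃ M' : ↥(Cfsg.SU n F q), (orderOf M').Coprime p ∧ ((M' : Matrix.SpecialLinearGroup (Fin n) F) : Matrix (Fin n) (Fin n) F).charpoly =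
      ((M : Matrix.SpecialLinearGroup (Fin n) F) : Matrix (Fin n) (Fin n) F).charpoly := by
  obtain ⟨a, ha⟩ := exists_pow_coprime (F := F) p M
  refine ⟨_, ha, ?_⟩
  rw [SubgroupClass.coe_pow, Matrix.SpecialLinearGroup.coe_pow, charpoly_iter']

theorem exists_su (hF : Fintype.card F = q ^ 2) (p : ℕ) [Fact p.Prime] [CharP F p] (hn : 1 ≤ n) {P : F[X]} (hP : P.Monic) (hnd : P.natDegree = n)
    (hsd : SD (Cfsg.Agent.H5.Fld.frob hF) n P) : ∃ M : ↥(Cfsg.SU n F q), (orderOf M).Coprime p ∧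
      ((M : Matrix.SpecialLinearGroup (Fin n) F) : Matrix (Fin n) (Fin n) F).charpoly = P := by
  have hσ := Cfsg.Agent.H5.Fld.frob_frob hF
  have hσ1 := sig_ne hF
  have hcoef : ∀ (N : ℕ) (Q : F[X]), Q.Monic → Q.natDegree = N → SD (Cfsg.Agent.H5.Fld.frob hF) N Q → Q.coeff 0 = (-1) ^ N := by
    intro N Q hQ hN hsdQ
    have h1 := hQ.coeff_natDegree
    rw [hN] at h1
    rw [hsdQ 0 (Nat.zero_le _), Nat.sub_zero, h1, map_one, mul_one]
  have heven : ∀ (k : ℕ) (Q : F[X]), Q.Monic → Q.natDegree = 2 * k + 2 → SD (Cfsg.Agent.H5.Fld.frob hF) (2 * k + 2) Q → ∃ M : ↥(Cfsg.SU (2 * k + 2) F q), (orderOf M).Coprime p ∧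
      ((M : Matrix.SpecialLinearGroup (Fin (2 * k + 2)) F) : Matrix (Fin (2 * k + 2)) (Fin (2 * k + 2)) F).charpoly = Q := by
    intro k Q hQ hQn hQs
    obtain ⟨V, _, _, _, B, g, hB, hg, hV, hgc⟩ := exists_form hσ hσ1 hQ hQn hQs
    obtain ⟨M, hM⟩ := transfer hF hB hg hV (by rw [hgc]; exact hcoef _ Q hQ hQn hQs)
    obtain ⟨M', h1, h2⟩ := su_semi hF p M
    exact ⟨M', h1, by rw [h2, hM, hgc]⟩
  rcases Nat.even_or_odd n with ⟨k', hk'⟩ | ⟨k, hk⟩
  · obtain ⟨k, rfl⟩ : ∃ k, k' = k + 1 := ⟨k' - 1, by omega⟩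
    obtain rfl : n = 2 * k + 2 := by omega
    exact heven k P hP hnd hsd
  · subst hk
    have hQm : (P * (X - 1)).Monic := hP.mul (by simpa using monic_X_sub_C (1 : F))
    have hQd : (P * (X - 1)).natDegree = 2 * k + 2 := by
      rw [hP.natDegree_mul (by simpa using monic_X_sub_C (1 : F)), hnd]
      have : (X - 1 : F[X]).natDegree = 1 := by simpa using natDegree_X_sub_C (1 : F)
      rw [this]
    obtain ⟨M, hM1, hM2⟩ := heven k (P * (X - 1)) hQm hQd (sd_mul hnd hsd)
    have hp : p.Prime := Fact.out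
    have hm0 : orderOf M ≠ 0 := by
      intro h0
      rw [h0, Nat.coprime_zero_left] at hM1
      exact hp.one_lt.ne' hM1
    have hm : 0 < orderOf M := Nat.pos_of_ne_zero hm0
    have hmF : ((orderOf M : ℕ) : F) ≠ 0 := by
      intro h0
      rw [CharP.cast_eq_zero_iff F p] at h0
      exact hp.one_lt.ne' (Nat.Coprime.eq_one_of_dvd hM1.symm h0)
    set g : Module.End F (Fin (2 * k + 2) → F) := Matrix.toLin' ((M : Matrix.SpecialLinearGroup (Fin (2 * k + 2)) F) : Matrix (Fin (2 * k + 2)) (Fin (2 * k + 2)) F) with hgd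
    have hgm : g ^ orderOf M = 1 := by
      have h1 := (map_pow (Matrix.toLinAlgEquiv' : Matrix (Fin (2 * k + 2)) (Fin (2 * k + 2)) F ≃ₐ[F] _) ((M : Matrix.SpecialLinearGroup (Fin (2 * k + 2)) F) : Matrix (Fin (2 * k + 2)) (Fin (2 * k + 2)) F) (orderOf M)).symm
      rw [← Matrix.SpecialLinearGroup.coe_pow, ← SubgroupClass.coe_pow, pow_orderOf_eq_one] at h1
      rw [hgd]
      refine Eq.trans h1 ?_
      exact Matrix.toLin'_one
    have hgc : g.charpoly = P * (X - 1) := by rw [hgd, Matrix.charpoly_toLin', hM2]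
    have hg : ∀ x y, Cfsg.hermForm (2 * k + 2) F q (g x) (g y) = Cfsg.hermForm (2 * k + 2) F q x y := fun x y => M.2 x y
    have hB := hermFrm' hF (2 * k + 2)
    have hf : Irreducible (X - C 1 : F[X]) := irreducible_X_sub_C 1
    have hfm : (X - C 1 : F[X]) ∣ X ^ orderOf M - 1 := by
      rw [map_one]
      simpa using sub_dvd_pow_sub_pow (X : F[X]) 1 (orderOf M)
    obtain ⟨f', hf', hd⟩ := exists_dual hσ hm hf hfm
    have hff : f' ∣ X - C 1 := by
      rw [← hd, map_sub, bar_X, bar_C, map_one, map_one]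
      simpa using sub_dvd_pow_sub_pow (X : F[X]) 1 (orderOf M - 1)
    have hnt : ∃ c, ¬ (X - C 1 : F[X]) ∣ bar (Cfsg.Agent.H5.Fld.frob hF) (orderOf M) c - c := by
      obtain ⟨a, ha⟩ := hσ1
      refine ⟨C a, ?_⟩
      rw [bar_C, ← map_sub]
      intro h1
      have h2 : IsUnit (C (Cfsg.Agent.H5.Fld.frob hF a - a)) := isUnit_C.mpr (Ne.isUnit (sub_ne_zero.mpr ha))
      exact hf.not_isUnit (isUnit_of_dvd_unit h1 h2)
    obtain ⟨v, hv, hfv⟩ := exists_ker (g := g) hf (by rw [hgc, map_one]; exact dvd_mul_left _ _)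
    obtain ⟨x, hfx, r, hr⟩ := exists_aniso hB hσ hg hm hgm hmF hf hf' hd hfm one_ne_zero hff hnt hv hfv
    rw [eig (dvd_refl _) hfx, hB.smul_left] at hr
    have hxx : Cfsg.hermForm (2 * k + 2) F q x x ≠ 0 := right_ne_zero_of_mul hr
    have hx0 : x ≠ 0 := by
      rintro rfl
      exact hxx (hB.zero_left _)
    have hgx : g x = x := by
      rw [map_sub, aeval_X, aeval_C, map_one, LinearMap.sub_apply, sub_eq_zero] at hfx
      exact hfx
    let U : Submodule F (Fin (2 * k + 2) → F) := Submodule.span F {x}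
    have hUnd : ∀ z ∈ U, (∀ y ∈ U, Cfsg.hermForm (2 * k + 2) F q z y = 0) → z = 0 := by
      intro z hz h1
      obtain ⟨c, rfl⟩ := Submodule.mem_span_singleton.mp hz
      have h2 := h1 x (Submodule.mem_span_singleton_self x)
      rw [hB.smul_left] at h2
      rw [(mul_eq_zero.mp h2).resolve_right hxx, zero_smul]
    have hUg : ∀ z ∈ U, g z = z := by
      intro z hz
      obtain ⟨c, rfl⟩ := Submodule.mem_span_singleton.mp hz
      rw [map_smul, hgx]
    have hUinv : ∀ z ∈ U, g z ∈ U := fun z hz => by rw [hUg z hz]; exact hz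
    have hcompl := perp_compl hB hσ U hUnd
    have hPinv := perp_inv hB hσ hg hm hgm U hUinv
    have e1 := charpoly_split g hcompl hUinv hPinv
    have hfinU : finrank F U = 1 := finrank_span_singleton hx0
    have e2 : (g.restrict hUinv).charpoly = X - 1 := by
      have h3 : g.restrict hUinv = 1 := by
        apply LinearMap.ext
        intro z
        apply Subtype.ext
        rw [LinearMap.restrict_coe_apply, hUg z z.2]; rfl
      rw [h3, LinearMap.charpoly_one, hfinU, pow_one]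
    rw [e2, hgc, mul_comm] at e1
    have hX1 : (X - 1 : F[X]) ≠ 0 := by
      have := X_sub_C_ne_zero (1 : F)
      rwa [map_one] at this
    have e3 := mul_left_cancel₀ hX1 e1
    have hfinP : finrank F (perp hB hσ U) = 2 * k + 1 := by
      have h1 := Submodule.finrank_add_eq_of_isCompl hcompl
      rw [hfinU, Module.finrank_fin_fun] at h1
      omega
    obtain ⟨M2, hM2'⟩ := transfer hF (frm_restrict hB hσ U hUnd) (g := g.restrict hPinv) (fun x y => hg x y) hfinP (by
      rw [← e3]; exact hcoef _ P hP hnd hsd)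
    obtain ⟨M', h1, h2⟩ := su_semi hF p M2
    exact ⟨M', h1, by rw [h2, hM2', ← e3]⟩

end tr

end Cfsg.Agent.H15.FM
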