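import Mathlib
import Cfsg.Agent.H15_UC3

set_option autoImplicit false
open Module Polynomial Matrix

namespace Cfsg.Agent.H15.FM

open Cfsg.Agent.H15.SS

/-- fixed points of a semilinear involution -/
theorem card_fix {F : Type*} [Field F] {σ : F →+* F} (hσ : ∀ a, σ (σ a) = a) (hσ1 : ∃ a, σ a ≠ a) {V : Type*} [AddCommGroup V] [Module F V] [Finite V]
    (θ : V →+ V) (hθ : ∀ v, θ (θ v) = v) (hs : ∀ (c : F) v, θ (c • v) = σ c • θ v) :
    Nat.card {v : V // θ v = v} ^ 2 = Nat.card V := by
  obtain ⟨a, ha⟩ := hσ1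
  have ha' : a - σ a ≠ 0 := sub_ne_zero.mpr (Ne.symm ha)
  let T : V →+ V := AddMonoidHom.id V + θ
  have hT : ∀ v, T v = v + θ v := fun v => rfl
  have hrange : ∀ v, v ∈ T.range ↔ θ v = v := by
    intro v
    constructor
    · rintro ⟨w, rfl⟩
      rw [hT, map_add, hθ, add_comm]
    · intro h
      refine ⟨(a / (a - σ a)) • v, ?_⟩
      rw [hT, hs, h, ← add_smul]
      have : a / (a - σ a) + σ (a / (a - σ a)) = 1 := by
        rw [map_div₀, map_sub, hσ]
        have h2 : σ a - a ≠ 0 := sub_ne_zero.mpr ha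
        field_simp
        ring
      rw [this, one_smul]
  have hker : ∀ v, v ∈ T.ker ↔ θ v = -v := by
    intro v
    rw [AddMonoidHom.mem_ker, hT]
    constructor
    · intro h; exact eq_neg_of_add_eq_zero_right h
    · intro h; rw [h, add_neg_cancel]
  have c1 : Nat.card T.ker * Nat.card T.range = Nat.card V := by
    rw [← AddSubgroup.index_ker, AddSubgroup.card_mul_index]
  have c2 : Nat.card T.range = Nat.card {v : V // θ v = v} :=
    Nat.card_congr (Equiv.subtypeEquivRight hrange)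
  have hμ : σ (a - σ a) = -(a - σ a) := by rw [map_sub, hσ]; ring
  have c3 : Nat.card T.ker = Nat.card {v : V // θ v = v} := by
    apply Nat.card_congr
    refine ⟨fun v => ⟨(a - σ a)⁻¹ • (v : V), ?_⟩, fun v => ⟨(a - σ a) • (v : V), ?_⟩, ?_, ?_⟩
    · rw [hs, map_inv₀, hμ, (hker v).mp v.2, inv_neg, neg_smul_neg]
    · rw [hker, hs, hμ, v.2, neg_smul]
    · intro v
      apply Subtype.ext
      exact smul_inv_smul₀ ha' _
    · intro v
      apply Subtype.ext
      exact inv_smul_smul₀ ha' _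
  rw [c2, c3] at c1
  rw [sq]; exact c1

section count

variable {F : Type*} [Field F] [Fintype F] {q : ℕ} (hF : Fintype.card F = q ^ 2)

/-- the involution on coefficient tuples -/
def theta (σ : F →+* F) (m : ℕ) : (Fin m → F) →+ (Fin m → F) where
  toFun a i := (-1) ^ (m + 1) * σ (a (Fin.rev i))
  map_zero' := by
    funext i
    simp
  map_add' a b := by
    funext i
    simp [mul_add]

theorem theta_apply (σ : F →+* F) (m : ℕ) (a : Fin m → F) (i : Fin m) : theta σ m a i = (-1) ^ (m + 1) * σ (a (Fin.rev i)) := rfl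

theorem card_theta (hF : Fintype.card F = q ^ 2) (m : ℕ) : Nat.card {a : Fin m → F // theta (Cfsg.Agent.H5.Fld.frob hF) m a = a} = q ^ m := by
  have h := card_fix (Cfsg.Agent.H5.Fld.frob_frob hF) (sig_ne hF) (theta (Cfsg.Agent.H5.Fld.frob hF) m) (by
    intro a
    funext i
    rw [theta_apply, theta_apply, Fin.rev_rev, map_mul, Cfsg.Agent.H5.Fld.frob_frob, map_pow, map_neg, map_one, ← mul_assoc, ← mul_pow]
    simp) (by
    intro c v
    funext i
    rw [theta_apply, Pi.smul_apply, Pi.smul_apply, theta_apply, smul_eq_mul, smul_eq_mul, map_mul]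
    ring)
  rw [Nat.card_fun, Nat.card_eq_fintype_card (α := F), Nat.card_eq_fintype_card (α := Fin m), Fintype.card_fin, hF, ← pow_mul, mul_comm, pow_mul] at h
  exact Nat.pow_left_injective (n := 2) (by norm_num) h

theorem su_coef {m : ℕ} (M : ↥(Cfsg.SU (m + 1) F q)) :
    SD (Cfsg.Agent.H5.Fld.frob hF) (m + 1) ((M : Matrix.SpecialLinearGroup (Fin (m + 1)) F) : Matrix (Fin (m + 1)) (Fin (m + 1)) F).charpoly := by
  apply sd_of_unitary _ (M : Matrix.SpecialLinearGroup (Fin (m + 1)) F).2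
  have hq := q_ge hF
  set E : Matrix (Fin (m + 1)) (Fin (m + 1)) F := ((M : Matrix.SpecialLinearGroup (Fin (m + 1)) F) : Matrix (Fin (m + 1)) (Fin (m + 1)) F) with hEd
  have hE : ∀ x y, Cfsg.hermForm (m + 1) F q (E *ᵥ x) (E *ᵥ y) = Cfsg.hermForm (m + 1) F q x y := fun x y => M.2 x y
  ext i j
  have := hE (Pi.single i 1) (Pi.single j 1)
  rw [Matrix.mul_apply]
  have e1 : ∀ i, E *ᵥ (Pi.single i 1) = fun k => E k i := by
    intro i
    rw [Matrix.mulVec_single_one]
    rfl
  rw [e1, e1, Cfsg.hermForm, Cfsg.hermForm] at this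
  simp only [Matrix.transpose_apply, Matrix.map_apply, Cfsg.Agent.H5.Fld.frob_apply]
  rw [this, Matrix.one_apply]
  split_ifs with h
  · subst h
    rw [Finset.sum_eq_single i]
    · simp
    · intro k _ hk
      rw [Pi.single_eq_of_ne hk, zero_mul]
    · intro h; exact absurd (Finset.mem_univ i) h
  · apply Finset.sum_eq_zero
    intro k _
    by_cases hk : k = i
    · subst hk
      have h0 : (Pi.single j (1 : F) : Fin (m + 1) → F) k = 0 := Pi.single_eq_of_ne h _
      rw [h0, zero_pow (by omega), mul_zero]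
    · rw [Pi.single_eq_of_ne hk, zero_mul]

theorem su_count (hF : Fintype.card F = q ^ 2) (p : ℕ) [Fact p.Prime] [CharP F p] (n : ℕ) (hn : 1 ≤ n) :
    Nat.card {c : ConjClasses ↥(Cfsg.SU n F q) // ∃ g : ↥(Cfsg.SU n F q), ConjClasses.mk g = c ∧ (orderOf g).Coprime p} = q ^ (n - 1) := by
  classical
  obtain ⟨m, rfl⟩ := Nat.exists_eq_add_of_le' hn
  rw [Nat.add_sub_cancel, ← card_theta hF m]
  have hdeg : ∀ M : ↥(Cfsg.SU (m + 1) F q), ((M : Matrix.SpecialLinearGroup (Fin (m + 1)) F) : Matrix (Fin (m + 1)) (Fin (m + 1)) F).charpoly.natDegree = m + 1 := by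
    intro M
    rw [Matrix.charpoly_natDegree_eq_dim, Fintype.card_fin]
  have htop : ∀ M : ↥(Cfsg.SU (m + 1) F q), ((M : Matrix.SpecialLinearGroup (Fin (m + 1)) F) : Matrix (Fin (m + 1)) (Fin (m + 1)) F).charpoly.coeff (m + 1) = 1 := by
    intro M
    have := ((M : Matrix.SpecialLinearGroup (Fin (m + 1)) F) : Matrix (Fin (m + 1)) (Fin (m + 1)) F).charpoly_monic.coeff_natDegree
    rwa [hdeg] at this
  apply le_antisymm
  · choose rep hrep1 hrep2 using fun c : {c : ConjClasses ↥(Cfsg.SU (m + 1) F q) // ∃ g : ↥(Cfsg.SU (m + 1) F q), ConjClasses.mk g = c ∧ (orderOf g).Coprime p} => c.2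
    apply Nat.card_le_card_of_injective (fun c => (⟨fun i : Fin m => ((rep c : Matrix.SpecialLinearGroup (Fin (m + 1)) F) : Matrix (Fin (m + 1)) (Fin (m + 1)) F).charpoly.coeff (i + 1), by
      funext i
      rw [theta_apply]
      have := su_coef hF (rep c) (i + 1) (by omega)
      rw [this]
      congr 3
      rw [Fin.val_rev]
      omega⟩ : {a : Fin m → F // theta (Cfsg.Agent.H5.Fld.frob hF) m a = a}))
    intro c d hcd
    apply Subtype.ext
    rw [← hrep1, ← hrep1, ConjClasses.mk_eq_mk_iff_isConj]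
    apply su_conj hF p _ _ (hrep2 c) (hrep2 d)
    have h1 := congrArg Subtype.val hcd
    ext i
    rcases Nat.eq_zero_or_pos i with h0 | h0
    · subst h0
      rw [su_coef hF (rep c) 0 (Nat.zero_le _), su_coef hF (rep d) 0 (Nat.zero_le _), Nat.sub_zero, htop, htop]
    · rcases lt_trichotomy i (m + 1) with h2 | h2 | h2
      · have := congrFun h1 ⟨i - 1, by omega⟩
        simp only at this
        rwa [show i - 1 + 1 = i by omega] at this
      · rw [h2, htop, htop]
      · rw [coeff_eq_zero_of_natDegree_lt (by rw [hdeg]; exact h2), coeff_eq_zero_of_natDegree_lt (by rw [hdeg]; exact h2)]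
  · have hex : ∀ a : {a : Fin m → F // theta (Cfsg.Agent.H5.Fld.frob hF) m a = a}, ∃ M : ↥(Cfsg.SU (m + 1) F q), (orderOf M).Coprime p ∧
        ((M : Matrix.SpecialLinearGroup (Fin (m + 1)) F) : Matrix (Fin (m + 1)) (Fin (m + 1)) F).charpoly = mpoly (Fin.cons ((-1) ^ (m + 1)) a.1 : Fin (m + 1) → F) := by
      rintro ⟨a, ha⟩
      apply exists_su hF p hn (mpoly_monic _) (mpoly_natDegree _)
      have hc0 : (mpoly (Fin.cons ((-1) ^ (m + 1)) a : Fin (m + 1) → F)).coeff 0 = (-1) ^ (m + 1) :=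
        mpoly_coeff (Fin.cons ((-1) ^ (m + 1)) a : Fin (m + 1) → F) 0
      have hcs : ∀ i : Fin m, (mpoly (Fin.cons ((-1) ^ (m + 1)) a : Fin (m + 1) → F)).coeff (i + 1) = a i := fun i =>
        mpoly_coeff (Fin.cons ((-1) ^ (m + 1)) a : Fin (m + 1) → F) i.succ
      have hct : (mpoly (Fin.cons ((-1) ^ (m + 1)) a : Fin (m + 1) → F)).coeff (m + 1) = 1 := by
        have := (mpoly_monic (Fin.cons ((-1) ^ (m + 1)) a : Fin (m + 1) → F)).coeff_natDegree
        rwa [mpoly_natDegree] at this
      intro i hi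
      rcases Nat.eq_zero_or_pos i with h0 | h0
      · subst h0
        rw [Nat.sub_zero, hc0, hct, map_one, mul_one]
      · rcases Nat.eq_or_lt_of_le hi with h1 | h1
        · subst h1
          rw [Nat.sub_self, hc0, hct, map_pow, map_neg, map_one, ← mul_pow]
          simp
        · have e1 := hcs ⟨i - 1, by omega⟩
          have e2 := hcs (Fin.rev ⟨i - 1, by omega⟩)
          simp only [Fin.val_rev] at e1 e2
          rw [show i - 1 + 1 = i by omega] at e1
          rw [show m - (i - 1 + 1) + 1 = m + 1 - i by omega] at e2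
          rw [e1, e2]
          have := congrFun ha ⟨i - 1, by omega⟩
          rw [theta_apply] at this
          exact this.symm
    choose T hT1 hT2 using hex
    apply Nat.card_le_card_of_injective (fun a => (⟨ConjClasses.mk (T a), T a, rfl, hT1 a⟩ : {c : ConjClasses ↥(Cfsg.SU (m + 1) F q) //
      ∃ g : ↥(Cfsg.SU (m + 1) F q), ConjClasses.mk g = c ∧ (orderOf g).Coprime p}))
    intro a b hab
    have h1 := congrArg Subtype.val hab
    change ConjClasses.mk (T a) = ConjClasses.mk (T b) at h1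
    rw [ConjClasses.mk_eq_mk_iff_isConj, isConj_iff] at h1
    obtain ⟨c, hc⟩ := h1
    have h2 : ((T b : Matrix.SpecialLinearGroup (Fin (m + 1)) F) : Matrix (Fin (m + 1)) (Fin (m + 1)) F).charpoly = ((T a : Matrix.SpecialLinearGroup (Fin (m + 1)) F) : Matrix (Fin (m + 1)) (Fin (m + 1)) F).charpoly := by
      have h3 := Matrix.charpoly_units_conj (Matrix.SpecialLinearGroup.toGL (c : Matrix.SpecialLinearGroup (Fin (m + 1)) F)) ((T a : Matrix.SpecialLinearGroup (Fin (m + 1)) F) : Matrix (Fin (m + 1)) (Fin (m + 1)) F)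
      rw [← Matrix.coe_units_inv, ← map_inv] at h3
      rw [← hc]
      exact h3
    rw [hT2, hT2] at h2
    have h3 := Fin.cons_injective2 (mpoly_inj h2)
    exact Subtype.ext h3.2.symm

end count

end Cfsg.Agent.H15.FM
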