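import Cfsg.Agent.H16_CjS
import Cfsg.Agent.H5_FrmInst
import Cfsg.Agent.H5_Concrete
import Cfsg.Agent.H16_Quad1

set_option autoImplicit false

/-! Conjugacy of isometries of quadratic forms. -/

namespace Cfsg.Agent.H16.CjS

open Module

variable {F : Type*} [Field F] {V : Type*} [AddCommGroup V] [Module F V] [FiniteDimensional F V]

/-- semisimple isometries of odd order. -/
theorem main_quad [Finite F] {Q : QuadraticForm F V} (hQ : (QuadraticMap.polarBilin Q).Nondegenerate)
    {A B P : V ≃ₗ[F] V} (hA : ∀ x, Q (A x) = Q x) (hB : ∀ x, Q (B x) = Q x) (hss : Module.End.IsSemisimple (A : End F V))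
    {k : ℕ} (hk : Odd k) (hAk : (A : End F V) ^ k = 1) (hP : ∀ x, P (A x) = B (P x)) :
    ∃ g : V ≃ₗ[F] V, (∀ x, Q (g x) = Q x) ∧ ∀ x, g (A x) = B (g x) := by
  have hfin : Finite V := Module.finite_of_finite F
  -- the forms
  let C : LinearMap.BilinForm F V := QuadraticMap.polarBilin Q
  let Q' : QuadraticForm F V := Q.comp (P : V →ₗ[F] V)
  let C' : LinearMap.BilinForm F V := QuadraticMap.polarBilin Q'
  have hQ'a : ∀ x, Q' x = Q (P x) := fun x => rfl
  have hCa : ∀ x y, C x y = Q (x + y) - Q x - Q y := fun x y => rfl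
  have hC'a : ∀ x y, C' x y = C (P x) (P y) := by
    intro x y
    change Q (P (x + y)) - Q (P x) - Q (P y) = Q (P x + P y) - Q (P x) - Q (P y)
    rw [_root_.map_add P]
  have hCs : ∀ x y, C y x = 1 * C x y := by
    intro x y
    rw [hCa, hCa, add_comm]; ring
  have hC's : ∀ x y, C' y x = 1 * C' x y := by
    intro x y
    rw [hC'a, hC'a, hCs]
  have hCn : Nd C := fun x hx => hQ.1 x hx
  have hC'n : Nd C' := by
    intro x hx
    have h1 : P x = 0 := by
      apply hCn
      intro y
      obtain ⟨z, rfl⟩ := P.surjective y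
      rw [← hC'a]
      exact hx z
    rwa [LinearEquiv.map_eq_zero_iff] at h1
  have hAC : ∀ x y, C (A x) (A y) = C x y := by
    intro x y
    rw [hCa, hCa, ← _root_.map_add, hA, hA, hA]
  have hQ'A : ∀ x, Q' (A x) = Q' x := by
    intro x
    rw [hQ'a, hP, hB, hQ'a]
  have hAC' : ∀ x y, C' (A x) (A y) = C' x y := by
    intro x y
    rw [hC'a, hC'a, hP, hP, hCa, hCa, ← _root_.map_add, hB, hB, hB]
  -- the decomposition
  obtain ⟨N, hN⟩ : ∃ N : End F V, N = (A : End F V) - algebraMap F (End F V) 1 := ⟨_, rfl⟩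
  have hNa : ∀ x, N x = A x - x := by
    intro x
    rw [hN, _root_.map_one]
    rfl
  have hNs : N.IsSemisimple := by rw [hN]; exact Module.End.isSemisimple_sub_algebraMap_iff.mpr hss
  have hc := ss_disj hNs
  have hU : ∀ u ∈ LinearMap.ker N, A u = u := by
    intro u hu
    rw [LinearMap.mem_ker, hNa, sub_eq_zero] at hu
    exact hu
  have horth : ∀ D : LinearMap.BilinForm F V, (∀ x y, D y x = 1 * D x y) → (∀ x y, D (A x) (A y) = D x y) → ∀ u ∈ LinearMap.ker N,
      ∀ w ∈ LinearMap.range N, D u w = 0 ∧ D w u = 0 := by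
    rintro D hD hAD u hu _ ⟨z, rfl⟩
    have h1 : D u (N z) = 0 := by
      have h2 := hAD u z
      rw [hU u hu] at h2
      rw [hNa, _root_.map_sub, h2, sub_self]
    exact ⟨h1, by rw [hD, h1, mul_zero]⟩
  have hAr : ∀ w ∈ LinearMap.range N, A w ∈ LinearMap.range N := by
    rintro _ ⟨z, rfl⟩
    refine ⟨A z, ?_⟩
    rw [hNa, hNa, _root_.map_sub]
  have o1 := horth C hCs hAC
  have o2 := horth C' hC's hAC'
  obtain ⟨W, hW⟩ : ∃ W, W = LinearMap.range N := ⟨_, rfl⟩
  rw [← hW] at hc hAr o1 o2
  have n1 : Nd (C.restrict W) := nd_left hCn hc.symm fun w hw u hu => (o1 u hu w hw).2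
  have n2 : Nd (C'.restrict W) := nd_left hC'n hc.symm fun w hw u hu => (o2 u hu w hw).2
  have hinjA : Function.Injective ((A : End F V).restrict hAr) := by
    rw [injective_iff_map_eq_zero]
    intro x hx
    have e2 : A (x : V) = 0 := congrArg (fun z : W => (z : V)) hx
    rw [LinearEquiv.map_eq_zero_iff] at e2
    exact Subtype.ext e2
  let AW : W ≃ₗ[F] W := LinearEquiv.ofBijective ((A : End F V).restrict hAr) (Finite.injective_iff_bijective.mp hinjA)
  have hAW : ∀ x : W, ((AW x : W) : V) = A x := fun x => rfl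
  have hfix : ∀ x : W, A (x : V) = x → x = 0 := by
    intro x hx
    apply Subtype.ext
    apply (Submodule.disjoint_def.mp hc.disjoint) _ _ x.2
    rw [LinearMap.mem_ker, hNa, hx, sub_self]
  obtain ⟨c, hc1, hc2⟩ := root (ε := (1 : F)) n1 n2 one_ne_zero (fun x y => hCs _ _) (fun x y => hC's _ _) AW
    (fun x y => hAC _ _) (fun x y => hAC' _ _) (by
    intro x hx
    have e1 : A (A (x : V)) = x := by
      have e2 := congrArg AW hx
      rw [LinearEquiv.apply_symm_apply] at e2
      exact congrArg Subtype.val e2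
    apply hfix
    obtain ⟨j, hj⟩ := hk
    have e3 : ∀ i : ℕ, ((A : End F V) ^ (2 * i)) (x : V) = x := by
      intro i
      induction i with
      | zero => rfl
      | succ i ih =>
        rw [show 2 * (i + 1) = 2 * i + 2 by ring, pow_add, Module.End.mul_apply]
        have e4 : ((A : End F V) ^ 2) (x : V) = x := by
          rw [pow_two]
          exact e1
        rw [e4, ih]
    have e5 := LinearMap.congr_fun hAk (x : V)
    rw [hj, pow_succ', Module.End.mul_apply, e3] at e5
    exact e5)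
  -- equality of the quadratic forms
  have hQc : ∀ x : W, Q' (x : V) = Q ((c x : W) : V) := by
    have hDadd : ∀ x y : W, Q' ((x : V) + y) - Q ((c x : V) + c y) =
        (Q' (x : V) - Q (c x : V)) + (Q' (y : V) - Q (c y : V)) := by
      intro x y
      have h1 : C' (x : V) y = C (c x : V) (c y) := hc2 x y
      have h2 : C' (x : V) y = Q' ((x : V) + y) - Q' (x : V) - Q' (y : V) := rfl
      rw [h2, hCa] at h1
      linear_combination h1
    intro x
    -- `x = A z - z`
    have hinj2 : Function.Injective (AW.toLinearMap - 1 : End F W) := by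
      rw [injective_iff_map_eq_zero]
      intro y hy
      apply hfix
      have h1 : AW y - y = 0 := hy
      have h2 := congrArg Subtype.val (sub_eq_zero.mp h1)
      rwa [hAW] at h2
    obtain ⟨z, hz⟩ := (Finite.injective_iff_bijective.mp hinj2).2 x
    have hz' : x = AW z - z := hz.symm
    have h3 := hDadd (AW z) (-z)
    have e1 : ((AW z : W) : V) + ((-z : W) : V) = (x : V) := by
      rw [hz', Submodule.coe_neg, Submodule.coe_sub, sub_eq_add_neg]
    have e2 : ((c (AW z) : W) : V) + ((c (-z) : W) : V) = (c x : V) := by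
      rw [hz', ← Submodule.coe_add, ← _root_.map_add, sub_eq_add_neg]
    have e3 : Q' ((AW z : W) : V) = Q' (z : V) := hQ'A z
    have e4 : Q ((c (AW z) : W) : V) = Q (c z : V) := by
      rw [hc1, hAW, hA]
    have e5 : Q' ((-z : W) : V) = Q' (z : V) := by rw [Submodule.coe_neg, QuadraticMap.map_neg]
    have e6 : Q ((c (-z) : W) : V) = Q (c z : V) := by rw [_root_.map_neg, Submodule.coe_neg, QuadraticMap.map_neg]
    have h4 := hDadd z (-z)
    have e7 : (z : V) + ((-z : W) : V) = 0 := by rw [Submodule.coe_neg, add_neg_cancel]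
    have e8 : ((c z : W) : V) + ((c (-z) : W) : V) = 0 := by rw [_root_.map_neg, Submodule.coe_neg, add_neg_cancel]
    rw [e7, e8, QuadraticMap.map_zero, QuadraticMap.map_zero, e5, e6] at h4
    rw [e1, e2, e3, e4, e5, e6] at h3
    linear_combination h3 - h4
  -- Witt
  let f : V →ₗ[F] V := (P : V →ₗ[F] V) ∘ₗ W.subtype ∘ₗ (c.symm : W →ₗ[F] W) ∘ₗ (Submodule.projectionOnto W (LinearMap.ker N) hc.symm)
  have hf : ∀ x : W, f (x : V) = P (c.symm x : V) := by
    intro x
    change P (c.symm (Submodule.projectionOnto W (LinearMap.ker N) hc.symm (x : V)) : V) = _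
    rw [Submodule.projectionOnto_apply_left]
  obtain ⟨g, hg, hgx⟩ := H5.Frm.witt (A := H5.Frm.ofQuad Q) hCn (finrank F W) W rfl f (by
    intro x hx y hy
    have h1 := hc2 (c.symm ⟨x, hx⟩) (c.symm ⟨y, hy⟩)
    rw [LinearEquiv.apply_symm_apply, LinearEquiv.apply_symm_apply] at h1
    rw [hf ⟨x, hx⟩, hf ⟨y, hy⟩]
    have h2 : C' (c.symm ⟨x, hx⟩ : V) (c.symm ⟨y, hy⟩ : V) = C x y := h1
    rw [hC'a] at h2
    exact h2) (by
    intro x hx
    rw [hf ⟨x, hx⟩]
    have h1 := hQc (c.symm ⟨x, hx⟩)
    rw [LinearEquiv.apply_symm_apply] at h1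
    exact h1) (by
    intro x hx h
    rw [hf ⟨x, hx⟩, LinearEquiv.map_eq_zero_iff] at h
    have h1 : c.symm ⟨x, hx⟩ = 0 := Subtype.ext h
    rw [LinearEquiv.map_eq_zero_iff] at h1
    exact congrArg Subtype.val h1)
  have hgx' : ∀ x : W, g (x : V) = P (c.symm x : V) := fun x => (hgx x x.2).trans (hf x)
  refine ⟨g, hg.2, ?_⟩
  intro x
  have hx : x ∈ LinearMap.ker N ⊔ W := by rw [hc.sup_eq_top]; trivial
  obtain ⟨u, hu, w, hw, rfl⟩ := Submodule.mem_sup.mp hx
  have hw1 : g (A w) = B (g w) := by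
    have h1 := hgx' (AW ⟨w, hw⟩)
    have h2 := hgx' ⟨w, hw⟩
    have h3 : c.symm (AW ⟨w, hw⟩) = AW (c.symm ⟨w, hw⟩) := by
      apply c.injective
      rw [LinearEquiv.apply_symm_apply, hc1, LinearEquiv.apply_symm_apply]
    rw [h3, hAW, hAW, hP] at h1
    change g w = _ at h2
    rw [h2]
    exact h1
  have hu1 : g (A u) = B (g u) := by
    rw [hU u hu]
    obtain ⟨z, hz⟩ := P.surjective (g u)
    have hz2 : z ∈ LinearMap.ker N := by
      have hz3 : z ∈ LinearMap.ker N ⊔ W := by rw [hc.sup_eq_top]; trivial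
      obtain ⟨u', hu', w', hw', rfl⟩ := Submodule.mem_sup.mp hz3
      have h4 : (⟨w', hw'⟩ : W) = 0 := by
        apply n2
        intro y
        change C' w' (y : V) = 0
        have h5 : C' (u' + w') (y : V) = 0 := by
          rw [hC'a, hz]
          have h6 : P (y : V) = g (c y : V) := by rw [hgx', LinearEquiv.symm_apply_apply]
          rw [h6]
          have h7 : C (g u) (g (c y : V)) = C u (c y : V) := hg.1 _ _
          rw [h7]
          exact (o1 u hu _ (c y).2).1
        rw [_root_.map_add, LinearMap.add_apply, (o2 u' hu' _ y.2).1, zero_add] at h5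
        exact h5
      have h5 : w' = 0 := congrArg Subtype.val h4
      rw [h5, add_zero]
      exact hu'
    rw [← hz, ← hP, hU z hz2]
  rw [_root_.map_add, _root_.map_add, _root_.map_add, _root_.map_add, hw1, hu1]

end Cfsg.Agent.H16.CjS
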