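import Cfsg.Agent.H16_CjQ
import Cfsg.Agent.H5_Symp

set_option autoImplicit false

/-! Conjugacy of semisimple isometries: matrix versions. -/

namespace Cfsg.Agent.H16.CjS

open Module Matrix

variable {F : Type*} [Field F]

theorem exists_eq {ι : Type} [Fintype ι] [DecidableEq ι] (P : (Matrix ι ι F)ˣ) :
    ∃ e : (ι → F) ≃ₗ[F] (ι → F), ∀ x, e x = (P : Matrix ι ι F) *ᵥ x := by
  have h1 : (P : Matrix ι ι F) * ((P⁻¹ : (Matrix ι ι F)ˣ) : Matrix ι ι F) = 1 := P.mul_inv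
  have h2 : ((P⁻¹ : (Matrix ι ι F)ˣ) : Matrix ι ι F) * (P : Matrix ι ι F) = 1 := P.inv_mul
  refine ⟨LinearEquiv.ofLinear (Matrix.toLin' (P : Matrix ι ι F)) (Matrix.toLin' ((P⁻¹ : (Matrix ι ι F)ˣ) : Matrix ι ι F)) ?_ ?_, ?_⟩
  · rw [← Matrix.toLin'_mul, h1, Matrix.toLin'_one]
  · rw [← Matrix.toLin'_mul, h2, Matrix.toLin'_one]
  · intro x
    exact Matrix.toLin'_apply _ _

theorem exists_mat {ι : Type} [Fintype ι] [DecidableEq ι] (e : (ι → F) ≃ₗ[F] (ι → F)) :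
    ∃ P : (Matrix ι ι F)ˣ, ∀ x, (P : Matrix ι ι F) *ᵥ x = e x := by
  refine ⟨⟨LinearMap.toMatrix' (e : (ι → F) →ₗ[F] (ι → F)), LinearMap.toMatrix' (e.symm : (ι → F) →ₗ[F] (ι → F)), ?_, ?_⟩, ?_⟩
  · rw [← LinearMap.toMatrix'_comp, LinearEquiv.comp_coe, LinearEquiv.symm_trans_self]
    exact LinearMap.toMatrix'_id
  · rw [← LinearMap.toMatrix'_comp, LinearEquiv.comp_coe, LinearEquiv.self_trans_symm]
    exact LinearMap.toMatrix'_id
  · intro x
    exact LinearMap.toMatrix'_mulVec _ _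

theorem pow_eq {ι : Type} [Fintype ι] [DecidableEq ι] {A : Matrix ι ι F} {k : ℕ} (h : A ^ k = 1) :
    (Matrix.toLin' A : End F (ι → F)) ^ k = 1 := by
  rw [← Matrix.toLin'_pow, h, Matrix.toLin'_one]
  rfl

theorem sp_conj [Finite F] {m : ℕ} {A B : Matrix (Fin m ⊕ Fin m) (Fin m ⊕ Fin m) F} (hA : A ∈ Matrix.symplecticGroup (Fin m) F)
    (hB : B ∈ Matrix.symplecticGroup (Fin m) F) {k : ℕ} (hk : (k : F) ≠ 0) (hAk : A ^ k = 1)
    (P : (Matrix (Fin m ⊕ Fin m) (Fin m ⊕ Fin m) F)ˣ) (hP : P.1 * A = B * P.1) :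
    ∃ U ∈ Matrix.symplecticGroup (Fin m) F, U * A = B * U := by
  have hA' := (H5.Conc.mem_symplecticGroup_iff _).mp hA
  have hB' := (H5.Conc.mem_symplecticGroup_iff _).mp hB
  obtain ⟨Pe, hPe⟩ := exists_eq P
  let C : LinearMap.BilinForm F (Fin m ⊕ Fin m → F) := (H5.Conc.sympFrm m F).B
  have hC : ∀ x y, C x y = Cfsg.sympForm m F x y := fun x y => H5.Conc.sympFrm_B m F x y
  have hCalt : C.IsAlt := H5.Conc.sympB_alt m F
  let C' : LinearMap.BilinForm F (Fin m ⊕ Fin m → F) := C.comp Pe.toLinearMap Pe.toLinearMap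
  have hC' : ∀ x y, C' x y = C (Pe x) (Pe y) := fun x y => rfl
  have hCn : Nd C := H5.Conc.sympFrm_nondeg m F
  have hC'n : Nd C' := by
    intro x hx
    have h1 : Pe x = 0 := by
      apply hCn
      intro y
      obtain ⟨z, rfl⟩ := Pe.surjective y
      rw [← hC']
      exact hx z
    rwa [LinearEquiv.map_eq_zero_iff] at h1
  have hPA : ∀ x, Pe (A *ᵥ x) = B *ᵥ (Pe x) := by
    intro x
    rw [hPe, hPe, Matrix.mulVec_mulVec, hP, Matrix.mulVec_mulVec]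
  obtain ⟨c, hc1, hc2⟩ := main_alt (semisimple_of_pow hk (pow_eq hAk)) hCn hC'n hCalt
    (fun x => hCalt _) (fun x y => by rw [hC, hC]; exact hA' x y) (fun x y => by
      rw [hC', hC', Matrix.toLin'_apply, Matrix.toLin'_apply, hPA, hPA, hC, hC, hB'])
  obtain ⟨U, hU⟩ := exists_mat (c.symm ≪≫ₗ Pe)
  have hU' : ∀ x, U.1 *ᵥ x = Pe (c.symm x) := hU
  refine ⟨U.1, ?_, ?_⟩
  · rw [H5.Conc.mem_symplecticGroup_iff]
    intro x y
    rw [hU', hU', ← hC, ← hC]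
    have h1 := hc2 (c.symm x) (c.symm y)
    rw [LinearEquiv.apply_symm_apply, LinearEquiv.apply_symm_apply, hC'] at h1
    exact h1
  · apply H5.Symp.ext_mulVec
    intro x
    rw [← Matrix.mulVec_mulVec, ← Matrix.mulVec_mulVec, hU', hU', ← hPA]
    congr 1
    rw [LinearEquiv.symm_apply_eq]
    have h1 := hc1 (c.symm x)
    rw [LinearEquiv.apply_symm_apply, Matrix.toLin'_apply, Matrix.toLin'_apply] at h1
    exact h1.symm

theorem quad_conj [Finite F] {n : ℕ} {Q : QuadraticForm F (Fin n → F)} (hQ : (QuadraticMap.polarBilin Q).Nondegenerate)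
    {A B P : (Matrix (Fin n) (Fin n) F)ˣ} (hA : ∀ x, Q (A.1 *ᵥ x) = Q x) (hB : ∀ x, Q (B.1 *ᵥ x) = Q x)
    {k : ℕ} (hk : (k : F) ≠ 0) (hodd : Odd k) (hAk : A ^ k = 1) (hP : P * A = B * P) :
    ∃ U : (Matrix (Fin n) (Fin n) F)ˣ, (∀ x, Q (U.1 *ᵥ x) = Q x) ∧ U * A = B * U := by
  obtain ⟨Pe, hPe⟩ := exists_eq P
  obtain ⟨Ae, hAe⟩ := exists_eq A
  obtain ⟨Be, hBe⟩ := exists_eq B
  have hAe' : (Ae : End F (Fin n → F)) = Matrix.toLin' A.1 := LinearMap.ext fun x => by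
    rw [Matrix.toLin'_apply]; exact hAe x
  have hAk' : A.1 ^ k = 1 := by rw [← Units.val_pow_eq_pow_val, hAk, Units.val_one]
  have hp := pow_eq hAk'
  rw [← hAe'] at hp
  obtain ⟨g, hg1, hg2⟩ := main_quad hQ (A := Ae) (B := Be) (P := Pe) (fun x => by rw [hAe, hA]) (fun x => by rw [hBe, hB])
    (semisimple_of_pow hk hp) hodd hp (fun x => by
      rw [hPe, hAe, hPe, hBe, Matrix.mulVec_mulVec, Matrix.mulVec_mulVec, ← Units.val_mul, ← Units.val_mul, hP])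
  obtain ⟨U, hU⟩ := exists_mat g
  refine ⟨U, fun x => by rw [hU, hg1], ?_⟩
  apply Units.ext
  apply H5.Symp.ext_mulVec
  intro x
  rw [Units.val_mul, Units.val_mul, ← Matrix.mulVec_mulVec, ← Matrix.mulVec_mulVec, hU, hU, ← hAe, ← hBe, hg2]

end Cfsg.Agent.H16.CjS
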