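import Cfsg.Agent.H16_Cj
import Cfsg.Agent.H5_FrmWitt

set_option autoImplicit false

/-! Conjugacy of isometries. -/

namespace Cfsg.Agent.H16.CjS

open Module

variable {F : Type*} [Field F] {V : Type*} [AddCommGroup V] [Module F V] [FiniteDimensional F V]

/-- non-degeneracy. -/
def Nd (B : LinearMap.BilinForm F V) : Prop := ∀ x, (∀ y, B x y = 0) → x = 0

omit [FiniteDimensional F V] in
theorem Nd.nondeg {B : LinearMap.BilinForm F V} (h : Nd B) {ε : F} (hε : ε ≠ 0) (hs : ∀ x y, B y x = ε * B x y) :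
    B.Nondegenerate :=
  ⟨h, fun x hx => h x fun y => by
    have := hs y x
    rw [hx, mul_zero] at this
    exact this⟩

theorem rep {B : LinearMap.BilinForm F V} (hB : B.Nondegenerate) (C : LinearMap.BilinForm F V) :
    ∃ s : End F V, ∀ x y, B (s x) y = C x y :=
  ⟨C.symmCompOfNondegenerate B hB, fun x y => LinearMap.BilinForm.symmCompOfNondegenerate_left_apply C hB y x⟩

/-- two invariant forms are related by an element of the centralizer. -/
theorem root [Finite F] {B B' : LinearMap.BilinForm F V} (hB : Nd B) (hB' : Nd B') {ε : F} (hε : ε ≠ 0)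
    (hs : ∀ x y, B y x = ε * B x y) (hs' : ∀ x y, B' y x = ε * B' x y) (A : V ≃ₗ[F] V) (hA : ∀ x y, B (A x) (A y) = B x y)
    (hA' : ∀ x y, B' (A x) (A y) = B' x y) (hinj : ∀ x, A x = A.symm x → x = 0) :
    ∃ c : V ≃ₗ[F] V, (∀ x, c (A x) = A (c x)) ∧ ∀ x y, B' x y = B (c x) (c y) := by
  have hfin : Finite V := Module.finite_of_finite F
  have hfin' : Finite (End F V) := Finite.of_injective (fun f : End F V => (f : V → V)) DFunLike.coe_injective
  have hBn := hB.nondeg hε hs
  have hext : ∀ f g : End F V, (∀ x y, B (f x) y = B (g x) y) → f = g := by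
    intro f g h
    apply LinearMap.ext
    intro x
    rw [← sub_eq_zero]
    apply hB
    intro y
    rw [_root_.map_sub, LinearMap.sub_apply, h, sub_self]
  -- adjoint
  choose st hst using fun φ : End F V => rep hBn (B.compRight φ)
  have hst' : ∀ φ x y, B (st φ x) y = B x (φ y) := fun φ x y => hst φ x y
  have hst2 : ∀ φ x y, B (φ x) y = B x (st φ y) := by
    intro φ x y
    rw [hs (st φ y) x, hst', hs y (φ x)]
  have hadd : ∀ a b, st (a + b) = st a + st b := by
    intro a b
    apply hext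
    intro x y
    rw [hst', LinearMap.add_apply, LinearMap.add_apply, _root_.map_add, _root_.map_add, LinearMap.add_apply, hst', hst']
  have hmul : ∀ a b, st (a * b) = st b * st a := by
    intro a b
    apply hext
    intro x y
    rw [hst', Module.End.mul_apply, Module.End.mul_apply, hst', hst']
  have hinv : ∀ a, st (st a) = a := by
    intro a
    apply hext
    intro x y
    rw [hst', ← hst2]
  obtain ⟨s, hsd⟩ := rep hBn B'
  have hss : st s = s := by
    apply hext
    intro x y
    rw [hst', hs (s y) x, hsd, hsd, ← hs']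
  have hsA : ∀ x, s (A x) = A (s x) := by
    intro x
    rw [← sub_eq_zero]
    apply hB
    intro y
    obtain ⟨z, rfl⟩ := A.surjective y
    rw [_root_.map_sub, LinearMap.sub_apply, hsd, hA', hA, hsd, sub_self]
  have hsu : IsUnit s := by
    have hinj' : Function.Injective s := by
      rw [injective_iff_map_eq_zero]
      intro x hx
      apply hB'
      intro y
      rw [← hsd, hx, _root_.map_zero, LinearMap.zero_apply]
    exact (Module.End.isUnit_iff _).mpr (Finite.injective_iff_bijective.mp hinj')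
  let ω : End F V := A.toLinearMap
  let ω' : End F V := A.symm.toLinearMap
  have hstω : st ω = ω' := by
    apply hext
    intro x y
    rw [hst']
    change B x (A y) = B (A.symm x) y
    rw [← hA (A.symm x) y, A.apply_symm_apply]
  have hωω : ω * ω' = 1 := LinearMap.ext fun x => A.apply_symm_apply x
  have hω'ω : ω' * ω = 1 := LinearMap.ext fun x => A.symm_apply_apply x
  obtain ⟨c, hcu, hc, hcc⟩ := Cj.exists_root hadd hmul hinv (s := s) (ω := ω) hsu hss (LinearMap.ext hsA)
    (by rw [hstω]; change ω * ω' = ω' * ω; rw [hωω, hω'ω]) (by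
      rw [hstω, Module.End.isUnit_iff]
      apply Finite.injective_iff_bijective.mp
      rw [injective_iff_map_eq_zero]
      intro x hx
      apply hinj
      exact (sub_eq_zero.mp hx).symm)
  have hcA : Commute ω c := by
    apply hcc
    · exact (show Commute s ω from LinearMap.ext hsA).symm
    · exact Commute.refl _
    · rw [hstω]; change ω * ω' = ω' * ω; rw [hωω, hω'ω]
  refine ⟨LinearEquiv.ofBijective c ((Module.End.isUnit_iff _).mp hcu), ?_, ?_⟩
  · intro x
    exact (LinearMap.congr_fun hcA.eq x).symm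
  · intro x y
    change _ = B (c x) (c y)
    have h1 := hst2 s x y
    rw [hss] at h1
    rw [hst2 c x (c y), ← Module.End.mul_apply, hc, ← h1, hsd]

/-- the relation between forms. -/
def Rel (A : End F V) (B B' : LinearMap.BilinForm F V) : Prop :=
  ∃ c : V ≃ₗ[F] V, (∀ x, c (A x) = A (c x)) ∧ ∀ x y, B' x y = B (c x) (c y)

omit [FiniteDimensional F V] in
theorem glue {A : End F V} {B B' : LinearMap.BilinForm F V} {U W : Submodule F V} (hUW : IsCompl U W)
    (hAU : ∀ u ∈ U, A u ∈ U) (hAW : ∀ w ∈ W, A w ∈ W)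
    (hB : ∀ u ∈ U, ∀ w ∈ W, B u w = 0 ∧ B w u = 0) (hB' : ∀ u ∈ U, ∀ w ∈ W, B' u w = 0 ∧ B' w u = 0)
    (h1 : Rel (A.restrict hAU) (B.restrict U) (B'.restrict U)) (h2 : Rel (A.restrict hAW) (B.restrict W) (B'.restrict W)) :
    Rel A B B' := by
  obtain ⟨cU, hU1, hU2⟩ := h1
  obtain ⟨cW, hW1, hW2⟩ := h2
  let φ := Submodule.prodEquivOfIsCompl U W hUW
  have hφ : ∀ x : U × W, φ x = (x.1 : V) + (x.2 : V) := fun x => Submodule.coe_prodEquivOfIsCompl' U W hUW x
  let c : V ≃ₗ[F] V := φ.symm ≪≫ₗ (cU.prodCongr cW) ≪≫ₗ φ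
  have hc : ∀ u w, c (φ (u, w)) = φ (cU u, cW w) := by
    intro u w
    change φ ((cU.prodCongr cW) (φ.symm (φ (u, w)))) = _
    rw [LinearEquiv.symm_apply_apply]
    rfl
  refine ⟨c, ?_, ?_⟩
  · intro x
    obtain ⟨⟨u, w⟩, rfl⟩ := φ.surjective x
    have e1 : A (φ (u, w)) = φ (A.restrict hAU u, A.restrict hAW w) := by
      rw [hφ, hφ, _root_.map_add]
      rfl
    rw [e1, hc, hc, hU1, hW1, hφ, hφ, _root_.map_add]
    rfl
  · intro x y
    obtain ⟨⟨u, w⟩, rfl⟩ := φ.surjective x
    obtain ⟨⟨u', w'⟩, rfl⟩ := φ.surjective y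
    rw [hc, hc, hφ, hφ, hφ, hφ]
    have e1 : B' (u : V) u' = B (cU u : V) (cU u') := hU2 u u'
    have e2 : B' (w : V) w' = B (cW w : V) (cW w') := hW2 w w'
    simp only [_root_.map_add, LinearMap.add_apply]
    rw [(hB' u u.2 w' w'.2).1, (hB' u' u'.2 w w.2).2, e1, e2, (hB _ (cU u).2 _ (cW w').2).1, (hB _ (cU u').2 _ (cW w).2).2]

section Alt

open Cfsg.Agent.H5 Cfsg.Agent.H5.Frm

universe u

theorem alt_isom : ∀ (n : ℕ) {V V' : Type u} [AddCommGroup V] [Module F V] [FiniteDimensional F V]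
    [AddCommGroup V'] [Module F V'] [FiniteDimensional F V'] (A : Frm F (RingHom.id F) (-1) (0 : F →+ F) V)
    (A' : Frm F (RingHom.id F) (-1) (0 : F →+ F) V'), A.Nondeg → A'.Nondeg → finrank F V = n → finrank F V' = n →
    ∃ φ : V ≃ₗ[F] V', ∀ x y, A'.B (φ x) (φ y) = A.B x y := by
  intro n
  induction n using Nat.strong_induction_on with
  | _ n ih =>
  intro V V' _ _ _ _ _ _ A A' hn hn' hV hV'
  have hQ0 : ∀ {W : Type u} [AddCommGroup W] [Module F W] (C : Frm F (RingHom.id F) (-1) (0 : F →+ F) W) (x : W), C.Q x = 0 := by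
    intro W _ _ C x
    obtain ⟨s, hs⟩ := C.Q_t x
    exact hs.symm
  rcases Nat.eq_zero_or_pos n with rfl | hpos
  · refine ⟨LinearEquiv.ofFinrankEq V V' (by rw [hV, hV']), fun x y => ?_⟩
    have h1 : Subsingleton V := finrank_zero_iff.mp hV
    rw [Subsingleton.elim x 0, _root_.map_zero, _root_.map_zero, LinearMap.zero_apply, _root_.map_zero, LinearMap.zero_apply]
  · have hnt : Nontrivial V := Module.nontrivial_of_finrank_pos (R := F) (by omega)
    have hnt' : Nontrivial V' := Module.nontrivial_of_finrank_pos (R := F) (by omega)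
    obtain ⟨u, hu⟩ := exists_ne (0 : V)
    obtain ⟨u', hu'⟩ := exists_ne (0 : V')
    obtain ⟨f, hp⟩ := exists_partner hn hu (hQ0 A u)
    obtain ⟨f', hp'⟩ := exists_partner hn' hu' (hQ0 A' u')
    have h1 := finrank_perp2 hp
    have h1' := finrank_perp2 hp'
    obtain ⟨ψ, hψ⟩ := ih (n - 2) (by omega) (A.restrict (A.perp2 u f)) (A'.restrict (A'.perp2 u' f')) (nondeg_perp2 hn hp)
      (nondeg_perp2 hn' hp') (by omega) (by omega)
    let φ : V ≃ₗ[F] V' := (pairEquiv hp).symm ≪≫ₗ ((LinearEquiv.refl F F).prodCongr ((LinearEquiv.refl F F).prodCongr ψ)) ≪≫ₗ pairEquiv hp'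
    have hφ : ∀ a b w, φ (pairEquiv hp (a, b, w)) = pairEquiv hp' (a, b, ψ w) := by
      intro a b w
      change pairEquiv hp' (((LinearEquiv.refl F F).prodCongr ((LinearEquiv.refl F F).prodCongr ψ)) ((pairEquiv hp).symm (pairEquiv hp (a, b, w)))) = _
      rw [LinearEquiv.symm_apply_apply]
      rfl
    have key : ∀ {W : Type u} [AddCommGroup W] [Module F W] (C : Frm F (RingHom.id F) (-1) (0 : F →+ F) W) {x y : W}
        (h : C.HPair x y) (a b a' b' : F) (w w' : C.perp2 x y), C.B (pairEquiv h (a, b, w)) (pairEquiv h (a', b', w')) =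
        a * b' - b * a' + C.B (w : W) w' := by
      intro W _ _ C x y h a b a' b' w w'
      obtain ⟨h2, h3⟩ := (C.mem_perp2).mp w.2
      obtain ⟨h2', h3'⟩ := (C.mem_perp2).mp w'.2
      rw [pairEquiv_apply, pairEquiv_apply]
      simp only [_root_.map_add, LinearMap.add_apply, LinearMap.map_smulₛₗ, LinearMap.smul_apply, h2', h3', C.refl h2, C.refl h3,
        h.Buu, h.Bff, h.Buf, h.Bfu, smul_zero, add_zero, zero_add, smul_eq_mul, RingHom.id_apply, mul_one]
      ring
    refine ⟨φ, fun x y => ?_⟩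
    obtain ⟨⟨a, b, w⟩, rfl⟩ := (pairEquiv hp).surjective x
    obtain ⟨⟨a', b', w'⟩, rfl⟩ := (pairEquiv hp).surjective y
    rw [hφ, hφ, key, key]
    congr 1
    exact hψ w w'

end Alt

theorem alt_rel {B B' : LinearMap.BilinForm F V} (hB : Nd B) (hB' : Nd B') (ha : B.IsAlt) (ha' : B'.IsAlt) :
    ∃ c : V ≃ₗ[F] V, ∀ x y, B' x y = B (c x) (c y) := by
  obtain ⟨φ, hφ⟩ := alt_isom (finrank F V) (H5.Frm.ofAlt B' ha') (H5.Frm.ofAlt B ha) hB' hB rfl rfl
  exact ⟨φ, fun x y => (hφ x y).symm⟩

theorem ss_disj {T : End F V} (hT : T.IsSemisimple) : IsCompl (LinearMap.ker T) (LinearMap.range T) := by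
  obtain ⟨W, hW, hc⟩ := Module.End.isSemisimple_iff.mp hT (LinearMap.ker T) (by
    intro x hx
    rw [Submodule.mem_comap, LinearMap.mem_ker, LinearMap.mem_ker.mp hx, _root_.map_zero])
  have hd : Disjoint (LinearMap.ker T) (LinearMap.range T) := by
    rw [Submodule.disjoint_def]
    rintro _ hx ⟨z, rfl⟩
    have hz : z ∈ LinearMap.ker T ⊔ W := by rw [hc.sup_eq_top]; trivial
    obtain ⟨k, hk, w, hw, rfl⟩ := Submodule.mem_sup.mp hz
    rw [_root_.map_add, LinearMap.mem_ker.mp hk, zero_add] at hx ⊢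
    have h1 : T w ∈ W := hW hw
    exact (Submodule.disjoint_def.mp hc.disjoint) _ hx h1
  refine ⟨hd, codisjoint_iff.mpr (Submodule.eq_top_of_disjoint _ _ ?_ hd)⟩
  rw [← LinearMap.finrank_range_add_finrank_ker T]
  omega

theorem nd_left {B : LinearMap.BilinForm F V} (hB : Nd B) {U W : Submodule F V} (hUW : IsCompl U W)
    (h : ∀ u ∈ U, ∀ w ∈ W, B u w = 0) : Nd (B.restrict U) := by
  intro u hu
  apply Subtype.ext
  apply hB
  intro y
  have hy : y ∈ U ⊔ W := by rw [hUW.sup_eq_top]; trivial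
  obtain ⟨u', hu', w, hw, rfl⟩ := Submodule.mem_sup.mp hy
  rw [_root_.map_add, h u u.2 w hw, add_zero]
  exact hu ⟨u', hu'⟩

/-- splitting off an eigenspace. -/
theorem step {A : End F V} (hA : A.IsSemisimple) {B B' : LinearMap.BilinForm F V} (hB : Nd B) (hB' : Nd B')
    (ha : B.IsAlt) (ha' : B'.IsAlt) (hAB : ∀ x y, B (A x) (A y) = B x y) (hAB' : ∀ x y, B' (A x) (A y) = B' x y)
    {l : F} (hl : l * l = 1)
    (h : ∀ (W : Submodule F V) (hW : ∀ w ∈ W, A w ∈ W), (∀ w ∈ W, A w = l • w → w = 0) → Nd (B.restrict W) → Nd (B'.restrict W) →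
      Rel (A.restrict hW) (B.restrict W) (B'.restrict W)) : Rel A B B' := by
  obtain ⟨N, hN⟩ : ∃ N : End F V, N = A - algebraMap F (End F V) l := ⟨_, rfl⟩
  have hNa : ∀ x, N x = A x - l • x := by intro x; rw [hN]; rfl
  have hNs : N.IsSemisimple := by rw [hN]; exact Module.End.isSemisimple_sub_algebraMap_iff.mpr hA
  have hc := ss_disj hNs
  have hU : ∀ u ∈ LinearMap.ker N, A u = l • u := by
    intro u hu
    rw [LinearMap.mem_ker, hNa, sub_eq_zero] at hu
    exact hu
  have horth : ∀ C : LinearMap.BilinForm F V, C.IsAlt → (∀ x y, C (A x) (A y) = C x y) → ∀ u ∈ LinearMap.ker N,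
      ∀ w ∈ LinearMap.range N, C u w = 0 ∧ C w u = 0 := by
    rintro C hC hAC u hu _ ⟨z, rfl⟩
    have h1 : C u (N z) = 0 := by
      have h2 := hAC u z
      rw [hU u hu, _root_.map_smul, LinearMap.smul_apply, smul_eq_mul] at h2
      rw [hNa, _root_.map_sub, _root_.map_smul, smul_eq_mul, ← h2]
      linear_combination (-C u (A z)) * hl
    refine ⟨h1, ?_⟩
    rw [← LinearMap.IsAlt.neg hC, h1, neg_zero]
  have hAk : ∀ u ∈ LinearMap.ker N, A u ∈ LinearMap.ker N := by
    intro u hu
    rw [hU u hu]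
    exact Submodule.smul_mem _ _ hu
  have hAr : ∀ w ∈ LinearMap.range N, A w ∈ LinearMap.range N := by
    rintro _ ⟨z, rfl⟩
    refine ⟨A z, ?_⟩
    rw [hNa, hNa, _root_.map_sub, _root_.map_smul]
  have o1 := horth B ha hAB
  have o2 := horth B' ha' hAB'
  refine glue hc hAk hAr o1 o2 ?_ ?_
  · obtain ⟨c, hc'⟩ := alt_rel (nd_left hB hc fun u hu w hw => (o1 u hu w hw).1) (nd_left hB' hc fun u hu w hw => (o2 u hu w hw).1)
      (fun x => ha _) (fun x => ha' _)
    refine ⟨c, fun x => ?_, hc'⟩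
    have e1 : ∀ x, A.restrict hAk x = l • x := fun x => Subtype.ext (hU x x.2)
    rw [e1, e1, _root_.map_smul]
  · refine h _ hAr ?_ (nd_left hB hc.symm fun w hw u hu => (o1 u hu w hw).2) (nd_left hB' hc.symm fun w hw u hu => (o2 u hu w hw).2)
    intro w hw hlw
    have h1 : w ∈ LinearMap.ker N := by rw [LinearMap.mem_ker, hNa, hlw, sub_self]
    exact (Submodule.disjoint_def.mp hc.disjoint) w h1 hw

theorem restrict_ss {A : End F V} (hA : A.IsSemisimple) {W : Submodule F V} (hW : ∀ w ∈ W, A w ∈ W) :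
    Module.End.IsSemisimple (A.restrict hW) := Module.End.IsSemisimple.restrict hW hA

/-- the main result for alternating forms. -/
theorem main_alt [Finite F] {A : End F V} (hA : A.IsSemisimple) {B B' : LinearMap.BilinForm F V} (hB : Nd B) (hB' : Nd B')
    (ha : B.IsAlt) (ha' : B'.IsAlt) (hAB : ∀ x y, B (A x) (A y) = B x y) (hAB' : ∀ x y, B' (A x) (A y) = B' x y) :
    Rel A B B' := by
  refine step hA hB hB' ha ha' hAB hAB' (l := 1) (by ring) ?_
  intro W hW h1 hn hn'
  refine step (restrict_ss hA hW) hn hn' (fun x => ha _) (fun x => ha' _) (fun x y => hAB _ _) (fun x y => hAB' _ _) (l := -1) (by ring) ?_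
  intro X hX h2 hm hm'
  have hinj : Function.Injective ((A.restrict hW).restrict hX) := by
    rw [injective_iff_map_eq_zero]
    intro x hx
    apply hm
    intro y
    have e1 := hAB ((x : W) : V) ((y : W) : V)
    have e2 : A ((x : W) : V) = 0 := congrArg (fun z : X => ((z : W) : V)) hx
    rw [e2, _root_.map_zero, LinearMap.zero_apply] at e1
    exact e1.symm
  have hfin : Finite V := Module.finite_of_finite F
  have hsurj := Finite.injective_iff_bijective.mp hinj
  have hneg : ∀ C : LinearMap.BilinForm F V, C.IsAlt → ∀ x y, C y x = (-1) * C x y := by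
    intro C hC x y
    rw [← LinearMap.IsAlt.neg hC x y]
    ring
  obtain ⟨c, hc1, hc2⟩ := root (ε := (-1 : F)) hm hm' (by norm_num) (fun x y => hneg B ha _ _) (fun x y => hneg B' ha' _ _)
    (LinearEquiv.ofBijective ((A.restrict hW).restrict hX) hsurj) (fun x y => hAB _ _) (fun x y => hAB' _ _) (by
    intro x hx
    -- `A x = A⁻¹ x`
    have e1 : A (A ((x : W) : V)) = ((x : W) : V) := by
      have e2 := congrArg (LinearEquiv.ofBijective ((A.restrict hW).restrict hX) hsurj) hx
      rw [LinearEquiv.apply_symm_apply] at e2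
      exact congrArg (fun z : X => ((z : W) : V)) e2
    -- `A x - x` is in `X`, killed by `A + 1`
    have e3 : (A.restrict hW).restrict hX x - x = 0 := by
      apply Subtype.ext
      apply h2 _ ((A.restrict hW).restrict hX x - x).2
      apply Subtype.ext
      change A (A ((x : W) : V) - ((x : W) : V)) = (-1 : F) • (A ((x : W) : V) - ((x : W) : V))
      rw [_root_.map_sub, e1, neg_smul, one_smul, neg_sub]
    have e4 : A ((x : W) : V) = ((x : W) : V) := sub_eq_zero.mp (congrArg (fun z : X => ((z : W) : V)) e3)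
    apply Subtype.ext
    apply Subtype.ext
    apply h1 _ (x : W).2
    rw [one_smul]
    exact e4)
  exact ⟨c, hc1, hc2⟩

theorem semisimple_of_pow {T : End F V} {k : ℕ} (hk : (k : F) ≠ 0) (h : T ^ k = 1) : T.IsSemisimple := by
  refine Module.End.isSemisimple_of_squarefree_aeval_eq_zero (p := Polynomial.X ^ k - 1) ?_ ?_
  · apply Polynomial.Separable.squarefree
    have := Polynomial.separable_X_pow_sub_C (1 : F) hk one_ne_zero
    rwa [Polynomial.C_1] at this
  · rw [_root_.map_sub, _root_.map_pow, Polynomial.aeval_X, _root_.map_one, h, sub_self]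

end Cfsg.Agent.H16.CjS
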