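import Cfsg.Agent.H16_PSU7

set_option autoImplicit false

/-! Counting the matrices fixed by a field automorphism up to scalars. -/

namespace Cfsg.Agent.H16.Cnt

open Matrix Cfsg.Agent.H5 Cfsg.Agent.H5.Unit Cfsg.Agent.H5.Frm Cfsg.Agent.H5.Conc Cfsg.Agent.H16.Ps Cfsg.Agent.H16.Gam
  Cfsg.Agent.H16.AutL Cfsg.Agent.H16.AutG Cfsg.Agent.H16.Desc Module Cfsg.Agent.H16.PSU

variable {F K : Type*} [Field F] [Field K] [Finite F] [Finite K] {n : ℕ}

theorem map_scl (e : K →+* F) (c : Kˣ) : Matrix.GeneralLinearGroup.map e (scl (Fin n) c) =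
    scl (Fin n) (Units.map (e : K →* F) c) := by
  apply Units.ext
  ext i j
  change e ((Matrix.scalar (Fin n) (c : K)) i j) = (Matrix.scalar (Fin n) (e (c : K))) i j
  rw [Matrix.scalar_apply, Matrix.scalar_apply, Matrix.diagonal_apply, Matrix.diagonal_apply]
  split_ifs <;> simp

theorem map_inj (e : K →+* F) : Function.Injective (Matrix.GeneralLinearGroup.map (n := Fin n) e) := by
  intro g h hgh
  apply Units.ext
  ext i j
  apply e.injective
  exact congrArg (fun x : GL (Fin n) F => (x : Matrix (Fin n) (Fin n) F) i j) hgh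

theorem count (hn : 1 ≤ n) (e : K →+* F) (A : Subgroup Fˣ) (B : Subgroup (GL (Fin n) K)) (C : Subgroup Kˣ)
    (hC : ∀ k, k ∈ C ↔ Units.map (e : K →* F) k ∈ A ∧ scl (Fin n) k⁻¹ ∈ B) (S : Set (GL (Fin n) F))
    (hS : ∀ g, g ∈ S ↔ ∃ t ∈ A, ∃ b ∈ B, g = scl (Fin n) t * Matrix.GeneralLinearGroup.map e b) :
    Nat.card S * Nat.card C = Nat.card A * Nat.card B := by
  have hnt : Nonempty (Fin n) := ⟨⟨0, by omega⟩⟩
  let f : A × B →* GL (Fin n) F := MonoidHom.noncommCoprod ((scl (Fin n)).comp A.subtype)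
    ((Matrix.GeneralLinearGroup.map e).comp B.subtype) (fun a b => sc_comm _ _)
  have hf : ∀ x : A × B, f x = scl (Fin n) (x.1 : Fˣ) * Matrix.GeneralLinearGroup.map e (x.2 : GL (Fin n) K) := fun x => rfl
  have h1 : Nat.card f.ker * Nat.card f.range = Nat.card (A × B) := by
    rw [← Subgroup.index_ker, Subgroup.card_mul_index]
  have h2 : Nat.card f.range = Nat.card S := by
    refine Nat.card_congr (Equiv.subtypeEquivRight fun g => ?_)
    rw [hS]
    constructor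
    · rintro ⟨x, rfl⟩
      exact ⟨_, x.1.2, _, x.2.2, hf x⟩
    · rintro ⟨t, ht, b, hb, rfl⟩
      exact ⟨(⟨t, ht⟩, ⟨b, hb⟩), rfl⟩
  have h3 : Nat.card f.ker = Nat.card C := by
    symm
    refine Nat.card_congr (Equiv.ofBijective (fun k : C => (⟨(⟨Units.map (e : K →* F) k, ((hC _).mp k.2).1⟩,
      ⟨scl (Fin n) (k : Kˣ)⁻¹, ((hC _).mp k.2).2⟩), ?_⟩ : f.ker)) ⟨?_, ?_⟩)
    · rw [MonoidHom.mem_ker, hf]
      change scl (Fin n) (Units.map (e : K →* F) (k : Kˣ)) * Matrix.GeneralLinearGroup.map e (scl (Fin n) (k : Kˣ)⁻¹) = 1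
      rw [map_scl, ← _root_.map_mul, ← _root_.map_mul, mul_inv_cancel, _root_.map_one, _root_.map_one]
    · intro k k' h
      have h4 := congrArg (fun x : f.ker => ((x : A × B).1 : Fˣ)) h
      exact Subtype.ext (Units.map_injective e.injective h4)
    · rintro ⟨⟨⟨t, ht⟩, ⟨b, hb⟩⟩, hx⟩
      rw [MonoidHom.mem_ker, hf] at hx
      change scl (Fin n) t * Matrix.GeneralLinearGroup.map e b = 1 at hx
      have h4 : Matrix.GeneralLinearGroup.map e b = scl (Fin n) t⁻¹ := by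
        rw [_root_.map_inv]
        exact eq_inv_of_mul_eq_one_right hx
      obtain ⟨d, hd⟩ := (map_scl_iff e _).mp ⟨t⁻¹, h4⟩
      have hd' : b = scl (Fin n) d := hd
      subst hd'
      rw [map_scl] at h4
      have h5 := sc_inj h4
      have h6 : Units.map (e : K →* F) d⁻¹ = t := by rw [_root_.map_inv, h5, inv_inv]
      refine ⟨⟨d⁻¹, (hC _).mpr ⟨by rw [h6]; exact ht, by rw [inv_inv]; exact hb⟩⟩, ?_⟩
      apply Subtype.ext
      apply Prod.ext
      · exact Subtype.ext h6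
      · apply Subtype.ext
        change scl (Fin n) (d⁻¹)⁻¹ = _
        rw [inv_inv]
  rw [← h2, ← h3, mul_comm, h1, Nat.card_prod]


omit [Finite F] in
theorem scl_coe (c : Fˣ) (g : GL (Fin n) F) : ((scl (Fin n) c * g : GL (Fin n) F) : Matrix (Fin n) (Fin n) F) =
    (c : F) • (g : Matrix (Fin n) (Fin n) F) := by
  change Matrix.scalar (Fin n) (c : F) * (g : Matrix (Fin n) (Fin n) F) = _
  rw [Matrix.scalar_apply, ← Matrix.smul_one_eq_diagonal, Matrix.smul_mul, one_mul]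

omit [Finite F] in
theorem mem_iff {σ : F ≃+* F} {g : GL (Fin n) F} : (∃ c : F, c ≠ 0 ∧ (g : Matrix (Fin n) (Fin n) F).map σ =
    c • (g : Matrix (Fin n) (Fin n) F)) ↔ ∃ c : Fˣ, gσ σ g = scl (Fin n) c * g := by
  constructor
  · rintro ⟨c, hc, h⟩
    refine ⟨Units.mk0 c hc, Units.ext ?_⟩
    rw [scl_coe]
    exact h
  · rintro ⟨c, h⟩
    refine ⟨c, c.ne_zero, ?_⟩
    rw [← scl_coe, ← h]
    rfl

/-- the fixed field. -/
theorem exists_K (σ : F ≃+* F) : ∃ (q₀ : ℕ), 2 ≤ q₀ ∧ Nat.card F = q₀ ^ orderOf σ ∧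
    Nat.card (RingHom.eqLocusField (σ : F →+* F) (RingHom.id F)) = q₀ := by
  obtain ⟨q₀, h1, h2, -, h3⟩ := card_fix σ
  refine ⟨q₀, h1, h2, ?_⟩
  rw [← h3]
  exact Nat.card_congr (Equiv.subtypeEquivRight fun x => Iff.rfl)

theorem he_K (σ : F ≃+* F) (a : F) : σ a = a ↔ a ∈ Set.range (RingHom.eqLocusField (σ : F →+* F) (RingHom.id F)).subtype :=
  ⟨fun h => ⟨⟨a, h⟩, rfl⟩, by rintro ⟨x, rfl⟩; exact x.2⟩

theorem count_gl [Fintype F] {q₀ r : ℕ} (hr : r.Prime) (hn : 1 ≤ n) (hF : Fintype.card F = q₀ ^ r) (σ : F ≃+* F)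
    (hσ : orderOf σ = r) : Nat.card {g : GL (Fin n) F // ∃ c : F, c ≠ 0 ∧
      (g : Matrix (Fin n) (Fin n) F).map σ = c • (g : Matrix (Fin n) (Fin n) F)} =
      (q₀ ^ r - 1) / (q₀ - 1) * ∏ i : Fin n, (q₀ ^ n - q₀ ^ (i : ℕ)) := by
  classical
  have hnt : Nonempty (Fin n) := ⟨⟨0, by omega⟩⟩
  obtain ⟨q₁, h1, h2, h3⟩ := exists_K σ
  rw [Nat.card_eq_fintype_card, hF, hσ] at h2
  have h4 : q₀ = q₁ := Nat.pow_left_injective hr.ne_zero h2
  subst h4
  have : Fintype (RingHom.eqLocusField (σ : F →+* F) (RingHom.id F)) := Fintype.ofFinite _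
  have h5 := count hn (RingHom.eqLocusField (σ : F →+* F) (RingHom.id F)).subtype ⊤ ⊤ ⊤
    (fun k => by simp) {g : GL (Fin n) F | ∃ c : F, c ≠ 0 ∧
      (g : Matrix (Fin n) (Fin n) F).map σ = c • (g : Matrix (Fin n) (Fin n) F)} (fun g => by
      rw [Set.mem_setOf_eq, mem_iff]
      constructor
      · rintro ⟨c, hc⟩
        obtain ⟨t, g₀, hg, hg₀⟩ := exists_fixed_of_sc rfl (orderOf_pos σ) hc
        obtain ⟨G, hG⟩ := exists_desc (he_K σ) hg₀
        exact ⟨t, Subgroup.mem_top _, G, Subgroup.mem_top _, by rw [hG, hg]⟩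
      · rintro ⟨t, -, b, -, rfl⟩
        refine ⟨Units.map (σ : F →* F) t * t⁻¹, ?_⟩
        rw [_root_.map_mul, gσ_sc, map_fixed (he_K σ), scl_scl, inv_mul_cancel_right])
  rw [Subgroup.card_top, Subgroup.card_top, Subgroup.card_top, Nat.card_eq_fintype_card (α := Fˣ), Fintype.card_units, hF,
    Matrix.card_GL_field, Nat.card_eq_fintype_card (α := (RingHom.eqLocusField (σ : F →+* F) (RingHom.id F))ˣ), Fintype.card_units,
    ← Nat.card_eq_fintype_card, h3] at h5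
  have h6 : q₀ - 1 ∣ q₀ ^ r - 1 := by
    have := Nat.sub_dvd_pow_sub_pow q₀ 1 r
    rwa [one_pow] at this
  have h7 : 0 < q₀ - 1 := by omega
  obtain ⟨k, hk⟩ := h6
  rw [hk, Nat.mul_div_cancel_left _ h7]
  rw [hk] at h5
  have h8 := Nat.eq_of_mul_eq_mul_left h7 (show (q₀ - 1) * Nat.card {g : GL (Fin n) F | ∃ c : F, c ≠ 0 ∧
      (g : Matrix (Fin n) (Fin n) F).map σ = c • (g : Matrix (Fin n) (Fin n) F)} =
      (q₀ - 1) * (k * ∏ i : Fin n, (q₀ ^ n - q₀ ^ (i : ℕ))) by rw [mul_comm, h5]; ring)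
  exact h8

theorem gu_ord {q₀ : ℕ} (hq : 2 ≤ q₀) (n : ℕ) : ((Herm.guOrd q₀ n : ℕ) : ℤ) =
    (q₀ : ℤ) ^ (n * (n - 1) / 2) * ∏ i : Fin n, ((q₀ : ℤ) ^ ((i : ℕ) + 1) - (-1) ^ ((i : ℕ) + 1)) := by
  rw [Herm.guOrd, Nat.cast_mul, Nat.cast_pow, Nat.cast_prod, Finset.prod_range]
  congr 1
  refine Finset.prod_congr rfl fun i _ => ?_
  split_ifs with h
  · rw [Even.add_one h |>.neg_one_pow]
    push_cast
    ring
  · rw [(Nat.even_add_one.mpr h).neg_one_pow, Nat.cast_sub (Nat.one_le_pow _ _ (by omega))]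
    push_cast
    ring

theorem count_gu [Fintype F] {q₀ q r : ℕ} (hr : r.Prime) (hr2 : r ≠ 2) (hn : 1 ≤ n) (hq : q = q₀ ^ r)
    (hF : Fintype.card F = q ^ 2) (σ : F ≃+* F) (hσ : orderOf σ = r) :
    (Nat.card {g : ↥(Cfsg.GU n F q) // ∃ c : F, c ≠ 0 ∧ ((g : GL (Fin n) F) : Matrix (Fin n) (Fin n) F).map σ =
      c • ((g : GL (Fin n) F) : Matrix (Fin n) (Fin n) F)} : ℤ) =
    ((q + 1) / (q₀ + 1) : ℕ) * ((q₀ : ℤ) ^ (n * (n - 1) / 2) *
      ∏ i : Fin n, ((q₀ : ℤ) ^ ((i : ℕ) + 1) - (-1) ^ ((i : ℕ) + 1))) := by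
  classical
  have hnt : Nonempty (Fin n) := ⟨⟨0, by omega⟩⟩
  have ho : Odd (orderOf σ) := by rw [hσ]; exact hr.odd_of_ne_two hr2
  obtain ⟨q₁, h1, h2, h3, hpw⟩ := odd_root hF ho
  rw [hσ, hq] at h2
  have h4 : q₀ = q₁ := Nat.pow_left_injective hr.ne_zero h2
  subst h4
  let K₀ := RingHom.eqLocusField (σ : F →+* F) (RingHom.id F)
  have : Fintype K₀ := Fintype.ofFinite _
  have hKc : Fintype.card K₀ = q₀ ^ 2 := by
    rw [← h3, ← Nat.card_eq_fintype_card]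
    exact Nat.card_congr (Equiv.subtypeEquivRight fun x => Iff.rfl)
  let e : K₀ →+* F := K₀.subtype
  have he : ∀ a : F, σ a = a ↔ a ∈ Set.range e := he_K σ
  have hef : ∀ x : K₀, σ (e x) = e x := fun x => (he _).mpr ⟨x, rfl⟩
  have hbe : ∀ x : K₀, bt hF (e x) = e (bt hKc x) := by
    intro x
    rw [bt_apply, bt_apply, hpw _ (hef x), map_pow]
  have hcomm : ∀ g : GL (Fin n) K₀, gσ (bt hF) (Matrix.GeneralLinearGroup.map e g) =
      Matrix.GeneralLinearGroup.map e (gσ (bt hKc) g) := by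
    intro g
    apply Units.ext
    ext i j
    exact hbe _
  have hgit : ∀ g : GL (Fin n) K₀, git (Matrix.GeneralLinearGroup.map e g) =
      Matrix.GeneralLinearGroup.map e (git g) := by
    intro g
    apply Units.ext
    ext i j
    rfl
  have hGU : ∀ g : GL (Fin n) K₀, Matrix.GeneralLinearGroup.map e g ∈ Cfsg.GU n F q ↔ g ∈ Cfsg.GU n K₀ q₀ := by
    intro g
    rw [mem_GU_git hF, mem_GU_git hKc, hcomm, hgit]
    exact (map_inj e).eq_iff
  have hCn : ∀ k : K₀ˣ, k ∈ Cn K₀ q₀ ↔ Units.map (e : K₀ →* F) k ∈ Cn F q := by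
    intro k
    rw [← scl_mem_GU hKc hn, ← hGU, map_scl, scl_mem_GU hF hn]
  have h5 := count hn e (Cn F q) (Cfsg.GU n K₀ q₀) (Cn K₀ q₀)
    (fun k => by rw [scl_mem_GU hKc hn, inv_mem_iff, ← hCn, and_self]) {g : GL (Fin n) F | g ∈ Cfsg.GU n F q ∧ ∃ c : F, c ≠ 0 ∧
      (g : Matrix (Fin n) (Fin n) F).map σ = c • (g : Matrix (Fin n) (Fin n) F)} (fun g => by
      rw [Set.mem_setOf_eq, mem_iff]
      constructor
      · rintro ⟨hg, c, hc⟩
        obtain ⟨t, g₀, hg', hg₀⟩ := exists_fixed_of_sc rfl (orderOf_pos σ) hc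
        obtain ⟨G, hG⟩ := exists_desc he hg₀
        have h6 : G ∈ CGU n K₀ q₀ := by
          have h7 : Matrix.GeneralLinearGroup.map e G ∈ CGU n F q := by
            have : Matrix.GeneralLinearGroup.map e G = scl (Fin n) t⁻¹ * g := by
              rw [hG, hg', scl_scl, inv_mul_cancel, _root_.map_one, one_mul]
            rw [this, mem_CGU_git hF hn]
            refine ⟨Units.map (bt hF : F →* F) t⁻¹ * (t⁻¹), ?_⟩
            rw [_root_.map_mul (gσ (bt hF)), gσ_sc, (mem_GU_git hF).mp hg, _root_.map_mul git, git_scl, inv_inv, scl_scl,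
              inv_mul_cancel_right]
          obtain ⟨c', hc'⟩ := (mem_CGU_git hF hn).mp h7
          rw [mem_CGU_git hKc hn]
          have h8 : Matrix.GeneralLinearGroup.map e (gσ (bt hKc) G * (git G)⁻¹) = scl (Fin n) c' := by
            rw [_root_.map_mul, ← hcomm, hc', _root_.map_inv, hgit, mul_inv_cancel_right]
          obtain ⟨d, hd⟩ := (map_scl_iff e _).mp ⟨c', h8⟩
          exact ⟨d, by rw [← hd, inv_mul_cancel_right]⟩
        obtain ⟨d, u, hu, rfl⟩ := exists_sc_GU hKc hn h6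
        have h9 : g = scl (Fin n) (t * Units.map (e : K₀ →* F) d) * Matrix.GeneralLinearGroup.map e u := by
          rw [hg', ← hG, _root_.map_mul, map_scl, scl_scl]
        have h10 := (hGU u).mpr hu
        refine ⟨_, ?_, u, hu, h9⟩
        rw [← scl_mem_GU hF hn]
        have h11 : scl (Fin n) (t * Units.map (e : K₀ →* F) d) = g * (Matrix.GeneralLinearGroup.map e u)⁻¹ := by
          rw [h9, mul_inv_cancel_right]
        rw [h11]
        exact mul_mem hg (inv_mem h10)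
      · rintro ⟨t, ht, b, hb, rfl⟩
        refine ⟨mul_mem ((scl_mem_GU hF hn).mpr ht) ((hGU b).mpr hb), Units.map (σ : F →* F) t * t⁻¹, ?_⟩
        rw [_root_.map_mul, gσ_sc, map_fixed he, scl_scl, inv_mul_cancel_right])
  rw [card_Cn hF, card_Cn hKc, card_GU hKc] at h5
  have h6 : Nat.card {g : ↥(Cfsg.GU n F q) // ∃ c : F, c ≠ 0 ∧ ((g : GL (Fin n) F) : Matrix (Fin n) (Fin n) F).map σ =
      c • ((g : GL (Fin n) F) : Matrix (Fin n) (Fin n) F)} = Nat.card {g : GL (Fin n) F | g ∈ Cfsg.GU n F q ∧ ∃ c : F, c ≠ 0 ∧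
      (g : Matrix (Fin n) (Fin n) F).map σ = c • (g : Matrix (Fin n) (Fin n) F)} :=
    Nat.card_congr ⟨fun x => ⟨x.1, x.1.2, x.2⟩, fun x => ⟨⟨x.1, x.2.1⟩, x.2.2⟩, fun x => rfl, fun x => rfl⟩
  have h7 : q₀ + 1 ∣ q + 1 := by
    rw [hq]
    have := Odd.nat_add_dvd_pow_add_pow q₀ 1 (hr.odd_of_ne_two hr2)
    rwa [one_pow] at this
  have h8 : 0 < q₀ + 1 := by omega
  obtain ⟨k, hk⟩ := h7
  rw [← gu_ord h1, h6, hk, Nat.mul_div_cancel_left _ h8]
  rw [hk] at h5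
  have h9 := Nat.eq_of_mul_eq_mul_left h8 (show (q₀ + 1) * Nat.card {g : GL (Fin n) F | g ∈ Cfsg.GU n F q ∧ ∃ c : F, c ≠ 0 ∧
      (g : Matrix (Fin n) (Fin n) F).map σ = c • (g : Matrix (Fin n) (Fin n) F)} =
      (q₀ + 1) * (k * Herm.guOrd q₀ n) by rw [mul_comm, h5]; ring)
  rw [h9]
  push_cast
  ring

end Cfsg.Agent.H16.Cnt
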