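import Cfsg.Agent.H16_ParA
import Cfsg.Agent.H5_FF

set_option autoImplicit false

/-! Embeddings between classical groups. -/

namespace Cfsg.Agent.H16.Emb

open Matrix Cfsg.Agent.H16.Ps Module Cfsg.Agent.H16.Gam Cfsg.Agent.H16.Desc Cfsg.Agent.H16.Par
open QuadraticMap (polar)
open Cfsg.Agent.H16 Cfsg.Agent.H16.POm

/-- isometric forms have isomorphic isometry groups. -/
theorem iso_transfer {ι₀ ι : Type} [Fintype ι₀] [DecidableEq ι₀] [Fintype ι] [DecidableEq ι] {F : Type*} [Field F]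
    {Q₁ : QuadraticForm F (ι₀ → F)} {Q : QuadraticForm F (ι → F)} (φ : (ι₀ → F) ≃ₗ[F] (ι → F)) (hφ : ∀ v, Q (φ v) = Q₁ v) :
    ∃ f : Cfsg.isometryGroup F ⇑Q₁ →* Cfsg.isometryGroup F ⇑Q, Function.Injective f := by
  have h : ∀ g : Cfsg.isometryGroup F ⇑Q₁, cj φ (g : GL ι₀ F) ∈ Cfsg.isometryGroup F ⇑Q := by
    intro g
    rw [Quad.mem_isometryGroup]
    intro v
    obtain ⟨w, rfl⟩ := φ.surjective v
    change Q (((cj φ (g : GL ι₀ F) : GL ι F) : Matrix ι ι F) *ᵥ (φ w)) = Q (φ w)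
    rw [cj_mulVec, hφ, hφ]
    exact Quad.mem_isometryGroup.mp g.2 w
  refine ⟨((cj φ).comp (Subgroup.subtype _)).codRestrict _ h, ?_⟩
  intro g g' hg
  exact Subtype.ext (cj_inj φ (congrArg Subtype.val hg))

/-- extension of scalars. -/
theorem iso_ext {ι : Type} [Fintype ι] [DecidableEq ι] {F K : Type*} [Field F] [Field K] (e : F →+* K)
    {Q₁ : QuadraticForm F (ι → F)} {Q : QuadraticForm K (ι → K)} (h : ∀ x : ι → F, Q (fun i => e (x i)) = e (Q₁ x)) :
    ∃ f : Cfsg.isometryGroup F ⇑Q₁ →* Cfsg.isometryGroup K ⇑Q, Function.Injective f := by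
  refine ⟨((Matrix.GeneralLinearGroup.map e).comp (Subgroup.subtype _)).codRestrict _
    (fun g => (map_iso e h (g : GL ι F)).mpr g.2), ?_⟩
  intro g g' hg
  apply Subtype.ext
  apply Units.ext
  ext i j
  have h1 := congrArg (fun x : GL ι K => (x : Matrix ι ι K) i j) (congrArg Subtype.val hg)
  exact e.injective h1

theorem minus_plus {F K : Type*} [Field F] [Fintype F] [Field K] [Fintype K] {q : ℕ} (hF : Fintype.card F = q)
    (hK : Fintype.card K = q ^ 2) (n : ℕ) (a c : F) (hac : An a c) :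
    ∃ φ : ↥(Cfsg.isometryGroup F ⇑(Quad.minusQ F n a c)) →* ↥(Cfsg.isometryGroup K ⇑(Quad.plusQ K (n + 1))),
      Function.Injective φ := by
  obtain ⟨e, he⟩ := H5.FF.exists_embedding hF hK (by norm_num)
  letI : Algebra F K := e.toAlgebra
  have hfr : finrank F K = 2 := by
    have h1 : Nat.card K = Nat.card F ^ finrank F K := Module.natCard_eq_pow_finrank
    rw [Nat.card_eq_fintype_card, Nat.card_eq_fintype_card, hF, hK] at h1
    have h2 : 2 ≤ q := by rw [← hF]; exact Fintype.one_lt_card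
    exact (Nat.pow_right_injective h2 h1).symm
  obtain ⟨X, hX⟩ := exists_QX hac K hfr
  have hmax := isMax_UK n X.hω
  have hplus : Quad.IsPlus (QK X n) (n + 1) := Quad.isPlus_of_ts (nd_QK X hac n) (by rw [finrank_minus]; ring)
    hmax.1 (by have := hmax.2; rw [finrank_minus] at this; omega)
  obtain ⟨φ, hφ⟩ := Quad.IsPlus.isom hplus (Quad.plusQ_isPlus (n + 1))
  obtain ⟨f, hf⟩ := iso_transfer φ hφ
  obtain ⟨g, hg⟩ := iso_ext X.e (Q₁ := Quad.minusQ F n a c) (Q := QK X n) (fun x => rat_minus X.e a c x)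
  exact ⟨f.comp g, hf.comp hg⟩

end Cfsg.Agent.H16.Emb
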