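import Cfsg.Agent.H16_Emb
import Cfsg.Agent.H16_PSU5
import Cfsg.Agent.H5_Concrete

set_option autoImplicit false

/-! Restriction of scalars: unitary groups in symplectic and orthogonal groups. -/

namespace Cfsg.Agent.H16.Emb

open Matrix Cfsg.Agent.H16.Ps Module Cfsg.Agent.H16.Gam Cfsg.Agent.H16.Desc Cfsg.Agent.H16.Par
open QuadraticMap (polar)
open Cfsg.Agent.H16 Cfsg.Agent.H16.POm

/-- data of a quadratic extension of finite fields. -/
structure QD (F K : Type*) [Field F] [Field K] (q : ℕ) where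
  e : F →+* K
  σ : K →+* K
  ω : K
  hσ : ∀ a, σ a = a ^ q
  hfix : ∀ a, σ a = a ↔ a ∈ Set.range e
  hω : ω ∉ Set.range e
  span : ∀ z : K, ∃ x y : F, z = e x + e y * ω

theorem exists_QD {F K : Type*} [Field F] [Fintype F] [Field K] [Fintype K] {q : ℕ} (hF : Fintype.card F = q)
    (hK : Fintype.card K = q ^ 2) : Nonempty (QD F K q) := by
  obtain ⟨e, he⟩ := H5.FF.exists_embedding hF hK (by norm_num)
  let _ : Algebra F K := e.toAlgebra
  have hfr : finrank F K = 2 := by
    have h1 : Nat.card K = Nat.card F ^ finrank F K := Module.natCard_eq_pow_finrank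
    rw [Nat.card_eq_fintype_card, Nat.card_eq_fintype_card, hF, hK] at h1
    have h2 : 2 ≤ q := by rw [← hF]; exact Fintype.one_lt_card
    exact (Nat.pow_right_injective h2 h1).symm
  obtain ⟨ζ, hζ⟩ := exists_an F
  obtain ⟨X, hX⟩ := exists_QX hζ K hfr
  have hXe : X.e = e := hX
  refine ⟨⟨e, H5.Fld.frob hK, X.ω, fun a => H5.Fld.frob_apply hK a, fun a => ?_, ?_, fun z => ?_⟩⟩
  · rw [H5.Fld.frob_apply]; exact he a
  · rintro ⟨x, hx⟩
    apply X.hne
    rw [← hx, ← hXe, X.hτ]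
  · obtain ⟨x, y, h⟩ := X.span z
    rw [hXe] at h
    exact ⟨x, y, h⟩

namespace QD

variable {F K : Type*} [Field F] [Field K] {q : ℕ} (D : QD F K q)

theorem fe (x : F) : D.σ (D.e x) = D.e x := (D.hfix _).mpr ⟨x, rfl⟩

theorem indep {x y : F} (h : D.e x + D.e y * D.ω = 0) : x = 0 ∧ y = 0 := by
  have hy : y = 0 := by
    by_contra hy
    apply D.hω
    refine ⟨-x / y, ?_⟩
    have h1 : D.e y ≠ 0 := by rwa [Ne, map_eq_zero]
    rw [map_div₀, map_neg, div_eq_iff h1]
    linear_combination -h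
  subst hy
  rw [map_zero, zero_mul, add_zero, map_eq_zero] at h
  exact ⟨h, rfl⟩

theorem sub_ne : D.σ D.ω - D.ω ≠ 0 := by
  intro h
  exact D.hω ((D.hfix _).mp (sub_eq_zero.mp h))

theorem σσ (h : ∀ a, D.σ (D.σ a) = a) : ∃ T N : F, D.e T = D.ω + D.σ D.ω ∧ D.e N = D.ω * D.σ D.ω := by
  obtain ⟨T, hT⟩ := (D.hfix (D.ω + D.σ D.ω)).mp (by rw [map_add, h, add_comm])
  obtain ⟨N, hN⟩ := (D.hfix (D.ω * D.σ D.ω)).mp (by rw [map_mul, h, mul_comm])
  exact ⟨T, N, hT, hN⟩

variable {κ : Type} [Fintype κ] [DecidableEq κ]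

/-- coordinates. -/
def co (v : κ ⊕ κ → F) : κ → K := fun i => D.e (v (Sum.inl i)) + D.e (v (Sum.inr i)) * D.ω

omit [Fintype κ] [DecidableEq κ] in
theorem co_add (v w : κ ⊕ κ → F) : D.co (v + w) = D.co v + D.co w := by
  funext i
  simp only [co, Pi.add_apply, map_add]
  ring

omit [Fintype κ] [DecidableEq κ] in
theorem co_smul (c : F) (v : κ ⊕ κ → F) : D.co (c • v) = D.e c • D.co v := by
  funext i
  simp only [co, Pi.smul_apply, smul_eq_mul, map_mul]
  ring

omit [Fintype κ] [DecidableEq κ] in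
theorem co_inj : Function.Injective (D.co (κ := κ)) := by
  intro v w h
  funext i
  rcases i with i | i
  · have h1 := congrFun h i
    have h2 : D.e (v (Sum.inl i) - w (Sum.inl i)) + D.e (v (Sum.inr i) - w (Sum.inr i)) * D.ω = 0 := by
      simp only [co] at h1
      rw [map_sub, map_sub]
      linear_combination h1
    exact sub_eq_zero.mp (D.indep h2).1
  · have h1 := congrFun h i
    have h2 : D.e (v (Sum.inl i) - w (Sum.inl i)) + D.e (v (Sum.inr i) - w (Sum.inr i)) * D.ω = 0 := by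
      simp only [co] at h1
      rw [map_sub, map_sub]
      linear_combination h1
    exact sub_eq_zero.mp (D.indep h2).2

omit [Fintype κ] [DecidableEq κ] in
theorem co_surj : Function.Surjective (D.co (κ := κ)) := by
  intro z
  choose x y h using fun i => D.span (z i)
  exact ⟨Sum.elim x y, funext fun i => (h i).symm⟩

/-- the inverse of the coordinates. -/
noncomputable def ci (z : κ → K) : κ ⊕ κ → F := (D.co_surj z).choose

omit [Fintype κ] [DecidableEq κ] in
theorem co_ci (z : κ → K) : D.co (D.ci z) = z := (D.co_surj z).choose_spec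

/-- the linear map of a matrix. -/
noncomputable def rl (g : Matrix κ κ K) : (κ ⊕ κ → F) →ₗ[F] (κ ⊕ κ → F) where
  toFun v := D.ci (g *ᵥ D.co v)
  map_add' v w := by
    apply D.co_inj
    rw [D.co_ci, D.co_add, D.co_add, D.co_ci, D.co_ci, mulVec_add]
  map_smul' c v := by
    apply D.co_inj
    rw [RingHom.id_apply, D.co_ci, D.co_smul, D.co_smul, D.co_ci, mulVec_smul]

theorem co_rl (g : Matrix κ κ K) (v : κ ⊕ κ → F) : D.co (D.rl g v) = g *ᵥ D.co v := D.co_ci _

/-- restriction of scalars. -/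
noncomputable def rs : Matrix κ κ K →* Matrix (κ ⊕ κ) (κ ⊕ κ) F where
  toFun g := LinearMap.toMatrix' (D.rl g)
  map_one' := by
    have : D.rl (1 : Matrix κ κ K) = LinearMap.id := by
      apply LinearMap.ext
      intro v
      apply D.co_inj
      rw [co_rl, one_mulVec]
      rfl
    rw [this, LinearMap.toMatrix'_id]
  map_mul' g h := by
    have : D.rl (g * h) = D.rl g ∘ₗ D.rl h := by
      apply LinearMap.ext
      intro v
      apply D.co_inj
      rw [LinearMap.comp_apply, co_rl, co_rl, co_rl, mulVec_mulVec]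
    rw [this, LinearMap.toMatrix'_comp]

theorem rs_mulVec (g : Matrix κ κ K) (v : κ ⊕ κ → F) : D.co (D.rs g *ᵥ v) = g *ᵥ D.co v := by
  have h : D.rs g *ᵥ v = D.rl g v := LinearMap.toMatrix'_mulVec _ _
  rw [h, co_rl]

theorem rs_inj : Function.Injective (D.rs (κ := κ)) := by
  intro g h hgh
  apply Matrix.ext_of_mulVec_single
  intro i
  rw [← D.co_ci (Pi.single i 1), ← rs_mulVec, ← rs_mulVec, hgh]

theorem herm_co {m : ℕ} (u v : Fin m ⊕ Fin m → F) : Cfsg.hermForm m K q (D.co u) (D.co v) =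
    ∑ i, (D.e (u (Sum.inl i)) + D.e (u (Sum.inr i)) * D.ω) * (D.e (v (Sum.inl i)) + D.e (v (Sum.inr i)) * D.σ D.ω) := by
  rw [Cfsg.hermForm]
  refine Finset.sum_congr rfl fun i _ => ?_
  rw [← D.hσ]
  simp only [co, map_add, map_mul, D.fe]

theorem symp_co {m : ℕ} (u v : Fin m ⊕ Fin m → F) : D.e (Cfsg.sympForm m F u v) * (D.σ D.ω - D.ω) =
    Cfsg.hermForm m K q (D.co v) (D.co u) - Cfsg.hermForm m K q (D.co u) (D.co v) := by
  rw [herm_co, herm_co, H5.Conc.sympForm_eq, map_sum, Finset.sum_mul, ← Finset.sum_sub_distrib]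
  refine Finset.sum_congr rfl fun i _ => ?_
  rw [map_sub, map_mul, map_mul]
  ring

theorem rs_symp {m : ℕ} {g : Matrix (Fin m) (Fin m) K}
    (hg : ∀ u v, Cfsg.hermForm m K q (g *ᵥ u) (g *ᵥ v) = Cfsg.hermForm m K q u v) :
    D.rs g ∈ Matrix.symplecticGroup (Fin m) F := by
  rw [H5.Conc.mem_symplecticGroup_iff]
  intro u v
  apply D.e.injective
  apply mul_right_cancel₀ D.sub_ne
  rw [symp_co, symp_co, rs_mulVec, rs_mulVec, hg, hg]

include D in
theorem gu_symp (m : ℕ) : ∃ φ : ↥(Cfsg.GU m K q) →* ↥(Matrix.symplecticGroup (Fin m) F), Function.Injective φ := by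
  refine ⟨((D.rs.comp (Units.coeHom _)).comp (Subgroup.subtype (Cfsg.GU m K q))).codRestrict _
    (fun g => D.rs_symp (PSU.mem_GU.mp g.2)), ?_⟩
  intro g g' hg
  exact Subtype.ext (Units.ext (D.rs_inj (congrArg Subtype.val hg)))

/-- the trace form of the standard hermitian form. -/
noncomputable def Qh (F : Type*) [Field F] (m : ℕ) (T N : F) : QuadraticForm F (Fin m ⊕ Fin m → F) :=
  ∑ i : Fin m, (QuadraticMap.linMulLin (LinearMap.proj (Sum.inl i)) (LinearMap.proj (Sum.inl i))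
    + T • QuadraticMap.linMulLin (LinearMap.proj (Sum.inl i)) (LinearMap.proj (Sum.inr i))
    + N • QuadraticMap.linMulLin (LinearMap.proj (Sum.inr i)) (LinearMap.proj (Sum.inr i)))

omit [Field K] in
theorem Qh_apply {m : ℕ} (T N : F) (v : Fin m ⊕ Fin m → F) : Qh F m T N v =
    ∑ i, (v (Sum.inl i) ^ 2 + T * (v (Sum.inl i) * v (Sum.inr i)) + N * v (Sum.inr i) ^ 2) := by
  rw [Qh, QuadraticMap.sum_apply]
  refine Finset.sum_congr rfl fun i _ => ?_
  simp only [QuadraticMap.add_apply, QuadraticMap.smul_apply, QuadraticMap.linMulLin_apply, LinearMap.proj_apply,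
    smul_eq_mul]
  ring

omit [Field K] in
theorem Qh_polar {m : ℕ} (T N : F) (u v : Fin m ⊕ Fin m → F) : polar (Qh F m T N) u v =
    ∑ i, (2 * u (Sum.inl i) * v (Sum.inl i) + T * (u (Sum.inl i) * v (Sum.inr i) + v (Sum.inl i) * u (Sum.inr i))
      + 2 * N * u (Sum.inr i) * v (Sum.inr i)) := by
  rw [polar, Qh_apply, Qh_apply, Qh_apply, ← Finset.sum_sub_distrib, ← Finset.sum_sub_distrib]
  refine Finset.sum_congr rfl fun i _ => ?_
  simp only [Pi.add_apply]
  ring

theorem disc_ne {T N : F} (hT : D.e T = D.ω + D.σ D.ω) (hN : D.e N = D.ω * D.σ D.ω) : 4 * N - T ^ 2 ≠ 0 := by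
  intro h
  have h1 := congrArg D.e h
  rw [map_sub, map_mul, map_pow, map_zero, hT, hN, map_ofNat] at h1
  have h2 : (D.σ D.ω - D.ω) ^ 2 = 0 := by linear_combination -h1
  exact D.sub_ne (pow_eq_zero_iff two_ne_zero |>.mp h2)

omit [Field K] in
theorem nd_Qh (m : ℕ) {T N : F} (hd : 4 * N - T ^ 2 ≠ 0) : (QuadraticMap.polarBilin (Qh F m T N)).Nondegenerate := by
  apply Quad.nd_of
  intro x hx
  have key : ∀ i, x (Sum.inl i) = 0 ∧ x (Sum.inr i) = 0 := by
    intro i
    have h0 := hx (Pi.single (Sum.inl i) 1)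
    have h1 := hx (Pi.single (Sum.inr i) 1)
    rw [Qh_polar] at h0 h1
    simp [Pi.single_apply, Finset.sum_add_distrib] at h0 h1
    constructor
    · have : (4 * N - T ^ 2) * x (Sum.inl i) = 0 := by linear_combination 2 * N * h0 - T * h1
      exact (mul_eq_zero.1 this).resolve_left hd
    · have : (4 * N - T ^ 2) * x (Sum.inr i) = 0 := by linear_combination 2 * h1 - T * h0
      exact (mul_eq_zero.1 this).resolve_left hd
  funext i
  rcases i with i | i
  · exact (key i).1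
  · exact (key i).2

theorem e_Qh {m : ℕ} {T N : F} (hT : D.e T = D.ω + D.σ D.ω) (hN : D.e N = D.ω * D.σ D.ω) (v : Fin m ⊕ Fin m → F) :
    D.e (Qh F m T N v) = Cfsg.hermForm m K q (D.co v) (D.co v) := by
  rw [herm_co, Qh_apply, map_sum]
  refine Finset.sum_congr rfl fun i _ => ?_
  rw [map_add, map_add, map_mul, map_mul, map_mul, map_pow, map_pow, hT, hN]
  ring

theorem rs_iso {m : ℕ} {T N : F} (hT : D.e T = D.ω + D.σ D.ω) (hN : D.e N = D.ω * D.σ D.ω) {g : Matrix (Fin m) (Fin m) K}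
    (hg : ∀ u v, Cfsg.hermForm m K q (g *ᵥ u) (g *ᵥ v) = Cfsg.hermForm m K q u v) (v : Fin m ⊕ Fin m → F) :
    Qh F m T N (D.rs g *ᵥ v) = Qh F m T N v := by
  apply D.e.injective
  rw [D.e_Qh hT hN, D.e_Qh hT hN, rs_mulVec, hg]

theorem gu_iso (m : ℕ) {T N : F} (hT : D.e T = D.ω + D.σ D.ω) (hN : D.e N = D.ω * D.σ D.ω) :
    ∃ φ : ↥(Cfsg.GU m K q) →* ↥(Cfsg.isometryGroup F ⇑(Qh F m T N)), Function.Injective φ := by
  refine ⟨((Units.map D.rs).comp (Subgroup.subtype (Cfsg.GU m K q))).codRestrict _ (fun g => ?_), ?_⟩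
  · rw [Quad.mem_isometryGroup]
    exact D.rs_iso hT hN (PSU.mem_GU.mp g.2)
  · intro g g' hg
    exact Subtype.ext (Units.ext (D.rs_inj (congrArg (fun x => (Units.val (Subtype.val x))) hg)))

/-- the totally singular subspace in even dimension. -/
noncomputable def tsL (k : ℕ) (l : K) : (Fin k ⊕ Fin k → F) →ₗ[F] (Fin (k + k) ⊕ Fin (k + k) → F) where
  toFun z := D.ci (Fin.append (D.co z) (l • D.co z))
  map_add' z w := by
    apply D.co_inj
    rw [D.co_ci, D.co_add, D.co_add, D.co_ci, D.co_ci]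
    funext i
    refine Fin.addCases (fun j => ?_) (fun j => ?_) i
    · rw [Pi.add_apply, Fin.append_left, Fin.append_left, Fin.append_left, Pi.add_apply]
    · rw [Pi.add_apply, Fin.append_right, Fin.append_right, Fin.append_right, smul_add, Pi.add_apply]
  map_smul' c z := by
    apply D.co_inj
    rw [RingHom.id_apply, D.co_ci, D.co_smul, D.co_smul, D.co_ci]
    funext i
    refine Fin.addCases (fun j => ?_) (fun j => ?_) i
    · rw [Pi.smul_apply, Fin.append_left, Fin.append_left, Pi.smul_apply]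
    · rw [Pi.smul_apply, Fin.append_right, Fin.append_right, smul_comm, Pi.smul_apply]

theorem co_tsL (k : ℕ) (l : K) (z : Fin k ⊕ Fin k → F) : D.co (D.tsL k l z) = Fin.append (D.co z) (l • D.co z) :=
  D.co_ci _

theorem Qh_isPlus [Finite F] (k : ℕ) {T N : F} (hT : D.e T = D.ω + D.σ D.ω) (hN : D.e N = D.ω * D.σ D.ω) {l : K}
    (hl : l * l ^ q = -1) : Quad.IsPlus (Qh F (k + k) T N) (k + k) := by
  refine Quad.isPlus_of_ts (nd_Qh _ (D.disc_ne hT hN)) ?_ (U := LinearMap.range (D.tsL k l)) ?_ ?_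
  · rw [Module.finrank_fintype_fun_eq_card, Fintype.card_sum, Fintype.card_fin]; ring
  · rintro _ ⟨z, rfl⟩
    apply D.e.injective
    rw [D.e_Qh hT hN, co_tsL, map_zero, Cfsg.hermForm, Fin.sum_univ_add]
    simp only [Fin.append_left, Fin.append_right, Pi.smul_apply, smul_eq_mul]
    rw [← Finset.sum_add_distrib]
    refine Finset.sum_eq_zero fun i _ => ?_
    rw [mul_pow]
    linear_combination D.co z i * D.co z i ^ q * hl
  · rw [LinearMap.finrank_range_of_inj, Module.finrank_fintype_fun_eq_card, Fintype.card_sum, Fintype.card_fin]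
    intro z w h
    apply D.co_inj
    have h1 := congrArg D.co h
    rw [co_tsL, co_tsL] at h1
    funext i
    have := congrFun h1 (Fin.castAdd k i)
    simpa using this

/-- adding one more coordinate. -/
noncomputable def lastL {m : ℕ} (φ : (Fin m ⊕ Fin m → F) ≃ₗ[F] (Fin m ⊕ Fin m → F)) :
    (Fin (m + 1) ⊕ Fin (m + 1) → F) →ₗ[F] ((Fin m ⊕ Fin m) ⊕ Fin 2 → F) where
  toFun v := Sum.elim (φ (fun s => v (Sum.map Fin.castSucc Fin.castSucc s))) ![v (Sum.inl (Fin.last m)), v (Sum.inr (Fin.last m))]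
  map_add' v w := by
    funext i
    rcases i with i | i
    · have : (fun s => (v + w) (Sum.map Fin.castSucc Fin.castSucc s)) =
          (fun s => v (Sum.map Fin.castSucc Fin.castSucc s)) + (fun s => w (Sum.map Fin.castSucc Fin.castSucc s)) := rfl
      rw [Sum.elim_inl, this, _root_.map_add]
      rfl
    · fin_cases i <;> rfl
  map_smul' c v := by
    funext i
    rcases i with i | i
    · have : (fun s => (c • v) (Sum.map Fin.castSucc Fin.castSucc s)) =
          c • (fun s => v (Sum.map Fin.castSucc Fin.castSucc s)) := rfl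
      rw [Sum.elim_inl, this, _root_.map_smul]
      rfl
    · fin_cases i <;> rfl

theorem lastL_inj {m : ℕ} (φ : (Fin m ⊕ Fin m → F) ≃ₗ[F] (Fin m ⊕ Fin m → F)) : Function.Injective (lastL φ) := by
  rw [← LinearMap.ker_eq_bot, LinearMap.ker_eq_bot']
  intro v hv
  have h1 : φ (fun s => v (Sum.map Fin.castSucc Fin.castSucc s)) = 0 := by
    funext i
    exact congrFun hv (Sum.inl i)
  have h2 : (fun s => v (Sum.map Fin.castSucc Fin.castSucc s)) = 0 := by rwa [LinearEquiv.map_eq_zero_iff] at h1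
  have h3 : v (Sum.inl (Fin.last m)) = 0 := congrFun hv (Sum.inr 0)
  have h4 : v (Sum.inr (Fin.last m)) = 0 := congrFun hv (Sum.inr 1)
  funext i
  rcases i with i | i
  · refine Fin.lastCases h3 (fun j => ?_) i
    exact congrFun h2 (Sum.inl j)
  · refine Fin.lastCases h4 (fun j => ?_) i
    exact congrFun h2 (Sum.inr j)

theorem lastL_Q {m : ℕ} {T N : F} (φ : (Fin m ⊕ Fin m → F) ≃ₗ[F] (Fin m ⊕ Fin m → F))
    (hφ : ∀ v, Quad.plusQ F m (φ v) = Qh F m T N v) (v : Fin (m + 1) ⊕ Fin (m + 1) → F) :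
    Quad.minusQ F m T N (lastL φ v) = Qh F (m + 1) T N v := by
  rw [Quad.minusQ_apply, Cfsg.quadFormMinus, Qh_apply, Fin.sum_univ_castSucc]
  have h1 := hφ (fun s => v (Sum.map Fin.castSucc Fin.castSucc s))
  rw [Quad.plusQ_apply, Cfsg.quadFormPlus, Qh_apply] at h1
  have h2 : ∀ i, lastL φ v (Sum.inl i) = φ (fun s => v (Sum.map Fin.castSucc Fin.castSucc s)) i := fun i => rfl
  have h3 : lastL φ v (Sum.inr 0) = v (Sum.inl (Fin.last m)) := rfl
  have h4 : lastL φ v (Sum.inr 1) = v (Sum.inr (Fin.last m)) := rfl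
  simp only [h2, h3, h4]
  rw [h1]
  simp only [Sum.map_inl, Sum.map_inr]
  ring

theorem an_TN {T N : F} (hT : D.e T = D.ω + D.σ D.ω) (hN : D.e N = D.ω * D.σ D.ω) (x y : F)
    (h : x ^ 2 + T * x * y + N * y ^ 2 = 0) : x = 0 ∧ y = 0 := by
  have h1 := congrArg D.e h
  simp only [map_add, map_mul, map_pow, map_zero, hT, hN] at h1
  have h2 : (D.e x + D.e y * D.ω) * (D.e x + D.e y * D.σ D.ω) = 0 := by linear_combination h1
  rcases mul_eq_zero.mp h2 with h3 | h3
  · exact D.indep h3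
  · have hω' : D.σ D.ω ∉ Set.range D.e := by
      intro h4
      have h5 := (D.hfix _).mpr h4
      apply D.hω
      have h6 : D.σ D.ω = D.ω := D.σ.injective h5
      rwa [h6] at h4
    by_cases hy : y = 0
    · subst hy
      rw [map_zero, zero_mul, add_zero, map_eq_zero] at h3
      exact ⟨h3, rfl⟩
    · exfalso
      apply hω'
      refine ⟨-x / y, ?_⟩
      have h1 : D.e y ≠ 0 := by rwa [Ne, map_eq_zero]
      rw [map_div₀, map_neg, div_eq_iff h1]
      linear_combination -h3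

end QD

theorem gu_plus {F K : Type*} [Field F] [Fintype F] [Field K] [Fintype K] {q : ℕ} (hF : Fintype.card F = q)
    (hK : Fintype.card K = q ^ 2) (k : ℕ) : ∃ T N : F, (∀ x y : F, x ^ 2 + T * x * y + N * y ^ 2 = 0 → x = 0 ∧ y = 0) ∧
      Quad.IsPlus (QD.Qh F (k + k) T N) (k + k) ∧
      ∀ m, ∃ φ : ↥(Cfsg.GU m K q) →* ↥(Cfsg.isometryGroup F ⇑(QD.Qh F m T N)), Function.Injective φ := by
  obtain ⟨D⟩ := exists_QD hF hK
  obtain ⟨T, N, hT, hN⟩ := D.σσ (fun a => by rw [D.hσ, D.hσ, ← pow_mul, ← sq, ← hK, FiniteField.pow_card])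
  obtain ⟨l, hl⟩ := H5.Fld.exists_norm_eq hK (-1 : K) (by rw [← D.hσ, map_neg, map_one])
  exact ⟨T, N, D.an_TN hT hN, D.Qh_isPlus k hT hN (l := l) (by rw [← hl]; ring), fun m => D.gu_iso m hT hN⟩

end Cfsg.Agent.H16.Emb
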