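import Cfsg.Agent.H16_Quad6

/-! Quadratic forms over the field of two elements. -/

set_option autoImplicit false
set_option linter.unusedSectionVars false

namespace Cfsg.Agent.H16.Quad

open Module
open QuadraticMap (polar)

theorem card_dot_zero (m : ℕ) (x : Fin m → ZMod 2) (hx : x ≠ 0) :
    2 * Nat.card {y : Fin m → ZMod 2 // ∑ i, x i * y i = 0} = 2 ^ m := by
  classical
  obtain ⟨i, hi⟩ : ∃ i, x i ≠ 0 := by
    by_contra hcon
    push Not at hcon
    exact hx (funext hcon)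
  have hi1 : x i = 1 := by
    have : ∀ a : ZMod 2, a ≠ 0 → a = 1 := by decide
    exact this _ hi
  have hflip : ∀ y : Fin m → ZMod 2, ∑ j, x j * (y + Pi.single i 1 : Fin m → ZMod 2) j = ∑ j, x j * y j + 1 := by
    intro y
    have : ∀ j, x j * (y + Pi.single i 1 : Fin m → ZMod 2) j = x j * y j + x j * (Pi.single i (1 : ZMod 2) : Fin m → ZMod 2) j := by
      intro j; rw [Pi.add_apply]; ring
    rw [Finset.sum_congr rfl fun j _ => this j, Finset.sum_add_distrib]
    congr 1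
    rw [Finset.sum_eq_single i]
    · simp [hi1]
    · intro j _ hj; simp [hj]
    · simp
  have htwo : ∀ y : Fin m → ZMod 2, y + Pi.single i 1 + Pi.single i 1 = y := by
    intro y
    ext j
    simp only [Pi.add_apply]
    have : ∀ a b : ZMod 2, a + b + b = a := by decide
    exact this _ _
  have h01 : ∀ a : ZMod 2, a + 1 = 0 ↔ a ≠ 0 := by decide
  have h01' : ∀ a : ZMod 2, ¬ (a + 1 = 0) ↔ a = 0 := by decide
  let e : {y : Fin m → ZMod 2 // ∑ i, x i * y i = 0} ≃ {y : Fin m → ZMod 2 // ¬ ∑ i, x i * y i = 0} :=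
    { toFun := fun y => ⟨y.1 + Pi.single i 1, (by rw [hflip]; exact (h01' _).2 y.2)⟩
      invFun := fun y => ⟨y.1 + Pi.single i 1, (by rw [hflip]; exact (h01 _).2 y.2)⟩
      left_inv := fun y => Subtype.ext (htwo y.1)
      right_inv := fun y => Subtype.ext (htwo y.1) }
  have h1 := Nat.card_congr e
  have h2 := Fintype.card_subtype_compl (fun y : Fin m → ZMod 2 => ∑ i, x i * y i = 0)
  have h3 := Fintype.card_subtype_le (fun y : Fin m → ZMod 2 => ∑ i, x i * y i = 0)
  rw [Nat.card_eq_fintype_card, Nat.card_eq_fintype_card] at h1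
  rw [Nat.card_eq_fintype_card]
  have h4 : Fintype.card (Fin m → ZMod 2) = 2 ^ m := by simp
  rw [h4] at h2 h3
  omega

/-- number of zeros of the hyperbolic form -/
theorem card_zeros_plus (m : ℕ) : 2 * Nat.card {v : Fin m ⊕ Fin m → ZMod 2 // Cfsg.quadFormPlus m (ZMod 2) v = 0} =
    4 ^ m + 2 ^ m := by
  classical
  have h1 : Nat.card {v : Fin m ⊕ Fin m → ZMod 2 // Cfsg.quadFormPlus m (ZMod 2) v = 0} =
      ∑ x : Fin m → ZMod 2, Nat.card {y : Fin m → ZMod 2 // ∑ i, x i * y i = 0} := by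
    have e : {v : Fin m ⊕ Fin m → ZMod 2 // Cfsg.quadFormPlus m (ZMod 2) v = 0} ≃
        Σ x : Fin m → ZMod 2, {y : Fin m → ZMod 2 // ∑ i, x i * y i = 0} :=
      { toFun := fun v => ⟨fun i => v.1 (Sum.inl i), fun i => v.1 (Sum.inr i), v.2⟩
        invFun := fun p => ⟨Sum.elim p.1 p.2.1, p.2.2⟩
        left_inv := fun v => Subtype.ext (by ext k; rcases k with k | k <;> rfl)
        right_inv := fun p => rfl }
    rw [Nat.card_congr e, Nat.card_sigma]
  rw [h1, Finset.mul_sum, ← Finset.add_sum_erase _ _ (Finset.mem_univ (0 : Fin m → ZMod 2))]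
  rw [Finset.sum_congr rfl fun x hx => card_dot_zero m x (Finset.mem_erase.1 hx).1]
  have h2 : Nat.card {y : Fin m → ZMod 2 // ∑ i, (0 : Fin m → ZMod 2) i * y i = 0} = 2 ^ m := by
    have : {y : Fin m → ZMod 2 // ∑ i, (0 : Fin m → ZMod 2) i * y i = 0} ≃ (Fin m → ZMod 2) :=
      Equiv.subtypeUnivEquiv (fun y => by simp)
    rw [Nat.card_congr this]; simp
  rw [h2, Finset.sum_const, Finset.card_erase_of_mem (Finset.mem_univ _), Finset.card_univ]
  have h3 : Fintype.card (Fin m → ZMod 2) = 2 ^ m := by simp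
  rw [h3, smul_eq_mul]
  have h4 : (4 : ℕ) ^ m = 2 ^ m * 2 ^ m := by rw [← mul_pow]; norm_num
  have h5 : 1 ≤ 2 ^ m := Nat.one_le_two_pow
  rw [h4]
  obtain ⟨k, hk⟩ : ∃ k, 2 ^ m = k + 1 := ⟨2 ^ m - 1, by omega⟩
  rw [hk]; simp; ring

variable {m : ℕ}

/-- functions polarising to the hyperbolic form -/
def IsPol (m : ℕ) (q : (Fin m ⊕ Fin m → ZMod 2) → ZMod 2) : Prop :=
  ∀ u v, q (u + v) = q u + q v + polar (plusQ (ZMod 2) m) u v

theorem isPol_zero {q : (Fin m ⊕ Fin m → ZMod 2) → ZMod 2} (hq : IsPol m q) : q 0 = 0 := by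
  have := hq 0 0
  rw [add_zero] at this
  simp only [QuadraticMap.polar_zero_right, add_zero] at this
  have h : ∀ a : ZMod 2, a = a + a → a = 0 := by decide
  exact h _ this

/-- `q_u = q_0 + f(·,u)` -/
noncomputable def qu (m : ℕ) (u : Fin m ⊕ Fin m → ZMod 2) : (Fin m ⊕ Fin m → ZMod 2) → ZMod 2 :=
  fun v => plusQ (ZMod 2) m v + polar (plusQ (ZMod 2) m) v u

theorem isPol_plus : IsPol m (plusQ (ZMod 2) m) := fun u v => map_add _ u v

theorem isPol_shift {q : (Fin m ⊕ Fin m → ZMod 2) → ZMod 2} (hq : IsPol m q) (w : Fin m ⊕ Fin m → ZMod 2) :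
    IsPol m (fun v => q v + polar (plusQ (ZMod 2) m) v w) := by
  intro u v
  simp only
  rw [hq, QuadraticMap.polar_add_left]; ring

theorem isPol_qu (u : Fin m ⊕ Fin m → ZMod 2) : IsPol m (qu m u) := isPol_shift isPol_plus u

theorem qu_zero : qu m 0 = plusQ (ZMod 2) m := by
  funext v; simp [qu]

theorem exists_qu {q : (Fin m ⊕ Fin m → ZMod 2) → ZMod 2} (hq : IsPol m q) : ∃! u, q = qu m u := by
  have hQ := nd_plusQ (F := ZMod 2) m
  let φ : (Fin m ⊕ Fin m → ZMod 2) →+ ZMod 2 :=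
    { toFun := fun v => q v - plusQ (ZMod 2) m v
      map_zero' := by simp [isPol_zero hq]
      map_add' := fun u v => by rw [hq, map_add]; ring }
  obtain ⟨u, hu⟩ := nd_exists_functional hQ (φ.toZModLinearMap 2)
  have hu' : ∀ x, polar (plusQ (ZMod 2) m) u x = q x - plusQ (ZMod 2) m x := hu
  refine ⟨u, ?_, ?_⟩
  · funext v
    rw [qu, polar_symm, hu']; ring
  · intro u' hu'2
    have h1 : ∀ x, polar (plusQ (ZMod 2) m) (u' - u) x = 0 := by
      intro x
      rw [QuadraticMap.polar_sub_left, hu', hu'2]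
      simp only [qu]
      rw [polar_symm]; ring
    exact sub_eq_zero.1 (nd_eq_zero hQ h1)

/-- zeros count -/
noncomputable def NZ (q : (Fin m ⊕ Fin m → ZMod 2) → ZMod 2) : ℕ := Nat.card {v // q v = 0}

theorem shift_eq {q : (Fin m ⊕ Fin m → ZMod 2) → ZMod 2} (hq : IsPol m q) (w v : Fin m ⊕ Fin m → ZMod 2) :
    q v + polar (plusQ (ZMod 2) m) v w = q (v + w) + q w := by
  rw [hq]
  have : ∀ a b c : ZMod 2, a + c = a + b + c + b := by decide
  exact this _ _ _

theorem NZ_shift_zero {q : (Fin m ⊕ Fin m → ZMod 2) → ZMod 2} (hq : IsPol m q) {w : Fin m ⊕ Fin m → ZMod 2}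
    (hw : q w = 0) : NZ (fun v => q v + polar (plusQ (ZMod 2) m) v w) = NZ q := by
  rw [NZ, NZ]
  apply Nat.card_congr
  refine (Equiv.addRight w).subtypeEquiv fun v => ?_
  rw [shift_eq hq, hw, add_zero]; rfl

theorem NZ_shift_one {q : (Fin m ⊕ Fin m → ZMod 2) → ZMod 2} (hq : IsPol m q) {w : Fin m ⊕ Fin m → ZMod 2}
    (hw : q w = 1) : NZ (fun v => q v + polar (plusQ (ZMod 2) m) v w) + NZ q = 4 ^ m := by
  classical
  have h1 : NZ (fun v => q v + polar (plusQ (ZMod 2) m) v w) = Nat.card {v // ¬ q v = 0} := by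
    rw [NZ]
    apply Nat.card_congr
    refine (Equiv.addRight w).subtypeEquiv fun v => ?_
    rw [shift_eq hq, hw]
    have : ∀ a : ZMod 2, a + 1 = 0 ↔ ¬ a = 0 := by decide
    rw [this]; rfl
  rw [h1, NZ, Nat.card_eq_fintype_card, Nat.card_eq_fintype_card]
  have h2 := Fintype.card_subtype_compl (fun v => q v = 0)
  have h3 := Fintype.card_subtype_le (fun v => q v = 0)
  have h4 : Fintype.card (Fin m ⊕ Fin m → ZMod 2) = 4 ^ m := by
    rw [Fintype.card_fun, ZMod.card, Fintype.card_sum, Fintype.card_fin, ← two_mul, pow_mul]; norm_num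
  rw [h4] at h2 h3
  omega

theorem NZ_plus : 2 * NZ (plusQ (ZMod 2) m) = 4 ^ m + 2 ^ m := by
  rw [← card_zeros_plus, NZ]
  simp only [plusQ_apply]

theorem zmod2_cases (a : ZMod 2) : a = 0 ∨ a = 1 := by revert a; decide

theorem NZ_ne_half {q : (Fin m ⊕ Fin m → ZMod 2) → ZMod 2} (hq : IsPol m q) : 2 * NZ q ≠ 4 ^ m := by
  obtain ⟨u, rfl, -⟩ := exists_qu hq
  have h0 := NZ_plus (m := m)
  have hpos : 0 < 2 ^ m := by positivity
  rcases zmod2_cases (plusQ (ZMod 2) m u) with h | h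
  · have : NZ (qu m u) = _ := NZ_shift_zero isPol_plus h
    rw [this]; omega
  · have : NZ (qu m u) + _ = _ := NZ_shift_one isPol_plus h
    omega

/-- `q + f(·,w)` is isometric to `q` iff `q w = 0`. -/
theorem shift_isom_iff {q : (Fin m ⊕ Fin m → ZMod 2) → ZMod 2} (hq : IsPol m q) (w : Fin m ⊕ Fin m → ZMod 2) :
    (∃ g : (Fin m ⊕ Fin m → ZMod 2) ≃ₗ[ZMod 2] (Fin m ⊕ Fin m → ZMod 2),
      ∀ v, q v + polar (plusQ (ZMod 2) m) v w = q (g v)) ↔ q w = 0 := by
  constructor
  · rintro ⟨g, hg⟩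
    rcases zmod2_cases (q w) with h | h
    · exact h
    · exfalso
      have h1 := NZ_shift_one hq h
      have h2 : NZ (fun v => q v + polar (plusQ (ZMod 2) m) v w) = NZ q := by
        rw [NZ, NZ]
        exact Nat.card_congr (g.toEquiv.subtypeEquiv fun v => by rw [hg]; rfl)
      exact NZ_ne_half hq (by rw [h2] at h1; omega)
  · intro hw
    let T : (Fin m ⊕ Fin m → ZMod 2) →ₗ[ZMod 2] (Fin m ⊕ Fin m → ZMod 2) :=
      LinearMap.id + (LinearMap.toSpanSingleton (ZMod 2) _ w).comp ((QuadraticMap.polarBilin (plusQ (ZMod 2) m)).flip w)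
    have hT : ∀ v, T v = v + polar (plusQ (ZMod 2) m) v w • w := fun v => rfl
    have hww : polar (plusQ (ZMod 2) m) w w = 0 := by
      rw [polar_self]
      have : (2 : ZMod 2) = 0 := by decide
      rw [this, zero_mul]
    have hinv : Function.Involutive T := by
      intro v
      rw [hT, hT, QuadraticMap.polar_add_left, polar_smul_left, hww, mul_zero, add_zero, add_assoc, ← add_smul]
      have : ∀ a : ZMod 2, a + a = 0 := by decide
      rw [this, zero_smul, add_zero]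
    refine ⟨LinearEquiv.ofInvolutive T hinv, fun v => ?_⟩
    show _ = q (T v)
    rw [hT, hq, polar_smul_right]
    rcases zmod2_cases (polar (plusQ (ZMod 2) m) v w) with h | h <;> rw [h]
    · simp [isPol_zero hq]
    · simp [hw]

/-- the quadratic form underlying `q_u` -/
noncomputable def quF (m : ℕ) (u : Fin m ⊕ Fin m → ZMod 2) : QuadraticForm (ZMod 2) (Fin m ⊕ Fin m → ZMod 2) :=
  plusQ (ZMod 2) m + QuadraticMap.linMulLin ((QuadraticMap.polarBilin (plusQ (ZMod 2) m)).flip u)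
    ((QuadraticMap.polarBilin (plusQ (ZMod 2) m)).flip u)

theorem coe_quF (u : Fin m ⊕ Fin m → ZMod 2) : ⇑(quF m u) = qu m u := by
  funext v
  rw [quF, QuadraticMap.add_apply, QuadraticMap.linMulLin_apply]
  show _ + polar _ v u * polar _ v u = _
  have : ∀ a : ZMod 2, a * a = a := by decide
  rw [this]; rfl

theorem polar_quF (u x y : Fin m ⊕ Fin m → ZMod 2) : polar (quF m u) x y = polar (plusQ (ZMod 2) m) x y := by
  have := isPol_qu u x y
  rw [polar, coe_quF, this]; ring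

theorem nd_quF (u : Fin m ⊕ Fin m → ZMod 2) : (QuadraticMap.polarBilin (quF m u)).Nondegenerate := by
  apply nd_of
  intro x hx
  apply nd_eq_zero (nd_plusQ (F := ZMod 2) m)
  intro y
  rw [← polar_quF u]; exact hx y

end Cfsg.Agent.H16.Quad
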