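import Cfsg.Agent.H16_Emb2
import Cfsg.Agent.H16_CjR
import Cfsg.Agent.H16_Cnt

set_option autoImplicit false

/-! Centralizers of fixed-point-free elements of order three in symplectic groups. -/

namespace Cfsg.Agent.H16.Fpf

open Matrix Module Polynomial Cfsg.Agent.H16.Emb

section Coords

variable {F : Type*} [Field F] {V : Type*} [AddCommGroup V] [Module F V] [FiniteDimensional F V]

theorem coords (T : End F V) {π : F[X]} (hπ : Irreducible π) (h : aeval T π = 0) {d : ℕ}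
    (hd : d * π.natDegree = finrank F V) :
    ∃ E : V ≃ₗ[F] (Fin d → AdjoinRoot π), ∀ v i, E (T v) i = AdjoinRoot.root π * E v i := by
  have hfact : Fact (Irreducible π) := ⟨hπ⟩
  let ρ : AdjoinRoot π →ₐ[F] End F V := Ideal.Quotient.liftₐ (Ideal.span {π}) (aeval T) (by
    intro a ha
    obtain ⟨b, rfl⟩ := Ideal.mem_span_singleton.mp ha
    rw [_root_.map_mul, h, zero_mul])
  have hρ : ρ (AdjoinRoot.root π) = T := by
    change aeval T X = T
    rw [aeval_X]
  let _ : Module (AdjoinRoot π) V := Module.compHom V (ρ : AdjoinRoot π →+* End F V)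
  have hsm : ∀ (k : AdjoinRoot π) (v : V), k • v = ρ k v := fun k v => rfl
  have ht : IsScalarTower F (AdjoinRoot π) V := ⟨fun a k v => by
    rw [hsm, hsm, _root_.map_smul]
    rfl⟩
  have hfd : Module.Finite (AdjoinRoot π) V := Module.Finite.of_restrictScalars_finite F (AdjoinRoot π) V
  have h1 : finrank F (AdjoinRoot π) = π.natDegree := by
    rw [(AdjoinRoot.powerBasis hπ.ne_zero).finrank, AdjoinRoot.powerBasis_dim]
  have h2 : finrank (AdjoinRoot π) V = d := by
    have h3 := Module.finrank_mul_finrank F (AdjoinRoot π) V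
    rw [h1, ← hd, mul_comm] at h3
    have h4 : 0 < π.natDegree := hπ.natDegree_pos
    exact Nat.eq_of_mul_eq_mul_right h4 h3
  let b : Basis (Fin d) (AdjoinRoot π) V := Module.finBasisOfFinrankEq (AdjoinRoot π) V h2
  let E := b.equivFun.restrictScalars F
  refine ⟨E, fun v i => ?_⟩
  have h3 : T v = AdjoinRoot.root π • v := by rw [hsm, hρ]
  rw [h3]
  change b.equivFun (AdjoinRoot.root π • v) i = _
  rw [_root_.map_smul]
  rfl

theorem conj_of_poly {X Y : End F V} {π : F[X]} (hπ : Irreducible π) (hX : aeval X π = 0) (hY : aeval Y π = 0) {d : ℕ}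
    (hd : d * π.natDegree = finrank F V) : ∃ P : V ≃ₗ[F] V, ∀ v, P (X v) = Y (P v) := by
  obtain ⟨E, hE⟩ := coords X hπ hX hd
  obtain ⟨E', hE'⟩ := coords Y hπ hY hd
  refine ⟨E ≪≫ₗ E'.symm, fun v => ?_⟩
  apply E'.injective
  funext i
  rw [hE']
  change E' (E'.symm (E (X v))) i = AdjoinRoot.root π * E' (E'.symm (E v)) i
  rw [LinearEquiv.apply_symm_apply, LinearEquiv.apply_symm_apply, hE]

end Coords

section RS

variable {F K : Type*} [Field F] [Field K] {q : ℕ} (D : QD F K q) {m : ℕ}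

theorem mem_of_symp (hq : ∀ a, D.σ (D.σ a) = a) {g : Matrix (Fin m) (Fin m) K} (h : D.rs g ∈ Matrix.symplecticGroup (Fin m) F) :
    ∀ u v, Cfsg.hermForm m K q (g *ᵥ u) (g *ᵥ v) = Cfsg.hermForm m K q u v := by
  rw [H5.Conc.mem_symplecticGroup_iff] at h
  have hherm : ∀ u v, Cfsg.hermForm m K q v u = D.σ (Cfsg.hermForm m K q u v) := by
    intro u v
    rw [Cfsg.hermForm, Cfsg.hermForm, map_sum]
    refine Finset.sum_congr rfl fun i _ => ?_
    rw [map_mul, ← D.hσ (v i), hq, D.hσ (u i), mul_comm]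
  have key : ∀ u v, Cfsg.hermForm m K q (g *ᵥ u) (g *ᵥ v) - Cfsg.hermForm m K q u v =
      Cfsg.hermForm m K q (g *ᵥ v) (g *ᵥ u) - Cfsg.hermForm m K q v u := by
    intro u v
    obtain ⟨x, rfl⟩ := D.co_surj u
    obtain ⟨y, rfl⟩ := D.co_surj v
    have h1 := h x y
    have h2 := D.symp_co x y
    have h3 := D.symp_co (D.rs g *ᵥ x) (D.rs g *ᵥ y)
    rw [h1, h2, D.rs_mulVec, D.rs_mulVec] at h3
    linear_combination h3
  have hfix : ∀ u v, D.σ (Cfsg.hermForm m K q (g *ᵥ u) (g *ᵥ v) - Cfsg.hermForm m K q u v) =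
      Cfsg.hermForm m K q (g *ᵥ u) (g *ᵥ v) - Cfsg.hermForm m K q u v := by
    intro u v
    rw [map_sub, ← hherm, ← hherm, ← key]
  have hsm : ∀ (a : K) (u v : Fin m → K), Cfsg.hermForm m K q (a • u) v = a * Cfsg.hermForm m K q u v := by
    intro a u v
    rw [Cfsg.hermForm, Cfsg.hermForm, Finset.mul_sum]
    refine Finset.sum_congr rfl fun i _ => ?_
    rw [Pi.smul_apply, smul_eq_mul, mul_assoc]
  intro u v
  have h1 := hfix u v
  have h2 := hfix (D.ω • u) v
  rw [Matrix.mulVec_smul, hsm, hsm, ← mul_sub, map_mul, h1] at h2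
  have h3 : (D.σ D.ω - D.ω) * (Cfsg.hermForm m K q (g *ᵥ u) (g *ᵥ v) - Cfsg.hermForm m K q u v) = 0 := by
    linear_combination h2
  exact sub_eq_zero.mp ((mul_eq_zero.mp h3).resolve_left D.sub_ne)

/-- the image of `rs` is the centralizer of `ω`. -/
theorem exists_rs {M : Matrix (Fin m ⊕ Fin m) (Fin m ⊕ Fin m) F}
    (h : M * D.rs (D.ω • (1 : Matrix (Fin m) (Fin m) K)) = D.rs (D.ω • (1 : Matrix (Fin m) (Fin m) K)) * M) :
    ∃ g : Matrix (Fin m) (Fin m) K, D.rs g = M := by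
  have hω : ∀ v : Fin m ⊕ Fin m → F, D.co (D.rs (D.ω • (1 : Matrix (Fin m) (Fin m) K)) *ᵥ v) = D.ω • D.co v := by
    intro v
    rw [D.rs_mulVec, Matrix.smul_mulVec, Matrix.one_mulVec]
  have hM : ∀ v : Fin m ⊕ Fin m → F, D.co (M *ᵥ (D.rs (D.ω • (1 : Matrix (Fin m) (Fin m) K)) *ᵥ v)) = D.ω • D.co (M *ᵥ v) := by
    intro v
    rw [Matrix.mulVec_mulVec, h, ← Matrix.mulVec_mulVec, hω]
  let L : (Fin m → K) →ₗ[K] (Fin m → K) :=
    { toFun := fun z => D.co (M *ᵥ D.ci z)
      map_add' := fun z w => by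
        have h1 : D.ci (z + w) = D.ci z + D.ci w := by
          apply D.co_inj
          rw [D.co_add, D.co_ci, D.co_ci, D.co_ci]
        rw [h1, Matrix.mulVec_add, D.co_add]
      map_smul' := fun a z => by
        obtain ⟨x, y, rfl⟩ := D.span a
        have h1 : D.ci ((D.e x + D.e y * D.ω) • z) = x • D.ci z + y • (D.rs (D.ω • (1 : Matrix (Fin m) (Fin m) K)) *ᵥ D.ci z) := by
          apply D.co_inj
          rw [D.co_add, D.co_smul, D.co_smul, hω, D.co_ci, D.co_ci, add_smul, smul_smul]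
        rw [h1, Matrix.mulVec_add, D.co_add, Matrix.mulVec_smul, Matrix.mulVec_smul, D.co_smul, D.co_smul, hM, RingHom.id_apply,
          add_smul, smul_smul] }
  refine ⟨LinearMap.toMatrix' L, ?_⟩
  apply H5.Symp.ext_mulVec
  intro v
  apply D.co_inj
  rw [D.rs_mulVec, LinearMap.toMatrix'_mulVec]
  change D.co (M *ᵥ D.ci (D.co v)) = _
  congr 2
  apply D.co_inj
  rw [D.co_ci]

end RS

end Cfsg.Agent.H16.Fpf
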