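import Cfsg.Agent.H16_Fpf

set_option autoImplicit false

/-! Centralizers of fixed-point-free elements of order three in symplectic groups. -/

namespace Cfsg.Agent.H16.Fpf

open Matrix Module Polynomial Cfsg.Agent.H16.Emb

variable {F : Type*} [Field F] [Fintype F] {q : ℕ}

theorem three_ne (hF : Fintype.card F = q) (hq : q % 3 = 2) : (3 : F) ≠ 0 := by
  intro h3
  have h1 : ((q : ℕ) : F) = 0 := by rw [← hF]; exact Nat.cast_card_eq_zero F
  have h2 : q = 3 * (q / 3) + 2 := by omega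
  rw [h2] at h1
  push_cast at h1
  rw [h3, zero_mul, zero_add] at h1
  have h4 : (1 : F) = 0 := by linear_combination h3 - h1
  exact one_ne_zero h4

theorem no_root (hF : Fintype.card F = q) (hq : q % 3 = 2) (r : F) : r ^ 2 + r + 1 ≠ 0 := by
  classical
  intro h
  have h3 : r ^ 3 = 1 := by linear_combination (r - 1) * h
  have hr1 : r ≠ 1 := by
    rintro rfl
    apply three_ne hF hq
    linear_combination h
  have hr0 : r ≠ 0 := by
    rintro rfl
    norm_num at h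
  have ho : orderOf (Units.mk0 r hr0) = 3 := by
    apply orderOf_eq_prime
    · apply Units.ext
      rw [Units.val_pow_eq_pow_val]
      exact h3
    · intro h
      exact hr1 (congrArg Units.val h)
  have h4 : orderOf (Units.mk0 r hr0) ∣ Nat.card Fˣ := orderOf_dvd_natCard _
  rw [ho, Nat.card_eq_fintype_card, Fintype.card_units, hF] at h4
  have h5 : 1 < q := by rw [← hF]; exact Fintype.one_lt_card
  omega

theorem natDeg : (X ^ 2 + X + 1 : F[X]).natDegree = 2 := by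
  have : (X ^ 2 + X + 1 : F[X]) = C 1 * X ^ 2 + C 1 * X + C 1 := by simp
  rw [this]
  exact natDegree_quadratic one_ne_zero

theorem irr (hF : Fintype.card F = q) (hq : q % 3 = 2) : Irreducible (X ^ 2 + X + 1 : F[X]) := by
  apply Polynomial.irreducible_of_degree_le_three_of_not_isRoot
  · rw [natDeg]
    simp
  · intro x hx
    apply no_root hF hq x
    simpa [IsRoot] using hx

/-- a field with `q ^ 2` elements containing a cube root of unity. -/
theorem exists_D.{u} {F : Type u} [Field F] [Fintype F] {q : ℕ} (hF : Fintype.card F = q) (hq : q % 3 = 2) : ∃ (K : Type u) (_ : Field K) (_ : Fintype K) (D : QD F K q),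
    Fintype.card K = q ^ 2 ∧ D.ω ^ 2 + D.ω + 1 = 0 := by
  have hirr := irr hF hq
  have hfact : Fact (Irreducible (X ^ 2 + X + 1 : F[X])) := ⟨hirr⟩
  have hfr : finrank F (AdjoinRoot (X ^ 2 + X + 1 : F[X])) = 2 := by
    rw [(AdjoinRoot.powerBasis hirr.ne_zero).finrank, AdjoinRoot.powerBasis_dim, natDeg]
  have hfd : Module.Finite F (AdjoinRoot (X ^ 2 + X + 1 : F[X])) := Module.finite_of_finrank_pos (by omega)
  have hfin : Finite (AdjoinRoot (X ^ 2 + X + 1 : F[X])) := Module.finite_of_finite F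
  have hft : Fintype (AdjoinRoot (X ^ 2 + X + 1 : F[X])) := Fintype.ofFinite _
  have hc : Fintype.card (AdjoinRoot (X ^ 2 + X + 1 : F[X])) = q ^ 2 := by
    have h1 : Nat.card (AdjoinRoot (X ^ 2 + X + 1 : F[X])) = Nat.card F ^ finrank F (AdjoinRoot (X ^ 2 + X + 1 : F[X])) :=
      Module.natCard_eq_pow_finrank
    rw [Nat.card_eq_fintype_card, Nat.card_eq_fintype_card, hF, hfr] at h1
    exact h1
  obtain ⟨D⟩ := exists_QD hF hc
  obtain ⟨ω, hω⟩ : ∃ ω : AdjoinRoot (X ^ 2 + X + 1 : F[X]), ω ^ 2 + ω + 1 = 0 := by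
    refine ⟨AdjoinRoot.root _, ?_⟩
    have h1 := AdjoinRoot.eval₂_root (X ^ 2 + X + 1 : F[X])
    simpa using h1
  have hω' : ω ∉ Set.range D.e := by
    rintro ⟨x, rfl⟩
    apply no_root hF hq x
    apply D.e.injective
    rw [map_add, map_add, map_pow, map_one, map_zero]
    exact hω
  refine ⟨_, inferInstance, hft, ⟨D.e, D.σ, ω, D.hσ, D.hfix, hω', ?_⟩, hc, hω⟩
  obtain ⟨a, b, hab⟩ := D.span ω
  have hb : D.e b ≠ 0 := by
    intro h
    apply hω'
    exact ⟨a, by rw [hab, h, zero_mul, add_zero]⟩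
  intro z
  obtain ⟨x, y, hz⟩ := D.span z
  refine ⟨x - y * a / b, y / b, ?_⟩
  rw [map_sub, map_div₀, map_div₀, map_mul, hz, hab]
  field_simp
  ring

variable {m : ℕ}

theorem cent_card_eq {G : Type*} [Group G] {x y u : G} (h : u * x = y * u) :
    Nat.card (Subgroup.centralizer ({x} : Set G)) = Nat.card (Subgroup.centralizer ({y} : Set G)) := by
  have hy : y = u * x * u⁻¹ := by rw [h, mul_inv_cancel_right]
  subst hy
  refine Nat.card_congr ⟨fun g => ⟨u * g * u⁻¹, ?_⟩, fun g => ⟨u⁻¹ * g * u, ?_⟩, fun g => ?_, fun g => ?_⟩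
  · have h1 := Subgroup.mem_centralizer_singleton_iff.mp g.2
    rw [Subgroup.mem_centralizer_singleton_iff]
    calc u * (g : G) * u⁻¹ * (u * x * u⁻¹) = u * ((g : G) * x) * u⁻¹ := by group
      _ = u * (x * g) * u⁻¹ := by rw [h1]
      _ = u * x * u⁻¹ * (u * g * u⁻¹) := by group
  · have h1 := Subgroup.mem_centralizer_singleton_iff.mp g.2
    rw [Subgroup.mem_centralizer_singleton_iff]
    calc u⁻¹ * (g : G) * u * x = u⁻¹ * ((g : G) * (u * x * u⁻¹)) * u := by group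
      _ = u⁻¹ * ((u * x * u⁻¹) * g) * u := by rw [h1]
      _ = x * (u⁻¹ * g * u) := by group
  · apply Subtype.ext
    change u⁻¹ * (u * g * u⁻¹) * u = g
    group
  · apply Subtype.ext
    change u * (u⁻¹ * g * u) * u⁻¹ = g
    group

theorem cent_gu {K : Type*} [Field K] [Fintype K] (hK : Fintype.card K = q ^ 2) (D : QD F K q) (x₀ : Matrix.symplecticGroup (Fin m) F)
    (hx : (x₀ : Matrix (Fin m ⊕ Fin m) (Fin m ⊕ Fin m) F) = D.rs (D.ω • (1 : Matrix (Fin m) (Fin m) K))) :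
    Nat.card (Cfsg.GU m K q) = Nat.card (Subgroup.centralizer ({x₀} : Set (Matrix.symplecticGroup (Fin m) F))) := by
  have hσσ : ∀ a, D.σ (D.σ a) = a := fun a => by rw [D.hσ, D.hσ, ← pow_mul, ← sq, ← hK, FiniteField.pow_card]
  have hcomm : ∀ g : Matrix (Fin m) (Fin m) K, D.rs g * D.rs (D.ω • (1 : Matrix (Fin m) (Fin m) K)) =
      D.rs (D.ω • (1 : Matrix (Fin m) (Fin m) K)) * D.rs g := by
    intro g
    rw [← map_mul, ← map_mul, Matrix.mul_smul, Matrix.smul_mul, mul_one, one_mul]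
  refine Nat.card_congr (Equiv.ofBijective (fun g : Cfsg.GU m K q => (⟨⟨D.rs ((g : GL (Fin m) K) : Matrix (Fin m) (Fin m) K),
    D.rs_symp (PSU.mem_GU.mp g.2)⟩, Subgroup.mem_centralizer_singleton_iff.mpr (Subtype.ext ?_)⟩ :
      Subgroup.centralizer ({x₀} : Set (Matrix.symplecticGroup (Fin m) F)))) ⟨?_, ?_⟩)
  · change D.rs ((g : GL (Fin m) K) : Matrix (Fin m) (Fin m) K) * (x₀ : Matrix (Fin m ⊕ Fin m) (Fin m ⊕ Fin m) F) =
      (x₀ : Matrix (Fin m ⊕ Fin m) (Fin m ⊕ Fin m) F) * D.rs ((g : GL (Fin m) K) : Matrix (Fin m) (Fin m) K)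
    rw [hx]
    exact hcomm _
  · intro g h hgh
    apply Subtype.ext
    apply Units.ext
    apply D.rs_inj
    exact congrArg (fun z : Subgroup.centralizer ({x₀} : Set (Matrix.symplecticGroup (Fin m) F)) =>
      ((z : Matrix.symplecticGroup (Fin m) F) : Matrix (Fin m ⊕ Fin m) (Fin m ⊕ Fin m) F)) hgh
  · intro y
    have hy := Subgroup.mem_centralizer_singleton_iff.mp y.2
    have hy1 : ((y : Matrix.symplecticGroup (Fin m) F) : Matrix (Fin m ⊕ Fin m) (Fin m ⊕ Fin m) F) * D.rs (D.ω • (1 : Matrix (Fin m) (Fin m) K)) =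
        D.rs (D.ω • (1 : Matrix (Fin m) (Fin m) K)) * ((y : Matrix.symplecticGroup (Fin m) F) : Matrix (Fin m ⊕ Fin m) (Fin m ⊕ Fin m) F) := by
      rw [← hx]
      exact congrArg Subtype.val hy
    have hy' := Subgroup.mem_centralizer_singleton_iff.mp (y⁻¹).2
    have hy1' : ((y⁻¹ : Subgroup.centralizer ({x₀} : Set (Matrix.symplecticGroup (Fin m) F))) : Matrix (Fin m ⊕ Fin m) (Fin m ⊕ Fin m) F) *
        D.rs (D.ω • (1 : Matrix (Fin m) (Fin m) K)) =
        D.rs (D.ω • (1 : Matrix (Fin m) (Fin m) K)) *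
          ((y⁻¹ : Subgroup.centralizer ({x₀} : Set (Matrix.symplecticGroup (Fin m) F))) : Matrix (Fin m ⊕ Fin m) (Fin m ⊕ Fin m) F) := by
      rw [← hx]
      exact congrArg Subtype.val hy'
    obtain ⟨g, hg⟩ := exists_rs D hy1
    obtain ⟨g', hg'⟩ := exists_rs D hy1'
    have h1 : g * g' = 1 := by
      apply D.rs_inj
      rw [map_mul, hg, hg', map_one]
      exact congrArg (fun z : Subgroup.centralizer ({x₀} : Set (Matrix.symplecticGroup (Fin m) F)) =>
        ((z : Matrix.symplecticGroup (Fin m) F) : Matrix (Fin m ⊕ Fin m) (Fin m ⊕ Fin m) F)) (mul_inv_cancel y)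
    have h2 : g' * g = 1 := mul_eq_one_comm.mp h1
    refine ⟨⟨⟨g, g', h1, h2⟩, PSU.mem_GU.mpr (mem_of_symp D hσσ (by rw [hg]; exact (y : Matrix.symplecticGroup (Fin m) F).2))⟩, ?_⟩
    exact Subtype.ext (Subtype.ext hg)


theorem card_cent {m : ℕ} (hF : Fintype.card F = q) (hq : q % 3 = 2)
    (x : Matrix.symplecticGroup (Fin m) F) (hx3 : x ^ 3 = 1)
    (hfpf : IsUnit ((x : Matrix (Fin m ⊕ Fin m) (Fin m ⊕ Fin m) F) - 1)) :
    (Nat.card ↥(Subgroup.centralizer ({x} : Set ↥(Matrix.symplecticGroup (Fin m) F))) : ℤ) =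
      (q : ℤ) ^ (m * (m - 1) / 2) * ∏ i : Fin m, ((q : ℤ) ^ ((i : ℕ) + 1) - (-1) ^ ((i : ℕ) + 1)) := by
  obtain ⟨K, _, _, D, hK, hω⟩ := exists_D hF hq
  have hω3 : D.ω ^ 3 = 1 := by linear_combination (D.ω - 1) * hω
  -- `x ^ 2 + x + 1 = 0`
  have hxm : (x : Matrix (Fin m ⊕ Fin m) (Fin m ⊕ Fin m) F) ^ 2 + x + 1 = 0 := by
    have h1 : (x : Matrix (Fin m ⊕ Fin m) (Fin m ⊕ Fin m) F) ^ 3 = 1 := by
      rw [← SubmonoidClass.coe_pow, hx3]
      rfl
    have h2 : ((x : Matrix (Fin m ⊕ Fin m) (Fin m ⊕ Fin m) F) - 1) * ((x : Matrix (Fin m ⊕ Fin m) (Fin m ⊕ Fin m) F) ^ 2 + x + 1) = 0 := by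
      have : ((x : Matrix (Fin m ⊕ Fin m) (Fin m ⊕ Fin m) F) - 1) * ((x : Matrix (Fin m ⊕ Fin m) (Fin m ⊕ Fin m) F) ^ 2 + x + 1) =
          (x : Matrix (Fin m ⊕ Fin m) (Fin m ⊕ Fin m) F) ^ 3 - 1 := by noncomm_ring
      rw [this, h1, sub_self]
    exact (hfpf.mul_right_eq_zero).mp h2
  -- the standard element
  obtain ⟨X₀, hX₀⟩ : ∃ X₀, X₀ = D.rs (D.ω • (1 : Matrix (Fin m) (Fin m) K)) := ⟨_, rfl⟩
  have hco : ∀ v, D.co (X₀ *ᵥ v) = D.ω • D.co v := by
    intro v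
    rw [hX₀, D.rs_mulVec, Matrix.smul_mulVec, Matrix.one_mulVec]
  have hX₀m : X₀ ^ 2 + X₀ + 1 = 0 := by
    apply H5.Symp.ext_mulVec
    intro v
    apply D.co_inj
    rw [Matrix.add_mulVec, Matrix.add_mulVec, pow_two, ← Matrix.mulVec_mulVec, Matrix.one_mulVec, D.co_add, D.co_add, hco, hco,
      smul_smul, Matrix.zero_mulVec]
    have h1 : D.co (0 : Fin m ⊕ Fin m → F) = 0 := by
      funext i
      simp [QD.co]
    have h2 : (D.ω * D.ω) • D.co v + D.ω • D.co v + D.co v = (D.ω ^ 2 + D.ω + 1) • D.co v := by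
      rw [add_smul, add_smul, one_smul, pow_two]
    rw [h1, h2, hω, zero_smul]
  have hX₀s : X₀ ∈ Matrix.symplecticGroup (Fin m) F := by
    rw [hX₀]
    apply D.rs_symp
    intro u v
    rw [Matrix.smul_mulVec, Matrix.smul_mulVec, Matrix.one_mulVec, Matrix.one_mulVec, Cfsg.hermForm, Cfsg.hermForm]
    refine Finset.sum_congr rfl fun i _ => ?_
    have h1 : D.ω * D.ω ^ q = 1 := by
      have h2 : q + 1 = 3 * (q / 3 + 1) := by omega
      rw [← pow_succ', h2, pow_mul, hω3, one_pow]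
    rw [Pi.smul_apply, Pi.smul_apply, smul_eq_mul, smul_eq_mul, mul_pow]
    linear_combination (u i * v i ^ q) * h1
  -- conjugate in `GL`
  have hpoly : ∀ Y : Matrix (Fin m ⊕ Fin m) (Fin m ⊕ Fin m) F, Y ^ 2 + Y + 1 = 0 →
      aeval (Matrix.toLin' Y : End F (Fin m ⊕ Fin m → F)) (X ^ 2 + X + 1 : F[X]) = 0 := by
    intro Y hY
    rw [map_add, map_add, map_pow, map_one, aeval_X]
    apply LinearMap.ext
    intro v
    rw [LinearMap.add_apply, LinearMap.add_apply, pow_two, Module.End.mul_apply, Module.End.one_apply, Matrix.toLin'_apply,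
      Matrix.toLin'_apply, LinearMap.zero_apply, Matrix.mulVec_mulVec, ← pow_two]
    have h1 := congrArg (fun Z => Z *ᵥ v) hY
    simp only [Matrix.add_mulVec, Matrix.one_mulVec, Matrix.zero_mulVec] at h1
    exact h1
  obtain ⟨P, hP⟩ := conj_of_poly (irr hF hq) (hpoly _ hxm) (hpoly _ hX₀m) (d := m) (by
    rw [natDeg, Module.finrank_fintype_fun_eq_card, Fintype.card_sum, Fintype.card_fin]; ring)
  obtain ⟨Pm, hPm⟩ := CjS.exists_mat P
  have hP' : Pm.1 * (x : Matrix (Fin m ⊕ Fin m) (Fin m ⊕ Fin m) F) = X₀ * Pm.1 := by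
    apply H5.Symp.ext_mulVec
    intro v
    have h1 := hP v
    rw [Matrix.toLin'_apply, Matrix.toLin'_apply] at h1
    rw [← Matrix.mulVec_mulVec, ← Matrix.mulVec_mulVec, hPm, hPm, h1]
  have hxk : (x : Matrix (Fin m ⊕ Fin m) (Fin m ⊕ Fin m) F) ^ 3 = 1 := by
    rw [← SubmonoidClass.coe_pow, hx3]
    rfl
  obtain ⟨U, hU, hUx⟩ := CjS.sp_conj x.2 hX₀s (k := 3) (by exact_mod_cast three_ne hF hq) hxk Pm hP'
  have hUx' : (⟨U, hU⟩ : Matrix.symplecticGroup (Fin m) F) * x = ⟨X₀, hX₀s⟩ * ⟨U, hU⟩ := Subtype.ext hUx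
  rw [cent_card_eq hUx', ← cent_gu hK D ⟨X₀, hX₀s⟩ hX₀, H5.Unit.card_GU hK]
  exact Cnt.gu_ord (by rw [← hF]; exact Fintype.one_lt_card) m

end Cfsg.Agent.H16.Fpf
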