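import Cfsg.Agent.H16_AutF3
import Cfsg.Agent.H16_Par9
import Cfsg.Agent.H16_Quad6

set_option autoImplicit false

/-! Graph automorphisms of `PSL_n` and bilinear forms. -/

namespace Cfsg.Agent.H16.Gr

open Matrix Cfsg.Agent.H16.AutG Cfsg.Agent.H16.AutL Module

section Basic

variable {F : Type*} [Field F] {n : ℕ}

/-- the graph automorphism attached to a bilinear form. -/
def gm (N : GL (Fin n) F) : MulAut (Matrix.ProjectiveSpecialLinearGroup (Fin n) F) :=
  dn (cjS N⁻¹) * dn iS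

theorem graph_iff {γ : MulAut (Matrix.ProjectiveSpecialLinearGroup (Fin n) F)} :
    Cfsg.IsGraphAutClassPSL γ ↔ 3 ≤ n ∧ ∃ N : GL (Fin n) F, γ = gm N := by
  constructor
  · rintro ⟨h3, δ, β, hδ, hβ, rfl⟩
    obtain ⟨g, rfl⟩ := innDiag_iff.mp hδ
    rw [invTr_iff.mp hβ]
    exact ⟨h3, g⁻¹, by rw [gm, inv_inv]⟩
  · rintro ⟨h3, N, rfl⟩
    exact ⟨h3, _, _, innDiag_iff.mpr ⟨N⁻¹, rfl⟩, invTr_iff.mpr rfl, rfl⟩

theorem conj_gm (g N : GL (Fin n) F) :
    dn (cjS g) * gm N * (dn (cjS g))⁻¹ = gm (git g * N * g⁻¹) := by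
  have h1 : (git g * N * g⁻¹)⁻¹ = g * N⁻¹ * git g⁻¹ := by
    rw [_root_.map_inv]; group
  rw [gm, gm, h1, _root_.map_mul, _root_.map_mul, _root_.map_mul, _root_.map_mul, ← _root_.map_inv, ← _root_.map_inv,
    mul_assoc, mul_assoc (dn (cjS N⁻¹)), dn_iS_cjS]
  simp only [mul_assoc]

variable [Finite F]

theorem gm_eq_iff (hn : 2 ≤ n) {N N' : GL (Fin n) F} :
    gm N = gm N' ↔ ∃ c : Fˣ, N' = Matrix.GeneralLinearGroup.scalar (Fin n) c * N := by
  constructor
  · intro h
    have h1 : dn (cjS N⁻¹) = (dn (cjS N'⁻¹) : MulAut (Matrix.ProjectiveSpecialLinearGroup (Fin n) F)) :=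
      mul_right_cancel h
    have h2 : (dn (cjS (N' * N⁻¹)) : MulAut (Matrix.ProjectiveSpecialLinearGroup (Fin n) F)) = 1 := by
      rw [_root_.map_mul, _root_.map_mul, h1, ← _root_.map_mul, ← _root_.map_mul, mul_inv_cancel,
        _root_.map_one, _root_.map_one]
    rw [dn_cjS_eq_one hn, Matrix.GeneralLinearGroup.center_eq_range_scalar] at h2
    obtain ⟨c, hc⟩ := h2
    exact ⟨c, by rw [hc, inv_mul_cancel_right]⟩
  · rintro ⟨c, rfl⟩
    rw [gm, gm, _root_.mul_inv_rev, _root_.map_mul, _root_.map_mul, ← _root_.map_inv (Matrix.GeneralLinearGroup.scalar (Fin n)),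
      dn_scalar hn, mul_one]

theorem gm_ne_one (hn : 3 ≤ n) (N : GL (Fin n) F) : gm N ≠ 1 := by
  intro h
  refine cfi_ne_one (F := F) (ι := Fin n) (by rwa [Fintype.card_fin]) (g := N⁻¹) (σ := 1) ?_
  rw [_root_.map_one, _root_.map_one, mul_one]
  exact h

theorem scalar_coe (c : Fˣ) : ((Matrix.GeneralLinearGroup.scalar (Fin n) c : GL (Fin n) F) :
    Matrix (Fin n) (Fin n) F) = (c : F) • 1 := by
  change Matrix.scalar (Fin n) (c : F) = _
  rw [Matrix.scalar_apply, Matrix.smul_one_eq_diagonal]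

theorem order_iff (hn : 3 ≤ n) {N : GL (Fin n) F} :
    orderOf (gm N) = 2 ↔ ((N : Matrix (Fin n) (Fin n) F)ᵀ = N ∨ (N : Matrix (Fin n) (Fin n) F)ᵀ = -N) := by
  have hn2 : 2 ≤ n := by omega
  have h0 : (gm N) ^ 2 = dn (cjS (N⁻¹ * git N⁻¹)) := by
    rw [sq, gm, mul_assoc, ← mul_assoc (dn iS), dn_iS_cjS, mul_assoc (dn (cjS (git N⁻¹))), iS_sq, mul_one,
      ← _root_.map_mul, ← _root_.map_mul]
  have hgit : ((git N⁻¹ : GL (Fin n) F) : Matrix (Fin n) (Fin n) F) = (N : Matrix (Fin n) (Fin n) F)ᵀ := by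
    rw [git_coe, inv_inv]
  constructor
  · intro h
    have h1 : (gm N) ^ 2 = 1 := by
      have := pow_orderOf_eq_one (gm N)
      rwa [h] at this
    rw [h0, dn_cjS_eq_one hn2, Matrix.GeneralLinearGroup.center_eq_range_scalar] at h1
    obtain ⟨c, hc⟩ := h1
    have h2 : git N⁻¹ = N * Matrix.GeneralLinearGroup.scalar (Fin n) c := by
      rw [hc, mul_inv_cancel_left]
    have h3 : (N : Matrix (Fin n) (Fin n) F)ᵀ = (c : F) • (N : Matrix (Fin n) (Fin n) F) := by
      rw [← hgit, h2, Units.val_mul, scalar_coe, Matrix.mul_smul, mul_one]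
    have h4 : (N : Matrix (Fin n) (Fin n) F) = ((c : F) * (c : F)) • (N : Matrix (Fin n) (Fin n) F) := by
      have := congrArg Matrix.transpose h3
      rw [transpose_transpose, transpose_smul, h3, smul_smul] at this
      exact this
    have h5 : (c : F) * (c : F) = 1 := by
      have h6 : ((c : F) * (c : F)) • (1 : Matrix (Fin n) (Fin n) F) = (1 : F) • 1 := by
        have := congrArg (fun M => M * ((N⁻¹ : GL (Fin n) F) : Matrix (Fin n) (Fin n) F)) h4
        simp only [Matrix.smul_mul] at this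
        rw [← Units.val_mul, mul_inv_cancel, Units.val_one] at this
        rw [one_smul]; exact this.symm
      have := congrFun (congrFun h6 ⟨0, by omega⟩) ⟨0, by omega⟩
      simpa using this
    rcases mul_self_eq_one_iff.mp h5 with h6 | h6
    · left; rw [h3, h6, one_smul]
    · right; rw [h3, h6, neg_smul, one_smul]
  · intro h
    obtain ⟨c, hc⟩ : ∃ c : Fˣ, (N : Matrix (Fin n) (Fin n) F)ᵀ = (c : F) • (N : Matrix (Fin n) (Fin n) F) := by
      rcases h with h | h
      · exact ⟨1, by rw [h, Units.val_one, one_smul]⟩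
      · exact ⟨-1, by rw [h, Units.val_neg, Units.val_one, neg_smul, one_smul]⟩
    refine orderOf_eq_prime ?_ (gm_ne_one hn N)
    rw [h0, dn_cjS_eq_one hn2, Matrix.GeneralLinearGroup.center_eq_range_scalar]
    refine ⟨c, ?_⟩
    rw [eq_inv_mul_iff_mul_eq]
    apply Units.ext
    rw [hgit, hc, Units.val_mul, scalar_coe, Matrix.mul_smul, mul_one]

/-- conjugacy of graph automorphisms. -/
theorem conj_iff (hn : 2 ≤ n) {N N' : GL (Fin n) F} :
    Cfsg.IsConjUnder (Dd F n) (gm N) (gm N') ↔ ∃ (g : GL (Fin n) F) (c : Fˣ),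
      (g : Matrix (Fin n) (Fin n) F)ᵀ * (N' : Matrix (Fin n) (Fin n) F) * (g : Matrix (Fin n) (Fin n) F) =
        (c : F) • (N : Matrix (Fin n) (Fin n) F) := by
  have hu : ∀ (g : GL (Fin n) F) (c : Fˣ), ((g : Matrix (Fin n) (Fin n) F)ᵀ * (N' : Matrix (Fin n) (Fin n) F) *
      (g : Matrix (Fin n) (Fin n) F) = (c : F) • (N : Matrix (Fin n) (Fin n) F)) ↔
      (git g)⁻¹ * N' * g = Matrix.GeneralLinearGroup.scalar (Fin n) c * N := by
    intro g c
    rw [Units.ext_iff, Units.val_mul, Units.val_mul, Units.val_mul, git_inv_coe, scalar_coe, Matrix.smul_mul, one_mul]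
  constructor
  · rintro ⟨δ, hδ, h⟩
    obtain ⟨g, rfl⟩ := mem_Dd.mp hδ
    rw [conj_gm, eq_comm, gm_eq_iff hn] at h
    obtain ⟨c, hc⟩ := h
    refine ⟨g, c, (hu g c).mpr ?_⟩
    rw [hc]
    have hcom : ∀ x : GL (Fin n) F, Matrix.GeneralLinearGroup.scalar (Fin n) c * x =
        x * Matrix.GeneralLinearGroup.scalar (Fin n) c := by
      intro x
      apply Units.ext
      rw [Units.val_mul, Units.val_mul, scalar_coe, Matrix.smul_mul, Matrix.mul_smul, one_mul, mul_one]
    rw [← mul_assoc, ← hcom]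
    group
  · rintro ⟨g, c, h⟩
    have h' := (hu g c).mp h
    refine ⟨dn (cjS g), mem_Dd.mpr ⟨g, rfl⟩, ?_⟩
    rw [conj_gm, eq_comm, gm_eq_iff hn]
    refine ⟨c, ?_⟩
    have hcom : ∀ x : GL (Fin n) F, Matrix.GeneralLinearGroup.scalar (Fin n) c * x =
        x * Matrix.GeneralLinearGroup.scalar (Fin n) c := by
      intro x
      apply Units.ext
      rw [Units.val_mul, Units.val_mul, scalar_coe, Matrix.smul_mul, Matrix.mul_smul, one_mul, mul_one]
    rw [← mul_assoc, ← mul_assoc, hcom (git g), mul_assoc (git g), ← h']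
    group

/-- the bilinear form of a matrix. -/
def frm (N : Matrix (Fin n) (Fin n) F) (x y : Fin n → F) : F := x ⬝ᵥ (N *ᵥ y)

theorem mem_sim_iff {N : Matrix (Fin n) (Fin n) F} {g : GL (Fin n) F} :
    g ∈ Cfsg.Geo.similarityGroup (frm N) ↔ ∃ c : Fˣ, (g : Matrix (Fin n) (Fin n) F)ᵀ * N *
      (g : Matrix (Fin n) (Fin n) F) = (c : F) • N := by
  have e1 : ∀ u v : Fin n → F, frm N ((g : Matrix (Fin n) (Fin n) F) *ᵥ u) ((g : Matrix (Fin n) (Fin n) F) *ᵥ v) =
      u ⬝ᵥ (((g : Matrix (Fin n) (Fin n) F)ᵀ * N * (g : Matrix (Fin n) (Fin n) F)) *ᵥ v) := by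
    intro u v
    rw [frm, ← mulVec_mulVec, ← mulVec_mulVec, dotProduct_mulVec u, vecMul_transpose]
  constructor
  · rintro ⟨c, hc⟩
    refine ⟨c, ?_⟩
    apply mulVec_injective
    funext v
    apply dotProduct_eq
    intro u
    have := hc u v
    rw [e1, frm] at this
    rw [dotProduct_comm, this, dotProduct_comm _ u, smul_mulVec, dotProduct_smul, smul_eq_mul]
  · rintro ⟨c, hc⟩
    refine ⟨c, fun u v => ?_⟩
    rw [e1, hc, smul_mulVec, dotProduct_smul, smul_eq_mul]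
    rfl

/-- centralizer membership. -/
theorem mem_cent_iff (hn : 2 ≤ n) {N g : GL (Fin n) F} :
    (dn (cjS g) : MulAut (Matrix.ProjectiveSpecialLinearGroup (Fin n) F)) ∈ Subgroup.centralizer {gm N} ↔
      g ∈ Cfsg.Geo.similarityGroup (frm (N : Matrix (Fin n) (Fin n) F)) := by
  rw [Subgroup.mem_centralizer_singleton_iff, mem_sim_iff]
  have h1 : dn (cjS g) * gm N = gm N * dn (cjS g) ↔ dn (cjS g) * gm N * (dn (cjS g))⁻¹ = gm N :=
    mul_inv_eq_iff_eq_mul.symm
  rw [h1, conj_gm, gm_eq_iff hn]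
  refine exists_congr fun c => ?_
  rw [Units.ext_iff, Units.val_mul, scalar_coe, Matrix.smul_mul, one_mul]
  constructor
  · intro h
    have h2 : (git g)⁻¹ * (git g * N * g⁻¹) * g = N := by group
    have h3 := congrArg Units.val h2
    rw [Units.val_mul, Units.val_mul, git_inv_coe] at h3
    have h4 : (g : Matrix (Fin n) (Fin n) F)ᵀ * ((c : F) • ((git g * N * g⁻¹ : GL (Fin n) F) : Matrix (Fin n) (Fin n) F)) *
      (g : Matrix (Fin n) (Fin n) F) = (c : F) • (N : Matrix (Fin n) (Fin n) F) := by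
      rw [Matrix.mul_smul, Matrix.smul_mul, h3]
    rw [← h] at h4
    exact h4
  · intro h
    have h2 : ((git g : GL (Fin n) F) : Matrix (Fin n) (Fin n) F) * ((g : Matrix (Fin n) (Fin n) F)ᵀ * (N : Matrix (Fin n) (Fin n) F) *
      (g : Matrix (Fin n) (Fin n) F)) * ((g⁻¹ : GL (Fin n) F) : Matrix (Fin n) (Fin n) F) =
      (N : Matrix (Fin n) (Fin n) F) := by
      rw [← git_inv_coe, ← Units.val_mul, ← Units.val_mul, ← Units.val_mul, ← Units.val_mul]
      congr 1
      group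
    rw [h, Matrix.mul_smul, Matrix.smul_mul, ← Units.val_mul, ← Units.val_mul] at h2
    exact h2.symm

theorem cent_gm (hn : 2 ≤ n) (N : GL (Fin n) F) :
    Nonempty (↥(Dd F n ⊓ Subgroup.centralizer {gm N}) ≃*
      Cfsg.projQuot (Cfsg.Geo.similarityGroup (frm (N : Matrix (Fin n) (Fin n) F)))) := by
  let f : Cfsg.Geo.similarityGroup (frm (N : Matrix (Fin n) (Fin n) F)) →* ↥(Dd F n ⊓ Subgroup.centralizer {gm N}) :=
    ((dn.comp cjS).comp (Cfsg.Geo.similarityGroup (frm (N : Matrix (Fin n) (Fin n) F))).subtype).codRestrict _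
      (fun g => by
        refine ⟨mem_Dd.mpr ⟨_, rfl⟩, ?_⟩
        exact (mem_cent_iff hn).mpr g.2)
  have hfs : Function.Surjective f := by
    rintro ⟨α, hα1, hα2⟩
    obtain ⟨g, rfl⟩ := mem_Dd.mp hα1
    exact ⟨⟨g, (mem_cent_iff hn).mp hα2⟩, rfl⟩
  have hfk : f.ker = (Cfsg.Geo.scalars (Fin n) F).subgroupOf
      (Cfsg.Geo.similarityGroup (frm (N : Matrix (Fin n) (Fin n) F))) := by
    ext g
    rw [MonoidHom.mem_ker, Subgroup.mem_subgroupOf]
    have h1 : f g = 1 ↔ (dn (cjS (g : GL (Fin n) F)) :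
        MulAut (Matrix.ProjectiveSpecialLinearGroup (Fin n) F)) = 1 :=
      ⟨fun h => congrArg Subtype.val h, fun h => Subtype.ext h⟩
    rw [h1, dn_cjS_eq_one hn, Matrix.GeneralLinearGroup.center_eq_range_scalar]
    exact Iff.rfl
  exact ⟨((QuotientGroup.quotientMulEquivOfEq hfk.symm).trans
    (QuotientGroup.quotientKerEquivOfSurjective f hfs)).symm⟩

end Basic

section Transport

variable {ι ι' : Type} [Fintype ι] [DecidableEq ι] [Fintype ι'] [DecidableEq ι'] {F : Type*} [Field F]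

/-- transport of projective quotients along `cj`. -/
theorem projQuot_cj (L : (ι → F) ≃ₗ[F] (ι' → F)) {H : Subgroup (GL ι F)} {H' : Subgroup (GL ι' F)}
    (h : ∀ g, g ∈ H ↔ Par.cj L g ∈ H') : Nonempty (Cfsg.projQuot H ≃* Cfsg.projQuot H') := by
  let f : H →* Cfsg.projQuot H' := (QuotientGroup.mk' _).comp
    (((Par.cj L).comp H.subtype).codRestrict H' (fun g => (h g).mp g.2))
  have hfs : Function.Surjective f := by
    intro x
    induction x using QuotientGroup.induction_on with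
    | H y =>
      obtain ⟨g, hg⟩ := Par.cj_surj L (y : GL ι' F)
      refine ⟨⟨g, (h g).mpr (by rw [hg]; exact y.2)⟩, ?_⟩
      change (QuotientGroup.mk _ : Cfsg.projQuot H') = QuotientGroup.mk _
      congr 1
      exact Subtype.ext hg
  have hfk : f.ker = (Cfsg.Geo.scalars ι F).subgroupOf H := by
    ext g
    rw [MonoidHom.mem_ker, Subgroup.mem_subgroupOf]
    have h1 : f g = 1 ↔ Par.cj L (g : GL ι F) ∈ Cfsg.Geo.scalars ι' F := by
      change (QuotientGroup.mk _ : Cfsg.projQuot H') = 1 ↔ _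
      rw [QuotientGroup.eq_one_iff, Subgroup.mem_subgroupOf]
      exact Iff.rfl
    rw [h1]
    constructor
    · rintro ⟨c, hc⟩
      refine ⟨c, Par.cj_inj L ?_⟩
      have := Par.cj_scl L c
      exact this.trans hc
    · rintro ⟨c, hc⟩
      refine ⟨c, ?_⟩
      have := Par.cj_scl L c
      change _ = Par.cj L (g : GL ι F)
      rw [← show _ = (g : GL ι F) from hc]
      exact this.symm
  exact ⟨(QuotientGroup.quotientMulEquivOfEq hfk.symm).trans
    (QuotientGroup.quotientKerEquivOfSurjective f hfs)⟩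

/-- similar forms. -/
theorem sim_iso {f : (ι → F) → (ι → F) → F} {f' : (ι' → F) → (ι' → F) → F}
    (L : (ι → F) ≃ₗ[F] (ι' → F)) {a : F} (ha : a ≠ 0) (h : ∀ x y, f' (L x) (L y) = a * f x y) :
    Nonempty (Cfsg.projQuot (Cfsg.Geo.similarityGroup f) ≃* Cfsg.projQuot (Cfsg.Geo.similarityGroup f')) := by
  refine projQuot_cj L fun g => ?_
  constructor
  · rintro ⟨c, hc⟩
    refine ⟨c, fun u v => ?_⟩
    obtain ⟨u, rfl⟩ := L.surjective u
    obtain ⟨v, rfl⟩ := L.surjective v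
    rw [Par.cj_mulVec, Par.cj_mulVec, h, h, hc]
    ring
  · rintro ⟨c, hc⟩
    refine ⟨c, fun u v => ?_⟩
    have := hc (L u) (L v)
    rw [Par.cj_mulVec, Par.cj_mulVec, h, h] at this
    exact mul_left_cancel₀ ha (by rw [this]; ring)

/-- a bilinear form and a quadratic form. -/
theorem simQ_iso {f : (ι → F) → (ι → F) → F} {Q : (ι' → F) → F} (h2 : (2 : F) ≠ 0)
    (L : (ι → F) ≃ₗ[F] (ι' → F)) {a : F} (ha : a ≠ 0)
    (h : ∀ x, Q (L x) = a * f x x) (hadd : ∀ x y, f (x + y) (x + y) = f x x + 2 * f x y + f y y) :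
    Nonempty (Cfsg.projQuot (Cfsg.Geo.similarityGroup f) ≃*
      Cfsg.projQuot (Cfsg.Geo.quadSimilarityGroup (F := F) Q)) := by
  refine projQuot_cj L fun g => ?_
  constructor
  · rintro ⟨c, hc⟩
    refine ⟨c, fun u => ?_⟩
    obtain ⟨u, rfl⟩ := L.surjective u
    rw [Par.cj_mulVec, h, h, hc]
    ring
  · rintro ⟨c, hc⟩
    have h3 : ∀ u, f ((g : Matrix ι ι F) *ᵥ u) ((g : Matrix ι ι F) *ᵥ u) = (c : F) * f u u := by
      intro u
      have := hc (L u)
      rw [Par.cj_mulVec, h, h] at this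
      exact mul_left_cancel₀ ha (by rw [this]; ring)
    refine ⟨c, fun u v => ?_⟩
    have h4 := h3 (u + v)
    rw [mulVec_add, hadd, hadd, h3, h3] at h4
    refine mul_left_cancel₀ h2 ?_
    linear_combination h4

end Transport

end Cfsg.Agent.H16.Gr
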