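import Cfsg.Agent.H16_Gr1
import Cfsg.Agent.H16_CjS
import Cfsg.Agent.H5_QuadC
import Cfsg.Agent.H16_Quad5

set_option autoImplicit false

/-! Graph automorphisms of `PSL_n`: forms in odd characteristic. -/

namespace Cfsg.Agent.H16.Gr

open Matrix Module
open QuadraticMap (polar)
open Cfsg.Agent.H16.Quad
open Cfsg.Agent.H5 (Frm)

section Frm

variable {F : Type*} [Field F] {n : ℕ}

theorem frm_add_left (N : Matrix (Fin n) (Fin n) F) (x y z : Fin n → F) :
    frm N (x + y) z = frm N x z + frm N y z := add_dotProduct _ _ _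

theorem frm_add_right (N : Matrix (Fin n) (Fin n) F) (x y z : Fin n → F) :
    frm N x (y + z) = frm N x y + frm N x z := by
  rw [frm, mulVec_add, dotProduct_add]; rfl

theorem frm_swap (N : Matrix (Fin n) (Fin n) F) (x y : Fin n → F) : frm N x y = frm Nᵀ y x := by
  rw [frm, frm, dotProduct_mulVec, dotProduct_comm, mulVec_transpose]

theorem frm_symm {N : Matrix (Fin n) (Fin n) F} (hN : Nᵀ = N) (x y : Fin n → F) : frm N x y = frm N y x := by
  conv_lhs => rw [frm_swap, hN]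

theorem frm_skew {N : Matrix (Fin n) (Fin n) F} (hN : Nᵀ = -N) (x y : Fin n → F) : frm N x y = - frm N y x := by
  conv_lhs => rw [frm_swap, hN]
  rw [frm, frm, neg_mulVec, dotProduct_neg]

theorem frm_single (N : Matrix (Fin n) (Fin n) F) (i j : Fin n) :
    frm N (Pi.single i 1) (Pi.single j 1) = N i j := by
  rw [frm, single_one_dotProduct, mulVec_single_one]; rfl

/-- forms with equal values. -/
theorem frm_eq_iff {g N N' : Matrix (Fin n) (Fin n) F} {c : F} :
    gᵀ * N' * g = c • N ↔ ∀ x y, frm N' (g *ᵥ x) (g *ᵥ y) = c * frm N x y := by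
  have e1 : ∀ u v : Fin n → F, frm N' (g *ᵥ u) (g *ᵥ v) = u ⬝ᵥ ((gᵀ * N' * g) *ᵥ v) := by
    intro u v
    rw [frm, ← mulVec_mulVec, ← mulVec_mulVec, dotProduct_mulVec u, vecMul_transpose]
  constructor
  · intro h x y
    rw [e1, h, smul_mulVec, dotProduct_smul, smul_eq_mul]; rfl
  · intro h
    apply mulVec_injective
    funext v
    apply dotProduct_eq
    intro u
    have := h u v
    rw [e1, frm] at this
    rw [dotProduct_comm, this, dotProduct_comm _ u, smul_mulVec, dotProduct_smul, smul_eq_mul]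

theorem frm_nd {N : GL (Fin n) F} {y : Fin n → F} (h : ∀ x, frm (N : Matrix (Fin n) (Fin n) F) x y = 0) : y = 0 := by
  have h1 : (N : Matrix (Fin n) (Fin n) F) *ᵥ y = 0 := by
    apply dotProduct_eq
    intro u
    rw [dotProduct_comm, zero_dotProduct]
    exact h u
  have h2 : ((N⁻¹ : GL (Fin n) F) : Matrix (Fin n) (Fin n) F) *ᵥ ((N : Matrix (Fin n) (Fin n) F) *ᵥ y) = 0 := by
    rw [h1, mulVec_zero]
  rwa [mulVec_mulVec, ← Units.val_mul, inv_mul_cancel, Units.val_one, one_mulVec] at h2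

theorem frm_nd' {N : GL (Fin n) F} {x : Fin n → F} (h : ∀ y, frm (N : Matrix (Fin n) (Fin n) F) x y = 0) : x = 0 := by
  have h1 : x ᵥ* (N : Matrix (Fin n) (Fin n) F) = 0 := by
    apply dotProduct_eq
    intro u
    rw [zero_dotProduct, ← dotProduct_mulVec]
    exact h u
  have h2 : (x ᵥ* (N : Matrix (Fin n) (Fin n) F)) ᵥ* ((N⁻¹ : GL (Fin n) F) : Matrix (Fin n) (Fin n) F) = 0 := by
    rw [h1, zero_vecMul]
  rwa [vecMul_vecMul, ← Units.val_mul, mul_inv_cancel, Units.val_one, vecMul_one] at h2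

/-- the quadratic form. -/
noncomputable def nQ (N : Matrix (Fin n) (Fin n) F) : QuadraticForm F (Fin n → F) :=
  LinearMap.BilinMap.toQuadraticMap (Matrix.toBilin' N)

theorem nQ_apply (N : Matrix (Fin n) (Fin n) F) (x : Fin n → F) : nQ N x = frm N x x := by
  rw [nQ, LinearMap.BilinMap.toQuadraticMap_apply, Matrix.toBilin'_apply']; rfl

theorem polar_nQ {N : Matrix (Fin n) (Fin n) F} (hN : Nᵀ = N) (x y : Fin n → F) :
    polar (nQ N) x y = 2 * frm N x y := by
  rw [polar, nQ_apply, nQ_apply, nQ_apply, frm_add_left, frm_add_right, frm_add_right, frm_symm hN y x]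
  ring

theorem nd_nQ (h2 : (2 : F) ≠ 0) {N : GL (Fin n) F} (hN : (N : Matrix (Fin n) (Fin n) F)ᵀ = N) :
    (QuadraticMap.polarBilin (nQ (N : Matrix (Fin n) (Fin n) F))).Nondegenerate := by
  apply nd_of
  intro x hx
  apply frm_nd (N := N)
  intro y
  have := hx y
  rw [polar_nQ hN, frm_symm hN] at this
  exact (mul_eq_zero.mp this).resolve_left h2

theorem gram_nQ {N : Matrix (Fin n) (Fin n) F} (hN : Nᵀ = N) :
    (gram (nQ N) (Pi.basisFun F (Fin n))).det = 2 ^ n * N.det := by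
  have : gram (nQ N) (Pi.basisFun F (Fin n)) = (2 : F) • N := by
    ext i j
    rw [Quad.gram, Matrix.of_apply, Pi.basisFun_apply, Pi.basisFun_apply, polar_nQ hN, frm_single, Matrix.smul_apply, smul_eq_mul]
  rw [this, det_smul, Fintype.card_fin]

/-- hypotheses of `simQ_iso`. -/
theorem frm_hadd {N : Matrix (Fin n) (Fin n) F} (hN : Nᵀ = N) (x y : Fin n → F) :
    frm N (x + y) (x + y) = frm N x x + 2 * frm N x y + frm N y y := by
  rw [frm_add_left, frm_add_right, frm_add_right, frm_symm hN y x]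
  ring

end Frm

section Odd

variable {F V V' ι κ : Type*} [Field F] [Finite F] [AddCommGroup V] [Module F V] [FiniteDimensional F V]
  [AddCommGroup V'] [Module F V'] [FiniteDimensional F V'] [Fintype ι] [DecidableEq ι] [Fintype κ] [DecidableEq κ]
  {Q : QuadraticForm F V} {Q' : QuadraticForm F V'}

/-- odd-dimensional forms are similar. -/
theorem odd_sim (h2 : (2 : F) ≠ 0) (hQ : (QuadraticMap.polarBilin Q).Nondegenerate)
    (hQ' : (QuadraticMap.polarBilin Q').Nondegenerate) {m : ℕ} (hV : finrank F V = 2 * m + 1)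
    (hV' : finrank F V' = 2 * m + 1) :
    ∃ (φ : V ≃ₗ[F] V') (a : F), a ≠ 0 ∧ ∀ v, Q' (φ v) = a * Q v := by
  set b := finBasis F V with hb
  set b' := finBasis F V' with hb'
  have h1 := det_gram_ne_zero hQ b
  have h1' := det_gram_ne_zero hQ' b'
  set a : F := (gram Q b).det * (gram Q' b').det with ha
  have ha0 : a ≠ 0 := mul_ne_zero h1 h1'
  have hdet : (gram (a • Q) b).det = a ^ (2 * m + 1) * (gram Q b).det := by
    have : gram (a • Q) b = a • gram Q b := by
      ext i j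
      rw [Quad.gram, Matrix.of_apply, polar_smulQ, Matrix.smul_apply, smul_eq_mul]
      rfl
    rw [this, det_smul, Fintype.card_fin]
    congr 2
  obtain ⟨φ, hφ⟩ := isom_of_disc h2 (nd_smulQ ha0 hQ) hQ' (hV.trans hV'.symm) b b' (by
    rw [hdet]
    refine ⟨a ^ (m + 1), ?_⟩
    rw [mul_assoc, ← ha]
    ring)
  exact ⟨φ, a, ha0, fun v => by rw [hφ, smulQ_apply]⟩

end Odd

section Cent

variable {F : Type*} [Field F] [Finite F] {n : ℕ}

theorem cent_odd (h2 : (2 : F) ≠ 0) {m : ℕ} (hnm : n = 2 * m + 1) {N : GL (Fin n) F}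
    (hN : (N : Matrix (Fin n) (Fin n) F)ᵀ = N) :
    Nonempty (Cfsg.projQuot (Cfsg.Geo.similarityGroup (frm (N : Matrix (Fin n) (Fin n) F))) ≃*
      Cfsg.PGO F (Cfsg.quadFormOdd m F)) := by
  obtain ⟨φ, a, ha, h⟩ := odd_sim h2 (nd_nQ h2 hN) (nd_oddQ h2 m) (m := m)
    (by rw [Module.finrank_fintype_fun_eq_card, Fintype.card_fin, hnm])
    (by rw [Module.finrank_fintype_fun_eq_card, Fintype.card_sum, Fintype.card_sum, Fintype.card_fin, Fintype.card_unit]; ring)
  refine simQ_iso h2 φ ha ?_ (frm_hadd hN)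
  intro x
  rw [← oddQ_apply, h, nQ_apply]

theorem cent_plus (h2 : (2 : F) ≠ 0) {m : ℕ} {N : GL (Fin n) F}
    (hN : (N : Matrix (Fin n) (Fin n) F)ᵀ = N) (h : IsPlus (nQ (N : Matrix (Fin n) (Fin n) F)) m) :
    Nonempty (Cfsg.projQuot (Cfsg.Geo.similarityGroup (frm (N : Matrix (Fin n) (Fin n) F))) ≃*
      Cfsg.PGO F (Cfsg.quadFormPlus m F)) := by
  obtain ⟨φ, hφ⟩ := h.isom (plusQ_isPlus (F := F) m)
  refine simQ_iso h2 φ one_ne_zero ?_ (frm_hadd hN)
  intro x
  rw [← plusQ_apply, hφ, nQ_apply, one_mul]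

theorem cent_minus (h2 : (2 : F) ≠ 0) {m : ℕ} {N : GL (Fin n) F}
    (hN : (N : Matrix (Fin n) (Fin n) F)ᵀ = N) (h : IsMinus (nQ (N : Matrix (Fin n) (Fin n) F)) m) {a b : F}
    (hab : ∀ z₁ z₂ : F, z₁ ^ 2 + a * z₁ * z₂ + b * z₂ ^ 2 = 0 → z₁ = 0 ∧ z₂ = 0) :
    Nonempty (Cfsg.projQuot (Cfsg.Geo.similarityGroup (frm (N : Matrix (Fin n) (Fin n) F))) ≃*
      Cfsg.PGO F (Cfsg.quadFormMinus m F a b)) := by
  obtain ⟨φ, hφ⟩ := IsMinus.isom (nd_nQ h2 hN) (nd_minusQ m hab) h (minusQ_isMinus m hab)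
  refine simQ_iso h2 φ one_ne_zero ?_ (frm_hadd hN)
  intro x
  rw [← minusQ_apply, hφ, nQ_apply, one_mul]

end Cent

section Alt

variable {F : Type*} [Field F] {n : ℕ}

/-- an alternating matrix as a form. -/
noncomputable def altF (N : Matrix (Fin n) (Fin n) F) (h : ∀ x, frm N x x = 0) :
    Frm F (RingHom.id F) (-1) (0 : F →+ F) (Fin n → F) :=
  Frm.ofAlt (Matrix.toBilin' N) (fun v => by rw [Matrix.toBilin'_apply']; exact h v)

theorem altF_B (N : Matrix (Fin n) (Fin n) F) (h : ∀ x, frm N x x = 0) (x y : Fin n → F) :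
    (altF N h).B x y = frm N x y := by
  change Matrix.toBilin' N x y = _
  rw [Matrix.toBilin'_apply']; rfl

theorem altF_nd (N : GL (Fin n) F) (h : ∀ x, frm (N : Matrix (Fin n) (Fin n) F) x x = 0) :
    (altF (N : Matrix (Fin n) (Fin n) F) h).Nondeg := by
  intro v hv
  apply frm_nd' (N := N)
  intro x
  rw [← altF_B _ h]
  exact hv x

theorem alt_even (N : GL (Fin n) F) (h : ∀ x, frm (N : Matrix (Fin n) (Fin n) F) x x = 0) : ∃ m, n = 2 * m := by
  obtain ⟨m, a, ha, hd⟩ := Frm.exists_wittDec (t := (0 : F →+ F)) 0 (fun {V} _ _ _ A hn h0 => by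
    have : Nontrivial V := Module.nontrivial_of_finrank_pos (R := F) h0
    obtain ⟨v, hv⟩ := exists_ne (0 : V)
    refine ⟨v, hv, ?_⟩
    obtain ⟨s, hs⟩ := A.Q_t v
    exact hs.symm) n (altF (N : Matrix (Fin n) (Fin n) F) h) (altF_nd N h)
    (by rw [Module.finrank_fintype_fun_eq_card, Fintype.card_fin])
  have h3 := Frm.WittDec.finrank_eq m a _ hd
  rw [Module.finrank_fintype_fun_eq_card, Fintype.card_fin] at h3
  exact ⟨m, by omega⟩

theorem alt_isom' {N : GL (Fin n) F} (h : ∀ x, frm (N : Matrix (Fin n) (Fin n) F) x x = 0) {m : ℕ} (hnm : n = 2 * m) :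
    ∃ φ : (Fin n → F) ≃ₗ[F] (Fin m ⊕ Fin m → F), ∀ x y, Cfsg.sympForm m F (φ x) (φ y) =
      frm (N : Matrix (Fin n) (Fin n) F) x y := by
  obtain ⟨φ, hφ⟩ := CjS.alt_isom n (altF (N : Matrix (Fin n) (Fin n) F) h) (H5.Conc.sympFrm m F) (altF_nd N h)
    (H5.Conc.sympFrm_nondeg m F) (by rw [Module.finrank_fintype_fun_eq_card, Fintype.card_fin])
    (by rw [Module.finrank_fintype_fun_eq_card, Fintype.card_sum, Fintype.card_fin, hnm]; ring)
  exact ⟨φ, fun x y => by rw [← H5.Conc.sympFrm_B, hφ, altF_B]⟩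

theorem cent_alt {m : ℕ} (hnm : n = 2 * m) {N : GL (Fin n) F}
    (h : ∀ x, frm (N : Matrix (Fin n) (Fin n) F) x x = 0) :
    Nonempty (Cfsg.projQuot (Cfsg.Geo.similarityGroup (frm (N : Matrix (Fin n) (Fin n) F))) ≃*
      Cfsg.PGSp m F) := by
  obtain ⟨φ, hφ⟩ := alt_isom' h hnm
  exact sim_iso φ one_ne_zero (fun x y => by rw [hφ, one_mul])

end Alt

end Cfsg.Agent.H16.Gr
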