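import Cfsg.Agent.H16_Gr2

set_option autoImplicit false

/-! Graph automorphisms of `PSL_n`: conjugacy in odd characteristic. -/

namespace Cfsg.Agent.H16.Gr

open Matrix Module Cfsg.Agent.H16.AutL
open QuadraticMap (polar)
open Cfsg.Agent.H16.Quad

section Conj

variable {F : Type*} [Field F] [Finite F] {n : ℕ}

theorem conj_of_sim (hn : 2 ≤ n) {N N' : GL (Fin n) F} (φ : (Fin n → F) ≃ₗ[F] (Fin n → F)) {a : F} (ha : a ≠ 0)
    (h : ∀ x y, frm (N' : Matrix (Fin n) (Fin n) F) (φ x) (φ y) = a * frm (N : Matrix (Fin n) (Fin n) F) x y) :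
    Cfsg.IsConjUnder (Dd F n) (gm N) (gm N') := by
  rw [conj_iff hn]
  have hg : ∀ x, (((Quad.glE F (Fin n)).symm φ : GL (Fin n) F) : Matrix (Fin n) (Fin n) F) *ᵥ x = φ x := by
    intro x
    rw [← Quad.glE_apply, MulEquiv.apply_symm_apply]
  refine ⟨(Quad.glE F (Fin n)).symm φ, Units.mk0 a ha, ?_⟩
  rw [frm_eq_iff]
  intro x y
  rw [hg, hg, h]
  rfl

theorem conj_of_simQ (hn : 2 ≤ n) (h2 : (2 : F) ≠ 0) {N N' : GL (Fin n) F}
    (hN : (N : Matrix (Fin n) (Fin n) F)ᵀ = N) (hN' : (N' : Matrix (Fin n) (Fin n) F)ᵀ = N')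
    (φ : (Fin n → F) ≃ₗ[F] (Fin n → F)) {a : F} (ha : a ≠ 0)
    (h : ∀ x, nQ (N' : Matrix (Fin n) (Fin n) F) (φ x) = a * nQ (N : Matrix (Fin n) (Fin n) F) x) :
    Cfsg.IsConjUnder (Dd F n) (gm N) (gm N') := by
  refine conj_of_sim hn φ ha fun x y => ?_
  have h1 := h (x + y)
  rw [_root_.map_add φ, nQ_apply, nQ_apply, frm_hadd hN, frm_hadd hN', ← nQ_apply, ← nQ_apply, ← nQ_apply,
    ← nQ_apply, h, h] at h1
  exact mul_left_cancel₀ h2 (by linear_combination h1)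

theorem conj_alt (hn : 2 ≤ n) {m : ℕ} (hnm : n = 2 * m) {N N' : GL (Fin n) F}
    (h : ∀ x, frm (N : Matrix (Fin n) (Fin n) F) x x = 0) (h' : ∀ x, frm (N' : Matrix (Fin n) (Fin n) F) x x = 0) :
    Cfsg.IsConjUnder (Dd F n) (gm N) (gm N') := by
  obtain ⟨φ, hφ⟩ := alt_isom' h hnm
  obtain ⟨φ', hφ'⟩ := alt_isom' h' hnm
  refine conj_of_sim hn (φ.trans φ'.symm) one_ne_zero fun x y => ?_
  rw [LinearEquiv.trans_apply, LinearEquiv.trans_apply, ← hφ', LinearEquiv.apply_symm_apply,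
    LinearEquiv.apply_symm_apply, hφ, one_mul]

theorem conj_plus (hn : 2 ≤ n) (h2 : (2 : F) ≠ 0) {m : ℕ} {N N' : GL (Fin n) F}
    (hN : (N : Matrix (Fin n) (Fin n) F)ᵀ = N) (hN' : (N' : Matrix (Fin n) (Fin n) F)ᵀ = N')
    (h : IsPlus (nQ (N : Matrix (Fin n) (Fin n) F)) m) (h' : IsPlus (nQ (N' : Matrix (Fin n) (Fin n) F)) m) :
    Cfsg.IsConjUnder (Dd F n) (gm N) (gm N') := by
  obtain ⟨φ, hφ⟩ := h.isom h'
  exact conj_of_simQ hn h2 hN hN' φ one_ne_zero fun x => by rw [hφ, one_mul]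

theorem conj_minus (hn : 2 ≤ n) (h2 : (2 : F) ≠ 0) {m : ℕ} {N N' : GL (Fin n) F}
    (hN : (N : Matrix (Fin n) (Fin n) F)ᵀ = N) (hN' : (N' : Matrix (Fin n) (Fin n) F)ᵀ = N')
    (h : IsMinus (nQ (N : Matrix (Fin n) (Fin n) F)) m) (h' : IsMinus (nQ (N' : Matrix (Fin n) (Fin n) F)) m) :
    Cfsg.IsConjUnder (Dd F n) (gm N) (gm N') := by
  obtain ⟨φ, hφ⟩ := IsMinus.isom (nd_nQ h2 hN) (nd_nQ h2 hN') h h'
  exact conj_of_simQ hn h2 hN hN' φ one_ne_zero fun x => by rw [hφ, one_mul]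

theorem conj_odd (hn : 2 ≤ n) (h2 : (2 : F) ≠ 0) {m : ℕ} (hnm : n = 2 * m + 1) {N N' : GL (Fin n) F}
    (hN : (N : Matrix (Fin n) (Fin n) F)ᵀ = N) (hN' : (N' : Matrix (Fin n) (Fin n) F)ᵀ = N') :
    Cfsg.IsConjUnder (Dd F n) (gm N) (gm N') := by
  obtain ⟨φ, a, ha, hφ⟩ := odd_sim h2 (nd_nQ h2 hN) (nd_nQ h2 hN') (m := m)
    (by rw [Module.finrank_fintype_fun_eq_card, Fintype.card_fin, hnm])
    (by rw [Module.finrank_fintype_fun_eq_card, Fintype.card_fin, hnm])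
  exact conj_of_simQ hn h2 hN hN' φ ha hφ

theorem not_conj_alt_sym (hn : 2 ≤ n) (h2 : (2 : F) ≠ 0) {N N' : GL (Fin n) F}
    (hN : (N : Matrix (Fin n) (Fin n) F)ᵀ = -N) (hN' : (N' : Matrix (Fin n) (Fin n) F)ᵀ = N') :
    ¬ Cfsg.IsConjUnder (Dd F n) (gm N) (gm N') := by
  rw [conj_iff hn]
  rintro ⟨g, c, h⟩
  have h1 := congrArg Matrix.transpose h
  rw [transpose_mul, transpose_mul, transpose_transpose, hN', transpose_smul, hN, ← Matrix.mul_assoc, h] at h1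
  have h3 : (2 * (c : F)) • (N : Matrix (Fin n) (Fin n) F) = 0 := by
    rw [two_mul, add_smul]
    nth_rewrite 1 [h1]
    rw [smul_neg, neg_add_cancel]
  have h4 : (N : Matrix (Fin n) (Fin n) F) ≠ 0 := by
    intro h0
    have h5 : ((N * N⁻¹ : GL (Fin n) F) : Matrix (Fin n) (Fin n) F) = 0 := by
      rw [Units.val_mul, h0, Matrix.zero_mul]
    rw [mul_inv_cancel, Units.val_one] at h5
    have := congrFun (congrFun h5 ⟨0, by omega⟩) ⟨0, by omega⟩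
    simp at this
  rcases smul_eq_zero.mp h3 with h5 | h5
  · exact (mul_ne_zero h2 c.ne_zero) h5
  · exact h4 h5

theorem not_conj_plus_minus (hn : 2 ≤ n) (h2 : (2 : F) ≠ 0) {m : ℕ} {N N' : GL (Fin n) F}
    (hN : (N : Matrix (Fin n) (Fin n) F)ᵀ = N) (hN' : (N' : Matrix (Fin n) (Fin n) F)ᵀ = N')
    (h : IsPlus (nQ (N : Matrix (Fin n) (Fin n) F)) (m + 1)) (h' : IsMinus (nQ (N' : Matrix (Fin n) (Fin n) F)) m) :
    ¬ Cfsg.IsConjUnder (Dd F n) (gm N) (gm N') := by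
  rw [conj_iff hn]
  rintro ⟨g, c, hg⟩
  rw [frm_eq_iff] at hg
  have h1 := h.smul c.ne_zero (nd_nQ h2 hN)
  have h3 : IsPlus (nQ (N' : Matrix (Fin n) (Fin n) F)) (m + 1) := by
    refine h1.map (φ := Quad.glE F (Fin n) g) fun v => ?_
    rw [Quad.glE_apply, nQ_apply, hg, smulQ_apply, nQ_apply]
  exact not_plus_and_minus (nd_nQ h2 hN') h3 h'

end Conj

section Exist

variable {F : Type*} [Field F] {n : ℕ}

theorem exists_alt {m : ℕ} (hnm : n = 2 * m) : ∃ N : GL (Fin n) F,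
    (∀ x, frm (N : Matrix (Fin n) (Fin n) F) x x = 0) ∧ (N : Matrix (Fin n) (Fin n) F)ᵀ = -N := by
  obtain ⟨e⟩ : Nonempty (Fin n ≃ Fin m ⊕ Fin m) := ⟨Fintype.equivOfCardEq (by
    rw [Fintype.card_sum, Fintype.card_fin, Fintype.card_fin, hnm]; ring)⟩
  have hdet : IsUnit ((Matrix.J (Fin m) F).submatrix e e).det := by
    rw [Matrix.det_submatrix_equiv_self]
    exact Matrix.isUnit_det_J _ _
  refine ⟨Matrix.GeneralLinearGroup.mk'' _ hdet, ?_, ?_⟩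
  · intro x
    change x ⬝ᵥ ((Matrix.J (Fin m) F).submatrix e e *ᵥ x) = 0
    rw [Matrix.submatrix_mulVec_equiv]
    have h1 : x ⬝ᵥ ((Matrix.J (Fin m) F *ᵥ (x ∘ e.symm)) ∘ e) = (x ∘ e.symm) ⬝ᵥ (Matrix.J (Fin m) F *ᵥ (x ∘ e.symm)) := by
      rw [comp_equiv_symm_dotProduct]
    rw [h1, ← Matrix.toBilin'_apply']
    exact H5.Conc.sympB_alt m F _
  · change ((Matrix.J (Fin m) F).submatrix e e)ᵀ = -((Matrix.J (Fin m) F).submatrix e e)
    rw [Matrix.transpose_submatrix, Matrix.J_transpose]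
    rfl

theorem exists_sym (h2 : (2 : F) ≠ 0) {V : Type*} [AddCommGroup V] [Module F V] [FiniteDimensional F V]
    {Q : QuadraticForm F V} (hQ : (QuadraticMap.polarBilin Q).Nondegenerate) (hV : finrank F V = n) :
    ∃ N : GL (Fin n) F, (N : Matrix (Fin n) (Fin n) F)ᵀ = N ∧ ∃ L : V ≃ₗ[F] (Fin n → F),
      ∀ v, nQ (N : Matrix (Fin n) (Fin n) F) (L v) = Q v := by
  obtain ⟨b⟩ : Nonempty (Basis (Fin n) F V) := ⟨finBasisOfFinrankEq F V hV⟩
  have hdet : IsUnit ((2 : F)⁻¹ • Quad.gram Q b).det := by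
    rw [det_smul]
    exact IsUnit.mul (IsUnit.pow _ (IsUnit.mk0 _ (inv_ne_zero h2))) (IsUnit.mk0 _ (det_gram_ne_zero hQ b))
  have hsym : (((2 : F)⁻¹ • Quad.gram Q b))ᵀ = (2 : F)⁻¹ • Quad.gram Q b := by
    ext i j
    rw [transpose_apply, Matrix.smul_apply, Matrix.smul_apply, Quad.gram, Matrix.of_apply, Matrix.of_apply, polar_symm]
  refine ⟨Matrix.GeneralLinearGroup.mk'' _ hdet, hsym, b.equivFun, ?_⟩
  have hc : ((Matrix.GeneralLinearGroup.mk'' _ hdet : GL (Fin n) F) : Matrix (Fin n) (Fin n) F) =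
    (2 : F)⁻¹ • Quad.gram Q b := rfl
  rw [hc]
  have hb : ∀ i, b.equivFun (b i) = Pi.single i 1 := by
    intro i
    funext j
    rw [Basis.equivFun_self, Pi.single_apply]
    simp [eq_comm]
  refine isom_of_basis (Q := Q) (Q' := nQ ((2 : F)⁻¹ • Quad.gram Q b)) b b.equivFun.toLinearMap ?_ ?_
  · intro i
    change nQ ((2 : F)⁻¹ • Quad.gram Q b) (b.equivFun (b i)) = _
    rw [hb, nQ_apply, frm_single, Matrix.smul_apply, Quad.gram, Matrix.of_apply, QuadraticMap.polar_self, smul_eq_mul,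
      two_smul, ← two_mul, inv_mul_cancel_left₀ h2]
  · intro i j
    change polar (nQ ((2 : F)⁻¹ • Quad.gram Q b)) (b.equivFun (b i)) (b.equivFun (b j)) = _
    rw [hb, hb, polar_nQ hsym, frm_single, Matrix.smul_apply, Quad.gram, Matrix.of_apply, smul_eq_mul,
      mul_inv_cancel_left₀ h2]

theorem alt_of_skew (h2 : (2 : F) ≠ 0) {N : Matrix (Fin n) (Fin n) F} (hN : Nᵀ = -N) (x : Fin n → F) :
    frm N x x = 0 := by
  have := frm_skew hN x x
  have h3 : 2 * frm N x x = 0 := by linear_combination this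
  exact (mul_eq_zero.mp h3).resolve_left h2

end Exist

end Cfsg.Agent.H16.Gr
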