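import Cfsg.Agent.H16_Quad4
import Cfsg.Statements.S2622
-- import your own Cfsg.Agent.* helpers here

set_option autoImplicit false
open Cfsg

namespace Cfsg.Agent.S2622

open Module in
/-- orthonormal families -/
theorem exists_family {F : Type*} [Field F] [Finite F] [CharP F 2] (n : ℕ) : ∀ {V : Type*} [AddCommGroup V] [Module F V] [FiniteDimensional F V]
    (hV : Module.finrank F V = n) (B : LinearMap.BilinForm F V) (hS : B.IsSymm) (hB : B.Nondegenerate) (hna : ∃ v : V, B v v ≠ 0),
    ∃ b : Fin n → V, ∀ i j, B (b i) (b j) = if i = j then 1 else 0 := by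
  have h2 : (2 : F) = 0 := CharTwo.two_eq_zero
  induction n with
  | zero =>
    intro V _ _ _ hV B hS hB hna
    exact ⟨Fin.elim0, fun i => i.elim0⟩
  | succ n ih =>
    intro V _ _ _ hV B hS hB hna
    have hsym : ∀ x y, B x y = B y x := fun x y => hS.eq x y
    have hrefl : LinearMap.BilinForm.IsRefl B := fun x y h => by rw [hsym]; exact h
    obtain ⟨v0, hv0⟩ := hna
    obtain ⟨c, hc⟩ := H16.Quad.isSquare_of_two_eq_zero h2 (B v0 v0)⁻¹
    obtain ⟨v, hv⟩ : ∃ v, B v v = 1 := ⟨c • v0, by
      simp only [map_smul, LinearMap.smul_apply, smul_eq_mul]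
      rw [← mul_assoc, ← hc, inv_mul_cancel₀ hv0]⟩
    have hstep : ∀ v : V, B v v = 1 → (∃ z, B v z = 0 ∧ B z z ≠ 0) → ∃ b : Fin (n + 1) → V, ∀ i j, B (b i) (b j) = if i = j then 1 else 0 := by
      rintro v hv ⟨z, hz, hzz⟩
      have hv1 : B v v ≠ 0 := by rw [hv]; exact one_ne_zero
      have hnd := LinearMap.BilinForm.restrict_nondegenerate_orthogonal_spanSingleton B hB hrefl hv1
      have hcompl := LinearMap.BilinForm.isCompl_span_singleton_orthogonal hv1
      have hv00 : v ≠ 0 := by rintro rfl; simp at hv
      have hfr : finrank F (B.orthogonal (Submodule.span F {v})) = n := by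
        have h3 := Submodule.finrank_add_eq_of_isCompl hcompl
        rw [finrank_span_singleton hv00, hV] at h3
        omega
      have hmem : ∀ x, x ∈ B.orthogonal (Submodule.span F {v}) ↔ B v x = 0 := by
        intro x
        rw [LinearMap.BilinForm.mem_orthogonal_iff]
        constructor
        · intro h; exact h v (Submodule.mem_span_singleton_self v)
        · intro h y hy
          obtain ⟨a, rfl⟩ := Submodule.mem_span_singleton.1 hy
          show B (a • v) x = 0
          rw [map_smul, LinearMap.smul_apply, h, smul_zero]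
      obtain ⟨b, hb⟩ := ih hfr (B.restrict (B.orthogonal (Submodule.span F {v})))
        ⟨fun x y => hS.eq (x : V) y⟩ hnd ⟨⟨z, (hmem z).2 hz⟩, hzz⟩
      refine ⟨Fin.cons v fun i => (b i : V), ?_⟩
      intro i j
      refine Fin.cases ?_ (fun i => ?_) i <;> refine Fin.cases ?_ (fun j => ?_) j
      · simp [hv]
      · simp only [Fin.cons_zero, Fin.cons_succ]
        rw [(hmem _).1 (b j).2, if_neg (Fin.succ_ne_zero j).symm]
      · simp only [Fin.cons_zero, Fin.cons_succ]
        rw [hsym, (hmem _).1 (b i).2, if_neg (Fin.succ_ne_zero i)]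
      · simp only [Fin.cons_succ, Fin.succ_inj]
        exact hb i j
    by_cases hn : n = 0
    · subst hn
      exact ⟨fun _ => v, fun i j => by rw [hv, if_pos (by ext; omega)]⟩
    by_cases hna : ∃ z, B v z = 0 ∧ B z z ≠ 0
    · exact hstep v hv hna
    push Not at hna
    have hv1 : B v v ≠ 0 := by rw [hv]; exact one_ne_zero
    have hnd := LinearMap.BilinForm.restrict_nondegenerate_orthogonal_spanSingleton B hB hrefl hv1
    have hcompl := LinearMap.BilinForm.isCompl_span_singleton_orthogonal hv1
    have hv00 : v ≠ 0 := by rintro rfl; simp at hv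
    have hfr : finrank F (B.orthogonal (Submodule.span F {v})) = n := by
      have h3 := Submodule.finrank_add_eq_of_isCompl hcompl
      rw [finrank_span_singleton hv00, hV] at h3
      omega
    have hmem : ∀ x, x ∈ B.orthogonal (Submodule.span F {v}) → B v x = 0 := by
      intro x hx
      rw [LinearMap.BilinForm.mem_orthogonal_iff] at hx
      exact hx v (Submodule.mem_span_singleton_self v)
    have : Nontrivial (B.orthogonal (Submodule.span F {v})) := Module.nontrivial_of_finrank_pos (R := F) (by omega)
    obtain ⟨e, he⟩ := exists_ne (0 : B.orthogonal (Submodule.span F {v}))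
    obtain ⟨f0, hf0⟩ : ∃ f0 : B.orthogonal (Submodule.span F {v}), B e f0 ≠ 0 := by
      by_contra hcon
      push Not at hcon
      exact he (hnd.1 e hcon)
    obtain ⟨f, hf, hvf⟩ : ∃ f : V, B e f = 1 ∧ B v f = 0 :=
      ⟨(B e f0)⁻¹ • (f0 : V), by rw [map_smul, smul_eq_mul, inv_mul_cancel₀ hf0], by
        rw [map_smul, hmem _ f0.2, smul_zero]⟩
    have hve := hmem _ e.2
    have hee := hna _ hve
    have hff := hna _ hvf
    apply hstep (v + e)
    · simp only [map_add, LinearMap.add_apply, hv, hve, hee, hsym (e : V) v]; ring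
    · refine ⟨v + f, ?_, ?_⟩
      · simp only [map_add, LinearMap.add_apply, hv, hvf, hf, hsym (e : V) v, hve]
        linear_combination h2
      · simp only [map_add, LinearMap.add_apply, hv, hvf, hff, hsym f v]
        simp

/-- Over a finite field of characteristic two, a non-degenerate symmetric bilinear form that is not alternating (some vector v has B(v, v) ≠ 0) admits an orthonormal basis. -/
theorem result {F V : Type*} [Field F] [Finite F] [CharP F 2] [AddCommGroup V] [Module F V] [FiniteDimensional F V] {n : ℕ} (hV : Module.finrank F V = n) (B : LinearMap.BilinForm F V) (hS : B.IsSymm) (hB : B.Nondegenerate) (hna : ∃ v : V, B v v ≠ 0) : ∃ b : Module.Basis (Fin n) F V, ∀ i j, B (b i) (b j) = if i = j then 1 else 0 := by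
  obtain ⟨b, hb⟩ := exists_family n hV B hS hB hna
  have hli : LinearIndependent F b := by
    rw [Fintype.linearIndependent_iff]
    intro g hg i
    have h1 : B (b i) (∑ j, g j • b j) = 0 := by rw [hg, map_zero]
    rw [map_sum] at h1
    simp only [map_smul, hb, smul_eq_mul, mul_ite, mul_one, mul_zero] at h1
    simpa using h1
  obtain ⟨b', hb'⟩ := H16.Quad.exists_basis_of_li hli (by rw [hV, Fintype.card_fin])
  refine ⟨b', fun i j => ?_⟩
  rw [hb']
  exact hb i j

end Cfsg.Agent.S2622
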