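import Cfsg.Agent.H16_Gr3
import Cfsg.Agent.S2622
import Cfsg.Agent.H16_GamS
import Cfsg.Agent.H16_PSU7

set_option autoImplicit false

/-! Graph automorphisms of `PSL_n`: characteristic two. -/

namespace Cfsg.Agent.H16.Gr

open Matrix Module Cfsg.Agent.H16.AutL
open QuadraticMap (polar)
open Cfsg.Agent.H16.Quad

section Split

variable {ι : Type} [Fintype ι] [DecidableEq ι] {F : Type*} [Field F]

/-- isometry group of a two-argument function. -/
def isoG (f : (ι → F) → (ι → F) → F) : Subgroup (GL ι F) where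
  carrier := {g | ∀ u v, f ((g : Matrix ι ι F) *ᵥ u) ((g : Matrix ι ι F) *ᵥ v) = f u v}
  mul_mem' {a b} ha hb := by
    intro u v
    rw [Units.val_mul, ← Matrix.mulVec_mulVec, ← Matrix.mulVec_mulVec, ha, hb]
  one_mem' := fun u v => by simp
  inv_mem' {a} ha := by
    intro u v
    have h := ha (((a⁻¹ : GL ι F) : Matrix ι ι F) *ᵥ u) (((a⁻¹ : GL ι F) : Matrix ι ι F) *ᵥ v)
    rw [Matrix.mulVec_mulVec, Matrix.mulVec_mulVec, ← Units.val_mul, mul_inv_cancel, Units.val_one,
      Matrix.one_mulVec, Matrix.one_mulVec] at h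
    exact h.symm

theorem mem_isoG {f : (ι → F) → (ι → F) → F} {g : GL ι F} :
    g ∈ isoG f ↔ ∀ u v, f ((g : Matrix ι ι F) *ᵥ u) ((g : Matrix ι ι F) *ᵥ v) = f u v := Iff.rfl

theorem projQuot_split {H K : Subgroup (GL ι F)} (hKH : K ≤ H)
    (h1 : ∀ g ∈ H, ∃ (c : Fˣ) (k : GL ι F), k ∈ K ∧ g = Gam.scl ι c * k)
    (h2 : ∀ g ∈ K, g ∈ Cfsg.Geo.scalars ι F → g = 1) : Nonempty (Cfsg.projQuot H ≃* K) := by
  obtain ⟨E⟩ := Gam.projQuot_equiv hKH h1
  have hb : (Cfsg.Geo.scalars ι F).subgroupOf K = ⊥ := by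
    rw [eq_bot_iff]
    intro g hg
    rw [Subgroup.mem_subgroupOf] at hg
    exact Subtype.ext (h2 _ g.2 hg)
  exact ⟨E.trans ((QuotientGroup.quotientMulEquivOfEq hb).trans QuotientGroup.quotientBot)⟩

theorem sq_inj (h2 : (2 : F) = 0) {x y : F} (h : x * x = y * y) : x = y := by
  have : (x - y) * (x - y) = 0 := by linear_combination h - (x * y - y * y) * h2
  have := mul_self_eq_zero.mp this
  linear_combination this

variable [Finite F]

theorem sim_split (h2 : (2 : F) = 0) {f : (ι → F) → (ι → F) → F}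
    (hs : ∀ (c : F) u v, f (c • u) (c • v) = c * c * f u v) (hne : ∃ u v, f u v ≠ 0) :
    Nonempty (Cfsg.projQuot (Cfsg.Geo.similarityGroup f) ≃* isoG f) := by
  refine projQuot_split ?_ ?_ ?_
  · intro g hg
    exact ⟨1, fun u v => by rw [hg u v, Units.val_one, one_mul]⟩
  · rintro g ⟨c, hc⟩
    obtain ⟨a, ha⟩ := isSquare_of_two_eq_zero h2 (c : F)
    have ha0 : a ≠ 0 := by rintro rfl; exact c.ne_zero (by rw [ha, mul_zero])
    refine ⟨Units.mk0 a ha0, (Gam.scl ι (Units.mk0 a ha0))⁻¹ * g, ?_, by rw [mul_inv_cancel_left]⟩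
    intro u v
    have h3 : ∀ w, (((Gam.scl ι (Units.mk0 a ha0))⁻¹ * g : GL ι F) : Matrix ι ι F) *ᵥ w = a⁻¹ • ((g : Matrix ι ι F) *ᵥ w) := by
      intro w
      rw [← _root_.map_inv, PSp.coe_mul_mulVec, PSp.scl_mulVec]; rfl
    rw [h3, h3, hs, hc, ha]
    field_simp
  · intro g hg hg2
    obtain ⟨c, rfl⟩ := Gam.mem_scalars.mp hg2
    obtain ⟨u, v, huv⟩ := hne
    have := hg u v
    rw [PSp.scl_mulVec, PSp.scl_mulVec, hs] at this
    have h3 : (c : F) * c = 1 * 1 := by
      rw [one_mul]; exact mul_right_cancel₀ huv (by rw [this, one_mul])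
    have h4 : c = 1 := Units.ext (sq_inj h2 h3)
    rw [h4, _root_.map_one]

theorem quad_split (h2 : (2 : F) = 0) {Q : (ι → F) → F}
    (hs : ∀ (c : F) u, Q (c • u) = c * c * Q u) (hne : ∃ u, Q u ≠ 0) :
    Nonempty (Cfsg.PGO F Q ≃* Cfsg.isometryGroup F Q) := by
  refine projQuot_split ?_ ?_ ?_
  · intro g hg
    exact ⟨1, fun u => by rw [mem_isometryGroup.mp hg u, Units.val_one, one_mul]⟩
  · rintro g ⟨c, hc⟩
    obtain ⟨a, ha⟩ := isSquare_of_two_eq_zero h2 (c : F)
    have ha0 : a ≠ 0 := by rintro rfl; exact c.ne_zero (by rw [ha, mul_zero])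
    refine ⟨Units.mk0 a ha0, (Gam.scl ι (Units.mk0 a ha0))⁻¹ * g, ?_, by rw [mul_inv_cancel_left]⟩
    rw [mem_isometryGroup]
    intro u
    have h3 : ∀ w, (((Gam.scl ι (Units.mk0 a ha0))⁻¹ * g : GL ι F) : Matrix ι ι F) *ᵥ w = a⁻¹ • ((g : Matrix ι ι F) *ᵥ w) := by
      intro w
      rw [← _root_.map_inv, PSp.coe_mul_mulVec, PSp.scl_mulVec]; rfl
    rw [h3, hs, hc, ha]
    field_simp
  · intro g hg hg2
    obtain ⟨c, rfl⟩ := Gam.mem_scalars.mp hg2
    obtain ⟨u, hu⟩ := hne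
    have := mem_isometryGroup.mp hg u
    rw [PSp.scl_mulVec, hs] at this
    have h3 : (c : F) * c = 1 * 1 := by
      rw [one_mul]; exact mul_right_cancel₀ hu (by rw [this, one_mul])
    have h4 : c = 1 := Units.ext (sq_inj h2 h3)
    rw [h4, _root_.map_one]

end Split

section NonAlt

variable {F V V' : Type*} [Field F] [Finite F] [CharP F 2] [AddCommGroup V] [Module F V] [FiniteDimensional F V]
  [AddCommGroup V'] [Module F V'] [FiniteDimensional F V']

theorem nonalt_isom {B : LinearMap.BilinForm F V} {B' : LinearMap.BilinForm F V'} (hS : B.IsSymm) (hS' : B'.IsSymm)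
    (hB : B.Nondegenerate) (hB' : B'.Nondegenerate) (hna : ∃ v, B v v ≠ 0) (hna' : ∃ v, B' v v ≠ 0)
    (hV : finrank F V = finrank F V') : ∃ φ : V ≃ₗ[F] V', ∀ x y, B' (φ x) (φ y) = B x y := by
  obtain ⟨b, hb⟩ := Cfsg.Agent.S2622.result rfl B hS hB hna
  obtain ⟨b', hb'⟩ := Cfsg.Agent.S2622.result hV.symm B' hS' hB' hna'
  refine ⟨b.equiv b' (Equiv.refl _), fun x y => ?_⟩
  have h : B'.compl₁₂ (b.equiv b' (Equiv.refl _)).toLinearMap (b.equiv b' (Equiv.refl _)).toLinearMap = B := by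
    refine b.ext fun i => b.ext fun j => ?_
    rw [LinearMap.compl₁₂_apply, LinearEquiv.coe_coe, Basis.equiv_apply, Basis.equiv_apply, Equiv.refl_apply,
      Equiv.refl_apply, hb, hb']
  exact LinearMap.congr_fun (LinearMap.congr_fun h x) y

theorem nonalt_mat {ι : Type} [Fintype ι] [DecidableEq ι] {n : ℕ} {M : Matrix ι ι F} {N : Matrix (Fin n) (Fin n) F}
    (hM : Mᵀ = M) (hN : Nᵀ = N) (hMd : M.det ≠ 0) (hNd : N.det ≠ 0) (hna : ∃ x, x ⬝ᵥ (M *ᵥ x) ≠ 0)
    (hna' : ∃ x, frm N x x ≠ 0) (hcard : Fintype.card ι = n) :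
    ∃ φ : (Fin n → F) ≃ₗ[F] (ι → F), ∀ x y, (φ x) ⬝ᵥ (M *ᵥ (φ y)) = frm N x y := by
  have hsym : ∀ {κ : Type} [Fintype κ] [DecidableEq κ] {A : Matrix κ κ F}, Aᵀ = A → (Matrix.toBilin' A).IsSymm := by
    intro κ _ _ A hA
    refine ⟨fun x y => ?_⟩
    rw [Matrix.toBilin'_apply', Matrix.toBilin'_apply', dotProduct_mulVec, dotProduct_comm, ← mulVec_transpose, hA]
  obtain ⟨φ, hφ⟩ := nonalt_isom (B := Matrix.toBilin' N) (B' := Matrix.toBilin' M) (hsym hN) (hsym hM)
    (LinearMap.BilinForm.nondegenerate_toBilin'_iff_det_ne_zero.mpr hNd)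
    (LinearMap.BilinForm.nondegenerate_toBilin'_iff_det_ne_zero.mpr hMd)
    (by obtain ⟨x, hx⟩ := hna'; exact ⟨x, by rw [Matrix.toBilin'_apply']; exact hx⟩)
    (by obtain ⟨x, hx⟩ := hna; exact ⟨x, by rw [Matrix.toBilin'_apply']; exact hx⟩)
    (by rw [Module.finrank_fintype_fun_eq_card, Module.finrank_fintype_fun_eq_card, Fintype.card_fin, hcard])
  refine ⟨φ, fun x y => ?_⟩
  have := hφ x y
  rw [Matrix.toBilin'_apply', Matrix.toBilin'_apply'] at this
  exact this

end NonAlt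

section Sp

variable {F : Type*} [Field F] (m : ℕ)

/-- units from symplectic matrices. -/
noncomputable def spU (s : Matrix.symplecticGroup (Fin m) F) : GL (Fin m ⊕ Fin m) F :=
  Matrix.GeneralLinearGroup.mk'' (s : Matrix (Fin m ⊕ Fin m) (Fin m ⊕ Fin m) F) (SymplecticGroup.symplectic_det s.2)

theorem spU_coe (s : Matrix.symplecticGroup (Fin m) F) :
    ((spU m s : GL (Fin m ⊕ Fin m) F) : Matrix (Fin m ⊕ Fin m) (Fin m ⊕ Fin m) F) =
      (s : Matrix (Fin m ⊕ Fin m) (Fin m ⊕ Fin m) F) := rfl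

theorem isoG_symp : Nonempty (isoG (Cfsg.sympForm m F) ≃* Matrix.symplecticGroup (Fin m) F) := by
  let f : isoG (Cfsg.sympForm m F) →* Matrix.symplecticGroup (Fin m) F :=
    { toFun := fun g => ⟨((g : GL (Fin m ⊕ Fin m) F) : Matrix (Fin m ⊕ Fin m) (Fin m ⊕ Fin m) F),
        (H5.Conc.mem_symplecticGroup_iff _).mpr g.2⟩
      map_one' := rfl
      map_mul' := fun _ _ => rfl }
  refine ⟨MulEquiv.ofBijective f ⟨?_, ?_⟩⟩
  · intro g h hgh
    exact Subtype.ext (Units.ext (congrArg Subtype.val hgh))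
  · intro s
    exact ⟨⟨spU m s, (H5.Conc.mem_symplecticGroup_iff _).mp s.2⟩, rfl⟩

end Sp

section Odd2

variable {F : Type*} [Field F] [Finite F] {m : ℕ}

theorem sympForm_add_right (u v w : Fin m ⊕ Fin m → F) :
    Cfsg.sympForm m F u (v + w) = Cfsg.sympForm m F u v + Cfsg.sympForm m F u w := by
  rw [Cfsg.sympForm, Cfsg.sympForm, Cfsg.sympForm, mulVec_add, dotProduct_add]

theorem sympForm_add_left (u v w : Fin m ⊕ Fin m → F) :
    Cfsg.sympForm m F (u + v) w = Cfsg.sympForm m F u w + Cfsg.sympForm m F v w := by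
  rw [Cfsg.sympForm, Cfsg.sympForm, Cfsg.sympForm, add_dotProduct]

theorem sympForm_smul_right (c : F) (u v : Fin m ⊕ Fin m → F) :
    Cfsg.sympForm m F u (c • v) = c * Cfsg.sympForm m F u v := by
  rw [Cfsg.sympForm, Cfsg.sympForm, mulVec_smul, dotProduct_smul, smul_eq_mul]

theorem sympForm_smul_left (c : F) (u v : Fin m ⊕ Fin m → F) :
    Cfsg.sympForm m F (c • u) v = c * Cfsg.sympForm m F u v := by
  rw [Cfsg.sympForm, Cfsg.sympForm, smul_dotProduct, smul_eq_mul]

theorem sympForm_self (u : Fin m ⊕ Fin m → F) : Cfsg.sympForm m F u u = 0 := by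
  rw [← H5.Conc.sympB_apply]; exact H5.Conc.sympB_alt m F u

theorem sympForm_nd {u : Fin m ⊕ Fin m → F} (h : ∀ v, Cfsg.sympForm m F u v = 0) : u = 0 :=
  H5.Conc.sympFrm_nondeg m F u fun v => by rw [H5.Conc.sympFrm_B]; exact h v

/-- the form `x₀ y₀ + symp` as a function. -/
def f1 (m : ℕ) (F : Type*) [Field F] (x y : Unit ⊕ (Fin m ⊕ Fin m) → F) : F :=
  x (Sum.inl ()) * y (Sum.inl ()) + Cfsg.sympForm m F (x ∘ Sum.inr) (y ∘ Sum.inr)

theorem f1_eq (x y : Unit ⊕ (Fin m ⊕ Fin m) → F) :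
    x ⬝ᵥ ((Matrix.fromBlocks (1 : Matrix Unit Unit F) 0 0 (Matrix.J (Fin m) F)) *ᵥ y) = f1 m F x y := by
  rw [fromBlocks_mulVec, dotProduct, Fintype.sum_sum_type]
  simp only [Finset.univ_unique, PUnit.default_eq_unit, Sum.elim_inl, Sum.elim_inr, one_mulVec, zero_mulVec, add_zero,
    zero_add, Function.comp, Finset.sum_singleton]
  rfl

/-- lower right block of a unit. -/
def b22 (g : GL (Unit ⊕ (Fin m ⊕ Fin m)) F) : Matrix (Fin m ⊕ Fin m) (Fin m ⊕ Fin m) F :=
  (g : Matrix (Unit ⊕ (Fin m ⊕ Fin m)) (Unit ⊕ (Fin m ⊕ Fin m)) F).toBlocks₂₂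

/-- isometries of `f1` in characteristic two. -/
theorem isoG_f1 (h2 : (2 : F) = 0) : Nonempty (isoG (f1 m F) ≃* Matrix.symplecticGroup (Fin m) F) := by
  -- structure of isometries
  have hkey : ∀ g : GL (Unit ⊕ (Fin m ⊕ Fin m)) F, g ∈ isoG (f1 m F) ↔
      ∃ A : Matrix (Fin m ⊕ Fin m) (Fin m ⊕ Fin m) F, A ∈ Matrix.symplecticGroup (Fin m) F ∧
        (g : Matrix (Unit ⊕ (Fin m ⊕ Fin m)) (Unit ⊕ (Fin m ⊕ Fin m)) F) = Matrix.fromBlocks 1 0 0 A := by
    intro g
    constructor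
    · intro hg
      set M := (g : Matrix (Unit ⊕ (Fin m ⊕ Fin m)) (Unit ⊕ (Fin m ⊕ Fin m)) F) with hM
      have h0 : ∀ x, (M *ᵥ x) (Sum.inl ()) = x (Sum.inl ()) := by
        intro x
        have := hg x x
        rw [f1, f1, sympForm_self, sympForm_self, add_zero, add_zero] at this
        exact sq_inj h2 this
      have hs : ∀ x y, Cfsg.sympForm m F ((M *ᵥ x) ∘ Sum.inr) ((M *ᵥ y) ∘ Sum.inr) =
          Cfsg.sympForm m F (x ∘ Sum.inr) (y ∘ Sum.inr) := by
        intro x y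
        have := hg x y
        rw [f1, f1, h0, h0] at this
        exact add_left_cancel this
      have hb := fromBlocks_toBlocks M
      have e0 : ∀ (a : Unit → F) (u : Fin m ⊕ Fin m → F), M *ᵥ (Sum.elim a u) =
          Sum.elim (M.toBlocks₁₁ *ᵥ a + M.toBlocks₁₂ *ᵥ u) (M.toBlocks₂₁ *ᵥ a + M.toBlocks₂₂ *ᵥ u) := by
        intro a u
        conv_lhs => rw [← hb]
        rw [fromBlocks_mulVec]
        simp
      have hA : M.toBlocks₂₂ ∈ Matrix.symplecticGroup (Fin m) F := by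
        rw [H5.Conc.mem_symplecticGroup_iff]
        intro u v
        have := hs (Sum.elim 0 u) (Sum.elim 0 v)
        rw [e0, e0] at this
        simpa using this
      have hsur : ∀ v, ∃ u, M.toBlocks₂₂ *ᵥ u = v := by
        intro v
        refine ⟨(M.toBlocks₂₂)⁻¹ *ᵥ v, ?_⟩
        rw [mulVec_mulVec, Matrix.mul_nonsing_inv _ (SymplecticGroup.symplectic_det hA), one_mulVec]
      refine ⟨M.toBlocks₂₂, hA, ?_⟩
      have h11 : M.toBlocks₁₁ = 1 := by
        ext i j
        have := h0 (Sum.elim 1 0)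
        rw [e0] at this
        simp only [mulVec_zero, add_zero, Sum.elim_inl, Pi.one_apply] at this
        rw [Subsingleton.elim i (), Subsingleton.elim j (), Matrix.one_apply_eq]
        rw [← this, mulVec, dotProduct]
        simp
      have h12 : M.toBlocks₁₂ = 0 := by
        ext i j
        have := h0 (Sum.elim 0 (Pi.single j 1))
        rw [e0] at this
        simp only [mulVec_zero, zero_add, Sum.elim_inl, Pi.zero_apply] at this
        rw [Subsingleton.elim i (), Matrix.zero_apply, ← this, mulVec_single_one]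
        rfl
      have h21 : M.toBlocks₂₁ = 0 := by
        ext i j
        have h3 : M.toBlocks₂₁ *ᵥ (1 : Unit → F) = 0 := by
          apply sympForm_nd
          intro v
          obtain ⟨u, rfl⟩ := hsur v
          have := hs (Sum.elim 1 0) (Sum.elim 0 u)
          rw [e0, e0] at this
          simp only [mulVec_zero, add_zero, zero_add, Sum.elim_comp_inr] at this
          rw [this, ← zero_smul F (0 : Fin m ⊕ Fin m → F), sympForm_smul_left, zero_mul]
        have := congrFun h3 i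
        rw [Subsingleton.elim j (), Matrix.zero_apply]
        rw [mulVec, dotProduct] at this
        simpa using this
      conv_lhs => rw [← hb, h11, h12, h21]
    · rintro ⟨A, hA, hg⟩ x y
      rw [hg, f1, f1, fromBlocks_mulVec, fromBlocks_mulVec]
      simp only [one_mulVec, zero_mulVec, add_zero, zero_add, Sum.elim_inl, Sum.elim_comp_inr, Function.comp]
      rw [(H5.Conc.mem_symplecticGroup_iff A).mp hA]
  let f : isoG (f1 m F) →* Matrix.symplecticGroup (Fin m) F :=
    { toFun := fun g => ⟨b22 ((g : GL (Unit ⊕ (Fin m ⊕ Fin m)) F)), by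
        obtain ⟨A, hA, hg⟩ := (hkey g).mp g.2
        rw [b22, hg, toBlocks_fromBlocks₂₂]
        exact hA⟩
      map_one' := by
        apply Subtype.ext
        change ((1 : Matrix (Unit ⊕ (Fin m ⊕ Fin m)) (Unit ⊕ (Fin m ⊕ Fin m)) F)).toBlocks₂₂ = 1
        rw [← fromBlocks_one, toBlocks_fromBlocks₂₂]
      map_mul' := by
        intro g h
        apply Subtype.ext
        change b22 ((g : GL (Unit ⊕ (Fin m ⊕ Fin m)) F) * (h : GL (Unit ⊕ (Fin m ⊕ Fin m)) F)) =
          b22 (g : GL (Unit ⊕ (Fin m ⊕ Fin m)) F) * b22 (h : GL (Unit ⊕ (Fin m ⊕ Fin m)) F)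
        obtain ⟨A, hA, hg⟩ := (hkey g).mp g.2
        obtain ⟨B, hB, hh⟩ := (hkey h).mp h.2
        rw [b22, b22, b22, Units.val_mul, hg, hh, fromBlocks_multiply, toBlocks_fromBlocks₂₂, toBlocks_fromBlocks₂₂,
          toBlocks_fromBlocks₂₂]
        simp }
  refine ⟨MulEquiv.ofBijective f ⟨?_, ?_⟩⟩
  · intro g h hgh
    obtain ⟨A, hA, hg⟩ := (hkey g).mp g.2
    obtain ⟨B, hB, hh⟩ := (hkey h).mp h.2
    apply Subtype.ext
    apply Units.ext
    have := congrArg Subtype.val hgh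
    change b22 (g : GL (Unit ⊕ (Fin m ⊕ Fin m)) F) = b22 (h : GL (Unit ⊕ (Fin m ⊕ Fin m)) F) at this
    rw [b22, b22, hg, hh, toBlocks_fromBlocks₂₂, toBlocks_fromBlocks₂₂] at this
    rw [hg, hh, this]
  · intro s
    have hdet : IsUnit (Matrix.fromBlocks (1 : Matrix Unit Unit F) 0 0 (s : Matrix (Fin m ⊕ Fin m) (Fin m ⊕ Fin m) F)).det := by
      rw [det_fromBlocks_zero₂₁, det_one, one_mul]
      exact SymplecticGroup.symplectic_det s.2
    refine ⟨⟨Matrix.GeneralLinearGroup.mk'' _ hdet, (hkey _).mpr ⟨s, s.2, rfl⟩⟩, ?_⟩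
    apply Subtype.ext
    exact toBlocks_fromBlocks₂₂ _ _ _ _

/-- isometries of the odd-dimensional form in characteristic two. -/
theorem isoQ_odd (h2 : (2 : F) = 0) :
    Nonempty (Cfsg.isometryGroup F (Cfsg.quadFormOdd m F) ≃* Matrix.symplecticGroup (Fin m) F) := by
  set q : (Fin m ⊕ Fin m → F) → F := fun u => Cfsg.quadFormPlus m F u with hq
  have hQ : ∀ x, Cfsg.quadFormOdd m F x = x (Sum.inl ()) * x (Sum.inl ()) + q (x ∘ Sum.inr) := by
    intro x
    rw [Cfsg.quadFormOdd, hq]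
    simp only [Cfsg.quadFormPlus, Function.comp]
    ring
  have hqs : ∀ (c : F) u, q (c • u) = c * c * q u := by
    intro c u
    simp only [hq]
    rw [← plusQ_apply, ← plusQ_apply, QuadraticMap.map_smul, smul_eq_mul]
  have hqa : ∀ u v, q (u + v) = q u + q v + Cfsg.sympForm m F u v := by
    intro u v
    simp only [hq]
    have h3 := polar_plusQ (F := F) m u v
    rw [polar, plusQ_apply, plusQ_apply, plusQ_apply] at h3
    have h4 : Cfsg.sympForm m F u v = ∑ i : Fin m, (u (Sum.inl i) * v (Sum.inr i) + v (Sum.inl i) * u (Sum.inr i)) := by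
      rw [H5.Conc.sympForm_eq]
      refine Finset.sum_congr rfl fun i _ => ?_
      linear_combination (-(u (Sum.inl i) * v (Sum.inr i))) * h2
    rw [h4]
    linear_combination h3
  -- structure of isometries
  have hkey : ∀ g : GL (Unit ⊕ (Fin m ⊕ Fin m)) F, g ∈ Cfsg.isometryGroup F (Cfsg.quadFormOdd m F) ↔
      ∃ (A : Matrix (Fin m ⊕ Fin m) (Fin m ⊕ Fin m) F) (B : Matrix Unit (Fin m ⊕ Fin m) F),
        A ∈ Matrix.symplecticGroup (Fin m) F ∧
        (∀ u, (B *ᵥ u) () * (B *ᵥ u) () = q u + q (A *ᵥ u)) ∧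
        (g : Matrix (Unit ⊕ (Fin m ⊕ Fin m)) (Unit ⊕ (Fin m ⊕ Fin m)) F) = Matrix.fromBlocks 1 B 0 A := by
    intro g
    constructor
    · intro hg
      rw [mem_isometryGroup] at hg
      set M := (g : Matrix (Unit ⊕ (Fin m ⊕ Fin m)) (Unit ⊕ (Fin m ⊕ Fin m)) F) with hM
      have hb := fromBlocks_toBlocks M
      have e0 : ∀ (a : Unit → F) (u : Fin m ⊕ Fin m → F), M *ᵥ (Sum.elim a u) =
          Sum.elim (M.toBlocks₁₁ *ᵥ a + M.toBlocks₁₂ *ᵥ u) (M.toBlocks₂₁ *ᵥ a + M.toBlocks₂₂ *ᵥ u) := by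
        intro a u
        conv_lhs => rw [← hb]
        rw [fromBlocks_mulVec]
        simp
      have hs : ∀ x y, Cfsg.sympForm m F ((M *ᵥ x) ∘ Sum.inr) ((M *ᵥ y) ∘ Sum.inr) =
          Cfsg.sympForm m F (x ∘ Sum.inr) (y ∘ Sum.inr) := by
        intro x y
        have e1 : ∀ x y, Cfsg.quadFormOdd m F (x + y) = Cfsg.quadFormOdd m F x + Cfsg.quadFormOdd m F y +
            Cfsg.sympForm m F (x ∘ Sum.inr) (y ∘ Sum.inr) := by
          intro x y
          have e2 : (x + y) ∘ Sum.inr = x ∘ Sum.inr + y ∘ Sum.inr := rfl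
          rw [hQ, hQ, hQ, e2, hqa, Pi.add_apply]
          linear_combination (x (Sum.inl ()) * y (Sum.inl ())) * h2
        have h3 := hg (x + y)
        rw [mulVec_add, e1, e1, hg, hg] at h3
        exact add_left_cancel h3
      have hne : ∀ v : Fin m ⊕ Fin m → F, (∀ w, Cfsg.sympForm m F v (( M *ᵥ w) ∘ Sum.inr) = 0) → v = 0 := by
        intro v hv
        apply sympForm_nd
        intro w
        have hsur : ∃ z, M *ᵥ z = Sum.elim (0 : Unit → F) w := by
          refine ⟨((g⁻¹ : GL (Unit ⊕ (Fin m ⊕ Fin m)) F) : Matrix (Unit ⊕ (Fin m ⊕ Fin m)) (Unit ⊕ (Fin m ⊕ Fin m)) F) *ᵥ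
            (Sum.elim (0 : Unit → F) w), ?_⟩
          rw [mulVec_mulVec, hM, ← Units.val_mul, mul_inv_cancel, Units.val_one, one_mulVec]
        obtain ⟨z, hz⟩ := hsur
        have := hv z
        rwa [hz, Sum.elim_comp_inr] at this
      have h21 : M.toBlocks₂₁ = 0 := by
        ext i j
        have h3 : M.toBlocks₂₁ *ᵥ (1 : Unit → F) = 0 := by
          apply hne
          intro w
          have := hs (Sum.elim 1 0) w
          rw [e0] at this
          simp only [mulVec_zero, add_zero, Sum.elim_comp_inr] at this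
          rw [this, ← zero_smul F (0 : Fin m ⊕ Fin m → F), sympForm_smul_left, zero_mul]
        have := congrFun h3 i
        rw [Subsingleton.elim j (), Matrix.zero_apply]
        rw [mulVec, dotProduct] at this
        simpa using this
      have h11 : M.toBlocks₁₁ = 1 := by
        ext i j
        have := hg (Sum.elim 1 0)
        rw [e0, h21] at this
        simp only [mulVec_zero, add_zero, hQ, Sum.elim_inl, Sum.elim_comp_inr, zero_mulVec, Pi.one_apply, mul_one] at this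
        have h4 := sq_inj (x := (M.toBlocks₁₁ *ᵥ (1 : Unit → F)) ()) (y := 1) h2
          (by rw [one_mul]; exact add_right_cancel this)
        rw [Subsingleton.elim i (), Subsingleton.elim j (), Matrix.one_apply_eq, ← h4, mulVec, dotProduct]
        simp
      have hA : M.toBlocks₂₂ ∈ Matrix.symplecticGroup (Fin m) F := by
        rw [H5.Conc.mem_symplecticGroup_iff]
        intro u v
        have := hs (Sum.elim 0 u) (Sum.elim 0 v)
        rw [e0, e0] at this
        simpa using this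
      refine ⟨M.toBlocks₂₂, M.toBlocks₁₂, hA, ?_, ?_⟩
      · intro u
        have := hg (Sum.elim 0 u)
        rw [e0, h21, hQ, hQ] at this
        simp only [mulVec_zero, zero_add, Sum.elim_inl, Sum.elim_comp_inr, Pi.zero_apply, mul_zero] at this
        linear_combination this - (q (M.toBlocks₂₂ *ᵥ u)) * h2
      · conv_lhs => rw [← hb, h11, h21]
    · rintro ⟨A, B, hA, hB, hg⟩
      rw [mem_isometryGroup]
      intro x
      rw [hg, hQ, hQ, fromBlocks_mulVec]
      simp only [one_mulVec, zero_mulVec, zero_add, Sum.elim_inl, Sum.elim_comp_inr, Pi.add_apply, Function.comp_apply]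
      linear_combination hB (x ∘ Sum.inr) + (q (A *ᵥ (x ∘ Sum.inr)) + x (Sum.inl ()) * (B *ᵥ (x ∘ Sum.inr)) ()) * h2
  let f : Cfsg.isometryGroup F (Cfsg.quadFormOdd m F) →* Matrix.symplecticGroup (Fin m) F :=
    { toFun := fun g => ⟨b22 ((g : GL (Unit ⊕ (Fin m ⊕ Fin m)) F)), by
        obtain ⟨A, B, hA, hB, hg⟩ := (hkey g).mp g.2
        rw [b22, hg, toBlocks_fromBlocks₂₂]
        exact hA⟩
      map_one' := by
        apply Subtype.ext
        change ((1 : Matrix (Unit ⊕ (Fin m ⊕ Fin m)) (Unit ⊕ (Fin m ⊕ Fin m)) F)).toBlocks₂₂ = 1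
        rw [← fromBlocks_one, toBlocks_fromBlocks₂₂]
      map_mul' := by
        intro g h
        apply Subtype.ext
        change b22 ((g : GL (Unit ⊕ (Fin m ⊕ Fin m)) F) * (h : GL (Unit ⊕ (Fin m ⊕ Fin m)) F)) =
          b22 (g : GL (Unit ⊕ (Fin m ⊕ Fin m)) F) * b22 (h : GL (Unit ⊕ (Fin m ⊕ Fin m)) F)
        obtain ⟨A, B, hA, hB, hg⟩ := (hkey g).mp g.2
        obtain ⟨A', B', hA', hB', hh⟩ := (hkey h).mp h.2
        rw [b22, b22, b22, Units.val_mul, hg, hh, fromBlocks_multiply, toBlocks_fromBlocks₂₂, toBlocks_fromBlocks₂₂,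
          toBlocks_fromBlocks₂₂]
        simp }
  refine ⟨MulEquiv.ofBijective f ⟨?_, ?_⟩⟩
  · intro g h hgh
    obtain ⟨A, B, hA, hB, hg⟩ := (hkey g).mp g.2
    obtain ⟨A', B', hA', hB', hh⟩ := (hkey h).mp h.2
    apply Subtype.ext
    apply Units.ext
    have := congrArg Subtype.val hgh
    change b22 (g : GL (Unit ⊕ (Fin m ⊕ Fin m)) F) = b22 (h : GL (Unit ⊕ (Fin m ⊕ Fin m)) F) at this
    rw [b22, b22, hg, hh, toBlocks_fromBlocks₂₂, toBlocks_fromBlocks₂₂] at this
    subst this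
    have hBB : B = B' := by
      apply mulVec_injective
      funext u i
      rw [Subsingleton.elim i ()]
      exact sq_inj h2 (by rw [hB, hB'])
    rw [hg, hh, hBB]
  · intro s
    -- the square root functional
    have hsr : ∀ a : F, ∃ r, r * r = a := fun a => by
      obtain ⟨r, hr⟩ := isSquare_of_two_eq_zero h2 a
      exact ⟨r, hr.symm⟩
    choose sr hsr using hsr
    set S := (s : Matrix (Fin m ⊕ Fin m) (Fin m ⊕ Fin m) F) with hS
    have hSs := (H5.Conc.mem_symplecticGroup_iff S).mp s.2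
    let μ : (Fin m ⊕ Fin m → F) →ₗ[F] (Unit → F) :=
      { toFun := fun u _ => sr (q u + q (S *ᵥ u))
        map_add' := by
          intro u v
          funext i
          apply sq_inj h2
          rw [hsr, Pi.add_apply, mulVec_add, hqa, hqa, hSs]
          linear_combination (Cfsg.sympForm m F u v - sr (q u + q (S *ᵥ u)) * sr (q v + q (S *ᵥ v))) * h2 - hsr (q u + q (S *ᵥ u)) -
            hsr (q v + q (S *ᵥ v))
        map_smul' := by
          intro c u
          funext i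
          apply sq_inj h2
          rw [hsr, Pi.smul_apply, mulVec_smul, hqs, hqs, RingHom.id_apply, smul_eq_mul]
          linear_combination -(c * c) * hsr (q u + q (S *ᵥ u)) }
    set B : Matrix Unit (Fin m ⊕ Fin m) F := LinearMap.toMatrix' μ with hB
    have hBu : ∀ u, (B *ᵥ u) () = sr (q u + q (S *ᵥ u)) := by
      intro u
      rw [hB, LinearMap.toMatrix'_mulVec]
      rfl
    have hdet : IsUnit (Matrix.fromBlocks (1 : Matrix Unit Unit F) B 0 S).det := by
      rw [det_fromBlocks_zero₂₁, det_one, one_mul]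
      exact SymplecticGroup.symplectic_det s.2
    refine ⟨⟨Matrix.GeneralLinearGroup.mk'' _ hdet, (hkey _).mpr ⟨S, B, s.2, ?_, rfl⟩⟩, ?_⟩
    · intro u
      rw [hBu, hsr]
    · apply Subtype.ext
      exact toBlocks_fromBlocks₂₂ _ _ _ _

end Odd2

end Cfsg.Agent.H16.Gr
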