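import Cfsg.Agent.H16_Gr4
import Cfsg.Agent.H5_Symp

set_option autoImplicit false

/-! Graph automorphisms of `PSL_n`: characteristic two, centralizers. -/

namespace Cfsg.Agent.H16.Gr

open Matrix Module Cfsg.Agent.H16.AutL
open QuadraticMap (polar)
open Cfsg.Agent.H16.Quad

section

variable {F : Type*} [Field F] [Finite F] [CharP F 2] {n : ℕ}

theorem J_symm (m : ℕ) : (Matrix.J (Fin m) F)ᵀ = Matrix.J (Fin m) F := by
  rw [Matrix.J_transpose]
  ext i j
  rw [Matrix.neg_apply, CharTwo.neg_eq]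

theorem det_ne {N : GL (Fin n) F} : (N : Matrix (Fin n) (Fin n) F).det ≠ 0 :=
  (Matrix.isUnits_det_units N).ne_zero

theorem sympForm_comm (m : ℕ) (u v : Fin m ⊕ Fin m → F) : Cfsg.sympForm m F u v = Cfsg.sympForm m F v u := by
  rw [Cfsg.sympForm, Cfsg.sympForm, dotProduct_mulVec, dotProduct_comm, ← mulVec_transpose, J_symm]

/-- odd-dimensional symmetric forms in characteristic two. -/
theorem odd_isom2 {m : ℕ} (hnm : n = 2 * m + 1) {N : GL (Fin n) F} (hN : (N : Matrix (Fin n) (Fin n) F)ᵀ = N) :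
    ∃ φ : (Fin n → F) ≃ₗ[F] (Unit ⊕ (Fin m ⊕ Fin m) → F), ∀ x y, f1 m F (φ x) (φ y) =
      frm (N : Matrix (Fin n) (Fin n) F) x y := by
  have hna : ∃ x, frm (N : Matrix (Fin n) (Fin n) F) x x ≠ 0 := by
    by_contra h
    push Not at h
    obtain ⟨k, hk⟩ := alt_even N h
    omega
  obtain ⟨φ, hφ⟩ := nonalt_mat (M := Matrix.fromBlocks (1 : Matrix Unit Unit F) 0 0 (Matrix.J (Fin m) F))
    (by rw [fromBlocks_transpose, J_symm, transpose_one, transpose_zero, transpose_zero]) hN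
    (by rw [det_fromBlocks_zero₂₁, det_one, one_mul]; exact (Matrix.isUnit_det_J _ _).ne_zero) det_ne
    (by
      refine ⟨Sum.elim 1 0, ?_⟩
      rw [f1_eq, f1, sympForm_self]
      simp)
    hna (by rw [Fintype.card_sum, Fintype.card_sum, Fintype.card_fin, Fintype.card_unit, hnm]; ring)
  exact ⟨φ, fun x y => by rw [← f1_eq, hφ]⟩

theorem cent_odd2 {m : ℕ} (hnm : n = 2 * m + 1) {N : GL (Fin n) F} (hN : (N : Matrix (Fin n) (Fin n) F)ᵀ = N) :
    Nonempty (Cfsg.projQuot (Cfsg.Geo.similarityGroup (frm (N : Matrix (Fin n) (Fin n) F))) ≃*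
      Cfsg.PGO F (Cfsg.quadFormOdd m F)) := by
  have h2 : (2 : F) = 0 := CharTwo.two_eq_zero
  obtain ⟨φ, hφ⟩ := odd_isom2 hnm hN
  obtain ⟨E1⟩ := sim_iso (f := frm (N : Matrix (Fin n) (Fin n) F)) (f' := f1 m F) φ one_ne_zero (fun x y => by rw [hφ, one_mul])
  obtain ⟨E2⟩ := sim_split h2 (f := f1 m F) (fun c u v => by
      rw [f1, f1, Pi.smul_apply, Pi.smul_apply, smul_eq_mul, smul_eq_mul]
      have e1 : (c • u) ∘ Sum.inr = c • (u ∘ Sum.inr) := rfl
      have e2 : (c • v) ∘ Sum.inr = c • (v ∘ Sum.inr) := rfl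
      rw [e1, e2, sympForm_smul_left, sympForm_smul_right]
      ring) ⟨Sum.elim 1 0, Sum.elim 1 0, by
      rw [f1, sympForm_self]; simp⟩
  obtain ⟨E3⟩ := isoG_f1 (F := F) (m := m) h2
  obtain ⟨E4⟩ := isoQ_odd (F := F) (m := m) h2
  obtain ⟨E5⟩ := quad_split h2 (Q := Cfsg.quadFormOdd m F) (fun c u => by
    rw [← oddQ_apply, ← oddQ_apply, QuadraticMap.map_smul, smul_eq_mul]) ⟨Sum.elim 1 0, by
    rw [Cfsg.quadFormOdd]; simp⟩
  exact ⟨E1.trans (E2.trans (E3.trans (E4.symm.trans E5.symm)))⟩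

theorem conj_odd2 (hn : 2 ≤ n) {m : ℕ} (hnm : n = 2 * m + 1) {N N' : GL (Fin n) F}
    (hN : (N : Matrix (Fin n) (Fin n) F)ᵀ = N) (hN' : (N' : Matrix (Fin n) (Fin n) F)ᵀ = N') :
    Cfsg.IsConjUnder (Dd F n) (gm N) (gm N') := by
  obtain ⟨φ, hφ⟩ := odd_isom2 hnm hN
  obtain ⟨φ', hφ'⟩ := odd_isom2 hnm hN'
  refine conj_of_sim hn (φ.trans φ'.symm) one_ne_zero fun x y => ?_
  rw [LinearEquiv.trans_apply, LinearEquiv.trans_apply, ← hφ', LinearEquiv.apply_symm_apply,
    LinearEquiv.apply_symm_apply, hφ, one_mul]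

end

section Even

variable {F : Type*} [Field F] [Finite F] [CharP F 2] {n : ℕ}

/-- the form of the third class. -/
def f2 (m : ℕ) (F : Type*) [Field F] (w x y : Fin m ⊕ Fin m → F) : F :=
  Cfsg.sympForm m F x y + Cfsg.sympForm m F x w * Cfsg.sympForm m F y w

theorem f2_eq {m : ℕ} (w x y : Fin m ⊕ Fin m → F) :
    x ⬝ᵥ ((Matrix.J (Fin m) F + vecMulVec (Matrix.J (Fin m) F *ᵥ w) (Matrix.J (Fin m) F *ᵥ w)) *ᵥ y) = f2 m F w x y := by
  rw [add_mulVec, dotProduct_add, vecMulVec_mulVec, f2, Cfsg.sympForm, Cfsg.sympForm, Cfsg.sympForm]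
  congr 1
  rw [dotProduct_comm y]
  simp [dotProduct_smul, mul_comm]

theorem f2_symm {m : ℕ} (w : Fin m ⊕ Fin m → F) :
    (Matrix.J (Fin m) F + vecMulVec (Matrix.J (Fin m) F *ᵥ w) (Matrix.J (Fin m) F *ᵥ w))ᵀ =
      Matrix.J (Fin m) F + vecMulVec (Matrix.J (Fin m) F *ᵥ w) (Matrix.J (Fin m) F *ᵥ w) := by
  rw [transpose_add, J_symm, transpose_vecMulVec]

theorem f2_det {m : ℕ} (w : Fin m ⊕ Fin m → F) :
    (Matrix.J (Fin m) F + vecMulVec (Matrix.J (Fin m) F *ᵥ w) (Matrix.J (Fin m) F *ᵥ w)).det ≠ 0 := by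
  intro h
  obtain ⟨y, hy, hy2⟩ := exists_mulVec_eq_zero_iff.mpr h
  apply hy
  have h1 : ∀ x, f2 m F w x y = 0 := fun x => by rw [← f2_eq, hy2, dotProduct_zero]
  have h3 : y + Cfsg.sympForm m F y w • w = 0 := by
    apply sympForm_nd
    intro x
    rw [sympForm_add_left, sympForm_smul_left, sympForm_comm m w x, sympForm_comm m y x, mul_comm]
    exact h1 x
  have h4 : Cfsg.sympForm m F y w = 0 := by
    have := congrArg (fun z => Cfsg.sympForm m F z w) h3
    simp only [sympForm_add_left, sympForm_smul_left, sympForm_self, mul_zero, add_zero] at this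
    rw [this, ← zero_smul F (0 : Fin m ⊕ Fin m → F), sympForm_smul_left, zero_mul]
  rwa [h4, zero_smul, add_zero] at h3

theorem exists_dual {m : ℕ} {w : Fin m ⊕ Fin m → F} (hw : w ≠ 0) : ∃ x, Cfsg.sympForm m F x w = 1 := by
  by_contra h
  push Not at h
  apply hw
  apply sympForm_nd
  intro v
  by_contra hv
  apply h ((Cfsg.sympForm m F w v)⁻¹ • v)
  rw [sympForm_smul_left, sympForm_comm m v w, inv_mul_cancel₀ hv]

theorem isoG_f2 {m : ℕ} {w : Fin m ⊕ Fin m → F} (hw : w ≠ 0) :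
    Nonempty (isoG (f2 m F w) ≃* ↥(Subgroup.centralizer
      ({(⟨Cfsg.sympTransvection m w 1, H5.Symp.T_mem w 1⟩ : Matrix.symplecticGroup (Fin m) F)} :
        Set ↥(Matrix.symplecticGroup (Fin m) F)))) := by
  have h2 : (2 : F) = 0 := CharTwo.two_eq_zero
  obtain ⟨x₀, hx₀⟩ := exists_dual hw
  have hkey : ∀ M : Matrix (Fin m ⊕ Fin m) (Fin m ⊕ Fin m) F,
      (∀ u v, f2 m F w (M *ᵥ u) (M *ᵥ v) = f2 m F w u v) ↔
      (M ∈ Matrix.symplecticGroup (Fin m) F ∧ M * Cfsg.sympTransvection m w 1 = Cfsg.sympTransvection m w 1 * M) := by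
    intro M
    constructor
    · intro h
      have h3 : ∀ u, Cfsg.sympForm m F (M *ᵥ u) w = Cfsg.sympForm m F u w := by
        intro u
        have := h u u
        rw [f2, f2, sympForm_self, sympForm_self, zero_add, zero_add] at this
        exact sq_inj h2 this
      have h4 : ∀ u v, Cfsg.sympForm m F (M *ᵥ u) (M *ᵥ v) = Cfsg.sympForm m F u v := by
        intro u v
        have := h u v
        rw [f2, f2, h3, h3] at this
        exact add_right_cancel this
      have h5 : M *ᵥ w = w := by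
        have h6 : M *ᵥ w + w = 0 := by
          apply sympForm_nd
          intro v
          have hM : IsUnit M.det := SymplecticGroup.symplectic_det ((H5.Conc.mem_symplecticGroup_iff M).mpr h4)
          obtain ⟨u, rfl⟩ : ∃ u, M *ᵥ u = v := ⟨M⁻¹ *ᵥ v, by
            rw [mulVec_mulVec, Matrix.mul_nonsing_inv _ hM, one_mulVec]⟩
          rw [sympForm_add_left, h4, sympForm_comm m w (M *ᵥ u), h3, sympForm_comm m w u, ← two_mul, h2, zero_mul]
        have h7 : M *ᵥ w = -w := eq_neg_of_add_eq_zero_left h6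
        rw [h7]
        funext i
        rw [Pi.neg_apply, CharTwo.neg_eq]
      refine ⟨(H5.Conc.mem_symplecticGroup_iff M).mpr h4, ?_⟩
      apply mulVec_injective
      funext x
      rw [← mulVec_mulVec, ← mulVec_mulVec, H5.Symp.T_mulVec, H5.Symp.T_mulVec, mulVec_add, mulVec_smul, h5, h3]
    · rintro ⟨h4, h5⟩ u v
      rw [H5.Conc.mem_symplecticGroup_iff] at h4
      have h6 : ∀ x, Cfsg.sympForm m F x w • (M *ᵥ w) = Cfsg.sympForm m F (M *ᵥ x) w • w := by
        intro x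
        have := congrArg (fun A => A *ᵥ x) h5
        simp only [← mulVec_mulVec, H5.Symp.T_mulVec, mulVec_add, mulVec_smul, one_mul] at this
        exact add_left_cancel this
      obtain ⟨c, hc⟩ : ∃ c : F, M *ᵥ w = c • w := ⟨_, by have := h6 x₀; rwa [hx₀, one_smul] at this⟩
      have h7 : ∀ x, Cfsg.sympForm m F x w = c * Cfsg.sympForm m F (M *ᵥ x) w := by
        intro x
        rw [← h4 x w, hc, sympForm_smul_right]
      have h8 : ∀ x, c * Cfsg.sympForm m F x w = Cfsg.sympForm m F (M *ᵥ x) w := by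
        intro x
        have := h6 x
        rw [hc, smul_smul] at this
        have h9 := congrArg (fun z => Cfsg.sympForm m F x₀ z) this
        simp only [sympForm_smul_right, hx₀, mul_one] at h9
        rw [mul_comm]; exact h9
      have h10 : c = 1 := by
        have := h7 x₀
        rw [← h8, hx₀, mul_one] at this
        exact (sq_inj h2 (by rw [one_mul]; exact this)).symm
      rw [f2, f2, h4, ← h8, ← h8, h10, one_mul, one_mul]
  let f : isoG (f2 m F w) →* ↥(Subgroup.centralizer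
      ({(⟨Cfsg.sympTransvection m w 1, H5.Symp.T_mem w 1⟩ : Matrix.symplecticGroup (Fin m) F)} :
        Set ↥(Matrix.symplecticGroup (Fin m) F))) :=
    { toFun := fun g => ⟨⟨((g : GL (Fin m ⊕ Fin m) F) : Matrix (Fin m ⊕ Fin m) (Fin m ⊕ Fin m) F),
        ((hkey _).mp g.2).1⟩, by
          rw [Subgroup.mem_centralizer_singleton_iff]
          exact Subtype.ext ((hkey _).mp g.2).2⟩
      map_one' := rfl
      map_mul' := fun _ _ => rfl }
  refine ⟨MulEquiv.ofBijective f ⟨?_, ?_⟩⟩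
  · intro g h hgh
    exact Subtype.ext (Units.ext (congrArg (fun z => z.1.1) hgh))
  · rintro ⟨s, hs⟩
    rw [Subgroup.mem_centralizer_singleton_iff] at hs
    exact ⟨⟨spU m s, (hkey _).mpr ⟨s.2, congrArg Subtype.val hs⟩⟩, rfl⟩

theorem transv_is {m : ℕ} {w : Fin m ⊕ Fin m → F} (hw : w ≠ 0) :
    Cfsg.IsTransvection (Cfsg.sympTransvection m w (1 : F)) := by
  have h1 : Cfsg.sympTransvection m w (1 : F) - 1 = vecMulVec w (Matrix.J (Fin m) F *ᵥ w) := by
    rw [Cfsg.sympTransvection, one_smul, add_sub_cancel_left]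
  have hJ : Matrix.J (Fin m) F *ᵥ w ≠ 0 := by
    intro h
    obtain ⟨x, hx⟩ := exists_dual hw
    rw [Cfsg.sympForm, h, dotProduct_zero] at hx
    exact zero_ne_one hx
  rw [Cfsg.IsTransvection, h1]
  constructor
  · apply le_antisymm (Matrix.rank_vecMulVec_le _ _)
    rw [Nat.one_le_iff_ne_zero]
    intro h
    obtain ⟨i, hi⟩ := Function.ne_iff.mp hw
    obtain ⟨j, hj⟩ := Function.ne_iff.mp hJ
    have h3 : vecMulVec w (Matrix.J (Fin m) F *ᵥ w) = 0 := by
      rw [Matrix.rank, Submodule.finrank_eq_zero, LinearMap.range_eq_bot] at h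
      apply mulVec_injective
      funext v
      rw [zero_mulVec]
      exact LinearMap.congr_fun h v
    have h4 := congrFun (congrFun h3 i) j
    rw [vecMulVec_apply] at h4
    exact (mul_ne_zero hi hj) h4
  · rw [vecMulVec_mul_vecMulVec]
    have : (Matrix.J (Fin m) F *ᵥ w) ⬝ᵥ w = 0 := by
      rw [dotProduct_comm]; exact sympForm_self w
    rw [this]
    simp

end Even

end Cfsg.Agent.H16.Gr
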