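import Cfsg.Agent.H16_Gr5
import Cfsg.Agent.S0287
import Cfsg.Agent.S0288
import Cfsg.Agent.S0245

set_option autoImplicit false

/-! Graph automorphisms of `PSL_n`: determinants of similitudes, orders. -/

namespace Cfsg.Agent.H16.Gr

open Matrix Module Cfsg.Agent.H16.AutL
open QuadraticMap (polar)
open Cfsg.Agent.H16.Quad

section Mult

variable {ι : Type} [Fintype ι] [DecidableEq ι] {F : Type*} [Field F] [Finite F] {X : Type*}

/-- the multiplier homomorphism, abstractly. -/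
theorem card_sim {H K : Subgroup (GL ι F)} (a : GL ι F → X → X) (ha : ∀ g h x, a (g * h) x = a g (a h x))
    (f : X → F) (x₀ : X) (hx₀ : f x₀ ≠ 0) (hH : ∀ g ∈ H, ∃ c : Fˣ, ∀ x, f (a g x) = c * f x)
    (hKH : K ≤ H) (hK : ∀ g ∈ H, (g ∈ K ↔ ∀ x, f (a g x) = f x))
    (hsur : ∀ c : Fˣ, ∃ g ∈ H, ∀ x, f (a g x) = c * f x) (hsc : Cfsg.Geo.scalars ι F ≤ H) (hne : Nonempty ι) :
    Nat.card (Cfsg.projQuot H) = Nat.card K := by
  choose μ hμ using hH
  let M : H →* Fˣ :=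
    { toFun := fun g => μ g g.2
      map_one' := by
        apply Units.ext
        have h1 : ∀ x, f (a 1 x) = f x := by
          intro x
          have h2 : a 1 (a 1 x) = a 1 x := by rw [← ha, one_mul]
          have h3 := hμ 1 H.one_mem (a 1 x)
          rw [h2] at h3
          have h4 := hμ 1 H.one_mem x
          by_cases h5 : f x = 0
          · rw [h4, h5, mul_zero]
          · have h6 : f (a 1 x) ≠ 0 := by rw [h4]; exact mul_ne_zero (Units.ne_zero _) h5
            have h7 : ((μ 1 H.one_mem : Fˣ) : F) = 1 := mul_right_cancel₀ h6 (by rw [← h3, one_mul])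
            rw [h4, h7, one_mul]
        have := hμ 1 H.one_mem x₀
        rw [h1] at this
        exact mul_right_cancel₀ hx₀ (this.symm.trans (by rw [Units.val_one, one_mul]))
      map_mul' := by
        intro g h
        apply Units.ext
        have h1 := hμ (g * h : GL ι F) (H.mul_mem g.2 h.2) x₀
        rw [ha, hμ _ g.2, hμ _ h.2, ← mul_assoc] at h1
        exact (mul_right_cancel₀ hx₀ h1).symm }
  have hM : ∀ (g : H) x, f (a g x) = (M g : F) * f x := fun g x => hμ g g.2 x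
  have hker : M.ker = K.subgroupOf H := by
    ext g
    rw [MonoidHom.mem_ker, Subgroup.mem_subgroupOf, hK _ g.2]
    constructor
    · intro h x
      rw [hM, h, Units.val_one, one_mul]
    · intro h
      apply Units.ext
      have := hM g x₀
      rw [h] at this
      exact mul_right_cancel₀ hx₀ (by rw [← this, Units.val_one, one_mul])
  have hMs : Function.Surjective M := by
    intro c
    obtain ⟨g, hg, hc⟩ := hsur c
    refine ⟨⟨g, hg⟩, ?_⟩
    apply Units.ext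
    have := hM ⟨g, hg⟩ x₀
    rw [hc] at this
    exact (mul_right_cancel₀ hx₀ this).symm
  have hfin : Finite (GL ι F) := inferInstance
  have h1 : Nat.card H = Nat.card Fˣ * Nat.card K := by
    have e1 := Subgroup.card_eq_card_quotient_mul_card_subgroup M.ker
    rw [Nat.card_congr (QuotientGroup.quotientKerEquivOfSurjective M hMs).toEquiv, hker,
      Nat.card_congr (Subgroup.subgroupOfEquivOfLe hKH).toEquiv] at e1
    exact e1
  have h2 : Nat.card ((Cfsg.Geo.scalars ι F).subgroupOf H) = Nat.card Fˣ := by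
    rw [Nat.card_congr (Subgroup.subgroupOfEquivOfLe hsc).toEquiv]
    have e2 : Function.Bijective (fun c : Fˣ => (⟨Gam.scl ι c, Gam.mem_scalars.mpr ⟨c, rfl⟩⟩ : Cfsg.Geo.scalars ι F)) := by
      constructor
      · intro c d h
        have h3 := congrArg Subtype.val h
        change Gam.scl ι c = Gam.scl ι d at h3
        obtain ⟨i⟩ := hne
        have h4 := PSp.scl_mulVec (F := F) c (Pi.single i 1)
        rw [h3, PSp.scl_mulVec] at h4
        have h5 := congrFun h4 i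
        simp at h5
        exact Units.ext h5.symm
      · rintro ⟨g, hg⟩
        obtain ⟨c, rfl⟩ := Gam.mem_scalars.mp hg
        exact ⟨c, rfl⟩
    exact (Nat.card_congr (Equiv.ofBijective _ e2)).symm
  have h3 := Subgroup.card_eq_card_quotient_mul_card_subgroup ((Cfsg.Geo.scalars ι F).subgroupOf H)
  rw [h2, h1] at h3
  have h4 : 0 < Nat.card Fˣ := Nat.card_pos
  exact Nat.eq_of_mul_eq_mul_right h4 (by rw [← h3, mul_comm])

theorem card_PGO {Q : QuadraticForm F (ι → F)} (hQ0 : ∃ v, Q v ≠ 0)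
    (hsur : ∀ c : F, c ≠ 0 → ∃ g : (ι → F) ≃ₗ[F] (ι → F), ∀ v, Q (g v) = c * Q v) :
    Nat.card (Cfsg.PGO F ⇑Q) = Nat.card (Cfsg.isometryGroup F ⇑Q) := by
  obtain ⟨v₀, hv₀⟩ := hQ0
  refine card_sim (H := Cfsg.Geo.quadSimilarityGroup (F := F) ⇑Q) (K := Cfsg.isometryGroup F ⇑Q)
    (fun g v => (g : Matrix ι ι F) *ᵥ v) (fun g h v => PSp.coe_mul_mulVec g h v) Q v₀ hv₀ (fun g hg => hg) ?_ ?_ ?_ ?_ ?_
  · intro g hg
    exact ⟨1, fun u => by rw [mem_isometryGroup.mp hg u, Units.val_one, one_mul]⟩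
  · intro g _
    exact mem_isometryGroup
  · intro c
    obtain ⟨g, hg⟩ := hsur c c.ne_zero
    have hgc : ∀ x, (((Quad.glE F ι).symm g : GL ι F) : Matrix ι ι F) *ᵥ x = g x := by
      intro x
      rw [← Quad.glE_apply, MulEquiv.apply_symm_apply]
    refine ⟨(Quad.glE F ι).symm g, ⟨c, fun v => by rw [hgc, hg]⟩, fun v => ?_⟩
    rw [hgc, hg]
  · intro g hg
    obtain ⟨c, rfl⟩ := Gam.mem_scalars.mp hg
    refine ⟨c * c, fun v => ?_⟩
    rw [PSp.scl_mulVec, QuadraticMap.map_smul, Units.val_mul, smul_eq_mul]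
  · by_contra h
    rw [not_nonempty_iff] at h
    apply hv₀
    rw [Subsingleton.elim v₀ 0, QuadraticMap.map_zero]

end Mult

section SpMult

variable {F : Type*} [Field F] {m : ℕ}

/-- a symplectic similitude. -/
def dS (m : ℕ) (c : Fˣ) : GL (Fin m ⊕ Fin m) F :=
  ⟨Matrix.diagonal (Sum.elim (fun _ => (c : F)) (fun _ => 1)), Matrix.diagonal (Sum.elim (fun _ => ((c⁻¹ : Fˣ) : F)) (fun _ => 1)),
    by rw [diagonal_mul_diagonal, ← diagonal_one]; congr 1; funext i; rcases i with i | i <;> simp,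
    by rw [diagonal_mul_diagonal, ← diagonal_one]; congr 1; funext i; rcases i with i | i <;> simp⟩

theorem dS_sim (c : Fˣ) (u v : Fin m ⊕ Fin m → F) :
    Cfsg.sympForm m F (((dS m c : GL (Fin m ⊕ Fin m) F) : Matrix _ _ F) *ᵥ u) (((dS m c : GL (Fin m ⊕ Fin m) F) : Matrix _ _ F) *ᵥ v) =
      (c : F) * Cfsg.sympForm m F u v := by
  have h1 : ∀ u : Fin m ⊕ Fin m → F, ((dS m c : GL (Fin m ⊕ Fin m) F) : Matrix (Fin m ⊕ Fin m) (Fin m ⊕ Fin m) F) *ᵥ u =
      fun i => (Sum.elim (fun _ => (c : F)) (fun _ => 1) i) * u i := by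
    intro u
    funext i
    change (Matrix.diagonal _ *ᵥ u) i = _
    rw [mulVec_diagonal]
  rw [h1, h1, H5.Conc.sympForm_eq, H5.Conc.sympForm_eq, Finset.mul_sum]
  refine Finset.sum_congr rfl fun i _ => ?_
  simp only [Sum.elim_inl, Sum.elim_inr]
  ring

theorem dS_det (c : Fˣ) : ((dS m c : GL (Fin m ⊕ Fin m) F) : Matrix (Fin m ⊕ Fin m) (Fin m ⊕ Fin m) F).det = (c : F) ^ m := by
  change (Matrix.diagonal _).det = _
  rw [det_diagonal, Fintype.prod_sum_type]
  simp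

theorem sim_det {g : GL (Fin m ⊕ Fin m) F} {c : Fˣ} (h : ∀ u v, Cfsg.sympForm m F ((g : Matrix _ _ F) *ᵥ u) ((g : Matrix _ _ F) *ᵥ v) =
      (c : F) * Cfsg.sympForm m F u v) : (g : Matrix (Fin m ⊕ Fin m) (Fin m ⊕ Fin m) F).det = (c : F) ^ m := by
  have h1 : ((dS m c⁻¹ * g : GL (Fin m ⊕ Fin m) F) : Matrix (Fin m ⊕ Fin m) (Fin m ⊕ Fin m) F) ∈ Matrix.symplecticGroup (Fin m) F := by
    rw [H5.Conc.mem_symplecticGroup_iff]
    intro u v
    rw [PSp.coe_mul_mulVec, PSp.coe_mul_mulVec, dS_sim, h, ← mul_assoc, ← Units.val_mul, inv_mul_cancel, Units.val_one, one_mul]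
  have h2 := SymplecticGroup.det_eq_one h1
  rw [Units.val_mul, det_mul, dS_det] at h2
  have h3 : ((c⁻¹ : Fˣ) : F) ^ m * (c : F) ^ m = 1 := by
    rw [← mul_pow, ← Units.val_mul, inv_mul_cancel, Units.val_one, one_pow]
  have h4 : ((c⁻¹ : Fˣ) : F) ^ m ≠ 0 := pow_ne_zero _ (Units.ne_zero _)
  exact mul_left_cancel₀ h4 (by rw [h2, h3])

theorem card_PGSp [Finite F] (hm : 1 ≤ m) : Nat.card (Cfsg.PGSp m F) = Nat.card (Matrix.symplecticGroup (Fin m) F) := by
  obtain ⟨E⟩ := isoG_symp (F := F) m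
  rw [← Nat.card_congr E.toEquiv]
  have hne : Nonempty (Fin m ⊕ Fin m) := ⟨Sum.inl ⟨0, hm⟩⟩
  obtain ⟨v, hv⟩ := H5.Symp.exists_ne (F := F) (m := m) (u := Pi.single (Sum.inl ⟨0, hm⟩) 1) (by
    intro h
    have := congrFun h (Sum.inl ⟨0, hm⟩)
    simp at this)
  refine card_sim (X := (Fin m ⊕ Fin m → F) × (Fin m ⊕ Fin m → F)) (H := Cfsg.GSp m F) (K := isoG (Cfsg.sympForm m F))
    (fun g x => ((g : Matrix (Fin m ⊕ Fin m) (Fin m ⊕ Fin m) F) *ᵥ x.1, (g : Matrix (Fin m ⊕ Fin m) (Fin m ⊕ Fin m) F) *ᵥ x.2))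
    (fun g h x => by rw [PSp.coe_mul_mulVec, PSp.coe_mul_mulVec]) (fun x => Cfsg.sympForm m F x.1 x.2)
    (Pi.single (Sum.inl ⟨0, hm⟩) 1, v) hv ?_ ?_ ?_ ?_ ?_ hne
  · rintro g ⟨c, hc⟩
    exact ⟨c, fun x => hc x.1 x.2⟩
  · intro g hg
    exact ⟨1, fun u v => by rw [hg u v, Units.val_one, one_mul]⟩
  · intro g _
    exact ⟨fun h x => h x.1 x.2, fun h u v => h (u, v)⟩
  · intro c
    exact ⟨dS m c, ⟨c, dS_sim c⟩, fun x => dS_sim c x.1 x.2⟩
  · intro g hg
    obtain ⟨c, rfl⟩ := Gam.mem_scalars.mp hg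
    refine ⟨c * c, fun u v => ?_⟩
    rw [PSp.scl_mulVec, PSp.scl_mulVec, sympForm_smul_left, sympForm_smul_right, Units.val_mul]
    ring

end SpMult

end Cfsg.Agent.H16.Gr
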