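import Cfsg.Agent.H16_Gr6

set_option autoImplicit false

/-! Graph automorphisms of `PSL_n`: class splitting. -/

namespace Cfsg.Agent.H16.Gr

open Matrix Module Cfsg.Agent.H16.AutL Cfsg.Agent.H16.AutG
open QuadraticMap (polar)
open Cfsg.Agent.H16.Quad

section Det

variable {F : Type*} [Field F] [Finite F] {n : ℕ}

theorem det_sq {N g : GL (Fin n) F} {c : Fˣ} (h : (g : Matrix (Fin n) (Fin n) F)ᵀ * (N : Matrix (Fin n) (Fin n) F) *
    (g : Matrix (Fin n) (Fin n) F) = (c : F) • (N : Matrix (Fin n) (Fin n) F)) :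
    (Matrix.GeneralLinearGroup.det g) ^ 2 = c ^ n := by
  have h1 := congrArg Matrix.det h
  rw [det_mul, det_mul, det_transpose, det_smul, Fintype.card_fin] at h1
  have h2 : (N : Matrix (Fin n) (Fin n) F).det ≠ 0 := (Matrix.isUnits_det_units N).ne_zero
  apply Units.ext
  rw [Units.val_pow_eq_pow_val, Units.val_pow_eq_pow_val]
  change ((g : Matrix (Fin n) (Fin n) F).det) ^ 2 = _
  exact mul_right_cancel₀ h2 (by rw [← h1]; ring)

/-- the group of determinants. -/
theorem split_gm (hn : 2 ≤ n) (N : GL (Fin n) F) :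
    Cfsg.splitClassCount (Dd F n) (Cfsg.Inn (Matrix.ProjectiveSpecialLinearGroup (Fin n) F)) (gm N) =
      ((Cfsg.Geo.similarityGroup (frm (N : Matrix (Fin n) (Fin n) F))).map Matrix.GeneralLinearGroup.det ⊔
        (powMonoidHom n : Fˣ →* Fˣ).range).index := by
  have : NeZero n := ⟨by omega⟩
  rw [split_psl hn]
  congr 2
  congr 1
  ext g
  rw [Subgroup.mem_comap]
  exact mem_cent_iff hn

theorem card_units' [Fintype F] {q : ℕ} (hq : Fintype.card F = q) : Nat.card Fˣ = q - 1 := H5.GL.card_units hq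

/-- `n` odd or characteristic two. -/
theorem split_triv (hn : 2 ≤ n) (N : GL (Fin n) F) (h : ¬ (Even n ∧ (2 : F) ≠ 0)) :
    Cfsg.splitClassCount (Dd F n) (Cfsg.Inn (Matrix.ProjectiveSpecialLinearGroup (Fin n) F)) (gm N) =
      Nat.gcd n (Nat.card Fˣ) := by
  rw [split_gm hn]
  have h1 : (Cfsg.Geo.similarityGroup (frm (N : Matrix (Fin n) (Fin n) F))).map Matrix.GeneralLinearGroup.det ⊔
        (powMonoidHom n : Fˣ →* Fˣ).range = (powMonoidHom n : Fˣ →* Fˣ).range := by
    rw [sup_eq_right]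
    rintro _ ⟨g, hg, rfl⟩
    obtain ⟨c, hc⟩ := mem_sim_iff.mp hg
    have hd := det_sq hc
    by_cases h2 : (2 : F) = 0
    · obtain ⟨a, ha⟩ := isSquare_of_two_eq_zero h2 (c : F)
      have ha0 : a ≠ 0 := by rintro rfl; exact c.ne_zero (by rw [ha, mul_zero])
      refine ⟨Units.mk0 a ha0, ?_⟩
      apply Units.ext
      apply sq_inj h2
      have h3 := congrArg Units.val hd
      rw [Units.val_pow_eq_pow_val, Units.val_pow_eq_pow_val, ha, sq] at h3
      rw [h3]
      change a ^ n * a ^ n = _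
      rw [← mul_pow]
    · have hodd : ¬ Even n := fun he => h ⟨he, h2⟩
      rw [Nat.not_even_iff_odd] at hodd
      obtain ⟨m, hm⟩ := hodd
      obtain ⟨d, hdd⟩ : ∃ d : Fˣ, d = Matrix.GeneralLinearGroup.det g := ⟨_, rfl⟩
      rw [← hdd] at hd ⊢
      refine ⟨d * (c ^ m)⁻¹, ?_⟩
      have h5 : (d * (c ^ m)⁻¹) ^ 2 = c := by
        rw [mul_pow, hd, hm, pow_succ, inv_pow, ← pow_mul, mul_comm m 2, mul_right_comm, mul_inv_cancel, one_mul]
      rw [powMonoidHom_apply, hm, pow_succ, pow_mul, h5, mul_comm d, mul_inv_cancel_left]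
  rw [h1, IsCyclic.index_powMonoidHom_range, Nat.gcd_comm]

/-- alternating forms. -/
theorem split_alt (hn : 2 ≤ n) {m : ℕ} (hnm : n = 2 * m) {N : GL (Fin n) F}
    (h : ∀ x, frm (N : Matrix (Fin n) (Fin n) F) x x = 0) :
    Cfsg.splitClassCount (Dd F n) (Cfsg.Inn (Matrix.ProjectiveSpecialLinearGroup (Fin n) F)) (gm N) =
      Nat.gcd m (Nat.card Fˣ) := by
  obtain ⟨φ, hφ⟩ := alt_isom' h hnm
  rw [split_gm hn]
  have hdet : ∀ g : GL (Fin n) F, ((Matrix.GeneralLinearGroup.det g : Fˣ) : F) =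
      ((Par.cj φ g : GL (Fin m ⊕ Fin m) F) : Matrix (Fin m ⊕ Fin m) (Fin m ⊕ Fin m) F).det := by
    intro g
    rw [Par.cj_det]
    rfl
  have h1 : (Cfsg.Geo.similarityGroup (frm (N : Matrix (Fin n) (Fin n) F))).map Matrix.GeneralLinearGroup.det =
      (powMonoidHom m : Fˣ →* Fˣ).range := by
    ext x
    constructor
    · rintro ⟨g, ⟨c, hc⟩, rfl⟩
      refine ⟨c, ?_⟩
      apply Units.ext
      rw [hdet, sim_det (c := c), powMonoidHom_apply, Units.val_pow_eq_pow_val]
      intro u v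
      obtain ⟨u, rfl⟩ := φ.surjective u
      obtain ⟨v, rfl⟩ := φ.surjective v
      rw [Par.cj_mulVec, Par.cj_mulVec, hφ, hφ, hc]
    · rintro ⟨c, rfl⟩
      obtain ⟨g, hg⟩ := Par.cj_surj φ (dS m c)
      refine ⟨g, ⟨c, fun u v => ?_⟩, ?_⟩
      · rw [← hφ, ← hφ, ← Par.cj_mulVec, ← Par.cj_mulVec, hg, dS_sim]
      · apply Units.ext
        rw [hdet, hg, dS_det, powMonoidHom_apply, Units.val_pow_eq_pow_val]
  have h2 : (powMonoidHom n : Fˣ →* Fˣ).range ≤ (powMonoidHom m : Fˣ →* Fˣ).range := by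
    rintro _ ⟨x, rfl⟩
    refine ⟨x ^ 2, ?_⟩
    rw [powMonoidHom_apply, powMonoidHom_apply, ← pow_mul, hnm]
  rw [h1, sup_eq_left.mpr h2, IsCyclic.index_powMonoidHom_range, Nat.gcd_comm]

/-- symmetric forms in even dimension, odd characteristic. -/
theorem split_sym (hn : 2 ≤ n) (h2 : (2 : F) ≠ 0) {k : ℕ} (hnm : n = 2 * k + 2) {N : GL (Fin n) F}
    (hN : (N : Matrix (Fin n) (Fin n) F)ᵀ = N) :
    Cfsg.splitClassCount (Dd F n) (Cfsg.Inn (Matrix.ProjectiveSpecialLinearGroup (Fin n) F)) (gm N) =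
      Nat.gcd n (Nat.card Fˣ) / 2 := by
  rw [split_gm hn]
  have hnd := nd_nQ h2 hN
  have hV : finrank F (Fin n → F) = 2 * k + 2 := by
    rw [Module.finrank_fintype_fun_eq_card, Fintype.card_fin, hnm]
  set D := (Cfsg.Geo.similarityGroup (frm (N : Matrix (Fin n) (Fin n) F))).map Matrix.GeneralLinearGroup.det with hD
  -- similitudes with every multiplier
  have hsim : ∀ (c : Fˣ), ∃ g : GL (Fin n) F, (g ∈ Cfsg.Geo.similarityGroup (frm (N : Matrix (Fin n) (Fin n) F))) ∧
      (Matrix.GeneralLinearGroup.det g) ^ 2 = c ^ n := by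
    intro c
    obtain ⟨g, hg⟩ := exists_similarity hnd hV c.ne_zero
    have hgc : ∀ x, (((Quad.glE F (Fin n)).symm g : GL (Fin n) F) : Matrix (Fin n) (Fin n) F) *ᵥ x = g x := by
      intro x
      rw [← Quad.glE_apply, MulEquiv.apply_symm_apply]
    have hgs : ∀ x y, frm (N : Matrix (Fin n) (Fin n) F) (g x) (g y) = (c : F) * frm (N : Matrix (Fin n) (Fin n) F) x y := by
      intro x y
      have h1 := hg (x + y)
      rw [_root_.map_add g, nQ_apply, nQ_apply, frm_hadd hN, frm_hadd hN, ← nQ_apply, ← nQ_apply, ← nQ_apply,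
        ← nQ_apply, hg, hg] at h1
      exact mul_left_cancel₀ h2 (by linear_combination h1)
    have hmem : ∀ x y, frm (N : Matrix (Fin n) (Fin n) F)
        ((((Quad.glE F (Fin n)).symm g : GL (Fin n) F) : Matrix (Fin n) (Fin n) F) *ᵥ x)
        ((((Quad.glE F (Fin n)).symm g : GL (Fin n) F) : Matrix (Fin n) (Fin n) F) *ᵥ y) =
          (c : F) * frm (N : Matrix (Fin n) (Fin n) F) x y := by
      intro x y
      rw [hgc, hgc, hgs]
    exact ⟨(Quad.glE F (Fin n)).symm g, ⟨c, hmem⟩, det_sq (frm_eq_iff.mpr hmem)⟩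
  -- a reflection
  have hneg : (-1 : Fˣ) ∈ D := by
    obtain ⟨v, hv⟩ : ∃ v, nQ (N : Matrix (Fin n) (Fin n) F) v ≠ 0 := by
      by_contra h
      push Not at h
      have h3 : ∀ x y, polar (nQ (N : Matrix (Fin n) (Fin n) F)) x y = 0 := by
        intro x y
        rw [polar, h, h, h]; ring
      have : Nontrivial (Fin n → F) := Module.nontrivial_of_finrank_pos (R := F) (by rw [hV]; omega)
      obtain ⟨x, hx⟩ := exists_ne (0 : Fin n → F)
      exact hx (nd_eq_zero hnd (h3 x))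
    have hr := symm_rf_coe (nQ (N : Matrix (Fin n) (Fin n) F)) v
    set r := (toOG (nQ (N : Matrix (Fin n) (Fin n) F))).symm (rf (nQ (N : Matrix (Fin n) (Fin n) F)) v) with hrdef
    have hrQ := mem_isometryGroup.mp r.2
    refine ⟨r, ⟨1, fun x y => ?_⟩, ?_⟩
    · rw [Units.val_one, one_mul]
      have h1 := hrQ (x + y)
      rw [mulVec_add, nQ_apply, nQ_apply, frm_hadd hN, frm_hadd hN, ← nQ_apply, ← nQ_apply, ← nQ_apply,
        ← nQ_apply, hrQ, hrQ] at h1
      exact mul_left_cancel₀ h2 (by linear_combination h1)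
    · apply Units.ext
      rw [Units.val_neg, Units.val_one]
      change (((r : Cfsg.isometryGroup F _) : GL (Fin n) F) : Matrix (Fin n) (Fin n) F).det = _
      rw [hr, det_reflectionMatrix hv]
  have h1 : D ⊔ (powMonoidHom n : Fˣ →* Fˣ).range = ((powMonoidHom n : Fˣ →* Fˣ).range).comap (powMonoidHom 2) := by
    apply le_antisymm
    · rw [sup_le_iff]
      constructor
      · rintro _ ⟨g, hg, rfl⟩
        obtain ⟨c, hc⟩ := mem_sim_iff.mp hg
        exact ⟨c, (det_sq hc).symm⟩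
      · rintro _ ⟨t, rfl⟩
        refine ⟨t ^ 2, ?_⟩
        rw [powMonoidHom_apply, powMonoidHom_apply, powMonoidHom_apply, ← pow_mul, ← pow_mul, mul_comm]
    · intro x hx
      obtain ⟨t, ht⟩ := hx
      rw [powMonoidHom_apply, powMonoidHom_apply] at ht
      refine Subgroup.mem_sup_left ?_
      obtain ⟨g, hg, hdet⟩ := hsim t
      rw [ht] at hdet
      have h3 : ((Matrix.GeneralLinearGroup.det g : Fˣ) : F) ^ 2 = (x : F) ^ 2 := by
        rw [← Units.val_pow_eq_pow_val, hdet, Units.val_pow_eq_pow_val]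
      rcases sq_eq_sq_iff_eq_or_eq_neg.mp h3 with h4 | h4
      · exact ⟨g, hg, Units.ext h4⟩
      · have h5 : x = -1 * Matrix.GeneralLinearGroup.det g := by
          apply Units.ext
          rw [Units.val_mul, Units.val_neg, Units.val_one, h4]
          ring
        rw [h5]
        exact D.mul_mem hneg ⟨g, hg, rfl⟩
  rw [h1, Subgroup.index_comap]
  have hle : (powMonoidHom n : Fˣ →* Fˣ).range ≤ (powMonoidHom 2 : Fˣ →* Fˣ).range := by
    rintro _ ⟨x, rfl⟩
    refine ⟨x ^ (k + 1), ?_⟩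
    rw [powMonoidHom_apply, powMonoidHom_apply, ← pow_mul, hnm]
    congr 1
    ring
  have h3 := Subgroup.relIndex_mul_index hle
  rw [IsCyclic.index_powMonoidHom_range, IsCyclic.index_powMonoidHom_range] at h3
  have h4 : (Nat.card Fˣ).gcd 2 = 2 := by
    have := Fintype.ofFinite F
    rw [Nat.gcd_eq_right_iff_dvd, card_units' rfl]
    have := card_mod_two h2
    omega
  rw [h4] at h3
  rw [Nat.gcd_comm n, ← h3, Nat.mul_div_cancel _ (by norm_num)]

end Det

end Cfsg.Agent.H16.Gr
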