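import Cfsg.Agent.H16_Gr7

set_option autoImplicit false

/-! `PGO` and `PGSp` have different orders. -/

namespace Cfsg.Agent.H16.Gr

open Matrix Module Cfsg.Agent.H16.AutL Cfsg.Agent.H16.AutG
open Cfsg.Agent.H16.Quad

variable {F : Type*} [Field F] [Fintype F]

theorem num_ineq {x : ℕ} (hx : 3 ≤ x) : 2 * (x + 1) < x * (x * x - 1) := by
  obtain ⟨y, rfl⟩ : ∃ y, x = y + 1 := ⟨x - 1, by omega⟩
  have : (y + 1) * (y + 1) - 1 = y * (y + 2) := by
    rw [show (y + 1) * (y + 1) = y * (y + 2) + 1 by ring, Nat.add_sub_cancel]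
  rw [this]
  have hy : 2 ≤ y := by omega
  have h2 : (y + 1) * (y * (y + 2)) = (y * (y + 1)) * (y + 2) := by ring
  rw [h2]
  have h3 : 2 < y * (y + 1) := by nlinarith
  nlinarith

theorem prod_pos' {q : ℕ} (hq : 2 ≤ q) (k : ℕ) : 0 < ∏ i ∈ Finset.range k, (q ^ (2 * (i + 1)) - 1) := by
  apply Finset.prod_pos
  intro i _
  have : 1 < q ^ (2 * (i + 1)) := Nat.one_lt_pow (by omega) hq
  omega

theorem card_lt {q k a : ℕ} (hq : 3 ≤ q) (ha : a ≤ q ^ (k + 1) + 1) :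
    2 * q ^ ((k + 1) * (k + 1 - 1)) * a * ∏ i ∈ Finset.range (k + 1 - 1), (q ^ (2 * (i + 1)) - 1) <
      q ^ ((k + 1) ^ 2) * ∏ i ∈ Finset.range (k + 1), (q ^ (2 * (i + 1)) - 1) := by
  rw [Nat.add_sub_cancel, Finset.prod_range_succ]
  have hP := prod_pos' (q := q) (by omega) k
  have hx : 3 ≤ q ^ (k + 1) := hq.trans (Nat.le_self_pow (by omega) q)
  have h1 : q ^ ((k + 1) ^ 2) = q ^ ((k + 1) * k) * q ^ (k + 1) := by rw [← pow_add]; congr 1; ring
  have h2 : q ^ (2 * (k + 1)) = q ^ (k + 1) * q ^ (k + 1) := by rw [← pow_add]; congr 1; ring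
  rw [h1, h2]
  have h3 := num_ineq hx
  set P := ∏ i ∈ Finset.range k, (q ^ (2 * (i + 1)) - 1) with hPdef
  set x := q ^ (k + 1) with hxdef
  have hy : 0 < q ^ ((k + 1) * k) := pow_pos (by omega) _
  calc 2 * q ^ ((k + 1) * k) * a * P = (q ^ ((k + 1) * k) * P) * (2 * a) := by ring
    _ ≤ (q ^ ((k + 1) * k) * P) * (2 * (x + 1)) := by gcongr
    _ < (q ^ ((k + 1) * k) * P) * (x * (x * x - 1)) := by
        apply Nat.mul_lt_mul_of_pos_left h3 (Nat.mul_pos hy hP)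
    _ = _ := by ring

theorem card_ge_three (h2 : (2 : F) ≠ 0) : 3 ≤ Fintype.card F := by
  have h1 := Fintype.one_lt_card (α := F)
  have := card_mod_two h2
  omega

theorem no_plus (h2 : (2 : F) ≠ 0) (k : ℕ) :
    ¬ Nonempty (Cfsg.PGO F (Cfsg.quadFormPlus (k + 1) F) ≃* Cfsg.PGSp (k + 1) F) := by
  rintro ⟨E⟩
  have h := Nat.card_congr E.toEquiv
  have hV : finrank F (Fin (k + 1) ⊕ Fin (k + 1) → F) = 2 * k + 2 := by
    rw [Module.finrank_fintype_fun_eq_card, Fintype.card_sum, Fintype.card_fin]; ring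
  rw [card_PGSp (by omega), Cfsg.Agent.S0245.result rfl, ← coe_plusQ, card_PGO ⟨Sum.elim (Pi.single 0 1) (Pi.single 0 1), by
      rw [plusQ_apply, Cfsg.quadFormPlus]
      simp [Pi.single_apply]⟩ (fun c hc => exists_similarity (nd_plusQ (k + 1)) hV hc), coe_plusQ,
    Cfsg.Agent.S0287.result rfl (k + 1) (by omega)] at h
  refine absurd h (ne_of_lt (card_lt (card_ge_three h2) ?_))
  omega

theorem no_minus (h2 : (2 : F) ≠ 0) (k : ℕ) {a b : F}
    (hab : ∀ z₁ z₂ : F, z₁ ^ 2 + a * z₁ * z₂ + b * z₂ ^ 2 = 0 → z₁ = 0 ∧ z₂ = 0) :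
    ¬ Nonempty (Cfsg.PGO F (Cfsg.quadFormMinus k F a b) ≃* Cfsg.PGSp (k + 1) F) := by
  rintro ⟨E⟩
  have h := Nat.card_congr E.toEquiv
  have hV : finrank F ((Fin k ⊕ Fin k) ⊕ Fin 2 → F) = 2 * k + 2 := by
    rw [Module.finrank_fintype_fun_eq_card, Fintype.card_sum, Fintype.card_sum, Fintype.card_fin, Fintype.card_fin]; ring
  rw [card_PGSp (by omega), Cfsg.Agent.S0245.result rfl, ← coe_minusQ, card_PGO ⟨Sum.elim 0 (Pi.single 0 1), by
      rw [minusQ_apply, Cfsg.quadFormMinus]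
      simp⟩ (fun c hc => exists_similarity (nd_minusQ k hab) hV hc), coe_minusQ] at h
  have h3 := Cfsg.Agent.S0288.result (F := F) rfl (k + 1) (by omega) a b hab
  rw [Nat.add_sub_cancel] at h3
  rw [h3] at h
  have h4 := card_lt (k := k) (card_ge_three h2) (le_refl (Fintype.card F ^ (k + 1) + 1))
  rw [Nat.add_sub_cancel] at h4
  exact absurd h (ne_of_lt h4)

end Cfsg.Agent.H16.Gr
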