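import Cfsg.Agent.H16_Gr8
import Cfsg.Agent.H16_CjU
import Cfsg.Agent.H16_PSU7

set_option autoImplicit false

/-! Graph automorphisms of `PSU_n`. -/

namespace Cfsg.Agent.H16.GrU

open Matrix Cfsg.Agent.H16.Gam Cfsg.Agent.H16.AutL Cfsg.Agent.H16.AutG Cfsg.Agent.H16.Desc Cfsg.Agent.H16.PSU Module
open Cfsg.Agent.H16.Gr (frm)

section Basic

variable {F : Type*} [Field F] [Fintype F] {q n : ℕ}

theorem orderOf_bt (hF : Fintype.card F = q ^ 2) : orderOf (bt hF) = 2 :=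
  orderOf_eq_prime (by rw [sq, bt_sq]) (bt_ne hF)

theorem gσ_invol (hF : Fintype.card F = q ^ 2) (g : GL (Fin n) F) : gσ (bt hF) (gσ (bt hF) g) = g := by
  rw [← gσ_mul, bt_sq, gσ_one]

/-- elements of the semilinear group. -/
noncomputable def gk (hF : Fintype.card F = q ^ 2) (hn : 3 ≤ n) (g : GL (Fin n) F) (σ : F ≃+* F) (hg : g ∈ CGU n F q) :
    (fam hF hn).Γ := ⟨⟨g, σ⟩, hg⟩

theorem gk_coe (hF : Fintype.card F = q ^ 2) (hn : 3 ≤ n) (g : GL (Fin n) F) (σ : F ≃+* F) (hg : g ∈ CGU n F q) :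
    ((gk hF hn g σ hg : (fam hF hn).Γ) : Gm (Fin n) F) = ⟨g, σ⟩ := rfl

theorem gk_mul (hF : Fintype.card F = q ^ 2) (hn : 3 ≤ n) {g g' : GL (Fin n) F} {σ τ : F ≃+* F}
    (hg : g ∈ CGU n F q) (hg' : g' ∈ CGU n F q) :
    gk hF hn g σ hg * gk hF hn g' τ hg' = gk hF hn (g * gσ σ g') (σ * τ) (mul_mem hg (gσ_mem _ hg')) := rfl

theorem gk_congr (hF : Fintype.card F = q ^ 2) (hn : 3 ≤ n) {g g' : GL (Fin n) F} {σ τ : F ≃+* F}
    (hg : g ∈ CGU n F q) (hg' : g' ∈ CGU n F q) (h1 : g = g') (h2 : σ = τ) :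
    gk hF hn g σ hg = gk hF hn g' τ hg' := by
  subst h1 h2; rfl

theorem nin_gk (hF : Fintype.card F = q ^ 2) (hn : 3 ≤ n) {g : GL (Fin n) F} (hg : g ∈ CGU n F q) :
    (fam hF hn).nin ⟨g, hg⟩ = gk hF hn g 1 hg := rfl

theorem fin_gk (hF : Fintype.card F = q ^ 2) (hn : 3 ≤ n) (σ : F ≃+* F) :
    Fam.fin (fam_hasField hF hn) σ = gk hF hn 1 σ (one_mem _) := rfl

theorem mem_D_gk (hF : Fintype.card F = q ^ 2) (hn : 3 ≤ n) {δ : MulAut (Cfsg.PSU n F q)} :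
    δ ∈ (fam hF hn).D ↔ ∃ (g : GL (Fin n) F) (hg : g ∈ CGU n F q), (fam hF hn).T (gk hF hn g 1 hg) = δ := by
  constructor
  · rintro ⟨⟨g, hg⟩, rfl⟩
    exact ⟨g, hg, rfl⟩
  · rintro ⟨g, hg, rfl⟩
    exact ⟨⟨g, hg⟩, rfl⟩

theorem T_one_gk (hF : Fintype.card F = q ^ 2) (hn : 3 ≤ n) {g : GL (Fin n) F} {σ : F ≃+* F} (hg : g ∈ CGU n F q) :
    (fam hF hn).T (gk hF hn g σ hg) = 1 ↔ σ = 1 ∧ ∃ c : Fˣ, g = scl (Fin n) c := by
  rw [(fam hF hn).T_eq_one_iff, gk_coe]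
  constructor
  · rintro ⟨c, hc⟩
    exact ⟨congrArg SemidirectProduct.right hc, c, congrArg SemidirectProduct.left hc⟩
  · rintro ⟨h, c, hc⟩
    exact ⟨c, SemidirectProduct.ext hc h⟩

theorem T_eq_iff (hF : Fintype.card F = q ^ 2) (hn : 3 ≤ n) {g g' : GL (Fin n) F} {σ : F ≃+* F}
    (hg : g ∈ CGU n F q) (hg' : g' ∈ CGU n F q) :
    (fam hF hn).T (gk hF hn g σ hg) = (fam hF hn).T (gk hF hn g' σ hg') ↔ ∃ c : Fˣ, g' = scl (Fin n) c * g := by
  have h0 : ∀ {g : GL (Fin n) F} (hg : g ∈ CGU n F q), gk hF hn g σ hg = gk hF hn g 1 hg * gk hF hn 1 σ (one_mem _) := by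
    intro g hg
    rw [gk_mul]
    exact gk_congr hF hn _ _ (by rw [_root_.map_one, mul_one]) (one_mul _).symm
  have hinv : ∀ {g : GL (Fin n) F} (hg : g ∈ CGU n F q), (gk hF hn g 1 hg)⁻¹ = gk hF hn g⁻¹ 1 (inv_mem hg) := by
    intro g hg
    rw [inv_eq_iff_mul_eq_one, gk_mul]
    exact gk_congr hF hn _ (one_mem _) (by rw [gσ_one, mul_inv_cancel]) (mul_one _)
  rw [h0 hg, h0 hg', _root_.map_mul, _root_.map_mul, mul_left_inj, eq_comm, ← mul_inv_eq_one, ← _root_.map_inv, ← _root_.map_mul,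
    hinv, gk_mul, T_one_gk]
  constructor
  · rintro ⟨-, c, hc⟩
    rw [gσ_one] at hc
    exact ⟨c, by rw [← hc, inv_mul_cancel_right]⟩
  · rintro ⟨c, rfl⟩
    exact ⟨mul_one _, c, by rw [gσ_one, mul_inv_cancel_right]⟩

/-- the graph automorphism attached to `g`. -/
noncomputable def gu (hF : Fintype.card F = q ^ 2) (hn : 3 ≤ n) (g : GL (Fin n) F) (hg : g ∈ CGU n F q) :
    MulAut (Cfsg.PSU n F q) := (fam hF hn).T (gk hF hn g (bt hF) hg)

theorem gu_sq (hF : Fintype.card F = q ^ 2) (hn : 3 ≤ n) {g : GL (Fin n) F} (hg : g ∈ CGU n F q) :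
    (gu hF hn g hg) ^ 2 = 1 ↔ ∃ c : Fˣ, g * gσ (bt hF) g = scl (Fin n) c := by
  rw [sq, gu, ← _root_.map_mul, gk_mul, T_one_gk]
  constructor
  · exact fun h => h.2
  · exact fun h => ⟨bt_sq hF, h⟩

theorem gu_ne_one (hF : Fintype.card F = q ^ 2) (hn : 3 ≤ n) {g : GL (Fin n) F} (hg : g ∈ CGU n F q) :
    gu hF hn g hg ≠ 1 := by
  intro h
  rw [gu, T_one_gk] at h
  exact bt_ne hF h.1

theorem gu_graph (hF : Fintype.card F = q ^ 2) (hn : 3 ≤ n) {g : GL (Fin n) F} (hg : g ∈ CGU n F q) :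
    Cfsg.IsGraphAutClassPSU (gu hF hn g hg) := by
  have h1 : (fam hF hn).T (gk hF hn g 1 hg) ∈ (fam hF hn).D := (mem_D_gk hF hn).mpr ⟨g, hg, rfl⟩
  have h2 : Even (orderOf (bt hF)) := by rw [orderOf_bt]; exact even_two
  have h3 : gu hF hn g hg = (fam hF hn).T (gk hF hn g 1 hg) * (fam hF hn).T (Fam.fin (fam_hasField hF hn) (bt hF)) := by
    rw [fin_gk, ← _root_.map_mul, gk_mul, gu]
    congr 1
    exact gk_congr hF hn _ _ (by rw [_root_.map_one, mul_one]) (one_mul _).symm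
  exact ⟨hn, _, _, bt hF, h2, (innDiag_iff hF hn).mpr h1, (field_iff hF hn).mpr rfl, h3⟩

/-- every involutory graph automorphism is of this form. -/
theorem exists_gu (hF : Fintype.card F = q ^ 2) (hn : 3 ≤ n) {γ : MulAut (Cfsg.PSU n F q)}
    (h : Cfsg.IsGraphAutClassPSU γ) (h2 : orderOf γ = 2) :
    ∃ (g : GL (Fin n) F) (hg : g ∈ CGU n F q), γ = gu hF hn g hg ∧ ∃ c : Fˣ, g * gσ (bt hF) g = scl (Fin n) c := by
  obtain ⟨-, δ, φ, σ, hσ, hδ, hφ, rfl⟩ := h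
  obtain ⟨g, hg, rfl⟩ := (mem_D_gk hF hn).mp ((innDiag_iff hF hn).mp hδ)
  obtain rfl := (field_iff hF hn).mp hφ
  have h3 : (fam hF hn).T (gk hF hn g 1 hg) * (fam hF hn).T (Fam.fin (fam_hasField hF hn) σ) =
      (fam hF hn).T (gk hF hn g σ hg) := by
    rw [fin_gk, ← _root_.map_mul, gk_mul]
    congr 1
    exact gk_congr hF hn _ _ (by rw [_root_.map_one, mul_one]) (one_mul _)
  rw [h3] at h2 ⊢
  have h4 : ((fam hF hn).T (gk hF hn g σ hg)) ^ 2 = 1 := by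
    have := pow_orderOf_eq_one ((fam hF hn).T (gk hF hn g σ hg))
    rwa [h2] at this
  have h5 := h4
  rw [sq, ← _root_.map_mul, gk_mul, T_one_gk] at h5
  have h6 : σ * σ = 1 := h5.1
  have h7 : orderOf σ = 2 := by
    have h8 : orderOf σ ∣ 2 := orderOf_dvd_of_pow_eq_one (by rw [sq, h6])
    have h9 := Nat.le_of_dvd (by norm_num) h8
    have h10 := orderOf_pos σ
    obtain ⟨k, hk⟩ := hσ
    omega
  have hcyc : IsCyclic (F ≃+* F) := FAut.isCyclic
  have h8 : σ = bt hF := unique_order_two h7 (orderOf_bt hF)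
  subst h8
  exact ⟨g, hg, rfl, (gu_sq hF hn hg).mp h4⟩

theorem conj_gu (hF : Fintype.card F = q ^ 2) (hn : 3 ≤ n) {g u : GL (Fin n) F} (hg : g ∈ CGU n F q) (hu : u ∈ CGU n F q) :
    (fam hF hn).T (gk hF hn u 1 hu) * gu hF hn g hg * ((fam hF hn).T (gk hF hn u 1 hu))⁻¹ =
      gu hF hn (u * g * (gσ (bt hF) u)⁻¹) (mul_mem (mul_mem hu hg) (inv_mem (gσ_mem _ hu))) := by
  rw [mul_inv_eq_iff_eq_mul, gu, gu, ← _root_.map_mul, ← _root_.map_mul, gk_mul, gk_mul]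
  congr 1
  exact gk_congr hF hn _ _ (by rw [inv_mul_cancel_right, gσ_one]) (by rw [one_mul, mul_one])

theorem gu_comm_iff (hF : Fintype.card F = q ^ 2) (hn : 3 ≤ n) {g u : GL (Fin n) F} (hg : g ∈ CGU n F q) (hu : u ∈ CGU n F q) :
    (fam hF hn).T (gk hF hn u 1 hu) ∈ Subgroup.centralizer {gu hF hn g hg} ↔
      ∃ c : Fˣ, u * g * (gσ (bt hF) u)⁻¹ = scl (Fin n) c * g := by
  rw [Subgroup.mem_centralizer_singleton_iff, ← mul_inv_eq_iff_eq_mul, conj_gu, eq_comm, gu, gu, T_eq_iff]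

theorem abs1 {A : Type*} [Group A] {a b h gb x y s : A} (hx : ∀ z, x * z = z * x) (hy : ∀ z, y * z = z * y)
    (h2 : b = a * (x * s)) (h3 : h = gb * (y * s)) : b * h⁻¹ = (x * y⁻¹) * (a * gb⁻¹) := by
  have hy' : ∀ z, y⁻¹ * z = z * y⁻¹ := by
    intro z
    rw [inv_mul_eq_iff_eq_mul, ← mul_assoc, hy, mul_inv_cancel_right]
  calc b * h⁻¹ = a * (x * y⁻¹) * gb⁻¹ := by rw [h2, h3]; group
    _ = (x * y⁻¹) * a * gb⁻¹ := by rw [← mul_assoc a, ← hx, mul_assoc x a, ← hy', ← mul_assoc]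
    _ = _ := by rw [mul_assoc]

end Basic

section Dat

variable {F : Type*} [Field F] [Fintype F] {q n : ℕ} {F₀ : Type*} [Field F₀] [Fintype F₀] (e : F₀ →+* F)

/-- the map on `GL`. -/
abbrev em (n : ℕ) (e : F₀ →+* F) : GL (Fin n) F₀ →* GL (Fin n) F := Matrix.GeneralLinearGroup.map e

/-- `h` is a frame for the form `S`. -/
def Dat (hF : Fintype.card F = q ^ 2) (h : GL (Fin n) F) (S : GL (Fin n) F₀) (ε : Fˣ) : Prop :=
  (git h)⁻¹ * gσ (bt hF) h = scl (Fin n) ε * em n e S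

variable {e}

theorem bt_em (hF : Fintype.card F = q ^ 2) (he : ∀ a : F, bt hF a = a ↔ a ∈ Set.range e) (S : GL (Fin n) F₀) :
    gσ (bt hF) (em n e S) = em n e S := by
  apply Units.ext
  ext i j
  exact (he _).mpr ⟨_, rfl⟩

theorem git_em (S : GL (Fin n) F₀) : git (em n e S) = em n e (git S) := by
  apply Units.ext
  ext i j
  rfl

theorem em_scl (c : F₀ˣ) : em n e (scl (Fin n) c) = scl (Fin n) (Units.map (e : F₀ →* F) c) := by
  apply Units.ext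
  ext i j
  change e ((Matrix.scalar (Fin n) (c : F₀)) i j) = (Matrix.scalar (Fin n) (e (c : F₀))) i j
  rw [Matrix.scalar_apply, Matrix.scalar_apply, Matrix.diagonal_apply, Matrix.diagonal_apply]
  split_ifs <;> simp

theorem em_inj : Function.Injective (em n e : GL (Fin n) F₀ →* GL (Fin n) F) := by
  intro g h hgh
  apply Units.ext
  ext i j
  apply e.injective
  exact congrArg (fun x : GL (Fin n) F => (x : Matrix (Fin n) (Fin n) F) i j) hgh

theorem exists_em (hF : Fintype.card F = q ^ 2) (he : ∀ a : F, bt hF a = a ↔ a ∈ Set.range e) {w : GL (Fin n) F}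
    (hw : gσ (bt hF) w = w) : ∃ P : GL (Fin n) F₀, em n e P = w := by
  have h1 : ∀ i j, ∃ a, e a = (w : Matrix (Fin n) (Fin n) F) i j := by
    intro i j
    apply (he _).mp
    exact congrArg (fun x : GL (Fin n) F => (x : Matrix (Fin n) (Fin n) F) i j) hw
  choose a ha using h1
  have h2 : (Matrix.of a).map e = (w : Matrix (Fin n) (Fin n) F) := by
    ext i j; exact ha i j
  have h3 : (Matrix.of a).det ≠ 0 := by
    intro h
    have h4 := e.map_det (Matrix.of a)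
    rw [h, _root_.map_zero] at h4
    have h5 : (e.mapMatrix (Matrix.of a)).det = (w : Matrix (Fin n) (Fin n) F).det := by
      congr 1
    rw [h5] at h4
    exact (Matrix.isUnits_det_units w).ne_zero h4.symm
  exact ⟨Matrix.GeneralLinearGroup.mkOfDetNeZero _ h3, Units.ext h2⟩

variable (hF : Fintype.card F = q ^ 2)

include hF in
theorem Dat.mem (hn : 1 ≤ n) (he : ∀ a : F, bt hF a = a ↔ a ∈ Set.range e) {h : GL (Fin n) F} {S : GL (Fin n) F₀} {ε : Fˣ}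
    (hd : Dat e hF h S ε) : h * (gσ (bt hF) h)⁻¹ ∈ CGU n F q := by
  rw [mem_CGU_git hF hn]
  refine ⟨ε * (Units.map (bt hF : F →* F) ε)⁻¹, ?_⟩
  have h1 : (git (gσ (bt hF) h))⁻¹ * h = scl (Fin n) (Units.map (bt hF : F →* F) ε) * em n e S := by
    have := congrArg (gσ (bt hF)) hd
    rw [_root_.map_mul, _root_.map_mul, _root_.map_inv, gσ_git, gσ_invol, gσ_sc, bt_em hF he] at this
    exact this
  have h2 : gσ (bt hF) h = git h * (scl (Fin n) ε * em n e S) := by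
    rw [← hd, mul_inv_cancel_left]
  have h3 : h = git (gσ (bt hF) h) * (scl (Fin n) (Units.map (bt hF : F →* F) ε) * em n e S) := by
    rw [← h1, mul_inv_cancel_left]
  rw [_root_.map_mul, _root_.map_inv, gσ_invol, _root_.map_mul (scl (Fin n)), _root_.map_inv (scl (Fin n)),
    _root_.map_mul git, _root_.map_inv git]
  exact abs1 (sc_comm _) (sc_comm _) h2 h3

end Dat

end Cfsg.Agent.H16.GrU
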