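import Cfsg.Agent.H16_GrU1

set_option autoImplicit false

/-! Graph automorphisms of `PSU_n`: forms over the subfield. -/

namespace Cfsg.Agent.H16.GrU

open Matrix Cfsg.Agent.H16.Gam Cfsg.Agent.H16.AutL Cfsg.Agent.H16.AutG Cfsg.Agent.H16.Desc Cfsg.Agent.H16.PSU Module
open Cfsg.Agent.H16.Gr (frm)

variable {F : Type*} [Field F] [Fintype F] {q n : ℕ} {F₀ : Type*} [Field F₀] [Fintype F₀] {e : F₀ →+* F}
  (hF : Fintype.card F = q ^ 2)

theorem scl_comm (c : Fˣ) (z : GL (Fin n) F) : scl (Fin n) c * z = z * scl (Fin n) c := sc_comm c z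

/-- the graph automorphism of a frame. -/
noncomputable def gh (hn : 3 ≤ n) (he : ∀ a : F, bt hF a = a ↔ a ∈ Set.range e) {h : GL (Fin n) F} {S : GL (Fin n) F₀}
    {ε : Fˣ} (hd : Dat e hF h S ε) : MulAut (Cfsg.PSU n F q) :=
  gu hF hn (h * (gσ (bt hF) h)⁻¹) (hd.mem hF (by omega) he)

theorem gh_graph (hn : 3 ≤ n) (he : ∀ a : F, bt hF a = a ↔ a ∈ Set.range e) {h : GL (Fin n) F} {S : GL (Fin n) F₀}
    {ε : Fˣ} (hd : Dat e hF h S ε) : Cfsg.IsGraphAutClassPSU (gh hF hn he hd) := gu_graph hF hn _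

theorem gh_order (hn : 3 ≤ n) (he : ∀ a : F, bt hF a = a ↔ a ∈ Set.range e) {h : GL (Fin n) F} {S : GL (Fin n) F₀}
    {ε : Fˣ} (hd : Dat e hF h S ε) : orderOf (gh hF hn he hd) = 2 := by
  refine orderOf_eq_prime ((gu_sq hF hn _).mpr ⟨1, ?_⟩) (gu_ne_one hF hn _)
  rw [_root_.map_mul, _root_.map_inv, gσ_invol, _root_.map_one]
  group

/-- `h ↦ h e(P)`. -/
theorem Dat.right (he : ∀ a : F, bt hF a = a ↔ a ∈ Set.range e) {h : GL (Fin n) F} {S : GL (Fin n) F₀}
    {ε : Fˣ} (hd : Dat e hF h S ε) (P : GL (Fin n) F₀) : Dat e hF (h * em n e P) ((git P)⁻¹ * S * P) ε := by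
  unfold Dat at hd ⊢
  rw [_root_.map_mul git, _root_.map_mul (gσ (bt hF)), bt_em hF he, git_em, _root_.map_mul (em n e), _root_.map_mul (em n e),
    _root_.map_inv (em n e)]
  calc (git h * em n e (git P))⁻¹ * (gσ (bt hF) h * em n e P) = (em n e (git P))⁻¹ * ((git h)⁻¹ * gσ (bt hF) h) * em n e P := by group
    _ = (em n e (git P))⁻¹ * (scl (Fin n) ε * em n e S) * em n e P := by rw [hd]
    _ = scl (Fin n) ε * ((em n e (git P))⁻¹ * em n e S * em n e P) := by
        rw [← mul_assoc ((em n e (git P))⁻¹), ← scl_comm]; group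

/-- conjugacy for equal forms up to scalars. -/
theorem conj_same (hn : 3 ≤ n) (he : ∀ a : F, bt hF a = a ↔ a ∈ Set.range e) {h h' : GL (Fin n) F} {S S' : GL (Fin n) F₀}
    {ε ε' : Fˣ} (hd : Dat e hF h S ε) (hd' : Dat e hF h' S' ε') {a : F₀ˣ} (hSS : S' = scl (Fin n) a * S) :
    Cfsg.IsConjUnder (fam hF hn).D (gh hF hn he hd) (gh hF hn he hd') := by
  have hu : h' * h⁻¹ ∈ CGU n F q := by
    rw [mem_CGU_git hF (by omega)]
    refine ⟨ε' * Units.map (e : F₀ →* F) a * ε⁻¹, ?_⟩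
    unfold Dat at hd hd'
    have h1 : gσ (bt hF) h = git h * (scl (Fin n) ε * em n e S) := by rw [← hd, mul_inv_cancel_left]
    have h2 : gσ (bt hF) h' = git h' * (scl (Fin n) ε' * (scl (Fin n) (Units.map (e : F₀ →* F) a) * em n e S)) := by
      rw [← em_scl, ← _root_.map_mul (em n e), ← hSS, ← hd', mul_inv_cancel_left]
    rw [_root_.map_mul, _root_.map_inv, h1, h2, _root_.map_mul git, _root_.map_inv git, _root_.map_mul (scl (Fin n)),
      _root_.map_mul (scl (Fin n)), _root_.map_inv (scl (Fin n))]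
    calc git h' * (scl (Fin n) ε' * (scl (Fin n) (Units.map (e : F₀ →* F) a) * em n e S)) * (git h * (scl (Fin n) ε * em n e S))⁻¹
        = git h' * (scl (Fin n) ε' * scl (Fin n) (Units.map (e : F₀ →* F) a) * (scl (Fin n) ε)⁻¹) * (git h)⁻¹ := by group
      _ = _ := by
        rw [← _root_.map_inv (scl (Fin n)), ← _root_.map_mul (scl (Fin n)), ← _root_.map_mul (scl (Fin n)), ← scl_comm, mul_assoc]
  refine ⟨(fam hF hn).T (gk hF hn _ 1 hu), (mem_D_gk hF hn).mpr ⟨_, hu, rfl⟩, ?_⟩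
  rw [gh, gh, conj_gu, gu, gu, T_eq_iff]
  refine ⟨1, ?_⟩
  rw [_root_.map_one (scl (Fin n)), one_mul, _root_.map_mul (gσ (bt hF)), _root_.map_inv (gσ (bt hF))]
  group

/-- equal automorphisms for the same product. -/
theorem gh_right (hn : 3 ≤ n) (he : ∀ a : F, bt hF a = a ↔ a ∈ Set.range e) {h : GL (Fin n) F} {S : GL (Fin n) F₀}
    {ε : Fˣ} (hd : Dat e hF h S ε) (P : GL (Fin n) F₀) : gh hF hn he (hd.right hF he P) = gh hF hn he hd := by
  rw [gh, gh, gu, gu, T_eq_iff]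
  refine ⟨1, ?_⟩
  rw [_root_.map_one (scl (Fin n)), one_mul, _root_.map_mul (gσ (bt hF)), bt_em hF he]
  group

/-- conjugacy for similar forms. -/
theorem conj_sim (hn : 3 ≤ n) (he : ∀ a : F, bt hF a = a ↔ a ∈ Set.range e) {h h' : GL (Fin n) F} {S S' : GL (Fin n) F₀}
    {ε ε' : Fˣ} (hd : Dat e hF h S ε) (hd' : Dat e hF h' S' ε')
    (hc : Cfsg.IsConjUnder (Dd F₀ n) (Gr.gm S) (Gr.gm S')) :
    Cfsg.IsConjUnder (fam hF hn).D (gh hF hn he hd) (gh hF hn he hd') := by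
  obtain ⟨P, a, hP⟩ := (Gr.conj_iff (by omega)).mp hc
  have h1 : (git P)⁻¹ * S' * P = scl (Fin n) a * S := by
    apply Units.ext
    rw [Units.val_mul, Units.val_mul, git_inv_coe, hP, Units.val_mul]
    change _ = ((Matrix.GeneralLinearGroup.scalar (Fin n) a : GL (Fin n) F₀) : Matrix (Fin n) (Fin n) F₀) * _
    rw [Gr.scalar_coe, Matrix.smul_mul, one_mul]
  have h2 := conj_same hF hn he hd (hd'.right hF he P) h1
  rwa [gh_right] at h2

/-- the type of `S`. -/
theorem Dat.sym (hn : 1 ≤ n) (he : ∀ a : F, bt hF a = a ↔ a ∈ Set.range e) {h : GL (Fin n) F} {S : GL (Fin n) F₀}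
    {ε : Fˣ} (hd : Dat e hF h S ε) : (S : Matrix (Fin n) (Fin n) F₀)ᵀ = S ∨ (S : Matrix (Fin n) (Fin n) F₀)ᵀ = -S := by
  have h0 := hd
  unfold Dat at hd
  -- `Hᵀ = β(H)`
  have h1 : (git ((git h)⁻¹ * gσ (bt hF) h))⁻¹ = gσ (bt hF) ((git h)⁻¹ * gσ (bt hF) h) := by
    rw [_root_.map_mul git, _root_.map_inv git, git_git, _root_.map_mul (gσ (bt hF)), _root_.map_inv (gσ (bt hF)), gσ_invol,
      ← gσ_git, _root_.mul_inv_rev, inv_inv]
  rw [hd, _root_.map_mul git, _root_.map_mul (gσ (bt hF)), bt_em hF he, gσ_sc, git_em] at h1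
  have h2 : git (scl (Fin n) ε) = scl (Fin n) ε⁻¹ := git_scl ε
  rw [h2, _root_.mul_inv_rev, ← _root_.map_inv (scl (Fin n)), inv_inv, ← scl_comm] at h1
  have h3 : (em n e (git S))⁻¹ = scl (Fin n) (ε⁻¹ * Units.map (bt hF : F →* F) ε) * em n e S := by
    rw [_root_.map_mul (scl (Fin n)), mul_assoc, ← h1, ← mul_assoc, ← _root_.map_mul (scl (Fin n)), inv_mul_cancel,
      _root_.map_one, one_mul]
  have hne : Nonempty (Fin n) := ⟨⟨0, hn⟩⟩
  have h4 : em n e ((git S)⁻¹ * S⁻¹) = scl (Fin n) (ε⁻¹ * Units.map (bt hF : F →* F) ε) := by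
    rw [_root_.map_mul (em n e), _root_.map_inv (em n e), _root_.map_inv (em n e), h3, mul_inv_cancel_right]
  obtain ⟨c, hc⟩ := (map_scl_iff e _).mp ⟨_, h4⟩
  have h5 : (S : Matrix (Fin n) (Fin n) F₀)ᵀ = (c : F₀) • (S : Matrix (Fin n) (Fin n) F₀) := by
    have h6 : (git S)⁻¹ = scl (Fin n) c * S := by rw [← hc, inv_mul_cancel_right]
    have h7 := congrArg Units.val h6
    rw [git_inv_coe, Units.val_mul] at h7
    rw [h7]
    change ((Matrix.GeneralLinearGroup.scalar (Fin n) c : GL (Fin n) F₀) : Matrix (Fin n) (Fin n) F₀) * _ = _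
    rw [Gr.scalar_coe, Matrix.smul_mul, one_mul]
  have h6 : (S : Matrix (Fin n) (Fin n) F₀) = ((c : F₀) * (c : F₀)) • (S : Matrix (Fin n) (Fin n) F₀) := by
    have := congrArg Matrix.transpose h5
    rw [transpose_transpose, transpose_smul, h5, smul_smul] at this
    exact this
  have h7 : (c : F₀) * (c : F₀) = 1 := by
    have h8 : ((c : F₀) * (c : F₀)) • (1 : Matrix (Fin n) (Fin n) F₀) = (1 : F₀) • 1 := by
      have := congrArg (fun M => M * ((S⁻¹ : GL (Fin n) F₀) : Matrix (Fin n) (Fin n) F₀)) h6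
      simp only [Matrix.smul_mul] at this
      rw [← Units.val_mul, mul_inv_cancel, Units.val_one] at this
      rw [one_smul]; exact this.symm
    have := congrFun (congrFun h8 ⟨0, hn⟩) ⟨0, hn⟩
    simpa using this
  rcases mul_self_eq_one_iff.mp h7 with h8 | h8
  · left; rw [h5, h8, one_smul]
  · right; rw [h5, h8, neg_smul, one_smul]

/-- the centralizer. -/
theorem cent_gh (hn : 3 ≤ n) (he : ∀ a : F, bt hF a = a ↔ a ∈ Set.range e) {h : GL (Fin n) F} {S : GL (Fin n) F₀}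
    {ε : Fˣ} (hd : Dat e hF h S ε) :
    (∀ (P : GL (Fin n) F₀), (h * em n e P * h⁻¹ ∈ CGU n F q ↔
      P ∈ Cfsg.Geo.similarityGroup (frm (S : Matrix (Fin n) (Fin n) F₀)))) ∧
    (∀ (u : GL (Fin n) F) (hu : u ∈ CGU n F q), (fam hF hn).T (gk hF hn u 1 hu) ∈ Subgroup.centralizer {gh hF hn he hd} →
      ∃ (t : Fˣ) (P : GL (Fin n) F₀), u = scl (Fin n) t * (h * em n e P * h⁻¹) ∧
        P ∈ Cfsg.Geo.similarityGroup (frm (S : Matrix (Fin n) (Fin n) F₀))) ∧
    (∀ (P : GL (Fin n) F₀) (hP : h * em n e P * h⁻¹ ∈ CGU n F q),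
      (fam hF hn).T (gk hF hn _ 1 hP) ∈ Subgroup.centralizer {gh hF hn he hd}) := by
  have hne : Nonempty (Fin n) := ⟨⟨0, by omega⟩⟩
  have hd0 := hd
  have h1 : ∀ (P : GL (Fin n) F₀), (h * em n e P * h⁻¹ ∈ CGU n F q ↔
      P ∈ Cfsg.Geo.similarityGroup (frm (S : Matrix (Fin n) (Fin n) F₀))) := by
    intro P
    rw [mem_CGU_git hF (by omega), Gr.mem_sim_iff]
    unfold Dat at hd
    have hb : gσ (bt hF) h = git h * (scl (Fin n) ε * em n e S) := by rw [← hd, mul_inv_cancel_left]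
    -- the group identity
    have key : ∀ c : Fˣ, (gσ (bt hF) (h * em n e P * h⁻¹) = scl (Fin n) c * git (h * em n e P * h⁻¹) ↔
        em n e ((git P)⁻¹ * S * P * S⁻¹) = scl (Fin n) c) := by
      intro c
      rw [_root_.map_mul (gσ (bt hF)), _root_.map_mul (gσ (bt hF)), _root_.map_inv (gσ (bt hF)), bt_em hF he, hb,
        _root_.map_mul git, _root_.map_mul git, _root_.map_inv git, git_em]
      have e1 : git h * (scl (Fin n) ε * em n e S) * em n e P * (git h * (scl (Fin n) ε * em n e S))⁻¹ =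
          git h * (em n e S * em n e P * (em n e S)⁻¹) * (git h)⁻¹ := by
        rw [_root_.mul_inv_rev, _root_.mul_inv_rev]
        calc _ = git h * (scl (Fin n) ε * (em n e S * em n e P * (em n e S)⁻¹) * (scl (Fin n) ε)⁻¹) * (git h)⁻¹ := by group
          _ = _ := by rw [scl_comm, mul_inv_cancel_right]
      rw [e1]
      have e2 : scl (Fin n) c * (git h * em n e (git P) * (git h)⁻¹) = git h * (scl (Fin n) c * em n e (git P)) * (git h)⁻¹ := by
        rw [← mul_assoc, ← mul_assoc, scl_comm, mul_assoc (git h)]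
      rw [e2, mul_left_inj, mul_right_inj, _root_.map_mul (em n e), _root_.map_mul (em n e), _root_.map_mul (em n e),
        _root_.map_inv (em n e), _root_.map_inv (em n e)]
      constructor
      · intro h5
        rw [mul_assoc, mul_assoc, ← mul_assoc (em n e S), h5, scl_comm, inv_mul_cancel_left]
      · intro h5
        rw [scl_comm, ← h5]
        group
    constructor
    · rintro ⟨c, hc⟩
      rw [key] at hc
      obtain ⟨d, hd'⟩ := (map_scl_iff e _).mp ⟨c, hc⟩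
      refine ⟨d, ?_⟩
      have h6 : (git P)⁻¹ * S * P = scl (Fin n) d * S := by rw [← hd', inv_mul_cancel_right]
      have h7 := congrArg Units.val h6
      rw [Units.val_mul, Units.val_mul, git_inv_coe, Units.val_mul] at h7
      rw [h7]
      change ((Matrix.GeneralLinearGroup.scalar (Fin n) d : GL (Fin n) F₀) : Matrix (Fin n) (Fin n) F₀) * _ = _
      rw [Gr.scalar_coe, Matrix.smul_mul, one_mul]
    · rintro ⟨d, hd'⟩
      refine ⟨Units.map (e : F₀ →* F) d, (key _).mpr ?_⟩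
      rw [← em_scl]
      congr 1
      rw [mul_inv_eq_iff_eq_mul]
      apply Units.ext
      rw [Units.val_mul, Units.val_mul, git_inv_coe, hd', Units.val_mul]
      change _ = ((Matrix.GeneralLinearGroup.scalar (Fin n) d : GL (Fin n) F₀) : Matrix (Fin n) (Fin n) F₀) * _
      rw [Gr.scalar_coe, Matrix.smul_mul, one_mul]
  refine ⟨h1, ?_, ?_⟩
  · intro u hu hc
    rw [gh, gu_comm_iff] at hc
    obtain ⟨c, hc⟩ := hc
    -- `w = h⁻¹ u h`
    have h2 : gσ (bt hF) (h⁻¹ * u * h) = scl (Fin n) c⁻¹ * (h⁻¹ * u * h) := by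
      rw [_root_.map_mul (gσ (bt hF)), _root_.map_mul (gσ (bt hF)), _root_.map_inv (gσ (bt hF))]
      have h3 : gσ (bt hF) u = (scl (Fin n) c * (h * (gσ (bt hF) h)⁻¹))⁻¹ * (u * (h * (gσ (bt hF) h)⁻¹)) := by
        rw [← hc]; group
      rw [h3, _root_.mul_inv_rev, ← _root_.map_inv (scl (Fin n)), ← scl_comm]
      calc (gσ (bt hF) h)⁻¹ * (scl (Fin n) c⁻¹ * (h * (gσ (bt hF) h)⁻¹)⁻¹ * (u * (h * (gσ (bt hF) h)⁻¹))) * gσ (bt hF) h
          = ((gσ (bt hF) h)⁻¹ * scl (Fin n) c⁻¹) * (h * (gσ (bt hF) h)⁻¹)⁻¹ * (u * (h * (gσ (bt hF) h)⁻¹)) * gσ (bt hF) h := by group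
        _ = _ := by rw [← scl_comm]; group
    obtain ⟨t, w₀, hw, hw₀⟩ := exists_fixed_of_sc (orderOf_bt hF) (by norm_num) h2
    obtain ⟨P, rfl⟩ := exists_em hF he hw₀
    have h4 : u = scl (Fin n) t * (h * em n e P * h⁻¹) := by
      have : u = h * (h⁻¹ * u * h) * h⁻¹ := by group
      rw [this, hw, ← mul_assoc h, ← scl_comm]
      group
    refine ⟨t, P, h4, (h1 P).mp ?_⟩
    have h5 : h * em n e P * h⁻¹ = scl (Fin n) t⁻¹ * u := by
      rw [h4, scl_scl, inv_mul_cancel, _root_.map_one, one_mul]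
    rw [h5]
    exact mul_mem (scal_mem hF _) hu
  · intro P hP
    rw [gh, gu_comm_iff]
    refine ⟨1, ?_⟩
    rw [_root_.map_mul (gσ (bt hF)), _root_.map_mul (gσ (bt hF)), _root_.map_inv (gσ (bt hF)), bt_em hF he, _root_.map_one, one_mul]
    group

theorem cent_gh_iso (hn : 3 ≤ n) (he : ∀ a : F, bt hF a = a ↔ a ∈ Set.range e) {h : GL (Fin n) F} {S : GL (Fin n) F₀}
    {ε : Fˣ} (hd : Dat e hF h S ε) :
    Nonempty (↥((fam hF hn).D ⊓ Subgroup.centralizer {gh hF hn he hd}) ≃*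
      Cfsg.projQuot (Cfsg.Geo.similarityGroup (frm (S : Matrix (Fin n) (Fin n) F₀)))) := by
  have hne : Nonempty (Fin n) := ⟨⟨0, by omega⟩⟩
  obtain ⟨h1, h2, h3⟩ := cent_gh hF hn he hd
  let f : Cfsg.Geo.similarityGroup (frm (S : Matrix (Fin n) (Fin n) F₀)) →*
      ↥((fam hF hn).D ⊓ Subgroup.centralizer {gh hF hn he hd}) :=
    { toFun := fun P => ⟨(fam hF hn).T (gk hF hn (h * em n e (P : GL (Fin n) F₀) * h⁻¹) 1 ((h1 P).mpr P.2)),
        (mem_D_gk hF hn).mpr ⟨_, _, rfl⟩, h3 P _⟩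
      map_one' := by
        apply Subtype.ext
        change (fam hF hn).T _ = 1
        rw [T_one_gk]
        refine ⟨rfl, 1, ?_⟩
        rw [Subgroup.coe_one, _root_.map_one (em n e), _root_.map_one, mul_one, mul_inv_cancel]
      map_mul' := by
        intro P P'
        apply Subtype.ext
        change (fam hF hn).T _ = (fam hF hn).T _ * (fam hF hn).T _
        rw [← _root_.map_mul (fam hF hn).T, gk_mul]
        congr 1
        refine gk_congr hF hn _ _ ?_ (mul_one _).symm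
        rw [Subgroup.coe_mul, _root_.map_mul (em n e), gσ_one]
        group }
  have hfs : Function.Surjective f := by
    rintro ⟨α, hα1, hα2⟩
    obtain ⟨u, hu, rfl⟩ := (mem_D_gk hF hn).mp hα1
    obtain ⟨t, P, hut, hP⟩ := h2 u hu hα2
    refine ⟨⟨P, hP⟩, Subtype.ext ?_⟩
    change (fam hF hn).T _ = (fam hF hn).T _
    rw [T_eq_iff]
    exact ⟨t, hut⟩
  have hfk : f.ker = (Cfsg.Geo.scalars (Fin n) F₀).subgroupOf
      (Cfsg.Geo.similarityGroup (frm (S : Matrix (Fin n) (Fin n) F₀))) := by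
    ext P
    rw [MonoidHom.mem_ker, Subgroup.mem_subgroupOf, Gam.mem_scalars, ← map_scl_iff e (P : GL (Fin n) F₀)]
    have h4 : f P = 1 ↔ (fam hF hn).T (gk hF hn (h * em n e (P : GL (Fin n) F₀) * h⁻¹) 1 ((h1 P).mpr P.2)) = 1 :=
      ⟨fun h => congrArg Subtype.val h, fun h => Subtype.ext h⟩
    rw [h4, T_one_gk]
    constructor
    · rintro ⟨-, c, hc⟩
      refine ⟨c, ?_⟩
      change em n e (P : GL (Fin n) F₀) = _
      rw [mul_inv_eq_iff_eq_mul, scl_comm] at hc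
      exact mul_left_cancel hc
    · rintro ⟨c, hc⟩
      refine ⟨rfl, c, ?_⟩
      change em n e (P : GL (Fin n) F₀) = _ at hc
      rw [hc, ← scl_comm, mul_inv_cancel_right]
  exact ⟨((QuotientGroup.quotientMulEquivOfEq hfk.symm).trans
    (QuotientGroup.quotientKerEquivOfSurjective f hfs)).symm⟩

end Cfsg.Agent.H16.GrU
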