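import Cfsg.Agent.H16_GrU2

set_option autoImplicit false

/-! Graph automorphisms of `PSU_n`: existence of frames. -/

namespace Cfsg.Agent.H16.GrU

open Matrix Cfsg.Agent.H16.Gam Cfsg.Agent.H16.AutL Cfsg.Agent.H16.AutG Cfsg.Agent.H16.Desc Cfsg.Agent.H16.PSU Module
open Cfsg.Agent.H16.Gr (frm)

variable {F : Type*} [Field F] [Fintype F] {q n : ℕ} {F₀ : Type*} [Field F₀] [Fintype F₀] {e : F₀ →+* F}
  (hF : Fintype.card F = q ^ 2)

theorem nn_two (σ : F ≃+* F) (x : Fˣ) : nn σ x 2 = x * Units.map (σ : F →* F) x := by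
  rw [nn, nn, nn, _root_.map_one, mul_one]

theorem Nn_two (σ : F ≃+* F) (g : GL (Fin n) F) : Nn σ g 2 = g * gσ σ g := by
  rw [Nn_succ, Nn_succ, Nn_zero, _root_.map_one, mul_one]

theorem bt_units (c : Fˣ) : Units.map (bt hF : F →* F) (Units.map (bt hF : F →* F) c) = c := by
  apply Units.ext
  exact bt_bt hF _

/-- a subfield frame of the base field. -/
theorem exists_e (F₀ : Type*) [Field F₀] [Fintype F₀] (hF₀ : Fintype.card F₀ = q) :
    ∃ e : F₀ →+* F, ∀ a : F, bt hF a = a ↔ a ∈ Set.range e := by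
  refine exists_emb (σ := bt hF) (q₀ := q) ?_ ?_ F₀ hF₀
  · rw [orderOf_bt, Nat.card_eq_fintype_card, hF]
  · have := H5.Frm.card_fixed_frob hF
    refine (Nat.card_congr ?_).trans this
    exact Equiv.subtypeEquivRight fun x => by rw [bt_apply]

theorem exists_eps {k : Fˣ} (hk : k * Units.map (bt hF : F →* F) k = 1) :
    ∃ ε : Fˣ, k * Units.map (bt hF : F →* F) ε = ε := by
  obtain ⟨ε, hε⟩ := hilbert90_one (bt hF) (orderOf_bt hF) (by norm_num) k (by rw [nn_two, hk])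
  exact ⟨ε, Units.ext hε⟩

/-- every involutory graph automorphism comes from a frame. -/
theorem exists_gh (hn : 3 ≤ n) (he : ∀ a : F, bt hF a = a ↔ a ∈ Set.range e) {γ : MulAut (Cfsg.PSU n F q)}
    (hγ : Cfsg.IsGraphAutClassPSU γ) (h2 : orderOf γ = 2) :
    ∃ (h : GL (Fin n) F) (S : GL (Fin n) F₀) (ε : Fˣ) (hd : Dat e hF h S ε), γ = gh hF hn he hd := by
  have hne : Nonempty (Fin n) := ⟨⟨0, by omega⟩⟩
  obtain ⟨g, hg, rfl, c, hc⟩ := exists_gu hF hn hγ h2
  -- `c` is fixed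
  have hcf : Units.map (bt hF : F →* F) c = c := by
    have h3 := congrArg (gσ (bt hF)) hc
    rw [_root_.map_mul (gσ (bt hF)), gσ_invol, gσ_sc] at h3
    have h4 : gσ (bt hF) g * g = scl (Fin n) c := by
      have : gσ (bt hF) g * g = g⁻¹ * (g * gσ (bt hF) g) * g := by group
      rw [this, hc, ← scl_comm]
      group
    exact sc_inj (h3.symm.trans h4)
  obtain ⟨t, ht⟩ := exists_norm_eq (bt hF) (orderOf_bt hF) (by norm_num) c (congrArg Units.val hcf)
  rw [nn_two] at ht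
  set g₁ := scl (Fin n) t⁻¹ * g with hg₁
  have hg₁m : g₁ ∈ CGU n F q := mul_mem (scal_mem hF _) hg
  have h1 : g₁ * gσ (bt hF) g₁ = 1 := by
    rw [hg₁, _root_.map_mul (gσ (bt hF)), gσ_sc]
    have : scl (Fin n) t⁻¹ * g * (scl (Fin n) (Units.map (bt hF : F →* F) t⁻¹) * gσ (bt hF) g) =
        scl (Fin n) (t⁻¹ * Units.map (bt hF : F →* F) t⁻¹) * (g * gσ (bt hF) g) := by
      rw [_root_.map_mul (scl (Fin n)), mul_assoc, ← mul_assoc g, ← scl_comm]
      simp only [mul_assoc]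
    rw [this, hc, ← _root_.map_mul (scl (Fin n)), ← ht, _root_.map_inv, ← _root_.mul_inv_rev,
      mul_comm (Units.map (bt hF : F →* F) t), inv_mul_cancel, _root_.map_one]
  obtain ⟨h, hh⟩ := hilbert90 (bt hF) (orderOf_bt hF) (by norm_num) g₁ (by rw [Nn_two, h1])
  have hgh : g₁ = h * (gσ (bt hF) h)⁻¹ := by rw [eq_mul_inv_iff_mul_eq, hh]
  obtain ⟨k, hk⟩ := (mem_CGU_git hF (show 1 ≤ n by omega)).mp hg₁m
  have hkb : Units.map (bt hF : F →* F) k = k := Units.ext (mult_bt hF (by omega) hk)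
  -- `H = k β(H)`
  obtain ⟨H, hH⟩ : ∃ H, H = (git h)⁻¹ * gσ (bt hF) h := ⟨_, rfl⟩
  have hbH : gσ (bt hF) H = (git (gσ (bt hF) h))⁻¹ * h := by
    rw [hH, _root_.map_mul (gσ (bt hF)), _root_.map_inv (gσ (bt hF)), gσ_git, gσ_invol]
  have hHk : H = scl (Fin n) k * gσ (bt hF) H := by
    rw [hbH, hH]
    rw [hgh, _root_.map_mul (gσ (bt hF)), _root_.map_inv (gσ (bt hF)), gσ_invol, _root_.map_mul git, _root_.map_inv git] at hk
    -- hk : β(h) h⁻¹ = k git h (git β h)⁻¹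
    have h5 : gσ (bt hF) h = scl (Fin n) k * (git h * (git (gσ (bt hF) h))⁻¹) * h := by
      rw [← hk, inv_mul_cancel_right]
    conv_lhs => rw [h5]
    rw [mul_assoc (scl (Fin n) k), scl_comm, scl_comm]
    group
  have hkk : k * Units.map (bt hF : F →* F) k = 1 := by
    have h6 := congrArg (gσ (bt hF)) hHk
    rw [_root_.map_mul (gσ (bt hF)), gσ_invol, gσ_sc] at h6
    have h7 : scl (Fin n) (k * Units.map (bt hF : F →* F) k) = 1 := by
      rw [h6, scl_scl] at hHk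
      exact mul_eq_right.mp hHk.symm
    rw [← _root_.map_one (scl (Fin n))] at h7
    exact sc_inj h7
  obtain ⟨ε, hε⟩ := exists_eps hF hkk
  obtain ⟨S, hS⟩ := exists_em hF he (w := scl (Fin n) ε⁻¹ * H) (by
    rw [_root_.map_mul (gσ (bt hF)), gσ_sc]
    conv_rhs => rw [hHk, scl_scl]
    congr 2
    rw [_root_.map_inv, eq_comm]
    apply eq_inv_of_mul_eq_one_left
    rw [mul_assoc, hε, inv_mul_cancel])
  have hd : Dat e hF h S ε := by
    unfold Dat
    rw [hS, ← mul_assoc, ← _root_.map_mul (scl (Fin n)), mul_inv_cancel, _root_.map_one, one_mul, hH]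
  refine ⟨h, S, ε, hd, ?_⟩
  rw [gh, gu, gu, T_eq_iff]
  exact ⟨t⁻¹, hgh.symm⟩

theorem st_eq (M : Matrix (Fin n) (Fin n) F) : CjU.st hF M = (M.map (bt hF))ᵀ := rfl

/-- frames exist for all forms. -/
theorem exists_dat (he : ∀ a : F, bt hF a = a ↔ a ∈ Set.range e) {S : GL (Fin n) F₀}
    (hS : (S : Matrix (Fin n) (Fin n) F₀)ᵀ = S ∨ (S : Matrix (Fin n) (Fin n) F₀)ᵀ = -S) :
    ∃ (h : GL (Fin n) F) (ε : Fˣ), Dat e hF h S ε := by
  obtain ⟨k, hk, hkS, hkb⟩ : ∃ k : Fˣ, k * Units.map (bt hF : F →* F) k = 1 ∧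
      ((S : Matrix (Fin n) (Fin n) F₀).map e)ᵀ = (k : F) • (S : Matrix (Fin n) (Fin n) F₀).map e ∧
      Units.map (bt hF : F →* F) k = k := by
    rcases hS with h | h
    · refine ⟨1, by simp, ?_, by simp⟩
      rw [← Matrix.transpose_map, h, Units.val_one, one_smul]
    · refine ⟨-1, ?_, ?_, ?_⟩
      · apply Units.ext
        change (-1 : F) * bt hF (-1) = 1
        rw [_root_.map_neg, _root_.map_one]; ring
      · rw [← Matrix.transpose_map, h, Units.val_neg, Units.val_one, neg_smul, one_smul]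
        ext i j
        simp
      · apply Units.ext
        change bt hF (-1) = -1
        rw [_root_.map_neg, _root_.map_one]
  obtain ⟨ε, hε⟩ := exists_eps hF hk
  have hb : ((S : Matrix (Fin n) (Fin n) F₀).map e).map (bt hF) = (S : Matrix (Fin n) (Fin n) F₀).map e := by
    ext i j
    exact (he _).mpr ⟨_, rfl⟩
  have hu : IsUnit (((scl (Fin n) ε * em n e S : GL (Fin n) F)) : Matrix (Fin n) (Fin n) F) := Units.isUnit _
  have hH : (((scl (Fin n) ε * em n e S : GL (Fin n) F)) : Matrix (Fin n) (Fin n) F) =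
      (ε : F) • (S : Matrix (Fin n) (Fin n) F₀).map e := by
    rw [Units.val_mul]
    change ((Matrix.GeneralLinearGroup.scalar (Fin n) ε : GL (Fin n) F) : Matrix (Fin n) (Fin n) F) * (S : Matrix (Fin n) (Fin n) F₀).map e = _
    rw [Gr.scalar_coe, Matrix.smul_mul, one_mul]
  obtain ⟨C, hC⟩ := CjU.herm_norm hF hu (by
    rw [hH, st_eq]
    have h1 : ((ε : F) • (S : Matrix (Fin n) (Fin n) F₀).map e).map (bt hF) =
        (bt hF (ε : F)) • ((S : Matrix (Fin n) (Fin n) F₀).map e).map (bt hF) := by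
      ext i j
      simp
    rw [h1, hb, transpose_smul, hkS, smul_smul]
    congr 1
    have := congrArg Units.val hε
    rw [Units.val_mul] at this
    rw [mul_comm]
    exact this)
  refine ⟨gσ (bt hF) C, ε, ?_⟩
  unfold Dat
  rw [gσ_invol]
  apply Units.ext
  rw [Units.val_mul, git_inv_coe, ← hC]
  rfl

end Cfsg.Agent.H16.GrU
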