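import Cfsg.Agent.H16_GrU3
import Cfsg.Agent.S0246

set_option autoImplicit false

/-! Graph automorphisms of `PSU_n`: non-conjugacy. -/

namespace Cfsg.Agent.H16.GrU

open Matrix Module Cfsg.Agent.H16.Quad Cfsg.Agent.H16.Gr

theorem conj_cent {A : Type*} [Group A] {D : Subgroup A} {x y : A} (h : Cfsg.IsConjUnder D x y) :
    Nonempty (↥(D ⊓ Subgroup.centralizer {x}) ≃* ↥(D ⊓ Subgroup.centralizer {y})) := by
  obtain ⟨d, hd, rfl⟩ := h
  have h1 : (D ⊓ Subgroup.centralizer {d * x * d⁻¹}) = (D ⊓ Subgroup.centralizer {x}).map (MulAut.conj d).toMonoidHom := by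
    ext z
    rw [Subgroup.mem_inf, Subgroup.mem_centralizer_singleton_iff, Subgroup.mem_map]
    constructor
    · rintro ⟨hz, hz2⟩
      refine ⟨d⁻¹ * z * d, Subgroup.mem_inf.mpr ⟨D.mul_mem (D.mul_mem (D.inv_mem hd) hz) hd, ?_⟩, ?_⟩
      · rw [Subgroup.mem_centralizer_singleton_iff]
        have : d⁻¹ * z * d * x = d⁻¹ * (z * (d * x * d⁻¹)) * d := by group
        rw [this, hz2]
        group
      · change d * (d⁻¹ * z * d) * d⁻¹ = z
        group
    · rintro ⟨w, hw', rfl⟩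
      obtain ⟨hw, hw2⟩ := Subgroup.mem_inf.mp hw'
      rw [Subgroup.mem_centralizer_singleton_iff] at hw2
      refine ⟨D.mul_mem (D.mul_mem hd hw) (D.inv_mem hd), ?_⟩
      change d * w * d⁻¹ * (d * x * d⁻¹) = d * x * d⁻¹ * (d * w * d⁻¹)
      have : d * w * d⁻¹ * (d * x * d⁻¹) = d * (w * x) * d⁻¹ := by group
      rw [this, hw2]
      group
  rw [h1]
  exact ⟨(D ⊓ Subgroup.centralizer {x}).equivMapOfInjective _ (MulAut.conj d).injective⟩

variable {F : Type*} [Field F] [Fintype F]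

theorem no_plus_minus (h2 : (2 : F) ≠ 0) (k : ℕ) {a b : F}
    (hab : ∀ z₁ z₂ : F, z₁ ^ 2 + a * z₁ * z₂ + b * z₂ ^ 2 = 0 → z₁ = 0 ∧ z₂ = 0) :
    ¬ Nonempty (Cfsg.PGO F (Cfsg.quadFormPlus (k + 1) F) ≃* Cfsg.PGO F (Cfsg.quadFormMinus k F a b)) := by
  rintro ⟨E⟩
  have h := Nat.card_congr E.toEquiv
  have hV : finrank F (Fin (k + 1) ⊕ Fin (k + 1) → F) = 2 * k + 2 := by
    rw [Module.finrank_fintype_fun_eq_card, Fintype.card_sum, Fintype.card_fin]; ring
  have hV' : finrank F ((Fin k ⊕ Fin k) ⊕ Fin 2 → F) = 2 * k + 2 := by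
    rw [Module.finrank_fintype_fun_eq_card, Fintype.card_sum, Fintype.card_sum, Fintype.card_fin, Fintype.card_fin]; ring
  rw [← coe_plusQ, card_PGO ⟨Sum.elim (Pi.single 0 1) (Pi.single 0 1), by
      rw [plusQ_apply, Cfsg.quadFormPlus]
      simp [Pi.single_apply]⟩ (fun c hc => exists_similarity (nd_plusQ (k + 1)) hV hc), coe_plusQ,
    Cfsg.Agent.S0287.result rfl (k + 1) (by omega), ← coe_minusQ, card_PGO ⟨Sum.elim 0 (Pi.single 0 1), by
      rw [minusQ_apply, Cfsg.quadFormMinus]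
      simp⟩ (fun c hc => exists_similarity (nd_minusQ k hab) hV' hc), coe_minusQ] at h
  have h3 := Cfsg.Agent.S0288.result (F := F) rfl (k + 1) (by omega) a b hab
  rw [Nat.add_sub_cancel] at h3 h
  rw [h3] at h
  have hq := card_ge_three h2
  have hP := prod_pos' (q := Fintype.card F) (by omega) k
  have hy : 0 < Fintype.card F ^ ((k + 1) * k) := pow_pos (by omega) _
  have h4 := Nat.eq_of_mul_eq_mul_right hP h
  have h5 := Nat.eq_of_mul_eq_mul_left (Nat.mul_pos (by norm_num) hy) h4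
  omega

theorem transv_not_central [CharP F 2] {m : ℕ} (hm : 1 ≤ m) {t : Matrix.symplecticGroup (Fin m) F}
    (ht : Cfsg.IsTransvection (t : Matrix (Fin m ⊕ Fin m) (Fin m ⊕ Fin m) F)) :
    ¬ Nonempty (Matrix.symplecticGroup (Fin m) F ≃* ↥(Subgroup.centralizer ({t} : Set ↥(Matrix.symplecticGroup (Fin m) F)))) := by
  rintro ⟨E⟩
  have h1 := Nat.card_congr E.toEquiv
  have h2 : Subgroup.centralizer ({t} : Set ↥(Matrix.symplecticGroup (Fin m) F)) = ⊤ := by
    apply Subgroup.eq_top_of_card_eq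
    exact h1.symm
  have h3 : t ∈ Subgroup.center (Matrix.symplecticGroup (Fin m) F) := by
    rw [Subgroup.mem_center_iff]
    intro g
    have : g ∈ Subgroup.centralizer ({t} : Set ↥(Matrix.symplecticGroup (Fin m) F)) := by rw [h2]; trivial
    rw [Subgroup.mem_centralizer_singleton_iff] at this
    exact this
  have h4 := Cfsg.Agent.S0246.result (F := F) rfl m hm
  have h5 : Nat.gcd 2 (Fintype.card F - 1) = 1 := by
    obtain ⟨n, -, hn⟩ := FiniteField.card F 2
    rw [hn]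
    have hn0 := n.pos
    obtain ⟨l, hl⟩ : ∃ l, (n : ℕ) = l + 1 := ⟨n - 1, by omega⟩
    rw [hl, pow_succ]
    have : 0 < 2 ^ l := by positivity
    rw [← Nat.coprime_iff_gcd_eq_one, Nat.coprime_two_left, Nat.odd_iff]
    omega
  rw [h5, Subgroup.card_eq_one] at h4
  rw [h4, Subgroup.mem_bot] at h3
  rw [h3] at ht
  have h6 := ht.1
  rw [OneMemClass.coe_one, sub_self, Matrix.rank_zero] at h6
  omega

end Cfsg.Agent.H16.GrU
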