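import Cfsg.Agent.H16_GrU4

set_option autoImplicit false

/-! Graph automorphisms of `PSU_n`: class splitting. -/

namespace Cfsg.Agent.H16.GrU

open Matrix Cfsg.Agent.H16.Gam Cfsg.Agent.H16.AutL Cfsg.Agent.H16.AutG Cfsg.Agent.H16.Desc Cfsg.Agent.H16.PSU Module
open Cfsg.Agent.H16.Gr (frm nQ nd_nQ nQ_apply frm_hadd)
open Cfsg.Agent.H16.Quad

variable {F : Type*} [Field F] [Fintype F] {q n : ℕ} {F₀ : Type*} [Field F₀] [Fintype F₀] {e : F₀ →+* F}
  (hF : Fintype.card F = q ^ 2)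

/-- the multiplier of the lift of a similitude. -/
theorem mult_v (he : ∀ a : F, bt hF a = a ↔ a ∈ Set.range e) {h : GL (Fin n) F} {S : GL (Fin n) F₀}
    {ε : Fˣ} (hd : Dat e hF h S ε) {P : GL (Fin n) F₀} {a : F₀ˣ}
    (hP : (P : Matrix (Fin n) (Fin n) F₀)ᵀ * (S : Matrix (Fin n) (Fin n) F₀) * (P : Matrix (Fin n) (Fin n) F₀) =
      (a : F₀) • (S : Matrix (Fin n) (Fin n) F₀)) :
    gσ (bt hF) (h * em n e P * h⁻¹) = scl (Fin n) (Units.map (e : F₀ →* F) a) * git (h * em n e P * h⁻¹) := by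
  have hP' : (git P)⁻¹ * S * P = scl (Fin n) a * S := by
    apply Units.ext
    rw [Units.val_mul, Units.val_mul, git_inv_coe, hP, Units.val_mul]
    change _ = ((Matrix.GeneralLinearGroup.scalar (Fin n) a : GL (Fin n) F₀) : Matrix (Fin n) (Fin n) F₀) * _
    rw [Gr.scalar_coe, Matrix.smul_mul, one_mul]
  unfold Dat at hd
  have hb : gσ (bt hF) h = git h * (scl (Fin n) ε * em n e S) := by rw [← hd, mul_inv_cancel_left]
  rw [_root_.map_mul (gσ (bt hF)), _root_.map_mul (gσ (bt hF)), _root_.map_inv (gσ (bt hF)), bt_em hF he, hb,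
    _root_.map_mul git, _root_.map_mul git, _root_.map_inv git, git_em]
  have e1 : git h * (scl (Fin n) ε * em n e S) * em n e P * (git h * (scl (Fin n) ε * em n e S))⁻¹ =
      git h * (em n e S * em n e P * (em n e S)⁻¹) * (git h)⁻¹ := by
    rw [_root_.mul_inv_rev, _root_.mul_inv_rev]
    calc _ = git h * (scl (Fin n) ε * (em n e S * em n e P * (em n e S)⁻¹) * (scl (Fin n) ε)⁻¹) * (git h)⁻¹ := by group
      _ = _ := by rw [scl_comm, mul_inv_cancel_right]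
  have e2 : scl (Fin n) (Units.map (e : F₀ →* F) a) * (git h * em n e (git P) * (git h)⁻¹) =
      git h * (scl (Fin n) (Units.map (e : F₀ →* F) a) * em n e (git P)) * (git h)⁻¹ := by
    rw [← mul_assoc, ← mul_assoc, scl_comm, mul_assoc (git h)]
  rw [e1, e2, ← em_scl, ← _root_.map_mul (em n e), ← _root_.map_mul (em n e), ← _root_.map_inv (em n e),
    ← _root_.map_mul (em n e)]
  congr 3
  -- S P S⁻¹ = a git P
  have e3 : S * P = git P * (scl (Fin n) a * S) := by rw [← hP']; group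
  rw [e3, ← mul_assoc, mul_inv_cancel_right]
  exact (sc_comm a (git P)).symm

/-- membership in `GU`. -/
theorem lift_mem_GU (he : ∀ a : F, bt hF a = a ↔ a ∈ Set.range e) {h : GL (Fin n) F} {S : GL (Fin n) F₀}
    (hn : 1 ≤ n) {ε : Fˣ} (hd : Dat e hF h S ε) {P : GL (Fin n) F₀} {a : F₀ˣ}
    (hP : (P : Matrix (Fin n) (Fin n) F₀)ᵀ * (S : Matrix (Fin n) (Fin n) F₀) * (P : Matrix (Fin n) (Fin n) F₀) =
      (a : F₀) • (S : Matrix (Fin n) (Fin n) F₀)) {t : Fˣ} :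
    scl (Fin n) t * (h * em n e P * h⁻¹) ∈ Cfsg.GU n F q ↔
      t * Units.map (bt hF : F →* F) t * Units.map (e : F₀ →* F) a = 1 := by
  have hne : Nonempty (Fin n) := ⟨⟨0, hn⟩⟩
  rw [mem_GU_git hF, _root_.map_mul (gσ (bt hF)), _root_.map_mul git, gσ_sc, mult_v hF he hd hP, scl_scl]
  have h2 : git (scl (Fin n) t) = scl (Fin n) t⁻¹ := git_scl t
  rw [h2, mul_left_inj]
  constructor
  · intro h3
    have h4 := sc_inj h3
    rw [mul_assoc, h4, mul_inv_cancel]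
  · intro h3
    congr 1
    rw [mul_assoc] at h3
    exact eq_inv_of_mul_eq_one_right h3

theorem det_lift {h : GL (Fin n) F} {P : GL (Fin n) F₀} {t : Fˣ} :
    Matrix.GeneralLinearGroup.det (scl (Fin n) t * (h * em n e P * h⁻¹)) =
      t ^ n * Units.map (e : F₀ →* F) (Matrix.GeneralLinearGroup.det P) := by
  have h1 : Matrix.GeneralLinearGroup.det (em n e P) = Units.map (e : F₀ →* F) (Matrix.GeneralLinearGroup.det P) := by
    apply Units.ext
    exact (e.map_det (P : Matrix (Fin n) (Fin n) F₀)).symm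
  rw [_root_.map_mul, _root_.map_mul, _root_.map_mul, _root_.map_inv, PSU.det_scl, h1, mul_comm (Matrix.GeneralLinearGroup.det h),
    mul_inv_cancel_right]

/-- the determinant group. -/
noncomputable def DD (hn : 3 ≤ n) (he : ∀ a : F, bt hF a = a ↔ a ∈ Set.range e) {h : GL (Fin n) F} {S : GL (Fin n) F₀}
    {ε : Fˣ} (hd : Dat e hF h S ε) : Subgroup (Cn F q) :=
  ((Subgroup.centralizer {gh hF hn he hd}).comap (fU hF hn)).map (H5.Unit.detGU n F hF)

theorem split_gh (hn : 3 ≤ n) (he : ∀ a : F, bt hF a = a ↔ a ∈ Set.range e) {h : GL (Fin n) F} {S : GL (Fin n) F₀}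
    {ε : Fˣ} (hd : Dat e hF h S ε) :
    Cfsg.splitClassCount (fam hF hn).D (Cfsg.Inn (Cfsg.PSU n F q)) (gh hF hn he hd) =
      (DD hF hn he hd ⊔ (powMonoidHom n : Cn F q →* Cn F q).range).index := by
  have h1 := GamT.split_gen (D := (fam hF hn).D) (K := Cfsg.Inn (Cfsg.PSU n F q)) inferInstance (fam hF hn).inn_le_D (fU hF hn)
    (fU_range hF hn) (H5.Unit.detGU n F hF) (H5.Unit.detGU_surjective hF (by omega)) (det_inn hF hn) (inn_det hF hn)
    (gh hF hn he hd)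
  rw [ker_map_det hF hn] at h1
  exact h1

theorem mem_DD (hn : 3 ≤ n) (he : ∀ a : F, bt hF a = a ↔ a ∈ Set.range e) {h : GL (Fin n) F} {S : GL (Fin n) F₀}
    {ε : Fˣ} (hd : Dat e hF h S ε) {x : Cn F q} : x ∈ DD hF hn he hd ↔ ∃ (t : Fˣ) (P : GL (Fin n) F₀) (a : F₀ˣ),
      (P : Matrix (Fin n) (Fin n) F₀)ᵀ * (S : Matrix (Fin n) (Fin n) F₀) * (P : Matrix (Fin n) (Fin n) F₀) =
        (a : F₀) • (S : Matrix (Fin n) (Fin n) F₀) ∧ t * Units.map (bt hF : F →* F) t * Units.map (e : F₀ →* F) a = 1 ∧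
      (x : Fˣ) = t ^ n * Units.map (e : F₀ →* F) (Matrix.GeneralLinearGroup.det P) := by
  obtain ⟨h1, h2, h3⟩ := cent_gh hF hn he hd
  constructor
  · rintro ⟨⟨u, hu⟩, huc, rfl⟩
    have huc' : (fam hF hn).T (gk hF hn u 1 (GU_le_CGU hu)) ∈ Subgroup.centralizer {gh hF hn he hd} := huc
    obtain ⟨t, P, rfl, hP⟩ := h2 u (GU_le_CGU hu) huc'
    obtain ⟨a, ha⟩ := Gr.mem_sim_iff.mp hP
    exact ⟨t, P, a, ha, (lift_mem_GU hF he (by omega) hd ha).mp hu, det_lift⟩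
  · rintro ⟨t, P, a, ha, ht, hx⟩
    have hu := (lift_mem_GU hF he (by omega) hd ha).mpr ht
    have hv : h * em n e P * h⁻¹ ∈ CGU n F q := (h1 P).mpr (Gr.mem_sim_iff.mpr ⟨a, ha⟩)
    refine ⟨⟨_, hu⟩, ?_, ?_⟩
    · change (fam hF hn).T (gk hF hn _ 1 (GU_le_CGU hu)) ∈ Subgroup.centralizer {gh hF hn he hd}
      have h5 : (fam hF hn).T (gk hF hn _ 1 hv) = (fam hF hn).T (gk hF hn _ 1 (GU_le_CGU hu)) :=
        (T_eq_iff hF hn hv (GU_le_CGU hu)).mpr ⟨t, rfl⟩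
      rw [← h5]
      exact h3 P hv
    · apply Subtype.ext
      rw [hx]
      exact det_lift

theorem mem_Cn' {y : Fˣ} : y ∈ Cn F q ↔ y * Units.map (bt hF : F →* F) y = 1 := by
  rw [mem_Cn, Units.ext_iff, Units.val_mul, Units.val_one]
  change _ ↔ (y : F) * bt hF (y : F) = 1
  rw [bt_apply, pow_succ']

/-- Hilbert 90 for `Cn`. -/
theorem exists_t (he : ∀ a : F, bt hF a = a ↔ a ∈ Set.range e) (y : Cn F q) : ∃ (t : Fˣ) (a : F₀ˣ),
    t * Units.map (bt hF : F →* F) t * Units.map (e : F₀ →* F) a = 1 ∧ t ^ 2 * Units.map (e : F₀ →* F) a = y := by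
  obtain ⟨s, hs⟩ := exists_eps hF (k := (y : Fˣ)) ((mem_Cn' hF).mp y.2)
  -- y β(s) = s
  have hfix : bt hF ((s * Units.map (bt hF : F →* F) s)⁻¹ : Fˣ) = ((s * Units.map (bt hF : F →* F) s)⁻¹ : Fˣ) := by
    have : Units.map (bt hF : F →* F) (s * Units.map (bt hF : F →* F) s)⁻¹ = (s * Units.map (bt hF : F →* F) s)⁻¹ := by
      rw [_root_.map_inv, _root_.map_mul, bt_units, mul_comm]
    exact congrArg Units.val this
  obtain ⟨b, hb⟩ := (he _).mp hfix
  have hb0 : b ≠ 0 := by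
    rintro rfl
    rw [_root_.map_zero] at hb
    exact Units.ne_zero _ hb.symm
  have hbu : Units.map (e : F₀ →* F) (Units.mk0 b hb0) = (s * Units.map (bt hF : F →* F) s)⁻¹ := Units.ext hb
  refine ⟨s, Units.mk0 b hb0, by rw [hbu, mul_inv_cancel], ?_⟩
  rw [hbu, sq, _root_.mul_inv_rev, mul_comm (Units.map (bt hF : F →* F) s)⁻¹, ← mul_assoc, mul_inv_cancel_right]
  rw [mul_inv_eq_iff_eq_mul]
  exact hs.symm

theorem y_mem (t : Fˣ) {a : F₀ˣ} (h : t * Units.map (bt hF : F →* F) t * Units.map (e : F₀ →* F) a = 1)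
    (he : ∀ a : F, bt hF a = a ↔ a ∈ Set.range e) : t ^ 2 * Units.map (e : F₀ →* F) a ∈ Cn F q := by
  rw [mem_Cn' hF]
  have h1 : Units.map (bt hF : F →* F) (Units.map (e : F₀ →* F) a) = Units.map (e : F₀ →* F) a :=
    Units.ext ((he _).mpr ⟨_, rfl⟩)
  rw [_root_.map_mul, _root_.map_pow, h1]
  have h2 : t ^ 2 * Units.map (e : F₀ →* F) a * (Units.map (bt hF : F →* F) t ^ 2 * Units.map (e : F₀ →* F) a) =
      (t * Units.map (bt hF : F →* F) t * Units.map (e : F₀ →* F) a) ^ 2 := by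
    simp only [sq]
    ac_rfl
  rw [h2, h, one_pow]

/-- roots. -/
theorem exists_b (h : ¬ (Even n ∧ (2 : F₀) ≠ 0)) {d c : F₀ˣ} (hd : d ^ 2 = c ^ n) : ∃ b : F₀ˣ, b ^ 2 = c ∧ b ^ n = d := by
  by_cases h2 : (2 : F₀) = 0
  · obtain ⟨a, ha⟩ := isSquare_of_two_eq_zero h2 (c : F₀)
    have ha0 : a ≠ 0 := by rintro rfl; exact c.ne_zero (by rw [ha, mul_zero])
    have h1 : (Units.mk0 a ha0) ^ 2 = c := by
      apply Units.ext
      rw [Units.val_pow_eq_pow_val, Units.val_mk0, ha, sq]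
    refine ⟨Units.mk0 a ha0, h1, ?_⟩
    apply Units.ext
    apply Gr.sq_inj h2
    rw [← Units.val_mul, ← Units.val_mul, ← sq, ← sq, hd, ← pow_mul, mul_comm, pow_mul, h1]
  · have hodd : ¬ Even n := fun he => h ⟨he, h2⟩
    rw [Nat.not_even_iff_odd] at hodd
    obtain ⟨m, hm⟩ := hodd
    have h5 : (d * (c ^ m)⁻¹) ^ 2 = c := by
      rw [mul_pow, hd, hm, pow_succ, inv_pow, ← pow_mul, mul_comm m 2, mul_right_comm, mul_inv_cancel, one_mul]
    refine ⟨d * (c ^ m)⁻¹, h5, ?_⟩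
    rw [hm, pow_succ, pow_mul, h5, mul_comm d, mul_inv_cancel_left]

theorem splitU_triv (hn : 3 ≤ n) (he : ∀ a : F, bt hF a = a ↔ a ∈ Set.range e) {h : GL (Fin n) F} {S : GL (Fin n) F₀}
    {ε : Fˣ} (hd : Dat e hF h S ε) (hh : ¬ (Even n ∧ (2 : F₀) ≠ 0)) :
    Cfsg.splitClassCount (fam hF hn).D (Cfsg.Inn (Cfsg.PSU n F q)) (gh hF hn he hd) = Nat.gcd n (q + 1) := by
  have hfin : Finite (Cn F q) := inferInstance
  rw [split_gh]
  have h1 : DD hF hn he hd ⊔ (powMonoidHom n : Cn F q →* Cn F q).range = (powMonoidHom n : Cn F q →* Cn F q).range := by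
    rw [sup_eq_right]
    intro x hx
    obtain ⟨t, P, a, ha, ht, hx⟩ := (mem_DD hF hn he hd).mp hx
    obtain ⟨b, hb, hbn⟩ := exists_b hh (Gr.det_sq ha)
    have hmem : t * Units.map (e : F₀ →* F) b ∈ Cn F q := by
      rw [mem_Cn' hF]
      have h3 : Units.map (bt hF : F →* F) (Units.map (e : F₀ →* F) b) = Units.map (e : F₀ →* F) b :=
        Units.ext ((he _).mpr ⟨_, rfl⟩)
      rw [_root_.map_mul, h3, ← ht, ← hb, _root_.map_pow, sq]
      ac_rfl
    refine ⟨⟨_, hmem⟩, ?_⟩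
    apply Subtype.ext
    rw [hx, ← hbn, _root_.map_pow, ← mul_pow]
    rfl
  rw [h1, IsCyclic.index_powMonoidHom_range, card_Cn hF, Nat.gcd_comm]

theorem splitU_alt (hn : 3 ≤ n) (he : ∀ a : F, bt hF a = a ↔ a ∈ Set.range e) {m : ℕ} (hnm : n = 2 * m)
    {h : GL (Fin n) F} {S : GL (Fin n) F₀}
    {ε : Fˣ} (hd : Dat e hF h S ε) (hS : ∀ x, frm (S : Matrix (Fin n) (Fin n) F₀) x x = 0) :
    Cfsg.splitClassCount (fam hF hn).D (Cfsg.Inn (Cfsg.PSU n F q)) (gh hF hn he hd) = Nat.gcd m (q + 1) := by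
  have hfin : Finite (Cn F q) := inferInstance
  obtain ⟨φ, hφ⟩ := Gr.alt_isom' hS hnm
  rw [split_gh]
  have hdet : ∀ g : GL (Fin n) F₀, ((Matrix.GeneralLinearGroup.det g : F₀ˣ) : F₀) =
      ((Par.cj φ g : GL (Fin m ⊕ Fin m) F₀) : Matrix (Fin m ⊕ Fin m) (Fin m ⊕ Fin m) F₀).det := by
    intro g
    rw [Par.cj_det]
    rfl
  have hdetP : ∀ {P : GL (Fin n) F₀} {a : F₀ˣ}, (P : Matrix (Fin n) (Fin n) F₀)ᵀ * (S : Matrix (Fin n) (Fin n) F₀) * (P : Matrix (Fin n) (Fin n) F₀) =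
        (a : F₀) • (S : Matrix (Fin n) (Fin n) F₀) → Matrix.GeneralLinearGroup.det P = a ^ m := by
    intro P a ha
    rw [Gr.frm_eq_iff] at ha
    apply Units.ext
    rw [hdet, Gr.sim_det (c := a), Units.val_pow_eq_pow_val]
    intro u v
    obtain ⟨u, rfl⟩ := φ.surjective u
    obtain ⟨v, rfl⟩ := φ.surjective v
    rw [Par.cj_mulVec, Par.cj_mulVec, hφ, hφ, ha]
  have hexP : ∀ a : F₀ˣ, ∃ P : GL (Fin n) F₀, (P : Matrix (Fin n) (Fin n) F₀)ᵀ * (S : Matrix (Fin n) (Fin n) F₀) * (P : Matrix (Fin n) (Fin n) F₀) =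
        (a : F₀) • (S : Matrix (Fin n) (Fin n) F₀) := by
    intro a
    obtain ⟨g, hg⟩ := Par.cj_surj φ (Gr.dS m a)
    refine ⟨g, Gr.frm_eq_iff.mpr fun u v => ?_⟩
    rw [← hφ, ← hφ, ← Par.cj_mulVec, ← Par.cj_mulVec, hg, Gr.dS_sim]
  have h1 : DD hF hn he hd = (powMonoidHom m : Cn F q →* Cn F q).range := by
    ext x
    rw [mem_DD]
    constructor
    · rintro ⟨t, P, a, ha, ht, hx⟩
      refine ⟨⟨_, y_mem hF t ht he⟩, ?_⟩
      apply Subtype.ext
      rw [hx, hdetP ha, _root_.map_pow, hnm, pow_mul, ← mul_pow]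
      rfl
    · rintro ⟨y, rfl⟩
      obtain ⟨t, a, ht, hy⟩ := exists_t hF he y
      obtain ⟨P, hP⟩ := hexP a
      refine ⟨t, P, a, hP, ht, ?_⟩
      rw [hdetP hP, _root_.map_pow, hnm, pow_mul, ← mul_pow, hy]
      rfl
  have h2 : (powMonoidHom n : Cn F q →* Cn F q).range ≤ (powMonoidHom m : Cn F q →* Cn F q).range := by
    rintro _ ⟨x, rfl⟩
    refine ⟨x ^ 2, ?_⟩
    rw [powMonoidHom_apply, powMonoidHom_apply, ← pow_mul, hnm]
  rw [h1, sup_eq_left.mpr h2, IsCyclic.index_powMonoidHom_range, card_Cn hF, Nat.gcd_comm]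

theorem splitU_sym (hn : 3 ≤ n) (he : ∀ a : F, bt hF a = a ↔ a ∈ Set.range e) (h2 : (2 : F₀) ≠ 0) (hq : Odd q) {k : ℕ} (hnm : n = 2 * k + 2)
    {h : GL (Fin n) F} {S : GL (Fin n) F₀}
    {ε : Fˣ} (hd : Dat e hF h S ε) (hN : (S : Matrix (Fin n) (Fin n) F₀)ᵀ = S) :
    Cfsg.splitClassCount (fam hF hn).D (Cfsg.Inn (Cfsg.PSU n F q)) (gh hF hn he hd) = Nat.gcd n (q + 1) / 2 := by
  have hfin : Finite (Cn F q) := inferInstance
  rw [split_gh]
  have hnd := nd_nQ h2 hN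
  have hV : finrank F₀ (Fin n → F₀) = 2 * k + 2 := by
    rw [Module.finrank_fintype_fun_eq_card, Fintype.card_fin, hnm]
  have hexP : ∀ a : F₀ˣ, ∃ P : GL (Fin n) F₀, (P : Matrix (Fin n) (Fin n) F₀)ᵀ * (S : Matrix (Fin n) (Fin n) F₀) * (P : Matrix (Fin n) (Fin n) F₀) =
        (a : F₀) • (S : Matrix (Fin n) (Fin n) F₀) := by
    intro c
    obtain ⟨g, hg⟩ := exists_similarity hnd hV c.ne_zero
    have hgc : ∀ x, (((Quad.glE F₀ (Fin n)).symm g : GL (Fin n) F₀) : Matrix (Fin n) (Fin n) F₀) *ᵥ x = g x := by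
      intro x
      rw [← Quad.glE_apply, MulEquiv.apply_symm_apply]
    refine ⟨(Quad.glE F₀ (Fin n)).symm g, Gr.frm_eq_iff.mpr fun x y => ?_⟩
    rw [hgc, hgc]
    have h1 := hg (x + y)
    rw [_root_.map_add g, nQ_apply, nQ_apply, frm_hadd hN, frm_hadd hN, ← nQ_apply, ← nQ_apply, ← nQ_apply,
      ← nQ_apply, hg, hg] at h1
    exact mul_left_cancel₀ h2 (by linear_combination h1)
  have hnegmem : (-1 : Fˣ) ∈ Cn F q := by
    rw [mem_Cn' hF]
    apply Units.ext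
    change (-1 : F) * bt hF (-1) = 1
    rw [_root_.map_neg, _root_.map_one]; ring
  -- a reflection
  have hneg : (⟨-1, hnegmem⟩ : Cn F q) ∈ DD hF hn he hd := by
    obtain ⟨v, hv⟩ : ∃ v, nQ (S : Matrix (Fin n) (Fin n) F₀) v ≠ 0 := by
      by_contra h
      push Not at h
      have h3 : ∀ x y, QuadraticMap.polar (nQ (S : Matrix (Fin n) (Fin n) F₀)) x y = 0 := by
        intro x y
        rw [QuadraticMap.polar, h, h, h]; ring
      have : Nontrivial (Fin n → F₀) := Module.nontrivial_of_finrank_pos (R := F₀) (by rw [hV]; omega)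
      obtain ⟨x, hx⟩ := exists_ne (0 : Fin n → F₀)
      exact hx (nd_eq_zero hnd (h3 x))
    have hr := symm_rf_coe (nQ (S : Matrix (Fin n) (Fin n) F₀)) v
    set r := (toOG (nQ (S : Matrix (Fin n) (Fin n) F₀))).symm (rf (nQ (S : Matrix (Fin n) (Fin n) F₀)) v) with hrdef
    have hrQ := mem_isometryGroup.mp r.2
    rw [mem_DD]
    refine ⟨1, r, 1, Gr.frm_eq_iff.mpr fun x y => ?_, by simp, ?_⟩
    · rw [Units.val_one, one_mul]
      have h1 := hrQ (x + y)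
      rw [mulVec_add, nQ_apply, nQ_apply, frm_hadd hN, frm_hadd hN, ← nQ_apply, ← nQ_apply, ← nQ_apply,
        ← nQ_apply, hrQ, hrQ] at h1
      exact mul_left_cancel₀ h2 (by linear_combination h1)
    · rw [one_pow, one_mul]
      apply Units.ext
      change (-1 : F) = e (((r : Cfsg.isometryGroup F₀ _) : GL (Fin n) F₀) : Matrix (Fin n) (Fin n) F₀).det
      rw [hr, det_reflectionMatrix hv, _root_.map_neg, _root_.map_one]
  have h1 : DD hF hn he hd ⊔ (powMonoidHom n : Cn F q →* Cn F q).range =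
      ((powMonoidHom n : Cn F q →* Cn F q).range).comap (powMonoidHom 2) := by
    apply le_antisymm
    · rw [sup_le_iff]
      constructor
      · intro x hx
        obtain ⟨t, P, a, ha, ht, hx⟩ := (mem_DD hF hn he hd).mp hx
        refine ⟨⟨_, y_mem hF t ht he⟩, ?_⟩
        apply Subtype.ext
        change (t ^ 2 * Units.map (e : F₀ →* F) a) ^ n = (x : Fˣ) ^ 2
        rw [hx, mul_pow, mul_pow, ← _root_.map_pow, ← _root_.map_pow, Gr.det_sq ha, ← pow_mul, ← pow_mul, mul_comm 2 n]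
      · rintro _ ⟨t, rfl⟩
        refine ⟨t ^ 2, ?_⟩
        rw [powMonoidHom_apply, powMonoidHom_apply, powMonoidHom_apply, ← pow_mul, ← pow_mul, mul_comm]
    · intro x hx
      obtain ⟨y, hy⟩ := hx
      refine Subgroup.mem_sup_left ?_
      have hy' : (y : Fˣ) ^ n = (x : Fˣ) ^ 2 := congrArg Subtype.val hy
      obtain ⟨t, a, ht, hty⟩ := exists_t hF he y
      obtain ⟨P, hP⟩ := hexP a
      have hz : (t ^ n * Units.map (e : F₀ →* F) (Matrix.GeneralLinearGroup.det P)) ^ 2 = (x : Fˣ) ^ 2 := by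
        rw [← hy', ← hty, mul_pow, mul_pow, ← _root_.map_pow (Units.map (e : F₀ →* F)), ← _root_.map_pow (Units.map (e : F₀ →* F)),
          Gr.det_sq hP, ← pow_mul, ← pow_mul, mul_comm 2 n]
      have h3 : ((t ^ n * Units.map (e : F₀ →* F) (Matrix.GeneralLinearGroup.det P) : Fˣ) : F) ^ 2 = ((x : Fˣ) : F) ^ 2 := by
        rw [← Units.val_pow_eq_pow_val, hz, Units.val_pow_eq_pow_val]
      rcases sq_eq_sq_iff_eq_or_eq_neg.mp h3 with h4 | h4
      · exact (mem_DD hF hn he hd).mpr ⟨t, P, a, hP, ht, (Units.ext h4).symm⟩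
      · have h5 : (⟨-1, hnegmem⟩ : Cn F q) * x ∈ DD hF hn he hd := by
          refine (mem_DD hF hn he hd).mpr ⟨t, P, a, hP, ht, ?_⟩
          apply Units.ext
          rw [h4]
          change (-1 : F) * _ = _
          ring
        have h6 := mul_mem hneg h5
        have h7 : (⟨-1, hnegmem⟩ : Cn F q) * (⟨-1, hnegmem⟩ * x) = x := by
          apply Subtype.ext
          apply Units.ext
          change (-1 : F) * ((-1 : F) * ((x : Fˣ) : F)) = _
          ring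
        rwa [h7] at h6
  rw [h1, Subgroup.index_comap]
  have hle : (powMonoidHom n : Cn F q →* Cn F q).range ≤ (powMonoidHom 2 : Cn F q →* Cn F q).range := by
    rintro _ ⟨x, rfl⟩
    refine ⟨x ^ (k + 1), ?_⟩
    rw [powMonoidHom_apply, powMonoidHom_apply, ← pow_mul, hnm]
    congr 1
    ring
  have h3 := Subgroup.relIndex_mul_index hle
  rw [IsCyclic.index_powMonoidHom_range, IsCyclic.index_powMonoidHom_range, card_Cn hF] at h3
  have h4 : (q + 1).gcd 2 = 2 := by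
    rw [Nat.gcd_eq_right_iff_dvd]
    obtain ⟨l, hl⟩ := hq
    omega
  rw [h4] at h3
  rw [Nat.gcd_comm n, ← h3, Nat.mul_div_cancel _ (by norm_num)]

end Cfsg.Agent.H16.GrU
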