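import Cfsg.Agent.H16_MatOm

/-! Subgroups of index two. -/

set_option autoImplicit false
set_option linter.unusedSectionVars false

namespace Cfsg.Agent.H16.Quad

theorem sq_mem_of_index_two {G : Type*} [Group G] {H : Subgroup G} (h : H.index = 2) (a : G) : a * a ∈ H :=
  Subgroup.mul_self_mem_of_index_two h a

theorem comm_le_of_quot_comm {G : Type*} [Group G] {H : Subgroup G} [H.Normal] (hcomm : ∀ a b : G ⧸ H, a * b = b * a) :
    commutator G ≤ H := by
  rw [commutator_def, Subgroup.commutator_le]
  intro a _ b _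
  rw [← QuotientGroup.eq_one_iff, commutatorElement_def, QuotientGroup.mk_mul, QuotientGroup.mk_mul, QuotientGroup.mk_mul,
    hcomm (QuotientGroup.mk a) (QuotientGroup.mk b)]
  simp [mul_assoc, QuotientGroup.mk_inv]

theorem comm_le_of_index_two {G : Type*} [Group G] {H : Subgroup G} (h : H.index = 2) : commutator G ≤ H := by
  have : H.Normal := Subgroup.normal_of_index_eq_two h
  have hc : Nat.card (G ⧸ H) = 2 := h
  apply comm_le_of_quot_comm
  have : Fact (Nat.Prime 2) := ⟨Nat.prime_two⟩
  have h3 : IsCyclic (G ⧸ H) := isCyclic_of_prime_card hc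
  exact fun a b => (IsCyclic.isMulCommutative (α := G ⧸ H)).is_comm.comm a b

theorem comm_le_of_card_four {G : Type*} [Group G] {H : Subgroup G} [H.Normal] (h : H.index = 4) : commutator G ≤ H := by
  have hc : Nat.card (G ⧸ H) = 2 ^ 2 := h
  have : Fact (Nat.Prime 2) := ⟨Nat.prime_two⟩
  apply comm_le_of_quot_comm
  exact fun a b => (IsPGroup.isMulCommutative_of_card_eq_prime_sq hc).is_comm.comm a b

end Cfsg.Agent.H16.Quad
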