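import Mathlib
import Cfsg.Prelude.Def_JordanBlocks

set_option autoImplicit false

/-! Ranks of powers for unipotent matrices of given Jordan type. -/

namespace Cfsg.Agent.H16.JT

open Matrix Module

variable {F : Type*} [Field F] {t : ℕ} {d : Fin t → ℕ}

theorem jt_mulVec (x : ((k : Fin t) × Fin (d k)) → F) (k : Fin t) (a : Fin (d k)) :
    (Cfsg.jordanTypeMatrix d F *ᵥ x) ⟨k, a⟩ = (Cfsg.jordanBlock (d k) F *ᵥ (fun b => x ⟨k, b⟩)) a := by
  rw [Matrix.mulVec, Matrix.mulVec, dotProduct, dotProduct, Fintype.sum_sigma, Finset.sum_eq_single k]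
  · refine Finset.sum_congr rfl fun b _ => ?_
    rw [Cfsg.jordanTypeMatrix, Matrix.blockDiagonal'_apply_eq]
  · intro l _ hl
    apply Finset.sum_eq_zero
    intro b _
    rw [Cfsg.jordanTypeMatrix, Matrix.blockDiagonal'_apply_ne _ _ _ hl.symm, zero_mul]
  · intro h
    exact absurd (Finset.mem_univ _) h

theorem jb_mulVec {n : ℕ} (x : Fin n → F) (a : Fin n) :
    (Cfsg.jordanBlock n F *ᵥ x) a = x a + (if h : 1 ≤ (a : ℕ) then x ⟨a - 1, by omega⟩ else 0) := by
  rw [Matrix.mulVec, dotProduct]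
  have h1 : ∀ b : Fin n, Cfsg.jordanBlock n F a b * x b = (if a = b then x b else 0) + (if (a : ℕ) = b + 1 then x b else 0) := by
    intro b
    rw [Cfsg.jordanBlock, Matrix.of_apply]
    by_cases h : (a : ℕ) = b
    · rw [if_pos h, one_mul, if_pos (Fin.ext h), if_neg (by omega), add_zero]
    · rw [if_neg h, if_neg (fun h' => h (congrArg Fin.val h')), zero_add]
      by_cases h2 : (a : ℕ) = b + 1
      · rw [if_pos h2, if_pos h2, one_mul]
      · rw [if_neg h2, if_neg h2, zero_mul]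
  rw [Finset.sum_congr rfl fun b _ => h1 b, Finset.sum_add_distrib, Finset.sum_ite_eq, if_pos (Finset.mem_univ _)]
  congr 1
  by_cases h : 1 ≤ (a : ℕ)
  · rw [dif_pos h, Finset.sum_eq_single (⟨a - 1, by omega⟩ : Fin n)]
    · rw [if_pos (by change (a : ℕ) = (a : ℕ) - 1 + 1; omega)]
    · intro b _ hb
      rw [if_neg]
      intro h'
      exact hb (Fin.ext (by change (b : ℕ) = (a : ℕ) - 1; omega))
    · intro h'
      exact absurd (Finset.mem_univ _) h'
  · rw [dif_neg h]
    apply Finset.sum_eq_zero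
    intro b _
    rw [if_neg (by omega)]

theorem pow_mulVec (i : ℕ) (x : ((k : Fin t) × Fin (d k)) → F) (k : Fin t) (a : Fin (d k)) :
    ((Cfsg.jordanTypeMatrix d F - 1) ^ i *ᵥ x) ⟨k, a⟩ = if h : i ≤ (a : ℕ) then x ⟨k, ⟨a - i, by omega⟩⟩ else 0 := by
  induction i generalizing x a with
  | zero =>
    rw [pow_zero, Matrix.one_mulVec, dif_pos (Nat.zero_le _)]
    rfl
  | succ i ih =>
    rw [pow_succ, ← Matrix.mulVec_mulVec, ih]
    have h1 : ∀ b : Fin (d k), ((Cfsg.jordanTypeMatrix d F - 1) *ᵥ x) ⟨k, b⟩ = if h : 1 ≤ (b : ℕ) then x ⟨k, ⟨b - 1, by omega⟩⟩ else 0 := by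
      intro b
      rw [Matrix.sub_mulVec, Matrix.one_mulVec, Pi.sub_apply, jt_mulVec, jb_mulVec, add_sub_cancel_left]
    by_cases h : i ≤ (a : ℕ)
    · rw [dif_pos h, h1]
      by_cases h2 : i + 1 ≤ (a : ℕ)
      · rw [dif_pos (by change 1 ≤ (a : ℕ) - i; omega), dif_pos h2]
        congr 2
      · rw [dif_neg (by change ¬ 1 ≤ (a : ℕ) - i; omega), dif_neg h2]
    · rw [dif_neg h, dif_neg (by omega)]

theorem rank_pow (i : ℕ) : ((Cfsg.jordanTypeMatrix d F - 1) ^ i).rank = ∑ k, (d k - i) := by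
  obtain ⟨T, hT⟩ : ∃ T : (((k : Fin t) × Fin (d k)) → F) →ₗ[F] (((k : Fin t) × Fin (d k)) → F), T = Matrix.toLin' ((Cfsg.jordanTypeMatrix d F - 1) ^ i) := ⟨_, rfl⟩
  have hr : ((Cfsg.jordanTypeMatrix d F - 1) ^ i).rank = finrank F (LinearMap.range T) := by rw [hT]; rfl
  let inc : ((k : Fin t) × Fin (d k - i)) → ((k : Fin t) × Fin (d k)) := fun p => ⟨p.1, ⟨p.2, by have := p.2.2; omega⟩⟩
  let R : (((k : Fin t) × Fin (d k)) → F) →ₗ[F] (((k : Fin t) × Fin (d k - i)) → F) := LinearMap.funLeft F F inc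
  have hinc : Function.Injective inc := by
    rintro ⟨k, a⟩ ⟨l, b⟩ h
    have h1 : k = l := congrArg Sigma.fst h
    subst h1
    have h2 : (⟨a, by have := a.2; omega⟩ : Fin (d k)) = ⟨b, by have := b.2; omega⟩ := eq_of_heq (Sigma.mk.inj h).2
    have h3 : (a : ℕ) = b := congrArg (fun z : Fin (d k) => (z : ℕ)) h2
    congr 1
    exact Fin.ext h3
  have hR : Function.Surjective R := LinearMap.funLeft_surjective_of_injective F F inc hinc
  have hker : LinearMap.ker T = LinearMap.ker R := by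
    ext x
    rw [LinearMap.mem_ker, LinearMap.mem_ker, hT, Matrix.toLin'_apply]
    constructor
    · intro h
      funext p
      obtain ⟨k, b⟩ := p
      have h1 := congrFun h ⟨k, ⟨b + i, by have := b.2; omega⟩⟩
      rw [pow_mulVec, dif_pos (by change i ≤ (b : ℕ) + i; omega), Pi.zero_apply] at h1
      change x ⟨k, ⟨b, _⟩⟩ = 0
      rw [← h1]
      congr 2
      apply Fin.ext
      change (b : ℕ) = (b : ℕ) + i - i
      omega
    · intro h
      funext p
      obtain ⟨k, a⟩ := p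
      rw [pow_mulVec]
      by_cases h1 : i ≤ (a : ℕ)
      · rw [dif_pos h1]
        exact congrFun h ⟨k, ⟨a - i, by have := a.2; omega⟩⟩
      · rw [dif_neg h1]
        rfl
  have h1 := LinearMap.finrank_range_add_finrank_ker T
  have h2 := LinearMap.finrank_range_add_finrank_ker R
  rw [LinearMap.range_eq_top.mpr hR, finrank_top, finrank_pi, Fintype.card_sigma] at h2
  simp only [Fintype.card_fin] at h2
  rw [hr]
  rw [hker] at h1
  omega

/-- the multiplicities. -/
theorem mult (j : ℕ) : (Finset.univ.filter (fun k : Fin t => d k = j + 1)).card + 2 * ∑ k, (d k - (j + 1)) = ∑ k, (d k - j) + ∑ k, (d k - (j + 2)) := by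
  rw [Finset.card_filter, Finset.mul_sum, ← Finset.sum_add_distrib, ← Finset.sum_add_distrib]
  refine Finset.sum_congr rfl fun k _ => ?_
  split_ifs with h <;> omega

end Cfsg.Agent.H16.JT
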