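import Mathlib

set_option autoImplicit false

/-! Truncated polynomial rings with the involution `y ↦ -y`. -/

namespace Cfsg.Agent.H16.RU

variable {F C : Type*} [Field F] [CommRing C] [Algebra F C] [Nontrivial C] {n : ℕ} {σ : C →+* C} {y : C}

omit [Nontrivial C] in
theorem dec (H1 : ∀ x : C, ∃ a : Fin (n + 1) → F, x = ∑ i, a i • y ^ (i : ℕ)) (x : C) :
    ∃ (c : F) (x' : C), x = algebraMap F C c + y * x' := by
  obtain ⟨a, ha⟩ := H1 x
  refine ⟨a 0, ∑ i : Fin n, a i.succ • y ^ (i : ℕ), ?_⟩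
  rw [ha, Fin.sum_univ_succ, Finset.mul_sum]
  congr 1
  · rw [Fin.val_zero, pow_zero, Algebra.smul_def, mul_one]
  · refine Finset.sum_congr rfl fun i _ => ?_
    rw [Fin.val_succ, pow_succ', mul_smul_comm]

theorem const_uniq (h0 : y ^ (n + 1) = 0) {c d : F} {x x' : C} (h : algebraMap F C c + y * x = algebraMap F C d + y * x') : c = d := by
  have h1 : algebraMap F C (c - d) = y * (x' - x) := by
    rw [_root_.map_sub]
    linear_combination h
  have h2 : algebraMap F C ((c - d) ^ (n + 1)) = 0 := by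
    rw [_root_.map_pow, h1, mul_pow, h0, zero_mul]
  rw [map_eq_zero] at h2
  exact sub_eq_zero.mp (pow_eq_zero_iff (by omega) |>.mp h2)

theorem sq_const (hσF : ∀ c : F, σ (algebraMap F C c) = algebraMap F C c) (hy : σ y = -y) (h0 : y ^ (n + 1) = 0)
    {a a' : C} {c d : F} (ha : a = algebraMap F C c + y * a') (h : σ a * a = algebraMap F C d) : d = c ^ 2 := by
  have h1 : σ a = algebraMap F C c - y * σ a' := by
    rw [ha, _root_.map_add, _root_.map_mul, hσF, hy]
    ring
  refine const_uniq h0 (x := 0) (x' := algebraMap F C c * a' - σ a' * (algebraMap F C c + y * a')) ?_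
  rw [← h, h1, ha, _root_.map_pow]
  ring

theorem unit_of_const (h0 : y ^ (n + 1) = 0) {c : F} (hc : c ≠ 0) (x : C) : IsUnit (algebraMap F C c + y * x) := by
  have h1 : IsNilpotent (y * x) := ⟨n + 1, by rw [mul_pow, h0, zero_mul]⟩
  rw [add_comm]
  exact h1.isUnit_add_right_of_commute ((isUnit_iff_ne_zero.mpr hc).map (algebraMap F C)) (Commute.all _ _)

theorem root (hσF : ∀ c : F, σ (algebraMap F C c) = algebraMap F C c) (h0 : y ^ (n + 1) = 0)
    {p : ℕ} [Fact p.Prime] [CharP F p] (hp : p ≠ 2) {s s' : C} {d : F} (hs : σ s = s) (hd : d ≠ 0)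
    (hss : s = algebraMap F C d + y * s') : ∃ t, IsUnit t ∧ σ t = t ∧ s = algebraMap F C d * t ^ 2 := by
  have : CharP C p := charP_of_injective_algebraMap (algebraMap F C).injective p
  obtain ⟨w, hw⟩ : ∃ w, w = algebraMap F C d⁻¹ * s := ⟨_, rfl⟩
  have hdd : algebraMap F C d * algebraMap F C d⁻¹ = 1 := by rw [← _root_.map_mul, mul_inv_cancel₀ hd, _root_.map_one]
  have hw1 : w = 1 + y * (algebraMap F C d⁻¹ * s') := by
    rw [hw, hss]
    linear_combination hdd
  have hσw : σ w = w := by rw [hw, _root_.map_mul, hσF, hs]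
  obtain ⟨k, hk⟩ : ∃ k, n + 1 ≤ p ^ k := ⟨n + 1, (Nat.lt_pow_self (Fact.out : p.Prime).one_lt).le⟩
  have hwp : w ^ (p ^ k) = 1 := by
    rw [hw1, add_pow_char_pow, one_pow, mul_pow, pow_eq_zero_of_le hk h0, zero_mul, add_zero]
  have hodd : Odd (p ^ k) := ((Fact.out : p.Prime).odd_of_ne_two hp).pow
  obtain ⟨j, hj⟩ := hodd
  refine ⟨w ^ (j + 1), ?_, by rw [_root_.map_pow, hσw], ?_⟩
  · exact (IsUnit.of_pow_eq_one hwp (pow_pos (Fact.out : p.Prime).pos k).ne').pow _
  · rw [← pow_mul, show (j + 1) * 2 = (2 * j + 1) + 1 by ring, pow_succ, ← hj, hwp, one_mul, hw, ← mul_assoc, hdd, one_mul]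

theorem unit_const (h0 : y ^ (n + 1) = 0) {c : F} {x : C} (h : IsUnit (algebraMap F C c + y * x)) : c ≠ 0 := by
  rintro rfl
  rw [_root_.map_zero, zero_add] at h
  exact (h.pow (n + 1)).ne_zero (by rw [mul_pow, h0, zero_mul])

theorem skew_const (h2 : (2 : F) ≠ 0) (hσF : ∀ c : F, σ (algebraMap F C c) = algebraMap F C c) (hy : σ y = -y) (h0 : y ^ (n + 1) = 0)
    (H1 : ∀ x : C, ∃ a : Fin (n + 1) → F, x = ∑ i, a i • y ^ (i : ℕ)) {z : C} (hz : σ z = -z) : ∃ z', z = y * z' := by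
  obtain ⟨c, z', hc⟩ := dec H1 z
  have h1 : algebraMap F C (2 * c) + y * 0 = algebraMap F C 0 + y * (σ z' - z') := by
    rw [hc, _root_.map_add, _root_.map_mul, hσF, hy] at hz
    rw [_root_.map_mul, map_ofNat, _root_.map_zero]
    linear_combination hz
  have h3 := const_uniq h0 h1
  have h4 : c = 0 := (mul_eq_zero.mp h3).resolve_left h2
  exact ⟨z', by rw [hc, h4, _root_.map_zero, zero_add]⟩

theorem card_U (h2 : (2 : F) ≠ 0) (hσ : ∀ x, σ (σ x) = x) (hσF : ∀ c : F, σ (algebraMap F C c) = algebraMap F C c) (hy : σ y = -y) (h0 : y ^ (n + 1) = 0)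
    (H1 : ∀ x : C, ∃ a : Fin (n + 1) → F, x = ∑ i, a i • y ^ (i : ℕ)) :
    Nat.card {a : C // σ a * a = 1} = Nat.card {c : F // c ^ 2 = 1} * Nat.card {z : C // σ z = -z} := by
  have hu : ∀ z : C, σ z = -z → IsUnit (1 - z) := by
    intro z hz
    obtain ⟨z', hz'⟩ := skew_const h2 hσF hy h0 H1 hz
    have := unit_of_const (F := F) h0 one_ne_zero (-z')
    rwa [_root_.map_one, mul_neg, ← hz', ← sub_eq_add_neg] at this
  have hf : ∀ (c : F) (z : C), c ^ 2 = 1 → σ z = -z → σ (algebraMap F C c * ((1 + z) * Ring.inverse (1 - z))) *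
      (algebraMap F C c * ((1 + z) * Ring.inverse (1 - z))) = 1 := by
    intro c z hc hz
    have h1 := Ring.mul_inverse_cancel _ (hu z hz)
    have h3 := congrArg σ h1
    rw [_root_.map_mul, _root_.map_sub, _root_.map_one, hz] at h3
    rw [_root_.map_mul, hσF, _root_.map_mul, _root_.map_add, _root_.map_one, hz]
    have h4 : algebraMap F C c ^ 2 = 1 := by rw [← _root_.map_pow, hc, _root_.map_one]
    linear_combination ((1 + -z) * σ (Ring.inverse (1 - z)) * ((1 + z) * Ring.inverse (1 - z))) * h4 +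
      ((1 + z) * σ (Ring.inverse (1 - z))) * h1 + h3
  rw [← Nat.card_prod]
  symm
  refine Nat.card_congr (Equiv.ofBijective (fun x : {c : F // c ^ 2 = 1} × {z : C // σ z = -z} =>
    (⟨algebraMap F C x.1.1 * ((1 + x.2.1) * Ring.inverse (1 - x.2.1)), hf _ _ x.1.2 x.2.2⟩ : {a : C // σ a * a = 1})) ⟨?_, ?_⟩)
  · rintro ⟨⟨c, hc⟩, z, hz⟩ ⟨⟨c', hc'⟩, z', hz'⟩ h
    have h3 : algebraMap F C c * ((1 + z) * Ring.inverse (1 - z)) = algebraMap F C c' * ((1 + z') * Ring.inverse (1 - z')) := congrArg Subtype.val h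
    have h4 := Ring.mul_inverse_cancel _ (hu z hz)
    have h5 := Ring.mul_inverse_cancel _ (hu z' hz')
    have h6 : algebraMap F C c * (1 + z) * (1 - z') = algebraMap F C c' * (1 + z') * (1 - z) := by
      linear_combination (1 - z) * (1 - z') * h3 - algebraMap F C c * (1 + z) * (1 - z') * h4 + algebraMap F C c' * (1 + z') * (1 - z) * h5
    obtain ⟨w, hw⟩ := skew_const h2 hσF hy h0 H1 hz
    obtain ⟨w', hw'⟩ := skew_const h2 hσF hy h0 H1 hz'
    have h7 : c = c' := by
      refine const_uniq h0 (x := algebraMap F C c * (w - w' - w * (y * w'))) (x' := algebraMap F C c' * (w' - w - w' * (y * w))) ?_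
      rw [hw, hw'] at h6
      linear_combination h6
    subst h7
    have hc0 : algebraMap F C c ^ 2 = 1 := by rw [← _root_.map_pow, hc, _root_.map_one]
    have h8 : algebraMap F C 2 * z = algebraMap F C 2 * z' := by
      rw [map_ofNat]
      linear_combination algebraMap F C c * h6 - ((1 + z) * (1 - z') - (1 + z') * (1 - z)) * hc0
    have h9 : z = z' := by
      have := congrArg (fun x => algebraMap F C 2⁻¹ * x) h8
      simp only [← mul_assoc, ← _root_.map_mul, inv_mul_cancel₀ h2, _root_.map_one, one_mul] at this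
      exact this
    subst h9
    rfl
  · rintro ⟨a, ha⟩
    obtain ⟨c, a', hc⟩ := dec H1 a
    have hc2 : c ^ 2 = 1 := (sq_const hσF hy h0 hc (by rw [ha, _root_.map_one])).symm
    have hc0 : algebraMap F C c ^ 2 = 1 := by rw [← _root_.map_pow, hc2, _root_.map_one]
    obtain ⟨b, hb⟩ : ∃ b, b = algebraMap F C c * a := ⟨_, rfl⟩
    have hb1 : b = 1 + y * (algebraMap F C c * a') := by
      rw [hb, hc]
      linear_combination hc0
    have hbσ : σ b * b = 1 := by
      rw [hb, _root_.map_mul, hσF]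
      linear_combination algebraMap F C c ^ 2 * ha + hc0
    have hu1 : IsUnit (b + 1) := by
      have := unit_of_const (F := F) h0 h2 (algebraMap F C c * a')
      rw [map_ofNat] at this
      rwa [hb1, show 1 + y * (algebraMap F C c * a') + 1 = 2 + y * (algebraMap F C c * a') by ring]
    have hv := Ring.mul_inverse_cancel _ hu1
    obtain ⟨v, hv'⟩ : ∃ v, v = Ring.inverse (b + 1) := ⟨_, rfl⟩
    rw [← hv'] at hv
    have hvσ := congrArg σ hv
    rw [_root_.map_mul, _root_.map_add, _root_.map_one] at hvσ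
    have hz : σ ((b - 1) * v) = -((b - 1) * v) := by
      rw [_root_.map_mul, _root_.map_sub, _root_.map_one]
      linear_combination (-((σ b - 1) * σ v + (b - 1) * v) + σ v * v * (σ b + 1) * (b - 1)) * hv +
        (-((σ b - 1) * σ v + (b - 1) * v) * ((b + 1) * v) + σ v * v * (b + 1) * (σ b - 1)) * hvσ + (2 * σ v * v) * hbσ
    refine ⟨(⟨c, hc2⟩, ⟨(b - 1) * v, hz⟩), ?_⟩
    apply Subtype.ext
    change algebraMap F C c * ((1 + (b - 1) * v) * Ring.inverse (1 - (b - 1) * v)) = a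
    have h5 := Ring.mul_inverse_cancel _ (hu _ hz)
    obtain ⟨w, hw⟩ : ∃ w, w = Ring.inverse (1 - (b - 1) * v) := ⟨_, rfl⟩
    rw [← hw] at h5 ⊢
    have h6 : (1 + (b - 1) * v) * w = b := by
      linear_combination b * h5 + (1 + b) * w * hv - 2 * w * hv
    rw [h6, hb]
    linear_combination a * hc0

theorem sum_even_odd {M : Type*} [AddCommMonoid M] (m : ℕ) (f : ℕ → M) :
    ∑ i : Fin (2 * m), f i = ∑ i : Fin m, (f (2 * i) + f (2 * i + 1)) := by
  rw [Fin.sum_univ_eq_sum_range, Fin.sum_univ_eq_sum_range (fun i => f (2 * i) + f (2 * i + 1))]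
  induction m with
  | zero => rfl
  | succ m ih => rw [Finset.sum_range_succ _ m, ← ih, show 2 * (m + 1) = 2 * m + 1 + 1 by ring, Finset.sum_range_succ, Finset.sum_range_succ, add_assoc]

/-- the skew elements. -/
theorem card_skew [Fintype F] (h2 : (2 : F) ≠ 0) (hσF : ∀ c : F, σ (algebraMap F C c) = algebraMap F C c) (hy : σ y = -y) {m : ℕ}
    (H1 : ∀ x : C, ∃ a : Fin (2 * m) → F, x = ∑ i, a i • y ^ (i : ℕ))
    (H2 : ∀ a : Fin (2 * m) → F, ∑ i, a i • y ^ (i : ℕ) = 0 → a = 0) :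
    Nat.card {z : C // σ z = -z} = Fintype.card F ^ m := by
  obtain ⟨g, hg⟩ : ∃ g : (Fin m → F) → C, ∀ b, g b = ∑ i, b i • y ^ (2 * (i : ℕ) + 1) := ⟨fun b => _, fun b => rfl⟩
  have hext : ∀ a : Fin (2 * m) → F, ∃ a' : ℕ → F, ∀ i : Fin (2 * m), a' i = a i := fun a =>
    ⟨fun k => if h : k < 2 * m then a ⟨k, h⟩ else 0, fun i => by simp only [i.2, dif_pos, Fin.eta]⟩
  have H2' : ∀ a : ℕ → F, ∑ i : Fin (2 * m), a i • y ^ (i : ℕ) = 0 → ∀ i, i < 2 * m → a i = 0 := by
    intro a ha i hi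
    have := H2 (fun i => a i) ha
    exact congrFun this ⟨i, hi⟩
  have hgσ : ∀ b, σ (g b) = - g b := by
    intro b
    rw [hg, map_sum, ← Finset.sum_neg_distrib]
    refine Finset.sum_congr rfl fun i _ => ?_
    rw [Algebra.smul_def, _root_.map_mul, hσF, _root_.map_pow, hy, Odd.neg_pow ⟨i, rfl⟩]
    ring
  rw [← Fintype.card_fin m, ← Fintype.card_fun, ← Nat.card_eq_fintype_card]
  symm
  refine Nat.card_congr (Equiv.ofBijective (fun b => ⟨g b, hgσ b⟩) ⟨?_, ?_⟩)
  · intro b b' h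
    have h1 : g b = g b' := congrArg Subtype.val h
    obtain ⟨a, ha, ha'⟩ : ∃ a : ℕ → F, (∀ i : Fin m, a (2 * i) = 0) ∧ ∀ i : Fin m, a (2 * i + 1) = b i - b' i := by
      refine ⟨fun k => if h : k / 2 < m then (if k % 2 = 1 then b ⟨k / 2, h⟩ - b' ⟨k / 2, h⟩ else 0) else 0, ?_, ?_⟩
      · intro i
        simp
      · intro i
        have e1 : (2 * (i : ℕ) + 1) / 2 = i := by omega
        have e2 : (2 * (i : ℕ) + 1) % 2 = 1 := by omega
        simp only [e1, e2, i.2, dif_pos, Fin.eta, if_true]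
    have h2 : ∑ i : Fin (2 * m), a i • y ^ (i : ℕ) = 0 := by
      rw [sum_even_odd m (fun i => a i • y ^ i)]
      have : ∀ i : Fin m, (a (2 * i) • y ^ (2 * (i : ℕ)) + a (2 * i + 1) • y ^ (2 * (i : ℕ) + 1)) = b i • y ^ (2 * (i : ℕ) + 1) - b' i • y ^ (2 * (i : ℕ) + 1) := by
        intro i
        rw [ha, ha', zero_smul, zero_add, sub_smul]
      rw [Finset.sum_congr rfl fun i _ => this i, Finset.sum_sub_distrib, ← hg, ← hg, h1, sub_self]
    funext i
    have h3 := H2' a h2 (2 * i + 1) (by have := i.2; omega)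
    rw [ha'] at h3
    exact sub_eq_zero.mp h3
  · rintro ⟨z, hz⟩
    obtain ⟨a₀, ha₀⟩ := H1 z
    obtain ⟨a, ha⟩ := hext a₀
    have hz1 : z = ∑ i : Fin (2 * m), a i • y ^ (i : ℕ) := by
      rw [ha₀]
      exact Finset.sum_congr rfl fun i _ => by rw [ha]
    have hz2 : z = ∑ i : Fin m, (a (2 * i) • y ^ (2 * (i : ℕ)) + a (2 * i + 1) • y ^ (2 * (i : ℕ) + 1)) := by
      rw [hz1, sum_even_odd m (fun i => a i • y ^ i)]
    have hz3 : σ z = ∑ i : Fin m, (a (2 * i) • y ^ (2 * (i : ℕ)) - a (2 * i + 1) • y ^ (2 * (i : ℕ) + 1)) := by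
      conv_lhs => rw [hz2]
      rw [map_sum]
      refine Finset.sum_congr rfl fun i _ => ?_
      rw [_root_.map_add, Algebra.smul_def, Algebra.smul_def, _root_.map_mul, _root_.map_mul, hσF, hσF, _root_.map_pow, _root_.map_pow, hy,
        Odd.neg_pow ⟨i, rfl⟩, Even.neg_pow ⟨i, by ring⟩]
      ring
    have h5 : ∑ i : Fin (2 * m), (fun k => if k % 2 = 0 then a k else 0 : ℕ → F) i • y ^ (i : ℕ) = 0 := by
      rw [sum_even_odd m (fun i => (fun k => if k % 2 = 0 then a k else 0 : ℕ → F) i • y ^ i)]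
      have e1 : ∀ i : Fin m, (fun k => if k % 2 = 0 then a k else 0 : ℕ → F) (2 * i) • y ^ (2 * (i : ℕ)) +
          (fun k => if k % 2 = 0 then a k else 0 : ℕ → F) (2 * i + 1) • y ^ (2 * (i : ℕ) + 1) = a (2 * i) • y ^ (2 * (i : ℕ)) := by
        intro i
        have e1 : (2 * (i : ℕ)) % 2 = 0 := by omega
        have e2 : (2 * (i : ℕ) + 1) % 2 = 1 := by omega
        simp only [e1, e2, if_true, one_ne_zero, if_false, zero_smul, add_zero]
      rw [Finset.sum_congr rfl fun i _ => e1 i]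
      have e2 : (2 : F) • ∑ i : Fin m, a (2 * i) • y ^ (2 * (i : ℕ)) = 0 := by
        have e3 : σ z + z = 0 := by rw [hz]; ring
        rw [hz3] at e3
        conv_lhs at e3 => rw [hz2]
        rw [← Finset.sum_add_distrib] at e3
        rw [Finset.smul_sum, ← e3]
        refine Finset.sum_congr rfl fun i _ => ?_
        rw [two_smul]
        ring
      exact (smul_eq_zero.mp e2).resolve_left h2
    refine ⟨fun i => a (2 * i + 1), ?_⟩
    apply Subtype.ext
    change g _ = z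
    rw [hg, hz2]
    refine Finset.sum_congr rfl fun i _ => ?_
    have h6 := H2' (fun k => if k % 2 = 0 then a k else 0) h5 (2 * i) (by have := i.2; omega)
    have e1 : (2 * (i : ℕ)) % 2 = 0 := by omega
    simp only [e1, if_true] at h6
    rw [h6, zero_smul, zero_add]

end Cfsg.Agent.H16.RU
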