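import Cfsg.Agent.H16_RU1
import Cfsg.Agent.H16_RU2

set_option autoImplicit false

/-! Regular unipotent elements of the symplectic group. -/

namespace Cfsg.Agent.H16.RU

open Matrix

variable {F : Type*} [Field F] {m : ℕ}

/-- the adjoint. -/
def sj (M : Matrix (Fin m ⊕ Fin m) (Fin m ⊕ Fin m) F) : Matrix (Fin m ⊕ Fin m) (Fin m ⊕ Fin m) F :=
  -(Matrix.J (Fin m) F * Mᵀ * Matrix.J (Fin m) F)

theorem sj_add (a b : Matrix (Fin m ⊕ Fin m) (Fin m ⊕ Fin m) F) : sj (a + b) = sj a + sj b := by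
  rw [sj, sj, sj, Matrix.transpose_add, mul_add, add_mul, neg_add]

theorem sj_mul (a b : Matrix (Fin m ⊕ Fin m) (Fin m ⊕ Fin m) F) : sj (a * b) = sj b * sj a := by
  rw [sj, sj, sj, Matrix.transpose_mul, neg_mul_neg]
  have h : Matrix.J (Fin m) F * Matrix.J (Fin m) F = -1 := Matrix.J_squared _ _
  calc _ = -(Matrix.J (Fin m) F * bᵀ * 1 * aᵀ * Matrix.J (Fin m) F) := by simp only [mul_assoc, one_mul]
    _ = Matrix.J (Fin m) F * bᵀ * (Matrix.J (Fin m) F * Matrix.J (Fin m) F) * aᵀ * Matrix.J (Fin m) F := by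
        rw [h]; simp only [mul_assoc, mul_neg, neg_mul, one_mul]
    _ = _ := by simp only [mul_assoc]

theorem sj_sj (a : Matrix (Fin m ⊕ Fin m) (Fin m ⊕ Fin m) F) : sj (sj a) = a := by
  have h : Matrix.J (Fin m) F * Matrix.J (Fin m) F = -1 := Matrix.J_squared _ _
  rw [sj, sj, Matrix.transpose_neg, Matrix.transpose_mul, Matrix.transpose_mul, Matrix.transpose_transpose, Matrix.J_transpose]
  calc _ = (Matrix.J (Fin m) F * Matrix.J (Fin m) F) * a * (Matrix.J (Fin m) F * Matrix.J (Fin m) F) := by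
        simp only [mul_assoc, mul_neg, neg_mul, neg_neg]
    _ = a := by rw [h]; simp only [neg_mul, mul_neg, one_mul, mul_one, neg_neg]

theorem sj_smul (c : F) (a : Matrix (Fin m ⊕ Fin m) (Fin m ⊕ Fin m) F) : sj (c • a) = c • sj a := by
  rw [sj, sj, Matrix.transpose_smul, Matrix.mul_smul, Matrix.smul_mul, smul_neg]

theorem sj_one : sj (1 : Matrix (Fin m ⊕ Fin m) (Fin m ⊕ Fin m) F) = 1 := by
  rw [sj, Matrix.transpose_one, mul_one, Matrix.J_squared, neg_neg]

theorem sj_neg (a : Matrix (Fin m ⊕ Fin m) (Fin m ⊕ Fin m) F) : sj (-a) = -sj a := by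
  rw [← neg_one_smul F a, sj_smul, neg_one_smul]

theorem sj_zero : sj (0 : Matrix (Fin m ⊕ Fin m) (Fin m ⊕ Fin m) F) = 0 := by
  rw [sj, Matrix.transpose_zero, mul_zero, zero_mul, neg_zero]

theorem sj_sub (a b : Matrix (Fin m ⊕ Fin m) (Fin m ⊕ Fin m) F) : sj (a - b) = sj a - sj b := by
  rw [sub_eq_add_neg, sj_add, sj_neg, sub_eq_add_neg]

theorem mem_sp_iff {A : Matrix (Fin m ⊕ Fin m) (Fin m ⊕ Fin m) F} : A ∈ Matrix.symplecticGroup (Fin m) F ↔ sj A * A = 1 := by
  rw [SymplecticGroup.mem_iff']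
  have h : Matrix.J (Fin m) F * Matrix.J (Fin m) F = -1 := Matrix.J_squared _ _
  constructor
  · intro h1
    rw [sj]
    calc _ = -(Matrix.J (Fin m) F * (Aᵀ * Matrix.J (Fin m) F * A)) := by simp only [mul_assoc, neg_mul]
      _ = 1 := by rw [h1, h, neg_neg]
  · intro h1
    have h2 : Aᵀ * Matrix.J (Fin m) F * A = Matrix.J (Fin m) F * (sj A * A) := by
      rw [sj]
      calc _ = -((Matrix.J (Fin m) F * Matrix.J (Fin m) F) * (Aᵀ * Matrix.J (Fin m) F * A)) := by rw [h, neg_one_mul, neg_neg]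
        _ = _ := by simp only [mul_assoc, neg_mul, mul_neg]
    rw [h2, h1, mul_one]

theorem unit_add_two (h2 : (2 : F) ≠ 0) {R : Type*} [Ring R] [Algebra F R] {N : R} (hN : IsNilpotent N) : IsUnit (N + 2) := by
  refine hN.isUnit_add_right_of_commute ?_ ?_
  · have := (isUnit_iff_ne_zero.mpr h2).map (algebraMap F R)
    rwa [map_ofNat] at this
  · exact (Commute.ofNat_right N 2)

/-- the data attached to a regular unipotent element. -/
theorem exists_y (h2 : (2 : F) ≠ 0) {n : ℕ} (hm : 2 * m = n + 1) {u : Matrix (Fin m ⊕ Fin m) (Fin m ⊕ Fin m) F} (hu : sj u * u = 1)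
    (hnil : (u - 1) ^ (2 * m) = 0) (hreg : (u - 1).rank = 2 * m - 1) :
    ∃ y, sj y = -y ∧ y ^ (n + 1) = 0 ∧ y ^ n ≠ 0 ∧ (∀ x, Commute x y ↔ Commute x u) := by
  have hu' : u * sj u = 1 := mul_eq_one_comm.mp hu
  obtain ⟨N, hN⟩ : ∃ N, N = u - 1 := ⟨_, rfl⟩
  rw [← hN] at hnil hreg
  have huN : u = N + 1 := by rw [hN, sub_add_cancel]
  have hcj : ∀ x, Commute x u → Commute x (sj u) := by
    intro x hx
    rw [commute_iff_eq] at hx ⊢
    calc x * sj u = sj u * u * (x * sj u) := by rw [hu, one_mul]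
      _ = sj u * (u * x) * sj u := by simp only [mul_assoc]
      _ = sj u * x * (u * sj u) := by rw [← hx]; simp only [mul_assoc]
      _ = sj u * x := by rw [hu', mul_one]
  have hy : u - sj u = N * ((u + 1) * sj u) := by
    rw [hN, ← mul_assoc]
    calc u - sj u = u * (u * sj u) - sj u := by rw [hu', mul_one]
      _ = _ := by noncomm_ring
  have hNu : Commute N u := by rw [huN]; exact (Commute.refl N).add_right (Commute.one_right N)
  have hNW : Commute N ((u + 1) * sj u) := (hNu.add_right (Commute.one_right N)).mul_right (hcj N hNu)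
  have hpow : ∀ k, (u - sj u) ^ k = N ^ k * ((u + 1) * sj u) ^ k := fun k => by rw [hy, hNW.mul_pow]
  have hWu : IsUnit ((u + 1) * sj u) := by
    refine IsUnit.mul ?_ ⟨⟨sj u, u, hu, hu'⟩, rfl⟩
    rw [huN, add_assoc, one_add_one_eq_two]
    exact unit_add_two h2 ⟨2 * m, hnil⟩
  have hNn : N ^ n ≠ 0 := mat_pow_ne (by rw [Fintype.card_sum, Fintype.card_fin]; omega) (by rw [hreg]; omega)
  have h0 : (u - sj u) ^ (n + 1) = 0 := by rw [hpow, ← hm, hnil, zero_mul]
  have h1 : (u - sj u) ^ n ≠ 0 := by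
    rw [hpow]
    intro h
    obtain ⟨W, hW⟩ := hWu.pow n
    rw [← hW] at h
    apply hNn
    have := congrArg (· * (↑W⁻¹ : Matrix (Fin m ⊕ Fin m) (Fin m ⊕ Fin m) F)) h
    simpa only [mul_assoc, Units.mul_inv, mul_one, zero_mul] using this
  refine ⟨u - sj u, by rw [sj_sub, sj_sj, neg_sub], h0, h1, ?_⟩
  intro x
  constructor
  · intro hx
    obtain ⟨a, ha⟩ := mat_commutant (Y := u - sj u) (n := n) (by rw [Fintype.card_sum, Fintype.card_fin]; omega) h0 h1 (S := u)
      ((Commute.refl u).sub_right (hcj u (Commute.refl u)))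
    rw [ha]
    exact Commute.sum_right _ _ _ fun i _ => (hx.pow_right _).smul_right _
  · intro hx
    exact hx.sub_right (hcj x hx)

end Cfsg.Agent.H16.RU
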