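import Cfsg.Agent.H16_JT1
import Cfsg.Agent.H16_CjS
import Cfsg.Agent.H16_RU3

set_option autoImplicit false

/-! Parity of the ranks of powers for unipotent isometries. -/

namespace Cfsg.Agent.H16.JT

open Matrix Module Cfsg.Agent.H5

universe u

variable {F : Type*} [Field F]

theorem alt_nd_even {V : Type*} [AddCommGroup V] [Module F V] [FiniteDimensional F V] {B : LinearMap.BilinForm F V} (ha : B.IsAlt)
    (hn : CjS.Nd B) : Even (finrank F V) := by
  obtain ⟨m, a, ha', hd⟩ := Frm.exists_wittDec (t := (0 : F →+ F)) 0 (fun {V} _ _ _ A hn h0 => by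
    have : Nontrivial V := Module.nontrivial_of_finrank_pos (R := F) h0
    obtain ⟨v, hv⟩ := exists_ne (0 : V)
    refine ⟨v, hv, ?_⟩
    obtain ⟨s, hs⟩ := A.Q_t v
    exact hs.symm) (finrank F V) (Frm.ofAlt B ha) hn rfl
  have h3 := Frm.WittDec.finrank_eq m a _ hd
  exact ⟨m, by omega⟩

variable {ι : Type*} [Fintype ι] [DecidableEq ι]

theorem skew_of_alt {M : Matrix ι ι F} (h : ∀ x, x ⬝ᵥ (M *ᵥ x) = 0) (x y : ι → F) : x ⬝ᵥ (M *ᵥ y) = - (y ⬝ᵥ (M *ᵥ x)) := by
  have h1 := h (x + y)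
  rw [Matrix.mulVec_add, add_dotProduct, dotProduct_add, dotProduct_add, h, h] at h1
  linear_combination h1

theorem alt_even_rank {M : Matrix ι ι F} (h : ∀ x, x ⬝ᵥ (M *ᵥ x) = 0) : Even M.rank := by
  obtain ⟨T, hT⟩ : ∃ T : End F (ι → F), T = Matrix.toLin' M := ⟨_, rfl⟩
  have hr : M.rank = finrank F (LinearMap.range T) := by rw [hT]; rfl
  obtain ⟨W, hW⟩ := Submodule.exists_isCompl (LinearMap.ker T)
  have h1 := LinearMap.finrank_range_add_finrank_ker T
  have h2 := Submodule.finrank_add_eq_of_isCompl hW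
  have h3 : M.rank = finrank F W := by omega
  rw [h3]
  obtain ⟨B, hB⟩ : ∃ B : LinearMap.BilinForm F (ι → F), ∀ x y, B x y = x ⬝ᵥ (M *ᵥ y) := ⟨Matrix.toBilin' M, fun x y => Matrix.toBilin'_apply' _ _ _⟩
  refine alt_nd_even (B := B.restrict W) (fun x => by
    change B x.1 x.1 = 0
    rw [hB]; exact h _) ?_
  intro w hw
  have h4 : ∀ y, y ⬝ᵥ (M *ᵥ w.1) = 0 := by
    intro y
    have hy : y ∈ LinearMap.ker T ⊔ W := by rw [hW.sup_eq_top]; trivial
    obtain ⟨k, hk, z, hz, rfl⟩ := Submodule.mem_sup.mp hy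
    have e1 : w.1 ⬝ᵥ (M *ᵥ z) = 0 := by rw [← hB]; exact hw ⟨z, hz⟩
    have e2 : M *ᵥ k = 0 := by
      rw [LinearMap.mem_ker, hT, Matrix.toLin'_apply] at hk
      exact hk
    rw [skew_of_alt h, Matrix.mulVec_add, dotProduct_add, e1, e2, dotProduct_zero, add_zero, neg_zero]
  have h5 : M *ᵥ w.1 = 0 := by
    funext i
    have := h4 (Pi.single i 1)
    rwa [single_one_dotProduct] at this
  have h6 : w.1 ∈ LinearMap.ker T := by
    rw [LinearMap.mem_ker, hT, Matrix.toLin'_apply, h5]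
  apply Subtype.ext
  exact Submodule.disjoint_def.mp hW.disjoint w.1 h6 w.2

section

variable {G G' A : Matrix ι ι F}

theorem adj (hG : G' * G = 1) (hA : Aᵀ * G * A = G) : ∃ A' : Matrix ι ι F, A' * A = 1 ∧ A * A' = 1 ∧ Aᵀ * G = G * A' ∧ A'ᵀ * G = G * A := by
  have hG2 : G * G' = 1 := mul_eq_one_comm.mp hG
  have h1 : (G' * Aᵀ * G) * A = 1 := by
    rw [mul_assoc, mul_assoc, ← mul_assoc Aᵀ, hA, hG]
  have h2 := mul_eq_one_comm.mp h1
  refine ⟨G' * Aᵀ * G, h1, h2, ?_, ?_⟩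
  · rw [← mul_assoc, ← mul_assoc, hG2, one_mul]
  · obtain ⟨A', hA'⟩ : ∃ A', A' = G' * Aᵀ * G := ⟨_, rfl⟩
    rw [← hA'] at h2 ⊢
    have h3 : A'ᵀ * Aᵀ = 1 := by rw [← Matrix.transpose_mul, h2, Matrix.transpose_one]
    calc A'ᵀ * G = A'ᵀ * (Aᵀ * G * A) := by rw [hA]
      _ = (A'ᵀ * Aᵀ) * (G * A) := by simp only [mul_assoc]
      _ = _ := by rw [h3, one_mul]

theorem key (hG : G' * G = 1) (hA : Aᵀ * G * A = G) {A' : Matrix ι ι F} (h1 : A' * A = 1) (h3 : Aᵀ * G = G * A') (i : ℕ) :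
    ((A - 1) ^ i)ᵀ * G = G * ((-A') ^ i * (A - 1) ^ i) := by
  have h2 := mul_eq_one_comm.mp h1
  have hc : Commute (-A') (A - 1) := by
    rw [commute_iff_eq, mul_sub, sub_mul, neg_mul, mul_neg, h1, h2, mul_one, one_mul]
  have e1 : (A - 1)ᵀ * G = G * (-A' * (A - 1)) := by
    rw [Matrix.transpose_sub, Matrix.transpose_one, sub_mul, h3, one_mul, mul_sub, neg_mul, h1, mul_one, mul_sub, mul_neg, mul_neg, mul_one]
    abel
  induction i with
  | zero => rw [pow_zero, pow_zero, Matrix.transpose_one, one_mul, mul_one, mul_one]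
  | succ i ih =>
    rw [pow_succ', Matrix.transpose_mul, mul_assoc, e1, ← mul_assoc, ih, mul_assoc]
    congr 1
    rw [pow_succ, ← pow_succ' (A - 1) i, pow_succ (A - 1) i]
    have hc' : Commute (-A') ((A - 1) ^ i) := hc.pow_right i
    calc (-A') ^ i * (A - 1) ^ i * (-A' * (A - 1)) = (-A') ^ i * ((A - 1) ^ i * -A') * (A - 1) := by simp only [mul_assoc]
      _ = (-A') ^ i * (-A' * (A - 1) ^ i) * (A - 1) := by rw [hc'.eq]
      _ = _ := by simp only [mul_assoc]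

theorem par_alt (hG : G' * G = 1) (ha : ∀ x, x ⬝ᵥ (G *ᵥ x) = 0) (hA : Aᵀ * G * A = G) (i : ℕ) : Even ((A - 1) ^ (2 * i)).rank := by
  obtain ⟨A', h1, h2, h3, h4⟩ := adj hG hA
  have hG2 : G * G' = 1 := mul_eq_one_comm.mp hG
  have h5 : ((A - 1) ^ i)ᵀ * G * (A - 1) ^ i = (G * (-A') ^ i) * (A - 1) ^ (2 * i) := by
    rw [key hG hA h1 h3, two_mul, pow_add]
    simp only [mul_assoc]
  have h6 : Even (((A - 1) ^ i)ᵀ * G * (A - 1) ^ i).rank := by
    apply alt_even_rank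
    intro x
    rw [← Matrix.mulVec_mulVec, ← Matrix.mulVec_mulVec, Matrix.dotProduct_mulVec, Matrix.vecMul_transpose]
    exact ha _
  rw [h5, Matrix.rank_mul_eq_right_of_isUnit_det] at h6
  · exact h6
  · rw [Matrix.det_mul, Matrix.det_pow]
    refine IsUnit.mul ?_ (IsUnit.pow _ ?_)
    · exact Matrix.isUnit_det_of_left_inverse hG
    · refine Matrix.isUnit_det_of_left_inverse (B := -A) ?_
      rw [neg_mul_neg, h2]

theorem par_sym (h2 : (2 : F) ≠ 0) (hG : G' * G = 1) (hs : Gᵀ = G) (hA : Aᵀ * G * A = G) (hn : IsNilpotent (A - 1)) (i : ℕ) :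
    Even ((A - 1) ^ (2 * i + 1)).rank := by
  obtain ⟨A', h1, h1', h3, h4⟩ := adj hG hA
  have hG2 : G * G' = 1 := mul_eq_one_comm.mp hG
  have h5 : ((A - 1) ^ i)ᵀ * (G * (A - A')) * (A - 1) ^ i = (G * (-A') ^ i * (A' * (A + 1))) * (A - 1) ^ (2 * i + 1) := by
    have e1 : A - A' = (A' * (A + 1)) * (A - 1) := by
      have : (A' * (A + 1)) * (A - 1) = (A' * A) * A - A' := by noncomm_ring
      rw [this, h1, one_mul]
    have hc : Commute ((A - 1) ^ i) (A' * (A + 1)) := by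
      apply Commute.pow_left
      have e2 : Commute (A - 1) A' := by
        rw [commute_iff_eq, mul_sub, sub_mul, h1, h1', mul_one, one_mul]
      have e3 : Commute (A - 1) (A + 1) := by
        rw [commute_iff_eq]; noncomm_ring
      exact e2.mul_right e3
    calc ((A - 1) ^ i)ᵀ * (G * (A - A')) * (A - 1) ^ i = (((A - 1) ^ i)ᵀ * G) * ((A - A') * (A - 1) ^ i) := by simp only [mul_assoc]
      _ = G * (-A') ^ i * ((A - 1) ^ i * (A' * (A + 1))) * (A - 1) * (A - 1) ^ i := by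
          rw [key hG hA h1 h3, e1]; simp only [mul_assoc]
      _ = _ := by
          rw [hc.eq, show 2 * i + 1 = i + 1 + i by ring, pow_add, pow_add, pow_one]; simp only [mul_assoc]
  have h6 : Even (((A - 1) ^ i)ᵀ * (G * (A - A')) * (A - 1) ^ i).rank := by
    apply alt_even_rank
    intro x
    rw [← Matrix.mulVec_mulVec, ← Matrix.mulVec_mulVec, Matrix.dotProduct_mulVec, Matrix.vecMul_transpose]
    obtain ⟨w, hw⟩ : ∃ w, w = (A - 1) ^ i *ᵥ x := ⟨_, rfl⟩
    rw [← hw]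
    have e1 : (G * (A - A'))ᵀ = -(G * (A - A')) := by
      rw [Matrix.transpose_mul, hs, Matrix.transpose_sub, sub_mul, h3, h4, mul_sub]
      abel
    have e2 : w ⬝ᵥ (G * (A - A')) *ᵥ w = - (w ⬝ᵥ (G * (A - A')) *ᵥ w) := by
      conv_lhs => rw [Matrix.dotProduct_mulVec, ← Matrix.mulVec_transpose, e1, dotProduct_comm, Matrix.neg_mulVec, dotProduct_neg]
    have e3 : (2 : F) * (w ⬝ᵥ (G * (A - A')) *ᵥ w) = 0 := by linear_combination e2
    exact (mul_eq_zero.mp e3).resolve_left h2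
  rw [h5, Matrix.rank_mul_eq_right_of_isUnit_det] at h6
  · exact h6
  · rw [Matrix.det_mul, Matrix.det_mul, Matrix.det_pow, Matrix.det_mul]
    refine IsUnit.mul (IsUnit.mul ?_ (IsUnit.pow _ ?_)) (IsUnit.mul ?_ ?_)
    · exact Matrix.isUnit_det_of_left_inverse hG
    · refine Matrix.isUnit_det_of_left_inverse (B := -A) ?_
      rw [neg_mul_neg, h1']
    · exact Matrix.isUnit_det_of_left_inverse h1'
    · rw [← Matrix.isUnit_iff_isUnit_det]
      have := RU.unit_add_two h2 hn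
      rwa [show A - 1 + 2 = A + 1 by rw [← one_add_one_eq_two]; abel] at this

end

end Cfsg.Agent.H16.JT
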