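import Cfsg.Agent.H16_RU4

set_option autoImplicit false

/-! Regular unipotent elements of the symplectic group: conjugacy. -/

namespace Cfsg.Agent.H16.RU

open Matrix Module

section lin

variable {F : Type*} [Field F] {ι κ : Type*} [Fintype ι] [DecidableEq ι] [Fintype κ] [DecidableEq κ]

theorem lin_conj {V W : Type*} [AddCommGroup V] [Module F V] [FiniteDimensional F V] [AddCommGroup W] [Module F W] [FiniteDimensional F W]
    {T : End F V} {S : End F W} {n : ℕ} (hV : finrank F V = n + 1) (hW : finrank F W = n + 1) (hT0 : T ^ (n + 1) = 0) (hT1 : T ^ n ≠ 0)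
    (hS0 : S ^ (n + 1) = 0) (hS1 : S ^ n ≠ 0) : ∃ e : V ≃ₗ[F] W, ∀ x, e (T x) = S (e x) := by
  obtain ⟨v, hv⟩ : ∃ w, (T ^ n) w ≠ 0 := by
    by_contra hcon
    push Not at hcon
    exact hT1 (LinearMap.ext hcon)
  obtain ⟨w, hw⟩ : ∃ w, (S ^ n) w ≠ 0 := by
    by_contra hcon
    push Not at hcon
    exact hS1 (LinearMap.ext hcon)
  let b := basisOfLinearIndependentOfCardEqFinrank (lin_indep hT0 hv) (by rw [Fintype.card_fin, hV])
  let c := basisOfLinearIndependentOfCardEqFinrank (lin_indep hS0 hw) (by rw [Fintype.card_fin, hW])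
  have hb : ∀ i, b i = (T ^ (i : ℕ)) v := fun i => by
    rw [coe_basisOfLinearIndependentOfCardEqFinrank]
  have hc : ∀ i, c i = (S ^ (i : ℕ)) w := fun i => by
    rw [coe_basisOfLinearIndependentOfCardEqFinrank]
  let e := b.equiv c (Equiv.refl _)
  have he : ∀ k, e ((T ^ k) v) = (S ^ k) w := by
    intro k
    by_cases hk : k < n + 1
    · have h1 : e (b ⟨k, hk⟩) = c ⟨k, hk⟩ := b.equiv_apply _ _ _
      rw [hb, hc] at h1
      exact h1
    · rw [pow_eq_zero_of_le (by omega) hT0, pow_eq_zero_of_le (by omega) hS0, LinearMap.zero_apply, LinearMap.zero_apply, _root_.map_zero]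
  refine ⟨e, ?_⟩
  have h1 : (e : V →ₗ[F] W) ∘ₗ T = S ∘ₗ (e : V →ₗ[F] W) := by
    apply b.ext
    intro i
    rw [LinearMap.comp_apply, LinearMap.comp_apply, hb]
    change e (T ((T ^ (i : ℕ)) v)) = S (e ((T ^ (i : ℕ)) v))
    rw [he, ← Module.End.mul_apply, ← Module.End.mul_apply, ← pow_succ', ← pow_succ', he]
  exact fun x => congrArg (fun f : V →ₗ[F] W => f x) h1

theorem mat_conj {Y Z : Matrix ι ι F} {n : ℕ} (hn : Fintype.card ι = n + 1) (hY0 : Y ^ (n + 1) = 0) (hY1 : Y ^ n ≠ 0)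
    (hZ0 : Z ^ (n + 1) = 0) (hZ1 : Z ^ n ≠ 0) : ∃ P : GL ι F, (P : Matrix ι ι F) * Y = Z * P := by
  obtain ⟨e, he⟩ := lin_conj (F := F) (V := ι → F) (W := ι → F) (T := Matrix.toLin' Y) (S := Matrix.toLin' Z) (n := n) (by rw [finrank_pi, hn])
    (by rw [finrank_pi, hn]) (by rw [← Matrix.toLin'_pow, hY0, _root_.map_zero]) (toLin_pow_ne hY1)
    (by rw [← Matrix.toLin'_pow, hZ0, _root_.map_zero]) (toLin_pow_ne hZ1)
  obtain ⟨P, hP⟩ : ∃ P : Matrix ι ι F, ∀ x, P *ᵥ x = e x := ⟨LinearMap.toMatrix' (e : (ι → F) →ₗ[F] (ι → F)), fun x => LinearMap.toMatrix'_mulVec _ _⟩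
  obtain ⟨Q, hQ⟩ : ∃ Q : Matrix ι ι F, ∀ x, Q *ᵥ x = e.symm x := ⟨LinearMap.toMatrix' (e.symm : (ι → F) →ₗ[F] (ι → F)), fun x => LinearMap.toMatrix'_mulVec _ _⟩
  refine ⟨⟨P, Q, ?_, ?_⟩, ?_⟩
  · apply Matrix.mulVec_injective
    funext x
    rw [← Matrix.mulVec_mulVec, hP, hQ, LinearEquiv.apply_symm_apply, Matrix.one_mulVec]
  · apply Matrix.mulVec_injective
    funext x
    rw [← Matrix.mulVec_mulVec, hP, hQ, LinearEquiv.symm_apply_apply, Matrix.one_mulVec]
  · apply Matrix.mulVec_injective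
    funext x
    change (P * Y) *ᵥ x = (Z * P) *ᵥ x
    rw [← Matrix.mulVec_mulVec, ← Matrix.mulVec_mulVec, hP, hP]
    exact he x

theorem rank_of_pow {Y : Matrix ι ι F} {n : ℕ} (hn : Fintype.card ι = n + 1) (h0 : Y ^ (n + 1) = 0) (h1 : Y ^ n ≠ 0) : Y.rank = n := by
  obtain ⟨T, hT⟩ : ∃ T : End F (ι → F), T = Matrix.toLin' Y := ⟨_, rfl⟩
  have hT0 : T ^ (n + 1) = 0 := by rw [hT, ← Matrix.toLin'_pow, h0, _root_.map_zero]
  have hT1 : T ^ n ≠ 0 := by rw [hT]; exact toLin_pow_ne h1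
  obtain ⟨v, hv⟩ : ∃ w, (T ^ n) w ≠ 0 := by
    by_contra hcon
    push Not at hcon
    exact hT1 (LinearMap.ext hcon)
  have h2 := LinearMap.finrank_range_add_finrank_ker T
  rw [finrank_pi, hn] at h2
  have h3 : 1 ≤ finrank F (LinearMap.ker T) := by
    rw [Submodule.one_le_finrank_iff]
    intro h
    apply hv
    have h4 : (T ^ n) v ∈ LinearMap.ker T := by
      rw [LinearMap.mem_ker, ← Module.End.mul_apply, ← pow_succ', hT0, LinearMap.zero_apply]
    rw [h] at h4
    exact (Submodule.mem_bot F).mp h4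
  have h5 : n ≤ finrank F (LinearMap.range T) := by
    have h6 : LinearIndependent F (fun i : Fin n => (⟨(T ^ ((i : ℕ) + 1)) v, (T ^ (i : ℕ)) v, by
        rw [← Module.End.mul_apply, ← pow_succ']⟩ : LinearMap.range T)) := by
      apply LinearIndependent.of_comp (LinearMap.range T).subtype
      exact (lin_indep hT0 hv).comp (Fin.succ) (Fin.succ_injective n)
    have h7 := h6.fintype_card_le_finrank
    rwa [Fintype.card_fin] at h7
  have h8 : Y.rank = finrank F (LinearMap.range T) := by rw [hT]; rfl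
  omega

end lin

section sp

variable {F : Type*} [Field F] {m : ℕ}

/-- an explicit regular unipotent element of the symplectic group. -/
theorem exists_reg (hm : 1 ≤ m) : ∃ A : Matrix (Fin m ⊕ Fin m) (Fin m ⊕ Fin m) F, A ∈ Matrix.symplecticGroup (Fin m) F ∧
    (A - 1) ^ (2 * m) = 0 ∧ (A - 1) ^ (2 * m - 1) ≠ 0 := by
  obtain ⟨S, hS⟩ : ∃ S : Matrix (Fin m) (Fin m) F, ∀ i j, S i j = if i = Fin.rev j then 1 else 0 := ⟨Matrix.of fun i j => _, fun i j => rfl⟩
  obtain ⟨Z, hZ⟩ : ∃ Z : Matrix (Fin m) (Fin m) F, ∀ i j, Z i j = if (i : ℕ) = j + 1 then 1 else 0 := ⟨Matrix.of fun i j => _, fun i j => rfl⟩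
  have hSM : ∀ M : Matrix (Fin m) (Fin m) F, ∀ i j, (S * M) i j = M (Fin.rev i) j := by
    intro M i j
    rw [Matrix.mul_apply, Finset.sum_eq_single (Fin.rev i)]
    · rw [hS, Fin.rev_rev, if_pos rfl, one_mul]
    · intro k _ hk
      rw [hS, if_neg, zero_mul]
      rintro rfl
      exact hk (Fin.rev_rev k).symm
    · intro h
      exact absurd (Finset.mem_univ _) h
  have hMS : ∀ M : Matrix (Fin m) (Fin m) F, ∀ i j, (M * S) i j = M i (Fin.rev j) := by
    intro M i j
    rw [Matrix.mul_apply, Finset.sum_eq_single (Fin.rev j)]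
    · rw [hS, if_pos rfl, mul_one]
    · intro k _ hk
      rw [hS, if_neg hk, mul_zero]
    · intro h
      exact absurd (Finset.mem_univ _) h
  have hSS : S * S = 1 := by
    ext i j
    rw [hSM, hS, Matrix.one_apply]
    by_cases h : i = j
    · rw [if_pos (by rw [h]), if_pos h]
    · rw [if_neg (fun h' => h (Fin.rev_injective h')), if_neg h]
  have hSt : Sᵀ = S := by
    ext i j
    rw [Matrix.transpose_apply, hS, hS]
    by_cases h : j = Fin.rev i
    · rw [if_pos h, if_pos (by rw [h, Fin.rev_rev])]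
    · rw [if_neg h, if_neg (fun h' => h (by rw [h', Fin.rev_rev]))]
  have hSZ : S * Z = Zᵀ * S := by
    ext i j
    rw [hSM, hMS, hZ, Matrix.transpose_apply, hZ]
    have h1 := Fin.val_rev i
    have h2 := Fin.val_rev j
    have := i.2
    have := j.2
    by_cases h : ((Fin.rev i : Fin m) : ℕ) = j + 1
    · rw [if_pos h, if_pos (by omega)]
    · rw [if_neg h, if_neg (by omega)]
  have hZS : Z * S = S * Zᵀ := by
    calc Z * S = (S * S) * Z * S := by rw [hSS, one_mul]
      _ = S * (S * Z) * S := by simp only [mul_assoc]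
      _ = S * Zᵀ * (S * S) := by rw [hSZ]; simp only [mul_assoc]
      _ = S * Zᵀ := by rw [hSS, mul_one]
  have hZk : ∀ k : ℕ, ∀ i j, (Z ^ k) i j = if (i : ℕ) = j + k then 1 else 0 := by
    intro k
    induction k with
    | zero =>
      intro i j
      rw [pow_zero, Matrix.one_apply, add_zero]
      by_cases h : i = j
      · rw [if_pos h, if_pos (congrArg Fin.val h)]
      · rw [if_neg h, if_neg (fun h' => h (Fin.ext h'))]
    | succ k ih =>
      intro i j
      rw [pow_succ, Matrix.mul_apply]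
      by_cases hj : (j : ℕ) + 1 < m
      · rw [Finset.sum_eq_single (⟨j + 1, hj⟩ : Fin m)]
        · rw [ih, hZ, if_pos (rfl : ((⟨j + 1, hj⟩ : Fin m) : ℕ) = j + 1), mul_one]
          have e : ((⟨j + 1, hj⟩ : Fin m) : ℕ) = j + 1 := rfl
          rw [e]
          by_cases h : (i : ℕ) = j + 1 + k
          · rw [if_pos h, if_pos (by omega)]
          · rw [if_neg h, if_neg (by omega)]
        · intro l _ hl
          rw [hZ, if_neg (fun h => hl (Fin.ext h)), mul_zero]
        · intro h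
          exact absurd (Finset.mem_univ _) h
      · rw [if_neg (by have := i.2; omega)]
        apply Finset.sum_eq_zero
        intro l _
        rw [hZ, if_neg (by have := l.2; omega), mul_zero]
  have hZm : Z ^ m = 0 := by
    ext i j
    rw [hZk, if_neg (by have := i.2; omega), Matrix.zero_apply]
  have hZm' : Z ^ (m - 1) ≠ 0 := by
    intro h
    have h1 := congrFun (congrFun h ⟨m - 1, by omega⟩) ⟨0, by omega⟩
    rw [hZk, if_pos (by change m - 1 = 0 + (m - 1); omega), Matrix.zero_apply] at h1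
    exact one_ne_zero h1
  obtain ⟨A, hA⟩ : ∃ A, A = Matrix.fromBlocks 0 (-S) S (2 + Zᵀ) := ⟨_, rfl⟩
  obtain ⟨W, hW⟩ : ∃ W : Matrix (Fin m ⊕ Fin m) (Fin m ⊕ Fin m) F, W = Matrix.fromBlocks Z 0 0 Zᵀ := ⟨_, rfl⟩
  have hA1 : A - 1 = Matrix.fromBlocks (-1) (-S) S (1 + Zᵀ) := by
    rw [hA, ← Matrix.fromBlocks_one, sub_eq_add_neg, Matrix.fromBlocks_neg, Matrix.fromBlocks_add, zero_add, neg_zero, add_zero, add_zero]
    congr 1
    rw [← one_add_one_eq_two]
    abel
  have hAs : A ∈ Matrix.symplecticGroup (Fin m) F := by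
    rw [SymplecticGroup.mem_iff', hA, Matrix.J, Matrix.fromBlocks_transpose, Matrix.fromBlocks_multiply, Matrix.fromBlocks_multiply,
      Matrix.transpose_add, Matrix.transpose_transpose, Matrix.transpose_neg, hSt, Matrix.transpose_zero]
    have h2t : (2 : Matrix (Fin m) (Fin m) F)ᵀ = 2 := by
      rw [← one_add_one_eq_two, Matrix.transpose_add, Matrix.transpose_one]
    rw [h2t]
    congr 1
    · simp
    · simp [hSS]
    · simp [hSS]
    · simp only [mul_zero, mul_one, zero_add, mul_neg, neg_mul, add_zero, mul_add, add_mul, zero_mul, neg_zero]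
      rw [hZS, mul_two, two_mul]
      abel
  have hsq : (A - 1) ^ 2 = W * A := by
    rw [sq, hA1, hW, hA, Matrix.fromBlocks_multiply, Matrix.fromBlocks_multiply]
    congr 1
    · rw [neg_mul, one_mul, neg_neg, neg_mul, hSS, mul_zero, zero_mul, add_zero, add_neg_cancel]
    · rw [neg_mul, one_mul, neg_neg, neg_mul, mul_add, mul_one, zero_mul, add_zero, mul_neg, hZS]
      abel
    · rw [mul_neg, mul_one, add_mul, one_mul, hSZ.symm, zero_mul, zero_add, hSZ]
      abel
    · rw [mul_neg, hSS, zero_mul, zero_add]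
      noncomm_ring
  have hcomm : Commute W A := by
    rw [commute_iff_eq, hW, hA, Matrix.fromBlocks_multiply, Matrix.fromBlocks_multiply]
    congr 1
    · simp
    · simp [hZS]
    · simp [hSZ]
    · simp [mul_add, add_mul, mul_two, two_mul]
  have hWk : ∀ k, W ^ k = Matrix.fromBlocks (Z ^ k) 0 0 (Zᵀ ^ k) := by
    intro k
    induction k with
    | zero => rw [pow_zero, pow_zero, pow_zero, Matrix.fromBlocks_one]
    | succ k ih =>
      rw [pow_succ, ih, hW, Matrix.fromBlocks_multiply, pow_succ, pow_succ]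
      simp
  have hpow : ∀ k, (A - 1) ^ (2 * k) = W ^ k * A ^ k := fun k => by rw [pow_mul, hsq, hcomm.mul_pow]
  refine ⟨A, hAs, ?_, ?_⟩
  · rw [hpow, hWk, hZm, ← Matrix.transpose_pow, hZm, Matrix.transpose_zero, Matrix.fromBlocks_zero, zero_mul]
  · intro h
    have e : 2 * m - 1 = 2 * (m - 1) + 1 := by omega
    have hA2 : (A - 1) * A = A * (A - 1) := by rw [sub_mul, mul_sub, one_mul, mul_one]
    rw [e, pow_succ', hpow] at h
    obtain ⟨B, hB⟩ : ∃ B : Matrix (Fin m ⊕ Fin m) (Fin m ⊕ Fin m) F, A * B = 1 := by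
      exact ⟨sj A, mul_eq_one_comm.mp (mem_sp_iff.mp hAs)⟩
    have h1 : (A - 1) * W ^ (m - 1) = 0 := by
      have h2 := congrArg (· * B ^ (m - 1)) h
      simp only [zero_mul] at h2
      rw [mul_assoc, mul_assoc, ← (show Commute A B from by rw [commute_iff_eq, hB]; exact (mul_eq_one_comm.mp hB).symm).mul_pow, hB, one_pow, mul_one] at h2
      exact h2
    rw [hA1, hWk, Matrix.fromBlocks_multiply] at h1
    have h3 := congrArg Matrix.toBlocks₁₁ h1
    rw [Matrix.toBlocks_fromBlocks₁₁, mul_zero, add_zero, neg_mul, one_mul] at h3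
    apply hZm'
    have h4 : (0 : Matrix (Fin m ⊕ Fin m) (Fin m ⊕ Fin m) F).toBlocks₁₁ = 0 := rfl
    rw [h4, neg_eq_zero] at h3
    exact h3

end sp

end Cfsg.Agent.H16.RU
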