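import Cfsg.Agent.H16_JT2
import Cfsg.Agent.H16_RU5
import Cfsg.Agent.H16_Gr4

set_option autoImplicit false

/-! Invariant forms for a single Jordan block. -/

namespace Cfsg.Agent.H16.JT

open Matrix Module

variable {F : Type*} [Field F]

theorem jb_pow {n : ℕ} (i : ℕ) (x : Fin n → F) (a : Fin n) :
    ((Cfsg.jordanBlock n F - 1) ^ i *ᵥ x) a = if h : i ≤ (a : ℕ) then x ⟨a - i, by omega⟩ else 0 := by
  induction i generalizing x a with
  | zero =>
    rw [pow_zero, Matrix.one_mulVec, dif_pos (Nat.zero_le _)]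
    rfl
  | succ i ih =>
    rw [pow_succ, ← Matrix.mulVec_mulVec, ih]
    have h1 : ∀ b : Fin n, ((Cfsg.jordanBlock n F - 1) *ᵥ x) b = if h : 1 ≤ (b : ℕ) then x ⟨b - 1, by omega⟩ else 0 := by
      intro b
      rw [Matrix.sub_mulVec, Matrix.one_mulVec, Pi.sub_apply, jb_mulVec, add_sub_cancel_left]
    by_cases h : i ≤ (a : ℕ)
    · rw [dif_pos h, h1]
      by_cases h2 : i + 1 ≤ (a : ℕ)
      · rw [dif_pos (by change 1 ≤ (a : ℕ) - i; omega), dif_pos h2]
        congr 2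
      · rw [dif_neg (by change ¬ 1 ≤ (a : ℕ) - i; omega), dif_neg h2]
    · rw [dif_neg h, dif_neg (by omega)]

theorem jb_nil (n : ℕ) : (Cfsg.jordanBlock n F - 1) ^ n = 0 := by
  apply Matrix.mulVec_injective
  funext x a
  rw [jb_pow, dif_neg (by have := a.2; omega), Matrix.zero_mulVec, Pi.zero_apply]

theorem jb_ne (n : ℕ) : (Cfsg.jordanBlock (n + 1) F - 1) ^ n ≠ 0 := by
  intro h
  have h1 := jb_pow (F := F) (n := n + 1) n (fun _ => 1) ⟨n, by omega⟩
  rw [h, dif_pos (le_refl _), Matrix.zero_mulVec, Pi.zero_apply] at h1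
  exact zero_ne_one h1

/-- the inverse of the block. -/
theorem exists_jinv (n : ℕ) : ∃ K : Matrix (Fin n) (Fin n) F, K * Cfsg.jordanBlock n F = 1 ∧ Cfsg.jordanBlock n F * K = 1 := by
  have h1 : IsUnit (Cfsg.jordanBlock n F) := by
    have h2 : IsNilpotent (Cfsg.jordanBlock n F - 1) := ⟨n, jb_nil n⟩
    have := h2.isUnit_add_one
    rwa [sub_add_cancel] at this
  obtain ⟨u, hu⟩ := h1
  exact ⟨(u⁻¹).val, by rw [← hu, Units.inv_mul], by rw [← hu, Units.mul_inv]⟩

/-- any block carries an invariant pairing. -/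
theorem exists_pair (n : ℕ) : ∃ X X' : Matrix (Fin n) (Fin n) F, X' * X = 1 ∧ (Cfsg.jordanBlock n F)ᵀ * X * Cfsg.jordanBlock n F = X := by
  rcases n with _ | n
  · exact ⟨0, 0, Subsingleton.elim _ _, Subsingleton.elim _ _⟩
  obtain ⟨K, hK1, hK2⟩ := exists_jinv (F := F) (n + 1)
  obtain ⟨J, hJ⟩ : ∃ J, J = Cfsg.jordanBlock (n + 1) F := ⟨_, rfl⟩
  have hn := jb_nil (F := F) (n + 1)
  have hne := jb_ne (F := F) n
  rw [← hJ] at hK1 hK2 hn hne ⊢
  have hKJ : K - 1 = -K * (J - 1) := by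
    rw [mul_sub, neg_mul, hK1, mul_one]
    abel
  have hc : Commute (-K) (J - 1) := by
    rw [commute_iff_eq, mul_sub, sub_mul, neg_mul, mul_neg, hK1, hK2, mul_one, one_mul]
  have hp : ∀ k, (Kᵀ - 1) ^ k = ((-K) ^ k * (J - 1) ^ k)ᵀ := by
    intro k
    rw [← hc.mul_pow, ← hKJ, Matrix.transpose_pow, Matrix.transpose_sub, Matrix.transpose_one]
  obtain ⟨P, hP⟩ := RU.mat_conj (Y := J - 1) (Z := Kᵀ - 1) (n := n) (Fintype.card_fin _) hn hne (by rw [hp, hn, mul_zero, Matrix.transpose_zero]) (by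
    rw [hp]
    intro h
    rw [Matrix.transpose_eq_zero] at h
    apply hne
    have h2 := congrArg (fun z => (-J) ^ n * z) h
    simp only [mul_zero] at h2
    rw [← mul_assoc, ← (show Commute (-J) (-K) by rw [commute_iff_eq, neg_mul_neg, neg_mul_neg, hK1, hK2]).mul_pow, neg_mul_neg, hK2, one_pow, one_mul] at h2
    exact h2)
  refine ⟨P.val, (P⁻¹).val, by rw [← Units.val_mul, inv_mul_cancel, Units.val_one], ?_⟩
  have h3 : P.val * J = Kᵀ * P.val := by
    rw [mul_sub, mul_one, sub_mul, one_mul] at hP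
    exact sub_left_inj.mp hP
  rw [mul_assoc, h3, ← mul_assoc, ← Matrix.transpose_mul, hK1, Matrix.transpose_one, one_mul]

/-- even blocks carry an invariant alternating form. -/
theorem exists_alt {n : ℕ} (he : Even n) : ∃ X X' : Matrix (Fin n) (Fin n) F, X' * X = 1 ∧ (Cfsg.jordanBlock n F)ᵀ * X * Cfsg.jordanBlock n F = X ∧
    ∀ x, x ⬝ᵥ (X *ᵥ x) = 0 := by
  obtain ⟨m, hm⟩ := he
  rcases m with _ | m
  · obtain rfl : n = 0 := by omega
    exact ⟨0, 0, Subsingleton.elim _ _, Subsingleton.elim _ _, fun x => by rw [Matrix.zero_mulVec, dotProduct_zero]⟩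
  obtain ⟨A, hA, hA0, hA1⟩ := RU.exists_reg (F := F) (m := m + 1) (by omega)
  obtain ⟨k, hk⟩ : ∃ k, n = k + 1 := ⟨n - 1, by omega⟩
  subst hk
  obtain ⟨e, he⟩ := RU.lin_conj (F := F) (V := Fin (k + 1) → F) (W := Fin (m + 1) ⊕ Fin (m + 1) → F) (T := Matrix.toLin' (Cfsg.jordanBlock (k + 1) F - 1))
    (S := Matrix.toLin' (A - 1)) (n := k) (by rw [finrank_pi, Fintype.card_fin]) (by rw [finrank_pi, Fintype.card_sum, Fintype.card_fin]; omega)
    (by rw [← Matrix.toLin'_pow, jb_nil, _root_.map_zero]) (RU.toLin_pow_ne (jb_ne k))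
    (by rw [← Matrix.toLin'_pow, show k + 1 = 2 * (m + 1) by omega, hA0, _root_.map_zero]) (RU.toLin_pow_ne (by rw [show k = 2 * (m + 1) - 1 by omega]; exact hA1))
  obtain ⟨P, hP⟩ : ∃ P : Matrix (Fin (m + 1) ⊕ Fin (m + 1)) (Fin (k + 1)) F, ∀ x, P *ᵥ x = e x :=
    ⟨LinearMap.toMatrix' (e : (Fin (k + 1) → F) →ₗ[F] (Fin (m + 1) ⊕ Fin (m + 1) → F)), fun x => LinearMap.toMatrix'_mulVec _ _⟩
  obtain ⟨Q, hQ⟩ : ∃ Q : Matrix (Fin (k + 1)) (Fin (m + 1) ⊕ Fin (m + 1)) F, ∀ x, Q *ᵥ x = e.symm x :=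
    ⟨LinearMap.toMatrix' (e.symm : (Fin (m + 1) ⊕ Fin (m + 1) → F) →ₗ[F] (Fin (k + 1) → F)), fun x => LinearMap.toMatrix'_mulVec _ _⟩
  have hQP : Q * P = 1 := by
    apply Matrix.mulVec_injective
    funext x
    rw [← Matrix.mulVec_mulVec, hP, hQ, LinearEquiv.symm_apply_apply, Matrix.one_mulVec]
  have hPQ : P * Q = 1 := by
    apply Matrix.mulVec_injective
    funext x
    rw [← Matrix.mulVec_mulVec, hP, hQ, LinearEquiv.apply_symm_apply, Matrix.one_mulVec]
  have hPJ : P * Cfsg.jordanBlock (k + 1) F = A * P := by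
    have h1 : P * (Cfsg.jordanBlock (k + 1) F - 1) = (A - 1) * P := by
      apply Matrix.mulVec_injective
      funext x
      rw [← Matrix.mulVec_mulVec, ← Matrix.mulVec_mulVec, hP, hP]
      exact he x
    rw [Matrix.mul_sub, Matrix.mul_one, Matrix.sub_mul, Matrix.one_mul] at h1
    exact sub_left_inj.mp h1
  rw [SymplecticGroup.mem_iff'] at hA
  refine ⟨Pᵀ * Matrix.J (Fin (m + 1)) F * P, Q * (-Matrix.J (Fin (m + 1)) F) * Qᵀ, ?_, ?_, ?_⟩
  · have hQPt : Qᵀ * Pᵀ = 1 := by rw [← Matrix.transpose_mul, hPQ, Matrix.transpose_one]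
    calc Q * (-Matrix.J (Fin (m + 1)) F) * Qᵀ * (Pᵀ * Matrix.J (Fin (m + 1)) F * P) = Q * (-Matrix.J (Fin (m + 1)) F) * (Qᵀ * Pᵀ) * Matrix.J (Fin (m + 1)) F * P := by
          simp only [Matrix.mul_assoc]
      _ = Q * (-(Matrix.J (Fin (m + 1)) F * Matrix.J (Fin (m + 1)) F)) * P := by
          rw [hQPt, Matrix.mul_one]; simp only [Matrix.mul_assoc, Matrix.neg_mul, Matrix.mul_neg]
      _ = 1 := by rw [Matrix.J_squared, neg_neg, Matrix.mul_one, hQP]
  · calc (Cfsg.jordanBlock (k + 1) F)ᵀ * (Pᵀ * Matrix.J (Fin (m + 1)) F * P) * Cfsg.jordanBlock (k + 1) F =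
        (P * Cfsg.jordanBlock (k + 1) F)ᵀ * Matrix.J (Fin (m + 1)) F * (P * Cfsg.jordanBlock (k + 1) F) := by
          rw [Matrix.transpose_mul]; simp only [Matrix.mul_assoc]
      _ = Pᵀ * (Aᵀ * Matrix.J (Fin (m + 1)) F * A) * P := by
          rw [hPJ, Matrix.transpose_mul]; simp only [Matrix.mul_assoc]
      _ = _ := by rw [hA]
  · intro x
    rw [← Matrix.mulVec_mulVec, ← Matrix.mulVec_mulVec, Matrix.dotProduct_mulVec, Matrix.vecMul_transpose]
    change Cfsg.sympForm (m + 1) F _ _ = 0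
    rw [← H5.Conc.sympB_apply]; exact H5.Conc.sympB_alt (m + 1) F _

/-- odd blocks carry an invariant symmetric form in odd characteristic. -/
theorem exists_sym (h2 : (2 : F) ≠ 0) {n : ℕ} (ho : Odd n) : ∃ X X' : Matrix (Fin n) (Fin n) F, X' * X = 1 ∧
    (Cfsg.jordanBlock n F)ᵀ * X * Cfsg.jordanBlock n F = X ∧ Xᵀ = X := by
  obtain ⟨k, hk⟩ : ∃ k, n = k + 1 := ⟨n - 1, by obtain ⟨s, hs⟩ := ho; omega⟩
  subst hk
  have hke : Even k := by
    obtain ⟨s, hs⟩ := ho
    exact ⟨s, by omega⟩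
  obtain ⟨N, hN⟩ : ∃ N, N = Cfsg.jordanBlock (k + 1) F - 1 := ⟨_, rfl⟩
  have hNe : ∀ a b, N a b = if (a : ℕ) = b + 1 then 1 else 0 := by
    intro a b
    rw [hN, Matrix.sub_apply, Cfsg.jordanBlock, Matrix.of_apply, Matrix.one_apply]
    by_cases h : a = b
    · rw [if_pos h, if_pos (congrArg Fin.val h), if_neg (by rw [h]; omega), sub_self]
    · rw [if_neg h, if_neg (fun h' => h (Fin.ext h')), sub_zero]
  obtain ⟨Y, hY⟩ : ∃ Y : Matrix (Fin (k + 1)) (Fin (k + 1)) F, ∀ a b, Y a b = if (a : ℕ) + b = k then (-1) ^ (a : ℕ) else 0 := ⟨Matrix.of fun a b => _, fun a b => rfl⟩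
  have hYs : Yᵀ = Y := by
    ext a b
    rw [Matrix.transpose_apply, hY, hY]
    by_cases h : (a : ℕ) + b = k
    · rw [if_pos h, if_pos (by omega)]
      rcases Nat.even_or_odd (a : ℕ) with ha | ha
      · have hb : Even (b : ℕ) := by
          rw [← h] at hke
          exact (Nat.even_add.mp hke).mp ha
        rw [ha.neg_one_pow, hb.neg_one_pow]
      · have hb : Odd (b : ℕ) := by
          rw [← h] at hke
          rw [← Nat.not_even_iff_odd] at ha ⊢
          exact fun h' => ha ((Nat.even_add.mp hke).mpr h')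
        rw [ha.neg_one_pow, hb.neg_one_pow]
    · rw [if_neg h, if_neg (by omega)]
  have hYY : Y * Y = 1 := by
    ext a b
    rw [Matrix.mul_apply, Finset.sum_eq_single (⟨k - a, by omega⟩ : Fin (k + 1))]
    · rw [hY, if_pos (by change (a : ℕ) + (k - a) = k; have := a.2; omega), hY, Matrix.one_apply]
      have e : ((⟨k - a, by omega⟩ : Fin (k + 1)) : ℕ) = k - a := rfl
      rw [e]
      by_cases h : a = b
      · rw [if_pos h, if_pos (by rw [h]; have := b.2; omega), ← pow_add, show (a : ℕ) + (k - a) = k by have := a.2; omega, hke.neg_one_pow]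
      · rw [if_neg h, if_neg, mul_zero]
        intro h'
        exact h (Fin.ext (by have := a.2; omega))
    · intro c _ hc
      rw [hY, if_neg, zero_mul]
      intro h
      exact hc (Fin.ext (by change (c : ℕ) = k - a; omega))
    · intro h
      exact absurd (Finset.mem_univ _) h
  have hNY : Nᵀ * Y = -(Y * N) := by
    ext a b
    rw [Matrix.neg_apply, Matrix.mul_apply, Matrix.mul_apply]
    by_cases ha : (a : ℕ) + b + 1 = k
    · rw [Finset.sum_eq_single (⟨a + 1, by omega⟩ : Fin (k + 1)), Finset.sum_eq_single (⟨b + 1, by omega⟩ : Fin (k + 1))]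
      · rw [Matrix.transpose_apply, hNe, hNe, hY, hY, if_pos rfl, if_pos rfl, if_pos (by change (a : ℕ) + 1 + b = k; omega),
          if_pos (by change (a : ℕ) + (b + 1) = k; omega)]
        change 1 * (-1) ^ ((a : ℕ) + 1) = -((-1) ^ (a : ℕ) * 1)
        ring
      · intro c _ hc
        rw [hNe, if_neg, mul_zero]
        intro h
        exact hc (Fin.ext h)
      · intro h
        exact absurd (Finset.mem_univ _) h
      · intro c _ hc
        rw [Matrix.transpose_apply, hNe, if_neg, zero_mul]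
        intro h
        exact hc (Fin.ext h)
      · intro h
        exact absurd (Finset.mem_univ _) h
    · rw [Finset.sum_eq_zero, Finset.sum_eq_zero, neg_zero]
      · intro c _
        rw [hY, hNe]
        by_cases h1 : (c : ℕ) = b + 1
        · rw [if_neg (by omega), zero_mul]
        · rw [if_neg h1, mul_zero]
      · intro c _
        rw [Matrix.transpose_apply, hY, hNe]
        by_cases h1 : (c : ℕ) = a + 1
        · rw [if_neg (show ¬ ((c : ℕ) + b = k) by omega), mul_zero]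
        · rw [if_neg h1, zero_mul]
  have hN0 : N ^ (k + 1) = 0 := by rw [hN]; exact jb_nil _
  have hN1 : N ^ k ≠ 0 := by rw [hN]; exact jb_ne _
  have hnil : IsNilpotent N := ⟨k + 1, hN0⟩
  obtain ⟨V, hV⟩ := hnil.isUnit_one_sub
  -- `u = (1 + N) (1 - N)⁻¹`
  obtain ⟨u, hu⟩ : ∃ u, u = (1 + N) * (V⁻¹).val := ⟨_, rfl⟩
  have hVi : V.val * (V⁻¹).val = 1 := by rw [← Units.val_mul, mul_inv_cancel, Units.val_one]
  have hVi' : (V⁻¹).val * V.val = 1 := by rw [← Units.val_mul, inv_mul_cancel, Units.val_one]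
  have hcV : Commute N V.val := by rw [hV, commute_iff_eq, mul_sub, sub_mul, mul_one, one_mul]
  have hcV' : Commute N (V⁻¹).val := hcV.units_inv_right
  have hu1 : u - 1 = N * (2 * (V⁻¹).val) := by
    have e1 : u - 1 = ((1 + N) - V.val) * (V⁻¹).val := by rw [sub_mul, hVi, hu]
    rw [e1, hV]
    have e2 : (1 : Matrix (Fin (k + 1)) (Fin (k + 1)) F) + N - (1 - N) = N * 2 := by rw [mul_two]; abel
    rw [e2, mul_assoc]
  have hcc : Commute N (2 * (V⁻¹).val) := (Commute.ofNat_right N 2).mul_right hcV'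
  have hpw : ∀ i, (u - 1) ^ i = N ^ i * (2 * (V⁻¹).val) ^ i := fun i => by rw [hu1, hcc.mul_pow]
  have h2u : IsUnit (2 * (V⁻¹).val) := by
    have h3 : IsUnit (2 : Matrix (Fin (k + 1)) (Fin (k + 1)) F) := by
      have := (isUnit_iff_ne_zero.mpr h2).map (algebraMap F (Matrix (Fin (k + 1)) (Fin (k + 1)) F))
      rwa [map_ofNat] at this
    exact h3.mul (V⁻¹).isUnit
  obtain ⟨P, hP⟩ := RU.mat_conj (Y := N) (Z := u - 1) (n := k) (Fintype.card_fin _) hN0 hN1 (by rw [hpw, hN0, zero_mul]) (by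
    rw [hpw]
    intro h
    obtain ⟨W, hW⟩ := h2u.pow k
    rw [← hW] at h
    apply hN1
    have := congrArg (· * (W⁻¹).val) h
    simpa only [mul_assoc, Units.mul_inv, mul_one, zero_mul] using this)
  have hPJ : P.val * Cfsg.jordanBlock (k + 1) F = u * P := by
    rw [hN, mul_sub, mul_one, sub_mul, one_mul] at hP
    exact sub_left_inj.mp hP
  have hVt : (V⁻¹).valᵀ * V.valᵀ = 1 := by rw [← Matrix.transpose_mul, hVi, Matrix.transpose_one]
  have huY : uᵀ * Y * u = Y := by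
    have e1 : (1 + N)ᵀ * Y = Y * V.val := by
      rw [hV, Matrix.transpose_add, Matrix.transpose_one, add_mul, one_mul, hNY, mul_sub, mul_one]
      abel
    have e2 : V.valᵀ * Y = Y * (1 + N) := by
      rw [hV, Matrix.transpose_sub, Matrix.transpose_one, sub_mul, one_mul, hNY, mul_add, mul_one, sub_neg_eq_add]
    have hc1 : Commute (1 + N) (V⁻¹).val := (Commute.one_left _).add_left hcV'
    rw [hu, Matrix.transpose_mul]
    calc (V⁻¹).valᵀ * (1 + N)ᵀ * Y * ((1 + N) * (V⁻¹).val) = (V⁻¹).valᵀ * ((1 + N)ᵀ * Y) * ((1 + N) * (V⁻¹).val) := by simp only [mul_assoc]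
      _ = (V⁻¹).valᵀ * Y * (V.val * (V⁻¹).val) * (1 + N) := by rw [e1, hc1.eq]; simp only [mul_assoc]
      _ = (V⁻¹).valᵀ * (Y * (1 + N)) := by rw [hVi, mul_one, mul_assoc]
      _ = Y := by rw [← e2, ← mul_assoc, hVt, one_mul]
  refine ⟨P.valᵀ * Y * P.val, (P⁻¹).val * Y * (P⁻¹).valᵀ, ?_, ?_, ?_⟩
  · have e1 : (P⁻¹).valᵀ * P.valᵀ = 1 := by
      rw [← Matrix.transpose_mul, ← Units.val_mul, mul_inv_cancel, Units.val_one, Matrix.transpose_one]
    calc (P⁻¹).val * Y * (P⁻¹).valᵀ * (P.valᵀ * Y * P.val) = (P⁻¹).val * (Y * ((P⁻¹).valᵀ * P.valᵀ) * Y) * P.val := by simp only [mul_assoc]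
      _ = 1 := by rw [e1, mul_one, hYY, mul_one, ← Units.val_mul, inv_mul_cancel, Units.val_one]
  · calc (Cfsg.jordanBlock (k + 1) F)ᵀ * (P.valᵀ * Y * P.val) * Cfsg.jordanBlock (k + 1) F =
        (P.val * Cfsg.jordanBlock (k + 1) F)ᵀ * Y * (P.val * Cfsg.jordanBlock (k + 1) F) := by
          rw [Matrix.transpose_mul]; simp only [mul_assoc]
      _ = P.valᵀ * (uᵀ * Y * u) * P.val := by rw [hPJ, Matrix.transpose_mul]; simp only [mul_assoc]
      _ = _ := by rw [huY]
  · rw [Matrix.transpose_mul, Matrix.transpose_mul, Matrix.transpose_transpose, hYs, mul_assoc]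

end Cfsg.Agent.H16.JT
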