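import Cfsg.Agent.H16_JT3

set_option autoImplicit false

/-! Assembling invariant forms from Jordan blocks. -/

namespace Cfsg.Agent.H16.JT

open Matrix Module

/-- fixed-point-free involutions on sets of even size. -/
theorem exists_inv {T : Type*} [DecidableEq T] : ∀ (n : ℕ) (S : Finset T), S.card = 2 * n →
    ∃ τ : T → T, (∀ k, τ (τ k) = k) ∧ ∀ k, τ k ≠ k ↔ k ∈ S := by
  intro n
  induction n with
  | zero =>
    intro S hS
    refine ⟨id, fun k => rfl, fun k => ?_⟩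
    rw [Finset.card_eq_zero.mp hS]
    simp
  | succ n ih =>
    intro S hS
    obtain ⟨a, ha⟩ : S.Nonempty := by rw [← Finset.card_pos]; omega
    obtain ⟨b, hb⟩ : (S.erase a).Nonempty := by rw [← Finset.card_pos, Finset.card_erase_of_mem ha]; omega
    have hba : b ≠ a := Finset.ne_of_mem_erase hb
    obtain ⟨τ, h1, h2⟩ := ih ((S.erase a).erase b) (by
      rw [Finset.card_erase_of_mem hb, Finset.card_erase_of_mem ha, hS]; omega)
    have hta : τ a = a := by
      by_contra h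
      rw [← ne_eq, h2] at h
      exact absurd (Finset.mem_of_mem_erase h) (Finset.notMem_erase a S)
    have htb : τ b = b := by
      by_contra h
      rw [← ne_eq, h2] at h
      exact absurd h (Finset.notMem_erase b _)
    have hne : ∀ k, k ≠ a → k ≠ b → τ k ≠ a ∧ τ k ≠ b := by
      intro k hka hkb
      constructor
      · intro h
        apply hka
        rw [← h1 k, h, hta]
      · intro h
        apply hkb
        rw [← h1 k, h, htb]
    refine ⟨fun k => if k = a then b else if k = b then a else τ k, ?_, ?_⟩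
    · intro k
      by_cases hka : k = a
      · simp [hka, hba]
      · by_cases hkb : k = b
        · simp [hkb, hba]
        · obtain ⟨h3, h4⟩ := hne k hka hkb
          simp [hka, hkb, h3, h4, h1]
    · intro k
      by_cases hka : k = a
      · simp [hka, hba, ha]
      · by_cases hkb : k = b
        · simp [hkb, hba, Ne.symm hba, Finset.mem_of_mem_erase hb]
        · simp [hka, hkb, h2]

theorem exists_tau {t : ℕ} (d : Fin t → ℕ) (P : ℕ → Prop) (h : ∀ j, P j → Even (Finset.univ.filter (fun k : Fin t => d k = j)).card) :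
    ∃ τ : Fin t → Fin t, (∀ k, τ (τ k) = k) ∧ (∀ k, d (τ k) = d k) ∧ ∀ k, τ k ≠ k ↔ P (d k) := by
  classical
  have h1 : ∀ j, ∃ τ : Fin t → Fin t, (∀ k, τ (τ k) = k) ∧ ∀ k, τ k ≠ k ↔ (P j ∧ d k = j) := by
    intro j
    by_cases hj : P j
    · obtain ⟨n, hn⟩ := h j hj
      obtain ⟨τ, h2, h3⟩ := exists_inv n (Finset.univ.filter (fun k : Fin t => d k = j)) (by rw [hn]; ring)
      refine ⟨τ, h2, fun k => ?_⟩
      rw [h3, Finset.mem_filter]
      simp [hj]
    · exact ⟨id, fun k => rfl, fun k => by simp [hj]⟩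
  choose τ h2 h3 using h1
  have h4 : ∀ k, d (τ (d k) k) = d k := by
    intro k
    by_cases h5 : τ (d k) k = k
    · rw [h5]
    · have h6 : τ (d k) (τ (d k) k) ≠ τ (d k) k := by rw [h2]; exact fun h' => h5 h'.symm
      exact ((h3 _ _).mp h6).2
  refine ⟨fun k => τ (d k) k, ?_, h4, ?_⟩
  · intro k
    change τ (d (τ (d k) k)) (τ (d k) k) = k
    rw [h4, h2]
  · intro k
    rw [h3]
    simp

variable {F : Type*} [Field F] {t : ℕ} {d : Fin t → ℕ}

/-- the `k`-th component, viewed with size `n`. -/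
def cmp (k : Fin t) (n : ℕ) : (((k : Fin t) × Fin (d k)) → F) →ₗ[F] (Fin n → F) where
  toFun x := fun i => if h : (i : ℕ) < d k then x ⟨k, ⟨i, h⟩⟩ else 0
  map_add' x y := by
    funext i
    by_cases h : (i : ℕ) < d k
    · simp only [Pi.add_apply, dif_pos h]
    · simp only [Pi.add_apply, dif_neg h, add_zero]
  map_smul' c x := by
    funext i
    by_cases h : (i : ℕ) < d k
    · simp only [Pi.smul_apply, dif_pos h, RingHom.id_apply]
    · simp only [Pi.smul_apply, dif_neg h, RingHom.id_apply, smul_zero]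

theorem cmp_apply (k : Fin t) (n : ℕ) (x : ((k : Fin t) × Fin (d k)) → F) (i : Fin n) :
    cmp k n x i = if h : (i : ℕ) < d k then x ⟨k, ⟨i, h⟩⟩ else 0 := rfl

theorem cmp_jt (k : Fin t) {n : ℕ} (hn : d k = n) (x : ((k : Fin t) × Fin (d k)) → F) :
    cmp k n (Cfsg.jordanTypeMatrix d F *ᵥ x) = Cfsg.jordanBlock n F *ᵥ (cmp k n x) := by
  subst hn
  funext i
  rw [cmp_apply, dif_pos i.2, jt_mulVec]
  congr 2
  funext b
  rw [cmp_apply, dif_pos b.2]

theorem cmp_single_ne {k l : Fin t} (h : k ≠ l) (n : ℕ) (b : Fin (d l)) : cmp k n (Pi.single (⟨l, b⟩ : (k : Fin t) × Fin (d k)) (1 : F)) = 0 := by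
  funext i
  rw [cmp_apply, Pi.zero_apply]
  by_cases hi : (i : ℕ) < d k
  · rw [dif_pos hi, Pi.single_eq_of_ne]
    intro h'
    exact h (congrArg Sigma.fst h')
  · rw [dif_neg hi]

theorem cmp_single (l : Fin t) (b : Fin (d l)) : cmp l (d l) (Pi.single (⟨l, b⟩ : (k : Fin t) × Fin (d k)) (1 : F)) = Pi.single b 1 := by
  funext i
  rw [cmp_apply, dif_pos i.2]
  by_cases h : i = b
  · subst h
    rw [Pi.single_eq_same, Pi.single_eq_same]
  · rw [Pi.single_eq_of_ne h, Pi.single_eq_of_ne]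
    intro h'
    apply h
    have := eq_of_heq (Sigma.mk.inj h').2
    exact Fin.ext (congrArg (fun z : Fin (d l) => (z : ℕ)) this)

theorem cmp_inj {x : ((k : Fin t) × Fin (d k)) → F} (h : ∀ k, cmp k (d k) x = 0) : x = 0 := by
  funext p
  obtain ⟨k, a⟩ := p
  have := congrFun (h k) a
  rw [cmp_apply, dif_pos a.2] at this
  exact this

/-- the assembled form. -/
noncomputable def asm (τ : Fin t → Fin t) (g : ∀ k : Fin t, Matrix (Fin (d k)) (Fin (d k)) F) :
    LinearMap.BilinForm F (((k : Fin t) × Fin (d k)) → F) :=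
  ∑ k, LinearMap.BilinForm.comp (Matrix.toBilin' (g k)) (cmp (τ k) (d k)) (cmp k (d k))

theorem asm_apply (τ : Fin t → Fin t) (g : ∀ k : Fin t, Matrix (Fin (d k)) (Fin (d k)) F) (x y : ((k : Fin t) × Fin (d k)) → F) :
    asm τ g x y = ∑ k, cmp (τ k) (d k) x ⬝ᵥ (g k *ᵥ cmp k (d k) y) := by
  rw [asm, LinearMap.BilinForm.sum_apply]
  refine Finset.sum_congr rfl fun k _ => ?_
  rw [LinearMap.BilinForm.comp_apply, Matrix.toBilin'_apply']

theorem asm_inv {τ : Fin t → Fin t} (hτ : ∀ k, d (τ k) = d k) {g : ∀ k : Fin t, Matrix (Fin (d k)) (Fin (d k)) F}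
    (hg : ∀ k, (Cfsg.jordanBlock (d k) F)ᵀ * g k * Cfsg.jordanBlock (d k) F = g k) (x y : ((k : Fin t) × Fin (d k)) → F) :
    asm τ g (Cfsg.jordanTypeMatrix d F *ᵥ x) (Cfsg.jordanTypeMatrix d F *ᵥ y) = asm τ g x y := by
  rw [asm_apply, asm_apply]
  refine Finset.sum_congr rfl fun k _ => ?_
  rw [cmp_jt (τ k) (hτ k), cmp_jt k rfl]
  conv_rhs => rw [← hg k]
  rw [← Matrix.mulVec_mulVec, ← Matrix.mulVec_mulVec, Matrix.dotProduct_mulVec _ (Cfsg.jordanBlock (d k) F)ᵀ, Matrix.vecMul_transpose]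

theorem asm_nd {τ : Fin t → Fin t} (hτ2 : ∀ k, τ (τ k) = k) (hτ : ∀ k, d (τ k) = d k) {g : ∀ k : Fin t, Matrix (Fin (d k)) (Fin (d k)) F}
    (hg : ∀ k, ∃ g' : Matrix (Fin (d k)) (Fin (d k)) F, g' * g k = 1) {x : ((k : Fin t) × Fin (d k)) → F} (h : ∀ y, asm τ g x y = 0) : x = 0 := by
  have h1 : ∀ l, cmp (τ l) (d l) x = 0 := by
    intro l
    obtain ⟨g', hg'⟩ := hg l
    have h2 : cmp (τ l) (d l) x ᵥ* g l = 0 := by
      funext b
      have h3 := h (Pi.single ⟨l, b⟩ 1)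
      rw [asm_apply, Finset.sum_eq_single l] at h3
      · rw [cmp_single, Matrix.dotProduct_mulVec, dotProduct_single_one] at h3
        exact h3
      · intro k _ hk
        rw [cmp_single_ne hk, Matrix.mulVec_zero, dotProduct_zero]
      · intro h'
        exact absurd (Finset.mem_univ _) h'
    have h4 : g l * g' = 1 := mul_eq_one_comm.mp hg'
    have h5 := congrArg (· ᵥ* g') h2
    simp only [Matrix.vecMul_vecMul, h4, Matrix.vecMul_one, Matrix.zero_vecMul] at h5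
    exact h5
  apply cmp_inj
  intro k
  have h2 := h1 (τ k)
  rw [hτ2, hτ] at h2
  exact h2

theorem exists_altB (h : ∀ j, Odd j → Even (Finset.univ.filter (fun k : Fin t => d k = j)).card) :
    ∃ B : LinearMap.BilinForm F (((k : Fin t) × Fin (d k)) → F), B.IsAlt ∧ (∀ x, (∀ y, B x y = 0) → x = 0) ∧
      ∀ x y, B (Cfsg.jordanTypeMatrix d F *ᵥ x) (Cfsg.jordanTypeMatrix d F *ᵥ y) = B x y := by
  classical
  obtain ⟨τ, hτ2, hτ, hτP⟩ := exists_tau d Odd h
  choose X X' hX1 hX2 using exists_pair (F := F)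
  have hY : ∀ n : ℕ, ∃ Y Y' : Matrix (Fin n) (Fin n) F, Even n → (Y' * Y = 1 ∧ (Cfsg.jordanBlock n F)ᵀ * Y * Cfsg.jordanBlock n F = Y ∧
      ∀ x, x ⬝ᵥ (Y *ᵥ x) = 0) := by
    intro n
    by_cases hn : Even n
    · obtain ⟨Y, Y', h1⟩ := exists_alt (F := F) hn
      exact ⟨Y, Y', fun _ => h1⟩
    · exact ⟨0, 0, fun h => absurd h hn⟩
  choose Y Y' hY using hY
  obtain ⟨g, hg⟩ : ∃ g : ∀ k : Fin t, Matrix (Fin (d k)) (Fin (d k)) F, ∀ k, g k = if τ k < k then X (d k) else if k < τ k then -(X (d k))ᵀ else Y (d k) :=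
    ⟨fun k => _, fun k => rfl⟩
  have hev : ∀ k, ¬ τ k < k → ¬ k < τ k → τ k = k ∧ Even (d k) := by
    intro k h1 h2
    have h3 : τ k = k := le_antisymm (not_lt.mp h2) (not_lt.mp h1)
    refine ⟨h3, ?_⟩
    rw [← Nat.not_odd_iff_even, ← hτP]
    exact not_not.mpr h3
  refine ⟨asm τ g, ?_, fun x hx => asm_nd hτ2 hτ (g := g) ?_ hx, asm_inv hτ ?_⟩
  · intro x
    rw [asm_apply]
    have h0 : ∀ k, τ k = k → cmp (τ k) (d k) x ⬝ᵥ (g k *ᵥ cmp k (d k) x) = 0 := by
      intro k hk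
      have h1 : g k = Y (d k) := by rw [hg, hk, if_neg (lt_irrefl _), if_neg (lt_irrefl _)]
      have h2 : Even (d k) := (hev k (by rw [hk]; exact lt_irrefl _) (by rw [hk]; exact lt_irrefl _)).2
      rw [h1, hk]
      exact (hY _ h2).2.2 _
    have h1 : ∀ k, τ k < k → cmp (τ k) (d k) x ⬝ᵥ (g k *ᵥ cmp k (d k) x) + cmp (τ (τ k)) (d (τ k)) x ⬝ᵥ (g (τ k) *ᵥ cmp (τ k) (d (τ k)) x) = 0 := by
      intro k hk
      have e1 : g k = X (d k) := by rw [hg, if_pos hk]
      have e2 : g (τ k) = -(X (d (τ k)))ᵀ := by rw [hg, hτ2, if_neg (not_lt.mpr hk.le), if_pos hk]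
      rw [e1, e2, hτ2, hτ, Matrix.neg_mulVec, dotProduct_neg, Matrix.mulVec_transpose, dotProduct_comm _ (_ ᵥ* _), ← Matrix.dotProduct_mulVec, add_neg_cancel]
    refine Finset.sum_involution (fun k _ => τ k) ?_ ?_ (fun k _ => Finset.mem_univ _) (fun k _ => hτ2 k)
    · intro k _
      rcases lt_trichotomy (τ k) k with hk | hk | hk
      · exact h1 k hk
      · rw [h0 k hk, hk, h0 k hk, add_zero]
      · have := h1 (τ k) (by rw [hτ2]; exact hk)
        rw [hτ2] at this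
        rw [add_comm]
        convert this using 2
        rw [hτ2]
    · intro k _ hk hk'
      exact hk (h0 k hk')
  · intro k
    rw [hg]
    split_ifs with h1 h2
    · exact ⟨X' _, hX1 _⟩
    · exact ⟨-(X' (d k))ᵀ, by rw [neg_mul_neg, ← Matrix.transpose_mul, mul_eq_one_comm.mp (hX1 _), Matrix.transpose_one]⟩
    · exact ⟨Y' _, (hY _ (hev k h1 h2).2).1⟩
  · intro k
    rw [hg]
    split_ifs with h1 h2
    · exact hX2 _
    · rw [Matrix.mul_neg, Matrix.neg_mul]
      congr 1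
      have := congrArg Matrix.transpose (hX2 (d k))
      rw [Matrix.transpose_mul, Matrix.transpose_mul, Matrix.transpose_transpose] at this
      rw [mul_assoc]
      exact this
    · exact (hY _ (hev k h1 h2).2).2.1

theorem exists_symB (h2 : (2 : F) ≠ 0) (h : ∀ j, Even j → 0 < j → Even (Finset.univ.filter (fun k : Fin t => d k = j)).card) (hd : ∀ k, 1 ≤ d k) :
    ∃ B : LinearMap.BilinForm F (((k : Fin t) × Fin (d k)) → F), (∀ x y, B x y = B y x) ∧ (∀ x, (∀ y, B x y = 0) → x = 0) ∧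
      ∀ x y, B (Cfsg.jordanTypeMatrix d F *ᵥ x) (Cfsg.jordanTypeMatrix d F *ᵥ y) = B x y := by
  classical
  obtain ⟨τ, hτ2, hτ, hτP⟩ := exists_tau d (fun j => Even j ∧ 0 < j) (fun j hj => h j hj.1 hj.2)
  choose X X' hX1 hX2 using exists_pair (F := F)
  have hY : ∀ n : ℕ, ∃ Y Y' : Matrix (Fin n) (Fin n) F, Odd n → (Y' * Y = 1 ∧ (Cfsg.jordanBlock n F)ᵀ * Y * Cfsg.jordanBlock n F = Y ∧
      Yᵀ = Y) := by
    intro n
    by_cases hn : Odd n
    · obtain ⟨Y, Y', h1⟩ := exists_sym (F := F) h2 hn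
      exact ⟨Y, Y', fun _ => h1⟩
    · exact ⟨0, 0, fun h => absurd h hn⟩
  choose Y Y' hY using hY
  obtain ⟨g, hg⟩ : ∃ g : ∀ k : Fin t, Matrix (Fin (d k)) (Fin (d k)) F, ∀ k, g k = if τ k < k then X (d k) else if k < τ k then (X (d k))ᵀ else Y (d k) :=
    ⟨fun k => _, fun k => rfl⟩
  have hev : ∀ k, ¬ τ k < k → ¬ k < τ k → τ k = k ∧ Odd (d k) := by
    intro k h1 h2
    have h3 : τ k = k := le_antisymm (not_lt.mp h2) (not_lt.mp h1)
    refine ⟨h3, ?_⟩
    by_contra h4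
    rw [Nat.not_odd_iff_even] at h4
    exact (hτP k).mpr ⟨h4, hd k⟩ h3
  refine ⟨asm τ g, ?_, fun x hx => asm_nd hτ2 hτ (g := g) ?_ hx, asm_inv hτ ?_⟩
  · intro x y
    rw [asm_apply, asm_apply]
    let e : Equiv.Perm (Fin t) := Function.Involutive.toPerm τ hτ2
    rw [← Equiv.sum_comp e]
    refine Finset.sum_congr rfl fun k _ => ?_
    change cmp (τ (τ k)) (d (τ k)) x ⬝ᵥ (g (τ k) *ᵥ cmp (τ k) (d (τ k)) y) = cmp (τ k) (d k) y ⬝ᵥ (g k *ᵥ cmp k (d k) x)
    rcases lt_trichotomy (τ k) k with hk | hk | hk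
    · have e1 : g k = X (d k) := by rw [hg, if_pos hk]
      have e2 : g (τ k) = (X (d (τ k)))ᵀ := by rw [hg, hτ2, if_neg (not_lt.mpr hk.le), if_pos hk]
      rw [e1, e2, hτ2, hτ, Matrix.mulVec_transpose, dotProduct_comm _ (_ ᵥ* _), ← Matrix.dotProduct_mulVec]
    · have e1 : g k = Y (d k) := by rw [hg, hk, if_neg (lt_irrefl _), if_neg (lt_irrefl _)]
      have e3 := (hev k (by rw [hk]; exact lt_irrefl _) (by rw [hk]; exact lt_irrefl _)).2
      rw [hk, hk, e1]
      conv_lhs => rw [← (hY _ e3).2.2]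
      rw [Matrix.mulVec_transpose, dotProduct_comm _ (_ ᵥ* _), ← Matrix.dotProduct_mulVec]
    · have e1 : g k = (X (d k))ᵀ := by rw [hg, if_neg (not_lt.mpr hk.le), if_pos hk]
      have e2 : g (τ k) = X (d (τ k)) := by rw [hg, hτ2, if_pos hk]
      rw [e1, e2, hτ2, hτ, Matrix.mulVec_transpose, dotProduct_comm _ (_ ᵥ* _), ← Matrix.dotProduct_mulVec]
  · intro k
    rw [hg]
    split_ifs with h1 h2
    · exact ⟨X' _, hX1 _⟩
    · exact ⟨(X' (d k))ᵀ, by rw [← Matrix.transpose_mul, mul_eq_one_comm.mp (hX1 _), Matrix.transpose_one]⟩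
    · exact ⟨Y' _, (hY _ (hev k h1 h2).2).1⟩
  · intro k
    rw [hg]
    split_ifs with h1 h2
    · exact hX2 _
    · have := congrArg Matrix.transpose (hX2 (d k))
      rw [Matrix.transpose_mul, Matrix.transpose_mul, Matrix.transpose_transpose] at this
      rw [mul_assoc]
      exact this
    · exact (hY _ (hev k h1 h2).2).2.1

end Cfsg.Agent.H16.JT
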