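import Cfsg.Agent.H16_JT4

set_option autoImplicit false

/-! Unipotent isometries of given Jordan type: conclusions. -/

namespace Cfsg.Agent.H16.JT

open Matrix Module

variable {F : Type*} [Field F] {t : ℕ} {d : Fin t → ℕ} {ι : Type*} [Fintype ι] [DecidableEq ι]

theorem pow_conj {R : Type*} [Ring R] (P : Rˣ) {a b : R} (h : ↑P * a = b * P) (k : ℕ) : ↑P * a ^ k = b ^ k * P := by
  induction k with
  | zero => rw [pow_zero, pow_zero, mul_one, one_mul]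
  | succ k ih => rw [pow_succ, ← mul_assoc, ih, mul_assoc, h, ← mul_assoc, ← pow_succ]

theorem rank_conj (e : ((k : Fin t) × Fin (d k)) ≃ ι) {A : Matrix ι ι F} (h : IsConj (Matrix.reindex e e (Cfsg.jordanTypeMatrix d F)) A) (i : ℕ) :
    ((A - 1) ^ i).rank = ∑ k, (d k - i) := by
  obtain ⟨c, hc⟩ := h
  have h1 : ∀ j, c.val * (Matrix.reindex e e (Cfsg.jordanTypeMatrix d F) - 1) ^ j = (A - 1) ^ j * c.val := by
    intro j
    refine pow_conj c ?_ j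
    rw [mul_sub, sub_mul, mul_one, one_mul]
    congr 1
  have h2 : (Matrix.reindex e e (Cfsg.jordanTypeMatrix d F) - 1) ^ i = Matrix.reindex e e ((Cfsg.jordanTypeMatrix d F - 1) ^ i) := by
    have h3 : ∀ M : Matrix ((k : Fin t) × Fin (d k)) ((k : Fin t) × Fin (d k)) F, Matrix.reindex e e M = Matrix.reindexAlgEquiv F F e M := fun M => rfl
    rw [h3, h3, _root_.map_pow, _root_.map_sub, _root_.map_one]
  have h3 : (A - 1) ^ i = c.val * Matrix.reindex e e ((Cfsg.jordanTypeMatrix d F - 1) ^ i) * (c⁻¹).val := by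
    rw [← h2, h1, mul_assoc, ← Units.val_mul, mul_inv_cancel, Units.val_one, mul_one]
  rw [h3, Matrix.rank_mul_eq_left_of_isUnit_det, Matrix.rank_mul_eq_right_of_isUnit_det, Matrix.rank_reindex, rank_pow]
  · exact (Matrix.isUnit_iff_isUnit_det _).mp c.isUnit
  · exact (Matrix.isUnit_iff_isUnit_det _).mp (c⁻¹).isUnit

theorem even_odd (h : ∀ i, Even (∑ k, (d k - 2 * i))) {j : ℕ} (hj : Odd j) : Even (Finset.univ.filter (fun k : Fin t => d k = j)).card := by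
  obtain ⟨s, hs⟩ := hj
  subst hs
  have h1 := mult (d := d) (2 * s)
  obtain ⟨a, ha⟩ := h s
  obtain ⟨b, hb⟩ := h (s + 1)
  rw [show 2 * (s + 1) = 2 * s + 2 by ring] at hb
  refine ⟨a + b - ∑ k, (d k - (2 * s + 1)), ?_⟩
  omega

theorem even_even (h : ∀ i, Even (∑ k, (d k - (2 * i + 1)))) {j : ℕ} (hj : Even j) (hj0 : 0 < j) : Even (Finset.univ.filter (fun k : Fin t => d k = j)).card := by
  obtain ⟨s, hs⟩ := hj
  obtain ⟨r, hr⟩ : ∃ r, s = r + 1 := ⟨s - 1, by omega⟩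
  have h1 := mult (d := d) (2 * r + 1)
  obtain ⟨a, ha⟩ := h r
  obtain ⟨b, hb⟩ := h (r + 1)
  rw [show 2 * (r + 1) + 1 = 2 * r + 1 + 2 by ring] at hb
  have e : j = 2 * r + 1 + 1 := by omega
  rw [e]
  refine ⟨a + b - ∑ k, (d k - (2 * r + 1 + 1)), ?_⟩
  omega

/-- the transported isometry. -/
theorem exists_ext_ortho (e : ((k : Fin t) × Fin (d k)) ≃ ι) (B : LinearMap.BilinForm F (((k : Fin t) × Fin (d k)) → F))
    (hB : ∀ x y, B (Cfsg.jordanTypeMatrix d F *ᵥ x) (Cfsg.jordanTypeMatrix d F *ᵥ y) = B x y) (x y : ι → F) :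
    B ((Matrix.reindex e e (Cfsg.jordanTypeMatrix d F) *ᵥ x) ∘ e) ((Matrix.reindex e e (Cfsg.jordanTypeMatrix d F) *ᵥ y) ∘ e) = B (x ∘ e) (y ∘ e) := by
  have h : ∀ x : ι → F, (Matrix.reindex e e (Cfsg.jordanTypeMatrix d F) *ᵥ x) ∘ e = Cfsg.jordanTypeMatrix d F *ᵥ (x ∘ e) := by
    intro x
    rw [Matrix.reindex_apply, Matrix.submatrix_mulVec_equiv]
    funext p
    simp
  rw [h, h, hB]

theorem reindex_comp (e : ((k : Fin t) × Fin (d k)) ≃ ι) (x : ι → F) :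
    (Matrix.reindex e e (Cfsg.jordanTypeMatrix d F) *ᵥ x) ∘ e = Cfsg.jordanTypeMatrix d F *ᵥ (x ∘ e) := by
  rw [Matrix.reindex_apply, Matrix.submatrix_mulVec_equiv]
  funext p
  simp

theorem isConj_of_lin (e : ((k : Fin t) × Fin (d k)) ≃ ι) (φ : (((k : Fin t) × Fin (d k)) → F) ≃ₗ[F] (ι → F)) {A : Matrix ι ι F}
    (h : ∀ x, A *ᵥ (φ x) = φ (Cfsg.jordanTypeMatrix d F *ᵥ x)) : IsConj (Matrix.reindex e e (Cfsg.jordanTypeMatrix d F)) A := by
  let ψ : (ι → F) ≃ₗ[F] (ι → F) := (LinearEquiv.funCongrLeft F F e).trans φ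
  have hψ : ∀ x, ψ x = φ (x ∘ e) := fun x => rfl
  obtain ⟨P, hP⟩ : ∃ P : Matrix ι ι F, ∀ x, P *ᵥ x = ψ x := ⟨LinearMap.toMatrix' (ψ : (ι → F) →ₗ[F] (ι → F)), fun x => LinearMap.toMatrix'_mulVec _ _⟩
  obtain ⟨Q, hQ⟩ : ∃ Q : Matrix ι ι F, ∀ x, Q *ᵥ x = ψ.symm x := ⟨LinearMap.toMatrix' (ψ.symm : (ι → F) →ₗ[F] (ι → F)), fun x => LinearMap.toMatrix'_mulVec _ _⟩
  refine ⟨⟨P, Q, ?_, ?_⟩, ?_⟩
  · apply Matrix.mulVec_injective
    funext x
    rw [← Matrix.mulVec_mulVec, hP, hQ, LinearEquiv.apply_symm_apply, Matrix.one_mulVec]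
  · apply Matrix.mulVec_injective
    funext x
    rw [← Matrix.mulVec_mulVec, hP, hQ, LinearEquiv.symm_apply_apply, Matrix.one_mulVec]
  · apply Matrix.mulVec_injective
    funext x
    change (P * Matrix.reindex e e (Cfsg.jordanTypeMatrix d F)) *ᵥ x = (A * P) *ᵥ x
    rw [← Matrix.mulVec_mulVec, ← Matrix.mulVec_mulVec, hP, hP, hψ, hψ, reindex_comp, h]

end Cfsg.Agent.H16.JT
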