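import Cfsg.Agent.H16_JT5

set_option autoImplicit false

/-! Unipotent isometries of quadratic forms of given Jordan type. -/

namespace Cfsg.Agent.H16.JT

open Matrix Module

variable {F : Type*} [Field F] {ι : Type} [Fintype ι] [DecidableEq ι]

theorem mat_ext {M N : Matrix ι ι F} (h : ∀ x y, x ⬝ᵥ (M *ᵥ y) = x ⬝ᵥ (N *ᵥ y)) : M = N := by
  ext i j
  have := h (Pi.single i 1) (Pi.single j 1)
  rwa [single_one_dotProduct, single_one_dotProduct, Matrix.mulVec_single_one, Matrix.mulVec_single_one] at this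

theorem gram_data {Q : QuadraticForm F (ι → F)} (hQ : (QuadraticMap.polarBilin Q).Nondegenerate) {A : Matrix ι ι F} (hA : ∀ x, Q (A *ᵥ x) = Q x) :
    ∃ G G' : Matrix ι ι F, G' * G = 1 ∧ Gᵀ = G ∧ Aᵀ * G * A = G ∧ ∀ x y, x ⬝ᵥ (G *ᵥ y) = QuadraticMap.polar Q x y := by
  obtain ⟨G, hG⟩ : ∃ G : Matrix ι ι F, ∀ x y, x ⬝ᵥ (G *ᵥ y) = QuadraticMap.polar Q x y := by
    refine ⟨LinearMap.BilinForm.toMatrix' (QuadraticMap.polarBilin Q), fun x y => ?_⟩
    rw [← Matrix.toBilin'_apply', Matrix.toBilin'_toMatrix']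
    rfl
  have hu : IsUnit G := by
    rw [Matrix.isUnit_iff_isUnit_det, isUnit_iff_ne_zero]
    intro h
    obtain ⟨v, hv, hv'⟩ := Matrix.exists_mulVec_eq_zero_iff.mpr h
    apply hv
    apply hQ.1 v
    intro y
    change QuadraticMap.polar Q v y = 0
    rw [QuadraticMap.polar_comm, ← hG, hv', dotProduct_zero]
  obtain ⟨U, hU⟩ := hu
  refine ⟨G, (U⁻¹).val, by rw [← hU, ← Units.val_mul, inv_mul_cancel, Units.val_one], ?_, ?_, hG⟩
  · apply mat_ext
    intro x y
    rw [hG, Matrix.mulVec_transpose, dotProduct_comm, ← Matrix.dotProduct_mulVec, hG, QuadraticMap.polar_comm]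
  · apply mat_ext
    intro x y
    rw [hG, ← Matrix.mulVec_mulVec, ← Matrix.mulVec_mulVec, Matrix.dotProduct_mulVec, Matrix.vecMul_transpose, hG, QuadraticMap.polar,
      ← Matrix.mulVec_add, hA, hA, hA]
    rfl

variable {t : ℕ} {d : Fin t → ℕ}

theorem nil_of_conj (e : ((k : Fin t) × Fin (d k)) ≃ ι) {A : Matrix ι ι F} (h : IsConj (Matrix.reindex e e (Cfsg.jordanTypeMatrix d F)) A) :
    IsNilpotent (A - 1) := by
  refine ⟨∑ k, d k, ?_⟩
  have h1 := rank_conj e h (∑ k, d k)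
  rw [Finset.sum_eq_zero (fun k _ => Nat.sub_eq_zero_of_le (Finset.single_le_sum (fun i _ => Nat.zero_le (d i)) (Finset.mem_univ k)))] at h1
  have h2 : finrank F (LinearMap.range (((A - 1) ^ (∑ k, d k)).mulVecLin)) = 0 := h1
  rw [Submodule.finrank_eq_zero, LinearMap.range_eq_bot] at h2
  apply Matrix.mulVec_injective
  funext x
  rw [Matrix.zero_mulVec]
  exact congrArg (fun f : (ι → F) →ₗ[F] (ι → F) => f x) h2

/-- the reindexed matrix as a unit. -/
theorem exists_unit (e : ((k : Fin t) × Fin (d k)) ≃ ι) : ∃ A : GL ι F, A.val = Matrix.reindex e e (Cfsg.jordanTypeMatrix d F) := by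
  have h : IsUnit (Matrix.reindex e e (Cfsg.jordanTypeMatrix d F)) := by
    have h1 := (nil_of_conj (F := F) e (IsConj.refl _)).isUnit_add_one
    rwa [sub_add_cancel] at h1
  obtain ⟨A, hA⟩ := h
  exact ⟨A, hA⟩

/-- from a symmetric form to a quadratic form. -/
theorem exists_Q (h2 : (2 : F) ≠ 0) {B : LinearMap.BilinForm F (((k : Fin t) × Fin (d k)) → F)} (e : ((k : Fin t) × Fin (d k)) ≃ ι)
    (hs : ∀ x y, B x y = B y x) (hn : ∀ x, (∀ y, B x y = 0) → x = 0)
    (hJ : ∀ x y, B (Cfsg.jordanTypeMatrix d F *ᵥ x) (Cfsg.jordanTypeMatrix d F *ᵥ y) = B x y) :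
    ∃ Q : QuadraticForm F (ι → F), (QuadraticMap.polarBilin Q).Nondegenerate ∧
      ∀ x, Q (Matrix.reindex e e (Cfsg.jordanTypeMatrix d F) *ᵥ x) = Q x := by
  let L : (ι → F) →ₗ[F] (((k : Fin t) × Fin (d k)) → F) := LinearMap.funLeft F F e
  let B' : LinearMap.BilinForm F (ι → F) := LinearMap.BilinForm.comp B L L
  have hB' : ∀ x y, B' x y = B (x ∘ e) (y ∘ e) := fun x y => rfl
  have hQ : ∀ x, LinearMap.BilinMap.toQuadraticMap B' x = B (x ∘ e) (x ∘ e) := fun x => rfl
  refine ⟨LinearMap.BilinMap.toQuadraticMap B', ?_, ?_⟩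
  · apply Quad.nd_of
    intro x hx
    have h3 : x ∘ e = 0 := by
      apply hn
      intro y
      have h4 := hx (y ∘ e.symm)
      rw [QuadraticMap.polar, hQ, hQ, hQ] at h4
      have e1 : (x + y ∘ e.symm) ∘ e = x ∘ e + y := by funext p; simp
      have e2 : (y ∘ e.symm) ∘ e = y := by funext p; simp
      rw [e1, e2, LinearMap.map_add₂, _root_.map_add, _root_.map_add, hs y] at h4
      have h5 : 2 * B (x ∘ e) y = 0 := by linear_combination h4
      exact (mul_eq_zero.mp h5).resolve_left h2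
    funext i
    have := congrFun h3 (e.symm i)
    simpa using this
  · intro x
    rw [hQ, hQ]
    exact exists_ext_ortho e B hJ x x

end Cfsg.Agent.H16.JT
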