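import Cfsg.Agent.H16_JT6

set_option autoImplicit false

/-! In characteristic two every symplectic isometry preserves a quadratic form. -/

namespace Cfsg.Agent.H16.JT

open Matrix Module

variable {F : Type*} [Field F] [Finite F] [CharP F 2] {n : ℕ}

theorem dye {G A : Matrix (Fin n) (Fin n) F} (hG : ∀ x, x ⬝ᵥ (G *ᵥ x) = 0) (hA : ∀ x y, (A *ᵥ x) ⬝ᵥ (G *ᵥ (A *ᵥ y)) = x ⬝ᵥ (G *ᵥ y)) :
    ∃ Q : QuadraticForm F (Fin n → F), (∀ x y, QuadraticMap.polar Q x y = x ⬝ᵥ (G *ᵥ y)) ∧ ∀ x, Q (A *ᵥ x) = Q x := by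
  classical
  have hGs : ∀ i j, G i j = G j i := by
    intro i j
    have h1 := skew_of_alt hG (Pi.single i 1) (Pi.single j 1)
    rw [single_one_dotProduct, single_one_dotProduct, Matrix.mulVec_single_one, Matrix.mulVec_single_one, CharTwo.neg_eq] at h1
    exact h1
  have hGd : ∀ i, G i i = 0 := by
    intro i
    have h1 := hG (Pi.single i 1)
    rw [single_one_dotProduct, Matrix.mulVec_single_one] at h1
    exact h1
  obtain ⟨M, hM⟩ : ∃ M : Matrix (Fin n) (Fin n) F, ∀ i j, M i j = if i < j then G i j else 0 := ⟨Matrix.of fun i j => _, fun i j => rfl⟩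
  have hMG : M + Mᵀ = G := by
    ext i j
    rw [Matrix.add_apply, Matrix.transpose_apply, hM, hM]
    rcases lt_trichotomy i j with h | h | h
    · rw [if_pos h, if_neg (not_lt.mpr h.le), add_zero]
    · rw [h, if_neg (lt_irrefl _), add_zero, hGd]
    · rw [if_neg (not_lt.mpr h.le), if_pos h, zero_add, hGs]
  obtain ⟨Q, hQ⟩ : ∃ Q : QuadraticForm F (Fin n → F), ∀ x, Q x = x ⬝ᵥ (M *ᵥ x) :=
    ⟨LinearMap.BilinMap.toQuadraticMap (Matrix.toBilin' M), fun x => by rw [LinearMap.BilinMap.toQuadraticMap_apply, Matrix.toBilin'_apply']⟩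
  have hp : ∀ x y, QuadraticMap.polar Q x y = x ⬝ᵥ (G *ᵥ y) := by
    intro x y
    rw [QuadraticMap.polar, hQ, hQ, hQ, ← hMG, Matrix.add_mulVec, dotProduct_add, Matrix.mulVec_add, add_dotProduct, dotProduct_add, dotProduct_add,
      Matrix.mulVec_transpose, dotProduct_comm x (_ ᵥ* _), ← Matrix.dotProduct_mulVec]
    ring
  have hadd : ∀ x y, Q (x + y) = Q x + Q y + x ⬝ᵥ (G *ᵥ y) := by
    intro x y
    rw [← hp, QuadraticMap.polar]
    ring
  obtain ⟨D, hD⟩ : ∃ D : (Fin n → F) → F, ∀ x, D x = Q (A *ᵥ x) + Q x := ⟨fun x => _, fun x => rfl⟩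
  have hDadd : ∀ x y, D (x + y) = D x + D y := by
    intro x y
    rw [hD, hD, hD, Matrix.mulVec_add, hadd, hadd, hA]
    have : (2 : F) = 0 := CharTwo.two_eq_zero
    linear_combination (x ⬝ᵥ (G *ᵥ y)) * this
  have hDsmul : ∀ (c : F) x, D (c • x) = c ^ 2 * D x := by
    intro c x
    rw [hD, hD, Matrix.mulVec_smul, QuadraticMap.map_smul, QuadraticMap.map_smul, smul_eq_mul, smul_eq_mul]
    ring
  have hD0 : D 0 = 0 := by
    have := hDsmul 0 0
    rw [zero_smul] at this
    rw [this]; ring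
  let Dh : (Fin n → F) →+ F := { toFun := D, map_zero' := hD0, map_add' := hDadd }
  have hsq : ∀ a : F, ∃ s, s ^ 2 = a := by
    intro a
    have := Fintype.ofFinite F
    obtain ⟨s, hs⟩ := FiniteField.isSquare_of_char_two (F := F) (by
      exact ringChar.eq F 2) a
    exact ⟨s, by rw [hs, sq]⟩
  choose s hs using hsq
  obtain ⟨μ, hμ⟩ : ∃ μ : (Fin n → F) →ₗ[F] F, ∀ x, μ x = ∑ i, s (D (Pi.single i 1)) * x i := by
    refine ⟨∑ i, s (D (Pi.single i 1)) • LinearMap.proj i, fun x => ?_⟩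
    rw [LinearMap.sum_apply]
    rfl
  have hDμ : ∀ x, D x = μ x ^ 2 := by
    intro x
    have h1 : x = ∑ i, x i • (Pi.single i 1 : Fin n → F) := by
      funext j
      rw [Finset.sum_apply, Finset.sum_eq_single j]
      · rw [Pi.smul_apply, Pi.single_eq_same, smul_eq_mul, mul_one]
      · intro i _ hi
        rw [Pi.smul_apply, Pi.single_eq_of_ne (Ne.symm hi), smul_zero]
      · intro h
        exact absurd (Finset.mem_univ _) h
    have h2 : D x = ∑ i, x i ^ 2 * D (Pi.single i 1) := by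
      conv_lhs => rw [h1]
      change Dh _ = _
      rw [map_sum]
      exact Finset.sum_congr rfl fun i _ => hDsmul _ _
    rw [h2, hμ, CharTwo.sum_sq]
    refine Finset.sum_congr rfl fun i _ => ?_
    rw [mul_pow, hs, mul_comm]
  obtain ⟨T, hT⟩ : ∃ T : (Fin n → F) →ₗ[F] (Fin n → F), ∀ x, T x = A *ᵥ x + x := ⟨Matrix.toLin' A + LinearMap.id, fun x => rfl⟩
  obtain ⟨l, hl⟩ : ∃ l : (Fin n → F) →ₗ[F] F, ∀ x, l (T x) = μ x := by
    have h1 : (μ : Module.Dual F (Fin n → F)) ∈ LinearMap.range T.dualMap := by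
      rw [LinearMap.range_dualMap_eq_dualAnnihilator_ker, Submodule.mem_dualAnnihilator]
      intro v hv
      rw [LinearMap.mem_ker, hT] at hv
      have h2 : A *ᵥ v = v := by
        rw [add_eq_zero_iff_eq_neg] at hv
        rw [hv]
        funext i
        exact CharTwo.neg_eq _
      have h3 : μ v ^ 2 = 0 := by
        rw [← hDμ, hD, h2, CharTwo.add_self_eq_zero]
      exact pow_eq_zero_iff (two_ne_zero) |>.mp h3
    obtain ⟨l, hl⟩ := h1
    exact ⟨l, fun x => by rw [← hl]; rfl⟩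
  refine ⟨Q + QuadraticMap.comp QuadraticMap.sq l, ?_, ?_⟩
  · intro x y
    rw [← hp, QuadraticMap.polar, QuadraticMap.polar, QuadraticMap.add_apply, QuadraticMap.add_apply, QuadraticMap.add_apply, QuadraticMap.comp_apply,
      QuadraticMap.comp_apply, QuadraticMap.comp_apply, QuadraticMap.sq_apply, QuadraticMap.sq_apply, QuadraticMap.sq_apply, LinearMap.map_add l x y]
    have : (2 : F) = 0 := CharTwo.two_eq_zero
    linear_combination (l x * l y) * this
  · intro x
    rw [QuadraticMap.add_apply, QuadraticMap.add_apply, QuadraticMap.comp_apply, QuadraticMap.comp_apply, QuadraticMap.sq_apply, QuadraticMap.sq_apply]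
    have h1 := hl x
    rw [hT, _root_.map_add] at h1
    have h2 := hDμ x
    rw [hD, ← h1] at h2
    have : (2 : F) = 0 := CharTwo.two_eq_zero
    linear_combination h2 + (l (A *ᵥ x) ^ 2 - Q x + l (A *ᵥ x) * l x) * this

end Cfsg.Agent.H16.JT
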