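import Mathlib

set_option autoImplicit false

/-! Kronecker modules with trivial endomorphisms. -/

namespace Cfsg.Agent.H16.Kr

open Matrix

variable {F : Type*} [Field F] {k : ℕ}

/-- the two structure matrices. -/
def mA (F : Type*) [Field F] (k : ℕ) : Matrix (Fin (k + 1)) (Fin k) F := Matrix.of fun i j => if (i : ℕ) = j then 1 else 0
def mB (F : Type*) [Field F] (k : ℕ) : Matrix (Fin (k + 1)) (Fin k) F := Matrix.of fun i j => if (i : ℕ) = j + 1 then 1 else 0
def mC (F : Type*) [Field F] (k : ℕ) : Matrix (Fin (k + 1)) (Fin k) F := Matrix.of fun i j => if (i : ℕ) = k ∧ (j : ℕ) = 0 then 1 else 0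

theorem mA_apply (i : Fin (k + 1)) (j : Fin k) : mA F k i j = if (i : ℕ) = j then 1 else 0 := rfl
theorem mB_apply (i : Fin (k + 1)) (j : Fin k) : mB F k i j = if (i : ℕ) = j + 1 then 1 else 0 := rfl
theorem mC_apply (i : Fin (k + 1)) (j : Fin k) : mC F k i j = if (i : ℕ) = k ∧ (j : ℕ) = 0 then 1 else 0 := rfl

theorem mul_mA (g : Matrix (Fin (k + 1)) (Fin (k + 1)) F) (i : Fin (k + 1)) (j : Fin k) : (g * mA F k) i j = g i j.castSucc := by
  rw [Matrix.mul_apply, Finset.sum_eq_single j.castSucc]
  · rw [mA_apply, if_pos (show ((j.castSucc : Fin (k + 1)) : ℕ) = j from rfl), mul_one]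
  · intro b _ hb
    rw [mA_apply, if_neg (show ¬ (b : ℕ) = j from fun h => hb (Fin.ext h)), mul_zero]
  · intro h; exact absurd (Finset.mem_univ _) h

theorem mul_mB (g : Matrix (Fin (k + 1)) (Fin (k + 1)) F) (i : Fin (k + 1)) (j : Fin k) : (g * mB F k) i j = g i j.succ := by
  rw [Matrix.mul_apply, Finset.sum_eq_single j.succ]
  · rw [mB_apply, if_pos (show ((j.succ : Fin (k + 1)) : ℕ) = j + 1 from rfl), mul_one]
  · intro b _ hb
    rw [mB_apply, if_neg (show ¬ (b : ℕ) = j + 1 from fun h => hb (Fin.ext h)), mul_zero]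
  · intro h; exact absurd (Finset.mem_univ _) h

theorem mA_mul (g : Matrix (Fin k) (Fin k) F) (i : Fin (k + 1)) (j : Fin k) : (mA F k * g) i j = if h : (i : ℕ) < k then g ⟨i, h⟩ j else 0 := by
  rw [Matrix.mul_apply]
  by_cases h : (i : ℕ) < k
  · rw [dif_pos h, Finset.sum_eq_single ⟨i, h⟩]
    · rw [mA_apply, if_pos rfl, one_mul]
    · intro b _ hb
      rw [mA_apply, if_neg (fun h' => hb (Fin.ext h'.symm)), zero_mul]
    · intro h; exact absurd (Finset.mem_univ _) h
  · rw [dif_neg h]
    apply Finset.sum_eq_zero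
    intro b _
    rw [mA_apply, if_neg (by have := b.2; omega), zero_mul]

theorem mB_mul (g : Matrix (Fin k) (Fin k) F) (i : Fin (k + 1)) (j : Fin k) : (mB F k * g) i j = if h : 1 ≤ (i : ℕ) then g ⟨i - 1, by omega⟩ j else 0 := by
  rw [Matrix.mul_apply]
  by_cases h : 1 ≤ (i : ℕ)
  · rw [dif_pos h, Finset.sum_eq_single (⟨i - 1, by omega⟩ : Fin k)]
    · rw [mB_apply, if_pos (by change (i : ℕ) = i - 1 + 1; omega), one_mul]
    · intro b _ hb
      rw [mB_apply, if_neg (fun h' => hb (Fin.ext (by change (b : ℕ) = i - 1; omega))), zero_mul]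
    · intro h; exact absurd (Finset.mem_univ _) h
  · rw [dif_neg h]
    apply Finset.sum_eq_zero
    intro b _
    rw [mB_apply, if_neg (by omega), zero_mul]

/-- the brick property. -/
theorem brick (hk : 1 ≤ k) {g : Matrix (Fin k) (Fin k) F} {h : Matrix (Fin (k + 1)) (Fin (k + 1)) F} (hA : h * mA F k = mA F k * g) (hB : h * mB F k = mB F k * g) :
    ∃ c : F, g = c • 1 ∧ h = c • 1 := by
  have h1 : ∀ (i : Fin (k + 1)) (j : Fin k), h i j.castSucc = if h : (i : ℕ) < k then g ⟨i, h⟩ j else 0 := by
    intro i j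
    have := congrFun (congrFun hA i) j
    rw [mul_mA, mA_mul] at this
    exact this
  have h2 : ∀ (i : Fin (k + 1)) (j : Fin k), h i j.succ = if h : 1 ≤ (i : ℕ) then g ⟨i - 1, by omega⟩ j else 0 := by
    intro i j
    have := congrFun (congrFun hB i) j
    rw [mul_mB, mB_mul] at this
    exact this
  -- in terms of natural numbers
  obtain ⟨G, hG⟩ : ∃ G : ℕ → ℕ → F, ∀ (i j : Fin k), G i j = g i j := ⟨fun i j => if h : i < k ∧ j < k then g ⟨i, h.1⟩ ⟨j, h.2⟩ else 0, fun i j => by
    simp [i.2, j.2]⟩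
  have key : ∀ i j, i ≤ k → j + 1 < k → (if i < k then G i (j + 1) else 0) = if 1 ≤ i then G (i - 1) j else 0 := by
    intro i j hi hj
    have e1 := h1 ⟨i, by omega⟩ ⟨j + 1, hj⟩
    have e2 := h2 ⟨i, by omega⟩ ⟨j, by omega⟩
    have e3 : (⟨j + 1, hj⟩ : Fin k).castSucc = (⟨j, by omega⟩ : Fin k).succ := rfl
    rw [e3, e2] at e1
    by_cases ha : i < k
    · by_cases hb : 1 ≤ i
      · rw [if_pos ha, if_pos hb]
        rw [dif_pos hb, dif_pos ha] at e1
        rw [← hG, ← hG] at e1
        exact e1.symm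
      · rw [if_pos ha, if_neg hb]
        rw [dif_neg hb, dif_pos ha, ← hG] at e1
        exact e1.symm
    · by_cases hb : 1 ≤ i
      · rw [if_neg ha, if_pos hb]
        rw [dif_pos hb, dif_neg ha, ← hG] at e1
        exact e1.symm
      · omega
  have hup : ∀ j i, j < k → i < j → G i j = 0 := by
    intro j
    induction j with
    | zero => intro i _ hi; omega
    | succ j ih =>
      intro i hj hi
      have e := key i j (by omega) hj
      rw [if_pos (by omega)] at e
      rw [e]
      split_ifs with h3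
      · exact ih (i - 1) (by omega) (by omega)
      · rfl
  have hlow : ∀ n i j, k - 1 - i = n → i < k → j < i → G i j = 0 := by
    intro n
    induction n with
    | zero =>
      intro i j hn hi hj
      have e := key (i + 1) j (by omega) (by omega)
      rw [if_neg (by omega), if_pos (by omega), Nat.add_sub_cancel] at e
      exact e.symm
    | succ n ih =>
      intro i j hn hi hj
      have e := key (i + 1) j (by omega) (by omega)
      rw [if_pos (by omega), if_pos (by omega), Nat.add_sub_cancel] at e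
      rw [← e]
      exact ih (i + 1) (j + 1) (by omega) (by omega) (by omega)
  have hdiag : ∀ i, i < k → G i i = G 0 0 := by
    intro i
    induction i with
    | zero => intro _; rfl
    | succ i ih =>
      intro hi
      have e := key (i + 1) i (by omega) (by omega)
      rw [if_pos hi, if_pos (by omega), Nat.add_sub_cancel] at e
      rw [e, ih (by omega)]
  have hg : g = G 0 0 • 1 := by
    ext i j
    rw [← hG, Matrix.smul_apply, Matrix.one_apply, smul_eq_mul]
    rcases lt_trichotomy (i : ℕ) j with hij | hij | hij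
    · rw [hup j i j.2 hij, if_neg (fun h => by rw [h] at hij; omega), mul_zero]
    · have : i = j := Fin.ext hij
      subst this
      rw [if_pos rfl, mul_one, hdiag i i.2]
    · rw [hlow (k - 1 - i) i j rfl i.2 hij, if_neg (fun h => by rw [h] at hij; omega), mul_zero]
  refine ⟨G 0 0, hg, ?_⟩
  ext i j
  rw [Matrix.smul_apply, Matrix.one_apply, smul_eq_mul]
  by_cases hj : (j : ℕ) < k
  · have e := h1 i ⟨j, hj⟩
    have e2 : (⟨j, hj⟩ : Fin k).castSucc = j := rfl
    rw [e2] at e
    rw [e]
    by_cases hi : (i : ℕ) < k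
    · rw [dif_pos hi, hg, Matrix.smul_apply, Matrix.one_apply, smul_eq_mul]
      by_cases hij : i = j
      · subst hij; rw [if_pos rfl, if_pos rfl]
      · have hne : (⟨(i : ℕ), hi⟩ : Fin k) ≠ ⟨(j : ℕ), hj⟩ := fun h => hij (Fin.ext (Fin.mk.inj h))
        rw [if_neg hne, if_neg hij]
    · rw [dif_neg hi, if_neg (fun h => hi (by rw [h]; exact hj)), mul_zero]
  · have e := h2 i ⟨k - 1, by omega⟩
    have e2 : (⟨k - 1, by omega⟩ : Fin k).succ = j := Fin.ext (by change k - 1 + 1 = (j : ℕ); have := j.2; omega)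
    rw [e2] at e
    rw [e]
    by_cases hi : 1 ≤ (i : ℕ)
    · rw [dif_pos hi, hg, Matrix.smul_apply, Matrix.one_apply, smul_eq_mul]
      by_cases hij : i = j
      · subst hij
        rw [if_pos rfl, if_pos (Fin.ext (by change (i : ℕ) - 1 = k - 1; have := i.2; omega))]
      · rw [if_neg hij, if_neg]
        intro h
        apply hij
        have h3 : (i : ℕ) - 1 = k - 1 := congrArg Fin.val h
        exact Fin.ext (by have := j.2; omega)
    · rw [dif_neg hi, if_neg, mul_zero]
      rintro rfl
      omega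

end Cfsg.Agent.H16.Kr
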