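import Cfsg.Agent.H16_Kr1

set_option autoImplicit false

/-! A group of order `2 p ^ 3` with Kronecker modules. -/

namespace Cfsg.Agent.H16.Kr

open Matrix

variable (p : ℕ) [Fact p.Prime]

abbrev V := Fin 3 → ZMod p

/-- the inverting action. -/
def act : ℤˣ →* MulAut (Multiplicative (V p)) where
  toFun ε :=
    { toFun := fun v => Multiplicative.ofAdd ((ε : ℤ) • Multiplicative.toAdd v)
      invFun := fun v => Multiplicative.ofAdd ((ε : ℤ) • Multiplicative.toAdd v)
      left_inv := fun v => by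
        apply Multiplicative.toAdd.injective
        rw [toAdd_ofAdd, toAdd_ofAdd, smul_smul, ← Units.val_mul, Int.units_mul_self, Units.val_one, one_smul]
      right_inv := fun v => by
        apply Multiplicative.toAdd.injective
        rw [toAdd_ofAdd, toAdd_ofAdd, smul_smul, ← Units.val_mul, Int.units_mul_self, Units.val_one, one_smul]
      map_mul' := fun v w => by
        apply Multiplicative.toAdd.injective
        change (ε : ℤ) • (Multiplicative.toAdd v + Multiplicative.toAdd w) = (ε : ℤ) • Multiplicative.toAdd v + (ε : ℤ) • Multiplicative.toAdd w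
        exact smul_add _ _ _ }
  map_one' := by
    ext v
    simp
  map_mul' ε δ := by
    apply MulEquiv.ext
    intro v
    apply Multiplicative.toAdd.injective
    change ((ε * δ : ℤˣ) : ℤ) • Multiplicative.toAdd v = (ε : ℤ) • ((δ : ℤ) • Multiplicative.toAdd v)
    rw [smul_smul, Units.val_mul]

theorem act_apply (ε : ℤˣ) (v : V p) : act p ε (Multiplicative.ofAdd v) = Multiplicative.ofAdd ((ε : ℤ) • v) := rfl

abbrev HH := Multiplicative (V p) ⋊[act p] ℤˣ

theorem card_HH : Nat.card (HH p) = 2 * p ^ 3 := by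
  rw [SemidirectProduct.card]
  have h1 : Nat.card (Multiplicative (V p)) = p ^ 3 := by
    rw [Nat.card_congr Multiplicative.toAdd, Nat.card_fun, Nat.card_zmod, Nat.card_eq_fintype_card, Fintype.card_fin]
  have h2 : Nat.card ℤˣ = 2 := by
    rw [Nat.card_eq_fintype_card]; rfl
  rw [h1, h2, mul_comm]

variable {p} {k : ℕ}

/-- the nilpotent part. -/
def X (k : ℕ) (v : V p) : Matrix (Fin (k + 1)) (Fin k) (ZMod p) := v 0 • mA (ZMod p) k + v 1 • mB (ZMod p) k + v 2 • mC (ZMod p) k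

theorem X_add (v w : V p) : X k (v + w) = X k v + X k w := by
  rw [X, X, X, Pi.add_apply, Pi.add_apply, Pi.add_apply, add_smul, add_smul, add_smul]
  abel

theorem X_smul (c : ZMod p) (v : V p) : X k (c • v) = c • X k v := by
  rw [X, X, Pi.smul_apply, Pi.smul_apply, Pi.smul_apply, smul_add, smul_add, smul_eq_mul, smul_eq_mul, smul_eq_mul, mul_smul, mul_smul, mul_smul]

theorem X_inj (hk : 2 ≤ k) {v : V p} (h : X k v = 0) : v = 0 := by
  have e : ∀ i j, X k v i j = v 0 * (if (i : ℕ) = j then 1 else 0) + v 1 * (if (i : ℕ) = j + 1 then 1 else 0) + v 2 * (if (i : ℕ) = k ∧ (j : ℕ) = 0 then 1 else 0) := by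
    intro i j
    rw [X, Matrix.add_apply, Matrix.add_apply, Matrix.smul_apply, Matrix.smul_apply, Matrix.smul_apply, mA_apply, mB_apply, mC_apply, smul_eq_mul, smul_eq_mul, smul_eq_mul]
  have h0 : v 0 = 0 := by
    have h1 := e ⟨1, by omega⟩ ⟨1, by omega⟩
    rw [h, Matrix.zero_apply, if_pos rfl, if_neg (by change ¬ (1 = 1 + 1); omega), if_neg (by rintro ⟨-, h⟩; change 1 = 0 at h; omega)] at h1
    rw [mul_one, mul_zero, mul_zero, add_zero, add_zero] at h1
    exact h1.symm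
  have h1 : v 1 = 0 := by
    have h1 := e ⟨2, by omega⟩ ⟨1, by omega⟩
    rw [h, Matrix.zero_apply, if_neg (by change ¬ (2 = 1); omega), if_pos rfl, if_neg (by rintro ⟨-, h⟩; change 1 = 0 at h; omega)] at h1
    rw [mul_one, mul_zero, mul_zero, zero_add, add_zero] at h1
    exact h1.symm
  have h2 : v 2 = 0 := by
    have h2 := e ⟨k, by omega⟩ ⟨0, by omega⟩
    rw [h, Matrix.zero_apply, h0, h1, if_pos (show ((⟨k, by omega⟩ : Fin (k + 1)) : ℕ) = k ∧ ((⟨0, by omega⟩ : Fin k) : ℕ) = 0 from ⟨rfl, rfl⟩), zero_mul, zero_mul, zero_add, zero_add, mul_one] at h2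
    exact h2.symm
  funext i
  fin_cases i
  · exact h0
  · exact h1
  · exact h2

/-- the unipotent part of the representation. -/
def f1 (k : ℕ) : Multiplicative (V p) →* Matrix.SpecialLinearGroup (Fin k ⊕ Fin (k + 1)) (ZMod p) where
  toFun v := ⟨Matrix.fromBlocks 1 0 (X k (Multiplicative.toAdd v)) 1, by rw [Matrix.det_fromBlocks_zero₁₂, Matrix.det_one, Matrix.det_one, mul_one]⟩
  map_one' := by
    apply Subtype.ext
    change Matrix.fromBlocks 1 0 (X k 0) 1 = (1 : Matrix (Fin k ⊕ Fin (k + 1)) (Fin k ⊕ Fin (k + 1)) (ZMod p))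
    have : X k (0 : V p) = 0 := by
      have := X_smul (k := k) (0 : ZMod p) (0 : V p)
      rwa [zero_smul, zero_smul] at this
    rw [this, Matrix.fromBlocks_one]
  map_mul' v w := by
    apply Subtype.ext
    change Matrix.fromBlocks 1 0 (X k (Multiplicative.toAdd v + Multiplicative.toAdd w)) 1 =
      (Matrix.fromBlocks 1 0 (X k (Multiplicative.toAdd v)) 1 * Matrix.fromBlocks 1 0 (X k (Multiplicative.toAdd w)) 1 : Matrix (Fin k ⊕ Fin (k + 1)) (Fin k ⊕ Fin (k + 1)) (ZMod p))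
    rw [Matrix.fromBlocks_multiply, X_add]
    congr 1 <;> simp

/-- the involution part of the representation. -/
def f2 (hk : Even k) : ℤˣ →* Matrix.SpecialLinearGroup (Fin k ⊕ Fin (k + 1)) (ZMod p) where
  toFun ε := ⟨Matrix.fromBlocks (((ε : ℤ) : ZMod p) • 1) 0 0 1, by
    rw [Matrix.det_fromBlocks_zero₁₂, Matrix.det_smul, Matrix.det_one, Matrix.det_one, mul_one, mul_one, Fintype.card_fin]
    obtain ⟨s, hs⟩ := hk
    rw [hs, ← two_mul, pow_mul, sq, ← Int.cast_mul, ← Units.val_mul, Int.units_mul_self, Units.val_one, Int.cast_one, one_pow]⟩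
  map_one' := by
    apply Subtype.ext
    change Matrix.fromBlocks ((((1 : ℤˣ) : ℤ) : ZMod p) • 1) 0 0 1 = (1 : Matrix (Fin k ⊕ Fin (k + 1)) (Fin k ⊕ Fin (k + 1)) (ZMod p))
    rw [Units.val_one, Int.cast_one, one_smul, Matrix.fromBlocks_one]
  map_mul' ε δ := by
    apply Subtype.ext
    change Matrix.fromBlocks ((((ε * δ : ℤˣ) : ℤ) : ZMod p) • 1) 0 0 1 =
      (Matrix.fromBlocks (((ε : ℤ) : ZMod p) • 1) 0 0 1 * Matrix.fromBlocks (((δ : ℤ) : ZMod p) • 1) 0 0 1 : Matrix (Fin k ⊕ Fin (k + 1)) (Fin k ⊕ Fin (k + 1)) (ZMod p))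
    rw [Matrix.fromBlocks_multiply]
    congr 1
    · rw [Matrix.zero_mul, add_zero, Matrix.smul_mul, Matrix.one_mul, smul_smul, Units.val_mul, Int.cast_mul]
    · simp
    · simp
    · simp

theorem f1_coe (v : V p) : (f1 k (Multiplicative.ofAdd v)).1 = Matrix.fromBlocks 1 0 (X k v) 1 := rfl
theorem f2_coe (hk : Even k) (ε : ℤˣ) : (f2 (p := p) hk ε).1 = Matrix.fromBlocks (((ε : ℤ) : ZMod p) • 1) 0 0 1 := rfl

/-- the representation. -/
noncomputable def ff (hk : Even k) : HH p →* Matrix.SpecialLinearGroup (Fin k ⊕ Fin (k + 1)) (ZMod p) :=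
  SemidirectProduct.lift (f1 k) (f2 hk) (by
    intro ε
    refine MonoidHom.ext fun v => ?_
    obtain ⟨w, rfl⟩ := Multiplicative.ofAdd.surjective v
    change f1 k (act p ε (Multiplicative.ofAdd w)) = f2 hk ε * f1 k (Multiplicative.ofAdd w) * (f2 hk ε)⁻¹
    rw [act_apply, eq_mul_inv_iff_mul_eq]
    apply Subtype.ext
    change (f1 k (Multiplicative.ofAdd ((ε : ℤ) • w))).1 * (f2 hk ε).1 = (f2 hk ε).1 * (f1 k (Multiplicative.ofAdd w)).1
    rw [f1_coe, f1_coe, f2_coe, Matrix.fromBlocks_multiply, Matrix.fromBlocks_multiply]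
    have e1 : ((ε : ℤ) • w : V p) = ((ε : ℤ) : ZMod p) • w := by
      rw [Int.cast_smul_eq_zsmul]
    rw [e1, X_smul]
    congr 1
    · simp
    · simp
    · simp only [Matrix.mul_smul, Matrix.mul_one, Matrix.zero_mul, add_zero, zero_add, Matrix.one_mul]
      rw [smul_smul, ← Int.cast_mul, ← Units.val_mul, Int.units_mul_self, Units.val_one, Int.cast_one, one_smul]
    · simp)

theorem ff_inl (hk : Even k) (v : V p) : (ff hk (SemidirectProduct.inl (Multiplicative.ofAdd v))).1 = Matrix.fromBlocks 1 0 (X k v) 1 := by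
  rw [ff, SemidirectProduct.lift_inl, f1_coe]

theorem ff_inr (hk : Even k) (ε : ℤˣ) : (ff (p := p) hk (SemidirectProduct.inr ε)).1 = Matrix.fromBlocks (((ε : ℤ) : ZMod p) • 1) 0 0 1 := by
  rw [ff, SemidirectProduct.lift_inr, f2_coe]

theorem ff_apply (hk : Even k) (v : V p) (ε : ℤˣ) : (ff hk ⟨Multiplicative.ofAdd v, ε⟩).1 =
    Matrix.fromBlocks (((ε : ℤ) : ZMod p) • 1) 0 (((ε : ℤ) : ZMod p) • X k v) 1 := by
  have h1 : (⟨Multiplicative.ofAdd v, ε⟩ : HH p) = SemidirectProduct.inl (Multiplicative.ofAdd v) * SemidirectProduct.inr ε :=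
    (SemidirectProduct.inl_left_mul_inr_right _).symm
  rw [h1, _root_.map_mul]
  change (ff hk (SemidirectProduct.inl (Multiplicative.ofAdd v))).1 * (ff hk (SemidirectProduct.inr ε)).1 = _
  rw [ff_inl, ff_inr, Matrix.fromBlocks_multiply]
  congr 1 <;> simp

/-- the scalar ambiguity is trivial and the centralizer consists of scalars. -/
theorem cent (hp : p ≠ 2) (hk : Even k) (hk2 : 2 ≤ k) {g : Matrix.SpecialLinearGroup (Fin k ⊕ Fin (k + 1)) (ZMod p)}
    (h : ∀ x : HH p, ∃ l : ZMod p, g.1 * (ff hk x).1 = l • ((ff hk x).1 * g.1)) : ∃ c : ZMod p, g.1 = c • 1 := by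
  have h2 : (2 : ZMod p) ≠ 0 := by
    intro h
    have h1 := (ZMod.natCast_eq_zero_iff 2 p).mp (by exact_mod_cast h)
    exact hp ((Nat.prime_dvd_prime_iff_eq Fact.out Nat.prime_two).mp h1)
  have hgi : g.1 * (g⁻¹).1 = 1 := congrArg Subtype.val (mul_inv_cancel g)
  have hgi' : (g⁻¹).1 * g.1 = 1 := congrArg Subtype.val (inv_mul_cancel g)
  -- the involution
  have ht : g.1 * Matrix.fromBlocks (-1) 0 0 1 = Matrix.fromBlocks (-1) 0 0 1 * g.1 := by
    obtain ⟨l, hl⟩ := h (SemidirectProduct.inr (-1))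
    rw [ff_inr] at hl
    have e1 : (((-1 : ℤˣ) : ℤ) : ZMod p) • (1 : Matrix (Fin k) (Fin k) (ZMod p)) = -1 := by
      rw [Units.val_neg, Units.val_one, Int.cast_neg, Int.cast_one, neg_smul, one_smul]
    rw [e1] at hl
    have e2 : g.1 * Matrix.fromBlocks (-1) 0 0 1 * (g⁻¹).1 = l • Matrix.fromBlocks (-1) 0 0 1 := by
      rw [hl, Matrix.smul_mul, mul_assoc, hgi, mul_one]
    have e3 : Matrix.trace (g.1 * Matrix.fromBlocks (-1) 0 0 1 * (g⁻¹).1) = Matrix.trace (Matrix.fromBlocks (-1) 0 0 1 : Matrix (Fin k ⊕ Fin (k + 1)) (Fin k ⊕ Fin (k + 1)) (ZMod p)) := by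
      rw [Matrix.trace_mul_comm, ← mul_assoc, hgi', one_mul]
    have e4 : Matrix.trace (Matrix.fromBlocks (-1) 0 0 1 : Matrix (Fin k ⊕ Fin (k + 1)) (Fin k ⊕ Fin (k + 1)) (ZMod p)) = 1 := by
      rw [Matrix.trace, Fintype.sum_sum_type]
      simp only [Matrix.diag_apply, Matrix.fromBlocks_apply₁₁, Matrix.fromBlocks_apply₂₂, Matrix.neg_apply, Matrix.one_apply_eq, Finset.sum_const,
        Finset.card_univ, Fintype.card_fin, nsmul_eq_mul]
      push_cast
      ring
    rw [e2, Matrix.trace_smul, e4, smul_eq_mul, mul_one] at e3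
    rw [hl, e3, one_smul]
  have hu : ∀ v : V p, g.1 * Matrix.fromBlocks 1 0 (X k v) 1 = Matrix.fromBlocks 1 0 (X k v) 1 * g.1 := by
    intro v
    obtain ⟨l, hl⟩ := h (SemidirectProduct.inl (Multiplicative.ofAdd v))
    rw [ff_inl] at hl
    obtain ⟨U, hU⟩ : ∃ U : Matrix (Fin k ⊕ Fin (k + 1)) (Fin k ⊕ Fin (k + 1)) (ZMod p), U = Matrix.fromBlocks 1 0 (X k v) 1 := ⟨_, rfl⟩
    rw [← hU] at hl ⊢
    have hUp : U ^ p = 1 := by
      have e1 : (f1 k (Multiplicative.ofAdd v)) ^ p = 1 := by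
        rw [← _root_.map_pow, ← ofAdd_nsmul]
        have : p • v = 0 := by
          funext i
          rw [Pi.smul_apply, nsmul_eq_mul, CharP.cast_eq_zero, zero_mul, Pi.zero_apply]
        rw [this, ofAdd_zero, _root_.map_one]
      have e2 := congrArg Subtype.val e1
      rw [Matrix.SpecialLinearGroup.coe_pow, f1_coe, ← hU] at e2
      exact e2
    have e2 : g.1 * U * (g⁻¹).1 = l • U := by
      rw [hl, Matrix.smul_mul, mul_assoc, hgi, mul_one]
    have e3 : ∀ n : ℕ, (g.1 * U * (g⁻¹).1) ^ n = g.1 * U ^ n * (g⁻¹).1 := by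
      intro n
      induction n with
      | zero => rw [pow_zero, pow_zero, mul_one, hgi]
      | succ n ih =>
        rw [pow_succ, ih, pow_succ]
        calc g.1 * U ^ n * (g⁻¹).1 * (g.1 * U * (g⁻¹).1) = g.1 * U ^ n * ((g⁻¹).1 * g.1) * U * (g⁻¹).1 := by simp only [mul_assoc]
          _ = _ := by rw [hgi', mul_one]; simp only [mul_assoc]
    have e4 := e3 p
    rw [hUp, mul_one, hgi, e2, smul_pow, hUp, ZMod.pow_card] at e4
    have e5 := congrFun (congrFun e4 (Sum.inr 0)) (Sum.inr 0)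
    rw [Matrix.smul_apply, Matrix.one_apply_eq, smul_eq_mul, mul_one] at e5
    rw [hl, e5, one_smul]
  obtain ⟨a, b, c, d, hg⟩ : ∃ a b c d, g.1 = Matrix.fromBlocks a b c d := ⟨_, _, _, _, (Matrix.fromBlocks_toBlocks g.1).symm⟩
  have hneg : ∀ {m n : ℕ} (M : Matrix (Fin m) (Fin n) (ZMod p)), M = -M → M = 0 := by
    intro m n M hM
    ext i j
    have h3 := congrFun (congrFun hM i) j
    rw [Matrix.neg_apply] at h3
    have h4 : 2 * M i j = 0 := by linear_combination h3
    exact (mul_eq_zero.mp h4).resolve_left h2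
  rw [hg, Matrix.fromBlocks_multiply, Matrix.fromBlocks_multiply] at ht
  obtain ⟨-, hb, hc, -⟩ := Matrix.fromBlocks_inj.mp ht
  have hb0 : b = 0 := by
    apply hneg
    simpa using hb
  have hc0 : c = 0 := by
    apply hneg
    have : -c = c := by simpa using hc
    exact this.symm
  subst hb0 hc0
  have hX : ∀ v : V p, d * X k v = X k v * a := by
    intro v
    have h3 := hu v
    rw [hg, Matrix.fromBlocks_multiply, Matrix.fromBlocks_multiply] at h3
    obtain ⟨-, -, h4, -⟩ := Matrix.fromBlocks_inj.mp h3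
    simpa using h4
  have hA := hX (Pi.single 0 1)
  have hB := hX (Pi.single 1 1)
  have eA : X k (Pi.single 0 1 : V p) = mA (ZMod p) k := by
    rw [X]; simp
  have eB : X k (Pi.single 1 1 : V p) = mB (ZMod p) k := by
    rw [X]; simp
  rw [eA] at hA
  rw [eB] at hB
  obtain ⟨l, ha, hd⟩ := brick (by omega) hA hB
  refine ⟨l, ?_⟩
  rw [hg, ha, hd, ← Matrix.fromBlocks_one, Matrix.fromBlocks_smul, smul_zero, smul_zero]

end Cfsg.Agent.H16.Kr
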