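import Mathlib

set_option autoImplicit false

/-! Lang's theorem for `GL_n`: semilinear bijections have bases of fixed vectors. -/

namespace Cfsg.Agent.H16.Lang

open Polynomial Module

variable {K : Type*} [Field K]

/-- the recursively defined polynomials. -/
noncomputable def pp (q : ℕ) (a : ℕ → K) : ℕ → K[X]
  | 0 => C (a 0) * X ^ q
  | i + 1 => pp q a i ^ q + C (a (i + 1)) * X ^ q

theorem pp_dvd {q : ℕ} (hq : 2 ≤ q) (a : ℕ → K) (i : ℕ) : X ^ 2 ∣ pp q a i := by
  have h1 : (X ^ 2 : K[X]) ∣ X ^ q := pow_dvd_pow _ hq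
  induction i with
  | zero => exact h1.mul_left _
  | succ i ih =>
    refine dvd_add ?_ (h1.mul_left _)
    exact dvd_pow ih (by omega)

theorem pp_eq_zero {q : ℕ} (hq : 2 ≤ q) (a : ℕ → K) (i : ℕ) (h : pp q a i = 0) : ∀ j ≤ i, a j = 0 := by
  induction i with
  | zero =>
    intro j hj
    obtain rfl : j = 0 := by omega
    rw [pp, mul_eq_zero, C_eq_zero] at h
    exact h.resolve_right (pow_ne_zero _ X_ne_zero)
  | succ i ih =>
    have h1 : a (i + 1) = 0 := by
      have h2 := congrArg (fun p => coeff p q) h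
      simp only [pp, coeff_add, coeff_C_mul, coeff_X_pow, if_true, mul_one, coeff_zero] at h2
      have h3 : (X ^ (2 * q) : K[X]) ∣ pp q a i ^ q := by
        rw [pow_mul]
        exact pow_dvd_pow_of_dvd (pp_dvd hq a i) q
      have h4 : (pp q a i ^ q).coeff q = 0 := (X_pow_dvd_iff.mp h3) q (by omega)
      rw [h4, zero_add] at h2
      exact h2
    rw [pp, h1, C_0, zero_mul, add_zero] at h
    have h2 := ih (pow_eq_zero_iff (by omega) |>.mp h)
    intro j hj
    rcases Nat.lt_or_ge j (i + 1) with h3 | h3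
    · exact h2 j (by omega)
    · obtain rfl : j = i + 1 := by omega
      exact h1

/-- a nonzero solution. -/
theorem exists_y [IsAlgClosed K] {q : ℕ} (hq : 2 ≤ q) (a : ℕ → K) (m : ℕ)
    (ha : ∃ j ≤ m, a j ≠ 0) : ∃ y : K, y ≠ 0 ∧ (pp q a m).eval y = y := by
  have h0 : (X : K[X]) ∣ pp q a m := (dvd_pow_self X two_ne_zero).trans (pp_dvd hq a m)
  obtain ⟨r, hr⟩ := pp_dvd hq a m
  -- `pp - X = X (X r - 1)`
  have h1 : ∃ y : K, (X * r - 1 : K[X]).IsRoot y := by
    apply IsAlgClosed.exists_root
    intro h2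
    have h3 := eq_C_of_degree_eq_zero h2
    have h4 := congrArg (fun p => coeff p 0) h3
    simp at h4
    have h5 : X * r = (0 : K[X]) := by
      have h6 : (X * r - 1 : K[X]) = C (-1) := by
        rw [h3]
        congr 1
        simp
      have h7 : (X * r : K[X]) = C (-1) + 1 := by rw [← h6]; ring
      rw [h7, C_neg, C_1, neg_add_cancel]
    obtain ⟨j, hj, hj'⟩ := ha
    apply hj'
    apply pp_eq_zero hq a m _ j hj
    rw [hr, pow_two, mul_assoc, h5, mul_zero]
  obtain ⟨y, hy⟩ := h1
  rw [IsRoot, eval_sub, eval_mul, eval_X, eval_one, sub_eq_zero] at hy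
  refine ⟨y, ?_, ?_⟩
  · rintro rfl
    rw [zero_mul] at hy
    exact zero_ne_one hy
  · rw [hr, eval_mul, eval_pow, eval_X, pow_two, mul_assoc, hy, mul_one]

theorem exists_fixed [IsAlgClosed K] {q : ℕ} (hq : 2 ≤ q) {φ : K →+* K} (hφ : ∀ x, φ x = x ^ q)
    {V : Type*} [AddCommGroup V] [Module K V] [FiniteDimensional K V] [Nontrivial V] (T : V →ₛₗ[φ] V)
    (hT : Function.Injective T) : ∃ w : V, w ≠ 0 ∧ T w = w := by
  classical
  obtain ⟨v, hv⟩ := exists_ne (0 : V)
  let t : ℕ → V := fun i => T^[i] v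
  have ht : ∀ i, T (t i) = t (i + 1) := fun i => (Function.iterate_succ_apply' T i v).symm
  have ht0 : ∀ i, t i ≠ 0 := by
    intro i
    induction i with
    | zero => exact hv
    | succ i ih =>
      rw [← ht]
      intro h
      exact ih (hT (by rw [h, _root_.map_zero]))
  have hex : ∃ m, t m ∈ Submodule.span K (t '' Set.Iio m) := by
    have hmono : Monotone (fun m => Submodule.span K (t '' Set.Iio m)) := fun i j hij =>
      Submodule.span_mono (Set.image_mono (Set.Iio_subset_Iio hij))
    obtain ⟨m, hm⟩ := (monotone_stabilizes_iff_noetherian (R := K) (M := V)).mpr inferInstance ⟨_, hmono⟩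
    refine ⟨m, ?_⟩
    have h1 := hm (m + 1) (by omega)
    change Submodule.span K (t '' Set.Iio m) = Submodule.span K (t '' Set.Iio (m + 1)) at h1
    rw [h1]
    exact Submodule.subset_span ⟨m, by simp, rfl⟩
  have hm := Nat.find_spec hex
  have hmin := fun k (hk : k < Nat.find hex) => Nat.find_min hex hk
  obtain ⟨m, hm0⟩ : ∃ m, m = Nat.find hex := ⟨_, rfl⟩
  rw [← hm0] at hm hmin
  clear hm0
  rcases m with _ | k
  · exfalso
    have : (t '' Set.Iio 0) = ∅ := by simp
    rw [this, Submodule.span_empty, Submodule.mem_bot] at hm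
    exact ht0 0 hm
  have hsum : ∃ a : ℕ → K, t (k + 1) = ∑ i ∈ Finset.range (k + 1), a i • t i := by
    have h1 : Set.Iio (k + 1) = ((Finset.range (k + 1) : Finset ℕ) : Set ℕ) := by
      ext i; simp
    rw [h1, Submodule.mem_span_image_finset_iff_exists_fun] at hm
    obtain ⟨a, ha⟩ := hm
    refine ⟨fun i => if h : i ∈ Finset.range (k + 1) then a ⟨i, h⟩ else 0, ?_⟩
    rw [← ha, ← Finset.sum_coe_sort (Finset.range (k + 1))]
    refine Finset.sum_congr rfl fun i _ => ?_
    change _ = (if h : (i : ℕ) ∈ Finset.range (k + 1) then a ⟨i, h⟩ else 0) • t i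
    rw [dif_pos i.2]
  obtain ⟨a, ha⟩ := hsum
  obtain ⟨y, hy0, hy⟩ := exists_y hq a k (by
    by_contra hcon
    push Not at hcon
    apply ht0 (k + 1)
    rw [ha]
    refine Finset.sum_eq_zero fun i hi => ?_
    rw [hcon i (by rw [Finset.mem_range] at hi; omega), zero_smul])
  refine ⟨∑ i ∈ Finset.range (k + 1), (pp q a i).eval y • t i, ?_, ?_⟩
  · intro h
    apply hmin k (by omega)
    rw [Finset.sum_range_succ, hy] at h
    have h1 : t k = (-y⁻¹) • ∑ i ∈ Finset.range k, (pp q a i).eval y • t i := by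
      rw [neg_smul, eq_neg_iff_add_eq_zero, ← smul_right_injective V hy0 |>.eq_iff]
      simp only [smul_add, smul_smul, mul_inv_cancel₀ hy0, one_smul, smul_zero]
      rw [add_comm]
      exact h
    rw [h1]
    refine Submodule.smul_mem _ _ (Submodule.sum_mem _ fun i hi => Submodule.smul_mem _ _ (Submodule.subset_span ⟨i, ?_, rfl⟩))
    exact Finset.mem_range.mp hi
  · rw [_root_.map_sum]
    simp only [LinearMap.map_smulₛₗ, ht]
    rw [Finset.sum_range_succ, ha, hy, Finset.smul_sum, Finset.sum_range_succ', Finset.sum_range_succ' (fun i => eval y (pp q a i) • t i)]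
    rw [← add_assoc, ← Finset.sum_add_distrib]
    congr 1
    · refine Finset.sum_congr rfl fun i _ => ?_
      rw [smul_smul, ← add_smul, pp, eval_add, eval_pow, eval_mul, eval_C, eval_pow, eval_X, hφ, hφ]
      congr 1
      ring
    · rw [smul_smul, pp, eval_mul, eval_C, eval_pow, eval_X, hφ, mul_comm]

/-- the fixed vectors span. -/
theorem span_fixed [IsAlgClosed K] {q : ℕ} (hq : 2 ≤ q) {φ : K →+* K} (hφ : ∀ x, φ x = x ^ q)
    {V : Type*} [AddCommGroup V] [Module K V] [FiniteDimensional K V] (T : V →ₛₗ[φ] V)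
    (hT : Function.Injective T) : Submodule.span K {v : V | T v = v} = ⊤ := by
  classical
  set W := Submodule.span K {v : V | T v = v} with hW
  by_contra hne
  have hTW : ∀ w ∈ W, T w ∈ W := by
    intro w hw
    induction hw using Submodule.span_induction with
    | mem x hx => rw [hx]; exact Submodule.subset_span hx
    | zero => rw [_root_.map_zero]; exact zero_mem _
    | add x y _ _ hx hy => rw [_root_.map_add]; exact add_mem hx hy
    | smul a x _ hx => rw [LinearMap.map_smulₛₗ]; exact Submodule.smul_mem _ _ hx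
  have hTs : ∀ w ∈ W, ∃ u ∈ W, T u = w := by
    intro w hw
    induction hw using Submodule.span_induction with
    | mem x hx => exact ⟨x, Submodule.subset_span hx, hx⟩
    | zero => exact ⟨0, zero_mem _, _root_.map_zero _⟩
    | add x y _ _ hx hy =>
      obtain ⟨u, hu, rfl⟩ := hx
      obtain ⟨u', hu', rfl⟩ := hy
      exact ⟨u + u', add_mem hu hu', _root_.map_add _ _ _⟩
    | smul a x _ hx =>
      obtain ⟨u, hu, rfl⟩ := hx
      obtain ⟨b, hb⟩ := IsAlgClosed.exists_pow_nat_eq a (n := q) (by omega)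
      exact ⟨b • u, Submodule.smul_mem _ _ hu, by rw [LinearMap.map_smulₛₗ, hφ, hb]⟩
  -- corrections
  have hcor' : ∀ w ∈ W, ∀ a : K, ∃ u ∈ W, a • w = u - T u := by
    intro w hw
    induction hw using Submodule.span_induction with
    | mem x hx =>
      intro a
      obtain ⟨z, hz⟩ := IsAlgClosed.exists_root (X ^ q - X + C a) (by
        intro h
        have h1 := natDegree_eq_zero_iff_degree_le_zero.mpr h.le
        rw [natDegree_add_C, FiniteField.X_pow_card_sub_X_natDegree_eq K (by omega)] at h1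
        omega)
      rw [IsRoot, eval_add, eval_sub, eval_pow, eval_X, eval_C] at hz
      refine ⟨z • x, Submodule.smul_mem _ _ (Submodule.subset_span hx), ?_⟩
      have hx' : T x = x := hx
      rw [LinearMap.map_smulₛₗ, hx', hφ, ← sub_smul]
      congr 1
      linear_combination hz
    | zero => intro a; exact ⟨0, zero_mem _, by rw [_root_.map_zero, sub_zero, smul_zero]⟩
    | add x y _ _ hx hy =>
      intro a
      obtain ⟨u, hu, h1⟩ := hx a
      obtain ⟨u', hu', h2⟩ := hy a
      exact ⟨u + u', add_mem hu hu', by rw [_root_.map_add, smul_add, h1, h2]; abel⟩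
    | smul b x _ hx =>
      intro a
      rw [smul_smul]
      exact hx _
  have hcor : ∀ w ∈ W, ∃ u ∈ W, w = u - T u := by
    intro w hw
    have := hcor' w hw 1
    rwa [one_smul] at this
  have hle : W ≤ W.comap T := hTW
  let T' : (V ⧸ W) →ₛₗ[φ] (V ⧸ W) := W.mapQ W T hle
  have hT' : Function.Injective T' := by
    rw [injective_iff_map_eq_zero]
    intro x hx
    obtain ⟨v, rfl⟩ := Submodule.mkQ_surjective W x
    rw [Submodule.mkQ_apply, Submodule.mapQ_apply, Submodule.Quotient.mk_eq_zero] at hx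
    obtain ⟨u, hu, hu'⟩ := hTs _ hx
    rw [Submodule.mkQ_apply, Submodule.Quotient.mk_eq_zero, ← hT hu']
    exact hu
  have hnt : Nontrivial (V ⧸ W) := Submodule.Quotient.nontrivial_iff.mpr hne
  obtain ⟨x, hx0, hx⟩ := exists_fixed hq hφ T' hT'
  obtain ⟨v, rfl⟩ := Submodule.mkQ_surjective W x
  rw [Submodule.mkQ_apply, Submodule.mapQ_apply, Submodule.Quotient.eq] at hx
  obtain ⟨u, hu, hu'⟩ := hcor _ hx
  apply hx0
  rw [Submodule.mkQ_apply, Submodule.Quotient.mk_eq_zero]
  have h1 : T (v + u) = v + u := by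
    rw [_root_.map_add]
    have : T v = v + (u - T u) := by rw [← hu']; abel
    rw [this]
    abel
  have h2 : v = (v + u) - u := by abel
  rw [h2]
  exact sub_mem (Submodule.subset_span h1) hu

/-- Lang's theorem for `GL_n`. -/
theorem lang [IsAlgClosed K] {q : ℕ} (hq : 2 ≤ q) {φ : K →+* K} (hφ : ∀ x, φ x = x ^ q) {n : ℕ}
    (g : Matrix.GeneralLinearGroup (Fin n) K) : ∃ x : Matrix.GeneralLinearGroup (Fin n) K,
      g = x * (Matrix.GeneralLinearGroup.map φ x)⁻¹ := by
  classical
  let T : (Fin n → K) →ₛₗ[φ] (Fin n → K) :=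
    { toFun := fun v => (g : Matrix (Fin n) (Fin n) K).mulVec (fun i => φ (v i))
      map_add' := fun v w => by
        rw [← Matrix.mulVec_add]
        congr 1
        funext i
        exact _root_.map_add φ _ _
      map_smul' := fun c v => by
        rw [← Matrix.mulVec_smul]
        congr 1
        funext i
        exact _root_.map_mul φ _ _ }
  have hT0 : ∀ v, T v = (g : Matrix (Fin n) (Fin n) K).mulVec (fun i => φ (v i)) := fun v => rfl
  have hT : Function.Injective T := by
    intro v w h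
    rw [hT0, hT0] at h
    have h1 := congrArg ((g⁻¹ : Matrix.GeneralLinearGroup (Fin n) K) : Matrix (Fin n) (Fin n) K).mulVec h
    rw [Matrix.mulVec_mulVec, Matrix.mulVec_mulVec, ← Units.val_mul, inv_mul_cancel, Units.val_one, Matrix.one_mulVec,
      Matrix.one_mulVec] at h1
    funext i
    exact φ.injective (congrFun h1 i)
  have hs := span_fixed hq hφ T hT
  let b₀ := Basis.ofSpan hs.ge
  have hb₀ : ∀ i, T (b₀ i) = b₀ i := fun i => Basis.ofSpan_subset hs.ge ⟨i, rfl⟩
  let b : Basis (Fin n) K (Fin n → K) := b₀.reindex (b₀.indexEquiv (Pi.basisFun K (Fin n)))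
  have hb : ∀ i, T (b i) = b i := by
    intro i
    rw [Basis.reindex_apply]
    exact hb₀ _
  let i1 := (Pi.basisFun K (Fin n)).invertibleToMatrix b
  let x : Matrix.GeneralLinearGroup (Fin n) K := unitOfInvertible ((Pi.basisFun K (Fin n)).toMatrix b)
  have hx : ∀ i j, (x : Matrix (Fin n) (Fin n) K) i j = b j i := fun i j => rfl
  refine ⟨x, ?_⟩
  rw [eq_mul_inv_iff_mul_eq]
  apply Units.ext
  ext i j
  rw [hx, ← hb j]
  rfl

end Cfsg.Agent.H16.Lang
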