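import Cfsg.Agent.H16_Adj

/-! The subgroup generated by one class of reflections. -/

set_option autoImplicit false
set_option linter.unusedSectionVars false

namespace Cfsg.Agent.H16.Quad

open Module
open QuadraticMap (polar)

section Transfer

variable {F : Type*} [Field F] {ι : Type} [Fintype ι] [DecidableEq ι] {Q : QuadraticForm F (ι → F)}

theorem closure_comap_toOG (A : Set (OG Q)) :
    (Subgroup.closure A).comap (toOG Q).toMonoidHom = Subgroup.closure ((toOG Q) ⁻¹' A) := by
  have h2 : (Subgroup.closure A).comap (toOG Q).toMonoidHom = (Subgroup.closure A).map (toOG Q).symm.toMonoidHom :=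
    Subgroup.comap_equiv_eq_map_symm' (toOG Q) _
  rw [h2, MonoidHom.map_closure]
  congr 1
  ext x
  constructor
  · rintro ⟨a, ha, rfl⟩
    show (toOG Q) ((toOG Q).symm a) ∈ A
    rwa [MulEquiv.apply_symm_apply]
  · intro hx
    exact ⟨toOG Q x, hx, by simp⟩

end Transfer

variable {F V : Type*} [Field F] [AddCommGroup V] [Module F V] [FiniteDimensional F V]
  {Q : QuadraticForm F V}

/-- An isometry fixing a hyperplane pointwise is a reflection. -/
theorem eq_refl_of_finrank_fix (hQ : (QuadraticMap.polarBilin Q).Nondegenerate) {g : V ≃ₗ[F] V} (hg : g ∈ OG Q)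
    (h : finrank F (fixS g) + 1 = finrank F V) : ∃ s, Q s ≠ 0 ∧ g = refl Q s := by
  -- find `y` not fixed
  obtain ⟨y, hy⟩ : ∃ y, y ∉ fixS g := by
    by_contra hcon
    push Not at hcon
    have : fixS g = ⊤ := Submodule.eq_top_iff'.2 hcon
    rw [this, finrank_top] at h
    omega
  obtain ⟨s, hs⟩ : ∃ s, s = g y - y := ⟨_, rfl⟩
  have hs0 : s ≠ 0 := by
    intro h0; rw [h0] at hs
    exact hy (mem_fixS.2 (sub_eq_zero.1 hs.symm))
  have hsi : s ∈ imS g := mem_imS.2 ⟨y, hs.symm⟩
  have hQs : Q s ≠ 0 := by
    intro h0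
    -- `fix g = s^⊥ ∋ s`
    have h1 : fixS g = perp Q (Submodule.span F {s}) := by
      apply Submodule.eq_of_le_of_finrank_eq
      · intro x hx
        rw [mem_perp_span_singleton, polar_symm]
        exact imS_perp_fixS hg hx hsi
      · rw [finrank_perp_singleton hQ hs0]; omega
    have h2 : polar Q y s = 0 := by
      have h3 := mem_OG.1 hg y
      have h4 : g y = y + s := by rw [hs]; abel
      rw [h4, map_add, h0] at h3
      linear_combination h3
    apply hy
    rw [h1, mem_perp_span_singleton, polar_symm]; exact h2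
  refine ⟨s, hQs, ?_⟩
  have h1 := refl_mul_of_mem hg hQs hs.symm
  have h2 : fixS (refl Q s * g) = ⊤ := by
    apply Submodule.eq_top_of_finrank_eq
    have h3 : fixS g < fixS (refl Q s * g) := by
      rw [h1, left_lt_sup, Submodule.span_singleton_le_iff_mem]; exact hy
    have h4 := Submodule.finrank_lt_finrank_of_lt h3
    have h5 := Submodule.finrank_le (fixS (refl Q s * g))
    omega
  have h3 : refl Q s * g = 1 := by
    ext x
    have : x ∈ fixS (refl Q s * g) := by rw [h2]; trivial
    exact mem_fixS.1 this
  rw [← inv_eq_iff_mul_eq_one.2 h3, refl_inv]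

variable [Finite F]

/-- the subgroup generated by the reflections of the class of `c` -/
def clS (Q : QuadraticForm F V) (c : F) : Subgroup (OG Q) :=
  Subgroup.closure {g | ∃ (v : V) (t : F), t ≠ 0 ∧ Q v = c * t ^ 2 ∧ g = rf Q v}

omit [FiniteDimensional F V] in
theorem rf_mem_clS {c : F} (hc : c ≠ 0) {v : V} (hv : Q v ≠ 0) (h : IsSquare (Q v * c)) : rf Q v ∈ clS Q c := by
  obtain ⟨r, hr⟩ := h
  have hr0 : r ≠ 0 := by rintro rfl; exact mul_ne_zero hv hc (by rw [hr]; ring)
  refine Subgroup.subset_closure ⟨v, r / c, div_ne_zero hr0 hc, ?_, rfl⟩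
  field_simp
  linear_combination hr

/-- the key step: nondegenerate planes -/
theorem rf_rf_mem_clS (hQ : (QuadraticMap.polarBilin Q).Nondegenerate) (h2 : (2 : F) ≠ 0) {c : F} (hc0 : c ≠ 0) 
    {δ θ : OG Q →* ℤˣ} (hc : Chars Q δ θ) (hδ : ∀ g : OG Q, δ g = (-1) ^ (finrank F V + finrank F (fixS g.1)))
    {a b : V} (ha : Q a ≠ 0) (hab : Q a = Q b) (hp : polar Q a b ^ 2 ≠ 4 * Q a ^ 2) : rf Q a * rf Q b ∈ clS Q c := by
  obtain ⟨d, hd⟩ : ∃ d, d = Q a := ⟨_, rfl⟩
  obtain ⟨t, ht⟩ : ∃ t, t = polar Q a b := ⟨_, rfl⟩
  rw [← ht, ← hd] at hp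
  have hd4 : 4 * d ^ 2 - t ^ 2 ≠ 0 := fun h => hp (by linear_combination -h)
  have hb : Q b ≠ 0 := by rw [← hab]; exact ha
  have hba : polar Q b a = t := by rw [polar_symm, ht]
  have hli : LinearIndependent F ![a, b] := by
    rw [LinearIndependent.pair_iff]
    intro s r hsr
    have e1 : polar Q a (s • a + r • b) = 0 := by rw [hsr]; simp
    have e2 : polar Q b (s • a + r • b) = 0 := by rw [hsr]; simp
    rw [QuadraticMap.polar_add_right, polar_smul_right, polar_smul_right, polar_self, ← ht, ← hd] at e1
    rw [QuadraticMap.polar_add_right, polar_smul_right, polar_smul_right, polar_self, hba, ← hab, ← hd] at e2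
    constructor
    · have : s * (4 * d ^ 2 - t ^ 2) = 0 := by linear_combination 2 * d * e1 - t * e2
      exact (mul_eq_zero.1 this).resolve_right hd4
    · have : r * (4 * d ^ 2 - t ^ 2) = 0 := by linear_combination 2 * d * e2 - t * e1
      exact (mul_eq_zero.1 this).resolve_right hd4
  have hspan : Submodule.span F {a, b} = Submodule.span F (Set.range ![a, b]) := by
    congr 1; simp [Matrix.range_cons, Set.pair_comm]
  have hfrP : finrank F (Submodule.span F {a, b}) = 2 := by
    rw [hspan, finrank_span_eq_card hli]; simp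
  have hdisj : Disjoint (Submodule.span F {a, b}) (perp Q (Submodule.span F {a, b})) := by
    rw [Submodule.disjoint_def]
    intro z hz hz2
    obtain ⟨s, r, rfl⟩ := Submodule.mem_span_pair.1 hz
    rw [mem_perp_span] at hz2
    have e1 := hz2 a (by simp)
    have e2 := hz2 b (by simp)
    rw [QuadraticMap.polar_add_right, polar_smul_right, polar_smul_right, polar_self, ← ht, ← hd] at e1
    rw [QuadraticMap.polar_add_right, polar_smul_right, polar_smul_right, polar_self, hba, ← hab, ← hd] at e2
    have h3 : s = 0 := by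
      have : s * (4 * d ^ 2 - t ^ 2) = 0 := by linear_combination 2 * d * e1 - t * e2
      exact (mul_eq_zero.1 this).resolve_right hd4
    have h4 : r = 0 := by
      have : r * (4 * d ^ 2 - t ^ 2) = 0 := by linear_combination 2 * d * e2 - t * e1
      exact (mul_eq_zero.1 this).resolve_right hd4
    rw [h3, h4]; simp
  obtain ⟨u, hu⟩ := exists_norm (nd_restrict hdisj) (by rw [hfrP]) hc0
  have hu' : Q (u : V) = c := hu
  have hu0 : Q (u : V) ≠ 0 := by rw [hu']; exact hc0
  obtain ⟨g, hg⟩ : ∃ g, g = rf Q (u : V) * (rf Q a * rf Q b) := ⟨_, rfl⟩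
  have hδg : δ g = -1 := by
    rw [hg, _root_.map_mul, _root_.map_mul, hc.del _ hu0, hc.del _ ha, hc.del _ hb]; decide
  have hfix : perp Q (Submodule.span F {a, b}) ≤ fixS g.1 := by
    intro x hx
    have hx' := mem_perp.1 hx
    have h5 : ∀ y ∈ Submodule.span F {a, b}, refl Q y x = x := fun y hy => refl_fix (by rw [polar_symm]; exact hx' y hy)
    rw [mem_fixS, hg]
    show refl Q u (refl Q a (refl Q b x)) = x
    rw [h5 b (Submodule.subset_span (by simp)), h5 a (Submodule.subset_span (by simp)), h5 u u.2]
  have h6 := Submodule.finrank_mono hfix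
  have h7 := finrank_add_finrank_perp hQ (Submodule.span F {a, b})
  have h8 := Submodule.finrank_le (fixS g.1)
  have h9 : finrank F (fixS g.1) + 1 = finrank F V := by
    rw [hδ g] at hδg
    have h10 : ¬ Even (finrank F V + finrank F (fixS g.1)) := by
      intro he
      rw [he.neg_one_pow] at hδg
      exact absurd hδg (by decide)
    rw [Nat.even_iff] at h10
    omega
  obtain ⟨s, hs, hgs⟩ := eq_refl_of_finrank_fix hQ g.2 h9
  have hgs' : g = rf Q s := Subtype.ext hgs
  have h11 : rf Q a * rf Q b = rf Q (u : V) * rf Q s := by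
    rw [← hgs', hg, ← mul_assoc, rf_sq, one_mul]
  rw [h11]
  refine Subgroup.mul_mem _ (rf_mem_clS hc0 hu0 ⟨c, by rw [hu']⟩) (rf_mem_clS hc0 hs ?_)
  -- class of `s`
  have h12 := congrArg θ h11
  rw [_root_.map_mul, _root_.map_mul, hom_rf_eq hQ θ ha hb ⟨Q a, by rw [hab]⟩, Int.units_mul_self] at h12
  have h13 : θ (rf Q (u : V)) = θ (rf Q s) := by
    rcases Int.units_eq_one_or (θ (rf Q (u : V))) with h | h <;>
      rcases Int.units_eq_one_or (θ (rf Q s)) with h' | h' <;> rw [h, h'] at h12 ⊢ <;> exact absurd h12 (by decide)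
  rw [isSquare_mul_iff hs hc0, ← hc.the s hs, ← h13, hc.the _ hu0, hu']

theorem rf_rf_mem_clS' (hQ : (QuadraticMap.polarBilin Q).Nondegenerate) (h2 : (2 : F) ≠ 0) {c : F} (hc0 : c ≠ 0)
    {δ θ : OG Q →* ℤˣ} (hc : Chars Q δ θ) (hδ : ∀ g : OG Q, δ g = (-1) ^ (finrank F V + finrank F (fixS g.1)))
    (hn : finrank F V = 2 ∨ (4 ≤ finrank F V ∧ Nat.card F ≠ 3) ∨ 5 ≤ finrank F V)
    {a b : V} (ha : Q a ≠ 0) (hab : Q a = Q b) : rf Q a * rf Q b ∈ clS Q c := by
  -- reduce to `f(a,b) = 2 d`
  have main : ∀ b : V, Q a = Q b → polar Q a b = 2 * Q a → rf Q a * rf Q b ∈ clS Q c := by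
    intro b hab hp
    have hb : Q b ≠ 0 := by rw [← hab]; exact ha
    obtain ⟨s, hs⟩ : ∃ s, s = b - a := ⟨_, rfl⟩
    have hb' : b = a + s := by rw [hs]; abel
    have hQs : Q s = 0 := by rw [hs, map_sub, ← hab, polar_symm, hp]; ring
    have has : polar Q a s = 0 := by rw [hs, QuadraticMap.polar_sub_right, hp, polar_self]; ring
    by_cases hs0 : s = 0
    · rw [hb', hs0, add_zero, rf_sq]; exact Subgroup.one_mem _
    have hsa : s ∉ Submodule.span F {a} := by
      intro h
      obtain ⟨r, hr⟩ := Submodule.mem_span_singleton.1 h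
      rw [← hr, map_smul] at hQs
      rcases mul_eq_zero.1 hQs with h | h
      · rw [mul_self_eq_zero.1 h, zero_smul] at hr
        exact hs0 hr.symm
      · exact ha h
    obtain ⟨t, ht, hst, hat⟩ := exists_partner' hQ hQs has hsa
    -- find an intermediate vector
    obtain ⟨w, hw, haw, hbw⟩ : ∃ w, Q w = Q a ∧ polar Q a w ^ 2 ≠ 4 * Q a ^ 2 ∧ polar Q b w ^ 2 ≠ 4 * Q a ^ 2 := by
      have h4 : (4 : F) ≠ 0 := by
        have : (4 : F) = 2 * 2 := by norm_num
        rw [this]; exact mul_ne_zero h2 h2
      by_cases hF : Nat.card F = 3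
      · -- dimension at least five
        have hyp : HypFam Q (fun _ : Fin 1 => s) (fun _ : Fin 1 => t) := by
          refine ⟨fun _ => hQs, fun _ => ht, fun i j => ?_, fun i j => ?_, fun i j => ?_⟩
          · rw [hst, if_pos (Subsingleton.elim _ _)]
          · rw [polar_self, hQs, mul_zero]
          · rw [polar_self, ht, mul_zero]
        have hn5 : 5 ≤ finrank F V := by
          rcases hn with h | ⟨_, h⟩ | h
          · -- dimension two is impossible
            exfalso
            have hli : LinearIndependent F (Sum.elim (Sum.elim (fun _ : Fin 1 => s) (fun _ : Fin 1 => t)) (fun _ : Unit => a)) := by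
              apply LinearIndependent.sum_type hyp.linearIndependent
                (linearIndependent_unique_iff.2 (by rintro rfl; simp at ha))
              refine (Disjoint.mono_right ?_ hyp.disjoint)
              rw [Submodule.span_le]
              rintro _ ⟨i, rfl⟩
              rw [SetLike.mem_coe, mem_perp_hspan]
              exact ⟨fun _ => by rw [polar_symm]; exact has, fun _ => by rw [polar_symm]; exact hat⟩
            have := hli.fintype_card_le_finrank
            simp at this
            omega
          · exact absurd hF h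
          · exact h
        have hfr := hyp.finrank_perp hQ
        rw [Fintype.card_fin] at hfr
        -- in the perp of the hyperbolic plane, take the perp of `a`
        obtain ⟨P, hP⟩ : ∃ P, P = perp Q (hspan (fun _ : Fin 1 => s) (fun _ : Fin 1 => t)) := ⟨_, rfl⟩
        have haP : a ∈ P := by
          rw [hP, mem_perp_hspan]
          exact ⟨fun _ => by rw [polar_symm]; exact has, fun _ => by rw [polar_symm]; exact hat⟩
        have hndP : (QuadraticMap.polarBilin (Q.comp P.subtype)).Nondegenerate := by
          rw [hP]; exact nd_perp hQ hyp.disjoint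
        rw [← hP] at hfr
        let a' : P := ⟨a, haP⟩
        have ha'0 : a' ≠ 0 := by
          intro h
          have := congrArg Subtype.val h
          apply ha
          show Q (a' : V) = 0
          rw [this]; simp
        have hda : Disjoint (Submodule.span F {a'}) (perp (Q.comp P.subtype) (Submodule.span F {a'})) := by
          rw [Submodule.disjoint_def]
          intro z hz hz2
          obtain ⟨r, rfl⟩ := Submodule.mem_span_singleton.1 hz
          rw [mem_perp_span_singleton, polar_smul_right, polar_self] at hz2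
          rcases mul_eq_zero.1 hz2 with h | h
          · rw [h, zero_smul]
          · exact absurd h (mul_ne_zero h2 ha)
        obtain ⟨w, hw⟩ := exists_norm (nd_perp hndP hda) (by rw [finrank_perp_singleton hndP ha'0]; omega) ha
        have hw' : Q ((w : P) : V) = Q a := hw
        have haw0 : polar (Q.comp P.subtype) a' (w : P) = 0 := mem_perp_span_singleton.1 w.2
        have haw : polar Q a ((w : P) : V) = 0 := haw0
        have hwP := mem_perp_hspan.1 (hP.le w.1.2)
        have hsw : polar Q s ((w : P) : V) = 0 := hwP.1 0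
        refine ⟨((w : P) : V), hw', ?_, ?_⟩
        · rw [haw]
          intro h; exact mul_ne_zero h4 (pow_ne_zero 2 ha) (by rw [← h]; ring)
        · rw [hb', QuadraticMap.polar_add_left, haw, hsw]
          intro h; exact mul_ne_zero h4 (pow_ne_zero 2 ha) (by rw [← h]; ring)
      · -- more than three elements
        obtain ⟨β, hβ0, hβ1, hβ2⟩ : ∃ β : F, β ≠ 0 ∧ β ≠ 2 * Q a ∧ β ≠ -(2 * Q a) := by
          by_contra hcon
          push Not at hcon
          have h5 : (Set.univ : Set F) = {0, 2 * Q a, -(2 * Q a)} := by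
            ext x
            simp only [Set.mem_univ, Set.mem_insert_iff, Set.mem_singleton_iff, true_iff]
            by_cases h1 : x = 0
            · exact Or.inl h1
            · by_cases h3 : x = 2 * Q a
              · exact Or.inr (Or.inl h3)
              · exact Or.inr (Or.inr (hcon x h1 h3))
          apply hF
          rw [← Set.ncard_univ, h5, Set.ncard_eq_three]
          have h6 : 2 * Q a ≠ 0 := mul_ne_zero h2 ha
          refine ⟨0, 2 * Q a, -(2 * Q a), h6.symm, (neg_ne_zero.2 h6).symm, ?_, rfl⟩
          intro h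
          apply mul_ne_zero h2 h6
          linear_combination h
        have hta : polar Q t a = 0 := by rw [polar_symm]; exact hat
        refine ⟨β • t + (Q a / β) • s, ?_, ?_, ?_⟩
        · rw [map_add, map_smul, map_smul, ht, hQs, polar_smul_left, polar_smul_right, polar_symm, hst]
          field_simp
          ring
        · rw [QuadraticMap.polar_add_right, polar_smul_right, polar_smul_right, has, hat]
          intro h; exact mul_ne_zero h4 (pow_ne_zero 2 ha) (by rw [← h]; ring)
        · rw [hb']
          simp only [QuadraticMap.polar_add_left, QuadraticMap.polar_add_right, polar_smul_right, has, hat, hst, polar_self, hQs]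
          intro h
          have : (β - 2 * Q a) * (β + 2 * Q a) = 0 := by linear_combination h
          rcases mul_eq_zero.1 this with h | h
          · exact hβ1 (by linear_combination h)
          · exact hβ2 (by linear_combination h)
    have g1 := rf_rf_mem_clS hQ h2 hc0 hc hδ ha hw.symm haw
    have g2 := rf_rf_mem_clS hQ h2 hc0 hc hδ (a := b) (b := w) hb (by rw [hw, hab]) (by rw [← hab]; exact hbw)
    have g3 := Subgroup.mul_mem _ g1 (Subgroup.inv_mem _ g2)
    have i2 : (rf Q w)⁻¹ = rf Q w := inv_eq_of_mul_eq_one_right (rf_sq _)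
    have i3 : (rf Q b)⁻¹ = rf Q b := inv_eq_of_mul_eq_one_right (rf_sq _)
    rwa [mul_inv_rev, i2, i3, mul_assoc, ← mul_assoc (rf Q w), rf_sq, one_mul] at g3
  by_cases hp : polar Q a b ^ 2 = 4 * Q a ^ 2
  · have : (polar Q a b - 2 * Q a) * (polar Q a b + 2 * Q a) = 0 := by linear_combination hp
    rcases mul_eq_zero.1 this with h | h
    · exact main b hab (by linear_combination h)
    · have h3 := main (-b) (by rw [QuadraticMap.map_neg]; exact hab) (by rw [QuadraticMap.polar_neg_right]; linear_combination -h)
      have e2 : -b = (-1 : F) • b := by module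
      rwa [e2, rf_smul (neg_ne_zero.2 one_ne_zero)] at h3
  · exact rf_rf_mem_clS hQ h2 hc0 hc hδ ha hab hp

end Cfsg.Agent.H16.Quad
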