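import Cfsg.Agent.H16_ParA

set_option autoImplicit false

/-! Field and graph-field automorphisms in even dimension: the coset theorems. -/

namespace Cfsg.Agent.H16.Par

open Matrix Cfsg.Agent.H16.Ps Module Cfsg.Agent.H16.Gam Cfsg.Agent.H16.AutL Cfsg.Agent.H16.AutG Cfsg.Agent.H16.Desc
open QuadraticMap (polar)
open Cfsg.Agent.H16 Cfsg.Agent.H16.POm

section Gen

variable {ι : Type} [Fintype ι] [DecidableEq ι] {F : Type*} [Field F] [Finite F] {A : OD ι F}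

/-- fourth powers are inner. -/
theorem pow_four_inner {g : (fam A).N} : (fam A).T ((fam A).nin g) ^ 4 ∈ Cfsg.Inn (Cfsg.POmega F ⇑A.Q) := by
  obtain ⟨d, u, hdu⟩ := sq_mult A (g * g) (by
    rw [_root_.map_mul, _root_.map_mul]
    rcases Int.units_eq_one_or (sqc F (muN A g)) with h | h <;> rw [h] <;> rfl)
  have h1 : (fam A).T ((fam A).nin g) ^ 4 = fO A (u * u) := by
    have h2 : (fam A).T ((fam A).nin (g * g)) = fO A u := by
      rw [hdu, _root_.map_mul, _root_.map_mul, T_scl, one_mul]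
      rfl
    rw [_root_.map_mul (fO A), ← h2, _root_.map_mul, _root_.map_mul]
    simp only [pow_succ, pow_zero, one_mul, mul_assoc]
  rw [h1]
  apply fO_inn
  rw [mem_Om, _root_.map_mul, _root_.map_mul]
  constructor
  · rcases Int.units_eq_one_or (del A u) with h | h <;> rw [h] <;> rfl
  · rcases Int.units_eq_one_or (the A u) with h | h <;> rw [h] <;> rfl

/-- odd order similarities are inner. -/
theorem inner_of_odd {β : MulAut (Cfsg.POmega F ⇑A.Q)} (hβ : β ∈ (fam A).D) {r : ℕ} (hr : Odd r) (h : orderOf β = r) :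
    β ∈ Cfsg.Inn (Cfsg.POmega F ⇑A.Q) := by
  obtain ⟨g, rfl⟩ := hβ
  have h1 : (fam A).T ((fam A).nin g) ^ 4 ∈ Cfsg.Inn (Cfsg.POmega F ⇑A.Q) := pow_four_inner
  have h2 : (fam A).T ((fam A).nin g) ^ r = 1 := by
    rw [← h]; exact pow_orderOf_eq_one _
  obtain ⟨k, hk⟩ := hr
  rcases Nat.even_or_odd k with ⟨j, hj⟩ | ⟨j, hj⟩
  · -- r = 4 j + 1
    have h3 : (fam A).T ((fam A).nin g) = (((fam A).T ((fam A).nin g) ^ 4) ^ j)⁻¹ := by
      rw [eq_inv_iff_mul_eq_one, ← pow_mul, ← pow_succ', ← h2]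
      congr 1
      omega
    change (fam A).T ((fam A).nin g) ∈ _
    rw [h3]
    exact inv_mem (pow_mem h1 _)
  · -- r = 4 j + 3
    have h3 : (fam A).T ((fam A).nin g) = ((fam A).T ((fam A).nin g) ^ 4) ^ (j + 1) := by
      rw [← pow_mul]
      have : 4 * (j + 1) = r + 1 := by omega
      rw [this, pow_succ, h2, one_mul]
    change (fam A).T ((fam A).nin g) ∈ _
    rw [h3]
    exact pow_mem h1 _

end Gen

section Plus

variable {F : Type*} [Field F] [Finite F] {m : ℕ} (hm : 4 ≤ m)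

theorem hasField_plus : (fam (odP F hm)).HasField := hasField_of fun σ v => rat_plus (σ : F →+* F) v

theorem parG_fin (σ : F ≃+* F) : parG hm (Fam.fin (hasField_plus hm) σ) = 1 := by
  change pr (Quad.U0 F m) (im (SemidirectProduct.inr σ) (Quad.U0 F m)) = 1
  have h1 : im (SemidirectProduct.inr σ) (Quad.U0 F m) = Quad.U0 F m := by
    ext w
    obtain ⟨v, rfl⟩ : ∃ v, w = sl (SemidirectProduct.inr σ) v := ⟨_, (sl_sl_inv _ _).symm⟩
    rw [sl_mem_im, Quad.mem_U0, Quad.mem_U0]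
    have h2 : sl (SemidirectProduct.inr σ) v = fun i => σ (v i) := by
      rw [sl]
      change ((1 : GL (Fin m ⊕ Fin m) F) : Matrix (Fin m ⊕ Fin m) (Fin m ⊕ Fin m) F) *ᵥ _ = _
      rw [Units.val_one, one_mulVec]
      rfl
    rw [h2]
    exact forall_congr' fun i => (map_eq_zero _).symm
  rw [h1, pr_self]

/-- graph-field automorphisms over a variable form. -/
def gfP {F : Type*} [Field F] {m : ℕ} (q : (Fin m ⊕ Fin m → F) → F) (β : MulAut (Cfsg.POmega F q)) : Prop :=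
  ∃ (α γ φ : MulAut (Cfsg.POmega F q)) (σ : F ≃+* F) (v : Fin m ⊕ Fin m → F)
      (r : GL (Fin m ⊕ Fin m) F),
    σ ≠ RingEquiv.refl F ∧ q v ≠ 0 ∧ (∀ i, σ (v i) = v i) ∧
    (r : Matrix (Fin m ⊕ Fin m) (Fin m ⊕ Fin m) F) = Cfsg.reflectionMatrix q v ∧
    Cfsg.IsInducedBySemilinearPOmega q r (RingEquiv.refl F) γ ∧
    Cfsg.IsFieldAutPOmegaOf q σ φ ∧ α * β * α⁻¹ = γ * φ

theorem gfP_eq {F : Type*} [Field F] {m : ℕ} (β : MulAut (Cfsg.POmega F (Cfsg.quadFormPlus m F))) :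
    gfP (Cfsg.quadFormPlus m F) β ↔ Cfsg.IsGraphFieldAutClassPOmegaPlus m β := Iff.rfl

theorem conj_data {A : OD (Fin m ⊕ Fin m) F} (hfull : (fam A).Full) {x α y : MulAut (Cfsg.POmega F ⇑A.Q)}
    {η : (fam A).Γ} (hη : (fam A).T η = y) (h : α * x * α⁻¹ = y) (h1 : (η : Gm (Fin m ⊕ Fin m) F).right ≠ 1)
    (c : (fam A).Γ →* ℤˣ) :
    ∃ ξ : (fam A).Γ, (fam A).T ξ = x ∧ (ξ : Gm (Fin m ⊕ Fin m) F).right ≠ 1 ∧ c ξ = c η := by
  obtain ⟨a, rfl⟩ := hfull α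
  refine ⟨a⁻¹ * η * a, ?_, ?_, ?_⟩
  · rw [_root_.map_mul, _root_.map_mul, _root_.map_inv, hη, ← h]
    group
  · intro h3
    apply h1
    rw [Subgroup.coe_mul, Subgroup.coe_mul, Subgroup.coe_inv, SemidirectProduct.mul_right, SemidirectProduct.mul_right,
      SemidirectProduct.inv_right] at h3
    have h4 : (η : Gm (Fin m ⊕ Fin m) F).right = (a : Gm (Fin m ⊕ Fin m) F).right *
      ((a : Gm (Fin m ⊕ Fin m) F).right⁻¹ * (η : Gm (Fin m ⊕ Fin m) F).right * (a : Gm (Fin m ⊕ Fin m) F).right) *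
      (a : Gm (Fin m ⊕ Fin m) F).right⁻¹ := by group
    rw [h4, h3, mul_one, mul_inv_cancel]
  · rw [_root_.map_mul, _root_.map_mul, _root_.map_inv, mul_comm, ← mul_assoc, mul_inv_cancel, one_mul]

theorem field_data (hfull : (fam (odP F hm)).Full) {x : MulAut (Cfsg.POmega F ⇑(odP F hm).Q)}
    (hx : Cfsg.IsFieldAutClassPOmega ⇑(odP F hm).Q x) :
    ∃ ξ : (fam (odP F hm)).Γ, (fam (odP F hm)).T ξ = x ∧ (ξ : Gm (Fin m ⊕ Fin m) F).right ≠ 1 ∧ parG hm ξ = 1 := by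
  obtain ⟨α, φ, σ, hσ, h, hα⟩ := hx
  rw [field_iff (odP F hm) (hasField_plus hm σ)] at h
  obtain ⟨ξ, h1, h2, h3⟩ := conj_data hfull (η := Fam.fin (hasField_plus hm) σ) h.symm hα hσ (parG hm)
  exact ⟨ξ, h1, h2, by rw [h3, parG_fin]⟩

theorem gf_data (hfull : (fam (odP F hm)).Full) {x : MulAut (Cfsg.POmega F ⇑(odP F hm).Q)}
    (hx : gfP ⇑(odP F hm).Q x) :
    ∃ ξ : (fam (odP F hm)).Γ, (fam (odP F hm)).T ξ = x ∧ (ξ : Gm (Fin m ⊕ Fin m) F).right ≠ 1 ∧ parG hm ξ = -1 := by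
  obtain ⟨α, γ, φ, σ, v, r, hσ, hv, hvσ, hr, hγ, h, hα⟩ := hx
  rw [field_iff (odP F hm) (hasField_plus hm σ)] at h
  have hrv : r = rfl' (odP F hm) v := by
    apply Units.ext
    rw [hr]
    exact (Quad.symm_rf_coe (odP F hm).Q v).symm
  subst hrv
  have hγ' := (induced_iff (odP F hm) (g := rfl' (odP F hm) v) (σ := RingEquiv.refl F)
    (iso_mem_Gam (rfl' (odP F hm) v).2)).mp hγ
  let g₀ : (fam (odP F hm)).N := ⟨rfl' (odP F hm) v, iso_le_N (odP F hm) (rfl' (odP F hm) v).2⟩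
  obtain ⟨ξ, h1, h2, h3⟩ := conj_data hfull (η := (fam (odP F hm)).nin g₀ * Fam.fin (hasField_plus hm) σ) (by
    rw [_root_.map_mul, h, hγ']
    rfl) hα (by
    rw [Subgroup.coe_mul, SemidirectProduct.mul_right]
    change 1 * σ ≠ 1
    rw [one_mul]
    exact hσ) (parG hm)
  refine ⟨ξ, h1, h2, ?_⟩
  rw [h3, _root_.map_mul, parG_fin, mul_one]
  have h4 := (evP hm).iso (rfl' (odP F hm) v)
  rw [del_rfl' hv] at h4
  exact h4

theorem parG_T {x : (fam (odP F hm)).Γ} (hx : (fam (odP F hm)).T x = 1) : parG hm x = 1 := by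
  obtain ⟨c, hc⟩ := ((fam (odP F hm)).T_eq_one_iff x).mp hx
  have h1 : x = (fam (odP F hm)).nin ⟨scl _ c, (fam (odP F hm)).sc c⟩ := Subtype.ext hc
  rw [h1]
  exact (evP hm).scl c

theorem hPM_plus {n : ℕ} (hmn : m = n + 1) : ∀ (x x' : (fam (odP F hm)).Γ) (a₀ b₀ : F),
    RS (odP F hm) (x : Gm (Fin m ⊕ Fin m) F) (Quad.plusQ F (n + 1)) → AnF (x' : Gm (Fin m ⊕ Fin m) F).right a₀ b₀ →
      RS (odP F hm) (x' : Gm (Fin m ⊕ Fin m) F) (Quad.minusQ F n a₀ b₀) → parG hm x ≠ parG hm x' := by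
  intro x x' a₀ b₀ R hAn R'
  rw [parG_of_plus hm R, parG_of_minus hm hmn hAn R']
  decide

end Plus

section Coset

variable {F : Type*} [Field F] [Finite F]

/-- the coset theorem. -/
theorem coset_main {ι : Type} [Fintype ι] [DecidableEq ι] {A : OD ι F} (S : EvS A) {n : ℕ}
    (hn : Fintype.card ι = 2 * n + 2)
    (c : (fam A).Γ →* ℤˣ) (hc : ∀ x, (fam A).T x = 1 → c x = 1) (hcE : ∀ g, S.E g = 1 → c ((fam A).nin g) = 1)
    (hPM : ∀ (x x' : (fam A).Γ) (a₀ b₀ : F), RS A x (Quad.plusQ F (n + 1)) → AnF (x' : Gm ι F).right a₀ b₀ →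
      RS A x' (Quad.minusQ F n a₀ b₀) → c x ≠ c x')
    {ξ : (fam A).Γ} {δ : MulAut (Cfsg.POmega F ⇑A.Q)} {r : ℕ} (hr : r.Prime)
    (hxr : orderOf ((fam A).T ξ) = r) (h1 : (ξ : Gm ι F).right ≠ 1) (hδ : δ ∈ D0 S) :
    orderOf (δ * (fam A).T ξ) = r ↔ Cfsg.IsConjUnder (D0 S) ((fam A).T ξ) (δ * (fam A).T ξ) := by
  have hσ := orderOf_right hr hxr h1
  obtain ⟨g, hg, rfl⟩ := mem_D0.mp hδ
  constructor
  · intro h
    obtain ⟨z, hz, h2⟩ := conj_main S hn c hc hPM ξ ((fam A).nin g * ξ) (by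
      rw [Subgroup.coe_mul, SemidirectProduct.mul_right]
      exact (one_mul _).symm) (by rw [hσ, ← hxr, pow_orderOf_eq_one]) (by
      rw [hσ, ← h, _root_.map_mul, pow_orderOf_eq_one]) (by
      rw [_root_.map_mul, hcE g hg, one_mul])
    refine ⟨_, mem_D0.mpr ⟨z, hz, rfl⟩, ?_⟩
    rw [h2, _root_.map_mul]
  · rintro ⟨η, -, h⟩
    rw [h, orderOf_conj', hxr]

end Coset

section PlusFinal

variable {F : Type*} [Field F] [Finite F] {m : ℕ} (hm : 5 ≤ m)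
  {q : (Fin m ⊕ Fin m → F) → F} (hq : ⇑(odP F (show 4 ≤ m by omega)).Q = q)

include hq

theorem coset_plus (x δ : MulAut (Cfsg.POmega F q)) (hx : Cfsg.IsFieldAutClassPOmega q x ∨ gfP q x)
    {r : ℕ} (hr : r.Prime) (hxr : orderOf x = r) (hδ : δ ∈ indP q) :
    orderOf (δ * x) = r ↔ Cfsg.IsConjUnder (indP q) x (δ * x) := by
  subst hq
  have hm4 : 4 ≤ m := by omega
  change MulAut (Cfsg.POmega F ⇑(odP F hm4).Q) at x
  change MulAut (Cfsg.POmega F ⇑(odP F hm4).Q) at δ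
  have hfull : (fam (odP F hm4)).Full := full (good_plus (F := F) hm)
  obtain ⟨ξ, hξ, h1⟩ : ∃ ξ : (fam (odP F hm4)).Γ, (fam (odP F hm4)).T ξ = x ∧
      (ξ : Gm (Fin m ⊕ Fin m) F).right ≠ 1 := by
    rcases hx with h | h
    · obtain ⟨ξ, h1, h2, -⟩ := field_data _ hfull h
      exact ⟨ξ, h1, h2⟩
    · obtain ⟨ξ, h1, h2, -⟩ := gf_data _ hfull h
      exact ⟨ξ, h1, h2⟩
  rw [← hξ] at hxr ⊢
  have hδ' : δ ∈ D0 (evP (F := F) hm4) := by rw [← indP_eq]; exact hδ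
  have h3 := coset_main (evP hm4) (n := m - 1) (by rw [plus_card]; omega) (parG _)
    (fun x hx => parG_T _ hx) (fun g hg => hg) (hPM_plus _ (by omega)) hr hxr h1 hδ'
  rw [← indP_eq] at h3
  exact h3

end PlusFinal

section MinusFinal

variable {F : Type*} [Field F] [Finite F] {a b : F} {m : ℕ}

/-- field automorphisms over a variable form. -/
def fcM {F : Type*} [Field F] {m : ℕ} (q : ((Fin m ⊕ Fin m) ⊕ Fin 2 → F) → F) (β : MulAut (Cfsg.POmega F q)) : Prop :=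
  ∃ (a' b' : F) (ψ : Cfsg.POmega F q ≃* Cfsg.POmega F (Cfsg.quadFormMinus m F a' b')) (σ : F ≃+* F),
    (∀ z₁ z₂ : F, z₁ ^ 2 + a' * z₁ * z₂ + b' * z₂ ^ 2 = 0 → z₁ = 0 ∧ z₂ = 0) ∧
    σ ≠ RingEquiv.refl F ∧ σ a' = a' ∧ σ b' = b' ∧
    Cfsg.IsFieldAutPOmegaOf (Cfsg.quadFormMinus m F a' b') σ ((ψ.symm.trans β).trans ψ)

theorem fcM_eq {F : Type*} [Field F] {m : ℕ} {a b : F} (β : MulAut (Cfsg.POmega F (Cfsg.quadFormMinus m F a b))) :
    fcM (Cfsg.quadFormMinus m F a b) β ↔ Cfsg.IsFieldAutClassPOmegaMinus m β := Iff.rfl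

/-- involutory automorphisms and anisotropic pairs. -/
theorem no_fix_two {σ : F ≃+* F} (hσ : orderOf σ = 2) (hab : An a b) (ha : σ a = a) (hb : σ b = b) : False := by
  obtain ⟨q₀, hq, hcard, -, hfix⟩ := card_fix σ
  rw [hσ] at hcard
  let K := FixK σ
  let a₀ : K := ⟨a, ha⟩
  let b₀ : K := ⟨b, hb⟩
  have hK : Nat.card K = q₀ := by
    rw [← hfix]
    exact Nat.card_congr (Equiv.subtypeEquivRight fun x => Iff.rfl)
  have hfr : finrank K F = 2 := by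
    have h1 : Nat.card F = Nat.card K ^ finrank K F := Module.natCard_eq_pow_finrank
    rw [hcard, hK] at h1
    exact (Nat.pow_right_injective hq h1).symm
  have hab₀ : ∀ z₁ z₂ : K, z₁ ^ 2 + a₀ * z₁ * z₂ + b₀ * z₂ ^ 2 = 0 → z₁ = 0 ∧ z₂ = 0 := by
    intro z₁ z₂ h
    have h1 := hab z₁ z₂ (congrArg (fun z : K => (z : F)) h)
    exact ⟨Subtype.ext h1.1, Subtype.ext h1.2⟩
  have hKf : Finite K := inferInstance
  obtain ⟨X, hX⟩ := exists_QX hab₀ F hfr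
  have h2 := X.hω
  rw [hX] at h2
  have h3 := hab X.ω 1 (by
    have h4 : X.ω ^ 2 + a * X.ω + b = 0 := h2
    linear_combination h4)
  exact one_ne_zero h3.2

theorem fc_minus (hab : An a b) (hm : 3 ≤ m) {x : MulAut (Cfsg.POmega F ⇑(odM hab hm).Q)}
    (hx : fcM ⇑(odM hab hm).Q x) {r : ℕ} (hr : r.Prime) (hxr : orderOf x = r) :
    Odd r ∧ ∃ ξ : (fam (odM hab hm)).Γ, (fam (odM hab hm)).T ξ = x ∧
      (ξ : Gm ((Fin m ⊕ Fin m) ⊕ Fin 2) F).right ≠ 1 := by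
  have hfull := full (good_minus (F := F) hab hm)
  obtain ⟨a', b', ψ, σ, hab', hσ, ha', hb', h⟩ := hx
  have key : ∀ (q' : ((Fin m ⊕ Fin m) ⊕ Fin 2 → F) → F) (hq' : ⇑(odM hab' hm).Q = q')
      (ψ : Cfsg.POmega F ⇑(odM hab hm).Q ≃* Cfsg.POmega F q')
      (h : Cfsg.IsFieldAutPOmegaOf q' σ ((ψ.symm.trans x).trans ψ)),
      Odd r ∧ ∃ ξ : (fam (odM hab hm)).Γ, (fam (odM hab hm)).T ξ = x ∧
      (ξ : Gm ((Fin m ⊕ Fin m) ⊕ Fin 2) F).right ≠ 1 := by
    intro q' hq' ψ h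
    subst hq'
    have hσΓ : (⟨1, σ⟩ : Gm ((Fin m ⊕ Fin m) ⊕ Fin 2) F) ∈ GamO ⇑(odM hab' hm).Q := by
      apply one_mem_Gam
      intro v
      have h1 := rat_minus (σ : F →+* F) (m := m) a' b' v
      have e1 : (σ : F →+* F) a' = a' := ha'
      have e2 : (σ : F →+* F) b' = b' := hb'
      rw [e1, e2] at h1
      exact h1
    rw [field_iff (odM hab' hm) hσΓ] at h
    have hconj : ∀ y : MulAut (Cfsg.POmega F ⇑(odM hab hm).Q), MulAut.congr ψ y = (ψ.symm.trans y).trans ψ := fun y => rfl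
    rw [← hconj] at h
    have ho : orderOf (MulAut.congr ψ x) = r := by
      rw [← hxr]
      exact orderOf_injective (MulAut.congr ψ).toMonoidHom (MulAut.congr ψ).injective x
    rw [h] at ho
    have hσr : orderOf σ = r := orderOf_right hr ho hσ
    have hro : Odd r := by
      rcases hr.eq_two_or_odd' with h2 | h2
      · exfalso
        rw [h2] at hσr
        exact no_fix_two hσr hab' ha' hb'
      · exact h2
    refine ⟨hro, ?_⟩
    obtain ⟨ξ, rfl⟩ := hfull x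
    refine ⟨ξ, rfl, ?_⟩
    intro h1
    have h2 : (fam (odM hab hm)).T ξ ∈ (fam (odM hab hm)).D := by
      have h3 : (ξ : Gm ((Fin m ⊕ Fin m) ⊕ Fin 2) F) = SemidirectProduct.inl (ξ : Gm ((Fin m ⊕ Fin m) ⊕ Fin 2) F).left := by
        apply SemidirectProduct.ext
        · rfl
        · exact h1
      have h4 : (ξ : Gm ((Fin m ⊕ Fin m) ⊕ Fin 2) F).left ∈ (fam (odM hab hm)).N := by
        rw [Fam.mem_N, ← h3]
        exact ξ.2
      exact ⟨⟨_, h4⟩, congrArg (fam (odM hab hm)).T (Subtype.ext h3.symm)⟩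
    obtain ⟨k, hk⟩ := inner_of_odd h2 hro hxr
    have h5 : MulAut.congr ψ ((fam (odM hab hm)).T ξ) ∈ (fam (odM hab' hm)).D := by
      apply (fam (odM hab' hm)).inn_le_D
      refine ⟨ψ k, ?_⟩
      rw [← hk]
      ext z
      obtain ⟨w, rfl⟩ := ψ.surjective z
      change ψ k * ψ w * (ψ k)⁻¹ = ψ (k * (ψ.symm (ψ w)) * k⁻¹)
      rw [MulEquiv.symm_apply_apply, _root_.map_mul, _root_.map_mul, _root_.map_inv]
    rw [h] at h5
    obtain ⟨g, hg⟩ := h5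
    have h6 := right_of_T (Φ := fam (odM hab' hm)) hg
    exact hσ h6.symm
  exact key _ (Quad.coe_minusQ F m a' b') ψ h

theorem coset_minus (hab : An a b) (hm : 3 ≤ m) {q : ((Fin m ⊕ Fin m) ⊕ Fin 2 → F) → F} (hq : ⇑(odM hab hm).Q = q)
    (x δ : MulAut (Cfsg.POmega F q)) (hx : fcM q x)
    {r : ℕ} (hr : r.Prime) (hxr : orderOf x = r) (hδ : δ ∈ indM a b q) :
    orderOf (δ * x) = r ↔ Cfsg.IsConjUnder (indM a b q) x (δ * x) := by
  subst hq
  obtain ⟨-, ξ, rfl, h1⟩ := fc_minus hab hm hx hr hxr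
  obtain ⟨K, iK, iA, hK⟩ := exists_K hab
  obtain ⟨X, -⟩ := exists_QX hab K hK
  have hKf : Finite K := by
    have : Module.Finite F K := Module.finite_of_finrank_pos (by omega)
    exact Module.finite_of_finite F
  have hδ' : δ ∈ D0 (evM X hab hm) := by rw [← indM_eq]; exact hδ
  have h3 := coset_main (evM X hab hm) (n := m) (minus_card m) 1
    (fun x hx => rfl) (fun g hg => rfl) (fun x x' a₀ b₀ R _ _ => (no_plus hab hm R).elim) hr hxr h1 hδ'
  rw [← indM_eq] at h3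
  exact h3

end MinusFinal

end Cfsg.Agent.H16.Par
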