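import Cfsg.Agent.H16_ParB

set_option autoImplicit false

/-! Centralizers of field and graph-field automorphisms in even dimension. -/

namespace Cfsg.Agent.H16.Par

open Matrix Cfsg.Agent.H16.Ps Module Cfsg.Agent.H16.Gam Cfsg.Agent.H16.AutL Cfsg.Agent.H16.AutG Cfsg.Agent.H16.Desc
open QuadraticMap (polar)
open Cfsg.Agent.H16 Cfsg.Agent.H16.POm

section RSl

variable {ι₀ ι : Type} [Fintype ι₀] [DecidableEq ι₀] [Fintype ι] [DecidableEq ι] {F : Type*} [Field F] [Finite F]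
  {A : OD ι F} {ξ : Gm ι F} {Q₁ : QuadraticForm F (ι₀ → F)} (R : RS A ξ Q₁)

include R

omit [Finite F] in
theorem RS.hp' (v w : ι₀ → F) : polar A.Q (R.L v) (R.L w) = R.l * polar Q₁ v w := by
  rw [polar, polar, ← map_add, R.hL, R.hL, R.hL]
  ring

omit [Finite F] in
theorem RS.refl (v w : ι₀ → F) : R.L (Quad.refl Q₁ v w) = Quad.refl A.Q (R.L v) (R.L w) := by
  rw [Quad.refl_apply, Quad.refl_apply, map_sub, _root_.map_smul, R.hp', R.hL]
  congr 2
  have h4 := R.l.ne_zero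
  by_cases h5 : Q₁ v = 0
  · rw [h5, mul_zero, _root_.inv_zero, zero_mul, zero_mul]
  · field_simp

omit [Finite F] in
theorem RS.rprod (ws : List (ι₀ → F)) (w : ι₀ → F) :
    R.L (Quad.rprod Q₁ ws w) = Quad.rprod A.Q (ws.map R.L) (R.L w) := by
  induction ws with
  | nil => rw [Quad.rprod_nil, List.map_nil, Quad.rprod_nil]; rfl
  | cons v ws ih =>
    rw [Quad.rprod_cons, List.map_cons, Quad.rprod_cons]
    change R.L (Quad.refl Q₁ v (Quad.rprod Q₁ ws w)) = Quad.refl A.Q (R.L v) (Quad.rprod A.Q (ws.map R.L) (R.L w))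
    rw [R.refl, ih]

omit [Finite F] in
theorem RS.iso_mem {g : GL ι₀ F} : cj R.L g ∈ Cfsg.isometryGroup F ⇑A.Q ↔ g ∈ Cfsg.isometryGroup F ⇑Q₁ := by
  rw [Quad.mem_isometryGroup, Quad.mem_isometryGroup]
  constructor
  · intro h v
    have h1 : A.Q (((cj R.L g : GL ι F) : Matrix ι ι F) *ᵥ (R.L v)) = A.Q (R.L v) := h _
    rw [cj_mulVec, R.hL, R.hL] at h1
    exact mul_left_cancel₀ R.l.ne_zero h1
  · intro h v
    obtain ⟨w, rfl⟩ := R.L.surjective v
    change A.Q (((cj R.L g : GL ι F) : Matrix ι ι F) *ᵥ (R.L w)) = A.Q (R.L w)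
    rw [cj_mulVec, R.hL, R.hL]
    congr 1
    exact h w

omit [Finite F] in
theorem RS.sim_mem {g : GL ι₀ F} {c : Fˣ} (h : ∀ v, Q₁ ((g : Matrix ι₀ ι₀ F) *ᵥ v) = (c : F) * Q₁ v) (v : ι → F) :
    A.Q (((cj R.L g : GL ι F) : Matrix ι ι F) *ᵥ v) = (c : F) * A.Q v := by
  obtain ⟨w, rfl⟩ := R.L.surjective v
  rw [cj_mulVec, R.hL, R.hL, h]
  ring

omit [Finite F] in
theorem RS.sim_iff {g : GL ι₀ F} : cj R.L g ∈ Cfsg.Geo.quadSimilarityGroup (F := F) ⇑A.Q ↔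
    g ∈ Cfsg.Geo.quadSimilarityGroup (F := F) ⇑Q₁ := by
  constructor
  · rintro ⟨c, hc⟩
    refine ⟨c, fun v => ?_⟩
    have h1 : A.Q (((cj R.L g : GL ι F) : Matrix ι ι F) *ᵥ (R.L v)) = (c : F) * A.Q (R.L v) := hc _
    rw [cj_mulVec, R.hL, R.hL, mul_left_comm] at h1
    exact mul_left_cancel₀ R.l.ne_zero h1
  · rintro ⟨c, hc⟩
    exact ⟨c, R.sim_mem hc⟩

omit [Finite F] in
theorem RS.toOG {g : Cfsg.isometryGroup F ⇑Q₁} {ws : List (ι₀ → F)} (h : Quad.toOG Q₁ g = Quad.rpr Q₁ ws) :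
    Quad.toOG A.Q ⟨cj R.L (g : GL ι₀ F), R.iso_mem.mpr g.2⟩ = Quad.rpr A.Q (ws.map R.L) := by
  apply Quad.toOG_ext
  intro v
  obtain ⟨w, rfl⟩ := R.L.surjective v
  rw [Quad.coe_rpr, ← R.rprod, ← Quad.coe_rpr, ← h, Quad.toOG_apply]
  exact cj_mulVec R.L _ w

/-- conjugating by the semisimilarity. -/
theorem RS.conj_cj (g : GL ι₀ F) : ξ * SemidirectProduct.inl (cj R.L g) * ξ⁻¹ =
    SemidirectProduct.inl (cj R.L (gσ ξ.right g)) := by
  apply gm_ext
  · rw [SemidirectProduct.mul_right, SemidirectProduct.mul_right, SemidirectProduct.inv_right,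
      SemidirectProduct.right_inl, SemidirectProduct.right_inl, mul_one, mul_inv_cancel]
  · intro v
    obtain ⟨u, rfl⟩ : ∃ u, v = sl ξ u := ⟨sl ξ⁻¹ v, (sl_sl_inv ξ v).symm⟩
    obtain ⟨w, rfl⟩ := R.L.surjective u
    rw [sl_mul, sl_inv_sl, sl_mul, sl_inl, sl_inl, cj_mulVec, R.hξ, R.hξ, cj_mulVec, map_mulVec']

end RSl

section Cent

variable {ι₀ ι : Type} [Fintype ι₀] [DecidableEq ι₀] [Fintype ι] [DecidableEq ι] {F K : Type*} [Field F] [Finite F]
  [Field K] [Finite K] {A : OD ι F} {ξ : (fam A).Γ} {Q₁ : QuadraticForm F (ι₀ → F)} (R : RS A (ξ : Gm ι F) Q₁)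
  {e : K →+* F} (he : ∀ a, (ξ : Gm ι F).right a = a ↔ a ∈ Set.range e) {A₀ : OD ι₀ K}
  (hQ₁ : ∀ x : ι₀ → K, Q₁ (fun i => e (x i)) = e (A₀.Q x))

include hQ₁ in
omit [Finite F] [Finite K] in
theorem mul_rat {g : GL ι₀ K} {c : Kˣ} (h : ∀ v, A₀.Q ((g : Matrix ι₀ ι₀ K) *ᵥ v) = (c : K) * A₀.Q v) (v : ι₀ → F) :
    Q₁ (((Matrix.GeneralLinearGroup.map e g : GL ι₀ F) : Matrix ι₀ ι₀ F) *ᵥ v) = ((Units.map (e : K →* F) c : Fˣ) : F) * Q₁ v := by
  refine ext_rat e (Q₁ := Q₁.comp (Matrix.mulVecLin ((Matrix.GeneralLinearGroup.map e g : GL ι₀ F) : Matrix ι₀ ι₀ F)))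
    (Q₂ := (e (c : K)) • Q₁) (fun x => ?_) v
  rw [comp_gl, map_mulVec_coe, hQ₁]
  change _ = e (c : K) * Q₁ (fun i => e (x i))
  rw [hQ₁, ← map_mul]
  congr 1
  exact h x

/-- the rational embedding. -/
noncomputable def jN : (fam A₀).N →* (fam A).N :=
  ((cj R.L).comp ((Matrix.GeneralLinearGroup.map e).comp (fam A₀).N.subtype)).codRestrict (fam A).N
    (fun g => sim_mem_Gam.mpr ⟨Units.map (e : K →* F) (muN A₀ g), R.sim_mem (mul_rat hQ₁ (muN_spec A₀ g))⟩)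

theorem jN_coe (g : (fam A₀).N) : ((jN R hQ₁ g : (fam A).N) : GL ι F) =
    cj R.L (Matrix.GeneralLinearGroup.map e (g : GL ι₀ K)) := rfl

theorem muN_jN (g : (fam A₀).N) : muN A (jN R hQ₁ g) = Units.map (e : K →* F) (muN A₀ g) :=
  muN_eq A (R.sim_mem (mul_rat hQ₁ (muN_spec A₀ g)))

theorem map_scl' (e : K →+* F) (c : Kˣ) :
    Matrix.GeneralLinearGroup.map e (scl ι₀ c) = scl ι₀ (Units.map (e : K →* F) c) := by
  apply Units.ext
  ext i j
  change e ((Matrix.scalar ι₀ (c : K)) i j) = (Matrix.scalar ι₀ (e (c : K))) i j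
  rw [Matrix.scalar_apply, Matrix.scalar_apply, Matrix.diagonal_apply, Matrix.diagonal_apply]
  split_ifs <;> simp

theorem jN_scl (c : Kˣ) : jN R hQ₁ ⟨scl ι₀ c, (fam A₀).sc c⟩ = ⟨scl ι (Units.map (e : K →* F) c), (fam A).sc _⟩ := by
  apply Subtype.ext
  rw [jN_coe]
  change cj R.L (Matrix.GeneralLinearGroup.map e (scl ι₀ c)) = _
  rw [map_scl', cj_scl]

include hQ₁ in
theorem jN_iso_mem (u : Cfsg.isometryGroup K ⇑A₀.Q) :
    cj R.L (Matrix.GeneralLinearGroup.map e (u : GL ι₀ K)) ∈ Cfsg.isometryGroup F ⇑A.Q :=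
  R.iso_mem.mpr ((map_iso e hQ₁ _).mpr u.2)

/-- rational isometries. -/
noncomputable def jO (u : Cfsg.isometryGroup K ⇑A₀.Q) : Cfsg.isometryGroup F ⇑A.Q := ⟨_, jN_iso_mem R hQ₁ u⟩

theorem jN_iso (u : Cfsg.isometryGroup K ⇑A₀.Q) :
    jN R hQ₁ ⟨u, iso_le_N A₀ u.2⟩ = ⟨jO R hQ₁ u, iso_le_N A (jO R hQ₁ u).2⟩ := rfl

theorem jO_rpr {u : Cfsg.isometryGroup K ⇑A₀.Q} {vs : List (ι₀ → K)} (h : Quad.toOG A₀.Q u = Quad.rpr A₀.Q vs) :
    Quad.toOG A.Q (jO R hQ₁ u) = Quad.rpr A.Q (vs.map fun v => R.L (fun i => e (v i))) := by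
  have h1 := toOG_map e hQ₁ h
  have h2 := R.toOG h1
  rw [List.map_map] at h2
  exact h2

include hQ₁ in
theorem jO_ne {vs : List (ι₀ → K)} (h : ∀ v ∈ vs, A₀.Q v ≠ 0) :
    ∀ w ∈ vs.map (fun v => R.L (fun i => e (v i))), A.Q w ≠ 0 := by
  intro w hw
  obtain ⟨v, hv, rfl⟩ := List.mem_map.mp hw
  rw [R.hL, hQ₁]
  exact mul_ne_zero R.l.ne_zero (by rw [Ne, map_eq_zero]; exact h v hv)

theorem del_jO (u : Cfsg.isometryGroup K ⇑A₀.Q) : del A (jO R hQ₁ u) = del A₀ u := by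
  obtain ⟨vs, h1, h2⟩ := exists_vs A₀ u
  rw [(dt_rpr A (jO_ne R hQ₁ h1) (jO_rpr R hQ₁ h2)).1, (dt_rpr A₀ h1 h2).1, List.length_map]

theorem E_jN {S : EvS A} {S₀ : EvS A₀} {n : ℕ} (hS : DetF S n) (hS₀ : DetF S₀ n) (g : (fam A₀).N) :
    S.E (jN R hQ₁ g) = S₀.E g := by
  by_cases h2 : (2 : K) = 0
  · obtain ⟨d, u, rfl⟩ := sq_mult A₀ g (by
      rw [sqc_eq_one]
      exact Quad.isSquare_of_two_eq_zero h2 _)
    rw [_root_.map_mul, _root_.map_mul, _root_.map_mul, jN_scl, S.scl, S₀.scl, jN_iso, S.iso, S₀.iso, del_jO]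
  · have h2F : (2 : F) ≠ 0 := by
      intro h
      apply h2
      apply e.injective
      rw [map_ofNat, h, map_zero]
    have h3 := hS h2F (jN R hQ₁ g)
    have h4 := hS₀ h2 g
    have h5 : (((jN R hQ₁ g : (fam A).N) : GL ι F) : Matrix ι ι F).det = e ((g : GL ι₀ K) : Matrix ι₀ ι₀ K).det := by
      rw [jN_coe, cj_det]
      exact (e.map_det _).symm
    have h6 : S.E (jN R hQ₁ g) = 1 ↔ S₀.E g = 1 := by
      rw [h3, h4, h5, muN_jN]
      change e _ = (e ((muN A₀ g : Kˣ) : K)) ^ n ↔ _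
      rw [← map_pow]
      exact e.injective.eq_iff
    rcases Int.units_eq_one_or (S.E (jN R hQ₁ g)) with h | h
    · rw [h, h6.mp h]
    · rcases Int.units_eq_one_or (S₀.E g) with h' | h'
      · rw [h6.mpr h', h']
      · rw [h, h']

/-- commuting with a semisimilarity. -/
theorem comm_gen {g : (fam A).N} : (fam A).T ((fam A).nin g) ∈ Subgroup.centralizer {(fam A).T ξ} ↔
    ∃ c : Fˣ, (ξ : Gm ι F) * SemidirectProduct.inl (g : GL ι F) * (ξ : Gm ι F)⁻¹ =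
      SemidirectProduct.inl (scl ι c * (g : GL ι F)) := by
  rw [Subgroup.mem_centralizer_singleton_iff, ← _root_.map_mul, ← _root_.map_mul, eq_comm, ← mul_inv_eq_one,
    ← _root_.map_inv, ← _root_.map_mul, (fam A).T_eq_one_iff]
  refine exists_congr fun c => ?_
  change (ξ : Gm ι F) * SemidirectProduct.inl (g : GL ι F) * (SemidirectProduct.inl (g : GL ι F) * (ξ : Gm ι F))⁻¹ = _ ↔ _
  rw [_root_.map_mul SemidirectProduct.inl (scl ι c), _root_.mul_inv_rev, ← mul_assoc, mul_inv_eq_iff_eq_mul]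

include he in
theorem jN_surj {z : (fam A).N} (hz : (fam A).T ((fam A).nin z) ∈ Subgroup.centralizer {(fam A).T ξ}) :
    ∃ (t : Fˣ) (g : (fam A₀).N), z = ⟨scl ι t, (fam A).sc t⟩ * jN R hQ₁ g := by
  have hnt := nonempty A₀
  obtain ⟨c, hc⟩ := comm_gen.mp hz
  obtain ⟨G, hG⟩ := cj_surj R.L (z : GL ι F)
  rw [← hG, R.conj_cj, ← cj_scl R.L, ← _root_.map_mul] at hc
  have h1 := cj_inj R.L (SemidirectProduct.inl_injective hc)
  obtain ⟨t, g₀, h2, h3⟩ := exists_fixed_of_sc rfl (orderOf_pos _) h1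
  obtain ⟨g₁, hg₁⟩ := exists_desc he h3
  have h4 : g₁ ∈ (fam A₀).N := by
    refine sim_mem_Gam.mpr ((map_sim e hQ₁ A₀.nd g₁).mp ?_)
    rw [← R.sim_iff, hg₁]
    have h5 : cj R.L g₀ = scl ι t⁻¹ * (z : GL ι F) := by
      rw [← hG, h2, _root_.map_mul, cj_scl, ← mul_assoc, ← _root_.map_mul, inv_mul_cancel, _root_.map_one, one_mul]
    have h6 : scl ι t⁻¹ * (z : GL ι F) ∈ (fam A).N := mul_mem ((fam A).sc t⁻¹) z.2
    rw [h5]
    exact sim_mem_Gam.mp h6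
  refine ⟨t, ⟨g₁, h4⟩, Subtype.ext ?_⟩
  change (z : GL ι F) = scl ι t * cj R.L (Matrix.GeneralLinearGroup.map e g₁)
  rw [← hG, h2, hg₁, _root_.map_mul, cj_scl]

include he in
theorem jN_comm (g : (fam A₀).N) :
    (fam A).T ((fam A).nin (jN R hQ₁ g)) ∈ Subgroup.centralizer {(fam A).T ξ} := by
  refine comm_gen.mpr ⟨1, ?_⟩
  rw [jN_coe, R.conj_cj, map_fixed he, _root_.map_one, one_mul]

include R in
/-- the centralizer. -/
theorem cent_iso {S : EvS A} {S₀ : EvS A₀} {n : ℕ} (he : ∀ a, (ξ : Gm ι F).right a = a ↔ a ∈ Set.range e)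
    (hQ₁ : ∀ x : ι₀ → K, Q₁ (fun i => e (x i)) = e (A₀.Q x)) (hS : DetF S n) (hS₀ : DetF S₀ n) :
    Nonempty (↥(D0 S ⊓ Subgroup.centralizer {(fam A).T ξ}) ≃* ↥(D0 S₀)) := by
  have hnt := nonempty A₀
  let f : S₀.E.ker →* ↥(D0 S ⊓ Subgroup.centralizer {(fam A).T ξ}) :=
    (((fam A).T.comp (fam A).nin).comp ((jN R hQ₁).comp S₀.E.ker.subtype)).codRestrict _ (fun g => by
      refine ⟨?_, jN_comm R he hQ₁ _⟩
      refine T_mem_D0.mpr ?_
      change S.E (jN R hQ₁ (g : (fam A₀).N)) = 1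
      rw [E_jN R hQ₁ hS hS₀]
      exact g.2)
  let f₀ : S₀.E.ker →* ↥(D0 S₀) :=
    (((fam A₀).T.comp (fam A₀).nin).comp S₀.E.ker.subtype).codRestrict _ (fun g => T_mem_D0.mpr g.2)
  have hf : Function.Surjective f := by
    rintro ⟨α, hα1, hα2⟩
    obtain ⟨z, hz, rfl⟩ := mem_D0.mp hα1
    obtain ⟨t, g, hg⟩ := jN_surj R he hQ₁ hα2
    have h1 : S₀.E g = 1 := by
      rw [hg, _root_.map_mul, S.scl, one_mul, E_jN R hQ₁ hS hS₀] at hz
      exact hz
    refine ⟨⟨g, h1⟩, Subtype.ext ?_⟩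
    change (fam A).T ((fam A).nin (jN R hQ₁ g)) = (fam A).T ((fam A).nin z)
    rw [hg, _root_.map_mul, _root_.map_mul, T_scl, one_mul]
  have hf₀ : Function.Surjective f₀ := by
    rintro ⟨α, hα⟩
    obtain ⟨z, hz, rfl⟩ := mem_D0.mp hα
    exact ⟨⟨z, hz⟩, rfl⟩
  have hk : f.ker = f₀.ker := by
    ext g
    rw [MonoidHom.mem_ker, MonoidHom.mem_ker]
    have h1 : f g = 1 ↔ (fam A).T ((fam A).nin (jN R hQ₁ (g : (fam A₀).N))) = 1 :=
      ⟨fun h => congrArg Subtype.val h, fun h => Subtype.ext h⟩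
    have h2 : f₀ g = 1 ↔ (fam A₀).T ((fam A₀).nin (g : (fam A₀).N)) = 1 :=
      ⟨fun h => congrArg Subtype.val h, fun h => Subtype.ext h⟩
    rw [h1, h2, Fam.ker_nin, Fam.ker_nin, ← map_scl_iff e]
    refine exists_congr fun c => ?_
    rw [jN_coe, ← cj_scl R.L]
    exact (cj_inj R.L).eq_iff
  exact ⟨((QuotientGroup.quotientKerEquivOfSurjective f hf).symm.trans
    (QuotientGroup.quotientMulEquivOfEq hk)).trans (QuotientGroup.quotientKerEquivOfSurjective f₀ hf₀)⟩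

include he in
omit [Finite K] in
/-- squares in the fixed field. -/
theorem isSquare_up (h2 : (2 : F) ≠ 0) (ho : Odd (orderOf (ξ : Gm ι F).right)) {c : K} : IsSquare (e c) ↔ IsSquare c := by
  constructor
  · rintro ⟨t, ht⟩
    have h1 := isSquare_desc h2 ho ((he _).mpr ⟨c, rfl⟩) ht
    obtain ⟨s, rfl⟩ := (he _).mp h1
    exact ⟨s, e.injective (by rw [ht, map_mul])⟩
  · rintro ⟨t, rfl⟩
    exact ⟨e t, map_mul _ _ _⟩

include R he hQ₁ in
/-- the class of a field automorphism does not split. -/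
theorem split_one {S : EvS A} {S₀ : EvS A₀} {n : ℕ} (hS : DetF S n) (hS₀ : DetF S₀ n)
    (h : (2 : F) = 0 ∨ Odd (orderOf (ξ : Gm ι F).right)) :
    Cfsg.splitClassCount (D0 S) (Cfsg.Inn (Cfsg.POmega F ⇑A.Q)) ((fam A).T ξ) = 1 := by
  have h7 := A₀.h7
  rw [Split.splitClassCount_eq _ _ inferInstance (inn_le_D0 S), Subgroup.relIndex_eq_one]
  set P := Cfsg.Inn (Cfsg.POmega F ⇑A.Q) ⊔ (D0 S ⊓ Subgroup.centralizer {(fam A).T ξ}) with hP
  have hinn : ∀ α ∈ Cfsg.Inn (Cfsg.POmega F ⇑A.Q), α ∈ P := fun α hα => Subgroup.mem_sup_left hα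
  have hrat : ∀ g : (fam A₀).N, S₀.E g = 1 → (fam A).T ((fam A).nin (jN R hQ₁ g)) ∈ P := fun g hg =>
    Subgroup.mem_sup_right ⟨T_mem_D0.mpr (by rw [E_jN R hQ₁ hS hS₀, hg]), jN_comm R he hQ₁ g⟩
  -- isometries
  have hiso : ∀ u : Cfsg.isometryGroup F ⇑A.Q, del A u = 1 → fO A u ∈ P := by
    intro u hu
    rcases Int.units_eq_one_or (the A u) with h1 | h1
    · exact hinn _ (fO_inn A ((mem_Om A u).mpr ⟨hu, h1⟩))
    · have h2 : (2 : F) ≠ 0 := by
        intro h2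
        rw [the_one A h2] at h1
        exact absurd h1 (by decide)
      have ho := h.resolve_left h2
      have h2K : (2 : K) ≠ 0 := by
        intro h
        apply h2
        rw [← map_ofNat e, h, map_zero]
      obtain ⟨⟨v, hv, hv2⟩, w, hw, hw2⟩ := Quad.exists_both A₀.nd h2K (by
        rw [Module.finrank_fintype_fun_eq_card]; omega)
      let u₀ : Cfsg.isometryGroup K ⇑A₀.Q := rfl' A₀ v * rfl' A₀ w
      have hns : ∀ x ∈ [v, w], A₀.Q x ≠ 0 := by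
        intro x hx
        rcases List.mem_cons.mp hx with rfl | hx
        · exact hv
        · rw [List.mem_singleton.mp hx]; exact hw
      have hu₀ : Quad.toOG A₀.Q u₀ = Quad.rpr A₀.Q [v, w] := by
        rw [_root_.map_mul, toOG_rfl', toOG_rfl', Quad.rpr_cons, Quad.rpr_cons, Quad.rpr_nil, mul_one]
      have hj := dt_rpr A (jO_ne R hQ₁ hns) (jO_rpr R hQ₁ hu₀)
      have hd : del A (jO R hQ₁ u₀) = 1 := by
        rw [hj.1]; simp
      have ht : the A (jO R hQ₁ u₀) = -1 := by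
        rcases Int.units_eq_one_or (the A (jO R hQ₁ u₀)) with h3 | h3
        · exfalso
          have h4 := hj.2.mp h3
          simp only [List.map_cons, List.map_nil, List.prod_cons, List.prod_nil, mul_one, R.hL, hQ₁] at h4
          have hl := R.l.ne_zero
          have h5 : IsSquare (e (A₀.Q v * A₀.Q w)) := by
            obtain ⟨t, ht⟩ := h4
            refine ⟨t / R.l, ?_⟩
            rw [div_mul_div_comm, ← ht, map_mul]
            field_simp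
          have h6 := (isSquare_up he h2 ho).mp h5
          exact hw2 (((Quad.isSquare_mul_iff hv hw).mp h6).mp hv2)
        · exact h3
      have h8 : fO A u = fO A (u * (jO R hQ₁ u₀)⁻¹) * fO A (jO R hQ₁ u₀) := by
        rw [← _root_.map_mul, inv_mul_cancel_right]
      rw [h8]
      refine mul_mem (hinn _ (fO_inn A ((mem_Om A _).mpr ⟨?_, ?_⟩))) ?_
      · rw [_root_.map_mul, _root_.map_inv, hu, hd, inv_one, mul_one]
      · rw [_root_.map_mul, _root_.map_inv, h1, ht, mul_inv_cancel]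
      · have h9 := hrat ⟨u₀, iso_le_N A₀ u₀.2⟩ (by
          rw [S₀.iso, _root_.map_mul, del_rfl' hv, del_rfl' hw]; rfl)
        exact h9
  -- square multipliers
  have hsq : ∀ z : (fam A).N, S.E z = 1 → sqc F (muN A z) = 1 → (fam A).T ((fam A).nin z) ∈ P := by
    intro z hz hz2
    obtain ⟨d, u, rfl⟩ := sq_mult A z hz2
    rw [_root_.map_mul, S.scl, one_mul, S.iso] at hz
    rw [_root_.map_mul, _root_.map_mul, T_scl, one_mul]
    exact hiso u hz
  intro α hα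
  obtain ⟨z, hz, rfl⟩ := mem_D0.mp hα
  rcases Int.units_eq_one_or (sqc F (muN A z)) with h1 | h1
  · exact hsq z hz h1
  · have h2 : (2 : F) ≠ 0 := by
      intro h2
      have h3 : sqc F (muN A z) = 1 := sqc_eq_one.mpr (Quad.isSquare_of_two_eq_zero h2 _)
      rw [h3] at h1
      exact absurd h1 (by decide)
    have ho := h.resolve_left h2
    have h2K : (2 : K) ≠ 0 := by
      intro h
      apply h2
      rw [← map_ofNat e, h, map_zero]
    obtain ⟨g₁, hg₁⟩ := exists_ns_mult S₀ h2K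
    obtain ⟨g₀, hg₀, hgE⟩ : ∃ g₀ : (fam A₀).N, sqc K (muN A₀ g₀) = -1 ∧ S₀.E g₀ = 1 := by
      rcases Int.units_eq_one_or (S₀.E g₁) with h3 | h3
      · exact ⟨g₁, hg₁, h3⟩
      · obtain ⟨v, hv⟩ := exists_ns A₀
        refine ⟨g₁ * ⟨rfl' A₀ v, iso_le_N A₀ (rfl' A₀ v).2⟩, ?_, ?_⟩
        · have h4 : muN A₀ ⟨rfl' A₀ v, iso_le_N A₀ (rfl' A₀ v).2⟩ = 1 := (muN_ker A₀ _).mpr (rfl' A₀ v).2
          rw [_root_.map_mul, h4, mul_one, hg₁]
        · rw [_root_.map_mul, h3, S₀.iso, del_rfl' hv]; rfl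
    have h5 : sqc F (muN A (jN R hQ₁ g₀)) = -1 := by
      rw [muN_jN]
      rcases Int.units_eq_one_or (sqc F (Units.map (e : K →* F) (muN A₀ g₀))) with h6 | h6
      · exfalso
        have h7 : IsSquare (e (muN A₀ g₀ : K)) := sqc_eq_one.mp h6
        have h8 := sqc_eq_one.mpr ((isSquare_up he h2 ho).mp h7)
        rw [hg₀] at h8
        exact absurd h8 (by decide)
      · exact h6
    have h6 : (fam A).T ((fam A).nin z) = (fam A).T ((fam A).nin (z * (jN R hQ₁ g₀)⁻¹)) *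
        (fam A).T ((fam A).nin (jN R hQ₁ g₀)) := by
      rw [← _root_.map_mul, ← _root_.map_mul, inv_mul_cancel_right]
    rw [h6]
    refine mul_mem (hsq _ ?_ ?_) (hrat g₀ hgE)
    · rw [_root_.map_mul, _root_.map_inv, hz, E_jN R hQ₁ hS hS₀, hgE, inv_one, mul_one]
    · rw [_root_.map_mul, _root_.map_mul, _root_.map_inv, _root_.map_inv, h1, h5, mul_inv_cancel]

end Cent

section Norm

variable {ι : Type} [Fintype ι] [DecidableEq ι] {F : Type*} [Field F] [Finite F] {A : OD ι F}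

/-- normalized representatives. -/
theorem exists_rep_norm (ξ : (fam A).Γ) (h : (fam A).T ξ ^ orderOf (ξ : Gm ι F).right = 1) :
    ∃ y : (fam A).Γ, (fam A).T y = (fam A).T ξ ∧ (y : Gm ι F).right = (ξ : Gm ι F).right ∧
      Nn (y : Gm ι F).right (y : Gm ι F).left (orderOf (y : Gm ι F).right) = 1 := by
  have hnt := nonempty A
  obtain ⟨t, ht⟩ := exists_nrm ξ h
  set y : (fam A).Γ := (fam A).nin ⟨scl ι t, (fam A).sc t⟩ * ξ with hy
  have hyr : (y : Gm ι F).right = (ξ : Gm ι F).right := by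
    rw [hy, Subgroup.coe_mul, SemidirectProduct.mul_right]
    exact one_mul _
  have hyl : (y : Gm ι F).left = scl ι t * (ξ : Gm ι F).left := by
    rw [hy, Subgroup.coe_mul, SemidirectProduct.mul_left]
    change scl ι t * gσ 1 (ξ : Gm ι F).left = _
    rw [gσ_one]
  refine ⟨y, ?_, hyr, ?_⟩
  · rw [hy, _root_.map_mul, T_scl, one_mul]
  · rw [hyr, hyl]; exact ht

end Norm

end Cfsg.Agent.H16.Par
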