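import Cfsg.Agent.H16_ParC

set_option autoImplicit false

/-! Field automorphisms in minus type. -/

namespace Cfsg.Agent.H16.Par

open Matrix Cfsg.Agent.H16.Ps Module Cfsg.Agent.H16.Gam Cfsg.Agent.H16.AutL Cfsg.Agent.H16.AutG Cfsg.Agent.H16.Desc
open QuadraticMap (polar)
open Cfsg.Agent.H16 Cfsg.Agent.H16.POm

section MinusFinal

universe u v

theorem exists_evM {F : Type u} [Field F] [Finite F] {a b : F} {m : ℕ} (hab : An a b) (hm : 3 ≤ m) :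
    ∃ S : EvS (odM hab hm), indM a b ⇑(odM hab hm).Q = D0 S ∧ DetF S (m + 1) := by
  obtain ⟨K, iK, iA, hK⟩ := exists_K hab
  obtain ⟨X, -⟩ := exists_QX hab K hK
  have hKf : Finite K := by
    have : Module.Finite F K := Module.finite_of_finrank_pos (by omega)
    exact Module.finite_of_finite F
  exact ⟨evM X hab hm, indM_eq X hab hm, detF_minus X hab hm⟩

theorem cent_minus_gen {F : Type u} [Field F] [Finite F] {a b : F} {m : ℕ} (hab : An a b) (hm : 3 ≤ m)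
    {ξ : (fam (odM hab hm)).Γ} (hN : Nn (ξ : Gm ((Fin m ⊕ Fin m) ⊕ Fin 2) F).right
      (ξ : Gm ((Fin m ⊕ Fin m) ⊕ Fin 2) F).left (orderOf (ξ : Gm ((Fin m ⊕ Fin m) ⊕ Fin 2) F).right) = 1)
    (ho : Odd (orderOf (ξ : Gm ((Fin m ⊕ Fin m) ⊕ Fin 2) F).right))
    {F₀ : Type v} [Field F₀] [Finite F₀] {e : F₀ →+* F}
    (he : ∀ a, (ξ : Gm ((Fin m ⊕ Fin m) ⊕ Fin 2) F).right a = a ↔ a ∈ Set.range e) {a₀ b₀ : F₀} (hζ : An a₀ b₀) :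
    Nonempty (↥(indM a b ⇑(odM hab hm).Q ⊓ Subgroup.centralizer {(fam (odM hab hm)).T ξ}) ≃* ↥(indM a₀ b₀ ⇑(odM hζ hm).Q)) ∧
      Cfsg.splitClassCount (indM a b ⇑(odM hab hm).Q) (Cfsg.Inn (Cfsg.POmega F ⇑(odM hab hm).Q)) ((fam (odM hab hm)).T ξ) = 1 := by
  obtain ⟨S, hX, hS⟩ := exists_evM hab hm
  obtain ⟨S₀, hX₀, hS₀⟩ := exists_evM hζ hm
  obtain ⟨R⟩ : Nonempty (RS (odM hab hm) (ξ : Gm ((Fin m ⊕ Fin m) ⊕ Fin 2) F) (Quad.minusQ F m (e a₀) (e b₀))) := by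
    rcases forms (A := odM hab hm) (n := m) (minus_card m) ξ.2 hN e he with ⟨⟨R⟩⟩ | h
    · exact (no_plus hab hm R).elim
    · exact h a₀ b₀ hζ
  have hQ₁ : ∀ x : (Fin m ⊕ Fin m) ⊕ Fin 2 → F₀, Quad.minusQ F m (e a₀) (e b₀) (fun i => e (x i)) =
      e ((odM hζ hm).Q x) := fun x => rat_minus e a₀ b₀ x
  rw [hX, hX₀]
  exact ⟨cent_iso R he hQ₁ hS hS₀, split_one R he hQ₁ hS hS₀ (Or.inr ho)⟩

theorem cent_minus {F : Type u} [Field F] [Finite F] {a b : F} {m : ℕ} (hab : An a b) (hm : 3 ≤ m)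
    {q : ((Fin m ⊕ Fin m) ⊕ Fin 2 → F) → F} (hq : ⇑(odM hab hm).Q = q)
    {p f : ℕ} (hp : p.Prime) (hF : Nat.card F = p ^ f)
    (x : MulAut (Cfsg.POmega F q)) (hx : fcM q x)
    {r : ℕ} (hr : r.Prime) (hxr : orderOf x = r) (F₀ : Type v) [Field F₀] [Fintype F₀] (hF₀ : Fintype.card F₀ = p ^ (f / r)) :
    Odd r ∧ r ∣ f ∧ (∃ (a₀ b₀ : F₀) (hζ : An a₀ b₀),
      Nonempty (↥(indM a b q ⊓ Subgroup.centralizer {x}) ≃* ↥(indM a₀ b₀ ⇑(odM hζ hm).Q))) ∧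
      Cfsg.splitClassCount (indM a b q) (Cfsg.Inn (Cfsg.POmega F q)) x = 1 := by
  subst hq
  obtain ⟨hro, ξ₁, h0, h1⟩ := fc_minus hab hm hx hr hxr
  rw [← h0] at hxr
  have hσr₁ := orderOf_right hr hxr h1
  obtain ⟨ξ, hξT, hξr, hN⟩ := exists_rep_norm ξ₁ (by rw [hσr₁, ← hxr, pow_orderOf_eq_one])
  have hσr : orderOf (ξ : Gm ((Fin m ⊕ Fin m) ⊕ Fin 2) F).right = r := by rw [hξr, hσr₁]
  obtain ⟨q₀, hq, hcard, hfix, hfix'⟩ := card_fix (ξ : Gm ((Fin m ⊕ Fin m) ⊕ Fin 2) F).right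
  obtain ⟨hrf, hq₀⟩ := prime_pow_root hp (show p ^ f = q₀ ^ r by
    rw [← hF, hcard, hσr]) hr.pos
  obtain ⟨e, he⟩ := exists_emb hcard hfix' F₀ (by rw [hF₀, hq₀])
  obtain ⟨ζ, hζ⟩ := exists_an F₀
  have h2 := cent_minus_gen hab hm hN (by rw [hσr]; exact hro) he hζ
  rw [hξT, h0] at h2
  exact ⟨hro, hrf, ⟨1, ζ, hζ, h2.1⟩, h2.2⟩

/-- change of the form. -/
theorem indM_cast {F₀ : Type v} [Field F₀] [Finite F₀] {a₀ b₀ : F₀} {m : ℕ} (hζ : An a₀ b₀) (hm : 3 ≤ m)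
    {G : Type*} [Group G] (h : Nonempty (G ≃* ↥(indM a₀ b₀ ⇑(odM hζ hm).Q))) :
    Nonempty (G ≃* ↥(Cfsg.inndiagPOmegaMinus m F₀ a₀ b₀)) := by
  have key : ∀ q' : ((Fin m ⊕ Fin m) ⊕ Fin 2 → F₀) → F₀, ⇑(odM hζ hm).Q = q' →
      Nonempty (G ≃* ↥(indM a₀ b₀ q')) := by
    intro q' hq'
    subst hq'
    exact h
  exact key _ (Quad.coe_minusQ F₀ m a₀ b₀)

end MinusFinal

end Cfsg.Agent.H16.Par
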