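import Cfsg.Agent.H16_ParD

set_option autoImplicit false

/-! Indices; Levi elements; norms and squares. -/

namespace Cfsg.Agent.H16.Par

open Matrix Cfsg.Agent.H16.Ps Module Cfsg.Agent.H16.Gam Cfsg.Agent.H16.AutL Cfsg.Agent.H16.AutG Cfsg.Agent.H16.Desc
open QuadraticMap (polar)
open Cfsg.Agent.H16 Cfsg.Agent.H16.POm

section Idx

variable {ι : Type} [Fintype ι] [DecidableEq ι] {F : Type*} [Field F] [Finite F] {A : OD ι F} (S : EvS A)

theorem E_surj : Function.Surjective S.E := by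
  intro a
  rcases Int.units_eq_one_or a with rfl | rfl
  · exact ⟨1, _root_.map_one _⟩
  · obtain ⟨v, hv⟩ := exists_ns A
    exact ⟨⟨rfl' A v, iso_le_N A (rfl' A v).2⟩, by rw [S.iso, del_rfl' hv]⟩

theorem relIndex_D0 : (D0 S).relIndex (fam A).D = 2 := by
  have h1 : (fam A).D = (⊤ : Subgroup (fam A).N).map ((fam A).T.comp (fam A).nin) := by
    rw [Fam.D, MonoidHom.range_eq_map]
  rw [h1, D0, Subgroup.relIndex_map_map]
  have h2 : S.E.ker ⊔ ((fam A).T.comp (fam A).nin).ker = S.E.ker := by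
    rw [sup_eq_left]
    intro g hg
    obtain ⟨c, hc⟩ := (Fam.ker_nin _).mp hg
    have h3 : g = ⟨scl ι c, (fam A).sc c⟩ := Subtype.ext hc
    rw [h3, MonoidHom.mem_ker, S.scl]
  rw [h2, top_sup_eq, Subgroup.relIndex_top_right, Subgroup.index_ker, MonoidHom.range_eq_top.mpr (E_surj S)]
  simp [Nat.card_eq_fintype_card]

open Classical in
theorem relIndex_inn_D0 (h2 : (2 : F) ≠ 0) : (Cfsg.Inn (Cfsg.POmega F ⇑A.Q)).relIndex (D0 S) =
    if negO A ∈ Cfsg.Omega F ⇑A.Q then 4 else 2 := by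
  have h1 := Subgroup.relIndex_mul_relIndex (Cfsg.Inn (Cfsg.POmega F ⇑A.Q)) (D0 S) (fam A).D (inn_le_D0 S) (D0_le S)
  rw [relIndex_D0, relIndex_even S h2] at h1
  split_ifs at h1 ⊢ <;> omega

/-- similarities inside the inner automorphism group have square multiplier. -/
theorem sqc_of_inn {z : (fam A).N} (h : (fam A).T ((fam A).nin z) ∈ Cfsg.Inn (Cfsg.POmega F ⇑A.Q)) :
    sqc F (muN A z) = 1 := by
  obtain ⟨g, hg, hgk⟩ := inn_fO A _ h
  have h1 : (fam A).T ((fam A).nin (⟨g, iso_le_N A g.2⟩⁻¹ * z)) = 1 := by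
    rw [_root_.map_mul, _root_.map_mul, _root_.map_inv, _root_.map_inv, ← hgk]
    exact inv_mul_cancel _
  obtain ⟨c, hc⟩ := (Fam.ker_nin _).mp h1
  have h2 : z = ⟨g, iso_le_N A g.2⟩ * ⟨scl ι c, (fam A).sc c⟩ := by
    rw [← inv_mul_eq_iff_eq_mul]
    exact Subtype.ext hc
  have h3 : muN A ⟨g, iso_le_N A g.2⟩ = 1 := (muN_ker A _).mpr g.2
  rw [h2, _root_.map_mul, _root_.map_mul, h3, _root_.map_one, one_mul, muN_scl, sqc_sq]

end Idx

section Norm

variable {F K : Type*} [Field F] [Finite F] [Field K] [Finite K] {σ : F ≃+* F} {e : K →+* F}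
  (he : ∀ a, σ a = a ↔ a ∈ Set.range e)

include he

omit [Finite K] in
theorem exists_norm_K (hσ : orderOf σ = 2) {w : K} (hw : w ≠ 0) : ∃ t : F, t * σ t = e w := by
  have hw' : e w ≠ 0 := by rw [Ne, map_eq_zero]; exact hw
  obtain ⟨x, hx⟩ := exists_norm_eq σ hσ (by norm_num) (Units.mk0 (e w) hw') ((he _).mpr ⟨w, rfl⟩)
  refine ⟨x, ?_⟩
  have h1 := congrArg Units.val hx
  rw [nn_eq, Finset.prod_range_succ, Finset.prod_range_one, pow_zero, pow_one] at h1
  exact h1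

/-- a norm is a square if and only if the element is. -/
theorem sq_norm (h2 : (2 : F) ≠ 0) (hσ : orderOf σ = 2) {z : F} (hz : z ≠ 0) {w : K} (hw : e w = z * σ z) :
    IsSquare z ↔ IsSquare w := by
  have h2K : (2 : K) ≠ 0 := by
    intro h
    apply h2
    rw [← map_ofNat e, h, map_zero]
  have hσ2 : ∀ t, σ (σ t) = t := by
    intro t
    have h1 : σ ^ 2 = 1 := by rw [← hσ, pow_orderOf_eq_one]
    have h3 : (σ ^ 2) t = t := by rw [h1]; rfl
    rwa [pow_two] at h3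
  have hfwd : ∀ {z : F} {w : K}, e w = z * σ z → IsSquare z → IsSquare w := by
    rintro z w hw ⟨t, rfl⟩
    obtain ⟨v, hv⟩ := (he (t * σ t)).mp (by rw [map_mul, hσ2, mul_comm])
    refine ⟨v, e.injective ?_⟩
    rw [hw, map_mul, map_mul, hv]
    ring
  constructor
  · exact hfwd hw
  · intro hws
    by_contra hzn
    obtain ⟨w₁, hw₁, hw₁2⟩ := Quad.exists_nonsquare' h2K
    obtain ⟨t₁, ht₁⟩ := exists_norm_K he hσ hw₁
    have ht₁0 : t₁ ≠ 0 := by
      rintro rfl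
      rw [zero_mul] at ht₁
      exact hw₁ ((map_eq_zero e).mp ht₁.symm)
    have ht₁n : ¬ IsSquare t₁ := fun h => hw₁2 (hfwd ht₁.symm h)
    have h3 : IsSquare (z * t₁) := (Quad.isSquare_mul_iff hz ht₁0).mpr ⟨fun h => absurd h hzn, fun h => absurd h ht₁n⟩
    have hw0 : w ≠ 0 := by
      rintro rfl
      rw [map_zero, eq_comm, mul_eq_zero] at hw
      rcases hw with h | h
      · exact hz h
      · exact hz ((map_eq_zero σ).mp h)
    have h4 : IsSquare (w * w₁) := hfwd (z := z * t₁) (by rw [map_mul, map_mul, hw, ← ht₁]; ring) h3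
    exact hw₁2 (((Quad.isSquare_mul_iff hw0 hw₁).mp h4).mp hws)

end Norm

section Lev

variable {F : Type*} [Field F] [Finite F] {m : ℕ} (hm : 4 ≤ m)

/-- the diagonal isometry. -/
def lvM (c : Fin m → Fˣ) : GL (Fin m ⊕ Fin m) F where
  val := Matrix.diagonal (Sum.elim (fun i => (c i : F)) fun i => ((c i)⁻¹ : Fˣ))
  inv := Matrix.diagonal (Sum.elim (fun i => (((c i)⁻¹ : Fˣ) : F)) fun i => (c i : F))
  val_inv := by
    rw [Matrix.diagonal_mul_diagonal, ← Matrix.diagonal_one]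
    congr 1
    funext i
    rcases i with i | i <;> simp
  inv_val := by
    rw [Matrix.diagonal_mul_diagonal, ← Matrix.diagonal_one]
    congr 1
    funext i
    rcases i with i | i <;> simp

theorem lvM_mulVec (c : Fin m → Fˣ) (v : Fin m ⊕ Fin m → F) :
    ((lvM c : GL (Fin m ⊕ Fin m) F) : Matrix (Fin m ⊕ Fin m) (Fin m ⊕ Fin m) F) *ᵥ v =
      Sum.elim (fun i => (c i : F) * v (Sum.inl i)) fun i => (((c i)⁻¹ : Fˣ) : F) * v (Sum.inr i) := by
  funext i
  change (Matrix.diagonal (Sum.elim (fun i => (c i : F)) fun i => (((c i)⁻¹ : Fˣ) : F)) *ᵥ v) i = _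
  rw [Matrix.mulVec_diagonal]
  rcases i with i | i <;> simp

theorem lvM_mem (c : Fin m → Fˣ) : lvM c ∈ Cfsg.isometryGroup F ⇑(odP F hm).Q := by
  rw [Quad.mem_isometryGroup]
  intro v
  change Quad.plusQ F m (((lvM c : GL (Fin m ⊕ Fin m) F) : Matrix (Fin m ⊕ Fin m) (Fin m ⊕ Fin m) F) *ᵥ v) = Quad.plusQ F m v
  rw [lvM_mulVec, Quad.plusQ_apply, Quad.plusQ_apply, Cfsg.quadFormPlus, Cfsg.quadFormPlus]
  apply Finset.sum_congr rfl
  intro i _
  simp only [Sum.elim_inl, Sum.elim_inr]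
  have := (c i).ne_zero
  rw [Units.val_inv_eq_inv_val]
  field_simp

/-- the two characters on diagonal isometries. -/
theorem lv_char (c : Fin m → Fˣ) : del (odP F hm) ⟨lvM c, lvM_mem hm c⟩ = 1 ∧
    (the (odP F hm) ⟨lvM c, lvM_mem hm c⟩ = 1 ↔ IsSquare (∏ i, (c i : F))) := by
  have hc : Quad.Chars (Quad.plusQ F m) ((del (odP F hm)).comp (Quad.toOG (Quad.plusQ F m)).symm.toMonoidHom)
      ((the (odP F hm)).comp (Quad.toOG (Quad.plusQ F m)).symm.toMonoidHom) :=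
    ⟨fun v hv => del_rfl' (A := odP F hm) hv, fun v hv => the_rfl' (A := odP F hm) hv⟩
  obtain ⟨g, h1, h3, h4⟩ := Quad.lev_char (Or.inr (by omega)) hc (Matrix.diagonal fun i => (c i : F)) (by
    rw [Matrix.det_diagonal, Finset.prod_ne_zero_iff]
    exact fun i _ => (c i).ne_zero)
  have hinv : (Matrix.diagonal fun i => (c i : F))⁻¹ = Matrix.diagonal fun i => (((c i)⁻¹ : Fˣ) : F) := by
    apply Matrix.inv_eq_right_inv
    rw [Matrix.diagonal_mul_diagonal, ← Matrix.diagonal_one]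
    congr 1
    funext i
    exact (c i).mul_inv
  have h5 : (Quad.toOG (Quad.plusQ F m)).symm g = ⟨lvM c, lvM_mem hm c⟩ := by
    rw [MulEquiv.symm_apply_eq]
    symm
    apply Quad.toOG_ext
    intro v
    rw [h1]
    change ((lvM c : GL (Fin m ⊕ Fin m) F) : Matrix (Fin m ⊕ Fin m) (Fin m ⊕ Fin m) F) *ᵥ v = _
    rw [lvM_mulVec, Quad.levM, hinv, Matrix.diagonal_transpose, Matrix.fromBlocks_mulVec]
    simp only [Matrix.zero_mulVec, add_zero, zero_add]
    funext i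
    rcases i with i | i
    · simp only [Sum.elim_inl, Matrix.mulVec_diagonal, Function.comp_apply]
    · simp only [Sum.elim_inr, Matrix.mulVec_diagonal, Function.comp_apply]
  have h3' : del (odP F hm) ((Quad.toOG (Quad.plusQ F m)).symm g) = 1 := h3
  have h4' : the (odP F hm) ((Quad.toOG (Quad.plusQ F m)).symm g) = 1 ↔ _ := h4
  rw [h5] at h3' h4'
  rw [Matrix.det_diagonal] at h4'
  exact ⟨h3', h4'⟩

end Lev

section SimThe

variable {ι₀ ι : Type} [Fintype ι₀] [DecidableEq ι₀] [Fintype ι] [DecidableEq ι] {F : Type*} [Field F] [Finite F]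
  {A : OD ι F} {A₁ : OD ι₀ F} {ξ : Gm ι F} (R : RS A ξ A₁.Q)

/-- spinor norms under similarities. -/
theorem the_cj {u : Cfsg.isometryGroup F ⇑A₁.Q} (hu : del A₁ u = 1) :
    del A ⟨cj R.L (u : GL ι₀ F), R.iso_mem.mpr u.2⟩ = 1 ∧
      (the A ⟨cj R.L (u : GL ι₀ F), R.iso_mem.mpr u.2⟩ = 1 ↔ the A₁ u = 1) := by
  obtain ⟨vs, h1, h2⟩ := exists_vs A₁ u
  have h3 := dt_rpr A₁ h1 h2
  have h4 := dt_rpr A (g := ⟨cj R.L (u : GL ι₀ F), R.iso_mem.mpr u.2⟩) (vs := vs.map R.L) (by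
    intro w hw
    obtain ⟨v, hv, rfl⟩ := List.mem_map.mp hw
    rw [R.hL]
    exact mul_ne_zero R.l.ne_zero (h1 v hv)) (R.toOG h2)
  rw [List.length_map] at h4
  rw [hu] at h3
  rw [← h3.1] at h4
  refine ⟨h4.1, ?_⟩
  rw [h4.2, h3.2]
  have h5 : ((vs.map R.L).map A.Q).prod = (R.l : F) ^ vs.length * (vs.map A₁.Q).prod := by
    clear h1 h2 h3 h4
    induction vs with
    | nil => simp
    | cons v vs ih =>
      rw [List.map_cons, List.map_cons, List.prod_cons, ih, List.map_cons, List.prod_cons, List.length_cons, R.hL]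
      ring
  rw [h5]
  have h6 : Even vs.length := by
    rcases Nat.even_or_odd vs.length with h | h
    · exact h
    · rw [h.neg_one_pow] at h3
      exact absurd h3.1 (by decide)
  obtain ⟨k, hk⟩ := h6
  have h7 : IsSquare ((R.l : F) ^ vs.length) := ⟨(R.l : F) ^ k, by rw [hk, pow_add]⟩
  have h8 : (vs.map A₁.Q).prod ≠ 0 := by
    rw [Ne, List.prod_eq_zero_iff]
    intro h
    obtain ⟨v, hv, h0⟩ := List.mem_map.mp h
    exact h1 v hv h0
  rw [Quad.isSquare_mul_iff (pow_ne_zero _ R.l.ne_zero) h8]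
  exact ⟨fun h => h.mp h7, fun h => ⟨fun _ => h, fun _ => h7⟩⟩

end SimThe

end Cfsg.Agent.H16.Par
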