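import Cfsg.Agent.H16_ParE

set_option autoImplicit false

/-! Involutory graph-field automorphisms: splitting of classes. -/

namespace Cfsg.Agent.H16.Par

open Matrix Cfsg.Agent.H16.Ps Module Cfsg.Agent.H16.Gam Cfsg.Agent.H16.AutL Cfsg.Agent.H16.AutG Cfsg.Agent.H16.Desc
open QuadraticMap (polar)
open Cfsg.Agent.H16 Cfsg.Agent.H16.POm

section Count

variable {ι₀ ι : Type} [Fintype ι₀] [DecidableEq ι₀] [Fintype ι] [DecidableEq ι] {F K : Type*} [Field F] [Finite F]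
  [Field K] [Finite K] {A : OD ι F} {ξ : (fam A).Γ} {Q₁ : QuadraticForm F (ι₀ → F)} (R : RS A (ξ : Gm ι F) Q₁)
  {e : K →+* F} (he : ∀ a, (ξ : Gm ι F).right a = a ↔ a ∈ Set.range e) {A₀ : OD ι₀ K}
  (hQ₁ : ∀ x : ι₀ → K, Q₁ (fun i => e (x i)) = e (A₀.Q x))

omit [Finite K] in
theorem sqc_T {z z' : (fam A).N} (h : (fam A).T ((fam A).nin z) = (fam A).T ((fam A).nin z')) :
    sqc F (muN A z) = sqc F (muN A z') := by
  have h1 : (fam A).T ((fam A).nin (z'⁻¹ * z)) = 1 := by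
    rw [_root_.map_mul, _root_.map_mul, _root_.map_inv, _root_.map_inv, h, inv_mul_cancel]
  obtain ⟨c, hc⟩ := (Fam.ker_nin _).mp h1
  have h2 : z = z' * ⟨scl ι c, (fam A).sc c⟩ := by
    rw [← inv_mul_eq_iff_eq_mul]
    exact Subtype.ext hc
  rw [h2, _root_.map_mul, _root_.map_mul, muN_scl, sqc_sq, mul_one]

include R he hQ₁ in
open Classical in
theorem split_two {S : EvS A} {S₀ : EvS A₀} {n : ℕ} (hS : DetF S n) (hS₀ : DetF S₀ n) (h2 : (2 : F) ≠ 0)
    (h : orderOf (ξ : Gm ι F).right = 2) (hneg : negO A ∈ Cfsg.Omega F ⇑A.Q) {z₁ : (fam A₀).N} (hz₁ : S₀.E z₁ = 1)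
    (hz₁m : sqc K (muN A₀ z₁) = -1) :
    Cfsg.splitClassCount (D0 S) (Cfsg.Inn (Cfsg.POmega F ⇑A.Q)) ((fam A).T ξ) =
      if (fam A).T ((fam A).nin (jN R hQ₁ z₁)) ∈ Cfsg.Inn (Cfsg.POmega F ⇑A.Q) then 4 else 2 := by
  -- rational elements with square multiplier are inner
  have hrat : ∀ g : (fam A₀).N, S₀.E g = 1 → sqc K (muN A₀ g) = 1 →
      (fam A).T ((fam A).nin (jN R hQ₁ g)) ∈ Cfsg.Inn (Cfsg.POmega F ⇑A.Q) := by
    intro g hg hg2
    obtain ⟨d, u, rfl⟩ := sq_mult A₀ g hg2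
    rw [_root_.map_mul, S₀.scl, one_mul, S₀.iso] at hg
    rw [_root_.map_mul, jN_scl, _root_.map_mul, _root_.map_mul, T_scl, one_mul, jN_iso]
    obtain ⟨vs, h1, h3⟩ := exists_vs A₀ u
    have hj := dt_rpr A (jO_ne R hQ₁ h1) (jO_rpr R hQ₁ h3)
    have hd : del A (jO R hQ₁ u) = 1 := by rw [del_jO, hg]
    refine fO_inn A ((mem_Om A (jO R hQ₁ u)).mpr ⟨hd, ?_⟩)
    rw [hj.2]
    have h5 : ((vs.map fun v => R.L (fun i => e (v i))).map A.Q).prod =
        (R.l : F) ^ vs.length * e (vs.map A₀.Q).prod := by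
      clear h1 h3 hj
      induction vs with
      | nil => simp
      | cons v vs ih =>
        rw [List.map_cons, List.map_cons, List.prod_cons, ih, List.map_cons, List.prod_cons, List.length_cons, R.hL, hQ₁,
          map_mul]
        ring
    rw [h5]
    have h6 : Even vs.length := by
      have h7 := (dt_rpr A₀ h1 h3).1
      rw [hg] at h7
      rcases Nat.even_or_odd vs.length with h | h
      · exact h
      · rw [h.neg_one_pow] at h7
        exact absurd h7 (by decide)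
    obtain ⟨k, hk⟩ := h6
    exact IsSquare.mul ⟨(R.l : F) ^ k, by rw [hk, pow_add]⟩ (isSquare_of_fix h2 h ((he _).mpr ⟨_, rfl⟩))
  have hcomm : ∀ α ∈ D0 S ⊓ Subgroup.centralizer {(fam A).T ξ}, ∃ g : (fam A₀).N, S₀.E g = 1 ∧
      (fam A).T ((fam A).nin (jN R hQ₁ g)) = α := by
    rintro α ⟨hα1, hα2⟩
    obtain ⟨z, hz, rfl⟩ := mem_D0.mp hα1
    obtain ⟨t, g, hg⟩ := jN_surj R he hQ₁ hα2
    refine ⟨g, ?_, ?_⟩
    · rw [hg, _root_.map_mul, S.scl, one_mul, E_jN R hQ₁ hS hS₀] at hz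
      exact hz
    · rw [hg, _root_.map_mul, _root_.map_mul, T_scl, one_mul]
  have hjs : ∀ g : (fam A₀).N, sqc F (muN A (jN R hQ₁ g)) = 1 := by
    intro g
    rw [muN_jN, sqc_eq_one]
    exact isSquare_of_fix h2 h ((he _).mpr ⟨_, rfl⟩)
  have hI := relIndex_inn_D0 S h2
  rw [if_pos hneg] at hI
  rw [Split.splitClassCount_eq _ _ inferInstance (inn_le_D0 S)]
  set P := Cfsg.Inn (Cfsg.POmega F ⇑A.Q) ⊔ (D0 S ⊓ Subgroup.centralizer {(fam A).T ξ}) with hP
  split_ifs with hc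
  · have h3 : P = Cfsg.Inn (Cfsg.POmega F ⇑A.Q) := by
      rw [hP, sup_eq_left]
      intro α hα
      obtain ⟨g, hg, rfl⟩ := hcomm α hα
      rcases Int.units_eq_one_or (sqc K (muN A₀ g)) with h4 | h4
      · exact hrat g hg h4
      · have h5 : g = z₁ * (z₁⁻¹ * g) := by rw [mul_inv_cancel_left]
        rw [h5, _root_.map_mul, _root_.map_mul, _root_.map_mul]
        refine mul_mem hc (hrat _ ?_ ?_)
        · rw [_root_.map_mul, _root_.map_inv, hz₁, hg, inv_one, mul_one]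
        · rw [_root_.map_mul, _root_.map_mul, _root_.map_inv, _root_.map_inv, hz₁m, h4]; rfl
    rw [h3, hI]
  · have hPD : P ≤ D0 S := sup_le (inn_le_D0 S) inf_le_left
    have h3 := Subgroup.relIndex_mul_relIndex (Cfsg.Inn (Cfsg.POmega F ⇑A.Q)) P (D0 S) le_sup_left hPD
    rw [hI] at h3
    have h4 : (Cfsg.Inn (Cfsg.POmega F ⇑A.Q)).relIndex P ≠ 1 := by
      intro h5
      rw [Subgroup.relIndex_eq_one] at h5
      apply hc
      apply h5
      exact Subgroup.mem_sup_right ⟨T_mem_D0.mpr (by rw [E_jN R hQ₁ hS hS₀, hz₁]), jN_comm R he hQ₁ z₁⟩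
    have h5 : P.relIndex (D0 S) ≠ 1 := by
      intro h5
      rw [Subgroup.relIndex_eq_one] at h5
      obtain ⟨g₁, hg₁⟩ := exists_ns_mult S h2
      obtain ⟨g₀, hg₀, hgE⟩ : ∃ g₀ : (fam A).N, sqc F (muN A g₀) = -1 ∧ S.E g₀ = 1 := by
        rcases Int.units_eq_one_or (S.E g₁) with h3 | h3
        · exact ⟨g₁, hg₁, h3⟩
        · obtain ⟨v, hv⟩ := exists_ns A
          refine ⟨g₁ * ⟨rfl' A v, iso_le_N A (rfl' A v).2⟩, ?_, ?_⟩
          · have h4 : muN A ⟨rfl' A v, iso_le_N A (rfl' A v).2⟩ = 1 := (muN_ker A _).mpr (rfl' A v).2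
            rw [_root_.map_mul, h4, mul_one, hg₁]
          · rw [_root_.map_mul, h3, S.iso, del_rfl' hv]; rfl
      obtain ⟨k, hk, c, hc', e1⟩ := Subgroup.mem_sup_of_normal_left.mp (h5 (T_mem_D0.mpr hgE))
      obtain ⟨g, hg, rfl⟩ := hcomm c hc'
      obtain ⟨u, hu, rfl⟩ := inn_fO A k hk
      rw [fO_eq, ← _root_.map_mul, ← _root_.map_mul] at e1
      have h6 := sqc_T e1
      have h7 : muN A ⟨u, iso_le_N A u.2⟩ = 1 := (muN_ker A _).mpr u.2
      rw [_root_.map_mul, _root_.map_mul, h7, _root_.map_one, one_mul, hjs, hg₀] at h6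
      exact absurd h6 (by decide)
    have h6 : P.relIndex (D0 S) ∣ 4 := ⟨_, by rw [← h3, mul_comm]⟩
    have h7 : P.relIndex (D0 S) ≤ 4 := Nat.le_of_dvd (by norm_num) h6
    have h8 : P.relIndex (D0 S) ≠ 4 := by
      intro h8
      rw [h8] at h3
      apply h4
      omega
    have h9 : P.relIndex (D0 S) ≠ 3 := by
      intro h9
      rw [h9] at h6
      norm_num at h6
    have h10 : P.relIndex (D0 S) ≠ 0 := by
      intro h10
      rw [h10, mul_zero] at h3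
      norm_num at h3
    omega

end Count

section Plane

variable {F K : Type*} [Field F] [Finite F] [Field K] [Finite K] {σ : F ≃+* F} {e : K →+* F}
  (he : ∀ a, σ a = a ↔ a ∈ Set.range e)

include he

/-- data on the quadratic extension. -/
theorem exists_plane (h2 : (2 : F) ≠ 0) (hσ : orderOf σ = 2) : ∃ (ν μ x y : K) (ω d s : F),
    ¬ IsSquare ν ∧ ¬ IsSquare μ ∧ μ ≠ 0 ∧ ν ≠ 0 ∧ x ^ 2 - ν * y ^ 2 = μ ∧ ω * ω = e ν ∧ d * d = e μ ∧ s = e x + e y * ω ∧
      s * (e x - e y * ω) = e μ ∧ d * σ d = - e μ ∧ s * σ s = e μ := by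
  have h2K : (2 : K) ≠ 0 := by
    intro h
    apply h2
    rw [← map_ofNat e, h, map_zero]
  have hσ2 : ∀ t, σ (σ t) = t := by
    intro t
    have h1 : σ ^ 2 = 1 := by rw [← hσ, pow_orderOf_eq_one]
    have h3 : (σ ^ 2) t = t := by rw [h1]; rfl
    rwa [pow_two] at h3
  obtain ⟨ν, hν0, hν⟩ := Quad.exists_nonsquare' h2K
  have hsq : ∀ w : K, ∃ t, t * t = e w := by
    intro w
    obtain ⟨t, ht⟩ := isSquare_of_fix h2 hσ ((he _).mpr ⟨w, rfl⟩)
    exact ⟨t, ht.symm⟩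
  have hneg : ∀ (w : K) (t : F), ¬ IsSquare w → t * t = e w → σ t = -t := by
    intro w t hw ht
    have h1 : σ t * σ t = t * t := by rw [← map_mul, ht]; exact (he _).mpr ⟨w, rfl⟩
    rcases mul_self_eq_mul_self_iff.mp h1 with h | h
    · exfalso
      obtain ⟨v, rfl⟩ := (he t).mp h
      exact hw ⟨v, e.injective (by rw [map_mul, ht])⟩
    · exact h
  obtain ⟨ω, hω⟩ := hsq ν
  obtain ⟨d, hd⟩ := hsq ν
  obtain ⟨s, hs⟩ := exists_norm_K he hσ hν0
  have hσω := hneg ν ω hν hω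
  have hσd := hneg ν d hν hd
  have hω0 : ω ≠ 0 := by
    rintro rfl
    rw [mul_zero, eq_comm, map_eq_zero] at hω
    exact hν0 hω
  obtain ⟨x, hx⟩ := (he ((s + σ s) / 2)).mp (by
    rw [map_div₀, map_add, hσ2, map_ofNat, add_comm])
  obtain ⟨y, hy⟩ := (he ((s - σ s) / (2 * ω))).mp (by
    rw [map_div₀, map_sub, hσ2, map_mul, map_ofNat, hσω]
    field_simp
    ring)
  have hsx : s = e x + e y * ω := by
    rw [hx, hy]
    field_simp
    ring
  have hσs : σ s = e x - e y * ω := by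
    rw [hx, hy]
    field_simp
    ring
  refine ⟨ν, ν, x, y, ω, d, s, hν, hν, hν0, hν0, ?_, hω, hd, hsx, ?_, ?_, hs⟩
  · apply e.injective
    rw [← hs, hσs, map_sub, map_mul, map_pow, map_pow, hsx, ← hω]
    ring
  · rw [← hσs, hs]
  · rw [hσd, ← hd]; ring

end Plane

end Cfsg.Agent.H16.Par
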