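import Cfsg.Agent.H16_ParF

set_option autoImplicit false

/-! Involutory graph-field automorphisms: the explicit similarity. -/

namespace Cfsg.Agent.H16.Par

open Matrix Cfsg.Agent.H16.Ps Module Cfsg.Agent.H16.Gam Cfsg.Agent.H16.AutL Cfsg.Agent.H16.AutG Cfsg.Agent.H16.Desc
open QuadraticMap (polar)
open Cfsg.Agent.H16 Cfsg.Agent.H16.POm

section Z1

variable {K : Type*} [Field K] {n : ℕ}

/-- the matrix of the similarity. -/
def zM (n : ℕ) (μ ν x y : K) : Matrix ((Fin n ⊕ Fin n) ⊕ Fin 2) ((Fin n ⊕ Fin n) ⊕ Fin 2) K :=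
  Matrix.fromBlocks (Matrix.diagonal (Sum.elim (fun _ => μ) fun _ => 1)) 0 0 !![x, ν * y; y, x]

theorem zM_det (μ ν x y : K) (h : x ^ 2 - ν * y ^ 2 = μ) : (zM n μ ν x y).det = μ ^ (n + 1) := by
  rw [zM, Matrix.det_fromBlocks_zero₂₁, Matrix.det_diagonal, Fintype.prod_sum_type, Matrix.det_fin_two_of]
  simp only [Sum.elim_inl, Sum.elim_inr, Finset.prod_const, Finset.card_univ, Fintype.card_fin, one_pow, mul_one]
  rw [pow_succ, ← h]
  ring

theorem zM_mulVec (μ ν x y : K) (v : (Fin n ⊕ Fin n) ⊕ Fin 2 → K) : zM n μ ν x y *ᵥ v =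
    Sum.elim (Sum.elim (fun i => μ * v (Sum.inl (Sum.inl i))) fun i => v (Sum.inl (Sum.inr i)))
      ![x * v (Sum.inr 0) + ν * y * v (Sum.inr 1), y * v (Sum.inr 0) + x * v (Sum.inr 1)] := by
  rw [zM, Matrix.fromBlocks_mulVec]
  simp only [Matrix.zero_mulVec, add_zero, zero_add]
  funext i
  rcases i with (i | i) | i
  · simp only [Sum.elim_inl, Matrix.mulVec_diagonal, Function.comp_apply]
  · simp only [Sum.elim_inl, Sum.elim_inr, Matrix.mulVec_diagonal, Function.comp_apply, one_mul]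
  · simp only [Sum.elim_inr]
    fin_cases i
    · simp [Matrix.mulVec, dotProduct, Fin.sum_univ_two]
    · simp [Matrix.mulVec, dotProduct, Fin.sum_univ_two]

theorem zM_mult {μ ν x y : K} (h : x ^ 2 - ν * y ^ 2 = μ) (v : (Fin n ⊕ Fin n) ⊕ Fin 2 → K) :
    Quad.minusQ K n 0 (-ν) (zM n μ ν x y *ᵥ v) = μ * Quad.minusQ K n 0 (-ν) v := by
  rw [zM_mulVec, Quad.minusQ_apply, Quad.minusQ_apply, Cfsg.quadFormMinus, Cfsg.quadFormMinus, mul_add, Finset.mul_sum]
  congr 1
  · apply Finset.sum_congr rfl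
    intro i _
    simp only [Sum.elim_inl, Sum.elim_inr]
    ring
  · simp only [Sum.elim_inr, Matrix.cons_val_zero, Matrix.cons_val_one]
    rw [← h]
    ring

/-- the similarity. -/
noncomputable def zG (n : ℕ) {μ ν x y : K} (h : x ^ 2 - ν * y ^ 2 = μ) (hμ : μ ≠ 0) : GL ((Fin n ⊕ Fin n) ⊕ Fin 2) K :=
  Matrix.GeneralLinearGroup.mkOfDetNeZero (zM n μ ν x y) (by rw [zM_det μ ν x y h]; exact pow_ne_zero _ hμ)

theorem zG_coe {μ ν x y : K} (h : x ^ 2 - ν * y ^ 2 = μ) (hμ : μ ≠ 0) :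
    ((zG n h hμ : GL ((Fin n ⊕ Fin n) ⊕ Fin 2) K) : Matrix ((Fin n ⊕ Fin n) ⊕ Fin 2) ((Fin n ⊕ Fin n) ⊕ Fin 2) K) =
      zM n μ ν x y := rfl

theorem an_ns {ν : K} (hν : ¬ IsSquare ν) : An 0 (-ν) := by
  intro z₁ z₂ h
  have h1 : z₁ * z₁ = ν * (z₂ * z₂) := by linear_combination h
  by_cases hz : z₂ = 0
  · subst hz
    rw [mul_zero, mul_zero] at h1
    exact ⟨mul_self_eq_zero.mp h1, rfl⟩
  · exfalso
    apply hν
    refine ⟨z₁ / z₂, ?_⟩
    field_simp
    linear_combination -h1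

end Z1

section G1

variable {F : Type*} [Field F] {n : ℕ}

/-- the hyperbolic coordinates. -/
def gMap (n : ℕ) (ω : F) (hω : ω ≠ 0) (h2 : (2 : F) ≠ 0) : (Fin (n + 1) ⊕ Fin (n + 1) → F) ≃ₗ[F] ((Fin n ⊕ Fin n) ⊕ Fin 2 → F) where
  toFun v := Sum.elim (Sum.elim (fun i => v (Sum.inl i.castSucc)) fun i => v (Sum.inr i.castSucc))
    ![(v (Sum.inl (Fin.last n)) + v (Sum.inr (Fin.last n))) / 2, (v (Sum.inl (Fin.last n)) - v (Sum.inr (Fin.last n))) / (2 * ω)]
  map_add' v w := by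
    funext i
    rcases i with (i | i) | i
    · rfl
    · rfl
    · fin_cases i
      · simp; ring
      · simp; ring
  map_smul' c v := by
    funext i
    rcases i with (i | i) | i
    · rfl
    · rfl
    · fin_cases i
      · simp; ring
      · simp; ring
  invFun w := Sum.elim (Fin.snoc (α := fun _ => F) (fun i => w (Sum.inl (Sum.inl i))) (w (Sum.inr 0) + ω * w (Sum.inr 1)))
    (Fin.snoc (α := fun _ => F) (fun i => w (Sum.inl (Sum.inr i))) (w (Sum.inr 0) - ω * w (Sum.inr 1)))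
  left_inv v := by
    funext i
    rcases i with i | i
    · refine Fin.lastCases ?_ (fun i => ?_) i
      · simp only [Sum.elim_inl, Fin.snoc_last, Sum.elim_inr, Matrix.cons_val_zero, Matrix.cons_val_one]
        field_simp
        ring
      · simp
    · refine Fin.lastCases ?_ (fun i => ?_) i
      · simp only [Fin.snoc_last, Sum.elim_inr, Matrix.cons_val_zero, Matrix.cons_val_one]
        field_simp
        ring
      · simp
  right_inv w := by
    funext i
    rcases i with (i | i) | i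
    · simp
    · simp
    · fin_cases i
      · simp only [Fin.snoc_last, Sum.elim_inr, Sum.elim_inl]
        simp only [Fin.zero_eta, Matrix.cons_val_zero]
        field_simp
        ring
      · simp only [Fin.snoc_last, Sum.elim_inr, Sum.elim_inl]
        simp only [Fin.mk_one, Matrix.cons_val_one, Matrix.cons_val_fin_one]
        field_simp
        ring

theorem gMap_apply (ω : F) (hω : ω ≠ 0) (h2 : (2 : F) ≠ 0) (v : Fin (n + 1) ⊕ Fin (n + 1) → F) :
    gMap n ω hω h2 v = Sum.elim (Sum.elim (fun i => v (Sum.inl i.castSucc)) fun i => v (Sum.inr i.castSucc))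
    ![(v (Sum.inl (Fin.last n)) + v (Sum.inr (Fin.last n))) / 2, (v (Sum.inl (Fin.last n)) - v (Sum.inr (Fin.last n))) / (2 * ω)] := rfl

theorem gMap_Q {ω ν' : F} (hω : ω ≠ 0) (h2 : (2 : F) ≠ 0) (h : ω * ω = ν') (v : Fin (n + 1) ⊕ Fin (n + 1) → F) :
    Quad.minusQ F n 0 (-ν') (gMap n ω hω h2 v) = Quad.plusQ F (n + 1) v := by
  rw [gMap_apply, Quad.minusQ_apply, Quad.plusQ_apply, Cfsg.quadFormMinus, Cfsg.quadFormPlus, Fin.sum_univ_castSucc]
  congr 1
  simp only [Sum.elim_inr, Matrix.cons_val_zero, Matrix.cons_val_one, ← h]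
  field_simp
  ring

end G1

section Key

variable {F K : Type*} [Field F] [Finite F] [Field K] [Finite K] {n : ℕ}

omit [Finite F] [Finite K] in
theorem zM_map (e : K →+* F) (μ ν x y : K) : (zM n μ ν x y).map e = zM n (e μ) (e ν) (e x) (e y) := by
  rw [zM, zM, Matrix.fromBlocks_map]
  congr 1
  · rw [Matrix.diagonal_map (map_zero e)]
    congr 1
    funext i
    rcases i with i | i <;> simp
  · ext i j; simp
  · ext i j; simp
  · ext i j
    fin_cases i <;> fin_cases j <;> simp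

/-- the coordinates of the Levi element. -/
def cV (n : ℕ) (d s : Fˣ) : Fin (n + 1) → Fˣ := Fin.snoc (α := fun _ => Fˣ) (fun _ => d) (s * d⁻¹)

theorem zM_gMap {e : K →+* F} {μ ν x y : K} {ω : F} {d s : Fˣ} (hω0 : ω ≠ 0) (h2 : (2 : F) ≠ 0) (hω : ω * ω = e ν)
    (hd : (d : F) * d = e μ) (hs : (s : F) = e x + e y * ω) (hs' : (s : F) * (e x - e y * ω) = e μ)
    (v : Fin (n + 1) ⊕ Fin (n + 1) → F) :
    (zM n μ ν x y).map e *ᵥ (gMap n ω hω0 h2 v) = (d : F) • gMap n ω hω0 h2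
      (((lvM (cV n d s) : GL (Fin (n + 1) ⊕ Fin (n + 1)) F) : Matrix (Fin (n + 1) ⊕ Fin (n + 1)) (Fin (n + 1) ⊕ Fin (n + 1)) F) *ᵥ v) := by
  have hd0 := d.ne_zero
  have hs0 := s.ne_zero
  have hs2 : e x - e y * ω = (d : F) * d * (s : F)⁻¹ := by
    rw [hd, ← hs']
    field_simp
  rw [zM_map, zM_mulVec, lvM_mulVec, gMap_apply, gMap_apply]
  funext i
  rcases i with (i | i) | i
  · simp only [Sum.elim_inl, Pi.smul_apply, smul_eq_mul, cV, Fin.snoc_castSucc]
    rw [← hd, mul_assoc]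
  · simp only [Sum.elim_inl, Sum.elim_inr, Pi.smul_apply, smul_eq_mul, cV, Fin.snoc_castSucc, Units.val_inv_eq_inv_val]
    field_simp
  · fin_cases i
    · simp only [Sum.elim_inl, Sum.elim_inr, Pi.smul_apply, smul_eq_mul, cV, Fin.snoc_last, Fin.zero_eta,
        Matrix.cons_val_zero, Matrix.cons_val_one, Matrix.cons_val_fin_one, Units.val_mul, Units.val_inv_eq_inv_val,
        _root_.mul_inv_rev, inv_inv]
      rw [← hω]
      have e1 : (d : F) * (((s : F) * (d : F)⁻¹ * v (Sum.inl (Fin.last n)) + (d : F) * (s : F)⁻¹ * v (Sum.inr (Fin.last n))) / 2) =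
          ((s : F) * v (Sum.inl (Fin.last n)) + ((d : F) * d * (s : F)⁻¹) * v (Sum.inr (Fin.last n))) / 2 := by
        field_simp
      rw [e1, ← hs2, hs]
      field_simp
      ring
    · simp only [Sum.elim_inl, Sum.elim_inr, Pi.smul_apply, smul_eq_mul, cV, Fin.snoc_last, Fin.mk_one,
        Matrix.cons_val_zero, Matrix.cons_val_one, Matrix.cons_val_fin_one, Units.val_mul, Units.val_inv_eq_inv_val,
        _root_.mul_inv_rev, inv_inv]
      have e1 : (d : F) * (((s : F) * (d : F)⁻¹ * v (Sum.inl (Fin.last n)) - (d : F) * (s : F)⁻¹ * v (Sum.inr (Fin.last n))) / (2 * ω)) =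
          ((s : F) * v (Sum.inl (Fin.last n)) - ((d : F) * d * (s : F)⁻¹) * v (Sum.inr (Fin.last n))) / (2 * ω) := by
        field_simp
      rw [e1, ← hs2, hs]
      field_simp
      ring

/-- squares. -/
theorem sq_final {σ : F ≃+* F} {e : K →+* F} (he : ∀ a, σ a = a ↔ a ∈ Set.range e) (h2 : (2 : F) ≠ 0) (hσ : orderOf σ = 2)
    {μ : K} (hμ : ¬ IsSquare μ) {d s : Fˣ} (hd : (d : F) * σ d = - e μ) (hs : (s : F) * σ s = e μ) :
    IsSquare (∏ i, ((cV n d s i : Fˣ) : F)) ↔ (Odd (n + 1) ∧ Nat.card K % 4 = 1) := by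
  have := Fintype.ofFinite K
  have h2K : (2 : K) ≠ 0 := by
    intro h
    apply h2
    rw [← map_ofNat e, h, map_zero]
  have hμ0 : μ ≠ 0 := by
    rintro rfl
    exact hμ IsSquare.zero
  have hd0 := d.ne_zero
  have hs0 := s.ne_zero
  have h1 : ∏ i, ((cV n d s i : Fˣ) : F) = (d : F) ^ n * ((s : F) * (d : F)⁻¹) := by
    rw [Fin.prod_univ_castSucc]
    simp [cV]
  have h3 : ∏ i, ((cV n d s i : Fˣ) : F) = ((d : F) ^ (n + 1) * s) * ((d : F)⁻¹ * (d : F)⁻¹) := by
    rw [h1, pow_succ]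
    field_simp
  have h4 : IsSquare ((d : F)⁻¹ * (d : F)⁻¹) := ⟨_, rfl⟩
  have h5 : (d : F) ^ (n + 1) * s ≠ 0 := mul_ne_zero (pow_ne_zero _ hd0) hs0
  rw [h3, Quad.isSquare_mul_iff h5 (mul_ne_zero (inv_ne_zero hd0) (inv_ne_zero hd0)),
    iff_true_right h4, sq_norm he h2 hσ h5 (w := (-μ) ^ (n + 1) * μ) (by
      rw [map_mul, map_pow, map_neg, ← hd, map_mul, map_pow, ← hs]
      ring)]
  have h6 : Fintype.card K % 2 = 1 := Quad.card_mod_two h2K
  rcases Nat.even_or_odd (n + 1) with h | h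
  · have h7 : ¬ Odd (n + 1) := Nat.not_odd_iff_even.mpr h
    rw [h.neg_pow]
    obtain ⟨k, hk⟩ := h
    have h8 : IsSquare (μ ^ (n + 1)) := ⟨μ ^ k, by rw [hk, pow_add]⟩
    rw [Quad.isSquare_mul_iff (pow_ne_zero _ hμ0) hμ0]
    constructor
    · intro h9; exact absurd (h9.mp h8) hμ
    · rintro ⟨h9, -⟩; exact absurd h9 h7
  · have h8 : (-μ) ^ (n + 1) * μ = (-1) * μ ^ (n + 2) := by
      rw [h.neg_pow, pow_succ μ (n + 1)]; ring
    have h9 : IsSquare (μ ^ (n + 2)) := by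
      obtain ⟨k, hk⟩ := h
      exact ⟨μ ^ (k + 1), by rw [← pow_add]; congr 1; omega⟩
    rw [h8, Quad.isSquare_mul_iff (neg_ne_zero.mpr one_ne_zero) (pow_ne_zero _ hμ0), iff_true_right h9,
      FiniteField.isSquare_neg_one_iff, Nat.card_eq_fintype_card]
    constructor
    · intro h10; exact ⟨h, by omega⟩
    · rintro ⟨-, h10⟩; omega

end Key

end Cfsg.Agent.H16.Par
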