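import Cfsg.Agent.H16_ParG
import Cfsg.Agent.H16_ParD
import Cfsg.Agent.H16_AutF3

set_option autoImplicit false

/-! Involutory graph-field automorphisms in plus type. -/

namespace Cfsg.Agent.H16.Par

open Matrix Cfsg.Agent.H16.Ps Module Cfsg.Agent.H16.Gam Cfsg.Agent.H16.AutL Cfsg.Agent.H16.AutG Cfsg.Agent.H16.Desc
open QuadraticMap (polar)
open Cfsg.Agent.H16 Cfsg.Agent.H16.POm

section KeyInn

variable {F K : Type*} [Field F] [Finite F] [Field K] [Finite K] {n : ℕ} (hm : 4 ≤ n + 1) (hn3 : 3 ≤ n)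

/-- the composite structure. -/
noncomputable def rsG {ξ : Gm (Fin (n + 1) ⊕ Fin (n + 1)) F} {e : K →+* F} {ν : K} {ω : F} (hω0 : ω ≠ 0) (h2 : (2 : F) ≠ 0)
    (hω : ω * ω = e ν) (R : RS (odP F hm) ξ (Quad.minusQ F n (e 0) (e (-ν)))) :
    RS (odP F hm) (1 : Gm (Fin (n + 1) ⊕ Fin (n + 1)) F) (odP F hm).Q where
  L := (gMap n ω hω0 h2).trans R.L
  l := R.l
  hL v := by
    have h0 : Quad.minusQ F n (e 0) (e (-ν)) (gMap n ω hω0 h2 v) = Quad.plusQ F (n + 1) v := by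
      rw [map_zero, map_neg]
      exact gMap_Q hω0 h2 hω v
    rw [LinearEquiv.trans_apply, R.hL, h0]
    rfl
  hξ v := by
    rw [sl_one]
    rfl

theorem key_eq {ξ : Gm (Fin (n + 1) ⊕ Fin (n + 1)) F} {e : K →+* F} {μ ν x y : K} {ω : F} {d s : Fˣ}
    (hω0 : ω ≠ 0) (h2 : (2 : F) ≠ 0)
    (hω : ω * ω = e ν) (hxy : x ^ 2 - ν * y ^ 2 = μ) (hμ : μ ≠ 0)
    (hd : (d : F) * d = e μ) (hs : (s : F) = e x + e y * ω) (hs' : (s : F) * (e x - e y * ω) = e μ)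
    (R : RS (odP F hm) ξ (Quad.minusQ F n (e 0) (e (-ν)))) :
    cj R.L (Matrix.GeneralLinearGroup.map e (zG n hxy hμ)) =
      scl (Fin (n + 1) ⊕ Fin (n + 1)) d * cj (rsG hm hω0 h2 hω R).L (lvM (cV n d s)) := by
  apply gl_ext' (rsG hm hω0 h2 hω R).L
  intro v
  have h1 : (rsG hm hω0 h2 hω R).L v = R.L (gMap n ω hω0 h2 v) := rfl
  rw [Units.val_mul, ← Matrix.mulVec_mulVec, cj_mulVec (rsG hm hω0 h2 hω R).L, PSp.scl_mulVec, h1, cj_mulVec]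
  have h3 : (rsG hm hω0 h2 hω R).L
      (((lvM (cV n d s) : GL (Fin (n + 1) ⊕ Fin (n + 1)) F) : Matrix (Fin (n + 1) ⊕ Fin (n + 1)) (Fin (n + 1) ⊕ Fin (n + 1)) F) *ᵥ v) =
      R.L (gMap n ω hω0 h2 (((lvM (cV n d s) : GL (Fin (n + 1) ⊕ Fin (n + 1)) F) :
        Matrix (Fin (n + 1) ⊕ Fin (n + 1)) (Fin (n + 1) ⊕ Fin (n + 1)) F) *ᵥ v)) := rfl
  rw [h3, ← _root_.map_smul]
  congr 1
  exact zM_gMap hω0 h2 hω hd hs hs' v

theorem neg_plus {σ : F ≃+* F} (h2 : (2 : F) ≠ 0) (hσ : orderOf σ = 2) : negO (odP F hm) ∈ Cfsg.Omega F ⇑(odP F hm).Q := by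
  rw [neg_mem_iff (odP F hm) h2 (by rw [plus_card]; exact ⟨n + 1, by ring⟩)]
  have h1 : IsSquare (-1 : F) := isSquare_of_fix h2 hσ (by rw [map_neg, map_one])
  have h3 : (Quad.gram (odP F hm).Q (Pi.basisFun F (Fin (n + 1) ⊕ Fin (n + 1)))).det = (-1) ^ (n + 1) :=
    Quad.det_gram_plusQ (n + 1)
  rw [h3]
  exact h1.pow (n + 1)

theorem key_inn {ξ : (fam (odP F hm)).Γ} {e : K →+* F}
    (he : ∀ a, (ξ : Gm (Fin (n + 1) ⊕ Fin (n + 1)) F).right a = a ↔ a ∈ Set.range e)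
    (hσ : orderOf (ξ : Gm (Fin (n + 1) ⊕ Fin (n + 1)) F).right = 2)
    {μ ν x y : K} {ω : F} {d s : Fˣ} (hω0 : ω ≠ 0) (h2 : (2 : F) ≠ 0)
    (hω : ω * ω = e ν) (hxy : x ^ 2 - ν * y ^ 2 = μ) (hμ : μ ≠ 0) (hν : ¬ IsSquare ν) (hμs : ¬ IsSquare μ)
    (hd : (d : F) * d = e μ) (hs : (s : F) = e x + e y * ω) (hs' : (s : F) * (e x - e y * ω) = e μ)
    (hdσ : (d : F) * (ξ : Gm (Fin (n + 1) ⊕ Fin (n + 1)) F).right d = - e μ)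
    (hsσ : (s : F) * (ξ : Gm (Fin (n + 1) ⊕ Fin (n + 1)) F).right s = e μ)
    (R : RS (odP F hm) (ξ : Gm (Fin (n + 1) ⊕ Fin (n + 1)) F) (Quad.minusQ F n (e 0) (e (-ν))))
    (hQ₁ : ∀ x : (Fin n ⊕ Fin n) ⊕ Fin 2 → K, Quad.minusQ F n (e 0) (e (-ν)) (fun i => e (x i)) =
      e ((odM (an_ns hν) hn3).Q x))
    {z₁ : (fam (odM (an_ns hν) hn3)).N} (hz : (z₁ : GL ((Fin n ⊕ Fin n) ⊕ Fin 2) K) = zG n hxy hμ) :
    (fam (odP F hm)).T ((fam (odP F hm)).nin (jN R hQ₁ z₁)) ∈ Cfsg.Inn (Cfsg.POmega F ⇑(odP F hm).Q) ↔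
      (Odd (n + 1) ∧ Nat.card K % 4 = 1) := by
  let R' := rsG hm hω0 h2 hω R
  obtain ⟨h3, h4⟩ := lv_char hm (cV n d s)
  obtain ⟨h5, h6⟩ := the_cj R' h3
  let u : Cfsg.isometryGroup F ⇑(odP F hm).Q := ⟨cj R'.L (lvM (cV n d s)), R'.iso_mem.mpr (lvM_mem hm (cV n d s))⟩
  have h1 : jN R hQ₁ z₁ = ⟨scl (Fin (n + 1) ⊕ Fin (n + 1)) d, (fam (odP F hm)).sc d⟩ * ⟨(u : GL (Fin (n + 1) ⊕ Fin (n + 1)) F), iso_le_N (odP F hm) u.2⟩ := by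
    apply Subtype.ext
    rw [jN_coe, hz]
    exact key_eq hm hω0 h2 hω hxy hμ hd hs hs' R
  rw [h1, _root_.map_mul, _root_.map_mul, T_scl, one_mul]
  change fO (odP F hm) u ∈ _ ↔ _
  rw [fO_mem_inn (neg_plus hm h2 hσ), mem_Om]
  have h7 : del (odP F hm) u = 1 := h5
  have h8 : the (odP F hm) u = 1 ↔ IsSquare (∏ i, ((cV n d s i : Fˣ) : F)) := h6.trans h4
  rw [h8, sq_final he h2 hσ hμs hdσ hsσ]
  exact ⟨fun h => h.2, fun h => ⟨h7, h⟩⟩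

include hn3 in
open Classical in
/-- splitting of the class. -/
theorem split_gf {ξ : (fam (odP F hm)).Γ} {e : K →+* F}
    (he : ∀ a, (ξ : Gm (Fin (n + 1) ⊕ Fin (n + 1)) F).right a = a ↔ a ∈ Set.range e)
    (hσ : orderOf (ξ : Gm (Fin (n + 1) ⊕ Fin (n + 1)) F).right = 2) (h2 : (2 : F) ≠ 0)
    (hf : ∀ a₀ b₀ : K, An a₀ b₀ → Nonempty (RS (odP F hm) (ξ : Gm (Fin (n + 1) ⊕ Fin (n + 1)) F)
      (Quad.minusQ F n (e a₀) (e b₀)))) :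
    Cfsg.splitClassCount (D0 (evP (F := F) hm)) (Cfsg.Inn (Cfsg.POmega F ⇑(odP F hm).Q)) ((fam (odP F hm)).T ξ) =
      if (Odd (n + 1) ∧ Nat.card K % 4 = 1) then 4 else 2 := by
  obtain ⟨ν, μ, x, y, ω, d, s, hν, hμs, hμ, hν0, hxy, hω, hd, hs, hs', hdσ, hsσ⟩ := exists_plane he h2 hσ
  have h2K : (2 : K) ≠ 0 := by
    intro h
    apply h2
    rw [← map_ofNat e, h, map_zero]
  have hω0 : ω ≠ 0 := by
    rintro rfl
    rw [mul_zero, eq_comm, map_eq_zero] at hω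
    exact hν0 hω
  have heμ : e μ ≠ 0 := by rwa [Ne, map_eq_zero]
  have hd0 : d ≠ 0 := by
    rintro rfl
    rw [mul_zero] at hd
    exact heμ hd.symm
  have hs0 : s ≠ 0 := by
    rintro rfl
    rw [zero_mul] at hs'
    exact heμ hs'.symm
  obtain ⟨R⟩ := hf 0 (-ν) (an_ns hν)
  have hQ₁ : ∀ x : (Fin n ⊕ Fin n) ⊕ Fin 2 → K, Quad.minusQ F n (e 0) (e (-ν)) (fun i => e (x i)) =
      e ((odM (an_ns hν) hn3).Q x) := fun x => rat_minus e 0 (-ν) x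
  obtain ⟨S₀, -, hS₀⟩ := exists_evM (an_ns hν) hn3
  have hzm : ∀ v, (odM (an_ns hν) hn3).Q (((zG n hxy hμ : GL ((Fin n ⊕ Fin n) ⊕ Fin 2) K) :
      Matrix ((Fin n ⊕ Fin n) ⊕ Fin 2) ((Fin n ⊕ Fin n) ⊕ Fin 2) K) *ᵥ v) =
      ((Units.mk0 μ hμ : Kˣ) : K) * (odM (an_ns hν) hn3).Q v := fun v => zM_mult hxy v
  let z₁ : (fam (odM (an_ns hν) hn3)).N := ⟨zG n hxy hμ, sim_mem_Gam.mpr ⟨Units.mk0 μ hμ, hzm⟩⟩
  have hmu : muN (odM (an_ns hν) hn3) z₁ = Units.mk0 μ hμ := muN_eq (odM (an_ns hν) hn3) hzm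
  have hz₁ : S₀.E z₁ = 1 := by
    rw [hS₀ h2K z₁, hmu]
    exact zM_det μ ν x y hxy
  have hz₁m : sqc K (muN (odM (an_ns hν) hn3) z₁) = -1 := by
    rcases Int.units_eq_one_or (sqc K (muN (odM (an_ns hν) hn3) z₁)) with h | h
    · rw [hmu, sqc_eq_one] at h
      exact absurd h hμs
    · exact h
  have h3 := split_two R he hQ₁ (detF_plus (F := F) hm) hS₀ h2 hσ (neg_plus hm h2 hσ) hz₁ hz₁m
  have h4 := key_inn hm hn3 he hσ (d := Units.mk0 d hd0) (s := Units.mk0 s hs0) hω0 h2 hω hxy hμ hν hμs hd hs hs' hdσ hsσ R hQ₁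
    (z₁ := z₁) rfl
  rw [h3]
  by_cases h5 : Odd (n + 1) ∧ Nat.card K % 4 = 1
  · rw [if_pos h5, if_pos (h4.mpr h5)]
  · rw [if_neg h5, if_neg (fun h => h5 (h4.mp h))]

end KeyInn

section GfMain

universe u v

theorem two_zero_iff {F : Type u} [Field F] [Finite F] {p f : ℕ} (hp : p.Prime) (hF : Nat.card F = p ^ f) :
    (2 : F) = 0 ↔ p = 2 := by
  have := Fintype.ofFinite F
  have hpf := Fact.mk hp
  obtain ⟨r, hr⟩ := CharP.exists F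
  have hrp : r.Prime := CharP.char_is_prime F r
  obtain ⟨k, hk, hk'⟩ := FiniteField.card F r
  have h1 : r ∣ p ^ f := by
    rw [← hF, Nat.card_eq_fintype_card, hk']
    exact dvd_pow_self r k.ne_zero
  have h2 : r = p := (Nat.prime_dvd_prime_iff_eq hrp hp).mp (hrp.dvd_of_dvd_pow h1)
  subst h2
  constructor
  · intro h
    have h3 : ((2 : ℕ) : F) = 0 := by exact_mod_cast h
    rw [CharP.cast_eq_zero_iff F r] at h3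
    exact (Nat.prime_dvd_prime_iff_eq hp Nat.prime_two).mp h3
  · rintro rfl
    have h3 : ((2 : ℕ) : F) = 0 := (CharP.cast_eq_zero_iff F 2 2).mpr dvd_rfl
    exact_mod_cast h3

theorem gf_norm {F : Type u} [Field F] [Finite F] {m : ℕ} (hm : 5 ≤ m) (hm4 : 4 ≤ m)
    (x : MulAut (Cfsg.POmega F ⇑(odP F hm4).Q)) (hx : gfP ⇑(odP F hm4).Q x) (hx2 : orderOf x = 2) :
    ∃ ξ : (fam (odP F hm4)).Γ, (fam (odP F hm4)).T ξ = x ∧ orderOf (ξ : Gm (Fin m ⊕ Fin m) F).right = 2 ∧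
      Nn (ξ : Gm (Fin m ⊕ Fin m) F).right (ξ : Gm (Fin m ⊕ Fin m) F).left (orderOf (ξ : Gm (Fin m ⊕ Fin m) F).right) = 1 ∧
      parG hm4 ξ = -1 := by
  have hfull : (fam (odP F hm4)).Full := full (good_plus (F := F) hm)
  obtain ⟨ξ₁, h0, h1, hpar⟩ := gf_data hm4 hfull hx
  rw [← h0] at hx2
  have hσ₁ := orderOf_right Nat.prime_two hx2 h1
  have hT2 : (fam (odP F hm4)).T ξ₁ ^ 2 = 1 := orderOf_dvd_iff_pow_eq_one.mp (dvd_of_eq hx2)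
  obtain ⟨ξ, hξT, hξr, hN⟩ := exists_rep_norm ξ₁ (by rw [hσ₁]; exact hT2)
  refine ⟨ξ, hξT.trans h0, by rw [hξr, hσ₁], hN, ?_⟩
  have h3 : (fam (odP F hm4)).T (ξ * ξ₁⁻¹) = 1 := by
    rw [_root_.map_mul, _root_.map_inv, hξT, mul_inv_cancel]
  have h4 := parG_T hm4 h3
  rw [_root_.map_mul, _root_.map_inv, hpar, mul_inv_eq_one] at h4
  exact h4

theorem gf_conj {F : Type u} [Field F] [Finite F] {m n : ℕ} (hm4 : 4 ≤ m) (hmn : m = n + 1)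
    {ξ η : (fam (odP F hm4)).Γ} (hσ : orderOf (ξ : Gm (Fin m ⊕ Fin m) F).right = 2)
    (hση : orderOf (η : Gm (Fin m ⊕ Fin m) F).right = 2) (hξ : (fam (odP F hm4)).T ξ ^ 2 = 1)
    (hη : (fam (odP F hm4)).T η ^ 2 = 1) (h1 : parG hm4 ξ = -1) (h2 : parG hm4 η = -1) :
    Cfsg.IsConjUnder (D0 (evP (F := F) hm4)) ((fam (odP F hm4)).T ξ) ((fam (odP F hm4)).T η) := by
  have hcyc : IsCyclic (F ≃+* F) := FAut.isCyclic
  obtain ⟨z, hz, h6⟩ := conj_main (evP (F := F) hm4) (n := n) (by rw [plus_card, hmn]; ring) (parG hm4)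
      (fun x hx => parG_T hm4 hx) (hPM_plus hm4 hmn) ξ η (unique_order_two hσ hση) (by
        rw [hσ]; exact hξ) (by
        rw [hσ]; exact hη) (by rw [h1, h2])
  exact ⟨_, mem_D0.mpr ⟨z, hz, rfl⟩, h6.symm⟩

theorem gf_forms {F : Type u} [Field F] [Finite F] {m n : ℕ} (hm4 : 4 ≤ m) (hmn : m = n + 1)
    {ξ : (fam (odP F hm4)).Γ}
    (hN : Nn (ξ : Gm (Fin m ⊕ Fin m) F).right (ξ : Gm (Fin m ⊕ Fin m) F).left (orderOf (ξ : Gm (Fin m ⊕ Fin m) F).right) = 1)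
    (h1 : parG hm4 ξ = -1) {F₀ : Type v} [Field F₀] [Finite F₀] {e : F₀ →+* F}
    (he : ∀ a, (ξ : Gm (Fin m ⊕ Fin m) F).right a = a ↔ a ∈ Set.range e) (a₀ b₀ : F₀) (h : An a₀ b₀) :
    Nonempty (RS (odP F hm4) (ξ : Gm (Fin m ⊕ Fin m) F) (Quad.minusQ F n (e a₀) (e b₀))) := by
  subst hmn
  rcases forms (A := odP F hm4) (n := n) (by rw [plus_card]; ring) ξ.2 hN e he with ⟨⟨R⟩⟩ | h
  · exfalso
    have h5 := parG_of_plus hm4 R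
    rw [h1] at h5
    exact absurd h5 (by decide)
  · exact h a₀ b₀ ‹_›

theorem gf_cent {F : Type u} [Field F] [Finite F] {m n : ℕ} (hm4 : 4 ≤ m) (hmn : m = n + 1) (hn3 : 3 ≤ n)
    {ξ : (fam (odP F hm4)).Γ}
    (hN : Nn (ξ : Gm (Fin m ⊕ Fin m) F).right (ξ : Gm (Fin m ⊕ Fin m) F).left (orderOf (ξ : Gm (Fin m ⊕ Fin m) F).right) = 1)
    (h1 : parG hm4 ξ = -1) {F₀ : Type v} [Field F₀] [Finite F₀] {e : F₀ →+* F}
    (he : ∀ a, (ξ : Gm (Fin m ⊕ Fin m) F).right a = a ↔ a ∈ Set.range e) {a₀ b₀ : F₀} (hζ : An a₀ b₀) :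
    Nonempty (↥(indP ⇑(odP F hm4).Q ⊓ Subgroup.centralizer {(fam (odP F hm4)).T ξ}) ≃* ↥(indM a₀ b₀ ⇑(odM hζ hn3).Q)) ∧
      ((2 : F) = 0 → Cfsg.splitClassCount (indP ⇑(odP F hm4).Q) (Cfsg.Inn (Cfsg.POmega F ⇑(odP F hm4).Q))
        ((fam (odP F hm4)).T ξ) = 1) := by
  subst hmn
  obtain ⟨S₀, hX₀, hS₀⟩ := exists_evM hζ hn3
  obtain ⟨R⟩ := gf_forms hm4 rfl hN h1 he a₀ b₀ hζ
  have hQ₁ : ∀ x : (Fin n ⊕ Fin n) ⊕ Fin 2 → F₀, Quad.minusQ F n (e a₀) (e b₀) (fun i => e (x i)) =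
      e ((odM hζ hn3).Q x) := fun x => rat_minus e a₀ b₀ x
  rw [indP_eq hm4, hX₀]
  exact ⟨cent_iso R he hQ₁ (detF_plus (F := F) hm4) hS₀, fun h =>
    split_one R he hQ₁ (detF_plus (F := F) hm4) hS₀ (Or.inl h)⟩

theorem gf_main {F : Type u} [Field F] [Finite F] {m n : ℕ} (hm : 5 ≤ m) (hm4 : 4 ≤ m) (hmn : m = n + 1) (hn3 : 3 ≤ n)
    {q : (Fin m ⊕ Fin m → F) → F} (hq : ⇑(odP F hm4).Q = q) {p f : ℕ} (hp : p.Prime) (hF : Nat.card F = p ^ f)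
    (x : MulAut (Cfsg.POmega F q)) (hx : gfP q x) (hx2 : orderOf x = 2)
    (F₀ : Type v) [Field F₀] [Fintype F₀] (hF₀ : Fintype.card F₀ = p ^ (f / 2)) :
    Even f ∧ (∀ y : MulAut (Cfsg.POmega F q), gfP q y → orderOf y = 2 → Cfsg.IsConjUnder (indP q) x y) ∧
    (∃ (a₀ b₀ : F₀) (hζ : An a₀ b₀),
      Nonempty (↥(indP q ⊓ Subgroup.centralizer {x}) ≃* ↥(indM a₀ b₀ ⇑(odM hζ hn3).Q))) ∧
    (p = 2 → Cfsg.splitClassCount (indP q) (Cfsg.Inn (Cfsg.POmega F q)) x = 1) ∧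
    ((p ≠ 2 ∧ Odd m ∧ p ^ (f / 2) % 4 = 1) → Cfsg.splitClassCount (indP q) (Cfsg.Inn (Cfsg.POmega F q)) x = 4) ∧
    ((p ≠ 2 ∧ ¬ (Odd m ∧ p ^ (f / 2) % 4 = 1)) → Cfsg.splitClassCount (indP q) (Cfsg.Inn (Cfsg.POmega F q)) x = 2) := by
  subst hq
  subst hmn
  change MulAut (Cfsg.POmega F ⇑(odP F hm4).Q) at x
  obtain ⟨ξ, h0, hσ, hN, hpar⟩ := gf_norm hm hm4 x hx hx2
  obtain ⟨q₀, hq, hcard, hfix, hfix'⟩ := card_fix (ξ : Gm (Fin (n + 1) ⊕ Fin (n + 1)) F).right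
  obtain ⟨hrf, hq₀⟩ := prime_pow_root hp (show p ^ f = q₀ ^ 2 by
    rw [← hF, hcard, hσ]) (by norm_num)
  obtain ⟨e, he⟩ := exists_emb hcard hfix' F₀ (by rw [hF₀, hq₀])
  obtain ⟨ζ, hζ⟩ := exists_an F₀
  have hc := gf_cent hm4 rfl hn3 hN hpar he hζ
  have hs := fun h2 => split_gf hm4 hn3 he hσ h2 (gf_forms hm4 rfl hN hpar he)
  rw [Nat.card_eq_fintype_card, hF₀, ← indP_eq hm4] at hs
  rw [h0] at hc hs
  have h20 := two_zero_iff hp hF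
  refine ⟨even_iff_two_dvd.mpr hrf, ?_, ⟨1, ζ, hζ, hc.1⟩, fun h3 => hc.2 (h20.mpr h3), ?_, ?_⟩
  · intro y hy hy2
    obtain ⟨η, h3, h4, -, h5⟩ := gf_norm hm hm4 y hy hy2
    have h6 := gf_conj hm4 rfl hσ h4 (by rw [h0]; exact orderOf_dvd_iff_pow_eq_one.mp (dvd_of_eq hx2))
      (by rw [h3]; exact orderOf_dvd_iff_pow_eq_one.mp (dvd_of_eq hy2)) hpar h5
    rw [h0, h3, ← indP_eq hm4] at h6
    exact h6
  · rintro ⟨h3, h4, h5⟩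
    exact (hs (fun h => h3 (h20.mp h))).trans (if_pos ⟨h4, h5⟩)
  · rintro ⟨h3, h4⟩
    exact (hs (fun h => h3 (h20.mp h))).trans (if_neg h4)

end GfMain

end Cfsg.Agent.H16.Par
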