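import Cfsg.Agent.H16_ParH

set_option autoImplicit false

/-! Quotients of the similarity group in even dimension and odd characteristic. -/

namespace Cfsg.Agent.H16.Par

open Matrix Cfsg.Agent.H16.Ps Module Cfsg.Agent.H16.Gam Cfsg.Agent.H16.AutL Cfsg.Agent.H16.AutG Cfsg.Agent.H16.Desc
open QuadraticMap (polar)
open Cfsg.Agent.H16 Cfsg.Agent.H16.POm

section Abs

/-- homomorphisms onto a quotient. -/
theorem quot_hom {X : Type*} [Group X] {N D : Subgroup X} [N.Normal] {G : Type*} [Group G]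
    (e : ↥(D.map (QuotientGroup.mk' N)) ≃* G) :
    ∃ φ : ↥D →* G, Function.Surjective φ ∧ φ.ker = N.subgroupOf D := by
  refine ⟨e.toMonoidHom.comp ((QuotientGroup.mk' N).subgroupMap D),
    e.surjective.comp ((QuotientGroup.mk' N).subgroupMap_surjective D), ?_⟩
  ext x
  rw [MonoidHom.mem_ker, Subgroup.mem_subgroupOf]
  change e ((QuotientGroup.mk' N).subgroupMap D x) = 1 ↔ _
  rw [map_eq_one_iff e e.injective]
  constructor
  · intro h
    exact (QuotientGroup.eq_one_iff _).mp (congrArg Subtype.val h)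
  · intro h
    exact Subtype.ext ((QuotientGroup.eq_one_iff _).mpr h)

theorem card_quot {X : Type*} [Group X] {N D : Subgroup X} [N.Normal] :
    Nat.card ↥(D.map (QuotientGroup.mk' N)) = N.relIndex D := by
  rw [← Subgroup.relIndex_ker, QuotientGroup.ker_mk']

theorem klein_of {G : Type*} [Group G] (h4 : Nat.card G = 4) {s t : G} (hs : s * s = 1) (ht : t * t = 1) (hs1 : s ≠ 1)
    (ht1 : t ≠ 1) (hst : s ≠ t) : Nonempty (G ≃* Multiplicative (ZMod 2 × ZMod 2)) := by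
  have hfin : Finite G := Nat.finite_of_card_ne_zero (by rw [h4]; norm_num)
  have hsq : ∀ x : G, x ^ 2 = 1 := by
    intro x
    have h1 : orderOf x ∣ 2 ^ 2 := by
      have h2 := orderOf_dvd_natCard x
      rwa [h4] at h2
    obtain ⟨k, hk, hk'⟩ := (Nat.dvd_prime_pow Nat.prime_two).mp h1
    interval_cases k
    · rw [pow_zero, orderOf_eq_one_iff] at hk'
      rw [hk', one_pow]
    · rw [pow_one] at hk'
      rw [← hk', pow_orderOf_eq_one]
    · exfalso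
      have hc : IsCyclic G := isCyclic_of_orderOf_eq_card x (by rw [hk', h4]; norm_num)
      have e1 : orderOf s = 2 := orderOf_eq_prime (by rw [pow_two, hs]) hs1
      have e2 : orderOf t = 2 := orderOf_eq_prime (by rw [pow_two, ht]) ht1
      exact hst (unique_order_two e1 e2)
  have hexp : Monoid.exponent G = 2 := by
    have h1 : Monoid.exponent G ∣ 2 := Monoid.exponent_dvd_of_forall_pow_eq_one hsq
    rcases (Nat.dvd_prime Nat.prime_two).mp h1 with h | h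
    · exfalso
      apply hs1
      have := Monoid.pow_exponent_eq_one s
      rwa [h, pow_one] at this
    · exact h
  have hk : IsKleinFour G := ⟨h4, hexp⟩
  exact IsKleinFour.nonempty_mulEquiv

theorem cyclic_of {G : Type*} [Group G] (h4 : Nat.card G = 4) {s : G} (hs : s * s ≠ 1) :
    Nonempty (G ≃* Multiplicative (ZMod 4)) := by
  have hfin : Finite G := Nat.finite_of_card_ne_zero (by rw [h4]; norm_num)
  have h1 : orderOf s ∣ 2 ^ 2 := by
    have h2 := orderOf_dvd_natCard s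
    rwa [h4] at h2
  obtain ⟨k, hk, hk'⟩ := (Nat.dvd_prime_pow Nat.prime_two).mp h1
  have h3 : orderOf s = 4 := by
    interval_cases k
    · rw [pow_zero, orderOf_eq_one_iff] at hk'
      rw [hk', one_mul] at hs
      exact absurd rfl hs
    · rw [pow_one] at hk'
      exfalso
      apply hs
      rw [← pow_two, ← hk', pow_orderOf_eq_one]
    · rw [hk']; norm_num
  have hc : IsCyclic G := isCyclic_of_orderOf_eq_card s (by rw [h3, h4])
  exact ⟨mulEquivOfCyclicCardEq (by rw [h4, Nat.card_eq_fintype_card, Fintype.card_multiplicative, ZMod.card])⟩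

theorem two_of {G : Type*} [Group G] (h2 : Nat.card G = 2) : Nonempty (G ≃* Multiplicative (ZMod 2)) := by
  have := Fact.mk Nat.prime_two
  exact ⟨mulEquivOfPrimeCardEq (p := 2) h2 (by rw [Nat.card_eq_fintype_card, Fintype.card_multiplicative, ZMod.card])⟩

end Abs

section Gen

variable {ι : Type} [Fintype ι] [DecidableEq ι] {F : Type*} [Field F] [Finite F] {A : OD ι F}

theorem det_one_iff (h2 : (2 : F) ≠ 0) (u : Cfsg.isometryGroup F ⇑A.Q) :
    ((u : GL ι F) : Matrix ι ι F).det = 1 ↔ del A u = 1 := by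
  rw [det_del]
  rcases Int.units_eq_one_or (del A u) with h | h
  · rw [h]; simp
  · rw [h]
    constructor
    · intro h1
      exfalso
      apply h2
      have h3 : (-1 : F) = 1 := by simpa using h1
      linear_combination -h3
    · intro h1
      exact absurd h1 (by decide)

theorem spec_mem {ι : Type} [Fintype ι] [DecidableEq ι] {F : Type*} [Field F] {g : GL ι F} :
    g ∈ Cfsg.Geo.specialLinear ι F ↔ ((g : GL ι F) : Matrix ι ι F).det = 1 := by
  rw [Cfsg.Geo.specialLinear, MonoidHom.mem_ker, Units.ext_iff]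
  rfl

theorem pso_mem (h2 : (2 : F) ≠ 0) {α : MulAut (Cfsg.POmega F ⇑A.Q)} :
    α ∈ Cfsg.psoAut F ⇑A.Q ↔ ∃ u : Cfsg.isometryGroup F ⇑A.Q, del A u = 1 ∧ fO A u = α := by
  have h : {β : MulAut (Cfsg.POmega F ⇑A.Q) | Cfsg.IsSpecialIsometryInducedAutPOmega ⇑A.Q β} =
      ((del A).ker.map (fO A) : Subgroup (MulAut (Cfsg.POmega F ⇑A.Q))) := by
    ext β
    constructor
    · rintro ⟨g, hg, h⟩
      have h1 := (induced_iff A (g := g) (σ := RingEquiv.refl F) (iso_mem_Gam hg.1)).mp h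
      refine ⟨⟨g, hg.1⟩, ?_, h1.symm⟩
      change del A ⟨g, hg.1⟩ = 1
      rw [← det_one_iff h2]
      exact spec_mem.mp hg.2
    · rintro ⟨u, hu, rfl⟩
      refine ⟨u, ⟨u.2, spec_mem.mpr ((det_one_iff h2 u).mpr hu)⟩, ?_⟩
      exact (induced_iff A (g := u) (σ := RingEquiv.refl F) (iso_mem_Gam u.2)).mpr rfl
  rw [Cfsg.psoAut, Cfsg.autSubgroupOf, h, Subgroup.closure_eq]
  rfl

theorem po_mem {α : MulAut (Cfsg.POmega F ⇑A.Q)} :
    α ∈ Cfsg.poAut F ⇑A.Q ↔ ∃ u : Cfsg.isometryGroup F ⇑A.Q, fO A u = α := by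
  have h : {β : MulAut (Cfsg.POmega F ⇑A.Q) | Cfsg.IsIsometryInducedAutPOmega ⇑A.Q β} =
      ((fO A).range : Subgroup (MulAut (Cfsg.POmega F ⇑A.Q))) := by
    ext β
    constructor
    · rintro ⟨g, hg, h⟩
      have h1 := (induced_iff A (g := g) (σ := RingEquiv.refl F) (iso_mem_Gam hg)).mp h
      exact ⟨⟨g, hg⟩, h1.symm⟩
    · rintro ⟨u, rfl⟩
      refine ⟨u, u.2, ?_⟩
      exact (induced_iff A (g := u) (σ := RingEquiv.refl F) (iso_mem_Gam u.2)).mpr rfl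
  rw [Cfsg.poAut, Cfsg.autSubgroupOf, h, Subgroup.closure_eq]
  rfl

variable (S : EvS A)

theorem pso_le (h2 : (2 : F) ≠ 0) : Cfsg.psoAut F ⇑A.Q ≤ D0 S := by
  intro α hα
  obtain ⟨u, hu, rfl⟩ := (pso_mem h2).mp hα
  rw [fO_eq]
  exact T_mem_D0.mpr (by rw [S.iso, hu])

theorem inn_le_pso (h2 : (2 : F) ≠ 0) : Cfsg.Inn (Cfsg.POmega F ⇑A.Q) ≤ Cfsg.psoAut F ⇑A.Q := by
  intro α hα
  obtain ⟨u, hu, rfl⟩ := inn_fO A α hα
  exact (pso_mem h2).mpr ⟨u, ((mem_Om A u).mp hu).1, rfl⟩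

/-- the surjection onto `D`. -/
noncomputable def dN (A : OD ι F) : (fam A).N →* (fam A).D := ((fam A).T.comp (fam A).nin).rangeRestrict

theorem dN_surj : Function.Surjective (dN A) := MonoidHom.rangeRestrict_surjective _

theorem dN_coe (g : (fam A).N) : (dN A g : MulAut (Cfsg.POmega F ⇑A.Q)) = (fam A).T ((fam A).nin g) := rfl

theorem dN_one {g : (fam A).N} (h : dN A g = 1) : ∃ c : Fˣ, g = ⟨scl ι c, (fam A).sc c⟩ := by
  obtain ⟨c, hc⟩ := (Fam.ker_nin g).mp (congrArg Subtype.val h)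
  exact ⟨c, Subtype.ext hc⟩

/-- the two signs. -/
noncomputable def chD : (fam A).D →* ℤˣ × ℤˣ :=
  MonoidHom.liftOfSurjective (dN A) dN_surj ⟨((sqc F).comp (muN A)).prod S.E, by
    intro g hg
    obtain ⟨c, rfl⟩ := dN_one hg
    rw [MonoidHom.mem_ker, MonoidHom.prod_apply, MonoidHom.comp_apply, muN_scl, sqc_sq, S.scl]
    rfl⟩

theorem chD_apply (g : (fam A).N) : chD S (dN A g) = (sqc F (muN A g), S.E g) :=
  MonoidHom.liftOfRightInverse_comp_apply (dN A) _ _ _ g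

theorem exists_EN (h2 : (2 : F) ≠ 0) (a b : ℤˣ) : ∃ g : (fam A).N, sqc F (muN A g) = a ∧ S.E g = b := by
  obtain ⟨v, hv⟩ := exists_ns A
  have h4 : muN A ⟨rfl' A v, iso_le_N A (rfl' A v).2⟩ = 1 := (muN_ker A _).mpr (rfl' A v).2
  have h5 : S.E ⟨rfl' A v, iso_le_N A (rfl' A v).2⟩ = -1 := by rw [S.iso, del_rfl' hv]
  obtain ⟨g₁, hg₁⟩ : ∃ g : (fam A).N, sqc F (muN A g) = a := by
    rcases Int.units_eq_one_or a with rfl | rfl
    · exact ⟨1, by rw [_root_.map_one, _root_.map_one]⟩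
    · exact exists_ns_mult S h2
  by_cases h : S.E g₁ = b
  · exact ⟨g₁, hg₁, h⟩
  · refine ⟨g₁ * ⟨rfl' A v, iso_le_N A (rfl' A v).2⟩, by rw [_root_.map_mul, h4, mul_one, hg₁], ?_⟩
    rw [_root_.map_mul, h5]
    rcases Int.units_eq_one_or (S.E g₁) with h6 | h6 <;> rcases Int.units_eq_one_or b with h7 | h7 <;>
      rw [h6, h7] at h <;> rw [h6, h7] <;> first | rfl | exact absurd rfl h

theorem chD_surj (h2 : (2 : F) ≠ 0) : Function.Surjective (chD S) := by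
  rintro ⟨a, b⟩
  obtain ⟨g, h1, h3⟩ := exists_EN S h2 a b
  exact ⟨dN A g, by rw [chD_apply, h1, h3]⟩

theorem chD_ker (h2 : (2 : F) ≠ 0) : (chD S).ker = (Cfsg.psoAut F ⇑A.Q).subgroupOf (fam A).D := by
  ext α
  obtain ⟨g, rfl⟩ := dN_surj α
  rw [MonoidHom.mem_ker, Subgroup.mem_subgroupOf, chD_apply, dN_coe, pso_mem h2]
  constructor
  · intro h
    have h1 : sqc F (muN A g) = 1 := congrArg Prod.fst h
    have h3 : S.E g = 1 := congrArg Prod.snd h
    obtain ⟨d, u, rfl⟩ := sq_mult A g h1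
    rw [_root_.map_mul, S.scl, one_mul, S.iso] at h3
    refine ⟨u, h3, ?_⟩
    rw [_root_.map_mul, _root_.map_mul, T_scl, one_mul, fO_eq]
  · rintro ⟨u, hu, h⟩
    rw [fO_eq] at h
    have h1 := sqc_T h
    have h3 : muN A ⟨u, iso_le_N A u.2⟩ = 1 := (muN_ker A _).mpr u.2
    rw [h3, _root_.map_one] at h1
    have h4 : (fam A).T ((fam A).nin g) ∈ D0 S := by
      rw [← h]
      exact T_mem_D0.mpr (by rw [S.iso, hu])
    rw [← h1, T_mem_D0.mp h4]
    rfl

theorem card_units_sq : Nat.card (ℤˣ × ℤˣ) = 4 := by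
  rw [Nat.card_eq_fintype_card, Fintype.card_prod, Fintype.card_units_int]

theorem units_klein : Nonempty ((ℤˣ × ℤˣ) ≃* Multiplicative (ZMod 2 × ZMod 2)) :=
  klein_of card_units_sq (s := (-1, 1)) (t := (1, -1)) rfl rfl (by decide) (by decide) (by decide)

include S in
theorem pgo_pso (h2 : (2 : F) ≠ 0) : ∃ φ : ↥(Cfsg.pgoAut F ⇑A.Q) →* Multiplicative (ZMod 2 × ZMod 2), Function.Surjective φ ∧
    φ.ker = (Cfsg.psoAut F ⇑A.Q).subgroupOf (Cfsg.pgoAut F ⇑A.Q) := by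
  obtain ⟨e⟩ := units_klein
  rw [closure_D]
  refine ⟨e.toMonoidHom.comp (chD S), e.surjective.comp (chD_surj S h2), ?_⟩
  rw [← chD_ker S h2]
  ext x
  rw [MonoidHom.mem_ker, MonoidHom.mem_ker]
  exact map_eq_one_iff e e.injective

include S in
theorem relIndex_pso (h2 : (2 : F) ≠ 0) : (Cfsg.psoAut F ⇑A.Q).relIndex (fam A).D = 4 := by
  rw [Subgroup.relIndex, ← chD_ker S h2, Subgroup.index_ker, MonoidHom.range_eq_top.mpr (chD_surj S h2)]
  rw [Nat.card_congr (Subgroup.topEquiv (G := ℤˣ × ℤˣ)).toEquiv, card_units_sq]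

include S in
open Classical in
theorem relIndex_inn_pso (h2 : (2 : F) ≠ 0) : (Cfsg.Inn (Cfsg.POmega F ⇑A.Q)).relIndex (Cfsg.psoAut F ⇑A.Q) =
    if negO A ∈ Cfsg.Omega F ⇑A.Q then 2 else 1 := by
  have h1 := Subgroup.relIndex_mul_relIndex (Cfsg.Inn (Cfsg.POmega F ⇑A.Q)) (Cfsg.psoAut F ⇑A.Q) (fam A).D
    (inn_le_pso h2) ((pso_le S h2).trans (D0_le S))
  rw [relIndex_pso S h2, relIndex_even S h2] at h1
  split_ifs at h1 ⊢ <;> omega

include S in
theorem pgo_inn_dih (h2 : (2 : F) ≠ 0) (hneg : negO A ∈ Cfsg.Omega F ⇑A.Q) :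
    ∃ φ : ↥(Cfsg.pgoAut F ⇑A.Q) →* DihedralGroup 4, Function.Surjective φ ∧
    φ.ker = (Cfsg.Inn (Cfsg.POmega F ⇑A.Q)).subgroupOf (Cfsg.pgoAut F ⇑A.Q) := by
  obtain ⟨e⟩ := dih S h2 hneg
  rw [closure_D]
  exact quot_hom e.symm

include S in
theorem pgo_inn_klein (h2 : (2 : F) ≠ 0) (hneg : negO A ∉ Cfsg.Omega F ⇑A.Q) :
    ∃ φ : ↥(Cfsg.pgoAut F ⇑A.Q) →* Multiplicative (ZMod 2 × ZMod 2), Function.Surjective φ ∧
    φ.ker = (Cfsg.Inn (Cfsg.POmega F ⇑A.Q)).subgroupOf (Cfsg.pgoAut F ⇑A.Q) := by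
  have h1 := relIndex_inn_pso S h2
  rw [if_neg hneg, Subgroup.relIndex_eq_one] at h1
  have h3 : Cfsg.psoAut F ⇑A.Q = Cfsg.Inn (Cfsg.POmega F ⇑A.Q) := le_antisymm h1 (inn_le_pso h2)
  have h4 := pgo_pso S h2
  rw [h3] at h4
  exact h4

theorem D0_inn_two (h2 : (2 : F) ≠ 0) (hneg : negO A ∉ Cfsg.Omega F ⇑A.Q) :
    ∃ φ : ↥(D0 S) →* Multiplicative (ZMod 2), Function.Surjective φ ∧
    φ.ker = (Cfsg.Inn (Cfsg.POmega F ⇑A.Q)).subgroupOf (D0 S) := by
  obtain ⟨e⟩ := two_of (G := ↥((D0 S).map (QuotientGroup.mk' (Cfsg.Inn (Cfsg.POmega F ⇑A.Q))))) (by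
    rw [card_quot, relIndex_inn_D0 S h2, if_neg hneg])
  exact quot_hom e

/-- an element of the quotient. -/
noncomputable def qD (g : (fam A).N) (hg : S.E g = 1) : ↥((D0 S).map (QuotientGroup.mk' (Cfsg.Inn (Cfsg.POmega F ⇑A.Q)))) :=
  ⟨QuotientGroup.mk' _ ((fam A).T ((fam A).nin g)), _, T_mem_D0.mpr hg, rfl⟩

theorem qD_sq_iff (hneg : negO A ∈ Cfsg.Omega F ⇑A.Q) {g : (fam A).N} (hg : S.E g = 1) {c : Fˣ}
    {u : Cfsg.isometryGroup F ⇑A.Q} (h : (g : GL ι F) * g = scl ι c * (u : GL ι F)) :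
    qD S g hg * qD S g hg = 1 ↔ u ∈ Cfsg.Omega F ⇑A.Q := by
  have h1 : g * g = ⟨scl ι c, (fam A).sc c⟩ * ⟨u, iso_le_N A u.2⟩ := Subtype.ext h
  have h3 : qD S g hg * qD S g hg = 1 ↔ QuotientGroup.mk' (Cfsg.Inn (Cfsg.POmega F ⇑A.Q)) (fO A u) = 1 := by
    rw [← Subtype.coe_inj]
    change QuotientGroup.mk' _ ((fam A).T ((fam A).nin g)) * QuotientGroup.mk' _ ((fam A).T ((fam A).nin g)) = 1 ↔ _
    rw [← _root_.map_mul, ← _root_.map_mul, ← _root_.map_mul, h1, _root_.map_mul, _root_.map_mul, T_scl, one_mul, fO_eq]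
  rw [h3, ← fO_mem_inn hneg]
  exact QuotientGroup.eq_one_iff _

theorem D0_inn_four (h2 : (2 : F) ≠ 0) (hneg : negO A ∈ Cfsg.Omega F ⇑A.Q) {g : (fam A).N} (hg : S.E g = 1) {c : Fˣ}
    {u : Cfsg.isometryGroup F ⇑A.Q} (h : (g : GL ι F) * g = scl ι c * (u : GL ι F)) (hu : u ∉ Cfsg.Omega F ⇑A.Q) :
    ∃ φ : ↥(D0 S) →* Multiplicative (ZMod 4), Function.Surjective φ ∧
    φ.ker = (Cfsg.Inn (Cfsg.POmega F ⇑A.Q)).subgroupOf (D0 S) := by
  obtain ⟨e⟩ := cyclic_of (G := ↥((D0 S).map (QuotientGroup.mk' (Cfsg.Inn (Cfsg.POmega F ⇑A.Q))))) (by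
    rw [card_quot, relIndex_inn_D0 S h2, if_pos hneg]) (s := qD S g hg) (fun h1 => hu ((qD_sq_iff S hneg hg h).mp h1))
  exact quot_hom e

theorem exists_so_ns (h2 : (2 : F) ≠ 0) : ∃ u : Cfsg.isometryGroup F ⇑A.Q, del A u = 1 ∧ the A u = -1 := by
  have h7 := A.h7
  obtain ⟨⟨v, hv, hv2⟩, w, hw, hw2⟩ := Quad.exists_both A.nd h2 (by
    rw [Module.finrank_fintype_fun_eq_card]; omega)
  refine ⟨rfl' A v * rfl' A w, by rw [_root_.map_mul, del_rfl' hv, del_rfl' hw]; rfl, ?_⟩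
  rw [_root_.map_mul, (the_rfl' hv).mpr hv2, one_mul]
  rcases Int.units_eq_one_or (the A (rfl' A w)) with h | h
  · exact absurd ((the_rfl' hw).mp h) hw2
  · exact h

theorem D0_inn_klein (h2 : (2 : F) ≠ 0) (hneg : negO A ∈ Cfsg.Omega F ⇑A.Q) {g : (fam A).N} (hg : S.E g = 1)
    (hgm : sqc F (muN A g) = -1) {c : Fˣ}
    {u : Cfsg.isometryGroup F ⇑A.Q} (h : (g : GL ι F) * g = scl ι c * (u : GL ι F)) (hu : u ∈ Cfsg.Omega F ⇑A.Q) :
    ∃ φ : ↥(D0 S) →* Multiplicative (ZMod 2 × ZMod 2), Function.Surjective φ ∧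
    φ.ker = (Cfsg.Inn (Cfsg.POmega F ⇑A.Q)).subgroupOf (D0 S) := by
  obtain ⟨w, hw, hw2⟩ := exists_so_ns (A := A) h2
  have hwE : S.E ⟨w, iso_le_N A w.2⟩ = 1 := by rw [S.iso, hw]
  have hwmu : muN A ⟨w, iso_le_N A w.2⟩ = 1 := (muN_ker A _).mpr w.2
  have key : ∀ {z z' : (fam A).N} (hz : S.E z = 1) (hz' : S.E z' = 1), qD S z hz = qD S z' hz' →
      sqc F (muN A z) = sqc F (muN A z') := by
    intro z z' hz hz' h1
    have h3 : (QuotientGroup.mk ((fam A).T ((fam A).nin z)) : Cfsg.Out (Cfsg.POmega F ⇑A.Q)) =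
        QuotientGroup.mk ((fam A).T ((fam A).nin z')) := congrArg Subtype.val h1
    rw [QuotientGroup.eq, ← _root_.map_inv, ← _root_.map_inv, ← _root_.map_mul, ← _root_.map_mul] at h3
    have h4 := sqc_of_inn h3
    rw [_root_.map_mul, _root_.map_inv, _root_.map_mul, _root_.map_inv, inv_mul_eq_one] at h4
    exact h4
  have h1E : S.E (1 : (fam A).N) = 1 := _root_.map_one _
  have hq1 : qD S 1 h1E = 1 := by
    apply Subtype.ext
    change QuotientGroup.mk' _ ((fam A).T ((fam A).nin 1)) = 1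
    rw [_root_.map_one, _root_.map_one, _root_.map_one]
  obtain ⟨e⟩ := klein_of (G := ↥((D0 S).map (QuotientGroup.mk' (Cfsg.Inn (Cfsg.POmega F ⇑A.Q))))) (by
    rw [card_quot, relIndex_inn_D0 S h2, if_pos hneg]) (s := qD S g hg) (t := qD S ⟨w, iso_le_N A w.2⟩ hwE)
    ((qD_sq_iff S hneg hg h).mpr hu) ((qD_sq_iff S hneg hwE (c := 1) (u := w * w) (by
      rw [_root_.map_one, one_mul]; rfl)).mpr (by
        rw [mem_Om, _root_.map_mul, _root_.map_mul, hw, hw2]; exact ⟨rfl, rfl⟩))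
    (by
      intro h1
      rw [← hq1] at h1
      have h3 := key hg h1E h1
      rw [hgm, _root_.map_one, _root_.map_one] at h3
      exact absurd h3 (by decide))
    (by
      intro h1
      have h3 : (QuotientGroup.mk ((fam A).T ((fam A).nin ⟨w, iso_le_N A w.2⟩)) : Cfsg.Out (Cfsg.POmega F ⇑A.Q)) = 1 :=
        congrArg Subtype.val h1
      rw [QuotientGroup.eq_one_iff, ← fO_eq, fO_mem_inn hneg, mem_Om, hw2] at h3
      exact absurd h3.2 (by decide))
    (by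
      intro h1
      have h3 := key hg hwE h1
      rw [hgm, hwmu, _root_.map_one] at h3
      exact absurd h3 (by decide))
  exact quot_hom e

end Gen

end Cfsg.Agent.H16.Par
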