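import Cfsg.Agent.H16_ParI

set_option autoImplicit false

/-! The outer diagonal group in even dimension: concrete similarities. -/

namespace Cfsg.Agent.H16.Par

open Matrix Cfsg.Agent.H16.Ps Module Cfsg.Agent.H16.Gam Cfsg.Agent.H16.AutL Cfsg.Agent.H16.AutG Cfsg.Agent.H16.Desc
open QuadraticMap (polar)
open Cfsg.Agent.H16 Cfsg.Agent.H16.POm

section PlusM

variable {F : Type*} [Field F] [Finite F] {m : ℕ} (hm : 4 ≤ m)

theorem plus_mod [Fintype F] (h2 : (2 : F) ≠ 0) : negO (odP F hm) ∈ Cfsg.Omega F ⇑(odP F hm).Q ↔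
    ¬ (Odd m ∧ Fintype.card F % 4 = 3) := by
  rw [neg_mem_iff (odP F hm) h2 (by rw [plus_card]; exact ⟨m, by ring⟩)]
  have h3 : (Quad.gram (odP F hm).Q (Pi.basisFun F (Fin m ⊕ Fin m))).det = (-1) ^ m := Quad.det_gram_plusQ m
  rw [h3]
  have h4 := Quad.card_mod_two h2
  rcases Nat.even_or_odd m with he | ho
  · rw [he.neg_one_pow]
    have : ¬ Odd m := Nat.not_odd_iff_even.mpr he
    simp [this]
  · rw [ho.neg_one_pow, FiniteField.isSquare_neg_one_iff]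
    simp [ho]

theorem dgE_sq (c : Fˣ) : (dgE m c : GL (Fin m ⊕ Fin m) F) * dgE m c = scl (Fin m ⊕ Fin m) c * lvM (fun _ => c) := by
  apply PSp.gl_ext
  intro v
  rw [PSp.coe_mul_mulVec, PSp.coe_mul_mulVec, PSp.scl_mulVec, lvM_mulVec, dgE_mulVec, dgE_mulVec]
  funext i
  have := c.ne_zero
  rcases i with i | i
  · simp [Pi.smul_apply]
  · simp [Pi.smul_apply]

theorem plus_ind [Fintype F] (h2 : (2 : F) ≠ 0) :
    ((Odd m ∧ Fintype.card F % 4 = 3) → (∃ φ : ↥(indP ⇑(odP F hm).Q) →* Multiplicative (ZMod 2), Function.Surjective φ ∧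
      φ.ker = (Cfsg.Inn (Cfsg.POmega F ⇑(odP F hm).Q)).subgroupOf (indP ⇑(odP F hm).Q))) ∧
    ((Odd m ∧ Fintype.card F % 4 = 1) → (∃ φ : ↥(indP ⇑(odP F hm).Q) →* Multiplicative (ZMod 4), Function.Surjective φ ∧
      φ.ker = (Cfsg.Inn (Cfsg.POmega F ⇑(odP F hm).Q)).subgroupOf (indP ⇑(odP F hm).Q))) ∧
    (Even m → (∃ φ : ↥(indP ⇑(odP F hm).Q) →* Multiplicative (ZMod 2 × ZMod 2), Function.Surjective φ ∧
      φ.ker = (Cfsg.Inn (Cfsg.POmega F ⇑(odP F hm).Q)).subgroupOf (indP ⇑(odP F hm).Q))) := by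
  rw [indP_eq hm]
  obtain ⟨c, hc⟩ := sqc_surj h2
  have hcs : ¬ IsSquare (c : F) := by
    intro h
    rw [sqc_eq_one.mpr h] at hc
    exact absurd hc (by decide)
  have hmu : muN (odP F hm) ⟨dgE m c, dgE_mem hm c⟩ = c := muN_eq (odP F hm) (dgE_mult c)
  have hsq : ((⟨dgE m c, dgE_mem hm c⟩ : (fam (odP F hm)).N) : GL (Fin m ⊕ Fin m) F) *
      ((⟨dgE m c, dgE_mem hm c⟩ : (fam (odP F hm)).N) : GL (Fin m ⊕ Fin m) F) = scl (Fin m ⊕ Fin m) c *
        ((⟨lvM (fun _ => c), lvM_mem hm _⟩ : Cfsg.isometryGroup F ⇑(odP F hm).Q) : GL (Fin m ⊕ Fin m) F) := dgE_sq c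
  obtain ⟨h3, h4⟩ := lv_char hm (fun _ => c)
  rw [Finset.prod_const, Finset.card_univ, Fintype.card_fin] at h4
  refine ⟨?_, ?_, ?_⟩
  · intro h
    exact D0_inn_two _ h2 (fun h1 => (plus_mod hm h2).mp h1 h)
  · rintro ⟨ho, h⟩
    refine D0_inn_four _ h2 ((plus_mod hm h2).mpr (by omega)) (dgE_E hm c) hsq ?_
    rw [mem_Om]
    rintro ⟨-, h5⟩
    rw [h4] at h5
    obtain ⟨k, rfl⟩ := ho
    apply hcs
    obtain ⟨t, ht⟩ := h5
    refine ⟨t / (c : F) ^ k, ?_⟩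
    have := c.ne_zero
    rw [div_mul_div_comm, ← ht]
    field_simp
    ring
  · intro he
    refine D0_inn_klein _ h2 ((plus_mod hm h2).mpr (fun h => Nat.not_odd_iff_even.mpr he h.1)) (dgE_E hm c)
      (by rw [hmu, hc]) hsq ?_
    rw [mem_Om]
    refine ⟨h3, h4.mpr ?_⟩
    obtain ⟨k, rfl⟩ := he
    exact ⟨(c : F) ^ k, by rw [pow_add]⟩

end PlusM

section MinusM

variable {F : Type*} [Field F] {m : ℕ}

/-- the matrix of a swap similarity. -/
def sM (m : ℕ) (a b μ x y : F) : Matrix ((Fin m ⊕ Fin m) ⊕ Fin 2) ((Fin m ⊕ Fin m) ⊕ Fin 2) F :=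
  Matrix.fromBlocks (Matrix.fromBlocks 0 1 (Matrix.diagonal fun _ => μ) 0) 0 0 !![x, -(b * y); y, x + a * y]

theorem sM_det (a b μ x y : F) (h : x ^ 2 + a * x * y + b * y ^ 2 = μ) : (sM m a b μ x y).det = (-1) ^ m * μ ^ (m + 1) := by
  have h1 : (Matrix.fromBlocks 0 1 (Matrix.diagonal fun _ => μ) 0 : Matrix (Fin m ⊕ Fin m) (Fin m ⊕ Fin m) F) =
      Matrix.fromBlocks 0 1 1 0 * Matrix.fromBlocks (Matrix.diagonal fun _ => μ) 0 0 1 := by
    rw [Matrix.fromBlocks_multiply]; simp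
  have h3 : (Matrix.fromBlocks 0 1 1 0 : Matrix (Fin m ⊕ Fin m) (Fin m ⊕ Fin m) F).det = (-1) ^ m := by
    rw [← Quad.det_gram_plusQ (F := F) m]
    congr 1
    ext i j
    rcases i with i | i <;> rcases j with j | j <;>
      simp [Quad.gram, Quad.polar_plusQ, Pi.single_apply, Matrix.one_apply, eq_comm]
  rw [sM, Matrix.det_fromBlocks_zero₂₁, h1, Matrix.det_mul, h3, Matrix.det_fromBlocks_zero₂₁, Matrix.det_diagonal,
    Matrix.det_one, Matrix.det_fin_two_of, Finset.prod_const, Finset.card_univ, Fintype.card_fin, pow_succ, ← h]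
  ring

theorem sM_mulVec (a b μ x y : F) (v : (Fin m ⊕ Fin m) ⊕ Fin 2 → F) : sM m a b μ x y *ᵥ v =
    Sum.elim (Sum.elim (fun i => v (Sum.inl (Sum.inr i))) fun i => μ * v (Sum.inl (Sum.inl i)))
      ![x * v (Sum.inr 0) - b * y * v (Sum.inr 1), y * v (Sum.inr 0) + (x + a * y) * v (Sum.inr 1)] := by
  rw [sM, Matrix.fromBlocks_mulVec, Matrix.fromBlocks_mulVec]
  simp only [Matrix.zero_mulVec, add_zero, zero_add, Matrix.one_mulVec]
  funext i
  rcases i with (i | i) | i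
  · simp only [Sum.elim_inl, Function.comp_apply]
  · simp only [Sum.elim_inl, Sum.elim_inr, Matrix.mulVec_diagonal, Function.comp_apply]
  · simp only [Sum.elim_inr]
    fin_cases i
    · simp [Matrix.mulVec, dotProduct, Fin.sum_univ_two]; ring
    · simp [Matrix.mulVec, dotProduct, Fin.sum_univ_two]

theorem sM_mult {a b μ x y : F} (h : x ^ 2 + a * x * y + b * y ^ 2 = μ) (v : (Fin m ⊕ Fin m) ⊕ Fin 2 → F) :
    Quad.minusQ F m a b (sM m a b μ x y *ᵥ v) = μ * Quad.minusQ F m a b v := by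
  rw [sM_mulVec, Quad.minusQ_apply, Quad.minusQ_apply, Cfsg.quadFormMinus, Cfsg.quadFormMinus, mul_add, mul_add, mul_add,
    Finset.mul_sum]
  simp only [Sum.elim_inl, Sum.elim_inr, Matrix.cons_val_zero, Matrix.cons_val_one]
  have h1 : ∑ i : Fin m, v (Sum.inl (Sum.inr i)) * (μ * v (Sum.inl (Sum.inl i))) =
      ∑ i : Fin m, μ * (v (Sum.inl (Sum.inl i)) * v (Sum.inl (Sum.inr i))) := by
    apply Finset.sum_congr rfl
    intro i _
    ring
  rw [h1, ← h]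
  ring

/-- the swap similarity. -/
noncomputable def sG (m : ℕ) {a b μ x y : F} (h : x ^ 2 + a * x * y + b * y ^ 2 = μ) (hμ : μ ≠ 0) :
    GL ((Fin m ⊕ Fin m) ⊕ Fin 2) F :=
  Matrix.GeneralLinearGroup.mkOfDetNeZero (sM m a b μ x y) (by
    rw [sM_det a b μ x y h]
    exact mul_ne_zero (pow_ne_zero _ (neg_ne_zero.mpr one_ne_zero)) (pow_ne_zero _ hμ))

theorem sG_coe {a b μ x y : F} (h : x ^ 2 + a * x * y + b * y ^ 2 = μ) (hμ : μ ≠ 0) :
    ((sG m h hμ : GL ((Fin m ⊕ Fin m) ⊕ Fin 2) F) : Matrix ((Fin m ⊕ Fin m) ⊕ Fin 2) ((Fin m ⊕ Fin m) ⊕ Fin 2) F) =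
      sM m a b μ x y := rfl

/-- a vector in the plane. -/
def plv (m : ℕ) (x y : F) : (Fin m ⊕ Fin m) ⊕ Fin 2 → F := Sum.elim 0 ![x, y]

theorem plv_Q (a b x y : F) : Quad.minusQ F m a b (plv m x y) = x ^ 2 + a * x * y + b * y ^ 2 := by
  rw [Quad.minusQ_apply, Cfsg.quadFormMinus]
  simp [plv]

theorem polar_plv (a b x y : F) (v : (Fin m ⊕ Fin m) ⊕ Fin 2 → F) : polar (Quad.minusQ F m a b) v (plv m x y) =
    2 * (v (Sum.inr 0)) * x + a * (v (Sum.inr 0) * y + v (Sum.inr 1) * x) + 2 * b * v (Sum.inr 1) * y := by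
  rw [polar, Quad.minusQ_apply, Quad.minusQ_apply, Quad.minusQ_apply, Cfsg.quadFormMinus, Cfsg.quadFormMinus,
    Cfsg.quadFormMinus]
  simp [plv]
  ring

theorem refl_plv {a b x y : F} (v : (Fin m ⊕ Fin m) ⊕ Fin 2 → F) {μ : F} (h : x ^ 2 + a * x * y + b * y ^ 2 = μ) :
    Quad.refl (Quad.minusQ F m a b) (plv m x y) v = v - ((2 * (v (Sum.inr 0)) * x +
      a * (v (Sum.inr 0) * y + v (Sum.inr 1) * x) + 2 * b * v (Sum.inr 1) * y) * μ⁻¹) • plv m x y := by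
  rw [Quad.refl_apply, polar_plv, plv_Q, h, mul_comm μ⁻¹]

variable [Finite F] {a b : F} (hab : An a b) (hm : 3 ≤ m)

theorem sG_sq {μ x y : F} (h : x ^ 2 + a * x * y + b * y ^ 2 = μ) (hμ : μ ≠ 0) :
    (sG m h hμ : GL ((Fin m ⊕ Fin m) ⊕ Fin 2) F) * sG m h hμ = scl ((Fin m ⊕ Fin m) ⊕ Fin 2) (Units.mk0 μ hμ) *
      ((rfl' (odM hab hm) (plv m x y) * rfl' (odM hab hm) (plv m 1 0) : Cfsg.isometryGroup F ⇑(odM hab hm).Q) :
        GL ((Fin m ⊕ Fin m) ⊕ Fin 2) F) := by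
  apply PSp.gl_ext
  intro v
  have h1 : ∀ w, Quad.refl (odM hab hm).Q (plv m x y) w = Quad.refl (Quad.minusQ F m a b) (plv m x y) w := fun w => rfl
  have h3 : ∀ w, Quad.refl (odM hab hm).Q (plv m 1 0) w = Quad.refl (Quad.minusQ F m a b) (plv m 1 0) w := fun w => rfl
  rw [PSp.coe_mul_mulVec, PSp.coe_mul_mulVec, PSp.scl_mulVec, Subgroup.coe_mul, PSp.coe_mul_mulVec, rfl'_mulVec,
    rfl'_mulVec, sG_coe, sM_mulVec, sM_mulVec, h1, h3, refl_plv _ h, refl_plv _ (μ := 1) (by ring)]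
  have hμ1 : μ * μ⁻¹ = 1 := mul_inv_cancel₀ hμ
  funext i
  rcases i with (i | i) | i
  · simp [plv]
  · simp [plv]
  · fin_cases i
    · simp only [Sum.elim_inr, Matrix.cons_val_zero, Matrix.cons_val_one, plv, Pi.smul_apply, Pi.sub_apply, smul_eq_mul,
        Units.val_mk0, Fin.zero_eta, inv_one, mul_one, mul_zero, zero_mul, add_zero, sub_zero]
      linear_combination (v (Sum.inr 0) - (2 * v (Sum.inr 0) + a * v (Sum.inr 1))) * h + (2 * (v (Sum.inr 0) - (2 * v (Sum.inr 0) + a * v (Sum.inr 1))) * x + a * ((v (Sum.inr 0) - (2 * v (Sum.inr 0) + a * v (Sum.inr 1))) * y + v (Sum.inr 1) * x) + 2 * b * v (Sum.inr 1) * y) * x * hμ1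
    · simp only [Sum.elim_inr, Matrix.cons_val_zero, Matrix.cons_val_one, plv, Pi.smul_apply, Pi.sub_apply, smul_eq_mul,
        Units.val_mk0, Fin.mk_one, inv_one, mul_one, mul_zero, zero_mul, add_zero, sub_zero]
      linear_combination v (Sum.inr 1) * h + (2 * (v (Sum.inr 0) - (2 * v (Sum.inr 0) + a * v (Sum.inr 1))) * x + a * ((v (Sum.inr 0) - (2 * v (Sum.inr 0) + a * v (Sum.inr 1))) * y + v (Sum.inr 1) * x) + 2 * b * v (Sum.inr 1) * y) * y * hμ1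

include hab in
theorem minus_rep (h2 : (2 : F) ≠ 0) (μ : F) : ∃ x y : F, x ^ 2 + a * x * y + b * y ^ 2 = μ := by
  have h4 : (4 : F) ≠ 0 := by
    have : (4 : F) = 2 * 2 := by norm_num
    rw [this]
    exact mul_ne_zero h2 h2
  have hν : b - a ^ 2 / 4 ≠ 0 := by
    intro h
    have h1 := hab (-a / 2) 1 (by
      have : b = a ^ 2 / 4 := by linear_combination h
      rw [this]
      field_simp
      ring)
    exact one_ne_zero h1.2
  obtain ⟨X, Y, h⟩ := Quad.univ2 (one_ne_zero : (1 : F) ≠ 0) hν μ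
  refine ⟨X - a * Y / 2, Y, ?_⟩
  rw [← h]
  field_simp
  ring

theorem minus_ind [Fintype F] (h2 : (2 : F) ≠ 0) :
    ((Even m ∧ Fintype.card F % 4 = 3) → (∃ φ : ↥(indM a b ⇑(odM hab hm).Q) →* Multiplicative (ZMod 4), Function.Surjective φ ∧
      φ.ker = (Cfsg.Inn (Cfsg.POmega F ⇑(odM hab hm).Q)).subgroupOf (indM a b ⇑(odM hab hm).Q))) ∧
    (¬ (Even m ∧ Fintype.card F % 4 = 3) → (∃ φ : ↥(indM a b ⇑(odM hab hm).Q) →* Multiplicative (ZMod 2),
      Function.Surjective φ ∧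
      φ.ker = (Cfsg.Inn (Cfsg.POmega F ⇑(odM hab hm).Q)).subgroupOf (indM a b ⇑(odM hab hm).Q))) := by
  obtain ⟨S, hX, hS⟩ := exists_evM hab hm
  rw [hX]
  obtain ⟨c, hc⟩ := sqc_surj h2
  have hcs : ¬ IsSquare (c : F) := by
    intro h
    rw [sqc_eq_one.mpr h] at hc
    exact absurd hc (by decide)
  obtain ⟨x, y, hxy⟩ := minus_rep hab h2 (c : F)
  have hmod := neg_mod hab hm rfl (rfl : Fintype.card F = Fintype.card F) h2
  refine ⟨?_, ?_⟩
  · rintro ⟨he, h⟩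
    have hneg := hmod.mpr ⟨h, he.add_one⟩
    have hzm : ∀ v, (odM hab hm).Q (((sG m hxy c.ne_zero : GL ((Fin m ⊕ Fin m) ⊕ Fin 2) F) :
        Matrix ((Fin m ⊕ Fin m) ⊕ Fin 2) ((Fin m ⊕ Fin m) ⊕ Fin 2) F) *ᵥ v) = (c : F) * (odM hab hm).Q v :=
      fun v => sM_mult hxy v
    let g : (fam (odM hab hm)).N := ⟨sG m hxy c.ne_zero, sim_mem_Gam.mpr ⟨c, hzm⟩⟩
    have hmu : muN (odM hab hm) g = c := muN_eq (odM hab hm) hzm
    have hg : S.E g = 1 := by
      rw [hS h2 g, hmu]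
      have h3 : (sM m a b (c : F) x y).det = (c : F) ^ (m + 1) := by rw [sM_det _ _ _ _ _ hxy, he.neg_one_pow, one_mul]
      exact h3
    refine D0_inn_four S h2 hneg hg (sG_sq hab hm hxy c.ne_zero) ?_
    rw [mem_Om]
    rintro ⟨-, h5⟩
    have q1 : (odM hab hm).Q (plv m x y) = (c : F) := (plv_Q a b x y).trans hxy
    have q2 : (odM hab hm).Q (plv m 1 0) = 1 := (plv_Q a b 1 0).trans (by ring)
    rw [_root_.map_mul, (the_rfl' (A := odM hab hm) (v := plv m 1 0) (by rw [q2]; exact one_ne_zero)).mpr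
      (by rw [q2]; exact IsSquare.one), mul_one, the_rfl' (by rw [q1]; exact c.ne_zero), q1] at h5
    exact hcs h5
  · intro h
    exact D0_inn_two _ h2 (fun h1 => by
      have h3 := hmod.mp h1
      apply h
      refine ⟨?_, h3.1⟩
      have := h3.2
      rw [Nat.odd_iff] at this
      rw [Nat.even_iff]
      omega)

end MinusM

end Cfsg.Agent.H16.Par
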