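import Cfsg.Agent.H16_ParJ

set_option autoImplicit false

/-! Involutory graph automorphisms in even dimension and odd characteristic. -/

namespace Cfsg.Agent.H16.Par

open Matrix Cfsg.Agent.H16.Ps Module Cfsg.Agent.H16.Gam Cfsg.Agent.H16.AutL Cfsg.Agent.H16.AutG Cfsg.Agent.H16.Desc
open QuadraticMap (polar)
open Cfsg.Agent.H16 Cfsg.Agent.H16.POm

theorem units_eq {a b : ℤˣ} (h : a = 1 ↔ b = 1) : a = b := by
  rcases Int.units_eq_one_or a with h1 | h1
  · rw [h1, h.mp h1]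
  · rcases Int.units_eq_one_or b with h2 | h2
    · rw [h.mpr h2, h2]
    · rw [h1, h2]

section TheConj

variable {ι : Type} [Fintype ι] [DecidableEq ι] {F : Type*} [Field F] [Finite F] {A : OD ι F}

theorem cj_mem (z : (fam A).N) (u : Cfsg.isometryGroup F ⇑A.Q) :
    (z : GL ι F) * (u : GL ι F) * (z : GL ι F)⁻¹ ∈ Cfsg.isometryGroup F ⇑A.Q := by
  have h1 : muN A (z * ⟨u, iso_le_N A u.2⟩ * z⁻¹) = 1 := by
    rw [_root_.map_mul, _root_.map_mul, _root_.map_inv, (muN_ker A ⟨u, iso_le_N A u.2⟩).mpr u.2, mul_one, mul_inv_cancel]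
  exact (muN_ker A _).mp h1

/-- conjugation of isometries by a similarity. -/
noncomputable def cjO (z : (fam A).N) : Cfsg.isometryGroup F ⇑A.Q →* Cfsg.isometryGroup F ⇑A.Q where
  toFun u := ⟨(z : GL ι F) * (u : GL ι F) * (z : GL ι F)⁻¹, cj_mem z u⟩
  map_one' := by
    apply Subtype.ext
    change (z : GL ι F) * 1 * (z : GL ι F)⁻¹ = 1
    rw [mul_one, mul_inv_cancel]
  map_mul' u v := by
    apply Subtype.ext
    change (z : GL ι F) * ((u : GL ι F) * (v : GL ι F)) * (z : GL ι F)⁻¹ =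
      ((z : GL ι F) * (u : GL ι F) * (z : GL ι F)⁻¹) * ((z : GL ι F) * (v : GL ι F) * (z : GL ι F)⁻¹)
    simp only [mul_assoc, inv_mul_cancel_left]

theorem cjO_rfl (z : (fam A).N) (v : ι → F) : cjO z (rfl' A v) = rfl' A (((z : GL ι F) : Matrix ι ι F) *ᵥ v) :=
  Subtype.ext (conj_rfl' z v)

theorem fO_cjO (z : (fam A).N) (u : Cfsg.isometryGroup F ⇑A.Q) :
    fO A (cjO z u) = (fam A).T ((fam A).nin z) * fO A u * ((fam A).T ((fam A).nin z))⁻¹ := by
  rw [fO_eq, fO_eq, ← _root_.map_mul, ← _root_.map_inv, ← _root_.map_mul]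
  congr 1

theorem toOG_prod (vs : List (ι → F)) : Quad.toOG A.Q (vs.map (rfl' A)).prod = Quad.rpr A.Q vs := by
  induction vs with
  | nil => rw [List.map_nil, List.prod_nil, _root_.map_one, Quad.rpr_nil]
  | cons v vs ih => rw [List.map_cons, List.prod_cons, _root_.map_mul, ih, toOG_rfl', Quad.rpr_cons]

theorem exists_prod (u : Cfsg.isometryGroup F ⇑A.Q) : ∃ vs : List (ι → F), (∀ v ∈ vs, A.Q v ≠ 0) ∧
    u = (vs.map (rfl' A)).prod := by
  obtain ⟨vs, h1, h2⟩ := exists_vs A u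
  exact ⟨vs, h1, (Quad.toOG A.Q).injective (by rw [h2, toOG_prod])⟩

theorem cjO_prod (z : (fam A).N) (vs : List (ι → F)) : cjO z (vs.map (rfl' A)).prod =
    ((vs.map fun v => ((z : GL ι F) : Matrix ι ι F) *ᵥ v).map (rfl' A)).prod := by
  induction vs with
  | nil => simp
  | cons v vs ih =>
    rw [List.map_cons, List.prod_cons, _root_.map_mul, ih, cjO_rfl, List.map_cons, List.map_cons, List.prod_cons]

theorem prodQ_map (z : (fam A).N) (vs : List (ι → F)) :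
    ((vs.map fun v => ((z : GL ι F) : Matrix ι ι F) *ᵥ v).map A.Q).prod = (muN A z : F) ^ vs.length * (vs.map A.Q).prod := by
  induction vs with
  | nil => simp
  | cons v vs ih =>
    rw [List.map_cons, List.map_cons, List.prod_cons, ih, List.map_cons, List.prod_cons, List.length_cons, muN_spec A z]
    ring

theorem chars_cjO (z : (fam A).N) (u : Cfsg.isometryGroup F ⇑A.Q) : ∃ (k : ℕ) (P : F), P ≠ 0 ∧ del A u = (-1) ^ k ∧
    del A (cjO z u) = (-1) ^ k ∧ (the A u = 1 ↔ IsSquare P) ∧ (the A (cjO z u) = 1 ↔ IsSquare ((muN A z : F) ^ k * P)) := by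
  obtain ⟨vs, h1, rfl⟩ := exists_prod u
  obtain ⟨h3, h4⟩ := dt_rpr A h1 (toOG_prod vs)
  obtain ⟨h5, h6⟩ := dt_rpr A (g := cjO z (vs.map (rfl' A)).prod)
    (vs := vs.map fun v => ((z : GL ι F) : Matrix ι ι F) *ᵥ v) (by
      intro w hw
      obtain ⟨v, hv, rfl⟩ := List.mem_map.mp hw
      rw [muN_spec A z]
      exact mul_ne_zero (muN A z).ne_zero (h1 v hv)) (by rw [cjO_prod, toOG_prod])
  rw [List.length_map] at h5
  rw [prodQ_map] at h6
  refine ⟨vs.length, (vs.map A.Q).prod, ?_, h3, h5, h4, h6⟩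
  rw [Ne, List.prod_eq_zero_iff]
  intro h
  obtain ⟨v, hv, h0⟩ := List.mem_map.mp h
  exact h1 v hv h0

theorem del_cjO (z : (fam A).N) (u : Cfsg.isometryGroup F ⇑A.Q) : del A (cjO z u) = del A u := by
  obtain ⟨k, P, -, h1, h2, -⟩ := chars_cjO z u
  rw [h1, h2]

theorem the_cjO_one (z : (fam A).N) {u : Cfsg.isometryGroup F ⇑A.Q} (hu : del A u = 1) :
    the A (cjO z u) = the A u := by
  obtain ⟨k, P, hP, h1, h2, h3, h4⟩ := chars_cjO z u
  rw [hu] at h1
  have hk : Even k := by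
    rcases Nat.even_or_odd k with h | h
    · exact h
    · rw [h.neg_one_pow] at h1
      exact absurd h1 (by decide)
  obtain ⟨j, rfl⟩ := hk
  apply units_eq
  rw [h3, h4, Quad.isSquare_mul_iff (pow_ne_zero _ (muN A z).ne_zero) hP]
  have h5 : IsSquare ((muN A z : F) ^ (j + j)) := ⟨(muN A z : F) ^ j, by rw [pow_add]⟩
  exact ⟨fun h => h.mp h5, fun h => ⟨fun _ => h, fun _ => h5⟩⟩

theorem the_cjO_neg (z : (fam A).N) {u : Cfsg.isometryGroup F ⇑A.Q} (hu : del A u = -1) :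
    the A (cjO z u) = the A u * sqc F (muN A z) := by
  obtain ⟨k, P, hP, h1, h2, h3, h4⟩ := chars_cjO z u
  rw [hu] at h1
  have hk : Odd k := by
    rcases Nat.even_or_odd k with h | h
    · rw [h.neg_one_pow] at h1
      exact absurd h1 (by decide)
    · exact h
  obtain ⟨j, rfl⟩ := hk
  have h0 := (muN A z).ne_zero
  have h5 : IsSquare ((muN A z : F) ^ (2 * j + 1)) ↔ IsSquare (muN A z : F) := by
    rw [pow_succ, Quad.isSquare_mul_iff (pow_ne_zero _ h0) h0]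
    have h6 : IsSquare ((muN A z : F) ^ (2 * j)) := ⟨(muN A z : F) ^ j, by rw [← pow_add, two_mul]⟩
    exact ⟨fun h => h.mp h6, fun h => ⟨fun _ => h, fun _ => h6⟩⟩
  apply units_eq
  rw [h4, Quad.isSquare_mul_iff (pow_ne_zero _ h0) hP, h5, ← sqc_eq_one, ← h3]
  rcases Int.units_eq_one_or (the A u) with h | h <;> rcases Int.units_eq_one_or (sqc F (muN A z)) with h' | h' <;>
    rw [h, h'] <;> decide

end TheConj

section Comm

variable {ι : Type} [Fintype ι] [DecidableEq ι] {F : Type*} [Field F] [Finite F] {A : OD ι F} (S : EvS A)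

/-- commuting in the automorphism group. -/
def Cm (z g : (fam A).N) : Prop := (fam A).T ((fam A).nin z) * (fam A).T ((fam A).nin g) =
  (fam A).T ((fam A).nin g) * (fam A).T ((fam A).nin z)

theorem swap_no_comm (hneg : negO A ∈ Cfsg.Omega F ⇑A.Q) {y z : (fam A).N} (hym : sqc F (muN A y) = 1) (hyE : S.E y = -1)
    (hzm : sqc F (muN A z) = -1) (h : Cm z y) : False := by
  obtain ⟨d, u, rfl⟩ := sq_mult A y hym
  rw [_root_.map_mul, S.scl, one_mul, S.iso] at hyE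
  rw [Cm, _root_.map_mul, _root_.map_mul, T_scl, one_mul, ← fO_eq, ← mul_inv_eq_iff_eq_mul, ← fO_cjO] at h
  have h1 : fO A (cjO z u * u⁻¹) ∈ Cfsg.Inn (Cfsg.POmega F ⇑A.Q) := by
    rw [_root_.map_mul, h, _root_.map_inv, mul_inv_cancel]
    exact one_mem _
  rw [fO_mem_inn hneg, mem_Om] at h1
  have h3 := h1.2
  rw [_root_.map_mul, the_cjO_neg z hyE, hzm, _root_.map_inv] at h3
  rcases Int.units_eq_one_or (the A u) with h4 | h4 <;> rw [h4] at h3 <;> exact absurd h3 (by decide)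

theorem comm_sqc (hneg : negO A ∈ Cfsg.Omega F ⇑A.Q) {g z : (fam A).N} (hg : S.E g = -1) (hz : S.E z = 1)
    (h : Cm z g) : sqc F (muN A z) = 1 := by
  rcases Int.units_eq_one_or (sqc F (muN A z)) with h1 | h1
  · exact h1
  · exfalso
    rcases Int.units_eq_one_or (sqc F (muN A g)) with h3 | h3
    · exact swap_no_comm S hneg h3 hg h1 h
    · refine swap_no_comm S hneg (y := z⁻¹ * g) (z := z) ?_ ?_ h1 ?_
      · rw [_root_.map_mul, _root_.map_mul, _root_.map_inv, _root_.map_inv, h1, h3]; rfl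
      · rw [_root_.map_mul, _root_.map_inv, hz, hg]; rfl
      · rw [Cm] at h ⊢
        rw [_root_.map_mul, _root_.map_mul, _root_.map_inv, _root_.map_inv, mul_inv_cancel_left, mul_assoc, ← h,
          inv_mul_cancel_left]

theorem mem_P {g : (fam A).N} {α : MulAut (Cfsg.POmega F ⇑A.Q)} :
    α ∈ D0 S ⊓ Subgroup.centralizer {(fam A).T ((fam A).nin g)} ↔
      ∃ z : (fam A).N, S.E z = 1 ∧ Cm z g ∧ (fam A).T ((fam A).nin z) = α := by
  rw [Subgroup.mem_inf, mem_D0]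
  constructor
  · rintro ⟨⟨z, hz, rfl⟩, h⟩
    rw [Subgroup.mem_centralizer_singleton_iff] at h
    exact ⟨z, hz, h, rfl⟩
  · rintro ⟨z, hz, h, rfl⟩
    refine ⟨⟨z, hz, rfl⟩, ?_⟩
    rw [Subgroup.mem_centralizer_singleton_iff]
    exact h

/-- the class of an involutory graph automorphism, when `-1 ∈ Ω`. -/
theorem count_two (h2 : (2 : F) ≠ 0) (hneg : negO A ∈ Cfsg.Omega F ⇑A.Q) {g : (fam A).N} (hg : S.E g = -1)
    {w : Cfsg.isometryGroup F ⇑A.Q} (hw : del A w = 1) (hw2 : the A w = -1) (hwg : Cm ⟨w, iso_le_N A w.2⟩ g) :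
    Cfsg.splitClassCount (D0 S) (Cfsg.Inn (Cfsg.POmega F ⇑A.Q)) ((fam A).T ((fam A).nin g)) = 2 := by
  have hI := relIndex_inn_D0 S h2
  rw [if_pos hneg] at hI
  rw [Split.splitClassCount_eq _ _ inferInstance (inn_le_D0 S)]
  set P := Cfsg.Inn (Cfsg.POmega F ⇑A.Q) ⊔ (D0 S ⊓ Subgroup.centralizer {(fam A).T ((fam A).nin g)}) with hP
  have hPD : P ≤ D0 S := sup_le (inn_le_D0 S) inf_le_left
  have h3 := Subgroup.relIndex_mul_relIndex (Cfsg.Inn (Cfsg.POmega F ⇑A.Q)) P (D0 S) le_sup_left hPD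
  rw [hI] at h3
  have h4 : (Cfsg.Inn (Cfsg.POmega F ⇑A.Q)).relIndex P ≠ 1 := by
    intro h5
    rw [Subgroup.relIndex_eq_one] at h5
    have h6 : fO A w ∈ Cfsg.Inn (Cfsg.POmega F ⇑A.Q) := by
      apply h5
      refine Subgroup.mem_sup_right ((mem_P S).mpr ⟨_, ?_, hwg, rfl⟩)
      rw [S.iso, hw]
    rw [fO_mem_inn hneg, mem_Om, hw2] at h6
    exact absurd h6.2 (by decide)
  have h5 : P.relIndex (D0 S) ≠ 1 := by
    intro h5
    rw [Subgroup.relIndex_eq_one] at h5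
    obtain ⟨g₀, hg₀, hgE⟩ := exists_EN S h2 (-1) 1
    obtain ⟨k, hk, c, hc', e1⟩ := Subgroup.mem_sup_of_normal_left.mp (h5 (T_mem_D0.mpr hgE))
    obtain ⟨z, hz, hzc, rfl⟩ := (mem_P S).mp hc'
    obtain ⟨u, hu, rfl⟩ := inn_fO A k hk
    rw [fO_eq, ← _root_.map_mul, ← _root_.map_mul] at e1
    have h6 := sqc_T e1
    have h7 : muN A ⟨u, iso_le_N A u.2⟩ = 1 := (muN_ker A _).mpr u.2
    rw [_root_.map_mul, _root_.map_mul, h7, _root_.map_one, one_mul, comm_sqc S hneg hg hz hzc, hg₀] at h6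
    exact absurd h6 (by decide)
  have h6 : P.relIndex (D0 S) ∣ 4 := ⟨_, by rw [← h3, mul_comm]⟩
  have h7 : P.relIndex (D0 S) ≤ 4 := Nat.le_of_dvd (by norm_num) h6
  have h8 : P.relIndex (D0 S) ≠ 4 := by
    intro h8
    rw [h8] at h3
    apply h4
    omega
  have h9 : P.relIndex (D0 S) ≠ 3 := by
    intro h9
    rw [h9] at h6
    norm_num at h6
  have h10 : P.relIndex (D0 S) ≠ 0 := by
    intro h10
    rw [h10, mul_zero] at h3
    norm_num at h3
  omega

theorem count_one_two (h2 : (2 : F) ≠ 0) (hneg : negO A ∉ Cfsg.Omega F ⇑A.Q) (x : MulAut (Cfsg.POmega F ⇑A.Q)) :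
    Cfsg.splitClassCount (D0 S) (Cfsg.Inn (Cfsg.POmega F ⇑A.Q)) x = 1 ∨
      Cfsg.splitClassCount (D0 S) (Cfsg.Inn (Cfsg.POmega F ⇑A.Q)) x = 2 := by
  have hI := relIndex_inn_D0 S h2
  rw [if_neg hneg] at hI
  rw [Split.splitClassCount_eq _ _ inferInstance (inn_le_D0 S)]
  have h3 := Subgroup.relIndex_mul_relIndex (Cfsg.Inn (Cfsg.POmega F ⇑A.Q))
    (Cfsg.Inn (Cfsg.POmega F ⇑A.Q) ⊔ (D0 S ⊓ Subgroup.centralizer {x})) (D0 S) le_sup_left
    (sup_le (inn_le_D0 S) inf_le_left)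
  rw [hI] at h3
  exact (Nat.dvd_prime Nat.prime_two).mp ⟨_, by rw [← h3, mul_comm]⟩

theorem count_two' (h2 : (2 : F) ≠ 0) (hneg : negO A ∉ Cfsg.Omega F ⇑A.Q) {g : (fam A).N}
    (H : ∀ z : (fam A).N, S.E z = 1 → Cm z g → sqc F (muN A z) = 1) :
    Cfsg.splitClassCount (D0 S) (Cfsg.Inn (Cfsg.POmega F ⇑A.Q)) ((fam A).T ((fam A).nin g)) = 2 := by
  have hI := relIndex_inn_D0 S h2
  rw [if_neg hneg] at hI
  rw [Split.splitClassCount_eq _ _ inferInstance (inn_le_D0 S)]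
  have h3 : Cfsg.Inn (Cfsg.POmega F ⇑A.Q) ⊔ (D0 S ⊓ Subgroup.centralizer {(fam A).T ((fam A).nin g)}) =
      Cfsg.Inn (Cfsg.POmega F ⇑A.Q) := by
    rw [sup_eq_left]
    intro α hα
    obtain ⟨z, hz, hzc, rfl⟩ := (mem_P S).mp hα
    obtain ⟨d, u, rfl⟩ := sq_mult A z (H z hz hzc)
    rw [_root_.map_mul, S.scl, one_mul, S.iso] at hz
    rw [_root_.map_mul, _root_.map_mul, T_scl, one_mul, ← fO_eq]
    exact so_inn A S.even (Or.inr hneg) hz
  rw [h3, hI]

end Comm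

end Cfsg.Agent.H16.Par
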