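import Cfsg.Agent.H16_ParK

set_option autoImplicit false

/-! Involutory graph automorphisms: commuting rotations. -/

namespace Cfsg.Agent.H16.Par

open Matrix Cfsg.Agent.H16.Ps Module Cfsg.Agent.H16.Gam Cfsg.Agent.H16.AutL Cfsg.Agent.H16.AutG Cfsg.Agent.H16.Desc
open QuadraticMap (polar)
open Cfsg.Agent.H16 Cfsg.Agent.H16.POm

section AbsQ

variable {F V : Type*} [Field F] [Finite F] [AddCommGroup V] [Module F V] [FiniteDimensional F V] {Q : QuadraticForm F V}

/-- an orthogonal pair for a similarity with scalar square. -/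
theorem exists_orth (hQ : (QuadraticMap.polarBilin Q).Nondegenerate) (h2 : (2 : F) ≠ 0) (h3 : 3 ≤ finrank F V)
    {g : V →ₗ[F] V} {μ : F} (hμ : ¬ IsSquare μ) (hg : ∀ x, Q (g x) = μ * Q x) (hgg : ∀ x, g (g x) = μ • x) :
    ∃ v, Q v ≠ 0 ∧ polar Q v (g v) = 0 := by
  have hμ0 : μ ≠ 0 := by rintro rfl; exact hμ IsSquare.zero
  have hp : ∀ x y, polar Q (g x) (g y) = μ * polar Q x y := by
    intro x y
    rw [polar, polar, ← map_add, hg, hg, hg]
    ring
  have hsa : ∀ x y, polar Q (g x) y = polar Q x (g y) := by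
    intro x y
    have h1 := hp (g x) y
    rw [hgg, Quad.polar_smul_left] at h1
    exact (mul_left_cancel₀ hμ0 h1).symm
  let B' : LinearMap.BilinMap F V F := (QuadraticMap.polarBilin Q).compl₂ g
  let Q' : QuadraticForm F V := LinearMap.BilinMap.toQuadraticMap B'
  have hB : ∀ x y, B' x y = polar Q x (g y) := fun x y => rfl
  have hQ'a : ∀ x, Q' x = polar Q x (g x) := fun x => rfl
  have hQ'p : ∀ x y, polar Q' x y = 2 * polar Q x (g y) := by
    intro x y
    rw [polar, hQ'a, hQ'a, hQ'a, map_add, QuadraticMap.polar_add_left, QuadraticMap.polar_add_right,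
      QuadraticMap.polar_add_right, Quad.polar_symm Q y (g x), hsa x y]
    ring
  have hQ' : (QuadraticMap.polarBilin Q').Nondegenerate := by
    apply Quad.nd_of
    intro x hx
    apply Quad.nd_eq_zero hQ
    intro y
    have h1 := hx (μ⁻¹ • g y)
    rw [hQ'p, map_smul, hgg, smul_smul, inv_mul_cancel₀ hμ0, one_smul] at h1
    exact (mul_eq_zero.mp h1).resolve_left h2
  obtain ⟨v₀, hv₀, hv⟩ := Quad.exists_singular hQ' h3
  rw [hQ'a] at hv
  by_cases h0 : Q v₀ = 0
  · obtain ⟨w₁, hw₁⟩ := Quad.nd_exists_one hQ hv₀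
    set t := polar Q (g v₀) w₁ with ht
    have hd : μ - t ^ 2 ≠ 0 := by
      intro h
      exact hμ ⟨t, by linear_combination h⟩
    have e1 : polar Q v₀ (g w₁) = t := (hsa v₀ w₁).symm
    have e2 : polar Q (g v₀) (g w₁) = μ := by rw [hp, hw₁, mul_one]
    obtain ⟨w, hw⟩ : ∃ w, w = (μ / (μ - t ^ 2)) • w₁ + (-t / (μ - t ^ 2)) • g w₁ := ⟨_, rfl⟩
    have e3 : polar Q v₀ w = 1 := by
      rw [hw, QuadraticMap.polar_add_right, Quad.polar_smul_right, Quad.polar_smul_right, hw₁, e1]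
      field_simp
      ring
    have e4 : polar Q (g v₀) w = 0 := by
      rw [hw, QuadraticMap.polar_add_right, Quad.polar_smul_right, Quad.polar_smul_right, ← ht, e2]
      field_simp
      ring
    have e5 : polar Q v₀ (g w) = 0 := by rw [← hsa, e4]
    have e6 : polar Q (g v₀) (g w) = μ := by rw [hp, e3, mul_one]
    have e7 : Q (g v₀) = 0 := by rw [hg, h0, mul_zero]
    have e8 : polar Q v₀ v₀ = 0 := by rw [Quad.polar_self, h0, mul_zero]
    have e9 : polar Q (g v₀) (g v₀) = 0 := by rw [Quad.polar_self, e7, mul_zero]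
    refine ⟨w + (1 - Q w) • v₀ + (- polar Q w (g w) / (2 * μ)) • g v₀, ?_, ?_⟩
    · have : Q (w + (1 - Q w) • v₀ + (- polar Q w (g w) / (2 * μ)) • g v₀) = 1 := by
        rw [Quad.map_add, Quad.map_add, Quad.map_smul, Quad.map_smul, h0, e7, QuadraticMap.polar_add_left,
          Quad.polar_smul_right, Quad.polar_smul_right, Quad.polar_smul_right, Quad.polar_smul_left,
          Quad.polar_symm Q w v₀, e3, Quad.polar_symm Q w (g v₀), e4, hv]
        ring
      rw [this]
      exact one_ne_zero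
    · simp only [map_add, map_smul, hgg, QuadraticMap.polar_add_left, QuadraticMap.polar_add_right,
        Quad.polar_smul_right, Quad.polar_smul_left]
      rw [Quad.polar_symm Q w (g v₀), e4, Quad.polar_symm Q w v₀, e3, e5, e6, hv, Quad.polar_symm Q (g v₀) v₀, hv,
        e8, e9]
      field_simp
      ring
  · exact ⟨v₀, h0, hv⟩

theorem exists_orth' (hQ : (QuadraticMap.polarBilin Q).Nondegenerate) (h2 : (2 : F) ≠ 0) (h3 : 3 ≤ finrank F V)
    {g : V →ₗ[F] V} {μ c : F} (hμ : ¬ IsSquare μ) (hg : ∀ x, Q (g x) = μ * Q x) (hgg : ∀ x, g (g x) = c • x) :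
    ∃ v, Q v ≠ 0 ∧ polar Q v (g v) = 0 := by
  have hμ0 : μ ≠ 0 := by rintro rfl; exact hμ IsSquare.zero
  obtain ⟨v, hv⟩ := Quad.exists_nonsing hQ (by omega)
  have h1 : c * c = μ * μ := by
    have h4 := hg (g v)
    rw [hgg, Quad.map_smul, hg] at h4
    refine mul_right_cancel₀ hv ?_
    linear_combination h4
  rcases mul_self_eq_mul_self_iff.mp h1 with rfl | rfl
  · exact exists_orth hQ h2 h3 hμ hg hgg
  · refine ⟨v, hv, ?_⟩
    have h4 : polar Q (g (g v)) (g v) = μ * polar Q (g v) v := by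
      rw [polar, polar, ← map_add, hg, hg, hg]
      ring
    rw [hgg, Quad.polar_smul_left, Quad.polar_symm Q (g v) v] at h4
    have h5 : 2 * μ * polar Q v (g v) = 0 := by linear_combination -h4
    exact (mul_eq_zero.mp h5).resolve_left (mul_ne_zero h2 hμ0)

/-- eigenvectors of an involution. -/
theorem exists_eig (hQ : (QuadraticMap.polarBilin Q).Nondegenerate) (h2 : (2 : F) ≠ 0) (h4 : 4 ≤ finrank F V)
    {u : V →ₗ[F] V} (hu : ∀ x, Q (u x) = Q x) (huu : ∀ x, u (u x) = x) :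
    ∃ v w, Q v ≠ 0 ∧ IsSquare (Q v) ∧ Q w ≠ 0 ∧ ¬ IsSquare (Q w) ∧ (u v = v ∨ u v = -v) ∧ (u w = w ∨ u w = -w) := by
  have hp : ∀ x y, polar Q (u x) (u y) = polar Q x y := by
    intro x y
    rw [polar, polar, ← map_add, hu, hu, hu]
  let P : Submodule F V := LinearMap.ker (u - LinearMap.id)
  have hP : ∀ x, x ∈ P ↔ u x = x := by
    intro x
    rw [LinearMap.mem_ker, LinearMap.sub_apply, sub_eq_zero]
    rfl
  have hd : Disjoint P (Quad.perp Q P) := by
    rw [Submodule.disjoint_def]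
    intro x hx hx'
    apply Quad.nd_eq_zero hQ
    intro y
    have h5 : polar Q x (y + u y) = 0 := by
      rw [Quad.mem_perp'] at hx'
      apply hx'
      rw [hP, map_add, huu, add_comm]
    rw [hP] at hx
    have h6 : polar Q x (y - u y) = 0 := by
      have h7 := hp x (y - u y)
      rw [hx, map_sub, huu, ← neg_sub, QuadraticMap.polar_neg_right] at h7
      have h8 : 2 * polar Q x (y - u y) = 0 := by linear_combination -h7
      exact (mul_eq_zero.mp h8).resolve_left h2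
    rw [QuadraticMap.polar_add_right] at h5
    rw [QuadraticMap.polar_sub_right] at h6
    have h9 : 2 * polar Q x y = 0 := by linear_combination h5 + h6
    exact (mul_eq_zero.mp h9).resolve_left h2
  have hm : ∀ x ∈ Quad.perp Q P, u x = -x := by
    intro x hx
    have h5 : x + u x = 0 := by
      refine Submodule.disjoint_def.mp hd _ ?_ ?_
      · rw [hP, map_add, huu, add_comm]
      · rw [Quad.mem_perp] at hx ⊢
        intro y hy
        rw [QuadraticMap.polar_add_right, hx y hy, zero_add]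
        have h6 := hp y x
        rw [(hP y).mp hy] at h6
        rw [h6, hx y hy]
    rw [eq_neg_iff_add_eq_zero, add_comm]
    exact h5
  have h5 := Quad.finrank_add_finrank_perp hQ P
  rcases (by omega : 2 ≤ finrank F P ∨ 2 ≤ finrank F (Quad.perp Q P)) with h6 | h6
  · obtain ⟨⟨v, hv, hv2⟩, w, hw, hw2⟩ := Quad.exists_both (Quad.nd_restrict hd) h2 h6
    exact ⟨v, w, hv, hv2, hw, hw2, Or.inl ((hP _).mp v.2), Or.inl ((hP _).mp w.2)⟩
  · obtain ⟨⟨v, hv, hv2⟩, w, hw, hw2⟩ := Quad.exists_both (Quad.nd_perp hQ hd) h2 h6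
    exact ⟨v, w, hv, hv2, hw, hw2, Or.inr (hm _ v.2), Or.inr (hm _ w.2)⟩

end AbsQ

section Exist

variable {ι : Type} [Fintype ι] [DecidableEq ι] {F : Type*} [Field F] [Finite F] {A : OD ι F} (S : EvS A)

theorem rfl'_smul {t : F} (ht : t ≠ 0) (v : ι → F) : rfl' A (t • v) = rfl' A v := by
  apply Subtype.ext
  apply PSp.gl_ext
  intro x
  rw [rfl'_mulVec, rfl'_mulVec, Quad.refl_apply, Quad.refl_apply, Quad.polar_smul_right, Quad.map_smul, smul_smul]
  congr 2
  by_cases h : A.Q v = 0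
  · rw [h, mul_zero, _root_.inv_zero, zero_mul, zero_mul, zero_mul]
  · field_simp

theorem rfl'_comm {v w : ι → F} (h : polar A.Q v w = 0) : rfl' A v * rfl' A w = rfl' A w * rfl' A v := by
  have h1 := cjO_rfl ⟨rfl' A v, iso_le_N A (rfl' A v).2⟩ w
  have h3 : (((rfl' A v : Cfsg.isometryGroup F ⇑A.Q) : GL ι F) : Matrix ι ι F) *ᵥ w = w := by
    rw [rfl'_mulVec, Quad.refl_apply, Quad.polar_symm, h, mul_zero, zero_smul, sub_zero]
  have h4 : cjO ⟨rfl' A v, iso_le_N A (rfl' A v).2⟩ (rfl' A w) = rfl' A v * rfl' A w * (rfl' A v)⁻¹ := rfl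
  rw [h4] at h1
  rw [← mul_inv_eq_iff_eq_mul, h1]
  congr 1

theorem cm_of {g : (fam A).N} {w : Cfsg.isometryGroup F ⇑A.Q} (h : cjO g w = w) : Cm ⟨w, iso_le_N A w.2⟩ g := by
  have h1 := fO_cjO g w
  rw [h, eq_mul_inv_iff_mul_eq] at h1
  exact h1

theorem mulVec_sq {g : (fam A).N} {c : Fˣ} (hc : (g : GL ι F) * g = scl ι c) (v : ι → F) :
    ((g : GL ι F) : Matrix ι ι F) *ᵥ (((g : GL ι F) : Matrix ι ι F) *ᵥ v) = (c : F) • v := by
  rw [← PSp.coe_mul_mulVec, hc, PSp.scl_mulVec]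

/-- commuting rotations. -/
theorem exists_commuting (h2 : (2 : F) ≠ 0) {g : (fam A).N} (hg : S.E g = -1) {c : Fˣ}
    (hc : (g : GL ι F) * g = scl ι c) :
    ∃ w : Cfsg.isometryGroup F ⇑A.Q, del A w = 1 ∧ the A w = -1 ∧ Cm ⟨w, iso_le_N A w.2⟩ g := by
  have h7 := A.h7
  rcases Int.units_eq_one_or (sqc F (muN A g)) with h1 | h1
  · obtain ⟨d, u, rfl⟩ := sq_mult A g h1
    have hdu : del A u = -1 := by rwa [_root_.map_mul, S.scl, one_mul, S.iso] at hg
    have hcc : (u : GL ι F) * u = scl ι (d⁻¹ * d⁻¹ * c) := by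
      have h3 : (scl ι d * (u : GL ι F)) * (scl ι d * (u : GL ι F)) = scl ι c := hc
      have h5 : (u : GL ι F) * scl ι d = scl ι d * (u : GL ι F) := by rw [sc_comm]
      rw [_root_.map_mul, ← h3, _root_.map_mul, _root_.map_inv]
      simp only [mul_assoc]
      rw [← mul_assoc (u : GL ι F) (scl ι d), h5, mul_assoc, inv_mul_cancel_left, inv_mul_cancel_left]
    set e := d⁻¹ * d⁻¹ * c with he
    have hue : ∀ x, ((u : GL ι F) : Matrix ι ι F) *ᵥ (((u : GL ι F) : Matrix ι ι F) *ᵥ x) = (e : F) • x := by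
      intro x
      rw [← PSp.coe_mul_mulVec, hcc, PSp.scl_mulVec]
    -- a fixed vector
    have hfix : ∃ v : ι → F, v ≠ 0 ∧ ((u : GL ι F) : Matrix ι ι F) *ᵥ v = v := by
      have h3 := del_fix A u
      rw [hdu, Module.finrank_fintype_fun_eq_card] at h3
      have h4 : finrank F (Quad.fixS (Quad.toOG A.Q u).1) ≠ 0 := by
        intro h4
        rw [h4, add_zero, S.even.neg_one_pow] at h3
        exact absurd h3 (by decide)
      obtain ⟨v, hv, hv0⟩ := Quad.exists_mem_ne_zero (W := Quad.fixS (Quad.toOG A.Q u).1) (by omega)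
      exact ⟨v, hv0, by rw [← Quad.toOG_apply]; exact Quad.mem_fixS.mp hv⟩
    have he1 : (e : F) = 1 := by
      obtain ⟨v, hv, hv2⟩ := hfix
      have h3 := hue v
      rw [hv2, hv2] at h3
      obtain ⟨i, hi⟩ := Function.ne_iff.mp hv
      have h4 := congrFun h3 i
      rw [Pi.smul_apply, smul_eq_mul] at h4
      exact mul_right_cancel₀ hi (by rw [← h4, one_mul])
    obtain ⟨v, w, hv, hv2, hw, hw2, hve, hwe⟩ := exists_eig A.nd h2 (by rw [Module.finrank_fintype_fun_eq_card]; omega)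
      (u := Matrix.mulVecLin ((u : GL ι F) : Matrix ι ι F)) (Quad.mem_isometryGroup.mp u.2) (fun x => by
        have h3 := hue x
        rw [he1, one_smul] at h3
        exact h3)
    have key : ∀ x : ι → F, (Matrix.mulVecLin ((u : GL ι F) : Matrix ι ι F) x = x ∨
        Matrix.mulVecLin ((u : GL ι F) : Matrix ι ι F) x = -x) →
        cjO (⟨scl ι d, (fam A).sc d⟩ * ⟨u, iso_le_N A u.2⟩) (rfl' A x) = rfl' A x := by
      intro x hx
      rw [cjO_rfl]
      have h3 : ((((⟨scl ι d, (fam A).sc d⟩ * ⟨u, iso_le_N A u.2⟩ : (fam A).N) : GL ι F)) : Matrix ι ι F) *ᵥ x =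
          (d : F) • (((u : GL ι F) : Matrix ι ι F) *ᵥ x) := by
        rw [Subgroup.coe_mul, PSp.coe_mul_mulVec, PSp.scl_mulVec]
      rw [h3]
      rcases hx with hx | hx
      · have h4 : ((u : GL ι F) : Matrix ι ι F) *ᵥ x = x := hx
        rw [h4, rfl'_smul d.ne_zero]
      · have h4 : ((u : GL ι F) : Matrix ι ι F) *ᵥ x = -x := hx
        rw [h4, ← neg_one_smul F x, rfl'_smul d.ne_zero, rfl'_smul (neg_ne_zero.mpr one_ne_zero)]
    refine ⟨rfl' A v * rfl' A w, by rw [_root_.map_mul, del_rfl' hv, del_rfl' hw]; rfl, ?_, cm_of ?_⟩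
    · rw [_root_.map_mul, (the_rfl' hv).mpr hv2, one_mul]
      rcases Int.units_eq_one_or (the A (rfl' A w)) with h | h
      · exact absurd ((the_rfl' hw).mp h) hw2
      · exact h
    · rw [_root_.map_mul, key v hve, key w hwe]
  · have hns : ¬ IsSquare (muN A g : F) := by
      intro h
      rw [sqc_eq_one.mpr h] at h1
      exact absurd h1 (by decide)
    obtain ⟨v, hv, hvo⟩ := exists_orth' A.nd h2 (by rw [Module.finrank_fintype_fun_eq_card]; omega)
      (g := Matrix.mulVecLin ((g : GL ι F) : Matrix ι ι F)) hns (muN_spec A g) (mulVec_sq hc)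
    set gv := ((g : GL ι F) : Matrix ι ι F) *ᵥ v with hgv
    have hvo' : polar A.Q v gv = 0 := hvo
    have hgv0 : A.Q gv ≠ 0 := by
      rw [hgv, muN_spec A g]
      exact mul_ne_zero (muN A g).ne_zero hv
    refine ⟨rfl' A v * rfl' A gv, by rw [_root_.map_mul, del_rfl' hv, del_rfl' hgv0]; rfl, ?_, cm_of ?_⟩
    · rw [_root_.map_mul, hgv, ← cjO_rfl, the_cjO_neg g (del_rfl' hv), h1]
      rcases Int.units_eq_one_or (the A (rfl' A v)) with h | h <;> rw [h] <;> rfl
    · rw [_root_.map_mul, cjO_rfl, cjO_rfl, ← hgv, hgv, mulVec_sq hc, rfl'_smul c.ne_zero, ← hgv, ← rfl'_comm hvo']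

end Exist

end Cfsg.Agent.H16.Par
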