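import Cfsg.Agent.H16_ParL

set_option autoImplicit false

/-! Involutory graph automorphisms: the final counts. -/

namespace Cfsg.Agent.H16.Par

open Matrix Cfsg.Agent.H16.Ps Module Cfsg.Agent.H16.Gam Cfsg.Agent.H16.AutL Cfsg.Agent.H16.AutG Cfsg.Agent.H16.Desc
open QuadraticMap (polar)
open Cfsg.Agent.H16 Cfsg.Agent.H16.POm

section DetNs

universe u v

/-- the determinant of a map with nonsquare scalar square. -/
theorem det_sq_ns {F : Type u} [Field F] {c : F} (hc : ¬ IsSquare c) (k : ℕ) : ∀ {V : Type v} [AddCommGroup V] [Module F V]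
    [FiniteDimensional F V] (g : V →ₗ[F] V), (∀ x, g (g x) = c • x) → finrank F V = k →
    ∃ n, k = 2 * n ∧ LinearMap.det g = (-c) ^ n := by
  induction k using Nat.strong_induction_on with
  | _ k ih =>
    intro V _ _ _ g hg hk
    rcases Nat.eq_zero_or_pos k with h0 | h0
    · refine ⟨0, by omega, ?_⟩
      rw [pow_zero]
      exact LinearMap.det_eq_one_of_finrank_eq_zero (hk.trans h0) g
    · have : Nontrivial V := Module.nontrivial_of_finrank_pos (R := F) (by omega)
      obtain ⟨v, hv⟩ := exists_ne (0 : V)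
      have hli : LinearIndependent F ![v, g v] := by
        rw [LinearIndependent.pair_iff]
        intro s t h
        have ht : t = 0 := by
          by_contra ht
          have h1 : g v = (-s / t) • v := by
            have h3 : t • g v = -(s • v) := by rw [eq_neg_iff_add_eq_zero, add_comm]; exact h
            calc g v = t⁻¹ • (t • g v) := by rw [smul_smul, inv_mul_cancel₀ ht, one_smul]
              _ = _ := by rw [h3, smul_neg, smul_smul, ← neg_smul]; congr 1; ring
          apply hc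
          refine ⟨-s / t, ?_⟩
          have h3 := hg v
          rw [h1, map_smul, h1, smul_smul] at h3
          have h4 : ((-s / t) * (-s / t) - c) • v = 0 := by rw [sub_smul, h3, sub_self]
          rcases smul_eq_zero.mp h4 with h5 | h5
          · exact (sub_eq_zero.mp h5).symm
          · exact absurd h5 hv
        refine ⟨?_, ht⟩
        rw [ht, zero_smul, add_zero] at h
        exact (smul_eq_zero.mp h).resolve_right hv
      set W := Submodule.span F (Set.range ![v, g v]) with hW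
      let b : Basis (Fin 2) F W := Basis.span hli
      have hb0 : ((b 0 : W) : V) = v := congrArg Subtype.val (Basis.span_apply hli 0)
      have hb1 : ((b 1 : W) : V) = g v := congrArg Subtype.val (Basis.span_apply hli 1)
      have hfW : finrank F W = 2 := by rw [finrank_eq_card_basis b, Fintype.card_fin]
      have he : W ≤ W.comap g := by
        rw [hW, Submodule.span_le]
        rintro _ ⟨i, rfl⟩
        fin_cases i
        · exact Submodule.subset_span ⟨1, rfl⟩
        · change g (g v) ∈ Submodule.span F (Set.range ![v, g v])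
          rw [hg]
          exact Submodule.smul_mem _ _ (Submodule.subset_span ⟨0, rfl⟩)
      have h1 : LinearMap.det (g.restrict he) = -c := by
        rw [← LinearMap.det_toMatrix b, Matrix.det_fin_two]
        have e0 : (g.restrict he) (b 0) = b 1 := Subtype.ext (by
          change g (b 0 : V) = _
          rw [hb0, hb1])
        have e1 : (g.restrict he) (b 1) = c • b 0 := Subtype.ext (by
          change g (b 1 : V) = c • (b 0 : V)
          rw [hb0, hb1, hg])
        simp only [LinearMap.toMatrix_apply, e0, e1, map_smul, Basis.repr_self]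
        simp
      have hq := Submodule.finrank_quotient_add_finrank W
      obtain ⟨n, hn, hdet⟩ := ih (k - 2) (by omega) (V := V ⧸ W) (W.mapQ W g he) (by
        intro x
        obtain ⟨x, rfl⟩ := Submodule.Quotient.mk_surjective W x
        rw [Submodule.mapQ_apply, Submodule.mapQ_apply, hg]
        rfl) (by omega)
      refine ⟨n + 1, by omega, ?_⟩
      rw [LinearMap.det_eq_det_mul_det W g he, h1, hdet, pow_succ]
      ring

theorem odd_mult {F : Type u} {V : Type v} [Field F] [AddCommGroup V] [Module F V] [FiniteDimensional F V]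
    {Q : QuadraticForm F V} (hQ : (QuadraticMap.polarBilin Q).Nondegenerate) (hodd : Odd (finrank F V)) (L : V ≃ₗ[F] V)
    {c : F} (hc : c ≠ 0) (hL : ∀ v, Q (L v) = c * Q v) : IsSquare c := by
  let b := Module.finBasis F V
  obtain ⟨d, hd, h1⟩ := Quad.det_gram_basis Q (b.map L) b
  have h3 : Quad.gram Q (b.map L) = c • Quad.gram Q b := by
    ext i j
    simp only [Quad.gram, Matrix.of_apply, Basis.map_apply, Matrix.smul_apply, smul_eq_mul]
    rw [polar, polar, ← map_add, hL, hL, hL]
    ring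
  rw [h3, Matrix.det_smul] at h1
  have hne := Quad.det_gram_ne_zero hQ b
  have h4 : c ^ Fintype.card (Fin (finrank F V)) = d * d := mul_right_cancel₀ hne h1
  rw [Fintype.card_fin] at h4
  obtain ⟨k, hk⟩ := hodd
  refine ⟨d / c ^ k, ?_⟩
  have hck : c ^ k ≠ 0 := pow_ne_zero _ hc
  rw [div_mul_div_comm, eq_div_iff (mul_ne_zero hck hck), ← h4, hk, pow_succ, pow_mul]
  ring

end DetNs

section Inv

variable {F V : Type*} [Field F] [Finite F] [AddCommGroup V] [Module F V] [FiniteDimensional F V] {Q : QuadraticForm F V}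

/-- similarities commuting projectively with an involution. -/
theorem inv_comm_sq (hQ : (QuadraticMap.polarBilin Q).Nondegenerate) (h2 : (2 : F) ≠ 0) {k : ℕ}
    (hk : finrank F V = 2 * (2 * k)) {u : V →ₗ[F] V} (hu : ∀ x, Q (u x) = Q x) (huu : ∀ x, u (u x) = x)
    (hodd : Odd (finrank F (LinearMap.ker (u - LinearMap.id)))) {z : V ≃ₗ[F] V} {μ : F} (hμ : μ ≠ 0)
    (hz : ∀ x, Q (z x) = μ * Q x) {e : F} (hzu : ∀ x, z (u x) = e • u (z x)) : IsSquare μ := by
  have hp : ∀ x y, polar Q (u x) (u y) = polar Q x y := by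
    intro x y
    rw [polar, polar, ← map_add, hu, hu, hu]
  set P : Submodule F V := LinearMap.ker (u - LinearMap.id) with hPdef
  have hP : ∀ x, x ∈ P ↔ u x = x := by
    intro x
    rw [hPdef, LinearMap.mem_ker, LinearMap.sub_apply, sub_eq_zero]
    rfl
  have hd : Disjoint P (Quad.perp Q P) := by
    rw [Submodule.disjoint_def]
    intro x hx hx'
    apply Quad.nd_eq_zero hQ
    intro y
    have h5 : polar Q x (y + u y) = 0 := by
      rw [Quad.mem_perp'] at hx'
      apply hx'
      rw [hP, map_add, huu, add_comm]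
    rw [hP] at hx
    have h6 : polar Q x (y - u y) = 0 := by
      have h7 := hp x (y - u y)
      rw [hx, map_sub, huu, ← neg_sub, QuadraticMap.polar_neg_right] at h7
      have h8 : 2 * polar Q x (y - u y) = 0 := by linear_combination -h7
      exact (mul_eq_zero.mp h8).resolve_left h2
    rw [QuadraticMap.polar_add_right] at h5
    rw [QuadraticMap.polar_sub_right] at h6
    have h9 : 2 * polar Q x y = 0 := by linear_combination h5 + h6
    exact (mul_eq_zero.mp h9).resolve_left h2
  have hm : ∀ x, x ∈ Quad.perp Q P ↔ u x = -x := by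
    intro x
    constructor
    · intro hx
      have h5 : x + u x = 0 := by
        refine Submodule.disjoint_def.mp hd _ ?_ ?_
        · rw [hP, map_add, huu, add_comm]
        · rw [Quad.mem_perp] at hx ⊢
          intro y hy
          rw [QuadraticMap.polar_add_right, hx y hy, zero_add]
          have h6 := hp y x
          rw [(hP y).mp hy] at h6
          rw [h6, hx y hy]
      rw [eq_neg_iff_add_eq_zero, add_comm]
      exact h5
    · intro hx
      rw [Quad.mem_perp]
      intro y hy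
      have h6 := hp y x
      rw [(hP y).mp hy, hx, QuadraticMap.polar_neg_right] at h6
      have h8 : 2 * polar Q y x = 0 := by linear_combination -h6
      exact (mul_eq_zero.mp h8).resolve_left h2
  have hfin := Quad.finrank_add_finrank_perp hQ P
  have hpos : 0 < finrank F P := hodd.pos
  -- e = ± 1
  have he : e = 1 ∨ e = -1 := by
    have : Nontrivial P := Module.nontrivial_of_finrank_pos (R := F) hpos
    obtain ⟨⟨x, hx⟩, hx0⟩ := exists_ne (0 : P)
    have hx1 : x ≠ 0 := fun h => hx0 (Subtype.ext h)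
    have hzx : z x ≠ 0 := fun h => hx1 (by simpa using h)
    have h1 := hzu x
    rw [(hP x).mp hx] at h1
    have h3 := congrArg u h1
    rw [map_smul, huu] at h3
    rw [h3, smul_smul] at h1
    have h4 : (e * e - 1) • z x = 0 := by rw [sub_smul, one_smul, ← h1, sub_self]
    rcases smul_eq_zero.mp h4 with h5 | h5
    · exact mul_self_eq_one_iff.mp (sub_eq_zero.mp h5)
    · exact absurd h5 hzx
  rcases he with rfl | rfl
  · -- z preserves P
    have hzP : ∀ x ∈ P, z x ∈ P := by
      intro x hx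
      have h1 := hzu x
      rw [(hP x).mp hx, one_smul] at h1
      exact (hP _).mpr h1.symm
    let L : P ≃ₗ[F] P := LinearEquiv.ofInjectiveEndo ((z : V →ₗ[F] V).restrict hzP) (by
      intro x y h
      exact Subtype.ext (z.injective (congrArg Subtype.val h)))
    exact odd_mult (Quad.nd_restrict hd) hodd L hμ (fun v => hz v)
  · exfalso
    have h1 : P.map (z : V →ₗ[F] V) ≤ Quad.perp Q P := by
      rintro _ ⟨x, hx, rfl⟩
      rw [hm]
      have h1 := hzu x
      rw [(hP x).mp hx, neg_smul, one_smul] at h1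
      change u (z x) = -(z x)
      rw [eq_neg_iff_add_eq_zero, add_comm]
      exact eq_neg_iff_add_eq_zero.mp h1
    have h3 : (Quad.perp Q P).map (z : V →ₗ[F] V) ≤ P := by
      rintro _ ⟨x, hx, rfl⟩
      rw [hP]
      have h1 := hzu x
      rw [(hm x).mp hx, map_neg, neg_smul, one_smul, neg_inj] at h1
      exact h1.symm
    have h4 := Submodule.finrank_mono h1
    have h5 := Submodule.finrank_mono h3
    rw [LinearEquiv.finrank_map_eq] at h4 h5
    obtain ⟨j, hj⟩ := hodd
    omega

end Inv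

section MinusFin

variable {ι : Type} [Fintype ι] [DecidableEq ι] {F : Type*} [Field F] [Finite F] {A : OD ι F} (S : EvS A)

theorem odd_fix {u : Cfsg.isometryGroup F ⇑A.Q} (hev : Even (Fintype.card ι)) (hdu : del A u = -1) :
    Odd (finrank F (Quad.fixS (Quad.toOG A.Q u).1)) := by
  have h3 := del_fix A u
  rw [hdu, Module.finrank_fintype_fun_eq_card] at h3
  rcases Nat.even_or_odd (finrank F (Quad.fixS (Quad.toOG A.Q u).1)) with h | h
  · rw [(hev.add h).neg_one_pow] at h3
    exact absurd h3 (by decide)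
  · exact h

theorem sq_one_of {u : Cfsg.isometryGroup F ⇑A.Q} (hev : Even (Fintype.card ι)) (hdu : del A u = -1) {e : Fˣ}
    (h : (u : GL ι F) * u = scl ι e) (x : ι → F) :
    ((u : GL ι F) : Matrix ι ι F) *ᵥ (((u : GL ι F) : Matrix ι ι F) *ᵥ x) = x := by
  have hue : ∀ x, ((u : GL ι F) : Matrix ι ι F) *ᵥ (((u : GL ι F) : Matrix ι ι F) *ᵥ x) = (e : F) • x := by
    intro x
    rw [← PSp.coe_mul_mulVec, h, PSp.scl_mulVec]
  have h3 := (odd_fix hev hdu).pos
  obtain ⟨v, hv, hv0⟩ := Quad.exists_mem_ne_zero (W := Quad.fixS (Quad.toOG A.Q u).1) (by omega)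
  have hv2 : ((u : GL ι F) : Matrix ι ι F) *ᵥ v = v := by rw [← Quad.toOG_apply]; exact Quad.mem_fixS.mp hv
  have he1 : (e : F) = 1 := by
    have h3 := hue v
    rw [hv2, hv2] at h3
    obtain ⟨i, hi⟩ := Function.ne_iff.mp hv0
    have h4 := congrFun h3 i
    rw [Pi.smul_apply, smul_eq_mul] at h4
    exact mul_right_cancel₀ hi (by rw [← h4, one_mul])
  rw [hue, he1, one_smul]

/-- commuting up to scalars. -/
theorem cm_scal {z g : (fam A).N} (h : Cm z g) : ∃ e : Fˣ, ∀ x, ((z : GL ι F) : Matrix ι ι F) *ᵥ (((g : GL ι F) : Matrix ι ι F) *ᵥ x) =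
    (e : F) • (((g : GL ι F) : Matrix ι ι F) *ᵥ (((z : GL ι F) : Matrix ι ι F) *ᵥ x)) := by
  have h1 : (fam A).T ((fam A).nin (z * g * (g * z)⁻¹)) = 1 := by
    rw [_root_.map_mul, _root_.map_mul, _root_.map_inv, _root_.map_inv, _root_.map_mul, _root_.map_mul,
      _root_.map_mul, _root_.map_mul, h, mul_inv_cancel]
  obtain ⟨e, he⟩ := (Fam.ker_nin _).mp h1
  refine ⟨e, fun x => ?_⟩
  have h3 : (z : GL ι F) * (g : GL ι F) = scl ι e * ((g : GL ι F) * (z : GL ι F)) := by
    rw [← he]
    change (z : GL ι F) * g = ((z : GL ι F) * g * ((g : GL ι F) * z)⁻¹) * ((g : GL ι F) * z)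
    rw [inv_mul_cancel_right]
  rw [← PSp.coe_mul_mulVec, h3, PSp.coe_mul_mulVec, PSp.scl_mulVec, PSp.coe_mul_mulVec]

/-- the case of a non-square multiplier. -/
theorem no_ns {n : ℕ} (hS : DetF S n) (hn : Fintype.card ι = 2 * n) (hev : Even n) (h2 : (2 : F) ≠ 0)
    (hts : ∀ U : Submodule F (ι → F), (∀ u ∈ U, A.Q u = 0) → finrank F U < n) {g : (fam A).N} (hg : S.E g = -1) {c : Fˣ}
    (hc : (g : GL ι F) * g = scl ι c) (hns : sqc F (muN A g) = -1) : False := by
  have h7 := A.h7
  have hgg := mulVec_sq hc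
  have hgm := muN_spec A g
  have hmu0 := (muN A g).ne_zero
  have hmns : ¬ IsSquare (muN A g : F) := by
    intro h
    rw [sqc_eq_one.mpr h] at hns
    exact absurd hns (by decide)
  obtain ⟨v, hv⟩ := exists_ns A
  have h1 : (c : F) * c = muN A g * muN A g := by
    have h4 := hgm (((g : GL ι F) : Matrix ι ι F) *ᵥ v)
    rw [hgg, Quad.map_smul, hgm] at h4
    refine mul_right_cancel₀ hv ?_
    linear_combination h4
  by_cases hcs : IsSquare (c : F)
  · obtain ⟨e, he⟩ := hcs
    have hcm : (c : F) = -muN A g := by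
      rcases mul_self_eq_mul_self_iff.mp h1 with h | h
      · exact absurd ⟨e, by rw [← h, he]⟩ hmns
      · exact h
    have he0 : e ≠ 0 := by
      rintro rfl
      rw [mul_zero] at he
      exact c.ne_zero he
    let G := Matrix.mulVecLin ((g : GL ι F) : Matrix ι ι F)
    have hG : ∀ x, G (G x) = (c : F) • x := hgg
    let E : F → Submodule F (ι → F) := fun t => LinearMap.ker (G - t • LinearMap.id)
    have hE : ∀ t x, x ∈ E t ↔ G x = t • x := by
      intro t x
      change x ∈ LinearMap.ker (G - t • LinearMap.id) ↔ _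
      rw [LinearMap.mem_ker, LinearMap.sub_apply, sub_eq_zero]
      rfl
    have hEts : ∀ t, t * t = (c : F) → ∀ x ∈ E t, A.Q x = 0 := by
      intro t ht x hx
      have h3 := hgm x
      have h4 : ((g : GL ι F) : Matrix ι ι F) *ᵥ x = t • x := (hE t x).mp hx
      rw [h4, Quad.map_smul, ht, hcm] at h3
      have h5 : 2 * (muN A g : F) * A.Q x = 0 := by linear_combination -h3
      exact (mul_eq_zero.mp h5).resolve_left (mul_ne_zero h2 hmu0)
    have h3 := hts (E e) (hEts e he.symm)
    have h4 := hts (E (-e)) (hEts (-e) (by rw [neg_mul_neg, he]))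
    have h5 : E e ⊔ E (-e) = ⊤ := by
      rw [eq_top_iff]
      intro x _
      have e1 : x = (2 * e)⁻¹ • (e • x + G x) + (2 * e)⁻¹ • (e • x - G x) := by
        rw [← smul_add, add_add_sub_cancel, ← add_smul, smul_smul]
        have : (2 * e)⁻¹ * (e + e) = 1 := by field_simp; ring
        rw [this, one_smul]
      rw [e1]
      refine Submodule.add_mem_sup (Submodule.smul_mem _ _ ?_) (Submodule.smul_mem _ _ ?_)
      · rw [hE, map_add, map_smul, hG, he, smul_add, smul_smul, add_comm]
      · rw [hE, map_sub, map_smul, hG, he, smul_sub, smul_smul, neg_mul, neg_smul, neg_smul]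
        abel
    have h6 := Submodule.finrank_add_le_finrank_add_finrank (E e) (E (-e))
    rw [h5, finrank_top, Module.finrank_fintype_fun_eq_card] at h6
    omega
  · obtain ⟨k, hk, hdet⟩ := det_sq_ns hcs (Fintype.card ι) (Matrix.mulVecLin ((g : GL ι F) : Matrix ι ι F)) hgg
      (Module.finrank_fintype_fun_eq_card F)
    have hkn : k = n := by omega
    subst hkn
    have h3 : ((g : GL ι F) : Matrix ι ι F).det = (muN A g : F) ^ k := by
      rw [← LinearMap.det_toLin']
      change LinearMap.det (Matrix.mulVecLin ((g : GL ι F) : Matrix ι ι F)) = _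
      rw [hdet, hev.neg_pow]
      obtain ⟨j, rfl⟩ := hev
      rw [← two_mul, pow_mul, pow_mul, pow_two, pow_two, h1]
    rw [(hS h2 g).mpr h3] at hg
    exact absurd hg (by decide)

theorem comm_sqc' {n : ℕ} (hS : DetF S n) (hn : Fintype.card ι = 2 * n) (hev : Even n) (h2 : (2 : F) ≠ 0)
    (hts : ∀ U : Submodule F (ι → F), (∀ u ∈ U, A.Q u = 0) → finrank F U < n) {g : (fam A).N} (hg : S.E g = -1) {c : Fˣ}
    (hc : (g : GL ι F) * g = scl ι c) (z : (fam A).N) (hz : Cm z g) : sqc F (muN A z) = 1 := by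
  rcases Int.units_eq_one_or (sqc F (muN A g)) with h1 | h1
  · obtain ⟨d, u, rfl⟩ := sq_mult A g h1
    have hdu : del A u = -1 := by rwa [_root_.map_mul, S.scl, one_mul, S.iso] at hg
    have hcc : (u : GL ι F) * u = scl ι (d⁻¹ * d⁻¹ * c) := by
      have h3 : (scl ι d * (u : GL ι F)) * (scl ι d * (u : GL ι F)) = scl ι c := hc
      have h5 : (u : GL ι F) * scl ι d = scl ι d * (u : GL ι F) := by rw [sc_comm]
      rw [_root_.map_mul, ← h3, _root_.map_mul, _root_.map_inv]
      simp only [mul_assoc]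
      rw [← mul_assoc (u : GL ι F) (scl ι d), h5, mul_assoc, inv_mul_cancel_left, inv_mul_cancel_left]
    have huu := sq_one_of S.even hdu hcc
    have hzu : Cm z ⟨u, iso_le_N A u.2⟩ := by
      rw [Cm, _root_.map_mul, _root_.map_mul, T_scl, one_mul] at hz
      exact hz
    obtain ⟨e, he⟩ := cm_scal hzu
    obtain ⟨k, hk⟩ := hev
    rw [sqc_eq_one]
    refine inv_comm_sq (k := k) A.nd h2 (by rw [Module.finrank_fintype_fun_eq_card, hn, hk]; ring)
      (u := Matrix.mulVecLin ((u : GL ι F) : Matrix ι ι F)) (Quad.mem_isometryGroup.mp u.2) huu ?_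
      (z := Quad.glE F ι (z : GL ι F)) (muN A z).ne_zero (fun x => ?_) (e := (e : F)) (fun x => ?_)
    · have h4 := odd_fix S.even hdu
      have h5 : Quad.fixS (Quad.toOG A.Q u).1 = LinearMap.ker (Matrix.mulVecLin ((u : GL ι F) : Matrix ι ι F) - LinearMap.id) := by
        ext x
        rw [Quad.mem_fixS, LinearMap.mem_ker, LinearMap.sub_apply, sub_eq_zero]
        have h6 : (Quad.toOG A.Q u).1 x = ((u : GL ι F) : Matrix ι ι F) *ᵥ x := Quad.toOG_apply _ _ x
        rw [h6]
        rfl
      rw [h5] at h4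
      exact h4
    · rw [Quad.glE_apply]
      exact muN_spec A z x
    · rw [Quad.glE_apply, Quad.glE_apply]
      exact he x
  · exact (no_ns S hS hn hev h2 hts hg hc h1).elim

end MinusFin

section Final

theorem exists_sc {ι : Type} [Fintype ι] [DecidableEq ι] {F : Type*} [Field F] [Finite F] {A : OD ι F} {g : (fam A).N}
    (h : orderOf ((fam A).T ((fam A).nin g)) = 2) : ∃ c : Fˣ, (g : GL ι F) * g = scl ι c := by
  have h1 : (fam A).T ((fam A).nin g) ^ 2 = 1 := orderOf_dvd_iff_pow_eq_one.mp (dvd_of_eq h)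
  rw [← _root_.map_pow, ← _root_.map_pow] at h1
  obtain ⟨c, hc⟩ := (Fam.ker_nin _).mp h1
  refine ⟨c, ?_⟩
  rw [← hc, Subgroup.coe_pow, pow_two]

theorem plus_graph {F : Type*} [Field F] [Fintype F] {m : ℕ} (hm : 4 ≤ m) (h2 : (2 : F) ≠ 0)
    {q : (Fin m ⊕ Fin m → F) → F} (hq : ⇑(odP F hm).Q = q) (γ : MulAut (Cfsg.POmega F q))
    (hγ : ∃ g : GL (Fin m ⊕ Fin m) F, g ∈ Cfsg.Geo.quadSimilarityGroup (F := F) q ∧
      ¬ Cfsg.PreservesSingularClasses q (g : Matrix (Fin m ⊕ Fin m) (Fin m ⊕ Fin m) F) ∧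
      Cfsg.IsInducedBySemilinearPOmega q g (RingEquiv.refl F) γ) (hγ2 : orderOf γ = 2) :
    (Cfsg.splitClassCount (indP q) (Cfsg.Inn (Cfsg.POmega F q)) γ = 1 ∨
      Cfsg.splitClassCount (indP q) (Cfsg.Inn (Cfsg.POmega F q)) γ = 2) ∧
    (¬ (Odd m ∧ Fintype.card F % 4 = 3) → Cfsg.splitClassCount (indP q) (Cfsg.Inn (Cfsg.POmega F q)) γ = 2) := by
  subst hq
  obtain ⟨g, hg, hp, h⟩ := hγ
  have hg' : (SemidirectProduct.inl g : Gm (Fin m ⊕ Fin m) F) ∈ GamO ⇑(odP F hm).Q := sim_mem_Gam.mpr hg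
  have h1 := (induced_iff (odP F hm) (g := g) (σ := RingEquiv.refl F) hg').mp h
  let g' : (fam (odP F hm)).N := ⟨g, hg'⟩
  have h1' : γ = (fam (odP F hm)).T ((fam (odP F hm)).nin g') := h1
  have hE : (evP hm).E g' = -1 := by
    rcases Int.units_eq_one_or ((evP hm).E g') with h3 | h3
    · exact absurd ((preserves_iff (Quad.nd_plusQ m) (Quad.isMax_U0 m) hg').mpr h3) hp
    · exact h3
  rw [h1'] at hγ2 ⊢
  obtain ⟨c, hc⟩ := exists_sc hγ2
  obtain ⟨w, hw, hw2, hwg⟩ := exists_commuting (evP hm) h2 hE hc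
  rw [indP_eq hm]
  have h5 : ¬ (Odd m ∧ Fintype.card F % 4 = 3) → Cfsg.splitClassCount (D0 (evP hm))
      (Cfsg.Inn (Cfsg.POmega F ⇑(odP F hm).Q)) ((fam (odP F hm)).T ((fam (odP F hm)).nin g')) = 2 := fun h =>
    count_two (evP hm) h2 ((plus_mod hm h2).mpr h) hE hw hw2 hwg
  refine ⟨?_, h5⟩
  by_cases h6 : Odd m ∧ Fintype.card F % 4 = 3
  · exact count_one_two (evP hm) h2 (fun h7 => (plus_mod hm h2).mp h7 h6) _
  · exact Or.inr (h5 h6)

variable {F : Type*} [Field F] [Finite F] {a b : F} {m : ℕ}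

theorem no_two_right (hab : An a b) (hm : 3 ≤ m) {ξ : (fam (odM hab hm)).Γ}
    (h : orderOf ((fam (odM hab hm)).T ξ) = 2) : (ξ : Gm ((Fin m ⊕ Fin m) ⊕ Fin 2) F).right = 1 := by
  by_contra h1
  have hσ := orderOf_right Nat.prime_two h h1
  obtain ⟨y, hy, hyr, hN⟩ := exists_rep_norm ξ (by
    rw [hσ]; exact orderOf_dvd_iff_pow_eq_one.mp (dvd_of_eq h))
  have he : ∀ a, (y : Gm ((Fin m ⊕ Fin m) ⊕ Fin 2) F).right a = a ↔
      a ∈ Set.range (FixK (y : Gm ((Fin m ⊕ Fin m) ⊕ Fin 2) F).right).subtype := by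
    intro a
    constructor
    · intro h; exact ⟨⟨a, h⟩, rfl⟩
    · rintro ⟨⟨a, ha⟩, rfl⟩; exact ha
  have hσy : orderOf (y : Gm ((Fin m ⊕ Fin m) ⊕ Fin 2) F).right = 2 := by rw [hyr, hσ]
  have hKf : Finite (FixK (y : Gm ((Fin m ⊕ Fin m) ⊕ Fin 2) F).right) := inferInstance
  rcases forms (A := odM hab hm) (n := m) (minus_card m) y.2 hN _ he with ⟨⟨R⟩⟩ | hf
  · exact no_plus hab hm R
  · obtain ⟨ζ, hζ⟩ := exists_an (FixK (y : Gm ((Fin m ⊕ Fin m) ⊕ Fin 2) F).right)
    obtain ⟨R⟩ := hf 1 ζ hζ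
    obtain ⟨ω, hω⟩ : ∃ ω : F, ω ^ 2 + (FixK (y : Gm ((Fin m ⊕ Fin m) ⊕ Fin 2) F).right).subtype 1 * ω +
        (FixK (y : Gm ((Fin m ⊕ Fin m) ⊕ Fin 2) F).right).subtype ζ = 0 := by
      by_contra hcon
      push Not at hcon
      refine no_fix_two hσy (a := (FixK (y : Gm ((Fin m ⊕ Fin m) ⊕ Fin 2) F).right).subtype 1)
        (b := (FixK (y : Gm ((Fin m ⊕ Fin m) ⊕ Fin 2) F).right).subtype ζ) ?_ ((he _).mpr ⟨_, rfl⟩) ((he _).mpr ⟨_, rfl⟩)
      intro z₁ z₂ h0
      by_cases hz : z₂ = 0
      · rw [hz] at h0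
        refine ⟨?_, hz⟩
        have : z₁ ^ 2 = 0 := by linear_combination h0
        exact pow_eq_zero_iff (two_ne_zero) |>.mp this
      · exfalso
        apply hcon (z₁ / z₂)
        field_simp
        linear_combination h0
    have h3 := R.isMax (isMax_UK m hω)
    have h4 := (Quad.minusQ_isMinus m hab).ts_le (odM hab hm).nd h3.1
    have h5 := h3.2
    rw [Module.finrank_fintype_fun_eq_card, minus_card] at h5
    omega

theorem minus_graph [Fintype F] (hab : An a b) (hm : 3 ≤ m) (h2 : (2 : F) ≠ 0)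
    {q : ((Fin m ⊕ Fin m) ⊕ Fin 2 → F) → F} (hq : ⇑(odM hab hm).Q = q) (γ : MulAut (Cfsg.POmega F q))
    (hγ : γ ∉ indM a b q) (hγ2 : orderOf γ = 2) :
    (Cfsg.splitClassCount (indM a b q) (Cfsg.Inn (Cfsg.POmega F q)) γ = 1 ∨
      Cfsg.splitClassCount (indM a b q) (Cfsg.Inn (Cfsg.POmega F q)) γ = 2) ∧
    (¬ (Even m ∧ Fintype.card F % 4 = 1) → Cfsg.splitClassCount (indM a b q) (Cfsg.Inn (Cfsg.POmega F q)) γ = 2) := by
  subst hq
  have hfull := full (good_minus (F := F) hab hm)
  obtain ⟨S, hX, hS⟩ := exists_evM hab hm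
  rw [hX] at hγ ⊢
  obtain ⟨ξ, rfl⟩ := hfull γ
  have hr := no_two_right hab hm hγ2
  have h0 : (ξ : Gm ((Fin m ⊕ Fin m) ⊕ Fin 2) F) =
      SemidirectProduct.inl (ξ : Gm ((Fin m ⊕ Fin m) ⊕ Fin 2) F).left := by
    apply SemidirectProduct.ext
    · rfl
    · exact hr
  have h4 : (ξ : Gm ((Fin m ⊕ Fin m) ⊕ Fin 2) F).left ∈ (fam (odM hab hm)).N := by
    rw [Fam.mem_N, ← h0]
    exact ξ.2
  obtain ⟨g, rfl⟩ : ∃ g : (fam (odM hab hm)).N, ξ = (fam (odM hab hm)).nin g := ⟨⟨_, h4⟩, Subtype.ext h0⟩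
  have hE : S.E g = -1 := by
    rcases Int.units_eq_one_or (S.E g) with h3 | h3
    · exact absurd (T_mem_D0.mpr h3) hγ
    · exact h3
  obtain ⟨c, hc⟩ := exists_sc hγ2
  have hmod := neg_mod hab hm rfl (rfl : Fintype.card F = Fintype.card F) h2
  by_cases hneg : negO (odM hab hm) ∈ Cfsg.Omega F ⇑(odM hab hm).Q
  · obtain ⟨w, hw, hw2, hwg⟩ := exists_commuting S h2 hE hc
    have h5 := count_two S h2 hneg hE hw hw2 hwg
    exact ⟨Or.inr h5, fun _ => h5⟩
  · refine ⟨count_one_two S h2 hneg _, fun h6 => ?_⟩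
    have hodd : Even (m + 1) := by
      by_contra h7
      rw [Nat.not_even_iff_odd] at h7
      have h8 : Even m := by
        rw [Nat.odd_iff] at h7
        rw [Nat.even_iff]
        omega
      have h9 := Quad.card_mod_two h2
      have h10 : Fintype.card F % 4 ≠ 1 := fun h => h6 ⟨h8, h⟩
      exact hneg (hmod.mpr ⟨by omega, h7⟩)
    exact count_two' S h2 hneg (fun z _ hz => comm_sqc' S hS (by rw [minus_card]; ring) hodd h2
      (fun U hU => Nat.lt_succ_of_le ((Quad.minusQ_isMinus m hab).ts_le (odM hab hm).nd hU)) hE hc z hz)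

end Final

end Cfsg.Agent.H16.Par
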