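import Mathlib

set_option autoImplicit false

/-! Regular nilpotent matrices: their commutant, and involutions. -/

namespace Cfsg.Agent.H16.RU

open Module

section lin

variable {F : Type*} [Field F] {V : Type*} [AddCommGroup V] [Module F V] [FiniteDimensional F V]

theorem ker_pow_le {T : End F V} (h : finrank F (LinearMap.ker T) ≤ 1) (k : ℕ) : finrank F (LinearMap.ker (T ^ k)) ≤ k := by
  induction k with
  | zero =>
    rw [pow_zero]
    have : LinearMap.ker (1 : End F V) = ⊥ := LinearMap.ker_id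
    rw [this, finrank_bot]
  | succ k ih =>
    obtain ⟨f, hf⟩ : ∃ f, f = T.domRestrict (LinearMap.ker (T ^ (k + 1))) := ⟨_, rfl⟩
    have h1 := LinearMap.finrank_range_add_finrank_ker f
    have h2 : finrank F (LinearMap.range f) ≤ finrank F (LinearMap.ker (T ^ k)) := by
      apply Submodule.finrank_mono
      rintro _ ⟨⟨x, hx⟩, rfl⟩
      rw [LinearMap.mem_ker, hf, LinearMap.domRestrict_apply]
      rw [LinearMap.mem_ker, pow_succ, Module.End.mul_apply] at hx
      exact hx
    have h3 : finrank F (LinearMap.ker f) ≤ finrank F (LinearMap.ker T) := by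
      refine LinearMap.finrank_le_finrank_of_injective (f := ((LinearMap.ker (T ^ (k + 1))).subtype ∘ₗ (LinearMap.ker f).subtype).codRestrict
        (LinearMap.ker T) ?_) ?_
      · rintro ⟨x, hx⟩
        rw [LinearMap.mem_ker, hf] at hx
        exact hx
      · intro a b hab
        apply Subtype.ext
        apply Subtype.ext
        exact congrArg (fun z : LinearMap.ker T => (z : V)) hab
    omega

theorem pow_ne {T : End F V} {n : ℕ} (hn : finrank F V = n + 1) (h : finrank F (LinearMap.ker T) ≤ 1) : T ^ n ≠ 0 := by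
  intro h0
  have h1 := ker_pow_le h n
  rw [h0, LinearMap.ker_zero, finrank_top, hn] at h1
  omega

omit [FiniteDimensional F V] in
theorem lin_indep {T : End F V} {n : ℕ} (h0 : T ^ (n + 1) = 0) {w : V} (hw : (T ^ n) w ≠ 0) :
    LinearIndependent F (fun i : Fin (n + 1) => (T ^ (i : ℕ)) w) := by
  rw [Fintype.linearIndependent_iff]
  intro g hg
  have key : ∀ k : ℕ, ∀ i : Fin (n + 1), (i : ℕ) = k → g i = 0 := by
    intro k
    induction k using Nat.strong_induction_on with
    | _ k ih =>
      intro i hi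
      have h1 := congrArg (T ^ (n - k)) hg
      rw [_root_.map_zero, map_sum, Finset.sum_eq_single i] at h1
      · rw [_root_.map_smul, ← Module.End.mul_apply, ← pow_add, hi, Nat.sub_add_cancel (by omega)] at h1
        exact (smul_eq_zero.mp h1).resolve_right hw
      · intro j _ hj
        rcases lt_or_gt_of_ne (fun h : (j : ℕ) = i => hj (Fin.ext h)) with hlt | hgt
        · rw [ih j (by omega) j rfl, zero_smul, _root_.map_zero]
        · have h2 : T ^ (n - k) * T ^ (j : ℕ) = 0 := by
            rw [← pow_add]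
            exact pow_eq_zero_of_le (by omega) h0
          rw [_root_.map_smul, ← Module.End.mul_apply, h2, LinearMap.zero_apply, smul_zero]
      · intro h
        exact absurd (Finset.mem_univ i) h
  exact fun i => key i i rfl

theorem commutant {T : End F V} {n : ℕ} (hn : finrank F V = n + 1) (h0 : T ^ (n + 1) = 0) (h1 : T ^ n ≠ 0) {S : End F V}
    (hc : Commute S T) : ∃ a : Fin (n + 1) → F, S = ∑ i, a i • T ^ (i : ℕ) := by
  obtain ⟨w, hw⟩ : ∃ w, (T ^ n) w ≠ 0 := by
    by_contra hcon
    push Not at hcon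
    exact h1 (LinearMap.ext hcon)
  have hli := lin_indep h0 hw
  let b := basisOfLinearIndependentOfCardEqFinrank hli (by rw [Fintype.card_fin, hn])
  have hb : ∀ i, b i = (T ^ (i : ℕ)) w := fun i => by
    rw [coe_basisOfLinearIndependentOfCardEqFinrank]
  obtain ⟨a, h2⟩ : ∃ a : Fin (n + 1) → F, S w = ∑ i, a i • (T ^ (i : ℕ)) w := by
    refine ⟨fun i => b.repr (S w) i, ?_⟩
    conv_lhs => rw [← b.sum_repr (S w)]
    exact Finset.sum_congr rfl fun i _ => by rw [hb]
  refine ⟨a, ?_⟩
  apply b.ext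
  intro j
  rw [hb, ← Module.End.mul_apply, (hc.pow_right _).eq, Module.End.mul_apply, h2, map_sum, LinearMap.sum_apply]
  refine Finset.sum_congr rfl fun i _ => ?_
  rw [_root_.map_smul, LinearMap.smul_apply, ← Module.End.mul_apply, ← Module.End.mul_apply, ← pow_add, ← pow_add, add_comm (j : ℕ)]

omit [FiniteDimensional F V] in
theorem indep {T : End F V} {n : ℕ} (h0 : T ^ (n + 1) = 0) (h1 : T ^ n ≠ 0) {a : Fin (n + 1) → F}
    (h : ∑ i, a i • T ^ (i : ℕ) = 0) : a = 0 := by
  obtain ⟨w, hw⟩ : ∃ w, (T ^ n) w ≠ 0 := by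
    by_contra hcon
    push Not at hcon
    exact h1 (LinearMap.ext hcon)
  have hli := lin_indep h0 hw
  rw [Fintype.linearIndependent_iff] at hli
  funext i
  apply hli a
  have h2 := congrArg (fun S : End F V => S w) h
  simp only [LinearMap.sum_apply, LinearMap.smul_apply, LinearMap.zero_apply] at h2
  exact h2

end lin

section mat

variable {F : Type*} [Field F] {ι : Type*} [Fintype ι] [DecidableEq ι]

theorem mat_pow_ne {Y : Matrix ι ι F} {n : ℕ} (hn : Fintype.card ι = n + 1) (h : Y.rank = n) : Y ^ n ≠ 0 := by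
  intro h0
  have h1 : finrank F (LinearMap.ker (Matrix.toLin' Y : End F (ι → F))) ≤ 1 := by
    have h2 := LinearMap.finrank_range_add_finrank_ker (Matrix.toLin' Y : End F (ι → F))
    rw [finrank_pi, hn] at h2
    have h3 : finrank F (LinearMap.range (Matrix.toLin' Y : End F (ι → F))) = n := h
    omega
  have h2 := pow_ne (n := n) (by rw [finrank_pi, hn]) h1
  apply h2
  rw [← Matrix.toLin'_pow, h0, _root_.map_zero]

theorem toLin_pow_ne {Y : Matrix ι ι F} {n : ℕ} (h1 : Y ^ n ≠ 0) : (Matrix.toLin' Y : End F (ι → F)) ^ n ≠ 0 := by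
  rw [← Matrix.toLin'_pow]
  intro h
  exact h1 (Matrix.toLin'.injective (by rw [h, _root_.map_zero]))

theorem toLin_sum (Y : Matrix ι ι F) {n : ℕ} (a : Fin n → F) : Matrix.toLin' (∑ i, a i • Y ^ (i : ℕ)) =
    ∑ i, a i • (Matrix.toLin' Y : End F (ι → F)) ^ (i : ℕ) := by
  rw [map_sum]
  refine Finset.sum_congr rfl fun i _ => ?_
  rw [_root_.map_smul, Matrix.toLin'_pow]

theorem mat_commutant {Y : Matrix ι ι F} {n : ℕ} (hn : Fintype.card ι = n + 1) (h0 : Y ^ (n + 1) = 0) (h1 : Y ^ n ≠ 0)
    {S : Matrix ι ι F} (hc : Commute S Y) : ∃ a : Fin (n + 1) → F, S = ∑ i, a i • Y ^ (i : ℕ) := by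
  obtain ⟨a, ha⟩ := commutant (F := F) (V := ι → F) (T := Matrix.toLin' Y) (S := Matrix.toLin' S) (n := n) (by rw [finrank_pi, hn])
    (by rw [← Matrix.toLin'_pow, h0, _root_.map_zero]) (toLin_pow_ne h1)
    (by
      rw [commute_iff_eq, Module.End.mul_eq_comp, Module.End.mul_eq_comp, ← Matrix.toLin'_mul, ← Matrix.toLin'_mul, hc.eq])
  exact ⟨a, Matrix.toLin'.injective (by rw [ha, toLin_sum])⟩

theorem mat_indep {Y : Matrix ι ι F} {n : ℕ} (h0 : Y ^ (n + 1) = 0) (h1 : Y ^ n ≠ 0) {a : Fin (n + 1) → F}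
    (h : ∑ i, a i • Y ^ (i : ℕ) = 0) : a = 0 := by
  refine indep (T := (Matrix.toLin' Y : End F (ι → F))) (by rw [← Matrix.toLin'_pow, h0, _root_.map_zero]) (toLin_pow_ne h1) ?_
  rw [← toLin_sum, h, _root_.map_zero]

end mat

end Cfsg.Agent.H16.RU
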