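import Cfsg.Agent.H16_RU3

set_option autoImplicit false

/-! Regular unipotent elements of the symplectic group: counting. -/

namespace Cfsg.Agent.H16.RU

open Matrix

universe u

variable {F : Type u} [Field F] {m : ℕ}

theorem cent_comm {n : ℕ} (hm : 2 * m = n + 1) {y : Matrix (Fin m ⊕ Fin m) (Fin m ⊕ Fin m) F} (h0 : y ^ (n + 1) = 0) (h1 : y ^ n ≠ 0)
    {a b : Matrix (Fin m ⊕ Fin m) (Fin m ⊕ Fin m) F} (ha : Commute a y) (hb : Commute b y) : Commute a b := by
  obtain ⟨c, hc⟩ := mat_commutant (Y := y) (n := n) (by rw [Fintype.card_sum, Fintype.card_fin]; omega) h0 h1 ha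
  rw [hc]
  exact (Commute.sum_right _ _ _ fun i _ => (hb.pow_right _).smul_right _).symm

theorem mem_cen {y a : Matrix (Fin m ⊕ Fin m) (Fin m ⊕ Fin m) F} : a ∈ Subalgebra.centralizer F {y} ↔ Commute a y := by
  rw [Subalgebra.mem_centralizer_iff]
  constructor
  · intro h
    exact (h y rfl).symm
  · rintro h _ rfl
    exact h.symm

theorem comm_sj {y a : Matrix (Fin m ⊕ Fin m) (Fin m ⊕ Fin m) F} (hy : sj y = -y) (ha : Commute a y) : Commute (sj a) y := by
  have := congrArg sj ha.eq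
  rw [sj_mul, sj_mul, hy, neg_mul, mul_neg, neg_inj] at this
  exact this.symm

/-- transfer to a commutative ring. -/
theorem transfer {n : ℕ} (hm : 2 * m = n + 1) {y : Matrix (Fin m ⊕ Fin m) (Fin m ⊕ Fin m) F} (hy : sj y = -y) (h0 : y ^ (n + 1) = 0) (h1 : y ^ n ≠ 0) :
    ∃ (C : Type u) (_ : CommRing C) (_ : Algebra F C) (_ : Nontrivial C) (σ : C →+* C) (t : C) (φ : C →ₐ[F] Matrix (Fin m ⊕ Fin m) (Fin m ⊕ Fin m) F),
      Function.Injective φ ∧ φ t = y ∧ (∀ a, Commute a y ↔ a ∈ Set.range φ) ∧ (∀ c, φ (σ c) = sj (φ c)) ∧ (∀ x, σ (σ x) = x) ∧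
      (∀ c : F, σ (algebraMap F C c) = algebraMap F C c) ∧ σ t = -t ∧ t ^ (n + 1) = 0 ∧
      (∀ x : C, ∃ a : Fin (n + 1) → F, x = ∑ i, a i • t ^ (i : ℕ)) ∧ (∀ a : Fin (n + 1) → F, ∑ i, a i • t ^ (i : ℕ) = 0 → a = 0) := by
  have hcomm : ∀ a b : Subalgebra.centralizer F {y}, a * b = b * a := by
    rintro ⟨a, ha⟩ ⟨b, hb⟩
    apply Subtype.ext
    exact (cent_comm hm h0 h1 (mem_cen.mp ha) (mem_cen.mp hb)).eq
  let hC : CommRing (Subalgebra.centralizer F {y}) := { (inferInstance : Ring (Subalgebra.centralizer F {y})) with mul_comm := hcomm }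
  have hnt : Nontrivial (Matrix (Fin m ⊕ Fin m) (Fin m ⊕ Fin m) F) := by
    refine ⟨⟨y ^ n, 0, h1⟩⟩
  refine ⟨Subalgebra.centralizer F {y}, hC, inferInstance, inferInstance,
    { toFun := fun a => ⟨sj a.1, mem_cen.mpr (comm_sj hy (mem_cen.mp a.2))⟩
      map_one' := Subtype.ext sj_one
      map_mul' := fun a b => Subtype.ext (by
        change sj (a.1 * b.1) = sj a.1 * sj b.1
        rw [sj_mul]
        exact cent_comm hm h0 h1 (comm_sj hy (mem_cen.mp b.2)) (comm_sj hy (mem_cen.mp a.2)))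
      map_zero' := Subtype.ext sj_zero
      map_add' := fun a b => Subtype.ext (sj_add _ _) }, ⟨y, mem_cen.mpr (Commute.refl y)⟩, (Subalgebra.centralizer F {y}).val, ?_, rfl, ?_, ?_, ?_, ?_, ?_, ?_, ?_, ?_⟩
  · exact Subtype.val_injective
  · intro a
    constructor
    · intro ha
      exact ⟨⟨a, mem_cen.mpr ha⟩, rfl⟩
    · rintro ⟨⟨a, ha⟩, rfl⟩
      exact mem_cen.mp ha
  · intro c
    rfl
  · intro x
    exact Subtype.ext (sj_sj _)
  · intro c
    apply Subtype.ext
    change sj (algebraMap F (Matrix (Fin m ⊕ Fin m) (Fin m ⊕ Fin m) F) c) = algebraMap F _ c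
    rw [Algebra.algebraMap_eq_smul_one, sj_smul, sj_one]
  · exact Subtype.ext hy
  · exact Subtype.ext h0
  · rintro ⟨x, hx⟩
    obtain ⟨c, hc⟩ := mat_commutant (Y := y) (n := n) (by rw [Fintype.card_sum, Fintype.card_fin]; omega) h0 h1 (mem_cen.mp hx)
    refine ⟨c, ?_⟩
    apply Subtype.val_injective
    refine hc.trans ?_
    symm
    exact map_sum (Subalgebra.centralizer F {y}).val _ _
  · intro a ha
    apply mat_indep h0 h1
    have := congrArg (Subalgebra.centralizer F {y}).val ha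
    refine Eq.trans ?_ this
    symm
    exact map_sum (Subalgebra.centralizer F {y}).val _ _

end Cfsg.Agent.H16.RU
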