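import Cfsg.Agent.H16_RU5

set_option autoImplicit false

/-! Regular unipotent elements of the symplectic group: similitudes. -/

namespace Cfsg.Agent.H16.RU

open Matrix Module

variable {F : Type*} [Field F] {m : ℕ}

theorem comm_cancel {M : Type*} [Monoid M] {P u : M} {T : Mˣ} (h : Commute (T : M) u) : Commute (↑T⁻¹ : M) u :=
  h.units_inv_left

/-- the multiplier can be normalized. -/
theorem exists_sim {p : ℕ} [Fact p.Prime] [CharP F p] (hp : p ≠ 2) {n : ℕ} (hn : 2 * m = n + 1)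
    {u u' : Matrix (Fin m ⊕ Fin m) (Fin m ⊕ Fin m) F} (hu : sj u * u = 1) (hu' : sj u' * u' = 1)
    (h0 : (u - 1) ^ (2 * m) = 0) (h1 : (u - 1).rank = 2 * m - 1) (h0' : (u' - 1) ^ (2 * m) = 0) (h1' : (u' - 1).rank = 2 * m - 1) :
    ∃ (P : GL (Fin m ⊕ Fin m) F) (d : F), d ≠ 0 ∧ sj P.val * P = d • 1 ∧ P.val * u = u' * P := by
  have h2 : (2 : F) ≠ 0 := by
    intro h
    have := (CharP.cast_eq_zero_iff F p 2).mp (by exact_mod_cast h)
    exact hp ((Nat.prime_dvd_prime_iff_eq Fact.out Nat.prime_two).mp this)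
  have hcard : Fintype.card (Fin m ⊕ Fin m) = n + 1 := by rw [Fintype.card_sum, Fintype.card_fin]; omega
  obtain ⟨P, hP⟩ := mat_conj hcard (by rw [← hn]; exact h0) (mat_pow_ne hcard (by rw [h1]; omega)) (by rw [← hn]; exact h0')
    (mat_pow_ne hcard (by rw [h1']; omega))
  have hPu : P.val * u = u' * P := by
    have h3 : P.val * u - P.val = u' * P - P.val := by
      rw [mul_sub, mul_one, sub_mul, one_mul] at hP
      exact hP
    exact sub_left_inj.mp h3
  obtain ⟨s, hs⟩ : ∃ s, s = sj P.val * P := ⟨_, rfl⟩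
  have hss : sj s = s := by rw [hs, sj_mul, sj_sj]
  have hsu : Commute s u := by
    have e1 : sj u * s * u = s := by
      rw [hs]
      calc _ = sj (P.val * u) * (P.val * u) := by rw [sj_mul]; simp only [mul_assoc]
        _ = sj P.val * (sj u' * u') * P := by rw [hPu, sj_mul]; simp only [mul_assoc]
        _ = _ := by rw [hu', mul_one]
    have e2 : u * sj u = 1 := mul_eq_one_comm.mp hu
    rw [commute_iff_eq]
    calc s * u = (u * sj u) * s * u := by rw [e2, one_mul]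
      _ = u * (sj u * s * u) := by simp only [mul_assoc]
      _ = u * s := by rw [e1]
  obtain ⟨y, hy, hy0, hy1, hyu⟩ := exists_y h2 hn hu h0 h1
  obtain ⟨C, _, _, _, σ, t, φ, hφ, hφt, hφr, hφσ, hσσ, hσF, hσt, ht0, H1, H2⟩ := transfer hn hy hy0 hy1
  obtain ⟨s', hs'⟩ := (hφr s).mp ((hyu s).mpr hsu)
  have hsσ : σ s' = s' := hφ (by rw [hφσ, hs', hss])
  obtain ⟨d, s'', hd⟩ := dec H1 s'
  have hsunit : IsUnit s := by
    rw [hs]
    refine IsUnit.mul ?_ P.isUnit
    refine ⟨⟨sj P.val, sj (P⁻¹).val, ?_, ?_⟩, rfl⟩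
    · rw [← sj_mul, ← Units.val_mul, inv_mul_cancel, Units.val_one, sj_one]
    · rw [← sj_mul, ← Units.val_mul, mul_inv_cancel, Units.val_one, sj_one]
  have hd0 : d ≠ 0 := by
    rintro rfl
    rw [_root_.map_zero, zero_add] at hd
    have e3 : s' ^ (n + 1) = 0 := by rw [hd, mul_pow, ht0, zero_mul]
    have e4 : s ^ (n + 1) = 0 := by rw [← hs', ← _root_.map_pow, e3, _root_.map_zero]
    have hnt : Nontrivial (Matrix (Fin m ⊕ Fin m) (Fin m ⊕ Fin m) F) := ⟨⟨y ^ n, 0, hy1⟩⟩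
    exact (hsunit.pow (n + 1)).ne_zero e4
  obtain ⟨r, hr, hrσ, hrs⟩ := root hσF ht0 hp hsσ hd0 hd
  obtain ⟨T, hT⟩ := hr.map φ
  have hTs : sj T.val = T := by rw [hT, ← hφσ, hrσ]
  have hTu : Commute T.val u := by rw [← hyu, hφr]; exact ⟨r, hT.symm⟩
  have hsT : s = d • (T.val * T.val) := by
    rw [← hs', hrs, _root_.map_mul, _root_.map_pow, AlgHom.commutes, Algebra.algebraMap_eq_smul_one, smul_mul_assoc, one_mul, sq, hT]
  have hTi : sj (T⁻¹).val = (T⁻¹).val := by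
    have e5 : sj (T⁻¹).val * T.val = 1 := by
      nth_rewrite 1 [← hTs]
      rw [← sj_mul, ← Units.val_mul, mul_inv_cancel, Units.val_one, sj_one]
    calc sj (T⁻¹).val = sj (T⁻¹).val * (T.val * (T⁻¹).val) := by rw [← Units.val_mul, mul_inv_cancel, Units.val_one, mul_one]
      _ = _ := by rw [← mul_assoc, e5, one_mul]
  refine ⟨P * T⁻¹, d, hd0, ?_, ?_⟩
  · rw [Units.val_mul, sj_mul, hTi]
    calc _ = (T⁻¹).val * (sj P.val * P) * (T⁻¹).val := by simp only [mul_assoc]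
      _ = d • (((T⁻¹).val * T.val) * (T.val * (T⁻¹).val)) := by
          rw [← hs, hsT, mul_smul_comm, smul_mul_assoc]; simp only [mul_assoc]
      _ = _ := by rw [← Units.val_mul, ← Units.val_mul, inv_mul_cancel, mul_inv_cancel, Units.val_one, one_mul]
  · rw [Units.val_mul, mul_assoc, (comm_cancel (P := 1) hTu).eq, ← mul_assoc, hPu, mul_assoc]

/-- similitudes commuting with a regular unipotent element. -/
theorem sq_of_comm (h2 : (2 : F) ≠ 0) {n : ℕ} (hn : 2 * m = n + 1)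
    {u : Matrix (Fin m ⊕ Fin m) (Fin m ⊕ Fin m) F} (hu : sj u * u = 1)
    (h0 : (u - 1) ^ (2 * m) = 0) (h1 : (u - 1).rank = 2 * m - 1) {a : Matrix (Fin m ⊕ Fin m) (Fin m ⊕ Fin m) F} {d : F}
    (ha : sj a * a = d • 1) (hau : Commute a u) : ∃ c : F, d = c ^ 2 := by
  obtain ⟨y, hy, hy0, hy1, hyu⟩ := exists_y h2 hn hu h0 h1
  obtain ⟨C, _, _, _, σ, t, φ, hφ, hφt, hφr, hφσ, hσσ, hσF, hσt, ht0, H1, H2⟩ := transfer hn hy hy0 hy1
  obtain ⟨a', ha'⟩ := (hφr a).mp ((hyu a).mpr hau)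
  obtain ⟨c, a'', hc⟩ := dec H1 a'
  refine ⟨c, sq_const hσF hσt ht0 hc ?_⟩
  apply hφ
  rw [_root_.map_mul, hφσ, ha', ha, AlgHom.commutes, Algebra.algebraMap_eq_smul_one]

/-- a similitude of given multiplier. -/
theorem exists_simil (d : F) : sj (Matrix.fromBlocks (d • 1) 0 0 1 : Matrix (Fin m ⊕ Fin m) (Fin m ⊕ Fin m) F) *
    Matrix.fromBlocks (d • 1) 0 0 1 = d • 1 := by
  rw [sj, Matrix.J, Matrix.fromBlocks_transpose, Matrix.fromBlocks_multiply, Matrix.fromBlocks_multiply, Matrix.fromBlocks_neg,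
    Matrix.fromBlocks_multiply, ← Matrix.fromBlocks_one, Matrix.fromBlocks_smul]
  congr 1 <;> simp

theorem pow_conj {R : Type*} [Ring R] (P : Rˣ) {a b : R} (h : ↑P * a = b * P) (k : ℕ) : ↑P * a ^ k = b ^ k * P := by
  induction k with
  | zero => rw [pow_zero, pow_zero, mul_one, one_mul]
  | succ k ih => rw [pow_succ, ← mul_assoc, ih, mul_assoc, h, ← mul_assoc, ← pow_succ]

end Cfsg.Agent.H16.RU
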