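import Mathlib

set_option autoImplicit false

/-! Centralizers of semisimple elements contain elements of every determinant. -/

namespace Cfsg.Agent.H16.Ss

open Polynomial Module

variable {F : Type*} [Field F] {V : Type*} [AddCommGroup V] [Module F V] [FiniteDimensional F V]

/-- evaluation at a vector. -/
noncomputable def ev (T : End F V) (w : V) : F[X] →ₗ[F] V := (LinearMap.applyₗ w) ∘ₗ (aeval T).toLinearMap

omit [FiniteDimensional F V] in
theorem ev_apply (T : End F V) (w : V) (p : F[X]) : ev T w p = aeval T p w := rfl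

theorem exists_line [Nontrivial V] (T : End F V) : ∃ (π : F[X]) (w : V), Irreducible π ∧ w ≠ 0 ∧ aeval T π w = 0 := by
  have h0 : minpoly F T ≠ 0 := minpoly.ne_zero (Algebra.IsIntegral.isIntegral T)
  have h1 : ¬ IsUnit (minpoly F T) := minpoly.not_isUnit F T
  obtain ⟨π, hπ, r, hr⟩ := WfDvdMonoid.exists_irreducible_factor h1 h0
  have hr0 : aeval T r ≠ 0 := by
    intro h
    have h2 := minpoly.dvd F T h
    rw [hr] at h2
    have hr1 : r ≠ 0 := by rintro rfl; exact h0 (by rw [hr, mul_zero])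
    obtain ⟨s, hs⟩ := h2
    have h3 : r * 1 = r * (π * s) := by rw [mul_one]; calc r = π * r * s := hs
      _ = r * (π * s) := by ring
    have h4 := mul_left_cancel₀ hr1 h3
    exact hπ.not_isUnit (IsUnit.of_mul_eq_one s h4.symm)
  obtain ⟨v, hv⟩ : ∃ v, aeval T r v ≠ 0 := by
    by_contra hcon
    push Not at hcon
    exact hr0 (LinearMap.ext hcon)
  refine ⟨π, aeval T r v, hπ, hv, ?_⟩
  rw [← Module.End.mul_apply, ← _root_.map_mul, ← hr, minpoly.aeval, LinearMap.zero_apply]

theorem exists_cent_det [Finite F] [Nontrivial V] (T : End F V) (hT : T.IsSemisimple) {c : F} (hc : c ≠ 0) :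
    ∃ u : End F V, Commute u T ∧ LinearMap.det u = c := by
  obtain ⟨π, w, hπ, hw, hπw⟩ := exists_line T
  have hfact : Fact (Irreducible π) := ⟨hπ⟩
  set W := LinearMap.range (ev T w) with hW
  have hWT : ∀ v ∈ W, T v ∈ W := by
    rintro _ ⟨p, rfl⟩
    refine ⟨X * p, ?_⟩
    rw [ev_apply, _root_.map_mul, aeval_X]
    rfl
  let TW : End F W := T.restrict hWT
  have hTWc : ∀ (p : F[X]) (v : W), ((aeval TW p v : W) : V) = aeval T p (v : V) := by
    intro p
    induction p using Polynomial.induction_on' with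
    | add p q hp hq =>
      intro v
      rw [_root_.map_add, _root_.map_add, LinearMap.add_apply, LinearMap.add_apply, Submodule.coe_add, hp, hq]
    | monomial k a =>
      intro v
      rw [aeval_monomial, aeval_monomial, Module.End.mul_apply, Module.End.mul_apply]
      have : ∀ k : ℕ, (((TW ^ k) v : W) : V) = (T ^ k) (v : V) := by
        intro k
        induction k with
        | zero => rfl
        | succ k ih =>
          rw [pow_succ', pow_succ', Module.End.mul_apply, Module.End.mul_apply, ← ih]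
          rfl
      rw [← this]
      rfl
  have hTW : aeval TW π = 0 := by
    apply LinearMap.ext
    rintro ⟨_, p, rfl⟩
    apply Subtype.ext
    rw [hTWc]
    change aeval T π (ev T w p) = 0
    rw [ev_apply, ← Module.End.mul_apply, ← _root_.map_mul, mul_comm, _root_.map_mul, Module.End.mul_apply, hπw, _root_.map_zero]
  let ρ : AdjoinRoot π →ₐ[F] End F W := Ideal.Quotient.liftₐ (Ideal.span {π}) (aeval TW) (by
    intro a ha
    obtain ⟨b, rfl⟩ := Ideal.mem_span_singleton.mp ha
    rw [_root_.map_mul, hTW, zero_mul])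
  have hρ : ∀ p, ρ (AdjoinRoot.mk π p) = aeval TW p := fun p => rfl
  have hwW : w ∈ W := ⟨1, by rw [ev_apply, _root_.map_one]; rfl⟩
  let wW : W := ⟨w, hwW⟩
  have hwW0 : wW ≠ 0 := fun h => hw (congrArg Subtype.val h)
  let e : AdjoinRoot π →ₗ[F] W := (LinearMap.applyₗ wW) ∘ₗ ρ.toLinearMap
  have he : ∀ k, e k = ρ k wW := fun k => rfl
  have hinj : Function.Injective e := by
    rw [injective_iff_map_eq_zero]
    intro k hk
    by_contra hk0
    apply hwW0
    have h1 : ρ (k⁻¹ * k) wW = wW := by rw [inv_mul_cancel₀ hk0, _root_.map_one]; rfl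
    rw [← h1, _root_.map_mul, Module.End.mul_apply, ← he, hk, _root_.map_zero]
  have hsurj : Function.Surjective e := by
    rintro ⟨_, p, rfl⟩
    refine ⟨AdjoinRoot.mk π p, ?_⟩
    apply Subtype.ext
    rw [he, hρ, hTWc]
    rfl
  let E : AdjoinRoot π ≃ₗ[F] W := LinearEquiv.ofBijective e ⟨hinj, hsurj⟩
  have hE : ∀ k, E k = ρ k wW := fun k => rfl
  have hfin1 : Module.Finite F (AdjoinRoot π) := Module.Finite.equiv E.symm
  have hfin2 : Finite (AdjoinRoot π) := Module.finite_of_finite F
  obtain ⟨k, hk⟩ := FiniteField.norm_surjective F (AdjoinRoot π) c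
  have hdet : LinearMap.det (ρ k) = c := by
    rw [← hk, Algebra.norm_apply, ← LinearMap.det_conj (Algebra.lmul F (AdjoinRoot π) k) E]
    congr 1
    apply LinearMap.ext
    intro v
    obtain ⟨l, rfl⟩ := E.surjective v
    rw [LinearMap.comp_apply, LinearMap.comp_apply, LinearEquiv.coe_coe, LinearEquiv.coe_coe, LinearEquiv.symm_apply_apply]
    change _ = E (k * l)
    rw [hE, hE, _root_.map_mul, Module.End.mul_apply]
  obtain ⟨W', hW', hcompl⟩ := Module.End.isSemisimple_iff.mp hT W hWT
  let φ := Submodule.prodEquivOfIsCompl W W' hcompl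
  have hφ : ∀ x : W × W', φ x = (x.1 : V) + (x.2 : V) := fun x => Submodule.coe_prodEquivOfIsCompl' W W' hcompl x
  refine ⟨(φ : (W × W') →ₗ[F] V) ∘ₗ ((ρ k).prodMap LinearMap.id) ∘ₗ (φ.symm : V →ₗ[F] (W × W')), ?_, ?_⟩
  · have hU : ∀ a b, ((φ : (W × W') →ₗ[F] V) ∘ₗ ((ρ k).prodMap LinearMap.id) ∘ₗ (φ.symm : V →ₗ[F] (W × W'))) (φ (a, b)) =
        φ (ρ k a, b) := by
      intro a b
      rw [LinearMap.comp_apply, LinearMap.comp_apply, LinearEquiv.coe_coe, LinearEquiv.coe_coe, LinearEquiv.symm_apply_apply]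
      rfl
    apply LinearMap.ext
    intro v
    obtain ⟨⟨a, b⟩, rfl⟩ := φ.surjective v
    rw [Module.End.mul_apply, Module.End.mul_apply, hU]
    have h1 : T (φ (a, b)) = φ (TW a, ⟨T b, hW' b.2⟩) := by
      rw [hφ, hφ, _root_.map_add]
      rfl
    have hcomm : ρ k (TW a) = TW (ρ k a) := by
      have h2 : ρ (AdjoinRoot.mk π X) = TW := by rw [hρ, aeval_X]
      rw [← h2, ← Module.End.mul_apply, ← Module.End.mul_apply, ← _root_.map_mul, ← _root_.map_mul, mul_comm]
    rw [h1, hU, hφ, hφ, hcomm, _root_.map_add]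
    rfl
  · rw [LinearMap.det_conj, LinearMap.det_prodMap, hdet, LinearMap.det_id, mul_one]

/-- matrices. -/
theorem exists_mat [Finite F] {n : ℕ} (hn : 1 ≤ n) (x : Matrix.GeneralLinearGroup (Fin n) F)
    (hx : Module.End.IsSemisimple (Matrix.toLin' (x : Matrix (Fin n) (Fin n) F))) (c : Fˣ) :
    ∃ u : Matrix.GeneralLinearGroup (Fin n) F, u * x = x * u ∧ (u : Matrix (Fin n) (Fin n) F).det = c := by
  have : Nonempty (Fin n) := ⟨⟨0, by omega⟩⟩
  obtain ⟨u, hu, hd⟩ := exists_cent_det _ hx c.ne_zero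
  have hd' : (LinearMap.toMatrix' u).det = (c : F) := by rw [LinearMap.det_toMatrix', hd]
  refine ⟨Matrix.GeneralLinearGroup.mkOfDetNeZero (LinearMap.toMatrix' u) (by rw [hd']; exact c.ne_zero), ?_, hd'⟩
  apply Units.ext
  change LinearMap.toMatrix' u * (x : Matrix (Fin n) (Fin n) F) = (x : Matrix (Fin n) (Fin n) F) * LinearMap.toMatrix' u
  have h1 := congrArg LinearMap.toMatrix' hu.eq
  rwa [LinearMap.toMatrix'_mul, LinearMap.toMatrix'_mul, LinearMap.toMatrix'_toLin'] at h1

theorem semisimple_of_order {p : ℕ} [Fact p.Prime] [CharP F p] {n : ℕ} (x : Matrix.GeneralLinearGroup (Fin n) F)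
    (hx0 : orderOf x ≠ 0) (hx : (orderOf x).Coprime p) : Module.End.IsSemisimple (Matrix.toLin' (x : Matrix (Fin n) (Fin n) F)) := by
  refine Module.End.isSemisimple_of_squarefree_aeval_eq_zero (p := X ^ (orderOf x) - 1) ?_ ?_
  · apply Polynomial.Separable.squarefree
    have h1 : ((orderOf x : ℕ) : F) ≠ 0 := by
      intro h
      rw [CharP.cast_eq_zero_iff F p] at h
      have h2 := (Nat.Coprime.eq_one_of_dvd hx.symm h)
      exact (Fact.out : p.Prime).one_lt.ne' h2
    have := separable_X_pow_sub_C (1 : F) h1 one_ne_zero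
    rwa [C_1] at this
  · rw [_root_.map_sub, _root_.map_pow, aeval_X, _root_.map_one, ← Matrix.toLin'_pow]
    have h1 : (x : Matrix (Fin n) (Fin n) F) ^ orderOf x = 1 := by
      rw [← Units.val_pow_eq_pow_val, pow_orderOf_eq_one, Units.val_one]
    rw [h1, Matrix.toLin'_one]
    exact sub_self _

end Cfsg.Agent.H16.Ss
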