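import Cfsg.Agent.H25_SLc
import Cfsg.Agent.H3_CharQuot
import Cfsg.Agent.H3_CharMult

/-! Descending defect zero characters to central quotients. -/

set_option autoImplicit false
set_option linter.unusedSectionVars false

namespace Cfsg.Agent.H16.St

open Cfsg Cfsg.Agent.H25.Whi Cfsg.Agent.H3.CharIrr Cfsg.Agent.H3.CharInd Cfsg.Agent.H3.CharComplete

/-- An irreducible character of degree `|G|_p` trivial on a normal `p'`-subgroup gives a Steinberg character
of the quotient. -/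
theorem descend {G : Type*} [Group G] [Finite G] (p : ℕ) [hp : Fact p.Prime] (N : Subgroup G) [hN : N.Normal]
    (hpN : ¬ p ∣ Nat.card N) {χ : G → ℂ} (hχ : IsIrrCharacter G χ)
    (hd : χ 1 = ((p ^ (Nat.card G).factorization p : ℕ) : ℂ)) (hk : ∀ n ∈ N, χ n = χ 1) :
    ∃ χ' : G ⧸ N → ℂ, IsIrrCharacter (G ⧸ N) χ' ∧ ∀ P : Sylow p (G ⧸ N), χ' 1 = Nat.card P ∧
      ∀ x : G ⧸ N, x ∈ P → x ≠ 1 → χ' x = 0 := by
  classical
  obtain ⟨χ', hχ', hv⟩ := Cfsg.Agent.H3.CharQuot.IsIrr.descend hχ N hk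
  have hcard : (Nat.card G).factorization p = (Nat.card (G ⧸ N)).factorization p := by
    rw [N.card_eq_card_quotient_mul_card_subgroup, Nat.factorization_mul Nat.card_pos.ne' Nat.card_pos.ne']
    rw [Finsupp.add_apply, Nat.factorization_eq_zero_of_not_dvd hpN, add_zero]
  have h1 : χ' 1 = ((p ^ (Nat.card (G ⧸ N)).factorization p : ℕ) : ℂ) := by
    rw [← hcard, ← hd, ← hv 1]; rfl
  haveI : Fintype (G ⧸ N) := Fintype.ofFinite _
  refine ⟨χ', hχ', fun P => ⟨?_, ?_⟩⟩
  · rw [h1, P.card_eq_multiplicity]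
  · intro x hx hx1
    have hpx : p ∣ orderOf x := by
      obtain ⟨k, hk⟩ := P.isPGroup' ⟨x, hx⟩
      have hk' : x ^ p ^ k = 1 := by
        have := congrArg (fun y : P => (y : G ⧸ N)) hk
        simpa using this
      obtain ⟨j, hj, hj'⟩ := (Nat.dvd_prime_pow hp.out).1 (orderOf_dvd_of_pow_eq_one hk')
      have hj0 : j ≠ 0 := by
        rintro rfl
        rw [pow_zero, orderOf_eq_one_iff] at hj'
        exact hx1 hj'
      rw [hj']
      exact dvd_pow_self p hj0
    have hpG : p ∣ Nat.card (G ⧸ N) := hpx.trans (orderOf_dvd_natCard x)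
    exact vanish hpG ⟨hχ', 1, by rw [mul_one]; exact h1⟩ hpx

/-- If the degree of a character agrees with that of an irreducible constituent, they are equal. -/
theorem eq_of_constituent {G : Type*} [Group G] [Fintype G] {χ ψ : G → ℂ} (h : IsCharacter G χ) (hψ : IsIrrCharacter G ψ)
    (h0 : classInner χ ψ ≠ 0) (h1 : χ 1 = ψ 1) : χ = ψ := by
  obtain ⟨n, hn⟩ := ci_char_nat h (IsIrr.isCharacter hψ)
  have hn0 : 1 ≤ n := by
    rcases Nat.eq_zero_or_pos n with h2 | h2
    · rw [h2] at hn; exact absurd (by simpa using hn) h0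
    · exact h2
  have h3 := Cfsg.Agent.H3.CharMult.IsChar.sub_constituent h hψ hn hn0
  funext g
  have h4 := IsChar.norm_le h3 g
  have h5 : (χ - ((1 : ℕ) : ℂ) • ψ) 1 = 0 := by simp [h1]
  rw [h5, Complex.zero_re] at h4
  have h6 : (χ - ((1 : ℕ) : ℂ) • ψ) g = 0 := norm_le_zero_iff.1 h4
  have h7 : χ g - ψ g = 0 := by simpa using h6
  exact sub_eq_zero.1 h7

end Cfsg.Agent.H16.St
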