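import Cfsg.Agent.H16_St9
import Cfsg.Agent.H5_Scalar
import Cfsg.Agent.H5_FrmAniso

/-! Numerics for the Steinberg characters. -/

set_option autoImplicit false
set_option linter.unusedSectionVars false

namespace Cfsg.Agent.H16.St

open Cfsg Cfsg.Agent.H5 Module

theorem prodP (q κ m a : ℕ) : (∏ j ∈ Finset.range m, (q ^ (2 * j + a) * κ)) * (q ^ (m + 1)) ^ m = (q ^ (2 * m + a) * κ) ^ m := by
  rw [Finset.prod_mul_distrib, Finset.prod_const, Finset.card_range, Finset.prod_pow_eq_pow_sum, mul_pow, mul_right_comm]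
  congr 1
  rw [← pow_mul, ← pow_mul, ← pow_add]
  congr 1
  induction m with
  | zero => simp
  | succ m ih =>
    rw [Finset.sum_range_succ]
    have : (m + 1 + 1) * (m + 1) = (m + 1) * m + 2 * (m + 1) := by ring
    rw [this]
    have h2 : (2 * (m + 1) + a) * (m + 1) = (2 * m + a) * m + (4 * m + 2 + a) := by ring
    rw [h2, ← ih]
    ring

theorem fact_of {p : ℕ} (hp : p.Prime) {N R j : ℕ} (hN : N = p ^ j * R) (hR : ¬ p ∣ R) : p ^ N.factorization p = p ^ j := by
  have hR0 : R ≠ 0 := by rintro rfl; exact hR (dvd_zero p)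
  rw [hN, Nat.factorization_mul (pow_pos hp.pos j).ne' hR0, Finsupp.add_apply, Nat.factorization_eq_zero_of_not_dvd hR, hp.factorization_pow]
  simp

theorem not_dvd_pred {p q f : ℕ} (hp : p.Prime) (hq : q = p ^ f) {n : ℕ} (hf : 0 < f) (hn : 0 < n) : ¬ p ∣ q ^ n - 1 := by
  intro h
  have h1 : p ∣ q ^ n := by rw [hq, ← pow_mul]; exact dvd_pow_self p (Nat.mul_pos hf hn).ne'
  have h2 : 1 ≤ q ^ n := Nat.one_le_pow _ _ (by rw [hq]; exact pow_pos hp.pos f)
  have h3 := Nat.dvd_sub h1 h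
  rw [Nat.sub_sub_self h2] at h3
  exact hp.one_lt.ne' (Nat.dvd_one.1 h3)

theorem hN_of {p q κ f k' : ℕ} (hp : p.Prime) (hq : q = p ^ f) (hκ : κ = p ^ k') (m a : ℕ) {N R : ℕ}
    (hN : N = (∏ j ∈ Finset.range m, (q ^ (2 * j + a) * κ)) * R) (hR : ¬ p ∣ R) :
    p ^ N.factorization p * (q ^ (m + 1)) ^ m = (q ^ (2 * m + a) * κ) ^ m := by
  rw [← prodP]
  congr 1
  have h1 : ∃ j, (∏ j ∈ Finset.range m, (q ^ (2 * j + a) * κ)) = p ^ j := by
    rw [hq, hκ]
    refine ⟨∑ j ∈ Finset.range m, (f * (2 * j + a) + k'), ?_⟩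
    rw [← Finset.prod_pow_eq_pow_sum]
    refine Finset.prod_congr rfl fun j _ => ?_
    rw [← pow_mul, ← pow_add]
  obtain ⟨j, hj⟩ := h1
  rw [hj] at hN ⊢
  exact fact_of hp hN hR

theorem ordProd_split (q κ a m : ℕ) : Frm.ordProd q κ a m = (∏ j ∈ Finset.range m, (q ^ (2 * j + a) * κ)) *
    ∏ j ∈ Finset.range m, ((q ^ (j + 1) - 1) * (1 + κ * q ^ (j + a))) := by
  unfold Frm.ordProd
  rw [← Finset.prod_mul_distrib]
  refine Finset.prod_congr rfl fun j _ => ?_
  ring

theorem not_dvd_R {p q κ f : ℕ} (hp : p.Prime) (hq : q = p ^ f) (hf : 0 < f) (m a : ℕ) (h : ∀ j, p ∣ κ * q ^ (j + a)) :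
    ¬ p ∣ ∏ j ∈ Finset.range m, ((q ^ (j + 1) - 1) * (1 + κ * q ^ (j + a))) := by
  rw [Prime.dvd_finset_prod_iff hp.prime]
  rintro ⟨j, -, hj⟩
  rcases (hp.dvd_mul).1 hj with h1 | h1
  · exact not_dvd_pred hp hq hf (Nat.succ_pos j) h1
  · have h2 := (Nat.dvd_add_left (h j)).1 h1
    exact hp.one_lt.ne' (Nat.dvd_one.1 h2)

/-- a linear automorphism stabilising all lines is a scalar -/
theorem scalar_of_lines {F : Type*} [Field F] {V : Type*} [AddCommGroup V] [Module F V] (g : V →ₗ[F] V)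
    (h : ∀ v, ∃ b : F, g v = b • v) : ∃ b : F, ∀ v, g v = b • v := by
  by_cases hV : ∃ v : V, v ≠ 0
  · obtain ⟨v, hv⟩ := hV
    obtain ⟨b, hb⟩ := h v
    refine ⟨b, fun w => ?_⟩
    obtain ⟨c, hc⟩ := h w
    by_cases hli : LinearIndependent F ![v, w]
    · obtain ⟨d, hd⟩ := h (v + w)
      rw [map_add, hb, hc, smul_add] at hd
      have h1 : (b - d) • v + (c - d) • w = 0 := by
        rw [sub_smul, sub_smul]
        have : b • v + c • w - (d • v + d • w) = 0 := sub_eq_zero.2 hd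
        rw [← this]; abel
      obtain ⟨h2, h3⟩ := LinearIndependent.pair_iff.1 hli _ _ h1
      rw [hc, sub_eq_zero.1 h3, sub_eq_zero.1 h2]
    · rw [LinearIndependent.pair_iff] at hli
      push Not at hli
      obtain ⟨s, t, hst, hne⟩ := hli
      by_cases ht : t = 0
      · rw [ht, zero_smul, add_zero] at hst
        have hs : s = 0 := (smul_eq_zero.1 hst).resolve_right hv
        exact absurd ht (hne hs)
      · have h1 : w = (-(t⁻¹ * s)) • v := by
          have h2 : t • w = -(s • v) := eq_neg_of_add_eq_zero_right hst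
          have h3 : w = t⁻¹ • (t • w) := (inv_smul_smul₀ ht w).symm
          rw [h3, h2, smul_neg, smul_smul, neg_smul]
        rw [h1, map_smul, hb, smul_comm]
  · push Not at hV
    exact ⟨0, fun v => by rw [hV v, map_zero, smul_zero]⟩

end Cfsg.Agent.H16.St
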