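import Cfsg.Agent.H16_St10
import Cfsg.Agent.H5_OmCard
import Cfsg.Agent.H5_QuadC
import Cfsg.Agent.H5_Quad

/-! Steinberg characters of the orthogonal groups. -/

set_option autoImplicit false
set_option linter.unusedSectionVars false

namespace Cfsg.Agent.H16.St

open Cfsg Cfsg.Agent.H5 Cfsg.Agent.H16.Quad Module Matrix
open QuadraticMap (polar)

section Lin

variable {F : Type*} [Field F] {σ : F →+* F} {ε : F} {t : F →+ F} {V : Type*}
  [AddCommGroup V] [Module F V] {A : Frm F σ ε t V} {m : ℕ}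

/-- a `p`-element acting on the anisotropic plane has small rank -/
theorem range_lt [FiniteDimensional F V] {p : ℕ} [hp : Fact p.Prime] [CharP F p] {e f : Fin m → V} (h : Fr A e f) {a : ℕ} (ha : 0 < a)
    (hd : finrank F V = 2 * m + a) {g : A.isom} (hfix : ∀ i, (g : V ≃ₗ[F] V) (e i) = e i ∧ (g : V ≃ₗ[F] V) (f i) = f i)
    (hk : ∃ k : ℕ, g ^ p ^ k = 1) :
    finrank F (LinearMap.range ((g : V ≃ₗ[F] V).toLinearMap - LinearMap.id)) < a := by
  set N : V →ₗ[F] V := (g : V ≃ₗ[F] V).toLinearMap - LinearMap.id with hN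
  have hNx : ∀ x, N x = (g : V ≃ₗ[F] V) x - x := fun x => rfl
  have hpp := finrank_pp h hd
  have hinv : ∀ w ∈ pp A e f, N w ∈ pp A e f := fun w hw => Submodule.sub_mem _ (pp_inv hfix hw) hw
  have hran : LinearMap.range N = LinearMap.range (N.domRestrict (pp A e f)) := by
    apply le_antisymm
    · rintro _ ⟨v, rfl⟩
      obtain ⟨x, y, w, hw1, hw2, rfl⟩ := h.dec v
      refine ⟨⟨w, mem_pp.2 ⟨hw1, hw2⟩⟩, ?_⟩
      rw [LinearMap.domRestrict_apply, _root_.map_add, _root_.map_add, map_sum, map_sum]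
      have h1 : ∀ i, N (x i • e i) = 0 := fun i => by rw [_root_.map_smul, hNx, (hfix i).1, sub_self, smul_zero]
      have h2 : ∀ i, N (y i • f i) = 0 := fun i => by rw [_root_.map_smul, hNx, (hfix i).2, sub_self, smul_zero]
      rw [Finset.sum_congr rfl fun i _ => h1 i, Finset.sum_congr rfl fun i _ => h2 i]
      simp
    · rintro _ ⟨w, rfl⟩
      exact ⟨w, rfl⟩
  rw [hran]
  have h1 := LinearMap.finrank_range_add_finrank_ker (N.domRestrict (pp A e f))
  rw [hpp] at h1
  have h2 : 0 < finrank F (LinearMap.ker (N.domRestrict (pp A e f))) := by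
    -- nilpotency
    obtain ⟨k, hk⟩ := hk
    have hnil : ∀ x, (N ^ p ^ k) x = 0 := by
      haveI : CharP (Module.End F V) p := by
        haveI : Nontrivial V := Module.nontrivial_of_finrank_pos (R := F) (by omega)
        exact charP_of_injective_algebraMap (algebraMap F (Module.End F V)).injective p
      have h3 : N ^ p ^ k = ((g : V ≃ₗ[F] V).toLinearMap : Module.End F V) ^ p ^ k - 1 := by
        have h4 : N = ((g : V ≃ₗ[F] V).toLinearMap : Module.End F V) - 1 := rfl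
        rw [h4, sub_pow_char_pow_of_commute _ _ (Commute.one_right _), one_pow]
      have h5 : ∀ n : ℕ, ∀ x, (((g : V ≃ₗ[F] V).toLinearMap : Module.End F V) ^ n) x = ((g ^ n : A.isom) : V ≃ₗ[F] V) x := by
        intro n
        induction n with
        | zero => intro x; rw [pow_zero, pow_zero]; rfl
        | succ n ih =>
          intro x
          rw [pow_succ', pow_succ', Module.End.mul_apply, ih]; rfl
      intro x
      rw [h3, LinearMap.sub_apply, h5, hk]
      exact sub_self _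
    obtain ⟨w, hw, hw0⟩ : ∃ w ∈ pp A e f, w ≠ 0 := by
      by_contra hcon
      push Not at hcon
      have : pp A e f = ⊥ := (Submodule.eq_bot_iff _).2 hcon
      rw [this, finrank_bot] at hpp
      omega
    classical
    have hex : ∃ n, (N ^ n) w = 0 := ⟨_, hnil w⟩
    have h3 := Nat.find_spec hex
    have h4 : Nat.find hex ≠ 0 := by
      intro h5
      rw [h5, pow_zero] at h3
      exact hw0 h3
    obtain ⟨n, hn⟩ := Nat.exists_eq_succ_of_ne_zero h4
    have h5 : (N ^ n) w ≠ 0 := Nat.find_min hex (by omega)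
    have h6 : ∀ n, (N ^ n) w ∈ pp A e f := by
      intro n
      induction n with
      | zero => exact hw
      | succ n ih => rw [pow_succ', Module.End.mul_apply]; exact hinv _ ih
    rw [hn, pow_succ', Module.End.mul_apply] at h3
    refine Module.finrank_pos_iff_exists_ne_zero.2 ⟨⟨⟨(N ^ n) w, h6 n⟩, ?_⟩, ?_⟩
    · rw [LinearMap.mem_ker, LinearMap.domRestrict_apply]
      exact h3
    · intro h7
      apply h5
      have := congrArg (fun z : LinearMap.ker (N.domRestrict (pp A e f)) => ((z : pp A e f) : V)) h7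
      exact this
  omega

end Lin

variable {F : Type*} [Field F] [Fintype F] {ι : Type} [Fintype ι] [DecidableEq ι] {Q : QuadraticForm F (ι → F)}

/-- the isometry group -/
def oE (Q : QuadraticForm F (ι → F)) : Cfsg.isometryGroup F ⇑Q ≃* (Frm.ofQuad Q).isom := Conc.orthEquiv Q ⇑Q (fun _ => rfl)

theorem oE_apply (g : Cfsg.isometryGroup F ⇑Q) (v : ι → F) :
    ((oE Q g : (Frm.ofQuad Q).isom) : (ι → F) ≃ₗ[F] (ι → F)) v = ((g : GL ι F) : Matrix ι ι F) *ᵥ v := rfl

theorem toOG_eq (g : Cfsg.isometryGroup F ⇑Q) : ((toOG Q g : OG Q) : (ι → F) ≃ₗ[F] (ι → F)) = ((oE Q g : (Frm.ofQuad Q).isom) : (ι → F) ≃ₗ[F] (ι → F)) := by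
  apply LinearEquiv.ext
  intro v
  rw [oE_apply, toOG_apply]

/-- the image of `Ω` -/
def GO (Q : QuadraticForm F (ι → F)) : Subgroup (Frm.ofQuad Q).isom := (Cfsg.Omega F ⇑Q).map (oE Q).toMonoidHom

instance : (GO Q).Normal := Subgroup.Normal.map inferInstance _ (oE Q).surjective

theorem mem_GO {g : Cfsg.isometryGroup F ⇑Q} : oE Q g ∈ GO Q ↔ g ∈ Cfsg.Omega F ⇑Q := by
  constructor
  · rintro ⟨x, hx, hxg⟩
    have : x = g := (oE Q).injective hxg
    exact this ▸ hx
  · intro h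
    exact ⟨g, h, rfl⟩

/-- the isomorphism with the image -/
noncomputable def oφ (Q : QuadraticForm F (ι → F)) : Cfsg.Omega F ⇑Q ≃* GO Q :=
  (Cfsg.Omega F ⇑Q).equivMapOfInjective _ (oE Q).injective

theorem oφ_apply (g : Cfsg.Omega F ⇑Q) : ((oφ Q g : GO Q) : (Frm.ofQuad Q).isom) = oE Q g := rfl

theorem even_rank (hQ : (QuadraticMap.polarBilin Q).Nondegenerate) (h5 : 5 ≤ Fintype.card ι) {g : (Frm.ofQuad Q).isom} (hg : g ∈ GO Q) :
    Even (finrank F (LinearMap.range ((g : (ι → F) ≃ₗ[F] (ι → F)).toLinearMap - LinearMap.id))) := by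
  obtain ⟨x, hx, rfl⟩ := hg
  obtain ⟨δ, θ, h3, h4, -, -, h6⟩ := iso_chars hQ (Or.inr (by rw [Module.finrank_fintype_fun_eq_card]; omega))
  have h7 := h6 x
  rw [((h4 x).1 hx).1] at h7
  have h8 : fixS (toOG Q x).1 = LinearMap.ker (((oE Q x : (Frm.ofQuad Q).isom) : (ι → F) ≃ₗ[F] (ι → F)).toLinearMap - LinearMap.id) := by
    rw [fixS, toOG_eq]
  have h9 := LinearMap.finrank_range_add_finrank_ker (((oE Q x : (Frm.ofQuad Q).isom) : (ι → F) ≃ₗ[F] (ι → F)).toLinearMap - LinearMap.id)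
  rw [h8, ← h9] at h7
  rcases Nat.even_or_odd (finrank F (LinearMap.range (((oE Q x : (Frm.ofQuad Q).isom) : (ι → F) ≃ₗ[F] (ι → F)).toLinearMap - LinearMap.id))) with h | h
  · exact h
  · exfalso
    obtain ⟨j, hj⟩ := h
    rw [hj] at h7
    have : (-1 : ℤˣ) ^ (2 * j + 1 + finrank F (LinearMap.ker (((oE Q x : (Frm.ofQuad Q).isom) : (ι → F) ≃ₗ[F] (ι → F)).toLinearMap - LinearMap.id)) +
      finrank F (LinearMap.ker (((oE Q x : (Frm.ofQuad Q).isom) : (ι → F) ≃ₗ[F] (ι → F)).toLinearMap - LinearMap.id))) = -1 := by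
      rw [add_assoc, ← two_mul, pow_add, pow_add, pow_mul, pow_mul]
      simp
    rw [this] at h7
    exact absurd h7 (by decide)

theorem torus_O (hQ : (QuadraticMap.polarBilin Q).Nondegenerate) (h5 : 5 ≤ Fintype.card ι) {p : ℕ} [hp : Fact p.Prime] [CharP F p] {m a : ℕ} (ha : a ≤ 2)
    (hd : finrank F (ι → F) = 2 * m + a) {c c' : Cham (Frm.ofQuad Q) m} (hop : opk c m c') {g : (Frm.ofQuad Q).isom} (hgG : g ∈ GO Q)
    (hg : g • c = c) (hg' : g • c' = c') (hk : ∃ k : ℕ, g ^ p ^ k = 1) : g = 1 := by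
  rcases Nat.eq_zero_or_pos a with ha0 | ha0
  · exact torus_one (p := p) (by omega) hd hop hg hg' hk
  obtain ⟨e, f, h, hc, hc'⟩ := exists_frame hop
  have hfix := torus_fix (p := p) h hc hc' hg hg' hk
  have h1 := range_lt h ha0 hd hfix hk
  have h2 := even_rank hQ h5 hgG
  obtain ⟨j, hj⟩ := h2
  have h3 : finrank F (LinearMap.range ((g : (ι → F) ≃ₗ[F] (ι → F)).toLinearMap - LinearMap.id)) = 0 := by omega
  rw [Submodule.finrank_eq_zero, LinearMap.range_eq_bot, sub_eq_zero] at h3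
  apply Subtype.ext
  apply LinearEquiv.ext
  intro v
  exact LinearMap.congr_fun h3 v

theorem hcen (hQ : (QuadraticMap.polarBilin Q).Nondegenerate) (h5 : 5 ≤ Fintype.card ι) (z : Cfsg.Omega F ⇑Q)
    (hz : z ∈ Subgroup.center (Cfsg.Omega F ⇑Q)) :
    ∃ b : F, ∀ x, (((oφ Q z : GO Q) : (Frm.ofQuad Q).isom) : (ι → F) ≃ₗ[F] (ι → F)) x = b • x := by
  rcases (H5.OmSim.center_cases hQ h5).1 hz with rfl | h1
  · refine ⟨1, fun x => ?_⟩
    rw [map_one, one_smul]; rfl
  · refine ⟨-1, fun x => ?_⟩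
    rw [oφ_apply, oE_apply, h1, Matrix.neg_mulVec, Matrix.one_mulVec, neg_smul, one_smul]

theorem index_GO : (GO Q).index = (Cfsg.Omega F ⇑Q).index := by
  rw [GO]
  exact Subgroup.index_map_equiv _ (oE Q)

theorem card_GO : Nat.card (GO Q) = Nat.card (Cfsg.Omega F ⇑Q) := (Nat.card_congr (oφ Q).toEquiv).symm

/-- odd characteristic -/
theorem orth_odd (hQ : (QuadraticMap.polarBilin Q).Nondegenerate) (h5 : 5 ≤ Fintype.card ι) (p : ℕ) [hp : Fact p.Prime] [CharP F p] (hp2 : p ≠ 2)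
    {m a c : ℕ} (ha : a ≤ 2) (hW : Frm.WittDec m a (Frm.ofQuad Q))
    (hc : Nat.card (Frm.ofQuad Q).isom = Frm.ordProd (Fintype.card F) 1 a m * c) (hcp : ¬ p ∣ c) :
    ∃ χ : Cfsg.POmega F ⇑Q → ℂ, IsIrrCharacter (Cfsg.POmega F ⇑Q) χ ∧ ∀ P : Sylow p (Cfsg.POmega F ⇑Q),
      χ 1 = Nat.card P ∧ ∀ x : Cfsg.POmega F ⇑Q, x ∈ P → x ≠ 1 → χ x = 0 := by
  classical
  obtain ⟨f, hpf, hf⟩ := FiniteField.card F p
  have h2 : (2 : F) ≠ 0 := by
    intro h
    apply hp2
    have h3 : p ∣ 2 := by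
      rw [← CharP.cast_eq_zero_iff F p]; exact_mod_cast h
    exact (Nat.prime_dvd_prime_iff_eq hpf Nat.prime_two).1 h3
  have hnd : (Frm.ofQuad Q).Nondeg := Frm.nondeg_ofQuad hQ
  have hd := Frm.WittDec.finrank_eq m a _ hW
  haveI : Nonempty ι := Fintype.card_pos_iff.1 (by omega)
  haveI : Nontrivial (ι → F) := inferInstance
  haveI : Finite ((ι → F) ≃ₗ[F] (ι → F)) := Finite.of_injective (fun g => (g : (ι → F) → (ι → F))) DFunLike.coe_injective
  haveI : Finite (Frm.ofQuad Q).isom := inferInstance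
  have hidx : ¬ p ∣ (GO Q).index := by
    rw [index_GO, Omega_index_odd hQ h2 (by rw [Module.finrank_fintype_fun_eq_card]; omega)]
    intro h
    have : p ∣ 2 ^ 2 := h
    exact hp2 ((Nat.prime_dvd_prime_iff_eq hpf Nat.prime_two).1 (hpf.dvd_of_dvd_pow this))
  refine finish (A := Frm.ofQuad Q) p (oφ Q) (hcen hQ h5) ?_
  refine stein2 p hnd hW (GO Q) inferInstance hidx ?_ ?_
  · intro c c' hop g hgG hg hg' hk
    exact torus_O hQ h5 ha hd hop hgG hg hg' hk
  · have h1 : (Nat.card (GO Q)).factorization p = (Nat.card (Frm.ofQuad Q).isom).factorization p := by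
      have h6 := (GO Q).card_mul_index
      rw [← h6, Nat.factorization_mul Nat.card_pos.ne' (by
        intro h; rw [h] at hidx; exact hidx (dvd_zero p)), Finsupp.add_apply,
        Nat.factorization_eq_zero_of_not_dvd hidx, add_zero]
    rw [Frm.kt_id, h1]
    refine hN_of hpf hf (k' := 0) (pow_zero p).symm m a
      (R := (∏ j ∈ Finset.range m, ((Fintype.card F ^ (j + 1) - 1) * (1 + 1 * Fintype.card F ^ (j + a)))) * c) ?_ ?_
    · rw [← mul_assoc, ← ordProd_split, hc]
    · rw [hpf.dvd_mul]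
      rintro (h3 | h3)
      · rw [Prime.dvd_finset_prod_iff hpf.prime] at h3
        obtain ⟨j, -, hj⟩ := h3
        rcases (hpf.dvd_mul).1 hj with h1 | h1
        · exact not_dvd_pred hpf hf f.2 (Nat.succ_pos j) h1
        · rcases Nat.eq_zero_or_pos (j + a) with h4 | h4
          · rw [h4, pow_zero] at h1
            exact hp2 ((Nat.prime_dvd_prime_iff_eq hpf Nat.prime_two).1 h1)
          · have h6 : p ∣ 1 * Fintype.card F ^ (j + a) := by
              rw [one_mul, hf, ← pow_mul]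
              exact dvd_pow_self p (Nat.mul_pos f.2 h4).ne'
            exact hpf.one_lt.ne' (Nat.dvd_one.1 ((Nat.dvd_add_left h6).1 h1))
      · exact hcp h3

end Cfsg.Agent.H16.St
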