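import Cfsg.Agent.H16_St11

/-! Steinberg characters of the orthogonal groups in characteristic two. -/

set_option autoImplicit false
set_option linter.unusedSectionVars false

namespace Cfsg.Agent.H16.St

open Cfsg Cfsg.Agent.H5 Cfsg.Agent.H16.Quad Module Matrix
open QuadraticMap (polar)

variable {F : Type*} [Field F] [Fintype F] {ι : Type} [Fintype ι] [DecidableEq ι] {Q : QuadraticForm F (ι → F)}

/-- in characteristic two, stabilisers of maximal totally singular subspaces lie in `Ω` -/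
theorem mem_of_max (h20 : (2 : F) = 0) (hQ : (QuadraticMap.polarBilin Q).Nondegenerate) (h5 : 5 ≤ Fintype.card ι) {U : Submodule F (ι → F)} (hU : IsMax Q U)
    {g : (Frm.ofQuad Q).isom} (hg : U.map (g : (ι → F) ≃ₗ[F] (ι → F)).toLinearMap = U) : g ∈ GO Q := by
  obtain ⟨x, rfl⟩ := (oE Q).surjective g
  rw [mem_GO]
  have h : Nat.card F ≠ 2 ∨ finrank F (ι → F) ≠ 4 := Or.inr (by rw [Module.finrank_fintype_fun_eq_card]; omega)
  obtain ⟨vs, hvs, e1, -⟩ := iso_exists_list hQ h x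
  rw [mem_Omega_rpr_iff hQ h hvs e1]
  refine ⟨?_, isSquare_of_two_eq_zero h20 _⟩
  have h3 := parity_rprod hQ hU hU vs hvs
  rw [← coe_rpr, ← e1, toOG_eq, hg, inf_idem, ← two_mul] at h3
  rcases Nat.even_or_odd vs.length with h4 | h4
  · exact h4
  · exact absurd h3 (Nat.not_even_iff_odd.2 ((even_two_mul _).add_odd h4))

/-- reflections in vectors orthogonal to a frame -/
theorem exists_refl (hQ : (QuadraticMap.polarBilin Q).Nondegenerate) (h5 : 5 ≤ Fintype.card ι) {m : ℕ} {c c' : Cham (Frm.ofQuad Q) m}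
    {e f : Fin m → (ι → F)} (hc : Adp c e) (hc' : Adp c' f) {z : ι → F} (hz : Q z ≠ 0)
    (hze : ∀ i, polar Q (e i) z = 0) (hzf : ∀ i, polar Q (f i) z = 0) :
    ∃ r : (Frm.ofQuad Q).isom, r ∉ GO Q ∧ r • c = c ∧ r • c' = c' := by
  have h : Nat.card F ≠ 2 ∨ finrank F (ι → F) ≠ 4 := Or.inr (by rw [Module.finrank_fintype_fun_eq_card]; omega)
  obtain ⟨x, hx⟩ := iso_exists_refl (Q := Q) z
  have hval : ∀ v, ((oE Q x : (Frm.ofQuad Q).isom) : (ι → F) ≃ₗ[F] (ι → F)) v = v - ((Q z)⁻¹ * polar Q v z) • z := by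
    intro v
    rw [← toOG_eq, hx]
    exact refl_apply Q z v
  refine ⟨oE Q x, ?_, ?_, ?_⟩
  · rw [mem_GO, mem_Omega_rpr_iff hQ h (vs := [z]) (by simpa using hz) (by rw [hx]; simp [rpr])]
    rintro ⟨h1, -⟩
    simp at h1
  · refine (hc.smul (oE Q x)).unique ?_
    have : (fun i => ((oE Q x : (Frm.ofQuad Q).isom) : (ι → F) ≃ₗ[F] (ι → F)) (e i)) = e := by
      funext i
      rw [hval, hze, mul_zero, zero_smul, sub_zero]
    rw [this]; exact hc
  · refine (hc'.smul (oE Q x)).unique ?_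
    have : (fun i => ((oE Q x : (Frm.ofQuad Q).isom) : (ι → F) ≃ₗ[F] (ι → F)) (f i)) = f := by
      funext i
      rw [hval, hzf, mul_zero, zero_smul, sub_zero]
    rw [this]; exact hc'

/-- characteristic two -/
theorem orth_even (hQ : (QuadraticMap.polarBilin Q).Nondegenerate) (h5 : 5 ≤ Fintype.card ι) [CharP F 2]
    {m a R : ℕ} (ha : a = 0 ∨ a = 2) (hW : Frm.WittDec m a (Frm.ofQuad Q)) (han : a = 2 → ∀ c c' : Cham (Frm.ofQuad Q) m, opk c m c' →
      ∀ e f : Fin m → (ι → F), Fr (Frm.ofQuad Q) e f → ∃ z, Q z ≠ 0 ∧ (∀ i, polar Q (e i) z = 0) ∧ ∀ i, polar Q (f i) z = 0)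
    (hc : Nat.card (Frm.ofQuad Q).isom = 2 * ((∏ j ∈ Finset.range m, (Fintype.card F ^ (2 * j + a) * 1)) * R)) (hR : ¬ 2 ∣ R) :
    ∃ χ : Cfsg.POmega F ⇑Q → ℂ, IsIrrCharacter (Cfsg.POmega F ⇑Q) χ ∧ ∀ P : Sylow 2 (Cfsg.POmega F ⇑Q),
      χ 1 = Nat.card P ∧ ∀ x : Cfsg.POmega F ⇑Q, x ∈ P → x ≠ 1 → χ x = 0 := by
  classical
  haveI : Fact (Nat.Prime 2) := ⟨Nat.prime_two⟩
  obtain ⟨f, hpf, hf⟩ := FiniteField.card F 2
  have h20 : (2 : F) = 0 := CharTwo.two_eq_zero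
  have hnd : (Frm.ofQuad Q).Nondeg := Frm.nondeg_ofQuad hQ
  have hd := Frm.WittDec.finrank_eq m a _ hW
  haveI : Nonempty ι := Fintype.card_pos_iff.1 (by omega)
  haveI : Nontrivial (ι → F) := inferInstance
  haveI : Finite ((ι → F) ≃ₗ[F] (ι → F)) := Finite.of_injective (fun g => (g : (ι → F) → (ι → F))) DFunLike.coe_injective
  haveI : Finite (Frm.ofQuad Q).isom := inferInstance
  have h : Nat.card F ≠ 2 ∨ finrank F (ι → F) ≠ 4 := Or.inr (by rw [Module.finrank_fintype_fun_eq_card]; omega)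
  have hidx : (GO Q).index = 2 := by
    rw [index_GO, Omega_index_two hQ h20 (by rw [Module.finrank_fintype_fun_eq_card]; omega) h]
  refine finish (A := Frm.ofQuad Q) 2 (oφ Q) (hcen hQ h5) ?_
  refine stein 2 hnd hW (GO Q) inferInstance ?_ ?_ ?_
  · intro c c' c'' h1 h2
    obtain ⟨g, hg, hg'⟩ := trans_opp hnd h1 h2
    rcases ha with ha | ha
    · refine ⟨g, ?_, hg, hg'⟩
      apply mem_of_max h20 hQ h5 (U := c.W m) ⟨c.hQ, by rw [c.dim m le_rfl, hd, ha, add_zero]⟩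
      rw [← smul_W, hg]
    · by_cases hgG : g ∈ GO Q
      · exact ⟨g, hgG, hg, hg'⟩
      · obtain ⟨e, f, hF, he, hf⟩ := exists_frame h1
        obtain ⟨z, hz, hze, hzf⟩ := han ha c c' h1 e f hF
        obtain ⟨r, hr, hrc, hrc'⟩ := exists_refl hQ h5 he hf hz hze hzf
        refine ⟨g * r, ?_, ?_, ?_⟩
        · rw [Subgroup.mul_mem_iff_of_index_two hidx]
          exact ⟨fun h => absurd h hgG, fun h => absurd h hr⟩
        · rw [mul_smul, hrc, hg]
        · rw [mul_smul, hrc', hg']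
  · intro c c' hop g hgG hg hg' hk
    exact torus_O hQ h5 (a := a) (by omega) hd hop hgG hg hg' hk
  · rw [Frm.kt_id]
    refine hN_of hpf hf (k' := 0) (pow_zero 2).symm m a (R := R) ?_ hR
    have h6 := (GO Q).card_mul_index
    rw [hidx, hc, mul_comm 2] at h6
    exact Nat.eq_of_mul_eq_mul_right (by norm_num) h6

end Cfsg.Agent.H16.St
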