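import Cfsg.Agent.H16_St1
import Cfsg.Agent.H3_CharCalc

/-! Transport of Steinberg characters. -/

set_option autoImplicit false
set_option linter.unusedSectionVars false

namespace Cfsg.Agent.H16.St

open Cfsg Cfsg.Agent.H25.Whi Cfsg.Agent.H3.CharIrr Cfsg.Agent.H3.CharInd

variable (p : ℕ) [hp : Fact p.Prime]

/-- an irreducible character of degree the `p`-part of the order -/
def HD (p : ℕ) (G : Type*) [Group G] : Prop :=
  ∃ χ : G → ℂ, IsIrrCharacter G χ ∧ χ 1 = ((p ^ (Nat.card G).factorization p : ℕ) : ℂ)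

/-- Steinberg characters -/
def HS (p : ℕ) (G : Type*) [Group G] : Prop :=
  ∃ χ : G → ℂ, IsIrrCharacter G χ ∧ ∀ P : Sylow p G, χ 1 = Nat.card P ∧ ∀ x : G, x ∈ P → x ≠ 1 → χ x = 0

theorem HS.hd {G : Type*} [Group G] [Finite G] (h : HS p G) : HD p G := by
  obtain ⟨χ, hχ, h⟩ := h
  obtain ⟨P⟩ : Nonempty (Sylow p G) := inferInstance
  refine ⟨χ, hχ, ?_⟩
  rw [(h P).1, P.card_eq_multiplicity]

theorem HD.hs {G : Type*} [Group G] [Finite G] (h : HD p G) : HS p G := by
  classical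
  obtain ⟨χ, hχ, h1⟩ := h
  haveI : Fintype G := Fintype.ofFinite G
  refine ⟨χ, hχ, fun P => ⟨?_, ?_⟩⟩
  · rw [h1, P.card_eq_multiplicity]
  · intro x hx hx1
    have hpx : p ∣ orderOf x := by
      obtain ⟨k, hk⟩ := P.isPGroup' ⟨x, hx⟩
      have hk' : x ^ p ^ k = 1 := by
        have := congrArg (fun y : P => (y : G)) hk
        simpa using this
      obtain ⟨j, hj, hj'⟩ := (Nat.dvd_prime_pow hp.out).1 (orderOf_dvd_of_pow_eq_one hk')
      have hj0 : j ≠ 0 := by
        rintro rfl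
        rw [pow_zero, orderOf_eq_one_iff] at hj'
        exact hx1 hj'
      rw [hj']
      exact dvd_pow_self p hj0
    have hpG : p ∣ Nat.card G := hpx.trans (orderOf_dvd_natCard x)
    exact vanish hpG ⟨hχ, 1, by rw [mul_one]; exact h1⟩ hpx

theorem HD.congr {G H : Type*} [Group G] [Group H] (e : G ≃* H) (h : HD p H) : HD p G := by
  obtain ⟨χ, hχ, h1⟩ := h
  refine ⟨fun g => χ (e g), (isIrr_comp_iff e).2 hχ, ?_⟩
  beta_reduce
  rw [map_one, h1, Nat.card_congr e.toEquiv]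

theorem HD.prod {G H : Type*} [Group G] [Group H] [Finite G] [Finite H] (hG : HD p G) (hH : HD p H) : HD p (G × H) := by
  obtain ⟨χ, hχ, h1⟩ := hG
  obtain ⟨ψ, hψ, h2⟩ := hH
  refine ⟨_, Cfsg.Agent.H3.CharCalc.isIrr_prod hχ hψ, ?_⟩
  beta_reduce
  rw [Prod.fst_one, Prod.snd_one, h1, h2, Nat.card_prod, Nat.factorization_mul Nat.card_pos.ne' Nat.card_pos.ne', Finsupp.add_apply, pow_add]
  push_cast
  rfl

theorem HS.congr {G H : Type*} [Group G] [Group H] [Finite G] [Finite H] (e : G ≃* H) (h : HS p H) : HS p G :=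
  HD.hs p (HD.congr p e (HS.hd p h))

/-- the trivial group -/
theorem HS.of_card_one {G : Type*} [Group G] [Finite G] (h : Nat.card G = 1) : HS p G := by
  apply HD.hs
  have hfin : Fintype G := Fintype.ofFinite G
  obtain ⟨χ, hχ⟩ : ∃ χ : G → ℂ, IsIrrCharacter G χ := by
    obtain ⟨ψ, hψ, -⟩ := Cfsg.Agent.H3.CharInd.exists_constituent (G := G) (χ := fun _ => 1) IsChar.one (by
      intro h'
      have := congrFun h' 1
      exact one_ne_zero this)
    exact ⟨ψ, hψ⟩
  refine ⟨χ, hχ, ?_⟩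
  rw [h, Nat.factorization_one, Finsupp.zero_apply, pow_zero, Nat.cast_one]
  haveI := (Nat.card_eq_one_iff_unique.1 h).1
  exact Cfsg.Agent.H3.CharMult.IsIrr.one_of_comm (fun a b => Subsingleton.elim _ _) hχ

end Cfsg.Agent.H16.St
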