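import Cfsg.Agent.H16_St12
import Cfsg.Agent.H16_St13

/-! Small cases and anisotropic vectors. -/

set_option autoImplicit false
set_option linter.unusedSectionVars false

namespace Cfsg.Agent.H16.St

open Cfsg Cfsg.Agent.H5 Cfsg.Agent.H16.Quad Module Matrix
open QuadraticMap (polar)

/-- the sign of the dihedral group -/
def dsg (n : ℕ) : DihedralGroup n →* ℤˣ where
  toFun x := match x with
    | .r _ => 1
    | .sr _ => -1
  map_one' := rfl
  map_mul' x y := by
    rcases x with i | i <;> rcases y with j | j <;> rfl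

theorem card_one_of_dih {I : Type*} [Group I] [Finite I] {n : ℕ} (e : I ≃* DihedralGroup n) :
    Nat.card (commutator I ⧸ Subgroup.center (commutator I)) = 1 := by
  have hker : ∀ x ∈ commutator I, (dsg n) (e x) = 1 := by
    intro x hx
    have h1 : commutator I ≤ ((dsg n).comp e.toMonoidHom).ker := Abelianization.commutator_subset_ker _
    exact h1 hx
  have hc : ∀ x ∈ commutator I, ∀ y ∈ commutator I, x * y = y * x := by
    intro x hx y hy
    apply e.injective
    rw [_root_.map_mul, _root_.map_mul]
    have h1 := hker x hx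
    have h2 := hker y hy
    generalize e x = a at *
    generalize e y = b at *
    rcases a with i | i <;> rcases b with j | j
    · rw [DihedralGroup.r_mul_r, DihedralGroup.r_mul_r, add_comm]
    · exact absurd (show (-1 : ℤˣ) = 1 from h2) (by decide)
    · exact absurd (show (-1 : ℤˣ) = 1 from h1) (by decide)
    · exact absurd (show (-1 : ℤˣ) = 1 from h1) (by decide)
  have htop : Subgroup.center (commutator I) = ⊤ := by
    rw [eq_top_iff]
    intro x _
    rw [Subgroup.mem_center_iff]
    intro y
    exact Subtype.ext (hc _ y.2 _ x.2)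
  rw [← Subgroup.index_eq_card, htop, Subgroup.index_top]

/-- the complement of a frame is anisotropic -/
theorem aniso_frame {F : Type*} [Field F] {σ : F →+* F} {ε : F} {t : F →+ F} {V : Type*}
    [AddCommGroup V] [Module F V] [FiniteDimensional F V] {A : Frm F σ ε t V} {m a : ℕ} (hA : A.Nondeg) (hW : Frm.WittDec m a A)
    {e f : Fin m → V} (h : Fr A e f) {z : V} (hz : z ∈ pp A e f) (hQ : A.Q z = 0) : z = 0 := by
  obtain ⟨e0, f0, hF, han⟩ := exists_fr m a A hW
  have hmx := hmx_of hA hF han
  have h1 := hmx (chT e h.tse) z hQ (by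
    intro y hy
    rw [(chT_adp e h.tse).W_m] at hy
    have h4 : Submodule.span F (Set.range e) ≤ LinearMap.ker (A.B z) := by
      rw [Submodule.span_le]
      rintro _ ⟨k, rfl⟩
      exact A.refl ((mem_pp.1 hz).1 k)
    exact A.refl (h4 hy))
  rw [(chT_adp e h.tse).W_m, Submodule.mem_span_range_iff_exists_fun] at h1
  obtain ⟨g, rfl⟩ := h1
  refine Finset.sum_eq_zero fun i _ => ?_
  have h2 := (mem_pp.1 hz).2 i
  rw [map_sum, Finset.sum_eq_single i] at h2
  · rw [_root_.map_smul, h.fe, if_pos rfl, smul_eq_mul] at h2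
    rw [(mul_eq_zero.1 h2).resolve_right A.ε_ne, zero_smul]
  · intro j _ hj
    rw [_root_.map_smul, h.fe, if_neg (Ne.symm hj), smul_zero]
  · intro h3; exact absurd (Finset.mem_univ _) h3

end Cfsg.Agent.H16.St
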