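import Mathlib
import Cfsg.Prelude.Def_Classical

set_option autoImplicit false
set_option linter.all false

/-!
The isometry group of the plus-type quadratic form in dimension four over two elements.
-/

namespace Cfsg.Agent.H7.O4p

open Cfsg Matrix

abbrev I := Fin 2 ⊕ Fin 2
abbrev Vc := I → ZMod 2
abbrev G := ↥(isometryGroup (ZMod 2) (quadFormPlus 2 (ZMod 2)))

theorem mem_iff (u : GL I (ZMod 2)) : u ∈ isometryGroup (ZMod 2) (quadFormPlus 2 (ZMod 2)) ↔
    ∀ v : Vc, quadFormPlus 2 (ZMod 2) ((u : Matrix I I (ZMod 2)) *ᵥ v) = quadFormPlus 2 (ZMod 2) v :=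
  ⟨fun h v => h v v, fun h v _ => h v⟩

/-! ### counting -/

def cd (v : Vc) : ℕ := (v (.inl 0)).val + 2 * (v (.inl 1)).val + 4 * (v (.inr 0)).val + 8 * (v (.inr 1)).val

def qn (n : ℕ) : Bool := (n.testBit 0 && n.testBit 2) ^^ (n.testBit 1 && n.testBit 3)

theorem cd_lt : ∀ v : Vc, cd v < 16 := by decide +kernel
theorem cd_inj : ∀ v w : Vc, cd v = cd w → v = w := by decide +kernel
theorem cd_add : ∀ v w : Vc, cd (v + w) = Nat.xor (cd v) (cd w) := by decide +kernel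
theorem cd_q : ∀ v : Vc, quadFormPlus 2 (ZMod 2) v = if qn (cd v) then 1 else 0 := by decide +kernel

def L : List (ℕ × ℕ × ℕ × ℕ) :=
  ((List.range 16).filter fun a => !qn a).flatMap fun a =>
    ((List.range 16).filter fun b => !qn b && !qn (Nat.xor a b)).flatMap fun b =>
      ((List.range 16).filter fun c => !qn c && qn (Nat.xor a c) && !qn (Nat.xor b c)).flatMap fun c =>
        ((List.range 16).filter fun d => !qn d && !qn (Nat.xor a d) && qn (Nat.xor b d) && !qn (Nat.xor c d)).map fun d =>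
          (a, b, c, d)

theorem L_len : L.length = 72 := by decide +kernel

def e (i : I) : Vc := Pi.single i 1

noncomputable def tup (g : G) : ℕ × ℕ × ℕ × ℕ :=
  (cd ((g.1 : Matrix I I (ZMod 2)) *ᵥ e (.inl 0)), cd ((g.1 : Matrix I I (ZMod 2)) *ᵥ e (.inl 1)),
   cd ((g.1 : Matrix I I (ZMod 2)) *ᵥ e (.inr 0)), cd ((g.1 : Matrix I I (ZMod 2)) *ᵥ e (.inr 1)))

theorem qval : quadFormPlus 2 (ZMod 2) (e (.inl 0)) = 0 ∧ quadFormPlus 2 (ZMod 2) (e (.inl 1)) = 0 ∧
    quadFormPlus 2 (ZMod 2) (e (.inr 0)) = 0 ∧ quadFormPlus 2 (ZMod 2) (e (.inr 1)) = 0 ∧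
    quadFormPlus 2 (ZMod 2) (e (.inl 0) + e (.inl 1)) = 0 ∧
    quadFormPlus 2 (ZMod 2) (e (.inl 0) + e (.inr 0)) = 1 ∧
    quadFormPlus 2 (ZMod 2) (e (.inl 1) + e (.inr 0)) = 0 ∧
    quadFormPlus 2 (ZMod 2) (e (.inl 0) + e (.inr 1)) = 0 ∧
    quadFormPlus 2 (ZMod 2) (e (.inl 1) + e (.inr 1)) = 1 ∧
    quadFormPlus 2 (ZMod 2) (e (.inr 0) + e (.inr 1)) = 0 := by decide +kernel

theorem q0 (g : G) (v : Vc) (h : quadFormPlus 2 (ZMod 2) v = 0) : qn (cd ((g.1 : Matrix I I (ZMod 2)) *ᵥ v)) = false := by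
  have h1 := (mem_iff g.1).1 g.2 v
  rw [h, cd_q] at h1
  by_contra hc
  rw [Bool.not_eq_false] at hc
  rw [hc] at h1
  simp at h1

theorem q1 (g : G) (v : Vc) (h : quadFormPlus 2 (ZMod 2) v = 1) : qn (cd ((g.1 : Matrix I I (ZMod 2)) *ᵥ v)) = true := by
  have h1 := (mem_iff g.1).1 g.2 v
  rw [h, cd_q] at h1
  by_contra hc
  rw [Bool.not_eq_true] at hc
  rw [hc] at h1
  simp at h1

theorem tup_mem (g : G) : tup g ∈ L := by
  obtain ⟨h1, h2, h3, h4, h5, h6, h7, h8, h9, h10⟩ := qval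
  have k1 := q0 g _ h1
  have k2 := q0 g _ h2
  have k3 := q0 g _ h3
  have k4 := q0 g _ h4
  have k5 := q0 g _ h5
  have k6 := q1 g _ h6
  have k7 := q0 g _ h7
  have k8 := q0 g _ h8
  have k9 := q1 g _ h9
  have k10 := q0 g _ h10
  rw [mulVec_add, cd_add] at k5 k6 k7 k8 k9 k10
  simp only [L, tup, List.mem_flatMap, List.mem_filter, List.mem_range, List.mem_map, Bool.and_eq_true,
    Bool.not_eq_true']
  exact ⟨_, ⟨cd_lt _, k1⟩, _, ⟨cd_lt _, k2, k5⟩, _, ⟨cd_lt _, ⟨k3, k6⟩, k7⟩, _, ⟨cd_lt _, ⟨⟨k4, k8⟩, k9⟩, k10⟩, rfl⟩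

theorem tup_inj : Function.Injective tup := by
  intro g h hgh
  simp only [tup, Prod.mk.injEq] at hgh
  obtain ⟨h1, h2, h3, h4⟩ := hgh
  have h1 := cd_inj _ _ h1
  have h2 := cd_inj _ _ h2
  have h3 := cd_inj _ _ h3
  have h4 := cd_inj _ _ h4
  apply Subtype.ext
  apply Units.ext
  apply Matrix.ext_of_mulVec_single
  intro i
  rcases i with i | i <;> fin_cases i
  · exact h1
  · exact h2
  · exact h3
  · exact h4

theorem card_le : Nat.card G ≤ 72 := by
  have h : Nat.card G ≤ Nat.card {x // x ∈ L.toFinset} :=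
    Nat.card_le_card_of_injective (fun g => (⟨tup g, List.mem_toFinset.2 (tup_mem g)⟩ : {x // x ∈ L.toFinset}))
      (fun g h hgh => tup_inj (congrArg Subtype.val hgh))
  have h2 : Nat.card {x // x ∈ L.toFinset} = L.toFinset.card := by rw [Nat.card_eq_fintype_card, Fintype.card_coe]
  rw [h2] at h
  exact h.trans ((List.toFinset_card_le L).trans L_len.le)

/-! ### the two factors -/

/-- nonzero vectors of the plane -/
def w (k : Fin 3) : Fin 2 → ZMod 2 := ![![1, 0], ![0, 1], ![1, 1]] k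

/-- matrix of a permutation of the three nonzero vectors -/
def P (s : Equiv.Perm (Fin 3)) (i j : Fin 2) : ZMod 2 := w (s (Fin.castSucc j)) i

/-- left multiplication -/
def LA (s : Equiv.Perm (Fin 3)) : Matrix I I (ZMod 2) := fun i j =>
  match i, j with
  | .inl 0, .inl 0 => P s 0 0
  | .inl 0, .inr 1 => P s 0 1
  | .inl 1, .inl 1 => P s 0 0
  | .inl 1, .inr 0 => P s 0 1
  | .inr 1, .inl 0 => P s 1 0
  | .inr 1, .inr 1 => P s 1 1
  | .inr 0, .inl 1 => P s 1 0
  | .inr 0, .inr 0 => P s 1 1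
  | _, _ => 0

/-- transposition -/
def tau (i : I) : I :=
  match i with
  | .inl 0 => .inl 0
  | .inl 1 => .inr 1
  | .inr 0 => .inr 0
  | .inr 1 => .inl 1

def LB (s : Equiv.Perm (Fin 3)) : Matrix I I (ZMod 2) := fun i j => LA s (tau i) (tau j)

theorem LA_mul : ∀ s t : Equiv.Perm (Fin 3), LA (s * t) = LA s * LA t := by decide +kernel
theorem LA_one : LA 1 = 1 := by decide +kernel
theorem LB_mul : ∀ s t : Equiv.Perm (Fin 3), LB (s * t) = LB s * LB t := by decide +kernel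
theorem LB_one : LB 1 = 1 := by decide +kernel
theorem LA_q : ∀ s : Equiv.Perm (Fin 3), ∀ v : Vc, quadFormPlus 2 (ZMod 2) (LA s *ᵥ v) = quadFormPlus 2 (ZMod 2) v := by
  decide +kernel
theorem LB_q : ∀ s : Equiv.Perm (Fin 3), ∀ v : Vc, quadFormPlus 2 (ZMod 2) (LB s *ᵥ v) = quadFormPlus 2 (ZMod 2) v := by
  decide +kernel
theorem LAB_comm : ∀ s t : Equiv.Perm (Fin 3), LA s * LB t = LB t * LA s := by decide +kernel
theorem LAB_inj : ∀ s t : Equiv.Perm (Fin 3), LA s = LB t → s = 1 := by decide +kernel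
theorem LA_inj : ∀ s t : Equiv.Perm (Fin 3), LA s = LA t → s = t := by decide +kernel
theorem LB_inj : ∀ s t : Equiv.Perm (Fin 3), LB s = LB t → s = t := by decide +kernel

def T : Matrix I I (ZMod 2) := fun i j => if tau i = j then 1 else 0
theorem T_mul : T * T = 1 := by decide +kernel
theorem T_q : ∀ v : Vc, quadFormPlus 2 (ZMod 2) (T *ᵥ v) = quadFormPlus 2 (ZMod 2) v := by decide +kernel
theorem T_conj : ∀ s, T * LA s * T = LB s := by decide +kernel

def uA (s : Equiv.Perm (Fin 3)) : GL I (ZMod 2) where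
  val := LA s
  inv := LA s⁻¹
  val_inv := by rw [← LA_mul, mul_inv_cancel, LA_one]
  inv_val := by rw [← LA_mul, inv_mul_cancel, LA_one]

def uB (s : Equiv.Perm (Fin 3)) : GL I (ZMod 2) where
  val := LB s
  inv := LB s⁻¹
  val_inv := by rw [← LB_mul, mul_inv_cancel, LB_one]
  inv_val := by rw [← LB_mul, inv_mul_cancel, LB_one]

def fA : Equiv.Perm (Fin 3) →* G where
  toFun s := ⟨uA s, (mem_iff _).2 (LA_q s)⟩
  map_one' := Subtype.ext (Units.ext LA_one)
  map_mul' s t := Subtype.ext (Units.ext (LA_mul s t))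

def fB : Equiv.Perm (Fin 3) →* G where
  toFun s := ⟨uB s, (mem_iff _).2 (LB_q s)⟩
  map_one' := Subtype.ext (Units.ext LB_one)
  map_mul' s t := Subtype.ext (Units.ext (LB_mul s t))

def uT : G := ⟨⟨T, T, T_mul, T_mul⟩, (mem_iff _).2 T_q⟩

theorem fA_inj : Function.Injective fA := fun s t h => LA_inj s t (congrArg (fun g : G => (g.1 : Matrix I I (ZMod 2))) h)
theorem fB_inj : Function.Injective fB := fun s t h => LB_inj s t (congrArg (fun g : G => (g.1 : Matrix I I (ZMod 2))) h)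

theorem comm (s t : Equiv.Perm (Fin 3)) : fA s * fB t = fB t * fA s := Subtype.ext (Units.ext (LAB_comm s t))

theorem disj (s t : Equiv.Perm (Fin 3)) (h : fA s = fB t) : s = 1 :=
  LAB_inj s t (congrArg (fun g : G => (g.1 : Matrix I I (ZMod 2))) h)

theorem conjT (s : Equiv.Perm (Fin 3)) : uT * fA s * uT⁻¹ = fB s := Subtype.ext (Units.ext (T_conj s))

theorem main : Nat.card G = 72 ∧ ∃ A B : Subgroup G, Nonempty (A ≃* Equiv.Perm (Fin 3)) ∧ Nonempty (B ≃* Equiv.Perm (Fin 3)) ∧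
    A ⊓ B = ⊥ ∧ (∀ a ∈ A, ∀ b ∈ B, a * b = b * a) ∧ (A ⊔ B).index = 2 ∧ ∃ g : G, A.map (MulAut.conj g).toMonoidHom = B := by
  have hbot : fA.range ⊓ fB.range = ⊥ := by
    rw [eq_bot_iff]
    rintro x ⟨⟨s, hs⟩, ⟨t, ht⟩⟩
    have := disj s t (hs.trans ht.symm)
    rw [Subgroup.mem_bot, ← hs, this, map_one]
  have hmap : fA.range.map (MulAut.conj uT).toMonoidHom = fB.range := by
    ext x
    constructor
    · rintro ⟨y, ⟨s, rfl⟩, rfl⟩
      exact ⟨s, (conjT s).symm⟩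
    · rintro ⟨s, rfl⟩
      exact ⟨fA s, ⟨s, rfl⟩, conjT s⟩
  let f : Equiv.Perm (Fin 3) × Equiv.Perm (Fin 3) →* G := fA.noncommCoprod fB (fun s t => comm s t)
  have hf : Function.Injective f := by
    rw [injective_iff_map_eq_one]
    rintro ⟨s, t⟩ h
    have h1 : fA s * fB t = 1 := h
    have h2 : fA s = fB t⁻¹ := by rw [map_inv]; exact eq_inv_of_mul_eq_one_left h1
    have h3 := disj s _ h2
    subst h3
    rw [map_one, one_mul] at h1
    have h4 : t = 1 := fB_inj (h1.trans fB.map_one.symm)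
    rw [h4]; rfl
  have hsup : fA.range ⊔ fB.range = f.range := (MonoidHom.noncommCoprod_range fA fB (fun s t => comm s t)).symm
  have h36 : Nat.card ↥(fA.range ⊔ fB.range) = 36 := by
    rw [hsup, ← Nat.card_congr (MonoidHom.ofInjective hf).toEquiv, Nat.card_prod, Nat.card_eq_fintype_card,
      Fintype.card_perm, Fintype.card_fin]
    rfl
  have hfin : Finite G := Finite.of_injective (fun g : G => g.1) Subtype.val_injective
  have hne : uT ∉ fA.range ⊔ fB.range := by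
    intro h
    rw [hsup] at h
    obtain ⟨⟨a, b⟩, hab⟩ := h
    have hab : fA a * fB b = uT := hab
    have h1 : ∀ s, fB s ∈ fA.range := by
      intro s
      rw [← conjT s, ← hab, _root_.mul_inv_rev]
      refine ⟨a * s * a⁻¹, ?_⟩
      have h2 : fB b * fA s = fA s * fB b := (comm s b).symm
      calc fA (a * s * a⁻¹) = fA a * fA s * (fA a)⁻¹ := by rw [map_mul, map_mul, map_inv]
        _ = fA a * (fA s * fB b) * ((fB b)⁻¹ * (fA a)⁻¹) := by group
        _ = fA a * fB b * fA s * ((fB b)⁻¹ * (fA a)⁻¹) := by rw [← h2]; group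
    have h2 : fB (Equiv.swap 0 1) ∈ fA.range ⊓ fB.range := ⟨h1 _, ⟨_, rfl⟩⟩
    rw [hbot, Subgroup.mem_bot] at h2
    have h3 := fB_inj (h2.trans fB.map_one.symm)
    exact absurd h3 (by decide)
  have hidx : (fA.range ⊔ fB.range).index ≠ 1 := by
    intro h
    rw [Subgroup.index_eq_one] at h
    exact hne (h ▸ Subgroup.mem_top _)
  have hidx0 : (fA.range ⊔ fB.range).index ≠ 0 := Subgroup.index_ne_zero_of_finite
  have hmul := (fA.range ⊔ fB.range).card_mul_index
  rw [h36] at hmul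
  have hle := card_le
  have hidx2 : (fA.range ⊔ fB.range).index = 2 := by omega
  refine ⟨by rw [← hmul, hidx2], fA.range, fB.range, ⟨(MonoidHom.ofInjective fA_inj).symm⟩,
    ⟨(MonoidHom.ofInjective fB_inj).symm⟩, hbot, ?_, hidx2, uT, hmap⟩
  rintro a ⟨s, rfl⟩ b ⟨t, rfl⟩
  exact comm s t

end Cfsg.Agent.H7.O4p
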