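import Cfsg.Agent.H16_St14
import Cfsg.Agent.H16_Idx
import Cfsg.Agent.H7_O4p
import Cfsg.Agent.H3_CharPerm2

/-! The exceptional case of `PΩ₄⁺(2)`. -/

set_option autoImplicit false
set_option linter.unusedSectionVars false

namespace Cfsg.Agent.H16.St

open Cfsg Cfsg.Agent.H5

open scoped commutatorElement

abbrev S3 := Equiv.Perm (Fin 3)

theorem S3_center : ∀ s : S3, (∀ t : S3, s * t = t * s) → s = 1 := by decide

theorem exists_psi : ∃ ψ : S3 → ℂ, IsIrrCharacter S3 ψ ∧ ψ 1 = 2 := by
  classical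
  have h1 : 2 ≤ Nat.card (Fin 3) := by simp
  refine ⟨_, (Cfsg.Agent.H3.CharPerm2.irr_iff_two_pretransitive (G := S3) (Fin 3) h1).2 (Equiv.Perm.isMultiplyPretransitive (Fin 3) 2), ?_⟩
  beta_reduce
  have : Cfsg.Agent.H3.CharPerm2.perm S3 (Fin 3) 1 = 3 := by
    simp [Cfsg.Agent.H3.CharPerm2.perm]
  rw [this]; norm_num

theorem wr {G : Type*} [Group G] [Finite G] (fA fB : S3 →* G) (hA : Function.Injective fA) (hB : Function.Injective fB)
    (comm : ∀ s t, fA s * fB t = fB t * fA s) (disj : ∀ s t, fA s = fB t → s = 1) (u : G) (hu : u * u = 1)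
    (conj : ∀ s, u * fA s * u⁻¹ = fB s) (hG : Nat.card G = 72) :
    HS 2 (commutator G ⧸ Subgroup.center (commutator G)) := by
  classical
  haveI : Fact (Nat.Prime 2) := ⟨Nat.prime_two⟩
  have hui : u⁻¹ = u := inv_eq_of_mul_eq_one_left hu
  have conj' : ∀ s, u * fB s * u⁻¹ = fA s := by
    intro s
    rw [← conj s, hui]
    calc u * (u * fA s * u) * u = (u * u) * fA s * (u * u) := by group
      _ = fA s := by rw [hu, one_mul, mul_one]
  let f : S3 × S3 →* G := fA.noncommCoprod fB (fun s t => comm s t)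
  have hfv : ∀ s t, f (s, t) = fA s * fB t := fun s t => rfl
  have hf : Function.Injective f := by
    rw [injective_iff_map_eq_one]
    rintro ⟨s, t⟩ h
    have h1 : fA s * fB t = 1 := h
    have h2 : fA s = fB t⁻¹ := by rw [map_inv]; exact eq_inv_of_mul_eq_one_left h1
    have h3 := disj s _ h2
    subst h3
    rw [map_one, one_mul] at h1
    have h4 : t = 1 := hB (h1.trans fB.map_one.symm)
    rw [h4]; rfl
  have h36 : Nat.card f.range = 36 := by
    rw [← Nat.card_congr (MonoidHom.ofInjective hf).toEquiv, Nat.card_prod, Nat.card_eq_fintype_card,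
      Fintype.card_perm, Fintype.card_fin]
    rfl
  have hidx : f.range.index = 2 := by
    have := f.range.card_mul_index
    rw [h36, hG] at this
    omega
  have hconj : ∀ s t, u * f (s, t) * u⁻¹ = f (t, s) := by
    intro s t
    rw [hfv, hfv, comm t s]
    calc u * (fA s * fB t) * u⁻¹ = (u * fA s * u⁻¹) * (u * fB t * u⁻¹) := by group
      _ = fB s * fA t := by rw [conj, conj']
  have hne : u ∉ f.range := by
    rintro ⟨⟨a, b⟩, hab⟩
    have h1 := hconj (Equiv.swap 0 1) 1
    rw [← hab, ← map_inv, ← map_mul, ← map_mul] at h1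
    have h2 := hf h1
    have h3 := congrArg Prod.snd h2
    simp at h3
    exact absurd h3 (by decide)
  let θ : S3 × S3 →* ℤˣ := MonoidHom.coprod Equiv.Perm.sign Equiv.Perm.sign
  have hθ : ∀ s t, θ (s, t) = Equiv.Perm.sign s * Equiv.Perm.sign t := fun s t => rfl
  have hθs : Function.Surjective θ := by
    intro x
    rcases Int.units_eq_one_or x with rfl | rfl
    · exact ⟨1, map_one θ⟩
    · refine ⟨(Equiv.swap 0 1, 1), ?_⟩
      rw [hθ, map_one, mul_one, Equiv.Perm.sign_swap (by decide)]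
  have hker : Nat.card θ.ker = 18 := by
    have h1 := θ.ker.card_mul_index
    rw [Subgroup.index_ker, MonoidHom.range_eq_top.2 hθs, Nat.card_prod, Nat.card_eq_fintype_card (α := S3),
      Fintype.card_perm, Fintype.card_fin] at h1
    have h2 : Nat.card (⊤ : Subgroup ℤˣ) = 2 := by
      rw [Nat.card_congr Subgroup.topEquiv.toEquiv, Nat.card_eq_fintype_card]; rfl
    rw [h2] at h1
    have h3 : Nat.factorial 3 = 6 := rfl
    rw [h3] at h1
    omega
  set K : Subgroup G := θ.ker.map f with hK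
  have hK18 : Nat.card K = 18 := by
    rw [hK, ← Nat.card_congr (θ.ker.equivMapOfInjective f hf).toEquiv, hker]
  have hK4 : K.index = 4 := by
    have := K.card_mul_index
    rw [hK18, hG] at this
    omega
  have hKle : K ≤ f.range := by
    rintro _ ⟨x, -, rfl⟩
    exact ⟨x, rfl⟩
  haveI hKn : K.Normal := by
    have h1 : ∀ g ∈ f.range, ∀ k ∈ K, g * k * g⁻¹ ∈ K := by
      rintro _ ⟨x, rfl⟩ _ ⟨y, hy, rfl⟩
      refine ⟨x * y * x⁻¹, ?_, by rw [map_mul, map_mul, map_inv]⟩
      exact (MonoidHom.normal_ker θ).conj_mem y hy x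
    have h2 : ∀ k ∈ K, u * k * u⁻¹ ∈ K := by
      rintro _ ⟨⟨s, t⟩, hy, rfl⟩
      refine ⟨(t, s), ?_, (hconj s t).symm⟩
      have h3 : θ (s, t) = 1 := hy
      change θ (t, s) = 1
      rw [hθ] at h3 ⊢
      rw [mul_comm, h3]
    constructor
    intro k hk g
    by_cases hg : g ∈ f.range
    · exact h1 g hg k hk
    · have h3 : u * g ∈ f.range := by
        rw [Subgroup.mul_mem_iff_of_index_two hidx]
        exact ⟨fun h => absurd h hne, fun h => absurd h hg⟩
      have h4 := h2 _ (h1 _ h3 k hk)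
      have h5 : u * (u * g * k * (u * g)⁻¹) * u⁻¹ = g * k * g⁻¹ := by
        rw [mul_inv_rev, hui]
        calc u * (u * g * k * (g⁻¹ * u)) * u = (u * u) * (g * k * g⁻¹) * (u * u) := by group
          _ = g * k * g⁻¹ := by rw [hu, one_mul, mul_one]
      rwa [h5] at h4
  have hDK : commutator G ≤ K := Cfsg.Agent.H16.Quad.comm_le_of_card_four hK4
  have hDf : commutator G ≤ f.range := hDK.trans hKle
  let e : S3 × S3 ≃* f.range := MonoidHom.ofInjective hf
  have hev : ∀ x, ((e x : f.range) : G) = f x := fun x => rfl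
  let π : commutator G →* S3 × S3 := e.symm.toMonoidHom.comp (Subgroup.inclusion hDf)
  have hπ : ∀ d : commutator G, f (π d) = d := by
    intro d
    rw [← hev]
    change ((e (e.symm (Subgroup.inclusion hDf d)) : f.range) : G) = d
    rw [e.apply_symm_apply]; rfl
  have hmem : ∀ s : S3, fA s * fB s⁻¹ ∈ commutator G := by
    intro s
    have h1 := Subgroup.commutator_mem_commutator (Subgroup.mem_top (fA s)) (Subgroup.mem_top u)
    have h2 : ⁅fA s, u⁆ = fA s * fB s⁻¹ := by
      rw [commutatorElement_def, ← conj s⁻¹, map_inv]; group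
    rwa [h2] at h1
  have hπv : ∀ s, π ⟨fA s * fB s⁻¹, hmem s⟩ = (s, s⁻¹) := by
    intro s
    apply hf
    rw [hπ]; rfl
  let πA : commutator G →* S3 := (MonoidHom.fst S3 S3).comp π
  let πB : commutator G →* S3 := (MonoidHom.snd S3 S3).comp π
  have hπA : Function.Surjective πA := fun s => ⟨⟨_, hmem s⟩, congrArg Prod.fst (hπv s)⟩
  have hπB : Function.Surjective πB := fun s => ⟨⟨_, hmem s⁻¹⟩, by
    have := congrArg Prod.snd (hπv s⁻¹)
    exact this.trans (inv_inv s)⟩
  have hcen : Subgroup.center (commutator G) = ⊥ := by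
    rw [eq_bot_iff]
    intro z hz
    have h1 : πA z = 1 := by
      apply S3_center
      intro t
      obtain ⟨d, rfl⟩ := hπA t
      rw [← map_mul, ← map_mul, (Subgroup.mem_center_iff.1 hz d)]
    have h2 : πB z = 1 := by
      apply S3_center
      intro t
      obtain ⟨d, rfl⟩ := hπB t
      rw [← map_mul, ← map_mul, (Subgroup.mem_center_iff.1 hz d)]
    have h3 : π z = 1 := Prod.ext h1 h2
    rw [Subgroup.mem_bot]
    apply Subtype.ext
    rw [← hπ z, h3, map_one]; rfl
  obtain ⟨ψ, hψ, hψ1⟩ := exists_psi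
  have h6 : 6 ∣ Nat.card (commutator G) := by
    have := Subgroup.card_dvd_of_surjective πA hπA
    rwa [Nat.card_eq_fintype_card (α := S3), Fintype.card_perm, Fintype.card_fin] at this
  have h18 : Nat.card (commutator G) ∣ 18 := hK18 ▸ Subgroup.card_dvd_of_le hDK
  have hfac : 2 ^ (Nat.card (commutator G)).factorization 2 = 2 := by
    obtain ⟨a, ha⟩ := h6
    obtain ⟨b, hb⟩ := h18
    have h7 : a * b = 3 := by
      have : 6 * (a * b) = 18 := by rw [← mul_assoc, ← ha, ← hb]
      omega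
    have h8 : ¬ 2 ∣ 3 * a := by
      intro h9
      have h10 : 2 ∣ a := (Nat.Coprime.dvd_mul_left (by norm_num)).1 h9
      have h11 : 2 ∣ 3 := h7 ▸ Dvd.dvd.mul_right h10 b
      omega
    have := fact_of Nat.prime_two (N := Nat.card (commutator G)) (R := 3 * a) (j := 1) (by rw [ha, pow_one]; ring) h8
    rwa [pow_one] at this
  refine descend 2 (Subgroup.center (commutator G)) (χ := fun d => ψ (πA d)) ?_ ?_ ?_ ?_
  · rw [hcen, Subgroup.card_bot]; omega
  · exact Cfsg.Agent.H3.CharInd.IsIrr.comp hψ πA hπA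
  · beta_reduce
    rw [map_one, hψ1, hfac]; norm_num
  · intro z hz
    rw [hcen, Subgroup.mem_bot] at hz
    rw [hz]

/-- transport along a field isomorphism -/
def isoF {F K : Type*} [Field F] [Field K] (e : F ≃+* K) (m : ℕ) :
    Cfsg.isometryGroup F (Cfsg.quadFormPlus m F) ≃* Cfsg.isometryGroup K (Cfsg.quadFormPlus m K) :=
  Conc.subEquiv (Units.mapEquiv (e.mapMatrix : Matrix (Fin m ⊕ Fin m) (Fin m ⊕ Fin m) F ≃+* _).toMulEquiv) _ _ (by
    intro g
    have hq : ∀ v : Fin m ⊕ Fin m → F, Cfsg.quadFormPlus m K (fun i => e (v i)) = e (Cfsg.quadFormPlus m F v) := by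
      intro v
      simp only [Cfsg.quadFormPlus, map_sum, map_mul]
    have hm : ∀ v : Fin m ⊕ Fin m → F, Matrix.mulVec ((Units.mapEquiv (e.mapMatrix : Matrix (Fin m ⊕ Fin m) (Fin m ⊕ Fin m) F ≃+* _).toMulEquiv g :
        GL (Fin m ⊕ Fin m) K) : Matrix (Fin m ⊕ Fin m) (Fin m ⊕ Fin m) K) (fun i => e (v i)) =
        fun i => e (Matrix.mulVec (g : Matrix (Fin m ⊕ Fin m) (Fin m ⊕ Fin m) F) v i) := by
      intro v
      funext i
      exact (RingHom.map_mulVec (e : F →+* K) (g : Matrix (Fin m ⊕ Fin m) (Fin m ⊕ Fin m) F) v i).symm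
    constructor
    · intro h v w
      have h1 := h (fun i => e.symm (v i)) 0
      have h2 : (fun i => e ((fun i => e.symm (v i)) i)) = v := by funext i; simp
      have h3 := hm (fun i => e.symm (v i))
      rw [h2] at h3
      have h4 := congrArg e h1
      change e (Cfsg.quadFormPlus m F (Matrix.mulVec (g : Matrix (Fin m ⊕ Fin m) (Fin m ⊕ Fin m) F) (fun i => e.symm (v i)))) =
        e (Cfsg.quadFormPlus m F (fun i => e.symm (v i))) at h4
      rw [← hq, ← hq, ← h3, h2] at h4
      exact h4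
    · intro h v w
      have h1 := h (fun i => e (v i)) 0
      have h4 : Cfsg.quadFormPlus m K (Matrix.mulVec ((Units.mapEquiv (e.mapMatrix : Matrix (Fin m ⊕ Fin m) (Fin m ⊕ Fin m) F ≃+* _).toMulEquiv g :
        GL (Fin m ⊕ Fin m) K) : Matrix (Fin m ⊕ Fin m) (Fin m ⊕ Fin m) K) (fun i => e (v i))) = Cfsg.quadFormPlus m K (fun i => e (v i)) := h1
      rw [hm, hq, hq] at h4
      exact e.injective h4)

theorem center_equiv_quot {G H : Type*} [Group G] [Group H] (e : G ≃* H) :
    Nonempty ((commutator G ⧸ Subgroup.center (commutator G)) ≃* (commutator H ⧸ Subgroup.center (commutator H))) := by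
  have h1 : (commutator G).map e.toMonoidHom = commutator H := by
    rw [commutator_def, Subgroup.map_commutator, Subgroup.map_top_of_surjective _ e.surjective, commutator_def]
  let e1 : commutator G ≃* commutator H := (e.subgroupMap (commutator G)).trans (MulEquiv.subgroupCongr h1)
  exact ⟨QuotientGroup.congr _ _ e1 (by
    ext x
    constructor
    · rintro ⟨y, hy, rfl⟩
      rw [Subgroup.mem_center_iff]
      intro z
      obtain ⟨z, rfl⟩ := e1.surjective z
      change e1 z * e1 y = e1 y * e1 z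
      rw [← map_mul, ← map_mul, Subgroup.mem_center_iff.1 hy z]
    · intro hx
      refine ⟨e1.symm x, ?_, e1.apply_symm_apply x⟩
      rw [SetLike.mem_coe, Subgroup.mem_center_iff]
      intro z
      apply e1.injective
      rw [map_mul, map_mul, e1.apply_symm_apply, Subgroup.mem_center_iff.1 hx])⟩

theorem hs_exc {F : Type*} [Field F] [Fintype F] (hF : Fintype.card F = 2) : HS 2 (Cfsg.POmega F (Cfsg.quadFormPlus 2 F)) := by
  classical
  haveI : Fact (Nat.Prime 2) := ⟨Nat.prime_two⟩
  have e : F ≃+* ZMod 2 := (ZMod.ringEquivOfPrime F Nat.prime_two hF).symm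
  obtain ⟨e1⟩ := center_equiv_quot (isoF e 2)
  haveI : Finite (Cfsg.isometryGroup F (Cfsg.quadFormPlus 2 F)) := inferInstance
  haveI : Finite Cfsg.Agent.H7.O4p.G := inferInstance
  refine HS.congr 2 e1 ?_
  refine wr Cfsg.Agent.H7.O4p.fA Cfsg.Agent.H7.O4p.fB Cfsg.Agent.H7.O4p.fA_inj Cfsg.Agent.H7.O4p.fB_inj Cfsg.Agent.H7.O4p.comm
    Cfsg.Agent.H7.O4p.disj Cfsg.Agent.H7.O4p.uT ?_ Cfsg.Agent.H7.O4p.conjT Cfsg.Agent.H7.O4p.main.1
  exact Subtype.ext (Units.ext Cfsg.Agent.H7.O4p.T_mul)

end Cfsg.Agent.H16.St
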