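import Cfsg.Agent.H16_St1

/-! An irreducibility criterion for modules of functions on a set of chambers. -/

set_option autoImplicit false
set_option linter.unusedSectionVars false

namespace Cfsg.Agent.H16.St

open Cfsg Cfsg.Agent.H3.CharIrr

variable {I : Type*} [Group I] [Finite I] {C : Type*} [Finite C] [MulAction I C]

/-- the action on functions -/
def fn (G : Subgroup I) (M : Submodule ℂ (C → ℂ)) (hM : ∀ (g : I) (f : C → ℂ), f ∈ M → (fun c => f (g⁻¹ • c)) ∈ M) :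
    Representation ℂ G M where
  toFun g :=
    { toFun := fun f => ⟨fun c => f.1 ((g : I)⁻¹ • c), hM g f.1 f.2⟩
      map_add' := fun _ _ => rfl
      map_smul' := fun _ _ => rfl }
  map_one' := by
    apply LinearMap.ext; intro f; apply Subtype.ext; funext c
    change f.1 (((1 : G) : I)⁻¹ • c) = f.1 c
    rw [Subgroup.coe_one, inv_one, one_smul]
  map_mul' a b := by
    apply LinearMap.ext; intro f; apply Subtype.ext; funext c
    change f.1 (((a * b : G) : I)⁻¹ • c) = f.1 ((b : I)⁻¹ • ((a : I)⁻¹ • c))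
    rw [Subgroup.coe_mul, mul_inv_rev, mul_smul]

theorem fn_apply (G : Subgroup I) (M : Submodule ℂ (C → ℂ)) (hM : ∀ (g : I) (f : C → ℂ), f ∈ M → (fun c => f (g⁻¹ • c)) ∈ M)
    (g : G) (f : M) (c : C) : (fn G M hM g f).1 c = f.1 ((g : I)⁻¹ • c) := rfl

variable {G : Subgroup I} {M : Submodule ℂ (C → ℂ)}
  {hM : ∀ (g : I) (f : C → ℂ), f ∈ M → (fun c => f (g⁻¹ • c)) ∈ M}

theorem exists_sylow (hG : G.Normal) (p : ℕ) [hp : Fact p.Prime] {P : Subgroup I} (hPG : P ≤ G)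
    (hP : Nat.card P = p ^ (Nat.card G).factorization p) (g : I) :
    ∃ x : I, x ∈ G ∧ ∀ y ∈ P, (x * g)⁻¹ * y * (x * g) ∈ P := by
  classical
  haveI : Finite G := inferInstance
  have h1 : Nat.card (P.subgroupOf G) = p ^ (Nat.card G).factorization p := by
    rw [← hP]; exact Nat.card_congr (Subgroup.subgroupOfEquivOfLe hPG).toEquiv
  set P' : Subgroup I := P.map (MulAut.conj g).toMonoidHom with hP'
  have hP'G : P' ≤ G := by
    rintro _ ⟨y, hy, rfl⟩
    exact hG.conj_mem _ (hPG hy) g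
  have h2 : Nat.card (P'.subgroupOf G) = p ^ (Nat.card G).factorization p := by
    rw [← hP, Nat.card_congr (Subgroup.subgroupOfEquivOfLe hP'G).toEquiv]
    exact (Nat.card_congr (P.equivMapOfInjective _ (MulAut.conj g).injective).toEquiv).symm
  let S1 : Sylow p G := Sylow.ofCard _ h1
  let S2 : Sylow p G := Sylow.ofCard _ h2
  obtain ⟨x, hx⟩ := MulAction.exists_smul_eq G S2 S1
  refine ⟨x, x.2, fun y hy => ?_⟩
  have hy1 : (⟨y, hPG hy⟩ : G) ∈ S1 := hy
  rw [← hx] at hy1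
  have hy2 : (⟨y, hPG hy⟩ : G) ∈ (x • S2 : Sylow p G).toSubgroup := hy1
  rw [Sylow.smul_def, Sylow.pointwise_smul_def] at hy2
  obtain ⟨z, hz, hzy⟩ := hy2
  have hz' : (z : I) ∈ P' := hz
  obtain ⟨w, hw, hwz⟩ := hz'
  have h3 : (x : I) * z * (x : I)⁻¹ = y := congrArg (fun a : G => (a : I)) hzy
  have h4 : g * w * g⁻¹ = z := hwz
  rw [← h3, ← h4]
  have : ((x : I) * g)⁻¹ * ((x : I) * (g * w * g⁻¹) * (x : I)⁻¹) * ((x : I) * g) = w := by group
  rw [this]; exact hw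

theorem key (hG : G.Normal) (p : ℕ) [hp : Fact p.Prime] {P : Subgroup I} (hPG : P ≤ G)
    (hP : Nat.card P = p ^ (Nat.card G).factorization p) (c0 : C) (O : Set C) (htr : ∀ c : C, ∃ g : I, g • c0 = c)
    (hPc : ∀ y ∈ P, y • c0 = c0) (hPO : ∀ a ∈ O, ∀ b ∈ O, ∃ y ∈ P, y • a = b)
    (hinj : ∀ f ∈ M, (∀ c ∈ O, f c = 0) → f = 0) (hne : O.Nonempty) (U : Submodule ℂ M)
    (hU : ∀ g : G, ∀ v ∈ U, fn G M hM g v ∈ U) (hUb : U ≠ ⊥) : ∃ f ∈ U, ∃ a : ℂ, a ≠ 0 ∧ ∀ c ∈ O, f.1 c = a := by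
  classical
  obtain ⟨f, hf, hf0⟩ := U.ne_bot_iff.1 hUb
  obtain ⟨c, hc⟩ : ∃ c, f.1 c ≠ 0 := by
    by_contra h
    push Not at h
    exact hf0 (Subtype.ext (funext h))
  obtain ⟨g, rfl⟩ := htr c
  obtain ⟨x, hx, hxP⟩ := exists_sylow hG p hPG hP g
  set f1 : M := fn G M hM ⟨x, hx⟩ f with hf1
  have hf1U : f1 ∈ U := hU _ _ hf
  have hf1v : f1.1 ((x * g) • c0) ≠ 0 := by
    rw [hf1, fn_apply]
    change f.1 (x⁻¹ • ((x * g) • c0)) ≠ 0
    rw [mul_smul, inv_smul_smul]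
    exact hc
  haveI : Fintype P := Fintype.ofFinite _
  set F : M := ∑ y : P, fn G M hM ⟨y, hPG y.2⟩ f1 with hF
  have hFU : F ∈ U := Submodule.sum_mem _ fun y _ => hU _ _ hf1U
  have hFv : ∀ c, F.1 c = ∑ y : P, f1.1 ((y : I)⁻¹ • c) := by
    intro c
    rw [hF, Submodule.coe_sum, Finset.sum_apply]
    rfl
  have hFinv : ∀ y ∈ P, ∀ c, F.1 (y • c) = F.1 c := by
    intro y hy c
    rw [hFv, hFv]
    refine Fintype.sum_equiv (Equiv.mulLeft (⟨y, hy⟩⁻¹ : P)) _ _ fun z => ?_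
    rw [Equiv.coe_mulLeft, Subgroup.coe_mul, Subgroup.coe_inv, mul_inv_rev, inv_inv, mul_smul]
  have hF1 : F.1 ((x * g) • c0) ≠ 0 := by
    rw [hFv]
    have : ∀ y : P, f1.1 ((y : I)⁻¹ • ((x * g) • c0)) = f1.1 ((x * g) • c0) := by
      intro y
      have h1 := hPc _ (hxP _ (P.inv_mem y.2))
      have h2 : (x * g) • ((x * g)⁻¹ * (y : I)⁻¹ * (x * g)) • c0 = (x * g) • c0 := by rw [h1]
      have h3 : (x * g) * ((x * g)⁻¹ * (y : I)⁻¹ * (x * g)) = (y : I)⁻¹ * (x * g) := by group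
      rw [← mul_smul, h3, mul_smul] at h2
      rw [h2]
    rw [Finset.sum_congr rfl fun y _ => this y, Finset.sum_const, nsmul_eq_mul]
    refine mul_ne_zero ?_ hf1v
    rw [Finset.card_univ]
    exact_mod_cast Fintype.card_ne_zero
  obtain ⟨o, ho⟩ := hne
  refine ⟨F, hFU, F.1 o, ?_, fun c hc => ?_⟩
  · intro h0
    have h1 : F.1 = 0 := by
      apply hinj _ F.2
      intro c hc
      obtain ⟨y, hy, hyc⟩ := hPO o ho c hc
      rw [← hyc, hFinv y hy, h0]
    rw [h1] at hF1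
    exact hF1 rfl
  · obtain ⟨y, hy, hyc⟩ := hPO o ho c hc
    rw [← hyc, hFinv y hy]

theorem main (hM : ∀ (g : I) (f : C → ℂ), f ∈ M → (fun c => f (g⁻¹ • c)) ∈ M) (hG : G.Normal) (p : ℕ) [hp : Fact p.Prime] {P : Subgroup I} (hPG : P ≤ G)
    (hP : Nat.card P = p ^ (Nat.card G).factorization p) (c0 : C) (O : Set C) (htr : ∀ c : C, ∃ g : I, g • c0 = c)
    (hPc : ∀ y ∈ P, y • c0 = c0) (hPO : ∀ a ∈ O, ∀ b ∈ O, ∃ y ∈ P, y • a = b)
    (hinj : ∀ f ∈ M, (∀ c ∈ O, f c = 0) → f = 0) (hne : O.Nonempty)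
    (hdel : ∀ o ∈ O, ∃ f ∈ M, f o ≠ 0 ∧ ∀ o' ∈ O, o' ≠ o → f o' = 0) :
    ∃ χ : G → ℂ, IsIrrCharacter G χ ∧ χ 1 = Nat.card O ∧ ∀ g : G, (∀ c : C, (g : I) • c = c) → χ g = χ 1 := by
  classical
  haveI : Fintype C := Fintype.ofFinite C
  have hdim : Module.finrank ℂ M = Nat.card O := by
    let r : M →ₗ[ℂ] (O → ℂ) :=
      { toFun := fun f o => f.1 o.1
        map_add' := fun _ _ => rfl
        map_smul' := fun _ _ => rfl }
    have hr : Function.Injective r := by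
      rw [injective_iff_map_eq_zero]
      intro f hf
      apply Subtype.ext
      exact hinj _ f.2 fun c hc => congrFun hf ⟨c, hc⟩
    have hs : Function.Surjective r := by
      rw [← LinearMap.range_eq_top, eq_top_iff, ← (Pi.basisFun ℂ O).span_eq, Submodule.span_le]
      rintro _ ⟨o, rfl⟩
      obtain ⟨f, hf, hfo, hfo'⟩ := hdel o.1 o.2
      refine ⟨(f o.1)⁻¹ • ⟨f, hf⟩, ?_⟩
      funext o'
      rw [Pi.basisFun_apply]
      change (f o.1)⁻¹ * f o'.1 = _
      by_cases h : o' = o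
      · rw [h, Pi.single_eq_same, inv_mul_cancel₀ hfo]
      · rw [Pi.single_eq_of_ne h, hfo' _ o'.2 (fun h' => h (Subtype.ext h')), mul_zero]
    rw [(LinearEquiv.ofBijective r ⟨hr, hs⟩).finrank_eq, Module.finrank_pi, Nat.card_eq_fintype_card]
  refine ⟨(fn G M hM).character, ?_, ?_, ?_⟩
  · apply isIrr_of_rep
    rw [irrep_iff]
    constructor
    · obtain ⟨o, ho⟩ := hne
      obtain ⟨f, hf, hfo, -⟩ := hdel o ho
      refine ⟨⟨⟨f, hf⟩, 0, ?_⟩⟩
      intro h
      have := congrArg (fun x : M => x.1 o) h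
      exact hfo this
    · intro U hU
      obtain ⟨U', hU', hc⟩ := exists_compl (fn G M hM) U hU
      by_cases h1 : U = ⊥
      · exact Or.inl h1
      by_cases h2 : U' = ⊥
      · right
        rw [h2] at hc
        have h3 := hc.sup_eq_top
        rwa [sup_bot_eq] at h3
      exfalso
      obtain ⟨f, hf, a, ha, hfa⟩ := key hG p hPG hP c0 O htr hPc hPO hinj hne U hU h1
      obtain ⟨f', hf', a', ha', hfa'⟩ := key hG p hPG hP c0 O htr hPc hPO hinj hne U' hU' h2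
      have h3 : a' • f = a • f' := by
        rw [← sub_eq_zero]
        apply Subtype.ext
        apply hinj _ (a' • f - a • f').2
        intro c hc'
        change a' * f.1 c - a * f'.1 c = 0
        rw [hfa c hc', hfa' c hc']; ring
      have h4 : a' • f ∈ U ⊓ U' := ⟨U.smul_mem _ hf, by rw [h3]; exact U'.smul_mem _ hf'⟩
      rw [hc.inf_eq_bot, Submodule.mem_bot, smul_eq_zero] at h4
      rcases h4 with h4 | h4
      · exact ha' h4
      · obtain ⟨o, ho⟩ := hne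
        have := hfa o ho
        rw [h4] at this
        exact ha this.symm
  · rw [Representation.char_one, hdim]
  · intro g hg
    have h1 : fn G M hM g = fn G M hM 1 := by
      apply LinearMap.ext; intro f; apply Subtype.ext; funext c
      rw [fn_apply, fn_apply, Subgroup.coe_one, inv_one, one_smul]
      have := hg ((g : I)⁻¹ • c)
      rw [smul_inv_smul] at this
      rw [← this]
    rw [Representation.character, Representation.character, h1]

end Cfsg.Agent.H16.St
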