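import Cfsg.Agent.H5_FrmWitt

/-! Chambers of polar spaces and the zero panel sum condition. -/

set_option autoImplicit false
set_option linter.unusedSectionVars false

namespace Cfsg.Agent.H16.St

open Cfsg.Agent.H5 Module

variable {F : Type*} [Field F] {σ : F →+* F} {ε : F} {t : F →+ F} {V : Type*}
  [AddCommGroup V] [Module F V]

/-- full flags of totally singular subspaces -/
@[ext]
structure Cham (A : Frm F σ ε t V) (m : ℕ) where
  /-- the spaces -/
  W : ℕ → Submodule F V
  mono : Monotone W
  dim : ∀ i, i ≤ m → finrank F (W i) = i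
  top : ∀ i, m < i → W i = ⊤
  hQ : ∀ x ∈ W m, A.Q x = 0
  hB : ∀ x ∈ W m, ∀ y ∈ W m, A.B x y = 0

variable {A : Frm F σ ε t V} {m : ℕ}

instance [Finite V] : Finite (Cham A m) := by
  haveI : Finite (Submodule F V) := Finite.of_injective (fun S : Submodule F V => (S : Set V)) SetLike.coe_injective
  refine Finite.of_injective (β := Fin (m + 1) → Submodule F V) (fun c i => c.W i) ?_
  intro c c' h
  apply Cham.ext
  funext i
  by_cases hi : i ≤ m
  · exact congrFun h ⟨i, by omega⟩
  · rw [c.top i (by omega), c'.top i (by omega)]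

noncomputable instance [Finite V] : Fintype (Cham A m) := Fintype.ofFinite _

/-- adjacency -/
def adj (i : ℕ) (c c' : Cham A m) : Prop := ∀ j, j ≠ i → c.W j = c'.W j

theorem adj_refl (i : ℕ) (c : Cham A m) : adj i c c := fun _ _ => rfl

theorem eq_of_adj {i : ℕ} {c c' : Cham A m} (h : adj i c c') (h' : c.W i = c'.W i) : c = c' := by
  apply Cham.ext
  funext j
  by_cases hj : j = i
  · rw [hj, h']
  · exact h j hj

open Classical in
/-- functions with vanishing panel sums -/
def SM (A : Frm F σ ε t V) (m : ℕ) [Finite V] : Submodule ℂ (Cham A m → ℂ) where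
  carrier := {f | ∀ i, 1 ≤ i → i ≤ m → ∀ c, ∑ c' : Cham A m, (if adj i c c' then f c' else 0) = 0}
  add_mem' {f g} hf hg := by
    intro i h1 h2 c
    have : ∀ c' : Cham A m, (if adj i c c' then (f + g) c' else 0) = (if adj i c c' then f c' else 0) + (if adj i c c' then g c' else 0) := by
      intro c'; split_ifs <;> simp
    rw [Finset.sum_congr rfl fun c' _ => this c', Finset.sum_add_distrib, hf i h1 h2, hg i h1 h2, add_zero]
  zero_mem' := by
    intro i _ _ c
    exact Finset.sum_eq_zero fun c' _ => by split_ifs <;> rfl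
  smul_mem' a f hf := by
    intro i h1 h2 c
    have : ∀ c' : Cham A m, (if adj i c c' then (a • f) c' else 0) = a * (if adj i c c' then f c' else 0) := by
      intro c'; split_ifs <;> simp
    rw [Finset.sum_congr rfl fun c' _ => this c', ← Finset.mul_sum, hf i h1 h2, mul_zero]

theorem eq_zero_of_panel [Finite V] {f : Cham A m → ℂ} (hf : f ∈ SM A m) {i : ℕ} (h1 : 1 ≤ i) (h2 : i ≤ m) (c : Cham A m)
    (h : ∀ c', adj i c c' → c' ≠ c → f c' = 0) : f c = 0 := by
  classical
  have h3 := hf i h1 h2 c
  rw [Finset.sum_eq_single c] at h3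
  · rwa [if_pos (adj_refl i c)] at h3
  · intro c' _ hc'
    split_ifs with h4
    · exact h c' h4 hc'
    · rfl
  · intro h4; exact absurd (Finset.mem_univ c) h4

theorem sup_span [FiniteDimensional F V] {S T : Submodule F V} (hTS : T ≤ S) (hd : finrank F S = finrank F T + 1) {x : V} (hx : x ∈ S)
    (hxT : x ∉ T) : T ⊔ Submodule.span F {x} = S := by
  apply Submodule.eq_of_le_of_finrank_le (sup_le hTS ((Submodule.span_singleton_le_iff_mem _ _).2 hx))
  have h1 : T < T ⊔ Submodule.span F {x} := by
    refine lt_of_le_of_ne le_sup_left fun h => hxT ?_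
    rw [h]
    exact Submodule.mem_sup_right (Submodule.mem_span_singleton_self x)
  have := Submodule.finrank_lt_finrank_of_lt h1
  omega

theorem exists_orth [FiniteDimensional F V] (A : Frm F σ ε t V) {S T : Submodule F V} (h : finrank F T < finrank F S) :
    ∃ e ∈ S, e ≠ 0 ∧ ∀ y ∈ T, A.B y e = 0 := by
  let b := Module.finBasis F T
  let L : S →ₗ[F] (Fin (finrank F T) → F) := LinearMap.pi fun j => (A.B (b j : V)).comp S.subtype
  have h1 : LinearMap.ker L ≠ ⊥ := by
    apply LinearMap.ker_ne_bot_of_finrank_lt
    rw [Module.finrank_pi, Fintype.card_fin]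
    exact h
  obtain ⟨e, he, he0⟩ := (LinearMap.ker L).ne_bot_iff.1 h1
  refine ⟨e, e.2, fun h => he0 (Subtype.ext h), ?_⟩
  have h2 : T ≤ LinearMap.ker (A.B (e : V)) := by
    have h3 : T = (Submodule.span F (Set.range b)).map T.subtype := by
      rw [b.span_eq, Submodule.map_subtype_top]
    rw [h3, Submodule.map_span, Submodule.span_le]
    rintro _ ⟨_, ⟨j, rfl⟩, rfl⟩
    have h4 : L e j = 0 := by rw [LinearMap.mem_ker.1 he]; rfl
    exact A.refl h4
  intro y hy
  exact A.refl (h2 hy)

/-- opposite up to level `k` -/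
def opk (c0 : Cham A m) (k : ℕ) (c : Cham A m) : Prop :=
  ∀ i, i ≤ k → ∀ x ∈ c.W i, (∀ y ∈ c0.W i, A.B y x = 0) → x = 0

theorem inj_step [FiniteDimensional F V] [Finite V] (hmx : ∀ c : Cham A m, ∀ x, A.Q x = 0 → (∀ y ∈ c.W m, A.B y x = 0) → x ∈ c.W m)
    (c0 : Cham A m) {f : Cham A m → ℂ} (hf : f ∈ SM A m) {k : ℕ} (hk : k + 1 ≤ m) (h : ∀ c, opk c0 (k + 1) c → f c = 0) :
    ∀ c, opk c0 k c → f c = 0 := by
  intro c hc
  obtain ⟨e, he, he0, hee⟩ := exists_orth A (S := c0.W (k + 1)) (T := c.W k)
    (by rw [c0.dim _ hk, c.dim _ (by omega)]; omega)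
  have heQ : A.Q e = 0 := c0.hQ _ (c0.mono hk he)
  have step : ∀ {c' : Cham A m} {i : ℕ}, i + 1 ≤ m → finrank F (c'.W (i + 1)) = finrank F (c'.W i) + 1 := by
    intro c' i hi
    rw [c'.dim _ hi, c'.dim _ (by omega)]
  have clA : ∀ i, k + 1 ≤ i → i ≤ m → ∀ c' : Cham A m, opk c0 k c' → c'.W k ≤ LinearMap.ker (A.B e) →
      ¬ c'.W i ≤ LinearMap.ker (A.B e) → f c' = 0 := by
    intro i hi
    induction i, hi using Nat.le_induction with
    | base =>
      intro him c' hc' hck hci
      apply h
      intro j hj x hx hxy
      rcases Nat.lt_or_ge k j with h1 | h1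
      · have hjk : j = k + 1 := by omega
        subst hjk
        by_cases hxk : x ∈ c'.W k
        · exact hc' k le_rfl x hxk fun y hy => hxy y (c0.mono (Nat.le_succ k) hy)
        · exfalso
          apply hci
          rw [← sup_span (c'.mono (Nat.le_succ k)) (step him) hx hxk]
          refine sup_le hck ((Submodule.span_singleton_le_iff_mem _ _).2 (hxy e he))
      · exact hc' j h1 x hx hxy
    | succ i hi ih =>
      intro him c' hc' hck hci
      by_cases h2 : c'.W i ≤ LinearMap.ker (A.B e)
      · apply eq_zero_of_panel hf (i := i) (by omega) (by omega) c'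
        intro c'' had hne
        apply ih (by omega) c''
        · intro j hj
          rw [← had j (by omega)]
          exact hc' j hj
        · rw [← had k (by omega)]; exact hck
        · intro h3
          apply hne
          have h4 : c'.W i ⊔ c''.W i < c'.W (i + 1) := by
            refine lt_of_le_of_ne (sup_le (c'.mono (Nat.le_succ i)) ?_) ?_
            · rw [had (i + 1) (by omega)]; exact c''.mono (Nat.le_succ i)
            · intro h5
              apply hci
              rw [← h5]
              exact sup_le h2 h3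
          have h5 := Submodule.finrank_lt_finrank_of_lt h4
          rw [c'.dim _ him] at h5
          have h6 : c'.W i = c'.W i ⊔ c''.W i := Submodule.eq_of_le_of_finrank_le le_sup_left (by
            rw [c'.dim i (by omega)]; omega)
          have h7 : c''.W i = c'.W i ⊔ c''.W i := Submodule.eq_of_le_of_finrank_le le_sup_right (by
            rw [c''.dim i (by omega)]; omega)
          exact (eq_of_adj had (h6.trans h7.symm)).symm
      · exact ih (by omega) c' hc' hck h2
  have clB : ∀ d i, i + d = m → k ≤ i → ∀ c' : Cham A m, opk c0 k c' → c'.W k ≤ LinearMap.ker (A.B e) →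
      e ∉ c'.W i → f c' = 0 := by
    intro d
    induction d with
    | zero =>
      intro i hi hki c' hc' hck hei
      have him : i = m := by omega
      subst him
      apply clA i (by omega) le_rfl c' hc' hck
      intro h1
      exact hei (hmx c' e heQ fun y hy => A.refl (h1 hy))
    | succ d ih =>
      intro i hi hki c' hc' hck hei
      by_cases h1 : e ∈ c'.W (i + 1)
      · apply eq_zero_of_panel hf (i := i + 1) (by omega) (by omega) c'
        intro c'' had hne
        apply ih (i + 1) (by omega) (by omega) c''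
        · intro j hj
          rw [← had j (by omega)]
          exact hc' j hj
        · rw [← had k (by omega)]; exact hck
        · intro h2
          apply hne
          have h3 := sup_span (c'.mono (Nat.le_succ i)) (step (by omega)) h1 hei
          have h4 := sup_span (c''.mono (Nat.le_succ i)) (step (by omega)) h2 (by rw [← had i (by omega)]; exact hei)
          rw [← had i (by omega), h3] at h4
          exact (eq_of_adj had h4).symm
      · exact ih (i + 1) (by omega) (by omega) c' hc' hck h1
  apply clB (m - k) k (by omega) le_rfl c hc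
  · intro y hy
    exact A.refl (hee y hy)
  · intro h1
    exact he0 (hc k le_rfl e h1 fun y hy => c0.hB _ (c0.mono (by omega) hy) _ (c0.mono hk he))

theorem inj [FiniteDimensional F V] [Finite V] (hmx : ∀ c : Cham A m, ∀ x, A.Q x = 0 → (∀ y ∈ c.W m, A.B y x = 0) → x ∈ c.W m)
    (c0 : Cham A m) {f : Cham A m → ℂ} (hf : f ∈ SM A m) (h : ∀ c, opk c0 m c → f c = 0) : f = 0 := by
  have h1 : ∀ d k, k + d = m → ∀ c, opk c0 k c → f c = 0 := by
    intro d
    induction d with
    | zero =>
      intro k hk
      rw [show k = m by omega]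
      exact h
    | succ d ih =>
      intro k hk
      exact inj_step hmx c0 hf (by omega) (ih (k + 1) (by omega))
  funext c
  apply h1 m 0 (by omega) c
  intro i hi x hx _
  have h2 := c.dim 0 (Nat.zero_le m)
  rw [Submodule.finrank_eq_zero] at h2
  rw [Nat.le_zero.1 hi, h2] at hx
  exact (Submodule.mem_bot F).1 hx

end Cfsg.Agent.H16.St
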