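import Cfsg.Agent.H16_St3

/-! Frames, transitivity on chambers and on opposite pairs. -/

set_option autoImplicit false
set_option linter.unusedSectionVars false

namespace Cfsg.Agent.H16.St

open Cfsg.Agent.H5 Module

variable {F : Type*} [Field F] {σ : F →+* F} {ε : F} {t : F →+ F} {V : Type*}
  [AddCommGroup V] [Module F V] {A : Frm F σ ε t V} {m : ℕ}

instance : MulAction A.isom (Cham A m) where
  smul g c :=
    { W := fun i => (c.W i).map (g : V ≃ₗ[F] V).toLinearMap
      mono := fun i j h => Submodule.map_mono (c.mono h)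
      dim := fun i hi => by rw [LinearEquiv.finrank_map_eq, c.dim i hi]
      top := fun i hi => by rw [c.top i hi, Submodule.map_top, LinearEquiv.range]
      hQ := by
        rintro _ ⟨x, hx, rfl⟩
        have := g.2.2 x
        rw [c.hQ x hx] at this
        exact this
      hB := by
        rintro _ ⟨x, hx, rfl⟩ _ ⟨y, hy, rfl⟩
        have := g.2.1 x y
        rw [c.hB x hx y hy] at this
        exact this }
  one_smul c := by
    apply Cham.ext; funext i
    change (c.W i).map ((1 : V ≃ₗ[F] V)).toLinearMap = c.W i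
    exact Submodule.map_id _
  mul_smul g h c := by
    apply Cham.ext; funext i
    change (c.W i).map ((g : V ≃ₗ[F] V) * (h : V ≃ₗ[F] V)).toLinearMap = ((c.W i).map (h : V ≃ₗ[F] V).toLinearMap).map (g : V ≃ₗ[F] V).toLinearMap
    rw [← Submodule.map_comp]; rfl

theorem smul_W (g : A.isom) (c : Cham A m) (i : ℕ) : (g • c).W i = (c.W i).map (g : V ≃ₗ[F] V).toLinearMap := rfl

theorem map_inj (g : V ≃ₗ[F] V) {S T : Submodule F V} : S.map g.toLinearMap = T.map g.toLinearMap ↔ S = T :=
  (Submodule.map_injective_of_injective g.injective).eq_iff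

theorem adj_smul (g : A.isom) (i : ℕ) (c c' : Cham A m) : adj i (g • c) (g • c') ↔ adj i c c' := by
  unfold adj
  refine forall_congr' fun j => imp_congr_right fun _ => ?_
  rw [smul_W, smul_W, map_inj]

theorem SM_inv [Finite V] (g : A.isom) (f : Cham A m → ℂ) (hf : f ∈ SM A m) : (fun c => f (g⁻¹ • c)) ∈ SM A m := by
  classical
  intro i h1 h2 c
  refine Eq.trans ?_ (hf i h1 h2 (g⁻¹ • c))
  refine Fintype.sum_equiv (MulAction.toPerm g⁻¹) _ _ fun c' => ?_
  rw [MulAction.toPerm_apply]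
  simp only [adj_smul]

/-- an adapted basis -/
def Adp (c : Cham A m) (e : Fin m → V) : Prop :=
  ∀ i, ∀ h : i ≤ m, c.W i = Submodule.span F (Set.range fun j : Fin i => e (Fin.castLE h j))

theorem Adp.unique {c c' : Cham A m} {e : Fin m → V} (h : Adp c e) (h' : Adp c' e) : c = c' := by
  apply Cham.ext
  funext i
  by_cases hi : i ≤ m
  · rw [h i hi, h' i hi]
  · rw [c.top i (by omega), c'.top i (by omega)]

theorem Adp.smul {c : Cham A m} {e : Fin m → V} (h : Adp c e) (g : A.isom) : Adp (g • c) (fun i => (g : V ≃ₗ[F] V) (e i)) := by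
  intro i hi
  rw [smul_W, h i hi, Submodule.map_span, ← Set.range_comp]
  rfl

theorem adp_of [FiniteDimensional F V] {c : Cham A m} {e : Fin m → V} (h1 : ∀ i : Fin m, e i ∈ c.W (i + 1)) (h2 : ∀ i : Fin m, e i ∉ c.W i) :
    Adp c e := by
  intro i
  induction i with
  | zero =>
    intro h
    have h2 := c.dim 0 h
    rw [Submodule.finrank_eq_zero] at h2
    rw [h2, eq_comm, Submodule.span_eq_bot]
    rintro _ ⟨j, rfl⟩
    exact j.elim0
  | succ i ih =>
    intro h
    apply le_antisymm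
    · have h3 := sup_span (c.mono (Nat.le_succ i)) (by rw [c.dim _ h, c.dim _ (by omega)]) (h1 ⟨i, h⟩) (h2 ⟨i, h⟩)
      rw [← h3, ih (by omega)]
      refine sup_le (Submodule.span_mono ?_) ((Submodule.span_singleton_le_iff_mem _ _).2 (Submodule.subset_span ?_))
      · rintro _ ⟨j, rfl⟩
        exact ⟨⟨j, by omega⟩, rfl⟩
      · exact ⟨⟨i, by omega⟩, rfl⟩
    · rw [Submodule.span_le]
      rintro _ ⟨j, rfl⟩
      exact c.mono (show (j : ℕ) + 1 ≤ i + 1 by omega) (h1 (Fin.castLE h j))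

theorem Adp.mem {c : Cham A m} {e : Fin m → V} (h : Adp c e) (i : Fin m) {k : ℕ} (hk : (i : ℕ) < k) : e i ∈ c.W k := by
  by_cases hkm : k ≤ m
  · rw [h k hkm]
    exact Submodule.subset_span ⟨⟨i, hk⟩, rfl⟩
  · rw [c.top k (by omega)]; trivial

theorem Adp.W_m {c : Cham A m} {e : Fin m → V} (h : Adp c e) : c.W m = Submodule.span F (Set.range e) := h m le_rfl

theorem Adp.li {c : Cham A m} {e : Fin m → V} (h : Adp c e) : LinearIndependent F e := by
  rw [linearIndependent_iff_card_eq_finrank_span, Set.finrank, ← h.W_m, c.dim m le_rfl, Fintype.card_fin]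

theorem exists_adp [FiniteDimensional F V] (c : Cham A m) : ∃ e : Fin m → V, Adp c e := by
  have h : ∀ i : Fin m, ∃ x, x ∈ c.W (i + 1) ∧ x ∉ c.W i := by
    intro i
    have h1 : ¬ c.W (i + 1) ≤ c.W i := by
      intro h2
      have h3 := Submodule.finrank_mono h2
      rw [c.dim _ (by omega), c.dim _ (by omega)] at h3
      omega
    exact SetLike.not_le_iff_exists.1 h1
  choose e h1 h2 using h
  exact ⟨e, adp_of h1 h2⟩

theorem trans [FiniteDimensional F V] (hA : A.Nondeg) (c c' : Cham A m) : ∃ g : A.isom, g • c = c' := by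
  obtain ⟨e, he⟩ := exists_adp c
  obtain ⟨e', he'⟩ := exists_adp c'
  obtain ⟨g, hg, hgi⟩ := Frm.witt_tuple hA e e' he.li he'.li (by
    intro i j
    rw [c.hB _ (he.mem i i.2) _ (he.mem j j.2), c'.hB _ (he'.mem i i.2) _ (he'.mem j j.2)]) (by
    intro i
    rw [c.hQ _ (he.mem i i.2), c'.hQ _ (he'.mem i i.2)])
  refine ⟨⟨g, hg⟩, (he.smul ⟨g, hg⟩).unique ?_⟩
  convert he' using 1
  funext i
  exact hgi i

/-- hyperbolic frames -/
structure Fr (A : Frm F σ ε t V) {m : ℕ} (e f : Fin m → V) : Prop where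
  Qe : ∀ i, A.Q (e i) = 0
  Qf : ∀ i, A.Q (f i) = 0
  ee : ∀ i j, A.B (e i) (e j) = 0
  ff : ∀ i j, A.B (f i) (f j) = 0
  ef : ∀ i j, A.B (e i) (f j) = if i = j then 1 else 0

theorem Fr.fe {e f : Fin m → V} (h : Fr A e f) (i j : Fin m) : A.B (f i) (e j) = if i = j then ε else 0 := by
  rw [A.symm, h.ef]
  by_cases hij : i = j
  · rw [if_pos hij, if_pos hij.symm, map_one, mul_one]
  · rw [if_neg hij, if_neg (Ne.symm hij), map_zero, mul_zero]

theorem Fr.li {e f : Fin m → V} (h : Fr A e f) : LinearIndependent F (Sum.elim e f) := by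
  rw [Fintype.linearIndependent_iff]
  intro g hg
  rw [Fintype.sum_sum_type] at hg
  simp only [Sum.elim_inl, Sum.elim_inr] at hg
  rintro (i | i)
  · have h1 := congrArg (A.B (f i)) hg
    rw [map_add, map_sum, map_sum, map_zero] at h1
    simp only [map_smul, h.fe, h.ff, smul_eq_mul, mul_zero, Finset.sum_const_zero, add_zero, mul_ite,
      Finset.sum_ite_eq, Finset.mem_univ, if_true] at h1
    exact (mul_eq_zero.1 h1).resolve_right A.ε_ne
  · have h1 := congrArg (A.B (e i)) hg
    rw [map_add, map_sum, map_sum, map_zero] at h1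
    simpa only [map_smul, h.ef, h.ee, smul_eq_mul, mul_zero, Finset.sum_const_zero, zero_add, mul_ite,
      Finset.sum_ite_eq, Finset.mem_univ, if_true, mul_one] using h1

theorem opk_symm [FiniteDimensional F V] {c c' : Cham A m} (h : opk c m c') : opk c' m c := by
  intro i hi x hx hxy
  by_contra hx0
  -- a complement of `x` in `c.W i`
  obtain ⟨T, hT⟩ := Submodule.exists_isCompl ((Submodule.span F {x}).comap (c.W i).subtype)
  set T' := T.map (c.W i).subtype with hT'
  have h1 : finrank F T' + 1 = i := by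
    have h2 : finrank F ((Submodule.span F {x}).comap (c.W i).subtype) = 1 := by
      rw [(Submodule.comapSubtypeEquivOfLe ((Submodule.span_singleton_le_iff_mem _ _).2 hx)).finrank_eq]
      exact finrank_span_singleton hx0
    have h3 := Submodule.finrank_add_eq_of_isCompl hT
    rw [h2, c.dim i hi] at h3
    rw [hT', Submodule.finrank_map_subtype_eq]
    omega
  obtain ⟨y, hy, hy0, hyT⟩ := exists_orth A (S := c'.W i) (T := T') (by rw [c'.dim i hi]; omega)
  apply hy0
  apply h i hi y hy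
  intro z hz
  obtain ⟨z1, hz1, z2, hz2, hz12⟩ := Submodule.mem_sup.1 (show (⟨z, hz⟩ : c.W i) ∈ ((Submodule.span F {x}).comap (c.W i).subtype) ⊔ T by
    rw [hT.sup_eq_top]; trivial)
  have h4 : z = (z1 : V) + (z2 : V) := (congrArg (fun w : c.W i => (w : V)) hz12).symm
  obtain ⟨a, ha⟩ := Submodule.mem_span_singleton.1 (show (z1 : V) ∈ Submodule.span F {x} from hz1)
  have h5 : A.B y z = 0 := by
    rw [h4, map_add, ← ha, map_smul, hxy y hy, smul_zero, zero_add]
    exact A.refl (hyT _ ⟨z2, hz2, rfl⟩)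
  exact A.refl h5

theorem exists_frame [FiniteDimensional F V] {c c' : Cham A m} (h : opk c m c') :
    ∃ e f : Fin m → V, Fr A e f ∧ Adp c e ∧ Adp c' f := by
  have h' := opk_symm h
  have he : ∀ i : Fin m, ∃ x, x ∈ c.W (i + 1) ∧ x ≠ 0 ∧ ∀ y ∈ c'.W i, A.B y x = 0 := fun i =>
    exists_orth A (by rw [c.dim _ (by omega), c'.dim _ (by omega)]; omega)
  have hf : ∀ i : Fin m, ∃ x, x ∈ c'.W (i + 1) ∧ x ≠ 0 ∧ ∀ y ∈ c.W i, A.B y x = 0 := fun i =>
    exists_orth A (by rw [c.dim _ (by omega), c'.dim _ (by omega)]; omega)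
  choose e he1 he0 he2 using he
  choose f hf1 hf0 hf2 using hf
  have he3 : ∀ i : Fin m, e i ∉ c.W i := fun i hi => he0 i (h' i (by omega) _ hi (he2 i))
  have hf3 : ∀ i : Fin m, f i ∉ c'.W i := fun i hi => hf0 i (h i (by omega) _ hi (hf2 i))
  have hAe : Adp c e := adp_of he1 he3
  have hlt : ∀ i j : Fin m, i < j → A.B (e i) (f j) = 0 := fun i j hij =>
    hf2 j _ (hAe.mem i hij)
  have hAf : Adp c' f := adp_of hf1 hf3
  have hgt : ∀ i j : Fin m, j < i → A.B (e i) (f j) = 0 := fun i j hij =>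
    A.refl (he2 i _ (hAf.mem j hij))
  have hne : ∀ i : Fin m, A.B (e i) (f i) ≠ 0 := by
    intro i hi
    apply hf0 i
    apply h (i + 1) (by omega) _ (hf1 i)
    have h1 := sup_span (c.mono (Nat.le_succ i)) (by rw [c.dim _ (by omega), c.dim _ (by omega)]) (he1 i) (he3 i)
    intro y hy
    have h2 : c.W (i + 1) ≤ LinearMap.ker (A.B (f i)) := by
      rw [← h1]
      refine sup_le (fun z hz => A.refl (hf2 i z hz)) ((Submodule.span_singleton_le_iff_mem _ _).2 (A.refl hi))
    exact A.refl (h2 hy)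
  have hAf' : Adp c' (fun i => (A.B (e i) (f i))⁻¹ • f i) := by
    apply adp_of
    · intro i; exact (c'.W _).smul_mem _ (hf1 i)
    · intro i hi
      exact hf3 i ((Submodule.smul_mem_iff _ (inv_ne_zero (hne i))).1 hi)
  refine ⟨e, _, ⟨?_, ?_, ?_, ?_, ?_⟩, hAe, hAf'⟩
  · exact fun i => c.hQ _ (hAe.mem i i.2)
  · exact fun i => c'.hQ _ (hAf'.mem i i.2)
  · exact fun i j => c.hB _ (hAe.mem i i.2) _ (hAe.mem j j.2)
  · exact fun i j => c'.hB _ (hAf'.mem i i.2) _ (hAf'.mem j j.2)
  · intro i j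
    rw [map_smul, smul_eq_mul]
    rcases lt_trichotomy i j with hij | hij | hij
    · rw [hlt i j hij, mul_zero, if_neg hij.ne]
    · subst hij
      rw [inv_mul_cancel₀ (hne i), if_pos rfl]
    · rw [hgt i j hij, mul_zero, if_neg hij.ne']

theorem opk_of_frame {c c' : Cham A m} {e f : Fin m → V} (h : Fr A e f) (hc : Adp c e) (hc' : Adp c' f) : opk c m c' := by
  intro i hi x hx hxy
  rw [hc' i hi, Submodule.mem_span_range_iff_exists_fun] at hx
  obtain ⟨a, rfl⟩ := hx
  refine Finset.sum_eq_zero fun j _ => ?_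
  have h1 := hxy (e (Fin.castLE hi j)) (hc.mem _ j.2)
  rw [map_sum, Finset.sum_eq_single j] at h1
  · rw [map_smul, h.ef, if_pos rfl, smul_eq_mul, mul_one] at h1
    rw [h1, zero_smul]
  · intro k _ hk
    rw [map_smul, h.ef, if_neg, smul_zero]
    intro h2
    exact hk ((Fin.castLE_injective hi) h2).symm
  · intro h2; exact absurd (Finset.mem_univ _) h2

theorem trans_opp [FiniteDimensional F V] (hA : A.Nondeg) {c c' c'' : Cham A m} (h : opk c m c') (h' : opk c m c'') :
    ∃ g : A.isom, g • c = c ∧ g • c' = c'' := by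
  obtain ⟨e, f, hF, he, hf⟩ := exists_frame h
  obtain ⟨e', f', hF', he', hf'⟩ := exists_frame h'
  obtain ⟨g, hg, hgi⟩ := Frm.witt_tuple hA (Sum.elim e f) (Sum.elim e' f') hF.li hF'.li (by
    rintro (i | i) (j | j) <;> simp only [Sum.elim_inl, Sum.elim_inr, hF.ee, hF.ef, hF.fe, hF.ff, hF'.ee, hF'.ef, hF'.fe, hF'.ff]) (by
    rintro (i | i) <;> simp only [Sum.elim_inl, Sum.elim_inr, hF.Qe, hF.Qf, hF'.Qe, hF'.Qf])
  refine ⟨⟨g, hg⟩, (he.smul ⟨g, hg⟩).unique ?_, (hf.smul ⟨g, hg⟩).unique ?_⟩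
  · convert he' using 1
    funext i
    exact hgi (Sum.inl i)
  · convert hf' using 1
    funext i
    exact hgi (Sum.inr i)

theorem opk_smul (g : A.isom) {c c' : Cham A m} {k : ℕ} (h : opk c k c') : opk (g • c) k (g • c') := by
  intro i hi x hx hxy
  obtain ⟨x', hx', rfl⟩ := hx
  have : x' = 0 := h i hi x' hx' fun y hy => by
    have h1 := hxy _ ⟨y, hy, rfl⟩
    have h2 := g.2.1 y x'
    exact h2.symm.trans h1
  rw [this, map_zero]

/-- the torus -/
theorem torus_e [FiniteDimensional F V] {c c' : Cham A m} {e f : Fin m → V} (h : Fr A e f) (hc : Adp c e) (hc' : Adp c' f) {g : A.isom}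
    (hg : g • c = c) (hg' : g • c' = c') (i : Fin m) : ∃ a : F, (g : V ≃ₗ[F] V) (e i) = a • e i := by
  have h1 : (g : V ≃ₗ[F] V) (e i) ∈ c.W (i + 1) := by
    have : (g : V ≃ₗ[F] V) (e i) ∈ (g • c).W (i + 1) := ⟨e i, hc.mem i (Nat.lt_succ_self _), rfl⟩
    rwa [hg] at this
  have hop := opk_symm (opk_of_frame h hc hc')
  have hei : e i ∉ c.W i := by
    intro h2
    have h3 : e i = 0 := hop i (by omega) _ h2 (by
      intro y hy
      rw [hc' i (by omega)] at hy
      have h4 : Submodule.span F (Set.range fun j : Fin i => f (Fin.castLE (by omega) j)) ≤ LinearMap.ker (A.B (e i)) := by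
        rw [Submodule.span_le]
        rintro _ ⟨j, rfl⟩
        rw [SetLike.mem_coe, LinearMap.mem_ker, h.ef, if_neg]
        intro h5
        have := congrArg (fun z : Fin m => (z : ℕ)) h5
        simp at this
        omega
      exact A.refl (h4 hy))
    have h6 := h.ef i i
    rw [h3, map_zero, LinearMap.zero_apply, if_pos rfl] at h6
    exact zero_ne_one h6
  have horth : ∀ y ∈ c'.W i, A.B (e i) y = 0 := by
    intro y hy
    rw [hc' i (by omega)] at hy
    have h4 : Submodule.span F (Set.range fun j : Fin i => f (Fin.castLE (by omega) j)) ≤ LinearMap.ker (A.B (e i)) := by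
      rw [Submodule.span_le]
      rintro _ ⟨j, rfl⟩
      rw [SetLike.mem_coe, LinearMap.mem_ker, h.ef, if_neg]
      intro h5
      have := congrArg (fun z : Fin m => (z : ℕ)) h5
      simp at this
      omega
    exact h4 hy
  have h2 := sup_span (c.mono (Nat.le_succ i)) (by rw [c.dim _ (by omega), c.dim _ (by omega)]) (hc.mem i (Nat.lt_succ_self _)) hei
  rw [← h2] at h1
  obtain ⟨w, hw, z, hz, hwz⟩ := Submodule.mem_sup.1 h1
  obtain ⟨a, rfl⟩ := Submodule.mem_span_singleton.1 hz
  refine ⟨a, ?_⟩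
  have h3 : w = 0 := by
    apply hop i (by omega) w hw
    intro y hy
    have hy' : y ∈ (g • c').W i := by rw [hg']; exact hy
    obtain ⟨y', hy', rfl⟩ := hy'
    have h4 : A.B ((g : V ≃ₗ[F] V) (e i)) ((g : V ≃ₗ[F] V) y') = 0 := by rw [g.2.1]; exact horth y' hy'
    rw [← hwz, map_add, LinearMap.add_apply, LinearMap.map_smulₛₗ, LinearMap.smul_apply] at h4
    have h5 : A.B (e i) ((g : V ≃ₗ[F] V) y') = 0 := horth _ hy
    rw [h5, smul_zero, add_zero] at h4
    exact A.refl h4
  rw [← hwz, h3, zero_add]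

end Cfsg.Agent.H16.St
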