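import Cfsg.Agent.H16_St4

/-! Chambers from tuples, maximality, frames from Witt decompositions, apartments. -/

set_option autoImplicit false
set_option linter.unusedSectionVars false

namespace Cfsg.Agent.H16.St

open Cfsg.Agent.H5 Module

variable {F : Type*} [Field F] {σ : F →+* F} {ε : F} {t : F →+ F} {V : Type*}
  [AddCommGroup V] [Module F V] {A : Frm F σ ε t V} {m : ℕ}

/-- linearly independent totally singular tuples -/
structure TS (A : Frm F σ ε t V) (e : Fin m → V) : Prop where
  li : LinearIndependent F e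
  Q : ∀ i, A.Q (e i) = 0
  B : ∀ i j, A.B (e i) (e j) = 0

theorem TS.span_B {e : Fin m → V} (h : TS A e) {x y : V} (hx : x ∈ Submodule.span F (Set.range e))
    (hy : y ∈ Submodule.span F (Set.range e)) : A.B x y = 0 := by
  rw [Submodule.mem_span_range_iff_exists_fun] at hx hy
  obtain ⟨a, rfl⟩ := hx
  obtain ⟨b, rfl⟩ := hy
  rw [Frm.B_sum_sum]
  refine Finset.sum_eq_zero fun i _ => Finset.sum_eq_zero fun j _ => ?_
  rw [h.B, mul_zero, mul_zero]

theorem TS.span_Q {e : Fin m → V} (h : TS A e) {x : V} (hx : x ∈ Submodule.span F (Set.range e)) : A.Q x = 0 := by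
  rw [Submodule.mem_span_range_iff_exists_fun] at hx
  obtain ⟨a, rfl⟩ := hx
  rw [A.Q_sum_eq Finset.univ a e (fun _ => (0 : V)) (fun i j => by rw [h.B, map_zero]) (fun i => by rw [h.Q, A.Q_zero])]
  simp [A.Q_zero]

/-- the chamber of a tuple -/
noncomputable def chT (e : Fin m → V) (h : TS A e) : Cham A m where
  W i := if hi : i ≤ m then Submodule.span F (Set.range fun j : Fin i => e (Fin.castLE hi j)) else ⊤
  mono := by
    intro i j hij
    dsimp only
    by_cases hj : j ≤ m
    · rw [dif_pos hj, dif_pos (hij.trans hj)]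
      apply Submodule.span_mono
      rintro _ ⟨k, rfl⟩
      exact ⟨Fin.castLE hij k, rfl⟩
    · rw [dif_neg hj]; exact le_top
  dim i hi := by
    rw [dif_pos hi]
    have := finrank_span_eq_card (h.li.comp _ (Fin.castLE_injective hi))
    rw [Fintype.card_fin] at this
    exact this
  top i hi := dif_neg (by omega)
  hQ := by
    intro x hx
    rw [dif_pos le_rfl] at hx
    exact h.span_Q hx
  hB := by
    intro x hx y hy
    rw [dif_pos le_rfl] at hx hy
    exact h.span_B hx hy

theorem chT_adp (e : Fin m → V) (h : TS A e) : Adp (chT e h) e := fun _ hi => dif_pos hi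

theorem Fr.tse {e f : Fin m → V} (h : Fr A e f) : TS A e := ⟨h.li.comp Sum.inl Sum.inl_injective, h.Qe, h.ee⟩

theorem Fr.tsf {e f : Fin m → V} (h : Fr A e f) : TS A f := ⟨h.li.comp Sum.inr Sum.inr_injective, h.Qf, h.ff⟩

theorem hmx_of [FiniteDimensional F V] (hA : A.Nondeg) {e f : Fin m → V} (h : Fr A e f)
    (han : ∀ v, (∀ i, A.B (e i) v = 0) → (∀ i, A.B (f i) v = 0) → A.Q v = 0 → v = 0) :
    ∀ c : Cham A m, ∀ x, A.Q x = 0 → (∀ y ∈ c.W m, A.B y x = 0) → x ∈ c.W m := by
  have h0 : ∀ x, A.Q x = 0 → (∀ y ∈ (chT e h.tse).W m, A.B y x = 0) → x ∈ (chT e h.tse).W m := by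
    intro x hx hxy
    have had := chT_adp e h.tse
    set w : V := ∑ i, (- (A.B (f i) x) * ε⁻¹) • e i with hw
    have hwm : w ∈ (chT e h.tse).W m := Submodule.sum_mem _ fun i _ => Submodule.smul_mem _ _ (had.mem i i.2)
    have hz : x + w = 0 := by
      apply han
      · intro i
        rw [map_add, hxy _ (had.mem i i.2), (chT e h.tse).hB _ (had.mem i i.2) _ hwm, add_zero]
      · intro i
        rw [map_add, hw, map_sum, Finset.sum_eq_single i]
        · rw [map_smul, h.fe, if_pos rfl, smul_eq_mul, mul_assoc, inv_mul_cancel₀ A.ε_ne, mul_one, add_neg_cancel]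
        · intro j _ hj
          rw [map_smul, h.fe, if_neg (Ne.symm hj), smul_zero]
        · intro hi; exact absurd (Finset.mem_univ _) hi
      · rw [A.Q_add, hx, (chT e h.tse).hQ w hwm, A.refl (hxy w hwm), map_zero, add_zero, add_zero]
    rw [eq_neg_of_add_eq_zero_left hz]
    exact Submodule.neg_mem _ hwm
  intro c x hx hxy
  obtain ⟨g, hg⟩ := trans hA (chT e h.tse) c
  have h1 : ((g⁻¹ : A.isom) : V ≃ₗ[F] V) x ∈ (chT e h.tse).W m := by
    apply h0
    · rw [(g⁻¹).2.2, hx]
    · intro y hy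
      have h2 := (g⁻¹).2.1 ((g : V ≃ₗ[F] V) y) x
      have h3 : ((g⁻¹ : A.isom) : V ≃ₗ[F] V) ((g : V ≃ₗ[F] V) y) = y := by
        rw [← LinearEquiv.mul_apply, ← Subgroup.coe_mul, inv_mul_cancel]; rfl
      rw [h3] at h2
      rw [h2]
      apply hxy
      rw [← hg]
      exact ⟨y, hy, rfl⟩
  rw [← hg]
  refine ⟨_, h1, ?_⟩
  change (g : V ≃ₗ[F] V) (((g⁻¹ : A.isom) : V ≃ₗ[F] V) x) = x
  rw [← LinearEquiv.mul_apply, ← Subgroup.coe_mul, mul_inv_cancel]; rfl

/-- frames from Witt decompositions -/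
theorem exists_fr : ∀ (m a : ℕ) {V : Type*} [AddCommGroup V] [Module F V] (A : Frm F σ ε t V), Frm.WittDec m a A →
    ∃ e f : Fin m → V, Fr A e f ∧ ∀ v, (∀ i, A.B (e i) v = 0) → (∀ i, A.B (f i) v = 0) → A.Q v = 0 → v = 0 := by
  intro m
  induction m with
  | zero =>
    intro a V _ _ A h
    refine ⟨Fin.elim0, Fin.elim0, ⟨fun i => i.elim0, fun i => i.elim0, fun i => i.elim0, fun i => i.elim0, fun i => i.elim0⟩,
      fun v _ _ => h.1 v⟩
  | succ m ih =>
    intro a V _ _ A h
    obtain ⟨u, w, hp, h⟩ := h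
    obtain ⟨e, f, hF, han⟩ := ih a _ h
    have hu : ∀ x : A.perp2 u w, A.B u x = 0 := fun x => ((A.mem_perp2).1 x.2).1
    have hw : ∀ x : A.perp2 u w, A.B w x = 0 := fun x => ((A.mem_perp2).1 x.2).2
    refine ⟨Fin.cons u (fun i => (e i : V)), Fin.cons w (fun i => (f i : V)), ⟨?_, ?_, ?_, ?_, ?_⟩, ?_⟩
    · intro i
      refine Fin.cases ?_ (fun i => ?_) i
      · exact hp.Qu
      · exact hF.Qe i
    · intro i
      refine Fin.cases ?_ (fun i => ?_) i
      · exact hp.Qf
      · exact hF.Qf i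
    · intro i j
      refine Fin.cases ?_ (fun i => ?_) i <;> refine Fin.cases ?_ (fun j => ?_) j
      · exact hp.Buu
      · exact hu _
      · exact A.refl (hu _)
      · exact hF.ee i j
    · intro i j
      refine Fin.cases ?_ (fun i => ?_) i <;> refine Fin.cases ?_ (fun j => ?_) j
      · exact hp.Bff
      · exact hw _
      · exact A.refl (hw _)
      · exact hF.ff i j
    · intro i j
      refine Fin.cases ?_ (fun i => ?_) i <;> refine Fin.cases ?_ (fun j => ?_) j
      · rw [if_pos rfl]; exact hp.Buf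
      · rw [if_neg (Fin.succ_ne_zero j).symm]; exact hu _
      · rw [if_neg (Fin.succ_ne_zero i)]; exact A.refl (hw _)
      · have := hF.ef i j
        simp only [Fin.succ_inj]
        exact this
    · intro v h1 h2 hv
      have hvm : v ∈ A.perp2 u w := (A.mem_perp2).2 ⟨h1 0, h2 0⟩
      have := han ⟨v, hvm⟩ (fun i => h1 i.succ) (fun i => h2 i.succ) hv
      exact congrArg (fun x : A.perp2 u w => (x : V)) this

/-! ### apartments -/

section Apartment

variable {e f : Fin m → V}

/-- the vectors -/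
def bv (e f : Fin m → V) (j : Fin m) (s : ℤˣ) : V := if s = 1 then e j else f j

theorem bv_one (j : Fin m) : bv e f j 1 = e j := if_pos rfl

theorem bv_neg (j : Fin m) : bv e f j (-1) = f j := if_neg (by decide)

/-- the tuples -/
def tu (e f : Fin m → V) (x : Equiv.Perm (Fin m) × (Fin m → ℤˣ)) (i : Fin m) : V := bv e f (x.1 i) (x.2 i)

theorem tu_ts (h : Fr A e f) (x : Equiv.Perm (Fin m) × (Fin m → ℤˣ)) : TS A (tu e f x) := by
  refine ⟨?_, ?_, ?_⟩
  · have h1 : tu e f x = Sum.elim e f ∘ fun i => if x.2 i = 1 then Sum.inl (x.1 i) else Sum.inr (x.1 i) := by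
      funext i
      rcases Int.units_eq_one_or (x.2 i) with hs | hs
      · simp [tu, hs, bv_one]
      · simp [tu, hs, bv_neg]
    rw [h1]
    apply h.li.comp
    intro i j hij
    dsimp only at hij
    split_ifs at hij with h1 h2 h2
    · exact x.1.injective (Sum.inl_injective hij)
    · exact x.1.injective (Sum.inr_injective hij)
  · intro i
    unfold tu bv
    split_ifs
    · exact h.Qe _
    · exact h.Qf _
  · intro i j
    by_cases hij : i = j
    · subst hij
      unfold tu bv
      split_ifs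
      · exact h.ee _ _
      · exact h.ff _ _
    · have h1 : x.1 i ≠ x.1 j := fun h' => hij (x.1.injective h')
      unfold tu bv
      split_ifs
      · exact h.ee _ _
      · rw [h.ef, if_neg h1]
      · rw [h.fe, if_neg h1]
      · exact h.ff _ _

/-- the chamber of an apartment -/
noncomputable def cc (h : Fr A e f) (x : Equiv.Perm (Fin m) × (Fin m → ℤˣ)) : Cham A m := chT _ (tu_ts h x)

theorem cc_adp (h : Fr A e f) (x : Equiv.Perm (Fin m) × (Fin m → ℤˣ)) : Adp (cc h x) (tu e f x) := chT_adp _ _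

/-- the sign -/
def sg (x : Equiv.Perm (Fin m) × (Fin m → ℤˣ)) : ℤˣ := Equiv.Perm.sign x.1 * ∏ i, x.2 i

/-- the alternating function of an apartment -/
noncomputable def fA (h : Fr A e f) (c : Cham A m) : ℂ :=
  open Classical in ∑ x : Equiv.Perm (Fin m) × (Fin m → ℤˣ), if cc h x = c then (((sg x : ℤˣ) : ℤ) : ℂ) else 0

theorem Adp.W_image {c : Cham A m} {e : Fin m → V} (h : Adp c e) {i : ℕ} (hi : i ≤ m) :
    c.W i = Submodule.span F (e '' {j | (j : ℕ) < i}) := by
  rw [h i hi]
  congr 1
  ext x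
  constructor
  · rintro ⟨j, rfl⟩
    exact ⟨Fin.castLE hi j, j.2, rfl⟩
  · rintro ⟨j, hj, rfl⟩
    exact ⟨⟨j, hj⟩, rfl⟩

/-- the involution -/
def iv (i : ℕ) (hi : i < m) (x : Equiv.Perm (Fin m) × (Fin m → ℤˣ)) : Equiv.Perm (Fin m) × (Fin m → ℤˣ) :=
  if h : i + 1 < m then (x.1 * Equiv.swap ⟨i, hi⟩ ⟨i + 1, h⟩, fun k => x.2 (Equiv.swap ⟨i, hi⟩ ⟨i + 1, h⟩ k))
  else (x.1, x.2 * Pi.mulSingle ⟨i, hi⟩ (-1))

theorem sg_iv (i : ℕ) (hi : i < m) (x : Equiv.Perm (Fin m) × (Fin m → ℤˣ)) : sg (iv i hi x) = - sg x := by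
  unfold iv sg
  split_ifs with h
  · dsimp only
    rw [Equiv.prod_comp (Equiv.swap (⟨i, hi⟩ : Fin m) ⟨i + 1, h⟩) x.2, Equiv.Perm.sign_mul, Equiv.Perm.sign_swap (by
      intro h'; simpa using congrArg (fun z : Fin m => (z : ℕ)) h')]
    simp
  · dsimp only
    simp only [Pi.mul_apply]
    rw [Finset.prod_mul_distrib, Fintype.prod_pi_mulSingle']
    simp

theorem iv_iv (i : ℕ) (hi : i < m) (x : Equiv.Perm (Fin m) × (Fin m → ℤˣ)) : iv i hi (iv i hi x) = x := by
  unfold iv
  split_ifs with h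
  · dsimp only
    refine Prod.ext ?_ ?_
    · dsimp only
      rw [mul_assoc, Equiv.swap_mul_self, mul_one]
    · dsimp only
      funext k
      rw [Equiv.swap_apply_self]
  · dsimp only
    refine Prod.ext rfl ?_
    dsimp only
    rw [mul_assoc, ← Pi.mulSingle_mul]
    simp

theorem iv_adj (h : Fr A e f) (i : ℕ) (hi : i < m) (x : Equiv.Perm (Fin m) × (Fin m → ℤˣ)) : adj (i + 1) (cc h x) (cc h (iv i hi x)) := by
  intro j hj
  by_cases hjm : j ≤ m
  · rw [(cc_adp h x).W_image hjm, (cc_adp h _).W_image hjm]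
    congr 1
    unfold iv
    split_ifs with hi'
    · have h1 : ∀ k : Fin m, (k : ℕ) < j → ((Equiv.swap (⟨i, hi⟩ : Fin m) ⟨i + 1, hi'⟩ k : Fin m) : ℕ) < j := by
        intro k hk
        rw [Equiv.swap_apply_def]
        split_ifs with h2 h3
        · subst h2
          dsimp only at hk ⊢
          omega
        · subst h3
          dsimp only at hk ⊢
          omega
        · exact hk
      ext v
      constructor
      · rintro ⟨k, hk, rfl⟩
        refine ⟨Equiv.swap (⟨i, hi⟩ : Fin m) ⟨i + 1, hi'⟩ k, h1 k hk, ?_⟩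
        simp [tu]
      · rintro ⟨k, hk, rfl⟩
        exact ⟨Equiv.swap (⟨i, hi⟩ : Fin m) ⟨i + 1, hi'⟩ k, h1 k hk, rfl⟩
    · apply Set.image_congr
      intro k hk
      have hk' : (k : ℕ) < j := hk
      have hki : k ≠ ⟨i, hi⟩ := by
        rintro rfl
        dsimp only at hk'
        omega
      simp only [tu, Pi.mul_apply, Pi.mulSingle_eq_of_ne hki, mul_one]
  · rw [(cc h x).top j (by omega), (cc h _).top j (by omega)]

theorem adj_trans {i : ℕ} {c c' c'' : Cham A m} (h : adj i c c') (h' : adj i c' c'') : adj i c c'' := fun j hj => (h j hj).trans (h' j hj)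

theorem adj_symm {i : ℕ} {c c' : Cham A m} (h : adj i c c') : adj i c' c := fun j hj => (h j hj).symm

theorem fA_mem [Finite V] (h : Fr A e f) : fA h ∈ SM A m := by
  classical
  intro i h1 h2 c
  obtain ⟨i, rfl⟩ : ∃ i', i = i' + 1 := ⟨i - 1, by omega⟩
  have hi : i < m := by omega
  have h3 : ∑ c' : Cham A m, (if adj (i + 1) c c' then fA h c' else 0) =
      ∑ x : Equiv.Perm (Fin m) × (Fin m → ℤˣ), if adj (i + 1) c (cc h x) then (((sg x : ℤˣ) : ℤ) : ℂ) else 0 := by
    have h4 : ∀ c' : Cham A m, (if adj (i + 1) c c' then fA h c' else 0) =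
        ∑ x : Equiv.Perm (Fin m) × (Fin m → ℤˣ), if cc h x = c' then (if adj (i + 1) c (cc h x) then (((sg x : ℤˣ) : ℤ) : ℂ) else 0) else 0 := by
      intro c'
      unfold fA
      split_ifs with h5
      · refine Finset.sum_congr rfl fun x _ => ?_
        split_ifs with h6 h7 h7
        · rfl
        · rw [h6] at h7; exact absurd h5 h7
        · rfl
      · symm
        refine Finset.sum_eq_zero fun x _ => ?_
        split_ifs with h6 h7 h7
        · rw [h6] at h7; exact absurd h7 h5
        · rfl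
        · rfl
    rw [Finset.sum_congr rfl fun c' _ => h4 c', Finset.sum_comm]
    refine Finset.sum_congr rfl fun x _ => ?_
    rw [Finset.sum_ite_eq]
    simp
  rw [h3]
  refine Finset.sum_involution (fun x _ => iv i hi x) ?_ ?_ (fun x _ => Finset.mem_univ _) (fun x _ => iv_iv i hi x)
  · intro x _
    have h5 : adj (i + 1) c (cc h x) ↔ adj (i + 1) c (cc h (iv i hi x)) :=
      ⟨fun h' => adj_trans h' (iv_adj h i hi x), fun h' => adj_trans h' (adj_symm (iv_adj h i hi x))⟩
    by_cases h6 : adj (i + 1) c (cc h x)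
    · rw [if_pos h6, if_pos (h5.1 h6), sg_iv]
      push_cast
      ring
    · rw [if_neg h6, if_neg (fun h7 => h6 (h5.2 h7)), add_zero]
  · intro x _ _ h6
    have h7 := sg_iv i hi x
    rw [h6] at h7
    have h8 : (sg x : ℤˣ) ≠ - sg x := by
      rcases Int.units_eq_one_or (sg x) with h9 | h9 <;> rw [h9] <;> decide
    exact h8 h7

theorem opp_cc (h : Fr A e f) {c0 : Cham A m} (hc0 : Adp c0 e) {x : Equiv.Perm (Fin m) × (Fin m → ℤˣ)} (hx : opk c0 m (cc h x)) :
    x = (1, fun _ => -1) := by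
  have h1 : ∀ n : ℕ, ∀ i : Fin m, (i : ℕ) = n → x.1 i = i ∧ x.2 i = -1 := by
    intro n
    induction n using Nat.strong_induction_on with
    | _ n ih =>
      intro i hin
      have hge : (i : ℕ) ≤ x.1 i := by
        by_contra hlt
        push Not at hlt
        have h2 := (ih (x.1 i) (by omega) (x.1 i) rfl).1
        have h3 := x.1.injective h2
        rw [h3] at hlt
        exact lt_irrefl _ hlt
      have hmem : tu e f x i ∈ (cc h x).W (i + 1) := (cc_adp h x).mem i (Nat.lt_succ_self _)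
      have hne : tu e f x i ≠ 0 := (tu_ts h x).li.ne_zero i
      obtain ⟨k, hk, hkx⟩ : ∃ k : Fin m, (k : ℕ) ≤ i ∧ A.B (e k) (tu e f x i) ≠ 0 := by
        by_contra hcon
        push Not at hcon
        apply hne
        apply hx (i + 1) (by omega) _ hmem
        intro y hy
        rw [hc0.W_image (by omega)] at hy
        have h4 : Submodule.span F (e '' {j : Fin m | (j : ℕ) < i + 1}) ≤ LinearMap.ker (A.B (tu e f x i)) := by
          rw [Submodule.span_le]
          rintro _ ⟨j, hj, rfl⟩
          exact A.refl (hcon j (Nat.lt_succ_iff.1 hj))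
        exact A.refl (h4 hy)
      rcases Int.units_eq_one_or (x.2 i) with hs | hs
      · exfalso
        rw [tu, hs, bv_one, h.ee] at hkx
        exact hkx rfl
      · refine ⟨?_, hs⟩
        rw [tu, hs, bv_neg, h.ef] at hkx
        have h5 : k = x.1 i := by
          by_contra h6
          rw [if_neg h6] at hkx
          exact hkx rfl
        apply Fin.ext
        rw [h5] at hk
        omega
  refine Prod.ext ?_ ?_
  · apply Equiv.ext; intro i
    exact (h1 i i rfl).1
  · funext i
    exact (h1 i i rfl).2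

theorem delta [Finite V] (h : Fr A e f) {c0 c1 : Cham A m} (hc0 : Adp c0 e) (hc1 : Adp c1 f) :
    ∃ g ∈ SM A m, g c1 ≠ 0 ∧ ∀ c, opk c0 m c → c ≠ c1 → g c = 0 := by
  classical
  have hx0 : cc h (1, fun _ => -1) = c1 := by
    refine (cc_adp h _).unique ?_
    have : tu e f (1, fun _ => -1) = f := by
      funext i
      simp [tu, bv_neg]
    rw [this]; exact hc1
  refine ⟨fA h, fA_mem h, ?_, ?_⟩
  · unfold fA
    rw [Finset.sum_eq_single (1, fun _ => -1)]
    · rw [if_pos hx0]
      rcases Int.units_eq_one_or (sg (m := m) (1, fun _ => -1)) with h9 | h9 <;> rw [h9] <;> simp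
    · intro x _ hx
      rw [if_neg]
      intro h1
      apply hx
      apply opp_cc h hc0
      rw [h1]
      exact opk_of_frame h hc0 hc1
    · intro h'; exact absurd (Finset.mem_univ _) h'
  · intro c hc hne
    unfold fA
    refine Finset.sum_eq_zero fun x _ => ?_
    rw [if_neg]
    rintro rfl
    rw [opp_cc h hc0 hc] at hne
    exact hne hx0

end Apartment

end Cfsg.Agent.H16.St
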