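import Cfsg.Agent.H16_St5

/-! The number of opposite chambers. -/

set_option autoImplicit false
set_option linter.unusedSectionVars false

namespace Cfsg.Agent.H16.St

open Cfsg.Agent.H5 Module

variable {F : Type*} [Field F] {σ : F →+* F} {ε : F} {t : F →+ F} {V : Type*}
  [AddCommGroup V] [Module F V] {A : Frm F σ ε t V} {m : ℕ}

theorem surj_of_li [FiniteDimensional F V] (hA : A.Nondeg) {w : Fin m → V} (hw : LinearIndependent F w) :
    Function.Surjective (LinearMap.pi fun i => A.B (w i) : V →ₗ[F] (Fin m → F)) := by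
  rw [← LinearMap.range_eq_top]
  by_contra hne
  obtain ⟨ψ, hψ, hle⟩ := Submodule.exists_le_ker_of_lt_top _ (lt_top_iff_ne_top.2 hne)
  have h1 : ∀ x, ∑ i, ψ (Pi.single i 1) * A.B (w i) x = 0 := by
    intro x
    have h2 : ψ (LinearMap.pi (fun i => A.B (w i)) x) = 0 := hle ⟨x, rfl⟩
    rw [← h2]
    conv_rhs => rw [← Finset.univ_sum_single (LinearMap.pi (fun i => A.B (w i)) x), map_sum]
    refine Finset.sum_congr rfl fun i _ => ?_
    have h3 : (Pi.single i ((LinearMap.pi (fun i => A.B (w i))) x i) : Fin m → F) = (A.B (w i) x) • Pi.single i (1 : F) := by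
      rw [← Pi.single_smul, smul_eq_mul, mul_one]; rfl
    rw [h3, map_smul, smul_eq_mul, mul_comm]
  have h2 : ∑ i, σ (ψ (Pi.single i 1)) • w i = 0 := by
    apply hA
    intro y
    rw [map_sum, LinearMap.sum_apply, ← h1 y]
    refine Finset.sum_congr rfl fun i _ => ?_
    rw [LinearMap.map_smulₛₗ, LinearMap.smul_apply, A.σσ, smul_eq_mul]
  have h3 := Fintype.linearIndependent_iff.1 hw _ h2
  apply hψ
  apply LinearMap.pi_ext'
  intro i
  apply LinearMap.ext_ring
  have := A.σ_inj ((h3 i).trans (map_zero σ).symm)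
  simpa using this

/-- the fibre count -/
theorem fiber [Fintype F] [FiniteDimensional F V] (hA : A.Nondeg) {w : Fin m → V} (hw : LinearIndependent F w)
    (i0 : Fin m) (hperp : ∀ i, A.B (w i) (w i0) = 0) (hQ : A.Q (w i0) = 0) :
    Nat.card {x : V // A.Q x = 0 ∧ ∀ i, A.B (w i) x = if i = i0 then 1 else 0} * Fintype.card F ^ (m + 1) =
      Fintype.card F ^ finrank F V * Frm.kt t := by
  classical
  haveI : Finite V := Module.finite_of_finite F
  haveI : Fintype V := Fintype.ofFinite V
  set L : V →ₗ[F] (Fin m → F) := LinearMap.pi fun i => A.B (w i) with hL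
  have hLs : Function.Surjective L := surj_of_li hA hw
  set δ : Fin m → F := fun i => if i = i0 then 1 else 0 with hδ
  have hLx : ∀ x, L x = δ ↔ ∀ i, A.B (w i) x = if i = i0 then 1 else 0 := by
    intro x
    exact funext_iff
  -- the size of the affine space
  have hS : Nat.card {x : V // L x = δ} * Fintype.card F ^ m = Fintype.card F ^ finrank F V := by
    obtain ⟨x0, hx0⟩ := hLs δ
    have h1 : Nat.card {x : V // L x = δ} = Nat.card (LinearMap.ker L) := by
      refine Nat.card_congr ?_
      refine
        { toFun := fun x => ⟨x.1 - x0, by rw [LinearMap.mem_ker, map_sub, x.2, hx0, sub_self]⟩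
          invFun := fun x => ⟨x.1 + x0, by rw [map_add, LinearMap.mem_ker.1 x.2, hx0, zero_add]⟩
          left_inv := fun x => by simp
          right_inv := fun x => by simp }
    have h2 := LinearMap.finrank_range_add_finrank_ker L
    rw [LinearMap.range_eq_top.2 hLs, finrank_top, Module.finrank_pi, Fintype.card_fin] at h2
    rw [h1, Module.natCard_eq_pow_finrank (K := F) (V := LinearMap.ker L), Nat.card_eq_fintype_card, ← pow_add, ← h2, add_comm]
  have hκ : ∀ x : V, A.B x (w i0) ≠ 0 → Nat.card {a : F // A.Q (x + a • w i0) = 0} = Frm.kt t := by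
    intro x hx
    rw [← Frm.card_fiber_t_mul t (- A.Q x) _ hx (A.exists_neg_Q x)]
    refine Nat.card_congr (Equiv.subtypeEquivRight fun a => ?_)
    rw [A.Q_add, A.Q_smul, hQ, mul_zero, add_zero, map_smul, smul_eq_mul, mul_comm a, ← eq_neg_iff_add_eq_zero]
    constructor
    · intro h; rw [h, neg_neg]
    · intro h; rw [h, neg_neg]
  have hb : ∀ x : V, L x = δ → A.B x (w i0) ≠ 0 := by
    intro x hx
    rw [A.symm, (hLx x).1 hx i0, if_pos rfl, map_one, mul_one]
    exact A.ε_ne
  -- double count
  have h1 : Nat.card {y : {x : V // L x = δ} × F // A.Q (y.1.1 + y.2 • w i0) = 0} = Nat.card {x : V // L x = δ} * Frm.kt t := by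
    have e : {y : {x : V // L x = δ} × F // A.Q (y.1.1 + y.2 • w i0) = 0} ≃
        Σ x : {x : V // L x = δ}, {a : F // A.Q (x.1 + a • w i0) = 0} :=
      { toFun := fun y => ⟨y.1.1, y.1.2, y.2⟩
        invFun := fun y => ⟨(y.1, y.2.1), y.2.2⟩
        left_inv := fun _ => rfl
        right_inv := fun _ => rfl }
    rw [Nat.card_congr e, Nat.card_sigma, Finset.sum_congr rfl fun x _ => hκ x.1 (hb x.1 x.2), Finset.sum_const, smul_eq_mul,
      Finset.card_univ, Nat.card_eq_fintype_card]
  have h2 : Nat.card {y : {x : V // L x = δ} × F // A.Q (y.1.1 + y.2 • w i0) = 0} =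
      Nat.card {x : V // A.Q x = 0 ∧ ∀ i, A.B (w i) x = if i = i0 then 1 else 0} * Fintype.card F := by
    have hLw : L (w i0) = 0 := funext fun i => hperp i
    have e : {y : {x : V // L x = δ} × F // A.Q (y.1.1 + y.2 • w i0) = 0} ≃
        {x : V // A.Q x = 0 ∧ ∀ i, A.B (w i) x = if i = i0 then 1 else 0} × F :=
      { toFun := fun y => (⟨y.1.1.1 + y.1.2 • w i0, y.2, (hLx _).1 (by rw [map_add, map_smul, hLw, smul_zero, add_zero, y.1.1.2])⟩, y.1.2)
        invFun := fun y => ⟨(⟨y.1.1 - y.2 • w i0, by rw [map_sub, map_smul, hLw, smul_zero, sub_zero]; exact (hLx _).2 y.1.2.2⟩, y.2), by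
          dsimp only
          rw [sub_add_cancel]; exact y.1.2.1⟩
        left_inv := fun y => by
          apply Subtype.ext
          refine Prod.ext (Subtype.ext ?_) rfl
          exact add_sub_cancel_right _ _
        right_inv := fun y => by
          refine Prod.ext (Subtype.ext ?_) rfl
          exact sub_add_cancel _ _ }
    rw [Nat.card_congr e, Nat.card_prod, Nat.card_eq_fintype_card (α := F)]
  calc _ = (Nat.card {x : V // A.Q x = 0 ∧ ∀ i, A.B (w i) x = if i = i0 then 1 else 0} * Fintype.card F) * Fintype.card F ^ m := by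
        rw [pow_succ]; ring
    _ = (Nat.card {x : V // L x = δ} * Frm.kt t) * Fintype.card F ^ m := by rw [← h2, h1]
    _ = _ := by rw [← hS]; ring

/-- partial tuples -/
abbrev VV (A : Frm F σ ε t V) (e : Fin m → V) (k : ℕ) (hk : k ≤ m) : Type _ :=
  {u : Fin k → V // (∀ i, A.Q (u i) = 0) ∧ (∀ i j, A.B (u i) (u j) = 0) ∧
    (∀ i : Fin k, ∀ l : Fin m, (i : ℕ) < l → A.B (e l) (u i) = 0) ∧ ∀ i : Fin k, A.B (e (Fin.castLE hk i)) (u i) = 1}

theorem mix_li {e : Fin m → V} (he : TS A e) {k : ℕ} (hk : k ≤ m) (u : VV A e k hk) :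
    LinearIndependent F (fun i : Fin m => if h : (i : ℕ) < k then u.1 ⟨i, h⟩ else e i) := by
  obtain ⟨u, huQ, hu, hlt, h1⟩ := u
  rw [Fintype.linearIndependent_iff]
  intro g hg
  -- the coefficients of the `u`'s vanish, from the top
  have hz : ∀ d : ℕ, ∀ i : Fin m, (hi : (i : ℕ) < k) → k - i = d → g i = 0 := by
    intro d
    induction d using Nat.strong_induction_on with
    | _ d ih =>
      intro i hi hd
      have h2 := congrArg (A.B (e i)) hg
      rw [map_sum, map_zero, Finset.sum_eq_single i] at h2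
      · rw [map_smul, dif_pos hi, show A.B (e i) (u ⟨i, hi⟩) = 1 from h1 ⟨i, hi⟩, smul_eq_mul, mul_one] at h2
        exact h2
      · intro j _ hj
        rw [map_smul]
        by_cases hjk : (j : ℕ) < k
        · rw [dif_pos hjk]
          rcases lt_trichotomy (j : ℕ) i with h3 | h3 | h3
          · rw [hlt ⟨j, hjk⟩ i h3, smul_zero]
          · exact absurd (Fin.ext h3) hj
          · rw [ih (k - j) (by omega) j hjk rfl, zero_smul]
        · rw [dif_neg hjk, he.B, smul_zero]
      · intro h3; exact absurd (Finset.mem_univ _) h3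
  have hg2 : ∑ i, g i • e i = 0 := by
    rw [← hg]
    refine Finset.sum_congr rfl fun i _ => ?_
    by_cases hik : (i : ℕ) < k
    · rw [hz _ i hik rfl, zero_smul, zero_smul]
    · rw [dif_neg hik]
  exact Fintype.linearIndependent_iff.1 he.li g hg2

theorem card_VV_succ [Fintype F] [FiniteDimensional F V] (hA : A.Nondeg) {e : Fin m → V} (he : TS A e) {k : ℕ} (hk : k + 1 ≤ m) :
    Nat.card (VV A e (k + 1) hk) * Fintype.card F ^ (m + 1) =
      Nat.card (VV A e k (by omega)) * (Fintype.card F ^ finrank F V * Frm.kt t) := by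
  classical
  haveI : Finite V := Module.finite_of_finite F
  haveI : Finite (VV A e k (by omega)) := Subtype.finite
  haveI : Fintype (VV A e k (by omega)) := Fintype.ofFinite _
  set w : VV A e k (by omega) → Fin m → V := fun u i => if h : (i : ℕ) < k then u.1 ⟨i, h⟩ else e i with hw
  have hwk : ∀ u, w u ⟨k, hk⟩ = e ⟨k, hk⟩ := fun u => dif_neg (lt_irrefl k)
  have hwl : ∀ u (i : Fin m) (h : (i : ℕ) < k), w u i = u.1 ⟨i, h⟩ := fun u i h => dif_pos h
  have hwg : ∀ u (i : Fin m) (h : ¬ (i : ℕ) < k), w u i = e i := fun u i h => dif_neg h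
  have e1 : VV A e (k + 1) hk ≃ Σ u : VV A e k (by omega), {x : V // A.Q x = 0 ∧ ∀ i, A.B (w u i) x = if i = ⟨k, hk⟩ then 1 else 0} :=
    { toFun := fun v => ⟨⟨fun i => v.1 i.castSucc, fun i => v.2.1 _, fun i j => v.2.2.1 _ _, fun i l hl => v.2.2.2.1 _ _ hl,
          fun i => v.2.2.2.2 i.castSucc⟩, v.1 (Fin.last k), v.2.1 _, fun i => by
            by_cases h1 : (i : ℕ) < k
            · rw [hwl _ _ h1, if_neg (by intro h; rw [h] at h1; exact lt_irrefl _ h1)]
              exact v.2.2.1 _ _
            · rw [hwg _ _ h1]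
              by_cases h2 : i = ⟨k, hk⟩
              · rw [if_pos h2, h2]
                exact v.2.2.2.2 (Fin.last k)
              · rw [if_neg h2]
                apply v.2.2.2.1 (Fin.last k) i
                rw [Fin.val_last]
                have : (i : ℕ) ≠ k := fun h => h2 (Fin.ext h)
                omega⟩
      invFun := fun y => ⟨Fin.snoc y.1.1 y.2.1, by
          intro i
          refine Fin.lastCases ?_ (fun i => ?_) i
          · rw [Fin.snoc_last]; exact y.2.2.1
          · rw [Fin.snoc_castSucc]; exact y.1.2.1 i, by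
          have hm : ∀ i : Fin k, A.B (y.1.1 i) y.2.1 = 0 := by
            intro i
            have h1 := y.2.2.2 ⟨i, by omega⟩
            rw [hwl _ _ i.2, if_neg (by
              intro h; have := congrArg (fun z : Fin m => (z : ℕ)) h; simp at this; omega)] at h1
            exact h1
          intro i j
          refine Fin.lastCases ?_ (fun i => ?_) i <;> refine Fin.lastCases ?_ (fun j => ?_) j
          · rw [Fin.snoc_last]; exact A.B_self_of_Q y.2.2.1
          · rw [Fin.snoc_last, Fin.snoc_castSucc]; exact A.refl (hm j)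
          · rw [Fin.snoc_last, Fin.snoc_castSucc]; exact hm i
          · rw [Fin.snoc_castSucc, Fin.snoc_castSucc]; exact y.1.2.2.1 i j, by
          intro i l hil
          revert hil
          refine Fin.lastCases ?_ (fun i => ?_) i
          · intro hil
            rw [Fin.snoc_last]
            rw [Fin.val_last] at hil
            have h1 := y.2.2.2 l
            rw [hwg _ _ (by omega), if_neg (by intro h; rw [h] at hil; exact lt_irrefl _ hil)] at h1
            exact h1
          · intro hil
            rw [Fin.snoc_castSucc]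
            exact y.1.2.2.2.1 i l hil, by
          intro i
          refine Fin.lastCases ?_ (fun i => ?_) i
          · rw [Fin.snoc_last]
            have h1 := y.2.2.2 ⟨k, hk⟩
            rw [hwk, if_pos rfl] at h1
            exact h1
          · rw [Fin.snoc_castSucc]
            exact y.1.2.2.2.2 i⟩
      left_inv := fun v => by
        apply Subtype.ext
        exact Fin.snoc_init_self (α := fun _ => V) v.1
      right_inv := fun y => by
        obtain ⟨⟨u, hu⟩, ⟨x, hx⟩⟩ := y
        have h1 : (fun i : Fin k => (Fin.snoc u x : Fin (k + 1) → V) i.castSucc) = u := by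
          funext i; exact Fin.snoc_castSucc _ _ _
        have h2 : (Fin.snoc u x : Fin (k + 1) → V) (Fin.last k) = x := Fin.snoc_last _ _
        apply Sigma.subtype_ext
        · exact Subtype.ext h1
        · exact h2 }
  rw [Nat.card_congr e1, Nat.card_sigma, Finset.sum_mul, Finset.sum_congr rfl fun u _ => ?_, Finset.sum_const, smul_eq_mul,
    Finset.card_univ, Nat.card_eq_fintype_card]
  have hQ : A.Q (w u ⟨k, hk⟩) = 0 := by rw [hwk]; exact he.Q _
  refine fiber hA (mix_li he (by omega) u) ⟨k, hk⟩ ?_ hQ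
  intro i
  change A.B (w u i) (w u ⟨k, hk⟩) = 0
  rw [hwk]
  by_cases hik : (i : ℕ) < k
  · rw [hwl _ _ hik]
    exact A.refl (u.2.2.2.1 ⟨i, hik⟩ ⟨k, hk⟩ hik)
  · rw [hwg _ _ hik]
    exact he.B _ _

theorem card_VV [Fintype F] [FiniteDimensional F V] (hA : A.Nondeg) {e : Fin m → V} (he : TS A e) {k : ℕ} (hk : k ≤ m) :
    Nat.card (VV A e k hk) * (Fintype.card F ^ (m + 1)) ^ k = (Fintype.card F ^ finrank F V * Frm.kt t) ^ k := by
  induction k with
  | zero =>
    rw [pow_zero, pow_zero, mul_one]
    haveI : Unique (VV A e 0 hk) :=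
      { default := ⟨Fin.elim0, fun i => i.elim0, fun i => i.elim0, fun i => i.elim0, fun i => i.elim0⟩
        uniq := fun u => Subtype.ext (funext fun i => i.elim0) }
    exact Nat.card_unique
  | succ k ih =>
    have h1 := ih (by omega)
    have h2 := card_VV_succ hA he hk
    rw [pow_succ (Fintype.card F ^ (m + 1)) k, pow_succ (Fintype.card F ^ finrank F V * Frm.kt t) k, ← h1]
    generalize Fintype.card F ^ (m + 1) = a at *
    generalize Fintype.card F ^ finrank F V * Frm.kt t = b at *
    calc _ = (Nat.card (VV A e (k + 1) hk) * a) * a ^ k := by ring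
      _ = _ := by rw [h2]; ring

end Cfsg.Agent.H16.St
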