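import Cfsg.Agent.H16_St6

/-! The number of opposite chambers, continued. -/

set_option autoImplicit false
set_option linter.unusedSectionVars false

namespace Cfsg.Agent.H16.St

open Cfsg.Agent.H5 Module

variable {F : Type*} [Field F] {σ : F →+* F} {ε : F} {t : F →+ F} {V : Type*}
  [AddCommGroup V] [Module F V] {A : Frm F σ ε t V} {m : ℕ}

theorem chT_congr {v v' : Fin m → V} (h : v = v') (hv : TS A v) (hv' : TS A v') : chT v hv = chT v' hv' := by
  subst h; rfl

/-- normalised bases -/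
structure Nb (A : Frm F σ ε t V) (e v : Fin m → V) : Prop where
  ts : TS A v
  lt : ∀ i j, i < j → A.B (e i) (v j) = 0
  one : ∀ i, A.B (e i) (v i) = 1

theorem Nb.opk' {e v : Fin m → V} (h : Nb A e v) {c0 : Cham A m} (hc0 : Adp c0 e) : opk c0 m (chT v h.ts) := by
  intro i hi x hx hxy
  rw [chT_adp v h.ts i hi, Submodule.mem_span_range_iff_exists_fun] at hx
  obtain ⟨a, rfl⟩ := hx
  have h1 : ∀ n : ℕ, ∀ j : Fin i, (j : ℕ) = n → a j = 0 := by
    intro n
    induction n using Nat.strong_induction_on with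
    | _ n ih =>
      intro j hj
      have h2 := hxy (e (Fin.castLE hi j)) (hc0.mem _ j.2)
      rw [map_sum, Finset.sum_eq_single j] at h2
      · rwa [map_smul, h.one, smul_eq_mul, mul_one] at h2
      · intro k _ hk
        rw [map_smul]
        rcases lt_trichotomy (k : ℕ) j with h3 | h3 | h3
        · rw [ih k (by omega) k rfl, zero_smul]
        · exact absurd (Fin.ext h3) hk
        · rw [h.lt _ _ (show Fin.castLE hi j < Fin.castLE hi k from h3), smul_zero]
      · intro h3; exact absurd (Finset.mem_univ _) h3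
  exact Finset.sum_eq_zero fun j _ => by rw [h1 _ j rfl, zero_smul]

theorem Nb.inj {e v v' : Fin m → V} (h : Nb A e v) (h' : Nb A e v') {c0 : Cham A m} (hc0 : Adp c0 e)
    (hc : chT v h.ts = chT v' h'.ts) : v = v' := by
  funext j
  have h1 : v j - v' j = 0 := by
    apply h.opk' hc0 (j + 1) (by omega)
    · refine Submodule.sub_mem _ ((chT_adp v h.ts).mem j (Nat.lt_succ_self _)) ?_
      rw [hc]
      exact (chT_adp v' h'.ts).mem j (Nat.lt_succ_self _)
    · intro y hy
      rw [hc0.W_image (by omega)] at hy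
      have h4 : Submodule.span F (e '' {k : Fin m | (k : ℕ) < j + 1}) ≤ LinearMap.ker (A.B (v j - v' j)) := by
        rw [Submodule.span_le]
        rintro _ ⟨k, hk, rfl⟩
        apply A.refl
        rw [map_sub]
        rcases lt_or_eq_of_le (show k ≤ j from Nat.lt_succ_iff.1 hk) with h5 | h5
        · rw [h.lt _ _ h5, h'.lt _ _ h5, sub_zero]
        · rw [h5, h.one, h'.one, sub_self]
      exact A.refl (h4 hy)
  exact sub_eq_zero.1 h1

theorem Nb.surj [FiniteDimensional F V] {e : Fin m → V} {c0 c : Cham A m} (hc0 : Adp c0 e) (hc : opk c0 m c) :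
    ∃ v, ∃ h : Nb A e v, chT v h.ts = c := by
  obtain ⟨e', f', hF, he', hf'⟩ := exists_frame hc
  have hz : ∀ j : Fin m, ∀ y ∈ c0.W j, A.B y (f' j) = 0 := by
    intro j y hy
    rw [he'.W_image (by omega)] at hy
    have h4 : Submodule.span F (e' '' {k : Fin m | (k : ℕ) < j}) ≤ LinearMap.ker (A.B (f' j)) := by
      rw [Submodule.span_le]
      rintro _ ⟨k, hk, rfl⟩
      rw [SetLike.mem_coe, LinearMap.mem_ker, hF.fe, if_neg]
      rintro rfl
      exact lt_irrefl (j : ℕ) hk
    exact A.refl (h4 hy)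
  have hf0 : ∀ j, f' j ≠ 0 := fun j => hF.tsf.li.ne_zero j
  have hne : ∀ j : Fin m, A.B (e j) (f' j) ≠ 0 := by
    intro j hj
    apply hf0 j
    apply hc (j + 1) (by omega) _ (hf'.mem j (Nat.lt_succ_self _))
    intro y hy
    rw [hc0.W_image (by omega)] at hy
    have h4 : Submodule.span F (e '' {k : Fin m | (k : ℕ) < j + 1}) ≤ LinearMap.ker (A.B (f' j)) := by
      rw [Submodule.span_le]
      rintro _ ⟨k, hk, rfl⟩
      apply A.refl
      rcases lt_or_eq_of_le (show k ≤ j from Nat.lt_succ_iff.1 hk) with h5 | h5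
      · exact hz j _ (hc0.mem k h5)
      · rw [h5]; exact hj
    exact A.refl (h4 hy)
  have hnm : ∀ j : Fin m, f' j ∉ c.W j := by
    intro j hj
    exact hf0 j (hc j (by omega) _ hj (hz j))
  have hAd : Adp c (fun j => (A.B (e j) (f' j))⁻¹ • f' j) := by
    apply adp_of
    · intro i; exact (c.W _).smul_mem _ (hf'.mem i (Nat.lt_succ_self _))
    · intro i hi
      exact hnm i ((Submodule.smul_mem_iff _ (inv_ne_zero (hne i))).1 hi)
  have hnb : Nb A e (fun j => (A.B (e j) (f' j))⁻¹ • f' j) := by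
    refine ⟨⟨hAd.li, fun i => c.hQ _ (hAd.mem i i.2), fun i j => c.hB _ (hAd.mem i i.2) _ (hAd.mem j j.2)⟩, ?_, ?_⟩
    · intro i j hij
      rw [map_smul, hz j _ (hc0.mem i hij), smul_zero]
    · intro i
      rw [map_smul, smul_eq_mul, inv_mul_cancel₀ (hne i)]
  exact ⟨_, hnb, (chT_adp _ _).unique hAd⟩

theorem VV_nb {e : Fin m → V} (he : TS A e) (u : VV A (fun i => e (Fin.rev i)) m le_rfl) : Nb A e (fun i => u.1 (Fin.rev i)) := by
  have hlt : ∀ i j : Fin m, i < j → A.B (e i) (u.1 (Fin.rev j)) = 0 := by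
    intro i j hij
    have h1 := u.2.2.2.1 (Fin.rev j) (Fin.rev i) (by
      have := Fin.rev_lt_rev.2 hij
      exact this)
    simp only [Fin.rev_rev] at h1
    exact h1
  have hone : ∀ i : Fin m, A.B (e i) (u.1 (Fin.rev i)) = 1 := by
    intro i
    have h1 := u.2.2.2.2 (Fin.rev i)
    have h2 : Fin.castLE le_rfl (Fin.rev i) = Fin.rev i := rfl
    rw [h2] at h1
    simp only [Fin.rev_rev] at h1
    exact h1
  refine ⟨⟨?_, fun i => u.2.1 _, fun i j => u.2.2.1 _ _⟩, hlt, hone⟩
  have h0 : TS A (fun i => e (Fin.rev i)) := ⟨he.li.comp _ Fin.rev_injective, fun i => he.Q _, fun i j => he.B _ _⟩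
  have h1 := mix_li h0 le_rfl u
  have h2 : (fun i : Fin m => if h : (i : ℕ) < m then u.1 ⟨i, h⟩ else e (Fin.rev i)) = u.1 := by
    funext i
    rw [dif_pos i.2]
  rw [h2] at h1
  exact h1.comp _ Fin.rev_injective

theorem card_opp [Fintype F] [FiniteDimensional F V] (hA : A.Nondeg) {e : Fin m → V} (he : TS A e) {c0 : Cham A m} (hc0 : Adp c0 e) :
    Nat.card {c : Cham A m | opk c0 m c} * (Fintype.card F ^ (m + 1)) ^ m = (Fintype.card F ^ finrank F V * Frm.kt t) ^ m := by
  have h0 : TS A (fun i => e (Fin.rev i)) := ⟨he.li.comp _ Fin.rev_injective, fun i => he.Q _, fun i j => he.B _ _⟩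
  rw [← card_VV hA h0 le_rfl]
  congr 1
  symm
  let Φ : VV A (fun i => e (Fin.rev i)) m le_rfl → {c : Cham A m | opk c0 m c} :=
    fun u => ⟨chT _ (VV_nb he u).ts, (VV_nb he u).opk' hc0⟩
  refine Nat.card_congr (Equiv.ofBijective Φ ⟨?_, ?_⟩)
  · intro u u' huu
    have h1 := (VV_nb he u).inj (VV_nb he u') hc0 (congrArg Subtype.val huu)
    apply Subtype.ext
    funext i
    have h2 := congrFun h1 (Fin.rev i)
    simpa using h2
  · rintro ⟨c, hc⟩
    obtain ⟨v, hv, hvc⟩ := Nb.surj hc0 hc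
    let u : VV A (fun i => e (Fin.rev i)) m le_rfl := ⟨fun i => v (Fin.rev i), fun i => hv.ts.Q _, fun i j => hv.ts.B _ _,
      fun i l hil => hv.lt _ _ (Fin.rev_lt_rev.2 hil), fun i => hv.one _⟩
    have h4 : (fun i => u.1 (Fin.rev i)) = v := by
      funext i
      change v (Fin.rev (Fin.rev i)) = v i
      rw [Fin.rev_rev]
    exact ⟨u, Subtype.ext ((chT_congr h4 (VV_nb he u).ts hv.ts).trans hvc)⟩

end Cfsg.Agent.H16.St
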