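import Cfsg.Agent.H16_St7
import Cfsg.Agent.H16_St2

/-! Steinberg characters of groups of isometries. -/

set_option autoImplicit false
set_option linter.unusedSectionVars false

namespace Cfsg.Agent.H16.St

open Cfsg Cfsg.Agent.H5 Module

theorem card_orbit {I : Type*} [Group I] [Finite I] {C : Type*} [MulAction I C] (H : Subgroup I) (o : C) (O : Set C)
    (ho : o ∈ O) (hO : ∀ h ∈ H, ∀ c ∈ O, h • c ∈ O) (htr : ∀ a ∈ O, ∀ b ∈ O, ∃ h ∈ H, h • a = b) :
    Nat.card O * Nat.card (MulAction.stabilizer H o) = Nat.card H := by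
  have h1 : MulAction.orbit H o = O := by
    ext c
    constructor
    · rintro ⟨h, rfl⟩
      exact hO h h.2 o ho
    · intro hc
      obtain ⟨h, hh, hc'⟩ := htr o ho c hc
      exact ⟨⟨h, hh⟩, hc'⟩
  rw [← h1, ← Nat.card_prod]
  exact Nat.card_congr (MulAction.orbitProdStabilizerEquivGroup H o)

theorem sylow_regular {I : Type*} [Group I] [Finite I] {C : Type*} [MulAction I C] (p : ℕ) [hp : Fact p.Prime] (H : Subgroup I) (O : Set C)
    [Finite O] (hO : ∀ h ∈ H, ∀ c ∈ O, h • c ∈ O) (htr : ∀ a ∈ O, ∀ b ∈ O, ∃ h ∈ H, h • a = b)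
    (hfree : ∀ a ∈ O, ∀ h ∈ H, h • a = a → (∃ k : ℕ, h ^ p ^ k = 1) → h = 1) {N : ℕ} (hN : Nat.card O = p ^ N) :
    ∃ P : Subgroup I, P ≤ H ∧ Nat.card P = p ^ N ∧ ∀ a ∈ O, ∀ b ∈ O, ∃ y ∈ P, y • a = b := by
  classical
  obtain ⟨o, ho⟩ : O.Nonempty := by
    by_contra h
    rw [Set.not_nonempty_iff_eq_empty] at h
    rw [h] at hN
    have : (0 : ℕ) = p ^ N := by simpa using hN
    exact (pow_pos hp.out.pos N).ne this
  have h1 := card_orbit H o O ho hO htr
  have h2 : ¬ p ∣ Nat.card (MulAction.stabilizer H o) := by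
    intro hd
    obtain ⟨x, hx⟩ := exists_prime_orderOf_dvd_card' p hd
    have h3 : (x : H) ^ p = 1 := by
      have := congrArg (fun y : MulAction.stabilizer H o => (y : H)) (hx ▸ pow_orderOf_eq_one x)
      simpa using this
    have h4 := hfree o ho (x : H) (x : H).2 x.2 ⟨1, by
      rw [pow_one]
      exact congrArg (fun y : H => (y : I)) h3⟩
    have h5 : x = 1 := Subtype.ext (Subtype.ext h4)
    rw [h5, orderOf_one] at hx
    exact hp.out.one_lt.ne hx
  have h3 : (Nat.card H).factorization p = N := by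
    rw [← h1, hN, Nat.factorization_mul (pow_pos hp.out.pos N).ne' Nat.card_pos.ne', Finsupp.add_apply,
      Nat.factorization_eq_zero_of_not_dvd h2, add_zero, hp.out.factorization_pow]
    simp
  obtain ⟨P⟩ : Nonempty (Sylow p H) := inferInstance
  have hPc : Nat.card (P.toSubgroup.map H.subtype) = p ^ N := by
    rw [← Nat.card_congr (P.toSubgroup.equivMapOfInjective _ H.subtype_injective).toEquiv, ← h3]
    exact P.card_eq_multiplicity
  refine ⟨P.toSubgroup.map H.subtype, Subgroup.map_subtype_le _, hPc, ?_⟩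
  set P' := P.toSubgroup.map H.subtype with hP'
  have hle : P' ≤ H := Subgroup.map_subtype_le _
  intro a ha b hb
  have h4 : MulAction.orbit P' a ⊆ O := by
    rintro _ ⟨h, rfl⟩
    exact hO h (hle h.2) a ha
  have h5 : Nat.card (MulAction.orbit P' a) = p ^ N := by
    have h6 := Nat.card_congr (MulAction.orbitProdStabilizerEquivGroup P' a)
    rw [Nat.card_prod, hPc] at h6
    have h7 : Nat.card (MulAction.stabilizer P' a) = 1 := by
      rw [Subgroup.card_eq_one, eq_bot_iff]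
      intro x hx
      rw [Subgroup.mem_bot]
      apply Subtype.ext
      refine hfree a ha x (hle x.2) hx ?_
      refine ⟨N, ?_⟩
      have h8 : x ^ Nat.card P' = 1 := pow_card_eq_one'
      rw [hPc] at h8
      exact congrArg (fun y : P' => (y : I)) h8
    rw [h7, mul_one] at h6
    exact h6
  have h6 : MulAction.orbit P' a = O := by
    apply Set.eq_of_subset_of_ncard_le h4
    · rw [← Nat.card_coe_set_eq, ← Nat.card_coe_set_eq, h5, hN]
  rw [← h6] at hb
  obtain ⟨y, hy⟩ := hb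
  exact ⟨y, y.2, hy⟩

variable {F : Type*} [Field F] {σ : F →+* F} {ε : F} {t : F →+ F} {V : Type*}
  [AddCommGroup V] [Module F V] {A : Frm F σ ε t V} {m : ℕ}

theorem stein [Fintype F] [FiniteDimensional F V] (p : ℕ) [hp : Fact p.Prime] (hA : A.Nondeg) {a : ℕ} (hW : Frm.WittDec m a A)
    (G : Subgroup A.isom) (hG : G.Normal)
    (h1 : ∀ c c' c'' : Cham A m, opk c m c' → opk c m c'' → ∃ g ∈ G, g • c = c ∧ g • c' = c'')
    (h2 : ∀ c c' : Cham A m, opk c m c' → ∀ g ∈ G, g • c = c → g • c' = c' → (∃ k : ℕ, g ^ p ^ k = 1) → g = 1)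
    (hN : p ^ (Nat.card G).factorization p * (Fintype.card F ^ (m + 1)) ^ m = (Fintype.card F ^ (2 * m + a) * Frm.kt t) ^ m) :
    ∃ χ : G → ℂ, IsIrrCharacter G χ ∧ χ 1 = ((p ^ (Nat.card G).factorization p : ℕ) : ℂ) ∧
      ∀ g : G, (∀ x : V, ∃ b : F, ((g : A.isom) : V ≃ₗ[F] V) x = b • x) → χ g = χ 1 := by
  classical
  haveI : Finite V := Module.finite_of_finite F
  haveI : Finite (V ≃ₗ[F] V) := Finite.of_injective (fun g => (g : V → V)) DFunLike.coe_injective
  haveI : Finite A.isom := inferInstance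
  have hd := Frm.WittDec.finrank_eq m a A hW
  obtain ⟨e, f, hF, han⟩ := exists_fr m a A hW
  have hmx := hmx_of hA hF han
  set c0 : Cham A m := chT e hF.tse with hc0
  have ha0 : Adp c0 e := chT_adp _ _
  set c1 : Cham A m := chT f hF.tsf with hc1
  have ha1 : Adp c1 f := chT_adp _ _
  have hop : opk c0 m c1 := opk_of_frame hF ha0 ha1
  set O : Set (Cham A m) := {c | opk c0 m c} with hO
  have hcO : Nat.card O = p ^ (Nat.card G).factorization p := by
    have h3 := card_opp hA hF.tse ha0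
    rw [hd, ← hN] at h3
    exact Nat.eq_of_mul_eq_mul_right (pow_pos (pow_pos Fintype.card_pos _) _) h3
  set H : Subgroup A.isom := G ⊓ MulAction.stabilizer A.isom c0 with hH
  have hHO : ∀ h ∈ H, ∀ c ∈ O, h • c ∈ O := by
    intro h hh c hc
    have h3 : h • c0 = c0 := hh.2
    have h4 := opk_smul h hc
    rw [h3] at h4
    exact h4
  obtain ⟨P, hPH, hPc, hPt⟩ := sylow_regular p H O hHO (by
    intro x hx y hy
    obtain ⟨g, hg, hgc, hgx⟩ := h1 c0 x y hx hy
    exact ⟨g, ⟨hg, hgc⟩, hgx⟩) (by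
    intro x hx g hg hgx hk
    exact h2 c0 x hx g hg.1 hg.2 hgx hk) hcO
  obtain ⟨χ, hχ, hχ1, hχk⟩ := main (I := A.isom) (C := Cham A m) (M := SM A m) (fun g f hf => SM_inv g f hf) hG p
    (P := P) (fun x hx => (hPH hx).1) hPc c0 O (fun c => trans hA c0 c) (fun y hy => (hPH hy).2) hPt
    (fun f hf h => inj hmx c0 hf h) ⟨c1, hop⟩ (by
      intro o ho
      obtain ⟨e', f', hF', he', hf'⟩ := exists_frame ho
      obtain ⟨g, hg, hgo, hgo'⟩ := delta hF' he' hf'
      exact ⟨g, hg, hgo, fun o' ho' hne => hgo' o' ho' hne⟩)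
  refine ⟨χ, hχ, by rw [hχ1, hcO], fun g hg => hχk g fun c => ?_⟩
  apply Cham.ext
  funext i
  rw [smul_W]
  apply le_antisymm
  · rintro _ ⟨x, hx, rfl⟩
    obtain ⟨b, hb⟩ := hg x
    change ((g : A.isom) : V ≃ₗ[F] V) x ∈ c.W i
    rw [hb]
    exact Submodule.smul_mem _ _ hx
  · intro x hx
    have h3 : ∀ y, ∃ b : F, ((g : A.isom) : V ≃ₗ[F] V).symm y = b • y := by
      intro y
      obtain ⟨b, hb⟩ := hg (((g : A.isom) : V ≃ₗ[F] V).symm y)
      rw [LinearEquiv.apply_symm_apply] at hb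
      by_cases hb0 : b = 0
      · refine ⟨0, ?_⟩
        rw [hb0, zero_smul] at hb
        rw [hb, map_zero, smul_zero]
      · refine ⟨b⁻¹, ?_⟩
        conv_rhs => rw [hb]
        rw [inv_smul_smul₀ hb0]
    obtain ⟨b, hb⟩ := h3 x
    refine ⟨b • x, Submodule.smul_mem _ _ hx, ?_⟩
    rw [← hb]
    exact LinearEquiv.apply_symm_apply _ _

end Cfsg.Agent.H16.St
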