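import Cfsg.Agent.H16_St8

/-! Tori, index prime to `p`, passage to the central quotient. -/

set_option autoImplicit false
set_option linter.unusedSectionVars false

namespace Cfsg.Agent.H16.St

open Cfsg Cfsg.Agent.H5 Module

/-- if `|O|` is a power of `p`, normal subgroups of index prime to `p` stay transitive -/
theorem trans_of_index {I : Type*} [Group I] [Finite I] {C : Type*} [MulAction I C] (p : ℕ) [hp : Fact p.Prime] (H : Subgroup I) (O : Set C)
    [Finite O] (hO : ∀ h ∈ H, ∀ c ∈ O, h • c ∈ O) (htr : ∀ a ∈ O, ∀ b ∈ O, ∃ h ∈ H, h • a = b)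
    {N : ℕ} (hN : Nat.card O = p ^ N) (G : Subgroup I) [hG : G.Normal] (hidx : ¬ p ∣ G.index) :
    ∀ a ∈ O, ∀ b ∈ O, ∃ h ∈ H, h ∈ G ∧ h • a = b := by
  classical
  obtain ⟨P⟩ : Nonempty (Sylow p H) := inferInstance
  set P' := P.toSubgroup.map H.subtype with hP'
  have hPc : Nat.card P' = p ^ (Nat.card H).factorization p := by
    rw [hP', ← Nat.card_congr (P.toSubgroup.equivMapOfInjective _ H.subtype_injective).toEquiv]
    exact P.card_eq_multiplicity
  have hle : P' ≤ H := Subgroup.map_subtype_le _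
  have hPG : P' ≤ G := by
    intro x hx
    rw [← QuotientGroup.eq_one_iff, ← orderOf_eq_one_iff]
    have h1 : orderOf (x : I ⧸ G) ∣ G.index := by
      rw [Subgroup.index_eq_card]; exact orderOf_dvd_natCard _
    have h2 : x ^ Nat.card P' = 1 := by
      have h8 : (⟨x, hx⟩ : P') ^ Nat.card P' = 1 := pow_card_eq_one'
      exact congrArg (fun y : P' => (y : I)) h8
    have h3 : orderOf (x : I ⧸ G) ∣ p ^ (Nat.card H).factorization p := by
      rw [orderOf_dvd_iff_pow_eq_one, ← QuotientGroup.mk_pow, ← hPc, h2]; rfl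
    obtain ⟨j, hj, hj'⟩ := (Nat.dvd_prime_pow hp.out).1 h3
    rcases Nat.eq_zero_or_pos j with h4 | h4
    · rw [hj', h4, pow_zero]
    · exfalso
      apply hidx
      exact (dvd_pow_self p h4.ne').trans (hj' ▸ h1)
  intro a ha b hb
  have h4 : MulAction.orbit P' a ⊆ O := by
    rintro _ ⟨h, rfl⟩
    exact hO h (hle h.2) a ha
  have h1 := card_orbit H a O ha hO htr
  have h5 : Nat.card (MulAction.orbit P' a) = p ^ N := by
    have h6 := Nat.card_congr (MulAction.orbitProdStabilizerEquivGroup P' a)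
    rw [Nat.card_prod, hPc] at h6
    -- the stabilizer in `P'` embeds in the stabilizer in `H`
    have h7 : Nat.card (MulAction.stabilizer P' a) ∣ Nat.card (MulAction.stabilizer H a) := by
      let ι : MulAction.stabilizer P' a →* MulAction.stabilizer H a :=
        { toFun := fun x => ⟨⟨(x : P'), hle x.1.2⟩, x.2⟩
          map_one' := rfl
          map_mul' := fun _ _ => rfl }
      apply Subgroup.card_dvd_of_injective ι
      intro x y hxy
      apply Subtype.ext; apply Subtype.ext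
      exact congrArg (fun z : MulAction.stabilizer H a => ((z : H) : I)) hxy
    obtain ⟨i, hi, hi'⟩ := (Nat.dvd_prime_pow hp.out).1 (Dvd.intro_left _ h6)
    obtain ⟨j, hj, hj'⟩ := (Nat.dvd_prime_pow hp.out).1 (Dvd.intro _ h6)
    have h8 : (Nat.card H).factorization p = N + (Nat.card (MulAction.stabilizer H a)).factorization p := by
      rw [← h1, hN, Nat.factorization_mul (pow_pos hp.out.pos N).ne' Nat.card_pos.ne', Finsupp.add_apply, hp.out.factorization_pow]
      simp
    have h9 : i ≤ (Nat.card (MulAction.stabilizer H a)).factorization p := by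
      rw [hi'] at h7
      exact (hp.out.pow_dvd_iff_le_factorization Nat.card_pos.ne').1 h7
    have h10 : j ≤ N := by
      have h11 : Nat.card (MulAction.orbit P' a) ≤ Nat.card O := Nat.card_mono (Set.toFinite O) h4
      rw [hj', hN] at h11
      exact (Nat.pow_le_pow_iff_right hp.out.one_lt).1 h11
    rw [hi', hj', ← pow_add] at h6
    have h12 := Nat.pow_right_injective hp.out.two_le h6
    rw [hj']
    congr 1
    omega
  have h6 : MulAction.orbit P' a = O := by
    apply Set.eq_of_subset_of_ncard_le h4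
    rw [← Nat.card_coe_set_eq, ← Nat.card_coe_set_eq, h5, hN]
  rw [← h6] at hb
  obtain ⟨y, hy⟩ := hb
  exact ⟨y, hle y.2, hPG y.2, hy⟩

variable {F : Type*} [Field F] {σ : F →+* F} {ε : F} {t : F →+ F} {V : Type*}
  [AddCommGroup V] [Module F V] {A : Frm F σ ε t V} {m : ℕ}

theorem card_opp' [Fintype F] [FiniteDimensional F V] (hA : A.Nondeg) (c : Cham A m) :
    Nat.card {c' : Cham A m | opk c m c'} * (Fintype.card F ^ (m + 1)) ^ m = (Fintype.card F ^ finrank F V * Frm.kt t) ^ m := by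
  obtain ⟨e, he⟩ := exists_adp c
  exact card_opp hA ⟨he.li, fun i => c.hQ _ (he.mem i i.2), fun i j => c.hB _ (he.mem i i.2) _ (he.mem j j.2)⟩ he

/-- the version for normal subgroups of index prime to `p` -/
theorem stein2 [Fintype F] [FiniteDimensional F V] (p : ℕ) [hp : Fact p.Prime] (hA : A.Nondeg) {a : ℕ} (hW : Frm.WittDec m a A)
    (G : Subgroup A.isom) (hG : G.Normal) (hidx : ¬ p ∣ G.index)
    (h2 : ∀ c c' : Cham A m, opk c m c' → ∀ g ∈ G, g • c = c → g • c' = c' → (∃ k : ℕ, g ^ p ^ k = 1) → g = 1)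
    (hN : p ^ (Nat.card G).factorization p * (Fintype.card F ^ (m + 1)) ^ m = (Fintype.card F ^ (2 * m + a) * Frm.kt t) ^ m) :
    ∃ χ : G → ℂ, IsIrrCharacter G χ ∧ χ 1 = ((p ^ (Nat.card G).factorization p : ℕ) : ℂ) ∧
      ∀ g : G, (∀ x : V, ∃ b : F, ((g : A.isom) : V ≃ₗ[F] V) x = b • x) → χ g = χ 1 := by
  haveI : Finite V := Module.finite_of_finite F
  haveI : Finite (V ≃ₗ[F] V) := Finite.of_injective (fun g => (g : V → V)) DFunLike.coe_injective
  haveI : Finite A.isom := inferInstance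
  refine stein p hA hW G hG ?_ h2 hN
  intro c c' c'' hc' hc''
  have hcO : Nat.card {c' : Cham A m | opk c m c'} = p ^ (Nat.card G).factorization p := by
    have h3 := card_opp' hA c
    rw [Frm.WittDec.finrank_eq m a A hW, ← hN] at h3
    exact Nat.eq_of_mul_eq_mul_right (pow_pos (pow_pos Fintype.card_pos _) _) h3
  obtain ⟨g, hgc, hgG, hg⟩ := trans_of_index p (MulAction.stabilizer A.isom c) {c' : Cham A m | opk c m c'} (by
    intro h hh x hx
    have h3 : h • c = c := hh
    have h4 := opk_smul h hx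
    rw [h3] at h4
    exact h4) (by
    intro x hx y hy
    obtain ⟨g, hg, hgx⟩ := trans_opp hA hx hy
    exact ⟨g, hg, hgx⟩) hcO G hidx c' hc' c'' hc''
  exact ⟨g, hgG, hgc, hg⟩


theorem apply_pow {g : A.isom} {x : V} {a : F} (h : (g : V ≃ₗ[F] V) x = a • x) (n : ℕ) : ((g ^ n : A.isom) : V ≃ₗ[F] V) x = a ^ n • x := by
  induction n with
  | zero => rw [pow_zero, pow_zero, one_smul]; rfl
  | succ n ih =>
    rw [pow_succ, Subgroup.coe_mul, LinearEquiv.mul_apply, h, map_smul, ih, smul_smul, pow_succ, mul_comm]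

theorem eq_one_of_pow {p : ℕ} [hp : Fact p.Prime] [CharP F p] {a : F} {k : ℕ} (h : a ^ p ^ k = 1) : a = 1 := by
  have h1 : (a - 1) ^ p ^ k = 0 := by rw [sub_pow_char_pow, h, one_pow, sub_self]
  exact sub_eq_zero.1 (pow_eq_zero_iff (pow_pos hp.out.pos k).ne' |>.1 h1)

/-- `p`-elements of the torus fix the frame -/
theorem torus_fix [FiniteDimensional F V] {p : ℕ} [hp : Fact p.Prime] [CharP F p] {c c' : Cham A m} {e f : Fin m → V} (h : Fr A e f)
    (hc : Adp c e) (hc' : Adp c' f) {g : A.isom} (hg : g • c = c) (hg' : g • c' = c') (hk : ∃ k : ℕ, g ^ p ^ k = 1) (i : Fin m) :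
    (g : V ≃ₗ[F] V) (e i) = e i ∧ (g : V ≃ₗ[F] V) (f i) = f i := by
  obtain ⟨k, hk⟩ := hk
  obtain ⟨a, ha⟩ := torus_e h hc hc' hg hg' i
  have h1 := apply_pow ha (p ^ k)
  rw [hk] at h1
  have h2 : a ^ p ^ k = 1 := by
    have h3 : (a ^ p ^ k - 1) • e i = 0 := by
      rw [sub_smul, one_smul, ← h1]; exact sub_self _
    exact sub_eq_zero.1 ((smul_eq_zero.1 h3).resolve_right (h.tse.li.ne_zero i))
  have ha1 := eq_one_of_pow h2
  rw [ha1, one_smul] at ha
  refine ⟨ha, ?_⟩
  -- the reversed frame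
  have hF' : Fr A f (fun j => ε⁻¹ • e j) := by
    refine ⟨h.Qf, fun j => by rw [A.Q_smul, h.Qe, mul_zero], h.ff, fun j l => ?_, fun j l => ?_⟩
    · rw [map_smul, LinearMap.map_smulₛₗ, LinearMap.smul_apply, h.ee, smul_zero, smul_zero]
    · rw [map_smul, h.fe]
      by_cases hjl : j = l
      · rw [if_pos hjl, if_pos hjl, smul_eq_mul, inv_mul_cancel₀ A.ε_ne]
      · rw [if_neg hjl, if_neg hjl, smul_zero]
  have hc2 : Adp c (fun j => ε⁻¹ • e j) := by
    apply adp_of
    · intro j; exact (c.W _).smul_mem _ (hc.mem j (Nat.lt_succ_self _))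
    · intro j hj
      have h3 : e j ∈ c.W j := (Submodule.smul_mem_iff _ (inv_ne_zero A.ε_ne)).1 hj
      have h4 := sup_span (x := e j) (c.mono (Nat.le_succ j)) (by rw [c.dim _ (by omega), c.dim _ (by omega)]) (hc.mem j (Nat.lt_succ_self _))
      have h5 : finrank F (c.W (j + 1)) = j + 1 := c.dim _ (by omega)
      have h6 := hc.W_image (i := j) (by omega)
      have h7 : e j ∈ Submodule.span F (e '' {l : Fin m | (l : ℕ) < j}) := h6 ▸ h3
      exact (hc.li.notMem_span_image (s := {l : Fin m | (l : ℕ) < j}) (x := j) (by simp)) h7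
  obtain ⟨b, hb⟩ := torus_e hF' hc' hc2 hg' hg i
  have h1 := apply_pow hb (p ^ k)
  rw [hk] at h1
  have h2 : b ^ p ^ k = 1 := by
    have h3 : (b ^ p ^ k - 1) • f i = 0 := by
      rw [sub_smul, one_smul, ← h1]; exact sub_self _
    exact sub_eq_zero.1 ((smul_eq_zero.1 h3).resolve_right (h.tsf.li.ne_zero i))
  rw [hb, eq_one_of_pow h2, one_smul]

/-- the decomposition with respect to a frame -/
theorem Fr.dec {e f : Fin m → V} (h : Fr A e f) (v : V) : ∃ x y : Fin m → F, ∃ w : V, (∀ i, A.B (e i) w = 0) ∧ (∀ i, A.B (f i) w = 0) ∧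
    v = ∑ i, x i • e i + ∑ i, y i • f i + w := by
  refine ⟨fun i => ε⁻¹ * A.B (f i) v, fun i => A.B (e i) v,
    v - (∑ i, (ε⁻¹ * A.B (f i) v) • e i + ∑ i, (A.B (e i) v) • f i), ?_, ?_, by rw [add_sub_cancel]⟩
  · intro i
    rw [map_sub, map_add, map_sum, map_sum]
    simp only [map_smul, h.ef, h.ee, smul_eq_mul, mul_zero, Finset.sum_const_zero, zero_add, mul_ite,
      Finset.sum_ite_eq, Finset.mem_univ, if_true, mul_one, sub_self]
  · intro i
    rw [map_sub, map_add, map_sum, map_sum]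
    simp only [map_smul, h.fe, h.ff, smul_eq_mul, mul_zero, Finset.sum_const_zero, add_zero, mul_ite,
      Finset.sum_ite_eq, Finset.mem_univ, if_true]
    rw [mul_comm, mul_inv_cancel_left₀ A.ε_ne, sub_self]

/-- the orthogonal of the frame -/
def pp (A : Frm F σ ε t V) (e f : Fin m → V) : Submodule F V :=
  LinearMap.ker (LinearMap.pi fun i => A.B (e i)) ⊓ LinearMap.ker (LinearMap.pi fun i => A.B (f i))

theorem mem_pp {e f : Fin m → V} {v : V} : v ∈ pp A e f ↔ (∀ i, A.B (e i) v = 0) ∧ ∀ i, A.B (f i) v = 0 := by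
  rw [pp, Submodule.mem_inf, LinearMap.mem_ker, LinearMap.mem_ker, funext_iff, funext_iff]
  rfl

theorem finrank_pp [FiniteDimensional F V] {a : ℕ} {e f : Fin m → V} (h : Fr A e f) (hd : finrank F V = 2 * m + a) :
    finrank F (pp A e f) = a := by
  have h1 : IsCompl (Submodule.span F (Set.range (Sum.elim e f))) (pp A e f) := by
    constructor
    · rw [Submodule.disjoint_def]
      intro v hv hv'
      rw [Submodule.mem_span_range_iff_exists_fun] at hv
      obtain ⟨g, rfl⟩ := hv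
      rw [Fintype.sum_sum_type] at hv' ⊢
      simp only [Sum.elim_inl, Sum.elim_inr] at hv' ⊢
      obtain ⟨h3, h4⟩ := mem_pp.1 hv'
      have h5 : ∀ i, g (Sum.inr i) = 0 := by
        intro i
        have h1 := h3 i
        rw [map_add, map_sum, map_sum] at h1
        simpa only [map_smul, h.ef, h.ee, smul_eq_mul, mul_zero, Finset.sum_const_zero, zero_add, mul_ite,
          Finset.sum_ite_eq, Finset.mem_univ, if_true, mul_one] using h1
      have h6 : ∀ i, g (Sum.inl i) = 0 := by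
        intro i
        have h1 := h4 i
        rw [map_add, map_sum, map_sum] at h1
        simp only [map_smul, h.fe, h.ff, smul_eq_mul, mul_zero, Finset.sum_const_zero, add_zero, mul_ite,
          Finset.sum_ite_eq, Finset.mem_univ, if_true] at h1
        exact (mul_eq_zero.1 h1).resolve_right A.ε_ne
      simp [h5, h6]
    · rw [codisjoint_iff, eq_top_iff]
      intro v _
      obtain ⟨x, y, w, hw1, hw2, rfl⟩ := h.dec v
      refine Submodule.add_mem_sup ?_ (mem_pp.2 ⟨hw1, hw2⟩)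
      refine Submodule.add_mem _ (Submodule.sum_mem _ fun i _ => Submodule.smul_mem _ _ (Submodule.subset_span ⟨Sum.inl i, rfl⟩))
        (Submodule.sum_mem _ fun i _ => Submodule.smul_mem _ _ (Submodule.subset_span ⟨Sum.inr i, rfl⟩))
  have h2 := Submodule.finrank_add_eq_of_isCompl h1
  rw [finrank_span_eq_card h.li, hd, Fintype.card_sum, Fintype.card_fin] at h2
  omega

theorem eq_one_of_fix {e f : Fin m → V} (h : Fr A e f) {g : A.isom} (h1 : ∀ i, (g : V ≃ₗ[F] V) (e i) = e i ∧ (g : V ≃ₗ[F] V) (f i) = f i)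
    (h2 : ∀ w ∈ pp A e f, (g : V ≃ₗ[F] V) w = w) : g = 1 := by
  apply Subtype.ext
  apply LinearEquiv.ext
  intro v
  obtain ⟨x, y, w, hw1, hw2, rfl⟩ := h.dec v
  rw [map_add, map_add, map_sum, map_sum, h2 w (mem_pp.2 ⟨hw1, hw2⟩)]
  simp only [map_smul, (h1 _).1, (h1 _).2]
  rfl

theorem pp_inv {e f : Fin m → V} {g : A.isom} (h1 : ∀ i, (g : V ≃ₗ[F] V) (e i) = e i ∧ (g : V ≃ₗ[F] V) (f i) = f i) {w : V}
    (hw : w ∈ pp A e f) : (g : V ≃ₗ[F] V) w ∈ pp A e f := by
  rw [mem_pp] at hw ⊢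
  refine ⟨fun i => ?_, fun i => ?_⟩
  · have := g.2.1 (e i) w
    rw [(h1 i).1] at this
    rw [this, hw.1]
  · have := g.2.1 (f i) w
    rw [(h1 i).2] at this
    rw [this, hw.2]

/-- `p`-elements of the torus are trivial if the anisotropic part has dimension at most one -/
theorem torus_one [FiniteDimensional F V] {p : ℕ} [hp : Fact p.Prime] [CharP F p] {a : ℕ} (ha : a ≤ 1) (hd : finrank F V = 2 * m + a)
    {c c' : Cham A m} (hop : opk c m c') {g : A.isom} (hg : g • c = c) (hg' : g • c' = c') (hk : ∃ k : ℕ, g ^ p ^ k = 1) : g = 1 := by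
  obtain ⟨e, f, h, hc, hc'⟩ := exists_frame hop
  have hfix := torus_fix (p := p) h hc hc' hg hg' hk
  apply eq_one_of_fix h hfix
  have h3 := finrank_pp h hd
  intro w hw
  by_cases hw0 : w = 0
  · rw [hw0, map_zero]
  have ha1 : a = 1 := by
    rcases Nat.eq_zero_or_pos a with h4 | h4
    · rw [h4, Submodule.finrank_eq_zero] at h3
      rw [h3] at hw
      exact absurd ((Submodule.mem_bot F).1 hw) hw0
    · omega
  rw [ha1] at h3
  obtain ⟨b, hb⟩ := exists_smul_eq_of_finrank_eq_one h3 (x := (⟨w, hw⟩ : pp A e f)) (by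
    intro h5; exact hw0 (congrArg (fun z : pp A e f => (z : V)) h5)) ⟨_, pp_inv hfix hw⟩
  have hb' : (g : V ≃ₗ[F] V) w = b • w := (congrArg (fun z : pp A e f => (z : V)) hb).symm
  obtain ⟨k, hk⟩ := hk
  have h1 := apply_pow hb' (p ^ k)
  rw [hk] at h1
  have h2 : b ^ p ^ k = 1 := by
    have h3 : (b ^ p ^ k - 1) • w = 0 := by
      rw [sub_smul, one_smul, ← h1]; exact sub_self _
    exact sub_eq_zero.1 ((smul_eq_zero.1 h3).resolve_right hw0)
  rw [hb', eq_one_of_pow h2, one_smul]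

/-- passage to the central quotient -/
theorem finish {J : Type*} [Group J] [Finite J] (p : ℕ) [hp : Fact p.Prime] [CharP F p] {G : Subgroup A.isom} (φ : J ≃* G) [Nontrivial V]
    (hcen : ∀ z ∈ Subgroup.center J, ∃ b : F, ∀ x : V, ((φ z : A.isom) : V ≃ₗ[F] V) x = b • x)
    (hst : ∃ χ : G → ℂ, IsIrrCharacter G χ ∧ χ 1 = ((p ^ (Nat.card G).factorization p : ℕ) : ℂ) ∧
      ∀ g : G, (∀ x : V, ∃ b : F, ((g : A.isom) : V ≃ₗ[F] V) x = b • x) → χ g = χ 1) :
    ∃ χ : J ⧸ Subgroup.center J → ℂ, IsIrrCharacter (J ⧸ Subgroup.center J) χ ∧ ∀ P : Sylow p (J ⧸ Subgroup.center J),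
      χ 1 = Nat.card P ∧ ∀ x : J ⧸ Subgroup.center J, x ∈ P → x ≠ 1 → χ x = 0 := by
  obtain ⟨χ, hχ, hχ1, hχk⟩ := hst
  refine descend p (Subgroup.center J) ?_ ((Cfsg.Agent.H3.CharInd.isIrr_comp_iff φ).2 hχ) ?_ ?_
  · intro hd
    obtain ⟨z, hz⟩ := exists_prime_orderOf_dvd_card' p hd
    obtain ⟨b, hb⟩ := hcen z z.2
    have h1 : (z : J) ^ p = 1 := by
      have := congrArg (fun y : Subgroup.center J => (y : J)) (hz ▸ pow_orderOf_eq_one z)
      simpa using this
    obtain ⟨x, hx⟩ := exists_ne (0 : V)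
    have h2 : ((φ z : A.isom)) ^ p = 1 := by
      have h3 : φ (z : J) ^ p = 1 := by rw [← map_pow, h1, map_one]
      exact congrArg (fun y : G => (y : A.isom)) h3
    have h3 := apply_pow (hb x) p
    rw [h2] at h3
    have h4 : b ^ p ^ 1 = 1 := by
      rw [pow_one]
      have h5 : (b ^ p - 1) • x = 0 := by
        rw [sub_smul, one_smul, ← h3]; exact sub_self _
      exact sub_eq_zero.1 ((smul_eq_zero.1 h5).resolve_right hx)
    have hb1 := eq_one_of_pow h4
    have h6 : (φ (z : J)) = 1 := by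
      apply Subtype.ext; apply Subtype.ext; apply LinearEquiv.ext
      intro x
      rw [hb x, hb1, one_smul]; rfl
    have h7 : (z : J) = 1 := φ.injective (h6.trans (map_one φ).symm)
    have h8 : z = 1 := Subtype.ext h7
    rw [h8, orderOf_one] at hz
    exact hp.out.one_lt.ne hz
  · beta_reduce
    rw [map_one, hχ1, Nat.card_congr φ.toEquiv]
  · intro z hz
    beta_reduce
    rw [map_one]
    obtain ⟨b, hb⟩ := hcen z hz
    exact hχk _ fun x => ⟨b, hb x⟩

end Cfsg.Agent.H16.St
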