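import Cfsg.Agent.H16_MatOm

/-! Orthogonal sums in matrix form. -/

set_option autoImplicit false
set_option linter.unusedSectionVars false

namespace Cfsg.Agent.H16.Quad

open Module
open QuadraticMap (polar)

theorem hom_mem_comm {G H : Type*} [Group G] [Group H] (f : G →* H) {g : G} (hg : g ∈ commutator G) :
    f g ∈ commutator H := by
  have h : (commutator G).map f ≤ commutator H := by
    rw [commutator_def, commutator_def, Subgroup.map_commutator]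
    exact Subgroup.commutator_mono le_top le_top
  exact h ⟨g, hg, rfl⟩

variable {F : Type*} [Field F] {κ l : Type} [Fintype κ] [DecidableEq κ] [Fintype l] [DecidableEq l]
  (Q₁ : QuadraticForm F (κ → F)) (Q₂ : QuadraticForm F (l → F))

/-- the orthogonal sum -/
noncomputable def sumQ : QuadraticForm F (κ ⊕ l → F) :=
  Q₁.comp (LinearMap.funLeft F F (Sum.inl : κ → κ ⊕ l)) + Q₂.comp (LinearMap.funLeft F F (Sum.inr : l → κ ⊕ l))

theorem coe_sumQ : ⇑(sumQ Q₁ Q₂) = fun v : κ ⊕ l → F => Q₁ (v ∘ Sum.inl) + Q₂ (v ∘ Sum.inr) := rfl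

theorem sumQ_apply (v : κ ⊕ l → F) : sumQ Q₁ Q₂ v = Q₁ (v ∘ Sum.inl) + Q₂ (v ∘ Sum.inr) := rfl

theorem polar_sumQ (v w : κ ⊕ l → F) :
    polar (sumQ Q₁ Q₂) v w = polar Q₁ (v ∘ Sum.inl) (w ∘ Sum.inl) + polar Q₂ (v ∘ Sum.inr) (w ∘ Sum.inr) := by
  simp only [polar, sumQ_apply]
  have h1 : (v + w) ∘ (Sum.inl : κ → κ ⊕ l) = v ∘ Sum.inl + w ∘ Sum.inl := rfl
  have h2 : (v + w) ∘ (Sum.inr : l → κ ⊕ l) = v ∘ Sum.inr + w ∘ Sum.inr := rfl
  rw [h1, h2]; ring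

variable {Q₁ Q₂}

theorem nd_sumQ (h₁ : (QuadraticMap.polarBilin Q₁).Nondegenerate) (h₂ : (QuadraticMap.polarBilin Q₂).Nondegenerate) :
    (QuadraticMap.polarBilin (sumQ Q₁ Q₂)).Nondegenerate := by
  apply nd_of
  intro x hx
  have e1 : x ∘ (Sum.inl : κ → κ ⊕ l) = 0 := by
    apply nd_eq_zero h₁
    intro y
    have := hx (Sum.elim y 0)
    rw [polar_sumQ] at this
    simpa using this
  have e2 : x ∘ (Sum.inr : l → κ ⊕ l) = 0 := by
    apply nd_eq_zero h₂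
    intro y
    have := hx (Sum.elim 0 y)
    rw [polar_sumQ] at this
    simpa using this
  funext i
  rcases i with i | i
  · exact congrFun e1 i
  · exact congrFun e2 i

theorem fromBlocks_mulVec' (A : Matrix κ κ F) (B : Matrix l l F) (x : κ ⊕ l → F) :
    (Matrix.fromBlocks A 0 0 B).mulVec x = Sum.elim (A.mulVec (x ∘ Sum.inl)) (B.mulVec (x ∘ Sum.inr)) := by
  rw [Matrix.fromBlocks_mulVec]
  simp

/-- block diagonal embedding -/
noncomputable def diagG : Cfsg.isometryGroup F ⇑Q₁ × Cfsg.isometryGroup F ⇑Q₂ →* Cfsg.isometryGroup F ⇑(sumQ Q₁ Q₂) where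
  toFun p := ⟨⟨Matrix.fromBlocks ((p.1 : GL κ F) : Matrix κ κ F) 0 0 ((p.2 : GL l F) : Matrix l l F),
      Matrix.fromBlocks ((p.1⁻¹ : GL κ F) : Matrix κ κ F) 0 0 ((p.2⁻¹ : GL l F) : Matrix l l F),
      by rw [Matrix.fromBlocks_multiply]; simp [-Matrix.coe_units_inv], by rw [Matrix.fromBlocks_multiply]; simp [-Matrix.coe_units_inv]⟩, by
        rw [mem_isometryGroup]
        intro v
        show sumQ Q₁ Q₂ ((Matrix.fromBlocks ((p.1 : GL κ F) : Matrix κ κ F) 0 0 ((p.2 : GL l F) : Matrix l l F)).mulVec v) = _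
        rw [fromBlocks_mulVec', sumQ_apply, sumQ_apply]
        have h1 := mem_isometryGroup.1 p.1.2 (v ∘ Sum.inl)
        have h2 := mem_isometryGroup.1 p.2.2 (v ∘ Sum.inr)
        rw [Sum.elim_comp_inl, Sum.elim_comp_inr, h1, h2]⟩
  map_one' := by
    apply Subtype.ext; apply Units.ext
    show Matrix.fromBlocks _ _ _ _ = _
    simp
  map_mul' p p' := by
    apply Subtype.ext; apply Units.ext
    show Matrix.fromBlocks _ _ _ _ = Matrix.fromBlocks _ _ _ _ * Matrix.fromBlocks _ _ _ _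
    rw [Matrix.fromBlocks_multiply]
    simp

theorem diagG_coe (p : Cfsg.isometryGroup F ⇑Q₁ × Cfsg.isometryGroup F ⇑Q₂) :
    ((diagG p : GL (κ ⊕ l) F) : Matrix (κ ⊕ l) (κ ⊕ l) F) =
      Matrix.fromBlocks ((p.1 : GL κ F) : Matrix κ κ F) 0 0 ((p.2 : GL l F) : Matrix l l F) := rfl

theorem rprod_sum (vs : List (κ → F)) (x : κ ⊕ l → F) :
    rprod (sumQ Q₁ Q₂) (vs.map fun v => (Sum.elim v 0 : κ ⊕ l → F)) x =
      Sum.elim (rprod Q₁ vs (x ∘ Sum.inl)) (x ∘ Sum.inr) := by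
  induction vs with
  | nil =>
    ext i
    rcases i with i | i <;> rfl
  | cons v vs ih =>
    rw [List.map_cons, rprod_cons, rprod_cons, LinearEquiv.mul_apply, LinearEquiv.mul_apply, ih, refl_apply, refl_apply,
      polar_sumQ, sumQ_apply]
    simp only [Sum.elim_comp_inl, Sum.elim_comp_inr, QuadraticMap.map_zero, QuadraticMap.polar_zero_right, add_zero]
    ext i
    rcases i with i | i <;> simp

theorem diag_one_mem_iff [Finite F] (h₁ : (QuadraticMap.polarBilin Q₁).Nondegenerate)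
    (h₂ : (QuadraticMap.polarBilin Q₂).Nondegenerate) (h : Nat.card F ≠ 2 ∨ finrank F (κ → F) ≠ 4)
    (h' : Nat.card F ≠ 2 ∨ finrank F (κ ⊕ l → F) ≠ 4) (g : Cfsg.isometryGroup F ⇑Q₁) :
    diagG (Q₂ := Q₂) (g, 1) ∈ Cfsg.Omega F ⇑(sumQ Q₁ Q₂) ↔ g ∈ Cfsg.Omega F ⇑Q₁ := by
  obtain ⟨vs, hvs, e1, e2⟩ := iso_exists_list h₁ h g
  have h3 : ∀ v ∈ vs.map fun v => (Sum.elim v 0 : κ ⊕ l → F), sumQ Q₁ Q₂ v ≠ 0 := by
    intro v hv
    obtain ⟨w, hw, rfl⟩ := List.mem_map.1 hv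
    rw [sumQ_apply]
    simpa using hvs w hw
  have h4 : toOG (sumQ Q₁ Q₂) (diagG (Q₂ := Q₂) (g, 1)) = rpr (sumQ Q₁ Q₂) (vs.map fun v => (Sum.elim v 0 : κ ⊕ l → F)) := by
    apply toOG_ext
    intro x
    rw [coe_rpr, rprod_sum, diagG_coe, fromBlocks_mulVec']
    have e3 : rprod Q₁ vs (x ∘ Sum.inl) = ((g : GL κ F) : Matrix κ κ F).mulVec (x ∘ Sum.inl) := by
      rw [← coe_rpr, ← e1, toOG_apply]
    rw [e3]
    simp
  rw [mem_Omega_rpr_iff (nd_sumQ h₁ h₂) h' h3 h4, mem_Omega_rpr_iff h₁ h hvs e1]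
  have h5 : (vs.map fun v => (Sum.elim v 0 : κ ⊕ l → F)).map (sumQ Q₁ Q₂) = vs.map Q₁ := by
    rw [List.map_map]
    apply List.map_congr_left
    intro v _
    rw [Function.comp_apply, sumQ_apply]
    simp
  rw [h5, List.length_map]

end Cfsg.Agent.H16.Quad
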