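import Mathlib

set_option autoImplicit false

/-! A matrix is similar to its transpose. -/

namespace Cfsg.Agent.H16.Tr

open Polynomial Module DirectSum

variable {F : Type*} [Field F]

/-- a Frobenius functional. -/
theorem exists_frob {p : F[X]} (hp : Irreducible p) (e : ℕ) :
    ∃ l : (F[X] ⧸ (Ideal.span {p ^ e} : Ideal F[X])) →ₗ[F] F,
      ∀ r, (∀ t, l (r * t) = 0) → r = 0 := by
  classical
  rcases e with _ | e
  · refine ⟨0, fun r _ => ?_⟩
    have : Subsingleton (F[X] ⧸ (Ideal.span {p ^ 0} : Ideal F[X])) := by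
      rw [Ideal.Quotient.subsingleton_iff, pow_zero, Ideal.span_singleton_one]
    exact Subsingleton.elim _ _
  · obtain ⟨x, hx⟩ : ∃ x, x = Ideal.Quotient.mk (Ideal.span {p ^ (e + 1)} : Ideal F[X]) (p ^ e) := ⟨_, rfl⟩
    have hx0 : x ≠ 0 := by
      rw [hx, Ne, Ideal.Quotient.eq_zero_iff_mem, Ideal.mem_span_singleton]
      intro h
      have := (pow_dvd_pow_iff hp.ne_zero hp.not_isUnit).mp h
      omega
    obtain ⟨l, hl⟩ : ∃ l : (F[X] ⧸ (Ideal.span {p ^ (e + 1)} : Ideal F[X])) →ₗ[F] F, l x ≠ 0 := by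
      by_contra hcon
      push Not at hcon
      exact hx0 ((Module.forall_dual_apply_eq_zero_iff F x).mp hcon)
    refine ⟨l, fun r hr => ?_⟩
    by_contra hr0
    obtain ⟨g, rfl⟩ := Ideal.Quotient.mk_surjective r
    rw [Ideal.Quotient.eq_zero_iff_mem, Ideal.mem_span_singleton] at hr0
    -- the gcd
    have h1 : EuclideanDomain.gcd g (p ^ (e + 1)) ∣ p ^ (e + 1) := EuclideanDomain.gcd_dvd_right _ _
    obtain ⟨k, hk, hk'⟩ := (dvd_prime_pow hp.prime _).mp h1
    have hke : k ≤ e := by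
      by_contra hcon
      have : k = e + 1 := by omega
      subst this
      exact hr0 (hk'.symm.dvd.trans (EuclideanDomain.gcd_dvd_left _ _))
    obtain ⟨s, hs⟩ := hk'.dvd.trans (pow_dvd_pow p hke)
    -- `p ^ e = gcd * s`
    have h2 : g * (EuclideanDomain.gcdA g (p ^ (e + 1)) * s) + p ^ (e + 1) * (EuclideanDomain.gcdB g (p ^ (e + 1)) * s) = p ^ e := by
      rw [hs, EuclideanDomain.gcd_eq_gcd_ab]
      ring
    apply hl
    have h3 : x = Ideal.Quotient.mk (Ideal.span {p ^ (e + 1)} : Ideal F[X]) g *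
        Ideal.Quotient.mk _ (EuclideanDomain.gcdA g (p ^ (e + 1)) * s) := by
      rw [hx, ← _root_.map_mul, Ideal.Quotient.eq, Ideal.mem_span_singleton]
      exact ⟨EuclideanDomain.gcdB g (p ^ (e + 1)) * s, by rw [← h2]; ring⟩
    rw [h3]
    exact hr _

theorem exists_form {V : Type*} [AddCommGroup V] [Module F V] [FiniteDimensional F V] (T : End F V) :
    ∃ B : LinearMap.BilinForm F V, (∀ x, (∀ y, B x y = 0) → x = 0) ∧ ∀ x y, B (T x) y = B x (T y) := by
  classical
  have htor : Module.IsTorsion F[X] (AEval' T) := by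
    intro x
    refine ⟨⟨minpoly F T, mem_nonZeroDivisors_of_ne_zero (minpoly.ne_zero (Algebra.IsIntegral.isIntegral T))⟩, ?_⟩
    obtain ⟨v, rfl⟩ := (AEval'.of T).surjective x
    change minpoly F T • AEval'.of T v = 0
    rw [AEval'.of, ← AEval.of_aeval_smul, minpoly.aeval, zero_smul, _root_.map_zero]
  obtain ⟨ι, _, p, hp, e, ⟨E⟩⟩ := Module.equiv_directSum_of_isTorsion htor
  choose l hl using fun i => exists_frob (hp i) (e i)
  let N : ι → Type _ := fun i => F[X] ⧸ (Ideal.span {p i ^ e i} : Ideal F[X])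
  let E' : AEval' T ≃ₗ[F[X]] ⨁ i, N i := E
  obtain ⟨u, hu⟩ : ∃ u : ∀ i, V → N i, ∀ i x, u i x = E' (AEval'.of T x) i := ⟨fun i x => _, fun i x => rfl⟩
  have hadd : ∀ i x y, u i (x + y) = u i x + u i y := by
    intro i x y
    rw [hu, hu, hu, _root_.map_add, _root_.map_add]
    rfl
  have hX : ∀ i x, u i (T x) = Ideal.Quotient.mk _ X * u i x := by
    intro i x
    rw [hu, hu, ← AEval'.X_smul_of, _root_.map_smul]
    rfl
  have hsmul : ∀ i (c : F) x, u i (c • x) = c • u i x := by
    intro i c x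
    have h1 : AEval'.of T (c • x) = (C c : F[X]) • AEval'.of T x := by
      rw [_root_.map_smul, AEval.C_smul]
    rw [hu, hu, h1, _root_.map_smul, DirectSum.smul_apply]
    exact algebraMap_smul F[X] c _
  refine ⟨LinearMap.mk₂ F (fun x y => ∑ i, l i (u i x * u i y)) ?_ ?_ ?_ ?_, ?_, ?_⟩
  · intro x x' y
    rw [← Finset.sum_add_distrib]
    refine Finset.sum_congr rfl fun i _ => ?_
    rw [hadd, add_mul, _root_.map_add]
  · intro c x y
    rw [smul_eq_mul, Finset.mul_sum]
    refine Finset.sum_congr rfl fun i _ => ?_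
    rw [hsmul, smul_mul_assoc, _root_.map_smul, smul_eq_mul]
  · intro x y y'
    rw [← Finset.sum_add_distrib]
    refine Finset.sum_congr rfl fun i _ => ?_
    rw [hadd, mul_add, _root_.map_add]
  · intro c x y
    rw [smul_eq_mul, Finset.mul_sum]
    refine Finset.sum_congr rfl fun i _ => ?_
    rw [hsmul, mul_smul_comm, _root_.map_smul, smul_eq_mul]
  · intro x hx
    have h1 : E' (AEval'.of T x) = 0 := by
      ext i
      change E' (AEval'.of T x) i = 0
      rw [← hu]
      apply hl i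
      intro t
      obtain ⟨y, hy⟩ := (AEval'.of T).surjective (E'.symm (DirectSum.lof F[X] ι N i t))
      have h2 := hx y
      rw [LinearMap.mk₂_apply] at h2
      have h3 : ∀ j, u j y = DirectSum.lof F[X] ι N i t j := by
        intro j
        rw [hu, hy, LinearEquiv.apply_symm_apply]
      rw [Finset.sum_eq_single i] at h2
      · rw [h3, DirectSum.lof_apply] at h2
        exact h2
      · intro j _ hj
        rw [h3, DirectSum.lof_eq_of, DirectSum.of_eq_of_ne _ _ _ hj, mul_zero, _root_.map_zero]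
      · intro h
        exact absurd (Finset.mem_univ i) h
    rw [LinearEquiv.map_eq_zero_iff, LinearEquiv.map_eq_zero_iff] at h1
    exact h1
  · intro x y
    rw [LinearMap.mk₂_apply, LinearMap.mk₂_apply]
    refine Finset.sum_congr rfl fun i _ => ?_
    rw [hX, hX]
    congr 1
    ring

open Matrix in
theorem conj_transpose {ι : Type} [Fintype ι] [DecidableEq ι] (A : Matrix ι ι F) : IsConj A Aᵀ := by
  classical
  obtain ⟨B, hB, hT⟩ := exists_form (Matrix.toLin' A : End F (ι → F))
  obtain ⟨M, hM⟩ : ∃ M, M = LinearMap.BilinForm.toMatrix' B := ⟨_, rfl⟩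
  have hBM : ∀ x y, B x y = x ⬝ᵥ (M *ᵥ y) := by
    intro x y
    have h1 : B = Matrix.toBilin' M := by rw [hM, Matrix.toBilin'_toMatrix']
    rw [h1, Matrix.toBilin'_apply']
  have hdet : M.det ≠ 0 := by
    intro h
    obtain ⟨v, hv, hv'⟩ := Matrix.exists_vecMul_eq_zero_iff.mpr h
    apply hv
    apply hB
    intro y
    rw [hBM, Matrix.dotProduct_mulVec, hv', zero_dotProduct]
  have hcomm : M * A = Aᵀ * M := by
    apply Matrix.ext_of_mulVec_single
    intro i
    have h1 : ∀ x y : ι → F, x ⬝ᵥ ((Aᵀ * M) *ᵥ y) = x ⬝ᵥ ((M * A) *ᵥ y) := by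
      intro x y
      have h2 := hT x y
      rw [Matrix.toLin'_apply, Matrix.toLin'_apply, hBM, hBM] at h2
      rw [← Matrix.mulVec_mulVec, ← Matrix.mulVec_mulVec, ← h2, Matrix.dotProduct_mulVec x Aᵀ, Matrix.vecMul_transpose]
    have h3 := fun x => h1 x (Pi.single i 1)
    exact (dotProduct_eq _ _ (fun x => by rw [dotProduct_comm, h3, dotProduct_comm])).symm
  exact ⟨Matrix.GeneralLinearGroup.mkOfDetNeZero M hdet, hcomm⟩

end Cfsg.Agent.H16.Tr
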