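import Cfsg.Agent.H5_SL2
import Cfsg.Agent.H17_ZigA
import Cfsg.Agent.H17_Base

/-! elementary facts about `PSL₂(q)` and its Sylow `p`-subgroups -/

set_option autoImplicit false

namespace Cfsg.Agent.H17.Ba

open Cfsg.Agent.H5.SL2 Cfsg.Agent.H17.Base

open scoped commutatorElement

theorem map_cj' {A B : Type*} [Group A] [Group B] (f : A →* B) (g : A) (H : Subgroup A) :
    (cj g H).map f = cj (f g) (H.map f) := by
  rw [cj, cj, Subgroup.map_map, Subgroup.map_map]
  congr 1
  ext x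
  simp

variable {F : Type*} [Field F]

/-- the projection -/
abbrev φ (F : Type*) [Field F] : Matrix.SpecialLinearGroup (Fin 2) F →* Matrix.ProjectiveSpecialLinearGroup (Fin 2) F :=
  QuotientGroup.mk' (Subgroup.center (Matrix.SpecialLinearGroup (Fin 2) F))

theorem φ_surj : Function.Surjective (φ F) := QuotientGroup.mk'_surjective _

theorem mem_center_iff' {g : Matrix.SpecialLinearGroup (Fin 2) F} :
    g ∈ Subgroup.center (Matrix.SpecialLinearGroup (Fin 2) F) ↔ g.1 0 1 = 0 ∧ g.1 1 0 = 0 ∧ g.1 0 0 = g.1 1 1 := by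
  rw [Matrix.SpecialLinearGroup.mem_center_iff]
  constructor
  · rintro ⟨r, -, hr⟩
    rw [← hr]
    simp [Matrix.scalar_apply]
  · rintro ⟨h1, h2, h3⟩
    have hd := det_eq g
    refine ⟨g.1 0 0, ?_, ?_⟩
    · rw [Fintype.card_fin, pow_two]
      rw [h1, h3] at hd
      rw [h3]
      linear_combination hd
    · ext i j
      fin_cases i <;> fin_cases j <;> simp [Matrix.scalar_apply, h1, h2, h3]

variable [Fintype F] {p : ℕ} [Fact p.Prime] [CharP F p]

/-- Sylow subgroups of `PSL₂` are images -/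
theorem exists_lift (P : Sylow p (Matrix.ProjectiveSpecialLinearGroup (Fin 2) F)) :
    ∃ g : Matrix.SpecialLinearGroup (Fin 2) F, (P : Subgroup (Matrix.ProjectiveSpecialLinearGroup (Fin 2) F)) = ((cj g (U F)).map (φ F)) := by
  obtain ⟨g, hg⟩ := MulAction.exists_smul_eq (Matrix.ProjectiveSpecialLinearGroup (Fin 2) F) ((US (F := F) p).mapSurjective φ_surj) P
  obtain ⟨h, rfl⟩ := φ_surj g
  refine ⟨h, ?_⟩
  rw [← hg, Sylow.coe_subgroup_smul]
  ext x
  rw [Subgroup.mem_pointwise_smul_iff_inv_smul_mem, Sylow.coe_mapSurjective, coe_US]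
  rw [← map_inv, MulAut.smul_def, MulAut.conj_apply]
  constructor
  · rintro ⟨y, hy, hxy⟩
    refine ⟨h * y * h⁻¹, conj_mem_cj hy, ?_⟩
    rw [map_mul, map_mul, hxy, map_inv]
    group
  · rintro ⟨y, hy, rfl⟩
    refine ⟨h⁻¹ * y * h, mem_cj.1 hy, ?_⟩
    rw [map_mul, map_mul, map_inv]
    group

omit [Fintype F] [Fact p.Prime] [CharP F p] in
theorem inj_cjU (g : Matrix.SpecialLinearGroup (Fin 2) F) {x : Matrix.SpecialLinearGroup (Fin 2) F} (hx : x ∈ cj g (U F))
    (h : φ F x = 1) : x = 1 := by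
  obtain ⟨y, hy, rfl⟩ := hx
  obtain ⟨t, rfl⟩ := mem_U.1 hy
  have h1 : (MulAut.conj g) (u t) ∈ Subgroup.center (Matrix.SpecialLinearGroup (Fin 2) F) := by
    rw [← QuotientGroup.eq_one_iff]; exact h
  have h2 : u t ∈ Subgroup.center (Matrix.SpecialLinearGroup (Fin 2) F) := by
    have h3 := (Subgroup.Normal.conj_mem (inferInstance : (Subgroup.center (Matrix.SpecialLinearGroup (Fin 2) F)).Normal) _ h1 g⁻¹)
    have h4 : g⁻¹ * (MulAut.conj g) (u t) * g⁻¹⁻¹ = u t := by
      rw [MulAut.conj_apply]; group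
    rwa [h4] at h3
  have h3 := (mem_center_iff'.1 h2).1
  have h4 : t = 0 := by simpa using h3
  rw [h4, u_zero]
  simp

theorem card_sylow (P : Sylow p (Matrix.ProjectiveSpecialLinearGroup (Fin 2) F)) : Nat.card P = Fintype.card F := by
  obtain ⟨g, hg⟩ := exists_lift P
  have h1 : Nat.card (P : Subgroup (Matrix.ProjectiveSpecialLinearGroup (Fin 2) F)) = Nat.card ((cj g (U F)).map (φ F)) := by rw [hg]
  have h2 : Nat.card ((cj g (U F)).map (φ F)) = Nat.card (cj g (U F)) := by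
    apply Nat.card_congr
    symm
    refine Equiv.ofBijective (fun x => ⟨φ F x, x, x.2, rfl⟩) ⟨?_, ?_⟩
    · intro x y hxy
      have h3 : φ F x = φ F y := congrArg Subtype.val hxy
      have h4 : φ F ((x : Matrix.SpecialLinearGroup (Fin 2) F) * (y : Matrix.SpecialLinearGroup (Fin 2) F)⁻¹) = 1 := by
        rw [map_mul, map_inv, h3, mul_inv_cancel]
      have h5 := inj_cjU g ((cj g (U F)).mul_mem x.2 ((cj g (U F)).inv_mem y.2)) h4
      exact Subtype.ext (mul_inv_eq_one.1 h5)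
    · rintro ⟨_, x, hx, rfl⟩
      exact ⟨⟨x, hx⟩, rfl⟩
  exact h1.trans (h2.trans ((card_cj g _).trans card_U))

theorem sylow_comm (P : Sylow p (Matrix.ProjectiveSpecialLinearGroup (Fin 2) F)) :
    ⁅(P : Subgroup (Matrix.ProjectiveSpecialLinearGroup (Fin 2) F)), (P : Subgroup (Matrix.ProjectiveSpecialLinearGroup (Fin 2) F))⁆ = ⊥ := by
  obtain ⟨g, hg⟩ := exists_lift P
  rw [hg, ← Subgroup.map_commutator, ← cj_commutator]
  have : ⁅U F, U F⁆ = ⊥ := by
    rw [commutator_eq_bot_iff_le_Cz]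
    intro x hx
    rw [Subgroup.mem_centralizer_iff]
    intro y hy
    obtain ⟨a, rfl⟩ := mem_U.1 hx
    obtain ⟨b, rfl⟩ := mem_U.1 hy
    rw [u_mul, u_mul, add_comm]
  rw [this, cj, Subgroup.map_bot, Subgroup.map_bot]

variable (p) in
include p in
/-- distinct conjugates of `U` generate -/
theorem gen (g h : Matrix.SpecialLinearGroup (Fin 2) F) (hne : cj g (U F) ≠ cj h (U F)) :
    cj g (U F) ⊔ cj h (U F) = ⊤ := by
  have key : ∀ g : Matrix.SpecialLinearGroup (Fin 2) F, ((g • (US (F := F) p) : Sylow p (Matrix.SpecialLinearGroup (Fin 2) F)) :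
      Subgroup (Matrix.SpecialLinearGroup (Fin 2) F)) = cj g (U F) := fun g => by
    rw [Sylow.coe_subgroup_smul, coe_US]; rfl
  have h1 := generate p (g • (US (F := F) p)) (h • (US (F := F) p)) (by
    intro he
    apply hne
    rw [← key g, ← key h, he])
  rwa [key, key] at h1

theorem U_ne_top : (U F) ≠ ⊤ := by
  intro h
  have h1 : w (1 : Fˣ) ∈ U F := by rw [h]; trivial
  obtain ⟨x, hx⟩ := mem_U.1 h1
  have := congrArg (fun g : Matrix.SpecialLinearGroup (Fin 2) F => g.1 1 0) hx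
  simp at this

theorem exists_ne (g : Matrix.SpecialLinearGroup (Fin 2) F) : ∃ h, cj g (U F) ≠ cj h (U F) := by
  by_contra hcon
  push Not at hcon
  have h1 : cj 1 (U F) = cj (w (1 : Fˣ)) (U F) := by rw [← hcon 1, ← hcon (w 1)]
  rw [cj_one] at h1
  have h2 : w (1 : Fˣ) ∈ Subgroup.normalizer (U F : Set (Matrix.SpecialLinearGroup (Fin 2) F)) := mem_Nz_iff_cj.2 h1.symm
  rw [mem_normalizer_U] at h2
  simp at h2

/-- two conjugates of a Sylow subgroup generate -/
theorem exists_gen (P : Sylow p (Matrix.ProjectiveSpecialLinearGroup (Fin 2) F)) :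
    ∃ g : Matrix.ProjectiveSpecialLinearGroup (Fin 2) F, (P : Subgroup (Matrix.ProjectiveSpecialLinearGroup (Fin 2) F)) ⊔ cj g (P : Subgroup (Matrix.ProjectiveSpecialLinearGroup (Fin 2) F)) = ⊤ := by
  obtain ⟨g, hg⟩ := exists_lift P
  obtain ⟨h, hh⟩ := exists_ne g
  refine ⟨φ F (h * g⁻¹), ?_⟩
  have h1 : cj (φ F (h * g⁻¹)) (P : Subgroup (Matrix.ProjectiveSpecialLinearGroup (Fin 2) F)) = (cj h (U F)).map (φ F) := by
    have h2 : cj h (U F) = cj (h * g⁻¹) (cj g (U F)) := by
      rw [← cj_mul]; congr 1; group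
    rw [h2, hg]; exact (map_cj' _ _ _).symm
  rw [h1, hg, ← Subgroup.map_sup, gen p g h hh]
  exact Subgroup.map_top_of_surjective _ φ_surj

/-- `PSL₂(q)` is not a `p`-group -/
theorem sylow_ne_top (P : Sylow p (Matrix.ProjectiveSpecialLinearGroup (Fin 2) F)) : (P : Subgroup (Matrix.ProjectiveSpecialLinearGroup (Fin 2) F)) ≠ ⊤ := by
  intro h
  have h1 := sylow_comm P
  rw [h] at h1
  obtain ⟨g, hg⟩ := exists_lift P
  -- everything commutes modulo the centre
  have h2 : φ F ⁅u (1 : F), w (1 : Fˣ)⁆ = 1 := by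
    have h3 : ⁅φ F (u (1 : F)), φ F (w (1 : Fˣ))⁆ ∈ (⊥ : Subgroup (Matrix.ProjectiveSpecialLinearGroup (Fin 2) F)) := by
      rw [← h1]; exact Subgroup.commutator_mem_commutator (Subgroup.mem_top _) (Subgroup.mem_top _)
    rw [map_commutatorElement]
    exact Subgroup.mem_bot.1 h3
  have h3 : ⁅u (1 : F), w (1 : Fˣ)⁆ ∈ Subgroup.center (Matrix.SpecialLinearGroup (Fin 2) F) := by
    rw [← QuotientGroup.eq_one_iff]; exact h2
  have h4 := (mem_center_iff'.1 h3).2.1
  rw [commutatorElement_def] at h4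
  simp [mul10, mul00, mul01, mul11, inv00, inv01, inv10, inv11] at h4

/-- a normal subgroup inside a proper overgroup of a Sylow subgroup is trivial -/
theorem normal_eq_bot (P : Sylow p (Matrix.ProjectiveSpecialLinearGroup (Fin 2) F))
    {X R : Subgroup (Matrix.ProjectiveSpecialLinearGroup (Fin 2) F)} (hPX : (P : Subgroup (Matrix.ProjectiveSpecialLinearGroup (Fin 2) F)) ≤ X) (hX : X ≠ ⊤)
    (hR : R.Normal) (hRX : R ≤ X) : R = ⊥ := by
  obtain ⟨g, hg⟩ := exists_lift P
  have hgX : cj g (U F) ≤ X.comap (φ F) := by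
    rw [← Subgroup.map_le_iff_le_comap, ← hg]; exact hPX
  have hXt : X.comap (φ F) ≠ ⊤ := by
    intro h
    apply hX
    rw [← Subgroup.map_comap_eq_self_of_surjective φ_surj X, h]
    exact Subgroup.map_top_of_surjective _ φ_surj
  have hRn : (R.comap (φ F)).Normal := inferInstance
  have hRX' : R.comap (φ F) ≤ X.comap (φ F) := Subgroup.comap_mono hRX
  -- `R̃` normalizes `U`
  have key : ∀ r ∈ R.comap (φ F), r.1 1 0 = 0 := by
    intro r hr
    have hr' : g * r * g⁻¹ ∈ R.comap (φ F) := hRn.conj_mem _ hr g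
    have h1 : cj (g * r * g⁻¹) (cj g (U F)) = cj g (U F) := by
      by_contra hne
      rw [← cj_mul] at hne
      apply hXt
      rw [eq_top_iff, ← gen p _ _ hne]
      refine sup_le ?_ hgX
      have h2 : cj (g * r * g⁻¹ * g) (U F) = cj (g * r * g⁻¹) (cj g (U F)) := cj_mul _ _ _
      rw [h2]
      intro x hx
      rw [mem_cj] at hx
      have h3 := (X.comap (φ F)).mul_mem ((X.comap (φ F)).mul_mem (hRX' hr') (hgX hx)) ((X.comap (φ F)).inv_mem (hRX' hr'))
      have h4 : g * r * g⁻¹ * ((g * r * g⁻¹)⁻¹ * x * (g * r * g⁻¹)) * (g * r * g⁻¹)⁻¹ = x := by group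
      rwa [h4] at h3
    rw [← cj_mul] at h1
    have h2 : cj r (U F) = U F := by
      have h3 := congrArg (cj g⁻¹) h1
      rw [← cj_mul, cj_inv_cj] at h3
      have h4 : g⁻¹ * (g * r * g⁻¹ * g) = r := by group
      rwa [h4] at h3
    exact mem_normalizer_U.1 (mem_Nz_iff_cj.2 h2)
  rw [eq_bot_iff]
  intro x hx
  obtain ⟨r, rfl⟩ := φ_surj x
  have hr : r ∈ R.comap (φ F) := hx
  have h10 := key r hr
  have h01 : r.1 0 1 = 0 := by
    have := key _ (hRn.conj_mem _ hr (w 1))
    simp [mul10, mul00, mul01, mul11, inv00, inv01, inv10, inv11] at this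
    exact this
  have hd : r.1 0 0 = r.1 1 1 := by
    have := key _ (hRn.conj_mem _ hr (l 1))
    simp [mul10, mul00, mul01, mul11, inv00, inv01, inv10, inv11, h10, h01] at this
    linear_combination this
  rw [Subgroup.mem_bot]
  show (QuotientGroup.mk r : Matrix.ProjectiveSpecialLinearGroup (Fin 2) F) = 1
  rw [QuotientGroup.eq_one_iff, mem_center_iff']
  exact ⟨h01, h10, hd⟩

end Cfsg.Agent.H17.Ba
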