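import Cfsg.Agent.H17_Involves

set_option autoImplicit false
open Cfsg

/-!
Involvement of the dihedral group of order `2p`, `p` odd, in terms of inverted elements.
-/

namespace Cfsg.Agent.H17.InvDih

open Cfsg.Agent.H17.Base Cfsg.Agent.H17.Involves

universe u

variable {G : Type u} [Group G] {p : ℕ}

/-- (c) → (a) -/
theorem involves_of_inverted [Fact p.Prime] (hp : p ≠ 2) {x y : G}
    (hx : ∃ k : ℕ, orderOf x = 2 ^ k) (hy : ∃ k : ℕ, orderOf y = p ^ k) (hy1 : y ≠ 1)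
    (hxy : x * y * x⁻¹ = y⁻¹) : Involves (DihedralGroup p) G := by
  obtain ⟨m, hm⟩ := hx
  obtain ⟨k, hk⟩ := hy
  have hpp : p.Prime := Fact.out
  have hk0 : k ≠ 0 := by
    rintro rfl
    rw [pow_zero, orderOf_eq_one_iff] at hk
    exact hy1 hk
  -- replace y by an element z of order p
  set z := y ^ (p ^ (k - 1)) with hz
  have hzo : orderOf z = p := by
    rw [hz, orderOf_pow_of_dvd (pow_ne_zero _ hpp.ne_zero) (by rw [hk]; exact pow_dvd_pow p (Nat.sub_le k 1)), hk]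
    rw [Nat.pow_div (Nat.sub_le k 1) hpp.pos]
    have : k - (k - 1) = 1 := by omega
    rw [this, pow_one]
  have hxz : x * z * x⁻¹ = z⁻¹ := by
    rw [hz, ← conj_pow, hxy, inv_pow]
  have hzz : x ^ 2 * z * (x ^ 2)⁻¹ = z := by
    have : x ^ 2 * z * (x ^ 2)⁻¹ = x * (x * z * x⁻¹) * x⁻¹ := by rw [pow_two]; simp [mul_assoc]
    rw [this, hxz]
    have : x * z⁻¹ * x⁻¹ = (x * z * x⁻¹)⁻¹ := by simp [mul_assoc]
    rw [this, hxz, inv_inv]
  -- K = <z, x>
  set K : Subgroup G := Subgroup.closure ({z, x} : Set G) with hK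
  have hzK : z ∈ K := Subgroup.subset_closure (by simp)
  have hxK : x ∈ K := Subgroup.subset_closure (by simp)
  set R : Subgroup K := Subgroup.zpowers (⟨x, hxK⟩ ^ 2 : K) with hR
  -- R is central in K
  have hRc : R ≤ Subgroup.center K := by
    rw [hR, Subgroup.zpowers_le, Subgroup.mem_center_iff]
    have hle : K ≤ Subgroup.centralizer ({x ^ 2} : Set G) := by
      rw [hK, Subgroup.closure_le]
      intro w hw
      show w ∈ Subgroup.centralizer _
      rw [Subgroup.mem_centralizer_iff]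
      intro v hv
      rw [Set.mem_singleton_iff] at hv
      simp only [Set.mem_insert_iff, Set.mem_singleton_iff] at hw
      rcases hw with hw | hw
      · rw [hw, hv]
        have := hzz
        rw [mul_inv_eq_iff_eq_mul] at this
        exact this
      · rw [hw, hv]
        exact (Commute.pow_self x 2)
    intro g
    have := (Subgroup.mem_centralizer_iff.1 (hle g.2)) (x ^ 2) rfl
    exact Subtype.ext this.symm
  have hRn : R.Normal := by
    constructor
    intro r hr g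
    have h1 := Subgroup.mem_center_iff.1 (hRc hr) g
    rw [h1, mul_inv_cancel_right]; exact hr
  let a : K ⧸ R := QuotientGroup.mk ⟨z, hzK⟩
  let b : K ⧸ R := QuotientGroup.mk ⟨x, hxK⟩
  have hb : b * b = 1 := by
    show (QuotientGroup.mk (⟨x, hxK⟩ * ⟨x, hxK⟩ : K) : K ⧸ R) = 1
    rw [QuotientGroup.eq_one_iff, ← pow_two]
    exact Subgroup.mem_zpowers _
  have hab : b * a * b⁻¹ = a⁻¹ := by
    show (QuotientGroup.mk (⟨x, hxK⟩ * ⟨z, hzK⟩ * ⟨x, hxK⟩⁻¹ : K) : K ⧸ R) = QuotientGroup.mk (⟨z, hzK⟩⁻¹ : K)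
    congr 1
    exact Subtype.ext hxz
  -- z is not in R
  have hcop : Nat.Coprime p 2 := (Nat.coprime_primes hpp Nat.prime_two).2 hp
  have haR : a ≠ 1 := by
    intro h1
    rw [QuotientGroup.eq_one_iff] at h1
    have h2 : orderOf (⟨z, hzK⟩ : K) ∣ orderOf (⟨x, hxK⟩ ^ 2 : K) := orderOf_dvd_of_mem_zpowers h1
    have h3 : orderOf (⟨x, hxK⟩ ^ 2 : K) ∣ orderOf (⟨x, hxK⟩ : K) := orderOf_pow_dvd 2
    rw [Subgroup.orderOf_mk, hzo] at h2
    have h3' : orderOf (⟨x, hxK⟩ : K) = 2 ^ m := by rw [Subgroup.orderOf_mk]; exact hm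
    rw [h3'] at h3
    have h4 : p ∣ 2 ^ m := h2.trans h3
    have h5 := (Nat.prime_dvd_prime_iff_eq hpp Nat.prime_two).1 (hpp.dvd_of_dvd_pow h4)
    exact hp h5
  have hao : orderOf a = p := by
    apply orderOf_eq_prime
    · show (QuotientGroup.mk (⟨z, hzK⟩ ^ p : K) : K ⧸ R) = 1
      have : (⟨z, hzK⟩ ^ p : K) = 1 := by
        apply Subtype.ext
        show z ^ p = 1
        rw [← hzo]; exact pow_orderOf_eq_one z
      rw [this]; rfl
    · exact haR
  have hba : b ∉ Subgroup.zpowers a := by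
    intro h1
    obtain ⟨j, hj⟩ := Subgroup.mem_zpowers_iff.1 h1
    have h2 : b * a * b⁻¹ = a := by
      rw [← hj]; group
    rw [hab] at h2
    have h3 : a ^ 2 = 1 := by
      rw [pow_two]; nth_rewrite 1 [← h2]; exact inv_mul_cancel a
    have h4 : p ∣ 2 := by rw [← hao]; exact orderOf_dvd_of_pow_eq_one h3
    exact hp ((Nat.prime_dvd_prime_iff_eq hpp Nat.prime_two).1 h4)
  have hgen : Subgroup.closure ({a, b} : Set (K ⧸ R)) = ⊤ := by
    have h1 : Subgroup.closure ({⟨z, hzK⟩, ⟨x, hxK⟩} : Set K) = ⊤ := by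
      have h2 : (Subgroup.closure ({⟨z, hzK⟩, ⟨x, hxK⟩} : Set K)).map K.subtype = K := by
        rw [MonoidHom.map_closure, Set.image_pair]
        exact hK.symm
      apply Subgroup.map_injective K.subtype_injective
      rw [h2, ← MonoidHom.range_eq_map, Subgroup.range_subtype]
    have h3 := congrArg (Subgroup.map (QuotientGroup.mk' R)) h1
    rw [MonoidHom.map_closure, Set.image_pair, Subgroup.map_top_of_surjective _ (QuotientGroup.mk'_surjective R)] at h3
    exact h3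
  obtain ⟨e⟩ := nonempty_mulEquiv_dihedral hao hb hab hba hgen
  exact involves_of_surj (e.toMonoidHom.comp (QuotientGroup.mk' R))
    (e.surjective.comp (QuotientGroup.mk'_surjective R))

/-- (b) → (c) -/
theorem inverted_of_normalizes [Finite G] [Fact p.Prime] (_hp : p ≠ 2) {x : G} {P : Subgroup G}
    (hx : ∃ k : ℕ, orderOf x = 2 ^ k) (hP : IsPGroup p P) (hxN : x ∈ Nz P) (hxC : x ∉ Cz P) :
    ∃ x y : G, (∃ k : ℕ, orderOf x = 2 ^ k) ∧ (∃ k : ℕ, orderOf y = p ^ k) ∧ y ≠ 1 ∧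
      x * y * x⁻¹ = y⁻¹ ∧ y ∈ P := by
  have hpp : p.Prime := Fact.out
  obtain ⟨k, hk⟩ := hx
  -- choose w = x^(2^j) with w ∉ C, w^2 ∈ C
  have : ∃ w : G, (∃ k : ℕ, orderOf w = 2 ^ k) ∧ w ∈ Nz P ∧ w ∉ Cz P ∧ w * w ∈ Cz P := by
    clear _hp
    induction k generalizing x with
    | zero =>
      rw [pow_zero, orderOf_eq_one_iff] at hk
      exact absurd (hk ▸ (Cz P).one_mem) hxC
    | succ k ih =>
      by_cases h : x * x ∈ Cz P
      · exact ⟨x, ⟨k + 1, hk⟩, hxN, hxC, h⟩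
      · apply ih ((Nz P).mul_mem hxN hxN) h
        rw [← pow_two, orderOf_pow_of_dvd two_ne_zero (by rw [hk]; exact dvd_pow_self 2 (by omega)), hk,
          pow_succ, Nat.mul_div_cancel _ (by norm_num)]
  obtain ⟨w, hw2, hwN, hwC, hwC2⟩ := this
  have h1 : ∃ g ∈ P, w * g * w⁻¹ ≠ g := by
    by_contra hcon
    push Not at hcon
    apply hwC
    show w ∈ Subgroup.centralizer _
    rw [Subgroup.mem_centralizer_iff]
    intro g hg
    have := hcon g hg
    rw [mul_inv_eq_iff_eq_mul] at this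
    exact this.symm
  obtain ⟨g, hg, hgw⟩ := h1
  set y := g * (w * g * w⁻¹)⁻¹ with hy
  have hwg : w * g * w⁻¹ ∈ P := (Subgroup.mem_normalizer_iff.1 hwN g).1 hg
  have hyP : y ∈ P := P.mul_mem hg (P.inv_mem hwg)
  refine ⟨w, y, hw2, ?_, ?_, ?_, hyP⟩
  · obtain ⟨k, hk⟩ := IsPGroup.iff_orderOf.1 hP ⟨y, hyP⟩
    exact ⟨k, by rw [← hk, Subgroup.orderOf_mk]⟩
  · intro h
    rw [hy, mul_inv_eq_one] at h
    exact hgw h.symm
  · have h2 : w * w * g * (w * w)⁻¹ = g := by
      have := (Subgroup.mem_centralizer_iff.1 hwC2) g hg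
      rw [← this]; group
    have h3 : w * (w * g * w⁻¹) * w⁻¹ = g := by
      calc w * (w * g * w⁻¹) * w⁻¹ = w * w * g * (w * w)⁻¹ := by simp [mul_assoc]
        _ = g := h2
    have h4 : w * y * w⁻¹ = (w * g * w⁻¹) * (w * (w * g * w⁻¹) * w⁻¹)⁻¹ := by
      rw [hy]; simp [mul_assoc]
    rw [h4, h3, hy]; simp [mul_assoc]

/-- a surjection onto the dihedral group of order `2p` gives (b) -/
theorem normalizes_of_surj {K : Type u} [Group K] [Finite K] [Fact p.Prime] (hp : p ≠ 2)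
    (f : K →* DihedralGroup p) (hf : Function.Surjective f) :
    ∃ (x : K) (P : Subgroup K), (∃ k : ℕ, orderOf x = 2 ^ k) ∧ IsPGroup p P ∧ x ∈ Nz P ∧ x ∉ Cz P := by
  have hpp : p.Prime := Fact.out
  set C : Subgroup (DihedralGroup p) := Subgroup.zpowers (DihedralGroup.r 1) with hC
  set N : Subgroup K := C.comap f with hN
  have hCn : C.Normal := by
    rw [hC]
    constructor
    intro a ha g
    obtain ⟨k, rfl⟩ := Subgroup.mem_zpowers_iff.1 ha
    rw [DihedralGroup.r_one_zpow]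
    rcases g with i | i
    · rw [DihedralGroup.inv_r, DihedralGroup.r_mul_r, DihedralGroup.r_mul_r]
      refine Subgroup.mem_zpowers_iff.2 ⟨k, ?_⟩
      rw [DihedralGroup.r_one_zpow]; congr 1; ring
    · rw [DihedralGroup.inv_sr, DihedralGroup.sr_mul_r, DihedralGroup.sr_mul_sr]
      refine Subgroup.mem_zpowers_iff.2 ⟨-k, ?_⟩
      rw [DihedralGroup.r_one_zpow]; congr 1; push_cast; ring
  have hNn : N.Normal := hCn.comap f
  -- a Sylow subgroup of N
  obtain ⟨P, hP⟩ := exists_isSylowIn p N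
  -- its image contains r 1
  have himg : ∃ u ∈ P, f u = DihedralGroup.r 1 := by
    let g : N →* C := f.subgroupComap C
    have hg : Function.Surjective g := by
      rintro ⟨y, hy⟩
      obtain ⟨x, rfl⟩ := hf y
      exact ⟨⟨x, hy⟩, rfl⟩
    have hS := (hP.toSylow).mapSurjective hg
    have hSc : ((hP.toSylow).mapSurjective hg : Subgroup C) = ⊤ := by
      have hcard : Nat.card C = p := by
        rw [hC, Nat.card_zpowers]; exact DihedralGroup.orderOf_r_one
      have hCp : IsPGroup p C := IsPGroup.of_card (n := 1) (by rw [hcard, pow_one])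
      have h1 := ((hP.toSylow).mapSurjective hg).3 (Q := ⊤)
        (hCp.to_subgroup ⊤) le_top
      exact h1.symm
    rw [Sylow.coe_mapSurjective] at hSc
    have h2 : (⟨DihedralGroup.r 1, Subgroup.mem_zpowers _⟩ : C) ∈ (hP.toSylow : Subgroup N).map g := by
      rw [hSc]; trivial
    obtain ⟨v, hv, hv2⟩ := h2
    exact ⟨v, hv, congrArg Subtype.val hv2⟩
  obtain ⟨s, hs⟩ := hf (DihedralGroup.sr 0)
  have hNN : (⊤ : Subgroup K) ≤ Nz N := by
    rw [Nz, Subgroup.normalizer_eq_top_iff.2 hNn]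
  obtain ⟨n, hn, hnP⟩ := frattini_arg hP hNN s trivial
  -- f (n s) is a reflection
  obtain ⟨i, hi⟩ : ∃ i : ZMod p, f (n * s) = DihedralGroup.sr i := by
    obtain ⟨k, hk⟩ := Subgroup.mem_zpowers_iff.1 (show f n ∈ C from hn)
    rw [DihedralGroup.r_one_zpow] at hk
    rw [map_mul, ← hk, hs, DihedralGroup.r_mul_sr]
    exact ⟨_, rfl⟩
  set w := n * s with hw
  obtain ⟨a, b, hab, ⟨k, hk⟩, hb⟩ := exists_pp'_decomp (p := 2) w (isOfFinOrder_of_finite w)
  have hfb : f (w ^ b) = 1 := by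
    rw [map_zpow, hi]
    have h1 : orderOf ((DihedralGroup.sr i : DihedralGroup p) ^ b) ∣ 2 := by
      apply orderOf_dvd_of_pow_eq_one
      rw [← zpow_natCast, ← zpow_mul, mul_comm, zpow_mul]
      have : (DihedralGroup.sr i : DihedralGroup p) ^ ((2 : ℕ) : ℤ) = 1 := by
        rw [zpow_natCast, pow_two]; exact DihedralGroup.sr_mul_self i
      rw [this, one_zpow]
    have h2 : orderOf ((DihedralGroup.sr i : DihedralGroup p) ^ b) ∣ orderOf (w ^ b) := by
      have := orderOf_map_dvd f (w ^ b)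
      rwa [map_zpow, hi] at this
    rw [← orderOf_eq_one_iff]
    exact Nat.eq_one_of_dvd_coprimes hb h2 h1
  have hfa : f (w ^ a) = DihedralGroup.sr i := by
    have h1 : f w = f (w ^ a) * f (w ^ b) := by
      rw [← map_mul]; exact congrArg f hab
    rw [hfb, mul_one, hi] at h1
    exact h1.symm
  refine ⟨w ^ a, P, ⟨k, hk⟩, hP.isPGroup, (Nz P).zpow_mem hnP a, ?_⟩
  intro hcen
  obtain ⟨u, hu, hfu⟩ := himg
  have h1 := (Subgroup.mem_centralizer_iff.1 hcen) u hu
  have h2 := congrArg f h1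
  rw [map_mul, map_mul, hfu, hfa, DihedralGroup.r_mul_sr, DihedralGroup.sr_mul_r] at h2
  have h3 : i - 1 = i + 1 := DihedralGroup.sr.inj h2
  have h4 : ((2 : ℕ) : ZMod p) = 0 := by
    have : (i + 1) - (i - 1) = 0 := by rw [h3]; ring
    push_cast
    rw [← this]; ring
  rw [ZMod.natCast_eq_zero_iff] at h4
  exact hp ((Nat.prime_dvd_prime_iff_eq hpp Nat.prime_two).1 h4)

/-- (a) → (c), with control over the subgroup -/
theorem inverted_of_involves [Finite G] [Fact p.Prime] (hp : p ≠ 2)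
    (h : Involves (DihedralGroup p) G) :
    ∃ x y : G, (∃ k : ℕ, orderOf x = 2 ^ k) ∧ (∃ k : ℕ, orderOf y = p ^ k) ∧ y ≠ 1 ∧
      x * y * x⁻¹ = y⁻¹ := by
  rw [involves_iff] at h
  obtain ⟨K, f, hf⟩ := h
  obtain ⟨x, P, hx, hP, hxN, hxC⟩ := normalizes_of_surj hp f hf
  obtain ⟨x, y, ⟨k, hk⟩, ⟨l, hl⟩, hy, hxy, -⟩ := inverted_of_normalizes hp hx hP hxN hxC
  refine ⟨(x : G), (y : G), ⟨k, ?_⟩, ⟨l, ?_⟩, ?_, ?_⟩
  · rw [← hk]; exact Subgroup.orderOf_coe x
  · rw [← hl]; exact Subgroup.orderOf_coe y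
  · intro h; exact hy (Subtype.ext h)
  · exact congrArg Subtype.val hxy

end Cfsg.Agent.H17.InvDih
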