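import Cfsg.Agent.H18_KS11
import Cfsg.Agent.H1_Subn
import Cfsg.Agent.H24_Sub
import Cfsg.Agent.H11_Cores

/-! Local analysis: subnormal conjugate components (S2945) -/

set_option autoImplicit false
set_option linter.unusedSectionVars false
set_option linter.unusedVariables false
set_option linter.unusedSimpArgs false
set_option linter.style.haveILetI false

namespace Cfsg.Agent.H17.K45

open Subgroup Pointwise
open scoped commutatorElement
open Cfsg.Agent.H13.Syl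
open Cfsg.Agent.H18.CharP
open Cfsg.Agent.H12.ZJ
open Cfsg.Agent.H18.KS

variable {G : Type*} [Group G] [Finite G]
variable {T L K : Subgroup G}

/-- a subnormal subgroup generated by odd elements is normalized by normal 2-subgroups -/
theorem norm_of_sn {H₁ Q : Subgroup G} (hK : oddGen K = K) (hsn : (K.subgroupOf H₁).IsSubnormal) (hK₁ : K ≤ H₁)
    (hQ₁ : Q ≤ H₁) (hQ : IsPGroup 2 ↥Q) (hn : K ≤ normalizer (Q : Set G)) : Q ≤ normalizer (K : Set G) := by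
  haveI : Fact (Nat.Prime 2) := ⟨Nat.prime_two⟩
  have h1 : (K.subgroupOf (K ⊔ Q)).IsSubnormal := H1.Subn.subnormal_subgroupOf_mono hsn (sup_le hK₁ hQ₁)
  -- the index is a power of two
  obtain ⟨n, hn2⟩ : ∃ n, (K.subgroupOf (K ⊔ Q)).index = 2 ^ n := by
    have h2 : K.relIndex (K ⊔ Q) = (K ⊓ Q).relIndex Q := by
      have h3 := H2.Card.card_sup_mul_card_inf hn
      have h4 := H2.Card.card_mul_relIndex (le_sup_left : K ≤ K ⊔ Q)
      have h5 := H2.Card.card_mul_relIndex (inf_le_right : K ⊓ Q ≤ Q)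
      have h6 : 0 < Nat.card K := Nat.card_pos
      have h7 : 0 < Nat.card (K ⊓ Q : Subgroup G) := Nat.card_pos
      apply Nat.eq_of_mul_eq_mul_left (Nat.mul_pos h6 h7)
      calc Nat.card K * Nat.card (K ⊓ Q : Subgroup G) * K.relIndex (K ⊔ Q)
          = (Nat.card K * K.relIndex (K ⊔ Q)) * Nat.card (K ⊓ Q : Subgroup G) := by ring
        _ = Nat.card K * Nat.card Q := by rw [h4, h3]
        _ = Nat.card K * (Nat.card (K ⊓ Q : Subgroup G) * (K ⊓ Q).relIndex Q) := by rw [h5]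
        _ = _ := by ring
    obtain ⟨m, hm⟩ := (IsPGroup.iff_card.mp hQ)
    have h8 : (K ⊓ Q).relIndex Q ∣ 2 ^ m := by
      rw [← hm]
      exact Subgroup.relIndex_dvd_card (K ⊓ Q) Q
    obtain ⟨n, _, hn'⟩ := (Nat.dvd_prime_pow Nat.prime_two).mp h8
    exact ⟨n, by rw [← hn', ← h2]; rfl⟩
  have h2 : oddGen (K ⊔ Q) ≤ K := by
    rw [oddGen, closure_le]
    rintro x ⟨hx, ho⟩
    have h3 := H24.Sub.pow_index_mem_of_subnormal _ h1 ⟨x, hx⟩
    rw [hn2, mem_subgroupOf] at h3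
    exact odd_mem_of_pow h3 ho
  have h3 : oddGen (K ⊔ Q) = K := le_antisymm h2 (hK.ge.trans (oddGen_mono le_sup_left))
  have h4 := (Subgroup.le_normalizer (H := K ⊔ Q)).trans (normalizer_le_normalizer_oddGen (K ⊔ Q))
  rw [h3] at h4
  exact le_sup_right.trans h4

/-- a subnormal 2-subgroup lies in the core -/
theorem le_oP_of_sn {A X : Subgroup G} (hA : IsPGroup 2 ↥A) (hAX : A ≤ X) (hsn : (A.subgroupOf X).IsSubnormal) : A ≤ oP 2 X := by
  have h1 : IsPGroup 2 ↥(A.subgroupOf X) := hA.of_equiv (Subgroup.subgroupOfEquivOfLe hAX).symm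
  have h2 := H11.Cores.le_pCore_of_isSubnormal 2 hsn h1
  intro a ha
  exact ⟨⟨a, hAX ha⟩, h2 ha, rfl⟩

/-- `V_L ≤ J(T)` -/
theorem V_le_J (H : Hyp G) (h : LD T L) : VV L ≤ J T := by
  obtain ⟨A, hA⟩ := exists_MaxEA 2 T
  have h1 := (h.T3 H hA).1
  have hB : EA 2 (A ⊓ CC L : Subgroup G) := EA.mono hA.2.1 inf_le_left
  have h2 : VV L ⊓ centralizer ((A ⊓ CC L : Subgroup G) : Set G) = VV L := by
    apply inf_eq_left.mpr
    intro v hv
    rw [mem_centralizer_iff]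
    intro c hc
    exact ((mem_CC.mp (mem_inf.mp hc).2).2 v hv).symm
  have h3 := sup_cent_EA (A := A) hB (V := VV L) commV' sqV'
  have h4 := card_sup_cent (V := VV L) hB
  rw [h2] at h3 h4
  have h5 : Nat.card (A ⊓ CC L ⊓ VV L : Subgroup G) ≤ Nat.card (VV L ⊓ centralizer (A : Set G) : Subgroup G) := by
    apply Subgroup.card_le_of_le
    intro x hx
    refine mem_inf.mpr ⟨(mem_inf.mp hx).2, mem_centralizer_iff.mpr ?_⟩
    intro a ha
    exact hA.2.1.1 a ha x (mem_inf.mp (mem_inf.mp hx).1).1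
  have h6 : Nat.card A ≤ Nat.card (A ⊓ CC L ⊔ VV L : Subgroup G) := by
    have h7 : 0 < Nat.card (VV L ⊓ centralizer (A : Set G) : Subgroup G) := Nat.card_pos
    apply Nat.le_of_mul_le_mul_right _ h7
    rw [← h1, ← h4]
    exact Nat.mul_le_mul_left _ h5
  have h8 : MaxEA 2 T (A ⊓ CC L ⊔ VV L) :=
    ⟨sup_le (inf_le_left.trans hA.1) h.V_le_T, h3, fun B hB hBe => (hA.2.2 B hB hBe).trans h6⟩
  exact le_sup_right.trans (maxEA_le_J h8)

/-- the odd core of the image -/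
theorem exists_F' (H : Hyp G) (h : LD T L) :
    FD L ((pPrimeCore 2 (φ L).range).map (φ L).range.subtype) := by
  obtain ⟨F, hF⟩ := h.exists_F H
  have hle : F ≤ (pPrimeCore 2 (φ L).range).map (φ L).range.subtype := by
    have hN : (F.subgroupOf (φ L).range).Normal := by
      constructor
      rintro f hf ⟨_, x, rfl⟩
      rw [mem_subgroupOf] at hf ⊢
      exact hF.norm x f hf
    have hc : (Nat.card (F.subgroupOf (φ L).range)).Coprime 2 := by
      rw [H2.Card.card_subgroupOf_of_le hF.le]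
      exact Nat.coprime_two_right.mpr hF.odd
    have h1 := H11.Cores.le_pPrimeCore 2 hc
    intro f hf
    exact ⟨⟨f, hF.le hf⟩, h1 hf, rfl⟩
  refine ⟨?_, map_subtype_le _, ?_, ?_⟩
  · rw [Nat.card_congr ((pPrimeCore 2 (φ L).range).equivMapOfInjective _ (Subgroup.subtype_injective _)).toEquiv.symm]
    exact Nat.coprime_two_right.mp (H11.Cores.pPrimeCore_coprime 2)
  · rintro x _ ⟨f, hf, rfl⟩
    refine ⟨⟨φ L x, ⟨_, rfl⟩⟩ * f * ⟨φ L x, ⟨_, rfl⟩⟩⁻¹, ?_, rfl⟩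
    exact (Cfsg.pPrimeCore_normal 2 _).conj_mem f hf _
  · intro x hx
    exact hle (hF.cent x (fun f hf => hx f (hle hf)))

/-- **S2945** -/
theorem s2945 (H : Hyp G) (hT : IsPGroup 2 ↥T) (h : LD T L) (hKL : K ≤ L)
    (hsn : (K.subgroupOf (K ⊔ J T)).IsSubnormal) (g : G) (hKg : K ∈ jComponentsZero (cj g T)) : IsJComponent T K := by
  haveI : Fact (Nat.Prime 2) := ⟨Nat.prime_two⟩
  suffices hJ : J T ≤ normalizer (wOf K : Set G) by
    have := zero_conj H (isPGroup_cj hT) hKg g⁻¹ (by rw [cj_inv_cj]; exact hJ)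
    rwa [cj_inv_cj] at this
  have jc := hKg.1
  have hgen := JC.gen jc
  set H₁ : Subgroup G := K ⊔ J T with hH₁
  have hTL := h.syl.le
  have hJL : J T ≤ L := (H18.KS.J_le T).trans hTL
  have hH₁L : H₁ ≤ L := sup_le hKL hJL
  set H₀ : Subgroup G := H₁ ⊔ oP 2 L with hH₀
  have hH₀L : H₀ ≤ L := sup_le hH₁L (oP_le L)
  obtain ⟨T₀, hJT₀, hT₀⟩ := exists_isSylIn_ge (J_pgroup hT) (le_sup_right.trans le_sup_left : J T ≤ H₀)
  have hJ₀ : J T₀ = J T := J_between h.syl hT₀.isPGroup (hT₀.le.trans hH₀L) hJT₀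
  have hoL : oP 2 L ≤ oP 2 H₀ := le_oP (oP_isPGroup L) le_sup_right (hH₀L.trans (norm_Q L))
  have hfin : J T ≤ normalizer (K : Set G) → J T ≤ normalizer (wOf K : Set G) := fun h1 => h1.trans (normalizer_le_wOf K)
  by_cases hJ0 : J T ≤ oP 2 H₀
  · apply hfin
    have h1 : J T ≤ oP 2 H₀ ⊓ H₁ := le_inf hJ0 le_sup_right
    refine h1.trans (norm_of_sn hgen hsn le_sup_left inf_le_right ((oP_isPGroup H₀).to_le inf_le_left) ?_)
    intro k hk
    rw [mem_normalizer_iff_cj, cj_inf, cj_eq_of_mem (le_sup_left (a := K) (b := J T) hk),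
      mem_normalizer_iff_cj.mp (norm_Q H₀ ((le_sup_left.trans le_sup_left : K ≤ H₀) hk))]
  have d : LD T₀ H₀ := ⟨hT₀, by rw [hJ₀]; exact hJ0, (Subgroup.centralizer_le hoL).trans (h.cQ.trans hoL)⟩
  -- `V₀`
  have hV₀J : VV H₀ ≤ J T := by rw [← hJ₀]; exact V_le_J H d
  have hKH₀ : K ≤ H₀ := le_sup_left.trans le_sup_left
  have hV₀K : VV H₀ ≤ normalizer (K : Set G) :=
    norm_of_sn hgen hsn le_sup_left (hV₀J.trans le_sup_right) ((J_pgroup hT).to_le hV₀J) (hKH₀.trans (norm_V H₀))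
  -- `O₂(K) ≤ O₂(H₀)`
  have hOK : oP 2 K ≤ oP 2 H₀ := by
    have h1 : oP 2 K ≤ oP 2 H₁ := by
      apply le_oP_of_sn (oP_isPGroup K) ((oP_le K).trans le_sup_left)
      apply H1.Subn.subnormal_subgroupOf_trans (oP_le K) le_sup_left _ hsn
      apply Subgroup.Normal.isSubnormal
      constructor
      intro x hx k
      rw [mem_subgroupOf] at hx ⊢
      exact (mem_normalizer_iff.mp (norm_Q K k.2) _).mp hx
    have h2 : IsPGroup 2 ↥(oP 2 H₁ ⊔ oP 2 L : Subgroup G) :=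
      IsPGroup.to_sup_of_normal_right' (oP_isPGroup _) (oP_isPGroup _) (((oP_le H₁).trans hH₁L).trans (norm_Q L))
    have h3 : H₀ ≤ normalizer ((oP 2 H₁ ⊔ oP 2 L : Subgroup G) : Set G) := by
      apply sup_le
      · intro x hx
        rw [mem_normalizer_iff_cj, cj_sup, mem_normalizer_iff_cj.mp (norm_Q H₁ hx), mem_normalizer_iff_cj.mp (norm_Q L (hH₁L hx))]
      · exact le_sup_right.trans Subgroup.le_normalizer
    exact h1.trans (le_sup_left.trans (le_oP h2 (sup_le_sup_right (oP_le H₁) _) h3))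
  have hVO : ∀ q ∈ oP 2 K, ∀ v ∈ VV H₀, q * v = v * q := fun q hq v hv => (mem_omegaCenterOf.mp hv).2.1 q (hOK hq)
  by_cases hc : K ≤ CC H₀
  · apply hfin
    apply norm_of_sn hgen hsn le_sup_left le_sup_right (J_pgroup hT)
    rw [← hJ₀]
    exact (hc.trans (d.C_norm H)).trans (normalizer_le_NJ T₀)
  obtain ⟨κ, kd⟩ := JC.exists_KD jc
  have hκV : ∀ v ∈ VV H₀, κ * v * κ⁻¹ ∈ VV H₀ := fun v hv => (mem_normalizer_iff.mp (norm_V H₀ (hKH₀ kd.mem)) v).mp hv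
  -- `[v, κ] ∈ Y`
  have hY : ∀ v ∈ VV H₀, κ * v * κ⁻¹ * v⁻¹ ∈ omegaCenterOf (oP 2 K) := by
    intro v hv
    have h1 : κ * v * κ⁻¹ * v⁻¹ ∈ VV H₀ := mul_mem (hκV v hv) (inv_mem hv)
    have h2 : κ * v * κ⁻¹ * v⁻¹ ∈ K := by
      have h3 : v * κ⁻¹ * v⁻¹ ∈ K := (mem_normalizer_iff.mp (hV₀K hv) _).mp (inv_mem kd.mem)
      have := mul_mem kd.mem h3
      simpa only [mul_assoc] using this
    have h3 : K ⊓ VV H₀ ≤ oP 2 K := by
      apply le_oP ((J_pgroup hT).to_le (inf_le_right.trans hV₀J)) inf_le_left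
      intro k hk
      rw [mem_normalizer_iff_cj, cj_inf, cj_eq_of_mem hk, mem_normalizer_iff_cj.mp (norm_V H₀ (hKH₀ hk))]
    exact mem_omegaCenterOf.mpr ⟨h3 (mem_inf.mpr ⟨h2, h1⟩), fun q hq => hVO q hq _ h1, sqV' _ h1⟩
  -- `[v, κ] ∈ W`
  have hW : ∀ v ∈ VV H₀, κ * v * κ⁻¹ * v⁻¹ ∈ wOf K := by
    intro v hv
    have hvv := sqV' v hv
    have hvi : v⁻¹ = v := inv_eq_of_mul_eq_one_left hvv
    set y := κ * v * κ⁻¹ * v⁻¹ with hy
    have hyY := hY v hv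
    have hyY' : κ * y * κ⁻¹ ∈ omegaCenterOf (oP 2 K) := (mem_normalizer_iff.mp (kd.norm_Y kd.mem) y).mp hyY
    -- `[κ y κ⁻¹, κ] = y`
    have h1 : κ * (κ * y * κ⁻¹) * κ⁻¹ * (κ * y * κ⁻¹)⁻¹ = y := by
      set a := κ * v * κ⁻¹ with ha
      set b := κ * a * κ⁻¹ with hb
      have haV := hκV v hv
      have hbV := hκV a haV
      have hb3 : κ * b * κ⁻¹ = v := kd.cube' v
      have e1 : κ * y * κ⁻¹ = b * a⁻¹ := by rw [hy, hb, ha]; group
      have e2 : κ * (κ * y * κ⁻¹) * κ⁻¹ = v * b⁻¹ := by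
        rw [e1]
        calc κ * (b * a⁻¹) * κ⁻¹ = (κ * b * κ⁻¹) * (κ * a * κ⁻¹)⁻¹ := by group
          _ = v * b⁻¹ := by rw [hb3]
      rw [e2, e1]
      have bi : b⁻¹ = b := inv_eq_of_mul_eq_one_left (sqV' b hbV)
      have vb := commV' v hv b hbV
      calc v * b⁻¹ * (b * a⁻¹)⁻¹ = v * b⁻¹ * a * b⁻¹ := by group
        _ = v * (b * a) * b := by rw [bi]; group
        _ = v * (a * b) * b := by rw [commV' b hbV a haV]
        _ = v * a * (b * b) := by group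
        _ = v * a := by rw [sqV' b hbV, mul_one]
        _ = a * v := commV' v hv a haV
        _ = y := by rw [hy, hvi]
    have h2 : ⁅κ, κ * y * κ⁻¹⁆ ∈ wOf K := by
      rw [wOf, Subgroup.commutator_comm]
      exact Subgroup.commutator_mem_commutator kd.mem hyY'
    rw [commutatorElement_def, h1] at h2
    exact h2
  -- `X = [V₀, κ] = W`
  let X : Subgroup G := {
    carrier := {w | ∃ u ∈ VV H₀, w = κ * u * κ⁻¹ * u⁻¹}
    one_mem' := ⟨1, one_mem _, by simp⟩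
    mul_mem' := by
      rintro _ _ ⟨u, hu, rfl⟩ ⟨w, hw, rfl⟩
      refine ⟨u * w, mul_mem hu hw, ?_⟩
      have h1 := commV' _ (inv_mem hu) _ (mul_mem (hκV w hw) (inv_mem hw))
      calc κ * u * κ⁻¹ * u⁻¹ * (κ * w * κ⁻¹ * w⁻¹)
          = κ * u * κ⁻¹ * (u⁻¹ * (κ * w * κ⁻¹ * w⁻¹)) := by group
        _ = κ * u * κ⁻¹ * ((κ * w * κ⁻¹ * w⁻¹) * u⁻¹) := by rw [h1]
        _ = κ * (u * w) * κ⁻¹ * (u * w)⁻¹ := by group
    inv_mem' := by
      rintro _ ⟨u, hu, rfl⟩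
      refine ⟨u⁻¹, inv_mem hu, ?_⟩
      have h1 := commV' _ hu _ (hκV _ (inv_mem hu))
      calc (κ * u * κ⁻¹ * u⁻¹)⁻¹ = u * (κ * u⁻¹ * κ⁻¹) := by group
        _ = κ * u⁻¹ * κ⁻¹ * u := h1
        _ = κ * u⁻¹ * κ⁻¹ * u⁻¹⁻¹ := by rw [inv_inv] }
  have hXW : X ≤ wOf K := by
    rintro _ ⟨u, hu, rfl⟩
    exact hW u hu
  have hXne : X ≠ ⊥ := by
    intro h1
    apply hc
    have hκc : ∀ v ∈ VV H₀, v * κ = κ * v := by
      intro v hv
      have h2 : κ * v * κ⁻¹ * v⁻¹ ∈ X := ⟨v, hv, rfl⟩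
      rw [h1, Subgroup.mem_bot] at h2
      have h3 : κ * v * κ⁻¹ = v := mul_inv_eq_one.mp h2
      exact (mul_inv_eq_iff_eq_mul.mp h3).symm
    rw [← kd.sup]
    apply sup_le
    · intro q hq
      exact mem_CC.mpr ⟨hKH₀ ((oP_le K) hq), fun v hv => (hVO q hq v hv).symm⟩
    · rw [zpowers_le]
      exact mem_CC.mpr ⟨hKH₀ kd.mem, hκc⟩
  have hXeq : X = wOf K := by
    apply kd.irr hXW hXne
    rintro _ ⟨u, hu, rfl⟩
    refine ⟨κ * u * κ⁻¹, hκV u hu, ?_⟩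
    group
  have hWV : wOf K ≤ VV H₀ := by
    rw [← hXeq]
    rintro _ ⟨u, hu, rfl⟩
    exact mul_mem (hκV u hu) (inv_mem hu)
  -- the image of `κ`
  set k : MulAut ↥(VV H₀) := φ H₀ ⟨κ, hKH₀ kd.mem⟩ with hk
  set F := (pPrimeCore 2 (φ H₀).range).map (φ H₀).range.subtype with hF
  have hFD : FD H₀ F := exists_F' H d
  have hkF : k ∈ F := by
    -- the hom `ψ : H₁ → R`
    let ψ : ↥H₁ →* ↥(φ H₀).range := (φ H₀).rangeRestrict.comp (Subgroup.inclusion le_sup_left)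
    have hψ : Function.Surjective ψ := by
      rintro ⟨_, ⟨x, hx⟩, rfl⟩
      have h1 : H₁ ≤ normalizer (oP 2 L : Set G) := hH₁L.trans (norm_Q L)
      obtain ⟨a, ha, b, hb, rfl⟩ := (H2.Card.mem_sup_iff h1).mp hx
      refine ⟨⟨a, ha⟩, ?_⟩
      apply Subtype.ext
      change φ H₀ ⟨a, _⟩ = φ H₀ ⟨a * b, _⟩
      have h2 : (⟨a * b, hx⟩ : ↥H₀) = ⟨a, le_sup_left (a := H₁) ha⟩ * ⟨b, le_sup_right (a := H₁) hb⟩ := rfl
      rw [h2, map_mul]
      have h3 : φ H₀ ⟨b, le_sup_right (a := H₁) hb⟩ = 1 := by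
        rw [φ_eq_one]
        exact Q_le_C H₀ (hoL hb)
      rw [h3, mul_one]
    have h1 : ((K.subgroupOf H₁).map ψ).IsSubnormal := hsn.map hψ
    have h2 : (K.subgroupOf H₁).map ψ ≤ zpowers (ψ ⟨κ, le_sup_left (a := K) kd.mem⟩) := by
      rintro _ ⟨⟨x, hx⟩, hxK, rfl⟩
      have hxK' : x ∈ K := hxK
      have h3 : zpowers κ ≤ normalizer (oP 2 K : Set G) := by
        rw [zpowers_le]; exact norm_Q K kd.mem
      rw [← kd.sup] at hxK'
      obtain ⟨q, hq, z, hz, rfl⟩ := (H2.Card.mem_sup_iff' h3).mp hxK'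
      obtain ⟨n, rfl⟩ := mem_zpowers_iff.mp hz
      have hqK : q ∈ H₁ := le_sup_left (a := K) ((oP_le K) hq)
      refine mem_zpowers_iff.mpr ⟨n, ?_⟩
      apply Subtype.ext
      rw [← map_zpow]
      change φ H₀ ⟨κ ^ n, _⟩ = φ H₀ ⟨q * κ ^ n, _⟩
      have h4 : φ H₀ ⟨q, le_sup_left (a := H₁) hqK⟩ = 1 := by
        rw [φ_eq_one]
        exact Q_le_C H₀ (hOK hq)
      have h5 : (⟨q * κ ^ n, le_sup_left (a := H₁) hx⟩ : ↥H₀) = ⟨q, le_sup_left (a := H₁) hqK⟩ * ⟨κ ^ n, hKH₀ (zpow_mem kd.mem n)⟩ := rfl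
      rw [h5, map_mul, h4, one_mul]
    have h3 : (Nat.card ((K.subgroupOf H₁).map ψ)).Coprime 2 := by
      have h4 : Nat.card ((K.subgroupOf H₁).map ψ) ∣ Nat.card (zpowers (ψ ⟨κ, le_sup_left (a := K) kd.mem⟩)) := Subgroup.card_dvd_of_le h2
      rw [Nat.card_zpowers] at h4
      have h5 : orderOf (ψ ⟨κ, le_sup_left (a := K) kd.mem⟩) ∣ 3 := by
        apply orderOf_dvd_of_pow_eq_one
        rw [← map_pow]
        have : (⟨κ, le_sup_left (a := K) kd.mem⟩ : ↥H₁) ^ 3 = 1 := Subtype.ext kd.cube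
        rw [this, map_one]
      exact Nat.Coprime.coprime_dvd_left (h4.trans h5) (by decide)
    have h4 := H11.Cores.le_pPrimeCore_of_isSubnormal 2 h1 h3
    refine ⟨ψ ⟨κ, le_sup_left (a := K) kd.mem⟩, h4 ⟨⟨κ, le_sup_left (a := K) kd.mem⟩, kd.mem, rfl⟩, rfl⟩
  -- the subgroup `W` of `V₀`
  set W : Subgroup ↥(VV H₀) := (wOf K).subgroupOf (VV H₀) with hWdef
  have hWcard : Nat.card W = 4 := by
    rw [hWdef, H2.Card.card_subgroupOf_of_le hWV]; exact kd.card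
  have hkW : ∀ x : ↥(VV H₀), k x * x ∈ W := by
    intro x
    rw [hWdef, mem_subgroupOf]
    have h1 := hW x x.2
    have h2 : (x : G)⁻¹ = x := inv_eq_of_mul_eq_one_left (sqV' _ x.2)
    rw [h2] at h1
    exact h1
  have hWk : ∀ w ∈ W, ∃ x : ↥(VV H₀), w = k x * x := by
    intro w hw
    rw [hWdef, mem_subgroupOf, ← hXeq] at hw
    obtain ⟨u, hu, hwu⟩ := hw
    refine ⟨⟨u, hu⟩, ?_⟩
    apply Subtype.ext
    have h2 : u⁻¹ = u := inv_eq_of_mul_eq_one_left (sqV' _ hu)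
    rw [hwu]
    conv_lhs => rw [show κ * u * κ⁻¹ * u⁻¹ = κ * u * κ⁻¹ * u by rw [h2]]
    rfl
  let St : Subgroup (MulAut ↥(VV H₀)) := {
    carrier := {f | ∀ x, f x ∈ W ↔ x ∈ W}
    one_mem' := fun x => Iff.rfl
    mul_mem' := by
      intro f g hf hg x
      exact (hf (g x)).trans (hg x)
    inv_mem' := by
      intro f hf x
      have h1 := hf (f⁻¹ x)
      rw [MulAut.apply_inv_self] at h1
      exact h1.symm }
  have hDJ : DJ T₀ H₀ ⊆ St := by
    rintro δ ⟨⟨A, hA, hδ⟩, v, hv⟩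
    obtain ⟨x, hx, rfl⟩ := mem_im.mp hδ
    obtain ⟨n, v1, t⟩ := exists_Tr' hFD hv
    set δ := φ H₀ x with hδdef
    have hδδ : δ * δ = 1 := hv.sq sqV
    have hδδ' : ∀ z, δ (δ z) = z := fun z => congrArg (fun f : MulAut ↥(VV H₀) => f z) hδδ
    have hmap : ∀ w ∈ W, δ w ∈ W := by
      intro w hw
      obtain ⟨u, rfl⟩ := hWk w hw
      rw [map_mul]
      rcases t.T2' sqV hkF hWcard hkW with h1 | h1 | h1
      · have h2 : δ (k u) = k (δ u) := (congrArg (fun f : MulAut ↥(VV H₀) => f u) h1).symm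
        rw [h2]; exact hkW _
      · have h2 : δ (k (δ (δ u))) = k⁻¹ (δ u) := by
          have := congrArg (fun f : MulAut ↥(VV H₀) => f (δ u)) t.dn
          rw [← h1] at this
          exact this
        rw [hδδ'] at h2
        rw [h2]
        have h3 := hkW (k⁻¹ (δ u))
        rw [MulAut.apply_inv_self, mul_comm] at h3
        exact h3
      · have h2 : δ (k (δ (δ u))) = k⁻¹ (δ u) := by
          have h3 : δ * n⁻¹ * δ = n := by
            have h4 := congrArg (·⁻¹) t.dn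
            have hδi : δ⁻¹ = δ := inv_eq_of_mul_eq_one_left hδδ
            simp only [mul_inv_rev, inv_inv, hδi] at h4
            rw [← mul_assoc] at h4
            exact h4
          have := congrArg (fun f : MulAut ↥(VV H₀) => f (δ u)) h3
          rw [← h1] at this
          have h5 : n = k⁻¹ := by rw [h1, inv_inv]
          rw [h5] at this
          exact this
        rw [hδδ'] at h2
        rw [h2]
        have h3 := hkW (k⁻¹ (δ u))
        rw [MulAut.apply_inv_self, mul_comm] at h3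
        exact h3
    intro z
    constructor
    · intro hz
      have := hmap _ hz
      rwa [hδδ'] at this
    · exact hmap z
  have hSt : im H₀ (J T₀) ≤ St := (d.J_le H).trans ((closure_le _).mpr hDJ)
  rw [← hJ₀]
  intro j hj
  have hjH : j ∈ H₀ := hT₀.le (H18.KS.J_le T₀ hj)
  have h1 : φ H₀ ⟨j, hjH⟩ ∈ St := hSt (mem_im.mpr ⟨⟨j, hjH⟩, hj, rfl⟩)
  rw [mem_normalizer_iff_cj]
  apply H2.Card.eq_of_le_of_card_eq _ (card_cj _ _)
  rw [cj_le_iff_forall]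
  intro w hw
  have h2 : (⟨w, hWV hw⟩ : ↥(VV H₀)) ∈ W := hw
  exact (h1 ⟨w, hWV hw⟩).mpr h2

end Cfsg.Agent.H17.K45
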