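import Cfsg.Agent.H18_KS11

/-! Local analysis: the centers `Ω₁(Z(J(T)))`, basic lemmas -/

set_option autoImplicit false
set_option linter.unusedSectionVars false
set_option linter.unusedVariables false
set_option linter.unusedSimpArgs false

namespace Cfsg.Agent.H17.KT

open Subgroup Pointwise
open scoped commutatorElement
open Cfsg.Agent.H13.Syl
open Cfsg.Agent.H18.CharP
open Cfsg.Agent.H12.ZJ
open Cfsg.Agent.H18.KS

variable {G : Type*} [Group G] [Finite G]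
variable {T L K M : Subgroup G}

/-- `C_{Z₀}(K)` -/
def Z1 (T K : Subgroup G) : Subgroup G := omegaCenterOf (J T) ⊓ centralizer (K : Set G)

theorem mem_Z1 {z : G} : z ∈ Z1 T K ↔ z ∈ omegaCenterOf (J T) ∧ ∀ k ∈ K, k * z = z * k := by
  rw [Z1, mem_inf, mem_centralizer_iff]; rfl

theorem Z1_le : Z1 T K ≤ omegaCenterOf (J T) := inf_le_left

theorem sq_oc {X : Subgroup G} {z : G} (hz : z ∈ omegaCenterOf X) : z * z = 1 := (mem_omegaCenterOf.mp hz).2.2

theorem inv_oc {X : Subgroup G} {z : G} (hz : z ∈ omegaCenterOf X) : z⁻¹ = z := inv_eq_of_mul_eq_one_left (sq_oc hz)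

theorem oc_comm {X : Subgroup G} {x y : G} (hx : x ∈ omegaCenterOf X) (hy : y ∈ omegaCenterOf X) : x * y = y * x :=
  (mem_omegaCenterOf.mp hy).2.1 x (omegaCenterOf_le _ hx)

/-- two distinct components commute on `W` -/
theorem LD.cent_W (H : Hyp G) (h : LD T L) (hK : IsJComponent T K) (hKL : K ≤ L) {K' : Subgroup G}
    (hK' : IsJComponent T K') (hKL' : K' ≤ L) (hne : K ≠ K') : ∀ x ∈ K', ∀ w ∈ wOf K, x * w = w * x := by
  obtain ⟨F, hF⟩ := h.exists_F H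
  obtain ⟨d, n, v, v1, c⟩ := h.exists_CD H hF hK hKL
  obtain ⟨d', n', w, w1, c'⟩ := h.exists_CD H hF hK' hKL'
  have h1 : zpowers n ≠ zpowers n' := by
    intro he
    apply hne
    apply le_antisymm
    · exact h.eq_of_im H hK' hKL' hK hKL (by rw [c.im, c'.im, he])
    · exact h.eq_of_im H hK hKL hK' hKL' (by rw [c.im, c'.im, he])
  obtain ⟨_, h2, h3⟩ := c.trivial_of_ne c' h1
  intro x hx u hu
  rw [c.W_eq H h hK hKL] at hu
  obtain ⟨u, hu, rfl⟩ := hu
  have h4 : n' u = u := by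
    rcases hu with rfl | rfl | rfl | rfl
    · exact map_one _
    · exact h2
    · exact h3
    · rw [map_mul, h2, h3]
  have h5 : φ L ⟨x, hKL' hx⟩ ∈ zpowers n' := by
    rw [← c'.im]; exact mem_im.mpr ⟨⟨x, hKL' hx⟩, hx, rfl⟩
  have h6 : zpowers n' ≤ MulAction.stabilizer (MulAut ↥(VV L)) u := by
    rw [zpowers_le]; exact h4
  have h7 : φ L ⟨x, hKL' hx⟩ u = u := h6 h5
  have h8 := congrArg Subtype.val h7
  rw [φ_apply] at h8
  have h9 : x * (u : G) * x⁻¹ = u := h8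
  exact mul_inv_eq_iff_eq_mul.mp h9

theorem LD.W_le_V (H : Hyp G) (h : LD T L) (hK : IsJComponent T K) (hKL : K ≤ L) : wOf K ≤ VV L := by
  obtain ⟨F, hF⟩ := h.exists_F H
  obtain ⟨d, n, v, v1, c⟩ := h.exists_CD H hF hK hKL
  rw [c.W_eq H h hK hKL]
  exact map_subtype_le _

theorem LD.inf_oP (H : Hyp G) (h : LD T L) (hK : IsJComponent T K) (hKL : K ≤ L) : K ⊓ oP 2 L = oP 2 K := by
  obtain ⟨F, hF⟩ := h.exists_F H
  obtain ⟨d, n, v, v1, c⟩ := h.exists_CD H hF hK hKL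
  exact c.inf_Q H h hKL

/-- `K` acts fixed-point-freely on `W_K` -/
theorem comp_fix (hK : IsJComponent T K) {x : G} (hx : x ∈ wOf K) (hc : ∀ k ∈ K, k * x = x * k) : x = 1 := by
  obtain ⟨κ, c⟩ := JC.exists_KD hK
  apply c.fix x hx
  rw [hc κ c.mem, mul_inv_cancel_right]

theorem Z1_inf_W (hK : IsJComponent T K) : Z1 T K ⊓ wOf K = ⊥ := by
  rw [Subgroup.eq_bot_iff_forall]
  rintro x ⟨hx, hxW⟩
  exact comp_fix hK hxW (mem_Z1.mp hx).2

/-- decomposition of `Z₀` -/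
theorem Z0_dec (hT : IsPGroup 2 ↥T) (hK : IsJComponent T K) {z : G} (hz : z ∈ omegaCenterOf (J T)) :
    ∃ e ∈ Z1 T K, ∃ w ∈ omegaCenterOf (J T) ⊓ wOf K, z = e * w := by
  obtain ⟨κ, c⟩ := JC.exists_KD hK
  obtain ⟨_, _, h3⟩ := s2946 hK c hT
  obtain ⟨e, he, w, hw, hwW, hzw, hc⟩ := h3 z hz
  exact ⟨e, mem_Z1.mpr ⟨he, fun k hk => (hc k (mem_sup_left hk))⟩, w, ⟨hw, hwW⟩, hzw⟩

theorem card_Z0_W (hT : IsPGroup 2 ↥T) (hK : IsJComponent T K) :
    Nat.card (omegaCenterOf (J T) ⊓ wOf K : Subgroup G) = 2 := by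
  obtain ⟨κ, c⟩ := JC.exists_KD hK
  exact (s2946 hK c hT).1

theorem W_le_J (hT : IsPGroup 2 ↥T) (hK : IsJComponent T K) : wOf K ≤ J T := by
  obtain ⟨κ, c⟩ := JC.exists_KD hK
  exact (s2946 hK c hT).2.1

theorem card_Z0 (hT : IsPGroup 2 ↥T) (hK : IsJComponent T K) :
    Nat.card (omegaCenterOf (J T)) = Nat.card (Z1 T K) * 2 := by
  have h1 : Z1 T K ≤ normalizer ((omegaCenterOf (J T) ⊓ wOf K : Subgroup G) : Set G) := by
    refine le_trans ?_ (Subgroup.centralizer_le_normalizer _)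
    intro x hx
    rw [mem_centralizer_iff]
    intro y hy
    exact oc_comm (mem_inf.mp hy).1 (Z1_le hx)
  have h2 := H2.Card.card_sup_mul_card_inf h1
  have h3 : Z1 T K ⊓ (omegaCenterOf (J T) ⊓ wOf K) = ⊥ := by
    rw [eq_bot_iff, ← Z1_inf_W hK]
    exact inf_le_inf le_rfl inf_le_right
  have h4 : Z1 T K ⊔ (omegaCenterOf (J T) ⊓ wOf K) = omegaCenterOf (J T) := by
    apply le_antisymm (sup_le Z1_le inf_le_left)
    intro z hz
    obtain ⟨e, he, w, hw, rfl⟩ := Z0_dec hT hK hz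
    exact mul_mem (mem_sup_left he) (mem_sup_right hw)
  rw [h3, h4, card_Z0_W hT hK, Subgroup.card_bot, mul_one] at h2
  exact h2

/-- an involution generating `Z₀ ∩ W_K` -/
theorem exists_zK (hT : IsPGroup 2 ↥T) (hK : IsJComponent T K) :
    ∃ z ∈ omegaCenterOf (J T) ⊓ wOf K, z ≠ 1 ∧ ∀ x ∈ omegaCenterOf (J T) ⊓ wOf K, x = 1 ∨ x = z := by
  have h1 := card_Z0_W hT hK
  obtain ⟨a, b, hab, hall⟩ := Nat.card_eq_two_iff.mp h1
  have hone : (1 : ↥(omegaCenterOf (J T) ⊓ wOf K : Subgroup G)) ∈ ({a, b} : Set _) := by rw [hall]; trivial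
  have key : ∀ a b : ↥(omegaCenterOf (J T) ⊓ wOf K : Subgroup G), a ≠ b → ({a, b} : Set _) = Set.univ → a = 1 →
      ∃ z ∈ omegaCenterOf (J T) ⊓ wOf K, z ≠ 1 ∧ ∀ x ∈ omegaCenterOf (J T) ⊓ wOf K, x = 1 ∨ x = z := by
    intro a b hab hall ha
    refine ⟨b, b.2, fun h => hab (by rw [ha]; exact (Subtype.ext h).symm), fun x hx => ?_⟩
    have hx' : (⟨x, hx⟩ : ↥(omegaCenterOf (J T) ⊓ wOf K : Subgroup G)) ∈ ({a, b} : Set _) := by rw [hall]; trivial
    rcases hx' with h | h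
    · left; rw [ha] at h; exact congrArg Subtype.val h
    · right; exact congrArg Subtype.val h
  rcases hone with h | h
  · exact key a b hab hall h.symm
  · exact key b a hab.symm (by rw [Set.pair_comm]; exact hall) h.symm

/-- order of a set product with trivial intersection -/
theorem card_mul_le {A B X : Subgroup G} (hA : A ≤ X) (hB : B ≤ X) (h : A ⊓ B = ⊥) :
    Nat.card A * Nat.card B ≤ Nat.card X := by
  have hinj : Function.Injective (fun ab : A × B => (⟨ab.1 * ab.2, X.mul_mem (hA ab.1.2) (hB ab.2.2)⟩ : X)) := by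
    rintro ⟨a, b⟩ ⟨c, d⟩ h1
    have h2 : (a : G) * b = c * d := congrArg Subtype.val h1
    have h3 : (c : G)⁻¹ * a = d * (b : G)⁻¹ := by
      rw [eq_mul_inv_iff_mul_eq, mul_assoc, h2]; group
    have h4 : (c : G)⁻¹ * a ∈ A ⊓ B := by
      refine ⟨A.mul_mem (A.inv_mem c.2) a.2, ?_⟩
      rw [h3]; exact B.mul_mem d.2 (B.inv_mem b.2)
    rw [h, mem_bot] at h4
    have h5 : (c : G) = a := by rw [← mul_one (c : G), ← h4]; group
    rw [h4, eq_comm, mul_inv_eq_one] at h3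
    exact Prod.ext (Subtype.ext h5.symm) (Subtype.ext h3.symm)
  have := Nat.card_le_card_of_injective _ hinj
  rwa [Nat.card_prod] at this

theorem order_two {A : Subgroup G} (hA : Nat.card A = 2) {x y : G} (hx : x ∈ A) (hy : y ∈ A) (hx1 : x ≠ 1)
    (hy1 : y ≠ 1) : x = y := by
  obtain ⟨a, b, hab, hall⟩ := Nat.card_eq_two_iff.mp hA
  have h1 : (1 : ↥A) ∈ ({a, b} : Set _) := by rw [hall]; trivial
  have h2 : (⟨x, hx⟩ : ↥A) ∈ ({a, b} : Set _) := by rw [hall]; trivial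
  have h3 : (⟨y, hy⟩ : ↥A) ∈ ({a, b} : Set _) := by rw [hall]; trivial
  have e2 : (⟨x, hx⟩ : ↥A) ≠ 1 := fun h => hx1 (congrArg Subtype.val h)
  have e3 : (⟨y, hy⟩ : ↥A) ≠ 1 := fun h => hy1 (congrArg Subtype.val h)
  have : (⟨x, hx⟩ : ↥A) = ⟨y, hy⟩ := by
    rcases h1 with h1 | h1 <;> rcases h2 with h2 | h2 <;> rcases h3 with h3 | h3 <;>
      first
        | exact h2.trans h3.symm
        | exact absurd (h2.trans h1.symm) e2
        | exact absurd (h3.trans h1.symm) e3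
  exact congrArg Subtype.val this

/-- `Ω₁(Z(T)) ≤ Ω₁(Z(J(T)))` -/
theorem oc_le_ocJ : omegaCenterOf T ≤ omegaCenterOf (J T) := by
  obtain ⟨A, hA⟩ := exists_MaxEA 2 T
  have hcomm : ∀ z ∈ omegaCenterOf T, ∀ a ∈ T, z * a = a * z := fun z hz a ha => ((mem_omegaCenterOf.mp hz).2.1 a ha).symm
  have h1 : EA 2 (A ⊔ omegaCenterOf T : Subgroup G) := by
    have h3 := sup_cent_EA (A := A) (B := A) (V := omegaCenterOf T) hA.2.1 (fun v hv w hw => oc_comm hv hw) (fun v hv => sq_oc hv)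
    have h4 : omegaCenterOf T ⊓ centralizer (A : Set G) = omegaCenterOf T := by
      apply inf_eq_left.mpr
      intro z hz
      rw [mem_centralizer_iff]
      intro a ha
      exact (hcomm z hz a (hA.1 ha)).symm
    rwa [h4] at h3
  have h2 := hA.2.2 _ (sup_le hA.1 (omegaCenterOf_le _)) h1
  have h3 : A = A ⊔ omegaCenterOf T := H2.Card.eq_of_le_of_card_eq le_sup_left (le_antisymm (Subgroup.card_le_of_le le_sup_left) h2)
  intro z hz
  have hzJ : z ∈ J T := maxEA_le_J hA (by rw [h3]; exact mem_sup_right hz)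
  exact mem_omegaCenterOf.mpr ⟨hzJ, fun y hy => (mem_omegaCenterOf.mp hz).2.1 y (H18.KS.J_le T hy), sq_oc hz⟩

end Cfsg.Agent.H17.KT
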