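import Cfsg.Agent.H17_KT1

/-! Local analysis: Lemma U -/

set_option autoImplicit false
set_option linter.unusedSectionVars false
set_option linter.unusedVariables false
set_option linter.unusedSimpArgs false

namespace Cfsg.Agent.H17.KT

open Subgroup Pointwise
open scoped commutatorElement
open Cfsg.Agent.H13.Syl
open Cfsg.Agent.H18.CharP
open Cfsg.Agent.H12.ZJ
open Cfsg.Agent.H18.KS

variable {G : Type*} [Group G] [Finite G]
variable {T L K M : Subgroup G}

/-- the working context -/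
structure Cx (M T K L : Subgroup G) : Prop where
  H : Hyp G
  T2 : IsPGroup 2 ↥T
  T1 : T ≠ ⊥
  TM : T ≤ M
  NJ : normalizer (J T : Set G) ≤ M
  zero : ∀ K', IsJComponent T K' → ¬ K' ≤ M → K' ∈ jComponentsZero T
  uniq : ∀ K' L₁ L₂ : Subgroup G, IsJComponent T K' → ¬ K' ≤ M → IsMaximalTwoLocal L₁ → IsMaximalTwoLocal L₂ →
    K' ⊔ J T ≤ L₁ → K' ⊔ J T ≤ L₂ → L₂ = L₁
  jc : IsJComponent T K
  nM : ¬ K ≤ M
  mx : IsMaximalTwoLocal L
  le : K ≤ L
  ld : LD T L

/-- a component of `L` outside `M` -/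
structure Co (M T L K : Subgroup G) : Prop where
  jc : IsJComponent T K
  nM : ¬ K ≤ M
  le : K ≤ L

theorem NL_le (H : Hyp G) (hL : IsMaximalTwoLocal L) : normalizer (L : Set G) ≤ L := by
  obtain ⟨hL1, hL2⟩ := hL
  have h1 : oP 2 L ≠ ⊥ := twoLocal_sup_ne H hL1
  have h2 := hL2 (normalizer (oP 2 L : Set G)) ⟨_, oP_isPGroup _, h1, rfl⟩ (norm_Q L)
  intro g hg
  rw [← h2, mem_normalizer_iff_cj, ← oP_cj, mem_normalizer_iff_cj.mp hg]

theorem maximalTwoLocal_cj (hL : IsMaximalTwoLocal L) (g : G) : IsMaximalTwoLocal (cj g L) := by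
  have key : ∀ (N : Subgroup G) (g : G), IsTwoLocal N → IsTwoLocal (cj g N) := by
    rintro _ g ⟨P, hP, hP1, rfl⟩
    exact ⟨cj g P, isPGroup_cj hP, fun h => hP1 (cj_eq_bot_iff.mp h), cj_normalizer g P⟩
  refine ⟨key L g hL.1, fun N hN hLN => ?_⟩
  have h1 := hL.2 (cj g⁻¹ N) (key N g⁻¹ hN) (cj_le_iff.mp hLN)
  rw [← h1, cj_cj_inv]

theorem cent_twoLocal {z : G} (hz : z * z = 1) (hz1 : z ≠ 1) :
    IsTwoLocal (normalizer (zpowers z : Set G)) ∧ centralizer ({z} : Set G) ≤ normalizer (zpowers z : Set G) := by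
  constructor
  · refine ⟨zpowers z, ?_, ?_, rfl⟩
    · apply IsPGroup.of_card (n := 1)
      rw [Nat.card_zpowers, pow_one]
      apply orderOf_eq_prime (by rw [pow_two]; exact hz) hz1
    · rw [Ne, zpowers_eq_bot]; exact hz1
  · refine le_trans ?_ (Subgroup.centralizer_le_normalizer _)
    rw [Subgroup.zpowers_eq_closure, Subgroup.centralizer_closure]

namespace Cx

variable (h : Cx M T K L)
include h

theorem co : Co M T L K := ⟨h.jc, h.nM, h.le⟩

theorem JL : J T ≤ L := (H18.KS.J_le T).trans h.ld.syl.le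

theorem le_of_local {N K' : Subgroup G} (hN : IsTwoLocal N) (c : Co M T L K') (h1 : K' ≤ N) (h2 : J T ≤ N) : N ≤ L := by
  obtain ⟨L', hL', hNL'⟩ := exists_maximal_twoLocal hN
  have := h.uniq K' L L' c.jc c.nM h.mx hL' (sup_le c.le h.JL) ((sup_le h1 h2).trans hNL')
  rw [← this]; exact hNL'

theorem cent_le {K' : Subgroup G} (c : Co M T L K') {z : G} (hz : z ∈ Z1 T K') (hz1 : z ≠ 1) :
    centralizer ({z} : Set G) ≤ L := by
  obtain ⟨h1, h2⟩ := mem_Z1.mp hz
  obtain ⟨h3, h4⟩ := cent_twoLocal (sq_oc h1) hz1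
  refine h4.trans (h.le_of_local h3 c ?_ ?_)
  · refine le_trans ?_ h4
    intro k hk
    rw [mem_centralizer_singleton_iff]
    exact h2 k hk
  · refine le_trans ?_ h4
    intro k hk
    rw [mem_centralizer_singleton_iff]
    exact (mem_omegaCenterOf.mp h1).2.1 k hk

theorem co_cj {K' : Subgroup G} (c : Co M T L K') {g : G} (hg : g ∈ normalizer (J T : Set G)) (hgL : g ∈ L) : Co M T L (cj g K') := by
  refine ⟨JC.conj_of_norm c.jc hg, ?_, ?_⟩
  · intro h1
    apply c.nM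
    rw [cj_le_iff, cj_eq_of_mem (inv_mem (h.NJ hg))] at h1
    exact h1
  · rw [cj_le_iff, cj_eq_of_mem (inv_mem hgL)]
    exact c.le

theorem cj_Z0 {g : G} (hg : g ∈ normalizer (J T : Set G)) : cj g (omegaCenterOf (J T)) = omegaCenterOf (J T) := by
  rw [← omegaCenterOf_cj, cj_eq_of_mem_normalizer hg]

theorem cj_Z1 {K' : Subgroup G} {g : G} (hg : g ∈ normalizer (J T : Set G)) : cj g (Z1 T K') = Z1 T (cj g K') := by
  rw [Z1, Z1, cj_inf, h.cj_Z0 hg, cj_centralizer]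

/-- **Lemma U** -/
theorem lemU {g : G} (hg : g ∈ normalizer (J T : Set G)) (hgL : g ∉ L) {K' K'' : Subgroup G} (c : Co M T L K')
    (c' : Co M T L K'') : Z1 T K' ⊓ cj g (Z1 T K'') = ⊥ := by
  rw [Subgroup.eq_bot_iff_forall]
  rintro z ⟨hz, hz'⟩
  by_contra hz1
  apply hgL
  have h1 := h.cent_le c hz hz1
  rw [h.cj_Z1 hg] at hz'
  have h2 : cj g K'' ≤ L := by
    refine le_trans ?_ h1
    intro k hk
    rw [mem_centralizer_singleton_iff]
    exact (mem_Z1.mp hz').2 k hk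
  have h3 : ¬ cj g K'' ≤ M := by
    intro h4
    apply c'.nM
    rw [cj_le_iff, cj_eq_of_mem (inv_mem (h.NJ hg))] at h4
    exact h4
  have h5 := h.uniq (cj g K'') L (cj g L) (JC.conj_of_norm c'.jc hg) h3 h.mx (maximalTwoLocal_cj h.mx g)
    (sup_le h2 h.JL) (sup_le (cj_mono c'.le) (by
      have := cj_mono (g := g) h.JL
      rwa [cj_eq_of_mem_normalizer hg] at this))
  exact NL_le h.H h.mx (mem_normalizer_iff_cj.mpr h5)

/-- numerical consequence -/
theorem four_of {A : Subgroup G} (hA : A ≤ omegaCenterOf (J T)) (hAc : Nat.card (omegaCenterOf (J T)) ≤ Nat.card A * 2)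
    (h1 : Z1 T K ⊓ A = ⊥) : Nat.card (omegaCenterOf (J T)) ≤ 4 := by
  have h2 := card_mul_le (Z1_le (T := T) (K := K)) hA h1
  have h3 := card_Z0 h.T2 h.jc
  have h4 : 0 < Nat.card (Z1 T K) := Nat.card_pos
  nlinarith

end Cx

end Cfsg.Agent.H17.KT
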