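import Cfsg.Agent.H17_KT2

/-! Local analysis: Lemma A -/

set_option autoImplicit false
set_option linter.unusedSectionVars false
set_option linter.unusedVariables false
set_option linter.unusedSimpArgs false

namespace Cfsg.Agent.H17.KT

open Subgroup Pointwise
open scoped commutatorElement
open Cfsg.Agent.H13.Syl
open Cfsg.Agent.H18.CharP
open Cfsg.Agent.H12.ZJ
open Cfsg.Agent.H18.KS

variable {G : Type*} [Group G] [Finite G]
variable {T L K M : Subgroup G}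

theorem ne_bot_of_mem {A : Subgroup G} {x : G} (hx : x ∈ A) (h : x ≠ 1) : A ≠ ⊥ := by
  rintro rfl
  exact h (Subgroup.mem_bot.mp hx)

theorem one_lt_card_of_mem {A : Subgroup G} {x : G} (hx : x ∈ A) (h : x ≠ 1) : 2 ≤ Nat.card A := by
  by_contra h1
  have h2 : Nat.card A = 1 := by
    have : 0 < Nat.card A := Nat.card_pos
    omega
  rw [Subgroup.card_eq_one] at h2
  exact ne_bot_of_mem hx h h2

/-- elements normalizing a group of order at most two centralize it -/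
theorem comm_of_card_two {A : Subgroup G} (hA : Nat.card A ≤ 2) {x a : G} (hx : x ∈ normalizer (A : Set G)) (ha : a ∈ A) :
    x * a = a * x := by
  by_cases h1 : a = 1
  · rw [h1, mul_one, one_mul]
  · have h2 : Nat.card A = 2 := le_antisymm hA (one_lt_card_of_mem ha h1)
    have h3 : x * a * x⁻¹ ∈ A := (mem_normalizer_iff.mp hx a).mp ha
    have h4 : x * a * x⁻¹ ≠ 1 := by
      intro h
      apply h1
      have : a = x⁻¹ * (x * a * x⁻¹) * x := by group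
      rw [this, h]; group
    exact mul_inv_eq_iff_eq_mul.mp (order_two h2 h3 ha h4 h1)

/-- the elements of a four-group -/
theorem four_cases {A : Subgroup G} (hA : Nat.card A ≤ 4) {a b : G} (ha : a ∈ A) (hb : b ∈ A) (ha1 : a ≠ 1) (hb1 : b ≠ 1)
    (hab : a ≠ b) (hsa : a * a = 1) : ∀ x ∈ A, x = 1 ∨ x = a ∨ x = b ∨ x = a * b := by
  intro x hx
  by_contra hno
  push Not at hno
  obtain ⟨h1, h2, h3, h4⟩ := hno
  have e1 : a * b ≠ 1 := by
    intro h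
    apply hab
    calc a = a * (a * b) := by rw [h, mul_one]
      _ = b := by rw [← mul_assoc, hsa, one_mul]
  have e2 : a * b ≠ a := by
    intro h; apply hb1
    exact mul_eq_left.mp h
  have e3 : a * b ≠ b := by
    intro h; apply ha1
    exact mul_eq_right.mp h
  classical
  have h5 : Function.Injective (fun i : Fin 5 => (![⟨1, one_mem _⟩, ⟨a, ha⟩, ⟨b, hb⟩, ⟨a * b, mul_mem ha hb⟩, ⟨x, hx⟩] : Fin 5 → ↥A) i) := by
    intro i j hij
    fin_cases i <;> fin_cases j <;> simp_all [Subtype.ext_iff, eq_comm]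
  have h6 := Nat.card_le_card_of_injective _ h5
  rw [Nat.card_eq_fintype_card, Fintype.card_fin] at h6
  omega

theorem pair_of (H : Hyp G) (hT : IsPGroup 2 ↥T) (hld : LD T L) {K₁ K₂ : Subgroup G} (c₁ : Co M T L K₁) (c₂ : Co M T L K₂)
    (hne : K₁ ≠ K₂) (h4 : Nat.card (omegaCenterOf (J T)) ≤ 4) :
    ∃ z₁ z₂ : G, z₁ ≠ 1 ∧ z₂ ≠ 1 ∧ z₁ ≠ z₂ ∧ z₁ ∈ Z1 T K₂ ∧ z₂ ∈ Z1 T K₁ ∧
      Nat.card (omegaCenterOf (J T)) = 4 ∧ Nat.card (Z1 T K₁) = 2 ∧ Nat.card (Z1 T K₂) = 2 ∧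
      ∀ x ∈ omegaCenterOf (J T), x = 1 ∨ x = z₁ ∨ x = z₂ ∨ x = z₁ * z₂ := by
  obtain ⟨z₁, hz₁, hz₁1, _⟩ := exists_zK hT c₁.jc
  obtain ⟨z₂, hz₂, hz₂1, _⟩ := exists_zK hT c₂.jc
  obtain ⟨a1, a2⟩ := hz₁
  obtain ⟨b1, b2⟩ := hz₂
  have e1 : z₁ ∈ Z1 T K₂ := mem_Z1.mpr ⟨a1, fun k hk => LD.cent_W H hld c₁.jc c₁.le c₂.jc c₂.le hne k hk z₁ a2⟩
  have e2 : z₂ ∈ Z1 T K₁ := mem_Z1.mpr ⟨b1, fun k hk => LD.cent_W H hld c₂.jc c₂.le c₁.jc c₁.le hne.symm k hk z₂ b2⟩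
  have hne' : z₁ ≠ z₂ := by
    rintro rfl
    apply hne
    exact hld.uniq H c₁.jc c₁.le c₂.jc c₂.le (ne_bot_of_mem ⟨a2, b2⟩ hz₁1)
  have n1 := card_Z0 hT c₁.jc
  have n2 := card_Z0 hT c₂.jc
  have n3 := one_lt_card_of_mem e2 hz₂1
  have n4 := one_lt_card_of_mem e1 hz₁1
  exact ⟨z₁, z₂, hz₁1, hz₂1, hne', e1, e2, by omega, by omega, by omega, four_cases h4 a1 b1 hz₁1 hz₂1 hne' (sq_oc a1)⟩

theorem conj_ne_one {x g : G} (h : x ≠ 1) : g * x * g⁻¹ ≠ 1 := by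
  intro h1; apply h
  have : x = g⁻¹ * (g * x * g⁻¹) * g := by group
  rw [this, h1]; group

namespace Cx

variable (h : Cx M T K L)
include h

theorem card_le_four_of {g : G} (hg : g ∈ normalizer (J T : Set G)) (hgL : g ∉ L) :
    Nat.card (omegaCenterOf (J T)) ≤ 4 := by
  have h1 := h.lemU hg hgL h.co h.co
  apply h.four_of (A := cj g (Z1 T K)) _ _ h1
  · have := cj_mono (g := g) (Z1_le (T := T) (K := K))
    rwa [h.cj_Z0 hg] at this
  · rw [card_cj, card_Z0 h.T2 h.jc]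

theorem single {g : G} (hg : g ∈ normalizer (J T : Set G)) (hgL : g ∉ L) {K₁ K₂ : Subgroup G} (c₁ : Co M T L K₁)
    (c₂ : Co M T L K₂) : K₁ = K₂ := by
  by_contra hne
  obtain ⟨z₁, z₂, n1, n2, n3, e1, e2, _, _, _, hall⟩ := pair_of h.H h.T2 h.ld c₁ c₂ hne (h.card_le_four_of hg hgL)
  have key : ∀ (K' : Subgroup G) (z : G), Co M T L K' → z ∈ Z1 T K' → z ≠ 1 → g * z * g⁻¹ = z₁ * z₂ := by
    intro K' z c hz hz1
    have hm : g * z * g⁻¹ ∈ cj g (Z1 T K') := conj_mem_cj hz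
    have hz0 : g * z * g⁻¹ ∈ omegaCenterOf (J T) := by
      have := cj_mono (g := g) (Z1_le (T := T) (K := K')) hm
      rwa [h.cj_Z0 hg] at this
    have hn1 : g * z * g⁻¹ ≠ 1 := conj_ne_one hz1
    rcases hall _ hz0 with h1 | h1 | h1 | h1
    · exact absurd h1 hn1
    · exfalso
      have h2 := h.lemU hg hgL c₂ c
      exact ne_bot_of_mem (Subgroup.mem_inf.mpr ⟨(by rw [h1]; exact e1 : g * z * g⁻¹ ∈ Z1 T K₂), hm⟩) hn1 h2
    · exfalso
      have h2 := h.lemU hg hgL c₁ c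
      exact ne_bot_of_mem (Subgroup.mem_inf.mpr ⟨(by rw [h1]; exact e2 : g * z * g⁻¹ ∈ Z1 T K₁), hm⟩) hn1 h2
    · exact h1
  have h1 := key K₂ z₁ c₂ e1 n1
  have h2 := key K₁ z₂ c₁ e2 n2
  apply n3
  have h3 : g * z₁ * g⁻¹ = g * z₂ * g⁻¹ := h1.trans h2.symm
  exact mul_left_cancel (mul_right_cancel h3)

theorem cent_of_norm (h4 : Nat.card (omegaCenterOf (J T)) ≤ 4) {x : G} (hx : x ∈ normalizer (J T : Set G))
    (hxK : x ∈ normalizer (K : Set G)) : ∀ z ∈ omegaCenterOf (J T), x * z = z * x := by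
  intro z hz
  obtain ⟨e, he, w, hw, rfl⟩ := Z0_dec h.T2 h.jc hz
  have h1 : x ∈ normalizer (Z1 T K : Set G) := by
    rw [mem_normalizer_iff_cj, h.cj_Z1 hx, cj_eq_of_mem_normalizer hxK]
  have h2 : x ∈ normalizer ((omegaCenterOf (J T) ⊓ wOf K : Subgroup G) : Set G) := by
    rw [mem_normalizer_iff_cj, cj_inf, h.cj_Z0 hx, cj_eq_of_mem_normalizer (normalizer_le_wOf K hxK)]
  have n1 := card_Z0 h.T2 h.jc
  have h3 := comm_of_card_two (by omega) h1 he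
  have h5 := comm_of_card_two (by rw [card_Z0_W h.T2 h.jc]) h2 hw
  rw [← mul_assoc, h3, mul_assoc, h5, mul_assoc]

theorem oc_eq (h4 : Nat.card (omegaCenterOf (J T)) ≤ 4) (hT : T ≤ normalizer (K : Set G)) :
    omegaCenterOf T = omegaCenterOf (J T) := by
  apply le_antisymm oc_le_ocJ
  intro z hz
  refine mem_omegaCenterOf.mpr ⟨H18.KS.J_le T (omegaCenterOf_le _ hz), fun y hy => ?_, sq_oc hz⟩
  exact h.cent_of_norm h4 (LD.T_le_NJ T hy) (hT hy) z hz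

/-- **Lemma A** -/
theorem lemA {g : G} (hg : g ∈ normalizer (J T : Set G)) (hgL : g ∉ L) :
    Nat.card (omegaCenterOf (J T)) ≤ 4 ∧ T ≤ normalizer (K : Set G) ∧ omegaCenterOf T = omegaCenterOf (J T) := by
  have h4 := h.card_le_four_of hg hgL
  have hT : T ≤ normalizer (K : Set G) := by
    intro t ht
    rw [mem_normalizer_iff_cj]
    exact h.single hg hgL (h.co_cj h.co (LD.T_le_NJ T ht) (h.ld.syl.le ht)) h.co
  exact ⟨h4, hT, h.oc_eq h4 hT⟩

end Cx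

end Cfsg.Agent.H17.KT
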