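import Cfsg.Agent.H17_KT3

/-! Local analysis: the case `T < S` -/

set_option autoImplicit false
set_option linter.unusedSectionVars false
set_option linter.unusedVariables false
set_option linter.unusedSimpArgs false
set_option linter.style.haveILetI false

namespace Cfsg.Agent.H17.KT

open Subgroup Pointwise
open scoped commutatorElement
open Cfsg.Agent.H13.Syl
open Cfsg.Agent.H18.CharP
open Cfsg.Agent.H12.ZJ
open Cfsg.Agent.H18.KS

variable {G : Type*} [Group G] [Finite G]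
variable {T L K M S : Subgroup G}

theorem exists_sq_norm (hS : IsPGroup 2 ↥S) (hlt : T < S) : ∃ g ∈ S, g ∈ normalizer (T : Set G) ∧ g ∉ T ∧ g * g ∈ T := by
  have h1 := lt_normalizer_of_lt hS hlt
  obtain ⟨x, hx, hxT⟩ := SetLike.exists_of_lt h1
  obtain ⟨hxS, hxN⟩ := mem_inf.mp hx
  obtain ⟨k, hk⟩ := hS ⟨x, hxS⟩
  have hk' : x ^ 2 ^ k = 1 := congrArg Subtype.val hk
  classical
  have hex : ∃ k, x ^ 2 ^ k ∈ T := ⟨k, by rw [hk']; exact one_mem _⟩
  obtain ⟨m, hm, hmin⟩ := Nat.findX hex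
  cases m with
  | zero => rw [pow_zero, pow_one] at hm; exact absurd hm hxT
  | succ m =>
    refine ⟨x ^ 2 ^ m, pow_mem hxS _, pow_mem hxN _, hmin m (Nat.lt_succ_self m), ?_⟩
    rw [← pow_add]
    have : 2 ^ m + 2 ^ m = 2 ^ (m + 1) := by rw [pow_succ]; ring
    rw [this]; exact hm

theorem inf_syl (h : LD T L) (hS : IsPGroup 2 ↥S) (hTS : T ≤ S) : S ⊓ L = T := by
  haveI : Fact (Nat.Prime 2) := ⟨Nat.prime_two⟩
  exact h.syl.eq_of_le (hS.to_le inf_le_left) inf_le_right (le_inf hTS h.syl.le)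

theorem oc_le_of (h : LD T L) (hTS : T ≤ S) : omegaCenterOf S ≤ omegaCenterOf T := by
  intro z hz
  obtain ⟨h1, h2, h3⟩ := mem_omegaCenterOf.mp hz
  have h4 : z ∈ oP 2 L := by
    apply h.cQ
    rw [mem_centralizer_iff]
    intro y hy
    exact h2 y (hTS (h.Q_le_T hy))
  exact mem_omegaCenterOf.mpr ⟨h.Q_le_T h4, fun y hy => h2 y (hTS hy), h3⟩

namespace Cx

variable (h : Cx M T K L)
include h

theorem noconj (hS : IsPGroup 2 ↥S) (hlt : T < S) {K' : Subgroup G} (c : Co M T L K') {v z x : G} (hv : v ∈ Z1 T K') (hv1 : v ≠ 1)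
    (hz : z ∈ omegaCenterOf S) : x * v * x⁻¹ ≠ z := by
  haveI : Fact (Nat.Prime 2) := ⟨Nat.prime_two⟩
  intro he
  have h1 := h.cent_le c hv hv1
  have h2 : cj x⁻¹ S ≤ L := by
    refine le_trans ?_ h1
    rw [cj_le_iff_forall]
    intro s hs
    rw [mem_centralizer_singleton_iff]
    have h3 := (mem_omegaCenterOf.mp hz).2.1 s hs
    rw [← he] at h3
    have e1 : x⁻¹ * s * x⁻¹⁻¹ * v = x⁻¹ * (s * (x * v * x⁻¹)) * x := by group
    have e2 : v * (x⁻¹ * s * x⁻¹⁻¹) = x⁻¹ * ((x * v * x⁻¹) * s) * x := by group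
    rw [e1, e2, h3]
  obtain ⟨y, hy, hyT⟩ := h.ld.syl.exists_conj_le (isPGroup_cj hS) h2
  have h4 := Subgroup.card_le_of_le hyT
  rw [card_cj, card_cj] at h4
  exact absurd (H2.Card.card_lt_of_lt hlt) (not_lt_of_ge h4)

/-- the case `T < S` -/
theorem small (hS : IsPGroup 2 ↥S) (hlt : T < S) :
    ∃ g ∈ S, g ∈ normalizer (T : Set G) ∧ g ∉ T ∧ g * g ∈ T ∧ g ∉ L ∧
      Nat.card (omegaCenterOf (J T)) ≤ 4 ∧ T ≤ normalizer (K : Set G) ∧ omegaCenterOf T = omegaCenterOf (J T) ∧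
      omegaCenterOf S ≤ omegaCenterOf (J T) := by
  obtain ⟨g, hgS, hgN, hgT, hg2⟩ := exists_sq_norm hS hlt
  have hgL : g ∉ L := by
    intro h1
    apply hgT
    rw [← inf_syl h.ld hS hlt.le]
    exact ⟨hgS, h1⟩
  obtain ⟨a1, a2, a3⟩ := h.lemA (normalizer_le_NJ T hgN) hgL
  exact ⟨g, hgS, hgN, hgT, hg2, hgL, a1, a2, a3, (oc_le_of h.ld hlt.le).trans oc_le_ocJ⟩

/-- the third alternative -/
theorem third (hS : IsPGroup 2 ↥S) (hlt : T < S) (hSne : omegaCenterOf S ≠ ⊥) (h4 : Nat.card (omegaCenterOf (J T)) = 4) :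
    Nat.card (omegaCenterOf S) = 2 ∧
      (L ⊓ centralizer (omegaCenterOf (J T) : Set G)).relIndex (normalizer (omegaCenterOf (J T) : Set G)) = 2 := by
  obtain ⟨g, hgS, hgN, hgT, hg2, hgL, a1, a2, a3, a4⟩ := h.small hS hlt
  have hgJ := normalizer_le_NJ T hgN
  have n1 := card_Z0 h.T2 h.jc
  have n2 : Nat.card (Z1 T K) = 2 := by omega
  have hne : Z1 T K ≠ ⊥ := by
    intro h1; rw [h1, Subgroup.card_bot] at n2; omega
  obtain ⟨v, hv, hv1⟩ := exists_ne_one_of_ne_bot hne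
  set u := g * v * g⁻¹ with hu
  have hgZ : cj g (omegaCenterOf (J T)) = omegaCenterOf (J T) := h.cj_Z0 hgJ
  have hgNZ : g ∈ normalizer (omegaCenterOf (J T) : Set G) := mem_normalizer_iff_cj.mpr hgZ
  have hv0 : v ∈ omegaCenterOf (J T) := Z1_le hv
  have hu0 : u ∈ omegaCenterOf (J T) := (mem_normalizer_iff.mp hgNZ v).mp hv0
  have hu1 : u ≠ 1 := conj_ne_one hv1
  have huv : v ≠ u := by
    intro he
    have h1 := h.lemU hgJ hgL h.co h.co
    have h2 : u ∈ cj g (Z1 T K) := conj_mem_cj hv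
    exact ne_bot_of_mem (Subgroup.mem_inf.mpr ⟨(by rw [← he]; exact hv : u ∈ Z1 T K), h2⟩) hu1 h1
  have hall := four_cases (le_of_eq h4) hv0 hu0 hv1 hu1 huv (sq_oc hv0)
  -- the involution of `Z`
  obtain ⟨z, hz, hz1⟩ := exists_ne_one_of_ne_bot hSne
  have hzg : ∀ z ∈ omegaCenterOf S, z ≠ 1 → z = v * u := by
    intro z hz hz1
    rcases hall z (a4 hz) with h1 | h1 | h1 | h1
    · exact absurd h1 hz1
    · exact absurd (show (1 : G) * v * 1⁻¹ = z by rw [h1]; group) (h.noconj hS hlt h.co hv hv1 hz)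
    · exact absurd (show g * v * g⁻¹ = z by rw [h1]) (h.noconj hS hlt h.co hv hv1 hz)
    · exact h1
  have hzvu := hzg z hz hz1
  have huz : u = v * z := by rw [hzvu, ← mul_assoc, sq_oc hv0, one_mul]
  have hvz : u * z = v := by
    rw [hzvu, oc_comm hv0 hu0, ← mul_assoc, sq_oc hu0, one_mul]
  have hcard : Nat.card (omegaCenterOf S) = 2 := by
    have h1 := one_lt_card_of_mem hz hz1
    have h2 : Nat.card (omegaCenterOf S) ≤ 2 := by
      classical
      have hinj : Function.Injective (fun x : ↥(omegaCenterOf S) => (if (x : G) = 1 then (0 : Fin 2) else 1)) := by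
        intro x y hxy
        by_cases hx : (x : G) = 1 <;> by_cases hy : (y : G) = 1
        · exact Subtype.ext (hx.trans hy.symm)
        · simp [hx, hy] at hxy
        · simp [hx, hy] at hxy
        · exact Subtype.ext ((hzg _ x.2 hx).trans (hzg _ y.2 hy).symm)
      have := Nat.card_le_card_of_injective _ hinj
      simpa using this
    omega
  refine ⟨hcard, ?_⟩
  have hC : centralizer (omegaCenterOf (J T) : Set G) ≤ L := by
    refine le_trans ?_ (h.cent_le h.co hv hv1)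
    apply Subgroup.centralizer_le
    rintro _ rfl
    exact hv0
  rw [inf_eq_right.mpr hC]
  -- the action of `N(Z₀)`
  have key : ∀ x ∈ normalizer (omegaCenterOf (J T) : Set G), (x * v * x⁻¹ = v ∨ x * v * x⁻¹ = u) ∧ x * z * x⁻¹ = z := by
    intro x hx
    have hx1 : x * v * x⁻¹ ∈ omegaCenterOf (J T) := (mem_normalizer_iff.mp hx v).mp hv0
    constructor
    · rcases hall _ hx1 with h1 | h1 | h1 | h1
      · exact absurd h1 (conj_ne_one hv1)
      · exact Or.inl h1
      · exact Or.inr h1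
      · rw [← hzvu] at h1
        exact absurd h1 (h.noconj hS hlt h.co hv hv1 hz)
    · have hx2 : x⁻¹ * z * x⁻¹⁻¹ ∈ omegaCenterOf (J T) := (mem_normalizer_iff.mp (inv_mem hx) z).mp (a4 hz)
      rcases hall _ hx2 with h1 | h1 | h1 | h1
      · exact absurd h1 (conj_ne_one hz1)
      · exact absurd (show x * v * x⁻¹ = z by rw [← h1]; group) (h.noconj hS hlt h.co hv hv1 hz)
      · exact absurd (show (x * g) * v * (x * g)⁻¹ = z by
          have e : (x * g) * v * (x * g)⁻¹ = x * u * x⁻¹ := by rw [hu]; group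
          rw [e, ← h1]; group) (h.noconj hS hlt h.co hv hv1 hz)
      · rw [← hzvu] at h1
        calc x * z * x⁻¹ = x * (x⁻¹ * z * x⁻¹⁻¹) * x⁻¹ := by rw [h1]
          _ = z := by group
  have hmem : ∀ x ∈ normalizer (omegaCenterOf (J T) : Set G), (x ∈ centralizer (omegaCenterOf (J T) : Set G) ↔ x * v * x⁻¹ = v) := by
    intro x hx
    constructor
    · intro h1
      rw [← mem_centralizer_iff.mp h1 v hv0, mul_inv_cancel_right]
    · intro h1
      have e1 : x * v = v * x := mul_inv_eq_iff_eq_mul.mp h1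
      have e2 : x * z = z * x := mul_inv_eq_iff_eq_mul.mp (key x hx).2
      have e3 : x * u = u * x := by
        rw [huz, ← mul_assoc, e1, mul_assoc, e2, mul_assoc]
      rw [mem_centralizer_iff]
      intro y hy
      rcases hall y hy with rfl | rfl | rfl | rfl
      · rw [mul_one, one_mul]
      · exact e1.symm
      · exact e3.symm
      · rw [← hzvu, e2]
  rw [Subgroup.relIndex, Subgroup.index_eq_two_iff]
  refine ⟨⟨g, hgNZ⟩, fun b => ?_⟩
  have m1 : b * ⟨g, hgNZ⟩ ∈ (centralizer (omegaCenterOf (J T) : Set G)).subgroupOf (normalizer (omegaCenterOf (J T) : Set G)) ↔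
      (b : G) * u * (b : G)⁻¹ = v := by
    rw [mem_subgroupOf]
    rw [hmem _ (b * ⟨g, hgNZ⟩ : ↥(normalizer (omegaCenterOf (J T) : Set G))).2]
    have e : ((b * ⟨g, hgNZ⟩ : ↥(normalizer (omegaCenterOf (J T) : Set G))) : G) * v *
      ((b * ⟨g, hgNZ⟩ : ↥(normalizer (omegaCenterOf (J T) : Set G))) : G)⁻¹ = b * u * (b : G)⁻¹ := by
      rw [hu, Subgroup.coe_mul]; group
    rw [e]
  have m2 : b ∈ (centralizer (omegaCenterOf (J T) : Set G)).subgroupOf (normalizer (omegaCenterOf (J T) : Set G)) ↔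
      (b : G) * v * (b : G)⁻¹ = v := by
    rw [mem_subgroupOf]; exact hmem _ b.2
  rw [m1, m2]
  obtain ⟨h1, h2⟩ := key b b.2
  have h3 : (b : G) * u * (b : G)⁻¹ = ((b : G) * v * (b : G)⁻¹) * z := by
    rw [huz]
    calc (b : G) * (v * z) * (b : G)⁻¹ = ((b : G) * v * (b : G)⁻¹) * ((b : G) * z * (b : G)⁻¹) := by group
      _ = _ := by rw [h2]
  rcases h1 with h1 | h1
  · right
    refine ⟨h1, ?_⟩
    rw [h3, h1, ← huz]; exact huv.symm
  · left
    refine ⟨by rw [h3, h1, hvz], ?_⟩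
    rw [h1]; exact huv.symm

end Cx

end Cfsg.Agent.H17.KT
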