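import Cfsg.Agent.H17_KT4

/-! Local analysis: the case `T = S`, easy cases -/

set_option autoImplicit false
set_option linter.unusedSectionVars false
set_option linter.unusedVariables false
set_option linter.unusedSimpArgs false
set_option linter.style.haveILetI false

namespace Cfsg.Agent.H17.KT

open Subgroup Pointwise
open scoped commutatorElement
open Cfsg.Agent.H13.Syl
open Cfsg.Agent.H18.CharP
open Cfsg.Agent.H12.ZJ
open Cfsg.Agent.H18.KS

variable {G : Type*} [Group G] [Finite G]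
variable {T L K M : Subgroup G}

namespace Cx

/-- the conclusion -/
def Good (S K : Subgroup G) : Prop :=
  S ≤ normalizer (K : Set G) ∧ omegaCenterOf S = omegaCenterOf (J S) ∧ Nat.card (omegaCenterOf (J S)) ≤ 4

variable {S : Sylow 2 G} (h : Cx M (S : Subgroup G) K L)
include h

theorem case2 (hN : normalizer (J (S : Subgroup G) : Set G) ≤ L) {M' : Subgroup G} (hM' : IsTwoLocal M')
    (hS : (S : Subgroup G) ≤ M') (hL : ¬ M' ≤ L) : Good (S : Subgroup G) K := by
  haveI : Fact (Nat.Prime 2) := ⟨Nat.prime_two⟩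
  have hld : LD (S : Subgroup G) M' := by
    have hsyl := (isSylIn_sylow_top S).mono hS le_top
    refine ⟨hsyl, fun hJ => hL ?_, cQ_of_twoLocal h.H hM'⟩
    have h3 : oP 2 M' ≤ (S : Subgroup G) := by
      have h5 : IsPGroup 2 ↥((S : Subgroup G) ⊔ oP 2 M') := IsPGroup.to_sup_of_normal_right' hsyl.isPGroup (oP_isPGroup _) (hS.trans (norm_Q _))
      have h6 := hsyl.eq_of_le h5 (sup_le hS (oP_le _)) le_sup_left
      rw [← h6]; exact le_sup_right
    have h4 : J (oP 2 M') = J (S : Subgroup G) := by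
      apply J_of_cj_le (x := 1) hJ
      rw [cj_one]; exact h3
    have h5 := (norm_Q M').trans (normalizer_le_NJ (oP 2 M'))
    rw [h4] at h5
    exact h5.trans hN
  obtain ⟨K', hK', hKM', hKL'⟩ : ∃ K', IsJComponent (S : Subgroup G) K' ∧ K' ≤ M' ∧ ¬ K' ≤ L := by
    by_contra hno
    push Not at hno
    exact hL (hld.gen h.H (inf_le_right.trans hN) hno)
  have hSL : (S : Subgroup G) ≤ L := h.ld.syl.le
  -- trivial intersection
  have hti : ∀ K₁ K₂, Co M (S : Subgroup G) L K₁ → ¬ K₂ ≤ L → Z1 (S : Subgroup G) K₁ ⊓ Z1 (S : Subgroup G) K₂ = ⊥ := by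
    intro K₁ K₂ c hn
    rw [Subgroup.eq_bot_iff_forall]
    rintro z ⟨hz, hz'⟩
    by_contra hz1
    apply hn
    refine le_trans ?_ (h.cent_le c hz hz1)
    intro k hk
    rw [mem_centralizer_singleton_iff]
    exact (mem_Z1.mp hz').2 k hk
  have h4 : Nat.card (omegaCenterOf (J (S : Subgroup G))) ≤ 4 := by
    apply h.four_of (A := Z1 (S : Subgroup G) K') Z1_le (by rw [card_Z0 h.T2 hK']) (hti K K' h.co hKL')
  have hSK : (S : Subgroup G) ≤ normalizer (K : Set G) := by
    intro s hs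
    by_contra hsK
    have hne : K ≠ cj s K := fun he => hsK (mem_normalizer_iff_cj.mpr he.symm)
    have c2 := h.co_cj h.co (LD.T_le_NJ _ hs) (hSL hs)
    obtain ⟨z₁, z₂, n1, n2, n3, e1, e2, q1, q2, q3, hall⟩ := pair_of h.H h.T2 h.ld h.co c2 hne h4
    have hcard : Nat.card (Z1 (S : Subgroup G) K') = 2 := by
      have := card_Z0 h.T2 hK'
      omega
    have hne' : Z1 (S : Subgroup G) K' ≠ ⊥ := by
      intro h1; rw [h1, Subgroup.card_bot] at hcard; omega
    obtain ⟨v, hv, hv1⟩ := exists_ne_one_of_ne_bot hne'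
    have hv12 : v = z₁ * z₂ := by
      rcases hall v (Z1_le hv) with h1 | h1 | h1 | h1
      · exact absurd h1 hv1
      · exact absurd (hti _ K' c2 hKL') (ne_bot_of_mem (Subgroup.mem_inf.mpr ⟨(by rw [h1]; exact e1 : v ∈ Z1 (S : Subgroup G) (cj s K)), hv⟩) hv1)
      · exact absurd (hti _ K' h.co hKL') (ne_bot_of_mem (Subgroup.mem_inf.mpr ⟨(by rw [h1]; exact e2 : v ∈ Z1 (S : Subgroup G) K), hv⟩) hv1)
      · exact h1
    have hsz : s * z₂ * s⁻¹ = z₁ := by
      have m1 : s * z₂ * s⁻¹ ∈ Z1 (S : Subgroup G) (cj s K) := by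
        rw [← h.cj_Z1 (LD.T_le_NJ _ hs)]; exact conj_mem_cj e2
      exact order_two q3 m1 e1 (conj_ne_one n2) n1
    have hZv : ∀ z ∈ omegaCenterOf (S : Subgroup G), z = 1 ∨ z = v := by
      intro z hz
      have hsc : ∀ y ∈ (S : Subgroup G), y * z = z * y := (mem_omegaCenterOf.mp hz).2.1
      rcases hall z (oc_le_ocJ hz) with h1 | h1 | h1 | h1
      · exact Or.inl h1
      · exfalso
        apply n3
        have h2 := hsc s hs
        rw [h1] at h2
        have h5 : s * z₂ * s⁻¹ = s * z₁ * s⁻¹ := by rw [hsz, h2, mul_inv_cancel_right]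
        exact (mul_left_cancel (mul_right_cancel h5)).symm
      · exfalso
        apply n3
        have h2 := hsc s hs
        rw [h1] at h2
        rw [← hsz, h2, mul_inv_cancel_right]
      · right; rw [h1, hv12]
    apply hKL'
    have hzz := h.H.zz S
    refine le_trans ?_ (hzz.trans ((normalizer_le_NJ _).trans hN))
    intro k hk
    rw [mem_centralizer_iff]
    intro z hz
    rcases hZv z hz with rfl | rfl
    · rw [mul_one, one_mul]
    · exact ((mem_Z1.mp hv).2 k hk).symm
  exact ⟨hSK, h.oc_eq h4 hSK, h4⟩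

theorem case1 {g : G} (hg : g ∈ normalizer (J (S : Subgroup G) : Set G)) (hgL : g ∉ L) : Good (S : Subgroup G) K := by
  obtain ⟨h1, h2, h3⟩ := h.lemA hg hgL
  exact ⟨h2, h3, h1⟩

end Cx

end Cfsg.Agent.H17.KT
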