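import Mathlib

/-! Transvections of order two normalizing a group of odd order -/

set_option autoImplicit false

namespace Cfsg.Agent.H17.Ks

variable {X W : Type*} [Group X] [CommGroup W] (φ : X →* MulAut W)

/-- `t` is an involution acting on `W` as a transvection with centre `c` -/
def Tv (t : X) (c : W) : Prop := t * t = 1 ∧ c ≠ 1 ∧ (∀ w, φ t w = w ∨ φ t w = w * c) ∧ ∃ w, φ t w ≠ w

/-- standing hypotheses -/
structure Hyp (F : Subgroup X) : Prop where
  sq : ∀ w : W, w * w = 1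
  odd : ∀ x ∈ F, Odd (orderOf x)
  norm : ∀ x : X, ∀ f ∈ F, x * f * x⁻¹ ∈ F
  self : ∀ x : X, (∀ f ∈ F, x * f = f * x) → x ∈ F
  ker1 : ∀ x : X, φ x = 1 → ∀ s : X, s * s = 1 → x * s = s * x
  ker2 : ∀ x : X, φ x = 1 → x * x = 1 → x = 1

variable {φ} {F : Subgroup X} {t s : X} {c c' : W}

theorem inv_of_sq {t : X} (h : t * t = 1) : t⁻¹ = t := inv_eq_of_mul_eq_one_left h

theorem phi_mul (x y : X) (w : W) : φ (x * y) w = φ x (φ y w) := by
  rw [map_mul]; rfl

theorem phi_one (w : W) : φ 1 w = w := by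
  rw [map_one]; rfl

theorem eq_one_iff {x : X} : φ x = 1 ↔ ∀ w, φ x w = w := by
  constructor
  · intro h w; rw [h]; rfl
  · intro h; ext w; exact h w

theorem odd_sq {x : X} (ho : Odd (orderOf x)) (h : x * x = 1) : x = 1 := by
  obtain ⟨k, hk⟩ := ho
  have h1 := pow_orderOf_eq_one x
  rw [hk, pow_succ, pow_mul, pow_two, h, one_pow, one_mul] at h1
  exact h1

theorem Hyp.wsq (H : Hyp φ F) (w : W) : w * w = 1 := H.sq w
theorem Hyp.winv (H : Hyp φ F) (w : W) : w⁻¹ = w := inv_eq_of_mul_eq_one_left (H.sq w)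

theorem Hyp.can (H : Hyp φ F) {a b c : W} (h : a = b * c) : a * c = b := by
  rw [h, mul_assoc, H.sq, mul_one]

theorem Tv.fixc (H : Hyp φ F) (h : Tv φ t c) : φ t c = c := by
  obtain ⟨h1, h2, h3, w, hw⟩ := h
  have h4 : φ t w = w * c := (h3 w).resolve_left hw
  have h5 : φ t (φ t w) = w := by rw [← phi_mul, h1, phi_one]
  rw [h4, map_mul, h4] at h5
  have h6 : c * φ t c = 1 := by
    have : w * (c * φ t c) = w * 1 := by rw [← mul_assoc, h5, mul_one]
    exact mul_left_cancel this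
  calc φ t c = (c * c) * φ t c := by rw [H.sq, one_mul]
    _ = c * (c * φ t c) := by rw [mul_assoc]
    _ = c := by rw [h6, mul_one]

theorem Tv.conj (h : Tv φ t c) (x : X) : Tv φ (x * t * x⁻¹) (φ x c) := by
  obtain ⟨h1, h2, h3, w, hw⟩ := h
  refine ⟨?_, ?_, ?_, φ x w, ?_⟩
  · have : x * t * x⁻¹ * (x * t * x⁻¹) = x * (t * t) * x⁻¹ := by group
    rw [this, h1]; group
  · intro h
    apply h2
    have : φ x c = φ x 1 := by rw [h, map_one]
    exact (φ x).injective this
  · intro w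
    have hw : w = φ x (φ x⁻¹ w) := by rw [← phi_mul, mul_inv_cancel, phi_one]
    have h5 : φ (x * t * x⁻¹) w = φ x (φ t (φ x⁻¹ w)) := by rw [phi_mul, phi_mul]
    rcases h3 (φ x⁻¹ w) with h4 | h4
    · left; rw [h5, h4, ← hw]
    · right; rw [h5, h4, map_mul, ← hw]
  · intro h5
    apply hw
    have h6 : φ (x * t * x⁻¹) (φ x w) = φ x (φ t w) := by
      rw [← phi_mul, ← phi_mul]; congr 2; group
    rw [h6] at h5
    exact (φ x).injective h5

theorem Tv.uniq (h : Tv φ t c) (h' : Tv φ t c') : c = c' := by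
  obtain ⟨h1, h2, h3, w, hw⟩ := h
  have h4 := (h3 w).resolve_left hw
  have h5 := (h'.2.2.1 w).resolve_left hw
  rw [h4] at h5
  exact mul_left_cancel h5

theorem Tv.sq_triv (H : Hyp φ F) (h : Tv φ t c) (h' : Tv φ s c) : φ (t * s * (t * s)) = 1 := by
  rw [eq_one_iff]
  have ht := h.fixc H
  have hs := h'.fixc H
  have hcc : ∀ w : W, w * c * c = w := fun w => by rw [mul_assoc, H.sq, mul_one]
  have key : ∀ w, φ (t * s) w = w ∨ φ (t * s) w = w * c := by
    intro w
    rw [phi_mul]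
    rcases h'.2.2.1 w with h1 | h1 <;> rcases h.2.2.1 w with h2 | h2
    · left; rw [h1, h2]
    · right; rw [h1, h2]
    · right; rw [h1, map_mul, h2, ht]
    · left; rw [h1, map_mul, h2, ht, hcc]
  have keyc : φ (t * s) c = c := by rw [phi_mul, hs, ht]
  intro w
  rw [phi_mul]
  rcases key w with h1 | h1
  · rw [h1, h1]
  · rw [h1, map_mul, h1, keyc, hcc]

/-- commuting criterion -/
theorem comm_of (H : Hyp φ F) (ht : t * t = 1) (hs : s * s = 1) (h : φ (t * s * (t * s)) = 1) :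
    t * s = s * t := by
  have h1 := H.ker1 _ h t ht
  have ht' := inv_of_sq ht
  have hs' := inv_of_sq hs
  -- t y t⁻¹ = y⁻¹
  have h2 : (t * s * (t * s)) * (t * s * (t * s)) = 1 := by
    have h3 : t * (t * s * (t * s)) * t = s * t * (s * t) := by
      have : t * (t * s * (t * s)) * t = (t * t) * s * t * s * t := by group
      rw [this, ht]; group
    have h4 : t * (t * s * (t * s)) * t = t * s * (t * s) := by
      rw [← h1, mul_assoc, ht, mul_one]
    have h5 : (t * s * (t * s)) * (s * t * (s * t)) = 1 := by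
      have : (t * s * (t * s)) * (s * t * (s * t)) = t * s * t * (s * s) * t * s * t := by group
      rw [this, hs, mul_one]
      have : t * s * t * t * s * t = t * s * (t * t) * s * t := by group
      rw [this, ht, mul_one]
      have : t * s * s * t = t * (s * s) * t := by group
      rw [this, hs, mul_one, ht]
    rw [← h3, h4] at h5
    exact h5
  have h6 := H.ker2 _ h h2
  calc t * s = (t * s)⁻¹ := (inv_eq_of_mul_eq_one_left h6).symm
    _ = s⁻¹ * t⁻¹ := mul_inv_rev _ _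
    _ = s * t := by rw [ht', hs']

theorem eq_of (H : Hyp φ F) (ht : t * t = 1) (hs : s * s = 1) (h : φ (t * s * (t * s)) = 1)
    (hF : t * s ∈ F) : t = s := by
  have h1 := comm_of H ht hs h
  have h2 : (t * s) * (t * s) = 1 := by
    have : t * s * (t * s) = t * s * (s * t) := by rw [h1]
    rw [this]
    have : t * s * (s * t) = t * (s * s) * t := by group
    rw [this, hs, mul_one, ht]
  have h3 := odd_sq (H.odd _ hF) h2
  have h4 : t = s⁻¹ := eq_inv_of_mul_eq_one_left h3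
  rw [h4, inv_of_sq hs]

/-- involutions acting in the same way are equal -/
theorem eq_of_act (H : Hyp φ F) (ht : t * t = 1) (hs : s * s = 1) (h : φ (t * s) = 1) : t = s := by
  have h1 : φ (t * s * (t * s)) = 1 := by rw [map_mul, h, one_mul]
  have h2 := comm_of H ht hs h1
  have h3 : (t * s) * (t * s) = 1 := by
    have : t * s * (t * s) = t * s * (s * t) := by rw [h2]
    rw [this]
    have : t * s * (s * t) = t * (s * s) * t := by group
    rw [this, hs, mul_one, ht]
  have h4 := H.ker2 _ h h3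
  have h5 : t = s⁻¹ := eq_inv_of_mul_eq_one_left h4
  rw [h5, inv_of_sq hs]

/-- the `F`-class of `t` -/
def cl (F : Subgroup X) (t : X) : Set X := {s | ∃ f ∈ F, s = f * t * f⁻¹}

theorem self_mem_cl (t : X) : t ∈ cl F t := ⟨1, F.one_mem, by group⟩

theorem cl_conj (H : Hyp φ F) (x : X) (h : s ∈ cl F t) : x * s * x⁻¹ ∈ cl F (x * t * x⁻¹) := by
  obtain ⟨f, hf, rfl⟩ := h
  exact ⟨x * f * x⁻¹, H.norm x f hf, by group⟩

theorem cl_conjF {f : X} (hf : f ∈ F) (h : s ∈ cl F t) : f * s * f⁻¹ ∈ cl F t := by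
  obtain ⟨g, hg, rfl⟩ := h
  exact ⟨f * g, F.mul_mem hf hg, by group⟩

theorem cl_symm (h : s ∈ cl F t) : t ∈ cl F s := by
  obtain ⟨f, hf, rfl⟩ := h
  exact ⟨f⁻¹, F.inv_mem hf, by group⟩

theorem cl_trans {r : X} (h : s ∈ cl F t) (h' : r ∈ cl F s) : r ∈ cl F t := by
  obtain ⟨f, hf, rfl⟩ := h
  obtain ⟨g, hg, rfl⟩ := h'
  exact ⟨g * f, F.mul_mem hg hf, by group⟩

theorem cl_mul_mem (H : Hyp φ F) (ht : t * t = 1) (h : s ∈ cl F t) : t * s ∈ F := by
  obtain ⟨f, hf, rfl⟩ := h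
  have : t * (f * t * f⁻¹) = (t * f * t⁻¹) * (t * t) * f⁻¹ := by group
  rw [this, ht, mul_one]
  exact F.mul_mem (H.norm t f hf) (F.inv_mem hf)

theorem cl_mul_mem' (H : Hyp φ F) (ht : t * t = 1) {r : X} (h : s ∈ cl F t) (h' : r ∈ cl F t) : s * r ∈ F := by
  have hs : s * s = 1 := by
    obtain ⟨f, hf, rfl⟩ := h
    have : f * t * f⁻¹ * (f * t * f⁻¹) = f * (t * t) * f⁻¹ := by group
    rw [this, ht]; group
  exact cl_mul_mem H hs (cl_trans (cl_symm h) h')

theorem cl_sq (ht : t * t = 1) (h : s ∈ cl F t) : s * s = 1 := by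
  obtain ⟨f, hf, rfl⟩ := h
  have : f * t * f⁻¹ * (f * t * f⁻¹) = f * (t * t) * f⁻¹ := by group
  rw [this, ht]; group

theorem cl_self_conj (H : Hyp φ F) (ht : t * t = 1) {r : X} (h : s ∈ cl F t) (h' : r ∈ cl F t) :
    s * r * s⁻¹ ∈ cl F t := by
  -- s = f t f⁻¹, r = (r t) t
  have h1 : s * r ∈ F := cl_mul_mem' H ht h h'
  have hs := cl_sq ht h
  have hr := cl_sq ht h'
  -- s r s⁻¹ = (s r) s (s r)⁻¹ · ... ; (s r) r (s r)⁻¹
  have : s * r * s⁻¹ = (s * r) * r * (s * r)⁻¹ := by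
    rw [mul_inv_rev]
    have : s * r * r * (r⁻¹ * s⁻¹) = s * r * s⁻¹ := by group
    rw [this]
  rw [this]
  exact cl_conjF h1 h'

theorem Tv.of_cl (h : Tv φ t c) (hs : s ∈ cl F t) : ∃ c', Tv φ s c' := by
  obtain ⟨f, hf, rfl⟩ := hs
  exact ⟨_, h.conj f⟩

/-- two different members of the class do not commute on `W` -/
theorem cl_ne (H : Hyp φ F) {r : X} {ct cs cr : W} (ht : Tv φ t ct) (hs : s ∈ cl F t) (hr : r ∈ cl F t)
    (hsc : Tv φ s cs) (hrc : Tv φ r cr) (hne : s ≠ r) : φ s cr = cr * cs := by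
  rcases hsc.2.2.1 cr with h1 | h1
  · exfalso
    apply hne
    -- s r s⁻¹ and r have the same centre
    have h2 : Tv φ (s * r * s⁻¹) cr := by
      have := hrc.conj s
      rwa [h1] at this
    have h3 : s * r * s⁻¹ ∈ cl F t := cl_self_conj H ht.1 hs hr
    have h4 : r = s * r * s⁻¹ := eq_of H hrc.1 h2.1 (hrc.sq_triv H h2) (cl_mul_mem' H ht.1 hr h3)
    have h5 : s * r = r * s := by
      calc s * r = (s * r * s⁻¹) * s := by group
        _ = r * s := by rw [← h4]
    apply eq_of H hsc.1 hrc.1 _ (cl_mul_mem' H ht.1 hs hr)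
    have h6 : s * r * (s * r) = 1 := by
      calc s * r * (s * r) = s * r * (r * s) := by rw [h5]
        _ = s * (r * r) * s := by group
        _ = 1 := by rw [hrc.1, mul_one, hsc.1]
    rw [h6, map_one]
  · exact h1

/-- a third member of the class is determined -/
theorem cl_third (H : Hyp φ F) {r : X} {ct : W} (ht : Tv φ t ct) {u : X} (hs : s ∈ cl F t) (hr : r ∈ cl F t)
    (hu : u ∈ cl F t) (hsr : s ≠ r) (hus : u ≠ s) (hur : u ≠ r) : u = r * s * r⁻¹ := by
  obtain ⟨cs, hcs⟩ := ht.of_cl hs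
  obtain ⟨cr, hcr⟩ := ht.of_cl hr
  obtain ⟨cu, hcu⟩ := ht.of_cl hu
  by_contra hne
  have hp : r * s * r⁻¹ ∈ cl F t := cl_self_conj H ht.1 hr hs
  have h1 : φ r cs = cs * cr := cl_ne H ht hr hs hcr hcs hsr.symm
  have h2 : Tv φ (r * s * r⁻¹) (cs * cr) := by
    have := hcs.conj r
    rwa [h1] at this
  have h3 : φ u (cs * cr) = (cs * cr) * cu := cl_ne H ht hu hp hcu h2 hne
  have h4 : φ u cs = cs * cu := cl_ne H ht hu hs hcu hcs hus
  have h5 : φ u cr = cr * cu := cl_ne H ht hu hr hcu hcr hur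
  rw [map_mul, h4, h5] at h3
  have h6 : cs * cu * (cr * cu) = cs * cr := by
    calc cs * cu * (cr * cu) = cs * cr * (cu * cu) := by
          rw [mul_mul_mul_comm]
      _ = cs * cr := by rw [H.sq, mul_one]
  rw [h6] at h3
  have h7 : cu = 1 := by
    have : cs * cr * 1 = cs * cr * cu := by rw [mul_one]; exact h3
    exact (mul_left_cancel this).symm
  exact hcu.2.1 h7

end Cfsg.Agent.H17.Ks
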