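import Cfsg.Agent.H17_KsA

/-! The subgroups of order three attached to transvections -/

set_option autoImplicit false

namespace Cfsg.Agent.H17.Ks

variable {X W : Type*} [Group X] [CommGroup W] {φ : X →* MulAut W} {F : Subgroup X} {t s : X} {c c' : W}

theorem eq_of_comm (H : Hyp φ F) (ht : t * t = 1) {r : X} (hs : s ∈ cl F t) (hr : r ∈ cl F t)
    (h : s * r = r * s) : s = r := by
  have hs2 := cl_sq ht hs
  have hr2 := cl_sq ht hr
  apply eq_of H hs2 hr2 _ (cl_mul_mem' H ht hs hr)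
  have h6 : s * r * (s * r) = 1 := by
    calc s * r * (s * r) = s * r * (r * s) := by rw [h]
      _ = s * (r * r) * s := by group
      _ = 1 := by rw [hr2, mul_one, hs2]
  rw [h6, map_one]

theorem Tv.ne_one (h : Tv φ t c) : t ≠ 1 := by
  rintro rfl
  obtain ⟨w, hw⟩ := h.2.2.2
  exact hw (phi_one w)

theorem exists_ne (H : Hyp φ F) (h : Tv φ t c) : ∃ s ∈ cl F t, s ≠ t := by
  by_contra hcon
  push Not at hcon
  have h1 : t ∈ F := by
    apply H.self
    intro f hf
    have := hcon (f * t * f⁻¹) ⟨f, hf, rfl⟩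
    calc t * f = (f * t * f⁻¹) * f := by rw [this]
      _ = f * t := by group
  exact h.ne_one (odd_sq (H.odd _ h1) h.1)

/-- braid relation -/
theorem braid (H : Hyp φ F) (h : Tv φ t c) (hs : s ∈ cl F t) (hne : s ≠ t) : t * s * t = s * t * s := by
  have ht := h.1
  have hs2 := cl_sq ht hs
  have h1 : t * s * t⁻¹ ∈ cl F t := cl_self_conj H ht (self_mem_cl t) hs
  have h2 : t * s * t⁻¹ ≠ t := by
    intro h3
    apply hne
    have : s = t⁻¹ * (t * s * t⁻¹) * t := by group
    rw [this, h3]; group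
  have h3 : t * s * t⁻¹ ≠ s := by
    intro h3
    apply hne
    apply (eq_of_comm H ht (self_mem_cl t) hs _).symm
    calc t * s = (t * s * t⁻¹) * t := by group
      _ = s * t := by rw [h3]
  have h4 := cl_third H h (self_mem_cl t) hs h1 hne.symm h2 h3
  rw [inv_of_sq ht, inv_of_sq hs2] at h4
  exact h4

theorem cl_cases (H : Hyp φ F) (h : Tv φ t c) (hs : s ∈ cl F t) (hne : s ≠ t) {u : X} (hu : u ∈ cl F t) :
    u = t ∨ u = s ∨ u = t * s * t := by
  by_cases h1 : u = t
  · exact Or.inl h1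
  by_cases h2 : u = s
  · exact Or.inr (Or.inl h2)
  right; right
  have h3 := cl_third H h (self_mem_cl t) hs hu hne.symm h1 h2
  rw [inv_of_sq (cl_sq h.1 hs)] at h3
  rw [h3, braid H h hs hne]

theorem third_mem (H : Hyp φ F) (h : Tv φ t c) (hs : s ∈ cl F t) : t * s * t ∈ cl F t := by
  have := cl_self_conj H h.1 (self_mem_cl t) hs
  rwa [inv_of_sq h.1] at this

theorem cube (H : Hyp φ F) (h : Tv φ t c) (hs : s ∈ cl F t) (hne : s ≠ t) :
    (t * s) * (t * s) * (t * s) = 1 := by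
  have hs2 := cl_sq h.1 hs
  calc (t * s) * (t * s) * (t * s) = (t * s * t) * (s * t * s) := by group
    _ = (t * s * t) * (t * s * t) := by rw [braid H h hs hne]
    _ = t * s * (t * t) * s * t := by group
    _ = t * (s * s) * t := by rw [h.1]; group
    _ = 1 := by rw [hs2, mul_one, h.1]

/-- the subgroup of order three attached to `t` -/
def Dt (F : Subgroup X) (t : X) : Subgroup X := Subgroup.closure {x | ∃ s ∈ cl F t, x = t * s}

theorem mul_mem_Dt (hs : s ∈ cl F t) : t * s ∈ Dt F t := Subgroup.subset_closure ⟨s, hs, rfl⟩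

theorem mul_mem_Dt' (ht : t * t = 1) (hs : s ∈ cl F t) : s * t ∈ Dt F t := by
  have h1 := (Dt F t).inv_mem (mul_mem_Dt (F := F) hs)
  rw [mul_inv_rev, inv_of_sq ht, inv_of_sq (cl_sq ht hs)] at h1
  exact h1

theorem Dt_le (H : Hyp φ F) (ht : t * t = 1) : Dt F t ≤ F := by
  rw [Dt, Subgroup.closure_le]
  rintro _ ⟨s, hs, rfl⟩
  exact cl_mul_mem H ht hs

theorem comm_mem_Dt (ht : t * t = 1) {f : X} (hf : f ∈ F) : f * t * f⁻¹ * t⁻¹ ∈ Dt F t := by
  rw [inv_of_sq ht]
  exact mul_mem_Dt' ht ⟨f, hf, rfl⟩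

theorem Dt_eq (H : Hyp φ F) (h : Tv φ t c) (hs : s ∈ cl F t) (hne : s ≠ t) :
    Dt F t = Subgroup.zpowers (t * s) := by
  apply le_antisymm
  · rw [Dt, Subgroup.closure_le]
    rintro _ ⟨u, hu, rfl⟩
    rcases cl_cases H h hs hne hu with rfl | rfl | rfl
    · rw [h.1]; exact Subgroup.one_mem _
    · exact Subgroup.mem_zpowers _
    · have h1 : t * (t * s * t) = (t * s)⁻¹ := by
        rw [mul_inv_rev, inv_of_sq h.1, inv_of_sq (cl_sq h.1 hs)]
        calc t * (t * s * t) = (t * t) * s * t := by group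
          _ = s * t := by rw [h.1, one_mul]
      rw [h1]
      exact Subgroup.inv_mem _ (Subgroup.mem_zpowers _)
  · rw [Subgroup.zpowers_le]
    exact mul_mem_Dt hs

theorem Dt_gen_ne (h : Tv φ t c) (hs : s ∈ cl F t) (hne : s ≠ t) : t * s ≠ 1 := by
  intro h1
  apply hne
  have h2 : t = s⁻¹ := eq_inv_of_mul_eq_one_left h1
  rw [h2, inv_of_sq (cl_sq h.1 hs)]

theorem order_gen (H : Hyp φ F) (h : Tv φ t c) (hs : s ∈ cl F t) (hne : s ≠ t) : orderOf (t * s) = 3 := by
  have : Fact (Nat.Prime 3) := ⟨Nat.prime_three⟩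
  apply orderOf_eq_prime
  · rw [pow_succ, pow_two]; exact cube H h hs hne
  · exact Dt_gen_ne h hs hne

theorem card_Dt (H : Hyp φ F) (h : Tv φ t c) : Nat.card ↥(Dt F t) = 3 := by
  obtain ⟨s, hs, hne⟩ := exists_ne H h
  rw [Dt_eq H h hs hne, Nat.card_zpowers, order_gen H h hs hne]

theorem Dt_mem_cases (H : Hyp φ F) (h : Tv φ t c) (hs : s ∈ cl F t) (hne : s ≠ t) {x : X} (hx : x ∈ Dt F t) :
    x = 1 ∨ x = t * s ∨ x = s * t := by
  rw [Dt_eq H h hs hne, Subgroup.mem_zpowers_iff] at hx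
  obtain ⟨k, rfl⟩ := hx
  have h3 : (t * s) ^ (3 : ℤ) = 1 := by
    have := cube H h hs hne
    have e : (t * s) ^ (3 : ℤ) = (t * s) * (t * s) * (t * s) := by
      rw [show (3 : ℤ) = ((3 : ℕ) : ℤ) from rfl, zpow_natCast, pow_succ, pow_two]
    rw [e]; exact this
  have h4 : (t * s) ^ k = (t * s) ^ (k % 3) := by
    conv_lhs => rw [← Int.emod_add_mul_ediv k 3]
    rw [zpow_add, zpow_mul, h3, one_zpow, mul_one]
  have h5 : k % 3 = 0 ∨ k % 3 = 1 ∨ k % 3 = 2 := by omega
  rw [h4]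
  rcases h5 with h5 | h5 | h5 <;> rw [h5]
  · left; simp
  · right; left; simp
  · right; right
    have e : (t * s) ^ (2 : ℤ) = (t * s) * (t * s) := by
      rw [show (2 : ℤ) = ((2 : ℕ) : ℤ) from rfl, zpow_natCast, pow_two]
    rw [e]
    have h6 : s * t = (t * s)⁻¹ := by rw [mul_inv_rev, inv_of_sq h.1, inv_of_sq (cl_sq h.1 hs)]
    rw [h6]
    exact eq_inv_of_mul_eq_one_left (cube H h hs hne)

theorem Dt_cl (ht : t * t = 1) (hs : s ∈ cl F t) : Dt F s = Dt F t := by
  have key : ∀ {t s : X}, t * t = 1 → s ∈ cl F t → Dt F s ≤ Dt F t := by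
    intro t s ht hs
    rw [Dt, Subgroup.closure_le]
    rintro _ ⟨u, hu, rfl⟩
    have h1 : s * u = (s * t) * (t * u) := by
      calc s * u = s * 1 * u := by rw [mul_one]
        _ = s * (t * t) * u := by rw [ht]
        _ = _ := by group
    rw [h1]
    exact (Dt F t).mul_mem (mul_mem_Dt' ht hs) (mul_mem_Dt (cl_trans hs hu))
  exact le_antisymm (key ht hs) (key (cl_sq ht hs) (cl_symm hs))

theorem Dt_conj (H : Hyp φ F) (x : X) (t : X) :
    (Dt F t).map (MulAut.conj x).toMonoidHom = Dt F (x * t * x⁻¹) := by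
  have key : ∀ x t : X, (Dt F t).map (MulAut.conj x).toMonoidHom ≤ Dt F (x * t * x⁻¹) := by
    intro x t
    rw [Dt, MonoidHom.map_closure, Subgroup.closure_le]
    rintro _ ⟨_, ⟨s, hs, rfl⟩, rfl⟩
    have : (MulAut.conj x).toMonoidHom (t * s) = (x * t * x⁻¹) * (x * s * x⁻¹) := by
      simp [MulAut.conj_apply]
    rw [this]
    exact mul_mem_Dt (cl_conj H x hs)
  apply le_antisymm (key x t)
  have h1 := key x⁻¹ (x * t * x⁻¹)
  have h2 : x⁻¹ * (x * t * x⁻¹) * x⁻¹⁻¹ = t := by group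
  rw [h2] at h1
  intro y hy
  refine ⟨x⁻¹ * y * x, h1 ⟨y, hy, by simp [MulAut.conj_apply]⟩, ?_⟩
  simp only [MulEquiv.coe_toMonoidHom, MulAut.conj_apply]
  group

theorem Dt_norm (H : Hyp φ F) (ht : t * t = 1) {f : X} (hf : f ∈ F) :
    (Dt F t).map (MulAut.conj f).toMonoidHom = Dt F t := by
  rw [Dt_conj H f t]
  exact Dt_cl ht ⟨f, hf, rfl⟩

theorem Dt_inv (ht : t * t = 1) {x : X} (hx : x = t * s) (hs : s ∈ cl F t) :
    t * x * t⁻¹ = x⁻¹ := by
  subst hx
  rw [mul_inv_rev, inv_of_sq ht, inv_of_sq (cl_sq ht hs)]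
  calc t * (t * s) * t = (t * t) * s * t := by group
    _ = s * t := by rw [ht, one_mul]

/-- `[W, D]` -/
def VD (φ : X →* MulAut W) (D : Subgroup X) : Subgroup W :=
  Subgroup.closure {x | ∃ d ∈ D, ∃ w, x = φ d w * w⁻¹}

theorem mem_VD {D : Subgroup X} {d : X} (hd : d ∈ D) (w : W) : φ d w * w⁻¹ ∈ VD φ D :=
  Subgroup.subset_closure ⟨d, hd, w, rfl⟩

theorem VD_stable {D : Subgroup X} {d : X} (hd : d ∈ D) {w : W} (hw : w ∈ VD φ D) : φ d w ∈ VD φ D := by
  have : φ d w = (φ d w * w⁻¹) * w := by group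
  rw [this]
  exact (VD φ D).mul_mem (mem_VD hd w) hw

/-- explicit four group -/
def four (H : Hyp φ F) (a b : W) : Subgroup W where
  carrier := {w | w = 1 ∨ w = a ∨ w = b ∨ w = a * b}
  one_mem' := Or.inl rfl
  mul_mem' := by
    have ha : ∀ w : W, a * (a * w) = w := fun w => by rw [← mul_assoc, H.sq, one_mul]
    have hb : ∀ w : W, b * (b * w) = w := fun w => by rw [← mul_assoc, H.sq, one_mul]
    have hab := H.sq a
    have hbb := H.sq b
    rintro x y (rfl | rfl | rfl | rfl) (rfl | rfl | rfl | rfl)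
    all_goals first
      | (left; simp [hab, hbb]; done)
      | (right; left; simp [hab, hbb, mul_comm, mul_left_comm, ha, hb]; done)
      | (right; right; left; simp [hab, hbb, mul_comm, mul_left_comm, ha, hb]; done)
      | (right; right; right; simp [hab, hbb, mul_comm, mul_left_comm, ha, hb]; done)
      | (left; rw [mul_mul_mul_comm, hab, hbb, mul_one]; done)
      | (left; exact H.sq _; done)
  inv_mem' := by
    intro x hx
    rw [H.winv]; exact hx

theorem mem_four (H : Hyp φ F) {a b w : W} : w ∈ four H a b ↔ w = 1 ∨ w = a ∨ w = b ∨ w = a * b := Iff.rfl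

theorem act_gen (H : Hyp φ F) (h : Tv φ t c) (hs : s ∈ cl F t) (hne : s ≠ t) (hc' : Tv φ s c') :
    φ (t * s) c = c' ∧ φ (t * s) c' = c' * c ∧ φ t c' = c' * c ∧ φ s c = c * c' := by
  have h1 : φ t c' = c' * c := cl_ne H h (self_mem_cl t) hs h hc' hne.symm
  have h2 : φ s c = c * c' := cl_ne H h hs (self_mem_cl t) hc' h hne
  refine ⟨?_, ?_, h1, h2⟩
  · rw [phi_mul, h2, map_mul, h.fixc H, h1, mul_comm c' c, ← mul_assoc, H.sq, one_mul]
  · rw [phi_mul, hc'.fixc H, h1]

theorem centre_ne (H : Hyp φ F) (h : Tv φ t c) (hs : s ∈ cl F t) (hne : s ≠ t) (hc' : Tv φ s c') : c ≠ c' := by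
  rintro rfl
  apply hne
  exact (eq_of H h.1 hc'.1 (h.sq_triv H hc') (cl_mul_mem H h.1 hs)).symm

theorem VD_eq (H : Hyp φ F) (h : Tv φ t c) (hs : s ∈ cl F t) (hne : s ≠ t) (hc' : Tv φ s c') :
    VD φ (Dt F t) = four H c c' := by
  obtain ⟨e1, e2, e3, e4⟩ := act_gen H h hs hne hc'
  apply le_antisymm
  · rw [VD, Subgroup.closure_le]
    rintro _ ⟨d, hd, w, rfl⟩
    -- every element of the class moves w inside four
    have key : ∀ w, φ t w * w⁻¹ ∈ four H c c' := by
      intro w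
      rcases h.2.2.1 w with h1 | h1
      · rw [h1, mul_inv_cancel]; exact (four H c c').one_mem
      · rw [h1]
        have : w * c * w⁻¹ = c := by rw [mul_comm w c, mul_assoc, mul_inv_cancel, mul_one]
        rw [this]; exact Or.inr (Or.inl rfl)
    have key2 : ∀ w, φ s w * w⁻¹ ∈ four H c c' := by
      intro w
      rcases hc'.2.2.1 w with h1 | h1
      · rw [h1, mul_inv_cancel]; exact (four H c c').one_mem
      · rw [h1]
        have : w * c' * w⁻¹ = c' := by rw [mul_comm w c', mul_assoc, mul_inv_cancel, mul_one]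
        rw [this]; exact Or.inr (Or.inr (Or.inl rfl))
    rcases Dt_mem_cases H h hs hne hd with rfl | rfl | rfl
    · rw [phi_one, mul_inv_cancel]; exact (four H c c').one_mem
    · have : φ (t * s) w * w⁻¹ = (φ t (φ s w) * (φ s w)⁻¹) * (φ s w * w⁻¹) := by rw [phi_mul]; group
      rw [this]; exact (four H c c').mul_mem (key _) (key2 _)
    · have : φ (s * t) w * w⁻¹ = (φ s (φ t w) * (φ t w)⁻¹) * (φ t w * w⁻¹) := by rw [phi_mul]; group
      rw [this]; exact (four H c c').mul_mem (key2 _) (key _)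
  · have hd : t * s ∈ Dt F t := mul_mem_Dt hs
    have h1 : c' * c⁻¹ ∈ VD φ (Dt F t) := by
      have := mem_VD (φ := φ) hd c
      rwa [e1] at this
    have h2 : c ∈ VD φ (Dt F t) := by
      have := mem_VD (φ := φ) hd c'
      rw [e2] at this
      have e : c' * c * c'⁻¹ = c := by rw [mul_comm c' c, mul_assoc, mul_inv_cancel, mul_one]
      rwa [e] at this
    have h3 : c' ∈ VD φ (Dt F t) := by
      have := (VD φ (Dt F t)).mul_mem h1 h2
      have e : c' * c⁻¹ * c = c' := by group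
      rwa [e] at this
    rintro w (rfl | rfl | rfl | rfl)
    · exact Subgroup.one_mem _
    · exact h2
    · exact h3
    · exact Subgroup.mul_mem _ h2 h3

theorem card_VD (H : Hyp φ F) (h : Tv φ t c) : Nat.card ↥(VD φ (Dt F t)) = 4 := by
  classical
  obtain ⟨s, hs, hne⟩ := exists_ne H h
  obtain ⟨c', hc'⟩ := h.of_cl hs
  rw [VD_eq H h hs hne hc']
  have hcc := centre_ne H h hs hne hc'
  have hc1 := h.2.1
  have hc1' := hc'.2.1
  have hset : ((four H c c' : Subgroup W) : Set W) = (({1, c, c', c * c'} : Finset W) : Set W) := by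
    ext w
    simp only [SetLike.mem_coe, mem_four, Finset.coe_insert, Finset.coe_singleton, Set.mem_insert_iff,
      Set.mem_singleton_iff]
  have h1 : Nat.card ↥(four H c c') = ({1, c, c', c * c'} : Finset W).card := by
    rw [← SetLike.coe_sort_coe, hset]
    simp
  rw [h1]
  have hccne : c * c' ≠ 1 := by
    intro h2
    apply hcc
    have : c = c'⁻¹ := eq_inv_of_mul_eq_one_left h2
    rw [this, H.winv]
  have h5 : c ≠ c * c' := by
    intro h2; apply hc1'
    exact (mul_left_cancel (a := c) (by rw [mul_one]; exact h2)).symm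
  have h6 : c' ≠ c * c' := by
    intro h2; apply hc1
    have : 1 * c' = c * c' := by rw [one_mul]; exact h2
    exact (mul_right_cancel this).symm
  rw [Finset.card_insert_of_notMem, Finset.card_insert_of_notMem, Finset.card_insert_of_notMem,
    Finset.card_singleton]
  · simp only [Finset.mem_singleton]; exact h6
  · simp only [Finset.mem_insert, Finset.mem_singleton, not_or]; exact ⟨hcc, h5⟩
  · simp only [Finset.mem_insert, Finset.mem_singleton, not_or]; exact ⟨hc1.symm, hc1'.symm, hccne.symm⟩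

/-- every nontrivial element of `[W, D]` is the centre of a member of the class -/
theorem exists_centre (H : Hyp φ F) (h : Tv φ t c) {v : W} (hv : v ∈ VD φ (Dt F t)) (hv1 : v ≠ 1) :
    ∃ s ∈ cl F t, Tv φ s v := by
  obtain ⟨s, hs, hne⟩ := exists_ne H h
  obtain ⟨c', hc'⟩ := h.of_cl hs
  rw [VD_eq H h hs hne hc'] at hv
  obtain ⟨e1, e2, e3, e4⟩ := act_gen H h hs hne hc'
  rcases hv with rfl | rfl | rfl | rfl
  · exact absurd rfl hv1
  · exact ⟨t, self_mem_cl t, h⟩
  · exact ⟨s, hs, hc'⟩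
  · refine ⟨s * t * s⁻¹, cl_self_conj H h.1 hs (self_mem_cl t), ?_⟩
    have := h.conj s
    rwa [e4] at this

theorem centre_mem_VD (H : Hyp φ F) (h : Tv φ t c) : c ∈ VD φ (Dt F t) := by
  obtain ⟨s, hs, hne⟩ := exists_ne H h
  obtain ⟨c', hc'⟩ := h.of_cl hs
  rw [VD_eq H h hs hne hc']
  exact Or.inr (Or.inl rfl)

end Cfsg.Agent.H17.Ks
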