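import Cfsg.Agent.H17_KsB

/-! Different transvection classes commute -/

set_option autoImplicit false

namespace Cfsg.Agent.H17.Ks

variable {X W : Type*} [Group X] [CommGroup W] {φ : X →* MulAut W} {F : Subgroup X} {t s : X} {c c' : W}

/-- two transvections with the same centre, inverting elements of order three with the same action, are equal -/
theorem eq_of_inv (H : Hyp φ F) {t' d d' : X} {c2 : W} (h : Tv φ t c) (h' : Tv φ t' c)
    (hd3 : d * d * d = 1) (hdd : φ d = φ d') (h1 : t * d * t⁻¹ = d⁻¹) (h2 : t' * d' * t'⁻¹ = d'⁻¹)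
    (h3 : ∀ w, φ d w * w⁻¹ ∈ four H c c2) (h4 : φ d c = c2) (h4' : c ≠ c2) (h4'' : φ d c2 = c2 * c)
    (h5 : φ t c2 = c2 * c) (h6 : φ t' c2 = c2 * c) : t = t' := by
  apply eq_of_act H h.1 h'.1
  rw [eq_one_iff]
  -- fixed vectors of d
  have hfix : ∀ {t' d' : X}, Tv φ t' c → φ d = φ d' → t' * d' * t'⁻¹ = d'⁻¹ → ∀ u, φ d u = u → φ t' u = u := by
    intro t' d' h' hdd h2 u hu
    rcases h'.2.2.1 u with h7 | h7
    · exact h7
    exfalso
    have h8 : φ d' (φ t' u) = φ t' u := by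
      have e : d' * t' = t' * d'⁻¹ := by
        calc d' * t' = (t' * d'⁻¹ * t'⁻¹) * t' := by
              have : t' * d'⁻¹ * t'⁻¹ = d' := by
                have := congrArg (·⁻¹) h2
                simp only [mul_inv_rev, inv_inv] at this
                calc t' * d'⁻¹ * t'⁻¹ = t' * (d'⁻¹ * t'⁻¹) := by group
                  _ = d' := this
              rw [this]
          _ = t' * d'⁻¹ := by group
      rw [← phi_mul, e, phi_mul]
      congr 1
      have h9 : φ d' u = u := by rw [← hdd]; exact hu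
      calc φ d'⁻¹ u = φ d'⁻¹ (φ d' u) := by rw [h9]
        _ = u := by rw [← phi_mul, inv_mul_cancel, phi_one]
    rw [h7, ← hdd, map_mul, hu, h4] at h8
    exact h4' (mul_left_cancel h8).symm
  have hV : ∀ v ∈ four H c c2, φ t v = φ t' v := by
    have e1 : φ t c = φ t' c := by rw [h.fixc H, h'.fixc H]
    have e2 : φ t c2 = φ t' c2 := by rw [h5, h6]
    rintro v (rfl | rfl | rfl | rfl)
    · rw [map_one, map_one]
    · exact e1
    · exact e2
    · rw [map_mul, map_mul, e1, e2]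
  have hsame : ∀ w, φ t w = φ t' w := by
    intro w
    set u := w * φ d w * φ d (φ d w) with hu
    have hu1 : φ d u = u := by
      rw [hu, map_mul, map_mul]
      have e : φ d (φ d (φ d w)) = w := by
        rw [← phi_mul, ← phi_mul, hd3, phi_one]
      rw [e, mul_comm, ← mul_assoc]
    set p := φ d w * φ d (φ d w) with hp
    have hp1 : p ∈ four H c c2 := by
      have e : p = φ d (φ d w) * (φ d w)⁻¹ := by
        rw [hp, H.winv, mul_comm]
      rw [e]
      exact h3 _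
    have hw : w = u * p := by
      have : u = w * p := by rw [hu, hp, mul_assoc]
      rw [this, mul_assoc, H.sq, mul_one]
    have k1 : φ t u = u := hfix h rfl h1 u hu1
    have k2 : φ t' u = u := hfix h' hdd h2 u hu1
    have k3 := hV p hp1
    clear_value u p
    rw [hw, map_mul, map_mul, k3, k1, k2]
  intro w
  rw [phi_mul, ← hsame w, ← phi_mul, h.1, phi_one]

theorem Dt_invert (H : Hyp φ F) (h : Tv φ t c) {x : X} (hx : x ∈ Dt F t) : t * x * t⁻¹ = x⁻¹ := by
  obtain ⟨s, hs, hne⟩ := exists_ne H h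
  have hs2 := inv_of_sq (cl_sq h.1 hs)
  have ht2 := inv_of_sq h.1
  rcases Dt_mem_cases H h hs hne hx with h7 | h7 | h7
  · rw [h7]; group
  · exact Dt_inv h.1 h7 hs
  · rw [h7, mul_inv_rev, hs2, ht2]
    calc t * (s * t) * t = t * s * (t * t) := by group
      _ = t * s := by rw [h.1, mul_one]

/-- T3: the subgroup determines the class -/
theorem mem_cl_of_Dt_eq (H : Hyp φ F) {t' : X} (h : Tv φ t c) (h' : Tv φ t' c') (hD : Dt F t = Dt F t') :
    t' ∈ cl F t := by
  -- replace t by the member of its class with centre c'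
  have hc : c' ∈ VD φ (Dt F t) := by rw [hD]; exact centre_mem_VD H h'
  obtain ⟨r, hr, hrc⟩ := exists_centre H h hc h'.2.1
  suffices hs : r = t' by rw [← hs]; exact hr
  have hD' : Dt F r = Dt F t' := (Dt_cl h.1 hr).trans hD
  obtain ⟨s, hs, hne⟩ := exists_ne H hrc
  obtain ⟨c2, hc2⟩ := hrc.of_cl hs
  obtain ⟨e1, e2, e3, e4⟩ := act_gen H hrc hs hne hc2
  have hcc := centre_ne H hrc hs hne hc2
  have hVD := VD_eq H hrc hs hne hc2
  have hd : r * s ∈ Dt F r := mul_mem_Dt hs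
  have hc2V : c2 ∈ VD φ (Dt F t') := by
    rw [← hD', hVD]; exact Or.inr (Or.inr (Or.inl rfl))
  obtain ⟨s', hs', hsc'⟩ := exists_centre H h' hc2V hc2.2.1
  have hne' : s' ≠ t' := by
    rintro rfl
    exact hcc (Tv.uniq h' hsc')
  obtain ⟨f1, f2, f3, f4⟩ := act_gen H h' hs' hne' hsc'
  have hinv' : t' * (r * s) * t'⁻¹ = (r * s)⁻¹ :=
    Dt_invert H h' (by rw [← hD']; exact hd)
  exact eq_of_inv H hrc h' (cube H hrc hs hne) rfl (Dt_inv hrc.1 rfl hs) hinv'
    (fun w => by rw [← hVD]; exact mem_VD hd w) e1 hcc e2 e3 f3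

/-- elements acting trivially on `W/V` and on `V`, of odd order, act trivially -/
theorem act_trivial_of (H : Hyp φ F) {V : Subgroup W} {y : X} (hy : y ∈ F) (h1 : ∀ w, φ y w * w⁻¹ ∈ V)
    (h2 : ∀ v ∈ V, φ y v = v) : φ y = 1 := by
  have h3 : φ (y * y) = 1 := by
    rw [eq_one_iff]
    intro w
    set p := φ y w * w⁻¹ with hp
    have e : φ y w = p * w := by rw [hp]; group
    have hpp : φ y p = p := h2 _ (h1 w)
    rw [phi_mul, e, map_mul, hpp, e, ← mul_assoc, H.sq, one_mul]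
  obtain ⟨k, hk⟩ := H.odd _ hy
  have h4 : y * (y * y) ^ k = 1 := by
    rw [← pow_two, ← pow_mul, ← pow_succ', ← hk, pow_orderOf_eq_one]
  have h5 : φ (y * (y * y) ^ k) = φ y := by
    rw [map_mul, map_pow, h3, one_pow, mul_one]
  rw [← h5, h4, map_one]

/-- T2 -/
theorem Dt_comm (H : Hyp φ F) {t' : X} (h : Tv φ t c) (h' : Tv φ t' c') (hD : Dt F t ≠ Dt F t') {x : X}
    (hx : x ∈ Dt F t') : x * t = t * x := by
  by_contra hcon
  apply hD
  have hxF : x ∈ F := Dt_le H h'.1 hx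
  -- the conjugates of t under x
  set s := x * t * x⁻¹ with hs_def
  have hs : s ∈ cl F t := ⟨x, hxF, rfl⟩
  have hne : s ≠ t := by
    intro h1
    apply hcon
    calc x * t = (x * t * x⁻¹) * x := by group
      _ = t * x := by rw [← hs_def, h1]
  have hc2 : Tv φ s (φ x c) := h.conj x
  set c2 := φ x c with hc2_def
  have hx3 : x * x * x = 1 := by
    obtain ⟨r, hr, hrne⟩ := exists_ne H h'
    rcases Dt_mem_cases H h' hr hrne hx with h7 | h7 | h7
    · rw [h7]; simp
    · rw [h7]; exact cube H h' hr hrne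
    · have h8 : r * t' = (t' * r)⁻¹ := by rw [mul_inv_rev, inv_of_sq h'.1, inv_of_sq (cl_sq h'.1 hr)]
      rw [h7, h8]
      have := congrArg (·⁻¹) (cube H h' hr hrne)
      simp only [mul_inv_rev, inv_one] at this
      simp only [mul_inv_rev]
      rw [← this]; group
  obtain ⟨e1, e2, e3, e4⟩ := act_gen H h hs hne hc2
  have hcc := centre_ne H h hs hne hc2
  have hVD := VD_eq H h hs hne hc2
  -- third element
  have hr : x * s * x⁻¹ ∈ cl F t := cl_conjF hxF hs
  have hr1 : x * s * x⁻¹ ≠ s := by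
    intro h1
    apply hne
    have : x * s * x⁻¹ = x * s * x⁻¹ := rfl
    calc s = x⁻¹ * (x * s * x⁻¹) * x := by group
      _ = x⁻¹ * s * x := by rw [h1]
      _ = t := by rw [hs_def]; group
  have hxinv : x⁻¹ = x * x := (eq_inv_of_mul_eq_one_left hx3).symm
  have hr2 : x * s * x⁻¹ ≠ t := by
    intro h1
    apply hne
    have h2 : x * t * x⁻¹ = t := by
      have h3 : x * x * t * (x * x)⁻¹ = t := by
        have h1' : x * (x * t * x⁻¹) * x⁻¹ = t := h1
        calc x * x * t * (x * x)⁻¹ = x * (x * t * x⁻¹) * x⁻¹ := by group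
          _ = t := h1'
      rw [← hxinv, inv_inv] at h3
      calc x * t * x⁻¹ = x * (x⁻¹ * t * x) * x⁻¹ := by rw [h3]
        _ = t := by group
    exact h2
  have hr3 : x * s * x⁻¹ = t * s * t := by
    rcases cl_cases H h hs hne hr with h7 | h7 | h7
    · exact absurd h7 hr2
    · exact absurd h7 hr1
    · exact h7
  have hrc : Tv φ (x * s * x⁻¹) (φ x c2) := hc2.conj x
  have hrc' : Tv φ (t * s * t) (c2 * c) := by
    have := hc2.conj t
    rwa [inv_of_sq h.1, e3] at this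
  have hxc2 : φ x c2 = c2 * c := by
    rw [hr3] at hrc
    exact hrc.uniq hrc'
  have hVsub : ∀ w, φ x w * w⁻¹ ∈ VD φ (Dt F t') := fun w => mem_VD hx w
  -- c, c2 in VD(D')
  have hm1 : c ∈ VD φ (Dt F t') := by
    have := hVsub c2
    rw [hxc2] at this
    have e : c2 * c * c2⁻¹ = c := by rw [mul_comm c2 c, mul_assoc, mul_inv_cancel, mul_one]
    rwa [e] at this
  have hm2 : c2 ∈ VD φ (Dt F t') := by
    have := (VD φ (Dt F t')).mul_mem (hVsub c) hm1
    have e : φ x c * c⁻¹ * c = c2 := by rw [hc2_def]; group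
    rwa [e] at this
  have hVle : VD φ (Dt F t) ≤ VD φ (Dt F t') := by
    rw [hVD]
    rintro w (rfl | rfl | rfl | rfl)
    · exact Subgroup.one_mem _
    · exact hm1
    · exact hm2
    · exact Subgroup.mul_mem _ hm1 hm2
  have hVeq : VD φ (Dt F t) = VD φ (Dt F t') := by
    have : Finite ↥(VD φ (Dt F t')) := Nat.finite_of_card_ne_zero (by rw [card_VD H h']; norm_num)
    exact Subgroup.eq_of_le_of_card_ge hVle (by rw [card_VD H h, card_VD H h'])
  -- x acts as d = t s
  have hd : t * s ∈ Dt F t := mul_mem_Dt hs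
  have hy : φ ((t * s)⁻¹ * x) = 1 := by
    have hyF : (t * s)⁻¹ * x ∈ F := F.mul_mem (F.inv_mem (Dt_le H h.1 hd)) hxF
    apply act_trivial_of H (V := VD φ (Dt F t)) hyF
    · intro w
      rw [phi_mul]
      have e : φ (t * s)⁻¹ (φ x w) * w⁻¹ = (φ (t * s)⁻¹ (φ x w) * (φ x w)⁻¹) * (φ x w * w⁻¹) := by group
      rw [e]
      refine Subgroup.mul_mem _ (mem_VD (inv_mem hd) _) ?_
      rw [hVeq]; exact hVsub w
    · have g1 : φ ((t * s)⁻¹ * x) c = c := by
        rw [phi_mul, ← hc2_def, ← e1, ← phi_mul, inv_mul_cancel, phi_one]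
      have g2 : φ ((t * s)⁻¹ * x) c2 = c2 := by
        rw [phi_mul, hxc2, ← e2, ← phi_mul, inv_mul_cancel, phi_one]
      rw [hVD]
      rintro v (rfl | rfl | rfl | rfl)
      · rw [map_one]
      · exact g1
      · exact g2
      · rw [map_mul, g1, g2]
  have hφ : φ (t * s) = φ x := by
    rw [map_mul, map_inv] at hy
    exact (inv_mul_eq_one.mp hy)
  -- replace t' by the member of its class with centre c
  obtain ⟨r, hr', hrc''⟩ := exists_centre H h' hm1 h.2.1
  have hxr : x ∈ Dt F r := by rw [Dt_cl h'.1 hr']; exact hx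
  obtain ⟨r2, hr2', hr2c⟩ := exists_centre H h' hm2 hc2.2.1
  have hr2r : r2 ≠ r := by
    rintro rfl
    exact hcc (Tv.uniq hrc'' hr2c)
  have hr2r' : r2 ∈ cl F r := cl_trans (cl_symm hr') hr2'
  obtain ⟨f1, f2, f3, f4⟩ := act_gen H hrc'' hr2r' hr2r hr2c
  have : t = r := eq_of_inv H h hrc'' (cube H h hs hne) hφ (Dt_inv h.1 rfl hs) (Dt_invert H hrc'' hxr)
    (fun w => by rw [← hVD]; exact mem_VD hd w) e1 hcc e2 e3 f3
  rw [this]
  exact Dt_cl h'.1 hr'

/-- T4 -/
theorem Tv_comm (H : Hyp φ F) {t' : X} (h : Tv φ t c) (h' : Tv φ t' c') (hD : Dt F t ≠ Dt F t') :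
    t' * t = t * t' := by
  -- t' centralizes Dt F t
  have h1 : ∀ x ∈ Dt F t, x * t' = t' * x := fun x hx => Dt_comm H h' h hD.symm hx
  have h2 : (Dt F t).map (MulAut.conj t').toMonoidHom = Dt F t := by
    apply le_antisymm
    · rintro _ ⟨x, hx, rfl⟩
      have : (MulAut.conj t').toMonoidHom x = x := by
        simp only [MulEquiv.coe_toMonoidHom, MulAut.conj_apply]
        rw [← h1 x hx]; group
      rw [this]; exact hx
    · intro x hx
      refine ⟨x, hx, ?_⟩
      simp only [MulEquiv.coe_toMonoidHom, MulAut.conj_apply]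
      rw [← h1 x hx]; group
  rw [Dt_conj H] at h2
  have h3 : t' * t * t'⁻¹ ∈ cl F t := mem_cl_of_Dt_eq H h (h.conj t') h2.symm
  by_cases h4 : t' * t * t'⁻¹ = t
  · calc t' * t = (t' * t * t'⁻¹) * t' := by group
      _ = t * t' := by rw [h4]
  exfalso
  set s := t' * t * t'⁻¹ with hs
  -- t' s t'⁻¹ = t
  have h5 : t' * s * t'⁻¹ = t := by
    rw [hs]
    calc t' * (t' * t * t'⁻¹) * t'⁻¹ = (t' * t') * t * (t' * t')⁻¹ := by group
      _ = t := by rw [h'.1]; group
  have h6 : t' * (t * s) * t'⁻¹ = s * t := by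
    calc t' * (t * s) * t'⁻¹ = (t' * t * t'⁻¹) * (t' * s * t'⁻¹) := by group
      _ = s * t := by rw [h5]
  have h7 : t' * (t * s) * t'⁻¹ = t * s := by
    rw [← h1 _ (mul_mem_Dt h3)]; group
  rw [h7] at h6
  exact h4 (eq_of_comm H h.1 (self_mem_cl t) h3 h6).symm

/-- different subgroups act trivially on each other's commutator -/
theorem Dt_triv_VD (H : Hyp φ F) {t' : X} (h : Tv φ t c) (h' : Tv φ t' c') (hD : Dt F t ≠ Dt F t') {x : X}
    (hx : x ∈ Dt F t') {v : W} (hv : v ∈ VD φ (Dt F t)) : φ x v = v := by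
  by_cases hv1 : v = 1
  · rw [hv1, map_one]
  obtain ⟨s, hs, hsc⟩ := exists_centre H h hv hv1
  have hD' : Dt F s ≠ Dt F t' := by rw [Dt_cl h.1 hs]; exact hD
  have h1 := Dt_comm H hsc h' hD' hx
  have h2 := hsc.conj x
  have h3 : x * s * x⁻¹ = s := by rw [h1]; group
  rw [h3] at h2
  exact h2.uniq hsc

/-- no fixed points of `D` on `[W, D]` -/
theorem VD_fix (H : Hyp φ F) (h : Tv φ t c) {v : W} (hv : v ∈ VD φ (Dt F t)) (hfix : ∀ x ∈ Dt F t, φ x v = v) :
    v = 1 := by
  by_contra hv1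
  obtain ⟨s, hs, hsc⟩ := exists_centre H h hv hv1
  obtain ⟨r, hr, hne⟩ := exists_ne H hsc
  obtain ⟨c2, hc2⟩ := hsc.of_cl hr
  obtain ⟨e1, e2, e3, e4⟩ := act_gen H hsc hr hne hc2
  have hd : s * r ∈ Dt F t := by rw [← Dt_cl h.1 hs]; exact mul_mem_Dt hr
  rw [hfix _ hd] at e1
  exact centre_ne H hsc hr hne hc2 e1

theorem VD_inf (H : Hyp φ F) {t' : X} (h : Tv φ t c) (h' : Tv φ t' c') (hD : Dt F t ≠ Dt F t') {v : W}
    (hv : v ∈ VD φ (Dt F t)) (hv' : v ∈ VD φ (Dt F t')) : v = 1 :=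
  VD_fix H h' hv' fun _ hx => Dt_triv_VD H h h' hD hx hv

end Cfsg.Agent.H17.Ks
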