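import Cfsg.Agent.H17_WC2
import Cfsg.Agent.H13_NPC2

set_option autoImplicit false
open Cfsg

/-! Normal `p`-complements from `C(Z(S))` and `N(J(S))`. -/

namespace Cfsg.Agent.H17.NPC

universe u

open Subgroup Cfsg.Agent.H13.Syl Cfsg.Agent.H13.CF Cfsg.Agent.H13.Sec Cfsg.Agent.H2.Basic
  Cfsg.Agent.H13.WC Cfsg.Agent.H13.NPC
open Cfsg.Agent.H17.Tr (AA JA_eq)

/-- the centre of a subgroup, in the ambient group -/
abbrev ZS {X : Type*} [Group X] (S : Subgroup X) : Subgroup X := S ⊓ centralizer (S : Set X)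

theorem injOn {X Y : Type*} [Group X] [Group Y] {f : X →* Y} {S : Subgroup X} (hinj : ∀ x ∈ S, f x = 1 → x = 1)
    {x y : X} (hx : x ∈ S) (hy : y ∈ S) (h : f x = f y) : x = y := by
  have h1 := hinj (x * y⁻¹) (S.mul_mem hx (S.inv_mem hy)) (by rw [map_mul, map_inv, h, mul_inv_cancel])
  exact mul_inv_eq_one.mp h1

theorem card_map_injOn {X Y : Type*} [Group X] [Group Y] {f : X →* Y} {S A : Subgroup X}
    (hinj : ∀ x ∈ S, f x = 1 → x = 1) (hA : A ≤ S) : Nat.card (A.map f) = Nat.card A := by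
  symm
  apply Nat.card_congr
  refine Equiv.ofBijective (fun a : A => (⟨f a, a, a.2, rfl⟩ : A.map f)) ⟨?_, ?_⟩
  · intro a b h
    exact Subtype.ext (injOn hinj (hA a.2) (hA b.2) (congrArg Subtype.val h))
  · rintro ⟨_, a, ha, rfl⟩
    exact ⟨⟨a, ha⟩, rfl⟩

theorem ZS_map {X Y : Type*} [Group X] [Group Y] (f : X →* Y) {S : Subgroup X}
    (hinj : ∀ x ∈ S, f x = 1 → x = 1) : ZS (S.map f) = (ZS S).map f := by
  ext y
  constructor
  · rintro ⟨⟨x, hx, rfl⟩, hc⟩
    refine ⟨x, ⟨hx, ?_⟩, rfl⟩
    show x ∈ centralizer (S : Set X)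
    rw [Subgroup.mem_centralizer_iff]
    intro s hs
    apply injOn hinj (S.mul_mem hs hx) (S.mul_mem hx hs)
    rw [map_mul, map_mul]
    exact Subgroup.mem_centralizer_iff.mp hc (f s) ⟨s, hs, rfl⟩
  · rintro ⟨x, ⟨hx, hc⟩, rfl⟩
    refine ⟨⟨x, hx, rfl⟩, ?_⟩
    show f x ∈ centralizer ((S.map f : Subgroup Y) : Set Y)
    rw [Subgroup.mem_centralizer_iff]
    rintro _ ⟨s, hs, rfl⟩
    rw [← map_mul, ← map_mul, Subgroup.mem_centralizer_iff.mp hc s hs]

theorem AA_map {X Y : Type*} [Group X] [Group Y] (f : X →* Y) {S : Subgroup X}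
    (hinj : ∀ x ∈ S, f x = 1 → x = 1) {A : Subgroup X} (hA : A ∈ AA S) : A.map f ∈ AA (S.map f) := by
  obtain ⟨h1, h2, h3⟩ := hA
  refine ⟨Subgroup.map_mono h1, ?_, ?_⟩
  · rintro _ ⟨a, ha, rfl⟩ _ ⟨b, hb, rfl⟩
    rw [← map_mul, ← map_mul, h2 a ha b hb]
  · intro B hB hBc
    have h4 : B = (B.comap f ⊓ S).map f := by
      ext y
      constructor
      · intro hy
        obtain ⟨x, hx, rfl⟩ := hB hy
        exact ⟨x, ⟨hy, hx⟩, rfl⟩
      · rintro ⟨x, ⟨hx, _⟩, rfl⟩
        exact hx
    rw [h4, card_map_injOn hinj inf_le_right, card_map_injOn hinj h1]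
    apply h3 _ inf_le_right
    rintro a ⟨ha, haS⟩ b ⟨hb, hbS⟩
    apply injOn hinj (S.mul_mem haS hbS) (S.mul_mem hbS haS)
    rw [map_mul, map_mul]
    exact hBc _ ha _ hb

theorem JA_map {X Y : Type*} [Group X] [Group Y] (f : X →* Y) {S : Subgroup X}
    (hinj : ∀ x ∈ S, f x = 1 → x = 1) : thompsonSubgroupAOf (S.map f) = (thompsonSubgroupAOf S).map f := by
  rw [JA_eq, JA_eq]
  apply le_antisymm
  · refine sSup_le ?_
    intro B hB
    have h4 : B = (B.comap f ⊓ S).map f := by
      ext y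
      constructor
      · intro hy
        obtain ⟨x, hx, rfl⟩ := hB.1 hy
        exact ⟨x, ⟨hy, hx⟩, rfl⟩
      · rintro ⟨x, ⟨hx, _⟩, rfl⟩
        exact hx
    rw [h4]
    apply Subgroup.map_mono
    apply le_sSup
    refine ⟨inf_le_right, ?_, ?_⟩
    · rintro a ⟨ha, haS⟩ b ⟨hb, hbS⟩
      apply injOn hinj (S.mul_mem haS hbS) (S.mul_mem hbS haS)
      rw [map_mul, map_mul]
      exact hB.2.1 _ ha _ hb
    · intro C hC hCc
      have h5 := hB.2.2 (C.map f) (Subgroup.map_mono hC) (by
        rintro _ ⟨a, ha, rfl⟩ _ ⟨b, hb, rfl⟩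
        rw [← map_mul, ← map_mul, hCc a ha b hb])
      rw [h4, card_map_injOn hinj hC, card_map_injOn hinj inf_le_right] at h5
      exact h5
  · rw [Subgroup.map_le_iff_le_comap]
    refine sSup_le ?_
    intro A hA
    rw [← Subgroup.map_le_iff_le_comap]
    exact le_sSup (AA_map f hinj hA)

variable {p : ℕ} [Fact p.Prime]

/-- the statement proved by induction -/
def CP (p : ℕ) (X : Type u) [Group X] : Prop :=
  ∀ S : Subgroup X, IsSylIn p S ⊤ → (p ≠ 2 ∨ ¬ Involves (Equiv.Perm (Fin 4)) X) →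
    HasNormalPComplement p (centralizer ((ZS S : Subgroup X) : Set X)) →
    HasNormalPComplement p (normalizer ((thompsonSubgroupAOf S : Subgroup X) : Set X)) →
    HasNormalPComplement p X

theorem npc_cent_of_injective {X Y : Type u} [Group X] [Group Y]
    [Finite X] [Finite Y] (f : X →* Y) (hf : Function.Injective f) {S : Subgroup X}
    (h : HasNormalPComplement p (centralizer ((ZS (S.map f) : Subgroup Y) : Set Y))) :
    HasNormalPComplement p (centralizer ((ZS S : Subgroup X) : Set X)) := by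
  rw [ZS_map f (fun x _ hx => hf (by rw [hx, map_one]))] at h
  let φ : centralizer ((ZS S : Subgroup X) : Set X) →*
      centralizer (((ZS S).map f : Subgroup Y) : Set Y) :=
    (f.comp (Subgroup.subtype _)).codRestrict _ (fun x => by
      rw [Subgroup.mem_centralizer_iff]
      rintro _ ⟨s, hs, rfl⟩
      have h1 := Subgroup.mem_centralizer_iff.mp x.2 s hs
      show f s * f x = f x * f s
      rw [← map_mul, ← map_mul, h1])
  refine npc_of_injective φ ?_ h
  intro x y hxy
  apply Subtype.ext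
  apply hf
  exact congrArg Subtype.val hxy

theorem npc_norm_of_injective {X Y : Type u} [Group X] [Group Y]
    [Finite X] [Finite Y] (f : X →* Y) (hf : Function.Injective f) {S : Subgroup X}
    (h : HasNormalPComplement p (normalizer ((thompsonSubgroupAOf (S.map f) : Subgroup Y) : Set Y))) :
    HasNormalPComplement p (normalizer ((thompsonSubgroupAOf S : Subgroup X) : Set X)) := by
  rw [JA_map f (fun x _ hx => hf (by rw [hx, map_one]))] at h
  let φ : normalizer ((thompsonSubgroupAOf S : Subgroup X) : Set X) →*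
      normalizer (((thompsonSubgroupAOf S).map f : Subgroup Y) : Set Y) :=
    (f.comp (Subgroup.subtype _)).codRestrict _ (fun x => Subgroup.le_normalizer_map f ⟨x, x.2, rfl⟩)
  refine npc_of_injective φ ?_ h
  intro x y hxy
  apply Subtype.ext
  apply hf
  exact congrArg Subtype.val hxy

theorem CP_of_equiv {X Y : Type u} [Group X] [Group Y] [Finite X]
    (e : X ≃* Y) (h : CP p X) : CP p Y := by
  have : Finite Y := Finite.of_equiv X e.toEquiv
  intro S hS h4 hC hN
  have h1 := isSylIn_map e.symm.toMonoidHom e.symm.injective hS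
  have h2 : (⊤ : Subgroup Y).map e.symm.toMonoidHom = ⊤ :=
    Subgroup.map_top_of_surjective _ e.symm.surjective
  rw [h2] at h1
  have h5 : (S.map e.symm.toMonoidHom).map e.toMonoidHom = S := by
    rw [Subgroup.map_map]
    convert Subgroup.map_id S
    ext x; simp
  have h3 := h (S.map e.symm.toMonoidHom) h1 (h4.imp_right fun h6 h7 => h6 (involves_trans h7 (involves_congr e.symm)))
    (by
      refine npc_cent_of_injective e.toMonoidHom e.injective ?_
      rw [h5]; exact hC)
    (by
      refine npc_norm_of_injective e.toMonoidHom e.injective ?_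
      rw [h5]; exact hN)
  exact npc_mulEquiv e.symm h3

section red

variable {X : Type u} [Group X] [Finite X]
  (IH : ∀ (Y : Type u) [Group Y] [Finite Y], Nat.card Y < Nat.card X → CP p Y)
  {S : Subgroup X} (hS : IsSylIn p S ⊤) (h4 : p ≠ 2 ∨ ¬ Involves (Equiv.Perm (Fin 4)) X)
  (hC : HasNormalPComplement p (centralizer ((ZS S : Subgroup X) : Set X)))
  (hN : HasNormalPComplement p (normalizer ((thompsonSubgroupAOf S : Subgroup X) : Set X)))
  (hX : ¬ HasNormalPComplement p X)

include IH h4 in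
theorem sub_npc' {H P : Subgroup X} (hH : H ≠ ⊤) (hP : IsSylIn p P H)
    (h : HasNormalPComplement p (centralizer ((ZS P : Subgroup X) : Set X)))
    (h' : HasNormalPComplement p (normalizer ((thompsonSubgroupAOf P : Subgroup X) : Set X))) :
    HasNormalPComplement p H := by
  have hP' := isSylIn_subgroupOf hP
  have hPm : (P.subgroupOf H).map H.subtype = P := Subgroup.map_subgroupOf_eq_of_le hP.1
  refine IH H (card_subgroup_lt hH) (P.subgroupOf H) hP'
    (h4.imp_right fun h6 h7 => h6 (involves_trans h7 (involves_subgroup H))) ?_ ?_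
  · refine npc_cent_of_injective H.subtype H.subtype_injective ?_
    rw [hPm]; exact h
  · refine npc_norm_of_injective H.subtype H.subtype_injective ?_
    rw [hPm]; exact h'

omit [Finite X] in
theorem cent_le_norm (A : Subgroup X) : centralizer (A : Set X) ≤ normalizer (A : Set X) :=
  Subgroup.centralizer_le_normalizer _

omit [Finite X] in
theorem ZS_cj (g : X) (A : Subgroup X) : ZS (cj g A) = cj g (ZS A) :=
  ZS_map _ fun x _ hx => (MulAut.conj g).injective (by rw [map_one]; exact hx)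

omit [Finite X] in
theorem JS_cj (g : X) (A : Subgroup X) : thompsonSubgroupAOf (cj g A) = cj g (thompsonSubgroupAOf A) :=
  JA_map _ fun x _ hx => (MulAut.conj g).injective (by rw [map_one]; exact hx)

theorem norm_le_norm_ZS (A : Subgroup X) :
    normalizer (A : Set X) ≤ normalizer ((ZS A : Subgroup X) : Set X) := by
  intro g hg
  rw [mem_normalizer_iff_cj] at hg ⊢
  rw [← ZS_cj, hg]

theorem norm_le_norm_JS (A : Subgroup X) :
    normalizer (A : Set X) ≤ normalizer ((thompsonSubgroupAOf A : Subgroup X) : Set X) := by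
  intro g hg
  rw [mem_normalizer_iff_cj] at hg ⊢
  rw [← JS_cj, hg]

theorem ZS_ne_bot {P : Subgroup X} (hP : IsPGroup p P) (h1 : P ≠ ⊥) : ZS P ≠ ⊥ := by
  intro h
  have : Nontrivial P := (Subgroup.nontrivial_iff_ne_bot P).2 h1
  have h2 := hP.center_nontrivial
  rw [Subgroup.nontrivial_iff_exists_ne_one] at h2
  obtain ⟨z, hz, hz1⟩ := h2
  apply hz1
  have h3 : (z : X) ∈ ZS P := by
    refine ⟨z.2, ?_⟩
    show (z : X) ∈ centralizer (P : Set X)
    rw [Subgroup.mem_centralizer_iff]
    intro s hs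
    exact congrArg Subtype.val (Subgroup.mem_center_iff.mp hz ⟨s, hs⟩)
  rw [h, Subgroup.mem_bot] at h3
  exact Subtype.ext h3

theorem ZS_le_JS (P : Subgroup X) : ZS P ≤ thompsonSubgroupAOf P := by
  rw [JA_eq]
  obtain ⟨A, hA⟩ := Cfsg.Agent.H17.Tr.exists_AA P
  exact (Cfsg.Agent.H17.Tr.center_le_AA hA).trans (le_sSup hA)

omit [Finite X] in
theorem JS_le (P : Subgroup X) : thompsonSubgroupAOf P ≤ P := by
  exact Cfsg.Agent.H17.Tr.JA_le P

theorem JS_ne_bot {P : Subgroup X} (hP : IsPGroup p P) (h1 : P ≠ ⊥) : thompsonSubgroupAOf P ≠ ⊥ := by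
  intro h
  apply ZS_ne_bot hP h1
  rw [eq_bot_iff, ← h]
  exact ZS_le_JS P

include IH hS h4 hC hN hX in
theorem pPrimeCore_eq_bot : pPrimeCore p X = ⊥ := by
  by_contra hne
  set R := pPrimeCore p X with hR
  have hRn : R.Normal := inferInstance
  have hRcop : (Nat.card R).Coprime p := H11.Cores.pPrimeCore_coprime p
  have hRp : ¬ p ∣ Nat.card R := (Nat.Prime.coprime_iff_not_dvd Fact.out).1 hRcop.symm
  set π := QuotientGroup.mk' R with hπ
  have hsurj : Function.Surjective π := QuotientGroup.mk'_surjective R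
  have hinj : ∀ x ∈ S, π x = 1 → x = 1 := by
    intro x hx h1
    have hxR : x ∈ R := by
      rwa [hπ, QuotientGroup.mk'_apply, QuotientGroup.eq_one_iff] at h1
    have h2 : orderOf x ∣ Nat.card R := by
      have := orderOf_dvd_natCard (⟨x, hxR⟩ : R)
      rwa [Subgroup.orderOf_mk] at this
    exact Cfsg.Agent.H13.Bad.eq_one_of_pow_coprime hS.2.1 hx (Nat.Coprime.coprime_dvd_left h2 hRcop) (pow_orderOf_eq_one x)
  apply hX
  apply npc_of_quotient_p' R hRp
  refine IH (X ⧸ R) (card_quotient_lt hne) (S.map π) (isSylIn_map_surj π hsurj hS)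
    (h4.imp_right fun h6 h7 => h6 (involves_trans h7 (involves_quotient R))) ?_ ?_
  · rw [ZS_map π hinj]
    refine npc_of_map π hC ?_
    intro q hq
    have hq' := cent_le_norm _ hq
    obtain ⟨c, rfl⟩ := hsurj q
    obtain ⟨n, hn, hnc⟩ := exists_lift_normalizer hRcop (hS.2.1.to_le (inf_le_left : ZS S ≤ S)) hq'
    have h1 : π (n * c) = π c := by
      have : π n = 1 := by rw [hπ, QuotientGroup.mk'_apply, QuotientGroup.eq_one_iff]; exact hn
      rw [map_mul, this, one_mul]
    refine ⟨n * c, ?_, h1⟩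
    show n * c ∈ centralizer ((ZS S : Subgroup X) : Set X)
    rw [Subgroup.mem_centralizer_iff]
    intro z hz
    have h2 : (n * c) * z * (n * c)⁻¹ ∈ ZS S := (Subgroup.mem_normalizer_iff.mp hnc z).mp hz
    have h3 : (n * c) * z * (n * c)⁻¹ = z := by
      apply injOn hinj h2.1 hz.1
      rw [map_mul, map_mul, map_inv, h1]
      have := Subgroup.mem_centralizer_iff.mp hq (π z) ⟨z, hz, rfl⟩
      rw [← this]; group
    calc z * (n * c) = ((n * c) * z * (n * c)⁻¹) * (n * c) := by rw [h3]
      _ = n * c * z := by group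
  · rw [JA_map π hinj]
    refine npc_of_map π hN ?_
    intro q hq
    obtain ⟨c, rfl⟩ := hsurj q
    obtain ⟨n, hn, hnc⟩ := exists_lift_normalizer hRcop (hS.2.1.to_le (JS_le S)) hq
    refine ⟨n * c, hnc, ?_⟩
    have : π n = 1 := by rw [hπ, QuotientGroup.mk'_apply, QuotientGroup.eq_one_iff]; exact hn
    rw [map_mul, this, one_mul]

include IH hS h4 hC hN hX in
theorem pCore_ne_bot : pCore p X ≠ ⊥ := by
  classical
  -- some nontrivial p-subgroup has bad normalizer
  have hex : ∃ Q : Subgroup X, Q ≠ ⊥ ∧ IsPGroup p Q ∧ ¬ HasNormalPComplement p (normalizer (Q : Set X)) := by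
    by_contra hcon
    push Not at hcon
    apply hX
    apply H2.Fusion3.npc_of_frobenius
    intro Q hQ g hg hgp
    by_cases hQ1 : Q = ⊥
    · rw [hQ1, Subgroup.mem_centralizer_iff]
      intro x hx
      have : x = 1 := hx
      rw [this]; simp
    · have h1 := hcon Q hQ1 hQ
      have h2 := H2.Fusion3.mem_centralizer_of_npc h1 (Q.subgroupOf (normalizer (Q : Set X)))
        hQ.comap_subtype ⟨g, hg⟩ (by
          rw [mem_normalizer_subtype, Subgroup.map_subgroupOf_eq_of_le Subgroup.le_normalizer]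
          exact hg) (by rwa [Subgroup.orderOf_mk])
      rw [Subgroup.mem_centralizer_iff] at h2 ⊢
      intro x hx
      exact congrArg Subtype.val (h2 ⟨x, Subgroup.le_normalizer hx⟩ hx)
  obtain ⟨Q₀, hQ₀1, hQ₀2, hQ₀3⟩ := hex
  obtain ⟨P₀, hP₀⟩ := exists_isSylIn (p := p) (normalizer (Q₀ : Set X))
  obtain ⟨⟨Q, P⟩, ⟨hQ1, hQ2, hP, hQ3⟩, hmax⟩ := Set.exists_max_image
    {q : Subgroup X × Subgroup X | q.1 ≠ ⊥ ∧ IsPGroup p q.1 ∧ IsSylIn p q.2 (normalizer (q.1 : Set X)) ∧
      ¬ HasNormalPComplement p (normalizer (q.1 : Set X))}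
    (fun q => Nat.card q.2) (Set.toFinite _) ⟨(Q₀, P₀), hQ₀1, hQ₀2, hP₀, hQ₀3⟩
  simp only [] at hQ1 hQ2 hP hQ3 hmax
  have hQtop : normalizer (Q : Set X) = ⊤ := by
    by_contra hne
    apply hQ3
    obtain ⟨P', hPP', hP'⟩ := exists_isSylIn_ge hP.2.1 (le_top : P ≤ ⊤)
    rcases eq_or_lt_of_le hPP' with heq | hlt
    · -- P is a Sylow subgroup of X
      rw [← heq] at hP'
      obtain ⟨x, _, hx⟩ := hP'.exists_conj_eq hS
      refine sub_npc' IH h4 hne hP ?_ ?_
      · rw [← hx, ZS_cj, ← cj_centralizer]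
        exact npc_of_map (MulAut.conj x).toMonoidHom hC le_rfl
      · rw [← hx, JS_cj, ← cj_normalizer]
        exact npc_of_map (MulAut.conj x).toMonoidHom hN le_rfl
    · have hP1 : P ≠ ⊥ := by
        intro h
        apply hQ1
        have hQP : Q ≤ P := by
          obtain ⟨y, hy, hyP⟩ := hP.exists_conj_le hQ2 Subgroup.le_normalizer
          rwa [cj_eq_of_mem_normalizer hy] at hyP
        rw [h] at hQP
        exact le_bot_iff.1 hQP
      have hlt2 := lt_normalizer_of_lt hP'.2.1 hlt
      have key : ∀ A : Subgroup X, A ≠ ⊥ → A ≤ P → normalizer (P : Set X) ≤ normalizer (A : Set X) →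
          HasNormalPComplement p (normalizer (A : Set X)) := by
        intro A hA1 hAP hle'
        have hAp : IsPGroup p A := hP.2.1.to_le hAP
        have hle : P' ⊓ normalizer (P : Set X) ≤ normalizer (A : Set X) := inf_le_right.trans hle'
        obtain ⟨P₂, hP₂, hP₂s⟩ := exists_isSylIn_ge (hP'.2.1.to_le inf_le_left) hle
        have hcard : Nat.card P < Nat.card P₂ :=
          (card_lt_of_lt hlt2).trans_le (Subgroup.card_le_of_le hP₂)
        by_contra hbad
        have := hmax (A, P₂) ⟨hA1, hAp, hP₂s, hbad⟩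
        exact absurd this (not_le_of_gt hcard)
      refine sub_npc' IH h4 hne hP ?_ ?_
      · exact npc_of_le (cent_le_norm _) (key _ (ZS_ne_bot hP.2.1 hP1) inf_le_left (norm_le_norm_ZS P))
      · exact key _ (JS_ne_bot hP.2.1 hP1) (JS_le P) (norm_le_norm_JS P)
  have hle : Q ≤ pCore p X := H11.Cores.le_pCore p (hN := Subgroup.normalizer_eq_top_iff.1 hQtop) hQ2
  intro h
  rw [h] at hle
  exact hQ1 (le_bot_iff.1 hle)

include IH hS h4 hC hN hX in
theorem npc_quot : HasNormalPComplement p (X ⧸ pCore p X) := by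
  have hne := pCore_ne_bot IH hS h4 hC hN hX
  set Q := pCore p X with hQ
  have hQp : IsPGroup p Q := H11.Cores.pCore_isPGroup p
  have hQS : Q ≤ S := pCore_le_of_isSylIn hS
  set π := QuotientGroup.mk' Q with hπ
  have hsurj : Function.Surjective π := QuotientGroup.mk'_surjective Q
  have hSQ : S ≠ Q := by
    intro h
    apply hX
    have h1 : normalizer (S : Set X) = ⊤ := by
      rw [h]; exact Subgroup.normalizer_eq_top Q
    have h2 := norm_le_norm_JS S
    rw [h1, top_le_iff] at h2
    rw [← npc_top_iff, ← h2]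
    exact hN
  set S' := S.map π with hS'
  have hS's : IsSylIn p S' ⊤ := isSylIn_map_surj π hsurj hS
  have hS'1 : S' ≠ ⊥ := by
    intro h
    rw [hS', Subgroup.map_eq_bot_iff, hπ, QuotientGroup.ker_mk'] at h
    exact hSQ (le_antisymm h hQS)
  have key : ∀ B : Subgroup (X ⧸ Q), B ≠ ⊥ → B ≤ S' →
      normalizer (S' : Set (X ⧸ Q)) ≤ normalizer (B : Set (X ⧸ Q)) →
      HasNormalPComplement p (normalizer (B : Set (X ⧸ Q))) := by
    intro B hBbot hBS' hBN
    set A := B.comap π with hA
    have hAm : A.map π = B := Subgroup.map_comap_eq_self_of_surjective hsurj _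
    have hnA : normalizer (A : Set X) = (normalizer (B : Set (X ⧸ Q))).comap π :=
      (Subgroup.comap_normalizer_eq_of_surjective _ hsurj).symm
    have hAS : A ≤ S := by
      have h1 : A ≤ S'.comap π := Subgroup.comap_mono hBS'
      refine h1.trans ?_
      rw [hS', Subgroup.comap_map_eq, hπ, QuotientGroup.ker_mk', sup_eq_left.2 hQS]
    have hAtop : normalizer (A : Set X) ≠ ⊤ := by
      intro h
      have h1 : A ≤ Q := H11.Cores.le_pCore p (hN := Subgroup.normalizer_eq_top_iff.1 h) (hS.2.1.to_le hAS)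
      apply hBbot
      rw [← hAm, Subgroup.map_eq_bot_iff, hπ, QuotientGroup.ker_mk']
      exact h1
    have hSA : S ≤ normalizer (A : Set X) := by
      rw [hnA]
      intro s hs
      rw [Subgroup.mem_comap]
      exact hBN (Subgroup.le_normalizer ⟨s, hs, rfl⟩)
    have h1 : HasNormalPComplement p (normalizer (A : Set X)) :=
      sub_npc' IH h4 hAtop (hS.mono hSA le_top) hC hN
    refine npc_of_map π h1 ?_
    rw [hnA, Subgroup.map_comap_eq_self_of_surjective hsurj]
  refine IH (X ⧸ Q) (card_quotient_lt hne) S' hS's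
    (h4.imp_right fun h6 h7 => h6 (involves_trans h7 (involves_quotient Q))) ?_ ?_
  · exact npc_of_le (cent_le_norm _) (key _ (ZS_ne_bot hS's.2.1 hS'1) inf_le_left (norm_le_norm_ZS _))
  · exact key _ (JS_ne_bot hS's.2.1 hS'1) (JS_le _) (norm_le_norm_JS _)

include IH hS h4 hC hN hX in
theorem constrained : centralizer ((pCore p X : Subgroup X) : Set X) ≤ pCore p X := by
  have h1 := npc_quot IH hS h4 hC hN hX
  have h2 := pPrimeCore_eq_bot IH hS h4 hC hN hX
  set Q := pCore p X with hQ
  have hQp : IsPGroup p Q := H11.Cores.pCore_isPGroup p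
  set C := centralizer (Q : Set X) with hC
  have hCn : C.Normal := inferInstance
  -- C is npc
  have hCpc : HasNormalPComplement p C := by
    have hZn : (Q.subgroupOf C).Normal := inferInstance
    refine npc_of_central_ext (Z := Q.subgroupOf C) ?_ hQp.comap_subtype ?_
    · intro z hz
      rw [Subgroup.mem_center_iff]
      intro x
      apply Subtype.ext
      exact (Subgroup.mem_centralizer_iff.1 x.2 z hz).symm
    · let f : C →* X ⧸ Q := (QuotientGroup.mk' Q).comp C.subtype
      have hker : f.ker = Q.subgroupOf C := by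
        ext x
        rw [MonoidHom.mem_ker, Subgroup.mem_subgroupOf]
        exact QuotientGroup.eq_one_iff _
      have e1 : C ⧸ Q.subgroupOf C ≃* C ⧸ f.ker := QuotientGroup.quotientMulEquivOfEq hker.symm
      refine npc_mulEquiv e1 ?_
      exact npc_of_injective (QuotientGroup.kerLift f) (QuotientGroup.kerLift_injective f) h1
  have h3 := Op_coprime hCpc
  have hOn : (Op p C).Normal := by
    rw [← Subgroup.normalizer_eq_top_iff, eq_top_iff]
    intro x _
    rw [mem_normalizer_iff_cj, Op_cj, cj_eq_of_normal]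
  have h4 : Op p C ≤ ⊥ := by
    rw [← h2]; exact H11.Cores.le_pPrimeCore p (hN := hOn) h3
  have hCp : IsPGroup p C := by
    rw [IsPGroup.iff_orderOf]
    intro x
    obtain ⟨k, m, hm, hk⟩ := Nat.exists_eq_pow_mul_and_not_dvd (orderOf_pos x).ne' p
      (Fact.out : p.Prime).ne_one
    have h5 : ((x : X) ^ p ^ k) ∈ Op p C := by
      refine mem_Op (pow_mem x.2 _) ?_
      rw [orderOf_pow' _ (pow_ne_zero _ (Fact.out : p.Prime).ne_zero), Subgroup.orderOf_coe, hk,
        Nat.gcd_eq_right (Dvd.intro _ rfl), Nat.mul_div_cancel_left _ (pow_pos (Fact.out : p.Prime).pos _)]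
      exact ((Nat.Prime.coprime_iff_not_dvd Fact.out).2 hm).symm
    have h6 := h4 h5
    rw [Subgroup.mem_bot] at h6
    have h7 : orderOf x ∣ p ^ k := by
      rw [← Subgroup.orderOf_coe]; exact orderOf_dvd_of_pow_eq_one h6
    obtain ⟨j, _, hj⟩ := (Nat.dvd_prime_pow Fact.out).1 h7
    exact ⟨j, hj⟩
  exact H11.Cores.le_pCore p (hN := hCn) hCp

/-- a subgroup containing `S` with a normal `p`-complement is `S` -/
theorem eq_S_of_npc (hCQ : centralizer ((pCore p X : Subgroup X) : Set X) ≤ pCore p X)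
    (hS : IsSylIn p S ⊤) {H : Subgroup X} (hSH : S ≤ H) (hHpc : HasNormalPComplement p H) : H = S := by
  set Q := pCore p X with hQ
  have hQp : IsPGroup p Q := H11.Cores.pCore_isPGroup p
  have hQS : Q ≤ S := pCore_le_of_isSylIn hS
  have h1 := Op_coprime hHpc
  have hHO : H ≤ normalizer ((Op p H : Subgroup X) : Set X) := by
    intro x hx
    rw [mem_normalizer_iff_cj, Op_cj, cj_eq_of_mem hx]
  have hinf : Q ⊓ Op p H = ⊥ := by
    rw [eq_bot_iff]
    intro x hx
    obtain ⟨hx1, hx2⟩ := Subgroup.mem_inf.1 hx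
    have h2 : orderOf x ∣ Nat.card (Op p H) := by
      have := orderOf_dvd_natCard (⟨x, hx2⟩ : Op p H)
      rwa [Subgroup.orderOf_mk] at this
    exact Cfsg.Agent.H13.Bad.eq_one_of_pow_coprime hQp hx1 (Nat.Coprime.coprime_dvd_left h2 h1) (pow_orderOf_eq_one x)
  have h2 : Op p H ≤ centralizer (Q : Set X) := by
    rw [Subgroup.le_centralizer_iff, ← Subgroup.commutator_eq_bot_iff_le_centralizer, eq_bot_iff, ← hinf]
    refine le_inf (Subgroup.commutator_le_left Q _) ?_
    exact Subgroup.le_normalizer_iff_commutator_le_right.1 ((hQS.trans hSH).trans hHO)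
  have h3 : Op p H ≤ ⊥ := by
    rw [← hinf]; exact le_inf (h2.trans hCQ) le_rfl
  have hHp : IsPGroup p H := by
    rw [IsPGroup.iff_orderOf]
    intro x
    obtain ⟨k, m, hm, hk⟩ := Nat.exists_eq_pow_mul_and_not_dvd (orderOf_pos x).ne' p
      (Fact.out : p.Prime).ne_one
    have h5 : ((x : X) ^ p ^ k) ∈ Op p H := by
      refine mem_Op (pow_mem x.2 _) ?_
      rw [orderOf_pow' _ (pow_ne_zero _ (Fact.out : p.Prime).ne_zero), Subgroup.orderOf_coe, hk,
        Nat.gcd_eq_right (Dvd.intro _ rfl), Nat.mul_div_cancel_left _ (pow_pos (Fact.out : p.Prime).pos _)]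
      exact ((Nat.Prime.coprime_iff_not_dvd Fact.out).2 hm).symm
    have h6 := h3 h5
    rw [Subgroup.mem_bot] at h6
    have h7 : orderOf x ∣ p ^ k := by
      rw [← Subgroup.orderOf_coe]; exact orderOf_dvd_of_pow_eq_one h6
    obtain ⟨j, _, hj⟩ := (Nat.dvd_prime_pow Fact.out).1 h7
    exact ⟨j, hj⟩
  exact hS.eq_of_le hHp le_top hSH

include IH hS h4 hC hN hX in
theorem absurd_min : False := by
  have hCQ := constrained IH hS h4 hC hN hX
  have hQn : (pCore p X).Normal := inferInstance
  have hQS : pCore p X ≤ S := pCore_le_of_isSylIn hS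
  have hSN : S ≤ normalizer ((thompsonSubgroupAOf S : Subgroup X) : Set X) :=
    Subgroup.le_normalizer.trans (norm_le_norm_JS S)
  have hNS := eq_S_of_npc hCQ hS hSN hN
  have hSy : Cfsg.Agent.H17.Base.IsSylowIn p S ⊤ := by
    refine ⟨le_top, hS.2.1, ?_⟩
    intro Q _ hQp hSQ
    exact hS.eq_of_le hQp le_top hSQ
  have hcent : ∀ z ∈ ZS S, ∀ g : X, g * z * g⁻¹ = z := by
    intro z hz g
    have hzQ : z ∈ pCore p X := by
      apply hCQ
      rw [Subgroup.mem_centralizer_iff]
      intro q hq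
      exact Subgroup.mem_centralizer_iff.mp hz.2 q (hQS hq)
    apply Cfsg.Agent.H17.Tr.weakly_closed hSy hz.1
    · intro n hn
      have hn' : n ∈ S := by
        rw [← hNS]; exact hn
      have h1 := Subgroup.mem_centralizer_iff.mp hz.2 n hn'
      rw [h1]; group
    · exact h4.imp_right fun h => Or.inr h
    · exact hQS (hQn.conj_mem z hzQ g)
  apply hX
  rw [← npc_top_iff]
  have h1 : centralizer ((ZS S : Subgroup X) : Set X) = ⊤ := by
    rw [eq_top_iff]
    intro g _
    rw [Subgroup.mem_centralizer_iff]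
    intro z hz
    have h2 := hcent z hz g
    calc z * g = (g * z * g⁻¹) * g := by rw [h2]
      _ = g * z := by group
  rw [← h1]
  exact hC

end red

theorem main (p : ℕ) [Fact p.Prime] : ∀ (n : ℕ) (X : Type u) [Group X] [Finite X], Nat.card X = n → CP p X := by
  intro n
  induction n using Nat.strong_induction_on with
  | _ n ih =>
    intro X _ _ hn S hS h4 hC hN
    by_contra hX
    exact absurd_min (fun Y _ _ hY => ih _ (hn ▸ hY) Y rfl) hS h4 hC hN hX

end Cfsg.Agent.H17.NPC
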