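import Mathlib
import Cfsg.Prelude.Def_LocalEven
import Cfsg.Agent.H17_Base
import Cfsg.Agent.H5_SL2

set_option autoImplicit false
open Cfsg

/-! Natural `SL₂(F)`-modules in coordinates. -/

namespace Cfsg.Agent.H17.NatSL2

open Subgroup H17.Base H5.SL2
open scoped commutatorElement

variable {G : Type*} [Group G] {F : Type*} [Field F] {V L : Subgroup G}

structure Dat (F : Type*) [Field F] (V L : Subgroup G) where
  ρ : L →* S F
  e : F → F → G
  mem : ∀ a b, e a b ∈ V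
  surj : ∀ v ∈ V, ∃ a b, v = e a b
  inj : ∀ a b c d, e a b = e c d → a = c ∧ b = d
  mul : ∀ a b c d, e a b * e c d = e (a + c) (b + d)
  act : ∀ (l : L) a b, (l : G) * e a b * (l : G)⁻¹ =
    e ((ρ l).1 0 0 * a + (ρ l).1 0 1 * b) ((ρ l).1 1 0 * a + (ρ l).1 1 1 * b)
  onto : Function.Surjective ρ
  ker : ∀ l : L, ρ l = 1 ↔ (l : G) ∈ Cz V

theorem exists_dat (h : IsNaturalSL2Module F V L) : Nonempty (Dat F V L) := by
  obtain ⟨hN, ρ, ψ, hs, hk, ha⟩ := h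
  refine ⟨⟨ρ, fun a b => ((ψ.symm ![a, b]).toMul : G), fun a b => ((ψ.symm ![a, b]).toMul).2, ?_, ?_, ?_, ?_, hs, ?_⟩⟩
  · intro v hv
    refine ⟨ψ (Additive.ofMul ⟨v, hv⟩) 0, ψ (Additive.ofMul ⟨v, hv⟩) 1, ?_⟩
    have h1 : (![ψ (Additive.ofMul ⟨v, hv⟩) 0, ψ (Additive.ofMul ⟨v, hv⟩) 1] : Fin 2 → F) = ψ (Additive.ofMul ⟨v, hv⟩) := by
      ext i; fin_cases i <;> rfl
    rw [h1, AddEquiv.symm_apply_apply]; rfl
  · intro a b c d h
    have h1 : ψ.symm ![a, b] = ψ.symm ![c, d] := Additive.toMul.injective (Subtype.ext h)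
    have h2 := ψ.symm.injective h1
    exact ⟨congrFun h2 0, congrFun h2 1⟩
  · intro a b c d
    have h1 : (![a + c, b + d] : Fin 2 → F) = ![a, b] + ![c, d] := by
      ext i; fin_cases i <;> rfl
    show _ = ((ψ.symm ![a + c, b + d]).toMul : G)
    rw [h1, map_add]; rfl
  · intro l a b
    obtain ⟨w, hw, hw'⟩ := ha l (ψ.symm ![a, b]).toMul
    show (l : G) * ((ψ.symm ![a, b]).toMul : G) * (l : G)⁻¹ = _
    rw [← hw]
    have h1 : ψ (Additive.ofMul w) = ![(ρ l).1 0 0 * a + (ρ l).1 0 1 * b, (ρ l).1 1 0 * a + (ρ l).1 1 1 * b] := by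
      rw [hw']
      have h2 : ψ (Additive.ofMul ((ψ.symm ![a, b]).toMul)) = ![a, b] := ψ.apply_symm_apply _
      rw [h2]
      ext i
      fin_cases i <;> simp [Matrix.mulVec, dotProduct, Fin.sum_univ_two]
    rw [← h1, AddEquiv.symm_apply_apply]; rfl
  · intro l
    rw [← MonoidHom.mem_ker, hk, mem_subgroupOf]

/-- change of basis. -/
def Dat.conj (D : Dat F V L) (g : S F) : Dat F V L where
  ρ := (MulAut.conj g⁻¹).toMonoidHom.comp D.ρ
  e := fun a b => D.e (g.1 0 0 * a + g.1 0 1 * b) (g.1 1 0 * a + g.1 1 1 * b)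
  mem := fun a b => D.mem _ _
  surj := by
    intro v hv
    obtain ⟨a, b, rfl⟩ := D.surj v hv
    have hd := det_eq g
    refine ⟨g.1 1 1 * a - g.1 0 1 * b, - g.1 1 0 * a + g.1 0 0 * b, ?_⟩
    congr 1
    · linear_combination (-a) * hd
    · linear_combination (-b) * hd
  inj := by
    intro a b c d h
    obtain ⟨h1, h2⟩ := D.inj _ _ _ _ h
    have hd := det_eq g
    constructor
    · linear_combination (g.1 1 1) * h1 - (g.1 0 1) * h2 + (c - a) * hd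
    · linear_combination (-g.1 1 0) * h1 + (g.1 0 0) * h2 + (d - b) * hd
  mul := by
    intro a b c d
    rw [D.mul]
    congr 1 <;> ring
  act := by
    intro l a b
    rw [D.act]
    have hd := det_eq g
    have h1 : ((MulAut.conj g⁻¹).toMonoidHom.comp D.ρ) l = g⁻¹ * D.ρ l * g := by simp
    rw [h1]
    simp only [mul00, mul01, mul10, mul11, inv00, inv01, inv10, inv11]
    congr 1
    · linear_combination (-((D.ρ l).1 0 0 * (g.1 0 0 * a + g.1 0 1 * b) + (D.ρ l).1 0 1 * (g.1 1 0 * a + g.1 1 1 * b))) * hd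
    · linear_combination (-((D.ρ l).1 1 0 * (g.1 0 0 * a + g.1 0 1 * b) + (D.ρ l).1 1 1 * (g.1 1 0 * a + g.1 1 1 * b))) * hd
  onto := by
    exact (MulAut.conj g⁻¹).surjective.comp D.onto
  ker := by
    intro l
    rw [← D.ker]
    show (MulAut.conj g⁻¹) (D.ρ l) = 1 ↔ _
    exact EmbeddingLike.map_eq_one_iff

theorem Dat.one (D : Dat F V L) : D.e 0 0 = 1 := by
  have h := D.mul 0 0 0 0
  rw [add_zero] at h
  exact mul_eq_left.mp h

theorem Dat.inv (D : Dat F V L) (a b : F) : (D.e a b)⁻¹ = D.e (-a) (-b) := by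
  rw [inv_eq_iff_mul_eq_one, D.mul, add_neg_cancel, add_neg_cancel, D.one]

theorem Dat.eq_one (D : Dat F V L) {a b : F} : D.e a b = 1 ↔ a = 0 ∧ b = 0 := by
  constructor
  · intro h; rw [← D.one] at h; exact D.inj _ _ _ _ h
  · rintro ⟨rfl, rfl⟩; exact D.one

theorem Dat.comm (D : Dat F V L) {x y : G} (hx : x ∈ V) (hy : y ∈ V) : x * y = y * x := by
  obtain ⟨a, b, rfl⟩ := D.surj x hx
  obtain ⟨c, d, rfl⟩ := D.surj y hy
  rw [D.mul, D.mul, add_comm a, add_comm b]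

theorem Dat.norm (D : Dat F V L) : L ≤ Nz V := by
  rw [le_Nz_iff]
  intro l hl v hv
  obtain ⟨a, b, rfl⟩ := D.surj v hv
  rw [D.act ⟨l, hl⟩]
  exact D.mem _ _

/-- the fixed line `{e a 0}` of the upper unitriangular group. -/
def Dat.line (D : Dat F V L) : Subgroup G where
  carrier := {x | ∃ a, x = D.e a 0}
  one_mem' := ⟨0, D.one.symm⟩
  mul_mem' := by
    rintro _ _ ⟨a, rfl⟩ ⟨b, rfl⟩
    exact ⟨a + b, by rw [D.mul, add_zero]⟩
  inv_mem' := by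
    rintro _ ⟨a, rfl⟩
    exact ⟨-a, by rw [D.inv, neg_zero]⟩

theorem Dat.mem_line (D : Dat F V L) {x : G} : x ∈ D.line ↔ ∃ a, x = D.e a 0 := Iff.rfl

theorem Dat.line_le (D : Dat F V L) : D.line ≤ V := by
  rintro _ ⟨a, rfl⟩; exact D.mem _ _

theorem Dat.card_line [Fintype F] (D : Dat F V L) : Nat.card D.line = Fintype.card F := by
  rw [← Nat.card_eq_fintype_card]
  refine (Nat.card_congr (Equiv.ofBijective (fun a : F => (⟨D.e a 0, a, rfl⟩ : D.line)) ⟨?_, ?_⟩)).symm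
  · intro a b h
    exact (D.inj _ _ _ _ (congrArg Subtype.val h)).1
  · rintro ⟨_, a, rfl⟩
    exact ⟨a, rfl⟩

theorem Dat.card [Fintype F] (D : Dat F V L) : Nat.card V = Fintype.card F ^ 2 := by
  rw [← Nat.card_eq_fintype_card, sq, ← Nat.card_prod]
  refine (Nat.card_congr (Equiv.ofBijective (fun a : F × F => (⟨D.e a.1 a.2, D.mem _ _⟩ : V)) ⟨?_, ?_⟩)).symm
  · intro a b h
    have := D.inj _ _ _ _ (congrArg Subtype.val h)
    exact Prod.ext this.1 this.2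
  · rintro ⟨x, hx⟩
    obtain ⟨a, b, rfl⟩ := D.surj x hx
    exact ⟨(a, b), rfl⟩

/-- Normalised data with respect to a Sylow subgroup `T` of `L` (faithful case). -/
theorem exists_norm [Finite G] {p : ℕ} [Fact p.Prime] [Fintype F] [CharP F p] (h : IsNaturalSL2Module F V L)
    (hf : L ⊓ Cz V = ⊥) (P : Sylow p L) :
    ∃ D : Dat F V L, Function.Injective D.ρ ∧ ∀ l : L, l ∈ (P : Subgroup L) ↔ ∃ x, D.ρ l = u x := by
  obtain ⟨D⟩ := exists_dat h
  have hinj : ∀ D : Dat F V L, Function.Injective D.ρ := by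
    intro D
    rw [injective_iff_map_eq_one]
    intro l hl
    rw [D.ker] at hl
    have : (l : G) ∈ L ⊓ Cz V := ⟨l.2, hl⟩
    rw [hf, mem_bot] at this
    exact Subtype.ext this
  obtain ⟨g, hg⟩ := H5.SL2.exists_conj p (P.mapSurjective D.onto)
  refine ⟨D.conj g, hinj _, fun l => ?_⟩
  rw [Sylow.coe_mapSurjective] at hg
  have h1 : l ∈ (P : Subgroup L) ↔ D.ρ l ∈ (P : Subgroup L).map D.ρ := by
    constructor
    · intro h; exact ⟨l, h, rfl⟩
    · rintro ⟨m, hm, hml⟩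
      rw [← hinj D hml]; exact hm
  rw [h1, hg]
  have h2 : (D.conj g).ρ l = g⁻¹ * D.ρ l * g := by
    show (MulAut.conj g⁻¹) (D.ρ l) = _
    simp
  rw [h2, Subgroup.mem_pointwise_smul_iff_inv_smul_mem, ← mem_U]
  have h3 : (MulAut.conj g)⁻¹ • D.ρ l = g⁻¹ * D.ρ l * g := by
    rw [← map_inv, MulAut.smul_def, MulAut.conj_apply, inv_inv]
  rw [h3]

section
variable (D : Dat F V L) {T : Subgroup G}

theorem Dat.act_mem {l : G} (hl : l ∈ L) (a b : F) : l * D.e a b * l⁻¹ =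
    D.e ((D.ρ ⟨l, hl⟩).1 0 0 * a + (D.ρ ⟨l, hl⟩).1 0 1 * b) ((D.ρ ⟨l, hl⟩).1 1 0 * a + (D.ρ ⟨l, hl⟩).1 1 1 * b) :=
  D.act ⟨l, hl⟩ a b

theorem Dat.act_u {l : G} (hl : l ∈ L) {x : F} (hx : D.ρ ⟨l, hl⟩ = u x) (a b : F) :
    l * D.e a b * l⁻¹ = D.e (a + x * b) b := by
  rw [D.act_mem hl, hx]
  congr 1
  · simp [u]
  · simp [u]

/-- `T` acts as the upper unitriangular group. -/
def Dat.Uni (T : Subgroup G) : Prop := T ≤ L ∧ ∀ (l : G) (hl : l ∈ L), l ∈ T ↔ ∃ x, D.ρ ⟨l, hl⟩ = u x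

variable {D}

theorem Dat.Uni.exists {D : Dat F V L} (h : D.Uni T) {l : G} (hl : l ∈ T) :
    ∃ x, ∀ a b, l * D.e a b * l⁻¹ = D.e (a + x * b) b := by
  obtain ⟨x, hx⟩ := (h.2 l (h.1 hl)).1 hl
  exact ⟨x, D.act_u (h.1 hl) hx⟩

theorem Dat.Uni.exists' {D : Dat F V L} (h : D.Uni T) (x : F) :
    ∃ l ∈ T, ∀ a b, l * D.e a b * l⁻¹ = D.e (a + x * b) b := by
  obtain ⟨⟨l, hl⟩, hx⟩ := D.onto (u x)
  exact ⟨l, (h.2 l hl).2 ⟨x, hx⟩, D.act_u hl hx⟩

theorem mem_cent_singleton {g v : G} : v ∈ centralizer ({g} : Set G) ↔ g * v * g⁻¹ = v := by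
  rw [mem_centralizer_singleton_iff, eq_comm, mul_inv_eq_iff_eq_mul]

theorem mem_Cz_iff {T : Subgroup G} {v : G} : v ∈ Cz T ↔ ∀ g ∈ T, g * v * g⁻¹ = v := by
  rw [mem_centralizer_iff]
  constructor
  · intro h g hg; rw [h g hg]; group
  · intro h g hg; rw [← mul_inv_eq_iff_eq_mul, h g hg]

theorem mem_Cz_iff' {T : Subgroup G} {g : G} : g ∈ Cz T ↔ ∀ v ∈ T, g * v * g⁻¹ = v := by
  rw [mem_centralizer_iff]
  constructor
  · intro h v hv; rw [← h v hv]; group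
  · intro h v hv; rw [← mul_inv_eq_iff_eq_mul.1 (h v hv)]

theorem Dat.Uni.cent {D : Dat F V L} (h : D.Uni T) : V ⊓ Cz T = D.line := by
  ext v
  constructor
  · rintro ⟨hv, hc⟩
    obtain ⟨a, b, rfl⟩ := D.surj v hv
    obtain ⟨l, hl, hl'⟩ := h.exists' 1
    have h1 := mem_Cz_iff.1 hc l hl
    rw [hl'] at h1
    have h2 := (D.inj _ _ _ _ h1).1
    have h3 : b = 0 := by simpa using h2
    exact ⟨a, by rw [h3]⟩
  · rintro ⟨a, rfl⟩
    refine ⟨D.mem _ _, mem_Cz_iff.2 fun g hg => ?_⟩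
    obtain ⟨x, hx⟩ := h.exists hg
    rw [hx, mul_zero, add_zero]

theorem Dat.Uni.ne_zero {D : Dat F V L} (hf : L ⊓ Cz V = ⊥) (h : D.Uni T) {l : G} (hl : l ∈ T) (hl1 : l ≠ 1) :
    ∃ x, x ≠ 0 ∧ ∀ a b, l * D.e a b * l⁻¹ = D.e (a + x * b) b := by
  obtain ⟨x, hx⟩ := h.exists hl
  refine ⟨x, ?_, hx⟩
  rintro rfl
  apply hl1
  rw [← mem_bot, ← hf]
  refine ⟨h.1 hl, mem_centralizer_iff.2 ?_⟩
  intro v hv
  obtain ⟨a, b, rfl⟩ := D.surj v hv
  have := hx a b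
  rw [zero_mul, add_zero] at this
  rw [← mul_inv_eq_iff_eq_mul.1 this]

theorem Dat.Uni.cent_singleton {D : Dat F V L} (hf : L ⊓ Cz V = ⊥) (h : D.Uni T) {l : G} (hl : l ∈ T) (hl1 : l ≠ 1) :
    V ⊓ centralizer ({l} : Set G) = D.line := by
  obtain ⟨x, hx0, hx⟩ := h.ne_zero hf hl hl1
  ext v
  constructor
  · rintro ⟨hv, hc⟩
    obtain ⟨a, b, rfl⟩ := D.surj v hv
    have h1 := mem_cent_singleton.1 hc
    rw [hx] at h1
    have h2 := (D.inj _ _ _ _ h1).1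
    have h3 : b = 0 := by
      have : x * b = 0 := by simpa using h2
      exact (mul_eq_zero.1 this).resolve_left hx0
    exact ⟨a, by rw [h3]⟩
  · rintro ⟨a, rfl⟩
    refine ⟨D.mem _ _, mem_cent_singleton.2 ?_⟩
    rw [hx, mul_zero, add_zero]

theorem comm_aux (v t : G) : v * t * v⁻¹ * t⁻¹ = v * (t * v * t⁻¹)⁻¹ := by group

theorem Dat.Uni.comm_le {D : Dat F V L} (h : D.Uni T) : ⁅V, T⁆ ≤ D.line := by
  rw [commutator_le]
  intro v hv t ht
  obtain ⟨a, b, rfl⟩ := D.surj v hv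
  obtain ⟨x, hx⟩ := h.exists ht
  rw [commutatorElement_def, comm_aux, hx, D.inv, D.mul]
  exact ⟨a + -(a + x * b), by rw [add_neg_cancel]⟩

theorem Dat.Uni.le_comm {D : Dat F V L} (hf : L ⊓ Cz V = ⊥) (h : D.Uni T) {l : G} (hl : l ∈ T) (hl1 : l ≠ 1) :
    D.line ≤ ⁅V, zpowers l⁆ := by
  obtain ⟨x, hx0, hx⟩ := h.ne_zero hf hl hl1
  rintro _ ⟨c, rfl⟩
  have h1 : ⁅D.e 0 (-c / x), l⁆ = D.e c 0 := by
    rw [commutatorElement_def, comm_aux, hx, D.inv, D.mul]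
    congr 1
    · field_simp; ring
    · ring
  rw [← h1]
  exact commutator_mem_commutator (D.mem _ _) (mem_zpowers l)

theorem Dat.Uni.closure {D : Dat F V L} (h : D.Uni T) {v : G} (hv : v ∈ V) (hvT : v ∉ Cz T) :
    Subgroup.closure {x : G | ∃ t ∈ T, x = v * t * v⁻¹ * t⁻¹} = D.line := by
  obtain ⟨a, b, rfl⟩ := D.surj v hv
  apply le_antisymm
  · rw [closure_le]
    rintro _ ⟨t, ht, rfl⟩
    obtain ⟨x, hx⟩ := h.exists ht
    rw [comm_aux, hx, D.inv, D.mul]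
    exact ⟨a + -(a + x * b), by rw [add_neg_cancel]⟩
  · rintro _ ⟨c, rfl⟩
    have hb : b ≠ 0 := by
      rintro rfl
      apply hvT
      have : D.e a 0 ∈ V ⊓ Cz T := by rw [h.cent]; exact ⟨a, rfl⟩
      exact this.2
    obtain ⟨t, ht, hx⟩ := h.exists' (-c / b)
    apply Subgroup.subset_closure
    refine ⟨t, ht, ?_⟩
    rw [comm_aux, hx, D.inv, D.mul]
    congr 1
    · field_simp; ring
    · ring

theorem exists_uni [Finite G] {p : ℕ} [Fact p.Prime] [Fintype F] [CharP F p] (h : IsNaturalSL2Module F V L)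
    (hf : L ⊓ Cz V = ⊥) (P : Sylow p L) (T : Subgroup G) (hT : T = (P : Subgroup L).map L.subtype) :
    ∃ D : Dat F V L, Function.Injective D.ρ ∧ D.Uni T := by
  obtain ⟨D, h1, h2⟩ := exists_norm h hf P
  refine ⟨D, h1, ?_, ?_⟩
  · rw [hT]; exact map_subtype_le _
  · intro l hl
    rw [← h2, hT]
    constructor
    · rintro ⟨m, hm, rfl⟩; exact hm
    · intro hm; exact ⟨_, hm, rfl⟩

theorem charP_of_card {p : ℕ} [Fact p.Prime] [Fintype F] {n : ℕ} (hF : Fintype.card F = p ^ n) : CharP F p := by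
  obtain ⟨q, hq⟩ := CharP.exists F
  have hq' : Fact q.Prime := ⟨CharP.char_is_prime F q⟩
  obtain ⟨m, hm1, hm⟩ := FiniteField.card F q
  have h1 : q ∣ p ^ n := by rw [← hF, hm]; exact dvd_pow_self q m.2.ne'
  have h2 := (Nat.prime_dvd_prime_iff_eq hq'.out (Fact.out : p.Prime)).1 (hq'.out.dvd_of_dvd_pow h1)
  rw [← h2]; exact hq

end

end Cfsg.Agent.H17.NatSL2
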