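import Cfsg.Agent.H17_QdF
import Cfsg.Agent.H17_Base2

set_option autoImplicit false
open Cfsg

/-! Sylow `p`-subgroups of `Qd(F)`. -/

namespace Cfsg.Agent.H17.QdF

open Subgroup Matrix H17.Base H5.SL2 H27.Qd

variable {F : Type*} [Field F]

/-- preimage of the upper unitriangular group. -/
noncomputable def S0 (F : Type*) [Field F] : Subgroup ↥(qdOver F) := (U F).comap lin

theorem mem_S0 {M : ↥(qdOver F)} : M ∈ S0 F ↔ ∃ x a b, M = mk (u x) ![a, b] := by
  constructor
  · intro h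
    obtain ⟨A, w, rfl⟩ := exists_mk M
    have h1 : lin (mk A w) ∈ U F := h
    rw [lin_mk] at h1
    obtain ⟨x, rfl⟩ := mem_U.1 h1
    refine ⟨x, w 0, w 1, ?_⟩
    congr 1
    ext i; fin_cases i <;> rfl
  · rintro ⟨x, a, b, rfl⟩
    show lin _ ∈ U F
    rw [lin_mk]
    exact mem_U.2 ⟨x, rfl⟩

theorem mk_u_mul (x a b x' a' b' : F) : mk (u x) ![a, b] * mk (u x') ![a', b'] = mk (u (x + x')) ![a + a' + x * b', b + b'] := by
  rw [mk_mul, u_mul]
  congr 1
  rw [u_coe]
  ext i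
  fin_cases i
  · simp [Matrix.mulVec, dotProduct, Fin.sum_univ_two]; ring
  · simp [Matrix.mulVec, dotProduct, Fin.sum_univ_two]; ring

theorem mk_u_inj {x a b x' a' b' : F} (h : mk (u x) ![a, b] = mk (u x') ![a', b']) : x = x' ∧ a = a' ∧ b = b' := by
  obtain ⟨h1, h2⟩ := mk_inj h
  exact ⟨u_inj h1, congrFun h2 0, congrFun h2 1⟩

/-- the polarity function. -/
noncomputable def tau (M : ↥(qdOver F)) : ↥(qdOver F) :=
  mk (u (-((equivProd M).2 1))) ![(lin M).1 0 1 * (equivProd M).2 1 - (equivProd M).2 0, -((lin M).1 0 1)]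

theorem tau_mk (x a b : F) : tau (mk (u x) ![a, b]) = mk (u (-b)) ![x * b - a, -x] := by
  unfold tau
  rw [equivProd_mk, lin_mk]
  rfl

/-- the polarity. -/
noncomputable def sig (F : Type*) [Field F] : ↥(S0 F) ≃* ↥(S0 F) where
  toFun M := ⟨tau M.1, by
    obtain ⟨x, a, b, h⟩ := mem_S0.1 M.2
    rw [h, tau_mk]
    exact mem_S0.2 ⟨_, _, _, rfl⟩⟩
  invFun M := ⟨tau M.1, by
    obtain ⟨x, a, b, h⟩ := mem_S0.1 M.2
    rw [h, tau_mk]
    exact mem_S0.2 ⟨_, _, _, rfl⟩⟩
  left_inv := by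
    rintro ⟨M, hM⟩
    obtain ⟨x, a, b, rfl⟩ := mem_S0.1 hM
    apply Subtype.ext
    show tau (tau _) = _
    rw [tau_mk, tau_mk]
    congr 1
    · rw [neg_neg]
    · ext i; fin_cases i
      · show -b * -x - (x * b - a) = a; ring
      · show - -b = b; ring
  right_inv := by
    rintro ⟨M, hM⟩
    obtain ⟨x, a, b, rfl⟩ := mem_S0.1 hM
    apply Subtype.ext
    show tau (tau _) = _
    rw [tau_mk, tau_mk]
    congr 1
    · rw [neg_neg]
    · ext i; fin_cases i
      · show -b * -x - (x * b - a) = a; ring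
      · show - -b = b; ring
  map_mul' := by
    rintro ⟨M, hM⟩ ⟨N, hN⟩
    obtain ⟨x, a, b, rfl⟩ := mem_S0.1 hM
    obtain ⟨x', a', b', rfl⟩ := mem_S0.1 hN
    apply Subtype.ext
    show tau (_ * _) = tau _ * tau _
    rw [mk_u_mul, tau_mk, tau_mk, tau_mk, mk_u_mul]
    congr 1
    · congr 1; ring
    · ext i; fin_cases i
      · show (x + x') * (b + b') - (a + a' + x * b') = x * b - a + (x' * b' - a') + -b * -x'; ring
      · show -(x + x') = -x + -x'; ring

theorem coe_sig (M : ↥(S0 F)) : ((sig F M : ↥(S0 F)) : ↥(qdOver F)) = tau M.1 := rfl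

theorem ker_le_S0 : (lin (F := F)).ker ≤ S0 F := by
  intro x hx
  show lin x ∈ U F
  rw [MonoidHom.mem_ker.1 hx]; exact one_mem _

theorem map_lin_S0 : (S0 F).map lin = U F := map_comap_eq_self_of_surjective lin_onto _

variable [Finite F] {p : ℕ} [Fact p.Prime] [CharP F p]

theorem finite_qd : Finite ↥(qdOver F) := by
  have : Finite (S F) := inferInstance
  exact Finite.of_equiv _ equivProd.symm

/-- every Sylow `p`-subgroup is conjugate to `S0`. -/
theorem exists_conj_S0 (P : Sylow p ↥(qdOver F)) : ∃ g : ↥(qdOver F), (P : Subgroup ↥(qdOver F)) = cj g (S0 F) := by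
  have := Fintype.ofFinite F
  have hV : (lin (F := F)).ker ≤ (P : Subgroup ↥(qdOver F)) := by
    rw [← pCore_eq (p := p)]; exact pCore_le_sylow P
  obtain ⟨k, hk⟩ := H5.SL2.exists_conj p (P.mapSurjective lin_onto)
  rw [Sylow.coe_mapSurjective] at hk
  obtain ⟨g, rfl⟩ := lin_onto k
  refine ⟨g, ?_⟩
  have h1 : (P : Subgroup ↥(qdOver F)) = ((P : Subgroup ↥(qdOver F)).map lin).comap lin := by
    rw [comap_map_eq_self hV]
  rw [h1, hk]
  ext x
  rw [mem_cj, mem_comap, Subgroup.mem_pointwise_smul_iff_inv_smul_mem]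
  show _ ↔ lin (g⁻¹ * x * g) ∈ U F
  have h2 : (MulAut.conj (lin g))⁻¹ • lin x = lin (g⁻¹ * x * g) := by
    rw [← map_inv, MulAut.smul_def, MulAut.conj_apply, inv_inv, map_mul, map_mul, map_inv]
  rw [h2]

omit [Finite F] [Field F] in
theorem char_conj {X : Type*} [Group X] (V S₀ P : Subgroup X) (hV : V.Normal) (g : X) (hg : P = cj g S₀) (σ : S₀ ≃* S₀)
    (s : S₀) (hs : (s : X) ∈ V) (hσ : ((σ s : S₀) : X) ∉ V) : ¬ (V.subgroupOf P).Characteristic := by
  subst hg
  intro hch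
  obtain ⟨e, he⟩ : ∃ e : ↥S₀ ≃* ↥(cj g S₀), ∀ s, ((e s : ↥(cj g S₀)) : X) = g * s * g⁻¹ :=
    ⟨equivMapOfInjective S₀ (MulAut.conj g).toMonoidHom (MulAut.conj g).injective, fun s => rfl⟩
  have h1 := characteristic_iff_comap_eq.1 hch ((e.symm.trans σ).trans e)
  have hmem : ∀ s : ↥S₀, (s : X) ∈ V ↔ e s ∈ V.subgroupOf (cj g S₀) := by
    intro s
    rw [mem_subgroupOf, he]
    constructor
    · intro h; exact hV.conj_mem _ h g
    · intro h
      have := hV.conj_mem _ h g⁻¹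
      have e1 : g⁻¹ * (g * (s : X) * g⁻¹) * g⁻¹⁻¹ = s := by group
      rwa [e1] at this
  rw [hmem, ← h1] at hs
  apply hσ
  rw [hmem]
  have h4 : ((e.symm.trans σ).trans e) (e s) ∈ V.subgroupOf (cj g S₀) := hs
  rwa [MulEquiv.trans_apply, MulEquiv.trans_apply, MulEquiv.symm_apply_apply] at h4

/-- the translation group is not characteristic in a Sylow subgroup. -/
theorem not_char (P : Sylow p ↥(qdOver F)) : ¬ ((lin (F := F)).ker.subgroupOf (P : Subgroup ↥(qdOver F))).Characteristic := by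
  obtain ⟨g, hg⟩ := exists_conj_S0 P
  refine char_conj _ _ _ inferInstance g hg (sig F) ⟨mk (u 0) ![0, 1], mem_S0.2 ⟨_, _, _, rfl⟩⟩ ?_ ?_
  · rw [MonoidHom.mem_ker, lin_mk, u_zero]
  · rw [coe_sig, tau_mk, MonoidHom.mem_ker, lin_mk, ← u_zero]
    intro h
    have := u_inj h
    simp at this

omit [Finite F] in
theorem exists_move {w v : Fin 2 → F} (hw : w ≠ 0) (hv : v ≠ 0) : ∃ A : S F, A.1 *ᵥ w = v := by
  have key : ∀ v : Fin 2 → F, v ≠ 0 → ∃ A : S F, A.1 *ᵥ ![1, 0] = v := by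
    intro v hv
    by_cases h0 : v 0 = 0
    · have h1 : v 1 ≠ 0 := by
        intro h1; apply hv; ext i; fin_cases i
        · exact h0
        · exact h1
      refine ⟨⟨!![0, -(v 1)⁻¹; v 1, 0], by rw [Matrix.det_fin_two_of]; field_simp; ring⟩, ?_⟩
      ext i; fin_cases i
      · simp [Matrix.mulVec, dotProduct, Fin.sum_univ_two, h0]
      · simp [Matrix.mulVec, dotProduct, Fin.sum_univ_two]
    · refine ⟨⟨!![v 0, 0; v 1, (v 0)⁻¹], by rw [Matrix.det_fin_two_of]; field_simp; ring⟩, ?_⟩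
      ext i; fin_cases i
      · simp [Matrix.mulVec, dotProduct, Fin.sum_univ_two]
      · simp [Matrix.mulVec, dotProduct, Fin.sum_univ_two]
  obtain ⟨A, rfl⟩ := key w hw
  obtain ⟨B, rfl⟩ := key v hv
  refine ⟨B * A⁻¹, ?_⟩
  rw [Matrix.SpecialLinearGroup.coe_mul, Matrix.mulVec_mulVec, Matrix.mul_assoc, ← Matrix.SpecialLinearGroup.coe_mul,
    inv_mul_cancel, Matrix.SpecialLinearGroup.coe_one, mul_one]

/-- a nontrivial normal `p`-subgroup is the translation group. -/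
theorem normal_eq (T : Subgroup ↥(qdOver F)) (hT : T.Normal) (hp : IsPGroup p T) (h1 : T ≠ ⊥) : T = (lin (F := F)).ker := by
  have h2 : T ≤ (lin (F := F)).ker := by rw [← pCore_eq (p := p)]; exact le_pCore hT hp
  apply le_antisymm h2
  obtain ⟨t, ht, ht1⟩ := (Subgroup.bot_or_exists_ne_one T).resolve_left h1
  obtain ⟨w, rfl⟩ := ker_iff.1 (h2 ht)
  have hw : w ≠ 0 := by rintro rfl; exact ht1 mk_one
  intro x hx
  obtain ⟨v, rfl⟩ := ker_iff.1 hx
  by_cases hv : v = 0
  · rw [hv, mk_one]; exact one_mem _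
  obtain ⟨A, hA⟩ := exists_move hw hv
  have h3 := hT.conj_mem _ ht (mk A 0)
  have h4 : mk A 0 * mk 1 w * (mk A 0)⁻¹ = mk 1 v := by
    rw [mul_inv_eq_iff_eq_mul, mk_mul, mk_mul]
    congr 1
    · simp
    · rw [hA, Matrix.mulVec_zero, add_comm]
  rwa [h4] at h3

/-- the normalizer of a Sylow subgroup is maximal -/
theorem eq_top_of (P : Sylow p ↥(qdOver F)) (H : Subgroup ↥(qdOver F)) (hP : (P : Subgroup ↥(qdOver F)) ≤ H)
    (hne : ¬ H ≤ Nz (P : Subgroup ↥(qdOver F))) : H = ⊤ := by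
  have := Fintype.ofFinite F
  have := finite_qd (F := F)
  have hV : (lin (F := F)).ker ≤ (P : Subgroup ↥(qdOver F)) := by
    rw [← pCore_eq (p := p)]; exact pCore_le_sylow P
  obtain ⟨h, hh, hhN⟩ := SetLike.not_le_iff_exists.1 hne
  have h1 : H.map lin = ⊤ := by
    rw [eq_top_iff, ← H5.SL2.generate p (P.mapSurjective lin_onto) ((h • P).mapSurjective lin_onto) ?_]
    · apply sup_le
      · rw [Sylow.coe_mapSurjective]; exact map_mono hP
      · rw [Sylow.coe_mapSurjective]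
        apply map_mono
        rw [Sylow.coe_subgroup_smul]
        rintro _ ⟨x, hx, rfl⟩
        exact mul_mem (mul_mem hh (hP hx)) (inv_mem hh)
    · intro heq
      apply hhN
      have h2 : ((P.mapSurjective lin_onto : Sylow p (S F)) : Subgroup (S F)) = ((h • P).mapSurjective lin_onto : Sylow p (S F)) := by
        rw [heq]
      rw [Sylow.coe_mapSurjective, Sylow.coe_mapSurjective] at h2
      have h3 := congrArg (Subgroup.comap lin) h2
      have hV' : (lin (F := F)).ker ≤ ((h • P : Sylow p ↥(qdOver F)) : Subgroup ↥(qdOver F)) := by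
        rw [← pCore_eq (p := p)]; exact pCore_le_sylow (h • P)
      rw [comap_map_eq_self hV, comap_map_eq_self hV'] at h3
      rw [mem_Nz_iff_cj]
      exact h3.symm
  have h2 : (H.map lin).comap (lin (F := F)) = ⊤ := by rw [h1]; rfl
  rwa [comap_map_eq_self (hV.trans hP)] at h2

end Cfsg.Agent.H17.QdF
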