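import Cfsg.Agent.H17_S4
import Cfsg.Agent.H17_Frat
import Cfsg.Agent.H17_YSN
import Cfsg.Agent.H17_QdF
import Cfsg.Agent.H1_Coprime2
import Cfsg.Agent.H27_Qd2
import Cfsg.Agent.H13_Sec

set_option autoImplicit false
open Cfsg

/-! `S₄` is involved iff `S₃` is involved in the automizer of a 2-subgroup. -/

namespace Cfsg.Agent.H17.S4Inv

open Subgroup Cfsg.Agent.H17.Base Cfsg.Agent.H17.Tr
open scoped commutatorElement

variable {G : Type*} [Group G]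

/-- elementary abelian version. -/
theorem elem_case [Finite G] {V : Subgroup G} (hab : ∀ v ∈ V, ∀ w ∈ V, v * w = w * v) (h2 : ∀ v ∈ V, v * v = 1) {x y : G}
    (hx : x ∈ Nz V) (hy : y ∈ Nz V) (hx3 : ∀ v ∈ V, x ^ 3 * v * (x ^ 3)⁻¹ = v) (hxV : ∃ v ∈ V, x * v * x⁻¹ ≠ v)
    (hyp : IsPGroup 2 ↥(zpowers y)) (hyx : ∀ v ∈ V, y * (x * v * x⁻¹) * y⁻¹ = x⁻¹ * (y * v * y⁻¹) * x) :
    Involves (Equiv.Perm (Fin 4)) G := by
  have : Fact (Nat.Prime 2) := ⟨Nat.prime_two⟩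
  have hinv : ∀ v ∈ V, v⁻¹ = v := fun v hv => inv_eq_of_mul_eq_one_right (h2 v hv)
  have hxm : ∀ v ∈ V, x * v * x⁻¹ ∈ V := fun v hv => (mem_normalizer_iff.1 hx v).1 hv
  have hxm' : ∀ v ∈ V, x⁻¹ * v * x ∈ V := fun v hv => by
    have := (mem_normalizer_iff.1 (inv_mem hx) v).1 hv
    rwa [inv_inv] at this
  have hym : ∀ v ∈ V, y * v * y⁻¹ ∈ V := fun v hv => (mem_normalizer_iff.1 hy v).1 hv
  let V₁ : Subgroup G :=
    { carrier := {w | ∃ v ∈ V, w = v * (x * v * x⁻¹)}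
      one_mem' := ⟨1, one_mem _, by group⟩
      mul_mem' := by
        rintro _ _ ⟨v, hv, rfl⟩ ⟨w, hw, rfl⟩
        refine ⟨v * w, mul_mem hv hw, ?_⟩
        have e1 : x * (v * w) * x⁻¹ = (x * v * x⁻¹) * (x * w * x⁻¹) := by group
        rw [e1]
        have e2 := hab (x * v * x⁻¹) (hxm v hv) w hw
        calc v * (x * v * x⁻¹) * (w * (x * w * x⁻¹)) = v * ((x * v * x⁻¹) * w) * (x * w * x⁻¹) := by group
          _ = v * (w * (x * v * x⁻¹)) * (x * w * x⁻¹) := by rw [e2]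
          _ = _ := by group
      inv_mem' := by
        rintro _ ⟨v, hv, rfl⟩
        refine ⟨v, hv, ?_⟩
        exact hinv _ (mul_mem hv (hxm v hv)) }
  have hV₁ : V₁ ≤ V := by
    rintro _ ⟨v, hv, rfl⟩
    exact mul_mem hv (hxm v hv)
  have hV₁ne : V₁ ≠ ⊥ := by
    obtain ⟨v, hv, hne⟩ := hxV
    intro h
    have h1 : v * (x * v * x⁻¹) ∈ V₁ := ⟨v, hv, rfl⟩
    rw [h, mem_bot] at h1
    apply hne
    rw [← inv_eq_of_mul_eq_one_right h1, hinv v hv]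
  have hyV₁ : zpowers y ≤ Nz V₁ := by
    rw [zpowers_le]
    apply mem_Nz_of_cj_le
    rintro _ ⟨_, ⟨v, hv, rfl⟩, rfl⟩
    show y * (v * (x * v * x⁻¹)) * y⁻¹ ∈ V₁
    have e1 : y * (v * (x * v * x⁻¹)) * y⁻¹ = (y * v * y⁻¹) * (y * (x * v * x⁻¹) * y⁻¹) := by group
    rw [e1, hyx v hv]
    set u := y * v * y⁻¹ with hu
    have huV : u ∈ V := hym v hv
    refine ⟨x⁻¹ * u * x, hxm' u huV, ?_⟩
    have e2 : x * (x⁻¹ * u * x) * x⁻¹ = u := by group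
    rw [e2]
    exact hab _ huV _ (hxm' u huV)
  have hV₁p : IsPGroup 2 V₁ := by
    rintro ⟨v, hv⟩
    refine ⟨1, Subtype.ext ?_⟩
    show v ^ 2 ^ 1 = 1
    rw [pow_one, sq]
    exact h2 v (hV₁ hv)
  have h3 := H17.Base.inf_Cz_ne_bot hV₁p hyp hyV₁ hV₁ne
  obtain ⟨w, ⟨hw, hwy⟩, hw1⟩ := (Subgroup.bot_or_exists_ne_one _).resolve_left h3
  have hwV := hV₁ hw
  have hyw : y * w * y⁻¹ = w := by
    have := mem_centralizer_iff.1 hwy y (mem_zpowers y)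
    rw [this]; group
  -- norm relation
  have hnorm : w * (x * w * x⁻¹) * (x * (x * w * x⁻¹) * x⁻¹) = 1 := by
    obtain ⟨v, hv, rfl⟩ := hw
    set a := v
    set b := x * v * x⁻¹ with hb
    set c := x * b * x⁻¹ with hc
    have hbV : b ∈ V := hxm v hv
    have hcV : c ∈ V := hxm b hbV
    have hd : x * c * x⁻¹ = a := by
      have := hx3 v hv
      rw [hc, hb]
      have e : x * (x * (x * v * x⁻¹) * x⁻¹) * x⁻¹ = x ^ 3 * v * (x ^ 3)⁻¹ := by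
        rw [pow_succ, pow_succ, pow_one]; group
      rw [e, this]
    have e1 : x * (a * b) * x⁻¹ = b * c := by
      have : x * (a * b) * x⁻¹ = (x * a * x⁻¹) * (x * b * x⁻¹) := by group
      rw [this]
    have e2 : x * (b * c) * x⁻¹ = c * a := by
      have : x * (b * c) * x⁻¹ = (x * b * x⁻¹) * (x * c * x⁻¹) := by group
      rw [this, hd]
    rw [e1, e2]
    calc a * b * (b * c) * (c * a) = a * (b * b) * (c * c) * a := by group
      _ = 1 := by rw [h2 b hbV, h2 c hcV, mul_one, mul_one, h2 a hv]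
  set v := x * w * x⁻¹ with hv
  have hvV : v ∈ V := hxm w hwV
  have hxv : x * v * x⁻¹ = w * v := by
    have h4 : (x * v * x⁻¹)⁻¹ = w * v := by
      rw [inv_eq_iff_mul_eq_one, hab _ (hxm v hvV) _ (mul_mem hwV hvV)]
      exact hnorm
    rw [← h4, hinv _ (hxm v hvV)]
  refine H17.S4.s4_of (u := w) (v := v) (c := x) (d := x * y) hw1 ?_ ?_ (h2 w hwV) (h2 v hvV) (hab w hwV v hvV) hv.symm hxv ?_ ?_
  · intro h
    apply hw1
    have : w = x⁻¹ * v * x := by rw [hv]; group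
    rw [this, h]; group
  · intro h
    apply hw1
    have e1 : x * v * x⁻¹ = 1 := by rw [hxv, h, h2 v hvV]
    have e2 : v = x⁻¹ * (x * v * x⁻¹) * x := by group
    rw [h, e2, e1]; group
  · have : x * y * w * (x * y)⁻¹ = x * (y * w * y⁻¹) * x⁻¹ := by group
    rw [this, hyw]
  · have : x * y * v * (x * y)⁻¹ = x * (y * v * y⁻¹) * x⁻¹ := by group
    rw [this, hv, hyx w hwV, hyw]; group

theorem inv_pow_odd {A : Type*} [Group A] {x y : A} (h : y * x * y⁻¹ = x⁻¹) {m : ℕ} (hm : Odd m) :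
    y ^ m * x * (y ^ m)⁻¹ = x⁻¹ := by
  obtain ⟨k, rfl⟩ := hm
  have h2 : ∀ k : ℕ, y ^ (2 * k) * x * (y ^ (2 * k))⁻¹ = x := by
    intro k
    induction k with
    | zero => simp
    | succ k ih =>
      have e : y ^ (2 * (k + 1)) * x * (y ^ (2 * (k + 1)))⁻¹ = y * (y * (y ^ (2 * k) * x * (y ^ (2 * k))⁻¹) * y⁻¹) * y⁻¹ := by
        rw [mul_add, pow_add, mul_one, show y ^ (2 * k) * y ^ 2 = y ^ 2 * y ^ (2 * k) from by rw [← pow_add, ← pow_add, add_comm]]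
        group
      rw [e, ih, h]
      have : y * x⁻¹ * y⁻¹ = (y * x * y⁻¹)⁻¹ := by group
      rw [this, h, inv_inv]
  have e : y ^ (2 * k + 1) * x * (y ^ (2 * k + 1))⁻¹ = y ^ (2 * k) * (y * x * y⁻¹) * (y ^ (2 * k))⁻¹ := by
    rw [pow_succ]; group
  rw [e, h]
  have : y ^ (2 * k) * x⁻¹ * (y ^ (2 * k))⁻¹ = (y ^ (2 * k) * x * (y ^ (2 * k))⁻¹)⁻¹ := by group
  rw [this, h2]

theorem two_case [Finite G] {T : Subgroup G} (hT : IsPGroup 2 T) {x y : G} (hx : x ∈ Nz T) (hy : y ∈ Nz T) (hxC : x ∉ Cz T)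
    (hx3 : x ^ 3 ∈ Cz T) (hyx : y * x * y⁻¹ * x ∈ Cz T) : Involves (Equiv.Perm (Fin 4)) G := by
  have : Fact (Nat.Prime 2) := ⟨Nat.prime_two⟩
  have : Fact (Nat.Prime 3) := ⟨Nat.prime_three⟩
  set N := Nz T with hN
  set φ : N →* MulAut T := T.normalizerMonoidHom with hφ
  have hker : ∀ n : N, φ n = 1 ↔ (n : G) ∈ Cz T := by
    intro n
    rw [← MonoidHom.mem_ker, hφ, normalizerMonoidHom_ker, mem_subgroupOf]
  -- adjust y
  obtain ⟨m, hm, hym⟩ := H17.S4.exists_two_part y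
  -- adjust x
  obtain ⟨j, hj, a, hja⟩ : ∃ j, ¬ 3 ∣ j ∧ ∃ a, orderOf (x ^ j) = 3 ^ a := by
    obtain ⟨a, j, hj, h⟩ := Nat.exists_eq_pow_mul_and_not_dvd (orderOf_pos x).ne' 3 (by norm_num)
    refine ⟨j, hj, a, ?_⟩
    rw [orderOf_pow, h, Nat.gcd_eq_right (Dvd.intro_left _ rfl)]
    exact Nat.mul_div_cancel _ (Nat.pos_of_ne_zero (by rintro rfl; simp at hj))
  set X := φ ⟨x, hx⟩ with hX
  set Y := φ ⟨y, hy⟩ with hY
  have hX3 : X ^ 3 = 1 := by rw [hX, ← map_pow, hker]; exact hx3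
  have hX1 : X ≠ 1 := by rw [hX, Ne, hker]; exact hxC
  have hYX : Y * X * Y⁻¹ = X⁻¹ := by
    rw [eq_inv_iff_mul_eq_one, hX, hY, ← map_mul, ← map_inv, ← map_mul, ← map_mul, hker]
    exact hyx
  have hXj : X ^ j ≠ 1 := by
    intro h
    have h1 : orderOf X ∣ 3 := orderOf_dvd_of_pow_eq_one hX3
    have h2 : orderOf X ∣ j := orderOf_dvd_of_pow_eq_one h
    rcases (Nat.dvd_prime Nat.prime_three).1 h1 with h3 | h3
    · exact hX1 (orderOf_eq_one_iff.1 h3)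
    · rw [h3] at h2; exact hj h2
  have hYXj : Y ^ m * X ^ j * (Y ^ m)⁻¹ = (X ^ j)⁻¹ := by
    rw [← conj_pow, inv_pow_odd hYX hm, inv_pow]
  have hx' : x ^ j ∈ N := pow_mem hx j
  have hy' : y ^ m ∈ N := pow_mem hy m
  have hxC' : x ^ j ∉ Cz T := by
    have := (hker ⟨x ^ j, hx'⟩).not.1 (by
      have e : (⟨x ^ j, hx'⟩ : N) = ⟨x, hx⟩ ^ j := rfl
      rw [e, map_pow]; exact hXj)
    exact this
  have hx3' : (x ^ j) ^ 3 ∈ Cz T := by
    rw [← pow_mul, mul_comm, pow_mul]; exact pow_mem hx3 j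
  have hyx' : y ^ m * x ^ j * (y ^ m)⁻¹ * x ^ j ∈ Cz T := by
    have e : (⟨y, hy⟩ ^ m * ⟨x, hx⟩ ^ j * (⟨y, hy⟩ ^ m)⁻¹ * ⟨x, hx⟩ ^ j : N) =
      ⟨y ^ m * x ^ j * (y ^ m)⁻¹ * x ^ j, mul_mem (mul_mem (mul_mem hy' hx') (inv_mem hy')) hx'⟩ := rfl
    have := (hker (⟨y, hy⟩ ^ m * ⟨x, hx⟩ ^ j * (⟨y, hy⟩ ^ m)⁻¹ * ⟨x, hx⟩ ^ j)).1 (by
      rw [map_mul, map_mul, map_mul, map_inv, map_pow, map_pow, ← hX, ← hY, hYXj, inv_mul_cancel])
    exact this
  generalize x ^ j = x' at *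
  generalize y ^ m = y' at *
  clear hXj hYXj hYX hX3 hX1
  -- Frattini quotient
  have hcopx : (Nat.card ↥(zpowers x')).Coprime (Nat.card (frattini T)) := by
    rw [Nat.card_zpowers, hja]
    obtain ⟨b, hb⟩ := IsPGroup.iff_card.1 (hT.to_subgroup (frattini T))
    rw [hb]
    exact Nat.Coprime.pow _ _ (by norm_num)
  obtain ⟨k, hk, hkΦ⟩ : ∃ k ∈ T, x' * k * x'⁻¹ * k⁻¹ ∉ phiOf T := by
    by_contra hcon
    push Not at hcon
    apply hxC'
    have h1 := H1.Coprime.trivial_on_frattini_quotient (zpowers x') T (zpowers_le.2 hx') hcopx (by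
      have hΦN : Nz T ≤ Nz (phiOf T) := Nz_le_Nz_phiOf T
      have h2 : ∀ n : ℕ, ∀ k ∈ T, x' ^ n * k * (x' ^ n)⁻¹ * k⁻¹ ∈ phiOf T := by
        intro n
        induction n with
        | zero => intro k hk; simp
        | succ n ih =>
          intro k hk
          have h3 : x' * k * x'⁻¹ ∈ T := (mem_normalizer_iff.1 hx' k).1 hk
          have e : x' ^ (n + 1) * k * (x' ^ (n + 1))⁻¹ * k⁻¹ =
            (x' ^ n * (x' * k * x'⁻¹) * (x' ^ n)⁻¹ * (x' * k * x'⁻¹)⁻¹) * (x' * k * x'⁻¹ * k⁻¹) := by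
            rw [pow_succ]; group
          rw [e]
          exact mul_mem (ih _ h3) (hcon k hk)
      intro a ha k hk
      obtain ⟨n, rfl⟩ := (Submonoid.mem_powers_iff _ _).1 ((mem_powers_iff_mem_zpowers).2 ha)
      exact h2 n k hk)
    exact h1 (mem_zpowers x')
  have hΦN : N ≤ Nz (phiOf T) := Nz_le_Nz_phiOf T
  have hΦle : phiOf T ≤ T := phiOf_le_self T
  have hTN : T ≤ N := le_normalizer
  have hn : ((phiOf T).subgroupOf N).Normal := (H17.Base.normal_subgroupOf_iff (hΦle.trans hTN)).2 hΦN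
  set π := QuotientGroup.mk' ((phiOf T).subgroupOf N) with hπ
  have hπ1 : ∀ n : N, π n = 1 ↔ (n : G) ∈ phiOf T := by
    intro n
    rw [← MonoidHom.mem_ker, hπ, QuotientGroup.ker_mk', mem_subgroupOf]
  have hπe : ∀ n n' : N, π n = π n' ↔ (n : G) * (n' : G)⁻¹ ∈ phiOf T := by
    intro n n'
    rw [← mul_inv_eq_one, ← map_inv, ← map_mul, hπ1]; rfl
  have hNzm : ∀ (z : G) (hz : z ∈ N), π ⟨z, hz⟩ ∈ Nz ((T.subgroupOf N).map π) := by
    intro z hz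
    apply mem_Nz_of_cj_le
    rintro _ ⟨_, ⟨t, ht, rfl⟩, rfl⟩
    refine ⟨⟨z, hz⟩ * t * ⟨z, hz⟩⁻¹, ?_, ?_⟩
    · show z * (t : G) * z⁻¹ ∈ T
      exact (mem_normalizer_iff.1 hz _).1 ht
    · rw [map_mul, map_mul, map_inv]; rfl
  have key : Involves (Equiv.Perm (Fin 4)) (N ⧸ (phiOf T).subgroupOf N) := by
    refine elem_case (V := (T.subgroupOf N).map π) (x := π ⟨x', hx'⟩) (y := π ⟨y', hy'⟩) ?_ ?_ ?_ ?_ ?_ ?_ ?_ ?_
    · rintro _ ⟨t, ht, rfl⟩ _ ⟨s, hs, rfl⟩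
      rw [← map_mul, ← map_mul, hπe]
      have e : ((t * s : N) : G) * ((s * t : N) : G)⁻¹ = ⁅(t : G), (s : G)⁆ := by
        rw [commutatorElement_def]
        show (t : G) * s * ((s : G) * t)⁻¹ = _
        group
      rw [e]
      exact commutator_le_phiOf hT (commutator_mem_commutator ht hs)
    · rintro _ ⟨t, ht, rfl⟩
      rw [← map_mul, hπ1]
      have := pow_mem_phiOf hT ht
      rw [sq] at this
      exact this
    · exact hNzm _ hx'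
    · exact hNzm _ hy'
    · rintro _ ⟨t, ht, rfl⟩
      rw [← map_pow, ← map_inv, ← map_mul, ← map_mul]
      congr 1
      apply Subtype.ext
      show x' ^ 3 * (t : G) * (x' ^ 3)⁻¹ = t
      rw [← mem_centralizer_iff.1 hx3' t ht]; group
    · refine ⟨π ⟨k, hTN hk⟩, ⟨_, hk, rfl⟩, ?_⟩
      rw [← map_inv, ← map_mul, ← map_mul, Ne, hπe]
      exact hkΦ
    · have e : zpowers (π ⟨y', hy'⟩) = (zpowers (⟨y', hy'⟩ : N)).map π := (MonoidHom.map_zpowers π _).symm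
      rw [e]
      apply IsPGroup.map
      have e2 : (zpowers (⟨y', hy'⟩ : N)).map N.subtype = zpowers y' := MonoidHom.map_zpowers N.subtype _
      rw [← e2] at hym
      exact hym.of_equiv (equivMapOfInjective _ N.subtype N.subtype_injective).symm
    · rintro _ ⟨t, ht, rfl⟩
      rw [← map_inv, ← map_inv, ← map_mul, ← map_mul, ← map_mul, ← map_mul, ← map_mul, ← map_mul, ← map_mul, ← map_mul]
      congr 1
      apply Subtype.ext
      show y' * (x' * t * x'⁻¹) * y'⁻¹ = x'⁻¹ * (y' * t * y'⁻¹) * x'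
      set c := y' * x' * y'⁻¹ * x' with hc
      have ht' : x'⁻¹ * (y' * t * y'⁻¹) * x' ∈ T := by
        have h1 : y' * t * y'⁻¹ ∈ T := (mem_normalizer_iff.1 hy' _).1 ht
        have h2 := (mem_normalizer_iff.1 (inv_mem hx') _).1 h1
        rwa [inv_inv] at h2
      have h3 := mem_centralizer_iff.1 hyx' _ ht'
      have e1 : y' * (x' * t * x'⁻¹) * y'⁻¹ = c * (x'⁻¹ * (y' * t * y'⁻¹) * x') * c⁻¹ := by
        rw [hc]; group
      rw [e1, ← h3]; group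
  exact H13.Sec.involves_trans key (H13.Sec.involves_section _ _)

theorem s3_a : ∀ s : Equiv.Perm (Fin 3), Equiv.Perm.sign s = -1 → s ^ 2 = 1 := by decide
theorem s3_b : ∀ s c : Equiv.Perm (Fin 3), Equiv.Perm.sign s = -1 → Equiv.Perm.sign c = 1 → c ≠ 1 →
    c⁻¹ * (s * c * s⁻¹) ≠ 1 := by decide
theorem s3_c : ∃ c : Equiv.Perm (Fin 3), Equiv.Perm.sign c = 1 ∧ c ≠ 1 ∧ c ^ 3 = 1 := by decide
theorem s3_d : ∃ s : Equiv.Perm (Fin 3), Equiv.Perm.sign s = -1 := by decide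

theorem exists_pair {A : Type*} [Group A] [Finite A] (h : Involves (Equiv.Perm (Fin 3)) A) :
    ∃ x y : A, x ≠ 1 ∧ x ^ 3 = 1 ∧ y * x * y⁻¹ = x⁻¹ := by
  have : Fact (Nat.Prime 2) := ⟨Nat.prime_two⟩
  have : Fact (Nat.Prime 3) := ⟨Nat.prime_three⟩
  obtain ⟨K, f, hf⟩ := H13.Sec.involves_iff.1 h
  have f1 := s3_a
  have f2 := s3_b
  obtain ⟨c, hc1, hc2, hc3⟩ := s3_c
  obtain ⟨s, hs⟩ := s3_d
  suffices hK : ∃ x y : K, x ≠ 1 ∧ x ^ 3 = 1 ∧ y * x * y⁻¹ = x⁻¹ by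
    obtain ⟨x, y, h1, h2, h3⟩ := hK
    exact ⟨x, y, fun h => h1 (Subtype.ext h), congrArg Subtype.val h2, congrArg Subtype.val h3⟩
  set M : Subgroup K := (alternatingGroup (Fin 3)).comap f with hM
  have hMn : M.Normal := Normal.comap inferInstance f
  have hmem : ∀ k, k ∈ M ↔ Equiv.Perm.sign (f k) = 1 := fun k => by
    rw [hM, mem_comap, Equiv.Perm.mem_alternatingGroup]
  obtain ⟨k₀, hk₀⟩ := hf c
  obtain ⟨j, hj, a, hja⟩ : ∃ j, ¬ 3 ∣ j ∧ ∃ a, orderOf (k₀ ^ j) = 3 ^ a := by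
    obtain ⟨a, j, hj, h⟩ := Nat.exists_eq_pow_mul_and_not_dvd (orderOf_pos k₀).ne' 3 (by norm_num)
    refine ⟨j, hj, a, ?_⟩
    rw [orderOf_pow, h, Nat.gcd_eq_right (Dvd.intro_left _ rfl)]
    exact Nat.mul_div_cancel _ (Nat.pos_of_ne_zero (by rintro rfl; simp at hj))
  have hfk : f (k₀ ^ j) ≠ 1 := by
    rw [map_pow, hk₀]
    intro h
    have h1 : orderOf c ∣ 3 := orderOf_dvd_of_pow_eq_one hc3
    have h2 : orderOf c ∣ j := orderOf_dvd_of_pow_eq_one h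
    rcases (Nat.dvd_prime Nat.prime_three).1 h1 with h3 | h3
    · exact hc2 (orderOf_eq_one_iff.1 h3)
    · rw [h3] at h2; exact hj h2
  have hkM : k₀ ^ j ∈ M := pow_mem ((hmem k₀).2 (by rw [hk₀, hc1])) j
  generalize k₀ ^ j = k at *
  have hk3 : IsPGroup 3 (zpowers k) := IsPGroup.of_card (n := a) (by rw [Nat.card_zpowers, hja])
  obtain ⟨T, hkT, hT⟩ := exists_isSylowIn_ge hk3 (zpowers_le.2 hkM)
  rw [zpowers_le] at hkT
  have hfr := frattini_le (H := ⊤) hT le_top (normalizer_eq_top_iff.2 hMn).ge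
  rw [top_inf_eq] at hfr
  obtain ⟨t₀, ht₀, hft₀⟩ : ∃ t ∈ Nz T, Equiv.Perm.sign (f t) = -1 := by
    obtain ⟨s₀, hs₀⟩ := hf s
    have h1 : s₀ ∈ M ⊔ Nz T := by rw [hfr]; trivial
    obtain ⟨m, hm, n, hn, rfl⟩ := mem_sup_of_normal_left.1 h1
    refine ⟨n, hn, ?_⟩
    rw [← hs₀, map_mul, map_mul, (hmem m).1 hm, one_mul] at hs
    exact hs
  obtain ⟨m, hm, hm2⟩ := H17.S4.exists_two_part t₀
  have ht : t₀ ^ m ∈ Nz T := pow_mem ht₀ m
  have hft : Equiv.Perm.sign (f (t₀ ^ m)) = -1 := by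
    rw [map_pow, map_pow, hft₀, hm.neg_one_pow]
  generalize t₀ ^ m = t at *
  set A' := zpowers (t ^ 2) with hA'
  have hA'N : A' ≤ Nz T := by rw [hA', zpowers_le]; exact pow_mem ht 2
  have hA'le : A' ≤ zpowers t := by rw [hA', zpowers_le]; exact pow_mem (mem_zpowers t) 2
  have hcop : (Nat.card A').Coprime (Nat.card T) := by
    obtain ⟨u, hu⟩ := IsPGroup.iff_card.1 (hm2.to_le hA'le)
    obtain ⟨v, hv⟩ := IsPGroup.iff_card.1 hT.isPGroup
    rw [hu, hv]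
    exact Nat.Coprime.pow _ _ (by norm_num)
  have hsup := H1.Coprime.commutator_sup_centralizer A' T hA'N hcop (Or.inl (Group.isSolvable_of_comm mul_comm'))
  have hfA : ∀ b ∈ A', f b = 1 := by
    intro b hb
    obtain ⟨i, rfl⟩ := mem_zpowers_iff.1 hb
    rw [map_zpow, map_pow, f1 _ hft, one_zpow]
  have hfcomm : ⁅T, A'⁆ ≤ f.ker := by
    rw [commutator_le]
    intro x _ b hb
    rw [MonoidHom.mem_ker, map_commutatorElement, hfA b hb, commutatorElement_one_right]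
  obtain ⟨g, hg, hfg⟩ : ∃ g ∈ T ⊓ Cz A', f g ≠ 1 := by
    by_contra hcon
    push Not at hcon
    have h1 : T ≤ f.ker := by
      rw [← hsup]
      exact sup_le hfcomm (fun x hx => hcon x hx)
    exact hfk (h1 hkT)
  have hgt : t * (t * g * t⁻¹) * t⁻¹ = g := by
    have h1 := mem_centralizer_iff.1 hg.2 (t ^ 2) (mem_zpowers _)
    have e : t * (t * g * t⁻¹) * t⁻¹ = t ^ 2 * g * (t ^ 2)⁻¹ := by rw [sq]; group
    rw [e, h1]; group
  set x₀ := g⁻¹ * (t * g * t⁻¹) with hx₀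
  have hfx : f x₀ ≠ 1 := by
    rw [hx₀, map_mul, map_mul, map_mul, map_inv, map_inv]
    exact f2 _ _ hft ((hmem g).1 (hT.le hg.1)) hfg
  have hx₀T : x₀ ∈ T := mul_mem (inv_mem hg.1) ((mem_normalizer_iff.1 ht g).1 hg.1)
  have hinv : t * x₀ * t⁻¹ = x₀⁻¹ := by
    have e : t * x₀ * t⁻¹ = (t * g * t⁻¹)⁻¹ * (t * (t * g * t⁻¹) * t⁻¹) := by rw [hx₀]; group
    rw [e, hgt, hx₀]; group
  have hx₀1 : x₀ ≠ 1 := fun h => hfx (by rw [h, map_one])
  obtain ⟨n, hn⟩ : ∃ n, orderOf x₀ = 3 ^ n := by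
    have h1 := IsPGroup.iff_orderOf.1 hT.isPGroup ⟨x₀, hx₀T⟩
    rwa [Subgroup.orderOf_mk] at h1
  rcases n with _ | n
  · rw [pow_zero, orderOf_eq_one_iff] at hn
    exact absurd hn hx₀1
  refine ⟨x₀ ^ 3 ^ n, t, ?_, ?_, ?_⟩
  · intro h
    have h1 := orderOf_dvd_of_pow_eq_one h
    rw [hn, Nat.pow_dvd_pow_iff_le_right (by norm_num)] at h1
    omega
  · rw [← pow_mul, ← pow_succ, ← hn, pow_orderOf_eq_one]
  · rw [← conj_pow, hinv, inv_pow]

/-- `S₄` from `S₃` in the automizer. -/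
theorem s4_of_s3 [Finite G] {T : Subgroup G} (hT : IsPGroup 2 T)
    (h : Involves (Equiv.Perm (Fin 3)) (↥(Nz T) ⧸ (Cz T).subgroupOf (Nz T))) : Involves (Equiv.Perm (Fin 4)) G := by
  obtain ⟨x, y, hx1, hx3, hyx⟩ := exists_pair h
  obtain ⟨⟨x, hx⟩, rfl⟩ := QuotientGroup.mk_surjective x
  obtain ⟨⟨y, hy⟩, rfl⟩ := QuotientGroup.mk_surjective y
  refine two_case hT hx hy ?_ ?_ ?_
  · intro h
    exact hx1 ((QuotientGroup.eq_one_iff _).2 h)
  · rw [← QuotientGroup.mk_pow, QuotientGroup.eq_one_iff] at hx3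
    exact hx3
  · rw [eq_inv_iff_mul_eq_one, ← QuotientGroup.mk_mul, ← QuotientGroup.mk_inv, ← QuotientGroup.mk_mul,
      ← QuotientGroup.mk_mul, QuotientGroup.eq_one_iff] at hyx
    exact hyx

open Matrix in
/-- `SL₂(F)` from `Qd(F)`. -/
theorem sl2_of_qd [Finite G] {F : Type} [Field F] [Finite F] {p : ℕ} [Fact p.Prime] [CharP F p]
    (h : Involves ↥(qdOver F) G) :
    ∃ T : Subgroup G, IsPGroup p T ∧ Involves (SpecialLinearGroup (Fin 2) F) (↥(Nz T) ⧸ (Cz T).subgroupOf (Nz T)) := by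
  obtain ⟨K, f, hf⟩ := H13.Sec.involves_iff.1 h
  set g : ↥(qdOver F) →* H5.SL2.S F := H17.QdF.lin with hg
  have hgo : Function.Surjective g := H17.QdF.lin_onto
  set M : Subgroup K := (g.comp f).ker with hM
  obtain ⟨T₀, hT₀⟩ := exists_isSylowIn p M
  have hMn : M.Normal := inferInstance
  have hfr := frattini_le (H := ⊤) hT₀ le_top (normalizer_eq_top_iff.2 hMn).ge
  rw [top_inf_eq] at hfr
  -- `f` maps `T₀` onto the kernel of `g`
  have hfT : T₀.map f = g.ker := by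
    apply le_antisymm
    · rintro _ ⟨t, ht, rfl⟩
      exact hT₀.le ht
    · -- index argument
      let fM : M →* g.ker := (f.comp M.subtype).codRestrict g.ker (fun m => m.2)
      have hfM : Function.Surjective fM := by
        rintro ⟨v, hv⟩
        obtain ⟨k, rfl⟩ := hf v
        exact ⟨⟨k, hv⟩, rfl⟩
      have h1 : IsPGroup p g.ker := H17.QdF.ker_isPGroup
      have h2 : ((hT₀.toSylow.mapSurjective hfM : Sylow p g.ker) : Subgroup g.ker) = ⊤ := by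
        have h3 := (hT₀.toSylow.mapSurjective hfM).3 (Q := ⊤) (h1.to_subgroup ⊤) le_top
        exact h3.symm
      rw [Sylow.coe_mapSurjective, hT₀.coe_toSylow] at h2
      intro v hv
      have h3 : (⟨v, hv⟩ : g.ker) ∈ (T₀.subgroupOf M).map fM := by rw [h2]; trivial
      obtain ⟨m, hm, hmv⟩ := h3
      exact ⟨m, hm, congrArg Subtype.val hmv⟩
  set T : Subgroup G := T₀.map K.subtype with hT
  have hTp : IsPGroup p T := hT₀.isPGroup.map _
  refine ⟨T, hTp, ?_⟩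
  set N := Nz T with hN
  have hlift : ∀ k ∈ Nz T₀, (k : G) ∈ N := by
    intro k hk
    apply mem_Nz_of_cj_le
    rintro _ ⟨_, ⟨t, ht, rfl⟩, rfl⟩
    exact ⟨k * t * k⁻¹, (mem_normalizer_iff.1 hk t).1 ht, rfl⟩
  have key := H27.Qd.involves_of_rel (L := ↥N ⧸ (Cz T).subgroupOf N) (X := H5.SL2.S F) (H := ⊤)
    (fun y s => ∃ k : K, ∃ h : (k : G) ∈ N, QuotientGroup.mk ⟨k, h⟩ = y ∧ g (f k) = s) ?_ ?_ ?_ ?_ ?_ ?_
  · exact H17.Involves.involves_of_mulEquiv Subgroup.topEquiv key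
  · exact ⟨1, one_mem _, rfl, by rw [map_one, map_one]⟩
  · rintro _ _ _ _ ⟨k, hk, rfl, rfl⟩ ⟨l, hl, rfl, rfl⟩
    exact ⟨k * l, mul_mem hk hl, rfl, by rw [map_mul, map_mul]⟩
  · rintro _ _ ⟨k, hk, rfl, rfl⟩
    exact ⟨k⁻¹, inv_mem hk, rfl, by rw [map_inv, map_inv]⟩
  · rintro _ ⟨k, hk, h1, rfl⟩
    rw [QuotientGroup.eq_one_iff, mem_subgroupOf] at h1
    -- `f k` centralizes the kernel of `g`
    have h2 : ∀ v ∈ g.ker, f k * v = v * f k := by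
      intro v hv
      rw [← hfT] at hv
      obtain ⟨t, ht, rfl⟩ := hv
      rw [← map_mul, ← map_mul]
      congr 1
      apply Subtype.ext
      exact (mem_centralizer_iff.1 h1 (t : G) ⟨t, ht, rfl⟩).symm
    obtain ⟨A, w, hAw⟩ := H17.QdF.exists_mk (f k)
    rw [hAw] at h2 ⊢
    rw [hg, H17.QdF.lin_mk]
    apply Subtype.ext
    apply Matrix.ext_of_mulVec_single
    intro i
    have h3 := h2 (H17.QdF.mk 1 (Pi.single i 1)) (H17.QdF.lin_mk _ _)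
    rw [H17.QdF.mk_mul, H17.QdF.mk_mul] at h3
    have h4 := (H17.QdF.mk_inj h3).2
    have e1 : ((1 : H5.SL2.S F) : Matrix (Fin 2) (Fin 2) F) = 1 := rfl
    rw [e1, Matrix.one_mulVec, add_comm, add_left_cancel_iff] at h4
    rw [e1, Matrix.one_mulVec]
    exact h4
  · intro s _
    obtain ⟨x, rfl⟩ := hgo s
    obtain ⟨k, rfl⟩ := hf x
    have h1 : k ∈ M ⊔ Nz T₀ := by rw [hfr]; trivial
    obtain ⟨m, hm, n, hn, rfl⟩ := mem_sup_of_normal_left.1 h1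
    refine ⟨_, n, hlift n hn, rfl, ?_⟩
    rw [map_mul, map_mul]
    have : g (f m) = 1 := hm
    rw [this, one_mul]
  · intro _ _ _; trivial

theorem main [Finite G] : Involves (Equiv.Perm (Fin 4)) G ↔ ∃ T : Subgroup G, IsPGroup 2 ↥T ∧
    Involves (Equiv.Perm (Fin 3)) (↥(Nz T) ⧸ (Cz T).subgroupOf (Nz T)) := by
  have : Fact (Nat.Prime 2) := ⟨Nat.prime_two⟩
  constructor
  · intro h
    obtain ⟨e⟩ := H17.QdF.qd_two
    obtain ⟨e3⟩ := H5.SmallIso.sl2_2 (F := ZMod 2) (ZMod.card 2)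
    have h1 : Involves ↥(qdOver (ZMod 2)) G := H17.Involves.involves_of_mulEquiv (e.symm) h
    obtain ⟨T, hT, h2⟩ := sl2_of_qd (p := 2) h1
    exact ⟨T, hT, H17.Involves.involves_of_mulEquiv e3 h2⟩
  · rintro ⟨T, hT, h⟩
    exact s4_of_s3 hT h

end Cfsg.Agent.H17.S4Inv
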