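import Mathlib

set_option autoImplicit false

/-! Partial transfers (the cocycle form of the transfer). -/

namespace Cfsg.Agent.H17.Yo

variable {G : Type*} [Group G] {N : Subgroup G} {C : Type*} [CommGroup C] (lam : N →* C)

theorem mem_aux (y : G) (w : G ⧸ N) : (y • w).out⁻¹ * y * w.out ∈ N := by
  have h1 : ((y • w).out : G ⧸ N) = ((y * w.out : G) : G ⧸ N) := by
    rw [QuotientGroup.out_eq']
    conv_lhs => rw [← QuotientGroup.out_eq' w]
    rfl
  rw [mul_assoc]
  exact QuotientGroup.eq.1 h1

/-- the cocycle -/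
noncomputable def c (y : G) (w : G ⧸ N) : C := lam ⟨(y • w).out⁻¹ * y * w.out, mem_aux y w⟩

theorem c_mul (y z : G) (w : G ⧸ N) : c lam (y * z) w = c lam y (z • w) * c lam z w := by
  unfold c
  rw [← map_mul]
  congr 1
  apply Subtype.ext
  change ((y * z) • w).out⁻¹ * (y * z) * w.out = ((y • z • w).out⁻¹ * y * (z • w).out) * ((z • w).out⁻¹ * z * w.out)
  rw [mul_smul]
  group

theorem c_one (w : G ⧸ N) : c lam 1 w = 1 := by
  have h := c_mul lam 1 1 w
  rw [mul_one, one_smul] at h
  exact (left_eq_mul.1 h)

theorem c_pow (y : G) (w : G ⧸ N) (n : ℕ) : c lam (y ^ n) w = ∏ i ∈ Finset.range n, c lam y (y ^ i • w) := by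
  induction n with
  | zero => simp [c_one]
  | succ n ih => rw [pow_succ', c_mul, ih, Finset.prod_range_succ, mul_comm]

theorem c_fix {y : G} {w : G ⧸ N} (h : y • w = w) : ∃ hm : w.out⁻¹ * y * w.out ∈ N, c lam y w = lam ⟨_, hm⟩ := by
  have h1 := mem_aux y w
  unfold c
  simp only [h] at h1 ⊢
  exact ⟨h1, trivial⟩

section prod
open Classical

/-- product over a finite set -/
noncomputable def pr (T : Finset (G ⧸ N)) (y : G) : C := ∏ w ∈ T, c lam y w

theorem pr_mul {T : Finset (G ⧸ N)} (y z : G) (hz : ∀ w ∈ T, z • w ∈ T) : pr lam T (y * z) = pr lam T y * pr lam T z := by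
  unfold pr
  simp only [c_mul]
  rw [Finset.prod_mul_distrib]
  congr 1
  refine Finset.prod_bij (fun w _ => z • w) (fun w hw => hz w hw) ?_ ?_ (fun w _ => rfl)
  · intro a _ b _ h
    exact smul_left_cancel z h
  · intro b hb
    have hinj : Function.Injective (fun w : T => (⟨z • (w : G ⧸ N), hz w w.2⟩ : T)) := by
      intro a b h
      exact Subtype.ext (smul_left_cancel z (congrArg Subtype.val h))
    obtain ⟨a, ha⟩ := (Finite.injective_iff_surjective.1 hinj) ⟨b, hb⟩
    exact ⟨a, a.2, congrArg Subtype.val ha⟩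

theorem pr_one (T : Finset (G ⧸ N)) : pr lam T 1 = 1 := by
  unfold pr; simp [c_one]

theorem c_inv (y : G) (w : G ⧸ N) : c lam y⁻¹ (y • w) = (c lam y w)⁻¹ := by
  have h := c_mul lam y⁻¹ y w
  rw [inv_mul_cancel, c_one] at h
  exact eq_inv_of_mul_eq_one_left h.symm

theorem pr_conj {T : Finset (G ⧸ N)} (t y : G) (hy : ∀ w ∈ T, y • w ∈ T) :
    pr lam (T.image (t • ·)) (t * y * t⁻¹) = pr lam T y := by
  unfold pr
  rw [Finset.prod_image (fun a _ b _ h => smul_left_cancel t h)]
  have h1 : ∀ w ∈ T, c lam (t * y * t⁻¹) (t • w) = c lam t (y • w) * c lam y w * (c lam t w)⁻¹ := by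
    intro w _
    rw [c_mul, inv_smul_smul, c_mul, c_inv]
  rw [Finset.prod_congr rfl h1, Finset.prod_mul_distrib, Finset.prod_mul_distrib]
  have h2 : ∏ w ∈ T, c lam t (y • w) = ∏ w ∈ T, c lam t w := by
    refine Finset.prod_bij (fun w _ => y • w) (fun w hw => hy w hw) ?_ ?_ (fun w _ => rfl)
    · intro a _ b _ h
      exact smul_left_cancel y h
    · intro b hb
      have hinj : Function.Injective (fun w : T => (⟨y • (w : G ⧸ N), hy w w.2⟩ : T)) := by
        intro a b h
        exact Subtype.ext (smul_left_cancel y (congrArg Subtype.val h))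
      obtain ⟨a, ha⟩ := (Finite.injective_iff_surjective.1 hinj) ⟨b, hb⟩
      exact ⟨a, a.2, congrArg Subtype.val ha⟩
  rw [h2, Finset.prod_inv_distrib]
  rw [mul_comm (∏ w ∈ T, c lam t w), mul_assoc, mul_inv_cancel, mul_one]

/-- vanishing: the product over a `y`-invariant set on which the return cocycles vanish -/
theorem pr_vanish {y : G} (hy : IsOfFinOrder y) : ∀ (k : ℕ) (T : Finset (G ⧸ N)), T.card ≤ k → (∀ w ∈ T, y • w ∈ T) →
    (∀ w ∈ T, ∀ n, n ∣ orderOf y → n ≠ 0 → y ^ n • w = w → (∀ i, 0 < i → i < n → y ^ i • w ≠ w) → c lam (y ^ n) w = 1) →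
    pr lam T y = 1 := by
  intro k
  induction k with
  | zero =>
    intro T hT _ _
    have : T = ∅ := Finset.card_eq_zero.1 (by omega)
    rw [this]; simp [pr]
  | succ k ih =>
    intro T hT hyT hvan
    rcases T.eq_empty_or_nonempty with rfl | ⟨w, hw⟩
    · simp [pr]
    set n := Function.minimalPeriod (y • · : G ⧸ N → G ⧸ N) w with hn
    have hiter : ∀ i, (y • · : G ⧸ N → G ⧸ N)^[i] w = y ^ i • w := by
      intro i
      rw [smul_iterate]
    have hdvd : n ∣ orderOf y := by
      rw [hn]
      apply Function.IsPeriodicPt.minimalPeriod_dvd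
      unfold Function.IsPeriodicPt Function.IsFixedPt
      rw [hiter, pow_orderOf_eq_one, one_smul]
    have hn0 : n ≠ 0 := fun h => by
      rw [h] at hdvd
      exact hy.orderOf_pos.ne' (Nat.eq_zero_of_zero_dvd hdvd)
    have hfix : y ^ n • w = w := by
      rw [← hiter]
      exact Function.isPeriodicPt_minimalPeriod _ _
    have hmin : ∀ i, 0 < i → i < n → y ^ i • w ≠ w := by
      intro i hi hin h
      rw [← hiter] at h
      exact absurd (Function.IsPeriodicPt.minimalPeriod_le hi h) (not_le.2 hin)
    set O := (Finset.range n).image (fun i => y ^ i • w) with hO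
    have hpow : ∀ i, y ^ i • w ∈ T := by
      intro i
      induction i with
      | zero => rwa [pow_zero, one_smul]
      | succ i ih => rw [pow_succ', mul_smul]; exact hyT _ ih
    have hOT : O ⊆ T := by
      intro v hv
      obtain ⟨i, _, rfl⟩ := Finset.mem_image.1 hv
      exact hpow i
    have hinj : Set.InjOn (fun i => y ^ i • w) (Finset.range n : Set ℕ) := by
      have key : ∀ i j, i < j → j < n → y ^ i • w ≠ y ^ j • w := by
        intro i j hij hj h
        have h1 : y ^ j = y ^ i * y ^ (j - i) := by rw [← pow_add]; congr 1; omega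
        rw [h1, mul_smul] at h
        have h2 := smul_left_cancel _ h
        exact hmin (j - i) (by omega) (by omega) h2.symm
      intro i hi j hj h
      rw [Finset.coe_range, Set.mem_Iio] at hi hj
      rcases lt_trichotomy i j with h1 | h1 | h1
      · exact absurd h (key i j h1 hj)
      · exact h1
      · exact absurd h.symm (key j i h1 hi)
    have hprO : ∏ v ∈ O, c lam y v = 1 := by
      rw [hO, Finset.prod_image hinj, ← c_pow]
      exact hvan w hw n hdvd hn0 hfix hmin
    have hyO : ∀ v ∈ O, y • v ∈ O := by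
      intro v hv
      obtain ⟨i, hi, rfl⟩ := Finset.mem_image.1 hv
      rw [Finset.mem_range] at hi
      rw [hO, Finset.mem_image]
      by_cases h1 : i + 1 < n
      · exact ⟨i + 1, Finset.mem_range.2 h1, by rw [pow_succ', mul_smul]⟩
      · refine ⟨0, Finset.mem_range.2 (by omega), ?_⟩
        have : i + 1 = n := by omega
        rw [pow_zero, one_smul, ← mul_smul, ← pow_succ', this, hfix]
    have hOinv : ∀ v, y • v ∈ O → v ∈ O := by
      intro v hv
      have hinj : Function.Injective (fun w : O => (⟨y • (w : G ⧸ N), hyO w w.2⟩ : O)) := by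
        intro a b h
        exact Subtype.ext (smul_left_cancel y (congrArg Subtype.val h))
      obtain ⟨a, ha⟩ := (Finite.injective_iff_surjective.1 hinj) ⟨y • v, hv⟩
      have := smul_left_cancel y (congrArg Subtype.val ha)
      rw [← this]; exact a.2
    have hrest : pr lam (T \ O) y = 1 := by
      apply ih
      · have h1 : w ∈ O := by
          rw [hO, Finset.mem_image]
          exact ⟨0, Finset.mem_range.2 (Nat.pos_of_ne_zero hn0), by rw [pow_zero, one_smul]⟩
        have h2 : (T \ O).card < T.card := Finset.card_lt_card (by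
          rw [Finset.ssubset_iff_subset_ne]
          refine ⟨Finset.sdiff_subset, fun h => ?_⟩
          have : w ∈ T \ O := by rw [h]; exact hw
          exact (Finset.mem_sdiff.1 this).2 h1)
        omega
      · intro v hv
        rw [Finset.mem_sdiff] at hv ⊢
        exact ⟨hyT v hv.1, fun h => hv.2 (hOinv v h)⟩
      · intro v hv
        exact hvan v (Finset.mem_sdiff.1 hv).1
    have : pr lam T y = pr lam (T \ O) y * ∏ v ∈ O, c lam y v := by
      unfold pr
      exact (Finset.prod_sdiff hOT).symm
    rw [this, hrest, hprO, mul_one]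

/-- the total product is a homomorphism, so it kills the derived subgroup -/
theorem pr_univ_comm [Finite (G ⧸ N)] [Fintype (G ⧸ N)] {x : G} (hx : x ∈ commutator G) : pr lam Finset.univ x = 1 := by
  let f : G →* C :=
    { toFun := pr lam Finset.univ
      map_one' := pr_one lam _
      map_mul' := fun y z => pr_mul lam y z (fun _ _ => Finset.mem_univ _) }
  have h1 : commutator G ≤ f.ker := Abelianization.commutator_subset_ker f
  exact h1 hx

end prod

end Cfsg.Agent.H17.Yo
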