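import Mathlib
import Cfsg.Prelude.Def_Transfer
import Cfsg.Agent.H17_Yo1
import Cfsg.Agent.H2_Fusion2
import Cfsg.Agent.H2_EA4c

set_option autoImplicit false

/-! Yoshida's argument: setting up the homomorphism and the core lemma. -/

open Cfsg Subgroup
open Cfsg.Agent.H2.Fusion2 Cfsg.Agent.H2.Fusion

namespace Cfsg.Agent.H17.Yo

section T0

variable {G : Type*} [Group G] [Finite G] {p : ℕ} [hp : Fact p.Prime]

theorem res_eq (S : Sylow p G) (N : Subgroup G) (hSN : (S : Subgroup G) ≤ N)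
    (h : pResidual p G ⊓ N = (pResidual p N).map N.subtype) :
    (S : Subgroup G) ⊓ commutator G = (S : Subgroup G) ⊓ ⁅N, N⁆ := by
  apply le_antisymm
  swap
  · refine inf_le_inf_left _ ?_
    rw [_root_.commutator_def]
    exact commutator_mono le_top le_top
  rintro x ⟨hxS, hxG⟩
  refine ⟨hxS, ?_⟩
  set K := pResidual p G with hK
  have iK : K.Normal := pResidual_normal p
  have hNK : N ⊔ K = ⊤ := by
    rw [eq_top_iff, ← sup_pResidual S]
    exact sup_le_sup_right hSN _
  have h1 : commutator G ≤ ⁅N, N⁆ ⊔ K := by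
    have hm : (⊤ : Subgroup G).map (QuotientGroup.mk' K) = N.map (QuotientGroup.mk' K) := by
      rw [← hNK, Subgroup.map_sup]
      have : K.map (QuotientGroup.mk' K) = ⊥ := by
        rw [Subgroup.map_eq_bot_iff, QuotientGroup.ker_mk']
      rw [this, sup_bot_eq]
    have h2 : (commutator G).map (QuotientGroup.mk' K) = ⁅N, N⁆.map (QuotientGroup.mk' K) := by
      rw [_root_.commutator_def, Subgroup.map_commutator, Subgroup.map_commutator, hm]
    intro y hy
    have h3 : QuotientGroup.mk' K y ∈ ⁅N, N⁆.map (QuotientGroup.mk' K) := h2 ▸ mem_map_of_mem _ hy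
    obtain ⟨z, hz, hzy⟩ := h3
    have h4 : z⁻¹ * y ∈ K := by
      rw [← QuotientGroup.eq]
      exact hzy
    have : y = z * (z⁻¹ * y) := by group
    rw [this]
    exact mul_mem (mem_sup_left hz) (mem_sup_right h4)
  obtain ⟨n, hn, k, hk, hnk⟩ := Subgroup.mem_sup_of_normal_right.1 (h1 hxG)
  have hNN : ⁅N, N⁆ ≤ N := by
    rw [Subgroup.commutator_le]
    intro a ha b hb
    rw [commutatorElement_def]
    exact mul_mem (mul_mem (mul_mem ha hb) (inv_mem ha)) (inv_mem hb)
  have hkN : k ∈ N := by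
    have : k = n⁻¹ * x := by rw [← hnk]; group
    rw [this]
    exact mul_mem (inv_mem (hNN hn)) (hSN hxS)
  have hk2 : k ∈ (pResidual p N).map N.subtype := h ▸ ⟨hk, hkN⟩
  obtain ⟨k', hk', hk'e⟩ := hk2
  set m := ordCompl[p] (Nat.card N) with hm
  let φ : N →* Abelianization N := (powMonoidHom m).comp Abelianization.of
  have h5 : pResidual p N ≤ φ.ker := by
    rw [pResidual, Subgroup.closure_le]
    intro g hg
    have hg' : Nat.Coprime (orderOf g) p := hg
    have h6 : orderOf g ∣ m := by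
      have h7 : orderOf g ∣ ordProj[p] (Nat.card N) * m := by
        rw [hm, Nat.ordProj_mul_ordCompl_eq_self]
        exact orderOf_dvd_natCard g
      exact Nat.Coprime.dvd_of_dvd_mul_left (Nat.Coprime.pow_right _ hg') h7
    change φ g = 1
    change (Abelianization.of g) ^ m = 1
    rw [← map_pow, orderOf_dvd_iff_pow_eq_one.1 h6, map_one]
  have h6 : φ k' = 1 := h5 hk'
  have hnn : n ∈ N := hNN hn
  have h7 : (⟨n, hnn⟩ : N) ∈ commutator N := by
    have := hn
    rw [← map_subtype_commutator] at this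
    obtain ⟨y, hy, hyn⟩ := this
    have : y = ⟨n, hnn⟩ := Subtype.ext hyn
    rwa [← this]
  have h8 : φ ⟨x, hSN hxS⟩ = 1 := by
    have : (⟨x, hSN hxS⟩ : N) = ⟨n, hnn⟩ * k' := by
      apply Subtype.ext
      change x = n * (k' : G)
      rw [← hnk]
      congr 1
      exact hk'e.symm
    rw [this, map_mul, h6, mul_one]
    change (Abelianization.of _) ^ m = 1
    have h7' : (⟨n, hnn⟩ : N) ∈ (Abelianization.of (G := N)).ker := by rw [Abelianization.ker_of]; exact h7
    have : Abelianization.of (⟨n, hnn⟩ : N) = 1 := h7'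
    rw [this, one_pow]
  have h9 : Abelianization.of (⟨x, hSN hxS⟩ : N) = 1 := by
    rw [← orderOf_eq_one_iff]
    have h10 : orderOf (Abelianization.of (⟨x, hSN hxS⟩ : N)) ∣ m := orderOf_dvd_of_pow_eq_one h8
    obtain ⟨j, hj⟩ := S.isPGroup' ⟨x, hxS⟩
    have h11 : orderOf (Abelianization.of (⟨x, hSN hxS⟩ : N)) ∣ p ^ j := by
      apply orderOf_dvd_of_pow_eq_one
      rw [← map_pow]
      have : (⟨x, hSN hxS⟩ : N) ^ p ^ j = 1 := by
        apply Subtype.ext
        have := congrArg (Subtype.val) hj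
        simpa using this
      rw [this, map_one]
    have h12 : Nat.Coprime m (p ^ j) := by
      apply Nat.Coprime.pow_right
      exact (Nat.coprime_ordCompl hp.out Nat.card_pos.ne').symm
    exact Nat.eq_one_of_dvd_coprimes h12 h10 h11
  have h10 : (⟨x, hSN hxS⟩ : N) ∈ commutator N := by
    rw [← Abelianization.ker_of]; exact h9
  rw [← map_subtype_commutator]
  exact ⟨_, h10, rfl⟩

theorem exists_lam (S : Sylow p G) (N : Subgroup G) (hSN : (S : Subgroup G) ≤ N)
    (h : (S : Subgroup G) ⊓ commutator G ≠ (S : Subgroup G) ⊓ ⁅N, N⁆) :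
    ∃ (lam : N →* Multiplicative (ZMod p)) (x : G) (hx : x ∈ N), x ∈ (S : Subgroup G) ∧ x ∈ commutator G ∧
      lam ⟨x, hx⟩ ≠ 1 := by
  by_contra hcon
  apply h
  apply res_eq S N hSN
  apply tate S N hSN
  intro C hC hCi x hx hxc hxS
  by_contra hxC
  apply hcon
  have hcard : Nat.card (N ⧸ C) = p := by rw [← Subgroup.index_eq_card]; exact hCi
  have hcard2 : Nat.card (Multiplicative (ZMod p)) = p := by
    rw [Nat.card_congr Multiplicative.toAdd, Nat.card_zmod]
  refine ⟨(mulEquivOfPrimeCardEq (p := p) hcard hcard2).toMonoidHom.comp (QuotientGroup.mk' C), x, hx, hxS, hxc, ?_⟩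
  intro h1
  apply hxC
  change (mulEquivOfPrimeCardEq (p := p) hcard hcard2) (QuotientGroup.mk' C ⟨x, hx⟩) = 1 at h1
  rw [MulEquiv.map_eq_one_iff] at h1
  exact (QuotientGroup.eq_one_iff _).1 h1

end T0

section core
open Classical

variable {G : Type*} [Group G] {N : Subgroup G} {C : Type*} [CommGroup C] (lam : N →* C)

/-- orbit of a subgroup, as a finset -/
noncomputable def orb [Fintype (G ⧸ N)] (H : Subgroup G) (w : G ⧸ N) : Finset (G ⧸ N) :=
  Finset.univ.filter (fun v => ∃ h ∈ H, h • w = v)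

variable [Fintype (G ⧸ N)]

theorem mem_orb {H : Subgroup G} {w v : G ⧸ N} : v ∈ orb H w ↔ ∃ h ∈ H, h • w = v := by
  simp [orb]

theorem smul_mem_orb {H : Subgroup G} {w v : G ⧸ N} {h : G} (hh : h ∈ H) (hv : v ∈ orb H w) : h • v ∈ orb H w := by
  rw [mem_orb] at hv ⊢
  obtain ⟨k, hk, rfl⟩ := hv
  exact ⟨h * k, mul_mem hh hk, mul_smul _ _ _⟩

theorem self_mem_orb {H : Subgroup G} (w : G ⧸ N) : w ∈ orb H w := mem_orb.2 ⟨1, H.one_mem, one_smul _ _⟩

/-- in an invariant set with nontrivial product, some orbit has nontrivial product -/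
theorem exists_orb {H : Subgroup G} {x : G} (hx : x ∈ H) : ∀ (k : ℕ) (T : Finset (G ⧸ N)), T.card ≤ k →
    (∀ h ∈ H, ∀ w ∈ T, h • w ∈ T) → pr lam T x ≠ 1 → ∃ w ∈ T, pr lam (orb H w) x ≠ 1 := by
  intro k
  induction k with
  | zero =>
    intro T hT _ hp
    exfalso
    have : T = ∅ := Finset.card_eq_zero.1 (by omega)
    rw [this] at hp
    exact hp (by simp [pr])
  | succ k ih =>
    intro T hT hinv hp
    rcases T.eq_empty_or_nonempty with rfl | ⟨w, hw⟩
    · exact absurd (by simp [pr]) hp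
    by_cases h1 : pr lam (orb H w) x = 1
    swap
    · exact ⟨w, hw, h1⟩
    have hOT : orb H w ⊆ T := by
      intro v hv
      obtain ⟨h, hh, rfl⟩ := mem_orb.1 hv
      exact hinv h hh w hw
    have h2 : pr lam T x = pr lam (T \ orb H w) x * pr lam (orb H w) x := by
      unfold pr
      exact (Finset.prod_sdiff hOT).symm
    rw [h1, mul_one] at h2
    obtain ⟨v, hv, hv2⟩ := ih (T \ orb H w) (by
      have h3 : (T \ orb H w).card < T.card := Finset.card_lt_card (by
        rw [Finset.ssubset_iff_subset_ne]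
        refine ⟨Finset.sdiff_subset, fun h => ?_⟩
        have : w ∈ T \ orb H w := by rw [h]; exact hw
        exact (Finset.mem_sdiff.1 this).2 (self_mem_orb w))
      omega) (by
      intro h hh v hv
      rw [Finset.mem_sdiff] at hv ⊢
      refine ⟨hinv h hh v hv.1, fun hc => hv.2 ?_⟩
      have := smul_mem_orb (inv_mem hh) hc
      rwa [inv_smul_smul] at this) (by rwa [← h2])
    exact ⟨v, (Finset.mem_sdiff.1 hv).1, hv2⟩

/-- the core lemma -/
theorem core {p : ℕ} (hp : p.Prime) {Y M : Subgroup G} (hMY : M ≤ Y) (hMn : ∀ y ∈ Y, ∀ m ∈ M, y * m * y⁻¹ ∈ M)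
    (hMi : M.relIndex Y = p) {w : G ⧸ N} (hst : ∀ y ∈ Y, y • w = w → y ∈ M) {x : G} (hx : x ∈ Y) (hxo : IsOfFinOrder x)
    (hvan : ∀ (v : G ⧸ N) (n : ℕ), n ∣ orderOf x → n ≠ 0 → n ≠ 1 → x ^ n • v = v → c lam (x ^ n) v = 1)
    (hpr : pr lam (orb Y w) x ≠ 1) :
    x ∈ M ∧ ∃ ν : G → C, (∀ a ∈ M, ∀ b ∈ M, ν (a * b) = ν a * ν b) ∧
      ∀ t ∈ Y, t ∉ M → ∏ i ∈ Finset.range p, ν (t⁻¹ ^ i * x * t ^ i) ≠ 1 := by
  have hxM : x ∈ M := by
    by_contra hxM
    apply hpr
    apply pr_vanish lam hxo _ _ le_rfl (fun v hv => smul_mem_orb hx hv)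
    intro v hv n hn hn0 hfix _
    by_cases h1 : n = 1
    · exfalso
      rw [h1, pow_one] at hfix
      obtain ⟨y, hy, rfl⟩ := mem_orb.1 hv
      apply hxM
      have h2 : y⁻¹ * x * y ∈ M := by
        apply hst _ (mul_mem (mul_mem (inv_mem hy) hx) hy)
        rw [mul_smul, mul_smul, hfix, inv_smul_smul]
      have h3 := hMn y hy _ h2
      have h4 : y * (y⁻¹ * x * y) * y⁻¹ = x := by group
      rwa [h4] at h3
    · exact hvan v n hn hn0 h1 hfix
  refine ⟨hxM, pr lam (orb M w), fun a _ b hb => pr_mul lam a b (fun v hv => smul_mem_orb hb hv), ?_⟩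
  intro t ht htM
  -- powers of t
  have hpow : ∀ n : ℕ, t ^ n ∈ M → p ∣ n := by
    intro n hn
    have iMn : (M.subgroupOf Y).Normal := ⟨fun m hm y => by
      rw [mem_subgroupOf] at hm ⊢
      exact hMn y y.2 m hm⟩
    have hidx : Nat.card (Y ⧸ M.subgroupOf Y) = p := by
      rw [← Subgroup.index_eq_card]; exact hMi
    set q : Y ⧸ M.subgroupOf Y := QuotientGroup.mk' _ ⟨t, ht⟩ with hq
    have hq1 : q ≠ 1 := by
      rw [hq, Ne, QuotientGroup.mk'_apply, QuotientGroup.eq_one_iff, mem_subgroupOf]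
      exact htM
    have h1 : orderOf q ∣ p := hidx ▸ orderOf_dvd_natCard q
    have h2 : orderOf q = p := by
      rcases (Nat.dvd_prime hp).1 h1 with h | h
      · exact absurd (orderOf_eq_one_iff.1 h) hq1
      · exact h
    rw [← h2, orderOf_dvd_iff_pow_eq_one, hq, ← map_pow, QuotientGroup.mk'_apply, QuotientGroup.eq_one_iff, mem_subgroupOf]
    exact hn
  have hcov : ∀ y ∈ Y, ∃ i ∈ Finset.range p, ∃ m ∈ M, y = t ^ i * m := by
    intro y hy
    have iMn : (M.subgroupOf Y).Normal := ⟨fun m hm y => by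
      rw [mem_subgroupOf] at hm ⊢
      exact hMn y y.2 m hm⟩
    have hidx : Nat.card (Y ⧸ M.subgroupOf Y) = p := by
      rw [← Subgroup.index_eq_card]; exact hMi
    have iF : Finite (Y ⧸ M.subgroupOf Y) := Nat.finite_of_card_ne_zero (by rw [hidx]; exact hp.ne_zero)
    set q : Y ⧸ M.subgroupOf Y := QuotientGroup.mk' _ ⟨t, ht⟩ with hq
    have hq1 : q ≠ 1 := by
      rw [hq, Ne, QuotientGroup.mk'_apply, QuotientGroup.eq_one_iff, mem_subgroupOf]
      exact htM
    have h1 : orderOf q ∣ p := hidx ▸ orderOf_dvd_natCard q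
    have h2 : orderOf q = p := by
      rcases (Nat.dvd_prime hp).1 h1 with h | h
      · exact absurd (orderOf_eq_one_iff.1 h) hq1
      · exact h
    have h3 : zpowers q = ⊤ := by
      apply Subgroup.eq_top_of_card_eq
      rw [Nat.card_zpowers, h2, hidx]
    have h4 : (QuotientGroup.mk' (M.subgroupOf Y) ⟨y, hy⟩) ∈ zpowers q := h3 ▸ mem_top _
    obtain ⟨i, hi, hi2⟩ := (mem_zpowers_iff_mem_range_orderOf (x := q)).1 h4 |> Finset.mem_image.1
    rw [h2] at hi
    refine ⟨i, hi, (t ^ i)⁻¹ * y, ?_, by group⟩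
    rw [hq, ← map_pow] at hi2
    have h5 := QuotientGroup.eq.1 hi2
    rw [mem_subgroupOf] at h5
    simpa using h5
  -- the disjoint union
  have hdec : orb Y w = (Finset.range p).biUnion (fun i => (orb M w).image (t ^ i • ·)) := by
    ext v
    rw [Finset.mem_biUnion, mem_orb]
    constructor
    · rintro ⟨y, hy, rfl⟩
      obtain ⟨i, hi, m, hm, rfl⟩ := hcov y hy
      refine ⟨i, hi, Finset.mem_image.2 ⟨m • w, mem_orb.2 ⟨m, hm, rfl⟩, ?_⟩⟩
      rw [mul_smul]
    · rintro ⟨i, hi, hv⟩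
      obtain ⟨u, hu, rfl⟩ := Finset.mem_image.1 hv
      obtain ⟨m, hm, rfl⟩ := mem_orb.1 hu
      exact ⟨t ^ i * m, mul_mem (pow_mem ht _) (hMY hm), mul_smul _ _ _⟩
  have key : ∀ i j, i < j → j < p → Disjoint ((orb M w).image (t ^ i • ·)) ((orb M w).image (t ^ j • ·)) := by
    intro i j hij hj
    rw [Finset.disjoint_left]
    intro v hv1 hv2
    obtain ⟨u, hu, rfl⟩ := Finset.mem_image.1 hv1
    obtain ⟨m, hm, rfl⟩ := mem_orb.1 hu
    obtain ⟨u', hu', he⟩ := Finset.mem_image.1 hv2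
    obtain ⟨m', hm', rfl⟩ := mem_orb.1 hu'
    have hle : t ^ j = t ^ i * t ^ (j - i) := by rw [← pow_add]; congr 1; omega
    have he' : t ^ j • m' • w = t ^ i • m • w := he
    rw [hle, mul_smul] at he'
    have h1 := smul_left_cancel _ he'
    have h2 : m⁻¹ * t ^ (j - i) * m' ∈ M := by
      apply hst _ (mul_mem (mul_mem (inv_mem (hMY hm)) (pow_mem ht _)) (hMY hm'))
      rw [mul_smul, mul_smul, h1, inv_smul_smul]
    have h3 : t ^ (j - i) ∈ M := by
      have := mul_mem (mul_mem hm h2) (inv_mem hm')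
      have h4 : m * (m⁻¹ * t ^ (j - i) * m') * m'⁻¹ = t ^ (j - i) := by group
      rwa [h4] at this
    have h4 := Nat.le_of_dvd (by omega) (hpow _ h3)
    omega
  have hdis : (↑(Finset.range p) : Set ℕ).PairwiseDisjoint (fun i => (orb M w).image (t ^ i • ·)) := by
    intro i hi j hj hij
    rw [Finset.mem_coe, Finset.mem_range] at hi hj
    rcases lt_or_gt_of_ne hij with h | h
    · exact key i j h hj
    · exact (key j i h hi).symm
  rw [hdec] at hpr
  unfold pr at hpr
  rw [Finset.prod_biUnion hdis] at hpr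
  intro hprod
  apply hpr
  rw [← hprod]
  apply Finset.prod_congr rfl
  intro i _
  have h1 := pr_conj lam (T := orb M w) (t ^ i) (t⁻¹ ^ i * x * t ^ i) (fun v hv => smul_mem_orb (by
    have := hMn (t⁻¹ ^ i) (pow_mem (inv_mem ht) _) x hxM
    rwa [← inv_pow, inv_inv] at this) hv)
  have h2 : t ^ i * (t⁻¹ ^ i * x * t ^ i) * (t ^ i)⁻¹ = x := by
    rw [inv_pow]; group
  rw [h2] at h1
  exact h1

end core

end Cfsg.Agent.H17.Yo
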