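import Mathlib
import Cfsg.Prelude.Def_Transfer
import Cfsg.Agent.H17_Yo2

set_option autoImplicit false

/-! Yoshida's argument: the general theorem. -/

open Cfsg Subgroup

namespace Cfsg.Agent.H17.Yo

variable {G : Type*} [Group G] [Finite G] {p : ℕ} [hp : Fact p.Prime]

theorem main (S : Sylow p G) (W : Subgroup G) (hW : IsWeaklyClosed W (S : Subgroup G))
    (h : (S : Subgroup G) ⊓ commutator G ≠ (S : Subgroup G) ⊓ ⁅normalizer (W : Set G), normalizer (W : Set G)⁆) :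
    ∃ (x : G) (Y M : Subgroup G) (ν : G → Multiplicative (ZMod p)), W ≤ Y ∧ Y ≤ S ∧ M ≤ Y ∧ (∀ y ∈ Y, ∀ m ∈ M, y * m * y⁻¹ ∈ M) ∧
      M.relIndex Y = p ∧ ¬ W ≤ M ∧ x ∈ M ∧ (∀ a ∈ M, ∀ b ∈ M, ν (a * b) = ν a * ν b) ∧
      (∀ y ∈ Y, ∀ w ∈ W, y * w * y⁻¹ ∈ W) ∧
      ∀ t ∈ Y, t ∉ M → ∏ i ∈ Finset.range p, ν (t⁻¹ ^ i * x * t ^ i) ≠ 1 := by
  classical
  set N := normalizer (W : Set G) with hN
  have hconj : ∀ g : G, (∀ w ∈ W, g * w * g⁻¹ ∈ (S : Subgroup G)) → g ∈ N := by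
    intro g hg
    have h1 := hW.2 g (by
      rintro _ ⟨w, hw, rfl⟩
      exact hg w hw)
    rw [hN, Subgroup.mem_normalizer_iff]
    intro w
    constructor
    · intro hw
      have : g * w * g⁻¹ ∈ W.map (MulAut.conj g).toMonoidHom := ⟨w, hw, rfl⟩
      rwa [h1] at this
    · intro hw
      have h2 : g * w * g⁻¹ ∈ W.map (MulAut.conj g).toMonoidHom := by rw [h1]; exact hw
      obtain ⟨v, hv, he⟩ := h2
      have he' : g * v * g⁻¹ = g * w * g⁻¹ := he
      have : v = w := by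
        have := mul_right_cancel he'
        exact mul_left_cancel this
      rwa [← this]
  have hSN : (S : Subgroup G) ≤ N := by
    intro s hs
    apply hconj
    intro w hw
    exact mul_mem (mul_mem hs (hW.1 hw)) (inv_mem hs)
  obtain ⟨lam, x₀, hx₀N, hx₀S, hx₀c, hx₀l⟩ := exists_lam S N hSN h
  let X : Set G := {x | x ∈ (S : Subgroup G) ∧ x ∈ commutator G ∧ ∃ hx : x ∈ N, lam ⟨x, hx⟩ ≠ 1}
  obtain ⟨x, ⟨hxS, hxc, hxN, hxl⟩, hmin⟩ := Set.exists_min_image X orderOf (Set.toFinite X) ⟨x₀, hx₀S, hx₀c, hx₀N, hx₀l⟩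
  -- conjugating into `S` inside `N`
  have hinto : ∀ A : Subgroup N, IsPGroup p A → ∃ g : N, ∀ a ∈ A, ((g * a * g⁻¹ : N) : G) ∈ (S : Subgroup G) := by
    intro A hA
    obtain ⟨Q, hQ⟩ := hA.exists_le_sylow
    obtain ⟨g, hg⟩ := MulAction.exists_smul_eq N Q (S.subtype hSN)
    refine ⟨g, fun a ha => ?_⟩
    have h1 : g * a * g⁻¹ ∈ (g • Q : Sylow p N) := ⟨a, hQ ha, rfl⟩
    rw [hg] at h1
    exact h1
  have hvan : ∀ (v : G ⧸ N) (n : ℕ), n ∣ orderOf x → n ≠ 0 → n ≠ 1 → x ^ n • v = v → c lam (x ^ n) v = 1 := by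
    intro v n hn hn0 hn1 hfix
    obtain ⟨hm, hc⟩ := c_fix lam hfix
    rw [hc]
    set y : N := ⟨v.out⁻¹ * x ^ n * v.out, hm⟩ with hy
    by_contra hcon
    have hyp : IsPGroup p (zpowers y) := by
      have h1 : IsPGroup p (zpowers (y : G)) := by
        have h2 : IsPGroup p (zpowers x) := S.isPGroup'.to_le (by rw [zpowers_le]; exact hxS)
        have h3 : (y : G) = (MulAut.conj v.out⁻¹) (x ^ n) := by
          rw [hy, MulAut.conj_apply, inv_inv]
        have h4 : zpowers (y : G) ≤ (zpowers x).map (MulAut.conj v.out⁻¹).toMonoidHom := by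
          rw [zpowers_le, h3]
          exact mem_map_of_mem _ (pow_mem (mem_zpowers x) n)
        exact (h2.map _).to_le h4
      intro a
      obtain ⟨k, hk⟩ := h1 ⟨((a : N) : G), by
        obtain ⟨j, hj⟩ := a.2
        have hj' : y ^ j = (a : N) := hj
        exact ⟨j, by change (y : G) ^ j = _; rw [← hj']; rfl⟩⟩
      refine ⟨k, ?_⟩
      apply Subtype.ext; apply Subtype.ext
      have := congrArg Subtype.val hk
      simpa using this
    obtain ⟨g, hg⟩ := hinto _ hyp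
    have h1 := hg y (mem_zpowers y)
    have hlam : lam (g * y * g⁻¹) = lam y := by
      rw [map_mul, map_mul, map_inv, mul_comm (lam g), mul_assoc, mul_inv_cancel, mul_one]
    have hyc : ((g * y * g⁻¹ : N) : G) ∈ commutator G := by
      have i1 : (commutator G).Normal := inferInstance
      have h2 : (y : G) ∈ commutator G := by
        have := i1.conj_mem _ (pow_mem hxc n) v.out⁻¹
        rw [inv_inv] at this
        exact this
      exact i1.conj_mem _ h2 (g : G)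
    have h2 := hmin ((g * y * g⁻¹ : N) : G) ⟨h1, hyc, (g * y * g⁻¹).2, by rw [Subtype.coe_eta, hlam]; exact hcon⟩
    have h3 : orderOf ((g * y * g⁻¹ : N) : G) = orderOf (x ^ n) := by
      have h4 : ((g * y * g⁻¹ : N) : G) = ((g : G) * v.out⁻¹) * x ^ n * ((g : G) * v.out⁻¹)⁻¹ := by
        rw [hy]
        change (g : G) * (v.out⁻¹ * x ^ n * v.out) * (g : G)⁻¹ = _
        group
      rw [h4]
      exact (MulEquiv.orderOf_eq (MulAut.conj ((g : G) * v.out⁻¹)) (x ^ n))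
    rw [h3, orderOf_pow_of_dvd hn0 hn] at h2
    have h5 : 0 < orderOf x := orderOf_pos x
    have h6 : orderOf x / n < orderOf x := Nat.div_lt_self h5 (by omega)
    omega
  -- the base point
  let w₀ : G ⧸ N := ((1 : G) : G ⧸ N)
  have hw₀ : ∀ w : G ⧸ N, (∀ v ∈ W, v • w = w) → w = w₀ := by
    intro w hw
    obtain ⟨g, rfl⟩ := QuotientGroup.mk_surjective w
    have h1 : ∀ v ∈ W, g⁻¹ * v * g ∈ N := by
      intro v hv
      have := hw v⁻¹ (inv_mem hv)
      have h2 : ((v⁻¹ * g : G) : G ⧸ N) = (g : G ⧸ N) := this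
      rw [QuotientGroup.eq] at h2
      have h3 : (v⁻¹ * g)⁻¹ * g = g⁻¹ * v * g := by group
      rwa [h3] at h2
    let φ : W →* N := ((MulAut.conj g⁻¹).toMonoidHom.comp W.subtype).codRestrict N (fun v => by
      have := h1 v v.2
      change g⁻¹ * (v : G) * g⁻¹⁻¹ ∈ N
      rwa [inv_inv])
    have hWp : IsPGroup p W := S.isPGroup'.to_le hW.1
    have hφ : IsPGroup p φ.range := by
      rw [MonoidHom.range_eq_map]
      exact (hWp.of_equiv (Subgroup.topEquiv (G := W)).symm).map φ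
    obtain ⟨n, hn⟩ := hinto _ hφ
    have h2 : (n : G) * g⁻¹ ∈ N := by
      apply hconj
      intro v hv
      have := hn (φ ⟨v, hv⟩) ⟨_, rfl⟩
      have h3 : ((n * φ ⟨v, hv⟩ * n⁻¹ : N) : G) = (n : G) * (g⁻¹ * v * g⁻¹⁻¹) * (n : G)⁻¹ := rfl
      rw [h3] at this
      have h4 : (n : G) * g⁻¹ * v * ((n : G) * g⁻¹)⁻¹ = (n : G) * (g⁻¹ * v * g⁻¹⁻¹) * (n : G)⁻¹ := by group
      rwa [h4]
    have h3 : g ∈ N := by
      have := mul_mem (inv_mem h2) n.2
      have h4 : ((n : G) * g⁻¹)⁻¹ * (n : G) = g := by group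
      rwa [h4] at this
    exact (QuotientGroup.eq.2 (by simpa using h3)).symm
  have iF : Fintype (G ⧸ N) := Fintype.ofFinite _
  have hfix₀ : ∀ s ∈ N, s • w₀ = w₀ := by
    intro s hs
    change ((s * 1 : G) : G ⧸ N) = ((1 : G) : G ⧸ N)
    rw [QuotientGroup.eq]
    simpa using inv_mem hs
  have hbase : c lam x w₀ = lam ⟨x, hxN⟩ := by
    obtain ⟨hm, hc⟩ := c_fix lam (hfix₀ x hxN)
    rw [hc]
    have hout : w₀.out ∈ N := by
      have : ((w₀.out : G) : G ⧸ N) = w₀ := QuotientGroup.out_eq' w₀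
      have h2 := QuotientGroup.eq.1 this
      have h3 := inv_mem h2
      simpa using h3
    have h1 : (⟨w₀.out⁻¹ * x * w₀.out, hm⟩ : N) = ⟨w₀.out, hout⟩⁻¹ * ⟨x, hxN⟩ * ⟨w₀.out, hout⟩ := Subtype.ext rfl
    rw [h1, map_mul, map_mul, map_inv, mul_comm _ (lam ⟨x, hxN⟩), mul_assoc, inv_mul_cancel, mul_one]
  -- remove the base point
  set T₁ : Finset (G ⧸ N) := Finset.univ.erase w₀ with hT₁
  have hpr₁ : pr lam T₁ x ≠ 1 := by
    intro h1
    have h2 := pr_univ_comm lam hxc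
    unfold pr at h1 h2
    rw [← Finset.mul_prod_erase _ _ (Finset.mem_univ w₀), ← hT₁, h1, mul_one, hbase] at h2
    exact hxl h2
  set H : Subgroup G := W ⊔ zpowers x with hH
  have hWn : ∀ y ∈ N, ∀ w ∈ W, y * w * y⁻¹ ∈ W := fun y hy w hw => (Subgroup.mem_normalizer_iff.1 hy w).1 hw
  have hHS : H ≤ S := sup_le hW.1 (by rw [zpowers_le]; exact hxS)
  have hHN : H ≤ N := hHS.trans hSN
  have hxH : x ∈ H := mem_sup_right (mem_zpowers x)
  -- orbits of `W` are permuted by `N`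
  have horb : ∀ y ∈ N, ∀ u v : G ⧸ N, v ∈ orb W u → y • v ∈ orb W (y • u) := by
    intro y hy u v hv
    obtain ⟨w, hw, rfl⟩ := mem_orb.1 hv
    refine mem_orb.2 ⟨y * w * y⁻¹, hWn y hy w hw, ?_⟩
    rw [mul_smul, mul_smul, inv_smul_smul]
  have horb_eq : ∀ u v : G ⧸ N, v ∈ orb W u → orb W v = orb W u := by
    intro u v hv
    obtain ⟨w, hw, rfl⟩ := mem_orb.1 hv
    ext z
    rw [mem_orb, mem_orb]
    constructor
    · rintro ⟨a, ha, rfl⟩
      exact ⟨a * w, mul_mem ha hw, mul_smul _ _ _⟩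
    · rintro ⟨a, ha, rfl⟩
      exact ⟨a * w⁻¹, mul_mem ha (inv_mem hw), by rw [mul_smul, inv_smul_smul]⟩
  set T₂ : Finset (G ⧸ N) := T₁.filter (fun u => x • u ∈ orb W u) with hT₂
  have hT₁inv : ∀ h ∈ N, ∀ w ∈ T₁, h • w ∈ T₁ := by
    intro h hh w hw
    rw [hT₁, Finset.mem_erase] at hw ⊢
    refine ⟨fun hc => hw.1 ?_, Finset.mem_univ _⟩
    have := congrArg (fun z => h⁻¹ • z) hc
    simp only [inv_smul_smul] at this
    rw [this, hfix₀ _ (inv_mem hh)]
  have hxT₂ : ∀ u : G ⧸ N, x • u ∈ orb W u → x • (x • u) ∈ orb W (x • u) := fun u hu => horb x hxN _ _ hu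
  have hxT₂' : ∀ u : G ⧸ N, x • (x • u) ∈ orb W (x • u) → x • u ∈ orb W u := by
    intro u hu
    have := horb x⁻¹ (inv_mem hxN) _ _ hu
    rwa [inv_smul_smul, inv_smul_smul] at this
  have hpr₂ : pr lam T₂ x ≠ 1 := by
    have h1 : pr lam T₁ x = pr lam (T₁ \ T₂) x * pr lam T₂ x := by
      unfold pr
      exact (Finset.prod_sdiff (Finset.filter_subset _ _)).symm
    have h2 : pr lam (T₁ \ T₂) x = 1 := by
      apply pr_vanish lam (isOfFinOrder_of_finite x) _ _ le_rfl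
      · intro v hv
        rw [Finset.mem_sdiff, hT₂, Finset.mem_filter] at hv ⊢
        refine ⟨hT₁inv x hxN v hv.1, fun hc => hv.2 ⟨hv.1, hxT₂' v hc.2⟩⟩
      · intro v hv n hn hn0 hfix _
        by_cases hn1 : n = 1
        · exfalso
          rw [hn1, pow_one] at hfix
          rw [Finset.mem_sdiff, hT₂, Finset.mem_filter] at hv
          exact hv.2 ⟨hv.1, by rw [hfix]; exact self_mem_orb v⟩
        · exact hvan v n hn hn0 hn1 hfix
    rw [h2, one_mul] at h1
    rwa [← h1]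
  have hT₂inv : ∀ h ∈ H, ∀ w ∈ T₂, h • w ∈ T₂ := by
    -- the set of `h ∈ N` with this property is closed
    have hWinv : ∀ v ∈ W, ∀ w ∈ T₂, v • w ∈ T₂ := by
      intro v hv w hw
      rw [hT₂, Finset.mem_filter] at hw ⊢
      refine ⟨hT₁inv v (hHN (mem_sup_left hv)) w hw.1, ?_⟩
      have h1 : orb W (v • w) = orb W w := horb_eq _ _ (mem_orb.2 ⟨v, hv, rfl⟩)
      rw [h1]
      have h2 := horb x hxN w (v • w) (mem_orb.2 ⟨v, hv, rfl⟩)
      rw [horb_eq _ _ hw.2] at h2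
      exact h2
    have hxinv : ∀ w ∈ T₂, x • w ∈ T₂ := by
      intro w hw
      rw [hT₂, Finset.mem_filter] at hw ⊢
      exact ⟨hT₁inv x hxN w hw.1, hxT₂ w hw.2⟩
    let Z : Subgroup G :=
      { carrier := {h | ∀ w, h • w ∈ T₂ ↔ w ∈ T₂}
        one_mem' := fun w => by rw [one_smul]
        mul_mem' := fun {a b} ha hb w => by rw [mul_smul, ha, hb]
        inv_mem' := fun {a} ha w => by
          have := ha (a⁻¹ • w)
          rw [smul_inv_smul] at this
          exact this.symm }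
    have hZ : ∀ h : G, (∀ w ∈ T₂, h • w ∈ T₂) → h ∈ Z := by
      intro h hh w
      refine ⟨fun hw => ?_, hh w⟩
      have hinj : Function.Injective (fun w : T₂ => (⟨h • (w : G ⧸ N), hh w w.2⟩ : T₂)) := by
        intro a b h
        exact Subtype.ext (smul_left_cancel _ (congrArg Subtype.val h))
      obtain ⟨a, ha⟩ := (Finite.injective_iff_surjective.1 hinj) ⟨h • w, hw⟩
      have := smul_left_cancel h (congrArg Subtype.val ha)
      rw [← this]; exact a.2
    have hHZ : H ≤ Z := sup_le (fun v hv => hZ v (hWinv v hv)) (by rw [zpowers_le]; exact hZ x hxinv)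
    intro h hh w hw
    exact (hHZ hh w).2 hw
  obtain ⟨w, hw, hprw⟩ := exists_orb lam hxH _ T₂ le_rfl hT₂inv hpr₂
  -- the orbit is a `W`-orbit
  have hwW : ∀ y ∈ H, y • w ∈ orb W w := by
    let Z : Subgroup G :=
      { carrier := {h | h ∈ N ∧ h • w ∈ orb W w}
        one_mem' := ⟨N.one_mem, by rw [one_smul]; exact self_mem_orb w⟩
        mul_mem' := fun {a b} ha hb => ⟨mul_mem ha.1 hb.1, by
          rw [mul_smul]
          have := horb a ha.1 w (b • w) hb.2
          rwa [horb_eq _ _ ha.2] at this⟩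
        inv_mem' := fun {a} ha => ⟨inv_mem ha.1, by
          have := horb a⁻¹ (inv_mem ha.1) _ _ ha.2
          rw [inv_smul_smul] at this
          rw [horb_eq _ _ this]; exact self_mem_orb _⟩ }
    have hHZ : H ≤ Z := by
      refine sup_le (fun v hv => ⟨hHN (mem_sup_left hv), mem_orb.2 ⟨v, hv, rfl⟩⟩) ?_
      rw [zpowers_le]
      refine ⟨hxN, ?_⟩
      rw [hT₂, Finset.mem_filter] at hw
      exact hw.2
    intro y hy
    exact (hHZ hy).2
  have hww₀ : w ≠ w₀ := by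
    rw [hT₂, Finset.mem_filter, hT₁, Finset.mem_erase] at hw
    exact hw.1.1
  -- the maximal subgroup
  have hHp : IsPGroup p H := S.isPGroup'.to_le hHS
  let St : Subgroup H := (MulAction.stabilizer G w).subgroupOf H
  have hSt : St ≠ ⊤ := by
    intro hc
    apply hww₀
    apply hw₀
    intro v hv
    have : (⟨v, mem_sup_left hv⟩ : H) ∈ St := hc ▸ mem_top _
    exact this
  obtain ⟨M', hM'i, hStM'⟩ := Cfsg.Agent.H2.EA4.exists_max hHp hSt
  have iM' : M'.Normal := Cfsg.Agent.H2.EA4.normal_of_index hHp hM'i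
  set M : Subgroup G := M'.map H.subtype with hM
  have hMH : M ≤ H := map_subtype_le _
  have hmemM : ∀ y (hy : y ∈ H), y ∈ M ↔ (⟨y, hy⟩ : H) ∈ M' := by
    intro y hy
    constructor
    · rintro ⟨z, hz, he⟩
      have : z = ⟨y, hy⟩ := Subtype.ext he
      rwa [← this]
    · intro h
      exact ⟨_, h, rfl⟩
  have hMn : ∀ y ∈ H, ∀ m ∈ M, y * m * y⁻¹ ∈ M := by
    intro y hy m hm
    rw [hmemM _ (hMH hm)] at hm
    rw [hmemM _ (mul_mem (mul_mem hy (hMH (by rw [hmemM]; exact hm))) (inv_mem hy))]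
    exact iM'.conj_mem _ hm ⟨y, hy⟩
  have hMi : M.relIndex H = p := by
    rw [Subgroup.relIndex, hM]
    have : (M'.map H.subtype).subgroupOf H = M' := by
      rw [Subgroup.subgroupOf, Subgroup.comap_map_eq_self_of_injective (Subgroup.subtype_injective H)]
    rw [this, hM'i]
  have hst : ∀ y ∈ H, y • w = w → y ∈ M := by
    intro y hy hyw
    rw [hmemM y hy]
    exact hStM' hyw
  have hWM : ¬ W ≤ M := by
    intro hWM
    have h1 : H ≤ M := by
      intro y hy
      obtain ⟨v, hv, he⟩ := mem_orb.1 (hwW y hy)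
      have h2 : v⁻¹ * y ∈ M := by
        apply hst _ (mul_mem (inv_mem (mem_sup_left hv)) hy)
        rw [mul_smul, ← he, inv_smul_smul]
      have := mul_mem (hWM hv) h2
      rwa [mul_inv_cancel_left] at this
    have h2 : M.relIndex H = 1 := relIndex_eq_one.2 h1
    rw [hMi] at h2
    exact hp.out.one_lt.ne' h2
  obtain ⟨hxM, ν, hν, hprod⟩ := core lam hp.out hMH hMn hMi hst hxH (isOfFinOrder_of_finite x) hvan hprw
  exact ⟨x, H, M, ν, le_sup_left, hHS, hMH, hMn, hMi, hWM, hxM, hν, fun y hy => hWn y (hHN hy), hprod⟩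

end Cfsg.Agent.H17.Yo
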