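import Mathlib
import Cfsg.Agent.H2_PGroup

set_option autoImplicit false

/-! Finite differences modulo `p` and iterated commutators. -/

open Subgroup

namespace Cfsg.Agent.H17.Yo

variable {p : ℕ} [hp : Fact p.Prime]

theorem choose_pred {k : ℕ} (hk : k < p) : (((p - 1).choose k : ℕ) : ZMod p) = (-1) ^ k := by
  induction k with
  | zero => simp
  | succ k ih =>
    have h1 : (p - 1 + 1).choose (k + 1) = (p - 1).choose k + (p - 1).choose (k + 1) := Nat.choose_succ_succ _ _
    rw [Nat.sub_add_cancel hp.out.one_lt.le] at h1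
    have h2 : ((p.choose (k + 1) : ℕ) : ZMod p) = 0 := by
      rw [ZMod.natCast_eq_zero_iff]
      exact hp.out.dvd_choose_self (by omega) hk
    rw [h1, Nat.cast_add, ih (by omega)] at h2
    rw [pow_succ, mul_neg_one]
    exact eq_neg_of_add_eq_zero_right h2

/-- the forward difference -/
def fd (f : ℕ → ZMod p) : ℕ → ZMod p := fun k => f (k + 1) - f k

theorem fd_iter (f : ℕ → ZMod p) (n : ℕ) (y : ℕ) :
    fd^[n] f y = ∑ k ∈ Finset.range (n + 1), (-1) ^ (n - k) * (n.choose k : ZMod p) * f (y + k) := by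
  have h1 : fd^[n] f = (fwdDiff 1)^[n] f := by
    have : (fd : (ℕ → ZMod p) → ℕ → ZMod p) = fwdDiff 1 := by
      funext f k; rfl
    rw [this]
  rw [h1, fwdDiff_iter_eq_sum_shift]
  apply Finset.sum_congr rfl
  intro k _
  simp

theorem fd_pred (f : ℕ → ZMod p) (y : ℕ) : fd^[p - 1] f y = ∑ k ∈ Finset.range p, f (y + k) := by
  rw [fd_iter, Nat.sub_add_cancel hp.out.one_lt.le]
  apply Finset.sum_congr rfl
  intro k hk
  rw [Finset.mem_range] at hk
  rw [choose_pred hk, ← pow_add]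
  have h1 : p - 1 - k + k = p - 1 := by omega
  rw [h1, ZMod.pow_card_sub_one_eq_one (neg_ne_zero.2 one_ne_zero), one_mul]

theorem fd_p (f : ℕ → ZMod p) (hf : ∀ k, f (k + p) = f k) : fd^[p] f = 0 := by
  have h1 : (p - 1) + 1 = p := by have := hp.out.one_lt; omega
  funext y
  have h2 : fd^[(p - 1) + 1] f = fd (fd^[p - 1] f) := by
    rw [Function.iterate_succ_apply']
  rw [h1] at h2
  rw [h2]
  change fd^[p - 1] f (y + 1) - fd^[p - 1] f y = 0
  rw [fd_pred, fd_pred]
  have h3 : ∑ k ∈ Finset.range p, f (y + 1 + k) = ∑ k ∈ Finset.range p, f (y + (k + 1)) := by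
    apply Finset.sum_congr rfl
    intro k _
    congr 1
    omega
  rw [h3]
  have h4 := Finset.sum_range_succ' (fun k => f (y + k)) p
  have h5 := Finset.sum_range_succ (fun k => f (y + k)) p
  rw [h5] at h4
  simp only [add_zero] at h4
  rw [hf] at h4
  rw [sub_eq_zero]
  exact (add_right_cancel h4).symm

theorem fd_add (f g : ℕ → ZMod p) : fd (f + g) = fd f + fd g := by
  funext k
  change f (k + 1) + g (k + 1) - (f k + g k) = (f (k + 1) - f k) + (g (k + 1) - g k)
  ring

theorem fd_iter_add (n : ℕ) (f g : ℕ → ZMod p) : fd^[n] (f + g) = fd^[n] f + fd^[n] g := by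
  induction n generalizing f g with
  | zero => rfl
  | succ n ih => rw [Function.iterate_succ_apply, fd_add, ih]; rfl

theorem fd_zero : fd (0 : ℕ → ZMod p) = 0 := by
  funext k; change (0 : ZMod p) - 0 = 0; ring

theorem fd_iter_zero (n : ℕ) : fd^[n] (0 : ℕ → ZMod p) = 0 := by
  induction n with
  | zero => rfl
  | succ n ih => rw [Function.iterate_succ_apply, fd_zero, ih]

section grp

variable {G : Type*} [Group G] {M : Subgroup G} {t : G} (ν : G → Multiplicative (ZMod p))

/-- the orbit function -/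
def F (t : G) (ν : G → Multiplicative (ZMod p)) (y : G) : ℕ → ZMod p := fun k => Multiplicative.toAdd (ν (t⁻¹ ^ k * y * t ^ k))

variable {ν} (hν : ∀ a ∈ M, ∀ b ∈ M, ν (a * b) = ν a * ν b) (ht : ∀ m ∈ M, t⁻¹ * m * t ∈ M)

include ht in
theorem t_pow (k : ℕ) : ∀ m ∈ M, t⁻¹ ^ k * m * t ^ k ∈ M := by
  induction k with
  | zero => intro m hm; simpa using hm
  | succ k ih =>
    intro m hm
    have : t⁻¹ ^ (k + 1) * m * t ^ (k + 1) = t⁻¹ * (t⁻¹ ^ k * m * t ^ k) * t := by
      rw [pow_succ', pow_succ]; group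
    rw [this]
    exact ht _ (ih m hm)

include hν in
theorem ν_one : ν 1 = 1 := by
  have h := hν 1 M.one_mem 1 M.one_mem
  rw [mul_one] at h
  exact left_eq_mul.1 h

include hν in
theorem ν_inv {a : G} (ha : a ∈ M) : ν a⁻¹ = (ν a)⁻¹ := by
  have h := hν a⁻¹ (inv_mem ha) a ha
  rw [inv_mul_cancel, ν_one hν] at h
  exact eq_inv_of_mul_eq_one_left h.symm

include hν ht in
theorem F_mul {a b : G} (ha : a ∈ M) (hb : b ∈ M) : F t ν (a * b) = F t ν a + F t ν b := by
  funext k
  have h1 : t⁻¹ ^ k * (a * b) * t ^ k = (t⁻¹ ^ k * a * t ^ k) * (t⁻¹ ^ k * b * t ^ k) := by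
    rw [inv_pow]; group
  change Multiplicative.toAdd (ν _) = Multiplicative.toAdd (ν _) + Multiplicative.toAdd (ν _)
  rw [h1, hν _ (t_pow ht k a ha) _ (t_pow ht k b hb)]
  rfl

include hν ht in
theorem F_inv {a : G} (ha : a ∈ M) : F t ν a⁻¹ = -F t ν a := by
  funext k
  have h1 : t⁻¹ ^ k * a⁻¹ * t ^ k = (t⁻¹ ^ k * a * t ^ k)⁻¹ := by
    rw [inv_pow]; group
  change Multiplicative.toAdd (ν _) = -Multiplicative.toAdd (ν _)
  rw [h1, ν_inv hν (t_pow ht k a ha)]
  rfl

omit hp in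
theorem F_shift (a : G) (k : ℕ) : F t ν (t⁻¹ * a * t) k = F t ν a (k + 1) := by
  have h1 : t⁻¹ ^ k * (t⁻¹ * a * t) * t ^ k = t⁻¹ ^ (k + 1) * a * t ^ (k + 1) := by
    rw [pow_succ, pow_succ']; group
  change Multiplicative.toAdd (ν _) = Multiplicative.toAdd (ν _)
  rw [h1]

include hν ht in
theorem F_comm {a : G} (ha : a ∈ M) : F t ν (a⁻¹ * t⁻¹ * a * t) = fd (F t ν a) := by
  have h1 : a⁻¹ * t⁻¹ * a * t = a⁻¹ * (t⁻¹ * a * t) := by group
  rw [h1, F_mul hν ht (inv_mem ha) (ht a ha), F_inv hν ht ha]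
  funext k
  change -F t ν a k + F t ν (t⁻¹ * a * t) k = F t ν a (k + 1) - F t ν a k
  rw [F_shift]; ring

include ht in
theorem u_mem {x : G} (hx : x ∈ M) (i : ℕ) : (fun y : G => y⁻¹ * t⁻¹ * y * t)^[i] x ∈ M := by
  induction i with
  | zero => exact hx
  | succ i ih =>
    rw [Function.iterate_succ_apply']
    have := mul_mem (inv_mem ih) (ht _ ih)
    convert this using 1
    group

include hν ht in
theorem F_u {x : G} (hx : x ∈ M) (i : ℕ) : F t ν ((fun y : G => y⁻¹ * t⁻¹ * y * t)^[i] x) = fd^[i] (F t ν x) := by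
  induction i with
  | zero => rfl
  | succ i ih =>
    rw [Function.iterate_succ_apply', Function.iterate_succ_apply', ← ih]
    exact F_comm hν ht (u_mem ht hx i)

theorem sum_F {x : G} : ∑ k ∈ Finset.range p, F t ν x (0 + k) = Multiplicative.toAdd (∏ i ∈ Finset.range p, ν (t⁻¹ ^ i * x * t ^ i)) := by
  rw [toAdd_prod]
  apply Finset.sum_congr rfl
  intro k _
  rw [zero_add]; rfl

include hν ht in
theorem nu_u {x : G} (hx : x ∈ M) (hprod : ∏ i ∈ Finset.range p, ν (t⁻¹ ^ i * x * t ^ i) ≠ 1) :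
    ν ((fun y : G => y⁻¹ * t⁻¹ * y * t)^[p - 1] x) ≠ 1 := by
  intro h1
  have h2 := congrFun (F_u hν ht hx (p - 1)) 0
  rw [fd_pred, sum_F] at h2
  change Multiplicative.toAdd (ν _) = _ at h2
  rw [pow_zero, pow_zero, one_mul, mul_one, h1] at h2
  apply hprod
  exact (Multiplicative.toAdd.injective h2).symm

end grp

theorem frattini_le_ker {K : Type*} [Group K] [Finite K] (f : K →* Multiplicative (ZMod p)) : frattini K ≤ f.ker := by
  by_cases h : f.ker = ⊤
  · rw [h]; exact le_top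
  have h1 : f.ker.index ∣ p := by
    rw [Subgroup.index_ker]
    have := Subgroup.card_subgroup_dvd_card f.range
    rwa [Nat.card_congr Multiplicative.toAdd, Nat.card_zmod] at this
  have h2 : f.ker.index = p := by
    rcases (Nat.dvd_prime hp.out).1 h1 with h3 | h3
    · exact absurd (Subgroup.index_eq_one.1 h3) h
    · exact h3
  exact frattini_le_coatom (Cfsg.Agent.H2.PGroup.isCoatom_of_index h2)

end Cfsg.Agent.H17.Yo
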