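import Mathlib
import Cfsg.Agent.H17_Yo4

set_option autoImplicit false

/-! The wreath product as an image. -/

open Subgroup

namespace Cfsg.Agent.H17.Yo

variable {p : ℕ} [hp : Fact p.Prime]

theorem card_sylow_perm (P : Sylow p (Equiv.Perm (Fin (p ^ 2)))) : Nat.card P = p ^ (p + 1) := by
  rw [Sylow.card_eq_multiplicity]
  congr 1
  rw [Nat.card_perm, Nat.card_eq_fintype_card, Fintype.card_fin, Nat.factorization_def _ hp.out]
  have h1 := sub_one_mul_padicValNat_factorial (p := p) (p ^ 2)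
  have h2 : (p.digits (p ^ 2)).sum = 1 := by
    have : p.digits (p ^ 2 * 1) = List.replicate 2 0 ++ p.digits 1 := Nat.digits_base_pow_mul hp.out.one_lt one_pos
    rw [mul_one] at this
    rw [this, Nat.digits_of_lt p 1 one_ne_zero hp.out.one_lt]
    simp
  rw [h2] at h1
  have h3 : p ^ 2 - 1 = (p - 1) * (p + 1) := by
    have := hp.out.one_lt
    obtain ⟨q, rfl⟩ : ∃ q, p = q + 1 := ⟨p - 1, by omega⟩
    rw [Nat.add_sub_cancel]
    have : (q + 1) ^ 2 = q * (q + 1 + 1) + 1 := by ring
    rw [this, Nat.add_sub_cancel]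
  rw [h3] at h1
  exact Nat.eq_of_mul_eq_mul_left (by have := hp.out.one_lt; omega) h1

variable {S : Type*} [Group S] [Finite S]

/-- the chain count -/
theorem card_ge (hS : IsPGroup p S) {M : Subgroup S} {t : S} (ht : ∀ m ∈ M, t⁻¹ * m * t ∈ M) (htp : t ^ p ∈ M)
    (ν : S → Multiplicative (ZMod p)) (hν : ∀ a ∈ M, ∀ b ∈ M, ν (a * b) = ν a * ν b) {x : S} (hx : x ∈ M)
    (hprod : ∏ i ∈ Finset.range p, ν (t⁻¹ ^ i * x * t ^ i) ≠ 1) (K : Subgroup S) (hK : ∀ k ∈ K, k ∈ M ∧ F t ν k = 0) :
    p ^ p * Nat.card K ≤ Nat.card M := by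
  classical
  let D : ℕ → Subgroup S := fun j =>
    { carrier := {m | m ∈ M ∧ fd^[j] (F t ν m) = 0}
      one_mem' := ⟨M.one_mem, by
        have : F t ν (1 : S) = 0 := by
          funext k
          change Multiplicative.toAdd (ν _) = 0
          rw [mul_one, inv_pow, inv_mul_cancel, ν_one hν]; rfl
        rw [this, fd_iter_zero]⟩
      mul_mem' := fun {a b} ha hb => ⟨mul_mem ha.1 hb.1, by
        rw [F_mul hν ht ha.1 hb.1, fd_iter_add, ha.2, hb.2, add_zero]⟩
      inv_mem' := fun {a} ha => ⟨inv_mem ha.1, by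
        have h1 := F_mul hν ht ha.1 (inv_mem ha.1)
        rw [mul_inv_cancel] at h1
        have h2 : F t ν (1 : S) = 0 := by
          funext k
          change Multiplicative.toAdd (ν _) = 0
          rw [mul_one, inv_pow, inv_mul_cancel, ν_one hν]; rfl
        rw [h2] at h1
        have h3 : fd^[j] (F t ν a + F t ν a⁻¹) = 0 := by rw [← h1, fd_iter_zero]
        rw [fd_iter_add, ha.2, zero_add] at h3
        exact h3⟩ }
  have hmono : ∀ j, D j ≤ D (j + 1) := by
    intro j m hm
    refine ⟨hm.1, ?_⟩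
    rw [Function.iterate_succ_apply', hm.2, fd_zero]
  have hDM : ∀ j, D j ≤ M := fun j m hm => hm.1
  have hlt : ∀ j, j < p → D j < D (j + 1) := by
    intro j hj
    refine lt_of_le_of_ne (hmono j) ?_
    intro he
    have h1 : (fun y : S => y⁻¹ * t⁻¹ * y * t)^[p - 1 - j] x ∈ D (j + 1) := by
      refine ⟨u_mem ht hx _, ?_⟩
      rw [F_u hν ht hx, ← Function.iterate_add_apply]
      have h2 : j + 1 + (p - 1 - j) = p := by omega
      rw [h2]
      apply fd_p
      intro k
      change Multiplicative.toAdd (ν _) = Multiplicative.toAdd (ν _)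
      congr 1
      have h3 : t⁻¹ ^ (k + p) * x * t ^ (k + p) = (t ^ p)⁻¹ * (t⁻¹ ^ k * x * t ^ k) * t ^ p := by
        rw [pow_add, pow_add, inv_pow t p]
        have h4 : (t⁻¹ ^ k) * (t ^ p)⁻¹ = (t ^ p)⁻¹ * t⁻¹ ^ k := by
          rw [inv_pow, ← mul_inv_rev, ← mul_inv_rev, ← pow_add, ← pow_add, add_comm]
        rw [h4]; group
      rw [h3, hν _ (mul_mem (inv_mem htp) (t_pow ht k x hx)) _ htp, hν _ (inv_mem htp) _ (t_pow ht k x hx), ν_inv hν htp]
      rw [mul_comm (ν (t ^ p))⁻¹, mul_assoc, inv_mul_cancel, mul_one]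
    rw [← he] at h1
    have h2 := h1.2
    rw [F_u hν ht hx, ← Function.iterate_add_apply] at h2
    have h3 : j + (p - 1 - j) = p - 1 := by omega
    rw [h3] at h2
    have h4 := congrFun h2 0
    rw [fd_pred, sum_F] at h4
    apply hprod
    exact Multiplicative.toAdd.injective h4
  have hcard : ∀ j, j ≤ p → p ^ j * Nat.card K ≤ Nat.card (D j) := by
    intro j
    induction j with
    | zero =>
      intro _
      rw [pow_zero, one_mul]
      apply Subgroup.card_le_of_le
      intro k hk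
      exact ⟨(hK k hk).1, (hK k hk).2⟩
    | succ j ih =>
      intro hj
      have h1 := ih (by omega)
      have h2 := hlt j (by omega)
      have h4 : (D j).relIndex (D (j + 1)) ≠ 1 := fun h => h2.not_ge (relIndex_eq_one.1 h)
      have h5 : p ≤ (D j).relIndex (D (j + 1)) := by
        have hD : IsPGroup p (D (j + 1)) := hS.to_subgroup _
        obtain ⟨e, he⟩ := hD.index ((D j).subgroupOf (D (j + 1)))
        have he' : (D j).relIndex (D (j + 1)) = p ^ e := he
        rw [he']
        rcases Nat.eq_zero_or_pos e with h | h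
        · rw [h, pow_zero] at he'; exact absurd he' h4
        · calc p = p ^ 1 := (pow_one p).symm
            _ ≤ p ^ e := Nat.pow_le_pow_right hp.out.pos h
      have h6 : Nat.card (D j) * (D j).relIndex (D (j + 1)) = Nat.card (D (j + 1)) := by
        have := Subgroup.card_mul_index ((D j).subgroupOf (D (j + 1)))
        rwa [Nat.card_congr (Subgroup.subgroupOfEquivOfLe (hmono j)).toEquiv] at this
      rw [← h6, pow_succ]
      calc p ^ j * p * Nat.card K = (p ^ j * Nat.card K) * p := by ring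
        _ ≤ Nat.card (D j) * (D j).relIndex (D (j + 1)) := Nat.mul_le_mul h1 h5
  exact (hcard p le_rfl).trans (Subgroup.card_le_of_le (hDM p))

theorem exists_surj (hS : IsPGroup p S) {M : Subgroup S} (hMn : ∀ y : S, ∀ m ∈ M, y * m * y⁻¹ ∈ M) (hMi : M.index = p) 
    {t : S} (htM : t ∉ M)
    (ν : S → Multiplicative (ZMod p)) (hν : ∀ a ∈ M, ∀ b ∈ M, ν (a * b) = ν a * ν b) {x : S} (hx : x ∈ M)
    (hprod : ∏ i ∈ Finset.range p, ν (t⁻¹ ^ i * x * t ^ i) ≠ 1) :
    ∃ (P : Sylow p (Equiv.Perm (Fin (p ^ 2)))) (f : S →* P), Function.Surjective f := by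
  classical
  have iMn : M.Normal := ⟨fun m hm y => hMn y m hm⟩
  have ht : ∀ m ∈ M, t⁻¹ * m * t ∈ M := fun m hm => by
    have := hMn t⁻¹ m hm
    rwa [inv_inv] at this
  have htp : t ^ p ∈ M := by
    have := M.pow_index_mem t
    rwa [hMi] at this
  -- the kernel
  let L : Subgroup S :=
    { carrier := {m | m ∈ M ∧ ν m = 1}
      one_mem' := ⟨M.one_mem, ν_one hν⟩
      mul_mem' := fun {a b} ha hb => ⟨mul_mem ha.1 hb.1, by rw [hν _ ha.1 _ hb.1, ha.2, hb.2, mul_one]⟩
      inv_mem' := fun {a} ha => ⟨inv_mem ha.1, by rw [ν_inv hν ha.1, ha.2, inv_one]⟩ }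
  have hLM : L ≤ M := fun m hm => hm.1
  have hLi : L.index = p ^ 2 := by
    let f : M →* Multiplicative (ZMod p) :=
      { toFun := fun a => ν (a : S)
        map_one' := ν_one hν
        map_mul' := fun a b => hν _ a.2 _ b.2 }
    have hk : f.ker = L.subgroupOf M := by
      ext m
      rw [MonoidHom.mem_ker, mem_subgroupOf]
      exact ⟨fun h => ⟨m.2, h⟩, fun h => h.2⟩
    have h1 : f.ker.index ∣ p := by
      rw [Subgroup.index_ker]
      have := Subgroup.card_subgroup_dvd_card f.range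
      rwa [Nat.card_congr Multiplicative.toAdd, Nat.card_zmod] at this
    have h2 : f.ker.index = p := by
      rcases (Nat.dvd_prime hp.out).1 h1 with h3 | h3
      · exfalso
        rw [Subgroup.index_eq_one] at h3
        apply hprod
        apply Finset.prod_eq_one
        intro i _
        have : (⟨_, t_pow ht i x hx⟩ : M) ∈ f.ker := h3 ▸ mem_top _
        exact this
      · exact h3
    rw [hk] at h2
    rw [← Subgroup.relIndex_mul_index hLM, hMi]
    change L.relIndex M = p at h2
    rw [h2, sq]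
  have hcard : Nat.card (S ⧸ L) = Nat.card (Fin (p ^ 2)) := by
    rw [← Subgroup.index_eq_card, hLi, Nat.card_eq_fintype_card, Fintype.card_fin]
  obtain ⟨e⟩ : Nonempty (S ⧸ L ≃ Fin (p ^ 2)) := (Finite.card_eq).1 hcard
  let φ : S →* Equiv.Perm (Fin (p ^ 2)) := (e.permCongrHom.toMonoidHom).comp (MulAction.toPermHom S (S ⧸ L))
  have hker : ∀ k ∈ φ.ker, k ∈ M ∧ F t ν k = 0 := by
    intro k hk
    have h1 : MulAction.toPermHom S (S ⧸ L) k = 1 := by
      have : e.permCongrHom (MulAction.toPermHom S (S ⧸ L) k) = 1 := hk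
      rwa [MulEquiv.map_eq_one_iff] at this
    have h2 : ∀ s : S, s⁻¹ * k * s ∈ L := by
      intro s
      have h3 : k • (s : S ⧸ L) = (s : S ⧸ L) := by
        have := congrArg (fun π : Equiv.Perm (S ⧸ L) => π (s : S ⧸ L)) h1
        exact this
      have h4 : ((k * s : S) : S ⧸ L) = (s : S ⧸ L) := h3
      have h5 := QuotientGroup.eq.1 h4.symm
      rwa [← mul_assoc] at h5
    refine ⟨by simpa using hLM (h2 1), ?_⟩
    funext i
    change Multiplicative.toAdd (ν _) = 0
    have h3 := (h2 (t ^ i)).2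
    rw [← inv_pow] at h3
    rw [h3]; rfl
  have hge := card_ge hS ht htp ν hν hx hprod φ.ker hker
  have hrp : IsPGroup p φ.range := by
    rw [MonoidHom.range_eq_map]
    exact (hS.of_equiv (Subgroup.topEquiv (G := S)).symm).map φ
  obtain ⟨P, hP⟩ := hrp.exists_le_sylow
  have hcS : Nat.card M * p = Nat.card S := by
    have := Subgroup.card_mul_index M
    rwa [hMi] at this
  have hcφ : Nat.card φ.ker * Nat.card φ.range = Nat.card S := by
    have := Subgroup.card_mul_index φ.ker
    rwa [Subgroup.index_ker] at this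
  have h1 : p ^ (p + 1) ≤ Nat.card φ.range := by
    have h2 : p ^ (p + 1) * Nat.card φ.ker ≤ Nat.card φ.range * Nat.card φ.ker := by
      calc p ^ (p + 1) * Nat.card φ.ker = (p ^ p * Nat.card φ.ker) * p := by rw [pow_succ]; ring
        _ ≤ Nat.card M * p := Nat.mul_le_mul_right _ hge
        _ = Nat.card φ.range * Nat.card φ.ker := by rw [hcS, ← hcφ, mul_comm]
    exact Nat.le_of_mul_le_mul_right h2 Nat.card_pos
  have hPr : φ.range = P := by
    apply Subgroup.eq_of_le_of_card_ge hP
    rw [card_sylow_perm P]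
    exact h1
  refine ⟨P, φ.codRestrict P (fun s => hP ⟨s, rfl⟩), ?_⟩
  rintro ⟨y, hy⟩
  have : y ∈ φ.range := by rw [hPr]; exact hy
  obtain ⟨s, hs⟩ := this
  exact ⟨s, Subtype.ext hs⟩

end Cfsg.Agent.H17.Yo
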