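import Mathlib
import Cfsg.Agent.H18_SM1
import Cfsg.Agent.H18_Gen
import Cfsg.Agent.H18_Cyc
import Cfsg.Agent.H11_AxB
import Cfsg.Agent.H17_S4Inv

/-!
# Cyclic normal subgroups of Sylow subgroups of `p`-soluble groups
-/

set_option autoImplicit false
set_option linter.unusedSectionVars false
set_option linter.unusedSimpArgs false
set_option linter.style.haveILetI false

namespace Cfsg.Agent.H18.CN

open Subgroup Pointwise
open scoped commutatorElement
open Cfsg.Agent.H13.Syl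
open Cfsg.Agent.H18.CharP
open Cfsg.Agent.H18.BB (pGen pGen_le mem_pGen pGen_mono normalizer_le_normalizer_pGen mem_left)
open Cfsg.Agent.H18.KS (commutator_le_left_of mem_sup_of_norm le_normalizer_iff_conj)

variable {G : Type*} [Group G]

theorem conj_zpow_eq {b c r : G} (h : b * r * b⁻¹ = c * r) (hcb : Commute c b) (n : ℤ) :
    b ^ n * r * (b ^ n)⁻¹ = c ^ n * r := by
  have h1 : r * b * r⁻¹ = c⁻¹ * b := by
    have e1 : b * r = c * r * b := by rw [← h]; group
    calc r * b * r⁻¹ = c⁻¹ * (c * r * b) * r⁻¹ := by group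
      _ = c⁻¹ * (b * r) * r⁻¹ := by rw [e1]
      _ = c⁻¹ * b := by group
  have h2 : r * b ^ n * r⁻¹ = (c ^ n)⁻¹ * b ^ n := by
    rw [← conj_zpow, h1, (hcb.inv_left).mul_zpow, inv_zpow]
  calc b ^ n * r * (b ^ n)⁻¹ = c ^ n * ((c ^ n)⁻¹ * b ^ n) * r * (b ^ n)⁻¹ := by group
    _ = c ^ n * (r * b ^ n * r⁻¹) * r * (b ^ n)⁻¹ := by rw [h2]
    _ = c ^ n * r := by group

/-- the trivial action case -/
theorem eq_bot_of_triv [Finite G] {p : ℕ} [hp : Fact p.Prime] {R W L C : Subgroup G} [hRn : R.Normal]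
    (hRp : IsPGroup p ↥R) (hRc : ∀ r ∈ R, ∀ s ∈ R, r * s = s * r) (hCR : centralizer (R : Set G) ≤ R)
    (hWR : W ≤ R) (hLW : L ≤ normalizer (W : Set G)) (hRW : ∀ g ∈ L, ∀ r ∈ R, g * r * g⁻¹ * r⁻¹ ∈ W)
    (hCL : C ≤ L) (hC : C ≤ centralizer (W : Set G)) (hD : ⁅pGen p L, C⁆ = pGen p L) : pGen p L = ⊥ := by
  have hNC : normalizer (W : Set G) ≤ normalizer (centralizer (W : Set G) : Set G) := by
    rw [le_normalizer_iff_conj]
    intro g hg k hk e he
    have h1 : g⁻¹ * e * g ∈ W := by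
      have := (mem_normalizer_iff.mp (inv_mem hg) e).mp he
      simpa using this
    have h2 : (g⁻¹ * e * g) * k = k * (g⁻¹ * e * g) := hk _ h1
    calc e * (g * k * g⁻¹) = g * ((g⁻¹ * e * g) * k) * g⁻¹ := by group
      _ = g * (k * (g⁻¹ * e * g)) * g⁻¹ := by rw [h2]
      _ = g * k * g⁻¹ * e := by group
  have h1 : pGen p L ≤ centralizer (W : Set G) := by
    rw [← hD, commutator_comm, commutator_le]
    intro c hc d hd
    have hdn : d ∈ normalizer (centralizer (W : Set G) : Set G) := hNC (hLW (pGen_le p L hd))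
    have e1 : ⁅c, d⁆ = c * (d * c⁻¹ * d⁻¹) := by rw [commutatorElement_def]; group
    rw [e1]
    exact mul_mem (hC hc) ((mem_normalizer_iff.mp hdn _).mp (inv_mem (hC hc)))
  rw [eq_bot_iff, pGen, closure_le]
  rintro d ⟨hd, ho⟩
  have hdW : d ∈ centralizer (W : Set G) := h1 (mem_pGen hd ho)
  have hdR : d ∈ centralizer (R : Set G) := by
    intro r hr
    have h2 : ⁅d, r⁆ ∈ W := by rw [commutatorElement_def]; exact hRW d hd r hr
    have h3 : Commute d r := by
      apply H11.AxB.commute_of_commutator_commute p ho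
      · obtain ⟨k, hk⟩ := hRp ⟨_, hWR h2⟩
        exact ⟨k, by simpa using congrArg Subtype.val hk⟩
      · exact (hdW _ h2).symm
    exact h3.eq.symm
  exact mem_bot.mpr (eq_one_of_pgroup hRp ho (hCR hdR))

/-- explicit data: a pair of elements acting on an elementary abelian normal subgroup -/
structure Pr (p : ℕ) (R : Subgroup G) (a b s t : G) (k : ℤ) : Prop where
  hs : s ∈ R
  ht : t ∈ R
  as : a * s * a⁻¹ = s
  at_ : a * t * a⁻¹ = s * t
  bt : b * t * b⁻¹ = t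
  bs : b ^ k * s * (b ^ k)⁻¹ = t⁻¹ * s
  ar : ∀ r ∈ R, ∃ i : ℤ, a * r * a⁻¹ = s ^ i * r
  br : ∀ r ∈ R, ∃ i : ℤ, b * r * b⁻¹ = t ^ i * r

theorem Pr.decomp {p : ℕ} [hp : Fact p.Prime] {R : Subgroup G} (hRc : ∀ r ∈ R, ∀ s ∈ R, r * s = s * r)
    (hRp : ∀ r ∈ R, r ^ p = 1) {a b s t : G} {k : ℤ} (h : Pr p R a b s t k) :
    ∀ r ∈ R, ∃ c ∈ R, ∃ m n : ℤ, r = c * s ^ m * t ^ n ∧ a * c = c * a ∧ b * c = c * b := by
  intro r hr
  obtain ⟨i, hi⟩ := h.ar r hr
  obtain ⟨j, hj⟩ := h.br r hr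
  obtain ⟨e, he⟩ := h.br s h.hs
  have cst : Commute s t := hRc s h.hs t h.ht
  have crs : Commute r s := hRc r hr s h.hs
  have crt : Commute r t := hRc r hr t h.ht
  -- `t ^ (e * k) = t⁻¹`
  have hbt : Commute t b := by
    have := h.bt
    have e1 : b * t = t * b := by
      calc b * t = (b * t * b⁻¹) * b := by group
        _ = t * b := by rw [this]
    exact e1.symm
  have hek : t ^ (e * k) = t⁻¹ := by
    have h1 := conj_zpow_eq (c := t ^ e) he (hbt.zpow_left e) k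
    rw [h.bs, ← zpow_mul] at h1
    exact (mul_right_cancel h1).symm
  refine ⟨r * t ^ (-i) * s ^ (k * j), ?_, -(k * j), i, ?_, ?_, ?_⟩
  · exact R.mul_mem (R.mul_mem hr (R.zpow_mem h.ht _)) (R.zpow_mem h.hs _)
  · group
  · -- commutes with `a`
    have e1 : a * (r * t ^ (-i) * s ^ (k * j)) * a⁻¹ = (a * r * a⁻¹) * (a * t * a⁻¹) ^ (-i) * (a * s * a⁻¹) ^ (k * j) := by
      rw [conj_zpow, conj_zpow]; group
    have e2 : a * (r * t ^ (-i) * s ^ (k * j)) * a⁻¹ = r * t ^ (-i) * s ^ (k * j) := by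
      rw [e1, h.as, h.at_, hi, cst.mul_zpow]
      have e3 : s ^ i * r * (s ^ (-i) * t ^ (-i)) = r * t ^ (-i) := by
        have : s ^ i * r = r * s ^ i := (crs.zpow_right i).eq.symm
        rw [this, zpow_neg]
        group
      rw [e3]
    calc a * (r * t ^ (-i) * s ^ (k * j)) = (a * (r * t ^ (-i) * s ^ (k * j)) * a⁻¹) * a := by group
      _ = r * t ^ (-i) * s ^ (k * j) * a := by rw [e2]
  · have e1 : b * (r * t ^ (-i) * s ^ (k * j)) * b⁻¹ = (b * r * b⁻¹) * (b * t * b⁻¹) ^ (-i) * (b * s * b⁻¹) ^ (k * j) := by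
      rw [conj_zpow, conj_zpow]; group
    have e2 : b * (r * t ^ (-i) * s ^ (k * j)) * b⁻¹ = r * t ^ (-i) * s ^ (k * j) := by
      rw [e1, h.bt, he, hj, (cst.symm.zpow_left e).mul_zpow, ← zpow_mul]
      have e3 : t ^ (e * (k * j)) = t ^ (-j) := by
        rw [← mul_assoc, zpow_mul, hek, inv_zpow, zpow_neg]
      rw [e3]
      have e4 : t ^ j * r = r * t ^ j := (crt.zpow_right j).eq.symm
      rw [e4]
      calc r * t ^ j * t ^ (-i) * (t ^ (-j) * s ^ (k * j)) = r * (t ^ j * t ^ (-i) * t ^ (-j)) * s ^ (k * j) := by group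
        _ = r * t ^ (-i) * s ^ (k * j) := by
            rw [← zpow_add, ← zpow_add]
            congr 3
            ring
    calc b * (r * t ^ (-i) * s ^ (k * j)) = (b * (r * t ^ (-i) * s ^ (k * j)) * b⁻¹) * b := by group
      _ = r * t ^ (-i) * s ^ (k * j) * b := by rw [e2]

theorem Pr.false_of_odd {p : ℕ} [hp : Fact p.Prime] (hp2 : p ≠ 2) {R : Subgroup G}
    (hRc : ∀ r ∈ R, ∀ s ∈ R, r * s = s * r) (hRp : ∀ r ∈ R, r ^ p = 1) (hCR : centralizer (R : Set G) ≤ R)
    {a b s t : G} {k : ℤ} (h : Pr p R a b s t k) (hap : a ^ p ∈ zpowers s) (hap1 : a ^ p ≠ 1) : False := by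
  have cst : Commute s t := hRc s h.hs t h.ht
  have hbkt : b ^ k * t * (b ^ k)⁻¹ = t := by
    have hbt : Commute b t := by
      have := h.bt
      calc b * t = (b * t * b⁻¹) * b := by group
        _ = t * b := by rw [this]
    rw [(hbt.zpow_left k).eq, mul_inv_cancel_right]
  set w := a * b ^ k * a with hw
  have hws : w * s * w⁻¹ = t⁻¹ := by
    have e1 : w * s * w⁻¹ = a * (b ^ k * (a * s * a⁻¹) * (b ^ k)⁻¹) * a⁻¹ := by rw [hw]; group
    rw [e1, h.as, h.bs]
    have e2 : a * (t⁻¹ * s) * a⁻¹ = (a * t * a⁻¹)⁻¹ * (a * s * a⁻¹) := by group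
    rw [e2, h.as, h.at_, mul_inv_rev, inv_mul_cancel_right]
  have hwt : w * t * w⁻¹ = s := by
    have e1 : w * t * w⁻¹ = a * (b ^ k * (a * t * a⁻¹) * (b ^ k)⁻¹) * a⁻¹ := by rw [hw]; group
    rw [e1, h.at_]
    have e2 : b ^ k * (s * t) * (b ^ k)⁻¹ = (b ^ k * s * (b ^ k)⁻¹) * (b ^ k * t * (b ^ k)⁻¹) := by group
    rw [e2, h.bs, hbkt]
    have e3 : t⁻¹ * s * t = s := by rw [mul_assoc, cst.eq]; group
    rw [e3, h.as]
  set z := w * w with hz
  have hzs : z * s * z⁻¹ = s⁻¹ := by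
    have e1 : z * s * z⁻¹ = w * (w * s * w⁻¹) * w⁻¹ := by rw [hz]; group
    rw [e1, hws]
    have e2 : w * t⁻¹ * w⁻¹ = (w * t * w⁻¹)⁻¹ := by group
    rw [e2, hwt]
  have hzt : z * t * z⁻¹ = t⁻¹ := by
    have e1 : z * t * z⁻¹ = w * (w * t * w⁻¹) * w⁻¹ := by rw [hz]; group
    rw [e1, hwt, hws]
  have hzs' : z⁻¹ * s * z = s⁻¹ := by
    have e1 : z⁻¹ * s * z = (z⁻¹ * (z * s * z⁻¹) * z)⁻¹ := by rw [hzs]; group
    rw [e1]; group
  have hzt' : z⁻¹ * t * z = t⁻¹ := by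
    have e1 : z⁻¹ * t * z = (z⁻¹ * (z * t * z⁻¹) * z)⁻¹ := by rw [hzt]; group
    rw [e1]; group
  set g := a⁻¹ * (z * a * z⁻¹) with hg
  have hgs : g * s * g⁻¹ = s := by
    have e1 : g * s * g⁻¹ = a⁻¹ * (z * (a * (z⁻¹ * s * z) * a⁻¹) * z⁻¹) * a := by rw [hg]; group
    rw [e1, hzs']
    have e2 : a * s⁻¹ * a⁻¹ = (a * s * a⁻¹)⁻¹ := by group
    rw [e2, h.as]
    have e3 : z * s⁻¹ * z⁻¹ = (z * s * z⁻¹)⁻¹ := by group
    rw [e3, hzs, inv_inv]
    nth_rewrite 1 [← h.as]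
    group
  have hgt : g * t * g⁻¹ = t := by
    have e1 : g * t * g⁻¹ = a⁻¹ * (z * (a * (z⁻¹ * t * z) * a⁻¹) * z⁻¹) * a := by rw [hg]; group
    rw [e1, hzt']
    have e2 : a * t⁻¹ * a⁻¹ = (a * t * a⁻¹)⁻¹ := by group
    rw [e2, h.at_]
    have e3 : z * (s * t)⁻¹ * z⁻¹ = ((z * s * z⁻¹) * (z * t * z⁻¹))⁻¹ := by group
    rw [e3, hzs, hzt]
    have e4 : (s⁻¹ * t⁻¹)⁻¹ = a * t * a⁻¹ := by rw [h.at_, cst.eq]; group
    rw [e4]; group
  have hgR : g ∈ R := by
    apply hCR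
    intro r hr
    obtain ⟨c, hc, m, n, hr', hac, hbc⟩ := h.decomp hRc hRp r hr
    have c1 : Commute a c := hac
    have c2 : Commute b c := hbc
    have cw : Commute w c := (c1.mul_left (c2.zpow_left k)).mul_left c1
    have cz : Commute z c := cw.mul_left cw
    have cg : Commute g c := (c1.inv_left).mul_left ((cz.mul_left c1).mul_left cz.inv_left)
    have cgs : Commute g s := by
      calc g * s = (g * s * g⁻¹) * g := by group
        _ = s * g := by rw [hgs]
    have cgt : Commute g t := by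
      calc g * t = (g * t * g⁻¹) * g := by group
        _ = t * g := by rw [hgt]
    rw [hr']
    exact (((cg.mul_right (cgs.zpow_right m)).mul_right (cgt.zpow_right n)).eq).symm
  -- the `p`-th power
  obtain ⟨i, hi⟩ := h.ar g hgR
  have hga : g * a = (s ^ i)⁻¹ * (a * g) := by
    have e1 : a * g = s ^ i * g * a := by rw [← hi]; group
    rw [e1]; group
  have cas : Commute s a := by
    have := h.as
    have e1 : a * s = s * a := by
      calc a * s = (a * s * a⁻¹) * a := by group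
        _ = s * a := by rw [this]
    exact e1.symm
  have hpow := Cyc.mul_pow_class_two hga (cas.zpow_left i).inv_left
    (show Commute (s ^ i)⁻¹ g from (Commute.zpow_left (hRc s h.hs g hgR) i).inv_left) p
  have hsp : ((s ^ i)⁻¹) ^ (p * (p - 1) / 2) = 1 := by
    have hodd : 2 ∣ p - 1 := by
      have := hp.out.eq_two_or_odd'.resolve_left hp2
      obtain ⟨m, hm⟩ := this
      exact ⟨m, by omega⟩
    rw [Nat.mul_div_assoc p hodd, pow_mul, hRp _ (R.inv_mem (R.zpow_mem h.hs i)), one_pow]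
  rw [hsp, one_mul, hRp g hgR, mul_one] at hpow
  have hag : a * g = z * a * z⁻¹ := by rw [hg]; group
  rw [hag, conj_pow] at hpow
  obtain ⟨e, he⟩ := mem_zpowers_iff.mp hap
  have h5 : z * a ^ p * z⁻¹ = (a ^ p)⁻¹ := by
    rw [← he, ← conj_zpow, hzs, inv_zpow]
  rw [h5] at hpow
  have h6 : (a ^ p) ^ 2 = 1 := by
    rw [pow_two]
    nth_rewrite 1 [← hpow]
    exact inv_mul_cancel _
  have hapR : a ^ p ∈ R := (zpowers_le.mpr h.hs) hap
  have h7 : orderOf (a ^ p) ∣ 2 := orderOf_dvd_of_pow_eq_one h6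
  have h8 : orderOf (a ^ p) ∣ p := orderOf_dvd_of_pow_eq_one (hRp _ hapR)
  have h9 : Nat.Coprime 2 p := (Nat.coprime_primes Nat.prime_two hp.out).mpr (Ne.symm hp2)
  have h10 : orderOf (a ^ p) = 1 := Nat.eq_one_of_dvd_coprimes h9 h7 h8
  exact hap1 (orderOf_eq_one_iff.mp h10)

theorem Pr.s4 [Finite G] {R : Subgroup G} [hRn : R.Normal]
    (hRc : ∀ r ∈ R, ∀ s ∈ R, r * s = s * r) (hRp : ∀ r ∈ R, r ^ 2 = 1)
    {a b s t : G} {k : ℤ} (h : Pr 2 R a b s t k) (ha : a ^ 2 ∈ R) (hb : b ^ 2 ∈ R) (hs1 : s ≠ 1)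
    (hbs : b * s * b⁻¹ ≠ s) : Cfsg.Involves (Equiv.Perm (Fin 4)) G := by
  have hRpg : IsPGroup 2 ↥R := fun r => ⟨1, Subtype.ext (by simpa using hRp r r.2)⟩
  have cst : Commute s t := hRc s h.hs t h.ht
  have hs2 : s * s = 1 := by rw [← pow_two]; exact hRp s h.hs
  have ht2 : t * t = 1 := by rw [← pow_two]; exact hRp t h.ht
  obtain ⟨e, he⟩ := h.br s h.hs
  have hte : t ^ e = t := by
    rcases Int.even_or_odd e with ⟨m, hm⟩ | ⟨m, hm⟩
    · exfalso
      apply hbs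
      rw [he, hm, ← two_mul, zpow_mul]
      have : t ^ (2 : ℤ) = 1 := by rw [zpow_two]; exact ht2
      rw [this, one_zpow, one_mul]
    · rw [hm, zpow_add, zpow_mul]
      have : t ^ (2 : ℤ) = 1 := by rw [zpow_two]; exact ht2
      rw [this, one_zpow, one_mul, zpow_one]
  rw [hte] at he
  -- action of `a * b`
  have hxs : a * b * s * (a * b)⁻¹ = t := by
    have e1 : a * b * s * (a * b)⁻¹ = a * (b * s * b⁻¹) * a⁻¹ := by group
    have e2 : a * (t * s) * a⁻¹ = (a * t * a⁻¹) * (a * s * a⁻¹) := by group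
    rw [e1, he, e2, h.at_, h.as, cst.eq, mul_assoc, hs2, mul_one]
  have hxt : a * b * t * (a * b)⁻¹ = s * t := by
    have e1 : a * b * t * (a * b)⁻¹ = a * (b * t * b⁻¹) * a⁻¹ := by group
    rw [e1, h.bt, h.at_]
  have hxst : a * b * (s * t) * (a * b)⁻¹ = s := by
    have e1 : a * b * (s * t) * (a * b)⁻¹ = (a * b * s * (a * b)⁻¹) * (a * b * t * (a * b)⁻¹) := by group
    rw [e1, hxs, hxt, cst.eq, ← mul_assoc, ht2, one_mul]
  have hts : t ≠ s := by
    intro e1
    have e2 := h.at_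
    rw [e1, h.as, hs2] at e2
    exact hs1 e2
  have hN : ∀ g : G, g ∈ normalizer (R : Set G) := fun g => by rw [normalizer_eq_top]; trivial
  refine H17.S4Inv.two_case (T := R) hRpg (x := a * b) (y := a) (hN _) (hN _) ?_ ?_ ?_
  · intro hx
    apply hts
    rw [← hxs]
    have := hx s h.hs
    calc a * b * s * (a * b)⁻¹ = (s * (a * b)) * (a * b)⁻¹ := by rw [this]
      _ = s := by group
  · intro r hr
    obtain ⟨c, hc, m, n, hr', hac, hbc⟩ := h.decomp hRc hRp r hr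
    have c1 : Commute a c := hac
    have c2 : Commute b c := hbc
    have cx : Commute ((a * b) ^ 3) c := (c1.mul_left c2).pow_left 3
    have cxs : Commute ((a * b) ^ 3) s := by
      have e1 : (a * b) ^ 3 * s * ((a * b) ^ 3)⁻¹ = s := by
        have e2 : (a * b) ^ 3 * s * ((a * b) ^ 3)⁻¹ = (a * b) * ((a * b) * ((a * b) * s * (a * b)⁻¹) * (a * b)⁻¹) * (a * b)⁻¹ := by
          rw [pow_succ, pow_two]; simp only [mul_inv_rev, mul_assoc]
        rw [e2, hxs, hxt, hxst]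
      calc (a * b) ^ 3 * s = ((a * b) ^ 3 * s * ((a * b) ^ 3)⁻¹) * (a * b) ^ 3 := by group
        _ = s * (a * b) ^ 3 := by rw [e1]
    have cxt : Commute ((a * b) ^ 3) t := by
      have e1 : (a * b) ^ 3 * t * ((a * b) ^ 3)⁻¹ = t := by
        have e2 : (a * b) ^ 3 * t * ((a * b) ^ 3)⁻¹ = (a * b) * ((a * b) * ((a * b) * t * (a * b)⁻¹) * (a * b)⁻¹) * (a * b)⁻¹ := by
          rw [pow_succ, pow_two]; simp only [mul_inv_rev, mul_assoc]
        rw [e2, hxt, hxst, hxs]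
      calc (a * b) ^ 3 * t = ((a * b) ^ 3 * t * ((a * b) ^ 3)⁻¹) * (a * b) ^ 3 := by group
        _ = t * (a * b) ^ 3 := by rw [e1]
    rw [hr']
    exact (((cx.mul_right (cxs.zpow_right m)).mul_right (cxt.zpow_right n)).eq).symm
  · have e1 : a * (a * b) * a⁻¹ * (a * b) = a ^ 2 * b ^ 2 := by
      rw [pow_two, pow_two]; group
    rw [e1]
    intro r hr
    exact hRc r hr _ (mul_mem ha hb)

theorem reduced [Finite G] {p : ℕ} [hp : Fact p.Prime] (hG : Cfsg.IsPSolvable p G)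
    (hRc : ∀ r ∈ Cfsg.pCore p G, ∀ s ∈ Cfsg.pCore p G, r * s = s * r) (hRp : ∀ r ∈ Cfsg.pCore p G, r ^ p = 1)
    (hCR : centralizer (Cfsg.pCore p G : Set G) ≤ Cfsg.pCore p G) {a : G} (ha : a ∉ Cfsg.pCore p G)
    (hap : a ^ p ∈ Cfsg.pCore p G)
    (hRa : ∀ r ∈ Cfsg.pCore p G, a * r * a⁻¹ * r⁻¹ ∈ zpowers (a ^ p)) :
    (p ≠ 2 → False) ∧ (p = 2 → Cfsg.Involves (Equiv.Perm (Fin 4)) G) := by
  classical
  set R := Cfsg.pCore p G with hR
  haveI hRn : R.Normal := Cfsg.pCore_normal p G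
  have hRpg : IsPGroup p ↥R := fun r => ⟨1, Subtype.ext (by simpa using hRp r r.2)⟩
  set A := zpowers a with hA
  have hApg : IsPGroup p ↥A := by
    have ho : orderOf a ∣ p ^ 2 := by
      apply orderOf_dvd_of_pow_eq_one
      rw [pow_two, pow_mul]
      exact hRp _ hap
    obtain ⟨n, -, hn⟩ := (Nat.dvd_prime_pow hp.out).mp ho
    exact IsPGroup.of_card (n := n) (by rw [hA, Nat.card_zpowers, hn])
  have hRA : (R ⊓ A).relIndex A = p := by
    rw [inf_relIndex_right]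
    have h1 : R.relIndex A ≠ 1 := by
      rw [Ne, relIndex_eq_one]
      exact fun h => ha (h (mem_zpowers a))
    have h2 : R.relIndex A ∣ p := by
      have e1 : R.relIndex A = orderOf ((QuotientGroup.mk' R) a) := by
        rw [← Nat.card_zpowers, ← MonoidHom.map_zpowers, ← hA]
        have h3 := Subgroup.relIndex_map_map (QuotientGroup.mk' R) (⊥ : Subgroup G) A
        rw [Subgroup.map_bot, relIndex_bot_left, QuotientGroup.ker_mk', bot_sup_eq] at h3
        rw [h3, H1.Basic.relIndex_sup_of_le_normalizer]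
        rw [normalizer_eq_top]; exact le_top
      rw [e1]
      apply orderOf_dvd_of_pow_eq_one
      rw [← map_pow]
      exact (QuotientGroup.eq_one_iff _).mpr hap
    exact ((Nat.dvd_prime hp.out).mp h2).resolve_left h1
  have hΦ : (frattini ↥A).map A.subtype ≤ R := by
    have h1 : IsCoatom ((R ⊓ A).subgroupOf A) := H18.Gen.isCoatom_of_relIndex (by rw [hRA]; exact hp.out)
    have h2 := frattini_le_coatom h1
    rintro _ ⟨y, hy, rfl⟩
    exact (mem_subgroupOf.mp (h2 hy)).1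
  have hnot : ¬ A ≤ R := fun h => ha (h (mem_zpowers a))
  obtain ⟨x, -, hxD, -, hDA, hidx, -⟩ := SM.main hG A hApg hΦ hnot
  set L := A ⊔ cj x A with hL
  have haR : ∀ r ∈ R, ∀ g : G, g * r * g⁻¹ ∈ R := fun r hr g => hRn.conj_mem r hr g
  set b := x * a * x⁻¹ with hb
  have hbA : cj x A = zpowers b := by
    rw [hA, cj]
    change (zpowers a).map _ = _
    rw [MonoidHom.map_zpowers]
    rfl
  have hr1 : a ^ p ≠ 1 := by
    intro h1
    apply ha
    apply hCR
    intro r hr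
    have h2 := hRa r hr
    rw [h1, zpowers_one_eq_bot, mem_bot] at h2
    calc r * a = (a * r * a⁻¹ * r⁻¹) * (r * a) := by rw [h2, one_mul]
      _ = a * r := by group
  set r₁ := a ^ p with hr₁
  set t := b ^ p with ht
  have htr : t = x * r₁ * x⁻¹ := by rw [ht, hb, conj_pow]
  have htR : t ∈ R := by rw [htr]; exact haR _ hap x
  have hRb : ∀ r ∈ R, b * r * b⁻¹ * r⁻¹ ∈ zpowers t := by
    intro r hr
    have h1 : x⁻¹ * r * x ∈ R := by simpa using haR r hr x⁻¹
    have h2 := hRa _ h1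
    obtain ⟨i, hi⟩ := mem_zpowers_iff.mp h2
    refine mem_zpowers_iff.mpr ⟨i, ?_⟩
    rw [htr, conj_zpow, hi, hb]
    group
  set W := zpowers r₁ ⊔ zpowers t with hW
  have hWR : W ≤ R := sup_le (by rwa [zpowers_le]) (by rwa [zpowers_le])
  -- the subgroup centralizing `R / W`
  let N : Subgroup G :=
    { carrier := {g | g ∈ normalizer (W : Set G) ∧ ∀ r ∈ R, g * r * g⁻¹ * r⁻¹ ∈ W}
      one_mem' := ⟨one_mem _, fun r _ => by simp⟩
      mul_mem' := by
        rintro g h ⟨hg1, hg2⟩ ⟨hh1, hh2⟩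
        refine ⟨mul_mem hg1 hh1, fun r hr => ?_⟩
        have e1 : g * h * r * (g * h)⁻¹ * r⁻¹ = (g * (h * r * h⁻¹ * r⁻¹) * g⁻¹) * (g * r * g⁻¹ * r⁻¹) := by group
        rw [e1]
        exact mul_mem ((mem_normalizer_iff.mp hg1 _).mp (hh2 r hr)) (hg2 r hr)
      inv_mem' := by
        rintro g ⟨hg1, hg2⟩
        refine ⟨inv_mem hg1, fun r hr => ?_⟩
        have e1 : g⁻¹ * r * g⁻¹⁻¹ * r⁻¹ = g⁻¹ * (g * r * g⁻¹ * r⁻¹)⁻¹ * g⁻¹⁻¹ := by group
        rw [e1]
        exact (mem_normalizer_iff.mp (inv_mem hg1) _).mp (inv_mem (hg2 r hr)) }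
  have hNof : ∀ g : G, (∀ r ∈ R, g * r * g⁻¹ * r⁻¹ ∈ W) → g ∈ N := by
    intro g hg
    refine ⟨?_, hg⟩
    apply mem_normalizer_fintype
    intro w hw
    have := mul_mem (hg w (hWR hw)) hw
    simpa using this
  have hLN : L ≤ N := by
    refine sup_le ?_ ?_
    · rw [hA, zpowers_le]
      exact hNof a fun r hr => (le_sup_left : zpowers r₁ ≤ W) (hRa r hr)
    · rw [hbA, zpowers_le]
      exact hNof b fun r hr => (le_sup_right : zpowers t ≤ W) (hRb r hr)
  have hLW : L ≤ normalizer (W : Set G) := fun g hg => (hLN hg).1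
  have hRW : ∀ g ∈ L, ∀ r ∈ R, g * r * g⁻¹ * r⁻¹ ∈ W := fun g hg => (hLN hg).2
  have hDne : pGen p L ≠ ⊥ := by
    intro h
    rw [h, mem_bot] at hxD
    have h1 : L = A := by rw [hL, hxD, cj_one, sup_idem]
    rw [h1] at hidx
    have h2 : A ≤ oP p A := le_oP hApg le_rfl le_normalizer
    rw [inf_eq_left.mpr h2, relIndex_self] at hidx
    exact hp.out.one_lt.ne hidx
  have car1 : Commute a r₁ := Commute.pow_right (Commute.refl a) p
  have cbt : Commute b t := Commute.pow_right (Commute.refl b) p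
  have hat : ¬ Commute a t := by
    intro hc
    apply hDne
    refine eq_bot_of_triv (W := W) (C := A) hRpg hRc hCR hWR hLW hRW le_sup_left ?_ hDA
    rw [le_centralizer_iff]
    refine sup_le ?_ ?_
    · rw [hA, zpowers_le]
      intro y hy
      obtain ⟨i, rfl⟩ := mem_zpowers_iff.mp hy
      exact (car1.zpow_left i).eq
    · rw [hA, zpowers_le]
      intro y hy
      obtain ⟨i, rfl⟩ := mem_zpowers_iff.mp hy
      exact (hc.zpow_left i).eq
  have hbr : ¬ Commute b r₁ := by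
    intro hc
    apply hDne
    have hD2 : ⁅pGen p L, cj x A⁆ = pGen p L := by
      have h1 : cj x ⁅pGen p L, A⁆ = cj x (pGen p L) := by rw [hDA]
      rw [cj_commutator, cj_eq_of_mem hxD] at h1
      exact h1
    refine eq_bot_of_triv (W := W) (C := cj x A) hRpg hRc hCR hWR hLW hRW le_sup_right ?_ hD2
    rw [le_centralizer_iff, hbA]
    refine sup_le ?_ ?_
    · rw [zpowers_le]
      intro y hy
      obtain ⟨i, rfl⟩ := mem_zpowers_iff.mp hy
      exact (hc.zpow_left i).eq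
    · rw [zpowers_le]
      intro y hy
      obtain ⟨i, rfl⟩ := mem_zpowers_iff.mp hy
      exact (cbt.zpow_left i).eq
  set s := a * t * a⁻¹ * t⁻¹ with hs
  have hsr : s ∈ zpowers r₁ := hRa t htR
  have hs1 : s ≠ 1 := by
    intro h
    apply hat
    calc a * t = (a * t * a⁻¹ * t⁻¹) * (t * a) := by group
      _ = t * a := by rw [← hs, h, one_mul]
  have hsR : s ∈ R := by
    have : zpowers r₁ ≤ R := by rwa [zpowers_le]
    exact this hsr
  have gen : ∀ u ∈ R, u ≠ 1 → ∀ v ∈ zpowers u, v ≠ 1 → u ∈ zpowers v := by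
    intro u hu hu1 v hv hv1
    have h1 : orderOf u = p := orderOf_eq_prime (hRp u hu) hu1
    have hvR : v ∈ R := by
      have : zpowers u ≤ R := by rwa [zpowers_le]
      exact this hv
    have h2 : orderOf v = p := orderOf_eq_prime (hRp v hvR) hv1
    have h3 : zpowers v ≤ zpowers u := by rwa [zpowers_le]
    have h4 : zpowers v = zpowers u := Subgroup.eq_of_le_of_card_ge h3 (by rw [Nat.card_zpowers, Nat.card_zpowers, h1, h2])
    rw [h4]; exact mem_zpowers u
  have hrs : r₁ ∈ zpowers s := gen r₁ hap hr1 s hsr hs1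
  have hleS : zpowers r₁ ≤ zpowers s := by rwa [zpowers_le]
  have cas : Commute a s := by
    obtain ⟨i, hi⟩ := mem_zpowers_iff.mp hsr
    rw [← hi]; exact car1.zpow_right i
  obtain ⟨e, he⟩ := mem_zpowers_iff.mp (hRb s hsR)
  have he' : b * s * b⁻¹ = t ^ e * s := by rw [he]; group
  have hte : t ^ e ≠ 1 := by
    intro h
    rw [h, one_mul] at he'
    apply hbr
    have hc : Commute b s := by
      calc b * s = (b * s * b⁻¹) * b := by group
        _ = s * b := by rw [he']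
    obtain ⟨i, hi⟩ := mem_zpowers_iff.mp hrs
    rw [← hi]; exact hc.zpow_right i
  have ht1 : t ≠ 1 := by
    intro h
    apply hte
    rw [h, one_zpow]
  have hgt := gen t htR ht1 (t ^ e) (zpow_mem (mem_zpowers t) e) hte
  obtain ⟨k, hk⟩ := mem_zpowers_iff.mp (inv_mem hgt)
  have hbs : b ^ k * s * (b ^ k)⁻¹ = t⁻¹ * s := by
    rw [conj_zpow_eq he' (cbt.symm.zpow_left e) k, hk]
  have hPr : Pr p R a b s t k :=
    { hs := hsR
      ht := htR
      as := by rw [cas.eq, mul_inv_cancel_right]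
      at_ := by rw [hs]; group
      bt := by rw [cbt.eq, mul_inv_cancel_right]
      bs := hbs
      ar := by
        intro r hr
        obtain ⟨i, hi⟩ := mem_zpowers_iff.mp (hleS (hRa r hr))
        exact ⟨i, by rw [hi]; group⟩
      br := by
        intro r hr
        obtain ⟨i, hi⟩ := mem_zpowers_iff.mp (hRb r hr)
        exact ⟨i, by rw [hi]; group⟩ }
  refine ⟨fun hp2 => hPr.false_of_odd hp2 hRc hRp hCR hrs hr1, ?_⟩
  intro hp2
  subst hp2
  refine hPr.s4 hRc hRp hap htR hs1 ?_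
  rw [he']
  intro h
  apply hte
  exact mul_eq_right.mp h

end Cfsg.Agent.H18.CN
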