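import Mathlib
import Cfsg.Agent.H18_CN1
import Cfsg.Agent.H17_PIrr2
import Cfsg.Agent.H17_Involves
import Cfsg.Agent.H11_Cores

/-!
# Cyclic normal subgroups of Sylow subgroups of `p`-soluble groups: the general case
-/

set_option autoImplicit false
set_option linter.unusedSectionVars false
set_option linter.unusedSimpArgs false
set_option linter.style.haveILetI false

namespace Cfsg.Agent.H18.CN

open Subgroup Pointwise
open scoped commutatorElement
open Cfsg.Agent.H13.Syl
open Cfsg.Agent.H18.CharP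

variable {G : Type*} [Group G]

/-- a `p'`-elements-free subgroup is a `p`-group -/
theorem isPGroup_of_no_p' [Finite G] {p : ℕ} [hp : Fact p.Prime] {K : Subgroup G}
    (h : ∀ k ∈ K, (orderOf k).Coprime p → k = 1) : IsPGroup p ↥K := by
  intro k
  obtain ⟨a, n, hn, hl⟩ := Nat.exists_eq_pow_mul_and_not_dvd (orderOf_pos k).ne' p hp.out.ne_one
  refine ⟨a, ?_⟩
  apply Subtype.ext
  have h1 : (k : G) ^ (p ^ a) ∈ K := K.pow_mem k.2 _
  apply h _ h1
  have h2 : orderOf ((k : G) ^ (p ^ a)) ∣ n := by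
    apply orderOf_dvd_of_pow_eq_one
    rw [← pow_mul, ← hl]
    exact_mod_cast congrArg Subtype.val (pow_orderOf_eq_one k)
  exact Nat.Coprime.coprime_dvd_left h2 ((Nat.Prime.coprime_iff_not_dvd hp.out).mpr hn).symm

theorem core_case [Finite G] {p : ℕ} [hp : Fact p.Prime] (hG : Cfsg.IsPSolvable p G)
    (h1 : Cfsg.pPrimeCore p G = ⊥) {a : G} (hao : ∃ n, a ^ (p ^ n) = 1)
    (hN : ∀ r ∈ Cfsg.pCore p G, r * a * r⁻¹ ∈ zpowers a)
    (h : p ≠ 2 ∨ ¬ Cfsg.Involves (Equiv.Perm (Fin 4)) G) : a ∈ Cfsg.pCore p G := by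
  classical
  by_contra haR
  set R := Cfsg.pCore p G with hR
  haveI hRn : R.Normal := Cfsg.pCore_normal p G
  have hRp : IsPGroup p ↥R := H1.Nilp.pCore_isPGroup p
  have hCR : centralizer (R : Set G) ≤ R := H22.PSolv.centralizer_pCore_le hG h1
  set Φ := (frattini ↥R).map R.subtype with hΦ
  have hΦR : Φ ≤ R := map_subtype_le _
  haveI hΦn : Φ.Normal := by
    rw [← normalizer_eq_top_iff, eq_top_iff]
    exact H22.Coprime3.le_normalizer_map_frattini (by rw [normalizer_eq_top])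
  set f := QuotientGroup.mk' Φ with hf
  have hfs : Function.Surjective f := QuotientGroup.mk'_surjective Φ
  have hker : f.ker = Φ := QuotientGroup.ker_mk' Φ
  have hcore : R.map f = Cfsg.pCore p (G ⧸ Φ) := by
    apply H17.Base.pCore_map_eq hfs
    intro x hx
    rw [hker] at hx
    obtain ⟨k, hk⟩ := hRp ⟨x, hΦR hx⟩
    exact ⟨k, by simpa using congrArg Subtype.val hk⟩
  have hmem : ∀ g : G, f g ∈ R.map f ↔ g ∈ R := by
    intro g
    constructor
    · rintro ⟨r, hr, hrg⟩
      have : r⁻¹ * g ∈ Φ := by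
        rw [← hker, MonoidHom.mem_ker, map_mul, map_inv, hrg, inv_mul_cancel]
      have h2 := R.mul_mem hr (hΦR this)
      simpa using h2
    · exact fun hg => ⟨g, hg, rfl⟩
  have hG' : Cfsg.IsPSolvable p (G ⧸ Φ) := H22.PSolv.isPSolvable_quotient Φ hG
  -- conditions on the quotient
  have hRc : ∀ r ∈ Cfsg.pCore p (G ⧸ Φ), ∀ s ∈ Cfsg.pCore p (G ⧸ Φ), r * s = s * r := by
    rw [← hcore]
    rintro _ ⟨r, hr, rfl⟩ _ ⟨s, hs, rfl⟩
    have h2 : ⁅r, s⁆ ∈ Φ := H22.Coprime3.commutator_le_map_frattini hRp (commutator_mem_commutator hr hs)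
    rw [← hker, MonoidHom.mem_ker, commutatorElement_def, map_mul, map_mul, map_mul, map_inv, map_inv] at h2
    calc f r * f s = (f r * f s * (f r)⁻¹ * (f s)⁻¹) * (f s * f r) := by group
      _ = f s * f r := by rw [h2, one_mul]
  have hRpp : ∀ r ∈ Cfsg.pCore p (G ⧸ Φ), r ^ p = 1 := by
    rw [← hcore]
    rintro _ ⟨r, hr, rfl⟩
    rw [← map_pow, ← MonoidHom.mem_ker, hker]
    exact H22.Coprime3.pow_mem_map_frattini hRp hr
  have hCR' : centralizer (Cfsg.pCore p (G ⧸ Φ) : Set (G ⧸ Φ)) ≤ Cfsg.pCore p (G ⧸ Φ) := by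
    set K := (centralizer (Cfsg.pCore p (G ⧸ Φ) : Set (G ⧸ Φ))).comap f with hK
    have hKn : K.Normal := by
      haveI := Cfsg.pCore_normal p (G ⧸ Φ)
      infer_instance
    have hKp : IsPGroup p ↥K := by
      apply isPGroup_of_no_p'
      intro k hk ho
      have h2 : zpowers k ≤ centralizer (R : Set G) := by
        apply H1.Coprime.trivial_on_frattini_quotient (zpowers k) R
        · rw [normalizer_eq_top]; exact le_top
        · rw [Nat.card_zpowers]
          obtain ⟨n, hn⟩ := IsPGroup.iff_card.mp (hRp.to_subgroup (frattini ↥R))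
          rw [hn]
          exact Nat.Coprime.pow_right n ho
        · intro b hb r hr
          have hbK : b ∈ K := (zpowers_le.mpr hk) hb
          have h3 : f b ∈ centralizer (Cfsg.pCore p (G ⧸ Φ) : Set (G ⧸ Φ)) := hbK
          have h4 := h3 (f r) (by rw [← hcore]; exact ⟨r, hr, rfl⟩)
          change _ ∈ Φ
          rw [← hker, MonoidHom.mem_ker, map_mul, map_mul, map_mul, map_inv, map_inv, ← h4]
          group
      exact eq_one_of_pgroup hRp ho (hCR (h2 (mem_zpowers k)))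
    have hKR : K ≤ R := H1.Nilp.le_pCore hKn hKp
    intro y hy
    obtain ⟨g, rfl⟩ := hfs y
    rw [← hcore]
    exact ⟨g, hKR hy, rfl⟩
  -- choice of the power
  obtain ⟨n, hn⟩ := hao
  have hex : ∃ i, a ^ (p ^ i) ∈ R := ⟨n, by rw [hn]; exact R.one_mem⟩
  set i := Nat.find hex with hi
  have hiR : a ^ (p ^ i) ∈ R := Nat.find_spec hex
  have hi0 : i ≠ 0 := by
    intro h0
    rw [h0, pow_zero, pow_one] at hiR
    exact haR hiR
  obtain ⟨j, hj⟩ := Nat.exists_eq_succ_of_ne_zero hi0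
  have hjR : a ^ (p ^ j) ∉ R := Nat.find_min hex (by omega)
  set b := a ^ (p ^ j) with hb
  have hbp : b ^ p ∈ R := by
    rw [hb, ← pow_mul, ← pow_succ]
    rw [hj] at hiR
    exact hiR
  have hbN : ∀ r ∈ R, b * r * b⁻¹ * r⁻¹ ∈ zpowers b := by
    intro r hr
    obtain ⟨m, hm⟩ := mem_zpowers_iff.mp (hN r hr)
    have h2 : r * b⁻¹ * r⁻¹ = b ^ (-m) := by
      have : r * b * r⁻¹ = b ^ m := by
        rw [hb, ← conj_pow, ← hm, ← zpow_natCast, ← zpow_natCast, ← zpow_mul, ← zpow_mul, mul_comm]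
      calc r * b⁻¹ * r⁻¹ = (r * b * r⁻¹)⁻¹ := by group
        _ = b ^ (-m) := by rw [this, zpow_neg]
    have h3 : b * r * b⁻¹ * r⁻¹ = b * (r * b⁻¹ * r⁻¹) := by group
    rw [h3, h2]
    exact mul_mem (mem_zpowers b) (zpow_mem (mem_zpowers b) _)
  have key := reduced (a := f b) hG' hRc hRpp hCR' (by rw [← hcore, hmem]; exact hjR)
    (by rw [← map_pow, ← hcore, hmem]; exact hbp) (by
      rw [← hcore]
      rintro _ ⟨r, hr, rfl⟩
      obtain ⟨m, hm⟩ := mem_zpowers_iff.mp (hbN r hr)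
      have hmR : b ^ m ∈ R := by
        rw [hm]
        exact R.mul_mem (hRn.conj_mem r hr b) (R.inv_mem hr)
      have hpm : (p : ℤ) ∣ m := by
        by_contra hnd
        have hcop : IsCoprime (p : ℤ) m := by
          rw [Int.isCoprime_iff_gcd_eq_one, Int.gcd_eq_natAbs, Int.natAbs_natCast]
          exact (Nat.Prime.coprime_iff_not_dvd hp.out).mpr (fun hd => hnd (Int.natCast_dvd.mpr hd))
        obtain ⟨u, v, huv⟩ := hcop
        apply hjR
        have : b = (b ^ p) ^ u * (b ^ m) ^ v := by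
          rw [← zpow_natCast b p, ← zpow_mul, ← zpow_mul, ← zpow_add, mul_comm (p : ℤ), mul_comm m, huv, zpow_one]
        rw [this]
        exact R.mul_mem (R.zpow_mem hbp _) (R.zpow_mem hmR _)
      obtain ⟨c, rfl⟩ := hpm
      rw [← map_inv, ← map_inv, ← map_mul, ← map_mul, ← map_mul, ← hm, zpow_mul, map_zpow, zpow_natCast, map_pow]
      exact zpow_mem (mem_zpowers _) _)
  rcases h with hp2 | hS
  · exact key.1 hp2
  · by_cases hp2 : p = 2
    · exact hS (H17.Involves.involves_quotient (key.2 hp2))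
    · exact key.1 hp2

end Cfsg.Agent.H18.CN
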