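import Mathlib

/-!
# Transvections of elementary abelian 2-groups normalizing a group of odd order
-/

set_option autoImplicit false
set_option linter.unusedSectionVars false
set_option linter.unusedSimpArgs false

namespace Cfsg.Agent.H18.KS

open Subgroup

variable {V : Type*} [CommGroup V]

/-- `d` is a transvection with centre `v` -/
structure Tv (d : MulAut V) (v : V) : Prop where
  ne : v ≠ 1
  nt : ∃ x, d x ≠ x
  tv : ∀ x, d x = x ∨ d x = x * v

section basics

variable {d e : MulAut V} {v w : V} (h2 : ∀ v : V, v * v = 1)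

include h2

theorem inv_self (x : V) : x⁻¹ = x := inv_eq_of_mul_eq_one_left (h2 x)

theorem Tv.center (h : Tv d v) : d v = v := by
  rcases h.tv v with h1 | h1
  · exact h1
  · exfalso
    rw [h2] at h1
    exact h.ne (by simpa using h1)

theorem Tv.sq (h : Tv d v) : d * d = 1 := by
  ext x
  change d (d x) = x
  rcases h.tv x with h1 | h1
  · rw [h1, h1]
  · rw [h1, map_mul, h1, h.center h2, mul_assoc, h2, mul_one]

theorem Tv.inv (h : Tv d v) : d⁻¹ = d := inv_eq_of_mul_eq_one_left (h.sq h2)

theorem Tv.conj (h : Tv d v) (f : MulAut V) : Tv (f * d * f⁻¹) (f v) := by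
  refine ⟨?_, ?_, ?_⟩
  · intro h1
    exact h.ne (by simpa using h1)
  · obtain ⟨x, hx⟩ := h.nt
    refine ⟨f x, ?_⟩
    change f (d (f⁻¹ (f x))) ≠ f x
    rw [MulAut.inv_apply_self]
    intro h1
    exact hx (f.injective h1)
  · intro x
    change f (d (f⁻¹ x)) = x ∨ f (d (f⁻¹ x)) = x * f v
    rcases h.tv (f⁻¹ x) with h1 | h1
    · left; rw [h1, MulAut.apply_inv_self]
    · right; rw [h1, map_mul, MulAut.apply_inv_self]

theorem Tv.mul_apply (hd : Tv d v) (he : Tv e v) (x : V) : (d * e) x = x ∨ (d * e) x = x * v := by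
  change d (e x) = x ∨ d (e x) = x * v
  rcases he.tv x with h1 | h1
  · rw [h1]; exact hd.tv x
  · rw [h1, map_mul, hd.center h2]
    rcases hd.tv x with h3 | h3
    · right; rw [h3]
    · left; rw [h3, mul_assoc, h2, mul_one]

theorem Tv.mul_sq (hd : Tv d v) (he : Tv e v) : (d * e) * (d * e) = 1 := by
  have hgv : (d * e) v = v := by
    change d (e v) = v
    rw [he.center h2, hd.center h2]
  ext x
  change (d * e) ((d * e) x) = x
  rcases hd.mul_apply h2 he x with h1 | h1
  · rw [h1, h1]
  · rw [h1, map_mul, h1, hgv, mul_assoc, h2, mul_one]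

theorem eq_one_of_odd_pow {G : Type*} [Group G] {g : G} {k : ℕ} (h : g ^ (2 ^ k) = 1) (ho : Odd (orderOf g)) :
    g = 1 := by
  obtain ⟨j, _, hj⟩ := (Nat.dvd_prime_pow Nat.prime_two).mp (orderOf_dvd_of_pow_eq_one h)
  rcases Nat.eq_zero_or_pos j with h8 | h8
  · rw [h8, pow_zero] at hj
    exact orderOf_eq_one_iff.mp hj
  · exfalso
    rw [hj] at ho
    exact (Nat.not_odd_iff_even.mpr ((even_two).pow_of_ne_zero (by omega))) ho

theorem prod_of_fix (hd : Tv d v) (he : Tv e w) (hodd : Odd (orderOf (d * e))) (hev : e v = v) : d = e := by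
  have h1 := hd.conj h2 e
  rw [hev] at h1
  have h3 := hd.mul_sq h2 h1
  have h4 : (d * e) ^ (2 ^ 2) = 1 := by
    have e2 : e⁻¹ = e := he.inv h2
    rw [e2] at h3
    have e3 : (d * e) ^ (2 ^ 2) = (d * (e * d * e)) * (d * (e * d * e)) := by
      have : (2 : ℕ) ^ 2 = 4 := rfl
      rw [this]
      simp only [pow_succ, pow_zero, one_mul, mul_assoc]
    rw [e3]; exact h3
  have h7 := eq_one_of_odd_pow h2 h4 hodd
  have h8 : d = e⁻¹ := eq_inv_of_mul_eq_one_left h7
  rw [h8, he.inv h2]

theorem prod (hd : Tv d v) (he : Tv e w) (hodd : Odd (orderOf (d * e))) :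
    d = e ∨ (d w = w * v ∧ e v = v * w) := by
  by_cases h1 : e v = v
  · exact Or.inl (prod_of_fix h2 hd he hodd h1)
  by_cases h3 : d w = w
  · left
    have h4 : orderOf (e * d) = orderOf (d * e) := by
      have : e * d = MulAut.conj e (d * e) := by rw [MulAut.conj_apply]; group
      rw [this, MulEquiv.orderOf_eq]
    exact (prod_of_fix h2 he hd (by rw [h4]; exact hodd) h3).symm
  · right
    exact ⟨(hd.tv w).resolve_left h3, (he.tv v).resolve_left h1⟩

theorem Tv.unique (hd : Tv d v) (hd' : Tv d w) : v = w := by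
  obtain ⟨x, hx⟩ := hd.nt
  have h1 := (hd.tv x).resolve_left hx
  have h3 := (hd'.tv x).resolve_left hx
  rw [h1] at h3
  exact mul_left_cancel h3

theorem Tv.commute (hd : Tv d v) (he : Tv e w) (h1 : e v = v) (h3 : d w = w) : d * e = e * d := by
  ext x
  change d (e x) = e (d x)
  rcases hd.tv x with a1 | a1 <;> rcases he.tv x with a2 | a2
  · rw [a2, a1, a2]
  · rw [a2, map_mul, a1, h3, a2]
  · rw [a2, a1, map_mul, a2, h1]
  · rw [a2, a1, map_mul, map_mul, a1, a2, h1, h3, mul_right_comm]

end basics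

/-- the configuration attached to a transvection normalizing the odd order group `F` -/
structure Tr (F : Subgroup (MulAut V)) (d n : MulAut V) (v v1 : V) : Prop where
  tv : Tv d v
  nF : n ∈ F
  n3 : n * n * n = 1
  nv : n v = v1
  nv1 : n v1 = v * v1
  ne : v1 ≠ 1
  ne' : v ≠ v1
  dn : d * n * d = n⁻¹
  cent : ∀ f ∈ F, f * n = n * f
  comm : ∀ f ∈ F, f * d * f⁻¹ * d = 1 ∨ f * d * f⁻¹ * d = n ∨ f * d * f⁻¹ * d = n⁻¹
  W : ∀ x, n x = x ∨ n x = x * v ∨ n x = x * v1 ∨ n x = x * (v * v1)

section T1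

variable {F : Subgroup (MulAut V)} {d : MulAut V} {v : V} (h2 : ∀ v : V, v * v = 1)

include h2

theorem cc (a b : V) : a * (a * b) = b := by rw [← mul_assoc, h2, one_mul]

theorem f1 (x v v1 : V) : x * v * (v1 * v) = x * v1 := by
  simp only [mul_comm, mul_left_comm, mul_assoc, h2, cc h2, mul_one, one_mul]

/-- the order 3 automorphism from a product of two non-commuting transvections -/
theorem prod_data {d e : MulAut V} {v w : V} (hd : Tv d v) (he : Tv e w) (p1 : d w = w * v) (p2 : e v = v * w) :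
    (d * e) v = w ∧ (d * e) w = v * w ∧
    (∀ x, (d * e) x = x ∨ (d * e) x = x * v ∨ (d * e) x = x * w ∨ (d * e) x = x * (v * w)) ∧
    (d * e) * (d * e) * (d * e) = 1 := by
  have hc := hd.center h2
  have hc1 := he.center h2
  have q1 : (d * e) v = w := by
    change d (e v) = w
    rw [p2, map_mul, hc, p1, mul_comm w v, cc h2]
  have q2 : (d * e) w = v * w := by
    change d (e w) = v * w
    rw [hc1, p1, mul_comm]
  have q3 : ∀ x, (d * e) x = x ∨ (d * e) x = x * v ∨ (d * e) x = x * w ∨ (d * e) x = x * (v * w) := by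
    intro x
    change d (e x) = x ∨ d (e x) = x * v ∨ d (e x) = x * w ∨ d (e x) = x * (v * w)
    rcases hd.tv x with a1 | a1 <;> rcases he.tv x with a2 | a2
    · left; rw [a2, a1]
    · right; right; right; rw [a2, map_mul, a1, p1, mul_comm w v]
    · right; left; rw [a2, a1]
    · right; right; left; rw [a2, map_mul, a1, p1, f1 h2]
  refine ⟨q1, q2, q3, ?_⟩
  have q4 : (d * e) (v * w) = v := by
    rw [map_mul, q1, q2, mul_comm v w, cc h2]
  generalize hg : d * e = g at *
  ext x
  change g (g (g x)) = x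
  rcases q3 x with h | h | h | h
  · rw [h, h, h]
  · rw [h, map_mul, h, map_mul, map_mul, h, q1, q2]
    simp only [mul_comm, mul_left_comm, mul_assoc, h2, cc h2, mul_one, one_mul]
  · rw [h, map_mul, h, map_mul, map_mul, h, q2, q4]
    simp only [mul_comm, mul_left_comm, mul_assoc, h2, cc h2, mul_one, one_mul]
  · rw [h, map_mul, h, map_mul, map_mul, h, q4, q1]
    simp only [mul_comm, mul_left_comm, mul_assoc, h2, cc h2, mul_one, one_mul]

theorem exists_Tr [Finite V] (hF : Odd (Nat.card F)) (hd : Tv d v) (hdF : ∀ f ∈ F, d * f * d⁻¹ ∈ F)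
    (hne : ∃ f ∈ F, f * d * f⁻¹ ≠ d) : ∃ n v1, Tr F d n v v1 := by
  have hodd : ∀ f ∈ F, Odd (orderOf f) := by
    intro f hf
    have h1 : orderOf f ∣ Nat.card F := by
      have := orderOf_dvd_natCard (⟨f, hf⟩ : F)
      rwa [Subgroup.orderOf_mk] at this
    exact Odd.of_dvd_nat hF h1
  have hdd : d * d = 1 := hd.sq h2
  have hdi : d⁻¹ = d := hd.inv h2
  have hconj : ∀ f ∈ F, ∀ g ∈ F, (f * d * f⁻¹) * (g * d * g⁻¹) ∈ F := by
    intro f hf g hg
    have h1 := F.mul_mem (F.mul_mem hf (hdF _ (F.mul_mem (F.inv_mem hf) hg))) (F.inv_mem hg)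
    have e1 : f * (d * (f⁻¹ * g) * d⁻¹) * g⁻¹ = f * d * f⁻¹ * (g * d * g⁻¹) := by
      rw [hdi]; group
    rwa [e1] at h1
  obtain ⟨f0, hf0, hne0⟩ := hne
  obtain ⟨d1, hd1⟩ : ∃ d1, d1 = f0 * d * f0⁻¹ := ⟨_, rfl⟩
  obtain ⟨v1, hv1⟩ : ∃ v1, v1 = f0 v := ⟨_, rfl⟩
  rw [← hd1] at hne0
  have ht1 : Tv d1 v1 := by rw [hd1, hv1]; exact hd.conj h2 f0
  have hd1d1 : d1 * d1 = 1 := ht1.sq h2
  have hd1i : d1⁻¹ = d1 := ht1.inv h2
  have hnF : d * d1 ∈ F := by
    have := hconj 1 F.one_mem f0 hf0
    rw [hd1]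
    simpa using this
  obtain ⟨p1, p2⟩ := (prod h2 hd ht1 (hodd _ hnF)).resolve_left (Ne.symm hne0)
  have hvv1 : v ≠ v1 := by
    intro h
    rw [← h, hd.center h2] at p1
    exact hd.ne (by simpa using p1.symm)
  obtain ⟨q1, q2, q3, q4⟩ := prod_data h2 hd ht1 p1 p2
  have hc1 := ht1.center h2
  have hc := hd.center h2
  obtain ⟨d', hd'⟩ : ∃ d', d' = d * d1 * d := ⟨_, rfl⟩
  have ht' : Tv d' (v1 * v) := by
    have := ht1.conj h2 d
    rw [hdi, p1] at this
    rw [hd']
    exact this
  have braid : d * d1 * d = d1 * d * d1 := by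
    have e1 : (d * d1) * (d * d1) * (d * d1) = (d * d1 * d) * (d1 * d * d1) := by simp only [mul_assoc]
    rw [e1] at q4
    have e2 := eq_inv_of_mul_eq_one_left q4
    rw [e2, mul_inv_rev, mul_inv_rev, hd1i, hdi]
    simp only [mul_assoc]
  have ninv : (d * d1)⁻¹ = d1 * d := by rw [mul_inv_rev, hd1i, hdi]
  have hd'F : ∃ f ∈ F, f * d * f⁻¹ = d' := by
    refine ⟨(d * d1)⁻¹, F.inv_mem hnF, ?_⟩
    rw [inv_inv, ninv, hd', braid]
    calc d1 * d * d * (d * d1) = d1 * (d * d) * d * d1 := by simp only [mul_assoc]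
      _ = d1 * d * d1 := by rw [hdd, mul_one]
  -- the three conjugates
  have three : ∀ f ∈ F, f * d * f⁻¹ = d ∨ f * d * f⁻¹ = d1 ∨ f * d * f⁻¹ = d' := by
    intro f hf
    by_cases c1 : f * d * f⁻¹ = d
    · exact Or.inl c1
    by_cases c2 : f * d * f⁻¹ = d1
    · exact Or.inr (Or.inl c2)
    right; right
    have ht2 : Tv (f * d * f⁻¹) (f v) := hd.conj h2 f
    have b1 := (prod h2 hd ht2 (hodd _ (by
      have := hconj 1 F.one_mem f hf
      simpa using this))).resolve_left (Ne.symm c1)
    have b2 := (prod h2 ht1 ht2 (hodd _ (by rw [hd1]; exact hconj f0 hf0 f hf))).resolve_left (Ne.symm c2)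
    obtain ⟨f', hf', hf'd⟩ := hd'F
    have b3 : (f * d * f⁻¹) (v1 * v) = v1 * v := by
      rw [map_mul, b1.2, b2.2]
      simp only [mul_comm, mul_left_comm, mul_assoc, h2, cc h2, mul_one, one_mul]
    have b4 := prod_of_fix h2 ht' ht2 (hodd _ (by rw [← hf'd]; exact hconj f' hf' f hf)) b3
    exact b4.symm
  have hcomm : ∀ f ∈ F, f * d * f⁻¹ * d = 1 ∨ f * d * f⁻¹ * d = d * d1 ∨ f * d * f⁻¹ * d = (d * d1)⁻¹ := by
    intro f hf
    rcases three f hf with c | c | c
    · left; rw [c, hdd]
    · right; right; rw [c, ninv]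
    · right; left; rw [c, hd']; rw [mul_assoc, hdd, mul_one]
  have hdn : d * (d * d1) * d = (d * d1)⁻¹ := by
    rw [ninv, ← mul_assoc, hdd, one_mul]
  have t1 : d * d' = (d * d1)⁻¹ := by
    rw [ninv, hd', mul_assoc, ← mul_assoc, hdd, one_mul]
  have t2 : d' * d = d * d1 := by
    rw [hd', mul_assoc, hdd, mul_one]
  have t3 : d1 * d' = d * d1 := by
    rw [hd', braid, mul_assoc, ← mul_assoc, hd1d1, one_mul]
  have t4 : d' * d1 = (d * d1)⁻¹ := by
    rw [ninv, hd', braid, mul_assoc, hd1d1, mul_one]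
  have hcent2 : ∀ f ∈ F, f * (d * d1) * f⁻¹ = d * d1 ∨ f * (d * d1) * f⁻¹ = (d * d1)⁻¹ := by
    intro f hf
    have e1 : f * (d * d1) * f⁻¹ = (f * d * f⁻¹) * ((f * f0) * d * (f * f0)⁻¹) := by
      rw [hd1]; group
    have hff : f * f0 ∈ F := F.mul_mem hf hf0
    have e2 : (f * f0) * d * (f * f0)⁻¹ = f * d1 * f⁻¹ := by rw [hd1]; group
    have e3 : (f * d * f⁻¹) ≠ ((f * f0) * d * (f * f0)⁻¹) := by
      rw [e2]
      intro h
      apply hne0
      have := mul_right_cancel h
      exact (mul_left_cancel this).symm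
    rw [e1]
    rcases three f hf with c | c | c <;> rcases three _ hff with c' | c' | c' <;> rw [c, c'] at e3 ⊢
    · exact absurd rfl e3
    · exact Or.inl rfl
    · exact Or.inr t1
    · exact Or.inr ninv.symm
    · exact absurd rfl e3
    · exact Or.inl t3
    · exact Or.inl t2
    · exact Or.inr t4
    · exact absurd rfl e3
  have hn1 : d * d1 ≠ 1 := by
    intro h
    apply hvv1
    rw [h] at q1
    exact q1
  have hcent : ∀ f ∈ F, f * (d * d1) = (d * d1) * f := by
    intro f hf
    rcases hcent2 f hf with c | c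
    · exact mul_inv_eq_iff_eq_mul.mp c
    · exfalso
      have e1 : f ^ 2 * (d * d1) * (f ^ 2)⁻¹ = d * d1 := by
        calc f ^ 2 * (d * d1) * (f ^ 2)⁻¹ = f * (f * (d * d1) * f⁻¹) * f⁻¹ := by rw [pow_two]; group
          _ = f * (d * d1)⁻¹ * f⁻¹ := by rw [c]
          _ = (f * (d * d1) * f⁻¹)⁻¹ := by group
          _ = d * d1 := by rw [c, inv_inv]
      have e2 : Commute (f ^ 2) (d * d1) := by
        change f ^ 2 * (d * d1) = (d * d1) * f ^ 2
        exact mul_inv_eq_iff_eq_mul.mp e1
      obtain ⟨k, hk⟩ := exists_pow_eq_self_of_coprime (Nat.coprime_two_left.mpr (hodd f hf))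
      have e3 : Commute f (d * d1) := by
        rw [← hk]; exact e2.pow_left k
      have e4 : f * (d * d1) * f⁻¹ = d * d1 := by rw [e3.eq]; group
      rw [e4] at c
      have e5 : (d * d1) * (d * d1) = 1 := mul_eq_one_iff_eq_inv.mpr c
      rw [e5, one_mul] at q4
      exact hn1 q4
  refine ⟨d * d1, v1, ⟨hd, hnF, q4, q1, q2, ht1.ne, hvv1, hdn, hcent, hcomm, q3⟩⟩

/-- the four-group centralizer decomposition -/
theorem Tr.n_ne_one {d n : MulAut V} {v v1 : V} (t : Tr F d n v v1) : n ≠ 1 := by
  intro h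
  have := t.nv
  rw [h] at this
  exact t.ne' this

theorem Tr.nvv1 {d n : MulAut V} {v v1 : V} (t : Tr F d n v v1) : n (v * v1) = v := by
  rw [map_mul, t.nv, t.nv1, mul_comm v v1, cc h2]

theorem Tr.n3' {d n : MulAut V} {v v1 : V} (t : Tr F d n v v1) (x : V) : n (n (n x)) = x := by
  have := congrArg (fun f : MulAut V => f x) t.n3
  exact this

/-- `d` centralizes `C_V(n)` -/
theorem Tr.fix {d n : MulAut V} {v v1 : V} (t : Tr F d n v v1) {x : V} (hx : n x = x) : d x = x := by
  rcases t.tv.tv x with h | h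
  · exact h
  exfalso
  -- n (d x) = d (n⁻¹ x) = d x
  have hdd := t.tv.sq h2
  have e1 : n * d = d * n⁻¹ := by
    have := t.dn
    calc n * d = (d * d) * n * d := by rw [hdd, one_mul]
      _ = d * (d * n * d) := by simp only [mul_assoc]
      _ = d * n⁻¹ := by rw [this]
  have e2 : n⁻¹ x = x := by
    conv_lhs => rw [← hx]
    exact MulAut.inv_apply_self _ _ _
  have e3 : n (d x) = d x := by
    change (n * d) x = d x
    rw [e1]
    change d (n⁻¹ x) = d x
    rw [e2]
  rw [h, map_mul, hx, t.nv] at e3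
  exact t.ne' (mul_left_cancel e3).symm

theorem Tr.decomp {d n : MulAut V} {v v1 : V} (t : Tr F d n v v1) (x : V) :
    ∃ c w, n c = c ∧ (w = 1 ∨ w = v ∨ w = v1 ∨ w = v * v1) ∧ x = c * w := by
  have q := t.nvv1 h2
  have q1 := t.nv
  have q2 := t.nv1
  rcases t.W x with h | h | h | h
  · exact ⟨x, 1, h, Or.inl rfl, by rw [mul_one]⟩
  · refine ⟨x * v1, v1, ?_, Or.inr (Or.inr (Or.inl rfl)), ?_⟩
    · rw [map_mul, h, q2]
      simp only [mul_comm, mul_left_comm, mul_assoc, h2, cc h2, mul_one, one_mul]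
    · rw [mul_assoc, h2, mul_one]
  · refine ⟨x * (v * v1), v * v1, ?_, Or.inr (Or.inr (Or.inr rfl)), ?_⟩
    · rw [map_mul, h, q]
      simp only [mul_comm, mul_left_comm, mul_assoc, h2, cc h2, mul_one, one_mul]
    · rw [mul_assoc, h2, mul_one]
  · refine ⟨x * v, v, ?_, Or.inr (Or.inl rfl), ?_⟩
    · rw [map_mul, h, q1]
      simp only [mul_comm, mul_left_comm, mul_assoc, h2, cc h2, mul_one, one_mul]
    · rw [mul_assoc, h2, mul_one]

/-- two automorphisms agreeing on `C_V(n)` and on `v`, `v1` agree -/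
theorem Tr.ext {d n : MulAut V} {v v1 : V} (t : Tr F d n v v1) {f g : MulAut V}
    (hc : ∀ c, n c = c → f c = g c) (hv : f v = g v) (hv1 : f v1 = g v1) : f = g := by
  ext x
  obtain ⟨c, w, h, hw, rfl⟩ := t.decomp h2 x
  rw [map_mul, map_mul, hc c h]
  congr 1
  rcases hw with rfl | rfl | rfl | rfl
  · rw [map_one, map_one]
  · exact hv
  · exact hv1
  · rw [map_mul, map_mul, hv, hv1]

theorem Tr.not_fix {d n : MulAut V} {v v1 : V} (t : Tr F d n v v1) {w : V} (h : w = v ∨ w = v1 ∨ w = v * v1) :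
    n w ≠ w := by
  rcases h with rfl | rfl | rfl
  · rw [t.nv]; exact Ne.symm t.ne'
  · rw [t.nv1]; intro h; exact t.tv.ne (by simpa using h)
  · rw [t.nvv1 h2]
    intro h; exact t.ne (by simpa using h)

theorem Tr.commut_fix {d n k : MulAut V} {v v1 : V} (t : Tr F d n v v1) (hk : k ∈ F) (hkv : k v = v) :
    k * d = d * k := by
  have hdd := t.tv.sq h2
  have hkn := t.cent k hk
  have hkv' : k⁻¹ v = v := by
    conv_lhs => rw [← hkv]
    exact MulAut.inv_apply_self _ _ _
  have e0 : (k * d * k⁻¹ * d) v = v := by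
    change k (d (k⁻¹ (d v))) = v
    rw [t.tv.center h2, hkv', t.tv.center h2, hkv]
  have e1 : k * d * k⁻¹ * d = 1 := by
    rcases t.comm k hk with h | h | h
    · exact h
    · exfalso
      rw [h, t.nv] at e0
      exact t.ne' e0.symm
    · exfalso
      rw [h] at e0
      have : n v = v := by
        conv_lhs => rw [← e0]
        exact MulAut.apply_inv_self _ _ _
      rw [t.nv] at this
      exact t.ne' this.symm
  have e2 : k * d * k⁻¹ = d := by
    have := mul_eq_one_iff_eq_inv.mp e1
    rwa [t.tv.inv h2] at this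
  exact mul_inv_eq_iff_eq_mul.mp e2

theorem Tr.T2' {d n k : MulAut V} {v v1 : V} (t : Tr F d n v v1) (hk : k ∈ F) {W : Subgroup V}
    (hW : Nat.card W = 4) (hkW : ∀ x, k x * x ∈ W) : k * d = d * k ∨ k = n ∨ k = n⁻¹ := by
  -- the case `k v = n v`
  have main : ∀ k ∈ F, (∀ x, k x * x ∈ W) → k v = n v → k = n := by
    intro k hk hkW hkv
    have hkn := t.cent k hk
    have hkn' : ∀ x, k (n x) = n (k x) := fun x => congrArg (fun f : MulAut V => f x) hkn
    have hkv1 : k v1 = n v1 := by
      conv_lhs => rw [← t.nv]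
      rw [hkn', hkv, t.nv]
    have w1 : v1 * v ∈ W := by have := hkW v; rwa [hkv, t.nv] at this
    have w2 : v ∈ W := by
      have := hkW v1
      rw [hkv1, t.nv1, mul_assoc, h2, mul_one] at this
      exact this
    have w3 : v1 ∈ W := by
      have := W.mul_mem w1 w2
      rwa [mul_assoc, h2, mul_one] at this
    refine t.ext h2 ?_ hkv hkv1
    intro c hc
    rw [hc]
    have h1 := hkW c
    have h3 : n (k c * c) = k c * c := by rw [map_mul, ← hkn', hc]
    -- W = {1, v, v1, v v1}
    have hWs : (W : Set V) = {1, v, v1, v * v1} := by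
      symm
      apply Set.eq_of_subset_of_ncard_le
      · rintro x (rfl | rfl | rfl | rfl)
        · exact W.one_mem
        · exact w2
        · exact w3
        · exact W.mul_mem w2 w3
      · have : (W : Set V).ncard = 4 := by
          rw [← hW]; rfl
        rw [this]
        have hv := t.tv.ne
        have hv1 := t.ne
        have hvv := t.ne'
        have a1 : v * v1 ≠ 1 := by
          intro h
          apply hvv
          have := eq_inv_of_mul_eq_one_left h
          rw [this, inv_self h2]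
        have a2 : v * v1 ≠ v := by simpa using hv1
        have a3 : v * v1 ≠ v1 := by simpa using hv
        rw [Set.ncard_insert_of_notMem, Set.ncard_insert_of_notMem, Set.ncard_insert_of_notMem, Set.ncard_singleton]
        · simpa using a3.symm
        · simp only [Set.mem_insert_iff, Set.mem_singleton_iff, not_or]
          exact ⟨hvv, a2.symm⟩
        · simp only [Set.mem_insert_iff, Set.mem_singleton_iff, not_or]
          exact ⟨hv.symm, hv1.symm, a1.symm⟩
      · exact Set.finite_of_ncard_ne_zero (by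
          have : (W : Set V).ncard = 4 := by rw [← hW]; rfl
          rw [this]; norm_num)
    have h4 : k c * c ∈ (W : Set V) := h1
    rw [hWs] at h4
    rcases h4 with h4 | h4 | h4 | h4
    · have := eq_inv_of_mul_eq_one_left h4
      rw [this, inv_self h2]
    · exact absurd h3 (t.not_fix h2 (Or.inl h4))
    · exact absurd h3 (t.not_fix h2 (Or.inr (Or.inl h4)))
    · exact absurd h3 (t.not_fix h2 (Or.inr (Or.inr h4)))
  by_cases hkv : k v = v
  · exact Or.inl (t.commut_fix h2 hk hkv)
  have hkn := t.cent k hk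
  have hkn' : ∀ x, k (n x) = n (k x) := fun x => congrArg (fun f : MulAut V => f x) hkn
  have hkv' : k v = n (k v1) * k v1 := by
    have : v = n v1 * v1 := by rw [t.nv1, mul_assoc, h2, mul_one]
    conv_lhs => rw [this]
    rw [map_mul, hkn']
  have hkv1 : k v ≠ 1 := by
    intro h
    exact t.tv.ne (by simpa using h)
  have hcase : k v = v1 ∨ k v = v * v1 := by
    rcases t.W (k v1) with h | h | h | h
    · exfalso; rw [h, h2] at hkv'; exact hkv1 hkv'
    · exfalso
      rw [h, mul_right_comm, h2, one_mul] at hkv'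
      exact hkv hkv'
    · left
      rw [h, mul_right_comm, h2, one_mul] at hkv'
      exact hkv'
    · right
      rw [h, mul_right_comm, h2, one_mul] at hkv'
      exact hkv'
  right
  rcases hcase with h | h
  · left
    exact main k hk hkW (by rw [h, t.nv])
  · right
    have h3 : k⁻¹ = n := by
      apply main k⁻¹ (F.inv_mem hk)
      · intro x
        have := hkW (k⁻¹ x)
        rwa [MulAut.apply_inv_self, mul_comm] at this
      · have e1 : k (n v) = v := by
          rw [hkn', h, t.nvv1 h2]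
        conv_lhs => rw [← e1]
        rw [MulAut.inv_apply_self]
    rw [← h3, inv_inv]

/-- a transvection with the same centre, inverting `n`, is `d` -/
theorem Tr.eq_of_center {d e n : MulAut V} {v v1 : V} (t : Tr F d n v v1) (he : Tv e v) (hen : e * n * e = n⁻¹)
    (hfix : ∀ x, n x = x → e x = x) : e = d := by
  have hn1 : n⁻¹ v = v * v1 := by
    conv_lhs => rw [← t.nvv1 h2]
    exact MulAut.inv_apply_self _ _ _
  have key : ∀ e : MulAut V, Tv e v → e * n * e = n⁻¹ → e v1 = v * v1 := by
    intro e he hen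
    have h1 : (e * n * e) v = e v1 := by
      change e (n (e v)) = e v1
      rw [he.center h2, t.nv]
    rw [← h1, hen, hn1]
  refine t.ext h2 ?_ ?_ ?_
  · intro c hc
    rw [hfix c hc, t.fix h2 hc]
  · rw [he.center h2, t.tv.center h2]
  · rw [key e he hen, key d t.tv t.dn]

omit h2 in
/-- the four-group `{1, v, v1, v * v1}` -/
def fourGp (h2 : ∀ v : V, v * v = 1) (v v1 : V) : Subgroup V where
  carrier := {x | x = 1 ∨ x = v ∨ x = v1 ∨ x = v * v1}
  one_mem' := Or.inl rfl
  mul_mem' := by
    rintro a b (rfl | rfl | rfl | rfl) (rfl | rfl | rfl | rfl) <;>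
      simp only [mul_comm, mul_left_comm, mul_assoc, h2, cc h2, mul_one, one_mul, Set.mem_setOf_eq, true_or, or_true]
  inv_mem' := by
    intro a ha
    rw [inv_self h2]; exact ha

theorem Tr.card_four {d n : MulAut V} {v v1 : V} (t : Tr F d n v v1) : Nat.card (fourGp h2 v v1) = 4 := by
  have hv := t.tv.ne
  have hv1 := t.ne
  have hvv := t.ne'
  have a1 : v * v1 ≠ 1 := by
    intro h
    apply hvv
    have := eq_inv_of_mul_eq_one_left h
    rw [this, inv_self h2]
  have a2 : v * v1 ≠ v := by simpa using hv1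
  have a3 : v * v1 ≠ v1 := by simpa using hv
  have e1 : ((fourGp h2 v v1 : Subgroup V) : Set V) = {1, v, v1, v * v1} := by
    ext x
    rfl
  have e2 : Nat.card (fourGp h2 v v1) = (((fourGp h2 v v1 : Subgroup V) : Set V)).ncard := rfl
  rw [e2, e1]
  rw [Set.ncard_insert_of_notMem, Set.ncard_insert_of_notMem, Set.ncard_insert_of_notMem, Set.ncard_singleton]
  · simpa using a3.symm
  · simp only [Set.mem_insert_iff, Set.mem_singleton_iff, not_or]
    exact ⟨hvv, a2.symm⟩
  · simp only [Set.mem_insert_iff, Set.mem_singleton_iff, not_or]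
    exact ⟨hv.symm, hv1.symm, a1.symm⟩

theorem Tr.mem_four {d n : MulAut V} {v v1 : V} (t : Tr F d n v v1) (x : V) : n x * x ∈ fourGp h2 v v1 := by
  change n x * x = 1 ∨ n x * x = v ∨ n x * x = v1 ∨ n x * x = v * v1
  rcases t.W x with h | h | h | h
  · left; rw [h, h2]
  · right; left; rw [h, mul_right_comm, h2, one_mul]
  · right; right; left; rw [h, mul_right_comm, h2, one_mul]
  · right; right; right; rw [h, mul_right_comm, h2, one_mul]

theorem Tr.T2 {d n e m : MulAut V} {v v1 w w1 : V} (t : Tr F d n v v1) (t' : Tr F e m w w1) :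
    d * e = e * d ∨ ((m = n ∨ m = n⁻¹) ∧ (e = d ∨ e = n * d * n⁻¹ ∨ e = n⁻¹ * d * n)) := by
  have hee := t'.tv.sq h2
  have hei := t'.tv.inv h2
  have hmn : m * n = n * m := t.cent m t'.nF
  rcases t.T2' h2 t'.nF (t'.card_four h2) (t'.mem_four h2) with h | h
  · left
    have hmd : ∀ x, m (d x) = d (m x) := fun x => congrArg (fun f : MulAut V => f x) h
    have h1 : m v = v := by
      have h3 := t.tv.conj h2 m
      rw [h, mul_inv_cancel_right] at h3
      exact Tv.unique h2 h3 t.tv
    have h3 : e v = v := t'.fix h2 h1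
    have h4 : d w = w := by
      rcases t.tv.tv w with h4 | h4
      · exact h4
      exfalso
      have h5 : d w = m (d w1) * d w1 := by
        have : w = m w1 * w1 := by rw [t'.nv1, mul_assoc, h2, mul_one]
        conv_lhs => rw [this]
        rw [map_mul, hmd]
      have h6 : d w ∈ fourGp h2 w w1 := by rw [h5]; exact t'.mem_four h2 _
      have h7 : w ∈ fourGp h2 w w1 := Or.inr (Or.inl rfl)
      have h8 : v ∈ fourGp h2 w w1 := by
        rw [h4] at h6
        exact (Subgroup.mul_mem_cancel_left _ h7).mp h6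
      rcases h8 with h8 | h8
      · exact t.tv.ne h8
      · exact t'.not_fix h2 h8 h1
    exact Tv.commute h2 t.tv t'.tv h3 h4
  · right
    refine ⟨h, ?_⟩
    have hen : e * n * e = n⁻¹ := by
      rcases h with h | h
      · have := t'.dn; rwa [h] at this
      · have := t'.dn
        rw [h, inv_inv] at this
        have h3 := congrArg (·⁻¹) this
        simp only [mul_inv_rev, inv_inv, hei, ← mul_assoc] at h3
        exact h3
    have hfix : ∀ x, n x = x → e x = x := by
      intro x hx
      apply t'.fix h2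
      rcases h with h | h
      · rw [h]; exact hx
      · rw [h]
        conv_lhs => rw [← hx]
        exact MulAut.inv_apply_self _ _ _
    have hw : w = v ∨ w = v1 ∨ w = v * v1 := by
      have h5 : w ∈ fourGp h2 v v1 := by
        have h6 : w = m w1 * w1 := by rw [t'.nv1, mul_assoc, h2, mul_one]
        rcases h with h | h
        · rw [h6, h]; exact t.mem_four h2 _
        · have h7 : w = n⁻¹ w1 * n (n⁻¹ w1) := by
            rw [MulAut.apply_inv_self, h6, h]
          rw [h7, mul_comm]; exact t.mem_four h2 _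
      rcases h5 with h5 | h5
      · exact absurd h5 t'.tv.ne
      · exact h5
    have hninv : ∀ x, n⁻¹ (n x) = x := fun x => MulAut.inv_apply_self _ _ _
    have hninv' : ∀ x, n (n⁻¹ x) = x := fun x => MulAut.apply_inv_self _ _ _
    rcases hw with hw | hw | hw
    · left
      exact t.eq_of_center h2 (by rw [← hw]; exact t'.tv) hen hfix
    · right; left
      have h5 : Tv (n⁻¹ * e * n⁻¹⁻¹) (n⁻¹ w) := t'.tv.conj h2 n⁻¹
      rw [hw, inv_inv, ← t.nv, hninv] at h5
      have h6 : n⁻¹ * e * n = d := by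
        apply t.eq_of_center h2 h5
        · calc n⁻¹ * e * n * n * (n⁻¹ * e * n) = n⁻¹ * (e * n * e) * n := by group
            _ = n⁻¹ := by rw [hen]; group
        · intro x hx
          change n⁻¹ (e (n x)) = x
          rw [hx, hfix x hx]
          conv_lhs => rw [← hx]
          exact hninv x
      rw [← h6]; group
    · right; right
      have h5 : Tv (n * e * n⁻¹) (n w) := t'.tv.conj h2 n
      rw [hw, t.nvv1 h2] at h5
      have h6 : n * e * n⁻¹ = d := by
        apply t.eq_of_center h2 h5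
        · calc n * e * n⁻¹ * n * (n * e * n⁻¹) = n * (e * n * e) * n⁻¹ := by group
            _ = n⁻¹ := by rw [hen]; group
        · intro x hx
          change n (e (n⁻¹ x)) = x
          have h7 : n⁻¹ x = x := by
            conv_lhs => rw [← hx]
            exact hninv x
          rw [h7, hfix x hx, hx]
      rw [← h6]; group

end T1

end Cfsg.Agent.H18.KS
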