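import Mathlib
import Cfsg.Agent.H2_FF1
import Cfsg.Agent.H2_Card
import Cfsg.Agent.H18_KS1

/-!
# Best offenders acting faithfully on an odd order group are generated by transvections
-/

set_option autoImplicit false
set_option linter.unusedSectionVars false
set_option linter.unusedSimpArgs false

namespace Cfsg.Agent.H18.KS

open Subgroup

variable {V : Type*} [CommGroup V]

theorem exists_ne_one_of_ne_bot {G : Type*} [Group G] {A : Subgroup G} (h : A ≠ ⊥) : ∃ a ∈ A, a ≠ 1 := by
  by_contra hno
  push Not at hno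
  exact h (A.eq_bot_iff_forall.mpr hno)

/-- fixed points -/
def FP (A : Subgroup (MulAut V)) : Subgroup V where
  carrier := {x | ∀ a ∈ A, a x = x}
  one_mem' := fun a _ => map_one a
  mul_mem' := fun {x y} hx hy a ha => by rw [map_mul, hx a ha, hy a ha]
  inv_mem' := fun {x} hx a ha => by rw [map_inv, hx a ha]

theorem mem_FP {A : Subgroup (MulAut V)} {x : V} : x ∈ FP A ↔ ∀ a ∈ A, a x = x := Iff.rfl

theorem FP_anti {A B : Subgroup (MulAut V)} (h : B ≤ A) : FP A ≤ FP B := fun _ hx b hb => hx b (h hb)

theorem FP_bot : FP (⊥ : Subgroup (MulAut V)) = ⊤ := by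
  rw [eq_top_iff]
  intro x _ a ha
  rw [Subgroup.mem_bot] at ha
  rw [ha]; rfl

section

variable (h2 : ∀ v : V, v * v = 1)

include h2

theorem fix_odd {f : MulAut V} (hf : Odd (orderOf f)) {x u : V} (h1 : f x = x * u) (h3 : f u = u) : u = 1 := by
  have key : ∀ n : ℕ, (f ^ n) x = x * u ^ n := by
    intro n
    induction n with
    | zero => simp
    | succ n ih =>
      rw [pow_succ']
      change f ((f ^ n) x) = _
      rw [ih, map_mul, map_pow, h3, h1, pow_succ', mul_assoc]
  have h4 := key (orderOf f)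
  rw [pow_orderOf_eq_one] at h4
  have h5 : u ^ orderOf f = 1 := by
    have : x * u ^ orderOf f = x := by rw [← h4]; rfl
    simpa using this
  obtain ⟨k, hk⟩ := hf
  rw [hk, pow_succ, pow_mul, pow_two, h2, one_pow, one_mul] at h5
  exact h5

theorem AxB [Finite V] {B : Subgroup (MulAut V)} (hB : IsPGroup 2 B) {f : MulAut V} (hf : Odd (orderOf f))
    (hfB : ∀ b ∈ B, f * b = b * f) (hfix : ∀ x ∈ FP B, f x = x) : f = 1 := by
  by_contra hne
  have hfB' : ∀ b ∈ B, ∀ x, f (b x) = b (f x) := fun b hb x => congrArg (fun g : MulAut V => g x) (hfB b hb)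
  -- the `B`-invariant subgroup `[V, f]`
  let R : Subgroup V := {
    carrier := {y | ∃ x, y = f x * x}
    one_mem' := ⟨1, by simp⟩
    mul_mem' := by
      rintro _ _ ⟨x, rfl⟩ ⟨y, rfl⟩
      exact ⟨x * y, by rw [map_mul, mul_mul_mul_comm]⟩
    inv_mem' := by
      rintro _ ⟨x, rfl⟩
      exact ⟨x, by rw [inv_self h2]⟩ }
  let S : SubMulAction B V := {
    carrier := {y | ∃ x, y = f x * x}
    smul_mem' := by
      rintro b _ ⟨x, rfl⟩
      refine ⟨(b : MulAut V) x, ?_⟩
      change (b : MulAut V) (f x * x) = _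
      rw [map_mul, hfB' b b.2] }
  have hcard : Nat.card S = Nat.card R := rfl
  have hR1 : R ≠ ⊥ := by
    intro h
    apply hne
    ext x
    have : f x * x ∈ R := ⟨x, rfl⟩
    rw [h, Subgroup.mem_bot] at this
    have := eq_inv_of_mul_eq_one_left this
    rw [this, inv_self h2]; rfl
  have hVp : IsPGroup 2 V := by
    intro x
    exact ⟨1, by rw [pow_one, pow_two, h2]⟩
  have hRp : IsPGroup 2 R := hVp.to_subgroup R
  haveI : Nontrivial R := (Subgroup.nontrivial_iff_ne_bot R).mpr hR1
  have hdvd : 2 ∣ Nat.card S := by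
    rw [hcard]
    obtain ⟨k, hk⟩ := IsPGroup.iff_card.mp hRp
    have h1 : 1 < Nat.card R := Finite.one_lt_card
    rw [hk] at h1 ⊢
    exact dvd_pow_self 2 (by rintro rfl; simp at h1)
  haveI : Finite S := by
    change Finite R
    infer_instance
  have h1S : (⟨1, ⟨1, by simp⟩⟩ : S) ∈ MulAction.fixedPoints B S := by
    intro b
    apply Subtype.ext
    change (b : MulAut V) 1 = 1
    exact map_one _
  obtain ⟨s, hs, hs1⟩ := hB.exists_fixed_point_of_prime_dvd_card_of_fixed_point S hdvd h1S
  obtain ⟨x, hx⟩ := s.2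
  have hu : (s : V) ∈ FP B := by
    intro b hb
    have := hs ⟨b, hb⟩
    exact congrArg Subtype.val this
  apply hs1
  apply Subtype.ext
  have h3 : f x = x * (s : V) := by
    rw [hx, mul_comm (f x) x, cc h2]
  exact (fix_odd h2 hf h3 (hfix _ hu)).symm

theorem FP_step [Finite V] {F A B : Subgroup (MulAut V)} (hF : Odd (Nat.card F)) (hAp : IsPGroup 2 A)
    (hAF : A ≤ normalizer (F : Set (MulAut V)))
    (hAc : ∀ a ∈ A, ∀ b ∈ A, a * b = b * a) (hBA : B ≤ A)
    (hR : ¬ F ⊓ centralizer (B : Set (MulAut V)) ≤ centralizer (A : Set (MulAut V))) :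
    2 * Nat.card (FP A) ≤ Nat.card (FP B) := by
  have h1 : FP A ≤ FP B := FP_anti hBA
  have h3 : FP A ≠ FP B := by
    intro he
    apply hR
    rintro f ⟨hf, hfB⟩
    rw [mem_centralizer_iff]
    intro a ha
    have hg : f * a * f⁻¹ * a⁻¹ ∈ F := by
      have := (mem_normalizer_iff.mp (hAF ha) f⁻¹).mp (F.inv_mem hf)
      have h5 := F.mul_mem hf this
      simpa only [mul_assoc] using h5
    have hgodd : Odd (orderOf (f * a * f⁻¹ * a⁻¹)) := by
      have h1 : orderOf (f * a * f⁻¹ * a⁻¹) ∣ Nat.card F := by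
        have := orderOf_dvd_natCard (⟨_, hg⟩ : F)
        rwa [Subgroup.orderOf_mk] at this
      exact Odd.of_dvd_nat hF h1
    have hfB' : ∀ b ∈ B, b * f = f * b := fun b hb => mem_centralizer_iff.mp hfB b hb
    have h5 : f * a * f⁻¹ * a⁻¹ = 1 := by
      apply AxB h2 (hAp.to_le hBA) hgodd
      · intro b hb
        have c1 : Commute b f := hfB' b hb
        have c2 : Commute b a := hAc b (hBA hb) a ha
        have : Commute b (f * a * f⁻¹ * a⁻¹) :=
          ((c1.mul_right c2).mul_right c1.inv_right).mul_right c2.inv_right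
        exact this.eq.symm
      · intro x hx
        have c1 : Commute a⁻¹ 1 := Commute.one_right _
        have hxA : x ∈ FP A := by rw [he]; exact hx
        have e1 : a⁻¹ x = x := hxA _ (A.inv_mem ha)
        have e2 : f⁻¹ x ∈ FP B := by
          intro b hb
          have : b * f⁻¹ = f⁻¹ * b := (Commute.inv_right (hfB' b hb : Commute b f)).eq
          have := congrArg (fun g : MulAut V => g x) this
          change b (f⁻¹ x) = f⁻¹ (b x) at this
          rw [this, hx b hb]
        have e3 : a (f⁻¹ x) = f⁻¹ x := by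
          rw [← he] at e2; exact e2 a ha
        change f (a (f⁻¹ (a⁻¹ x))) = x
        rw [e1, e3]
        exact MulAut.apply_inv_self _ _ _
    have h6 : f * a = a * f := by
      have := mul_inv_eq_one.mp h5
      exact mul_inv_eq_iff_eq_mul.mp this
    exact h6.symm
  have h4 := H2.Card.card_mul_relIndex h1
  have h5 : (FP A).relIndex (FP B) ≠ 1 := by
    intro h
    exact h3 (le_antisymm h1 (relIndex_eq_one.mp h))
  have h6 : 0 < (FP A).relIndex (FP B) := by
    rcases Nat.eq_zero_or_pos ((FP A).relIndex (FP B)) with h | h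
    · rw [h, mul_zero] at h4
      have := Nat.card_pos (α := FP B)
      omega
    · exact h
  rw [← h4, mul_comm]
  exact Nat.mul_le_mul_left _ (by omega)

theorem isEA_of {A : Subgroup (MulAut V)} (hAc : ∀ a ∈ A, ∀ b ∈ A, a * b = b * a) (hA2 : ∀ a ∈ A, a * a = 1) :
    IsElementaryAbelian 2 A :=
  ⟨⟨⟨fun a b => Subtype.ext (hAc a a.2 b b.2)⟩⟩, fun a ha => by rw [pow_two]; exact hA2 a ha⟩

/-- **T3** -/
theorem T3 [Finite V] {F : Subgroup (MulAut V)} (hF : Odd (Nat.card F)) :
    ∀ (n : ℕ) (A : Subgroup (MulAut V)), Nat.card A ≤ n → A ≤ normalizer (F : Set (MulAut V)) →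
      (∀ a ∈ A, ∀ b ∈ A, a * b = b * a) → (∀ a ∈ A, a * a = 1) →
      (∀ a ∈ A, (∀ f ∈ F, a * f = f * a) → a = 1) →
      Nat.card A * Nat.card (FP A) ≤ Nat.card V ∧
      (Nat.card A * Nat.card (FP A) = Nat.card V → A ≤ closure {d | d ∈ A ∧ ∃ v, Tv d v}) := by
  haveI : Finite (MulAut V) := inferInstance
  haveI : Fact (Nat.Prime 2) := ⟨Nat.prime_two⟩
  intro n
  induction n with
  | zero =>
    intro A hA
    have := Nat.card_pos (α := A)
    omega
  | succ n ih =>
    intro A hAn hAF hAc hA2 hAf
    have hEA := isEA_of h2 hAc hA2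
    have hAp : IsPGroup 2 A := by
      intro a
      exact ⟨1, by rw [pow_one, pow_two]; exact Subtype.ext (hA2 a a.2)⟩
    by_cases hA1 : A = ⊥
    · rw [hA1, FP_bot]
      simp
    have hcop : (Nat.card F).Coprime 2 := Nat.coprime_two_right.mpr hF
    -- the hyperplanes
    have hyp : ∀ a ∈ A, a ≠ 1 → ∃ B ≤ A, B.relIndex A = 2 ∧ a ∉ B ∧
        ¬ F ⊓ centralizer (B : Set (MulAut V)) ≤ centralizer (A : Set (MulAut V)) := by
      intro a ha ha1
      have hL : centralizer (A : Set (MulAut V)) ≤ centralizer ({a} : Set (MulAut V)) :=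
        centralizer_le (by simpa using ha)
      have hFL : ¬ F ≤ centralizer ({a} : Set (MulAut V)) := by
        intro h
        apply ha1
        apply hAf a ha
        intro f hf
        exact mem_centralizer_iff.mp (h hf) a rfl
      obtain ⟨B, hBA, hB, h1, h3⟩ := H2.FF.exists_hyperplane hcop hEA hAF hL hFL
      refine ⟨B, hBA, hB, ?_, h3⟩
      intro haB
      apply h1
      rintro f ⟨_, hf⟩
      exact centralizer_le (by simpa using haB) hf
    have hstep : ∀ B ≤ A, B.relIndex A = 2 → ¬ F ⊓ centralizer (B : Set (MulAut V)) ≤ centralizer (A : Set (MulAut V)) →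
        Nat.card A * Nat.card (FP A) ≤ Nat.card B * Nat.card (FP B) ∧ Nat.card B ≤ n ∧
        Nat.card B * Nat.card (FP B) ≤ Nat.card V ∧
        (Nat.card B * Nat.card (FP B) = Nat.card V → B ≤ closure {d | d ∈ B ∧ ∃ v, Tv d v}) := by
      intro B hBA hB hR
      have c1 := H2.Card.card_mul_relIndex hBA
      rw [hB] at c1
      have c2 := FP_step h2 hF hAp hAF hAc hBA hR
      have c3 : Nat.card B ≤ n := by
        have := Nat.card_pos (α := B)
        omega
      have c4 := ih B c3 (hBA.trans hAF) (fun a ha b hb => hAc a (hBA ha) b (hBA hb)) (fun a ha => hA2 a (hBA ha))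
        (fun a ha h => hAf a (hBA ha) h)
      refine ⟨?_, c3, c4⟩
      rw [← c1, mul_assoc]
      exact Nat.mul_le_mul_left _ c2
    obtain ⟨a, ha, ha1⟩ := exists_ne_one_of_ne_bot hA1
    obtain ⟨B, hBA, hB, haB, hR⟩ := hyp a ha ha1
    obtain ⟨s1, s2, s3, s4⟩ := hstep B hBA hB hR
    refine ⟨s1.trans s3, ?_⟩
    intro hEq
    have s5 : Nat.card B * Nat.card (FP B) = Nat.card V := le_antisymm s3 (by rw [← hEq]; exact s1)
    have c1 := H2.Card.card_mul_relIndex hBA
    rw [hB] at c1
    by_cases hB1 : B = ⊥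
    · -- `A` has order 2
      have hc : Nat.card A = 2 := by rw [← c1, hB1]; simp
      have hAe : ∀ x ∈ A, x = 1 ∨ x = a := by
        intro x hx
        by_contra hx2
        push Not at hx2
        obtain ⟨y, hy, hyu⟩ := (Nat.card_eq_two_iff' (1 : A)).mp hc
        have e1 := hyu ⟨a, ha⟩ (fun h => ha1 (congrArg Subtype.val h))
        have e2 := hyu ⟨x, hx⟩ (fun h => hx2.1 (congrArg Subtype.val h))
        exact hx2.2 (congrArg Subtype.val (e2.trans e1.symm))
      have hFP : ∀ x, x ∈ FP A ↔ a x = x := by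
        intro x
        constructor
        · intro h; exact h a ha
        · intro h b hb
          rcases hAe b hb with rfl | rfl
          · rfl
          · exact h
      have hidx : (FP A).index = 2 := by
        have h3 := Subgroup.card_mul_index (FP A)
        rw [hc] at hEq
        have h4 : 0 < Nat.card (FP A) := Nat.card_pos
        nlinarith
      have hmul : ∀ x y : V, a x ≠ x → a y ≠ y → a (x * y) = x * y := by
        intro x y hx hy
        have := (Subgroup.mul_mem_iff_of_index_two hidx (a := x) (b := y)).mpr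
          (by
            constructor
            · intro h; exact absurd ((hFP x).mp h) hx
            · intro h; exact absurd ((hFP y).mp h) hy)
        exact (hFP _).mp this
      obtain ⟨x0, hx0⟩ : ∃ x, a x ≠ x := by
        by_contra h
        push Not at h
        exact ha1 (by ext x; exact h x)
      have hTv : Tv a (a x0 * x0) := by
        refine ⟨?_, ⟨x0, hx0⟩, ?_⟩
        · intro h
          apply hx0
          have := eq_inv_of_mul_eq_one_left h
          rw [this, inv_self h2]
        · intro x
          by_cases hx : a x = x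
          · exact Or.inl hx
          · right
            have h3 := hmul x x0 hx hx0
            rw [map_mul] at h3
            calc a x = (a x * a x0) * a x0 := by rw [mul_assoc, h2, mul_one]
              _ = x * (a x0 * x0) := by rw [h3, mul_assoc, mul_comm x0]
      intro b hb
      rcases hAe b hb with rfl | rfl
      · exact one_mem _
      · exact Subgroup.subset_closure ⟨hb, _, hTv⟩
    · -- two hyperplanes
      obtain ⟨b, hb, hb1⟩ := exists_ne_one_of_ne_bot hB1
      obtain ⟨B', hB'A, hB', hbB', hR'⟩ := hyp b (hBA hb) hb1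
      obtain ⟨s1', s2', s3', s4'⟩ := hstep B' hB'A hB' hR'
      have s5' : Nat.card B' * Nat.card (FP B') = Nat.card V := le_antisymm s3' (by rw [← hEq]; exact s1')
      have g1 := s4 s5
      have g2 := s4' s5'
      have g3 : B' < B' ⊔ B := by
        refine lt_of_le_of_ne le_sup_left ?_
        intro h
        exact hbB' (by rw [h]; exact mem_sup_right hb)
      have g4 : B' ⊔ B = A := by
        apply le_antisymm (sup_le hB'A hBA)
        have d1 := H2.Card.card_mul_relIndex (sup_le hB'A hBA : B' ⊔ B ≤ A)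
        have d2 := H2.Card.card_mul_relIndex (le_sup_left : B' ≤ B' ⊔ B)
        have d3 := H2.Card.card_mul_relIndex hB'A
        rw [hB'] at d3
        have d4 : B'.relIndex (B' ⊔ B) ≠ 1 := by
          intro h
          exact absurd (relIndex_eq_one.mp h) (not_le_of_gt g3)
        have d5 : (B' ⊔ B).relIndex A = 1 := by
          have e1 := Subgroup.relIndex_mul_relIndex B' (B' ⊔ B) A le_sup_left (sup_le hB'A hBA)
          rw [hB'] at e1
          rcases (Nat.prime_two.eq_one_or_self_of_dvd _ (Dvd.intro _ e1)) with h | h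
          · exact absurd h d4
          · rw [h] at e1; omega
        exact relIndex_eq_one.mp d5
      rw [← g4]
      apply sup_le
      · refine g2.trans (closure_mono ?_)
        rintro d ⟨hd, h⟩
        exact ⟨mem_sup_left hd, h⟩
      · refine g1.trans (closure_mono ?_)
        rintro d ⟨hd, h⟩
        exact ⟨mem_sup_right hd, h⟩

end

end Cfsg.Agent.H18.KS
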