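import Mathlib
import Cfsg.Agent.H18_KS0
import Cfsg.Agent.H18_KS2
import Cfsg.Agent.H26_HH
import Cfsg.Agent.H22_Basic

/-!
# The action of an overgroup `L` of `T` on `V = Ω₁(Z(O₂(L)))`
-/

set_option autoImplicit false
set_option linter.unusedSectionVars false
set_option linter.unusedSimpArgs false
set_option linter.style.haveILetI false

namespace Cfsg.Agent.H18.KS

open Subgroup Pointwise
open Cfsg.Agent.H13.Syl
open Cfsg.Agent.H18.CharP

variable {G : Type*} [Group G]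

/-- the standing hypotheses -/
structure Hyp (G : Type*) [Group G] : Prop where
  ct : IsCharacteristicTwoType G
  sol : ∀ N : Subgroup G, IsTwoLocal N → Group.IsSolvable ↥N
  zz : ∀ S : Sylow 2 G, centralizer (omegaCenterOf (S : Subgroup G) : Set G) ≤ normalizer ((S : Subgroup G) : Set G)

theorem syl_iff {T L : Subgroup G} : IsSylowTwoIn T L ↔ IsSylIn 2 T L := by
  unfold IsSylowTwoIn IsSylIn
  rw [← Nat.not_even_iff_odd, even_iff_two_dvd]

theorem mem_omegaCenterOf {X : Subgroup G} {x : G} :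
    x ∈ omegaCenterOf X ↔ x ∈ X ∧ (∀ y ∈ X, y * x = x * y) ∧ x * x = 1 := by
  constructor
  · intro h
    rw [omegaCenterOf, omegaOne] at h
    induction h using closure_induction with
    | mem x hx =>
      obtain ⟨⟨h1, h3⟩, h4⟩ := hx
      exact ⟨h1, fun y hy => mem_centralizer_iff.mp h3 y hy, by rw [← pow_two]; exact h4⟩
    | one => exact ⟨X.one_mem, fun y _ => by simp, by simp⟩
    | mul a b _ _ ha hb =>
      refine ⟨X.mul_mem ha.1 hb.1, fun y hy => ?_, ?_⟩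
      · rw [← mul_assoc, ha.2.1 y hy, mul_assoc, hb.2.1 y hy, mul_assoc]
      · have := ha.2.1 b hb.1
        calc a * b * (a * b) = a * (b * a) * b := by simp only [mul_assoc]
          _ = (a * a) * (b * b) := by rw [this]; simp only [mul_assoc]
          _ = 1 := by rw [ha.2.2, hb.2.2, one_mul]
    | inv a _ ha =>
      refine ⟨X.inv_mem ha.1, fun y hy => ?_, ?_⟩
      · exact (Commute.inv_right (ha.2.1 y hy : Commute y a)).eq
      · rw [← mul_inv_rev, ha.2.2, inv_one]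
  · rintro ⟨h1, h3, h4⟩
    rw [omegaCenterOf, omegaOne]
    apply Subgroup.subset_closure
    refine ⟨⟨h1, ?_⟩, by rw [pow_two]; exact h4⟩
    exact mem_centralizer_iff.mpr h3

theorem normalizer_le_omegaCenterOf (X : Subgroup G) :
    normalizer (X : Set G) ≤ normalizer (omegaCenterOf X : Set G) := by
  rw [le_normalizer_iff_conj]
  intro g hg x hx
  rw [mem_omegaCenterOf] at hx ⊢
  have h1 : ∀ y, y ∈ X ↔ g * y * g⁻¹ ∈ X := mem_normalizer_iff.mp hg
  have h1' : ∀ y ∈ X, g⁻¹ * y * g ∈ X := by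
    intro y hy
    rw [h1]
    have : g * (g⁻¹ * y * g) * g⁻¹ = y := by group
    rwa [this]
  refine ⟨(h1 x).mp hx.1, ?_, ?_⟩
  · intro y hy
    have := hx.2.1 _ (h1' y hy)
    calc y * (g * x * g⁻¹) = g * (g⁻¹ * y * g * x) * g⁻¹ := by group
      _ = g * x * g⁻¹ * y := by rw [this]; group
  · calc g * x * g⁻¹ * (g * x * g⁻¹) = g * (x * x) * g⁻¹ := by group
      _ = 1 := by rw [hx.2.2]; group

theorem omegaCenterOf_pgroup (X : Subgroup G) : IsPGroup 2 ↥(omegaCenterOf X) := by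
  intro x
  refine ⟨1, ?_⟩
  rw [pow_one, pow_two]
  exact Subtype.ext (mem_omegaCenterOf.mp x.2).2.2

theorem omegaCenterOf_le (X : Subgroup G) : omegaCenterOf X ≤ X := fun _ hx => (mem_omegaCenterOf.mp hx).1

theorem omegaCenterOf_ne_bot [Finite G] {X : Subgroup G} (hX : IsPGroup 2 ↥X) (h : X ≠ ⊥) : omegaCenterOf X ≠ ⊥ := by
  haveI : Fact (Nat.Prime 2) := ⟨Nat.prime_two⟩
  haveI : Nontrivial X := (Subgroup.nontrivial_iff_ne_bot X).mpr h
  have h1 := hX.center_nontrivial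
  have h3 : IsPGroup 2 ↥(center X) := hX.to_subgroup _
  obtain ⟨k, hk⟩ := IsPGroup.iff_card.mp h3
  have h4 : 1 < Nat.card (center X) := Finite.one_lt_card
  have h5 : 2 ∣ Nat.card (center X) := by
    rw [hk] at h4 ⊢
    exact dvd_pow_self 2 (by rintro rfl; simp at h4)
  obtain ⟨z, hz⟩ := exists_prime_orderOf_dvd_card' 2 h5
  intro h6
  have h7 : ((z : X) : G) ∈ omegaCenterOf X := by
    rw [mem_omegaCenterOf]
    refine ⟨(z : X).2, ?_, ?_⟩
    · intro y hy
      have := Subgroup.mem_center_iff.mp z.2 ⟨y, hy⟩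
      exact congrArg Subtype.val this
    · have h8 := pow_orderOf_eq_one z
      rw [hz, pow_two] at h8
      exact congrArg (fun w : center X => ((w : X) : G)) h8
  rw [h6, Subgroup.mem_bot] at h7
  have h8 : z = 1 := by
    apply Subtype.ext; apply Subtype.ext; exact h7
  rw [h8, orderOf_one] at hz
  omega

/-- an overgroup in `𝓛(T)` -/
structure LD (T L : Subgroup G) : Prop where
  syl : IsSylIn 2 T L
  nJ : ¬ J T ≤ oP 2 L
  cQ : centralizer (oP 2 L : Set G) ≤ oP 2 L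

theorem LD.of {T L : Subgroup G} (h : L ∈ jOvergroups T) : LD T L := ⟨syl_iff.mp h.1, h.2.1, h.2.2⟩

theorem LD.to {T L : Subgroup G} (h : LD T L) : L ∈ jOvergroups T := ⟨syl_iff.mpr h.syl, h.nJ, h.cQ⟩

/-- `V = Ω₁(Z(O₂(L)))` -/
abbrev VV (L : Subgroup G) : Subgroup G := omegaCenterOf (oP 2 L)

/-- `C = C_L(V)` -/
def CC (L : Subgroup G) : Subgroup G := L ⊓ centralizer (VV L : Set G)

theorem CC_le (L : Subgroup G) : CC L ≤ L := inf_le_left

theorem norm_Q (L : Subgroup G) : L ≤ normalizer (oP 2 L : Set G) :=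
  (Subgroup.le_normalizer).trans (le_normalizer_oP L)

theorem norm_V (L : Subgroup G) : L ≤ normalizer (VV L : Set G) :=
  (norm_Q L).trans (normalizer_le_omegaCenterOf _)

theorem norm_C (L : Subgroup G) : L ≤ normalizer (CC L : Set G) :=
  H22.Basic.le_normalizer_inf Subgroup.le_normalizer (H22.Basic.le_normalizer_centralizer (norm_V L))

theorem V_le_Q (L : Subgroup G) : VV L ≤ oP 2 L := omegaCenterOf_le _

theorem Q_le_C (L : Subgroup G) : oP 2 L ≤ CC L := by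
  intro x hx
  refine mem_inf.mpr ⟨oP_le L hx, mem_centralizer_iff.mpr ?_⟩
  intro v hv
  exact ((mem_omegaCenterOf.mp hv).2.1 x hx).symm

theorem mem_CC {L : Subgroup G} {x : G} : x ∈ CC L ↔ x ∈ L ∧ ∀ v ∈ VV L, v * x = x * v := by
  rw [CC, mem_inf, mem_centralizer_iff]; rfl

variable [Finite G]

theorem syl_mem {T L : Subgroup G} (hT : IsSylIn 2 T L) {P : Subgroup G} (hP : IsPGroup 2 ↥P) (hPL : P ≤ L)
    (hPT : P ≤ normalizer (T : Set G)) : P ≤ T := by
  haveI : Fact (Nat.Prime 2) := ⟨Nat.prime_two⟩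
  have h1 : IsPGroup 2 ↥(P ⊔ T) := IsPGroup.to_sup_of_normal_right' hP hT.isPGroup hPT
  have h2 := hT.eq_of_le h1 (sup_le hPL hT.le) le_sup_right
  rw [← h2]; exact le_sup_left

/-- if `C₀ ⊴ L` normalizes `T` then `T ∩ C₀ ≤ O₂(L)` -/
theorem inf_le_Q {T L : Subgroup G} (hT : IsSylIn 2 T L) {C₀ : Subgroup G} (hC : C₀ ≤ L)
    (hn : L ≤ normalizer (C₀ : Set G)) (hCT : C₀ ≤ normalizer (T : Set G)) : T ⊓ C₀ ≤ oP 2 L := by
  haveI : Fact (Nat.Prime 2) := ⟨Nat.prime_two⟩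
  have h2 : ∀ y ∈ C₀, (∃ k : ℕ, y ^ (2 ^ k) = 1) → y ∈ T := by
    intro y hy hk
    have h3 : IsPGroup 2 ↥(zpowers y) := by
      obtain ⟨k, hk⟩ := hk
      have h4 := orderOf_dvd_of_pow_eq_one hk
      obtain ⟨j, _, hj⟩ := (Nat.dvd_prime_pow Nat.prime_two).mp h4
      exact IsPGroup.of_card (n := j) (by rw [Nat.card_zpowers, hj])
    have h4 : zpowers y ≤ C₀ := by rw [zpowers_le]; exact hy
    exact syl_mem hT h3 (h4.trans hC) (h4.trans hCT) (mem_zpowers y)
  apply le_oP (hT.isPGroup.to_le inf_le_left) (inf_le_left.trans hT.le)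
  rw [le_normalizer_iff_conj]
  rintro x hx y ⟨hyT, hyC⟩
  have h5 : x * y * x⁻¹ ∈ C₀ := (mem_normalizer_iff.mp (hn hx) y).mp hyC
  refine ⟨h2 _ h5 ?_, h5⟩
  obtain ⟨k, hk⟩ := hT.isPGroup ⟨y, hyT⟩
  refine ⟨k, ?_⟩
  have : y ^ 2 ^ k = 1 := congrArg Subtype.val hk
  rw [conj_pow, this]; group

theorem LD.Q_le_T {T L : Subgroup G} (h : LD T L) : oP 2 L ≤ T := by
  haveI : Fact (Nat.Prime 2) := ⟨Nat.prime_two⟩
  have h1 : IsPGroup 2 ↥(T ⊔ oP 2 L) := IsPGroup.to_sup_of_normal_right' h.syl.isPGroup (oP_isPGroup L) (h.syl.le.trans (norm_Q L))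
  have h2 := h.syl.eq_of_le h1 (sup_le h.syl.le (oP_le L)) le_sup_left
  rw [← h2]; exact le_sup_right

theorem LD.omega_le {T L : Subgroup G} (h : LD T L) : omegaCenterOf T ≤ VV L := by
  intro z hz
  rw [mem_omegaCenterOf] at hz
  have h1 : z ∈ oP 2 L := by
    apply h.cQ
    rw [mem_centralizer_iff]
    intro y hy
    exact hz.2.1 y (h.Q_le_T hy)
  rw [mem_omegaCenterOf]
  exact ⟨h1, fun y hy => hz.2.1 y (h.Q_le_T hy), hz.2.2⟩

/-- `C_L(Ω₁(Z(T))) ≤ N(T)` -/
theorem LD.cent_norm (H : Hyp G) {T L : Subgroup G} (h : LD T L) :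
    L ⊓ centralizer (omegaCenterOf T : Set G) ≤ normalizer (T : Set G) := by
  haveI : Fact (Nat.Prime 2) := ⟨Nat.prime_two⟩
  obtain ⟨S, hTS⟩ := IsPGroup.exists_le_sylow h.syl.isPGroup
  have h1 : omegaCenterOf (S : Subgroup G) ≤ omegaCenterOf T := by
    intro z hz
    rw [mem_omegaCenterOf] at hz
    have h1 : z ∈ oP 2 L := by
      apply h.cQ
      rw [mem_centralizer_iff]
      intro y hy
      exact hz.2.1 y (hTS (h.Q_le_T hy))
    rw [mem_omegaCenterOf]
    exact ⟨h.Q_le_T h1, fun y hy => hz.2.1 y (hTS hy), hz.2.2⟩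
  have h2 : (S : Subgroup G) ⊓ L = T :=
    h.syl.eq_of_le (S.2.to_le inf_le_left) inf_le_right (le_inf hTS h.syl.le)
  intro x hx
  have h3 : x ∈ normalizer ((S : Subgroup G) : Set G) :=
    H.zz S (centralizer_le h1 hx.2)
  rw [← h2]
  have h4 : zpowers x ≤ normalizer (((S : Subgroup G) ⊓ L : Subgroup G) : Set G) :=
    H22.Basic.le_normalizer_inf (by rw [zpowers_le]; exact h3) (by rw [zpowers_le]; exact Subgroup.le_normalizer hx.1)
  exact h4 (mem_zpowers x)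

theorem LD.C_norm (H : Hyp G) {T L : Subgroup G} (h : LD T L) : CC L ≤ normalizer (T : Set G) := by
  refine le_trans ?_ (h.cent_norm H)
  exact inf_le_inf le_rfl (centralizer_le h.omega_le)

theorem LD.inf_C (H : Hyp G) {T L : Subgroup G} (h : LD T L) : T ⊓ CC L = oP 2 L :=
  le_antisymm (inf_le_Q h.syl (CC_le L) (norm_C L) (h.C_norm H)) (le_inf h.Q_le_T (Q_le_C L))

theorem LD.relIndex_odd (H : Hyp G) {T L : Subgroup G} (h : LD T L) : Odd ((oP 2 L).relIndex (CC L)) := by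
  haveI : Fact (Nat.Prime 2) := ⟨Nat.prime_two⟩
  have h1 := h.syl.inf_of_le_normalizer (CC_le L) (norm_C L)
  rw [h.inf_C H] at h1
  rw [← Nat.not_even_iff_odd, even_iff_two_dvd]
  exact h1.not_dvd

/-- elements of 2-power order of `C` lie in `O₂(L)` -/
theorem LD.two_mem (H : Hyp G) {T L : Subgroup G} (h : LD T L) {y : G} (hy : y ∈ CC L) {k : ℕ}
    (hk : y ^ (2 ^ k) ∈ oP 2 L) : y ∈ oP 2 L := by
  haveI : Fact (Nat.Prime 2) := ⟨Nat.prime_two⟩
  have h1 : ((oP 2 L).subgroupOf (CC L)).Normal := by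
    rw [Subgroup.normal_subgroupOf_iff_le_normalizer (Q_le_C L)]
    exact (CC_le L).trans (norm_Q L)
  have h3 : (⟨y, hy⟩ : CC L) ^ ((oP 2 L).relIndex (CC L)) ∈ (oP 2 L).subgroupOf (CC L) :=
    Subgroup.pow_index_mem _ _
  have h4 : y ^ ((oP 2 L).relIndex (CC L)) ∈ oP 2 L := h3
  have h5 : (2 ^ k).Coprime ((oP 2 L).relIndex (CC L)) :=
    Nat.Coprime.pow_left _ (Nat.coprime_two_left.mpr (h.relIndex_odd H))
  obtain ⟨a, b, hab⟩ : ∃ a b : ℤ, a * ((2 ^ k : ℕ) : ℤ) + b * ((oP 2 L).relIndex (CC L) : ℤ) = 1 := by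
    have := (Nat.isCoprime_iff_coprime.mpr h5)
    obtain ⟨a, b, hab⟩ := this
    exact ⟨a, b, hab⟩
  have h6 : y = (y ^ (2 ^ k)) ^ a * (y ^ ((oP 2 L).relIndex (CC L))) ^ b := by
    rw [← zpow_natCast y (2 ^ k), ← zpow_natCast y ((oP 2 L).relIndex (CC L)), ← zpow_mul, ← zpow_mul, ← zpow_add]
    conv_lhs => rw [← zpow_one y, ← hab]
    congr 1
    ring
  rw [h6]
  exact mul_mem (zpow_mem hk _) (zpow_mem h4 _)

/-- `[C, T] ≤ O₂(L)` -/
theorem LD.comm_CT (H : Hyp G) {T L : Subgroup G} (h : LD T L) : ⁅CC L, T⁆ ≤ oP 2 L := by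
  rw [← h.inf_C H]
  apply le_inf
  · rw [commutator_comm]; exact H22.Basic.commutator_le_left (h.C_norm H)
  · exact H22.Basic.commutator_le_left (h.syl.le.trans (norm_C L))

theorem LD.comm_CJ (H : Hyp G) {T L : Subgroup G} (h : LD T L) : ⁅CC L, J T⁆ ≤ oP 2 L :=
  (commutator_mono le_rfl (J_le T)).trans (h.comm_CT H)

theorem LD.J_not_le_C (H : Hyp G) {T L : Subgroup G} (h : LD T L) : ¬ J T ≤ CC L := by
  intro h1
  apply h.nJ
  rw [← h.inf_C H]
  exact le_inf (J_le T) h1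


/-- the action of `L` on `V` -/
def φ (L : Subgroup G) : ↥L →* MulAut ↥(VV L) :=
  (VV L).normalizerMonoidHom.comp (Subgroup.inclusion (norm_V L))

theorem φ_apply {L : Subgroup G} (x : L) (v : VV L) : ((φ L x v : VV L) : G) = x * v * (x : G)⁻¹ := rfl

theorem φ_eq_one {L : Subgroup G} {x : L} : φ L x = 1 ↔ (x : G) ∈ CC L := by
  rw [mem_CC]
  constructor
  · intro h
    refine ⟨x.2, fun v hv => ?_⟩
    have h1 := congrArg (fun f : MulAut (VV L) => ((f ⟨v, hv⟩ : VV L) : G)) h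
    have h2 : (x : G) * v * (x : G)⁻¹ = v := h1
    rw [mul_inv_eq_iff_eq_mul] at h2
    exact h2.symm
  · rintro ⟨_, h⟩
    ext v
    have h1 : ((φ L x v : VV L) : G) = v := by
      rw [φ_apply, ← h v v.2, mul_inv_cancel_right]
    exact h1

theorem sqV {L : Subgroup G} (v : VV L) : v * v = 1 := Subtype.ext (mem_omegaCenterOf.mp v.2).2.2

theorem commV {L : Subgroup G} (v w : VV L) : v * w = w * v :=
  Subtype.ext (((mem_omegaCenterOf.mp w.2).2.1 v (omegaCenterOf_le _ v.2)))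

instance instCommV (L : Subgroup G) : CommGroup ↥(VV L) :=
  { (inferInstance : Group ↥(VV L)) with mul_comm := commV }

/-- the image of a subgroup -/
def im (L A : Subgroup G) : Subgroup (MulAut ↥(VV L)) := (A.subgroupOf L).map (φ L)

theorem mem_im {L A : Subgroup G} {f : MulAut ↥(VV L)} : f ∈ im L A ↔ ∃ a : L, (a : G) ∈ A ∧ φ L a = f := by
  rw [im, mem_map]; rfl

theorem im_mono {L A B : Subgroup G} (h : A ≤ B) : im L A ≤ im L B := by
  intro f hf
  rw [mem_im] at hf ⊢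
  obtain ⟨a, ha, h1⟩ := hf
  exact ⟨a, h ha, h1⟩

theorem LD.core_trivial (H : Hyp G) {T L : Subgroup G} (h : LD T L) {U : Subgroup G} (hCU : CC L ≤ U) (hUL : U ≤ L)
    (hLU : L ≤ normalizer (U : Set G)) (h2 : ∀ u ∈ U, ∃ k : ℕ, u ^ (2 ^ k) ∈ CC L) : U ≤ CC L := by
  haveI : Fact (Nat.Prime 2) := ⟨Nat.prime_two⟩
  have hsyl := h.syl.inf_of_le_normalizer hUL hLU
  have hCn : ((CC L).subgroupOf U).Normal := by
    rw [Subgroup.normal_subgroupOf_iff_le_normalizer hCU]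
    exact hUL.trans (norm_C L)
  have hpow : ∃ n, (CC L).relIndex U = 2 ^ n := by
    have h1 : IsPGroup 2 (U ⧸ (CC L).subgroupOf U) := by
      intro x
      obtain ⟨u, rfl⟩ := QuotientGroup.mk_surjective x
      obtain ⟨k, hk⟩ := h2 u u.2
      refine ⟨k, ?_⟩
      rw [← QuotientGroup.mk_pow, QuotientGroup.eq_one_iff]
      exact hk
    obtain ⟨n, hn⟩ := IsPGroup.iff_card.mp h1
    exact ⟨n, hn⟩
  have hsup : (T ⊓ U) ⊔ CC L = U := by
    apply le_antisymm (sup_le inf_le_right hCU)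
    have e1 : ((T ⊓ U) ⊔ CC L).relIndex U ∣ (T ⊓ U).relIndex U :=
      ⟨_, (by rw [mul_comm]; exact (Subgroup.relIndex_mul_relIndex (T ⊓ U) ((T ⊓ U) ⊔ CC L) U le_sup_left
        (sup_le inf_le_right hCU)).symm)⟩
    have e2 : ((T ⊓ U) ⊔ CC L).relIndex U ∣ (CC L).relIndex U :=
      ⟨_, (by rw [mul_comm]; exact (Subgroup.relIndex_mul_relIndex (CC L) ((T ⊓ U) ⊔ CC L) U le_sup_right
        (sup_le inf_le_right hCU)).symm)⟩
    obtain ⟨n, hn⟩ := hpow
    rw [hn] at e2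
    obtain ⟨m, _, hm⟩ := (Nat.dvd_prime_pow Nat.prime_two).mp e2
    rw [← relIndex_eq_one]
    rcases Nat.eq_zero_or_pos m with h0 | h0
    · rw [hm, h0, pow_zero]
    · exfalso
      apply hsyl.not_dvd
      refine dvd_trans ?_ e1
      rw [hm]
      exact dvd_pow_self 2 (by omega)
  set V₀ : Subgroup G := closure {w | ∃ g ∈ L, ∃ z ∈ omegaCenterOf T, w = g * z * g⁻¹} with hV₀
  have hLV₀ : L ≤ normalizer (V₀ : Set G) := by
    intro x hx
    have key : ∀ x ∈ L, cj x V₀ ≤ V₀ := by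
      intro x hx
      rw [cj, hV₀, MonoidHom.map_closure, closure_le]
      rintro _ ⟨w, ⟨g, hg, z, hz, rfl⟩, rfl⟩
      apply Subgroup.subset_closure
      refine ⟨x * g, L.mul_mem hx hg, z, hz, ?_⟩
      change x * (g * z * g⁻¹) * x⁻¹ = _
      group
    rw [mem_normalizer_iff_cj]
    apply le_antisymm (key x hx)
    have := key x⁻¹ (L.inv_mem hx)
    rw [cj_le_iff, inv_inv] at this
    exact this
  have hC₀ : L ⊓ centralizer (V₀ : Set G) ≤ normalizer (T : Set G) := by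
    refine le_trans ?_ (h.cent_norm H)
    refine inf_le_inf le_rfl (centralizer_le ?_)
    intro z hz
    apply Subgroup.subset_closure
    exact ⟨1, L.one_mem, z, hz, by group⟩
  have h5 := inf_le_Q h.syl (inf_le_left : L ⊓ centralizer (V₀ : Set G) ≤ L)
    (H22.Basic.le_normalizer_inf Subgroup.le_normalizer (H22.Basic.le_normalizer_centralizer hLV₀)) hC₀
  have h6 : T ⊓ U ≤ L ⊓ centralizer (V₀ : Set G) := by
    apply le_inf (inf_le_right.trans hUL)
    rw [le_centralizer_iff, hV₀, closure_le]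
    rintro _ ⟨g, hg, z, hz, rfl⟩
    rw [SetLike.mem_coe, mem_centralizer_iff]
    intro t ht
    obtain ⟨u, hu, m, hm, rfl⟩ := hsyl.frattini hUL hLU hg
    obtain ⟨hmL, hmN⟩ := mem_inf.mp hm
    -- `m z m⁻¹` commutes with `T ⊓ U`
    have hzz : ∀ t ∈ T ⊓ U, t * (m * z * m⁻¹) = (m * z * m⁻¹) * t := by
      intro t ht
      have e1 : m⁻¹ * t * m⁻¹⁻¹ ∈ T ⊓ U := (mem_normalizer_iff.mp (inv_mem hmN) t).mp ht
      rw [inv_inv] at e1
      have e2 := (mem_omegaCenterOf.mp hz).2.1 _ (mem_inf.mp e1).1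
      calc t * (m * z * m⁻¹) = m * (m⁻¹ * t * m * z) * m⁻¹ := by group
        _ = m * z * m⁻¹ * t := by rw [e2]; group
    have hzV : m * z * m⁻¹ ∈ VV L := (mem_normalizer_iff.mp (norm_V L hmL) z).mp (h.omega_le hz)
    have hu' : u ∈ CC L ⊔ (T ⊓ U) := by rw [sup_comm, hsup]; exact hu
    obtain ⟨c, hc, t₀, ht₀, rfl⟩ := mem_sup_of_norm ((inf_le_right.trans hUL).trans (norm_C L)) hu'
    have e3 : c * t₀ * m * z * (c * t₀ * m)⁻¹ = m * z * m⁻¹ := by
      calc c * t₀ * m * z * (c * t₀ * m)⁻¹ = c * (t₀ * (m * z * m⁻¹)) * t₀⁻¹ * c⁻¹ := by group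
        _ = c * (m * z * m⁻¹) * c⁻¹ := by rw [hzz t₀ ht₀]; group
        _ = (m * z * m⁻¹) := by rw [← (mem_CC.mp hc).2 _ hzV]; group
    rw [e3]
    exact hzz t ht
  rw [← hsup]
  apply sup_le _ le_rfl
  exact (le_inf inf_le_left h6).trans (h5.trans (Q_le_C L))

theorem LD.Q_ne {T L : Subgroup G} (H : Hyp G) (h : LD T L) : oP 2 L ≠ ⊥ := by
  intro h1
  have h2 := h.cQ
  rw [h1] at h2
  have h3 : (⊤ : Subgroup G) ≤ ⊥ := by
    refine le_trans ?_ h2
    intro x _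
    rw [mem_centralizer_iff]
    intro y hy
    have : y = 1 := hy
    rw [this]; simp
  have h4 := H.ct.1
  have h5 : Nat.card G = 1 := by
    rw [← Subgroup.card_top (G := G), le_bot_iff.mp h3]; simp
  rw [h5] at h4
  exact absurd h4 (by decide)

theorem LD.solvable (H : Hyp G) {T L : Subgroup G} (h : LD T L) : Group.IsSolvable ↥L := by
  have h1 := H.sol (normalizer (oP 2 L : Set G)) ⟨oP 2 L, oP_isPGroup L, h.Q_ne H, rfl⟩
  exact Group.isSolvable_of_isSolvable_injective (Subgroup.inclusion_injective (norm_Q L))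

/-- the odd normal subgroup of the image of `L` containing its centralizer -/
structure FD (L : Subgroup G) (F : Subgroup (MulAut ↥(VV L))) : Prop where
  odd : Odd (Nat.card F)
  le : F ≤ (φ L).range
  norm : ∀ x : L, ∀ f ∈ F, φ L x * f * (φ L x)⁻¹ ∈ F
  cent : ∀ x : L, (∀ f ∈ F, φ L x * f = f * φ L x) → φ L x ∈ F

theorem LD.exists_F (H : Hyp G) {T L : Subgroup G} (h : LD T L) : ∃ F, FD L F := by
  haveI : Fact (Nat.Prime 2) := ⟨Nat.prime_two⟩
  haveI := h.solvable H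
  have hsol : Group.IsSolvable (φ L).range := Group.isSolvable_of_surjective (φ L).rangeRestrict_surjective
  have hcore : pCore 2 (φ L).range = ⊥ := by
    rw [eq_bot_iff]
    intro p hp
    set P := pCore 2 (φ L).range with hP
    have hPp : IsPGroup 2 P := H11.Cores.pCore_isPGroup (G := (φ L).range) 2
    set U : Subgroup G := ((P.map (φ L).range.subtype).comap (φ L)).map L.subtype with hU
    have hmemU : ∀ x : L, (x : G) ∈ U ↔ φ L x ∈ P.map (φ L).range.subtype := by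
      intro x
      rw [hU, mem_map]
      constructor
      · rintro ⟨y, hy, hyx⟩
        have : y = x := Subtype.ext hyx
        rw [← this]; exact hy
      · intro hx
        exact ⟨x, hx, rfl⟩
    have hUL : U ≤ L := map_subtype_le _
    have hCU : CC L ≤ U := by
      intro c hc
      have := (hmemU ⟨c, CC_le L hc⟩).mpr (by rw [φ_eq_one.mpr hc]; exact one_mem _)
      exact this
    have hLU : L ≤ normalizer (U : Set G) := by
      rw [le_normalizer_iff_conj]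
      intro x hx u hu
      have h1 := (hmemU ⟨u, hUL hu⟩).mp hu
      have := (hmemU (⟨x, hx⟩ * ⟨u, hUL hu⟩ * ⟨x, hx⟩⁻¹)).mpr (by
        rw [map_mul, map_mul, map_inv]
        obtain ⟨q, hq, hq'⟩ := h1
        refine ⟨⟨φ L ⟨x, hx⟩, ⟨_, rfl⟩⟩ * q * ⟨φ L ⟨x, hx⟩, ⟨_, rfl⟩⟩⁻¹, ?_, ?_⟩
        · exact (Cfsg.pCore_normal 2 _).conj_mem q hq _
        · rw [← hq']; rfl)
      exact this
    have h2 : ∀ u ∈ U, ∃ k : ℕ, u ^ (2 ^ k) ∈ CC L := by
      intro u hu
      obtain ⟨q, hq, hq'⟩ := (hmemU ⟨u, hUL hu⟩).mp hu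
      obtain ⟨k, hk⟩ := hPp ⟨q, hq⟩
      refine ⟨k, ?_⟩
      have : φ L (⟨u, hUL hu⟩ ^ (2 ^ k)) = 1 := by
        rw [map_pow, ← hq']
        have := congrArg (fun z : P => (((z : (φ L).range) : MulAut (VV L)))) hk
        exact this
      exact φ_eq_one.mp this
    have h3 := h.core_trivial H hCU hUL hLU h2
    obtain ⟨x, hx⟩ := p.2
    have h4 : (x : G) ∈ U := (hmemU x).mpr ⟨p, hp, hx.symm⟩
    have h5 := φ_eq_one.mpr (h3 h4)
    rw [Subgroup.mem_bot]
    apply Subtype.ext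
    rw [← hx, h5]; rfl
  have hHH := H26.HH.centralizer_pPrimeCore_le (H22.PSolv.isPSolvable_of_isSolvable hsol) hcore
  refine ⟨(pPrimeCore 2 (φ L).range).map (φ L).range.subtype, ?_, map_subtype_le _, ?_, ?_⟩
  · rw [Nat.card_congr ((pPrimeCore 2 (φ L).range).equivMapOfInjective _ (Subgroup.subtype_injective _)).toEquiv.symm]
    exact Nat.coprime_two_right.mp (H1.Nilp.pPrimeCore_coprime 2)
  · rintro x _ ⟨f, hf, rfl⟩
    refine ⟨⟨φ L x, ⟨_, rfl⟩⟩ * f * ⟨φ L x, ⟨_, rfl⟩⟩⁻¹, ?_, rfl⟩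
    exact (Cfsg.pPrimeCore_normal 2 _).conj_mem f hf _
  · intro x hx
    refine ⟨⟨φ L x, ⟨_, rfl⟩⟩, ?_, rfl⟩
    apply hHH
    rw [mem_centralizer_iff]
    intro f hf
    apply Subtype.ext
    exact (hx f ⟨f, hf, rfl⟩).symm

end Cfsg.Agent.H18.KS
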