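import Mathlib
import Cfsg.Agent.H18_KS3

/-!
# Offenders: the image of `J(T)` is generated by transvections
-/

set_option autoImplicit false
set_option linter.unusedSectionVars false
set_option linter.unusedSimpArgs false
set_option linter.style.haveILetI false

namespace Cfsg.Agent.H18.KS

open Subgroup Pointwise
open Cfsg.Agent.H13.Syl
open Cfsg.Agent.H18.CharP
open Cfsg.Agent.H12.ZJ

variable {G : Type*} [Group G] [Finite G]

theorem J_eq (T : Subgroup G) : J T = JJ 2 T := (JJ_p 2 T).symm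

theorem maxEA_le_J {T A : Subgroup G} (h : MaxEA 2 T A) : A ≤ J T := by rw [J_eq]; exact h.le_JJ

theorem EA.sq {A : Subgroup G} (h : EA 2 A) {a : G} (ha : a ∈ A) : a * a = 1 := by
  have := h.2 a ha; rwa [pow_two] at this

theorem sup_cent_EA {A B V : Subgroup G} (hB : EA 2 B) (hV : ∀ v ∈ V, ∀ w ∈ V, v * w = w * v)
    (hV2 : ∀ v ∈ V, v * v = 1) : EA 2 (B ⊔ (V ⊓ centralizer (B : Set G))) := by
  have hn : B ≤ normalizer ((V ⊓ centralizer (B : Set G) : Subgroup G) : Set G) := by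
    rw [le_normalizer_iff_conj]
    intro b hb x hx
    have h1 := mem_centralizer_iff.mp (mem_inf.mp hx).2 b hb
    have : b * x * b⁻¹ = x := by rw [h1]; group
    rw [this]; exact hx
  have key : ∀ x ∈ B ⊔ (V ⊓ centralizer (B : Set G)), ∃ a ∈ B, ∃ b ∈ (V ⊓ centralizer (B : Set G)), a * b = x := by
    intro x hx
    exact (H2.Card.mem_sup_iff hn).mp hx
  constructor
  · intro x hx y hy
    obtain ⟨a, ha, v, hv, rfl⟩ := key x hx
    obtain ⟨b, hb, w, hw, rfl⟩ := key y hy
    have c1 : Commute a b := hB.1 a ha b hb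
    have c2 : Commute v w := hV v (mem_inf.mp hv).1 w (mem_inf.mp hw).1
    have c3 : Commute a w := mem_centralizer_iff.mp (mem_inf.mp hw).2 a ha
    have c4 : Commute b v := mem_centralizer_iff.mp (mem_inf.mp hv).2 b hb
    exact ((c1.mul_right c3).mul_left (c4.symm.mul_right c2)).eq
  · intro x hx
    obtain ⟨a, ha, v, hv, rfl⟩ := key x hx
    have c3 : Commute a v := mem_centralizer_iff.mp (mem_inf.mp hv).2 a ha
    rw [c3.mul_pow, hB.2 a ha, pow_two, hV2 v (mem_inf.mp hv).1, one_mul]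

theorem card_sup_cent {B V : Subgroup G} (hB : EA 2 B) :
    Nat.card (B ⊔ (V ⊓ centralizer (B : Set G)) : Subgroup G) * Nat.card (B ⊓ V : Subgroup G) =
      Nat.card B * Nat.card (V ⊓ centralizer (B : Set G) : Subgroup G) := by
  have hn : B ≤ normalizer ((V ⊓ centralizer (B : Set G) : Subgroup G) : Set G) := by
    rw [le_normalizer_iff_conj]
    intro b hb x hx
    have h1 := mem_centralizer_iff.mp (mem_inf.mp hx).2 b hb
    have : b * x * b⁻¹ = x := by rw [h1]; group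
    rw [this]; exact hx
  have h1 := H2.Card.card_sup_mul_card_inf hn
  have h2 : B ⊓ (V ⊓ centralizer (B : Set G)) = B ⊓ V := by
    apply le_antisymm (inf_le_inf le_rfl inf_le_left)
    apply le_inf inf_le_left (le_inf inf_le_right _)
    intro x hx
    rw [mem_centralizer_iff]
    intro y hy
    exact hB.1 y hy x (mem_inf.mp hx).1
  rw [h2] at h1
  exact h1

theorem EA.mono {A B : Subgroup G} (h : EA 2 A) (hB : B ≤ A) : EA 2 B :=
  ⟨fun a ha b hb => h.1 a (hB ha) b (hB hb), fun a ha => h.2 a (hB ha)⟩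

theorem off_ineq {T A B V : Subgroup G} (hA : MaxEA 2 T A) (hVT : V ≤ T)
    (hV : ∀ v ∈ V, ∀ w ∈ V, v * w = w * v) (hV2 : ∀ v ∈ V, v * v = 1) (hBA : B ≤ A) :
    Nat.card B * Nat.card (V ⊓ centralizer (B : Set G) : Subgroup G) ≤ Nat.card A * Nat.card (B ⊓ V : Subgroup G) := by
  have hB := EA.mono hA.2.1 hBA
  rw [← card_sup_cent hB]
  apply Nat.mul_le_mul_right
  apply hA.2.2 _ _ (sup_cent_EA (A := A) hB hV hV2)
  exact sup_le (hBA.trans hA.1) (inf_le_left.trans hVT)

theorem commV' {L : Subgroup G} : ∀ v ∈ VV L, ∀ w ∈ VV L, v * w = w * v := by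
  intro v hv w hw
  exact (mem_omegaCenterOf.mp hw).2.1 v (omegaCenterOf_le _ hv)

theorem sqV' {L : Subgroup G} : ∀ v ∈ VV L, v * v = 1 := fun v hv => (mem_omegaCenterOf.mp hv).2.2

theorem card_FP {L B : Subgroup G} (hB : B ≤ L) :
    Nat.card (FP (im L B)) = Nat.card (VV L ⊓ centralizer (B : Set G) : Subgroup G) := by
  have h1 : (FP (im L B)).map (VV L).subtype = VV L ⊓ centralizer (B : Set G) := by
    ext x
    rw [mem_map, mem_inf, mem_centralizer_iff]
    constructor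
    · rintro ⟨v, hv, rfl⟩
      refine ⟨v.2, ?_⟩
      intro b hb
      have h1 := hv (φ L ⟨b, hB hb⟩) (mem_im.mpr ⟨⟨b, hB hb⟩, hb, rfl⟩)
      have h2 := congrArg Subtype.val h1
      rw [φ_apply] at h2
      exact mul_inv_eq_iff_eq_mul.mp h2
    · rintro ⟨hx, h⟩
      refine ⟨⟨x, hx⟩, ?_, rfl⟩
      intro f hf
      obtain ⟨b, hb, rfl⟩ := mem_im.mp hf
      apply Subtype.ext
      rw [φ_apply]
      exact mul_inv_eq_iff_eq_mul.mpr (h b hb)
  rw [← h1]
  exact (Subgroup.card_map_of_injective (Subgroup.subtype_injective _)).symm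

theorem card_im {L A : Subgroup G} (hA : A ≤ L) :
    Nat.card (im L A) * Nat.card (A ⊓ CC L : Subgroup G) = Nat.card A := by
  set ψ : A →* MulAut ↥(VV L) := (φ L).comp (Subgroup.inclusion hA) with hψ
  have h1 : ψ.range = im L A := by
    ext f
    rw [mem_im, MonoidHom.mem_range]
    constructor
    · rintro ⟨a, rfl⟩
      exact ⟨Subgroup.inclusion hA a, a.2, rfl⟩
    · rintro ⟨a, ha, rfl⟩
      exact ⟨⟨a, ha⟩, rfl⟩
  have h2 : Nat.card ψ.ker = Nat.card (A ⊓ CC L : Subgroup G) := by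
    have h3 : ψ.ker.map A.subtype = A ⊓ CC L := by
      ext x
      rw [mem_map, mem_inf]
      constructor
      · rintro ⟨a, ha, rfl⟩
        exact ⟨a.2, φ_eq_one.mp ha⟩
      · rintro ⟨hx, hxC⟩
        exact ⟨⟨x, hx⟩, φ_eq_one.mpr hxC, rfl⟩
    rw [← h3]
    exact (Subgroup.card_map_of_injective (Subgroup.subtype_injective _)).symm
  rw [← h1, ← h2, ← Subgroup.index_ker, mul_comm]
  exact ψ.ker.card_mul_index

theorem im_norm_F {L A : Subgroup G} {F : Subgroup (MulAut ↥(VV L))} (hF : FD L F) :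
    im L A ≤ normalizer (F : Set (MulAut ↥(VV L))) := by
  rw [le_normalizer_iff_conj]
  intro f hf g hg
  obtain ⟨a, _, rfl⟩ := mem_im.mp hf
  exact hF.norm a g hg

theorem odd_of_mem {X : Type*} [Group X] {F : Subgroup X} (hF : Odd (Nat.card F)) {f : X} (hf : f ∈ F) :
    Odd (orderOf f) := by
  have h1 : orderOf f ∣ Nat.card F := by
    have := orderOf_dvd_natCard (⟨f, hf⟩ : F)
    rwa [Subgroup.orderOf_mk] at this
  exact Odd.of_dvd_nat hF h1

theorem LD.V_le_T {T L : Subgroup G} (h : LD T L) : VV L ≤ T := (V_le_Q L).trans h.Q_le_T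

theorem LD.T3 (H : Hyp G) {T L : Subgroup G} (h : LD T L) {A : Subgroup G} (hA : MaxEA 2 T A) :
    Nat.card (A ⊓ CC L : Subgroup G) * Nat.card (VV L) =
      Nat.card A * Nat.card (VV L ⊓ centralizer (A : Set G) : Subgroup G) ∧
    im L A ≤ closure {d | d ∈ im L A ∧ ∃ v, Tv d v} := by
  obtain ⟨F, hF⟩ := h.exists_F H
  have hAL : A ≤ L := hA.1.trans h.syl.le
  have hcomm : ∀ a ∈ im L A, ∀ b ∈ im L A, a * b = b * a := by
    intro a ha b hb
    obtain ⟨x, hx, rfl⟩ := mem_im.mp ha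
    obtain ⟨y, hy, rfl⟩ := mem_im.mp hb
    rw [← map_mul, ← map_mul]
    congr 1
    exact Subtype.ext (hA.2.1.1 x hx y hy)
  have hsq : ∀ a ∈ im L A, a * a = 1 := by
    intro a ha
    obtain ⟨x, hx, rfl⟩ := mem_im.mp ha
    rw [← map_mul]
    have : x * x = 1 := Subtype.ext (EA.sq hA.2.1 hx)
    rw [this, map_one]
  have hfaith : ∀ a ∈ im L A, (∀ f ∈ F, a * f = f * a) → a = 1 := by
    intro a ha hf
    obtain ⟨x, hx, rfl⟩ := mem_im.mp ha
    have h1 := odd_of_mem hF.odd (hF.cent x hf)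
    apply eq_one_of_odd_pow (sqV (L := L)) (k := 1) _ h1
    rw [pow_one, pow_two]
    exact hsq _ ha
  haveI : Finite ↥(VV L) := inferInstance
  have key := KS.T3 (sqV (L := L)) hF.odd (Nat.card (im L A)) (im L A) le_rfl (im_norm_F hF) hcomm hsq hfaith
  have h1 := off_ineq hA h.V_le_T commV' sqV' (inf_le_left : A ⊓ CC L ≤ A)
  have h2 : VV L ⊓ centralizer ((A ⊓ CC L : Subgroup G) : Set G) = VV L := by
    apply inf_eq_left.mpr
    intro v hv
    rw [mem_centralizer_iff]
    intro c hc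
    exact ((mem_CC.mp (mem_inf.mp hc).2).2 v hv).symm
  have h3 : Nat.card (A ⊓ CC L ⊓ VV L : Subgroup G) ≤ Nat.card (VV L ⊓ centralizer (A : Set G) : Subgroup G) := by
    apply Subgroup.card_le_of_le
    intro x hx
    refine mem_inf.mpr ⟨(mem_inf.mp hx).2, mem_centralizer_iff.mpr ?_⟩
    intro a ha
    exact hA.2.1.1 a ha x (mem_inf.mp (mem_inf.mp hx).1).1
  rw [h2] at h1
  have h4 := h1.trans (Nat.mul_le_mul_left _ h3)
  have h5 := card_im hAL
  have h6 := card_FP hAL
  have h7 : Nat.card (im L A) * Nat.card (FP (im L A)) = Nat.card (VV L) := by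
    apply le_antisymm key.1
    rw [h6]
    have h8 : 0 < Nat.card (A ⊓ CC L : Subgroup G) := Nat.card_pos
    apply Nat.le_of_mul_le_mul_left _ h8
    calc Nat.card (A ⊓ CC L : Subgroup G) * Nat.card (VV L)
        ≤ Nat.card A * Nat.card (VV L ⊓ centralizer (A : Set G) : Subgroup G) := h4
      _ = _ := by rw [← h5]; ring
  refine ⟨?_, key.2 h7⟩
  rw [← h7, h6, ← h5]; ring

/-- transvections in the images of members of `𝒜(T)` -/
def DJ (T L : Subgroup G) : Set (MulAut ↥(VV L)) := {d | (∃ A, MaxEA 2 T A ∧ d ∈ im L A) ∧ ∃ v, Tv d v}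

theorem LD.J_le (H : Hyp G) {T L : Subgroup G} (h : LD T L) : im L (J T) ≤ closure (DJ T L) := by
  have h1 : J T ≤ L ⊓ ((closure (DJ T L)).comap (φ L)).map L.subtype := by
    rw [J_eq, JJ]
    apply sSup_le
    intro A hA
    have hAL : A ≤ L := hA.1.trans h.syl.le
    apply le_inf hAL
    intro a ha
    refine ⟨⟨a, hAL ha⟩, ?_, rfl⟩
    have h2 := (h.T3 H hA).2 (mem_im.mpr ⟨⟨a, hAL ha⟩, ha, rfl⟩)
    refine closure_mono ?_ h2
    rintro d ⟨hd, hv⟩
    exact ⟨⟨A, hA, hd⟩, hv⟩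
  intro f hf
  obtain ⟨x, hx, rfl⟩ := mem_im.mp hf
  obtain ⟨y, hy, hyx⟩ := (mem_inf.mp (h1 hx)).2
  have : y = x := Subtype.ext hyx
  rw [← this]; exact hy

theorem DJ_le {T L : Subgroup G} {d : MulAut ↥(VV L)} (hd : d ∈ DJ T L) : d ∈ im L (J T) := by
  obtain ⟨⟨A, hA, hd⟩, _⟩ := hd
  exact im_mono (maxEA_le_J hA) hd

/-- replacement: a member of `𝒜(T)` inducing exactly `⟨d⟩` -/
theorem LD.star (H : Hyp G) {T L : Subgroup G} (h : LD T L) {d : MulAut ↥(VV L)} (hd : d ∈ DJ T L) :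
    ∃ A, MaxEA 2 T A ∧ (∃ a : L, (a : G) ∈ A ∧ φ L a = d) ∧ ∀ b : L, (b : G) ∈ A → φ L b = 1 ∨ φ L b = d := by
  obtain ⟨⟨A, hA, hdA⟩, v, hv⟩ := hd
  have hAL : A ≤ L := hA.1.trans h.syl.le
  have hd2 : d * d = 1 := hv.sq sqV
  set B : Subgroup G := A ⊓ ((zpowers d).comap (φ L)).map L.subtype with hB
  have hzp : ∀ x ∈ zpowers d, x = 1 ∨ x = d := by
    rintro x ⟨n, rfl⟩
    change d ^ n = 1 ∨ d ^ n = d
    rcases Int.even_or_odd' n with ⟨k, rfl | rfl⟩
    · left
      rw [zpow_mul]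
      have : d ^ (2 : ℤ) = 1 := by rw [zpow_two]; exact hd2
      rw [this, one_zpow]
    · right
      rw [zpow_add, zpow_mul]
      have : d ^ (2 : ℤ) = 1 := by rw [zpow_two]; exact hd2
      rw [this, one_zpow, one_mul, zpow_one]
  have hmemB : ∀ x : L, (x : G) ∈ B ↔ (x : G) ∈ A ∧ (φ L x = 1 ∨ φ L x = d) := by
    intro x
    rw [hB, mem_inf, mem_map]
    constructor
    · rintro ⟨h1, y, hy, hyx⟩
      have : y = x := Subtype.ext hyx
      rw [this] at hy
      exact ⟨h1, hzp _ hy⟩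
    · rintro ⟨h1, h3⟩
      refine ⟨h1, x, ?_, rfl⟩
      change φ L x ∈ zpowers d
      rcases h3 with h3 | h3 <;> rw [h3]
      · exact one_mem _
      · exact mem_zpowers d
  have hBA : B ≤ A := inf_le_left
  have hBL : B ≤ L := hBA.trans hAL
  obtain ⟨a, haA, had⟩ := mem_im.mp hdA
  have haB : (a : G) ∈ B := (hmemB a).mpr ⟨haA, Or.inr had⟩
  have hBC : B ⊓ CC L = A ⊓ CC L := by
    apply le_antisymm (inf_le_inf hBA le_rfl)
    intro x hx
    obtain ⟨h1, h3⟩ := mem_inf.mp hx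
    exact mem_inf.mpr ⟨(hmemB ⟨x, CC_le L h3⟩).mpr ⟨h1, Or.inl (φ_eq_one.mpr h3)⟩, h3⟩
  -- the image of `B`
  have himB : im L B = zpowers d := by
    apply le_antisymm
    · intro f hf
      obtain ⟨x, hx, rfl⟩ := mem_im.mp hf
      rcases ((hmemB x).mp hx).2 with h3 | h3 <;> rw [h3]
      · exact one_mem _
      · exact mem_zpowers d
    · rw [zpowers_le]
      exact mem_im.mpr ⟨a, haB, had⟩
  have hd1 : d ≠ 1 := by
    rintro rfl
    obtain ⟨x, hx⟩ := hv.nt
    exact hx rfl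
  have hcz : Nat.card (zpowers d) = 2 := by
    rw [Nat.card_zpowers]
    exact orderOf_eq_prime (by rw [pow_two]; exact hd2) hd1
  have hcB := card_im hBL
  rw [himB, hcz, hBC] at hcB
  -- `2 * |C_V(B)| ≥ |V|`
  have hFPd : Nat.card (VV L) ≤ 2 * Nat.card (VV L ⊓ centralizer (B : Set G) : Subgroup G) := by
    rw [← card_FP hBL, himB]
    have h1 := Subgroup.card_mul_index (FP (zpowers d))
    rw [← h1, mul_comm]
    apply Nat.mul_le_mul_right
    -- index ≤ 2
    have h3 : ∀ x, x ∈ FP (zpowers d) ↔ d x = x := by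
      intro x
      constructor
      · intro hx; exact hx d (mem_zpowers d)
      · intro hx b hb
        rcases hzp b hb with rfl | rfl
        · rfl
        · exact hx
    by_contra h5
    push Not at h5
    have h4 : (FP (zpowers d)).index = 2 := by
      rw [Subgroup.index_eq_two_iff]
      obtain ⟨x0, hx0⟩ := hv.nt
      refine ⟨x0, ?_⟩
      intro b
      rw [h3, h3]
      have e0 := (hv.tv x0).resolve_left hx0
      rcases hv.tv b with e | e
      · right
        refine ⟨e, ?_⟩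
        rw [map_mul, e, e0, ← mul_assoc]
        intro h6
        exact hv.ne (by simpa using h6)
      · left
        refine ⟨?_, ?_⟩
        · rw [map_mul, e, e0]
          simp only [mul_comm, mul_left_comm, mul_assoc, sqV, cc (sqV (L := L)), mul_one, one_mul]
        · rw [e]
          intro h6
          exact hv.ne (by simpa using h6)
    omega
  have hEq := (h.T3 H hA).1
  refine ⟨B ⊔ (VV L ⊓ centralizer (B : Set G)), ⟨?_, ?_, ?_⟩, ⟨a, mem_sup_left haB, had⟩, ?_⟩
  · exact sup_le (hBA.trans hA.1) (inf_le_left.trans h.V_le_T)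
  · exact sup_cent_EA (A := A) (EA.mono hA.2.1 hBA) commV' sqV'
  · intro D hD hDe
    refine (hA.2.2 D hD hDe).trans ?_
    have e1 := card_sup_cent (V := VV L) (EA.mono hA.2.1 hBA)
    have e2 : 0 < Nat.card (B ⊓ VV L : Subgroup G) := Nat.card_pos
    apply Nat.le_of_mul_le_mul_right _ e2
    rw [e1]
    have e3 : Nat.card (B ⊓ VV L : Subgroup G) ≤ Nat.card (VV L ⊓ centralizer (A : Set G) : Subgroup G) := by
      apply Subgroup.card_le_of_le
      intro x hx
      refine mem_inf.mpr ⟨(mem_inf.mp hx).2, mem_centralizer_iff.mpr ?_⟩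
      intro a ha
      exact hA.2.1.1 a ha x (hBA (mem_inf.mp hx).1)
    calc Nat.card A * Nat.card (B ⊓ VV L : Subgroup G)
        ≤ Nat.card A * Nat.card (VV L ⊓ centralizer (A : Set G) : Subgroup G) := Nat.mul_le_mul_left _ e3
      _ = Nat.card (A ⊓ CC L : Subgroup G) * Nat.card (VV L) := hEq.symm
      _ ≤ Nat.card (A ⊓ CC L : Subgroup G) * (2 * Nat.card (VV L ⊓ centralizer (B : Set G) : Subgroup G)) :=
        Nat.mul_le_mul_left _ hFPd
      _ = Nat.card B * Nat.card (VV L ⊓ centralizer (B : Set G) : Subgroup G) := by rw [← hcB]; ring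
  · intro b hb
    have hn : B ≤ normalizer ((VV L ⊓ centralizer (B : Set G) : Subgroup G) : Set G) := by
      rw [le_normalizer_iff_conj]
      intro b hb x hx
      have h1 := mem_centralizer_iff.mp (mem_inf.mp hx).2 b hb
      have : b * x * b⁻¹ = x := by rw [h1]; group
      rw [this]; exact hx
    obtain ⟨x, hx, y, hy, hxy⟩ := (H2.Card.mem_sup_iff hn).mp hb
    have hyL : y ∈ L := oP_le L (V_le_Q L (mem_inf.mp hy).1)
    have e1 : b = ⟨x, hBL hx⟩ * ⟨y, hyL⟩ := Subtype.ext hxy.symm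
    have e2 : φ L ⟨y, hyL⟩ = 1 := φ_eq_one.mpr (Q_le_C L (V_le_Q L (mem_inf.mp hy).1))
    rw [e1, map_mul, e2, mul_one]
    exact ((hmemB ⟨x, hBL hx⟩).mp hx).2

end Cfsg.Agent.H18.KS
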