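import Mathlib
import Cfsg.Agent.H18_KS4

/-!
# J(T)-components inside an overgroup `L`
-/

set_option autoImplicit false
set_option linter.unusedSectionVars false
set_option linter.unusedSimpArgs false
set_option linter.style.haveILetI false

namespace Cfsg.Agent.H18.KS

open Subgroup Pointwise
open scoped commutatorElement
open Cfsg.Agent.H13.Syl
open Cfsg.Agent.H18.CharP
open Cfsg.Agent.H12.ZJ

variable {G : Type*} [Group G]

theorem pow_of_sub {P : Subgroup G} {g : G} {hg : g ∈ P} {m : ℕ} (h : (⟨g, hg⟩ : P) ^ m = 1) : g ^ m = 1 :=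
  congrArg Subtype.val h

/-- `IsJComponent` only depends on `J(T)` -/
theorem JC.congr {T T' K : Subgroup G} (h : IsJComponent T K) (hJ : J T = J T') : IsJComponent T' K := by
  unfold IsJComponent at h ⊢
  have hJ' : thompsonSubgroupOf 2 T = thompsonSubgroupOf 2 T' := hJ
  rw [hJ'] at h
  exact h

/-- index 3 consequences -/
theorem JC.cube {T K : Subgroup G} (h : IsJComponent T K) {x : G} (hx : x ∈ K) : x ^ 3 ∈ oP 2 K := by
  have h1 : ((oP 2 K).subgroupOf K).Normal := by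
    rw [Subgroup.normal_subgroupOf_iff_le_normalizer (oP_le K)]
    exact norm_Q K
  have h3 : (⟨x, hx⟩ : K) ^ ((oP 2 K).relIndex K) ∈ (oP 2 K).subgroupOf K := Subgroup.pow_index_mem _ _
  have h4 : (oP 2 K).relIndex K = 3 := h.2.2.1
  rw [h4] at h3
  exact h3

variable [Finite G]

theorem JC.not_two {T K : Subgroup G} (h : IsJComponent T K) : ¬ K ≤ oP 2 K := by
  intro h1
  have h3 : (oP 2 K).relIndex K = 3 := h.2.2.1
  rw [relIndex_eq_one.mpr h1] at h3
  omega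

theorem JC.not_pgroup {T K : Subgroup G} (h : IsJComponent T K) : ¬ IsPGroup 2 ↥K := by
  intro h1
  exact JC.not_two h (le_oP h1 le_rfl Subgroup.le_normalizer)

/-- a subgroup of `K` containing `O₂(K)` is `O₂(K)` or `K` -/
theorem JC.max {T K M : Subgroup G} (h : IsJComponent T K) (h1 : oP 2 K ≤ M) (h2 : M ≤ K) : M = oP 2 K ∨ M = K := by
  have h3 : (oP 2 K).relIndex K = 3 := h.2.2.1
  have h4 := Subgroup.relIndex_mul_relIndex (oP 2 K) M K h1 h2
  rw [h3] at h4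
  rcases (Nat.prime_three.eq_one_or_self_of_dvd _ (Dvd.intro _ h4)) with h5 | h5
  · left; exact le_antisymm (relIndex_eq_one.mp h5) h1
  · right
    rw [h5] at h4
    exact le_antisymm h2 (relIndex_eq_one.mp (by omega))

section inL

variable {T L K : Subgroup G}

theorem LD.KJ_le (h : LD T L) (hKL : K ≤ L) : K ⊔ J T ≤ L := sup_le hKL ((KS.J_le T).trans h.syl.le)

theorem LD.T_le_NJ (T : Subgroup G) : T ≤ normalizer (J T : Set G) := by
  rw [J_eq]
  exact (Subgroup.le_normalizer).trans (normalizer_le_JJ 2 T)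

theorem LD.Q_norm_K (h : LD T L) (hK : IsJComponent T K) (hKL : K ≤ L) : oP 2 L ≤ normalizer (K : Set G) :=
  norm_of (J_pgroup h.syl.isPGroup) hK.1 hK.2.1 ((h.KJ_le hKL).trans (norm_Q L)) (h.Q_le_T.trans (LD.T_le_NJ T))

/-- `K` is not contained in `C` -/
theorem LD.K_not_le_C (H : Hyp G) (h : LD T L) (hK : IsJComponent T K) : ¬ K ≤ CC L := by
  intro h1
  apply JC.not_pgroup hK
  have h2 : K ≤ oP 2 L := by
    have h3 : ⁅K, J T⁆ = K := hK.2.1
    rw [← h3]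
    exact (commutator_mono h1 le_rfl).trans (h.comm_CJ H)
  exact (oP_isPGroup L).to_le h2

theorem im_oddGen {L A : Subgroup G} {f : MulAut ↥(VV L)} (hA : A ≤ L) {N : Subgroup (MulAut ↥(VV L))}
    (hodd : oddGen A = A) (h : ∀ a : L, (a : G) ∈ A → Odd (orderOf (φ L a)) → φ L a ∈ N) (hf : f ∈ im L A) :
    f ∈ N := by
  have h1 : A ≤ (N.comap (φ L)).map L.subtype := by
    conv_lhs => rw [← hodd]
    rw [oddGen, closure_le]
    rintro x ⟨hx, ho⟩
    refine ⟨⟨x, hA hx⟩, ?_, rfl⟩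
    apply h ⟨x, hA hx⟩ hx
    have h3 : orderOf (φ L ⟨x, hA hx⟩) ∣ orderOf (⟨x, hA hx⟩ : L) := orderOf_map_dvd _ _
    rw [Subgroup.orderOf_mk] at h3
    exact Odd.of_dvd_nat ho h3
  obtain ⟨x, hx, rfl⟩ := mem_im.mp hf
  obtain ⟨y, hy, hyx⟩ := h1 hx
  have : y = x := Subtype.ext hyx
  rw [← this]; exact hy

/-- the configuration of a component in `L` -/
structure CD (T L K : Subgroup G) (F : Subgroup (MulAut ↥(VV L))) (d n : MulAut ↥(VV L)) (v v1 : ↥(VV L)) : Prop where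
  dJ : d ∈ DJ T L
  tr : Tr F d n v v1
  im : im L K = zpowers n

/-- every transvection of the image of `L` yields a configuration -/
theorem exists_Tr' {F : Subgroup (MulAut ↥(VV L))} (hF : FD L F) {x : L} {v : ↥(VV L)} (hd : Tv (φ L x) v) :
    ∃ n v1, Tr F (φ L x) n v v1 := by
  apply exists_Tr sqV hF.odd hd (hF.norm x)
  by_contra hno
  push Not at hno
  have h1 := hF.cent x (fun f hf => (mul_inv_eq_iff_eq_mul.mp (hno f hf)).symm)
  have h2 := odd_of_mem hF.odd h1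
  have h3 := eq_one_of_odd_pow (sqV (L := L)) (k := 1) (by rw [pow_one, pow_two]; exact hd.sq sqV) h2
  obtain ⟨y, hy⟩ := hd.nt
  rw [h3] at hy
  exact hy rfl

theorem LD.exists_CD (H : Hyp G) (h : LD T L) {F : Subgroup (MulAut ↥(VV L))} (hF : FD L F)
    (hK : IsJComponent T K) (hKL : K ≤ L) : ∃ d n v v1, CD T L K F d n v v1 := by
  have hK2L : oP 2 K ≤ L := (oP_le K).trans hKL
  have hJL : J T ≤ L := (KS.J_le T).trans h.syl.le
  have hJK : J T ≤ normalizer (K : Set G) := JC.norm hK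
  have hJK2 : J T ≤ normalizer (oP 2 K : Set G) := hJK.trans (le_normalizer_oP K)
  -- a transvection acting nontrivially on `K / O₂(K)`
  obtain ⟨d, hd, x, hxK, hx⟩ : ∃ d ∈ DJ T L, ∃ x : L, (x : G) ∈ K ∧ φ L x * d * (φ L x)⁻¹ * d⁻¹ ∉ im L (oP 2 K) := by
    by_contra hno
    push Not at hno
    -- the set of elements acting trivially
    let R : Subgroup (MulAut ↥(VV L)) := {
      carrier := {f | f ∈ im L (J T) ∧ ∀ x : L, (x : G) ∈ K → φ L x * f * (φ L x)⁻¹ * f⁻¹ ∈ im L (oP 2 K)}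
      one_mem' := ⟨one_mem _, fun x _ => by simp⟩
      mul_mem' := by
        rintro a b ⟨ha, ha'⟩ ⟨hb, hb'⟩
        refine ⟨mul_mem ha hb, fun x hx => ?_⟩
        obtain ⟨y, hy, rfl⟩ := mem_im.mp ha
        have e1 : φ L x * (φ L y * b) * (φ L x)⁻¹ * (φ L y * b)⁻¹ =
            (φ L x * φ L y * (φ L x)⁻¹ * (φ L y)⁻¹) * (φ L y * (φ L x * b * (φ L x)⁻¹ * b⁻¹) * (φ L y)⁻¹) := by group
        rw [e1]
        refine mul_mem (ha' x hx) ?_
        obtain ⟨z, hz, hz'⟩ := mem_im.mp (hb' x hx)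
        rw [← hz']
        refine mem_im.mpr ⟨y * z * y⁻¹, ?_, by rw [map_mul, map_mul, map_inv]⟩
        exact (mem_normalizer_iff.mp (hJK2 hy) z).mp hz
      inv_mem' := by
        rintro a ⟨ha, ha'⟩
        refine ⟨inv_mem ha, fun x hx => ?_⟩
        obtain ⟨y, hy, rfl⟩ := mem_im.mp ha
        obtain ⟨z, hz, hz'⟩ := mem_im.mp (ha' x hx)
        have e1 : φ L x * (φ L y)⁻¹ * (φ L x)⁻¹ * (φ L y)⁻¹⁻¹ =
            (φ L y)⁻¹ * (φ L x * φ L y * (φ L x)⁻¹ * (φ L y)⁻¹)⁻¹ * (φ L y)⁻¹⁻¹ := by group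
        rw [e1, ← hz']
        refine mem_im.mpr ⟨y⁻¹ * z⁻¹ * y⁻¹⁻¹, ?_, by simp only [map_mul, map_inv]⟩
        exact (mem_normalizer_iff.mp (hJK2 (inv_mem hy)) _).mp (inv_mem hz) }
    have h1 : im L (J T) ≤ R := by
      refine (h.J_le H).trans ?_
      rw [closure_le]
      intro d hd
      exact ⟨DJ_le hd, fun x hx => hno d hd x hx⟩
    -- hence `K ≤ O₂(K) C`
    have h2 : K ≤ oP 2 K ⊔ CC L := by
      have h3 : ⁅K, J T⁆ = K := hK.2.1
      conv_lhs => rw [← h3]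
      rw [commutator_le]
      intro x hx y hy
      have h4 := (h1 (mem_im.mpr ⟨⟨y, hJL hy⟩, hy, rfl⟩)).2 ⟨x, hKL hx⟩ hx
      obtain ⟨z, hz, hz'⟩ := mem_im.mp h4
      rw [← map_inv, ← map_inv, ← map_mul, ← map_mul, ← map_mul] at hz'
      have h5 : φ L (z⁻¹ * (⟨x, hKL hx⟩ * ⟨y, hJL hy⟩ * ⟨x, hKL hx⟩⁻¹ * ⟨y, hJL hy⟩⁻¹)) = 1 := by
        rw [map_mul, ← hz', map_inv]; group
      have h6 := φ_eq_one.mp h5
      have h7 : ⁅x, y⁆ = (z : G) * ((z : G)⁻¹ * (x * y * x⁻¹ * y⁻¹)) := by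
        rw [commutatorElement_def]; group
      rw [h7]
      exact mul_mem (mem_sup_left hz) (mem_sup_right h6)
    -- K is generated by odd elements, which lie in `C`
    apply h.K_not_le_C H hK
    have h3 : oddGen K = K := JC.gen hK
    conv_lhs => rw [← h3]
    have h4 : TwoOver (CC L) (CC L ⊔ oP 2 K) := twoOver_sup (hK2L.trans (norm_C L)) (oP_isPGroup K)
    refine (oddGen_mono ?_).trans h4.oddGen_le
    rw [sup_comm]; exact h2
  obtain ⟨⟨A, hA, hdA⟩, v, hv⟩ := hd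
  obtain ⟨a, haA, had⟩ := mem_im.mp hdA
  subst had
  obtain ⟨n, v1, htr⟩ := exists_Tr' hF hv
  have haJ : (a : G) ∈ J T := maxEA_le_J hA haA
  -- the conjugate transvection
  have he : Tv (φ L (x * a * x⁻¹)) (φ L x v) := by
    rw [map_mul, map_mul, map_inv]; exact hv.conj sqV _
  obtain ⟨m, w1, htr'⟩ := exists_Tr' hF he
  have hdi := hv.inv (sqV (L := L))
  have hdd := hv.sq (sqV (L := L))
  have hcK : ((x * a * x⁻¹ * a⁻¹ : L) : G) ∈ K := by
    have h1 : ((a : G) * (x : G)⁻¹ * (a : G)⁻¹) ∈ K := (mem_normalizer_iff.mp (hJK haJ) _).mp (inv_mem hxK)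
    have h3 := mul_mem hxK h1
    have h4 : ((x * a * x⁻¹ * a⁻¹ : L) : G) = (x : G) * ((a : G) * (x : G)⁻¹ * (a : G)⁻¹) := by
      simp only [Subgroup.coe_mul, Subgroup.coe_inv]; group
    rw [h4]; exact h3
  have hcim : φ L x * φ L a * (φ L x)⁻¹ * (φ L a)⁻¹ ∈ im L K :=
    mem_im.mpr ⟨_, hcK, by simp only [map_mul, map_inv]⟩
  have hnK : n ∈ im L K := by
    have hn3 := htr.n3
    have hdnd := htr.dn
    have e0 : φ L (x * a * x⁻¹) = φ L x * φ L a * (φ L x)⁻¹ := by rw [map_mul, map_mul, map_inv]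
    rcases htr.T2 sqV htr' with h1 | ⟨_, h1 | h1 | h1⟩
    · -- commuting: `[x, a]` is a 2-element
      exfalso
      apply hx
      set c := x * a * x⁻¹ * a⁻¹ with hc
      have hc1 : φ L c = φ L x * φ L a * (φ L x)⁻¹ * (φ L a)⁻¹ := by simp only [hc, map_mul, map_inv]
      have hc2 : φ L c * φ L c = 1 := by
        have ee : (φ L x * φ L a * (φ L x)⁻¹) * (φ L x * φ L a * (φ L x)⁻¹) = 1 := by
          calc (φ L x * φ L a * (φ L x)⁻¹) * (φ L x * φ L a * (φ L x)⁻¹) = φ L x * (φ L a * φ L a) * (φ L x)⁻¹ := by group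
            _ = 1 := by rw [hdd]; group
        rw [hc1, hdi]
        rw [e0] at h1
        calc φ L x * φ L a * (φ L x)⁻¹ * φ L a * (φ L x * φ L a * (φ L x)⁻¹ * φ L a)
            = (φ L x * φ L a * (φ L x)⁻¹) * (φ L a * (φ L x * φ L a * (φ L x)⁻¹)) * φ L a := by group
          _ = (φ L x * φ L a * (φ L x)⁻¹) * (φ L x * φ L a * (φ L x)⁻¹) * (φ L a * φ L a) := by rw [h1]; group
          _ = 1 := by rw [ee, hdd, one_mul]
      have hc3 := JC.cube hK hcK
      rw [← hc1]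
      refine mem_im.mpr ⟨c ^ 3, hc3, ?_⟩
      rw [map_pow, pow_succ, pow_two, hc2, one_mul]
    · exfalso
      apply hx
      rw [← e0, h1, mul_inv_cancel]; exact one_mem _
    · -- `e = n d n⁻¹`
      rw [← e0, h1, hdi] at hcim
      have e2 : n * φ L a * n⁻¹ * φ L a = n⁻¹ := by
        have e3 : φ L a * n⁻¹ * φ L a = n := by
          have := congrArg (·⁻¹) hdnd
          simp only [mul_inv_rev, hdi, inv_inv] at this
          rw [mul_assoc]; exact this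
        calc n * φ L a * n⁻¹ * φ L a = n * (φ L a * n⁻¹ * φ L a) := by group
          _ = n * n := by rw [e3]
          _ = n⁻¹ := mul_eq_one_iff_eq_inv.mp hn3
      rw [e2] at hcim
      have := inv_mem hcim
      rwa [inv_inv] at this
    · rw [← e0, h1, hdi] at hcim
      have e2 : n⁻¹ * φ L a * n * φ L a = n := by
        calc n⁻¹ * φ L a * n * φ L a = n⁻¹ * (φ L a * n * φ L a) := by group
          _ = n⁻¹ * n⁻¹ := by rw [hdnd]
          _ = (n * n)⁻¹ := by group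
          _ = n := by
            have := mul_eq_one_iff_inv_eq.mp hn3
            exact this
      rw [e2] at hcim
      exact hcim
  refine ⟨φ L a, n, v, v1, ⟨⟨A, hA, hdA⟩, v, hv⟩, htr, ?_⟩
  apply le_antisymm _ (by rw [zpowers_le]; exact hnK)
  -- `F ∩ K̄` centralizes the image of `O₂(K)`
  obtain ⟨k, hkK, hkn⟩ := mem_im.mp hnK
  have hn3 : n ^ 3 = 1 := by rw [pow_succ, pow_two]; exact htr.n3
  have hcomm2 : ∀ y : L, (y : G) ∈ oP 2 K → φ L y * n = n * φ L y := by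
    intro y hy
    have h1 : (y : G) * k * (y : G)⁻¹ * (k : G)⁻¹ ∈ oP 2 K := by
      have h3 : (k : G) * (y : G)⁻¹ * (k : G)⁻¹ ∈ oP 2 K :=
        (mem_normalizer_iff.mp (norm_Q K hkK) _).mp (inv_mem hy)
      have := mul_mem hy h3
      simpa only [mul_assoc] using this
    have h3 : φ L y * n * (φ L y)⁻¹ * n⁻¹ ∈ F := mul_mem (hF.norm y n htr.nF) (inv_mem htr.nF)
    have h4 : Odd (orderOf (φ L y * n * (φ L y)⁻¹ * n⁻¹)) := odd_of_mem hF.odd h3
    obtain ⟨j, hj⟩ := oP_isPGroup K ⟨_, h1⟩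
    have h5 : (φ L y * n * (φ L y)⁻¹ * n⁻¹) ^ (2 ^ j) = 1 := by
      have e1 : φ L y * n * (φ L y)⁻¹ * n⁻¹ = φ L (y * k * y⁻¹ * k⁻¹) := by
        simp only [map_mul, map_inv, hkn]
      rw [e1, ← map_pow]
      have e2 : (y * k * y⁻¹ * k⁻¹) ^ (2 ^ j) = 1 := Subtype.ext (pow_of_sub hj)
      rw [e2, map_one]
    have h6 := eq_one_of_odd_pow (sqV (L := L)) h5 h4
    rw [mul_inv_eq_one] at h6
    exact mul_inv_eq_iff_eq_mul.mp h6
  -- `K = O₂(K) ⟨k⟩`
  have hkn1 : n ≠ 1 := htr.n_ne_one sqV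
  have hKsup : oP 2 K ⊔ zpowers (k : G) = K := by
    rcases JC.max hK (le_sup_left : oP 2 K ≤ oP 2 K ⊔ zpowers (k : G)) (sup_le (oP_le K) (by rw [zpowers_le]; exact hkK)) with h1 | h1
    · exfalso
      have h3 : (k : G) ∈ oP 2 K := by rw [← h1]; exact mem_sup_right (mem_zpowers _)
      obtain ⟨j, hj⟩ := oP_isPGroup K ⟨_, h3⟩
      have h5 : n ^ (2 ^ j) = 1 := by
        rw [← hkn, ← map_pow]
        have e2 : k ^ (2 ^ j) = 1 := Subtype.ext (pow_of_sub hj)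
        rw [e2, map_one]
      exact hkn1 (eq_one_of_odd_pow (sqV (L := L)) h5 (odd_of_mem hF.odd htr.nF))
    · exact h1
  intro f hf
  apply im_oddGen (f := f) (N := zpowers n) hKL (JC.gen hK) _ hf
  intro y hy hyo
  have hy' : (y : G) ∈ oP 2 K ⊔ zpowers (k : G) := by rw [hKsup]; exact hy
  obtain ⟨q, hq, z, hz, hqz⟩ := mem_sup_of_norm (by rw [zpowers_le]; exact norm_Q K hkK) hy'
  obtain ⟨i, rfl⟩ := mem_zpowers_iff.mp hz
  have e1 : y = ⟨q, hK2L hq⟩ * k ^ i := Subtype.ext hqz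
  have e2 : φ L y = φ L ⟨q, hK2L hq⟩ * n ^ i := by rw [e1, map_mul, map_zpow, hkn]
  have c1 : Commute (φ L ⟨q, hK2L hq⟩) (n ^ i) := (show Commute _ n from hcomm2 ⟨q, hK2L hq⟩ hq).zpow_right i
  obtain ⟨j, hj⟩ := oP_isPGroup K ⟨q, hq⟩
  have e3 : (φ L ⟨q, hK2L hq⟩) ^ (2 ^ j) = 1 := by
    rw [← map_pow]
    have e2 : (⟨q, hK2L hq⟩ : L) ^ (2 ^ j) = 1 := Subtype.ext (pow_of_sub hj)
    rw [e2, map_one]
  apply odd_mem_of_pow (m := j) _ hyo
  rw [e2, c1.mul_pow, e3, one_mul]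
  exact pow_mem (zpow_mem (mem_zpowers n) i) _


variable {F : Subgroup (MulAut ↥(VV L))} {d n : MulAut ↥(VV L)} {v v1 : ↥(VV L)}

theorem Tr.n_pow (t : Tr F d n v v1) : n ^ 3 = 1 := by rw [pow_succ, pow_two]; exact t.n3

theorem Tr.zp_odd (t : Tr F d n v v1) {x : MulAut ↥(VV L)} (hx : x ∈ zpowers n) {j : ℕ} (hj : x ^ (2 ^ j) = 1) : x = 1 := by
  have h1 : orderOf x ∣ orderOf n := orderOf_dvd_of_mem_zpowers hx
  have h2 : orderOf n ∣ 3 := orderOf_dvd_of_pow_eq_one t.n_pow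
  exact eq_one_of_odd_pow (sqV (L := L)) hj (Odd.of_dvd_nat (by decide) (h1.trans h2))

theorem CD.oP_le_Q (H : Hyp G) (h : LD T L) (hKL : K ≤ L) (c : CD T L K F d n v v1) :
    oP 2 K ≤ oP 2 L := by
  intro y hy
  have hyL : y ∈ L := hKL (oP_le K hy)
  obtain ⟨j, hj⟩ := oP_isPGroup K ⟨y, hy⟩
  have hj' : y ^ (2 ^ j) = 1 := pow_of_sub hj
  have h1 : φ L ⟨y, hyL⟩ = 1 := by
    apply c.tr.zp_odd (j := j)
    · rw [← c.im]; exact mem_im.mpr ⟨⟨y, hyL⟩, oP_le K hy, rfl⟩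
    · rw [← map_pow]
      have : (⟨y, hyL⟩ : L) ^ (2 ^ j) = 1 := Subtype.ext hj'
      rw [this, map_one]
  exact h.two_mem H (φ_eq_one.mp h1) (k := j) (by rw [hj']; exact one_mem _)

theorem CD.inf_Q (H : Hyp G) (h : LD T L) (hKL : K ≤ L) (c : CD T L K F d n v v1) :
    K ⊓ oP 2 L = oP 2 K := by
  apply le_antisymm
  · exact le_oP ((oP_isPGroup L).to_le inf_le_right) inf_le_left
      (H22.Basic.le_normalizer_inf Subgroup.le_normalizer (hKL.trans (norm_Q L)))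
  · exact le_inf (oP_le K) (c.oP_le_Q H h hKL)

theorem CD.inf_C (H : Hyp G) (h : LD T L) (hK : IsJComponent T K) (hKL : K ≤ L) (c : CD T L K F d n v v1) :
    K ⊓ CC L = oP 2 K := by
  rcases JC.max hK (le_inf (oP_le K) ((c.oP_le_Q H h hKL).trans (Q_le_C L))) (inf_le_left : K ⊓ CC L ≤ K) with h1 | h1
  · exact h1
  · exact absurd (inf_eq_left.mp h1) (h.K_not_le_C H hK)

theorem CD.W_le (H : Hyp G) (h : LD T L) (hK : IsJComponent T K) (hKL : K ≤ L) (c : CD T L K F d n v v1) :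
    (fourGp sqV v v1).map (VV L).subtype ≤ wOf K := by
  obtain ⟨k, hkK, hkn⟩ : ∃ k : L, (k : G) ∈ K ∧ φ L k = n := by
    have : n ∈ KS.im L K := by rw [c.im]; exact mem_zpowers n
    exact mem_im.mp this
  have hA : ∀ u ∈ fourGp sqV v v1, ∃ u' ∈ fourGp sqV v v1, u = n u' * u' := by
    rintro u (rfl | rfl | rfl | rfl)
    · exact ⟨1, one_mem _, by simp⟩
    · exact ⟨v1, Or.inr (Or.inr (Or.inl rfl)), by rw [c.tr.nv1, mul_assoc, sqV, mul_one]⟩
    · exact ⟨v * u, Or.inr (Or.inr (Or.inr rfl)), by rw [c.tr.nvv1 sqV, cc sqV]⟩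
    · exact ⟨v, Or.inr (Or.inl rfl), by rw [c.tr.nv, mul_comm]⟩
  have hB : ∀ u' : VV L, ((n u' * u' : VV L) : G) = ⁅(k : G), (u' : G)⁆ := by
    intro u'
    rw [← hkn, Subgroup.coe_mul, φ_apply, commutatorElement_def]
    congr 1
    exact (inv_eq_of_mul_eq_one_left (congrArg Subtype.val (sqV u'))).symm
  have hC : ∀ u' : VV L, ((n u' * u' : VV L) : G) ∈ omegaCenterOf (oP 2 K) := by
    intro u'
    have h1 : ((n u' * u' : VV L) : G) ∈ K := by
      rw [hB, commutatorElement_def]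
      have h3 : (u' : G) * (k : G)⁻¹ * (u' : G)⁻¹ ∈ K :=
        (mem_normalizer_iff.mp (h.Q_norm_K hK hKL (V_le_Q L u'.2)) _).mp (inv_mem hkK)
      have := mul_mem hkK h3
      simpa only [mul_assoc] using this
    have h2 : ((n u' * u' : VV L) : G) ∈ VV L := (n u' * u' : VV L).2
    rw [mem_omegaCenterOf]
    refine ⟨?_, ?_, sqV' _ h2⟩
    · rw [← c.inf_Q H h hKL]; exact mem_inf.mpr ⟨h1, V_le_Q L h2⟩
    · intro y hy
      exact (mem_omegaCenterOf.mp h2).2.1 y (c.oP_le_Q H h hKL hy)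
  rintro _ ⟨u, hu, rfl⟩
  obtain ⟨u', hu', rfl⟩ := hA u hu
  obtain ⟨u'', hu'', hu3⟩ := hA u' hu'
  change ((n u' * u' : VV L) : G) ∈ _
  rw [hB, wOf, commutator_comm]
  apply commutator_mem_commutator hkK
  rw [hu3]
  exact hC u''

theorem CD.W_eq (H : Hyp G) (h : LD T L) (hK : IsJComponent T K) (hKL : K ≤ L) (c : CD T L K F d n v v1) :
    wOf K = (fourGp sqV v v1).map (VV L).subtype := by
  symm
  apply H2.Card.eq_of_le_of_card_eq (c.W_le H h hK hKL)
  rw [hK.2.2.2.2.1, Subgroup.card_map_of_injective (Subgroup.subtype_injective _)]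
  exact c.tr.card_four sqV

/-- components with the same image are equal -/
theorem LD.eq_of_im (H : Hyp G) (h : LD T L) (hK : IsJComponent T K) (hKL : K ≤ L) {K' : Subgroup G}
    (hK' : IsJComponent T K') (hKL' : K' ≤ L) (he : im L K' ≤ im L K) : K' ≤ K := by
  have hQK := h.Q_norm_K hK hKL
  have hJL : J T ≤ L := (KS.J_le T).trans h.syl.le
  have h1 : K' ≤ K ⊔ oP 2 L := by
    have h3 : ⁅K', J T⁆ = K' := hK'.2.1
    conv_lhs => rw [← h3]
    rw [commutator_le]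
    intro x hx j hj
    obtain ⟨k, hk, hkx⟩ := mem_im.mp (he (mem_im.mpr ⟨⟨x, hKL' hx⟩, hx, rfl⟩))
    have h4 : φ L (k⁻¹ * ⟨x, hKL' hx⟩) = 1 := by rw [map_mul, map_inv, hkx, inv_mul_cancel]
    have h5 : (k : G)⁻¹ * x ∈ CC L := φ_eq_one.mp h4
    have h6 : ⁅(k : G)⁻¹ * x, j⁆ ∈ oP 2 L := h.comm_CJ H (commutator_mem_commutator h5 hj)
    have h7 : ⁅(k : G), j⁆ ∈ K := by
      have h8 : ⁅K, J T⁆ = K := hK.2.1
      rw [← h8]; exact commutator_mem_commutator hk hj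
    have h9 : ⁅x, j⁆ = ((k : G) * ⁅(k : G)⁻¹ * x, j⁆ * (k : G)⁻¹) * ⁅(k : G), j⁆ := by
      simp only [commutatorElement_def]; group
    rw [h9]
    refine mul_mem (mem_sup_right ?_) (mem_sup_left h7)
    exact (mem_normalizer_iff.mp (norm_Q L k.2) _).mp h6
  have h3 : oddGen K' = K' := JC.gen hK'
  rw [← h3]
  refine (oddGen_mono h1).trans ?_
  exact (oddGen_sup hQK (oP_isPGroup L) (JC.gen hK)).le

/-- **uniqueness**: components with intersecting `W` are equal -/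
theorem CD.trivial_of_ne (c : CD T L K F d n v v1) {K' : Subgroup G} {d' n' : MulAut ↥(VV L)} {w w1 : ↥(VV L)}
    (c' : CD T L K' F d' n' w w1) (hne : zpowers n ≠ zpowers n') : n' * d = d * n' ∧ n' v = v ∧ n' v1 = v1 := by
  have h1 : n' * d = d * n' := by
    rcases c.tr.T2' sqV c'.tr.nF (c'.tr.card_four sqV) (c'.tr.mem_four sqV) with h | h | h
    · exact h
    · exact absurd (by rw [h]) hne
    · exact absurd (by rw [h, zpowers_inv]) hne
  have h2 : n' v = v := by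
    have h3 := c.tr.tv.conj sqV n'
    rw [h1, mul_inv_cancel_right] at h3
    exact Tv.unique sqV h3 c.tr.tv
  refine ⟨h1, h2, ?_⟩
  have h3 : n' (n v) = n (n' v) := congrArg (fun f : MulAut ↥(VV L) => f v) (c.tr.cent n' c'.tr.nF)
  rw [h2, c.tr.nv] at h3
  exact h3

theorem LD.uniq_im (H : Hyp G) (h : LD T L) (hK : IsJComponent T K) (hKL : K ≤ L) {K' : Subgroup G}
    (hK' : IsJComponent T K') (hKL' : K' ≤ L) (hW : wOf K ⊓ wOf K' ≠ ⊥)
    (c : CD T L K F d n v v1) {d' n' : MulAut ↥(VV L)} {w w1 : ↥(VV L)}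
    (c' : CD T L K' F d' n' w w1) : zpowers n = zpowers n' := by
  by_contra hne
  obtain ⟨h1, h2, h3⟩ := c.trivial_of_ne c' hne
  apply hW
  rw [Subgroup.eq_bot_iff_forall]
  intro x hx
  rw [c.W_eq H h hK hKL, c'.W_eq H h hK' hKL'] at hx
  obtain ⟨⟨a, ha, rfl⟩, ⟨b, hb, hba⟩⟩ := mem_inf.mp hx
  have hab : b = a := Subtype.ext hba
  subst hab
  have e1 : n' b = b := by
    rcases ha with rfl | rfl | rfl | rfl
    · exact map_one _
    · exact h2
    · exact h3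
    · rw [map_mul, h2, h3]
  rcases hb with rfl | hb
  · rfl
  · exact absurd e1 (c'.tr.not_fix sqV hb)

theorem LD.uniq (H : Hyp G) (h : LD T L) (hK : IsJComponent T K) (hKL : K ≤ L) {K' : Subgroup G}
    (hK' : IsJComponent T K') (hKL' : K' ≤ L) (hW : wOf K ⊓ wOf K' ≠ ⊥) : K = K' := by
  obtain ⟨F, hF⟩ := h.exists_F H
  obtain ⟨d, n, v, v1, c⟩ := h.exists_CD H hF hK hKL
  obtain ⟨d', n', w, w1, c'⟩ := h.exists_CD H hF hK' hKL'
  have h1 := h.uniq_im H hK hKL hK' hKL' hW c c'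
  apply le_antisymm
  · exact h.eq_of_im H hK' hKL' hK hKL (by rw [c.im, c'.im, h1])
  · exact h.eq_of_im H hK hKL hK' hKL' (by rw [c.im, c'.im, h1])

theorem J_cj (g : G) (T : Subgroup G) : J (cj g T) = cj g (J T) := by
  rw [J_eq, J_eq, cj_JJ]

theorem oP_cj (g : G) (K : Subgroup G) : oP 2 (cj g K) = cj g (oP 2 K) := by
  have key : ∀ (g : G) (K : Subgroup G), cj g (oP 2 K) ≤ oP 2 (cj g K) := by
    intro g K
    apply le_oP (isPGroup_cj (oP_isPGroup K)) (cj_mono (oP_le K))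
    rw [← cj_normalizer]
    exact cj_mono (norm_Q K)
  apply le_antisymm _ (key g K)
  have := key g⁻¹ (cj g K)
  rw [cj_inv_cj, cj_le_iff, inv_inv] at this
  exact this

theorem omegaCenterOf_cj (g : G) (X : Subgroup G) : omegaCenterOf (cj g X) = cj g (omegaCenterOf X) := by
  ext x
  rw [mem_cj, mem_omegaCenterOf, mem_omegaCenterOf, mem_cj]
  constructor
  · rintro ⟨h1, h2, h3⟩
    refine ⟨h1, ?_, ?_⟩
    · intro y hy
      have := h2 (g * y * g⁻¹) (conj_mem_cj hy)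
      calc y * (g⁻¹ * x * g) = g⁻¹ * (g * y * g⁻¹ * x) * g := by group
        _ = g⁻¹ * x * g * y := by rw [this]; group
    · calc g⁻¹ * x * g * (g⁻¹ * x * g) = g⁻¹ * (x * x) * g := by group
        _ = 1 := by rw [h3]; group
  · rintro ⟨h1, h2, h3⟩
    refine ⟨h1, ?_, ?_⟩
    · intro y hy
      rw [mem_cj] at hy
      have := h2 _ hy
      calc y * x = g * (g⁻¹ * y * g * (g⁻¹ * x * g)) * g⁻¹ := by group
        _ = x * y := by rw [this]; group
    · calc x * x = g * (g⁻¹ * x * g * (g⁻¹ * x * g)) * g⁻¹ := by group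
        _ = 1 := by rw [h3]; group

theorem wOf_cj (g : G) (K : Subgroup G) : wOf (cj g K) = cj g (wOf K) := by
  have h1 : ∀ X : Subgroup G, wOf X = ⁅omegaCenterOf (oP 2 X), X⁆ := fun _ => rfl
  rw [h1, h1, oP_cj, omegaCenterOf_cj, cj_commutator]

theorem oddGen_cj (g : G) (K : Subgroup G) : oddGen (cj g K) = cj g (oddGen K) := by
  have key : ∀ (g : G) (K : Subgroup G), cj g (oddGen K) ≤ oddGen (cj g K) := by
    intro g K
    rw [cj, oddGen, MonoidHom.map_closure, closure_le]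
    rintro _ ⟨x, ⟨hx, ho⟩, rfl⟩
    apply Subgroup.subset_closure
    refine ⟨conj_mem_cj hx, ?_⟩
    change Odd (orderOf (MulAut.conj g x))
    rw [MulEquiv.orderOf_eq]
    exact ho
  apply le_antisymm _ (key g K)
  have := key g⁻¹ (cj g K)
  rw [cj_inv_cj, cj_le_iff, inv_inv] at this
  exact this

/-- conjugates of components -/
theorem JC.conj {K : Subgroup G} (hK : IsJComponent T K) (g : G) : IsJComponent (H13.Syl.cj g T) (H13.Syl.cj g K) := by
  refine ⟨?_, ?_, ?_, ?_, ?_, ?_⟩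
  · change oddGen (H13.Syl.cj g K) = _
    rw [oddGen_cj, JC.gen hK]
  · change ⁅H13.Syl.cj g K, J (H13.Syl.cj g T)⁆ = _
    rw [J_cj, ← cj_commutator]
    exact congrArg _ hK.2.1
  · change (oP 2 (H13.Syl.cj g K)).relIndex _ = 3
    rw [oP_cj, relIndex_cj]
    exact hK.2.2.1
  · intro S hS hJS
    change J S = J (H13.Syl.cj g T)
    have hJS' : J (H13.Syl.cj g T) ≤ S := hJS
    have hS' : IsSylIn 2 S (H13.Syl.cj g K ⊔ J (H13.Syl.cj g T)) := syl_iff.mp hS
    rw [J_cj] at hJS' hS' ⊢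
    rw [← cj_sup] at hS'
    have h1 := hS'.cj g⁻¹
    rw [cj_inv_cj] at h1
    have h2 : J T ≤ H13.Syl.cj g⁻¹ S := by
      rw [← cj_le_iff]; exact hJS'
    have h3 : J (H13.Syl.cj g⁻¹ S) = J T := hK.2.2.2.1 _ (syl_iff.mpr h1) h2
    rw [J_cj] at h3
    rw [← h3, cj_cj_inv]
  · rw [wOf_cj, card_cj]; exact hK.2.2.2.2.1
  · rw [wOf_cj]
    intro w hw
    rw [mem_cj] at hw
    have := hK.2.2.2.2.2 _ hw
    calc w * w = g * (g⁻¹ * w * g * (g⁻¹ * w * g)) * g⁻¹ := by group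
      _ = 1 := by rw [this]; group

/-- conjugating a component in `L` by an element normalizing `J(T)` -/
theorem JC.conj_of_norm {K : Subgroup G} (hK : IsJComponent T K) {g : G} (hg : g ∈ normalizer (J T : Set G)) :
    IsJComponent T (H13.Syl.cj g K) := by
  refine JC.congr (JC.conj hK g) ?_
  rw [J_cj]; exact cj_eq_of_mem_normalizer hg

/-- elements of `L` normalizing `J(T)` and `W_K` normalize `K` -/
theorem LD.norm_of_W (H : Hyp G) (h : LD T L) (hK : IsJComponent T K) (hKL : K ≤ L) {g : G} (hgL : g ∈ L)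
    (hg : g ∈ normalizer (J T : Set G)) (hW : wOf K ⊓ H13.Syl.cj g (wOf K) ≠ ⊥) : g ∈ normalizer (K : Set G) := by
  rw [mem_normalizer_iff_cj]
  have h1 := JC.conj_of_norm hK hg
  have h2 : H13.Syl.cj g K ≤ L := by
    rw [cj_le_iff_forall]
    intro a ha
    exact mul_mem (mul_mem hgL (hKL ha)) (inv_mem hgL)
  exact (h.uniq H hK hKL h1 h2 (by rw [wOf_cj]; exact hW)).symm

/-- **S2943** -/
theorem LD.s2943 (H : Hyp G) (h : LD T L) (hK : IsJComponent T K) (hKL : K ≤ L)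
    (hZW : T ⊓ centralizer (T : Set G) ⊓ wOf K ≠ ⊥) : T ≤ normalizer (K : Set G) := by
  intro t ht
  apply h.norm_of_W H hK hKL (h.syl.le ht) (LD.T_le_NJ T ht)
  intro h1
  apply hZW
  rw [eq_bot_iff, ← h1]
  intro x hx
  obtain ⟨⟨hxT, hxC⟩, hxW⟩ := hx
  refine mem_inf.mpr ⟨hxW, ?_⟩
  rw [mem_cj]
  have h2 : t * x = x * t := mem_centralizer_iff.mp hxC t ht
  have : t⁻¹ * x * t = x := by rw [mul_assoc, ← h2]; group
  rw [this]; exact hxW

end inL

end Cfsg.Agent.H18.KS
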