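import Mathlib
import Cfsg.Agent.H18_KS5

/-!
# Components of `L` normalize each other and are subnormal
-/

set_option autoImplicit false
set_option linter.unusedSectionVars false
set_option linter.unusedSimpArgs false
set_option linter.style.haveILetI false

namespace Cfsg.Agent.H18.KS

open Subgroup Pointwise
open scoped commutatorElement
open Cfsg.Agent.H13.Syl
open Cfsg.Agent.H18.CharP
open Cfsg.Agent.H12.ZJ

variable {G : Type*} [Group G]

/-- the subgroup of `L` acting trivially on `C / Q` -/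
def DD (L : Subgroup G) : Subgroup G where
  carrier := {x | x ∈ L ∧ ∀ c ∈ CC L, c * x * c⁻¹ * x⁻¹ ∈ oP 2 L}
  one_mem' := ⟨one_mem _, fun c _ => by simp⟩
  mul_mem' := by
    rintro a b ⟨ha, ha'⟩ ⟨hb, hb'⟩
    refine ⟨mul_mem ha hb, fun c hc => ?_⟩
    have e1 : c * (a * b) * c⁻¹ * (a * b)⁻¹ = (c * a * c⁻¹ * a⁻¹) * (a * (c * b * c⁻¹ * b⁻¹) * a⁻¹) := by group
    rw [e1]
    exact mul_mem (ha' c hc) ((mem_normalizer_iff.mp (norm_Q L ha) _).mp (hb' c hc))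
  inv_mem' := by
    rintro a ⟨ha, ha'⟩
    refine ⟨inv_mem ha, fun c hc => ?_⟩
    have e1 : c * a⁻¹ * c⁻¹ * a⁻¹⁻¹ = a⁻¹ * (c * a * c⁻¹ * a⁻¹)⁻¹ * a⁻¹⁻¹ := by group
    rw [e1]
    exact (mem_normalizer_iff.mp (norm_Q L (inv_mem ha)) _).mp (inv_mem (ha' c hc))

theorem norm_DD (L : Subgroup G) : L ≤ normalizer (DD L : Set G) := by
  rw [le_normalizer_iff_conj]
  rintro y hy x ⟨hx, hx'⟩
  refine ⟨mul_mem (mul_mem hy hx) (inv_mem hy), fun c hc => ?_⟩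
  have h1 : y⁻¹ * c * y⁻¹⁻¹ ∈ CC L := (mem_normalizer_iff.mp (norm_C L (inv_mem hy)) _).mp hc
  have h2 := hx' _ h1
  have e1 : c * (y * x * y⁻¹) * c⁻¹ * (y * x * y⁻¹)⁻¹ =
      y * (y⁻¹ * c * y⁻¹⁻¹ * x * (y⁻¹ * c * y⁻¹⁻¹)⁻¹ * x⁻¹) * y⁻¹ := by group
  rw [e1]
  exact (mem_normalizer_iff.mp (norm_Q L hy) _).mp h2

variable [Finite G] {T L K : Subgroup G} {F : Subgroup (MulAut ↥(VV L))} {d n : MulAut ↥(VV L)} {v v1 : ↥(VV L)}

theorem LD.J_le_DD (H : Hyp G) (h : LD T L) : J T ≤ DD L := by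
  intro j hj
  refine ⟨h.syl.le (KS.J_le T hj), fun c hc => ?_⟩
  exact h.comm_CJ H (commutator_mem_commutator hc hj)

theorem LD.K_le_DD (H : Hyp G) (h : LD T L) (hK : IsJComponent T K) (hKL : K ≤ L) : K ≤ DD L := by
  have h3 : ⁅K, J T⁆ = K := hK.2.1
  rw [← h3]
  refine (commutator_mono le_rfl (h.J_le_DD H)).trans ?_
  rw [commutator_comm]
  exact H22.Basic.commutator_le_left (hKL.trans (norm_DD L))

/-- reduction mod `O₂(L)` -/
abbrev π (L : Subgroup G) : ↥L →* ↥L ⧸ pCore 2 ↥L := QuotientGroup.mk' (pCore 2 ↥L)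

theorem π_eq_one {x : L} : π L x = 1 ↔ (x : G) ∈ oP 2 L := by
  rw [QuotientGroup.mk'_apply, QuotientGroup.eq_one_iff, oP, mem_map]
  constructor
  · intro h; exact ⟨x, h, rfl⟩
  · rintro ⟨y, hy, hyx⟩
    have : y = x := Subtype.ext hyx
    rw [← this]; exact hy

theorem CD.zp (c : CD T L K F d n v v1) {x : L} (hx : (x : G) ∈ K) : φ L x ∈ zpowers n := by
  rw [← c.im]; exact mem_im.mpr ⟨x, hx, rfl⟩

theorem CD.inv_zp (c : CD T L K F d n v v1) {f : MulAut ↥(VV L)} (hf : f ∈ zpowers n) : d * f * d⁻¹ = f⁻¹ := by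
  obtain ⟨i, rfl⟩ := mem_zpowers_iff.mp hf
  have h1 : d * n * d⁻¹ = n⁻¹ := by rw [c.tr.tv.inv sqV]; exact c.tr.dn
  rw [← conj_zpow, h1, inv_zpow]

theorem LD.comm_comp (H : Hyp G) (h : LD T L) (hK : IsJComponent T K) (hKL : K ≤ L) {K' : Subgroup G}
    (hK' : IsJComponent T K') (hKL' : K' ≤ L) (hne : K ≠ K') : ∀ x ∈ K, ∀ y ∈ K', x * y * x⁻¹ * y⁻¹ ∈ oP 2 L := by
  obtain ⟨F, hF⟩ := h.exists_F H
  obtain ⟨d, n, v, v1, c⟩ := h.exists_CD H hF hK hKL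
  obtain ⟨d', n', w, w1, c'⟩ := h.exists_CD H hF hK' hKL'
  have hne' : zpowers n ≠ zpowers n' := by
    intro h1
    apply hne
    apply le_antisymm
    · exact h.eq_of_im H hK' hKL' hK hKL (by rw [c.im, c'.im, h1])
    · exact h.eq_of_im H hK hKL hK' hKL' (by rw [c.im, c'.im, h1])
  obtain ⟨hcomm, _, _⟩ := c.trivial_of_ne c' hne'
  obtain ⟨j, hj, hjd⟩ := mem_im.mp (DJ_le c.dJ)
  intro x0 hx0 y0 hy0
  set x : L := ⟨x0, hKL hx0⟩ with hx
  set y : L := ⟨y0, hKL' hy0⟩ with hy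
  have hxK : (x : G) ∈ K := hx0
  have hyK : (y : G) ∈ K' := hy0
  have hJK : J T ≤ normalizer (K : Set G) := JC.norm hK
  have hJK' : J T ≤ normalizer (K' : Set G) := JC.norm hK'
  have hφx := c.zp hxK
  have hφy := c'.zp hyK
  -- the commutator is in `C`
  have hcC : ((x * y * x⁻¹ * y⁻¹ : L) : G) ∈ CC L := by
    rw [← φ_eq_one]
    simp only [map_mul, map_inv]
    obtain ⟨i, hi⟩ := mem_zpowers_iff.mp hφx
    obtain ⟨k, hk⟩ := mem_zpowers_iff.mp hφy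
    have e1 : Commute n n' := (c.tr.cent n' c'.tr.nF).symm
    have e2 : Commute (φ L x) (φ L y) := by
      rw [← hi, ← hk]; exact (e1.zpow_left i).zpow_right k
    rw [e2.eq]; group
  have hcx : π L x * π L (x * y * x⁻¹ * y⁻¹) = π L (x * y * x⁻¹ * y⁻¹) * π L x := by
    have h1 := (h.K_le_DD H hK hKL hxK).2 _ hcC
    have h2 : π L ((x * y * x⁻¹ * y⁻¹) * x * (x * y * x⁻¹ * y⁻¹)⁻¹ * x⁻¹) = 1 := π_eq_one.mpr h1
    rw [map_mul, map_mul, map_mul, map_inv, map_inv, mul_inv_eq_one, mul_inv_eq_iff_eq_mul] at h2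
    exact h2.symm
  have hcj : π L j * π L (x * y * x⁻¹ * y⁻¹) * (π L j)⁻¹ = π L (x * y * x⁻¹ * y⁻¹) := by
    have h1 := (h.J_le_DD H hj).2 _ hcC
    have h2 : π L ((x * y * x⁻¹ * y⁻¹) * j * (x * y * x⁻¹ * y⁻¹)⁻¹ * j⁻¹) = 1 := π_eq_one.mpr h1
    rw [map_mul, map_mul, map_mul, map_inv, map_inv, mul_inv_eq_one, mul_inv_eq_iff_eq_mul] at h2
    rw [← h2]; group
  have hjx : π L j * π L x * (π L j)⁻¹ = (π L x)⁻¹ := by
    have h1 : ((j * x * j⁻¹ * x : L) : G) ∈ oP 2 L := by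
      apply c.oP_le_Q H h hKL
      rw [← c.inf_C H h hK hKL]
      refine mem_inf.mpr ⟨mul_mem ((mem_normalizer_iff.mp (hJK hj) _).mp hxK) hxK, ?_⟩
      rw [← φ_eq_one, map_mul, map_mul, map_mul, map_inv, hjd, c.inv_zp hφx, inv_mul_cancel]
    have h2 := π_eq_one.mpr h1
    rw [map_mul, map_mul, map_mul, map_inv] at h2
    exact mul_eq_one_iff_eq_inv.mp h2
  have hjy : π L j * π L y * (π L j)⁻¹ = π L y := by
    have h1 : ((j * y * j⁻¹ * y⁻¹ : L) : G) ∈ oP 2 L := by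
      apply c'.oP_le_Q H h hKL'
      rw [← c'.inf_C H h hK' hKL']
      refine mem_inf.mpr ⟨mul_mem ((mem_normalizer_iff.mp (hJK' hj) _).mp hyK) (inv_mem hyK), ?_⟩
      rw [← φ_eq_one, map_mul, map_mul, map_mul, map_inv, map_inv, hjd]
      obtain ⟨k, hk⟩ := mem_zpowers_iff.mp hφy
      have e1 : Commute d n' := hcomm.symm
      have e2 : Commute d (φ L y) := by rw [← hk]; exact e1.zpow_right k
      rw [e2.eq]; group
    have h2 := π_eq_one.mpr h1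
    rw [map_mul, map_mul, map_mul, map_inv, map_inv, mul_inv_eq_one] at h2
    exact h2
  have hsq : π L ((x * y * x⁻¹ * y⁻¹) ^ 2) = 1 := by
    have e1 : π L j * π L (x * y * x⁻¹ * y⁻¹) * (π L j)⁻¹ =
        (π L j * π L x * (π L j)⁻¹) * (π L j * π L y * (π L j)⁻¹) * (π L j * π L x * (π L j)⁻¹)⁻¹ *
          (π L j * π L y * (π L j)⁻¹)⁻¹ := by
      simp only [map_mul, map_inv]; group
    rw [hcj, hjx, hjy, inv_inv] at e1
    have e2 : (π L x)⁻¹ * π L y * π L x * (π L y)⁻¹ = (π L x)⁻¹ * (π L (x * y * x⁻¹ * y⁻¹))⁻¹ * π L x := by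
      simp only [map_mul, map_inv]; group
    have e3 : (π L x)⁻¹ * (π L (x * y * x⁻¹ * y⁻¹))⁻¹ * π L x = (π L (x * y * x⁻¹ * y⁻¹))⁻¹ := by
      have c1 : Commute (π L x) (π L (x * y * x⁻¹ * y⁻¹)) := hcx
      have c2 := c1.inv_right
      rw [mul_assoc, ← c2.eq]; group
    rw [e2, e3] at e1
    rw [map_pow, pow_two]
    exact mul_eq_one_iff_eq_inv.mpr e1
  have h5 : ((x * y * x⁻¹ * y⁻¹ : L) : G) ^ (2 ^ 1) ∈ oP 2 L := by
    rw [pow_one]; exact π_eq_one.mp hsq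
  exact h.two_mem H hcC h5

/-- **components of `L` normalize each other** -/
theorem LD.PN (H : Hyp G) (h : LD T L) (hK : IsJComponent T K) (hKL : K ≤ L) {K' : Subgroup G}
    (hK' : IsJComponent T K') (hKL' : K' ≤ L) : K' ≤ normalizer (K : Set G) := by
  by_cases hne : K = K'
  · rw [← hne]; exact Subgroup.le_normalizer
  have h1 := h.comm_comp H hK hKL hK' hKL' hne
  have hQK := h.Q_norm_K hK hKL
  have h2 : K' ≤ normalizer ((K ⊔ oP 2 L : Subgroup G) : Set G) := by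
    have h3 : ∀ y ∈ K', ∀ x ∈ K ⊔ oP 2 L, y * x * y⁻¹ ∈ K ⊔ oP 2 L := by
      intro y hy x hx
      obtain ⟨k, hk, q, hq, rfl⟩ := mem_sup_of_norm hQK hx
      have e1 : y * (k * q) * y⁻¹ = (k * y * k⁻¹ * y⁻¹)⁻¹ * k * (y * q * y⁻¹) := by group
      rw [e1]
      refine mul_mem (mul_mem (mem_sup_right (inv_mem (h1 k hk y hy))) (mem_sup_left hk)) (mem_sup_right ?_)
      exact (mem_normalizer_iff.mp (norm_Q L (hKL' hy)) _).mp hq
    rw [le_normalizer_iff_conj]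
    exact h3
  refine h2.trans ((normalizer_le_normalizer_oddGen _).trans ?_)
  rw [oddGen_sup hQK (oP_isPGroup L) (JC.gen hK)]

theorem normal_subOf {A B L : Subgroup G} (hAB : A ≤ B) (hn : B ≤ normalizer (A : Set G)) :
    ((A.subgroupOf L).subgroupOf (B.subgroupOf L)).Normal := by
  constructor
  intro x hx g
  rw [mem_subgroupOf, mem_subgroupOf] at hx ⊢
  exact (mem_normalizer_iff.mp (hn g.2) _).mp hx

/-- **S2942** -/
theorem LD.s2942 (H : Hyp G) (h : LD T L) (hK : IsJComponent T K) (hKL : K ≤ L) : (K.subgroupOf L).IsSubnormal := by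
  obtain ⟨F, hF⟩ := h.exists_F H
  obtain ⟨d, n, v, v1, c⟩ := h.exists_CD H hF hK hKL
  have hQK := h.Q_norm_K hK hKL
  set M3 : Subgroup G := (F.comap (φ L)).map L.subtype with hM3
  have hmem3 : ∀ x : L, (x : G) ∈ M3 ↔ φ L x ∈ F := by
    intro x
    rw [hM3, mem_map]
    constructor
    · rintro ⟨y, hy, hyx⟩
      have : y = x := Subtype.ext hyx
      rw [← this]; exact hy
    · intro hx
      exact ⟨x, hx, rfl⟩
  have h3L : M3 ≤ L := map_subtype_le _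
  have hCn := norm_C L
  have e1 : K ≤ K ⊔ oP 2 L := le_sup_left
  have e2 : K ⊔ oP 2 L ≤ K ⊔ CC L := sup_le_sup_left (Q_le_C L) K
  have e3 : K ⊔ CC L ≤ M3 := by
    apply sup_le
    · intro x hx
      rw [hmem3 ⟨x, hKL hx⟩]
      have := c.zp (x := ⟨x, hKL hx⟩) hx
      exact (zpowers_le.mpr c.tr.nF) this
    · intro x hx
      rw [hmem3 ⟨x, CC_le L hx⟩, φ_eq_one.mpr hx]
      exact one_mem _
  have n1 : K ⊔ oP 2 L ≤ normalizer (K : Set G) := sup_le Subgroup.le_normalizer hQK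
  have n2 : K ⊔ CC L ≤ normalizer ((K ⊔ oP 2 L : Subgroup G) : Set G) := by
    apply sup_le (e1.trans Subgroup.le_normalizer)
    have h3 : ∀ y ∈ CC L, ∀ x ∈ K ⊔ oP 2 L, y * x * y⁻¹ ∈ K ⊔ oP 2 L := by
      intro y hy x hx
      obtain ⟨k, hk, q, hq, rfl⟩ := mem_sup_of_norm hQK hx
      have e1 : y * (k * q) * y⁻¹ = (y * k * y⁻¹ * k⁻¹) * k * (y * q * y⁻¹) := by group
      rw [e1]
      refine mul_mem (mul_mem (mem_sup_right ((h.K_le_DD H hK hKL hk).2 y hy)) (mem_sup_left hk)) (mem_sup_right ?_)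
      exact (mem_normalizer_iff.mp (norm_Q L (CC_le L hy)) _).mp hq
    rw [le_normalizer_iff_conj]
    exact h3
  have n3 : M3 ≤ normalizer ((K ⊔ CC L : Subgroup G) : Set G) := by
    have h3 : ∀ y ∈ M3, ∀ x ∈ K ⊔ CC L, y * x * y⁻¹ ∈ K ⊔ CC L := by
      intro y hy x hx
      obtain ⟨c0, hc0, k, hk, rfl⟩ := mem_sup_of_norm (hKL.trans hCn) (by rw [sup_comm]; exact hx)
      have hyL := h3L hy
      have e1 : y * (c0 * k) * y⁻¹ = (y * c0 * y⁻¹) * ((y * k * y⁻¹ * k⁻¹) * k) := by group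
      rw [e1]
      refine mul_mem (mem_sup_right ((mem_normalizer_iff.mp (hCn hyL) _).mp hc0)) (mul_mem (mem_sup_right ?_) (mem_sup_left hk))
      have h5 : φ L (⟨y, hyL⟩ * ⟨k, hKL hk⟩ * ⟨y, hyL⟩⁻¹ * ⟨k, hKL hk⟩⁻¹) = 1 := by
        simp only [map_mul, map_inv]
        obtain ⟨i, hi⟩ := mem_zpowers_iff.mp (c.zp (x := ⟨k, hKL hk⟩) hk)
        have c1 : Commute (φ L ⟨y, hyL⟩) n := c.tr.cent _ ((hmem3 ⟨y, hyL⟩).mp hy)
        have c2 : Commute (φ L ⟨y, hyL⟩) (φ L ⟨k, hKL hk⟩) := by rw [← hi]; exact c1.zpow_right i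
        rw [c2.eq]; group
      exact φ_eq_one.mp h5
    rw [le_normalizer_iff_conj]
    exact h3
  have n4 : L ≤ normalizer (M3 : Set G) := by
    rw [le_normalizer_iff_conj]
    intro y hy x hx
    have hxL := h3L hx
    have := (hmem3 (⟨y, hy⟩ * ⟨x, hxL⟩ * ⟨y, hy⟩⁻¹)).mpr (by
      rw [map_mul, map_mul, map_inv]
      exact hF.norm _ _ ((hmem3 ⟨x, hxL⟩).mp hx))
    exact this
  have s4 : (M3.subgroupOf L).IsSubnormal := by
    have : (M3.subgroupOf L).Normal := by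
      rw [Subgroup.normal_subgroupOf_iff_le_normalizer h3L]; exact n4
    exact this.isSubnormal
  have s3 : ((K ⊔ CC L).subgroupOf L).IsSubnormal :=
    IsSubnormal.step _ _ (Subgroup.comap_mono e3) s4 (normal_subOf e3 n3)
  have s2 : ((K ⊔ oP 2 L).subgroupOf L).IsSubnormal :=
    IsSubnormal.step _ _ (Subgroup.comap_mono e2) s3 (normal_subOf e2 n2)
  exact IsSubnormal.step _ _ (Subgroup.comap_mono e1) s2 (normal_subOf e1 n1)

end Cfsg.Agent.H18.KS
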