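import Mathlib
import Cfsg.Agent.H18_KS6
import Cfsg.Agent.H11_AxB

/-!
# Existence of components
-/

set_option autoImplicit false
set_option linter.unusedSectionVars false
set_option linter.unusedSimpArgs false
set_option linter.style.haveILetI false

namespace Cfsg.Agent.H18.KS

open Subgroup Pointwise
open scoped commutatorElement
open Cfsg.Agent.H13.Syl
open Cfsg.Agent.H18.CharP
open Cfsg.Agent.H12.ZJ

theorem semilinear {D : Type*} [CommGroup D] [Finite D] (h2 : ∀ x : D, x * x = 1) (f g : D →* D)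
    (hf3 : ∀ x, f (f (f x)) = x) (hfix : ∀ x, f x = x → x = 1) (hg : ∀ x, g (g x) = x)
    (hgf : ∀ x, g (f x) = f (f (g x))) : Nat.card D = (Nat.card {x : D // g x = x}) ^ 2 := by
  have hsum : ∀ x, x * f x * f (f x) = 1 := by
    intro x
    apply hfix
    rw [map_mul, map_mul, hf3]
    rw [mul_comm (f x * f (f x)) x, ← mul_assoc]
  have hff : ∀ x, f (f x) = x * f x := by
    intro x
    have h1 := mul_eq_one_iff_eq_inv.mp (hsum x)
    rw [h1, inv_self h2]
  let e : {x : D // g x = x} × {x : D // g x = x} → D := fun p => p.1 * f p.2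
  have he : Function.Bijective e := by
    constructor
    · rintro ⟨⟨x, hx⟩, ⟨y, hy⟩⟩ ⟨⟨x', hx'⟩, ⟨y', hy'⟩⟩ h
      have h1 : x * f y = x' * f y' := h
      have h3 : g (x * f y) = g (x' * f y') := by rw [h1]
      rw [map_mul, map_mul, hgf, hgf, hx, hy, hx', hy', hff, hff] at h3
      -- x * (y * f y) = x' * (y' * f y')
      have h4 : y = y' := by
        have e1 : x * (y * f y) = y * (x * f y) := mul_left_comm _ _ _
        have e2 : x' * (y' * f y') = y' * (x' * f y') := mul_left_comm _ _ _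
        rw [e1, e2, h1] at h3
        exact mul_right_cancel h3
      subst h4
      have h5 : x = x' := mul_right_cancel h1
      subst h5
      rfl
    · intro z
      have hy : g (z * g z) = z * g z := by rw [map_mul, hg, mul_comm]
      have hx : g (z * f (z * g z)) = z * f (z * g z) := by
        rw [map_mul, hgf, hy, hff, map_mul]
        calc g z * (z * g z * (f z * f (g z))) = z * (f z * f (g z)) * (g z * g z) := by
              simp only [mul_comm, mul_left_comm, mul_assoc]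
          _ = z * (f z * f (g z)) := by rw [h2, mul_one]
      refine ⟨(⟨_, hx⟩, ⟨_, hy⟩), ?_⟩
      change z * f (z * g z) * f (z * g z) = z
      rw [mul_assoc, h2, mul_one]
  rw [← Nat.card_congr (Equiv.ofBijective e he), Nat.card_prod, pow_two]

variable {G : Type*} [Group G]

theorem card_sq [Finite G] {D : Subgroup G} {k a : G} (hc : ∀ x ∈ D, ∀ y ∈ D, x * y = y * x) (h2 : ∀ x ∈ D, x * x = 1)
    (hk : ∀ x ∈ D, k * x * k⁻¹ ∈ D) (ha : ∀ x ∈ D, a * x * a⁻¹ ∈ D) (hfix : ∀ x ∈ D, k * x * k⁻¹ = x → x = 1)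
    (h3 : ∀ x ∈ D, k * (k * (k * x * k⁻¹) * k⁻¹) * k⁻¹ = x) (haa : ∀ x ∈ D, a * (a * x * a⁻¹) * a⁻¹ = x)
    (hinv : ∀ x ∈ D, a * (k * x * k⁻¹) * a⁻¹ = k * (k * (a * x * a⁻¹) * k⁻¹) * k⁻¹) :
    Nat.card D = (Nat.card (D ⊓ centralizer ({a} : Set G) : Subgroup G)) ^ 2 := by
  letI : CommGroup D := { (inferInstance : Group D) with mul_comm := fun a b => Subtype.ext (hc a a.2 b b.2) }
  let f : D →* D := {
    toFun := fun x => ⟨k * x * k⁻¹, hk x x.2⟩
    map_one' := Subtype.ext (by simp)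
    map_mul' := fun x y => Subtype.ext (by
      change k * ((x : G) * y) * k⁻¹ = k * x * k⁻¹ * (k * y * k⁻¹)
      group) }
  let g : D →* D := {
    toFun := fun x => ⟨a * x * a⁻¹, ha x x.2⟩
    map_one' := Subtype.ext (by simp)
    map_mul' := fun x y => Subtype.ext (by
      change a * ((x : G) * y) * a⁻¹ = a * x * a⁻¹ * (a * y * a⁻¹)
      group) }
  have h := semilinear (D := D) (fun x => Subtype.ext (h2 x x.2)) f g (fun x => Subtype.ext (h3 x x.2))
    (fun x hx => Subtype.ext (hfix x x.2 (congrArg Subtype.val hx))) (fun x => Subtype.ext (haa x x.2))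
    (fun x => Subtype.ext (hinv x x.2))
  rw [h]
  congr 1
  apply Nat.card_congr
  refine ⟨fun x => ⟨(x.1 : G), mem_inf.mpr ⟨x.1.2, ?_⟩⟩, fun y => ⟨⟨y.1, (mem_inf.mp y.2).1⟩, ?_⟩, fun _ => rfl, fun _ => rfl⟩
  · rw [mem_centralizer_iff]
    intro b hb
    rw [Set.mem_singleton_iff] at hb
    rw [hb]
    have := congrArg Subtype.val x.2
    exact mul_inv_eq_iff_eq_mul.mp this
  · apply Subtype.ext
    exact mul_inv_eq_iff_eq_mul.mpr (mem_centralizer_iff.mp (mem_inf.mp y.2).2 a rfl)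

/-- a step of the central series -/
theorem exists_central_step [Finite G] {P A U₀ : Subgroup G} (hP : IsPGroup 2 ↥P) (hAP : A ≤ P)  :
    ∀ (n : ℕ) (U : Subgroup G), Nat.card U ≤ n → U ≤ P → A ≤ normalizer (U : Set G) → ¬ U ≤ U₀ →
      ∃ u ∈ U, u ∉ U₀ ∧ ∀ b ∈ A, u * b * u⁻¹ * b⁻¹ ∈ U₀ := by
  haveI : Fact (Nat.Prime 2) := ⟨Nat.prime_two⟩
  intro n
  induction n with
  | zero =>
    intro U hU
    have := Nat.card_pos (α := U)
    omega
  | succ n ih =>
    intro U hn hUP hAU hU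
    by_cases h1 : ⁅U, A⁆ ≤ U₀
    · obtain ⟨u, hu, hu0⟩ := SetLike.not_le_iff_exists.mp hU
      exact ⟨u, hu, hu0, fun b hb => h1 (commutator_mem_commutator hu hb)⟩
    · have h2 : ⁅U, A⁆ ≤ U := H22.Basic.commutator_le_left hAU
      have h3 : U ≠ ⊥ := by
        rintro rfl; exact hU bot_le
      have h4 : ⁅U, A⁆ < U := H11.AxB.commutator_lt_of_nilpotent hP.isNilpotent hUP hAP hAU h3
      have h5 := H2.Card.card_lt_of_lt h4
      obtain ⟨u, hu, h⟩ := ih ⁅U, A⁆ (by omega) (h2.trans hUP) (H22.Basic.right_le_normalizer_commutator _ _) h1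
      exact ⟨u, h2 hu, h⟩


theorem W_card_four [Finite G] {T A A₀ W : Subgroup G} (hT : IsPGroup 2 ↥T) (hA : MaxEA 2 T A) (hWT : W ≤ T)
    (hc : ∀ x ∈ W, ∀ y ∈ W, x * y = y * x) (h2 : ∀ x ∈ W, x * x = 1) {k a : G}
    (hk : ∀ x ∈ W, k * x * k⁻¹ ∈ W) (hAW : A ≤ normalizer (W : Set G)) (hfix : ∀ x ∈ W, k * x * k⁻¹ = x → x = 1)
    (h3 : ∀ x ∈ W, k * (k * (k * x * k⁻¹) * k⁻¹) * k⁻¹ = x) (ha : a ∈ A)
    (hinv : ∀ x ∈ W, a * (k * x * k⁻¹) * a⁻¹ = k * (k * (a * x * a⁻¹) * k⁻¹) * k⁻¹)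
    (hA₀ : A₀ ≤ A) (hidx : Nat.card A = 2 * Nat.card A₀)
    (hA₀k : ∀ b ∈ A₀, ∀ x ∈ W, b * (k * x * k⁻¹) * b⁻¹ = k * (b * x * b⁻¹) * k⁻¹) (hW : W ≠ ⊥) :
    Nat.card W = 4 := by
  haveI : Fact (Nat.Prime 2) := ⟨Nat.prime_two⟩
  have haa : a * a = 1 := EA.sq hA.2.1 ha
  -- `|C_W(B)| = |C_W(B) ∩ C(a)|²`
  have hsq : ∀ B ≤ A₀, Nat.card (W ⊓ centralizer (B : Set G) : Subgroup G) =
      (Nat.card (W ⊓ centralizer (B : Set G) ⊓ centralizer ({a} : Set G) : Subgroup G)) ^ 2 := by
    intro B hB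
    apply card_sq (k := k) (a := a)
    · intro x hx y hy; exact hc x (mem_inf.mp hx).1 y (mem_inf.mp hy).1
    · intro x hx; exact h2 x (mem_inf.mp hx).1
    · intro x hx
      obtain ⟨hxW, hxB⟩ := mem_inf.mp hx
      refine mem_inf.mpr ⟨hk x hxW, mem_centralizer_iff.mpr ?_⟩
      intro b hb
      have e1 := hA₀k b (hB hb) x hxW
      have e2 : b * x * b⁻¹ = x := mul_inv_eq_iff_eq_mul.mpr (mem_centralizer_iff.mp hxB b hb)
      rw [e2] at e1
      exact mul_inv_eq_iff_eq_mul.mp e1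
    · intro x hx
      obtain ⟨hxW, hxB⟩ := mem_inf.mp hx
      refine mem_inf.mpr ⟨(mem_normalizer_iff.mp (hAW ha) x).mp hxW, mem_centralizer_iff.mpr ?_⟩
      intro b hb
      have c1 : Commute b a := hA.2.1.1 b (hA₀ (hB hb)) a ha
      have c2 : Commute b x := mem_centralizer_iff.mp hxB b hb
      exact ((c1.mul_right c2).mul_right c1.inv_right).eq
    · intro x hx; exact hfix x (mem_inf.mp hx).1
    · intro x hx; exact h3 x (mem_inf.mp hx).1
    · intro x _
      calc a * (a * x * a⁻¹) * a⁻¹ = (a * a) * x * (a * a)⁻¹ := by group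
        _ = x := by rw [haa]; group
    · intro x hx; exact hinv x (mem_inf.mp hx).1
  -- the offender inequality
  have hineq : ∀ B ≤ A₀, Nat.card B * (Nat.card (W ⊓ centralizer (B : Set G) ⊓ centralizer ({a} : Set G) : Subgroup G)) ^ 2 ≤
      2 * Nat.card A₀ * Nat.card (W ⊓ centralizer (A₀ : Set G) ⊓ centralizer ({a} : Set G) : Subgroup G) := by
    intro B hB
    rw [← hsq B hB, ← hidx]
    refine (off_ineq hA hWT hc h2 (hB.trans hA₀)).trans ?_
    apply Nat.mul_le_mul_left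
    apply Subgroup.card_le_of_le
    intro x hx
    obtain ⟨hxB, hxW⟩ := mem_inf.mp hx
    have hxA := hA₀ (hB hxB)
    refine mem_inf.mpr ⟨mem_inf.mpr ⟨hxW, mem_centralizer_iff.mpr fun b hb => hA.2.1.1 b (hA₀ hb) x hxA⟩,
      mem_centralizer_iff.mpr ?_⟩
    intro b hb
    rw [Set.mem_singleton_iff] at hb
    rw [hb]; exact hA.2.1.1 a ha x hxA
  set U : Subgroup G := W ⊓ centralizer ({a} : Set G) with hU
  set U₀ : Subgroup G := W ⊓ centralizer (A₀ : Set G) ⊓ centralizer ({a} : Set G) with hU₀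
  have hU₀U : U₀ ≤ U := inf_le_inf inf_le_left le_rfl
  have hU₀pos : 0 < Nat.card U₀ := Nat.card_pos
  have hA₀pos : 0 < Nat.card A₀ := Nat.card_pos
  have hU₀2 : Nat.card U₀ ≤ 2 := by
    have h5 := hineq A₀ le_rfl
    have h6 : Nat.card A₀ * (Nat.card U₀ * Nat.card U₀) ≤ Nat.card A₀ * (2 * Nat.card U₀) := by nlinarith
    have h7 := Nat.le_of_mul_le_mul_left h6 hA₀pos
    exact Nat.le_of_mul_le_mul_right h7 hU₀pos
  have hWU : Nat.card W = (Nat.card U) ^ 2 := by
    have := hsq ⊥ bot_le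
    have e1 : W ⊓ centralizer ((⊥ : Subgroup G) : Set G) = W := by
      apply inf_eq_left.mpr
      intro x _
      rw [mem_centralizer_iff]
      intro y hy
      have : y = 1 := hy
      rw [this]; simp
    rw [e1] at this
    exact this
  -- `U ≤ U₀`
  have hUU₀ : U ≤ U₀ := by
    by_contra hno
    have hA₀U : A₀ ≤ normalizer (U : Set G) := by
      rw [le_normalizer_iff_conj]
      intro b hb x hx
      obtain ⟨hxW, hxa⟩ := mem_inf.mp hx
      refine mem_inf.mpr ⟨(mem_normalizer_iff.mp (hAW (hA₀ hb)) x).mp hxW, mem_centralizer_iff.mpr ?_⟩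
      intro c hc'
      rw [Set.mem_singleton_iff] at hc'
      rw [hc']
      have c1 : Commute a b := hA.2.1.1 a ha b (hA₀ hb)
      have c2 : Commute a x := mem_centralizer_iff.mp hxa a rfl
      exact ((c1.mul_right c2).mul_right c1.inv_right).eq
    obtain ⟨u, huU, hu0, hucomm⟩ := exists_central_step hT (hA₀.trans hA.1) (Nat.card U) U le_rfl
      (inf_le_left.trans hWT) hA₀U hno
    have huW : u ∈ W := (mem_inf.mp huU).1
    set B : Subgroup G := A₀ ⊓ centralizer ({u} : Set G) with hB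
    have hBA : B ≤ A₀ := inf_le_left
    -- index bound
    have hU₀c : ∀ x ∈ U₀, ∀ b ∈ A₀, b * x = x * b := fun x hx b hb =>
      mem_centralizer_iff.mp (mem_inf.mp (mem_inf.mp hx).1).2 b hb
    have hidxB : Nat.card A₀ ≤ Nat.card B * Nat.card U₀ := by
      let ψ : A₀ →* U₀ := {
        toFun := fun b => ⟨u * b * u⁻¹ * (b : G)⁻¹, hucomm b b.2⟩
        map_one' := Subtype.ext (by simp)
        map_mul' := fun b c => Subtype.ext (by
          change u * ((b : G) * c) * u⁻¹ * ((b : G) * c)⁻¹ = u * b * u⁻¹ * (b : G)⁻¹ * (u * c * u⁻¹ * (c : G)⁻¹)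
          have e1 : (b : G) * (u * c * u⁻¹ * (c : G)⁻¹) = (u * c * u⁻¹ * (c : G)⁻¹) * b := hU₀c _ (hucomm c c.2) b b.2
          calc u * ((b : G) * c) * u⁻¹ * ((b : G) * c)⁻¹
              = u * b * u⁻¹ * ((u * c * u⁻¹ * (c : G)⁻¹)) * (b : G)⁻¹ := by group
            _ = u * b * u⁻¹ * (b : G)⁻¹ * ((b : G) * (u * c * u⁻¹ * (c : G)⁻¹)) * (b : G)⁻¹ := by group
            _ = _ := by rw [e1]; group) }
      have h5 : Nat.card ψ.ker = Nat.card B := by
        have h6 : ψ.ker.map A₀.subtype = B := by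
          ext x
          rw [mem_map, hB, mem_inf, mem_centralizer_iff]
          constructor
          · rintro ⟨b, hb, rfl⟩
            refine ⟨b.2, ?_⟩
            intro c hc'
            rw [Set.mem_singleton_iff] at hc'
            rw [hc']
            have h7 : u * (b : G) * u⁻¹ * (b : G)⁻¹ = 1 := congrArg Subtype.val (hb : ψ b = 1)
            rw [mul_inv_eq_one, mul_inv_eq_iff_eq_mul] at h7
            exact h7
          · rintro ⟨hx, h7⟩
            refine ⟨⟨x, hx⟩, ?_, rfl⟩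
            apply Subtype.ext
            change u * x * u⁻¹ * x⁻¹ = 1
            rw [mul_inv_eq_one, mul_inv_eq_iff_eq_mul]
            exact h7 u rfl
        rw [← h6]
        exact (Subgroup.card_map_of_injective (Subgroup.subtype_injective _)).symm
      have h6 := ψ.ker.card_mul_index
      rw [Subgroup.index_ker, h5] at h6
      rw [← h6]
      apply Nat.mul_le_mul_left
      exact Subgroup.card_le_card_group _
    have hU₀1 : Nat.card U₀ = 2 := by
      have h5 : Nat.card U₀ ≠ 1 := by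
        intro h6
        have h7 := Subgroup.card_eq_one.mp h6
        apply hu0
        refine mem_inf.mpr ⟨mem_inf.mpr ⟨huW, mem_centralizer_iff.mpr ?_⟩, (mem_inf.mp huU).2⟩
        intro b hb
        have h8 := hucomm b hb
        rw [h7, Subgroup.mem_bot, mul_inv_eq_one, mul_inv_eq_iff_eq_mul] at h8
        exact h8.symm
      omega
    have hUB : 4 ≤ Nat.card (W ⊓ centralizer (B : Set G) ⊓ centralizer ({a} : Set G) : Subgroup G) := by
      have e0 : U₀ ≤ W ⊓ centralizer (B : Set G) ⊓ centralizer ({a} : Set G) :=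
        inf_le_inf (inf_le_inf le_rfl (centralizer_le hBA)) le_rfl
      have e1 := H2.Card.card_mul_relIndex e0
      have e2 : u ∈ W ⊓ centralizer (B : Set G) ⊓ centralizer ({a} : Set G) := by
        refine mem_inf.mpr ⟨mem_inf.mpr ⟨huW, mem_centralizer_iff.mpr ?_⟩, (mem_inf.mp huU).2⟩
        intro b hb
        exact (mem_centralizer_iff.mp (mem_inf.mp hb).2 u rfl).symm
      have e3 : U₀.relIndex (W ⊓ centralizer (B : Set G) ⊓ centralizer ({a} : Set G)) ≠ 1 := by
        intro h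
        exact hu0 (relIndex_eq_one.mp h e2)
      have e4 : 0 < Nat.card (W ⊓ centralizer (B : Set G) ⊓ centralizer ({a} : Set G) : Subgroup G) := Nat.card_pos
      have e5 : U₀.relIndex (W ⊓ centralizer (B : Set G) ⊓ centralizer ({a} : Set G)) ≠ 0 := by
        intro h
        rw [h, mul_zero] at e1
        omega
      rw [hU₀1] at e1
      omega
    have h5 := hineq B hBA
    rw [hU₀1] at h5 hidxB
    have hBpos : 0 < Nat.card B := Nat.card_pos
    have h6 : 16 ≤ (Nat.card (W ⊓ centralizer (B : Set G) ⊓ centralizer ({a} : Set G) : Subgroup G)) ^ 2 := by nlinarith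
    have h7 : Nat.card B * 16 ≤ Nat.card B * (Nat.card (W ⊓ centralizer (B : Set G) ⊓ centralizer ({a} : Set G) : Subgroup G)) ^ 2 :=
      Nat.mul_le_mul_left _ h6
    omega
  have hUe : U = U₀ := le_antisymm hUU₀ hU₀U
  rw [hWU, hUe]
  have h5 : Nat.card U₀ ≠ 1 := by
    intro h6
    rw [hUe, h6, one_pow] at hWU
    exact hW (Subgroup.card_eq_one.mp hWU)
  have h6 : Nat.card U₀ = 2 := by omega
  rw [h6]; norm_num

end Cfsg.Agent.H18.KS
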