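import Mathlib
import Cfsg.Agent.H18_KS7

/-!
# Existence of components
-/

set_option autoImplicit false
set_option linter.unusedSectionVars false
set_option linter.unusedSimpArgs false
set_option linter.style.haveILetI false

namespace Cfsg.Agent.H18.KS

open Subgroup Pointwise
open scoped commutatorElement
open Cfsg.Agent.H13.Syl
open Cfsg.Agent.H18.CharP
open Cfsg.Agent.H12.ZJ

variable {G : Type*} [Group G] [Finite G]

theorem J_of_cj_le {S T : Subgroup G} {x : G} (hJ : J T ≤ S) (hx : cj x S ≤ T) : J S = J T := by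
  rw [J_eq] at hJ
  rw [J_eq, J_eq]
  obtain ⟨A, hA⟩ := exists_MaxEA 2 T
  have hAS : A ≤ S := hA.le_JJ.trans hJ
  have hmax : ∀ A, MaxEA 2 T A → MaxEA 2 S A := by
    intro A hA
    refine ⟨hA.le_JJ.trans hJ, hA.2.1, fun B hB hBe => ?_⟩
    have := hA.2.2 (cj x B) ((cj_mono hB).trans hx) (hBe.cj x)
    rwa [card_cj] at this
  have hmax' : ∀ A', MaxEA 2 S A' → MaxEA 2 T (cj x A') := by
    intro A' hA'
    refine ⟨(cj_mono hA'.1).trans hx, hA'.2.1.cj x, fun B hB hBe => ?_⟩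
    rw [card_cj]
    exact (hA.2.2 B hB hBe).trans (hA'.2.2 A hAS hA.2.1)
  have h1 : JJ 2 T ≤ JJ 2 S := sSup_le fun A hA => (hmax A hA).le_JJ
  have h2 : cj x (JJ 2 S) ≤ JJ 2 T := by
    rw [cj_le_iff]
    exact sSup_le fun A' hA' => by
      rw [← cj_le_iff]; exact (hmax' A' hA').le_JJ
  symm
  apply H2.Card.eq_of_le_of_card_eq h1
  apply le_antisymm (Subgroup.card_le_of_le h1)
  rw [← card_cj x (JJ 2 S)]
  exact Subgroup.card_le_of_le h2

theorem J_between {T L : Subgroup G} (hT : IsSylIn 2 T L) {S : Subgroup G} (hS : IsPGroup 2 ↥S) (hSL : S ≤ L)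
    (hJ : J T ≤ S) : J S = J T := by
  haveI : Fact (Nat.Prime 2) := ⟨Nat.prime_two⟩
  obtain ⟨x, _, hx⟩ := hT.exists_conj_le hS hSL
  exact J_of_cj_le hJ hx

variable {T L K : Subgroup G} {F : Subgroup (MulAut ↥(VV L))} {d n : MulAut ↥(VV L)} {v v1 : ↥(VV L)}

theorem LD.J_norm (H : Hyp G) (h : LD T L) (hF : FD L F) (t : Tr F d n v v1) :
    ∀ f ∈ im L (J T), f * n * f⁻¹ = n ∨ f * n * f⁻¹ = n⁻¹ := by
  intro f hf
  have h1 := h.J_le H hf
  induction h1 using closure_induction with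
  | mem e he =>
    obtain ⟨⟨A, hA, heA⟩, w, hw⟩ := he
    obtain ⟨x, hx, rfl⟩ := mem_im.mp heA
    obtain ⟨m, w1, t'⟩ := exists_Tr' hF hw
    have hei := hw.inv (sqV (L := L))
    rcases t'.T2' sqV t.nF (t.card_four sqV) (t.mem_four sqV) with h1 | h1 | h1
    · left
      rw [← h1]; group
    · right
      rw [hei, h1]; exact t'.dn
    · right
      rw [hei, h1, inv_inv]
      have := congrArg (·⁻¹) t'.dn
      simp only [mul_inv_rev, inv_inv, hei, ← mul_assoc] at this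
      exact this
  | one => left; simp
  | mul a b ha hb iha ihb =>
    have ha' : a * n * a⁻¹ = n ∨ a * n * a⁻¹ = n⁻¹ := by
      by_cases h2 : a ∈ im L (J T)
      · exact iha h2
      · have key : ∀ a ∈ closure (DJ T L), a ∈ im L (J T) := by
          intro a ha
          exact (closure_le _).mpr (fun d hd => DJ_le hd) ha
        exact absurd (key a ha) h2
    have hb' : b * n * b⁻¹ = n ∨ b * n * b⁻¹ = n⁻¹ := by
      have key : ∀ a ∈ closure (DJ T L), a ∈ im L (J T) := by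
        intro a ha
        exact (closure_le _).mpr (fun d hd => DJ_le hd) ha
      exact ihb (key b hb)
    have e1 : a * b * n * (a * b)⁻¹ = a * (b * n * b⁻¹) * a⁻¹ := by group
    have e2 : a * n⁻¹ * a⁻¹ = (a * n * a⁻¹)⁻¹ := by group
    rw [e1]
    rcases hb' with h2 | h2 <;> rw [h2]
    · exact ha'
    · rw [e2]
      rcases ha' with h3 | h3 <;> rw [h3]
      · right; rfl
      · left; rw [inv_inv]
  | inv a ha iha =>
    have key : ∀ a ∈ closure (DJ T L), a ∈ im L (J T) := by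
      intro a ha
      exact (closure_le _).mpr (fun d hd => DJ_le hd) ha
    have e1 : ∀ m, a * n * a⁻¹ = m → a⁻¹ * m * a⁻¹⁻¹ = n := by
      intro m hm; rw [← hm]; group
    rcases iha (key a ha) with h2 | h2
    · left; exact e1 n h2
    · right
      have := e1 _ h2
      have e2 : a⁻¹ * n * a⁻¹⁻¹ = (a⁻¹ * n⁻¹ * a⁻¹⁻¹)⁻¹ := by group
      rw [e2, this]

/-- the element of order 3 modulo `Q` inverted by `J` -/
theorem LD.exists_y (H : Hyp G) (h : LD T L) (hF : FD L F) (t : Tr F d n v v1) {j : L} (hj : (j : G) ∈ J T)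
    (hjd : φ L j = d) :
    ∃ y : L, φ L y = n ∧ π L y ^ 3 = 1 ∧ Odd (orderOf (y : G)) ∧
      ∀ g : L, (g : G) ∈ J T → ((φ L g * n * (φ L g)⁻¹ = n → π L g * π L y * (π L g)⁻¹ = π L y) ∧
        (φ L g * n * (φ L g)⁻¹ = n⁻¹ → π L g * π L y * (π L g)⁻¹ = (π L y)⁻¹)) := by
  have hdi := t.tv.inv (sqV (L := L))
  obtain ⟨p, hp⟩ := hF.le t.nF
  have hnn : n * n = n⁻¹ := mul_eq_one_iff_eq_inv.mp t.n3
  have hdn : d * n * d⁻¹ = n⁻¹ := by rw [hdi]; exact t.dn
  have hdn' : d * n⁻¹ * d⁻¹ = n := by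
    calc d * n⁻¹ * d⁻¹ = (d * n * d⁻¹)⁻¹ := by group
      _ = n := by rw [hdn, inv_inv]
  have hdn2 : n * d * n⁻¹ * d⁻¹ = n⁻¹ := by
    calc n * d * n⁻¹ * d⁻¹ = n * (d * n⁻¹ * d⁻¹) := by group
      _ = n⁻¹ := by rw [hdn', hnn]
  obtain ⟨z, hz⟩ : ∃ z : L, z = p * j * p⁻¹ * j⁻¹ := ⟨_, rfl⟩
  have hφz : φ L z = n⁻¹ := by rw [hz, map_mul, map_mul, map_mul, map_inv, map_inv, hp, hjd, hdn2]
  have hjD : (j : G) ∈ DD L := h.J_le_DD H hj
  have hzD : (z : G) ∈ DD L := by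
    have h1 : (p : G) * j * (p : G)⁻¹ ∈ DD L := (mem_normalizer_iff.mp (norm_DD L p.2) _).mp hjD
    rw [hz]
    exact mul_mem h1 (inv_mem hjD)
  have hcomm : ∀ x : L, (x : G) ∈ DD L → ∀ c : L, (c : G) ∈ CC L → Commute (π L x) (π L c) := by
    intro x hx c hc
    have h2 : π L (c * x * c⁻¹ * x⁻¹) = 1 := π_eq_one.mpr (hx.2 c hc)
    rw [map_mul, map_mul, map_mul, map_inv, map_inv, mul_inv_eq_one, mul_inv_eq_iff_eq_mul] at h2
    exact h2.symm
  obtain ⟨c, hc⟩ : ∃ c : L, c = z * (j * z * j⁻¹) := ⟨_, rfl⟩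
  have hcC : (c : G) ∈ CC L := by
    rw [← φ_eq_one, hc, map_mul, map_mul, map_mul, map_inv, hφz, hjd, hdn', inv_mul_cancel]
  obtain ⟨y, hy⟩ : ∃ y : L, y = z * (j * z * j⁻¹)⁻¹ := ⟨_, rfl⟩
  have hφy : φ L y = n := by
    rw [hy, map_mul, map_inv, map_mul, map_mul, map_inv, hφz, hjd, hdn']
    have := congrArg (·⁻¹) hnn
    simp only [mul_inv_rev, inv_inv] at this
    exact this
  have hyD : (y : G) ∈ DD L := by
    have h1 : (j : G) * z * (j : G)⁻¹ ∈ DD L := mul_mem (mul_mem hjD hzD) (inv_mem hjD)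
    rw [hy]
    exact mul_mem hzD (inv_mem h1)
  have ez : π L j * π L z * (π L j)⁻¹ = (π L z)⁻¹ * π L c := by
    rw [hc, map_mul, map_mul, map_mul, map_inv]; group
  have ey : π L y = π L z * π L z * (π L c)⁻¹ := by
    have c1 := hcomm z hzD c hcC
    rw [hy, map_mul, map_inv, map_mul, map_mul, map_inv, ez, mul_inv_rev, inv_inv, c1.inv_right.eq.symm, mul_assoc]
  have ejy : π L j * π L y * (π L j)⁻¹ = (π L y)⁻¹ := by
    have c1 := hcomm z hzD c hcC
    have c2 := hcomm j hjD c hcC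
    have e1 : π L j * π L y * (π L j)⁻¹ =
        (π L j * π L z * (π L j)⁻¹) * (π L j * π L z * (π L j)⁻¹) * (π L j * (π L c)⁻¹ * (π L j)⁻¹) := by
      rw [ey]; group
    have e2 : π L j * (π L c)⁻¹ * (π L j)⁻¹ = (π L c)⁻¹ := by
      rw [c2.inv_right.eq]; group
    rw [e1, ez, e2, ey]
    generalize π L z = Z at *
    generalize π L c = C at *
    have c3 : Z⁻¹ * C = C * Z⁻¹ := c1.inv_left.eq
    calc Z⁻¹ * C * (Z⁻¹ * C) * C⁻¹ = Z⁻¹ * (C * Z⁻¹) := by group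
      _ = Z⁻¹ * (Z⁻¹ * C) := by rw [c3]
      _ = (Z * Z)⁻¹ * C := by group
      _ = C * (Z * Z)⁻¹ := by
        have c4 : Commute (Z * Z)⁻¹ C := (c1.mul_left c1).inv_left
        exact c4.eq
      _ = (Z * Z * C⁻¹)⁻¹ := by group
  have hy3C : ((y ^ 3 : L) : G) ∈ CC L := by
    rw [← φ_eq_one, map_pow, hφy, t.n_pow]
  have hy3 : π L y ^ 3 = 1 := by
    have e1 : π L j * π L (y ^ 3) * (π L j)⁻¹ = π L (y ^ 3) := by
      rw [(hcomm j hjD _ hy3C).eq]; group
    have e2 : π L j * π L (y ^ 3) * (π L j)⁻¹ = (π L (y ^ 3))⁻¹ := by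
      rw [map_pow, ← conj_pow, ejy, inv_pow]
    rw [e1] at e2
    have e3 : π L ((y ^ 3) ^ 2) = 1 := by
      rw [map_pow, pow_two]; exact mul_eq_one_iff_eq_inv.mpr e2
    have e4 := h.two_mem H hy3C (k := 1) (by rw [pow_one]; exact π_eq_one.mp e3)
    rw [← map_pow]
    exact π_eq_one.mpr e4
  -- the action of `J`
  have hact1 : ∀ g : L, (g : G) ∈ J T → φ L g * n * (φ L g)⁻¹ = n → π L g * π L y * (π L g)⁻¹ = π L y := by
    intro g hg hgn
    have hgD : (g : G) ∈ DD L := h.J_le_DD H hg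
    set c' : L := g * y * g⁻¹ * y⁻¹ with hc'
    have hc'C : (c' : G) ∈ CC L := by
      rw [← φ_eq_one, hc', map_mul, map_mul, map_mul, map_inv, map_inv, hφy, hgn, mul_inv_cancel]
    have e1 : π L g * π L y * (π L g)⁻¹ = π L c' * π L y := by
      rw [hc', map_mul, map_mul, map_mul, map_inv, map_inv]; group
    have c1 := hcomm g hgD c' hc'C
    have e2 : ∀ m : ℕ, (π L g) ^ m * π L y * ((π L g) ^ m)⁻¹ = (π L c') ^ m * π L y := by
      intro m
      induction m with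
      | zero => simp
      | succ m ih =>
        calc (π L g) ^ (m + 1) * π L y * ((π L g) ^ (m + 1))⁻¹
            = π L g * ((π L g) ^ m * π L y * ((π L g) ^ m)⁻¹) * (π L g)⁻¹ := by rw [pow_succ']; group
          _ = π L g * (π L c') ^ m * π L y * (π L g)⁻¹ := by rw [ih]; group
          _ = (π L c') ^ m * (π L g * π L y * (π L g)⁻¹) := by rw [(c1.pow_right m).eq]; group
          _ = (π L c') ^ (m + 1) * π L y := by rw [e1, pow_succ]; group
    obtain ⟨k, hk⟩ := (J_pgroup h.syl.isPGroup) ⟨g, hg⟩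
    have hk' : g ^ (2 ^ k) = 1 := Subtype.ext (pow_of_sub hk)
    have e3 := e2 (2 ^ k)
    rw [← map_pow, hk', map_one] at e3
    have e4 : (π L c') ^ (2 ^ k) = 1 := by
      have : π L y = (π L c') ^ (2 ^ k) * π L y := by rw [← e3]; group
      exact (mul_eq_right.mp this.symm)
    have e5 : ((c' : L) : G) ^ (2 ^ k) ∈ oP 2 L := by
      rw [← map_pow] at e4
      exact π_eq_one.mp e4
    have e6 := π_eq_one.mpr (h.two_mem H hc'C e5)
    rw [e1, e6, one_mul]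
  have hact2 : ∀ g : L, (g : G) ∈ J T → φ L g * n * (φ L g)⁻¹ = n⁻¹ → π L g * π L y * (π L g)⁻¹ = (π L y)⁻¹ := by
    intro g hg hgn
    have h1 := hact1 (j * g) (mul_mem hj hg) (by
      rw [map_mul, hjd]
      calc d * φ L g * n * (d * φ L g)⁻¹ = d * (φ L g * n * (φ L g)⁻¹) * d⁻¹ := by group
        _ = n := by rw [hgn, hdn'])
    rw [map_mul] at h1
    have e1 : π L g * π L y * (π L g)⁻¹ = (π L j)⁻¹ * π L y * π L j := by
      calc π L g * π L y * (π L g)⁻¹ = (π L j)⁻¹ * (π L j * π L g * π L y * (π L j * π L g)⁻¹) * π L j := by group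
        _ = _ := by rw [h1]
    rw [e1]
    have e2 := congrArg (·⁻¹) ejy
    simp only [inv_inv] at e2
    calc (π L j)⁻¹ * π L y * π L j = (π L j)⁻¹ * (π L j * π L y * (π L j)⁻¹)⁻¹ * π L j := by rw [e2]
      _ = (π L y)⁻¹ := by group
  -- odd order version
  set o := orderOf (y : G) with ho
  have hopos : 0 < o := orderOf_pos _
  obtain ⟨a, b, hb, hab⟩ := Nat.exists_eq_two_pow_mul_odd hopos.ne'
  have h4 : ∃ q, 4 ^ a = 3 * q + 1 := by
    have : 4 ^ a % 3 = 1 := by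
      rw [Nat.pow_mod]; simp
    exact ⟨4 ^ a / 3, by omega⟩
  obtain ⟨q, hq⟩ := h4
  have hπ : π L (y ^ (4 ^ a)) = π L y := by
    rw [map_pow, hq, pow_succ, pow_mul, hy3, one_pow, one_mul]
  have hφ' : φ L (y ^ (4 ^ a)) = n := by
    rw [map_pow, hφy, hq, pow_succ, pow_mul, t.n_pow, one_pow, one_mul]
  refine ⟨y ^ (4 ^ a), hφ', ?_, ?_, ?_⟩
  · rw [hπ]; exact hy3
  · have h5 : ((y ^ (4 ^ a) : L) : G) ^ b = 1 := by
      rw [Subgroup.coe_pow, ← pow_mul]
      have h6 : 4 ^ a * b = 2 ^ a * o := by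
        rw [hab, show (4 : ℕ) = 2 * 2 from rfl, mul_pow]; ring
      rw [h6, mul_comm, pow_mul, ho, pow_orderOf_eq_one, one_pow]
    exact Odd.of_dvd_nat hb (orderOf_dvd_of_pow_eq_one h5)
  · intro g hg
    rw [hπ]
    exact ⟨hact1 g hg, hact2 g hg⟩


/-- **existence of components** -/
theorem LD.exists_comp (H : Hyp G) (h : LD T L) (hF : FD L F) {d : MulAut ↥(VV L)} (hd : d ∈ DJ T L) :
    ∃ K n v v1, IsJComponent T K ∧ K ≤ L ∧ CD T L K F d n v v1 := by
  obtain ⟨A, hA, ⟨a, haA, had⟩, hAd⟩ := h.star H hd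
  have hd' := hd
  obtain ⟨_, v, hv⟩ := hd'
  obtain ⟨n, v1, t⟩ : ∃ n v1, Tr F d n v v1 := by
    rw [← had] at hv ⊢
    exact exists_Tr' hF hv
  have haJ : (a : G) ∈ J T := maxEA_le_J hA haA
  have hAL : A ≤ L := hA.1.trans h.syl.le
  have hJL : J T ≤ L := (KS.J_le T).trans h.syl.le
  have hdi := hv.inv (sqV (L := L))
  have hdn : d * n * d⁻¹ = n⁻¹ := by rw [hdi]; exact t.dn
  obtain ⟨y, hφy, hy3, hyo, hact⟩ := h.exists_y H hF t haJ had
  have hn1 : n ≠ 1 := t.n_ne_one sqV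
  have hπy1 : π L y ≠ 1 := by
    intro h1
    have h2 := φ_eq_one.mpr (Q_le_C L (π_eq_one.mp h1))
    rw [hφy] at h2
    exact hn1 h2
  have hoy : orderOf (π L y) = 3 := orderOf_eq_prime hy3 hπy1
  -- the preimage `E` of `⟨y⟩`
  set E : Subgroup G := ((zpowers (π L y)).comap (π L)).map L.subtype with hE
  have hmemE : ∀ x : L, (x : G) ∈ E ↔ π L x ∈ zpowers (π L y) := by
    intro x
    rw [hE, mem_map]
    constructor
    · rintro ⟨y, hy, hyx⟩
      have : y = x := Subtype.ext hyx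
      rw [← this]; exact hy
    · intro hx
      exact ⟨x, hx, rfl⟩
  have hEL : E ≤ L := map_subtype_le _
  have hQE : oP 2 L ≤ E := by
    intro x hx
    rw [hmemE ⟨x, oP_le L hx⟩, (π_eq_one (x := ⟨x, oP_le L hx⟩)).mpr hx]
    exact one_mem _
  have hJE : J T ≤ normalizer (E : Set G) := by
    rw [le_normalizer_iff_conj]
    intro g hg x hx
    have hxL := hEL hx
    have h1 := (hmemE ⟨x, hxL⟩).mp hx
    have := (hmemE (⟨g, hJL hg⟩ * ⟨x, hxL⟩ * ⟨g, hJL hg⟩⁻¹)).mpr (by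
      rw [map_mul, map_mul, map_inv]
      obtain ⟨i, hi⟩ := mem_zpowers_iff.mp h1
      rw [← hi, ← conj_zpow]
      rcases h.J_norm H hF t (φ L ⟨g, hJL hg⟩) (mem_im.mpr ⟨⟨g, hJL hg⟩, hg, rfl⟩) with h2 | h2
      · rw [(hact ⟨g, hJL hg⟩ hg).1 h2]; exact zpow_mem (mem_zpowers _) i
      · rw [(hact ⟨g, hJL hg⟩ hg).2 h2]; exact zpow_mem (inv_mem (mem_zpowers _)) i)
    exact this
  set K : Subgroup G := oddGen E with hK
  have hKE : K ≤ E := oddGen_le E
  have hKL : K ≤ L := hKE.trans hEL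
  have hyE : (y : G) ∈ E := (hmemE y).mpr (mem_zpowers _)
  have hyK : (y : G) ∈ K := mem_oddGen hyE hyo
  have hKgen : oddGen K = K := by
    apply le_antisymm (oddGen_le K)
    conv_lhs => rw [hK]
    rw [oddGen, closure_le]
    rintro x ⟨hx, ho⟩
    exact mem_oddGen (mem_oddGen hx ho) ho
  have hQK : oP 2 L ≤ normalizer (K : Set G) :=
    (hQE.trans Subgroup.le_normalizer).trans (normalizer_le_normalizer_oddGen E)
  have hJK : J T ≤ normalizer (K : Set G) := hJE.trans (normalizer_le_normalizer_oddGen E)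
  -- decomposition
  have hdec : ∀ x ∈ E, ∃ i : ℤ, ∃ q ∈ oP 2 L, x = (y : G) ^ i * q := by
    intro x hx
    obtain ⟨i, hi⟩ := mem_zpowers_iff.mp ((hmemE ⟨x, hEL hx⟩).mp hx)
    refine ⟨i, ((y : G) ^ i)⁻¹ * x, ?_, by group⟩
    have h1 : π L ((y ^ i)⁻¹ * ⟨x, hEL hx⟩) = 1 := by
      rw [map_mul, map_inv, map_zpow, hi, inv_mul_cancel]
    exact π_eq_one.mp h1
  -- `O₂(K) = K ∩ Q`
  have hK2Q : oP 2 K ≤ oP 2 L := by
    intro x hx
    have hxL : x ∈ L := hKL (oP_le K hx)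
    rw [show x = ((⟨x, hxL⟩ : L) : G) from rfl, ← π_eq_one]
    obtain ⟨k, hk⟩ := oP_isPGroup K ⟨x, hx⟩
    have hk' : (⟨x, hxL⟩ : L) ^ (2 ^ k) = 1 := Subtype.ext (pow_of_sub hk)
    have h1 : π L ⟨x, hxL⟩ ^ (2 ^ k) = 1 := by rw [← map_pow, hk', map_one]
    have h2 := (hmemE ⟨x, hxL⟩).mp (hKE (oP_le K hx))
    have h3 : orderOf (π L ⟨x, hxL⟩) ∣ 3 := by
      rw [← hoy]; exact orderOf_dvd_of_mem_zpowers h2
    have h4 := orderOf_dvd_of_pow_eq_one h1
    have h5 : (2 ^ k).Coprime 3 := Nat.Coprime.pow_left k (by norm_num)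
    have h6 := Nat.dvd_gcd h4 h3
    rw [h5] at h6
    exact orderOf_eq_one_iff.mp (Nat.dvd_one.mp h6)
  have hKQ : K ⊓ oP 2 L = oP 2 K := by
    apply le_antisymm
    · exact le_oP ((oP_isPGroup L).to_le inf_le_right) inf_le_left
        (H22.Basic.le_normalizer_inf Subgroup.le_normalizer (hKL.trans (norm_Q L)))
    · exact le_inf (oP_le K) hK2Q
  have hidx : (oP 2 K).relIndex K = 3 := by
    set ψ : K →* (↥L ⧸ pCore 2 ↥L) := (π L).comp (Subgroup.inclusion hKL) with hψ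
    have h1 : ψ.range = zpowers (π L y) := by
      apply le_antisymm
      · rintro _ ⟨x, rfl⟩
        exact (hmemE ⟨x, hKL x.2⟩).mp (hKE x.2)
      · rw [zpowers_le]
        exact ⟨⟨y, hyK⟩, rfl⟩
    have h2 : ψ.ker = (oP 2 K).subgroupOf K := by
      ext x
      rw [mem_subgroupOf, ← hKQ, mem_inf]
      constructor
      · intro hx
        exact ⟨x.2, π_eq_one.mp (hx : π L ⟨x, hKL x.2⟩ = 1)⟩
      · rintro ⟨_, hx⟩
        exact (π_eq_one (L := L) (x := ⟨(x : G), hKL x.2⟩)).mpr hx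
    rw [relIndex, ← h2, Subgroup.index_ker, h1, Nat.card_zpowers, hoy]
  -- `[K, J] = K`
  have hKJ : ⁅K, J T⁆ = K := by
    apply le_antisymm (H22.Basic.commutator_le_left hJK)
    set N : Subgroup G := ⁅K, J T⁆ with hN
    have hKN : K ≤ normalizer (N : Set G) := H22.Basic.left_le_normalizer_commutator _ _
    have h1 : (y : G) * a * (y : G)⁻¹ * (a : G)⁻¹ ∈ N := commutator_mem_commutator hyK haJ
    have h2 : π L (y * a * y⁻¹ * a⁻¹) = (π L y)⁻¹ := by
      have h3 := (hact a haJ).2 (by rw [had]; exact hdn)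
      have h4 : π L a * (π L y)⁻¹ * (π L a)⁻¹ = π L y := by
        calc π L a * (π L y)⁻¹ * (π L a)⁻¹ = (π L a * π L y * (π L a)⁻¹)⁻¹ := by group
          _ = π L y := by rw [h3, inv_inv]
      rw [map_mul, map_mul, map_mul, map_inv, map_inv]
      calc π L y * π L a * (π L y)⁻¹ * (π L a)⁻¹ = π L y * (π L a * (π L y)⁻¹ * (π L a)⁻¹) := by group
        _ = π L y * π L y := by rw [h4]
        _ = (π L y)⁻¹ := by
          have h5 : π L y * π L y * π L y = 1 := by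
            have := hy3; rwa [pow_succ, pow_two] at this
          exact mul_eq_one_iff_eq_inv.mp h5
    have h3 : TwoOver N K := by
      intro x hx
      obtain ⟨i, q, hq, hxq⟩ := hdec x (hKE hx)
      -- x = w^{-i} q'
      set w : L := y * a * y⁻¹ * a⁻¹ with hw
      have hq' : ((w : G) ^ (-i))⁻¹ * x ∈ oP 2 L := by
        have : π L ((w ^ (-i))⁻¹ * ⟨x, hKL hx⟩) = 1 := by
          rw [map_mul, map_inv, map_zpow, h2, inv_zpow, zpow_neg, inv_inv]
          have h5 : π L ⟨x, hKL hx⟩ = π L y ^ i := by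
            have e1 : (⟨x, hKL hx⟩ : L) = y ^ i * ⟨q, oP_le L hq⟩ := Subtype.ext hxq
            rw [e1, map_mul, (π_eq_one (x := ⟨q, oP_le L hq⟩)).mpr hq, mul_one, map_zpow]
          rw [h5, inv_mul_cancel]
        exact π_eq_one.mp this
      have hwN : (w : G) ^ (-i) ∈ N := zpow_mem h1 _
      have hq'K : ((w : G) ^ (-i))⁻¹ * x ∈ K :=
        mul_mem (inv_mem ((H22.Basic.commutator_le_left hJK) hwN)) hx
      obtain ⟨k, hk⟩ := oP_isPGroup L ⟨_, hq'⟩
      have hk' := pow_of_sub hk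
      obtain ⟨c, hc, h6⟩ := mul_pow_mem hwN (hKN hq'K) (2 ^ k)
      refine ⟨k, ?_⟩
      have e1 : x = (w : G) ^ (-i) * (((w : G) ^ (-i))⁻¹ * x) := by group
      rw [e1, h6, hk', mul_one]
      exact hc
    conv_lhs => rw [← hKgen]
    exact h3.oddGen_le
  -- the image
  have him : im L K = zpowers n := by
    apply le_antisymm
    · intro f hf
      obtain ⟨x, hx, rfl⟩ := mem_im.mp hf
      obtain ⟨i, q, hq, hxq⟩ := hdec x (hKE hx)
      have e1 : x = y ^ i * ⟨q, oP_le L hq⟩ := Subtype.ext hxq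
      rw [e1, map_mul, (φ_eq_one (x := ⟨q, oP_le L hq⟩)).mpr (Q_le_C L hq), mul_one, map_zpow, hφy]
      exact zpow_mem (mem_zpowers n) i
    · rw [zpowers_le]
      exact mem_im.mpr ⟨y, hyK, hφy⟩
  -- `W`
  set Y : Subgroup G := omegaCenterOf (oP 2 K) with hY
  set W : Subgroup G := wOf K with hW
  have hWdef : W = ⁅Y, K⁆ := rfl
  have hNY : normalizer (K : Set G) ≤ normalizer (Y : Set G) :=
    (le_normalizer_oP K).trans (normalizer_le_omegaCenterOf _)
  have hKY : K ≤ normalizer (Y : Set G) := Subgroup.le_normalizer.trans hNY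
  have hWY : W ≤ Y := H22.Basic.commutator_le_left hKY
  have hYK2 : Y ≤ oP 2 K := omegaCenterOf_le _
  have hWT : W ≤ T := hWY.trans (hYK2.trans (hK2Q.trans h.Q_le_T))
  have hNW : normalizer (K : Set G) ≤ normalizer (W : Set G) :=
    H22.Basic.le_normalizer_commutator hNY (le_refl _)
  have hYc : ∀ u ∈ Y, ∀ w ∈ Y, u * w = w * u := fun u hu w hw => (mem_omegaCenterOf.mp hw).2.1 u (hYK2 hu)
  have hY2 : ∀ u ∈ Y, u * u = 1 := fun u hu => (mem_omegaCenterOf.mp hu).2.2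
  have hYQ : ∀ q ∈ oP 2 K, ∀ u ∈ Y, q * u * q⁻¹ = u := fun q hq u hu => by
    rw [(mem_omegaCenterOf.mp hu).2.1 q hq, mul_inv_cancel_right]
  -- cube acts trivially
  have hy3K : (y : G) ^ 3 ∈ oP 2 K := by
    rw [← hKQ]
    refine mem_inf.mpr ⟨pow_mem hyK 3, ?_⟩
    have : π L (y ^ 3) = 1 := by rw [map_pow]; exact hy3
    exact π_eq_one.mp this
  have hcubeY : ∀ u ∈ Y, (y : G) * ((y : G) * ((y : G) * u * (y : G)⁻¹) * (y : G)⁻¹) * (y : G)⁻¹ = u := by
    intro u hu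
    have := hYQ _ hy3K u hu
    calc (y : G) * ((y : G) * ((y : G) * u * (y : G)⁻¹) * (y : G)⁻¹) * (y : G)⁻¹ = (y : G) ^ 3 * u * ((y : G) ^ 3)⁻¹ := by
          simp only [pow_succ, pow_zero, one_mul]; group
      _ = u := this
  -- fixed points of `y` on `W`
  let W' : Subgroup G := {
    carrier := {w | ∃ u ∈ Y, w = (y : G) * u * (y : G)⁻¹ * u⁻¹}
    one_mem' := ⟨1, one_mem _, by simp⟩
    mul_mem' := by
      rintro _ _ ⟨u, hu, rfl⟩ ⟨w, hw, rfl⟩
      refine ⟨u * w, mul_mem hu hw, ?_⟩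
      have h1 : (y : G) * w * (y : G)⁻¹ ∈ Y := (mem_normalizer_iff.mp (hKY hyK) _).mp hw
      have h3 := hYc _ (inv_mem hu) _ (mul_mem h1 (inv_mem hw))
      calc (y : G) * u * (y : G)⁻¹ * u⁻¹ * ((y : G) * w * (y : G)⁻¹ * w⁻¹)
          = (y : G) * u * (y : G)⁻¹ * (u⁻¹ * ((y : G) * w * (y : G)⁻¹ * w⁻¹)) := by group
        _ = (y : G) * u * (y : G)⁻¹ * (((y : G) * w * (y : G)⁻¹ * w⁻¹) * u⁻¹) := by rw [h3]
        _ = (y : G) * (u * w) * (y : G)⁻¹ * (u * w)⁻¹ := by group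
    inv_mem' := by
      rintro _ ⟨u, hu, rfl⟩
      refine ⟨u⁻¹, inv_mem hu, ?_⟩
      have h1 : (y : G) * u⁻¹ * (y : G)⁻¹ ∈ Y := (mem_normalizer_iff.mp (hKY hyK) _).mp (inv_mem hu)
      have h3 := hYc _ hu _ h1
      calc ((y : G) * u * (y : G)⁻¹ * u⁻¹)⁻¹ = u * ((y : G) * u⁻¹ * (y : G)⁻¹) := by group
        _ = _ := by rw [h3, inv_inv] }
  have hW'Y : W' ≤ Y := by
    rintro _ ⟨u, hu, rfl⟩
    exact mul_mem ((mem_normalizer_iff.mp (hKY hyK) _).mp hu) (inv_mem hu)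
  have hyW' : ∀ i : ℤ, ∀ u ∈ Y, ((y : G) ^ i) * u * ((y : G) ^ i)⁻¹ * u⁻¹ ∈ W' := by
    have hnat : ∀ m : ℕ, ∀ u ∈ Y, ((y : G) ^ m) * u * ((y : G) ^ m)⁻¹ * u⁻¹ ∈ W' := by
      intro m
      induction m with
      | zero => intro u _; simp
      | succ m ih =>
        intro u hu
        have h1 : ((y : G) ^ m) * u * ((y : G) ^ m)⁻¹ ∈ Y := (mem_normalizer_iff.mp (hKY (pow_mem hyK m)) _).mp hu
        have h2 : (y : G) * (((y : G) ^ m) * u * ((y : G) ^ m)⁻¹) * (y : G)⁻¹ * (((y : G) ^ m) * u * ((y : G) ^ m)⁻¹)⁻¹ ∈ W' :=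
          ⟨_, h1, rfl⟩
        have h3 := mul_mem h2 (ih u hu)
        have e1 : (y : G) ^ (m + 1) * u * ((y : G) ^ (m + 1))⁻¹ * u⁻¹ =
            (y : G) * (((y : G) ^ m) * u * ((y : G) ^ m)⁻¹) * (y : G)⁻¹ * (((y : G) ^ m) * u * ((y : G) ^ m)⁻¹)⁻¹ *
              (((y : G) ^ m) * u * ((y : G) ^ m)⁻¹ * u⁻¹) := by
          rw [pow_succ']; group
        rw [e1]; exact h3
    intro i u hu
    rcases Int.eq_nat_or_neg i with ⟨m, rfl | rfl⟩
    · rw [zpow_natCast]; exact hnat m u hu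
    · rw [zpow_neg, zpow_natCast]
      have h1 : ((y : G) ^ m)⁻¹ * u * ((y : G) ^ m)⁻¹⁻¹ ∈ Y :=
        (mem_normalizer_iff.mp (hKY (inv_mem (pow_mem hyK m))) _).mp hu
      have h2 := inv_mem (hnat m _ h1)
      have e1 : ((y : G) ^ m)⁻¹ * u * ((y : G) ^ m)⁻¹⁻¹ * u⁻¹ =
          (((y : G) ^ m) * (((y : G) ^ m)⁻¹ * u * ((y : G) ^ m)⁻¹⁻¹) * ((y : G) ^ m)⁻¹ *
            (((y : G) ^ m)⁻¹ * u * ((y : G) ^ m)⁻¹⁻¹)⁻¹)⁻¹ := by group
      rw [e1]; exact h2
  have hWW' : W ≤ W' := by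
    rw [hWdef, commutator_comm, commutator_le]
    intro x hx u hu
    obtain ⟨i, q, hq, hxq⟩ := hdec x (hKE hx)
    have hqK : q ∈ oP 2 K := by
      rw [← hKQ]
      refine mem_inf.mpr ⟨?_, hq⟩
      have : q = ((y : G) ^ i)⁻¹ * x := by rw [hxq]; group
      rw [this]; exact mul_mem (inv_mem (zpow_mem hyK i)) hx
    have e1 : ⁅x, u⁆ = (y : G) ^ i * u * ((y : G) ^ i)⁻¹ * u⁻¹ := by
      rw [commutatorElement_def, hxq]
      calc (y : G) ^ i * q * u * ((y : G) ^ i * q)⁻¹ * u⁻¹ = (y : G) ^ i * (q * u * q⁻¹) * ((y : G) ^ i)⁻¹ * u⁻¹ := by group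
        _ = _ := by rw [hYQ q hqK u hu]
    rw [e1]; exact hyW' i u hu
  have hfix : ∀ x ∈ W, (y : G) * x * (y : G)⁻¹ = x → x = 1 := by
    intro x hx hxy
    obtain ⟨u, hu, hxu⟩ := hWW' hx
    have hxY := hWY hx
    have e1 : (y : G) * u * (y : G)⁻¹ = x * u := by rw [hxu]; group
    have e2 : (y : G) * ((y : G) * u * (y : G)⁻¹) * (y : G)⁻¹ = x * x * u := by
      rw [e1]
      calc (y : G) * (x * u) * (y : G)⁻¹ = ((y : G) * x * (y : G)⁻¹) * ((y : G) * u * (y : G)⁻¹) := by group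
        _ = x * x * u := by rw [hxy, e1, mul_assoc]
    rw [hY2 x hxY, one_mul] at e2
    have e3 := hcubeY u hu
    rw [e2, e1] at e3
    exact mul_eq_right.mp e3
  -- `W ≠ 1`
  have hWne : W ≠ ⊥ := by
    have hB : ∀ u' : VV L, ((n u' * u' : VV L) : G) = ⁅(y : G), (u' : G)⁆ := by
      intro u'
      rw [← hφy, Subgroup.coe_mul, φ_apply, commutatorElement_def]
      congr 1
      exact (inv_eq_of_mul_eq_one_left (congrArg Subtype.val (sqV u'))).symm
    have hC : ∀ u' : VV L, ((n u' * u' : VV L) : G) ∈ Y := by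
      intro u'
      have h1 : ((n u' * u' : VV L) : G) ∈ K := by
        rw [hB, commutatorElement_def]
        have h3 : (u' : G) * (y : G)⁻¹ * (u' : G)⁻¹ ∈ K :=
          (mem_normalizer_iff.mp (hQK (V_le_Q L u'.2)) _).mp (inv_mem hyK)
        have := mul_mem hyK h3
        simpa only [mul_assoc] using this
      have h2 : ((n u' * u' : VV L) : G) ∈ VV L := (n u' * u' : VV L).2
      rw [hY, mem_omegaCenterOf]
      refine ⟨?_, ?_, sqV' _ h2⟩
      · rw [← hKQ]; exact mem_inf.mpr ⟨h1, V_le_Q L h2⟩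
      · intro q hq
        exact (mem_omegaCenterOf.mp h2).2.1 q (hK2Q hq)
    intro hbot
    -- v = n v1 * v1, v1 = n (v v1) * (v v1)
    have e1 : v = n v1 * v1 := by rw [t.nv1, mul_assoc, sqV, mul_one]
    have e2 : v1 = n (v * v1) * (v * v1) := by rw [t.nvv1 sqV, cc sqV]
    have h1 : (v : G) ∈ W := by
      rw [e1, hB, hWdef, commutator_comm]
      apply commutator_mem_commutator hyK
      rw [e2]
      exact hC _
    rw [hbot, Subgroup.mem_bot] at h1
    exact t.tv.ne (Subtype.ext h1)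
  -- A₀
  have hW4 : Nat.card W = 4 := by
    apply W_card_four (T := T) (A := A) (A₀ := A ⊓ CC L) (k := (y : G)) (a := (a : G)) h.syl.isPGroup hA hWT
    · intro x hx z hz; exact hYc x (hWY hx) z (hWY hz)
    · intro x hx; exact hY2 x (hWY hx)
    · intro x hx
      exact (mem_normalizer_iff.mp (hNW (Subgroup.le_normalizer hyK)) _).mp hx
    · exact ((maxEA_le_J hA).trans hJK).trans hNW
    · exact hfix
    · intro x hx; exact hcubeY x (hWY hx)
    · exact haA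
    · intro x hx
      -- a y a⁻¹ = y⁻¹ q
      have hxY := hWY hx
      have hay : (a : G) * y * (a : G)⁻¹ * y ∈ oP 2 K := by
        rw [← hKQ]
        refine mem_inf.mpr ⟨mul_mem ((mem_normalizer_iff.mp (hJK haJ) _).mp hyK) hyK, ?_⟩
        have h3 := (hact a haJ).2 (by rw [had]; exact hdn)
        have : π L (a * y * a⁻¹ * y) = 1 := by
          rw [map_mul, map_mul, map_mul, map_inv, h3, inv_mul_cancel]
        exact π_eq_one.mp this
      set x' := (a : G) * x * (a : G)⁻¹ with hx'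
      have hx'Y : x' ∈ Y := (mem_normalizer_iff.mp (hNY (hJK haJ)) _).mp hxY
      have e1 : (a : G) * ((y : G) * x * (y : G)⁻¹) * (a : G)⁻¹ =
          ((a : G) * y * (a : G)⁻¹ * y) * ((y : G)⁻¹ * x' * (y : G)⁻¹⁻¹) * ((a : G) * y * (a : G)⁻¹ * y)⁻¹ := by
        rw [hx']; group
      have h5 : (y : G)⁻¹ * x' * (y : G)⁻¹⁻¹ ∈ Y := (mem_normalizer_iff.mp (hKY (inv_mem hyK)) _).mp hx'Y
      rw [e1, hYQ _ hay _ h5]
      have h6 := hcubeY _ h5
      calc (y : G)⁻¹ * x' * (y : G)⁻¹⁻¹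
          = (y : G) * ((y : G) * ((y : G) * ((y : G)⁻¹ * x' * (y : G)⁻¹⁻¹) * (y : G)⁻¹) * (y : G)⁻¹) * (y : G)⁻¹ := h6.symm
        _ = _ := by group
    · exact inf_le_left
    · -- card
      have h5 := card_im hAL
      have h6 : im L A = zpowers d := by
        apply le_antisymm
        · intro f hf
          obtain ⟨b, hb, rfl⟩ := mem_im.mp hf
          rcases hAd b hb with h7 | h7 <;> rw [h7]
          · exact one_mem _
          · exact mem_zpowers _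
        · rw [zpowers_le]; exact mem_im.mpr ⟨a, haA, had⟩
      have hd1 : d ≠ 1 := by
        rintro rfl
        obtain ⟨x, hx⟩ := hv.nt
        exact hx rfl
      have hcz : Nat.card (zpowers d) = 2 := by
        rw [Nat.card_zpowers]
        exact orderOf_eq_prime (by rw [pow_two]; exact hv.sq sqV) hd1
      rw [h6, hcz] at h5
      exact h5.symm
    · intro b hb x hx
      obtain ⟨hbA, hbC⟩ := mem_inf.mp hb
      have hbQ : b ∈ oP 2 L := by
        apply h.two_mem H hbC (k := 1)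
        rw [pow_one, pow_two, EA.sq hA.2.1 hbA]; exact one_mem _
      -- b y b⁻¹ y⁻¹ ∈ O₂(K)
      have hby : b * y * b⁻¹ * (y : G)⁻¹ ∈ oP 2 K := by
        rw [← hKQ]
        refine mem_inf.mpr ⟨mul_mem ((mem_normalizer_iff.mp (hQK hbQ) _).mp hyK) (inv_mem hyK), ?_⟩
        have h7 : (y : G) * b⁻¹ * (y : G)⁻¹ ∈ oP 2 L := (mem_normalizer_iff.mp (norm_Q L y.2) _).mp (inv_mem hbQ)
        have := mul_mem hbQ h7
        simpa only [mul_assoc] using this
      have hx' : b * x * b⁻¹ ∈ Y := (mem_normalizer_iff.mp (hNY (hQK hbQ)) _).mp (hWY hx)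
      have h5 : (y : G) * (b * x * b⁻¹) * (y : G)⁻¹ ∈ Y := (mem_normalizer_iff.mp (hKY hyK) _).mp hx'
      calc b * ((y : G) * x * (y : G)⁻¹) * b⁻¹
          = (b * y * b⁻¹ * (y : G)⁻¹) * ((y : G) * (b * x * b⁻¹) * (y : G)⁻¹) * (b * y * b⁻¹ * (y : G)⁻¹)⁻¹ := by group
        _ = (y : G) * (b * x * b⁻¹) * (y : G)⁻¹ := hYQ _ hby _ h5
    · exact hWne
  refine ⟨K, n, v, v1, ⟨hKgen, hKJ, hidx, ?_, hW4, fun w hw => hY2 w (hWY hw)⟩, hKL, ⟨hd, t, him⟩⟩
  intro S hS hJS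
  have hS' : IsSylIn 2 S (K ⊔ J T) := syl_iff.mp hS
  exact J_between h.syl hS'.isPGroup (hS'.le.trans (h.KJ_le hKL)) hJS

end Cfsg.Agent.H18.KS
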