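import Mathlib
import Cfsg.Agent.H18_KS8

/-!
# Generation of `L` by `N_L(J(T))` and components
-/

set_option autoImplicit false
set_option linter.unusedSectionVars false
set_option linter.unusedSimpArgs false
set_option linter.style.haveILetI false

namespace Cfsg.Agent.H18.KS

open Subgroup Pointwise
open scoped commutatorElement
open Cfsg.Agent.H13.Syl
open Cfsg.Agent.H18.CharP
open Cfsg.Agent.H12.ZJ

variable {G : Type*} [Group G] [Finite G]
variable {T L K : Subgroup G} {F : Subgroup (MulAut ↥(VV L))} {d n : MulAut ↥(VV L)} {v v1 : ↥(VV L)}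

theorem normalizer_le_NJ (T : Subgroup G) : normalizer (T : Set G) ≤ normalizer (J T : Set G) := by
  rw [J_eq]; exact normalizer_le_JJ 2 T

theorem J_inf_eq {T M : Subgroup G} (h : J T ≤ M) : J (T ⊓ M) = J T := by
  have h1 : J T ≤ T ⊓ M := le_inf (KS.J_le T) h
  exact J_of_cj_le (x := 1) h1 (by rw [cj_one]; exact inf_le_left)

/-- **generation** -/
theorem LD.gen (H : Hyp G) (h : LD T L) {Y : Subgroup G} (h1 : L ⊓ normalizer (J T : Set G) ≤ Y)
    (h2 : ∀ K, IsJComponent T K → K ≤ L → K ≤ Y) : L ≤ Y := by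
  haveI : Fact (Nat.Prime 2) := ⟨Nat.prime_two⟩
  obtain ⟨F, hF⟩ := h.exists_F H
  have hTL := h.syl.le
  have hJL : J T ≤ L := (KS.J_le T).trans hTL
  have hCNJ : CC L ≤ normalizer (J T : Set G) := (h.C_norm H).trans (normalizer_le_NJ T)
  have hCY : CC L ≤ Y := (le_inf (CC_le L) hCNJ).trans h1
  have hTY : T ≤ Y := (le_inf hTL (LD.T_le_NJ T)).trans h1
  have hJY : J T ≤ Y := (KS.J_le T).trans hTY
  have hback : ∀ x : L, φ L x ∈ im L Y → (x : G) ∈ Y := by
    intro x hx
    obtain ⟨y, hy, hyx⟩ := mem_im.mp hx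
    have h3 : φ L (y⁻¹ * x) = 1 := by rw [map_mul, map_inv, hyx, inv_mul_cancel]
    have h4 := hCY (φ_eq_one.mp h3)
    have h5 := mul_mem hy h4
    have e1 : (y : G) * ((y⁻¹ * x : L) : G) = x := by
      simp only [Subgroup.coe_mul, Subgroup.coe_inv]; group
    rwa [e1] at h5
  -- transvections of the image lie in the image of `Y`
  have htv : ∀ x : L, ∀ w, Tv (φ L x) w → φ L x ∈ im L Y := by
    intro x w hw
    obtain ⟨m, w1, t'⟩ := exists_Tr' hF hw
    by_cases hcase : ∀ d ∈ DJ T L, d * φ L x = φ L x * d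
    · have hcJ : ∀ f ∈ im L (J T), f * φ L x = φ L x * f := by
        intro f hf
        have h3 := h.J_le H hf
        have h4 : closure (DJ T L) ≤ centralizer ({φ L x} : Set (MulAut ↥(VV L))) := by
          rw [closure_le]
          intro d hd
          rw [SetLike.mem_coe, mem_centralizer_iff]
          intro y hy
          rw [Set.mem_singleton_iff] at hy
          rw [hy]; exact (hcase d hd).symm
        exact (mem_centralizer_iff.mp (h4 h3) _ rfl).symm
      set M : Subgroup G := CC L ⊔ J T with hM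
      have hJM : J T ≤ M := le_sup_right
      have hML : M ≤ L := sup_le (CC_le L) hJL
      have hMY : M ≤ Y := sup_le hCY hJY
      set NL : Subgroup G := L ⊓ normalizer (M : Set G) with hNL
      have hxN : (x : G) ∈ NL := by
        have h3 : zpowers (x : G) ≤ normalizer (M : Set G) := by
          rw [zpowers_le, mem_normalizer_iff_cj, hM, cj_sup]
          have e1 : cj (x : G) (CC L) = CC L := cj_eq_of_mem_normalizer (norm_C L x.2)
          have key : ∀ x : L, (∀ f ∈ im L (J T), f * φ L x = φ L x * f) → cj (x : G) (J T) ≤ CC L ⊔ J T := by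
            intro x hx
            rw [cj_le_iff_forall]
            intro g hg
            have h5 := hx (φ L ⟨g, hJL hg⟩) (mem_im.mpr ⟨⟨g, hJL hg⟩, hg, rfl⟩)
            have h6 : φ L (x * ⟨g, hJL hg⟩ * x⁻¹ * ⟨g, hJL hg⟩⁻¹) = 1 := by
              rw [map_mul, map_mul, map_mul, map_inv, map_inv, ← h5]; group
            have h7 := φ_eq_one.mp h6
            have e2 : (x : G) * g * (x : G)⁻¹ = ((x : G) * g * (x : G)⁻¹ * g⁻¹) * g := by group
            rw [e2]
            exact mul_mem (mem_sup_left h7) (mem_sup_right hg)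
          apply le_antisymm
          · rw [e1]; exact sup_le le_sup_left (key x hcJ)
          · rw [e1]
            apply sup_le le_sup_left
            have h8 := key x⁻¹ (by
              intro f hf
              rw [map_inv]
              exact ((show Commute f (φ L x) from hcJ f hf).inv_right).eq)
            have h9 : cj ((x⁻¹ : L) : G) (J T) ≤ CC L ⊔ J T := h8
            rw [Subgroup.coe_inv, cj_le_iff, inv_inv, cj_sup, e1] at h9
            exact h9
        exact mem_inf.mpr ⟨x.2, h3 (mem_zpowers _)⟩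
      have hTN : T ≤ NL := le_inf hTL (H22.Basic.le_normalizer_sup (hTL.trans (norm_C L)) (LD.T_le_NJ T))
      have hsyl := h.syl.mono hTN (inf_le_left : NL ≤ L)
      have hMN : M ≤ NL := le_inf hML Subgroup.le_normalizer
      have hsylM := hsyl.inf_of_le_normalizer hMN inf_le_right
      obtain ⟨m', hm', g', hg', hmg⟩ := hsylM.frattini hMN inf_le_right hxN
      have hg'J : g' ∈ normalizer (J T : Set G) := by
        have h3 := normalizer_le_NJ (T ⊓ M) (mem_inf.mp hg').2
        rwa [J_inf_eq hJM] at h3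
      have hxY : (x : G) ∈ Y := by
        rw [hmg]
        exact mul_mem (hMY hm') (h1 (mem_inf.mpr ⟨(mem_inf.mp (mem_inf.mp hg').1).1, hg'J⟩))
      exact mem_im.mpr ⟨x, hxY, rfl⟩
    · push Not at hcase
      obtain ⟨d, hd, hdx⟩ := hcase
      obtain ⟨K, n, v, v1, hK, hKL, c⟩ := h.exists_comp H hF hd
      have hnY : n ∈ im L Y := by
        have h3 : n ∈ im L K := by rw [c.im]; exact mem_zpowers n
        exact im_mono (h2 K hK hKL) h3
      have hdY : d ∈ im L Y := im_mono hJY (DJ_le hd)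
      rcases c.tr.T2 sqV t' with h3 | ⟨_, h3 | h3 | h3⟩
      · exact absurd h3 hdx
      · rw [h3]; exact hdY
      · rw [h3]; exact mul_mem (mul_mem hnY hdY) (inv_mem hnY)
      · rw [h3]; exact mul_mem (mul_mem (inv_mem hnY) hdY) hnY
  set R : Subgroup (MulAut ↥(VV L)) := closure {f | f ∈ (φ L).range ∧ ∃ w, Tv f w} with hR
  have hRY : R ≤ im L Y := by
    rw [hR, closure_le]
    rintro f ⟨⟨x, rfl⟩, w, hw⟩
    exact htv x w hw
  set RR : Subgroup G := (R.comap (φ L)).map L.subtype with hRR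
  have hmemR : ∀ x : L, (x : G) ∈ RR ↔ φ L x ∈ R := by
    intro x
    rw [hRR, mem_map]
    constructor
    · rintro ⟨y, hy, hyx⟩
      have : y = x := Subtype.ext hyx
      rw [← this]; exact hy
    · intro hx
      exact ⟨x, hx, rfl⟩
  have hRRL : RR ≤ L := map_subtype_le _
  have hRRY : RR ≤ Y := by
    intro x hx
    exact hback ⟨x, hRRL hx⟩ (hRY ((hmemR ⟨x, hRRL hx⟩).mp hx))
  have hRn : ∀ x : L, ∀ f ∈ R, φ L x * f * (φ L x)⁻¹ ∈ R := by
    intro x f hf
    have h3 : R ≤ R.comap (MulAut.conj (φ L x)).toMonoidHom := by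
      conv_lhs => rw [hR]
      rw [closure_le]
      rintro f ⟨⟨y, rfl⟩, w, hw⟩
      apply Subgroup.subset_closure
      refine ⟨⟨x * y * x⁻¹, ?_⟩, φ L x w, ?_⟩
      · rw [map_mul, map_mul, map_inv]; rfl
      · exact hw.conj sqV (φ L x)
    exact h3 hf
  have hLR : L ≤ normalizer (RR : Set G) := by
    rw [le_normalizer_iff_conj]
    intro y hy x hx
    have hxL := hRRL hx
    have := (hmemR (⟨y, hy⟩ * ⟨x, hxL⟩ * ⟨y, hy⟩⁻¹)).mpr (by
      rw [map_mul, map_mul, map_inv]
      exact hRn _ _ ((hmemR ⟨x, hxL⟩).mp hx))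
    exact this
  have hJR : J T ≤ RR := by
    intro g hg
    rw [hmemR ⟨g, hJL hg⟩]
    have h3 := h.J_le H (mem_im.mpr ⟨⟨g, hJL hg⟩, hg, rfl⟩)
    refine closure_mono ?_ h3
    rintro d ⟨⟨A, hA, hd⟩, w, hw⟩
    obtain ⟨x, _, rfl⟩ := mem_im.mp hd
    exact ⟨⟨x, rfl⟩, w, hw⟩
  have hsylR := h.syl.inf_of_le_normalizer hRRL hLR
  intro g hg
  obtain ⟨r, hr, m, hm, rfl⟩ := hsylR.frattini hRRL hLR hg
  apply mul_mem (hRRY hr)
  apply h1
  refine mem_inf.mpr ⟨(mem_inf.mp hm).1, ?_⟩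
  have h3 := normalizer_le_NJ (T ⊓ RR) (mem_inf.mp hm).2
  rwa [J_inf_eq hJR] at h3

/-- 2-local subgroups contain the centralizer of their 2-core -/
theorem cQ_of_twoLocal (H : Hyp G) {N : Subgroup G} (hN : IsTwoLocal N) : centralizer (oP 2 N : Set G) ≤ oP 2 N := by
  obtain ⟨P, hP, hP1, rfl⟩ := hN
  have h1 : P ≤ oP 2 (normalizer (P : Set G)) := le_oP hP Subgroup.le_normalizer le_rfl
  intro x hx
  have hxN : x ∈ normalizer (P : Set G) := (centralizer_le_normalizer _) (centralizer_le h1 hx)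
  have h2 := H.ct.2 P hP hP1
  have h3 : (⟨x, hxN⟩ : normalizer (P : Set G)) ∈ pCore 2 ↥(normalizer (P : Set G)) := by
    apply h2
    rw [mem_centralizer_iff]
    intro y hy
    apply Subtype.ext
    exact mem_centralizer_iff.mp hx y ⟨y, hy, rfl⟩
  exact ⟨⟨x, hxN⟩, h3, rfl⟩

theorem J_pgroup' {T : Subgroup G} (hT : IsPGroup 2 ↥T) : IsPGroup 2 ↥(J T) := J_pgroup hT

theorem wOf_pgroup (K : Subgroup G) (h : ∀ w ∈ wOf K, w * w = 1) : IsPGroup 2 ↥(wOf K) := by
  intro x
  refine ⟨1, ?_⟩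
  rw [pow_one, pow_two]
  exact Subtype.ext (h x x.2)

theorem JC.wOf_ne (hK : IsJComponent T K) : wOf K ≠ ⊥ := by
  intro h
  have := hK.2.2.2.2.1
  rw [h] at this
  simp at this

theorem normalizer_le_wOf (K : Subgroup G) : normalizer (K : Set G) ≤ normalizer (wOf K : Set G) :=
  H22.Basic.le_normalizer_commutator ((le_normalizer_oP K).trans (normalizer_le_omegaCenterOf _)) le_rfl

theorem JC.twoLocal (hK : IsJComponent T K) : IsTwoLocal (normalizer (wOf K : Set G)) :=
  ⟨wOf K, wOf_pgroup K hK.2.2.2.2.2, JC.wOf_ne hK, rfl⟩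

theorem JC.J_not_le (hK : IsJComponent T K) {N : Subgroup G} (hKN : K ≤ N) : ¬ J T ≤ oP 2 N := by
  intro h
  apply JC.not_pgroup hK
  have h3 : ⁅K, J T⁆ = K := hK.2.1
  have h4 : K ≤ oP 2 N := by
    rw [← h3]
    refine (commutator_mono le_rfl h).trans ?_
    rw [commutator_comm]
    exact H22.Basic.commutator_le_left (hKN.trans (norm_Q N))
  exact (oP_isPGroup N).to_le h4

/-- the Sylow overgroup of `J(T)` in `N_G(W_K)` -/
theorem zero_LD (H : Hyp G) (hT : IsPGroup 2 ↥T) (hK : K ∈ jComponentsZero T) :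
    ∃ S, IsSylIn 2 S (normalizer (wOf K : Set G)) ∧ J T ≤ S ∧ J S = J T ∧ LD S (normalizer (wOf K : Set G)) ∧
      IsJComponent S K ∧ K ≤ normalizer (wOf K : Set G) := by
  haveI : Fact (Nat.Prime 2) := ⟨Nat.prime_two⟩
  obtain ⟨hK1, hK2⟩ := hK
  have hKN : K ≤ normalizer (wOf K : Set G) := Subgroup.le_normalizer.trans (normalizer_le_wOf K)
  have hJN : J T ≤ normalizer (wOf K : Set G) := (JC.norm hK1).trans (normalizer_le_wOf K)
  obtain ⟨S, hJS, hS⟩ := exists_isSylIn_ge (J_pgroup hT) hJN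
  have hJe : J S = J T := hK2 S hJS (syl_iff.mpr hS)
  refine ⟨S, hS, hJS, hJe, ⟨hS, ?_, cQ_of_twoLocal H (JC.twoLocal hK1)⟩, JC.congr hK1 hJe.symm, hKN⟩
  rw [hJe]
  exact JC.J_not_le hK1 hKN

/-- S2944, first part -/
theorem zero_norm (H : Hyp G) (hT : IsPGroup 2 ↥T) (hK : K ∈ jComponentsZero T) :
    normalizer (K : Set G) = normalizer (wOf K : Set G) := by
  obtain ⟨S, hS, hJS, hJe, hLD, hKS, hKN⟩ := zero_LD H hT hK
  apply le_antisymm (normalizer_le_wOf K)
  apply hLD.gen H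
  · intro g hg
    obtain ⟨hg1, hg2⟩ := mem_inf.mp hg
    apply hLD.norm_of_W H hKS hKN hg1 hg2
    rw [cj_eq_of_mem_normalizer hg1, inf_idem]
    exact JC.wOf_ne hK.1
  · intro K' hK' hKL'
    exact hLD.PN H hKS hKN hK' hKL'

theorem J_weak {S T : Subgroup G} (hJ : J S = J T) {x : G} (hx : cj x (J T) ≤ S) : cj x (J T) = J T := by
  have hJT : J T ≤ S := by rw [← hJ]; exact KS.J_le S
  have h1 : cj x (J T) ≤ J T := by
    rw [J_eq T, cj_le_iff]
    apply sSup_le
    intro A hA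
    rw [← cj_le_iff]
    have hAS : A ≤ S := (maxEA_le_J hA).trans hJT
    have hcS : cj x A ≤ S := (cj_mono (maxEA_le_J hA)).trans hx
    have hmax : MaxEA 2 S (cj x A) := by
      refine ⟨hcS, hA.2.1.cj x, fun B hB hBe => ?_⟩
      rw [card_cj]
      obtain ⟨B', hB'⟩ := exists_MaxEA 2 S
      have h5 : B' ≤ T := ((maxEA_le_J hB').trans (le_of_eq hJ)).trans (KS.J_le T)
      exact (hB'.2.2 B hB hBe).trans (hA.2.2 B' h5 hB'.2.1)
    have := maxEA_le_J hmax
    rw [hJ, J_eq] at this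
    exact this
  exact H2.Card.eq_of_le_of_card_eq h1 (card_cj _ _)

/-- S2944, second part -/
theorem zero_conj (H : Hyp G) (hT : IsPGroup 2 ↥T) (hK : K ∈ jComponentsZero T) (g : G)
    (hg : J (cj g T) ≤ normalizer (wOf K : Set G)) : IsJComponent (cj g T) K := by
  haveI : Fact (Nat.Prime 2) := ⟨Nat.prime_two⟩
  obtain ⟨S, hS, hJS, hJe, hLD, hKS, hKN⟩ := zero_LD H hT hK
  obtain ⟨x, hxN, hx⟩ := hS.exists_conj_le (J_pgroup (isPGroup_cj hT)) hg
  rw [J_cj, ← cj_mul] at hx
  have h1 := J_weak hJe hx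
  have hxK : cj x K = K := cj_eq_of_mem_normalizer (by rw [zero_norm H hT hK]; exact hxN)
  have h2 := JC.conj hK.1 x⁻¹
  have h3 : cj x⁻¹ K = K := by
    conv_lhs => rw [← hxK]
    exact cj_inv_cj _ _
  rw [h3] at h2
  refine JC.congr h2 ?_
  rw [J_cj, J_cj]
  conv_lhs => rw [← h1]
  rw [cj_mul, cj_inv_cj]

end Cfsg.Agent.H18.KS
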