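import Mathlib
import Cfsg.Agent.H18_KS9

/-!
# Maximal straddling 2-subgroups
-/

set_option autoImplicit false
set_option linter.unusedSectionVars false
set_option linter.unusedSimpArgs false
set_option linter.style.haveILetI false

namespace Cfsg.Agent.H18.KS

open Subgroup Pointwise
open scoped commutatorElement
open Cfsg.Agent.H13.Syl
open Cfsg.Agent.H18.CharP
open Cfsg.Agent.H12.ZJ

variable {G : Type*} [Group G] [Finite G]
variable {T L K M : Subgroup G}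

theorem maxOrder_eq {T A : Subgroup G} (hA : MaxEA 2 T A) : maxElemAbelianOrder T = Nat.card A := by
  have hset : ((fun A : Subgroup ↥T => Nat.card ↥A) '' maxElementaryAbelianSubgroups 2 ↥T) = {Nat.card A} := by
    have hsub : IsElementaryAbelian 2 (A.subgroupOf T) := by
      refine ⟨⟨⟨fun a b => ?_⟩⟩, fun a ha => ?_⟩
      · apply Subtype.ext; apply Subtype.ext
        exact hA.2.1.1 _ a.2 _ b.2
      · apply Subtype.ext
        exact hA.2.1.2 _ ha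
    have hcard : Nat.card (A.subgroupOf T) = Nat.card A := H2.Card.card_subgroupOf_of_le hA.1
    have hEA : ∀ B : Subgroup ↥T, IsElementaryAbelian 2 B → EA 2 (B.map T.subtype) := by
      rintro B ⟨hB, hB2⟩
      constructor
      · rintro _ ⟨a, ha, rfl⟩ _ ⟨b, hb, rfl⟩
        have := hB.is_comm.comm ⟨a, ha⟩ ⟨b, hb⟩
        have := congrArg Subtype.val this
        exact congrArg Subtype.val this
      · rintro _ ⟨a, ha, rfl⟩
        exact congrArg Subtype.val (hB2 a ha)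
    have hle : ∀ B : Subgroup ↥T, IsElementaryAbelian 2 B → Nat.card B ≤ Nat.card A := by
      intro B hB
      have := hA.2.2 (B.map T.subtype) (map_subtype_le _) (hEA B hB)
      rwa [Subgroup.card_map_of_injective T.subtype_injective] at this
    ext m
    rw [Set.mem_image, Set.mem_singleton_iff]
    constructor
    · rintro ⟨B, ⟨hB, hBm⟩, rfl⟩
      apply le_antisymm (hle B hB)
      rw [← hcard]; exact hBm _ hsub
    · rintro rfl
      refine ⟨A.subgroupOf T, ⟨hsub, fun B hB => ?_⟩, hcard⟩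
      rw [hcard]; exact hle B hB
  rw [maxElemAbelianOrder, hset, csSup_singleton]

theorem maxOrder_mono {S T : Subgroup G} (h : J T ≤ S) : maxElemAbelianOrder T ≤ maxElemAbelianOrder S := by
  obtain ⟨A, hA⟩ := exists_MaxEA 2 T
  obtain ⟨B, hB⟩ := exists_MaxEA 2 S
  rw [maxOrder_eq hA, maxOrder_eq hB]
  exact hB.2.2 A ((maxEA_le_J hA).trans h) hA.2.1

theorem J_le_J {S T : Subgroup G} (h : J T ≤ S) (he : maxElemAbelianOrder S ≤ maxElemAbelianOrder T) : J T ≤ J S := by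
  rw [J_eq T]
  apply sSup_le
  intro A hA
  obtain ⟨B, hB⟩ := exists_MaxEA 2 S
  rw [maxOrder_eq hA, maxOrder_eq hB] at he
  apply maxEA_le_J
  refine ⟨(maxEA_le_J hA).trans h, hA.2.1, fun D hD hDe => (hB.2.2 D hD hDe).trans he⟩

theorem J_ne_bot {T : Subgroup G} (hT : IsPGroup 2 ↥T) (h : T ≠ ⊥) : J T ≠ ⊥ := by
  intro hJ
  obtain ⟨A, hA⟩ := exists_MaxEA 2 T
  have hA1 : A = ⊥ := le_bot_iff.mp ((maxEA_le_J hA).trans (le_of_eq hJ))
  have h1 := omegaCenterOf_ne_bot hT h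
  have h2 : EA 2 (omegaCenterOf T) := by
    constructor
    · intro a ha b hb
      exact (mem_omegaCenterOf.mp hb).2.1 a (omegaCenterOf_le _ ha)
    · intro a ha
      rw [pow_two]; exact (mem_omegaCenterOf.mp ha).2.2
  have h3 := hA.2.2 _ (omegaCenterOf_le T) h2
  rw [hA1] at h3
  simp only [Subgroup.card_bot] at h3
  exact h1 (Subgroup.card_eq_one.mp (le_antisymm h3 Nat.card_pos))

/-- in a maximal straddling situation, straddling overgroups of `J(T)` have the same `J` -/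
theorem max_J {S : Subgroup G} (hT : T ∈ maxStraddlingTwoSubgroups M) (hS : S ∈ straddlingTwoSubgroups M)
    (hJ : J T ≤ S) : J S = J T ∧ Nat.card S ≤ Nat.card T := by
  obtain ⟨hT1, hT2⟩ := hT
  obtain ⟨h1, h2⟩ := hT2 S hS
  have h3 := le_antisymm h1 (maxOrder_mono hJ)
  obtain ⟨h4, h5⟩ := h2 h3
  have h6 := J_le_J hJ h1
  have h7 : J T = J S := H2.Card.eq_of_le_of_card_eq h6 (le_antisymm (Subgroup.card_le_of_le h6) h4)
  refine ⟨h7.symm, h5 ?_⟩
  change Nat.card (J S) = Nat.card (J T)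
  rw [h7]

/-- `N_G(J(T)) ≤ M` for maximal straddling `T` -/
theorem NJ_le_M (S : Sylow 2 G) (hM : normalizer (J (S : Subgroup G) : Set G) ≤ M)
    (hT : T ∈ maxStraddlingTwoSubgroups M) : normalizer (J T : Set G) ≤ M := by
  haveI : Fact (Nat.Prime 2) := ⟨Nat.prime_two⟩
  have hTs := hT.1
  obtain ⟨hTp, hT1, hTM, L0, hL0, hTL0, hL0M⟩ := hTs
  have hSM : (S : Subgroup G) ≤ M := (LD.T_le_NJ _).trans hM
  have hSsyl : IsSylIn 2 (S : Subgroup G) M := (isSylIn_sylow_top S).mono hSM le_top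
  obtain ⟨x, hxM, hx⟩ := hSsyl.exists_conj_le hTp hTM
  set S' : Subgroup G := cj x⁻¹ (S : Subgroup G) with hS'
  have hTS' : T ≤ S' := by rw [hS', ← cj_le_iff]; exact hx
  have hS'M : S' ≤ M := by
    have : cj x⁻¹ M = M := cj_eq_of_mem (inv_mem hxM)
    rw [← this]; exact cj_mono hSM
  have hNS' : normalizer (J S' : Set G) ≤ M := by
    have : cj x⁻¹ M = M := cj_eq_of_mem (inv_mem hxM)
    rw [hS', J_cj, ← cj_normalizer, ← this]
    exact cj_mono hM
  have hS'p : IsPGroup 2 ↥S' := isPGroup_cj S.2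
  by_contra hno
  have hne : T ≠ S' := by
    rintro h
    rw [h] at hno
    exact hno hNS'
  have hlt : T < S' := lt_of_le_of_ne hTS' hne
  have h1 := lt_normalizer_of_lt hS'p hlt
  set T₁ : Subgroup G := S' ⊓ normalizer (T : Set G) with hT₁
  have hT₁p : IsPGroup 2 ↥T₁ := hS'p.to_le inf_le_left
  have hst : T₁ ∈ straddlingTwoSubgroups M := by
    refine ⟨hT₁p, ?_, inf_le_left.trans hS'M, normalizer (J T : Set G), ⟨J T, J_pgroup hTp, J_ne_bot hTp hT1, rfl⟩, ?_, hno⟩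
    · intro h
      rw [h] at h1
      exact not_lt_bot h1
    · exact inf_le_right.trans (normalizer_le_NJ T)
  have h2 := (max_J hT hst ((KS.J_le T).trans h1.le)).2
  exact absurd (H2.Card.card_lt_of_lt h1) (not_lt_of_ge h2)

theorem twoLocal_sup_ne (H : Hyp G) {N : Subgroup G} (hN : IsTwoLocal N) : oP 2 N ≠ ⊥ := by
  obtain ⟨P, hP, hP1, rfl⟩ := hN
  have h1 : P ≤ oP 2 (normalizer (P : Set G)) := le_oP hP Subgroup.le_normalizer le_rfl
  intro h
  rw [h] at h1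
  exact hP1 (le_bot_iff.mp h1)

/-- **S2948** -/
theorem s2948 (H : Hyp G) (S : Sylow 2 G) (hM : normalizer (J (S : Subgroup G) : Set G) ≤ M)
    (hT : T ∈ maxStraddlingTwoSubgroups M) (hL2 : IsTwoLocal L) (hLM : ¬ L ≤ M) {T₀ : Subgroup G}
    (hT₀ : IsSylIn 2 T₀ L) (hJT₀ : J T ≤ T₀) :
    J T = J T₀ ∧ T₀ ∈ straddlingTwoSubgroups M ∧ LD T₀ L := by
  haveI : Fact (Nat.Prime 2) := ⟨Nat.prime_two⟩
  have hTs := hT.1
  obtain ⟨hTp, hT1, hTM, L0, hL0, hTL0, hL0M⟩ := hTs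
  have hNJ := NJ_le_M S hM hT
  have hJ1 := J_ne_bot hTp hT1
  have hst' : T₀ ⊓ M ∈ straddlingTwoSubgroups M := by
    refine ⟨hT₀.isPGroup.to_le inf_le_left, ?_, inf_le_right, L, hL2, inf_le_left.trans hT₀.le, hLM⟩
    intro h
    apply hJ1
    rw [eq_bot_iff, ← h]
    exact le_inf hJT₀ ((KS.J_le T).trans hTM)
  have h1 := (max_J hT hst' (le_inf hJT₀ ((KS.J_le T).trans hTM))).1
  have h2 : T₀ ⊓ M = T₀ := by
    by_contra hne
    have hlt : T₀ ⊓ M < T₀ := lt_of_le_of_ne inf_le_left hne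
    have h3 := lt_normalizer_of_lt hT₀.isPGroup hlt
    apply not_le_of_gt h3
    apply le_inf inf_le_left
    refine inf_le_right.trans ((normalizer_le_NJ _).trans ?_)
    rw [h1]; exact hNJ
  rw [h2] at h1 hst'
  refine ⟨h1.symm, hst', ⟨hT₀, ?_, cQ_of_twoLocal H hL2⟩⟩
  intro h3
  apply hLM
  have h4 : J (oP 2 L) = J T₀ := by
    apply J_of_cj_le (x := 1) h3
    rw [cj_one]
    have h5 : IsPGroup 2 ↥(T₀ ⊔ oP 2 L) := IsPGroup.to_sup_of_normal_right' hT₀.isPGroup (oP_isPGroup L) (hT₀.le.trans (norm_Q L))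
    have h6 := hT₀.eq_of_le h5 (sup_le hT₀.le (oP_le L)) le_sup_left
    rw [← h6]; exact le_sup_right
  have h5 := (norm_Q L).trans (normalizer_le_NJ (oP 2 L))
  rw [h4, h1] at h5
  exact h5.trans hNJ

theorem s2948b (H : Hyp G) (S : Sylow 2 G) (hM : normalizer (J (S : Subgroup G) : Set G) ≤ M)
    (hT : T ∈ maxStraddlingTwoSubgroups M) (hL2 : IsTwoLocal L) (hLM : ¬ L ≤ M) (hTL : T ≤ L) : LD T L := by
  haveI : Fact (Nat.Prime 2) := ⟨Nat.prime_two⟩
  have hTp := hT.1.1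
  obtain ⟨T₁, hTT₁, hT₁⟩ := exists_isSylIn_ge hTp hTL
  obtain ⟨h1, h2, h3⟩ := s2948 H S hM hT hL2 hLM hT₁ ((KS.J_le T).trans hTT₁)
  have h4 := (max_J hT h2 ((KS.J_le T).trans hTT₁)).2
  have h5 : T = T₁ := H2.Card.eq_of_le_of_card_eq hTT₁ (le_antisymm (Subgroup.card_le_of_le hTT₁) h4)
  rw [h5]; exact h3

theorem LD.exists_comp' (H : Hyp G) (h : LD T L) : ∃ K, IsJComponent T K ∧ K ≤ L := by
  obtain ⟨F, hF⟩ := h.exists_F H
  have h1 : (DJ T L).Nonempty := by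
    by_contra hno
    rw [Set.not_nonempty_iff_eq_empty] at hno
    have h2 := h.J_le H
    rw [hno, Subgroup.closure_empty] at h2
    apply h.J_not_le_C H
    intro x hx
    have hxL := h.syl.le (KS.J_le T hx)
    have h3 := h2 (mem_im.mpr ⟨⟨x, hxL⟩, hx, rfl⟩)
    rw [Subgroup.mem_bot] at h3
    exact φ_eq_one.mp h3
  obtain ⟨d, hd⟩ := h1
  obtain ⟨K, _, _, _, hK, hKL, _⟩ := h.exists_comp H hF hd
  exact ⟨K, hK, hKL⟩

/-- components outside `M` are in `𝒦₀` -/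
theorem zero_of_outside (H : Hyp G) (S : Sylow 2 G) (hM : normalizer (J (S : Subgroup G) : Set G) ≤ M)
    (hT : T ∈ maxStraddlingTwoSubgroups M) (hK : IsJComponent T K) (hKM : ¬ K ≤ M) : K ∈ jComponentsZero T := by
  refine ⟨hK, fun S₁ hJ hS₁ => ?_⟩
  have hKN : K ≤ normalizer (wOf K : Set G) := Subgroup.le_normalizer.trans (normalizer_le_wOf K)
  exact (s2948 H S hM hT (JC.twoLocal hK) (fun h => hKM (hKN.trans h)) (syl_iff.mp hS₁) hJ).1.symm

/-- **S2949** -/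
theorem s2949 (H : Hyp G) (S : Sylow 2 G) (hM : normalizer (J (S : Subgroup G) : Set G) ≤ M)
    (hT : T ∈ maxStraddlingTwoSubgroups M) : (jComponentsOutside M T).Nonempty := by
  have hTs := hT.1
  obtain ⟨hTp, hT1, hTM, L, hL2, hTL, hLM⟩ := hTs
  have hLD := s2948b H S hM hT hL2 hLM hTL
  have hNJ := NJ_le_M S hM hT
  by_contra hno
  apply hLM
  apply hLD.gen H (inf_le_right.trans hNJ)
  intro K hK hKL
  by_contra hKM
  apply hno
  refine ⟨K, zero_of_outside H S hM hT hK hKM, hKM, ?_⟩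
  change oP 2 (K ⊔ T) ≠ ⊥
  have h1 : oP 2 L ≤ oP 2 (K ⊔ T) :=
    le_oP (oP_isPGroup L) (hLD.Q_le_T.trans le_sup_right) ((sup_le hKL hTL).trans (norm_Q L))
  intro h2
  rw [h2] at h1
  exact twoLocal_sup_ne H hL2 (le_bot_iff.mp h1)

theorem exists_maximal_twoLocal {N : Subgroup G} (hN : IsTwoLocal N) : ∃ L, IsMaximalTwoLocal L ∧ N ≤ L := by
  classical
  obtain ⟨L, hL, hmax⟩ := Set.exists_max_image {X : Subgroup G | IsTwoLocal X ∧ N ≤ X} (fun X : Subgroup G => Nat.card X)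
    (Set.toFinite _) ⟨N, hN, le_rfl⟩
  refine ⟨L, ⟨hL.1, fun N' hN' hLN' => ?_⟩, hL.2⟩
  have h1 := hmax N' ⟨hN', hL.2.trans hLN'⟩
  exact (H2.Card.eq_of_le_of_card_eq hLN' (le_antisymm (Subgroup.card_le_of_le hLN') h1)).symm

/-- the subgroup generated by the components in `L` -/
def EJ (T L : Subgroup G) : Subgroup G := sSup {K | IsJComponent T K ∧ K ≤ L}

theorem le_EJ (hK : IsJComponent T K) (hKL : K ≤ L) : K ≤ EJ T L := le_sSup ⟨hK, hKL⟩

theorem EJ_le : EJ T L ≤ L := sSup_le fun _ h => h.2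

theorem norm_EJ_of {g : G} (h1 : ∀ K, IsJComponent T K → K ≤ L → cj g K ≤ EJ T L) : cj g (EJ T L) ≤ EJ T L := by
  conv_lhs => rw [EJ]
  rw [cj_le_iff]
  apply sSup_le
  rintro K ⟨hK, hKL⟩
  rw [← cj_le_iff]
  exact h1 K hK hKL

theorem LD.EJ_norm (H : Hyp G) {T₀ : Subgroup G} (h : LD T₀ L) (hJ : J T₀ = J T) : L ≤ normalizer (EJ T L : Set G) := by
  apply h.gen H
  · intro g hg
    obtain ⟨hgL, hgJ⟩ := mem_inf.mp hg
    rw [hJ] at hgJ
    have key : ∀ g ∈ L, g ∈ normalizer (J T : Set G) → cj g (EJ T L) ≤ EJ T L := by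
      intro g hgL hgJ
      apply norm_EJ_of
      intro K hK hKL
      apply le_EJ (JC.conj_of_norm hK hgJ)
      rw [cj_le_iff_forall]
      intro a ha
      exact mul_mem (mul_mem hgL (hKL ha)) (inv_mem hgL)
    rw [mem_normalizer_iff_cj]
    apply le_antisymm (key g hgL hgJ)
    have h2 := key g⁻¹ (inv_mem hgL) (inv_mem hgJ)
    rw [cj_le_iff, inv_inv] at h2
    exact h2
  · intro K hK hKL
    exact (le_EJ (JC.congr hK hJ) hKL).trans Subgroup.le_normalizer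

theorem LD.EJ_eq (H : Hyp G) {T₀ : Subgroup G} (h : LD T₀ L) (hJ : J T₀ = J T) (hL : IsMaximalTwoLocal L)
    (hK : IsJComponent T K) (hKL : K ≤ L) : normalizer (EJ T L : Set G) = L := by
  have h1 := h.EJ_norm H hJ
  refine le_antisymm ?_ h1
  have hK0 := JC.congr hK hJ.symm
  obtain ⟨F, hF⟩ := h.exists_F H
  obtain ⟨d, n, v, v1, c⟩ := h.exists_CD H hF hK0 hKL
  have h2 : oP 2 (EJ T L) ≠ ⊥ := by
    have h3 : EJ T L ⊓ oP 2 L ≤ oP 2 (EJ T L) :=
      le_oP ((oP_isPGroup L).to_le inf_le_right) inf_le_left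
        (H22.Basic.le_normalizer_inf Subgroup.le_normalizer (EJ_le.trans (norm_Q L)))
    have h4 : oP 2 K ≤ EJ T L ⊓ oP 2 L := by
      rw [← c.inf_Q H h hKL]
      exact inf_le_inf (le_EJ hK hKL) le_rfl
    intro h5
    have h6 : oP 2 K = ⊥ := by
      rw [eq_bot_iff, ← h5]; exact h4.trans h3
    have h7 : wOf K ≤ oP 2 K := by
      refine (H22.Basic.commutator_le_left ?_).trans (omegaCenterOf_le _)
      exact (Subgroup.le_normalizer.trans (le_normalizer_oP K)).trans (normalizer_le_omegaCenterOf _)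
    rw [h6] at h7
    exact JC.wOf_ne hK (le_bot_iff.mp h7)
  have h3 := hL.2 (normalizer (oP 2 (EJ T L) : Set G)) ⟨_, oP_isPGroup _, h2, rfl⟩ (h1.trans (le_normalizer_oP (EJ T L)))
  conv_rhs => rw [← h3]
  exact le_normalizer_oP (EJ T L)

/-- **S2950**, uniqueness -/
theorem s2950_uniq (H : Hyp G) (S : Sylow 2 G) (hM : normalizer (J (S : Subgroup G) : Set G) ≤ M)
    (hT : T ∈ maxStraddlingTwoSubgroups M) (hK : IsJComponent T K) (hKM : ¬ K ≤ M) {L L' : Subgroup G}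
    (hL : IsMaximalTwoLocal L) (hL' : IsMaximalTwoLocal L') (hKL : K ⊔ J T ≤ L) (hKL' : K ⊔ J T ≤ L') : L' = L := by
  haveI : Fact (Nat.Prime 2) := ⟨Nat.prime_two⟩
  have hTp := hT.1.1
  have hK0 := zero_of_outside H S hM hT hK hKM
  have key : ∀ L, IsMaximalTwoLocal L → K ⊔ J T ≤ L → ∃ T₀, LD T₀ L ∧ J T₀ = J T := by
    intro L hL hKL
    obtain ⟨T₀, hJT₀, hT₀⟩ := exists_isSylIn_ge (J_pgroup hTp) (le_sup_right.trans hKL)
    obtain ⟨h1, _, h3⟩ := s2948 H S hM hT hL.1 (fun h => hKM ((le_sup_left.trans hKL).trans h)) hT₀ hJT₀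
    exact ⟨T₀, h3, h1.symm⟩
  obtain ⟨S₁, hS₁, _, hJS₁, hLD₁, hKS₁, hKN⟩ := zero_LD H hTp hK0
  have hnorm := zero_norm H hTp hK0
  -- components of any such `L` lie in `N_G(K)`
  have hcomp : ∀ L, IsMaximalTwoLocal L → K ⊔ J T ≤ L → ∀ K₁, IsJComponent T K₁ → K₁ ≤ L → K₁ ≤ normalizer (wOf K : Set G) := by
    intro L hL hKL K₁ hK₁ hK₁L
    obtain ⟨T₀, h1, h2⟩ := key L hL hKL
    rw [← hnorm]
    exact h1.PN H (JC.congr hK h2.symm) (le_sup_left.trans hKL) (JC.congr hK₁ h2.symm) hK₁L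
  have hle : ∀ L L', IsMaximalTwoLocal L → K ⊔ J T ≤ L → IsMaximalTwoLocal L' → K ⊔ J T ≤ L' → EJ T L' ≤ EJ T L := by
    intro L L' hL hKL hL' hKL'
    obtain ⟨T₀, h1, h2⟩ := key L hL hKL
    conv_lhs => rw [EJ]
    apply sSup_le
    rintro K₂ ⟨hK₂, hK₂L'⟩
    apply le_EJ hK₂
    rw [← h1.EJ_eq H h2 hL hK (le_sup_left.trans hKL)]
    have h3 : ∀ K₁, IsJComponent T K₁ → K₁ ≤ L → K₂ ≤ normalizer (K₁ : Set G) := by
      intro K₁ hK₁ hK₁L
      exact hLD₁.PN H (JC.congr hK₁ hJS₁.symm) (hcomp L hL hKL K₁ hK₁ hK₁L) (JC.congr hK₂ hJS₁.symm)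
        (hcomp L' hL' hKL' K₂ hK₂ hK₂L')
    have key2 : ∀ g ∈ K₂, cj g (EJ T L) ≤ EJ T L := by
      intro g hg
      apply norm_EJ_of
      intro K₁ hK₁ hK₁L
      rw [cj_eq_of_mem_normalizer (h3 K₁ hK₁ hK₁L hg)]
      exact le_EJ hK₁ hK₁L
    intro g hg
    rw [mem_normalizer_iff_cj]
    apply le_antisymm (key2 g hg)
    have h4 := key2 g⁻¹ (inv_mem hg)
    rw [cj_le_iff, inv_inv] at h4
    exact h4
  have heq : EJ T L' = EJ T L := le_antisymm (hle L L' hL hKL hL' hKL') (hle L' L hL' hKL' hL hKL)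
  obtain ⟨T₀, h1, h2⟩ := key L hL hKL
  obtain ⟨T₀', h1', h2'⟩ := key L' hL' hKL'
  rw [← h1.EJ_eq H h2 hL hK (le_sup_left.trans hKL), ← h1'.EJ_eq H h2' hL' hK (le_sup_left.trans hKL'), heq]

theorem s2950_exists (H : Hyp G) (S : Sylow 2 G) (hM : normalizer (J (S : Subgroup G) : Set G) ≤ M)
    (hT : T ∈ maxStraddlingTwoSubgroups M) (hK : K ∈ jComponentsOutside M T) :
    ∃ L, IsMaximalTwoLocal L ∧ K ⊔ T ≤ L ∧ LD T L := by
  obtain ⟨hK0, hKM, hKT⟩ := hK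
  obtain ⟨L, hL, hNL⟩ := exists_maximal_twoLocal (N := normalizer (oP 2 (K ⊔ T) : Set G))
    ⟨_, oP_isPGroup _, hKT, rfl⟩
  have h1 : K ⊔ T ≤ L := (norm_Q (K ⊔ T)).trans hNL
  exact ⟨L, hL, h1, s2948b H S hM hT hL.1 (fun h => hKM ((le_sup_left.trans h1).trans h)) (le_sup_right.trans h1)⟩

end Cfsg.Agent.H18.KS
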