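import Mathlib
import Cfsg.Agent.H18_KS10

/-!
# The centre of `J(T)` and a component (S2946)
-/

set_option autoImplicit false
set_option linter.unusedSectionVars false
set_option linter.unusedSimpArgs false
set_option linter.style.haveILetI false

namespace Cfsg.Agent.H18.KS

open Subgroup Pointwise
open scoped commutatorElement
open Cfsg.Agent.H13.Syl
open Cfsg.Agent.H18.CharP
open Cfsg.Agent.H12.ZJ

variable {G : Type*} [Group G] [Finite G]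
variable {T L K M : Subgroup G}

/-- local data of a component -/
structure KD (K : Subgroup G) (κ : G) : Prop where
  mem : κ ∈ K
  nmem : κ ∉ oP 2 K
  cube : κ ^ 3 = 1
  sup : oP 2 K ⊔ zpowers κ = K
  card : Nat.card (wOf K) = 4

theorem eq_one_of_two_odd {x : G} {k : ℕ} (h : x ^ (2 ^ k) = 1) (ho : Odd (orderOf x)) : x = 1 := by
  have h1 := orderOf_dvd_of_pow_eq_one h
  have h2 : (2 ^ k).Coprime (orderOf x) := Nat.Coprime.pow_left _ (Nat.coprime_two_left.mpr ho)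
  have h3 := Nat.dvd_gcd h1 (dvd_refl _)
  rw [h2] at h3
  exact orderOf_eq_one_iff.mp (Nat.dvd_one.mp h3)

theorem JC.exists_KD (hK : IsJComponent T K) : ∃ κ, KD K κ := by
  have h1 : ∃ κ ∈ K, Odd (orderOf κ) ∧ κ ∉ oP 2 K := by
    by_contra hno
    push Not at hno
    apply JC.not_two hK
    conv_lhs => rw [← JC.gen hK]
    rw [oddGen, closure_le]
    rintro x ⟨hx, ho⟩
    exact hno x hx ho
  obtain ⟨κ, hκ, ho, hn⟩ := h1
  have h2 := JC.cube hK hκ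
  obtain ⟨k, hk⟩ := oP_isPGroup K ⟨_, h2⟩
  have h3 : (κ ^ 3) ^ (2 ^ k) = 1 := pow_of_sub hk
  have h4 : κ ^ 3 = 1 := by
    apply eq_one_of_two_odd h3
    exact Odd.of_dvd_nat ho (orderOf_pow_dvd 3)
  refine ⟨κ, hκ, hn, h4, ?_, hK.2.2.2.2.1⟩
  rcases JC.max hK (le_sup_left : oP 2 K ≤ oP 2 K ⊔ zpowers κ) (sup_le (oP_le K) (by rw [zpowers_le]; exact hκ)) with h5 | h5
  · exact absurd (by rw [← h5]; exact mem_sup_right (mem_zpowers κ)) hn
  · exact h5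

section W

variable {κ : G} (c : KD K κ)

include c

theorem KD.norm_Y : K ≤ normalizer (omegaCenterOf (oP 2 K) : Set G) :=
  (norm_Q K).trans (normalizer_le_omegaCenterOf _)

theorem KD.WY : wOf K ≤ omegaCenterOf (oP 2 K) := H22.Basic.commutator_le_left c.norm_Y

theorem KD.norm_W : K ≤ normalizer (wOf K : Set G) := Subgroup.le_normalizer.trans (normalizer_le_wOf K)

theorem KD.conj_W {w : G} (hw : w ∈ wOf K) : κ * w * κ⁻¹ ∈ wOf K :=
  (mem_normalizer_iff.mp (c.norm_W c.mem) w).mp hw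

theorem KD.comm_W {u w : G} (hu : u ∈ wOf K) (hw : w ∈ wOf K) : u * w = w * u :=
  (mem_omegaCenterOf.mp (c.WY hw)).2.1 u (omegaCenterOf_le _ (c.WY hu))

theorem KD.sq_W {w : G} (hw : w ∈ wOf K) : w * w = 1 := (mem_omegaCenterOf.mp (c.WY hw)).2.2

theorem KD.triv {q u : G} (hq : q ∈ oP 2 K) (hu : u ∈ omegaCenterOf (oP 2 K)) : q * u * q⁻¹ = u := by
  rw [(mem_omegaCenterOf.mp hu).2.1 q hq, mul_inv_cancel_right]

theorem KD.cube' (u : G) : κ * (κ * (κ * u * κ⁻¹) * κ⁻¹) * κ⁻¹ = u := by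
  have h := c.cube
  calc κ * (κ * (κ * u * κ⁻¹) * κ⁻¹) * κ⁻¹ = κ ^ 3 * u * (κ ^ 3)⁻¹ := by
        simp only [pow_succ, pow_zero, one_mul]; group
    _ = u := by rw [h]; group

theorem KD.fix : ∀ x ∈ wOf K, κ * x * κ⁻¹ = x → x = 1 := by
  set Y : Subgroup G := omegaCenterOf (oP 2 K) with hY
  have hYc : ∀ u ∈ Y, ∀ w ∈ Y, u * w = w * u := fun u hu w hw => (mem_omegaCenterOf.mp hw).2.1 u (omegaCenterOf_le _ hu)
  have hY2 : ∀ u ∈ Y, u * u = 1 := fun u hu => (mem_omegaCenterOf.mp hu).2.2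
  have hKY := c.norm_Y
  have hyK := c.mem
  let W' : Subgroup G := {
    carrier := {w | ∃ u ∈ Y, w = κ * u * κ⁻¹ * u⁻¹}
    one_mem' := ⟨1, one_mem _, by simp⟩
    mul_mem' := by
      rintro _ _ ⟨u, hu, rfl⟩ ⟨w, hw, rfl⟩
      refine ⟨u * w, mul_mem hu hw, ?_⟩
      have h1 : κ * w * κ⁻¹ ∈ Y := (mem_normalizer_iff.mp (hKY hyK) _).mp hw
      have h3 := hYc _ (inv_mem hu) _ (mul_mem h1 (inv_mem hw))
      calc κ * u * κ⁻¹ * u⁻¹ * (κ * w * κ⁻¹ * w⁻¹)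
          = κ * u * κ⁻¹ * (u⁻¹ * (κ * w * κ⁻¹ * w⁻¹)) := by group
        _ = κ * u * κ⁻¹ * ((κ * w * κ⁻¹ * w⁻¹) * u⁻¹) := by rw [h3]
        _ = κ * (u * w) * κ⁻¹ * (u * w)⁻¹ := by group
    inv_mem' := by
      rintro _ ⟨u, hu, rfl⟩
      refine ⟨u⁻¹, inv_mem hu, ?_⟩
      have h1 : κ * u⁻¹ * κ⁻¹ ∈ Y := (mem_normalizer_iff.mp (hKY hyK) _).mp (inv_mem hu)
      have h3 := hYc _ hu _ h1
      calc (κ * u * κ⁻¹ * u⁻¹)⁻¹ = u * (κ * u⁻¹ * κ⁻¹) := by group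
        _ = _ := by rw [h3, inv_inv] }
  have hyW' : ∀ i : ℤ, ∀ u ∈ Y, (κ ^ i) * u * (κ ^ i)⁻¹ * u⁻¹ ∈ W' := by
    have hnat : ∀ m : ℕ, ∀ u ∈ Y, (κ ^ m) * u * (κ ^ m)⁻¹ * u⁻¹ ∈ W' := by
      intro m
      induction m with
      | zero => intro u _; simp
      | succ m ih =>
        intro u hu
        have h1 : (κ ^ m) * u * (κ ^ m)⁻¹ ∈ Y := (mem_normalizer_iff.mp (hKY (pow_mem hyK m)) _).mp hu
        have h2 : κ * ((κ ^ m) * u * (κ ^ m)⁻¹) * κ⁻¹ * ((κ ^ m) * u * (κ ^ m)⁻¹)⁻¹ ∈ W' :=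
          ⟨_, h1, rfl⟩
        have h3 := mul_mem h2 (ih u hu)
        have e1 : κ ^ (m + 1) * u * (κ ^ (m + 1))⁻¹ * u⁻¹ =
            κ * ((κ ^ m) * u * (κ ^ m)⁻¹) * κ⁻¹ * ((κ ^ m) * u * (κ ^ m)⁻¹)⁻¹ *
              ((κ ^ m) * u * (κ ^ m)⁻¹ * u⁻¹) := by
          rw [pow_succ']; group
        rw [e1]; exact h3
    intro i u hu
    rcases Int.eq_nat_or_neg i with ⟨m, rfl | rfl⟩
    · rw [zpow_natCast]; exact hnat m u hu
    · rw [zpow_neg, zpow_natCast]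
      have h1 : (κ ^ m)⁻¹ * u * (κ ^ m)⁻¹⁻¹ ∈ Y :=
        (mem_normalizer_iff.mp (hKY (inv_mem (pow_mem hyK m))) _).mp hu
      have h2 := inv_mem (hnat m _ h1)
      have e1 : (κ ^ m)⁻¹ * u * (κ ^ m)⁻¹⁻¹ * u⁻¹ =
          ((κ ^ m) * ((κ ^ m)⁻¹ * u * (κ ^ m)⁻¹⁻¹) * (κ ^ m)⁻¹ *
            ((κ ^ m)⁻¹ * u * (κ ^ m)⁻¹⁻¹)⁻¹)⁻¹ := by group
      rw [e1]; exact h2
  have hWW' : wOf K ≤ W' := by
    have hWdef : wOf K = ⁅Y, K⁆ := rfl
    rw [hWdef, commutator_comm, commutator_le]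
    intro x hx u hu
    have hx' : x ∈ zpowers κ ⊔ oP 2 K := by rw [sup_comm, c.sup]; exact hx
    obtain ⟨p, hp, q, hq, hpq⟩ := (H2.Card.mem_sup_iff (by rw [zpowers_le]; exact norm_Q K hyK)).mp hx'
    obtain ⟨i, rfl⟩ := mem_zpowers_iff.mp hp
    have e1 : ⁅x, u⁆ = κ ^ i * u * (κ ^ i)⁻¹ * u⁻¹ := by
      rw [commutatorElement_def, ← hpq]
      calc κ ^ i * q * u * (κ ^ i * q)⁻¹ * u⁻¹ = κ ^ i * (q * u * q⁻¹) * (κ ^ i)⁻¹ * u⁻¹ := by group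
        _ = _ := by rw [c.triv hq hu]
    rw [e1]; exact hyW' i u hu
  intro x hx hxy
  obtain ⟨u, hu, hxu⟩ := hWW' hx
  have hxY := c.WY hx
  have e1 : κ * u * κ⁻¹ = x * u := by rw [hxu]; group
  have e2 : κ * (κ * u * κ⁻¹) * κ⁻¹ = x * x * u := by
    rw [e1]
    calc κ * (x * u) * κ⁻¹ = (κ * x * κ⁻¹) * (κ * u * κ⁻¹) := by group
      _ = x * x * u := by rw [hxy, e1, mul_assoc]
  rw [hY2 x hxY, one_mul] at e2
  have e3 := c.cube' u
  rw [e2, e1] at e3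
  exact mul_eq_right.mp e3

/-- a `κ`-invariant nontrivial subgroup of `W` is `W` -/
theorem KD.irr {X : Subgroup G} (hX : X ≤ wOf K) (h1 : X ≠ ⊥) (hκ : ∀ x ∈ X, κ * x * κ⁻¹ ∈ X) : X = wOf K := by
  apply H2.Card.eq_of_le_of_card_eq hX
  rw [c.card]
  have h2 := H2.Card.card_mul_relIndex hX
  rw [c.card] at h2
  have h3 : Nat.card X ∣ 4 := Dvd.intro _ h2
  have h4 : Nat.card X ≤ 4 := Nat.le_of_dvd (by norm_num) h3
  obtain ⟨x, hx, hx1⟩ := exists_ne_one_of_ne_bot h1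
  have h5 : Nat.card X ≠ 1 := by
    intro h; exact h1 (Subgroup.card_eq_one.mp h)
  have h6 : Nat.card X ≠ 2 := by
    intro h
    obtain ⟨y, hy, hyu⟩ := (Nat.card_eq_two_iff' (1 : X)).mp h
    have e1 := hyu ⟨x, hx⟩ (fun h => hx1 (congrArg Subtype.val h))
    have e2 := hyu ⟨_, hκ x hx⟩ (fun h => hx1 (by
      have := congrArg Subtype.val h
      exact conj_eq_one_iff.mp this))
    have e3 : κ * x * κ⁻¹ = x := congrArg Subtype.val (e2.trans e1.symm)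
    exact hx1 (c.fix x (hX hx) e3)
  have h7 : 0 < Nat.card X := Nat.card_pos
  have h8 : Nat.card X ≠ 3 := by
    intro h; rw [h] at h3; omega
  omega

theorem KD.norm_three {w : G} (hw : w ∈ wOf K) : w * (κ * w * κ⁻¹) * (κ * (κ * w * κ⁻¹) * κ⁻¹) = 1 := by
  have h1 := c.conj_W hw
  have h2 := c.conj_W h1
  apply c.fix _ (mul_mem (mul_mem hw h1) h2)
  have e1 : κ * (w * (κ * w * κ⁻¹) * (κ * (κ * w * κ⁻¹) * κ⁻¹)) * κ⁻¹ =
      (κ * w * κ⁻¹) * (κ * (κ * w * κ⁻¹) * κ⁻¹) * (κ * (κ * (κ * w * κ⁻¹) * κ⁻¹) * κ⁻¹) := by group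
  rw [e1, c.cube' w, c.comm_W (mul_mem h1 h2) hw, ← mul_assoc]

end W


/-- abbreviations for the group `⟨K, J(T)⟩` -/
abbrev HH (T K : Subgroup G) : Subgroup G := K ⊔ J T

section HHsec

variable {κ : G} (hK : IsJComponent T K) (c : KD K κ)

include hK c

theorem HH_norm_K : HH T K ≤ normalizer (K : Set G) := sup_le Subgroup.le_normalizer (JC.norm hK)

theorem HH_norm_W : HH T K ≤ normalizer (wOf K : Set G) := (HH_norm_K hK c).trans (normalizer_le_wOf K)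

theorem oPK_le_QH : oP 2 K ≤ oP 2 (HH T K) :=
  le_oP (oP_isPGroup K) ((oP_le K).trans le_sup_left) ((HH_norm_K hK c).trans (le_normalizer_oP K))

theorem QH_inf_K : K ⊓ oP 2 (HH T K) = oP 2 K := by
  apply le_antisymm
  · exact le_oP ((oP_isPGroup _).to_le inf_le_right) inf_le_left
      (H22.Basic.le_normalizer_inf Subgroup.le_normalizer ((le_sup_left : K ≤ HH T K).trans (norm_Q _)))
  · exact le_inf (oP_le K) (oPK_le_QH hK c)

/-- elements of `K` mod `O₂(K)` -/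
theorem K_cases {x : G} (hx : x ∈ K) : ∃ q ∈ oP 2 K, x = q ∨ x = q * κ ∨ x = q * κ⁻¹ := by
  have hx' : x ∈ oP 2 K ⊔ zpowers κ := by rw [c.sup]; exact hx
  obtain ⟨q, hq, p, hp, rfl⟩ := mem_sup_of_norm (by rw [zpowers_le]; exact norm_Q K c.mem) hx'
  refine ⟨q, hq, ?_⟩
  obtain ⟨i, rfl⟩ := mem_zpowers_iff.mp hp
  have h3 : κ ^ (3 : ℤ) = 1 := by
    have := c.cube
    rw [← zpow_natCast] at this
    exact this
  obtain ⟨m, hm⟩ : ∃ m : ℤ, i = 3 * m ∨ i = 3 * m + 1 ∨ i = 3 * m - 1 := by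
    refine ⟨(i + 1) / 3, by omega⟩
  rcases hm with hm | hm | hm
  · left; rw [hm, zpow_mul, h3, one_zpow, mul_one]
  · right; left; rw [hm, zpow_add, zpow_mul, h3, one_zpow, one_mul, zpow_one]
  · right; right; rw [hm, zpow_sub, zpow_mul, h3, one_zpow, one_mul, zpow_one]

/-- an element of `H` centralizes or inverts `κ` mod `O₂(K)` -/
theorem HH_cases {h : G} (hh : h ∈ HH T K) : h * κ * h⁻¹ * κ⁻¹ ∈ oP 2 K ∨ h * κ * h⁻¹ * κ ∈ oP 2 K := by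
  have h1 : h * κ * h⁻¹ ∈ K := (mem_normalizer_iff.mp (HH_norm_K hK c hh) κ).mp c.mem
  obtain ⟨q, hq, h2 | h2 | h2⟩ := K_cases hK c h1
  · exfalso
    apply c.nmem
    have h3 : h⁻¹ * (h * κ * h⁻¹) * h⁻¹⁻¹ ∈ oP 2 K :=
      (mem_normalizer_iff.mp ((HH_norm_K hK c).trans (le_normalizer_oP K) (inv_mem hh)) _).mp (by rw [h2]; exact hq)
    have e1 : h⁻¹ * (h * κ * h⁻¹) * h⁻¹⁻¹ = κ := by group
    rwa [e1] at h3
  · left; rw [h2, mul_inv_cancel_right]; exact hq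
  · right; rw [h2, inv_mul_cancel_right]; exact hq

/-- `O₂(H) ∩ J` consists of the elements centralizing `κ` mod `O₂(K)` -/
theorem mem_QH (hT : IsPGroup 2 ↥T) {j : G} (hj : j ∈ J T) : j ∈ oP 2 (HH T K) ↔ j * κ * j⁻¹ * κ⁻¹ ∈ oP 2 K := by
  have hJK : J T ≤ normalizer (K : Set G) := JC.norm hK
  have hJK2 : J T ≤ normalizer (oP 2 K : Set G) := hJK.trans (le_normalizer_oP K)
  constructor
  · intro h
    rw [← QH_inf_K hK c]
    have hκH : κ ∈ HH T K := mem_sup_left c.mem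
    refine mem_inf.mpr ⟨mul_mem ((mem_normalizer_iff.mp (hJK hj) _).mp c.mem) (inv_mem c.mem), ?_⟩
    have h1 : κ * j⁻¹ * κ⁻¹ ∈ oP 2 (HH T K) := (mem_normalizer_iff.mp (norm_Q _ hκH) _).mp (inv_mem h)
    have := mul_mem h h1
    simpa only [mul_assoc] using this
  · intro h
    -- the subgroup `P`
    let P : Subgroup G := {
      carrier := {p | p ∈ J T ∧ p * κ * p⁻¹ * κ⁻¹ ∈ oP 2 K}
      one_mem' := ⟨one_mem _, by simp⟩
      mul_mem' := by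
        rintro a b ⟨ha, ha'⟩ ⟨hb, hb'⟩
        refine ⟨mul_mem ha hb, ?_⟩
        have e1 : a * b * κ * (a * b)⁻¹ * κ⁻¹ = a * (b * κ * b⁻¹ * κ⁻¹) * a⁻¹ * (a * κ * a⁻¹ * κ⁻¹) := by group
        rw [e1]
        exact mul_mem ((mem_normalizer_iff.mp (hJK2 ha) _).mp hb') ha'
      inv_mem' := by
        rintro a ⟨ha, ha'⟩
        refine ⟨inv_mem ha, ?_⟩
        have e1 : a⁻¹ * κ * a⁻¹⁻¹ * κ⁻¹ = (a⁻¹ * (a * κ * a⁻¹ * κ⁻¹) * a⁻¹⁻¹)⁻¹ := by group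
        rw [e1]
        exact inv_mem ((mem_normalizer_iff.mp (hJK2 (inv_mem ha)) _).mp ha') }
    have hPJ : P ≤ J T := fun _ hp => hp.1
    -- `[p, x] ∈ O₂(K)` for `x ∈ K`
    have hPK : ∀ p ∈ P, ∀ x ∈ K, p * x * p⁻¹ * x⁻¹ ∈ oP 2 K := by
      rintro p ⟨hp, hp'⟩ x hx
      have hn := norm_Q K
      have hpn : p ∈ normalizer (oP 2 K : Set G) := hJK2 hp
      obtain ⟨q, hq, rfl | rfl | rfl⟩ := K_cases hK c hx
      · exact mul_mem ((mem_normalizer_iff.mp hpn _).mp hq) (inv_mem hq)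
      · have e1 : p * (q * κ) * p⁻¹ * (q * κ)⁻¹ = (p * q * p⁻¹) * (p * κ * p⁻¹ * κ⁻¹) * q⁻¹ := by group
        rw [e1]
        exact mul_mem (mul_mem ((mem_normalizer_iff.mp hpn _).mp hq) hp') (inv_mem hq)
      · have e1 : p * (q * κ⁻¹) * p⁻¹ * (q * κ⁻¹)⁻¹ =
            (p * q * p⁻¹) * (κ⁻¹ * (κ * (p * κ⁻¹ * p⁻¹)) * κ⁻¹⁻¹) * q⁻¹ := by group
        have e2 : κ * (p * κ⁻¹ * p⁻¹) = (p * κ * p⁻¹ * κ⁻¹)⁻¹ := by group
        rw [e1, e2]
        refine mul_mem (mul_mem ((mem_normalizer_iff.mp hpn _).mp hq) ?_) (inv_mem hq)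
        exact (mem_normalizer_iff.mp (hn (inv_mem c.mem)) _).mp (inv_mem hp')
    have hPn : P ≤ normalizer (oP 2 K : Set G) := hPJ.trans hJK2
    have h2 : IsPGroup 2 ↥(oP 2 K ⊔ P) := by
      haveI : Fact (Nat.Prime 2) := ⟨Nat.prime_two⟩
      rw [sup_comm]
      exact IsPGroup.to_sup_of_normal_right' ((J_pgroup hT).to_le hPJ) (oP_isPGroup K) hPn
    have h3 : oP 2 K ⊔ P ≤ HH T K := sup_le ((oP_le K).trans le_sup_left) (hPJ.trans le_sup_right)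
    have h4 : K ≤ normalizer ((oP 2 K ⊔ P : Subgroup G) : Set G) := by
      have key : ∀ x ∈ K, ∀ y ∈ oP 2 K ⊔ P, x * y * x⁻¹ ∈ oP 2 K ⊔ P := by
        intro x hx y hy
        obtain ⟨q, hq, p, hp, rfl⟩ := mem_sup_of_norm hPn hy
        have e1 : x * (q * p) * x⁻¹ = (x * q * x⁻¹) * (p * x * p⁻¹ * x⁻¹)⁻¹ * p := by group
        rw [e1]
        exact mul_mem (mul_mem (mem_sup_left ((mem_normalizer_iff.mp (norm_Q K hx) _).mp hq))
          (mem_sup_left (inv_mem (hPK p hp x hx)))) (mem_sup_right hp)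
      rw [le_normalizer_iff_conj]; exact key
    have h5 : J T ≤ normalizer ((oP 2 K ⊔ P : Subgroup G) : Set G) := by
      have key : ∀ x ∈ J T, ∀ y ∈ oP 2 K ⊔ P, x * y * x⁻¹ ∈ oP 2 K ⊔ P := by
        intro x hx y hy
        obtain ⟨q, hq, p, hp, rfl⟩ := mem_sup_of_norm hPn hy
        have e1 : x * (q * p) * x⁻¹ = (x * q * x⁻¹) * (x * p * x⁻¹) := by group
        rw [e1]
        refine mul_mem (mem_sup_left ((mem_normalizer_iff.mp (hJK2 hx) _).mp hq)) (mem_sup_right ?_)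
        refine ⟨mul_mem (mul_mem hx hp.1) (inv_mem hx), ?_⟩
        -- [x p x⁻¹, κ] = x [p, x⁻¹ κ x] x⁻¹
        have h6 : x⁻¹ * κ * x⁻¹⁻¹ ∈ K := (mem_normalizer_iff.mp (hJK (inv_mem hx)) _).mp c.mem
        have h7 := hPK p hp _ h6
        have e2 : x * p * x⁻¹ * κ * (x * p * x⁻¹)⁻¹ * κ⁻¹ =
            x * (p * (x⁻¹ * κ * x⁻¹⁻¹) * p⁻¹ * (x⁻¹ * κ * x⁻¹⁻¹)⁻¹) * x⁻¹ := by group
        rw [e2]
        exact (mem_normalizer_iff.mp (hJK2 hx) _).mp h7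
      rw [le_normalizer_iff_conj]; exact key
    have h6 := le_oP h2 h3 (sup_le h4 h5)
    exact h6 (mem_sup_right ⟨hj, h⟩)

/-- `O₂(H)` centralizes `W` -/
theorem W_le_QH : wOf K ≤ oP 2 (HH T K) := (c.WY.trans (omegaCenterOf_le _)).trans (oPK_le_QH hK c)

/-- elements of `H` act on `W`, commuting with `κ` when they do mod `O₂(K)` -/
theorem act_comm {h w : G} (hh : h * κ * h⁻¹ * κ⁻¹ ∈ oP 2 K) (hhn : h ∈ normalizer (wOf K : Set G)) (hw : w ∈ wOf K) :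
    h * (κ * w * κ⁻¹) * h⁻¹ = κ * (h * w * h⁻¹) * κ⁻¹ := by
  have h1 : h * w * h⁻¹ ∈ wOf K := (mem_normalizer_iff.mp hhn _).mp hw
  have e1 : h * (κ * w * κ⁻¹) * h⁻¹ = (h * κ * h⁻¹ * κ⁻¹) * (κ * (h * w * h⁻¹) * κ⁻¹) * (h * κ * h⁻¹ * κ⁻¹)⁻¹ := by group
  rw [e1, c.triv hh (c.WY (c.conj_W h1))]

theorem act_inv {h w : G} (hh : h * κ * h⁻¹ * κ ∈ oP 2 K) (hhn : h ∈ normalizer (wOf K : Set G)) (hw : w ∈ wOf K) :
    h * (κ * w * κ⁻¹) * h⁻¹ = κ * (κ * (h * w * h⁻¹) * κ⁻¹) * κ⁻¹ := by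
  have h1 : h * w * h⁻¹ ∈ wOf K := (mem_normalizer_iff.mp hhn _).mp hw
  have h2 : κ⁻¹ * (h * w * h⁻¹) * κ⁻¹⁻¹ ∈ wOf K := (mem_normalizer_iff.mp (c.norm_W (inv_mem c.mem)) _).mp h1
  have e1 : h * (κ * w * κ⁻¹) * h⁻¹ = (h * κ * h⁻¹ * κ) * (κ⁻¹ * (h * w * h⁻¹) * κ⁻¹⁻¹) * (h * κ * h⁻¹ * κ)⁻¹ := by group
  rw [e1, c.triv hh (c.WY h2)]
  have h3 := c.cube' (κ⁻¹ * (h * w * h⁻¹) * κ⁻¹⁻¹)
  rw [← h3]
  group

theorem QH_cent_W : ∀ q ∈ oP 2 (HH T K), ∀ w ∈ wOf K, q * w = w * q := by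
  have hWne : wOf K ≠ ⊥ := JC.wOf_ne hK
  have hQn : oP 2 (HH T K) ≤ normalizer (wOf K : Set G) := (oP_le _).trans (HH_norm_W hK c)
  obtain ⟨u, hu, hu1, huc⟩ := exists_central_step (oP_isPGroup (HH T K)) (le_refl (oP 2 (HH T K))) (U₀ := ⊥)
    (Nat.card (wOf K)) (wOf K) le_rfl (W_le_QH hK c) hQn (fun h => hWne (le_bot_iff.mp h))
  have h1 : wOf K ⊓ centralizer (oP 2 (HH T K) : Set G) = wOf K := by
    apply c.irr inf_le_left
    · intro h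
      apply hu1
      rw [← h]
      refine mem_inf.mpr ⟨hu, mem_centralizer_iff.mpr ?_⟩
      intro b hb
      have := huc b hb
      rw [Subgroup.mem_bot, mul_inv_eq_one, mul_inv_eq_iff_eq_mul] at this
      exact this.symm
    · intro x hx
      obtain ⟨hxW, hxQ⟩ := mem_inf.mp hx
      refine mem_inf.mpr ⟨c.conj_W hxW, mem_centralizer_iff.mpr ?_⟩
      intro b hb
      have hκH : κ ∈ HH T K := mem_sup_left c.mem
      have h2 : κ⁻¹ * b * κ⁻¹⁻¹ ∈ oP 2 (HH T K) := (mem_normalizer_iff.mp (norm_Q _ (inv_mem hκH)) _).mp hb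
      have h3 := mem_centralizer_iff.mp hxQ _ h2
      calc b * (κ * x * κ⁻¹) = κ * (κ⁻¹ * b * κ⁻¹⁻¹ * x) * κ⁻¹ := by group
        _ = κ * x * κ⁻¹ * b := by rw [h3]; group
  intro q hq w hw
  rw [← h1] at hw
  exact mem_centralizer_iff.mp (mem_inf.mp hw).2 q hq

/-- `|C_W(a)| = 2` for an involution `a` inverting `κ` mod `O₂(K)` -/
theorem card_CWa {a : G} (haa : a * a = 1) (hh : a * κ * a⁻¹ * κ ∈ oP 2 K) (hhn : a ∈ normalizer (wOf K : Set G)) :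
    Nat.card (wOf K ⊓ centralizer ({a} : Set G) : Subgroup G) = 2 := by
  have h1 := card_sq (D := wOf K) (k := κ) (a := a) (fun x hx y hy => c.comm_W hx hy) (fun x hx => c.sq_W hx)
    (fun x hx => c.conj_W hx) (fun x hx => (mem_normalizer_iff.mp hhn _).mp hx) c.fix (fun x _ => c.cube' x)
    (fun x _ => by
      calc a * (a * x * a⁻¹) * a⁻¹ = (a * a) * x * (a * a)⁻¹ := by group
        _ = x := by rw [haa]; group)
    (fun x hx => act_inv hK c hh hhn hx)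
  rw [c.card] at h1
  have h2 : Nat.card (wOf K ⊓ centralizer ({a} : Set G) : Subgroup G) ≤ 2 := by nlinarith
  have h3 : Nat.card (wOf K ⊓ centralizer ({a} : Set G) : Subgroup G) ≠ 0 := Nat.card_pos.ne'
  have h4 : Nat.card (wOf K ⊓ centralizer ({a} : Set G) : Subgroup G) ≠ 1 := by
    intro h; rw [h] at h1; norm_num at h1
  omega

theorem inv_mul_inv {a b : G} (ha : a * κ * a⁻¹ * κ ∈ oP 2 K) (hb : b * κ * b⁻¹ * κ ∈ oP 2 K)
    (hbn : b ∈ normalizer (oP 2 K : Set G)) : (b * a) * κ * (b * a)⁻¹ * κ⁻¹ ∈ oP 2 K := by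
  have e1 : (b * a) * κ * (b * a)⁻¹ * κ⁻¹ =
      (b * (a * κ * a⁻¹ * κ) * b⁻¹) * (κ * (b * κ * b⁻¹ * κ)⁻¹ * κ⁻¹) := by group
  rw [e1]
  exact mul_mem ((mem_normalizer_iff.mp hbn _).mp ha)
    ((mem_normalizer_iff.mp (norm_Q K c.mem) _).mp (inv_mem hb))

theorem maxEA_trans {S : Subgroup G} (hJ : J S = J T) {A : Subgroup G} (hA : MaxEA 2 T A) : MaxEA 2 S A := by
  refine ⟨(maxEA_le_J hA).trans (by rw [← hJ]; exact KS.J_le S), hA.2.1, fun B hB hBe => ?_⟩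
  obtain ⟨B', hB'⟩ := exists_MaxEA 2 S
  have h5 : B' ≤ T := ((maxEA_le_J hB').trans (le_of_eq hJ)).trans (KS.J_le T)
  exact (hB'.2.2 B hB hBe).trans (hA.2.2 B' h5 hB'.2.1)

/-- replacing `A` by `(A ∩ O₂(H)) W` -/
theorem replace_A (hT : IsPGroup 2 ↥T) {S : Subgroup G} (hJS : J S = J T) (hQS : oP 2 (HH T K) ≤ S) {A : Subgroup G}
    (hA : MaxEA 2 T A) (hAQ : ¬ A ≤ oP 2 (HH T K)) : MaxEA 2 S ((A ⊓ oP 2 (HH T K)) ⊔ wOf K) := by
  obtain ⟨a, ha, haQ⟩ := SetLike.not_le_iff_exists.mp hAQ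
  have haJ : a ∈ J T := maxEA_le_J hA ha
  have hainv : a * κ * a⁻¹ * κ ∈ oP 2 K := by
    rcases HH_cases hK c (mem_sup_right haJ : a ∈ HH T K) with h | h
    · exact absurd ((mem_QH hK c hT haJ).mpr h) haQ
    · exact h
  have haW : a ∈ normalizer (wOf K : Set G) := HH_norm_W hK c (mem_sup_right haJ)
  have h2 := card_CWa hK c (EA.sq hA.2.1 ha) hainv haW
  set B : Subgroup G := A ⊓ oP 2 (HH T K) with hB
  have hBe : EA 2 B := EA.mono hA.2.1 inf_le_left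
  have hWB : wOf K ⊓ centralizer (B : Set G) = wOf K := by
    apply inf_eq_left.mpr
    intro w hw
    rw [mem_centralizer_iff]
    intro b hb
    exact QH_cent_W hK c b (mem_inf.mp hb).2 w hw
  have h3 := sup_cent_EA (A := A) (V := wOf K) hBe (fun x hx y hy => c.comm_W hx hy) (fun x hx => c.sq_W hx)
  have h4 := card_sup_cent (V := wOf K) hBe
  rw [hWB] at h3 h4
  rw [c.card] at h4
  have h5 : Nat.card (B ⊓ wOf K : Subgroup G) ≤ 2 := by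
    rw [← h2]
    apply Subgroup.card_le_of_le
    intro x hx
    obtain ⟨hxB, hxW⟩ := mem_inf.mp hx
    refine mem_inf.mpr ⟨hxW, mem_centralizer_iff.mpr ?_⟩
    intro b hb
    rw [Set.mem_singleton_iff] at hb
    rw [hb]; exact hA.2.1.1 a ha x (mem_inf.mp hxB).1
  have h6 : Nat.card A = 2 * Nat.card B := by
    have e1 : Nat.card B * B.relIndex A = Nat.card A := H2.Card.card_mul_relIndex inf_le_left
    have e2 : B.relIndex A = 2 := by
      rw [relIndex, Subgroup.index_eq_two_iff]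
      refine ⟨⟨a, ha⟩, ?_⟩
      intro b
      by_cases hb : (b : G) ∈ B
      · right
        refine ⟨hb, fun h => haQ ?_⟩
        have h7 : (b : G) * a ∈ B := h
        have h8 := B.mul_mem (B.inv_mem hb) h7
        rw [inv_mul_cancel_left] at h8
        exact (mem_inf.mp h8).2
      · left
        refine ⟨?_, hb⟩
        change (b : G) * a ∈ B
        refine mem_inf.mpr ⟨A.mul_mem b.2 ha, ?_⟩
        have hbJ : (b : G) ∈ J T := maxEA_le_J hA b.2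
        have hbQ : (b : G) ∉ oP 2 (HH T K) := fun h => hb (mem_inf.mpr ⟨b.2, h⟩)
        have hbinv : (b : G) * κ * (b : G)⁻¹ * κ ∈ oP 2 K := by
          rcases HH_cases hK c (mem_sup_right hbJ : (b : G) ∈ HH T K) with h | h
          · exact absurd ((mem_QH hK c hT hbJ).mpr h) hbQ
          · exact h
        rw [mem_QH hK c hT (mul_mem hbJ haJ)]
        exact inv_mul_inv hK c hainv hbinv (((JC.norm hK).trans (le_normalizer_oP K)) hbJ)
    rw [e2] at e1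
    omega
  refine ⟨sup_le (inf_le_right.trans hQS) ((W_le_QH hK c).trans hQS), h3, fun D hD hDe => ?_⟩
  refine ((maxEA_trans hK c hJS hA).2.2 D hD hDe).trans ?_
  have h7 : 0 < Nat.card (B ⊓ wOf K : Subgroup G) := Nat.card_pos
  nlinarith

/-- **S2946** -/
theorem s2946 (hT : IsPGroup 2 ↥T) :
    Nat.card (omegaCenterOf (J T) ⊓ wOf K : Subgroup G) = 2 ∧ wOf K ≤ J T ∧
    ∀ z ∈ omegaCenterOf (J T), ∃ e ∈ omegaCenterOf (J T), ∃ w ∈ omegaCenterOf (J T), w ∈ wOf K ∧ z = e * w ∧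
      ∀ h ∈ HH T K, h * e = e * h := by
  haveI : Fact (Nat.Prime 2) := ⟨Nat.prime_two⟩
  have hJH : J T ≤ HH T K := le_sup_right
  have hKH : K ≤ HH T K := le_sup_left
  obtain ⟨S₁, hJS₁, hS₁⟩ := exists_isSylIn_ge (J_pgroup hT) hJH
  have hJe : J S₁ = J T := hK.2.2.2.1 S₁ (syl_iff.mpr hS₁) hJS₁
  set QH : Subgroup G := oP 2 (HH T K) with hQH
  have hQS : QH ≤ S₁ := by
    have h5 : IsPGroup 2 ↥(S₁ ⊔ QH) := IsPGroup.to_sup_of_normal_right' hS₁.isPGroup (oP_isPGroup _) (hS₁.le.trans (norm_Q _))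
    have h6 := hS₁.eq_of_le h5 (sup_le hS₁.le (oP_le _)) le_sup_left
    rw [← h6]; exact le_sup_right
  have hQJ : QH ≤ normalizer (J T : Set G) := by
    rw [← hJe]; exact hQS.trans (LD.T_le_NJ S₁)
  -- a member of `𝒜(T)` not in `QH`
  obtain ⟨A, hA, hAQ⟩ : ∃ A, MaxEA 2 T A ∧ ¬ A ≤ QH := by
    by_contra hno
    push Not at hno
    apply JC.J_not_le hK hKH
    rw [J_eq]
    exact sSup_le fun A hA => hno A hA
  obtain ⟨a, ha, haQ⟩ := SetLike.not_le_iff_exists.mp hAQ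
  have haJ : a ∈ J T := maxEA_le_J hA ha
  have hinv : ∀ a ∈ J T, a ∉ QH → a * κ * a⁻¹ * κ ∈ oP 2 K := by
    intro a ha haQ
    rcases HH_cases hK c (mem_sup_right ha : a ∈ HH T K) with h | h
    · exact absurd ((mem_QH hK c hT ha).mpr h) haQ
    · exact h
  have hainv := hinv a haJ haQ
  have haa := EA.sq hA.2.1 ha
  have hHW := HH_norm_W hK c
  have hcard2 := card_CWa hK c haa hainv (hHW (mem_sup_right haJ))
  have hA₁ := replace_A hK c hT hJe hQS hA hAQ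
  have hA₁Q : (A ⊓ QH) ⊔ wOf K ≤ QH := sup_le inf_le_right (W_le_QH hK c)
  have hA₁' := hA₁.mono hQS hA₁Q
  have hWJ : wOf K ≤ J T := by
    rw [← hJe]; exact le_sup_right.trans (maxEA_le_J hA₁)
  have hJQJ : J QH ≤ J T := by
    rw [← hJe, J_eq, J_eq]
    exact JJ_le_of_le hA₁ hQS hA₁Q
  set U₀ : Subgroup G := omegaCenterOf (J QH) with hU₀
  have hHU : HH T K ≤ normalizer (U₀ : Set G) :=
    ((norm_Q _).trans (normalizer_le_NJ QH)).trans (normalizer_le_omegaCenterOf _)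
  have hUA : ∀ B, MaxEA 2 QH B → U₀ ≤ B := by
    intro B hB u hu
    rw [hU₀, mem_omegaCenterOf] at hu
    exact hB.mem_of (KS.J_le _ hu.1) (by rw [pow_two]; exact hu.2.2) (fun b hb => hu.2.1 b (maxEA_le_J hB hb))
  have hWU : wOf K ≤ U₀ := by
    intro w hw
    rw [hU₀, mem_omegaCenterOf]
    refine ⟨maxEA_le_J hA₁' (mem_sup_right hw), ?_, c.sq_W hw⟩
    intro y hy
    exact QH_cent_W hK c y (KS.J_le _ hy) w hw
  -- `[U₀, A'] ≤ W`
  have hUA' : ∀ A', MaxEA 2 T A' → ∀ g ∈ A', ∀ u ∈ U₀, g * u * g⁻¹ * u⁻¹ ∈ wOf K := by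
    intro A' hA' g hg u hu
    by_cases hAQ' : A' ≤ QH
    · have h1 := (maxEA_trans hK c hJe hA').mono hQS hAQ'
      have h2 := (mem_omegaCenterOf.mp hu).2.1 g (maxEA_le_J h1 hg)
      rw [h2, mul_inv_cancel_right, mul_inv_cancel]; exact one_mem _
    · have h1 := (replace_A hK c hT hJe hQS hA' hAQ').mono hQS (sup_le inf_le_right (W_le_QH hK c))
      have h2 := hUA _ h1 hu
      have hBW : A' ⊓ QH ≤ normalizer (wOf K : Set G) := (inf_le_right.trans (oP_le _)).trans hHW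
      obtain ⟨b, hb, w, hw, rfl⟩ := (H2.Card.mem_sup_iff hBW).mp h2
      have hgJ : g ∈ J T := maxEA_le_J hA' hg
      have hgw : g * w * g⁻¹ ∈ wOf K := (mem_normalizer_iff.mp (hHW (mem_sup_right hgJ)) _).mp hw
      have hbg : g * b = b * g := hA'.2.1.1 g hg b (mem_inf.mp hb).1
      have hx : g * w * g⁻¹ * w⁻¹ ∈ wOf K := mul_mem hgw (inv_mem hw)
      have hbx := QH_cent_W hK c b (mem_inf.mp hb).2 _ hx
      have e1 : g * (b * w) * g⁻¹ * (b * w)⁻¹ = g * w * g⁻¹ * w⁻¹ := by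
        calc g * (b * w) * g⁻¹ * (b * w)⁻¹ = (g * b) * w * g⁻¹ * w⁻¹ * b⁻¹ := by group
          _ = b * (g * w * g⁻¹ * w⁻¹) * b⁻¹ := by rw [hbg]; group
          _ = g * w * g⁻¹ * w⁻¹ := by rw [hbx]; group
      rw [e1]; exact hx
  let R : Subgroup G := {
    carrier := {g | g ∈ HH T K ∧ ∀ u ∈ U₀, g * u * g⁻¹ * u⁻¹ ∈ wOf K}
    one_mem' := ⟨one_mem _, fun u _ => by simp⟩
    mul_mem' := by
      rintro g h ⟨hg, hg'⟩ ⟨hh, hh'⟩
      refine ⟨mul_mem hg hh, fun u hu => ?_⟩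
      have e1 : g * h * u * (g * h)⁻¹ * u⁻¹ = (g * (h * u * h⁻¹ * u⁻¹) * g⁻¹) * (g * u * g⁻¹ * u⁻¹) := by group
      rw [e1]
      exact mul_mem ((mem_normalizer_iff.mp (hHW hg) _).mp (hh' u hu)) (hg' u hu)
    inv_mem' := by
      rintro g ⟨hg, hg'⟩
      refine ⟨inv_mem hg, fun u hu => ?_⟩
      have e1 : g⁻¹ * u * g⁻¹⁻¹ * u⁻¹ = g⁻¹ * (g * u * g⁻¹ * u⁻¹)⁻¹ * g⁻¹⁻¹ *
          (u * (1 : G) * u⁻¹) := by group
      rw [e1, mul_one, mul_inv_cancel, mul_one]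
      exact (mem_normalizer_iff.mp (hHW (inv_mem hg)) _).mp (inv_mem (hg' u hu)) }
  have hJR : J T ≤ R := by
    rw [J_eq]
    exact sSup_le fun A' hA' g hg => ⟨mem_sup_right (maxEA_le_J hA' hg), hUA' A' hA' g hg⟩
  have hRn : HH T K ≤ normalizer (R : Set G) := by
    rw [le_normalizer_iff_conj]
    rintro x hx g ⟨hg, hg'⟩
    refine ⟨mul_mem (mul_mem hx hg) (inv_mem hx), fun u hu => ?_⟩
    have h1 : x⁻¹ * u * x⁻¹⁻¹ ∈ U₀ := (mem_normalizer_iff.mp (hHU (inv_mem hx)) _).mp hu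
    have e1 : x * g * x⁻¹ * u * (x * g * x⁻¹)⁻¹ * u⁻¹ =
        x * (g * (x⁻¹ * u * x⁻¹⁻¹) * g⁻¹ * (x⁻¹ * u * x⁻¹⁻¹)⁻¹) * x⁻¹ := by group
    rw [e1]
    exact (mem_normalizer_iff.mp (hHW hx) _).mp (hg' _ h1)
  have hKR : K ≤ R := by
    have h3 : ⁅K, J T⁆ = K := hK.2.1
    rw [← h3]
    refine (commutator_mono le_rfl hJR).trans ?_
    rw [commutator_comm]
    exact H22.Basic.commutator_le_left (hKH.trans hRn)
  set Z₀ : Subgroup G := omegaCenterOf (J T) with hZ₀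
  have hZU : Z₀ ≤ U₀ := by
    intro z hz
    rw [hZ₀, mem_omegaCenterOf] at hz
    have h1 : z ∈ (A ⊓ QH) ⊔ wOf K :=
      hA₁.mem_of (hJS₁ hz.1) (by rw [pow_two]; exact hz.2.2) (fun b hb => hz.2.1 b (by rw [← hJe]; exact maxEA_le_J hA₁ hb))
    rw [hU₀, mem_omegaCenterOf]
    exact ⟨maxEA_le_J hA₁' h1, fun y hy => hz.2.1 y (hJQJ hy), hz.2.2⟩
  -- `β = 0`
  have hcomm_CWa : ∀ x ∈ wOf K, a * x = x * a → a * (κ * x * κ⁻¹) = (κ * x * κ⁻¹) * a → x = 1 := by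
    intro x hx h1 h3
    by_contra hx1
    obtain ⟨y, hy, hyu⟩ := (Nat.card_eq_two_iff' (1 : (wOf K ⊓ centralizer ({a} : Set G) : Subgroup G))).mp hcard2
    have m1 : x ∈ wOf K ⊓ centralizer ({a} : Set G) := mem_inf.mpr ⟨hx, mem_centralizer_iff.mpr (by
      intro b hb; rw [Set.mem_singleton_iff] at hb; rw [hb]; exact h1)⟩
    have m2 : κ * x * κ⁻¹ ∈ wOf K ⊓ centralizer ({a} : Set G) := mem_inf.mpr ⟨c.conj_W hx, mem_centralizer_iff.mpr (by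
      intro b hb; rw [Set.mem_singleton_iff] at hb; rw [hb]; exact h3)⟩
    have e1 := hyu ⟨x, m1⟩ (fun h => hx1 (congrArg Subtype.val h))
    have e2 := hyu ⟨_, m2⟩ (fun h => hx1 (conj_eq_one_iff.mp (congrArg Subtype.val h)))
    have e3 : κ * x * κ⁻¹ = x := congrArg Subtype.val (e2.trans e1.symm)
    exact hx1 (c.fix x hx e3)
  have hK2Q := oPK_le_QH hK c
  have hβ : ∀ z ∈ Z₀, ∀ k ∈ oP 2 K, k * z = z * k := by
    intro z hz
    have hzc : ∀ j ∈ J T, j * z = z * j := (mem_omegaCenterOf.mp hz).2.1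
    have hzU := hZU hz
    have hβW : ∀ k ∈ oP 2 K, k * z * k⁻¹ * z⁻¹ ∈ wOf K := fun k hk => (hKR (oP_le K hk)).2 z hzU
    -- β(k) commutes with `a`
    have h1 : ∀ k ∈ oP 2 K, a * (k * z * k⁻¹ * z⁻¹) = (k * z * k⁻¹ * z⁻¹) * a := by
      intro k hk
      have hkJ : k * a * k⁻¹ ∈ J T := (mem_normalizer_iff.mp (hQJ (hK2Q hk)) _).mp haJ
      have h2 := hzc _ hkJ
      have h3 := hzc a haJ
      -- k a k⁻¹ z = z k a k⁻¹ 
      have h4 : a * (k⁻¹ * z * k) = (k⁻¹ * z * k) * a := by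
        calc a * (k⁻¹ * z * k) = k⁻¹ * (k * a * k⁻¹ * z) * k := by group
          _ = (k⁻¹ * z * k) * a := by rw [h2]; group
      -- use `k z k⁻¹ z⁻¹ = k z (z k)⁻¹`; β(k⁻¹)
      have hk' : k⁻¹ ∈ oP 2 K := inv_mem hk
      have hkJ' : k⁻¹ * a * k⁻¹⁻¹ ∈ J T := (mem_normalizer_iff.mp (hQJ (hK2Q hk')) _).mp haJ
      have h2' := hzc _ hkJ'
      have h4' : a * (k * z * k⁻¹) = (k * z * k⁻¹) * a := by
        calc a * (k * z * k⁻¹) = k * (k⁻¹ * a * k⁻¹⁻¹ * z) * k⁻¹ := by group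
          _ = (k * z * k⁻¹) * a := by rw [h2']; group
      have c1 : Commute a (k * z * k⁻¹) := h4'
      have c2 : Commute a z := h3
      exact (c1.mul_right c2.inv_right).eq
    intro k hk
    have hkk : κ⁻¹ * k * κ⁻¹⁻¹ ∈ oP 2 K := (mem_normalizer_iff.mp (norm_Q K (inv_mem c.mem)) _).mp hk
    have hkk' : κ * k * κ⁻¹ ∈ oP 2 K := (mem_normalizer_iff.mp (norm_Q K c.mem) _).mp hk
    -- β(κ k κ⁻¹) = κ β(k) κ⁻¹
    have hzκ : κ⁻¹ * z * κ⁻¹⁻¹ * z⁻¹ ∈ wOf K := (hKR (inv_mem c.mem)).2 z hzU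
    have h5 : (κ * k * κ⁻¹) * z * (κ * k * κ⁻¹)⁻¹ * z⁻¹ = κ * (k * z * k⁻¹ * z⁻¹) * κ⁻¹ := by
      set w := κ⁻¹ * z * κ⁻¹⁻¹ * z⁻¹ with hw
      have e1 : κ⁻¹ * z * κ⁻¹⁻¹ = w * z := by rw [hw]; group
      have e2 := QH_cent_W hK c k (hK2Q hk) w hzκ
      calc (κ * k * κ⁻¹) * z * (κ * k * κ⁻¹)⁻¹ * z⁻¹
          = κ * (k * (κ⁻¹ * z * κ⁻¹⁻¹) * k⁻¹ * (κ⁻¹ * z * κ⁻¹⁻¹)⁻¹) * κ⁻¹ := by group
        _ = κ * ((k * w) * z * k⁻¹ * z⁻¹ * w⁻¹) * κ⁻¹ := by rw [e1]; group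
        _ = κ * (w * (k * z * k⁻¹ * z⁻¹) * w⁻¹) * κ⁻¹ := by rw [e2]; group
        _ = κ * (k * z * k⁻¹ * z⁻¹) * κ⁻¹ := by rw [c.comm_W hzκ (hβW k hk)]; group
    have h6 := h1 _ hkk'
    rw [h5] at h6
    have h7 := hcomm_CWa _ (hβW k hk) (h1 k hk) h6
    rw [mul_inv_eq_one, mul_inv_eq_iff_eq_mul] at h7
    exact h7
  -- `Z₀ ∩ W`
  have hZW : omegaCenterOf (J T) ⊓ wOf K = wOf K ⊓ centralizer ({a} : Set G) := by
    apply le_antisymm
    · intro x hx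
      obtain ⟨h1, h2⟩ := mem_inf.mp hx
      refine mem_inf.mpr ⟨h2, mem_centralizer_iff.mpr ?_⟩
      intro b hb; rw [Set.mem_singleton_iff] at hb; rw [hb]
      exact (mem_omegaCenterOf.mp h1).2.1 a haJ
    · intro x hx
      obtain ⟨h1, h2⟩ := mem_inf.mp hx
      refine mem_inf.mpr ⟨mem_omegaCenterOf.mpr ⟨hWJ h1, ?_, c.sq_W h1⟩, h1⟩
      intro j hj
      have hax : a * x = x * a := mem_centralizer_iff.mp h2 a rfl
      by_cases hjQ : j ∈ QH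
      · exact QH_cent_W hK c j hjQ x h1
      · have h3 := inv_mul_inv hK c (hinv j hj hjQ) hainv (((JC.norm hK).trans (le_normalizer_oP K)) haJ)
        have h4 : a * j ∈ QH := (mem_QH hK c hT (mul_mem haJ hj)).mpr h3
        have h5 := QH_cent_W hK c _ h4 x h1
        have c1 : Commute (a * j) x := h5
        have c2 : Commute a x := hax
        have c3 := (c2.inv_left).mul_left c1
        rw [inv_mul_cancel_left] at c3
        exact c3.eq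
  refine ⟨?_, hWJ, ?_⟩
  · rw [hZW]; exact hcard2
  intro z hz
  have hzU := hZU hz
  have hw1 : κ * z * κ⁻¹ * z⁻¹ ∈ wOf K := (hKR c.mem).2 z hzU
  set w1 := κ * z * κ⁻¹ * z⁻¹ with hw1d
  have hκz : κ * z * κ⁻¹ = w1 * z := by rw [hw1d]; group
  set w := κ * w1 * κ⁻¹ with hwd
  have hwW : w ∈ wOf K := c.conj_W hw1
  have hzc : ∀ j ∈ J T, j * z = z * j := (mem_omegaCenterOf.mp hz).2.1
  have hzz : z * z = 1 := (mem_omegaCenterOf.mp hz).2.2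
  have hzw : ∀ x ∈ wOf K, x * z = z * x := fun x hx => hzc x (hWJ hx)
  -- κ centralizes `z * w`
  have h3 := c.norm_three hw1
  have hκc : κ * (z * w) * κ⁻¹ = z * w := by
    have e1 : κ * (z * w) * κ⁻¹ = (κ * z * κ⁻¹) * (κ * w * κ⁻¹) := by group
    have hww := c.conj_W hwW
    -- w1 * w * (κ w κ⁻¹) = 1
    have e2 : w1 * w * (κ * w * κ⁻¹) = 1 := h3
    have e3 : w1 * (κ * w * κ⁻¹) = w := by
      have e4 : w1 * w = w * w1 := c.comm_W hw1 hwW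
      have e5 : w * (w1 * (κ * w * κ⁻¹)) = 1 := by rw [← mul_assoc, ← e4]; exact e2
      have e6 := eq_inv_of_mul_eq_one_right e5
      rw [e6]
      exact inv_eq_of_mul_eq_one_left (c.sq_W hwW)
    rw [e1, hκz, mul_assoc, ← hzw _ hww, ← mul_assoc, e3, hzw w hwW]
  have hKc : ∀ x ∈ K, x * (z * w) = (z * w) * x := by
    intro x hx
    have h5 : ∀ q ∈ oP 2 K, q * (z * w) = (z * w) * q := by
      intro q hq
      have c1 : Commute q z := hβ z hz q hq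
      have c2 : Commute q w := QH_cent_W hK c q (hK2Q hq) w hwW
      exact (c1.mul_right c2).eq
    have h6 : Commute κ (z * w) := mul_inv_eq_iff_eq_mul.mp hκc
    obtain ⟨q, hq, rfl | rfl | rfl⟩ := K_cases hK c hx
    · exact h5 _ hq
    · exact ((show Commute q (z * w) from h5 q hq).mul_left h6).eq
    · exact ((show Commute q (z * w) from h5 q hq).mul_left h6.inv_left).eq
  have hJc : ∀ j ∈ J T, j * (z * w) = (z * w) * j := by
    intro j hj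
    have hjw : j * w * j⁻¹ ∈ wOf K := (mem_normalizer_iff.mp (hHW (mem_sup_right hj)) _).mp hwW
    have e1 : j * (z * w) * j⁻¹ = z * (j * w * j⁻¹) := by
      calc j * (z * w) * j⁻¹ = (j * z) * (w * j⁻¹) := by group
        _ = z * (j * w * j⁻¹) := by rw [hzc j hj]; group
    -- κ centralizes j (z w) j⁻¹
    have hjK : j⁻¹ * κ * j⁻¹⁻¹ ∈ K := (mem_normalizer_iff.mp ((JC.norm hK) (inv_mem hj)) _).mp c.mem
    have e2 := hKc _ hjK
    have e3 : κ * (j * (z * w) * j⁻¹) * κ⁻¹ = j * (z * w) * j⁻¹ := by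
      calc κ * (j * (z * w) * j⁻¹) * κ⁻¹ = j * ((j⁻¹ * κ * j⁻¹⁻¹) * (z * w)) * j⁻¹ * κ⁻¹ := by group
        _ = j * (z * w) * j⁻¹ := by rw [e2]; group
    set w2 := w⁻¹ * (j * w * j⁻¹) with hw2
    have hw2W : w2 ∈ wOf K := mul_mem (inv_mem hwW) hjw
    have e4 : j * (z * w) * j⁻¹ = (z * w) * w2 := by rw [e1, hw2]; group
    have e5 : κ * w2 * κ⁻¹ = w2 := by
      rw [e4] at e3
      have e6 : κ * (z * w * w2) * κ⁻¹ = (κ * (z * w) * κ⁻¹) * (κ * w2 * κ⁻¹) := by group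
      rw [e6, hκc] at e3
      exact mul_left_cancel e3
    have e7 := c.fix w2 hw2W e5
    rw [e7, mul_one] at e4
    exact mul_inv_eq_iff_eq_mul.mp e4
  have hzwJ : z * w ∈ J T := mul_mem (mem_omegaCenterOf.mp hz).1 (hWJ hwW)
  have hcZ : z * w ∈ omegaCenterOf (J T) := by
    refine mem_omegaCenterOf.mpr ⟨hzwJ, hJc, ?_⟩
    calc z * w * (z * w) = z * (w * z) * w := by group
      _ = (z * z) * (w * w) := by rw [hzw w hwW]; group
      _ = 1 := by rw [hzz, c.sq_W hwW, one_mul]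
  have hwi : w⁻¹ = w := inv_eq_of_mul_eq_one_left (c.sq_W hwW)
  have hwZ : w ∈ omegaCenterOf (J T) := by
    have := mul_mem (inv_mem hz) hcZ
    rwa [inv_mul_cancel_left] at this
  refine ⟨z * w, hcZ, w, hwZ, hwW, ?_, ?_⟩
  · rw [mul_assoc, c.sq_W hwW, mul_one]
  · intro h hh
    obtain ⟨x, hx, j, hj, rfl⟩ := mem_sup_of_norm (JC.norm hK) hh
    exact ((show Commute x (z * w) from hKc x hx).mul_left (hJc j hj)).eq

end HHsec

end Cfsg.Agent.H18.KS
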