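import Mathlib

set_option autoImplicit false

/-! Abstract triality data. -/

namespace Cfsg.Agent.H5.TriG

section Dih

variable {M : Type*} [Group M]

theorem pow_val_add {n : ℕ} [NeZero n] {c : M} (hc : c ^ n = 1) (i j : ZMod n) : c ^ (i + j).val = c ^ i.val * c ^ j.val := by
  rw [ZMod.val_add, ← pow_eq_pow_mod _ hc, pow_add]

theorem pow_val_sub {n : ℕ} [NeZero n] {c : M} (hc : c ^ n = 1) (i j : ZMod n) : c ^ (i - j).val = c ^ i.val * (c ^ j.val)⁻¹ := by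
  rw [eq_mul_inv_iff_mul_eq, ← pow_val_add hc, sub_add_cancel]

theorem swap_pow {c a : M} (ha : a * a = 1) (h : a * c * a = c⁻¹) (k : ℕ) : c ^ k * a = a * (c ^ k)⁻¹ := by
  have h1 : c * a = a * c⁻¹ := by
    rw [← h, ← mul_assoc, ← mul_assoc, ha, one_mul]
  induction k with
  | zero => simp
  | succ k ih =>
    calc c ^ (k + 1) * a = c ^ k * (c * a) := by rw [pow_succ, mul_assoc]
      _ = c ^ k * a * c⁻¹ := by rw [h1, mul_assoc]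
      _ = a * ((c ^ k)⁻¹ * c⁻¹) := by rw [ih, mul_assoc]
      _ = a * (c ^ (k + 1))⁻¹ := by rw [← mul_inv_rev, ← pow_succ']

/-- homomorphisms from dihedral groups. -/
def dih {n : ℕ} [NeZero n] {c a : M} (hc : c ^ n = 1) (ha : a * a = 1) (h : a * c * a = c⁻¹) : DihedralGroup n →* M where
  toFun x := match x with
    | DihedralGroup.r i => c ^ i.val
    | DihedralGroup.sr i => a * c ^ i.val
  map_one' := by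
    change c ^ (0 : ZMod n).val = 1
    rw [ZMod.val_zero, pow_zero]
  map_mul' := by
    have hneg : ∀ i : ZMod n, c ^ (-i).val = (c ^ i.val)⁻¹ := by
      intro i
      have := pow_val_sub hc 0 i
      rwa [zero_sub, ZMod.val_zero, pow_zero, one_mul] at this
    rintro (i | i) (j | j)
    · change c ^ (i + j).val = _
      exact pow_val_add hc i j
    · change a * c ^ (j - i).val = c ^ i.val * (a * c ^ j.val)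
      rw [← mul_assoc, swap_pow ha h, sub_eq_neg_add, pow_val_add hc, mul_assoc, hneg]
    · change a * c ^ (i + j).val = a * c ^ i.val * c ^ j.val
      rw [pow_val_add hc, mul_assoc]
    · change c ^ (j - i).val = a * c ^ i.val * (a * c ^ j.val)
      rw [mul_assoc, ← mul_assoc (c ^ i.val), swap_pow ha h, ← mul_assoc, ← mul_assoc, ha, one_mul,
        sub_eq_neg_add, pow_val_add hc, hneg]

theorem dih_r {n : ℕ} [NeZero n] {c a : M} (hc : c ^ n = 1) (ha : a * a = 1) (h : a * c * a = c⁻¹) (i : ZMod n) :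
    dih hc ha h (DihedralGroup.r i) = c ^ i.val := rfl

theorem dih_sr {n : ℕ} [NeZero n] {c a : M} (hc : c ^ n = 1) (ha : a * a = 1) (h : a * c * a = c⁻¹) (i : ZMod n) :
    dih hc ha h (DihedralGroup.sr i) = a * c ^ i.val := rfl

theorem dih3_equiv : Nonempty (DihedralGroup 3 ≃* Equiv.Perm (Fin 3)) := by
  let f : DihedralGroup 3 →* Equiv.Perm (Fin 3) := dih (c := finRotate 3) (a := Equiv.swap 0 1) (by decide) (by decide) (by decide)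
  have hinj : Function.Injective f := by
    rw [injective_iff_map_eq_one]
    rintro (i | i) hi
    · change (finRotate 3) ^ i.val = 1 at hi
      revert i; decide
    · change Equiv.swap 0 1 * (finRotate 3) ^ i.val = 1 at hi
      revert i; decide
  have hbij : Function.Bijective f := (Nat.bijective_iff_injective_and_card f).mpr ⟨hinj, by
    rw [DihedralGroup.nat_card, Nat.card_eq_fintype_card, Fintype.card_perm, Fintype.card_fin]; rfl⟩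
  exact ⟨MulEquiv.ofBijective f hbij⟩

end Dih

variable {G Φ : Type*} [Group G] [Group Φ]

/-- the common part. -/
def EE (D : Subgroup G) (t : G) : Subgroup G where
  carrier := {α | α ∈ D ∧ t * α * t⁻¹ ∈ D ∧ t⁻¹ * α * t ∈ D}
  one_mem' := ⟨one_mem _, by rw [mul_one, mul_inv_cancel]; exact one_mem _, by rw [mul_one, inv_mul_cancel]; exact one_mem _⟩
  mul_mem' := by
    rintro a b ⟨h1, h2, h3⟩ ⟨h4, h5, h6⟩
    refine ⟨mul_mem h1 h4, ?_, ?_⟩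
    · have : t * (a * b) * t⁻¹ = (t * a * t⁻¹) * (t * b * t⁻¹) := by group
      rw [this]; exact mul_mem h2 h5
    · have : t⁻¹ * (a * b) * t = (t⁻¹ * a * t) * (t⁻¹ * b * t) := by group
      rw [this]; exact mul_mem h3 h6
  inv_mem' := by
    rintro a ⟨h1, h2, h3⟩
    refine ⟨inv_mem h1, ?_, ?_⟩
    · have : t * a⁻¹ * t⁻¹ = (t * a * t⁻¹)⁻¹ := by group
      rw [this]; exact inv_mem h2
    · have : t⁻¹ * a⁻¹ * t = (t⁻¹ * a * t)⁻¹ := by group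
      rw [this]; exact inv_mem h3

theorem EE_conj_J {D : Subgroup G} {t J e : G} (hJD : J ∈ D) (h1 : t * J = J * t⁻¹) (h2 : t⁻¹ * J = J * t) (he : e ∈ EE D t) :
    J * e * J ∈ EE D t := by
  obtain ⟨h3, h4, h5⟩ := he
  refine ⟨mul_mem (mul_mem hJD h3) hJD, ?_, ?_⟩
  · have e1 : t * (J * e * J) * t⁻¹ = J * (t⁻¹ * e * t) * J := by
      calc _ = (t * J) * e * (J * t⁻¹) := by group
        _ = (J * t⁻¹) * e * (t * J) := by rw [← h1, h1]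
        _ = _ := by group
    rw [e1]
    exact mul_mem (mul_mem hJD h5) hJD
  · have e1 : t⁻¹ * (J * e * J) * t = J * (t * e * t⁻¹) * J := by
      calc _ = (t⁻¹ * J) * e * (J * t) := by group
        _ = (J * t) * e * (t⁻¹ * J) := by rw [← h2, h2]
        _ = _ := by group
    rw [e1]
    exact mul_mem (mul_mem hJD h4) hJD

/-- triality data. -/
structure Dat (G Φ : Type*) [Group G] [Group Φ] where
  D : Subgroup G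
  t : G
  J : G
  fl : Φ →* G
  ht : t ^ 3 = 1
  hJ : J * J = 1
  htJ : J * t * J = t⁻¹
  hJD : J ∈ D
  hft : ∀ σ, fl σ * t = t * fl σ
  hfJ : ∀ σ, fl σ * J = J * fl σ
  hfD : ∀ σ, ∀ d ∈ D, fl σ * d * (fl σ)⁻¹ ∈ D
  hf1 : ∀ σ, fl σ ∈ D → σ = 1
  hR : ∀ d ∈ D, ∀ σ, t ≠ d * fl σ
  hcos : ∀ α : G, (∃ d ∈ D, ∃ σ, α = d * fl σ) ∨ ∃ g ∈ D, ∃ d ∈ D, ∃ σ, α⁻¹ * g * t = d * fl σ
  hE : ∀ α ∈ D, α ∈ EE D t ∨ α * J ∈ EE D t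

namespace Dat

variable (𝒟 : Dat G Φ)

/-- the subgroup `E`. -/
abbrev E : Subgroup G := EE 𝒟.D 𝒟.t

theorem mem_E {α : G} : α ∈ 𝒟.E ↔ α ∈ 𝒟.D ∧ 𝒟.t * α * 𝒟.t⁻¹ ∈ 𝒟.D ∧ 𝒟.t⁻¹ * α * 𝒟.t ∈ 𝒟.D := Iff.rfl

theorem tt : 𝒟.t * 𝒟.t = 𝒟.t⁻¹ := by
  rw [eq_inv_iff_mul_eq_one, ← 𝒟.ht, pow_succ, sq]

theorem J_inv : 𝒟.J⁻¹ = 𝒟.J := by rw [inv_eq_iff_mul_eq_one, 𝒟.hJ]

theorem tJ : 𝒟.t * 𝒟.J = 𝒟.J * 𝒟.t⁻¹ := by
  rw [← 𝒟.htJ, ← mul_assoc, ← mul_assoc, 𝒟.hJ, one_mul]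

theorem tiJ : 𝒟.t⁻¹ * 𝒟.J = 𝒟.J * 𝒟.t := by
  have h := 𝒟.tJ
  rw [← mul_inv_eq_iff_eq_mul] at h
  rw [inv_mul_eq_iff_eq_mul, ← mul_assoc, 𝒟.tJ, inv_mul_cancel_right]

theorem E_le : 𝒟.E ≤ 𝒟.D := fun _ h => h.1

theorem conj_t {e : G} (he : e ∈ 𝒟.E) : 𝒟.t * e * 𝒟.t⁻¹ ∈ 𝒟.E := by
  obtain ⟨h1, h2, h3⟩ := he
  refine ⟨h2, ?_, ?_⟩
  · have e1 : 𝒟.t * (𝒟.t * e * 𝒟.t⁻¹) * 𝒟.t⁻¹ = (𝒟.t * 𝒟.t) * e * (𝒟.t * 𝒟.t)⁻¹ := by group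
    rw [e1, tt, inv_inv]; exact h3
  · have e1 : 𝒟.t⁻¹ * (𝒟.t * e * 𝒟.t⁻¹) * 𝒟.t = e := by group
    rw [e1]; exact h1

theorem conj_J {e : G} (he : e ∈ 𝒟.E) : 𝒟.J * e * 𝒟.J ∈ 𝒟.E := by
  obtain ⟨h1, h2, h3⟩ := he
  refine ⟨mul_mem (mul_mem 𝒟.hJD h1) 𝒟.hJD, ?_, ?_⟩
  · have e1 : 𝒟.t * (𝒟.J * e * 𝒟.J) * 𝒟.t⁻¹ = 𝒟.J * (𝒟.t⁻¹ * e * 𝒟.t) * 𝒟.J := by
      have h4 : 𝒟.J * 𝒟.t⁻¹ = 𝒟.t * 𝒟.J := 𝒟.tJ.symm
      calc _ = (𝒟.t * 𝒟.J) * e * (𝒟.J * 𝒟.t⁻¹) := by group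
        _ = (𝒟.J * 𝒟.t⁻¹) * e * (𝒟.t * 𝒟.J) := by rw [h4, 𝒟.tJ]
        _ = _ := by group
    rw [e1]
    exact mul_mem (mul_mem 𝒟.hJD h3) 𝒟.hJD
  · have e1 : 𝒟.t⁻¹ * (𝒟.J * e * 𝒟.J) * 𝒟.t = 𝒟.J * (𝒟.t * e * 𝒟.t⁻¹) * 𝒟.J := by
      have h4 : 𝒟.J * 𝒟.t = 𝒟.t⁻¹ * 𝒟.J := 𝒟.tiJ.symm
      calc _ = (𝒟.t⁻¹ * 𝒟.J) * e * (𝒟.J * 𝒟.t) := by group
        _ = (𝒟.J * 𝒟.t) * e * (𝒟.t⁻¹ * 𝒟.J) := by rw [h4, 𝒟.tiJ]
        _ = _ := by group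
    rw [e1]
    exact mul_mem (mul_mem 𝒟.hJD h2) 𝒟.hJD

theorem conj_J' {e : G} (he : e ∈ 𝒟.E) : 𝒟.J * e * 𝒟.J⁻¹ ∈ 𝒟.E := by rw [J_inv]; exact 𝒟.conj_J he

theorem t_nmem : 𝒟.t ∉ 𝒟.D := fun h => 𝒟.hR _ h 1 (by rw [map_one, mul_one])

theorem J_nmem : 𝒟.J ∉ 𝒟.E := by
  rintro ⟨-, h, -⟩
  rw [𝒟.tJ, mul_assoc, ← mul_inv_rev, tt, inv_inv] at h
  exact 𝒟.t_nmem ((Subgroup.mul_mem_cancel_left _ 𝒟.hJD).mp h)

/-- the copy of `S₃`. -/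
def ps : DihedralGroup 3 →* G := dih (n := 3) 𝒟.ht 𝒟.hJ 𝒟.htJ

theorem ps_sr (i : ZMod 3) : 𝒟.ps (.sr i) = 𝒟.J * 𝒟.t ^ i.val := rfl
theorem ps_r (i : ZMod 3) : 𝒟.ps (.r i) = 𝒟.t ^ i.val := rfl

theorem fl_ps (σ : Φ) (s : DihedralGroup 3) : 𝒟.fl σ * 𝒟.ps s = 𝒟.ps s * 𝒟.fl σ := by
  have h1 : ∀ k : ℕ, 𝒟.fl σ * 𝒟.t ^ k = 𝒟.t ^ k * 𝒟.fl σ := by
    intro k
    exact (Commute.pow_right (show Commute (𝒟.fl σ) 𝒟.t from 𝒟.hft σ) k)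
  rcases s with i | i
  · exact h1 _
  · rw [ps_sr, ← mul_assoc, 𝒟.hfJ, mul_assoc, h1, mul_assoc]

theorem conj_ps {e : G} (he : e ∈ 𝒟.E) (s : DihedralGroup 3) : 𝒟.ps s * e * (𝒟.ps s)⁻¹ ∈ 𝒟.E := by
  have h1 : ∀ k : ℕ, ∀ e ∈ 𝒟.E, 𝒟.t ^ k * e * (𝒟.t ^ k)⁻¹ ∈ 𝒟.E := by
    intro k
    induction k with
    | zero => intro e he; simpa using he
    | succ k ih =>
      intro e he
      have e1 : 𝒟.t ^ (k + 1) * e * (𝒟.t ^ (k + 1))⁻¹ = 𝒟.t ^ k * (𝒟.t * e * 𝒟.t⁻¹) * (𝒟.t ^ k)⁻¹ := by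
        rw [pow_succ]; group
      rw [e1]
      exact ih _ (𝒟.conj_t he)
  rcases s with i | i
  · exact h1 _ _ he
  · rw [ps_sr]
    have e1 : 𝒟.J * 𝒟.t ^ i.val * e * (𝒟.J * 𝒟.t ^ i.val)⁻¹ = 𝒟.J * (𝒟.t ^ i.val * e * (𝒟.t ^ i.val)⁻¹) * 𝒟.J⁻¹ := by group
    rw [e1]
    exact 𝒟.conj_J' (h1 _ _ he)

theorem R_mul {a b : G} (ha : ∃ d ∈ 𝒟.D, ∃ σ, a = d * 𝒟.fl σ) (hb : ∃ d ∈ 𝒟.D, ∃ σ, b = d * 𝒟.fl σ) :
    ∃ d ∈ 𝒟.D, ∃ σ, a * b = d * 𝒟.fl σ := by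
  obtain ⟨d, hd, σ, rfl⟩ := ha
  obtain ⟨d', hd', σ', rfl⟩ := hb
  refine ⟨d * (𝒟.fl σ * d' * (𝒟.fl σ)⁻¹), mul_mem hd (𝒟.hfD σ d' hd'), σ * σ', ?_⟩
  rw [map_mul]; group

theorem R_inv {a : G} (ha : ∃ d ∈ 𝒟.D, ∃ σ, a = d * 𝒟.fl σ) : ∃ d ∈ 𝒟.D, ∃ σ, a⁻¹ = d * 𝒟.fl σ := by
  obtain ⟨d, hd, σ, rfl⟩ := ha
  refine ⟨𝒟.fl σ⁻¹ * d⁻¹ * (𝒟.fl σ⁻¹)⁻¹, 𝒟.hfD _ _ (inv_mem hd), σ⁻¹, ?_⟩
  rw [map_inv]; group

theorem sep {e : G} (he : e ∈ 𝒟.E) {σ : Φ} {s : DihedralGroup 3} (h : e * 𝒟.fl σ = 𝒟.ps s) : s = 1 ∧ σ = 1 ∧ e = 1 := by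
  have hRe : ∃ d ∈ 𝒟.D, ∃ σ, 𝒟.ps s = d * 𝒟.fl σ := ⟨e, he.1, σ, h.symm⟩
  have ht : ∀ i : ZMod 3, (∃ d ∈ 𝒟.D, ∃ σ, 𝒟.t ^ i.val = d * 𝒟.fl σ) → i = 0 := by
    intro i hi
    fin_cases i
    · rfl
    · exfalso
      obtain ⟨d, hd, σ, h1⟩ := hi
      have h2 : 𝒟.t ^ 1 = d * 𝒟.fl σ := h1
      rw [pow_one] at h2
      exact 𝒟.hR d hd σ h2
    · exfalso
      obtain ⟨d, hd, σ, h1⟩ := 𝒟.R_inv hi
      have h2 : (𝒟.t ^ 2)⁻¹ = d * 𝒟.fl σ := h1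
      rw [sq, tt, inv_inv] at h2
      exact 𝒟.hR d hd σ h2
  have hs : s = 1 := by
    rcases s with i | i
    · rw [ht i hRe]; rfl
    · exfalso
      rw [ps_sr] at hRe h
      have h1 := 𝒟.R_mul ⟨𝒟.J, 𝒟.hJD, 1, by rw [map_one, mul_one]⟩ hRe
      rw [← mul_assoc, 𝒟.hJ, one_mul] at h1
      rw [ht i h1, ZMod.val_zero, pow_zero, mul_one] at h
      have h2 : 𝒟.fl σ ∈ 𝒟.D := by
        have : 𝒟.fl σ = e⁻¹ * 𝒟.J := by rw [← h]; group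
        rw [this]
        exact mul_mem (inv_mem he.1) 𝒟.hJD
      rw [𝒟.hf1 σ h2, map_one, mul_one] at h
      rw [h] at he
      exact 𝒟.J_nmem he
  subst hs
  rw [map_one] at h
  have h2 : 𝒟.fl σ ∈ 𝒟.D := by
    have : 𝒟.fl σ = e⁻¹ := eq_inv_of_mul_eq_one_right h
    rw [this]
    exact inv_mem he.1
  have h3 := 𝒟.hf1 σ h2
  refine ⟨rfl, h3, ?_⟩
  rw [h3, map_one, mul_one] at h
  exact h

theorem D_cases {d : G} (hd : d ∈ 𝒟.D) : ∃ e ∈ 𝒟.E, d = e ∨ d = e * 𝒟.J := by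
  rcases 𝒟.hE d hd with h | h
  · exact ⟨d, h, Or.inl rfl⟩
  · exact ⟨_, h, Or.inr (by rw [mul_assoc, 𝒟.hJ, mul_one])⟩

theorem exists_rep (α : G) : ∃ e ∈ 𝒟.E, ∃ s σ, α = e * 𝒟.ps s * 𝒟.fl σ := by
  have hps0 : 𝒟.ps (.sr 0) = 𝒟.J := by rw [ps_sr, ZMod.val_zero, pow_zero, mul_one]
  have hps1 : 𝒟.ps (.r 1) = 𝒟.t := by rw [ps_r]; exact pow_one _
  rcases 𝒟.hcos α with ⟨d, hd, σ, rfl⟩ | ⟨g, hg, d, hd, σ, h⟩
  · obtain ⟨e, he, rfl | rfl⟩ := 𝒟.D_cases hd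
    · exact ⟨_, he, 1, σ, by rw [map_one, mul_one]⟩
    · exact ⟨e, he, .sr 0, σ, by rw [hps0]⟩
  · have hd' : (𝒟.fl σ)⁻¹ * d⁻¹ * 𝒟.fl σ ∈ 𝒟.D := by
      have := 𝒟.hfD σ⁻¹ d⁻¹ (inv_mem hd)
      rwa [map_inv, inv_inv] at this
    have hα : α = g * 𝒟.t * ((𝒟.fl σ)⁻¹ * d⁻¹ * 𝒟.fl σ) * 𝒟.fl σ⁻¹ := by
      have h1 : α * (d * 𝒟.fl σ) = g * 𝒟.t := by rw [← h]; group
      have h2 : α = g * 𝒟.t * (d * 𝒟.fl σ)⁻¹ := by rw [← h1]; group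
      rw [h2, map_inv]; group
    set d' := (𝒟.fl σ)⁻¹ * d⁻¹ * 𝒟.fl σ with hd'd
    obtain ⟨e₁, he₁, h1⟩ := 𝒟.D_cases hg
    obtain ⟨e₂, he₂, h2⟩ := 𝒟.D_cases hd'
    obtain ⟨s₁, h3⟩ : ∃ s, g = e₁ * 𝒟.ps s := by
      rcases h1 with h1 | h1
      · exact ⟨1, by rw [map_one, mul_one]; exact h1⟩
      · exact ⟨.sr 0, by rw [hps0]; exact h1⟩
    obtain ⟨s₂, h4⟩ : ∃ s, d' = e₂ * 𝒟.ps s := by
      rcases h2 with h2 | h2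
      · exact ⟨1, by rw [map_one, mul_one]; exact h2⟩
      · exact ⟨.sr 0, by rw [hps0]; exact h2⟩
    refine ⟨e₁ * (𝒟.ps (s₁ * .r 1) * e₂ * (𝒟.ps (s₁ * .r 1))⁻¹), mul_mem he₁ (𝒟.conj_ps he₂ _), s₁ * .r 1 * s₂, σ⁻¹, ?_⟩
    rw [hα, h3, h4, ← hps1, map_mul 𝒟.ps (s₁ * _), map_mul 𝒟.ps s₁]
    group

/-- the unique factorization. -/
theorem rep_bij : Function.Bijective (fun x : 𝒟.E × DihedralGroup 3 × Φ => (x.1 : G) * 𝒟.ps x.2.1 * 𝒟.fl x.2.2) := by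
  constructor
  · rintro ⟨⟨e, he⟩, s, σ⟩ ⟨⟨e', he'⟩, s', σ'⟩ h
    change e * 𝒟.ps s * 𝒟.fl σ = e' * 𝒟.ps s' * 𝒟.fl σ' at h
    have h1 : (𝒟.ps s⁻¹ * (e'⁻¹ * e) * (𝒟.ps s⁻¹)⁻¹) * 𝒟.fl (σ * σ'⁻¹) = 𝒟.ps (s⁻¹ * s') := by
      have h2 : e'⁻¹ * e * 𝒟.ps s = 𝒟.ps s' * (𝒟.fl σ' * (𝒟.fl σ)⁻¹) := by
        have h3 : e * 𝒟.ps s = e' * 𝒟.ps s' * 𝒟.fl σ' * (𝒟.fl σ)⁻¹ := by rw [← h]; group
        rw [mul_assoc, h3]; group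
      have h4 : 𝒟.fl σ' * (𝒟.fl σ)⁻¹ = (𝒟.fl (σ * σ'⁻¹))⁻¹ := by rw [map_mul, map_inv]; group
      rw [h4] at h2
      have h5 : 𝒟.ps s⁻¹ * (e'⁻¹ * e) * (𝒟.ps s⁻¹)⁻¹ = 𝒟.ps (s⁻¹ * s') * (𝒟.fl (σ * σ'⁻¹))⁻¹ := by
        rw [map_inv, inv_inv, map_mul, map_inv, mul_assoc (𝒟.ps s)⁻¹ (𝒟.ps s'), ← h2]
        group
      rw [h5, inv_mul_cancel_right]
    obtain ⟨h2, h3, h4⟩ := 𝒟.sep (𝒟.conj_ps (mul_mem (inv_mem he') he) _) h1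
    have hs : s = s' := (inv_mul_eq_one.mp h2)
    have hσ : σ = σ' := mul_inv_eq_one.mp h3
    subst hs; subst hσ
    have he1 : e = e' := by
      have := mul_right_cancel h
      exact mul_right_cancel this
    subst he1
    rfl
  · intro α
    obtain ⟨e, he, s, σ, h⟩ := 𝒟.exists_rep α
    exact ⟨⟨⟨e, he⟩, s, σ⟩, h.symm⟩

theorem card_G : Nat.card G = Nat.card 𝒟.E * (6 * Nat.card Φ) := by
  rw [← Nat.card_congr (Equiv.ofBijective _ 𝒟.rep_bij), Nat.card_prod, Nat.card_prod, DihedralGroup.nat_card]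

theorem card_D : Nat.card 𝒟.D = Nat.card 𝒟.E * 2 := by
  have hb : Function.Bijective (fun x : 𝒟.E × Bool => (⟨(x.1 : G) * (if x.2 then 𝒟.J else 1), by
      refine mul_mem x.1.2.1 ?_
      split_ifs
      · exact 𝒟.hJD
      · exact one_mem _⟩ : 𝒟.D)) := by
    constructor
    · rintro ⟨⟨e, he⟩, b⟩ ⟨⟨e', he'⟩, b'⟩ h
      have h' : e * (if b then 𝒟.J else 1) = e' * (if b' then 𝒟.J else 1) := congrArg Subtype.val h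
      cases b <;> cases b'
      · have : e = e' := by simpa using h'
        subst this; rfl
      · exfalso
        have h1 : e = e' * 𝒟.J := by simpa using h'
        apply 𝒟.J_nmem
        have : 𝒟.J = e'⁻¹ * e := by rw [h1]; group
        rw [this]
        exact mul_mem (inv_mem he') he
      · exfalso
        have h1 : e * 𝒟.J = e' := by simpa using h'
        apply 𝒟.J_nmem
        have : 𝒟.J = e⁻¹ * e' := by rw [← h1]; group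
        rw [this]
        exact mul_mem (inv_mem he) he'
      · have : e = e' := by simpa using h'
        subst this; rfl
    · rintro ⟨d, hd⟩
      obtain ⟨e, he, rfl | rfl⟩ := 𝒟.D_cases hd
      · exact ⟨⟨⟨_, he⟩, false⟩, Subtype.ext (by simp)⟩
      · exact ⟨⟨⟨_, he⟩, true⟩, Subtype.ext (by simp)⟩
  have h1 := Nat.card_congr (Equiv.ofBijective _ hb)
  rw [← h1, Nat.card_prod, Nat.card_eq_fintype_card (α := Bool), Fintype.card_bool]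

theorem card_GD : Nat.card G = 3 * (Nat.card 𝒟.D * Nat.card Φ) := by
  rw [𝒟.card_G, 𝒟.card_D]; ring

/-- the quotient by `E`. -/
theorem quot_E (I : Subgroup G) [I.Normal] (hI : I = 𝒟.E) : Nonempty (G ⧸ I ≃* DihedralGroup 3 × Φ) := by
  let f : DihedralGroup 3 × Φ →* G ⧸ I :=
    { toFun := fun x => QuotientGroup.mk (𝒟.ps x.1 * 𝒟.fl x.2)
      map_one' := by rw [Prod.fst_one, Prod.snd_one, map_one, map_one, mul_one]; rfl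
      map_mul' := by
        rintro ⟨s, σ⟩ ⟨s', σ'⟩
        change (QuotientGroup.mk (𝒟.ps (s * s') * 𝒟.fl (σ * σ')) : G ⧸ I) =
          QuotientGroup.mk (𝒟.ps s * 𝒟.fl σ) * QuotientGroup.mk (𝒟.ps s' * 𝒟.fl σ')
        rw [← QuotientGroup.mk_mul]
        congr 1
        rw [map_mul, map_mul, mul_assoc (𝒟.ps s) (𝒟.fl σ), ← mul_assoc (𝒟.fl σ), 𝒟.fl_ps]
        simp only [mul_assoc] }
  have hb : Function.Bijective f := by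
    constructor
    · rw [injective_iff_map_eq_one]
      rintro ⟨s, σ⟩ h
      change (QuotientGroup.mk (𝒟.ps s * 𝒟.fl σ) : G ⧸ I) = 1 at h
      rw [QuotientGroup.eq_one_iff, hI] at h
      obtain ⟨h3, h4, -⟩ := 𝒟.sep (inv_mem h) (σ := σ) (s := s⁻¹) (by
        rw [← 𝒟.fl_ps, mul_inv_rev, map_inv]; group)
      rw [inv_eq_one] at h3
      rw [h3, h4]
      rfl
    · intro x
      obtain ⟨α, rfl⟩ := QuotientGroup.mk_surjective x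
      obtain ⟨e, he, s, σ, rfl⟩ := 𝒟.exists_rep α
      refine ⟨(s, σ), ?_⟩
      change (QuotientGroup.mk (𝒟.ps s * 𝒟.fl σ) : G ⧸ I) = _
      rw [mul_assoc, QuotientGroup.mk_mul I e, (QuotientGroup.eq_one_iff e).mpr (by rw [hI]; exact he), one_mul]
  exact ⟨(MulEquiv.ofBijective f hb).symm⟩

end Dat

end Cfsg.Agent.H5.TriG
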