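import Mathlib
import Cfsg.Agent.H18_SM1
import Cfsg.Agent.H11_AxB
import Cfsg.Agent.H17_Involves
import Cfsg.Agent.H5_TriG
import Cfsg.Agent.H2_FF2

/-!
# Small offenders and sections isomorphic to the symmetric group of degree three
-/

set_option autoImplicit false
set_option linter.unusedSectionVars false
set_option linter.unusedSimpArgs false
set_option linter.style.haveILetI false

namespace Cfsg.Agent.H18.SM

open Subgroup Pointwise
open scoped commutatorElement
open Cfsg.Agent.H13.Syl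
open Cfsg.Agent.H18.KS (commutator_le_left_of mem_sup_of_norm le_normalizer_iff_conj)

theorem involves_s3 {M : Type*} [Group M] {x a : M} (hx : x ^ 3 = 1) (hx1 : x ≠ 1) (ha : a * a = 1)
    (h : a * x * a = x⁻¹) : Cfsg.Involves (Equiv.Perm (Fin 3)) M := by
  obtain ⟨e⟩ := H5.TriG.dih3_equiv
  have hox : orderOf x = 3 := orderOf_eq_prime hx hx1
  set f : DihedralGroup 3 →* M := H5.TriG.dih hx ha h with hf
  have hinj : Function.Injective f := by
    rw [injective_iff_map_eq_one]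
    have h0 : ∀ i : ZMod 3, x ^ i.val = 1 → i = 0 := by
      intro i hi
      have h1 : 3 ∣ i.val := by
        have := orderOf_dvd_of_pow_eq_one hi
        rw [hox] at this
        exact this
      have h2 : i.val < 3 := ZMod.val_lt i
      have h3 : i.val = 0 := by omega
      exact (ZMod.val_eq_zero i).mp h3
    rintro (i | i) hi
    · change x ^ i.val = 1 at hi
      rw [h0 i hi]; rfl
    · exfalso
      change a * x ^ i.val = 1 at hi
      have h1 : a = (x ^ i.val)⁻¹ := eq_inv_of_mul_eq_one_left hi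
      have h2 : Commute a x := by
        rw [h1]
        exact (Commute.pow_self x i.val).inv_left
      have h3 : x = x⁻¹ := by
        rw [← h, h2.eq, mul_assoc, ha, mul_one]
      have h4 : x ^ 2 = 1 := by
        rw [pow_two]
        nth_rewrite 2 [h3]
        exact mul_inv_cancel x
      have h5 : orderOf x ∣ 2 := orderOf_dvd_of_pow_eq_one h4
      rw [hox] at h5
      omega
  have h1 : Cfsg.Involves (DihedralGroup 3) M := by
    rw [H17.Involves.involves_iff]
    refine ⟨f.range, (MonoidHom.ofInjective hinj).symm.toMonoidHom, (MonoidHom.ofInjective hinj).symm.surjective⟩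
  exact H17.Involves.involves_of_mulEquiv e h1

variable {G : Type*} [Group G]

/-- an element of odd order acting on a set of at most four elements -/
theorem cube_of_card_le [Finite G] {D : Subgroup G} {x : G} (hx : x ∈ normalizer (D : Set G))
    (ho : (orderOf x).Coprime 2) (hD : Nat.card D ≤ 4) : ∀ d ∈ D, x ^ 3 * d = d * x ^ 3 := by
  set u : ↥(normalizer (D : Set G)) := ⟨x, hx⟩ with hu
  set f : ↥(normalizer (D : Set G)) →* Equiv.Perm D := (MulAut.toPerm D).comp (normalizerMonoidHom D) with hf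
  have h1 : orderOf (f u) ∣ orderOf x := by
    have := orderOf_map_dvd f u
    rwa [hu, Subgroup.orderOf_mk] at this
  have h2 : orderOf (f u) ∣ 24 := by
    have h3 : orderOf (f u) ∣ Nat.card (Equiv.Perm D) := orderOf_dvd_natCard _
    rw [Nat.card_perm] at h3
    exact h3.trans (Nat.factorial_dvd_factorial hD)
  have h3 : orderOf (f u) ∣ 3 := by
    have hc : (orderOf (f u)).Coprime 8 := by
      have : (orderOf (f u)).Coprime 2 := Nat.Coprime.coprime_dvd_left h1 ho
      exact Nat.Coprime.pow_right 3 this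
    have : orderOf (f u) ∣ 8 * 3 := h2
    exact hc.dvd_of_dvd_mul_left this
  have h4 : f u ^ 3 = 1 := orderOf_dvd_iff_pow_eq_one.mp h3
  rw [← map_pow] at h4
  intro d hd
  have h5 := DFunLike.congr_fun h4 ⟨d, hd⟩
  have h6 : x ^ 3 * d * (x ^ 3)⁻¹ = d := congrArg Subtype.val h5
  calc x ^ 3 * d = (x ^ 3 * d * (x ^ 3)⁻¹) * x ^ 3 := by group
    _ = d * x ^ 3 := by rw [h6]

/-- an element of odd order with centralizer of index at most four on an abelian `2`-group -/
theorem cube [Finite G] {W : Subgroup G} {x : G} (hW : ∀ v ∈ W, ∀ w ∈ W, v * w = w * v) (hW2 : ∀ v ∈ W, v ^ 2 = 1)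
    (hx : x ∈ normalizer (W : Set G)) (ho : (orderOf x).Coprime 2)
    (hi : (W ⊓ centralizer ({x} : Set G)).relIndex W ≤ 4) : ∀ w ∈ W, x ^ 3 * w = w * x ^ 3 := by
  have hxW : ∀ w ∈ W, x * w * x⁻¹ ∈ W := fun w hw => (mem_normalizer_iff.mp hx w).mp hw
  let φ : ↥W →* G :=
    { toFun := fun w => x * (w : G) * x⁻¹ * (w : G)⁻¹
      map_one' := by simp
      map_mul' := by
        intro v w
        have h1 := hW _ (hxW w w.2) _ (inv_mem v.2)
        calc x * ((v * w : ↥W) : G) * x⁻¹ * ((v * w : ↥W) : G)⁻¹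
            = x * (v : G) * x⁻¹ * (x * (w : G) * x⁻¹) * (w : G)⁻¹ * (v : G)⁻¹ := by
              push_cast; group
          _ = x * (v : G) * x⁻¹ * ((x * (w : G) * x⁻¹ * (w : G)⁻¹) * (v : G)⁻¹) := by group
          _ = x * (v : G) * x⁻¹ * ((v : G)⁻¹ * (x * (w : G) * x⁻¹ * (w : G)⁻¹)) := by
              rw [hW _ (mul_mem (hxW w w.2) (inv_mem w.2)) _ (inv_mem v.2)]
          _ = x * (v : G) * x⁻¹ * (v : G)⁻¹ * (x * (w : G) * x⁻¹ * (w : G)⁻¹) := by group }
  have hker : φ.ker = (W ⊓ centralizer ({x} : Set G)).subgroupOf W := by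
    ext w
    rw [MonoidHom.mem_ker, mem_subgroupOf, mem_inf, mem_centralizer_singleton_iff]
    constructor
    · intro h
      have h' : x * (w : G) * x⁻¹ * (w : G)⁻¹ = 1 := h
      refine ⟨w.2, ?_⟩
      calc (w : G) * x = (x * (w : G) * x⁻¹ * (w : G)⁻¹)⁻¹ * x * w := by group
        _ = x * w := by rw [h']; group
    · rintro ⟨-, h⟩
      change x * (w : G) * x⁻¹ * (w : G)⁻¹ = 1
      rw [← h]; group
  have hcard : Nat.card φ.range ≤ 4 := by
    rw [← index_ker, hker]; exact hi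
  have hxD : x ∈ normalizer (φ.range : Set G) := by
    have : zpowers x ≤ normalizer (φ.range : Set G) := by
      rw [le_normalizer_iff_conj]
      rintro g hg _ ⟨w, rfl⟩
      have hgW : g ∈ normalizer (W : Set G) := (zpowers_le.mpr hx) hg
      refine ⟨⟨g * w * g⁻¹, (mem_normalizer_iff.mp hgW w).mp w.2⟩, ?_⟩
      obtain ⟨k, rfl⟩ := mem_zpowers_iff.mp hg
      change x * (x ^ k * w * (x ^ k)⁻¹) * x⁻¹ * (x ^ k * w * (x ^ k)⁻¹)⁻¹ = x ^ k * (x * w * x⁻¹ * (w : G)⁻¹) * (x ^ k)⁻¹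
      group
    exact this (mem_zpowers x)
  have h3 := cube_of_card_le hxD ho hcard
  intro w hw
  -- `⁅x ^ 3, w⁆` lies in the range
  have hxk : ∀ k : ℕ, ∀ w ∈ W, x ^ k * w * (x ^ k)⁻¹ * w⁻¹ ∈ φ.range := by
    intro k
    induction k with
    | zero => intro w _; simp
    | succ k ih =>
      intro w hw
      have h1 : x ^ (k + 1) * w * (x ^ (k + 1))⁻¹ * w⁻¹ =
          (x ^ k * (x * w * x⁻¹) * (x ^ k)⁻¹ * (x * w * x⁻¹)⁻¹) * (x * w * x⁻¹ * w⁻¹) := by
        rw [pow_succ]; group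
      rw [h1]
      exact mul_mem (ih _ (hxW w hw)) ⟨⟨w, hw⟩, rfl⟩
  have h4 : x ^ 3 * w * (x ^ 3)⁻¹ * w⁻¹ ∈ φ.range := hxk 3 w hw
  have h5 : ⁅x ^ 3, w⁆ ∈ W := by
    rw [commutatorElement_def]
    exact mul_mem ((mem_normalizer_iff.mp (pow_mem hx 3) w).mp hw) (inv_mem hw)
  refine H11.AxB.commute_of_commutator_commute 2 (a := x ^ 3) (x := w) ?_ ⟨1, by rw [pow_one]; exact hW2 _ h5⟩ ?_
  · exact Nat.Coprime.coprime_dvd_left (orderOf_pow_dvd 3) ho
  · rw [commutatorElement_def]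
    exact h3 _ h4


theorem rine [Finite G] (H K : Subgroup G) : H.relIndex K ≠ 0 := index_ne_zero_of_finite

theorem s3_main {X : Type*} [Group X] [Finite X] {M V : Subgroup X} (S : H2.FF.Setup 2 V M) :
    ∀ n : ℕ, ∀ A : Subgroup X, Nat.card A = n → A ≤ M → Cfsg.IsElementaryAbelian 2 A →
      (V ⊓ centralizer (A : Set X)).relIndex V < Nat.card A ^ 2 → Cfsg.Involves (Equiv.Perm (Fin 3)) ↥M := by
  have hp2 : Fact (Nat.Prime 2) := ⟨Nat.prime_two⟩
  intro n
  induction n using Nat.strong_induction_on with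
  | _ n ih =>
  intro A hcard hAM hA hsmall
  have hAc : ∀ a ∈ A, ∀ b ∈ A, a * b = b * a := fun x hx y hy =>
    congrArg Subtype.val (hA.1.is_comm.comm ⟨x, hx⟩ ⟨y, hy⟩)
  have hAp : ∀ a ∈ A, a ^ 2 = 1 := hA.2
  have hVc : ∀ a ∈ V, ∀ b ∈ V, a * b = b * a := fun x hx y hy =>
    congrArg Subtype.val (S.hV.1.is_comm.comm ⟨x, hx⟩ ⟨y, hy⟩)
  have hVp : ∀ a ∈ V, a ^ 2 = 1 := S.hV.2
  have hn : ¬ A ≤ centralizer (H2.FF.QQ 2 M : Set X) := by
    intro h
    have h1 := S.ea_inf hAM hA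
    rw [inf_eq_left.mpr h] at h1
    rw [h1, Subgroup.card_bot, one_pow, Nat.lt_one_iff] at hsmall
    exact rine _ _ hsmall
  obtain ⟨B, Y, hBA, hidx, hYK, hYB, hAY, hYA, -⟩ := exists_small (p := 2) hAc hAp
    (hAM.trans H2.FF.le_normalizer_QQ) H2.FF.QQ_coprime hn
  have hcB : B.relIndex A * Nat.card B = Nat.card A := H1.Basic.relIndex_mul_card hBA
  rw [hidx] at hcB
  have hBpos : 0 < Nat.card B := Nat.card_pos
  by_cases hB : (V ⊓ centralizer (B : Set X)).relIndex V < Nat.card B ^ 2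
  · refine ih (Nat.card B) (by omega) B rfl (hBA.trans hAM) ?_ hB
    exact ⟨⟨⟨fun a b => Subtype.ext (hAc a (hBA a.2) b (hBA b.2))⟩⟩, fun b hb => hAp b (hBA hb)⟩
  push_neg at hB
  set W := V ⊓ centralizer (B : Set X) with hWdef
  have hAW : V ⊓ centralizer (A : Set X) ≤ W := inf_le_inf_left _ (centralizer_le hBA)
  have hmul : (V ⊓ centralizer (A : Set X)).relIndex W * W.relIndex V =
      (V ⊓ centralizer (A : Set X)).relIndex V := relIndex_mul_relIndex _ _ _ hAW inf_le_left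
  have hi4 : (V ⊓ centralizer (A : Set X)).relIndex W < 4 := by
    by_contra hge
    push_neg at hge
    have h1 : 4 * W.relIndex V ≤ (V ⊓ centralizer (A : Set X)).relIndex V := by
      rw [← hmul]; exact Nat.mul_le_mul_right _ hge
    have h2 : Nat.card A ^ 2 = 4 * Nat.card B ^ 2 := by rw [← hcB]; ring
    omega
  have hi2 : (V ⊓ centralizer (A : Set X)).relIndex W ≤ 2 := by
    have h1 : (V ⊓ centralizer (A : Set X)).relIndex W ∣ Nat.card W := relIndex_dvd_card _ _
    have h2 : IsPGroup 2 ↥W := fun w => ⟨1, Subtype.ext (by simpa using hVp w w.2.1)⟩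
    obtain ⟨m, hm⟩ := IsPGroup.iff_card.mp h2
    rw [hm] at h1
    obtain ⟨k, -, hk⟩ := (Nat.dvd_prime_pow Nat.prime_two).mp h1
    rw [hk] at hi4 ⊢
    have : k < 2 := (Nat.pow_lt_pow_iff_right (by norm_num : 1 < 2)).mp (by simpa using hi4)
    interval_cases k <;> norm_num
  -- the inverted element
  have hYM : Y ≤ M := hYK.trans H2.FF.QQ_le
  obtain ⟨a, ha, haY⟩ : ∃ a ∈ A, a ∉ centralizer (Y : Set X) := by
    by_contra hcon
    push_neg at hcon
    exact hYA hcon
  obtain ⟨y, hy, hay⟩ : ∃ y ∈ Y, y * a ≠ a * y := by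
    by_contra hcon
    push_neg at hcon
    exact haY hcon
  set x := y * a * y⁻¹ * a⁻¹ with hx
  have haa : a * a = 1 := by rw [← pow_two]; exact hAp a ha
  have hainv : a⁻¹ = a := inv_eq_of_mul_eq_one_left haa
  have hxY : x ∈ Y := by
    have e1 : x = y * (a * y⁻¹ * a⁻¹) := by rw [hx]; group
    rw [e1]
    exact mul_mem hy ((mem_normalizer_iff.mp (hAY ha) _).mp (inv_mem hy))
  have hx1 : x ≠ 1 := by
    intro h
    apply hay
    calc y * a = (y * a * y⁻¹ * a⁻¹) * a * y := by group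
      _ = a * y := by rw [← hx, h, one_mul]
  have hxinv : a * x * a = x⁻¹ := by
    have e1 : x⁻¹ = a * (y * a⁻¹ * y⁻¹) := by rw [hx]; group
    rw [e1, hx]
    have e2 : a * (y * a * y⁻¹ * a⁻¹) * a = a * (y * a * y⁻¹) := by group
    rw [e2, hainv]
  have hxo : (orderOf x).Coprime 2 := by
    have h1 : orderOf x ∣ Nat.card (H2.FF.QQ 2 M) := Subgroup.orderOf_dvd_natCard _ (hYK hxY)
    exact Nat.Coprime.coprime_dvd_left h1 H2.FF.QQ_coprime
  have hVN : ∀ z ∈ Y, z ∈ normalizer (V : Set X) := fun z hz => S.hHV (hYM hz)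
  have hYW : Y ≤ normalizer (W : Set X) := by
    rw [le_normalizer_iff_conj]
    rintro z hz w ⟨hw1, hw2⟩
    refine ⟨(mem_normalizer_iff.mp (hVN z hz) w).mp hw1, ?_⟩
    exact (centralizer (B : Set X)).mul_mem ((centralizer (B : Set X)).mul_mem (hYB hz) hw2) (inv_mem (hYB hz))
  have hWa : (W ⊓ centralizer ({a} : Set X)).relIndex W ≤ 2 := by
    have h1 : V ⊓ centralizer (A : Set X) ≤ W ⊓ centralizer ({a} : Set X) :=
      le_inf hAW (inf_le_right.trans (centralizer_le (by simpa using ha)))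
    exact (Nat.le_of_dvd (Nat.pos_of_ne_zero (rine _ _)) (relIndex_dvd_of_le_left W h1)).trans hi2
  have hWb : (W ⊓ centralizer ({y * a * y⁻¹} : Set X)).relIndex W ≤ 2 := by
    have h1 : W ⊓ centralizer ({y * a * y⁻¹} : Set X) = cj y (W ⊓ centralizer ({a} : Set X)) := by
      rw [cj_inf, cj_centralizer_singleton, cj_eq_of_mem_normalizer (hYW hy)]
    rw [h1]
    have h2 : (cj y (W ⊓ centralizer ({a} : Set X))).relIndex (cj y W) = (W ⊓ centralizer ({a} : Set X)).relIndex W :=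
      relIndex_cj y _ _
    rw [cj_eq_of_mem_normalizer (hYW hy)] at h2
    rw [h2]; exact hWa
  have hWx : (W ⊓ centralizer ({x} : Set X)).relIndex W ≤ 4 := by
    have h1 : (W ⊓ centralizer ({y * a * y⁻¹} : Set X)) ⊓ (W ⊓ centralizer ({a} : Set X)) ≤
        W ⊓ centralizer ({x} : Set X) := by
      rintro w ⟨⟨hw, h2⟩, -, h3⟩
      have h4 : Commute (y * a * y⁻¹) w := h2 _ rfl
      have h5 : Commute a w := h3 _ rfl
      refine ⟨hw, fun z hz => ?_⟩
      rw [Set.mem_singleton_iff.mp hz]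
      exact (h4.mul_left h5.inv_left).eq
    have h2 := relIndex_inf_le (H := W ⊓ centralizer ({y * a * y⁻¹} : Set X)) (K := W ⊓ centralizer ({a} : Set X)) (L := W)
    have h3 := Nat.le_of_dvd (Nat.pos_of_ne_zero (rine _ _)) (relIndex_dvd_of_le_left W h1)
    refine h3.trans (h2.trans ?_)
    calc _ ≤ 2 * 2 := Nat.mul_le_mul hWb hWa
      _ = 4 := by norm_num
  have hcube := cube (W := W) (x := x) (fun v hv w hw => hVc v hv.1 w hw.1) (fun v hv => hVp v hv.1)
    (hYW hxY) hxo hWx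
  have hx3 : x ^ 3 ∈ Y := pow_mem hxY 3
  have hBpg : IsPGroup 2 ↥B := fun b => ⟨1, Subtype.ext (by simpa using hAp b (hBA b.2))⟩
  have hVpg : IsPGroup 2 ↥V := fun b => ⟨1, Subtype.ext (by simpa using hVp b b.2)⟩
  have hAB := H11.AxB.commute_of_AxB 2 (x ^ 3) (Nat.Coprime.coprime_dvd_left (orderOf_pow_dvd 3) hxo) B hBpg
    (fun b hb => (hYB hx3 b hb).symm) V hVpg (hVN _ hx3) ((hBA.trans hAM).trans S.hHV)
    (fun v hv hb => hcube v ⟨hv, fun b hb' => (hb b hb').symm⟩)
  have hx31 : x ^ 3 = 1 := by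
    have : x ^ 3 ∈ M ⊓ centralizer (V : Set X) := ⟨hYM hx3, fun v hv => (hAB v hv).symm⟩
    rw [S.hf] at this
    exact mem_bot.mp this
  refine involves_s3 (x := (⟨x, hYM hxY⟩ : ↥M)) (a := ⟨a, hAM ha⟩) ?_ ?_ ?_ ?_
  · exact Subtype.ext (by simpa using hx31)
  · intro h; exact hx1 (congrArg Subtype.val h)
  · exact Subtype.ext haa
  · exact Subtype.ext hxinv

end Cfsg.Agent.H18.SM
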