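import Mathlib
import Cfsg.Agent.H16_PSp3
import Cfsg.Agent.H16_Quad5
import Cfsg.Agent.H16_Quad6
import Cfsg.Agent.H5_FF
import Cfsg.Agent.H5_Concrete

/-!
Embeddings of classical groups coming from a quadratic field extension.
-/

set_option autoImplicit false

namespace Cfsg.Agent.H19.FE

open Matrix Module Cfsg.Agent.H5 Cfsg.Agent.H5.Conc

/-- restriction of scalars on automorphism groups -/
def rs (F : Type*) {K V : Type*} [Field F] [Field K] [Algebra F K] [AddCommGroup V] [Module F V] [Module K V]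
    [IsScalarTower F K V] : (V ≃ₗ[K] V) →* (V ≃ₗ[F] V) where
  toFun g := g.restrictScalars F
  map_one' := rfl
  map_mul' _ _ := rfl

theorem rs_inj (F : Type*) {K V : Type*} [Field F] [Field K] [Algebra F K] [AddCommGroup V] [Module F V] [Module K V]
    [IsScalarTower F K V] : Function.Injective (rs F (K := K) (V := V)) := by
  intro a b h
  ext v
  exact DFunLike.congr_fun h v

/-- conjugation by a linear equivalence -/
def cj {F V W : Type*} [Field F] [AddCommGroup V] [Module F V] [AddCommGroup W] [Module F W] (Φ : V ≃ₗ[F] W) :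
    (V ≃ₗ[F] V) →* (W ≃ₗ[F] W) where
  toFun g := Φ.symm.trans (g.trans Φ)
  map_one' := by ext v; simp
  map_mul' := by
    intro A B
    apply LinearEquiv.ext
    intro v
    change Φ (A (B (Φ.symm v))) = Φ (A (Φ.symm (Φ (B (Φ.symm v)))))
    rw [LinearEquiv.symm_apply_apply]

theorem cj_apply {F V W : Type*} [Field F] [AddCommGroup V] [Module F V] [AddCommGroup W] [Module F W] (Φ : V ≃ₗ[F] W)
    (g : V ≃ₗ[F] V) (v : V) : cj Φ g (Φ v) = Φ (g v) := by
  change Φ (g (Φ.symm (Φ v))) = _
  rw [LinearEquiv.symm_apply_apply]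

theorem cj_inj {F V W : Type*} [Field F] [AddCommGroup V] [Module F V] [AddCommGroup W] [Module F W] (Φ : V ≃ₗ[F] W) :
    Function.Injective (cj Φ) := by
  intro A B h
  apply LinearEquiv.ext
  intro v
  apply Φ.injective
  rw [← cj_apply, ← cj_apply, h]

theorem to_isometry {F V H : Type*} [Field F] [AddCommGroup V] [Module F V] [Group H] {ι : Type} [Fintype ι] [DecidableEq ι]
    (ρ : H →* (V ≃ₗ[F] V)) (hρ : Function.Injective ρ) (Q' : (ι → F) → F) (Φ : V ≃ₗ[F] (ι → F))
    (h : ∀ x v, Q' (Φ (ρ x v)) = Q' (Φ v)) : ∃ φ : H →* Cfsg.isometryGroup F Q', Function.Injective φ := by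
  let f : H →* GL ι F := (glEquiv ι F).symm.toMonoidHom.comp ((cj Φ).comp ρ)
  have hf : ∀ x v, (f x : Matrix ι ι F) *ᵥ (Φ v) = Φ (ρ x v) := by
    intro x v
    rw [← glEquiv_apply]
    change glEquiv ι F ((glEquiv ι F).symm (cj Φ (ρ x))) (Φ v) = _
    rw [MulEquiv.apply_symm_apply, cj_apply]
  refine ⟨f.codRestrict _ ?_, ?_⟩
  · intro x u v
    change Q' ((f x : Matrix ι ι F) *ᵥ u) = Q' u
    obtain ⟨w, rfl⟩ := Φ.surjective u
    rw [hf, h]
  · intro x y hxy
    apply hρ
    apply cj_inj Φ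
    apply (glEquiv ι F).symm.injective
    exact congrArg Subtype.val hxy

theorem to_symp {F V H : Type*} [Field F] [AddCommGroup V] [Module F V] [Group H] {m : ℕ}
    (ρ : H →* (V ≃ₗ[F] V)) (hρ : Function.Injective ρ) (Φ : V ≃ₗ[F] (Fin m ⊕ Fin m → F))
    (h : ∀ x u v, Cfsg.sympForm m F (Φ (ρ x u)) (Φ (ρ x v)) = Cfsg.sympForm m F (Φ u) (Φ v)) :
    ∃ φ : H →* Matrix.symplecticGroup (Fin m) F, Function.Injective φ := by
  let f : H →* GL (Fin m ⊕ Fin m) F := (glEquiv (Fin m ⊕ Fin m) F).symm.toMonoidHom.comp ((cj Φ).comp ρ)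
  have hf : ∀ x v, (f x : Matrix (Fin m ⊕ Fin m) (Fin m ⊕ Fin m) F) *ᵥ (Φ v) = Φ (ρ x v) := by
    intro x v
    rw [← glEquiv_apply]
    change glEquiv (Fin m ⊕ Fin m) F ((glEquiv (Fin m ⊕ Fin m) F).symm (cj Φ (ρ x))) (Φ v) = _
    rw [MulEquiv.apply_symm_apply, cj_apply]
  refine ⟨((Units.coeHom (Matrix (Fin m ⊕ Fin m) (Fin m ⊕ Fin m) F)).comp f).codRestrict _ ?_, ?_⟩
  · intro x
    change (f x : Matrix (Fin m ⊕ Fin m) (Fin m ⊕ Fin m) F) ∈ _
    rw [mem_symplecticGroup_iff]
    intro u v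
    obtain ⟨u, rfl⟩ := Φ.surjective u
    obtain ⟨v, rfl⟩ := Φ.surjective v
    rw [hf, hf, h]
  · intro x y hxy
    apply hρ
    apply cj_inj Φ
    apply (glEquiv (Fin m ⊕ Fin m) F).symm.injective
    apply Units.ext
    exact congrArg Subtype.val hxy

/-- every nondegenerate alternating space is isometric to the standard one -/
theorem exists_symp {F V : Type*} [Field F] [AddCommGroup V] [Module F V] [FiniteDimensional F V] {m : ℕ}
    (hV : finrank F V = 2 * m) (B : LinearMap.BilinForm F V) (hB : B.IsAlt) (hn : ∀ x, (∀ y, B x y = 0) → x = 0) :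
    ∃ Φ : V ≃ₗ[F] (Fin m ⊕ Fin m → F), ∀ u v, Cfsg.sympForm m F (Φ u) (Φ v) = B u v := by
  have hfr : finrank F V = finrank F (Fin m ⊕ Fin m → F) := by
    rw [hV, Module.finrank_fintype_fun_eq_card, Fintype.card_sum, Fintype.card_fin]; ring
  let ψ : V ≃ₗ[F] (Fin m ⊕ Fin m → F) := LinearEquiv.ofFinrankEq _ _ hfr
  let B' : LinearMap.BilinForm F (Fin m ⊕ Fin m → F) := B.compl₁₂ ψ.symm.toLinearMap ψ.symm.toLinearMap
  have hB' : ∀ x y, B' x y = B (ψ.symm x) (ψ.symm y) := fun x y => rfl
  obtain ⟨g, hg⟩ := Cfsg.Agent.H16.PSp.exists_gl_alt B' (fun x => by rw [hB']; exact hB _) (by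
    intro x hx
    have h1 := hn (ψ.symm x) (fun y => by
      have := hx (ψ y)
      rw [hB', LinearEquiv.symm_apply_apply] at this
      exact this)
    have h2 := congrArg ψ h1
    rwa [LinearEquiv.apply_symm_apply, map_zero] at h2)
  let γ := glEquiv (Fin m ⊕ Fin m) F g
  refine ⟨ψ.trans γ.symm, fun u v => ?_⟩
  have h1 := hg (γ.symm (ψ u)) (γ.symm (ψ v))
  change B' (γ (γ.symm (ψ u))) (γ (γ.symm (ψ v))) = _ at h1
  rw [LinearEquiv.apply_symm_apply, LinearEquiv.apply_symm_apply, hB', LinearEquiv.symm_apply_apply,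
    LinearEquiv.symm_apply_apply] at h1
  exact h1.symm

section ext

variable {F K : Type*} [Field F] [Fintype F] [Field K] [Fintype K] [Algebra F K] {q : ℕ}

theorem finrank_eq_two (hF : Fintype.card F = q) (hK : Fintype.card K = q ^ 2) : finrank F K = 2 := by
  have h1 : Nat.card K = Nat.card F ^ finrank F K := Module.natCard_eq_pow_finrank
  rw [Nat.card_eq_fintype_card, Nat.card_eq_fintype_card, hF, hK] at h1
  have h2 : 2 ≤ q := by rw [← hF]; exact Fintype.one_lt_card
  exact (Nat.pow_right_injective h2 h1).symm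

theorem trace_eq (hF : Fintype.card F = q) (hK : Fintype.card K = q ^ 2) (x : K) :
    algebraMap F K (Algebra.trace F K x) = x + x ^ q := by
  rw [FiniteField.algebraMap_trace_eq_sum_pow, finrank_eq_two hF hK, Finset.sum_range_succ, Finset.sum_range_one,
    Nat.card_eq_fintype_card, hF, pow_zero, pow_one, pow_one]

theorem eq_zero_of_trace {x : K} (h : ∀ c : K, Algebra.trace F K (c * x) = 0) : x = 0 := by
  by_contra hx
  apply Algebra.trace_ne_zero F K
  ext y
  have := h (y * x⁻¹)
  rw [mul_assoc, inv_mul_cancel₀ hx, mul_one] at this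
  rw [this]; rfl

/-- field extension embedding of symplectic groups -/
theorem symp_ext (hF : Fintype.card F = q) (hK : Fintype.card K = q ^ 2) (a : ℕ) :
    ∃ φ : ↥(Matrix.symplecticGroup (Fin a) K) →* ↥(Matrix.symplecticGroup (Fin (2 * a)) F), Function.Injective φ := by
  have h2 := finrank_eq_two hF hK
  haveI : FiniteDimensional F K := Module.finite_of_finrank_pos (by omega)
  let B : LinearMap.BilinForm F (Fin a ⊕ Fin a → K) :=
    LinearMap.mk₂ F (fun u v => Algebra.trace F K (Cfsg.sympForm a K u v))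
      (fun u u' v => by rw [← sympB_apply, ← sympB_apply, ← sympB_apply, map_add, LinearMap.add_apply, map_add])
      (fun c u v => by
        rw [← sympB_apply, ← sympB_apply, ← algebraMap_smul K c u, map_smul, LinearMap.smul_apply, algebraMap_smul, map_smul])
      (fun u v v' => by rw [← sympB_apply, ← sympB_apply, ← sympB_apply, map_add, map_add])
      (fun c u v => by
        rw [← sympB_apply, ← sympB_apply, ← algebraMap_smul K c v, map_smul, algebraMap_smul, map_smul])
  have hB : ∀ u v, B u v = Algebra.trace F K (Cfsg.sympForm a K u v) := fun u v => rfl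
  obtain ⟨Φ, hΦ⟩ := exists_symp (F := F) (V := Fin a ⊕ Fin a → K) (m := 2 * a) (by
    rw [Module.finrank_pi_fintype, Finset.sum_const, h2, Finset.card_univ, Fintype.card_sum, Fintype.card_fin, smul_eq_mul]; ring)
    B (fun u => by rw [hB, ← sympB_apply, sympB_alt a K u, map_zero]) (by
      intro x hx
      have h1 : ∀ y, Cfsg.sympForm a K x y = 0 := by
        intro y
        apply eq_zero_of_trace (F := F)
        intro c
        have h3 := hx (c • y)
        rw [hB, ← sympB_apply, map_smul, smul_eq_mul, sympB_apply] at h3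
        exact h3
      apply sympFrm_nondeg a K
      intro y
      rw [sympFrm_B]
      exact h1 y)
  let ρ : Matrix.symplecticGroup (Fin a) K →* ((Fin a ⊕ Fin a → K) ≃ₗ[F] (Fin a ⊕ Fin a → K)) :=
    (rs F).comp ((glEquiv (Fin a ⊕ Fin a) K).toMonoidHom.comp (spHom a K))
  have hρ : ∀ x v, ρ x v = (x : Matrix (Fin a ⊕ Fin a) (Fin a ⊕ Fin a) K) *ᵥ v := fun x v => rfl
  refine to_symp ρ ?_ Φ ?_
  · exact (rs_inj F).comp ((glEquiv (Fin a ⊕ Fin a) K).injective.comp (spHom_injective a K))
  · intro x u v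
    rw [hΦ, hΦ, hB, hB, hρ, hρ, (mem_symplecticGroup_iff _).1 x.2 u v]

variable (F) in
/-- the `F`-bilinear form `Tr (λ h(u,v))` -/
noncomputable def hB (hK : Fintype.card K = q ^ 2) {ι : Type*} [Fintype ι] (l : K)
    (hfrob : ∀ c : F, Fld.frob hK (algebraMap F K c) = algebraMap F K c) : LinearMap.BilinForm F (ι → K) :=
  LinearMap.mk₂ F (fun u v => Algebra.trace F K (l * ∑ i, u i * Fld.frob hK (v i)))
    (fun u u' v => by
      rw [← map_add, ← mul_add, ← Finset.sum_add_distrib]
      simp only [Pi.add_apply, add_mul])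
    (fun c u v => by
      rw [← map_smul]
      congr 1
      simp only [Pi.smul_apply, Algebra.smul_def, Finset.mul_sum]
      refine Finset.sum_congr rfl fun i _ => ?_
      ring)
    (fun u v v' => by
      rw [← map_add, ← mul_add, ← Finset.sum_add_distrib]
      simp only [Pi.add_apply, map_add, mul_add])
    (fun c u v => by
      rw [← map_smul]
      congr 1
      simp only [Pi.smul_apply, Algebra.smul_def, Finset.mul_sum, map_mul, hfrob]
      refine Finset.sum_congr rfl fun i _ => ?_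
      ring)

theorem hB_apply (hK : Fintype.card K = q ^ 2) {ι : Type*} [Fintype ι] (l : K)
    (hfrob : ∀ c : F, Fld.frob hK (algebraMap F K c) = algebraMap F K c) (u v : ι → K) :
    hB F hK l hfrob u v = Algebra.trace F K (l * ∑ i, u i * Fld.frob hK (v i)) := rfl

theorem frob_alg (hF : Fintype.card F = q) (hK : Fintype.card K = q ^ 2) (c : F) :
    Fld.frob hK (algebraMap F K c) = algebraMap F K c := by
  rw [Fld.frob_apply, ← map_pow, ← hF, FiniteField.pow_card]

theorem trace_frob (hF : Fintype.card F = q) (hK : Fintype.card K = q ^ 2) (x : K) :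
    Algebra.trace F K (Fld.frob hK x) = Algebra.trace F K x := by
  apply (algebraMap F K).injective
  rw [trace_eq hF hK, trace_eq hF hK, ← Fld.frob_apply hK (Fld.frob hK x), Fld.frob_frob, Fld.frob_apply, add_comm]

theorem hB_nd (hF : Fintype.card F = q) (hK : Fintype.card K = q ^ 2) {ι : Type*} [Fintype ι] [DecidableEq ι] {l : K} (hl : l ≠ 0)
    (u : ι → K) (hu : ∀ v, hB F hK l (frob_alg hF hK) u v = 0) : u = 0 := by
  ext i
  rw [Pi.zero_apply]
  have h1 : l * u i = 0 := by
    apply eq_zero_of_trace (F := F)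
    intro c
    have h2 := hu (Pi.single i (Fld.frob hK c))
    rw [hB_apply, Finset.sum_eq_single i] at h2
    · rw [Pi.single_eq_same, Fld.frob_frob] at h2
      rw [← h2]; congr 1; ring
    · intro j _ hj
      rw [Pi.single_eq_of_ne hj, map_zero, mul_zero]
    · intro h; exact absurd (Finset.mem_univ i) h
  exact (mul_eq_zero.1 h1).resolve_left hl

/-- `h(u,u)` lies in `F` -/
theorem herm_self (hF : Fintype.card F = q) (hK : Fintype.card K = q ^ 2)
    (hfix : ∀ a : K, a ^ q = a ↔ a ∈ Set.range (algebraMap F K)) {ι : Type*} [Fintype ι] (u : ι → K) :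
    ∃ c : F, ∑ i, u i * Fld.frob hK (u i) = algebraMap F K c := by
  have h1 : (∑ i, u i * Fld.frob hK (u i)) ^ q = ∑ i, u i * Fld.frob hK (u i) := by
    rw [← Fld.frob_apply hK, map_sum]
    refine Finset.sum_congr rfl fun i _ => ?_
    rw [map_mul, Fld.frob_frob, mul_comm]
  obtain ⟨c, hc⟩ := (hfix _).1 h1
  exact ⟨c, hc.symm⟩

theorem exists_trace_zero (hF : Fintype.card F = q) (hK : Fintype.card K = q ^ 2) :
    ∃ l : K, l ≠ 0 ∧ Algebra.trace F K l = 0 := by
  have h2 := finrank_eq_two hF hK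
  haveI : FiniteDimensional F K := Module.finite_of_finrank_pos (by omega)
  have h3 := LinearMap.finrank_range_add_finrank_ker (Algebra.trace F K)
  have h4 : finrank F (LinearMap.range (Algebra.trace F K)) ≤ 1 := by
    have := Submodule.finrank_le (LinearMap.range (Algebra.trace F K))
    rwa [Module.finrank_self] at this
  have h5 : LinearMap.ker (Algebra.trace F K) ≠ ⊥ := by
    intro h
    rw [h, finrank_bot, h2] at h3
    omega
  obtain ⟨l, hl, hl0⟩ := Submodule.exists_mem_ne_zero_of_ne_bot h5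
  exact ⟨l, hl0, hl⟩

/-- unitary to symplectic -/
theorem unitary_symp (hF : Fintype.card F = q) (hK : Fintype.card K = q ^ 2)
    (hfix : ∀ a : K, a ^ q = a ↔ a ∈ Set.range (algebraMap F K)) (m : ℕ) :
    ∃ φ : ↥(Cfsg.GU m K q) →* ↥(Matrix.symplecticGroup (Fin m) F), Function.Injective φ := by
  have h2 := finrank_eq_two hF hK
  haveI : FiniteDimensional F K := Module.finite_of_finrank_pos (by omega)
  obtain ⟨l, hl, hl0⟩ := exists_trace_zero hF hK
  have hB1 : ∀ u v : Fin m → K, hB F hK l (frob_alg hF hK) u v = Algebra.trace F K (l * Cfsg.hermForm m K q u v) := by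
    intro u v
    rw [hB_apply]
    simp only [Fld.frob_apply]
    rfl
  obtain ⟨Φ, hΦ⟩ := exists_symp (F := F) (V := Fin m → K) (m := m) (by
    rw [Module.finrank_pi_fintype, Finset.sum_const, h2, Finset.card_univ, Fintype.card_fin, smul_eq_mul]; ring)
    (hB F hK l (frob_alg hF hK)) (fun u => by
      obtain ⟨c, hc⟩ := herm_self hF hK hfix u
      rw [hB_apply, hc, mul_comm, ← Algebra.smul_def, map_smul, hl0, smul_zero]) (hB_nd hF hK hl)
  let ρ : Cfsg.GU m K q →* ((Fin m → K) ≃ₗ[F] (Fin m → K)) :=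
    (rs F).comp ((glEquiv (Fin m) K).toMonoidHom.comp (Subgroup.subtype _))
  have hρ : ∀ x v, ρ x v = ((x : GL (Fin m) K) : Matrix (Fin m) (Fin m) K) *ᵥ v := fun x v => rfl
  refine to_symp ρ ?_ Φ ?_
  · exact (rs_inj F).comp ((glEquiv (Fin m) K).injective.comp Subtype.val_injective)
  · intro x u v
    rw [hΦ, hΦ, hB1, hB1, hρ, hρ]
    congr 2
    exact x.2 u v

open Cfsg.Agent.H16.Quad (IsPlus IsMinus isPlus_of_ts nd_of plusQ minusQ plusQ_isPlus minusQ_isMinus perp hspan HypFam mem_perp' isom_polar nd_eq_zero polar_symm nd_minusQ)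
open QuadraticMap (polar)

theorem exists_trace_one (hF : Fintype.card F = q) (hK : Fintype.card K = q ^ 2) :
    ∃ l : K, Algebra.trace F K l = 1 := by
  have h2 := finrank_eq_two hF hK
  haveI : FiniteDimensional F K := Module.finite_of_finrank_pos (by omega)
  exact Algebra.trace_surjective F K 1

/-- the quadratic form `h(u,u)` -/
noncomputable def Qh (hF : Fintype.card F = q) (hK : Fintype.card K = q ^ 2) (ι : Type*) [Fintype ι] :
    QuadraticForm F (ι → K) :=
  LinearMap.BilinMap.toQuadraticMap (hB F hK (exists_trace_one hF hK).choose (frob_alg hF hK))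

theorem Qh_apply (hF : Fintype.card F = q) (hK : Fintype.card K = q ^ 2)
    (hfix : ∀ a : K, a ^ q = a ↔ a ∈ Set.range (algebraMap F K)) {ι : Type*} [Fintype ι] (u : ι → K) :
    algebraMap F K (Qh hF hK ι u) = ∑ i, u i * Fld.frob hK (u i) := by
  obtain ⟨c, hc⟩ := herm_self hF hK hfix u
  rw [hc]
  congr 1
  change hB F hK _ (frob_alg hF hK) u u = c
  rw [hB_apply, hc, mul_comm, ← Algebra.smul_def, map_smul, (exists_trace_one hF hK).choose_spec, smul_eq_mul, mul_one]

theorem Qh_polar (hF : Fintype.card F = q) (hK : Fintype.card K = q ^ 2)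
    (hfix : ∀ a : K, a ^ q = a ↔ a ∈ Set.range (algebraMap F K)) {ι : Type*} [Fintype ι] (u v : ι → K) :
    polar (Qh hF hK ι) u v = Algebra.trace F K (∑ i, u i * Fld.frob hK (v i)) := by
  apply (algebraMap F K).injective
  rw [QuadraticMap.polar, map_sub, map_sub, Qh_apply hF hK hfix, Qh_apply hF hK hfix, Qh_apply hF hK hfix, trace_eq hF hK,
    ← Fld.frob_apply hK, map_sum]
  have h1 : ∑ i, (u + v) i * Fld.frob hK ((u + v) i) = ∑ i, u i * Fld.frob hK (u i) + ∑ i, v i * Fld.frob hK (v i) +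
      (∑ i, u i * Fld.frob hK (v i) + ∑ i, Fld.frob hK (u i * Fld.frob hK (v i))) := by
    rw [← Finset.sum_add_distrib, ← Finset.sum_add_distrib, ← Finset.sum_add_distrib]
    refine Finset.sum_congr rfl fun i _ => ?_
    rw [Pi.add_apply, map_add, map_mul, Fld.frob_frob]
    ring
  rw [h1]; ring

theorem Qh_nd (hF : Fintype.card F = q) (hK : Fintype.card K = q ^ 2)
    (hfix : ∀ a : K, a ^ q = a ↔ a ∈ Set.range (algebraMap F K)) {ι : Type*} [Fintype ι] [DecidableEq ι] :
    (QuadraticMap.polarBilin (Qh hF hK ι)).Nondegenerate := by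
  apply nd_of
  intro x hx
  apply hB_nd hF hK (l := 1) one_ne_zero
  intro v
  rw [hB_apply, one_mul, ← Qh_polar hF hK hfix]
  exact hx v

theorem finrank_pi (hF : Fintype.card F = q) (hK : Fintype.card K = q ^ 2) (ι : Type*) [Fintype ι] :
    finrank F (ι → K) = 2 * Fintype.card ι := by
  have h2 := finrank_eq_two hF hK
  haveI : FiniteDimensional F K := Module.finite_of_finrank_pos (by omega)
  rw [Module.finrank_pi_fintype, Finset.sum_const, h2, Finset.card_univ, smul_eq_mul, mul_comm]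

theorem Qh_plus (hF : Fintype.card F = q) (hK : Fintype.card K = q ^ 2)
    (hfix : ∀ a : K, a ^ q = a ↔ a ∈ Set.range (algebraMap F K)) (k : ℕ) :
    IsPlus (Qh hF hK (Fin k ⊕ Fin k)) (2 * k) := by
  have h2 := finrank_eq_two hF hK
  haveI : FiniteDimensional F K := Module.finite_of_finrank_pos (by omega)
  obtain ⟨κ, hκ⟩ := Fld.exists_norm_eq hK (-1) (by
    rw [hfix]; exact ⟨-1, by rw [map_neg, map_one]⟩)
  let L : (Fin k → K) →ₗ[F] (Fin k ⊕ Fin k → K) :=
    { toFun := fun w => Sum.elim w (fun i => κ * w i)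
      map_add' := by
        intro w w'
        ext i
        rcases i with i | i
        · rfl
        · simp [mul_add]
      map_smul' := by
        intro c w
        ext i
        rcases i with i | i
        · rfl
        · simp [Algebra.smul_def]; ring }
  have hL : Function.Injective L := by
    intro w w' h
    ext i
    exact congrFun h (Sum.inl i)
  refine isPlus_of_ts (Qh_nd hF hK hfix) (U := LinearMap.range L) ?_ ?_ ?_
  · rw [finrank_pi hF hK, Fintype.card_sum, Fintype.card_fin]; ring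
  · rintro _ ⟨w, rfl⟩
    apply (algebraMap F K).injective
    rw [Qh_apply hF hK hfix, map_zero, Fintype.sum_sum_type, ← Finset.sum_add_distrib]
    apply Finset.sum_eq_zero
    intro i _
    change w i * Fld.frob hK (w i) + (κ * w i) * Fld.frob hK (κ * w i) = 0
    have h3 : κ * Fld.frob hK κ = -1 := by rw [Fld.frob_apply, ← pow_succ', hκ]
    rw [map_mul]
    linear_combination (w i * Fld.frob hK (w i)) * h3
  · rw [LinearMap.finrank_range_of_inj hL, finrank_pi hF hK, Fintype.card_fin]

/-- reindexing -/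
theorem Qh_reindex (hF : Fintype.card F = q) (hK : Fintype.card K = q ^ 2)
    (hfix : ∀ a : K, a ^ q = a ↔ a ∈ Set.range (algebraMap F K)) {ι ι' : Type*} [Fintype ι] [Fintype ι'] (e : ι' ≃ ι) (u : ι → K) :
    Qh hF hK ι' (LinearEquiv.funCongrLeft F K e u) = Qh hF hK ι u := by
  apply (algebraMap F K).injective
  rw [Qh_apply hF hK hfix, Qh_apply hF hK hfix]
  exact Equiv.sum_comp e (fun i => u i * Fld.frob hK (u i))

theorem unitary_orth (hF : Fintype.card F = q) (hK : Fintype.card K = q ^ 2)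
    (hfix : ∀ a : K, a ^ q = a ↔ a ∈ Set.range (algebraMap F K)) (m : ℕ) {ι' : Type} [Fintype ι'] [DecidableEq ι']
    (Q' : QuadraticForm F (ι' → F)) (Φ : (Fin m → K) ≃ₗ[F] (ι' → F)) (hΦ : ∀ v, Q' (Φ v) = Qh hF hK (Fin m) v) :
    ∃ φ : ↥(Cfsg.GU m K q) →* ↥(Cfsg.isometryGroup F ⇑Q'), Function.Injective φ := by
  let ρ : Cfsg.GU m K q →* ((Fin m → K) ≃ₗ[F] (Fin m → K)) :=
    (rs F).comp ((glEquiv (Fin m) K).toMonoidHom.comp (Subgroup.subtype _))
  have hρ : ∀ x v, ρ x v = ((x : GL (Fin m) K) : Matrix (Fin m) (Fin m) K) *ᵥ v := fun x v => rfl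
  refine to_isometry ρ ?_ _ Φ ?_
  · exact (rs_inj F).comp ((glEquiv (Fin m) K).injective.comp Subtype.val_injective)
  · intro x v
    rw [hΦ, hΦ, hρ]
    apply (algebraMap F K).injective
    rw [Qh_apply hF hK hfix, Qh_apply hF hK hfix]
    simp only [Fld.frob_apply]
    exact x.2 v v

theorem unitary_plus (hF : Fintype.card F = q) (hK : Fintype.card K = q ^ 2)
    (hfix : ∀ a : K, a ^ q = a ↔ a ∈ Set.range (algebraMap F K)) (k : ℕ) :
    ∃ φ : ↥(Cfsg.GU (k + k) K q) →* ↥(Cfsg.isometryGroup F ⇑(plusQ F (k + k))), Function.Injective φ := by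
  have h2 := finrank_eq_two hF hK
  haveI : FiniteDimensional F K := Module.finite_of_finrank_pos (by omega)
  have h3 := Qh_plus hF hK hfix k
  rw [two_mul] at h3
  obtain ⟨Φ, hΦ⟩ := h3.isom (plusQ_isPlus (F := F) (k + k))
  refine unitary_orth hF hK hfix _ _ ((LinearEquiv.funCongrLeft F K (finSumFinEquiv (m := k) (n := k))).trans Φ) (fun v => ?_)
  rw [LinearEquiv.trans_apply, hΦ, Qh_reindex hF hK hfix]

theorem Qh_minus (hF : Fintype.card F = q) (hK : Fintype.card K = q ^ 2)
    (hfix : ∀ a : K, a ^ q = a ↔ a ∈ Set.range (algebraMap F K)) (k : ℕ) :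
    IsMinus (Qh hF hK ((Fin k ⊕ Fin k) ⊕ Unit)) (2 * k) := by
  have h2 := finrank_eq_two hF hK
  haveI : FiniteDimensional F K := Module.finite_of_finrank_pos (by omega)
  obtain ⟨hV0, e, f, hef⟩ := Qh_plus hF hK hfix k
  let J : (Fin k ⊕ Fin k → K) →ₗ[F] ((Fin k ⊕ Fin k) ⊕ Unit → K) :=
    { toFun := fun w => Sum.elim w (fun _ => 0)
      map_add' := by
        intro w w'
        ext i
        rcases i with i | i
        · rfl
        · simp
      map_smul' := by
        intro c w
        ext i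
        rcases i with i | i
        · rfl
        · simp }
  have hJ : ∀ w, Qh hF hK ((Fin k ⊕ Fin k) ⊕ Unit) (J w) = Qh hF hK (Fin k ⊕ Fin k) w := by
    intro w
    apply (algebraMap F K).injective
    rw [Qh_apply hF hK hfix, Qh_apply hF hK hfix, Fintype.sum_sum_type]
    simp [J]
  have hp := isom_polar (φ := J) hJ
  have hfam : HypFam (Qh hF hK ((Fin k ⊕ Fin k) ⊕ Unit)) (fun i => J (e i)) (fun i => J (f i)) := by
    refine ⟨?_, ?_, ?_, ?_, ?_⟩
    · intro i; rw [hJ, hef.qe]
    · intro i; rw [hJ, hef.qf]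
    · intro i j; rw [hp, hef.ef]
    · intro i j; rw [hp, hef.ee]
    · intro i j; rw [hp, hef.ff]
  have htop : (hspan e f : Submodule F (Fin k ⊕ Fin k → K)) = ⊤ := by
    apply Submodule.eq_top_of_finrank_eq
    rw [hef.finrank_hspan, hV0, Fintype.card_fin]
  have hJs : ∀ w, J w ∈ (hspan (fun i => J (e i)) (fun i => J (f i)) : Submodule F _) := by
    intro w
    have h1 : (hspan (fun i => J (e i)) (fun i => J (f i)) : Submodule F ((Fin k ⊕ Fin k) ⊕ Unit → K)) =
        Submodule.map J (hspan e f) := by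
      unfold hspan
      rw [Submodule.map_span, ← Set.range_comp]
      congr 2
      ext i
      rcases i with i | i <;> rfl
    rw [h1, htop]
    exact ⟨w, trivial, rfl⟩
  refine ⟨?_, _, _, hfam, ?_⟩
  · rw [finrank_pi hF hK]
    simp only [Fintype.card_sum, Fintype.card_fin, Fintype.card_unit]
    ring
  · intro v hv hv0
    have h1 : (fun i => v (Sum.inl i)) = 0 := by
      apply nd_eq_zero (Qh_nd hF hK hfix (ι := Fin k ⊕ Fin k))
      intro w
      have h3 := mem_perp'.1 hv _ (hJs w)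
      rw [Qh_polar hF hK hfix, Fintype.sum_sum_type] at h3
      rw [Qh_polar hF hK hfix, ← h3]
      congr 1
      simp [J]
    have h4 := congrArg (algebraMap F K) hv0
    rw [Qh_apply hF hK hfix, Fintype.sum_sum_type, map_zero] at h4
    have h5 : ∀ i, v (Sum.inl i) = 0 := fun i => congrFun h1 i
    simp only [h5, zero_mul, Finset.sum_const_zero, zero_add, Fintype.sum_unique] at h4
    ext i
    rcases i with i | i
    · exact h5 i
    · rcases mul_eq_zero.1 h4 with h | h
      · exact h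
      · exact (Fld.frob hK).injective (by rw [Pi.zero_apply, map_zero]; exact h)

theorem unitary_minus (hF : Fintype.card F = q) (hK : Fintype.card K = q ^ 2)
    (hfix : ∀ a : K, a ^ q = a ↔ a ∈ Set.range (algebraMap F K)) (k : ℕ) (a b : F)
    (hab : ∀ z₁ z₂ : F, z₁ ^ 2 + a * z₁ * z₂ + b * z₂ ^ 2 = 0 → z₁ = 0 ∧ z₂ = 0) :
    ∃ φ : ↥(Cfsg.GU (k + k + 1) K q) →* ↥(Cfsg.isometryGroup F ⇑(minusQ F (k + k) a b)), Function.Injective φ := by
  have h2 := finrank_eq_two hF hK
  haveI : FiniteDimensional F K := Module.finite_of_finrank_pos (by omega)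
  have h3 := Qh_minus hF hK hfix k
  rw [two_mul] at h3
  obtain ⟨Φ, hΦ⟩ := Cfsg.Agent.H16.Quad.IsMinus.isom (Qh_nd hF hK hfix) (nd_minusQ (k + k) hab) h3 (minusQ_isMinus (F := F) (k + k) hab)
  have e : (Fin k ⊕ Fin k) ⊕ Unit ≃ Fin (k + k + 1) :=
    Fintype.equivFinOfCardEq (by simp only [Fintype.card_sum, Fintype.card_fin, Fintype.card_unit])
  refine unitary_orth hF hK hfix _ _ ((LinearEquiv.funCongrLeft F K e).trans Φ) (fun v => ?_)
  rw [LinearEquiv.trans_apply, hΦ, Qh_reindex hF hK hfix]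

end ext

end Cfsg.Agent.H19.FE
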