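import Mathlib

/-! Two automorphisms of a doubly transitive group of degree `n` (with `n² ∤ |G|`) centralizing a regular abelian
subgroup commute. -/

set_option autoImplicit false
namespace Cfsg.Agent.H19.PrimeIdx

variable {G Ω : Type*} [Group G] [Finite G] [Fintype Ω] [MulAction G Ω]

structure Pr (Ω : Type*) where
  a : Ω
  b : Ω

def prEquiv (Ω : Type*) : Pr Ω ≃ Ω × Ω := ⟨fun w => (w.a, w.b), fun w => ⟨w.1, w.2⟩, fun _ => rfl, fun _ => rfl⟩

def Inv (α : MulAut G) (M : Ω → Ω → ℚ) : Prop := ∀ (g : G) (x y : Ω), M (α g • x) (g • y) = M x y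

theorem dvd (α : MulAut G) (x0 y0 : Ω) (h : ∀ x y : Ω, ∃ g : G, α g • x0 = x ∧ g • y0 = y) :
    Nat.card Ω * Nat.card Ω ∣ Nat.card G := by
  letI : MulAction G (Pr Ω) :=
    { smul := fun g w => ⟨α g • w.a, g • w.b⟩
      one_smul := fun w => by
        show (⟨α 1 • w.a, (1 : G) • w.b⟩ : Pr Ω) = w
        rw [map_one, one_smul, one_smul]
      mul_smul := fun g h w => by
        show (⟨α (g * h) • w.a, (g * h) • w.b⟩ : Pr Ω) = ⟨α g • α h • w.a, g • h • w.b⟩
        rw [map_mul, mul_smul, mul_smul] }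
  haveI : MulAction.IsPretransitive G (Pr Ω) := by
    have h1 : ∀ w : Pr Ω, ∃ g : G, g • (⟨x0, y0⟩ : Pr Ω) = w := by
      rintro ⟨x, y⟩
      obtain ⟨g, h1, h2⟩ := h x y
      exact ⟨g, by show (⟨α g • x0, g • y0⟩ : Pr Ω) = _; rw [h1, h2]⟩
    constructor
    intro v w
    obtain ⟨g, hg⟩ := h1 v
    obtain ⟨k, hk⟩ := h1 w
    exact ⟨k * g⁻¹, by rw [mul_smul, ← hg, inv_smul_smul, hk]⟩
  have h2 : (MulAction.stabilizer G (⟨x0, y0⟩ : Pr Ω)).index = Nat.card (Pr Ω) :=
    MulAction.index_stabilizer_of_transitive G _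
  rw [← Nat.card_prod, ← Nat.card_congr (prEquiv Ω), ← h2]
  exact Subgroup.index_dvd_card _

theorem exists_M [Nonempty Ω] (hp : ¬ Nat.card Ω * Nat.card Ω ∣ Nat.card G) (α : MulAut G) :
    ∃ M : Ω → Ω → ℚ, Inv α M ∧ (∀ x y, M x y = 0 ∨ M x y = 1) ∧ ∃ x y x' y', M x y ≠ M x' y' := by
  classical
  obtain ⟨x0⟩ := (inferInstance : Nonempty Ω)
  refine ⟨fun x y => if ∃ g : G, α g • x0 = x ∧ g • x0 = y then 1 else 0, ?_, ?_, ?_⟩
  · intro g x y
    have : (∃ h : G, α h • x0 = α g • x ∧ h • x0 = g • y) ↔ ∃ h : G, α h • x0 = x ∧ h • x0 = y := by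
      constructor
      · rintro ⟨h, h1, h2⟩
        exact ⟨g⁻¹ * h, by rw [map_mul, mul_smul, h1, map_inv, inv_smul_smul], by rw [mul_smul, h2, inv_smul_smul]⟩
      · rintro ⟨h, h1, h2⟩
        exact ⟨g * h, by rw [map_mul, mul_smul, h1], by rw [mul_smul, h2]⟩
    simp only [this]
  · intro x y
    by_cases h : ∃ g : G, α g • x0 = x ∧ g • x0 = y
    · right; exact if_pos h
    · left; exact if_neg h
  · by_contra hcon
    push Not at hcon
    apply hp
    refine dvd α x0 x0 ?_
    intro x y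
    by_contra h
    have h1 := hcon x0 x0 x y
    rw [if_pos ⟨1, by simp, by simp⟩, if_neg h] at h1
    norm_num at h1

section
variable (ht : ∀ x y : Ω, ∃ g : G, g • x = y)
  (h2 : ∀ x y x' y' : Ω, x ≠ y → x' ≠ y' → ∃ g : G, g • x = x' ∧ g • y = y')
include ht h2

theorem rows {α : MulAut G} {M : Ω → Ω → ℚ} (hM : Inv α M) (hn : ∃ x y x' y', M x y ≠ M x' y')
    {x x' : Ω} (h : ∀ z, M x z = M x' z) : x = x' := by
  by_contra hne
  have h1 : ∀ a b z, M a z = M b z := by
    intro a b z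
    by_cases hab : a = b
    · rw [hab]
    obtain ⟨k, hk1, hk2⟩ := h2 x x' a b hne hab
    have e1 := hM (α.symm k) x ((α.symm k)⁻¹ • z)
    have e2 := hM (α.symm k) x' ((α.symm k)⁻¹ • z)
    rw [MulEquiv.apply_symm_apply, smul_inv_smul] at e1 e2
    rw [hk1] at e1
    rw [hk2] at e2
    rw [e1, e2, h]
  obtain ⟨a, z, b, w, hab⟩ := hn
  apply hab
  obtain ⟨g, hg⟩ := ht z w
  rw [← hM g a z, hg]
  exact h1 _ _ _

theorem gram [Nontrivial Ω] {β : MulAut G} {M : Ω → Ω → ℚ} (hM : Inv β M)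
    (h01 : ∀ x y, M x y = 0 ∨ M x y = 1) (hn : ∃ x y x' y', M x y ≠ M x' y') :
    ∃ k l : ℚ, k ≠ l ∧ (∀ x, ∑ z, M x z = k) ∧ (∀ x, ∑ z, M x z * M x z = k) ∧
      ∀ x y, x ≠ y → ∑ z, M x z * M y z = l := by
  classical
  obtain ⟨x1, y1, hxy⟩ := exists_pair_ne Ω
  have hF : ∀ (h : G) (x y : Ω), ∑ z, M (h • x) z * M (h • y) z = ∑ z, M x z * M y z := by
    intro h x y
    have e := Fintype.sum_equiv (MulAction.toPerm (β.symm h) : Equiv.Perm Ω)
      (fun z => M x z * M y z) (fun z => M (h • x) z * M (h • y) z) (by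
        intro z
        have e1 := hM (β.symm h) x z
        have e2 := hM (β.symm h) y z
        rw [MulEquiv.apply_symm_apply] at e1 e2
        show M x z * M y z = M (h • x) (β.symm h • z) * M (h • y) (β.symm h • z)
        rw [e1, e2])
    exact e.symm
  have hdiag : ∀ x, ∑ z, M x z * M x z = ∑ z, M x1 z * M x1 z := by
    intro x
    obtain ⟨g, hg⟩ := ht x1 x
    rw [← hg, hF]
  have hoff : ∀ x y, x ≠ y → ∑ z, M x z * M y z = ∑ z, M x1 z * M y1 z := by
    intro x y hne
    obtain ⟨g, hg1, hg2⟩ := h2 x1 y1 x y hxy hne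
    rw [← hg1, ← hg2, hF]
  refine ⟨∑ z, M x1 z * M x1 z, ∑ z, M x1 z * M y1 z, ?_, ?_, hdiag, hoff⟩
  · intro heq
    apply hxy
    have key : ∀ x y, x ≠ y → ∀ z, M x z = 1 → M y z = 1 := by
      intro x y hne
      have e1 : ∑ z, (M x z * M x z - M x z * M y z) = 0 := by
        rw [Finset.sum_sub_distrib, hdiag, hoff x y hne, heq, sub_self]
      have e2 : ∀ z ∈ (Finset.univ : Finset Ω), 0 ≤ M x z * M x z - M x z * M y z := by
        intro z _
        rcases h01 x z with h | h <;> rcases h01 y z with h' | h' <;> rw [h, h'] <;> norm_num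
      have e3 := (Finset.sum_eq_zero_iff_of_nonneg e2).1 e1
      intro z hz
      have e4 := e3 z (Finset.mem_univ z)
      rcases h01 y z with h' | h'
      · rw [hz, h'] at e4; norm_num at e4
      · exact h'
    apply rows ht h2 hM hn
    intro z
    rcases h01 x1 z with h | h
    · rcases h01 y1 z with h' | h'
      · rw [h, h']
      · have := key y1 x1 hxy.symm z h'
        rw [h] at this; norm_num at this
    · rw [h, key x1 y1 hxy z h]
  · intro x
    rw [← hdiag x]
    apply Finset.sum_congr rfl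
    intro z _
    rcases h01 x z with h | h <;> rw [h] <;> norm_num

theorem commute [Nontrivial Ω] (hf : ∀ g : G, (∀ x : Ω, g • x = x) → g = 1)
    (hp : ¬ Nat.card Ω * Nat.card Ω ∣ Nat.card G) (P : Subgroup G) (hPc : ∀ a ∈ P, ∀ b ∈ P, a * b = b * a)
    (hPt : ∀ x y : Ω, ∃ g ∈ P, g • x = y) {α β : MulAut G} (hα : ∀ a ∈ P, α a = a) (hβ : ∀ a ∈ P, β a = a) :
    ∀ g, α (β g) = β (α g) := by
  classical
  obtain ⟨A, hA, hA01, hAn⟩ := exists_M hp α
  obtain ⟨B, hB, hB01, hBn⟩ := exists_M hp β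
  obtain ⟨k, l, hkl, hrow, hdiag, hoff⟩ := gram ht h2 hB hB01 hBn
  obtain ⟨k', l', _, hrow', _, _⟩ := gram ht h2 hA hA01 hAn
  have hAP : ∀ g ∈ P, ∀ x y, A (g • x) (g • y) = A x y := by
    intro g hg x y
    have := hA g x y
    rwa [hα g hg] at this
  have hBP : ∀ g ∈ P, ∀ x y, B (g • x) (g • y) = B x y := by
    intro g hg x y
    have := hB g x y
    rwa [hβ g hg] at this
  set N : Ω → Ω → ℚ := fun x z => ∑ y, A x y * B y z with hN
  have hreg : ∀ x : Ω, Function.Bijective (fun g : P => (g : G) • x) := by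
    intro x
    constructor
    · intro g h hgh
      have hgh' : (g : G) • x = (h : G) • x := hgh
      apply Subtype.ext
      have : ((g : G)⁻¹ * h) = 1 := by
        apply hf
        intro y
        obtain ⟨c, hc, rfl⟩ := hPt x y
        rw [← mul_smul, hPc _ (P.mul_mem (P.inv_mem g.2) h.2) c hc, mul_smul, mul_smul, ← hgh', inv_smul_smul]
      exact (inv_mul_eq_one.1 this)
    · intro y
      obtain ⟨g, hg, h⟩ := hPt x y
      exact ⟨⟨g, hg⟩, h⟩
  letI : Fintype P := Fintype.ofFinite P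
  have hcomm : ∀ x z, N x z = ∑ y, B x y * A y z := by
    intro x z
    obtain ⟨h, hh, rfl⟩ := hPt x z
    have e1 := (Equiv.ofBijective _ (hreg x)).sum_comp (fun y => A x y * B y (h • x))
    have e2 := (Equiv.ofBijective _ (hreg x)).sum_comp (fun y => B x y * A y (h • x))
    rw [hN]
    show ∑ y, A x y * B y (h • x) = _
    rw [← e1, ← e2]
    -- substitution g ↦ h g⁻¹
    let σ : P ≃ P := ⟨fun g => ⟨h, hh⟩ * g⁻¹, fun g => g⁻¹ * ⟨h, hh⟩, fun g => by group, fun g => by group⟩
    apply Fintype.sum_equiv σ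
    intro g
    show A x ((g : G) • x) * B ((g : G) • x) (h • x) =
      B x ((h * (g : G)⁻¹) • x) * A ((h * (g : G)⁻¹) • x) (h • x)
    have f1 : B ((g : G) • x) (h • x) = B x ((h * (g : G)⁻¹) • x) := by
      have := hBP (g : G) g.2 x ((h * (g : G)⁻¹) • x)
      rw [← this, ← mul_smul]
      have e : (g : G) * (h * (g : G)⁻¹) = h := by
        rw [hPc h hh _ (P.inv_mem g.2), ← mul_assoc, mul_inv_cancel, one_mul]
      rw [e]
    have f2 : A ((h * (g : G)⁻¹) • x) (h • x) = A x ((g : G) • x) := by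
      have := hAP (h * (g : G)⁻¹) (P.mul_mem hh (P.inv_mem g.2)) x ((g : G) • x)
      rw [← this, ← mul_smul, inv_mul_cancel_right]
    rw [f1, f2, mul_comm]
  have hNi : Inv (α * β) N := by
    intro g x z
    show ∑ y, A (α (β g) • x) y * B y (g • z) = ∑ y, A x y * B y z
    symm
    apply Fintype.sum_equiv (MulAction.toPerm (β g) : Equiv.Perm Ω)
    intro y
    show A x y * B y z = A (α (β g) • x) (β g • y) * B (β g • y) (g • z)
    rw [hA, hB]
  have hNi' : Inv (β * α) N := by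
    intro g x z
    rw [hcomm, hcomm]
    symm
    apply Fintype.sum_equiv (MulAction.toPerm (α g) : Equiv.Perm Ω)
    intro y
    show B x y * A y z = B (β (α g) • x) (α g • y) * A (α g • y) (g • z)
    rw [hA, hB]
  have hNn : ∃ x y x' y', N x y ≠ N x' y' := by
    by_contra hcon
    push Not at hcon
    obtain ⟨x, y, x', y', hne⟩ := hAn
    apply hne
    have key : ∀ x y, (k - l) * A x y = N x x * k - l * k' := by
      intro x y
      have e1 : ∑ z, N x z * B y z = N x x * k := by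
        rw [← hrow y, Finset.mul_sum]
        apply Finset.sum_congr rfl
        intro z _
        rw [hcon x z x x]
      have e2 : ∑ z, N x z * B y z = ∑ w, A x w * ∑ z, B w z * B y z := by
        simp only [hN, Finset.sum_mul, Finset.mul_sum]
        rw [Finset.sum_comm]
        apply Finset.sum_congr rfl; intro w _
        apply Finset.sum_congr rfl; intro z _
        ring
      have e3 : ∀ w, ∑ z, B w z * B y z = l + if w = y then (k - l) else 0 := by
        intro w
        split_ifs with h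
        · rw [h, hdiag]; ring
        · rw [hoff w y h]; ring
      rw [e1] at e2
      simp only [e3, mul_add, Finset.sum_add_distrib] at e2
      rw [← Finset.sum_mul, hrow'] at e2
      simp only [mul_ite, mul_zero, Finset.sum_ite_eq', Finset.mem_univ, if_true] at e2
      linarith
    have h3 := key x y
    have h4 := key x' y'
    rw [hcon x' x' x x, ← h3] at h4
    exact (mul_left_cancel₀ (sub_ne_zero.2 hkl) h4).symm
  intro g
  have : (α (β g)) * (β (α g))⁻¹ = 1 := by
    apply hf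
    intro x
    apply rows ht h2 hNi hNn
    intro z
    have e1 := hNi g ((β (α g))⁻¹ • x) (g⁻¹ • z)
    have e2 := hNi' g ((β (α g))⁻¹ • x) (g⁻¹ • z)
    have e1' : N (α (β g) • (β (α g))⁻¹ • x) z = N ((β (α g))⁻¹ • x) (g⁻¹ • z) := by
      rw [← e1, smul_inv_smul]; rfl
    have e2' : N x z = N ((β (α g))⁻¹ • x) (g⁻¹ • z) := by
      rw [← e2, smul_inv_smul]
      show N x z = N (β (α g) • (β (α g))⁻¹ • x) z
      rw [smul_inv_smul]
    rw [mul_smul, e1', e2']
  exact mul_inv_eq_one.1 this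

end

end Cfsg.Agent.H19.PrimeIdx
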