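import Mathlib

set_option autoImplicit false
open Module

namespace Cfsg.Agent.H19.RegUni

variable {F V : Type*} [Field F] [AddCommGroup V] [Module F V] [FiniteDimensional F V]

theorem ker_succ_le (N : Module.End F V) (h1 : finrank F (LinearMap.ker N) ≤ 1) (k : ℕ) :
    finrank F (LinearMap.ker (N ^ (k + 1))) ≤ finrank F (LinearMap.ker (N ^ k)) + 1 := by
  -- N^k maps ker N^(k+1) to ker N with kernel ker N^k
  let f : LinearMap.ker (N ^ (k + 1)) →ₗ[F] V := (N ^ k).domRestrict _
  have hr : LinearMap.range f ≤ LinearMap.ker N := by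
    rintro _ ⟨⟨x, hx⟩, rfl⟩
    rw [LinearMap.mem_ker] at hx ⊢
    rw [pow_succ'] at hx
    exact hx
  have h2 := f.finrank_range_add_finrank_ker
  have h3 : finrank F (LinearMap.range f) ≤ 1 := (Submodule.finrank_mono hr).trans h1
  have h4 : finrank F (LinearMap.ker f) ≤ finrank F (LinearMap.ker (N ^ k)) := by
    let h : LinearMap.ker f →ₗ[F] V := (LinearMap.ker (N ^ (k + 1))).subtype.comp (LinearMap.ker f).subtype
    have hle : ∀ x : LinearMap.ker f, h x ∈ LinearMap.ker (N ^ k) := by
      rintro ⟨x, hx⟩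
      exact hx
    exact LinearMap.finrank_le_finrank_of_injective (f := LinearMap.codRestrict _ h hle) (by
      intro x y hxy
      have h5 : h x = h y := congrArg (fun z : LinearMap.ker (N ^ k) => (z : V)) hxy
      exact Subtype.ext (Subtype.ext h5))
  omega

theorem finrank_ker_pow (N : Module.End F V) {n : ℕ} (hV : finrank F V = n) (hnil : N ^ n = 0)
    (h1 : finrank F (LinearMap.ker N) ≤ 1) {k : ℕ} (hk : k ≤ n) : finrank F (LinearMap.ker (N ^ k)) = k := by
  have hup : ∀ k, finrank F (LinearMap.ker (N ^ k)) ≤ k := by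
    intro k
    induction k with
    | zero =>
      have : LinearMap.ker (N ^ 0) = ⊥ := by
        rw [pow_zero]; exact LinearMap.ker_id
      rw [this, finrank_bot]
    | succ k ih => exact (ker_succ_le N h1 k).trans (by omega)
  have hlow : ∀ j, finrank F (LinearMap.ker (N ^ (k + j))) ≤ finrank F (LinearMap.ker (N ^ k)) + j := by
    intro j
    induction j with
    | zero => simp
    | succ j ih =>
      have := ker_succ_le N h1 (k + j)
      rw [← add_assoc]
      omega
  have h2 := hlow (n - k)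
  rw [show k + (n - k) = n by omega, hnil] at h2
  have h3 : LinearMap.ker (0 : Module.End F V) = ⊤ := LinearMap.ker_zero
  rw [h3, finrank_top, hV] at h2
  have := hup k
  omega

theorem pow_finrank_zero {W : Type*} [AddCommGroup W] [Module F W] [FiniteDimensional F W]
    (N : Module.End F W) (h : IsNilpotent N) : N ^ (finrank F W) = 0 := by
  have h1 := LinearMap.aeval_self_charpoly N
  rw [(LinearMap.isNilpotent_iff_charpoly N).1 h] at h1
  simpa using h1

theorem invariant_eq (N : Module.End F V) {n : ℕ} (hV : finrank F V = n) (hnil : N ^ n = 0)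
    (h1 : finrank F (LinearMap.ker N) ≤ 1) (W : Submodule F V) (hW : ∀ v ∈ W, N v ∈ W) :
    W = LinearMap.ker (N ^ (finrank F W)) := by
  have hle : W ≤ LinearMap.ker (N ^ (finrank F W)) := by
    intro w hw
    have h2 : IsNilpotent (N.restrict hW) := by
      refine ⟨n, ?_⟩
      rw [Module.End.pow_restrict]
      ext x
      show (N ^ n) x = 0
      rw [hnil]; rfl
    have h3 := pow_finrank_zero (N.restrict hW) h2
    rw [Module.End.pow_restrict] at h3
    have h4 := congrArg (fun f : Module.End F W => (f ⟨w, hw⟩ : V)) h3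
    exact h4
  apply Submodule.eq_of_le_of_finrank_eq hle
  rw [finrank_ker_pow N hV hnil h1 (hV ▸ Submodule.finrank_le W)]

/-- a vector outside `ker N^(n-1)` is cyclic -/
theorem span_top (N : Module.End F V) {n : ℕ} (hn : 1 ≤ n) (hV : finrank F V = n) (hnil : N ^ n = 0)
    (h1 : finrank F (LinearMap.ker N) ≤ 1) (v : V) (hv : (N ^ (n - 1)) v ≠ 0) :
    ⊤ ≤ Submodule.span F (Set.range (fun i : Fin n => (N ^ (i : ℕ)) v)) := by
  obtain ⟨W, hWdef⟩ : ∃ W, W = Submodule.span F (Set.range (fun i : Fin n => (N ^ (i : ℕ)) v)) := ⟨_, rfl⟩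
  have hinv : ∀ w ∈ W, N w ∈ W := by
    intro w hw
    rw [hWdef] at hw
    induction hw using Submodule.span_induction with
    | mem x hx =>
      obtain ⟨i, rfl⟩ := hx
      show N ((N ^ (i : ℕ)) v) ∈ W
      by_cases hi : (i : ℕ) + 1 < n
      · rw [hWdef]
        apply Submodule.subset_span
        refine ⟨⟨i + 1, hi⟩, ?_⟩
        show (N ^ ((i : ℕ) + 1)) v = _
        rw [pow_succ']; rfl
      · have h2 : (i : ℕ) + 1 = n := by omega
        have h3 : N ((N ^ (i : ℕ)) v) = (N ^ ((i : ℕ) + 1)) v := by rw [pow_succ']; rfl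
        rw [h3, h2, hnil]
        exact W.zero_mem
    | zero => rw [map_zero]; exact W.zero_mem
    | add x y _ _ hx hy => rw [map_add]; exact W.add_mem hx hy
    | smul a x _ hx => rw [map_smul]; exact W.smul_mem a hx
  have h2 := invariant_eq N hV hnil h1 W hinv
  have hvW : v ∈ W := by
    rw [hWdef]
    apply Submodule.subset_span
    exact ⟨⟨0, by omega⟩, by simp⟩
  rw [h2, LinearMap.mem_ker] at hvW
  have h3 : n ≤ finrank F W := by
    by_contra hcon
    apply hv
    have h4 : (N ^ (n - 1)) v = (N ^ (n - 1 - finrank F W)) ((N ^ finrank F W) v) := by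
      rw [← Module.End.mul_apply, ← pow_add]
      congr 2
      omega
    rw [h4, hvW, map_zero]
  rw [← hWdef]
  rw [Submodule.eq_top_of_finrank_eq (S := W) (le_antisymm (Submodule.finrank_le W) (by rw [hV]; exact h3))]

theorem exists_basis (N : Module.End F V) {n : ℕ} (hn : 1 ≤ n) (hV : finrank F V = n) (hnil : N ^ n = 0)
    (h1 : finrank F (LinearMap.ker N) ≤ 1) (v : V) (hv : (N ^ (n - 1)) v ≠ 0) :
    ∃ b : Module.Basis (Fin n) F V, ∀ i, b i = (N ^ (i : ℕ)) v := by
  refine ⟨basisOfTopLeSpanOfCardEqFinrank _ (span_top N hn hV hnil h1 v hv) (by simp [hV]), fun i => ?_⟩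
  rw [coe_basisOfTopLeSpanOfCardEqFinrank]

theorem ext_of_commute (N : Module.End F V) {n : ℕ} (hn : 1 ≤ n) (hV : finrank F V = n) (hnil : N ^ n = 0)
    (h1 : finrank F (LinearMap.ker N) ≤ 1) (v : V) (hv : (N ^ (n - 1)) v ≠ 0) (g g' : Module.End F V)
    (hg : Commute g N) (hg' : Commute g' N) (h : g v = g' v) : g = g' := by
  obtain ⟨b, hb⟩ := exists_basis N hn hV hnil h1 v hv
  apply b.ext
  intro i
  rw [hb]
  have h2 : g ((N ^ (i : ℕ)) v) = (N ^ (i : ℕ)) (g v) := by
    have := (hg.pow_right i).eq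
    exact congrArg (fun f : Module.End F V => f v) this
  have h3 : g' ((N ^ (i : ℕ)) v) = (N ^ (i : ℕ)) (g' v) := by
    have := (hg'.pow_right i).eq
    exact congrArg (fun f : Module.End F V => f v) this
  rw [h2, h3, h]

theorem exists_commute (N : Module.End F V) {n : ℕ} (hn : 1 ≤ n) (hV : finrank F V = n) (hnil : N ^ n = 0)
    (h1 : finrank F (LinearMap.ker N) ≤ 1) (v : V) (hv : (N ^ (n - 1)) v ≠ 0) (w : V) :
    ∃ g : Module.End F V, Commute g N ∧ g v = w := by
  obtain ⟨b, hb⟩ := exists_basis N hn hV hnil h1 v hv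
  let g : Module.End F V := b.constr F (fun i => (N ^ (i : ℕ)) w)
  have hgb : ∀ i : Fin n, g ((N ^ (i : ℕ)) v) = (N ^ (i : ℕ)) w := by
    intro i
    rw [← hb]
    exact b.constr_basis F _ i
  refine ⟨g, ?_, ?_⟩
  · show g * N = N * g
    apply b.ext
    intro i
    have e1 : N ((N ^ (i : ℕ)) v) = (N ^ ((i : ℕ) + 1)) v := by rw [pow_succ']; rfl
    have e2 : N ((N ^ (i : ℕ)) w) = (N ^ ((i : ℕ) + 1)) w := by rw [pow_succ']; rfl
    rw [hb, Module.End.mul_apply, Module.End.mul_apply, hgb, e1, e2]
    by_cases hi : (i : ℕ) + 1 < n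
    · exact hgb ⟨i + 1, hi⟩
    · rw [show (i : ℕ) + 1 = n by omega, hnil, LinearMap.zero_apply, LinearMap.zero_apply, map_zero]
  · have := hgb ⟨0, by omega⟩
    simpa using this

theorem card_centralizer [Finite F] (N : Module.End F V) {n : ℕ} (hn : 1 ≤ n) (hV : finrank F V = n)
    (hnil : N ^ n = 0) (h1 : finrank F (LinearMap.ker N) ≤ 1) :
    Nat.card {g : (Module.End F V)ˣ // Commute (g : Module.End F V) N} =
      Nat.card F ^ n - Nat.card F ^ (n - 1) := by
  haveI : Finite V := Module.finite_of_finite F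
  have hker := finrank_ker_pow N hV hnil h1 (k := n - 1) (by omega)
  obtain ⟨v, hv⟩ : ∃ v, (N ^ (n - 1)) v ≠ 0 := by
    by_contra hcon
    push Not at hcon
    have : LinearMap.ker (N ^ (n - 1)) = ⊤ := by
      rw [eq_top_iff]
      intro x _
      exact hcon x
    rw [this, finrank_top] at hker
    omega
  let f : {g : (Module.End F V)ˣ // Commute (g : Module.End F V) N} → {w : V // w ∉ LinearMap.ker (N ^ (n - 1))} :=
    fun g => ⟨(g.1 : Module.End F V) v, by
      intro h
      rw [LinearMap.mem_ker] at h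
      have h2 : (g.1 : Module.End F V) ((N ^ (n - 1)) v) = 0 := by
        have h3 := (g.2.pow_right (n - 1)).eq
        have h4 := congrArg (fun f : Module.End F V => f v) h3
        exact h4.trans h
      apply hv
      have h5 := congrArg ((g.1⁻¹ : (Module.End F V)ˣ) : Module.End F V) h2
      rw [map_zero] at h5
      have h6 : ((g.1⁻¹ : (Module.End F V)ˣ) : Module.End F V) ((g.1 : Module.End F V) ((N ^ (n - 1)) v)) = (N ^ (n - 1)) v := by
        have := congrArg (fun f : Module.End F V => f ((N ^ (n - 1)) v)) g.1.inv_mul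
        exact this
      rw [h6] at h5
      exact h5⟩
  have hf : Function.Bijective f := by
    constructor
    · intro g g' h
      apply Subtype.ext
      apply Units.ext
      exact ext_of_commute N hn hV hnil h1 v hv _ _ g.2 g'.2 (congrArg Subtype.val h)
    · rintro ⟨w, hw⟩
      obtain ⟨g, hg, hgv⟩ := exists_commute N hn hV hnil h1 v hv w
      obtain ⟨g', hg', hgw⟩ := exists_commute N hn hV hnil h1 w hw v
      have h2 : g' * g = 1 := ext_of_commute N hn hV hnil h1 v hv _ _ (hg'.mul_left hg) (Commute.one_left N) (by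
        rw [Module.End.mul_apply, hgv, hgw]; rfl)
      have h3 : g * g' = 1 := ext_of_commute N hn hV hnil h1 w hw _ _ (hg.mul_left hg') (Commute.one_left N) (by
        rw [Module.End.mul_apply, hgw, hgv]; rfl)
      refine ⟨⟨⟨g, g', h3, h2⟩, hg⟩, ?_⟩
      exact Subtype.ext hgv
  rw [Nat.card_congr (Equiv.ofBijective f hf)]
  have h2 : Nat.card {w : V // w ∉ LinearMap.ker (N ^ (n - 1))} + Nat.card (LinearMap.ker (N ^ (n - 1))) = Nat.card V := by
    classical
    haveI : Fintype V := Fintype.ofFinite V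
    rw [add_comm]
    have := Fintype.card_subtype_compl (fun w : V => w ∈ LinearMap.ker (N ^ (n - 1)))
    rw [Nat.card_eq_fintype_card, Nat.card_eq_fintype_card, Nat.card_eq_fintype_card, this]
    have h3 := Fintype.card_subtype_le (fun w : V => w ∈ LinearMap.ker (N ^ (n - 1)))
    have h4 : Fintype.card (LinearMap.ker (N ^ (n - 1))) = Fintype.card {w : V // w ∈ LinearMap.ker (N ^ (n - 1))} := rfl
    omega
  rw [Module.natCard_eq_pow_finrank (K := F) (V := V), Module.natCard_eq_pow_finrank (K := F) (V := LinearMap.ker (N ^ (n - 1))), hV, hker] at h2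
  omega

end Cfsg.Agent.H19.RegUni
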