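import Mathlib
import Cfsg.Agent.H19_Singer

set_option autoImplicit false
open Polynomial
open Cfsg.Agent.H19.Singer

namespace Cfsg.Agent.H19.Singer2

theorem main {F K : Type*} [Field F] [Fintype F] [Field K] [Fintype K] [Algebra F K] (n : ℕ) (hn : 1 ≤ n)
    (hdim : Module.finrank F K = n) (r : ℕ) (hr : r.Prime) (hr1 : r ∣ Fintype.card F ^ n - 1)
    (hr2 : ∀ k : ℕ, 0 < k → k < n → ¬ r ∣ Fintype.card F ^ k - 1) (x : (Module.End F K)ˣ) (hx : orderOf x = r) :
    ∃ t : (Module.End F K)ˣ, ∀ u : (Module.End F K)ˣ, u * x = x * u → t⁻¹ * u * t ∈ M F K := by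
  classical
  obtain ⟨p, hpc⟩ := CharP.exists F
  haveI : Fact p.Prime := ⟨CharP.char_is_prime F p⟩
  haveI : FiniteDimensional F K := FiniteDimensional.of_finrank_pos (by omega)
  obtain ⟨f0, hq⟩ := FiniteField.card F p
  have hq1 : 1 < Fintype.card F := Fintype.one_lt_card
  have hrq : ¬ r ∣ Fintype.card F := by
    intro h
    have h1 : r ∣ Fintype.card F ^ n := h.trans (dvd_pow_self _ (by omega))
    have h2 : 1 ≤ Fintype.card F ^ n := Nat.one_le_pow _ _ (by omega)
    have h3 := (Nat.dvd_sub_iff_right h2 h1).1 hr1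
    exact hr.one_lt.ne' (Nat.dvd_one.1 h3)
  have hrF : (r : F) ≠ 0 := by
    intro h
    rw [CharP.cast_eq_zero_iff F p] at h
    have : p = r := (Nat.prime_dvd_prime_iff_eq Fact.out hr).1 h
    apply hrq
    rw [← this, hq.2]
    exact dvd_pow_self _ f0.pos.ne'
  obtain ⟨X0, hX0⟩ : ∃ X0 : Module.End F K, X0 = x := ⟨_, rfl⟩
  have hXr : X0 ^ r = 1 := by
    rw [hX0, ← Units.val_pow_eq_pow_val, ← hx, pow_orderOf_eq_one, Units.val_one]
  have hX1 : X0 ≠ 1 := by
    intro h
    have : x = 1 := Units.ext (by rw [← hX0, h]; rfl)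
    rw [this, orderOf_one] at hx
    exact hr.one_lt.ne hx
  have hint : IsIntegral F X0 := Algebra.IsIntegral.isIntegral X0
  -- common factor with 1 + X + ... + X^(r-1)
  obtain ⟨Qp, hQp⟩ : ∃ Qp : F[X], Qp = ∑ i ∈ Finset.range r, X ^ i := ⟨_, rfl⟩
  have hQX : Qp * (X - 1) = X ^ r - 1 := by rw [hQp]; exact geom_sum_mul X r
  have hnc : ¬ IsCoprime (minpoly F X0) Qp := by
    intro hcop
    have h1 : minpoly F X0 ∣ Qp * (X - 1) := by
      rw [hQX]
      apply minpoly.dvd
      simp [hXr]
    have h2 := hcop.dvd_of_dvd_mul_left h1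
    have h3 : aeval X0 (X - 1 : F[X]) = 0 := by
      obtain ⟨c, hc⟩ := h2
      rw [hc, map_mul, minpoly.aeval, zero_mul]
    apply hX1
    simpa [sub_eq_zero] using h3
  obtain ⟨g, hg, hg1, hg2⟩ : ∃ g : F[X], Irreducible g ∧ g ∣ minpoly F X0 ∧ g ∣ Qp := by
    by_contra hcon
    push Not at hcon
    apply hnc
    apply isCoprime_of_irreducible_dvd
    · rintro ⟨h, -⟩
      exact minpoly.ne_zero hint h
    · intro z hz hz1 hz2
      exact hcon z hz hz1 hz2
  haveI : Fact (Irreducible g) := ⟨hg⟩
  have hg0 : g ≠ 0 := hg.ne_zero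
  have hfr : Module.finrank F (AdjoinRoot g) = g.natDegree := finrank_quotient_span_eq_natDegree (f := g)
  have hdegpos : 0 < g.natDegree := hg.natDegree_pos
  haveI : FiniteDimensional F (AdjoinRoot g) := FiniteDimensional.of_finrank_pos (by omega)
  haveI : Finite (AdjoinRoot g) := Module.finite_of_finite F
  letI : Fintype (AdjoinRoot g) := Fintype.ofFinite _
  -- the root has order r
  have hroot : eval₂ (AdjoinRoot.of g) (AdjoinRoot.root g) Qp = 0 := by
    obtain ⟨c, hc⟩ := hg2
    rw [hc, eval₂_mul, AdjoinRoot.eval₂_root, zero_mul]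
  have hsum : ∑ i ∈ Finset.range r, (AdjoinRoot.root g) ^ i = 0 := by
    rw [hQp, eval₂_finsetSum] at hroot
    simpa using hroot
  have hrootr : (AdjoinRoot.root g) ^ r = 1 := by
    have := geom_sum_mul (AdjoinRoot.root g) r
    rw [hsum, zero_mul] at this
    exact (sub_eq_zero.1 this.symm)
  have hroot1 : AdjoinRoot.root g ≠ 1 := by
    intro h
    rw [h] at hsum
    simp only [one_pow, Finset.sum_const, Finset.card_range, nsmul_eq_mul, mul_one] at hsum
    apply hrF
    have h2 : algebraMap F (AdjoinRoot g) (r : F) = 0 := by rw [map_natCast]; exact hsum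
    exact (map_eq_zero _).1 h2
  have hroot0 : AdjoinRoot.root g ≠ 0 := by
    intro h
    rw [h, zero_pow hr.ne_zero] at hrootr
    exact zero_ne_one hrootr
  have hord : orderOf (Units.mk0 _ hroot0) = r := by
    haveI : Fact r.Prime := ⟨hr⟩
    apply orderOf_eq_prime
    · apply Units.ext
      rw [Units.val_pow_eq_pow_val]
      exact hrootr
    · intro h
      exact hroot1 (congrArg Units.val h)
  have hdeg : n ≤ g.natDegree := by
    by_contra hcon
    apply hr2 g.natDegree hdegpos (by omega)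
    have h1 := orderOf_dvd_card (x := Units.mk0 _ hroot0)
    rw [hord, Fintype.card_units, Module.card_eq_pow_finrank (K := F) (V := AdjoinRoot g), hfr] at h1
    exact h1
  -- the minimal polynomial is g up to units
  have hmdeg : (minpoly F X0).natDegree ≤ n := by
    have h1 := LinearMap.minpoly_dvd_charpoly X0
    have h2 := natDegree_le_of_dvd h1 (LinearMap.charpoly_monic X0).ne_zero
    rwa [LinearMap.charpoly_natDegree, hdim] at h2
  have hgdeg : g.natDegree = n := by
    have := natDegree_le_of_dvd hg1 (minpoly.ne_zero hint)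
    omega
  have hmg : minpoly F X0 ∣ g := by
    obtain ⟨c, hc⟩ := hg1
    have hc0 : c ≠ 0 := by
      rintro rfl
      rw [mul_zero] at hc
      exact minpoly.ne_zero hint hc
    have h2 : (minpoly F X0).natDegree = g.natDegree + c.natDegree := by
      rw [hc, natDegree_mul hg0 hc0]
    have h3 : c.natDegree = 0 := by omega
    have h4 : IsUnit c := by
      rw [Polynomial.isUnit_iff_degree_eq_zero, degree_eq_natDegree hc0, h3]; rfl
    obtain ⟨w, hw⟩ := h4
    refine ⟨(w⁻¹ : F[X]ˣ), ?_⟩
    rw [hc, mul_assoc, ← hw, Units.mul_inv, mul_one]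
  -- a root of g in K
  haveI : NeZero n := ⟨by omega⟩
  let e1 := FiniteField.algEquivExtension F p n (AdjoinRoot g) (hfr.trans hgdeg)
  let e2 := FiniteField.algEquivExtension F p n K hdim
  let e : AdjoinRoot g ≃ₐ[F] K := e1.trans e2.symm
  obtain ⟨ζ, hζ⟩ : ∃ ζ : K, ζ = e (AdjoinRoot.root g) := ⟨_, rfl⟩
  have hζp : ∀ P : F[X], aeval ζ P = e (AdjoinRoot.mk g P) := by
    intro P
    rw [hζ, ← AdjoinRoot.aeval_eq P]
    exact (aeval_algHom_apply (e : AdjoinRoot g →ₐ[F] K) _ P)
  have hker : ∀ P : F[X], aeval ζ P = 0 → aeval X0 P = 0 := by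
    intro P hP
    rw [hζp] at hP
    have h1 : AdjoinRoot.mk g P = 0 := e.injective (hP.trans (map_zero e).symm)
    rw [AdjoinRoot.mk_eq_zero] at h1
    obtain ⟨c, hc⟩ := hmg.trans h1
    rw [hc, map_mul, minpoly.aeval, zero_mul]
  have hsurj : ∀ a : K, ∃ P : F[X], aeval ζ P = a := by
    intro a
    obtain ⟨P, hP⟩ := AdjoinRoot.mk_surjective (e.symm a)
    exact ⟨P, by rw [hζp, hP, e.apply_symm_apply]⟩
  choose P hP using hsurj
  -- the intertwiner
  have hind : ∀ P P' : F[X], aeval ζ P = aeval ζ P' → aeval X0 P = aeval X0 P' := by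
    intro P P' h
    rw [← sub_eq_zero, ← map_sub] at h ⊢
    exact hker _ h
  let T : K →ₗ[F] K :=
    { toFun := fun a => (aeval X0 (P a)) 1
      map_add' := by
        intro a b
        rw [← LinearMap.add_apply, ← map_add]
        rw [hind (P (a + b)) (P a + P b) (by rw [map_add, hP, hP, hP])]
      map_smul' := by
        intro c a
        rw [RingHom.id_apply, ← LinearMap.smul_apply, ← map_smul]
        rw [hind (P (c • a)) (c • P a) (by rw [map_smul, hP, hP])] }
  have hT : ∀ Q : F[X], T (aeval ζ Q) = (aeval X0 Q) 1 := by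
    intro Q
    show (aeval X0 (P (aeval ζ Q))) 1 = _
    rw [hind _ Q (hP _)]
  have hTX : ∀ a, T (ζ * a) = X0 (T a) := by
    intro a
    have h1 : ζ * a = aeval ζ (X * P a) := by rw [map_mul, aeval_X, hP]
    rw [h1, hT, map_mul, aeval_X]
    rfl
  have hTQ : ∀ (Q : F[X]) (a : K), T (aeval ζ Q * a) = (aeval X0 Q) (T a) := by
    intro Q a
    have h1 : aeval ζ Q * a = aeval ζ (Q * P a) := by rw [map_mul, hP]
    rw [h1, hT, map_mul]
    rfl
  have hTinj : Function.Injective T := by
    rw [← LinearMap.ker_eq_bot, LinearMap.ker_eq_bot']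
    intro a ha
    by_contra ha0
    have h1 := hTQ (P a⁻¹) a
    rw [hP, inv_mul_cancel₀ ha0, ha, map_zero] at h1
    have h2 : T 1 = 1 := by
      have := hT 1
      rw [map_one (aeval ζ), map_one (aeval X0)] at this
      exact this
    rw [h2] at h1
    exact one_ne_zero h1
  let Te : K ≃ₗ[F] K := LinearEquiv.ofInjectiveEndo T hTinj
  have hTe : ∀ a, Te a = T a := fun a => rfl
  let t : (Module.End F K)ˣ :=
    { val := Te.toLinearMap, inv := Te.symm.toLinearMap
      val_inv := LinearMap.ext fun x => Te.apply_symm_apply x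
      inv_val := LinearMap.ext fun x => Te.symm_apply_apply x }
  refine ⟨t, fun u hu => ?_⟩
  have hux : (u : Module.End F K) * X0 = X0 * u := by
    rw [hX0, ← Units.val_mul, hu, Units.val_mul]
  have huQ : ∀ Q : F[X], (u : Module.End F K) * aeval X0 Q = aeval X0 Q * u := by
    intro Q
    have : Commute (u : Module.End F K) (aeval X0 Q) := by
      induction Q using Polynomial.induction_on with
      | C a =>
        rw [aeval_C]
        exact (Algebra.commutes a (u : Module.End F K)).symm
      | add P1 P2 h1 h2 =>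
        rw [map_add]
        exact h1.add_right h2
      | monomial m a _ =>
        rw [map_mul, map_pow, aeval_C, aeval_X]
        exact (show Commute (u : Module.End F K) (algebraMap F _ a) from (Algebra.commutes a (u : Module.End F K)).symm).mul_right
          ((show Commute (u : Module.End F K) X0 from hux).pow_right _)
    exact this
  apply of_commute
  intro a
  obtain ⟨Q, rfl⟩ : ∃ Q : F[X], aeval ζ Q = a := ⟨P a, hP a⟩
  have htQ : (t : Module.End F K) * L F K (aeval ζ Q) = aeval X0 Q * (t : Module.End F K) := by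
    apply LinearMap.ext
    intro b
    exact hTQ Q b
  have htQ2 : L F K (aeval ζ Q) * (t⁻¹ : (Module.End F K)ˣ).1 = (t⁻¹ : (Module.End F K)ˣ).1 * aeval X0 Q := by
    have := congrArg (fun z => (t⁻¹ : (Module.End F K)ˣ).1 * z * (t⁻¹ : (Module.End F K)ˣ).1) htQ
    simp only [mul_assoc, Units.inv_mul_cancel_left, Units.mul_inv, mul_one] at this
    exact this
  rw [Units.val_mul, Units.val_mul, mul_assoc, htQ, ← mul_assoc, ← mul_assoc, ← mul_assoc, htQ2, mul_assoc _ (u : Module.End F K), huQ,
    ← mul_assoc]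

theorem conj_main {F K : Type*} [Field F] [Fintype F] [Field K] [Fintype K] [Algebra F K] (n : ℕ) (hn : 1 ≤ n)
    (hdim : Module.finrank F K = n) (r : ℕ) (hr : r.Prime) (hr1 : r ∣ Fintype.card F ^ n - 1)
    (hr2 : ∀ k : ℕ, 0 < k → k < n → ¬ r ∣ Fintype.card F ^ k - 1) (x : (Module.End F K)ˣ) (hx : orderOf x = r) :
    Nonempty (Subgroup.centralizer ({x} : Set (Module.End F K)ˣ) ≃* Kˣ) := by
  obtain ⟨t, ht⟩ := main n hn hdim r hr hr1 hr2 x hx
  have hMab : ∀ a ∈ M F K, ∀ b ∈ M F K, a * b = b * a := by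
    rintro _ ⟨a, rfl⟩ _ ⟨b, rfl⟩
    rw [← map_mul, ← map_mul, mul_comm]
  have hxM := ht x rfl
  have heq : (M F K).map (MulAut.conj t).toMonoidHom = Subgroup.centralizer ({x} : Set (Module.End F K)ˣ) := by
    apply le_antisymm
    · rintro _ ⟨a, ha, rfl⟩
      rw [Subgroup.mem_centralizer_iff]
      intro y hy
      rw [Set.mem_singleton_iff] at hy
      subst hy
      have h1 := hMab _ hxM _ ha
      show y * (t * a * t⁻¹) = (t * a * t⁻¹) * y
      have h2 : y * (t * a * t⁻¹) = t * ((t⁻¹ * y * t) * a) * t⁻¹ := by group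
      rw [h2, h1]; group
    · intro u hu
      have h1 := ht u ((Subgroup.mem_centralizer_iff.1 hu x rfl).symm)
      refine ⟨_, h1, ?_⟩
      show t * (t⁻¹ * u * t) * t⁻¹ = u
      group
  have hinj : Function.Injective (Units.map ((Algebra.lmul F K : K →ₐ[F] Module.End F K) : K →* Module.End F K)) :=
    Units.map_injective L_injective
  exact ⟨((MulEquiv.subgroupCongr heq.symm).trans
    ((M F K).equivMapOfInjective _ (MulAut.conj t).injective).symm).trans (MonoidHom.ofInjective hinj).symm⟩

end Cfsg.Agent.H19.Singer2
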