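import Mathlib

set_option autoImplicit false
open Module

namespace Cfsg.Agent.H19.Trv

theorem card_preimage {G P : Type*} [Group G] [Finite G] (H : Subgroup G) (f : G → P) (hf : Function.Surjective f)
    (hfH : ∀ g g', f g = f g' ↔ g⁻¹ * g' ∈ H) (S : Set P) :
    Nat.card {g : G // f g ∈ S} = Nat.card S * Nat.card H := by
  choose s hs using hf
  rw [← Nat.card_prod]
  symm
  apply Nat.card_congr
  refine Equiv.ofBijective (fun w : S × H => (⟨s w.1 * w.2, ?_⟩ : {g : G // f g ∈ S})) ⟨?_, ?_⟩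
  · have : f (s w.1 * w.2) = f (s w.1) := by
      rw [eq_comm, hfH]
      simp
    rw [this, hs]
    exact w.1.2
  · rintro ⟨p, h⟩ ⟨p', h'⟩ he
    have h1 : s p * h = s p' * h' := congrArg Subtype.val he
    have h2 : f (s p) = f (s p') := by
      rw [hfH]
      have : (s p : G)⁻¹ * s p' = h * (h' : G)⁻¹ := by
        rw [inv_mul_eq_iff_eq_mul, ← mul_assoc, h1, mul_inv_cancel_right]
      rw [this]
      exact H.mul_mem h.2 (H.inv_mem h'.2)
    rw [hs, hs] at h2
    have h3 : p = p' := Subtype.ext h2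
    subst h3
    have h4 : (h : G) = h' := mul_left_cancel h1
    rw [Subtype.ext h4]
  · rintro ⟨g, hg⟩
    have h1 : (s (f g))⁻¹ * g ∈ H := by
      rw [← hfH, hs]
    refine ⟨(⟨f g, hg⟩, ⟨_, h1⟩), ?_⟩
    apply Subtype.ext
    show s (f g) * ((s (f g))⁻¹ * g) = g
    group

variable {F V : Type*} [Field F] [AddCommGroup V] [Module F V] [FiniteDimensional F V]

/-- adapted basis -/
theorem exists_basis {m : ℕ} (hV : finrank F V = m + 2) (a : V) (ha : a ≠ 0) (φ : V →ₗ[F] F) (hφ : φ ≠ 0)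
    (hφa : φ a = 0) : ∃ b : Basis (Fin (m + 2)) F V, b 1 = a ∧ φ (b 0) = 1 ∧ ∀ i, i ≠ 0 → φ (b i) = 0 := by
  obtain ⟨v0, hv0⟩ : ∃ v, φ v ≠ 0 := by
    by_contra hcon
    push Not at hcon
    exact hφ (LinearMap.ext hcon)
  obtain ⟨v, hv⟩ : ∃ v, φ v = 1 := ⟨(φ v0)⁻¹ • v0, by rw [map_smul, smul_eq_mul, inv_mul_cancel₀ hv0]⟩
  -- basis of ker φ starting with a
  have hker : finrank F (LinearMap.ker φ) = m + 1 := by
    have h1 := φ.finrank_range_add_finrank_ker
    have h2 : LinearMap.range φ = ⊤ := by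
      rw [eq_top_iff]
      intro c _
      exact ⟨c • v, by rw [map_smul, hv, smul_eq_mul, mul_one]⟩
    rw [h2, finrank_top, finrank_self, hV] at h1
    omega
  obtain ⟨a', ha'⟩ : ∃ a' : LinearMap.ker φ, a' = ⟨a, hφa⟩ := ⟨_, rfl⟩
  have ha'0 : a' ≠ 0 := by
    rw [ha']
    intro h
    exact ha (congrArg Subtype.val h)
  obtain ⟨c, hc⟩ : ∃ c : Basis (Fin (m + 1)) F (LinearMap.ker φ), c 0 = a' := by
    obtain ⟨N, hN⟩ := Submodule.exists_isCompl (Submodule.span F {a'})
    have hNr : finrank F N = m := by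
      have h1 := Submodule.finrank_add_eq_of_isCompl hN
      rw [finrank_span_singleton ha'0, hker] at h1
      omega
    let bN := finBasisOfFinrankEq F N hNr
    refine ⟨Basis.mkFinCons a' bN ?_ ?_, ?_⟩
    · intro c x hx h
      have h1 : c • a' ∈ N := by
        rw [eq_neg_of_add_eq_zero_left h]
        exact N.neg_mem hx
      have h2 : c • a' ∈ Submodule.span F {a'} ⊓ N := ⟨Submodule.smul_mem _ _ (Submodule.mem_span_singleton_self a'), h1⟩
      rw [hN.inf_eq_bot, Submodule.mem_bot] at h2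
      exact (smul_eq_zero.1 h2).resolve_right ha'0
    · intro z
      have h1 : z ∈ Submodule.span F {a'} ⊔ N := by rw [hN.sup_eq_top]; trivial
      obtain ⟨y, hy, x, hx, hyx⟩ := Submodule.mem_sup.1 h1
      obtain ⟨c, rfl⟩ := Submodule.mem_span_singleton.1 hy
      refine ⟨-c, ?_⟩
      have : z + -c • a' = x := by rw [← hyx]; module
      rw [this]; exact hx
    · rw [Basis.coe_mkFinCons]; rfl
  have hli : ∀ (d : F), ∀ x ∈ LinearMap.ker φ, d • v + x = 0 → d = 0 := by
    intro d x hx h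
    have h1 := congrArg φ h
    rw [map_add, map_smul, hv, LinearMap.mem_ker.1 hx, map_zero, add_zero, smul_eq_mul, mul_one] at h1
    exact h1
  have hsp : ∀ z : V, ∃ d : F, z + d • v ∈ LinearMap.ker φ := by
    intro z
    refine ⟨-φ z, ?_⟩
    rw [LinearMap.mem_ker, map_add, map_smul, hv, smul_eq_mul, mul_one, add_neg_cancel]
  refine ⟨Basis.mkFinCons v c hli hsp, ?_, ?_, ?_⟩
  · rw [Basis.coe_mkFinCons]
    show ((c 0 : LinearMap.ker φ) : V) = a
    rw [hc, ha']
  · rw [Basis.coe_mkFinCons]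
    exact hv
  · intro i hi
    rw [Basis.coe_mkFinCons]
    obtain ⟨j, rfl⟩ := Fin.exists_succ_eq.2 hi
    exact (c j).2

theorem transitive {m : ℕ} (hV : finrank F V = m + 2) {a a' : V} {φ φ' : V →ₗ[F] F} (ha : a ≠ 0) (hφ : φ ≠ 0)
    (hφa : φ a = 0) (ha' : a' ≠ 0) (hφ' : φ' ≠ 0) (hφa' : φ' a' = 0) :
    ∃ g : V ≃ₗ[F] V, g a = a' ∧ ∀ x, φ' (g x) = φ x := by
  obtain ⟨b, hb1, hb0, hbi⟩ := exists_basis hV a ha φ hφ hφa
  obtain ⟨b', hb1', hb0', hbi'⟩ := exists_basis hV a' ha' φ' hφ' hφa'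
  refine ⟨b.equiv b' (Equiv.refl _), ?_, ?_⟩
  · rw [← hb1, Basis.equiv_apply, Equiv.refl_apply, hb1']
  · intro x
    have : φ'.comp (b.equiv b' (Equiv.refl _)).toLinearMap = φ := by
      apply b.ext
      intro i
      show φ' (b.equiv b' (Equiv.refl _) (b i)) = φ (b i)
      rw [Basis.equiv_apply, Equiv.refl_apply]
      by_cases hi : i = 0
      · rw [hi, hb0, hb0']
      · rw [hbi i hi, hbi' i hi]
    exact congrArg (fun f : V →ₗ[F] F => f x) this

/-- with determinant one in dimension at least 3 -/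
theorem transitive_sl {m : ℕ} (hV : finrank F V = m + 3) {a a' : V} {φ φ' : V →ₗ[F] F} (ha : a ≠ 0) (hφ : φ ≠ 0)
    (hφa : φ a = 0) (ha' : a' ≠ 0) (hφ' : φ' ≠ 0) (hφa' : φ' a' = 0) :
    ∃ g : V ≃ₗ[F] V, LinearEquiv.det g = 1 ∧ g a = a' ∧ ∀ x, φ' (g x) = φ x := by
  classical
  obtain ⟨b, hb1, hb0, hbi⟩ := exists_basis (m := m + 1) hV a ha φ hφ hφa
  obtain ⟨b', hb1', hb0', hbi'⟩ := exists_basis (m := m + 1) hV a' ha' φ' hφ' hφa'
  obtain ⟨g, hg⟩ : ∃ g : V ≃ₗ[F] V, g = b.equiv b' (Equiv.refl _) := ⟨_, rfl⟩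
  obtain ⟨d, hd⟩ : ∃ d : Fˣ, d = LinearEquiv.det g := ⟨_, rfl⟩
  -- rescale the basis vector number 2
  let w : Fin (m + 3) → Fˣ := fun i => if i = ⟨2, by omega⟩ then d⁻¹ else 1
  let h : V ≃ₗ[F] V := b'.equiv (b'.unitsSMul w) (Equiv.refl _)
  have hb : ∀ i, h (b' i) = (w i : F) • b' i := by
    intro i
    show b'.equiv (b'.unitsSMul w) (Equiv.refl _) (b' i) = _
    rw [Basis.equiv_apply, Equiv.refl_apply, Basis.unitsSMul_apply]
    rfl
  have hdet : LinearEquiv.det h = d⁻¹ := by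
    apply Units.ext
    rw [LinearEquiv.coe_det, ← LinearMap.det_toMatrix b']
    have hM : LinearMap.toMatrix b' b' h.toLinearMap = Matrix.diagonal (fun i => (w i : F)) := by
      ext i j
      rw [LinearMap.toMatrix_apply]
      show (b'.repr (h (b' j))) i = _
      rw [hb, map_smul, Basis.repr_self, Matrix.diagonal_apply]
      simp only [Finsupp.smul_apply, Finsupp.single_apply, smul_eq_mul]
      by_cases hij : i = j
      · subst hij; simp
      · rw [if_neg (Ne.symm hij), if_neg hij, mul_zero]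
    rw [hM, Matrix.det_diagonal]
    rw [Finset.prod_eq_single (⟨2, by omega⟩ : Fin (m + 3))]
    · simp [w]
    · intro i _ hi
      simp [w, hi]
    · simp
  refine ⟨g.trans h, ?_, ?_, ?_⟩
  · have : g.trans h = h * g := rfl
    rw [this, map_mul, hdet, ← hd, inv_mul_cancel]
  · show h (g a) = a'
    have h1 : g a = b' 1 := by
      rw [hg, ← hb1, Basis.equiv_apply, Equiv.refl_apply]
    rw [h1, hb, hb1']
    have : w 1 = 1 := by
      simp only [w]
      rw [if_neg]
      intro h2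
      have := congrArg Fin.val h2
      simp at this
    rw [this, Units.val_one, one_smul]
  · intro x
    show φ' (h (g x)) = φ x
    have : φ'.comp (h.toLinearMap.comp g.toLinearMap) = φ := by
      apply b.ext
      intro i
      show φ' (h (g (b i))) = φ (b i)
      rw [hg, Basis.equiv_apply, Equiv.refl_apply, hb, map_smul]
      by_cases hi : i = 0
      · rw [hi, hb0, hb0']
        have : w 0 = 1 := by
          simp only [w]
          rw [if_neg]
          intro h2
          have := congrArg Fin.val h2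
          simp at this
        rw [this]; simp
      · rw [hbi i hi, hbi' i hi, smul_zero]
    exact congrArg (fun f : V →ₗ[F] F => f x) this

/-- a square-zero rank one endomorphism -/
theorem exists_pair (N : Module.End F V) (h1 : finrank F (LinearMap.range N) = 1) (h2 : N * N = 0) :
    ∃ (a : V) (φ : V →ₗ[F] F), a ≠ 0 ∧ φ ≠ 0 ∧ φ a = 0 ∧ ∀ x, N x = φ x • a := by
  obtain ⟨⟨a, ha⟩, ha0, hgen⟩ := finrank_eq_one_iff'.1 h1
  have ha1 : a ≠ 0 := fun h => ha0 (Subtype.ext h)
  have hx : ∀ x, ∃ c : F, N x = c • a := by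
    intro x
    obtain ⟨c, hc⟩ := hgen ⟨N x, ⟨x, rfl⟩⟩
    exact ⟨c, (congrArg Subtype.val hc).symm⟩
  choose φ0 hφ0 using hx
  have hinj : ∀ c d : F, c • a = d • a → c = d := fun c d h => smul_left_injective F ha1 h
  let φ : V →ₗ[F] F :=
    { toFun := φ0
      map_add' := by
        intro x y
        apply hinj
        rw [← hφ0, map_add, add_smul, ← hφ0, ← hφ0]
      map_smul' := by
        intro c x
        apply hinj
        rw [← hφ0, map_smul, hφ0 x, smul_smul]
        rfl }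
  have hφ : ∀ x, N x = φ x • a := hφ0
  obtain ⟨y, hy⟩ := ha
  refine ⟨a, φ, ha1, ?_, ?_, hφ⟩
  · intro h
    rw [hφ, h, LinearMap.zero_apply, zero_smul] at hy
    exact ha1 hy.symm
  · have h3 : N a = 0 := by
      rw [← hy]
      exact congrArg (fun f : Module.End F V => f y) h2
    rw [hφ] at h3
    exact (smul_eq_zero.1 h3).resolve_right ha1

end Cfsg.Agent.H19.Trv
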