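import Cfsg.Agent.H1_Carter

/-! Carter subgroups and system normalizers. -/

set_option autoImplicit false
set_option linter.unusedVariables false
open Pointwise
open scoped commutatorElement

namespace Cfsg.Agent.H1.Carter
open Cfsg.Agent.H1.Basic Cfsg.Agent.H1.Nilp Cfsg.Agent.H1.Hall Cfsg.Agent.H1.SZ
open Cfsg.Agent.H1.Factor Cfsg.Agent.H1.Wiel Cfsg.Agent.H1.HC Cfsg.Agent.H1.System

universe u

theorem carter_exists (G : Type*) [Group G] [Finite G] [Group.IsSolvable G] :
    ∃ C : Subgroup G, Cfsg.IsCarterSubgroup C := (carter_aux _ G rfl).1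

theorem carter_conjugate {G : Type*} [Group G] [Finite G] [Group.IsSolvable G] {C D : Subgroup G}
    (hC : Cfsg.IsCarterSubgroup C) (hD : Cfsg.IsCarterSubgroup D) :
    ∃ g : G, MulAut.conj g • C = D := (carter_aux _ G rfl).2 C D hC hD

theorem carter_quotient {G : Type*} [Group G] [Finite G] [Group.IsSolvable G] (N : Subgroup G)
    [N.Normal] {C : Subgroup G} (hC : Cfsg.IsCarterSubgroup C) :
    Cfsg.IsCarterSubgroup (C.map (QuotientGroup.mk' N)) :=
  carter_map (fun X _ _ _ _ => (carter_aux _ X rfl).2) N hC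

/-- If a complement system reduces into a Carter subgroup `C` then its normalizer is in `C`. -/
theorem systemNormalizer_le_carter_aux (n : ℕ) : ∀ (G : Type u) [Group G] [Finite G]
    [Group.IsSolvable G], Nat.card G = n → ∀ (C : Subgroup G), Cfsg.IsCarterSubgroup C →
    ∀ K : Nat.Primes → Subgroup G, Cfsg.IsComplementSystem K →
    (∀ p : Nat.Primes, HC p (K p ⊓ C) C) → Cfsg.systemNormalizer K ≤ C := by
  induction n using Nat.strong_induction_on with | _ n ih => ?_
  intro G _ _ _ hG C hC K hK hred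
  rcases subsingleton_or_nontrivial G with h | hnt
  · intro x _; rw [Subsingleton.elim x 1]; exact C.one_mem
  obtain ⟨N, hNn, hNb, hmin⟩ := exists_minimal_normal_of_nontrivial G
  obtain ⟨hNc, r, hr, hNr⟩ := minimal_normal_elementary N hNb hmin
  have hrf : Fact r.Prime := ⟨hr⟩
  have hNp : IsPGroup r N := isPGroup_of_pow_eq_one hNr
  set π := QuotientGroup.mk' N with hπ
  have hs := QuotientGroup.mk'_surjective N
  set E := C ⊔ N with hE
  have hCE : C ≤ E := le_sup_left
  have hDE : Cfsg.systemNormalizer K ≤ E := by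
    obtain ⟨h1, h2⟩ := systemNormalizer_map K hK N
    have h3 := ih _ (by rw [← hG]; exact card_quotient_lt hNb) (G ⧸ N) rfl (C.map π)
      (carter_quotient N hC) _ h1 (by
        intro p
        have h4 := (hred p).map p.2 π
        have h5 : (K p ⊓ C).map π ≤ (K p).map π ⊓ C.map π := Subgroup.map_inf_le _ _ _
        have h6 : (Nat.card ((K p).map π ⊓ C.map π : Subgroup (G ⧸ N))).Coprime p :=
          Nat.Coprime.coprime_dvd_left ((Subgroup.card_dvd_of_le inf_le_left).trans
            (Subgroup.card_map_dvd _ _)) (isComplementSystem_iff.mp hK p).2.1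
        rw [← HC.eq_of_le p.2 h4 h5 inf_le_right h6]
        exact h4)
    rw [h2] at h3
    have h4 := Subgroup.comap_mono (f := π) h3
    rw [Subgroup.comap_map_eq, Subgroup.comap_map_eq, hπ, QuotientGroup.ker_mk'] at h4
    exact le_sup_left.trans h4
  -- `S = K r ∩ C = K r ∩ E`
  set rr : Nat.Primes := ⟨r, hr⟩ with hrr
  set S := K rr ⊓ C with hS
  have hSC : HC r S C := hred rr
  have hCEidx : ∃ k, C.relIndex E = r ^ k := by
    have h1 : C.relIndex E = C.relIndex N := by
      rw [hE, sup_comm]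
      apply relIndex_eq_of_factor le_sup_left
      intro l hl
      rw [← SetLike.mem_coe, Subgroup.normal_mul N C] at hl
      obtain ⟨x, hx, y, hy, rfl⟩ := Set.mem_mul.mp hl
      exact ⟨x, hx, by simpa using hy⟩
    have h2 : C.relIndex N ∣ Nat.card N := Subgroup.relIndex_dvd_card _ _
    obtain ⟨a, ha⟩ := IsPGroup.iff_card.mp hNp
    rw [ha] at h2
    obtain ⟨k, -, hk⟩ := (Nat.dvd_prime_pow hr).mp h2
    exact ⟨k, h1.trans hk⟩
  obtain ⟨k, hk⟩ := hCEidx
  have hSE : HC r S E := HC.trans_index hr hSC hCE hk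
  have hKr := isComplementSystem_iff.mp hK rr
  have hSeq : S = K rr ⊓ E := by
    refine HC.eq_of_le hr hSE (inf_le_inf_left _ hCE) inf_le_right ?_
    exact Nat.Coprime.coprime_dvd_left (Subgroup.card_dvd_of_le inf_le_left) hKr.2.1
  set M := Subgroup.normalizer (S : Set G) ⊓ E with hM
  have hDM : Cfsg.systemNormalizer K ≤ M := by
    refine le_inf ?_ hDE
    intro d hd
    have h1 := mem_systemNormalizer.mp hd rr
    rw [← conj_eq_iff_mem_normalizer, hSeq, Subgroup.smul_inf, h1,
      conj_eq_iff_mem_normalizer.mpr (Subgroup.le_normalizer (hDE hd))]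
  have hCM : C ≤ M := le_inf (le_normalizer_of_hc hr hSC hC.1) hCE
  -- `M` is nilpotent
  have hSM : S ≤ M := hSC.1.trans hCM
  have hSMn : (S.subgroupOf M).Normal := by
    rw [Subgroup.normal_subgroupOf_iff_le_normalizer hSM]; exact inf_le_left
  have hSMr : ∃ j, (S.subgroupOf M).index = r ^ j := (hSE.of_le hr hSM inf_le_right).2.2
  obtain ⟨j, hj⟩ := hSMr
  have hNMb : (S.subgroupOf M) ⊓ (N.subgroupOf M) = ⊥ := by
    have h1 : S ⊓ N = ⊥ := by
      apply disjoint_of_coprime_card
      obtain ⟨a, ha⟩ := IsPGroup.iff_card.mp hNp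
      rw [ha]; exact Nat.Coprime.pow_right a hSC.2.1
    rw [eq_bot_iff]
    intro x hx
    have h2 : (x : G) ∈ S ⊓ N := ⟨Subgroup.mem_subgroupOf.mp hx.1, Subgroup.mem_subgroupOf.mp hx.2⟩
    rw [h1, Subgroup.mem_bot] at h2
    exact Subtype.ext h2
  have hMN : Group.IsNilpotent (M ⧸ N.subgroupOf M) := by
    have hCnil := hC.1
    let f : C →* M ⧸ N.subgroupOf M :=
      (QuotientGroup.mk' (N.subgroupOf M)).comp (Subgroup.inclusion hCM)
    apply Group.nilpotent_of_surjective f
    intro y
    obtain ⟨m, rfl⟩ := QuotientGroup.mk'_surjective _ y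
    have hm : (m : G) ∈ C ⊔ N := m.2.2
    rw [← SetLike.mem_coe, Subgroup.mul_normal C N] at hm
    obtain ⟨c, hc, n, hn, hcn⟩ := Set.mem_mul.mp hm
    refine ⟨⟨c, hc⟩, ?_⟩
    show QuotientGroup.mk _ = QuotientGroup.mk _
    rw [QuotientGroup.eq, Subgroup.mem_subgroupOf]
    show c⁻¹ * (m : G) ∈ N
    rw [← hcn]; simpa using hn
  have hMnil : Group.IsNilpotent M :=
    nilpotent_of_two hNMb (nilpotent_of_index_prime_pow hr hj) hMN
  rw [carter_eq_of_nilpotent hC hCM hMnil]
  exact hDM

theorem systemNormalizer_le_carter {G : Type*} [Group G] [Finite G] [Group.IsSolvable G]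
    {C : Subgroup G} (hC : Cfsg.IsCarterSubgroup C) {K : Nat.Primes → Subgroup G}
    (hK : Cfsg.IsComplementSystem K) (hred : ∀ p : Nat.Primes, HC p (K p ⊓ C) C) :
    Cfsg.systemNormalizer K ≤ C :=
  systemNormalizer_le_carter_aux _ G rfl C hC K hK hred

section
variable {G : Type*} [Group G]

/-- There is a complement system reducing into a given nilpotent subgroup. -/
theorem exists_reducing [Finite G] [Group.IsSolvable G] {C : Subgroup G} (hC : Group.IsNilpotent C) :
    ∃ K : Nat.Primes → Subgroup G, Cfsg.IsComplementSystem K ∧ ∀ p : Nat.Primes, HC p (K p ⊓ C) C := by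
  have h : ∀ p : Nat.Primes, ∃ K : Subgroup G, HC p K ⊤ ∧ HC p (K ⊓ C) C := by
    intro p
    have h1 : HC p ((Cfsg.pPrimeCore p C).map C.subtype) C := hc_map_subtype (hc_pPrimeCore p.2)
    obtain ⟨K, hK, hle⟩ := exists_HC_ge p.2 _ h1.2.1
    refine ⟨K, hK, ?_⟩
    rw [← HC.eq_of_le p.2 h1 (le_inf hle h1.1) inf_le_right
      (Nat.Coprime.coprime_dvd_left (Subgroup.card_dvd_of_le inf_le_left) hK.2.1)]
    exact h1
  choose K hK1 hK2 using h
  exact ⟨K, isComplementSystem_iff.mpr hK1, hK2⟩

theorem systemNormalizer_conj {K L : Nat.Primes → Subgroup G} {g : G}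
    (h : ∀ p, MulAut.conj g • K p = L p) :
    MulAut.conj g • Cfsg.systemNormalizer K = Cfsg.systemNormalizer L := by
  ext x
  rw [mem_conj, mem_systemNormalizer, mem_systemNormalizer]
  apply forall_congr'
  intro p
  rw [← h p]
  constructor
  · intro h1
    have h2 : x * g = g * (g⁻¹ * x * g) := by group
    rw [conj_conj, h2, ← conj_conj, h1]
  · intro h1
    rw [conj_conj] at h1
    have h2 : g⁻¹ * x * g = g⁻¹ * (x * g) := by group
    rw [h2, ← conj_conj, h1, conj_conj, inv_mul_cancel, conj_one]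

/-- S0569 -/
theorem carter_systemNormalizer [Finite G] [Group.IsSolvable G] :
    (∀ C : Subgroup G, Cfsg.IsCarterSubgroup C → ∃ K : Nat.Primes → Subgroup G,
      Cfsg.IsComplementSystem K ∧ Cfsg.systemNormalizer K ≤ C) ∧
    ∀ K : Nat.Primes → Subgroup G, Cfsg.IsComplementSystem K → ∃ C : Subgroup G,
      Cfsg.IsCarterSubgroup C ∧ Cfsg.systemNormalizer K ≤ C := by
  have h1 : ∀ C : Subgroup G, Cfsg.IsCarterSubgroup C → ∃ K : Nat.Primes → Subgroup G,
      Cfsg.IsComplementSystem K ∧ Cfsg.systemNormalizer K ≤ C := by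
    intro C hC
    obtain ⟨K, hK, hred⟩ := exists_reducing hC.1
    exact ⟨K, hK, systemNormalizer_le_carter hC hK hred⟩
  refine ⟨h1, fun K hK => ?_⟩
  obtain ⟨C, hC⟩ := carter_exists G
  obtain ⟨L, hL, hLC⟩ := h1 C hC
  obtain ⟨g, hg⟩ := systems_conj L K hL hK
  refine ⟨MulAut.conj g • C, carter_conj hC g, ?_⟩
  rw [← systemNormalizer_conj hg]
  exact conj_le_conj.mpr hLC

/-- S0570, main part -/
theorem carter_eq_systemNormalizer [Finite G] [Group.IsSolvable G] (F : Subgroup G) [hFn : F.Normal]
    (hF : Group.IsNilpotent F) (hGF : Group.IsNilpotent (G ⧸ F)) {C : Subgroup G}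
    (hC : Cfsg.IsCarterSubgroup C) {K : Nat.Primes → Subgroup G} (hK : Cfsg.IsComplementSystem K)
    (hred : ∀ p : Nat.Primes, HC p (K p ⊓ C) C) : C = Cfsg.systemNormalizer K := by
  have hCF : C ⊔ F = ⊤ := by
    have h1 := eq_top_of_self_normalizing (carter_quotient F hC).2
    have h2 := congrArg (Subgroup.comap (QuotientGroup.mk' F)) h1
    rwa [Subgroup.comap_map_eq, QuotientGroup.ker_mk', Subgroup.comap_top] at h2
  have hle : C ≤ Cfsg.systemNormalizer K := by
    refine le_iInf fun p => ?_
    have hKp := isComplementSystem_iff.mp hK p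
    set S := K p ⊓ C with hS
    set T := K p ⊓ F with hT
    have hFtop : (⊤ : Subgroup G) ≤ Subgroup.normalizer (F : Set G) := by
      rw [Subgroup.normalizer_eq_top_iff.mpr hFn]
    have hTF : HC p T F := hKp.inf_normal p.2 le_top hFtop
    have hTn : T.Normal := by
      have hFp := normal_of_hc p.2 (hc_subgroupOf hTF)
      constructor
      intro t ht g
      have h1 : HC p (MulAut.conj g • T) F := by
        have := hTF.conj g
        rwa [conj_of_normal g F] at this
      obtain ⟨l, hl, hlT⟩ := HC.conj_in p.2 (inferInstance : Group.IsSolvable F) hTF h1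
      have h2 : MulAut.conj l • T = T := by
        rw [conj_eq_iff_mem_normalizer]
        exact (le_normalizer_of_hc p.2 hTF hF) hl
      rw [h2] at hlT
      rw [hlT]
      exact conj_mem_conj.mpr ht
    have hST : S ⊔ T = K p := by
      have hle : S ⊔ T ≤ K p := sup_le inf_le_left inf_le_left
      -- index of `S ⊔ T` is a `p`-power
      obtain ⟨a, ha⟩ := (hred p).2.2
      obtain ⟨b, hb⟩ := hTF.2.2
      have hi1 : (S ⊔ F).index ∣ p ^ a := by
        have h1 : (S ⊔ F).index = ((S.map (QuotientGroup.mk' F)).comap (QuotientGroup.mk' F)).index := by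
          rw [Subgroup.comap_map_eq, QuotientGroup.ker_mk']
        rw [h1, Subgroup.index_comap_of_surjective _ (QuotientGroup.mk'_surjective F), ← ha]
        have h2 : C.map (QuotientGroup.mk' F) = ⊤ :=
          eq_top_of_self_normalizing (carter_quotient F hC).2
        rw [← Subgroup.relIndex_top_right, ← h2]
        have e1 : (S.subgroupOf C).map ((QuotientGroup.mk' F).subgroupMap C) ≤
            (S.map (QuotientGroup.mk' F)).subgroupOf (C.map (QuotientGroup.mk' F)) := by
          rintro _ ⟨x, hx, rfl⟩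
          exact ⟨x, hx, rfl⟩
        exact (Subgroup.index_dvd_of_le e1).trans
          (Subgroup.index_map_dvd _ (MonoidHom.subgroupMap_surjective _ _))
      have hi2 : (S ⊔ T).relIndex (S ⊔ F) ∣ p ^ b := by
        have h1 : (S ⊔ T).relIndex (S ⊔ F) = (S ⊔ T).relIndex F := by
          rw [sup_comm S F]
          apply relIndex_eq_of_factor le_sup_left
          intro l hl
          rw [← SetLike.mem_coe, Subgroup.normal_mul F S] at hl
          obtain ⟨x, hx, y, hy, rfl⟩ := Set.mem_mul.mp hl
          refine ⟨x, hx, ?_⟩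
          have : x⁻¹ * (x * y) = y := by group
          rw [this]; exact Subgroup.mem_sup_left hy
        rw [h1, ← hb]
        exact Subgroup.relIndex_dvd_of_le_left F le_sup_right
      have hi3 : (S ⊔ T).index ∣ p ^ b * p ^ a := by
        rw [← Subgroup.relIndex_mul_index (sup_le_sup_left (inf_le_right : T ≤ F) S)]
        exact mul_dvd_mul hi2 hi1
      rw [← pow_add] at hi3
      obtain ⟨c, -, hc⟩ := (Nat.dvd_prime_pow p.2).mp hi3
      have h4 : HC p (S ⊔ T) ⊤ := ⟨le_top, Nat.Coprime.coprime_dvd_left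
        (Subgroup.card_dvd_of_le hle) hKp.2.1, c, by rw [Subgroup.relIndex_top_right]; exact hc⟩
      exact HC.eq_of_le p.2 h4 hle le_top hKp.2.1
    intro c hc
    rw [← conj_eq_iff_mem_normalizer, ← hST, Subgroup.smul_sup, conj_of_normal c T,
      conj_eq_iff_mem_normalizer.mpr (le_normalizer_of_hc p.2 (hred p) hC.1 hc)]
  exact carter_eq_of_nilpotent hC hle (systemNormalizer_nilpotent K hK)

/-- S0570 -/
theorem carter_iff [Finite G] (F : Subgroup G) [hFn : F.Normal]
    (hF : Group.IsNilpotent F) (hGF : Group.IsNilpotent (G ⧸ F)) (C : Subgroup G) :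
    Cfsg.IsCarterSubgroup C ↔ ∃ K : Nat.Primes → Subgroup G, Cfsg.IsComplementSystem K ∧
      C = Cfsg.systemNormalizer K := by
  have hsolv : Group.IsSolvable G :=
    solvable_of_normal_quotient (N := F) inferInstance inferInstance
  constructor
  · intro hC
    obtain ⟨K, hK, hred⟩ := exists_reducing hC.1
    exact ⟨K, hK, carter_eq_systemNormalizer F hF hGF hC hK hred⟩
  · rintro ⟨K, hK, rfl⟩
    obtain ⟨C, hC⟩ := carter_exists G
    obtain ⟨L, hL, hred⟩ := exists_reducing hC.1
    have h1 := carter_eq_systemNormalizer F hF hGF hC hL hred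
    obtain ⟨g, hg⟩ := systems_conj L K hL hK
    rw [← systemNormalizer_conj hg, ← h1]
    exact carter_conj hC g

end

end Cfsg.Agent.H1.Carter
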