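import Mathlib
import Cfsg.Agent.H1_ConA

set_option autoImplicit false
set_option linter.all false

/-! Constrained group systems. -/

namespace Cfsg.Agent.H1.Con

open Cfsg Cfsg.FusionSystem Cfsg.Agent.H27.Fus Cfsg.Agent.H27.Grp
open scoped commutatorElement

section iso

variable {Ω Ω' : Type*} [Group Ω] [Group Ω'] {S : Subgroup Ω} {S' : Subgroup Ω'} {F : FusionSystem S}
  {F' : FusionSystem S'} {j : Ω → Ω'} {k : Ω' → Ω} {p : ℕ}

theorem con_iso [Fact p.Prime] [Finite S] (hS : IsPGroup p S) (h : FIso F F' j k) (hc : F.IsConstrained p) :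
    F'.IsConstrained p := by
  obtain ⟨hF, Q, hQ, hQc⟩ := hc
  exact ⟨h.saturated hS hF, imj Q j, h.normal hQ, h.centric hQc⟩

end iso

section grp

variable {G H : Type*} [Group G] [Group H]

/-- transport of `F_T(H)` into an overgroup along an injective homomorphism -/
theorem fiso_inj (φ : H →* G) (hφ : Function.Injective φ) (T : Subgroup H) :
    FIso (groupFusionSystem T) (fusionSystemOfSubgroup φ.range (T.map φ) (Subgroup.map_le_range φ T)) φ
      (Function.invFun φ) := by
  have hk : ∀ x, Function.invFun φ (φ x) = x := Function.leftInverse_invFun hφ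
  have hg : GIso T (T.map φ) φ (Function.invFun φ) :=
    { jm := fun x hx => ⟨x, hx, rfl⟩
      km := by rintro _ ⟨x, hx, rfl⟩; rw [hk]; exact hx
      kj := fun x _ => hk x
      jk := by rintro _ ⟨x, hx, rfl⟩; rw [hk]
      mul := fun x _ y _ => map_mul φ x y }
  refine { toGIso := hg, map := ?_, map' := ?_ }
  · intro P f hf
    obtain ⟨h1, h2, g, hgf⟩ := map_gfs.1 hf
    rw [map_fss]
    refine ⟨hg.imj_le h1, fun y hy => ?_, φ g, ⟨g, rfl⟩, fun y hy => ?_⟩
    · obtain ⟨x, hx, rfl⟩ := (hg.mem_imj h1).1 hy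
      show φ (f (Function.invFun φ (φ x))) ∈ _
      rw [hk]; exact ⟨f x, h2 x hx, rfl⟩
    · obtain ⟨x, hx, rfl⟩ := (hg.mem_imj h1).1 hy
      show φ (f (Function.invFun φ (φ x))) = _
      rw [hk, hgf x hx, map_mul, map_mul, map_inv]
  · intro P f hf
    obtain ⟨h1, h2, g, ⟨g', rfl⟩, hgf⟩ := map_fss.1 hf
    rw [map_gfs]
    have hcalc : ∀ y ∈ P, Function.invFun φ (f y) = g' * Function.invFun φ y * g'⁻¹ := by
      intro y hy
      obtain ⟨x, hx, rfl⟩ := h1 hy
      rw [hgf _ hy, hk, ← map_inv, ← map_mul, ← map_mul, hk]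
    refine ⟨hg.symm.imj_le h1, fun y hy => ?_, g', fun y hy => ?_⟩
    · obtain ⟨x, hx, rfl⟩ := (hg.symm.mem_imj h1).1 hy
      show Function.invFun φ (f (φ (Function.invFun φ x))) ∈ T
      rw [hg.jk x (h1 hx)]
      exact hg.km _ (h2 x hx)
    · obtain ⟨x, hx, rfl⟩ := (hg.symm.mem_imj h1).1 hy
      show Function.invFun φ (f (φ (Function.invFun φ x))) = _
      rw [hg.jk x (h1 hx)]
      exact hcalc x hx

end grp

section con

variable {G : Type*} [Group G] [Finite G] {p : ℕ} [Fact p.Prime]

theorem con_normal (S : Sylow p G) (hF : (groupFusionSystem (S : Subgroup G)).IsConstrained p) {H : Type*} [Group H]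
    (φ : H →* G) (hφ : Function.Injective φ) [hn : φ.range.Normal] (T : Subgroup H)
    (hT : T.map φ = (S : Subgroup G) ⊓ φ.range) : (groupFusionSystem T).IsConstrained p := by
  have h1 := normal_fss (p := p) (isSyl_sylow S) φ.range
  have h2 : (fusionSystemOfSubgroup φ.range ((S : Subgroup G) ⊓ φ.range) inf_le_right).IsConstrained p :=
    con_subnormal (IsSubnormalIn.step (IsSubnormalIn.refl _ _) h1) inferInstance inferInstance S.isPGroup' hF
  have h3 := (fiso_inj φ hφ T).symm
  have hpg : IsPGroup p ↥(T.map φ) := by rw [hT]; exact S.isPGroup'.to_le inf_le_left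
  have : Finite ↥(T.map φ) := Subtype.finite
  refine con_iso hpg h3 ?_
  have key : ∀ (U : Subgroup G) (hU : U ≤ φ.range) (hUe : U = (S : Subgroup G) ⊓ φ.range),
      (fusionSystemOfSubgroup φ.range U hU).IsConstrained p := by
    rintro U hU rfl; exact h2
  exact key _ _ hT

end con

end Cfsg.Agent.H1.Con
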