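import Mathlib
import Cfsg.Agent.H1_ConB

set_option autoImplicit false
set_option linter.all false

/-! Subnormal subgroups of groups with constrained fusion. -/

namespace Cfsg.Agent.H1.Con

open Cfsg Cfsg.FusionSystem Cfsg.Agent.H27.Fus Cfsg.Agent.H27.Grp
open scoped commutatorElement

section con

variable {G : Type*} [Group G] [Finite G] {p : ℕ} [Fact p.Prime]

theorem syl_subnormal (S : Sylow p G) {H : Subgroup G} (hH : H.IsSubnormal) :
    ∃ T : Sylow p H, (T : Subgroup H) = (S : Subgroup G).subgroupOf H := by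
  have key : IsSyl p ((S : Subgroup G) ⊓ H) H := by
    induction hH with
    | top => rw [inf_top_eq]; exact isSyl_sylow S
    | step H K hle hK hN ih =>
      have h1 := ih.inf hle ((Subgroup.normal_subgroupOf_iff_le_normalizer hle).1 hN)
      rwa [inf_assoc, inf_eq_right.2 hle] at h1
  have h2 := (isSyl_iff key.1).1 key
  rwa [Subgroup.inf_subgroupOf_right] at h2

theorem con_sub (S : Sylow p G) (hF : (groupFusionSystem (S : Subgroup G)).IsConstrained p) {H : Subgroup G}
    (hH : H.IsSubnormal) : (groupFusionSystem ((S : Subgroup G).subgroupOf H)).IsConstrained p := by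
  induction hH with
  | top =>
    haveI : ((⊤ : Subgroup G).subtype.range).Normal := by rw [Subgroup.range_subtype]; infer_instance
    refine con_normal S hF (⊤ : Subgroup G).subtype (Subgroup.subtype_injective _) _ ?_
    rw [Subgroup.subgroupOf_map_subtype, Subgroup.range_subtype]
  | step H K hle hK hN ih =>
    obtain ⟨T, hT⟩ := syl_subnormal S hK
    rw [← hT] at ih
    have hr : (Subgroup.inclusion hle).range = H.subgroupOf K := Subgroup.inclusion_range hle
    haveI : ((Subgroup.inclusion hle).range).Normal := by rw [hr]; exact hN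
    refine con_normal T ih (Subgroup.inclusion hle) (Subgroup.inclusion_injective hle) _ ?_
    rw [hT, hr]
    ext x
    simp only [Subgroup.mem_map, Subgroup.mem_inf, Subgroup.mem_subgroupOf]
    constructor
    · rintro ⟨y, hy, rfl⟩
      exact ⟨hy, y.2⟩
    · rintro ⟨h1, h2⟩
      exact ⟨⟨x, h2⟩, h1, rfl⟩

theorem cen_central (S : Subgroup G) : (groupFusionSystem S).IsCentral (S ⊓ Subgroup.center G) := by
  rw [isCentral_iff]
  refine ⟨inf_le_left, fun P f hf => ?_⟩
  obtain ⟨h1, h2, g, hg⟩ := map_gfs.1 hf
  refine ⟨fun x => g * x * g⁻¹, ?_, fun x hx => (hg x hx).symm, fun z hz => ?_⟩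
  · rw [map_gfs]
    refine ⟨sup_le h1 inf_le_left, fun x hx => ?_, g, fun _ _ => rfl⟩
    have h3 : P ⊔ S ⊓ Subgroup.center G ≤ S.comap (MulAut.conj g).toMonoidHom := by
      refine sup_le (fun y hy => ?_) (fun y hy => ?_)
      · show g * y * g⁻¹ ∈ S
        rw [← hg y hy]; exact h2 y hy
      · show g * y * g⁻¹ ∈ S
        rw [Subgroup.mem_center_iff.1 hy.2 g, mul_inv_cancel_right]
        exact hy.1
    exact h3 hx
  · show g * z * g⁻¹ = z
    rw [Subgroup.mem_center_iff.1 hz.2 g, mul_inv_cancel_right]

theorem con_mod_center (S : Sylow p G) (hF : (groupFusionSystem (S : Subgroup G)).IsConstrained p) :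
    (groupFusionSystem ((S : Subgroup G).map (QuotientGroup.mk' (Subgroup.center G)))).IsConstrained p :=
  con_quot S.isPGroup' hF (factor_gfs S (Subgroup.center G)) (cen_central _)

end con

end Cfsg.Agent.H1.Con
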