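import Mathlib
import Cfsg.Agent.H1_Basic
import Cfsg.Agent.H1_Nilp
import Cfsg.Agent.H1_Hall
import Cfsg.Agent.H1_Factor
import Cfsg.Agent.H1_Wiel
import Cfsg.Agent.H1_Super

set_option autoImplicit false

open Pointwise
open scoped commutatorElement
open Cfsg.Agent.H1.Basic Cfsg.Agent.H1.Nilp Cfsg.Agent.H1.Hall Cfsg.Agent.H1.Factor
open Cfsg.Agent.H1.Wiel Cfsg.Agent.H1.Super

namespace Cfsg.Agent.H1.Ito

section Basic

variable {G : Type*} [Group G]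

theorem mulComm {A : Subgroup G} [h : IsMulCommutative A] {x y : G} (hx : x ∈ A) (hy : y ∈ A) :
    x * y = y * x := by
  have := h.is_comm.comm (⟨x, hx⟩ : A) ⟨y, hy⟩
  exact congrArg Subtype.val this

/-- the mutual commutator subgroup of two subgroups whose product is `G` is normal -/
theorem commutator_normal_of_factor {A B : Subgroup G} (hAB : ∀ g : G, ∃ a ∈ A, ∃ b ∈ B, g = a * b) :
    (⁅A, B⁆ : Subgroup G).Normal := by
  have hA : ∀ a ∈ A, ∀ x ∈ (⁅A, B⁆ : Subgroup G), a * x * a⁻¹ ∈ (⁅A, B⁆ : Subgroup G) := by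
    intro a₁ ha₁ x hx
    rw [Subgroup.commutator_def] at hx
    induction hx using Subgroup.closure_induction with
    | mem x hx =>
      obtain ⟨a, ha, b, hb, rfl⟩ := hx
      have h : a₁ * ⁅a, b⁆ * a₁⁻¹ = ⁅a₁ * a, b⁆ * (⁅a₁, b⁆)⁻¹ := by
        simp only [commutatorElement_def]; group
      rw [h]
      exact Subgroup.mul_mem _ (Subgroup.commutator_mem_commutator (A.mul_mem ha₁ ha) hb)
        (Subgroup.inv_mem _ (Subgroup.commutator_mem_commutator ha₁ hb))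
    | one => simp
    | mul x y _ _ hx hy =>
      have h : a₁ * (x * y) * a₁⁻¹ = (a₁ * x * a₁⁻¹) * (a₁ * y * a₁⁻¹) := by group
      rw [h]; exact Subgroup.mul_mem _ hx hy
    | inv x _ hx =>
      have h : a₁ * x⁻¹ * a₁⁻¹ = (a₁ * x * a₁⁻¹)⁻¹ := by group
      rw [h]; exact Subgroup.inv_mem _ hx
  have hB : ∀ b ∈ B, ∀ x ∈ (⁅A, B⁆ : Subgroup G), b * x * b⁻¹ ∈ (⁅A, B⁆ : Subgroup G) := by
    intro b₁ hb₁ x hx
    rw [Subgroup.commutator_def] at hx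
    induction hx using Subgroup.closure_induction with
    | mem x hx =>
      obtain ⟨a, ha, b, hb, rfl⟩ := hx
      have h : b₁ * ⁅a, b⁆ * b₁⁻¹ = (⁅a, b₁⁆)⁻¹ * ⁅a, b₁ * b⁆ := by
        simp only [commutatorElement_def]; group
      rw [h]
      exact Subgroup.mul_mem _ (Subgroup.inv_mem _ (Subgroup.commutator_mem_commutator ha hb₁))
        (Subgroup.commutator_mem_commutator ha (B.mul_mem hb₁ hb))
    | one => simp
    | mul x y _ _ hx hy =>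
      have h : b₁ * (x * y) * b₁⁻¹ = (b₁ * x * b₁⁻¹) * (b₁ * y * b₁⁻¹) := by group
      rw [h]; exact Subgroup.mul_mem _ hx hy
    | inv x _ hx =>
      have h : b₁ * x⁻¹ * b₁⁻¹ = (b₁ * x * b₁⁻¹)⁻¹ := by group
      rw [h]; exact Subgroup.inv_mem _ hx
  refine ⟨fun x hx g => ?_⟩
  obtain ⟨a, ha, b, hb, rfl⟩ := hAB g
  have h : a * b * x * (a * b)⁻¹ = a * (b * x * b⁻¹) * a⁻¹ := by group
  rw [h]
  exact hA a ha _ (hB b hb x hx)

theorem commutator_le_of_factor {A B : Subgroup G} [IsMulCommutative A] [IsMulCommutative B]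
    (hAB : ∀ g : G, ∃ a ∈ A, ∃ b ∈ B, g = a * b) : commutator G ≤ ⁅A, B⁆ := by
  have hn := commutator_normal_of_factor hAB
  rw [← Subgroup.Normal.quotient_commutative_iff_commutator_le]
  refine ⟨⟨?_⟩⟩
  have hab : ∀ a ∈ A, ∀ b ∈ B, (QuotientGroup.mk' ⁅A, B⁆ a) * (QuotientGroup.mk' ⁅A, B⁆ b) =
      (QuotientGroup.mk' ⁅A, B⁆ b) * (QuotientGroup.mk' ⁅A, B⁆ a) := by
    intro a ha b hb
    rw [← map_mul, ← map_mul]
    simp only [QuotientGroup.mk'_apply]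
    rw [QuotientGroup.eq]
    have h : (a * b)⁻¹ * (b * a) = (⁅b⁻¹, a⁻¹⁆) := by
      simp only [commutatorElement_def]; group
    rw [h, ← commutatorElement_inv]
    exact Subgroup.inv_mem _ (Subgroup.commutator_mem_commutator (A.inv_mem ha) (B.inv_mem hb))
  intro x y
  obtain ⟨x, rfl⟩ := QuotientGroup.mk'_surjective _ x
  obtain ⟨y, rfl⟩ := QuotientGroup.mk'_surjective _ y
  obtain ⟨a, ha, b, hb, rfl⟩ := hAB x
  obtain ⟨c, hc, d, hd, rfl⟩ := hAB y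
  set f := QuotientGroup.mk' (⁅A, B⁆ : Subgroup G) with hf
  simp only [map_mul]
  have e1 : f a * f c = f c * f a := by rw [← map_mul, ← map_mul, mulComm ha hc]
  have e2 : f b * f d = f d * f b := by rw [← map_mul, ← map_mul, mulComm hb hd]
  have e3 := hab a ha d hd
  have e4 := hab c hc b hb
  calc f a * f b * (f c * f d) = f a * (f b * f c) * f d := by simp only [mul_assoc]
    _ = f a * (f c * f b) * f d := by rw [e4]
    _ = (f a * f c) * (f b * f d) := by simp only [mul_assoc]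
    _ = (f c * f a) * (f d * f b) := by rw [e1, e2]
    _ = f c * (f a * f d) * f b := by simp only [mul_assoc]
    _ = f c * (f d * f a) * f b := by rw [e3]
    _ = f c * f d * (f a * f b) := by simp only [mul_assoc]

theorem ito_key {A B : Subgroup G} [IsMulCommutative A] [IsMulCommutative B]
    (hAB : ∀ g : G, ∃ a ∈ A, ∃ b ∈ B, g = a * b) {a a₁ b b₁ : G} (ha : a ∈ A) (ha₁ : a₁ ∈ A)
    (hb : b ∈ B) (hb₁ : b₁ ∈ B) : Commute ⁅a, b⁆ ⁅b₁⁻¹, a₁⁻¹⁆ := by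
  obtain ⟨b₂, hb₂, a₂, ha₂, h2⟩ := factor_symm hAB (a₁ * b * a₁⁻¹)
  obtain ⟨a₃, ha₃, b₃, hb₃, h3⟩ := hAB (b₁ * a * b₁⁻¹)
  have e1 : a₁ * a = a * a₁ := mulComm ha₁ ha
  have e2 : b₁ * b = b * b₁ := mulComm hb₁ hb
  have e3 : a₂ * a = a * a₂ := mulComm ha₂ ha
  have e4 : b₂ * b₁ = b₁ * b₂ := mulComm hb₂ hb₁
  have e5 : b₃ * b₂ = b₂ * b₃ := mulComm hb₃ hb₂
  have e6 : b₃ * b = b * b₃ := mulComm hb₃ hb
  have e7 : a₁ * a₃ = a₃ * a₁ := mulComm ha₁ ha₃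
  have e8 : a₂ * a₃ = a₃ * a₂ := mulComm ha₂ ha₃
  have k1 : (b₁ * a₁) * ⁅a, b⁆ * (b₁ * a₁)⁻¹ = ⁅a₃, b₂⁆ := by
    have s1 : a₁ * ⁅a, b⁆ * a₁⁻¹ = ⁅a, b₂⁆ := by
      have : a₁ * ⁅a, b⁆ * a₁⁻¹ = ⁅a₁ * a * a₁⁻¹, a₁ * b * a₁⁻¹⁆ := by
        simp only [commutatorElement_def]; group
      rw [this, h2, e1, mul_inv_cancel_right]
      simp only [commutatorElement_def, mul_inv_rev]
      have : a * (b₂ * a₂) * a⁻¹ * (a₂⁻¹ * b₂⁻¹) = a * b₂ * (a₂ * a⁻¹ * a₂⁻¹) * b₂⁻¹ := by group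
      rw [this]
      have : a₂ * a⁻¹ * a₂⁻¹ = a⁻¹ := by
        have : a₂ * a⁻¹ = a⁻¹ * a₂ := by
          rw [eq_inv_mul_iff_mul_eq, ← mul_assoc, ← e3]; group
        rw [this, mul_inv_cancel_right]
      rw [this]
    have s2 : b₁ * ⁅a, b₂⁆ * b₁⁻¹ = ⁅a₃, b₂⁆ := by
      have : b₁ * ⁅a, b₂⁆ * b₁⁻¹ = ⁅b₁ * a * b₁⁻¹, b₁ * b₂ * b₁⁻¹⁆ := by
        simp only [commutatorElement_def]; group
      rw [this, h3, ← e4, mul_inv_cancel_right]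
      simp only [commutatorElement_def, mul_inv_rev]
      have : a₃ * b₃ * b₂ * (b₃⁻¹ * a₃⁻¹) * b₂⁻¹ = a₃ * (b₃ * b₂) * b₃⁻¹ * a₃⁻¹ * b₂⁻¹ := by group
      rw [this, e5]; group
    have : (b₁ * a₁) * ⁅a, b⁆ * (b₁ * a₁)⁻¹ = b₁ * (a₁ * ⁅a, b⁆ * a₁⁻¹) * b₁⁻¹ := by
      simp only [mul_inv_rev, mul_assoc]
    rw [this, s1, s2]
  have k2 : (a₁ * b₁) * ⁅a, b⁆ * (a₁ * b₁)⁻¹ = ⁅a₃, b₂⁆ := by
    have s1 : b₁ * ⁅a, b⁆ * b₁⁻¹ = ⁅a₃, b⁆ := by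
      have : b₁ * ⁅a, b⁆ * b₁⁻¹ = ⁅b₁ * a * b₁⁻¹, b₁ * b * b₁⁻¹⁆ := by
        simp only [commutatorElement_def]; group
      rw [this, h3, e2, mul_inv_cancel_right]
      simp only [commutatorElement_def, mul_inv_rev]
      have : a₃ * b₃ * b * (b₃⁻¹ * a₃⁻¹) * b⁻¹ = a₃ * (b₃ * b) * b₃⁻¹ * a₃⁻¹ * b⁻¹ := by group
      rw [this, e6]; group
    have s2 : a₁ * ⁅a₃, b⁆ * a₁⁻¹ = ⁅a₃, b₂⁆ := by
      have : a₁ * ⁅a₃, b⁆ * a₁⁻¹ = ⁅a₁ * a₃ * a₁⁻¹, a₁ * b * a₁⁻¹⁆ := by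
        simp only [commutatorElement_def]; group
      rw [this, h2, e7, mul_inv_cancel_right]
      simp only [commutatorElement_def, mul_inv_rev]
      have : a₃ * (b₂ * a₂) * a₃⁻¹ * (a₂⁻¹ * b₂⁻¹) = a₃ * b₂ * (a₂ * a₃⁻¹ * a₂⁻¹) * b₂⁻¹ := by group
      rw [this]
      have : a₂ * a₃⁻¹ * a₂⁻¹ = a₃⁻¹ := by
        have : a₂ * a₃⁻¹ = a₃⁻¹ * a₂ := by
          rw [eq_inv_mul_iff_mul_eq, ← mul_assoc, ← e8]; group
        rw [this, mul_inv_cancel_right]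
      rw [this]
    have : (a₁ * b₁) * ⁅a, b⁆ * (a₁ * b₁)⁻¹ = a₁ * (b₁ * ⁅a, b⁆ * b₁⁻¹) * a₁⁻¹ := by
      simp only [mul_inv_rev, mul_assoc]
    rw [this, s1, s2]
  -- conclude
  have h : (b₁ * a₁) * ⁅a, b⁆ * (b₁ * a₁)⁻¹ = (a₁ * b₁) * ⁅a, b⁆ * (a₁ * b₁)⁻¹ := k1.trans k2.symm
  generalize ⁅a, b⁆ = x at h
  have h1 : ⁅b₁⁻¹, a₁⁻¹⁆ = (a₁ * b₁)⁻¹ * (b₁ * a₁) := by
    simp only [commutatorElement_def]; group
  rw [h1, Commute, SemiconjBy]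
  have h2 : (a₁ * b₁)⁻¹ * ((b₁ * a₁) * x * (b₁ * a₁)⁻¹) * (b₁ * a₁) =
      (a₁ * b₁)⁻¹ * ((a₁ * b₁) * x * (a₁ * b₁)⁻¹) * (b₁ * a₁) := by rw [h]
  have h3 : (a₁ * b₁)⁻¹ * ((b₁ * a₁) * x * (b₁ * a₁)⁻¹) * (b₁ * a₁) =
      (a₁ * b₁)⁻¹ * (b₁ * a₁) * x := by group
  have h4 : (a₁ * b₁)⁻¹ * ((a₁ * b₁) * x * (a₁ * b₁)⁻¹) * (b₁ * a₁) =
      x * ((a₁ * b₁)⁻¹ * (b₁ * a₁)) := by group
  rw [← h4, ← h2, h3]

theorem ito_comm {A B : Subgroup G} [IsMulCommutative A] [IsMulCommutative B]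
    (hAB : ∀ g : G, ∃ a ∈ A, ∃ b ∈ B, g = a * b) : ⁅commutator G, commutator G⁆ = ⊥ := by
  rw [eq_bot_iff]
  refine (Subgroup.commutator_mono (commutator_le_of_factor hAB) (commutator_le_of_factor hAB)).trans ?_
  have h1 : (⁅A, B⁆ : Subgroup G) ≤ Subgroup.centralizer (⁅A, B⁆ : Subgroup G) := by
    conv_lhs => rw [Subgroup.commutator_def]
    rw [Subgroup.closure_le]
    rintro _ ⟨a, ha, b, hb, rfl⟩
    rw [SetLike.mem_coe]
    have h2 : (⁅A, B⁆ : Subgroup G) ≤ Subgroup.centralizer {⁅a, b⁆} := by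
      rw [Subgroup.commutator_def, Subgroup.closure_le]
      rintro _ ⟨a₁, ha₁, b₁, hb₁, rfl⟩
      rw [SetLike.mem_coe, Subgroup.mem_centralizer_singleton_iff]
      have h3 := ito_key hAB ha (A.inv_mem ha₁) hb (B.inv_mem hb₁)
      rw [inv_inv, inv_inv] at h3
      have h4 := h3.inv_right
      rw [commutatorElement_inv] at h4
      exact h4.symm.eq
    rw [Subgroup.mem_centralizer_iff]
    intro y hy
    have := h2 hy
    rw [Subgroup.mem_centralizer_singleton_iff] at this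
    exact this
  rw [Subgroup.commutator_le]
  intro x hx y hy
  rw [Subgroup.mem_bot, commutatorElement_eq_one_iff_mul_comm]
  exact ((Subgroup.mem_centralizer_iff.mp (h1 hx)) y hy).symm

theorem ito {A B : Subgroup G} [IsMulCommutative A] [IsMulCommutative B]
    (hAB : ∀ g : G, ∃ a ∈ A, ∃ b ∈ B, g = a * b) : derivedSeries G 2 = ⊥ := by
  have h1 : derivedSeries G 1 = commutator G := derivedSeries_one G
  have h2 : derivedSeries G 2 = ⁅derivedSeries G 1, derivedSeries G 1⁆ := derivedSeries_succ G 1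
  rw [h2, h1]
  exact ito_comm hAB

theorem ito_solvable {A B : Subgroup G} [IsMulCommutative A] [IsMulCommutative B]
    (hAB : ∀ g : G, ∃ a ∈ A, ∃ b ∈ B, g = a * b) : Group.IsSolvable G :=
  (Group.isSolvable_def G).mpr ⟨2, ito hAB⟩

end Basic

end Cfsg.Agent.H1.Ito
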