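import Mathlib
import Cfsg.Agent.H1_Ito

set_option autoImplicit false

open Pointwise
open scoped commutatorElement
open Cfsg.Agent.H1.Basic Cfsg.Agent.H1.Nilp Cfsg.Agent.H1.Hall Cfsg.Agent.H1.Factor
open Cfsg.Agent.H1.Wiel Cfsg.Agent.H1.Super

namespace Cfsg.Agent.H1.Ito

section

variable {G : Type*} [Group G]

theorem mem_centralizer_of_factor {A B : Subgroup G} [IsMulCommutative A] [IsMulCommutative B]
    {H : Subgroup G} (hH : ∀ g ∈ H, ∃ a ∈ A, ∃ b ∈ B, a ∈ H ∧ b ∈ H ∧ g = a * b)
    {z a b : G} (ha : a ∈ A) (hb : b ∈ B) (hz : z = a * b)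
    (hzc : z ∈ Subgroup.centralizer (H : Set G)) :
    a ∈ Subgroup.centralizer (H : Set G) ∧ b ∈ Subgroup.centralizer (H : Set G) := by
  rw [Subgroup.mem_centralizer_iff] at hzc
  have e1 : a = z * b⁻¹ := by rw [hz, mul_inv_cancel_right]
  have e2 : b = a⁻¹ * z := by rw [hz, inv_mul_cancel_left]
  have hac : a ∈ Subgroup.centralizer (H : Set G) := by
    rw [Subgroup.mem_centralizer_iff]
    intro g hg
    obtain ⟨c, hc, d, hd, hcH, hdH, rfl⟩ := hH g hg
    have h1 : c * a = a * c := mulComm hc ha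
    have h2 : d * a = a * d := by
      rw [e1]
      have h3 : d * b⁻¹ = b⁻¹ * d := mulComm hd (B.inv_mem hb)
      rw [← mul_assoc, hzc d hdH, mul_assoc, h3, mul_assoc]
    rw [mul_assoc, h2, ← mul_assoc, h1, mul_assoc]
  refine ⟨hac, ?_⟩
  rw [e2]
  exact Subgroup.mul_mem _ (Subgroup.inv_mem _ hac) (Subgroup.mem_centralizer_iff.mpr hzc)

theorem eq_bot_of_center {A B : Subgroup G} [IsMulCommutative A] [IsMulCommutative B]
    (hAB : ∀ g : G, ∃ a ∈ A, ∃ b ∈ B, g = a * b)
    (h : ¬ ∃ N : Subgroup G, N.Normal ∧ N ≠ ⊥ ∧ (N ≤ A ∨ N ≤ B)) : Subgroup.center G = ⊥ := by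
  by_contra hne
  obtain ⟨z, hz, hz1⟩ := (Subgroup.bot_or_exists_ne_one _).resolve_left hne
  obtain ⟨a, ha, b, hb, hab⟩ := hAB z
  have hT : ∀ g ∈ (⊤ : Subgroup G), ∃ a ∈ A, ∃ b ∈ B, a ∈ (⊤ : Subgroup G) ∧
      b ∈ (⊤ : Subgroup G) ∧ g = a * b := by
    intro g _
    obtain ⟨a, ha, b, hb, hab⟩ := hAB g
    exact ⟨a, ha, b, hb, trivial, trivial, hab⟩
  have hzc : z ∈ Subgroup.centralizer ((⊤ : Subgroup G) : Set G) := by
    rw [Subgroup.coe_top, Subgroup.centralizer_univ]; exact hz
  obtain ⟨h1, h2⟩ := mem_centralizer_of_factor hT ha hb hab hzc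
  rw [Subgroup.coe_top, Subgroup.centralizer_univ] at h1 h2
  apply h
  have key : ∀ c : G, c ∈ Subgroup.center G → (Subgroup.zpowers c).Normal := by
    intro c hc
    have hle : Subgroup.zpowers c ≤ Subgroup.center G := by rwa [Subgroup.zpowers_le]
    refine ⟨fun n hn g => ?_⟩
    have := Subgroup.mem_center_iff.mp (hle hn) g
    rw [this, mul_inv_cancel_right]; exact hn
  by_cases ha1 : a = 1
  · refine ⟨Subgroup.zpowers b, key b h2, ?_, Or.inr (by rwa [Subgroup.zpowers_le])⟩
    intro hb1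
    rw [Subgroup.zpowers_eq_bot] at hb1
    exact hz1 (by rw [hab, ha1, hb1, one_mul])
  · refine ⟨Subgroup.zpowers a, key a h1, ?_, Or.inl (by rwa [Subgroup.zpowers_le])⟩
    intro hb1
    rw [Subgroup.zpowers_eq_bot] at hb1
    exact ha1 hb1

theorem centralizer_le_of_center {A B : Subgroup G} [IsMulCommutative A] [IsMulCommutative B]
    (hAB : ∀ g : G, ∃ a ∈ A, ∃ b ∈ B, g = a * b) (hZ : Subgroup.center G = ⊥) :
    Subgroup.centralizer (A : Set G) ≤ A := by
  intro x hx
  obtain ⟨a, ha, b, hb, rfl⟩ := hAB x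
  have hb' : b ∈ Subgroup.center G := by
    rw [Subgroup.mem_center_iff]
    intro g
    obtain ⟨c, hc, d, hd, rfl⟩ := hAB g
    have h1 := Subgroup.mem_centralizer_iff.mp hx c hc
    have h2 : c * a = a * c := mulComm hc ha
    have h3 : c * b = b * c := by
      rw [← mul_assoc, h2, mul_assoc, mul_assoc] at h1
      exact mul_left_cancel h1
    have h4 : d * b = b * d := mulComm hd hb
    rw [mul_assoc, h4, ← mul_assoc, h3, mul_assoc]
  rw [hZ, Subgroup.mem_bot] at hb'
  rw [hb', mul_one]; exact ha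

/-- if no nontrivial normal subgroup lies in `A` or `B` then `A` meets the centralizer of `G'`
trivially -/
theorem inf_centralizer_eq_bot {A B : Subgroup G} [IsMulCommutative A] [IsMulCommutative B]
    (hAB : ∀ g : G, ∃ a ∈ A, ∃ b ∈ B, g = a * b)
    (h : ¬ ∃ N : Subgroup G, N.Normal ∧ N ≠ ⊥ ∧ (N ≤ A ∨ N ≤ B)) (hZ : Subgroup.center G = ⊥) :
    A ⊓ Subgroup.centralizer (commutator G : Set G) = ⊥ := by
  by_contra hne
  apply h
  have hn : (A ⊔ commutator G).Normal := normal_of_commutator_le le_sup_right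
  have hcA : Subgroup.centralizer ((A ⊔ commutator G : Subgroup G) : Set G) ≤ A :=
    (Subgroup.centralizer_le (by exact_mod_cast (le_sup_left : A ≤ A ⊔ commutator G))).trans
      (centralizer_le_of_center hAB hZ)
  refine ⟨(A ⊔ commutator G) ⊓ Subgroup.centralizer ((A ⊔ commutator G : Subgroup G) : Set G),
    inferInstance, ?_, Or.inl (inf_le_right.trans hcA)⟩
  intro hb
  apply hne
  rw [eq_bot_iff, ← hb]
  refine le_inf (inf_le_left.trans le_sup_left) ?_
  have h1 : A ⊔ commutator G ≤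
      Subgroup.centralizer ((A ⊓ Subgroup.centralizer (commutator G : Set G) : Subgroup G) : Set G) := by
    apply sup_le
    · intro x hx
      rw [Subgroup.mem_centralizer_iff]
      rintro y ⟨hy, _⟩
      exact mulComm hy hx
    · intro x hx
      rw [Subgroup.mem_centralizer_iff]
      rintro y ⟨_, hy⟩
      exact (Subgroup.mem_centralizer_iff.mp hy x hx).symm
  exact Subgroup.le_centralizer_iff.mp h1

end

/-- S0573 -/
theorem exists_normal_le_factor {G : Type*} [Group G] [Finite G] [Nontrivial G] (A B : Subgroup G)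
    [IsMulCommutative A] [IsMulCommutative B] (hAB : ∀ g : G, ∃ a ∈ A, ∃ b ∈ B, g = a * b) :
    ∃ N : Subgroup G, N.Normal ∧ N ≠ ⊥ ∧ (N ≤ A ∨ N ≤ B) := by
  by_contra hcon
  have hZ := eq_bot_of_center hAB hcon
  have hBA := factor_symm hAB
  have hcon' : ¬ ∃ N : Subgroup G, N.Normal ∧ N ≠ ⊥ ∧ (N ≤ B ∨ N ≤ A) := by
    rintro ⟨N, h1, h2, h3⟩
    exact hcon ⟨N, h1, h2, h3.symm⟩
  set D := commutator G with hD
  have hAD : A ⊓ Subgroup.centralizer (D : Set G) = ⊥ := inf_centralizer_eq_bot hAB hcon hZ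
  have hBD : B ⊓ Subgroup.centralizer (D : Set G) = ⊥ := inf_centralizer_eq_bot hBA hcon' hZ
  have hDD : D ≤ Subgroup.centralizer (D : Set G) :=
    Subgroup.commutator_eq_bot_iff_le_centralizer.mp (ito_comm hAB)
  have hDcomm : IsMulCommutative D := Subgroup.le_centralizer_iff_isMulCommutative.mp hDD
  have hADb : A ⊓ D = ⊥ := by rw [eq_bot_iff, ← hAD]; exact inf_le_inf_left _ hDD
  have hBDb : B ⊓ D = ⊥ := by rw [eq_bot_iff, ← hBD]; exact inf_le_inf_left _ hDD
  have hABb : A ⊓ B = ⊥ := by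
    rw [eq_bot_iff, ← hZ]
    rintro x ⟨hxA, hxB⟩
    rw [Subgroup.mem_center_iff]
    intro g
    obtain ⟨a, ha, b, hb, rfl⟩ := hAB g
    have h1 : a * x = x * a := mulComm ha hxA
    have h2 : b * x = x * b := mulComm hb hxB
    rw [mul_assoc, h2, ← mul_assoc, h1, mul_assoc]
  have hDn : D.Normal := inferInstance
  -- the groups `X p`
  let E : ℕ → Subgroup G := fun p => D ⊓ Cfsg.pCore p G
  have hEn : ∀ p, (E p).Normal := fun p => by
    have := pCore_normal (G := G) p
    exact Subgroup.normal_inf_normal _ _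
  let X : ℕ → Subgroup G := fun p => (A ⊔ E p) ⊓ (B ⊔ E p)
  have hEX : ∀ p, E p ≤ X p := fun p => le_inf le_sup_right le_sup_right
  -- factorization of `X p`
  have hXfac : ∀ p, ∀ g ∈ X p, ∃ a ∈ A, ∃ b ∈ B, a ∈ X p ∧ b ∈ X p ∧ g = a * b := by
    intro p g hg
    obtain ⟨a, ha, b, hb, rfl⟩ := hAB g
    have ha1 : a ∈ A ⊔ E p := (le_sup_left : A ≤ A ⊔ E p) ha
    have hb1 : b ∈ B ⊔ E p := (le_sup_left : B ≤ B ⊔ E p) hb
    have ha2 : a ∈ B ⊔ E p := by
      have := Subgroup.mul_mem _ hg.2 (Subgroup.inv_mem _ hb1)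
      rwa [mul_inv_cancel_right] at this
    have hb2 : b ∈ A ⊔ E p := by
      have := Subgroup.mul_mem _ (Subgroup.inv_mem _ ha1) hg.1
      rwa [inv_mul_cancel_left] at this
    exact ⟨a, ha, b, hb, ⟨ha1, ha2⟩, ⟨hb2, hb1⟩, rfl⟩
  -- normality of `X p`
  have hXn : ∀ p, (X p).Normal := by
    intro p
    have := hEn p
    have hle : ∀ x ∈ X p, ∀ g : G, ⁅g, x⁆ ∈ E p := by
      intro x hx g
      have hx1 : ∃ a ∈ A, x * a⁻¹ ∈ E p := by
        have h1 : x ∈ A ⊔ E p := hx.1
        rw [sup_comm, ← SetLike.mem_coe, Subgroup.normal_mul] at h1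
        obtain ⟨e, he, a, ha, rfl⟩ := Set.mem_mul.mp h1
        exact ⟨a, ha, by rwa [mul_inv_cancel_right]⟩
      have hx2 : ∃ b ∈ B, x * b⁻¹ ∈ E p := by
        have h1 : x ∈ B ⊔ E p := hx.2
        rw [sup_comm, ← SetLike.mem_coe, Subgroup.normal_mul] at h1
        obtain ⟨e, he, a, ha, rfl⟩ := Set.mem_mul.mp h1
        exact ⟨a, ha, by rwa [mul_inv_cancel_right]⟩
      obtain ⟨a, ha, hxa⟩ := hx1
      obtain ⟨b, hb, hxb⟩ := hx2
      obtain ⟨c, hc, d, hd, rfl⟩ := hAB g
      set f := QuotientGroup.mk' (E p) with hf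
      have fx1 : f x = f a := by
        have : f (x * a⁻¹) = 1 := (QuotientGroup.eq_one_iff _).mpr hxa
        rwa [map_mul, map_inv, mul_inv_eq_one] at this
      have fx2 : f x = f b := by
        have : f (x * b⁻¹) = 1 := (QuotientGroup.eq_one_iff _).mpr hxb
        rwa [map_mul, map_inv, mul_inv_eq_one] at this
      have h1 : f c * f x = f x * f c := by rw [fx1, ← map_mul, ← map_mul, mulComm hc ha]
      have h2 : f d * f x = f x * f d := by rw [fx2, ← map_mul, ← map_mul, mulComm hd hb]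
      have h3 : f ⁅c * d, x⁆ = 1 := by
        rw [map_commutatorElement, commutatorElement_eq_one_iff_mul_comm, map_mul, mul_assoc, h2,
          ← mul_assoc, h1, mul_assoc]
      exact (QuotientGroup.eq_one_iff _).mp h3
    refine ⟨fun x hx g => ?_⟩
    have h1 := (X p).mul_mem (hEX p (hle x hx g)) hx
    rw [commutatorElement_def, inv_mul_cancel_right] at h1
    exact h1
  -- cardinality of `X p`
  have hXp : ∀ p, ∀ _ : Fact p.Prime, IsPGroup p (X p) := by
    intro p hp
    have := hEn p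
    have hEp : IsPGroup p (E p) := (pCore_isPGroup (G := G) p).to_le inf_le_right
    obtain ⟨n, hn⟩ := IsPGroup.iff_card.mp hEp
    -- `|X| = |A ∩ X| |E|`
    have c1 : ∀ C : Subgroup G, C ⊓ D = ⊥ → X p ≤ C ⊔ E p → Nat.card (X p) = Nat.card (C ⊓ X p : Subgroup G) * Nat.card (E p) := by
      intro C hC hXC
      have h1 : X p = (C ⊓ X p) ⊔ E p := by
        apply le_antisymm
        · intro x hx
          have h1 := hXC hx
          rw [sup_comm, ← SetLike.mem_coe, Subgroup.normal_mul] at h1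
          obtain ⟨e, he, a, ha, rfl⟩ := Set.mem_mul.mp h1
          have haX : a ∈ X p := by
            have := (X p).mul_mem ((X p).inv_mem (hEX p he)) hx
            rwa [inv_mul_cancel_left] at this
          exact Subgroup.mul_mem _ ((le_sup_right : E p ≤ (C ⊓ X p) ⊔ E p) he)
            ((le_sup_left : (C ⊓ X p) ≤ (C ⊓ X p) ⊔ E p) ⟨ha, haX⟩)
        · exact sup_le inf_le_right (hEX p)
      have h2 := card_sup_mul_card_inf (H := C ⊓ X p) (K := E p) (by
        rw [Subgroup.normalizer_eq_top (E p)]; exact le_top)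
      have h3 : (C ⊓ X p) ⊓ E p = ⊥ := by
        rw [eq_bot_iff, ← hC]
        exact le_inf (inf_le_left.trans inf_le_left) (inf_le_right.trans inf_le_left)
      rw [h3, Subgroup.card_bot, mul_one, ← h1] at h2
      exact h2
    have c2 := c1 A hADb inf_le_left
    have c3 := c1 B hBDb inf_le_right
    have c4 : Nat.card (X p) = Nat.card (A ⊓ X p : Subgroup G) * Nat.card (B ⊓ X p : Subgroup G) := by
      have h1 := card_mul_of_inf_eq_bot (A := A ⊓ X p) (B := B ⊓ X p) (by
        rw [eq_bot_iff, ← hABb]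
        exact le_inf (inf_le_left.trans inf_le_left) (inf_le_right.trans inf_le_left))
      have h2 : (((A ⊓ X p : Subgroup G) : Set G) * ((B ⊓ X p : Subgroup G) : Set G)) = (X p : Set G) := by
        ext g
        rw [Set.mem_mul]
        constructor
        · rintro ⟨a, ha, b, hb, rfl⟩
          exact (X p).mul_mem ha.2 hb.2
        · intro hg
          obtain ⟨a, ha, b, hb, haX, hbX, rfl⟩ := hXfac p g hg
          exact ⟨a, ⟨ha, haX⟩, b, ⟨hb, hbX⟩, rfl⟩
      rw [h2] at h1
      exact h1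
    have hXpos : 0 < Nat.card (X p) := Nat.card_pos
    have hApos : 0 < Nat.card (A ⊓ X p : Subgroup G) := Nat.card_pos
    have hBpos : 0 < Nat.card (B ⊓ X p : Subgroup G) := Nat.card_pos
    have e1 : Nat.card (E p) = Nat.card (B ⊓ X p : Subgroup G) :=
      Nat.eq_of_mul_eq_mul_left hApos (c2.symm.trans c4)
    have e2 : Nat.card (E p) = Nat.card (A ⊓ X p : Subgroup G) := by
      apply Nat.eq_of_mul_eq_mul_left hBpos
      rw [← c3, mul_comm, ← c4]
    apply IsPGroup.of_card (n := n + n)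
    rw [c4, ← e1, ← e2, hn, ← pow_add]
  -- D is not trivial
  have hDb : D ≠ ⊥ := by
    intro hb
    have h1 : Subgroup.center G = ⊤ := by
      rw [eq_top_iff]
      intro x _
      rw [Subgroup.mem_center_iff]
      intro g
      have : ⁅g, x⁆ ∈ D := Subgroup.commutator_mem_commutator trivial trivial
      rw [hb, Subgroup.mem_bot, commutatorElement_eq_one_iff_mul_comm] at this
      exact this
    exact bot_ne_top (hZ.symm.trans h1)
  -- pieces of `D`
  have hDE : ∀ H : Subgroup G, (∀ p, ∀ _ : Fact p.Prime, E p ≤ H) → D ≤ H := by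
    intro H hH
    apply le_of_sylow_le
    intro p hp
    let P : Sylow p D := default
    refine ⟨P, ?_⟩
    refine le_trans ?_ (hH p hp)
    have hDnil : Group.IsNilpotent D := by
      apply isNilpotent_of_class_two
      rw [ito_comm hAB, Subgroup.commutator_bot_left]
    have h1 : ((P : Subgroup D).map D.subtype).Normal := sylow_map_normal_of_nilpotent hDn hDnil P
    exact le_inf (Subgroup.map_subtype_le _) (le_pCore h1 (P.2.map _))
  obtain ⟨p, hp, hEp⟩ : ∃ p, ∃ _ : Fact p.Prime, E p ≠ ⊥ := by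
    by_contra hall
    push Not at hall
    apply hDb
    rw [eq_bot_iff]
    exact hDE ⊥ (fun p hp => (hall p hp).le)
  -- center of `X p`
  have hXb : X p ≠ ⊥ := fun h => hEp (by rw [eq_bot_iff, ← h]; exact hEX p)
  have hnt : Nontrivial (X p) := (Subgroup.nontrivial_iff_ne_bot _).mpr hXb
  have hcn : Nontrivial (Subgroup.center (X p)) := (hXp p hp).center_nontrivial
  obtain ⟨z, hz, hz1⟩ := (Subgroup.bot_or_exists_ne_one _).resolve_left
    ((Subgroup.nontrivial_iff_ne_bot _).mp hcn)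
  have hzc : (z : G) ∈ Subgroup.centralizer (X p : Set G) := by
    rw [Subgroup.mem_centralizer_iff]
    intro y hy
    exact congrArg Subtype.val (Subgroup.mem_center_iff.mp hz ⟨y, hy⟩)
  obtain ⟨a, ha, b, hb, haX, hbX, hab⟩ := hXfac p z z.2
  obtain ⟨hac, hbc⟩ := mem_centralizer_of_factor (hXfac p) ha hb hab hzc
  have key : ∀ c ∈ X p, c ∈ Subgroup.centralizer (X p : Set G) → c ∈ Subgroup.centralizer (D : Set G) := by
    intro c hcX hcc
    have h1 : D ≤ Subgroup.centralizer {c} := by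
      apply hDE
      intro q hq x hx
      rw [Subgroup.mem_centralizer_singleton_iff]
      by_cases hqp : q = p
      · subst hqp
        exact Subgroup.mem_centralizer_iff.mp hcc x (hEX _ hx)
      · have := hXn p
        have := hXn q
        have hcop : (Nat.card (X q)).Coprime (Nat.card (X p)) := by
          obtain ⟨m, hm⟩ := IsPGroup.iff_card.mp (hXp p hp)
          obtain ⟨k, hk⟩ := IsPGroup.iff_card.mp (hXp q hq)
          rw [hm, hk]
          exact Nat.Coprime.pow _ _ ((Nat.coprime_primes hq.out hp.out).mpr hqp)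
        have hdis : X q ⊓ X p = ⊥ := disjoint_of_coprime_card hcop
        exact (Subgroup.commute_of_normal_of_disjoint (X q) (X p) inferInstance inferInstance
          (disjoint_iff.mpr hdis) x c (hEX q hx) hcX).eq
    rw [Subgroup.mem_centralizer_iff]
    intro y hy
    have := h1 hy
    rw [Subgroup.mem_centralizer_singleton_iff] at this
    exact this
  have ha1 : a = 1 := by
    have : a ∈ A ⊓ Subgroup.centralizer (D : Set G) := ⟨ha, key a haX hac⟩
    rwa [hAD, Subgroup.mem_bot] at this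
  have hb1 : b = 1 := by
    have : b ∈ B ⊓ Subgroup.centralizer (D : Set G) := ⟨hb, key b hbX hbc⟩
    rwa [hBD, Subgroup.mem_bot] at this
  apply hz1
  apply Subtype.ext
  rw [hab, ha1, hb1, mul_one]; rfl

universe u

theorem ss_cyclic_mul_aux (n : ℕ) : ∀ (G : Type u) [Group G] [Finite G], Nat.card G = n →
    ∀ (A B : Subgroup G), IsCyclic A → IsCyclic B →
    (∀ g : G, ∃ a ∈ A, ∃ b ∈ B, g = a * b) → Cfsg.IsSupersolvable G := by
  induction n using Nat.strong_induction_on with | _ n ih => ?_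
  intro G _ _ hG A B hA hB hAB
  rcases subsingleton_or_nontrivial G with h | hnt
  · exact ss_of_subsingleton
  have hAc : IsMulCommutative A := IsCyclic.isMulCommutative
  have hBc : IsMulCommutative B := IsCyclic.isMulCommutative
  obtain ⟨N, hN, hNb, hNle⟩ := exists_normal_le_factor A B hAB
  have hNc : IsCyclic N := by
    rcases hNle with h | h
    · exact isCyclic_of_injective (Subgroup.inclusion h) (Subgroup.inclusion_injective h)
    · exact isCyclic_of_injective (Subgroup.inclusion h) (Subgroup.inclusion_injective h)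
  apply ss_of_cyclic_normal N
  have hlt : Nat.card (G ⧸ N) < n := by
    rw [← hG]; exact Cfsg.Agent.H1.SZ.card_quotient_lt hNb
  refine ih _ hlt (G ⧸ N) rfl (A.map (QuotientGroup.mk' N)) (B.map (QuotientGroup.mk' N)) ?_ ?_
    (factor_map _ (QuotientGroup.mk'_surjective N) hAB)
  · exact isCyclic_of_surjective ((QuotientGroup.mk' N).subgroupMap A)
      (MonoidHom.subgroupMap_surjective _ _)
  · exact isCyclic_of_surjective ((QuotientGroup.mk' N).subgroupMap B)
      (MonoidHom.subgroupMap_surjective _ _)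

/-- S0571 -/
theorem ss_cyclic_mul {G : Type*} [Group G] [Finite G] (A B : Subgroup G) [hA : IsCyclic A]
    [hB : IsCyclic B] (hAB : ∀ g : G, ∃ a ∈ A, ∃ b ∈ B, g = a * b) : Cfsg.IsSupersolvable G :=
  ss_cyclic_mul_aux _ G rfl A B hA hB hAB

end Cfsg.Agent.H1.Ito
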