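import Mathlib
import Cfsg.Agent.H1_KW4
import Cfsg.Agent.H1_Ito

set_option autoImplicit false

open Pointwise
open scoped commutatorElement
open Cfsg.Agent.H1.Basic Cfsg.Agent.H1.Nilp Cfsg.Agent.H1.Hall Cfsg.Agent.H1.Factor
open Cfsg.Agent.H1.Wiel Cfsg.Agent.H1.SZ Cfsg.Agent.H1.Schmidt Cfsg.Agent.H1.Kegel

universe u

namespace Cfsg.Agent.H1.KW

/-- S0565 -/
theorem s0565_aux (n : ℕ) : ∀ (G : Type u) [Group G] [Finite G], Nat.card G = n →
    ∀ (A B : Subgroup G), Group.IsNilpotent A → Group.IsNilpotent B →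
    (∀ g : G, ∃ a ∈ A, ∃ b ∈ B, g = a * b) → (A ≠ ⊤ ∨ B ≠ ⊤) →
    ∃ N : Subgroup G, N.Normal ∧ N ≠ ⊤ ∧ (A ≤ N ∨ B ≤ N) := by
  induction n using Nat.strong_induction_on with | _ n ih => ?_
  intro G _ _ hn A B hA hB hfac hne
  have hs : Group.IsSolvable G := kw hA hB hfac
  -- nilpotent case
  have hnil : Group.IsNilpotent G → ∀ X : Subgroup G, X ≠ ⊤ → ∃ N : Subgroup G, N.Normal ∧ N ≠ ⊤ ∧ X ≤ N := by
    intro hG X hX
    obtain ⟨M, hM, hXM⟩ := (eq_top_or_exists_le_coatom X).resolve_left hX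
    exact ⟨M, normal_of_isCoatom_of_nilpotent hM, hM.1, hXM⟩
  by_cases hAt : A = ⊤
  · have hG : Group.IsNilpotent G := by
      rw [hAt] at hA
      exact (Group.isNilpotent_congr Subgroup.topEquiv).mp hA
    obtain ⟨N, h1, h2, h3⟩ := hnil hG B (hne.resolve_left (fun h => h hAt))
    exact ⟨N, h1, h2, Or.inr h3⟩
  by_cases hBt : B = ⊤
  · have hG : Group.IsNilpotent G := by
      rw [hBt] at hB
      exact (Group.isNilpotent_congr Subgroup.topEquiv).mp hB
    obtain ⟨N, h1, h2, h3⟩ := hnil hG A hAt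
    exact ⟨N, h1, h2, Or.inl h3⟩
  by_contra hcon
  have hquot : ∀ N : Subgroup G, N.Normal → N ≠ ⊥ → A ⊔ N = ⊤ ∧ B ⊔ N = ⊤ := by
    intro N hN hNb
    by_contra hcon2
    apply hcon
    set f := QuotientGroup.mk' N with hf
    have hfs : Function.Surjective f := QuotientGroup.mk'_surjective N
    have hmap : ∀ X : Subgroup G, X.map f = ⊤ → X ⊔ N = ⊤ := by
      intro X hX
      have h1 := congrArg (Subgroup.comap f) hX
      rwa [Subgroup.comap_map_eq, hf, QuotientGroup.ker_mk', Subgroup.comap_top] at h1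
    have hne' : A.map f ≠ ⊤ ∨ B.map f ≠ ⊤ := by
      by_contra h1
      push Not at h1
      exact hcon2 ⟨hmap A h1.1, hmap B h1.2⟩
    obtain ⟨L, hL, hLt, hle⟩ := ih (Nat.card (G ⧸ N)) (hn ▸ card_quotient_lt hNb) (G ⧸ N) rfl
      (A.map f) (B.map f) (nilpotent_map _ hA) (nilpotent_map _ hB) (factor_map _ hfs hfac) hne'
    refine ⟨L.comap f, hL.comap f, ?_, ?_⟩
    · intro h1
      apply hLt
      rw [← Subgroup.map_comap_eq_self_of_surjective hfs L, h1, Subgroup.map_top_of_surjective f hfs]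
    · rcases hle with h1 | h1
      · left; exact Subgroup.map_le_iff_le_comap.mp h1
      · right; exact Subgroup.map_le_iff_le_comap.mp h1
  have hnt : Nontrivial G := by
    by_contra hh
    rw [not_nontrivial_iff_subsingleton] at hh
    exact hAt (Subsingleton.elim _ _)
  obtain ⟨N, hN, hNb, hmin⟩ := exists_minimal_normal_of_nontrivial G
  obtain ⟨hNcm, p, hp, hNe⟩ := minimal_normal_elementary N hNb hmin
  have hpf : Fact p.Prime := ⟨hp⟩
  have hNp : IsPGroup p N := isPGroup_of_pow_eq_one hNe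
  obtain ⟨hAN, hBN⟩ := hquot N hN hNb
  have hNcomm : N ≤ Subgroup.centralizer (N : Set G) := by
    intro x hx
    rw [Subgroup.mem_centralizer_iff]
    intro y hy
    exact comm_of_isMulCommutative hNcm hy hx
  -- key: for X nilpotent, X N = G, X ≠ ⊤ then p does not divide |X|
  have key : ∀ X : Subgroup G, Group.IsNilpotent X → X ≠ ⊤ → (∀ N' : Subgroup G, N'.Normal → N' ≠ ⊥ → X ⊔ N' = ⊤) →
      ¬ p ∣ Nat.card X := by
    intro X hX hXt hXN hpd
    -- the centralizer of N in X is trivial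
    have hC : X ⊓ Subgroup.centralizer (N : Set G) = ⊥ := by
      by_contra hCb
      have hCn : (X ⊓ Subgroup.centralizer (N : Set G)).Normal := by
        rw [← Subgroup.normalizer_eq_top_iff, ← top_le_iff, ← hXN N hN hNb]
        refine sup_le ?_ ?_
        · intro x hx
          rw [← conj_eq_iff_mem_normalizer, Subgroup.smul_inf,
            conj_eq_iff_mem_normalizer.mpr (Subgroup.le_normalizer hx), conj_of_normal]
        · refine le_trans ?_ (Subgroup.centralizer_le_normalizer _)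
          rw [Subgroup.le_centralizer_iff]
          exact inf_le_right
      have h1 := hXN _ hCn hCb
      apply hXt
      rwa [sup_eq_left.mpr inf_le_left] at h1
    set P := Sy X p with hP
    have hPb : P ≠ ⊥ := sy_ne_bot hX hpd
    have hPp : IsPGroup p P := sy_isPGroup X p
    have hPN : IsPGroup p (P ⊔ N : Subgroup G) := hPp.to_sup_of_normal_right hNp
    have hPNn : (P ⊔ N).Normal := by
      rw [← Subgroup.normalizer_eq_top_iff, ← top_le_iff, ← hXN N hN hNb]
      refine sup_le ?_ (le_sup_right.trans Subgroup.le_normalizer)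
      intro x hx
      rw [← conj_eq_iff_mem_normalizer, Subgroup.smul_sup,
        conj_eq_iff_mem_normalizer.mpr (sy_normalizer X p hx), conj_of_normal]
    -- N ⊓ Z(PN) ≠ 1
    set Q := P ⊔ N with hQ
    have hNQ : N ≤ Q := le_sup_right
    have hQn : Group.IsNilpotent Q := hPN.isNilpotent
    have h1 : (N.subgroupOf Q).Normal := inferInstance
    have h2 : N.subgroupOf Q ≠ ⊥ := by
      rw [Ne, Subgroup.subgroupOf_eq_bot]
      intro hd
      exact hNb (by rw [← inf_eq_left.mpr hNQ]; exact hd.eq_bot)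
    have h3 := normal_inf_center_ne_bot (N.subgroupOf Q) h2
    have h4 : N ⊓ Subgroup.centralizer (Q : Set G) ≠ ⊥ := by
      obtain ⟨z, hz, hz1⟩ := (Subgroup.bot_or_exists_ne_one _).resolve_left h3
      intro hb
      apply hz1
      have h5 : (z : G) ∈ N ⊓ Subgroup.centralizer (Q : Set G) := by
        refine ⟨Subgroup.mem_subgroupOf.mp hz.1, ?_⟩
        have h6 : (z : G) ∈ Subgroup.centralizer (Q : Set G) := by
          rw [Subgroup.mem_centralizer_iff]
          intro y hy
          exact congrArg Subtype.val (Subgroup.mem_center_iff.mp hz.2 ⟨y, hy⟩)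
        exact h6
      rw [hb, Subgroup.mem_bot] at h5
      exact Subtype.ext h5
    have h5 : (N ⊓ Subgroup.centralizer (Q : Set G)).Normal := by
      have : (Subgroup.centralizer (Q : Set G)).Normal := Subgroup.normal_centralizer
      infer_instance
    have h6 : N ⊓ Subgroup.centralizer (Q : Set G) = N := by
      rcases hmin _ h5 inf_le_left with h7 | h7
      · exact absurd h7 h4
      · exact h7
    apply hPb
    rw [eq_bot_iff, ← hC]
    refine le_inf (sy_le X p) ?_
    rw [Subgroup.le_centralizer_iff]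
    refine (inf_eq_left.mp h6).trans (Subgroup.centralizer_le ?_)
    exact (le_sup_left : P ≤ Q)
  have hA' := key A hA hAt (fun N' h1 h2 => (hquot N' h1 h2).1)
  have hB' := key B hB hBt (fun N' h1 h2 => (hquot N' h1 h2).2)
  have hc := card_factor hfac
  have hpN : p ∣ Nat.card N := by
    obtain ⟨k, hk⟩ := IsPGroup.iff_card.mp hNp
    rcases Nat.eq_zero_or_pos k with h0 | h0
    · rw [h0, pow_zero, Subgroup.card_eq_one] at hk
      exact absurd hk hNb
    · rw [hk]; exact dvd_pow_self p h0.ne'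
  have h1 : p ∣ Nat.card A * Nat.card B := by
    rw [← hc]
    exact (hpN.trans (Subgroup.card_subgroup_dvd_card N)).mul_right _
  rcases hp.dvd_mul.mp h1 with h2 | h2
  · exact hA' h2
  · exact hB' h2

theorem s0565 {G : Type*} [Group G] [Finite G] {A B : Subgroup G} (hA : Group.IsNilpotent A)
    (hB : Group.IsNilpotent B) (hfac : ∀ g : G, ∃ a ∈ A, ∃ b ∈ B, g = a * b)
    (hne : A ≠ ⊤ ∨ B ≠ ⊤) : ∃ N : Subgroup G, N.Normal ∧ N ≠ ⊤ ∧ (A ≤ N ∨ B ≤ N) :=
  s0565_aux _ G rfl A B hA hB hfac hne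

end Cfsg.Agent.H1.KW
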