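import Mathlib
import Cfsg.Agent.H1_KW4
import Cfsg.Agent.H1_Ito

set_option autoImplicit false

open Pointwise
open scoped commutatorElement
open Cfsg.Agent.H1.Basic Cfsg.Agent.H1.Nilp Cfsg.Agent.H1.Hall Cfsg.Agent.H1.Factor
open Cfsg.Agent.H1.Wiel Cfsg.Agent.H1.SZ Cfsg.Agent.H1.Schmidt Cfsg.Agent.H1.Kegel

universe u

namespace Cfsg.Agent.H1.KW

section

variable {G : Type*} [Group G]

theorem conj_commutator_of_mem {B : Subgroup G} {b : G} (hb : b ∈ B) :
    MulAut.conj b • ⁅B, B⁆ = ⁅B, B⁆ := by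
  have h1 : (MulAut.conj b • ⁅B, B⁆ : Subgroup G) = ⁅MulAut.conj b • B, MulAut.conj b • B⁆ :=
    Subgroup.map_commutator B B (MulAut.conj b).toMonoidHom
  rw [h1, conj_eq_iff_mem_normalizer.mpr (Subgroup.le_normalizer hb)]

/-- Lemma C' -/
theorem metab_case {A B : Subgroup G} (hA : IsMulCommutative A)
    (hB : ⁅B, B⁆ ≤ Subgroup.centralizer (B : Set G))
    (hfac : ∀ g : G, ∃ a ∈ A, ∃ b ∈ B, g = a * b)
    (hm : ⁅commutator G, commutator G⁆ = ⊥)
    (ht : A ⊔ Subgroup.normalClosure ((⁅B, B⁆ : Subgroup G) : Set G) = ⊤) : ⁅B, B⁆ = ⊥ := by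
  set D := ⁅B, B⁆ with hD
  set K := Subgroup.normalClosure (D : Set G) with hK
  have hKn : K.Normal := Subgroup.normalClosure_normal
  have hDK : D ≤ K := Subgroup.subset_normalClosure
  have hDG : D ≤ commutator G := Subgroup.commutator_mono le_top le_top
  have hKG : K ≤ commutator G := Subgroup.normalClosure_le_normal hDG
  have hVc : ∀ x ∈ commutator G, ∀ y ∈ commutator G, x * y = y * x := by
    intro x hx y hy
    rw [Subgroup.commutator_eq_bot_iff_le_centralizer] at hm
    exact ((Subgroup.mem_centralizer_iff.mp (hm hx)) y hy).symm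
  -- decomposition of elements of `B`
  have hdec : ∀ b ∈ B, ∃ v ∈ K, ∃ a ∈ A, b = v * a ∧ K ≤ Subgroup.centralizer {a} := by
    intro b hb
    have h1 : b ∈ ((K ⊔ A : Subgroup G) : Set G) := by rw [sup_comm, ht]; trivial
    rw [Subgroup.normal_mul K A] at h1
    obtain ⟨v, hv, a, ha, rfl⟩ := h1
    refine ⟨v, hv, a, ha, rfl, ?_⟩
    -- a centralizes D
    have haD : ∀ d ∈ D, a * d = d * a := by
      intro d hd
      have h2 : v * a * d = d * (v * a) := (Subgroup.mem_centralizer_iff.mp (hB hd)) _ hb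
      have h3 : v * d = d * v := hVc v (hKG hv) d (hDG hd)
      calc a * d = v⁻¹ * (v * a * d) := by group
        _ = v⁻¹ * (d * (v * a)) := by rw [h2]
        _ = v⁻¹ * (d * v) * a := by group
        _ = v⁻¹ * (v * d) * a := by rw [h3]
        _ = d * a := by group
    apply normalClosure_le_of_conj_le
    intro g x hx
    obtain ⟨a', ha', b', hb', rfl⟩ := hfac g
    rw [← conj_conj, conj_commutator_of_mem hb', mem_conj] at hx
    rw [Subgroup.mem_centralizer_singleton_iff]
    have h4 := haD _ hx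
    have h5 : a * a' = a' * a := comm_of_isMulCommutative hA ha ha'
    have h6 : a'⁻¹ * a = a * a'⁻¹ := by
      calc a'⁻¹ * a = a'⁻¹ * (a * a') * a'⁻¹ := by group
        _ = a'⁻¹ * (a' * a) * a'⁻¹ := by rw [h5]
        _ = a * a'⁻¹ := by group
    calc x * a = a' * (a'⁻¹ * x * a') * (a'⁻¹ * a) := by group
      _ = a' * (a'⁻¹ * x * a') * (a * a'⁻¹) := by rw [h6]
      _ = a' * ((a'⁻¹ * x * a') * a) * a'⁻¹ := by group
      _ = a' * (a * (a'⁻¹ * x * a')) * a'⁻¹ := by rw [h4]
      _ = (a' * a) * (a'⁻¹ * x) := by group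
      _ = (a * a') * (a'⁻¹ * x) := by rw [h5]
      _ = a * x := by group
  rw [hD, eq_bot_iff, Subgroup.commutator_le]
  intro b hb b' hb'
  rw [Subgroup.mem_bot, commutatorElement_eq_one_iff_mul_comm]
  obtain ⟨v, hv, a, ha, rfl, hKa⟩ := hdec b hb
  obtain ⟨v', hv', a', ha', rfl, hKa'⟩ := hdec b' hb'
  have e1 : v' * a = a * v' := Subgroup.mem_centralizer_singleton_iff.mp (hKa hv')
  have e2 : v * a' = a' * v := Subgroup.mem_centralizer_singleton_iff.mp (hKa' hv)
  have e3 : a * a' = a' * a := comm_of_isMulCommutative hA ha ha'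
  have e4 : v * v' = v' * v := hVc v (hKG hv) v' (hKG hv')
  calc v * a * (v' * a') = v * (a * v') * a' := by group
    _ = v * (v' * a) * a' := by rw [e1]
    _ = (v * v') * (a * a') := by group
    _ = (v' * v) * (a' * a) := by rw [e3, e4]
    _ = v' * (v * a') * a := by group
    _ = v' * (a' * v) * a := by rw [e2]
    _ = v' * a' * (v * a) := by group

theorem lemmaC {A B : Subgroup G} [Group.IsSolvable G] (hA : IsMulCommutative A)
    (hB : ⁅B, B⁆ ≤ Subgroup.centralizer (B : Set G))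
    (hfac : ∀ g : G, ∃ a ∈ A, ∃ b ∈ B, g = a * b)
    (ht : A ⊔ Subgroup.normalClosure ((⁅B, B⁆ : Subgroup G) : Set G) = ⊤) : ⁅B, B⁆ = ⊥ := by
  set W := ⁅commutator G, commutator G⁆ with hW
  have hWn : W.Normal := inferInstance
  set f := QuotientGroup.mk' W with hf
  have hfs : Function.Surjective f := QuotientGroup.mk'_surjective W
  have hfk : ∀ X : Subgroup G, X.map f = ⊥ → X ≤ W := by
    intro X hX
    rw [Subgroup.map_eq_bot_iff, hf, QuotientGroup.ker_mk'] at hX
    exact hX
  have h1 : ⁅B.map f, B.map f⁆ = ⊥ := by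
    apply metab_case (isMulCommutative_map f hA) _ (factor_map f hfs hfac)
    · rw [commutator_def, ← Subgroup.map_top_of_surjective f hfs, ← Subgroup.map_commutator,
        ← Subgroup.map_commutator, ← commutator_def, Subgroup.map_eq_bot_iff, hf,
        QuotientGroup.ker_mk']
    · rw [← Subgroup.map_commutator]
      rw [Subgroup.coe_map, ← Subgroup.map_normalClosure _ f hfs, ← Subgroup.map_sup, ht,
        Subgroup.map_top_of_surjective f hfs]
    · rw [← Subgroup.map_commutator]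
      rintro _ ⟨x, hx, rfl⟩
      rw [Subgroup.mem_centralizer_iff]
      rintro _ ⟨y, hy, rfl⟩
      rw [← map_mul, ← map_mul, (Subgroup.mem_centralizer_iff.mp (hB hx)) y hy]
  rw [← Subgroup.map_commutator] at h1
  have h2 : ⁅B, B⁆ ≤ W := hfk _ h1
  have h3 : Subgroup.normalClosure ((⁅B, B⁆ : Subgroup G) : Set G) ≤ W :=
    Subgroup.normalClosure_le_normal h2
  have h4 : A ⊔ W = ⊤ := by
    rw [eq_top_iff, ← ht]
    exact sup_le_sup_left h3 _
  have h5 : commutator G ≤ W := by
    rw [commutator_def, Subgroup.commutator_le]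
    have hx : ∀ x : G, ∃ a ∈ A, f x = f a := by
      intro x
      have h1 : x ∈ ((A ⊔ W : Subgroup G) : Set G) := by rw [h4]; trivial
      rw [Subgroup.mul_normal A W] at h1
      obtain ⟨a, ha, w, hw, rfl⟩ := h1
      refine ⟨a, ha, ?_⟩
      have h2 : f w = 1 := by
        rw [← MonoidHom.mem_ker, hf, QuotientGroup.ker_mk']; exact hw
      simp only
      rw [map_mul, h2, mul_one]
    intro x _ y _
    obtain ⟨a, ha, hxa⟩ := hx x
    obtain ⟨b, hb, hyb⟩ := hx y
    rw [← QuotientGroup.ker_mk' W, ← hf, MonoidHom.mem_ker, map_commutatorElement, hxa, hyb,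
      ← map_commutatorElement, commutatorElement_eq_one_iff_mul_comm.mpr
        (comm_of_isMulCommutative hA ha hb), map_one]
  have h6 : commutator G = ⊥ := by
    by_contra hne
    exact absurd (Group.IsSolvable.commutator_lt_of_ne_bot hne) (not_lt_of_ge h5)
  rw [eq_bot_iff, ← h6]
  exact Subgroup.commutator_mono le_top le_top

theorem subgroupOf_commutator {B X : Subgroup G} :
    (⁅B.subgroupOf X, B.subgroupOf X⁆ : Subgroup X).map X.subtype = ⁅B ⊓ X, B ⊓ X⁆ := by
  rw [Subgroup.map_commutator, Subgroup.subgroupOf_map_subtype]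

theorem nilpotent_of_class_two' {B : Subgroup G} (hB : ⁅B, B⁆ ≤ Subgroup.centralizer (B : Set G)) :
    Group.IsNilpotent B :=
  isNilpotent_of_class_two (Subgroup.commutator_eq_bot_iff_le_centralizer.mpr hB)

theorem primeFactorsList_length_lt {m n : ℕ} (hn : n ≠ 0) (hd : m ∣ n) (hne : m ≠ n) :
    m.primeFactorsList.length < n.primeFactorsList.length := by
  obtain ⟨k, rfl⟩ := hd
  have hm : m ≠ 0 := left_ne_zero_of_mul hn
  have hk : k ≠ 0 := right_ne_zero_of_mul hn
  rw [(Nat.perm_primeFactorsList_mul hm hk).length_eq, List.length_append]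
  have hk1 : k ≠ 1 := by rintro rfl; exact hne (mul_one m).symm
  have h1 : 0 < k.primeFactorsList.length := by
    rw [List.length_pos_iff_ne_nil]
    intro h
    rw [Nat.primeFactorsList_eq_nil] at h
    omega
  omega

end

theorem s0574_aux (n : ℕ) : ∀ (G : Type u) [Group G] [Finite G] (A B : Subgroup G),
    IsMulCommutative A → ⁅B, B⁆ ≤ Subgroup.centralizer (B : Set G) →
    (∀ g : G, ∃ a ∈ A, ∃ b ∈ B, g = a * b) →
    (Nat.card (⁅B, B⁆ : Subgroup G)).primeFactorsList.length = n →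
    derivedSeries G (2 * (1 + n)) = ⊥ := by
  induction n using Nat.strong_induction_on with | _ n ih => ?_
  intro G _ _ A B hA hB hfac hn
  by_cases hD : ⁅B, B⁆ = ⊥
  · have hBc : IsMulCommutative B := Subgroup.commutator_self_eq_bot_iff.mp hD
    have h1 := Cfsg.Agent.H1.Ito.ito hfac
    rw [eq_bot_iff, ← h1]
    exact derivedSeries_antitone G (by omega)
  set K := Subgroup.normalClosure ((⁅B, B⁆ : Subgroup G) : Set G) with hK
  have hKn : K.Normal := Subgroup.normalClosure_normal
  have hDK : ⁅B, B⁆ ≤ K := Subgroup.subset_normalClosure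
  set G₁ := A ⊔ K with hG₁
  have hAG : A ≤ G₁ := le_sup_left
  have hKG : K ≤ G₁ := le_sup_right
  have hfac₁ := fac_subgroupOf (fac_of_le hfac hAG)
  have hmap := subgroupOf_commutator (B := B) (X := G₁)
  have hD₁ : ⁅B ⊓ G₁, B ⊓ G₁⁆ ≤ ⁅B, B⁆ := Subgroup.commutator_mono inf_le_left inf_le_left
  have hA₁ : IsMulCommutative (A.subgroupOf G₁) := by
    apply isMulCommutative_of_forall
    intro x hx y hy
    exact Subtype.ext (comm_of_isMulCommutative hA (Subgroup.mem_subgroupOf.mp hx)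
      (Subgroup.mem_subgroupOf.mp hy))
  have hB₁ : ⁅B.subgroupOf G₁, B.subgroupOf G₁⁆ ≤
      Subgroup.centralizer ((B.subgroupOf G₁ : Subgroup G₁) : Set G₁) := by
    intro x hx
    have h1 : (x : G) ∈ ⁅B, B⁆ := by
      apply hD₁
      rw [← hmap]
      exact ⟨x, hx, rfl⟩
    rw [Subgroup.mem_centralizer_iff]
    intro y hy
    exact Subtype.ext ((Subgroup.mem_centralizer_iff.mp (hB h1)) y (Subgroup.mem_subgroupOf.mp hy))
  have hcard : Nat.card (⁅B.subgroupOf G₁, B.subgroupOf G₁⁆ : Subgroup G₁) =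
      Nat.card (⁅B ⊓ G₁, B ⊓ G₁⁆ : Subgroup G) := by
    rw [← hmap, Subgroup.card_map_of_injective G₁.subtype_injective]
  have hne : ⁅B ⊓ G₁, B ⊓ G₁⁆ ≠ ⁅B, B⁆ := by
    intro heq
    apply hD
    have hs : Group.IsSolvable G₁ := by
      apply kw (A := A.subgroupOf G₁) (B := B.subgroupOf G₁) _ (nilpotent_of_class_two' hB₁) hfac₁
      open scoped IsMulCommutative in
      infer_instance
    have h1 : ⁅B.subgroupOf G₁, B.subgroupOf G₁⁆ = ⊥ := by
      apply lemmaC hA₁ hB₁ hfac₁
      set K₁ := Subgroup.normalClosure ((⁅B.subgroupOf G₁, B.subgroupOf G₁⁆ : Subgroup G₁) : Set G₁)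
        with hK₁
      have hK₁n : K₁.Normal := Subgroup.normalClosure_normal
      have hK₂ : K ≤ K₁.map G₁.subtype := by
        apply normalClosure_le_of_conj_le
        intro g
        obtain ⟨a, ha, b, hb, rfl⟩ := hfac g
        rw [← conj_conj, conj_commutator_of_mem hb, ← heq, ← hmap]
        intro x hx
        rw [mem_conj] at hx
        obtain ⟨y, hy, hyx⟩ := hx
        refine ⟨⟨a, hAG ha⟩ * y * ⟨a, hAG ha⟩⁻¹,
          hK₁n.conj_mem _ (Subgroup.subset_normalClosure hy) _, ?_⟩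
        have hyx' : (y : G) = a⁻¹ * x * a := hyx
        have e : G₁.subtype (⟨a, hAG ha⟩ * y * ⟨a, hAG ha⟩⁻¹) = a * (y : G) * a⁻¹ := rfl
        rw [e, hyx']; group
      rw [eq_top_iff]
      rintro ⟨x, hx⟩ _
      have hx' : x ∈ ((A ⊔ K : Subgroup G) : Set G) := hx
      rw [Subgroup.mul_normal A K] at hx'
      obtain ⟨a, ha, k, hk, rfl⟩ := hx'
      obtain ⟨y, hy, hyk⟩ := hK₂ hk
      have e : (⟨(fun x1 x2 => x1 * x2) a k, hx⟩ : G₁) = ⟨a, hAG ha⟩ * y := Subtype.ext (by
        have : (y : G) = k := hyk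
        simp [this])
      rw [e]
      exact Subgroup.mul_mem _ (Subgroup.mem_sup_left (Subgroup.mem_subgroupOf.mpr ha))
        (Subgroup.mem_sup_right hy)
    rw [← heq, ← hmap, h1, Subgroup.map_bot]
  -- smaller
  have hlt : (Nat.card (⁅B ⊓ G₁, B ⊓ G₁⁆ : Subgroup G)).primeFactorsList.length < n := by
    rw [← hn]
    apply primeFactorsList_length_lt Nat.card_pos.ne' (Subgroup.card_dvd_of_le hD₁)
    intro h1
    exact hne (eq_of_le_of_card_ge' hD₁ h1.ge)
  have h1 := ih _ hlt G₁ (A.subgroupOf G₁) (B.subgroupOf G₁) hA₁ hB₁ hfac₁ (by rw [hcard])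
  -- `G'' ≤ K`
  have h2 : derivedSeries G 2 ≤ K := by
    set f := QuotientGroup.mk' K with hf
    have hfs : Function.Surjective f := QuotientGroup.mk'_surjective K
    have hAm : IsMulCommutative (A.map f) := isMulCommutative_map f hA
    have hBm : IsMulCommutative (B.map f) := by
      rw [← Subgroup.commutator_self_eq_bot_iff, ← Subgroup.map_commutator,
        Subgroup.map_eq_bot_iff, hf, QuotientGroup.ker_mk']
      exact hDK
    have h3 := Cfsg.Agent.H1.Ito.ito (factor_map f hfs hfac)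
    rw [← map_derivedSeries_eq hfs, Subgroup.map_eq_bot_iff, hf, QuotientGroup.ker_mk'] at h3
    exact h3
  have h3 : ∀ k : ℕ, derivedSeries G (2 + k) ≤ (derivedSeries G₁ k).map G₁.subtype := by
    intro k
    induction k with
    | zero =>
      rw [add_zero, derivedSeries_zero, ← MonoidHom.range_eq_map, Subgroup.range_subtype]
      exact h2.trans hKG
    | succ k ihk =>
      rw [← add_assoc, derivedSeries_succ, derivedSeries_succ, Subgroup.map_commutator]
      exact Subgroup.commutator_mono ihk ihk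
  have h4 := h3 (2 * (1 + (Nat.card (⁅B ⊓ G₁, B ⊓ G₁⁆ : Subgroup G)).primeFactorsList.length))
  rw [h1, Subgroup.map_bot, le_bot_iff] at h4
  rw [eq_bot_iff, ← h4]
  apply derivedSeries_antitone G
  omega

end Cfsg.Agent.H1.KW
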