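import Mathlib
import Cfsg.Agent.H1_Basic
import Cfsg.Agent.H1_Nilp
import Cfsg.Agent.H1_Hall
import Cfsg.Agent.H11_Cores

set_option autoImplicit false

open Pointwise
open Cfsg.Agent.H1.Basic Cfsg.Agent.H1.Nilp Cfsg.Agent.H1.Hall

namespace Cfsg.Agent.H1.Misc3

/-- S0018 -/
theorem sylow_abelian_sup_normal {G : Type*} [Group G] [Finite G] [Group.IsSolvable G]
    (p : ℕ) [hp : Fact p.Prime] (P : Sylow p G) (hP : IsMulCommutative P) :
    ((P : Subgroup G) ⊔ Cfsg.pPrimeCore p G).Normal := by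
  set N := Cfsg.pPrimeCore p G with hN
  have hNn : N.Normal := Cfsg.Agent.H1.Nilp.pPrimeCore_normal p
  set f := QuotientGroup.mk' N with hf
  have hfs : Function.Surjective f := QuotientGroup.mk'_surjective N
  have h1 : Cfsg.pPrimeCore p (G ⧸ N) = ⊥ := Cfsg.Agent.H11.Cores.pPrimeCore_quotient p
  have h2 := centralizer_pCore_le (G := G ⧸ N) p h1
  set O := Cfsg.pCore p (G ⧸ N) with hO
  have hOn : O.Normal := Cfsg.Agent.H1.Nilp.pCore_normal p
  have hOp : IsPGroup p O := pCore_isPGroup p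
  set P' : Sylow p (G ⧸ N) := P.mapSurjective hfs with hP'
  have hP'c : ((P' : Sylow p (G ⧸ N)) : Subgroup (G ⧸ N)) = (P : Subgroup G).map f := rfl
  have hOP : O ≤ (P' : Subgroup (G ⧸ N)) := by
    obtain ⟨T, hT⟩ := hOp.exists_le_sylow
    obtain ⟨g, hg⟩ := MulAction.exists_smul_eq (G ⧸ N) T P'
    rw [← hg, Sylow.coe_subgroup_smul]
    have := (conj_le_conj (g := g)).mpr hT
    rwa [conj_of_normal g O] at this
  have hPO : (P : Subgroup G).map f ≤ O := by
    refine le_trans ?_ h2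
    rintro _ ⟨x, hx, rfl⟩
    rw [Subgroup.mem_centralizer_iff]
    intro y hy
    have hy' := hOP hy
    rw [hP'c] at hy'
    obtain ⟨z, hz, rfl⟩ := hy'
    have h3 : z * x = x * z := congrArg Subtype.val (hP.is_comm.comm (⟨z, hz⟩ : (P : Subgroup G)) ⟨x, hx⟩)
    rw [← map_mul, ← map_mul, h3]
  have h4 : (P : Subgroup G).map f = O := le_antisymm hPO (by rw [← hP'c]; exact hOP)
  have h5 : (P : Subgroup G) ⊔ N = O.comap f := by
    rw [← h4, Subgroup.comap_map_eq, QuotientGroup.ker_mk']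
  rw [h5]
  exact hOn.comap f

end Cfsg.Agent.H1.Misc3
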