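import Mathlib
import Cfsg.Agent.H1_Basic
import Cfsg.Agent.H1_Nilp
import Cfsg.Agent.H1_SZ
import Cfsg.Agent.H1_Hall
import Cfsg.Agent.H1_FratFit
import Cfsg.Agent.H1_HC
import Cfsg.Prelude.Def_Transfer

set_option autoImplicit false

open Pointwise
open scoped commutatorElement
open Cfsg.Agent.H1.Basic Cfsg.Agent.H1.Nilp Cfsg.Agent.H1.Hall Cfsg.Agent.H1.FratFit
open Cfsg.Agent.H1.SZ Cfsg.Agent.H1.HC

namespace Cfsg.Agent.H1.Prim

section

variable {G : Type*} [Group G]

theorem sup_eq_top_of_core {U N : Subgroup G} (hU : IsCoatom U) (hcore : U.normalCore = ⊥)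
    [N.Normal] (hN : N ≠ ⊥) : N ⊔ U = ⊤ := by
  by_contra hne
  have h1 : U = N ⊔ U := by
    by_contra h2
    exact hne (hU.2 _ (lt_of_le_of_ne le_sup_right h2))
  have h2 : N ≤ U := by rw [h1]; exact le_sup_left
  have h3 : N ≤ U.normalCore := Subgroup.normal_le_normalCore.mpr h2
  rw [hcore, le_bot_iff] at h3
  exact hN h3

theorem eq_bot_of_normal_le {U N : Subgroup G} (hcore : U.normalCore = ⊥)
    (hNn : N.Normal) (hN : N ≤ U) : N = ⊥ := by
  have h3 : N ≤ U.normalCore := Subgroup.normal_le_normalCore.mpr hN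
  rwa [hcore, le_bot_iff] at h3

theorem normal_of_sup_le_normalizer {N U K : Subgroup G} (h : N ⊔ U = ⊤)
    (hN : N ≤ Subgroup.normalizer (K : Set G)) (hU : U ≤ Subgroup.normalizer (K : Set G)) :
    K.Normal := by
  rw [← Subgroup.normalizer_eq_top_iff, ← top_le_iff, ← h]
  exact sup_le hN hU

/-- S0549 first part -/
theorem centralizer_inf_eq_bot {U N : Subgroup G} (hU : IsCoatom U) (hcore : U.normalCore = ⊥)
    [N.Normal] (hN : N ≠ ⊥) : Subgroup.centralizer (N : Set G) ⊓ U = ⊥ := by
  apply eq_bot_of_normal_le hcore _ inf_le_right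
  apply normal_of_sup_le_normalizer (sup_eq_top_of_core hU hcore hN)
  · refine le_trans ?_ (Subgroup.centralizer_le_normalizer _)
    rw [Subgroup.le_centralizer_iff]
    exact inf_le_left
  · refine le_trans ?_ Subgroup.inf_normalizer_le_normalizer_inf
    refine le_inf ?_ Subgroup.le_normalizer
    rw [Subgroup.normalizer_eq_top (Subgroup.centralizer (N : Set G))]
    exact le_top

/-- S0549 second part -/
theorem centralizer_minimal {U N : Subgroup G} (hU : IsCoatom U) (hcore : U.normalCore = ⊥)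
    [N.Normal] (hN : N ≠ ⊥) (K : Subgroup G) (hK : K.Normal)
    (hKC : K ≤ Subgroup.centralizer (N : Set G)) :
    K = ⊥ ∨ K = Subgroup.centralizer (N : Set G) := by
  by_cases hb : K = ⊥
  · exact Or.inl hb
  right
  apply le_antisymm hKC
  intro x hx
  have h1 : x ∈ K ⊔ U := by rw [sup_eq_top_of_core hU hcore hb]; trivial
  rw [← SetLike.mem_coe, Subgroup.normal_mul] at h1
  obtain ⟨k, hk, u, hu, rfl⟩ := Set.mem_mul.mp h1
  have h2 : u ∈ Subgroup.centralizer (N : Set G) ⊓ U := by
    refine ⟨?_, hu⟩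
    have := Subgroup.mul_mem _ (Subgroup.inv_mem _ (hKC hk)) hx
    rwa [inv_mul_cancel_left] at this
  rw [centralizer_inf_eq_bot hU hcore hN, Subgroup.mem_bot] at h2
  rw [h2, mul_one]; exact hk

theorem equiv_map_of_inf {G' : Type*} [Group G'] (f : G →* G') {X : Subgroup G}
    (h : X ⊓ f.ker = ⊥) : Nonempty (X ≃* X.map f) := by
  have hinj : Function.Injective (f.subgroupMap X) := by
    rw [injective_iff_map_eq_one]
    intro x hx
    have h1 : f x = 1 := congrArg Subtype.val hx
    have h2 : (x : G) ∈ X ⊓ f.ker := ⟨x.2, h1⟩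
    rw [h, Subgroup.mem_bot] at h2
    exact Subtype.ext h2
  exact ⟨MulEquiv.ofBijective (f.subgroupMap X) ⟨hinj, f.subgroupMap_surjective X⟩⟩

theorem equiv_of_sup_eq {A X Y : Subgroup G} [A.Normal] (hX : X ⊓ A = ⊥) (hY : Y ⊓ A = ⊥)
    (h : X ⊔ A = Y ⊔ A) : Nonempty (X ≃* Y) := by
  set f := QuotientGroup.mk' A with hf
  have hk : f.ker = A := QuotientGroup.ker_mk' A
  obtain ⟨e1⟩ := equiv_map_of_inf f (X := X) (by rw [hk]; exact hX)
  obtain ⟨e2⟩ := equiv_map_of_inf f (X := Y) (by rw [hk]; exact hY)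
  have h1 : X.map f = Y.map f := by
    rw [Subgroup.map_eq_map_iff, hk]; exact h
  exact ⟨e1.trans ((MulEquiv.subgroupCongr h1).trans e2.symm)⟩

/-- S0550 -/
theorem baer [Finite G] (U : Subgroup G) (hU : IsCoatom U) (hcore : U.normalCore = ⊥)
    (A B : Subgroup G) [hAn : A.Normal] [hBn : B.Normal] (hA : A ≠ ⊥) (hB : B ≠ ⊥)
    (hAmin : ∀ K : Subgroup G, K.Normal → K ≤ A → K = ⊥ ∨ K = A)
    (hBmin : ∀ K : Subgroup G, K.Normal → K ≤ B → K = ⊥ ∨ K = B) (hAB : A ≠ B) :
    Subgroup.centralizer (B : Set G) = A ∧ Subgroup.centralizer (A : Set G) = B ∧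
      Subgroup.IsComplement' A U ∧ Subgroup.IsComplement' B U ∧ ¬ IsMulCommutative A ∧
      Nonempty (A ≃* B) ∧ Nonempty (A ≃* ↥((A ⊔ B) ⊓ U)) := by
  have hinf : A ⊓ B = ⊥ := by
    rcases hAmin (A ⊓ B) inferInstance inf_le_left with h | h
    · exact h
    · rcases hBmin (A ⊓ B) inferInstance inf_le_right with h' | h'
      · exact h'
      · exact absurd (h.symm.trans h') hAB
  have hcomm : A ≤ Subgroup.centralizer (B : Set G) := by
    intro a ha
    rw [Subgroup.mem_centralizer_iff]
    intro b hb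
    exact (Subgroup.commute_of_normal_of_disjoint A B hAn hBn (disjoint_iff.mpr hinf) a b ha hb).symm.eq
  have hcomm' : B ≤ Subgroup.centralizer (A : Set G) := Subgroup.le_centralizer_iff.mp hcomm
  have e1 : Subgroup.centralizer (B : Set G) = A := by
    rcases centralizer_minimal hU hcore hB A hAn hcomm with h | h
    · exact absurd h hA
    · exact h.symm
  have e2 : Subgroup.centralizer (A : Set G) = B := by
    rcases centralizer_minimal hU hcore hA B hBn hcomm' with h | h
    · exact absurd h hB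
    · exact h.symm
  have hAU : A ⊓ U = ⊥ := by rw [← e1]; exact centralizer_inf_eq_bot hU hcore hB
  have hBU : B ⊓ U = ⊥ := by rw [← e2]; exact centralizer_inf_eq_bot hU hcore hA
  have hAUt := sup_eq_top_of_core hU hcore hA
  have hBUt := sup_eq_top_of_core hU hcore hB
  set D := (A ⊔ B) ⊓ U with hD
  have hDA : D ⊓ A = ⊥ := by
    rw [eq_bot_iff, ← hAU]
    exact le_inf inf_le_right (inf_le_left.trans inf_le_right)
  have hDB : D ⊓ B = ⊥ := by
    rw [eq_bot_iff, ← hBU]
    exact le_inf inf_le_right (inf_le_left.trans inf_le_right)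
  have key : ∀ C : Subgroup G, C.Normal → C ≤ A ⊔ B → C ⊔ U = ⊤ → D ⊔ C = A ⊔ B := by
    intro C hC hCle hCU
    apply le_antisymm (sup_le inf_le_left hCle)
    intro x hx
    have h1 : x ∈ C ⊔ U := by rw [hCU]; trivial
    rw [← SetLike.mem_coe, Subgroup.normal_mul] at h1
    obtain ⟨k, hk, u, hu, rfl⟩ := Set.mem_mul.mp h1
    have h2 : u ∈ D := by
      refine ⟨?_, hu⟩
      have := Subgroup.mul_mem _ (Subgroup.inv_mem _ (hCle hk)) hx
      rwa [inv_mul_cancel_left] at this
    exact Subgroup.mul_mem _ (Subgroup.mem_sup_right hk) (Subgroup.mem_sup_left h2)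
  have k1 := key A hAn le_sup_left hAUt
  have k2 := key B hBn le_sup_right hBUt
  obtain ⟨f1⟩ := equiv_of_sup_eq (A := A) (X := B) (Y := D) (by rw [inf_comm]; exact hinf) hDA
    (by rw [k1, sup_comm])
  obtain ⟨f2⟩ := equiv_of_sup_eq (A := B) (X := A) (Y := D) hinf hDB (by rw [k2])
  refine ⟨e1, e2, isComplement'_of_sup_inf hAUt hAU, isComplement'_of_sup_inf hBUt hBU, ?_,
    ⟨f2.trans f1.symm⟩, ⟨f2⟩⟩
  intro hc
  apply hA
  rw [eq_bot_iff, ← hinf]
  refine le_inf le_rfl ?_
  rw [← e2]
  exact Subgroup.le_centralizer_iff_isMulCommutative.mpr hc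

/-- S0551 -/
theorem core_free_conj [Finite G] [Group.IsSolvable G] {U V : Subgroup G} (hU : IsCoatom U)
    (hV : IsCoatom V) (hUc : U.normalCore = ⊥) (hVc : V.normalCore = ⊥) :
    ∃ g : G, MulAut.conj g • U = V := by
  have hnt : Nontrivial G := by
    by_contra hh
    rw [not_nontrivial_iff_subsingleton] at hh
    exact hU.1 (Subsingleton.elim _ _)
  obtain ⟨N, hN, hNb, hNmin⟩ := exists_minimal_normal_of_nontrivial G
  obtain ⟨hNc, p, hp, hNp⟩ := minimal_normal_elementary N hNb hNmin
  have hpf : Fact p.Prime := ⟨hp⟩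
  have hNpg : IsPGroup p N := isPGroup_of_pow_eq_one hNp
  have hNC : Subgroup.centralizer (N : Set G) = N := by
    rcases centralizer_minimal hU hUc hNb N hN
      (Subgroup.le_centralizer_iff_isMulCommutative.mpr hNc) with h | h
    · exact absurd h hNb
    · exact h.symm
  have hNU : N ⊓ U = ⊥ := by
    conv_lhs => rw [← hNC]
    exact centralizer_inf_eq_bot hU hUc hNb
  have hNV : N ⊓ V = ⊥ := by
    conv_lhs => rw [← hNC]
    exact centralizer_inf_eq_bot hV hVc hNb
  have hNUt := sup_eq_top_of_core hU hUc hNb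
  have hNVt := sup_eq_top_of_core hV hVc hNb
  by_cases hNt : N = ⊤
  · refine ⟨1, ?_⟩
    rw [hNt, top_inf_eq] at hNU hNV
    rw [conj_one, hNU, hNV]
  -- `L/N` minimal normal in `G/N`
  set f := QuotientGroup.mk' N with hf
  have hfs : Function.Surjective f := QuotientGroup.mk'_surjective N
  have hntq : Nontrivial (G ⧸ N) := by
    rw [← Finite.one_lt_card_iff_nontrivial, ← Subgroup.index_eq_card]
    exact Subgroup.one_lt_index_of_ne_top hNt
  obtain ⟨L', hL'n, hL'b, hL'min⟩ := exists_minimal_normal_of_nontrivial (G ⧸ N)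
  obtain ⟨hL'c, q, hq, hL'q⟩ := minimal_normal_elementary L' hL'b hL'min
  have hqf : Fact q.Prime := ⟨hq⟩
  have hL'qg : IsPGroup q L' := isPGroup_of_pow_eq_one hL'q
  set L := L'.comap f with hL
  have hLn : L.Normal := hL'n.comap f
  have hNL : N ≤ L := le_comap_mk N L'
  have hLrel : N.relIndex L = Nat.card L' := relIndex_comap_mk N L'
  have hLneN : L ≠ N := by
    intro h
    rw [h, Subgroup.relIndex_self] at hLrel
    exact hL'b ((Subgroup.card_eq_one).mp hLrel.symm)
  -- `q ≠ p`
  have hqp : q ≠ p := by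
    intro h
    subst h
    have hLp : IsPGroup q L := by
      obtain ⟨a, ha⟩ := IsPGroup.iff_card.mp hNpg
      obtain ⟨b, hb⟩ := IsPGroup.iff_card.mp hL'qg
      apply IsPGroup.of_card (n := b + a)
      rw [← relIndex_mul_card hNL, hLrel, ha, hb, pow_add]
    have h1 : L ≤ Subgroup.centralizer (N : Set G) := by
      refine le_trans ?_ (fitting_le_centralizer N hNb hNmin)
      exact (le_fitting_iff hLn).mpr hLp.isNilpotent
    rw [hNC] at h1
    exact hLneN (le_antisymm h1 hNL)
  -- Sylow subgroups of `L`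
  have hdec : ∀ W : Subgroup G, N ⊓ W = ⊥ → N ⊔ W = ⊤ →
      Nat.card (L ⊓ W : Subgroup G) = Nat.card L' ∧ N ⊔ (L ⊓ W) = L := by
    intro W hW1 hW2
    have h1 : N ⊔ (L ⊓ W) = L := by
      apply le_antisymm (sup_le hNL inf_le_left)
      intro x hx
      have h1 : x ∈ N ⊔ W := by rw [hW2]; trivial
      rw [← SetLike.mem_coe, Subgroup.normal_mul] at h1
      obtain ⟨k, hk, u, hu, rfl⟩ := Set.mem_mul.mp h1
      have h2 : u ∈ L ⊓ W := by
        refine ⟨?_, hu⟩
        have := Subgroup.mul_mem _ (Subgroup.inv_mem _ (hNL hk)) hx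
        rwa [inv_mul_cancel_left] at this
      exact Subgroup.mul_mem _ (Subgroup.mem_sup_left hk) (Subgroup.mem_sup_right h2)
    refine ⟨?_, h1⟩
    have h2 := card_sup_mul_card_inf (H := L ⊓ W) (K := N) (by
      rw [Subgroup.normalizer_eq_top N]; exact le_top)
    have h3 : (L ⊓ W) ⊓ N = ⊥ := by
      rw [eq_bot_iff, ← hW1]
      exact le_inf inf_le_right (inf_le_left.trans inf_le_right)
    rw [h3, Subgroup.card_bot, mul_one, sup_comm, h1, ← relIndex_mul_card hNL, hLrel] at h2
    exact (Nat.eq_of_mul_eq_mul_right Nat.card_pos h2).symm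
  obtain ⟨hc1, hs1⟩ := hdec U hNU hNUt
  obtain ⟨hc2, hs2⟩ := hdec V hNV hNVt
  have hLsolv : Group.IsSolvable L := inferInstance
  have hcopL : (Nat.card (L ⊓ U : Subgroup G)).Coprime ((L ⊓ U).relIndex L) := by
    have h1 := relIndex_mul_card (inf_le_left : L ⊓ U ≤ L)
    rw [← relIndex_mul_card hNL, hLrel, hc1, mul_comm] at h1
    have h2 : (L ⊓ U).relIndex L = Nat.card N := Nat.eq_of_mul_eq_mul_left Nat.card_pos h1
    rw [hc1, h2]
    obtain ⟨a, ha⟩ := IsPGroup.iff_card.mp hNpg
    obtain ⟨b, hb⟩ := IsPGroup.iff_card.mp hL'qg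
    rw [ha, hb]
    exact Nat.Coprime.pow _ _ ((Nat.coprime_primes hq hp).mpr hqp)
  obtain ⟨l, hl, hlc⟩ := hall_conj_in hLsolv (inf_le_left : L ⊓ U ≤ L) (inf_le_left : L ⊓ V ≤ L)
    (hc1.trans hc2.symm) hcopL
  -- normalizers
  have hnorm : ∀ W : Subgroup G, IsCoatom W → W.normalCore = ⊥ → Nat.card (L ⊓ W : Subgroup G) =
      Nat.card L' → Subgroup.normalizer ((L ⊓ W : Subgroup G) : Set G) = W := by
    intro W hW hWc hWcard
    have h1 : W ≤ Subgroup.normalizer ((L ⊓ W : Subgroup G) : Set G) := by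
      refine le_trans ?_ Subgroup.inf_normalizer_le_normalizer_inf
      refine le_inf ?_ Subgroup.le_normalizer
      rw [Subgroup.normalizer_eq_top L]
      exact le_top
    by_contra hne
    have h2 := hW.2 _ (lt_of_le_of_ne h1 (Ne.symm hne))
    rw [Subgroup.normalizer_eq_top_iff] at h2
    have h3 := eq_bot_of_normal_le hWc h2 inf_le_right
    rw [h3, Subgroup.card_bot] at hWcard
    exact hL'b (Subgroup.card_eq_one.mp hWcard.symm)
  have n1 := hnorm U hU hUc hc1
  have n2 := hnorm V hV hVc hc2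
  refine ⟨l, ?_⟩
  -- `x ∈ U^l ↔ x normalizes (L ∩ U)^l = L ∩ V`
  ext x
  rw [mem_conj]
  conv_rhs => rw [← n2, ← hlc, ← conj_eq_iff_mem_normalizer, conj_conj]
  conv_lhs => rw [← n1, ← conj_eq_iff_mem_normalizer]
  constructor
  · intro h
    have := congrArg (fun Z => MulAut.conj l • Z) h
    simp only [conj_conj] at this
    rw [← this]
    congr 2
    group
  · intro h
    have := congrArg (fun Z => MulAut.conj l⁻¹ • Z) h
    simp only [conj_conj] at this
    rw [inv_mul_cancel, conj_one] at this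
    conv_rhs => rw [← this]
    congr 2
    group

/-- S0587 -/
theorem pCore_primitive [Finite G] (p : ℕ) [hp : Fact p.Prime] (hL : Cfsg.pCore p G ≠ ⊥)
    (M : Subgroup G) (hM : IsCoatom M) (hcore : M.normalCore = ⊥) :
    Cfsg.IsElementaryAbelian p (Cfsg.pCore p G) ∧ Subgroup.IsComplement' (Cfsg.pCore p G) M ∧
    (∀ K : Subgroup G, K.Normal → K ≤ Cfsg.pCore p G → K = ⊥ ∨ K = Cfsg.pCore p G) ∧
    Subgroup.centralizer ((Cfsg.pCore p G : Subgroup G) : Set G) = Cfsg.pCore p G ∧
    ∀ (q : ℕ) [Fact q.Prime], Cfsg.pCore q ↥M ≠ ⊥ →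
      Nat.card (Cfsg.pCore p G) % q = 1 % q ∧ q ≠ p := by
  set L := Cfsg.pCore p G with hLdef
  have hLn : L.Normal := pCore_normal p
  have hLp : IsPGroup p L := pCore_isPGroup p
  obtain ⟨N, hNL, hN, hNb, hNmin⟩ := exists_minimal_normal hLn hL
  have h1 : L ≤ Subgroup.centralizer (N : Set G) :=
    ((le_fitting_iff hLn).mpr hLp.isNilpotent).trans (fitting_le_centralizer N hNb hNmin)
  have h2 : N = Subgroup.centralizer (N : Set G) := by
    rcases centralizer_minimal hM hcore hNb N hN (hNL.trans h1) with h | h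
    · exact absurd h hNb
    · exact h
  have h3 : N = L := le_antisymm hNL (by rw [h2]; exact h1)
  clear_value L
  subst h3
  have hLM : N ⊓ M = ⊥ := by
    have := centralizer_inf_eq_bot hM hcore hNb
    rwa [← h2] at this
  have hLMt := sup_eq_top_of_core hM hcore hNb
  have hNc : IsMulCommutative N := Subgroup.le_centralizer_iff_isMulCommutative.mp h2.le
  refine ⟨⟨hNc, ?_⟩, isComplement'_of_sup_inf hLMt hLM, hNmin, h2.symm, ?_⟩
  · -- exponent p
    let W : Subgroup G :=
      { carrier := {x | x ∈ N ∧ x ^ p = 1}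
        one_mem' := ⟨N.one_mem, one_pow _⟩
        mul_mem' := by
          rintro x y ⟨hx, hx1⟩ ⟨hy, hy1⟩
          refine ⟨N.mul_mem hx hy, ?_⟩
          have hc : Commute x y := by
            have := hNc.is_comm.comm (⟨x, hx⟩ : N) ⟨y, hy⟩
            exact congrArg Subtype.val this
          rw [hc.mul_pow, hx1, hy1, one_mul]
        inv_mem' := by
          rintro x ⟨hx, hx1⟩
          exact ⟨N.inv_mem hx, by rw [inv_pow, hx1, inv_one]⟩ }
    have hWN : W ≤ N := fun x hx => hx.1
    have hWn : W.Normal := by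
      refine ⟨fun x hx g => ⟨hN.conj_mem x hx.1 g, ?_⟩⟩
      rw [conj_pow, hx.2, mul_one, mul_inv_cancel]
    rcases hNmin W hWn hWN with h | h
    · exfalso
      have hd : p ∣ Nat.card N := by
        obtain ⟨n, hn⟩ := IsPGroup.iff_card.mp hLp
        rcases Nat.eq_zero_or_pos n with h0 | h0
        · rw [h0, pow_zero] at hn
          exact absurd (Subgroup.card_eq_one.mp hn) hNb
        · rw [hn]; exact dvd_pow_self p h0.ne'
      obtain ⟨x, hx⟩ := exists_prime_orderOf_dvd_card' (G := N) p hd
      have h4 : (x : G) ∈ W := by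
        refine ⟨x.2, ?_⟩
        have := pow_orderOf_eq_one x
        rw [hx] at this
        exact congrArg Subtype.val this
      rw [h, Subgroup.mem_bot] at h4
      have h5 : x = 1 := Subtype.ext h4
      rw [h5, orderOf_one] at hx
      exact hp.out.one_lt.ne hx
    · intro a ha
      rw [← h] at ha
      exact ha.2
  · intro q hq hQ
    set Q := (Cfsg.pCore q M).map M.subtype with hQdef
    have hQM : Q ≤ M := Subgroup.map_subtype_le _
    have hQb : Q ≠ ⊥ := by
      intro h
      exact hQ ((Subgroup.map_eq_bot_iff_of_injective _ M.subtype_injective).mp h)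
    have hQq : IsPGroup q Q := (pCore_isPGroup (G := M) q).map _
    have hMQ : M ≤ Subgroup.normalizer (Q : Set G) := by
      rw [← Subgroup.normal_subgroupOf_iff_le_normalizer hQM, Subgroup.subgroupOf, hQdef,
        Subgroup.comap_map_eq_self_of_injective M.subtype_injective]
      exact pCore_normal q
    -- `C_N(Q) = 1`
    have hC : N ⊓ Subgroup.centralizer (Q : Set G) = ⊥ := by
      have hn : (N ⊓ Subgroup.centralizer (Q : Set G)).Normal := by
        apply normal_of_sup_le_normalizer hLMt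
        · have : N ≤ Subgroup.centralizer ((N ⊓ Subgroup.centralizer (Q : Set G) : Subgroup G) : Set G) := by
            rw [Subgroup.le_centralizer_iff]
            exact inf_le_left.trans h2.le
          exact this.trans (Subgroup.centralizer_le_normalizer _)
        · intro m hm
          rw [← conj_eq_iff_mem_normalizer]
          apply eq_of_le_of_card_ge' _ (card_conj m _).ge
          intro x hx
          rw [mem_conj] at hx
          refine ⟨?_, ?_⟩
          · have := hN.conj_mem _ hx.1 m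
            have e : m * (m⁻¹ * x * m) * m⁻¹ = x := by group
            rwa [e] at this
          · show x ∈ Subgroup.centralizer (Q : Set G)
            rw [Subgroup.mem_centralizer_iff]
            intro y hy
            have hy' : m⁻¹ * y * m ∈ Q := by
              have := (Subgroup.mem_normalizer_iff.mp (hMQ (M.inv_mem hm)) y).mp hy
              rwa [inv_inv] at this
            have h5 := Subgroup.mem_centralizer_iff.mp hx.2 _ hy'
            have e1 : y * x = m * ((m⁻¹ * y * m) * (m⁻¹ * x * m)) * m⁻¹ := by group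
            have e2 : x * y = m * ((m⁻¹ * x * m) * (m⁻¹ * y * m)) * m⁻¹ := by group
            rw [e1, e2, h5]
      rcases hNmin _ hn inf_le_left with h | h
      · exact h
      · exfalso
        have h5 : N ≤ Subgroup.centralizer (Q : Set G) := by rw [← h]; exact inf_le_right
        have h6 : Q ≤ N := by
          rw [Subgroup.le_centralizer_iff] at h5
          rwa [← h2] at h5
        apply hQb
        rw [eq_bot_iff, ← hLM]
        exact le_inf h6 hQM
    -- count
    let φ : Q →* MulAut N := (MulAut.conjNormal (H := N)).comp Q.subtype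
    let _ : MulAction Q N := MulAction.compHom N φ
    have hfix : Nat.card (MulAction.fixedPoints Q N) = 1 := by
      rw [Nat.card_eq_one_iff_unique]
      refine ⟨⟨fun a b => ?_⟩, ⟨⟨1, fun g => ?_⟩⟩⟩
      · have key : ∀ a : MulAction.fixedPoints Q N, (a : N) = 1 := by
          intro a
          have h5 : ((a : N) : G) ∈ N ⊓ Subgroup.centralizer (Q : Set G) := by
            refine ⟨(a : N).2, ?_⟩
            show ((a : N) : G) ∈ Subgroup.centralizer (Q : Set G)
            rw [Subgroup.mem_centralizer_iff]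
            intro y hy
            have h6 := a.2 (⟨y, hy⟩ : Q)
            have h7 : y * ((a : N) : G) * y⁻¹ = ((a : N) : G) := congrArg Subtype.val h6
            rw [mul_inv_eq_iff_eq_mul] at h7
            exact h7
          rw [hC, Subgroup.mem_bot] at h5
          exact Subtype.ext h5
        apply Subtype.ext
        rw [key a, key b]
      · show φ g 1 = 1
        exact map_one _
    have hmod := hQq.card_modEq_card_fixedPoints N
    rw [hfix] at hmod
    refine ⟨hmod, ?_⟩
    rintro rfl
    have hd : q ∣ Nat.card N := by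
      obtain ⟨n, hn⟩ := IsPGroup.iff_card.mp hLp
      rcases Nat.eq_zero_or_pos n with h0 | h0
      · rw [h0, pow_zero] at hn
        exact absurd (Subgroup.card_eq_one.mp hn) hNb
      · rw [hn]; exact dvd_pow_self q h0.ne'
    have h5 : Nat.card N % q = 1 % q := hmod
    rw [Nat.mod_eq_zero_of_dvd hd, Nat.mod_eq_of_lt hp.out.one_lt] at h5
    exact absurd h5 (by norm_num)

end

end Cfsg.Agent.H1.Prim
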