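import Mathlib
import Cfsg.Agent.H1_Prim

set_option autoImplicit false

open Pointwise
open Cfsg.Agent.H1.Basic Cfsg.Agent.H1.Nilp Cfsg.Agent.H1.Hall Cfsg.Agent.H1.FratFit
open Cfsg.Agent.H1.SZ Cfsg.Agent.H1.HC

namespace Cfsg.Agent.H1.Prim

section

variable {G : Type*} [Group G] {Ω : Type*} [MulAction G Ω]

theorem pretransitive_of_normal [FaithfulSMul G Ω] (hprim : MulAction.IsPreprimitive G Ω)
    (M : Subgroup G) [M.Normal] (hM : M ≠ ⊥) : MulAction.IsPretransitive M Ω := by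
  apply MulAction.IsQuasiPreprimitive.isPretransitive_of_normal (G := G)
  intro h
  apply hM
  rw [eq_bot_iff]
  intro m hm
  rw [Subgroup.mem_bot]
  apply FaithfulSMul.eq_of_smul_eq_smul (α := Ω)
  intro ω
  have h1 : ω ∈ MulAction.fixedPoints M Ω := by rw [h]; trivial
  have h2 := h1 ⟨m, hm⟩
  rw [one_smul]
  exact h2

theorem stabilizer_eq_bot [FaithfulSMul G Ω] (M : Subgroup G) [hc : IsMulCommutative M]
    (ht : MulAction.IsPretransitive M Ω) (ω : Ω) : MulAction.stabilizer M ω = ⊥ := by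
  rw [eq_bot_iff]
  intro m hm
  rw [MulAction.mem_stabilizer_iff] at hm
  rw [Subgroup.mem_bot]
  apply Subtype.ext
  apply FaithfulSMul.eq_of_smul_eq_smul (α := Ω)
  intro ω'
  obtain ⟨n, rfl⟩ := ht.exists_smul_eq ω ω'
  show m • n • ω = (1 : G) • n • ω
  rw [one_smul, smul_smul, hc.is_comm.comm m n, ← smul_smul, hm]

/-- S0547 -/
theorem galois_aux [Finite G] [Group.IsSolvable G] [Nonempty Ω] [FaithfulSMul G Ω]
    (hprim : MulAction.IsPreprimitive G Ω) (M : Subgroup G) [M.Normal] (hM : M ≠ ⊥)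
    (hmin : ∀ K : Subgroup G, K.Normal → K ≤ M → K = ⊥ ∨ K = M) :
    MulAction.IsPretransitive M Ω ∧ (∀ ω : Ω, MulAction.stabilizer M ω = ⊥) ∧
      ∃ p d : ℕ, p.Prime ∧ 0 < d ∧ Nat.card Ω = p ^ d ∧ Nat.card M = p ^ d := by
  have h1 := pretransitive_of_normal hprim M hM
  obtain ⟨hc, p, hp, hpe⟩ := minimal_normal_elementary M hM hmin
  have hpf : Fact p.Prime := ⟨hp⟩
  have h2 : ∀ ω : Ω, MulAction.stabilizer M ω = ⊥ := stabilizer_eq_bot M h1
  refine ⟨h1, h2, ?_⟩
  obtain ⟨d, hd⟩ := IsPGroup.iff_card.mp (isPGroup_of_pow_eq_one hpe)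
  have hd0 : 0 < d := by
    rcases Nat.eq_zero_or_pos d with h0 | h0
    · rw [h0, pow_zero] at hd
      exact absurd (Subgroup.card_eq_one.mp hd) hM
    · exact h0
  obtain ⟨ω⟩ := ‹Nonempty Ω›
  refine ⟨p, d, hp, hd0, ?_, hd⟩
  rw [← MulAction.index_stabilizer_of_transitive M ω, h2 ω, Subgroup.index_bot, hd]

/-- S0548 -/
theorem galois_compl [Finite G] [Group.IsSolvable G] [FaithfulSMul G Ω]
    (hprim : MulAction.IsPreprimitive G Ω) (M : Subgroup G) [hMn : M.Normal] (hM : M ≠ ⊥)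
    (hmin : ∀ K : Subgroup G, K.Normal → K ≤ M → K = ⊥ ∨ K = M) (ω : Ω) :
    Subgroup.IsComplement' M (MulAction.stabilizer G ω) ∧
      MulAction.stabilizer G ω ⊓ Subgroup.centralizer (M : Set G) = ⊥ ∧
      ∀ K : Subgroup G, K ≤ M → MulAction.stabilizer G ω ≤ Subgroup.normalizer (K : Set G) →
        K = ⊥ ∨ K = M := by
  have h1 := pretransitive_of_normal hprim M hM
  obtain ⟨hc, p, hp, hpe⟩ := minimal_normal_elementary M hM hmin
  have h2 : ∀ ω : Ω, MulAction.stabilizer M ω = ⊥ := stabilizer_eq_bot M h1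
  have hsup : M ⊔ MulAction.stabilizer G ω = ⊤ := by
    rw [eq_top_iff]
    intro g _
    obtain ⟨m, hm⟩ := h1.exists_smul_eq ω (g • ω)
    have h3 : (m : G)⁻¹ * g ∈ MulAction.stabilizer G ω := by
      rw [MulAction.mem_stabilizer_iff, ← smul_smul, ← hm]
      show (m : G)⁻¹ • (m : G) • ω = ω
      rw [inv_smul_smul]
    have h4 : g = (m : G) * ((m : G)⁻¹ * g) := by group
    rw [h4]
    exact Subgroup.mul_mem _ (Subgroup.mem_sup_left m.2) (Subgroup.mem_sup_right h3)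
  have hinf : M ⊓ MulAction.stabilizer G ω = ⊥ := by
    rw [eq_bot_iff]
    rintro x ⟨hx1, hx2⟩
    have h3 : (⟨x, hx1⟩ : M) ∈ MulAction.stabilizer M ω := hx2
    rw [h2 ω, Subgroup.mem_bot] at h3
    exact congrArg Subtype.val h3
  refine ⟨isComplement'_of_sup_inf hsup hinf, ?_, ?_⟩
  · rw [eq_bot_iff]
    rintro x ⟨hx1, hx2⟩
    rw [Subgroup.mem_bot]
    apply FaithfulSMul.eq_of_smul_eq_smul (α := Ω)
    intro ω'
    obtain ⟨n, rfl⟩ := h1.exists_smul_eq ω ω'
    have h3 : (n : G) * x = x * n := Subgroup.mem_centralizer_iff.mp hx2 n n.2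
    show x • (n : G) • ω = (1 : G) • (n : G) • ω
    rw [one_smul, smul_smul, ← h3, ← smul_smul]
    have h4 : x • ω = ω := hx1
    rw [h4]
  · intro K hKM hK
    apply hmin K _ hKM
    apply normal_of_sup_le_normalizer hsup _ hK
    have h3 : M ≤ Subgroup.centralizer (K : Set G) := by
      rw [Subgroup.le_centralizer_iff]
      exact hKM.trans (Subgroup.le_centralizer_iff_isMulCommutative.mpr hc)
    exact h3.trans (Subgroup.centralizer_le_normalizer _)

end

end Cfsg.Agent.H1.Prim
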