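import Mathlib
import Cfsg.Agent.H13_SP
import Cfsg.Agent.H13_RO

set_option autoImplicit false
set_option linter.all false

/-! Special rank one groups with elementary abelian unipotents: `β(z^n)^n = β(z)`. -/

namespace Cfsg.Agent.H1.Rs

open Cfsg Cfsg.Agent.H13.RO Cfsg.Agent.H13.SP

variable {G : Type*} [Group G]

theorem pow_ne_one' {p : ℕ} (hp : p.Prime) {n : ℕ} (hn : 1 ≤ n) (hnp : n < p) {x : G} (hxp : x ^ p = 1) (hx : x ≠ 1) :
    x ^ n ≠ 1 := by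
  intro h
  apply hx
  have h1 : orderOf x ∣ n := orderOf_dvd_of_pow_eq_one h
  have h2 : orderOf x ∣ p := orderOf_dvd_of_pow_eq_one hxp
  rcases (Nat.dvd_prime hp).1 h2 with h3 | h3
  · exact orderOf_eq_one_iff.1 h3
  · rw [h3] at h1
    have := Nat.le_of_dvd (by omega) h1
    omega

theorem uniqB {A B : Subgroup G} (hs : IsSpecialRankOnePair A B) {b c : G} (hb : b ∈ B) (hc : c ∈ B)
    (h : conjBy A b = conjBy A c) : b = c :=
  unique_gen (symm hs.1) left_mem (right_mem (symm hs.1)) (symm hs.1).ne.symm hb hc h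

theorem pw {p : ℕ} (hp : p.Prime) (n : ℕ) (hn : 1 ≤ n) (hnp : n < p) : ∀ (A B : Subgroup G), IsSpecialRankOnePair A B →
    (∀ x ∈ A, ∀ y ∈ A, x * y = y * x) → (∀ x ∈ B, ∀ y ∈ B, x * y = y * x) →
    (∀ x ∈ A, x ^ p = 1) → (∀ x ∈ B, x ^ p = 1) →
    ∀ z b c : G, z ∈ A → z ≠ 1 → b ∈ B → b ≠ 1 → conjBy A b = conjBy B z → c ∈ B → c ≠ 1 →
      conjBy A c = conjBy B (z ^ n) → c ^ n = b := by
  induction n, hn using Nat.le_induction with
  | base =>
    intro A B hs hAc hBc hAp hBp z b c hz hz1 hb hb1 hbe hc hc1 hce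
    rw [pow_one] at hce ⊢
    exact uniqB hs hc hb (hce.trans hbe.symm)
  | succ n hn ih =>
    intro A B hs hAc hBc hAp hBp z b c hz hz1 hb hb1 hbe hc hc1 hce
    have ih' := ih (by omega)
    have hzn : z ^ n ≠ 1 := pow_ne_one' hp hn (by omega) (hAp z hz) hz1
    have hzn1 : z ^ (n + 1) ≠ 1 := pow_ne_one' hp (by omega) hnp (hAp z hz) hz1
    have hbn1 : b ^ (n + 1) ≠ 1 := pow_ne_one' hp (by omega) hnp (hBp b hb) hb1
    obtain ⟨d, hd, hd1, hde⟩ := cond hs.1 (A.pow_mem hz n) hzn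
    have hdn := ih' A B hs hAc hBc hAp hBp z b d hz hz1 hb hb1 hbe hd hd1 hde
    have e1 : z ^ n * z = z ^ (n + 1) := (pow_succ z n).symm
    obtain ⟨f1, f2, f3⟩ := F1 hs hAc (A.pow_mem hz n) hz hzn hz1 (by rw [e1]; exact hzn1) hd hd1 hde hb hb1 hbe
      hc hc1 (by rw [e1]; exact hce)
    have hm := mu_B hs hz hz1 hb hb1 hbe
    have hmA := mu_A hs hz hz1 hb hb1 hbe
    have hrel := rel1 hs hz hz1 hb hb1 hbe
    have ma := mu_a hrel
    have mb := mu_b hrel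
    set μ := mu z b with hμ
    set g := μ * c * μ⁻¹ with hg
    have hgA : g ∈ A := conj_mem_of hm hc
    have hg1 : g ≠ 1 := by
      intro h
      apply hc1
      have : c = μ⁻¹ * g * μ := by rw [hg]; group
      rw [this, h]; group
    have hw : b * d ∈ B := B.mul_mem hb hd
    have hzg1 : z * g ≠ 1 := by
      intro h
      rw [h, cj_one] at f3
      have h2 : conjBy A (b * d) = conjBy B (b * d) := f3.trans (cj_self hw).symm
      exact hs.1.ne (cj_inj h2)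
    have hwn : (b * d) ^ n = b ^ (n + 1) := by
      rw [mul_pow_comm hBc hb hd, hdn, ← pow_succ]
    have h5 : conjBy B g = conjBy A (b ^ (n + 1))⁻¹ := by
      have e2 : μ * z ^ (n + 1) = (b ^ (n + 1))⁻¹ * μ := by
        have : (μ * z * μ⁻¹) ^ (n + 1) = (b⁻¹) ^ (n + 1) := by rw [ma]
        rw [conj_pow', inv_pow] at this
        rw [← this]; group
      have e3 : g * μ = μ * c := by rw [hg]; group
      calc conjBy B g = conjBy (conjBy A μ) g := by rw [hmA]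
        _ = conjBy A (μ * c) := by rw [cj_mul, e3]
        _ = conjBy (conjBy B (z ^ (n + 1))) μ := by rw [← hce, cj_mul]
        _ = conjBy (conjBy B μ) (b ^ (n + 1))⁻¹ := by rw [cj_mul, e2, ← cj_mul]
        _ = conjBy A (b ^ (n + 1))⁻¹ := by rw [hm]
    have hss := special_symm hs
    have h6 := inv_cond hss (B.inv_mem (B.pow_mem hb (n + 1))) (inv_ne_one.2 hbn1) hgA hg1 h5
    rw [inv_inv] at h6
    have h7 := ih' B A hss hBc hAc hBp hAp (b * d) (z * g) g⁻¹ hw f2 f1 hzg1 f3.symm (A.inv_mem hgA)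
      (inv_ne_one.2 hg1) (by rw [hwn]; exact h6)
    have h8 : g ^ (n + 1) = z⁻¹ := by
      rw [← inv_inj, inv_inv, pow_succ, mul_inv_rev, ← inv_pow, h7, hAc z hz g hgA]
      group
    rw [hg, conj_pow', ← mb] at h8
    have h9 := congrArg (fun x => μ⁻¹ * x * μ) h8
    simpa [mul_assoc] using h9

theorem expB {p : ℕ} {A B : Subgroup G} (hs : IsSpecialRankOnePair A B) (hAp : ∀ x ∈ A, x ^ p = 1) :
    ∀ x ∈ B, x ^ p = 1 := by
  intro b hb
  by_cases hb1 : b = 1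
  · rw [hb1, one_pow]
  obtain ⟨a, ha, ha1, hae⟩ := exα hs.1 hb hb1
  have h1 := mu_a (rel1 hs ha ha1 hb hb1 hae)
  have h2 := congrArg (fun x => x ^ p) h1
  simp only [conj_pow', hAp a ha, inv_pow] at h2
  rw [← inv_inj, ← h2]; group

section E

variable {p : ℕ} [Fact p.Prime]

/-- powers with exponents in `ZMod p` -/
def E (x : G) (t : ZMod p) : G := x ^ t.val

theorem E_add {x : G} (hx : x ^ p = 1) (t u : ZMod p) : E x (t + u) = E x t * E x u := by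
  rw [E, E, E, ← pow_add, ZMod.val_add, ← pow_eq_pow_mod _ hx]

theorem E_mul {x : G} (hx : x ^ p = 1) (t u : ZMod p) : E x (t * u) = E (E x t) u := by
  rw [E, E, E, ← pow_mul, ZMod.val_mul, ← pow_eq_pow_mod _ hx]

theorem E_one (x : G) : E x (1 : ZMod p) = x := by
  rw [E, ZMod.val_one, pow_one]

theorem E_zero (x : G) : E x (0 : ZMod p) = 1 := by
  rw [E, ZMod.val_zero, pow_zero]

theorem E_neg {x : G} (hx : x ^ p = 1) (t : ZMod p) : E x (-t) = (E x t)⁻¹ := by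
  rw [eq_inv_iff_mul_eq_one, ← E_add hx, neg_add_cancel, E_zero]

theorem E_pow {x : G} (hx : x ^ p = 1) (t : ZMod p) : (E x t) ^ p = 1 := by
  rw [E, ← pow_mul, mul_comm, pow_mul, hx, one_pow]

theorem E_inv (x : G) (t : ZMod p) : E x⁻¹ t = (E x t)⁻¹ := by
  rw [E, E, inv_pow]

theorem E_conj (g x : G) (t : ZMod p) : E (g * x * g⁻¹) t = g * E x t * g⁻¹ := by
  rw [E, E, conj_pow']

theorem E_ne {x : G} (hx : x ^ p = 1) (hx1 : x ≠ 1) {t : ZMod p} (ht : t ≠ 0) : E x t ≠ 1 := by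
  intro h
  apply hx1
  have := E_mul hx t t⁻¹
  rw [mul_inv_cancel₀ ht, E_one, h] at this
  rw [this, E, one_pow]

theorem E_mem {x : G} {A : Subgroup G} (hx : x ∈ A) (t : ZMod p) : E x t ∈ A := A.pow_mem hx _

theorem claim {A B : Subgroup G} (hs : IsSpecialRankOnePair A B)
    (hAc : ∀ x ∈ A, ∀ y ∈ A, x * y = y * x) (hBc : ∀ x ∈ B, ∀ y ∈ B, x * y = y * x)
    (hAp : ∀ x ∈ A, x ^ p = 1) (hBp : ∀ x ∈ B, x ^ p = 1) {a b : G} (ha : a ∈ A) (ha1 : a ≠ 1) (hb : b ∈ B) (hb1 : b ≠ 1)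
    (hbe : conjBy A b = conjBy B a) {s : ZMod p} (hs0 : s ≠ 0) : conjBy A (E b s⁻¹) = conjBy B (E a s) := by
  obtain ⟨c, hc, hc1, hce⟩ := cond hs.1 (E_mem ha s) (E_ne (hAp a ha) ha1 hs0)
  have h1 : 1 ≤ s.val := Nat.one_le_iff_ne_zero.2 (fun h => hs0 ((ZMod.val_eq_zero s).1 h))
  have h2 := pw (Fact.out : p.Prime) s.val h1 (ZMod.val_lt s) A B hs hAc hBc hAp hBp a b c ha ha1 hb hb1 hbe hc hc1 hce
  have h3 : E c s = b := h2
  have h4 : E b s⁻¹ = c := by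
    rw [← h3, ← E_mul (hBp c hc), mul_inv_cancel₀ hs0, E_one]
  rw [h4, hce]

theorem key {A B : Subgroup G} (hs : IsSpecialRankOnePair A B) {a b : G} (ha : a ∈ A) (ha1 : a ≠ 1) (hb : b ∈ B) (hb1 : b ≠ 1)
    (hap : a ^ p = 1) (hbp : b ^ p = 1)
    (C : ∀ s : ZMod p, s ≠ 0 → conjBy A (E b s⁻¹) = conjBy B (E a s)) {t : ZMod p} (ht : t ≠ 0) (u : ZMod p) :
    (E a t * E b (-t⁻¹) * E a t) * E a u * (E a t * E b (-t⁻¹) * E a t)⁻¹ * (E b (-(t⁻¹ ^ 2 * u)))⁻¹ = 1 := by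
  have ht' : -t ≠ 0 := neg_ne_zero.2 ht
  have h1 := rel1 hs (E_mem ha (-t)) (E_ne hap ha1 ht') (E_mem hb (-t)⁻¹) (E_ne hbp hb1 (inv_ne_zero ht')) (C _ ht')
  have h2 := mu_a h1
  have h3 : mu (E a (-t)) (E b (-t)⁻¹) = E a t * E b (-t⁻¹) * E a t := by
    rw [mu, E_neg hap, inv_inv, inv_neg]
  rw [h3] at h2
  set w := E a t * E b (-t⁻¹) * E a t with hw
  have h4 : E a u = E (E a (-t)) ((-t)⁻¹ * u) := by
    rw [← E_mul hap, ← mul_assoc, mul_inv_cancel₀ ht', one_mul]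
  have h5 : w * E a u * w⁻¹ = E b (-(t⁻¹ ^ 2 * u)) := by
    rw [h4, ← E_conj, h2, E_inv, ← E_neg (E_pow hbp _), ← E_mul hbp]
    congr 1
    rw [inv_neg]; ring
  rw [h5, mul_inv_cancel]

end E

end Cfsg.Agent.H1.Rs
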