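import Mathlib
import Cfsg.Agent.H1_Super5

set_option autoImplicit false

open Pointwise
open scoped commutatorElement
open Cfsg.Agent.H1.Basic Cfsg.Agent.H1.Nilp Cfsg.Agent.H1.Hall Cfsg.Agent.H1.SZ Cfsg.Agent.H1.HC
open Cfsg.Agent.H1.FratFit Cfsg.Agent.H1.Schmidt Cfsg.Agent.H1.Super Cfsg.Agent.H1.Wiel

namespace Cfsg.Agent.H1.Super5

universe u

section

variable {G : Type*} [Group G]

theorem comap_map_mk_of_le {N H : Subgroup G} [N.Normal] (h : N ≤ H) :
    (H.map (QuotientGroup.mk' N)).comap (QuotientGroup.mk' N) = H := by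
  rw [Subgroup.comap_map_eq, QuotientGroup.ker_mk', sup_eq_left.mpr h]

theorem card_map_mk_mul [Finite G] {N H : Subgroup G} [N.Normal] (h : N ≤ H) :
    Nat.card (H.map (QuotientGroup.mk' N)) * Nat.card N = Nat.card H := by
  rw [← card_comap_mk, comap_map_mk_of_le h]

theorem ss_map {G' : Type*} [Group G'] (f : G →* G') {H : Subgroup G}
    (h : Cfsg.IsSupersolvable H) : Cfsg.IsSupersolvable (H.map f) :=
  ss_of_surjective h (f.subgroupMap H) (f.subgroupMap_surjective H)

theorem ss_subgroupOf {H L : Subgroup G} (hHL : H ≤ L)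
    (h : Cfsg.IsSupersolvable H) : Cfsg.IsSupersolvable (H.subgroupOf L) :=
  ss_mulEquiv (Subgroup.subgroupOfEquivOfLe hHL).symm h

theorem ss_conj {H : Subgroup G} (g : G) (h : Cfsg.IsSupersolvable H) :
    Cfsg.IsSupersolvable (MulAut.conj g • H : Subgroup G) :=
  ss_mulEquiv (Subgroup.equivSMul (MulAut.conj g) H) h

/-- normal Sylow subgroup of a supersolvable Hall subgroup -/
theorem exists_sylow_le [Finite G] {H : Subgroup G} (hH : Cfsg.IsSupersolvable H)
    (hHall : (Nat.card H).Coprime H.index) {p : ℕ} [hp : Fact p.Prime] (hpd : p ∣ Nat.card H)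
    (hmax : ∀ q : ℕ, q.Prime → q ∣ Nat.card H → q ≤ p) :
    ∃ P : Sylow p G, (P : Subgroup G) ≤ H ∧ H ≤ Subgroup.normalizer ((P : Subgroup G) : Set G) := by
  let Q : Sylow p H := default
  have hQn := sylow_normal hH p hmax Q
  set Q' := (Q : Subgroup H).map H.subtype with hQ'
  have hQ'p : IsPGroup p Q' := Q.2.map _
  have hidx : ¬ p ∣ Q'.index := by
    rw [hQ', Subgroup.index_map_subtype]
    intro h1
    rcases hp.out.dvd_mul.mp h1 with h2 | h2
    · exact Q.not_dvd_index h2
    · exact hp.out.one_lt.ne' (Nat.eq_one_of_dvd_coprimes hHall hpd h2)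
  refine ⟨hQ'p.toSylow hidx, Subgroup.map_subtype_le _, ?_⟩
  have h1 : H ≤ Subgroup.normalizer (Q' : Set G) := by
    rw [← Subgroup.normal_subgroupOf_iff_le_normalizer (Subgroup.map_subtype_le _),
      Subgroup.subgroupOf, Subgroup.comap_map_eq_self_of_injective H.subtype_injective]
    exact hQn
  exact h1

end

/-- S0582 -/
theorem ss_hall_conj_aux (n : ℕ) : ∀ (G : Type u) [Group G] [Finite G], Nat.card G = n →
    ∀ (H K : Subgroup G), Cfsg.IsSupersolvable H → Cfsg.IsSupersolvable K →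
    Nat.card H = Nat.card K → (Nat.card H).Coprime H.index → ∃ x : G, MulAut.conj x • H = K := by
  induction n using Nat.strong_induction_on with | _ n ih => ?_
  intro G _ _ hG H K hH hK hcard hHall
  have hKidx : K.index = H.index := by
    have h1 := H.card_mul_index
    have h2 := K.card_mul_index
    rw [← hcard, ← h1] at h2
    exact Nat.eq_of_mul_eq_mul_left Nat.card_pos h2
  by_cases hHb : Nat.card H = 1
  · refine ⟨1, ?_⟩
    have h1 : H = ⊥ := Subgroup.card_eq_one.mp hHb
    have h2 : K = ⊥ := Subgroup.card_eq_one.mp (hcard ▸ hHb)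
    rw [conj_one, h1, h2]
  have hne : (Nat.card H).primeFactors.Nonempty := by
    rw [Nat.nonempty_primeFactors]
    have : 0 < Nat.card H := Nat.card_pos
    omega
  obtain ⟨p, hpdef⟩ : ∃ p, p = (Nat.card H).primeFactors.max' hne := ⟨_, rfl⟩
  have hpm : p ∈ (Nat.card H).primeFactors := hpdef ▸ Finset.max'_mem _ hne
  have hp : p.Prime := Nat.prime_of_mem_primeFactors hpm
  have hpd : p ∣ Nat.card H := Nat.dvd_of_mem_primeFactors hpm
  have hmax : ∀ q : ℕ, q.Prime → q ∣ Nat.card H → q ≤ p := fun q hq hqd => by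
    rw [hpdef]
    exact Finset.le_max' _ q (Nat.mem_primeFactors.mpr ⟨hq, hqd, Nat.card_pos.ne'⟩)
  have hpf : Fact p.Prime := ⟨hp⟩
  obtain ⟨P, hPH, hPn⟩ := exists_sylow_le hH hHall hpd hmax
  obtain ⟨Q, hQK, hQn⟩ := exists_sylow_le hK (by rw [← hcard, hKidx]; exact hHall)
    (hcard ▸ hpd) (fun q hq hqd => hmax q hq (hcard ▸ hqd))
  obtain ⟨g, hg⟩ := MulAction.exists_smul_eq G P Q
  have hg' : MulAut.conj g • (P : Subgroup G) = Q := by
    rw [← hg, Sylow.coe_subgroup_smul]
  set H₁ := MulAut.conj g • H with hH₁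
  have hQH₁ : (Q : Subgroup G) ≤ H₁ := by rw [← hg']; exact conj_le_conj.mpr hPH
  have hH₁n : H₁ ≤ Subgroup.normalizer ((Q : Subgroup G) : Set G) := by
    intro x hx
    have hx' : g⁻¹ * x * g ∈ H := mem_conj.mp hx
    have h1 := conj_eq_iff_mem_normalizer.mpr (hPn hx')
    rw [← conj_eq_iff_mem_normalizer, ← hg', conj_conj]
    have h2 : x * g = g * (g⁻¹ * x * g) := by group
    rw [h2, ← conj_conj, h1]
  set L := Subgroup.normalizer ((Q : Subgroup G) : Set G) with hL
  have hQL : (Q : Subgroup G) ≤ L := Subgroup.le_normalizer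
  set Q' := (Q : Subgroup G).subgroupOf L with hQ'
  have hQ'n : Q'.Normal := Subgroup.normal_in_normalizer
  have hQb : (Q : Subgroup G) ≠ ⊥ := by
    intro hb
    have h1 := Q.card_eq_multiplicity
    rw [hb, Subgroup.card_bot] at h1
    have hpG : p ∣ Nat.card G := hpd.trans (Subgroup.card_subgroup_dvd_card H)
    have h2 := hp.factorization_pos_of_dvd Nat.card_pos.ne' hpG
    have h3 := Nat.one_lt_pow h2.ne' hp.one_lt
    omega
  have hQ'b : Q' ≠ ⊥ := by
    intro h1
    apply hQb
    rw [← Subgroup.card_eq_one, ← card_subgroupOf hQL]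
    exact Subgroup.card_eq_one.mpr h1
  have hlt : Nat.card (L ⧸ Q') < n := by
    rw [← hG]
    exact (card_quotient_lt hQ'b).trans_le (Subgroup.card_le_card_group L)
  set π := QuotientGroup.mk' Q' with hπ
  have hπs : Function.Surjective π := QuotientGroup.mk'_surjective Q'
  set A := H₁.subgroupOf L with hA
  set B := K.subgroupOf L with hB
  have hQA : Q' ≤ A := Subgroup.comap_mono hQH₁
  have hQB : Q' ≤ B := Subgroup.comap_mono hQK
  have hcA : Nat.card A = Nat.card H := by rw [hA, card_subgroupOf hH₁n, hH₁, card_conj]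
  have hcB : Nat.card B = Nat.card K := by rw [hB, card_subgroupOf hQn]
  have hcAB : Nat.card (A.map π) = Nat.card (B.map π) := by
    have h1 := card_map_mk_mul hQA
    have h2 := card_map_mk_mul hQB
    rw [hcA, hcard, ← hcB, ← h2] at h1
    exact Nat.eq_of_mul_eq_mul_right Nat.card_pos h1
  have hcopA : (Nat.card A).Coprime A.index := by
    rw [hcA]
    apply Nat.Coprime.coprime_dvd_right _ hHall
    have h1 : A.index ∣ H₁.index := by
      rw [hA]
      exact Subgroup.relIndex_dvd_index_of_le hH₁n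
    have h2 : H₁.index = H.index := by
      have e1 := H₁.card_mul_index
      have e2 := H.card_mul_index
      rw [hH₁, card_conj] at e1
      rw [← e2] at e1
      exact Nat.eq_of_mul_eq_mul_left Nat.card_pos e1
    rwa [h2] at h1
  obtain ⟨x, hx⟩ := ih _ hlt (L ⧸ Q') rfl (A.map π) (B.map π)
    (ss_map π (ss_subgroupOf hH₁n (ss_conj g hH))) (ss_map π (ss_subgroupOf hQn hK)) hcAB
    (coprime_map π hπs hcopA)
  obtain ⟨l, rfl⟩ := hπs x
  have h1 := conj_of_map_conj π l hx
  rw [hπ, QuotientGroup.ker_mk', sup_eq_left.mpr hQA, sup_eq_left.mpr hQB] at h1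
  have h2 := conj_of_subgroupOf hH₁n hQn l h1
  rw [hH₁, conj_conj] at h2
  exact ⟨_, h2⟩

theorem ss_hall_conj {G : Type*} [Group G] [Finite G] (H K : Subgroup G)
    (hH : Cfsg.IsSupersolvable H) (hK : Cfsg.IsSupersolvable K) (hcard : Nat.card H = Nat.card K)
    (hHall : (Nat.card H).Coprime H.index) : ∃ x : G, MulAut.conj x • H = K :=
  ss_hall_conj_aux _ G rfl H K hH hK hcard hHall

end Cfsg.Agent.H1.Super5
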