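import Cfsg.Agent.H8_Act2
import Cfsg.Agent.H8_Cox

/-!
Groups with two generators and named subwords: presentations, actions on cosets.
-/

set_option autoImplicit false
set_option maxRecDepth 100000

namespace Cfsg.Agent.H20.PG

open Cfsg.Agent.H8 Cfsg.Agent.H8.CE Cfsg.Agent.H8.Net Cfsg.Agent.H8.Act Cfsg.Agent.H8.Cox Cfsg.Agent.H8.Act2

inductive Gen | a | b

/-- letters 1 = a, 2 = b, 3 = b⁻¹ -/
def f3 (y : ℕ) : FreeGroup Gen :=
  if y = 1 then FreeGroup.of .a else if y = 2 then FreeGroup.of .b else if y = 3 then (FreeGroup.of .b)⁻¹ else 1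

/-- letters 4, 5 and 6, 7 are two words and their inverses -/
def lm2 (wc wd : List ℕ) : List (FreeGroup Gen) :=
  [1, FreeGroup.of .a, FreeGroup.of .b, (FreeGroup.of .b)⁻¹, ev f3 wc, (ev f3 wc)⁻¹, ev f3 wd, (ev f3 wd)⁻¹]

/-- inverse letters -/
def ic : ℕ := 1732584208

/-- the relators -/
def RR (wc wd : List ℕ) (rels : List (List ℕ)) : Set (FreeGroup Gen) :=
  {r | ∃ w ∈ rels, r = ev (fun y => (lm2 wc wd).getD y 1) w}

/-- conditions on the data -/
structure Good (wc wd : List ℕ) (rels : List (List ℕ)) : Prop where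
  sq : [1, 1] ∈ rels
  hc : wc ++ [5] ∈ rels
  hd : wd ++ [7] ∈ rels
  lc : ∀ y ∈ wc, y ∈ ([1, 2, 3] : List ℕ)
  ld : ∀ y ∈ wd, y ∈ ([1, 2, 3] : List ℕ)

theorem ev_congr' {K : Type*} [Group K] {x x' : ℕ → K} : ∀ w : List ℕ, (∀ y ∈ w, x y = x' y) → ev x w = ev x' w
  | [], _ => rfl
  | y :: w, h => by
    rw [ev_cons, ev_cons, h y List.mem_cons_self, ev_congr' w fun y hy => h y (List.mem_cons_of_mem _ hy)]

theorem lift_ev {K : Type*} [Group K] (f : Gen → K) (g : ℕ → FreeGroup Gen) (w : List ℕ) :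
    FreeGroup.lift f (ev g w) = ev (fun y => FreeGroup.lift f (g y)) w := by
  induction w with
  | nil => simp
  | cons y w ih => rw [ev_cons, ev_cons, map_mul, ih]

/-- the letters in a group -/
def xL {K : Type*} [Group K] (f : Gen → K) (wc wd : List ℕ) (y : ℕ) : K := FreeGroup.lift f ((lm2 wc wd).getD y 1)

section
variable {K : Type*} [Group K] (f : Gen → K) {wc wd : List ℕ} {rels : List (List ℕ)}

theorem xL1 : xL f wc wd 1 = f .a := by simp [xL, lm2]
theorem xL2 : xL f wc wd 2 = f .b := by simp [xL, lm2]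
theorem xL3 : xL f wc wd 3 = (f .b)⁻¹ := by simp [xL, lm2]
theorem xL0 : xL f wc wd 0 = 1 := by simp [xL, lm2]

theorem xL_f3 : ∀ y ∈ ([1, 2, 3] : List ℕ), FreeGroup.lift f (f3 y) = xL f wc wd y := by
  intro y hy
  simp only [List.mem_cons, List.not_mem_nil, or_false] at hy
  rcases hy with rfl | rfl | rfl <;> simp [f3, xL, lm2]

theorem xL4 (hw : ∀ y ∈ wc, y ∈ ([1, 2, 3] : List ℕ)) : xL f wc wd 4 = ev (xL f wc wd) wc := by
  have h : xL f wc wd 4 = FreeGroup.lift f (ev f3 wc) := rfl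
  rw [h, lift_ev]
  exact ev_congr' wc fun y hy => xL_f3 f y (hw y hy)

theorem xL6 (hw : ∀ y ∈ wd, y ∈ ([1, 2, 3] : List ℕ)) : xL f wc wd 6 = ev (xL f wc wd) wd := by
  have h : xL f wc wd 6 = FreeGroup.lift f (ev f3 wd) := rfl
  rw [h, lift_ev]
  exact ev_congr' wd fun y hy => xL_f3 f y (hw y hy)

theorem xL5 : xL f wc wd 5 = (xL f wc wd 4)⁻¹ := by
  show FreeGroup.lift f (ev f3 wc)⁻¹ = _
  rw [map_inv]; rfl

theorem xL7 : xL f wc wd 7 = (xL f wc wd 6)⁻¹ := by
  show FreeGroup.lift f (ev f3 wd)⁻¹ = _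
  rw [map_inv]; rfl

theorem xL8 {y : ℕ} (hy : 8 ≤ y) : xL f wc wd y = 1 := by
  unfold xL
  rw [List.getD_eq_default _ _ (by simp [lm2]; omega), map_one]

theorem ev_xL (w : List ℕ) : ev (xL f wc wd) w = FreeGroup.lift f (ev (fun y => (lm2 wc wd).getD y 1) w) := by
  rw [lift_ev]; rfl

theorem words (hg : Good wc wd rels) (h2 : ∀ w ∈ rels, ev (xL f wc wd) w = 1) :
    ∀ y, y < 16 → xL f wc wd (il ic y) = (xL f wc wd y)⁻¹ := by
  have ha := h2 [1, 1] hg.sq
  rw [ev_cons, ev_cons, ev_nil, mul_one] at ha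
  intro y hy
  interval_cases y
  · rw [show il ic 0 = 0 by decide, xL0, inv_one]
  · rw [show il ic 1 = 1 by decide]; exact eq_inv_of_mul_eq_one_left ha
  · rw [show il ic 2 = 3 by decide, xL3, xL2]
  · rw [show il ic 3 = 2 by decide, xL3, xL2, inv_inv]
  · rw [show il ic 4 = 5 by decide, xL5]
  · rw [show il ic 5 = 4 by decide, xL5, inv_inv]
  · rw [show il ic 6 = 7 by decide, xL7]
  · rw [show il ic 7 = 6 by decide, xL7, inv_inv]
  · rw [show il ic 8 = 0 by decide, xL0, xL8 f (by norm_num), inv_one]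
  · rw [show il ic 9 = 0 by decide, xL0, xL8 f (by norm_num), inv_one]
  · rw [show il ic 10 = 0 by decide, xL0, xL8 f (by norm_num), inv_one]
  · rw [show il ic 11 = 0 by decide, xL0, xL8 f (by norm_num), inv_one]
  · rw [show il ic 12 = 0 by decide, xL0, xL8 f (by norm_num), inv_one]
  · rw [show il ic 13 = 0 by decide, xL0, xL8 f (by norm_num), inv_one]
  · rw [show il ic 14 = 0 by decide, xL0, xL8 f (by norm_num), inv_one]
  · rw [show il ic 15 = 0 by decide, xL0, xL8 f (by norm_num), inv_one]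

/-- relators hold -/
theorem lifts (hrels : ∀ w ∈ rels, ev (xL f wc wd) w = 1) : ∀ r ∈ RR wc wd rels, FreeGroup.lift f r = 1 := by
  rintro r ⟨w, hw, rfl⟩
  rw [← ev_xL]
  exact hrels w hw

/-- the homomorphism from the presented group -/
def toG (hrels : ∀ w ∈ rels, ev (xL f wc wd) w = 1) : PresentedGroup (RR wc wd rels) →* K :=
  PresentedGroup.toGroup (lifts f hrels)

theorem toG_x (hrels : ∀ w ∈ rels, ev (xL f wc wd) w = 1) (y : ℕ) :
    toG f hrels (xG (RR wc wd rels) (lm2 wc wd) y) = xL f wc wd y := rfl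

end

section
variable (wc wd : List ℕ) (rels : List (List ℕ))

theorem xG_eq' : xG (RR wc wd rels) (lm2 wc wd) = xL (PresentedGroup.of (rels := RR wc wd rels)) wc wd := xG_eq _ _

theorem hrels : ∀ w ∈ rels, ev (xG (RR wc wd rels) (lm2 wc wd)) w = 1 := by
  intro w hw
  rw [xG_eq', ev_xL]
  exact lift_of_rel _ _ ⟨w, hw, rfl⟩

variable {wc wd rels}

theorem hic (hg : Good wc wd rels) : ∀ y, y < 16 →
    xG (RR wc wd rels) (lm2 wc wd) (il ic y) = (xG (RR wc wd rels) (lm2 wc wd) y)⁻¹ := by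
  have h := hrels wc wd rels
  rw [xG_eq'] at h ⊢
  exact words _ hg h

theorem x0 : xG (RR wc wd rels) (lm2 wc wd) 0 = 1 := by
  rw [xG_eq', xL0]

/-- the action from the nets -/
theorem exists_act (hg : Good wc wd rels) {L : List Nt} {n k : ℕ}
    (hs : sysOk L n = true) (hn : n ≤ 2 ^ k) (hi : invOk L n k ic = true)
    (hr : eqAll L n k (rels.map fun w => (w, [])) = true) (hlt : ltOk rels = true)
    (h0 : net L 0 = .nil) (h8 : ∀ y, 8 ≤ y → y < 16 → net L y = .nil) :
    ∃ φ : PresentedGroup (RR wc wd rels) →* Equiv.Perm (Fin n), Compat φ (xG (RR wc wd rels) (lm2 wc wd)) L := by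
  have relP := relP_of hs hn hi hr hlt
  let f : Gen → Equiv.Perm (Fin n) := fun g => match g with
    | .a => xP hs hn hi 1
    | .b => xP hs hn hi 2
  have i2 : xP hs hn hi 3 = (xP hs hn hi 2)⁻¹ := by
    have := xP_il hs hn hi 2 (by decide)
    rwa [show il ic 2 = 3 by decide] at this
  have i4 : xP hs hn hi 5 = (xP hs hn hi 4)⁻¹ := by
    have := xP_il hs hn hi 4 (by decide)
    rwa [show il ic 4 = 5 by decide] at this
  have i6 : xP hs hn hi 7 = (xP hs hn hi 6)⁻¹ := by
    have := xP_il hs hn hi 6 (by decide)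
    rwa [show il ic 6 = 7 by decide] at this
  have e1 : xL f wc wd 1 = xP hs hn hi 1 := xL1 f
  have e2 : xL f wc wd 2 = xP hs hn hi 2 := xL2 f
  have e3 : xL f wc wd 3 = xP hs hn hi 3 := by rw [i2, xL3]
  have e123 : ∀ y ∈ ([1, 2, 3] : List ℕ), xL f wc wd y = xP hs hn hi y := by
    intro y hy
    simp only [List.mem_cons, List.not_mem_nil, or_false] at hy
    rcases hy with rfl | rfl | rfl
    exacts [e1, e2, e3]
  have e4 : xL f wc wd 4 = xP hs hn hi 4 := by
    rw [xL4 f hg.lc, ev_congr' wc fun y hy => e123 y (hg.lc y hy)]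
    have h := relP _ hg.hc
    rw [ev_append, ev_cons, ev_nil, mul_one, i4] at h
    exact mul_inv_eq_one.1 h
  have e6 : xL f wc wd 6 = xP hs hn hi 6 := by
    rw [xL6 f hg.ld, ev_congr' wd fun y hy => e123 y (hg.ld y hy)]
    have h := relP _ hg.hd
    rw [ev_append, ev_cons, ev_nil, mul_one, i6] at h
    exact mul_inv_eq_one.1 h
  refine exists_action (RR wc wd rels) (lm2 wc wd) hs hn hi hr hlt f ?_ fun _ h => lifts f h
  intro y hy
  show xL f wc wd y = xP hs hn hi y
  by_cases h : 8 ≤ y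
  · rw [xP_eq_one _ _ _ _ (h8 y h hy), xL8 f h]
  · have h' : y < 8 := by omega
    interval_cases y
    · rw [xP_eq_one _ _ _ _ h0, xL0]
    · exact e1
    · exact e2
    · exact e3
    · exact e4
    · rw [xL5, e4, i4]
    · exact e6
    · rw [xL7, e6, i6]

end

section
variable {G : Type*} [Group G] (x : ℕ → G)

/-- subgroups generated by lists of letters -/
def Hl (l : List ℕ) : Subgroup G := Subgroup.closure (x '' {y | y ∈ l})

theorem Hl_mono {l l' : List ℕ} (h : (l.all fun y => l'.contains y) = true) : Hl x l ≤ Hl x l' := by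
  apply Subgroup.closure_mono
  apply Set.image_mono
  intro y hy
  rw [List.all_eq_true] at h
  have := h y hy
  rwa [List.contains_iff_mem] at this

theorem mem_Hl {l : List ℕ} {y : ℕ} (h : l.contains y = true) : x y ∈ Hl x l :=
  Subgroup.subset_closure ⟨y, by rwa [List.contains_iff_mem] at h, rfl⟩

theorem sub_rels {rels : List (List ℕ)} (hrels : ∀ w ∈ rels, ev x w = 1) {rs : List (List ℕ)}
    (h : (rs.all fun w => rels.contains w) = true) : ∀ w ∈ rs, ev x w = 1 := by
  intro w hw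
  rw [List.all_eq_true] at h
  have := h w hw
  rw [List.contains_iff_mem] at this
  exact hrels w this

end

theorem Hl_top {wc wd : List ℕ} {rels : List (List ℕ)} {l : List ℕ} (h1 : 1 ∈ l) (h2 : 2 ∈ l) :
    Hl (xG (RR wc wd rels) (lm2 wc wd)) l = ⊤ := by
  apply closure_top
  intro g
  cases g
  exacts [⟨1, h1, rfl⟩, ⟨2, h2, rfl⟩]

end Cfsg.Agent.H20.PG
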