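import Cfsg.Agent.H20_LabF
import Cfsg.Agent.H20_PG
import Cfsg.Agent.H14_Schur3

/-!
Labels: glue for groups with two generators.
-/

set_option autoImplicit false
set_option maxRecDepth 100000

namespace Cfsg.Agent.H20.Lab

open Cfsg Cfsg.Agent.H8.CE Cfsg.Agent.H8.Act Cfsg.Agent.H14.Schur
open scoped IsMulCommutative commutatorElement

section
variable {A : Type*} [AddCommGroup A] {q : ℕ → A} {w K : ℕ}

/-- all parameters are multiples of one -/
theorem mult_of {targets : List (ℕ × List ℕ)} {f : ℕ} (hf : f < K) (s : List ℕ) (q2 : ∀ a ∈ targets, vS q w K a.1 = 0)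
    (h : ((List.range K).all fun j => j == f || (Nat.blt (1 + s.getD j 0) (2 ^ w) &&
      targets.any fun a => a.1 == 1 * 2 ^ (w * j) + s.getD j 0 * 2 ^ (w * f))) = true) :
    ∀ j < K, q j ∈ AddSubgroup.zmultiples (q f) := by
  intro j hj
  have h1 := List.all_eq_true.1 h j (List.mem_range.2 hj)
  rw [Bool.or_eq_true, beq_iff_eq] at h1
  rcases h1 with rfl | h1
  · exact AddSubgroup.mem_zmultiples _
  · rw [Bool.and_eq_true] at h1
    obtain ⟨h2, h3⟩ := h1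
    obtain ⟨t, ht, he⟩ := List.any_eq_true.1 h3
    have h4 := q2 t ht
    rw [eq_of_beq he, vS_two hj hf (Nat.le_of_ble_eq_true h2), one_smul] at h4
    rw [eq_neg_of_add_eq_zero_left h4]
    exact AddSubgroup.neg_mem _ (AddSubgroup.nsmul_mem _ (AddSubgroup.mem_zmultiples _) _)

/-- a multiple of a parameter vanishes -/
theorem smul_of {targets : List (ℕ × List ℕ)} {f c : ℕ} (hf : f < K) (q2 : ∀ a ∈ targets, vS q w K a.1 = 0)
    (hw : 0 < w) (hc : c < 2 ^ w) (h : (targets.any fun a => a.1 == c * 2 ^ (w * f)) = true) : c • q f = 0 := by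
  obtain ⟨t, ht, he⟩ := List.any_eq_true.1 h
  have h4 := q2 t ht
  rwa [eq_of_beq he, vS_unit hf hc hw] at h4

/-- all parameters vanish -/
theorem zero_of {targets : List (ℕ × List ℕ)} (q2 : ∀ a ∈ targets, vS q w K a.1 = 0)
    (hw : 0 < w) (h : ((List.range K).all fun j => targets.any fun a => a.1 == 1 * 2 ^ (w * j)) = true) :
    ∀ j < K, q j = 0 := by
  intro j hj
  have h1 := smul_of hj q2 hw (Nat.one_lt_two_pow hw.ne') (List.all_eq_true.1 h j (List.mem_range.2 hj))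
  rwa [one_smul] at h1

end

section
universe u v
variable {Γ : Type u} [Group Γ] {J : Type v} [Group J] {σ : Γ →* J}

theorem ctx_coprime [Finite Γ] (hσ : IsStemExtension σ) {n : ℕ} {phi : J →* Equiv.Perm (Fin n)} {o : Fin n} (K : Subgroup J)
    (hK : ∀ g, g ∈ K ↔ phi g o = o) (hcop : Nat.Coprime (Nat.card σ.ker) (Nat.card K)) :
    ∃ H1 : Subgroup Γ, Ctx σ phi o H1 := by
  obtain ⟨H1, h1, h2, h3⟩ := Mul.coprime_lift hσ.1 K hcop
  exact ⟨H1, fun z hz => hσ.2.1 hz, fun g hg => h1 g ((hK _).2 hg), fun h hh => (hK _).1 (h2 h hh), h3⟩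

theorem ctx_perfect [Finite Γ] (hσ : IsStemExtension σ) {n : ℕ} {phi : J →* Equiv.Perm (Fin n)} {o : Fin n} (K : Subgroup J)
    (hK : ∀ g, g ∈ K ↔ phi g o = o) (hp : ⁅K, K⁆ = K)
    (hno : ∀ (p : ℕ) [Fact p.Prime], p ∣ Nat.card σ.ker → ∀ (Γ' : Type u) [Group Γ'] [Finite Γ'] (τ : Γ' →* K),
      IsStemExtension τ → Nat.card τ.ker ≠ p) :
    ∃ H1 : Subgroup Γ, Ctx σ phi o H1 := by
  obtain ⟨h1, h2, _⟩ := Mul.perfect_lift hσ.1 hσ.2.1 K hp
  refine ⟨_, fun z hz => hσ.2.1 hz, fun g hg => h2 g ((hK _).2 hg), fun h hh => ?_, Mul.int_of hσ.1 hσ.2.1 K hp hno⟩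
  refine (hK _).1 ?_
  rw [← h1]
  exact ⟨h, hh, rfl⟩

theorem dvd_of_pow [Finite Γ] {m : ℕ} (hz : ∀ z ∈ σ.ker, z ^ m = 1) (p : ℕ) (hp : p.Prime) (hd : p ∣ Nat.card σ.ker) : p ∣ m := by
  haveI : Fact p.Prime := ⟨hp⟩
  obtain ⟨z, hz'⟩ := exists_prime_orderOf_dvd_card' p hd
  rw [← hz']
  exact orderOf_dvd_of_pow_eq_one (Subtype.ext (hz z z.2))

theorem coprime_of_pow [Finite Γ] {m c : ℕ} (hz : ∀ z ∈ σ.ker, z ^ m = 1) (hc : Nat.Coprime m c) : Nat.Coprime (Nat.card σ.ker) c := by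
  rw [Nat.coprime_iff_gcd_eq_one]
  by_contra h
  obtain ⟨p, hp, hd⟩ := Nat.exists_prime_and_dvd h
  have h1 := dvd_of_pow hz p hp (hd.trans (Nat.gcd_dvd_left _ _))
  have h2 : p ∣ 1 := by
    rw [← hc]; exact Nat.dvd_gcd h1 (hd.trans (Nat.gcd_dvd_right _ _))
  exact hp.one_lt.ne' (Nat.dvd_one.1 h2)

theorem pow_of_card {m : ℕ} (hcard : Nat.card σ.ker = m) : ∀ z ∈ σ.ker, z ^ m = 1 := by
  intro z hz
  have h : (⟨z, hz⟩ : σ.ker) ^ Nat.card σ.ker = 1 := pow_card_eq_one'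
  rw [hcard] at h
  exact congrArg Subtype.val h

variable {x : ℕ → J}

theorem im3 (hgen : Subgroup.closure (x '' {y | y ∈ ([1, 2, 3] : List ℕ)}) = ⊤) {Y : ℕ → Γ}
    (hY : ∀ y ∈ ([1, 2, 3] : List ℕ), σ (Y y) = x y) :
    Subgroup.closure (σ '' (Y '' {y | y ∈ ([1, 2, 3] : List ℕ)})) = ⊤ := by
  rw [← hgen]
  congr 1
  ext g
  constructor
  · rintro ⟨_, ⟨y, hy, rfl⟩, rfl⟩
    exact ⟨y, hy, (hY y hy).symm⟩
  · rintro ⟨y, hy, rfl⟩
    exact ⟨_, ⟨y, hy, rfl⟩, hY y hy⟩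

theorem YY_map (h3 : x 3 = (x 2)⁻¹) {a b : Γ} (ha : σ a = x 1) (hb : σ b = x 2) :
    ∀ y ∈ ([1, 2, 3] : List ℕ), σ (YY a b y) = x y := by
  intro y hy
  simp only [List.mem_cons, List.not_mem_nil, or_false] at hy
  rcases hy with rfl | rfl | rfl
  · exact ha
  · exact hb
  · show σ b⁻¹ = x 3
    rw [map_inv, hb, h3]

theorem rp_ok {Y : ℕ → Γ} (hY : ∀ y ∈ ([1, 2, 3] : List ℕ), σ (Y y) = x y) {rels : List (List ℕ)}
    (hrels : ∀ w ∈ rels, ev x w = 1) {RP : List (List ℕ)}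
    (h : (RP.all fun r => (r.all fun y => [1, 2, 3].contains y) && rels.contains r) = true) :
    ∀ r ∈ RP, σ (ev Y r) = 1 := by
  intro r hr
  have h1 := List.all_eq_true.1 h r hr
  rw [Bool.and_eq_true, List.contains_iff_mem] at h1
  have hl : ∀ y ∈ r, y ∈ ([1, 2, 3] : List ℕ) := fun y hy => List.contains_iff_mem.1 (List.all_eq_true.1 h1.1 y hy)
  rw [map_ev hY r hl, hrels r h1.2]

theorem ev11 (a b : Γ) : ev (YY a b) [1, 1] = a ^ 2 := by
  simp only [ev_cons, ev_nil, mul_one]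
  exact (pow_two a).symm
theorem ev222 (a b : Γ) : ev (YY a b) [2, 2, 2] = b ^ 3 := by
  simp only [ev_cons, ev_nil, mul_one]
  rw [pow_succ', pow_two]; rfl
theorem ev23 (a b : Γ) : ev (YY a b) [2, 3] = 1 := by
  simp only [ev_cons, ev_nil, mul_one]
  exact mul_inv_cancel b
theorem evab (a b : Γ) (k : ℕ) : ev (YY a b) (powW [1, 2] k) = (a * b) ^ k := by
  rw [ev_powW, ev_cons, ev_cons, ev_nil, mul_one]; rfl

/-- trivial kernel contradicts prime order -/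
theorem absurd_card {p : ℕ} (hp : 1 < p) (hcard : Nat.card σ.ker = p) (ht : ∀ z, σ z = 1 → z = 1) : False := by
  have : Subsingleton σ.ker := ⟨fun a b => by
    apply Subtype.ext
    rw [ht a a.2, ht b b.2]⟩
  have h1 : Nat.card σ.ker = 1 := Nat.card_unique
  omega

end

end Cfsg.Agent.H20.Lab
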