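import Cfsg.Agent.H20_Mul

/-!
Upper bounds for cyclic multipliers whose order has two prime factors.
-/

set_option autoImplicit false

namespace Cfsg.Agent.H20.Mul

open Cfsg Cfsg.Agent.H14.Schur

universe u v

theorem surj_of_cyclic {Γ : Type u} [Group Γ] {G : Type v} [Group G] {σ : Γ →* G} (hc : σ.ker ≤ Subgroup.center Γ)
    {n : ℕ} {q : Γ} (hq1 : σ q = 1) (hq2 : q ^ n = 1) (hq3 : ∀ z, σ z = 1 → z ∈ Subgroup.zpowers q) :
    ∃ π : Multiplicative (ZMod n) →* σ.ker, Function.Surjective π := by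
  let g : ℤ →+ Additive σ.ker := zmultiplesHom _ (Additive.ofMul (⟨q, hq1⟩ : σ.ker))
  have hg : g ((n : ℕ) : ℤ) = 0 := by
    show ((n : ℕ) : ℤ) • (Additive.ofMul (⟨q, hq1⟩ : σ.ker)) = 0
    rw [natCast_zsmul]
    have : (⟨q, hq1⟩ : σ.ker) ^ n = 1 := Subtype.ext hq2
    exact congrArg Additive.ofMul this
  let l : ZMod n →+ Additive σ.ker := ZMod.lift n ⟨g, hg⟩
  refine ⟨AddMonoidHom.toMultiplicativeLeft l, ?_⟩
  rintro ⟨z, hz⟩
  obtain ⟨i, hi⟩ := Subgroup.mem_zpowers_iff.1 (hq3 z hz)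
  refine ⟨Multiplicative.ofAdd (i : ZMod n), ?_⟩
  have h5 : l (i : ZMod n) = g i := ZMod.lift_coe _ _ _
  show Additive.toMul (l (i : ZMod n)) = _
  rw [h5]
  apply Subtype.ext
  show ((((⟨q, hq1⟩ : σ.ker) ^ i : σ.ker)) : Γ) = z
  rw [← hi]; rfl

/-- powers with exponent `p ^ k` are powers with exponent `p ^ (k + t)` -/
theorem hall_pow {G : Type v} [Group G] {p k : ℕ}
    (h2 : ∀ (Γ : Type u) [Group Γ] [Finite Γ] (σ : Γ →* G), IsStemExtension σ → (∀ z ∈ σ.ker, z ^ (p ^ (k + 1)) = 1) →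
      ∃ q, σ q = 1 ∧ q ^ (p ^ k) = 1 ∧ ∀ z, σ z = 1 → z ∈ Subgroup.zpowers q)
    {Γ : Type u} [Group Γ] [Finite Γ] {σ : Γ →* G} (hσ : IsStemExtension σ) :
    ∀ t : ℕ, ∀ z, σ z = 1 → ∃ w, σ w = 1 ∧ z ^ (p ^ k) = w ^ (p ^ (k + t)) := by
  have hstep : ∀ z, σ z = 1 → ∃ w, σ w = 1 ∧ z ^ (p ^ k) = w ^ (p ^ (k + 1)) := by
    intro z hz
    obtain ⟨Γ', i1, i2, σ', π, hσ', hπ, hcomp, hex, hker⟩ := stem_pow hσ (p ^ (k + 1))
    obtain ⟨q, hq1, hq2, hq3⟩ := @h2 Γ' i1 i2 σ' hσ' hex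
    have hz' : σ' (π z) = 1 := by
      have := DFunLike.congr_fun hcomp z
      exact this.trans hz
    obtain ⟨i, hi⟩ := Subgroup.mem_zpowers_iff.1 (hq3 _ hz')
    have h3 : π (z ^ (p ^ k)) = 1 := by
      rw [map_pow, ← hi, ← zpow_natCast, ← zpow_mul, mul_comm, zpow_mul, zpow_natCast, hq2, one_zpow]
    obtain ⟨w, hw, hw'⟩ := hker _ h3
    exact ⟨w, hw, hw'⟩
  intro t
  induction t with
  | zero => intro z hz; exact ⟨z, hz, by rw [Nat.add_zero]⟩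
  | succ t ih =>
    intro z hz
    obtain ⟨w, hw, hw'⟩ := ih z hz
    obtain ⟨w2, hw2, hw2'⟩ := hstep w hw
    refine ⟨w2, hw2, ?_⟩
    rw [hw', pow_add, pow_mul, hw2', ← pow_mul]
    congr 1
    rw [← pow_add]; congr 1; ring

/-- generator modulo powers with exponent `p ^ k` -/
theorem gen_mod {G : Type v} [Group G] {p k : ℕ}
    (h2 : ∀ (Γ : Type u) [Group Γ] [Finite Γ] (σ : Γ →* G), IsStemExtension σ → (∀ z ∈ σ.ker, z ^ (p ^ (k + 1)) = 1) →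
      ∃ q, σ q = 1 ∧ q ^ (p ^ k) = 1 ∧ ∀ z, σ z = 1 → z ∈ Subgroup.zpowers q)
    {Γ : Type u} [Group Γ] [Finite Γ] {σ : Γ →* G} (hσ : IsStemExtension σ) :
    ∃ q, σ q = 1 ∧ ∀ z, σ z = 1 → ∃ (i : ℤ) (u : Γ), σ u = 1 ∧ z = q ^ i * u ^ (p ^ k) := by
  obtain ⟨Γ', i1, i2, σ', π, hσ', hπ, hcomp, hex, hker⟩ := stem_pow hσ (p ^ k)
  obtain ⟨q, hq1, hq2, hq3⟩ := @h2 Γ' i1 i2 σ' hσ' (fun z hz => by rw [pow_succ, pow_mul, hex z hz, one_pow])
  obtain ⟨q', rfl⟩ := hπ q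
  have hq' : σ q' = 1 := (DFunLike.congr_fun hcomp q').symm.trans hq1
  refine ⟨q', hq', fun z hz => ?_⟩
  have hz' : σ' (π z) = 1 := (DFunLike.congr_fun hcomp z).trans hz
  obtain ⟨i, hi⟩ := Subgroup.mem_zpowers_iff.1 (hq3 _ hz')
  have h3 : π ((q' ^ i)⁻¹ * z) = 1 := by
    rw [map_mul, map_inv, map_zpow, hi, inv_mul_cancel]
  obtain ⟨u, hu, hu'⟩ := hker _ h3
  exact ⟨i, u, hu, by rw [← hu', mul_inv_cancel_left]⟩

/-- Upper bound for a cyclic multiplier, two primes. -/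
theorem upper_two {G : Type v} [Group G] {p k r l : ℕ} [hp : Fact p.Prime] [hr : Fact r.Prime] (hpr : p ≠ r)
    (h1 : ∀ (s : ℕ) [Fact s.Prime], s ≠ p → s ≠ r → ∀ (Γ : Type u) [Group Γ] [Finite Γ] (σ : Γ →* G),
      IsStemExtension σ → Nat.card σ.ker ≠ s)
    (h2 : ∀ (Γ : Type u) [Group Γ] [Finite Γ] (σ : Γ →* G), IsStemExtension σ → (∀ z ∈ σ.ker, z ^ (p ^ (k + 1)) = 1) →
      ∃ q, σ q = 1 ∧ q ^ (p ^ k) = 1 ∧ ∀ z, σ z = 1 → z ∈ Subgroup.zpowers q)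
    (h3 : ∀ (Γ : Type u) [Group Γ] [Finite Γ] (σ : Γ →* G), IsStemExtension σ → (∀ z ∈ σ.ker, z ^ (r ^ (l + 1)) = 1) →
      ∃ q, σ q = 1 ∧ q ^ (r ^ l) = 1 ∧ ∀ z, σ z = 1 → z ∈ Subgroup.zpowers q)
    (Γ : Type u) [Group Γ] [Finite Γ] (σ : Γ →* G) (hσ : IsStemExtension σ) :
    ∃ π : Multiplicative (ZMod (p ^ k * r ^ l)) →* σ.ker, Function.Surjective π := by
  have hcm : ∀ z, σ z = 1 → ∀ g, z * g = g * z := fun z hz g => (Subgroup.mem_center_iff.1 (hσ.2.1 hz) g).symm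
  -- order of the kernel
  have hcop : Nat.Coprime p r := (Nat.coprime_primes hp.out hr.out).2 hpr
  obtain ⟨e, f, he⟩ : ∃ e f, Nat.card σ.ker = p ^ e * r ^ f := by
    obtain ⟨e, m, hm, hem⟩ := Nat.exists_eq_pow_mul_and_not_dvd (n := Nat.card σ.ker) Nat.card_pos.ne' p hp.out.ne_one
    obtain ⟨f, m', hm', hfm⟩ := Nat.exists_eq_pow_mul_and_not_dvd (n := m) (by
      rintro rfl; exact hm (dvd_zero _)) r hr.out.ne_one
    refine ⟨e, f, ?_⟩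
    have hm1 : m' = 1 := by
      by_contra hne
      obtain ⟨s, hs, hsd⟩ := Nat.exists_prime_and_dvd hne
      haveI : Fact s.Prime := ⟨hs⟩
      have hsp : s ≠ p := by
        rintro rfl
        exact hm (by rw [hfm]; exact dvd_mul_of_dvd_right hsd _)
      have hsr : s ≠ r := by
        rintro rfl; exact hm' hsd
      have hsc : s ∣ Nat.card σ.ker := by rw [hem, hfm]; exact dvd_mul_of_dvd_right (dvd_mul_of_dvd_right hsd _) _
      obtain ⟨Γ', i1, i2, σ', hσ', hcard⟩ := stem_reduce σ hσ hsc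
      exact @h1 s _ hsp hsr Γ' i1 i2 σ' hσ' hcard
    rw [hem, hfm, hm1, mul_one]
  have hexp : ∀ z, σ z = 1 → z ^ (p ^ e * r ^ f) = 1 := by
    intro z hz
    have := pow_card_eq_one' (x := (⟨z, hz⟩ : σ.ker))
    rw [he] at this
    exact congrArg Subtype.val this
  have hA : ∀ z, σ z = 1 → (z ^ (p ^ k)) ^ (r ^ f) = 1 := by
    intro z hz
    obtain ⟨w, hw, hw'⟩ := hall_pow h2 hσ e z hz
    rw [hw', ← pow_mul, show p ^ (k + e) * r ^ f = (p ^ e * r ^ f) * p ^ k by rw [pow_add]; ring, pow_mul, hexp w hw, one_pow]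
  have hB : ∀ z, σ z = 1 → (z ^ (r ^ l)) ^ (p ^ e) = 1 := by
    intro z hz
    obtain ⟨w, hw, hw'⟩ := hall_pow h3 hσ f z hz
    rw [hw', ← pow_mul, show r ^ (l + f) * p ^ e = (p ^ e * r ^ f) * r ^ l by rw [pow_add]; ring, pow_mul, hexp w hw, one_pow]
  have hC : ∀ z, σ z = 1 → z ^ (p ^ k * r ^ l) = 1 := by
    intro z hz
    have a1 : (z ^ (p ^ k * r ^ l)) ^ (r ^ f) = 1 := by
      rw [pow_mul, ← pow_mul, mul_comm, pow_mul, hA z hz, one_pow]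
    have a2 : (z ^ (p ^ k * r ^ l)) ^ (p ^ e) = 1 := by
      rw [mul_comm (p ^ k), pow_mul, ← pow_mul, mul_comm (p ^ k), pow_mul, hB z hz, one_pow]
    have d1 := orderOf_dvd_of_pow_eq_one a1
    have d2 := orderOf_dvd_of_pow_eq_one a2
    have d3 := Nat.dvd_gcd d2 d1
    rw [Nat.Coprime.pow e f hcop, Nat.dvd_one] at d3
    exact orderOf_eq_one_iff.1 d3
  obtain ⟨q2, hq2, hg2⟩ := gen_mod h2 hσ
  obtain ⟨q3, hq3, hg3⟩ := gen_mod h3 hσ
  have hab : IsCoprime ((p ^ k : ℕ) : ℤ) ((r ^ l : ℕ) : ℤ) := Nat.isCoprime_iff_coprime.2 (Nat.Coprime.pow k l hcop)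
  obtain ⟨s, t, hst⟩ := hab
  generalize hA' : p ^ k = A at *
  generalize hB' : r ^ l = B at *
  have c2 : ∀ g, Commute q2 g := fun g => hcm q2 hq2 g
  have c3 : ∀ g, Commute q3 g := fun g => hcm q3 hq3 g
  have g1 : (q2 ^ B * q3 ^ A) ^ B = (q2 ^ B) ^ B := by
    rw [(((c2 _).pow_left B)).mul_pow, ← pow_mul q3, hC q3 hq3, mul_one]
  have g2 : (q2 ^ B * q3 ^ A) ^ A = (q3 ^ A) ^ A := by
    rw [(((c2 _).pow_left B)).mul_pow, ← pow_mul q2, mul_comm B, hC q2 hq2, one_mul]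
  have m2 : q2 ^ B ∈ Subgroup.zpowers (q2 ^ B * q3 ^ A) := by
    have h : (q2 ^ B) ^ A = 1 := by rw [← pow_mul, mul_comm, hC q2 hq2]
    have h' : q2 ^ B = ((q2 ^ B * q3 ^ A) ^ B) ^ t := by
      rw [g1]
      calc q2 ^ B = (q2 ^ B) ^ (s * (A : ℤ) + t * (B : ℤ)) := by rw [hst, zpow_one]
        _ = ((q2 ^ B) ^ B) ^ t := by
          rw [zpow_add, mul_comm s (A : ℤ), zpow_mul _ (A : ℤ) s, zpow_natCast, h, one_zpow, one_mul, mul_comm t (B : ℤ),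
            zpow_mul, zpow_natCast]
    have hm := Subgroup.zpow_mem _ (Subgroup.pow_mem _ (Subgroup.mem_zpowers (q2 ^ B * q3 ^ A)) B) t
    rwa [← h'] at hm
  have m3 : q3 ^ A ∈ Subgroup.zpowers (q2 ^ B * q3 ^ A) := by
    have h : (q3 ^ A) ^ B = 1 := by rw [← pow_mul, hC q3 hq3]
    have h' : q3 ^ A = ((q2 ^ B * q3 ^ A) ^ A) ^ s := by
      rw [g2]
      calc q3 ^ A = (q3 ^ A) ^ (s * (A : ℤ) + t * (B : ℤ)) := by rw [hst, zpow_one]
        _ = ((q3 ^ A) ^ A) ^ s := by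
          rw [zpow_add, mul_comm t (B : ℤ), zpow_mul _ (B : ℤ) t, zpow_natCast, h, one_zpow, mul_one, mul_comm s (A : ℤ),
            zpow_mul, zpow_natCast]
    have hm := Subgroup.zpow_mem _ (Subgroup.pow_mem _ (Subgroup.mem_zpowers (q2 ^ B * q3 ^ A)) A) s
    rwa [← h'] at hm
  refine surj_of_cyclic hσ.2.1 (q := q2 ^ B * q3 ^ A) ?_ ?_ ?_
  · rw [map_mul, map_pow, map_pow, hq2, hq3, one_pow, one_pow, one_mul]
  · exact hC _ (by rw [map_mul, map_pow, map_pow, hq2, hq3, one_pow, one_pow, one_mul])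
  · intro z hz
    obtain ⟨i, u, hu, hzu⟩ := hg2 z hz
    obtain ⟨j, v, hv, hzv⟩ := hg3 z hz
    have z1 : z ^ B ∈ Subgroup.zpowers (q2 ^ B * q3 ^ A) := by
      have : z ^ B = (q2 ^ B) ^ i := by
        rw [hzu, (((c2 _).zpow_left i)).mul_pow, ← pow_mul, hC u hu, mul_one, ← zpow_natCast, ← zpow_mul, mul_comm i, zpow_mul,
          zpow_natCast]
      rw [this]
      exact Subgroup.zpow_mem _ m2 _
    have z2 : z ^ A ∈ Subgroup.zpowers (q2 ^ B * q3 ^ A) := by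
      have : z ^ A = (q3 ^ A) ^ j := by
        rw [hzv, (((c3 _).zpow_left j)).mul_pow, ← pow_mul, mul_comm B, hC v hv, mul_one, ← zpow_natCast, ← zpow_mul, mul_comm j,
          zpow_mul, zpow_natCast]
      rw [this]
      exact Subgroup.zpow_mem _ m3 _
    have hz' : z = (z ^ A) ^ s * (z ^ B) ^ t := by
      calc z = z ^ (s * (A : ℤ) + t * (B : ℤ)) := by rw [hst, zpow_one]
        _ = _ := by rw [zpow_add, mul_comm s, zpow_mul, zpow_natCast, mul_comm t, zpow_mul, zpow_natCast]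
    rw [hz']
    exact mul_mem (Subgroup.zpow_mem _ z2 _) (Subgroup.zpow_mem _ z1 _)

end Cfsg.Agent.H20.Mul
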