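import Cfsg.Agent.H20_Alt6M
import Cfsg.Agent.H20_Alt6L4
import Cfsg.Agent.H20_Alt6L9
import Cfsg.Agent.H20_Mul2
import Cfsg.Agent.H20_Alt6W
import Cfsg.Agent.H20_LabG
import Cfsg.Agent.H20_Carm2

/-!
The Schur multiplier of the alternating group of degree 6.
-/

set_option autoImplicit false
set_option maxRecDepth 100000

namespace Cfsg.Agent.H20.Alt6N

open Cfsg Cfsg.Agent.H8 Cfsg.Agent.H8.CE Cfsg.Agent.H8.Net Cfsg.Agent.H8.Act Cfsg.Agent.H8.Cox Cfsg.Agent.H8.Act2
open Cfsg.Agent.H20 Cfsg.Agent.H20.PG Cfsg.Agent.H20.Alt6R Cfsg.Agent.H20.Alt6M Cfsg.Agent.H20.Lab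
open scoped IsMulCommutative commutatorElement

instance : Fact (Nat.Prime 2) := ⟨Nat.prime_two⟩
instance : Fact (Nat.Prime 3) := ⟨Nat.prime_three⟩

/-! ### Isomorphism with the alternating group -/

/-- permutations -/
abbrev PP : Type := Equiv.Perm (Fin 6)
abbrev AA : Subgroup PP := alternatingGroup (Fin 6)

/-- the generators -/
def gA : PP := Equiv.swap 0 1 * Equiv.swap 2 3
def gB : PP := Equiv.swap 0 1 * Equiv.swap 1 3 * Equiv.swap 3 5 * Equiv.swap 2 4

theorem memA : gA ∈ AA := by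
  rw [Equiv.Perm.mem_alternatingGroup]; decide +kernel
theorem memB : gB ∈ AA := by
  rw [Equiv.Perm.mem_alternatingGroup]; decide +kernel

/-- table of the letters -/
def Zt (y : ℕ) : PP :=
  match y with
  | 1 => gA
  | 2 => gB
  | 3 => gB⁻¹
  | 4 => gA * gB
  | 5 => (gA * gB)⁻¹
  | 6 => gA * gB
  | 7 => (gA * gB)⁻¹
  | _ => 1

/-- images of the generators -/
def fG : Gen → AA
  | .a => ⟨gA, memA⟩
  | .b => ⟨gB, memB⟩

/-- images in the symmetric group -/
def fS : Gen → PP := fun g => (fG g : PP)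

theorem xZ : ∀ y, 1 ≤ y → y ≤ 7 → xL fS wc wd y = Zt y := by
  have r1 : xL fS wc wd 1 = gA := by rw [xL1]; rfl
  have r2 : xL fS wc wd 2 = gB := by rw [xL2]; rfl
  have r3 : xL fS wc wd 3 = gB⁻¹ := by rw [xL3]; rfl
  have r4 : xL fS wc wd 4 = gA * gB := by
    rw [xL4 fS good.lc]
    have h : ev (xL fS wc wd) wc = xL fS wc wd 1 * xL fS wc wd 2 := by
      show ev (xL fS wc wd) [1, 2] = _
      rw [ev_cons, ev_cons, ev_nil, mul_one]
    rw [h, r1, r2]
  have r6 : xL fS wc wd 6 = gA * gB := by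
    rw [xL6 fS good.ld]
    have h : ev (xL fS wc wd) wd = xL fS wc wd 1 * xL fS wc wd 2 := by
      show ev (xL fS wc wd) [1, 2] = _
      rw [ev_cons, ev_cons, ev_nil, mul_one]
    rw [h, r1, r2]
  intro y h1 h2
  interval_cases y
  · exact r1
  · exact r2
  · exact r3
  · exact r4
  · rw [xL5, r4]; rfl
  · exact r6
  · rw [xL7, r6]; rfl

theorem k_rels : (rels.all fun w => (w.all fun y => Nat.blt 0 y && Nat.blt y 8) && decide (ev Zt w = 1)) = true := by
  decide +kernel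

theorem evZ (w : List ℕ) (h : (w.all fun y => Nat.blt 0 y && Nat.blt y 8) = true) : ev (xL fS wc wd) w = ev Zt w := by
  refine Cfsg.Agent.H20.PG.ev_congr' w fun y hy => ?_
  have h2 := List.all_eq_true.1 h y hy
  rw [Bool.and_eq_true] at h2
  exact xZ y (Nat.le_of_ble_eq_true h2.1) (Nat.le_of_lt_succ (Nat.le_of_ble_eq_true h2.2))

theorem relS : ∀ w ∈ rels, ev (xL fS wc wd) w = 1 := by
  intro w hw
  have h := List.all_eq_true.1 k_rels w hw
  rw [Bool.and_eq_true] at h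
  rw [evZ w h.1]
  exact of_decide_eq_true h.2

theorem coe_xL (w : List ℕ) : ((ev (xL fG wc wd) w : AA) : PP) = ev (xL fS wc wd) w := by
  have hx : ∀ r, ((FreeGroup.lift fG r : AA) : PP) = FreeGroup.lift fS r := by
    intro r
    have : (Subgroup.subtype AA).comp (FreeGroup.lift fG) = FreeGroup.lift fS := by
      apply FreeGroup.ext_hom
      intro x
      simp only [MonoidHom.comp_apply, FreeGroup.lift_apply_of]
      rfl
    rw [← this]; rfl
  rw [ev_xL, ev_xL, hx]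

theorem relG : ∀ w ∈ rels, ev (xL fG wc wd) w = 1 := by
  intro w hw
  apply Subtype.ext
  rw [coe_xL, relS w hw]; rfl

/-- the homomorphism -/
noncomputable def psi : J →* AA := toG fG relG

/-- words for the generators of the alternating group -/
def ws : List (List ℕ) := [[1, 2, 1, 2, 2, 1, 2, 1, 3, 1, 2], [1], [2, 1, 2, 2, 1, 3], [1, 3, 1, 2, 1, 3, 1, 2]]

theorem k_gen : ((List.range 4).all fun i => ((ws.getD i []).all fun y => Nat.blt 0 y && Nat.blt y 8) &&
    decide (ev Zt (ws.getD i []) = Carm.y 6 i)) = true := by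
  decide +kernel

theorem word_mem (i : ℕ) (hi : i < 4) : Carm.y 6 i ∈ (psi.range.map (Subgroup.subtype AA)) := by
  have h := List.all_eq_true.1 k_gen i (List.mem_range.2 hi)
  rw [Bool.and_eq_true] at h
  refine ⟨ev (xL fG wc wd) (ws.getD i []), ?_, ?_⟩
  · refine ⟨PresentedGroup.mk _ (ev (fun y => (lm2 wc wd).getD y 1) (ws.getD i [])), ?_⟩
    rw [ev_xL]; rfl
  · show ((ev (xL fG wc wd) (ws.getD i []) : AA) : PP) = _
    rw [coe_xL, evZ _ h.1]
    exact of_decide_eq_true h.2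

theorem psi_surj : Function.Surjective psi := by
  intro g
  have hle : ∀ t ∈ psi.range.map (Subgroup.subtype AA), t ∈ AA := by
    rintro _ ⟨u, _, rfl⟩
    exact u.2
  have h := Carm.cover 6 (by norm_num) (psi.range.map (Subgroup.subtype AA)) (fun i hi => word_mem i (by omega)) g
  have h1 : (g : PP) ∈ psi.range.map (Subgroup.subtype AA) := by
    rcases h with h | h
    · exact h
    · exfalso
      have h2 := hle _ h
      have h3 : Carm.a 6 0 ∈ AA := (Subgroup.mul_mem_cancel_left _ g.2).1 h2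
      rw [Equiv.Perm.mem_alternatingGroup, Carm.sign_a 6 (by norm_num)] at h3
      exact absurd h3 (by decide)
  obtain ⟨k, hk, hg⟩ := h1
  obtain ⟨j, hj⟩ := hk
  exact ⟨j, by rw [hj]; exact Subtype.ext hg⟩

theorem card_AA : Nat.card AA = 360 := by
  rw [nat_card_alternatingGroup, Nat.card_eq_fintype_card, Fintype.card_fin]
  decide

theorem psi_bij : Function.Bijective psi := by
  haveI : Finite J := instFinite
  refine (Nat.bijective_iff_surjective_and_card psi).2 ⟨psi_surj, ?_⟩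
  have h1 : Nat.card AA ≤ Nat.card J := Nat.card_le_card_of_surjective psi psi_surj
  rw [card_AA] at h1 ⊢
  exact le_antisymm card_le h1

/-- the isomorphism -/
noncomputable def e : J ≃* AA := MulEquiv.ofBijective psi psi_bij

theorem card_J : Nat.card J = 360 := by
  rw [Nat.card_congr e.toEquiv, card_AA]

theorem card_K : Nat.card K = 5 := by
  have h := Subgroup.card_mul_index K
  rw [card_J, K_spec.1] at h
  omega

theorem gen3 : Subgroup.closure (x '' {y | y ∈ ([1, 2, 3] : List ℕ)}) = ⊤ := Hl_top (l := [1, 2, 3]) (by decide) (by decide)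

theorem x3 : x 3 = (x 2)⁻¹ := by
  have h := xic 2 (by decide)
  rwa [show il PG.ic 2 = 3 by decide] at h

theorem x_a2 : (x 1) ^ 2 = 1 := by
  have h := xrels [1, 1] (by decide +kernel)
  rw [ev_cons, ev_cons, ev_nil, mul_one] at h
  rw [pow_two]; exact h

theorem x_b : (x 2) ^ 4 = 1 := by
  have h := xrels (powW [2] 4) (by decide +kernel)
  rw [ev_powW, ev_cons, ev_nil, mul_one] at h
  exact h

theorem x_ab : (x 1 * x 2) ^ 5 = 1 := by
  have h := xrels (powW [4] 5) (by decide +kernel)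
  rw [ev_powW, ev_cons, ev_nil, mul_one] at h
  have h2 := xrels [1, 2, 5] (by decide +kernel)
  have h3 := xic 4 (by decide)
  rw [show il PG.ic 4 = 5 by decide] at h3
  rw [ev_cons, ev_cons, ev_cons, ev_nil, mul_one, h3, ← mul_assoc] at h2
  rw [mul_inv_eq_one.1 h2]; exact h

theorem x_abb : ((x 1 * x 2) * x 2) ^ 5 = 1 := by
  have h := xrels (powW [1, 2, 2] 5) (by decide +kernel)
  rw [ev_powW, ev_cons, ev_cons, ev_cons, ev_nil, mul_one, ← mul_assoc] at h
  exact h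

theorem comm_J : commutator J = ⊤ := by
  set A := Abelianization.of (x 1) with hA
  set B := Abelianization.of (x 2) with hB
  have s0 : A ^ 2 = 1 := by rw [hA, ← map_pow, x_a2, map_one]
  have s1 : B ^ 4 = 1 := by rw [hB, ← map_pow, x_b, map_one]
  have s2 : (A * B) ^ 5 = 1 := by rw [hA, hB, ← map_mul, ← map_pow, x_ab, map_one]
  have s5 : ((A * B) * B) ^ 5 = 1 := by rw [hA, hB, ← map_mul, ← map_mul, ← map_pow, x_abb, map_one]
  have s3 : (A * B) ^ (2 * 4) = 1 := by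
    rw [mul_pow, pow_mul, s0, one_pow, mul_comm 2 4, pow_mul, s1, one_pow, one_mul]
  have s4 : A * B = 1 := by
    have h := pow_gcd_eq_one.2 ⟨s2, s3⟩
    rwa [show Nat.gcd 5 (2 * 4) = 1 by decide, pow_one] at h
  have hB2 : B = 1 := by
    rw [s4, one_mul] at s5
    have h := pow_gcd_eq_one.2 ⟨s5, s1⟩
    rwa [show Nat.gcd 5 4 = 1 by decide, pow_one] at h
  have hA1 : A = 1 := by rw [hB2, mul_one] at s4; exact s4
  rw [eq_top_iff]
  intro g _
  refine (QuotientGroup.eq_one_iff g).1 ?_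
  have hg : g ∈ Subgroup.closure (x '' {y | y ∈ ([1, 2, 3] : List ℕ)}) := by rw [gen3]; trivial
  have hle : Subgroup.closure (x '' {y | y ∈ ([1, 2, 3] : List ℕ)}) ≤ (Abelianization.of : J →* Abelianization J).ker := by
    rw [Subgroup.closure_le]
    rintro _ ⟨y, hy, rfl⟩
    have hy' : y ∈ ([1, 2, 3] : List ℕ) := hy
    simp only [List.mem_cons, List.not_mem_nil, or_false] at hy'
    rcases hy' with rfl | rfl | rfl
    · exact hA1
    · exact hB2
    · show Abelianization.of (x 3) = 1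
      rw [x3, map_inv, ← hB, hB2, inv_one]
  exact hle hg

universe u

/-- normalised lifts of the generators -/
theorem lifts2 {Γ : Type u} [Group Γ] {σ : Γ →* J} (hσ : IsStemExtension σ) {m : ℕ} (hz : ∀ z ∈ σ.ker, z ^ m = 1)
    (h5 : Nat.Coprime 5 m) (h11 : Nat.Coprime 5 m) :
    ∃ a b : Γ, σ a = x 1 ∧ σ b = x 2 ∧ (a * b) ^ 5 = 1 ∧ ((a * b) * b) ^ 5 = 1 := by
  obtain ⟨c, hc, hc11⟩ := Mul.lift_pow hσ.1 hσ.2.1 hz h11 x_ab
  obtain ⟨d, hd, hd5⟩ := Mul.lift_pow hσ.1 hσ.2.1 hz h5 x_abb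
  refine ⟨c * (c⁻¹ * d)⁻¹, c⁻¹ * d, ?_, ?_, ?_, ?_⟩
  · rw [map_mul, map_inv, map_mul, map_inv, hc, hd, inv_mul_cancel_left, mul_inv_cancel_right]
  · rw [map_mul, map_inv, hc, hd, inv_mul_cancel_left]
  · rw [inv_mul_cancel_right]; exact hc11
  · rw [inv_mul_cancel_right, mul_inv_cancel_left]; exact hd5

theorem evabb {Γ : Type u} [Group Γ] (a b : Γ) (k : ℕ) : ev (YY a b) (powW [1, 2, 2] k) = ((a * b) * b) ^ k := by
  rw [ev_powW, ev_cons, ev_cons, ev_cons, ev_nil, mul_one, ← mul_assoc]; rfl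

theorem up4 (Γ : Type u) [Group Γ] [Finite Γ] (σ : Γ →* J) (hσ : IsStemExtension σ) (hz : ∀ z ∈ σ.ker, z ^ (2 ^ (1 + 1)) = 1) :
    ∃ q, σ q = 1 ∧ q ^ (2 ^ 1) = 1 ∧ ∀ z, σ z = 1 → z ∈ Subgroup.zpowers q := by
  have hz : ∀ z ∈ σ.ker, z ^ 4 = 1 := hz
  obtain ⟨H1, hC⟩ := ctx_coprime hσ (phi := phi) (o := ⟨0, by decide⟩) K K_spec.2
    (coprime_of_pow hz (by rw [card_K]; norm_num))
  obtain ⟨a, b, ha, hb, h11, h5⟩ := lifts2 hσ hz (by norm_num) (by norm_num)
  have hY := YY_map x3 ha hb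
  obtain ⟨q, q1, q2, q3⟩ := Alt6L4.res compat rfl hC (YY a b) hY
    (fun z h => Subtype.ext (hz z h))
    (by
      intro r hr
      simp only [Alt6L4.RN, List.mem_cons, List.not_mem_nil, or_false] at hr
      rcases hr with rfl | rfl | rfl | rfl
      · exact (evab a b 5).trans h11
      · exact (evabb a b 5).trans h5
      · exact ev23 _ _
      · exact ev23 _ _)
    (rp_ok hY xrels (by decide +kernel))
  exact ker_cyclic hσ (im3 gen3 hY) (K := 3) (q := q) (f := 1) (r := 2) q1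
    (mult_of (by norm_num) [1, 0, 2] q2 (by decide +kernel))
    (smul_of (by norm_num) q2 (by norm_num) (by norm_num) (by decide +kernel)) q3

theorem up9 (Γ : Type u) [Group Γ] [Finite Γ] (σ : Γ →* J) (hσ : IsStemExtension σ) (hz : ∀ z ∈ σ.ker, z ^ (3 ^ (1 + 1)) = 1) :
    ∃ q, σ q = 1 ∧ q ^ (3 ^ 1) = 1 ∧ ∀ z, σ z = 1 → z ∈ Subgroup.zpowers q := by
  have hz : ∀ z ∈ σ.ker, z ^ 9 = 1 := hz
  obtain ⟨H1, hC⟩ := ctx_coprime hσ (phi := phi) (o := ⟨0, by decide⟩) K K_spec.2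
    (coprime_of_pow hz (by rw [card_K]; norm_num))
  obtain ⟨a, b, ha, hb, h11, h5⟩ := lifts2 hσ hz (by norm_num) (by norm_num)
  have hY := YY_map x3 ha hb
  obtain ⟨q, q1, q2, q3⟩ := Alt6L9.res compat rfl hC (YY a b) hY
    (fun z h => Subtype.ext (hz z h))
    (by
      intro r hr
      simp only [Alt6L9.RN, List.mem_cons, List.not_mem_nil, or_false] at hr
      rcases hr with rfl | rfl | rfl | rfl
      · exact (evab a b 5).trans h11
      · exact (evabb a b 5).trans h5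
      · exact ev23 _ _
      · exact ev23 _ _)
    (rp_ok hY xrels (by decide +kernel))
  exact ker_cyclic hσ (im3 gen3 hY) (K := 3) (q := q) (f := 2) (r := 3) q1
    (mult_of (by norm_num) [5, 4, 0] q2 (by decide +kernel))
    (smul_of (by norm_num) q2 (by norm_num) (by norm_num) (by decide +kernel)) q3

theorem up (Γ : Type u) [Group Γ] [Finite Γ] (σ : Γ →* J) (hσ : IsStemExtension σ) :
    ∃ π : Multiplicative (ZMod 6) →* σ.ker, Function.Surjective π := by
  refine Mul.upper_two (p := 2) (k := 1) (r := 3) (l := 1) (by norm_num) ?_ (fun Γ _ _ σ hσ hz => up4 Γ σ hσ hz)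
    (fun Γ _ _ σ hσ hz => up9 Γ σ hσ hz) Γ σ hσ
  intro r hr hr2 h3 Γ _ _ σ hσ
  refine Cfsg.Agent.H14.Schur.ne_of_not_sq_dvd comm_J ?_ Γ σ hσ
  rw [card_J]
  intro hd
  have hfac : (360 : ℕ) = 2 ^ 3 * (3 ^ 2 * 5) := by norm_num
  have hrd : r ∣ 360 := dvd_trans (dvd_pow_self r two_ne_zero) hd
  have hr5 : r = 5 := by
    rw [hfac] at hrd
    rcases (Nat.Prime.dvd_mul hr.out).1 hrd with h | h
    · exact absurd ((Nat.prime_dvd_prime_iff_eq hr.out Nat.prime_two).1 (hr.out.dvd_of_dvd_pow h)) hr2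
    · rcases (Nat.Prime.dvd_mul hr.out).1 h with h | h
      · exact absurd ((Nat.prime_dvd_prime_iff_eq hr.out Nat.prime_three).1 (hr.out.dvd_of_dvd_pow h)) h3
      · exact (Nat.prime_dvd_prime_iff_eq hr.out (by norm_num)).1 h
  subst hr5
  norm_num at hd

/-- the scalar -/
noncomputable def zz : Equiv.Perm (Fin 360) := xP Alt6W.sys Alt6W.hn Alt6W.inv_ok 8

theorem zz_inv (i : Fin 360) : (((zz⁻¹ : Equiv.Perm (Fin 360)) i : Fin 360) : ℕ) = (net Alt6W.L 8).pos i :=
  xP_inv_apply Alt6W.sys Alt6W.hn Alt6W.inv_ok 8 (by decide) i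

theorem zz6 : zz ^ 6 = 1 := by
  have h : ev (xP Alt6W.sys Alt6W.hn Alt6W.inv_ok) (powW [8] 6) = ev (xP Alt6W.sys Alt6W.hn Alt6W.inv_ok) [] :=
    ev_xP_eq Alt6W.sys Alt6W.hn Alt6W.inv_ok (by decide) (by decide) (eqAll_sound Alt6W.E_ok (powW [8] 6, []) (by decide +kernel))
  rw [ev_powW, ev_cons, ev_nil, mul_one] at h
  exact h

theorem zz_pow (i : Fin 360) (n : ℕ) : ((((zz⁻¹ : Equiv.Perm (Fin 360)) ^ n) i : Fin 360) : ℕ) = (fun t => (net Alt6W.L 8).pos t)^[n] i := by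
  induction n with
  | zero => rfl
  | succ n ih => rw [pow_succ', Equiv.Perm.mul_apply, zz_inv, ih, Function.iterate_succ_apply']

theorem ord_zz : orderOf zz = 6 := by
  rw [← orderOf_inv]
  have h12 : (zz⁻¹ : Equiv.Perm (Fin 360)) ^ 6 = 1 := by rw [inv_pow, zz6, inv_one]
  have h6 : (zz⁻¹ : Equiv.Perm (Fin 360)) ^ 3 ≠ 1 := by
    intro h
    have h1 := zz_pow ⟨0, by decide⟩ 3
    rw [h] at h1
    have h2 : (fun t => (net Alt6W.L 8).pos t)^[3] 0 = 0 := h1.symm
    revert h2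
    decide +kernel
  have h4 : (zz⁻¹ : Equiv.Perm (Fin 360)) ^ 2 ≠ 1 := by
    intro h
    have h1 := zz_pow ⟨144, by decide⟩ 2
    rw [h] at h1
    have h2 : (fun t => (net Alt6W.L 8).pos t)^[2] 144 = 144 := h1.symm
    revert h2
    decide +kernel
  have hd : orderOf (zz⁻¹ : Equiv.Perm (Fin 360)) ∣ 6 := orderOf_dvd_of_pow_eq_one h12
  have h6' : ¬ orderOf (zz⁻¹ : Equiv.Perm (Fin 360)) ∣ 3 := fun h => h6 (orderOf_dvd_iff_pow_eq_one.1 h)
  have h4' : ¬ orderOf (zz⁻¹ : Equiv.Perm (Fin 360)) ∣ 2 := fun h => h4 (orderOf_dvd_iff_pow_eq_one.1 h)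
  generalize orderOf (zz⁻¹ : Equiv.Perm (Fin 360)) = n at hd h6' h4'
  have hn : n ≤ 6 := Nat.le_of_dvd (by norm_num) hd
  interval_cases n <;> simp_all <;> omega

/-- the cover with kernel of order 6 -/
theorem low : ∃ (Γ : Type) (_ : Group Γ) (_ : Finite Γ) (σ : Γ →* J), IsStemExtension σ ∧
    Nonempty (σ.ker ≃* Multiplicative (ZMod 6)) := by
  refine Low2.low good (L := Alt6W.L) (k := 9) Alt6W.sys Alt6W.hn Alt6W.inv_ok Alt6W.E_ok (by decide +kernel) (es := Alt6W.es)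
    (by decide +kernel) (by decide +kernel) (by decide +kernel) (by decide +kernel) (by decide +kernel) (by decide +kernel)
    ord_zz (w := Alt6W.w) (by decide +kernel) (by decide +kernel) ?_
  have h0 : Alt6W.w = powW [1, 2] (5 * 4) := by decide +kernel
  have h1 : ev x Alt6W.w = 1 := by
    rw [h0, ev_powW, ev_cons, ev_cons, ev_nil, mul_one, pow_mul, x_ab, one_pow]
  have e1 : Alt6W.w.count 1 = 2 * 10 := by decide +kernel
  have e2 : Alt6W.w.count 2 = 4 * 5 := by decide +kernel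
  have e3 : Alt6W.w.count 3 = 0 := by decide +kernel
  rw [e1, e2, e3, h1, pow_mul (x 1), pow_mul (x 2), x_a2, x_b]
  simp

end Cfsg.Agent.H20.Alt6N
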