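import Cfsg.Agent.H20_Alt6N
import Cfsg.Agent.H20_Alt6W3

/-!
The triple cover of the alternating group of degree 6.
-/

set_option autoImplicit false
set_option maxRecDepth 100000

namespace Cfsg.Agent.H20.Alt6P

open Cfsg Cfsg.Agent.H8 Cfsg.Agent.H8.CE Cfsg.Agent.H8.Net Cfsg.Agent.H8.Act Cfsg.Agent.H8.Cox Cfsg.Agent.H8.Act2
open Cfsg.Agent.H20 Cfsg.Agent.H20.PG Cfsg.Agent.H20.Alt6R Cfsg.Agent.H20.Alt6M Cfsg.Agent.H20.Alt6N Cfsg.Agent.H20.Lab

theorem low3 : ∃ (Γ : Type) (_ : Group Γ) (_ : Finite Γ) (σ : Γ →* J), IsStemExtension σ ∧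
    Nonempty (σ.ker ≃* Multiplicative (ZMod 3)) := by
  refine Low2.low good (L := Alt6W3.L) (k := 8) Alt6W3.sys Alt6W3.hn Alt6W3.inv_ok Alt6W3.E_ok (by decide +kernel) (es := Alt6W3.es)
    (by decide +kernel) (by decide +kernel) (by decide +kernel) (by decide +kernel) (by decide +kernel) (by decide +kernel)
    ?_ (w := Alt6W3.w) (by decide +kernel) (by decide +kernel) ?_
  · haveI : Fact (Nat.Prime 3) := ⟨Nat.prime_three⟩
    apply orderOf_eq_prime
    · have h : ev (xP Alt6W3.sys Alt6W3.hn Alt6W3.inv_ok) [8, 8, 8] = ev (xP Alt6W3.sys Alt6W3.hn Alt6W3.inv_ok) [] :=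
        ev_xP_eq Alt6W3.sys Alt6W3.hn Alt6W3.inv_ok (by decide) (by decide) (eqAll_sound Alt6W3.E_ok ([8, 8, 8], []) (by decide +kernel))
      rw [ev_cons, ev_cons, ev_cons, ev_nil, mul_one] at h
      rw [pow_succ', pow_two]; exact h
    · intro h
      have h1 := xP_inv_apply Alt6W3.sys Alt6W3.hn Alt6W3.inv_ok 8 (by decide) ⟨0, by decide⟩
      rw [h] at h1
      have h2 : (net Alt6W3.L 8).pos 0 = 0 := h1.symm
      revert h2
      decide +kernel
  have h0 : Alt6W3.w = powW [1, 2] (5 * 4) := by decide +kernel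
  have h1 : ev x Alt6W3.w = 1 := by
    rw [h0, ev_powW, ev_cons, ev_cons, ev_nil, mul_one, pow_mul, x_ab, one_pow]
  have e1 : Alt6W3.w.count 1 = 2 * 10 := by decide +kernel
  have e2 : Alt6W3.w.count 2 = 4 * 5 := by decide +kernel
  have e3 : Alt6W3.w.count 3 = 0 := by decide +kernel
  rw [e1, e2, e3, h1, pow_mul (x 1), pow_mul (x 2), x_a2, x_b]
  simp

end Cfsg.Agent.H20.Alt6P
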