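import Cfsg.Agent.H1_Frob
set_option autoImplicit false
open Cfsg
open scoped Pointwise

namespace Cfsg.Agent.H20.FrobC

theorem kernel_char {L : Type*} [Group L] [Finite L]
    (H : Subgroup L) (hH : Cfsg.IsFrobeniusComplement H)
    (K : Subgroup L) (hK : (K : Set L) = Cfsg.frobeniusKernel H) :
    K.Characteristic ∧ ∀ N : Subgroup L, N.Normal → K ≤ N ∨ N ≤ K := by
  classical
  have hmem : ∀ x, x ∈ K ↔ (x = 1 ∨ ∀ g : L, x ∉ MulAut.conj g • H) := by
    intro x
    rw [← SetLike.mem_coe, hK]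
    exact Iff.rfl
  have hKn : K.Normal := by
    constructor
    intro x hx g
    rw [hmem] at hx ⊢
    rcases hx with rfl | hx
    · left; group
    · right
      intro a ha
      apply hx (g⁻¹ * a)
      rw [Subgroup.mem_pointwise_smul_iff_inv_smul_mem] at ha ⊢
      have h1 : (MulAut.conj (g⁻¹ * a))⁻¹ • x = (MulAut.conj a)⁻¹ • (g * x * g⁻¹) := by
        simp only [MulAut.smul_def, ← map_inv, MulAut.conj_apply]
        group
      rw [h1]; exact ha
  have hcen : ∀ h ∈ H, h ≠ 1 → ∀ k ∈ K, h * k = k * h → k = 1 := by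
    intro h hh h1 k hk hc
    rw [hmem] at hk
    rcases hk with hk | hk
    · exact hk
    · exfalso
      apply hk 1
      have h2 : k ∈ H := by
        apply Cfsg.Agent.H1.Frob.centralizer_le hH hh h1
        exact hc.symm
      simpa using h2
  have hcomp : ∀ N : Subgroup L, N.Normal → K ≤ N ∨ N ≤ K := by
    intro N hN
    by_cases hNK : N ≤ K
    · exact Or.inr hNK
    left
    obtain ⟨x, hx, hxK⟩ := Set.not_subset.mp hNK
    have hxK' : x ∉ K := hxK
    rw [hmem] at hxK'
    push Not at hxK'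
    obtain ⟨hx1, g, hg⟩ := hxK'
    rw [Subgroup.mem_pointwise_smul_iff_inv_smul_mem, MulAut.smul_def, ← map_inv, MulAut.conj_apply, inv_inv] at hg
    set h := g⁻¹ * x * g with hh
    have hhN : h ∈ N := by
      have := hN.conj_mem x hx g⁻¹
      rwa [inv_inv] at this
    have hh1 : h ≠ 1 := by
      intro h0
      apply hx1
      have : x = g * h * g⁻¹ := by rw [hh]; group
      rw [this, h0]; group
    have hinj : Function.Injective (fun k : K => (⟨(k : L)⁻¹ * (h * k * h⁻¹), K.mul_mem (K.inv_mem k.2) (hKn.conj_mem k k.2 h)⟩ : K)) := by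
      intro k l hkl
      have h1 : (k : L)⁻¹ * (h * k * h⁻¹) = (l : L)⁻¹ * (h * l * h⁻¹) := congrArg Subtype.val hkl
      have h2 : h * ((l : L) * (k : L)⁻¹) = ((l : L) * (k : L)⁻¹) * h := by
        calc h * ((l : L) * (k : L)⁻¹) = (l : L) * ((l : L)⁻¹ * (h * l * h⁻¹)) * (h * (k : L)⁻¹) := by group
          _ = (l : L) * ((k : L)⁻¹ * (h * k * h⁻¹)) * (h * (k : L)⁻¹) := by rw [h1]
          _ = ((l : L) * (k : L)⁻¹) * h := by group
      have h3 := hcen h hg hh1 _ (K.mul_mem l.2 (K.inv_mem k.2)) h2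
      exact Subtype.ext (mul_inv_eq_one.mp h3).symm
    have hsurj := Finite.surjective_of_injective hinj
    intro k hk
    obtain ⟨l, hl⟩ := hsurj ⟨k, hk⟩
    have h1 : (l : L)⁻¹ * (h * l * h⁻¹) = k := congrArg Subtype.val hl
    rw [← h1]
    have h2 : (l : L)⁻¹ * (h * l * h⁻¹) = ((l : L)⁻¹ * h * l) * h⁻¹ := by group
    rw [h2]
    apply N.mul_mem _ (N.inv_mem hhN)
    have := hN.conj_mem h hhN (l : L)⁻¹
    rwa [inv_inv] at this
  refine ⟨?_, hcomp⟩
  rw [Subgroup.characteristic_iff_map_eq]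
  intro φ
  have hn : (K.map φ.toMonoidHom).Normal := hKn.map _ φ.surjective
  have hcard : Nat.card (K.map φ.toMonoidHom) = Nat.card K := Nat.card_congr (K.equivMapOfInjective _ φ.injective).toEquiv.symm
  rcases hcomp _ hn with h | h
  · exact (Subgroup.eq_of_le_of_card_ge h hcard.le).symm
  · exact Subgroup.eq_of_le_of_card_ge h hcard.ge

end Cfsg.Agent.H20.FrobC
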