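import Mathlib
set_option autoImplicit false

/-! involutory automorphisms with one or two fixed points -/
namespace Cfsg.Agent.H20.Inv2

variable {H : Type*} [Group H] [Finite H] (γ : MulAut H)

theorem invol (hγ : orderOf γ = 2) (x : H) : γ (γ x) = x := by
  have h1 : γ ^ 2 = 1 := by rw [← hγ]; exact pow_orderOf_eq_one γ
  have h2 := congrArg (fun f : MulAut H => f x) h1
  rw [sq] at h2
  exact h2

theorem part1 (hγ : orderOf γ = 2) (h : ∀ h : H, γ h = h → h = 1) :
    (∀ a b : H, a * b = b * a) ∧ ∀ h : H, γ h = h⁻¹ := by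
  have hinv : ∀ x : H, γ x = x⁻¹ := by
    have hinj : Function.Injective (fun x : H => x * (γ x)⁻¹) := by
      intro x y hxy
      have h1 : x * (γ x)⁻¹ = y * (γ y)⁻¹ := hxy
      have h2 : γ (y⁻¹ * x) = y⁻¹ * x := by
        rw [map_mul, map_inv]
        have h3 : x = y * (γ y)⁻¹ * γ x := by rw [← h1]; group
        nth_rewrite 2 [h3]
        group
      have h3 := h _ h2
      exact (inv_mul_eq_one.mp h3).symm
    have hsurj := Finite.surjective_of_injective hinj
    intro x
    obtain ⟨y, hy⟩ := hsurj x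
    have hy' : y * (γ y)⁻¹ = x := hy
    rw [← hy', map_mul, map_inv, invol γ hγ]
    group
  refine ⟨?_, hinv⟩
  intro a b
  have h1 := hinv (a * b)
  rw [map_mul, hinv, hinv] at h1
  -- a⁻¹ b⁻¹ = (ab)⁻¹ = b⁻¹ a⁻¹
  have h2 : (b * a)⁻¹ = (a * b)⁻¹ := by rw [← h1]; group
  exact (inv_injective h2).symm

theorem inverted (hγ : orderOf γ = 2) (h2 : Nat.card {h : H // γ h = h} = 2) (A : Subgroup H) (hA : A.index = 2)
    (hAγ : ∀ a ∈ A, γ a ∈ A) : ∀ a ∈ A, γ a = a⁻¹ := by
  classical
  let F : Subgroup H :=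
    { carrier := {h | γ h = h}
      mul_mem' := fun {a b} ha hb => by
        simp only [Set.mem_setOf_eq] at *; rw [map_mul, ha, hb]
      one_mem' := map_one γ
      inv_mem' := fun {a} ha => by
        simp only [Set.mem_setOf_eq] at *; rw [map_inv, ha] }
  have hF : Nat.card F = 2 := h2
  have hmem : ∀ x : H, x * (γ x)⁻¹ ∈ A := by
    intro x
    rw [Subgroup.mul_mem_iff_of_index_two hA, inv_mem_iff]
    constructor
    · exact hAγ x
    · intro h
      have := hAγ _ h
      rwa [invol γ hγ] at this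
  let f : H ⧸ F → A := Quotient.lift (fun x : H => (⟨x * (γ x)⁻¹, hmem x⟩ : A)) (by
    intro x y hxy
    apply Subtype.ext
    have h1 : x⁻¹ * y ∈ F := QuotientGroup.leftRel_apply.mp hxy
    have h3 : γ (x⁻¹ * y) = x⁻¹ * y := h1
    have h4 : y = x * (x⁻¹ * y) := by group
    change x * (γ x)⁻¹ = y * (γ y)⁻¹
    rw [h4, map_mul, h3]
    group)
  have hf : ∀ x : H, f (QuotientGroup.mk x) = ⟨x * (γ x)⁻¹, hmem x⟩ := fun x => rfl
  have hinj : Function.Injective f := by
    intro a b
    induction a using QuotientGroup.induction_on with | H x => ?_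
    induction b using QuotientGroup.induction_on with | H y => ?_
    intro hxy
    rw [hf, hf] at hxy
    have h1 : x * (γ x)⁻¹ = y * (γ y)⁻¹ := congrArg Subtype.val hxy
    rw [QuotientGroup.eq]
    change γ (x⁻¹ * y) = x⁻¹ * y
    rw [map_mul, map_inv]
    have h3 : y = x * (γ x)⁻¹ * γ y := by rw [h1]; group
    nth_rewrite 2 [h3]
    group
  have hcard : Nat.card (H ⧸ F) = Nat.card A := by
    have h1 := F.index_mul_card
    have h3 := A.index_mul_card
    rw [hF] at h1
    rw [hA] at h3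
    have h4 : F.index = Nat.card (H ⧸ F) := rfl
    rw [← h4]; omega
  have hbij := (Nat.bijective_iff_injective_and_card f).mpr ⟨hinj, hcard⟩
  intro a ha
  obtain ⟨q, hq⟩ := hbij.2 ⟨a, ha⟩
  induction q using QuotientGroup.induction_on with | H x => ?_
  rw [hf] at hq
  have h1 : x * (γ x)⁻¹ = a := congrArg Subtype.val hq
  rw [← h1, map_mul, map_inv, invol γ hγ]
  group

theorem part2 (hγ : orderOf γ = 2) (h2 : Nat.card {h : H // γ h = h} = 2) (M : Subgroup H) (hM : M.index = 2) :
    ∃ A : Subgroup H, A.index = 2 ∧ IsMulCommutative A ∧ (∀ a ∈ A, γ a ∈ A) ∧ ∀ a ∈ A, γ a = a⁻¹ := by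
  classical
  have key : ∃ A : Subgroup H, A.index = 2 ∧ (∀ a ∈ A, γ a ∈ A) := by
    by_cases h : ∀ a ∈ M, γ a ∈ M
    · exact ⟨M, hM, h⟩
    · let A : Subgroup H :=
        { carrier := {x | (x ∈ M ↔ γ x ∈ M)}
          mul_mem' := fun {a b} ha hb => by
            simp only [Set.mem_setOf_eq] at *
            rw [Subgroup.mul_mem_iff_of_index_two hM, map_mul, Subgroup.mul_mem_iff_of_index_two hM, ha, hb]
          one_mem' := by
            simp only [Set.mem_setOf_eq, map_one]
          inv_mem' := fun {a} ha => by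
            simp only [Set.mem_setOf_eq] at *
            rw [map_inv, inv_mem_iff, inv_mem_iff, ha] }
      have hAm : ∀ x, x ∈ A ↔ (x ∈ M ↔ γ x ∈ M) := fun x => Iff.rfl
      refine ⟨A, ?_, ?_⟩
      · push Not at h
        obtain ⟨a, ha, ha'⟩ := h
        rw [Subgroup.index_eq_two_iff]
        refine ⟨a, fun b => ?_⟩
        rw [hAm, hAm, Subgroup.mul_mem_iff_of_index_two hM, map_mul, Subgroup.mul_mem_iff_of_index_two hM]
        simp only [ha, ha', iff_true, iff_false]
        by_cases hb : b ∈ M <;> by_cases hb' : γ b ∈ M <;> simp [hb, hb', Xor']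
      · intro a ha
        rw [hAm] at ha ⊢
        rw [invol γ hγ]
        exact ha.symm
  obtain ⟨A, hA, hAγ⟩ := key
  have hinv := inverted γ hγ h2 A hA hAγ
  refine ⟨A, hA, ⟨⟨?_⟩⟩, hAγ, hinv⟩
  intro a b
  apply Subtype.ext
  have h1 := hinv _ (A.mul_mem a.2 b.2)
  rw [map_mul, hinv _ a.2, hinv _ b.2] at h1
  have h3 : ((b : H) * a)⁻¹ = ((a : H) * b)⁻¹ := by rw [← h1]; group
  exact (inv_injective h3).symm

end Cfsg.Agent.H20.Inv2
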