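import Cfsg.Agent.H20_J2R
import Cfsg.Agent.H8_Suz3T
import Cfsg.Agent.H8_Suz4T
import Cfsg.Agent.H20_J2Main

/-!
The presented group J2: order, isomorphism, actions on 8064, 6048 and 100 points.
-/

set_option autoImplicit false
set_option maxRecDepth 100000

namespace Cfsg.Agent.H20.J2Q

open Cfsg.Agent.H8 Cfsg.Agent.H8.CE Cfsg.Agent.H8.Net Cfsg.Agent.H8.Act Cfsg.Agent.H8.Cox Cfsg.Agent.H8.Act2
open Cfsg.Agent.H20 Cfsg.Agent.H20.PG5 Cfsg.Agent.H20.J2R
open Cfsg.Agent.H20.PG (Hl Hl_mono mem_Hl sub_rels)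

/-- the presented group -/
abbrev J : Type := PresentedGroup (RR5 rels)

/-- the letters in the presented group -/
noncomputable abbrev x : ℕ → J := xG (RR5 rels) lm5

theorem xic : ∀ y, y < 16 → x (il ic5 y) = (x y)⁻¹ := PG5.hic good

theorem xrels : ∀ w ∈ rels, ev x w = 1 := PG5.hrels rels

theorem hicS (ic : ℕ) (h : ((List.range 6).all fun y => il ic y == y) = true) (h2 : ∀ y, 6 ≤ y → y < 16 → il ic y = y ∨ il ic y = 0) :
    ∀ y, y < 16 → x (il ic y) = (x y)⁻¹ := by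
  intro y hy
  have h6 : ∀ y, 6 ≤ y → x y = 1 := fun y hy => by rw [show x = xL _ from PG5.xG_eq' rels]; exact xL6 _ hy
  by_cases h' : 6 ≤ y
  · rcases h2 y h' hy with e | e
    · rw [e, h6 y h', inv_one]
    · rw [e, h6 y h', inv_one]; exact PG5.x0
  · have e := List.all_eq_true.1 h y (List.mem_range.2 (by omega))
    rw [eq_of_beq e]
    have := xic y hy
    have e2 : il ic5 y = y := by
      have : y < 6 := by omega
      interval_cases y <;> decide
    rwa [e2] at this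

theorem b1 : (Hl x [1, 2, 3, 4]).relIndex (Hl x [1, 2, 3, 4, 5]) ≤ 280 ∧
    (Hl x [1, 2, 3, 4]).relIndex (Hl x [1, 2, 3, 4, 5]) ≠ 0 := by
  have h := Suz3T.bound (x := x) (H := (Hl x [1, 2, 3, 4]))
    (hicS _ (by decide +kernel) (by intro y h1 h2; interval_cases y <;> decide)) PG5.x0 (sub_rels x xrels (by decide +kernel)) (by
      intro s hs
      simp only [Suz3T.L, List.mem_cons, List.not_mem_nil, or_false] at hs
      rcases hs with rfl | rfl | rfl | rfl <;> exact mem_Hl x (by decide))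
  have e : (x '' {y | 1 ≤ y ∧ y ≤ 5}) = x '' {y | y ∈ ([1, 2, 3, 4, 5] : List ℕ)} := by
    congr 1
    ext y
    simp only [Set.mem_ofPred_eq, List.mem_cons, List.not_mem_nil, or_false]
    omega
  rw [e] at h
  exact h

theorem b2 : (⊥ : Subgroup J).relIndex (Hl x [1, 2, 3, 4]) ≤ 2160 ∧
    (⊥ : Subgroup J).relIndex (Hl x [1, 2, 3, 4]) ≠ 0 := by
  have h := Suz4T.bound (x := x) (H := (⊥ : Subgroup J))
    (hicS _ (by decide +kernel) (by intro y h1 h2; interval_cases y <;> decide)) PG5.x0 (sub_rels x xrels (by decide +kernel)) (by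
      intro s hs
      simp [Suz4T.L] at hs)
  have e : (x '' {y | 1 ≤ y ∧ y ≤ 4}) = x '' {y | y ∈ ([1, 2, 3, 4] : List ℕ)} := by
    congr 1
    ext y
    simp only [Set.mem_ofPred_eq, List.mem_cons, List.not_mem_nil, or_false]
    omega
  rw [e] at h
  exact h

theorem c2 : Nat.card (Hl x [1, 2, 3, 4]) ≤ 2160 ∧ Nat.card (Hl x [1, 2, 3, 4]) ≠ 0 := by
  have h := b2
  rwa [Subgroup.relIndex_bot_left] at h

theorem c1 : Nat.card (Hl x [1, 2, 3, 4, 5]) ≤ 280 * 2160 ∧ Nat.card (Hl x [1, 2, 3, 4, 5]) ≠ 0 :=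
  card_le_of_relIndex (Hl_mono x (by decide)) b1 c2

theorem card_le : Nat.card J ≤ 604800 := by
  have h := c1.1
  rw [PG5.Hl_top, Subgroup.card_top] at h
  exact h

theorem card_ne : Nat.card J ≠ 0 := by
  have h := c1.2
  rwa [PG5.Hl_top, Subgroup.card_top] at h

instance instFinite : Finite J := Nat.finite_of_card_ne_zero card_ne

/-! ### Isomorphism -/

open Cfsg.Agent.H20.J2P Cfsg.Agent.H20.J2L

/-- generators -/
noncomputable def gz (y : ℕ) : P := gg ⟨y % 4, Nat.mod_lt _ (by norm_num)⟩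

theorem gz_mem (y : ℕ) : gz y ∈ G := gg_mem _

theorem evz_mem (w : List ℕ) : ev gz w ∈ G := by
  induction w with
  | nil => exact one_mem _
  | cons y w ih => rw [ev_cons]; exact mul_mem (gz_mem y) ih

/-- evaluation by packed permutations -/
def evn (Z : ℕ → ℕ) (w : List ℕ) : ℕ := w.foldr (fun y p => cmp (Z y) p) idp

theorem evn_nil (Z : ℕ → ℕ) : evn Z [] = idp := by unfold evn; rw [List.foldr_nil]

theorem evn_cons (Z : ℕ → ℕ) (y : ℕ) (w : List ℕ) : evn Z (y :: w) = J2P.cmp (Z y) (evn Z w) := by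
  unfold evn; rw [List.foldr_cons]

theorem rep_ev {x : ℕ → P} {Z : ℕ → ℕ} (w : List ℕ) (h : ∀ y ∈ w, Rep (x y) (Z y)) : Rep (ev x w) (evn Z w) := by
  induction w with
  | nil => rw [evn_nil]; exact Rep.one
  | cons y w ih =>
    rw [ev_cons, evn_cons]
    exact Rep.mul (h y List.mem_cons_self) (ih fun y hy => h y (List.mem_cons_of_mem _ hy))

/-- words for the letters -/
def sw : List (List ℕ) := [[], [1, 3, 1, 2, 1, 3, 1],
  [1],
  [0, 1, 3, 1, 0],
  [0, 1, 3, 1, 3, 2, 1, 3, 2, 1, 3, 1, 0, 2, 3, 1, 2],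
  [2, 3, 2, 1, 3, 2, 1, 3, 2, 1, 3, 1, 0, 2, 3, 1, 0, 3]]

def Zg (y : ℕ) : ℕ := gL.getD (y % 4) 0

theorem rep_gz (y : ℕ) : Rep (gz y) (Zg y) := gg_rep _

/-- images of the generators -/
noncomputable def fG : Gen5 → G
  | .a => ⟨ev gz (sw.getD 1 []), evz_mem _⟩
  | .b => ⟨ev gz (sw.getD 2 []), evz_mem _⟩
  | .c => ⟨ev gz (sw.getD 3 []), evz_mem _⟩
  | .d => ⟨ev gz (sw.getD 4 []), evz_mem _⟩
  | .e => ⟨ev gz (sw.getD 5 []), evz_mem _⟩

/-- images in the symmetric group -/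
noncomputable def fS : Gen5 → P := fun g => (fG g : P)

/-- table -/
def ZL : List ℕ := (List.range 6).map fun y => evn Zg (sw.getD y [])

theorem repZ : ∀ y, 1 ≤ y → y ≤ 5 → Rep (xL fS y) (ZL.getD y 0) := by
  intro y h1 h2
  interval_cases y
  · rw [xL1]; exact rep_ev _ fun y _ => rep_gz y
  · rw [xL2]; exact rep_ev _ fun y _ => rep_gz y
  · rw [xL3]; exact rep_ev _ fun y _ => rep_gz y
  · rw [xL4]; exact rep_ev _ fun y _ => rep_gz y
  · rw [xL5]; exact rep_ev _ fun y _ => rep_gz y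

theorem k_rels : (rels.all fun w => (w.all fun y => Nat.blt 0 y && Nat.blt y 6) && Nat.beq (evn (fun y => ZL.getD y 0) w) idp) = true := by
  decide +kernel

theorem rep_word {w : List ℕ} (h : (w.all fun y => Nat.blt 0 y && Nat.blt y 6) = true) :
    Rep (ev (xL fS) w) (evn (fun y => ZL.getD y 0) w) := by
  apply rep_ev
  intro y hy
  have h2 := List.all_eq_true.1 h y hy
  rw [Bool.and_eq_true] at h2
  exact repZ y (Nat.le_of_ble_eq_true h2.1) (Nat.le_of_lt_succ (Nat.le_of_ble_eq_true h2.2))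

theorem relS : ∀ w ∈ rels, ev (xL fS) w = 1 := by
  intro w hw
  have h := List.all_eq_true.1 k_rels w hw
  rw [Bool.and_eq_true] at h
  have h1 := rep_word h.1
  rw [Nat.eq_of_beq_eq_true h.2] at h1
  exact h1.ext Rep.one

theorem coe_xL (w : List ℕ) : ((ev (xL fG) w : G) : P) = ev (xL fS) w := by
  have hx : ∀ r, ((FreeGroup.lift fG r : G) : P) = FreeGroup.lift fS r := by
    intro r
    have : (Subgroup.subtype G).comp (FreeGroup.lift fG) = FreeGroup.lift fS := by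
      apply FreeGroup.ext_hom
      intro x
      simp only [MonoidHom.comp_apply, FreeGroup.lift_apply_of]
      rfl
    rw [← this]; rfl
  rw [ev_xL, ev_xL, hx]

theorem relG : ∀ w ∈ rels, ev (xL fG) w = 1 := by
  intro w hw
  apply Subtype.ext
  rw [coe_xL, relS w hw]; rfl

/-- the homomorphism -/
noncomputable def psi : J →* G := toG fG relG

def gw : List (List ℕ) := [[1, 2, 5, 4, 3, 2, 4, 3, 5, 4, 3, 2, 1, 2, 4, 3, 4, 3, 2, 5, 4, 3, 2, 4, 3],
  [2],
  [3, 2, 1, 4, 3, 2, 1, 4, 3, 2, 1, 5, 4, 3, 2, 1, 4, 3, 2, 1, 5, 4, 3, 2, 4, 3],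
  [1, 2, 3, 2, 4, 3, 2, 5, 4, 3, 2, 1, 2, 3, 4, 3, 2, 5, 4, 3, 2, 1]]

theorem k_gen : ((List.range 4).all fun i => ((gw.getD i []).all fun y => Nat.blt 0 y && Nat.blt y 6) &&
    Nat.beq (evn (fun y => ZL.getD y 0) (gw.getD i [])) (gL.getD i 0)) = true := by
  decide +kernel

theorem gg_in (i : Fin 4) : ∃ j, ((psi j : G) : P) = gg i := by
  have h := List.all_eq_true.1 k_gen i (List.mem_range.2 i.2)
  rw [Bool.and_eq_true] at h
  have h1 := rep_word h.1
  rw [Nat.eq_of_beq_eq_true h.2] at h1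
  refine ⟨PresentedGroup.mk _ (ev (fun y => lm5.getD y 1) (gw.getD i [])), ?_⟩
  have e : psi (PresentedGroup.mk _ (ev (fun y => lm5.getD y 1) (gw.getD i []))) = ev (xL fG) (gw.getD i []) := by
    rw [ev_xL]; rfl
  rw [e, coe_xL]
  exact h1.ext (gg_rep i)

theorem psi_surj : Function.Surjective psi := by
  have h : G ≤ (psi.range.map G.subtype) := by
    conv_lhs => rw [G_eq]
    rw [Subgroup.closure_le]
    rintro _ ⟨i, rfl⟩
    obtain ⟨j, hj⟩ := gg_in i
    exact ⟨psi j, ⟨j, rfl⟩, hj⟩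
  intro g
  obtain ⟨k, ⟨j, hj⟩, hg⟩ := h g.2
  exact ⟨j, by rw [hj]; exact Subtype.ext hg⟩

theorem psi_bij : Function.Bijective psi := by
  haveI : Finite J := instFinite
  refine (Nat.bijective_iff_surjective_and_card psi).2 ⟨psi_surj, ?_⟩
  have h1 : Nat.card G ≤ Nat.card J := Nat.card_le_card_of_surjective psi psi_surj
  rw [card_G] at h1 ⊢
  exact le_antisymm card_le h1

/-- the isomorphism -/
noncomputable def e : J ≃* Cfsg.Spor.J2 := (MulEquiv.ofBijective psi psi_bij).trans eJ.symm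

theorem card_J : Nat.card J = 604800 := by
  rw [Nat.card_congr (MulEquiv.ofBijective psi psi_bij).toEquiv, card_G]

end Cfsg.Agent.H20.J2Q
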