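import Cfsg.Agent.H20_J2Q
import Cfsg.Agent.H20_J2NA
import Cfsg.Agent.H20_J2NB
import Cfsg.Agent.H20_J2NC

/-!
The presented group J2: actions on 8064, 6048 and 100 points.
-/

set_option autoImplicit false
set_option maxRecDepth 100000

namespace Cfsg.Agent.H20.J2Q

open Cfsg.Agent.H8 Cfsg.Agent.H8.CE Cfsg.Agent.H8.Net Cfsg.Agent.H8.Act Cfsg.Agent.H8.Cox Cfsg.Agent.H8.Act2
open Cfsg.Agent.H20 Cfsg.Agent.H20.PG5 Cfsg.Agent.H20.J2R
open Cfsg.Agent.H20.PG (Hl Hl_mono mem_Hl sub_rels)

/-! ### Actions -/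

theorem hnA : 8064 ≤ 2 ^ 13 := by decide

theorem exists_phiA : ∃ φ : J →* Equiv.Perm (Fin 8064), Compat φ x J2NA.L :=
  PG5.exists_act J2NA.sys hnA J2NA.inv_ok J2NA.rel_ok (by decide +kernel) rfl (by
    intro y h1 h2
    interval_cases y <;> rfl)

/-- the action -/
noncomputable def phiA : J →* Equiv.Perm (Fin 8064) := exists_phiA.choose

theorem compatA : Compat phiA x J2NA.L := exists_phiA.choose_spec

theorem tr_okA : reachIv J2NA.L [1, 2, 3, 4, 5] 40 (nat_lit 0) (nat_lit 0) (nat_lit 8064) = true := by decide +kernel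

theorem transA (i : Fin 8064) : ∃ g, phiA g ⟨0, by decide⟩ = i :=
  trans_of J2NA.sys compatA (fun y hy => by
    have : y ∈ ([1, 2, 3, 4, 5] : List ℕ) := hy
    simp only [List.mem_cons, List.not_mem_nil, or_false] at this
    omega) (by decide) tr_okA i

theorem hnB : 6048 ≤ 2 ^ 13 := by decide

theorem exists_phiB : ∃ φ : J →* Equiv.Perm (Fin 6048), Compat φ x J2NB.L :=
  PG5.exists_act J2NB.sys hnB J2NB.inv_ok J2NB.rel_ok (by decide +kernel) rfl (by
    intro y h1 h2
    interval_cases y <;> rfl)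

/-- the action -/
noncomputable def phiB : J →* Equiv.Perm (Fin 6048) := exists_phiB.choose

theorem compatB : Compat phiB x J2NB.L := exists_phiB.choose_spec

theorem tr_okB : reachIv J2NB.L [1, 2, 3, 4, 5] 40 (nat_lit 0) (nat_lit 0) (nat_lit 6048) = true := by decide +kernel

theorem transB (i : Fin 6048) : ∃ g, phiB g ⟨0, by decide⟩ = i :=
  trans_of J2NB.sys compatB (fun y hy => by
    have : y ∈ ([1, 2, 3, 4, 5] : List ℕ) := hy
    simp only [List.mem_cons, List.not_mem_nil, or_false] at this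
    omega) (by decide) tr_okB i

theorem hnC : 100 ≤ 2 ^ 7 := by decide

theorem exists_phiC : ∃ φ : J →* Equiv.Perm (Fin 100), Compat φ x J2NC.L :=
  PG5.exists_act J2NC.sys hnC J2NC.inv_ok J2NC.rel_ok (by decide +kernel) rfl (by
    intro y h1 h2
    interval_cases y <;> rfl)

/-- the action -/
noncomputable def phiC : J →* Equiv.Perm (Fin 100) := exists_phiC.choose

theorem compatC : Compat phiC x J2NC.L := exists_phiC.choose_spec

theorem tr_okC : reachIv J2NC.L [1, 2, 3, 4, 5] 20 (nat_lit 0) (nat_lit 0) (nat_lit 100) = true := by decide +kernel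

theorem transC (i : Fin 100) : ∃ g, phiC g ⟨0, by decide⟩ = i :=
  trans_of J2NC.sys compatC (fun y hy => by
    have : y ∈ ([1, 2, 3, 4, 5] : List ℕ) := hy
    simp only [List.mem_cons, List.not_mem_nil, or_false] at this
    omega) (by decide) tr_okC i

end Cfsg.Agent.H20.J2Q
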