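import Cfsg.Agent.H8_Act2
import Cfsg.Agent.H8_Cox
import Cfsg.Agent.H20_PG

/-!
Groups with five involutive generators.
-/

set_option autoImplicit false
set_option maxRecDepth 100000

namespace Cfsg.Agent.H20.PG5

open Cfsg.Agent.H8 Cfsg.Agent.H8.CE Cfsg.Agent.H8.Net Cfsg.Agent.H8.Act Cfsg.Agent.H8.Cox Cfsg.Agent.H8.Act2
open Cfsg.Agent.H20.PG

inductive Gen5 | a | b | c | d | e

/-- letters -/
def lm5 : List (FreeGroup Gen5) :=
  [1, FreeGroup.of .a, FreeGroup.of .b, FreeGroup.of .c, FreeGroup.of .d, FreeGroup.of .e]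

/-- inverse letters -/
def ic5 : ℕ := 0x543210

/-- the relators -/
def RR5 (rels : List (List ℕ)) : Set (FreeGroup Gen5) := {r | ∃ w ∈ rels, r = ev (fun y => lm5.getD y 1) w}

/-- the letters in a group -/
def xL {K : Type*} [Group K] (f : Gen5 → K) (y : ℕ) : K := FreeGroup.lift f (lm5.getD y 1)

theorem lift_ev {K : Type*} [Group K] (f : Gen5 → K) (g : ℕ → FreeGroup Gen5) (w : List ℕ) :
    FreeGroup.lift f (ev g w) = ev (fun y => FreeGroup.lift f (g y)) w := by
  induction w with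
  | nil => simp
  | cons y w ih => rw [ev_cons, ev_cons, map_mul, ih]

section
variable {K : Type*} [Group K] (f : Gen5 → K) {rels : List (List ℕ)}

theorem xL0 : xL f 0 = 1 := by simp [xL, lm5]
theorem xL1 : xL f 1 = f .a := by simp [xL, lm5]
theorem xL2 : xL f 2 = f .b := by simp [xL, lm5]
theorem xL3 : xL f 3 = f .c := by simp [xL, lm5]
theorem xL4 : xL f 4 = f .d := by simp [xL, lm5]
theorem xL5 : xL f 5 = f .e := by simp [xL, lm5]
theorem xL6 {y : ℕ} (hy : 6 ≤ y) : xL f y = 1 := by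
  unfold xL
  rw [List.getD_eq_default _ _ (by simp [lm5]; omega), map_one]

theorem ev_xL (w : List ℕ) : ev (xL f) w = FreeGroup.lift f (ev (fun y => lm5.getD y 1) w) := by
  rw [lift_ev]; rfl

theorem words (hg : ([1, 2, 3, 4, 5].all fun y => rels.contains [y, y]) = true) (h2 : ∀ w ∈ rels, ev (xL f) w = 1) :
    ∀ y, y < 16 → xL f (il ic5 y) = (xL f y)⁻¹ := by
  have hs : ∀ y ∈ ([1, 2, 3, 4, 5] : List ℕ), xL f y = (xL f y)⁻¹ := by
    intro y hy
    have h := h2 [y, y] (List.contains_iff_mem.1 (List.all_eq_true.1 hg y hy))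
    rw [ev_cons, ev_cons, ev_nil, mul_one] at h
    exact eq_inv_of_mul_eq_one_left h
  intro y hy
  by_cases h : 6 ≤ y
  · rw [xL6 f h, inv_one]
    have : il ic5 y = 0 := by interval_cases y <;> decide
    rw [this, xL0]
  · have h' : y < 6 := by omega
    interval_cases y
    · rw [show il ic5 0 = 0 by decide, xL0, inv_one]
    · rw [show il ic5 1 = 1 by decide]; exact hs 1 (by simp)
    · rw [show il ic5 2 = 2 by decide]; exact hs 2 (by simp)
    · rw [show il ic5 3 = 3 by decide]; exact hs 3 (by simp)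
    · rw [show il ic5 4 = 4 by decide]; exact hs 4 (by simp)
    · rw [show il ic5 5 = 5 by decide]; exact hs 5 (by simp)

/-- relators hold -/
theorem lifts (hrels : ∀ w ∈ rels, ev (xL f) w = 1) : ∀ r ∈ RR5 rels, FreeGroup.lift f r = 1 := by
  rintro r ⟨w, hw, rfl⟩
  rw [← ev_xL]
  exact hrels w hw

/-- the homomorphism from the presented group -/
def toG (hrels : ∀ w ∈ rels, ev (xL f) w = 1) : PresentedGroup (RR5 rels) →* K :=
  PresentedGroup.toGroup (lifts f hrels)

theorem toG_x (hrels : ∀ w ∈ rels, ev (xL f) w = 1) (y : ℕ) : toG f hrels (xG (RR5 rels) lm5 y) = xL f y := rfl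

end

section
variable (rels : List (List ℕ))

theorem xG_eq' : xG (RR5 rels) lm5 = xL (PresentedGroup.of (rels := RR5 rels)) := xG_eq _ _

theorem hrels : ∀ w ∈ rels, ev (xG (RR5 rels) lm5) w = 1 := by
  intro w hw
  rw [xG_eq', ev_xL]
  exact lift_of_rel _ _ ⟨w, hw, rfl⟩

variable {rels}

theorem hic (hg : ([1, 2, 3, 4, 5].all fun y => rels.contains [y, y]) = true) : ∀ y, y < 16 →
    xG (RR5 rels) lm5 (il ic5 y) = (xG (RR5 rels) lm5 y)⁻¹ := by
  have h := hrels rels
  rw [xG_eq'] at h ⊢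
  exact words _ hg h

theorem x0 : xG (RR5 rels) lm5 0 = 1 := by
  rw [xG_eq', xL0]

/-- the action from the nets -/
theorem exists_act {L : List Nt} {n k : ℕ}
    (hs : sysOk L n = true) (hn : n ≤ 2 ^ k) (hi : invOk L n k ic5 = true)
    (hr : eqAll L n k (rels.map fun w => (w, [])) = true) (hlt : ltOk rels = true)
    (h0 : net L 0 = .nil) (h6 : ∀ y, 6 ≤ y → y < 16 → net L y = .nil) :
    ∃ φ : PresentedGroup (RR5 rels) →* Equiv.Perm (Fin n), Compat φ (xG (RR5 rels) lm5) L := by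
  let f : Gen5 → Equiv.Perm (Fin n) := fun g => match g with
    | .a => xP hs hn hi 1
    | .b => xP hs hn hi 2
    | .c => xP hs hn hi 3
    | .d => xP hs hn hi 4
    | .e => xP hs hn hi 5
  refine exists_action (RR5 rels) lm5 hs hn hi hr hlt f ?_ fun _ h => lifts f h
  intro y hy
  show xL f y = xP hs hn hi y
  by_cases h : 6 ≤ y
  · rw [xP_eq_one _ _ _ _ (h6 y h hy), xL6 f h]
  · have h' : y < 6 := by omega
    interval_cases y
    · rw [xP_eq_one _ _ _ _ h0, xL0]
    · exact xL1 f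
    · exact xL2 f
    · exact xL3 f
    · exact xL4 f
    · exact xL5 f

end

theorem Hl_top {rels : List (List ℕ)} : Hl (xG (RR5 rels) lm5) [1, 2, 3, 4, 5] = ⊤ := by
  apply closure_top
  intro g
  cases g
  exacts [⟨1, by decide, rfl⟩, ⟨2, by decide, rfl⟩, ⟨3, by decide, rfl⟩, ⟨4, by decide, rfl⟩, ⟨5, by decide, rfl⟩]

end Cfsg.Agent.H20.PG5
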