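import Cfsg.Agent.H20_LabG
import Cfsg.Agent.H20_PG5

/-!
Labels: glue for arbitrary lists of letters.
-/

set_option autoImplicit false
set_option maxRecDepth 100000

namespace Cfsg.Agent.H20.Lab

open Cfsg Cfsg.Agent.H8.CE Cfsg.Agent.H8.Act Cfsg.Agent.H14.Schur
open scoped IsMulCommutative commutatorElement

universe u v
variable {Γ : Type u} [Group Γ] {J : Type v} [Group J] {σ : Γ →* J}

variable {x : ℕ → J}

theorem imL {l : List ℕ} (hgen : Subgroup.closure (x '' {y | y ∈ l}) = ⊤) {Y : ℕ → Γ}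
    (hY : ∀ y ∈ l, σ (Y y) = x y) :
    Subgroup.closure (σ '' (Y '' {y | y ∈ l})) = ⊤ := by
  rw [← hgen]
  congr 1
  ext g
  constructor
  · rintro ⟨_, ⟨y, hy, rfl⟩, rfl⟩
    exact ⟨y, hy, (hY y hy).symm⟩
  · rintro ⟨y, hy, rfl⟩
    exact ⟨_, ⟨y, hy, rfl⟩, hY y hy⟩

theorem rpL {l : List ℕ} {Y : ℕ → Γ} (hY : ∀ y ∈ l, σ (Y y) = x y) {rels : List (List ℕ)}
    (hrels : ∀ w ∈ rels, ev x w = 1) {RP : List (List ℕ)}
    (h : (RP.all fun r => (r.all fun y => l.contains y) && rels.contains r) = true) :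
    ∀ r ∈ RP, σ (ev Y r) = 1 := by
  intro r hr
  have h1 := List.all_eq_true.1 h r hr
  rw [Bool.and_eq_true, List.contains_iff_mem] at h1
  have hl : ∀ y ∈ r, y ∈ l := fun y hy => List.contains_iff_mem.1 (List.all_eq_true.1 h1.1 y hy)
  rw [map_ev hY r hl, hrels r h1.2]

/-- five letters -/
def Y5 (a b c d e : Γ) (y : ℕ) : Γ :=
  match y with
  | 1 => a
  | 2 => b
  | 3 => c
  | 4 => d
  | 5 => e
  | _ => 1

theorem Y5_map {a b c d e : Γ} (ha : σ a = x 1) (hb : σ b = x 2) (hc : σ c = x 3) (hd : σ d = x 4) (he : σ e = x 5) :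
    ∀ y ∈ ([1, 2, 3, 4, 5] : List ℕ), σ (Y5 a b c d e y) = x y := by
  intro y hy
  simp only [List.mem_cons, List.not_mem_nil, or_false] at hy
  rcases hy with rfl | rfl | rfl | rfl | rfl
  exacts [ha, hb, hc, hd, he]

/-- powers only depend on the image -/
theorem pow_congr {m : ℕ} (hc : σ.ker ≤ Subgroup.center Γ) (hz : ∀ z ∈ σ.ker, z ^ m = 1) {g h : Γ} (e : σ g = σ h) : g ^ m = h ^ m := by
  have hz' : h⁻¹ * g ∈ σ.ker := by
    rw [MonoidHom.mem_ker, map_mul, map_inv, e, inv_mul_cancel]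
  have hcm : Commute h (h⁻¹ * g) := Subgroup.mem_center_iff.1 (hc hz') h
  have : g = h * (h⁻¹ * g) := by rw [mul_inv_cancel_left]
  rw [this, hcm.mul_pow, hz _ hz', mul_one]

end Cfsg.Agent.H20.Lab
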