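import Cfsg.Agent.H20_J2S
import Cfsg.Agent.H20_J2LA
import Cfsg.Agent.H20_J2LB
import Cfsg.Agent.H20_J2LC
import Cfsg.Agent.H20_J2W
import Cfsg.Agent.H20_LabH

/-!
The Schur multiplier of J2.
-/

set_option autoImplicit false
set_option maxRecDepth 100000

namespace Cfsg.Agent.H20.J2V

open Cfsg Cfsg.Agent.H8 Cfsg.Agent.H8.CE Cfsg.Agent.H8.Net Cfsg.Agent.H8.Act Cfsg.Agent.H8.Cox Cfsg.Agent.H8.Act2
open Cfsg.Agent.H20 Cfsg.Agent.H20.PG5 Cfsg.Agent.H20.J2R Cfsg.Agent.H20.J2Q Cfsg.Agent.H20.Lab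
open Cfsg.Agent.H20.PG (Hl Hl_mono mem_Hl sub_rels)
open scoped IsMulCommutative commutatorElement

instance : Fact (Nat.Prime 2) := ⟨Nat.prime_two⟩
instance : Fact (Nat.Prime 3) := ⟨Nat.prime_three⟩
instance : Fact (Nat.Prime 5) := ⟨Nat.prime_five⟩

/-! ### Stabilizers -/

/-- the stabilizer of the point 0 -/
def St {n : ℕ} (φ : J →* Equiv.Perm (Fin n)) (o : Fin n) : Subgroup J := (MulAction.stabilizer (Equiv.Perm (Fin n)) o).comap φ

theorem mem_St {n : ℕ} (φ : J →* Equiv.Perm (Fin n)) (o : Fin n) (g : J) : g ∈ St φ o ↔ φ g o = o := Iff.rfl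

theorem card_St {n : ℕ} (φ : J →* Equiv.Perm (Fin n)) (o : Fin n) (ht : ∀ i, ∃ g, φ g o = i) : Nat.card (St φ o) * n = 604800 := by
  letI : MulAction J (Fin n) := MulAction.compHom (Fin n) φ
  haveI : MulAction.IsPretransitive J (Fin n) := by
    constructor
    intro i j
    obtain ⟨g, hg⟩ := ht i
    obtain ⟨h, hh⟩ := ht j
    refine ⟨h * g⁻¹, ?_⟩
    show φ (h * g⁻¹) i = j
    rw [← hg, ← Equiv.Perm.mul_apply, ← map_mul, inv_mul_cancel_right]
    exact hh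
  have h1 : (MulAction.stabilizer J o).index = n := by
    rw [MulAction.index_stabilizer_of_transitive J o, Nat.card_eq_fintype_card, Fintype.card_fin]
  have h2 : St φ o = MulAction.stabilizer J o := by
    ext g
    rfl
  have h3 := Subgroup.card_mul_index (MulAction.stabilizer J o)
  rw [h1, card_J] at h3
  rw [h2, h3]

theorem card_KA : Nat.card (St phiA ⟨0, by decide⟩) = 75 := by
  have h := card_St phiA ⟨0, by decide⟩ transA
  omega
theorem card_KB : Nat.card (St phiB ⟨0, by decide⟩) = 100 := by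
  have h := card_St phiB ⟨0, by decide⟩ transB
  omega
theorem card_KC : Nat.card (St phiC ⟨0, by decide⟩) = 6048 := by
  have h := card_St phiC ⟨0, by decide⟩ transC
  omega

/-! ### Relations -/

theorem sq (y : ℕ) (h : (rels.contains [y, y]) = true) : (x y) ^ 2 = 1 := by
  have h := xrels [y, y] (List.contains_iff_mem.1 h)
  rw [ev_cons, ev_cons, ev_nil, mul_one] at h
  rw [pow_two]; exact h

theorem sqb : (x 2) ^ 2 = 1 := sq 2 (by decide +kernel)
theorem sqc : (x 3) ^ 2 = 1 := sq 3 (by decide +kernel)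
theorem sqd : (x 4) ^ 2 = 1 := sq 4 (by decide +kernel)
theorem sqe : (x 5) ^ 2 = 1 := sq 5 (by decide +kernel)
theorem sqa : (x 1) ^ 2 = 1 := sq 1 (by decide +kernel)

theorem rab : (x 1 * x 2) ^ 5 = 1 := by
  have h := xrels (powW [1, 2] 5) (by decide +kernel)
  rw [ev_powW, ev_cons, ev_cons, ev_nil, mul_one] at h
  exact h
theorem rbc : (x 2 * x 3) ^ 3 = 1 := by
  have h := xrels (powW [2, 3] 3) (by decide +kernel)
  rw [ev_powW, ev_cons, ev_cons, ev_nil, mul_one] at h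
  exact h
theorem rde : (x 4 * x 5) ^ 3 = 1 := by
  have h := xrels (powW [4, 5] 3) (by decide +kernel)
  rw [ev_powW, ev_cons, ev_cons, ev_nil, mul_one] at h
  exact h
theorem rs : (x 1 * (x 2 * (x 3 * (x 2 * (x 4 * (x 3 * (x 2 * (x 4 * x 5)))))))) ^ 7 = 1 := by
  have h := xrels (powW [1, 2, 3, 2, 4, 3, 2, 4, 5] 7) (by decide +kernel)
  rw [ev_powW] at h
  simp only [ev_cons, ev_nil, mul_one] at h
  exact h
theorem ra : x 1 = ((x 3 * x 4) ^ 4)⁻¹ := by
  have h := xrels (1 :: powW [3, 4] 4) (by decide +kernel)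
  rw [ev_cons, ev_powW, ev_cons, ev_cons, ev_nil, mul_one] at h
  exact eq_inv_of_mul_eq_one_left h

theorem gen5 : Subgroup.closure (x '' {y | y ∈ ([1, 2, 3, 4, 5] : List ℕ)}) = ⊤ := Hl_top

theorem comm_J : commutator J = ⊤ := by
  have ho : ∀ y, (x y) ^ 2 = 1 → Abelianization.of (x y) ^ 2 = 1 := fun y h => by rw [← map_pow, h, map_one]
  have odd : ∀ (A : Abelianization J) (k : ℕ), A ^ 2 = 1 → A ^ (2 * k + 1) = 1 → A = 1 := by
    intro A k h1 h2
    rw [pow_succ, pow_mul, h1, one_pow, one_mul] at h2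
    exact h2
  set a := Abelianization.of (x 1) with ha
  set b := Abelianization.of (x 2) with hb
  set c := Abelianization.of (x 3) with hc
  set d := Abelianization.of (x 4) with hd
  set e := Abelianization.of (x 5) with he
  have a2 : a ^ 2 = 1 := ho 1 sqa
  have b2 : b ^ 2 = 1 := ho 2 sqb
  have c2 : c ^ 2 = 1 := ho 3 sqc
  have d2 : d ^ 2 = 1 := ho 4 sqd
  have e2 : e ^ 2 = 1 := ho 5 sqe
  have ha1 : a = 1 := by
    rw [ha, ra, map_inv, map_pow, map_mul, mul_pow, show (4 : ℕ) = 2 * 2 by norm_num, pow_mul, pow_mul, ← hc, ← hd, c2, d2]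
    simp
  have hb1 : b = 1 := by
    have h : (a * b) ^ 5 = 1 := by rw [ha, hb, ← map_mul, ← map_pow, rab, map_one]
    rw [ha1, one_mul] at h
    exact odd b 2 b2 h
  have hc1 : c = 1 := by
    have h : (b * c) ^ 3 = 1 := by rw [hb, hc, ← map_mul, ← map_pow, rbc, map_one]
    rw [hb1, one_mul] at h
    exact odd c 1 c2 h
  have hde : d * e = 1 := by
    have h : (d * e) ^ 3 = 1 := by rw [hd, he, ← map_mul, ← map_pow, rde, map_one]
    exact odd (d * e) 1 (by rw [mul_pow, d2, e2, one_mul]) h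
  have hd1 : d = 1 := by
    have h := congrArg Abelianization.of rs
    simp only [map_mul, map_pow, map_one, ← ha, ← hb, ← hc, ← hd, ← he, ha1, hb1, hc1, hde, one_mul, mul_one] at h
    exact odd d 3 d2 h
  have he1 : e = 1 := by rw [hd1, one_mul] at hde; exact hde
  rw [eq_top_iff]
  intro g _
  refine (QuotientGroup.eq_one_iff g).1 ?_
  have hg : g ∈ Subgroup.closure (x '' {y | y ∈ ([1, 2, 3, 4, 5] : List ℕ)}) := by rw [gen5]; trivial
  have hle : Subgroup.closure (x '' {y | y ∈ ([1, 2, 3, 4, 5] : List ℕ)}) ≤ (Abelianization.of : J →* Abelianization J).ker := by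
    rw [Subgroup.closure_le]
    rintro _ ⟨y, hy, rfl⟩
    have hy' : y ∈ ([1, 2, 3, 4, 5] : List ℕ) := hy
    simp only [List.mem_cons, List.not_mem_nil, or_false] at hy'
    rcases hy' with rfl | rfl | rfl | rfl | rfl
    · exact ha1
    · exact hb1
    · exact hc1
    · exact hd1
    · exact he1
  exact hle hg

universe u

section
variable {Γ : Type u} [Group Γ] (a b c d e : Γ)

theorem ev2 (y : ℕ) (g : Γ) (h : Y5 a b c d e y = g) (hg : g ^ 2 = 1) : ev (Y5 a b c d e) [y, y] = 1 := by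
  rw [ev_cons, ev_cons, ev_nil, mul_one, h, ← pow_two, hg]

theorem evcd : ev (Y5 a b c d e) (1 :: powW [3, 4] 4) = a * (c * d) ^ 4 := by
  rw [ev_cons, ev_powW, ev_cons, ev_cons, ev_nil, mul_one]; rfl
theorem ev12 (k : ℕ) : ev (Y5 a b c d e) (powW [1, 2] k) = (a * b) ^ k := by
  rw [ev_powW, ev_cons, ev_cons, ev_nil, mul_one]; rfl
theorem ev23' (k : ℕ) : ev (Y5 a b c d e) (powW [2, 3] k) = (b * c) ^ k := by
  rw [ev_powW, ev_cons, ev_cons, ev_nil, mul_one]; rfl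
theorem ev45 (k : ℕ) : ev (Y5 a b c d e) (powW [4, 5] k) = (d * e) ^ k := by
  rw [ev_powW, ev_cons, ev_cons, ev_nil, mul_one]; rfl
theorem evs (k : ℕ) : ev (Y5 a b c d e) (powW [1, 2, 3, 2, 4, 3, 2, 4, 5] k) =
    (a * (b * (c * (b * (d * (c * (b * (d * e)))))))) ^ k := by
  rw [ev_powW]
  simp only [ev_cons, ev_nil, mul_one]
  rfl
end

theorem odd_lift {Γ : Type u} [Group Γ] {σ : Γ →* J} (hσ : IsStemExtension σ) {m : ℕ} (hm : Nat.Coprime 2 m)
    (hz : ∀ z ∈ σ.ker, z ^ m = 1) : ∃ a b c d e : Γ, σ a = x 1 ∧ σ b = x 2 ∧ σ c = x 3 ∧ σ d = x 4 ∧ σ e = x 5 ∧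
      b ^ 2 = 1 ∧ c ^ 2 = 1 ∧ d ^ 2 = 1 ∧ e ^ 2 = 1 ∧ a * (c * d) ^ 4 = 1 := by
  obtain ⟨b, hb, b2⟩ := Mul.lift_pow hσ.1 hσ.2.1 hz (k := 2) hm sqb
  obtain ⟨c, hc, c2⟩ := Mul.lift_pow hσ.1 hσ.2.1 hz (k := 2) hm sqc
  obtain ⟨d, hd, d2⟩ := Mul.lift_pow hσ.1 hσ.2.1 hz (k := 2) hm sqd
  obtain ⟨e, he, e2⟩ := Mul.lift_pow hσ.1 hσ.2.1 hz (k := 2) hm sqe
  refine ⟨((c * d) ^ 4)⁻¹, b, c, d, e, ?_, hb, hc, hd, he, b2, c2, d2, e2, inv_mul_cancel _⟩
  rw [map_inv, map_pow, map_mul, hc, hd]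
  exact ra.symm

theorem no3 (Γ : Type u) [Group Γ] [Finite Γ] (σ : Γ →* J) (hσ : IsStemExtension σ) : Nat.card σ.ker ≠ 3 := by
  intro hcard
  have hz := pow_of_card (σ := σ) hcard
  obtain ⟨H1, hC⟩ := ctx_coprime hσ (phi := phiB) (o := ⟨0, by decide⟩) (St phiB ⟨0, by decide⟩) (mem_St _ _) (by rw [hcard, card_KB]; norm_num)
  obtain ⟨a, b, c, d, e, ha, hb, hc, hd, he, b2, c2, d2, e2, r1⟩ := odd_lift hσ (by norm_num) hz
  have hY := Y5_map (x := x) ha hb hc hd he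
  obtain ⟨q, q1, q2, q3⟩ := J2LB.res compatB rfl hC (Y5 a b c d e) hY
    (fun z h => Subtype.ext (hz z h))
    (by
      intro r hr
      simp only [J2LB.RN, List.mem_cons, List.not_mem_nil, or_false] at hr
      rcases hr with rfl | rfl | rfl | rfl | rfl
      · exact ev2 _ _ _ _ _ 2 b rfl b2
      · exact ev2 _ _ _ _ _ 3 c rfl c2
      · exact ev2 _ _ _ _ _ 4 d rfl d2
      · exact ev2 _ _ _ _ _ 5 e rfl e2
      · exact (evcd a b c d e).trans r1)
    (rpL hY xrels (by decide +kernel))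
  exact absurd_card (by norm_num) hcard (ker_trivial hσ (imL gen5 hY) (K := 17) (q := q)
    (zero_of q2 (by norm_num) (by decide +kernel)) q3)

theorem no5 (Γ : Type u) [Group Γ] [Finite Γ] (σ : Γ →* J) (hσ : IsStemExtension σ) : Nat.card σ.ker ≠ 5 := by
  intro hcard
  have hz := pow_of_card (σ := σ) hcard
  obtain ⟨H1, hC⟩ := ctx_coprime hσ (phi := phiC) (o := ⟨0, by decide⟩) (St phiC ⟨0, by decide⟩) (mem_St _ _) (by rw [hcard, card_KC]; norm_num)
  obtain ⟨a, b, c, d, e, ha, hb, hc, hd, he, b2, c2, d2, e2, r1⟩ := odd_lift hσ (by norm_num) hz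
  have hY := Y5_map (x := x) ha hb hc hd he
  obtain ⟨q, q1, q2, q3⟩ := J2LC.res compatC rfl hC (Y5 a b c d e) hY
    (fun z h => Subtype.ext (hz z h))
    (by
      intro r hr
      simp only [J2LC.RN, List.mem_cons, List.not_mem_nil, or_false] at hr
      rcases hr with rfl | rfl | rfl | rfl | rfl
      · exact ev2 _ _ _ _ _ 2 b rfl b2
      · exact ev2 _ _ _ _ _ 3 c rfl c2
      · exact ev2 _ _ _ _ _ 4 d rfl d2
      · exact ev2 _ _ _ _ _ 5 e rfl e2
      · exact (evcd a b c d e).trans r1)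
    (rpL hY xrels (by decide +kernel))
  exact absurd_card (by norm_num) hcard (ker_trivial hσ (imL gen5 hY) (K := 15) (q := q)
    (zero_of q2 (by norm_num) (by decide +kernel)) q3)

theorem up4 (Γ : Type u) [Group Γ] [Finite Γ] (σ : Γ →* J) (hσ : IsStemExtension σ) (hz : ∀ z ∈ σ.ker, z ^ (2 ^ (1 + 1)) = 1) :
    ∃ q, σ q = 1 ∧ q ^ (2 ^ 1) = 1 ∧ ∀ z, σ z = 1 → z ∈ Subgroup.zpowers q := by
  have hz : ∀ z ∈ σ.ker, z ^ 4 = 1 := hz
  obtain ⟨H1, hC⟩ := ctx_coprime hσ (phi := phiA) (o := ⟨0, by decide⟩) (St phiA ⟨0, by decide⟩) (mem_St _ _)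
    (coprime_of_pow hz (by rw [card_KA]; norm_num))
  obtain ⟨c0, hc0⟩ := hσ.1 (x 3)
  obtain ⟨d0, hd0⟩ := hσ.1 (x 4)
  obtain ⟨u, hu, hu5⟩ := Mul.lift_pow hσ.1 hσ.2.1 hz (k := 5) (by norm_num) rab
  obtain ⟨v, hv, hv3⟩ := Mul.lift_pow hσ.1 hσ.2.1 hz (k := 3) (by norm_num) rbc
  obtain ⟨r, hr, hr3⟩ := Mul.lift_pow hσ.1 hσ.2.1 hz (k := 3) (by norm_num) rde
  obtain ⟨s, hs, hs7⟩ := Mul.lift_pow hσ.1 hσ.2.1 hz (k := 7) (by norm_num) rs
  obtain ⟨a, hade⟩ : ∃ a, a = ((c0 * d0) ^ 4)⁻¹ := ⟨_, rfl⟩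
  have ha : σ a = x 1 := by
    rw [hade, map_inv, map_pow, map_mul, hc0, hd0]
    exact ra.symm
  obtain ⟨b, hbde⟩ : ∃ b, b = a⁻¹ * u := ⟨_, rfl⟩
  have hb : σ b = x 2 := by rw [hbde, map_mul, map_inv, ha, hu, inv_mul_cancel_left]
  obtain ⟨c, hcde⟩ : ∃ c, c = b⁻¹ * v := ⟨_, rfl⟩
  have hc : σ c = x 3 := by rw [hcde, map_mul, map_inv, hb, hv, inv_mul_cancel_left]
  obtain ⟨d, hdde⟩ : ∃ d, d = (a * (b * (c * b)))⁻¹ * s * r⁻¹ * b⁻¹ * c⁻¹ := ⟨_, rfl⟩
  have hd : σ d = x 4 := by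
    rw [hdde]
    simp only [map_mul, map_inv, ha, hb, hc, hs, hr]
    group
  obtain ⟨e, hede⟩ : ∃ e, e = d⁻¹ * r := ⟨_, rfl⟩
  have he : σ e = x 5 := by rw [hede, map_mul, map_inv, hd, hr, inv_mul_cancel_left]
  have e1 : a * b = u := by rw [hbde, mul_inv_cancel_left]
  have e2 : b * c = v := by rw [hcde, mul_inv_cancel_left]
  have e3 : d * e = r := by rw [hede, mul_inv_cancel_left]
  have e4 : a * (b * (c * (b * (d * (c * (b * (d * e))))))) = s := by
    rw [e3, hdde]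
    group
  have e5 : a * (c * d) ^ 4 = 1 := by
    have h : (c * d) ^ 4 = (c0 * d0) ^ 4 := pow_congr hσ.2.1 hz (by rw [map_mul, map_mul, hc, hd, hc0, hd0])
    rw [h, hade, inv_mul_cancel]
  have hY := Y5_map (x := x) ha hb hc hd he
  obtain ⟨q, q1, q2, q3⟩ := J2LA.res compatA rfl hC (Y5 a b c d e) hY
    (fun z h => Subtype.ext (hz z h))
    (by
      intro r hr
      simp only [J2LA.RN, List.mem_cons, List.not_mem_nil, or_false] at hr
      rcases hr with rfl | rfl | rfl | rfl | rfl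
      · exact (evcd a b c d e).trans e5
      · exact (ev12 a b c d e 5).trans (by rw [e1, hu5])
      · exact (ev23' a b c d e 3).trans (by rw [e2, hv3])
      · exact (ev45 a b c d e 3).trans (by rw [e3, hr3])
      · exact (evs a b c d e 7).trans (by rw [e4, hs7]))
    (rpL hY xrels (by decide +kernel))
  exact ker_cyclic hσ (imL gen5 hY) (K := 19) (q := q) (f := 12) (r := 2) q1
    (mult_of (by norm_num) [0, 0, 2, 1, 3, 2, 1, 3, 1, 3, 0, 1, 0, 0, 0, 0, 0, 0, 0] q2 (by decide +kernel))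
    (smul_of (by norm_num) q2 (by norm_num) (by norm_num) (by decide +kernel)) q3

theorem up (Γ : Type u) [Group Γ] [Finite Γ] (σ : Γ →* J) (hσ : IsStemExtension σ) :
    ∃ π : Multiplicative (ZMod 2) →* σ.ker, Function.Surjective π := by
  refine Mul.upper_pp (p := 2) (k := 1) ?_ (fun Γ _ _ σ hσ hz => up4 Γ σ hσ hz) Γ σ hσ
  intro r hr hr2 Γ _ _ σ hσ
  by_cases h3 : r = 3
  · subst h3; exact no3 Γ σ hσ
  by_cases h5 : r = 5
  · subst h5; exact no5 Γ σ hσ
  refine Cfsg.Agent.H14.Schur.ne_of_not_sq_dvd comm_J ?_ Γ σ hσ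
  rw [card_J]
  intro hd
  have hfac : (604800 : ℕ) = 2 ^ 7 * (3 ^ 3 * (5 ^ 2 * 7)) := by norm_num
  have hrd : r ∣ 604800 := dvd_trans (dvd_pow_self r two_ne_zero) hd
  have hr7 : r = 7 := by
    rw [hfac] at hrd
    rcases (Nat.Prime.dvd_mul hr.out).1 hrd with h | h
    · exact absurd ((Nat.prime_dvd_prime_iff_eq hr.out Nat.prime_two).1 (hr.out.dvd_of_dvd_pow h)) hr2
    · rcases (Nat.Prime.dvd_mul hr.out).1 h with h | h
      · exact absurd ((Nat.prime_dvd_prime_iff_eq hr.out Nat.prime_three).1 (hr.out.dvd_of_dvd_pow h)) h3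
      · rcases (Nat.Prime.dvd_mul hr.out).1 h with h | h
        · exact absurd ((Nat.prime_dvd_prime_iff_eq hr.out Nat.prime_five).1 (hr.out.dvd_of_dvd_pow h)) h5
        · exact (Nat.prime_dvd_prime_iff_eq hr.out (by norm_num)).1 h
  subst hr7
  norm_num at hd

/-- the double cover -/
theorem low : ∃ (Γ : Type) (_ : Group Γ) (_ : Finite Γ) (σ : Γ →* J), IsStemExtension σ ∧
    Nonempty (σ.ker ≃* Multiplicative (ZMod 2)) := by
  refine Low5.low (L := J2W.L) (k := 8) J2W.sys J2W.hn J2W.inv_ok J2W.E_ok (by decide +kernel) (es := J2W.es)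
    (by decide +kernel) (by decide +kernel) (by decide +kernel)
    ?_ (w := J2W.w) (u := J2W.u) (by decide +kernel) (by decide +kernel) (by decide +kernel) (by decide +kernel) ?_
  · apply orderOf_eq_prime
    · have h : ev (xP J2W.sys J2W.hn J2W.inv_ok) [8, 8] = ev (xP J2W.sys J2W.hn J2W.inv_ok) [] :=
        ev_xP_eq J2W.sys J2W.hn J2W.inv_ok (by decide) (by decide) (eqAll_sound J2W.E_ok ([8, 8], []) (by decide +kernel))
      rw [ev_cons, ev_cons, ev_nil, mul_one] at h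
      rw [pow_two]; exact h
    · intro h
      have h1 := xP_inv_apply J2W.sys J2W.hn J2W.inv_ok 8 (by decide) ⟨0, by decide⟩
      rw [h] at h1
      have h2 : (net J2W.L 8).pos 0 = 0 := h1.symm
      revert h2
      decide +kernel
  · have e1 : J2W.w = (rels.getD 16 []) ++ (rels.getD 16 []) := by decide +kernel
    have e2 : J2W.u = List.replicate (2 * 15) 2 ++ (List.replicate (2 * 30) 3 ++ (List.replicate (2 * 30) 4 ++ List.replicate (2 * 3) 5)) := by decide +kernel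
    rw [e1, e2]
    simp only [ev_append, Low5.ev_rep]
    rw [xrels _ (List.getD_eq_getElem (d := []) rels (by decide +kernel : 16 < rels.length) ▸ List.getElem_mem _), pow_mul (x 2), pow_mul (x 3), pow_mul (x 4), pow_mul (x 5), sqb, sqc, sqd, sqe]
    simp

end Cfsg.Agent.H20.J2V
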