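import Cfsg.Agent.H20_LabC

/-!
Labels of a coset graph in a central extension: the engine.
-/

set_option autoImplicit false

namespace Cfsg.Agent.H20.Lab

open Cfsg.Agent.H8.CE Cfsg.Agent.H8.CS
open scoped IsMulCommutative

/-! ### Values of units -/

section
variable {A : Type*} [AddCommGroup A] {q : ℕ → A} {w K : ℕ}

theorem unit_digit {w j k a : ℕ} (ha : a < 2 ^ w) (hw : 0 < w) : (a * 2 ^ (w * j)) / 2 ^ (w * k) % 2 ^ w = if k = j then a else 0 := by
  rcases Nat.lt_trichotomy k j with h | h | h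
  · rw [if_neg (by omega)]
    have h1 : w * j = w * k + w * (j - k) := by rw [← mul_add]; congr 1; omega
    rw [h1, pow_add, ← mul_assoc, mul_comm a, mul_assoc, Nat.mul_div_cancel_left _ (by positivity)]
    have h2 : w * (j - k) = w + w * (j - k - 1) := by
      have : j - k = 1 + (j - k - 1) := by omega
      nth_rewrite 1 [this]; ring
    rw [h2, pow_add, ← mul_assoc, mul_comm a, mul_assoc]
    exact Nat.mul_mod_right _ _
  · subst h
    rw [if_pos rfl, Nat.mul_div_cancel _ (by positivity), Nat.mod_eq_of_lt ha]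
  · rw [if_neg (by omega)]
    have h1 : a * 2 ^ (w * j) < 2 ^ (w * k) := by
      have h2 : w * k = w * j + w * (k - j) := by rw [← mul_add]; congr 1; omega
      rw [h2, pow_add, mul_comm a]
      apply Nat.mul_lt_mul_of_pos_left _ (by positivity)
      refine lt_of_lt_of_le ha (Nat.pow_le_pow_right (by norm_num) ?_)
      exact Nat.le_mul_of_pos_right _ (by omega)
    rw [Nat.div_eq_of_lt h1, Nat.zero_mod]

theorem vS_unit {j a : ℕ} (hj : j < K) (ha : a < 2 ^ w) (hw : 0 < w) : vS q w K (a * 2 ^ (w * j)) = a • q j := by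
  unfold vS
  rw [Finset.sum_eq_single j]
  · rw [unit_digit ha hw, if_pos rfl]
  · intro k _ hk
    rw [unit_digit ha hw, if_neg hk, zero_smul]
  · intro h; exact absurd (Finset.mem_range.2 hj) h

theorem vS_mem {Z0 : AddSubgroup A} (h : ∀ j, j < K → q j ∈ Z0) (N : ℕ) : vS q w K N ∈ Z0 :=
  Z0.sum_mem fun j hj => Z0.nsmul_mem (h j (Finset.mem_range.1 hj)) _

end

/-! ### Checks -/

/-- `l` is a rotation of `r` -/
def isRot (r l : List ℕ) : Bool := (List.range r.length).any fun t => r.drop t ++ r.take t == l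

/-- the word is a rotation of a relator with the right value -/
def leafB (m w : ℕ) (RN RP : List (List ℕ)) (y : ℕ) (wd : List ℕ) (nz : ℕ) : Bool :=
  (nz == 0 && RN.any fun r => isRot r (y :: wd)) ||
    (List.range RP.length).any fun j => nz == (m - 1) * 2 ^ (w * j) && isRot (RP.getD j []) (y :: wd)

/-- leaf check -/
def leafC (m w Lmax : ℕ) (ys : List ℕ) (RN RP : List (List ℕ)) (y : ℕ) (wd : List ℕ) (nz : ℕ) : Bool :=
  leafB m w RN RP y wd nz && (wd.all fun y => ys.contains y) && Nat.ble wd.length Lmax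

section
variable (E EM KM kb RM s1 CM s2 : ℕ) (tf : ℕ → CT) (m HM DM pb PM PT : ℕ) (prm : List (ℕ × ℕ)) (T : WT) (n kk L : ℕ)

/-- check of the tree -/
noncomputable def treeK : Bool :=
  rangeS n (fun j => N (ptr pb PM PT j) fun p => N (Nat.shiftRight p (nat_lit 4)) fun i => N (Nat.land p (nat_lit 15)) fun y =>
    Bool.rec (motive := fun _ => Bool) true (Bool.rec (motive := fun _ => Bool) false (Bool.rec (motive := fun _ => Bool) false
      (Bool.rec (motive := fun _ => Bool) false (Nat.beq (Nat.land (ent E EM (tf y) i) KM) j) (Nat.blt i j)) (Nat.blt y (Nat.succ L)))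
      (Nat.blt (nat_lit 0) y)) (Nat.blt (nat_lit 0) j)) kk (nat_lit 0)

theorem treeK_sound (hkk : n ≤ 2 ^ kk) (h : treeK E EM KM tf pb PM PT n kk L = true) (j : ℕ) (hj : 0 < j) (hjn : j < n) :
    ptr pb PM PT j / 16 < j ∧ 0 < ptr pb PM PT j % 16 ∧ ptr pb PM PT j % 16 < L + 1 ∧
      nxf E EM KM tf (ptr pb PM PT j % 16) (ptr pb PM PT j / 16) = j := by
  have h1 := rangeS_sound n _ kk _ h j (Nat.zero_le _) (by
    have : (nat_lit 0 : ℕ) = 0 := rfl
    omega) hjn
  rw [N_eq, N_eq, N_eq] at h1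
  have e1 : Nat.shiftRight (ptr pb PM PT j) (nat_lit 4) = ptr pb PM PT j / 16 := Nat.shiftRight_eq_div_pow _ 4
  have e2 : Nat.land (ptr pb PM PT j) (nat_lit 15) = ptr pb PM PT j % 16 := Nat.and_two_pow_sub_one_eq_mod _ 4
  rw [e1, e2] at h1
  cases a1 : Nat.blt (nat_lit 0) j
  · exact absurd (blt_eq.2 hj) (by rw [a1]; simp)
  rw [a1] at h1
  cases a2 : Nat.blt (nat_lit 0) (ptr pb PM PT j % 16)
  · rw [a2] at h1; exact absurd h1 (by simp)
  rw [a2] at h1
  cases a3 : Nat.blt (ptr pb PM PT j % 16) (Nat.succ L)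
  · rw [a3] at h1; exact absurd h1 (by simp)
  rw [a3] at h1
  cases a4 : Nat.blt (ptr pb PM PT j / 16) j
  · rw [a4] at h1; exact absurd h1 (by simp)
  rw [a4] at h1
  exact ⟨blt_eq.1 a4, blt_eq.1 a2, blt_eq.1 a3, Nat.eq_of_beq_eq_true h1⟩

/-- check of all edges of a letter -/
noncomputable def edgesK (y : ℕ) : Bool :=
  rangeS n (fun i => edgeK E EM KM kb RM s1 CM s2 tf m HM DM pb PM PT prm T y i) kk (nat_lit 0)

/-- check of a relation loop -/
noncomputable def loopK (i : ℕ) (l : List ℕ) (nz ρ : ℕ) : Bool :=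
  Bool.rec (motive := fun _ => Bool) false (walkK E EM KM kb RM s2 tf (Nat.succ RM) l i (Nat.add nz ρ) fun a => zchk m HM a)
    (Nat.beq (Nat.land ρ DM) (nat_lit 0))

end

/-- linear combination -/
def comb (ρs us : List ℕ) : ℕ := (List.zipWith (· * ·) us ρs).sum

section
variable {A : Type*} [AddCommGroup A] {q : ℕ → A} {w K : ℕ}

theorem comb_rp {D : ℕ} : ∀ (ρs us : List ℕ), (∀ ρ ∈ ρs, Rp q w K D ρ 0) → Rp q w K (us.sum * D) (comb ρs us) 0
  | [], us, _ => by
    have : comb [] us = 0 := by simp [comb]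
    rw [this]; exact (Rp.zero 0).mono (Nat.zero_le _)
  | ρ :: ρs, [], _ => by
    have : comb (ρ :: ρs) [] = 0 := by simp [comb]
    rw [this]; exact (Rp.zero 0).mono (Nat.zero_le _)
  | ρ :: ρs, u :: us, h => by
    have h1 := (h ρ List.mem_cons_self).smul u
    have h2 := comb_rp ρs us fun ρ' h' => h ρ' (List.mem_cons_of_mem _ h')
    have h3 := h1.add h2
    rw [smul_zero, add_zero] at h3
    have e : comb (ρ :: ρs) (u :: us) = u * ρ + comb ρs us := by simp [comb]
    rw [e, List.sum_cons]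
    exact h3.mono (by ring_nf; rfl)

end

section
variable {Γ G : Type*} [Group Γ] [Group G] {n : ℕ} {σ : Γ →* G} {φ : G →* Equiv.Perm (Fin n)} {o : Fin n} {H1 : Subgroup Γ}

theorem ev_rot {Y : ℕ → Γ} {r l : List ℕ} (h : isRot r l = true) (hc : ev Y r ∈ Subgroup.center Γ) : ev Y l = ev Y r := by
  unfold isRot at h
  obtain ⟨t, _, ht⟩ := List.any_eq_true.1 h
  have h1 : r.drop t ++ r.take t = l := by simpa using ht
  have h2 : r = r.take t ++ r.drop t := (List.take_append_drop t r).symm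
  have h3 : ev Y r = ev Y (r.take t) * ev Y (r.drop t) := by
    nth_rewrite 1 [h2]; rw [ev_append]
  rw [← h1, ev_append]
  have h4 : ev Y (r.drop t) = (ev Y (r.take t))⁻¹ * ev Y r := by rw [h3, inv_mul_cancel_left]
  rw [h4, mul_assoc, ← Subgroup.mem_center_iff.1 hc (ev Y (r.take t)), inv_mul_cancel_left]

/-- The engine. -/
theorem engine [Finite Γ] (hC : Ctx σ φ o H1) (ho : (o : ℕ) = 0) (Y : ℕ → Γ)
    {E EM KM kb RM s1 CM s2 : ℕ} {tf : ℕ → CT} {m HM DM pb PM PT : ℕ} {prm : List (ℕ × ℕ)} {T : WT} {kk L : ℕ}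
    {w K h h' Lmax : ℕ} {ys : List ℕ} {RN RP : List (List ℕ)} {pk : List ℕ}
    (hys : ys = List.range' 1 L) (hL16 : L < 16)
    (hσ : ∀ y ∈ ys, ∀ i : Fin n, ((((φ (σ (Y y)))⁻¹ : Equiv.Perm (Fin n)) i : Fin n) : ℕ) = nxf E EM KM tf y i)
    (hm : ∀ z : Subgroup.center Γ, σ (z : Γ) = 1 → z ^ m = 1)
    (hRN : ∀ r ∈ RN, ev Y r = 1) (hRP : ∀ r ∈ RP, σ (ev Y r) = 1)
    (hRNy : (RN ++ RP).all (fun r => r.all fun y => ys.contains y) = true)
    (hK : RP.length + pk.length = K) (hprm : prm = pk.mapIdx fun t k => (k, 2 ^ (w * (RP.length + t))))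
    (hpk : (pk.all fun k => ys.contains (k % 16) && Nat.blt (k / 16) n) = true)
    (num1 : EM < 2 ^ (s2 + w * K)) (num2 : maskOk DM w h K = true) (num3 : maskOk HM w h' K = true)
    (num4 : 1 < m) (num5 : m * (2 ^ h' - 1) < 2 ^ w) (num6 : (Lmax + 2) * (2 ^ h - 1) < 2 ^ w) (num7 : m ≤ 2 ^ h) (num8 : 0 < w)
    (num9 : n ≤ 2 ^ kk) (num10 : h ≤ w)
    (kT : T.allB (leafC m w Lmax ys RN RP) = true)
    (kTree : treeK E EM KM tf pb PM PT n kk L = true)
    (kE : ∀ y ∈ ys, edgesK E EM KM kb RM s1 CM s2 tf m HM DM pb PM PT prm T n kk y = true)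
    (loops : List (ℕ × List ℕ × ℕ × ℕ))
    (kL1 : (loops.all fun a => Nat.blt a.1 n && leafB m w RN RP (a.2.1.getD 0 0) a.2.1.tail a.2.2.1 && Nat.blt 0 a.2.1.length &&
      Nat.ble a.2.1.length (Lmax + 1) && Nat.blt a.2.2.2 (2 ^ (w * K))) = true)
    (kL2 : ∀ a ∈ loops, loopK E EM KM kb RM s2 tf m HM DM a.1 a.2.1 a.2.2.1 a.2.2.2 = true)
    (num11 : (Lmax + 3) * (2 ^ h - 1) < 2 ^ w)
    (hRM : ∀ y p, rkf E EM kb RM tf y p < Nat.succ RM)
    (targets : List (ℕ × List ℕ))
    (kC : (targets.all fun a => zchk m HM (comb (loops.map fun b => b.2.2.2) a.2 + a.1) && Nat.beq (Nat.land a.1 DM) 0 &&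
      Nat.blt a.1 (2 ^ (w * K)) && Nat.blt ((a.2.sum + 1) * (2 ^ h - 1)) (2 ^ w)) = true) :
    ∃ q : ℕ → Additive (Subgroup.center Γ),
      (∀ j, σ ((Additive.toMul (q j) : Subgroup.center Γ) : Γ) = 1) ∧
      (∀ a ∈ targets, vS q w K a.1 = 0) ∧
      (∀ Z0 : Subgroup (Subgroup.center Γ), (∀ z ∈ Z0, σ ((z : Subgroup.center Γ) : Γ) = 1) → (∀ j < K, Additive.toMul (q j) ∈ Z0) →
        ∀ z : Subgroup.center Γ, σ (z : Γ) = 1 → (z : Γ) ∈ Subgroup.closure (Y '' {y | y ∈ ys}) → z ∈ Z0) := by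
  classical
  have hmem : ∀ y, y ∈ ys ↔ 0 < y ∧ y < L + 1 := by
    intro y; rw [hys, List.mem_range'_1]; omega
  obtain ⟨c, c1, c2, c3, c4⟩ := exists_labels (σ := σ) (φ := φ) hC Y (nxf E EM KM tf) ys ho hσ
    (fun j => ptr pb PM PT j / 16) (fun j => ptr pb PM PT j % 16) (by
      intro j hj hjn
      obtain ⟨t1, t2, t3, t4⟩ := treeK_sound E EM KM tf pb PM PT n kk L num9 kTree j hj hjn
      exact ⟨t1, (hmem _).2 ⟨t2, t3⟩, t4⟩)
  -- values of relators
  let zeta : List ℕ → Additive (Subgroup.center Γ) := fun r =>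
    if hz : σ (ev Y r) = 1 then Additive.ofMul ⟨ev Y r, hC.cen _ hz⟩ else 0
  have zeta1 : ∀ r (hz : σ (ev Y r) = 1), zeta r = Additive.ofMul ⟨ev Y r, hC.cen _ hz⟩ := fun r hz => dif_pos hz
  have zetaσ : ∀ r, σ ((Additive.toMul (zeta r) : Subgroup.center Γ) : Γ) = 1 := by
    intro r
    by_cases hz : σ (ev Y r) = 1
    · rw [zeta1 r hz]; exact hz
    · have : zeta r = 0 := dif_neg hz
      rw [this]; exact map_one σ
  let q : ℕ → Additive (Subgroup.center Γ) := fun j =>
    if j < RP.length then zeta (RP.getD j []) else c (pk.getD (j - RP.length) 0 % 16) (pk.getD (j - RP.length) 0 / 16)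
  have qσ : ∀ j, σ ((Additive.toMul (q j) : Subgroup.center Γ) : Γ) = 1 := by
    intro j
    by_cases hj : j < RP.length
    · have : q j = zeta (RP.getD j []) := if_pos hj
      rw [this]; exact zetaσ _
    · have : q j = c (pk.getD (j - RP.length) 0 % 16) (pk.getD (j - RP.length) 0 / 16) := if_neg hj
      rw [this]; exact c1 _ _
  have qm : ∀ j, j < K → m • q j = 0 := by
    intro j _
    have := hm (Additive.toMul (q j)) (qσ j)
    exact congrArg Additive.ofMul this
  have hnx : ∀ y ∈ ys, ∀ i, i < n → nxf E EM KM tf y i < n := by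
    intro y hy i hi
    rw [← hσ y hy ⟨i, hi⟩]
    exact (((φ (σ (Y y)))⁻¹ : Equiv.Perm (Fin n)) ⟨i, hi⟩).2
  have hm2 : m - 1 < 2 ^ h := by omega
  have hhw : 2 ^ h ≤ 2 ^ w := Nat.pow_le_pow_right (by norm_num) num10
  -- good words
  have good : ∀ y wd nz, leafB m w RN RP y wd nz = true → (∀ y' ∈ y :: wd, y' ∈ ys) ∧ Rp q w K (2 ^ h - 1) nz (vS q w K nz) ∧
      ∀ i, i < n → c y i + lsum c (nxf E EM KM tf) wd (nxf E EM KM tf y i) + vS q w K nz = 0 := by
    intro y wd nz hl
    unfold leafB at hl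
    rw [Bool.or_eq_true] at hl
    have rotmem : ∀ r, r ∈ RN ++ RP → isRot r (y :: wd) = true → ∀ y' ∈ y :: wd, y' ∈ ys := by
      intro r hr hrot y' hy'
      unfold isRot at hrot
      obtain ⟨t, _, ht⟩ := List.any_eq_true.1 hrot
      have h1 : r.drop t ++ r.take t = y :: wd := by simpa using ht
      rw [← h1, List.mem_append] at hy'
      have h2 : y' ∈ r := by
        rcases hy' with h2 | h2
        · exact List.mem_of_mem_drop h2
        · exact List.mem_of_mem_take h2
      have h3 := List.all_eq_true.1 (List.all_eq_true.1 hRNy r hr) y' h2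
      rwa [List.contains_iff_mem] at h3
    rcases hl with hl | hl
    · rw [Bool.and_eq_true, beq_iff_eq] at hl
      obtain ⟨rfl, hl⟩ := hl
      obtain ⟨r, hr, hrot⟩ := List.any_eq_true.1 hl
      have hr1 := hRN r hr
      have hev : ev Y (y :: wd) = 1 := by rw [ev_rot hrot (by rw [hr1]; exact one_mem _), hr1]
      have hv0 : vS q w K 0 = 0 := by simp [vS]
      refine ⟨rotmem r (List.mem_append_left _ hr) hrot, ?_, ?_⟩
      · rw [hv0]; exact Rp.zero _
      · intro i hi
        have := c3 (y :: wd) (rotmem r (List.mem_append_left _ hr) hrot) i hi 1 (by simp) (by rw [hev]; rfl)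
        rw [hv0, add_zero]
        exact this
    · obtain ⟨j, hj, hl⟩ := List.any_eq_true.1 hl
      rw [Bool.and_eq_true, beq_iff_eq] at hl
      obtain ⟨rfl, hrot⟩ := hl
      have hj' := List.mem_range.1 hj
      have hrmem : RP.getD j [] ∈ RP := by rw [List.getD_eq_getElem _ _ hj']; exact List.getElem_mem _
      have hr1 := hRP _ hrmem
      have hcen := hC.cen _ hr1
      have hev : ev Y (y :: wd) = ev Y (RP.getD j []) := ev_rot hrot hcen
      have hv0 : vS q w K ((m - 1) * 2 ^ (w * j)) = (m - 1) • q j := vS_unit (by omega) (by omega) num8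
      have hqj : q j = zeta (RP.getD j []) := if_pos hj'
      refine ⟨rotmem _ (List.mem_append_right _ hrmem) hrot, ?_, ?_⟩
      · refine ⟨fun k => if k = j then m - 1 else 0, ?_, ?_, ?_⟩
        · intro k _
          show (if k = j then m - 1 else 0) ≤ 2 ^ h - 1
          split_ifs
          · omega
          · exact Nat.zero_le _
        · simp only [ite_mul, zero_mul]
          rw [Finset.sum_ite_eq' (Finset.range K) j]
          rw [if_pos (Finset.mem_range.2 (by omega))]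
        · rw [hv0]
          simp only [ite_smul, zero_smul]
          rw [Finset.sum_ite_eq' (Finset.range K) j]
          rw [if_pos (Finset.mem_range.2 (by omega))]
      · intro i hi
        have := c3 (y :: wd) (rotmem _ (List.mem_append_right _ hrmem) hrot) i hi ⟨ev Y (RP.getD j []), hcen⟩ hr1 hev
        rw [hv0, hqj]
        have h5 : c y i + lsum c (nxf E EM KM tf) wd (nxf E EM KM tf y i) = zeta (RP.getD j []) := by
          rw [zeta1 _ hr1]; exact this
        rw [h5]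
        have h6 := qm j (by omega)
        rw [hqj] at h6
        calc zeta (RP.getD j []) + (m - 1) • zeta (RP.getD j []) = (1 + (m - 1)) • zeta (RP.getD j []) := by rw [add_smul, one_smul]
          _ = 0 := by rw [show 1 + (m - 1) = m by omega, h6]
  have hW : T.All (fun y wd nz => (∀ y' ∈ wd, y' ∈ ys) ∧ wd.length ≤ Lmax ∧ Rp q w K (2 ^ h - 1) nz (vS q w K nz) ∧
      ∀ i, i < n → c y i + lsum c (nxf E EM KM tf) wd (nxf E EM KM tf y i) + vS q w K nz = 0) := by
    refine WT.All_of ?_ T kT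
    intro y wd nz hl
    unfold leafC at hl
    rw [Bool.and_eq_true, Bool.and_eq_true] at hl
    obtain ⟨⟨h1, h2⟩, h3⟩ := hl
    obtain ⟨g1, g2, g3⟩ := good y wd nz h1
    exact ⟨fun y' hy' => g1 y' (List.mem_cons_of_mem _ hy'), Nat.le_of_ble_eq_true h3, g2, g3⟩
  have main := labels_eq (q := q) (w := w) (K := K) (c := c) (ys := ys) (n := n) (Lmax := Lmax) num1 num2 num3 (by omega) num5 num6 qm hnx
    (fun y hy => by have := (hmem y).1 hy; omega)
    (fun j hj hjn => c2 j hj hjn)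
    (by
      intro kl hkl
      rw [hprm, List.mem_mapIdx] at hkl
      obtain ⟨t, ht, rfl⟩ := hkl
      show c (pk[t] % 16) (pk[t] / 16) = vS q w K (2 ^ (w * (RP.length + t)))
      have e1 : (2 : ℕ) ^ (w * (RP.length + t)) = 1 * 2 ^ (w * (RP.length + t)) := by rw [one_mul]
      rw [e1, vS_unit (by omega) (by have := Nat.one_lt_two_pow (n := w) (by omega); exact this) num8, one_smul]
      have e2 : q (RP.length + t) = c (pk.getD (RP.length + t - RP.length) 0 % 16) (pk.getD (RP.length + t - RP.length) 0 / 16) := if_neg (by omega)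
      rw [e2, Nat.add_sub_cancel_left, List.getD_eq_getElem _ _ ht]) hW
    (fun y hy i hi => rangeS_sound n _ kk _ (kE y hy) i (Nat.zero_le _) (by
      have : (nat_lit 0 : ℕ) = 0 := rfl
      omega) hi)
  refine ⟨q, qσ, ?_, ?_⟩
  · -- relations
    have rel : ∀ a ∈ loops, Rp q w K (2 ^ h - 1) a.2.2.2 0 := by
      intro a ha
      have k1 := List.all_eq_true.1 kL1 a ha
      have k2 := kL2 a ha
      simp only [Bool.and_eq_true] at k1
      obtain ⟨⟨⟨⟨b1, b2⟩, b3⟩, b4⟩, b5⟩ := k1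
      obtain ⟨i, l, nz, ρ⟩ := a
      simp only at b1 b2 b3 b4 b5 k2 ⊢
      have b1' : i < n := blt_eq.1 b1
      have b3' : 0 < l.length := blt_eq.1 b3
      have b4' : l.length ≤ Lmax + 1 := Nat.le_of_ble_eq_true b4
      have b5' : ρ < 2 ^ (w * K) := blt_eq.1 b5
      rcases l with _ | ⟨y, wd⟩
      · exact absurd b3' (by simp)
      simp only [List.getD_cons_zero, List.tail_cons] at b2
      obtain ⟨g1, g2, g3⟩ := good y wd nz b2
      unfold loopK at k2
      cases hb : Nat.beq (Nat.land ρ DM) (nat_lit 0)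
      · rw [hb] at k2; exact absurd k2 (by simp)
      rw [hb] at k2
      have hρ : Rp q w K (2 ^ h - 1) ρ (vS q w K ρ) := Rp.of_mask num2 (Nat.eq_of_beq_eq_true hb) b5'
      obtain ⟨w1, w2⟩ := walkK_sound E EM KM kb RM s2 tf _ (y :: wd) _ _ _ k2
      have h6 := path_sum (q := q) (w := w) (K := K) (c := c) (ys := ys) (n := n) (D := 2 ^ h - 1) hnx
        (P := fun y p => rkf E EM kb RM tf y p < Nat.succ RM)
        (fun y' hy' i' hi' _ => by
          obtain ⟨a1, a2⟩ := main y' hy' i' hi'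
          exact ⟨_, a1, a2⟩) (y :: wd) g1 i b1' w1
      obtain ⟨z1, z2⟩ := zchk_sound m HM w2
      have h8 := ((g2.add hρ).add h6).zero_of (m := m) (h := h') (HM := HM) (by
        refine lt_of_le_of_lt ?_ num11
        have : (y :: wd).length * (2 ^ h - 1) ≤ (Lmax + 1) * (2 ^ h - 1) := Nat.mul_le_mul_right _ b4'
        calc (2 ^ h - 1) + (2 ^ h - 1) + (y :: wd).length * (2 ^ h - 1) ≤ (2 ^ h - 1) + (2 ^ h - 1) + (Lmax + 1) * (2 ^ h - 1) := by omega
          _ = (Lmax + 3) * (2 ^ h - 1) := by ring) num3 (by omega) num5 z1 z2 qm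
      have h9 := g3 i b1'
      have h10 : lsum c (nxf E EM KM tf) (y :: wd) i + vS q w K nz = 0 := h9
      have h11 : vS q w K ρ = 0 := by
        have : vS q w K nz + vS q w K ρ + lsum c (nxf E EM KM tf) (y :: wd) i = vS q w K ρ + (lsum c (nxf E EM KM tf) (y :: wd) i + vS q w K nz) := by abel
        rw [this, h10, add_zero] at h8
        exact h8
      rw [h11] at hρ; exact hρ
    intro a ha
    have k1 := List.all_eq_true.1 kC a ha
    simp only [Bool.and_eq_true] at k1
    obtain ⟨⟨⟨b1, b2⟩, b3⟩, b4⟩ := k1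
    obtain ⟨z1, z2⟩ := zchk_sound m HM b1
    have hτ : Rp q w K (2 ^ h - 1) a.1 (vS q w K a.1) := Rp.of_mask num2 (Nat.eq_of_beq_eq_true b2) (blt_eq.1 b3)
    have hcomb := comb_rp (q := q) (w := w) (K := K) (D := 2 ^ h - 1) (loops.map fun b => b.2.2.2) a.2 (by
      intro ρ hρ
      obtain ⟨b, hb, rfl⟩ := List.mem_map.1 hρ
      exact rel b hb)
    have h8 := (hcomb.add hτ).zero_of (m := m) (h := h') (HM := HM) (by
      have := blt_eq.1 b4
      calc a.2.sum * (2 ^ h - 1) + (2 ^ h - 1) = (a.2.sum + 1) * (2 ^ h - 1) := by ring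
        _ < 2 ^ w := this) num3 (by omega) num5 z1 z2 qm
    rwa [zero_add] at h8
  · intro Z0 hZ1 hZ2 z hz hcl
    apply c4 Z0 hZ1 _ z hz hcl
    intro y hy i hi
    rw [(main y hy i hi).1]
    exact vS_mem (Z0 := Subgroup.toAddSubgroup Z0) (fun j hj => hZ2 j hj) _

end

end Cfsg.Agent.H20.Lab
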