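import Cfsg.Agent.H14_Schur2
import Cfsg.Agent.H20_LabD

/-!
Schur multipliers: lifting subgroups, choosing lifts, reduction to small exponent.
-/

set_option autoImplicit false

namespace Cfsg.Agent.H20.Mul

open Cfsg Cfsg.Agent.H14.Schur Cfsg.Agent.H20.Lab Cfsg.Agent.H8.CE
open scoped commutatorElement

universe u v

section
variable {Γ : Type u} {G : Type v} [Group Γ] [Group G] {σ : Γ →* G}

theorem perfect_lift (hs : Function.Surjective σ) (hc : σ.ker ≤ Subgroup.center Γ) (K : Subgroup G) (hK : ⁅K, K⁆ = K) :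
    (⁅K.comap σ, K.comap σ⁆ : Subgroup Γ).map σ = K ∧
    (∀ g, σ g ∈ K → ∃ z h, σ z = 1 ∧ h ∈ (⁅K.comap σ, K.comap σ⁆ : Subgroup Γ) ∧ g = z * h) ∧
    ⁅(⁅K.comap σ, K.comap σ⁆ : Subgroup Γ), (⁅K.comap σ, K.comap σ⁆ : Subgroup Γ)⁆ = ⁅K.comap σ, K.comap σ⁆ := by
  have h1 : (⁅K.comap σ, K.comap σ⁆ : Subgroup Γ).map σ = K := by
    rw [Subgroup.map_commutator, Subgroup.map_comap_eq_self_of_surjective hs, hK]
  have h2 : ∀ g, σ g ∈ K → ∃ z h, σ z = 1 ∧ h ∈ (⁅K.comap σ, K.comap σ⁆ : Subgroup Γ) ∧ g = z * h := by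
    intro g hg
    rw [← h1] at hg
    obtain ⟨h, hh, he⟩ := hg
    exact ⟨g * h⁻¹, h, by rw [map_mul, map_inv, he, mul_inv_cancel], hh, by rw [inv_mul_cancel_right]⟩
  refine ⟨h1, h2, le_antisymm ?_ ?_⟩
  · have h3 : (⁅K.comap σ, K.comap σ⁆ : Subgroup Γ) ≤ K.comap σ := by
      intro g hg
      have : σ g ∈ (⁅K.comap σ, K.comap σ⁆ : Subgroup Γ).map σ := ⟨g, hg, rfl⟩
      rw [h1] at this
      exact this
    exact Subgroup.commutator_mono h3 h3
  · rw [Subgroup.commutator_le]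
    intro x hx y hy
    obtain ⟨z, h, hz, hh, rfl⟩ := h2 x hx
    obtain ⟨z', h', hz', hh', rfl⟩ := h2 y hy
    have c1 : ∀ g, z * g = g * z := fun g => (Subgroup.mem_center_iff.1 (hc hz) g).symm
    have c2 : ∀ g, z' * g = g * z' := fun g => (Subgroup.mem_center_iff.1 (hc hz') g).symm
    have e : ⁅z * h, z' * h'⁆ = ⁅h, h'⁆ := by
      rw [commutatorElement_def, commutatorElement_def]
      calc z * h * (z' * h') * (z * h)⁻¹ * (z' * h')⁻¹ = z * (h * (z' * h')) * (h⁻¹ * z⁻¹) * (h'⁻¹ * z'⁻¹) := by group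
        _ = (h * (z' * h')) * z * (h⁻¹ * z⁻¹) * (h'⁻¹ * z'⁻¹) := by rw [c1]
        _ = h * (z' * h') * (z * h⁻¹) * z⁻¹ * (h'⁻¹ * z'⁻¹) := by group
        _ = h * (z' * h') * h⁻¹ * (h'⁻¹ * z'⁻¹) := by rw [c1 h⁻¹]; group
        _ = h * (h' * z') * h⁻¹ * (h'⁻¹ * z'⁻¹) := by rw [c2]
        _ = h * h' * (z' * h⁻¹) * h'⁻¹ * z'⁻¹ := by group
        _ = h * h' * h⁻¹ * (z' * h'⁻¹) * z'⁻¹ := by rw [c2 h⁻¹]; group
        _ = h * h' * h⁻¹ * h'⁻¹ := by rw [c2 h'⁻¹]; group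
    rw [e]
    exact Subgroup.commutator_mem_commutator hh hh'

/-- the restricted extension -/
def res (σ : Γ →* G) (K : Subgroup G) (H1 : Subgroup Γ) (h : ∀ g ∈ H1, σ g ∈ K) : H1 →* K :=
  (σ.comp H1.subtype).codRestrict K fun g => h g g.2

theorem int_of [Finite Γ] (hs : Function.Surjective σ) (hc : σ.ker ≤ Subgroup.center Γ) (K : Subgroup G) (hK : ⁅K, K⁆ = K)
    (hno : ∀ (p : ℕ) [Fact p.Prime], p ∣ Nat.card σ.ker → ∀ (Γ' : Type u) [Group Γ'] [Finite Γ'] (τ : Γ' →* K),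
      IsStemExtension τ → Nat.card τ.ker ≠ p) :
    ∀ z ∈ (⁅K.comap σ, K.comap σ⁆ : Subgroup Γ), σ z = 1 → z = 1 := by
  obtain ⟨h1, h2, h3⟩ := perfect_lift hs hc K hK
  set H1 : Subgroup Γ := ⁅K.comap σ, K.comap σ⁆ with hH1
  have h4 : ∀ g ∈ H1, σ g ∈ K := fun g hg => by rw [← h1]; exact ⟨g, hg, rfl⟩
  let τ := res σ K H1 h4
  have hτ : IsStemExtension τ := by
    refine ⟨?_, ?_, ?_⟩
    · rintro ⟨k, hk⟩
      rw [← h1] at hk
      obtain ⟨g, hg, he⟩ := hk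
      exact ⟨⟨g, hg⟩, Subtype.ext he⟩
    · intro g hg
      rw [Subgroup.mem_center_iff]
      intro x
      have h5 : σ (g : Γ) = 1 := congrArg Subtype.val (MonoidHom.mem_ker.1 hg)
      exact Subtype.ext (Subgroup.mem_center_iff.1 (hc h5) x)
    · have h6 : commutator H1 = ⊤ := by
        apply Subgroup.map_injective H1.subtype_injective
        rw [commutator_def, Subgroup.map_commutator, ← MonoidHom.range_eq_map, Subgroup.range_subtype]
        exact h3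
      rw [h6]; exact le_top
  intro z hz hz1
  by_contra hne
  have h7 : Nat.card τ.ker ≠ 1 := by
    intro h8
    have h9 : Subsingleton τ.ker := (Nat.card_eq_one_iff_unique.1 h8).1
    have h10 : (⟨⟨z, hz⟩, by rw [MonoidHom.mem_ker]; exact Subtype.ext hz1⟩ : τ.ker) = 1 := Subsingleton.elim _ _
    apply hne
    have := congrArg (fun x : τ.ker => ((x : H1) : Γ)) h10
    exact this
  obtain ⟨p, hp, hpd⟩ := Nat.exists_prime_and_dvd h7
  haveI : Fact p.Prime := ⟨hp⟩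
  obtain ⟨Γ', i1, i2, τ', hτ', hcard⟩ := stem_reduce τ hτ hpd
  refine @hno p _ ?_ Γ' i1 i2 τ' hτ' hcard
  refine hpd.trans ?_
  let f : τ.ker →* σ.ker :=
    { toFun := fun x => ⟨((x : H1) : Γ), by
        rw [MonoidHom.mem_ker]
        exact congrArg Subtype.val (MonoidHom.mem_ker.1 x.2)⟩
      map_one' := rfl
      map_mul' := fun _ _ => rfl }
  exact Subgroup.card_dvd_of_injective f (by
    intro x y hxy
    have := congrArg (fun w : σ.ker => (w : Γ)) hxy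
    exact Subtype.ext (Subtype.ext this))

theorem coprime_lift [Finite Γ] (hs : Function.Surjective σ) (K : Subgroup G)
    (hcop : Nat.Coprime (Nat.card σ.ker) (Nat.card K)) :
    ∃ H1 : Subgroup Γ, (∀ g, σ g ∈ K → ∃ z h, σ z = 1 ∧ h ∈ H1 ∧ g = z * h) ∧ (∀ h ∈ H1, σ h ∈ K) ∧
      ∀ z ∈ H1, σ z = 1 → z = 1 := by
  let τ := res σ K (K.comap σ) (fun g hg => hg)
  have hsur : Function.Surjective τ := by
    rintro ⟨k, hk⟩
    obtain ⟨g, rfl⟩ := hs k
    exact ⟨⟨g, hk⟩, rfl⟩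
  have h1 : τ.ker.index = Nat.card K := by
    rw [Subgroup.index_ker, MonoidHom.range_eq_top.2 hsur, Subgroup.card_top]
  have h2 : Nat.card τ.ker = Nat.card σ.ker := by
    refine Nat.card_congr
      { toFun := fun x => ⟨((x : K.comap σ) : Γ), congrArg Subtype.val (MonoidHom.mem_ker.1 x.2)⟩
        invFun := fun x => ⟨⟨(x : Γ), by
          show σ (x : Γ) ∈ K
          rw [MonoidHom.mem_ker.1 x.2]; exact one_mem _⟩, by
            rw [MonoidHom.mem_ker]; exact Subtype.ext (MonoidHom.mem_ker.1 x.2)⟩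
        left_inv := fun _ => rfl
        right_inv := fun _ => rfl }
  obtain ⟨H, hH⟩ := Subgroup.exists_right_complement'_of_coprime (N := τ.ker) (by rw [h1, h2]; exact hcop)
  refine ⟨H.map (K.comap σ).subtype, ?_, ?_, ?_⟩
  · intro g hg
    obtain ⟨⟨a, b⟩, hab, -⟩ := (Subgroup.isComplement_iff_existsUnique.1 hH) (⟨g, hg⟩ : K.comap σ)
    have hab' : (a : K.comap σ) * (b : K.comap σ) = ⟨g, hg⟩ := hab
    refine ⟨((a : K.comap σ) : Γ), ((b : K.comap σ) : Γ), congrArg Subtype.val (MonoidHom.mem_ker.1 a.2), ⟨b, b.2, rfl⟩, ?_⟩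
    exact (congrArg Subtype.val hab').symm
  · rintro _ ⟨h, _, rfl⟩
    exact h.2
  · rintro _ ⟨h, hh, rfl⟩ hz
    have h30 : τ h = 1 := Subtype.ext hz
    have h3 : h ∈ τ.ker ⊓ H := ⟨h30, hh⟩
    have h4 := hH.disjoint
    rw [disjoint_iff] at h4
    rw [h4, Subgroup.mem_bot] at h3
    rw [h3]; rfl

/-- lifts of elements of order prime to the kernel -/
theorem lift_pow (hs : Function.Surjective σ) (hc : σ.ker ≤ Subgroup.center Γ) {m k : ℕ}
    (hm : ∀ z ∈ σ.ker, z ^ m = 1) (hk : Nat.Coprime k m) {g : G} (hg : g ^ k = 1) : ∃ x, σ x = g ∧ x ^ k = 1 := by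
  obtain ⟨x, rfl⟩ := hs g
  have h1 : x ^ k ∈ σ.ker := by rw [MonoidHom.mem_ker, map_pow, hg]
  have h2 : IsCoprime (k : ℤ) (m : ℤ) := Nat.isCoprime_iff_coprime.2 hk
  obtain ⟨r, s, hrs⟩ := h2
  have hcm : Commute x ((x ^ k) ^ (-r)) := ((Commute.refl x).pow_right k).zpow_right (-r)
  refine ⟨x * (x ^ k) ^ (-r), ?_, ?_⟩
  · have h3 : σ ((x ^ k) ^ (-r)) = 1 := by rw [map_zpow, MonoidHom.mem_ker.1 h1, one_zpow]
    rw [map_mul, h3, mul_one]
  · rw [hcm.mul_pow]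
    have h4 : ((x ^ k) ^ (-r)) ^ k = (x ^ k) ^ (-(r * k)) := by
      rw [← zpow_natCast, ← zpow_mul]; congr 1; ring
    have h5 : (x ^ k) ^ (-(r * k)) = (x ^ k) ^ (-1 : ℤ) := by
      have e : -(r * (k : ℤ)) = -1 + (m : ℤ) * s := by linarith
      rw [e, zpow_add, zpow_mul, zpow_natCast, hm _ h1, one_zpow, mul_one]
    rw [h4, h5, zpow_neg_one, mul_inv_cancel]

/-- the kernel of a stem extension is contained in the subgroup generated by lifts of generators -/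
theorem ker_le_closure (hσ : IsStemExtension σ) (S : Set Γ) (hS : Subgroup.closure (σ '' S) = ⊤) :
    ∀ z, σ z = 1 → z ∈ Subgroup.closure S := by
  obtain ⟨hs, hc, hd⟩ := hσ
  have h1 : ∀ g : Γ, ∃ z h, σ z = 1 ∧ h ∈ Subgroup.closure S ∧ g = z * h := by
    intro g
    have h2 : σ g ∈ (Subgroup.closure S).map σ := by rw [MonoidHom.map_closure, hS]; trivial
    obtain ⟨h, hh, he⟩ := h2
    exact ⟨g * h⁻¹, h, by rw [map_mul, map_inv, he, mul_inv_cancel], hh, by rw [inv_mul_cancel_right]⟩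
  have h2 : commutator Γ ≤ Subgroup.closure S := by
    rw [commutator_def, Subgroup.commutator_le]
    intro x _ y _
    obtain ⟨z, h, hz, hh, rfl⟩ := h1 x
    obtain ⟨z', h', hz', hh', rfl⟩ := h1 y
    have c1 : ∀ g, z * g = g * z := fun g => (Subgroup.mem_center_iff.1 (hc hz) g).symm
    have c2 : ∀ g, z' * g = g * z' := fun g => (Subgroup.mem_center_iff.1 (hc hz') g).symm
    have e : ⁅z * h, z' * h'⁆ = ⁅h, h'⁆ := by
      rw [commutatorElement_def, commutatorElement_def]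
      calc z * h * (z' * h') * (z * h)⁻¹ * (z' * h')⁻¹ = z * (h * (z' * h')) * (h⁻¹ * z⁻¹) * (h'⁻¹ * z'⁻¹) := by group
        _ = (h * (z' * h')) * z * (h⁻¹ * z⁻¹) * (h'⁻¹ * z'⁻¹) := by rw [c1]
        _ = h * (z' * h') * (z * h⁻¹) * z⁻¹ * (h'⁻¹ * z'⁻¹) := by group
        _ = h * (z' * h') * h⁻¹ * (h'⁻¹ * z'⁻¹) := by rw [c1 h⁻¹]; group
        _ = h * (h' * z') * h⁻¹ * (h'⁻¹ * z'⁻¹) := by rw [c2]
        _ = h * h' * (z' * h⁻¹) * h'⁻¹ * z'⁻¹ := by group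
        _ = h * h' * h⁻¹ * (z' * h'⁻¹) * z'⁻¹ := by rw [c2 h⁻¹]; group
        _ = h * h' * h⁻¹ * h'⁻¹ := by rw [c2 h'⁻¹]; group
    rw [e]
    exact Subgroup.commutator_le.1 (Subgroup.commutator_le_self _) h hh h' hh'
  exact fun z hz => h2 (hd hz)

/-- quotient of a stem extension by the subgroup of powers of the kernel -/
theorem stem_pow [Finite Γ] (hσ : IsStemExtension σ) (m : ℕ) :
    ∃ (Γ' : Type u) (_ : Group Γ') (_ : Finite Γ') (σ' : Γ' →* G) (π : Γ →* Γ'), IsStemExtension σ' ∧ Function.Surjective π ∧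
      σ'.comp π = σ ∧ (∀ z ∈ σ'.ker, z ^ m = 1) ∧ ∀ z, π z = 1 → ∃ w, σ w = 1 ∧ z = w ^ m := by
  obtain ⟨hs, hc, hd⟩ := hσ
  have hcm : ∀ z, σ z = 1 → ∀ g, z * g = g * z := fun z hz g => (Subgroup.mem_center_iff.1 (hc hz) g).symm
  let N : Subgroup Γ :=
    { carrier := {z | ∃ w, σ w = 1 ∧ z = w ^ m}
      one_mem' := ⟨1, map_one σ, (one_pow m).symm⟩
      mul_mem' := by
        rintro _ _ ⟨w, hw, rfl⟩ ⟨w', hw', rfl⟩
        exact ⟨w * w', by rw [map_mul, hw, hw', one_mul], (Commute.mul_pow (show Commute w w' from hcm w hw w') m).symm⟩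
      inv_mem' := by
        rintro _ ⟨w, hw, rfl⟩
        exact ⟨w⁻¹, by rw [map_inv, hw, inv_one], (inv_pow w m).symm⟩ }
  have hN : ∀ z, z ∈ N → σ z = 1 := by
    rintro _ ⟨w, hw, rfl⟩
    rw [map_pow, hw, one_pow]
  haveI : N.Normal := ⟨fun z hz g => by
    rw [← hcm z (hN z hz) g, mul_inv_cancel_right]; exact hz⟩
  let σ' : Γ ⧸ N →* G := QuotientGroup.lift N σ hN
  have hσ' : ∀ g : Γ, σ' (QuotientGroup.mk' N g) = σ g := fun g => rfl
  refine ⟨Γ ⧸ N, inferInstance, inferInstance, σ', QuotientGroup.mk' N, ⟨?_, ?_, ?_⟩, QuotientGroup.mk'_surjective N, ?_, ?_, ?_⟩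
  · intro x
    obtain ⟨g, rfl⟩ := hs x
    exact ⟨QuotientGroup.mk' N g, rfl⟩
  · intro x hx
    obtain ⟨g, rfl⟩ := QuotientGroup.mk'_surjective N x
    have hg : σ g = 1 := hx
    rw [Subgroup.mem_center_iff]
    intro y
    obtain ⟨y, rfl⟩ := QuotientGroup.mk'_surjective N y
    rw [← map_mul, ← map_mul, hcm g hg]
  · intro x hx
    obtain ⟨g, rfl⟩ := QuotientGroup.mk'_surjective N x
    have hg : σ g = 1 := hx
    have h1 : g ∈ commutator Γ := hd hg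
    have h2 : (commutator Γ).map (QuotientGroup.mk' N) ≤ commutator (Γ ⧸ N) := by
      rw [commutator_def, commutator_def, Subgroup.map_commutator]
      exact Subgroup.commutator_mono le_top le_top
    exact h2 ⟨g, h1, rfl⟩
  · ext g; rfl
  · intro x hx
    obtain ⟨g, rfl⟩ := QuotientGroup.mk'_surjective N x
    have hg : σ g = 1 := hx
    rw [← map_pow]
    exact (QuotientGroup.eq_one_iff _).2 ⟨g, hg, rfl⟩
  · intro z hz
    exact (QuotientGroup.eq_one_iff z).1 hz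

end

/-- Upper bound for a cyclic multiplier of prime power order. -/
theorem upper_pp {G : Type v} [Group G] {p k : ℕ} [hp : Fact p.Prime]
    (h1 : ∀ (r : ℕ) [Fact r.Prime], r ≠ p → ∀ (Γ : Type u) [Group Γ] [Finite Γ] (σ : Γ →* G), IsStemExtension σ → Nat.card σ.ker ≠ r)
    (h2 : ∀ (Γ : Type u) [Group Γ] [Finite Γ] (σ : Γ →* G), IsStemExtension σ → (∀ z ∈ σ.ker, z ^ (p ^ (k + 1)) = 1) →
      ∃ q, σ q = 1 ∧ q ^ (p ^ k) = 1 ∧ ∀ z, σ z = 1 → z ∈ Subgroup.zpowers q)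
    (Γ : Type u) [Group Γ] [Finite Γ] (σ : Γ →* G) (hσ : IsStemExtension σ) :
    ∃ π : Multiplicative (ZMod (p ^ k)) →* σ.ker, Function.Surjective π := by
  have hcm : ∀ z, σ z = 1 → ∀ g, z * g = g * z := fun z hz g => (Subgroup.mem_center_iff.1 (hσ.2.1 hz) g).symm
  -- the kernel is a p-group
  have hpg : ∃ e, Nat.card σ.ker = p ^ e := by
    refine ⟨(Nat.card σ.ker).primeFactorsList.length, ?_⟩
    apply Nat.eq_prime_pow_of_unique_prime_dvd Nat.card_pos.ne'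
    intro r hr hrd
    by_contra hne
    haveI : Fact r.Prime := ⟨hr⟩
    obtain ⟨Γ', i1, i2, σ', hσ', hcard⟩ := stem_reduce σ hσ hrd
    exact @h1 r _ hne Γ' i1 i2 σ' hσ' hcard
  obtain ⟨e, he⟩ := hpg
  have hexp : ∀ z, σ z = 1 → z ^ (p ^ e) = 1 := by
    intro z hz
    have := pow_card_eq_one' (x := (⟨z, hz⟩ : σ.ker))
    rw [he] at this
    exact congrArg Subtype.val this
  -- powers
  have hstep : ∀ z, σ z = 1 → ∃ w, σ w = 1 ∧ z ^ (p ^ k) = w ^ (p ^ (k + 1)) := by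
    intro z hz
    obtain ⟨Γ', i1, i2, σ', π, hσ', hπ, hcomp, hex, hker⟩ := stem_pow hσ (p ^ (k + 1))
    obtain ⟨q, hq1, hq2, hq3⟩ := @h2 Γ' i1 i2 σ' hσ' hex
    have hz' : σ' (π z) = 1 := by
      have := DFunLike.congr_fun hcomp z
      exact this.trans hz
    obtain ⟨i, hi⟩ := Subgroup.mem_zpowers_iff.1 (hq3 _ hz')
    have h3 : π (z ^ (p ^ k)) = 1 := by
      rw [map_pow, ← hi, ← zpow_natCast, ← zpow_mul, mul_comm, zpow_mul, zpow_natCast, hq2, one_zpow]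
    obtain ⟨w, hw, hw'⟩ := hker _ h3
    exact ⟨w, hw, hw'⟩
  have hall : ∀ t : ℕ, ∀ z, σ z = 1 → ∃ w, σ w = 1 ∧ z ^ (p ^ k) = w ^ (p ^ (k + t)) := by
    intro t
    induction t with
    | zero => intro z hz; exact ⟨z, hz, by rw [Nat.add_zero]⟩
    | succ t ih =>
      intro z hz
      obtain ⟨w, hw, hw'⟩ := ih z hz
      obtain ⟨w2, hw2, hw2'⟩ := hstep w hw
      refine ⟨w2, hw2, ?_⟩
      rw [hw', pow_add, pow_mul, hw2', ← pow_mul]
      congr 1
      rw [← pow_add]; congr 1; ring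
  have hpk : ∀ z, σ z = 1 → z ^ (p ^ k) = 1 := by
    intro z hz
    obtain ⟨w, hw, hw'⟩ := hall e z hz
    rw [hw', add_comm, pow_add, pow_mul, hexp w hw, one_pow]
  obtain ⟨q, hq1, hq2, hq3⟩ := h2 Γ σ hσ (fun z hz => by
    have := hpk z hz
    rw [pow_succ, pow_mul, this, one_pow])
  let g : ℤ →+ Additive σ.ker := zmultiplesHom _ (Additive.ofMul (⟨q, hq1⟩ : σ.ker))
  have hg : g ((p ^ k : ℕ) : ℤ) = 0 := by
    show ((p ^ k : ℕ) : ℤ) • (Additive.ofMul (⟨q, hq1⟩ : σ.ker)) = 0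
    rw [natCast_zsmul]
    have : (⟨q, hq1⟩ : σ.ker) ^ (p ^ k) = 1 := Subtype.ext hq2
    exact congrArg Additive.ofMul this
  let l : ZMod (p ^ k) →+ Additive σ.ker := ZMod.lift (p ^ k) ⟨g, hg⟩
  refine ⟨AddMonoidHom.toMultiplicativeLeft l, ?_⟩
  rintro ⟨z, hz⟩
  obtain ⟨i, hi⟩ := Subgroup.mem_zpowers_iff.1 (hq3 z hz)
  refine ⟨Multiplicative.ofAdd (i : ZMod (p ^ k)), ?_⟩
  have h5 : l (i : ZMod (p ^ k)) = g i := ZMod.lift_coe _ _ _
  show Additive.toMul (l (i : ZMod (p ^ k))) = _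
  rw [h5]
  apply Subtype.ext
  show ((((⟨q, hq1⟩ : σ.ker) ^ i : σ.ker)) : Γ) = z
  rw [← hi]; rfl

end Cfsg.Agent.H20.Mul
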