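import Cfsg.Agent.H20_J3L
import Cfsg.Agent.H20_J3L2
import Cfsg.Agent.H20_J3L9
import Cfsg.Agent.H20_J3C3
import Cfsg.Agent.H20_Mul
import Cfsg.Agent.H14_Schur3

/-!
The Schur multiplier of J3: the action on the cosets of L2(16).
-/

set_option autoImplicit false
set_option maxRecDepth 100000

namespace Cfsg.Agent.H20.J3N

open Cfsg.Agent.H8 Cfsg.Agent.H8.CE Cfsg.Agent.H8.Net Cfsg.Agent.H8.Act Cfsg.Agent.H8.Cox Cfsg.Agent.H8.Act2
open Cfsg.Agent.H20 Cfsg.Agent.H20.J3R Cfsg.Agent.H20.J3M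

/-! ### The action on 12312 points -/

theorem hn : 12312 ≤ 2 ^ 14 := by decide

/-- images of the generators -/
noncomputable def fP : Gen → Equiv.Perm (Fin 12312)
  | .a => xP J3L.sys hn J3L.inv_ok 1
  | .b => xP J3L.sys hn J3L.inv_ok 2

theorem relP : ∀ w ∈ rels, ev (xP J3L.sys hn J3L.inv_ok) w = 1 :=
  relP_of J3L.sys hn J3L.inv_ok J3L.rel_ok (by decide +kernel)

theorem fP_x (y : ℕ) (hy : y < 16) : xF fP lm y = xP J3L.sys hn J3L.inv_ok y := by
  have e1 : xF fP lm 1 = xP J3L.sys hn J3L.inv_ok 1 := by rw [x1]; rfl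
  have e2 : xF fP lm 2 = xP J3L.sys hn J3L.inv_ok 2 := by rw [x2]; rfl
  have i2 : xP J3L.sys hn J3L.inv_ok 3 = (xP J3L.sys hn J3L.inv_ok 2)⁻¹ := by
    have := xP_il J3L.sys hn J3L.inv_ok 2 (by decide)
    rwa [show il ic 2 = 3 by decide] at this
  have i4 : xP J3L.sys hn J3L.inv_ok 5 = (xP J3L.sys hn J3L.inv_ok 4)⁻¹ := by
    have := xP_il J3L.sys hn J3L.inv_ok 4 (by decide)
    rwa [show il ic 4 = 5 by decide] at this
  have i6 : xP J3L.sys hn J3L.inv_ok 7 = (xP J3L.sys hn J3L.inv_ok 6)⁻¹ := by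
    have := xP_il J3L.sys hn J3L.inv_ok 6 (by decide)
    rwa [show il ic 6 = 7 by decide] at this
  have e3 : xF fP lm 3 = xP J3L.sys hn J3L.inv_ok 3 := by
    rw [i2, ← e2]; simp [xF, lm]
  have e4 : xF fP lm 4 = xP J3L.sys hn J3L.inv_ok 4 := by
    have h := relP [1, 2, 1, 2, 1, 3, 5] (by decide +kernel)
    simp only [ev_cons, ev_nil, mul_one, i2, i4] at h
    have h2 : xF fP lm 4 = xF fP lm 1 * (xF fP lm 2 * (xF fP lm 1 * (xF fP lm 2 * (xF fP lm 1 * (xF fP lm 2)⁻¹)))) := by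
      simp [xF, lm, c, a, b, mul_assoc]
    rw [h2, e1, e2]
    simp only [← mul_assoc] at h ⊢
    exact mul_inv_eq_one.1 h
  have e5 : xF fP lm 5 = xP J3L.sys hn J3L.inv_ok 5 := by
    rw [i4, ← e4]; simp [xF, lm]
  have e6 : xF fP lm 6 = xP J3L.sys hn J3L.inv_ok 6 := by
    have h := relP [1, 2, 1, 2, 1, 3, 1, 2, 1, 2, 1, 2, 1, 2, 1, 2, 7] (by decide +kernel)
    simp only [ev_cons, ev_nil, mul_one, i2, i6] at h
    have h2 : xF fP lm 6 = ev (xF fP lm) [1, 2, 1, 2, 1, 3, 1, 2, 1, 2, 1, 2, 1, 2, 1, 2] := by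
      simp [xF, lm, e, a, b, mul_assoc]
    rw [h2]
    simp only [ev_cons, ev_nil, mul_one, e1, e2, e3, i2]
    simp only [← mul_assoc] at h ⊢
    exact mul_inv_eq_one.1 h
  have e7 : xF fP lm 7 = xP J3L.sys hn J3L.inv_ok 7 := by
    rw [i6, ← e6]; simp [xF, lm]
  interval_cases y
  · rw [xP_eq_one _ _ _ _ rfl]; simp [xF, lm]
  · exact e1
  · exact e2
  · exact e3
  · exact e4
  · exact e5
  · exact e6
  · exact e7
  all_goals rw [xP_eq_one _ _ _ _ rfl]; simp [xF, lm]

theorem exists_phi : ∃ φ : J →* Equiv.Perm (Fin 12312), Compat φ x J3L.L :=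
  exists_action RR lm J3L.sys hn J3L.inv_ok J3L.rel_ok (by decide +kernel) fP fP_x (fun _ => lifts fP)

/-- the action -/
noncomputable def phi : J →* Equiv.Perm (Fin 12312) := exists_phi.choose

theorem compat : Compat phi x J3L.L := exists_phi.choose_spec


theorem tr_ok : reachIv J3L.L [1, 2, 3, 4, 5, 6, 7] 5 (nat_lit 0) (nat_lit 0) (nat_lit 12312) = true := by decide +kernel
theorem hfix : fixP J3L.L [1, 4, 5] [nat_lit 0] = true := by decide +kernel

theorem trans0 (i : Fin 12312) : ∃ g, phi g ⟨0, by decide⟩ = i :=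
  trans_of J3L.sys compat (fun y hy => by
    have : y ∈ ([1, 2, 3, 4, 5, 6, 7] : List ℕ) := hy
    simp only [List.mem_cons, List.not_mem_nil, or_false] at this
    omega) (by decide) tr_ok i

/-- the stabilizer -/
noncomputable def K : Subgroup J := Hl [1, 4, 5]

theorem K_index : K.index ≤ 12312 := by
  have h := b1.1
  rw [Hl_top, Subgroup.relIndex_top_right] at h
  exact h

theorem K_spec : K.index = 12312 ∧ ∀ g, g ∈ K ↔ phi g ⟨0, by decide⟩ = ⟨0, by decide⟩ :=
  index_of_fix (H := K) (by decide) trans0 (fix_closure J3L.sys compat (by decide) (by decide) hfix) K_index (by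
    intro h0
    have h1 := Subgroup.card_mul_index K
    rw [main.1, h0] at h1
    omega)

theorem card_K : Nat.card K = 4080 := by
  have h1 := Subgroup.card_mul_index K
  rw [main.1, K_spec.1] at h1
  omega

theorem mem1 : x 1 ∈ K := mem_Hl (by decide)
theorem mem4 : x 4 ∈ K := mem_Hl (by decide)
theorem mem5 : x 5 ∈ K := mem_Hl (by decide)

theorem ab_one (g : Abelianization K) : g = 1 := by
  obtain ⟨A, hA⟩ : ∃ A, A = Abelianization.of (⟨x 1, mem1⟩ : K) := ⟨_, rfl⟩
  obtain ⟨C, hC⟩ : ∃ C, C = Abelianization.of (⟨x 4, mem4⟩ : K) := ⟨_, rfl⟩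
  have r1 : A * A = 1 := by
    rw [hA, ← map_mul]
    have : (⟨x 1, mem1⟩ : K) * ⟨x 1, mem1⟩ = 1 := Subtype.ext (by
      have := hrels [1, 1] (by decide +kernel)
      rw [ev_cons, ev_cons, ev_nil, mul_one] at this
      exact this)
    rw [this, map_one]
  have r2 : C ^ 17 = 1 := by
    rw [hC, ← map_pow]
    have : (⟨x 4, mem4⟩ : K) ^ 17 = 1 := Subtype.ext (by
      have := hrels (powW [4] 17) (by decide +kernel)
      rw [ev_powW, ev_cons, ev_nil, mul_one] at this
      exact this)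
    rw [this, map_one]
  have r3 : (A * C) ^ 3 = 1 := by
    rw [hA, hC, ← map_mul, ← map_pow]
    have : ((⟨x 1, mem1⟩ : K) * ⟨x 4, mem4⟩) ^ 3 = 1 := Subtype.ext (by
      have := hrels (powW [1, 4] 3) (by decide +kernel)
      rw [ev_powW, ev_cons, ev_cons, ev_nil, mul_one] at this
      exact this)
    rw [this, map_one]
  have r4 : A * C ^ 3 = 1 := by
    have : (A * C) ^ 3 = (A * A) * (A * C ^ 3) := by rw [mul_pow]; simp only [pow_succ, pow_zero, one_mul, mul_assoc]
    rw [r3, r1, one_mul] at this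
    exact this.symm
  have r5 : C ^ 6 = 1 := by
    have : (A * C ^ 3) * (A * C ^ 3) = (A * A) * C ^ 6 := by
      rw [mul_mul_mul_comm, ← pow_add]
    rw [r4, r1, one_mul, one_mul] at this
    exact this.symm
  have hC1 : C = 1 := by
    have h1 : C ^ 18 = 1 := by rw [show 18 = 6 * 3 by norm_num, pow_mul, r5, one_pow]
    rw [pow_succ, r2, one_mul] at h1
    exact h1
  have hA1 : A = 1 := by rw [hC1, one_pow, mul_one] at r4; exact r4
  have key : ∀ k (hk : k ∈ K), Abelianization.of (⟨k, hk⟩ : K) = 1 := by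
    intro k hk
    have hk' : k ∈ Subgroup.closure (x '' {y | y ∈ [1, 4, 5]}) := hk
    induction hk' using Subgroup.closure_induction with
    | mem k h =>
      obtain ⟨y, hy, rfl⟩ := h
      have : y = 1 ∨ y = 4 ∨ y = 5 := by simpa using hy
      rcases this with rfl | rfl | rfl
      · rw [← hA]; exact hA1
      · rw [← hC]; exact hC1
      · have e : (⟨x 5, hk⟩ : K) = (⟨x 4, mem4⟩ : K)⁻¹ := Subtype.ext (by
          have := hic 4 (by decide)
          rwa [show il J3R.ic 4 = 5 by decide] at this)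
        rw [e, map_inv, ← hC, hC1, inv_one]
    | one => exact map_one _
    | mul a b ha hb iha ihb =>
      have e : (⟨a * b, hk⟩ : K) = ⟨a, ha⟩ * ⟨b, hb⟩ := rfl
      rw [e, map_mul, iha ha, ihb hb, one_mul]
    | inv a ha iha =>
      have e : (⟨a⁻¹, hk⟩ : K) = (⟨a, ha⟩ : K)⁻¹ := rfl
      rw [e, map_inv, iha ha, inv_one]
  obtain ⟨k, rfl⟩ := QuotientGroup.mk_surjective g
  exact key k k.2

theorem comm_K : commutator K = ⊤ := by
  rw [eq_top_iff]
  intro k _
  exact (QuotientGroup.eq_one_iff k).1 (ab_one (Abelianization.of k))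

theorem K_perfect : ⁅K, K⁆ = K := by
  rw [← Subgroup.map_subtype_commutator, comm_K, ← MonoidHom.range_eq_map, Subgroup.range_subtype]

end Cfsg.Agent.H20.J3N
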