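import Cfsg.Agent.H20_J3N
import Cfsg.Agent.H20_J3O2

/-!
The Schur multiplier of J3: the Sylow 2-subgroup of L2(16).
-/

set_option autoImplicit false
set_option maxRecDepth 100000

namespace Cfsg.Agent.H20.J3N

open Cfsg.Agent.H8 Cfsg.Agent.H8.CE Cfsg.Agent.H8.Net Cfsg.Agent.H8.Act Cfsg.Agent.H8.Cox Cfsg.Agent.H8.Act2
open Cfsg.Agent.H20 Cfsg.Agent.H20.J3R Cfsg.Agent.H20.J3M Cfsg.Agent.H20.J3P Cfsg.Agent.H20.J3D Cfsg.Agent.H20.J3C
open Cfsg Cfsg.Agent.H14.Schur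

/-- substitution into the basic letters -/
def s4 : ℕ → List ℕ
  | 1 => [1]
  | 4 => [1, 2, 1, 2, 1, 3]
  | _ => [2, 1, 3, 1, 3, 1]

def gW : List (List ℕ) := [[],
  [],
  [4, 4, 1, 5, 5, 5],
  [4, 4, 4, 1, 5, 5],
  [4, 1, 5, 1, 4, 1, 5, 5, 1, 4],
  [4, 4, 4, 4, 4, 4, 4, 4, 1, 5],
  [4, 1, 5, 5, 1, 4, 4, 4, 4, 4],
  [4, 1, 5, 5, 5, 5, 5, 5, 5, 5],
  [4, 1, 5, 1, 4, 4, 4, 4, 1, 5],
  [4, 1, 5, 5, 1, 4, 4, 1, 5, 1, 4, 4],
  [4, 1, 5, 1, 4, 1, 5, 1, 4, 4, 4, 4],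
  [4, 1, 5, 5, 5, 5, 5, 1, 4, 1, 5, 5],
  [4, 1, 5, 5, 5, 5, 1, 4, 1, 5],
  [4, 1, 5, 1, 4, 4, 4, 1, 5, 5, 5, 5],
  [4, 4, 4, 4, 4, 1, 5, 5, 1, 4],
  [4, 1, 5, 5, 1, 4, 1, 5, 1, 4]]

def uW : List (List ℕ) := [[],
  [1],
  [4, 4, 4, 1, 5, 5, 1, 4, 4, 1, 5, 5, 5],
  [4, 4, 1, 5, 5, 5, 1, 4, 4, 4, 1, 5, 5],
  [5, 1, 4, 4, 1, 5, 1, 4, 1, 5, 1, 4, 1, 5, 1, 4, 1, 5, 5, 1, 4],
  [4, 1, 5, 5, 5, 5, 5, 5, 5, 5, 1, 4, 4, 4, 4, 4, 4, 4, 4, 1, 5],
  [5, 5, 5, 5, 5, 1, 4, 4, 1, 5, 1, 4, 1, 5, 5, 1, 4, 4, 4, 4, 4],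
  [4, 4, 4, 4, 4, 4, 4, 4, 1, 5, 1, 4, 1, 5, 5, 5, 5, 5, 5, 5, 5],
  [4, 1, 5, 5, 5, 5, 1, 4, 1, 5, 1, 4, 1, 5, 1, 4, 4, 4, 4, 1, 5],
  [5, 5, 1, 4, 1, 5, 5, 1, 4, 4, 1, 5, 1, 4, 1, 5, 5, 1, 4, 4, 1, 5, 1, 4, 4],
  [5, 5, 5, 5, 1, 4, 1, 5, 1, 4, 1, 5, 1, 4, 1, 5, 1, 4, 1, 5, 1, 4, 4, 4, 4],
  [4, 4, 1, 5, 1, 4, 4, 4, 4, 4, 1, 5, 1, 4, 1, 5, 5, 5, 5, 5, 1, 4, 1, 5, 5],
  [4, 1, 5, 1, 4, 4, 4, 4, 1, 5, 1, 4, 1, 5, 5, 5, 5, 1, 4, 1, 5],
  [4, 4, 4, 4, 1, 5, 5, 5, 1, 4, 1, 5, 1, 4, 1, 5, 1, 4, 4, 4, 1, 5, 5, 5, 5],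
  [5, 1, 4, 4, 1, 5, 5, 5, 5, 5, 1, 4, 4, 4, 4, 4, 1, 5, 5, 1, 4],
  [5, 1, 4, 1, 5, 1, 4, 4, 1, 5, 1, 4, 1, 5, 5, 1, 4, 1, 5, 1, 4]]

theorem k_let : (gW.all fun w => w.all fun y => y == 1 || (y == 4 || y == 5)) = true := by decide +kernel
theorem k_tab : ((List.range 16).all fun i => (List.range 16).all fun j =>
    eqb ((uW.getD i [] ++ uW.getD j []).flatMap s4) ((uW.getD (Nat.xor i j) []).flatMap s4)) = true := by decide +kernel
theorem k_conj : ((List.range 15).all fun i =>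
    eqb ((gW.getD (i + 1) [] ++ uW.getD (i + 1) []).flatMap s4) ((1 :: gW.getD (i + 1) []).flatMap s4)) = true := by decide +kernel
theorem k_ne : ((List.range 15).all fun i => !eqb ((uW.getD (i + 1) []).flatMap s4) []) = true := by decide +kernel
theorem k_len : uW.length = 16 ∧ gW.length = 16 := by decide

theorem x4X : x 4 = ev X [1, 2, 1, 2, 1, 3] := by
  have h1 := hrels [1, 2, 1, 2, 1, 3, 5] (by decide +kernel)
  have h2 := hic 4 (by decide)
  rw [show il J3R.ic 4 = 5 by decide] at h2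
  have h3 : ev x [1, 2, 1, 2, 1, 3, 5] = ev X [1, 2, 1, 2, 1, 3] * x 5 := by
    simp only [ev_cons, ev_nil, mul_one, X, mul_assoc]
  rw [h3, h2] at h1
  exact (mul_inv_eq_one.1 h1).symm

theorem x5X : x 5 = ev X [2, 1, 3, 1, 3, 1] := by
  have h2 := hic 4 (by decide)
  rw [show il J3R.ic 4 = 5 by decide] at h2
  have h1 := hic 1 (by decide)
  rw [show il J3R.ic 1 = 1 by decide] at h1
  have h3 := hic 2 (by decide)
  rw [show il J3R.ic 2 = 3 by decide] at h3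
  rw [h2, x4X]
  simp only [ev_cons, ev_nil, mul_one, X, mul_inv_rev, h3, inv_inv, mul_assoc]
  rw [← h1]

theorem ev_s4 : ∀ w : List ℕ, (∀ y ∈ w, y = 1 ∨ y = 4 ∨ y = 5) → ev x w = ev X (w.flatMap s4)
  | [], _ => rfl
  | y :: w, h => by
    rw [ev_cons, List.flatMap_cons, ev_append, ← ev_s4 w fun y hy => h y (List.mem_cons_of_mem _ hy)]
    congr 1
    rcases h y List.mem_cons_self with rfl | rfl | rfl
    · show x 1 = ev X [1]
      rw [ev_cons, ev_nil, mul_one]; rfl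
    · exact x4X
    · exact x5X

theorem letU (i : ℕ) : ∀ y ∈ uW.getD i [], y = 1 ∨ y = 4 ∨ y = 5 := by
  have h : (uW.all fun w => w.all fun y => y == 1 || (y == 4 || y == 5)) = true := by decide +kernel
  intro y hy
  by_cases hi : i < uW.length
  · rw [List.getD_eq_getElem _ _ hi] at hy
    have h1 := List.all_eq_true.1 (List.all_eq_true.1 h _ (List.getElem_mem hi)) y hy
    simpa using h1
  · rw [List.getD_eq_default _ _ (by omega)] at hy
    exact absurd hy (by simp)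

theorem letG (i : ℕ) : ∀ y ∈ gW.getD i [], y = 1 ∨ y = 4 ∨ y = 5 := by
  intro y hy
  by_cases hi : i < gW.length
  · rw [List.getD_eq_getElem _ _ hi] at hy
    have h1 := List.all_eq_true.1 (List.all_eq_true.1 k_let _ (List.getElem_mem hi)) y hy
    simpa using h1
  · rw [List.getD_eq_default _ _ (by omega)] at hy
    exact absurd hy (by simp)

theorem ev_K {w : List ℕ} (h : ∀ y ∈ w, y = 1 ∨ y = 4 ∨ y = 5) : ev x w ∈ K := by
  induction w with
  | nil => exact one_mem _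
  | cons y w ih =>
    rw [ev_cons]
    refine mul_mem ?_ (ih fun y hy => h y (List.mem_cons_of_mem _ hy))
    rcases h y List.mem_cons_self with rfl | rfl | rfl
    exacts [mem1, mem4, mem5]

/-- the elements of the Sylow subgroup -/
noncomputable def U (i : ℕ) : K := ⟨ev x (uW.getD i []), ev_K (letU i)⟩
noncomputable def gU (i : ℕ) : K := ⟨ev x (gW.getD i []), ev_K (letG i)⟩

theorem U0 : U 0 = 1 := rfl

theorem U_mul {i j : ℕ} (hi : i < 16) (hj : j < 16) : U i * U j = U (Nat.xor i j) := by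
  apply Subtype.ext
  show ev x _ * ev x _ = ev x _
  rw [← ev_append, ev_s4 _ (letU _), ev_s4 _ (by
    intro y hy
    rcases List.mem_append.1 hy with h | h
    · exact letU i y h
    · exact letU j y h)]
  exact eqb_sound (List.all_eq_true.1 (List.all_eq_true.1 k_tab i (List.mem_range.2 hi)) j (List.mem_range.2 hj))

theorem U_conj {i : ℕ} (hi : i < 16) (h0 : i ≠ 0) : IsConj (U 1) (U i) := by
  rw [isConj_comm, isConj_iff]
  refine ⟨gU i, ?_⟩
  rw [mul_inv_eq_iff_eq_mul]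
  apply Subtype.ext
  show ev x _ * ev x _ = ev x _ * ev x _
  obtain ⟨j, rfl⟩ : ∃ j, i = j + 1 := ⟨i - 1, by omega⟩
  have h1 := eqb_sound (List.all_eq_true.1 k_conj j (List.mem_range.2 (by omega)))
  have e1 : ev x (uW.getD 1 []) = ev x [1] := rfl
  have e2 : ev x (gW.getD (j + 1) []) * ev x (uW.getD (j + 1) []) = ev X ((gW.getD (j + 1) [] ++ uW.getD (j + 1) []).flatMap s4) := by
    rw [← ev_append]
    apply ev_s4
    intro y hy
    rcases List.mem_append.1 hy with h | h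
    · exact letG _ y h
    · exact letU _ y h
  have e3 : ev x [1] * ev x (gW.getD (j + 1) []) = ev X ((1 :: gW.getD (j + 1) []).flatMap s4) := by
    rw [← ev_append]
    apply ev_s4
    intro y hy
    rcases List.mem_append.1 hy with h | h
    · left; simpa using h
    · exact letG _ y h
  rw [e1, e2, e3]
  exact h1

theorem U_ne {i : ℕ} (hi : i < 16) (h0 : i ≠ 0) : U i ≠ 1 := by
  intro h
  obtain ⟨j, rfl⟩ : ∃ j, i = j + 1 := ⟨i - 1, by omega⟩
  have h1 := List.all_eq_true.1 k_ne j (List.mem_range.2 (by omega))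
  rw [Bool.not_eq_true'] at h1
  apply J3O.ne_of_eqb h1
  rw [← ev_s4 _ (letU _), ev_nil]
  exact congrArg Subtype.val h

theorem xor_lt {i j : ℕ} (hi : i < 16) (hj : j < 16) : Nat.xor i j < 16 := Nat.xor_lt_two_pow (n := 4) hi hj

theorem xor_self' (i : ℕ) : Nat.xor i i = 0 := Nat.xor_self i

/-- the Sylow subgroup -/
noncomputable def Q : Subgroup K where
  carrier := {g | ∃ i, i < 16 ∧ g = U i}
  one_mem' := ⟨0, by norm_num, U0.symm⟩
  mul_mem' := by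
    rintro _ _ ⟨i, hi, rfl⟩ ⟨j, hj, rfl⟩
    exact ⟨_, xor_lt hi hj, U_mul hi hj⟩
  inv_mem' := by
    rintro _ ⟨i, hi, rfl⟩
    refine ⟨i, hi, ?_⟩
    rw [inv_eq_iff_mul_eq_one, U_mul hi hi, xor_self', U0]

theorem U_inj {i j : ℕ} (hi : i < 16) (hj : j < 16) (h : U i = U j) : i = j := by
  by_contra hne
  have h1 : Nat.xor i j ≠ 0 := fun h => hne (Nat.xor_eq_zero_iff.1 h)
  apply U_ne (xor_lt hi hj) h1
  rw [← U_mul hi hj, h, U_mul hj hj, xor_self', U0]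

theorem card_Q : Nat.card Q = 16 := by
  have h : Function.Bijective (fun i : Fin 16 => (⟨U i, i, i.2, rfl⟩ : Q)) := by
    constructor
    · intro i j hij
      exact Fin.ext (U_inj i.2 j.2 (congrArg Subtype.val hij))
    · rintro ⟨_, i, hi, rfl⟩
      exact ⟨⟨i, hi⟩, rfl⟩
  rw [← Nat.card_congr (Equiv.ofBijective _ h), Nat.card_fin]

instance : Fact (Nat.Prime 2) := ⟨Nat.prime_two⟩
instance : Fact (Nat.Prime 3) := ⟨Nat.prime_three⟩

universe u

/-- the multiplier of L2(16) has odd order -/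
theorem K_no2 (Γ : Type u) [Group Γ] [Finite Γ] (τ : Γ →* K) (hτ : IsStemExtension τ) : Nat.card τ.ker ≠ 2 := by
  intro hcard
  obtain ⟨hs, hc, hd⟩ := id hτ
  have sq : ∀ i, i < 16 → U i * U i = 1 := fun i hi => by rw [U_mul hi hi, xor_self', U0]
  have hg1 : Good τ (U 1) := by
    have e12 : U 1 * U 2 = U 3 := U_mul (by norm_num) (by norm_num)
    have e14 : U 1 * U 4 = U 5 := U_mul (by norm_num) (by norm_num)
    have e24 : U 2 * U 4 = U 6 := U_mul (by norm_num) (by norm_num)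
    have e124 : U 1 * (U 2 * U 4) = U 7 := by rw [e24]; exact U_mul (by norm_num) (by norm_num)
    refine good_of_eight hs hc hcard (U 1) (U 2) (U 4) (sq 1 (by norm_num)) (sq 2 (by norm_num)) (sq 4 (by norm_num)) ?_ ?_ ?_ ?_
      (U_conj (by norm_num) (by norm_num)) (U_conj (by norm_num) (by norm_num)) ?_ ?_ ?_ ?_
    · rw [e12]; exact sq 3 (by norm_num)
    · rw [e14]; exact sq 5 (by norm_num)
    · rw [e124]; exact sq 7 (by norm_num)
    · rw [e24]; exact sq 6 (by norm_num)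
    · rw [e12]; exact U_conj (by norm_num) (by norm_num)
    · rw [e14]; exact U_conj (by norm_num) (by norm_num)
    · rw [e24]; exact U_conj (by norm_num) (by norm_num)
    · rw [e124]; exact U_conj (by norm_num) (by norm_num)
  have hg : ∀ i, i < 16 → Good τ (U i) := by
    intro i hi
    by_cases h0 : i = 0
    · subst h0
      intro y hy
      exact sq_of_ker hcard (by rw [MonoidHom.mem_ker, hy]; rfl)
    · obtain ⟨c, hc'⟩ := isConj_iff.1 (U_conj hi h0)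
      rw [← hc']
      exact good_conj hs hc hcard hg1 c
  refine false_of_comm_le τ hτ hcard Q ?_ ?_ ⊥ ?_ ?_
  · exact IsPGroup.of_card (n := 4) (by rw [card_Q]; norm_num)
  · have h1 := Subgroup.card_mul_index Q
    rw [card_Q, card_K] at h1
    have : Q.index = 255 := by omega
    rw [this]; norm_num
  · rw [Subgroup.commutator_le]
    intro a ha b hb
    obtain ⟨i, hi, hai⟩ := ha
    obtain ⟨j, hj, hbj⟩ := hb
    have h2 := comm_of_good (hg i hi) (hg j hj) (by rw [U_mul hi hj]; exact hg _ (xor_lt hi hj)) hai hbj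
    rw [Subgroup.mem_bot, commutatorElement_eq_one_iff_mul_comm]
    exact h2
  · intro y hy _
    exact Subgroup.mem_bot.1 hy

/-- the multiplier of L2(16) has order prime to 3 -/
theorem K_no3 (Γ : Type u) [Group Γ] [Finite Γ] (τ : Γ →* K) (hτ : IsStemExtension τ) : Nat.card τ.ker ≠ 3 :=
  ne_of_not_sq_dvd comm_K (by rw [card_K]; norm_num) Γ τ hτ

end Cfsg.Agent.H20.J3N
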