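import Cfsg.Agent.H20_LabE
import Cfsg.Agent.H20_Mul

/-!
Labels of a coset graph in a central extension: final steps.
-/

set_option autoImplicit false

namespace Cfsg.Agent.H20.Lab

open Cfsg.Agent.H8.CE Cfsg.Agent.H8.CS Cfsg
open scoped IsMulCommutative

section
variable {A : Type*} [AddCommGroup A] {q : ℕ → A} {w K : ℕ}

theorem Rp.val {D N : ℕ} {v : A} (h : Rp q w K D N v) (hD : D < 2 ^ w) : v = vS q w K N := by
  obtain ⟨d, h1, h2, h3⟩ := h
  have hN : N < 2 ^ (w * K) := by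
    rw [h2]
    clear h2 h3
    have : ∀ K', K' ≤ K → ∑ j ∈ Finset.range K', d j * 2 ^ (w * j) < 2 ^ (w * K') := by
      intro K'
      induction K' with
      | zero => intro _; simp
      | succ K' ih =>
        intro hK
        rw [Finset.sum_range_succ]
        have i1 := ih (by omega)
        have i2 : d K' + 1 ≤ 2 ^ w := lt_of_le_of_lt (h1 K' (by omega)) hD
        calc ∑ j ∈ Finset.range K', d j * 2 ^ (w * j) + d K' * 2 ^ (w * K') < 2 ^ (w * K') + d K' * 2 ^ (w * K') := by omega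
          _ = (d K' + 1) * 2 ^ (w * K') := by ring
          _ ≤ 2 ^ w * 2 ^ (w * K') := Nat.mul_le_mul_right _ i2
          _ = 2 ^ (w * (K' + 1)) := by rw [← pow_add]; congr 1; ring
    exact this K le_rfl
  have h4 := sum_digits w K N hN
  have h5 := digits_unique w K d (fun j => N / 2 ^ (w * j) % 2 ^ w) (fun j hj => lt_of_le_of_lt (h1 j hj) hD)
    (fun j _ => Nat.mod_lt _ (by positivity)) (h2.symm.trans h4)
  rw [h3]
  exact Finset.sum_congr rfl fun j hj => by rw [h5 j (Finset.mem_range.1 hj)]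

theorem Rp.unit {j a : ℕ} (hj : j < K) : Rp q w K a (a * 2 ^ (w * j)) (a • q j) := by
  refine ⟨fun k => if k = j then a else 0, ?_, ?_, ?_⟩
  · intro k _
    show (if k = j then a else 0) ≤ a
    split_ifs
    · exact le_rfl
    · exact Nat.zero_le _
  · simp only [ite_mul, zero_mul]
    rw [Finset.sum_ite_eq' (Finset.range K) j, if_pos (Finset.mem_range.2 hj)]
  · simp only [ite_smul, zero_smul]
    rw [Finset.sum_ite_eq' (Finset.range K) j, if_pos (Finset.mem_range.2 hj)]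

theorem vS_two {j f a b : ℕ} (hj : j < K) (hf : f < K) (hab : a + b < 2 ^ w) :
    vS q w K (a * 2 ^ (w * j) + b * 2 ^ (w * f)) = a • q j + b • q f :=
  (((Rp.unit hj).add (Rp.unit hf)).val hab).symm

end

section
universe u v
variable {Γ : Type u} {G : Type v} [Group Γ] [Group G] {σ : Γ →* G}

/-- lifts of letters -/
def YY (a b : Γ) (y : ℕ) : Γ := if y = 1 then a else if y = 2 then b else b⁻¹

theorem map_ev {Y : ℕ → Γ} {X : ℕ → G} {ys : List ℕ} (h : ∀ y ∈ ys, σ (Y y) = X y) :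
    ∀ w : List ℕ, (∀ y ∈ w, y ∈ ys) → σ (ev Y w) = ev X w
  | [], _ => by simp
  | y :: w, hw => by
    rw [ev_cons, ev_cons, map_mul, h y (hw y List.mem_cons_self), map_ev h w fun y' hy' => hw y' (List.mem_cons_of_mem _ hy')]

/-- from the engine: all parameters vanish -/
theorem ker_trivial (hσ : IsStemExtension σ) {Y : ℕ → Γ} {ys : List ℕ} {K : ℕ} {q : ℕ → Additive (Subgroup.center Γ)}
    (hgen : Subgroup.closure (σ '' (Y '' {y | y ∈ ys})) = ⊤)
    (h1 : ∀ j < K, q j = 0)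
    (h2 : ∀ Z0 : Subgroup (Subgroup.center Γ), (∀ z ∈ Z0, σ ((z : Subgroup.center Γ) : Γ) = 1) → (∀ j < K, Additive.toMul (q j) ∈ Z0) →
        ∀ z : Subgroup.center Γ, σ (z : Γ) = 1 → (z : Γ) ∈ Subgroup.closure (Y '' {y | y ∈ ys}) → z ∈ Z0) :
    ∀ z, σ z = 1 → z = 1 := by
  intro z hz
  have h3 := h2 ⊥ (by
    intro z hz
    rw [Subgroup.mem_bot] at hz
    rw [hz]; exact map_one σ) (by
    intro j hj
    rw [h1 j hj]; exact one_mem _) ⟨z, hσ.2.1 hz⟩ hz (Mul.ker_le_closure hσ _ hgen z hz)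
  exact congrArg (fun x : Subgroup.center Γ => (x : Γ)) (Subgroup.mem_bot.1 h3)

/-- from the engine: all parameters are multiples of one -/
theorem ker_cyclic (hσ : IsStemExtension σ) {Y : ℕ → Γ} {ys : List ℕ} {K : ℕ} {q : ℕ → Additive (Subgroup.center Γ)} {f r : ℕ}
    (hgen : Subgroup.closure (σ '' (Y '' {y | y ∈ ys})) = ⊤)
    (hq : ∀ j, σ ((Additive.toMul (q j) : Subgroup.center Γ) : Γ) = 1)
    (h1 : ∀ j < K, q j ∈ AddSubgroup.zmultiples (q f)) (hr : r • q f = 0)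
    (h2 : ∀ Z0 : Subgroup (Subgroup.center Γ), (∀ z ∈ Z0, σ ((z : Subgroup.center Γ) : Γ) = 1) → (∀ j < K, Additive.toMul (q j) ∈ Z0) →
        ∀ z : Subgroup.center Γ, σ (z : Γ) = 1 → (z : Γ) ∈ Subgroup.closure (Y '' {y | y ∈ ys}) → z ∈ Z0) :
    ∃ g, σ g = 1 ∧ g ^ r = 1 ∧ ∀ z, σ z = 1 → z ∈ Subgroup.zpowers g := by
  refine ⟨((Additive.toMul (q f) : Subgroup.center Γ) : Γ), hq f, ?_, ?_⟩
  · have : (Additive.toMul (q f)) ^ r = 1 := hr
    exact congrArg (fun x : Subgroup.center Γ => (x : Γ)) this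
  · intro z hz
    have h3 := h2 (Subgroup.zpowers (Additive.toMul (q f))) (by
      intro z hz
      obtain ⟨i, rfl⟩ := Subgroup.mem_zpowers_iff.1 hz
      rw [Subgroup.coe_zpow, map_zpow, hq f, one_zpow]) (by
      intro j hj
      obtain ⟨i, hi⟩ := AddSubgroup.mem_zmultiples_iff.1 (h1 j hj)
      rw [← hi]
      exact Subgroup.mem_zpowers_iff.2 ⟨i, rfl⟩) ⟨z, hσ.2.1 hz⟩ hz (Mul.ker_le_closure hσ _ hgen z hz)
    obtain ⟨i, hi⟩ := Subgroup.mem_zpowers_iff.1 h3
    refine Subgroup.mem_zpowers_iff.2 ⟨i, ?_⟩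
    have := congrArg (fun x : Subgroup.center Γ => (x : Γ)) hi
    simpa using this

end

end Cfsg.Agent.H20.Lab
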