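import Cfsg.Agent.H20_J3N2
import Cfsg.Agent.H20_LabF

/-!
The Schur multiplier of J3: the upper bound for the finitely presented group.
-/

set_option autoImplicit false
set_option maxRecDepth 100000

namespace Cfsg.Agent.H20.J3N

open Cfsg.Agent.H8 Cfsg.Agent.H8.CE Cfsg.Agent.H8.Net Cfsg.Agent.H8.Act Cfsg.Agent.H8.Cox Cfsg.Agent.H8.Act2
open Cfsg.Agent.H20 Cfsg.Agent.H20.J3R Cfsg.Agent.H20.J3M Cfsg.Agent.H20.J3P Cfsg.Agent.H20.J3D Cfsg.Agent.H20.J3C
open Cfsg Cfsg.Agent.H14.Schur Cfsg.Agent.H20.Lab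
open scoped IsMulCommutative

theorem ev_xX : ∀ w : List ℕ, (∀ y ∈ w, y ∈ ([1, 2, 3] : List ℕ)) → ev x w = ev X w
  | [], _ => rfl
  | y :: w, h => by
    rw [ev_cons, ev_cons, ev_xX w fun y hy => h y (List.mem_cons_of_mem _ hy)]
    have h1 := h y List.mem_cons_self
    simp only [List.mem_cons, List.not_mem_nil, or_false] at h1
    rcases h1 with rfl | rfl | rfl <;> rfl

theorem gen3 : Subgroup.closure (x '' {y | y ∈ ([1, 2, 3] : List ℕ)}) = ⊤ := by
  have hm : ∀ w : List ℕ, (∀ y ∈ w, y ∈ ([1, 2, 3] : List ℕ)) → ev x w ∈ Subgroup.closure (x '' {y | y ∈ ([1, 2, 3] : List ℕ)}) := by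
    intro w
    induction w with
    | nil => intro _; exact one_mem _
    | cons y w ih =>
      intro h
      rw [ev_cons]
      exact mul_mem (Subgroup.subset_closure ⟨y, h y List.mem_cons_self, rfl⟩) (ih fun y hy => h y (List.mem_cons_of_mem _ hy))
  rw [eq_top_iff, ← Hl_top]
  unfold Hl
  rw [Subgroup.closure_le]
  rintro _ ⟨y, hy, rfl⟩
  have h1 : y ∈ ([1, 2, 3, 4, 5] : List ℕ) := hy
  simp only [List.mem_cons, List.not_mem_nil, or_false] at h1
  rcases h1 with rfl | rfl | rfl | rfl | rfl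
  · exact Subgroup.subset_closure ⟨1, by simp, rfl⟩
  · exact Subgroup.subset_closure ⟨2, by simp, rfl⟩
  · exact Subgroup.subset_closure ⟨3, by simp, rfl⟩
  · rw [x4X, ← ev_xX _ (by decide)]; exact hm _ (by decide)
  · rw [x5X, ← ev_xX _ (by decide)]; exact hm _ (by decide)

section
universe u
variable {Γ : Type u} [Group Γ] [Finite Γ] {σ : Γ →* J}

theorem ctx (hσ : IsStemExtension σ) (hp : ∀ p : ℕ, p.Prime → p ∣ Nat.card σ.ker → p = 2 ∨ p = 3) :
    Ctx σ phi ⟨0, by decide⟩ (⁅K.comap σ, K.comap σ⁆ : Subgroup Γ) := by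
  obtain ⟨h1, h2, _⟩ := Mul.perfect_lift hσ.1 hσ.2.1 K K_perfect
  refine ⟨fun z hz => hσ.2.1 hz, fun g hg => h2 g ((K_spec.2 _).2 hg), fun h hh => ?_, ?_⟩
  · refine (K_spec.2 _).1 ?_
    rw [← h1]
    exact ⟨h, hh, rfl⟩
  · refine Mul.int_of hσ.1 hσ.2.1 K K_perfect ?_
    intro p hpp hd Γ' _ _ τ hτ
    rcases hp p hpp.out hd with rfl | rfl
    · exact K_no2 Γ' τ hτ
    · exact K_no3 Γ' τ hτ

theorem dvd_of_pow {m : ℕ} (hz : ∀ z ∈ σ.ker, z ^ m = 1) (p : ℕ) (hp : p.Prime) (hd : p ∣ Nat.card σ.ker) : p ∣ m := by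
  haveI : Fact p.Prime := ⟨hp⟩
  obtain ⟨z, hz'⟩ := exists_prime_orderOf_dvd_card' p hd
  rw [← hz']
  exact orderOf_dvd_of_pow_eq_one (Subtype.ext (hz z z.2))

theorem im3 {Y : ℕ → Γ} (hY : ∀ y ∈ ([1, 2, 3] : List ℕ), σ (Y y) = x y) :
    Subgroup.closure (σ '' (Y '' {y | y ∈ ([1, 2, 3] : List ℕ)})) = ⊤ := by
  rw [← gen3]
  congr 1
  ext g
  constructor
  · rintro ⟨_, ⟨y, hy, rfl⟩, rfl⟩
    exact ⟨y, hy, (hY y hy).symm⟩
  · rintro ⟨y, hy, rfl⟩
    exact ⟨_, ⟨y, hy, rfl⟩, hY y hy⟩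

theorem YY_map {a b : Γ} (ha : σ a = x 1) (hb : σ b = x 2) : ∀ y ∈ ([1, 2, 3] : List ℕ), σ (YY a b y) = x y := by
  intro y hy
  simp only [List.mem_cons, List.not_mem_nil, or_false] at hy
  rcases hy with rfl | rfl | rfl
  · exact ha
  · exact hb
  · show σ b⁻¹ = x 3
    have h := hic 2 (by decide)
    rw [show il J3R.ic 2 = 3 by decide] at h
    rw [map_inv, hb, h]

theorem rp_ok {Y : ℕ → Γ} (hY : ∀ y ∈ ([1, 2, 3] : List ℕ), σ (Y y) = x y) {r : List ℕ}
    (hr : (r.all fun y => [1, 2, 3].contains y) = true) (h1 : eqb r [] = true) : σ (ev Y r) = 1 := by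
  have hl : ∀ y ∈ r, y ∈ ([1, 2, 3] : List ℕ) := fun y hy => List.contains_iff_mem.1 (List.all_eq_true.1 hr y hy)
  rw [map_ev hY r hl, ev_xX r hl, eqb_sound h1, ev_nil]

theorem rp2 : (J3L2.RP.all fun r => (r.all fun y => [1, 2, 3].contains y) && eqb r []) = true := by decide +kernel
theorem rp9 : (J3L9.RP.all fun r => (r.all fun y => [1, 2, 3].contains y) && eqb r []) = true := by decide +kernel
theorem k_ab : eqb (powW [1, 2] 19) [] = true := by decide +kernel
theorem k_b3 : eqb [2, 2, 2] [] = true := by decide +kernel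
theorem k_a2 : eqb [1, 1] [] = true := by decide +kernel

theorem x_ab : (x 1 * x 2) ^ 19 = 1 := by
  have h := eqb_sound k_ab
  rw [ev_powW, ev_nil, ev_cons, ev_cons, ev_nil, mul_one] at h
  exact h

theorem x_b3 : (x 2) ^ 3 = 1 := by
  have h := eqb_sound k_b3
  rw [ev_cons, ev_cons, ev_cons, ev_nil, mul_one] at h
  rw [pow_succ, pow_two, mul_assoc]
  exact h

theorem x_a2 : (x 1) ^ 2 = 1 := by
  have h := eqb_sound k_a2
  rw [ev_cons, ev_cons, ev_nil, mul_one] at h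
  rw [pow_two]
  exact h

theorem t2 : ((List.range 18).all fun j => J3L2.targets.any fun a => a.1 == 1 * 2 ^ (7 * j)) = true := by decide +kernel

def s9 : List ℕ := [6, 0, 7, 7, 6, 6, 1, 1, 6, 6, 0, 7, 4, 3, 2, 4, 1]

theorem t9 : ((List.range 17).all fun j => J3L9.targets.any fun a => a.1 == 1 * 2 ^ (11 * j) + s9.getD j 0 * 2 ^ (11 * 17)) = true := by
  decide +kernel
theorem t9' : (J3L9.targets.any fun a => a.1 == 6 * 2 ^ (11 * 17)) = true := by decide +kernel
theorem s9_lt : ∀ j, s9.getD j 0 ≤ 7 := by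
  intro j
  by_cases hj : j < 17
  · have : ∀ j < 17, s9.getD j 0 ≤ 7 := by decide
    exact this j hj
  · rw [List.getD_eq_default _ _ (by simp [s9]; omega)]; norm_num

end

universe u

/-- no stem extension with kernel of order 2 -/
theorem no2 (Γ : Type u) [Group Γ] [Finite Γ] (σ : Γ →* J) (hσ : IsStemExtension σ) : Nat.card σ.ker ≠ 2 := by
  intro hcard
  have hz : ∀ z ∈ σ.ker, z ^ 2 = 1 := fun z hz => by
    have h : (⟨z, hz⟩ : σ.ker) ^ Nat.card σ.ker = 1 := pow_card_eq_one'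
    rw [hcard] at h
    exact congrArg Subtype.val h
  have hC := ctx hσ (fun p hp hd => Or.inl ((Nat.prime_dvd_prime_iff_eq hp Nat.prime_two).1 (dvd_of_pow hz p hp hd)))
  obtain ⟨b, hb, hb3⟩ := Mul.lift_pow hσ.1 hσ.2.1 hz (k := 3) (by norm_num) x_b3
  obtain ⟨c, hc, hc19⟩ := Mul.lift_pow hσ.1 hσ.2.1 hz (k := 19) (by norm_num) x_ab
  have ha : σ (c * b⁻¹) = x 1 := by rw [map_mul, map_inv, hc, hb, mul_inv_cancel_right]
  have hY := YY_map ha hb
  obtain ⟨q, q1, q2, q3⟩ := J3L2.res compat rfl hC (YY (c * b⁻¹) b) hY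
    (fun z h => Subtype.ext (hz z h))
    (by
      intro r hr
      simp only [J3L2.RN, List.mem_cons, List.not_mem_nil, or_false] at hr
      rcases hr with rfl | rfl | rfl
      · simp only [ev_cons, ev_nil, mul_one]
        show b * (b * b) = 1
        rw [← mul_assoc, ← pow_two, ← pow_succ]; exact hb3
      · have : ev (YY (c * b⁻¹) b) (powW [1, 2] 19) = 1 := by
          rw [ev_powW, ev_cons, ev_cons, ev_nil, mul_one]
          show (c * b⁻¹ * b) ^ 19 = 1
          rw [inv_mul_cancel_right]; exact hc19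
        exact this
      · simp only [ev_cons, ev_nil, mul_one]
        show b * b⁻¹ = 1
        exact mul_inv_cancel b)
    (by
      intro r hr
      have h := List.all_eq_true.1 rp2 r hr
      rw [Bool.and_eq_true] at h
      exact rp_ok hY h.1 h.2)
  have ht : ∀ z, σ z = 1 → z = 1 := ker_trivial hσ (im3 hY) (K := 18) (q := q) (fun j hj => by
    have h := List.all_eq_true.1 t2 j (List.mem_range.2 hj)
    obtain ⟨a, ha, he⟩ := List.any_eq_true.1 h
    have h2 := q2 a ha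
    rw [eq_of_beq he, vS_unit hj (by norm_num) (by norm_num), one_smul] at h2
    exact h2) q3
  have : Subsingleton σ.ker := ⟨fun a b => by
    apply Subtype.ext
    rw [ht a a.2, ht b b.2]⟩
  have h1 : Nat.card σ.ker = 1 := Nat.card_unique
  omega

/-- kernels of exponent dividing 9 -/
theorem up9 (Γ : Type u) [Group Γ] [Finite Γ] (σ : Γ →* J) (hσ : IsStemExtension σ) (hz : ∀ z ∈ σ.ker, z ^ (3 ^ (1 + 1)) = 1) :
    ∃ q, σ q = 1 ∧ q ^ (3 ^ 1) = 1 ∧ ∀ z, σ z = 1 → z ∈ Subgroup.zpowers q := by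
  have hz : ∀ z ∈ σ.ker, z ^ 9 = 1 := hz
  have hC := ctx hσ (fun p hp hd => Or.inr (by
    have h1 : p ∣ 3 := hp.dvd_of_dvd_pow (show p ∣ 3 ^ 2 from dvd_of_pow hz p hp hd)
    exact (Nat.prime_dvd_prime_iff_eq hp Nat.prime_three).1 h1))
  obtain ⟨a, ha, ha2⟩ := Mul.lift_pow hσ.1 hσ.2.1 hz (k := 2) (by norm_num) x_a2
  obtain ⟨c, hc, hc19⟩ := Mul.lift_pow hσ.1 hσ.2.1 hz (k := 19) (by norm_num) x_ab
  have hb : σ (a⁻¹ * c) = x 2 := by rw [map_mul, map_inv, hc, ha, inv_mul_cancel_left]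
  have hY := YY_map ha hb
  obtain ⟨q, q1, q2, q3⟩ := J3L9.res compat rfl hC (YY a (a⁻¹ * c)) hY
    (fun z h => Subtype.ext (hz z h))
    (by
      intro r hr
      simp only [J3L9.RN, List.mem_cons, List.not_mem_nil, or_false] at hr
      rcases hr with rfl | rfl | rfl
      · simp only [ev_cons, ev_nil, mul_one]
        show a * a = 1
        rw [← pow_two]; exact ha2
      · have : ev (YY a (a⁻¹ * c)) (powW [1, 2] 19) = 1 := by
          rw [ev_powW, ev_cons, ev_cons, ev_nil, mul_one]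
          show (a * (a⁻¹ * c)) ^ 19 = 1
          rw [mul_inv_cancel_left]; exact hc19
        exact this
      · simp only [ev_cons, ev_nil, mul_one]
        show (a⁻¹ * c) * (a⁻¹ * c)⁻¹ = 1
        exact mul_inv_cancel _)
    (by
      intro r hr
      have h := List.all_eq_true.1 rp9 r hr
      rw [Bool.and_eq_true] at h
      exact rp_ok hY h.1 h.2)
  refine ker_cyclic hσ (im3 hY) (K := 18) (q := q) (f := 17) (r := 3) q1 ?_ ?_ q3
  · intro j hj
    by_cases h17 : j = 17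
    · rw [h17]; exact AddSubgroup.mem_zmultiples _
    · have h := List.all_eq_true.1 t9 j (List.mem_range.2 (by omega))
      obtain ⟨t, ht, he⟩ := List.any_eq_true.1 h
      have h2 := q2 t ht
      rw [eq_of_beq he, vS_two hj (by norm_num) (by have := s9_lt j; omega), one_smul] at h2
      rw [eq_neg_of_add_eq_zero_left h2]
      exact AddSubgroup.neg_mem _ (AddSubgroup.nsmul_mem _ (AddSubgroup.mem_zmultiples _) _)
  · obtain ⟨t, ht, he⟩ := List.any_eq_true.1 t9'
    have h2 := q2 t ht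
    rw [eq_of_beq he, vS_unit (by norm_num) (by norm_num) (by norm_num)] at h2
    have h3 : (9 : ℕ) • q 17 = 0 := by
      have h4 := hz _ (q1 17)
      exact congrArg Additive.ofMul (Subtype.ext h4 : (Additive.toMul (q 17)) ^ 9 = 1)
    have h4 : (9 : ℕ) • q 17 = (3 : ℕ) • q 17 + (6 : ℕ) • q 17 := by rw [← add_smul]
    rw [h3, h2, add_zero] at h4
    exact h4.symm

end Cfsg.Agent.H20.J3N
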