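import Cfsg.Agent.H20_J3W
import Cfsg.Prelude.Def_Classical

/-!
The triple cover of J3 inside the unitary group.
-/

set_option autoImplicit false
set_option maxRecDepth 100000

namespace Cfsg.Agent.H20.J3U

open Cfsg.Agent.H8.CE Cfsg.Agent.H8.Act Cfsg.Agent.H20.J3X Cfsg.Agent.H20.J3Y Cfsg.Agent.H20.J3R Cfsg.Agent.H20.J3Z
open Cfsg.Agent.H20.J3W Cfsg.Spor Matrix
open scoped MatrixGroups

/-- conjugation on codes -/
def cj (c : ℕ) : ℕ := c ^^^ ((c >>> 9) &&& 511)

theorem testBit_cj (c i : ℕ) (hi : i < 9) : (cj c).testBit i = (c.testBit i ^^ c.testBit (9 + i)) ∧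
    (cj c).testBit (9 + i) = c.testBit (9 + i) := by
  have h511 : ∀ j, (511 : ℕ).testBit j = decide (j < 9) := by
    intro j
    exact Nat.testBit_two_pow_sub_one 9 j
  constructor
  · unfold cj
    rw [Nat.testBit_xor, Nat.testBit_and, Nat.testBit_shiftRight, h511]
    simp [hi]
  · unfold cj
    rw [Nat.testBit_xor, Nat.testBit_and, Nat.testBit_shiftRight, h511]
    have h1 : ¬ 9 + i < 9 := by omega
    simp [h1]

section
variable {F : Type*} [Field F] {ω : F}

theorem tb_cj (h : FH ω) (u v : Bool) : tb ω (u ^^ v) v = (tb ω u v) ^ 2 := by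
  have hs := h.sq
  unfold tb
  cases u <;> cases v
  · simp
  · simp only [Bool.false_xor, cond_true, cond_false]
    linear_combination - hs
  · simp
  · simp only [Bool.true_xor, Bool.not_true, cond_true, cond_false]
    linear_combination - hs - (1 + ω) * h.h2

theorem toM_cj (h : FH ω) (M : List ℕ) : toM ω (M.map cj) = (toM ω M).map (· ^ 2) := by
  ext w z
  rw [Matrix.map_apply]
  unfold toM
  simp only [Matrix.of_apply]
  have e := List.getD_map (f := cj) (l := M) (n := ix z) (d := 0)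
  rw [show cj 0 = 0 from rfl] at e
  rw [e]
  unfold tv
  obtain ⟨h1, h2⟩ := testBit_cj (M.getD (ix z) 0) (ix w) (ix_lt w)
  rw [h1, h2, tb_cj h]

theorem hermA : ∀ w z : F9, bt ((tab.getD 1 idM).map cj) w z = bt (tab.getD 1 idM) z w := by decide
theorem hermB : ∀ w z : F9, bt (tab.getD 2 idM) w z = bt (tab.getD 2 idM) z w := by decide

theorem sqA : mulM ((tab.getD 1 idM).map cj) ((tab.getD 1 idM).map cj) = idM := by decide +kernel
theorem sqB : mulM (tab.getD 2 idM) ((tab.getD 2 idM).map cj) = idM := by decide +kernel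

/-- unitary matrices -/
def Un {n : Type*} [Fintype n] [DecidableEq n] (M : Matrix n n F) : Prop := Mᵀ * M.map (· ^ 2) = 1

theorem unA (h : FH ω) : Un (al h : Matrix F9 F9 F) := by
  have e : (al h : Matrix F9 F9 F) = toM ω (tab.getD 1 idM) := rfl
  unfold Un
  rw [e, ← toM_cj h]
  have e2 : (toM ω (tab.getD 1 idM))ᵀ = toM ω ((tab.getD 1 idM).map cj) := by
    ext w z
    rw [Matrix.transpose_apply, toM_apply, toM_apply, hermA]
  rw [e2, ← toM_mul h (by decide), sqA, toM_id]

theorem unB (h : FH ω) : Un (be h : Matrix F9 F9 F) := by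
  have e : (be h : Matrix F9 F9 F) = toM ω (tab.getD 2 idM) := rfl
  unfold Un
  rw [e, ← toM_cj h]
  have e2 : (toM ω (tab.getD 2 idM))ᵀ = toM ω (tab.getD 2 idM) := by
    ext w z
    rw [Matrix.transpose_apply, toM_apply, toM_apply, hermB]
  rw [e2, ← toM_mul h (by decide), sqB, toM_id]

theorem charP (h : FH ω) : CharP F 2 := by
  have : ringChar F = 2 := by
    have h1 : ringChar F ∣ 2 := ringChar.dvd (by exact_mod_cast h.h2)
    rcases (Nat.dvd_prime Nat.prime_two).1 h1 with h2 | h2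
    · exfalso
      have h3 := ringChar.spec F 1
      rw [h2] at h3
      have := h3.2 (dvd_refl 1)
      simp at this
    · exact h2
  rw [← this]
  exact ringChar.charP F

theorem Un_mul {n : Type*} [Fintype n] [DecidableEq n] (h : FH ω) {M N : Matrix n n F} (hM : Un M) (hN : Un N) : Un (M * N) := by
  haveI := charP h
  have key : (M * N).map (· ^ 2) = M.map (· ^ 2) * N.map (· ^ 2) := by
    have := Matrix.map_mul (L := M) (M := N) (f := frobenius F 2)
    exact this
  unfold Un at *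
  rw [key, Matrix.transpose_mul]
  calc Nᵀ * Mᵀ * (M.map (· ^ 2) * N.map (· ^ 2)) = Nᵀ * (Mᵀ * M.map (· ^ 2)) * N.map (· ^ 2) := by simp only [Matrix.mul_assoc]
    _ = 1 := by rw [hM, Matrix.mul_one, hN]

theorem map_one_sq {n : Type*} [Fintype n] [DecidableEq n] : (1 : Matrix n n F).map (· ^ 2) = 1 := by
  ext i j
  rw [Matrix.map_apply, Matrix.one_apply]
  split_ifs <;> simp

theorem Un_one {n : Type*} [Fintype n] [DecidableEq n] : Un (1 : Matrix n n F) := by
  unfold Un
  rw [map_one_sq]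
  simp

theorem Un_inv (h : FH ω) (g : GL F9 F) (hg : Un (g : Matrix F9 F9 F)) : Un ((g⁻¹ : GL F9 F) : Matrix F9 F9 F) := by
  haveI := charP h
  have e1 : ((g : Matrix F9 F9 F) * ((g⁻¹ : GL F9 F) : Matrix F9 F9 F)) = 1 := by
    rw [← Units.val_mul, mul_inv_cancel]; rfl
  have key : ((g : Matrix F9 F9 F) * ((g⁻¹ : GL F9 F) : Matrix F9 F9 F)).map (· ^ 2) =
      (g : Matrix F9 F9 F).map (· ^ 2) * ((g⁻¹ : GL F9 F) : Matrix F9 F9 F).map (· ^ 2) := by
    have := Matrix.map_mul (L := (g : Matrix F9 F9 F)) (M := ((g⁻¹ : GL F9 F) : Matrix F9 F9 F)) (f := frobenius F 2)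
    exact this
  rw [e1, map_one_sq] at key
  have e2 : (((g⁻¹ : GL F9 F) : Matrix F9 F9 F))ᵀ * ((g : Matrix F9 F9 F))ᵀ = 1 := by
    rw [← Matrix.transpose_mul, e1, Matrix.transpose_one]
  unfold Un at *
  calc (((g⁻¹ : GL F9 F) : Matrix F9 F9 F))ᵀ * ((g⁻¹ : GL F9 F) : Matrix F9 F9 F).map (· ^ 2)
      = (((g⁻¹ : GL F9 F) : Matrix F9 F9 F))ᵀ * (((g : Matrix F9 F9 F))ᵀ * (g : Matrix F9 F9 F).map (· ^ 2)) *
        ((g⁻¹ : GL F9 F) : Matrix F9 F9 F).map (· ^ 2) := by rw [hg, Matrix.mul_one]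
    _ = ((((g⁻¹ : GL F9 F) : Matrix F9 F9 F))ᵀ * ((g : Matrix F9 F9 F))ᵀ) * ((g : Matrix F9 F9 F).map (· ^ 2) *
        ((g⁻¹ : GL F9 F) : Matrix F9 F9 F).map (· ^ 2)) := by simp only [Matrix.mul_assoc]
    _ = 1 := by rw [e2, ← key, Matrix.mul_one]

theorem detA (h : FH ω) : (al h : Matrix F9 F9 F).det = 1 := by
  have h1 : (al h : Matrix F9 F9 F) * (al h : Matrix F9 F9 F) = 1 := mat_mul h 1 1 c11
  have h2 := congrArg Matrix.det h1
  rw [Matrix.det_mul, Matrix.det_one] at h2
  have h3 : ((al h : Matrix F9 F9 F).det - 1) * ((al h : Matrix F9 F9 F).det - 1) = 0 := by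
    linear_combination h2 + (1 - (al h : Matrix F9 F9 F).det) * h.h2
  exact sub_eq_zero.1 (mul_self_eq_zero.1 h3)

theorem detB (h : FH ω) : (be h : Matrix F9 F9 F).det = 1 := by
  have e : (be h : Matrix F9 F9 F) = j3E F ω 0 := by
    rw [← mE h, show ix (0 : F9) = 0 from rfl, cE]; rfl
  rw [e, j3E, Matrix.det_diagonal]
  unfold omegaPow
  rw [Finset.prod_pow_eq_pow_sum]
  have h1 : (∑ z : F9, ((((0 : F9).1 - z.1) ^ 2 + ((0 : F9).2 - z.2) ^ 2 : ZMod 3)).val) = 12 := by decide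
  rw [h1, show (12 : ℕ) = 3 * 4 from rfl, pow_mul, h.cube, one_pow]

/-- the elements of the triple cover are unitary of determinant 1 -/
theorem T_prop (h : FH ω) (g : GL F9 F) (hg : g ∈ threeJ3 F ω) :
    (g : Matrix F9 F9 F).det = 1 ∧ Un (g : Matrix F9 F9 F) := by
  rw [T_eq h] at hg
  induction hg using Subgroup.closure_induction with
  | mem g hg =>
    rcases hg with rfl | rfl
    · exact ⟨detA h, unA h⟩
    · exact ⟨detB h, unB h⟩
  | one => exact ⟨by simp, by simpa using Un_one⟩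
  | mul a b _ _ ha hb =>
    rw [Units.val_mul]
    exact ⟨by rw [Matrix.det_mul, ha.1, hb.1, mul_one], Un_mul h ha.2 hb.2⟩
  | inv a _ ha =>
    refine ⟨?_, Un_inv h a ha.2⟩
    have h1 : ((a⁻¹ : GL F9 F) : Matrix F9 F9 F) * (a : Matrix F9 F9 F) = 1 := by
      rw [← Units.val_mul, inv_mul_cancel]; rfl
    have h2 := congrArg Matrix.det h1
    rw [Matrix.det_mul, ha.1, mul_one, Matrix.det_one] at h2
    exact h2

/-- the index bijection -/
noncomputable def ie : F9 ≃ Fin 9 := Equiv.ofBijective (fun z => (⟨ix z, ix_lt z⟩ : Fin 9)) (by decide)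

/-- the matrix indexed by `Fin 9` -/
noncomputable def rM : Matrix F9 F9 F ≃ₐ[F] Matrix (Fin 9) (Fin 9) F := Matrix.reindexAlgEquiv F F ie

theorem Un_r {M : Matrix F9 F9 F} (hM : Un M) : Un (rM M) := by
  unfold Un at *
  have h1 : (rM M)ᵀ = rM Mᵀ := by
    ext i j; rfl
  have h2 : (rM M).map (· ^ 2) = rM (M.map (· ^ 2)) := by
    ext i j; rfl
  rw [h1, h2, ← map_mul, hM, map_one]

theorem herm_pres (h : FH ω) {M : Matrix (Fin 9) (Fin 9) F} (hM : Un M) (u v : Fin 9 → F) :
    hermForm 9 F 2 (M *ᵥ u) (M *ᵥ v) = hermForm 9 F 2 u v := by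
  haveI := charP h
  have h1 : ∀ (v : Fin 9 → F) (i : Fin 9), (M *ᵥ v) i ^ 2 = ((M.map (· ^ 2)) *ᵥ (fun j => v j ^ 2)) i := by
    intro v i
    simp only [Matrix.mulVec, dotProduct, Matrix.map_apply]
    rw [← frobenius_def (p := 2), map_sum]
    apply Finset.sum_congr rfl
    intro j _
    rw [frobenius_def, mul_pow]
  have h2 : ∀ u v : Fin 9 → F, hermForm 9 F 2 u v = u ⬝ᵥ (fun j => v j ^ 2) := by
    intro u v; rfl
  rw [h2, h2]
  have h3 : (fun j => (M *ᵥ v) j ^ 2) = (M.map (· ^ 2)) *ᵥ (fun j => v j ^ 2) := by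
    funext i; exact h1 v i
  rw [h3, Matrix.dotProduct_mulVec, Matrix.vecMul_mulVec]
  unfold Un at hM
  rw [hM, Matrix.vecMul_one]

/-- the embedding in the unitary group -/
noncomputable def rho (h : FH ω) : threeJ3 F ω →* SU 9 F 2 where
  toFun t := ⟨⟨rM ((t : GL F9 F) : Matrix F9 F9 F), by
      show ((Matrix.reindexAlgEquiv F F ie) ((t : GL F9 F) : Matrix F9 F9 F)).det = 1
      rw [Matrix.det_reindexAlgEquiv]
      exact (T_prop h t t.2).1⟩, fun u v => herm_pres h (Un_r (T_prop h t t.2).2) u v⟩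
  map_one' := by
    apply Subtype.ext
    apply Subtype.ext
    exact map_one rM
  map_mul' a b := by
    apply Subtype.ext
    apply Subtype.ext
    exact map_mul rM _ _

theorem rho_inj (h : FH ω) : Function.Injective (rho h) := by
  intro a b hab
  have h1 := congrArg (fun s : SU 9 F 2 => (((s : Matrix.SpecialLinearGroup (Fin 9) F)) : Matrix (Fin 9) (Fin 9) F)) hab
  have h2 : rM (((a : threeJ3 F ω) : GL F9 F) : Matrix F9 F9 F) = rM (((b : threeJ3 F ω) : GL F9 F) : Matrix F9 F9 F) := h1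
  apply Subtype.ext
  apply Units.ext
  exact rM.injective h2

theorem map_center {G H : Type*} [Group G] [Group H] (e : G ≃* H) :
    (Subgroup.center G).map (e : G →* H) = Subgroup.center H := by
  ext x
  constructor
  · rintro ⟨g, hg, rfl⟩
    rw [Subgroup.mem_center_iff]
    intro y
    obtain ⟨z, rfl⟩ := e.surjective y
    have := Subgroup.mem_center_iff.1 hg z
    show e z * e g = e g * e z
    rw [← map_mul, this, map_mul]
  · intro hx
    refine ⟨e.symm x, ?_, by simp⟩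
    apply Subgroup.mem_center_iff.2
    intro y
    apply e.injective
    rw [map_mul, map_mul, MulEquiv.apply_symm_apply]
    exact Subgroup.mem_center_iff.1 hx (e y)

end

end Cfsg.Agent.H20.J3U
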