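import Cfsg.Agent.H20_L27M
import Cfsg.Agent.H20_L27L4
import Cfsg.Agent.H20_L27W
import Cfsg.Agent.H20_LabG
import Cfsg.Agent.H21_O168

/-!
The Schur multiplier of the simple group of order 168.
-/

set_option autoImplicit false
set_option maxRecDepth 100000

namespace Cfsg.Agent.H20.L27N

open Cfsg Cfsg.Agent.H8 Cfsg.Agent.H8.CE Cfsg.Agent.H8.Net Cfsg.Agent.H8.Act Cfsg.Agent.H8.Cox Cfsg.Agent.H8.Act2
open Cfsg.Agent.H20 Cfsg.Agent.H21 Cfsg.Agent.H20.PG Cfsg.Agent.H20.L27R Cfsg.Agent.H20.L27M Cfsg.Agent.H20.Lab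
open scoped IsMulCommutative commutatorElement

instance : Fact (Nat.Prime 2) := ⟨Nat.prime_two⟩

/-! ### Isomorphism with the simple group of order 168 -/

/-- permutations -/
abbrev PP : Type := Equiv.Perm O168.Pt

/-- table of the letters -/
def Zt (y : ℕ) : PP :=
  match y with
  | 1 => O168.T
  | 2 => O168.X * O168.Y
  | 3 => (O168.X * O168.Y)⁻¹
  | 4 => O168.T * (O168.X * O168.Y)
  | 5 => (O168.T * (O168.X * O168.Y))⁻¹
  | 6 => O168.T * (O168.X * O168.Y)
  | 7 => (O168.T * (O168.X * O168.Y))⁻¹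
  | _ => 1

theorem xZ (fS : Gen → PP) (ha : fS .a = O168.T) (hb : fS .b = O168.X * O168.Y) : ∀ y, 1 ≤ y → y ≤ 7 → xL fS wc wd y = Zt y := by
  have r1 : xL fS wc wd 1 = O168.T := by rw [xL1]; exact ha
  have r2 : xL fS wc wd 2 = O168.X * O168.Y := by rw [xL2]; exact hb
  have r3 : xL fS wc wd 3 = (O168.X * O168.Y)⁻¹ := by rw [xL3, hb]
  have r4 : xL fS wc wd 4 = O168.T * (O168.X * O168.Y) := by
    rw [xL4 fS good.lc]
    have h : ev (xL fS wc wd) wc = xL fS wc wd 1 * xL fS wc wd 2 := by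
      show ev (xL fS wc wd) [1, 2] = _
      rw [ev_cons, ev_cons, ev_nil, mul_one]
    rw [h, r1, r2]
  have r6 : xL fS wc wd 6 = O168.T * (O168.X * O168.Y) := by
    rw [xL6 fS good.ld]
    have h : ev (xL fS wc wd) wd = xL fS wc wd 1 * xL fS wc wd 2 := by
      show ev (xL fS wc wd) [1, 2] = _
      rw [ev_cons, ev_cons, ev_nil, mul_one]
    rw [h, r1, r2]
  intro y h1 h2
  interval_cases y
  · exact r1
  · exact r2
  · exact r3
  · exact r4
  · rw [xL5, r4]; rfl
  · exact r6
  · rw [xL7, r6]; rfl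

theorem k_rels : (rels.all fun w => (w.all fun y => Nat.blt 0 y && Nat.blt y 8) && decide (ev Zt w = 1)) = true := by
  decide +kernel

def wX : List ℕ := [2, 1, 3, 1, 3, 1, 2, 1, 2]
def wY : List ℕ := [3, 1, 3, 1, 2, 1, 2, 1]
def wT : List ℕ := [1]

theorem kX : ((wX.all fun y => Nat.blt 0 y && Nat.blt y 8) && decide (ev Zt wX = O168.X)) = true := by decide +kernel
theorem kY : ((wY.all fun y => Nat.blt 0 y && Nat.blt y 8) && decide (ev Zt wY = O168.Y)) = true := by decide +kernel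
theorem kT : ((wT.all fun y => Nat.blt 0 y && Nat.blt y 8) && decide (ev Zt wT = O168.T)) = true := by decide +kernel

theorem evZ (fS : Gen → PP) (ha : fS .a = O168.T) (hb : fS .b = O168.X * O168.Y) (w : List ℕ)
    (h : (w.all fun y => Nat.blt 0 y && Nat.blt y 8) = true) : ev (xL fS wc wd) w = ev Zt w := by
  refine Cfsg.Agent.H20.PG.ev_congr' w fun y hy => ?_
  have h2 := List.all_eq_true.1 h y hy
  rw [Bool.and_eq_true] at h2
  exact xZ fS ha hb y (Nat.le_of_ble_eq_true h2.1) (Nat.le_of_lt_succ (Nat.le_of_ble_eq_true h2.2))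

theorem map_xL {G : Type*} [Group G] (ψ : G →* PP) (f : Gen → G) (w : List ℕ) : ψ (ev (xL f wc wd) w) = ev (xL (fun g => ψ (f g)) wc wd) w := by
  have hx : ψ.comp (FreeGroup.lift f) = FreeGroup.lift (fun g => ψ (f g)) := by
    apply FreeGroup.ext_hom
    intro x
    simp only [MonoidHom.comp_apply, FreeGroup.lift_apply_of]
  rw [ev_xL, ev_xL, ← hx]; rfl

/-- any simple group of order 168 is isomorphic to the presented group -/
theorem exists_e {G : Type*} [Group G] [Finite G] [IsSimpleGroup G] (h : Nat.card G = 168) : Nonempty (J ≃* G) := by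
  obtain ⟨ψ, x', y', t', hinj, hX, hY, hT, hcl⟩ := O168.std h
  let f : Gen → G := fun g => match g with
    | .a => t'
    | .b => x' * y'
  have ha : (fun g => ψ (f g)) Gen.a = O168.T := hT
  have hb : (fun g => ψ (f g)) Gen.b = O168.X * O168.Y := by
    show ψ (x' * y') = _
    rw [map_mul, hX, hY]
  have hr : ∀ w ∈ rels, ev (xL f wc wd) w = 1 := by
    intro w hw
    have h := List.all_eq_true.1 k_rels w hw
    rw [Bool.and_eq_true] at h
    apply hinj
    rw [map_xL, evZ _ ha hb _ h.1, map_one]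
    exact of_decide_eq_true h.2
  have key : ∀ (w : List ℕ) (g : PP) (u : G), ψ u = g → ((w.all fun y => Nat.blt 0 y && Nat.blt y 8) && decide (ev Zt w = g)) = true →
      u ∈ (toG f hr).range := by
    intro w g u hu hk
    rw [Bool.and_eq_true] at hk
    refine ⟨PresentedGroup.mk _ (ev (fun y => (lm2 wc wd).getD y 1) w), ?_⟩
    have h1 : ev (xL f wc wd) w = u := by
      apply hinj
      rw [map_xL, evZ _ ha hb _ hk.1, hu]
      exact of_decide_eq_true hk.2
    rw [← h1, ev_xL]; rfl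
  have hs : Function.Surjective (toG f hr) := by
    rw [← MonoidHom.range_eq_top, eq_top_iff, ← hcl, Subgroup.closure_le]
    rintro u (rfl | rfl | rfl)
    · exact key wX _ _ hX kX
    · exact key wY _ _ hY kY
    · exact key wT _ _ hT kT
  haveI : Finite J := instFinite
  have hb : Function.Bijective (toG f hr) := by
    refine (Nat.bijective_iff_surjective_and_card _).2 ⟨hs, ?_⟩
    have h1 : Nat.card G ≤ Nat.card J := Nat.card_le_card_of_surjective _ hs
    rw [h] at h1 ⊢
    exact le_antisymm card_le h1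
  exact ⟨MulEquiv.ofBijective _ hb⟩

theorem card_K (card_J : Nat.card J = 168) : Nat.card K = 7 := by
  have h := Subgroup.card_mul_index K
  rw [card_J, K_spec.1] at h
  omega

theorem gen3 : Subgroup.closure (x '' {y | y ∈ ([1, 2, 3] : List ℕ)}) = ⊤ := Hl_top (l := [1, 2, 3]) (by decide) (by decide)

theorem x3 : x 3 = (x 2)⁻¹ := by
  have h := xic 2 (by decide)
  rwa [show il PG.ic 2 = 3 by decide] at h

theorem x_a2 : (x 1) ^ 2 = 1 := by
  have h := xrels [1, 1] (by decide +kernel)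
  rw [ev_cons, ev_cons, ev_nil, mul_one] at h
  rw [pow_two]; exact h

theorem x_b : (x 2) ^ 3 = 1 := by
  have h := xrels (powW [2] 3) (by decide +kernel)
  rw [ev_powW, ev_cons, ev_nil, mul_one] at h
  exact h

theorem x_ab : (x 1 * x 2) ^ 7 = 1 := by
  have h := xrels (powW [4] 7) (by decide +kernel)
  rw [ev_powW, ev_cons, ev_nil, mul_one] at h
  have h2 := xrels [1, 2, 5] (by decide +kernel)
  have h3 := xic 4 (by decide)
  rw [show il PG.ic 4 = 5 by decide] at h3
  rw [ev_cons, ev_cons, ev_cons, ev_nil, mul_one, h3, ← mul_assoc] at h2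
  rw [mul_inv_eq_one.1 h2]; exact h

theorem comm_J : commutator J = ⊤ := by
  set A := Abelianization.of (x 1) with hA
  set B := Abelianization.of (x 2) with hB
  have s0 : A ^ 2 = 1 := by rw [hA, ← map_pow, x_a2, map_one]
  have s1 : B ^ 3 = 1 := by rw [hB, ← map_pow, x_b, map_one]
  have s2 : (A * B) ^ 7 = 1 := by rw [hA, hB, ← map_mul, ← map_pow, x_ab, map_one]
  have s3 : (A * B) ^ (2 * 3) = 1 := by
    rw [mul_pow, pow_mul, s0, one_pow, mul_comm 2 3, pow_mul, s1, one_pow, one_mul]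
  have s4 : A * B = 1 := by
    have h := pow_gcd_eq_one.2 ⟨s2, s3⟩
    rwa [show Nat.gcd 7 (2 * 3) = 1 by decide, pow_one] at h
  have hAB : A = B⁻¹ := eq_inv_of_mul_eq_one_left s4
  have hA1 : A = 1 := by
    have h3 : A ^ 3 = 1 := by rw [hAB, inv_pow, s1, inv_one]
    have h := pow_gcd_eq_one.2 ⟨s0, h3⟩
    rwa [show Nat.gcd 2 3 = 1 by decide, pow_one] at h
  have hB2 : B = 1 := by rw [hA1, one_mul] at s4; exact s4
  rw [eq_top_iff]
  intro g _
  refine (QuotientGroup.eq_one_iff g).1 ?_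
  have hg : g ∈ Subgroup.closure (x '' {y | y ∈ ([1, 2, 3] : List ℕ)}) := by rw [gen3]; trivial
  have hle : Subgroup.closure (x '' {y | y ∈ ([1, 2, 3] : List ℕ)}) ≤ (Abelianization.of : J →* Abelianization J).ker := by
    rw [Subgroup.closure_le]
    rintro _ ⟨y, hy, rfl⟩
    have hy' : y ∈ ([1, 2, 3] : List ℕ) := hy
    simp only [List.mem_cons, List.not_mem_nil, or_false] at hy'
    rcases hy' with rfl | rfl | rfl
    · exact hA1
    · exact hB2
    · show Abelianization.of (x 3) = 1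
      rw [x3, map_inv, ← hB, hB2, inv_one]
  exact hle hg

universe u

theorem up4 (card_J : Nat.card J = 168) (Γ : Type u) [Group Γ] [Finite Γ] (σ : Γ →* J) (hσ : IsStemExtension σ) (hz : ∀ z ∈ σ.ker, z ^ (2 ^ (1 + 1)) = 1) :
    ∃ q, σ q = 1 ∧ q ^ (2 ^ 1) = 1 ∧ ∀ z, σ z = 1 → z ∈ Subgroup.zpowers q := by
  have hz : ∀ z ∈ σ.ker, z ^ 4 = 1 := hz
  obtain ⟨H1, hC⟩ := ctx_coprime hσ (phi := phi) (o := ⟨0, by decide⟩) K K_spec.2
    (coprime_of_pow hz (by rw [card_K card_J]; norm_num))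
  obtain ⟨b, hb, hb3⟩ := Mul.lift_pow hσ.1 hσ.2.1 hz (k := 3) (by norm_num) x_b
  obtain ⟨c, hc, hc11⟩ := Mul.lift_pow hσ.1 hσ.2.1 hz (k := 7) (by norm_num) x_ab
  have ha : σ (c * b⁻¹) = x 1 := by rw [map_mul, map_inv, hc, hb, mul_inv_cancel_right]
  have hY := YY_map x3 ha hb
  obtain ⟨q, q1, q2, q3⟩ := L27L4.res compat rfl hC (YY (c * b⁻¹) b) hY
    (fun z h => Subtype.ext (hz z h))
    (by
      intro r hr
      simp only [L27L4.RN, List.mem_cons, List.not_mem_nil, or_false] at hr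
      rcases hr with rfl | rfl | rfl | rfl
      · rw [ev222]; exact hb3
      · exact (evab (c * b⁻¹) b 7).trans (by rw [inv_mul_cancel_right]; exact hc11)
      · exact ev23 _ _
      · exact ev23 _ _)
    (rp_ok hY xrels (by decide +kernel))
  exact ker_cyclic hσ (im3 gen3 hY) (K := 3) (q := q) (f := 1) (r := 2) q1
    (mult_of (by norm_num) [3, 0, 0] q2 (by decide +kernel))
    (smul_of (by norm_num) q2 (by norm_num) (by norm_num) (by decide +kernel)) q3

theorem up (card_J : Nat.card J = 168) (Γ : Type u) [Group Γ] [Finite Γ] (σ : Γ →* J) (hσ : IsStemExtension σ) :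
    ∃ π : Multiplicative (ZMod 2) →* σ.ker, Function.Surjective π := by
  refine Mul.upper_pp (p := 2) (k := 1) ?_ (fun Γ _ _ σ hσ hz => up4 card_J Γ σ hσ hz) Γ σ hσ
  intro r hr hr2 Γ _ _ σ hσ
  refine Cfsg.Agent.H14.Schur.ne_of_not_sq_dvd comm_J ?_ Γ σ hσ
  rw [card_J]
  intro hd
  have hfac : (168 : ℕ) = 2 ^ 3 * (3 * 7) := by norm_num
  have hrd : r ∣ 168 := dvd_trans (dvd_pow_self r two_ne_zero) hd
  have hr5 : r = 3 ∨ r = 7 := by
    rw [hfac] at hrd
    rcases (Nat.Prime.dvd_mul hr.out).1 hrd with h | h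
    · exact absurd ((Nat.prime_dvd_prime_iff_eq hr.out Nat.prime_two).1 (hr.out.dvd_of_dvd_pow h)) hr2
    · rcases (Nat.Prime.dvd_mul hr.out).1 h with h | h
      · exact Or.inl ((Nat.prime_dvd_prime_iff_eq hr.out (by norm_num)).1 h)
      · exact Or.inr ((Nat.prime_dvd_prime_iff_eq hr.out (by norm_num)).1 h)
  rcases hr5 with rfl | rfl <;> norm_num at hd

/-- the double cover -/
theorem low : ∃ (Γ : Type) (_ : Group Γ) (_ : Finite Γ) (σ : Γ →* J), IsStemExtension σ ∧
    Nonempty (σ.ker ≃* Multiplicative (ZMod 2)) := by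
  refine Low2.low good (L := L27W.L) (k := 6) L27W.sys L27W.hn L27W.inv_ok L27W.E_ok (by decide +kernel) (es := L27W.es)
    (by decide +kernel) (by decide +kernel) (by decide +kernel) (by decide +kernel) (by decide +kernel) (by decide +kernel)
    ?_ (w := L27W.w) (by decide +kernel) (by decide +kernel) ?_
  · apply orderOf_eq_prime
    · have h : ev (xP L27W.sys L27W.hn L27W.inv_ok) [8, 8] = ev (xP L27W.sys L27W.hn L27W.inv_ok) [] :=
        ev_xP_eq L27W.sys L27W.hn L27W.inv_ok (by decide) (by decide) (eqAll_sound L27W.E_ok ([8, 8], []) (by decide +kernel))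
      rw [ev_cons, ev_cons, ev_nil, mul_one] at h
      rw [pow_two]; exact h
    · intro h
      have h1 := xP_inv_apply L27W.sys L27W.hn L27W.inv_ok 8 (by decide) ⟨0, by decide⟩
      rw [h] at h1
      have h2 : (net L27W.L 8).pos 0 = 0 := h1.symm
      revert h2
      decide +kernel
  · have h1 : ev x L27W.w = 1 := xrels _ (by decide +kernel)
    have e1 : L27W.w.count 1 = 2 * 4 := by decide +kernel
    have e2 : L27W.w.count 2 = 4 := by decide +kernel
    have e3 : L27W.w.count 3 = 4 := by decide +kernel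
    rw [e1, e2, e3, h1, pow_mul (x 1), x_a2]
    simp

end Cfsg.Agent.H20.L27N
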