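import Cfsg.Agent.H20_PG

/-!
Relators for L27.
-/

set_option autoImplicit false
set_option maxRecDepth 100000

namespace Cfsg.Agent.H20.L27R

open Cfsg.Agent.H20.PG

def wc : List ℕ := [1, 2]
def wd : List ℕ := [1, 2]

/-- relators -/
def rels : List (List ℕ) := [
  [1, 1],
  [2, 2, 2],
  [1, 2, 5],
  [4, 4, 4, 4, 4, 4, 4],
  [1, 2, 1, 3, 1, 2, 1, 3, 1, 2, 1, 3, 1, 2, 1, 3],
  [1, 2, 7]]

theorem good : Good wc wd rels := ⟨by decide +kernel, by decide +kernel, by decide +kernel, by decide +kernel, by decide +kernel⟩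

end Cfsg.Agent.H20.L27R
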