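import Cfsg.Agent.H8_CE
import Mathlib

/-!
Labels of a coset graph in a central extension: abstract part.
-/

set_option autoImplicit false

namespace Cfsg.Agent.H20.Lab

open Cfsg.Agent.H8.CE
open scoped IsMulCommutative

variable {Γ G : Type*} [Group Γ] [Group G] {n : ℕ}

/-- the setting: a central extension, an action of the quotient, a lift of the stabilizer -/
structure Ctx (σ : Γ →* G) (φ : G →* Equiv.Perm (Fin n)) (o : Fin n) (H1 : Subgroup Γ) : Prop where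
  cen : ∀ z, σ z = 1 → z ∈ Subgroup.center Γ
  fac : ∀ g, φ (σ g) o = o → ∃ z h, σ z = 1 ∧ h ∈ H1 ∧ g = z * h
  st : ∀ h ∈ H1, φ (σ h) o = o
  int : ∀ z ∈ H1, σ z = 1 → z = 1

/-- sum of labels along a path -/
def lsum {A : Type*} [AddCommMonoid A] (c : ℕ → ℕ → A) (nx : ℕ → ℕ → ℕ) : List ℕ → ℕ → A
  | [], _ => 0
  | y :: w, i => c y i + lsum c nx w (nx y i)

/-- end of a path -/
def lend (nx : ℕ → ℕ → ℕ) : List ℕ → ℕ → ℕ
  | [], i => i
  | y :: w, i => lend nx w (nx y i)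

section
variable {σ : Γ →* G} {φ : G →* Equiv.Perm (Fin n)} {o : Fin n} {H1 : Subgroup Γ}

/-- representatives from a tree -/
theorem exists_reps (Y : ℕ → Γ) (nx : ℕ → ℕ → ℕ) (ys : List ℕ) (ho : (o : ℕ) = 0)
    (hnx : ∀ y ∈ ys, ∀ i : Fin n, ((((φ (σ (Y y)))⁻¹ : Equiv.Perm (Fin n)) i : Fin n) : ℕ) = nx y i)
    (par lt : ℕ → ℕ) (htree : ∀ j, 0 < j → j < n → par j < j ∧ lt j ∈ ys ∧ nx (lt j) (par j) = j) :
    ∃ t : ℕ → Γ, t 0 = 1 ∧ (∀ j, 0 < j → j < n → t j = t (par j) * Y (lt j)) ∧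
      ∀ j, j < n → ((((φ (σ (t j)))⁻¹ : Equiv.Perm (Fin n)) o : Fin n) : ℕ) = j := by
  have key : ∀ m, ∃ t : ℕ → Γ, t 0 = 1 ∧ (∀ j, 0 < j → j < n → j < m → t j = t (par j) * Y (lt j)) ∧
      ∀ j, j < n → j < m → ((((φ (σ (t j)))⁻¹ : Equiv.Perm (Fin n)) o : Fin n) : ℕ) = j := by
    intro m
    induction m with
    | zero => exact ⟨fun _ => 1, rfl, fun j _ _ h => absurd h (Nat.not_lt_zero _), fun j _ h => absurd h (Nat.not_lt_zero _)⟩
    | succ m ih =>
      obtain ⟨t, h0, h1, h2⟩ := ih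
      rcases Nat.eq_zero_or_pos m with rfl | hm
      · refine ⟨fun _ => 1, rfl, fun j hj _ h => absurd hj (by omega), fun j _ h => ?_⟩
        have : j = 0 := by omega
        subst this
        simp [ho]
      · by_cases hmn : m < n
        · obtain ⟨p1, p2, p3⟩ := htree m hm hmn
          refine ⟨fun j => if j = m then t (par m) * Y (lt m) else t j, ?_, ?_, ?_⟩
          · beta_reduce; rw [if_neg (by omega), h0]
          · intro j hj hjn hjm
            by_cases e : j = m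
            · subst e
              have e2 : ¬ par j = j := by omega
              simp only [e2, if_true, if_false]
            · have := (htree j hj hjn).1
              beta_reduce; rw [if_neg e, if_neg (by omega)]
              exact h1 j hj hjn (by omega)
          · intro j hjn hjm
            by_cases e : j = m
            · subst e
              beta_reduce
              rw [if_pos rfl, map_mul, map_mul, mul_inv_rev, Equiv.Perm.mul_apply, hnx _ p2, h2 (par j) (by omega) (by omega), p3]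
            · beta_reduce; rw [if_neg e]; exact h2 j hjn (by omega)
        · refine ⟨t, h0, fun j hj hjn hjm => h1 j hj hjn (by omega), fun j hjn hjm => h2 j hjn (by omega)⟩
  obtain ⟨t, h0, h1, h2⟩ := key (n + 1)
  exact ⟨t, h0, fun j a b => h1 j a b (by omega), fun j a => h2 j a (by omega)⟩

/-- the labels -/
theorem exists_labels [Finite Γ] (hC : Ctx σ φ o H1) (Y : ℕ → Γ) (nx : ℕ → ℕ → ℕ) (ys : List ℕ) (ho : (o : ℕ) = 0)
    (hnx : ∀ y ∈ ys, ∀ i : Fin n, ((((φ (σ (Y y)))⁻¹ : Equiv.Perm (Fin n)) i : Fin n) : ℕ) = nx y i)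
    (par lt : ℕ → ℕ) (htree : ∀ j, 0 < j → j < n → par j < j ∧ lt j ∈ ys ∧ nx (lt j) (par j) = j) :
    ∃ c : ℕ → ℕ → Additive (Subgroup.center Γ),
      (∀ y i, σ ((Additive.toMul (c y i) : Subgroup.center Γ) : Γ) = 1) ∧
      (∀ j, 0 < j → j < n → c (lt j) (par j) = 0) ∧
      (∀ w : List ℕ, (∀ y ∈ w, y ∈ ys) → ∀ i, i < n → ∀ z : Subgroup.center Γ, σ (z : Γ) = 1 → ev Y w = (z : Γ) →
        lsum c nx w i = Additive.ofMul z) ∧
      (∀ Z0 : Subgroup (Subgroup.center Γ), (∀ z ∈ Z0, σ ((z : Subgroup.center Γ) : Γ) = 1) → (∀ y ∈ ys, ∀ i, i < n → Additive.toMul (c y i) ∈ Z0) →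
        ∀ z : Subgroup.center Γ, σ (z : Γ) = 1 → (z : Γ) ∈ Subgroup.closure (Y '' {y | y ∈ ys}) → z ∈ Z0) := by
  classical
  obtain ⟨t, h0, h1, h2⟩ := exists_reps (σ := σ) (φ := φ) Y nx ys ho hnx par lt htree
  -- existence of single labels
  have e1 : ∀ (i j : ℕ) (g : Γ) (hi : i < n) (hj : j < n),
      ((((φ (σ g))⁻¹ : Equiv.Perm (Fin n)) ⟨i, hi⟩ : Fin n) : ℕ) = j →
      ∃ z : Subgroup.center Γ, σ (z : Γ) = 1 ∧ (z : Γ)⁻¹ * (t i * g * (t j)⁻¹) ∈ H1 := by
    intro i j g hi hj hij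
    have a1 : ((φ (σ (t i)))⁻¹ : Equiv.Perm (Fin n)) o = ⟨i, hi⟩ := Fin.ext (h2 i hi)
    have a2 : ((φ (σ (t j)))⁻¹ : Equiv.Perm (Fin n)) o = ⟨j, hj⟩ := Fin.ext (h2 j hj)
    have a3 : ((φ (σ g))⁻¹ : Equiv.Perm (Fin n)) ⟨i, hi⟩ = ⟨j, hj⟩ := Fin.ext hij
    have a4 : φ (σ (t i * g * (t j)⁻¹)) o = o := by
      have b2 : (φ (σ (t j))) ⟨j, hj⟩ = o := by rw [← a2]; exact (φ (σ (t j))).apply_symm_apply o
      have b2' : ((φ (σ (t j)))⁻¹ : Equiv.Perm (Fin n)) o = ⟨j, hj⟩ := a2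
      have b1 : (φ (σ (t i))) ⟨i, hi⟩ = o := by rw [← a1]; exact (φ (σ (t i))).apply_symm_apply o
      have b3 : (φ (σ g)) ⟨j, hj⟩ = ⟨i, hi⟩ := by rw [← a3]; exact (φ (σ g)).apply_symm_apply _
      rw [map_mul, map_mul, map_mul, map_mul, map_inv, map_inv, Equiv.Perm.mul_apply, Equiv.Perm.mul_apply, b2', b3, b1]
    obtain ⟨z, h, hz, hh, he⟩ := hC.fac _ a4
    refine ⟨⟨z, hC.cen z hz⟩, hz, ?_⟩
    show z⁻¹ * (t i * g * (t j)⁻¹) ∈ H1
    rw [he, inv_mul_cancel_left]; exact hh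
  have uniq : ∀ (z z' : Subgroup.center Γ) (g : Γ), σ (z : Γ) = 1 → σ (z' : Γ) = 1 → (z : Γ)⁻¹ * g ∈ H1 → (z' : Γ)⁻¹ * g ∈ H1 → z = z' := by
    intro z z' g hz hz' hg hg'
    have b1 : ((z : Γ)⁻¹ * g) * ((z' : Γ)⁻¹ * g)⁻¹ ∈ H1 := mul_mem hg (inv_mem hg')
    have b2 : ((z : Γ)⁻¹ * g) * ((z' : Γ)⁻¹ * g)⁻¹ = (z : Γ)⁻¹ * z' := by group
    rw [b2] at b1
    have b3 := hC.int _ b1 (by rw [map_mul, map_inv, hz, hz', inv_one, one_mul])
    exact Subtype.ext (inv_mul_eq_one.1 b3)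
  have hnx2 : ∀ y ∈ ys, ∀ i, i < n → nx y i < n := by
    intro y hy i hi
    rw [← hnx y hy ⟨i, hi⟩]
    exact (((φ (σ (Y y)))⁻¹ : Equiv.Perm (Fin n)) ⟨i, hi⟩).2
  have e2 : ∀ y i, ∃ z : Subgroup.center Γ, σ (z : Γ) = 1 ∧
      (y ∈ ys → i < n → (z : Γ)⁻¹ * (t i * Y y * (t (nx y i))⁻¹) ∈ H1) := by
    intro y i
    by_cases hy : y ∈ ys
    · by_cases hi : i < n
      · obtain ⟨z, hz, hz'⟩ := e1 i (nx y i) (Y y) hi (hnx2 y hy i hi) (hnx y hy ⟨i, hi⟩)
        exact ⟨z, hz, fun _ _ => hz'⟩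
      · exact ⟨1, by simp, fun _ h => absurd h hi⟩
    · exact ⟨1, by simp, fun h => absurd h hy⟩
  choose c hc1 hc2 using e2
  have path : ∀ w : List ℕ, (∀ y ∈ w, y ∈ ys) → ∀ i, ∀ hi : i < n, lend nx w i < n ∧
      ((((φ (σ (ev Y w)))⁻¹ : Equiv.Perm (Fin n)) ⟨i, hi⟩ : Fin n) : ℕ) = lend nx w i ∧
      σ ((Additive.toMul (lsum (fun y i => Additive.ofMul (c y i)) nx w i) : Subgroup.center Γ) : Γ) = 1 ∧
      ((Additive.toMul (lsum (fun y i => Additive.ofMul (c y i)) nx w i) : Subgroup.center Γ) : Γ)⁻¹ * (t i * ev Y w * (t (lend nx w i))⁻¹) ∈ H1 := by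
    intro w
    induction w with
    | nil =>
      intro _ i hi
      refine ⟨hi, by simp [lend], by simp [lsum], ?_⟩
      simp [lsum, lend]
    | cons y w ih =>
      intro hw i hi
      have hy := hw y List.mem_cons_self
      obtain ⟨i1, i2, i3, i4⟩ := ih (fun y' hy' => hw y' (List.mem_cons_of_mem _ hy')) (nx y i) (hnx2 y hy i hi)
      have i5 := hc2 y i hy hi
      have i6 := hc1 y i
      refine ⟨i1, ?_, ?_, ?_⟩
      · rw [ev_cons, map_mul, map_mul, mul_inv_rev, Equiv.Perm.mul_apply]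
        have := hnx y hy ⟨i, hi⟩
        have h5 : ((φ (σ (Y y)))⁻¹ : Equiv.Perm (Fin n)) ⟨i, hi⟩ = ⟨nx y i, hnx2 y hy i hi⟩ := Fin.ext this
        rw [h5]; exact i2
      · show σ (((c y i) * Additive.toMul (lsum (fun y i => Additive.ofMul (c y i)) nx w (nx y i)) : Subgroup.center Γ) : Γ) = 1
        rw [Subgroup.coe_mul, map_mul, i6, i3, one_mul]
      · show (((c y i) * Additive.toMul (lsum (fun y i => Additive.ofMul (c y i)) nx w (nx y i)) : Subgroup.center Γ) : Γ)⁻¹ *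
          (t i * ev Y (y :: w) * (t (lend nx w (nx y i)))⁻¹) ∈ H1
        rw [Subgroup.coe_mul, ev_cons]
        set L := Additive.toMul (lsum (fun y i => Additive.ofMul (c y i)) nx w (nx y i)) with hL
        have h7 := mul_mem i5 i4
        have hcomm : ∀ g : Γ, (L : Γ)⁻¹ * g = g * (L : Γ)⁻¹ := by
          intro g
          have h8 := Subgroup.mem_center_iff.1 (inv_mem L.2) g
          exact h8.symm
        have h9 : ((c y i : Subgroup.center Γ) : Γ)⁻¹ * (t i * Y y * (t (nx y i))⁻¹) * ((L : Γ)⁻¹ * (t (nx y i) * ev Y w * (t (lend nx w (nx y i)))⁻¹)) =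
            (((c y i : Subgroup.center Γ) : Γ) * (L : Γ))⁻¹ * (t i * (Y y * ev Y w) * (t (lend nx w (nx y i)))⁻¹) := by
          rw [← mul_assoc (((c y i : Subgroup.center Γ) : Γ)⁻¹ * _), mul_assoc (((c y i : Subgroup.center Γ) : Γ)⁻¹), ← hcomm, mul_inv_rev]
          have h10 : (L : Γ)⁻¹ * ((c y i : Subgroup.center Γ) : Γ)⁻¹ = ((c y i : Subgroup.center Γ) : Γ)⁻¹ * (L : Γ)⁻¹ := hcomm _
          rw [h10]; group
        rw [← h9]; exact h7
  refine ⟨fun y i => Additive.ofMul (c y i), fun y i => hc1 y i, ?_, ?_, ?_⟩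
  · intro j hj hjn
    obtain ⟨p1, p2, p3⟩ := htree j hj hjn
    have i5 := hc2 (lt j) (par j) p2 (by omega)
    rw [p3, h1 j hj hjn] at i5
    have h3 : ((1 : Subgroup.center Γ) : Γ)⁻¹ * (t (par j) * Y (lt j) * (t (par j) * Y (lt j))⁻¹) ∈ H1 := by simp
    have := uniq _ _ _ (hc1 (lt j) (par j)) (by simp) i5 h3
    show Additive.ofMul (c (lt j) (par j)) = 0
    rw [this]; rfl
  · intro w hw i hi z hz hev
    obtain ⟨i1, i2, i3, i4⟩ := path w hw i hi
    rw [hev] at i2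
    have h3 : lend nx w i = i := by
      rw [← i2, hz, map_one, inv_one]; rfl
    rw [h3, hev] at i4
    have h4 : t i * (z : Γ) * (t i)⁻¹ = z := by
      rw [Subgroup.mem_center_iff.1 z.2 (t i), mul_inv_cancel_right]
    rw [h4] at i4
    have h5 : (z : Γ)⁻¹ * (z : Γ) ∈ H1 := by simp
    have := uniq _ _ _ i3 hz i4 h5
    exact congrArg Additive.ofMul this
  · intro Z0 hZ1 hZ z hz hcl
    have step : ∀ y ∈ ys, ∀ s : Γ, (∃ u ∈ Z0, ∃ h ∈ H1, ∃ i, i < n ∧ s = (u : Γ) * h * t i) →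
        ∃ u ∈ Z0, ∃ h ∈ H1, ∃ i, i < n ∧ s * Y y = (u : Γ) * h * t i := by
      rintro y hy s ⟨u, hu, h, hh, i, hi, rfl⟩
      refine ⟨u * c y i, mul_mem hu (hZ y hy i hi), h * (((c y i : Subgroup.center Γ) : Γ)⁻¹ * (t i * Y y * (t (nx y i))⁻¹)),
        mul_mem hh (hc2 y i hy hi), nx y i, hnx2 y hy i hi, ?_⟩
      rw [Subgroup.coe_mul]
      have h8 := Subgroup.mem_center_iff.1 (c y i).2 h
      have : (u : Γ) * ((c y i : Subgroup.center Γ) : Γ) * (h * (((c y i : Subgroup.center Γ) : Γ)⁻¹ * (t i * Y y * (t (nx y i))⁻¹))) * t (nx y i) =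
        (u : Γ) * (((c y i : Subgroup.center Γ) : Γ) * h) * (((c y i : Subgroup.center Γ) : Γ)⁻¹ * (t i * Y y)) := by group
      rw [this, ← h8]; group
    have hn : 0 < n := by have := o.2; omega
    have all : ∀ s ∈ Subgroup.closure (Y '' {y | y ∈ ys}), ∃ u ∈ Z0, ∃ h ∈ H1, ∃ i, i < n ∧ s = (u : Γ) * h * t i := by
      intro s hs
      induction hs using Subgroup.closure_induction_right with
      | one => exact ⟨1, one_mem _, 1, one_mem _, 0, hn, by rw [h0]; simp⟩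
      | mul_right a ha x hx ih =>
        obtain ⟨y, hy, rfl⟩ := hx
        exact step y hy a ih
      | mul_inv_cancel a ha x hx ih =>
        obtain ⟨y, hy, rfl⟩ := hx
        have hp : ∀ j : ℕ, ∃ u ∈ Z0, ∃ h ∈ H1, ∃ i, i < n ∧ a * Y y ^ j = (u : Γ) * h * t i := by
          intro j
          induction j with
          | zero => rw [pow_zero, mul_one]; exact ih
          | succ j ihj => rw [pow_succ, ← mul_assoc]; exact step y hy _ ihj
        have hx1 : (Y y)⁻¹ = Y y ^ (orderOf (Y y) - 1) := by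
          have h1 : 0 < orderOf (Y y) := orderOf_pos (Y y)
          rw [inv_eq_iff_mul_eq_one, ← pow_succ', Nat.sub_add_cancel h1, pow_orderOf_eq_one]
        rw [hx1]
        exact hp _
    obtain ⟨u, hu, h, hh, i, hi, he⟩ := all _ hcl
    have h3 : i = 0 := by
      have h4 := h2 i hi
      have h5 : φ (σ (t i)) = (φ (σ h))⁻¹ := by
        have h6 := congrArg (fun g => φ (σ g)) he
        simp only [map_mul, hz, map_one] at h6
        have h7 : σ ((u : Subgroup.center Γ) : Γ) = 1 := hZ1 u hu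
        rw [h7, map_one, one_mul] at h6
        exact eq_inv_of_mul_eq_one_right h6.symm
      rw [h5, inv_inv, hC.st h hh, ho] at h4
      exact h4.symm
    subst h3
    rw [h0, mul_one] at he
    have h7 : (z : Γ) = (u : Γ) := by
      have h8 : σ h = 1 := by
        have h9 := congrArg σ he
        rw [hz, map_mul, hZ1 u hu, one_mul] at h9
        exact h9.symm
      rw [he, hC.int h hh h8, mul_one]
    rw [Subtype.ext h7]; exact hu

end

end Cfsg.Agent.H20.Lab
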