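import Cfsg.Agent.H20_LabA
import Cfsg.Agent.H8_CS

/-!
Labels of a coset graph in a central extension: packed vectors.
-/

set_option autoImplicit false

namespace Cfsg.Agent.H20.Lab

open Cfsg.Agent.H8.CE Cfsg.Agent.H8.CS

/-! ### Digits -/

/-- mask check -/
def maskOk (M w h K : ℕ) : Bool := (List.range K).all fun j => (List.range w).all fun s => Nat.blt s h || Nat.testBit M (w * j + s)

theorem digit_lt {M w h K N : ℕ} (hM : maskOk M w h K = true) (hN : Nat.land N M = 0) {j : ℕ} (hj : j < K) :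
    N / 2 ^ (w * j) % 2 ^ w < 2 ^ h := by
  apply Nat.lt_pow_two_of_testBit
  intro s hs
  rw [Nat.testBit_mod_two_pow]
  by_cases hsw : s < w
  · have h1 := List.all_eq_true.1 (List.all_eq_true.1 hM j (List.mem_range.2 hj)) s (List.mem_range.2 hsw)
    rw [Bool.or_eq_true] at h1
    have h2 : Nat.testBit M (w * j + s) = true := by
      rcases h1 with h1 | h1
      · have := blt_eq.1 h1
        omega
      · exact h1
    have h3 : Nat.testBit (N &&& M) (w * j + s) = false := by
      have : N &&& M = 0 := hN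
      rw [this, Nat.zero_testBit]
    rw [Nat.testBit_land, h2, Bool.and_true] at h3
    rw [Nat.testBit_div_two_pow, Nat.add_comm s, h3]
    simp
  · simp [hsw]

theorem sum_digits (w K : ℕ) : ∀ N, N < 2 ^ (w * K) → N = ∑ j ∈ Finset.range K, (N / 2 ^ (w * j) % 2 ^ w) * 2 ^ (w * j) := by
  induction K with
  | zero => intro N h; simp at h; simp [h]
  | succ K ih =>
    intro N h
    rw [Finset.sum_range_succ']
    have h1 : N / 2 ^ w < 2 ^ (w * K) := by
      rw [Nat.div_lt_iff_lt_mul (by positivity), ← pow_add]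
      rwa [show w * K + w = w * (K + 1) by ring]
    have h2 := ih _ h1
    have h3 : ∀ j, (N / 2 ^ (w * (j + 1)) % 2 ^ w) * 2 ^ (w * (j + 1)) = ((N / 2 ^ w) / 2 ^ (w * j) % 2 ^ w) * 2 ^ (w * j) * 2 ^ w := by
      intro j
      rw [Nat.div_div_eq_div_mul, ← pow_add, show w + w * j = w * (j + 1) by ring, mul_assoc, ← pow_add,
        show w * j + w = w * (j + 1) by ring]
    rw [Finset.sum_congr rfl fun j _ => h3 j, ← Finset.sum_mul, ← h2]
    simp only [mul_zero, pow_zero, Nat.div_one, mul_one]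
    have := Nat.div_add_mod N (2 ^ w)
    linarith

theorem digits_unique (w : ℕ) : ∀ (K : ℕ) (d e : ℕ → ℕ), (∀ j, j < K → d j < 2 ^ w) → (∀ j, j < K → e j < 2 ^ w) →
    ∑ j ∈ Finset.range K, d j * 2 ^ (w * j) = ∑ j ∈ Finset.range K, e j * 2 ^ (w * j) → ∀ j, j < K → d j = e j := by
  intro K
  induction K with
  | zero => intro d e _ _ _ j hj; exact absurd hj (Nat.not_lt_zero _)
  | succ K ih =>
    intro d e hd he h j hj
    rw [Finset.sum_range_succ', Finset.sum_range_succ'] at h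
    simp only [mul_zero, pow_zero, mul_one] at h
    have h3 : ∀ (f : ℕ → ℕ) j, f (j + 1) * 2 ^ (w * (j + 1)) = f (j + 1) * 2 ^ (w * j) * 2 ^ w := by
      intro f j
      rw [mul_assoc, ← pow_add, show w * j + w = w * (j + 1) by ring]
    rw [Finset.sum_congr rfl fun j _ => h3 d j, Finset.sum_congr rfl fun j _ => h3 e j, ← Finset.sum_mul, ← Finset.sum_mul] at h
    have h4 := congrArg (· % 2 ^ w) h
    simp only [Nat.add_comm _ (d 0), Nat.add_comm _ (e 0), Nat.add_mul_mod_self_right] at h4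
    rw [Nat.mod_eq_of_lt (hd 0 (by omega)), Nat.mod_eq_of_lt (he 0 (by omega))] at h4
    rw [h4] at h
    have h5 := Nat.eq_of_mul_eq_mul_right (by positivity) (Nat.add_right_cancel h)
    rcases j with _ | j
    · exact h4
    · exact ih (fun j => d (j + 1)) (fun j => e (j + 1)) (fun j hj => hd _ (by omega)) (fun j hj => he _ (by omega)) h5 j (by omega)

section
variable {A : Type*} [AddCommGroup A] (q : ℕ → A) (w K : ℕ)

/-- value of a packed vector -/
def vS (N : ℕ) : A := ∑ j ∈ Finset.range K, (N / 2 ^ (w * j) % 2 ^ w) • q j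

/-- representation with bounded digits -/
def Rp (D N : ℕ) (v : A) : Prop :=
  ∃ d : ℕ → ℕ, (∀ j, j < K → d j ≤ D) ∧ N = ∑ j ∈ Finset.range K, d j * 2 ^ (w * j) ∧ v = ∑ j ∈ Finset.range K, d j • q j

variable {q w K}

theorem Rp.zero (D : ℕ) : Rp q w K D 0 0 := ⟨fun _ => 0, fun _ _ => Nat.zero_le _, by simp, by simp⟩

theorem Rp.add {D D' N N' : ℕ} {v v' : A} (h : Rp q w K D N v) (h' : Rp q w K D' N' v') : Rp q w K (D + D') (N + N') (v + v') := by
  obtain ⟨d, h1, h2, h3⟩ := h
  obtain ⟨d', h1', h2', h3'⟩ := h'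
  refine ⟨fun j => d j + d' j, fun j hj => Nat.add_le_add (h1 j hj) (h1' j hj), ?_, ?_⟩
  · rw [h2, h2', ← Finset.sum_add_distrib]
    exact Finset.sum_congr rfl fun j _ => by ring
  · rw [h3, h3', ← Finset.sum_add_distrib]
    exact Finset.sum_congr rfl fun j _ => (add_smul _ _ _).symm

theorem Rp.smul {D N : ℕ} {v : A} (h : Rp q w K D N v) (u : ℕ) : Rp q w K (u * D) (u * N) (u • v) := by
  obtain ⟨d, h1, h2, h3⟩ := h
  refine ⟨fun j => u * d j, fun j hj => Nat.mul_le_mul_left _ (h1 j hj), ?_, ?_⟩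
  · rw [h2, Finset.mul_sum]
    exact Finset.sum_congr rfl fun j _ => by ring
  · rw [h3, Finset.smul_sum]
    exact Finset.sum_congr rfl fun j _ => (mul_smul _ _ _).symm

theorem Rp.mono {D D' N : ℕ} {v : A} (h : Rp q w K D N v) (hD : D ≤ D') : Rp q w K D' N v := by
  obtain ⟨d, h1, h2, h3⟩ := h
  exact ⟨d, fun j hj => (h1 j hj).trans hD, h2, h3⟩

theorem Rp.of_mask {M h N : ℕ} (hM : maskOk M w h K = true) (hN : Nat.land N M = 0) (hlt : N < 2 ^ (w * K)) :
    Rp q w K (2 ^ h - 1) N (vS q w K N) :=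
  ⟨fun j => N / 2 ^ (w * j) % 2 ^ w, fun j hj => Nat.le_sub_one_of_lt (digit_lt hM hN hj), sum_digits w K N hlt, rfl⟩

theorem Rp.zero_of {D N m h HM : ℕ} {v : A} (hr : Rp q w K D N v) (hD : D < 2 ^ w) (hM : maskOk HM w h K = true)
    (hm0 : 0 < m) (hmh : m * (2 ^ h - 1) < 2 ^ w) (h1 : Nat.mod N m = 0) (h2 : Nat.land (Nat.div N m) HM = 0)
    (hq : ∀ j, j < K → m • q j = 0) : v = 0 := by
  obtain ⟨d, e1, e2, e3⟩ := hr
  have hN : N < 2 ^ (w * K) := by
    rw [e2]
    clear e2 e3
    have : ∀ K', K' ≤ K → ∑ j ∈ Finset.range K', d j * 2 ^ (w * j) < 2 ^ (w * K') := by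
      intro K'
      induction K' with
      | zero => intro _; simp
      | succ K' ih =>
        intro hK
        rw [Finset.sum_range_succ]
        have i1 := ih (by omega)
        have i2 : d K' + 1 ≤ 2 ^ w := lt_of_le_of_lt (e1 K' (by omega)) hD
        calc ∑ j ∈ Finset.range K', d j * 2 ^ (w * j) + d K' * 2 ^ (w * K') < 2 ^ (w * K') + d K' * 2 ^ (w * K') := by omega
          _ = (d K' + 1) * 2 ^ (w * K') := by ring
          _ ≤ 2 ^ w * 2 ^ (w * K') := Nat.mul_le_mul_right _ i2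
          _ = 2 ^ (w * (K' + 1)) := by rw [← pow_add]; congr 1; ring
    exact this K le_rfl
  have h1' : N % m = 0 := h1
  obtain ⟨T, hT⟩ : ∃ T, T = N / m := ⟨_, rfl⟩
  have h3 : N = m * T := by rw [hT, Nat.mul_div_cancel' (Nat.dvd_of_mod_eq_zero h1')]
  have hTN : T < 2 ^ (w * K) := lt_of_le_of_lt (by rw [hT]; exact Nat.div_le_self _ _) hN
  have h4 := sum_digits w K T hTN
  have h2' : Nat.land T HM = 0 := by rw [hT]; exact h2
  have h5 : ∀ j, j < K → T / 2 ^ (w * j) % 2 ^ w < 2 ^ h := fun j hj => digit_lt hM h2' hj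
  have h6 : ∀ j, j < K → d j = m * (T / 2 ^ (w * j) % 2 ^ w) := by
    apply digits_unique w K
    · intro j hj; exact lt_of_le_of_lt (e1 j hj) hD
    · intro j hj
      exact lt_of_le_of_lt (Nat.mul_le_mul_left _ (Nat.le_sub_one_of_lt (h5 j hj))) hmh
    · rw [← e2, h3]
      nth_rewrite 1 [h4]
      rw [Finset.mul_sum]
      exact Finset.sum_congr rfl fun j _ => by ring
  rw [e3]
  apply Finset.sum_eq_zero
  intro j hj
  rw [h6 j (Finset.mem_range.1 hj), mul_comm, mul_smul, hq j (Finset.mem_range.1 hj), smul_zero]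

end

/-! ### Words -/

/-- a tree of words: leaves consist of the first letter, the rest of the word, the negative of the value -/
inductive WT : Type
  | lf (y : ℕ) (w : List ℕ) (nz : ℕ) : WT
  | nd (l r : WT) : WT

/-- all leaves satisfy a property -/
def WT.All (P : ℕ → List ℕ → ℕ → Prop) : WT → Prop
  | .lf y w nz => P y w nz
  | .nd l r => l.All P ∧ r.All P

/-- all leaves pass a check -/
def WT.allB (P : ℕ → List ℕ → ℕ → Bool) : WT → Bool
  | .lf y w nz => P y w nz
  | .nd l r => l.allB P && r.allB P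

theorem WT.All_of {P : ℕ → List ℕ → ℕ → Prop} {Q : ℕ → List ℕ → ℕ → Bool} (h : ∀ y w nz, Q y w nz = true → P y w nz) :
    ∀ T : WT, T.allB Q = true → T.All P
  | .lf y w nz => fun h1 => h y w nz h1
  | .nd l r => fun h1 => by
    have h2 : (l.allB Q && r.allB Q) = true := h1
    rw [Bool.and_eq_true] at h2
    exact ⟨WT.All_of h l h2.1, WT.All_of h r h2.2⟩

/-- selection of a leaf -/
noncomputable def selK (T : WT) : ℕ → (ℕ → List ℕ → ℕ → Bool) → Bool :=
  WT.rec (motive := fun _ => ℕ → (ℕ → List ℕ → ℕ → Bool) → Bool)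
    (fun y w nz _ c => c y w nz)
    (fun _ _ ihl ihr j c => N (Nat.shiftRight j (nat_lit 1)) fun j' =>
      Nat.rec (motive := fun _ => Bool) (ihl j' c) (fun _ _ => ihr j' c) (Nat.land j (nat_lit 1))) T

theorem selK_sound {P : ℕ → List ℕ → ℕ → Prop} : ∀ (T : WT) (j : ℕ) (c : ℕ → List ℕ → ℕ → Bool), T.All P →
    selK T j c = true → ∃ y w nz, P y w nz ∧ c y w nz = true
  | .lf y w nz, j, c, hT, h => ⟨y, w, nz, hT, h⟩
  | .nd l r, j, c, hT, h => by
    have h1 : (N (Nat.shiftRight j (nat_lit 1)) fun j' =>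
      Nat.rec (motive := fun _ => Bool) (selK l j' c) (fun _ _ => selK r j' c) (Nat.land j (nat_lit 1))) = true := h
    rw [N_eq] at h1
    cases hb : Nat.land j 1 with
    | zero =>
      have h2 : (Nat.rec (motive := fun _ => Bool) (selK l (Nat.shiftRight j (nat_lit 1)) c) (fun _ _ => selK r (Nat.shiftRight j (nat_lit 1)) c) (Nat.land j 1)) = true := h1
      rw [hb] at h2
      exact selK_sound l _ c hT.1 h2
    | succ b =>
      have h2 : (Nat.rec (motive := fun _ => Bool) (selK l (Nat.shiftRight j (nat_lit 1)) c) (fun _ _ => selK r (Nat.shiftRight j (nat_lit 1)) c) (Nat.land j 1)) = true := h1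
      rw [hb] at h2
      exact selK_sound r _ c hT.2 h2

end Cfsg.Agent.H20.Lab
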