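import Cfsg.Agent.H20_LabB

/-!
Labels of a coset graph in a central extension: the kernel check.
-/

set_option autoImplicit false

namespace Cfsg.Agent.H20.Lab

open Cfsg.Agent.H8.CE Cfsg.Agent.H8.CS

/-- property of all edges of a path -/
def PathAll (P : ℕ → ℕ → Prop) (nx : ℕ → ℕ → ℕ) : List ℕ → ℕ → Prop
  | [], _ => True
  | y :: w, p => P y p ∧ PathAll P nx w (nx y p)

/-- chunked tables: chunks of 128 entries -/
inductive CT : Type
  | lf (T : ℕ) : CT
  | nd (l r : CT) : CT

/-- selection of a chunk -/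
noncomputable def ctG (C : CT) : ℕ → ℕ :=
  CT.rec (motive := fun _ => ℕ → ℕ) (fun T _ => T)
    (fun _ _ ihl ihr j => N (Nat.shiftRight j (nat_lit 1)) fun j' =>
      Nat.rec (motive := fun _ => ℕ) (ihl j') (fun _ _ => ihr j') (Nat.land j (nat_lit 1))) C

section
variable (E EM KM kb RM s1 CM s2 : ℕ)

/-- entry of a packed table -/
noncomputable def ent (T : CT) (p : ℕ) : ℕ :=
  Nat.land (Nat.shiftRight (ctG T (Nat.shiftRight p (nat_lit 7))) (Nat.mul E (Nat.land p (nat_lit 127)))) EM

variable (tf : ℕ → CT)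

/-- next point -/
noncomputable def nxf (y p : ℕ) : ℕ := Nat.land (ent E EM (tf y) p) KM
/-- rank -/
noncomputable def rkf (y p : ℕ) : ℕ := Nat.land (Nat.shiftRight (ent E EM (tf y) p) kb) RM
/-- label -/
noncomputable def lbf (y p : ℕ) : ℕ := Nat.shiftRight (ent E EM (tf y) p) s2

/-- walk along a word -/
noncomputable def walkK (r : ℕ) (w : List ℕ) : ℕ → ℕ → (ℕ → Bool) → Bool :=
  List.rec (motive := fun _ => ℕ → ℕ → (ℕ → Bool) → Bool) (fun _ acc c => c acc)
    (fun y _ ih p acc c => N (ent E EM (tf y) p) fun e =>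
      Bool.rec (motive := fun _ => Bool) false (N (Nat.land e KM) fun q => N (Nat.add acc (Nat.shiftRight e s2)) fun a => ih q a c)
        (Nat.blt (Nat.land (Nat.shiftRight e kb) RM) r)) w

theorem walkK_sound (r : ℕ) (w : List ℕ) : ∀ (p acc : ℕ) (c : ℕ → Bool), walkK E EM KM kb RM s2 tf r w p acc c = true →
    PathAll (fun y p => rkf E EM kb RM tf y p < r) (nxf E EM KM tf) w p ∧
      c (acc + lsum (lbf E EM s2 tf) (nxf E EM KM tf) w p) = true := by
  induction w with
  | nil => intro p acc c h; exact ⟨trivial, h⟩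
  | cons y w ih =>
    intro p acc c h
    have h1 : (N (ent E EM (tf y) p) fun e =>
      Bool.rec (motive := fun _ => Bool) false (N (Nat.land e KM) fun q => N (Nat.add acc (Nat.shiftRight e s2)) fun a =>
        walkK E EM KM kb RM s2 tf r w q a c) (Nat.blt (Nat.land (Nat.shiftRight e kb) RM) r)) = true := h
    rw [N_eq] at h1
    cases hb : Nat.blt (Nat.land (Nat.shiftRight (ent E EM (tf y) p) kb) RM) r
    · rw [hb] at h1; exact absurd h1 (by simp)
    rw [hb] at h1
    have h2 : (N (Nat.land (ent E EM (tf y) p) KM) fun q => N (Nat.add acc (Nat.shiftRight (ent E EM (tf y) p) s2)) fun a =>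
        walkK E EM KM kb RM s2 tf r w q a c) = true := h1
    rw [N_eq, N_eq] at h2
    obtain ⟨h3, h4⟩ := ih _ _ _ h2
    refine ⟨⟨blt_eq.1 hb, h3⟩, ?_⟩
    have h5 : acc + lsum (lbf E EM s2 tf) (nxf E EM KM tf) (y :: w) p =
        Nat.add acc (Nat.shiftRight (ent E EM (tf y) p) s2) + lsum (lbf E EM s2 tf) (nxf E EM KM tf) w (Nat.land (ent E EM (tf y) p) KM) := by
      show acc + (_ + _) = acc + _ + _
      rw [← Nat.add_assoc]; rfl
    rw [h5]; exact h4

variable (m HM DM : ℕ)

/-- zero check -/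
noncomputable def zchk (a : ℕ) : Bool :=
  Bool.rec (motive := fun _ => Bool) false (Nat.beq (Nat.land (Nat.div a m) HM) (nat_lit 0)) (Nat.beq (Nat.mod a m) (nat_lit 0))

theorem zchk_sound {a : ℕ} (h : zchk m HM a = true) : Nat.mod a m = 0 ∧ Nat.land (Nat.div a m) HM = 0 := by
  unfold zchk at h
  cases hb : Nat.beq (Nat.mod a m) (nat_lit 0)
  · rw [hb] at h; exact absurd h (by simp)
  rw [hb] at h
  exact ⟨Nat.eq_of_beq_eq_true hb, Nat.eq_of_beq_eq_true h⟩

/-- search in the parameter list -/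
noncomputable def prmK (prm : List (ℕ × ℕ)) (key l : ℕ) : Bool :=
  List.rec (motive := fun _ => Bool) false
    (fun kl _ ih => Bool.rec (motive := fun _ => Bool) ih (Bool.rec (motive := fun _ => Bool) ih true (Nat.beq kl.2 l)) (Nat.beq kl.1 key)) prm

theorem prmK_sound {prm : List (ℕ × ℕ)} {key l : ℕ} (h : prmK prm key l = true) : (key, l) ∈ prm := by
  induction prm with
  | nil => exact absurd h (by simp [prmK])
  | cons kl prm ih =>
    have h1 : (Bool.rec (motive := fun _ => Bool) (prmK prm key l) (Bool.rec (motive := fun _ => Bool) (prmK prm key l) true (Nat.beq kl.2 l)) (Nat.beq kl.1 key)) = true := h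
    cases hb : Nat.beq kl.1 key
    · rw [hb] at h1; exact List.mem_cons_of_mem _ (ih h1)
    rw [hb] at h1
    cases hb2 : Nat.beq kl.2 l
    · have h2 : (Bool.rec (motive := fun _ => Bool) (prmK prm key l) true (Nat.beq kl.2 l)) = true := h1
      rw [hb2] at h2
      exact List.mem_cons_of_mem _ (ih h2)
    · have e1 := Nat.eq_of_beq_eq_true hb
      have e2 := Nat.eq_of_beq_eq_true hb2
      rw [← e1, ← e2]
      exact List.mem_cons_self

variable (pb PM PT : ℕ) (prm : List (ℕ × ℕ)) (T : WT)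

/-- tree entry -/
noncomputable def ptr (j : ℕ) : ℕ := Nat.land (Nat.shiftRight PT (Nat.mul pb j)) PM

/-- check of an edge -/
noncomputable def edgeK (y i : ℕ) : Bool :=
  N (ent E EM (tf y) i) fun e => N (Nat.land (Nat.shiftRight e kb) RM) fun r => N (Nat.shiftRight e s2) fun l =>
    Bool.rec (motive := fun _ => Bool) false
      (Nat.rec (motive := fun _ => Bool)
        (Bool.rec (motive := fun _ => Bool) false
          (N (Nat.land e KM) fun q => Bool.rec (motive := fun _ => Bool) false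
            (Nat.beq (ptr pb PM PT q) (Nat.add (Nat.mul i (nat_lit 16)) y)) (Nat.blt (nat_lit 0) q)) (Nat.beq l (nat_lit 0)))
        (fun j1 _ => Nat.rec (motive := fun _ => Bool)
          (prmK prm (Nat.add (Nat.mul i (nat_lit 16)) y) l)
          (fun j _ => selK T j fun y0 w nz => Bool.rec (motive := fun _ => Bool) false
            (walkK E EM KM kb RM s2 tf r w (Nat.land e KM) (Nat.add l nz) fun a => zchk m HM a) (Nat.beq y0 y)) j1)
        (Nat.land (Nat.shiftRight e s1) CM))
      (Nat.beq (Nat.land l DM) (nat_lit 0))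

end

section
variable {E EM KM kb RM s1 CM s2 : ℕ} {tf : ℕ → CT} {m HM DM pb PM PT : ℕ} {prm : List (ℕ × ℕ)} {T : WT}
variable {A : Type*} [AddCommGroup A] {q : ℕ → A} {w K h h' n : ℕ} {c : ℕ → ℕ → A} {ys : List ℕ}

theorem lbf_lt (hE : EM < 2 ^ (s2 + w * K)) (y i : ℕ) : lbf E EM s2 tf y i < 2 ^ (w * K) := by
  have h1 : ent E EM (tf y) i ≤ EM := Nat.and_le_right
  have h2 : lbf E EM s2 tf y i = ent E EM (tf y) i / 2 ^ s2 := Nat.shiftRight_eq_div_pow _ _
  rw [h2, Nat.div_lt_iff_lt_mul (by positivity), ← pow_add]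
  rw [Nat.add_comm (w * K)]
  omega

theorem path_sum (hnx : ∀ y ∈ ys, ∀ i, i < n → nxf E EM KM tf y i < n) {D : ℕ} {P : ℕ → ℕ → Prop}
    (hP : ∀ y ∈ ys, ∀ i, i < n → P y i → ∃ v, c y i = v ∧ Rp q w K D (lbf E EM s2 tf y i) v) :
    ∀ (wd : List ℕ), (∀ y ∈ wd, y ∈ ys) → ∀ i, i < n → PathAll P (nxf E EM KM tf) wd i →
      Rp q w K (wd.length * D) (lsum (lbf E EM s2 tf) (nxf E EM KM tf) wd i) (lsum c (nxf E EM KM tf) wd i) := by
  intro wd
  induction wd with
  | nil => intro _ i _ _; simpa [lsum] using Rp.zero 0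
  | cons y wd ih =>
    intro hy i hi hp
    have hy0 := hy y List.mem_cons_self
    obtain ⟨v, hv, hr⟩ := hP y hy0 i hi hp.1
    have h2 := ih (fun y' h' => hy y' (List.mem_cons_of_mem _ h')) _ (hnx y hy0 i hi) hp.2
    have h3 := hr.add h2
    rw [List.length_cons]
    show Rp q w K ((wd.length + 1) * D) (_ + _) (c y i + _)
    rw [hv]
    exact h3.mono (by ring_nf; rfl)

/-- the labels are given by the table -/
theorem labels_eq {Lmax : ℕ} (hE : EM < 2 ^ (s2 + w * K)) (hDM : maskOk DM w h K = true) (hHM : maskOk HM w h' K = true)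
    (hm0 : 0 < m) (hmh : m * (2 ^ h' - 1) < 2 ^ w) (hL : (Lmax + 2) * (2 ^ h - 1) < 2 ^ w)
    (hq : ∀ j, j < K → m • q j = 0)
    (hnx : ∀ y ∈ ys, ∀ i, i < n → nxf E EM KM tf y i < n)
    (hys : ∀ y ∈ ys, y < 16)
    (htree : ∀ j, 0 < j → j < n → c (ptr pb PM PT j % 16) (ptr pb PM PT j / 16) = 0)
    (hprm : ∀ kl ∈ prm, c (kl.1 % 16) (kl.1 / 16) = vS q w K kl.2)
    (hW : T.All (fun y wd nz => (∀ y' ∈ wd, y' ∈ ys) ∧ wd.length ≤ Lmax ∧ Rp q w K (2 ^ h - 1) nz (vS q w K nz) ∧
      ∀ i, i < n → c y i + lsum c (nxf E EM KM tf) wd (nxf E EM KM tf y i) + vS q w K nz = 0))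
    (hk : ∀ y ∈ ys, ∀ i, i < n → edgeK E EM KM kb RM s1 CM s2 tf m HM DM pb PM PT prm T y i = true) :
    ∀ y ∈ ys, ∀ i, i < n → c y i = vS q w K (lbf E EM s2 tf y i) ∧ Rp q w K (2 ^ h - 1) (lbf E EM s2 tf y i) (vS q w K (lbf E EM s2 tf y i)) := by
  have key : ∀ r, ∀ y ∈ ys, ∀ i, i < n → rkf E EM kb RM tf y i = r →
      c y i = vS q w K (lbf E EM s2 tf y i) ∧ Rp q w K (2 ^ h - 1) (lbf E EM s2 tf y i) (vS q w K (lbf E EM s2 tf y i)) := by
    intro r
    induction r using Nat.strong_induction_on with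
    | _ r ih =>
      intro y hy i hi hr
      have hk1 := hk y hy i hi
      unfold edgeK at hk1
      rw [N_eq, N_eq, N_eq] at hk1
      cases hb : Nat.beq (Nat.land (Nat.shiftRight (ent E EM (tf y) i) s2) DM) (nat_lit 0)
      · rw [hb] at hk1; exact absurd hk1 (by simp)
      rw [hb] at hk1
      have hdig : Nat.land (lbf E EM s2 tf y i) DM = 0 := Nat.eq_of_beq_eq_true hb
      have hRp : Rp q w K (2 ^ h - 1) (lbf E EM s2 tf y i) (vS q w K (lbf E EM s2 tf y i)) :=
        Rp.of_mask hDM hdig (lbf_lt hE y i)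
      refine ⟨?_, hRp⟩
      cases hc : Nat.land (Nat.shiftRight (ent E EM (tf y) i) s1) CM with
      | zero =>
        rw [hc] at hk1
        have h1 : (Bool.rec (motive := fun _ => Bool) false
          (N (Nat.land (ent E EM (tf y) i) KM) fun q => Bool.rec (motive := fun _ => Bool) false
            (Nat.beq (ptr pb PM PT q) (Nat.add (Nat.mul i (nat_lit 16)) y)) (Nat.blt (nat_lit 0) q))
            (Nat.beq (Nat.shiftRight (ent E EM (tf y) i) s2) (nat_lit 0))) = true := hk1
        cases hl : Nat.beq (Nat.shiftRight (ent E EM (tf y) i) s2) (nat_lit 0)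
        · rw [hl] at h1; exact absurd h1 (by simp)
        rw [hl] at h1
        have h2 : (N (Nat.land (ent E EM (tf y) i) KM) fun q => Bool.rec (motive := fun _ => Bool) false
            (Nat.beq (ptr pb PM PT q) (Nat.add (Nat.mul i (nat_lit 16)) y)) (Nat.blt (nat_lit 0) q)) = true := h1
        rw [N_eq] at h2
        cases hz : Nat.blt (nat_lit 0) (Nat.land (ent E EM (tf y) i) KM)
        · rw [hz] at h2; exact absurd h2 (by simp)
        rw [hz] at h2
        have h3 : ptr pb PM PT (nxf E EM KM tf y i) = i * 16 + y := Nat.eq_of_beq_eq_true h2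
        have h4 : 0 < nxf E EM KM tf y i := blt_eq.1 hz
        have h5 := htree _ h4 (hnx y hy i hi)
        have hy16 := hys y hy
        rw [h3] at h5
        have e1 : (i * 16 + y) % 16 = y := by omega
        have e2 : (i * 16 + y) / 16 = i := by omega
        rw [e1, e2] at h5
        have h6 : lbf E EM s2 tf y i = 0 := Nat.eq_of_beq_eq_true hl
        rw [h5, h6]
        simp [vS]
      | succ j1 =>
        rw [hc] at hk1
        have h1 : (Nat.rec (motive := fun _ => Bool)
          (prmK prm (Nat.add (Nat.mul i (nat_lit 16)) y) (Nat.shiftRight (ent E EM (tf y) i) s2))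
          (fun j _ => selK T j fun y0 w nz => Bool.rec (motive := fun _ => Bool) false
            (walkK E EM KM kb RM s2 tf (Nat.land (Nat.shiftRight (ent E EM (tf y) i) kb) RM) w (Nat.land (ent E EM (tf y) i) KM)
              (Nat.add (Nat.shiftRight (ent E EM (tf y) i) s2) nz) fun a => zchk m HM a) (Nat.beq y0 y)) j1) = true := hk1
        cases j1 with
        | zero =>
          have h2 := prmK_sound (prm := prm) (key := i * 16 + y) (l := lbf E EM s2 tf y i) h1
          have h3 := hprm _ h2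
          have hy16 := hys y hy
          simp only at h3
          have e1 : (i * 16 + y) % 16 = y := by omega
          have e2 : (i * 16 + y) / 16 = i := by omega
          rw [e1, e2] at h3
          exact h3
        | succ j =>
          have h2 : (selK T j fun y0 w nz => Bool.rec (motive := fun _ => Bool) false
            (walkK E EM KM kb RM s2 tf (Nat.land (Nat.shiftRight (ent E EM (tf y) i) kb) RM) w (Nat.land (ent E EM (tf y) i) KM)
              (Nat.add (Nat.shiftRight (ent E EM (tf y) i) s2) nz) fun a => zchk m HM a) (Nat.beq y0 y)) = true := h1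
          obtain ⟨y0, wd, nz, ⟨w1, w2, w3, w4⟩, h3⟩ := selK_sound T j _ hW h2
          cases hb0 : Nat.beq y0 y
          · simp only [hb0] at h3; exact absurd h3 (by simp)
          simp only [hb0] at h3
          have hy0 : y0 = y := Nat.eq_of_beq_eq_true hb0
          subst hy0
          obtain ⟨h4, h5⟩ := walkK_sound E EM KM kb RM s2 tf _ wd _ _ _ h3
          have h6 := path_sum (q := q) (w := w) (K := K) (c := c) (ys := ys) (n := n) (D := 2 ^ h - 1) hnx
            (P := fun y p => rkf E EM kb RM tf y p < rkf E EM kb RM tf y0 i)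
            (fun y' hy' i' hi' hp => by
              obtain ⟨a1, a2⟩ := ih _ (by rw [← hr]; exact hp) y' hy' i' hi' rfl
              exact ⟨_, a1, a2⟩) wd w1 _ (hnx y0 hy i hi) h4
          obtain ⟨z1, z2⟩ := zchk_sound m HM h5
          have h7 := (hRp.add w3).add h6
          have h8 := h7.zero_of (m := m) (h := h') (HM := HM) (by
            refine lt_of_le_of_lt ?_ hL
            have : wd.length * (2 ^ h - 1) ≤ Lmax * (2 ^ h - 1) := Nat.mul_le_mul_right _ w2
            calc (2 ^ h - 1) + (2 ^ h - 1) + wd.length * (2 ^ h - 1) ≤ (2 ^ h - 1) + (2 ^ h - 1) + Lmax * (2 ^ h - 1) := by omega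
              _ = (Lmax + 2) * (2 ^ h - 1) := by ring) hHM hm0 hmh z1 z2 hq
          have h9 := w4 i hi
          have h10 : c y0 i + (lsum c (nxf E EM KM tf) wd (nxf E EM KM tf y0 i) + vS q w K nz) = 0 := by
            rw [← add_assoc]; exact h9
          have h11 : vS q w K (lbf E EM s2 tf y0 i) + (lsum c (nxf E EM KM tf) wd (nxf E EM KM tf y0 i) + vS q w K nz) = 0 := by
            rw [← h8]; abel
          exact add_right_cancel (h10.trans h11.symm)
  intro y hy i hi
  exact key _ y hy i hi rfl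

end

end Cfsg.Agent.H20.Lab
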