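import Cfsg.Agent.H20_LabD
import Cfsg.Agent.H20_PT

/-!
Labels of a coset graph in a central extension: link with permutation networks.
-/

set_option autoImplicit false

namespace Cfsg.Agent.H20.Lab

open Cfsg.Agent.H8.CE Cfsg.Agent.H8.CS Cfsg.Agent.H8.Net Cfsg.Agent.H8.Act Cfsg.Agent.H20.PT

/-- comparison of a network with the next point entries of a table -/
noncomputable def chkNx (nt : Nt) (t : CT) (n k E EM KM kk : ℕ) : Bool :=
  plK nt n k k [] fun Ws => rangeS n (fun p => compK p Ws (nat_lit 0) fun v => Nat.beq v (Nat.land (ent E EM t p) KM)) kk (nat_lit 0)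

theorem chkNx_sound {nt : Nt} (hok : nt.Ok) {t : CT} {n k E EM KM kk : ℕ} (hn : n ≤ 2 ^ k) (hpos : ∀ p, p < n → nt.pos p < n)
    (hkk : n ≤ 2 ^ kk) (h : chkNx nt t n k E EM KM kk = true) (p : ℕ) (hp : p < n) : Nat.land (ent E EM t p) KM = nt.pos p := by
  unfold chkNx at h
  rw [plK_eq] at h
  have h1 := rangeS_sound n _ kk _ h p (Nat.zero_le _) (by
    have : (nat_lit 0 : ℕ) = 0 := rfl
    omega) hp
  rw [compK_eq] at h1
  have h2 := Nat.eq_of_beq_eq_true h1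
  rw [compP_spec hok hn p (hpos p hp)] at h2
  have h3 : nt.pos p % 2 ^ k = nt.pos p := Nat.mod_eq_of_lt (lt_of_lt_of_le (hpos p hp) hn)
  rw [h3] at h2
  have h4 : (nat_lit 0 : ℕ) * 2 ^ k + nt.pos p = nt.pos p := by
    have : (nat_lit 0 : ℕ) = 0 := rfl
    rw [this]; ring
  rw [← h2, h4]

/-- from compatibility with networks -/
theorem nx_of_net {G Γ : Type*} [Group G] [Group Γ] {n k : ℕ} {L : List Nt} {φ : G →* Equiv.Perm (Fin n)} {X : ℕ → G}
    (hs : sysOk L n = true) (hn : n ≤ 2 ^ k) (hc : Compat φ X L) {σ : Γ →* G} {Y : ℕ → Γ} {E EM KM : ℕ} {tf : ℕ → CT} {y : ℕ}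
    (hy : y < 16) (hY : σ (Y y) = X y) (h : chkNx (net L y) (tf y) n k E EM KM k = true) (i : Fin n) :
    ((((φ (σ (Y y)))⁻¹ : Equiv.Perm (Fin n)) i : Fin n) : ℕ) = nxf E EM KM tf y i := by
  rw [hY, hc y hy i]
  exact (chkNx_sound (net_mem hs y).1 hn (fun p hp => ((net_mem hs y).2 p).2 hp) hn h i i.2).symm

/-- rank bound -/
theorem rkf_lt {E EM kb RM : ℕ} {tf : ℕ → CT} (y p : ℕ) : rkf E EM kb RM tf y p < Nat.succ RM :=
  Nat.lt_succ_of_le Nat.and_le_right

end Cfsg.Agent.H20.Lab
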