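import Cfsg.Prelude.Def_KGroupFacts
import Mathlib

/-!
Lower bounds for the Schur multiplier of a presented group from a monomial representation.
-/

set_option autoImplicit false

namespace Cfsg.Agent.H20.Low

open Cfsg
open scoped commutatorElement

section
variable {α : Type} {R : Set (FreeGroup α)} {Q : Type} [Group Q] (F : α → Q)

/-- both maps -/
def both (R : Set (FreeGroup α)) : FreeGroup α →* Q × PresentedGroup R := (FreeGroup.lift F).prod (PresentedGroup.mk R)

theorem comm_all {z : Q} (hz : ∀ g, z * F g = F g * z) (w : FreeGroup α) : z * FreeGroup.lift F w = FreeGroup.lift F w * z := by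
  have h : (FreeGroup.lift F).range ≤ Subgroup.centralizer {z} := by
    rw [FreeGroup.range_lift_eq_closure, Subgroup.closure_le]
    rintro _ ⟨g, rfl⟩
    rw [SetLike.mem_coe, Subgroup.mem_centralizer_singleton_iff]
    exact (hz g).symm
  exact ((Subgroup.mem_centralizer_singleton_iff).1 (h ⟨w, rfl⟩)).symm

theorem mem_z {z : Q} (hz : ∀ g, z * F g = F g * z) (hR : ∀ r ∈ R, FreeGroup.lift F r ∈ Subgroup.zpowers z) {w : FreeGroup α}
    (hw : PresentedGroup.mk R w = 1) : FreeGroup.lift F w ∈ Subgroup.zpowers z := by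
  have hc := comm_all F hz
  have hn : ((Subgroup.zpowers z).comap (FreeGroup.lift F)).Normal := by
    constructor
    intro n hn g
    obtain ⟨k, hk⟩ := Subgroup.mem_zpowers_iff.1 (Subgroup.mem_comap.1 hn)
    rw [Subgroup.mem_comap, Subgroup.mem_zpowers_iff]
    refine ⟨k, ?_⟩
    rw [map_mul, map_mul, map_inv, ← hk]
    have h1 : Commute z (FreeGroup.lift F g) := hc g
    rw [← (h1.zpow_left k).eq, mul_inv_cancel_right]
  have h1 : w ∈ Subgroup.normalClosure R := PresentedGroup.mk_eq_one_iff.1 hw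
  exact (Subgroup.normalClosure_le_normal (N := (Subgroup.zpowers z).comap (FreeGroup.lift F)) (fun r hr => hR r hr)) h1

/-- the stem extension -/
theorem lower [Finite Q] [Finite (PresentedGroup R)] {z : Q} (hz : ∀ g, z * F g = F g * z)
    (hR : ∀ r ∈ R, FreeGroup.lift F r ∈ Subgroup.zpowers z) {m : ℕ} (hm : orderOf z = m)
    {w0 : FreeGroup α} (h1 : w0 ∈ commutator (FreeGroup α)) (h2 : PresentedGroup.mk R w0 = 1) (h3 : FreeGroup.lift F w0 = z) :
    ∃ (Γ : Type) (_ : Group Γ) (_ : Finite Γ) (σ : Γ →* PresentedGroup R), IsStemExtension σ ∧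
      Nonempty (σ.ker ≃* Multiplicative (ZMod m)) := by
  have hc := comm_all F hz
  let Γ := (both F R).range
  let σ : Γ →* PresentedGroup R := (MonoidHom.snd Q (PresentedGroup R)).comp Γ.subtype
  have hz1 : ((z, 1) : Q × PresentedGroup R) ∈ Γ := ⟨w0, by
    show (FreeGroup.lift F w0, PresentedGroup.mk R w0) = _
    rw [h2, h3]⟩
  have hker : ∀ g : Γ, σ g = 1 → ∃ k : ℤ, g = (⟨(z, 1), hz1⟩ : Γ) ^ k := by
    rintro ⟨_, w, rfl⟩ hg
    have hw : PresentedGroup.mk R w = 1 := hg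
    obtain ⟨k, hk⟩ := Subgroup.mem_zpowers_iff.1 (mem_z F hz hR hw)
    refine ⟨k, Subtype.ext ?_⟩
    rw [Subgroup.coe_zpow]
    show (FreeGroup.lift F w, PresentedGroup.mk R w) = ((z, 1) : Q × PresentedGroup R) ^ k
    rw [hw, ← hk]
    apply Prod.ext
    · rfl
    · show (1 : PresentedGroup R) = 1 ^ k
      rw [one_zpow]
  have hzc : (⟨(z, 1), hz1⟩ : Γ) ∈ Subgroup.center Γ := by
    rw [Subgroup.mem_center_iff]
    rintro ⟨_, w, rfl⟩
    apply Subtype.ext
    show (FreeGroup.lift F w, PresentedGroup.mk R w) * ((z, 1) : Q × PresentedGroup R) = (z, 1) * (FreeGroup.lift F w, PresentedGroup.mk R w)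
    rw [Prod.mk_mul_mk, Prod.mk_mul_mk, hc w, mul_one, one_mul]
  have hzd : (⟨(z, 1), hz1⟩ : Γ) ∈ commutator Γ := by
    have h4 : (both F R).rangeRestrict w0 ∈ (commutator (FreeGroup α)).map (both F R).rangeRestrict := ⟨w0, h1, rfl⟩
    rw [commutator_def, Subgroup.map_commutator] at h4
    have h5 := (Subgroup.commutator_mono le_top le_top : _ ≤ ⁅(⊤ : Subgroup Γ), ⊤⁆) h4
    rw [commutator_def]
    convert h5 using 1
    apply Subtype.ext
    show ((z, 1) : Q × PresentedGroup R) = (FreeGroup.lift F w0, PresentedGroup.mk R w0)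
    rw [h2, h3]
  refine ⟨Γ, inferInstance, inferInstance, σ, ⟨?_, ?_, ?_⟩, ?_⟩
  · intro p
    obtain ⟨w, rfl⟩ : ∃ w, PresentedGroup.mk R w = p := PresentedGroup.mk_surjective R p
    exact ⟨⟨_, w, rfl⟩, rfl⟩
  · intro g hg
    obtain ⟨k, rfl⟩ := hker g hg
    exact Subgroup.zpow_mem _ hzc k
  · intro g hg
    obtain ⟨k, rfl⟩ := hker g hg
    exact Subgroup.zpow_mem _ hzd k
  · have hzk : (⟨(z, 1), hz1⟩ : Γ) ∈ σ.ker := rfl
    have hgen : ∀ g : σ.ker, g ∈ Subgroup.zpowers (⟨⟨(z, 1), hz1⟩, hzk⟩ : σ.ker) := by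
      rintro ⟨g, hg⟩
      obtain ⟨k, rfl⟩ := hker g hg
      exact ⟨k, rfl⟩
    haveI : IsCyclic σ.ker := ⟨_, hgen⟩
    have hcard : Nat.card σ.ker = m := by
      rw [← orderOf_eq_card_of_forall_mem_zpowers hgen, ← hm]
      have e1 : orderOf (⟨⟨(z, 1), hz1⟩, hzk⟩ : σ.ker) = orderOf ((z, 1) : Q × PresentedGroup R) := by
        rw [← Subgroup.orderOf_coe, ← Subgroup.orderOf_coe]
      rw [e1, Prod.orderOf, orderOf_one, Nat.lcm_one_right]
    haveI : IsCyclic (Multiplicative (ZMod m)) := inferInstance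
    exact ⟨mulEquivOfCyclicCardEq (by rw [hcard]; exact (Nat.card_zmod m).symm)⟩

end

/-- transport along an isomorphism -/
theorem transport_low {J G A : Type} [Group J] [Group G] [CommGroup A] (e : J ≃* G)
    (h : ∃ (Γ : Type) (_ : Group Γ) (_ : Finite Γ) (σ : Γ →* J), IsStemExtension σ ∧ Nonempty (σ.ker ≃* A)) :
    ∃ (Γ : Type) (_ : Group Γ) (_ : Finite Γ) (σ : Γ →* G), IsStemExtension σ ∧ Nonempty (σ.ker ≃* A) := by
  obtain ⟨Γ, i1, i2, σ, hσ, ⟨f⟩⟩ := h
  have hk : (e.toMonoidHom.comp σ).ker = σ.ker := by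
    ext g
    simp only [MonoidHom.mem_ker, MonoidHom.comp_apply]
    exact e.map_eq_one_iff
  refine ⟨Γ, i1, i2, e.toMonoidHom.comp σ, ⟨e.surjective.comp hσ.1, hk.le.trans hσ.2.1, hk.le.trans hσ.2.2⟩, ?_⟩
  rw [hk]
  exact ⟨f⟩

universe u v w

theorem transport_up {J : Type v} {G : Type w} {A : Type*} [Group J] [Group G] [CommGroup A] (e : J ≃* G)
    (h : ∀ (Γ : Type u) [Group Γ] [Finite Γ] (σ : Γ →* J), IsStemExtension σ → ∃ π : A →* σ.ker, Function.Surjective π)
    (Γ : Type u) [Group Γ] [Finite Γ] (σ : Γ →* G) (hσ : IsStemExtension σ) : ∃ π : A →* σ.ker, Function.Surjective π := by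
  have hk : (e.symm.toMonoidHom.comp σ).ker = σ.ker := by
    ext g
    simp only [MonoidHom.mem_ker, MonoidHom.comp_apply]
    exact e.symm.map_eq_one_iff
  have h1 := h Γ (e.symm.toMonoidHom.comp σ) ⟨e.symm.surjective.comp hσ.1, hk.le.trans hσ.2.1, hk.le.trans hσ.2.2⟩
  rw [hk] at h1
  exact h1

end Cfsg.Agent.H20.Low
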