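import Cfsg.Agent.H20_Low
import Cfsg.Agent.H20_PG
import Cfsg.Agent.H20_LabF

/-!
Lower bounds for the Schur multiplier: monomial representations given by nets.
Letters 1 to 7 as in H20_PG, 8 is the scalar, 10 is the inverse of letter 1.
-/

set_option autoImplicit false
set_option maxRecDepth 100000

namespace Cfsg.Agent.H20.Low2

open Cfsg Cfsg.Agent.H8 Cfsg.Agent.H8.CE Cfsg.Agent.H8.Net Cfsg.Agent.H8.Act Cfsg.Agent.H8.Cox Cfsg.Agent.H8.Act2
open Cfsg.Agent.H20.PG Cfsg.Agent.H20.Low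

/-- inverse letters: 1 and 10, 2 and 3, 4 and 5, 6 and 7, 8 and 9 -/
def icL : ℕ := 0x189674523a0

theorem ev_comm {C : Type*} [CommGroup C] (Z : ℕ → C) : ∀ w : List ℕ, (∀ y ∈ w, y ∈ ([1, 2, 3] : List ℕ)) →
    ev Z w = Z 1 ^ w.count 1 * Z 2 ^ w.count 2 * Z 3 ^ w.count 3
  | [], _ => by simp
  | y :: w, h => by
    rw [ev_cons, ev_comm Z w fun y hy => h y (List.mem_cons_of_mem _ hy)]
    have h1 := h y List.mem_cons_self
    simp only [List.mem_cons, List.not_mem_nil, or_false] at h1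
    rcases h1 with rfl | rfl | rfl
    · rw [List.count_cons_self, List.count_cons_of_ne (by norm_num), List.count_cons_of_ne (by norm_num), pow_succ]
      simp only [mul_assoc, mul_comm, mul_left_comm]
    · rw [List.count_cons_self, List.count_cons_of_ne (by norm_num), List.count_cons_of_ne (by norm_num), pow_succ]
      simp only [mul_assoc, mul_comm, mul_left_comm]
    · rw [List.count_cons_self, List.count_cons_of_ne (by norm_num), List.count_cons_of_ne (by norm_num), pow_succ]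
      simp only [mul_assoc, mul_comm, mul_left_comm]

/-- a word with exponent sums zero -/
def w0 (w : List ℕ) : FreeGroup Gen :=
  ev f3 w * (FreeGroup.of .a ^ w.count 1)⁻¹ * (FreeGroup.of .b ^ w.count 2)⁻¹ * FreeGroup.of .b ^ w.count 3

theorem w0_comm (w : List ℕ) (hw : ∀ y ∈ w, y ∈ ([1, 2, 3] : List ℕ)) : w0 w ∈ commutator (FreeGroup Gen) := by
  refine (QuotientGroup.eq_one_iff (w0 w)).1 ?_
  have h1 : ∀ w : List ℕ, Abelianization.of (ev f3 w) = ev (fun y => Abelianization.of (f3 y)) w := by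
    intro w
    induction w with
    | nil => simp
    | cons y w ih => rw [ev_cons, ev_cons, map_mul, ih]
  show Abelianization.of (w0 w) = 1
  unfold w0
  rw [map_mul, map_mul, map_mul, h1, ev_comm _ w hw, map_inv, map_inv, map_pow, map_pow, map_pow]
  have e1 : f3 1 = FreeGroup.of .a := by simp [f3]
  have e2 : f3 2 = FreeGroup.of .b := by simp [f3]
  have e3 : f3 3 = (FreeGroup.of .b)⁻¹ := by simp [f3]
  rw [e1, e2, e3, map_inv]
  generalize Abelianization.of (FreeGroup.of Gen.a) = A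
  generalize Abelianization.of (FreeGroup.of Gen.b) = B
  rw [inv_pow]
  have : A ^ w.count 1 * B ^ w.count 2 * (B ^ w.count 3)⁻¹ * (A ^ w.count 1)⁻¹ * (B ^ w.count 2)⁻¹ * B ^ w.count 3 =
      (A ^ w.count 1 * (A ^ w.count 1)⁻¹) * (B ^ w.count 2 * (B ^ w.count 2)⁻¹) * (B ^ w.count 3 * (B ^ w.count 3)⁻¹) := by
    simp only [mul_assoc, mul_comm, mul_left_comm]
  rw [this, mul_inv_cancel, mul_inv_cancel, mul_inv_cancel, one_mul, one_mul]

theorem lift_w0 {K : Type*} [Group K] (f : Gen → K) (w : List ℕ) (wc wd : List ℕ) (hw : ∀ y ∈ w, y ∈ ([1, 2, 3] : List ℕ)) :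
    FreeGroup.lift f (w0 w) = ev (xL f wc wd) w * (f .a ^ w.count 1)⁻¹ * (f .b ^ w.count 2)⁻¹ * f .b ^ w.count 3 := by
  unfold w0
  rw [map_mul, map_mul, map_mul, map_inv, map_inv, map_pow, map_pow, map_pow, FreeGroup.lift_apply_of,
    FreeGroup.lift_apply_of, lift_ev, ev_congr' (x' := xL f wc wd) w fun y hy => xL_f3 f y (hw y hy)]

theorem ev_rep {K : Type*} [Group K] (x : ℕ → K) (y n : ℕ) : ev x (List.replicate n y) = x y ^ n := by
  induction n with
  | zero => simp
  | succ n ih => rw [List.replicate_succ, ev_cons, ih, pow_succ']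

theorem low {wc wd : List ℕ} {rels : List (List ℕ)} (hg : Good wc wd rels) [Finite (PresentedGroup (RR wc wd rels))]
    {L : List Nt} {n k : ℕ} (hs : sysOk L n = true) (hn : n ≤ 2 ^ k) (hi : invOk L n k icL = true)
    {E : List (List ℕ × List ℕ)} (hE : eqAll L n k E = true) (hlt : (E.all fun p => ltOk [p.1, p.2]) = true)
    {es : List ℕ} (hr : ((List.range rels.length).all fun i => E.contains (rels.getD i [], List.replicate (es.getD i 0) 8)) = true)
    (hl7 : (rels.all fun r => r.all fun y => Nat.blt 0 y && Nat.blt y 8) = true)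
    (h81 : ([8, 1], [1, 8]) ∈ E) (h82 : ([8, 2], [2, 8]) ∈ E) (hc : (wc, [4]) ∈ E) (hd : (wd, [6]) ∈ E)
    {m : ℕ} (hm : orderOf (xP hs hn hi 8) = m)
    {w : List ℕ} (hw : ∀ y ∈ w, y ∈ ([1, 2, 3] : List ℕ))
    (hwE : (w ++ (List.replicate (w.count 1) 10 ++ (List.replicate (w.count 2) 3 ++ List.replicate (w.count 3) 2)), [8]) ∈ E)
    (hwJ : ev (xG (RR wc wd rels) (lm2 wc wd)) w * ((xG (RR wc wd rels) (lm2 wc wd) 1) ^ w.count 1)⁻¹ *
      ((xG (RR wc wd rels) (lm2 wc wd) 2) ^ w.count 2)⁻¹ * (xG (RR wc wd rels) (lm2 wc wd) 2) ^ w.count 3 = 1) :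
    ∃ (Γ : Type) (_ : Group Γ) (_ : Finite Γ) (σ : Γ →* PresentedGroup (RR wc wd rels)), IsStemExtension σ ∧
      Nonempty (σ.ker ≃* Multiplicative (ZMod m)) := by
  have key : ∀ p ∈ E, ev (xP hs hn hi) p.1 = ev (xP hs hn hi) p.2 := by
    intro p hp
    have h1 := ltOk_sound (List.all_eq_true.1 hlt p hp)
    exact ev_xP_eq hs hn hi (h1 p.1 (by simp)) (h1 p.2 (by simp)) (eqAll_sound hE p hp)
  let f : Gen → Equiv.Perm (Fin n) := fun g => match g with
    | .a => xP hs hn hi 1
    | .b => xP hs hn hi 2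
  have i1 : xP hs hn hi 10 = (xP hs hn hi 1)⁻¹ := by
    have := xP_il hs hn hi 1 (by decide)
    rwa [show il icL 1 = 10 by decide] at this
  have i2 : xP hs hn hi 3 = (xP hs hn hi 2)⁻¹ := by
    have := xP_il hs hn hi 2 (by decide)
    rwa [show il icL 2 = 3 by decide] at this
  have i4 : xP hs hn hi 5 = (xP hs hn hi 4)⁻¹ := by
    have := xP_il hs hn hi 4 (by decide)
    rwa [show il icL 4 = 5 by decide] at this
  have i6 : xP hs hn hi 7 = (xP hs hn hi 6)⁻¹ := by
    have := xP_il hs hn hi 6 (by decide)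
    rwa [show il icL 6 = 7 by decide] at this
  have e1 : xL f wc wd 1 = xP hs hn hi 1 := xL1 f
  have e2 : xL f wc wd 2 = xP hs hn hi 2 := xL2 f
  have e3 : xL f wc wd 3 = xP hs hn hi 3 := by rw [i2, xL3]
  have e123 : ∀ y ∈ ([1, 2, 3] : List ℕ), xL f wc wd y = xP hs hn hi y := by
    intro y hy
    simp only [List.mem_cons, List.not_mem_nil, or_false] at hy
    rcases hy with rfl | rfl | rfl
    exacts [e1, e2, e3]
  have e4 : xL f wc wd 4 = xP hs hn hi 4 := by
    rw [xL4 f hg.lc, ev_congr' wc fun y hy => e123 y (hg.lc y hy)]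
    have h := key _ hc
    rwa [ev_cons, ev_nil, mul_one] at h
  have e6 : xL f wc wd 6 = xP hs hn hi 6 := by
    rw [xL6 f hg.ld, ev_congr' wd fun y hy => e123 y (hg.ld y hy)]
    have h := key _ hd
    rwa [ev_cons, ev_nil, mul_one] at h
  have e7 : ∀ y, 1 ≤ y → y ≤ 7 → xL f wc wd y = xP hs hn hi y := by
    intro y h1 h2
    interval_cases y
    · exact e1
    · exact e2
    · exact e3
    · exact e4
    · rw [xL5, e4, i4]
    · exact e6
    · rw [xL7, e6, i6]
  have hz : ∀ g, xP hs hn hi 8 * f g = f g * xP hs hn hi 8 := by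
    intro g
    cases g
    · have h := key _ h81
      simp only [ev_cons, ev_nil, mul_one] at h
      exact h
    · have h := key _ h82
      simp only [ev_cons, ev_nil, mul_one] at h
      exact h
  have hR : ∀ r ∈ RR wc wd rels, FreeGroup.lift f r ∈ Subgroup.zpowers (xP hs hn hi 8) := by
    rintro r ⟨v, hv, rfl⟩
    rw [← ev_xL]
    obtain ⟨i, hi', rfl⟩ := List.getElem_of_mem hv
    have h1 := List.all_eq_true.1 hr i (List.mem_range.2 hi')
    rw [List.contains_iff_mem, List.getD_eq_getElem _ _ hi'] at h1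
    have h2 := key _ h1
    have h3 := List.all_eq_true.1 hl7 _ hv
    rw [ev_congr' (x' := xP hs hn hi) _ (fun y hy => by
      have h4 := List.all_eq_true.1 h3 y hy
      rw [Bool.and_eq_true] at h4
      exact e7 y (Nat.le_of_ble_eq_true h4.1) (Nat.le_of_lt_succ (Nat.le_of_ble_eq_true h4.2)))]
    rw [h2, ev_rep]
    exact Subgroup.pow_mem _ (Subgroup.mem_zpowers _) _
  refine lower f hz hR hm (w0_comm w hw) ?_ ?_
  · rw [← lift_of_eq_mk, lift_w0 _ w wc wd hw]
    rw [xG_eq'] at hwJ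
    rw [xL1, xL2] at hwJ
    exact hwJ
  · rw [lift_w0 f w wc wd hw]
    have h := key _ hwE
    rw [ev_append, ev_append, ev_append, ev_rep, ev_rep, ev_rep, ev_cons, ev_nil, mul_one, i1, i2, inv_pow, inv_pow] at h
    rw [ev_congr' (x' := xP hs hn hi) w fun y hy => e123 y (hw y hy), ← h]
    simp only [mul_assoc]
    rfl

end Cfsg.Agent.H20.Low2
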