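import Cfsg.Agent.H20_Low
import Cfsg.Agent.H20_PG5
import Cfsg.Agent.H20_LabF

/-!
Lower bounds for the Schur multiplier: monomial representations given by nets, five generators.
Letters 1 to 5, their inverses 9 to 13, the scalar 8 and its inverse 14.
-/

set_option autoImplicit false
set_option maxRecDepth 100000

namespace Cfsg.Agent.H20.Low5

open Cfsg Cfsg.Agent.H8 Cfsg.Agent.H8.CE Cfsg.Agent.H8.Net Cfsg.Agent.H8.Act Cfsg.Agent.H8.Cox Cfsg.Agent.H8.Act2
open Cfsg.Agent.H20.PG5 Cfsg.Agent.H20.Low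

/-- inverse letters -/
def icL5 : ℕ := 0x854321e00dcba90

theorem ev_prod {C : Type*} [Group C] (Z : ℕ → C) (w : List ℕ) : ev Z w = (w.map Z).prod := by
  induction w with
  | nil => rfl
  | cons y w ih => rw [ev_cons, ih, List.map_cons, List.prod_cons]

theorem perm_comm {α : Type} (fl : ℕ → FreeGroup α) {w u : List ℕ} (h : w.Perm u) :
    ev fl w * (ev fl u)⁻¹ ∈ commutator (FreeGroup α) := by
  refine (QuotientGroup.eq_one_iff _).1 ?_
  show Abelianization.of (ev fl w * (ev fl u)⁻¹) = 1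
  rw [map_mul, map_inv, mul_inv_eq_one, ev_prod, ev_prod, map_list_prod, map_list_prod, List.map_map, List.map_map]
  exact (h.map _).prod_eq

theorem ev_rep {K : Type*} [Group K] (x : ℕ → K) (y n : ℕ) : ev x (List.replicate n y) = x y ^ n := by
  induction n with
  | zero => simp
  | succ n ih => rw [List.replicate_succ, ev_cons, ih, pow_succ']

theorem low {rels : List (List ℕ)} [Finite (PresentedGroup (RR5 rels))]
    {L : List Nt} {n k ic : ℕ} (hs : sysOk L n = true) (hn : n ≤ 2 ^ k) (hi : invOk L n k ic = true)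
    {E : List (List ℕ × List ℕ)} (hE : eqAll L n k E = true) (hlt : (E.all fun p => ltOk [p.1, p.2]) = true)
    {es : List ℕ} (hr : ((List.range rels.length).all fun i => E.contains (rels.getD i [], List.replicate (es.getD i 0) 8)) = true)
    (hl5 : (rels.all fun r => r.all fun y => Nat.blt 0 y && Nat.blt y 6) = true)
    (h8 : ([1, 2, 3, 4, 5].all fun y => E.contains ([8, y], [y, 8])) = true)
    {m : ℕ} (hm : orderOf (xP hs hn hi 8) = m)
    {w u : List ℕ} (hw : (w.all fun y => Nat.blt 0 y && Nat.blt y 6) = true) (hu : (u.all fun y => Nat.blt 0 y && Nat.blt y 6) = true)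
    (hwu : w.Perm u) (hwE : (w, 8 :: u) ∈ E)
    (hwJ : ev (xG (RR5 rels) lm5) w = ev (xG (RR5 rels) lm5) u) :
    ∃ (Γ : Type) (_ : Group Γ) (_ : Finite Γ) (σ : Γ →* PresentedGroup (RR5 rels)), IsStemExtension σ ∧
      Nonempty (σ.ker ≃* Multiplicative (ZMod m)) := by
  have key : ∀ p ∈ E, ev (xP hs hn hi) p.1 = ev (xP hs hn hi) p.2 := by
    intro p hp
    have h1 := ltOk_sound (List.all_eq_true.1 hlt p hp)
    exact ev_xP_eq hs hn hi (h1 p.1 (by simp)) (h1 p.2 (by simp)) (eqAll_sound hE p hp)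
  let f : Gen5 → Equiv.Perm (Fin n) := fun g => match g with
    | .a => xP hs hn hi 1
    | .b => xP hs hn hi 2
    | .c => xP hs hn hi 3
    | .d => xP hs hn hi 4
    | .e => xP hs hn hi 5
  have e5 : ∀ y, 1 ≤ y → y ≤ 5 → xL f y = xP hs hn hi y := by
    intro y h1 h2
    interval_cases y
    exacts [xL1 f, xL2 f, xL3 f, xL4 f, xL5 f]
  have eW : ∀ r : List ℕ, (r.all fun y => Nat.blt 0 y && Nat.blt y 6) = true → ev (xL f) r = ev (xP hs hn hi) r := by
    intro r hr'
    refine Cfsg.Agent.H20.PG.ev_congr' r fun y hy => ?_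
    have h4 := List.all_eq_true.1 hr' y hy
    rw [Bool.and_eq_true] at h4
    exact e5 y (Nat.le_of_ble_eq_true h4.1) (Nat.le_of_lt_succ (Nat.le_of_ble_eq_true h4.2))
  have hz : ∀ g, xP hs hn hi 8 * f g = f g * xP hs hn hi 8 := by
    have hy : ∀ y ∈ ([1, 2, 3, 4, 5] : List ℕ), xP hs hn hi 8 * xP hs hn hi y = xP hs hn hi y * xP hs hn hi 8 := by
      intro y hy
      have h := key _ (List.contains_iff_mem.1 (List.all_eq_true.1 h8 y hy))
      simp only [ev_cons, ev_nil, mul_one] at h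
      exact h
    intro g
    cases g
    exacts [hy 1 (by simp), hy 2 (by simp), hy 3 (by simp), hy 4 (by simp), hy 5 (by simp)]
  have hR : ∀ r ∈ RR5 rels, FreeGroup.lift f r ∈ Subgroup.zpowers (xP hs hn hi 8) := by
    rintro r ⟨v, hv, rfl⟩
    rw [← ev_xL, eW v (List.all_eq_true.1 hl5 _ hv)]
    obtain ⟨i, hi', rfl⟩ := List.getElem_of_mem hv
    have h1 := List.all_eq_true.1 hr i (List.mem_range.2 hi')
    rw [List.contains_iff_mem, List.getD_eq_getElem _ _ hi'] at h1
    rw [key _ h1, ev_rep]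
    exact Subgroup.pow_mem _ (Subgroup.mem_zpowers _) _
  refine lower f hz hR hm (perm_comm (fun y => lm5.getD y 1) hwu) ?_ ?_
  · rw [map_mul, map_inv, mul_inv_eq_one, ← lift_of_eq_mk, ← lift_of_eq_mk, ← ev_xL, ← ev_xL, ← xG_eq']
    exact hwJ
  · rw [map_mul, map_inv, ← ev_xL, ← ev_xL, eW w hw, eW u hu, mul_inv_eq_iff_eq_mul]
    have h := key _ hwE
    rw [ev_cons] at h
    exact h

end Cfsg.Agent.H20.Low5
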