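import Cfsg.Agent.H20_Low

/-!
Transport of stem extensions, universe polymorphic.
-/

set_option autoImplicit false

namespace Cfsg.Agent.H20.Low

open Cfsg
open scoped commutatorElement

universe u v w t

/-- change of both groups -/
theorem stem_congr {Γ : Type u} {Γ' : Type v} {G : Type w} {G' : Type t} [Group Γ] [Group Γ'] [Group G] [Group G']
    (f : Γ' ≃* Γ) (e : G ≃* G') {σ : Γ →* G} (hσ : IsStemExtension σ) :
    IsStemExtension (e.toMonoidHom.comp (σ.comp f.toMonoidHom)) := by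
  have hk : ∀ z, z ∈ (e.toMonoidHom.comp (σ.comp f.toMonoidHom)).ker ↔ f z ∈ σ.ker := by
    intro z
    simp only [MonoidHom.mem_ker, MonoidHom.comp_apply]
    exact e.map_eq_one_iff
  refine ⟨?_, ?_, ?_⟩
  · exact e.surjective.comp (hσ.1.comp f.surjective)
  · intro z hz
    have h1 := hσ.2.1 ((hk z).1 hz)
    rw [Subgroup.mem_center_iff] at h1 ⊢
    intro g
    apply f.injective
    rw [map_mul, map_mul]
    exact h1 (f g)
  · intro z hz
    have h1 := hσ.2.2 ((hk z).1 hz)
    have h2 : (commutator Γ).map f.symm.toMonoidHom ≤ commutator Γ' := by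
      rw [commutator_def, commutator_def, Subgroup.map_commutator]
      exact Subgroup.commutator_mono le_top le_top
    have h3 : f.symm.toMonoidHom (f z) ∈ (commutator Γ).map f.symm.toMonoidHom := ⟨f z, h1, rfl⟩
    have h4 : f.symm.toMonoidHom (f z) = z := f.symm_apply_apply z
    rw [h4] at h3
    exact h2 h3

/-- the kernels are isomorphic -/
theorem ker_congr {Γ : Type u} {Γ' : Type v} {G : Type w} {G' : Type t} [Group Γ] [Group Γ'] [Group G] [Group G']
    (f : Γ' ≃* Γ) (e : G ≃* G') (σ : Γ →* G) :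
    Nonempty ((e.toMonoidHom.comp (σ.comp f.toMonoidHom)).ker ≃* σ.ker) := by
  have hk : (e.toMonoidHom.comp (σ.comp f.toMonoidHom)).ker.map f.toMonoidHom = σ.ker := by
    ext z
    constructor
    · rintro ⟨y, hy, rfl⟩
      exact e.map_eq_one_iff.1 hy
    · intro hz
      refine ⟨f.symm z, ?_, f.apply_symm_apply z⟩
      show e (σ (f (f.symm z))) = 1
      rw [f.apply_symm_apply, show σ z = 1 from hz, map_one]
  exact ⟨((e.toMonoidHom.comp (σ.comp f.toMonoidHom)).ker.equivMapOfInjective f.toMonoidHom f.injective).trans (MulEquiv.subgroupCongr hk)⟩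

theorem transport_lowU {J : Type v} {G : Type u} {A : Type w} [Group J] [Group G] [CommGroup A] (e : J ≃* G)
    (h : ∃ (Γ : Type) (_ : Group Γ) (_ : Finite Γ) (σ : Γ →* J), IsStemExtension σ ∧ Nonempty (σ.ker ≃* A)) :
    ∃ (Γ : Type u) (_ : Group Γ) (_ : Finite Γ) (σ : Γ →* G), IsStemExtension σ ∧ Nonempty (σ.ker ≃* A) := by
  obtain ⟨Γ, i1, i2, σ, hσ, ⟨f⟩⟩ := h
  obtain ⟨g⟩ := ker_congr (MulEquiv.ulift : ULift.{u} Γ ≃* Γ) e σ
  exact ⟨ULift.{u} Γ, inferInstance, inferInstance, e.toMonoidHom.comp (σ.comp (MulEquiv.ulift : ULift.{u} Γ ≃* Γ).toMonoidHom),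
    stem_congr _ _ hσ, ⟨g.trans f⟩⟩

end Cfsg.Agent.H20.Low
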