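import Cfsg.Agent.H20_M12M
import Cfsg.Agent.H20_M12L3
import Cfsg.Agent.H20_M12L4
import Cfsg.Agent.H20_M12W
import Cfsg.Agent.H20_LabG
import Cfsg.Agent.H14_M24Gen

/-!
The Schur multiplier of M12.
-/

set_option autoImplicit false
set_option maxRecDepth 100000

namespace Cfsg.Agent.H20.M12N

open Cfsg Cfsg.Agent.H8 Cfsg.Agent.H8.CE Cfsg.Agent.H8.Net Cfsg.Agent.H8.Act Cfsg.Agent.H8.Cox Cfsg.Agent.H8.Act2
open Cfsg.Agent.H20 Cfsg.Agent.H20.PG Cfsg.Agent.H20.M12R Cfsg.Agent.H20.M12M Cfsg.Agent.H20.Lab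
open Cfsg.Agent.H7.M24 Cfsg.Agent.H14.M24Eng Cfsg.Agent.H14.M24Gen Cfsg.Agent.H7.Golay Cfsg.Agent.H7.Oct
open scoped IsMulCommutative commutatorElement

instance : Fact (Nat.Prime 2) := ⟨Nat.prime_two⟩
instance : Fact (Nat.Prime 3) := ⟨Nat.prime_three⟩

/-! ### Isomorphism with the Mathieu group -/

/-- the generators -/
noncomputable def gA : Equiv.Perm GolayPt := eU * eU
noncomputable def gB : Equiv.Perm GolayPt := eV * (eU⁻¹ * (eT * (eZ * eT)))

theorem memA : gA ∈ Spor.M12 := mul_mem U_mem12 U_mem12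
theorem memB : gB ∈ Spor.M12 := mul_mem V_mem12 (mul_mem (inv_mem U_mem12) (mul_mem T_mem12 (mul_mem Z_mem12 T_mem12)))

/-- lists of the letters -/
def lA : List ℕ := comp lU lU
def lB : List ℕ := comp lV (comp (invl lU) (comp lT (comp lZ lT)))

theorem repA : Rep gA lA := rep_mul rep_U rep_U
theorem repB : Rep gB lB := rep_mul rep_V (rep_mul (rep_inv rep_U) (rep_mul rep_T (rep_mul rep_Z rep_T)))

/-- evaluation of words by lists -/
def evl (Z : ℕ → List ℕ) (w : List ℕ) : List ℕ := w.foldr (fun y l => comp (Z y) l) (List.range 24)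

theorem rep_ev {x : ℕ → Equiv.Perm GolayPt} {Z : ℕ → List ℕ} (w : List ℕ) (h : ∀ y ∈ w, Rep (x y) (Z y)) : Rep (ev x w) (evl Z w) := by
  induction w with
  | nil => exact rep_one
  | cons y w ih =>
    rw [ev_cons]
    exact rep_mul (h y List.mem_cons_self) (ih fun y hy => h y (List.mem_cons_of_mem _ hy))

/-- images of the generators -/
noncomputable def fG : Gen → Spor.M12
  | .a => ⟨gA, memA⟩
  | .b => ⟨gB, memB⟩

/-- images in the symmetric group -/
noncomputable def fS : Gen → Equiv.Perm GolayPt := fun g => (fG g : Equiv.Perm GolayPt)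

/-- table of the letters -/
def ZT (y : ℕ) : List ℕ :=
  if y = 1 then lA else if y = 2 then lB else if y = 3 then invl lB else if y = 4 then comp lA lB else
    if y = 5 then invl (comp lA lB) else if y = 6 then evl (fun y => if y = 1 then lA else if y = 2 then lB else invl lB) wd else
    invl (evl (fun y => if y = 1 then lA else if y = 2 then lB else invl lB) wd)

theorem repZ : ∀ y, 1 ≤ y → y ≤ 7 → Rep (xL fS wc wd y) (ZT y) := by
  have r1 : Rep (xL fS wc wd 1) lA := by rw [xL1]; exact repA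
  have r2 : Rep (xL fS wc wd 2) lB := by rw [xL2]; exact repB
  have r3 : Rep (xL fS wc wd 3) (invl lB) := by rw [xL3]; exact rep_inv repB
  have r4 : Rep (xL fS wc wd 4) (comp lA lB) := by
    rw [xL4 fS good.lc]
    have : ev (xL fS wc wd) wc = xL fS wc wd 1 * xL fS wc wd 2 := by
      simp only [wc, ev_cons, ev_nil, mul_one]
    rw [this]
    exact rep_mul r1 r2
  have r6 : Rep (xL fS wc wd 6) (evl (fun y => if y = 1 then lA else if y = 2 then lB else invl lB) wd) := by
    rw [xL6 fS good.ld]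
    apply rep_ev
    intro y hy
    have h := good.ld y hy
    simp only [List.mem_cons, List.not_mem_nil, or_false] at h
    rcases h with rfl | rfl | rfl
    exacts [r1, r2, r3]
  intro y h1 h2
  interval_cases y
  · exact r1
  · exact r2
  · exact r3
  · exact r4
  · rw [xL5]; exact rep_inv r4
  · exact r6
  · rw [xL7]; exact rep_inv r6

/-- tables evaluated -/
def ZL : List (List ℕ) := (List.range 8).map ZT

theorem k_rels : (rels.all fun w => (w.all fun y => Nat.blt 0 y && Nat.blt y 8) && (evl (fun y => ZL.getD y []) w == List.range 24)) = true := by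
  decide +kernel

theorem ZL_get {y : ℕ} (h2 : y ≤ 7) : ZL.getD y [] = ZT y := by
  interval_cases y <;> rfl

theorem relS : ∀ w ∈ rels, ev (xL fS wc wd) w = 1 := by
  intro w hw
  have h := List.all_eq_true.1 k_rels w hw
  rw [Bool.and_eq_true] at h
  have h1 : Rep (ev (xL fS wc wd) w) (evl (fun y => ZL.getD y []) w) := by
    apply rep_ev
    intro y hy
    have h2 := List.all_eq_true.1 h.1 y hy
    rw [Bool.and_eq_true] at h2
    have h3 := Nat.le_of_lt_succ (Nat.le_of_ble_eq_true h2.2)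
    rw [ZL_get h3]
    exact repZ y (Nat.le_of_ble_eq_true h2.1) h3
  rw [eq_of_beq h.2] at h1
  exact h1.unique rep_one

theorem coe_xL (w : List ℕ) : ((ev (xL fG wc wd) w : Spor.M12) : Equiv.Perm GolayPt) = ev (xL fS wc wd) w := by
  have hx : ∀ r, ((FreeGroup.lift fG r : Spor.M12) : Equiv.Perm GolayPt) = FreeGroup.lift fS r := by
    intro r
    have : (Subgroup.subtype Spor.M12).comp (FreeGroup.lift fG) = FreeGroup.lift fS := by
      apply FreeGroup.ext_hom
      intro x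
      simp only [MonoidHom.comp_apply, FreeGroup.lift_apply_of]
      rfl
    rw [← this]; rfl
  rw [ev_xL, ev_xL, hx]

theorem relG : ∀ w ∈ rels, ev (xL fG wc wd) w = 1 := by
  intro w hw
  apply Subtype.ext
  rw [coe_xL, relS w hw]; rfl

/-- the homomorphism -/
noncomputable def psi : J →* Spor.M12 := toG fG relG

def wT : List ℕ := [2, 1, 3, 1, 3, 1, 2, 1, 3, 1, 3, 1, 3, 1, 2, 1, 2, 1, 3, 1, 3, 1, 2, 1, 3, 1, 2, 1]
def wV : List ℕ := [2, 1, 2, 1, 2, 1, 2, 1, 3, 1, 2, 1, 3, 1, 2, 1, 2, 1, 2, 1, 2, 1, 3, 1, 2, 1, 3, 1, 2]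
def wU : List ℕ := [2, 1, 3, 1, 3, 1, 2, 1, 2, 1, 3, 1, 2, 1, 3, 1, 2, 1, 2, 1, 2, 1, 2, 1, 3, 1, 2, 1, 3, 1, 3, 1, 3]
def wZ : List ℕ := [2, 1, 3, 1, 2, 1, 3, 1, 2, 1, 2, 1, 2, 1, 3, 1, 2, 1, 3, 1, 3, 1, 2, 1, 3, 1, 3, 1, 2, 1, 2, 1, 3, 1, 3, 1, 2, 1, 2]

theorem k_gen : (([(wT, lT), (wV, lV), (wU, lU), (wZ, lZ)] : List (List ℕ × List ℕ)).all fun p =>
    (p.1.all fun y => Nat.blt 0 y && Nat.blt y 8) && (evl (fun y => ZL.getD y []) p.1 == p.2)) = true := by
  decide +kernel

theorem word_mem {w l : List ℕ} {g : Equiv.Perm GolayPt} (hg : Rep g l) (h : (w, l) ∈ [(wT, lT), (wV, lV), (wU, lU), (wZ, lZ)]) :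
    g ∈ (psi.range.map Spor.M12.subtype) := by
  have h := List.all_eq_true.1 k_gen _ h
  rw [Bool.and_eq_true] at h
  have h1 : Rep (ev (xL fS wc wd) w) (evl (fun y => ZL.getD y []) w) := by
    apply rep_ev
    intro y hy
    have h2 := List.all_eq_true.1 h.1 y hy
    rw [Bool.and_eq_true] at h2
    have h3 := Nat.le_of_lt_succ (Nat.le_of_ble_eq_true h2.2)
    rw [ZL_get h3]
    exact repZ y (Nat.le_of_ble_eq_true h2.1) h3
  rw [eq_of_beq h.2] at h1
  refine ⟨ev (xL fG wc wd) w, ?_, ?_⟩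
  · refine ⟨PresentedGroup.mk _ (ev (fun y => (lm2 wc wd).getD y 1) w), ?_⟩
    rw [ev_xL]; rfl
  · rw [← hg.unique h1 |>.symm, ← coe_xL]; rfl

theorem psi_surj : Function.Surjective psi := by
  have h := eq_M12 (K := psi.range.map Spor.M12.subtype) (by
      rintro _ ⟨g, _, rfl⟩
      exact g.2) (word_mem (w := wT) rep_T (by simp)) (word_mem (w := wV) rep_V (by simp)) (word_mem (w := wU) rep_U (by simp)) (word_mem (w := wZ) rep_Z (by simp))
  intro g
  have h1 : (g : Equiv.Perm GolayPt) ∈ psi.range.map Spor.M12.subtype := by rw [h]; exact g.2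
  obtain ⟨k, hk, hg⟩ := h1
  obtain ⟨j, hj⟩ := hk
  exact ⟨j, by rw [hj]; exact Subtype.ext hg⟩

theorem psi_bij : Function.Bijective psi := by
  haveI : Finite J := instFinite
  refine (Nat.bijective_iff_surjective_and_card psi).2 ⟨psi_surj, ?_⟩
  have h1 : Nat.card Spor.M12 ≤ Nat.card J := Nat.card_le_card_of_surjective psi psi_surj
  rw [card_M12] at h1 ⊢
  exact le_antisymm card_le h1

/-- the isomorphism -/
noncomputable def e : J ≃* Spor.M12 := MulEquiv.ofBijective psi psi_bij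

theorem card_J : Nat.card J = 95040 := by
  rw [Nat.card_congr e.toEquiv, card_M12]

theorem card_K : Nat.card K = 55 := by
  have h := Subgroup.card_mul_index K
  rw [card_J, K_spec.1] at h
  omega

theorem gen3 : Subgroup.closure (x '' {y | y ∈ ([1, 2, 3] : List ℕ)}) = ⊤ := Hl_top (l := [1, 2, 3]) (by decide) (by decide)

theorem x3 : x 3 = (x 2)⁻¹ := by
  have h := xic 2 (by decide)
  rwa [show il PG.ic 2 = 3 by decide] at h

theorem x_a2 : (x 1) ^ 2 = 1 := by
  have h := xrels [1, 1] (by decide +kernel)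
  rw [ev_cons, ev_cons, ev_nil, mul_one] at h
  rw [pow_two]; exact h

theorem x_b3 : (x 2) ^ 3 = 1 := by
  have h := xrels [2, 2, 2] (by decide +kernel)
  rw [ev_cons, ev_cons, ev_cons, ev_nil, mul_one] at h
  rw [pow_succ', pow_two]; exact h

theorem x_ab : (x 1 * x 2) ^ 11 = 1 := by
  have h := xrels (powW [4] 11) (by decide +kernel)
  rw [ev_powW, ev_cons, ev_nil, mul_one] at h
  have h2 := xrels [1, 2, 5] (by decide +kernel)
  have h3 := xic 4 (by decide)
  rw [show il PG.ic 4 = 5 by decide] at h3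
  rw [ev_cons, ev_cons, ev_cons, ev_nil, mul_one, h3, ← mul_assoc] at h2
  rw [mul_inv_eq_one.1 h2]; exact h

theorem comm_J : commutator J = ⊤ := by
  set A := Abelianization.of (x 1) with hA
  set B := Abelianization.of (x 2) with hB
  have s0 : A ^ 2 = 1 := by rw [hA, ← map_pow, x_a2, map_one]
  have s1 : B ^ 3 = 1 := by rw [hB, ← map_pow, x_b3, map_one]
  have s2 : (A * B) ^ 11 = 1 := by rw [hA, hB, ← map_mul, ← map_pow, x_ab, map_one]
  have s3 : (A * B) ^ 6 = 1 := by
    rw [mul_pow, show (6 : ℕ) = 2 * 3 by norm_num, pow_mul, s0, one_pow, one_mul, mul_comm 2 3, pow_mul, s1, one_pow]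
  have s4 : A * B = 1 := by
    have : (A * B) ^ 12 = 1 := by rw [show (12 : ℕ) = 6 * 2 by norm_num, pow_mul, s3, one_pow]
    rw [show (12 : ℕ) = 11 + 1 by norm_num, pow_succ, s2, one_mul] at this
    exact this
  have hB1 : B = A⁻¹ := (inv_eq_of_mul_eq_one_right s4).symm
  have hA1 : A = 1 := by
    rw [hB1, inv_pow, inv_eq_one] at s1
    rw [pow_succ, s0, one_mul] at s1
    exact s1
  have hB2 : B = 1 := by rw [hB1, hA1, inv_one]
  rw [eq_top_iff]
  intro g _
  refine (QuotientGroup.eq_one_iff g).1 ?_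
  have hg : g ∈ Subgroup.closure (x '' {y | y ∈ ([1, 2, 3] : List ℕ)}) := by rw [gen3]; trivial
  have hle : Subgroup.closure (x '' {y | y ∈ ([1, 2, 3] : List ℕ)}) ≤ (Abelianization.of : J →* Abelianization J).ker := by
    rw [Subgroup.closure_le]
    rintro _ ⟨y, hy, rfl⟩
    have hy' : y ∈ ([1, 2, 3] : List ℕ) := hy
    simp only [List.mem_cons, List.not_mem_nil, or_false] at hy'
    rcases hy' with rfl | rfl | rfl
    · exact hA1
    · exact hB2
    · show Abelianization.of (x 3) = 1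
      rw [x3, map_inv, ← hB, hB2, inv_one]
  exact hle hg

universe u

theorem no3 (Γ : Type u) [Group Γ] [Finite Γ] (σ : Γ →* J) (hσ : IsStemExtension σ) : Nat.card σ.ker ≠ 3 := by
  intro hcard
  have hz := pow_of_card (σ := σ) hcard
  obtain ⟨H1, hC⟩ := ctx_coprime hσ (phi := phi) (o := ⟨0, by decide⟩) K K_spec.2 (by rw [hcard, card_K]; norm_num)
  obtain ⟨a, ha, ha2⟩ := Mul.lift_pow hσ.1 hσ.2.1 hz (k := 2) (by norm_num) x_a2
  obtain ⟨c, hc, hc11⟩ := Mul.lift_pow hσ.1 hσ.2.1 hz (k := 11) (by norm_num) x_ab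
  have hb : σ (a⁻¹ * c) = x 2 := by rw [map_mul, map_inv, hc, ha, inv_mul_cancel_left]
  have hY := YY_map x3 ha hb
  obtain ⟨q, q1, q2, q3⟩ := M12L3.res compat rfl hC (YY a (a⁻¹ * c)) hY
    (fun z h => Subtype.ext (hz z h))
    (by
      intro r hr
      simp only [M12L3.RN, List.mem_cons, List.not_mem_nil, or_false] at hr
      rcases hr with rfl | rfl | rfl | rfl
      · rw [ev11]; exact ha2
      · exact (evab a (a⁻¹ * c) 11).trans (by rw [mul_inv_cancel_left]; exact hc11)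
      · exact ev23 _ _
      · exact ev23 _ _)
    (rp_ok hY xrels (by decide +kernel))
  exact absurd_card (by norm_num) hcard (ker_trivial hσ (im3 gen3 hY) (K := 9) (q := q)
    (zero_of q2 (by norm_num) (by decide +kernel)) q3)

theorem up4 (Γ : Type u) [Group Γ] [Finite Γ] (σ : Γ →* J) (hσ : IsStemExtension σ) (hz : ∀ z ∈ σ.ker, z ^ (2 ^ (1 + 1)) = 1) :
    ∃ q, σ q = 1 ∧ q ^ (2 ^ 1) = 1 ∧ ∀ z, σ z = 1 → z ∈ Subgroup.zpowers q := by
  have hz : ∀ z ∈ σ.ker, z ^ 4 = 1 := hz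
  obtain ⟨H1, hC⟩ := ctx_coprime hσ (phi := phi) (o := ⟨0, by decide⟩) K K_spec.2
    (coprime_of_pow hz (by rw [card_K]; norm_num))
  obtain ⟨b, hb, hb3⟩ := Mul.lift_pow hσ.1 hσ.2.1 hz (k := 3) (by norm_num) x_b3
  obtain ⟨c, hc, hc11⟩ := Mul.lift_pow hσ.1 hσ.2.1 hz (k := 11) (by norm_num) x_ab
  have ha : σ (c * b⁻¹) = x 1 := by rw [map_mul, map_inv, hc, hb, mul_inv_cancel_right]
  have hY := YY_map x3 ha hb
  obtain ⟨q, q1, q2, q3⟩ := M12L4.res compat rfl hC (YY (c * b⁻¹) b) hY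
    (fun z h => Subtype.ext (hz z h))
    (by
      intro r hr
      simp only [M12L4.RN, List.mem_cons, List.not_mem_nil, or_false] at hr
      rcases hr with rfl | rfl | rfl | rfl
      · rw [ev222]; exact hb3
      · exact (evab (c * b⁻¹) b 11).trans (by rw [inv_mul_cancel_right]; exact hc11)
      · exact ev23 _ _
      · exact ev23 _ _)
    (rp_ok hY xrels (by decide +kernel))
  exact ker_cyclic hσ (im3 gen3 hY) (K := 9) (q := q) (f := 8) (r := 2) q1
    (mult_of (by norm_num) [2, 0, 3, 2, 2, 0, 0, 2, 0] q2 (by decide +kernel))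
    (smul_of (by norm_num) q2 (by norm_num) (by norm_num) (by decide +kernel)) q3

theorem up (Γ : Type u) [Group Γ] [Finite Γ] (σ : Γ →* J) (hσ : IsStemExtension σ) :
    ∃ π : Multiplicative (ZMod 2) →* σ.ker, Function.Surjective π := by
  refine Mul.upper_pp (p := 2) (k := 1) ?_ (fun Γ _ _ σ hσ hz => up4 Γ σ hσ hz) Γ σ hσ
  intro r hr hr2 Γ _ _ σ hσ
  by_cases h3 : r = 3
  · subst h3; exact no3 Γ σ hσ
  refine Cfsg.Agent.H14.Schur.ne_of_not_sq_dvd comm_J ?_ Γ σ hσ
  rw [card_J]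
  intro hd
  have hfac : (95040 : ℕ) = 2 ^ 6 * (3 ^ 3 * (5 * 11)) := by norm_num
  have hrd : r ∣ 95040 := dvd_trans (dvd_pow_self r two_ne_zero) hd
  have hr5 : r = 5 ∨ r = 11 := by
    rw [hfac] at hrd
    rcases (Nat.Prime.dvd_mul hr.out).1 hrd with h | h
    · exact absurd ((Nat.prime_dvd_prime_iff_eq hr.out Nat.prime_two).1 (hr.out.dvd_of_dvd_pow h)) hr2
    · rcases (Nat.Prime.dvd_mul hr.out).1 h with h | h
      · exact absurd ((Nat.prime_dvd_prime_iff_eq hr.out Nat.prime_three).1 (hr.out.dvd_of_dvd_pow h)) h3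
      · rcases (Nat.Prime.dvd_mul hr.out).1 h with h | h
        · exact Or.inl ((Nat.prime_dvd_prime_iff_eq hr.out (by norm_num)).1 h)
        · exact Or.inr ((Nat.prime_dvd_prime_iff_eq hr.out (by norm_num)).1 h)
  rcases hr5 with rfl | rfl <;> norm_num at hd

/-- the double cover -/
theorem low : ∃ (Γ : Type) (_ : Group Γ) (_ : Finite Γ) (σ : Γ →* J), IsStemExtension σ ∧
    Nonempty (σ.ker ≃* Multiplicative (ZMod 2)) := by
  refine Low2.low good (L := M12W.L) (k := 5) M12W.sys M12W.hn M12W.inv_ok M12W.E_ok (by decide +kernel) (es := M12W.es)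
    (by decide +kernel) (by decide +kernel) (by decide +kernel) (by decide +kernel) (by decide +kernel) (by decide +kernel)
    ?_ (w := M12W.w) (by decide +kernel) (by decide +kernel) ?_
  · apply orderOf_eq_prime
    · have h : ev (xP M12W.sys M12W.hn M12W.inv_ok) [8, 8] = ev (xP M12W.sys M12W.hn M12W.inv_ok) [] :=
        ev_xP_eq M12W.sys M12W.hn M12W.inv_ok (by decide) (by decide) (eqAll_sound M12W.E_ok ([8, 8], []) (by decide +kernel))
      rw [ev_cons, ev_cons, ev_nil, mul_one] at h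
      rw [pow_two]; exact h
    · intro h
      have h1 := xP_inv_apply M12W.sys M12W.hn M12W.inv_ok 8 (by decide) ⟨0, by decide⟩
      rw [h] at h1
      have h2 : (net M12W.L 8).pos 0 = 0 := h1.symm
      revert h2
      decide +kernel
  · have h1 : ev x M12W.w = 1 := xrels _ (by decide +kernel)
    have e1 : M12W.w.count 1 = 2 * 9 := by decide +kernel
    have e2 : M12W.w.count 2 = 3 * 4 := by decide +kernel
    have e3 : M12W.w.count 3 = 3 * 2 := by decide +kernel
    rw [e1, e2, e3, h1, pow_mul (x 1), pow_mul (x 2), pow_mul (x 2), x_a2, x_b3]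
    simp

end Cfsg.Agent.H20.M12N
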