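import Cfsg.Agent.H20_M22R
import Cfsg.Agent.H20_M22aT
import Cfsg.Agent.H20_M22bT
import Cfsg.Agent.H20_M22cT
import Cfsg.Agent.H20_M22L

/-!
The presented group M22: order at most 443520, action on the 8064 cosets of 11:5.
-/

set_option autoImplicit false
set_option maxRecDepth 100000

namespace Cfsg.Agent.H20.M22M

open Cfsg.Agent.H8 Cfsg.Agent.H8.CE Cfsg.Agent.H8.Net Cfsg.Agent.H8.Act Cfsg.Agent.H8.Cox Cfsg.Agent.H8.Act2
open Cfsg.Agent.H20 Cfsg.Agent.H20.PG Cfsg.Agent.H20.M22R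

/-- the presented group -/
abbrev J : Type := PresentedGroup (RR wc wd rels)

/-- the letters in the presented group -/
noncomputable abbrev x : ℕ → J := xG (RR wc wd rels) (lm2 wc wd)

theorem xic : ∀ y, y < 16 → x (il ic y) = (x y)⁻¹ := hic good

theorem xrels : ∀ w ∈ rels, ev x w = 1 := hrels wc wd rels

theorem b1 : (Hl x [4, 5, 6, 7]).relIndex (Hl x [1, 2, 3, 4, 5, 6, 7]) ≤ 8064 ∧
    (Hl x [4, 5, 6, 7]).relIndex (Hl x [1, 2, 3, 4, 5, 6, 7]) ≠ 0 := by
  have h := M22aT.bound (x := x) (H := (Hl x [4, 5, 6, 7]))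
    xic x0 (sub_rels x xrels (by decide +kernel)) (by
      intro s hs
      simp only [M22aT.L, List.mem_cons, List.not_mem_nil, or_false] at hs
      rcases hs with rfl | rfl <;> exact mem_Hl x (by decide))
  have e : (x '' {y | 1 ≤ y ∧ y ≤ 7}) = x '' {y | y ∈ ([1, 2, 3, 4, 5, 6, 7] : List ℕ)} := by
    congr 1
    ext y
    simp only [Set.mem_ofPred_eq, List.mem_cons, List.not_mem_nil, or_false]
    omega
  rw [e] at h
  exact h

theorem b2 : (Hl x [4, 5]).relIndex (Hl x [4, 5, 6, 7]) ≤ 5 ∧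
    (Hl x [4, 5]).relIndex (Hl x [4, 5, 6, 7]) ≠ 0 := by
  have h := M22bT.bound (x := ren x [0, 4, 5, 6, 7]) (H := (Hl x [4, 5]))
    (ren_hic xic (by decide +kernel)) x0 (ren_rels xrels (by decide +kernel)) (by
      intro s hs
      simp only [M22bT.L, List.mem_cons, List.not_mem_nil, or_false] at hs
      rcases hs with rfl <;> exact mem_Hl x (by decide))
  rw [ren_image [0, 4, 5, 6, 7] 4 [4, 5, 6, 7] (by decide) (by decide)] at h
  exact h

theorem b3 : (⊥ : Subgroup J).relIndex (Hl x [4, 5]) ≤ 11 ∧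
    (⊥ : Subgroup J).relIndex (Hl x [4, 5]) ≠ 0 := by
  have h := M22cT.bound (x := ren x [0, 4, 5]) (H := (⊥ : Subgroup J))
    (ren_hic xic (by decide +kernel)) x0 (ren_rels xrels (by decide +kernel)) (by
      intro s hs
      simp [M22cT.L] at hs)
  rw [ren_image [0, 4, 5] 2 [4, 5] (by decide) (by decide)] at h
  exact h

theorem c3 : Nat.card (Hl x [4, 5]) ≤ 11 ∧ Nat.card (Hl x [4, 5]) ≠ 0 := by
  have h := b3
  rwa [Subgroup.relIndex_bot_left] at h

theorem c2 : Nat.card (Hl x [4, 5, 6, 7]) ≤ 5 * 11 ∧ Nat.card (Hl x [4, 5, 6, 7]) ≠ 0 :=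
  card_le_of_relIndex (Hl_mono x (by decide)) b2 c3

theorem c1 : Nat.card (Hl x [1, 2, 3, 4, 5, 6, 7]) ≤ 8064 * (5 * 11) ∧ Nat.card (Hl x [1, 2, 3, 4, 5, 6, 7]) ≠ 0 :=
  card_le_of_relIndex (Hl_mono x (by decide)) b1 c2

theorem card_le : Nat.card J ≤ 443520 := by
  have h := c1.1
  rw [Hl_top (by decide) (by decide), Subgroup.card_top] at h
  exact h

theorem card_ne : Nat.card J ≠ 0 := by
  have h := c1.2
  rwa [Hl_top (by decide) (by decide), Subgroup.card_top] at h

instance instFinite : Finite J := Nat.finite_of_card_ne_zero card_ne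

/-! ### The action on 8064 points -/

theorem hn : 8064 ≤ 2 ^ 13 := by decide

theorem exists_phi : ∃ φ : J →* Equiv.Perm (Fin 8064), Compat φ x M22L.L :=
  exists_act good M22L.sys hn M22L.inv_ok M22L.rel_ok (by decide +kernel) rfl (by
    intro y h1 h2
    interval_cases y <;> rfl)

/-- the action -/
noncomputable def phi : J →* Equiv.Perm (Fin 8064) := exists_phi.choose

theorem compat : Compat phi x M22L.L := exists_phi.choose_spec

theorem tr_ok : reachIv M22L.L [1, 2, 3, 4, 5, 6, 7] 5 (nat_lit 0) (nat_lit 0) (nat_lit 8064) = true := by decide +kernel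
theorem hfix : fixP M22L.L [4, 5, 6, 7] [nat_lit 0] = true := by decide +kernel

theorem trans0 (i : Fin 8064) : ∃ g, phi g ⟨0, by decide⟩ = i :=
  trans_of M22L.sys compat (fun y hy => by
    have : y ∈ ([1, 2, 3, 4, 5, 6, 7] : List ℕ) := hy
    simp only [List.mem_cons, List.not_mem_nil, or_false] at this
    omega) (by decide) tr_ok i

/-- the stabilizer -/
noncomputable def K : Subgroup J := Hl x [4, 5, 6, 7]

theorem K_index : K.index ≤ 8064 ∧ K.index ≠ 0 := by
  have h := b1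
  rw [Hl_top (l := [1, 2, 3, 4, 5, 6, 7]) (by decide) (by decide), Subgroup.relIndex_top_right] at h
  exact h

theorem K_spec : K.index = 8064 ∧ ∀ g, g ∈ K ↔ phi g ⟨0, by decide⟩ = ⟨0, by decide⟩ :=
  index_of_fix (H := K) (by decide) trans0 (fix_closure M22L.sys compat (by decide) (by decide) hfix) K_index.1 K_index.2

end Cfsg.Agent.H20.M22M
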