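import Cfsg.Agent.H20_M22M
import Cfsg.Agent.H20_M22L8
import Cfsg.Agent.H20_M22L9
import Cfsg.Agent.H20_Mul2
import Cfsg.Agent.H20_M22W
import Cfsg.Agent.H20_LabG
import Cfsg.Agent.H14_M24Gen

/-!
The Schur multiplier of M22.
-/

set_option autoImplicit false
set_option maxRecDepth 100000

namespace Cfsg.Agent.H20.M22N

open Cfsg Cfsg.Agent.H8 Cfsg.Agent.H8.CE Cfsg.Agent.H8.Net Cfsg.Agent.H8.Act Cfsg.Agent.H8.Cox Cfsg.Agent.H8.Act2
open Cfsg.Agent.H20 Cfsg.Agent.H20.PG Cfsg.Agent.H20.M22R Cfsg.Agent.H20.M22M Cfsg.Agent.H20.Lab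
open Cfsg.Agent.H7.M24 Cfsg.Agent.H14.M24Eng Cfsg.Agent.H14.M24Gen Cfsg.Agent.H7.Golay Cfsg.Agent.H7.Oct
open scoped IsMulCommutative commutatorElement

instance : Fact (Nat.Prime 2) := ⟨Nat.prime_two⟩
instance : Fact (Nat.Prime 3) := ⟨Nat.prime_three⟩

/-! ### Isomorphism with the Mathieu group -/

/-- the generators -/
noncomputable def gA : Equiv.Perm GolayPt := eX * eX
noncomputable def gB : Equiv.Perm GolayPt := eT * (eX * (eV⁻¹ * (eT⁻¹ * (eV * eX⁻¹))))

theorem memA : gA ∈ Spor.M22 := mul_mem X_mem22 X_mem22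
theorem memB : gB ∈ Spor.M22 := mul_mem T_mem22 (mul_mem X_mem22 (mul_mem (inv_mem V_mem22) (mul_mem (inv_mem T_mem22)
  (mul_mem V_mem22 (inv_mem X_mem22)))))

/-- lists of the letters -/
def lA : List ℕ := comp lX lX
def lB : List ℕ := comp lT (comp lX (comp (invl lV) (comp (invl lT) (comp lV (invl lX)))))

theorem repA : Rep gA lA := rep_mul rep_X rep_X
theorem repB : Rep gB lB := rep_mul rep_T (rep_mul rep_X (rep_mul (rep_inv rep_V) (rep_mul (rep_inv rep_T) (rep_mul rep_V (rep_inv rep_X)))))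

/-- evaluation of words by lists -/
def evl (Z : ℕ → List ℕ) (w : List ℕ) : List ℕ := w.foldr (fun y l => comp (Z y) l) (List.range 24)

theorem rep_ev {x : ℕ → Equiv.Perm GolayPt} {Z : ℕ → List ℕ} (w : List ℕ) (h : ∀ y ∈ w, Rep (x y) (Z y)) : Rep (ev x w) (evl Z w) := by
  induction w with
  | nil => exact rep_one
  | cons y w ih =>
    rw [ev_cons]
    exact rep_mul (h y List.mem_cons_self) (ih fun y hy => h y (List.mem_cons_of_mem _ hy))

/-- images of the generators -/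
noncomputable def fG : Gen → Spor.M22
  | .a => ⟨gA, memA⟩
  | .b => ⟨gB, memB⟩

/-- images in the symmetric group -/
noncomputable def fS : Gen → Equiv.Perm GolayPt := fun g => (fG g : Equiv.Perm GolayPt)

/-- table of the letters -/
def ZT (y : ℕ) : List ℕ :=
  if y = 1 then lA else if y = 2 then lB else if y = 3 then invl lB else if y = 4 then comp lA lB else
    if y = 5 then invl (comp lA lB) else if y = 6 then evl (fun y => if y = 1 then lA else if y = 2 then lB else invl lB) wd else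
    invl (evl (fun y => if y = 1 then lA else if y = 2 then lB else invl lB) wd)

theorem repZ : ∀ y, 1 ≤ y → y ≤ 7 → Rep (xL fS wc wd y) (ZT y) := by
  have r1 : Rep (xL fS wc wd 1) lA := by rw [xL1]; exact repA
  have r2 : Rep (xL fS wc wd 2) lB := by rw [xL2]; exact repB
  have r3 : Rep (xL fS wc wd 3) (invl lB) := by rw [xL3]; exact rep_inv repB
  have r4 : Rep (xL fS wc wd 4) (comp lA lB) := by
    rw [xL4 fS good.lc]
    have : ev (xL fS wc wd) wc = xL fS wc wd 1 * xL fS wc wd 2 := by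
      simp only [wc, ev_cons, ev_nil, mul_one]
    rw [this]
    exact rep_mul r1 r2
  have r6 : Rep (xL fS wc wd 6) (evl (fun y => if y = 1 then lA else if y = 2 then lB else invl lB) wd) := by
    rw [xL6 fS good.ld]
    apply rep_ev
    intro y hy
    have h := good.ld y hy
    simp only [List.mem_cons, List.not_mem_nil, or_false] at h
    rcases h with rfl | rfl | rfl
    exacts [r1, r2, r3]
  intro y h1 h2
  interval_cases y
  · exact r1
  · exact r2
  · exact r3
  · exact r4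
  · rw [xL5]; exact rep_inv r4
  · exact r6
  · rw [xL7]; exact rep_inv r6

/-- tables evaluated -/
def ZL : List (List ℕ) := (List.range 8).map ZT

theorem k_rels : (rels.all fun w => (w.all fun y => Nat.blt 0 y && Nat.blt y 8) && (evl (fun y => ZL.getD y []) w == List.range 24)) = true := by
  decide +kernel

theorem ZL_get {y : ℕ} (h2 : y ≤ 7) : ZL.getD y [] = ZT y := by
  interval_cases y <;> rfl

theorem relS : ∀ w ∈ rels, ev (xL fS wc wd) w = 1 := by
  intro w hw
  have h := List.all_eq_true.1 k_rels w hw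
  rw [Bool.and_eq_true] at h
  have h1 : Rep (ev (xL fS wc wd) w) (evl (fun y => ZL.getD y []) w) := by
    apply rep_ev
    intro y hy
    have h2 := List.all_eq_true.1 h.1 y hy
    rw [Bool.and_eq_true] at h2
    have h3 := Nat.le_of_lt_succ (Nat.le_of_ble_eq_true h2.2)
    rw [ZL_get h3]
    exact repZ y (Nat.le_of_ble_eq_true h2.1) h3
  rw [eq_of_beq h.2] at h1
  exact h1.unique rep_one

theorem coe_xL (w : List ℕ) : ((ev (xL fG wc wd) w : Spor.M22) : Equiv.Perm GolayPt) = ev (xL fS wc wd) w := by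
  have hx : ∀ r, ((FreeGroup.lift fG r : Spor.M22) : Equiv.Perm GolayPt) = FreeGroup.lift fS r := by
    intro r
    have : (Subgroup.subtype Spor.M22).comp (FreeGroup.lift fG) = FreeGroup.lift fS := by
      apply FreeGroup.ext_hom
      intro x
      simp only [MonoidHom.comp_apply, FreeGroup.lift_apply_of]
      rfl
    rw [← this]; rfl
  rw [ev_xL, ev_xL, hx]

theorem relG : ∀ w ∈ rels, ev (xL fG wc wd) w = 1 := by
  intro w hw
  apply Subtype.ext
  rw [coe_xL, relS w hw]; rfl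

/-- the homomorphism -/
noncomputable def psi : J →* Spor.M22 := toG fG relG

def wT : List ℕ := [3, 1, 3, 1, 2, 2, 1, 2, 1, 2, 2, 1, 2, 1, 2, 2, 1, 3, 1, 2]
def wV : List ℕ := [1, 2, 1, 2, 1, 3, 1, 2, 1, 3, 1, 3, 1, 2, 1, 3, 1, 2, 1, 2, 2, 1, 2, 1, 2, 1, 2]
def wX : List ℕ := [3, 1, 3, 1, 2, 1, 3, 1, 3, 1, 2, 2, 1, 3, 1, 2, 1, 3, 1, 3, 1, 3, 1, 3, 1, 2, 2, 1, 2, 1, 2]

theorem k_gen : (([(wT, lT), (wV, lV), (wX, lX)] : List (List ℕ × List ℕ)).all fun p =>
    (p.1.all fun y => Nat.blt 0 y && Nat.blt y 8) && (evl (fun y => ZL.getD y []) p.1 == p.2)) = true := by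
  decide +kernel

theorem word_mem {w l : List ℕ} {g : Equiv.Perm GolayPt} (hg : Rep g l) (h : (w, l) ∈ [(wT, lT), (wV, lV), (wX, lX)]) :
    g ∈ (psi.range.map Spor.M22.subtype) := by
  have h := List.all_eq_true.1 k_gen _ h
  rw [Bool.and_eq_true] at h
  have h1 : Rep (ev (xL fS wc wd) w) (evl (fun y => ZL.getD y []) w) := by
    apply rep_ev
    intro y hy
    have h2 := List.all_eq_true.1 h.1 y hy
    rw [Bool.and_eq_true] at h2
    have h3 := Nat.le_of_lt_succ (Nat.le_of_ble_eq_true h2.2)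
    rw [ZL_get h3]
    exact repZ y (Nat.le_of_ble_eq_true h2.1) h3
  rw [eq_of_beq h.2] at h1
  refine ⟨ev (xL fG wc wd) w, ?_, ?_⟩
  · refine ⟨PresentedGroup.mk _ (ev (fun y => (lm2 wc wd).getD y 1) w), ?_⟩
    rw [ev_xL]; rfl
  · rw [← hg.unique h1 |>.symm, ← coe_xL]; rfl

theorem psi_surj : Function.Surjective psi := by
  have h := eq_M22 (K := psi.range.map Spor.M22.subtype) (by
      rintro _ ⟨g, _, rfl⟩
      exact g.2) (word_mem (w := wT) rep_T (by simp)) (word_mem (w := wV) rep_V (by simp)) (word_mem (w := wX) rep_X (by simp))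
  intro g
  have h1 : (g : Equiv.Perm GolayPt) ∈ psi.range.map Spor.M22.subtype := by rw [h]; exact g.2
  obtain ⟨k, hk, hg⟩ := h1
  obtain ⟨j, hj⟩ := hk
  exact ⟨j, by rw [hj]; exact Subtype.ext hg⟩

theorem psi_bij : Function.Bijective psi := by
  haveI : Finite J := instFinite
  refine (Nat.bijective_iff_surjective_and_card psi).2 ⟨psi_surj, ?_⟩
  have h1 : Nat.card Spor.M22 ≤ Nat.card J := Nat.card_le_card_of_surjective psi psi_surj
  rw [card_M22] at h1 ⊢
  exact le_antisymm card_le h1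

/-- the isomorphism -/
noncomputable def e : J ≃* Spor.M22 := MulEquiv.ofBijective psi psi_bij

theorem card_J : Nat.card J = 443520 := by
  rw [Nat.card_congr e.toEquiv, card_M22]

theorem card_K : Nat.card K = 55 := by
  have h := Subgroup.card_mul_index K
  rw [card_J, K_spec.1] at h
  omega

theorem gen3 : Subgroup.closure (x '' {y | y ∈ ([1, 2, 3] : List ℕ)}) = ⊤ := Hl_top (l := [1, 2, 3]) (by decide) (by decide)

theorem x3 : x 3 = (x 2)⁻¹ := by
  have h := xic 2 (by decide)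
  rwa [show il PG.ic 2 = 3 by decide] at h

theorem x_a2 : (x 1) ^ 2 = 1 := by
  have h := xrels [1, 1] (by decide +kernel)
  rw [ev_cons, ev_cons, ev_nil, mul_one] at h
  rw [pow_two]; exact h

theorem x_b4 : (x 2) ^ 4 = 1 := by
  have h := xrels (powW [2] 4) (by decide +kernel)
  rw [ev_powW, ev_cons, ev_nil, mul_one] at h
  exact h

theorem x_ab : (x 1 * x 2) ^ 11 = 1 := by
  have h := xrels (powW [4] 11) (by decide +kernel)
  rw [ev_powW, ev_cons, ev_nil, mul_one] at h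
  have h2 := xrels [1, 2, 5] (by decide +kernel)
  have h3 := xic 4 (by decide)
  rw [show il PG.ic 4 = 5 by decide] at h3
  rw [ev_cons, ev_cons, ev_cons, ev_nil, mul_one, h3, ← mul_assoc] at h2
  rw [mul_inv_eq_one.1 h2]; exact h

theorem x_abb : ((x 1 * x 2) * x 2) ^ 5 = 1 := by
  have h := xrels (powW [1, 2, 2] 5) (by decide +kernel)
  rw [ev_powW, ev_cons, ev_cons, ev_cons, ev_nil, mul_one, ← mul_assoc] at h
  exact h

theorem comm_J : commutator J = ⊤ := by
  set A := Abelianization.of (x 1) with hA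
  set B := Abelianization.of (x 2) with hB
  have s0 : A ^ 2 = 1 := by rw [hA, ← map_pow, x_a2, map_one]
  have s1 : B ^ 4 = 1 := by rw [hB, ← map_pow, x_b4, map_one]
  have s2 : (A * B) ^ 11 = 1 := by rw [hA, hB, ← map_mul, ← map_pow, x_ab, map_one]
  have s5 : ((A * B) * B) ^ 5 = 1 := by rw [hA, hB, ← map_mul, ← map_mul, ← map_pow, x_abb, map_one]
  have s3 : (A * B) ^ 4 = 1 := by
    rw [mul_pow, s1, mul_one, show (4 : ℕ) = 2 * 2 by norm_num, pow_mul, s0, one_pow]
  have s4 : A * B = 1 := by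
    have : (A * B) ^ 12 = 1 := by rw [show (12 : ℕ) = 4 * 3 by norm_num, pow_mul, s3, one_pow]
    rw [show (12 : ℕ) = 11 + 1 by norm_num, pow_succ, s2, one_mul] at this
    exact this
  have hB2 : B = 1 := by
    rw [s4, one_mul] at s5
    rw [show (5 : ℕ) = 4 + 1 by norm_num, pow_succ, s1, one_mul] at s5
    exact s5
  have hA1 : A = 1 := by rw [hB2, mul_one] at s4; exact s4
  rw [eq_top_iff]
  intro g _
  refine (QuotientGroup.eq_one_iff g).1 ?_
  have hg : g ∈ Subgroup.closure (x '' {y | y ∈ ([1, 2, 3] : List ℕ)}) := by rw [gen3]; trivial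
  have hle : Subgroup.closure (x '' {y | y ∈ ([1, 2, 3] : List ℕ)}) ≤ (Abelianization.of : J →* Abelianization J).ker := by
    rw [Subgroup.closure_le]
    rintro _ ⟨y, hy, rfl⟩
    have hy' : y ∈ ([1, 2, 3] : List ℕ) := hy
    simp only [List.mem_cons, List.not_mem_nil, or_false] at hy'
    rcases hy' with rfl | rfl | rfl
    · exact hA1
    · exact hB2
    · show Abelianization.of (x 3) = 1
      rw [x3, map_inv, ← hB, hB2, inv_one]
  exact hle hg

universe u

/-- normalised lifts of the generators -/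
theorem lifts2 {Γ : Type u} [Group Γ] {σ : Γ →* J} (hσ : IsStemExtension σ) {m : ℕ} (hz : ∀ z ∈ σ.ker, z ^ m = 1)
    (h5 : Nat.Coprime 5 m) (h11 : Nat.Coprime 11 m) :
    ∃ a b : Γ, σ a = x 1 ∧ σ b = x 2 ∧ (a * b) ^ 11 = 1 ∧ ((a * b) * b) ^ 5 = 1 := by
  obtain ⟨c, hc, hc11⟩ := Mul.lift_pow hσ.1 hσ.2.1 hz h11 x_ab
  obtain ⟨d, hd, hd5⟩ := Mul.lift_pow hσ.1 hσ.2.1 hz h5 x_abb
  refine ⟨c * (c⁻¹ * d)⁻¹, c⁻¹ * d, ?_, ?_, ?_, ?_⟩
  · rw [map_mul, map_inv, map_mul, map_inv, hc, hd, inv_mul_cancel_left, mul_inv_cancel_right]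
  · rw [map_mul, map_inv, hc, hd, inv_mul_cancel_left]
  · rw [inv_mul_cancel_right]; exact hc11
  · rw [inv_mul_cancel_right, mul_inv_cancel_left]; exact hd5

theorem evabb {Γ : Type u} [Group Γ] (a b : Γ) (k : ℕ) : ev (YY a b) (powW [1, 2, 2] k) = ((a * b) * b) ^ k := by
  rw [ev_powW, ev_cons, ev_cons, ev_cons, ev_nil, mul_one, ← mul_assoc]; rfl

theorem up8 (Γ : Type u) [Group Γ] [Finite Γ] (σ : Γ →* J) (hσ : IsStemExtension σ) (hz : ∀ z ∈ σ.ker, z ^ (2 ^ (2 + 1)) = 1) :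
    ∃ q, σ q = 1 ∧ q ^ (2 ^ 2) = 1 ∧ ∀ z, σ z = 1 → z ∈ Subgroup.zpowers q := by
  have hz : ∀ z ∈ σ.ker, z ^ 8 = 1 := hz
  obtain ⟨H1, hC⟩ := ctx_coprime hσ (phi := phi) (o := ⟨0, by decide⟩) K K_spec.2
    (coprime_of_pow hz (by rw [card_K]; norm_num))
  obtain ⟨a, b, ha, hb, h11, h5⟩ := lifts2 hσ hz (by norm_num) (by norm_num)
  have hY := YY_map x3 ha hb
  obtain ⟨q, q1, q2, q3⟩ := M22L8.res compat rfl hC (YY a b) hY
    (fun z h => Subtype.ext (hz z h))
    (by
      intro r hr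
      simp only [M22L8.RN, List.mem_cons, List.not_mem_nil, or_false] at hr
      rcases hr with rfl | rfl | rfl | rfl
      · exact (evab a b 11).trans h11
      · exact (evabb a b 5).trans h5
      · exact ev23 _ _
      · exact ev23 _ _)
    (rp_ok hY xrels (by decide +kernel))
  exact ker_cyclic hσ (im3 gen3 hY) (K := 17) (q := q) (f := 16) (r := 4) q1
    (mult_of (by norm_num) [0, 0, 2, 7, 0, 3, 6, 2, 1, 5, 7, 0, 2, 4, 0, 2, 0] q2 (by decide +kernel))
    (smul_of (by norm_num) q2 (by norm_num) (by norm_num) (by decide +kernel)) q3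

theorem up9 (Γ : Type u) [Group Γ] [Finite Γ] (σ : Γ →* J) (hσ : IsStemExtension σ) (hz : ∀ z ∈ σ.ker, z ^ (3 ^ (1 + 1)) = 1) :
    ∃ q, σ q = 1 ∧ q ^ (3 ^ 1) = 1 ∧ ∀ z, σ z = 1 → z ∈ Subgroup.zpowers q := by
  have hz : ∀ z ∈ σ.ker, z ^ 9 = 1 := hz
  obtain ⟨H1, hC⟩ := ctx_coprime hσ (phi := phi) (o := ⟨0, by decide⟩) K K_spec.2
    (coprime_of_pow hz (by rw [card_K]; norm_num))
  obtain ⟨a, b, ha, hb, h11, h5⟩ := lifts2 hσ hz (by norm_num) (by norm_num)
  have hY := YY_map x3 ha hb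
  obtain ⟨q, q1, q2, q3⟩ := M22L9.res compat rfl hC (YY a b) hY
    (fun z h => Subtype.ext (hz z h))
    (by
      intro r hr
      simp only [M22L9.RN, List.mem_cons, List.not_mem_nil, or_false] at hr
      rcases hr with rfl | rfl | rfl | rfl
      · exact (evab a b 11).trans h11
      · exact (evabb a b 5).trans h5
      · exact ev23 _ _
      · exact ev23 _ _)
    (rp_ok hY xrels (by decide +kernel))
  exact ker_cyclic hσ (im3 gen3 hY) (K := 17) (q := q) (f := 16) (r := 3) q1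
    (mult_of (by norm_num) [5, 1, 0, 1, 5, 3, 6, 0, 0, 3, 7, 3, 2, 3, 5, 1, 0] q2 (by decide +kernel))
    (smul_of (by norm_num) q2 (by norm_num) (by norm_num) (by decide +kernel)) q3

theorem up (Γ : Type u) [Group Γ] [Finite Γ] (σ : Γ →* J) (hσ : IsStemExtension σ) :
    ∃ π : Multiplicative (ZMod 12) →* σ.ker, Function.Surjective π := by
  refine Mul.upper_two (p := 2) (k := 2) (r := 3) (l := 1) (by norm_num) ?_ (fun Γ _ _ σ hσ hz => up8 Γ σ hσ hz)
    (fun Γ _ _ σ hσ hz => up9 Γ σ hσ hz) Γ σ hσ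
  intro r hr hr2 h3 Γ _ _ σ hσ
  refine Cfsg.Agent.H14.Schur.ne_of_not_sq_dvd comm_J ?_ Γ σ hσ
  rw [card_J]
  intro hd
  have hfac : (443520 : ℕ) = 2 ^ 7 * (3 ^ 2 * (5 * (7 * 11))) := by norm_num
  have hrd : r ∣ 443520 := dvd_trans (dvd_pow_self r two_ne_zero) hd
  have hr5 : r = 5 ∨ r = 7 ∨ r = 11 := by
    rw [hfac] at hrd
    rcases (Nat.Prime.dvd_mul hr.out).1 hrd with h | h
    · exact absurd ((Nat.prime_dvd_prime_iff_eq hr.out Nat.prime_two).1 (hr.out.dvd_of_dvd_pow h)) hr2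
    · rcases (Nat.Prime.dvd_mul hr.out).1 h with h | h
      · exact absurd ((Nat.prime_dvd_prime_iff_eq hr.out Nat.prime_three).1 (hr.out.dvd_of_dvd_pow h)) h3
      · rcases (Nat.Prime.dvd_mul hr.out).1 h with h | h
        · exact Or.inl ((Nat.prime_dvd_prime_iff_eq hr.out (by norm_num)).1 h)
        · rcases (Nat.Prime.dvd_mul hr.out).1 h with h | h
          · exact Or.inr (Or.inl ((Nat.prime_dvd_prime_iff_eq hr.out (by norm_num)).1 h))
          · exact Or.inr (Or.inr ((Nat.prime_dvd_prime_iff_eq hr.out (by norm_num)).1 h))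
  rcases hr5 with rfl | rfl | rfl <;> norm_num at hd

/-- the scalar -/
noncomputable def zz : Equiv.Perm (Fin 5918) := xP M22W.sys M22W.hn M22W.inv_ok 8

theorem zz_inv (i : Fin 5918) : (((zz⁻¹ : Equiv.Perm (Fin 5918)) i : Fin 5918) : ℕ) = (net M22W.L 8).pos i :=
  xP_inv_apply M22W.sys M22W.hn M22W.inv_ok 8 (by decide) i

theorem zz12 : zz ^ 12 = 1 := by
  have h : ev (xP M22W.sys M22W.hn M22W.inv_ok) (powW [8] 12) = ev (xP M22W.sys M22W.hn M22W.inv_ok) [] :=
    ev_xP_eq M22W.sys M22W.hn M22W.inv_ok (by decide) (by decide) (eqAll_sound M22W.E_ok (powW [8] 12, []) (by decide +kernel))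
  rw [ev_powW, ev_cons, ev_nil, mul_one] at h
  exact h

theorem zz_pow (i : Fin 5918) (n : ℕ) : ((((zz⁻¹ : Equiv.Perm (Fin 5918)) ^ n) i : Fin 5918) : ℕ) = (fun t => (net M22W.L 8).pos t)^[n] i := by
  induction n with
  | zero => rfl
  | succ n ih => rw [pow_succ', Equiv.Perm.mul_apply, zz_inv, ih, Function.iterate_succ_apply']

theorem ord_zz : orderOf zz = 12 := by
  rw [← orderOf_inv]
  have h12 : (zz⁻¹ : Equiv.Perm (Fin 5918)) ^ 12 = 1 := by rw [inv_pow, zz12, inv_one]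
  have h6 : (zz⁻¹ : Equiv.Perm (Fin 5918)) ^ 6 ≠ 1 := by
    intro h
    have h1 := zz_pow ⟨0, by decide⟩ 6
    rw [h] at h1
    have h2 : (fun t => (net M22W.L 8).pos t)^[6] 0 = 0 := h1.symm
    revert h2
    decide +kernel
  have h4 : (zz⁻¹ : Equiv.Perm (Fin 5918)) ^ 4 ≠ 1 := by
    intro h
    have h1 := zz_pow ⟨4928, by decide⟩ 4
    rw [h] at h1
    have h2 : (fun t => (net M22W.L 8).pos t)^[4] 4928 = 4928 := h1.symm
    revert h2
    decide +kernel
  have hd : orderOf (zz⁻¹ : Equiv.Perm (Fin 5918)) ∣ 12 := orderOf_dvd_of_pow_eq_one h12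
  have h6' : ¬ orderOf (zz⁻¹ : Equiv.Perm (Fin 5918)) ∣ 6 := fun h => h6 (orderOf_dvd_iff_pow_eq_one.1 h)
  have h4' : ¬ orderOf (zz⁻¹ : Equiv.Perm (Fin 5918)) ∣ 4 := fun h => h4 (orderOf_dvd_iff_pow_eq_one.1 h)
  generalize orderOf (zz⁻¹ : Equiv.Perm (Fin 5918)) = n at hd h6' h4'
  have hn : n ≤ 12 := Nat.le_of_dvd (by norm_num) hd
  interval_cases n <;> simp_all <;> omega

/-- the cover with kernel of order 12 -/
theorem low : ∃ (Γ : Type) (_ : Group Γ) (_ : Finite Γ) (σ : Γ →* J), IsStemExtension σ ∧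
    Nonempty (σ.ker ≃* Multiplicative (ZMod 12)) := by
  refine Low2.low good (L := M22W.L) (k := 13) M22W.sys M22W.hn M22W.inv_ok M22W.E_ok (by decide +kernel) (es := M22W.es)
    (by decide +kernel) (by decide +kernel) (by decide +kernel) (by decide +kernel) (by decide +kernel) (by decide +kernel)
    ord_zz (w := M22W.w) (by decide +kernel) (by decide +kernel) ?_
  have h0 : M22W.w = powW [1, 2, 1, 2, 1, 3] 5 ++ powW [1, 2] 11 := by decide +kernel
  have h1 : ev x M22W.w = 1 := by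
    rw [h0, ev_append, xrels _ (by decide +kernel), ev_powW, ev_cons, ev_cons, ev_nil, mul_one, x_ab, one_mul]
  have e1 : M22W.w.count 1 = 2 * 13 := by decide +kernel
  have e2 : M22W.w.count 2 = 4 * 4 + 5 := by decide +kernel
  have e3 : M22W.w.count 3 = 5 := by decide +kernel
  rw [e1, e2, e3, h1, pow_mul (x 1), pow_add (x 2), pow_mul (x 2), x_a2, x_b4]
  simp

end Cfsg.Agent.H20.M22N
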