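import Mathlib
set_option autoImplicit false

/-! arithmetic for regular linear groups -/
namespace Cfsg.Agent.H20.NT61

theorem pow3 (e : ℕ) (he : 5 ≤ e) : 24 * e < 3 ^ e + 1 := by
  induction e, he using Nat.le_induction with
  | base => norm_num
  | succ n hn ih =>
    rw [pow_succ]
    omega

theorem pow9 (e : ℕ) (he : 2 ≤ e) : 24 * e < 9 ^ e := by
  induction e, he using Nat.le_induction with
  | base => norm_num
  | succ n hn ih =>
    rw [pow_succ]
    omega

theorem pow27 (e : ℕ) (he : 1 ≤ e) : 24 * e < 27 ^ e := by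
  induction e, he using Nat.le_induction with
  | base => norm_num
  | succ n hn ih =>
    rw [pow_succ]
    omega

/-- geometric sum bound -/
theorem geom (Q m : ℕ) (hQ : 2 ≤ Q) (N : ℕ) (h : (Q ^ m - 1) ∣ N * (Q - 1)) :
    (∑ i ∈ Finset.range m, Q ^ i) ∣ N := by
  have h1 : (∑ i ∈ Finset.range m, Q ^ i) * (Q - 1) = Q ^ m - 1 := by
    have := Nat.geomSum_eq hQ m
    rw [this]
    exact Nat.div_mul_cancel (Nat.sub_one_dvd_pow_sub_one Q m)
  rw [← h1] at h
  exact Nat.dvd_of_mul_dvd_mul_right (by omega) h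

theorem main (q e m : ℕ) (hq : q.Prime) (hq2 : q ≠ 2) (he : 1 ≤ e) (hm : 2 ≤ m)
    (h : ((q ^ e) ^ m - 1) ∣ (24 * e) * (q ^ e - 1)) : e = 1 ∧ m = 2 ∧ q + 1 ∣ 24 := by
  have hq3 : 3 ≤ q := by
    have := hq.two_le; omega
  have hQ3 : 3 ^ e ≤ q ^ e := Nat.pow_le_pow_left hq3 e
  have h3e : 3 ≤ 3 ^ e := by
    calc 3 = 3 ^ 1 := by norm_num
      _ ≤ 3 ^ e := Nat.pow_le_pow_right (by norm_num) he
  have hg := geom (q ^ e) m (by omega) (24 * e) h
  have hle := Nat.le_of_dvd (by omega) hg
  rcases (by omega : m = 2 ∨ m = 3 ∨ 4 ≤ m) with rfl | rfl | hm4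
  · have hs : (∑ i ∈ Finset.range 2, (q ^ e) ^ i) = 1 + q ^ e := by
      rw [Finset.sum_range_succ, Finset.sum_range_one]; ring
    rw [hs] at hg hle
    have he4 : e ≤ 4 := by
      by_contra hcon
      have := pow3 e (by omega)
      omega
    interval_cases e
    · refine ⟨rfl, rfl, ?_⟩
      have : q + 1 = 1 + q ^ 1 := by ring
      rw [this]; simpa using hg
    · exfalso
      have : q ≤ 6 := by nlinarith
      interval_cases q <;> revert hg hq <;> norm_num
    · exfalso
      have : q ≤ 4 := by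
        by_contra hcon
        push Not at hcon
        have : 5 ^ 3 ≤ q ^ 3 := Nat.pow_le_pow_left hcon 3
        omega
      interval_cases q <;> revert hg hq <;> norm_num
    · exfalso
      have : q ≤ 3 := by
        by_contra hcon
        push Not at hcon
        have : 4 ^ 4 ≤ q ^ 4 := Nat.pow_le_pow_left hcon 4
        omega
      interval_cases q
      revert hg; norm_num
  · exfalso
    have hs : (∑ i ∈ Finset.range 3, (q ^ e) ^ i) = 1 + q ^ e + (q ^ e) ^ 2 := by
      rw [Finset.sum_range_succ, Finset.sum_range_succ, Finset.sum_range_one]; ring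
    rw [hs] at hg hle
    rcases (by omega : e = 1 ∨ 2 ≤ e) with rfl | he2
    · have : q ≤ 4 := by
        by_contra hcon
        push Not at hcon
        rw [pow_one] at hle
        nlinarith
      interval_cases q <;> revert hg hq <;> norm_num
    · have h9 := pow9 e he2
      have h9' : 9 ^ e ≤ (q ^ e) ^ 2 := by
        calc 9 ^ e = (3 ^ e) ^ 2 := by rw [← pow_mul, mul_comm, pow_mul]; norm_num
          _ ≤ _ := Nat.pow_le_pow_left hQ3 2
      omega
  · exfalso
    have h27 := pow27 e he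
    have h27' : 27 ^ e ≤ (q ^ e) ^ 3 := by
      calc 27 ^ e = (3 ^ e) ^ 3 := by rw [← pow_mul, mul_comm, pow_mul]; norm_num
        _ ≤ _ := Nat.pow_le_pow_left hQ3 3
    have hs : (q ^ e) ^ 3 ≤ ∑ i ∈ Finset.range m, (q ^ e) ^ i :=
      Finset.single_le_sum (f := fun i => (q ^ e) ^ i) (fun _ _ => Nat.zero_le _) (Finset.mem_range.mpr (by omega))
    omega

theorem five (q : ℕ) (hq : q.Prime) (hq2 : q ≠ 2) (h : q + 1 ∣ 24) : q = 3 ∨ q = 5 ∨ q = 7 ∨ q = 11 ∨ q = 23 := by
  have h1 := Nat.le_of_dvd (by norm_num) h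
  have : q ≤ 23 := by omega
  interval_cases q <;> revert h hq hq2 <;> norm_num

end Cfsg.Agent.H20.NT61
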