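import Mathlib
set_option autoImplicit false

/-! linear groups in which every non-zero vector has a stabilizer of order 2 -/
namespace Cfsg.Agent.H20.Part

variable {q : ℕ} [Fact q.Prime] {V : Type*} [AddCommGroup V] [Module (ZMod q) V] [Finite V]
    {G : Type*} [Group G] [Finite G] (ρ : G →* (V ≃ₗ[ZMod q] V))

/-- fixed space -/
def fix (g : G) : Submodule (ZMod q) V where
  carrier := {v | ρ g v = v}
  add_mem' := fun {a b} ha hb => by
    simp only [Set.mem_setOf_eq] at *
    rw [map_add, ha, hb]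
  zero_mem' := by simp
  smul_mem' := fun c x hx => by
    simp only [Set.mem_setOf_eq] at *
    rw [map_smul, hx]

theorem mem_fix {g : G} {v : V} : v ∈ fix ρ g ↔ ρ g v = v := Iff.rfl

theorem exists_inv {v : V} (h : Nat.card {g : G // ρ g v = v} = 2) :
    ∃ t : G, orderOf t = 2 ∧ ρ t v = v ∧ ∀ g : G, ρ g v = v → g = 1 ∨ g = t := by
  classical
  let S : Subgroup G :=
    { carrier := {g | ρ g v = v}
      mul_mem' := fun {a b} ha hb => by
        simp only [Set.mem_setOf_eq] at *
        rw [map_mul, LinearEquiv.mul_apply, hb, ha]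
      one_mem' := by simp
      inv_mem' := fun {a} ha => by
        simp only [Set.mem_setOf_eq] at *
        calc ρ a⁻¹ v = ρ a⁻¹ (ρ a v) := by rw [ha]
          _ = (ρ (a⁻¹ * a)) v := by rw [map_mul]; rfl
          _ = v := by simp }
  have hS : Nat.card S = 2 := h
  obtain ⟨a, b, hab, huniv⟩ := Nat.card_eq_two_iff.mp hS
  have h1 : ∃ t : S, t ≠ 1 ∧ ∀ g : S, g = 1 ∨ g = t := by
    have h2 : ∀ g : S, g = a ∨ g = b := by
      intro g
      have : g ∈ ({a, b} : Set S) := by rw [huniv]; trivial
      simpa using this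
    rcases h2 1 with h3 | h3
    · exact ⟨b, by rw [h3]; exact hab.symm, fun g => by rw [h3]; exact h2 g⟩
    · exact ⟨a, by rw [h3]; exact hab, fun g => by rw [h3]; exact (h2 g).symm⟩
  obtain ⟨t, ht, hall⟩ := h1
  have ht2 : orderOf t = 2 := by
    have h2 : orderOf t ∣ 2 := by rw [← hS]; exact orderOf_dvd_natCard t
    rcases (Nat.dvd_prime Nat.prime_two).mp h2 with h3 | h3
    · exact absurd (orderOf_eq_one_iff.mp h3) ht
    · exact h3
  refine ⟨t, ?_, t.2, ?_⟩
  · rw [Subgroup.orderOf_coe]; exact ht2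
  · intro g hg
    rcases hall ⟨g, hg⟩ with h3 | h3
    · left; exact congrArg Subtype.val h3
    · right; exact congrArg Subtype.val h3

variable [Nontrivial V] (hρ : Function.Injective ρ)
  (hstab : ∀ v : V, v ≠ 0 → Nat.card {g : G // ρ g v = v} = 2)

include hstab in
theorem uniq {v : V} (hv : v ≠ 0) {s t : G} (hs : ρ s v = v) (ht : ρ t v = v) (hs1 : s ≠ 1) (ht1 : t ≠ 1) : s = t := by
  obtain ⟨u, _, _, hu⟩ := exists_inv ρ (hstab v hv)
  rcases hu s hs with h | h
  · exact absurd h hs1
  rcases hu t ht with h' | h'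
  · exact absurd h' ht1
  rw [h, h']

theorem apply_mul (a b : G) (v : V) : ρ (a * b) v = ρ a (ρ b v) := by
  rw [map_mul]; rfl

theorem inv_inv_apply {t : G} (ht : orderOf t = 2) (v : V) : ρ t (ρ t v) = v := by
  rw [← apply_mul]
  have : t * t = 1 := by rw [← sq, ← ht, pow_orderOf_eq_one]
  rw [this, map_one]; rfl

theorem two_smul_ne (hq : q ≠ 2) {v : V} (h : v + v = 0) : v = 0 := by
  have h2 : (2 : ZMod q) ≠ 0 := by
    intro h2
    have h3 : ((2 : ℕ) : ZMod q) = 0 := by exact_mod_cast h2
    rw [ZMod.natCast_eq_zero_iff] at h3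
    exact hq ((Nat.prime_dvd_prime_iff_eq Fact.out Nat.prime_two).mp h3)
  have h3 : (2 : ZMod q) • v = 0 := by rw [two_smul]; exact h
  exact (smul_eq_zero.mp h3).resolve_left h2

theorem char_two (hq : q = 2) (v : V) : v + v = 0 := by
  subst hq
  have h3 : (2 : ZMod 2) • v = 0 := by
    have : (2 : ZMod 2) = 0 := rfl
    rw [this, zero_smul]
  rwa [two_smul] at h3

include hstab hρ in
/-- a central involution has no non-zero fixed vector -/
theorem central_fix {z : G} (hz : orderOf z = 2) (hzc : z ∈ Subgroup.center G) {v : V} (hv : v ≠ 0) :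
    ρ z v ≠ v := by
  intro hzv
  have hz1 : z ≠ 1 := by rintro rfl; rw [orderOf_one] at hz; omega
  apply hz1
  apply hρ
  rw [map_one]
  ext w
  change ρ z w = w
  by_contra hw
  have hw0 : w ≠ 0 := by rintro rfl; exact hw (map_zero _)
  have hcz : ∀ g : G, ∀ u : V, ρ z (ρ g u) = ρ g (ρ z u) := by
    intro g u
    rw [← apply_mul, ← apply_mul, Subgroup.mem_center_iff.mp hzc g]
  by_cases hq : q = 2
  · obtain ⟨t, ht2, htw, _⟩ := exists_inv ρ (hstab w hw0)
    have ht1 : t ≠ 1 := by rintro rfl; rw [orderOf_one] at ht2; omega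
    have htz : t ≠ z := by rintro rfl; exact hw htw
    by_cases h : ρ t v = v
    · exact htz (uniq ρ hstab hv h hzv ht1 hz1)
    · have hv' : v + ρ t v ≠ 0 := by
        intro h'
        apply h
        have h2 := char_two hq v
        have h3 : v + ρ t v = v + v := by rw [h', h2]
        exact add_left_cancel h3
      have h1 : ρ t (v + ρ t v) = v + ρ t v := by
        rw [map_add, inv_inv_apply ρ ht2, add_comm]
      have h2 : ρ z (v + ρ t v) = v + ρ t v := by
        rw [map_add, hcz, hzv]
      exact htz (uniq ρ hstab hv' h1 h2 ht1 hz1)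
  · set w' := w - ρ z w with hw'
    have hzw' : ρ z w' = -w' := by
      rw [hw', map_sub, inv_inv_apply ρ hz]; abel
    have hw'0 : w' ≠ 0 := by
      intro h; apply hw; rw [hw', sub_eq_zero] at h; exact h.symm
    have hu : v + w' ≠ 0 := by
      intro h
      have h1 : v = -w' := eq_neg_of_add_eq_zero_left h
      have h2 : ρ z v = -v := by rw [h1, map_neg, hzw']
      rw [hzv] at h2
      exact hv (two_smul_ne hq (by nth_rewrite 1 [h2]; abel))
    obtain ⟨t, ht2, htu, _⟩ := exists_inv ρ (hstab _ hu)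
    have ht1 : t ≠ 1 := by rintro rfl; rw [orderOf_one] at ht2; omega
    have h3 : ρ t (v - w') = v - w' := by
      have h4 : ρ z (v + w') = v - w' := by rw [map_add, hzv, hzw']; abel
      rw [← h4, ← hcz, htu]
    have h5 : ρ t v = v := by
      have h6 : ρ t v - v + (ρ t v - v) = 0 := by
        rw [map_add] at htu
        rw [map_sub] at h3
        have h7 : ρ t v + ρ t v = v + v := by
          calc ρ t v + ρ t v = (ρ t v + ρ t w') + (ρ t v - ρ t w') := by abel
            _ = v + v := by rw [htu, h3]; abel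
        calc ρ t v - v + (ρ t v - v) = (ρ t v + ρ t v) - (v + v) := by abel
          _ = 0 := by rw [h7, sub_self]
      exact sub_eq_zero.mp (two_smul_ne hq h6)
    have h6 : t = z := uniq ρ hstab hv h5 hzv ht1 hz1
    rw [map_add, h5] at htu
    have h7 : ρ t w' = w' := add_left_cancel htu
    rw [h6, hzw'] at h7
    apply hw'0
    apply two_smul_ne hq
    nth_rewrite 1 [← h7]
    abel

include hstab hρ in
theorem q_ne_two {z : G} (hz : orderOf z = 2) (hzc : z ∈ Subgroup.center G) : q ≠ 2 := by
  intro hq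
  obtain ⟨v, hv⟩ := exists_ne (0 : V)
  by_cases h : ρ z v = v
  · exact central_fix ρ hρ hstab hz hzc hv h
  · have hv' : v + ρ z v ≠ 0 := by
      intro h'
      apply h
      have h2 := char_two hq v
      have h3 : v + ρ z v = v + v := by rw [h', h2]
      exact add_left_cancel h3
    exact central_fix ρ hρ hstab hz hzc hv' (by rw [map_add, inv_inv_apply ρ hz, add_comm])

include hstab hρ in
theorem central_neg {z : G} (hz : orderOf z = 2) (hzc : z ∈ Subgroup.center G) (v : V) : ρ z v = -v := by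
  by_contra h
  have h1 : v + ρ z v ≠ 0 := fun h' => h (eq_neg_of_add_eq_zero_right h')
  exact central_fix ρ hρ hstab hz hzc h1 (by rw [map_add, inv_inv_apply ρ hz, add_comm])

theorem finrank_fix_add {z t : G} (hq : q ≠ 2) (hzneg : ∀ v, ρ z v = -v) (ht : orderOf t = 2) :
    Module.finrank (ZMod q) (fix ρ t) + Module.finrank (ZMod q) (fix ρ (t * z)) = Module.finrank (ZMod q) V := by
  have hfm : ∀ v : V, v ∈ fix ρ (t * z) ↔ ρ t v = -v := by
    intro v
    rw [mem_fix, apply_mul, hzneg, map_neg, neg_eq_iff_eq_neg]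
  apply Submodule.finrank_add_eq_of_isCompl
  constructor
  · rw [Submodule.disjoint_def]
    intro v hv hv'
    rw [hfm] at hv'
    rw [mem_fix] at hv
    rw [hv] at hv'
    apply two_smul_ne hq
    nth_rewrite 1 [hv']
    abel
  · rw [codisjoint_iff, eq_top_iff]
    intro v _
    have h2 : (2 : ZMod q) ≠ 0 := by
      intro h2
      have h3 : ((2 : ℕ) : ZMod q) = 0 := by exact_mod_cast h2
      rw [ZMod.natCast_eq_zero_iff] at h3
      exact hq ((Nat.prime_dvd_prime_iff_eq Fact.out Nat.prime_two).mp h3)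
    have h3 : v = (2 : ZMod q)⁻¹ • (v + ρ t v) + (2 : ZMod q)⁻¹ • (v - ρ t v) := by
      rw [← smul_add]
      have h4 : v + ρ t v + (v - ρ t v) = (2 : ZMod q) • v := by rw [two_smul]; abel
      rw [h4, smul_smul, inv_mul_cancel₀ h2, one_smul]
    rw [h3]
    apply Submodule.add_mem_sup
    · apply Submodule.smul_mem
      rw [mem_fix, map_add, inv_inv_apply ρ ht, add_comm]
    · apply Submodule.smul_mem
      rw [hfm, map_sub, inv_inv_apply ρ ht]; abel

include hρ hstab in
theorem main {z : G} (hz : orderOf z = 2) (hzc : z ∈ Subgroup.center G) :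
    ∃ r : ℕ, Nat.card V = q ^ (2 * r) ∧
      Nat.card {g : G // orderOf g = 2 ∧ g ∉ Subgroup.center G} = q ^ r + 1 := by
  classical
  have hq := q_ne_two ρ hρ hstab hz hzc
  have hneg := central_neg ρ hρ hstab hz hzc
  have hcen : ∀ t : G, orderOf t = 2 → t ∈ Subgroup.center G → t = z := by
    intro t ht htc
    apply hρ
    ext v
    rw [hneg v, central_neg ρ hρ hstab ht htc v]
  have hne1 : ∀ t : G, orderOf t = 2 → t ≠ 1 := by
    rintro t ht rfl; rw [orderOf_one] at ht; omega
  have hz2 : z * z = 1 := by rw [← sq, ← hz, pow_orderOf_eq_one]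
  set T := {g : G // orderOf g = 2 ∧ g ∉ Subgroup.center G} with hT
  have hzcom : ∀ g : G, g * z = z * g := fun g => Subgroup.mem_center_iff.mp hzc g
  have htz : ∀ t : G, orderOf t = 2 ∧ t ∉ Subgroup.center G → orderOf (t * z) = 2 ∧ t * z ∉ Subgroup.center G := by
    rintro t ⟨ht, htc⟩
    have h1 : t * z ∉ Subgroup.center G := by
      intro h
      apply htc
      have h2 := (Subgroup.center G).mul_mem h hzc
      rwa [mul_assoc, hz2, mul_one] at h2
    refine ⟨?_, h1⟩
    apply orderOf_eq_prime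
    · rw [sq, mul_assoc, ← mul_assoc z t z, ← hzcom t, mul_assoc t z z, hz2, mul_one, ← sq, ← ht, pow_orderOf_eq_one]
    · rintro h; rw [h] at h1; exact h1 (Subgroup.one_mem _)
  have htau : ∀ v : V, v ≠ 0 → ∃ t : T, ρ (t : G) v = v := by
    intro v hv
    obtain ⟨t, ht, htv, _⟩ := exists_inv ρ (hstab v hv)
    refine ⟨⟨t, ht, ?_⟩, htv⟩
    intro htc
    exact central_fix ρ hρ hstab ht htc hv htv
  have hdis : ∀ s t : G, orderOf s = 2 → orderOf t = 2 → s ≠ t → Disjoint (fix ρ s) (fix ρ t) := by
    intro s t hs ht hst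
    rw [Submodule.disjoint_def]
    intro v hv hv'
    by_contra hv0
    exact hst (uniq ρ hstab hv0 hv hv' (hne1 s hs) (hne1 t ht))
  have hle : ∀ s t : G, orderOf s = 2 → orderOf t = 2 → s ≠ t →
      Module.finrank (ZMod q) (fix ρ s) + Module.finrank (ZMod q) (fix ρ t) ≤ Module.finrank (ZMod q) V := by
    intro s t hs ht hst
    rw [← Submodule.finrank_sup_add_finrank_inf_eq, (hdis s t hs ht hst).eq_bot, finrank_bot, add_zero]
    exact Submodule.finrank_le _
  have hfixne : ∀ t : G, orderOf t = 2 ∧ t ∉ Subgroup.center G → ∃ v ∈ fix ρ t, v ≠ 0 := by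
    rintro t ⟨ht, htc⟩
    by_contra hcon
    push Not at hcon
    apply htc
    have h1 : t = z := by
      apply hρ
      ext v
      rw [hneg v]
      have h2 : v + ρ t v = 0 := hcon _ (by rw [mem_fix, map_add, inv_inv_apply ρ ht, add_comm])
      exact eq_neg_of_add_eq_zero_right h2
    rw [h1]; exact hzc
  have hhalf : ∀ t : G, orderOf t = 2 ∧ t ∉ Subgroup.center G →
      2 * Module.finrank (ZMod q) (fix ρ t) = Module.finrank (ZMod q) V := by
    intro t ht
    obtain ⟨u, hu, hu0⟩ := hfixne t ht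
    obtain ⟨w, hw, hw0⟩ := hfixne (t * z) (htz t ht)
    have htne : t ≠ t * z := by
      intro h
      have := mul_eq_left.mp h.symm
      exact hne1 z hz this
    have huw : u + w ≠ 0 := by
      intro h
      have h1 : u ∈ fix ρ (t * z) := by
        rw [eq_neg_of_add_eq_zero_left h]
        exact Submodule.neg_mem _ hw
      exact hu0 (Submodule.disjoint_def.mp (hdis t (t*z) ht.1 (htz t ht).1 htne) u hu h1)
    obtain ⟨s, hs⟩ := htau _ huw
    have hst : (s : G) ≠ t := by
      intro h
      rw [h] at hs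
      have h1 : w ∈ fix ρ t := by
        have h2 := Submodule.sub_mem _ (show u + w ∈ fix ρ t from hs) hu
        rwa [add_sub_cancel_left] at h2
      exact hw0 (Submodule.disjoint_def.mp (hdis t (t*z) ht.1 (htz t ht).1 htne) w h1 hw)
    have hstz : (s : G) ≠ t * z := by
      intro h
      rw [h] at hs
      have h1 : u ∈ fix ρ (t * z) := by
        have h2 := Submodule.sub_mem _ (show u + w ∈ fix ρ (t * z) from hs) hw
        rwa [add_sub_cancel_right] at h2
      exact hu0 (Submodule.disjoint_def.mp (hdis t (t*z) ht.1 (htz t ht).1 htne) u hu h1)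
    have e1 := finrank_fix_add ρ hq hneg ht.1
    have e2 := finrank_fix_add ρ hq hneg s.2.1
    have hsz := htz s s.2
    have i1 := hle s t s.2.1 ht.1 hst
    have i2 := hle s (t * z) s.2.1 (htz t ht).1 hstz
    have i3 := hle (s * z) t hsz.1 ht.1 (by
      intro h; apply hstz; rw [← h, mul_assoc, hz2, mul_one])
    have i4 := hle (s * z) (t * z) hsz.1 (htz t ht).1 (by
      intro h; exact hst (mul_right_cancel h))
    omega
  -- V non-trivial so T nonempty
  obtain ⟨v0, hv0⟩ := exists_ne (0 : V)
  obtain ⟨t0, _⟩ := htau v0 hv0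
  set r := Module.finrank (ZMod q) (fix ρ (t0 : G)) with hr
  have hn : Module.finrank (ZMod q) V = 2 * r := (hhalf t0 t0.2).symm
  have hcardV : Nat.card V = q ^ (2 * r) := by
    rw [Module.natCard_eq_pow_finrank (K := ZMod q), Nat.card_zmod, hn]
  refine ⟨r, hcardV, ?_⟩
  have hcardfix : ∀ t : T, Nat.card (fix ρ (t : G)) = q ^ r := by
    intro t
    rw [Module.natCard_eq_pow_finrank (K := ZMod q), Nat.card_zmod]
    congr 1
    have := hhalf t t.2
    omega
  have hrpos : 0 < r := by
    have h1 : 0 < Module.finrank (ZMod q) V := Module.finrank_pos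
    omega
  -- count
  choose τ hτ using fun v : {v : V // v ≠ 0} => htau v v.2
  have hcount : Nat.card {v : V // v ≠ 0} = Nat.card T * (q ^ r - 1) := by
    rw [Nat.card_congr (Equiv.sigmaFiberEquiv τ).symm]
    have : Fintype T := Fintype.ofFinite T
    rw [Nat.card_sigma]
    have h1 : ∀ t : T, Nat.card {v : {v : V // v ≠ 0} // τ v = t} = q ^ r - 1 := by
      intro t
      have h2 : Nat.card {v : {v : V // v ≠ 0} // τ v = t} = Nat.card {w : fix ρ (t : G) // w ≠ 0} := by
        apply Nat.card_congr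
        refine Equiv.ofBijective (fun v => ⟨⟨(v : {v : V // v ≠ 0}), ?_⟩, ?_⟩) ⟨?_, ?_⟩
        · have h3 := hτ v
          rw [v.2] at h3
          exact h3
        · intro h3
          exact v.1.2 (congrArg Subtype.val h3)
        · intro a b hab
          apply Subtype.ext; apply Subtype.ext
          have h3 := congrArg (fun x => ((x : fix ρ (t : G)) : V)) (Subtype.ext_iff.mp hab)
          exact h3
        · rintro ⟨⟨w, hw⟩, hw0⟩
          have hw0' : w ≠ 0 := fun h => hw0 (Subtype.ext h)
          refine ⟨⟨⟨w, hw0'⟩, ?_⟩, rfl⟩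
          apply Subtype.ext
          exact uniq ρ hstab hw0' (hτ ⟨w, hw0'⟩) hw (hne1 _ (τ ⟨w, hw0'⟩).2.1) (hne1 _ t.2.1)
      rw [h2]
      have h3 : Nat.card {w : fix ρ (t : G) // w ≠ 0} + 1 = Nat.card (fix ρ (t : G)) := by
        have : Fintype (fix ρ (t : G)) := Fintype.ofFinite _
        rw [Nat.card_eq_fintype_card, Nat.card_eq_fintype_card, Fintype.card_subtype_compl, Fintype.card_subtype_eq]
        have : 0 < Fintype.card (fix ρ (t : G)) := Fintype.card_pos
        omega
      rw [hcardfix t] at h3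
      omega
    rw [Finset.sum_congr rfl (fun t _ => h1 t), Finset.sum_const, smul_eq_mul, Finset.card_univ, Nat.card_eq_fintype_card]
  have hcV : Nat.card {v : V // v ≠ 0} + 1 = Nat.card V := by
    have : Fintype V := Fintype.ofFinite _
    rw [Nat.card_eq_fintype_card, Nat.card_eq_fintype_card, Fintype.card_subtype_compl, Fintype.card_subtype_eq]
    have : 0 < Fintype.card V := Fintype.card_pos
    omega
  rw [hcardV, hcount] at hcV
  have hqr : 1 < q ^ r := Nat.one_lt_pow hrpos.ne' (Fact.out : q.Prime).one_lt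
  have h2 : q ^ (2 * r) = q ^ r * q ^ r := by rw [two_mul, pow_add]
  rw [h2] at hcV
  obtain ⟨x, hx⟩ : ∃ x, q ^ r = x + 2 := ⟨q ^ r - 2, by omega⟩
  rw [hx] at hcV ⊢
  have h3 : x + 2 - 1 = x + 1 := rfl
  rw [h3] at hcV
  have h4 : Nat.card T * (x + 1) = (x + 2 + 1) * (x + 1) := by nlinarith
  exact Nat.eq_of_mul_eq_mul_right (by omega) h4

end Cfsg.Agent.H20.Part
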