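import Cfsg.Agent.H20_HomF2
import Cfsg.Agent.H20_MaxAb2
import Cfsg.Agent.H20_NT61
import Cfsg.Agent.H1_Fpf
import Cfsg.Agent.H4_Transfer
set_option autoImplicit false

/-! regular solvable linear groups -/
namespace Cfsg.Agent.H20.S61
open HomF MaxAb

variable {q : ℕ} [Fact q.Prime] {V : Type*} [AddCommGroup V] [Module (ZMod q) V] [Finite V] [Nontrivial V]
  {G : Type*} [Group G] [Finite G] (ρ : G →* (V ≃ₗ[ZMod q] V))

/-- the action on `Multiplicative V` -/
def act : G →* MulAut (Multiplicative V) where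
  toFun g := AddEquiv.toMultiplicative (ρ g).toAddEquiv
  map_one' := by ext v; simp
  map_mul' g h := by ext v; simp

theorem act_apply (g : G) (v : Multiplicative V) : act ρ g v = Multiplicative.ofAdd (ρ g v.toAdd) := rfl

variable (hreg : ∀ v : V, v ≠ 0 → ∀ g : G, ρ g v = v → g = 1)

include hreg in
theorem hcyc (B : Subgroup G) (hB : Com B) : IsCyclic B := by
  let Γ := Multiplicative V ⋊[act ρ] G
  let W : Subgroup Γ := (SemidirectProduct.inl : Multiplicative V →* Γ).range
  let A : Subgroup Γ := B.map (SemidirectProduct.inr : G →* Γ)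
  have hWc : IsMulCommutative W := by
    refine ⟨⟨?_⟩⟩
    rintro ⟨_, x, rfl⟩ ⟨_, y, rfl⟩
    apply Subtype.ext
    change SemidirectProduct.inl x * SemidirectProduct.inl y = SemidirectProduct.inl y * SemidirectProduct.inl x
    rw [← map_mul, ← map_mul, mul_comm]
  have hAc : IsMulCommutative A := by
    refine ⟨⟨?_⟩⟩
    rintro ⟨_, x, hx, rfl⟩ ⟨_, y, hy, rfl⟩
    apply Subtype.ext
    change SemidirectProduct.inr x * SemidirectProduct.inr y = SemidirectProduct.inr y * SemidirectProduct.inr x
    rw [← map_mul, ← map_mul, hB x hx y hy]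
  obtain ⟨v0, hv0⟩ := exists_ne (0 : V)
  have hW : W ≠ ⊥ := by
    intro h
    have h1 : (SemidirectProduct.inl (Multiplicative.ofAdd v0) : Γ) ∈ W := ⟨_, rfl⟩
    rw [h, Subgroup.mem_bot] at h1
    have h2 : Multiplicative.ofAdd v0 = 1 := SemidirectProduct.inl_injective (h1.trans (map_one _).symm)
    exact hv0 (Multiplicative.ofAdd.injective h2)
  have hΓ : Finite Γ := Finite.of_equiv _ SemidirectProduct.equivProd.symm
  have hWn : W.Normal := by
    have : W = (SemidirectProduct.rightHom : Γ →* G).ker := SemidirectProduct.range_inl_eq_ker_rightHom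
    rw [this]; infer_instance
  have hAW : A ≤ Subgroup.normalizer (W : Set Γ) := by
    rw [Subgroup.normalizer_eq_top]; exact le_top
  have hfpf : ∀ a ∈ A, a ≠ 1 → W ⊓ Subgroup.centralizer {a} = ⊥ := by
    rintro _ ⟨b, hb, rfl⟩ hb1
    rw [eq_bot_iff]
    rintro _ ⟨⟨x, rfl⟩, hc⟩
    rw [Subgroup.mem_bot]
    have h1 := Subgroup.mem_centralizer_iff.mp hc _ rfl
    have h2 : (SemidirectProduct.inl (act ρ b x) : Γ) = SemidirectProduct.inl x := by
      rw [SemidirectProduct.inl_aut, h1, mul_assoc, ← map_mul, mul_inv_cancel, map_one, mul_one]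
    have h3 := SemidirectProduct.inl_injective h2
    rw [act_apply] at h3
    have h4 : ρ b x.toAdd = x.toAdd := congrArg Multiplicative.toAdd h3
    by_contra hx
    have hx0 : x.toAdd ≠ 0 := by
      intro h5
      apply hx
      have : x = 1 := Multiplicative.toAdd.injective h5
      rw [this, map_one]
    apply hb1
    rw [hreg _ hx0 b h4, map_one]
  have hcy := Cfsg.Agent.H1.Fpf.isCyclic_of_fpf_comm A W hW hAW hfpf
  let e : B ≃* A := B.equivMapOfInjective (SemidirectProduct.inr : G →* Γ) SemidirectProduct.inr_injective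
  exact isCyclic_of_surjective e.symm e.symm.surjective

variable (htrans : ∀ v w : V, v ≠ 0 → w ≠ 0 → ∃ g : G, ρ g v = w)

include hreg htrans in
theorem card_G : Nat.card G = Nat.card V - 1 := by
  obtain ⟨v0, hv0⟩ := exists_ne (0 : V)
  have h1 : Nat.card G = Nat.card {v : V // v ≠ 0} := by
    apply Nat.card_congr
    refine Equiv.ofBijective (fun g => ⟨ρ g v0, fun h => hv0 ((map_eq_zero_iff _ (ρ g).injective).mp h)⟩) ⟨?_, ?_⟩
    · intro g h hgh
      have h2 : ρ g v0 = ρ h v0 := congrArg Subtype.val hgh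
      have h3 : ρ (h⁻¹ * g) v0 = v0 := by
        rw [map_mul]
        change ρ h⁻¹ (ρ g v0) = v0
        rw [h2]
        change (ρ h⁻¹ * ρ h) v0 = v0
        rw [← map_mul, inv_mul_cancel, map_one]; rfl
      have h4 := hreg v0 hv0 _ h3
      exact (inv_mul_eq_one.mp h4).symm
    · rintro ⟨w, hw⟩
      obtain ⟨g, hg⟩ := htrans v0 w hv0 hw
      exact ⟨g, Subtype.ext hg⟩
  rw [h1]
  classical
  letI : Fintype V := Fintype.ofFinite V
  rw [Nat.card_eq_fintype_card, Nat.card_eq_fintype_card, Fintype.card_subtype_compl, Fintype.card_subtype_eq]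

include hreg in
/-- an involution acts as `-1` -/
theorem invol_neg {t : G} (ht : t * t = 1) (ht1 : t ≠ 1) (v : V) : ρ t v = -v := by
  have h1 : ρ t (v + ρ t v) = v + ρ t v := by
    rw [map_add]
    have : ρ t (ρ t v) = v := by
      change (ρ t * ρ t) v = v
      rw [← map_mul, ht, map_one]; rfl
    rw [this, add_comm]
  by_contra hne
  apply ht1
  refine hreg _ ?_ t h1
  intro h
  exact hne (neg_eq_of_add_eq_zero_right h).symm

theorem ringAut_comm {F : Type} [Field F] [Fintype F] [CharP F q] (f g : F ≃+* F) : f * g = g * f := by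
  letI : Algebra (ZMod q) F := ZMod.algebra F q
  have ha : ∀ (f : F ≃+* F), ∀ r : ZMod q, f (algebraMap (ZMod q) F r) = algebraMap (ZMod q) F r := by
    intro f r
    have : (f : F →+* F).comp (algebraMap (ZMod q) F) = algebraMap (ZMod q) F := Subsingleton.elim _ _
    exact congrArg (fun g : ZMod q →+* F => g r) this
  let f' : Gal(F/ZMod q) := AlgEquiv.ofRingEquiv (f := f) (ha f)
  let g' : Gal(F/ZMod q) := AlgEquiv.ofRingEquiv (f := g) (ha g)
  have hc : IsCyclic (Gal(F/ZMod q)) := inferInstance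
  have h1 : f' * g' = g' * f' := hc.commutative.is_comm.comm f' g'
  ext x
  exact congrArg (fun k : Gal(F/ZMod q) => k x) h1

end Cfsg.Agent.H20.S61
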