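import Cfsg.Agent.H20_S61
set_option autoImplicit false

/-! regular solvable linear groups: the two cases -/
namespace Cfsg.Agent.H20.S61
open HomF MaxAb

theorem q8_center : ∀ x : QuaternionGroup 2, (∀ y, x * y = y * x) → x = 1 ∨ x = .a 2 := by decide +kernel

variable {q : ℕ} [Fact q.Prime] {V : Type*} [AddCommGroup V] [Module (ZMod q) V] [Finite V] [Nontrivial V]
  {G : Type*} [Group G] [Finite G] (ρ : G →* (V ≃ₗ[ZMod q] V)) (hρ : Function.Injective ρ)
  (hreg : ∀ v : V, v ≠ 0 → ∀ g : G, ρ g v = v → g = 1)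
  (htrans : ∀ v w : V, v ≠ 0 → w ≠ 0 → ∃ g : G, ρ g v = w)

include hρ hreg in
theorem invol_eq {s t : G} (hs : s * s = 1) (hs1 : s ≠ 1) (ht : t * t = 1) (ht1 : t ≠ 1) : s = t := by
  apply hρ
  apply LinearEquiv.ext
  intro v
  rw [invol_neg ρ hreg hs hs1, invol_neg ρ hreg ht ht1]

include hρ hreg in
theorem invol_central {z : G} (hz : z * z = 1) (hz1 : z ≠ 1) (g : G) : g * z = z * g := by
  have h : g * z * g⁻¹ = z := by
    apply invol_eq ρ hρ hreg _ _ hz hz1
    · calc g * z * g⁻¹ * (g * z * g⁻¹) = g * (z * z) * g⁻¹ := by group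
        _ = 1 := by rw [hz]; group
    · intro h
      apply hz1
      calc z = g⁻¹ * (g * z * g⁻¹) * g := by group
        _ = 1 := by rw [h]; group
  calc g * z = (g * z * g⁻¹) * g := by group
    _ = _ := by rw [h]

structure Case1 (A : Subgroup G) : Prop where
  com : Com A
  semi : ∃ (F : Type) (_ : Field F) (_ : Fintype F) (_ : CharP F q) (S : G →* (F ≃+* F)), S.ker = A
  lin : ∃ (F : Type) (_ : Field F) (_ : Fintype F) (e : V ≃+ F),
        ∀ g : G, ∃ (a : F) (σ : F ≃+* F), ∀ v : V, e (ρ g v) = a * σ (e v)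

structure Case2 (A P : Subgroup G) : Prop where
  norm : P.Normal
  cent : ∀ a ∈ A, ∀ g : G, a * g = g * a
  centP : Subgroup.centralizer (P : Set G) = A
  iso : Nonempty (P ≃* QuaternionGroup 2)
  cardA : Nat.card A ∣ q - 1
  cardV : Nat.card V = q ^ 2
  hq : q = 5 ∨ q = 7 ∨ q = 11 ∨ q = 23

include hρ hreg htrans in
theorem alt (hsol : Group.IsSolvable G) : (∃ A : Subgroup G, Case1 ρ A) ∨
    (∃ A P : Subgroup G, Case2 (q := q) (V := V) A P) := by
  obtain ⟨A, hA⟩ := exists_isMax (G := G)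
  have hAn := hA.norm
  have hn : ∀ g : G, ∀ a ∈ A, g * a * g⁻¹ ∈ A := fun g a ha => hAn.conj_mem a ha g
  obtain ⟨F, _, _, _, θ, hθ⟩ := exists_field ρ hA.com hn htrans
  obtain ⟨S, hS⟩ := exists_sigma ρ θ hθ hn
  obtain ⟨e, -, he⟩ := FiniteField.card F q
  obtain ⟨m, hm, hm0⟩ := card_V θ
  have hkerC : S.ker = Subgroup.centralizer (A : Set G) := by
    ext g
    rw [MonoidHom.mem_ker, ker_sigma ρ hρ θ hθ hS, Subgroup.mem_centralizer_iff]
    constructor
    · intro h a ha; exact (h a ha).symm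
    · intro h a ha; exact (h a ha).symm
  have hidx : S.ker.index ∣ e := by
    rw [Subgroup.index_ker, ← card_aut (q := q) (F := F) e he]
    exact Subgroup.card_subgroup_dvd_card _
  have hAd : Nat.card A ∣ q ^ (e : ℕ) - 1 := by
    rw [← he]; exact card_A_dvd ρ hρ θ hθ
  have hG : Nat.card G = (q ^ (e : ℕ)) ^ m - 1 := by rw [card_G ρ hreg htrans, hm, he]
  have hq2 : 2 ≤ q := (Fact.out : q.Prime).two_le
  have he1 : 1 ≤ (e : ℕ) := e.pos
  have hQ : (e : ℕ) < q ^ (e : ℕ) := Nat.lt_pow_self (by omega)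
  rcases dich hsol (hcyc ρ hreg) hA with hC | ⟨P, hPn, hPC, ⟨f⟩, hPA⟩
  · left
    have hker : S.ker = A := by rw [hkerC, hC]
    have hG2 : Nat.card G ∣ e * (q ^ (e : ℕ) - 1) := by
      rw [← S.ker.card_mul_index, mul_comm, hker]
      rw [hker] at hidx
      exact Nat.mul_dvd_mul hidx hAd
    have hm1 : m = 1 := by
      by_contra hne
      have hm2 : 2 ≤ m := by omega
      have h1 := Nat.le_of_dvd (Nat.mul_pos he1 (by omega)) hG2
      rw [hG] at h1
      have h2 : (q ^ (e : ℕ)) ^ 2 ≤ (q ^ (e : ℕ)) ^ m := Nat.pow_le_pow_right (by omega) hm2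
      have h3 : (q ^ (e : ℕ)) ^ 2 - 1 = (q ^ (e : ℕ) + 1) * (q ^ (e : ℕ) - 1) := by
        have := Nat.sq_sub_sq (q ^ (e : ℕ)) 1
        simpa using this
      have h4 : (q ^ (e : ℕ) + 1) * (q ^ (e : ℕ) - 1) ≤ e * (q ^ (e : ℕ) - 1) := by omega
      have h5 := Nat.le_of_mul_le_mul_right h4 (by omega)
      omega
    have hcard : Nat.card V = Fintype.card F := by rw [hm, hm1, pow_one]
    obtain ⟨ε, hε⟩ := semilinear ρ θ hθ hn hcard
    exact ⟨A, hA.com, ⟨F, inferInstance, inferInstance, inferInstance, S, hker⟩,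
      ⟨F, inferInstance, inferInstance, ε, hε⟩⟩
  · right
    have hnc : ¬ Com P := by
      intro h
      have h1 := h (f.symm (.a 1)) (f.symm (.a 1)).2 (f.symm (.xa 0)) (f.symm (.xa 0)).2
      have h2 : f.symm (.a 1) * f.symm (.xa 0) = f.symm (.xa 0) * f.symm (.a 1) := Subtype.ext h1
      rw [← map_mul, ← map_mul] at h2
      exact absurd (f.symm.injective h2) (by decide)
    have hcP : Nat.card P = 8 := by
      rw [Nat.card_congr f.toEquiv, Nat.card_eq_fintype_card]; rfl
    have hm2 : 2 ≤ m := by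
      by_contra hcon
      have hm1 : m = 1 := by omega
      apply hnc
      intro a ha b hb
      apply comm_of_card ρ hρ θ hθ (by rw [hm, hm1, pow_one])
      · intro x hx; exact (Subgroup.mem_centralizer_iff.mp (hPC ha) x hx).symm
      · intro x hx; exact (Subgroup.mem_centralizer_iff.mp (hPC hb) x hx).symm
    have h8 : 8 ∣ Nat.card G := by rw [← hcP]; exact Subgroup.card_subgroup_dvd_card P
    have hqne : q ≠ 2 := by
      rintro rfl
      rw [hG, ← pow_mul] at h8
      have h2 : 2 ∣ 2 ^ ((e : ℕ) * m) := dvd_pow_self 2 (by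
        have := Nat.mul_pos he1 hm0
        omega)
      have h3 : 1 ≤ 2 ^ ((e : ℕ) * m) := Nat.one_le_two_pow
      omega
    set C := Subgroup.centralizer (A : Set G) with hCdef
    have hAC : A ≤ C := fun a ha => by
      rw [Subgroup.mem_centralizer_iff]; intro b hb; exact hA.com b hb a ha
    have hCr : ∃ r, r ∣ 24 ∧ Nat.card C = Nat.card A * r := by
      let c := (cQ hPn f).comp C.subtype
      refine ⟨Nat.card c.range, AutQ8.range_dvd c, ?_⟩
      have hk : c.ker = A.subgroupOf C := by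
        ext x
        rw [MonoidHom.mem_ker]
        change cQ hPn f (x : G) = 1 ↔ (x : G) ∈ A
        rw [← MonoidHom.mem_ker, cQ_ker, ← hPA]
        exact ⟨fun h => ⟨x.2, h⟩, fun h => h.2⟩
      rw [← c.ker.card_mul_index, Subgroup.index_ker, hk,
        Nat.card_congr (Subgroup.subgroupOfEquivOfLe hAC).toEquiv]
    obtain ⟨r, hr24, hr⟩ := hCr
    have hGdvd : Nat.card G ∣ (24 * e) * (q ^ (e : ℕ) - 1) := by
      rw [← S.ker.card_mul_index, hkerC, hr]
      rw [hkerC] at hidx
      obtain ⟨a, ha⟩ := hr24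
      obtain ⟨b, hb⟩ := hidx
      obtain ⟨c, hc⟩ := hAd
      refine ⟨a * b * c, ?_⟩
      rw [ha, hc]
      conv_lhs => rw [hb]
      ring
    rw [hG] at hGdvd
    obtain ⟨he', hm', hq24⟩ := NT61.main q e m Fact.out hqne he1 hm2 hGdvd
    have hV : Nat.card V = q ^ 2 := by rw [hm, he, he', hm', pow_one]
    have hCtop : C = ⊤ := by
      rw [hkerC, he', Nat.dvd_one, Subgroup.index_eq_one] at hidx
      exact hidx
    have hcentP : Subgroup.centralizer (P : Set G) = A := by
      rw [hCtop, top_inf_eq] at hPA; exact hPA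
    have hcent : ∀ a ∈ A, ∀ g : G, a * g = g * a := by
      intro a ha g
      have hg : g ∈ C := by rw [hCtop]; trivial
      exact Subgroup.mem_centralizer_iff.mp hg a ha
    have hAd' : Nat.card A ∣ q - 1 := by
      rw [he', pow_one] at hAd; exact hAd
    have hq3 : q ≠ 3 := by
      rintro rfl
      have hG8 : Nat.card G = 8 := by rw [card_G ρ hreg htrans, hV]; norm_num
      have hPtop : P = ⊤ := Subgroup.eq_top_of_card_eq P (by rw [hcP, hG8])
      set i : G := ((f.symm (.a 1) : P) : G) with hi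
      have hio : orderOf i = 4 := by
        rw [hi, Subgroup.orderOf_coe, MulEquiv.orderOf_eq]
        have := QuaternionGroup.orderOf_a_one (n := 2)
        simpa using this
      have hB4 : Nat.card (Subgroup.zpowers i) = 4 := by rw [Nat.card_zpowers, hio]
      have hBi : (Subgroup.zpowers i).index = 2 := by
        have := (Subgroup.zpowers i).card_mul_index
        rw [hB4, hG8] at this
        omega
      have hBn : (Subgroup.zpowers i).Normal := Subgroup.normal_of_index_eq_two hBi
      have hBc : Com (Subgroup.zpowers i) := by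
        rintro _ ⟨x, rfl⟩ _ ⟨y, rfl⟩
        simp only [← zpow_add, add_comm]
      have hAB : A ≤ Subgroup.zpowers i := by
        intro a ha
        have haP : a ∈ P := by rw [hPtop]; trivial
        have h1 : ∀ y, f ⟨a, haP⟩ * y = y * f ⟨a, haP⟩ := by
          intro y
          obtain ⟨x, rfl⟩ := f.surjective y
          rw [← map_mul, ← map_mul]
          congr 1
          exact Subtype.ext (hcent a ha x)
        rcases q8_center _ h1 with h2 | h2
        · have h3 : (⟨a, haP⟩ : P) = 1 := by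
            apply f.injective; rw [h2, map_one]
          have h4 : a = 1 := congrArg Subtype.val h3
          rw [h4]; exact one_mem _
        · have h3 : (⟨a, haP⟩ : P) = f.symm (.a 1) ^ 2 := by
            apply f.injective
            rw [h2, map_pow, f.apply_symm_apply]; decide
          have h4 : a = i ^ 2 := congrArg Subtype.val h3
          rw [h4]; exact Subgroup.pow_mem _ (Subgroup.mem_zpowers i) 2
      have hBA := hA.max _ hBn hBc hAB
      have hiA : i ∈ A := by rw [← hBA]; exact Subgroup.mem_zpowers i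
      have h1 := hcent i hiA ((f.symm (.xa 0) : P) : G)
      have h2 : f.symm (.a 1) * f.symm (.xa 0) = f.symm (.xa 0) * f.symm (.a 1) := Subtype.ext h1
      rw [← map_mul, ← map_mul] at h2
      exact absurd (f.symm.injective h2) (by decide)
    have hq5 := NT61.five q Fact.out hqne hq24
    exact ⟨A, P, hPn, hcent, hcentP, ⟨f⟩, hAd', hV, by tauto⟩

include hρ hreg htrans in
theorem exists_invol (hq : q ≠ 2) : ∃ z : G, z * z = 1 ∧ z ≠ 1 := by
  have h1 : 2 ∣ Nat.card G := by
    rw [card_G ρ hreg htrans]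
    have h2 := Module.natCard_eq_pow_finrank (K := ZMod q) (V := V)
    rw [Nat.card_zmod] at h2
    rw [h2]
    have h3 : Odd (q ^ Module.finrank (ZMod q) V) := ((Fact.out : q.Prime).odd_of_ne_two hq).pow
    obtain ⟨k, hk⟩ := h3
    rw [hk]
    exact ⟨k, by omega⟩
  have : Fact (Nat.Prime 2) := ⟨Nat.prime_two⟩
  obtain ⟨z, hz⟩ := exists_prime_orderOf_dvd_card' 2 h1
  refine ⟨z, ?_, ?_⟩
  · have := pow_orderOf_eq_one z
    rwa [hz, pow_two] at this
  · rintro rfl
    rw [orderOf_one] at hz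
    norm_num at hz

include hρ hreg htrans in
theorem index_two_case1 (hq : q ≠ 2) {A : Subgroup G} (h : Case1 ρ A) : ∃ N : Subgroup G, N.Normal ∧ N.index = 2 := by
  obtain ⟨hcom, ⟨F, _, _, _, S, hS⟩, -⟩ := h
  obtain ⟨z, hz, hz1⟩ := exists_invol ρ hρ hreg htrans hq
  suffices h : ∃ N : Subgroup G, N.index = 2 by
    obtain ⟨N, hN⟩ := h
    exact ⟨N, Subgroup.normal_of_index_eq_two hN, hN⟩
  have : Fact (Nat.Prime 2) := ⟨Nat.prime_two⟩
  by_cases h2 : 2 ∣ Nat.card S.range
  · -- even quotient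
    have hfinR : Finite S.range := Finite.of_surjective S.rangeRestrict S.rangeRestrict_surjective
    obtain ⟨k, o, ho, hko⟩ := Nat.exists_eq_pow_mul_and_not_dvd (Nat.card_pos (α := S.range)).ne' 2 (by norm_num)
    let f : G →* (F ≃+* F) :=
      { toFun := fun g => (S g) ^ o
        map_one' := by rw [map_one, one_pow]
        map_mul' := fun a b => by
          rw [map_mul, (show Commute (S a) (S b) from ringAut_comm (q := q) _ _).mul_pow] }
    obtain ⟨u, hu⟩ := exists_prime_orderOf_dvd_card' 2 h2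
    obtain ⟨g, hg⟩ := u.2
    apply Cfsg.Agent.H4.Transfer.exists_index_two_of_hom f ?_ g ?_
    · rintro ⟨_, y, rfl⟩
      refine ⟨k, Subtype.ext ?_⟩
      change ((S y) ^ o) ^ (2 ^ k) = 1
      rw [← pow_mul, mul_comm, ← hko]
      have h5 : (⟨S y, y, rfl⟩ : S.range) ^ (Nat.card S.range) = 1 := pow_card_eq_one'
      exact congrArg Subtype.val h5
    · change (S g) ^ o ≠ 1
      intro h3
      rw [hg] at h3
      have h4 : u ^ o = 1 := Subtype.ext h3
      have h5 := orderOf_dvd_of_pow_eq_one h4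
      rw [hu] at h5
      exact ho h5
  · -- Sylow 2 inside A
    have hz2 : IsPGroup 2 (Subgroup.zpowers z) := by
      rintro ⟨x, hx⟩
      obtain ⟨k, rfl⟩ := Subgroup.mem_zpowers_iff.mp hx
      refine ⟨1, Subtype.ext ?_⟩
      change (z ^ k) ^ (2 ^ 1) = 1
      rw [← zpow_natCast, ← zpow_mul, mul_comm, zpow_mul]
      norm_num
      rw [pow_two, hz, one_zpow]
    obtain ⟨T, hT⟩ := hz2.exists_le_sylow
    have hTA : (T : Subgroup G) ≤ A := by
      intro t ht
      rw [← hS, MonoidHom.mem_ker]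
      obtain ⟨k, hk⟩ := T.isPGroup' ⟨t, ht⟩
      have hk' : t ^ (2 ^ k) = 1 := congrArg Subtype.val hk
      have h5 : (⟨S t, t, rfl⟩ : S.range) ^ (Nat.card S.range) = 1 := pow_card_eq_one'
      have h6 : (⟨S t, t, rfl⟩ : S.range) ^ (2 ^ k) = 1 := Subtype.ext (by
        change (S t) ^ (2 ^ k) = 1
        rw [← map_pow, hk', map_one])
      have h7 : Nat.Coprime (2 ^ k) (Nat.card S.range) :=
        Nat.Coprime.pow_left k ((Nat.Prime.coprime_iff_not_dvd Nat.prime_two).mpr h2)
      have h8 := Nat.dvd_gcd (orderOf_dvd_of_pow_eq_one h6) (orderOf_dvd_of_pow_eq_one h5)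
      rw [h7.gcd_eq_one, Nat.dvd_one, orderOf_eq_one_iff] at h8
      exact congrArg Subtype.val h8
    apply Cfsg.Agent.H4.Transfer.exists_index_two_of_central T ⟨⟨?_⟩⟩ z (hT (Subgroup.mem_zpowers z)) hz1
    · intro n _
      exact invol_central ρ hρ hreg hz hz1 n
    · intro a b
      exact Subtype.ext (hcom a (hTA a.2) b (hTA b.2))

end Cfsg.Agent.H20.S61
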