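import Cfsg.Agent.H20_S61b
import Cfsg.Agent.H2_SL23
set_option autoImplicit false

/-! regular solvable linear groups: the quaternion case -/
namespace Cfsg.Agent.H20.S61
open HomF MaxAb AutQ8

theorem L1 : ∀ y : Q, cls y ≠ 0 → cls y ≠ 1 → y * y = (.a 1) ^ 2 ∧ y * .a 1 * y⁻¹ = (.a 1)⁻¹ ∧
    (.a 1 : Q)⁻¹ * y⁻¹ = .a 1 * y ∧ y⁻¹ * (.a 1)⁻¹ * y = .a 1 ∧ y⁻¹ * y⁻¹ = ((.a 1)⁻¹) ^ 2 := by decide +kernel

theorem L2 : ∀ y w : Q, cls y ≠ 0 → cls y ≠ 1 → cls w ≠ 0 → cls w ≠ 1 → cls w ≠ cls y →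
    w = .a 1 * y ∨ w⁻¹ = .a 1 * y := by decide +kernel

theorem L3 : ∀ σ : Equiv.Perm (Fin 4), σ 0 = 0 → Equiv.Perm.sign σ = 1 → σ ≠ 1 →
    σ 1 ≠ 0 ∧ σ 1 ≠ 1 ∧ σ (σ 1) ≠ 0 ∧ σ (σ 1) ≠ 1 ∧ σ (σ 1) ≠ σ 1 := by decide +kernel

variable {G : Type*} [Group G] [Finite G]

theorem exists_data {P : Subgroup G} (hP : P.Normal) (f : P ≃* QuaternionGroup 2) {g : G} (hg : orderOf g = 3)
    (h1 : π (cQ hP f g) ≠ 1) (hs : Equiv.Perm.sign (π (cQ hP f g)) = 1) :
    ∃ i ∈ P, ∃ j ∈ P, Cfsg.Agent.H2.SL23.Data i j g := by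
  obtain ⟨a1, a2, a3, a4, a5⟩ := L3 (π (cQ hP f g)) (π_zero _) hs h1
  set φ := cQ hP f g with hφ
  have hc1 : cls (.a 1 : Q) = 1 := by decide
  have e1 : π φ 1 = cls (φ (.a 1)) := by rw [← π_cls, hc1]
  have e2 : π φ (π φ 1) = cls (φ (φ (.a 1))) := by rw [e1, π_cls]
  rw [e2] at a3 a4 a5
  rw [e1] at a1 a2 a5
  set y := φ (.a 1) with hy
  set w := φ y with hw
  obtain ⟨b1, b2, b3, b4, b5⟩ := L1 y a1 a2
  have hconj : ∀ x : Q, g * ((f.symm x : P) : G) * g⁻¹ = ((f.symm (φ x) : P) : G) := by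
    intro x
    have h := cQ_apply hP f g (f.symm x)
    rw [f.apply_symm_apply] at h
    rw [hφ, h, f.symm_apply_apply]
  have hord : orderOf ((f.symm (.a 1) : P) : G) = 4 := by
    rw [Subgroup.orderOf_coe, MulEquiv.orderOf_eq]
    have := QuaternionGroup.orderOf_a_one (n := 2)
    simpa using this
  have hmul : ∀ x x' : Q, ((f.symm (x * x') : P) : G) = (f.symm x : P) * (f.symm x' : P) := by
    intro x x'; rw [map_mul]; rfl
  have hinv : ∀ x : Q, ((f.symm x⁻¹ : P) : G) = ((f.symm x : P) : G)⁻¹ := by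
    intro x; rw [map_inv]; rfl
  have hpow : ∀ (x : Q) (n : ℕ), ((f.symm (x ^ n) : P) : G) = ((f.symm x : P) : G) ^ n := by
    intro x n; rw [map_pow]; rfl
  rcases L2 y w a1 a2 a3 a4 a5 with h | h
  · refine ⟨(f.symm (.a 1) : P), (f.symm (.a 1)).2, (f.symm y : P), (f.symm y).2, ⟨hord, hg, ?_, ?_, ?_, ?_⟩⟩
    · rw [← hmul, b1, hpow]
    · rw [← hmul, ← hinv, ← hmul, b2, hinv]
    · rw [hconj]
    · rw [hconj, ← hw, h, hmul]
  · refine ⟨(f.symm (.a 1)⁻¹ : P), (f.symm (.a 1)⁻¹).2, (f.symm y⁻¹ : P), (f.symm y⁻¹).2, ⟨?_, hg, ?_, ?_, ?_, ?_⟩⟩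
    · rw [hinv, orderOf_inv]; exact hord
    · rw [← hmul, b5, hpow]
    · rw [← hmul, ← hinv, ← hmul, inv_inv, b4, ← hinv, inv_inv]
    · rw [hconj, map_inv, ← hy]
    · rw [hconj, map_inv, ← hw, h, ← b3, hmul]

variable {q : ℕ} [Fact q.Prime] {V : Type*} [AddCommGroup V] [Module (ZMod q) V] [Finite V] [Nontrivial V]
  (ρ : G →* (V ≃ₗ[ZMod q] V)) (hρ : Function.Injective ρ)
  (hreg : ∀ v : V, v ≠ 0 → ∀ g : G, ρ g v = v → g = 1)
  (htrans : ∀ v w : V, v ≠ 0 → w ≠ 0 → ∃ g : G, ρ g v = w)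

include hreg htrans in
theorem case2_main {A P : Subgroup G} (h : Case2 (q := q) (V := V) A P)
    (hno : ¬ ∃ N : Subgroup G, N.Normal ∧ N.index = 2) :
    ((q = 5 ∧ Nat.card G = 24 ∧ Nat.card A = 2) ∨ (q = 11 ∧ Nat.card G = 120 ∧ Nat.card A = 10)) ∧
      (∀ g : G, orderOf g = 3 → ∃ i ∈ P, ∃ j ∈ P, Cfsg.Agent.H2.SL23.Data i j g) := by
  obtain ⟨f⟩ := h.iso
  have hPn := h.norm
  set c := cQ hPn f with hc
  have hker : c.ker = A := by rw [hc, cQ_ker, h.centP]
  -- sign is trivial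
  have hsign : ∀ g, Equiv.Perm.sign (π (c g)) = 1 := by
    by_contra hcon
    push Not at hcon
    obtain ⟨g, hg⟩ := hcon
    apply hno
    obtain ⟨N, hN⟩ := Cfsg.Agent.H4.Transfer.exists_index_two_of_hom ((Equiv.Perm.sign (α := Fin 4)).comp (π.comp c))
      (by
        rintro ⟨_, y, rfl⟩
        refine ⟨1, Subtype.ext ?_⟩
        rw [pow_one]
        exact Int.units_sq _) g hg
    exact ⟨N, Subgroup.normal_of_index_eq_two hN, hN⟩
  obtain ⟨hr1, hr2⟩ := range_dvd_even c hsign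
  have hcardG : Nat.card G = Nat.card A * Nat.card c.range := by
    rw [← c.ker.card_mul_index, Subgroup.index_ker, hker]
  have hG : Nat.card G = q ^ 2 - 1 := by rw [card_G ρ hreg htrans, h.cardV]
  have hr12 : Nat.card c.range ∣ 12 := by
    obtain ⟨t, ht⟩ := hr2
    exact hr1.trans ⟨t, by rw [mul_assoc, ← ht]; norm_num⟩
  have hA4 : ¬ 4 ∣ Nat.card A := by
    intro h4
    have hcyA : IsCyclic A := hcyc ρ hreg A (fun a ha b _ => h.cent a ha b)
    obtain ⟨a, ha⟩ := IsCyclic.exists_generator (α := A)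
    have hoa : orderOf a = Nat.card A := orderOf_eq_card_of_forall_mem_zpowers ha
    obtain ⟨t, ht⟩ := h4
    have htpos : 0 < t := by
      have := Nat.card_pos (α := A)
      rw [ht] at this
      omega
    have hb : orderOf (a ^ t) = 4 := by
      rw [orderOf_pow, hoa, ht, Nat.gcd_eq_right (Dvd.intro_left 4 rfl), Nat.mul_div_cancel _ htpos]
    have hb' : orderOf ((a ^ t : A) : G) = 4 := by rw [Subgroup.orderOf_coe]; exact hb
    have h5 := key (hcyc ρ hreg) f (a := ((a ^ t : A) : G)) (fun x _ => h.cent _ (a ^ t).2 x) (by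
      rw [← hb']; exact pow_orderOf_eq_one _)
    have h6 := orderOf_dvd_of_pow_eq_one h5
    rw [hb'] at h6
    norm_num at h6
  set r := Nat.card c.range with hr
  set α := Nat.card A with hα
  have hrle := Nat.le_of_dvd (by norm_num) hr12
  have hfin : ((q = 5 ∧ Nat.card G = 24 ∧ α = 2) ∨ (q = 11 ∧ Nat.card G = 120 ∧ α = 10)) ∧ r = 12 := by
    have hAd := h.cardA
    rw [← hα] at hAd
    have e1 : α * r = q ^ 2 - 1 := by rw [← hcardG, hG]
    rcases h.hq with hq | hq | hq | hq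
    · rw [hq] at e1 hAd hG ⊢
      norm_num at e1 hAd hG
      have hle := Nat.le_of_dvd (by norm_num) hAd
      have hr' : r = 12 := by
        interval_cases α
        · omega
        · omega
        · omega
        · omega
        · exact absurd (dvd_refl 4) hA4
      exact ⟨Or.inl ⟨rfl, hG, by rw [hr'] at e1; omega⟩, hr'⟩
    · exfalso
      rw [hq] at e1 hAd
      norm_num at e1 hAd
      have hle := Nat.le_of_dvd (by norm_num) hAd
      interval_cases α
      · omega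
      · omega
      · omega
      · omega
      · norm_num at hAd
      · norm_num at hAd
      · have : r = 8 := by omega
        rw [this] at hr12; norm_num at hr12
    · rw [hq] at e1 hAd hG ⊢
      norm_num at e1 hAd hG
      have hle := Nat.le_of_dvd (by norm_num) hAd
      have hr' : r = 12 ∧ α = 10 := by
        interval_cases α <;> first | omega | (norm_num at hAd)
      exact ⟨Or.inr ⟨rfl, hG, hr'.2⟩, hr'.1⟩
    · exfalso
      rw [hq] at e1 hAd
      norm_num at e1 hAd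
      have hle := Nat.le_of_dvd (by norm_num) hAd
      nlinarith
  refine ⟨hfin.1, ?_⟩
  intro g hg
  apply exists_data hPn f hg _ (hsign g)
  intro h1
  -- g in ker (π ∘ c), of order prime to 3
  have h3 : Nat.card (π.comp c).range = 3 := by
    rw [hfin.2] at hr1
    rcases (Nat.dvd_prime Nat.prime_three).mp hr2 with h4 | h4
    · rw [h4] at hr1; norm_num at hr1
    · exact h4
  have h5 := (π.comp c).ker.card_mul_index
  rw [Subgroup.index_ker, h3] at h5
  have h6 : 3 ∣ Nat.card (π.comp c).ker := by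
    rw [← hg]
    exact Subgroup.orderOf_dvd_natCard _ (MonoidHom.mem_ker.mpr h1)
  obtain ⟨t, ht⟩ := h6
  rw [ht] at h5
  rcases hfin.1 with ⟨-, h7, -⟩ | ⟨-, h7, -⟩
  · rw [h7] at h5; omega
  · rw [h7] at h5; omega

/-- data inside a group of order 24 -/
theorem sl_of_24 (hG : Nat.card G = 24) {P : Subgroup G}
    (h : ∀ g : G, orderOf g = 3 → ∃ i ∈ P, ∃ j ∈ P, Cfsg.Agent.H2.SL23.Data i j g) :
    Nonempty (G ≃* Matrix.SpecialLinearGroup (Fin 2) (ZMod 3)) := by
  have : Fact (Nat.Prime 3) := ⟨Nat.prime_three⟩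
  obtain ⟨g, hg⟩ := exists_prime_orderOf_dvd_card' (G := G) 3 (by rw [hG]; norm_num)
  obtain ⟨i, -, j, -, d⟩ := h g hg
  exact Cfsg.Agent.H2.SL23.nonempty_sl d hG

theorem sl_of_120 (hG : Nat.card G = 120) {A P : Subgroup G} (hA : Nat.card A = 10)
    (hc : ∀ a ∈ A, ∀ g : G, a * g = g * a)
    (h : ∀ g : G, orderOf g = 3 → ∃ i ∈ P, ∃ j ∈ P, Cfsg.Agent.H2.SL23.Data i j g) :
    Nonempty (G ≃* Matrix.SpecialLinearGroup (Fin 2) (ZMod 3) × Multiplicative (ZMod 5)) := by
  have f3 : Fact (Nat.Prime 3) := ⟨Nat.prime_three⟩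
  have f5 : Fact (Nat.Prime 5) := ⟨Nat.prime_five⟩
  obtain ⟨a, ha⟩ := exists_prime_orderOf_dvd_card' (G := A) 5 (by rw [hA]; norm_num)
  have ha' : orderOf (a : G) = 5 := by rw [Subgroup.orderOf_coe]; exact ha
  set Z := Subgroup.zpowers (a : G) with hZ
  have hZ5 : Nat.card Z = 5 := by rw [hZ, Nat.card_zpowers, ha']
  have hZc : ∀ z ∈ Z, ∀ g : G, z * g = g * z := by
    intro z hz g
    have hzA : z ∈ A := (Subgroup.zpowers_le.mpr a.2) hz
    exact hc z hzA g
  have hZn : Z.Normal := ⟨fun z hz g => by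
    have : g * z * g⁻¹ = z := by rw [← hZc z hz g]; group
    rw [this]; exact hz⟩
  have hidx : Z.index = 24 := by
    have := Z.card_mul_index
    rw [hZ5, hG] at this
    omega
  obtain ⟨K, hK⟩ := Subgroup.exists_right_complement'_of_coprime (N := Z) (by rw [hZ5, hidx]; norm_num)
  have hK24 : Nat.card K = 24 := by
    have := hK.card_mul
    rw [hZ5, hG] at this
    omega
  -- elements whose order divides 24 are in K
  have hmem : ∀ x : G, x ^ 24 = 1 → x ∈ K := by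
    intro x hx
    obtain ⟨⟨z, k⟩, hzk⟩ := hK.2 x
    have hzk' : (z : G) * (k : G) = x := hzk
    have hcm : Commute (z : G) (k : G) := hZc z z.2 k
    have h1 : (z : G) ^ 24 = 1 := by
      have h2 : (k : G) ^ 24 = 1 := by
        have : k ^ 24 = 1 := by rw [← hK24]; exact pow_card_eq_one'
        exact congrArg Subtype.val this
      rw [← hzk', hcm.mul_pow, h2, mul_one] at hx
      exact hx
    have h2 : (z : G) ^ 5 = 1 := by
      have : z ^ 5 = 1 := by rw [← hZ5]; exact pow_card_eq_one'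
      exact congrArg Subtype.val this
    have h3 : (z : G) = 1 := by
      calc (z : G) = ((z : G) ^ 5) ^ 5 * ((z : G) ^ 24)⁻¹ := by
            rw [← pow_mul, ← zpow_natCast, ← zpow_natCast, ← zpow_neg, ← zpow_add]; norm_num
        _ = 1 := by rw [h1, h2]; simp
    rw [← hzk', h3, one_mul]; exact k.2
  obtain ⟨g, hg⟩ := exists_prime_orderOf_dvd_card' (G := G) 3 (by rw [hG]; norm_num)
  obtain ⟨i, -, j, -, d⟩ := h g hg
  have hiK : i ∈ K := hmem i (by
    have := pow_orderOf_eq_one i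
    rw [d.hi] at this
    calc i ^ 24 = (i ^ 4) ^ 6 := by rw [← pow_mul]
      _ = 1 := by rw [this, one_pow])
  have hjK : j ∈ K := by
    have h1 := d.h1
    apply hmem
    rw [← h1, conj_pow]
    have := pow_orderOf_eq_one i
    rw [d.hi] at this
    have h2 : i ^ 24 = 1 := by
      calc i ^ 24 = (i ^ 4) ^ 6 := by rw [← pow_mul]
        _ = 1 := by rw [this, one_pow]
    rw [h2]; group
  have hgK : g ∈ K := hmem g (by
    have := pow_orderOf_eq_one g
    rw [hg] at this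
    calc g ^ 24 = (g ^ 3) ^ 8 := by rw [← pow_mul]
      _ = 1 := by rw [this, one_pow])
  have dK : Cfsg.Agent.H2.SL23.Data (⟨i, hiK⟩ : K) ⟨j, hjK⟩ ⟨g, hgK⟩ :=
    { hi := by rw [← Subgroup.orderOf_coe]; exact d.hi
      hg := by rw [← Subgroup.orderOf_coe]; exact d.hg
      hji := Subtype.ext d.hji
      hc := Subtype.ext d.hc
      h1 := Subtype.ext d.h1
      h2 := Subtype.ext d.h2 }
  obtain ⟨e1⟩ := Cfsg.Agent.H2.SL23.nonempty_sl dK hK24
  have hZcyc : IsCyclic Z := inferInstance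
  obtain ⟨e2⟩ : Nonempty (Z ≃* Multiplicative (ZMod 5)) := by
    have := zmodCyclicMulEquiv (G := Z) hZcyc
    rw [hZ5] at this
    exact ⟨this.symm⟩
  let φ : K × Z →* G :=
    { toFun := fun x => (x.1 : G) * x.2
      map_one' := by simp
      map_mul' := fun x y => by
        have h1 : (x.2 : G) * y.1 = y.1 * x.2 := hZc _ x.2.2 _
        simp only [Prod.fst_mul, Prod.snd_mul, Subgroup.coe_mul]
        calc (x.1 : G) * y.1 * (x.2 * y.2) = x.1 * (y.1 * x.2) * y.2 := by group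
          _ = x.1 * x.2 * (y.1 * y.2) := by rw [← h1]; group }
  have hφ : Function.Bijective φ := by
    constructor
    · rw [injective_iff_map_eq_one]
      rintro ⟨k, z⟩ h1
      have h2 : (k : G) * z = 1 := h1
      have h3 : (k : G) ∈ Z := by
        have : (k : G) = (z : G)⁻¹ := eq_inv_of_mul_eq_one_left h2
        rw [this]; exact inv_mem z.2
      have h4 : (k : G) = 1 := by
        have := hK.disjoint.le_bot ⟨h3, k.2⟩
        exact this
      have h5 : (z : G) = 1 := by rw [h4, one_mul] at h2; exact h2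
      exact Prod.ext (Subtype.ext h4) (Subtype.ext h5)
    · intro x
      obtain ⟨⟨z, k⟩, hzk⟩ := hK.2 x
      refine ⟨(k, z), ?_⟩
      change (k : G) * z = x
      rw [← hZc z z.2 k]; exact hzk
  exact ⟨(MulEquiv.ofBijective φ hφ).symm.trans (e1.prodCongr e2)⟩

end Cfsg.Agent.H20.S61
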