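import Cfsg.Agent.H20_LowU
import Cfsg.Agent.H20_Mul2

/-!
Stem extensions of a perfect group `S` which is itself a stem extension of `G` with kernel of order 2.
-/

set_option autoImplicit false

namespace Cfsg.Agent.H20.StemC

open Cfsg
open scoped commutatorElement

universe u v w

section
variable {Γ : Type u} {S : Type v} {G : Type w} [Group Γ] [Group S] [Group G]

theorem perfect_of_stem {τ : Γ →* S} (hτ : IsStemExtension τ) (hS : commutator S = ⊤) : commutator Γ = ⊤ := by
  rw [eq_top_iff]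
  intro g _
  have h1 : (commutator Γ).map τ = commutator S := by
    rw [commutator_def, commutator_def, Subgroup.map_commutator]
    have : (⊤ : Subgroup Γ).map τ = ⊤ := by
      rw [← MonoidHom.range_eq_map]
      exact MonoidHom.range_eq_top.2 hτ.1
    rw [this]
  have h2 : τ g ∈ (commutator Γ).map τ := by rw [h1, hS]; trivial
  obtain ⟨c, hc, he⟩ := h2
  have h3 : g * c⁻¹ ∈ τ.ker := by rw [MonoidHom.mem_ker, map_mul, map_inv, he, mul_inv_cancel]
  have h4 := Subgroup.mul_mem _ (hτ.2.2 h3) hc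
  rwa [inv_mul_cancel_right] at h4

theorem comm_left {z : Γ} (hz : z ∈ Subgroup.center Γ) (g h : Γ) : ⁅z * g, h⁆ = ⁅g, h⁆ := by
  have h1 : (g * h * g⁻¹) * z = z * (g * h * g⁻¹) := Subgroup.mem_center_iff.1 hz _
  have h2 : (g * h * g⁻¹) * z⁻¹ = z⁻¹ * (g * h * g⁻¹) := by
    rw [eq_inv_mul_iff_mul_eq, ← mul_assoc, ← h1, mul_inv_cancel_right]
  calc ⁅z * g, h⁆ = z * ((g * h * g⁻¹) * z⁻¹) * h⁻¹ := by rw [commutatorElement_def]; group
    _ = ⁅g, h⁆ := by rw [h2, commutatorElement_def]; group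

theorem comm_right {z : Γ} (hz : z ∈ Subgroup.center Γ) (g h : Γ) : ⁅g, z * h⁆ = ⁅g, h⁆ := by
  rw [← commutatorElement_inv, comm_left hz, commutatorElement_inv]

theorem comp_stem {τ : Γ →* S} {π : S →* G} (hτ : IsStemExtension τ) (hπ : IsStemExtension π) (hS : commutator S = ⊤) :
    IsStemExtension (π.comp τ) := by
  have hp := perfect_of_stem hτ hS
  refine ⟨hπ.1.comp hτ.1, ?_, by rw [hp]; exact le_top⟩
  intro k hk
  have hk1 : τ k ∈ Subgroup.center S := hπ.2.1 hk
  have hc : ∀ g, ⁅k, g⁆ ∈ Subgroup.center Γ := by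
    intro g
    apply hτ.2.1
    rw [MonoidHom.mem_ker, map_commutatorElement, commutatorElement_eq_one_iff_mul_comm]
    exact ((Subgroup.mem_center_iff.1 hk1) (τ g)).symm
  have h0 : ∀ g, k * g * k⁻¹ = ⁅k, g⁆ * g := fun g => by rw [commutatorElement_def]; group
  have h1 : commutator Γ ≤ Subgroup.centralizer {k} := by
    rw [commutator_def, Subgroup.commutator_le]
    intro g _ h _
    rw [Subgroup.mem_centralizer_singleton_iff]
    have h2 : k * ⁅g, h⁆ * k⁻¹ = ⁅k * g * k⁻¹, k * h * k⁻¹⁆ := by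
      rw [commutatorElement_def, commutatorElement_def]; group
    rw [h0 g, h0 h, comm_left (hc g), comm_right (hc h), mul_inv_eq_iff_eq_mul] at h2
    exact h2.symm
  rw [Subgroup.mem_center_iff]
  intro g
  have h3 : g ∈ Subgroup.centralizer {k} := h1 (by rw [hp]; trivial)
  exact Subgroup.mem_centralizer_singleton_iff.1 h3

theorem card_of_surj {f : Γ →* S} (hf : Function.Surjective f) : Nat.card Γ = Nat.card f.ker * Nat.card S := by
  rw [← Subgroup.card_mul_index f.ker, Subgroup.index_ker, MonoidHom.range_eq_top.2 hf, Subgroup.card_top]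

end

section
variable {S : Type u} {G : Type u} [Group S] [Group G] [Finite S] {π : S →* G}

theorem up3 (hπ : IsStemExtension π) (hS : commutator S = ⊤) (h2 : Nat.card π.ker = 2)
    (hup : ∀ (Γ : Type u) [Group Γ] [Finite Γ] (σ : Γ →* G), IsStemExtension σ → ∃ θ : Multiplicative (ZMod 6) →* σ.ker, Function.Surjective θ)
    (Γ : Type u) [Group Γ] [Finite Γ] (τ : Γ →* S) (hτ : IsStemExtension τ) :
    ∃ θ : Multiplicative (ZMod 3) →* τ.ker, Function.Surjective θ := by
  obtain ⟨θ, hθ⟩ := hup Γ _ (comp_stem hτ hπ hS)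
  haveI : Finite G := Finite.of_surjective _ hπ.1
  have c1 : Nat.card (π.comp τ).ker ∣ 6 := by
    have h := Subgroup.card_range_dvd θ
    rw [MonoidHom.range_eq_top.2 hθ, Subgroup.card_top, Nat.card_eq_fintype_card (α := Multiplicative (ZMod 6))] at h
    exact h
  have c2 := card_of_surj (comp_stem hτ hπ hS).1
  have c3 := card_of_surj hτ.1
  have c4 := card_of_surj hπ.1
  have hG : 0 < Nat.card G := Nat.card_pos
  have c5 : Nat.card (π.comp τ).ker = Nat.card τ.ker * 2 := by
    rw [c2, c4, h2, ← mul_assoc] at c3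
    exact Nat.eq_of_mul_eq_mul_right hG c3
  have c6 : Nat.card τ.ker ∣ 3 := by
    rw [c5] at c1
    exact Nat.dvd_of_mul_dvd_mul_right (by norm_num : 0 < 2) (show Nat.card τ.ker * 2 ∣ 3 * 2 from c1)
  have c7 : Nat.card τ.ker = 1 ∨ Nat.card τ.ker = 3 := (Nat.dvd_prime Nat.prime_three).1 c6
  obtain ⟨q, hq1, hq2, hq3⟩ : ∃ q : Γ, τ q = 1 ∧ q ^ 3 = 1 ∧ ∀ z, τ z = 1 → z ∈ Subgroup.zpowers q := by
    rcases c7 with c | c
    · refine ⟨1, map_one _, one_pow _, fun z hz => ?_⟩
      have hs := (Nat.card_eq_one_iff_unique.1 c).1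
      have : (⟨z, hz⟩ : τ.ker) = 1 := Subsingleton.elim _ _
      rw [show z = 1 from congrArg Subtype.val this]
      exact one_mem _
    · haveI : Fact (Nat.Prime 3) := ⟨Nat.prime_three⟩
      haveI : IsCyclic τ.ker := isCyclic_of_prime_card c
      obtain ⟨g, hg⟩ := IsCyclic.exists_generator (α := τ.ker)
      refine ⟨g, g.2, ?_, fun z hz => ?_⟩
      · have h : g ^ Nat.card τ.ker = 1 := pow_card_eq_one'
        rw [c] at h
        exact congrArg Subtype.val h
      · obtain ⟨i, hi⟩ := Subgroup.mem_zpowers_iff.1 (hg ⟨z, hz⟩)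
        exact Subgroup.mem_zpowers_iff.2 ⟨i, congrArg Subtype.val hi⟩
  exact Mul.surj_of_cyclic hτ.2.1 hq1 hq2 hq3

theorem low3 (hπ : IsStemExtension π) (hS : commutator S = ⊤) (h2 : Nat.card π.ker = 2)
    (hlow : ∃ (Γ : Type u) (_ : Group Γ) (_ : Finite Γ) (σ : Γ →* G), IsStemExtension σ ∧ Nonempty (σ.ker ≃* Multiplicative (ZMod 3))) :
    ∃ (Γ : Type u) (_ : Group Γ) (_ : Finite Γ) (σ : Γ →* S), IsStemExtension σ ∧ Nonempty (σ.ker ≃* Multiplicative (ZMod 3)) := by
  obtain ⟨Γ, i1, i2, σ, hσ, ⟨e⟩⟩ := hlow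
  haveI : Finite G := Finite.of_surjective _ hπ.1
  have hcσ : Nat.card σ.ker = 3 := by
    rw [Nat.card_congr e.toEquiv, Nat.card_eq_fintype_card (α := Multiplicative (ZMod 3))]; rfl
  have hG : commutator G = ⊤ := by
    have h1 : (commutator S).map π = commutator G := by
      rw [commutator_def, commutator_def, Subgroup.map_commutator]
      have : (⊤ : Subgroup S).map π = ⊤ := by
        rw [← MonoidHom.range_eq_map]
        exact MonoidHom.range_eq_top.2 hπ.1
      rw [this]
    rw [← h1, hS, ← MonoidHom.range_eq_map]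
    exact MonoidHom.range_eq_top.2 hπ.1
  have hΓ := perfect_of_stem hσ hG
  -- the fibre product
  let P : Subgroup (Γ × S) := MonoidHom.eqLocus (σ.comp (MonoidHom.fst Γ S)) (π.comp (MonoidHom.snd Γ S))
  have memP : ∀ p : Γ × S, p ∈ P ↔ σ p.1 = π p.2 := fun p => Iff.rfl
  let p1 : P →* Γ := (MonoidHom.fst Γ S).comp P.subtype
  let p2 : P →* S := (MonoidHom.snd Γ S).comp P.subtype
  have s1 : Function.Surjective p1 := by
    intro a
    obtain ⟨s, hs⟩ := hπ.1 (σ a)
    exact ⟨⟨(a, s), (memP _).2 hs.symm⟩, rfl⟩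
  have s2 : Function.Surjective p2 := by
    intro s
    obtain ⟨a, ha⟩ := hσ.1 (π s)
    exact ⟨⟨(a, s), (memP _).2 ha⟩, rfl⟩
  have hk2 : ∀ z : P, p2 z = 1 → σ (p1 z) = 1 := by
    intro z hz
    have h := (memP _).1 z.2
    have h' : (z : Γ × S).2 = 1 := hz
    rw [h', map_one] at h
    exact h
  have hc2 : p2.ker ≤ Subgroup.center P := by
    intro z hz
    rw [Subgroup.mem_center_iff]
    intro g
    apply Subtype.ext
    apply Prod.ext
    · exact Subgroup.mem_center_iff.1 (hσ.2.1 (hk2 z hz)) (g : Γ × S).1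
    · have h' : (z : Γ × S).2 = 1 := hz
      show (g : Γ × S).2 * (z : Γ × S).2 = (z : Γ × S).2 * (g : Γ × S).2
      rw [h', mul_one, one_mul]
  obtain ⟨d1, _, d3⟩ := Mul.perfect_lift s2 hc2 ⊤ (by rw [← commutator_def]; exact hS)
  obtain ⟨D, hD⟩ : ∃ D : Subgroup P, D = ⁅(⊤ : Subgroup S).comap p2, (⊤ : Subgroup S).comap p2⁆ := ⟨_, rfl⟩
  rw [← hD] at d1 d3
  have hD' : D = commutator P := by rw [hD, Subgroup.comap_top, commutator_def]
  let τ : D →* S := p2.comp D.subtype
  have st : Function.Surjective τ := by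
    intro s
    have h : s ∈ D.map p2 := by rw [d1]; trivial
    obtain ⟨d, hd, he⟩ := h
    exact ⟨⟨d, hd⟩, he⟩
  have hDp : commutator D = ⊤ := by
    rw [eq_top_iff]
    intro d _
    have h1 : (d : P) ∈ (commutator D).map D.subtype := by
      rw [Subgroup.map_subtype_commutator, d3]; exact d.2
    obtain ⟨d', hd', he⟩ := h1
    rwa [show d' = d from Subtype.ext he] at hd'
  have hst : IsStemExtension τ := by
    refine ⟨st, ?_, by rw [hDp]; exact le_top⟩
    intro z hz
    rw [Subgroup.mem_center_iff]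
    intro g
    apply Subtype.ext
    exact Subgroup.mem_center_iff.1 (hc2 (show p2 (z : P) = 1 from hz)) g
  -- the kernel
  let ψ : τ.ker →* σ.ker := MonoidHom.mk' (fun z => ⟨p1 ((z : D) : P), hk2 _ z.2⟩) (by
    intro a b
    apply Subtype.ext
    show p1 (((a * b : τ.ker) : D) : P) = p1 ((a : D) : P) * p1 ((b : D) : P)
    rw [← map_mul]; rfl)
  have hinj : Function.Injective ψ := by
    rw [injective_iff_map_eq_one]
    intro z hz
    apply Subtype.ext
    apply Subtype.ext
    apply Subtype.ext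
    apply Prod.ext
    · exact congrArg Subtype.val hz
    · exact z.2
  have hdvd : Nat.card τ.ker ∣ 3 := by
    rw [← hcσ]; exact Subgroup.card_dvd_of_injective ψ hinj
  have hne : Nat.card τ.ker ≠ 1 := by
    intro h1
    have c1 := card_of_surj st
    have c2 := card_of_surj hπ.1
    have c3 := card_of_surj hσ.1
    rw [h1, one_mul, c2, h2] at c1
    rw [hcσ] at c3
    have hs : Function.Surjective (p1.comp D.subtype) := by
      intro a
      have h : (commutator P).map p1 = ⊤ := by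
        rw [commutator_def, Subgroup.map_commutator]
        have : (⊤ : Subgroup P).map p1 = ⊤ := by
          rw [← MonoidHom.range_eq_map]
          exact MonoidHom.range_eq_top.2 s1
        rw [this, ← commutator_def, hΓ]
      have h' : a ∈ D.map p1 := by rw [hD', h]; trivial
      obtain ⟨d, hd, he⟩ := h'
      exact ⟨⟨d, hd⟩, he⟩
    have hle : Nat.card Γ ≤ Nat.card D := Nat.card_le_card_of_surjective _ hs
    rw [c1, c3] at hle
    have hG : 0 < Nat.card G := Nat.card_pos
    omega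
  have hc3 : Nat.card τ.ker = 3 := by
    rcases (Nat.dvd_prime Nat.prime_three).1 hdvd with h | h
    · exact absurd h hne
    · exact h
  have hbij : Function.Bijective ψ := (Nat.bijective_iff_injective_and_card ψ).2 ⟨hinj, by rw [hc3, hcσ]⟩
  exact ⟨D, inferInstance, inferInstance, τ, hst, ⟨(MulEquiv.ofBijective ψ hbij).trans e⟩⟩

end

end Cfsg.Agent.H20.StemC
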