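import Cfsg.Agent.H20_U3D
import Cfsg.Agent.H20_J2Sim
import Cfsg.Agent.H5_Unit
import Cfsg.Agent.S0280
import Cfsg.Agent.H15_LawsCl
set_option autoImplicit false

/-! the point stabiliser of order 6048 is `PSU(3,3)` -/
namespace Cfsg.Agent.H20.U3
open Matrix U3D Cfsg.Agent.H20.J2P

/-! ### Gaussian integers modulo 3 -/

def mulG (x y : Z2) : Z2 := (x.1 * y.1 - x.2 * y.2, x.1 * y.2 + x.2 * y.1)
def addG (x y : Z2) : Z2 := (x.1 + y.1, x.2 + y.2)
def subG (x y : Z2) : Z2 := (x.1 - y.1, x.2 - y.2)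
def z3 (x : Z2) : Bool := decide (x.1 % 3 = 0) && decide (x.2 % 3 = 0)

def gv (v : Z2 × Z2 × Z2) (k : ℕ) : Z2 := if k = 0 then v.1 else if k = 1 then v.2.1 else v.2.2
def V0 : Z2 × Z2 × Z2 := ((0, 0), (0, 0), (0, 0))

/-- the generator `x` acts on the points as the matrix `mt` -/
def chkG (x : ℕ) (mt : List (List Z2)) (sc : List Z2) : Bool := (List.range 64).all fun p => Nat.beq p 0 ||
  (!(z3 (sc.getD p (0, 0))) && (Nat.blt (dg x p) 64 && (!(Nat.beq (dg x p) 0) && (List.range 3).all fun r =>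
    z3 (subG (addG (addG (mulG ((mt.getD r []).getD 0 (0, 0)) (gv (VP.getD p V0) 0)) (mulG ((mt.getD r []).getD 1 (0, 0)) (gv (VP.getD p V0) 1)))
      (mulG ((mt.getD r []).getD 2 (0, 0)) (gv (VP.getD p V0) 2))) (mulG (sc.getD p (0, 0)) (gv (VP.getD (dg x p) V0) r))))))

theorem chkG1 : chkG (A1_K.getD 0 0) mt1 sc1 = true := by decide +kernel
theorem chkG2 : chkG (A1_K.getD 1 0) mt2 sc2 = true := by decide +kernel

/-- distinct points are not proportional -/
def chkN : Bool := (List.range 64).all fun p => (List.range p).all fun q => Nat.beq q 0 ||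
  [(0, 1), (0, 2), (1, 2)].any fun ij => !(z3 (subG (mulG (gv (VP.getD p V0) ij.1) (gv (VP.getD q V0) ij.2))
    (mulG (gv (VP.getD p V0) ij.2) (gv (VP.getD q V0) ij.1))))

theorem chkN_ok : chkN = true := by decide +kernel

section
variable {F : Type*} [Field F] (i : F)

/-- evaluation -/
def e (x : Z2) : F := (x.1 : F) + x.2 * i

theorem e_mul (hi : i ^ 2 + 1 = 0) (x y : Z2) : e i (mulG x y) = e i x * e i y := by
  simp only [e, mulG]; push_cast; linear_combination (-(x.2 * y.2 : F)) * hi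
theorem e_add (x y : Z2) : e i (addG x y) = e i x + e i y := by
  simp only [e, addG]; push_cast; ring
theorem e_sub (x y : Z2) : e i (subG x y) = e i x - e i y := by
  simp only [e, subG]; push_cast; ring

theorem cast_zero (h3 : (3 : F) = 0) {a : ℤ} (h : a % 3 = 0) : (a : F) = 0 := by
  obtain ⟨b, rfl⟩ := Int.dvd_of_emod_eq_zero h
  push_cast; rw [h3, zero_mul]

theorem e_zero (h3 : (3 : F) = 0) {x : Z2} (h : z3 x = true) : e i x = 0 := by
  simp only [z3, Bool.and_eq_true, decide_eq_true_eq] at h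
  rw [e, cast_zero h3 h.1, cast_zero h3 h.2]; ring

theorem cast_mod (h3 : (3 : F) = 0) (a : ℤ) : (a : F) = 0 ∨ (a : F) = 1 ∨ (a : F) = -1 := by
  have h : a % 3 = 0 ∨ (a - 1) % 3 = 0 ∨ (a + 1) % 3 = 0 := by omega
  rcases h with h | h | h
  · left; exact cast_zero h3 h
  · right; left
    have := cast_zero h3 h
    push_cast at this
    linear_combination this
  · right; right
    have := cast_zero h3 h
    push_cast at this
    linear_combination this

theorem mod_of_cast (h3 : (3 : F) = 0) {a : ℤ} (h : (a : F) = 0) : a % 3 = 0 := by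
  by_contra hne
  have h1 : (a - 1) % 3 = 0 ∨ (a + 1) % 3 = 0 := by omega
  rcases h1 with h1 | h1
  · have := cast_zero h3 h1
    push_cast at this
    rw [h] at this
    apply one_ne_zero (α := F)
    linear_combination -this
  · have := cast_zero h3 h1
    push_cast at this
    rw [h] at this
    apply one_ne_zero (α := F)
    linear_combination this

theorem e_ne (h3 : (3 : F) = 0) (hi : i ^ 2 + 1 = 0) {x : Z2} (h : z3 x = false) : e i x ≠ 0 := by
  intro h0
  have h2 : (2 : F) ≠ 0 := by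
    intro h
    apply one_ne_zero (α := F)
    linear_combination h3 - h
  have h1 : ((x.1 : F) + x.2 * i) * (x.1 - x.2 * i) = 0 := by rw [show (x.1 : F) + x.2 * i = 0 from h0, zero_mul]
  have h4 : (x.1 : F) ^ 2 + (x.2 : F) ^ 2 = 0 := by linear_combination h1 + (x.2 : F) ^ 2 * hi
  have h5 : (x.1 : F) = 0 ∧ (x.2 : F) = 0 := by
    rcases cast_mod h3 x.1 with ha | ha | ha <;> rcases cast_mod h3 x.2 with hb | hb | hb <;> rw [ha, hb] at h4 ⊢
    · exact ⟨rfl, rfl⟩
    · exact absurd (by linear_combination h4) (one_ne_zero (α := F))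
    · exact absurd (by linear_combination h4) (one_ne_zero (α := F))
    · exact absurd (by linear_combination h4) (one_ne_zero (α := F))
    · exact absurd (by linear_combination h4) h2
    · exact absurd (by linear_combination h4) h2
    · exact absurd (by linear_combination h4) (one_ne_zero (α := F))
    · exact absurd (by linear_combination h4) h2
    · exact absurd (by linear_combination h4) h2
  have h6 := mod_of_cast h3 h5.1
  have h7 := mod_of_cast h3 h5.2
  simp [z3, h6, h7] at h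

def vf (p : ℕ) : Fin 3 → F := fun k => e i (gv (VP.getD p V0) k)

def Mt (mt : List (List Z2)) : Matrix (Fin 3) (Fin 3) F := fun r k => e i ((mt.getD r []).getD k (0, 0))

/-- the relation: `h` acts as `M` -/
def R (h : P) (M : Matrix (Fin 3) (Fin 3) F) : Prop := ∀ p : Fin 100, 0 < (p : ℕ) → (p : ℕ) < 64 →
  (0 < ((h p : Fin 100) : ℕ) ∧ ((h p : Fin 100) : ℕ) < 64) ∧ ∃ c : F, c ≠ 0 ∧ M *ᵥ (vf i p) = c • vf i (h p)

theorem R_gen (h3 : (3 : F) = 0) (hi : i ^ 2 + 1 = 0) {x : ℕ} {mt : List (List Z2)} {sc : List Z2} (h : chkG x mt sc = true)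
    {g : P} (hg : Rep g x) : R i g (Mt i mt) := by
  intro p hp0 hp
  have h1 := List.all_eq_true.1 h p (List.mem_range.2 hp)
  simp only [Bool.or_eq_true, Bool.and_eq_true, List.all_eq_true, List.mem_range, Nat.blt_eq, Bool.not_eq_true'] at h1
  rcases h1 with h1 | ⟨h1, h2, h4, h5⟩
  · exact absurd (Nat.eq_of_beq_eq_true h1) (by omega)
  rw [hg.1 p] at h2 h4 h5
  refine ⟨⟨?_, h2⟩, e i (sc.getD p (0, 0)), e_ne i h3 hi h1, ?_⟩
  · rcases Nat.eq_zero_or_pos ((g p : Fin 100) : ℕ) with h0 | h0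
    · rw [h0] at h4; exact absurd h4 (by decide)
    · exact h0
  · funext r
    have h6 := e_zero i h3 (h5 r r.2)
    rw [e_sub, e_add, e_add, e_mul i hi, e_mul i hi, e_mul i hi, e_mul i hi] at h6
    rw [Matrix.mulVec, dotProduct, Fin.sum_univ_three, Pi.smul_apply, smul_eq_mul]
    exact sub_eq_zero.1 h6

theorem R_mul {h h' : P} {M M' : Matrix (Fin 3) (Fin 3) F} (H1 : R i h M) (H2 : R i h' M') : R i (h * h') (M * M') := by
  intro p hp0 hp
  obtain ⟨⟨a1, a2⟩, c, hc, a3⟩ := H2 p hp0 hp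
  obtain ⟨b1, d, hd, b3⟩ := H1 (h' p) a1 a2
  refine ⟨b1, d * c, mul_ne_zero hd hc, ?_⟩
  rw [← Matrix.mulVec_mulVec, a3, Matrix.mulVec_smul, b3, smul_smul, mul_comm c d]
  rfl

theorem R_one : R i (1 : P) (1 : Matrix (Fin 3) (Fin 3) F) := by
  intro p hp0 hp
  exact ⟨⟨hp0, hp⟩, 1, one_ne_zero, by rw [Matrix.one_mulVec, one_smul]; rfl⟩

theorem R_inv {h : P} {M M' : Matrix (Fin 3) (Fin 3) F} (hM : M' * M = 1) (H1 : R i h M) : R i h⁻¹ M' := by
  intro p hp0 hp
  -- `h` permutes the 63 points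
  have hsurj : ∃ q : Fin 100, (0 < (q : ℕ) ∧ (q : ℕ) < 64) ∧ h q = p := by
    let S : Finset (Fin 100) := Finset.univ.filter fun q => 0 < (q : ℕ) ∧ (q : ℕ) < 64
    have hmap : ∀ q ∈ S, h q ∈ S := by
      intro q hq
      simp only [S, Finset.mem_filter, Finset.mem_univ, true_and] at hq ⊢
      exact (H1 q hq.1 hq.2).1
    have hpS : p ∈ S := by
      simp only [S, Finset.mem_filter, Finset.mem_univ, true_and]
      exact ⟨hp0, hp⟩
    obtain ⟨q, hq, hqp⟩ := Finset.surjOn_of_injOn_of_card_le (s := S) (t := S) (fun q => h q) hmap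
      (fun a _ b _ hab => h.injective hab) le_rfl hpS
    simp only [S, Finset.coe_filter, Finset.mem_univ, true_and, Set.mem_setOf_eq] at hq
    exact ⟨q, hq, hqp⟩
  obtain ⟨q, ⟨hq0, hq⟩, rfl⟩ := hsurj
  obtain ⟨_, c, hc, h1⟩ := H1 q hq0 hq
  have h2 : h⁻¹ (h q) = q := h.symm_apply_apply q
  rw [h2]
  refine ⟨⟨hq0, hq⟩, c⁻¹, inv_ne_zero hc, ?_⟩
  have h3 := congrArg (fun w => M' *ᵥ w) h1
  simp only [Matrix.mulVec_mulVec, hM, Matrix.one_mulVec, Matrix.mulVec_smul] at h3
  rw [h3, smul_smul, inv_mul_cancel₀ hc, one_smul]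

/-- points are determined by their vectors up to scalars -/
theorem pt_eq (h3 : (3 : F) = 0) (hi : i ^ 2 + 1 = 0) {p q : ℕ} (hp0 : 0 < p) (hp : p < 64) (hq0 : 0 < q) (hq : q < 64)
    {c : F} (h : vf i p = c • vf i q) : p = q := by
  have key : ∀ p q : ℕ, 0 < q → q < p → p < 64 → ∀ c d : F, (c ≠ 0 ∨ d ≠ 0) → c • vf i p = d • vf i q → False := by
    intro p q hq0 hqp hp c d hcd h
    have h1 := List.all_eq_true.1 (List.all_eq_true.1 chkN_ok p (List.mem_range.2 hp)) q (List.mem_range.2 hqp)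
    simp only [Bool.or_eq_true, List.any_eq_true, Bool.not_eq_true'] at h1
    rcases h1 with h1 | ⟨⟨a, b⟩, hab, h1⟩
    · exact absurd (Nat.eq_of_beq_eq_true h1) (by omega)
    have h2 := e_ne i h3 hi h1
    rw [e_sub, e_mul i hi, e_mul i hi] at h2
    have hlt : a < 3 ∧ b < 3 := by
      simp only [List.mem_cons, Prod.mk.injEq, List.not_mem_nil, or_false] at hab
      omega
    have ha := congrFun h ⟨a, hlt.1⟩
    have hb := congrFun h ⟨b, hlt.2⟩
    simp only [Pi.smul_apply, smul_eq_mul, vf] at ha hb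
    simp only at h2
    rcases hcd with hc | hd
    · apply h2
      have : c * (e i (gv (VP.getD p V0) a) * e i (gv (VP.getD q V0) b) - e i (gv (VP.getD p V0) b) * e i (gv (VP.getD q V0) a)) = 0 := by
        linear_combination e i (gv (VP.getD q V0) b) * ha - e i (gv (VP.getD q V0) a) * hb
      exact (mul_eq_zero.1 this).resolve_left hc
    · apply h2
      have : d * (e i (gv (VP.getD p V0) a) * e i (gv (VP.getD q V0) b) - e i (gv (VP.getD p V0) b) * e i (gv (VP.getD q V0) a)) = 0 := by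
        linear_combination e i (gv (VP.getD p V0) b) * ha - e i (gv (VP.getD p V0) a) * hb
      exact (mul_eq_zero.1 this).resolve_left hd
  rcases Nat.lt_trichotomy p q with h1 | h1 | h1
  · exact absurd h (fun h => key q p hp0 h1 hq c 1 (Or.inr one_ne_zero) (by rw [one_smul, h]))
  · exact h1
  · exact absurd h (fun h => key p q hq0 h1 hp 1 c (Or.inl one_ne_zero) (by rw [one_smul, h]))

theorem R_scalar (h3 : (3 : F) = 0) (hi : i ^ 2 + 1 = 0) {h : P} (hh : h ∈ H) {c : F} (hR : R i h (c • (1 : Matrix (Fin 3) (Fin 3) F))) :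
    h = 1 := by
  have key : ∀ p : Fin 100, 0 < (p : ℕ) → (p : ℕ) < 64 → h p = p := by
    intro p hp0 hp
    obtain ⟨⟨a1, a2⟩, d, hd, h1⟩ := hR p hp0 hp
    rw [Matrix.smul_mulVec, Matrix.one_mulVec] at h1
    apply Fin.ext
    refine pt_eq i h3 hi a1 a2 hp0 hp (c := d⁻¹ * c) ?_
    rw [mul_smul, h1, smul_smul, inv_mul_cancel₀ hd, one_smul]
  exact base4 (H_le hh) (H_fix h hh) (key 1 (by decide) (by decide)) (key 2 (by decide) (by decide)) (key 3 (by decide) (by decide))

/-- a matrix of determinant one fixing all points is the identity -/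
theorem R_id (h3 : (3 : F) = 0) {M : Matrix (Fin 3) (Fin 3) F} (hM : M.det = 1) (hR : R i (1 : P) M) : M = 1 := by
  obtain ⟨_, a, _, ha⟩ := hR 62 (by decide) (by decide)
  obtain ⟨_, b, _, hb⟩ := hR 39 (by decide) (by decide)
  obtain ⟨_, c, _, hc⟩ := hR 60 (by decide) (by decide)
  obtain ⟨_, d, _, hd⟩ := hR 2 (by decide) (by decide)
  obtain ⟨_, f, _, hf⟩ := hR 15 (by decide) (by decide)
  have v62 : vf i ((62 : Fin 100) : ℕ) = ![1, 0, 0] := by
    funext k; fin_cases k <;> simp [vf, e, VP, gv]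
  have v39 : vf i ((39 : Fin 100) : ℕ) = ![0, 1, 0] := by
    funext k; fin_cases k <;> simp [vf, e, VP, gv]
  have v60 : vf i ((60 : Fin 100) : ℕ) = ![0, 0, 1] := by
    funext k; fin_cases k <;> simp [vf, e, VP, gv]
  have v2 : vf i ((2 : Fin 100) : ℕ) = ![1, 1, 0] := by
    funext k; fin_cases k <;> simp [vf, e, VP, gv]
  have v15 : vf i ((15 : Fin 100) : ℕ) = ![0, 1, 1] := by
    funext k; fin_cases k <;> simp [vf, e, VP, gv]
  rw [Equiv.Perm.one_apply, v62] at ha
  rw [Equiv.Perm.one_apply, v39] at hb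
  rw [Equiv.Perm.one_apply, v60] at hc
  rw [Equiv.Perm.one_apply, v2] at hd
  rw [Equiv.Perm.one_apply, v15] at hf
  have ea := fun k => congrFun ha k
  have eb := fun k => congrFun hb k
  have ec := fun k => congrFun hc k
  have ed := fun k => congrFun hd k
  have ef := fun k => congrFun hf k
  simp only [Matrix.mulVec, dotProduct, Fin.sum_univ_three, Pi.smul_apply, smul_eq_mul] at ea eb ec ed ef
  have a0 := ea 0
  have a1 := ea 1
  have a2 := ea 2
  have b0 := eb 0
  have b1 := eb 1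
  have b2 := eb 2
  have c0 := ec 0
  have c1 := ec 1
  have c2 := ec 2
  have d0 := ed 0
  have d1 := ed 1
  have f1 := ef 1
  have f2 := ef 2
  simp at a0 a1 a2 b0 b1 b2 c0 c1 c2 d0 d1 f1 f2
  have hab : a = b := by
    rw [a0, b0, add_zero] at d0
    rw [a1, b1, zero_add] at d1
    rw [d0, d1]
  have hbc : b = c := by
    rw [b1, c1, add_zero] at f1
    rw [b2, c2, zero_add] at f2
    rw [f1, f2]
  subst hab
  subst hbc
  rw [det_fin_three, a0, a1, a2, b0, b1, b2, c0, c1, c2] at hM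
  have hcube : (a - 1) ^ 3 = 0 := by
    linear_combination hM + (-a ^ 2 + a) * h3
  have h1 : a = 1 := by
    have := pow_eq_zero_iff (n := 3) (by norm_num) |>.1 hcube
    exact sub_eq_zero.1 this
  subst h1
  ext r k
  fin_cases r <;> fin_cases k <;> simp [a0, a1, a2, b0, b1, b2, c0, c1, c2]

end

end Cfsg.Agent.H20.U3
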