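import Cfsg.Agent.H20_U3
set_option autoImplicit false

/-! the point stabiliser of order 6048 is `PSU(3,3)` -/
namespace Cfsg.Agent.H20.U3
open Matrix U3D Cfsg.Agent.H20.J2P Cfsg.Agent.H5.Unit

section
variable {F : Type*} [Field F] (i : F)

theorem un1 (h3 : (3 : F) = 0) (hi : i ^ 2 + 1 = 0) (σ : F →+* F) (hs : σ i = -i) :
    (Mt i mt1)ᵀ * (Mt i mt1).map σ = 1 := by
  have s2 : σ 2 = 2 := map_ofNat σ 2
  ext a b
  rw [Matrix.mul_apply, Fin.sum_univ_three]
  fin_cases a <;> fin_cases b <;> simp [Mt, mt1, e, hs, s2] <;>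
    first | ring1 | linear_combination hi | linear_combination (-1) * hi | linear_combination (-4) * hi + h3 | linear_combination h3

theorem un2 (h3 : (3 : F) = 0) (hi : i ^ 2 + 1 = 0) (σ : F →+* F) (hs : σ i = -i) :
    (Mt i mt2)ᵀ * (Mt i mt2).map σ = 1 := by
  have s2 : σ 2 = 2 := map_ofNat σ 2
  ext a b
  rw [Matrix.mul_apply, Fin.sum_univ_three]
  fin_cases a <;> fin_cases b <;> simp [Mt, mt2, e, hs, s2] <;>
    first | ring1 | linear_combination (-2) * hi + 2 * h3 | linear_combination (-5) * hi + 2 * h3 |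
      linear_combination (-3) * hi + (2 - i) * h3 | linear_combination (-3) * hi + (2 + i) * h3

theorem det1 (h3 : (3 : F) = 0) (hi : i ^ 2 + 1 = 0) : (Mt i mt1).det = 1 := by
  simp [Mt, mt1, e, det_fin_three]
  linear_combination (-4) * hi + h3

theorem det2 (h3 : (3 : F) = 0) (hi : i ^ 2 + 1 = 0) : (Mt i mt2).det = 1 := by
  simp [Mt, mt2, e, det_fin_three]
  linear_combination hi - h3

end

theorem psu_iso {F : Type*} [Field F] [Fintype F] (hF : Fintype.card F = 9) : Nonempty (H ≃* Cfsg.PSU 3 F 3) := by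
  classical
  have hF' : Fintype.card F = 3 ^ 2 := hF
  have h3 : (3 : F) = 0 := by
    have := Nat.cast_card_eq_zero F
    rw [hF] at this
    have h : (3 : F) * 3 = 0 := by
      rw [← this]; norm_num
    exact mul_self_eq_zero.1 h
  have hchar : CharP F 3 := ringChar.of_eq (CharP.ringChar_of_prime_eq_zero Nat.prime_three (by exact_mod_cast h3))
  have hexp : ExpChar F 3 := ExpChar.prime Nat.prime_three
  let σ : F →+* F := frobenius F 3
  have hσ : ∀ x, σ x = x ^ 3 := fun x => rfl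
  obtain ⟨i, hi⟩ : ∃ i : F, i ^ 2 + 1 = 0 := by
    have h1 : IsSquare (-1 : F) := FiniteField.isSquare_neg_one_iff.2 (by rw [hF]; norm_num)
    obtain ⟨i, hi⟩ := h1
    exact ⟨i, by rw [pow_two, ← hi]; ring⟩
  have hs : σ i = -i := by
    rw [hσ]
    linear_combination i * hi
  let S1 : Matrix.SpecialLinearGroup (Fin 3) F := ⟨Mt i mt1, det1 i h3 hi⟩
  let S2 : Matrix.SpecialLinearGroup (Fin 3) F := ⟨Mt i mt2, det2 i h3 hi⟩
  have hS1 : S1 ∈ Cfsg.SU 3 F 3 := H15.LawsCl.su_mem σ hσ _ (un1 i h3 hi σ hs)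
  have hS2 : S2 ∈ Cfsg.SU 3 F 3 := H15.LawsCl.su_mem σ hσ _ (un2 i h3 hi σ hs)
  -- every element of `H` acts as a matrix of `SU`
  have hex : ∀ h ∈ H, ∃ g : Cfsg.SU 3 F 3, R i h (mat g) := by
    intro h hh
    have hh' : h ∈ grp A1_K := hh
    induction hh' using Subgroup.closure_induction with
    | mem h hm =>
      obtain ⟨p, hp, hr⟩ := hm
      have hp' : p = A1_K.getD 0 0 ∨ p = A1_K.getD 1 0 := by
        have : A1_K = [A1_K.getD 0 0, A1_K.getD 1 0] := by decide +kernel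
        rw [this] at hp
        simpa using hp
      rcases hp' with rfl | rfl
      · exact ⟨⟨S1, hS1⟩, R_gen i h3 hi chkG1 hr⟩
      · exact ⟨⟨S2, hS2⟩, R_gen i h3 hi chkG2 hr⟩
    | one => exact ⟨1, R_one i⟩
    | mul x y hx hy ihx ihy =>
      obtain ⟨g, hg⟩ := ihx hx
      obtain ⟨g', hg'⟩ := ihy hy
      exact ⟨g * g', by rw [mat_mul]; exact R_mul i hg hg'⟩
    | inv x hx ihx =>
      obtain ⟨g, hg⟩ := ihx hx
      refine ⟨g⁻¹, R_inv i ?_ hg⟩
      rw [← mat_mul, inv_mul_cancel]; rfl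
  have huniq : ∀ h ∈ H, ∀ g g' : Cfsg.SU 3 F 3, R i h (mat g) → R i h (mat g') → g = g' := by
    intro h hh g g' h1 h2
    have h4 : R i h⁻¹ (mat g'⁻¹) := R_inv i (by rw [← mat_mul, inv_mul_cancel]; rfl) h2
    have h5 := R_mul i h4 h1
    rw [inv_mul_cancel, ← mat_mul] at h5
    have h6 := R_id i h3 (by exact (g'⁻¹ * g).1.2) h5
    have h7 : g'⁻¹ * g = 1 := Subtype.ext (Subtype.ext h6)
    exact (inv_mul_eq_one.1 h7).symm
  let f : H →* Cfsg.SU 3 F 3 := MonoidHom.mk' (fun h => (hex h h.2).choose) (by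
    intro a b
    exact huniq _ (a * b).2 _ _ (hex (a * b : H) (a * b).2).choose_spec
      (by rw [mat_mul]; exact R_mul i (hex a a.2).choose_spec (hex b b.2).choose_spec))
  have hf : ∀ h : H, R i (h : P) (mat (f h)) := fun h => (hex h h.2).choose_spec
  let π : Cfsg.SU 3 F 3 →* Cfsg.PSU 3 F 3 := QuotientGroup.mk' _
  have hinj : Function.Injective (π.comp f) := by
    rw [injective_iff_map_eq_one]
    intro h hh
    have h1 : f h ∈ Subgroup.center (Cfsg.SU 3 F 3) := by
      rw [← QuotientGroup.eq_one_iff]; exact hh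
    obtain ⟨c, hc⟩ := center_scalar hF' (by norm_num) _ h1
    have h2 := hf h
    rw [hc] at h2
    exact Subtype.ext (R_scalar i h3 hi h.2 h2)
  have hcard : Nat.card (Cfsg.PSU 3 F 3) = 6048 := by
    have h := S0280.result hF' 3 (by norm_num)
    have e1 : Nat.gcd 3 (3 + 1) = 1 := by decide
    rw [e1, one_mul] at h
    have e2 : (3 : ℕ) ^ (3 * (3 - 1) / 2) * ∏ i ∈ Finset.range 3, (if Even i then 3 ^ (i + 1) + 1 else 3 ^ (i + 1) - 1) = 24192 := by
      decide +kernel
    rw [e2] at h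
    omega
  haveI : Finite (Cfsg.PSU 3 F 3) := Nat.finite_of_card_ne_zero (by rw [hcard]; norm_num)
  have hbij : Function.Bijective (π.comp f) :=
    (Nat.bijective_iff_injective_and_card _).2 ⟨hinj, by rw [card_H, hcard]⟩
  exact ⟨MulEquiv.ofBijective _ hbij⟩

end Cfsg.Agent.H20.U3
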