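import Mathlib
set_option autoImplicit false

/-! structure of Z-groups -/
namespace Cfsg.Agent.H20.ZG

theorem conj_pow_iter {G : Type*} [Group G] {x y : G} {r : ℕ} (h : x⁻¹ * y * x = y ^ r) (k : ℕ) :
    (x ^ k)⁻¹ * y * x ^ k = y ^ (r ^ k) := by
  induction k with
  | zero => simp
  | succ k ih =>
    have h1 : (x ^ (k+1))⁻¹ * y * x ^ (k+1) = (x ^ k)⁻¹ * (x⁻¹ * y * x) * x ^ k := by
      rw [pow_succ']; group
    rw [h1, h]
    have h2 : (x ^ k)⁻¹ * y ^ r * x ^ k = ((x ^ k)⁻¹ * y * x ^ k) ^ r := by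
      have := conj_pow (i := r) (a := (x ^ k)⁻¹) (b := y)
      rw [inv_inv] at this
      exact this.symm
    rw [h2, ih, ← pow_mul, pow_succ]

theorem exists_gen {G : Type*} [Group G] (C : Subgroup G) (hC : IsCyclic C) : ∃ y, Subgroup.zpowers y = C := by
  obtain ⟨y, hy⟩ := hC.exists_generator
  refine ⟨y, ?_⟩
  ext g
  constructor
  · rintro ⟨k, rfl⟩
    exact C.zpow_mem y.2 k
  · intro hg
    obtain ⟨k, hk⟩ := hy ⟨g, hg⟩
    refine ⟨k, ?_⟩
    have h1 : ((y ^ k : C) : G) = g := congrArg Subtype.val hk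
    rw [Subgroup.coe_zpow] at h1
    exact h1

theorem main {G : Type*} [Group G] [Finite G] [hZ : IsZGroup G] :
    ∃ (x y : G) (n m r : ℕ), Subgroup.closure {x, y} = ⊤ ∧ orderOf x = n ∧ orderOf y = m ∧
      x⁻¹ * y * x = y ^ r ∧ Nat.Coprime (r - 1) m ∧ Nat.Coprime n m ∧ 1 ≤ r ∧ r ^ n % m = 1 % m ∧
      Subgroup.zpowers y = commutator G ∧ Subgroup.IsComplement' (Subgroup.zpowers y) (Subgroup.zpowers x) := by
  classical
  have hC : IsCyclic (commutator G) := IsZGroup.isCyclic_commutator G
  have hcop : Nat.Coprime (Nat.card (commutator G)) (commutator G).index := IsZGroup.coprime_commutator_index G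
  obtain ⟨K, hK⟩ := Subgroup.exists_right_complement'_of_coprime hcop
  have hKc : IsCyclic K := by
    have h1 : IsCyclic (G ⧸ commutator G) := IsZGroup.isCyclic_abelianization (G := G)
    have e := hK.symm.QuotientMulEquiv
    exact isCyclic_of_surjective e e.surjective
  obtain ⟨y, hyz⟩ := exists_gen (commutator G) hC
  obtain ⟨x, hxz⟩ := exists_gen K hKc
  have hymem : y ∈ commutator G := by rw [← hyz]; exact Subgroup.mem_zpowers _
  have hcy : orderOf y = Nat.card (commutator G) := by
    rw [← hyz, Nat.card_zpowers]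
  have hcx : orderOf x = Nat.card K := by
    rw [← hxz, Nat.card_zpowers]
  have hidx : (commutator G).index = Nat.card K := by
    have h1 := hK.card_mul
    have h2 := (commutator G).card_mul_index
    rw [← h1] at h2
    exact Nat.eq_of_mul_eq_mul_left Nat.card_pos h2
  have hcop2 : Nat.Coprime (orderOf x) (orderOf y) := by
    rw [hcx, hcy, ← hidx]; exact hcop.symm
  have hmpos : 0 < orderOf y := orderOf_pos _
  have hnorm : ∀ g : G, ∃ k : ℕ, g * y * g⁻¹ = y ^ k := by
    intro g
    have h1 : g * y * g⁻¹ ∈ Subgroup.zpowers y := by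
      rw [hyz]
      exact (inferInstance : (commutator G).Normal).conj_mem _ hymem g
    rw [← mem_powers_iff_mem_zpowers] at h1
    obtain ⟨k, h⟩ := h1
    exact ⟨k, h.symm⟩
  obtain ⟨r0, hr0⟩ := hnorm x⁻¹
  rw [inv_inv] at hr0
  set m := orderOf y with hm
  set n := orderOf x with hn
  have hr : x⁻¹ * y * x = y ^ (r0 + m) := by
    rw [hr0, pow_add, hm, pow_orderOf_eq_one, mul_one]
  have hclos : Subgroup.closure {x, y} = ⊤ := by
    rw [eq_top_iff, ← hK.sup_eq_top, ← hyz, ← hxz, sup_le_iff]
    constructor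
    · rw [Subgroup.zpowers_le]; exact Subgroup.subset_closure (by simp)
    · rw [Subgroup.zpowers_le]; exact Subgroup.subset_closure (by simp)
  refine ⟨x, y, n, m, r0 + m, hclos, rfl, rfl, hr, ?_, hcop2, by omega, ?_, hyz, ?_⟩
  · -- coprimality
    have hDn : (Subgroup.zpowers (y ^ (r0 + m - 1))).Normal := by
      constructor
      rintro _ ⟨k, rfl⟩ g
      obtain ⟨j, hj⟩ := hnorm g
      refine ⟨k * j, ?_⟩
      have h1 : g * (y ^ (r0 + m - 1)) ^ k * g⁻¹ = ((g * y * g⁻¹) ^ (r0 + m - 1)) ^ k := by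
        rw [conj_pow, conj_zpow]
      simp only
      rw [h1, hj, ← pow_mul, mul_comm j, pow_mul, ← zpow_natCast (y ^ (r0 + m - 1)) j, ← zpow_mul, mul_comm k]
    set D := Subgroup.zpowers (y ^ (r0 + m - 1)) with hD
    have hcomm : IsMulCommutative (G ⧸ D) := by
      have hxy : (QuotientGroup.mk' D x) * (QuotientGroup.mk' D y) = (QuotientGroup.mk' D y) * (QuotientGroup.mk' D x) := by
        rw [← map_mul, ← map_mul]
        symm
        apply QuotientGroup.eq.mpr
        have h1 : (y * x)⁻¹ * (x * y) = (x⁻¹ * y⁻¹ * x) * y := by group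
        have h2 : x⁻¹ * y⁻¹ * x = (y ^ (r0 + m))⁻¹ := by
          rw [← hr]; group
        rw [h1, h2]
        have h3 : (y ^ (r0 + m))⁻¹ * y = (y ^ (r0 + m - 1))⁻¹ := by
          have h4 : y ^ (r0 + m) = y * y ^ (r0 + m - 1) := by
            rw [← pow_succ']; congr 1; omega
          rw [h4]; group
        rw [h3]
        exact D.inv_mem (Subgroup.mem_zpowers _)
      have hgen : Subgroup.closure {QuotientGroup.mk' D x, QuotientGroup.mk' D y} = ⊤ := by
        have h1 : ({QuotientGroup.mk' D x, QuotientGroup.mk' D y} : Set (G ⧸ D)) = (QuotientGroup.mk' D) '' {x, y} := by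
          rw [Set.image_pair]
        rw [h1, ← MonoidHom.map_closure, hclos]
        rw [← MonoidHom.range_eq_map, MonoidHom.range_eq_top]
        exact QuotientGroup.mk'_surjective D
      constructor
      constructor
      intro u v
      have hu : u ∈ Subgroup.closure {QuotientGroup.mk' D x, QuotientGroup.mk' D y} := by rw [hgen]; trivial
      have hv : v ∈ Subgroup.closure {QuotientGroup.mk' D x, QuotientGroup.mk' D y} := by rw [hgen]; trivial
      have h2 : Subgroup.closure {QuotientGroup.mk' D x, QuotientGroup.mk' D y} ≤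
          Subgroup.centralizer ({QuotientGroup.mk' D x, QuotientGroup.mk' D y} : Set (G ⧸ D)) := by
        rw [Subgroup.closure_le]
        rintro w (rfl | rfl) z (rfl | rfl)
        · rfl
        · exact hxy.symm
        · exact hxy
        · rfl
      have h3 : Subgroup.closure {QuotientGroup.mk' D x, QuotientGroup.mk' D y} ≤
          Subgroup.centralizer ({u} : Set (G ⧸ D)) := by
        rw [Subgroup.closure_le]
        intro w hw z hz
        rw [Set.mem_singleton_iff] at hz
        subst hz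
        exact ((h2 hu) w hw).symm
      exact (h3 hv) u rfl
    have hle : commutator G ≤ D := (Subgroup.Normal.quotient_commutative_iff_commutator_le).mp hcomm
    have h4 : Nat.card (commutator G) ∣ Nat.card D := Subgroup.card_dvd_of_le hle
    rw [hD, Nat.card_zpowers, ← hcy, orderOf_pow] at h4
    rw [← hm] at h4
    have h5 : m / m.gcd (r0 + m - 1) * m.gcd (r0 + m - 1) = m := Nat.div_mul_cancel (Nat.gcd_dvd_left _ _)
    obtain ⟨c, hc⟩ := h4
    have hq : 0 < m / m.gcd (r0 + m - 1) := Nat.div_pos (Nat.gcd_le_left _ hmpos) (Nat.gcd_pos_of_pos_left _ hmpos)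
    have h6 : m.gcd (r0 + m - 1) = 1 := by
      have h7 : m ≤ m / m.gcd (r0 + m - 1) := Nat.le_of_dvd hq ⟨c, hc⟩
      have h8 : 0 < m.gcd (r0 + m - 1) := Nat.gcd_pos_of_pos_left _ hmpos
      by_contra h9
      have h10 : 2 ≤ m.gcd (r0 + m - 1) := by omega
      nlinarith
    rw [Nat.coprime_comm]
    exact h6
  · have h1 := conj_pow_iter hr n
    rw [hn, pow_orderOf_eq_one, inv_one, one_mul, mul_one, ← hn] at h1
    have h2 : y ^ ((r0 + m) ^ n) = y ^ 1 := by rw [← h1, pow_one]
    rw [pow_eq_pow_iff_modEq, ← hm] at h2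
    exact h2
  · rw [hyz, hxz]; exact hK

end Cfsg.Agent.H20.ZG
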