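import Mathlib
import Cfsg.Agent.H21_D8rec
import Cfsg.Agent.H2_PGroup
import Cfsg.Agent.H1_Basic

/-!
# Sylow 2-subgroups of `Aut(A₆)` meet non-trivially
-/

set_option autoImplicit false
open scoped Pointwise

namespace Cfsg.Agent.H21.AutA6
open MulAction Subgroup Equiv Cfsg.Agent

def c0 : Perm (Fin 6) := swap 0 1 * swap 2 3

theorem cnt3 : (Finset.univ.filter (fun w : Perm (Fin 6) => w * w = 1 ∧ (c0 * w) ^ 3 = 1)).card < 32 := by decide +kernel
theorem cnt5 : (Finset.univ.filter (fun w : Perm (Fin 6) => w * w = 1 ∧ (c0 * w) ^ 5 = 1)).card < 32 := by decide +kernel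
theorem cnt4 : (Finset.univ.filter (fun w : Perm (Fin 6) => w * w = 1 ∧ Perm.sign w = 1 ∧ (c0 * w) ^ 4 = 1)).card < 32 := by decide +kernel
theorem ord345 : ∀ w : Perm (Fin 6), w * w = 1 → Perm.sign w = 1 → (c0 * w) ^ 3 = 1 ∨ (c0 * w) ^ 4 = 1 ∨ (c0 * w) ^ 5 = 1 := by
  decide +kernel

theorem c0_type : c0.cycleType = {2, 2} := by decide +kernel

end Cfsg.Agent.H21.AutA6
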