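import Mathlib
import Cfsg.Agent.H21_AutA6Syl

/-!
# Sylow 2-subgroups of `Aut(A₆)` meet non-trivially, II
-/

set_option autoImplicit false
open scoped Pointwise

namespace Cfsg.Agent.H21.AutA6
open MulAction Subgroup Equiv Cfsg.Agent

/-- involutions of `A₆` -/
theorem type22 (a : alternatingGroup (Fin 6)) (ha : orderOf a = 2) : (a : Perm (Fin 6)).cycleType = {2, 2} := by
  have ho : orderOf (a : Perm (Fin 6)) = 2 := by rw [Subgroup.orderOf_coe]; exact ha
  obtain ⟨n, hn⟩ := Equiv.Perm.cycleType_prime_order (by rw [ho]; exact Nat.prime_two)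
  rw [ho] at hn
  have h1 : (a : Perm (Fin 6)).cycleType.sum ≤ 6 := by
    rw [Equiv.Perm.sum_cycleType]
    exact (Finset.card_le_univ _).trans (by simp)
  have h2 := Perm.mem_alternatingGroup.mp a.2
  rw [Perm.sign_of_cycleType, hn] at h2
  rw [hn, Multiset.sum_replicate, smul_eq_mul] at h1
  have h3 : n = 0 ∨ n = 1 ∨ n = 2 := by omega
  rcases h3 with rfl | rfl | rfl
  · exfalso; revert h2; decide
  · rw [hn]; rfl
  · exfalso; revert h2; decide

theorem cent_le (a : alternatingGroup (Fin 6)) (ha : orderOf a = 2) :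
    Nat.card (Subgroup.centralizer ({a} : Set (alternatingGroup (Fin 6)))) = 8 := by
  have h1 : (a : Perm (Fin 6)).support.card = 4 := by
    rw [← Perm.sum_cycleType, type22 a ha]; rfl
  obtain ⟨e⟩ := D8rec.cent_A6 a ha h1
  rw [Nat.card_congr e.toEquiv, DihedralGroup.nat_card]

theorem main {G : Type*} [Group G] [Finite G] (N : Subgroup G) [hN : N.Normal]
    (e : N ≃* alternatingGroup (Fin 6)) (hidx : N.index = 4) (H : Sylow 2 G) (x : G) :
    (H : Subgroup G) ⊓ MulAut.conj x • (H : Subgroup G) ≠ ⊥ := by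
  classical
  haveI : Fact (Nat.Prime 2) := ⟨Nat.prime_two⟩
  intro hbot
  have hcN : Nat.card N = 360 := by
    rw [Nat.card_congr e.toEquiv, nat_card_alternatingGroup, Nat.card_eq_fintype_card, Fintype.card_fin]; rfl
  have hcG : Nat.card G = 1440 := by rw [← N.card_mul_index, hcN, hidx]
  have hcH : Nat.card (H : Subgroup G) = 32 := by
    have h1 := (H : Subgroup G).card_mul_index
    have h2 : Odd (H : Subgroup G).index := by
      rw [← Nat.not_even_iff_odd, even_iff_two_dvd]
      exact H.not_dvd_index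
    obtain ⟨n, hn⟩ := IsPGroup.iff_card.mp H.2
    have hn' : Nat.card (H : Subgroup G) = 2 ^ n := hn
    obtain ⟨j, hj⟩ := h2
    rw [hn', hcG, hj] at h1
    have h3 : n < 11 := by
      by_contra h4
      push Not at h4
      have h5 : 2 ^ 11 ≤ 2 ^ n := Nat.pow_le_pow_right (by norm_num) h4
      have h6 : 2 ^ n ≤ 2 ^ n * (2 * j + 1) := Nat.le_mul_of_pos_right _ (by omega)
      rw [h1] at h6
      norm_num at h5
      omega
    rw [hn']
    interval_cases n <;> omega
  -- the intersection with `N`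
  obtain ⟨M, hM⟩ : ∃ M : Subgroup (H : Subgroup G), M = N.subgroupOf (H : Subgroup G) := ⟨_, rfl⟩
  haveI hMn : M.Normal := by rw [hM]; infer_instance
  have hMne : M ≠ ⊥ := by
    intro h
    have h1 : M.index ≤ 4 := by
      have h2 : M.index = N.relIndex (H : Subgroup G) := by rw [hM]; rfl
      rw [h2]
      have h3 : N.relIndex (H : Subgroup G) ∣ N.index := Subgroup.relIndex_dvd_index_of_normal _ _
      rw [hidx] at h3
      exact Nat.le_of_dvd (by norm_num) h3
    rw [h, Subgroup.index_bot, hcH] at h1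
    omega
  obtain ⟨⟨z, hzH⟩, hz, hz2⟩ : ∃ z : (H : Subgroup G), z ∈ M ⊓ Subgroup.center (H : Subgroup G) ∧ orderOf z = 2 := by
    have h1 := H2.PGroup.inf_center_ne_bot H.2 hMne
    have h2 : IsPGroup 2 (M ⊓ Subgroup.center (H : Subgroup G) : Subgroup (H : Subgroup G)) := H.2.to_subgroup _
    obtain ⟨n, hn⟩ := IsPGroup.iff_card.mp h2
    have h3 : 2 ∣ Nat.card (M ⊓ Subgroup.center (H : Subgroup G) : Subgroup (H : Subgroup G)) := by
      rcases Nat.eq_zero_or_pos n with h4 | h4
      · exfalso; apply h1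
        rw [h4, pow_zero] at hn
        exact Subgroup.eq_bot_of_card_eq _ hn
      · rw [hn]; exact dvd_pow_self 2 (by omega)
    obtain ⟨u, hu⟩ := exists_prime_orderOf_dvd_card' 2 h3
    exact ⟨u, u.2, by rw [Subgroup.orderOf_coe]; exact hu⟩
  have hzN : z ∈ N := by
    have := hz.1
    rw [hM] at this
    exact this
  have hzc : ∀ h ∈ (H : Subgroup G), h * z = z * h := by
    intro h hh
    exact congrArg Subtype.val (Subgroup.mem_center_iff.mp hz.2 ⟨h, hh⟩)
  have hzo : orderOf z = 2 := by rw [← hz2, Subgroup.orderOf_mk]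
  have hzoN : orderOf (⟨z, hzN⟩ : N) = 2 := by rw [Subgroup.orderOf_mk]; exact hzo
  have heo : orderOf (e ⟨z, hzN⟩) = 2 := by
    rw [← hzoN]; exact orderOf_injective e.toMonoidHom e.injective _
  -- the centralizer of `z`
  have hcz : Nat.card (Subgroup.centralizer ({z} : Set G)) ≤ 32 := by
    have h1 := H1.Basic.relIndex_mul_card (inf_le_right : N ⊓ Subgroup.centralizer ({z} : Set G) ≤ Subgroup.centralizer ({z} : Set G))
    rw [Subgroup.inf_relIndex_right] at h1
    have h2 : N.relIndex (Subgroup.centralizer ({z} : Set G)) ≤ 4 := by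
      have h3 : N.relIndex (Subgroup.centralizer ({z} : Set G)) ∣ N.index := Subgroup.relIndex_dvd_index_of_normal _ _
      rw [hidx] at h3
      exact Nat.le_of_dvd (by norm_num) h3
    have h3 : Nat.card (N ⊓ Subgroup.centralizer ({z} : Set G) : Subgroup G) = 8 := by
      rw [← cent_le _ heo]
      have h4 : Function.Bijective (fun y : (N ⊓ Subgroup.centralizer ({z} : Set G) : Subgroup G) =>
          (⟨e ⟨y, y.2.1⟩, by
            rw [Subgroup.mem_centralizer_singleton_iff, ← map_mul, ← map_mul]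
            congr 1
            exact Subtype.ext (Subgroup.mem_centralizer_singleton_iff.mp y.2.2)⟩ :
            Subgroup.centralizer ({e ⟨z, hzN⟩} : Set (alternatingGroup (Fin 6))))) := by
        constructor
        · intro a b hab
          have h5 := e.injective (congrArg Subtype.val hab)
          exact Subtype.ext (congrArg (fun w : N => (w : G)) h5)
        · rintro ⟨w, hw⟩
          obtain ⟨y, rfl⟩ := e.surjective w
          have h5 := Subgroup.mem_centralizer_singleton_iff.mp hw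
          rw [← map_mul, ← map_mul] at h5
          exact ⟨⟨y, y.2, Subgroup.mem_centralizer_singleton_iff.mpr (congrArg Subtype.val (e.injective h5))⟩, rfl⟩
      exact Nat.card_congr (Equiv.ofBijective _ h4)
    rw [h3] at h1
    omega
  have hHc : (H : Subgroup G) = Subgroup.centralizer ({z} : Set G) := by
    apply Subgroup.eq_of_le_of_card_ge
    · intro h hh
      exact Subgroup.mem_centralizer_singleton_iff.mpr (hzc h hh)
    · rw [hcH]; exact hcz
  -- the conjugate
  obtain ⟨z', hz'⟩ : ∃ z', z' = x * z * x⁻¹ := ⟨_, rfl⟩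
  have hz'N : z' ∈ N := by rw [hz']; exact hN.conj_mem _ hzN _
  have hzz : z * z = 1 := by rw [← sq, ← hzo]; exact pow_orderOf_eq_one z
  have hinj : ∀ h ∈ (H : Subgroup G), h * z' = z' * h → h = 1 := by
    intro h hh hc
    have h1 : h ∈ (H : Subgroup G) ⊓ MulAut.conj x • (H : Subgroup G) := by
      refine ⟨hh, ?_⟩
      change h ∈ MulAut.conj x • (H : Subgroup G)
      rw [Subgroup.mem_pointwise_smul_iff_inv_smul_mem, ← map_inv, MulAut.smul_def, MulAut.conj_apply, inv_inv]
      change x⁻¹ * h * x ∈ (H : Subgroup G)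
      rw [hHc, Subgroup.mem_centralizer_singleton_iff]
      rw [hz'] at hc
      calc x⁻¹ * h * x * z = x⁻¹ * (h * (x * z * x⁻¹)) * x := by group
        _ = x⁻¹ * ((x * z * x⁻¹) * h) * x := by rw [hc]
        _ = z * (x⁻¹ * h * x) := by group
    rw [hbot, Subgroup.mem_bot] at h1
    exact h1
  -- conjugate `e z` to `c0`
  have h1 : IsConj (e ⟨z, hzN⟩ : Perm (Fin 6)) c0 := by
    rw [Perm.isConj_iff_cycleType_eq, c0_type, type22 _ heo]
  obtain ⟨σ, hσ⟩ := isConj_iff.mp h1
  -- the 32 involutions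
  let φ := fun h : (H : Subgroup G) => σ * (e ⟨(h : G) * z' * (h : G)⁻¹, hN.conj_mem _ hz'N _⟩ : Perm (Fin 6)) * σ⁻¹
  have hφ : Function.Injective φ := by
    intro a b hab
    have h2 : (e ⟨(a : G) * z' * (a : G)⁻¹, hN.conj_mem _ hz'N _⟩ : Perm (Fin 6)) = e ⟨(b : G) * z' * (b : G)⁻¹, hN.conj_mem _ hz'N _⟩ := by
      have h3 : σ⁻¹ * φ a * σ = σ⁻¹ * φ b * σ := by rw [hab]
      simpa [φ, mul_assoc] using h3
    have h4 : (a : G) * z' * (a : G)⁻¹ = b * z' * (b : G)⁻¹ := congrArg Subtype.val (e.injective (Subtype.ext h2))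
    have h5 := hinj ((b : G)⁻¹ * a) (mul_mem (inv_mem b.2) a.2) (by
      calc (b : G)⁻¹ * a * z' = (b : G)⁻¹ * ((a : G) * z' * (a : G)⁻¹) * a := by group
        _ = z' * ((b : G)⁻¹ * a) := by rw [h4]; group)
    exact Subtype.ext (inv_mul_eq_one.mp h5).symm
  have hz'z' : z' * z' = 1 := by
    rw [hz']
    calc x * z * x⁻¹ * (x * z * x⁻¹) = x * (z * z) * x⁻¹ := by group
      _ = 1 := by rw [hzz]; group
  have hφ1 : ∀ h, φ h * φ h = 1 := by
    intro h
    have h2 : (⟨(h : G) * z' * (h : G)⁻¹, hN.conj_mem _ hz'N _⟩ : N) * ⟨(h : G) * z' * (h : G)⁻¹, hN.conj_mem _ hz'N _⟩ = 1 := by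
      apply Subtype.ext
      change (h : G) * z' * (h : G)⁻¹ * ((h : G) * z' * (h : G)⁻¹) = 1
      calc (h : G) * z' * (h : G)⁻¹ * ((h : G) * z' * (h : G)⁻¹) = h * (z' * z') * (h : G)⁻¹ := by group
        _ = 1 := by rw [hz'z']; group
    have h3 := congrArg (fun w => (e w : Perm (Fin 6))) h2
    simp only [map_mul, map_one, Subgroup.coe_mul, Subgroup.coe_one] at h3
    calc φ h * φ h = σ * ((e ⟨(h : G) * z' * (h : G)⁻¹, hN.conj_mem _ hz'N _⟩ : Perm (Fin 6)) * (e ⟨(h : G) * z' * (h : G)⁻¹, hN.conj_mem _ hz'N _⟩ : Perm (Fin 6))) * σ⁻¹ := by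
          simp only [φ]; group
      _ = 1 := by rw [h3]; group
  have hφs : ∀ h, Perm.sign (φ h) = 1 := by
    intro h
    simp only [φ, map_mul, map_inv]
    rw [Perm.mem_alternatingGroup.mp (e ⟨(h : G) * z' * (h : G)⁻¹, hN.conj_mem _ hz'N _⟩).2, mul_one, mul_inv_cancel]
  -- products
  have hprod : ∀ (h : (H : Subgroup G)) (k : ℕ), (c0 * φ 1) ^ k = 1 → (c0 * φ h) ^ k = 1 := by
    intro h k hk
    have hgen : ∀ h : (H : Subgroup G), c0 * φ h = σ * (e (⟨z, hzN⟩ * ⟨(h : G) * z' * (h : G)⁻¹, hN.conj_mem _ hz'N _⟩) : Perm (Fin 6)) * σ⁻¹ := by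
      intro h
      rw [map_mul, Subgroup.coe_mul, ← hσ]
      simp only [φ]; group
    rw [hgen, conj_pow] at hk ⊢
    have h2 : ((e (⟨z, hzN⟩ * ⟨((1 : (H : Subgroup G)) : G) * z' * ((1 : (H : Subgroup G)) : G)⁻¹, hN.conj_mem _ hz'N _⟩) : Perm (Fin 6))) ^ k = 1 := by
      have := congrArg (fun w => σ⁻¹ * w * σ) hk
      simpa [mul_assoc] using this
    have h3 : ((⟨z, hzN⟩ : N) * ⟨((1 : (H : Subgroup G)) : G) * z' * ((1 : (H : Subgroup G)) : G)⁻¹, hN.conj_mem _ hz'N _⟩) ^ k = 1 := by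
      apply e.injective
      rw [map_pow, map_one]
      exact Subtype.ext h2
    have h4 : (z * z') ^ k = 1 := by
      have := congrArg Subtype.val h3
      simpa using this
    have h5 : ((⟨z, hzN⟩ : N) * ⟨(h : G) * z' * (h : G)⁻¹, hN.conj_mem _ hz'N _⟩) ^ k = 1 := by
      apply Subtype.ext
      change (z * ((h : G) * z' * (h : G)⁻¹)) ^ k = 1
      have h6 : z * ((h : G) * z' * (h : G)⁻¹) = h * (z * z') * (h : G)⁻¹ := by
        calc z * ((h : G) * z' * (h : G)⁻¹) = (z * h) * z' * (h : G)⁻¹ := by group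
          _ = _ := by rw [← hzc h h.2]; group
      rw [h6, conj_pow, h4]; group
    have h6 := congrArg (fun w => (e w : Perm (Fin 6))) h5
    simp only [map_pow, map_one, Subgroup.coe_pow, Subgroup.coe_one] at h6
    rw [h6]; group
  have hcard : ∀ S : Finset (Perm (Fin 6)), (∀ h, φ h ∈ S) → 32 ≤ S.card := by
    intro S hS
    rw [← hcH]
    haveI := Fintype.ofFinite (H : Subgroup G)
    rw [Nat.card_eq_fintype_card, ← Finset.card_univ]
    exact Finset.card_le_card_of_injOn φ (fun h _ => hS h) (fun a _ b _ hab => hφ hab)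
  rcases ord345 (φ 1) (hφ1 1) (hφs 1) with h2 | h2 | h2
  · have := hcard (Finset.univ.filter (fun w : Perm (Fin 6) => w * w = 1 ∧ (c0 * w) ^ 3 = 1))
      (fun h => Finset.mem_filter.mpr ⟨Finset.mem_univ _, hφ1 h, hprod h 3 h2⟩)
    have := cnt3
    omega
  · have := hcard (Finset.univ.filter (fun w : Perm (Fin 6) => w * w = 1 ∧ Perm.sign w = 1 ∧ (c0 * w) ^ 4 = 1))
      (fun h => Finset.mem_filter.mpr ⟨Finset.mem_univ _, hφ1 h, hφs h, hprod h 4 h2⟩)
    have := cnt4
    omega
  · have := hcard (Finset.univ.filter (fun w : Perm (Fin 6) => w * w = 1 ∧ (c0 * w) ^ 5 = 1))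
      (fun h => Finset.mem_filter.mpr ⟨Finset.mem_univ _, hφ1 h, hprod h 5 h2⟩)
    have := cnt5
    omega

end Cfsg.Agent.H21.AutA6
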