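import Cfsg.Agent.H22_HH6

/-!
# `p`-length and exponent: the Hall-Higman bound in the non-exceptional case
-/

set_option autoImplicit false
set_option linter.unusedSectionVars false
set_option linter.style.haveILetI false

namespace Cfsg.Agent.H22.HH7

open Module Subgroup HH1 HH2 HH3 HH4 HH5 HH6 PSolv
open scoped commutatorElement

universe u

/-- `p`-elements have order dividing `p ^ e` -/
def PExp (p e : ℕ) (G : Type u) [Group G] : Prop := ∀ x : G, (∃ j, x ^ p ^ j = 1) → x ^ p ^ e = 1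

/-- no exceptional prime power -/
def NE (p : ℕ) (G : Type u) [Group G] : Prop :=
  ∀ n₀ q m : ℕ, 1 ≤ n₀ → q.Prime → 1 ≤ m → p ^ n₀ - 1 = q ^ m →
    ∃ Q : Sylow q G, IsMulCommutative (Q : Subgroup G)

theorem pexp_of_sylow {p e : ℕ} [hp : Fact p.Prime] {G : Type u} [Group G] [Finite G]
    (h : ∀ (P : Sylow p G), ∀ x ∈ (P : Subgroup G), x ^ p ^ e = 1) : PExp p e G := by
  rintro x ⟨j, hj⟩
  have h1 : IsPGroup p (zpowers x) := by
    obtain ⟨k, -, hk⟩ := (Nat.dvd_prime_pow hp.out).mp (orderOf_dvd_of_pow_eq_one hj)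
    exact IsPGroup.of_card (by rw [Nat.card_zpowers, hk])
  obtain ⟨P, hP⟩ := h1.exists_le_sylow
  exact h P x (hP (mem_zpowers x))

/-- lifting `p`-elements -/
theorem exists_lift {p : ℕ} [hp : Fact p.Prime] {G : Type u} [Group G] [Finite G] (N : Subgroup G)
    [N.Normal] (y : G ⧸ N) (j : ℕ) (hy : y ^ p ^ j = 1) :
    ∃ x : G, (x : G ⧸ N) = y ∧ ∃ b, x ^ p ^ b = 1 := by
  obtain ⟨g, rfl⟩ := QuotientGroup.mk_surjective y
  obtain ⟨b, c, c', hbc, -, hcc⟩ := arith1 (n := j) hp.out (orderOf_pos g).ne'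
  refine ⟨g ^ (c * c'), ?_, b, ?_⟩
  · rw [QuotientGroup.mk_pow]
    conv_rhs => rw [← pow_one (g : G ⧸ N)]
    exact pow_eq_pow_of_modEq hcc hy
  · rw [← pow_mul]
    have : c * c' * p ^ b = orderOf g * c' := by rw [hbc]; ring
    rw [this, pow_mul, pow_orderOf_eq_one, one_pow]

theorem pexp_quotient {p e : ℕ} [hp : Fact p.Prime] {G : Type u} [Group G] [Finite G]
    (h : PExp p e G) (N : Subgroup G) [N.Normal] : PExp p e (G ⧸ N) := by
  rintro y ⟨j, hj⟩
  obtain ⟨x, rfl, b, hb⟩ := exists_lift N y j hj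
  rw [← QuotientGroup.mk_pow, h x ⟨b, hb⟩]
  rfl

theorem ne_quotient {p : ℕ} {G : Type u} [Group G] [Finite G]
    (h : NE p G) (N : Subgroup G) [N.Normal] : NE p (G ⧸ N) := by
  intro n₀ q m h1 h2 h3 h4
  obtain ⟨Q, hQ⟩ := h n₀ q m h1 h2 h3 h4
  haveI := Fact.mk h2
  refine ⟨Sylow.mapSurjective (QuotientGroup.mk'_surjective N) Q, ⟨⟨?_⟩⟩⟩
  rintro ⟨_, a, ha, rfl⟩ ⟨_, b, hb, rfl⟩
  apply Subtype.ext
  show QuotientGroup.mk' N a * QuotientGroup.mk' N b = QuotientGroup.mk' N b * QuotientGroup.mk' N a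
  rw [← map_mul, ← map_mul]
  congr 1
  exact congrArg Subtype.val (mul_comm' (⟨a, ha⟩ : (Q : Subgroup G)) ⟨b, hb⟩)

theorem step_norm {p : ℕ} {G : Type u} [Group G] [Finite G] [hp : Fact p.Prime]
    (hG : Cfsg.IsPSolvable p G) (h1 : Cfsg.pPrimeCore p G = ⊥) (T : Subgroup G) [hTn : T.Normal]
    (hT : T = Cfsg.pCore p G) (hT1 : T ≠ ⊥) (hNE : NE p (G ⧸ T)) (x : G) (k : ℕ)
    (hk : orderOf (x : G ⧸ T) = p ^ k) :
    ∃ v ∈ T, (v * x) ^ p ^ k * (x ^ p ^ k)⁻¹ ∉ (frattini T).map T.subtype := by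
  obtain ⟨M, i1, i2, i3, ρ, hinj, hnt, -, hρ⟩ := exists_rep_quot hG h1 T hT hT1
  have hcore : Cfsg.pCore p (G ⧸ T) = ⊥ := by
    subst hT
    exact PSolv.pCore_quotient
  by_contra hcon
  push Not at hcon
  have h2 := hρ x (p ^ k) hcon
  haveI : CharP (AlgebraicClosure (ZMod p)) p :=
    charP_of_injective_algebraMap (FaithfulSMul.algebraMap_injective (ZMod p) (AlgebraicClosure (ZMod p))) p
  rcases TB (PSolv.isPSolvable_quotient T hG) hcore ρ hinj (x : G ⧸ T) k hk with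
    h | ⟨n₀, q, m, h3, -, h4, h5, h6, h7, -⟩
  · apply h
    rw [geom p]
    exact h2
  · obtain ⟨Q, hQ⟩ := hNE n₀ q m h3 h4 h5 h6
    exact h7 Q hQ

/-- one step of the descent -/
theorem pexp_step {p : ℕ} {G : Type u} [Group G] [Finite G] [hp : Fact p.Prime]
    (hG : Cfsg.IsPSolvable p G) (h1 : Cfsg.pPrimeCore p G = ⊥) (T : Subgroup G) [hTn : T.Normal]
    (hT : T = Cfsg.pCore p G) (hT1 : T ≠ ⊥) (hNE : NE p (G ⧸ T)) (e : ℕ) (hexp : PExp p (e + 1) G) :
    PExp p e (G ⧸ T) := by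
  have hTp : IsPGroup p T := by rw [hT]; exact H1.Nilp.pCore_isPGroup p
  rintro y ⟨j, hj⟩
  obtain ⟨x, rfl, b, hb⟩ := exists_lift T y j hj
  obtain ⟨k, -, hk⟩ := (Nat.dvd_prime_pow hp.out).mp (orderOf_dvd_of_pow_eq_one hj)
  obtain ⟨v, hv, hne⟩ := step_norm hG h1 T hT hT1 hNE x k hk
  have hke : k ≤ e := by
    by_contra hcon
    have h2 : e + 1 ≤ k := by omega
    have h3 : ∀ z : G, (∃ c, z ^ p ^ c = 1) → z ^ p ^ k = 1 := by
      intro z hz
      obtain ⟨d, hd⟩ := Nat.exists_eq_add_of_le h2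
      rw [hd, pow_add, pow_mul, hexp z hz, one_pow]
    have h4 : (v * x) ^ p ^ k = 1 := by
      apply h3
      have h5 : (v * x) ^ p ^ k ∈ T := by
        rw [← QuotientGroup.eq_one_iff, QuotientGroup.mk_pow, QuotientGroup.mk_mul,
          (QuotientGroup.eq_one_iff v).mpr hv, one_mul, ← hk, pow_orderOf_eq_one]
      obtain ⟨c, hc⟩ := hTp ⟨_, h5⟩
      refine ⟨k + c, ?_⟩
      rw [pow_add, pow_mul]
      exact congrArg Subtype.val hc
    apply hne
    rw [h4, h3 x ⟨b, hb⟩, inv_one, mul_one]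
    exact one_mem _
  obtain ⟨d, hd⟩ := Nat.exists_eq_add_of_le hke
  rw [hd, pow_add, pow_mul, ← hk, pow_orderOf_eq_one, one_pow]

theorem main_exp {p : ℕ} [hp : Fact p.Prime] (e : ℕ) : ∀ {G : Type u} [Group G] [Finite G],
    Cfsg.IsPSolvable p G → NE p G → PExp p e G → Cfsg.PLengthLE p e G := by
  induction e with
  | zero =>
    intro G _ _ hG _ hexp
    rw [plengthLE_zero_iff, Nat.coprime_comm, Nat.Prime.coprime_iff_not_dvd hp.out]
    intro hd
    obtain ⟨x, hx⟩ := exists_prime_orderOf_dvd_card' p hd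
    have h1 := hexp x ⟨1, by rw [pow_one, ← hx]; exact pow_orderOf_eq_one x⟩
    rw [pow_zero, pow_one] at h1
    rw [h1, orderOf_one] at hx
    exact hp.out.one_lt.ne hx
  | succ e ih =>
    have core : ∀ {G : Type u} [Group G] [Finite G], Cfsg.IsPSolvable p G → NE p G → PExp p (e + 1) G →
        Cfsg.pPrimeCore p G = ⊥ → Cfsg.PLengthLE p (e + 1) G := by
      intro G _ _ hG hNE hexp h1
      have hTn : (Cfsg.pCore p G).Normal := H1.Nilp.pCore_normal p
      by_cases hT1 : Cfsg.pCore p G = ⊥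
      · have h2 : ¬ Nontrivial G := by
          intro hnt
          rcases pCore_or_pPrimeCore_ne_bot hG with h | h
          · exact h hT1
          · exact h h1
        rw [not_nontrivial_iff_subsingleton] at h2
        apply plengthLE_mono (Nat.zero_le (e + 1))
        rw [plengthLE_zero_iff, Nat.card_of_subsingleton (1 : G)]
        exact Nat.coprime_one_left p
      · have hNE' := ne_quotient hNE (Cfsg.pCore p G)
        have h2 := pexp_step hG h1 (Cfsg.pCore p G) rfl hT1 hNE' e hexp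
        have h3 := ih (PSolv.isPSolvable_quotient (Cfsg.pCore p G) hG) hNE' h2
        refine plengthLE_succ_of_quotient ⊥ (Cfsg.pCore p G) bot_le ?_ ?_ h3
        · rw [card_bot]; exact Nat.coprime_one_left p
        · rw [relIndex_bot_left]
          exact IsPGroup.iff_card.mp (H1.Nilp.pCore_isPGroup p)
    intro G _ _ hG hNE hexp
    have : (Cfsg.pPrimeCore p G).Normal := H1.Nilp.pPrimeCore_normal p
    apply plengthLE_of_quotient_coprime (Cfsg.pPrimeCore p G) (H1.Nilp.pPrimeCore_coprime p)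
    exact core (PSolv.isPSolvable_quotient (Cfsg.pPrimeCore p G) hG)
      (ne_quotient hNE (Cfsg.pPrimeCore p G)) (pexp_quotient hexp (Cfsg.pPrimeCore p G))
      (H11.Cores.pPrimeCore_quotient p)

end Cfsg.Agent.H22.HH7
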