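import Mathlib

set_option autoImplicit false

/-! finite abelian `p`-groups whose elements of order `p` are fused by automorphisms are homocyclic -/

namespace Cfsg.Agent.H22.Homocyc

theorem homocyclic {S : Type*} [CommGroup S] [Finite S] {p : ℕ} [hp : Fact p.Prime] (hS : IsPGroup p S)
    (h : ∀ x y : S, x ≠ 1 → x ^ p = 1 → y ≠ 1 → y ^ p = 1 → ∃ (a : MulAut S) (k : ℕ), a x = y ^ k ∧ a x ≠ 1) :
    ∃ m r : ℕ, Nonempty (S ≃* (Fin r → Multiplicative (ZMod (p ^ m)))) := by
  classical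
  obtain ⟨ι, hι, n, hn, ⟨e⟩⟩ := CommGroup.equiv_prod_multiplicative_zmod_of_finite S
  have hpn : ∀ i, ∃ k, n i = p ^ (k + 1) := by
    intro i
    have h1 : n i ∣ Nat.card S := by
      have h2 : Nat.card S = ∏ i, n i := by
        rw [Nat.card_congr e.toEquiv, Nat.card_pi]
        apply Finset.prod_congr rfl
        intro i _
        rw [Nat.card_congr Multiplicative.toAdd, Nat.card_zmod]
      rw [h2]
      exact Finset.dvd_prod_of_mem n (Finset.mem_univ i)
    obtain ⟨k, hk⟩ := IsPGroup.iff_card.mp hS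
    rw [hk] at h1
    obtain ⟨j, -, hj⟩ := (Nat.dvd_prime_pow hp.out).mp h1
    have h3 := hn i
    rw [hj] at h3
    have hj0 : j ≠ 0 := by
      rintro rfl
      simp at h3
    obtain ⟨k', rfl⟩ := Nat.exists_eq_succ_of_ne_zero hj0
    exact ⟨k', hj⟩
  choose f hf using hpn
  -- the element of order `p` in the `i`-th factor
  let z : (i : ι) → S := fun i => e.symm (Pi.mulSingle i (Multiplicative.ofAdd ((p ^ f i : ℕ) : ZMod (n i))))
  have hz : ∀ i, e (z i) = Pi.mulSingle i (Multiplicative.ofAdd ((p ^ f i : ℕ) : ZMod (n i))) := fun i =>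
    e.apply_symm_apply _
  have hz1 : ∀ i, ((p ^ f i : ℕ) : ZMod (n i)) ≠ 0 := by
    intro i h0
    rw [ZMod.natCast_eq_zero_iff, hf i] at h0
    have := Nat.le_of_dvd (pow_pos hp.out.pos _) h0
    have h2 := Nat.pow_lt_pow_right hp.out.one_lt (Nat.lt_add_one (f i))
    omega
  have hzne : ∀ i, z i ≠ 1 := by
    intro i h0
    have h1 := hz i
    rw [h0, map_one] at h1
    have h2 := congrFun h1 i
    rw [Pi.mulSingle_eq_same, Pi.one_apply] at h2
    exact hz1 i (by rw [← toAdd_ofAdd ((p ^ f i : ℕ) : ZMod (n i)), ← h2]; rfl)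
  have hzp : ∀ i, z i ^ p = 1 := by
    intro i
    apply e.injective
    rw [map_pow, hz, map_one, ← Pi.mulSingle_pow, ← ofAdd_nsmul]
    have h1 : p • ((p ^ f i : ℕ) : ZMod (n i)) = 0 := by
      rw [nsmul_eq_mul, ← Nat.cast_mul, ZMod.natCast_eq_zero_iff, hf i, pow_succ, mul_comm]
    rw [h1, ofAdd_zero, Pi.mulSingle_one]
  -- `z i` is a `p^{f i}`-th power
  have hzpow : ∀ i, ∃ w : S, w ^ (p ^ f i) = z i := by
    intro i
    refine ⟨e.symm (Pi.mulSingle i (Multiplicative.ofAdd 1)), ?_⟩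
    apply e.injective
    rw [map_pow, hz, e.apply_symm_apply, ← Pi.mulSingle_pow, ← ofAdd_nsmul]
    congr 2
    rw [nsmul_eq_mul, mul_one]
  -- exponents agree
  have key : ∀ i j, f j ≤ f i := by
    intro i j
    by_contra hlt
    push Not at hlt
    obtain ⟨a, k, ha, ha1⟩ := h (z j) (z i) (hzne j) (hzp j) (hzne i) (hzp i)
    obtain ⟨w, hw⟩ := hzpow j
    have h1 : (a w) ^ (p ^ f j) = z i ^ k := by rw [← map_pow, hw, ha]
    have h2 : (e (a w)) i ^ (p ^ f j) = 1 := by
      obtain ⟨d, hd⟩ := Nat.exists_eq_add_of_lt hlt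
      have h3 : (e (a w) i) ^ (n i) = 1 := by
        have : Nat.card (Multiplicative (ZMod (n i))) = n i := by
          rw [Nat.card_congr Multiplicative.toAdd, Nat.card_zmod]
        have h5 : ∀ N : ℕ, Nat.card (Multiplicative (ZMod (n i))) = N → (e (a w) i) ^ N = 1 := by
          rintro _ rfl
          exact pow_card_eq_one'
        exact h5 _ this
      have h4 : n i ∣ p ^ f j := by
        rw [hf i]; exact pow_dvd_pow p hlt
      obtain ⟨c, hc⟩ := h4
      rw [hc, pow_mul, h3, one_pow]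
    apply ha1
    rw [ha]
    apply e.injective
    rw [map_pow, hz, map_one, ← Pi.mulSingle_pow]
    have h5 : ((Multiplicative.ofAdd ((p ^ f i : ℕ) : ZMod (n i))) ^ k) = 1 := by
      have h6 := congrArg (fun s => e s i) h1
      simp only [map_pow, hz, Pi.pow_apply, Pi.mulSingle_eq_same] at h6
      rw [← h6, h2]
    rw [h5, Pi.mulSingle_one]
  by_cases hne : Nonempty ι
  · obtain ⟨i0⟩ := hne
    have hall : ∀ i, n i = p ^ (f i0 + 1) := fun i => by
      rw [hf i, le_antisymm (key i0 i) (key i i0)]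
    obtain rfl : n = fun _ => p ^ (f i0 + 1) := funext hall
    exact ⟨f i0 + 1, Fintype.card ι, ⟨e.trans (MulEquiv.arrowCongr (Fintype.equivFin ι) (MulEquiv.refl _))⟩⟩
  · rw [not_nonempty_iff] at hne
    refine ⟨0, 0, ⟨e.trans ?_⟩⟩
    have : Unique ((i : ι) → Multiplicative (ZMod (n i))) := Pi.uniqueOfIsEmpty _
    have : Unique (Fin 0 → Multiplicative (ZMod (p ^ 0))) := Pi.uniqueOfIsEmpty _
    exact MulEquiv.ofUnique

end Cfsg.Agent.H22.Homocyc
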