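import Mathlib

/-!
Special 2-groups `D` with `E = Ω₁(D)` central, all fibres of the squaring map over `E \ 1` of equal size:
a counting lemma.
-/

set_option autoImplicit false
set_option linter.unusedSectionVars false

namespace Cfsg.Agent.H22.Inv

open scoped commutatorElement

/-- arithmetic -/
theorem arith1 {k m s : ℕ} (hk : 1 ≤ k) (hsm : s ≤ m) (h : 2 ^ m + 2 ^ s = 2 ^ (k + s) + 2 ^ k) :
    s = k ∧ m = 2 * k := by
  have two_pos : ∀ j : ℕ, 0 < 2 ^ j := fun j => pow_pos (by norm_num) j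
  rcases lt_trichotomy s k with hlt | rfl | hgt
  · exfalso
    obtain ⟨d, rfl⟩ := Nat.exists_eq_add_of_lt hlt
    obtain ⟨e, rfl⟩ := Nat.exists_eq_add_of_le hsm
    have h1 : 2 ^ s * (2 ^ e + 1) = 2 ^ s * (2 ^ (s + d + 1) + 2 ^ (d + 1)) := by
      have e1 : 2 ^ s * (2 ^ e + 1) = 2 ^ (s + e) + 2 ^ s := by ring
      have e2 : 2 ^ s * (2 ^ (s + d + 1) + 2 ^ (d + 1)) = 2 ^ (s + d + 1 + s) + 2 ^ (s + d + 1) := by ring
      rw [e1, e2, h]
    have h2 := Nat.eq_of_mul_eq_mul_left (two_pos s) h1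
    rcases Nat.eq_zero_or_pos e with rfl | he
    · have h3 : 2 ≤ 2 ^ (s + d + 1) := by
        calc 2 = 2 ^ 1 := rfl
          _ ≤ _ := Nat.pow_le_pow_right (by norm_num) (by omega)
      have h4 : 2 ≤ 2 ^ (d + 1) := by
        calc 2 = 2 ^ 1 := rfl
          _ ≤ _ := Nat.pow_le_pow_right (by norm_num) (by omega)
      rw [pow_zero] at h2
      omega
    · obtain ⟨e', rfl⟩ := Nat.exists_eq_succ_of_ne_zero he.ne'
      rw [Nat.succ_eq_add_one, pow_succ, pow_succ, pow_succ] at h2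
      omega
  · refine ⟨rfl, ?_⟩
    have h1 : 2 ^ m = 2 ^ (s + s) := by omega
    have := Nat.pow_right_injective (le_refl 2) h1
    omega
  · exfalso
    obtain ⟨d, rfl⟩ := Nat.exists_eq_add_of_lt hgt
    obtain ⟨e, rfl⟩ := Nat.exists_eq_add_of_le hsm
    have h1 : 2 ^ k * (2 ^ (d + 1 + e) + 2 ^ (d + 1)) = 2 ^ k * (2 ^ (k + d + 1) + 1) := by
      have e1 : 2 ^ k * (2 ^ (d + 1 + e) + 2 ^ (d + 1)) = 2 ^ (k + d + 1 + e) + 2 ^ (k + d + 1) := by ring
      have e2 : 2 ^ k * (2 ^ (k + d + 1) + 1) = 2 ^ (k + (k + d + 1)) + 2 ^ k := by ring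
      rw [e1, e2, h]
    have h2 := Nat.eq_of_mul_eq_mul_left (two_pos k) h1
    rw [show d + 1 + e = (d + e) + 1 by ring, pow_succ, pow_succ, pow_succ] at h2
    omega

theorem arith2 {k m t N : ℕ} (hk : 1 ≤ k) (hm : 1 ≤ m) (htl : k ≤ t) (htu : t ≤ k + m)
    (h1 : 2 ^ (k + m) = 2 ^ k + (2 ^ k - 1) * N)
    (h2 : ((2 : ℤ) ^ k - N) ^ 2 = 2 ^ (k + m) * 2 ^ t) : m = 2 * k ∧ t = k := by
  have hpk : 0 < 2 ^ k := pow_pos (by norm_num) k
  -- `2^k ∣ N`
  have hdvd : 2 ^ k ∣ N := by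
    have h3 : 2 ^ k ∣ (2 ^ k - 1) * N := by
      have h4 : 2 ^ k ∣ 2 ^ k + (2 ^ k - 1) * N := by
        rw [← h1]; exact pow_dvd_pow 2 (by omega)
      exact (Nat.dvd_add_right dvd_rfl).mp h4
    refine Nat.Coprime.dvd_of_dvd_mul_left ?_ h3
    have h5 : 2 ^ k = (2 ^ k - 1) + 1 := by omega
    conv_lhs => rw [h5]
    exact (Nat.coprime_self_add_right.mpr (Nat.coprime_one_right _)).symm
  obtain ⟨n, rfl⟩ := hdvd
  have h3 : 2 ^ m = 1 + (2 ^ k - 1) * n := by
    have h4 : 2 ^ k * 2 ^ m = 2 ^ k * (1 + (2 ^ k - 1) * n) := by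
      rw [← pow_add, h1]; ring
    exact Nat.eq_of_mul_eq_mul_left hpk h4
  have hn1 : 1 ≤ n := by
    rcases Nat.eq_zero_or_pos n with rfl | h
    · exfalso
      rw [mul_zero, add_zero] at h3
      have : 2 ≤ 2 ^ m := by
        calc 2 = 2 ^ 1 := rfl
          _ ≤ _ := Nat.pow_le_pow_right (by norm_num) hm
      omega
    · exact h
  obtain ⟨n', rfl⟩ := Nat.exists_eq_add_of_le hn1
  have h4 : n' ^ 2 = 2 ^ (m + t - k) := by
    have h5 : ((2 : ℤ) ^ k) ^ 2 * (n' : ℤ) ^ 2 = ((2 : ℤ) ^ k) ^ 2 * 2 ^ (m + t - k) := by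
      have h6 : (2 : ℤ) ^ (k + m) * 2 ^ t = ((2 : ℤ) ^ k) ^ 2 * 2 ^ (m + t - k) := by
        rw [← pow_add, ← pow_mul, ← pow_add]
        congr 1
        omega
      rw [← h6, ← h2]
      push_cast
      ring
    have h7 : (n' : ℤ) ^ 2 = 2 ^ (m + t - k) := mul_left_cancel₀ (by positivity) h5
    exact_mod_cast h7
  obtain ⟨s, hs, hs2⟩ := (Nat.dvd_prime_pow Nat.prime_two).mp (Dvd.intro_left n' (by rw [← pow_two]; exact h4))
  have hs3 : s * 2 = m + t - k := by
    rw [hs2, ← pow_mul] at h4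
    exact Nat.pow_right_injective (le_refl 2) h4
  have h5 : 2 ^ m + 2 ^ s = 2 ^ (k + s) + 2 ^ k := by
    rw [h3, hs2]
    have h6 : 2 ^ k = (2 ^ k - 1) + 1 := by omega
    generalize 2 ^ k - 1 = z at h6
    rw [pow_add, h6]
    ring
  obtain ⟨h7, h8⟩ := arith1 hk (by omega) h5
  omega

variable {D : Type*} [Group D] [Finite D]

theorem comm_mem_of_sq {E : Subgroup D} (hsq : ∀ v : D, v ^ 2 ∈ E) (v u : D) : ⁅v, u⁆ ∈ E := by
  have h : ⁅v, u⁆ = (v⁻¹ ^ 2)⁻¹ * (v⁻¹ * u) ^ 2 * (u ^ 2)⁻¹ := by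
    rw [commutatorElement_def]
    simp only [pow_two]
    group
  rw [h]
  exact mul_mem (mul_mem (inv_mem (hsq _)) (hsq _)) (inv_mem (hsq _))

open Classical in
/-- the character with kernel `M` -/
noncomputable def lam (M : Subgroup D) (e : D) : ℤ := if e ∈ M then 1 else -1

theorem lam_mul {E M : Subgroup D} (_hM : M ≤ E) (hM2 : M.relIndex E = 2) {a b : D} (ha : a ∈ E) (hb : b ∈ E) :
    lam M (a * b) = lam M a * lam M b := by
  have h : a * b ∈ M ↔ (a ∈ M ↔ b ∈ M) := by
    have h1 := Subgroup.mul_mem_iff_of_index_two (H := M.subgroupOf E) hM2 (a := ⟨a, ha⟩) (b := ⟨b, hb⟩)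
    simpa [Subgroup.mem_subgroupOf] using h1
  unfold lam
  by_cases h1 : a ∈ M <;> by_cases h2 : b ∈ M <;> simp [h, h1, h2]

theorem lam_sq (M : Subgroup D) (a : D) : lam M a * lam M a = 1 := by
  unfold lam
  split_ifs <;> norm_num

theorem countA (E : Subgroup D) {k m N : ℕ} (hk : 1 ≤ k) (hm : 1 ≤ m) (hE : Nat.card E = 2 ^ k)
    (hD : Nat.card D = 2 ^ (k + m)) (hcen : ∀ e ∈ E, ∀ v : D, e * v = v * e) (hsq : ∀ v : D, v ^ 2 ∈ E)
    (he2 : ∀ e ∈ E, e ^ 2 = 1) (hinv : ∀ v : D, v ^ 2 = 1 → v ∈ E)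
    (hN : ∀ e ∈ E, e ≠ 1 → Nat.card {v : D // v ^ 2 = e} = N) (M : Subgroup D) (hM : M ≤ E)
    (hM2 : M.relIndex E = 2) (h6 : ∀ v : D, (∀ w, ⁅v, w⁆ ∈ M) → v ^ 2 ∈ M) :
    m = 2 * k ∧ ∀ v : D, (∀ w, ⁅v, w⁆ ∈ M) → v ∈ E := by
  classical
  have := Fintype.ofFinite D
  have hcardM : 2 * Nat.card M = Nat.card E := by
    have h1 := (M.subgroupOf E).card_mul_index
    have h2 : Nat.card (M.subgroupOf E) = Nat.card M := Nat.card_congr (Subgroup.subgroupOfEquivOfLe hM).toEquiv
    have h3 : (M.subgroupOf E).index = 2 := hM2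
    rw [h2, h3] at h1
    omega
  have hcomm := comm_mem_of_sq hsq
  -- first evaluation of the sum
  have g1 : ∑ v : D, lam M (v ^ 2) = 2 ^ k - N := by
    have h1 := Finset.sum_fiberwise (Finset.univ : Finset D) (fun v => (⟨v ^ 2, hsq v⟩ : E)) (fun v => lam M (v ^ 2))
    rw [← h1]
    have h2 : ∀ e : E, ∑ v ∈ Finset.univ.filter (fun v : D => (⟨v ^ 2, hsq v⟩ : E) = e), lam M (v ^ 2) =
        (if e = 1 then (2 : ℤ) ^ k - N else 0) + N * lam M e := by
      intro e
      have h3 : ∀ v ∈ Finset.univ.filter (fun v : D => (⟨v ^ 2, hsq v⟩ : E) = e), lam M (v ^ 2) = lam M e := by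
        intro v hv
        rw [Finset.mem_filter] at hv
        rw [← hv.2]
      rw [Finset.sum_congr rfl h3, Finset.sum_const]
      have h4 : (Finset.univ.filter (fun v : D => (⟨v ^ 2, hsq v⟩ : E) = e)).card = Nat.card {v : D // v ^ 2 = e} := by
        rw [Nat.card_eq_fintype_card, Fintype.card_subtype]
        congr 1
        ext v
        simp only [Finset.mem_filter, Finset.mem_univ, true_and]
        exact Subtype.ext_iff
      rw [h4]
      by_cases he : e = 1
      · rw [if_pos he, he]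
        have h5 : Nat.card {v : D // v ^ 2 = ((1 : E) : D)} = 2 ^ k := by
          rw [← hE]
          apply Nat.card_congr
          refine Equiv.subtypeEquivRight (fun v => ⟨fun hv => hinv v hv, fun hv => he2 v hv⟩)
        rw [h5]
        have h6 : lam M ((1 : E) : D) = 1 := by
          unfold lam
          exact if_pos (one_mem M)
        rw [h6]
        simp
      · rw [if_neg he, hN e e.2 (fun h => he (Subtype.ext h)), zero_add, nsmul_eq_mul]
    rw [Finset.sum_congr rfl (fun e _ => h2 e), Finset.sum_add_distrib, Finset.sum_ite_eq' Finset.univ (1 : E),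
      if_pos (Finset.mem_univ _), ← Finset.mul_sum]
    have h5 : ∑ e : E, lam M (e : D) = 0 := by
      unfold lam
      rw [Finset.sum_ite, Finset.sum_const, Finset.sum_const]
      have h6 : (Finset.univ.filter (fun e : E => (e : D) ∈ M)).card = Nat.card M := by
        rw [← Fintype.card_subtype, ← Nat.card_eq_fintype_card]
        exact Nat.card_congr ⟨fun x => ⟨x.1.1, x.2⟩, fun x => ⟨⟨x.1, hM x.2⟩, x.2⟩, fun _ => rfl, fun _ => rfl⟩
      have h7 := Finset.card_filter_add_card_filter_not (s := (Finset.univ : Finset E)) (fun e : E => (e : D) ∈ M)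
      rw [h6, Finset.card_univ, ← Nat.card_eq_fintype_card, ← hcardM] at h7
      have h8 : (Finset.univ.filter (fun e : E => ¬ (e : D) ∈ M)).card = Nat.card M := by omega
      rw [h6, h8]
      simp
    rw [h5, mul_zero, add_zero]
  -- the number of elements
  have g0 : 2 ^ (k + m) = 2 ^ k + (2 ^ k - 1) * N := by
    have h1 := Finset.card_eq_sum_card_fiberwise (s := (Finset.univ : Finset D)) (t := (Finset.univ : Finset E))
      (f := fun v => (⟨v ^ 2, hsq v⟩ : E)) (fun _ _ => Finset.mem_coe.mpr (Finset.mem_univ _))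
    rw [Finset.card_univ, ← Nat.card_eq_fintype_card, hD] at h1
    rw [h1, ← Finset.add_sum_erase Finset.univ _ (Finset.mem_univ (1 : E))]
    have h4 : ∀ e : E, (Finset.univ.filter (fun v : D => (⟨v ^ 2, hsq v⟩ : E) = e)).card = Nat.card {v : D // v ^ 2 = e} := by
      intro e
      rw [Nat.card_eq_fintype_card, Fintype.card_subtype]
      congr 1
      ext v
      simp only [Finset.mem_filter, Finset.mem_univ, true_and]
      exact Subtype.ext_iff
    rw [h4]
    have h5 : Nat.card {v : D // v ^ 2 = ((1 : E) : D)} = 2 ^ k := by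
      rw [← hE]
      apply Nat.card_congr
      refine Equiv.subtypeEquivRight (fun v => ⟨fun hv => hinv v hv, fun hv => he2 v hv⟩)
    rw [h5]
    congr 1
    rw [Finset.sum_congr rfl (g := fun _ => N)]
    · rw [Finset.sum_const, Finset.card_erase_of_mem (Finset.mem_univ _), Finset.card_univ,
        ← Nat.card_eq_fintype_card, hE, smul_eq_mul]
    · intro e he
      rw [h4, hN e e.2 (fun h => (Finset.ne_of_mem_erase he) (Subtype.ext h))]
  -- the subgroup `D_M`
  have hcm : ∀ u v v' : D, ⁅u, v * v'⁆ = ⁅u, v⁆ * ⁅u, v'⁆ := by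
    intro u v v'
    have h1 : ⁅u, v * v'⁆ = ⁅u, v⁆ * (v * ⁅u, v'⁆ * v⁻¹) := by
      simp only [commutatorElement_def]
      group
    rw [h1, ← hcen _ (hcomm u v') v]
    group
  have hcm' : ∀ u u' v : D, ⁅u * u', v⁆ = ⁅u, v⁆ * ⁅u', v⁆ := by
    intro u u' v
    have h1 : ⁅u * u', v⁆ = (u * ⁅u', v⁆ * u⁻¹) * ⁅u, v⁆ := by
      simp only [commutatorElement_def]
      group
    rw [h1, ← hcen _ (hcomm u' v) u, hcen _ (hcomm u v) ⁅u', v⁆]
    group
  let DM : Subgroup D :=
    { carrier := {u | ∀ v, ⁅u, v⁆ ∈ M}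
      one_mem' := by
        intro v
        rw [commutatorElement_one_left]
        exact one_mem M
      mul_mem' := by
        intro a b ha hb v
        rw [hcm']
        exact mul_mem (ha v) (hb v)
      inv_mem' := by
        intro a ha v
        have h1 := hcm' a a⁻¹ v
        rw [mul_inv_cancel, commutatorElement_one_left] at h1
        rw [eq_inv_of_mul_eq_one_right h1.symm]
        exact inv_mem (ha v) }
  have hEDM : E ≤ DM := by
    intro e he v
    rw [commutatorElement_eq_one_iff_mul_comm.mpr (hcen e he v)]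
    exact one_mem M
  -- second evaluation
  have g2 : (∑ v : D, lam M (v ^ 2)) ^ 2 = 2 ^ (k + m) * Nat.card DM := by
    have h1 : (∑ v : D, lam M (v ^ 2)) ^ 2 = ∑ v : D, ∑ u : D, lam M (u ^ 2) * lam M ⁅v⁻¹, u⁆ := by
      rw [pow_two, Finset.sum_mul_sum]
      apply Finset.sum_congr rfl
      intro v _
      rw [← Equiv.sum_comp (Equiv.mulLeft v) (fun w => lam M (v ^ 2) * lam M (w ^ 2))]
      apply Finset.sum_congr rfl
      intro u _
      show lam M (v ^ 2) * lam M ((v * u) ^ 2) = _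
      have h2 : (v * u) ^ 2 = v ^ 2 * (⁅v⁻¹, u⁆ * u ^ 2) := by
        rw [commutatorElement_def]
        simp only [pow_two]
        group
      rw [h2, lam_mul hM hM2 (hsq v) (mul_mem (hcomm _ _) (hsq u)), lam_mul hM hM2 (hcomm _ _) (hsq u), ← mul_assoc,
        lam_sq, one_mul, mul_comm]
    rw [h1, Finset.sum_comm]
    have h3 : ∀ u : D, ∑ v : D, lam M (u ^ 2) * lam M ⁅v⁻¹, u⁆ = if u ∈ DM then (2 : ℤ) ^ (k + m) else 0 := by
      intro u
      have hinvs : ∑ v : D, lam M ⁅v⁻¹, u⁆ = ∑ v : D, lam M ⁅v, u⁆ :=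
        Equiv.sum_comp (Equiv.inv D) (fun v => lam M ⁅v, u⁆)
      rw [← Finset.mul_sum, hinvs]
      by_cases hu : u ∈ DM
      · rw [if_pos hu]
        have h4 : lam M (u ^ 2) = 1 := by
          unfold lam
          exact if_pos (h6 u hu)
        have h5 : ∀ v : D, lam M ⁅v, u⁆ = 1 := by
          intro v
          unfold lam
          apply if_pos
          rw [← commutatorElement_inv]
          exact inv_mem (hu v)
        simp only [h5]
        rw [h4, one_mul, Finset.sum_const, Finset.card_univ, ← Nat.card_eq_fintype_card, hD]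
        simp
      · rw [if_neg hu]
        have h5 : ∃ v0, ⁅u, v0⁆ ∉ M := by
          by_contra hcon
          push Not at hcon
          exact hu hcon
        obtain ⟨v0, hv0⟩ := h5
        have h6' : lam M ⁅v0, u⁆ = -1 := by
          unfold lam
          apply if_neg
          intro h
          apply hv0
          rw [← commutatorElement_inv]
          exact inv_mem h
        have h7 : ∑ v : D, lam M ⁅v, u⁆ = - ∑ v : D, lam M ⁅v, u⁆ := by
          conv_lhs => rw [← Equiv.sum_comp (Equiv.mulLeft v0) (fun v => lam M ⁅v, u⁆)]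
          rw [← Finset.sum_neg_distrib]
          apply Finset.sum_congr rfl
          intro v _
          show lam M ⁅v0 * v, u⁆ = _
          rw [hcm', lam_mul hM hM2 (hcomm _ _) (hcomm _ _), h6', neg_one_mul]
        have h8 : ∑ v : D, lam M ⁅v, u⁆ = 0 := by omega
        rw [h8, mul_zero]
    rw [Finset.sum_congr rfl (fun u _ => h3 u), Finset.sum_ite, Finset.sum_const_zero, add_zero, Finset.sum_const]
    have h9 : (Finset.univ.filter (fun u : D => u ∈ DM)).card = Nat.card DM := by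
      rw [Nat.card_eq_fintype_card]
      exact (Fintype.card_subtype _).symm
    rw [h9, nsmul_eq_mul, mul_comm]
  -- `|D_M|` is a power of two
  obtain ⟨t, ht, ht2⟩ := (Nat.dvd_prime_pow Nat.prime_two).mp (hD ▸ Subgroup.card_subgroup_dvd_card DM)
  have hkt : k ≤ t := by
    have h1 := Subgroup.card_dvd_of_le hEDM
    rw [hE, ht2] at h1
    exact (Nat.pow_dvd_pow_iff_le_right (by norm_num)).mp h1
  rw [g1, ht2] at g2
  push_cast at g2
  obtain ⟨h1, h2⟩ := arith2 hk hm hkt ht g0 g2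
  refine ⟨h1, fun v hv => ?_⟩
  have h3 : E = DM := Subgroup.eq_of_le_of_card_ge hEDM (by rw [ht2, hE, h2])
  rw [h3]
  exact hv

end Cfsg.Agent.H22.Inv
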