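import Cfsg.Agent.H22_Inv1
import Cfsg.Agent.H1_Hall
import Cfsg.Agent.H2_PGroup

/-!
Special 2-groups `D` with `E = Ω₁(D)` central: automorphisms of order 2.
-/

set_option autoImplicit false
set_option linter.unusedSectionVars false

namespace Cfsg.Agent.H22.Inv

open Subgroup
open scoped commutatorElement

variable {D : Type*} [Group D] [Finite D]

theorem comm_mul_right {E : Subgroup D} (hcen : ∀ e ∈ E, ∀ v : D, e * v = v * e) (hsq : ∀ v : D, v ^ 2 ∈ E)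
    (u v v' : D) : ⁅u, v * v'⁆ = ⁅u, v⁆ * ⁅u, v'⁆ := by
  have h1 : ⁅u, v * v'⁆ = ⁅u, v⁆ * (v * ⁅u, v'⁆ * v⁻¹) := by
    simp only [commutatorElement_def]
    group
  rw [h1, ← hcen _ (comm_mem_of_sq hsq u v') v]
  group

theorem comm_mul_left {E : Subgroup D} (hcen : ∀ e ∈ E, ∀ v : D, e * v = v * e) (hsq : ∀ v : D, v ^ 2 ∈ E)
    (u u' v : D) : ⁅u * u', v⁆ = ⁅u, v⁆ * ⁅u', v⁆ := by
  have h1 : ⁅u * u', v⁆ = (u * ⁅u', v⁆ * u⁻¹) * ⁅u, v⁆ := by
    simp only [commutatorElement_def]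
    group
  rw [h1, ← hcen _ (comm_mem_of_sq hsq u' v) u, hcen _ (comm_mem_of_sq hsq u v) ⁅u', v⁆]
  group

/-- a proper subgroup of a 2-group `E` lies in a subgroup of index 2 -/
theorem exists_index_two {E I : Subgroup D} (hE : IsPGroup 2 E) (hIE : I ≤ E) (hne : I ≠ E) :
    ∃ M : Subgroup D, I ≤ M ∧ M ≤ E ∧ M.relIndex E = 2 := by
  have h2 : Fact (Nat.Prime 2) := ⟨Nat.prime_two⟩
  have h1 : I.subgroupOf E ≠ ⊤ := by
    intro h
    rw [Subgroup.subgroupOf_eq_top] at h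
    exact hne (le_antisymm hIE h)
  obtain ⟨M, hM, hIM⟩ := (eq_top_or_exists_le_coatom (I.subgroupOf E)).resolve_left h1
  refine ⟨M.map E.subtype, ?_, Subgroup.map_subtype_le M, ?_⟩
  · intro x hx
    exact ⟨⟨x, hIE hx⟩, hIM (Subgroup.mem_subgroupOf.mpr hx), rfl⟩
  · have h3 : (M.map E.subtype).subgroupOf E = M := Subgroup.comap_map_eq_self_of_injective E.subtype_injective M
    show ((M.map E.subtype).subgroupOf E).index = 2
    rw [h3]
    exact H2.PGroup.coatom_index hE hM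

theorem card_centralizer_le {E : Subgroup D} {k : ℕ} (hE : Nat.card E = 2 ^ k) (hD : Nat.card D = 2 ^ (k + 2 * k))
    (hcen : ∀ e ∈ E, ∀ v : D, e * v = v * e) (hsq : ∀ v : D, v ^ 2 ∈ E)
    (h : ∀ M : Subgroup D, M ≤ E → M.relIndex E = 2 → ∀ v : D, (∀ w, ⁅v, w⁆ ∈ M) → v ∈ E) (v : D) (hv : v ∉ E) :
    Nat.card (centralizer ({v} : Set D)) ≤ 2 ^ (2 * k) := by
  let f : D →* D :=
    { toFun := fun w => ⁅v, w⁆
      map_one' := commutatorElement_one_right v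
      map_mul' := comm_mul_right hcen hsq v }
  have h1 : f.range = E := by
    by_contra hne
    have h2 : f.range ≤ E := by
      rintro _ ⟨w, rfl⟩
      exact comm_mem_of_sq hsq v w
    obtain ⟨M, hIM, hME, hM2⟩ := exists_index_two (IsPGroup.of_card hE) h2 hne
    exact hv (h M hME hM2 v (fun w => hIM ⟨w, rfl⟩))
  have h2 : f.ker = centralizer ({v} : Set D) := by
    ext w
    rw [MonoidHom.mem_ker, Subgroup.mem_centralizer_singleton_iff]
    show ⁅v, w⁆ = 1 ↔ _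
    rw [commutatorElement_eq_one_iff_mul_comm]
    exact ⟨fun h => h.symm, fun h => h.symm⟩
  have h3 := f.ker.card_mul_index
  rw [Subgroup.index_ker, h1, h2, hE, hD, pow_add, mul_comm] at h3
  exact (Nat.eq_of_mul_eq_mul_left (pow_pos (by norm_num) k) h3).le

theorem invB {E : Subgroup D} {k : ℕ} (hE : Nat.card E = 2 ^ k) (hD : Nat.card D = 2 ^ (k + 2 * k))
    (hcen : ∀ e ∈ E, ∀ v : D, e * v = v * e) (hsq : ∀ v : D, v ^ 2 ∈ E) (he2 : ∀ e ∈ E, e ^ 2 = 1)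
    (hcent : ∀ v : D, v ∉ E → Nat.card (centralizer ({v} : Set D)) ≤ 2 ^ (2 * k))
    (σ : MulAut D) (hσE : ∀ e ∈ E, σ e = e) (hσ2 : ∀ v, σ (σ v) = v) (hσ : ∃ v, v⁻¹ * σ v ∉ E) (u : D)
    (hu : u⁻¹ * σ u ∈ E) : σ u = u⁻¹ := by
  have hEn : E.Normal := ⟨fun e he v => by rw [← hcen e he v, mul_assoc, mul_inv_cancel, mul_one]; exact he⟩
  have hab : ∀ a b : D, (QuotientGroup.mk (a * b) : D ⧸ E) = QuotientGroup.mk (b * a) := by
    intro a b
    apply QuotientGroup.eq.mpr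
    have h1 : (a * b)⁻¹ * (b * a) = ⁅b⁻¹, a⁻¹⁆ := by
      rw [commutatorElement_def]; group
    rw [h1]
    exact comm_mem_of_sq hsq _ _
  let f : D →* D ⧸ E :=
    { toFun := fun w => QuotientGroup.mk (w⁻¹ * σ w)
      map_one' := by rw [map_one, mul_one, inv_one]; rfl
      map_mul' := by
        intro a b
        have h1 : (a * b)⁻¹ * σ (a * b) = b⁻¹ * ((a⁻¹ * σ a) * σ b) := by rw [map_mul]; group
        have h2 : (a⁻¹ * σ a) * σ b * b⁻¹ = (a⁻¹ * σ a) * (σ b * b⁻¹) := by group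
        rw [h1, hab, h2, QuotientGroup.mk_mul, hab (σ b) b⁻¹] }
  set U := f.ker with hU
  have hUmem : ∀ w, w ∈ U ↔ w⁻¹ * σ w ∈ E := by
    intro w
    rw [hU, MonoidHom.mem_ker]
    exact QuotientGroup.eq_one_iff _
  set P := f.range.comap (QuotientGroup.mk' E) with hP
  have hPinv : ∀ v ∈ P, σ v = v⁻¹ := by
    intro v hv
    obtain ⟨w, hw⟩ := hv
    obtain ⟨e, h2, h1⟩ : ∃ e, v = w⁻¹ * σ w * e ∧ e ∈ E :=
      ⟨(w⁻¹ * σ w)⁻¹ * v, by group, QuotientGroup.eq.mp hw⟩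
    have h3 : e * e = 1 := by rw [← pow_two]; exact he2 e h1
    have h4 : e⁻¹ = e := inv_eq_of_mul_eq_one_right h3
    rw [h2, map_mul, map_mul, map_inv, hσ2, hσE e h1, mul_inv_rev, mul_inv_rev, inv_inv, h4, hcen e h1]
  have hcP : Nat.card P * Nat.card U = Nat.card D * Nat.card E := by
    rw [hP, H1.Hall.card_comap_mk, ← f.ker.card_mul_index, Subgroup.index_ker]
    ring
  have hPU : P ≤ U := by
    intro v hv
    rw [hUmem, hPinv v hv, ← mul_inv_rev, ← pow_two]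
    exact inv_mem (hsq v)
  obtain ⟨w0, hw0⟩ := hσ
  have hUc : U ≤ centralizer ({w0⁻¹ * σ w0} : Set D) := by
    intro u hu
    rw [hUmem] at hu
    rw [Subgroup.mem_centralizer_singleton_iff]
    have h1 : ⁅w0⁻¹ * σ w0, u⁆ = 1 := by
      have h2 : ⁅σ w0, u⁆ = ⁅w0, u⁆ := by
        have h3 : σ ⁅w0, u⁆ = ⁅w0, u⁆ := hσE _ (comm_mem_of_sq hsq _ _)
        rw [map_commutatorElement] at h3
        have h4 : σ u = u * (u⁻¹ * σ u) := by group
        rw [h4, comm_mul_right hcen hsq] at h3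
        have h5 : ⁅σ w0, u⁻¹ * σ u⁆ = 1 := by
          rw [commutatorElement_eq_one_iff_mul_comm]
          exact (hcen _ hu _).symm
        rw [h5, mul_one] at h3
        exact h3
      have h6 := comm_mul_left hcen hsq w0 w0⁻¹ u
      rw [mul_inv_cancel, commutatorElement_one_left] at h6
      rw [comm_mul_left hcen hsq, h2, eq_inv_of_mul_eq_one_right h6.symm, inv_mul_cancel]
    rw [commutatorElement_eq_one_iff_mul_comm] at h1
    exact h1.symm
  have h1 : Nat.card U ≤ 2 ^ (2 * k) := (Subgroup.card_le_of_le hUc).trans (hcent _ hw0)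
  have h2 : Nat.card U ≤ Nat.card P := by
    by_contra hlt
    push Not at hlt
    have h3 : Nat.card P * Nat.card U < 2 ^ (2 * k) * 2 ^ (2 * k) := by
      calc Nat.card P * Nat.card U < Nat.card U * Nat.card U := Nat.mul_lt_mul_of_pos_right hlt Nat.card_pos
        _ ≤ _ := Nat.mul_le_mul h1 h1
    rw [hcP, hD, hE, ← pow_add, ← pow_add] at h3
    have : k + 2 * k + k = 2 * k + 2 * k := by ring
    rw [this] at h3
    exact lt_irrefl _ h3
  have h3 : P = U := Subgroup.eq_of_le_of_card_ge hPU h2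
  apply hPinv
  rw [h3, hUmem]
  exact hu

/-- two automorphisms -/
theorem invC {E : Subgroup D} {k : ℕ} (hE : Nat.card E = 2 ^ k) (hD : Nat.card D = 2 ^ (k + 2 * k))
    (hcen : ∀ e ∈ E, ∀ v : D, e * v = v * e) (hsq : ∀ v : D, v ^ 2 ∈ E) (he2 : ∀ e ∈ E, e ^ 2 = 1)
    (hinv : ∀ v : D, v ^ 2 = 1 → v ∈ E)
    (hcent : ∀ v : D, v ∉ E → Nat.card (centralizer ({v} : Set D)) ≤ 2 ^ (2 * k))
    (σ τ : MulAut D) (hσE : ∀ e ∈ E, σ e = e) (hτE : ∀ e ∈ E, τ e = e) (hσ2 : ∀ v, σ (σ v) = v) (hτ2 : ∀ v, τ (τ v) = v)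
    (hστ : ∀ v, σ (τ v) = τ (σ v)) (hσ : ∃ v, v⁻¹ * σ v ∉ E) (hτ : ∃ v, v⁻¹ * τ v ∉ E)
    (u : D) (huE : u ∉ E) (hu : u⁻¹ * σ u ∈ E) (hu' : u⁻¹ * τ u ∈ E) : ∀ v, v⁻¹ * σ (τ v) ∈ E := by
  by_contra hcon
  push Not at hcon
  have h1 := invB hE hD hcen hsq he2 hcent σ hσE hσ2 hσ u hu
  have h2 := invB hE hD hcen hsq he2 hcent τ hτE hτ2 hτ u hu'
  have h3 := invB hE hD hcen hsq he2 hcent (σ * τ) (fun e he => by rw [MulAut.mul_apply, hτE e he, hσE e he])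
    (fun v => by
      rw [MulAut.mul_apply, MulAut.mul_apply, hστ, hσ2, hτ2]) hcon u (by
      rw [MulAut.mul_apply, h2, map_inv, h1, inv_inv, inv_mul_cancel]
      exact one_mem E)
  rw [MulAut.mul_apply, h2, map_inv, h1, inv_inv] at h3
  apply huE
  apply hinv
  rw [pow_two]
  nth_rewrite 1 [h3]
  rw [inv_mul_cancel]

end Cfsg.Agent.H22.Inv
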