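import Mathlib

/-!
Graded Lie rings with trivial zero component: Kreknin's theorem and the bound of Higman, Kreknin and Kostrikin, in terms of
families of additive subgroups indexed by `ZMod n`.
-/

set_option autoImplicit false

namespace Cfsg.Agent.H22.LieGr

variable {L : Type*} [LieRing L] {n : ℕ}

/-- families of additive subgroups -/
abbrev Fam (L : Type*) [LieRing L] (n : ℕ) := ZMod n → AddSubgroup L

/-- bracket of two families -/
def B (M N : Fam L n) : Fam L n := fun k =>
  AddSubgroup.closure {z | ∃ i j : ZMod n, i + j = k ∧ ∃ x ∈ M i, ∃ y ∈ N j, ⁅x, y⁆ = z}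

theorem mem_B {M N : Fam L n} {i j : ZMod n} {x y : L} (hx : x ∈ M i) (hy : y ∈ N j) : ⁅x, y⁆ ∈ B M N (i + j) :=
  AddSubgroup.subset_closure ⟨i, j, rfl, x, hx, y, hy, rfl⟩

theorem B_le {M N P : Fam L n} (h : ∀ i j, ∀ x ∈ M i, ∀ y ∈ N j, ⁅x, y⁆ ∈ P (i + j)) : B M N ≤ P := by
  intro k
  unfold B
  rw [AddSubgroup.closure_le]
  rintro z ⟨i, j, rfl, x, hx, y, hy, rfl⟩
  exact h i j x hx y hy

theorem B_mono {M N M' N' : Fam L n} (hM : M ≤ M') (hN : N ≤ N') : B M N ≤ B M' N' :=
  B_le (fun i j _ hx _ hy => mem_B (hM i hx) (hN j hy))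

/-- closed under brackets -/
def Gr (M : Fam L n) : Prop := ∀ i j, ∀ x ∈ M i, ∀ y ∈ M j, ⁅x, y⁆ ∈ M (i + j)

/-- derived family -/
def D (M : Fam L n) : Fam L n := B M M

theorem D_mono {M N : Fam L n} (h : M ≤ N) : D M ≤ D N := B_mono h h

theorem D_le {M : Fam L n} (hM : Gr M) : D M ≤ M := B_le hM

theorem gr_D {M : Fam L n} (hM : Gr M) : Gr (D M) :=
  fun i j _ hx _ hy => mem_B (D_le hM i hx) (D_le hM j hy)

theorem gr_iter {M : Fam L n} (hM : Gr M) (m : ℕ) : Gr (D^[m] M) := by
  induction m with
  | zero => exact hM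
  | succ m ih => rw [Function.iterate_succ_apply']; exact gr_D ih

theorem iter_le {M : Fam L n} (hM : Gr M) (m : ℕ) : D^[m] M ≤ M := by
  induction m with
  | zero => exact le_rfl
  | succ m ih => rw [Function.iterate_succ_apply']; exact (D_le (gr_iter hM m)).trans ih

/-- the family generated by the components in `J` -/
def gen (J : Set (ZMod n)) (M : Fam L n) : Fam L n := fun k =>
  ⨅ H : {H : Fam L n // Gr H ∧ ∀ j ∈ J, M j ≤ H j}, H.1 k

theorem mem_gen {J : Set (ZMod n)} {M : Fam L n} {k : ZMod n} {x : L} :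
    x ∈ gen J M k ↔ ∀ H : Fam L n, Gr H → (∀ j ∈ J, M j ≤ H j) → x ∈ H k := by
  unfold gen
  rw [AddSubgroup.mem_iInf]
  exact ⟨fun h H h1 h2 => h ⟨H, h1, h2⟩, fun h H => h H.1 H.2.1 H.2.2⟩

theorem gen_gr (J : Set (ZMod n)) (M : Fam L n) : Gr (gen J M) := by
  intro i j x hx y hy
  rw [mem_gen] at *
  intro H h1 h2
  exact h1 i j x (hx H h1 h2) y (hy H h1 h2)

theorem le_gen {J : Set (ZMod n)} {M : Fam L n} {j : ZMod n} (hj : j ∈ J) : M j ≤ gen J M j := by
  intro x hx
  rw [mem_gen]
  intro H _ h2
  exact h2 j hj hx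

theorem gen_le {J : Set (ZMod n)} {M H : Fam L n} (h1 : Gr H) (h2 : ∀ j ∈ J, M j ≤ H j) : gen J M ≤ H :=
  fun _ _ hx => mem_gen.mp hx H h1 h2

open Classical in
/-- restriction of a family -/
noncomputable def res (J : Set (ZMod n)) (M : Fam L n) : Fam L n := fun j => if j ∈ J then M j else ⊥

theorem D_gen_le (J : Set (ZMod n)) (M : Fam L n) : D (gen J M) ≤ B (gen J M) (res J M) := by
  classical
  set H := gen J M with hH
  let H' : Fam L n := fun j =>
    { carrier := {y | y ∈ H j ∧ ∀ i, ∀ x ∈ H i, ⁅x, y⁆ ∈ B H (res J M) (i + j)}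
      zero_mem' := ⟨zero_mem _, fun i x _ => by rw [lie_zero]; exact zero_mem _⟩
      add_mem' := by
        rintro y z ⟨hy, hy2⟩ ⟨hz, hz2⟩
        refine ⟨add_mem hy hz, fun i x hx => ?_⟩
        rw [lie_add]
        exact add_mem (hy2 i x hx) (hz2 i x hx)
      neg_mem' := by
        rintro y ⟨hy, hy2⟩
        refine ⟨neg_mem hy, fun i x hx => ?_⟩
        rw [lie_neg]
        exact neg_mem (hy2 i x hx) }
  have h1 : H ≤ H' := by
    apply gen_le
    · intro j l y hy z hz
      refine ⟨gen_gr J M j l y hy.1 z hz.1, fun i x hx => ?_⟩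
      rw [leibniz_lie]
      apply add_mem
      · have := hz.2 (i + j) ⁅x, y⁆ (gen_gr J M i j x hx y hy.1)
        rwa [add_assoc] at this
      · rw [← lie_skew]
        apply neg_mem
        have := hy.2 (i + l) ⁅x, z⁆ (gen_gr J M i l x hx z hz.1)
        rwa [add_assoc, add_comm l j] at this
    · intro j hj y hy
      refine ⟨le_gen hj hy, fun i x hx => mem_B hx ?_⟩
      unfold res
      rw [if_pos hj]
      exact hy
  exact B_le (fun i j x hx y hy => (h1 j hy).2 i x hx)

theorem kreknin [NeZero n] : ∀ k : ℕ, k < n → ∀ M : Fam L n, Gr M → M 0 = ⊥ →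
    D^[2 ^ k - 1] M ≤ gen {j | k < j.val} M := by
  classical
  intro k
  induction k with
  | zero =>
    intro _ M _ hM0 j
    show M j ≤ _
    by_cases hj : j = 0
    · subst hj; rw [hM0]; exact bot_le
    · exact le_gen (by
        show 0 < j.val
        exact Nat.pos_of_ne_zero (fun h => hj ((ZMod.val_eq_zero j).mp h)))
  | succ k ih =>
    intro hk M hM hM0
    have ih' := ih (by omega)
    set N := D^[2 ^ k] M with hN
    have hNG : Gr N := gr_iter hM _
    have hNM : N ≤ M := iter_le hM _
    have hN0 : N 0 = ⊥ := le_bot_iff.mp ((hNM 0).trans hM0.le)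
    have hsplit : D^[2 ^ (k + 1) - 1] M = D^[2 ^ k - 1] N := by
      rw [hN, ← Function.iterate_add_apply]
      congr 1
      have : 1 ≤ 2 ^ k := Nat.one_le_two_pow
      rw [pow_succ]; omega
    set G := gen {j : ZMod n | k + 1 < j.val} M with hG
    have hGG : Gr G := gen_gr _ _
    rw [hsplit]
    refine (ih' N hNG hN0).trans (gen_le hGG ?_)
    intro c hc
    have hc' : k < c.val := hc
    by_cases hck : c.val = k + 1
    · -- the critical component
      have h1 : N ≤ D (gen {j : ZMod n | k < j.val} M) := by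
        have h2 : N = D (D^[2 ^ k - 1] M) := by
          have h3 : 2 ^ k = (2 ^ k - 1) + 1 := by
            have : 1 ≤ 2 ^ k := Nat.one_le_two_pow
            omega
          rw [hN, ← Function.iterate_succ_apply' D (2 ^ k - 1) M, Nat.succ_eq_add_one, ← h3]
        rw [h2]
        exact D_mono (ih' M hM hM0)
      have h2 := h1.trans (D_gen_le _ M)
      have hHM : gen {j : ZMod n | k < j.val} M ≤ M := gen_le hM (fun _ _ => le_rfl)
      refine (h2 c).trans ?_
      unfold B
      rw [AddSubgroup.closure_le]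
      rintro z ⟨i, j, hij, x, hx, y, hy, rfl⟩
      unfold res at hy
      by_cases hj : j ∈ {j : ZMod n | k < j.val}
      · rw [if_pos hj] at hy
        have hj' : k < j.val := hj
        by_cases hj2 : j.val = k + 1
        · have hjc : j = c := ZMod.val_injective n (hj2.trans hck.symm)
          have hi : i = 0 := by rw [hjc] at hij; exact add_eq_right.mp hij
          rw [hi] at hx
          have hx0 : x ∈ M 0 := hHM 0 hx
          rw [hM0] at hx0
          rw [AddSubgroup.mem_bot.mp hx0, zero_lie]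
          exact zero_mem _
        · have hjG : y ∈ G j := le_gen (by show k + 1 < j.val; omega) hy
          have hiG : x ∈ G i := by
            apply le_gen _ (hHM i hx)
            show k + 1 < i.val
            have h3 : i = c - j := by rw [← hij]; ring
            have h4 := ZMod.val_add i j
            rw [hij, hck] at h4
            have hjn := ZMod.val_lt j
            have hin := ZMod.val_lt i
            rcases Nat.lt_or_ge (i.val + j.val) n with h5 | h5
            · rw [Nat.mod_eq_of_lt h5] at h4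
              omega
            · rw [Nat.mod_eq_sub_mod h5, Nat.mod_eq_of_lt (by omega)] at h4
              omega
          have h3 := hGG i j x hiG y hjG
          rwa [hij] at h3
      · rw [if_neg hj] at hy
        rw [AddSubgroup.mem_bot.mp hy, lie_zero]
        exact zero_mem _
    · exact (hNM c).trans (le_gen (by show k + 1 < c.val; omega))

theorem kreknin_bot [NeZero n] {M : Fam L n} (hM : Gr M) (hM0 : M 0 = ⊥) : D^[2 ^ (n - 1) - 1] M = ⊥ := by
  have hn : 0 < n := Nat.pos_of_ne_zero (NeZero.ne n)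
  rw [eq_bot_iff]
  refine (kreknin (n - 1) (by omega) M hM hM0).trans (gen_le (H := ⊥) ?_ ?_)
  · intro i j x hx y _
    have hx' : x ∈ (⊥ : AddSubgroup L) := hx
    rw [AddSubgroup.mem_bot.mp hx', zero_lie]
    exact zero_mem _
  · intro j hj
    have h1 : n - 1 < j.val := hj
    have h2 := ZMod.val_lt j
    omega

end Cfsg.Agent.H22.LieGr
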