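import Cfsg.Agent.H22_LieGr

/-!
The bound of Higman, Kreknin and Kostrikin for graded Lie rings (grading by `ZMod p`, zero component trivial).
-/

set_option autoImplicit false
set_option linter.unusedSectionVars false

namespace Cfsg.Agent.H22.LieGr

open scoped Pointwise

variable {L : Type*} [LieRing L] {n : ℕ}

/-- right bracket -/
def rb (y : L) : L →+ L where
  toFun x := ⁅x, y⁆
  map_zero' := zero_lie y
  map_add' a b := add_lie a b y

/-- iterated right bracket -/
def F : List (ZMod n × L) → (L →+ L)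
  | [] => AddMonoidHom.id L
  | y :: l => (F l).comp (rb y.2)

theorem F_nil (x : L) : F ([] : List (ZMod n × L)) x = x := rfl
theorem F_cons (y : ZMod n × L) (l : List (ZMod n × L)) (x : L) : F (y :: l) x = F l ⁅x, y.2⁆ := rfl

theorem F_append (l l' : List (ZMod n × L)) (x : L) : F (l ++ l') x = F l' (F l x) := by
  induction l generalizing x with
  | nil => rfl
  | cons y l ih => rw [List.cons_append, F_cons, F_cons, ih]

/-- good lists -/
def Good (M : Fam L n) (l : List (ZMod n × L)) : Prop := ∀ y ∈ l, y.2 ∈ M y.1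

/-- total degree -/
def deg (l : List (ZMod n × L)) : ZMod n := (l.map Prod.fst).sum

theorem deg_cons (y : ZMod n × L) (l : List (ZMod n × L)) : deg (y :: l) = y.1 + deg l := by
  simp [deg]

theorem F_mem {M P : Fam L n} (hP : B P M ≤ P) : ∀ (l : List (ZMod n × L)), Good M l → ∀ (a : ZMod n) (x : L), x ∈ P a →
    F l x ∈ P (a + deg l) := by
  intro l
  induction l with
  | nil => intro _ a x hx; simpa [deg, F_nil] using hx
  | cons y l ih =>
    intro hl a x hx
    rw [F_cons, deg_cons, ← add_assoc]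
    apply ih (fun z hz => hl z (List.mem_cons_of_mem _ hz))
    exact hP _ (mem_B hx (hl y List.mem_cons_self))

theorem deg_perm {l l' : List (ZMod n × L)} (h : l.Perm l') : deg l = deg l' :=
  (h.map Prod.fst).sum_eq

theorem F_perm {M P Q : Fam L n} (hP : B P M ≤ P) (hQ : B Q M ≤ Q) (hPQ : B P (D M) ≤ Q)
    {l l' : List (ZMod n × L)} (h : l.Perm l') :
    Good M l → ∀ (a : ZMod n) (x : L), x ∈ P a → F l x - F l' x ∈ Q (a + deg l) := by
  induction h with
  | nil => intro _ a x _; rw [sub_self]; exact zero_mem _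
  | @cons y l l' _ ih =>
    intro hl a x hx
    rw [F_cons, F_cons, deg_cons, ← add_assoc]
    apply ih (fun z hz => hl z (List.mem_cons_of_mem _ hz))
    exact hP _ (mem_B hx (hl y List.mem_cons_self))
  | swap y z l =>
    intro hl a x hx
    have hz : z.2 ∈ M z.1 := hl z (by simp)
    have hy : y.2 ∈ M y.1 := hl y (by simp)
    rw [F_cons, F_cons, F_cons, F_cons, ← map_sub, deg_cons, deg_cons]
    have h1 : ⁅⁅x, z.2⁆, y.2⁆ - ⁅⁅x, y.2⁆, z.2⁆ = ⁅x, ⁅z.2, y.2⁆⁆ := by
      rw [leibniz_lie x z.2 y.2, ← lie_skew z.2 ⁅x, y.2⁆]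
      abel
    rw [h1]
    have h2 : ⁅x, ⁅z.2, y.2⁆⁆ ∈ Q (a + (z.1 + y.1)) := hPQ _ (mem_B hx (mem_B hz hy))
    have h3 := F_mem hQ l (fun w hw => hl w (by simp [hw])) _ _ h2
    have h4 : a + (z.1 + (y.1 + deg l)) = a + (z.1 + y.1) + deg l := by ring
    rw [h4]
    exact h3
  | @trans l₁ l₂ l₃ h1 _ ih1 ih2 =>
    intro hl a x hx
    have h3 := ih1 hl a x hx
    have h4 := ih2 (fun z hz => hl z (h1.mem_iff.mpr hz)) a x hx
    rw [← deg_perm h1] at h4
    have h5 := add_mem h3 h4
    rwa [sub_add_sub_cancel] at h5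

open Classical in
/-- the set of subset sums -/
noncomputable def SS : List (ZMod n) → Finset (ZMod n)
  | [] => {0}
  | b :: l => SS l + {0, b}

theorem SS_card {p : ℕ} (hp : p.Prime) (l : List (ZMod p)) (hl : ∀ b ∈ l, b ≠ 0) :
    (SS l).Nonempty ∧ min p (l.length + 1) ≤ (SS l).card := by
  classical
  induction l with
  | nil => exact ⟨Finset.singleton_nonempty 0, by simp [SS]⟩
  | cons b l ih =>
    obtain ⟨h1, h2⟩ := ih (fun c hc => hl c (List.mem_cons_of_mem _ hc))
    have hb : (0 : ZMod p) ≠ b := (hl b List.mem_cons_self).symm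
    have h3 : (({0, b} : Finset (ZMod p))).card = 2 := Finset.card_pair hb
    have h4 : ({0, b} : Finset (ZMod p)).Nonempty := ⟨0, by simp⟩
    have h5 := ZMod.cauchy_davenport hp h1 h4
    refine ⟨h1.add h4, ?_⟩
    show _ ≤ (SS l + {0, b}).card
    refine le_trans ?_ (by convert h5)
    rw [h3, List.length_cons]
    rcases le_or_gt p (l.length + 1) with h | h
    · rw [min_eq_left h] at h2
      rw [min_eq_left (by omega), min_eq_left (by omega)]
    · rw [min_eq_right h.le] at h2
      apply min_le_min le_rfl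
      omega

theorem SS_spec (l : List (ZMod n × L)) (t : ZMod n) (ht : t ∈ SS (l.map Prod.fst)) :
    ∃ l1 l2 : List (ZMod n × L), l.Perm (l1 ++ l2) ∧ deg l1 = t := by
  classical
  induction l generalizing t with
  | nil =>
    have : t = 0 := by simpa [SS] using ht
    exact ⟨[], [], List.Perm.refl _, by rw [this]; rfl⟩
  | cons y l ih =>
    have ht' : t ∈ SS (y.1 :: l.map Prod.fst) := ht
    rw [SS, Finset.mem_add] at ht'
    obtain ⟨s, hs, b, hb, hsb⟩ := ht'
    obtain ⟨l1, l2, h1, h2⟩ := ih s hs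
    rw [Finset.mem_insert, Finset.mem_singleton] at hb
    rcases hb with rfl | rfl
    · refine ⟨l1, y :: l2, ?_, by rw [h2, ← hsb, add_zero]⟩
      exact (h1.cons y).trans List.perm_middle.symm
    · refine ⟨y :: l1, l2, ?_, by rw [deg_cons, h2, ← hsb, add_comm]⟩
      exact h1.cons y

theorem F_mem_of_len {p : ℕ} (hp : p.Prime) {M P Q : Fam L p} (hM0 : M 0 = ⊥) (hPM : P ≤ M) (hP : B P M ≤ P)
    (hQ : B Q M ≤ Q) (hPQ : B P (D M) ≤ Q) (l : List (ZMod p × L)) (hl : Good M l) (hlen : p - 1 ≤ l.length)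
    (a : ZMod p) (x : L) (hx : x ∈ P a) : F l x ∈ Q (a + deg l) := by
  classical
  haveI : Fact p.Prime := ⟨hp⟩
  by_cases h0 : ∃ y ∈ l, y.1 = 0
  · obtain ⟨y, hy, hy0⟩ := h0
    obtain ⟨l1, l2, h12⟩ := List.append_of_mem hy
    have h1 : y.2 = 0 := by
      have := hl y hy
      rw [hy0, hM0] at this
      exact AddSubgroup.mem_bot.mp this
    have h2 : F l x = 0 := by
      rw [h12, F_append, F_cons, h1, lie_zero, map_zero]
    rw [h2]
    exact zero_mem _
  · push Not at h0
    have h1 := (SS_card hp (l.map Prod.fst) (by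
      intro b hb
      rw [List.mem_map] at hb
      obtain ⟨y, hy, rfl⟩ := hb
      exact h0 y hy)).2
    rw [List.length_map, min_eq_left (by have := hp.pos; omega)] at h1
    have h2 : SS (l.map Prod.fst) = Finset.univ := by
      rw [← Finset.card_eq_iff_eq_univ, ZMod.card]
      refine le_antisymm ?_ h1
      calc _ ≤ (Finset.univ : Finset (ZMod p)).card := Finset.card_le_card (Finset.subset_univ _)
        _ = p := by rw [Finset.card_univ, ZMod.card]
    obtain ⟨l1, l2, h3, h4⟩ := SS_spec l (-a) (by rw [h2]; exact Finset.mem_univ _)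
    have h5 := F_perm hP hQ hPQ h3 hl a x hx
    have h6 : F l1 x = 0 := by
      have hg1 : Good M l1 := fun z hz => hl z (h3.mem_iff.mpr (List.mem_append_left _ hz))
      have h7 := hPM _ (F_mem hP l1 hg1 a x hx)
      rw [h4, add_neg_cancel, hM0] at h7
      exact AddSubgroup.mem_bot.mp h7
    rw [F_append, h6, map_zero, sub_zero] at h5
    exact h5

theorem iter_B_le {M : Fam L n} : ∀ (m : ℕ) (P Q : Fam L n),
    (∀ a, ∀ x ∈ P a, ∀ l : List (ZMod n × L), Good M l → l.length = m → F l x ∈ Q (a + deg l)) →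
    (fun X => B X M)^[m] P ≤ Q := by
  intro m
  induction m with
  | zero =>
    intro P Q h a x hx
    have := h a x hx [] (by intro y hy; simp at hy) rfl
    simpa [deg, F_nil] using this
  | succ m ih =>
    intro P Q h
    rw [Function.iterate_succ_apply]
    apply ih
    intro a x hx l hl hlen
    unfold B at hx
    induction hx using AddSubgroup.closure_induction with
    | mem z hz =>
      obtain ⟨i, j, rfl, x', hx', y, hy, rfl⟩ := hz
      have h1 := h i x' hx' ((j, y) :: l) (by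
        intro z hz
        rcases List.mem_cons.mp hz with rfl | hz
        · exact hy
        · exact hl z hz) (by rw [List.length_cons, hlen])
      rw [deg_cons, ← add_assoc] at h1
      exact h1
    | zero => rw [map_zero]; exact zero_mem _
    | add y z _ _ hy hz => rw [map_add]; exact add_mem hy hz
    | neg y _ hy => rw [map_neg]; exact neg_mem hy

/-- lower central families -/
def Γ (m : ℕ) (M : Fam L n) : Fam L n := (fun X => B X M)^[m] M

theorem Γ_succ (m : ℕ) (M : Fam L n) : Γ (m + 1) M = B (Γ m M) M := Function.iterate_succ_apply' _ _ _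

theorem Γ_le {M : Fam L n} (hM : Gr M) (m : ℕ) : Γ m M ≤ M := by
  induction m with
  | zero => exact le_rfl
  | succ m ih =>
    rw [Γ_succ]
    exact (B_mono ih le_rfl).trans (D_le hM)

/-- `P` an `M`-ideal and `N` an `M`-ideal implies that `[P,N]` is an `M`-ideal -/
theorem ideal_B {M P N : Fam L n} (hP : B P M ≤ P) (hN : B N M ≤ N) : B (B P N) M ≤ B P N := by
  intro k
  unfold B
  rw [AddSubgroup.closure_le]
  rintro z ⟨i, j, rfl, x, hx, y, hy, rfl⟩
  show ⁅x, y⁆ ∈ B P N (i + j)
  induction hx using AddSubgroup.closure_induction with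
  | mem z hz =>
    obtain ⟨a, b, rfl, u, hu, v, hv, rfl⟩ := hz
    have h1 : ⁅⁅u, v⁆, y⁆ = ⁅u, ⁅v, y⁆⁆ + ⁅⁅u, y⁆, v⁆ := by
      rw [leibniz_lie u v y, ← lie_skew v ⁅u, y⁆]
      abel
    rw [h1]
    apply add_mem
    · have := mem_B hu (hN _ (mem_B hv hy))
      rwa [← add_assoc] at this
    · have := mem_B (hP _ (mem_B hu hy)) hv
      have e : a + b + j = a + j + b := by ring
      rwa [e]
  | zero => rw [zero_lie]; exact zero_mem _
  | add u v _ _ hu hv => rw [add_lie]; exact add_mem hu hv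
  | neg u _ hu => rw [neg_lie]; exact neg_mem hu

theorem ideal_self {M : Fam L n} (hM : Gr M) : B M M ≤ M := D_le hM

theorem ideal_Γ {M N : Fam L n} (hN : B N M ≤ N) (m : ℕ) : B (Γ m N) M ≤ Γ m N := by
  induction m with
  | zero => exact hN
  | succ m ih =>
    rw [Γ_succ]
    exact ideal_B ih hN

theorem hkk {p : ℕ} (hp : p.Prime) : ∀ (s : ℕ) (M : Fam L p), Gr M → M 0 = ⊥ → D^[s] M = ⊥ →
    Γ (∑ i ∈ Finset.range s, (p - 1) ^ i) M = ⊥ := by
  intro s
  induction s with
  | zero => intro M _ _ h; exact h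
  | succ s ih =>
    intro M hM hM0 h
    have hND : Gr (D M) := gr_D hM
    have hN0 : (D M) 0 = ⊥ := le_bot_iff.mp ((D_le hM 0).trans hM0.le)
    have h1 := ih (D M) hND hN0 (by rwa [Function.iterate_succ_apply] at h)
    have hNM : B (D M) M ≤ D M := ideal_B (ideal_self hM) (ideal_self hM)
    have h2 : ∀ i, Γ (1 + (p - 1) * i) M ≤ Γ i (D M) := by
      intro i
      induction i with
      | zero => 
        rw [mul_zero]
        exact (Γ_succ 0 M).le
      | succ i ihi =>
        have h3 : Γ (1 + (p - 1) * (i + 1)) M = (fun X => B X M)^[p - 1] (Γ (1 + (p - 1) * i) M) := by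
          unfold Γ
          rw [← Function.iterate_add_apply]
          congr 1
          ring
        rw [h3]
        apply iter_B_le
        intro a x hx l hl hlen
        exact F_mem_of_len hp hM0 ((Γ_le hND i).trans (D_le hM)) (ideal_Γ hNM i) (ideal_Γ hNM (i + 1))
          (by rw [Γ_succ]) l hl hlen.ge a x (ihi a hx)
    rw [Finset.sum_range_succ', pow_zero, add_comm]
    have h4 : ∑ k ∈ Finset.range s, (p - 1) ^ (k + 1) = (p - 1) * ∑ k ∈ Finset.range s, (p - 1) ^ k := by
      rw [Finset.mul_sum]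
      exact Finset.sum_congr rfl (fun k _ => by ring)
    rw [h4]
    exact le_bot_iff.mp ((h2 _).trans h1.le)

theorem hkk_bound {p : ℕ} (hp : p.Prime) {M : Fam L p} (hM : Gr M) (hM0 : M 0 = ⊥) :
    Γ (∑ i ∈ Finset.range (2 ^ (p - 1) - 1), (p - 1) ^ i) M = ⊥ :=
  haveI : NeZero p := ⟨hp.ne_zero⟩
  hkk hp _ M hM hM0 (kreknin_bot hM hM0)

theorem bound_two {M : Fam L 2} (hM : Gr M) (hM0 : M 0 = ⊥) : Γ 1 M = ⊥ := by
  rw [Γ_succ, eq_bot_iff]
  apply B_le
  intro i j x hx y hy
  show ⁅x, y⁆ ∈ (⊥ : AddSubgroup L)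
  have hx' : x ∈ M i := hx
  fin_cases i
  · have : x ∈ M 0 := hx'
    rw [hM0] at this
    rw [AddSubgroup.mem_bot.mp this, zero_lie]
    exact zero_mem _
  · fin_cases j
    · have : y ∈ M 0 := hy
      rw [hM0] at this
      rw [AddSubgroup.mem_bot.mp this, lie_zero]
      exact zero_mem _
    · have h1 : ⁅x, y⁆ ∈ M (1 + 1) := hM 1 1 x hx' y hy
      have h2 : (1 + 1 : ZMod 2) = 0 := by decide
      rw [h2, hM0] at h1
      exact h1

theorem bound_three {M : Fam L 3} (hM : Gr M) (hM0 : M 0 = ⊥) : Γ 2 M = ⊥ := by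
  have hz : ∀ i : ZMod 3, i = 0 → ∀ x ∈ M i, x = 0 := by
    rintro i rfl x hx
    rw [hM0] at hx
    exact AddSubgroup.mem_bot.mp hx
  have key : ∀ a b c : ZMod 3, a = 0 ∨ b = 0 ∨ c = 0 ∨ a + b = 0 ∨ a + b + c = 0 ∨ (a + c = 0 ∧ b + c = 0) := by
    decide
  have main : ∀ a b c : ZMod 3, ∀ x ∈ M a, ∀ y ∈ M b, ∀ z ∈ M c, ⁅⁅x, y⁆, z⁆ = 0 := by
    intro a b c x hx y hy z hz'
    rcases key a b c with h | h | h | h | h | ⟨h, h'⟩
    · rw [hz a h x hx, zero_lie, zero_lie]
    · rw [hz b h y hy, lie_zero, zero_lie]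
    · rw [hz c h z hz', lie_zero]
    · rw [hz _ h _ (hM a b x hx y hy), zero_lie]
    · exact hz _ h _ (hM _ c _ (hM a b x hx y hy) z hz')
    · have h1 : ⁅⁅x, y⁆, z⁆ = ⁅x, ⁅y, z⁆⁆ + ⁅⁅x, z⁆, y⁆ := by
        rw [leibniz_lie x y z, ← lie_skew y ⁅x, z⁆]
        abel
      rw [h1, hz _ h' _ (hM b c y hy z hz'), hz _ h _ (hM a c x hx z hz'), lie_zero, zero_lie, add_zero]
  rw [Γ_succ, eq_bot_iff]
  apply B_le
  intro i j x hx y hy
  show ⁅x, y⁆ ∈ (⊥ : AddSubgroup L)
  rw [Γ_succ] at hx
  unfold B at hx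
  induction hx using AddSubgroup.closure_induction with
  | mem z hz =>
    obtain ⟨a, b, _, u, hu, v, hv, rfl⟩ := hz
    rw [main a b j u hu v hv y hy]
    exact zero_mem _
  | zero => rw [zero_lie]; exact zero_mem _
  | add u v _ _ hu hv => rw [add_lie]; exact add_mem hu hv
  | neg u _ hu => rw [neg_lie]; exact neg_mem hu

end Cfsg.Agent.H22.LieGr
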