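import Cfsg.Agent.H22_LieGr2

/-!
Lie rings with an automorphism of prime order `p` whose `p` powers sum to zero.
-/

set_option autoImplicit false
set_option linter.unusedSectionVars false

namespace Cfsg.Agent.H22.LieGr

open TensorProduct Polynomial

/-- the ring `ℤ[ω]` -/
abbrev Rω (p : ℕ) := AdjoinRoot (cyclotomic p ℤ)

/-- the root of unity -/
noncomputable def ω (p : ℕ) : Rω p := AdjoinRoot.root _

section

variable {p : ℕ}

theorem ω_sum (hp : p.Prime) : ∑ i ∈ Finset.range p, ω p ^ i = 0 := by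
  have : Fact p.Prime := ⟨hp⟩
  have h : AdjoinRoot.mk (cyclotomic p ℤ) (∑ i ∈ Finset.range p, X ^ i) = 0 := by
    rw [← cyclotomic_prime]
    exact AdjoinRoot.mk_self
  rw [map_sum] at h
  rw [← h]
  apply Finset.sum_congr rfl
  intro i _
  rw [map_pow, AdjoinRoot.mk_X]
  rfl

theorem ω_pow (hp : p.Prime) : ω p ^ p = 1 := by
  have h := geom_sum_mul (ω p) p
  rw [ω_sum hp, zero_mul] at h
  exact (sub_eq_zero.mp h.symm)

theorem ω_mod (hp : p.Prime) (m : ℕ) : ω p ^ (m % p) = ω p ^ m := by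
  conv_rhs => rw [← Nat.mod_add_div m p, pow_add, pow_mul, ω_pow hp, one_pow, mul_one]

/-- character `ZMod p → R` -/
noncomputable def T (p : ℕ) (a : ZMod p) : Rω p := ω p ^ a.val

theorem T_add (hp : p.Prime) (a b : ZMod p) : T p (a + b) = T p a * T p b := by
  haveI : NeZero p := ⟨hp.ne_zero⟩
  unfold T
  rw [ZMod.val_add, ω_mod hp, pow_add]

theorem T_zero : T p 0 = 1 := by
  unfold T
  rw [ZMod.val_zero, pow_zero]

theorem T_sum (hp : p.Prime) [NeZero p] : ∑ a : ZMod p, T p a = 0 := by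
  have h := ω_sum hp
  rcases p with _ | n
  · exact absurd rfl (NeZero.ne 0)
  · rw [← h]
    exact Fin.sum_univ_eq_sum_range (fun i => ω (n + 1) ^ i) (n + 1)

theorem T_sum_mul (hp : p.Prime) [NeZero p] {a : ZMod p} (ha : a ≠ 0) : ∑ b : ZMod p, T p (-(b * a)) = 0 := by
  haveI : Fact p.Prime := ⟨hp⟩
  have h := Equiv.sum_comp (Equiv.mulLeft₀ (-a) (neg_ne_zero.mpr ha)) (T p)
  rw [T_sum hp] at h
  rw [← h]
  apply Finset.sum_congr rfl
  intro b _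
  congr 1
  show -(b * a) = -a * b
  ring

theorem exists_retract (hp : p.Prime) : ∃ ρ : Rω p →ₗ[ℤ] ℤ, ρ 1 = 1 := by
  have hm := cyclotomic.monic p ℤ
  let pb := AdjoinRoot.powerBasis' hm
  have hd : 0 < pb.dim := by
    show 0 < (AdjoinRoot.powerBasis' hm).dim
    rw [AdjoinRoot.powerBasis'_dim, natDegree_cyclotomic]
    exact Nat.totient_pos.mpr hp.pos
  refine ⟨pb.basis.coord ⟨0, hd⟩, ?_⟩
  have h1 : pb.basis ⟨0, hd⟩ = 1 := by
    rw [pb.basis_eq_pow]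
    exact pow_zero _
  have h2 := pb.basis.coord_apply ⟨0, hd⟩ (pb.basis ⟨0, hd⟩)
  rw [pb.basis.repr_self, Finsupp.single_eq_same, h1] at h2
  exact h2

end

section

variable {p : ℕ} {L : Type*} [LieRing L]

theorem one_tmul_injective (hp : p.Prime) {x : L} (h : (1 : Rω p) ⊗ₜ[ℤ] x = 0) : x = 0 := by
  obtain ⟨ρ, hρ⟩ := exists_retract hp
  have h1 := congrArg (TensorProduct.lid ℤ L) (congrArg (ρ.rTensor L) h)
  rw [LinearMap.rTensor_tmul, map_zero, map_zero, TensorProduct.lid_tmul, hρ, one_smul] at h1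
  exact h1

/-- lower central additive subgroups -/
def C (L : Type*) [LieRing L] : ℕ → AddSubgroup L
  | 0 => ⊤
  | m + 1 => AddSubgroup.closure {z | ∃ x ∈ C L m, ∃ y, ⁅x, y⁆ = z}

theorem bracket_iSup {n : ℕ} {P M : Fam L n} {x y : L} (hx : x ∈ ⨆ i, P i) (hy : y ∈ ⨆ j, M j) :
    ⁅x, y⁆ ∈ ⨆ k, B P M k := by
  refine AddSubgroup.iSup_induction P (C := fun x => ⁅x, y⁆ ∈ ⨆ k, B P M k) hx ?_ ?_ ?_
  · intro i x hx
    refine AddSubgroup.iSup_induction M (C := fun y => ⁅x, y⁆ ∈ ⨆ k, B P M k) hy ?_ ?_ ?_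
    · intro j y hy
      exact AddSubgroup.mem_iSup_of_mem (i + j) (mem_B hx hy)
    · rw [lie_zero]; exact zero_mem _
    · intro u v hu hv
      rw [lie_add]; exact add_mem hu hv
  · rw [zero_lie]; exact zero_mem _
  · intro u v hu hv
    rw [add_lie]; exact add_mem hu hv

variable (φ : L →ₗ⁅ℤ⁆ L)

/-- extension of scalars -/
noncomputable def Φ (p : ℕ) (φ : L →ₗ⁅ℤ⁆ L) : Rω p ⊗[ℤ] L →ₗ[Rω p] Rω p ⊗[ℤ] L :=
  LinearMap.baseChange (Rω p) (φ : L →ₗ[ℤ] L)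

theorem Φ_tmul (a : Rω p) (x : L) : Φ p φ (a ⊗ₜ[ℤ] x) = a ⊗ₜ[ℤ] φ x := rfl

theorem t_lie_zero (z : Rω p ⊗[ℤ] L) : ⁅z, (0 : Rω p ⊗[ℤ] L)⁆ = 0 := lie_zero z
theorem t_lie_add (z u v : Rω p ⊗[ℤ] L) : ⁅z, u + v⁆ = ⁅z, u⁆ + ⁅z, v⁆ := lie_add z u v
theorem t_smul_smul (a b : Rω p) (x y : Rω p ⊗[ℤ] L) : ⁅a • x, b • y⁆ = (a * b) • ⁅x, y⁆ := by
  have h1 : ⁅a • x, b • y⁆ = a • ⁅x, b • y⁆ := smul_lie a x (b • y)
  have h2 : ⁅x, b • y⁆ = b • ⁅x, y⁆ := lie_smul b x y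
  rw [h1, h2, smul_smul]

theorem Φ_lie (x y : Rω p ⊗[ℤ] L) : Φ p φ ⁅x, y⁆ = ⁅Φ p φ x, Φ p φ y⁆ := by
  induction x using TensorProduct.induction_on with
  | zero => rw [zero_lie, map_zero, zero_lie]
  | add u v hu hv => rw [add_lie, map_add, hu, hv, map_add, add_lie]
  | tmul a u =>
    induction y using TensorProduct.induction_on with
    | zero => rw [t_lie_zero, map_zero, t_lie_zero]
    | add z w hz hw => rw [t_lie_add, map_add, hz, hw, map_add, t_lie_add]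
    | tmul b v =>
      rw [LieAlgebra.ExtendScalars.bracket_tmul, Φ_tmul, Φ_tmul, Φ_tmul, LieAlgebra.ExtendScalars.bracket_tmul,
        LieHom.map_lie]

theorem Φ_pow_tmul (k : ℕ) (a : Rω p) (x : L) : (Φ p φ ^ k) (a ⊗ₜ[ℤ] x) = a ⊗ₜ[ℤ] (φ^[k] x) := by
  induction k with
  | zero => rfl
  | succ k ih => rw [pow_succ', Module.End.mul_apply, ih, Φ_tmul, Function.iterate_succ_apply']

/-- eigenfamily -/
noncomputable def E (p : ℕ) (φ : L →ₗ⁅ℤ⁆ L) : Fam (Rω p ⊗[ℤ] L) p := fun i =>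
  { carrier := {x | Φ p φ x = T p i • x}
    zero_mem' := by
      show Φ p φ 0 = T p i • 0
      rw [map_zero, smul_zero]
    add_mem' := by
      intro x y hx hy
      show Φ p φ (x + y) = T p i • (x + y)
      rw [map_add, smul_add, hx, hy]
    neg_mem' := by
      intro x hx
      show Φ p φ (-x) = T p i • (-x)
      rw [map_neg, smul_neg, hx] }

theorem mem_E {i : ZMod p} {x : Rω p ⊗[ℤ] L} : x ∈ E p φ i ↔ Φ p φ x = T p i • x := Iff.rfl

theorem gr_E (hp : p.Prime) : Gr (E p φ) := by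
  intro i j x hx y hy
  rw [mem_E] at *
  rw [T_add hp, ← t_smul_smul, ← hx, ← hy]
  exact Φ_lie φ x y

/-- multiples of `p` -/
noncomputable def Mf (p : ℕ) (φ : L →ₗ⁅ℤ⁆ L) : Fam (Rω p ⊗[ℤ] L) p := fun i =>
  (E p φ i).map (nsmulAddMonoidHom p)

theorem mem_Mf {i : ZMod p} {x : Rω p ⊗[ℤ] L} : x ∈ Mf p φ i ↔ ∃ y ∈ E p φ i, p • y = x := by
  unfold Mf
  rw [AddSubgroup.mem_map]
  rfl

theorem gr_Mf (hp : p.Prime) : Gr (Mf p φ) := by
  intro i j x hx y hy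
  rw [mem_Mf] at *
  obtain ⟨u, hu, rfl⟩ := hx
  obtain ⟨v, hv, rfl⟩ := hy
  refine ⟨p • ⁅u, v⁆, nsmul_mem (gr_E φ hp i j u hu v hv) p, ?_⟩
  rw [nsmul_lie, lie_nsmul]

theorem Mf_zero (hsum : ∀ x : L, ∑ k ∈ Finset.range p, φ^[k] x = 0) : Mf p φ 0 = ⊥ := by
  rw [eq_bot_iff]
  intro z hz
  rw [mem_Mf] at hz
  obtain ⟨x, hx, rfl⟩ := hz
  rw [mem_E, T_zero, one_smul] at hx
  have h1 : ∀ y : Rω p ⊗[ℤ] L, ∑ k ∈ Finset.range p, (Φ p φ ^ k) y = 0 := by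
    intro y
    induction y using TensorProduct.induction_on with
    | zero => simp
    | add u v hu hv => simp only [map_add, Finset.sum_add_distrib, hu, hv, add_zero]
    | tmul a u =>
      simp only [Φ_pow_tmul]
      rw [← TensorProduct.tmul_sum, hsum, TensorProduct.tmul_zero]
  have h2 : ∀ k, (Φ p φ ^ k) x = x := by
    intro k
    induction k with
    | zero => rfl
    | succ k ih => rw [pow_succ', Module.End.mul_apply, ih, hx]
  have h3 := h1 x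
  simp only [h2] at h3
  rw [Finset.sum_const, Finset.card_range] at h3
  rw [AddSubgroup.mem_bot]
  exact h3

theorem Φ_pow_p (hφp : ∀ x, φ^[p] x = x) : Φ p φ ^ p = 1 := by
  ext x
  show (Φ p φ ^ p) (1 ⊗ₜ[ℤ] x) = 1 ⊗ₜ[ℤ] x
  rw [Φ_pow_tmul, hφp]

theorem psmul_mem (hp : p.Prime) (hφp : ∀ x, φ^[p] x = x) (x : Rω p ⊗[ℤ] L) : p • x ∈ ⨆ i, E p φ i := by
  haveI : NeZero p := ⟨hp.ne_zero⟩
  haveI : Fact p.Prime := ⟨hp⟩
  have hΦ := Φ_pow_p φ hφp
  have hmod : ∀ m : ℕ, Φ p φ ^ (m % p) = Φ p φ ^ m := by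
    intro m
    conv_rhs => rw [← Nat.mod_add_div m p, pow_add, pow_mul, hΦ, one_pow, mul_one]
  let Ψ : ZMod p → Rω p ⊗[ℤ] L →ₗ[Rω p] Rω p ⊗[ℤ] L := fun k => Φ p φ ^ k.val
  have hΨ : ∀ k, Ψ (k + 1) = Φ p φ * Ψ k := by
    intro k
    show Φ p φ ^ (k + 1).val = Φ p φ * Φ p φ ^ k.val
    rw [ZMod.val_add, hmod, ZMod.val_one, pow_succ']
  have hΨ0 : Ψ 0 = 1 := by
    show Φ p φ ^ (0 : ZMod p).val = 1
    rw [ZMod.val_zero, pow_zero]
  let e : ZMod p → Rω p ⊗[ℤ] L := fun i => ∑ k : ZMod p, T p (-(i * k)) • Ψ k x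
  have he : ∀ i, e i ∈ E p φ i := by
    intro i
    rw [mem_E]
    show Φ p φ (∑ k : ZMod p, T p (-(i * k)) • Ψ k x) = T p i • ∑ k : ZMod p, T p (-(i * k)) • Ψ k x
    rw [map_sum, Finset.smul_sum, ← Equiv.sum_comp (Equiv.addRight (1 : ZMod p))
      (fun k => T p i • T p (-(i * k)) • Ψ k x)]
    apply Finset.sum_congr rfl
    intro k _
    rw [map_smul]
    show _ = T p i • T p (-(i * (k + 1))) • Ψ (k + 1) x
    rw [hΨ, smul_smul, ← T_add hp, Module.End.mul_apply]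
    congr 2
    ring
  have hsum : ∑ i : ZMod p, e i = p • x := by
    show ∑ i : ZMod p, ∑ k : ZMod p, T p (-(i * k)) • Ψ k x = p • x
    rw [Finset.sum_comm]
    rw [Finset.sum_eq_single (0 : ZMod p)]
    · simp only [mul_zero, neg_zero, T_zero, one_smul, hΨ0]
      rw [Finset.sum_const, Finset.card_univ, ZMod.card]
      rfl
    · intro k _ hk
      rw [← Finset.sum_smul, T_sum_mul hp hk, zero_smul]
    · intro h
      exact absurd (Finset.mem_univ _) h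
  rw [← hsum]
  exact sum_mem (fun i _ => AddSubgroup.mem_iSup_of_mem i (he i))

theorem psmul_mem2 (hp : p.Prime) (hφp : ∀ x, φ^[p] x = x) (x : Rω p ⊗[ℤ] L) : (p ^ 2) • x ∈ ⨆ i, Mf p φ i := by
  have h1 := psmul_mem φ hp hφp x
  rw [pow_two, mul_smul]
  refine AddSubgroup.iSup_induction (E p φ) (C := fun y => p • y ∈ ⨆ k, Mf p φ k) h1 ?_ ?_ ?_
  · intro i y hy
    exact AddSubgroup.mem_iSup_of_mem i ((mem_Mf φ).mpr ⟨y, hy, rfl⟩)
  · rw [smul_zero]; exact zero_mem _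
  · intro u v hu hv
    rw [smul_add]; exact add_mem hu hv

theorem C_mem (hp : p.Prime) (hφp : ∀ x, φ^[p] x = x) (m : ℕ) : ∀ x ∈ C L m,
    ((p ^ 2) ^ (m + 1)) • ((1 : Rω p) ⊗ₜ[ℤ] x) ∈ ⨆ i, Γ m (Mf p φ) i := by
  induction m with
  | zero =>
    intro x _
    rw [zero_add, pow_one]
    exact psmul_mem2 φ hp hφp _
  | succ m ih =>
    intro x hx
    rw [C] at hx
    induction hx using AddSubgroup.closure_induction with
    | mem z hz =>
      obtain ⟨u, hu, v, rfl⟩ := hz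
      have h1 := ih u hu
      have h2 := psmul_mem2 φ hp hφp ((1 : Rω p) ⊗ₜ[ℤ] v)
      have h3 := bracket_iSup h1 h2
      rw [nsmul_lie, lie_nsmul, LieAlgebra.ExtendScalars.bracket_tmul, one_mul, smul_smul, ← pow_succ] at h3
      simp only [Γ_succ]
      exact h3
    | zero => rw [TensorProduct.tmul_zero, smul_zero]; exact zero_mem _
    | add u v _ _ hu hv => rw [TensorProduct.tmul_add, smul_add]; exact add_mem hu hv
    | neg u _ hu => rw [TensorProduct.tmul_neg, smul_neg]; exact neg_mem hu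

/-- the conclusion -/
theorem C_torsion (hp : p.Prime) (hφp : ∀ x, φ^[p] x = x) (hsum : ∀ x : L, ∑ k ∈ Finset.range p, φ^[k] x = 0)
    (c : ℕ) (hc : ∀ M : Fam (Rω p ⊗[ℤ] L) p, Gr M → M 0 = ⊥ → Γ c M = ⊥) (x : L) (hx : x ∈ C L c) :
    ((p ^ 2) ^ (c + 1)) • x = 0 := by
  have h1 := C_mem φ hp hφp c x hx
  rw [hc _ (gr_Mf φ hp) (Mf_zero φ hsum)] at h1
  have h2 : ⨆ i : ZMod p, (⊥ : Fam (Rω p ⊗[ℤ] L) p) i = ⊥ := by
    simp
  rw [h2, AddSubgroup.mem_bot] at h1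
  apply one_tmul_injective hp
  rw [TensorProduct.tmul_smul]
  exact h1

end

end Cfsg.Agent.H22.LieGr
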