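import Mathlib
import Cfsg.Agent.S3781

/-!
The Lie ring associated with the lower central series of a group.
-/

set_option autoImplicit false
set_option linter.unusedSectionVars false

namespace Cfsg.Agent.H22.AssocLie

open scoped commutatorElement

section

variable (G : Type*) [Group G]

/-- lower central series -/
abbrev Lc (n : ℕ) : Subgroup G := (⊤ : Subgroup G).lowerCentralSeries n

variable {G}

theorem Lc_anti {m n : ℕ} (h : m ≤ n) : Lc G n ≤ Lc G m := Subgroup.lowerCentralSeries_antitone _ h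

theorem comm_le (m n : ℕ) : ⁅Lc G m, Lc G n⁆ ≤ Lc G (m + n + 1) := by
  have h1 : ∀ k, S3781.it (Lc G m) k = Lc G (m + k) := by
    intro k
    induction k with
    | zero => rfl
    | succ k ih =>
      show ⁅S3781.it (Lc G m) k, ⊤⁆ = _
      rw [ih]; rfl
  have h2 := S3781.comm_lcs_le n (Lc G m)
  rwa [h1] at h2

theorem comm_mem {m n : ℕ} {g h : G} (hg : g ∈ Lc G m) (hh : h ∈ Lc G n) : ⁅g, h⁆ ∈ Lc G (m + n + 1) :=
  comm_le m n (Subgroup.commutator_mem_commutator hg hh)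

variable (G)

/-- graded piece -/
abbrev Q (n : ℕ) := Lc G n ⧸ (Lc G (n + 1)).subgroupOf (Lc G n)

instance (n : ℕ) : CommGroup (Q G n) :=
  { (inferInstance : Group (Q G n)) with
    mul_comm := by
      intro a b
      induction a using QuotientGroup.induction_on with
      | H a =>
      induction b using QuotientGroup.induction_on with
      | H b =>
      rw [← QuotientGroup.mk_mul, ← QuotientGroup.mk_mul, QuotientGroup.eq, Subgroup.mem_subgroupOf]
      have h1 : (((a * b)⁻¹ * (b * a) : Lc G n) : G) = ⁅(b : G)⁻¹, (a : G)⁻¹⁆ := by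
        simp only [commutatorElement_def, Subgroup.coe_mul, Subgroup.coe_inv]
        group
      rw [h1]
      exact Lc_anti (by omega) (comm_mem (inv_mem b.2) (inv_mem a.2)) }

/-- graded piece, additive -/
abbrev A (n : ℕ) := Additive (Q G n)

variable {G}

open Classical in
/-- the class of an element -/
noncomputable def cl (n : ℕ) (g : G) : A G n :=
  if h : g ∈ Lc G n then Additive.ofMul (QuotientGroup.mk ⟨g, h⟩ : Q G n) else 0

theorem cl_of_mem {n : ℕ} {g : G} (h : g ∈ Lc G n) : cl n g = Additive.ofMul (QuotientGroup.mk ⟨g, h⟩ : Q G n) := by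
  unfold cl
  rw [dif_pos h]

theorem cl_mul {n : ℕ} {g h : G} (hg : g ∈ Lc G n) (hh : h ∈ Lc G n) : cl n (g * h) = cl n g + cl n h := by
  rw [cl_of_mem hg, cl_of_mem hh, cl_of_mem (mul_mem hg hh)]
  rfl

theorem cl_eq_zero {n : ℕ} {g : G} (hg : g ∈ Lc G n) : cl n g = 0 ↔ g ∈ Lc G (n + 1) := by
  rw [cl_of_mem hg]
  show (QuotientGroup.mk ⟨g, hg⟩ : Q G n) = 1 ↔ _
  rw [QuotientGroup.eq_one_iff, Subgroup.mem_subgroupOf]

theorem cl_zero_of_mem {n : ℕ} {g : G} (hg : g ∈ Lc G (n + 1)) : cl n g = 0 :=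
  (cl_eq_zero (Lc_anti (Nat.le_succ n) hg)).mpr hg

theorem cl_one (n : ℕ) : cl n (1 : G) = 0 := cl_zero_of_mem (one_mem _)

theorem cl_inv {n : ℕ} {g : G} (hg : g ∈ Lc G n) : cl n g⁻¹ = - cl n g := by
  have h := cl_mul hg (inv_mem hg)
  rw [mul_inv_cancel, cl_one] at h
  exact eq_neg_of_add_eq_zero_right h.symm

theorem cl_eq {n : ℕ} {g h : G} (hg : g ∈ Lc G n) (hh : h ∈ Lc G n) : cl n g = cl n h ↔ g⁻¹ * h ∈ Lc G (n + 1) := by
  rw [← cl_eq_zero (mul_mem (inv_mem hg) hh), cl_mul (inv_mem hg) hh, cl_inv hg]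
  constructor
  · intro h; rw [h, neg_add_cancel]
  · intro h; rw [neg_add_eq_zero] at h; exact h

theorem cl_surj (n : ℕ) (a : A G n) : ∃ g ∈ Lc G n, cl n g = a := by
  obtain ⟨⟨g, hg⟩, h⟩ := QuotientGroup.mk_surjective (Additive.toMul a)
  refine ⟨g, hg, ?_⟩
  rw [cl_of_mem hg, h]
  rfl

/-- representative -/
noncomputable def rep {n : ℕ} (a : A G n) : G := (cl_surj n a).choose

theorem rep_mem {n : ℕ} (a : A G n) : rep a ∈ Lc G n := (cl_surj n a).choose_spec.1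
theorem cl_rep {n : ℕ} (a : A G n) : cl n (rep a) = a := (cl_surj n a).choose_spec.2

theorem cl_conj {n : ℕ} {x : G} (hx : x ∈ Lc G n) (g : G) : cl n (g * x * g⁻¹) = cl n x := by
  have h1 : g * x * g⁻¹ = ⁅g, x⁆ * x := by
    simp only [commutatorElement_def]
    group
  have h2 : ⁅g, x⁆ ∈ Lc G (n + 1) := by
    have := comm_mem (m := 0) (n := n) (Subgroup.mem_top g) hx
    rwa [zero_add] at this
  rw [h1, cl_mul (Lc_anti (Nat.le_succ n) h2) hx, cl_zero_of_mem h2, zero_add]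

theorem cl_comm_right {m n : ℕ} {g h h' : G} (hg : g ∈ Lc G m) (hh : h ∈ Lc G n) (hh' : h' ∈ Lc G n) :
    cl (m + n + 1) ⁅g, h * h'⁆ = cl (m + n + 1) ⁅g, h⁆ + cl (m + n + 1) ⁅g, h'⁆ := by
  have h1 : ⁅g, h * h'⁆ = ⁅g, h⁆ * (h * ⁅g, h'⁆ * h⁻¹) := by
    simp only [commutatorElement_def]
    group
  rw [h1, cl_mul (comm_mem hg hh) (Subgroup.Normal.conj_mem inferInstance _ (comm_mem hg hh') h),
    cl_conj (comm_mem hg hh')]

theorem cl_comm_left {m n : ℕ} {g g' h : G} (hg : g ∈ Lc G m) (hg' : g' ∈ Lc G m) (hh : h ∈ Lc G n) :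
    cl (m + n + 1) ⁅g * g', h⁆ = cl (m + n + 1) ⁅g, h⁆ + cl (m + n + 1) ⁅g', h⁆ := by
  have h1 : ⁅g * g', h⁆ = (g * ⁅g', h⁆ * g⁻¹) * ⁅g, h⁆ := by
    simp only [commutatorElement_def]
    group
  rw [h1, cl_mul (Subgroup.Normal.conj_mem inferInstance _ (comm_mem hg' hh) g) (comm_mem hg hh),
    cl_conj (comm_mem hg' hh)]
  exact add_comm _ _

theorem cl_comm_congr {m n : ℕ} {g g' h h' : G} (hg : g ∈ Lc G m) (hg' : g' ∈ Lc G m) (hh : h ∈ Lc G n)
    (hh' : h' ∈ Lc G n) (h1 : cl m g = cl m g') (h2 : cl n h = cl n h') :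
    cl (m + n + 1) ⁅g, h⁆ = cl (m + n + 1) ⁅g', h'⁆ := by
  rw [cl_eq hg hg'] at h1
  rw [cl_eq hh hh'] at h2
  have e1 : g' = g * (g⁻¹ * g') := by group
  have e2 : h' = h * (h⁻¹ * h') := by group
  have m1 := Lc_anti (Nat.le_succ m) h1
  have m2 := Lc_anti (Nat.le_succ n) h2
  rw [e1, cl_comm_left hg m1 hh']
  have z1 : cl (m + n + 1) ⁅g⁻¹ * g', h'⁆ = 0 := by
    apply cl_zero_of_mem
    have := comm_mem h1 hh'
    rwa [show m + 1 + n + 1 = m + n + 1 + 1 by omega] at this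
  rw [z1, add_zero, e2, cl_comm_right hg hh m2]
  have z2 : cl (m + n + 1) ⁅g, h⁻¹ * h'⁆ = 0 := cl_zero_of_mem (comm_mem (m := m) (n := n + 1) hg h2)
  rw [z2, add_zero]

/-- bracket of graded pieces -/
noncomputable def β (m n : ℕ) : A G m →+ A G n →+ A G (m + n + 1) :=
  AddMonoidHom.mk' (fun a => AddMonoidHom.mk' (fun b => cl (m + n + 1) ⁅rep a, rep b⁆) (by
    intro b b'
    rw [← cl_comm_right (rep_mem a) (rep_mem b) (rep_mem b')]
    refine cl_comm_congr (rep_mem a) (rep_mem a) (rep_mem _) (mul_mem (rep_mem b) (rep_mem b')) rfl ?_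
    rw [cl_rep, cl_mul (rep_mem b) (rep_mem b'), cl_rep, cl_rep])) (by
    intro a a'
    apply AddMonoidHom.ext
    intro b
    show cl (m + n + 1) ⁅rep (a + a'), rep b⁆ = cl (m + n + 1) ⁅rep a, rep b⁆ + cl (m + n + 1) ⁅rep a', rep b⁆
    rw [← cl_comm_left (rep_mem a) (rep_mem a') (rep_mem b)]
    refine cl_comm_congr (rep_mem _) (mul_mem (rep_mem a) (rep_mem a')) (rep_mem _) (rep_mem _) ?_ rfl
    rw [cl_rep, cl_mul (rep_mem a) (rep_mem a'), cl_rep, cl_rep])

theorem β_cl {m n : ℕ} {g h : G} (hg : g ∈ Lc G m) (hh : h ∈ Lc G n) :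
    β m n (cl m g) (cl n h) = cl (m + n + 1) ⁅g, h⁆ := by
  show cl (m + n + 1) ⁅rep (cl m g), rep (cl n h)⁆ = _
  exact cl_comm_congr (rep_mem _) hg (rep_mem _) hh (cl_rep _) (cl_rep _)

end

/-- the associated Lie ring -/
def LG (G : Type*) [Group G] := DirectSum ℕ (fun n => A G n)

section

variable {G : Type*} [Group G]

noncomputable instance : AddCommGroup (LG G) := inferInstanceAs (AddCommGroup (DirectSum ℕ (fun n => A G n)))

/-- inclusion of a graded piece -/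
noncomputable def ι (n : ℕ) : A G n →+ LG G := DirectSum.of (fun n => A G n) n

/-- the universal property -/
noncomputable def lift {H : Type*} [AddCommMonoid H] (f : ∀ n, A G n →+ H) : LG G →+ H := DirectSum.toAddMonoid f

theorem lift_ι {H : Type*} [AddCommMonoid H] (f : ∀ n, A G n →+ H) (n : ℕ) (a : A G n) : lift f (ι n a) = f n a :=
  DirectSum.toAddMonoid_of f n a

/-- the element of the Lie ring given by a group element -/
noncomputable def c (n : ℕ) (g : G) : LG G := ι n (cl n g)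

theorem ind {P : LG G → Prop} (x : LG G) (h0 : P 0) (h1 : ∀ n, ∀ g ∈ Lc G n, P (c n g))
    (h2 : ∀ x y, P x → P y → P (x + y)) : P x := by
  refine DirectSum.induction_on (β := fun n => A G n) x h0 ?_ h2
  intro n a
  obtain ⟨g, hg, rfl⟩ := cl_surj n a
  exact h1 n g hg

theorem c_mul {n : ℕ} {g h : G} (hg : g ∈ Lc G n) (hh : h ∈ Lc G n) : c n (g * h) = c n g + c n h := by
  unfold c
  rw [cl_mul hg hh, map_add]

theorem c_inv {n : ℕ} {g : G} (hg : g ∈ Lc G n) : c n g⁻¹ = - c n g := by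
  unfold c
  rw [cl_inv hg, map_neg]

theorem c_zero_of_mem {n : ℕ} {g : G} (hg : g ∈ Lc G (n + 1)) : c n g = 0 := by
  unfold c
  rw [cl_zero_of_mem hg, map_zero]

theorem c_one (n : ℕ) : c n (1 : G) = 0 := c_zero_of_mem (one_mem _)

theorem c_eq_zero {n : ℕ} {g : G} (hg : g ∈ Lc G n) (h : c n g = 0) : g ∈ Lc G (n + 1) := by
  rw [← cl_eq_zero hg]
  exact DirectSum.of_injective (β := fun n => A G n) n (h.trans (map_zero (ι n)).symm)

theorem c_pow {n : ℕ} {g : G} (hg : g ∈ Lc G n) (k : ℕ) : c n (g ^ k) = k • c n g := by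
  induction k with
  | zero => rw [pow_zero, c_one, zero_smul]
  | succ k ih => rw [pow_succ, c_mul (pow_mem hg k) hg, ih, succ_nsmul]

/-- bracket -/
noncomputable def br : LG G →+ LG G →+ LG G :=
  lift fun m => AddMonoidHom.flip (lift fun n => AddMonoidHom.flip ((β m n).compr₂ (ι (m + n + 1))))

theorem br_c {m n : ℕ} {g h : G} (hg : g ∈ Lc G m) (hh : h ∈ Lc G n) : br (c m g) (c n h) = c (m + n + 1) ⁅g, h⁆ := by
  unfold br c
  rw [lift_ι, AddMonoidHom.flip_apply, lift_ι, AddMonoidHom.flip_apply, AddMonoidHom.compr₂_apply, β_cl hg hh]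

theorem br_skew (x y : LG G) : br x y + br y x = 0 := by
  induction x using ind with
  | h0 => rw [map_zero, map_zero, AddMonoidHom.zero_apply, add_zero]
  | h2 x x' hx hx' =>
    rw [map_add, map_add, AddMonoidHom.add_apply]
    calc _ = (br x y + br y x) + (br x' y + br y x') := by abel
      _ = 0 := by rw [hx, hx', add_zero]
  | h1 m g hg =>
    induction y using ind with
    | h0 => rw [map_zero, map_zero, AddMonoidHom.zero_apply, add_zero]
    | h2 x x' hx hx' =>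
      rw [map_add, map_add, AddMonoidHom.add_apply]
      calc _ = (br (c m g) x + br x (c m g)) + (br (c m g) x' + br x' (c m g)) := by abel
        _ = 0 := by rw [hx, hx', add_zero]
    | h1 n h hh =>
      rw [br_c hg hh, br_c hh hg, show n + m + 1 = m + n + 1 by omega, ← commutatorElement_inv g h,
        c_inv (comm_mem hg hh), add_neg_cancel]

theorem br_self (x : LG G) : br x x = 0 := by
  induction x using ind with
  | h0 => rw [map_zero]
  | h2 x y hx hy =>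
    rw [map_add, map_add, AddMonoidHom.add_apply, AddMonoidHom.add_apply, hx, hy, zero_add, add_zero, add_comm]
    exact br_skew x y
  | h1 m g hg => rw [br_c hg hg, commutatorElement_self, c_one]

/-- Jacobi identity in a group, with commutation hypotheses -/
theorem jac {X : Type*} [Group X] {g h k : X} (h1 : Commute ⁅g, h⁆ ⁅g, k⁆) (h2 : Commute ⁅g, h⁆ ⁅h, ⁅g, k⁆ * k⁆)
    (h3 : Commute ⁅g, k⁆ ⁅h, k⁆) (h4 : Commute ⁅g, k⁆ ⁅⁅g, h⁆, k⁆) (h5 : Commute ⁅⁅g, h⁆, k⁆ ⁅h, k⁆) :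
    ⁅g, ⁅h, k⁆⁆ = ⁅h, ⁅g, k⁆⁆ * ⁅⁅g, h⁆, k⁆ := by
  set a := ⁅g, h⁆ with ha
  set b := ⁅g, k⁆ with hb
  have e1 : g * h * g⁻¹ = a * h := by rw [ha, commutatorElement_def]; group
  have e2 : g * k * g⁻¹ = b * k := by rw [hb, commutatorElement_def]; group
  have e3 : g * ⁅h, k⁆ * g⁻¹ = ⁅a * h, b * k⁆ := by
    rw [← e1, ← e2]
    simp only [commutatorElement_def]
    group
  have e4 : ⁅a * h, b * k⁆ = a * ⁅h, b * k⁆ * a⁻¹ * ⁅a, b * k⁆ := by
    simp only [commutatorElement_def]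
    group
  have e5 : a * ⁅h, b * k⁆ * a⁻¹ = ⁅h, b * k⁆ := by
    rw [h2.eq, mul_assoc, mul_inv_cancel, mul_one]
  have e6 : ⁅a, b * k⁆ = ⁅a, b⁆ * (b * ⁅a, k⁆ * b⁻¹) := by
    simp only [commutatorElement_def]
    group
  have e7 : ⁅a, b⁆ = 1 := commutatorElement_eq_one_iff_mul_comm.mpr h1.eq
  have e8 : b * ⁅a, k⁆ * b⁻¹ = ⁅a, k⁆ := by
    rw [h4.eq, mul_assoc, mul_inv_cancel, mul_one]
  have e9 : ⁅h, b * k⁆ = ⁅h, b⁆ * (b * ⁅h, k⁆ * b⁻¹) := by
    simp only [commutatorElement_def]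
    group
  have e10 : b * ⁅h, k⁆ * b⁻¹ = ⁅h, k⁆ := by
    rw [h3.eq, mul_assoc, mul_inv_cancel, mul_one]
  have e11 : g * ⁅h, k⁆ * g⁻¹ = ⁅h, b⁆ * ⁅h, k⁆ * ⁅a, k⁆ := by
    rw [e3, e4, e5, e6, e7, one_mul, e8, e9, e10]
  have e12 : ⁅g, ⁅h, k⁆⁆ = g * ⁅h, k⁆ * g⁻¹ * ⁅h, k⁆⁻¹ := commutatorElement_def g ⁅h, k⁆
  rw [e12, e11, mul_assoc, mul_assoc, ← mul_assoc ⁅h, k⁆, ← h5.eq, mul_assoc, mul_inv_cancel, mul_one]

theorem cl_eq_of_quot {N : ℕ} {x y : G} (hx : x ∈ Lc G N) (hy : y ∈ Lc G N)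
    (h : (QuotientGroup.mk x : G ⧸ Lc G (N + 1)) = QuotientGroup.mk y) : c N x = c N y := by
  unfold c
  rw [(cl_eq hx hy).mpr (QuotientGroup.eq.mp h)]

theorem commute_quot {N : ℕ} {x y : G} {m n : ℕ} (hx : x ∈ Lc G m) (hy : y ∈ Lc G n) (h : N + 1 ≤ m + n + 1) :
    Commute (QuotientGroup.mk x : G ⧸ Lc G (N + 1)) (QuotientGroup.mk y) := by
  rw [← commutatorElement_eq_one_iff_commute]
  have h1 : ⁅(QuotientGroup.mk x : G ⧸ Lc G (N + 1)), (QuotientGroup.mk y : G ⧸ Lc G (N + 1))⁆ =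
      QuotientGroup.mk ⁅x, y⁆ := (map_commutatorElement (QuotientGroup.mk' (Lc G (N + 1))) x y).symm
  rw [h1, QuotientGroup.eq_one_iff]
  exact Lc_anti h (comm_mem hx hy)

theorem c_jac {l m n : ℕ} {g h k : G} (hg : g ∈ Lc G l) (hh : h ∈ Lc G m) (hk : k ∈ Lc G n) :
    c (l + m + n + 2) ⁅g, ⁅h, k⁆⁆ = c (l + m + n + 2) ⁅⁅g, h⁆, k⁆ + c (l + m + n + 2) ⁅h, ⁅g, k⁆⁆ := by
  have m1 : ⁅g, ⁅h, k⁆⁆ ∈ Lc G (l + m + n + 2) := by
    have := comm_mem hg (comm_mem hh hk)
    rwa [show l + (m + n + 1) + 1 = l + m + n + 2 by omega] at this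
  have m2 : ⁅⁅g, h⁆, k⁆ ∈ Lc G (l + m + n + 2) := by
    have := comm_mem (comm_mem hg hh) hk
    rwa [show l + m + 1 + n + 1 = l + m + n + 2 by omega] at this
  have m3 : ⁅h, ⁅g, k⁆⁆ ∈ Lc G (l + m + n + 2) := by
    have := comm_mem hh (comm_mem hg hk)
    rwa [show m + (l + n + 1) + 1 = l + m + n + 2 by omega] at this
  rw [add_comm (c (l + m + n + 2) ⁅⁅g, h⁆, k⁆), ← c_mul m3 m2]
  apply cl_eq_of_quot m1 (mul_mem m3 m2)
  have hb : ⁅g, k⁆ * k ∈ Lc G n := mul_mem (Lc_anti (by omega) (comm_mem hg hk)) hk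
  have hc : ∀ x y : G, (QuotientGroup.mk ⁅x, y⁆ : G ⧸ Lc G (l + m + n + 2 + 1)) =
      ⁅(QuotientGroup.mk x : G ⧸ Lc G (l + m + n + 2 + 1)), (QuotientGroup.mk y : G ⧸ Lc G (l + m + n + 2 + 1))⁆ :=
    fun x y => map_commutatorElement (QuotientGroup.mk' (Lc G (l + m + n + 2 + 1))) x y
  have c1 := commute_quot (N := l + m + n + 2) (comm_mem hg hh) (comm_mem hg hk) (by omega)
  have c2 := commute_quot (N := l + m + n + 2) (comm_mem hg hh) (comm_mem hh hb) (by omega)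
  have c3 := commute_quot (N := l + m + n + 2) (comm_mem hg hk) (comm_mem hh hk) (by omega)
  have c4 := commute_quot (N := l + m + n + 2) (comm_mem hg hk) m2 (by omega)
  have c5 := commute_quot (N := l + m + n + 2) m2 (comm_mem hh hk) (by omega)
  rw [QuotientGroup.mk_mul]
  simp only [hc]
  simp only [hc, QuotientGroup.mk_mul] at c1 c2 c3 c4 c5
  exact jac c1 c2 c3 c4 c5

theorem br_jac (x y z : LG G) : br x (br y z) = br (br x y) z + br y (br x z) := by
  induction x using ind with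
  | h0 => simp only [map_zero, AddMonoidHom.zero_apply, add_zero]
  | h2 x x' hx hx' =>
    simp only [map_add, AddMonoidHom.add_apply, hx, hx']
    abel
  | h1 l g hg =>
  induction y using ind with
  | h0 => simp only [map_zero, AddMonoidHom.zero_apply, add_zero]
  | h2 x x' hx hx' =>
    simp only [map_add, AddMonoidHom.add_apply, hx, hx']
    abel
  | h1 m h hh =>
  induction z using ind with
  | h0 => simp only [map_zero, add_zero]
  | h2 x x' hx hx' =>
    simp only [map_add, hx, hx']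
    abel
  | h1 n k hk =>
  rw [br_c hh hk, br_c hg hh, br_c hg hk, br_c hg (comm_mem hh hk), br_c (comm_mem hg hh) hk,
    br_c hh (comm_mem hg hk)]
  have h1 := c_jac hg hh hk
  rw [show l + (m + n + 1) + 1 = l + m + n + 2 by omega, show l + m + 1 + n + 1 = l + m + n + 2 by omega,
    show m + (l + n + 1) + 1 = l + m + n + 2 by omega]
  exact h1

noncomputable instance : LieRing (LG G) where
  bracket x y := br x y
  add_lie x y z := by show br (x + y) z = br x z + br y z; rw [map_add]; rfl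
  lie_add x y z := by show br x (y + z) = br x y + br x z; rw [map_add]
  lie_self x := br_self x
  leibniz_lie x y z := br_jac x y z

theorem lie_c {m n : ℕ} {g h : G} (hg : g ∈ Lc G m) (hh : h ∈ Lc G n) :
    ⁅(c m g : LG G), (c n h : LG G)⁆ = c (m + n + 1) ⁅g, h⁆ := br_c hg hh

end

end Cfsg.Agent.H22.AssocLie
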