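import Cfsg.Agent.H22_Basic
import Mathlib.FieldTheory.ChevalleyWarning
import Mathlib.LinearAlgebra.QuadraticForm.Basis

/-!
H22_Quad: common zeros of quadratic maps over F₂ (Chevalley–Warning) and squares in 2-groups of class 2.
-/

set_option autoImplicit false
open Cfsg

namespace Cfsg.Agent.H22.Quad

open MvPolynomial in
theorem exists_zero_mod {V W : Type*} [AddCommGroup V] [Module (ZMod 2) V] [Finite V] [AddCommGroup W]
    [Module (ZMod 2) W] [Finite W] (Q : QuadraticMap (ZMod 2) V W)
    (h : 2 * Module.finrank (ZMod 2) W < Module.finrank (ZMod 2) V) : ∃ x : V, x ≠ 0 ∧ Q x = 0 := by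
  classical
  have hfv : Module.Finite (ZMod 2) V := Module.Finite.of_finite
  have hfw : Module.Finite (ZMod 2) W := Module.Finite.of_finite
  obtain ⟨B, hB⟩ := LinearMap.BilinMap.toQuadraticMap_surjective (R := ZMod 2) (M := V) (N := W) Q
  let bV := Module.finBasis (ZMod 2) V
  let bW := Module.finBasis (ZMod 2) W
  set v := Module.finrank (ZMod 2) V with hv
  set w := Module.finrank (ZMod 2) W with hw
  let f : Fin w → MvPolynomial (Fin v) (ZMod 2) := fun i =>
    ∑ j : Fin v, ∑ k : Fin v, C (bW.repr (B (bV j) (bV k)) i) * (X j * X k)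
  have hdeg : ∀ i, (f i).totalDegree ≤ 2 := by
    intro i
    apply totalDegree_finsetSum_le
    intro j _
    apply totalDegree_finsetSum_le
    intro k _
    refine (totalDegree_mul _ _).trans ?_
    rw [totalDegree_C, zero_add]
    refine (totalDegree_mul _ _).trans ?_
    rw [totalDegree_X, totalDegree_X]
  have heval : ∀ (x : Fin v → ZMod 2) (i : Fin w), eval x (f i) = bW.repr (Q (∑ j, x j • bV j)) i := by
    intro x i
    have h1 : Q (∑ j, x j • bV j) = ∑ j, ∑ k, (x j * x k) • B (bV j) (bV k) := by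
      rw [← hB, LinearMap.BilinMap.toQuadraticMap_apply, LinearMap.map_sum₂]
      apply Finset.sum_congr rfl
      intro j _
      rw [LinearMap.map_smul₂, map_sum, Finset.smul_sum]
      apply Finset.sum_congr rfl
      intro k _
      rw [map_smul, smul_smul]
    have h2 : bW.repr (∑ j, ∑ k, (x j * x k) • B (bV j) (bV k)) i = ∑ j, ∑ k, (x j * x k) * bW.repr (B (bV j) (bV k)) i := by
      simp only [map_sum, Finsupp.finsetSum_apply, map_smul, Finsupp.smul_apply, smul_eq_mul]
    rw [h1, h2]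
    show eval x (∑ j : Fin v, ∑ k : Fin v, C (bW.repr (B (bV j) (bV k)) i) * (X j * X k)) = _
    rw [map_sum]
    apply Finset.sum_congr rfl
    intro j _
    rw [map_sum]
    apply Finset.sum_congr rfl
    intro k _
    rw [map_mul, map_mul, eval_C, eval_X, eval_X, mul_comm]
  have hsum : (∑ i, (f i).totalDegree) < Fintype.card (Fin v) := by
    rw [Fintype.card_fin]
    refine lt_of_le_of_lt (Finset.sum_le_sum fun i _ => hdeg i) ?_
    rw [Finset.sum_const, Finset.card_univ, Fintype.card_fin, smul_eq_mul, mul_comm]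
    exact h
  have hdvd : 2 ∣ Nat.card {x : Fin v → ZMod 2 // ∀ i, eval x (f i) = 0} := by
    rw [Nat.card_eq_fintype_card]
    convert char_dvd_card_solutions_of_fintype_sum_lt (K := ZMod 2) 2 hsum
  have h0 : ∀ i, eval (0 : Fin v → ZMod 2) (f i) = 0 := by
    intro i
    rw [heval]
    simp
  have hcard : 1 < Nat.card {x : Fin v → ZMod 2 // ∀ i, eval x (f i) = 0} := by
    have hne : Nonempty {x : Fin v → ZMod 2 // ∀ i, eval x (f i) = 0} := ⟨⟨0, h0⟩⟩
    have h5 : 0 < Nat.card {x : Fin v → ZMod 2 // ∀ i, eval x (f i) = 0} := Nat.card_pos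
    have h6 := Nat.le_of_dvd h5 hdvd
    omega
  rw [Finite.one_lt_card_iff_nontrivial] at hcard
  obtain ⟨⟨x, hx⟩, hx0⟩ := exists_ne (⟨0, h0⟩ : {x : Fin v → ZMod 2 // ∀ i, eval x (f i) = 0})
  refine ⟨∑ j, x j • bV j, ?_, ?_⟩
  · intro h2
    apply hx0
    apply Subtype.ext
    have h3 := Fintype.linearIndependent_iff.mp bV.linearIndependent x h2
    exact funext h3
  · apply bW.repr.injective
    ext i
    rw [← heval, hx i]
    simp

theorem mul_comm_of_sq {G : Type*} [Group G] (h : ∀ x : G, x ^ 2 = 1) (a b : G) : a * b = b * a := by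
  have h1 : ∀ x : G, x⁻¹ = x := fun x => inv_eq_of_mul_eq_one_right (by rw [← sq]; exact h x)
  calc a * b = (a * b)⁻¹ := (h1 _).symm
    _ = b⁻¹ * a⁻¹ := mul_inv_rev _ _
    _ = b * a := by rw [h1, h1]

theorem card_eq_pow {V : Type*} [AddCommGroup V] [Module (ZMod 2) V] [Finite V] :
    Nat.card V = 2 ^ Module.finrank (ZMod 2) V := by
  classical
  have := Fintype.ofFinite V
  have hfv : Module.Finite (ZMod 2) V := Module.Finite.of_finite
  rw [Nat.card_eq_fintype_card, Module.card_eq_pow_finrank (K := ZMod 2), ZMod.card]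

/-- quadratic maps between elementary abelian 2-groups, additive notation -/
theorem exists_zero_add {V W : Type*} [AddCommGroup V] [AddCommGroup W] [Finite V] [Finite W]
    (hV : ∀ x : V, 2 • x = 0) (hW : ∀ x : W, 2 • x = 0) (q : V → W) (hq0 : q 0 = 0)
    (hq : ∀ x y z, q (x + y + z) + q x + q y + q z = q (x + y) + q (y + z) + q (x + z))
    (hcard : Nat.card W ^ 2 < Nat.card V) : ∃ x : V, x ≠ 0 ∧ q x = 0 := by
  have mV : Module (ZMod 2) V := AddCommGroup.zmodModule (n := 2) hV
  have mW : Module (ZMod 2) W := AddCommGroup.zmodModule (n := 2) hW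
  have hr : ∀ x y z, q (x + (y + z)) - q x - q (y + z) = (q (x + y) - q x - q y) + (q (x + z) - q x - q z) := by
    intro x y z
    have h := hq x y z
    rw [add_assoc x y z] at h
    have h2 : (q (x + (y + z)) - q x - q (y + z)) - ((q (x + y) - q x - q y) + (q (x + z) - q x - q z)) =
      (q (x + (y + z)) + q x + q y + q z) - (q (x + y) + q (y + z) + q (x + z)) := by abel
    rw [h, sub_self] at h2
    exact sub_eq_zero.mp h2
  have hl : ∀ x y z, q ((x + y) + z) - q (x + y) - q z = (q (x + z) - q x - q z) + (q (y + z) - q y - q z) := by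
    intro x y z
    have h := hr z x y
    rw [add_comm (x + y) z, add_comm x z, add_comm y z]
    have h2 : (q (z + (x + y)) - q (x + y) - q z) - ((q (z + x) - q x - q z) + (q (z + y) - q y - q z)) =
      (q (z + (x + y)) - q z - q (x + y)) - ((q (z + x) - q z - q x) + (q (z + y) - q z - q y)) := by abel
    rw [h, sub_self] at h2
    exact sub_eq_zero.mp h2
  let B0 : V → V →+ W := fun x =>
    { toFun := fun y => q (x + y) - q x - q y
      map_zero' := by rw [add_zero, hq0]; abel
      map_add' := fun y z => hr x y z }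
  let B : LinearMap.BilinMap (ZMod 2) V W :=
    AddMonoidHom.toZModLinearMap 2
      { toFun := fun x => AddMonoidHom.toZModLinearMap 2 (B0 x)
        map_zero' := by
          apply LinearMap.ext
          intro y
          show q (0 + y) - q 0 - q y = 0
          rw [zero_add, hq0]; abel
        map_add' := by
          intro x y
          apply LinearMap.ext
          intro z
          exact hl x y z }
  let Q : QuadraticMap (ZMod 2) V W :=
    { toFun := q
      toFun_smul := by
        intro a x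
        have ha : a = 0 ∨ a = 1 := by revert a; decide
        rcases ha with rfl | rfl
        · rw [zero_smul, mul_zero, zero_smul, hq0]
        · rw [one_smul, mul_one, one_smul]
      exists_companion' := ⟨B, fun x y => by
        show q (x + y) = q x + q y + (q (x + y) - q x - q y)
        abel⟩ }
  have h3 := card_eq_pow (V := V)
  have h4 := card_eq_pow (V := W)
  obtain ⟨x, hx, hx2⟩ := exists_zero_mod Q (by
    rw [h3, h4, ← pow_mul] at hcard
    have := (Nat.pow_lt_pow_iff_right (by norm_num)).mp hcard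
    omega)
  exact ⟨x, hx, hx2⟩

open Subgroup in
/-- squares in a group with central elementary abelian subgroup `M` containing all squares -/
theorem exists_sq {U : Type*} [Group U] [Finite U] (M : Subgroup U) (hM : M ≤ center U) (hsq : ∀ x : U, x ^ 2 ∈ M)
    (hM2 : ∀ m ∈ M, m ^ 2 = 1) (C : Subgroup U) (hcard : (C.relIndex M) ^ 2 < M.index) :
    ∃ x : U, x ∉ M ∧ x ^ 2 ∈ C := by
  have hMc : ∀ m ∈ M, ∀ x : U, m * x = x * m := fun m hm x => (mem_center_iff.mp (hM hm) x).symm
  have hMn : M.Normal := ⟨fun m hm g => by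
    rw [← hMc m hm g, mul_inv_cancel_right]; exact hm⟩
  have hQsq : ∀ x : U ⧸ M, x ^ 2 = 1 := by
    intro x
    obtain ⟨x, rfl⟩ := QuotientGroup.mk_surjective x
    exact (QuotientGroup.eq_one_iff (x ^ 2)).mpr (hsq x)
  let cV : CommGroup (U ⧸ M) := { (inferInstance : Group (U ⧸ M)) with mul_comm := mul_comm_of_sq hQsq }
  let cM : CommGroup M := { (inferInstance : Group M) with mul_comm := fun a b => Subtype.ext (hMc a a.2 b) }
  let W := M ⧸ C.subgroupOf M
  let sq' : U → W := fun x => QuotientGroup.mk (⟨x ^ 2, hsq x⟩ : M)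
  have hcomm : ∀ x y : U, x * y * x⁻¹ * y⁻¹ ∈ M := by
    intro x y
    rw [← QuotientGroup.eq_one_iff]
    have h1 : ((x * y * x⁻¹ * y⁻¹ : U) : U ⧸ M) = (x : U ⧸ M) * (y : U ⧸ M) * (x : U ⧸ M)⁻¹ * (y : U ⧸ M)⁻¹ := rfl
    rw [h1, mul_comm_of_sq hQsq (x : U ⧸ M) (y : U ⧸ M)]
    group
  -- (x y)^2 = [y,x] x^2 y^2
  have hxy : ∀ x y : U, (x * y) ^ 2 = (y * x * y⁻¹ * x⁻¹) * (x ^ 2 * y ^ 2) := by
    intro x y
    have h1 := hMc _ (hcomm y x) x
    calc (x * y) ^ 2 = x * (y * x * y⁻¹ * x⁻¹) * (x * y * y) := by rw [sq]; group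
      _ = (y * x * y⁻¹ * x⁻¹) * x * (x * y * y) := by rw [← h1]
      _ = _ := by rw [sq, sq]; group
  have hbil : ∀ x y z : U, (z * (x * y) * z⁻¹ * (x * y)⁻¹) = (z * x * z⁻¹ * x⁻¹) * (z * y * z⁻¹ * y⁻¹) := by
    intro x y z
    have h1 := hMc _ (hcomm z y) x
    calc z * (x * y) * z⁻¹ * (x * y)⁻¹ = z * x * z⁻¹ * ((z * y * z⁻¹ * y⁻¹) * x⁻¹) := by group
      _ = z * x * z⁻¹ * (x⁻¹ * (z * y * z⁻¹ * y⁻¹)) := by rw [hMc _ (hcomm z y) x⁻¹]
      _ = _ := by group
  have hkey : ∀ x y z : U, sq' (x * y * z) * sq' x * sq' y * sq' z = sq' (x * y) * sq' (y * z) * sq' (x * z) := by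
    intro x y z
    let s : U → M := fun x => ⟨x ^ 2, hsq x⟩
    let c : U → U → M := fun x y => ⟨x * y * x⁻¹ * y⁻¹, hcomm x y⟩
    have h1 : ∀ x y, s (x * y) = c y x * (s x * s y) := fun x y => Subtype.ext (hxy x y)
    have h2 : ∀ x y z, c z (x * y) = c z x * c z y := fun x y z => Subtype.ext (hbil x y z)
    have h3 : s (x * y * z) * s x * s y * s z = s (x * y) * s (y * z) * s (x * z) := by
      rw [h1 (x * y) z, h2, h1 x y, h1 y z, h1 x z]
      have h4 : ∀ a b d e f g : M, a * b * (d * (e * f) * g) * e * f * g = d * (e * f) * (b * (f * g)) * (a * (e * g)) := by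
        intro a b d e f g
        apply Additive.ofMul.injective
        simp only [ofMul_mul]
        abel
      exact h4 _ _ _ _ _ _
    exact congrArg (QuotientGroup.mk : M → W) h3
  let q : U ⧸ M → W := Quotient.lift sq' (by
    intro a b hab
    have h1 : a⁻¹ * b ∈ M := QuotientGroup.leftRel_apply.mp hab
    have h2 : b ^ 2 = a ^ 2 := by
      have h3 : b = a * (a⁻¹ * b) := by group
      rw [h3, (show Commute a (a⁻¹ * b) from (hMc _ h1 a).symm).mul_pow, hM2 _ h1, mul_one]
    show (QuotientGroup.mk (⟨a ^ 2, hsq a⟩ : M) : W) = QuotientGroup.mk (⟨b ^ 2, hsq b⟩ : M)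
    congr 1
    exact Subtype.ext h2.symm)
  have hkey' : ∀ a b c : U ⧸ M, q (a * b * c) * q a * q b * q c = q (a * b) * q (b * c) * q (a * c) := by
    rintro ⟨x⟩ ⟨y⟩ ⟨z⟩
    exact hkey x y z
  have hWsq : ∀ x : W, x ^ 2 = 1 := by
    intro x
    obtain ⟨x, rfl⟩ := QuotientGroup.mk_surjective x
    rw [← QuotientGroup.mk_pow]
    have : x ^ 2 = 1 := Subtype.ext (hM2 x x.2)
    rw [this]; rfl
  obtain ⟨x, hx1, hx2⟩ := exists_zero_add (V := Additive (U ⧸ M)) (W := Additive W) (fun x => hQsq x.toMul) (fun x => hWsq x.toMul)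
    (fun x => Additive.ofMul (q x.toMul)) (by
      show q 1 = 1
      show sq' 1 = 1
      show (QuotientGroup.mk (⟨1 ^ 2, _⟩ : M) : W) = 1
      rw [QuotientGroup.eq_one_iff]
      show (1 : U) ^ 2 ∈ C
      rw [one_pow]; exact one_mem _) (by
      intro x y z
      exact hkey' x.toMul y.toMul z.toMul) (by
      show Nat.card W ^ 2 < Nat.card (U ⧸ M)
      exact hcard)
  obtain ⟨y, hy⟩ := QuotientGroup.mk_surjective x.toMul
  refine ⟨y, ?_, ?_⟩
  · intro hyM
    apply hx1
    have : x.toMul = 1 := by rw [← hy]; exact (QuotientGroup.eq_one_iff y).mpr hyM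
    exact this
  · have h1 : q x.toMul = 1 := hx2
    rw [← hy] at h1
    have h2 : (QuotientGroup.mk (⟨y ^ 2, hsq y⟩ : M) : W) = 1 := h1
    rw [QuotientGroup.eq_one_iff] at h2
    exact h2

end Cfsg.Agent.H22.Quad
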