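import Cfsg.Agent.H22_HH3
import Mathlib.NumberTheory.Padics.PadicVal.Basic
import Mathlib.NumberTheory.Multiplicity

/-!
# The Shult-Gross theorem: the critical configuration
-/

set_option autoImplicit false
set_option linter.unusedSectionVars false
set_option linter.style.haveILetI false

namespace Cfsg.Agent.H22.SG1

open Module Subgroup HH1 HH2 HH3

universe u v w

lemma arith_dvd {p b N : ℕ} (hp : p.Prime) (hp2 : p ≠ 2) (hN2 : 2 ≤ N)
    (h1 : p ^ b ∣ N ^ 2 - 1) (h2 : N ≤ p ^ b - 1) : p ^ b = N + 1 := by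
  have e1 : N ^ 2 - 1 = (N + 1) * (N - 1) := by
    obtain ⟨t, rfl⟩ : ∃ t, N = t + 1 := ⟨N - 1, by omega⟩
    have : (t + 1) ^ 2 - 1 = t ^ 2 + 2 * t := by
      have : (t + 1) ^ 2 = t ^ 2 + 2 * t + 1 := by ring
      omega
    rw [this, Nat.add_sub_cancel]; ring
  rw [e1] at h1
  by_cases hd : p ∣ N - 1
  · have h3 : ¬ p ∣ N + 1 := by
      intro h3
      have h4 : p ∣ (N + 1) - (N - 1) := Nat.dvd_sub h3 hd
      have h5 : (N + 1) - (N - 1) = 2 := by omega
      rw [h5] at h4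
      exact hp2 ((Nat.prime_dvd_prime_iff_eq hp Nat.prime_two).mp h4)
    have h4 : (p ^ b).Coprime (N + 1) :=
      Nat.Coprime.pow_left b ((Nat.Prime.coprime_iff_not_dvd hp).mpr h3)
    have h5 := Nat.le_of_dvd (by omega) (h4.dvd_of_dvd_mul_left h1)
    omega
  · have h4 : (p ^ b).Coprime (N - 1) :=
      Nat.Coprime.pow_left b ((Nat.Prime.coprime_iff_not_dvd hp).mpr hd)
    have h5 := Nat.le_of_dvd (by omega) (h4.dvd_of_dvd_mul_right h1)
    omega

lemma lte {p a b j e : ℕ} [hp : Fact p.Prime] (hp2 : p ≠ 2) (hb : 1 ≤ b) (he : 1 ≤ e)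
    (h : p ^ b = 2 ^ e + 1) (hj : 1 ≤ j) (hd : p ^ (a + b) ∣ (2 ^ (2 * e)) ^ j - 1) : p ^ a ∣ j := by
  have hpd : p ∣ 2 ^ e + 1 := by rw [← h]; exact dvd_pow_self p (by omega)
  have h2e : 2 ≤ 2 ^ e := by
    calc 2 = 2 ^ 1 := rfl
      _ ≤ 2 ^ e := Nat.pow_le_pow_right (by norm_num) he
  have e1 : 2 ^ (2 * e) - 1 = (2 ^ e + 1) * (2 ^ e - 1) := by
    rw [mul_comm 2 e, pow_mul]
    obtain ⟨t, ht⟩ : ∃ t, 2 ^ e = t + 1 := ⟨2 ^ e - 1, by omega⟩
    rw [ht]
    have : (t + 1) ^ 2 - 1 = t ^ 2 + 2 * t := by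
      have : (t + 1) ^ 2 = t ^ 2 + 2 * t + 1 := by ring
      omega
    rw [this, Nat.add_sub_cancel]; ring
  have hnd : ¬ p ∣ 2 ^ e - 1 := by
    intro h3
    have h4 : p ∣ (2 ^ e + 1) - (2 ^ e - 1) := Nat.dvd_sub hpd h3
    have h5 : (2 ^ e + 1) - (2 ^ e - 1) = 2 := by omega
    rw [h5] at h4
    exact hp2 ((Nat.prime_dvd_prime_iff_eq hp.out Nat.prime_two).mp h4)
  have hodd : Odd p := hp.out.odd_of_ne_two hp2
  have hx : ¬ p ∣ 2 ^ (2 * e) := by
    intro h3
    have := hp.out.dvd_of_dvd_pow h3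
    exact hp2 ((Nat.prime_dvd_prime_iff_eq hp.out Nat.prime_two).mp this)
  have hval := padicValNat.pow_sub_pow (p := p) (x := 2 ^ (2 * e)) (y := 1) hodd (by
    have : 2 ^ 1 ≤ 2 ^ (2 * e) := Nat.pow_le_pow_right (by norm_num) (by omega)
    omega) (by rw [e1]; exact Dvd.dvd.mul_right hpd _) hx (n := j) (by omega)
  rw [one_pow] at hval
  have hval2 : padicValNat p (2 ^ (2 * e) - 1) = b := by
    rw [e1, padicValNat.mul (by omega) (by omega), ← h, padicValNat.prime_pow,
      padicValNat.eq_zero_of_not_dvd hnd, add_zero]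
  rw [hval2] at hval
  have hne : (2 ^ (2 * e)) ^ j - 1 ≠ 0 := by
    have h5 : 2 ^ 1 ≤ 2 ^ (2 * e * j) := Nat.pow_le_pow_right (by norm_num) (by nlinarith)
    rw [← pow_mul]
    omega
  rw [padicValNat_dvd_iff_le hne, hval] at hd
  rw [padicValNat_dvd_iff_le (by omega)]
  omega

lemma arith_two {e j : ℕ} (he : 1 ≤ e) (hj : j ≤ 2 * e) (h : 2 ^ e + 1 ∣ 2 ^ j - 1) :
    j = 0 ∨ j = 2 * e := by
  have h2e : 2 ≤ 2 ^ e := by
    calc 2 = 2 ^ 1 := rfl
      _ ≤ 2 ^ e := Nat.pow_le_pow_right (by norm_num) he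
  by_cases hje : j < e
  · left
    have h1 : 2 ^ j ≤ 2 ^ e := Nat.pow_le_pow_right (by norm_num) hje.le
    have h2 : 2 ^ j - 1 = 0 := by
      by_contra hne
      have := Nat.le_of_dvd (Nat.pos_of_ne_zero hne) h
      omega
    by_contra hj0
    have : 2 ^ 1 ≤ 2 ^ j := Nat.pow_le_pow_right (by norm_num) (by omega)
    omega
  · right
    obtain ⟨i, rfl⟩ := Nat.exists_eq_add_of_le (not_lt.mp hje)
    have h1 : 2 ^ e + 1 ∣ 2 ^ i * (2 ^ e + 1) - (2 ^ (e + i) - 1) :=
      Nat.dvd_sub (dvd_mul_left _ _) h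
    have h2 : 2 ^ i * (2 ^ e + 1) - (2 ^ (e + i) - 1) = 2 ^ i + 1 := by
      have h3 : 2 ^ i * (2 ^ e + 1) = 2 ^ (e + i) + 2 ^ i := by rw [pow_add]; ring
      have h4 : 1 ≤ 2 ^ (e + i) := Nat.one_le_two_pow
      have h5 : ∀ A B : ℕ, 1 ≤ A → A + B - (A - 1) = B + 1 := by intros; omega
      rw [h3]
      exact h5 _ _ h4
    rw [h2] at h1
    have h5 := Nat.le_of_dvd (Nat.succ_pos _) h1
    have h6 : 2 ^ e ≤ 2 ^ i := Nat.le_of_add_le_add_right h5
    have h7 := (Nat.pow_le_pow_iff_right (by norm_num : 1 < 2)).mp h6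
    omega

section Chain

variable {Q : Type*} [Group Q]

/-- iterated intersections -/
def Dn (T : ℕ → Subgroup Q) : ℕ → Subgroup Q
  | 0 => ⊤
  | m + 1 => Dn T m ⊓ T m

lemma mem_Dn {T : ℕ → Subgroup Q} {m : ℕ} {g : Q} : g ∈ Dn T m ↔ ∀ k < m, g ∈ T k := by
  induction m with
  | zero => exact ⟨fun _ k hk => absurd hk (Nat.not_lt_zero k), fun _ => mem_top g⟩
  | succ m ih =>
    show g ∈ Dn T m ⊓ T m ↔ _
    rw [mem_inf, ih]
    constructor
    · rintro ⟨h1, h2⟩ k hk
      rcases Nat.lt_succ_iff_lt_or_eq.mp hk with h | rfl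
      · exact h1 k h
      · exact h2
    · intro h
      exact ⟨fun k hk => h k (by omega), h m (by omega)⟩

lemma chain [Finite Q] {T : ℕ → Subgroup Q} (hTn : ∀ k, (T k).Normal) {M : ℕ} (hM : ∀ k, (T k).index = M)
    (hirr : ∀ m k, Dn T m ≤ T k ∨ Dn T m ⊔ T k = ⊤) (m : ℕ) :
    ∃ j ≤ m, (Dn T m).index = M ^ j ∧ (j = m → ∀ k < m, Dn T k ⊔ T k = ⊤) := by
  induction m with
  | zero => exact ⟨0, le_rfl, by rw [pow_zero]; exact index_top, fun _ k hk => absurd hk (Nat.not_lt_zero k)⟩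
  | succ m ih =>
    obtain ⟨j, hj, hidx, hall⟩ := ih
    rcases hirr m m with h | h
    · refine ⟨j, by omega, ?_, fun h2 => by omega⟩
      show (Dn T m ⊓ T m).index = _
      rw [inf_eq_left.mpr h, hidx]
    · refine ⟨j + 1, by omega, ?_, ?_⟩
      · show (Dn T m ⊓ T m).index = _
        have := hTn m
        rw [← relIndex_mul_index (inf_le_left : Dn T m ⊓ T m ≤ Dn T m), inf_relIndex_left,
          ← relIndex_sup_right, h, relIndex_top_right, hM, hidx, pow_succ']
      · intro h2 k hk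
        rcases Nat.lt_succ_iff_lt_or_eq.mp hk with h3 | rfl
        · exact hall (by omega) k h3
        · exact h

end Chain

section CT

variable {k : Type u} [Field k] [IsAlgClosed k] {V : Type v} [AddCommGroup V] [Module k V]
  [FiniteDimensional k V] {Q : Type w} [Group Q] [Fintype Q]

lemma mod_of_pow {n i : ℕ} {p : ℕ} (hp : p.Prime) (φ : MulAut Q) (hφ : φ ^ p ^ n = 1)
    (N : Subgroup Q) (hN : ∀ g ∈ N, φ g ∈ N) (hi : 0 < i) (hin : i < p ^ n)
    (g : Q) (hg : g⁻¹ * (φ ^ i) g ∈ N) : g⁻¹ * (φ ^ p ^ (n - 1)) g ∈ N := by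
  obtain ⟨b, c, c', hbc, hc, hcc⟩ := arith1 (n := n) hp hi.ne'
  have hb : b < n := by
    by_contra hba
    have h3 : p ^ n ∣ i := by
      rw [hbc]
      exact Dvd.dvd.mul_right (pow_dvd_pow p (not_lt.mp hba)) c
    exact absurd (Nat.le_of_dvd hi h3) (not_le.mpr hin)
  have h1 : (φ ^ i) ^ (c' * p ^ (n - 1 - b)) = φ ^ p ^ (n - 1) := by
    rw [← pow_mul, hbc]
    have e1 : p ^ b * c * (c' * p ^ (n - 1 - b)) = p ^ (n - 1) * (c * c') := by
      have : p ^ (n - 1) = p ^ b * p ^ (n - 1 - b) := by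
        rw [← pow_add]; congr 1; omega
      rw [this]; ring
    rw [e1, pow_mul]
    have h3 : (φ ^ p ^ (n - 1)) ^ p ^ n = 1 := by rw [← pow_mul, mul_comm, pow_mul, hφ, one_pow]
    conv_rhs => rw [← pow_one (φ ^ p ^ (n - 1))]
    exact pow_eq_pow_of_modEq hcc h3
  rw [← h1]
  exact mod_pow (φ ^ i) (HH3.inv_pow φ hN i) g hg _

lemma comm_scal {W : Type*} [AddCommGroup W] [Module k W] [FiniteDimensional k W] {σ : Q →* Module.End k W} {s : Q}
    (hs : s ∈ scal σ) (t : Q) : σ (t * s * t⁻¹ * s⁻¹) = 1 := by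
  obtain ⟨c, hc⟩ := hs
  rw [map_mul, map_mul, map_mul, hc, ← Algebra.commutes, mul_assoc (algebraMap k _ c), mul_inv',
    mul_one, ← hc, mul_inv']

/-- the critical configuration does not exist -/
theorem CT (p q : ℕ) [hp : Fact p.Prime] [hq : Fact q.Prime] (hp2 : p ≠ 2) (hkq : (q : k) ≠ 0)
    (hQ : IsPGroup q Q) (hcl : Cl2 Q) (ρ : Q →* Module.End k V) (φ : MulAut Q)
    (X : Module.End k V) (n : ℕ) (hn : 1 ≤ n) (hφ : φ ^ p ^ n = 1) (hX1 : X ^ p ^ n = 1)
    (hXρ : ∀ g, X * ρ g = ρ (φ g) * X) (hXfix : ∀ v, X v = v → v = 0) (hφfix : ∀ g, φ g = g → g = 1)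
    (hfp : ∀ N : Subgroup Q, N.Normal → Subgroup.center Q ≤ N →
      (∀ g ∈ N, (φ ^ p ^ (n - 1)) g ∈ N) → ∀ g, g⁻¹ * (φ ^ p ^ (n - 1)) g ∈ N → g ∈ N)
    (hgen : ∀ N : Subgroup Q, N.Normal → (∀ g, g⁻¹ * (φ ^ p ^ (n - 1)) g ∈ N) → N = ⊤)
    (hρ : ∃ g, ρ g ≠ 1) : False := by
  classical
  have hk : (Nat.card Q : k) ≠ 0 := by
    obtain ⟨c, hc⟩ := IsPGroup.iff_card.mp hQ
    rw [hc, Nat.cast_pow]
    exact pow_ne_zero _ hkq
  haveI : (⊤ : Subgroup Q).Normal := inferInstance
  obtain ⟨W, σ, hσ, hσρ, g₀, -, hg₀⟩ := exists_irr hk ρ ⊤ (by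
    obtain ⟨g, hg⟩ := hρ
    exact ⟨g, Subgroup.mem_top g, hg⟩)
  haveI := hσ.1
  have hex : ∃ a, Stab σ (φ ^ p ^ a) := ⟨n, by rw [hφ]; exact stab_one hσ⟩
  set a := Nat.find hex with ha
  have haS : Stab σ (φ ^ p ^ a) := Nat.find_spec hex
  have hamin : ∀ b < a, ¬ Stab σ (φ ^ p ^ b) := fun b hb => Nat.find_min hex hb
  have han : a ≤ n := Nat.find_min' hex (by rw [hφ]; exact stab_one hσ)
  have hno : ∀ i, 0 < i → i < p ^ a → ¬ Stab σ (φ ^ i) := by
    intro i hi hia hS
    obtain ⟨b, c, c', hbc, hc, hcc⟩ := arith1 (n := n) hp.out hi.ne'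
    have h1 := stab_pow hσ hS c'
    have h2 : (φ ^ i) ^ c' = φ ^ p ^ b := by
      rw [← pow_mul, hbc, mul_assoc, pow_mul]
      have h3 : (φ ^ p ^ b) ^ p ^ n = 1 := by rw [← pow_mul, mul_comm, pow_mul, hφ, one_pow]
      conv_rhs => rw [← pow_one (φ ^ p ^ b)]
      exact pow_eq_pow_of_modEq hcc h3
    rw [h2] at h1
    refine hamin b ?_ h1
    by_contra hba
    have h3 : p ^ a ∣ i := by
      rw [hbc]
      exact Dvd.dvd.mul_right (pow_dvd_pow p (not_lt.mp hba)) c
    exact absurd (Nat.le_of_dvd hi h3) (not_le.mpr hia)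
  set ψ := φ ^ p ^ a with hψ
  set Y := X ^ p ^ a with hY
  have hXu : IsUnit X := by
    have h1 : X ^ (p ^ n - 1) * X = 1 := by
      rw [← pow_succ, Nat.sub_add_cancel (Nat.one_le_pow _ _ hp.out.pos), hX1]
    have h2 : X * X ^ (p ^ n - 1) = 1 := by
      rw [← pow_succ', Nat.sub_add_cancel (Nat.one_le_pow _ _ hp.out.pos), hX1]
    exact ⟨⟨X, X ^ (p ^ n - 1), h2, h1⟩, rfl⟩
  obtain ⟨T₀, hT₀0, hT₀⟩ := haS
  obtain ⟨T, m, hTu, hTσ, hmi, hm, hYm⟩ := extend hσ ρ W.subtype (by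
    intro h0
    obtain ⟨w, hw⟩ := exists_ne (0 : W)
    exact hw (Subtype.ext (congrArg (fun F => F w) h0))) (fun g w => hσρ g w) ψ Y (hXu.pow _)
    (pow_intertw ρ φ X hXρ (p ^ a)) T₀ hT₀0 hT₀
  obtain ⟨P, hPm, hPρ⟩ := exists_proj hk ρ m hmi hm
  set h := p ^ (n - a) with hh
  have hah : p ^ a * h = p ^ n := by rw [hh, ← pow_add]; congr 1; omega
  have hψh : ψ ^ h = 1 := by rw [hψ, ← pow_mul, hah, hφ]
  have hYpow : ∀ i w, (Y ^ i) (m w) = m ((T ^ i) w) := by
    intro i
    induction i with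
    | zero => intro w; simp
    | succ i ih => intro w; rw [pow_succ', pow_succ', Module.End.mul_apply, Module.End.mul_apply, ih, hYm]
  have hY1 : Y ^ h = 1 := by rw [hY, ← pow_mul, hah, hX1]
  have hTh : T ^ h = 1 := by
    refine LinearMap.ext fun w => ?_
    apply hmi
    rw [← hYpow, hY1]; rfl
  -- `T` has no fixed point
  have hTfix : ∀ w, T w = w → w = 0 := by
    intro w hw
    have h1 : (∑ i ∈ Finset.range (p ^ a), (X ^ i) (m w)) = 0 := by
      apply hXfix
      rw [map_sum]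
      have h2 : ∀ i ∈ Finset.range (p ^ a), X ((X ^ i) (m w)) = (X ^ (i + 1)) (m w) := by
        intro i _
        rw [pow_succ', Module.End.mul_apply]
      rw [Finset.sum_congr rfl h2]
      have h3 := Finset.sum_range_succ' (fun i => (X ^ i) (m w)) (p ^ a)
      have h4 := Finset.sum_range_succ (fun i => (X ^ i) (m w)) (p ^ a)
      rw [h4] at h3
      have h5 : (X ^ p ^ a) (m w) = m w := by
        show Y (m w) = m w
        rw [hYm, hw]
      rw [h5, pow_zero, Module.End.one_apply] at h3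
      exact (add_right_cancel h3).symm
    have h4 := congrArg P h1
    rw [map_zero, map_sum, Finset.sum_eq_single 0] at h4
    · rw [pow_zero, Module.End.one_apply, hPm] at h4
      exact h4
    · intro i hi hi0
      exact proj_zero ρ m hm P hPρ (φ ^ i) (X ^ i) (pow_intertw ρ φ X hXρ i)
        (not_stab (hno i (Nat.pos_of_ne_zero hi0) (Finset.mem_range.mp hi))) w
    · intro hcon
      exact absurd (Finset.mem_range.mpr (Nat.pow_pos hp.out.pos)) hcon
  have hT0 : ∑ i ∈ Finset.range h, T ^ i = 0 := by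
    refine LinearMap.ext fun w => ?_
    apply hTfix
    have h1 := mul_geom_sum T h
    rw [hTh, sub_self] at h1
    have h2 := congrArg (fun F => F w) h1
    have h3 : T ((∑ i ∈ Finset.range h, T ^ i) w) - (∑ i ∈ Finset.range h, T ^ i) w = 0 := h2
    exact sub_eq_zero.mp h3
  have haltn : a < n := by
    by_contra hcon
    have h1 : n - a = 0 := by omega
    rw [hh, h1, pow_zero, Finset.range_one, Finset.sum_singleton, pow_zero] at hT0
    exact one_ne_zero hT0
  have hh1 : 1 < h := Nat.one_lt_pow (by omega) hp.out.one_lt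
  -- factorization
  obtain ⟨l, hll, hl⟩ : ∃ l : List k, l.length = h - 1 ∧ lprod T l = 0 := by
    set f : Polynomial k := ∑ i ∈ Finset.range h, Polynomial.X ^ i with hf
    have hmul : f * (Polynomial.X - Polynomial.C 1) = Polynomial.X ^ h - Polynomial.C 1 := by
      rw [hf, map_one, geom_sum_mul]
    have hmon2 : (Polynomial.X ^ h - Polynomial.C 1 : Polynomial k).Monic :=
      Polynomial.monic_X_pow_sub_C 1 (by omega)
    have hfm : f.Monic := by
      have h1 : (f * (Polynomial.X - Polynomial.C 1)).Monic := by rw [hmul]; exact hmon2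
      exact (Polynomial.monic_X_sub_C (1 : k)).of_mul_monic_right h1
    have hdeg : f.natDegree = h - 1 := by
      have h1 := hfm.natDegree_mul (Polynomial.monic_X_sub_C (1 : k))
      rw [hmul, Polynomial.natDegree_X_pow_sub_C, Polynomial.natDegree_X_sub_C] at h1
      omega
    have hfs := IsAlgClosed.splits f
    refine ⟨f.roots.toList, ?_, ?_⟩
    · rw [Multiset.length_toList, ← hfs.natDegree_eq_card_roots, hdeg]
    · have h1 : ∀ l : List k, lprod T l = Polynomial.aeval T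
          ((l.map (fun c => Polynomial.X - Polynomial.C c)).prod) := by
        intro l
        rw [lprod, map_list_prod, List.map_map]
        congr 1
        apply List.map_congr_left
        intro c _
        simp
      rw [h1]
      have h2 := hfs.eq_prod_roots_of_monic hfm
      have h3 : (f.roots.toList.map (fun c => Polynomial.X - Polynomial.C c)).prod = f := by
        conv_rhs => rw [h2]
        rw [← Multiset.prod_coe, ← Multiset.map_coe, Multiset.coe_toList]
      rw [h3, hf, map_sum]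
      simpa using hT0
  -- the scalar subgroup
  set S := scal σ with hS
  haveI hSn : S.Normal := scal_normal σ
  have hcS : Subgroup.center Q ≤ S := center_le_scal hσ
  have hSψ : ∀ g ∈ S, ψ g ∈ S := by
    rintro z ⟨c, hc⟩
    refine ⟨c, ?_⟩
    have h3 := hTσ z
    rw [hc, ← Algebra.commutes] at h3
    exact (hTu.mul_left_inj.mp h3).symm
  have hφψ : (ψ ^ p ^ (n - 1 - a)) = φ ^ p ^ (n - 1) := by
    rw [hψ, ← pow_mul, ← pow_add]; congr 2; omega
  -- semiregularity on invariant normal subgroups containing the center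
  have hsemi : ∀ N : Subgroup Q, N.Normal → Subgroup.center Q ≤ N → (∀ g ∈ N, ψ g ∈ N) →
      ∀ i, 0 < i → i < h → ∀ g, g⁻¹ * (ψ ^ i) g ∈ N → g ∈ N := by
    intro N hNn hcN hNψ i hi hih g hg
    have hψh' : ψ ^ p ^ (n - a) = 1 := hψh
    have h1 := mod_of_pow (n := n - a) hp.out ψ hψh' N hNψ hi hih g hg
    have h2 : ψ ^ p ^ (n - a - 1) = φ ^ p ^ (n - 1) := by
      rw [← hφψ]; congr 2; omega
    rw [h2] at h1
    refine hfp N hNn hcN ?_ g h1
    rw [← hφψ]
    exact HH3.inv_pow ψ hNψ _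
  have hineq := basic hσ hcl hk ψ T hTu hTσ l hl h (by omega) hψh (hsemi S hSn hcS hSψ)
  rw [hll] at hineq
  have hN1 := num_ss (by omega) hineq
  have hidx : S.index = (finrank k W) ^ 2 := index_scal hσ hcl hk
  have htop : S ≠ ⊤ := by
    intro htop
    have h1 : ∀ g, σ (ψ g) = σ g := by
      intro g
      have h1 : g ∈ S := by rw [htop]; exact Subgroup.mem_top _
      obtain ⟨c, hc⟩ := h1
      have h3 := hTσ g
      rw [hc, ← Algebra.commutes] at h3
      rw [hc]
      exact (hTu.mul_left_inj.mp h3).symm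
    have h2 : ∀ i g, σ ((ψ ^ i) g) = σ g := by
      intro i
      induction i with
      | zero => intro g; rfl
      | succ i ih => intro g; rw [pow_succ', MulAut.mul_apply, h1, ih]
    have h3 := hgen σ.ker inferInstance (fun g => by
      rw [← hφψ, MonoidHom.mem_ker, map_mul, h2, ← map_mul, inv_mul_cancel, map_one])
    apply hg₀
    have h4 : g₀ ∈ σ.ker := by rw [h3]; exact Subgroup.mem_top _
    exact h4
  have hdvd : ∀ N : Subgroup Q, N.Normal → Subgroup.center Q ≤ N → (∀ g ∈ N, ψ g ∈ N) → N ≠ ⊤ →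
      h ∣ N.index - 1 := by
    intro N hNn hcN hNψ hN
    haveI := hNn
    exact dvd_index_sub N ψ h (by omega) hNψ (fun g => by
      rw [hψh]
      simp only [MulAut.one_apply, inv_mul_cancel]
      exact one_mem _) (hsemi N hNn hcN hNψ) hN
  set N := finrank k W with hN
  have hN2 : 2 ≤ N := by
    by_contra hcon
    have h1 : N = 0 ∨ N = 1 := by omega
    rcases h1 with h1 | h1
    · rw [h1] at hidx
      exact S.index_ne_zero_of_finite hidx
    · rw [h1, one_pow, Subgroup.index_eq_one] at hidx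
      exact htop hidx
  have hrN : h = N + 1 := by
    have h1 := hdvd S hSn hcS hSψ htop
    rw [hidx] at h1
    exact arith_dvd hp.out hp2 hN2 h1 hN1
  obtain ⟨e, he⟩ : ∃ m, N = q ^ m := by
    obtain ⟨c, hc⟩ := hQ.index S
    rw [hidx] at hc
    have h1 : N ∣ q ^ c := by
      rw [← hc]; exact dvd_pow_self _ two_ne_zero
    obtain ⟨m, -, hm⟩ := (Nat.dvd_prime_pow hq.out).mp h1
    exact ⟨m, hm⟩
  have he1 : 1 ≤ e := by
    by_contra hcon
    have : e = 0 := by omega
    rw [this, pow_zero] at he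
    omega
  have hhodd : Odd h := by rw [hh]; exact (hp.out.odd_of_ne_two hp2).pow
  have hq2 : q = 2 := by
    rcases hq.out.eq_two_or_odd' with h | h
    · exact h
    · exfalso
      have h1 : Odd N := by rw [he]; exact h.pow
      have h2 : Even (N + 1) := h1.add_one
      rw [← hrN] at h2
      exact (Nat.not_even_iff_odd.mpr hhodd) h2
  subst hq2
  have hidx2 : S.index = 2 ^ (2 * e) := by rw [hidx, he, ← pow_mul, mul_comm]
  have hh2 : h = 2 ^ e + 1 := by rw [hrN, he]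
  -- the twisted scalar subgroups
  let Tk : ℕ → Subgroup Q := fun i => S.comap ((φ ^ (i + 1) : MulAut Q) : Q ≃* Q).toMonoidHom
  have hTk : ∀ i g, g ∈ Tk i ↔ (φ ^ (i + 1)) g ∈ S := fun i g => Iff.rfl
  have hTkn : ∀ i, (Tk i).Normal := fun i => hSn.comap _
  have hTki : ∀ i, (Tk i).index = 2 ^ (2 * e) := by
    intro i
    rw [← hidx2]
    exact index_comap_of_surjective S ((φ ^ (i + 1) : MulAut Q) : Q ≃* Q).surjective
  have hTkc : ∀ i, Subgroup.center Q ≤ Tk i := by
    intro i z hz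
    rw [hTk]
    apply hcS
    rw [mem_center_iff] at hz ⊢
    intro g
    have h1 := congrArg (φ ^ (i + 1)) (hz ((φ ^ (i + 1))⁻¹ g))
    rw [map_mul, map_mul, MulAut.apply_inv_self] at h1
    exact h1
  have hcommφ : ∀ i g, (φ ^ i) (ψ g) = ψ ((φ ^ i) g) := by
    intro i g
    rw [hψ, ← MulAut.mul_apply, ← MulAut.mul_apply, ← pow_add, ← pow_add, add_comm]
  have hTkψ : ∀ i, ∀ g ∈ Tk i, ψ g ∈ Tk i := by
    intro i g hg
    rw [hTk] at hg ⊢
    rw [hcommφ]
    exact hSψ _ hg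
  have hDc : ∀ m, Subgroup.center Q ≤ Dn Tk m := fun m z hz => mem_Dn.mpr fun i _ => hTkc i hz
  have hDψ : ∀ m, ∀ g ∈ Dn Tk m, ψ g ∈ Dn Tk m := fun m g hg =>
    mem_Dn.mpr fun i hi => hTkψ i g (mem_Dn.mp hg i hi)
  have hDn : ∀ m, (Dn Tk m).Normal := by
    intro m
    constructor
    intro g hg t
    exact mem_Dn.mpr fun i hi => (hTkn i).conj_mem g (mem_Dn.mp hg i hi) t
  have hirr : ∀ m i, Dn Tk m ≤ Tk i ∨ Dn Tk m ⊔ Tk i = ⊤ := by
    intro m i
    by_cases htop' : Dn Tk m ⊔ Tk i = ⊤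
    · exact Or.inr htop'
    left
    haveI := hDn m
    haveI := hTkn i
    have h1 := hdvd (Dn Tk m ⊔ Tk i) inferInstance ((hTkc i).trans le_sup_right) (by
      intro g hg
      obtain ⟨u, hu, v, hv, rfl⟩ := mem_sup_of_normal_right.mp hg
      rw [map_mul]
      exact mul_mem (mem_sup_left (hDψ m u hu)) (mem_sup_right (hTkψ i v hv))) htop'
    have h2 : (Dn Tk m ⊔ Tk i).index ∣ 2 ^ (2 * e) := by
      rw [← hTki i]; exact index_dvd_of_le le_sup_right
    obtain ⟨j, hj, hj2⟩ := (Nat.dvd_prime_pow Nat.prime_two).mp h2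
    rw [hj2, hh2] at h1
    rcases arith_two he1 hj h1 with h3 | h3
    · rw [h3, pow_zero, index_eq_one] at hj2
      exact absurd hj2 htop'
    · have h4 : Tk i = Dn Tk m ⊔ Tk i := by
        apply Subgroup.eq_of_le_of_card_ge le_sup_right
        have h5 := (Tk i).card_mul_index
        have h6 := (Dn Tk m ⊔ Tk i).card_mul_index
        rw [hTki] at h5
        rw [hj2, h3] at h6
        have : 0 < 2 ^ (2 * e) := by positivity
        nlinarith
      rw [h4]; exact le_sup_left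
  obtain ⟨j, hj, hjidx, hjall⟩ := chain hTkn hTki hirr (p ^ a)
  have hpa : 0 < p ^ a := Nat.pow_pos hp.out.pos
  -- invariance of the total intersection under `φ`
  have hTklast : Tk (p ^ a - 1) = S := by
    ext g
    rw [hTk, Nat.sub_add_cancel (by omega)]
    constructor
    · intro hg
      have h1 := HH3.inv_pow ψ hSψ (h - 1) _ hg
      have h2 : (ψ ^ (h - 1)) ((φ ^ p ^ a) g) = g := by
        show (ψ ^ (h - 1)) (ψ g) = g
        rw [← MulAut.mul_apply, ← pow_succ, Nat.sub_add_cancel (by omega), hψh]; rfl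
      rwa [h2] at h1
    · exact fun hg => hSψ g hg
  have hDφ : ∀ g ∈ Dn Tk (p ^ a), φ g ∈ Dn Tk (p ^ a) := by
    intro g hg
    rw [mem_Dn] at hg ⊢
    intro i hi
    rw [hTk, ← MulAut.mul_apply, ← pow_succ]
    by_cases hi2 : i + 1 < p ^ a
    · exact hg (i + 1) hi2
    · have h1 : i + 1 = p ^ a := by omega
      have h2 : (φ ^ (i + 1 + 1)) g = ψ (φ g) := by
        rw [pow_succ, h1]; rfl
      rw [h2]
      apply hSψ
      have h3 := hg 0 hpa
      rw [hTk, zero_add, pow_one] at h3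
      exact h3
  have hD1 : Dn Tk (p ^ a) ≤ S := by
    intro g hg
    rw [← hTklast]
    exact mem_Dn.mp hg _ (by omega)
  have hDtop : Dn Tk (p ^ a) ≠ ⊤ := by
    intro h1
    rw [h1, top_le_iff] at hD1
    exact htop hD1
  have hj0 : 1 ≤ j := by
    by_contra hcon
    have : j = 0 := by omega
    rw [this, pow_zero, index_eq_one] at hjidx
    exact hDtop hjidx
  have hpn : p ^ n ∣ (2 ^ (2 * e)) ^ j - 1 := by
    rw [← hjidx]
    haveI := hDn (p ^ a)
    exact dvd_index_sub (Dn Tk (p ^ a)) φ (p ^ n) (Nat.pow_pos hp.out.pos) hDφ (fun g => by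
      rw [hφ]
      simp only [MulAut.one_apply, inv_mul_cancel]
      exact one_mem _) (by
      intro i hi hin g hg
      refine hfp _ (hDn _) (hDc _) (HH3.inv_pow φ hDφ _) g ?_
      exact mod_of_pow hp.out φ hφ _ hDφ hi hin g hg) hDtop
  have hja : p ^ a ∣ j := by
    refine lte (b := n - a) (e := e) hp2 (by omega) he1 hh2 hj0 ?_
    have : a + (n - a) = n := by omega
    rw [this]; exact hpn
  have hjeq : j = p ^ a := le_antisymm hj (Nat.le_of_dvd (by omega) hja)
  have hsup : Dn Tk (p ^ a - 1) ⊔ S = ⊤ := by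
    have := hjall hjeq (p ^ a - 1) (by omega)
    rwa [hTklast] at this
  -- the element
  obtain ⟨g, hg⟩ : ∃ g, g ∉ S := by
    by_contra hcon
    push Not at hcon
    exact htop (eq_top_iff.mpr fun g _ => hcon g)
  obtain ⟨t, ht⟩ := nondeg hσ g hg
  obtain ⟨u, hu, s, hs, hus⟩ := mem_sup_of_normal_right.mp (show g ∈ Dn Tk (p ^ a - 1) ⊔ S by
    rw [hsup]; exact mem_top _)
  set z := t * u * t⁻¹ * u⁻¹ with hz
  have hzc : z ∈ Subgroup.center Q := hcl t u
  have hzne : σ z ≠ 1 := by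
    intro h1
    apply ht
    have h2 : t * g * t⁻¹ * g⁻¹ = z * (u * (t * s * t⁻¹ * s⁻¹) * u⁻¹) := by rw [← hus, hz]; group
    rw [h2, map_mul, h1, one_mul, map_mul, map_mul, comm_scal hs, mul_one, mul_inv']
  have hσψ : ∀ j, ∀ y ∈ S, σ ((ψ ^ j) y) = σ y := by
    intro j
    induction j with
    | zero => intro y _; rfl
    | succ j ih =>
      intro y hy
      obtain ⟨c, hc⟩ := HH3.inv_pow ψ hSψ j y hy
      have h3 := hTσ ((ψ ^ j) y)
      rw [hc, ← Algebra.commutes] at h3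
      rw [pow_succ', MulAut.mul_apply, ← hTu.mul_left_inj.mp h3, ← hc, ih y hy]
  have hval : ∀ i, σ ((φ ^ i) z) = if p ^ a ∣ i then σ z else 1 := by
    intro i
    split_ifs with hi
    · obtain ⟨j, rfl⟩ := hi
      rw [pow_mul]
      exact hσψ j z (hcS hzc)
    · have hr : 0 < i % p ^ a := Nat.pos_of_ne_zero (fun h => hi (Nat.dvd_of_mod_eq_zero h))
      have hr2 : i % p ^ a < p ^ a := Nat.mod_lt _ hpa
      have h1 : (φ ^ i) u ∈ S := by
        have h2 : (φ ^ i) u = (ψ ^ (i / p ^ a)) ((φ ^ (i % p ^ a)) u) := by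
          rw [hψ, ← pow_mul, ← MulAut.mul_apply, ← pow_add, Nat.div_add_mod]
        rw [h2]
        apply HH3.inv_pow ψ hSψ
        have h3 := mem_Dn.mp hu (i % p ^ a - 1) (by omega)
        rw [hTk, Nat.sub_add_cancel (by omega)] at h3
        exact h3
      have e : (φ ^ i) z = (φ ^ i) t * (φ ^ i) u * ((φ ^ i) t)⁻¹ * ((φ ^ i) u)⁻¹ := by
        rw [hz, map_mul, map_mul, map_mul, map_inv, map_inv]
      rw [e]
      exact comm_scal h1 _
  obtain ⟨c, hc⟩ := hcS hzc
  let Nm : ℕ → Q := fun i => ((List.range i).map (fun j => (φ ^ j) z)).prod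
  have hNm1 : ∀ m, Nm (m + 1) = Nm m * (φ ^ m) z := fun m => List.prod_range_succ _ _
  have hNm2 : ∀ m, Nm (m + 1) = z * φ (Nm m) := by
    intro m
    show ((List.range (m + 1)).map (fun j => (φ ^ j) z)).prod = _
    rw [List.prod_range_succ', map_list_prod, List.map_map]
    congr 1
    congr 1
    apply List.map_congr_left
    intro j _
    show (φ ^ (j + 1)) z = φ ((φ ^ j) z)
    rw [pow_succ', MulAut.mul_apply]
  have hNmfix : Nm (p ^ n) = 1 := by
    apply hφfix
    have h1 := hNm1 (p ^ n)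
    rw [hNm2, hφ, MulAut.one_apply, mem_center_iff.mp hzc] at h1
    exact mul_left_cancel h1
  have hσNm : ∀ m, σ (Nm m) = algebraMap k _ (∏ j ∈ Finset.range m, if p ^ a ∣ j then c else 1) := by
    intro m
    induction m with
    | zero =>
      show σ 1 = _
      rw [map_one, Finset.range_zero, Finset.prod_empty, map_one]
    | succ m ih =>
      rw [hNm1, map_mul σ, ih, hval, Finset.prod_range_succ]
      split_ifs
      · rw [hc]
        exact (map_mul (algebraMap k (Module.End k W)) _ _).symm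
      · rw [mul_one, mul_one]
  have hprod : ∀ b, ∏ j ∈ Finset.range (p ^ a * b), (if p ^ a ∣ j then c else 1) = c ^ b := by
    intro b
    induction b with
    | zero => simp
    | succ b ih =>
      rw [mul_add, mul_one, Finset.prod_range_add, ih, pow_succ]
      congr 1
      rw [Finset.prod_eq_single 0]
      · rw [add_zero, if_pos (dvd_mul_right _ _)]
      · intro j hj hj0
        rw [if_neg]
        intro h1
        have h2 := (Nat.dvd_add_right (dvd_mul_right (p ^ a) b)).mp h1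
        exact absurd (Nat.le_of_dvd (Nat.pos_of_ne_zero hj0) h2) (not_le.mpr (Finset.mem_range.mp hj))
      · intro h1
        exact absurd (Finset.mem_range.mpr hpa) h1
  have hinj := FaithfulSMul.algebraMap_injective k (Module.End k W)
  have hch : c ^ h = 1 := by
    apply hinj
    rw [← hprod, hah, ← hσNm, hNmfix, map_one, map_one]
  obtain ⟨i2, hi2⟩ := hQ z
  have hc2 : c ^ 2 ^ i2 = 1 := by
    apply hinj
    rw [map_pow, ← hc, ← map_pow, hi2, map_one, map_one]
  have hc1 : c = 1 := by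
    rw [← orderOf_eq_one_iff]
    have h1 : Nat.Coprime h (2 ^ i2) := Nat.Coprime.pow_right _ (Nat.coprime_two_right.mpr hhodd)
    exact Nat.eq_one_of_dvd_coprimes h1 (orderOf_dvd_of_pow_eq_one hch) (orderOf_dvd_of_pow_eq_one hc2)
  apply hzne
  rw [hc, hc1, map_one]

end CT

end Cfsg.Agent.H22.SG1
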