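import Cfsg.Agent.H22_SG1
import Cfsg.Agent.H22_HH5
import Cfsg.Agent.H12_BG8a
import Cfsg.Agent.H12_CN
import Cfsg.Agent.H1_KW4

/-!
# The Shult-Gross theorem: reduction
-/

set_option autoImplicit false
set_option linter.unusedSectionVars false
set_option linter.style.haveILetI false

namespace Cfsg.Agent.H22.SG2

open Module Subgroup HH1 HH2 HH3 HH4 HH5
open scoped commutatorElement

universe u v w

theorem qfix {G : Type u} [Group G] [Finite G] {p q : ℕ} [hp : Fact p.Prime] [hq : Fact q.Prime]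
    (hp2 : p ≠ 2) (hqp : q ≠ p) {k : Type w} [Field k] [IsAlgClosed k] (hkq : (q : k) ≠ 0)
    {M : Type v} [AddCommGroup M]
    [Module k M] [FiniteDimensional k M] (ρ : G →* Module.End k M) (hinj : Function.Injective ρ)
    (x : G) (n : ℕ) (hn1 : 1 ≤ n) (hxn : x ^ p ^ n = 1) {P : Subgroup G} (hP : IsPGroup q P)
    (hxP : x ∈ normalizer (P : Set G)) (hfixP : ∀ g ∈ P, x * g = g * x → g = 1)
    (hfixM : ∀ v, ρ x v = v → v = 0) : ⁅P, zpowers (x ^ p ^ (n - 1))⁆ = ⊥ := by
  classical
  by_contra hnt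
  set x₀ := x ^ p ^ (n - 1) with hx₀
  have hx₀o : orderOf x₀ ∣ p := by
    apply orderOf_dvd_of_pow_eq_one
    rw [hx₀, ← pow_mul, ← pow_succ, Nat.sub_add_cancel hn1, hxn]
  have hAB : zpowers x₀ ≤ zpowers x := by
    rw [zpowers_le, hx₀]; exact pow_mem (mem_zpowers x) _
  obtain ⟨Q, hQP, hBQ, hntQ, hmin⟩ := exists_min (zpowers x₀) (zpowers x) _ P le_rfl
    (zpowers_le.mpr hxP) hnt
  have hQq : IsPGroup q Q := hP.to_le hQP
  have hAn : zpowers x ≤ normalizer ((zpowers x₀ : Subgroup G) : Set G) := by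
    refine le_trans ?_ (centralizer_le_normalizer _)
    rw [zpowers_le, ← centralizer_singleton_eq rfl, mem_centralizer_singleton_iff, hx₀]
    exact (Commute.refl x).pow_right _
  have hpq : p.Coprime q := (Nat.coprime_primes hp.out hq.out).mpr (Ne.symm hqp)
  have hAq : (Nat.card (zpowers x₀)).Coprime q := by
    rw [Nat.card_zpowers]
    exact Nat.Coprime.coprime_dvd_left hx₀o hpq
  obtain ⟨h1, hcl, hC⟩ := min_data hQq hBQ hAB hAn hAq hntQ hmin
  have hxQ : x ∈ normalizer (Q : Set G) := hBQ (mem_zpowers x)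
  have hx₀Q : x₀ ∈ normalizer (Q : Set G) := pow_mem hxQ _
  have hau : (au hxQ) ^ p ^ (n - 1) = au hx₀Q := au_pow hxQ _
  haveI : Fintype Q := Fintype.ofFinite _
  have hcopQ : (orderOf x₀).Coprime (Nat.card Q) := by
    obtain ⟨c, hc⟩ := IsPGroup.iff_card.mp hQq
    rw [hc]
    exact Nat.Coprime.pow_right c (Nat.Coprime.coprime_dvd_left hx₀o hpq)
  obtain ⟨z, hz1⟩ : ∃ z : Q, z ≠ 1 := by
    by_contra hcon
    push Not at hcon
    apply hntQ
    have : Q = ⊥ := by
      rw [eq_bot_iff]
      intro y hy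
      exact mem_bot.mpr (congrArg Subtype.val (hcon ⟨y, hy⟩))
    rw [this]
    exact commutator_bot_left _
  refine SG1.CT p q hp2 hkq hQq hcl (ρ.comp Q.subtype) (au hxQ) (ρ x) n hn1 (au_one hxQ hxn)
    (by rw [← map_pow, hxn, map_one])
    (fun g => by
      show ρ _ * ρ _ = ρ _ * ρ _
      rw [← map_mul, ← map_mul]
      congr 1
      show x * (g : G) = (x * g * x⁻¹) * x
      group) hfixM
    (by
      intro g hg
      have h2 : x * (g : G) * x⁻¹ = g := congrArg Subtype.val hg
      apply Subtype.ext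
      apply hfixP g (hQP g.2)
      calc x * (g : G) = (x * (g : G) * x⁻¹) * x := by group
        _ = g * x := by rw [h2])
    (by
      intro N hN hcN hNinv g hg
      rw [hau] at hNinv hg
      refine fp_of hx₀Q hcopQ N hN ?_ hNinv g hg
      intro g hg
      apply hcN
      apply hC
      rw [← centralizer_singleton_eq rfl, mem_centralizer_singleton_iff]
      exact hg.symm)
    (by
      intro N hN hNg
      rw [hau] at hNg
      exact gen_of hx₀Q h1 N hN hNg)
    ⟨z, fun h => hz1 (Subtype.ext (hinj (by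
      show ρ (z : G) = ρ (1 : G)
      rw [map_one]
      exact h)))⟩

/-- fixed point free automorphisms of quotients -/
theorem fpf_aux {X : Type*} [Group X] [Finite X] {K N : Subgroup X} [hK : K.Normal] [hN : N.Normal]
    {x : X} (hf : K ⊓ centralizer ({x} : Set X) = ⊥) {k : X} (hk : k ∈ K)
    (hkN : x * k * x⁻¹ * k⁻¹ ∈ N) : k ∈ N := by
  have hinj : ∀ v ∈ K, ∀ w ∈ K, x * v * x⁻¹ * v⁻¹ = x * w * x⁻¹ * w⁻¹ → v = w := by
    intro v hv w hw h
    have h1 : w⁻¹ * v ∈ K ⊓ centralizer ({x} : Set X) := by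
      refine mem_inf.mpr ⟨K.mul_mem (K.inv_mem hw) hv, ?_⟩
      rw [mem_centralizer_singleton_iff]
      have h2 : x * (w⁻¹ * v) * x⁻¹ = w⁻¹ * v := by
        calc x * (w⁻¹ * v) * x⁻¹ = (x * w * x⁻¹)⁻¹ * (x * v * x⁻¹ * v⁻¹) * v := by group
          _ = (x * w * x⁻¹)⁻¹ * (x * w * x⁻¹ * w⁻¹) * v := by rw [h]
          _ = w⁻¹ * v := by group
      calc (w⁻¹ * v) * x = (x * (w⁻¹ * v) * x⁻¹) * x := by rw [h2]
        _ = x * (w⁻¹ * v) := by group
    rw [hf, mem_bot, inv_mul_eq_one] at h1
    exact h1.symm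
  let N' : Subgroup X := N ⊓ K
  have hmaps : ∀ v ∈ N', x * v * x⁻¹ * v⁻¹ ∈ N' := fun v hv =>
    N'.mul_mem (mem_inf.mpr ⟨hN.conj_mem v (mem_inf.mp hv).1 x, hK.conj_mem v (mem_inf.mp hv).2 x⟩) (N'.inv_mem hv)
  let f : N' → N' := fun v => ⟨x * v.1 * x⁻¹ * v.1⁻¹, hmaps v v.2⟩
  have hfi : Function.Injective f := by
    intro v w h
    exact Subtype.ext (hinj v (mem_inf.mp v.2).2 w (mem_inf.mp w.2).2 (congrArg Subtype.val h))
  obtain ⟨v, hv⟩ := (Finite.injective_iff_surjective.mp hfi) ⟨x * k * x⁻¹ * k⁻¹,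
    mem_inf.mpr ⟨hkN, K.mul_mem (hK.conj_mem k hk x) (K.inv_mem hk)⟩⟩
  have h1 := hinj v (mem_inf.mp v.2).2 k hk (congrArg Subtype.val hv)
  rw [← h1]
  exact (mem_inf.mp v.2).1

theorem fpf_quot {X : Type*} [Group X] [Finite X] {K : Subgroup X} (N : Subgroup X) [hK : K.Normal]
    [hN : N.Normal] {x : X} (hf : K ⊓ centralizer ({x} : Set X) = ⊥) :
    K.map (QuotientGroup.mk' N) ⊓ centralizer ({(QuotientGroup.mk' N x)} : Set (X ⧸ N)) = ⊥ := by
  rw [eq_bot_iff]
  rintro _ ⟨⟨k, hk, rfl⟩, h⟩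
  have h1 : QuotientGroup.mk' N k * QuotientGroup.mk' N x = QuotientGroup.mk' N x * QuotientGroup.mk' N k :=
    mem_centralizer_singleton_iff.mp h
  have h2 : x * k * x⁻¹ * k⁻¹ ∈ N := by
    rw [← QuotientGroup.eq_one_iff]
    show QuotientGroup.mk' N (x * k * x⁻¹ * k⁻¹) = 1
    rw [map_mul, map_mul, map_mul, map_inv, map_inv, ← h1]
    group
  have h3 := fpf_aux hf hk h2
  rw [mem_bot]
  exact (QuotientGroup.eq_one_iff k).mpr h3

/-- `O_r` of a group acting faithfully on a minimal normal `r`-subgroup is trivial -/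
theorem bot_of_faithful {X : Type*} [Group X] [Finite X] {r : ℕ} [hr : Fact r.Prime] {V : Subgroup X}
    [hV : V.Normal] (hVb : V ≠ ⊥) (hVr : IsPGroup r V)
    (hmin : ∀ M : Subgroup X, M.Normal → M ≤ V → M = ⊥ ∨ M = V)
    {R : Subgroup (X ⧸ centralizer (V : Set X))} (hRn : R.Normal) (hR : IsPGroup r R) : R = ⊥ := by
  classical
  set C := centralizer (V : Set X) with hC
  set π := QuotientGroup.mk' C with hπ
  have hR₀ : (R.comap π).Normal := hRn.comap _
  have key : V ≤ centralizer ((R.comap π : Subgroup X) : Set X) := by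
    rcases hmin (V ⊓ centralizer ((R.comap π : Subgroup X) : Set X)) inferInstance inf_le_left with h | h
    · exfalso
      let f : X ⧸ C →* MulAut V := QuotientGroup.lift C (MulAut.conjNormal (H := V)) (by
        intro c hc
        ext v
        rw [MulAut.conjNormal_apply]
        have := mem_centralizer_iff.mp hc v v.2
        show c * v * c⁻¹ = v
        rw [← this]; group)
      let _ : MulAction R V := MulAction.compHom V (f.comp R.subtype)
      have hd : r ∣ Nat.card V := by
        obtain ⟨n, hn⟩ := IsPGroup.iff_card.mp hVr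
        rw [hn]
        apply dvd_pow_self
        rintro rfl
        rw [pow_zero] at hn
        exact hVb (card_eq_one.mp hn)
      have h1 : (1 : V) ∈ MulAction.fixedPoints R V := by
        intro a
        show f a 1 = 1
        exact map_one _
      obtain ⟨b, hb, hb1⟩ := hR.exists_fixed_point_of_prime_dvd_card_of_fixed_point V hd h1
      apply hb1
      have h2 : (b : X) ∈ V ⊓ centralizer ((R.comap π : Subgroup X) : Set X) := by
        refine mem_inf.mpr ⟨b.2, ?_⟩
        rw [mem_centralizer_iff]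
        intro y hy
        have h3 := hb ⟨π y, hy⟩
        have h4 : f (π y) b = b := h3
        have h5 : y * (b : X) * y⁻¹ = b := congrArg Subtype.val h4
        calc y * (b : X) = (y * (b : X) * y⁻¹) * y := by group
          _ = b * y := by rw [h5]
      rw [h] at h2
      exact (Subtype.ext (mem_bot.mp h2)).symm
    · exact inf_eq_left.mp h
  rw [le_centralizer_iff] at key
  have h1 : R = (R.comap π).map π := (map_comap_eq_self_of_surjective (QuotientGroup.mk'_surjective C) R).symm
  rw [h1, Subgroup.map_eq_bot_iff, QuotientGroup.ker_mk']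
  exact key

theorem cast_ne_zero' {r p : ℕ} [hr : Fact r.Prime] (hp : p.Prime) (h : r ≠ p) (n : ℕ) :
    ((p ^ n : ℕ) : AlgebraicClosure (ZMod r)) ≠ 0 := by
  rw [Nat.cast_pow]
  exact pow_ne_zero _ (HH4.natCast_ne_zero hp h)

/-- the central step: `x ^ p ^ (n-1)` centralizes `K / C_K(V)` -/
theorem step {p : ℕ} [hp : Fact p.Prime] (hp2 : p ≠ 2) {n : ℕ} (hn1 : 1 ≤ n) {X : Type u} [Group X]
    [Finite X] (K : Subgroup X) (x : X) [hK : K.Normal] (hKs : Group.IsSolvable K)
    (hcop : (Nat.card K).Coprime p) (hx : x ^ p ^ n = 1) (hf : K ⊓ centralizer ({x} : Set X) = ⊥)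
    (V : Subgroup X) [hV : V.Normal] (hVK : V ≤ K) (hVb : V ≠ ⊥)
    (hmin : ∀ M : Subgroup X, M.Normal → M ≤ V → M = ⊥ ∨ M = V) :
    ⁅K, zpowers (x ^ p ^ (n - 1))⁆ ≤ centralizer (V : Set X) := by
  classical
  have hVs : Group.IsSolvable V := Group.isSolvable_of_isSolvable_injective (Subgroup.inclusion_injective hVK)
  obtain ⟨hVc, r, hr, hVr⟩ := H12.CN.minimal_normal_elementary' V hVs hVb hmin
  haveI : Fact r.Prime := ⟨hr⟩
  have hVp : IsPGroup r V := H1.Hall.isPGroup_of_pow_eq_one hVr
  have hrp : r ≠ p := by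
    rintro rfl
    obtain ⟨m, hm⟩ := IsPGroup.iff_card.mp hVp
    have h1 : (Nat.card V).Coprime r := Nat.Coprime.coprime_dvd_left (card_dvd_of_le hVK) hcop
    rcases Nat.eq_zero_or_pos m with h | h
    · rw [h, pow_zero] at hm
      exact hVb (card_eq_one.mp hm)
    · rw [hm] at h1
      exact (Nat.Prime.coprime_iff_not_dvd hr).mp (Nat.Coprime.symm h1) (dvd_pow_self r h.ne')
  obtain ⟨M, i1, i2, i3, ρ, hker, hsum⟩ := HH4.exists_rep (p := r) (V := V) ⟨hVc, fun v hv => hVr v hv⟩
  set C := centralizer (V : Set X) with hC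
  have hVn : ∀ y : X, y ∈ normalizer (V : Set X) := by
    intro y; rw [normalizer_eq_top]; exact mem_top _
  let ι : X →* normalizer (V : Set X) :=
    { toFun := fun y => ⟨y, hVn y⟩
      map_one' := rfl
      map_mul' := fun _ _ => rfl }
  let ρ₁ : X →* Module.End (AlgebraicClosure (ZMod r)) M := ρ.comp ι
  have hker1 : ∀ y, ρ₁ y = 1 ↔ y ∈ C := fun y => hker (ι y)
  let ρ₂ : X ⧸ C →* Module.End (AlgebraicClosure (ZMod r)) M :=
    QuotientGroup.lift C ρ₁ (fun y hy => (hker1 y).mpr hy)
  set π := QuotientGroup.mk' C with hπ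
  have hρ₂ : ∀ y, ρ₂ (π y) = ρ₁ y := fun y => rfl
  have hinj : Function.Injective ρ₂ := by
    rw [injective_iff_map_eq_one]
    intro y hy
    obtain ⟨g, rfl⟩ := QuotientGroup.mk'_surjective C y
    have h1 : g ∈ C := (hker1 g).mp hy
    exact (QuotientGroup.eq_one_iff g).mpr h1
  have hVx : V ⊓ centralizer ({x} : Set X) = ⊥ := by
    rw [eq_bot_iff, ← hf]; exact inf_le_inf_right _ hVK
  have hs := hsum (ι x) hVx (p ^ n) (by
    show x ^ p ^ n ∈ C
    rw [hx]; exact one_mem _)
  have hfixM : ∀ v, ρ₂ (π x) v = v → v = 0 := by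
    intro v hv
    have h1 : ∀ i : ℕ, (ρ (ι x) ^ i) v = v := by
      intro i
      induction i with
      | zero => rfl
      | succ i ih => rw [pow_succ', Module.End.mul_apply, ih]; exact hv
    have h2 := congrArg (fun F => F v) hs
    simp only [LinearMap.sum_apply, h1, Finset.sum_const, Finset.card_range, LinearMap.zero_apply] at h2
    rw [← Nat.cast_smul_eq_nsmul (AlgebraicClosure (ZMod r))] at h2
    rcases smul_eq_zero.mp h2 with h3 | h3
    · exact absurd h3 (cast_ne_zero' hp.out hrp n)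
    · exact h3
  have hKn' : (K.map π).Normal := hK.map π (QuotientGroup.mk'_surjective C)
  have hfq := fpf_quot C hf
  have hxn : (π x) ^ p ^ n = 1 := by rw [← map_pow, hx, map_one]
  have hKs' : Group.IsSolvable (K.map π) := Group.isSolvable_of_surjective (π.subgroupMap_surjective K)
  have hcop' : (Nat.card (K.map π)).Coprime p := Nat.Coprime.coprime_dvd_left (K.card_map_dvd π) hcop
  set τ := (π x) ^ p ^ (n - 1) with hτ
  have hτo : orderOf τ ∣ p := by
    apply orderOf_dvd_of_pow_eq_one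
    rw [hτ, ← pow_mul, ← pow_succ, Nat.sub_add_cancel hn1, hxn]
  have hcent : zpowers τ ≤ centralizer (K.map π : Set (X ⧸ C)) := by
    apply H12.Loc.le_centralizer_of_fitting hKs' (by rw [normalizer_eq_top]; exact le_top)
    · rw [Nat.card_zpowers]
      exact Nat.Coprime.coprime_dvd_left hτo hcop'.symm
    · rw [H12.Loc.le_centralizer_fittingOf_iff]
      intro q hq
      haveI : Fact q.Prime := ⟨hq⟩
      have hOp : IsPGroup q (H12.Loc.Oq q (K.map π)) := H12.Loc.Oq_isPGroup hq _
      have hOn : (H12.Loc.Oq q (K.map π)).Normal := by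
        rw [H12.Loc.Oq_eq_map hq]
        haveI := H1.KW.pCore_characteristic (G := K.map π) q
        infer_instance
      by_cases hqr : q = r
      · subst hqr
        have h1 : H12.Loc.Oq q (K.map π) = ⊥ := bot_of_faithful hVb hVp hmin hOn hOp
        rw [h1]
        intro y _
        rw [mem_centralizer_iff]
        intro z hz
        rw [show z = 1 from hz, one_mul, mul_one]
      by_cases hqp : q = p
      · subst hqp
        have h1 : H12.Loc.Oq q (K.map π) = ⊥ := by
          apply card_eq_one.mp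
          obtain ⟨m, hm⟩ := IsPGroup.iff_card.mp hOp
          have h2 : (Nat.card (H12.Loc.Oq q (K.map π))).Coprime q :=
            Nat.Coprime.coprime_dvd_left (card_dvd_of_le (H12.Loc.Oq_le _ _)) hcop'
          rcases Nat.eq_zero_or_pos m with h | h
          · rw [hm, h, pow_zero]
          · exfalso
            rw [hm] at h2
            exact (Nat.Prime.coprime_iff_not_dvd hq).mp (Nat.Coprime.symm h2) (dvd_pow_self q h.ne')
        rw [h1]
        intro y _
        rw [mem_centralizer_iff]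
        intro z hz
        rw [show z = 1 from hz, one_mul, mul_one]
      have h1 := qfix hp2 hqp (HH4.natCast_ne_zero hq (Ne.symm hqr)) ρ₂ hinj (π x) n hn1 hxn hOp
        (by rw [normalizer_eq_top]; exact mem_top _) (by
          intro g hg hgx
          have h2 : g ∈ K.map π ⊓ centralizer ({(QuotientGroup.mk' C x)} : Set (X ⧸ C)) :=
            mem_inf.mpr ⟨H12.Loc.Oq_le _ _ hg, by
              rw [mem_centralizer_singleton_iff]; exact hgx.symm⟩
          rw [hfq] at h2
          exact mem_bot.mp h2) hfixM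
      rw [Subgroup.commutator_eq_bot_iff_le_centralizer, le_centralizer_iff] at h1
      exact h1
  have h2 : (⁅K, zpowers (x ^ p ^ (n - 1))⁆ : Subgroup X).map π = ⊥ := by
    rw [map_commutator, MonoidHom.map_zpowers, map_pow, Subgroup.commutator_eq_bot_iff_le_centralizer,
      le_centralizer_iff]
    exact hcent
  rw [Subgroup.map_eq_bot_iff, hπ, QuotientGroup.ker_mk'] at h2
  exact h2

theorem nil {p : ℕ} [hp : Fact p.Prime] (hp2 : p ≠ 2) {n : ℕ} (hn1 : 1 ≤ n) : ∀ (m : ℕ) {X : Type u}
    [Group X] [Finite X] (K : Subgroup X) (x : X), K.Normal → Nat.card K ≤ m → Group.IsSolvable K →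
    (Nat.card K).Coprime p → x ^ p ^ n = 1 → K ⊓ centralizer ({x} : Set X) = ⊥ →
    Group.IsNilpotent (⁅K, zpowers (x ^ p ^ (n - 1))⁆ : Subgroup X) := by
  intro m
  induction m with
  | zero =>
    intro X _ _ K x _ hm
    have : 0 < Nat.card K := Nat.card_pos
    omega
  | succ m ih =>
    intro X _ _ K x hK hm hKs hcop hx hf
    by_cases hKb : K = ⊥
    · rw [hKb, commutator_bot_left]
      infer_instance
    obtain ⟨V, hVK, hVn, hVb, hVmin⟩ := H1.Hall.exists_minimal_normal hK hKb
    have h1 := step hp2 hn1 K x hKs hcop hx hf V hVK hVb hVmin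
    set N := ⁅K, zpowers (x ^ p ^ (n - 1))⁆ with hN
    set π := QuotientGroup.mk' V with hπ
    have hcard : Nat.card (K.map π) < Nat.card K := by
      have h2 : (K.map π).comap π = K := by
        rw [Subgroup.comap_map_eq, QuotientGroup.ker_mk', sup_eq_left.mpr hVK]
      have h3 := H1.Hall.card_comap_mk V (K.map π)
      rw [← hπ, h2] at h3
      have h4 : 1 < Nat.card V := by
        rw [one_lt_card_iff_ne_bot]; exact hVb
      have h5 : 0 < Nat.card (K.map π) := Nat.card_pos
      rw [h3]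
      nlinarith
    have h2 := ih (K.map π) (π x) (hK.map π (QuotientGroup.mk'_surjective V)) (by omega)
      (Group.isSolvable_of_surjective (π.subgroupMap_surjective K))
      (Nat.Coprime.coprime_dvd_left (K.card_map_dvd π) hcop)
      (by rw [← map_pow, hx, map_one]) (fpf_quot V hf)
    have h3 : (⁅K.map π, zpowers ((π x) ^ p ^ (n - 1))⁆ : Subgroup (X ⧸ V)) = N.map π := by
      rw [hN, map_commutator, MonoidHom.map_zpowers, map_pow]
    rw [h3] at h2
    obtain ⟨l, hl⟩ := (Subgroup.isNilpotent_iff_lowerCentralSeries (N.map π)).mp h2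
    rw [← Subgroup.map_lowerCentralSeries, Subgroup.map_eq_bot_iff, QuotientGroup.ker_mk'] at hl
    rw [Subgroup.isNilpotent_iff_lowerCentralSeries]
    refine ⟨l + 1, ?_⟩
    rw [Subgroup.lowerCentralSeries_succ, eq_bot_iff]
    refine (commutator_mono hl h1).trans ?_
    rw [le_bot_iff, Subgroup.commutator_eq_bot_iff_le_centralizer, le_centralizer_iff]

end Cfsg.Agent.H22.SG2
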