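import Cfsg.Agent.H22_Schur

/-!
Transfer and corestriction between Schur multipliers of a finite group and of a subgroup.
-/

set_option autoImplicit false
open Cfsg

namespace Cfsg.Agent.H22.SchurTr

open Subgroup H22.Schur
open scoped commutatorElement

universe u v w

instance {F : Type v} [Group F] {Q : Type u} [Group Q] (f : F →* Q) : CommGroup (π f).ker :=
  { (inferInstance : Group (π f).ker) with
    mul_comm := fun a b => Subtype.ext (mem_center_iff.mp (ker_π_le_center f b.2) a) }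

variable {F : Type v} [Group F] {G : Type u} [Group G] (f : F →* G) (U : Subgroup G)

/-- the restricted presentation -/
abbrev f₀ : U.comap f →* U := f.subgroupComap U

theorem f₀_surj (hf : Function.Surjective f) : Function.Surjective (f₀ f U) := by
  rintro ⟨u, hu⟩
  obtain ⟨x, rfl⟩ := hf u
  exact ⟨⟨x, hu⟩, rfl⟩

theorem B_le : B (f₀ f U) ≤ (B f).comap (U.comap f).subtype := by
  rw [← Subgroup.map_le_iff_le_comap, Subgroup.map_commutator]
  apply commutator_mono _ le_top
  rintro x ⟨y, hy, rfl⟩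
  exact congrArg Subtype.val (MonoidHom.mem_ker.mp hy)

/-- `E f₀ → E f` -/
def corE : E (f₀ f U) →* E f := QuotientGroup.map (B (f₀ f U)) (B f) (U.comap f).subtype (B_le f U)

theorem corE_mk (x : U.comap f) : corE f U (QuotientGroup.mk' _ x) = QuotientGroup.mk' _ (x : F) := rfl

theorem corE_mem (m : E (f₀ f U)) (hm : m ∈ M (f₀ f U)) : corE f U m ∈ M f := by
  obtain ⟨x, rfl⟩ := QuotientGroup.mk'_surjective _ m
  rw [corE_mk, mk_mem_M]
  rw [mk_mem_M] at hm
  refine ⟨congrArg Subtype.val (MonoidHom.mem_ker.mp hm.1), ?_⟩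
  have : (_root_.commutator (U.comap f)).map (U.comap f).subtype ≤ _root_.commutator F := by
    rw [_root_.commutator_def, _root_.commutator_def, Subgroup.map_commutator]
    exact commutator_mono le_top le_top
  exact this ⟨x, hm.2, rfl⟩

/-- corestriction -/
def cor : M (f₀ f U) →* M f := MonoidHom.mk' (fun m => ⟨corE f U m, corE_mem f U m m.2⟩)
  (fun a b => Subtype.ext (map_mul (corE f U) _ _))

theorem conj_mem (t : F) (x : f.ker) : t⁻¹ * x * t ∈ U.comap f := by
  rw [Subgroup.mem_comap, map_mul, map_mul, map_inv, MonoidHom.mem_ker.mp x.2]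
  simp

/-- conjugation followed by projection -/
def c (t : F) : f.ker →* (π (f₀ f U)).ker := MonoidHom.mk'
  (fun x => ⟨QuotientGroup.mk' (B (f₀ f U)) ⟨t⁻¹ * x * t, conj_mem f U t x⟩, by
    rw [MonoidHom.mem_ker]
    apply Subtype.ext
    show f (t⁻¹ * x * t) = 1
    rw [map_mul, map_mul, map_inv, MonoidHom.mem_ker.mp x.2]
    simp⟩)
  (by
    intro a b
    apply Subtype.ext
    show QuotientGroup.mk' (B (f₀ f U)) _ = QuotientGroup.mk' (B (f₀ f U)) _ * QuotientGroup.mk' (B (f₀ f U)) _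
    rw [← map_mul]
    congr 1
    apply Subtype.ext
    show t⁻¹ * (a * b : F) * t = (t⁻¹ * a * t) * (t⁻¹ * b * t)
    group)

theorem c_coe (t : F) (x : f.ker) : (c f U t x : E (f₀ f U)) =
    QuotientGroup.mk' (B (f₀ f U)) ⟨t⁻¹ * x * t, conj_mem f U t x⟩ := rfl

theorem c_mul (t u : F) (hu : u ∈ U.comap f) : c f U (t * u) = c f U t := by
  ext x
  rw [c_coe, c_coe]
  have h1 : (⟨(t * u)⁻¹ * x * (t * u), conj_mem f U (t * u) x⟩ : U.comap f) =
      (⟨u, hu⟩ : U.comap f)⁻¹ * ⟨t⁻¹ * x * t, conj_mem f U t x⟩ * ⟨u, hu⟩ := by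
    apply Subtype.ext
    show (t * u)⁻¹ * x * (t * u) = u⁻¹ * (t⁻¹ * x * t) * u
    group
  rw [h1, map_mul, map_mul, map_inv]
  have h2 : QuotientGroup.mk' (B (f₀ f U)) ⟨t⁻¹ * x * t, conj_mem f U t x⟩ ∈ center (E (f₀ f U)) :=
    ker_π_le_center _ (c f U t x).2
  rw [mem_center_iff.mp h2, inv_mul_cancel_right]

theorem c_conj (t g : F) (x : f.ker) (h : g * x * g⁻¹ ∈ f.ker) : c f U t ⟨g * x * g⁻¹, h⟩ = c f U (g⁻¹ * t) x := by
  apply Subtype.ext
  rw [c_coe, c_coe]
  congr 1
  apply Subtype.ext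
  show t⁻¹ * (g * x * g⁻¹) * t = (g⁻¹ * t)⁻¹ * x * (g⁻¹ * t)
  group

theorem c_eq_of_mk_eq (t t' : F) (h : (QuotientGroup.mk t : F ⧸ U.comap f) = QuotientGroup.mk t') :
    c f U t = c f U t' := by
  have h1 := QuotientGroup.eq.mp h
  have : t' = t * (t⁻¹ * t') := by group
  rw [this, c_mul f U t _ h1]

variable [(U.comap f).FiniteIndex]

/-- the product over the cosets -/
noncomputable def T : f.ker →* (π (f₀ f U)).ker :=
  letI := (U.comap f).fintypeQuotientOfFiniteIndex
  ∏ q : F ⧸ U.comap f, c f U q.out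

theorem T_apply (x : f.ker) : T f U x = letI := (U.comap f).fintypeQuotientOfFiniteIndex;
    ∏ q : F ⧸ U.comap f, c f U q.out x := by
  unfold T
  rw [MonoidHom.finsetProd_apply]

theorem T_conj (g : F) (x : f.ker) (h : g * x * g⁻¹ ∈ f.ker) : T f U ⟨g * x * g⁻¹, h⟩ = T f U x := by
  rw [T_apply, T_apply]
  letI := (U.comap f).fintypeQuotientOfFiniteIndex
  rw [← Equiv.prod_comp (MulAction.toPerm g⁻¹ : Equiv.Perm (F ⧸ U.comap f)) (fun q => c f U q.out x)]
  refine Finset.prod_congr rfl (fun q _ => ?_)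
  rw [c_conj]
  congr 1
  apply c_eq_of_mk_eq
  show _ = QuotientGroup.mk (Quotient.out (g⁻¹ • q))
  rw [QuotientGroup.out_eq']
  conv_rhs => rw [← QuotientGroup.out_eq' q]
  rfl

theorem B_le_map_ker : B f ≤ (T f U).ker.map f.ker.subtype := by
  rw [Subgroup.commutator_le]
  intro r hr g _
  have hn : g * r⁻¹ * g⁻¹ ∈ f.ker := (MonoidHom.normal_ker f).conj_mem _ (inv_mem hr) g
  have h2 : ⁅r, g⁆ ∈ f.ker := by
    rw [commutatorElement_def]
    have : r * g * r⁻¹ * g⁻¹ = r * (g * r⁻¹ * g⁻¹) := by group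
    rw [this]; exact mul_mem hr hn
  refine ⟨⟨⁅r, g⁆, h2⟩, ?_, rfl⟩
  have h3 : (⟨⁅r, g⁆, h2⟩ : f.ker) = ⟨r, hr⟩ * ⟨g * ((⟨r, hr⟩⁻¹ : f.ker) : F) * g⁻¹, hn⟩ := by
    apply Subtype.ext
    show ⁅r, g⁆ = r * (g * r⁻¹ * g⁻¹)
    rw [commutatorElement_def]; group
  show T f U ⟨⁅r, g⁆, h2⟩ = 1
  rw [h3, map_mul, T_conj, ← map_mul, mul_inv_cancel, map_one]

/-- the projection `ker f → ker π` -/
def s : f.ker →* (π f).ker := MonoidHom.mk' (fun x => ⟨QuotientGroup.mk' (B f) x, x.2⟩)
  (fun a b => Subtype.ext (map_mul (QuotientGroup.mk' (B f)) _ _))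

theorem s_surj : Function.Surjective (s f) := by
  rintro ⟨x, hx⟩
  obtain ⟨x, rfl⟩ := QuotientGroup.mk'_surjective _ x
  exact ⟨⟨x, hx⟩, rfl⟩

theorem s_ker_le : (s f).ker ≤ (T f U).ker := by
  intro x hx
  have h1 : (x : F) ∈ B f := (QuotientGroup.eq_one_iff _).mp (congrArg Subtype.val hx)
  obtain ⟨y, hy, hyx⟩ := B_le_map_ker f U h1
  have : y = x := Subtype.ext hyx
  rw [← this]; exact hy

/-- transfer on `ker π` -/
noncomputable def T' : (π f).ker →* (π (f₀ f U)).ker := MonoidHom.liftOfSurjective (s f) (s_surj f) ⟨T f U, s_ker_le f U⟩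

theorem T'_s (x : f.ker) : T' f U (s f x) = T f U x := MonoidHom.liftOfRightInverse_comp_apply _ _ _ _ _

/-- abelianised quotient map -/
def φ : U.comap f →* Abelianization (E (f₀ f U)) := Abelianization.of.comp (QuotientGroup.mk' (B (f₀ f U)))

theorem smul_eq (x : f.ker) (q : F ⧸ U.comap f) : (x : F) • q = q := by
  obtain ⟨t, rfl⟩ := QuotientGroup.mk_surjective q
  show QuotientGroup.mk ((x : F) * t) = QuotientGroup.mk t
  rw [QuotientGroup.eq]
  have := conj_mem f U t x⁻¹
  have h2 : ((x : F) * t)⁻¹ * t = t⁻¹ * ((x⁻¹ : f.ker) : F) * t := by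
    rw [InvMemClass.coe_inv]; group
  rw [h2]; exact this

theorem transfer_apply (x : f.ker) : (MonoidHom.transfer (φ f U)) (x : F) =
    Abelianization.of (T f U x : E (f₀ f U)) := by
  have h0 : Abelianization.of (T f U x : E (f₀ f U)) =
    (Abelianization.of.comp (π (f₀ f U)).ker.subtype) (T f U x) := rfl
  rw [h0, T_apply, map_prod]
  rw [MonoidHom.transfer_def (φ f U) default]
  unfold Subgroup.leftTransversals.diff
  refine Finset.prod_congr rfl (fun q _ => ?_)
  have h1 : ((((x : F) • (default : (U.comap f).LeftTransversal)).2.leftQuotientEquiv q : _) : F) =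
      (x : F) * ((default : (U.comap f).LeftTransversal).2.leftQuotientEquiv q : F) := by
    rw [smul_apply_eq_smul_apply_inv_smul]
    have : (x : F)⁻¹ • q = q := smul_eq f U x⁻¹ q
    rw [this]; rfl
  set t : F := ((default : (U.comap f).LeftTransversal).2.leftQuotientEquiv q : F) with ht
  have h2 : (QuotientGroup.mk t : F ⧸ U.comap f) = q :=
    IsComplement.quotientGroupMk_leftQuotientEquiv (default : (U.comap f).LeftTransversal).2 q
  have h3 : c f U q.out = c f U t := by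
    apply c_eq_of_mk_eq
    rw [QuotientGroup.out_eq', h2]
  rw [h3]
  show Abelianization.of (QuotientGroup.mk' (B (f₀ f U)) _) = Abelianization.of (QuotientGroup.mk' (B (f₀ f U)) _)
  congr 2
  apply Subtype.ext
  show t⁻¹ * _ = t⁻¹ * x * t
  rw [h1, mul_assoc]

theorem T'_mem (m : (π f).ker) (hm : (m : E f) ∈ M f) : (T' f U m : E (f₀ f U)) ∈ M (f₀ f U) := by
  obtain ⟨x, rfl⟩ := s_surj f m
  rw [T'_s]
  refine Subgroup.mem_inf.mpr ⟨(T f U x).2, ?_⟩
  rw [← Abelianization.ker_of, MonoidHom.mem_ker, ← transfer_apply]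
  have h1 : (x : F) ∈ _root_.commutator F := ((mk_mem_M f).mp hm).2
  exact Abelianization.commutator_subset_ker _ h1

/-- transfer -/
noncomputable def tr' : M f →* M (f₀ f U) := MonoidHom.mk' (fun m => ⟨T' f U ⟨m, M_le_ker f m.2⟩, T'_mem f U _ m.2⟩)
  (by
    intro a b
    have h := map_mul (T' f U) ⟨(a : E f), M_le_ker f a.2⟩ ⟨(b : E f), M_le_ker f b.2⟩
    have h' : ((T' f U (⟨(a : E f), M_le_ker f a.2⟩ * ⟨(b : E f), M_le_ker f b.2⟩) : (π (f₀ f U)).ker) : E (f₀ f U)) =
      (T' f U ⟨(a : E f), M_le_ker f a.2⟩ : E (f₀ f U)) * (T' f U ⟨(b : E f), M_le_ker f b.2⟩ : E (f₀ f U)) := by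
      rw [h]; rfl
    apply Subtype.ext
    exact h')

theorem cor_T (x : f.ker) : corE f U (T f U x : E (f₀ f U)) = (s f x : E f) ^ (U.comap f).index := by
  have h0 : (T f U x : E (f₀ f U)) = (π (f₀ f U)).ker.subtype (T f U x) := rfl
  rw [h0, T_apply]
  have key : ∀ q : F ⧸ U.comap f, corE f U (c f U q.out x : E (f₀ f U)) = (s f x : E f) := by
    intro q
    rw [c_coe, corE_mk]
    show QuotientGroup.mk' (B f) ((q.out)⁻¹ * x * q.out) = QuotientGroup.mk' (B f) x
    rw [map_mul, map_mul, map_inv]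
    have h2 : QuotientGroup.mk' (B f) (x : F) ∈ center (E f) := ker_π_le_center _ (s f x).2
    rw [mem_center_iff.mp h2, inv_mul_cancel_right]
  let _ := (U.comap f).fintypeQuotientOfFiniteIndex
  -- use the hom to the commutative group ker π
  let ψ : (π (f₀ f U)).ker →* (π f).ker := MonoidHom.mk' (fun y => ⟨corE f U y, by
    obtain ⟨y, hy⟩ := y
    obtain ⟨y, rfl⟩ := QuotientGroup.mk'_surjective _ y
    show f (y : F) = 1
    exact congrArg Subtype.val (MonoidHom.mem_ker.mp hy)⟩) (fun a b => Subtype.ext (map_mul (corE f U) _ _))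
  have h1 : ψ (∏ q : F ⧸ U.comap f, c f U q.out x) = (s f x) ^ (U.comap f).index := by
    rw [map_prod]
    have h2 : ∀ q : F ⧸ U.comap f, ψ (c f U q.out x) = s f x := fun q => Subtype.ext (key q)
    rw [Finset.prod_congr rfl (fun q _ => h2 q), Finset.prod_const, Finset.card_univ,
      ← Nat.card_eq_fintype_card]
    rfl
  exact congrArg Subtype.val h1

theorem cor_tr (m : M f) : cor f U (tr' f U m) = m ^ (U.comap f).index := by
  apply Subtype.ext
  obtain ⟨x, hx⟩ := s_surj f ⟨m, M_le_ker f m.2⟩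
  show corE f U (T' f U ⟨m, M_le_ker f m.2⟩) = (m : E f) ^ _
  rw [← hx, T'_s, cor_T, hx]

omit [(U.comap f).FiniteIndex] in
/-- transfer and corestriction for Schur multipliers -/
theorem exists_transfer {G : Type u} [Group G] [Finite G] (U : Subgroup G) {A : Type v} {B : Type w} [CommGroup A]
    [CommGroup B] (hA : HasSchurMultiplier G A) (hB : HasSchurMultiplier U B) :
    ∃ (τ : A →* B) (κ : B →* A), ∀ a, κ (τ a) = a ^ U.index := by
  let f := can G
  have hf := can_surjective G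
  have hfi : (U.comap f).FiniteIndex := by
    constructor
    rw [Subgroup.index_comap_of_surjective _ hf]
    exact Subgroup.index_ne_zero_of_finite
  obtain ⟨eA⟩ := exists_equiv f hf hA
  have : Group.FG (U.comap f) := Subgroup.fg_of_index_ne_zero _
  obtain ⟨eB⟩ := exists_equiv (f₀ f U) (f₀_surj f U hf) hB
  refine ⟨(eB.symm.toMonoidHom.comp (tr' f U)).comp eA.toMonoidHom,
    (eA.symm.toMonoidHom.comp (cor f U)).comp eB.toMonoidHom, ?_⟩
  intro a
  show eA.symm (cor f U (eB (eB.symm (tr' f U (eA a))))) = _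
  rw [eB.apply_symm_apply, cor_tr, map_pow, eA.symm_apply_apply, Subgroup.index_comap_of_surjective _ hf]

end Cfsg.Agent.H22.SchurTr
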