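import Cfsg.Agent.H22_HH7
import Cfsg.Agent.H13_Sec

/-!
# Wreath sections from free modules
-/

set_option autoImplicit false
set_option linter.unusedSectionVars false
set_option linter.style.haveILetI false

namespace Cfsg.Agent.H22.Wr1

open Module Subgroup
open scoped commutatorElement

universe u

lemma ker_pow_le {k M : Type*} [Field k] [AddCommGroup M] [Module k M] [FiniteDimensional k M]
    (D : Module.End k M) (i : ℕ) : finrank k (LinearMap.ker (D ^ (i + 1))) ≤
      finrank k (LinearMap.ker (D ^ i)) + finrank k (LinearMap.ker D) := by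
  let g : LinearMap.ker (D ^ (i + 1)) →ₗ[k] LinearMap.ker D :=
    LinearMap.codRestrict (LinearMap.ker D) ((D ^ i) ∘ₗ (LinearMap.ker (D ^ (i + 1))).subtype) (by
      rintro ⟨m, hm⟩
      rw [LinearMap.mem_ker, pow_succ', Module.End.mul_apply] at hm
      exact hm)
  have h1 := LinearMap.finrank_range_add_finrank_ker g
  have h2 : finrank k (LinearMap.range g) ≤ finrank k (LinearMap.ker D) := Submodule.finrank_le _
  have h3 : finrank k (LinearMap.ker g) ≤ finrank k (LinearMap.ker (D ^ i)) := by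
    let f : LinearMap.ker g →ₗ[k] LinearMap.ker (D ^ i) :=
      LinearMap.codRestrict (LinearMap.ker (D ^ i))
        ((LinearMap.ker (D ^ (i + 1))).subtype ∘ₗ (LinearMap.ker g).subtype) (by
          intro m
          have h4 := m.2
          rw [LinearMap.mem_ker] at h4
          exact congrArg Subtype.val h4)
    apply LinearMap.finrank_le_finrank_of_injective (f := f)
    intro a b hab
    apply Subtype.ext
    apply Subtype.ext
    have h5 := congrArg (fun z : LinearMap.ker (D ^ i) => (z : M)) hab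
    exact h5
  omega

lemma finrank_eq {p : ℕ} [hp : Fact p.Prime] {M : Type*} [AddCommGroup M] [Module (ZMod p) M]
    [FiniteDimensional (ZMod p) M] (X : Module.End (ZMod p) M) (hX : X ^ p = 1)
    (h1 : finrank (ZMod p) (LinearMap.ker (X - 1)) = 1) (h2 : ∑ i ∈ Finset.range p, X ^ i ≠ 0) :
    finrank (ZMod p) M = p := by
  have h3 : ((Polynomial.X : Polynomial (ZMod p)) - 1) ^ p = Polynomial.X ^ p - 1 := by
    rw [sub_pow_char, one_pow]
  have h4 : ((Polynomial.X : Polynomial (ZMod p)) - 1) ^ (p - 1) = ∑ i ∈ Finset.range p, Polynomial.X ^ i := by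
    have h0 : (Polynomial.X : Polynomial (ZMod p)) - 1 ≠ 0 := by
      have := Polynomial.X_sub_C_ne_zero (1 : ZMod p)
      simpa using this
    apply mul_right_cancel₀ h0
    rw [← pow_succ, Nat.sub_add_cancel hp.out.one_lt.le, geom_sum_mul, h3]
  have h5 : (X - 1) ^ p = 0 := by
    have := congrArg (Polynomial.aeval X) h3
    simp only [map_pow, map_sub, Polynomial.aeval_X, map_one] at this
    rw [this, hX, sub_self]
  have h6 : (X - 1) ^ (p - 1) ≠ 0 := by
    have := congrArg (Polynomial.aeval X) h4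
    simp only [map_pow, map_sub, Polynomial.aeval_X, map_one, map_sum] at this
    rw [this]; exact h2
  have h7 : ∀ i, finrank (ZMod p) (LinearMap.ker ((X - 1) ^ i)) ≤ i := by
    intro i
    induction i with
    | zero =>
      rw [pow_zero]
      have : LinearMap.ker (1 : Module.End (ZMod p) M) = ⊥ := LinearMap.ker_eq_bot.mpr (fun a b h => h)
      rw [this, finrank_bot]
    | succ i ih =>
      have := ker_pow_le (X - 1) i
      omega
  apply le_antisymm
  · have h8 := h7 p
    rwa [h5, LinearMap.ker_zero, finrank_top] at h8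
  · by_contra hcon
    apply h6
    have h8 : finrank (ZMod p) M ≤ p - 1 := by omega
    have h9 := Module.End.ker_pow_le_ker_pow_finrank (X - 1) p
    rw [h5, LinearMap.ker_zero, top_le_iff] at h9
    have h10 : (X - 1) ^ finrank (ZMod p) M = 0 := LinearMap.ker_eq_top.mp h9
    obtain ⟨d, hd⟩ := Nat.exists_eq_add_of_le h8
    rw [hd, pow_add, h10, zero_mul]

/-- auxiliary: abstract form with a commutative group -/
lemma card_eq_aux {p : ℕ} [hp : Fact p.Prime] {B : Type*} [CommGroup B] [Finite B]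
    [Module (ZMod p) (Additive B)] [FiniteDimensional (ZMod p) (Additive B)] (f : MulAut B)
    (hf : f ^ p = 1) (h1 : Nat.card {b : B // f b = b} = p)
    (v : B) (hv : ∏ i ∈ Finset.range p, (f ^ i) v ≠ 1) : Nat.card B = p ^ p := by
  let X := H12.PStab.toEnd p B f
  have hX : X ^ p = 1 := by
    rw [← map_pow, hf, map_one]
  have h2 : ∑ i ∈ Finset.range p, X ^ i ≠ 0 := by
    intro h0
    apply hv
    have h3 := congrArg (fun F => F (Additive.ofMul v)) h0
    simp only [LinearMap.sum_apply, LinearMap.zero_apply] at h3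
    apply Additive.ofMul.injective
    rw [ofMul_prod, ofMul_one, ← h3]
    refine Finset.sum_congr rfl (fun i _ => ?_)
    rw [← map_pow]; rfl
  have h3 : finrank (ZMod p) (LinearMap.ker (X - 1)) = 1 := by
    have h4 : Nat.card (LinearMap.ker (X - 1)) = p := by
      refine Eq.trans ?_ h1
      apply Nat.card_congr
      refine ⟨fun m => ⟨Additive.toMul m.1, ?_⟩, fun b => ⟨Additive.ofMul b.1, ?_⟩, fun m => rfl, fun b => rfl⟩
      · have h5 := m.2
        rw [LinearMap.mem_ker, LinearMap.sub_apply, sub_eq_zero] at h5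
        exact h5
      · rw [LinearMap.mem_ker, LinearMap.sub_apply, sub_eq_zero]
        exact b.2
    have h5 : Nat.card (LinearMap.ker (X - 1)) = Nat.card (ZMod p) ^ finrank (ZMod p) (LinearMap.ker (X - 1)) :=
      Module.natCard_eq_pow_finrank
    rw [h4, Nat.card_zmod] at h5
    have h6 : p ^ 1 = p ^ finrank (ZMod p) (LinearMap.ker (X - 1)) := by rw [pow_one]; exact h5
    exact (Nat.pow_right_injective hp.out.two_le h6).symm
  have h4 := finrank_eq X hX h3 h2
  have h5 : Nat.card (Additive B) = Nat.card (ZMod p) ^ finrank (ZMod p) (Additive B) :=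
    Module.natCard_eq_pow_finrank
  rw [h4, Nat.card_zmod] at h5
  exact h5

/-- the wreath-like group -/
def WrLike (p : ℕ) (W : Type*) [Group W] : Prop :=
  ∃ (B : Subgroup W) (t : W), B.Normal ∧ IsMulCommutative B ∧ (∀ b ∈ B, b ^ p = 1) ∧ Nat.card B = p ^ p ∧
    orderOf t = p ∧ t ∉ B ∧ Nat.card W = p ^ (p + 1) ∧
    Nat.card ↥(B ⊓ Subgroup.centralizer ({t} : Set W)) = p

theorem WrLike.congr {p : ℕ} {W W' : Type*} [Group W] [Group W'] (e : W ≃* W') (h : WrLike p W) :
    WrLike p W' := by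
  obtain ⟨B, t, h1, h2, h3, h4, h5, h6, h7, h8⟩ := h
  have hinj : Function.Injective (e : W →* W') := e.injective
  refine ⟨B.map (e : W →* W'), e t, h1.map _ e.surjective, ?_, ?_, ?_, ?_, ?_, ?_, ?_⟩
  · refine ⟨⟨?_⟩⟩
    rintro ⟨_, a, ha, rfl⟩ ⟨_, b, hb, rfl⟩
    apply Subtype.ext
    show e a * e b = e b * e a
    rw [← map_mul, ← map_mul]
    congr 1
    exact congrArg Subtype.val (mul_comm' (⟨a, ha⟩ : B) ⟨b, hb⟩)
  · rintro _ ⟨a, ha, rfl⟩
    show (e a) ^ p = 1
    rw [← map_pow, h3 a ha, map_one]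
  · rw [card_map_of_injective hinj, h4]
  · rw [MulEquiv.orderOf_eq, h5]
  · rintro ⟨a, ha, hae⟩
    apply h6
    have : a = t := e.injective hae
    rwa [← this]
  · rw [← h7]; exact Nat.card_congr e.symm.toEquiv
  · rw [← h8]
    have : B.map (e : W →* W') ⊓ centralizer ({e t} : Set W') = (B ⊓ centralizer ({t} : Set W)).map (e : W →* W') := by
      ext y
      constructor
      · intro hy
        obtain ⟨⟨a, ha, rfl⟩, hc⟩ := mem_inf.mp hy
        refine ⟨a, mem_inf.mpr ⟨ha, ?_⟩, rfl⟩
        rw [mem_centralizer_singleton_iff] at hc ⊢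
        apply e.injective
        rw [map_mul, map_mul]
        exact hc
      · rintro ⟨a, ha, rfl⟩
        obtain ⟨ha1, ha2⟩ := mem_inf.mp ha
        refine mem_inf.mpr ⟨⟨a, ha1, rfl⟩, ?_⟩
        rw [mem_centralizer_singleton_iff] at ha2 ⊢
        show e a * e t = e t * e a
        rw [← map_mul, ha2, map_mul]
    rw [this, card_map_of_injective hinj]

theorem wr_aux {p : ℕ} [hp : Fact p.Prime] {S : Type u} [Group S] [Finite S] (B : Subgroup S) [hBn : B.Normal]
    (hB : Cfsg.IsElementaryAbelian p B) (x : S) (hS : B ⊔ zpowers x = ⊤) (hxB : x ∉ B) (hxp : x ^ p ∈ B)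
    (v : S) (hvB : v ∈ B) (hv : (v * x) ^ p * (x ^ p)⁻¹ ≠ 1)
    (hmin : ∀ L ≤ B, (∀ l ∈ L, x * l * x⁻¹ ∈ L) → (v * x) ^ p * (x ^ p)⁻¹ ∉ L → L = ⊥) :
    WrLike p S := by
  classical
  have hBab := hB.1
  letI i0 : CommGroup B := { (inferInstance : Group B) with
    mul_comm := fun a b => mul_comm' a b }
  letI i1 := AddCommGroup.zmodModule (n := p) (G := Additive B) (fun v => by
    have := hB.2 (Additive.toMul v : B) (Additive.toMul v : B).2
    apply Additive.toMul.injective
    exact Subtype.ext this)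
  haveI : Finite (Additive B) := inferInstanceAs (Finite B)
  haveI i2 : FiniteDimensional (ZMod p) (Additive B) := Module.Finite.of_finite
  let f : MulAut B := MulAut.conjNormal x
  have hf : ∀ b : B, ((f b : B) : S) = x * b * x⁻¹ := fun b => MulAut.conjNormal_apply x b
  have hfi : ∀ (i : ℕ) (b : B), (((f ^ i) b : B) : S) = x ^ i * b * (x ^ i)⁻¹ := by
    intro i b
    have : f ^ i = MulAut.conjNormal (x ^ i) := (map_pow _ _ _).symm
    rw [this]
    exact MulAut.conjNormal_apply _ b
  have hcomm : ∀ a ∈ B, ∀ b ∈ B, a * b = b * a := fun a ha b hb =>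
    congrArg Subtype.val (mul_comm' (⟨a, ha⟩ : B) ⟨b, hb⟩)
  have hfp : f ^ p = 1 := by
    ext b
    rw [hfi, hcomm _ hxp _ b.2]
    simp
  have hN : ∀ (b : B) (r : ℕ), ((∏ i ∈ Finset.range r, (f ^ i) b : B) : S) * x ^ r = ((b : S) * x) ^ r := by
    intro b r
    induction r with
    | zero => simp
    | succ r ih =>
      rw [Finset.prod_range_succ, coe_mul, pow_succ ((b : S) * x), ← ih, hfi]
      group
  set n : B := ∏ i ∈ Finset.range p, (f ^ i) ⟨v, hvB⟩ with hn
  have hnv : (n : S) = (v * x) ^ p * (x ^ p)⁻¹ := by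
    have h0 := hN ⟨v, hvB⟩ p
    rw [← hn] at h0
    rw [eq_mul_inv_iff_mul_eq]; exact h0
  have hn1 : n ≠ 1 := by
    intro h
    apply hv
    rw [← hnv, h]; rfl
  have hfn : f n = n := by
    rw [hn, map_prod]
    have h1 : ∀ i ∈ Finset.range p, f ((f ^ i) (⟨v, hvB⟩ : B)) = (f ^ (i + 1)) ⟨v, hvB⟩ := by
      intro i _
      rw [pow_succ' f, MulAut.mul_apply]
    rw [Finset.prod_congr rfl h1]
    have h2 := Finset.prod_range_succ' (fun i => (f ^ i) (⟨v, hvB⟩ : B)) p
    have h3 := Finset.prod_range_succ (fun i => (f ^ i) (⟨v, hvB⟩ : B)) p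
    rw [h3, hfp, pow_zero] at h2
    exact (mul_right_cancel h2).symm
  have hpow : ∀ b : B, b ^ p = 1 := fun b => Subtype.ext (hB.2 b b.2)
  have hord : ∀ b : B, b ≠ 1 → orderOf b = p := fun b hb => orderOf_eq_prime (hpow b) hb
  -- fixed points
  have hfix : ∀ b : B, f b = b → b ∈ zpowers n := by
    intro b hb
    by_cases hb1 : b = 1
    · rw [hb1]; exact one_mem _
    have h1 : (n : S) ∈ zpowers (b : S) := by
      by_contra hcon
      have h2 := hmin (zpowers (b : S)) (by rw [zpowers_le]; exact b.2) (by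
        intro l hl
        obtain ⟨j, rfl⟩ := mem_zpowers_iff.mp hl
        have h3 : x * (b : S) * x⁻¹ = b := by rw [← hf, hb]
        rw [← conj_zpow, h3]
        exact hl) (by rw [← hnv]; exact hcon)
      rw [zpowers_eq_bot] at h2
      exact hb1 (Subtype.ext h2)
    have h2 : n ∈ zpowers b := by
      obtain ⟨j, hj⟩ := mem_zpowers_iff.mp h1
      exact mem_zpowers_iff.mpr ⟨j, Subtype.ext (by rw [← hj]; rfl)⟩
    have h3 : zpowers n = zpowers b := by
      apply H22.Basic.eq_of_le_of_card_le (by rw [zpowers_le]; exact h2)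
      rw [Nat.card_zpowers, Nat.card_zpowers, hord b hb1, hord n hn1]
    rw [h3]; exact mem_zpowers b
  have hcardfix : Nat.card {b : B // f b = b} = p := by
    rw [← hord n hn1, ← Nat.card_zpowers]
    apply Nat.card_congr
    refine ⟨fun b => ⟨b.1, hfix b.1 b.2⟩, fun b => ⟨b.1, ?_⟩, fun b => rfl, fun b => rfl⟩
    obtain ⟨j, hj⟩ := mem_zpowers_iff.mp b.2
    rw [← hj, map_zpow, hfn]
  have hcardB : Nat.card B = p ^ p := @card_eq_aux p hp B i0 _ i1 i2 f hfp hcardfix ⟨v, hvB⟩ hn1
  -- the complement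
  have hxpf : f ⟨x ^ p, hxp⟩ = ⟨x ^ p, hxp⟩ := by
    apply Subtype.ext
    rw [hf]
    show x * x ^ p * x⁻¹ = x ^ p
    group
  obtain ⟨j, hj⟩ := mem_zpowers_iff.mp (hfix _ hxpf)
  set u : B := (⟨v, hvB⟩ : B) ^ (-j) with hu
  set t : S := (u : S) * x with ht
  have htp : t ^ p = 1 := by
    rw [ht, ← hN u p]
    have h1 : ∏ i ∈ Finset.range p, (f ^ i) u = n ^ (-j) := by
      rw [hn, ← Finset.prod_zpow]
      refine Finset.prod_congr rfl (fun i _ => ?_)
      rw [hu, map_zpow]
    rw [h1]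
    have h2 : x ^ p = ((n ^ j : B) : S) := by rw [hj]
    rw [h2, ← coe_mul, ← zpow_add, neg_add_cancel, zpow_zero]
    rfl
  have htB : t ∉ B := by
    intro h
    apply hxB
    have := B.mul_mem (B.inv_mem u.2) h
    rwa [ht, inv_mul_cancel_left] at this
  refine ⟨B, t, hBn, hBab, hB.2, hcardB, orderOf_eq_prime htp (fun h => htB (h ▸ one_mem _)), htB, ?_, ?_⟩
  · have h1 := B.card_mul_index
    have h2 : B.index = p := by
      rw [index_eq_card]
      have h3 : zpowers (x : S ⧸ B) = ⊤ := by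
        have h4 := congrArg (Subgroup.map (QuotientGroup.mk' B)) hS
        rw [Subgroup.map_sup, MonoidHom.map_zpowers] at h4
        have h5 : B.map (QuotientGroup.mk' B) = ⊥ := by
          rw [Subgroup.map_eq_bot_iff, QuotientGroup.ker_mk']
        rw [h5, bot_sup_eq, ← MonoidHom.range_eq_map, MonoidHom.range_eq_top.mpr (QuotientGroup.mk'_surjective B)] at h4
        exact h4
      have h4 : orderOf (x : S ⧸ B) = p := by
        apply orderOf_eq_prime
        · rw [← QuotientGroup.mk_pow]; exact (QuotientGroup.eq_one_iff _).mpr hxp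
        · intro h; exact hxB ((QuotientGroup.eq_one_iff _).mp h)
      rw [← h4, ← Nat.card_zpowers, h3, card_top]
    rw [hcardB, h2] at h1
    rw [← h1, pow_succ]
  · rw [← hcardfix]
    apply Nat.card_congr
    have key : ∀ b : S, b ∈ B → (b * t = t * b ↔ x * b * x⁻¹ = b) := by
      intro b hb
      rw [ht]
      constructor
      · intro h
        have h1 : (u : S) * (b * x) = (u : S) * (x * b) := by
          calc (u : S) * (b * x) = b * ((u : S) * x) := by
                rw [← mul_assoc, hcomm _ u.2 _ hb, mul_assoc]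
            _ = (u : S) * x * b := h
            _ = (u : S) * (x * b) := by group
        have h2 := mul_left_cancel h1
        rw [← h2]; group
      · intro h
        have h2 : x * b = b * x := by
          calc x * b = (x * b * x⁻¹) * x := by group
            _ = b * x := by rw [h]
        calc b * ((u : S) * x) = (u : S) * (b * x) := by rw [← mul_assoc, ← hcomm _ u.2 _ hb, mul_assoc]
          _ = (u : S) * x * b := by rw [← h2, mul_assoc]
    refine ⟨fun b => ⟨⟨b.1, (mem_inf.mp b.2).1⟩, ?_⟩, fun b => ⟨b.1.1, mem_inf.mpr ⟨b.1.2, ?_⟩⟩,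
      fun b => rfl, fun b => rfl⟩
    · apply Subtype.ext
      rw [hf]
      exact (key _ (mem_inf.mp b.2).1).mp (mem_centralizer_singleton_iff.mp (mem_inf.mp b.2).2)
    · rw [mem_centralizer_singleton_iff]
      apply (key _ b.1.2).mpr
      rw [← hf, b.2]

/-- a wreath-like section -/
theorem exists_wr {p : ℕ} [hp : Fact p.Prime] {S : Type u} [Group S] [Finite S] (T Φ : Subgroup S)
    [hTn : T.Normal] (hΦT : Φ ≤ T) (hcT : ∀ a ∈ T, ∀ b ∈ T, ⁅a, b⁆ ∈ Φ) (hpT : ∀ a ∈ T, a ^ p ∈ Φ)
    (x : S) (hxΦ : ∀ a ∈ Φ, x * a * x⁻¹ ∈ Φ)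
    (hS : T ⊔ zpowers x = ⊤) (hxT : x ∉ T) (hxp : x ^ p ∈ T)
    (v : S) (hvT : v ∈ T) (hv : (v * x) ^ p * (x ^ p)⁻¹ ∉ Φ) :
    ∃ (L : Subgroup S) (_ : L.Normal), WrLike p (S ⧸ L) := by
  classical
  let F : Set (Subgroup S) := {L | Φ ≤ L ∧ L ≤ T ∧ (∀ l ∈ L, x * l * x⁻¹ ∈ L) ∧
    (v * x) ^ p * (x ^ p)⁻¹ ∉ L}
  have hF : F.Nonempty := ⟨Φ, le_rfl, hΦT, hxΦ, hv⟩
  obtain ⟨L, hL⟩ := (Set.toFinite F).exists_maximal hF
  obtain ⟨hΦL, hLT, hLx, hLv⟩ := hL.prop
  have hLn : L.Normal := by
    have h1 : normalizer (L : Set S) = ⊤ := by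
      rw [eq_top_iff, ← hS]
      apply sup_le
      · intro a ha
        have key : ∀ a ∈ T, ∀ l ∈ L, a * l * a⁻¹ ∈ L := by
          intro a ha l hl
          have h2 : a * l * a⁻¹ = ⁅a, l⁆ * l := by rw [commutatorElement_def]; group
          rw [h2]
          exact L.mul_mem (hΦL (hcT a ha l (hLT hl))) hl
        rw [Subgroup.mem_normalizer_iff]
        intro l
        refine ⟨key a ha l, fun h => ?_⟩
        have h3 := key a⁻¹ (T.inv_mem ha) _ h
        have e : a⁻¹ * (a * l * a⁻¹) * a⁻¹⁻¹ = l := by group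
        rwa [e] at h3
      · rw [zpowers_le]
        exact H22.Basic.mem_normalizer_of_cj_le (fun g hg => by
          rw [H22.Basic.mem_cj] at hg
          have := hLx _ hg
          have e : x * (x⁻¹ * g * x) * x⁻¹ = g := by group
          rwa [e] at this)
    exact normalizer_eq_top_iff.mp h1
  refine ⟨L, hLn, ?_⟩
  set π := QuotientGroup.mk' L with hπ
  have hπs := QuotientGroup.mk'_surjective L
  have hker : ∀ g, π g = 1 ↔ g ∈ L := fun g => by
    rw [← MonoidHom.mem_ker, hπ, QuotientGroup.ker_mk']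
  have hmemT : ∀ g, π g ∈ T.map π → g ∈ T := by
    rintro g ⟨t, ht, hte⟩
    have h1 : t⁻¹ * g ∈ L := QuotientGroup.eq.mp hte
    have := T.mul_mem ht (hLT h1)
    rwa [mul_inv_cancel_left] at this
  haveI : (T.map π).Normal := hTn.map π hπs
  apply wr_aux (T.map π) (x := π x) (v := π v)
  · refine ⟨⟨⟨?_⟩⟩, ?_⟩
    · rintro ⟨_, a, ha, rfl⟩ ⟨_, b, hb, rfl⟩
      apply Subtype.ext
      show π a * π b = π b * π a
      rw [← commutatorElement_eq_one_iff_mul_comm, ← map_commutatorElement, hker]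
      exact hΦL (hcT a ha b hb)
    · rintro _ ⟨a, ha, rfl⟩
      rw [← map_pow, hker]
      exact hΦL (hpT a ha)
  · rw [← MonoidHom.map_zpowers, ← Subgroup.map_sup, hS, ← MonoidHom.range_eq_map]
    exact MonoidHom.range_eq_top.mpr hπs
  · intro h; exact hxT (hmemT x h)
  · rw [← map_pow]; exact ⟨_, hxp, rfl⟩
  · exact ⟨v, hvT, rfl⟩
  · rw [← map_mul, ← map_pow, ← map_pow, ← map_inv, ← map_mul, Ne, hker]
    exact hLv
  · intro L' hL'T hL'x hL'v
    have h1 : L'.comap π ∈ F := by
      refine ⟨?_, ?_, ?_, ?_⟩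
      · intro a ha
        show π a ∈ L'
        rw [(hker a).mpr (hΦL ha)]
        exact one_mem _
      · intro a ha
        exact hmemT a (hL'T ha)
      · intro l hl
        show π (x * l * x⁻¹) ∈ L'
        rw [map_mul, map_mul, map_inv]
        exact hL'x _ hl
      · intro h
        apply hL'v
        rw [← map_mul, ← map_pow, ← map_pow, ← map_inv, ← map_mul]
        exact h
    have h2 : L'.comap π ≤ L := hL.2 h1 (by
      intro a ha
      show π a ∈ L'
      rw [(hker a).mpr ha]
      exact one_mem _)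
    rw [eq_bot_iff]
    intro y hy
    obtain ⟨g, rfl⟩ := hπs y
    exact mem_bot.mpr ((hker g).mpr (h2 hy))

end Cfsg.Agent.H22.Wr1
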