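import Mathlib
import Cfsg.Prelude.Def_KGroupFacts

/-!
The dicyclic group as a stem extension of the dihedral group.
-/

set_option autoImplicit false

namespace Cfsg.Agent.H23.DihCover

open scoped commutatorElement

/-- reduction `ZMod (2 n) → ZMod n` -/
def red (n : ℕ) : ZMod (2 * n) →+* ZMod n := ZMod.castHom (Dvd.intro_left 2 rfl) (ZMod n)

/-- the cover -/
def cover (n : ℕ) : QuaternionGroup n →* DihedralGroup n where
  toFun
    | .a i => .r (red n i)
    | .xa i => .sr (red n i)
  map_one' := by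
    change DihedralGroup.r (red n 0) = DihedralGroup.r 0
    rw [map_zero]
  map_mul' := by
    rintro (i | i) (j | j)
    · change DihedralGroup.r (red n (i + j)) = DihedralGroup.r (red n i + red n j)
      rw [map_add]
    · change DihedralGroup.sr (red n (j - i)) = DihedralGroup.sr (red n j - red n i)
      rw [map_sub]
    · change DihedralGroup.sr (red n (i + j)) = DihedralGroup.sr (red n i + red n j)
      rw [map_add]
    · change DihedralGroup.r (red n (n + j - i)) = DihedralGroup.r (red n j - red n i)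
      rw [map_sub, map_add, map_natCast, CharP.cast_eq_zero, zero_add]

theorem red_eq_zero_iff (n : ℕ) [NeZero n] (i : ZMod (2 * n)) : red n i = 0 ↔ i = 0 ∨ i = (n : ZMod (2 * n)) := by
  have hn : 0 < n := Nat.pos_of_ne_zero (NeZero.ne n)
  haveI : NeZero (2 * n) := ⟨by omega⟩
  constructor
  · intro h
    rw [← ZMod.natCast_zmod_val i, map_natCast, ZMod.natCast_eq_zero_iff] at h
    obtain ⟨k, hk⟩ := h
    have hlt := ZMod.val_lt i
    rw [hk] at hlt
    have hk2 : k < 2 := by
      by_contra hge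
      push Not at hge
      nlinarith
    have hi : i = ((i.val : ℕ) : ZMod (2 * n)) := (ZMod.natCast_zmod_val i).symm
    rw [hk] at hi
    interval_cases k
    · left; rw [hi]; simp
    · right; rw [hi]; simp
  · rintro (rfl | rfl)
    · exact map_zero _
    · rw [map_natCast, CharP.cast_eq_zero]

theorem mem_ker_iff (n : ℕ) [NeZero n] (x : QuaternionGroup n) :
    x ∈ (cover n).ker ↔ x = 1 ∨ x = QuaternionGroup.a (n : ZMod (2 * n)) := by
  rw [MonoidHom.mem_ker]
  cases x with
  | a i =>
    constructor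
    · intro h
      have h1 : DihedralGroup.r (red n i) = DihedralGroup.r 0 := h
      rw [DihedralGroup.r.injEq, red_eq_zero_iff] at h1
      rcases h1 with rfl | rfl
      · left; rfl
      · right; rfl
    · intro h
      change DihedralGroup.r (red n i) = DihedralGroup.r 0
      congr 1
      rw [red_eq_zero_iff]
      rcases h with h | h
      · left
        rw [← QuaternionGroup.a_zero] at h
        exact QuaternionGroup.a.inj h
      · right
        exact QuaternionGroup.a.inj h
  | xa i =>
    constructor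
    · intro h
      have h1 : DihedralGroup.sr (red n i) = DihedralGroup.r 0 := h
      cases h1
    · rintro (h | h)
      · rw [← QuaternionGroup.a_zero] at h
        cases h
      · cases h

theorem stem (n : ℕ) [NeZero n] (hn : Even n) : Cfsg.IsStemExtension (cover n) ∧ Nat.card (cover n).ker = 2 := by
  have hn0 : 0 < n := Nat.pos_of_ne_zero (NeZero.ne n)
  haveI : NeZero (2 * n) := ⟨by omega⟩
  refine ⟨⟨?_, ?_, ?_⟩, ?_⟩
  · intro x
    cases x with
    | r i =>
      refine ⟨QuaternionGroup.a ((i.val : ℕ) : ZMod (2 * n)), ?_⟩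
      change DihedralGroup.r (red n _) = _
      rw [map_natCast, ZMod.natCast_zmod_val]
    | sr i =>
      refine ⟨QuaternionGroup.xa ((i.val : ℕ) : ZMod (2 * n)), ?_⟩
      change DihedralGroup.sr (red n _) = _
      rw [map_natCast, ZMod.natCast_zmod_val]
  · intro x hx
    rw [mem_ker_iff] at hx
    rcases hx with rfl | rfl
    · exact one_mem _
    · rw [Subgroup.mem_center_iff]
      have h2n : (n : ZMod (2 * n)) = - n := by
        rw [eq_neg_iff_add_eq_zero, ← two_mul]
        have : ((2 * n : ℕ) : ZMod (2 * n)) = 0 := CharP.cast_eq_zero _ _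
        push_cast at this
        exact this
      rintro (j | j)
      · rw [QuaternionGroup.a_mul_a, QuaternionGroup.a_mul_a, add_comm]
      · rw [QuaternionGroup.xa_mul_a, QuaternionGroup.a_mul_xa, sub_eq_add_neg, ← h2n]
  · intro x hx
    rw [mem_ker_iff] at hx
    rcases hx with rfl | rfl
    · exact one_mem _
    · obtain ⟨k, hk⟩ := hn
      have h1 : (QuaternionGroup.a (n : ZMod (2 * n)) : QuaternionGroup n) =
          ⁅QuaternionGroup.a (k : ZMod (2 * n)), QuaternionGroup.xa 0⁆ := by
        rw [commutatorElement_def, eq_mul_inv_iff_mul_eq, eq_mul_inv_iff_mul_eq]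
        rw [QuaternionGroup.a_mul_xa, QuaternionGroup.xa_mul_a, QuaternionGroup.a_mul_xa]
        congr 1
        have h3 : (n : ZMod (2 * n)) = k + k := by
          have h4 := congrArg (fun t : ℕ => (t : ZMod (2 * n))) hk
          simp only [Nat.cast_add] at h4
          exact h4
        rw [h3]
        ring
      rw [h1]
      exact Subgroup.commutator_mem_commutator (Subgroup.mem_top _) (Subgroup.mem_top _)
  · have h1 : ((cover n).ker : Set (QuaternionGroup n)) = {1, QuaternionGroup.a (n : ZMod (2 * n))} := by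
      ext x
      rw [SetLike.mem_coe, mem_ker_iff]
      simp
    have h2 : Nat.card (cover n).ker = ({1, QuaternionGroup.a (n : ZMod (2 * n))} : Set (QuaternionGroup n)).ncard := by
      rw [← h1]; rfl
    rw [h2, Set.ncard_pair]
    intro h
    rw [← QuaternionGroup.a_zero] at h
    have h3 := QuaternionGroup.a.inj h
    have h4 : ((n : ℕ) : ZMod (2 * n)) = 0 := h3.symm
    rw [ZMod.natCast_eq_zero_iff] at h4
    have := Nat.le_of_dvd hn0 h4
    omega

/-- the kernel of a stem extension of a dihedral group has exponent two and is cyclic -/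
theorem card_ker_le {n : ℕ} {Γ : Type*} [Group Γ] [Finite Γ] (σ : Γ →* DihedralGroup n)
    (hσ : Cfsg.IsStemExtension σ) : Nat.card σ.ker ≤ 2 := by
  obtain ⟨hs, hc, hd⟩ := hσ
  have hcz : ∀ z ∈ σ.ker, ∀ g : Γ, g * z = z * g := fun z hz => Subgroup.mem_center_iff.mp (hc hz)
  obtain ⟨a, ha⟩ := hs (DihedralGroup.r 1)
  obtain ⟨b, hb⟩ := hs (DihedralGroup.sr 0)
  -- every element is a^i * z or a^i * b * z
  have hform : ∀ x : Γ, ∃ i : ℤ, ∃ z ∈ σ.ker, x = a ^ i * z ∨ x = a ^ i * b * z := by
    intro x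
    have hri : ∀ i : ZMod n, ∃ k : ℤ, (DihedralGroup.r i : DihedralGroup n) = (DihedralGroup.r 1) ^ k := by
      intro i
      obtain ⟨k, rfl⟩ := ZMod.intCast_surjective i
      exact ⟨k, by rw [DihedralGroup.r_one_zpow]⟩
    rcases hx : σ x with i | i
    · obtain ⟨k, hk⟩ := hri i
      refine ⟨k, (a ^ k)⁻¹ * x, ?_, Or.inl (by group)⟩
      rw [MonoidHom.mem_ker, map_mul, map_inv, map_zpow, ha, hx, hk, inv_mul_cancel]
    · obtain ⟨k, hk⟩ := hri (-i)
      refine ⟨k, (a ^ k * b)⁻¹ * x, ?_, Or.inr (by group)⟩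
      rw [MonoidHom.mem_ker, map_mul, map_inv, map_mul, map_zpow, ha, hb, hx, ← hk, DihedralGroup.r_mul_sr]
      rw [inv_mul_eq_one]
      congr 1
      ring
  -- b a b⁻¹ = a⁻¹ k₀
  obtain ⟨k₀, hk₀, hba⟩ : ∃ k₀ ∈ σ.ker, b * a * b⁻¹ = a⁻¹ * k₀ := by
    refine ⟨a * (b * a * b⁻¹), ?_, by group⟩
    rw [MonoidHom.mem_ker]
    simp only [map_mul, map_inv, ha, hb]
    rw [DihedralGroup.sr_mul_r, DihedralGroup.inv_sr, DihedralGroup.sr_mul_sr, DihedralGroup.r_mul_r, DihedralGroup.one_def]
    congr 1
    ring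
  set w := ⁅a, b⁆ with hw
  have hwa : w = a * a * k₀⁻¹ := by
    have h1 : b * a⁻¹ * b⁻¹ = (b * a * b⁻¹)⁻¹ := by group
    rw [hw, commutatorElement_def, mul_assoc a b a⁻¹, mul_assoc a, h1, hba, mul_inv_rev, inv_inv]
    rw [hcz k₀⁻¹ (inv_mem hk₀) a |>.symm]
    group
  have hbw : b * w * b⁻¹ = w⁻¹ := by
    have h2 : b * w * b⁻¹ = (b * a * b⁻¹) * (b * a * b⁻¹) * (b * k₀⁻¹ * b⁻¹) := by rw [hwa]; group
    have h3 : b * k₀⁻¹ * b⁻¹ = k₀⁻¹ := by rw [hcz _ (inv_mem hk₀) b]; group
    rw [h2, h3, hba, hwa]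
    have h4 := hcz k₀ hk₀ a⁻¹
    calc a⁻¹ * k₀ * (a⁻¹ * k₀) * k₀⁻¹ = (a⁻¹ * k₀) * a⁻¹ := by group
      _ = (k₀ * a⁻¹) * a⁻¹ := by rw [h4]
      _ = (a * a * k₀⁻¹)⁻¹ := by group
  have haw : a * w = w * a := by
    rw [hwa]
    have h4 := hcz k₀⁻¹ (inv_mem hk₀) a
    calc a * (a * a * k₀⁻¹) = a * a * (a * k₀⁻¹) := by group
      _ = a * a * (k₀⁻¹ * a) := by rw [h4]
      _ = _ := by group
  -- zpowers w is normal and contains the commutator subgroup
  have hWn : (Subgroup.zpowers w).Normal := by
    constructor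
    intro x hx g
    obtain ⟨j, rfl⟩ := Subgroup.mem_zpowers_iff.mp hx
    have haj : ∀ i : ℤ, a ^ i * w ^ j * (a ^ i)⁻¹ = w ^ j := by
      intro i
      have : Commute (a ^ i) (w ^ j) := (show Commute a w from haw).zpow_zpow i j
      rw [this.eq]; group
    obtain ⟨i, z, hz, h | h⟩ := hform g
    · have h1 : g * w ^ j * g⁻¹ = a ^ i * w ^ j * (a ^ i)⁻¹ := by
        rw [h]
        have h2 := hcz z hz (w ^ j)
        calc a ^ i * z * w ^ j * (a ^ i * z)⁻¹ = a ^ i * (z * w ^ j) * z⁻¹ * (a ^ i)⁻¹ := by group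
          _ = a ^ i * (w ^ j * z) * z⁻¹ * (a ^ i)⁻¹ := by rw [h2]
          _ = _ := by group
      rw [h1, haj]
      exact zpow_mem (Subgroup.mem_zpowers w) j
    · have h1 : g * w ^ j * g⁻¹ = a ^ i * (b * w * b⁻¹) ^ j * (a ^ i)⁻¹ := by
        rw [h, conj_zpow]
        have h2 := hcz z hz (w ^ j)
        calc a ^ i * b * z * w ^ j * (a ^ i * b * z)⁻¹ = a ^ i * b * (z * w ^ j) * z⁻¹ * b⁻¹ * (a ^ i)⁻¹ := by group
          _ = a ^ i * b * (w ^ j * z) * z⁻¹ * b⁻¹ * (a ^ i)⁻¹ := by rw [h2]
          _ = _ := by group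
      rw [h1, hbw, inv_zpow, ← zpow_neg]
      have : Commute (a ^ i) (w ^ (-j)) := (show Commute a w from haw).zpow_zpow i (-j)
      rw [this.eq]
      have h5 : w ^ (-j) * a ^ i * (a ^ i)⁻¹ = w ^ (-j) := by group
      rw [h5]
      exact zpow_mem (Subgroup.mem_zpowers w) _
  have hle : commutator Γ ≤ Subgroup.zpowers w := by
    rw [← Subgroup.Normal.quotient_commutative_iff_commutator_le]
    let q := QuotientGroup.mk' (Subgroup.zpowers w)
    have hab : Commute (q a) (q b) := by
      have h1 : q (a * b * a⁻¹ * b⁻¹) = 1 := (QuotientGroup.eq_one_iff _).mpr (Subgroup.mem_zpowers w)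
      simp only [map_mul, map_inv] at h1
      have h2 := congrArg (fun t => t * q b * q a) h1
      have h3 : q a * q b = q b * q a := by simpa [mul_assoc] using h2
      exact h3
    have hqz : ∀ z ∈ σ.ker, ∀ g : Γ, Commute (q g) (q z) := by
      intro z hz g
      have := congrArg q (hcz z hz g)
      simp only [map_mul] at this
      exact this
    refine ⟨⟨fun x y => ?_⟩⟩
    obtain ⟨x, rfl⟩ := QuotientGroup.mk'_surjective _ x
    obtain ⟨y, rfl⟩ := QuotientGroup.mk'_surjective _ y
    obtain ⟨i, z, hz, hx⟩ := hform x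
    obtain ⟨j, z', hz', hy⟩ := hform y
    have key : Commute (q x) (q y) := by
      have hA : ∀ i : ℤ, ∀ u : Γ, Commute (q a) (q u) → Commute (q (a ^ i)) (q u) := by
        intro i u hu
        rw [map_zpow]
        exact hu.zpow_left i
      have ha' : ∀ j : ℤ, Commute (q a) (q (a ^ j)) := fun j => by
        rw [map_zpow]; exact (Commute.refl _).zpow_right j
      have hb' : ∀ j : ℤ, Commute (q b) (q (a ^ j)) := fun j => by
        rw [map_zpow]; exact hab.symm.zpow_right j
      have hay : Commute (q a) (q y) := by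
        rcases hy with h | h
        · rw [h, map_mul]
          exact (ha' j).mul_right (hqz z' hz' a)
        · rw [h, map_mul, map_mul]
          exact ((ha' j).mul_right hab).mul_right (hqz z' hz' a)
      have hby : Commute (q b) (q y) := by
        rcases hy with h | h
        · rw [h, map_mul]
          exact (hb' j).mul_right (hqz z' hz' b)
        · rw [h, map_mul, map_mul]
          exact ((hb' j).mul_right (Commute.refl _)).mul_right (hqz z' hz' b)
      rcases hx with h | h
      · rw [h, map_mul]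
        exact (hA i y hay).mul_left (hqz z hz y).symm
      · rw [h, map_mul, map_mul]
        exact ((hA i y hay).mul_left hby).mul_left (hqz z hz y).symm
    exact key
  have hkw : ∀ z ∈ σ.ker, z * z = 1 := by
    intro z hz
    obtain ⟨j, rfl⟩ := Subgroup.mem_zpowers_iff.mp (hle (hd hz))
    have h1 : b * w ^ j * b⁻¹ = w ^ j := by rw [hcz _ hz b]; group
    rw [← conj_zpow, hbw, inv_zpow] at h1
    have h2 := congrArg (fun t => w ^ j * t) h1
    simp only [mul_inv_cancel] at h2
    exact h2.symm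
  have hcyc : IsCyclic σ.ker :=
    isCyclic_of_injective (Subgroup.inclusion (hd.trans hle)) (Subgroup.inclusion_injective _)
  obtain ⟨g, hg⟩ := hcyc.exists_generator
  have h3 : orderOf g = Nat.card σ.ker := orderOf_eq_card_of_forall_mem_zpowers hg
  rw [← h3]
  apply orderOf_le_of_pow_eq_one (by norm_num)
  rw [pow_two]
  exact Subtype.ext (hkw g g.2)

end Cfsg.Agent.H23.DihCover
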