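import Mathlib

set_option autoImplicit false

namespace Cfsg.Agent.H23.IrrField

open scoped IsMulCommutative

universe u v w

/-- An irreducible representation of a commutative group over a finite field is (up to
isomorphism) the multiplication on a finite field generated by the image. -/
theorem exists_field {F : Type u} [Field F] [Finite F] {H : Type w} [CommGroup H]
    {V : Type v} [AddCommGroup V] [Module F V] [FiniteDimensional F V] [Nontrivial V]
    (ρ : Representation F H V)
    (hirr : ∀ U : Submodule F V, (∀ h : H, ∀ u ∈ U, ρ h u ∈ U) → U = ⊥ ∨ U = ⊤) :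
    ∃ (K : Type v) (_ : Field K) (_ : Algebra F K) (_ : Finite K) (e : V ≃ₗ[F] K)
      (χ : H →* K), (∀ h v, e (ρ h v) = χ h * e v) ∧
        Algebra.adjoin F (Set.range χ) = ⊤ := by
  classical
  set E : Subalgebra F (Module.End F V) := Algebra.adjoin F (Set.range ρ) with hE
  haveI hcE : IsMulCommutative E := Algebra.isMulCommutative_adjoin F (by
    rintro _ ⟨a, rfl⟩ _ ⟨b, rfl⟩
    rw [← map_mul, mul_comm, map_mul])
  have hmemE : ∀ h : H, (ρ h : Module.End F V) ∈ E := fun h =>
    Algebra.subset_adjoin ⟨h, rfl⟩
  have hcomm : ∀ a ∈ E, ∀ b ∈ E, a * b = b * a := by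
    intro a ha b hb
    have := mul_comm (⟨a, ha⟩ : E) ⟨b, hb⟩
    exact congrArg Subtype.val this
  have hinj : ∀ a ∈ E, a ≠ 0 → Function.Injective (a : V → V) := by
    intro a ha ha0
    have h1 := hirr (LinearMap.ker a) (by
      intro h u hu
      rw [LinearMap.mem_ker] at hu ⊢
      have h2 : (a * ρ h) u = (ρ h * a) u := by rw [hcomm a ha _ (hmemE h)]
      rw [Module.End.mul_apply, Module.End.mul_apply, hu, map_zero] at h2
      exact h2)
    rcases h1 with h1 | h1
    · exact LinearMap.ker_eq_bot.mp h1
    · exact absurd (LinearMap.ker_eq_top.mp h1) ha0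
  haveI : Finite V := Module.finite_of_finite F
  haveI : Finite (Module.End F V) := Finite.of_injective (fun f : Module.End F V => (f : V → V))
    DFunLike.coe_injective
  haveI : Nontrivial (Module.End F V) := inferInstance
  haveI : Nontrivial E := inferInstance
  haveI : NoZeroDivisors E := by
    refine ⟨?_⟩
    intro a b hab
    by_contra hcon
    push Not at hcon
    obtain ⟨ha, hb⟩ := hcon
    apply hb
    apply Subtype.ext
    apply LinearMap.ext
    intro v
    have ha' : (a : Module.End F V) ≠ 0 := fun h => ha (Subtype.ext h)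
    apply hinj a a.2 ha'
    have h3 : (a : Module.End F V) * (b : Module.End F V) = 0 := congrArg Subtype.val hab
    have h4 : ((a : Module.End F V) * (b : Module.End F V)) v = 0 := by rw [h3]; rfl
    rw [Module.End.mul_apply] at h4
    rw [h4]
    simp
  haveI : IsDomain E := NoZeroDivisors.to_isDomain E
  obtain ⟨v0, hv0⟩ := exists_ne (0 : V)
  let f : E →ₗ[F] V :=
    { toFun := fun a => (a : Module.End F V) v0
      map_add' := fun a b => rfl
      map_smul' := fun c a => rfl }
  have hfinj : Function.Injective f := by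
    rw [injective_iff_map_eq_zero]
    intro a ha
    by_contra hcon
    have ha' : (a : Module.End F V) ≠ 0 := fun h => hcon (Subtype.ext h)
    have h1 : (a : Module.End F V) v0 = (a : Module.End F V) 0 := by
      rw [map_zero]; exact ha
    exact hv0 (hinj a a.2 ha' h1)
  have hfsurj : Function.Surjective f := by
    rw [← LinearMap.range_eq_top]
    rcases hirr (LinearMap.range f) (by
      rintro h _ ⟨a, rfl⟩
      exact ⟨⟨ρ h, hmemE h⟩ * a, rfl⟩) with h1 | h1
    · exfalso
      apply hv0
      have : f 1 ∈ LinearMap.range f := ⟨1, rfl⟩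
      rw [h1] at this
      exact this
    · exact h1
  let e : E ≃ₗ[F] V := LinearEquiv.ofBijective f ⟨hfinj, hfsurj⟩
  letI fld : Field E := (Finite.isField_of_domain E).toField
  let χ : H →* E :=
    { toFun := fun h => ⟨ρ h, hmemE h⟩
      map_one' := Subtype.ext (map_one ρ)
      map_mul' := fun a b => Subtype.ext (map_mul ρ a b) }
  refine ⟨E, fld, E.algebra, inferInstance, e.symm, χ, ?_, ?_⟩
  · intro h v
    obtain ⟨a, rfl⟩ := e.surjective v
    apply e.injective
    rw [LinearEquiv.apply_symm_apply, LinearEquiv.symm_apply_apply]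
    rfl
  · have h1 : (Set.range χ) = (Subtype.val : E → Module.End F V) ⁻¹' (Set.range ρ) := by
      ext a
      constructor
      · rintro ⟨h, rfl⟩
        exact ⟨h, rfl⟩
      · rintro ⟨h, hh⟩
        exact ⟨h, Subtype.ext hh⟩
    have h2 := Algebra.adjoin_adjoin_coe_preimage (R := F) (s := Set.range ρ)
    rw [h1]
    exact h2

/-- adjoint with respect to an invariant form -/
theorem exists_tau {F : Type u} [Field F] {K : Type v} [Field K] [Algebra F K]
    {H : Type w} [CommGroup H] (χ : H →* K) (hadj : Algebra.adjoin F (Set.range χ) = ⊤)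
    (B : LinearMap.BilinForm F K) (hB : B.Nondegenerate)
    (hinv : ∀ h x y, B (χ h * x) (χ h * y) = B x y) :
    ∃ τ : K →ₐ[F] K, ∀ h, χ h * τ (χ h) = 1 := by
  classical
  have huniq : ∀ b b' : K, (∀ x y, B x (b * y) = B x (b' * y)) → b = b' := by
    intro b b' h
    have h1 := hB.2 (b - b') (by
      intro x
      rw [map_sub, sub_eq_zero]
      simpa using h x 1)
    exact sub_eq_zero.mp h1
  let S : Subalgebra F K :=
    { carrier := {a | ∃ b, ∀ x y, B (a * x) y = B x (b * y)}
      mul_mem' := by
        rintro a a' ⟨b, hb⟩ ⟨b', hb'⟩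
        refine ⟨b' * b, fun x y => ?_⟩
        rw [mul_assoc, hb, hb', mul_assoc]
      add_mem' := by
        rintro a a' ⟨b, hb⟩ ⟨b', hb'⟩
        refine ⟨b + b', fun x y => ?_⟩
        rw [add_mul, add_mul, map_add, LinearMap.add_apply, map_add, hb, hb']
      algebraMap_mem' := by
        intro c
        refine ⟨algebraMap F K c, fun x y => ?_⟩
        rw [← Algebra.smul_def, ← Algebra.smul_def, map_smul, map_smul, LinearMap.smul_apply] }
  have hinvχ : ∀ h, χ h * χ h⁻¹ = 1 := fun h => by rw [← map_mul, mul_inv_cancel, map_one]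
  have hS : S = ⊤ := by
    rw [eq_top_iff, ← hadj]
    apply Algebra.adjoin_le
    rintro _ ⟨h, rfl⟩
    refine ⟨χ h⁻¹, fun x y => ?_⟩
    rw [← hinv h x (χ h⁻¹ * y), ← mul_assoc, hinvχ, one_mul]
  have hall : ∀ a : K, ∃ b, ∀ x y, B (a * x) y = B x (b * y) := by
    intro a
    have : a ∈ S := by rw [hS]; trivial
    exact this
  choose τ hτ using hall
  refine ⟨{ toFun := τ
            map_one' := ?_
            map_mul' := ?_
            map_zero' := ?_
            map_add' := ?_
            commutes' := ?_ }, ?_⟩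
  · apply huniq
    intro x y
    rw [← hτ, one_mul, one_mul]
  · intro a a'
    apply huniq
    intro x y
    rw [← hτ, mul_comm a a', mul_assoc, hτ, hτ]
    congr 1
    ring
  · apply huniq
    intro x y
    rw [← hτ]
    simp
  · intro a a'
    apply huniq
    intro x y
    rw [← hτ, add_mul, add_mul, map_add, LinearMap.add_apply, map_add, hτ, hτ]
  · intro c
    apply huniq
    intro x y
    change B x (τ (algebraMap F K c) * y) = _
    rw [← hτ, ← Algebra.smul_def, ← Algebra.smul_def, map_smul, map_smul, LinearMap.smul_apply]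
  · intro h
    change χ h * τ (χ h) = 1
    have h1 : τ (χ h) = χ h⁻¹ := by
      apply huniq
      intro x y
      rw [← hτ]
      rw [← hinv h x (χ h⁻¹ * y), ← mul_assoc, hinvχ, one_mul]
    rw [h1, hinvχ]

/-- The dichotomy for an irreducible self-dual module of an abelian group. -/
theorem dichotomy {F : Type u} [Field F] [Fintype F] {K : Type v} [Field K] [Finite K]
    [Algebra F K] {H : Type w} [CommGroup H] (χ : H →* K)
    (hadj : Algebra.adjoin F (Set.range χ) = ⊤)
    (B : LinearMap.BilinForm F K) (hB : B.Nondegenerate)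
    (hinv : ∀ h x y, B (χ h * x) (χ h * y) = B x y) :
    (Module.finrank F K = 1 ∧ ∀ h, χ h ^ 2 = 1) ∨
      (Even (Module.finrank F K) ∧
        ∀ h, χ h ^ (Fintype.card F ^ (Module.finrank F K / 2) + 1) = 1) := by
  classical
  obtain ⟨τ, hτ⟩ := exists_tau χ hadj B hB hinv
  have hτ2 : τ ^ 2 = 1 := by
    apply AlgHom.ext_of_adjoin_eq_top hadj
    rintro _ ⟨h, rfl⟩
    rw [pow_two, AlgHom.mul_apply, AlgHom.one_apply]
    have h1 := congrArg τ (hτ h)
    rw [map_mul, map_one] at h1
    have h2 := hτ h
    have h3 : τ (χ h) ≠ 0 := fun h0 => by rw [h0, mul_zero] at h2; exact zero_ne_one h2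
    apply mul_left_cancel₀ h3
    rw [h1, mul_comm, h2]
  obtain ⟨⟨j, hj⟩, hjτ⟩ := (FiniteField.bijective_frobeniusAlgHom_pow F K).2 τ
  have hpow : ∀ x : K, τ x = x ^ (Fintype.card F ^ j) := by
    intro x
    rw [← hjτ]
    simp only [AlgHom.coe_pow, FiniteField.coe_frobeniusAlgHom, pow_iterate]
  have hdvd : Module.finrank F K ∣ 2 * j := by
    rw [← FiniteField.orderOf_frobeniusAlgHom F K]
    apply orderOf_dvd_of_pow_eq_one
    rw [mul_comm, pow_mul]
    rw [← hτ2, ← hjτ]
  rcases Nat.eq_zero_or_pos j with h0 | h0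
  · left
    subst h0
    have hsq : ∀ h, χ h ^ 2 = 1 := by
      intro h
      have h1 := hτ h
      rw [hpow, pow_zero, pow_one, ← pow_two] at h1
      exact h1
    refine ⟨?_, hsq⟩
    have hbt : (⊥ : Subalgebra F K) = ⊤ := by
      rw [eq_top_iff, ← hadj]
      apply Algebra.adjoin_le
      rintro _ ⟨h, rfl⟩
      rcases sq_eq_one_iff.mp (hsq h) with h1 | h1
      · rw [h1]; exact one_mem _
      · rw [h1]; exact neg_mem (one_mem _)
    exact Subalgebra.bot_eq_top_iff_finrank_eq_one.mp hbt
  · right
    obtain ⟨k, hk⟩ := hdvd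
    have hn : Module.finrank F K = 2 * j := by
      have hk1 : k = 1 := by
        have hn0 : 0 < Module.finrank F K := lt_of_lt_of_le h0 hj.le
        rcases Nat.lt_or_ge k 2 with hk2 | hk2
        · interval_cases k
          · omega
          · rfl
        · exfalso
          have := Nat.mul_le_mul_left (Module.finrank F K) hk2
          omega
      rw [hk1, mul_one] at hk
      exact hk.symm
    have hhalf : Module.finrank F K / 2 = j := by omega
    refine ⟨⟨j, by omega⟩, fun h => ?_⟩
    rw [hhalf, pow_succ, ← hpow, mul_comm]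
    exact hτ h

/-- the order of a group with a faithful irreducible self-dual module -/
theorem card_of_form {F : Type u} [Field F] [Fintype F] {H : Type w} [CommGroup H] [Finite H]
    {V : Type v} [AddCommGroup V] [Module F V] [FiniteDimensional F V] [Nontrivial V]
    (ρ : Representation F H V) (hfaith : Function.Injective ρ)
    (hirr : ∀ U : Submodule F V, (∀ h : H, ∀ u ∈ U, ρ h u ∈ U) → U = ⊥ ∨ U = ⊤)
    (B : LinearMap.BilinForm F V) (hB : B.Nondegenerate)
    (hinv : ∀ h : H, ∀ x y : V, B (ρ h x) (ρ h y) = B x y) :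
    (Module.finrank F V = 1 ∧ Nat.card H ∣ 2) ∨
      (Even (Module.finrank F V) ∧
        Nat.card H ∣ Fintype.card F ^ (Module.finrank F V / 2) + 1) := by
  classical
  obtain ⟨K, fK, aK, finK, e, χ, hχ, hadj⟩ := exists_field ρ hirr
  have hχinj : Function.Injective χ := by
    intro a b hab
    apply hfaith
    apply LinearMap.ext
    intro v
    apply e.injective
    rw [hχ, hχ, hab]
  have hcyc : IsCyclic H := isCyclic_of_injective_ringHom χ hχinj
  obtain ⟨g, hg⟩ := hcyc.exists_generator
  have hcard : Nat.card H = orderOf g := (orderOf_eq_card_of_forall_mem_zpowers hg).symm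
  have hord : ∀ k : ℕ, χ g ^ k = 1 → Nat.card H ∣ k := by
    intro k hk
    rw [hcard]
    apply orderOf_dvd_of_pow_eq_one
    apply hχinj
    rw [map_pow, hk, map_one]
  have hB' := hB.congr e
  have hfr : Module.finrank F V = Module.finrank F K := LinearEquiv.finrank_eq e
  rcases dichotomy χ hadj (LinearMap.BilinForm.congr e B) hB' (by
    intro h x y
    rw [LinearMap.BilinForm.congr_apply, LinearMap.BilinForm.congr_apply]
    have h1 : ∀ z, e.symm (χ h * z) = ρ h (e.symm z) := by
      intro z
      apply e.injective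
      rw [hχ, LinearEquiv.apply_symm_apply, LinearEquiv.apply_symm_apply]
    rw [h1, h1, hinv]) with ⟨h1, h2⟩ | ⟨h1, h2⟩
  · left
    exact ⟨hfr ▸ h1, hord 2 (h2 g)⟩
  · right
    rw [hfr]
    exact ⟨h1, hord _ (h2 g)⟩

/-- existence of an invariant form -/
theorem form_of_card {F : Type u} [Field F] [Fintype F] {H : Type w} [CommGroup H] [Finite H]
    {V : Type v} [AddCommGroup V] [Module F V] [FiniteDimensional F V] [Nontrivial V]
    (ρ : Representation F H V)
    (hirr : ∀ U : Submodule F V, (∀ h : H, ∀ u ∈ U, ρ h u ∈ U) → U = ⊥ ∨ U = ⊤)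
    (m : ℕ) (hm : Nat.card H ∣ Fintype.card F ^ m + 1) :
    ∃ B : LinearMap.BilinForm F V, B.Nondegenerate ∧
      ∀ h : H, ∀ x y : V, B (ρ h x) (ρ h y) = B x y := by
  classical
  obtain ⟨K, fK, aK, finK, e, χ, hχ, hadj⟩ := exists_field ρ hirr
  haveI : FiniteDimensional F K := Module.Finite.equiv e
  haveI : Algebra.IsSeparable F K := inferInstance
  let σ : K →ₐ[F] K := FiniteField.frobeniusAlgHom F K ^ m
  have hσ : ∀ x : K, σ x = x ^ (Fintype.card F ^ m) := by
    intro x
    simp only [σ, AlgHom.coe_pow, FiniteField.coe_frobeniusAlgHom, pow_iterate]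
  have hσinj : Function.Injective σ := σ.injective
  have hσsurj : Function.Surjective σ := Finite.surjective_of_injective hσinj
  have hnd := traceForm_nondegenerate F K
  let B : LinearMap.BilinForm F V := LinearMap.mk₂ F
    (fun v w => Algebra.traceForm F K (e v) (σ (e w)))
    (by intro a b c; simp only [map_add, LinearMap.add_apply])
    (by intro c a b; simp only [map_smul, LinearMap.smul_apply])
    (by intro a b c; simp only [map_add])
    (by intro c a b; simp only [map_smul])
  have hBapp : ∀ v w, B v w = Algebra.traceForm F K (e v) (σ (e w)) := fun v w => rfl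
  refine ⟨B, ⟨?_, ?_⟩, ?_⟩
  · intro v hv
    have h1 : e v = 0 := by
      apply hnd.1
      intro z
      obtain ⟨z', rfl⟩ := hσsurj z
      obtain ⟨w, rfl⟩ := e.surjective z'
      exact hv w
    exact (map_eq_zero_iff e e.injective).mp h1
  · intro w hw
    have h1 : σ (e w) = 0 := by
      apply hnd.2
      intro z
      obtain ⟨v, rfl⟩ := e.surjective z
      exact hw v
    have h2 : e w = 0 := hσinj (by rw [h1, map_zero])
    exact (map_eq_zero_iff e e.injective).mp h2
  · intro h x y
    rw [hBapp, hBapp, hχ, hχ, map_mul σ, hσ (χ h)]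
    rw [Algebra.traceForm_apply, Algebra.traceForm_apply]
    congr 1
    have h1 : χ h ^ (Fintype.card F ^ m + 1) = 1 := by
      rw [← map_pow]
      obtain ⟨k, hk⟩ := hm
      rw [hk, pow_mul, pow_card_eq_one', one_pow, map_one]
    have h2 : χ h * e x * (χ h ^ (Fintype.card F ^ m) * σ (e y)) =
        χ h ^ (Fintype.card F ^ m + 1) * (e x * σ (e y)) := by ring
    rw [h2, h1, one_mul]

/-- a group with a faithful irreducible module of size `Q` has order dividing `Q - 1` -/
theorem card_dvd {F : Type u} [Field F] [Fintype F] {H : Type w} [CommGroup H] [Finite H]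
    {V : Type v} [AddCommGroup V] [Module F V] [FiniteDimensional F V] [Nontrivial V]
    (ρ : Representation F H V) (hfaith : Function.Injective ρ)
    (hirr : ∀ U : Submodule F V, (∀ h : H, ∀ u ∈ U, ρ h u ∈ U) → U = ⊥ ∨ U = ⊤) :
    Nat.card H ∣ Fintype.card F ^ (Module.finrank F V) - 1 := by
  classical
  obtain ⟨K, fK, aK, finK, e, χ, hχ, hadj⟩ := exists_field ρ hirr
  haveI : FiniteDimensional F K := Module.Finite.equiv e
  have hχinj : Function.Injective χ := by
    intro a b hab
    apply hfaith
    apply LinearMap.ext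
    intro v
    apply e.injective
    rw [hχ, hχ, hab]
  have hinj : Function.Injective χ.toHomUnits := by
    intro a b hab
    apply hχinj
    have := congrArg Units.val hab
    simpa using this
  have h1 := Subgroup.card_dvd_of_injective χ.toHomUnits hinj
  have h2 : Nat.card K = Fintype.card F ^ (Module.finrank F V) := by
    haveI := Fintype.ofFinite K
    rw [LinearEquiv.finrank_eq e, Nat.card_eq_fintype_card, Module.card_eq_pow_finrank (K := F)]
  rw [Nat.card_units, h2] at h1
  exact h1

end Cfsg.Agent.H23.IrrField
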