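import Cfsg.Agent.H24_Tools
import Cfsg.Agent.H18_Syl
import Cfsg.Agent.H20_Derange
import Cfsg.Agent.H10_PPart
import Cfsg.Agent.H26_Basic
import Cfsg.Agent.H2_Hall

set_option autoImplicit false
set_option linter.style.haveILetI false

/-! H23_PSing: class sizes of `p`-singular elements. -/

namespace Cfsg.Agent.H23.PSing

open Subgroup

variable {G : Type*} [Group G] [Finite G] {p : ℕ} [hp : Fact p.Prime]

omit [Finite G] in
theorem mem_C {x g : G} : g ∈ centralizer ({x} : Set G) ↔ g * x = x * g := mem_centralizer_singleton_iff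

theorem fact {H K : Subgroup G} (hc : Nat.Coprime H.index K.index) (g : G) : ∃ k ∈ K, ∃ y ∈ H, g = k * y := by
  apply H24.Tools.exists_mul_of_relIndex_eq
  have h1 : (H ⊓ K).index = H.relIndex K * K.index := by
    rw [← inf_relIndex_right, relIndex_mul_index inf_le_right]
  have h2 : H.index ∣ H.relIndex K * K.index := by rw [← h1]; exact index_dvd_of_le inf_le_left
  have h3 : H.relIndex K ≠ 0 := index_ne_zero_of_finite
  exact Nat.le_of_dvd (Nat.pos_of_ne_zero h3) (hc.dvd_of_dvd_mul_right h2)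

theorem pair {x y : G} (hc : Nat.Coprime (centralizer ({x} : Set G)).index (centralizer ({y} : Set G)).index) (g h : G) :
    ∃ m : G, m * x * m⁻¹ = g * x * g⁻¹ ∧ m * y * m⁻¹ = h * y * h⁻¹ := by
  obtain ⟨k, hk, w, hw, e⟩ := fact hc (h⁻¹ * g)
  rw [mem_C] at hk hw
  refine ⟨h * k, ?_, ?_⟩
  · have h1 : h * k = g * w⁻¹ := by
      have : g = h * (k * w) := by rw [← e]; group
      rw [this]; group
    rw [h1]
    calc g * w⁻¹ * x * (g * w⁻¹)⁻¹ = g * (w⁻¹ * (x * w)) * g⁻¹ := by group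
      _ = g * (w⁻¹ * (w * x)) * g⁻¹ := by rw [hw]
      _ = g * x * g⁻¹ := by group
  · calc h * k * y * (h * k)⁻¹ = h * (k * y) * k⁻¹ * h⁻¹ := by group
      _ = h * (y * k) * k⁻¹ * h⁻¹ := by rw [hk]
      _ = _ := by group

theorem pair_comm {x y : G} (hc : Nat.Coprime (centralizer ({x} : Set G)).index (centralizer ({y} : Set G)).index)
    (hxy : x * y = y * x) (g h : G) : (g * x * g⁻¹) * (h * y * h⁻¹) = (h * y * h⁻¹) * (g * x * g⁻¹) := by
  obtain ⟨m, h1, h2⟩ := pair hc g h
  rw [← h1, ← h2]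
  calc m * x * m⁻¹ * (m * y * m⁻¹) = m * (x * y) * m⁻¹ := by group
    _ = m * (y * x) * m⁻¹ := by rw [hxy]
    _ = _ := by group

/-- a translation of a class has order dividing its size -/
theorem dvd_of_translate {x u : G} (hu : orderOf u = p)
    (hT : ∀ k : G, ∃ v : G, v * x * v⁻¹ = k * x * k⁻¹ * u) : p ∣ (centralizer ({x} : Set G)).index := by
  classical
  haveI := Fintype.ofFinite G
  rw [← H26.Basic.card_carrier_mk]
  haveI := Fintype.ofFinite (ConjClasses.mk x).carrier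
  have hmem : ∀ t : G, t ∈ (ConjClasses.mk x).carrier ↔ ∃ k : G, k * x * k⁻¹ = t := by
    intro t
    rw [ConjClasses.mem_carrier_iff_mk_eq, ConjClasses.mk_eq_mk_iff_isConj, isConj_comm, isConj_iff]
  let f : Function.End (ConjClasses.mk x).carrier := fun t => ⟨t * u, by
    obtain ⟨k, hk⟩ := (hmem t).mp t.2
    obtain ⟨v, hv⟩ := hT k
    rw [hmem]
    exact ⟨v, by rw [hv, hk]⟩⟩
  have hfn : ∀ (n : ℕ) (t : (ConjClasses.mk x).carrier), (((f ^ n : Function.End _) t : (ConjClasses.mk x).carrier) : G) = t * u ^ n := by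
    intro n
    induction n with
    | zero => intro t; rw [pow_zero, pow_zero, mul_one]; rfl
    | succ n ih =>
      intro t
      rw [pow_succ, pow_succ']
      show (((f ^ n : Function.End _) (f t) : (ConjClasses.mk x).carrier) : G) = _
      rw [ih]
      show t * u * u ^ n = _
      rw [mul_assoc]
  have hf : f ^ p ^ 1 = 1 := by
    funext t
    apply Subtype.ext
    rw [hfn, pow_one, ← hu, pow_orderOf_eq_one, mul_one]
    rfl
  have h1 := Equiv.Perm.card_fixedPoints_modEq hf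
  have h2 : Fintype.card f.fixedPoints = 0 := by
    rw [Fintype.card_eq_zero_iff]
    refine ⟨fun ⟨t, ht⟩ => ?_⟩
    have h3 : f t = t := ht
    have h4 : (t : G) * u = t := congrArg Subtype.val h3
    have h5 : u = 1 := by simpa using h4
    rw [h5, orderOf_one] at hu
    exact hp.out.one_lt.ne hu
  rw [h2] at h1
  rw [Nat.card_eq_fintype_card]
  exact (Nat.modEq_zero_iff_dvd).mp h1

theorem p_dvd {x y : G} (hx : orderOf x = p) (hy : orderOf y = p) (hxy : x * y = y * x)
    (hc : Nat.Coprime (centralizer ({x} : Set G)).index (centralizer ({y} : Set G)).index)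
    (hc2 : Nat.Coprime (centralizer ({x * y} : Set G)).index (centralizer ({y} : Set G)).index)
    (hb : (centralizer ({y} : Set G)).index ≠ 1) : p ∣ (centralizer ({x} : Set G)).index := by
  obtain ⟨g, hg⟩ : ∃ g : G, g * y * g⁻¹ ≠ y := by
    by_contra hcon
    push Not at hcon
    apply hb
    rw [Subgroup.index_eq_one, eq_top_iff]
    intro g _
    rw [mem_C]
    exact mul_inv_eq_iff_eq_mul.mp (hcon g)
  have stepA : ∀ h : G, ∃ v : G, v * x * v⁻¹ = x * y * (h * y * h⁻¹)⁻¹ := by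
    intro h
    obtain ⟨k, hk, w, hw, e⟩ := fact hc2.symm h
    rw [mem_C] at hk hw
    refine ⟨k, ?_⟩
    have h1 : h * y * h⁻¹ = k * y * k⁻¹ := by
      rw [e]
      calc k * w * y * (k * w)⁻¹ = k * (w * y) * w⁻¹ * k⁻¹ := by group
        _ = k * (y * w) * w⁻¹ * k⁻¹ := by rw [hw]
        _ = _ := by group
    rw [h1]
    have h2 : k * (x * y) * k⁻¹ = x * y := by rw [hk]; group
    calc k * x * k⁻¹ = k * (x * y) * k⁻¹ * (k * y * k⁻¹)⁻¹ := by group
      _ = _ := by rw [h2]
  have stepB : ∀ k : G, ∃ v : G, v * x * v⁻¹ = k * x * k⁻¹ * (y * (g * y * g⁻¹)⁻¹) := by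
    intro k
    obtain ⟨m, h1, h2⟩ := pair hc k 1
    obtain ⟨v, hv⟩ := stepA (m⁻¹ * g)
    refine ⟨m * v, ?_⟩
    have h2' : m * y * m⁻¹ = y := by rw [h2]; group
    calc m * v * x * (m * v)⁻¹ = m * (v * x * v⁻¹) * m⁻¹ := by group
      _ = m * (x * y * (m⁻¹ * g * y * (m⁻¹ * g)⁻¹)⁻¹) * m⁻¹ := by rw [hv]
      _ = (m * x * m⁻¹) * ((m * y * m⁻¹) * (g * y * g⁻¹)⁻¹) := by group
      _ = _ := by rw [h1, h2']
  set y' := g * y * g⁻¹ with hy'
  obtain ⟨v, hv⟩ := stepB 1
  have hxy' : x * y' = y' * x := by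
    have := pair_comm hc hxy 1 g
    simpa using this
  have hvy' : (v * x * v⁻¹) * y' = y' * (v * x * v⁻¹) := pair_comm hc hxy v g
  have hu : y * y'⁻¹ = x⁻¹ * (v * x * v⁻¹) := by rw [hv]; group
  have hcy : Commute y y' := by
    have h1 : Commute x y' := hxy'
    have h2 : Commute (v * x * v⁻¹) y' := hvy'
    have h3 : Commute (y * y'⁻¹) y' := by rw [hu]; exact h1.inv_left.mul_left h2
    have h4 : Commute (y * y'⁻¹ * y') y' := h3.mul_left (Commute.refl _)
    simpa using h4
  have hup : (y * y'⁻¹) ^ p = 1 := by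
    rw [hcy.inv_right.mul_pow, ← hy, pow_orderOf_eq_one, inv_pow, hy', conj_pow, pow_orderOf_eq_one]
    simp
  have hu1 : y * y'⁻¹ ≠ 1 := by
    intro h
    exact hg (mul_inv_eq_one.mp h).symm
  exact dvd_of_translate (orderOf_eq_prime hup hu1) stepB

end Cfsg.Agent.H23.PSing
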