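import Cfsg.Agent.H23_PSing

set_option autoImplicit false
set_option linter.style.haveILetI false

/-! H23_PSing2: class sizes of `p`-singular elements, the main contradiction. -/

namespace Cfsg.Agent.H23.PSing

open Subgroup

variable {G : Type*} [Group G] [Finite G] {p : ℕ} [hp : Fact p.Prime]

theorem mem_of_norm (P : Sylow p G) {w : G} (hw : ∃ k, orderOf w = p ^ k)
    (hn : w ∈ normalizer ((P : Subgroup G) : Set G)) : w ∈ (P : Subgroup G) := by
  obtain ⟨k, hk⟩ := hw
  have h1 := (H24.Tools.isPGroup_zpowers hk).inf_normalizer_sylow P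
  have h2 : w ∈ zpowers w ⊓ normalizer (P : Set G) := ⟨mem_zpowers w, hn⟩
  rw [h1] at h2
  exact h2.2

theorem contra {x y : G} (hx : orderOf x = p) (hy : orderOf y = p) (hxy : x * y = y * x)
    (hc : Nat.Coprime (centralizer ({x} : Set G)).index (centralizer ({y} : Set G)).index)
    (hpa : p ∣ (centralizer ({x} : Set G)).index) (hpb : ¬ p ∣ (centralizer ({y} : Set G)).index)
    (hb : (centralizer ({y} : Set G)).index ≠ 1)
    (star : ∀ z : G, p ∣ orderOf z → p ∣ (centralizer ({z} : Set G)).index →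
      Nat.Coprime (centralizer ({z} : Set G)).index (centralizer ({y} : Set G)).index) : False := by
  have hxC : x ∈ centralizer ({y} : Set G) := mem_C.mpr hxy
  obtain ⟨P0, hP0⟩ := H2.Hall.exists_sylow_le (centralizer ({y} : Set G)) hpb
  obtain ⟨P, hxP, hPC⟩ := H18.Syl.exists_sylow_le P0 hP0
    (H24.Tools.isPGroup_zpowers (p := p) (x := x) (k := 1) (by rw [pow_one, hx])) (by rw [zpowers_le]; exact hxC)
  rw [zpowers_le] at hxP
  have hyP : ∀ w ∈ (P : Subgroup G), w * y = y * w := fun w hw => mem_C.mp (hPC hw)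
  set Z := centralizer ((P : Subgroup G) : Set G) with hZ
  have hyZ : y ∈ Z := by rw [hZ, mem_centralizer_iff]; intro w hw; exact hyP w hw
  have hZN : Z ≤ normalizer ((P : Subgroup G) : Set G) := by
    intro z hz
    rw [mem_normalizer_iff]
    intro w
    have hz' := mem_centralizer_iff.mp hz
    constructor
    · intro hw
      have h1 : z * w * z⁻¹ = w := by rw [← hz' w hw]; group
      have h2 : z * w * z⁻¹ ∈ (P : Subgroup G) := by rw [h1]; exact hw
      exact h2
    · intro hw
      have h0 : z * w * z⁻¹ ∈ (P : Subgroup G) := hw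
      have h1 := hz' _ h0
      have h2 : w = z * w * z⁻¹ := by
        have h3 : z * w * z⁻¹ * z = z * w := by group
        rw [h3] at h1
        have h4 : w = z * w * z⁻¹ := mul_left_cancel h1
        exact h4
      have h5 : w ∈ (P : Subgroup G) := by rw [h2]; exact h0
      exact h5
  have hyPm : y ∈ (P : Subgroup G) := mem_of_norm P ⟨1, by rw [pow_one, hy]⟩ (hZN hyZ)
  have hZC : Z ≤ centralizer ({y} : Set G) := fun z hz => mem_C.mpr (mem_centralizer_iff.mp hz y hyPm).symm
  have hcov : centralizer ({y} : Set G) = (P : Subgroup G) ⊔ Z := by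
    by_contra hne
    obtain ⟨g, hg, hgt⟩ := H20.Derange.jordan' (centralizer ({y} : Set G)) ((P : Subgroup G) ⊔ Z)
      (sup_le hPC hZC) (Ne.symm hne)
    obtain ⟨a, z, hazg, hazc, ⟨k, hak⟩, hz⟩ := H10.PPart.exists_ppart (p := p) g
    have haz : IsPPart p g a := by rw [← hazg]; exact H10.PPart.mk_ppart hazc ⟨k, hak⟩ hz
    have ha : a ∈ centralizer ({y} : Set G) := (zpowers_le.mpr hg) (H10.PPart.ppart_mem_zpowers' haz)
    have hzC : z ∈ centralizer ({y} : Set G) := by
      have : z = a⁻¹ * g := by rw [← hazg]; group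
      rw [this]; exact mul_mem (inv_mem ha) hg
    have hyz : Commute y z := (mem_C.mp hzC).symm
    have h1 : IsPPart p (y * z) y := H10.PPart.mk_ppart hyz ⟨1, by rw [pow_one, hy]⟩ hz
    have h2 := H10.PPart.ppart_mem_zpowers' h1
    have hle : centralizer ({y * z} : Set G) ≤ centralizer ({y} : Set G) := by
      intro c hc'
      have h3 : Commute c (y * z) := mem_C.mp hc'
      obtain ⟨j, hj⟩ := h2
      have hj' : (y * z) ^ j = y := hj
      have h4 : Commute c ((y * z) ^ j) := h3.zpow_right j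
      rw [hj'] at h4
      exact mem_C.mpr h4.eq
    have hlez : centralizer ({y * z} : Set G) ≤ centralizer ({z} : Set G) := by
      intro c hc'
      have h3 : Commute c (y * z) := mem_C.mp hc'
      have h4 : Commute c y := mem_C.mp (hle hc')
      have h5 : Commute c (y⁻¹ * (y * z)) := h4.inv_right.mul_right h3
      rw [inv_mul_cancel_left] at h5
      exact mem_C.mpr h5.eq
    have hord : p ∣ orderOf (y * z) := by
      have h3 : orderOf (y * z) = orderOf y * orderOf z :=
        hyz.orderOf_mul_eq_mul_orderOf_of_coprime (by rw [hy]; exact (Nat.Prime.coprime_iff_not_dvd hp.out).2 hz)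
      rw [h3, hy]; exact dvd_mul_right _ _
    have hnp : ¬ p ∣ (centralizer ({y * z} : Set G)).index := by
      intro h
      have h3 := star _ hord h
      have h4 := index_dvd_of_le hle
      exact hb (h3.symm.eq_one_of_dvd h4)
    obtain ⟨U0, hU0⟩ := H2.Hall.exists_sylow_le (centralizer ({y * z} : Set G)) hnp
    have hay : Commute a y := mem_C.mp ha
    have haU : a ∈ centralizer ({y * z} : Set G) := mem_C.mpr (hay.mul_right hazc).eq
    obtain ⟨U, haU', hUC⟩ := H18.Syl.exists_sylow_le U0 hU0 (H24.Tools.isPGroup_zpowers hak) (zpowers_le.mpr haU)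
    obtain ⟨t, ht, htP, -⟩ := H18.Syl.exists_conj_le P hPC U.isPGroup' (hUC.trans hle)
    have hUeq := U.is_maximal' (t • P).isPGroup' htP
    have haP : t⁻¹ * a * t ∈ (P : Subgroup G) := by
      have : a ∈ ((t • P : Sylow p G) : Subgroup G) := htP (haU' (mem_zpowers a))
      rwa [H18.Syl.coe_smul_sylow, H18.Syl.mem_map_conj_iff] at this
    have hzZ : t⁻¹ * z * t ∈ Z := by
      rw [hZ, mem_centralizer_iff]
      intro w hw
      have h3 : t * w * t⁻¹ ∈ (U : Subgroup G) := by
        rw [← hUeq, H18.Syl.coe_smul_sylow, H18.Syl.mem_map_conj_iff]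
        have : t⁻¹ * (t * w * t⁻¹) * t = w := by group
        rw [this]; exact hw
      have h4 : (t * w * t⁻¹) * z = z * (t * w * t⁻¹) := mem_C.mp (hlez (hUC h3))
      calc w * (t⁻¹ * z * t) = t⁻¹ * ((t * w * t⁻¹) * z) * t := by group
        _ = t⁻¹ * (z * (t * w * t⁻¹)) * t := by rw [h4]
        _ = _ := by group
    apply hgt t ht
    have : t⁻¹ * g * t = (t⁻¹ * a * t) * (t⁻¹ * z * t) := by rw [← hazg]; group
    rw [this]
    exact mul_mem (mem_sup_left haP) (mem_sup_right hzZ)
  have hCN : centralizer ({y} : Set G) ≤ normalizer ((P : Subgroup G) : Set G) := by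
    rw [hcov]; exact sup_le le_normalizer hZN
  set Q := (centralizer ({y} : Set G)).normalCore with hQ
  have hQC : Q ≤ centralizer ({y} : Set G) := normalCore_le _
  have hQn : Q.Normal := normalCore_normal _
  have hmemQ : ∀ t : G, (∀ g : G, t * (g * y * g⁻¹) = (g * y * g⁻¹) * t) → t ∈ Q := by
    intro t ht g
    show g * t * g⁻¹ ∈ centralizer ({y} : Set G)
    rw [mem_C]
    have := ht g⁻¹
    calc g * t * g⁻¹ * y = g * (t * (g⁻¹ * y * g⁻¹⁻¹)) * g⁻¹ := by group
      _ = g * ((g⁻¹ * y * g⁻¹⁻¹) * t) * g⁻¹ := by rw [this]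
      _ = _ := by group
  have hstar2 : ∀ t ∈ (P : Subgroup G),
      Nat.Coprime (centralizer ({t} : Set G)).index (centralizer ({y} : Set G)).index → t ∈ Q := by
    intro t ht hco
    apply hmemQ
    intro g
    have := pair_comm hco (hyP t ht) 1 g
    simpa using this
  have hord : ∀ t ∈ (P : Subgroup G), t ≠ 1 → p ∣ orderOf t := by
    intro t ht h1
    obtain ⟨k, hk⟩ := H24.Tools.exists_orderOf P.isPGroup' ht
    rw [hk]
    rcases k with _ | k
    · exfalso; rw [pow_zero, orderOf_eq_one_iff] at hk; exact h1 hk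
    · exact dvd_pow_self p (by omega)
  have hP1n : ∀ w : G, w ∈ (P : Subgroup G) → w ∈ Q → ∀ g : G, g * w * g⁻¹ ∈ (P : Subgroup G) := by
    intro w hwP hwQ g
    have h1 : g * w * g⁻¹ ∈ Q := hQn.conj_mem w hwQ g
    refine mem_of_norm P ?_ (hCN (hQC h1))
    obtain ⟨k, hk⟩ := H24.Tools.exists_orderOf P.isPGroup' hwP
    exact ⟨k, by rw [H24.Tools.orderOf_conj, hk]⟩
  have hcomm1 : ∀ t ∈ (P : Subgroup G), t ∉ Q → ∀ w ∈ (P : Subgroup G), w ∈ Q → t * w = w * t := by
    intro t ht htQ w hwP hwQ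
    have hnp : ¬ p ∣ (centralizer ({t} : Set G)).index := fun h =>
      htQ (hstar2 t ht (star t (hord t ht (by rintro rfl; exact htQ (one_mem _))) h))
    obtain ⟨U, hU⟩ := H2.Hall.exists_sylow_le (centralizer ({t} : Set G)) hnp
    obtain ⟨g, hg⟩ := MulAction.exists_smul_eq G P U
    have h1 : w ∈ (U : Subgroup G) := by
      rw [← hg, H18.Syl.coe_smul_sylow, H18.Syl.mem_map_conj_iff]
      have := hP1n w hwP hwQ g⁻¹
      rwa [inv_inv] at this
    exact (mem_C.mp (hU h1)).symm
  have hxQ : x ∈ Q := hstar2 x hxP hc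
  have hPQ : (P : Subgroup G) ≤ Q := by
    by_contra hcon
    obtain ⟨t0, ht0P, ht0Q⟩ := SetLike.not_le_iff_exists.mp hcon
    have hall : (P : Subgroup G) ≤ centralizer ({x} : Set G) := by
      intro t ht
      by_cases htQ : t ∈ Q
      · have h1 : t * t0 ∉ Q := fun h => ht0Q ((mul_mem_cancel_left htQ).mp h)
        have h2 : Commute (t * t0) x := hcomm1 _ (mul_mem ht ht0P) h1 x hxP hxQ
        have h3 : Commute t0 x := hcomm1 _ ht0P ht0Q x hxP hxQ
        have h4 : Commute (t * t0 * t0⁻¹) x := h2.mul_left h3.inv_left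
        rw [mul_inv_cancel_right] at h4
        exact mem_C.mpr h4.eq
      · exact mem_C.mpr (hcomm1 t ht htQ x hxP hxQ)
    exact P.not_dvd_index (hpa.trans (index_dvd_of_le hall))
  have hPn : (P : Subgroup G).Normal := ⟨fun w hw g => hP1n w hw (hPQ hw) g⟩
  have hZn : Z.Normal := by rw [hZ]; infer_instance
  obtain ⟨q, hq, hqb⟩ := Nat.exists_prime_and_dvd hb
  haveI : Fact q.Prime := ⟨hq⟩
  obtain ⟨S⟩ : Nonempty (Sylow q G) := inferInstance
  obtain ⟨g, hgS, hgC⟩ : ∃ g ∈ (S : Subgroup G), g ∉ centralizer ({y} : Set G) := by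
    by_contra hcon
    push Not at hcon
    have h1 : (S : Subgroup G) ≤ centralizer ({y} : Set G) := hcon
    exact S.not_dvd_index (hqb.trans (index_dvd_of_le h1))
  have key : ∀ t ∈ (P : Subgroup G), t ∉ Z → ∃ w ∈ (P : Subgroup G), w * t * w⁻¹ ∈ centralizer ({g} : Set G) := by
    intro t ht htZ
    have hpt : p ∣ (centralizer ({t} : Set G)).index := by
      by_contra hnp
      obtain ⟨U, hU⟩ := H2.Hall.exists_sylow_le (centralizer ({t} : Set G)) hnp
      obtain ⟨h, hh⟩ := MulAction.exists_smul_eq G P U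
      apply htZ
      rw [hZ, mem_centralizer_iff]
      intro w hw
      have h1 : w ∈ (U : Subgroup G) := by
        rw [← hh, H18.Syl.coe_smul_sylow, H18.Syl.mem_map_conj_iff]
        have := hPn.conj_mem w hw h⁻¹
        rwa [inv_inv] at this
      exact mem_C.mp (hU h1)
    have hco := star t (hord t ht (by rintro rfl; exact htZ (one_mem _))) hpt
    have hqt : ¬ q ∣ (centralizer ({t} : Set G)).index := fun h =>
      Nat.not_coprime_of_dvd_of_dvd hq.one_lt h hqb hco
    obtain ⟨U, hU⟩ := H2.Hall.exists_sylow_le (centralizer ({t} : Set G)) hqt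
    obtain ⟨h, hh⟩ := MulAction.exists_smul_eq G U S
    have h1 : h⁻¹ * g * h ∈ (U : Subgroup G) := by
      have h0 := hgS
      rw [← hh, H18.Syl.coe_smul_sylow, H18.Syl.mem_map_conj_iff] at h0
      exact h0
    have h2 : h⁻¹ * g * h * t = t * (h⁻¹ * g * h) := mem_C.mp (hU h1)
    obtain ⟨k, hk, c, hcc, e⟩ := fact hco h
    rw [← SetLike.mem_coe, hcov, Subgroup.mul_normal] at hk
    obtain ⟨w, hw, z, hz, rfl⟩ := Set.mem_mul.mp hk
    refine ⟨w, hw, ?_⟩
    have h3 : w * t * w⁻¹ = h * t * h⁻¹ := by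
      have hz' : t * z = z * t := mem_centralizer_iff.mp hz t ht
      have hc' : c * t = t * c := mem_C.mp hcc
      rw [e]
      calc w * t * w⁻¹ = w * (t * z) * z⁻¹ * w⁻¹ := by group
        _ = w * (z * t) * z⁻¹ * w⁻¹ := by rw [hz']
        _ = w * z * (t * c) * c⁻¹ * z⁻¹ * w⁻¹ := by group
        _ = w * z * (c * t) * c⁻¹ * z⁻¹ * w⁻¹ := by rw [hc']
        _ = _ := by group
    rw [h3, mem_C]
    calc h * t * h⁻¹ * g = h * (t * (h⁻¹ * g * h)) * h⁻¹ := by group
      _ = h * (h⁻¹ * g * h * t) * h⁻¹ := by rw [h2]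
      _ = _ := by group
  have hN2 : (centralizer ({g} : Set G) ⊓ (P : Subgroup G)) ⊔ (Z ⊓ (P : Subgroup G)) = (P : Subgroup G) := by
    by_contra hne
    obtain ⟨t, ht, htt⟩ := H20.Derange.jordan' (P : Subgroup G) _ (sup_le inf_le_right inf_le_right) hne
    by_cases htZ : t ∈ Z
    · apply htt 1 (one_mem _)
      have : (1 : G)⁻¹ * t * 1 = t := by group
      rw [this]; exact mem_sup_right ⟨htZ, ht⟩
    · obtain ⟨w, hw, hwt⟩ := key t ht htZ
      apply htt w⁻¹ (inv_mem hw)
      rw [inv_inv]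
      have hwP : w * t * w⁻¹ ∈ (P : Subgroup G) := mul_mem (mul_mem hw ht) (inv_mem hw)
      exact mem_sup_left (mem_inf.mpr ⟨hwt, hwP⟩)
  have hfin : ∀ t ∈ (P : Subgroup G), t ∉ Z → t ∈ centralizer ({g} : Set G) := by
    intro t ht htZ
    obtain ⟨w, hw, hwt⟩ := key t ht htZ
    haveI : (Z ⊓ (P : Subgroup G)).Normal := inferInstance
    rw [← hN2, ← SetLike.mem_coe, Subgroup.mul_normal] at hw
    obtain ⟨c, hcc, z, hz, rfl⟩ := Set.mem_mul.mp hw
    have hz' : t * z = z * t := mem_centralizer_iff.mp hz.1 t ht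
    have h1 : c * z * t * (c * z)⁻¹ = c * t * c⁻¹ := by
      calc c * z * t * (c * z)⁻¹ = c * (z * t) * z⁻¹ * c⁻¹ := by group
        _ = c * (t * z) * z⁻¹ * c⁻¹ := by rw [hz']
        _ = _ := by group
    rw [h1] at hwt
    have h2 : t = c⁻¹ * (c * t * c⁻¹) * c := by group
    rw [h2]
    have hc1 : c ∈ centralizer ({g} : Set G) := hcc.1
    exact mul_mem (mul_mem (inv_mem hc1) hwt) hc1
  have hxZ : x ∉ Z := by
    intro h
    have : (P : Subgroup G) ≤ centralizer ({x} : Set G) := fun w hw => mem_C.mpr (mem_centralizer_iff.mp h w hw)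
    exact P.not_dvd_index (hpa.trans (index_dvd_of_le this))
  have hxyZ : x * y ∉ Z := fun h => hxZ ((mul_mem_cancel_right hyZ).mp h)
  have h1 := hfin x hxP hxZ
  have h2 := hfin (x * y) (mul_mem hxP hyPm) hxyZ
  have h3 : y ∈ centralizer ({g} : Set G) := (mul_mem_cancel_left h1).mp h2
  exact hgC (mem_C.mpr (mem_C.mp h3).symm)

theorem idx_conj (k y : G) : (centralizer ({k * y * k⁻¹} : Set G)).index = (centralizer ({y} : Set G)).index := by
  haveI := Fintype.ofFinite G
  rw [← H26.Basic.card_carrier_mk, ← H26.Basic.card_carrier_mk]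
  have : ConjClasses.mk (k * y * k⁻¹) = ConjClasses.mk y := by
    rw [ConjClasses.mk_eq_mk_iff_isConj, isConj_comm, isConj_iff]
    exact ⟨k, rfl⟩
  rw [this]

omit hp in
theorem exists_p [Fact p.Prime] {g : G} (hg : p ∣ orderOf g) : ∃ x : G, orderOf x = p ∧
    centralizer ({g} : Set G) ≤ centralizer ({x} : Set G) := by
  refine ⟨g ^ (orderOf g / p), ?_, ?_⟩
  · obtain ⟨m, hm⟩ := hg
    have hpos : 0 < orderOf g := orderOf_pos g
    have hpp : p.Prime := Fact.out
    have h1 : orderOf g / p = m := by rw [hm]; exact Nat.mul_div_cancel_left m hpp.pos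
    have hm0 : m ≠ 0 := by rintro rfl; omega
    rw [h1, orderOf_pow' g hm0, hm, Nat.gcd_eq_right (dvd_mul_left m p)]
    exact Nat.mul_div_cancel p (Nat.pos_of_ne_zero hm0)
  · intro c hc
    have h1 : Commute c g := mem_C.mp hc
    exact mem_C.mpr (h1.pow_right _).eq

theorem walk (hZ : ¬ p ∣ Nat.card (center G)) {g h : G} (hg : p ∣ orderOf g) (hh : p ∣ orderOf h)
    (hc : Nat.Coprime (centralizer ({g} : Set G)).index (centralizer ({h} : Set G)).index)
    (hph : ¬ p ∣ (centralizer ({h} : Set G)).index) {r s : ℕ}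
    (hr : r ∣ (centralizer ({g} : Set G)).index) (hs : s ∣ (centralizer ({h} : Set G)).index) :
    ∃ t u : ℕ, t.Prime ∧ u.Prime ∧
      (∃ z : G, p ∣ orderOf z ∧ r ∣ (centralizer ({z} : Set G)).index ∧ t ∣ (centralizer ({z} : Set G)).index) ∧
      (∃ z : G, p ∣ orderOf z ∧ t ∣ (centralizer ({z} : Set G)).index ∧ u ∣ (centralizer ({z} : Set G)).index) ∧
      (∃ z : G, p ∣ orderOf z ∧ u ∣ (centralizer ({z} : Set G)).index ∧ s ∣ (centralizer ({z} : Set G)).index) := by
  obtain ⟨x, hx, hgx⟩ := exists_p hg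
  obtain ⟨y0, hy0, hhy⟩ := exists_p hh
  have hne1 : ∀ x : G, orderOf x = p → (centralizer ({x} : Set G)).index ≠ 1 := by
    intro x hx h1
    rw [Subgroup.index_eq_one] at h1
    apply hZ
    have h2 : x ∈ center G := by
      rw [mem_center_iff]
      intro g
      have : g ∈ centralizer ({x} : Set G) := by rw [h1]; trivial
      exact mem_C.mp this
    rw [← hx]
    have := orderOf_dvd_natCard (⟨x, h2⟩ : center G)
    rwa [Subgroup.orderOf_mk] at this
  have hxg := index_dvd_of_le hgx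
  have hyh := index_dvd_of_le hhy
  have hpy0 : ¬ p ∣ (centralizer ({y0} : Set G)).index := fun h => hph (h.trans hyh)
  -- choose a conjugate of `y0` commuting with `x`
  obtain ⟨y, hy, hxy, hyi⟩ : ∃ y : G, orderOf y = p ∧ x * y = y * x ∧
      (centralizer ({y} : Set G)).index = (centralizer ({y0} : Set G)).index := by
    obtain ⟨U, hU⟩ := H2.Hall.exists_sylow_le (centralizer ({y0} : Set G)) hpy0
    obtain ⟨W, hW⟩ := (H24.Tools.isPGroup_zpowers (p := p) (x := x) (k := 1) (by rw [pow_one, hx])).exists_le_sylow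
    obtain ⟨k, hk⟩ := MulAction.exists_smul_eq G U W
    have h1 : k⁻¹ * x * k ∈ (U : Subgroup G) := by
      have h0 := hW (mem_zpowers x)
      rw [← hk, H18.Syl.coe_smul_sylow, H18.Syl.mem_map_conj_iff] at h0
      exact h0
    have h2 : k⁻¹ * x * k * y0 = y0 * (k⁻¹ * x * k) := mem_C.mp (hU h1)
    refine ⟨k * y0 * k⁻¹, by rw [H24.Tools.orderOf_conj, hy0], ?_, idx_conj k y0⟩
    calc x * (k * y0 * k⁻¹) = k * (k⁻¹ * x * k * y0) * k⁻¹ := by group
      _ = k * (y0 * (k⁻¹ * x * k)) * k⁻¹ := by rw [h2]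
      _ = _ := by group
  have hco : Nat.Coprime (centralizer ({x} : Set G)).index (centralizer ({y} : Set G)).index := by
    rw [hyi]
    exact Nat.Coprime.coprime_dvd_left hxg (Nat.Coprime.coprime_dvd_right hyh hc)
  have hpy : ¬ p ∣ (centralizer ({y} : Set G)).index := by rw [hyi]; exact hpy0
  rw [← hyi] at hyh
  have hny := hne1 y hy
  have hnx := hne1 x hx
  by_cases h1 : Nat.Coprime (centralizer ({x * y} : Set G)).index (centralizer ({y} : Set G)).index
  · have h2 := p_dvd hx hy hxy hco h1 hny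
    by_cases hst : ∀ z : G, p ∣ orderOf z → p ∣ (centralizer ({z} : Set G)).index →
      Nat.Coprime (centralizer ({z} : Set G)).index (centralizer ({y} : Set G)).index
    · exact (contra hx hy hxy hco h2 hpy hny hst).elim
    · push Not at hst
      obtain ⟨z, hz, hpz, hnz⟩ := hst
      obtain ⟨u, hu, hu1, hu2⟩ := Nat.Prime.not_coprime_iff_dvd.mp hnz
      exact ⟨p, u, hp.out, hu, ⟨g, hg, hr, h2.trans hxg⟩, ⟨z, hz, hpz, hu1⟩, ⟨h, hh, hu2.trans hyh, hs⟩⟩
  · obtain ⟨u, hu, hu1, hu2⟩ := Nat.Prime.not_coprime_iff_dvd.mp h1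
    have h3 : ¬ Nat.Coprime (centralizer ({x * y} : Set G)).index (centralizer ({x} : Set G)).index := by
      intro h
      apply hpy
      exact p_dvd hy hx hxy.symm hco.symm (by rw [← hxy]; exact h) hnx
    obtain ⟨t, ht, ht1, ht2⟩ := Nat.Prime.not_coprime_iff_dvd.mp h3
    have hord : p ∣ orderOf (x * y) := by
      have hcxy : Commute x y := hxy
      have h4 : (x * y) ^ p = 1 := by
        rw [hcxy.mul_pow]
        nth_rewrite 1 [← hx]
        rw [pow_orderOf_eq_one, ← hy, pow_orderOf_eq_one, one_mul]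
      have h5 : x * y ≠ 1 := by
        intro h
        rw [h] at ht1
        have : (centralizer ({(1 : G)} : Set G)).index = 1 := by
          rw [Subgroup.index_eq_one, eq_top_iff]
          intro w _
          rw [mem_C]; simp
        rw [this] at ht1
        exact ht.one_lt.ne' (Nat.dvd_one.mp ht1)
      rw [orderOf_eq_prime h4 h5]
    exact ⟨t, u, ht, hu, ⟨g, hg, hr, ht2.trans hxg⟩, ⟨x * y, hord, ht1, hu1⟩, ⟨h, hh, hu2.trans hyh, hs⟩⟩

end Cfsg.Agent.H23.PSing
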