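import Mathlib
import Cfsg.Prelude.Def_KGroupFacts

/-!
For every finite central extension `σ : E → Q` the group `ker σ ⊓ E'` is a homomorphic image of the Schur
multiplier of `Q` (said through stem extensions).
-/

set_option autoImplicit false

namespace Cfsg.Agent.H23.Schur

open Subgroup

universe u v w

/-- transfer of a stem extension along an isomorphism of the extension group -/
theorem stem_congr {Γ : Type v} {Γ' : Type w} {Q : Type u} [Group Γ] [Group Γ'] [Group Q] (e : Γ' ≃* Γ)
    (σ : Γ →* Q) (h : IsStemExtension σ) :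
    IsStemExtension (σ.comp e.toMonoidHom) ∧ Nonempty ((σ.comp e.toMonoidHom).ker ≃* σ.ker) := by
  obtain ⟨hs, hc, hd⟩ := h
  refine ⟨⟨hs.comp e.surjective, ?_, ?_⟩, ?_⟩
  · intro x hx
    have h1 : e x ∈ σ.ker := hx
    rw [mem_center_iff]
    intro g
    apply e.injective
    rw [map_mul, map_mul]
    exact mem_center_iff.mp (hc h1) (e g)
  · intro x hx
    have h1 : e x ∈ commutator Γ := hd hx
    have h2 : (commutator Γ).map e.symm.toMonoidHom = commutator Γ' := by
      rw [_root_.commutator_def, Subgroup.map_commutator, Subgroup.map_top_of_surjective _ e.symm.surjective, _root_.commutator_def]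
    rw [← h2]
    exact ⟨e x, h1, e.symm_apply_apply x⟩
  · refine ⟨MulEquiv.mk' ⟨fun x => ⟨e x, x.2⟩, fun y => ⟨e.symm y, ?_⟩, fun x => ?_, fun y => ?_⟩ ?_⟩
    · rw [MonoidHom.mem_ker]
      change σ (e (e.symm y)) = 1
      rw [e.apply_symm_apply]
      exact y.2
    · exact Subtype.ext (e.symm_apply_apply _)
    · exact Subtype.ext (e.apply_symm_apply _)
    · intro a b
      exact Subtype.ext (map_mul e _ _)

/-- finite stem extensions can be taken in the universe of the quotient -/
theorem stem_transfer {Γ : Type v} {Q : Type u} [Group Γ] [Finite Γ] [Group Q]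
    (σ : Γ →* Q) (h : IsStemExtension σ) :
    ∃ (Γ' : Type u) (_ : Group Γ') (_ : Finite Γ') (σ' : Γ' →* Q), IsStemExtension σ' ∧
      Nonempty (σ'.ker ≃* σ.ker) := by
  obtain ⟨n, ⟨e⟩⟩ := Finite.exists_equiv_fin Γ
  let e' : ULift.{u} (Fin n) ≃ Γ := Equiv.ulift.trans e.symm
  letI : Group (ULift.{u} (Fin n)) := e'.group
  obtain ⟨h1, h2⟩ := stem_congr (e'.mulEquiv) σ h
  exact ⟨ULift.{u} (Fin n), inferInstance, inferInstance, _, h1, h2⟩

section

variable {E : Type v} {Q : Type u} [Group E] [Group Q]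

/-- every finite central extension is "isoclinic" to a stem extension with kernel `ker σ ⊓ E'` -/
theorem exists_stem [Finite E] (σ : E →* Q) (hs : Function.Surjective σ) (hc : σ.ker ≤ center E) :
    ∃ (Γ : Type v) (_ : Group Γ) (_ : Finite Γ) (τ : Γ →* Q), IsStemExtension τ ∧
      Nonempty (τ.ker ≃* (σ.ker ⊓ commutator E : Subgroup E)) := by
  classical
  letI instZ : CommGroup σ.ker := { (inferInstance : Group σ.ker) with
    mul_comm := fun a b => Subtype.ext (mem_center_iff.mp (hc b.2) a) }
  -- the divisible group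
  let D := CharacterModule (Additive σ.ker) → AddCircle (1 : ℚ)
  let ι : Additive σ.ker →+ D :=
    { toFun := fun z χ => χ z
      map_zero' := by ext χ; exact map_zero χ
      map_add' := fun a b => by ext χ; exact map_add χ a b }
  have hι : Function.Injective ι := by
    rw [injective_iff_map_eq_zero]
    intro z hz
    apply CharacterModule.eq_zero_of_character_apply
    intro c
    exact congrFun hz c
  let X : Subgroup σ.ker := (commutator E).subgroupOf σ.ker
  let X' : AddSubgroup D := (Subgroup.toAddSubgroup X).map ι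
  have hX'fin : Finite X' := by
    have : (X' : Set D).Finite := by
      have h1 : (X' : Set D) = ι '' (Subgroup.toAddSubgroup X : Set (Additive σ.ker)) := rfl
      rw [h1]
      exact (Set.toFinite _).image _
    exact this
  have hdiv : Module.Baer ℤ (D ⧸ X') := by
    letI d1 : DivisibleBy D ℤ := inferInstance
    letI d2 : DivisibleBy D ℕ := AddGroup.divisibleByNatOfDivisibleByInt D
    letI d3 : DivisibleBy (D ⧸ X') ℕ := QuotientAddGroup.divisibleBy X'
    letI d4 : DivisibleBy (D ⧸ X') ℤ := AddGroup.divisibleByIntOfDivisibleByNat (D ⧸ X')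
    exact Module.Baer.of_divisible _
  -- the map on Z / X
  let f0 : σ.ker →* Abelianization E := Abelianization.of.comp σ.ker.subtype
  have hf0 : ∀ z : σ.ker, z ∈ f0.ker ↔ z ∈ X := by
    intro z
    rw [MonoidHom.mem_ker, mem_subgroupOf]
    change (QuotientGroup.mk (z : E) : E ⧸ commutator E) = 1 ↔ _
    rw [QuotientGroup.eq_one_iff]
  let g0 : σ.ker →* Multiplicative (D ⧸ X') :=
    { toFun := fun z => Multiplicative.ofAdd (QuotientAddGroup.mk (ι (Additive.ofMul z)))
      map_one' := by
        rw [ofMul_one, map_zero]; rfl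
      map_mul' := fun a b => by
        rw [ofMul_mul, map_add]; rfl }
  have hg0 : ∀ z ∈ f0.ker, g0 z = 1 := by
    intro z hz
    rw [hf0] at hz
    change Multiplicative.ofAdd (QuotientAddGroup.mk (ι (Additive.ofMul z)) : D ⧸ X') = 1
    rw [(QuotientAddGroup.eq_zero_iff _).mpr]
    · rfl
    · exact ⟨Additive.ofMul z, hz, rfl⟩
  let g1 : Additive (σ.ker ⧸ f0.ker) →+ (D ⧸ X') :=
    MonoidHom.toAdditiveLeft (QuotientGroup.lift f0.ker g0 hg0)
  let f1 : Additive (σ.ker ⧸ f0.ker) →+ Additive (Abelianization E) :=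
    MonoidHom.toAdditive (QuotientGroup.kerLift f0)
  have hf1 : Function.Injective f1 := QuotientGroup.kerLift_injective f0
  obtain ⟨h, hh⟩ := hdiv.extension_property_addMonoidHom f1 hf1 g1
  let θ : E → D ⧸ X' := fun e => h (Additive.ofMul (Abelianization.of e))
  have hθmul : ∀ a b, θ (a * b) = θ a + θ b := by
    intro a b
    change h (Additive.ofMul (Abelianization.of (a * b))) = _
    rw [map_mul, ofMul_mul, map_add]
  have hθ : ∀ z : σ.ker, θ z = QuotientAddGroup.mk (ι (Additive.ofMul z)) := by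
    intro z
    have h1 := DFunLike.congr_fun hh (Additive.ofMul (QuotientGroup.mk z : σ.ker ⧸ f0.ker))
    exact h1
  have hθ1 : θ 1 = 0 := by
    have h1 := hθmul 1 1
    rw [mul_one] at h1
    exact left_eq_add.mp h1
  -- the fibre product
  let W : Subgroup (E × Multiplicative D) :=
    { carrier := {q | θ q.1 = QuotientAddGroup.mk (Multiplicative.toAdd q.2)}
      one_mem' := by
        change θ 1 = QuotientAddGroup.mk 0
        rw [hθ1]; rfl
      mul_mem' := by
        rintro ⟨a, d⟩ ⟨b, e⟩ h1 h2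
        change θ (a * b) = QuotientAddGroup.mk (Multiplicative.toAdd d + Multiplicative.toAdd e)
        rw [hθmul, QuotientAddGroup.mk_add]
        exact congrArg₂ _ h1 h2
      inv_mem' := by
        rintro ⟨a, d⟩ h1
        change θ a⁻¹ = QuotientAddGroup.mk (-(Multiplicative.toAdd d))
        have h2 := hθmul a a⁻¹
        rw [mul_inv_cancel, hθ1] at h2
        rw [QuotientAddGroup.mk_neg]
        have h3 : θ a = QuotientAddGroup.mk (Multiplicative.toAdd d) := h1
        rw [← h3]
        exact (neg_eq_of_add_eq_zero_right h2.symm).symm }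
  have hWmem : ∀ q : E × Multiplicative D, q ∈ W ↔ θ q.1 = QuotientAddGroup.mk (Multiplicative.toAdd q.2) :=
    fun q => Iff.rfl
  have hlift : ∀ e : E, ∃ d : D, θ e = QuotientAddGroup.mk d := fun e => by
    obtain ⟨d, hd⟩ := QuotientAddGroup.mk_surjective (θ e)
    exact ⟨d, hd.symm⟩
  choose dd hdd using hlift
  have hWfin : Finite W := by
    have hsub : (W : Set (E × Multiplicative D)) ⊆
        Set.range (fun q : E × X' => ((q.1, Multiplicative.ofAdd (dd q.1 + (q.2 : D))) : E × Multiplicative D)) := by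
      rintro ⟨e, d⟩ hq
      have h1 : θ e = QuotientAddGroup.mk (Multiplicative.toAdd d) := hq
      rw [hdd e, QuotientAddGroup.eq] at h1
      refine ⟨(e, ⟨_, h1⟩), ?_⟩
      refine Prod.ext rfl ?_
      change Multiplicative.ofAdd (dd e + (-dd e + Multiplicative.toAdd d)) = d
      rw [add_neg_cancel_left]; rfl
    exact (Set.finite_range _).subset hsub
  -- the diagonal
  let Δ : Subgroup W :=
    { carrier := {q | ∃ z : σ.ker, (q : E × Multiplicative D) = ((z : E), Multiplicative.ofAdd (ι (Additive.ofMul z)))}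
      one_mem' := ⟨1, by
        refine Prod.ext rfl ?_
        change (1 : Multiplicative D) = Multiplicative.ofAdd (ι (Additive.ofMul 1))
        rw [ofMul_one, map_zero]; rfl⟩
      mul_mem' := by
        rintro q r ⟨z, hz⟩ ⟨y, hy⟩
        refine ⟨z * y, ?_⟩
        rw [Subgroup.coe_mul, hz, hy]
        refine Prod.ext rfl ?_
        change Multiplicative.ofAdd (ι (Additive.ofMul z)) * Multiplicative.ofAdd (ι (Additive.ofMul y)) =
          Multiplicative.ofAdd (ι (Additive.ofMul (z * y)))
        rw [ofMul_mul, map_add]; rfl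
      inv_mem' := by
        rintro q ⟨z, hz⟩
        refine ⟨z⁻¹, ?_⟩
        rw [Subgroup.coe_inv, hz]
        refine Prod.ext rfl ?_
        change (Multiplicative.ofAdd (ι (Additive.ofMul z)))⁻¹ = Multiplicative.ofAdd (ι (Additive.ofMul z⁻¹))
        rw [ofMul_inv, map_neg]; rfl }
  have hΔmem : ∀ q : W, q ∈ Δ ↔ ∃ z : σ.ker, (q : E × Multiplicative D) = ((z : E), Multiplicative.ofAdd (ι (Additive.ofMul z))) :=
    fun q => Iff.rfl
  -- elements over the kernel are central
  have hcW : ∀ q : W, (q : E × Multiplicative D).1 ∈ σ.ker → q ∈ center W := by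
    intro q hq
    rw [mem_center_iff]
    intro r
    apply Subtype.ext
    refine Prod.ext ?_ ?_
    · exact mem_center_iff.mp (hc hq) (r : E × Multiplicative D).1
    · exact mul_comm (r : E × Multiplicative D).2 (q : E × Multiplicative D).2
  have hΔker : ∀ q : W, q ∈ Δ → (q : E × Multiplicative D).1 ∈ σ.ker := by
    rintro q ⟨z, hz⟩
    rw [hz]
    exact z.2
  haveI hΔn : Δ.Normal := by
    constructor
    intro q hq g
    have h1 := mem_center_iff.mp (hcW q (hΔker q hq)) g
    rw [h1, mul_inv_cancel_right]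
    exact hq
  let τ' : W →* Q := σ.comp ((MonoidHom.fst E (Multiplicative D)).comp W.subtype)
  have hτ'Δ : ∀ q ∈ Δ, τ' q = 1 := fun q hq => hΔker q hq
  let τ : W ⧸ Δ →* Q := QuotientGroup.lift Δ τ' hτ'Δ
  have hτmk : ∀ q : W, τ (QuotientGroup.mk q) = σ (q : E × Multiplicative D).1 := fun q => rfl
  have hτs : Function.Surjective τ := by
    intro y
    obtain ⟨e, rfl⟩ := hs y
    refine ⟨QuotientGroup.mk ⟨(e, Multiplicative.ofAdd (dd e)), hdd e⟩, ?_⟩
    rw [hτmk]
  -- membership of (x, 0)
  have hx0 : ∀ x ∈ commutator E, θ x = 0 := by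
    intro x hx
    have h1 : Abelianization.of x = 1 := (QuotientGroup.eq_one_iff x).mpr hx
    change h (Additive.ofMul (Abelianization.of x)) = 0
    rw [h1, ofMul_one, map_zero]
  have hxW : ∀ x ∈ commutator E, ((x, 1) : E × Multiplicative D) ∈ W := by
    intro x hx
    rw [hWmem, hx0 x hx]; rfl
  let j : (σ.ker ⊓ commutator E : Subgroup E) →* τ.ker :=
    { toFun := fun x => ⟨QuotientGroup.mk ⟨(x, 1), hxW x x.2.2⟩, by
        rw [MonoidHom.mem_ker, hτmk]; exact x.2.1⟩
      map_one' := rfl
      map_mul' := fun a b => by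
        apply Subtype.ext
        change (QuotientGroup.mk _ : W ⧸ Δ) = QuotientGroup.mk _ * QuotientGroup.mk _
        rw [← QuotientGroup.mk_mul]
        congr 1
        apply Subtype.ext
        refine Prod.ext rfl ?_
        exact (mul_one _).symm }
  have hjinj : Function.Injective j := by
    rw [injective_iff_map_eq_one]
    intro x hx
    have h1 : (QuotientGroup.mk ⟨((x : E), 1), hxW x x.2.2⟩ : W ⧸ Δ) = 1 := congrArg Subtype.val hx
    rw [QuotientGroup.eq_one_iff, hΔmem] at h1
    obtain ⟨z, hz⟩ := h1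
    have h2 : (1 : Multiplicative D) = Multiplicative.ofAdd (ι (Additive.ofMul z)) := congrArg Prod.snd hz
    have h3 : ι (Additive.ofMul z) = 0 := h2.symm
    rw [map_eq_zero_iff ι hι] at h3
    have h4 : z = 1 := h3
    have h5 : (x : E) = z := congrArg Prod.fst hz
    apply Subtype.ext
    rw [h5, h4]; rfl
  have hjsurj : Function.Surjective j := by
    rintro ⟨y, hy⟩
    obtain ⟨⟨⟨e, d⟩, hq⟩, rfl⟩ := QuotientGroup.mk_surjective y
    have he : e ∈ σ.ker := hy
    have h1 : θ e = QuotientAddGroup.mk (Multiplicative.toAdd d) := hq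
    have h2 := hθ ⟨e, he⟩
    change θ e = _ at h2
    rw [h2, QuotientAddGroup.eq] at h1
    obtain ⟨x, hxX, hx⟩ := h1
    have hxc : ((Additive.toMul x : σ.ker) : E) ∈ commutator E := hxX
    refine ⟨⟨((Additive.toMul x : σ.ker) : E)⁻¹, σ.ker.inv_mem (Additive.toMul x : σ.ker).2,
      (_root_.commutator E).inv_mem hxc⟩, ?_⟩
    apply Subtype.ext
    change (QuotientGroup.mk _ : W ⧸ Δ) = QuotientGroup.mk _
    rw [QuotientGroup.eq, hΔmem]
    refine ⟨Additive.toMul x * ⟨e, he⟩, ?_⟩
    rw [Subgroup.coe_mul, Subgroup.coe_inv]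
    refine Prod.ext ?_ ?_
    · change (((Additive.toMul x : σ.ker) : E)⁻¹)⁻¹ * e = ((Additive.toMul x : σ.ker) : E) * e
      rw [inv_inv]
    · change (1 : Multiplicative D)⁻¹ * d = Multiplicative.ofAdd (ι (Additive.ofMul (Additive.toMul x * ⟨e, he⟩)))
      rw [ofMul_mul, map_add, inv_one, one_mul]
      have h3 : ι (Additive.ofMul (Additive.toMul x)) = ι x := rfl
      rw [h3, hx]
      have h4 : -ι (Additive.ofMul ⟨e, he⟩) + Multiplicative.toAdd d + ι (Additive.ofMul ⟨e, he⟩) = Multiplicative.toAdd d := by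
        abel
      rw [h4]; rfl
  refine ⟨W ⧸ Δ, inferInstance, inferInstance, τ, ⟨hτs, ?_, ?_⟩, ⟨(MulEquiv.ofBijective j ⟨hjinj, hjsurj⟩).symm⟩⟩
  · intro y hy
    obtain ⟨q, rfl⟩ := QuotientGroup.mk_surjective y
    have hq : (q : E × Multiplicative D).1 ∈ σ.ker := hy
    rw [mem_center_iff]
    intro g
    obtain ⟨g, rfl⟩ := QuotientGroup.mk_surjective g
    rw [← QuotientGroup.mk_mul, ← QuotientGroup.mk_mul, mem_center_iff.mp (hcW q hq) g]
  · intro y hy
    obtain ⟨x, hx⟩ := hjsurj ⟨y, hy⟩
    have hxy : (QuotientGroup.mk ⟨((x : E), 1), hxW x x.2.2⟩ : W ⧸ Δ) = y := congrArg Subtype.val hx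
    rw [← hxy]
    -- the set of e with (e,1) in the commutator subgroup of W
    have key : ∀ e ∈ commutator E, ∃ q : W, (q : E × Multiplicative D) = (e, 1) ∧ q ∈ commutator W := by
      let C : Subgroup E :=
        { carrier := {e | ∃ q : W, (q : E × Multiplicative D) = (e, 1) ∧ q ∈ commutator W}
          one_mem' := ⟨1, rfl, one_mem _⟩
          mul_mem' := by
            rintro a b ⟨q, hq, hq'⟩ ⟨r, hr, hr'⟩
            refine ⟨q * r, ?_, mul_mem hq' hr'⟩
            rw [Subgroup.coe_mul, hq, hr]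
            exact Prod.ext rfl (mul_one _)
          inv_mem' := by
            rintro a ⟨q, hq, hq'⟩
            refine ⟨q⁻¹, ?_, inv_mem hq'⟩
            rw [Subgroup.coe_inv, hq]
            exact Prod.ext rfl inv_one }
      have hle : commutator E ≤ C := by
        rw [_root_.commutator_def, Subgroup.commutator_le]
        intro a _ b _
        let qa : W := ⟨(a, Multiplicative.ofAdd (dd a)), hdd a⟩
        let qb : W := ⟨(b, Multiplicative.ofAdd (dd b)), hdd b⟩
        refine ⟨qa * qb * qa⁻¹ * qb⁻¹, ?_, ?_⟩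
        · refine Prod.ext rfl ?_
          change Multiplicative.ofAdd (dd a) * Multiplicative.ofAdd (dd b) * (Multiplicative.ofAdd (dd a))⁻¹ *
            (Multiplicative.ofAdd (dd b))⁻¹ = 1
          rw [mul_comm (Multiplicative.ofAdd (dd a)), mul_inv_cancel_right, mul_inv_cancel]
        · exact Subgroup.commutator_mem_commutator (mem_top qa) (mem_top qb)
      exact fun e he => hle he
    obtain ⟨q, hq, hq'⟩ := key x x.2.2
    have h1 : (⟨((x : E), 1), hxW x x.2.2⟩ : W) = q := Subtype.ext hq.symm
    rw [h1]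
    have h2 : (commutator W).map (QuotientGroup.mk' Δ) = commutator (W ⧸ Δ) := by
      rw [_root_.commutator_def, Subgroup.map_commutator, Subgroup.map_top_of_surjective _ (QuotientGroup.mk'_surjective Δ),
        _root_.commutator_def]
    rw [← h2]
    exact ⟨q, hq', rfl⟩

end

/-- the multiplier maps onto `ker σ ⊓ E'` for every finite central extension -/
theorem surj_of_multiplier {Q : Type u} [Group Q] {A : Type w} [CommGroup A] (hA : HasSchurMultiplier Q A)
    {E : Type v} [Group E] [Finite E] (σ : E →* Q) (hs : Function.Surjective σ) (hc : σ.ker ≤ center E) :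
    ∃ π : A →* (σ.ker ⊓ commutator E : Subgroup E), Function.Surjective π := by
  obtain ⟨Γ, _, _, τ, hτ, ⟨e⟩⟩ := exists_stem σ hs hc
  obtain ⟨Γ', _, _, τ', hτ', ⟨e'⟩⟩ := stem_transfer τ hτ
  obtain ⟨π, hπ⟩ := hA.2 Γ' τ' hτ'
  exact ⟨(e'.trans e).toMonoidHom.comp π, (e'.trans e).surjective.comp hπ⟩

end Cfsg.Agent.H23.Schur
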