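import Mathlib

set_option autoImplicit false

namespace Cfsg.Agent.H23.SelfDual

open Module

universe u v w

variable {F : Type u} [Field F] {G : Type w} [Group G] [Finite G]

/-- the conclusion of the decomposition theorem -/
def Good (p : ℕ) {V : Type v} [AddCommGroup V] [Module F V] (ρ : Representation F G V) : Prop :=
  ∃ U W : Submodule F V, IsCompl U W ∧ (∀ g : G, ∀ u ∈ U, ρ g u ∈ U) ∧
    (∀ g : G, ∀ w ∈ W, ρ g w ∈ W) ∧
    (∃ A : LinearMap.BilinForm F V, (∀ x : V, A x x = 0) ∧
      (∀ g : G, ∀ x ∈ U, ∀ y ∈ U, A (ρ g x) (ρ g y) = A x y) ∧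
      (∀ x ∈ U, (∀ y ∈ U, A x y = 0) → x = 0)) ∧
    (∃ S : LinearMap.BilinForm F V, (∀ x y : V, S x y = S y x) ∧
      (∀ g : G, ∀ x ∈ W, ∀ y ∈ W, S (ρ g x) (ρ g y) = S x y) ∧
      (∀ x ∈ W, (∀ y ∈ W, S x y = 0) → x = 0)) ∧
    (p = 2 → ∀ g : G, ∀ w ∈ W, ρ g w = w)

theorem good_alt (p : ℕ) {V : Type v} [AddCommGroup V] [Module F V] (ρ : Representation F G V)
    (A : LinearMap.BilinForm F V) (h1 : ∀ x, A x x = 0)
    (h2 : ∀ g x y, A (ρ g x) (ρ g y) = A x y) (h3 : ∀ x, (∀ y, A x y = 0) → x = 0) :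
    Good p ρ := by
  refine ⟨⊤, ⊥, isCompl_top_bot, fun _ _ _ => Submodule.mem_top, ?_,
    ⟨A, h1, fun g x _ y _ => h2 g x y, fun x _ hx => h3 x (fun y => hx y Submodule.mem_top)⟩,
    ⟨0, fun _ _ => rfl, fun _ _ _ _ _ => rfl, fun x hx _ => (Submodule.mem_bot F).mp hx⟩, ?_⟩
  · intro g w hw
    rw [(Submodule.mem_bot F).mp hw, map_zero]
    exact Submodule.zero_mem _
  · intro _ g w hw
    rw [(Submodule.mem_bot F).mp hw, map_zero]

theorem good_sym (p : ℕ) {V : Type v} [AddCommGroup V] [Module F V] (ρ : Representation F G V)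
    (S : LinearMap.BilinForm F V) (h1 : ∀ x y, S x y = S y x)
    (h2 : ∀ g x y, S (ρ g x) (ρ g y) = S x y) (h3 : ∀ x, (∀ y, S x y = 0) → x = 0)
    (h4 : p = 2 → ∀ g x, ρ g x = x) :
    Good p ρ := by
  refine ⟨⊥, ⊤, isCompl_bot_top, ?_, fun _ _ _ => Submodule.mem_top,
    ⟨0, fun _ => rfl, fun _ _ _ _ _ => rfl, fun x hx _ => (Submodule.mem_bot F).mp hx⟩,
    ⟨S, h1, fun g x _ y _ => h2 g x y, fun x _ hx => h3 x (fun y => hx y Submodule.mem_top)⟩,
    fun hp g w _ => h4 hp g w⟩
  intro g w hw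
  rw [(Submodule.mem_bot F).mp hw, map_zero]
  exact Submodule.zero_mem _

theorem glue (p : ℕ) {V : Type v} [AddCommGroup V] [Module F V] (ρ : Representation F G V)
    (σ τ : Subrepresentation ρ) (hc : IsCompl σ.toSubmodule τ.toSubmodule)
    (hX : Good p σ.toRepresentation) (hY : Good p τ.toRepresentation) : Good p ρ := by
  classical
  obtain ⟨U1, W1, hc1, hU1, hW1, ⟨A1, hA11, hA12, hA13⟩, ⟨S1, hS11, hS12, hS13⟩, ht1⟩ := hX
  obtain ⟨U2, W2, hc2, hU2, hW2, ⟨A2, hA21, hA22, hA23⟩, ⟨S2, hS21, hS22, hS23⟩, ht2⟩ := hY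
  let πX : V →ₗ[F] σ.toSubmodule := σ.toSubmodule.projectionOnto τ.toSubmodule hc
  let πY : V →ₗ[F] τ.toSubmodule := τ.toSubmodule.projectionOnto σ.toSubmodule hc.symm
  have hsum : ∀ v, (πX v : V) + (πY v : V) = v := fun v =>
    Submodule.projection_add_projection_eq_self hc v
  have hXX : ∀ x : σ.toSubmodule, πX x = x := fun x => Submodule.projectionOnto_apply_left hc x
  have hXY : ∀ y : τ.toSubmodule, πX y = 0 := fun y => Submodule.projectionOnto_apply_right hc y
  have hYY : ∀ x : τ.toSubmodule, πY x = x := fun x => Submodule.projectionOnto_apply_left hc.symm x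
  have hYX : ∀ y : σ.toSubmodule, πY y = 0 := fun y => Submodule.projectionOnto_apply_right hc.symm y
  have hρX : ∀ g (x : σ.toSubmodule), ((σ.toRepresentation g x : σ.toSubmodule) : V) = ρ g x := fun g x => rfl
  have hρY : ∀ g (x : τ.toSubmodule), ((τ.toRepresentation g x : τ.toSubmodule) : V) = ρ g x := fun g x => rfl
  have hπXg : ∀ g v, πX (ρ g v) = σ.toRepresentation g (πX v) := by
    intro g v
    conv_lhs => rw [← hsum v, map_add, ← hρX, ← hρY, map_add, hXX, hXY, add_zero]
  have hπYg : ∀ g v, πY (ρ g v) = τ.toRepresentation g (πY v) := by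
    intro g v
    conv_lhs => rw [← hsum v, map_add, ← hρX, ← hρY, map_add, hYY, hYX, zero_add]
  refine ⟨U1.comap πX ⊓ U2.comap πY, W1.comap πX ⊓ W2.comap πY, ?_, ?_, ?_, ?_, ?_, ?_⟩
  · constructor
    · rw [disjoint_iff, eq_bot_iff]
      rintro v ⟨⟨h1, h2⟩, ⟨h3, h4⟩⟩
      have h5 : πX v ∈ U1 ⊓ W1 := ⟨h1, h3⟩
      have h6 : πY v ∈ U2 ⊓ W2 := ⟨h2, h4⟩
      rw [hc1.inf_eq_bot, Submodule.mem_bot] at h5
      rw [hc2.inf_eq_bot, Submodule.mem_bot] at h6
      rw [Submodule.mem_bot, ← hsum v, h5, h6]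
      simp
    · rw [codisjoint_iff, eq_top_iff]
      intro v _
      have h1 : πX v ∈ U1 ⊔ W1 := by rw [hc1.sup_eq_top]; trivial
      have h2 : πY v ∈ U2 ⊔ W2 := by rw [hc2.sup_eq_top]; trivial
      obtain ⟨u1, hu1, w1, hw1, h1⟩ := Submodule.mem_sup.mp h1
      obtain ⟨u2, hu2, w2, hw2, h2⟩ := Submodule.mem_sup.mp h2
      rw [Submodule.mem_sup]
      refine ⟨(u1 : V) + u2, ⟨?_, ?_⟩, (w1 : V) + w2, ⟨?_, ?_⟩, ?_⟩
      · show πX ((u1 : V) + u2) ∈ U1
        rw [map_add, hXX, hXY, add_zero]; exact hu1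
      · show πY ((u1 : V) + u2) ∈ U2
        rw [map_add, hYY, hYX, zero_add]; exact hu2
      · show πX ((w1 : V) + w2) ∈ W1
        rw [map_add, hXX, hXY, add_zero]; exact hw1
      · show πY ((w1 : V) + w2) ∈ W2
        rw [map_add, hYY, hYX, zero_add]; exact hw2
      · rw [← hsum v, ← h1, ← h2]
        push_cast
        abel
  · rintro g v ⟨h1, h2⟩
    refine ⟨?_, ?_⟩
    · show πX (ρ g v) ∈ U1
      rw [hπXg]; exact hU1 g _ h1
    · show πY (ρ g v) ∈ U2
      rw [hπYg]; exact hU2 g _ h2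
  · rintro g v ⟨h1, h2⟩
    refine ⟨?_, ?_⟩
    · show πX (ρ g v) ∈ W1
      rw [hπXg]; exact hW1 g _ h1
    · show πY (ρ g v) ∈ W2
      rw [hπYg]; exact hW2 g _ h2
  · let A : LinearMap.BilinForm F V := A1.compl₁₂ πX πX + A2.compl₁₂ πY πY
    have hA : ∀ x y, A x y = A1 (πX x) (πX y) + A2 (πY x) (πY y) := fun x y => rfl
    refine ⟨A, ?_, ?_, ?_⟩
    · intro x
      rw [hA, hA11, hA21, add_zero]
    · rintro g x ⟨hx1, hx2⟩ y ⟨hy1, hy2⟩
      rw [hA, hA, hπXg, hπXg, hπYg, hπYg, hA12 g _ hx1 _ hy1, hA22 g _ hx2 _ hy2]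
    · rintro x ⟨hx1, hx2⟩ hxy
      have h1 : πX x = 0 := by
        apply hA13 _ hx1
        intro y hy
        have := hxy (y : V) ⟨by show πX (y : V) ∈ U1; rw [hXX]; exact hy,
          by show πY (y : V) ∈ U2; rw [hYX]; exact Submodule.zero_mem _⟩
        rw [hA, hXX, hYX, map_zero, add_zero] at this
        exact this
      have h2 : πY x = 0 := by
        apply hA23 _ hx2
        intro y hy
        have := hxy (y : V) ⟨by show πX (y : V) ∈ U1; rw [hXY]; exact Submodule.zero_mem _,
          by show πY (y : V) ∈ U2; rw [hYY]; exact hy⟩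
        rw [hA, hXY, hYY, map_zero, zero_add] at this
        exact this
      rw [← hsum x, h1, h2]
      simp
  · let A : LinearMap.BilinForm F V := S1.compl₁₂ πX πX + S2.compl₁₂ πY πY
    have hA : ∀ x y, A x y = S1 (πX x) (πX y) + S2 (πY x) (πY y) := fun x y => rfl
    refine ⟨A, ?_, ?_, ?_⟩
    · intro x y
      rw [hA, hA, hS11, hS21]
    · rintro g x ⟨hx1, hx2⟩ y ⟨hy1, hy2⟩
      rw [hA, hA, hπXg, hπXg, hπYg, hπYg, hS12 g _ hx1 _ hy1, hS22 g _ hx2 _ hy2]
    · rintro x ⟨hx1, hx2⟩ hxy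
      have h1 : πX x = 0 := by
        apply hS13 _ hx1
        intro y hy
        have := hxy (y : V) ⟨by show πX (y : V) ∈ W1; rw [hXX]; exact hy,
          by show πY (y : V) ∈ W2; rw [hYX]; exact Submodule.zero_mem _⟩
        rw [hA, hXX, hYX, map_zero, add_zero] at this
        exact this
      have h2 : πY x = 0 := by
        apply hS23 _ hx2
        intro y hy
        have := hxy (y : V) ⟨by show πX (y : V) ∈ W1; rw [hXY]; exact Submodule.zero_mem _,
          by show πY (y : V) ∈ W2; rw [hYY]; exact hy⟩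
        rw [hA, hXY, hYY, map_zero, zero_add] at this
        exact this
      rw [← hsum x, h1, h2]
      simp
  · rintro hp g v ⟨h1, h2⟩
    have h3 := congrArg Subtype.val (ht1 hp g _ h1)
    have h4 := congrArg Subtype.val (ht2 hp g _ h2)
    rw [hρX] at h3
    rw [hρY] at h4
    rw [← hsum v, map_add, h3, h4]

theorem main (p : ℕ) [Fact p.Prime] [CharP F p] (hcop : ¬ p ∣ Nat.card G) (k : ℕ) :
    ∀ {V : Type v} [AddCommGroup V] [Module F V] [FiniteDimensional F V]
      (ρ : Representation F G V) (B : LinearMap.BilinForm F V) (_ : B.Nondegenerate)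
      (_ : ∀ g : G, ∀ x y : V, B (ρ g x) (ρ g y) = B x y) (_ : finrank F V = k), Good p ρ := by
  classical
  haveI : NeZero (Nat.card G : F) := ⟨by
    rw [Ne, CharP.cast_eq_zero_iff F p]
    exact hcop⟩
  induction k using Nat.strong_induction_on with
  | _ k ih =>
  intro V _ _ _ ρ B hB hinv hk
  have hgg : ∀ (g : G) (x : V), ρ g (ρ g⁻¹ x) = x := by
    intro g x
    rw [← Module.End.mul_apply, ← map_mul, mul_inv_cancel, map_one]; rfl
  have horthinv : ∀ X : Submodule F V, (∀ g : G, ∀ x ∈ X, ρ g x ∈ X) →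
      ∀ g : G, ∀ x ∈ B.orthogonal X, ρ g x ∈ B.orthogonal X := by
    intro X hX g x hx n hn
    rw [← hgg g n, hinv]
    exact hx _ (hX _ _ hn)
  -- the key step
  have step : ∀ X : Submodule F V, ∀ hXi : (∀ g : G, ∀ x ∈ X, ρ g x ∈ X), X ≠ ⊥ →
      X ⊓ B.orthogonal X = ⊥ →
      Good p (Subrepresentation.toRepresentation (ρ := ρ) ⟨X, fun g x hx => hXi g x hx⟩) →
      Good p ρ := by
    intro X hXi hX0 hXo hXg
    have hfr := LinearMap.BilinForm.finrank_orthogonal hB X
    have hfX : finrank F X ≤ finrank F V := Submodule.finrank_le X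
    have hfX0 : 0 < finrank F X := by
      rw [Nat.pos_iff_ne_zero]
      intro h0
      exact hX0 (Submodule.finrank_eq_zero.mp h0)
    have hcompl : IsCompl X (B.orthogonal X) := by
      refine ⟨disjoint_iff.mpr hXo, codisjoint_iff.mpr ?_⟩
      apply Submodule.eq_top_of_finrank_eq
      have := Submodule.finrank_sup_add_finrank_inf_eq X (B.orthogonal X)
      rw [hXo, finrank_bot] at this
      omega
    have hYi := horthinv X hXi
    let τ : Subrepresentation ρ := ⟨B.orthogonal X, fun g x hx => hYi g x hx⟩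
    refine glue p ρ ⟨X, fun g x hx => hXi g x hx⟩ τ hcompl hXg ?_
    refine ih (finrank F (B.orthogonal X)) (by omega) τ.toRepresentation
      (B.restrict (B.orthogonal X)) ?_ (fun g x y => hinv g x y) rfl
    apply LinearMap.BilinForm.Nondegenerate.ofSeparatingRight
    intro y hy
    apply Subtype.ext
    apply hB.2
    intro v
    have hv : v ∈ X ⊔ B.orthogonal X := by rw [hcompl.sup_eq_top]; trivial
    obtain ⟨a, ha, b, hb, rfl⟩ := Submodule.mem_sup.mp hv
    rw [map_add, LinearMap.add_apply]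
    have h1 : B a y = 0 := y.2 a ha
    have h2 : B b y = 0 := hy ⟨b, hb⟩
    rw [h1, h2, add_zero]
  -- the radical of B - B^t
  let A : LinearMap.BilinForm F V := B - B.flip
  have hA : ∀ x y, A x y = B x y - B y x := fun x y => rfl
  by_cases hR : LinearMap.ker A = ⊥
  · refine good_alt p ρ A (fun x => by rw [hA, sub_self]) (fun g x y => by
      rw [hA, hA, hinv, hinv]) ?_
    intro x hx
    have : x ∈ LinearMap.ker A := by
      rw [LinearMap.mem_ker]
      ext y
      exact hx y
    rw [hR, Submodule.mem_bot] at this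
    exact this
  have hRmem : ∀ x, x ∈ LinearMap.ker A ↔ ∀ y, B x y = B y x := by
    intro x
    rw [LinearMap.mem_ker]
    constructor
    · intro h y
      have := LinearMap.congr_fun h y
      rw [hA] at this
      exact sub_eq_zero.mp this
    · intro h
      ext y
      rw [hA, h, sub_self]; rfl
  have hRinv : ∀ g : G, ∀ x ∈ LinearMap.ker A, ρ g x ∈ LinearMap.ker A := by
    intro g x hx
    rw [hRmem] at hx ⊢
    intro y
    rw [← hgg g y, hinv, hinv, hx]
  obtain ⟨S, ⟨hSinv, hS0, hSR⟩, hSmin⟩ := WellFounded.has_min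
    (wellFounded_lt (α := Submodule F V))
    {W | (∀ h : G, ∀ u ∈ W, ρ h u ∈ W) ∧ W ≠ ⊥ ∧ W ≤ LinearMap.ker A}
    ⟨LinearMap.ker A, hRinv, hR, le_rfl⟩
  have hmin : ∀ U : Submodule F V, (∀ h : G, ∀ u ∈ U, ρ h u ∈ U) → U ≠ ⊥ → U ≤ S → U = S := by
    intro U h1 h2 h3
    by_contra hne
    exact hSmin U ⟨h1, h2, h3.trans hSR⟩ (lt_of_le_of_ne h3 hne)
  have hSsym : ∀ x ∈ S, ∀ y, B x y = B y x := fun x hx => (hRmem x).mp (hSR hx)
  have hSo := horthinv S hSinv
  by_cases hSS : S ⊓ B.orthogonal S = ⊥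
  · apply step S hSinv hS0 hSS
    have hnd : ∀ x : S, (∀ y : S, B.restrict S x y = 0) → x = 0 := by
      intro x hx
      apply Subtype.ext
      have h1 : (x : V) ∈ S ⊓ B.orthogonal S := by
        refine ⟨x.2, ?_⟩
        intro n hn
        have h2 : B x n = 0 := hx ⟨n, hn⟩
        rw [hSsym x x.2 n] at h2
        exact h2
      rw [hSS, Submodule.mem_bot] at h1
      exact h1
    by_cases hcase : p = 2 ∧ ¬ ∀ g : G, ∀ x ∈ S, ρ g x = x
    · obtain ⟨hp2, hnt⟩ := hcase
      have h2 : (2 : F) = 0 := by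
        have := CharP.cast_eq_zero F p
        rw [hp2] at this
        exact_mod_cast this
      let K : Submodule F V :=
        { carrier := {x | x ∈ S ∧ B x x = 0}
          add_mem' := by
            rintro a b ⟨ha, ha'⟩ ⟨hb, hb'⟩
            refine ⟨S.add_mem ha hb, ?_⟩
            simp only [map_add, LinearMap.add_apply]
            rw [ha', hb', hSsym a ha b]
            have : 0 + B b a + (B b a + 0) = 2 * B b a := by ring
            rw [this, h2, zero_mul]
          zero_mem' := ⟨S.zero_mem, by simp⟩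
          smul_mem' := by
            rintro c a ⟨ha, ha'⟩
            refine ⟨S.smul_mem c ha, ?_⟩
            simp only [map_smul, LinearMap.smul_apply, ha', smul_zero] }
      have hKS : K ≤ S := fun x hx => hx.1
      have hKinv : ∀ g : G, ∀ x ∈ K, ρ g x ∈ K := by
        rintro g x ⟨hx1, hx2⟩
        exact ⟨hSinv g x hx1, by rw [hinv, hx2]⟩
      have hK0 : K ≠ ⊥ := by
        intro hK
        apply hnt
        intro g x hx
        have h1 : ρ g x - x ∈ K := by
          refine ⟨S.sub_mem (hSinv g x hx) hx, ?_⟩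
          simp only [map_sub, LinearMap.sub_apply]
          rw [hinv, hSsym x hx (ρ g x)]
          have : B x x - B (ρ g x) x - (B (ρ g x) x - B x x) = 2 * (B x x - B (ρ g x) x) := by ring
          rw [this, h2, zero_mul]
        rw [hK, Submodule.mem_bot] at h1
        exact sub_eq_zero.mp h1
      have hKeq := hmin K hKinv hK0 hKS
      refine good_alt p _ (B.restrict S) ?_ (fun g x y => hinv g x y) hnd
      intro x
      have h1 : (x : V) ∈ K := by rw [hKeq]; exact x.2
      exact h1.2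
    · refine good_sym p _ (B.restrict S) (fun x y => hSsym x x.2 y) (fun g x y => hinv g x y) hnd ?_
      intro hp2 g x
      by_contra hne
      apply hcase
      refine ⟨hp2, fun hall => hne (Subtype.ext (hall g x x.2))⟩
  · have hSle : S ≤ B.orthogonal S := by
      have := hmin (S ⊓ B.orthogonal S) (fun h u hu => ⟨hSinv h u hu.1, hSo h u hu.2⟩) hSS
        inf_le_left
      exact inf_eq_left.mp this
    let σ : Subrepresentation ρ := ⟨B.orthogonal S, fun g x hx => hSo g x hx⟩
    obtain ⟨τ, hτ⟩ := exists_isCompl σ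
    set D : Submodule F V := τ.toSubmodule with hD
    have hDinv : ∀ h : G, ∀ u ∈ D, ρ h u ∈ D := fun h u hu => τ.apply_mem_toSubmodule h hu
    have hc : IsCompl (B.orthogonal S) D := by
      refine IsCompl.of_eq ?_ ?_
      · exact congrArg Subrepresentation.toSubmodule hτ.inf_eq_bot
      · exact congrArg Subrepresentation.toSubmodule hτ.sup_eq_top
    let π : V →ₗ[F] V := D.projection (B.orthogonal S) hc.symm
    have hπD : ∀ x ∈ D, π x = x := fun x hx => Submodule.projection_apply_of_mem_left hc.symm hx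
    have hπS : ∀ x ∈ B.orthogonal S, π x = 0 := fun x hx =>
      Submodule.projection_apply_of_mem_right hc.symm hx
    have hπmem : ∀ x, π x ∈ D := fun x => Submodule.projection_apply_mem hc.symm x
    have hπsub : ∀ x, x - π x ∈ B.orthogonal S := fun x => Submodule.sub_projection_mem hc.symm x
    have hπg : ∀ g x, π (ρ g x) = ρ g (π x) := by
      intro g x
      have h1 : ρ g x = ρ g (x - π x) + ρ g (π x) := by rw [map_sub]; abel
      rw [h1, map_add, hπS _ (hSo g _ (hπsub x)), hπD _ (hDinv g _ (hπmem x)), zero_add]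
    have hSD : ∀ s ∈ S, (∀ t ∈ D, B s t = 0) → s = 0 := by
      intro s hs h
      apply hB.1
      intro y
      have h1 : y = (y - π y) + π y := by abel
      rw [h1, map_add, hπsub y s hs, h _ (hπmem y), add_zero]
    have hDS : ∀ t ∈ D, (∀ s ∈ S, B s t = 0) → t = 0 := by
      intro t ht h
      have h1 : t ∈ B.orthogonal S ⊓ D := ⟨h, ht⟩
      rw [hc.inf_eq_bot, Submodule.mem_bot] at h1
      exact h1
    have hXinv : ∀ g : G, ∀ x ∈ S ⊔ D, ρ g x ∈ S ⊔ D := by
      intro g x hx
      obtain ⟨s, hs, t, ht, rfl⟩ := Submodule.mem_sup.mp hx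
      rw [map_add]
      exact Submodule.add_mem_sup (hSinv g s hs) (hDinv g t ht)
    apply step (S ⊔ D) hXinv
    · intro h0
      apply hS0
      rw [eq_bot_iff, ← h0]
      exact le_sup_left
    · rw [eq_bot_iff]
      rintro x ⟨hx1, hx2⟩
      obtain ⟨s, hs, t, ht, rfl⟩ := Submodule.mem_sup.mp hx1
      have h1 : t = 0 := by
        apply hDS t ht
        intro r hr
        have h2 : B r (s + t) = 0 := hx2 r (Submodule.mem_sup_left hr)
        rw [map_add, hSle hs r hr, zero_add] at h2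
        exact h2
      have h2 : s = 0 := by
        apply hSD s hs
        intro r hr
        have h3 : B r (s + t) = 0 := hx2 r (Submodule.mem_sup_right hr)
        rw [h1, add_zero, ← hSsym s hs] at h3
        exact h3
      rw [h1, h2, add_zero]
      exact Submodule.zero_mem _
    · -- hyperbolic
      let C : LinearMap.BilinForm F V := B.compl₁₂ (LinearMap.id - π) π
      have hC : ∀ x y, C x y = B (x - π x) (π y) := fun x y => rfl
      let H : LinearMap.BilinForm F V := C - C.flip
      have hH : ∀ x y, H x y = B (x - π x) (π y) - B (y - π y) (π x) := fun x y => rfl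
      refine good_alt p _ (H.restrict (S ⊔ D)) ?_ ?_ ?_
      · intro x
        show H x x = 0
        rw [hH, sub_self]
      · intro g x y
        show H (ρ g x) (ρ g y) = H x y
        rw [hH, hH, hπg, hπg, ← map_sub, ← map_sub, hinv, hinv]
      · intro x hx
        apply Subtype.ext
        obtain ⟨x, hxm⟩ := x
        obtain ⟨s, hs, t, ht, rfl⟩ := Submodule.mem_sup.mp hxm
        have hπx : π (s + t) = t := by rw [map_add, hπS s (hSle hs), hπD t ht, zero_add]
        have h1 : t = 0 := by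
          apply hDS t ht
          intro r hr
          have h2 : H (s + t) r = 0 := hx ⟨r, Submodule.mem_sup_left hr⟩
          rw [hH, hπx, hπS r (hSle hr), map_zero, sub_zero, zero_sub, neg_eq_zero] at h2
          exact h2
        have h2 : s = 0 := by
          apply hSD s hs
          intro r hr
          have h3 : H (s + t) r = 0 := hx ⟨r, Submodule.mem_sup_right hr⟩
          rw [hH, hπx, hπD r hr, h1, add_zero, sub_zero, map_zero, sub_zero] at h3
          exact h3
        show s + t = 0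
        rw [h1, h2, add_zero]

end Cfsg.Agent.H23.SelfDual
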