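import Cfsg.Agent.H23_IrrField

set_option autoImplicit false

namespace Cfsg.Agent.H23.SympFpf

open Module

universe u v w

section

variable {F : Type u} [Field F] [Fintype F] {H : Type w} [CommGroup H] [Finite H]
    {V : Type v} [AddCommGroup V] [Module F V] [FiniteDimensional F V]
    (ρ : Representation F H V)

theorem orth_sup (B : LinearMap.BilinForm F V) (X Y : Submodule F V) :
    B.orthogonal (X ⊔ Y) = B.orthogonal X ⊓ B.orthogonal Y := by
  ext v
  simp only [LinearMap.BilinForm.mem_orthogonal_iff, Submodule.mem_inf]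
  constructor
  · intro h
    exact ⟨fun n hn => h n (Submodule.mem_sup_left hn), fun n hn => h n (Submodule.mem_sup_right hn)⟩
  · rintro ⟨h1, h2⟩ n hn
    obtain ⟨x, hx, y, hy, rfl⟩ := Submodule.mem_sup.mp hn
    rw [map_add, LinearMap.add_apply, h1 x hx, h2 y hy, add_zero]

theorem orth_inv (B : LinearMap.BilinForm F V)
    (hinv : ∀ h : H, ∀ x y : V, B (ρ h x) (ρ h y) = B x y) (X : Submodule F V)
    (hX : ∀ h : H, ∀ u ∈ X, ρ h u ∈ X) : ∀ h : H, ∀ u ∈ B.orthogonal X, ρ h u ∈ B.orthogonal X := by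
  intro h u hu n hn
  have h1 : ρ h (ρ h⁻¹ n) = n := by
    rw [← Module.End.mul_apply, ← map_mul, mul_inv_cancel, map_one]; rfl
  rw [← h1, hinv]
  exact hu _ (hX _ _ hn)

/-- restriction to a minimal invariant subspace -/
theorem minimal_props (hfpf : ∀ h v, ρ h v = v → h = 1 ∨ v = 0)
    (W : Submodule F V) (hWinv : ∀ h : H, ∀ u ∈ W, ρ h u ∈ W) (hW0 : W ≠ ⊥)
    (hmin : ∀ U : Submodule F V, (∀ h : H, ∀ u ∈ U, ρ h u ∈ U) → U ≠ ⊥ → U ≤ W → U = W) :
    Nat.card H ∣ Fintype.card F ^ (finrank F W) - 1 ∧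
    ∀ B : LinearMap.BilinForm F W, B.Nondegenerate →
      (∀ h : H, ∀ x y : W, B ⟨ρ h x, hWinv h x x.2⟩ ⟨ρ h y, hWinv h y y.2⟩ = B x y) →
      (finrank F W = 1 ∧ Nat.card H ∣ 2) ∨
      (Even (finrank F W) ∧ Nat.card H ∣ Fintype.card F ^ (finrank F W / 2) + 1) := by
  classical
  let σ : Subrepresentation ρ := ⟨W, fun h v hv => hWinv h v hv⟩
  let ρW : Representation F H W := σ.toRepresentation
  have hρW : ∀ (h : H) (x : W), ((ρW h x : W) : V) = ρ h x := fun h x => rfl
  haveI : Nontrivial W := Submodule.nontrivial_iff_ne_bot.mpr hW0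
  obtain ⟨w, hw⟩ := exists_ne (0 : W)
  have hfaith : Function.Injective ρW := by
    intro a b hab
    have h1 : ρ (b⁻¹ * a) (w : V) = w := by
      rw [map_mul, Module.End.mul_apply, ← hρW a, hab, hρW, ← Module.End.mul_apply, ← map_mul,
        inv_mul_cancel, map_one]
      rfl
    rcases hfpf _ _ h1 with h2 | h2
    · exact (inv_mul_eq_one.mp h2).symm
    · exact absurd (Subtype.ext h2) hw
  have hirr : ∀ U : Submodule F W, (∀ h : H, ∀ u ∈ U, ρW h u ∈ U) → U = ⊥ ∨ U = ⊤ := by
    intro U hU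
    by_cases hU0 : U = ⊥
    · left; exact hU0
    · right
      have h1 := hmin (U.map W.subtype) (by
        rintro h _ ⟨u, hu, rfl⟩
        exact ⟨ρW h u, hU h u hu, rfl⟩) (by
        intro h0
        apply hU0
        apply Submodule.map_injective_of_injective W.injective_subtype
        rw [h0, Submodule.map_bot]) (Submodule.map_subtype_le W U)
      apply Submodule.map_injective_of_injective W.injective_subtype
      rw [h1, Submodule.map_subtype_top]
  refine ⟨Cfsg.Agent.H23.IrrField.card_dvd ρW hfaith hirr, ?_⟩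
  intro B hB hBinv
  exact Cfsg.Agent.H23.IrrField.card_of_form ρW hfaith hirr B hB (fun h x y => hBinv h x y)

end

theorem num {h m n : ℤ} (hm : h ∣ m + 1 ∨ h ∣ m - 1) (hn : h ∣ n + 1 ∨ h ∣ n - 1) :
    h ∣ m * n + 1 ∨ h ∣ m * n - 1 := by
  rcases hm with ⟨a, ha⟩ | ⟨a, ha⟩ <;> rcases hn with ⟨b, hb⟩ | ⟨b, hb⟩
  · right
    have h1 : m = h * a - 1 := by linarith
    have h2 : n = h * b - 1 := by linarith
    exact ⟨h * a * b - a - b, by rw [h1, h2]; ring⟩
  · left
    have h1 : m = h * a - 1 := by linarith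
    have h2 : n = h * b + 1 := by linarith
    exact ⟨h * a * b + a - b, by rw [h1, h2]; ring⟩
  · left
    have h1 : m = h * a + 1 := by linarith
    have h2 : n = h * b - 1 := by linarith
    exact ⟨h * a * b - a + b, by rw [h1, h2]; ring⟩
  · right
    have h1 : m = h * a + 1 := by linarith
    have h2 : n = h * b + 1 := by linarith
    exact ⟨h * a * b + a + b, by rw [h1, h2]; ring⟩

/-- An abelian group acting fixed point freely on a symplectic space of dimension `2n` over the
field with `q` elements has order dividing `q^n + 1` or `q^n - 1`. -/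
theorem main {F : Type u} [Field F] [Fintype F] {H : Type w} [CommGroup H] [Finite H]
    {V : Type v} [AddCommGroup V] [Module F V] [FiniteDimensional F V]
    (hcop : (Nat.card H : F) ≠ 0) (ρ : Representation F H V)
    (hfpf : ∀ h v, ρ h v = v → h = 1 ∨ v = 0)
    (B : LinearMap.BilinForm F V) (hB : B.Nondegenerate) (halt : ∀ x, B x x = 0)
    (hinv : ∀ h : H, ∀ x y : V, B (ρ h x) (ρ h y) = B x y) :
    ∃ n : ℕ, finrank F V = 2 * n ∧
      ((Nat.card H : ℤ) ∣ (Fintype.card F : ℤ) ^ n + 1 ∨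
        (Nat.card H : ℤ) ∣ (Fintype.card F : ℤ) ^ n - 1) := by
  classical
  have hrefl : B.IsRefl := by
    have : B.IsAlt := fun x => halt x
    exact this.isRefl
  have horth : ∀ X : Submodule F V, B.orthogonal (B.orthogonal X) = X :=
    fun X => LinearMap.BilinForm.orthogonal_orthogonal hB hrefl X
  haveI : NeZero (Nat.card H : F) := ⟨hcop⟩
  have key : ∀ k : ℕ, ∀ C : Submodule F V, (∀ h : H, ∀ u ∈ C, ρ h u ∈ C) →
      C ⊓ B.orthogonal C = ⊥ → finrank F C = k → ∃ n : ℕ, k = 2 * n ∧
      ((Nat.card H : ℤ) ∣ (Fintype.card F : ℤ) ^ n + 1 ∨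
        (Nat.card H : ℤ) ∣ (Fintype.card F : ℤ) ^ n - 1) := by
    intro k
    induction k using Nat.strong_induction_on with
    | _ k ih =>
    intro C hCinv hC hk
    by_cases hC0 : C = ⊥
    · refine ⟨0, ?_, Or.inr ?_⟩
      · rw [← hk, hC0, finrank_bot]
      · simp
    obtain ⟨W, ⟨hWinv, hW0, hWC⟩, hWmin⟩ := WellFounded.has_min
      (wellFounded_lt (α := Submodule F V))
      {W | (∀ h : H, ∀ u ∈ W, ρ h u ∈ W) ∧ W ≠ ⊥ ∧ W ≤ C} ⟨C, hCinv, hC0, le_rfl⟩
    have hmin : ∀ U : Submodule F V, (∀ h : H, ∀ u ∈ U, ρ h u ∈ U) → U ≠ ⊥ → U ≤ W → U = W := by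
      intro U h1 h2 h3
      by_contra hne
      exact hWmin U ⟨h1, h2, h3.trans hWC⟩ (lt_of_le_of_ne h3 hne)
    obtain ⟨hd1, hd2⟩ := minimal_props ρ hfpf W hWinv hW0 hmin
    have hWoinv := orth_inv ρ B hinv W hWinv
    have hWpos : 0 < finrank F W := by
      rw [Nat.pos_iff_ne_zero]
      intro h0
      exact hW0 (Submodule.finrank_eq_zero.mp h0)
    have hC1inv : ∀ h : H, ∀ u ∈ C ⊓ B.orthogonal W, ρ h u ∈ C ⊓ B.orthogonal W :=
      fun h u hu => ⟨hCinv h u hu.1, hWoinv h u hu.2⟩
    -- dimension of C ⊓ W^⊥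
    have hdim : finrank F (C ⊓ B.orthogonal W : Submodule F V) + finrank F W = finrank F C := by
      have h1 : B.orthogonal (B.orthogonal C ⊔ W) = C ⊓ B.orthogonal W := by
        rw [orth_sup, horth]
      have h2 : B.orthogonal C ⊓ W = ⊥ := by
        rw [eq_bot_iff, ← hC]
        exact le_inf (inf_le_right.trans hWC) inf_le_left
      have h3 := Submodule.finrank_sup_add_finrank_inf_eq (B.orthogonal C) W
      rw [h2, finrank_bot, add_zero] at h3
      have h4 := LinearMap.BilinForm.finrank_orthogonal hB (B.orthogonal C ⊔ W)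
      rw [h1, h3, LinearMap.BilinForm.finrank_orthogonal hB C] at h4
      have h5 : finrank F C ≤ finrank F V := Submodule.finrank_le C
      have h6 : finrank F W ≤ finrank F C := Submodule.finrank_mono hWC
      omega
    by_cases hWW : W ⊓ B.orthogonal W = ⊥
    · -- nondegenerate case
      have hnd := LinearMap.BilinForm.nondegenerate_restrict_of_disjoint_orthogonal B hrefl
        (disjoint_iff.mpr hWW)
      have hcompl : IsCompl W (B.orthogonal W) :=
        (LinearMap.BilinForm.isCompl_orthogonal_iff_disjoint hrefl).mpr (disjoint_iff.mpr hWW)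
      have hW2 := hd2 (B.restrict W) hnd (fun h x y => hinv h x y)
      have hsup : W ⊔ (C ⊓ B.orthogonal W) = C := by
        rw [inf_comm, ← sup_inf_assoc_of_le _ hWC, hcompl.sup_eq_top, top_inf_eq]
      have hnd' : (C ⊓ B.orthogonal W) ⊓ B.orthogonal (C ⊓ B.orthogonal W) = ⊥ := by
        rw [eq_bot_iff, ← hC]
        rintro x ⟨⟨hx1, hx2⟩, hx3⟩
        refine ⟨hx1, ?_⟩
        rw [← hsup, orth_sup]
        exact ⟨hx2, hx3⟩
      obtain ⟨n', hn', hdvd'⟩ := ih (finrank F (C ⊓ B.orthogonal W : Submodule F V)) (by omega)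
        (C ⊓ B.orthogonal W) hC1inv hnd' rfl
      rcases hW2 with ⟨h1, _⟩ | ⟨⟨m, hm⟩, h2⟩
      · exfalso
        obtain ⟨w, hw0, hw⟩ := finrank_eq_one_iff'.mp h1
        have h3 : (w : V) ∈ W ⊓ B.orthogonal W := by
          refine ⟨w.2, ?_⟩
          intro n hn
          obtain ⟨c, hc⟩ := hw ⟨n, hn⟩
          have hc' : n = c • (w : V) := by
            have := congrArg Subtype.val hc
            exact this.symm
          rw [hc', map_smul, LinearMap.smul_apply, halt, smul_zero]
        rw [hWW, Submodule.mem_bot] at h3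
        exact hw0 (Subtype.ext h3)
      · refine ⟨m + n', by omega, ?_⟩
        have h3 : finrank F W / 2 = m := by omega
        rw [h3] at h2
        rw [pow_add]
        refine num ?_ hdvd'
        left
        exact_mod_cast h2
    · -- isotropic case
      have hWle : W ≤ B.orthogonal W := by
        have := hmin (W ⊓ B.orthogonal W) (fun h u hu => ⟨hWinv h u hu.1, hWoinv h u hu.2⟩) hWW
          inf_le_left
        exact inf_eq_left.mp this
      let σ : Subrepresentation ρ := ⟨W, fun h v hv => hWinv h v hv⟩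
      obtain ⟨τ, hτ⟩ := exists_isCompl σ
      set D : Submodule F V := τ.toSubmodule with hD
      have hDinv : ∀ h : H, ∀ u ∈ D, ρ h u ∈ D := fun h u hu => τ.apply_mem_toSubmodule h hu
      have hWD : W ⊓ D = ⊥ := by
        have h1 := hτ.inf_eq_bot
        have h2 := congrArg Subrepresentation.toSubmodule h1
        exact h2
      have hWDs : W ⊔ D = ⊤ := by
        have h1 := hτ.sup_eq_top
        have h2 := congrArg Subrepresentation.toSubmodule h1
        exact h2
      have hWC1 : W ≤ C ⊓ B.orthogonal W := le_inf hWC hWle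
      have hsup : W ⊔ ((C ⊓ B.orthogonal W) ⊓ D) = C ⊓ B.orthogonal W := by
        rw [inf_comm _ D, ← sup_inf_assoc_of_le _ hWC1, hWDs, top_inf_eq]
      have hC1 : C ⊓ B.orthogonal (C ⊓ B.orthogonal W) ≤ W := by
        have h1 : B.orthogonal (C ⊓ B.orthogonal W) = B.orthogonal C ⊔ W := by
          rw [← horth (B.orthogonal C ⊔ W), orth_sup, horth]
        rw [h1]
        rintro x ⟨hx1, hx2⟩
        obtain ⟨a, ha, w, hw, rfl⟩ := Submodule.mem_sup.mp hx2
        have h2 : a ∈ C ⊓ B.orthogonal C := by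
          refine ⟨?_, ha⟩
          have := C.sub_mem hx1 (hWC hw)
          rwa [add_sub_cancel_right] at this
        rw [hC, Submodule.mem_bot] at h2
        rw [h2, zero_add]
        exact hw
      have hnd' : ((C ⊓ B.orthogonal W) ⊓ D) ⊓ B.orthogonal ((C ⊓ B.orthogonal W) ⊓ D) = ⊥ := by
        rw [eq_bot_iff, ← hWD]
        rintro x ⟨⟨⟨hx1, hx2⟩, hx3⟩, hx4⟩
        refine ⟨hC1 ⟨hx1, ?_⟩, hx3⟩
        rw [← hsup, orth_sup]
        exact ⟨hx2, hx4⟩
      have hdim2 : finrank F ((C ⊓ B.orthogonal W) ⊓ D : Submodule F V) + finrank F W =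
          finrank F (C ⊓ B.orthogonal W : Submodule F V) := by
        have h3 := Submodule.finrank_sup_add_finrank_inf_eq W ((C ⊓ B.orthogonal W) ⊓ D)
        have h4 : W ⊓ ((C ⊓ B.orthogonal W) ⊓ D) = ⊥ := by
          rw [eq_bot_iff, ← hWD]
          exact le_inf inf_le_left (inf_le_right.trans inf_le_right)
        rw [hsup, h4, finrank_bot, add_zero] at h3
        omega
      obtain ⟨n', hn', hdvd'⟩ := ih (finrank F ((C ⊓ B.orthogonal W) ⊓ D : Submodule F V)) (by omega)
        ((C ⊓ B.orthogonal W) ⊓ D) (fun h u hu => ⟨hC1inv h u hu.1, hDinv h u hu.2⟩) hnd' rfl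
      refine ⟨finrank F W + n', by omega, ?_⟩
      rw [pow_add]
      refine num ?_ hdvd'
      right
      have h1 : 1 ≤ Fintype.card F ^ (finrank F W) := Nat.one_le_pow _ _ Fintype.card_pos
      have h2 := hd1
      zify [h1] at h2
      exact h2
  obtain ⟨n, hn⟩ := key (finrank F V) ⊤ (fun _ _ _ => Submodule.mem_top) (by
    rw [top_inf_eq]
    exact LinearMap.BilinForm.orthogonal_top_eq_bot hB) (finrank_top F V)
  exact ⟨n, hn⟩

end Cfsg.Agent.H23.SympFpf
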