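import Cfsg.Agent.H23_SympFpf
import Cfsg.Prelude.Def_Transfer

set_option autoImplicit false

namespace Cfsg.Agent.H23.XForm

open scoped commutatorElement
open Subgroup

universe u w

section

variable {P : Type u} [Group P]

theorem comm_mem (hZ : commutator P ≤ center P) (x y : P) : ⁅x, y⁆ ∈ center P :=
  hZ (commutator_mem_commutator (mem_top x) (mem_top y))

theorem mul_comm_left (hZ : commutator P ≤ center P) (a b y : P) : ⁅a * b, y⁆ = ⁅a, y⁆ * ⁅b, y⁆ := by
  have h1 := mem_center_iff.mp (comm_mem hZ b y)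
  have h2 : ⁅a, y⁆ * ⁅b, y⁆ = a * ⁅b, y⁆ * y * a⁻¹ * y⁻¹ := by
    have : ⁅a, y⁆ * ⁅b, y⁆ = a * (y * a⁻¹ * y⁻¹ * ⁅b, y⁆) := by
      rw [commutatorElement_def a y]; group
    rw [this, h1]; group
  rw [h2]
  simp only [commutatorElement_def]
  group

theorem mul_comm_right (hZ : commutator P ≤ center P) (x a b : P) : ⁅x, a * b⁆ = ⁅x, a⁆ * ⁅x, b⁆ := by
  have h1 := mem_center_iff.mp (comm_mem hZ x b)
  have h2 : ⁅x, a * b⁆ = ⁅x, a⁆ * (a * ⁅x, b⁆ * a⁻¹) := by
    simp only [commutatorElement_def]; group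
  rw [h2, h1 a]; group

end

theorem of_eq_one_iff {P : Type u} [Group P] (x : P) :
    Abelianization.of x = 1 ↔ x ∈ commutator P := by
  have := Abelianization.ker_of P
  rw [← this, MonoidHom.mem_ker]

theorem of_surj {P : Type u} [Group P] (v : Abelianization P) :
    ∃ x : P, Abelianization.of x = v := QuotientGroup.mk'_surjective _ v

theorem main_abs {P : Type u} [Group P] [Finite P] {p : ℕ} [Fact p.Prime]
    (hZ : commutator P ≤ center P) (hZc : Nat.card (center P) = p) (n : ℕ)
    (hn : Nat.card P = p ^ (2 * n + 1)) {H : Type w} [CommGroup H] [Finite H]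
    (hcop : (Nat.card H).Coprime p) (φ : H →* MulAut P)
    (hfix : ∀ h, h ≠ 1 → ∀ x, φ h x = x ↔ x ∈ center P)
    {V : Type u} [AddCommGroup V] [Module (ZMod p) V] [Finite V] (π : P → V)
    (hπs : Function.Surjective π) (hπm : ∀ x y, π (x * y) = π x + π y)
    (hπ0 : ∀ x, π x = 0 ↔ x ∈ center P) (hV : Nat.card V = p ^ (2 * n)) :
    Nat.card H ∣ p ^ n + 1 ∨ Nat.card H ∣ p ^ n - 1 := by
  classical
  have hp : p.Prime := Fact.out
  have hcyc : Nat.card (center P) = Nat.card (Multiplicative (ZMod p)) := by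
    rw [hZc, Nat.card_congr Multiplicative.toAdd, Nat.card_zmod]
  let θ : center P ≃* Multiplicative (ZMod p) := mulEquivOfPrimeCardEq (p := p) hZc
    (by rw [← hcyc, hZc])
  haveI : FiniteDimensional (ZMod p) V := Module.Finite.of_finite
  have hπ1 : π 1 = 0 := (hπ0 1).mpr (one_mem _)
  have hπi : ∀ x, π x⁻¹ = - π x := by
    intro x
    have := hπm x⁻¹ x
    rw [inv_mul_cancel, hπ1] at this
    exact eq_neg_of_add_eq_zero_left this.symm
  have hπe : ∀ x y, π x = π y ↔ ∃ z ∈ center P, y = x * z := by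
    intro x y
    constructor
    · intro h
      refine ⟨x⁻¹ * y, ?_, by group⟩
      rw [← hπ0, hπm, hπi, h, neg_add_cancel]
    · rintro ⟨z, hz, rfl⟩
      rw [hπm, (hπ0 z).mpr hz, add_zero]
  have hφc : ∀ h, ∀ z ∈ center P, φ h z = z := by
    intro h z hz
    by_cases h1 : h = 1
    · rw [h1, map_one, MulAut.one_apply]
    · exact (hfix h h1 z).mpr hz
  have hwd : ∀ h x y, π x = π y → π (φ h x) = π (φ h y) := by
    intro h x y hxy
    obtain ⟨z, hz, rfl⟩ := (hπe x y).mp hxy
    rw [map_mul, hφc h z hz, hπm, (hπ0 z).mpr hz, add_zero]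
  let σ : V → P := Function.surjInv hπs
  have hσ : ∀ v, π (σ v) = v := Function.surjInv_eq hπs
  let rep : H → (V →ₗ[ZMod p] V) := fun h =>
    (AddMonoidHom.mk' (fun v => π (φ h (σ v))) (fun a b => by
      rw [← hπm, ← map_mul]
      apply hwd
      rw [hσ, hπm, hσ, hσ])).toZModLinearMap p
  have hrep : ∀ h (x : P), rep h (π x) = π (φ h x) := fun h x => hwd h _ _ (hσ _)
  let ρ : Representation (ZMod p) H V :=
    { toFun := rep
      map_one' := by
        apply LinearMap.ext
        intro v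
        obtain ⟨x, rfl⟩ := hπs v
        rw [hrep, map_one]
        rfl
      map_mul' := by
        intro a b
        apply LinearMap.ext
        intro v
        obtain ⟨x, rfl⟩ := hπs v
        rw [Module.End.mul_apply, hrep, hrep, hrep, map_mul]
        rfl }
  have hρ : ∀ h (x : P), ρ h (π x) = π (φ h x) := hrep
  -- the form
  let c : P → P → ZMod p := fun x y => Multiplicative.toAdd (θ ⟨⁅x, y⁆, comm_mem hZ x y⟩)
  have hcl : ∀ x x' y, c (x * x') y = c x y + c x' y := by
    intro x x' y
    have h1 : (⟨⁅x * x', y⁆, comm_mem hZ (x * x') y⟩ : center P) =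
      ⟨⁅x, y⁆, comm_mem hZ x y⟩ * ⟨⁅x', y⁆, comm_mem hZ x' y⟩ := Subtype.ext (mul_comm_left hZ x x' y)
    simp only [c]
    rw [h1, map_mul]
    rfl
  have hcr : ∀ x y y', c x (y * y') = c x y + c x y' := by
    intro x y y'
    have h1 : (⟨⁅x, y * y'⁆, comm_mem hZ x (y * y')⟩ : center P) =
      ⟨⁅x, y⁆, comm_mem hZ x y⟩ * ⟨⁅x, y'⁆, comm_mem hZ x y'⟩ := Subtype.ext (mul_comm_right hZ x y y')
    simp only [c]
    rw [h1, map_mul]
    rfl
  have hc0 : ∀ x y, c x y = 0 ↔ ⁅x, y⁆ = 1 := by
    intro x y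
    constructor
    · intro h
      have h1 : θ ⟨⁅x, y⁆, comm_mem hZ x y⟩ = 1 := h
      have h2 := (MulEquiv.map_eq_one_iff θ).mp h1
      exact congrArg Subtype.val h2
    · intro h
      have h1 : (⟨⁅x, y⁆, comm_mem hZ x y⟩ : center P) = 1 := Subtype.ext h
      simp only [c]
      rw [h1, map_one]
      rfl
  have hcz : ∀ x y, ∀ z ∈ center P, c (x * z) y = c x y := by
    intro x y z hz
    rw [hcl]
    have : c z y = 0 := by
      rw [hc0, commutatorElement_eq_one_iff_mul_comm]
      exact (mem_center_iff.mp hz y).symm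
    rw [this, add_zero]
  have hcz' : ∀ x y, ∀ z ∈ center P, c x (y * z) = c x y := by
    intro x y z hz
    rw [hcr]
    have : c x z = 0 := by
      rw [hc0, commutatorElement_eq_one_iff_mul_comm]
      exact (mem_center_iff.mp hz x)
    rw [this, add_zero]
  have hcwd : ∀ x x' y y', π x = π x' → π y = π y' → c x y = c x' y' := by
    intro x x' y y' h1 h2
    obtain ⟨z, hz, rfl⟩ := (hπe _ _).mp h1
    obtain ⟨z', hz', rfl⟩ := (hπe _ _).mp h2
    rw [hcz _ _ z hz, hcz' _ _ z' hz']
  let b : V → V → ZMod p := fun v w => c (σ v) (σ w)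
  have hb : ∀ x y, b (π x) (π y) = c x y := fun x y => hcwd _ _ _ _ (hσ _) (hσ _)
  have hbl : ∀ x x' y, b (x + x') y = b x y + b x' y := by
    intro x x' y
    simp only [b]
    rw [← hcl]
    apply hcwd _ _ _ _ _ rfl
    rw [hπm, hσ, hσ, hσ]
  have hbr : ∀ x y y', b x (y + y') = b x y + b x y' := by
    intro x y y'
    simp only [b]
    rw [← hcr]
    apply hcwd _ _ _ _ rfl
    rw [hπm, hσ, hσ, hσ]
  let B : LinearMap.BilinForm (ZMod p) V :=
    LinearMap.mk₂ (ZMod p) b hbl
      (fun c x y => ZMod.map_smul (AddMonoidHom.mk' (fun z => b z y) (fun a a' => hbl a a' y)) c x)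
      hbr
      (fun c x y => ZMod.map_smul (AddMonoidHom.mk' (fun z => b x z) (fun a a' => hbr x a a')) c y)
  have hB : ∀ x y : P, B (π x) (π y) = c x y := hb
  have hcardH : (Nat.card H : ZMod p) ≠ 0 := by
    intro h0
    rw [ZMod.natCast_eq_zero_iff] at h0
    have := Nat.Coprime.coprime_dvd_left h0 hcop
    rw [Nat.coprime_self] at this
    exact hp.one_lt.ne' this
  have hnd1 : LinearMap.SeparatingLeft B := by
    intro v hv
    obtain ⟨x, rfl⟩ := hπs v
    rw [hπ0, mem_center_iff]
    intro y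
    have h1 := (hc0 x y).mp ((hB x y).symm.trans (hv _))
    rw [commutatorElement_eq_one_iff_mul_comm] at h1
    exact h1.symm
  have hnd2 : LinearMap.SeparatingRight B := by
    intro v hv
    obtain ⟨x, rfl⟩ := hπs v
    rw [hπ0, mem_center_iff]
    intro y
    have h1 := (hc0 y x).mp ((hB y x).symm.trans (hv _))
    rw [commutatorElement_eq_one_iff_mul_comm] at h1
    exact h1
  have halt : ∀ v, B v v = 0 := by
    intro v
    obtain ⟨x, rfl⟩ := hπs v
    rw [hB, hc0, commutatorElement_self]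
  have hBinv : ∀ (h : H) (x y : V), B (ρ h x) (ρ h y) = B x y := by
    intro h v v'
    obtain ⟨x, rfl⟩ := hπs v
    obtain ⟨y, rfl⟩ := hπs v'
    rw [hρ, hρ, hB, hB]
    have h1 : (⟨⁅φ h x, φ h y⁆, comm_mem hZ (φ h x) (φ h y)⟩ : center P) =
        ⟨⁅x, y⁆, comm_mem hZ x y⟩ := by
      apply Subtype.ext
      change ⁅φ h x, φ h y⁆ = ⁅x, y⁆
      rw [← map_commutatorElement]
      exact hφc h _ (comm_mem hZ x y)
    simp only [c]
    rw [h1]
  obtain ⟨m, hm, hres⟩ := SympFpf.main hcardH ρ (by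
    intro h v hv
    by_cases h1 : h = 1
    · left; exact h1
    right
    obtain ⟨x, rfl⟩ := hπs v
    rw [hρ] at hv
    obtain ⟨z, hzc, hφx⟩ := (hπe _ _).mp hv.symm
    have hφz : φ h z = z := hφc h z hzc
    have hiter : ∀ k : ℕ, φ (h ^ k) x = x * z ^ k := by
      intro k
      induction k with
      | zero => simp
      | succ k ihk =>
        rw [pow_succ', map_mul, MulAut.mul_apply, ihk, map_mul, map_pow, hφx, hφz, mul_assoc,
          ← pow_succ']
    have h2 := hiter (Nat.card H)
    rw [pow_card_eq_one', map_one, MulAut.one_apply] at h2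
    have h3 : z ^ (Nat.card H) = 1 := by
      have h4 : x * 1 = x * z ^ (Nat.card H) := by rw [mul_one]; exact h2
      exact (mul_left_cancel h4).symm
    have h4 : z ^ p = 1 := by
      have h5 : (⟨z, hzc⟩ : center P) ^ (Nat.card (center P)) = 1 := pow_card_eq_one'
      rw [hZc] at h5
      exact congrArg Subtype.val h5
    have h5 : z = 1 := by
      have h6 := Nat.dvd_gcd (orderOf_dvd_of_pow_eq_one h3) (orderOf_dvd_of_pow_eq_one h4)
      rw [hcop, Nat.dvd_one] at h6
      exact orderOf_eq_one_iff.mp h6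
    rw [h5, mul_one] at hφx
    rw [hπ0]
    exact (hfix h h1 x).mp hφx) B ⟨hnd1, hnd2⟩ halt hBinv
  · -- conclusion
    have hm2 : Nat.card V = p ^ (2 * m) := by
      rw [← hm]
      have := Module.natCard_eq_pow_finrank (K := ZMod p) (V := V)
      rw [this, Nat.card_zmod]
    have hnm : m = n := by
      have := Nat.pow_right_injective hp.two_le (hm2.symm.trans hV)
      omega
    subst hnm
    rw [ZMod.card] at hres
    rcases hres with h | h
    · left
      exact_mod_cast h
    · right
      have h1 : 1 ≤ p ^ m := Nat.one_le_pow _ _ hp.pos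
      zify [h1]
      exact h

theorem main {P : Type u} [Group P] [Finite P] {p : ℕ} [Fact p.Prime]
    (hZ : commutator P = center P) (hZc : Nat.card (center P) = p) (n : ℕ)
    (hn : Nat.card P = p ^ (2 * n + 1)) {H : Type w} [CommGroup H] [Finite H]
    (hcop : (Nat.card H).Coprime p) (φ : H →* MulAut P)
    (hfix : ∀ h, h ≠ 1 → ∀ x, φ h x = x ↔ x ∈ center P) :
    Nat.card H ∣ p ^ n + 1 ∨ Nat.card H ∣ p ^ n - 1 := by
  classical
  have hp : p.Prime := Fact.out
  have hpow : ∀ x : P, x ^ p ∈ center P := by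
    intro x
    rw [mem_center_iff]
    intro y
    have h0 : ∀ k : ℕ, ⁅x ^ k, y⁆ = ⁅x, y⁆ ^ k := by
      intro k
      induction k with
      | zero => simp
      | succ k ih => rw [pow_succ, mul_comm_left hZ.le, ih, pow_succ]
    have h5 : (⟨⁅x, y⁆, comm_mem hZ.le x y⟩ : center P) ^ (Nat.card (center P)) = 1 :=
      pow_card_eq_one'
    rw [hZc] at h5
    have h6 : ⁅x, y⁆ ^ p = 1 := congrArg Subtype.val h5
    rw [← h0, commutatorElement_eq_one_iff_mul_comm] at h6
    exact h6.symm
  have hsm : ∀ v : Additive (Abelianization P), p • v = 0 := by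
    intro v
    obtain ⟨x, hx⟩ := of_surj (Additive.toMul v)
    have h1 : (Additive.toMul v) ^ p = 1 := by
      rw [← hx, ← map_pow, of_eq_one_iff, hZ]
      exact hpow x
    exact h1
  letI : Module (ZMod p) (Additive (Abelianization P)) := AddCommGroup.zmodModule hsm
  haveI : Finite (Additive (Abelianization P)) := inferInstanceAs (Finite (Abelianization P))
  refine main_abs hZ.le hZc n hn hcop φ hfix
    (V := Additive (Abelianization P)) (fun x => Additive.ofMul (Abelianization.of x)) ?_ ?_ ?_ ?_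
  · intro v
    obtain ⟨x, hx⟩ := of_surj (Additive.toMul v)
    exact ⟨x, congrArg Additive.ofMul hx⟩
  · intro x y
    exact congrArg Additive.ofMul (map_mul Abelianization.of x y)
  · intro x
    rw [← hZ, ← of_eq_one_iff]
    exact Iff.rfl
  · have h1 : Nat.card (Additive (Abelianization P)) = (center P).index := by
      rw [← hZ]
      rfl
    have h2 := (center P).card_mul_index
    rw [hZc, hn, ← h1, pow_succ, mul_comm] at h2
    exact Nat.eq_of_mul_eq_mul_right hp.pos h2

end Cfsg.Agent.H23.XForm
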