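import Mathlib
import Cfsg.Agent.H22_PSolv
import Cfsg.Agent.H2_PCons

/-! `p`-length is at most the nilpotency class of a Sylow `p`-subgroup. -/

set_option autoImplicit false

open Subgroup Cfsg

universe u

namespace Cfsg.Agent.H2.PLen

variable {p : ℕ} [hp : Fact p.Prime]

theorem plength_le (n : ℕ) : ∀ (G : Type u) [Group G] [Finite G], IsPSolvable p G → ∀ S : Sylow p G,
    Group.nilpotencyClass S ≤ n → PLengthLE p n G := by
  induction n with
  | zero =>
    intro G _ _ hG S hS
    have hnil : Group.IsNilpotent S := S.isPGroup'.isNilpotent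
    have h1 : Subsingleton S := Group.nilpotencyClass_zero_iff_subsingleton.1 (Nat.le_zero.1 hS)
    rw [Cfsg.Agent.H22.PSolv.plengthLE_zero_iff]
    have h2 : Nat.card S = 1 := Nat.card_eq_one_iff_unique.2 ⟨h1, ⟨1⟩⟩
    have h3 : ¬ p ∣ Nat.card G := by
      intro h
      have h4 := S.card_eq_multiplicity
      rw [h2] at h4
      have h5 : 0 < (Nat.card G).factorization p := hp.out.factorization_pos_of_dvd Nat.card_pos.ne' h
      have h6 : 1 < p ^ (Nat.card G).factorization p := Nat.one_lt_pow h5.ne' hp.out.one_lt
      omega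
    exact ((Nat.Prime.coprime_iff_not_dvd hp.out).2 h3).symm
  | succ n ih =>
    intro G _ _ hG S hS
    have hnil : Group.IsNilpotent S := S.isPGroup'.isNilpotent
    set K := pPrimeCore p G with hK
    have hKn : K.Normal := Cfsg.Agent.H1.Nilp.pPrimeCore_normal p
    have hOn : (pCore p (G ⧸ K)).Normal := Cfsg.Agent.H1.Nilp.pCore_normal p
    have hOp : IsPGroup p (pCore p (G ⧸ K)) := Cfsg.Agent.H1.Nilp.pCore_isPGroup p
    set N := (pCore p (G ⧸ K)).comap (QuotientGroup.mk' K) with hN
    have hNn : N.Normal := hOn.comap _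
    have hKN : K ≤ N := Cfsg.Agent.H1.Hall.le_comap_mk _ _
    have hc : centralizer (pCore p (G ⧸ K) : Set (G ⧸ K)) ≤ pCore p (G ⧸ K) :=
      Cfsg.Agent.H22.PSolv.centralizer_pCore_le (Cfsg.Agent.H22.PSolv.isPSolvable_quotient K hG)
        (Cfsg.Agent.H11.Cores.pPrimeCore_quotient p)
    refine Cfsg.Agent.H22.PSolv.plengthLE_succ_of_quotient K N hKN (Cfsg.Agent.H1.Nilp.pPrimeCore_coprime p) ?_ ?_
    · rw [Cfsg.Agent.H1.Hall.relIndex_comap_mk]
      exact IsPGroup.iff_card.1 hOp
    · set f := QuotientGroup.mk' N with hf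
      have hfs : Function.Surjective f := QuotientGroup.mk'_surjective N
      refine ih (G ⧸ N) (Cfsg.Agent.H22.PSolv.isPSolvable_quotient N hG) (S.mapSurjective hfs) ?_
      let g : S →* (S : Subgroup G).map f := f.subgroupMap S
      have hgs : Function.Surjective g := f.subgroupMap_surjective S
      have hker : center S ≤ g.ker := by
        intro x hx
        rw [MonoidHom.mem_ker]
        apply Subtype.ext
        change f (x : G) = 1
        rw [hf, QuotientGroup.mk'_apply, QuotientGroup.eq_one_iff]
        apply hc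
        rw [mem_centralizer_iff]
        intro y hy
        have hyS : y ∈ (S.mapSurjective (QuotientGroup.mk'_surjective K) : Subgroup (G ⧸ K)) :=
          hOp.le_sylow_of_normal (S.mapSurjective (QuotientGroup.mk'_surjective K)) hy
        obtain ⟨s, hs, rfl⟩ := hyS
        rw [← map_mul, ← map_mul]
        congr 1
        exact congrArg Subtype.val ((mem_center_iff.1 hx) ⟨s, hs⟩)
      have h1 : Group.nilpotencyClass ((S : Subgroup G).map f) ≤ Group.nilpotencyClass (S ⧸ center S) :=
        Group.nilpotencyClass_le_of_surjective (QuotientGroup.lift (center S) g hker) (by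
          intro y
          obtain ⟨x, rfl⟩ := hgs y
          exact ⟨QuotientGroup.mk x, rfl⟩)
      rw [Group.nilpotencyClass_quotient_center] at h1
      have h2 : Group.nilpotencyClass ((S : Subgroup G).map f) ≤ n := h1.trans (by omega)
      exact h2

end Cfsg.Agent.H2.PLen
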