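import Mathlib
import Cfsg.Agent.H2_PLen
import Cfsg.Agent.H2_PGroup
import Cfsg.Agent.H24_FratAut
import Cfsg.Agent.H3_Burnside
import Cfsg.Agent.H11_Cores
import Cfsg.Agent.H22_PSolv

/-! Groups of exponent 6 have 3-length one. -/

set_option autoImplicit false

open Subgroup

universe u

namespace Cfsg.Agent.H24.Exp6

theorem alg {V : Type*} [Group V] (hc : ∀ a b : V, a * b = b * a) (h3 : ∀ v : V, v ^ 3 = 1)
    (X A B : V → V) (hX : Function.Surjective X) (mA : ∀ u v, A (u * v) = A u * A v)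
    (mB : ∀ u v, B (u * v) = B u * B v) (iA : ∀ u, A u⁻¹ = (A u)⁻¹) (iB : ∀ u, B u⁻¹ = (B u)⁻¹)
    (hA : ∀ v, A (A v) = v) (hB : ∀ v, B (B v) = v) (hAB : ∀ v, A (B v) = B (A v))
    (h : ∀ w, A w * B (X w) = w * X w) (w : V) : A w = B w := by
  letI : CommGroup V := { ‹Group V› with mul_comm := hc }
  have e1 : ∀ w, B (A w) * A w = B w * w := by
    intro w
    have h1 := congrArg B (h w)
    rw [mB, hB, mB] at h1
    have h2 : B (X w) = (A w)⁻¹ * (w * X w) := by rw [← h w]; group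
    rw [h2] at h1
    -- B (A w) * X w = B w * ((A w)⁻¹ * (w * X w))
    calc B (A w) * A w = (B (A w) * X w) * (A w * (X w)⁻¹) := by
          rw [mul_comm (A w), mul_assoc, mul_inv_cancel_left]
      _ = (B w * ((A w)⁻¹ * (w * X w))) * (A w * (X w)⁻¹) := by rw [h1]
      _ = B w * w := by
          have : (A w)⁻¹ * (w * X w) * (A w * (X w)⁻¹) = w := by
            rw [mul_comm (A w)⁻¹, mul_assoc, inv_mul_cancel_left, mul_inv_cancel_right]
          rw [mul_assoc, this]
  have e2 : ∀ u, A (B u) * B u = u * A u := by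
    intro u
    obtain ⟨w, rfl⟩ := hX u
    have h1 := congrArg A (h w)
    rw [mA, hA, mA] at h1
    -- w * A (B (X w)) = A w * A (X w)
    have h2 : A w = w * X w * (B (X w))⁻¹ := by rw [← h w]; group
    rw [h2] at h1
    have h3 : A (B (X w)) = X w * (B (X w))⁻¹ * A (X w) := by
      have := congrArg (fun t => w⁻¹ * t) h1
      simp only [inv_mul_cancel_left] at this
      rw [this]; group
    rw [h3, mul_assoc (X w), mul_assoc (X w), mul_comm (B (X w))⁻¹, mul_assoc, inv_mul_cancel, mul_one]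
  have h1 := e1 w
  have h2 := e2 w
  rw [hAB] at h2
  -- B(A w) * A w = B w * w ; B (A w) * B w = w * A w
  have h4 : A w * A w = B w * B w := by
    have h5 : B (A w) = B w * w * (A w)⁻¹ := by rw [← h1]; group
    rw [h5] at h2
    -- B w * w * (A w)⁻¹ * B w = w * A w
    have h6 : w * (B w * B w) = w * (A w * A w) := by
      calc w * (B w * B w) = (B w * w * (A w)⁻¹ * B w) * A w := by
            rw [mul_assoc (B w * w), mul_assoc (B w * w), mul_comm ((A w)⁻¹ * B w), mul_inv_cancel_left,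
              mul_comm (B w) w, mul_assoc]
        _ = w * A w * A w := by rw [h2]
        _ = _ := by rw [mul_assoc]
    exact (mul_left_cancel h6).symm
  have h5 : ∀ v : V, v = (v * v) * (v * v) := by
    intro v
    have := h3 v
    calc v = v ^ 3 * v := by rw [this, one_mul]
      _ = _ := by rw [pow_succ, pow_two]; group
  rw [h5 (A w), h5 (B w), h4]

theorem pow_of_pgroup {G : Type*} [Group G] [Finite G] (h : ∀ x : G, x ^ 6 = 1) {p : ℕ} (hp : p.Prime)
    {P : Subgroup G} (hP : IsPGroup p P) {x : G} (hx : x ∈ P) : x ^ p = 1 := by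
  obtain ⟨k, hk⟩ := hP ⟨x, hx⟩
  have h1 : orderOf x ∣ p ^ k := by
    rw [orderOf_dvd_iff_pow_eq_one]
    exact congrArg Subtype.val hk
  have h2 : orderOf x ∣ 6 := orderOf_dvd_of_pow_eq_one (h x)
  obtain ⟨j, -, hj⟩ := (Nat.dvd_prime_pow hp).1 h1
  rw [← orderOf_dvd_iff_pow_eq_one]
  rw [hj] at h2 ⊢
  rcases Nat.lt_or_ge j 2 with hj2 | hj2
  · calc p ^ j ∣ p ^ 1 := pow_dvd_pow p (by omega)
      _ = p := pow_one p
  · exfalso
    have h3 : p ^ 2 ∣ 6 := (pow_dvd_pow p hj2).trans h2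
    have h4 : p ≤ 2 := by
      have := Nat.le_of_dvd (by norm_num) h3
      nlinarith
    have h5 : p = 2 := le_antisymm h4 hp.two_le
    subst h5
    revert h3; decide

/-- Automorphisms acting trivially on `P / Φ(P)` for a normal `p`-subgroup. -/
theorem mem_of_trivial {G : Type u} [Group G] [Finite G] {p : ℕ} [hp : Fact p.Prime] (R : Subgroup G)
    [R.Normal] (hR : IsPGroup p R) (hC : centralizer (R : Set G) ≤ R) (hRc : R = Cfsg.pCore p G)
    (x : G) (hx : ∀ r : R, MulAut.conjNormal x r * r⁻¹ ∈ frattini R) : x ∈ R := by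
  classical
  let f : G →* MulAut R := MulAut.conjNormal
  let K : Subgroup G := ((FratAut.toQuot R).comp f).ker
  have hxK : x ∈ K := by
    rw [MonoidHom.mem_ker, MonoidHom.comp_apply, ← MonoidHom.mem_ker, FratAut.mem_ker_toQuot]
    exact hx
  have hKN : K.Normal := inferInstance
  obtain ⟨n, hn⟩ := IsPGroup.iff_card.1 hR
  obtain ⟨r, hr⟩ := (Nat.dvd_prime_pow hp.out).1 (hn ▸ (frattini R).index_dvd_card)
  have h1 : Nat.card (K.map f) ∣ p ^ (r * (n - r)) := by
    refine FratAut.card_dvd hn hr.2 (K.map f) ?_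
    rintro α ⟨k, hk, rfl⟩
    have : f k ∈ (FratAut.toQuot R).ker := hk
    exact FratAut.mem_ker_toQuot.1 this
  have h2 := H11.Cores.card_eq_card_ker_inf_mul_card_map f K
  have h3 : f.ker ≤ R := by
    intro y hy
    apply hC
    rw [mem_centralizer_iff]
    intro z hz
    have h4 := congrArg (fun α : MulAut R => ((α ⟨z, hz⟩ : R) : G)) (MonoidHom.mem_ker.1 hy)
    have h5 : y * z * y⁻¹ = z := h4
    calc z * y = (y * z * y⁻¹) * y := by rw [h5]
      _ = y * z := by group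
  have hKp : IsPGroup p K := by
    obtain ⟨i, -, hi⟩ := (Nat.dvd_prime_pow hp.out).1 h1
    have h4 : IsPGroup p (f.ker ⊓ K : Subgroup G) := hR.to_le (inf_le_left.trans h3)
    obtain ⟨j, hj⟩ := IsPGroup.iff_card.1 h4
    rw [hi] at h2
    rw [hj, ← pow_add] at h2
    exact IsPGroup.of_card h2
  rw [hRc]
  exact H11.Cores.le_pCore p hKp hxK

theorem index_coprime {X : Type u} [Group X] [Finite X] (h : ∀ x : X, x ^ 6 = 1)
    (hs : Group.IsSolvable X) (h0 : Cfsg.pPrimeCore 3 X = ⊥) : ¬ 3 ∣ (Cfsg.pCore 3 X).index := by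
  classical
  haveI : Fact (Nat.Prime 3) := ⟨Nat.prime_three⟩
  haveI : Fact (Nat.Prime 2) := ⟨Nat.prime_two⟩
  haveI hRn : (Cfsg.pCore 3 X).Normal := H1.Nilp.pCore_normal 3
  have hRp : IsPGroup 3 (Cfsg.pCore 3 X) := H1.Nilp.pCore_isPGroup 3
  have hC := H22.PSolv.centralizer_pCore_le (p := 3) (H22.PSolv.isPSolvable_of_isSolvable hs) h0
  have hYc := H22.PSolv.pCore_quotient (p := 3) (G := X)
  obtain ⟨R, hR⟩ : ∃ R, R = Cfsg.pCore 3 X := ⟨_, rfl⟩
  rw [← hR] at hRp hC ⊢
  haveI hRn' : R.Normal := hR ▸ hRn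
  have hYc' : Cfsg.pCore 3 (X ⧸ R) = ⊥ := by
    subst hR; exact hYc
  clear hYc
  have hR3 : ∀ r : R, r ^ 3 = 1 := fun r => Subtype.ext (pow_of_pgroup h Nat.prime_three hRp r.2)
  intro hdvd
  -- the action
  let ρ : X →* MulAut (R ⧸ frattini R) := (FratAut.toQuot R).comp (MulAut.conjNormal (H := R))
  have hρ : ∀ (x : X) (r : R), ρ x (QuotientGroup.mk r) = QuotientGroup.mk (MulAut.conjNormal x r) :=
    fun _ _ => rfl
  have hcomm := H2.PGroup.commutator_le_frattini hRp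
  have hVc : ∀ a b : R ⧸ frattini R, a * b = b * a := by
    intro a b
    obtain ⟨a, rfl⟩ := QuotientGroup.mk_surjective a
    obtain ⟨b, rfl⟩ := QuotientGroup.mk_surjective b
    rw [← QuotientGroup.mk_mul, ← QuotientGroup.mk_mul, QuotientGroup.eq]
    apply hcomm
    have e : (a * b)⁻¹ * (b * a) = b⁻¹ * a⁻¹ * b⁻¹⁻¹ * a⁻¹⁻¹ := by group
    rw [e]
    exact Subgroup.commutator_mem_commutator (Subgroup.mem_top _) (Subgroup.mem_top _)
  have hV3 : ∀ v : R ⧸ frattini R, v ^ 3 = 1 := by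
    intro v
    obtain ⟨v, rfl⟩ := QuotientGroup.mk_surjective v
    rw [← QuotientGroup.mk_pow, hR3, QuotientGroup.mk_one]
  have hRker : ∀ r ∈ R, ρ r = 1 := by
    intro r hr
    apply MulEquiv.ext
    intro v
    obtain ⟨v, rfl⟩ := QuotientGroup.mk_surjective v
    rw [hρ, MulAut.one_apply]
    have e : (MulAut.conjNormal r v : R) = (⟨r, hr⟩ : R) * v * (⟨r, hr⟩ : R)⁻¹ := Subtype.ext rfl
    rw [e, QuotientGroup.mk_mul, QuotientGroup.mk_mul, hVc (QuotientGroup.mk _), mul_assoc,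
      ← QuotientGroup.mk_mul, mul_inv_cancel, QuotientGroup.mk_one, mul_one]
  let ρ' : X ⧸ R →* MulAut (R ⧸ frattini R) := QuotientGroup.lift R ρ (fun r hr => hRker r hr)
  have hρ' : ∀ x : X, ρ' (QuotientGroup.mk x) = ρ x := fun _ => rfl
  have hinj : Function.Injective ρ' := by
    rw [injective_iff_map_eq_one]
    intro y hy
    obtain ⟨x, rfl⟩ := QuotientGroup.mk_surjective y
    rw [hρ'] at hy
    rw [QuotientGroup.eq_one_iff]
    apply mem_of_trivial R hRp hC hR x
    exact FratAut.mem_ker_toQuot.1 (show FratAut.toQuot R (MulAut.conjNormal x) = 1 from hy)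
  have hY6 : ∀ y : X ⧸ R, y ^ 6 = 1 := by
    intro y
    obtain ⟨x, rfl⟩ := QuotientGroup.mk_surjective y
    rw [← QuotientGroup.mk_pow, h, QuotientGroup.mk_one]
  have factA : ∀ y : X ⧸ R, y ^ 3 = 1 → ∀ v : R ⧸ frattini R, v * ρ' y v * ρ' y (ρ' y v) = 1 := by
    intro y hy v
    obtain ⟨x, rfl⟩ := QuotientGroup.mk_surjective y
    obtain ⟨r, rfl⟩ := QuotientGroup.mk_surjective v
    have hx3 : ∀ s : R, ((s : X) * x) ^ 3 = 1 := by
      intro s
      have h1 : ((s : X) * x) ^ 3 ∈ R := by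
        rw [← QuotientGroup.eq_one_iff, QuotientGroup.mk_pow, QuotientGroup.mk_mul,
          (QuotientGroup.eq_one_iff _).2 s.2, one_mul]
        exact hy
      have h2 := congrArg Subtype.val (hR3 ⟨_, h1⟩)
      have h3 : (((s : X) * x) ^ 3) ^ 3 = 1 := h2
      have h4 := h ((s : X) * x)
      calc ((s : X) * x) ^ 3 = (((s : X) * x) ^ 3) ^ 3 * ((((s : X) * x) ^ 6))⁻¹ := by group
        _ = 1 := by rw [h3, h4]; group
    rw [hρ', hρ, hρ, ← QuotientGroup.mk_mul, ← QuotientGroup.mk_mul]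
    have e : r * (MulAut.conjNormal x r : R) * (MulAut.conjNormal x (MulAut.conjNormal x r : R) : R) = 1 := by
      apply Subtype.ext
      change (r : X) * (x * r * x⁻¹) * (x * (x * r * x⁻¹) * x⁻¹) = 1
      have h1 := hx3 r
      have h2 := hx3 1
      rw [OneMemClass.coe_one, one_mul] at h2
      calc (r : X) * (x * r * x⁻¹) * (x * (x * r * x⁻¹) * x⁻¹) = ((r : X) * x) ^ 3 * (x ^ 3)⁻¹ := by
            rw [pow_succ, pow_succ, pow_one]; group
        _ = 1 := by rw [h1, h2]; group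
    rw [e, QuotientGroup.mk_one]
  -- the 2-core of Y
  haveI hWn : (Cfsg.pCore 2 (X ⧸ R)).Normal := H1.Nilp.pCore_normal 2
  have hWp : IsPGroup 2 (Cfsg.pCore 2 (X ⧸ R)) := H1.Nilp.pCore_isPGroup 2
  have hY0 : Cfsg.pPrimeCore 2 (X ⧸ R) = ⊥ := by
    haveI : (Cfsg.pPrimeCore 2 (X ⧸ R)).Normal := H1.Nilp.pPrimeCore_normal 2
    have hco : (Nat.card (Cfsg.pPrimeCore 2 (X ⧸ R))).Coprime 2 := H11.Cores.pPrimeCore_coprime 2
    rw [eq_bot_iff, ← hYc']
    apply H11.Cores.le_pCore 3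
    intro n
    refine ⟨1, ?_⟩
    rw [pow_one, ← orderOf_dvd_iff_pow_eq_one]
    have h1 : orderOf n ∣ 6 := by
      apply orderOf_dvd_of_pow_eq_one
      exact Subtype.ext (hY6 n)
    have h2 : (orderOf n).Coprime 2 := hco.coprime_dvd_left (orderOf_dvd_natCard n)
    exact h2.dvd_of_dvd_mul_left (show orderOf n ∣ 2 * 3 from h1)
  have hsY : Group.IsSolvable (X ⧸ R) := solvable_of_surjective (QuotientGroup.mk'_surjective R)
  have hCY := H22.PSolv.centralizer_pCore_le (p := 2) (H22.PSolv.isPSolvable_of_isSolvable hsY) hY0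
  obtain ⟨W, hW⟩ : ∃ W, W = Cfsg.pCore 2 (X ⧸ R) := ⟨_, rfl⟩
  rw [← hW] at hWp hCY hWn
  have hW2 : ∀ w ∈ W, w * w = 1 := fun w hw => by
    rw [← pow_two]; exact pow_of_pgroup hY6 Nat.prime_two hWp hw
  have hWc : ∀ a ∈ W, ∀ b ∈ W, a * b = b * a := by
    intro a ha b hb
    have h1 := hW2 (a * b) (W.mul_mem ha hb)
    have h2 := hW2 a ha
    have h3 := hW2 b hb
    calc a * b = a * (a * b * (a * b)) * b := by rw [h1, mul_one]
      _ = (a * a) * (b * a) * (b * b) := by group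
      _ = b * a := by rw [h2, h3]; group
  obtain ⟨y, hy⟩ := exists_prime_orderOf_dvd_card' 3 (show 3 ∣ Nat.card (X ⧸ R) from hdvd)
  have hy3 : y ^ 3 = 1 := by rw [← hy]; exact pow_orderOf_eq_one y
  have hyC : y ∈ centralizer (W : Set (X ⧸ R)) := by
    rw [mem_centralizer_iff]
    intro s hs
    have hs' : s ∈ W := hs
    have ha : s * (y * s⁻¹ * y⁻¹) ∈ W := W.mul_mem hs' (hWn.conj_mem _ (W.inv_mem hs') y)
    have hb : s * (y ^ 2 * s⁻¹ * (y ^ 2)⁻¹) ∈ W := W.mul_mem hs' (hWn.conj_mem _ (W.inv_mem hs') _)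
    obtain ⟨a, hae⟩ : ∃ a, a = s * (y * s⁻¹ * y⁻¹) := ⟨_, rfl⟩
    obtain ⟨b, hbe⟩ : ∃ b, b = s * (y ^ 2 * s⁻¹ * (y ^ 2)⁻¹) := ⟨_, rfl⟩
    rw [← hae] at ha
    rw [← hbe] at hb
    have hay : a * y = s * y * s⁻¹ := by rw [hae]; group
    have hby : b * (y * y) = (s * y * s⁻¹) * (s * y * s⁻¹) := by rw [hbe, pow_two]; group
    have hab : ∀ w, ρ' a w = ρ' b w := by
      apply alg hVc hV3 (ρ' y) (ρ' a) (ρ' b) (ρ' y).surjective (fun u v => map_mul _ u v)
        (fun u v => map_mul _ u v) (fun u => map_inv _ u) (fun u => map_inv _ u)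
      · intro v
        rw [← MulAut.mul_apply, ← map_mul, hW2 a ha, map_one, MulAut.one_apply]
      · intro v
        rw [← MulAut.mul_apply, ← map_mul, hW2 b hb, map_one, MulAut.one_apply]
      · intro v
        rw [← MulAut.mul_apply, ← map_mul, hWc a ha b hb, map_mul, MulAut.mul_apply]
      · intro w
        obtain ⟨v, rfl⟩ := (ρ' y).surjective w
        have h1 := factA y hy3 v
        have h2 := factA (s * y * s⁻¹) (by
          have : (s * y * s⁻¹) ^ 3 = s * y ^ 3 * s⁻¹ := by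
            rw [pow_succ, pow_succ, pow_one, pow_succ, pow_succ, pow_one]; group
          rw [this, hy3]; group) v
        have h3 : ρ' (s * y * s⁻¹) v = ρ' a (ρ' y v) := by
          rw [← hay, map_mul, MulAut.mul_apply]
        have h4 : ρ' (s * y * s⁻¹) (ρ' (s * y * s⁻¹) v) = ρ' b (ρ' y (ρ' y v)) := by
          rw [← MulAut.mul_apply, ← map_mul, ← hby, map_mul, map_mul, MulAut.mul_apply, MulAut.mul_apply]
        rw [h4, h3] at h2
        rw [mul_assoc] at h1 h2
        exact mul_left_cancel (h2.trans h1.symm)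
    have hab' : a = b := hinj (MulEquiv.ext hab)
    rw [hae, hbe] at hab'
    have h1 := mul_left_cancel hab'
    -- y s⁻¹ y⁻¹ = y² s⁻¹ y⁻²
    have h2 : s⁻¹ = y * s⁻¹ * y⁻¹ := by
      calc s⁻¹ = y⁻¹ * (y * s⁻¹ * y⁻¹) * y := by group
        _ = y⁻¹ * (y ^ 2 * s⁻¹ * (y ^ 2)⁻¹) * y := by rw [h1]
        _ = y * s⁻¹ * y⁻¹ := by rw [pow_two]; group
    have h3 : s = y * s * y⁻¹ := by
      calc s = (s⁻¹)⁻¹ := by group
        _ = (y * s⁻¹ * y⁻¹)⁻¹ := by rw [← h2]
        _ = _ := by group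
    calc s * y = (y * s * y⁻¹) * y := by rw [← h3]
      _ = y * s := by group
  have hyW := hCY hyC
  have h2 := hW2 y hyW
  have h3 : y = 1 := by
    calc y = y ^ 3 * (y * y)⁻¹ := by group
      _ = 1 := by rw [hy3, h2]; group
  rw [h3, orderOf_one] at hy
  omega

theorem solvable {G : Type u} [Group G] [Finite G] (h : ∀ x : G, x ^ 6 = 1) : Group.IsSolvable G := by
  have h1 : ∀ p, p.Prime → p ∣ Nat.card G → p = 2 ∨ p = 3 := by
    intro p hp hd
    haveI := Fact.mk hp
    obtain ⟨x, hx⟩ := exists_prime_orderOf_dvd_card' p hd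
    have h2 : p ∣ 6 := by rw [← hx]; exact orderOf_dvd_of_pow_eq_one (h x)
    have h3 : p ∣ 2 * 3 := h2
    rcases (Nat.Prime.dvd_mul hp).1 h3 with h4 | h4
    · left; exact (Nat.prime_dvd_prime_iff_eq hp Nat.prime_two).1 h4
    · right; exact (Nat.prime_dvd_prime_iff_eq hp Nat.prime_three).1 h4
  have h2 : ∃ a b, Nat.card G = 2 ^ a * 3 ^ b := by
    refine ⟨(Nat.card G).factorization 2, (Nat.card G).factorization 3, ?_⟩
    have hne : Nat.card G ≠ 0 := Nat.card_pos.ne'
    conv_lhs => rw [← Nat.factorization_prod_pow_eq_self hne]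
    rw [Finsupp.prod_of_support_subset (s := ({2, 3} : Finset ℕ))]
    · rw [Finset.prod_pair (by norm_num)]
    · intro p hp
      have h3 := Nat.support_factorization (Nat.card G) ▸ hp
      rw [Nat.mem_primeFactors] at h3
      rcases h1 p h3.1 h3.2.1 with h4 | h4 <;> simp [h4]
    · intro i _; exact pow_zero _
  obtain ⟨a, b, hab⟩ := h2
  exact H3.Burnside.burnside _ G 2 3 a b Nat.prime_two Nat.prime_three rfl hab

theorem main {G : Type u} [Group G] [Finite G] (h : ∀ x : G, x ^ 6 = 1) :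
    Cfsg.PLengthLE 2 1 G ∧ Cfsg.PLengthLE 3 1 G := by
  haveI : Fact (Nat.Prime 3) := ⟨Nat.prime_three⟩
  haveI : Fact (Nat.Prime 2) := ⟨Nat.prime_two⟩
  have hs := solvable h
  constructor
  · obtain ⟨S⟩ : Nonempty (Sylow 2 G) := inferInstance
    apply H2.PLen.plength_le 1 G (H22.PSolv.isPSolvable_of_isSolvable hs) S
    have hc : ∀ a b : S, a * b = b * a := by
      have h2 : ∀ a : S, a * a = 1 := fun a => Subtype.ext (by
        have := pow_of_pgroup h Nat.prime_two S.isPGroup' a.2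
        rw [pow_two] at this
        exact this)
      intro a b
      have h1 := h2 (a * b)
      calc a * b = a * (a * b * (a * b)) * b := by rw [h1, mul_one]
        _ = (a * a) * (b * a) * (b * b) := by group
        _ = b * a := by rw [h2, h2]; group
    letI : CommGroup S := { (inferInstance : Group S) with mul_comm := hc }
    exact CommGroup.nilpotencyClass_le_one
  · haveI : (Cfsg.pPrimeCore 3 G).Normal := H1.Nilp.pPrimeCore_normal 3
    apply H22.PSolv.plengthLE_of_quotient_coprime (Cfsg.pPrimeCore 3 G) (H11.Cores.pPrimeCore_coprime 3)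
    have h1 := H11.Cores.pPrimeCore_quotient (p := 3) (G := G)
    have hX : ∀ x : G ⧸ Cfsg.pPrimeCore 3 G, x ^ 6 = 1 := by
      intro y
      obtain ⟨x, rfl⟩ := QuotientGroup.mk_surjective y
      rw [← QuotientGroup.mk_pow, h, QuotientGroup.mk_one]
    have hsX : Group.IsSolvable (G ⧸ Cfsg.pPrimeCore 3 G) :=
      solvable_of_surjective (QuotientGroup.mk'_surjective _)
    haveI : (Cfsg.pCore 3 (G ⧸ Cfsg.pPrimeCore 3 G)).Normal := H1.Nilp.pCore_normal 3
    have hRp : IsPGroup 3 (Cfsg.pCore 3 (G ⧸ Cfsg.pPrimeCore 3 G)) := H1.Nilp.pCore_isPGroup 3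
    obtain ⟨k, hk⟩ := IsPGroup.iff_card.1 hRp
    apply H22.PSolv.plengthLE_one_of ⊥ (Cfsg.pCore 3 (G ⧸ Cfsg.pPrimeCore 3 G)) bot_le
    · rw [Subgroup.card_bot]; exact Nat.coprime_one_left 3
    · exact ⟨k, by rw [Subgroup.relIndex_bot_left, hk]⟩
    · rw [Nat.coprime_comm, Nat.Prime.coprime_iff_not_dvd Nat.prime_three]
      exact index_coprime hX hsX h1

end Cfsg.Agent.H24.Exp6
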