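import Mathlib
import Cfsg.Prelude.Def_Solvable

/-! Constructing Frobenius groups from fixed-point-free actions; transport to `Type`. -/

namespace Cfsg.Agent.H24.FrobEx

open scoped Pointwise

theorem mem_conj {G : Type*} [Group G] {H : Subgroup G} {g x : G} :
    x ∈ MulAut.conj g • H ↔ g⁻¹ * x * g ∈ H := by
  rw [Subgroup.mem_pointwise_smul_iff_inv_smul_mem]
  simp [MulAut.smul_def, ← map_inv, MulAut.conj_apply]

/-- The complement of a fixed-point-free semidirect product is a Frobenius complement. -/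
theorem isFrob {V H : Type*} [Group V] [Nontrivial V] [Group H] [Nontrivial H]
    (φ : H →* MulAut V) (hfpf : ∀ h : H, h ≠ 1 → ∀ v : V, φ h v = v → v = 1) :
    Cfsg.IsFrobeniusComplement ((SemidirectProduct.inr : H →* V ⋊[φ] H).range) := by
  refine ⟨?_, ?_, ?_⟩
  · obtain ⟨h, hh⟩ := exists_ne (1 : H)
    intro hb
    have : (SemidirectProduct.inr h : V ⋊[φ] H) ∈ (⊥ : Subgroup (V ⋊[φ] H)) := by
      rw [← hb]; exact ⟨h, rfl⟩
    rw [Subgroup.mem_bot] at this
    exact hh (SemidirectProduct.inr_injective (by rw [this, map_one]))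
  · obtain ⟨v, hv⟩ := exists_ne (1 : V)
    intro hb
    have : (SemidirectProduct.inl v : V ⋊[φ] H) ∈ (SemidirectProduct.inr : H →* V ⋊[φ] H).range := by
      rw [hb]; trivial
    obtain ⟨h, hh⟩ := this
    have := congrArg SemidirectProduct.left hh
    simp at this
    exact hv this.symm
  · intro g hg
    rw [eq_bot_iff]
    intro x hx
    obtain ⟨hx1, hx2⟩ := Subgroup.mem_inf.mp hx
    obtain ⟨h, rfl⟩ := hx1
    rw [mem_conj] at hx2
    obtain ⟨k, hk⟩ := hx2
    have hl := congrArg SemidirectProduct.left hk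
    have hr := congrArg SemidirectProduct.right hk
    simp only [SemidirectProduct.left_inr, SemidirectProduct.mul_left, SemidirectProduct.inv_left,
      SemidirectProduct.inv_right, SemidirectProduct.right_inr, SemidirectProduct.mul_right,
      map_one, mul_one] at hl hr
    by_cases h1 : h = 1
    · subst h1; simp
    · exfalso
      apply hg
      have h2 : φ h g.left = g.left := by
        have h3 : φ (g.right)⁻¹ (g.left)⁻¹ * φ ((g.right)⁻¹ * h) g.left = 1 := hl.symm
        rw [map_mul, MulAut.mul_apply, ← map_mul, ← map_one (φ (g.right)⁻¹)] at h3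
        have h4 := (φ (g.right)⁻¹).injective h3
        rw [inv_mul_eq_one] at h4
        exact h4.symm
      have h5 := hfpf h h1 _ h2
      exact ⟨g.right, by ext <;> simp [h5]⟩

theorem isFrob_map {L L' : Type*} [Group L] [Group L'] (e : L ≃* L') {H : Subgroup L}
    (hH : Cfsg.IsFrobeniusComplement H) : Cfsg.IsFrobeniusComplement (H.map e.toMonoidHom) := by
  obtain ⟨h1, h2, h3⟩ := hH
  refine ⟨?_, ?_, ?_⟩
  · intro hb
    exact h1 ((Subgroup.map_eq_bot_iff_of_injective H e.injective).mp hb)
  · intro ht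
    apply h2
    rw [eq_top_iff]
    intro x _
    have : e x ∈ H.map e.toMonoidHom := by rw [ht]; trivial
    obtain ⟨y, hy, hxy⟩ := this
    have : y = x := e.injective hxy
    exact this ▸ hy
  · intro g hg
    rw [eq_bot_iff]
    intro x hx
    obtain ⟨hx1, hx2⟩ := Subgroup.mem_inf.mp hx
    obtain ⟨y, hy, rfl⟩ := hx1
    rw [mem_conj] at hx2
    obtain ⟨z, hz, hzx⟩ := hx2
    have hg' : e.symm g ∉ H := fun h => hg ⟨_, h, e.apply_symm_apply g⟩
    have := h3 _ hg'
    have hy2 : y ∈ H ⊓ (MulAut.conj (e.symm g) • H) := by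
      refine Subgroup.mem_inf.mpr ⟨hy, ?_⟩
      rw [mem_conj]
      have : z = (e.symm g)⁻¹ * y * e.symm g := by
        apply e.injective
        change e z = _
        rw [map_mul, map_mul, map_inv, e.apply_symm_apply]
        exact hzx
      rw [← this]; exact hz
    rw [this, Subgroup.mem_bot] at hy2
    rw [Subgroup.mem_bot, hy2]; simp

/-- existence in `Type`. -/
theorem exists_frob {V H : Type*} [Group V] [Finite V] [Nontrivial V] [Group H] [Finite H] [Nontrivial H]
    (φ : H →* MulAut V) (hfpf : ∀ h : H, h ≠ 1 → ∀ v : V, φ h v = v → v = 1) :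
    ∃ (L : Type) (_ : Group L) (_ : Finite L) (H' : Subgroup L), Cfsg.IsFrobeniusComplement H' ∧
      Nonempty (H ≃* H') ∧ H'.index = Nat.card V := by
  have hfin : Finite (V ⋊[φ] H) := Finite.of_equiv _ SemidirectProduct.equivProd.symm
  let e : V ⋊[φ] H ≃* Shrink.{0} (V ⋊[φ] H) := (Shrink.mulEquiv).symm
  have hf2 : Finite (Shrink.{0} (V ⋊[φ] H)) := Finite.of_equiv _ e.toEquiv
  refine ⟨Shrink.{0} (V ⋊[φ] H), inferInstance, hf2, _, isFrob_map e (isFrob φ hfpf), ⟨?_⟩, ?_⟩
  · exact (MonoidHom.ofInjective SemidirectProduct.inr_injective).trans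
      (Subgroup.equivMapOfInjective _ e.toMonoidHom e.injective)
  · have h0 := Subgroup.index_map_equiv (H := (SemidirectProduct.inr : H →* V ⋊[φ] H).range) e
    refine h0.trans ?_
    have h1 := Subgroup.card_mul_index ((SemidirectProduct.inr : H →* V ⋊[φ] H).range)
    have h2 : Nat.card ((SemidirectProduct.inr : H →* V ⋊[φ] H).range) = Nat.card H :=
      Nat.card_congr (MonoidHom.ofInjective SemidirectProduct.inr_injective).toEquiv.symm
    have h3 : Nat.card (V ⋊[φ] H) = Nat.card V * Nat.card H := by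
      rw [Nat.card_congr SemidirectProduct.equivProd, Nat.card_prod]
    rw [h2, h3, mul_comm (Nat.card V)] at h1
    exact Nat.eq_of_mul_eq_mul_left Nat.card_pos h1

end Cfsg.Agent.H24.FrobEx
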