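import Mathlib
import Cfsg.Prelude.Def_Solvable
import Cfsg.Agent.H24_FrobEx

/-! Frobenius groups from fixed-point-free modules. -/

namespace Cfsg.Agent.H24.FrobEx

/-- Frobenius group from a fixed point free linear action. -/
theorem exists_frob_module {R M H : Type*} [Ring R] [AddCommGroup M] [Module R M] [Finite M] [Nontrivial M]
    [Group H] [Finite H] [Nontrivial H] (ρ : H →* Rˣ)
    (hfpf : ∀ h : H, h ≠ 1 → ∀ m : M, ((ρ h : Rˣ) : R) • m = m → m = 0) :
    ∃ (L : Type) (_ : Group L) (_ : Finite L) (H' : Subgroup L), Cfsg.IsFrobeniusComplement H' ∧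
      Nonempty (H ≃* H') ∧ H'.index = Nat.card M := by
  let φ : H →* MulAut (Multiplicative M) :=
    ((MulAutMultiplicative M).symm.toMonoidHom.comp (DistribMulAction.toAddAut Rˣ M)).comp ρ
  have := exists_frob (V := Multiplicative M) φ (fun h hh v hv => ?_)
  · exact this
  · have h1 : ((ρ h : Rˣ) : R) • (Multiplicative.toAdd v) = Multiplicative.toAdd v := congrArg Multiplicative.toAdd hv
    exact Multiplicative.toAdd.injective (hfpf h hh _ h1)

end Cfsg.Agent.H24.FrobEx
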