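import Mathlib

/-! A finite abelian group of odd order with anticommuting automorphisms `i, j`, `i² = -1`, has square order. -/

namespace Cfsg.Agent.H24.FrobSq

/-- vector space case -/
theorem even_dim {p : ℕ} [Fact p.Prime] (hp2 : p ≠ 2) {V : Type*} [AddCommGroup V] [Module (ZMod p) V]
    [Finite V] (i j : V →ₗ[ZMod p] V) (hi : i ∘ₗ i = -LinearMap.id) (hj : j ∘ₗ j = -LinearMap.id)
    (hij : i ∘ₗ j = -(j ∘ₗ i)) : Even (Module.finrank (ZMod p) V) := by
  have hfd : FiniteDimensional (ZMod p) V := Module.Finite.of_finite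
  have hdet : ∀ f : V →ₗ[ZMod p] V, f ∘ₗ f = -LinearMap.id → LinearMap.det f ≠ 0 := by
    intro f hf h0
    have h1 := congrArg LinearMap.det hf
    rw [LinearMap.det_comp, h0, zero_mul] at h1
    have h2 : -(LinearMap.id : V →ₗ[ZMod p] V) = (-1 : ZMod p) • LinearMap.id := by rw [neg_smul, one_smul]
    rw [h2, LinearMap.det_smul, LinearMap.det_id, mul_one] at h1
    have h3 : ((-1 : ZMod p)) ^ Module.finrank (ZMod p) V ≠ 0 := pow_ne_zero _ (by simp)
    exact h3 h1.symm
  have h1 := congrArg LinearMap.det hij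
  have h2 : -(j ∘ₗ i) = (-1 : ZMod p) • (j ∘ₗ i) := by rw [neg_smul, one_smul]
  rw [h2, LinearMap.det_smul, LinearMap.det_comp, LinearMap.det_comp] at h1
  have h3 : LinearMap.det i * LinearMap.det j ≠ 0 := mul_ne_zero (hdet i hi) (hdet j hj)
  rw [mul_comm (LinearMap.det j)] at h1
  have h4 : ((-1 : ZMod p)) ^ Module.finrank (ZMod p) V = 1 := by
    have : (((-1 : ZMod p)) ^ Module.finrank (ZMod p) V - 1) * (LinearMap.det i * LinearMap.det j) = 0 := by
      rw [sub_mul, ← h1, one_mul, sub_self]
    exact sub_eq_zero.mp ((mul_eq_zero.mp this).resolve_right h3)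
  by_contra hodd
  rw [Nat.not_even_iff_odd] at hodd
  rw [hodd.neg_one_pow] at h4
  have h5 : ((2 : ℕ) : ZMod p) = 0 := by
    have : (2 : ZMod p) = 0 := by
      calc (2 : ZMod p) = 1 - (-1) := by norm_num
        _ = 0 := by rw [h4]; exact sub_self _
    exact_mod_cast this
  rw [ZMod.natCast_eq_zero_iff] at h5
  exact hp2 ((Nat.prime_dvd_prime_iff_eq Fact.out Nat.prime_two).mp h5)

theorem isSquare_card (n : ℕ) : ∀ (K : Type*) [AddCommGroup K] [Finite K], Nat.card K = n → Odd n →
    ∀ (i j : K →+ K), (∀ x, i (i x) = -x) → (∀ x, j (j x) = -x) → (∀ x, i (j x) = - j (i x)) → IsSquare n := by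
  induction n using Nat.strong_induction_on with
  | _ n ih =>
    intro K _ _ hn hodd i j hi hj hij
    by_cases h1 : n = 1
    · subst h1; exact ⟨1, rfl⟩
    obtain ⟨p, hp, hpn⟩ := Nat.exists_prime_and_dvd h1
    have : Fact p.Prime := ⟨hp⟩
    have hp2 : p ≠ 2 := by
      rintro rfl
      exact (Nat.not_even_iff_odd.mpr hodd) (even_iff_two_dvd.mpr hpn)
    let m : K →+ K := nsmulAddMonoidHom p
    have hm : ∀ x, m x = p • x := fun x => rfl
    -- kernel
    let V := m.ker
    have hV : ∀ x : V, p • x = 0 := fun x => Subtype.ext x.2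
    letI : Module (ZMod p) V := AddCommGroup.zmodModule hV
    have hkmap : ∀ (f : K →+ K) (x : K), x ∈ m.ker → f x ∈ m.ker := by
      intro f x hx
      rw [AddMonoidHom.mem_ker, hm] at hx ⊢
      rw [← map_nsmul, hx, map_zero]
    let r : (K →+ K) → (V →+ V) := fun f => (f.comp V.subtype).codRestrict V (fun x => hkmap f x x.2)
    have hr : ∀ f (x : V), ((r f x : V) : K) = f x := fun f x => rfl
    have hdim := even_dim hp2 (AddMonoidHom.toZModLinearMap p (r i)) (AddMonoidHom.toZModLinearMap p (r j))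
      (by ext x; exact hi x) (by ext x; exact hj x) (by ext x; exact hij x)
    have hcV : Nat.card V = p ^ Module.finrank (ZMod p) V := by
      have : Fintype V := Fintype.ofFinite _
      have := Module.card_eq_pow_finrank (K := ZMod p) (V := V)
      rw [ZMod.card] at this
      rw [Nat.card_eq_fintype_card]; exact this
    have hVsq : IsSquare (Nat.card V) := by
      obtain ⟨k, hk⟩ := hdim
      rw [hcV, hk, pow_add]
      exact ⟨_, rfl⟩
    -- image
    let W := m.range
    have hwmap : ∀ (f : K →+ K) (x : K), x ∈ m.range → f x ∈ m.range := by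
      rintro f _ ⟨y, rfl⟩
      exact ⟨f y, by rw [hm, hm, map_nsmul]⟩
    let s : (K →+ K) → (W →+ W) := fun f => (f.comp W.subtype).codRestrict W (fun x => hwmap f x x.2)
    have hcard : Nat.card V * Nat.card W = n := by
      have h2 := AddSubgroup.card_mul_index V
      rw [AddSubgroup.index_ker] at h2
      rw [← hn, ← h2]
    have hVgt : 1 < Nat.card V := by
      obtain ⟨x, hx⟩ := exists_prime_addOrderOf_dvd_card' (G := K) p (hn ▸ hpn)
      have hxm : x ∈ m.ker := by rw [AddMonoidHom.mem_ker, hm, ← hx, addOrderOf_nsmul_eq_zero]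
      have hx0 : x ≠ 0 := by
        rintro rfl
        rw [addOrderOf_zero] at hx
        exact hp.one_lt.ne hx
      have : Nontrivial V := ⟨⟨⟨x, hxm⟩, 0, fun h => hx0 (congrArg Subtype.val h)⟩⟩
      exact Finite.one_lt_card
    have hWpos : 0 < Nat.card W := Nat.card_pos
    have hWlt : Nat.card W < n := by rw [← hcard]; nlinarith
    have hWodd : Odd (Nat.card W) := by
      rw [← hcard, Nat.odd_mul] at hodd
      exact hodd.2
    have hWsq := ih _ hWlt W rfl hWodd (s i) (s j) (fun x => Subtype.ext (hi x)) (fun x => Subtype.ext (hj x))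
      (fun x => Subtype.ext (hij x))
    rw [← hcard]
    exact hVsq.mul hWsq

end Cfsg.Agent.H24.FrobSq
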