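import Mathlib
import Cfsg.Agent.H1_Basic
import Cfsg.Agent.H2_Rank2
import Cfsg.Agent.H2_PGroup
import Cfsg.Agent.H24_Class

/-! Miller's theorem on the number of elements of order `p ^ s`. -/

set_option autoImplicit false

open Subgroup Cfsg
open scoped Pointwise

universe u

namespace Cfsg.Agent.H24.Miller

open Cfsg.Agent.H1.Basic

variable {G : Type u} [Group G]

theorem zpowers_eq_iff [Finite G] (x y : G) : zpowers y = zpowers x ↔ y ∈ zpowers x ∧ orderOf y = orderOf x := by
  constructor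
  · intro h
    refine ⟨by rw [← h]; exact mem_zpowers y, ?_⟩
    rw [← Nat.card_zpowers, ← Nat.card_zpowers, h]
  · rintro ⟨h1, h2⟩
    apply eq_of_le_of_card_ge (zpowers_le.2 h1)
    rw [Nat.card_zpowers, Nat.card_zpowers, h2]

theorem card_gen [Finite G] (x : G) : Nat.card {y : G // zpowers y = zpowers x} = Nat.totient (orderOf x) := by
  classical
  haveI : Fintype (zpowers x) := Fintype.ofFinite _
  have h1 := IsCyclic.card_orderOf_eq_totient (α := zpowers x) (d := orderOf x) (by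
    rw [← Nat.card_eq_fintype_card, Nat.card_zpowers])
  rw [← h1, ← Fintype.card_subtype, ← Nat.card_eq_fintype_card]
  apply Nat.card_congr
  refine ⟨fun y => ⟨⟨y.1, ((zpowers_eq_iff x y.1).1 y.2).1⟩, by rw [orderOf_mk]; exact ((zpowers_eq_iff x y.1).1 y.2).2⟩,
    fun y => ⟨y.1.1, (zpowers_eq_iff x y.1.1).2 ⟨y.1.2, (orderOf_coe y.1).trans y.2⟩⟩, fun y => rfl, fun y => rfl⟩

theorem dvd_card_of_gen [Finite G] (Y : Set G) (hY : ∀ y ∈ Y, ∀ z, zpowers z = zpowers y → z ∈ Y) (d : ℕ)
    (hd : ∀ y ∈ Y, d ∣ Nat.totient (orderOf y)) : d ∣ Nat.card Y := by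
  classical
  haveI := Fintype.ofFinite G
  rw [Nat.card_eq_fintype_card, ← Set.toFinset_card, Finset.card_eq_sum_card_image (fun y : G => zpowers y)]
  apply Finset.dvd_sum
  intro C hC
  rw [Finset.mem_image] at hC
  obtain ⟨y, hy, rfl⟩ := hC
  rw [Set.mem_toFinset] at hy
  have h1 : (Finset.filter (fun z => zpowers z = zpowers y) Y.toFinset).card = Nat.card {z : G // zpowers z = zpowers y} := by
    rw [Nat.card_eq_fintype_card, Fintype.card_subtype]
    congr 1
    ext z
    simp only [Finset.mem_filter, Set.mem_toFinset, Finset.mem_univ, true_and]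
    exact ⟨fun h => h.2, fun h => ⟨hY y hy z h, h⟩⟩
  rw [h1, card_gen]
  exact hd y hy

theorem card_ord [Finite G] (H : Subgroup G) (n : ℕ) :
    Nat.card {x : G // x ∈ H ∧ orderOf x = n} =
      Nat.totient n * Nat.card {C : Subgroup G // C ≤ H ∧ IsCyclic C ∧ Nat.card C = n} := by
  classical
  let f : {x : G // x ∈ H ∧ orderOf x = n} → {C : Subgroup G // C ≤ H ∧ IsCyclic C ∧ Nat.card C = n} := fun x =>
    ⟨zpowers x.1, zpowers_le.2 x.2.1, inferInstance, by rw [Nat.card_zpowers, x.2.2]⟩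
  haveI : Fintype {C : Subgroup G // C ≤ H ∧ IsCyclic C ∧ Nat.card C = n} := Fintype.ofFinite _
  rw [← Nat.card_congr (Equiv.sigmaFiberEquiv f), Nat.card_sigma]
  have h1 : ∀ C : {C : Subgroup G // C ≤ H ∧ IsCyclic C ∧ Nat.card C = n}, Nat.card {x // f x = C} = Nat.totient n := by
    rintro ⟨C, hCH, hC, hCn⟩
    obtain ⟨c, hCc⟩ : ∃ c : G, C = zpowers c := by
      obtain ⟨c, hc⟩ := hC.exists_generator
      refine ⟨c, ?_⟩
      apply le_antisymm
      · intro x hx
        obtain ⟨k, hk⟩ := mem_zpowers_iff.1 (hc ⟨x, hx⟩)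
        exact mem_zpowers_iff.2 ⟨k, congrArg Subtype.val hk⟩
      · exact zpowers_le.2 c.2
    have hcn : orderOf c = n := by rw [← hCn, ← Nat.card_zpowers, ← hCc]
    rw [show Nat.totient n = Nat.totient (orderOf c) by rw [hcn], ← card_gen c]
    apply Nat.card_congr
    refine ⟨fun x => ⟨x.1.1, by
      have h2 := congrArg Subtype.val x.2
      rw [← hCc]; exact h2⟩, fun x => ⟨⟨x.1, ?_, ?_⟩, ?_⟩, fun x => rfl, fun x => rfl⟩
    · have h2 : x.1 ∈ zpowers x.1 := mem_zpowers _
      have h3 : zpowers x.1 ≤ C := (x.2.trans hCc.symm).le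
      exact hCH (h3 h2)
    · rw [← Nat.card_zpowers, x.2, Nat.card_zpowers, hcn]
    · apply Subtype.ext
      change zpowers x.1 = C
      rw [x.2, hCc]
  rw [Finset.sum_congr rfl (fun C _ => h1 C), Finset.sum_const, smul_eq_mul, Finset.card_univ, Nat.card_eq_fintype_card,
    mul_comm]

theorem pow_mul_formula {x n z : G} (hz : ∀ g : G, g * z = z * g) (h : n * x = x * n * z) (k : ℕ) :
    (x * n) ^ k = x ^ k * n ^ k * z ^ (k.choose 2) := by
  have h1 : ∀ j : ℕ, n ^ j * x = x * n ^ j * z ^ j := by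
    intro j
    induction j with
    | zero => simp
    | succ j ih =>
      have h2 : z ^ j * n = n * z ^ j := ((show Commute n z from hz n).pow_right j).symm.eq
      calc n ^ (j + 1) * x = n ^ j * (n * x) := by rw [pow_succ, mul_assoc]
        _ = n ^ j * x * n * z := by rw [h]; group
        _ = x * n ^ j * (z ^ j * n) * z := by rw [ih]; group
        _ = x * (n ^ j * n) * (z ^ j * z) := by rw [h2]; group
        _ = _ := by rw [← pow_succ, ← pow_succ]
  induction k with
  | zero => simp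
  | succ k ih =>
    have hzc : ∀ (g : G) (j : ℕ), g * z ^ j = z ^ j * g := fun g j => ((show Commute g z from hz g).pow_right j).eq
    rw [pow_succ, ih, Nat.choose_succ_succ' k 1, Nat.choose_one_right, pow_add]
    calc x ^ k * n ^ k * z ^ (k.choose 2) * (x * n) = x ^ k * n ^ k * (z ^ (k.choose 2) * (x * n)) := by group
      _ = x ^ k * n ^ k * ((x * n) * z ^ (k.choose 2)) := by rw [hzc]
      _ = x ^ k * (n ^ k * x) * n * z ^ (k.choose 2) := by group
      _ = x ^ k * (x * n ^ k * z ^ k) * n * z ^ (k.choose 2) := by rw [h1]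
      _ = x ^ k * x * n ^ k * (z ^ k * n) * z ^ (k.choose 2) := by group
      _ = x ^ k * x * (n ^ k * n) * z ^ k * z ^ (k.choose 2) := by rw [← hzc]; group
      _ = _ := by rw [← pow_succ, ← pow_succ]; group

theorem pgroup_case {P : Type u} [Group P] [Finite P] {p : ℕ} [hp : Fact p.Prime] (hp2 : p ≠ 2) (hP : IsPGroup p P)
    (hnc : ¬ IsCyclic P) {s : ℕ} (hs : 2 ≤ s) : p ^ s ∣ Nat.card {x : P // orderOf x = p ^ s} := by
  classical
  have hinj : ∀ a b, p ^ a = p ^ b → a = b := fun a b h => Nat.pow_right_injective hp.out.two_le h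
  have hnc' : ¬ IsCyclic (⊤ : Subgroup P) := fun h => hnc (isCyclic_of_surjective (topEquiv (G := P)).toMonoidHom topEquiv.surjective)
  obtain ⟨N, -, hN, ⟨hNc, hNe⟩, hNcard⟩ := H2.Rank2.exists_normal_rank_two hp2 hP ⊤ inferInstance hnc'
  haveI := hN
  -- commutators are central
  have hcent : ∀ n ∈ N, ∀ x : P, x⁻¹ * n * x * n⁻¹ ∈ center P ∧ x⁻¹ * n * x * n⁻¹ ∈ N := by
    intro n hn x
    have hmem : x⁻¹ * n * x * n⁻¹ ∈ N := mul_mem (by simpa using hN.conj_mem n hn x⁻¹) (inv_mem hn)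
    refine ⟨?_, hmem⟩
    have hNb : N ≠ ⊥ := by
      rintro rfl
      rw [card_bot] at hNcard
      have := hp.out.one_lt
      nlinarith
    have h1 := H2.PGroup.inf_center_ne_bot hP hNb
    have h2 : Nat.card (N.map (QuotientGroup.mk' (N ⊓ center P))) ≤ p := by
      have h3 := relIndex_ker N (QuotientGroup.mk' (N ⊓ center P))
      rw [QuotientGroup.ker_mk'] at h3
      rw [← h3]
      have h4 := relIndex_mul_card (K := N ⊓ center P) (L := N) inf_le_left
      rw [hNcard] at h4
      have h5 : p ≤ Nat.card (N ⊓ center P : Subgroup P) := by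
        have h6 : Nat.card (N ⊓ center P : Subgroup P) ≠ 1 := fun h => h1 (card_eq_one.1 h)
        rcases (hP.to_subgroup (N ⊓ center P)).card_eq_or_dvd with h7 | h7
        · exact absurd h7 h6
        · exact Nat.le_of_dvd Nat.card_pos h7
      by_contra hcon
      push Not at hcon
      have hp0 := hp.out.pos
      nlinarith
    have h3 := H2.Rank2.le_center_of_card_le (hP.to_quotient (N ⊓ center P)) (hN.map _ (QuotientGroup.mk'_surjective _)) h2
    have h4 : QuotientGroup.mk' (N ⊓ center P) n ∈ center (P ⧸ (N ⊓ center P)) := h3 ⟨n, hn, rfl⟩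
    have h5 := mem_center_iff.1 h4 (QuotientGroup.mk' (N ⊓ center P) x⁻¹)
    have h6 : QuotientGroup.mk' (N ⊓ center P) (x⁻¹ * n * x * n⁻¹) = 1 := by
      rw [map_mul, map_mul, map_mul, h5, ← map_mul, ← map_mul, ← map_mul]
      have : n * x⁻¹ * x * n⁻¹ = 1 := by group
      rw [this, map_one]
    exact ((QuotientGroup.eq_one_iff _).1 h6).2
  have hpow : ∀ x : P, ∀ n ∈ N, (x * n) ^ p = x ^ p := by
    intro x n hn
    obtain ⟨h1, h2⟩ := hcent n hn x
    have hc : ∀ a ∈ N, ∀ b ∈ N, a * b = b * a := fun a ha b hb => congrArg Subtype.val (hNc.is_comm.comm ⟨a, ha⟩ ⟨b, hb⟩)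
    have h3 := pow_mul_formula (x := x) (n := n) (z := x⁻¹ * n * x * n⁻¹) (fun g => mem_center_iff.1 h1 g) (by
      rw [mul_assoc x n, hc n hn _ h2]; group) p
    rw [h3, hNe n hn, mul_one]
    have h4 : p ∣ p.choose 2 := by
      apply hp.out.dvd_choose_self (by norm_num)
      rcases hp.out.two_le.eq_or_lt with h | h
      · exact absurd h.symm hp2
      · exact h
    obtain ⟨j, hj⟩ := h4
    rw [hj, pow_mul, hNe _ h2, one_pow, mul_one]
  have hps : ∀ j, p ^ j ≠ 1 → p ∣ p ^ j := fun j hj => dvd_pow_self p (by rintro rfl; exact hj (pow_zero p))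
  have hord : ∀ x : P, orderOf x = p ^ s ↔ orderOf (x ^ p) = p ^ (s - 1) := by
    intro x
    obtain ⟨j, hj⟩ := (IsPGroup.iff_orderOf.1 hP) x
    have h1 : orderOf (x ^ p) = orderOf x / Nat.gcd (orderOf x) p := orderOf_pow x
    rw [hj] at h1 ⊢
    rcases j with _ | j
    · rw [pow_zero, Nat.gcd_one_left, Nat.div_one] at h1
      rw [h1]
      constructor
      · intro h
        have := hinj 0 s h
        omega
      · intro h
        have := hinj 0 (s - 1) (by rw [pow_zero]; exact h)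
        omega
    · have h2 : Nat.gcd (p ^ (j + 1)) p = p := Nat.gcd_eq_right (dvd_pow_self p (Nat.succ_ne_zero j))
      rw [h2, pow_succ, Nat.mul_div_cancel _ hp.out.pos] at h1
      rw [h1]
      constructor
      · intro h
        have := hinj _ _ h
        congr 1; omega
      · intro h
        have := hinj _ _ h
        congr 1; omega
  have hord' : ∀ x : P, ∀ n ∈ N, orderOf x = p ^ s → orderOf (x * n) = p ^ s := by
    intro x n hn hx
    rw [hord, hpow x n hn, ← hord]
    exact hx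
  obtain ⟨Y, hYdef⟩ : ∃ Y : Set (P ⧸ N), Y = {y | ∃ x : P, (x : P ⧸ N) = y ∧ orderOf x = p ^ s} := ⟨_, rfl⟩
  have hpre : (QuotientGroup.mk ⁻¹' Y : Set P) = {x : P | orderOf x = p ^ s} := by
    ext x
    rw [Set.mem_preimage, hYdef]
    constructor
    · rintro ⟨x', hx', hx'o⟩
      have h1 : x'⁻¹ * x ∈ N := QuotientGroup.eq.1 hx'
      have h2 := hord' x' _ h1 hx'o
      rwa [mul_inv_cancel_left] at h2
    · intro hx
      exact ⟨x, rfl, hx⟩
  have hcardX : Nat.card {x : P // orderOf x = p ^ s} = p ^ 2 * Nat.card Y := by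
    have h1 := Nat.card_congr (QuotientGroup.preimageMkEquivSubgroupProdSet N Y)
    rw [Nat.card_prod, hNcard] at h1
    rw [← h1, hpre]
    rfl
  have hYo : ∀ x : P, orderOf x = p ^ s → ∃ j, orderOf (x : P ⧸ N) = p ^ (s - 2 + j + 1) := by
    intro x hx
    obtain ⟨j, hj⟩ := (IsPGroup.iff_orderOf.1 (hP.to_quotient N)) (x : P ⧸ N)
    have h1 : s - 1 ≤ j := by
      by_contra hcon
      push Not at hcon
      have h2 : ((x : P ⧸ N)) ^ p ^ (s - 2) = 1 := by
        rw [← orderOf_dvd_iff_pow_eq_one, hj]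
        exact pow_dvd_pow p (by omega)
      have h3 : x ^ p ^ (s - 2) ∈ N := (QuotientGroup.eq_one_iff _).1 h2
      have h4 := hNe _ h3
      rw [← pow_mul, ← pow_succ, ← orderOf_dvd_iff_pow_eq_one, hx, Nat.pow_dvd_pow_iff_le_right hp.out.one_lt] at h4
      omega
    exact ⟨j - (s - 1), by rw [hj]; congr 1; omega⟩
  have hYdvd : p ^ (s - 2) ∣ Nat.card Y := by
    apply dvd_card_of_gen Y
    · intro y hy z hz
      rw [hYdef] at hy ⊢
      obtain ⟨x, rfl, hx⟩ := hy
      rw [zpowers_eq_iff] at hz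
      obtain ⟨hz1, hz2⟩ := hz
      obtain ⟨j, hj⟩ := hYo x hx
      rw [mem_zpowers_iff_mem_range_orderOf, Finset.mem_image] at hz1
      obtain ⟨k, -, rfl⟩ := hz1
      refine ⟨x ^ k, rfl, ?_⟩
      rw [orderOf_pow, hj] at hz2
      have h1 : Nat.Coprime p k := by
        rw [Nat.Prime.coprime_iff_not_dvd hp.out]
        intro hpk
        have h2 : p ∣ Nat.gcd (p ^ (s - 2 + j + 1)) k := Nat.dvd_gcd (dvd_pow_self p (Nat.succ_ne_zero _)) hpk
        have h3 : 0 < p ^ (s - 2 + j + 1) := pow_pos hp.out.pos _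
        have h4 : 1 < Nat.gcd (p ^ (s - 2 + j + 1)) k := lt_of_lt_of_le hp.out.one_lt (Nat.le_of_dvd (Nat.gcd_pos_of_pos_left _ h3) h2)
        have h5 := Nat.div_lt_self h3 h4
        omega
      rw [Nat.Coprime.orderOf_pow, hx]
      rw [hx]
      exact Nat.Coprime.pow_left s h1
    · intro y hy
      rw [hYdef] at hy
      obtain ⟨x, rfl, hx⟩ := hy
      obtain ⟨j, hj⟩ := hYo x hx
      rw [hj, Nat.totient_prime_pow_succ hp.out, pow_add, mul_assoc]
      exact dvd_mul_right _ _
  rw [hcardX]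
  obtain ⟨c, hc⟩ := hYdvd
  rw [hc, ← mul_assoc, ← pow_add]
  have : 2 + (s - 2) = s := by omega
  rw [this]
  exact dvd_mul_right _ _

theorem card_cyc_dvd [Finite G] {p : ℕ} [hp : Fact p.Prime] (hp2 : p ≠ 2) (P : Sylow p G)
    (hnc : ¬ IsCyclic (P : Subgroup G)) {s : ℕ} (hs : 2 ≤ s) :
    p ∣ Nat.card {C : Subgroup G // C ≤ (⊤ : Subgroup G) ∧ IsCyclic C ∧ Nat.card C = p ^ s} := by
  classical
  -- inside P
  have h1 : p ∣ Nat.card {C : Subgroup G // C ≤ (P : Subgroup G) ∧ IsCyclic C ∧ Nat.card C = p ^ s} := by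
    have h2 := pgroup_case hp2 P.2 hnc hs
    have h3 : Nat.card {x : (P : Subgroup G) // orderOf x = p ^ s} = Nat.card {x : G // x ∈ (P : Subgroup G) ∧ orderOf x = p ^ s} := by
      apply Nat.card_congr
      exact ⟨fun x => ⟨x.1.1, x.1.2, by rw [orderOf_coe]; exact x.2⟩, fun x => ⟨⟨x.1, x.2.1⟩, by rw [orderOf_mk]; exact x.2.2⟩,
        fun x => rfl, fun x => rfl⟩
    rw [h3, card_ord] at h2
    obtain ⟨t, rfl⟩ : ∃ t, s = t + 1 := ⟨s - 1, by omega⟩
    rw [Nat.totient_prime_pow_succ hp.out, pow_succ, mul_assoc] at h2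
    have h4 := Nat.dvd_of_mul_dvd_mul_left (pow_pos hp.out.pos t) h2
    rcases (Nat.Prime.dvd_mul hp.out).1 h4 with h5 | h5
    · exfalso
      have := Nat.le_of_dvd (by have := hp.out.two_le; omega) h5
      have := hp.out.two_le
      omega
    · exact h5
  -- outside P
  let β := {C : Subgroup G // ¬ C ≤ (P : Subgroup G) ∧ IsCyclic C ∧ Nat.card C = p ^ s}
  have hβ : p ∣ Nat.card β := by
    letI : MulAction (P : Subgroup G) β :=
      { smul := fun g C => ⟨MulAut.conj (g : G) • C.1, by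
          refine ⟨?_, ?_, ?_⟩
          · intro h
            apply C.2.1
            have h2 := conj_le_of_mem h (inv_mem g.2)
            rwa [conj_conj, inv_mul_cancel, conj_one] at h2
          · haveI := C.2.2.1
            exact isCyclic_of_surjective (Subgroup.equivSMul (MulAut.conj (g : G)) C.1).toMonoidHom (Subgroup.equivSMul (MulAut.conj (g : G)) C.1).surjective
          · rw [card_conj, C.2.2.2]⟩
        one_smul := fun C => Subtype.ext (conj_one C.1)
        mul_smul := fun g h C => Subtype.ext (conj_conj (g : G) (h : G) C.1).symm }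
    have h2 := P.2.card_modEq_card_fixedPoints β
    have h3 : Nat.card (MulAction.fixedPoints (P : Subgroup G) β) = 0 := by
      have : IsEmpty (MulAction.fixedPoints (P : Subgroup G) β) := by
        constructor
        rintro ⟨C, hC⟩
        apply C.2.1
        have h4 : (P : Subgroup G) ≤ normalizer (C.1 : Set G) := by
          intro g hg
          rw [← conj_eq_iff_mem_normalizer]
          exact congrArg Subtype.val (hC ⟨g, hg⟩)
        have hCp : IsPGroup p C.1 := IsPGroup.of_card C.2.2.2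
        have h5 : IsPGroup p (C.1 ⊔ (P : Subgroup G) : Subgroup G) := by
          rw [sup_comm]
          exact IsPGroup.to_sup_of_normal_right' P.2 hCp h4
        have h6 := P.is_maximal' h5 le_sup_right
        exact (le_sup_left : C.1 ≤ C.1 ⊔ (P : Subgroup G)).trans h6.le
      exact Nat.card_of_isEmpty
    rw [h3] at h2
    exact (Nat.modEq_zero_iff_dvd).1 h2
  have hsum : Nat.card {C : Subgroup G // C ≤ (⊤ : Subgroup G) ∧ IsCyclic C ∧ Nat.card C = p ^ s} =
      Nat.card {C : Subgroup G // C ≤ (P : Subgroup G) ∧ IsCyclic C ∧ Nat.card C = p ^ s} + Nat.card β := by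
    rw [← Nat.card_sum]
    apply Nat.card_congr
    refine ⟨fun C => if h : C.1 ≤ (P : Subgroup G) then Sum.inl ⟨C.1, h, C.2.2⟩ else Sum.inr ⟨C.1, h, C.2.2⟩,
      fun C => Sum.elim (fun C => ⟨C.1, le_top, C.2.2⟩) (fun C => ⟨C.1, le_top, C.2.2⟩) C, ?_, ?_⟩
    · intro C
      by_cases h : C.1 ≤ (P : Subgroup G)
      · simp [h]
      · simp [h]
    · rintro (C | C)
      · simp [C.2.1]
      · simp [C.2.1]
  rw [hsum]
  exact dvd_add h1 hβ

theorem ord_ps [Finite G] {p : ℕ} [hp : Fact p.Prime] {s : ℕ} (hs : 2 ≤ s) :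
    p ^ (s - 1) ∣ Nat.card {x : G // orderOf x = p ^ s} ∧
    (p ≠ 2 → (∃ P : Sylow p G, ¬ IsCyclic (P : Subgroup G)) → p ^ s ∣ Nat.card {x : G // orderOf x = p ^ s}) := by
  have h3 : Nat.card {x : G // orderOf x = p ^ s} = Nat.card {x : G // x ∈ (⊤ : Subgroup G) ∧ orderOf x = p ^ s} := by
    apply Nat.card_congr
    exact ⟨fun x => ⟨x.1, mem_top _, x.2⟩, fun x => ⟨x.1, x.2.2⟩, fun x => rfl, fun x => rfl⟩
  obtain ⟨t, rfl⟩ : ∃ t, s = t + 1 := ⟨s - 1, by omega⟩
  rw [h3, card_ord, Nat.totient_prime_pow_succ hp.out, Nat.add_sub_cancel]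
  refine ⟨by rw [mul_assoc]; exact dvd_mul_right _ _, ?_⟩
  rintro hp2 ⟨P, hP⟩
  obtain ⟨c, hc⟩ := card_cyc_dvd hp2 P hP hs
  rw [hc, pow_succ]
  exact ⟨(p - 1) * c, by ring⟩

theorem cyl_sub [Finite G] {p : ℕ} [hp : Fact p.Prime] (P : Sylow p G) (hnc : ¬ IsCyclic (P : Subgroup G)) (H : Subgroup G)
    (hH : ¬ p ∣ H.index) : ∃ Q : Sylow p H, ¬ IsCyclic (Q : Subgroup H) := by
  obtain ⟨Q⟩ : Nonempty (Sylow p H) := inferInstance
  refine ⟨Q, fun hQ => hnc ?_⟩
  have h1 : IsPGroup p ((Q : Subgroup H).map H.subtype) := Q.2.map _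
  obtain ⟨R, hR⟩ := h1.exists_le_sylow
  have h2 : ¬ p ∣ ((Q : Subgroup H).map H.subtype).index := by
    rw [index_map_subtype]
    intro h3
    rcases (Nat.Prime.dvd_mul hp.out).1 h3 with h4 | h4
    · exact Q.not_dvd_index h4
    · exact hH h4
  have h3 : (Q : Subgroup H).map H.subtype = R := by
    apply eq_of_le_of_card_ge hR
    apply Nat.le_of_dvd Nat.card_pos
    have h4 := ((Q : Subgroup H).map H.subtype).card_mul_index
    have h5 : Nat.card R ∣ Nat.card ((Q : Subgroup H).map H.subtype) * ((Q : Subgroup H).map H.subtype).index := by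
      rw [h4]; exact card_subgroup_dvd_card _
    obtain ⟨k, hk⟩ := R.2.exists_card_eq
    rw [hk] at h5 ⊢
    exact (Nat.Coprime.pow_left k ((Nat.Prime.coprime_iff_not_dvd hp.out).2 h2)).dvd_of_dvd_mul_right h5
  haveI : IsCyclic ((Q : Subgroup H).map H.subtype) :=
    isCyclic_of_surjective ((Q : Subgroup H).equivMapOfInjective H.subtype H.subtype_injective).toMonoidHom
      ((Q : Subgroup H).equivMapOfInjective H.subtype H.subtype_injective).surjective
  rw [h3] at this
  haveI := this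
  exact isCyclic_of_surjective (Sylow.equiv R P).toMonoidHom (Sylow.equiv R P).surjective

/-- summing a class function -/
theorem dvd_sum_class [Finite G] [Fintype G] [DecidableEq G] (Y : Finset G) (hY : ∀ y ∈ Y, ∀ g : G, g * y * g⁻¹ ∈ Y) (f : G → ℕ)
    (hf : ∀ y g : G, f (g * y * g⁻¹) = f y) (d : ℕ) (hd : ∀ y ∈ Y, d ∣ (centralizer ({y} : Set G)).index * f y) :
    d ∣ ∑ y ∈ Y, f y := by
  classical
  rw [← Finset.sum_fiberwise_of_maps_to (g := ConjClasses.mk) (t := Finset.univ) (fun y _ => Finset.mem_univ _)]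
  apply Finset.dvd_sum
  intro c _
  by_cases hc : ∃ y ∈ Y, ConjClasses.mk y = c
  · obtain ⟨y, hy, rfl⟩ := hc
    have h1 : ∀ z ∈ Finset.filter (fun z => ConjClasses.mk z = ConjClasses.mk y) Y, f z = f y := by
      intro z hz
      rw [Finset.mem_filter] at hz
      obtain ⟨g, hg⟩ := isConj_iff.1 (ConjClasses.mk_eq_mk_iff_isConj.1 hz.2)
      rw [← hg, hf]
    rw [Finset.sum_congr rfl h1, Finset.sum_const, smul_eq_mul]
    have h2 : (Finset.filter (fun z => ConjClasses.mk z = ConjClasses.mk y) Y).card = (centralizer ({y} : Set G)).index := by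
      rw [← H24.Class.card_conjugatesOf, Nat.card_eq_fintype_card, ← Set.toFinset_card]
      congr 1
      ext z
      rw [Finset.mem_filter, Set.mem_toFinset]
      constructor
      · rintro ⟨-, h⟩
        exact (ConjClasses.mk_eq_mk_iff_isConj.1 h).symm
      · intro h
        obtain ⟨g, hg⟩ := isConj_iff.1 h
        exact ⟨hg ▸ hY y hy g, ConjClasses.mk_eq_mk_iff_isConj.2 (IsConj.symm h)⟩
    rw [h2]
    exact hd y hy
  · rw [Finset.sum_eq_zero]
    · exact dvd_zero _
    · intro z hz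
      rw [Finset.mem_filter] at hz
      exact absurd ⟨z, hz.1, hz.2⟩ hc

end Cfsg.Agent.H24.Miller
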