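import Mathlib
import Cfsg.Agent.H18_QPair6
import Cfsg.Agent.H11_Cores

/-!
# Quadratic elements in groups of odd order
-/

set_option autoImplicit false
open Cfsg

namespace Cfsg.Agent.H24.Quad

open Cfsg.Agent.H5.SL2 (S)

universe u v

theorem two_dvd_card_sl {p : ℕ} [hp : Fact p.Prime] (hp2 : p ≠ 2) : 2 ∣ Nat.card (S (ZMod p)) := by
  have h2 : orderOf (-1 : S (ZMod p)) = 2 := by
    apply orderOf_eq_prime
    · rw [neg_one_sq]
    · intro h
      have h1 := congrArg (fun A : S (ZMod p) => A.1 0 0) h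
      simp only [Matrix.SpecialLinearGroup.coe_neg, Matrix.SpecialLinearGroup.coe_one, Matrix.neg_apply,
        Matrix.one_apply_eq] at h1
      haveI : Fact (2 < p) := ⟨lt_of_le_of_ne hp.out.two_le (Ne.symm hp2)⟩
      exact (ZMod.neg_one_ne_one (n := p)) h1
  rw [← h2]
  exact orderOf_dvd_natCard _

theorem even_of_surj {p : ℕ} [hp : Fact p.Prime] (hp2 : p ≠ 2) {X : Type u} [Group X] [Finite X] (Y : Subgroup X)
    (φ : Y →* S (ZMod p)) (hφ : Function.Surjective φ) : 2 ∣ Nat.card X :=
  (two_dvd_card_sl hp2).trans ((Subgroup.card_dvd_of_surjective φ hφ).trans (Subgroup.card_subgroup_dvd_card Y))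

/-- in a group of odd order acting faithfully on an elementary abelian `p`-group, quadratic elements lie in the `p`-core -/
theorem quad_mem {p : ℕ} [hp : Fact p.Prime] (hp2 : p ≠ 2) {M : Type u} [AddCommGroup M] [Finite M]
    (hM : ∀ m : M, p • m = 0) {X : Type v} [Group X] [Finite X] (hodd : Odd (Nat.card X))
    (θ : X →* AddMonoid.End M) (hθ : Function.Injective θ) (x : X)
    (hx : ∀ v, θ x (θ x v - v) = θ x v - v) : x ∈ pCore p X := by
  by_contra hna
  have hpow : ∀ (n : ℕ) (v : M), θ (x ^ n) v = v + n • (θ x v - v) := by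
    intro n
    induction n with
    | zero => intro v; rw [pow_zero, map_one, zero_smul, add_zero]; rfl
    | succ n ih =>
      intro v
      rw [pow_succ', map_mul]
      show θ x (θ (x ^ n) v) = _
      rw [ih v, map_add, map_nsmul, hx v, succ_nsmul]
      abel
  have hxp : x ^ p = 1 := by
    apply hθ
    apply AddMonoidHom.ext
    intro v
    have h1 := hpow p v
    rw [hM, add_zero] at h1
    rw [map_one]
    exact h1
  obtain ⟨g, h, hh, hn⟩ := H18.QPair.exists_pair (MonoidHom.id X) Function.surjective_id x hxp hna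
  have hcl : ∀ z ∈ ({x, g * x * g⁻¹} : Set X), z ∈ Subgroup.closure ({x, g * x * g⁻¹} : Set X) :=
    fun z hz => Subgroup.subset_closure hz
  have hgen : Subgroup.closure ({⟨x, hcl x (by simp)⟩, ⟨g * x * g⁻¹, hcl _ (by simp)⟩} :
      Set (Subgroup.closure ({x, g * x * g⁻¹} : Set X))) = ⊤ := by
    rw [← Subgroup.closure_closure_coe_preimage]
    congr 1
    ext z
    simp [Subtype.ext_iff]
  obtain ⟨N, B, Y, φ, ν, hφ, -⟩ := H18.QPair.add_sl2 hp2 hM
    (θ.comp (Subgroup.closure ({x, g * x * g⁻¹} : Set X)).subtype) hgen hx (by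
      intro v
      show θ (g * x * g⁻¹) (θ (g * x * g⁻¹) v - v) = θ (g * x * g⁻¹) v - v
      have e : ∀ w, θ (g * x * g⁻¹) w = θ g (θ x (θ g⁻¹ w)) := by
        intro w; rw [map_mul, map_mul]; rfl
      have e2 : ∀ w, θ g (θ g⁻¹ w) = w := by
        intro w
        have : θ (g * g⁻¹) w = w := by rw [mul_inv_cancel, map_one]; rfl
        rw [map_mul] at this; exact this
      have e3 : ∀ w, θ g⁻¹ (θ g w) = w := by
        intro w
        have : θ (g⁻¹ * g) w = w := by rw [inv_mul_cancel, map_one]; rfl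
        rw [map_mul] at this; exact this
      have h1 : θ (g * x * g⁻¹) v - v = θ g (θ x (θ g⁻¹ v) - θ g⁻¹ v) := by
        rw [map_sub, e2, e]
      rw [h1, e, e3, hx]) ⟨⟨h, hh⟩, fun n hc => hn n (by
        have h1 : θ (h ^ (p ^ n)) = 1 := hc
        rw [← map_one θ] at h1
        exact hθ h1)⟩
  have h2 := even_of_surj hp2 Y φ hφ
  have h3 := h2.trans (Subgroup.card_subgroup_dvd_card _)
  rw [Nat.odd_iff] at hodd
  omega

/-- a nilpotent `2 × 2` matrix has square zero -/
theorem sq_zero {F : Type u} [Field F] (N : Matrix (Fin 2) (Fin 2) F) (h : IsNilpotent N) : N * N = 0 := by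
  have h1 : N.trace = 0 := (Matrix.isNilpotent_trace_of_isNilpotent h).eq_zero
  have h2 : N.det = 0 := by
    obtain ⟨n, hn⟩ := h
    have : N.det ^ n = 0 := by
      rw [← Matrix.det_pow, hn]
      rcases Nat.eq_zero_or_pos n with rfl | hn'
      · rw [pow_zero] at hn
        exfalso
        have := congrFun (congrFun hn 0) 0
        simp at this
      · exact Matrix.det_zero
    exact eq_zero_of_pow_eq_zero this
  rw [Matrix.trace_fin_two] at h1
  rw [Matrix.det_fin_two] at h2
  ext i j
  fin_cases i <;> fin_cases j <;> simp [Matrix.mul_apply, Fin.sum_univ_two] <;>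
    [linear_combination (N 0 0) * h1 - h2; linear_combination (N 0 1) * h1;
     linear_combination (N 1 0) * h1; linear_combination (N 1 1) * h1 - h2]

end Cfsg.Agent.H24.Quad
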