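import Mathlib
import Cfsg.Agent.H1_Coprime2
import Cfsg.Agent.H3_Burnside

namespace Cfsg.Agent.H24.SThree

open Subgroup Cfsg.Agent
open scoped commutatorElement

abbrev S3 := Equiv.Perm (Fin 3)

def wd (a b : S3) (x : Fin 3 × Fin 3 × Fin 3 × Fin 3) : S3 :=
  a ^ (x.1 : ℕ) * b ^ (x.2.1 : ℕ) * a ^ (x.2.2.1 : ℕ) * b ^ (x.2.2.2 : ℕ)

instance : DecidableEq S3 := inferInstance
instance (c a b : S3) : Decidable (∃ x, c = wd a b x) := inferInstance

theorem word : ∀ a b c : S3, a ≠ 1 → b ≠ 1 → b ≠ a → b ≠ a⁻¹ → ∃ x, c = wd a b x := by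
  decide +kernel


/-- a 3-cycle -/
def cyc : S3 := finRotate 3

theorem cyc_ne : cyc ≠ 1 := by decide
theorem cyc_cube : cyc ^ 3 = 1 := by decide
theorem cyc_sq : cyc * cyc = cyc⁻¹ := by decide
theorem cyc_ne2 : ∀ a : S3, a ≠ 1 → a ^ 2 = 1 → cyc ≠ a ∧ cyc ≠ a⁻¹ := by decide
theorem type : ∀ a : S3, a ≠ 1 → (a = cyc ∨ a = cyc⁻¹) ∨ a ^ 2 = 1 := by decide
theorem rel : ∀ a : S3, a ≠ 1 → a ^ 2 = 1 → a * cyc = cyc⁻¹ * a := by decide
theorem inv_ne : ∀ a : S3, a ≠ 1 → a ^ 2 = 1 → cyc * a * cyc⁻¹ ≠ a ∧ cyc * a * cyc⁻¹ ≠ 1 ∧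
    cyc * a * cyc⁻¹ ≠ a⁻¹ ∧ cyc⁻¹ * a * cyc ≠ a ∧ cyc⁻¹ * a * cyc ≠ 1 ∧
    cyc⁻¹ * a * cyc ≠ a⁻¹ := by decide

variable {Γ : Type*} [Group Γ] [Finite Γ]

omit [Finite Γ] in
theorem card_range (j : S3 →* Γ) : Nat.card j.range ∣ 6 := by
  have := Subgroup.card_range_dvd j
  have h : Nat.card S3 = 6 := by
    rw [Nat.card_eq_fintype_card]; rfl
  rwa [h] at this

omit [Finite Γ] in
theorem solvable_range (j : S3 →* Γ) : Group.IsSolvable j.range := by
  have h1 : Group.IsSolvable S3 := by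
    refine Cfsg.Agent.H3.Burnside.burnside 6 S3 2 3 1 1 Nat.prime_two Nat.prime_three ?_ rfl
    rw [Nat.card_eq_fintype_card]; rfl
  exact Group.isSolvable_of_surjective j.rangeRestrict_surjective

theorem coprime_range (j : S3 →* Γ) {K : Subgroup Γ} (hK : (Nat.card K).Coprime 6) :
    (Nat.card j.range).Coprime (Nat.card K) :=
  (Nat.Coprime.coprime_dvd_right (card_range j) hK).symm

section Alpha

variable {X : Type*} [Group X] [MulDistribMulAction Γ X]

/-- claim: the whole `K`-orbit of `x` is fixed by the element fixing `x` -/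
theorem orbit_fixed (j : S3 →* Γ) {K : Subgroup Γ} (hjK : j.range ≤ normalizer (K : Set Γ))
    (hK6 : (Nat.card K).Coprime 6) (hXA : ∀ x : X, (∀ a : S3, j a • x = x) → x = 1)
    {Λ : Set X} (hstab : ∀ x ∈ Λ, ∃ a : S3, a ≠ 1 ∧ j a • x = x) (hΛK : ∀ k ∈ K, ∀ x ∈ Λ, k • x ∈ Λ)
    {x : X} (hx : x ∈ Λ) (hx1 : x ≠ 1) {a : S3} (ha1 : a ≠ 1) (hax : j a • x = x) {k : Γ} (hk : k ∈ K) :
    j a • (k • x) = k • x := by
  obtain ⟨b, hb1, hb⟩ := hstab _ (hΛK k hk x hx)
  by_cases hba : b = a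
  · rw [← hba]; exact hb
  by_cases hba' : b = a⁻¹
  · rw [hba', map_inv, inv_smul_eq_iff] at hb
    exact hb.symm
  exfalso
  apply hx1
  set s : Set X := {y | ∃ k ∈ K, y = k • x} with hs
  have hconj : ∀ c : S3, ∀ k ∈ K, j c * k * (j c)⁻¹ ∈ K := fun c k hk =>
    (mem_normalizer_iff.1 (hjK ⟨c, rfl⟩) k).1 hk
  have hA : ∀ y ∈ s, j a • y ∈ s := by
    rintro y ⟨l, hl, rfl⟩
    refine ⟨j a * l * (j a)⁻¹, hconj a l hl, ?_⟩
    rw [mul_smul, mul_smul, inv_smul_eq_iff.2 hax.symm]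
  have hB : ∀ y ∈ s, j b • y ∈ s := by
    rintro y ⟨l, hl, rfl⟩
    refine ⟨j b * (l * k⁻¹) * (j b)⁻¹ * k, mul_mem (hconj b _ (mul_mem hl (inv_mem hk))) hk, ?_⟩
    rw [mul_smul (j b * (l * k⁻¹) * (j b)⁻¹), mul_smul (j b * (l * k⁻¹)), inv_smul_eq_iff.2 hb.symm,
      mul_smul, mul_smul l, inv_smul_smul]
  have hpow : ∀ (c : S3), (∀ y ∈ s, j c • y ∈ s) → ∀ (n : ℕ), ∀ y ∈ s, j (c ^ n) • y ∈ s := by
    intro c hc n
    induction n with
    | zero => intro y hy; simpa using hy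
    | succ n ih =>
      intro y hy
      rw [pow_succ', map_mul, mul_smul]
      exact hc _ (ih y hy)
  have hall : ∀ c : S3, ∀ y ∈ s, j c • y ∈ s := by
    intro c y hy
    obtain ⟨w, hw⟩ := word a b c ha1 hb1 hba hba'
    rw [hw, wd, map_mul, map_mul, map_mul, mul_smul, mul_smul, mul_smul]
    exact hpow a hA _ _ (hpow b hB _ _ (hpow a hA _ _ (hpow b hB _ _ hy)))
  obtain ⟨y, ⟨l, hl, rfl⟩, hy⟩ := H1.Coprime.glauberman_exists (A := j.range) (K := K) hjK (coprime_range j hK6)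
    (Or.inl (solvable_range j)) s ⟨x, 1, one_mem _, (one_smul _ _).symm⟩
    (by rintro _ ⟨c, rfl⟩ y hy; exact hall c y hy)
    (by
      rintro k hk _ ⟨l, hl, rfl⟩
      exact ⟨k * l, mul_mem hk hl, (mul_smul _ _ _).symm⟩)
    (by
      rintro _ ⟨k, hk, rfl⟩ _ ⟨l, hl, rfl⟩
      exact ⟨l * k⁻¹, mul_mem hl (inv_mem hk), by rw [mul_smul, inv_smul_smul]⟩)
  have h1 := hXA _ (fun c => hy (j c) ⟨c, rfl⟩)
  have h2 : x = l⁻¹ • (l • x) := (inv_smul_smul _ _).symm
  rw [h2, h1, smul_one]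

/-- the main combinatorial lemma -/
theorem alpha (j : S3 →* Γ) {K : Subgroup Γ} (hjK : j.range ≤ normalizer (K : Set Γ))
    (hK6 : (Nat.card K).Coprime 6) (hKA : ∀ k ∈ K, (∀ a : S3, j a * k = k * j a) → k = 1)
    (hXc : ∀ x y : X, x * y = y * x) (hXA : ∀ x : X, (∀ a : S3, j a • x = x) → x = 1)
    {Λ : Set X} (hstab : ∀ x ∈ Λ, ∃ a : S3, a ≠ 1 ∧ j a • x = x) (hΛK : ∀ k ∈ K, ∀ x ∈ Λ, k • x ∈ Λ)
    (hΛA : ∀ a : S3, ∀ x ∈ Λ, j a • x ∈ Λ)
    (hab : ∀ k ∈ K, ∀ l ∈ K, ∀ x ∈ Λ, (k * l * k⁻¹ * l⁻¹) • x = x)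
    (hD : ∀ k ∈ K, j cyc * k = k * j cyc → ∀ x ∈ Λ, j cyc • x = x → k • x = x)
    {k : Γ} (hk : k ∈ K) {x : X} (hx : x ∈ Λ) : k • x = x := by
  by_cases hx1 : x = 1
  · rw [hx1, smul_one]
  obtain ⟨a, ha1, ha⟩ := hstab x hx
  have key := fun (x : X) (hx : x ∈ Λ) (hx1 : x ≠ 1) (a : S3) (ha1 : a ≠ 1) (ha : j a • x = x) (k : Γ) (hk : k ∈ K) =>
    orbit_fixed j hjK hK6 hXA hstab hΛK hx hx1 ha1 ha hk
  rcases type a ha1 with ha3 | ha2
  · -- `cyc` fixes `x`
    have hc : j cyc • x = x := by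
      rcases ha3 with rfl | rfl
      · exact ha
      · rw [map_inv, inv_smul_eq_iff] at ha; exact ha.symm
    have hck := key x hx hx1 cyc cyc_ne hc k hk
    let C : Subgroup Γ := zpowers (j cyc)
    have hCK : C ≤ normalizer (K : Set Γ) := by
      rw [zpowers_le]; exact hjK ⟨cyc, rfl⟩
    have hCle : C ≤ j.range := by
      rw [zpowers_le]; exact ⟨cyc, rfl⟩
    have hCcop : (Nat.card C).Coprime (Nat.card K) :=
      (coprime_range j hK6).coprime_dvd_left (Subgroup.card_dvd_of_le hCle)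
    have hfixz : ∀ y : X, j cyc • y = y → ∀ c ∈ C, c • y = y := by
      intro y hy c hc
      have : C ≤ MulAction.stabilizer Γ y := by
        rw [zpowers_le]; exact hy
      exact this hc
    have hCs : Group.IsSolvable C := Group.isSolvable_of_comm fun a b => mul_comm' a b
    obtain ⟨c, hc1, hc2⟩ := H1.Coprime.glauberman_conj (A := C) (K := K) hCK hCcop (Or.inl hCs) (hfixz x hc)
      (hfixz (k • x) hck) hk rfl
    obtain ⟨hcK, hcC⟩ := mem_inf.1 hc1
    rw [← hc2]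
    apply hD c hcK _ x hx hc
    rw [mem_centralizer_iff] at hcC
    exact hcC _ (mem_zpowers _)
  · -- an involution fixes `x`
    have hcx : j cyc • x ∈ Λ := hΛA _ _ hx
    have hcx' : j cyc⁻¹ • x ∈ Λ := hΛA _ _ hx
    set y := j cyc • x with hy
    set z := j cyc⁻¹ • x with hz
    have hy1 : y ≠ 1 := by
      intro h; apply hx1
      rw [hy, smul_eq_iff_eq_inv_smul, smul_one] at h; exact h
    have hz1 : z ≠ 1 := by
      intro h; apply hx1
      rw [hz, smul_eq_iff_eq_inv_smul, smul_one] at h; exact h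
    obtain ⟨n1, n2, n3, n4, n5, n6⟩ := inv_ne a ha1 ha2
    set b := cyc * a * cyc⁻¹ with hb
    set d := cyc⁻¹ * a * cyc with hd
    have hby : j b • y = y := by
      rw [hy, ← mul_smul, ← map_mul]
      have : b * cyc = cyc * a := by rw [hb]; group
      rw [this, map_mul, mul_smul, ha]
    have hdz : j d • z = z := by
      rw [hz, ← mul_smul, ← map_mul]
      have : d * cyc⁻¹ = cyc⁻¹ * a := by rw [hd]; group
      rw [this, map_mul, mul_smul, ha]
    have haz : j a • y = z := by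
      rw [hy, hz, ← mul_smul, ← map_mul, rel a ha1 ha2, map_mul, mul_smul, ha]
    have hay : j a • z = y := by
      rw [← haz, ← mul_smul, ← map_mul]
      have : a * a = 1 := by rw [← sq]; exact ha2
      rw [this, map_one, one_smul]
    -- generation
    have hgen0 : ∀ e : S3, e ≠ 1 → e ≠ a → e ≠ a⁻¹ → ∀ w : X, j a • w = w → j e • w = w → w = 1 := by
      intro e he1 he2 he3 w h1 h2
      apply hXA
      intro c
      obtain ⟨u, hu⟩ := word a e c ha1 he1 he2 he3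
      have hpow : ∀ (c : S3), j c • w = w → ∀ n : ℕ, j (c ^ n) • w = w := by
        intro c hc n
        induction n with
        | zero => simp
        | succ n ih => rw [pow_succ', map_mul, mul_smul, ih, hc]
      rw [hu, wd, map_mul, map_mul, map_mul, mul_smul, mul_smul, mul_smul, hpow e h2, hpow a h1, hpow e h2, hpow a h1]
    -- product relation
    have hcc : j cyc • y = z := by
      rw [hy, hz, ← mul_smul, ← map_mul, cyc_sq]
    have hcz : j cyc • z = x := by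
      rw [hz, ← mul_smul, ← map_mul, mul_inv_cancel, map_one, one_smul]
    have hprod : x * y * z = 1 := by
      apply hgen0 cyc cyc_ne (cyc_ne2 a ha1 ha2).1 (cyc_ne2 a ha1 ha2).2
      · rw [smul_mul', smul_mul', ha, haz, hay, mul_assoc, mul_assoc, hXc z y]
      · rw [smul_mul', smul_mul', ← hy, hcc, hcz, hXc, mul_assoc]
    -- elements fixing `y` or `z`
    have hconj : ∀ c : S3, ∀ k ∈ K, j c * k * (j c)⁻¹ ∈ K := fun c k hk =>
      (mem_normalizer_iff.1 (hjK ⟨c, rfl⟩) k).1 hk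
    have hfa : ∀ k ∈ K, j a • (k • x) = k • x := fun k hk => key x hx hx1 a ha1 ha k hk
    have hfb : ∀ k ∈ K, j b • (k • y) = k • y := fun k hk => key y hcx hy1 b n2 hby k hk
    have hfd : ∀ k ∈ K, j d • (k • z) = k • z := fun k hk => key z hcx' hz1 d n5 hdz k hk
    have hmain : ∀ g ∈ K, g • y = y → g • x = x := by
      intro g hg hgy
      have h1 : g • (x * y * z) = 1 := by rw [hprod, smul_one]
      rw [smul_mul', smul_mul', hgy] at h1
      have h2 : (g • x) * x⁻¹ = ((g • z) * z⁻¹)⁻¹ := by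
        have e1 : g • x = (g • z)⁻¹ * y⁻¹ := by
          rw [← mul_inv_rev]
          apply eq_inv_of_mul_eq_one_left
          rw [← mul_assoc]; exact h1
        have e2 : x = z⁻¹ * y⁻¹ := by
          rw [← mul_inv_rev]
          apply eq_inv_of_mul_eq_one_left
          rw [← mul_assoc]; exact hprod
        rw [e1]
        conv_lhs => rw [e2]
        rw [mul_inv_rev, mul_inv_rev, inv_inv, inv_inv]
        rw [mul_assoc, inv_mul_cancel_left, hXc z]
      have h3 : (g • x) * x⁻¹ = 1 := by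
        apply hgen0 d n5 n4 n6
        · rw [smul_mul', hfa g hg, smul_inv', ha]
        · rw [h2, smul_inv', smul_mul', hfd g hg, smul_inv', hdz]
      rwa [mul_inv_eq_one] at h3
    let S0 : Subgroup Γ := K ⊓ MulAction.stabilizer Γ x
    have hS0 : ∀ g, g ∈ S0 ↔ g ∈ K ∧ g • x = x := fun g => mem_inf
    have hn : K ≤ normalizer (S0 : Set Γ) := by
      intro k hk
      rw [mem_normalizer_iff]
      have h1 : ∀ k ∈ K, ∀ h ∈ S0, k * h * k⁻¹ ∈ S0 := by
        intro k hk h hh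
        rw [hS0] at hh ⊢
        refine ⟨mul_mem (mul_mem hk hh.1) (inv_mem hk), ?_⟩
        have e : k * h * k⁻¹ = (k * h * k⁻¹ * h⁻¹) * h := by group
        rw [e, mul_smul, hh.2, hab k hk h hh.1 x hx]
      intro h
      refine ⟨h1 k hk h, fun hh => ?_⟩
      have := h1 k⁻¹ (inv_mem hk) _ hh
      have e : k⁻¹ * (k * h * k⁻¹) * k⁻¹⁻¹ = h := by group
      rwa [e] at this
    have hSa : ∀ k ∈ K, j a * k * (j a)⁻¹ * k⁻¹ ∈ S0 := by
      intro k hk
      rw [hS0]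
      refine ⟨mul_mem (hconj a k hk) (inv_mem hk), ?_⟩
      rw [mul_smul, mul_smul]
      have h1 := hfa k⁻¹ (inv_mem hk)
      rw [inv_smul_eq_iff.2 h1.symm, mul_smul, smul_inv_smul, ha]
    have hSb : ∀ k ∈ K, j b * k * (j b)⁻¹ * k⁻¹ ∈ S0 := by
      intro k hk
      rw [hS0]
      have hmem : j b * k * (j b)⁻¹ * k⁻¹ ∈ K := mul_mem (hconj b k hk) (inv_mem hk)
      refine ⟨hmem, hmain _ hmem ?_⟩
      rw [mul_smul, mul_smul]
      have h1 := hfb k⁻¹ (inv_mem hk)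
      rw [inv_smul_eq_iff.2 h1.symm, mul_smul, smul_inv_smul, hby]
    -- general closure property
    have hstep : ∀ c e : S3, (∀ k ∈ K, j c * k * (j c)⁻¹ * k⁻¹ ∈ S0) → (∀ k ∈ K, j e * k * (j e)⁻¹ * k⁻¹ ∈ S0) →
        (∀ k ∈ K, j (c * e) * k * (j (c * e))⁻¹ * k⁻¹ ∈ S0) := by
      intro c e hc he k hk
      have h1 := hc _ (hconj e k hk)
      have h2 := he k hk
      have e1 : j (c * e) * k * (j (c * e))⁻¹ * k⁻¹ =
          (j c * (j e * k * (j e)⁻¹) * (j c)⁻¹ * (j e * k * (j e)⁻¹)⁻¹) * (j e * k * (j e)⁻¹ * k⁻¹) := by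
        rw [map_mul]; group
      rw [e1]
      exact mul_mem h1 h2
    have hpow : ∀ c : S3, (∀ k ∈ K, j c * k * (j c)⁻¹ * k⁻¹ ∈ S0) → ∀ n : ℕ,
        (∀ k ∈ K, j (c ^ n) * k * (j (c ^ n))⁻¹ * k⁻¹ ∈ S0) := by
      intro c hc n
      induction n with
      | zero => intro k hk; simp only [pow_zero, map_one, inv_one, one_mul, mul_one, mul_inv_cancel]; exact one_mem _
      | succ n ih => rw [pow_succ']; exact hstep _ _ hc ih
    have hall : ∀ c : S3, ∀ k ∈ K, j c * k * (j c)⁻¹ * k⁻¹ ∈ S0 := by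
      intro c
      obtain ⟨u, hu⟩ := word a b c ha1 n2 n1 n3
      rw [hu, wd]
      exact hstep _ _ (hstep _ _ (hstep _ _ (hpow a hSa _) (hpow b hSb _)) (hpow a hSa _)) (hpow b hSb _)
    have hAn : j.range ≤ normalizer (S0 : Set Γ) := by
      rintro _ ⟨c, rfl⟩
      rw [mem_normalizer_iff]
      have h1 : ∀ c : S3, ∀ h ∈ S0, j c * h * (j c)⁻¹ ∈ S0 := by
        intro c h hh
        have h2 := hall c h (((hS0 h).1 hh).1)
        have := mul_mem h2 hh
        rwa [inv_mul_cancel_right] at this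
      intro h
      refine ⟨h1 c h, fun hh => ?_⟩
      have := h1 c⁻¹ _ hh
      rw [map_inv] at this
      have e : (j c)⁻¹ * (j c * h * (j c)⁻¹) * (j c)⁻¹⁻¹ = h := by group
      rwa [e] at this
    obtain ⟨c, hc, hkc⟩ := H1.Coprime.fixed_points_quotient j.range K hjK (coprime_range j hK6)
      (Or.inl (solvable_range j)) S0 inf_le_left hn hAn k hk (by rintro _ ⟨c, rfl⟩; exact hall c k hk)
    obtain ⟨hcK, hcC⟩ := mem_inf.1 hc
    have hc1 : c = 1 := hKA c hcK (fun a => by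
      rw [mem_centralizer_iff] at hcC
      exact hcC (j a) ⟨a, rfl⟩)
    rw [hc1, mul_one] at hkc
    have := inv_mem hkc
    rw [inv_inv, hS0] at this
    exact this.2

end Alpha

end Cfsg.Agent.H24.SThree
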