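import Mathlib
import Cfsg.Agent.H24_SThree1
import Cfsg.Agent.H24_Weight

namespace Cfsg.Agent.H24.SThree

open Subgroup Cfsg.Agent

variable {Γ : Type*} [Group Γ] [Finite Γ]

/-- an involution -/
def tau : S3 := Equiv.swap 0 1

theorem tau_ne : tau ≠ 1 := by decide
theorem tau_sq : tau ^ 2 = 1 := by decide
theorem tau_mul_self : tau * tau = 1 := by decide
theorem tau_inv : tau⁻¹ = tau := by decide
theorem tau_cyc : tau⁻¹ * cyc * tau = cyc⁻¹ := by decide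
theorem tau_cyc' : tau * cyc * tau⁻¹ = cyc⁻¹ := by decide
theorem elems : ∀ a : S3, a = 1 ∨ a = cyc ∨ a = cyc⁻¹ ∨ a = tau ∨ a = cyc * tau * cyc⁻¹ ∨ a = cyc⁻¹ * tau * cyc := by
  decide

omit [Finite Γ] in
theorem all_of_two (j : S3 →* Γ) {P : Γ → Prop} (h1 : P 1) (hm : ∀ x y, P x → P y → P (x * y))
    (hc : P (j cyc)) (ht : P (j tau)) (a : S3) : P (j a) := by
  have hpow : ∀ (c : S3), P (j c) → ∀ n : ℕ, P (j (c ^ n)) := by
    intro c hc n
    induction n with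
    | zero => simpa using h1
    | succ n ih => rw [pow_succ', map_mul]; exact hm _ _ hc ih
  obtain ⟨u, hu⟩ := word tau cyc a tau_ne cyc_ne (cyc_ne2 tau tau_ne tau_sq).1 (cyc_ne2 tau tau_ne tau_sq).2
  rw [hu, wd, map_mul, map_mul, map_mul]
  exact hm _ _ (hm _ _ (hm _ _ (hpow _ ht _) (hpow _ hc _)) (hpow _ ht _)) (hpow _ hc _)

omit [Finite Γ] in
theorem comm_all (j : S3 →* Γ) {h : Γ} (hc : j cyc * h = h * j cyc) (ht : j tau * h = h * j tau) (a : S3) :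
    j a * h = h * j a := by
  refine all_of_two j (P := fun g => g * h = h * g) (by simp) ?_ hc ht a
  intro x y hx hy
  rw [mul_assoc, hy, ← mul_assoc, hx, mul_assoc]

theorem comm_cyc (j : S3 →* Γ) {H : Subgroup Γ} (hjH : j.range ≤ normalizer (H : Set Γ))
    (hHA : ∀ h ∈ H, (∀ a : S3, j a * h = h * j a) → h = 1) {x y : Γ} (hx : x ∈ H) (hy : y ∈ H)
    (hxc : j cyc * x = x * j cyc) (hyc : j cyc * y = y * j cyc) : x * y = y * x := by
  set σ := j cyc with hσ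
  set τ := j tau with hτ
  have hττ : τ * τ = 1 := by rw [hτ, ← map_mul, tau_mul_self, map_one]
  have hτi : τ⁻¹ = τ := inv_eq_of_mul_eq_one_left hττ
  have hrel : τ⁻¹ * σ * τ = σ⁻¹ := by rw [hτ, hσ, ← map_inv, ← map_mul, ← map_mul, tau_cyc, map_inv]
  let D : Subgroup Γ := H ⊓ centralizer {σ}
  have hD : ∀ z, z ∈ D ↔ z ∈ H ∧ σ * z = z * σ := by
    intro z
    rw [mem_inf, mem_centralizer_singleton_iff]
    constructor
    · rintro ⟨h1, h2⟩; exact ⟨h1, h2.symm⟩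
    · rintro ⟨h1, h2⟩; exact ⟨h1, h2.symm⟩
  have hconj : ∀ z ∈ D, τ * z * τ⁻¹ ∈ D := by
    intro z hz
    rw [hD] at hz ⊢
    refine ⟨(mem_normalizer_iff.1 (hjH ⟨tau, rfl⟩) z).1 hz.1, ?_⟩
    have h1 : σ⁻¹ * z = z * σ⁻¹ := by
      rw [inv_mul_eq_iff_eq_mul, ← mul_assoc, hz.2, mul_inv_cancel_right]
    rw [← hrel] at h1
    have h2 : τ * (τ⁻¹ * σ * τ * z) * τ⁻¹ = τ * (z * (τ⁻¹ * σ * τ)) * τ⁻¹ := by rw [h1]
    have h3 : τ * (τ⁻¹ * σ * τ * z) * τ⁻¹ = σ * (τ * z * τ⁻¹) := by group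
    have h4 : τ * (z * (τ⁻¹ * σ * τ)) * τ⁻¹ = τ * z * τ⁻¹ * σ := by group
    rw [← h3, h2, h4]
  have hinv : ∀ z ∈ D, τ * z * τ⁻¹ = z⁻¹ := by
    let f : D → D := fun z => ⟨(z : Γ)⁻¹ * (τ * z * τ⁻¹), mul_mem (inv_mem z.2) (hconj z z.2)⟩
    have hf : Function.Injective f := by
      intro u v huv
      have h1 : (u : Γ)⁻¹ * (τ * u * τ⁻¹) = (v : Γ)⁻¹ * (τ * v * τ⁻¹) := congrArg Subtype.val huv
      have h2 : τ * ((v : Γ) * (u : Γ)⁻¹) = (v : Γ) * (u : Γ)⁻¹ * τ := by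
        have h3 : (v : Γ) * ((u : Γ)⁻¹ * (τ * u * τ⁻¹)) * (τ * (u : Γ)⁻¹) =
          (v : Γ) * ((v : Γ)⁻¹ * (τ * v * τ⁻¹)) * (τ * (u : Γ)⁻¹) := by rw [h1]
        have h4 : (v : Γ) * ((u : Γ)⁻¹ * (τ * u * τ⁻¹)) * (τ * (u : Γ)⁻¹) = (v : Γ) * (u : Γ)⁻¹ * τ := by group
        have h5 : (v : Γ) * ((v : Γ)⁻¹ * (τ * v * τ⁻¹)) * (τ * (u : Γ)⁻¹) = τ * ((v : Γ) * (u : Γ)⁻¹) := by group
        rw [← h5, ← h3, h4]
      have h6 : (v : Γ) * (u : Γ)⁻¹ ∈ D := mul_mem v.2 (inv_mem u.2)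
      have h7 := hHA _ ((hD _).1 h6).1 (comm_all j ((hD _).1 h6).2 h2)
      exact Subtype.ext (mul_inv_eq_one.1 h7).symm
    intro z hz
    obtain ⟨u, hu⟩ := (Finite.injective_iff_surjective.1 hf) ⟨z, hz⟩
    have h1 : z = (u : Γ)⁻¹ * (τ * u * τ⁻¹) := (congrArg Subtype.val hu).symm
    rw [h1, hτi]
    have h2 : τ * ((u : Γ)⁻¹ * (τ * u * τ)) * τ = τ * (u : Γ)⁻¹ * τ * u * (τ * τ) := by group
    rw [h2, hττ, mul_one, mul_inv_rev, inv_inv, mul_inv_rev, mul_inv_rev, hτi]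
    group
  have i1 := hinv _ ((hD _).2 ⟨hx, hxc⟩)
  have i2 := hinv _ ((hD _).2 ⟨hy, hyc⟩)
  have i3 := hinv _ (mul_mem ((hD _).2 ⟨hx, hxc⟩) ((hD _).2 ⟨hy, hyc⟩))
  have i4 : τ * (x * y) * τ⁻¹ = (τ * x * τ⁻¹) * (τ * y * τ⁻¹) := by group
  rw [i3, i1, i2, mul_inv_rev] at i4
  have i5 := congrArg (fun g => g⁻¹) i4
  simp only [mul_inv_rev, inv_inv] at i5
  exact i5

open Weight

/-- every weight is fixed by `K` -/
theorem weights_fixed {𝕜 V : Type*} [Field 𝕜] [IsAlgClosed 𝕜] [AddCommGroup V] [Module 𝕜 V] [FiniteDimensional 𝕜 V]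
    (ρ : Representation 𝕜 Γ V) (j : S3 →* Γ) {H : Subgroup Γ} (hjH : j.range ≤ normalizer (H : Set Γ))
    (hH6 : (Nat.card H).Coprime 6) (hHA : ∀ h ∈ H, (∀ a : S3, j a * h = h * j a) → h = 1)
    (hfix : ∀ v : V, (∀ a : S3, ρ (j a) v = v) → v = 0)
    {N : Subgroup Γ} [hN : N.Normal] (hNH : N ≤ H) (hchar : (Nat.card N : 𝕜) ≠ 0)
    {K : Subgroup Γ} (hKH : K ≤ H) (hjK : j.range ≤ normalizer (K : Set Γ))
    (hab : ∀ k ∈ K, ∀ l ∈ K, ∀ x : N →* 𝕜ˣ, wt ρ N x ≠ ⊥ → cj N (k * l * k⁻¹ * l⁻¹) x = x)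
    {k : Γ} (hk : k ∈ K) {x : N →* 𝕜ˣ} (hx : wt ρ N x ≠ ⊥) : cj N k x = x := by
  letI := charAct (Γ := Γ) 𝕜 N
  have hsm : ∀ (g : Γ) (y : N →* 𝕜ˣ), g • y = cj N g y := fun g y => rfl
  have hN6 : (Nat.card N).Coprime 6 := hH6.coprime_dvd_left (Subgroup.card_dvd_of_le hNH)
  have hK6 : (Nat.card K).Coprime 6 := hH6.coprime_dvd_left (Subgroup.card_dvd_of_le hKH)
  have hNn : ∀ B : Subgroup Γ, B ≤ normalizer (N : Set Γ) := fun B => by
    rw [normalizer_eq_top_iff.2 hN]; exact le_top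
  -- kernel subgroup
  have hker : ∀ (y : N →* 𝕜ˣ) (B : Subgroup Γ), (∀ b ∈ B, cj N b y = y) → B ≤ normalizer ((y.ker.map N.subtype : Subgroup Γ) : Set Γ) := by
    intro y B hB b hb
    have h1 : ∀ b ∈ B, ∀ n ∈ y.ker.map N.subtype, b * n * b⁻¹ ∈ y.ker.map N.subtype := by
      rintro b hb _ ⟨n, hn, rfl⟩
      refine ⟨⟨b * n * b⁻¹, hN.conj_mem n n.2 b⟩, ?_, rfl⟩
      have h2 : y n = 1 := hn
      change y _ = 1
      have h3 := DFunLike.congr_fun (hB b hb) ⟨b * n * b⁻¹, hN.conj_mem n n.2 b⟩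
      rw [cj_apply] at h3
      rw [← h3, ← h2]
      congr 1
      apply Subtype.ext
      change b⁻¹ * (b * n * b⁻¹) * b = n
      group
    rw [mem_normalizer_iff]
    intro n
    refine ⟨h1 b hb n, fun h => ?_⟩
    have := h1 b⁻¹ (inv_mem hb) _ h
    have e : b⁻¹ * (b * n * b⁻¹) * b⁻¹⁻¹ = n := by group
    rwa [e] at this
  have hkerN : ∀ (y : N →* 𝕜ˣ), N ≤ normalizer ((y.ker.map N.subtype : Subgroup Γ) : Set Γ) := by
    intro y
    apply hker y N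
    intro b hb
    ext n
    rw [cj_apply]
    have : (⟨b⁻¹ * n * b, by have := hN.conj_mem n n.2 b⁻¹; rwa [inv_inv] at this⟩ : N) =
      (⟨b, hb⟩ : N)⁻¹ * n * ⟨b, hb⟩ := rfl
    rw [this, map_mul, map_mul, map_inv, mul_comm, mul_inv_cancel_left]
  have hquot : ∀ (y : N →* 𝕜ˣ) (B : Subgroup Γ), (Nat.card B).Coprime (Nat.card N) → Group.IsSolvable B →
      (∀ b ∈ B, cj N b y = y) → ∀ n : N, ∃ c : N, (∀ b ∈ B, b * (c : Γ) = c * b) ∧ y n = y c := by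
    intro y B hc hs hB n
    obtain ⟨c, hc1, hc2⟩ := H1.Coprime.fixed_points_quotient B N (hNn B) hc (Or.inl hs)
      (y.ker.map N.subtype) (map_subtype_le _) (hkerN y) (hker y B hB) n n.2 (by
        intro b hb
        refine ⟨⟨b * n * b⁻¹ * (n : Γ)⁻¹, mul_mem (hN.conj_mem n n.2 b) (inv_mem n.2)⟩, ?_, rfl⟩
        change y _ = 1
        have e : (⟨b * n * b⁻¹ * (n : Γ)⁻¹, mul_mem (hN.conj_mem n n.2 b) (inv_mem n.2)⟩ : N) =
          (⟨b * n * b⁻¹, hN.conj_mem n n.2 b⟩ : N) * n⁻¹ := rfl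
        rw [e, map_mul, map_inv, mul_inv_eq_one]
        have h3 := DFunLike.congr_fun (hB b hb) ⟨b * n * b⁻¹, hN.conj_mem n n.2 b⟩
        rw [cj_apply] at h3
        rw [← h3]
        congr 1
        apply Subtype.ext
        change b⁻¹ * (b * n * b⁻¹) * b = n
        group)
    obtain ⟨hcN, hcB⟩ := mem_inf.1 hc1
    refine ⟨⟨c, hcN⟩, fun b hb => ?_, ?_⟩
    · rw [mem_centralizer_iff] at hcB
      exact hcB b hb
    · obtain ⟨m, hm, hm2⟩ := hc2
      have h1 : y m = 1 := hm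
      have h2 : m = n⁻¹ * ⟨c, hcN⟩ := Subtype.ext hm2
      rw [h2, map_mul, map_inv, inv_mul_eq_one] at h1
      exact h1
  have hstab : ∀ y ∈ {y : N →* 𝕜ˣ | wt ρ N y ≠ ⊥}, ∃ a : S3, a ≠ 1 ∧ j a • y = y := by
    intro y hy
    by_contra hcon
    push Not at hcon
    apply hy
    rw [Submodule.eq_bot_iff]
    intro v hv
    classical
    have h1 := sum_stab ρ N hchar j hfix hv
    have h2 : (Finset.univ.filter (fun a : S3 => cj N (j a) y = y)) = {1} := by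
      ext a
      simp only [Finset.mem_filter, Finset.mem_univ, true_and, Finset.mem_singleton]
      constructor
      · intro h
        by_contra ha
        exact hcon a ha h
      · rintro rfl
        rw [map_one]
        exact one_smul Γ y
    have h3 : ∑ a ∈ Finset.univ.filter (fun a : S3 => cj N (j a) y = y), ρ (j a) v = v := by
      rw [h2, Finset.sum_singleton, map_one, map_one]; rfl
    rw [← h3]
    convert h1
  have hinvΛ : ∀ (g : Γ), ∀ y ∈ {y : N →* 𝕜ˣ | wt ρ N y ≠ ⊥}, g • y ∈ {y : N →* 𝕜ˣ | wt ρ N y ≠ ⊥} := by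
    intro g y hy
    obtain ⟨v, hv, hv0⟩ := (Submodule.ne_bot_iff _).1 hy
    refine (Submodule.ne_bot_iff _).2 ⟨ρ g v, map_wt ρ N g hv, ?_⟩
    intro h
    apply hv0
    have : ρ g⁻¹ (ρ g v) = v := by
      rw [← Module.End.mul_apply, ← map_mul, inv_mul_cancel, map_one]; rfl
    rw [← this, h, map_zero]
  have hjc : (Nat.card j.range).Coprime (Nat.card N) := coprime_range j hN6
  refine alpha j hjK hK6 (fun k hk => hHA k (hKH hk)) ?_ ?_ hstab (fun k _ => hinvΛ k) (fun a => hinvΛ (j a)) ?_ ?_ hk hx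
  · intro x y; exact mul_comm x y
  · intro y hy
    ext n
    obtain ⟨c, hc1, hc2⟩ := hquot y j.range hjc (solvable_range j) (by rintro _ ⟨a, rfl⟩; exact hy a) n
    have hc3 : (c : Γ) = 1 := hHA c (hNH c.2) (fun a => hc1 (j a) ⟨a, rfl⟩)
    have hc4 : c = 1 := Subtype.ext hc3
    rw [hc2, hc4, map_one, MonoidHom.one_apply]
  · intro k hk l hl y hy
    exact hab k hk l hl y hy
  · intro k hk hkc y hy hyc
    -- `k y = y`
    have hky : j cyc • (k • y) = k • y := by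
      rw [← mul_smul, hkc, mul_smul, hyc]
    set m : N →* 𝕜ˣ := (k • y) * y⁻¹ with hm
    have hmc : j cyc • m = m := by
      have e1 : j cyc • m = (j cyc • (k • y)) * (j cyc • y⁻¹) := by
        ext n
        rw [MonoidHom.mul_apply, hm, hsm (j cyc) ((k • y) * y⁻¹), hsm (j cyc) y⁻¹, hsm (j cyc) (k • y), cj_apply, cj_apply, cj_apply, MonoidHom.mul_apply]
      have e2 : j cyc • y⁻¹ = (j cyc • y)⁻¹ := by
        ext n
        rw [hsm, hsm, cj_apply, MonoidHom.inv_apply, MonoidHom.inv_apply, cj_apply]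
      rw [e1, e2, hky, hyc]
    have hm1 : m = 1 := by
      ext n
      obtain ⟨c, hc1, hc2⟩ := hquot m (zpowers (j cyc)) (by
          refine hjc.coprime_dvd_left (Subgroup.card_dvd_of_le ?_)
          rw [zpowers_le]; exact ⟨cyc, rfl⟩)
        (Group.isSolvable_of_comm fun a b => mul_comm' a b) (by
          intro b hb
          have : zpowers (j cyc) ≤ MulAction.stabilizer Γ m := by
            rw [zpowers_le]; exact hmc
          exact this hb) n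
      have hcc := hc1 (j cyc) (mem_zpowers _)
      have hcomm := comm_cyc j hjH hHA (hKH hk) (hNH c.2) hkc hcc
      rw [hc2, hm, MonoidHom.mul_apply, hsm, cj_apply]
      have e : (⟨k⁻¹ * c * k, by have := hN.conj_mem c c.2 k⁻¹; rwa [inv_inv] at this⟩ : N) = c := by
        apply Subtype.ext
        change k⁻¹ * c * k = c
        rw [mul_assoc, ← hcomm, inv_mul_cancel_left]
      rw [e, MonoidHom.inv_apply, mul_inv_cancel, MonoidHom.one_apply]
    ext n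
    have h5 := DFunLike.congr_fun hm1 n
    rw [hm, MonoidHom.mul_apply, MonoidHom.inv_apply, MonoidHom.one_apply, mul_inv_eq_one] at h5
    rw [h5]

end Cfsg.Agent.H24.SThree
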