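import Mathlib
import Cfsg.Agent.H24_SThree2

namespace Cfsg.Agent.H24.SThree

open Module

/-- the final contradiction on a weight space -/
theorem core {𝕜 W : Type*} [Field 𝕜] [IsAlgClosed 𝕜] [AddCommGroup W] [Module 𝕜 W] [FiniteDimensional 𝕜 W] [Nontrivial W]
    {s : ℕ} (hs : s.Prime) (hs2 : s ≠ 2) (hs3 : s ≠ 3) (S Si X Y Z Zi : End 𝕜 W) (hSSi : S * Si = 1) (hSiS : Si * S = 1)
    (hZZi : Z * Zi = 1) (hXinj : ∀ w, X w = 0 → w = 0) (h1 : S * X = Y * S) (h2 : S * Y = Z * S) (h3 : S * Z = X * S)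
    (hsum : ∀ v, v + S v + Si v = 0) {ζ μ : 𝕜} (hXY : X * Y = ζ • (Y * X)) (hX : X ^ s = μ • (1 : End 𝕜 W))
    (hμ : μ ≠ 0) (hζ : ζ ≠ 1) : False := by
  haveI : Fact s.Prime := ⟨hs⟩
  haveI : NeZero s := ⟨hs.ne_zero⟩
  have eY : Y = S * X * Si := by rw [h1, mul_assoc, hSSi, mul_one]
  have eZ : Z = S * Y * Si := by rw [h2, mul_assoc, hSSi, mul_one]
  have eX : X = S * Z * Si := by rw [h3, mul_assoc, hSSi, mul_one]
  have hcj : ∀ P Q R T : End 𝕜 W, P * Q = ζ • (Q * P) → R = S * P * Si → T = S * Q * Si → R * T = ζ • (T * R) := by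
    intro P Q R T hPQ hR hT
    have e1 : R * T = S * (P * Q) * Si := by
      rw [hR, hT]
      calc S * P * Si * (S * Q * Si) = S * P * (Si * S) * Q * Si := by simp only [mul_assoc]
        _ = S * (P * Q) * Si := by rw [hSiS, mul_one, mul_assoc S P Q]
    have e2 : T * R = S * (Q * P) * Si := by
      rw [hR, hT]
      calc S * Q * Si * (S * P * Si) = S * Q * (Si * S) * P * Si := by simp only [mul_assoc]
        _ = S * (Q * P) * Si := by rw [hSiS, mul_one, mul_assoc S Q P]
    rw [e1, e2, hPQ, mul_smul_comm, smul_mul_assoc]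
  have hYZ := hcj X Y Y Z hXY eY eZ
  have hZX := hcj Y Z Z X hYZ eZ eX
  -- powers
  have hpw : ∀ P R : End 𝕜 W, S * P = R * S → ∀ n : ℕ, S * P ^ n = R ^ n * S := by
    intro P R h n
    induction n with
    | zero => simp
    | succ n ih => rw [pow_succ', ← mul_assoc, h, mul_assoc, ih, ← mul_assoc, ← pow_succ']
  have hpow : ∀ P R : End 𝕜 W, S * P = R * S → P ^ s = μ • (1 : End 𝕜 W) → R ^ s = μ • (1 : End 𝕜 W) := by
    intro P R h hP
    have := hpw P R h s
    rw [hP] at this
    calc R ^ s = R ^ s * S * Si := by rw [mul_assoc, hSSi, mul_one]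
      _ = S * μ • (1 : End 𝕜 W) * Si := by rw [this]
      _ = μ • (1 : End 𝕜 W) := by rw [mul_smul_comm, mul_one, smul_mul_assoc, hSSi]
  have hYs := hpow X Y h1 hX
  have hZs := hpow Y Z h2 hYs
  have hq : ∀ P Q : End 𝕜 W, P * Q = ζ • (Q * P) → ∀ n : ℕ, P * Q ^ n = ζ ^ n • (Q ^ n * P) := by
    intro P Q h n
    induction n with
    | zero => simp
    | succ n ih =>
      rw [pow_succ, ← mul_assoc, ih, smul_mul_assoc, mul_assoc, h, mul_smul_comm, smul_smul, ← mul_assoc, ← pow_succ]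
  have hYinj : ∀ w, Y w = 0 → w = 0 := by
    intro w hw
    have e : X (Si w) = 0 := by
      have h4 : S (X (Si w)) = Y (S (Si w)) := congrArg (fun f : End 𝕜 W => f (Si w)) h1
      have h5 : S (Si w) = w := congrArg (fun f : End 𝕜 W => f w) hSSi
      rw [h5, hw] at h4
      have h6 : Si (S (X (Si w))) = X (Si w) := congrArg (fun f : End 𝕜 W => f (X (Si w))) hSiS
      rw [← h6, h4, map_zero]
    have e2 := hXinj _ e
    have h5 : S (Si w) = w := congrArg (fun f : End 𝕜 W => f w) hSSi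
    rw [← h5, e2, map_zero]
  -- `ζ ^ s = 1`
  have hζs : ζ ^ s = 1 := by
    have h4 := hq X Y hXY s
    rw [hYs] at h4
    obtain ⟨w, hw⟩ := exists_ne (0 : W)
    have h5 : X (μ • w) = ζ ^ s • (μ • X w) := congrArg (fun f : End 𝕜 W => f w) h4
    rw [map_smul, smul_smul, ← sub_eq_zero, ← sub_smul] at h5
    rcases smul_eq_zero.1 h5 with h6 | h6
    · have h7 : μ * (1 - ζ ^ s) = 0 := by rw [← h6]; ring
      rcases mul_eq_zero.1 h7 with h8 | h8
      · exact absurd h8 hμ
      · exact (sub_eq_zero.1 h8).symm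
    · exact absurd (hXinj _ h6) hw
  have hζ0 : ζ ≠ 0 := by
    rintro rfl
    rw [zero_pow hs.ne_zero] at hζs
    exact zero_ne_one hζs
  -- eigenvector
  obtain ⟨β, hβ⟩ := Module.End.exists_eigenvalue (Zi * Y)
  obtain ⟨u, hu⟩ := hβ.exists_hasEigenvector
  have hu0 : u ≠ 0 := hu.2
  have hu1 : Y u = β • Z u := by
    have h4 : Zi (Y u) = β • u := hu.apply_eq_smul
    have h5 : Z (Zi (Y u)) = Y u := congrArg (fun f : End 𝕜 W => f (Y u)) hZZi
    rw [← h5, h4, map_smul]
  have hβs : β ^ s = 1 := by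
    have h4 : ∀ n : ℕ, (Y ^ n) u = (β ^ n * ζ ^ (∑ i ∈ Finset.range n, i)) • (Z ^ n) u := by
      intro n
      induction n with
      | zero => simp
      | succ n ih =>
        have h5 : (Y ^ (n + 1)) u = Y ((Y ^ n) u) := by rw [pow_succ']; rfl
        have h6 : Y ((Z ^ n) u) = ζ ^ n • (Z ^ n) (Y u) := congrArg (fun f : End 𝕜 W => f u) (hq Y Z hYZ n)
        have h7 : (Z ^ (n + 1)) u = (Z ^ n) (Z u) := by rw [pow_succ]; rfl
        rw [h5, ih, map_smul, h6, hu1, map_smul, ← h7, smul_smul, smul_smul, Finset.sum_range_succ]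
        congr 1
        ring
    have h5 := h4 s
    rw [hYs, hZs] at h5
    have h6 : ζ ^ (∑ i ∈ Finset.range s, i) = 1 := by
      have h7 := Finset.sum_range_id_mul_two s
      have hodd : Odd s := hs.odd_of_ne_two hs2
      obtain ⟨k, hk⟩ := hodd
      have h8 : (∑ i ∈ Finset.range s, i) = s * k := by
        have : s - 1 = 2 * k := by omega
        rw [this] at h7
        apply Nat.eq_of_mul_eq_mul_right (show 0 < 2 by norm_num)
        rw [h7]; ring
      rw [h8, pow_mul, hζs, one_pow]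
    rw [h6, mul_one] at h5
    change μ • u = β ^ s • (μ • u) at h5
    rw [smul_smul, ← sub_eq_zero, ← sub_smul] at h5
    rcases smul_eq_zero.1 h5 with h8 | h8
    · have h9 : μ * (1 - β ^ s) = 0 := by rw [← h8]; ring
      rcases mul_eq_zero.1 h9 with h10 | h10
      · exact absurd h10 hμ
      · exact (sub_eq_zero.1 h10).symm
    · exact absurd h8 hu0
  -- shift
  have hprim : IsPrimitiveRoot (ζ ^ 2) s := by
    have h4 : orderOf ζ = s := orderOf_eq_prime hζs hζ
    have h5 : IsPrimitiveRoot ζ s := by rw [← h4]; exact IsPrimitiveRoot.orderOf ζ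
    exact h5.pow_of_coprime 2 ((Nat.coprime_primes Nat.prime_two hs).2 (fun h => hs2 h.symm))
  obtain ⟨k, -, hk⟩ := hprim.eq_pow_of_pow_eq_one hβs
  have hshift : ∀ n : ℕ, (ζ ^ 2) ^ n • Y ((X ^ n) u) = β • Z ((X ^ n) u) := by
    intro n
    induction n with
    | zero => simpa using hu1
    | succ n ih =>
      have e1 : (X ^ (n + 1)) u = X ((X ^ n) u) := by rw [pow_succ']; rfl
      rw [e1]
      set w := (X ^ n) u
      have e2 : X (Y w) = ζ • Y (X w) := congrArg (fun f : End 𝕜 W => f w) hXY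
      have e3 : Z (X w) = ζ • X (Z w) := congrArg (fun f : End 𝕜 W => f w) hZX
      rw [e3]
      have e4 : β • X (Z w) = (ζ ^ 2) ^ n • (ζ • Y (X w)) := by
        rw [← map_smul, ← ih, map_smul, e2]
      rw [smul_comm β ζ, e4, smul_smul, smul_smul]
      congr 1
      ring
  have hu2 := hshift k
  rw [hk] at hu2
  have hβ0 : β ≠ 0 := by
    rintro rfl
    rw [zero_pow hs.ne_zero] at hβs
    exact zero_ne_one hβs
  have hXn : ∀ n : ℕ, (X ^ n) u ≠ 0 := by
    intro n
    induction n with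
    | zero => simpa using hu0
    | succ n ih =>
      intro h
      apply ih
      apply hXinj
      have e1 : (X ^ (n + 1)) u = X ((X ^ n) u) := by rw [pow_succ']; rfl
      rw [← e1, h]
  set t := (X ^ k) u with ht
  have ht0 : t ≠ 0 := hXn k
  have htYZ : Y t = Z t := smul_right_injective W hβ0 hu2
  -- now `v = S⁻¹ t`
  set v := Si t with hv
  have hSv : S v = t := congrArg (fun f : End 𝕜 W => f t) hSSi
  have hv0 : v ≠ 0 := by
    intro h
    apply ht0
    rw [← hSv, h, map_zero]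
  have hSinj : ∀ a b, S a = S b → a = b := by
    intro a b hab
    have ha : Si (S a) = a := congrArg (fun f : End 𝕜 W => f a) hSiS
    have hb : Si (S b) = b := congrArg (fun f : End 𝕜 W => f b) hSiS
    rw [← ha, hab, hb]
  have hXYv : X v = Y v := by
    apply hSinj
    have e1 : S (X v) = Y (S v) := congrArg (fun f : End 𝕜 W => f v) h1
    have e2 : S (Y v) = Z (S v) := congrArg (fun f : End 𝕜 W => f v) h2
    rw [e1, e2, hSv, htYZ]
  have hXZv : X v = Z v := by
    have e1 := hsum (X v)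
    have e2 := hsum v
    have e3 : S (X v) = Y t := by
      have : S (X v) = Y (S v) := congrArg (fun f : End 𝕜 W => f v) h1
      rw [this, hSv]
    have e4 : Si (X v) = Z (Si v) := by
      apply hSinj
      have e5 : S (Si (X v)) = X v := congrArg (fun f : End 𝕜 W => f (X v)) hSSi
      have e6 : S (Z (Si v)) = X (S (Si v)) := congrArg (fun f : End 𝕜 W => f (Si v)) h3
      have e7 : S (Si v) = v := congrArg (fun f : End 𝕜 W => f v) hSSi
      rw [e5, e6, e7]
    have e5 : Si v = -v - t := by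
      rw [hSv] at e2
      rw [eq_comm, sub_eq_iff_eq_add, eq_comm, ← sub_eq_zero]
      rw [← e2]; abel
    rw [e3, e4, e5, map_sub, map_neg, htYZ] at e1
    rw [← sub_eq_zero]
    rw [← e1]; abel
  -- conclusion
  set w := X v with hw
  have hw0 : w ≠ 0 := fun h => hv0 (hXinj _ h)
  have f1 : X w = ζ • Y w := by
    have : X (Y v) = ζ • Y (X v) := congrArg (fun f : End 𝕜 W => f v) hXY
    rwa [← hXYv] at this
  have f2 : Y w = ζ • Z w := by
    have : Y (Z v) = ζ • Z (Y v) := congrArg (fun f : End 𝕜 W => f v) hYZ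
    rwa [← hXZv, ← hXYv] at this
  have f3 : Z w = ζ • X w := by
    have : Z (X v) = ζ • X (Z v) := congrArg (fun f : End 𝕜 W => f v) hZX
    rwa [← hXZv] at this
  have f4 : X w = (ζ * (ζ * ζ)) • X w := by
    conv_lhs => rw [f1, f2, f3]
    rw [smul_smul, smul_smul, mul_assoc]
  have f5 : ζ * (ζ * ζ) = 1 := by
    rw [← sub_eq_zero, ← one_smul 𝕜 (X w), smul_smul, mul_one, ← sub_smul] at f4
    rcases smul_eq_zero.1 f4 with h | h
    · exact (sub_eq_zero.1 h).symm
    · exact absurd (hXinj _ h) hw0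
  have f6 : ζ ^ 3 = 1 := by rw [← f5]; ring
  have f7 : ζ = 1 := by
    have h4 : orderOf ζ = s := orderOf_eq_prime hζs hζ
    have h5 : s ∣ 3 := by rw [← h4]; exact orderOf_dvd_of_pow_eq_one f6
    have := (Nat.prime_dvd_prime_iff_eq hs Nat.prime_three).1 h5
    exact absurd this hs3
  exact hζ f7

end Cfsg.Agent.H24.SThree
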