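import Mathlib
import Cfsg.Agent.H24_SThree3

namespace Cfsg.Agent.H24.SThree

open Subgroup Cfsg.Agent Module Weight

variable {Γ : Type*} [Group Γ] [Finite Γ]

theorem exists_stab {𝕜 V : Type*} [Field 𝕜] [AddCommGroup V] [Module 𝕜 V]
    (ρ : Representation 𝕜 Γ V) (j : S3 →* Γ)
    (hfix : ∀ v : V, (∀ a : S3, ρ (j a) v = v) → v = 0)
    {N : Subgroup Γ} [hN : N.Normal] (hchar : (Nat.card N : 𝕜) ≠ 0) {y : N →* 𝕜ˣ} (hy : wt ρ N y ≠ ⊥) :
    ∃ a : S3, a ≠ 1 ∧ cj N (j a) y = y := by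
  by_contra hcon
  push Not at hcon
  apply hy
  rw [Submodule.eq_bot_iff]
  intro v hv
  classical
  have h1 := sum_stab ρ N hchar j hfix hv
  have h2 : (Finset.univ.filter (fun a : S3 => cj N (j a) y = y)) = {1} := by
    ext a
    simp only [Finset.mem_filter, Finset.mem_univ, true_and, Finset.mem_singleton]
    constructor
    · intro h
      by_contra ha
      exact hcon a ha h
    · rintro rfl
      rw [map_one]
      ext n
      rw [cj_apply]
      congr 2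
      apply Subtype.ext
      change (1 : Γ)⁻¹ * n * 1 = n
      group
  have h3 : ∑ a ∈ Finset.univ.filter (fun a : S3 => cj N (j a) y = y), ρ (j a) v = v := by
    rw [h2, Finset.sum_singleton, map_one, map_one]; rfl
  rw [← h3]
  convert h1

omit [Finite Γ] in
theorem cj_mul {𝕜 : Type*} [Field 𝕜] {N : Subgroup Γ} [hN : N.Normal] (g h : Γ) (y : N →* 𝕜ˣ) :
    cj N (g * h) y = cj N g (cj N h y) := by
  letI := charAct (Γ := Γ) 𝕜 N
  exact mul_smul g h y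

omit [Finite Γ] in
theorem cj_one {𝕜 : Type*} [Field 𝕜] {N : Subgroup Γ} [hN : N.Normal] (y : N →* 𝕜ˣ) :
    cj N 1 y = y := by
  letI := charAct (Γ := Γ) 𝕜 N
  exact one_smul Γ y

theorem third (j : S3 →* Γ) {M : Subgroup Γ} (hjM : j.range ≤ normalizer (M : Set Γ)) (hM6 : (Nat.card M).Coprime 6)
    {N : Subgroup Γ} [hN : N.Normal] (hNM : N ≤ M) (hcomm : ∀ x ∈ M, ∀ y ∈ M, x * y * x⁻¹ * y⁻¹ ∈ N)
    (hC : ∀ x ∈ M, j cyc * x = x * j cyc → x ∈ N) {x : Γ} (hx : x ∈ M) :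
    x * (j cyc * x * (j cyc)⁻¹) * ((j cyc)⁻¹ * x * j cyc) ∈ N := by
  set σ := j cyc with hσ
  have hσ3 : σ * σ = σ⁻¹ := by rw [hσ, ← map_mul, cyc_sq, map_inv]
  have hconj : ∀ c : S3, ∀ k ∈ M, j c * k * (j c)⁻¹ ∈ M := fun c k hk =>
    (mem_normalizer_iff.1 (hjM ⟨c, rfl⟩) k).1 hk
  have hx' : σ * x * σ⁻¹ ∈ M := hconj cyc x hx
  have hx'' : σ⁻¹ * x * σ ∈ M := by
    have := hconj cyc⁻¹ x hx
    rwa [map_inv, inv_inv] at this
  set x' := σ * x * σ⁻¹ with hx'd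
  set x'' := σ⁻¹ * x * σ with hx''d
  set c := x * x' * x'' with hc
  have hcM : c ∈ M := mul_mem (mul_mem hx hx') hx''
  have e1 : σ * c * σ⁻¹ = x' * x'' * x := by
    have i1 : σ * x' * σ⁻¹ = x'' := by
      rw [hx'd, hx''d, show σ * (σ * x * σ⁻¹) * σ⁻¹ = (σ * σ) * x * (σ * σ)⁻¹ by group, hσ3, inv_inv]
    have i2 : σ * x'' * σ⁻¹ = x := by rw [hx''d]; group
    rw [hc, show σ * (x * x' * x'') * σ⁻¹ = (σ * x * σ⁻¹) * (σ * x' * σ⁻¹) * (σ * x'' * σ⁻¹) by group, i1, i2]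
  -- in the quotient
  have hq : Commute (QuotientGroup.mk' N σ) (QuotientGroup.mk' N c) := by
    have hab : ∀ u ∈ M, ∀ v ∈ M, QuotientGroup.mk' N (u * v) = QuotientGroup.mk' N (v * u) := by
      intro u hu v hv
      rw [QuotientGroup.mk'_eq_mk']
      refine ⟨(u * v)⁻¹ * (v * u), ?_, by group⟩
      have := hcomm v⁻¹ (inv_mem hv) u⁻¹ (inv_mem hu)
      have e : v⁻¹ * u⁻¹ * v⁻¹⁻¹ * u⁻¹⁻¹ = (u * v)⁻¹ * (v * u) := by group
      rwa [e] at this
    have h1 : QuotientGroup.mk' N (σ * c * σ⁻¹) = QuotientGroup.mk' N c := by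
      rw [e1, hc, mul_assoc x, hab x hx _ (mul_mem hx' hx'')]
    rw [map_mul, map_mul, map_inv, mul_inv_eq_iff_eq_mul] at h1
    exact h1
  have hC0 : zpowers σ ≤ j.range := by rw [zpowers_le]; exact ⟨cyc, rfl⟩
  obtain ⟨d, hd, hcd⟩ := H1.Coprime.fixed_points_quotient (zpowers σ) M (hC0.trans hjM)
    ((coprime_range j hM6).coprime_dvd_left (Subgroup.card_dvd_of_le hC0))
    (Or.inl (Group.isSolvable_of_comm fun a b => mul_comm' a b)) N hNM
    (by rw [normalizer_eq_top_iff.2 hN]; exact le_top) (by rw [normalizer_eq_top_iff.2 hN]; exact le_top) c hcM (by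
      rintro _ ⟨n, rfl⟩
      have h1 : Commute (QuotientGroup.mk' N (σ ^ n)) (QuotientGroup.mk' N c) := by
        rw [map_zpow]; exact hq.zpow_left n
      rw [← QuotientGroup.ker_mk' N, MonoidHom.mem_ker, map_mul, map_mul, map_mul, map_inv, map_inv]
      rw [h1.eq]; group)
  obtain ⟨hdM, hdC⟩ := mem_inf.1 hd
  have hdN : d ∈ N := hC d hdM (by
    rw [mem_centralizer_iff] at hdC
    exact hdC σ (mem_zpowers _))
  have : c = d * (c⁻¹ * d)⁻¹ := by group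
  rw [this]
  exact mul_mem hdN (inv_mem hcd)

theorem exists_x (j : S3 →* Γ) {M : Subgroup Γ} (hjM : j.range ≤ normalizer (M : Set Γ)) (hM6 : (Nat.card M).Coprime 6)
    {N : Subgroup Γ} [hN : N.Normal] (hNM : N ≤ M) (hne : N ≠ M) (hcomm : ∀ x ∈ M, ∀ y ∈ M, x * y * x⁻¹ * y⁻¹ ∈ N)
    (hC : ∀ x ∈ M, j cyc * x = x * j cyc → x ∈ N) : ∃ x ∈ M, x ∉ N ∧ j tau * x * (j tau)⁻¹ * x⁻¹ ∈ N := by
  by_contra hcon
  push Not at hcon
  have hcon' : ∀ x ∈ M, j tau * x * (j tau)⁻¹ * x⁻¹ ∈ N → x ∈ N := by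
    intro x hx h
    by_contra hxN
    exact hcon x hx hxN h
  have hconj : ∀ c : S3, ∀ k ∈ M, j c * k * (j c)⁻¹ ∈ M := fun c k hk =>
    (mem_normalizer_iff.1 (hjM ⟨c, rfl⟩) k).1 hk
  set f := QuotientGroup.mk' N with hf
  have hker : ∀ g, f g = 1 ↔ g ∈ N := fun g => by
    rw [← MonoidHom.mem_ker, hf, QuotientGroup.ker_mk']
  have hinv : ∀ m ∈ M, f (j tau) * f m * (f (j tau))⁻¹ = (f m)⁻¹ := by
    intro m hm
    set m' := j tau * m * (j tau)⁻¹ with hm'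
    have hm'M : m' ∈ M := hconj tau m hm
    have hττ : j tau * j tau = 1 := by rw [← map_mul, tau_mul_self, map_one]
    have e1 : j tau * (m * m') * (j tau)⁻¹ * (m * m')⁻¹ = m' * m * m'⁻¹ * m⁻¹ := by
      have : j tau * m' * (j tau)⁻¹ = m := by
        rw [hm']
        have : j tau * (j tau * m * (j tau)⁻¹) * (j tau)⁻¹ = (j tau * j tau) * m * (j tau * j tau)⁻¹ := by group
        rw [this, hττ]; group
      have h2 : j tau * (m * m') * (j tau)⁻¹ = m' * m := by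
        rw [show j tau * (m * m') * (j tau)⁻¹ = (j tau * m * (j tau)⁻¹) * (j tau * m' * (j tau)⁻¹) by group, this]
      rw [h2]; group
    have h3 := hcon' (m * m') (mul_mem hm hm'M) (by
      rw [e1]; exact hcomm _ hm'M _ hm)
    rw [← hker, map_mul] at h3
    rw [← map_inv, ← map_mul, ← map_mul, ← hm']
    exact eq_inv_of_mul_eq_one_right h3
  have hσ : ∀ m ∈ M, f (j cyc) * f m = f m * f (j cyc) := by
    intro m hm
    have h1 := hinv m hm
    have h2 := hinv _ (hconj cyc m hm)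
    rw [map_mul, map_mul, map_inv] at h2
    set S := f (j cyc)
    set T := f (j tau)
    set u := f m
    have hrel : T * S * T⁻¹ = S⁻¹ := by
      change f (j tau) * f (j cyc) * (f (j tau))⁻¹ = (f (j cyc))⁻¹
      rw [← map_inv, ← map_inv, ← map_mul, ← map_mul, ← map_inv, ← map_inv, ← map_mul, ← map_mul, tau_cyc']
    have hS2 : S * S = S⁻¹ := by
      change f (j cyc) * f (j cyc) = (f (j cyc))⁻¹
      rw [← map_mul, ← map_mul, cyc_sq, map_inv, map_inv]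
    have h3 : T * (S * u * S⁻¹) * T⁻¹ = (T * S * T⁻¹) * (T * u * T⁻¹) * (T * S * T⁻¹)⁻¹ := by group
    rw [h3, hrel, h1, inv_inv] at h2
    -- S⁻¹ u⁻¹ S = S u⁻¹ S⁻¹
    have h4 : S⁻¹ * u⁻¹ * S = S * u⁻¹ * S⁻¹ := by rw [h2]; group
    have h5 : u⁻¹ * (S * S) = (S * S) * u⁻¹ := by
      have := congrArg (fun g => S * g * S) h4
      rw [show S * (S⁻¹ * u⁻¹ * S) * S = u⁻¹ * (S * S) by group,
        show S * (S * u⁻¹ * S⁻¹) * S = (S * S) * u⁻¹ by group] at this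
      exact this
    rw [hS2] at h5
    have h6 := congrArg (fun g => S * u * g * u * S) h5
    rw [show S * u * (u⁻¹ * S⁻¹) * u * S = u * S by group, show S * u * (S⁻¹ * u⁻¹) * u * S = S * u by group] at h6
    exact h6.symm
  apply hne
  apply le_antisymm hNM
  intro m hm
  have h1 := third j hjM hM6 hNM hcomm hC hm
  rw [← hker] at h1
  have h2 : f (m * (j cyc * m * (j cyc)⁻¹) * ((j cyc)⁻¹ * m * j cyc)) = f (m ^ 3) := by
    rw [map_mul, map_mul, map_mul, map_mul, map_mul, map_mul, map_inv, map_pow, hσ m hm, mul_inv_cancel_right,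
      mul_assoc (f (j cyc))⁻¹, ← hσ m hm, inv_mul_cancel_left, pow_three']
  rw [h2, hker] at h1
  -- m ^ 3 ∈ N, m ^ |M| = 1
  have h3 : (3 : ℕ).Coprime (Nat.card M) := (hM6.coprime_dvd_right (by norm_num)).symm
  obtain ⟨a, b, hab⟩ : ∃ a b : ℤ, 3 * a + (Nat.card M : ℤ) * b = 1 := by
    have := Nat.gcd_eq_gcd_ab 3 (Nat.card M)
    rw [h3] at this
    exact ⟨_, _, by exact_mod_cast this.symm⟩
  have h4 : m = (m ^ 3) ^ a * (m ^ (Nat.card M)) ^ b := by
    conv_lhs => rw [← zpow_one m, ← hab]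
    rw [zpow_add, zpow_mul, zpow_mul, zpow_natCast]
    norm_cast
  have h5 : m ^ (Nat.card M) = 1 := by
    have : (⟨m, hm⟩ : M) ^ (Nat.card M) = 1 := pow_card_eq_one'
    exact congrArg Subtype.val this
  rw [h4, h5, one_zpow, mul_one]
  exact zpow_mem h1 a

end Cfsg.Agent.H24.SThree
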