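import Mathlib
import Cfsg.Agent.H24_SThree4

namespace Cfsg.Agent.H24.SThree

open Subgroup Cfsg.Agent Module Weight

variable {Γ : Type*} [Group Γ] [Finite Γ]

omit [Finite Γ] in
/-- if the images of `x`, `x'` commute then those of everything do -/
theorem gen_comm {R : Type*} [Monoid R] (ρ : Γ →* R) (s : Set Γ) (h : ∀ x ∈ s, ∀ y ∈ s, ρ x * ρ y = ρ y * ρ x) :
    ∀ x ∈ closure s, ∀ y ∈ closure s, ρ x * ρ y = ρ y * ρ x := by
  let C : Γ → Subgroup Γ := fun g =>
    { carrier := {h | ρ h * ρ g = ρ g * ρ h}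
      one_mem' := by simp
      mul_mem' := by
        intro a b ha hb
        simp only [Set.mem_ofPred_eq] at ha hb ⊢
        rw [map_mul, mul_assoc, hb, ← mul_assoc, ha, mul_assoc]
      inv_mem' := by
        intro a ha
        simp only [Set.mem_ofPred_eq] at ha ⊢
        have h1 : ρ a⁻¹ * ρ a = 1 := by rw [← map_mul, inv_mul_cancel, map_one]
        have h2 : ρ a * ρ a⁻¹ = 1 := by rw [← map_mul, mul_inv_cancel, map_one]
        calc ρ a⁻¹ * ρ g = ρ a⁻¹ * ρ g * (ρ a * ρ a⁻¹) := by rw [h2, mul_one]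
          _ = ρ a⁻¹ * (ρ g * ρ a) * ρ a⁻¹ := by simp only [mul_assoc]
          _ = ρ a⁻¹ * (ρ a * ρ g) * ρ a⁻¹ := by rw [ha]
          _ = (ρ a⁻¹ * ρ a) * ρ g * ρ a⁻¹ := by simp only [mul_assoc]
          _ = ρ g * ρ a⁻¹ := by rw [h1, one_mul] }
  have hC : ∀ g h, h ∈ C g ↔ ρ h * ρ g = ρ g * ρ h := fun g h => Iff.rfl
  have h1 : ∀ g ∈ s, closure s ≤ C g := by
    intro g hg
    rw [closure_le]
    intro x hx
    exact h x hx g hg
  intro x hx y hy
  have h2 : closure s ≤ C y := by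
    rw [closure_le]
    intro g hg
    have := h1 g hg hy
    rw [hC] at this
    exact this.symm
  exact h2 hx

omit [Finite Γ] in
/-- the subgroup generated by `N`, `x` and its conjugates under `cyc` is invariant -/
theorem gen_inv (j : S3 →* Γ) {N : Subgroup Γ} [hN : N.Normal] {x : Γ} (hx : j tau * x * (j tau)⁻¹ * x⁻¹ ∈ N) :
    j.range ≤ normalizer ((closure ((N : Set Γ) ∪ {x, j cyc * x * (j cyc)⁻¹, (j cyc)⁻¹ * x * j cyc}) : Subgroup Γ) : Set Γ) := by
  set σ := j cyc with hσ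
  set τ := j tau with hτ
  set s : Set Γ := (N : Set Γ) ∪ {x, σ * x * σ⁻¹, σ⁻¹ * x * σ} with hs
  have hN0 : ∀ n ∈ N, n ∈ closure s := fun n hn => subset_closure (Or.inl hn)
  have hx0 : x ∈ closure s := subset_closure (Or.inr (by simp))
  have hx1 : σ * x * σ⁻¹ ∈ closure s := subset_closure (Or.inr (by simp))
  have hx2 : σ⁻¹ * x * σ ∈ closure s := subset_closure (Or.inr (by simp))
  have hσ3 : σ * σ = σ⁻¹ := by rw [hσ, ← map_mul, cyc_sq, map_inv]
  have hrel : τ * σ * τ⁻¹ = σ⁻¹ := by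
    rw [hσ, hτ, ← map_inv, ← map_inv, ← map_mul, ← map_mul, tau_cyc']
  have key : ∀ g : Γ, (∀ y ∈ s, g * y * g⁻¹ ∈ closure s) → ∀ l ∈ closure s, g * l * g⁻¹ ∈ closure s := by
    intro g hg l hl
    have : closure s ≤ (closure s).comap (MulAut.conj g).toMonoidHom := by
      rw [closure_le]
      intro y hy
      exact hg y hy
    exact this hl
  have hall : ∀ a : S3, ∀ l ∈ closure s, j a * l * (j a)⁻¹ ∈ closure s := by
    refine all_of_two j (P := fun g => ∀ l ∈ closure s, g * l * g⁻¹ ∈ closure s) ?_ ?_ ?_ ?_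
    · intro l hl; simpa using hl
    · intro a b ha hb l hl
      have := ha _ (hb l hl)
      rwa [show a * (b * l * b⁻¹) * a⁻¹ = a * b * l * (a * b)⁻¹ by group] at this
    · apply key
      rintro y (hy | hy)
      · exact hN0 _ (hN.conj_mem y hy _)
      · simp only [Set.mem_insert_iff, Set.mem_singleton_iff] at hy
        rcases hy with rfl | rfl | rfl
        · exact hx1
        · rw [← hσ, show σ * (σ * x * σ⁻¹) * σ⁻¹ = (σ * σ) * x * (σ * σ)⁻¹ by group, hσ3, inv_inv]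
          exact hx2
        · rw [← hσ, show σ * (σ⁻¹ * x * σ) * σ⁻¹ = x by group]
          exact hx0
    · apply key
      have hτσ : τ * σ = σ⁻¹ * τ := by rw [← hrel]; group
      have hτσ' : τ * σ⁻¹ = σ * τ := by
        have := congrArg (fun g => g⁻¹) hrel
        rw [show (τ * σ * τ⁻¹)⁻¹ = τ * σ⁻¹ * τ⁻¹ by group, inv_inv] at this
        rw [mul_inv_eq_iff_eq_mul] at this
        exact this
      rintro y (hy | hy)
      · exact hN0 _ (hN.conj_mem y hy _)
      · simp only [Set.mem_insert_iff, Set.mem_singleton_iff] at hy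
        rcases hy with rfl | rfl | rfl
        · have := mul_mem (hN0 _ hx) hx0
          rwa [inv_mul_cancel_right] at this
        · have e : τ * (σ * x * σ⁻¹) * τ⁻¹ = (σ⁻¹ * (τ * x * τ⁻¹ * x⁻¹) * σ⁻¹⁻¹) * (σ⁻¹ * x * σ) := by
            have : τ * (σ * x * σ⁻¹) * τ⁻¹ = (τ * σ) * x * (τ * σ)⁻¹ := by group
            rw [this, hτσ]; group
          rw [← hτ, e]
          exact mul_mem (hN0 _ (hN.conj_mem _ hx _)) hx2
        · have e : τ * (σ⁻¹ * x * σ) * τ⁻¹ = (σ * (τ * x * τ⁻¹ * x⁻¹) * σ⁻¹) * (σ * x * σ⁻¹) := by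
            have : τ * (σ⁻¹ * x * σ) * τ⁻¹ = (τ * σ⁻¹) * x * (τ * σ⁻¹)⁻¹ := by group
            rw [this, hτσ']; group
          rw [← hτ, e]
          exact mul_mem (hN0 _ (hN.conj_mem _ hx _)) hx1
  rintro _ ⟨a, rfl⟩
  rw [mem_normalizer_iff]
  intro l
  refine ⟨hall a l, fun h => ?_⟩
  have := hall a⁻¹ _ h
  rwa [map_inv, show (j a)⁻¹ * (j a * l * (j a)⁻¹) * (j a)⁻¹⁻¹ = l by group] at this

omit [Finite Γ] in
/-- elementary abelian top section -/
theorem pow_mem_of_max (j : S3 →* Γ) {M : Subgroup Γ} (hjM : j.range ≤ normalizer (M : Set Γ))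
    {s : ℕ} (hs : s.Prime) (hMs : IsPGroup s M) {N : Subgroup Γ} [hN : N.Normal] (hNM : N ≤ M) (hne : N ≠ M)
    (hcomm : ∀ x ∈ M, ∀ y ∈ M, x * y * x⁻¹ * y⁻¹ ∈ N)
    (hmax : ∀ L : Subgroup Γ, N ≤ L → L ≤ M → j.range ≤ normalizer (L : Set Γ) → L = N ∨ L = M) {x : Γ} (hx : x ∈ M) :
    x ^ s ∈ N := by
  set f := QuotientGroup.mk' N with hf
  have hker : ∀ g, f g = 1 ↔ g ∈ N := fun g => by
    rw [← MonoidHom.mem_ker, hf, QuotientGroup.ker_mk']
  have hcm : ∀ u ∈ M, ∀ v ∈ M, Commute (f u) (f v) := by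
    intro u hu v hv
    have h1 := (hker _).2 (hcomm u hu v hv)
    rw [map_mul, map_mul, map_mul, map_inv, map_inv] at h1
    change f u * f v = f v * f u
    have h2 : f u * f v * (f u)⁻¹ * (f v)⁻¹ * (f v * f u) = f v * f u := by rw [h1, one_mul]
    rw [← h2]; group
  let L : Subgroup Γ :=
    { carrier := {y | y ∈ M ∧ y ^ s ∈ N}
      one_mem' := ⟨one_mem _, by rw [one_pow]; exact one_mem _⟩
      mul_mem' := by
        rintro a b ⟨ha, ha'⟩ ⟨hb, hb'⟩
        refine ⟨mul_mem ha hb, ?_⟩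
        rw [← hker, map_pow, map_mul, (hcm a ha b hb).mul_pow, ← map_pow, ← map_pow, (hker _).2 ha', (hker _).2 hb', one_mul]
      inv_mem' := by
        rintro a ⟨ha, ha'⟩
        exact ⟨inv_mem ha, by rw [inv_pow]; exact inv_mem ha'⟩ }
  have hL : ∀ y, y ∈ L ↔ y ∈ M ∧ y ^ s ∈ N := fun y => Iff.rfl
  have hNL : N ≤ L := fun y hy => ⟨hNM hy, pow_mem hy s⟩
  have hLM : L ≤ M := fun y hy => hy.1
  have hLn : j.range ≤ normalizer (L : Set Γ) := by
    have h1 : ∀ a ∈ j.range, ∀ y ∈ L, a * y * a⁻¹ ∈ L := by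
      intro a ha y hy
      refine ⟨(mem_normalizer_iff.1 (hjM ha) y).1 hy.1, ?_⟩
      rw [conj_pow]
      exact hN.conj_mem _ hy.2 a
    intro a ha
    rw [mem_normalizer_iff]
    intro y
    refine ⟨h1 a ha y, fun h => ?_⟩
    have := h1 a⁻¹ (inv_mem ha) _ h
    rwa [show a⁻¹ * (a * y * a⁻¹) * a⁻¹⁻¹ = y by group] at this
  rcases hmax L hNL hLM hLn with h | h
  · exfalso
    obtain ⟨m, hm, hmN⟩ : ∃ m ∈ M, m ∉ N := by
      by_contra hcon
      push Not at hcon
      exact hne (le_antisymm hNM hcon)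
    obtain ⟨k, hk⟩ := hMs ⟨m, hm⟩
    have hk' : m ^ s ^ k ∈ N := by
      have : m ^ s ^ k = 1 := congrArg Subtype.val hk
      rw [this]; exact one_mem _
    classical
    have hex : ∃ i, m ^ s ^ i ∈ N := ⟨k, hk'⟩
    have h1 := Nat.find_spec hex
    have h2 : Nat.find hex ≠ 0 := by
      intro h0
      rw [h0, pow_zero, pow_one] at h1
      exact hmN h1
    have h3 := Nat.find_min hex (Nat.sub_lt (Nat.pos_of_ne_zero h2) Nat.one_pos)
    apply h3
    refine (le_of_eq h) ?_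
    rw [hL]
    refine ⟨pow_mem hm _, ?_⟩
    rw [← pow_mul, ← pow_succ, Nat.sub_add_cancel (Nat.pos_of_ne_zero h2)]
    exact h1
  · rw [← h] at hx
    exact hx.2

end Cfsg.Agent.H24.SThree
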