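import Mathlib
import Cfsg.Agent.H24_SThree5

namespace Cfsg.Agent.H24.SThree

open Subgroup Cfsg.Agent Module Weight

variable {Γ : Type*} [Group Γ] [Finite Γ]

theorem tau_cyc1 : tau * cyc⁻¹ = cyc * tau := by decide
theorem tau_cyc2 : tau⁻¹ * cyc = cyc⁻¹ * tau⁻¹ := by decide
theorem cyc_ne_inv : cyc ≠ cyc⁻¹ := by decide

/-- stabilizer of a weight -/
def stab {𝕜 : Type*} [Field 𝕜] (N : Subgroup Γ) [hN : N.Normal] (l : N →* 𝕜ˣ) : Subgroup Γ where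
  carrier := {g | cj N g l = l}
  one_mem' := cj_one l
  mul_mem' := by
    intro a b ha hb
    rw [Set.mem_ofPred_eq] at ha hb ⊢
    rw [cj_mul, hb, ha]
  inv_mem' := by
    intro a ha
    rw [Set.mem_ofPred_eq] at ha ⊢
    conv_lhs => rw [← ha]
    rw [← cj_mul, inv_mul_cancel, cj_one]

omit [Finite Γ] in
theorem mem_stab {𝕜 : Type*} [Field 𝕜] {N : Subgroup Γ} [hN : N.Normal] {l : N →* 𝕜ˣ} {g : Γ} :
    g ∈ stab N l ↔ cj N g l = l := Iff.rfl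

/-- representation of the stabilizer on the weight space -/
def wrep {𝕜 V : Type*} [Field 𝕜] [AddCommGroup V] [Module 𝕜 V] (ρ : Representation 𝕜 Γ V)
    (N : Subgroup Γ) [hN : N.Normal] (l : N →* 𝕜ˣ) : stab N l →* End 𝕜 (wt ρ N l) where
  toFun g := (ρ g).restrict (fun w hw => by
    have := map_wt ρ N g hw
    have h2 : cj N (g : Γ) l = l := g.2
    rwa [h2] at this)
  map_one' := by
    ext v
    change ρ 1 v = v
    rw [map_one]; rfl
  map_mul' := by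
    intro a b
    ext v
    change ρ (a * b) v = ρ a (ρ b v)
    rw [map_mul]; rfl

omit [Finite Γ] in
theorem wrep_apply {𝕜 V : Type*} [Field 𝕜] [AddCommGroup V] [Module 𝕜 V] (ρ : Representation 𝕜 Γ V)
    (N : Subgroup Γ) [hN : N.Normal] (l : N →* 𝕜ˣ) (g : stab N l) (v : wt ρ N l) :
    ((wrep ρ N l g v : wt ρ N l) : V) = ρ g v := rfl

omit [Finite Γ] in
/-- an element inverting `z` modulo the kernel cannot fix a weight nontrivial on `z` -/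
theorem no_inv {𝕜 V : Type*} [Field 𝕜] [AddCommGroup V] [Module 𝕜 V]
    (ρ : Representation 𝕜 Γ V) {N : Subgroup Γ} [hN : N.Normal] (hodd : Odd (Nat.card N)) {l : N →* 𝕜ˣ}
    (hl : wt ρ N l ≠ ⊥) {z : N} (hz : l z ≠ 1) {g : Γ} (hg : ρ (g * z * g⁻¹) = ρ (z : Γ)⁻¹) (hgl : cj N g l = l) : False := by
  obtain ⟨v, hv, hv0⟩ := (Submodule.ne_bot_iff _).1 hl
  have h1 := hv ⟨g * z * g⁻¹, hN.conj_mem z z.2 g⟩
  have h2 := hv z⁻¹
  change ρ (g * z * g⁻¹) v = _ at h1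
  change ρ ((z : Γ)⁻¹) v = _ at h2
  rw [hg, h2] at h1
  have h3 : l ⟨g * z * g⁻¹, hN.conj_mem z z.2 g⟩ = l z := by
    conv_lhs => rw [← hgl]
    rw [cj_apply]
    congr 1
    apply Subtype.ext
    change g⁻¹ * (g * z * g⁻¹) * g = z
    group
  rw [h3, ← sub_eq_zero, ← sub_smul] at h1
  rcases smul_eq_zero.1 h1 with h4 | h4
  · have h5 : l z⁻¹ = l z := Units.ext (sub_eq_zero.1 h4)
    rw [map_inv] at h5
    have h6 : (l z) ^ 2 = 1 := by
      rw [sq]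
      nth_rw 1 [← h5]
      rw [inv_mul_cancel]
    have h7 : (l z) ^ (Nat.card N) = 1 := by
      rw [← map_pow, pow_card_eq_one', map_one]
    have h8 := Nat.dvd_gcd (orderOf_dvd_of_pow_eq_one h6) (orderOf_dvd_of_pow_eq_one h7)
    have h9 : Nat.gcd 2 (Nat.card N) = 1 := (Nat.coprime_two_left).2 hodd
    rw [h9, Nat.dvd_one, orderOf_eq_one_iff] at h8
    exact hz h8
  · exact hv0 h4

theorem beta_step {𝕜 V : Type*} [Field 𝕜] [IsAlgClosed 𝕜] [AddCommGroup V] [Module 𝕜 V] [FiniteDimensional 𝕜 V]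
    (ρ : Representation 𝕜 Γ V) (j : S3 →* Γ) {M : Subgroup Γ} (hjM : j.range ≤ normalizer (M : Set Γ))
    (hM6 : (Nat.card M).Coprime 6) (hMA : ∀ h ∈ M, (∀ a : S3, j a * h = h * j a) → h = 1)
    (hfix : ∀ v : V, (∀ a : S3, ρ (j a) v = v) → v = 0)
    {s : ℕ} (hs : s.Prime) (hMs : IsPGroup s M)
    {N : Subgroup Γ} [hN : N.Normal] (hNM : N ≤ M) (hne : N ≠ M) (hchar : (Nat.card N : 𝕜) ≠ 0)
    (hcomm : ∀ x ∈ M, ∀ y ∈ M, x * y * x⁻¹ * y⁻¹ ∈ N)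
    (hmax : ∀ L : Subgroup Γ, N ≤ L → L ≤ M → j.range ≤ normalizer (L : Set Γ) → L = N ∨ L = M)
    (hNab : ∀ n ∈ N, ∀ m ∈ N, ρ n * ρ m = ρ m * ρ n) : ∀ x ∈ M, ∀ y ∈ M, ρ x * ρ y = ρ y * ρ x := by
  by_contra hnc
  have hmul : ∀ g h : Γ, ρ (g * h) = ρ g * ρ h := fun g h => map_mul ρ g h
  -- weights fixed
  have hw : ∀ k ∈ M, ∀ y : N →* 𝕜ˣ, wt ρ N y ≠ ⊥ → cj N k y = y := by
    intro k hk y hy
    refine weights_fixed ρ j hjM hM6 hMA hfix hNM hchar le_rfl hjM ?_ hk hy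
    intro k hk l hl x _
    ext n
    rw [cj_apply]
    congr 1
    have e : (⟨(k * l * k⁻¹ * l⁻¹)⁻¹ * n * (k * l * k⁻¹ * l⁻¹), by
      have := hN.conj_mem n n.2 (k * l * k⁻¹ * l⁻¹)⁻¹; rwa [inv_inv] at this⟩ : N) =
      (⟨k * l * k⁻¹ * l⁻¹, hcomm k hk l hl⟩ : N)⁻¹ * n * ⟨k * l * k⁻¹ * l⁻¹, hcomm k hk l hl⟩ := rfl
    rw [e, map_mul, map_mul, map_inv, mul_comm, mul_inv_cancel_left]
  -- `N` central
  have hcen : ∀ n ∈ N, ∀ k ∈ M, ρ n * ρ k = ρ k * ρ n := by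
    intro n hn k hk
    have hmem : k⁻¹ * n * k ∈ N := by
      have := hN.conj_mem n hn k⁻¹; rwa [inv_inv] at this
    have h1 : ρ ((⟨k⁻¹ * n * k, hmem⟩ * ⟨n, hn⟩⁻¹ : N) : Γ) = 1 := by
      apply trivial_of_weights ρ N hNab hchar
      intro l hl
      rw [map_mul, map_inv, mul_inv_eq_one]
      have h2 := DFunLike.congr_fun (hw k hk l hl) ⟨n, hn⟩
      rw [cj_apply] at h2
      exact h2
    have h2 : ρ (k⁻¹ * n * k * n⁻¹) = 1 := h1
    calc ρ n * ρ k = ρ k * ρ (k⁻¹ * n * k * n⁻¹) * ρ n := by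
          rw [← hmul, ← hmul, ← hmul]; congr 1; group
      _ = ρ k * ρ n := by rw [h2, mul_one]
  have hconj : ∀ c : S3, ∀ k ∈ M, j c * k * (j c)⁻¹ ∈ M := fun c k hk =>
    (mem_normalizer_iff.1 (hjM ⟨c, rfl⟩) k).1 hk
  -- centralizer of `cyc`
  have hC : ∀ x ∈ M, j cyc * x = x * j cyc → x ∈ N := by
    let C : Subgroup Γ := M ⊓ centralizer {j cyc}
    have hCm : ∀ y, y ∈ C ↔ y ∈ M ∧ j cyc * y = y * j cyc := by
      intro y
      rw [mem_inf, mem_centralizer_singleton_iff]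
      exact and_congr_right fun _ => eq_comm
    have hCn : ∀ a : S3, ∀ y ∈ C, j a * y * (j a)⁻¹ ∈ C := by
      refine all_of_two j (P := fun g => ∀ y ∈ C, g * y * g⁻¹ ∈ C) ?_ ?_ ?_ ?_
      · intro l hl; simpa using hl
      · intro a b ha hb l hl
        have := ha _ (hb l hl)
        rwa [show a * (b * l * b⁻¹) * a⁻¹ = a * b * l * (a * b)⁻¹ by group] at this
      · intro y hy
        rw [hCm] at hy
        rw [hy.2, mul_inv_cancel_right, hCm]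
        exact hy
      · intro y hy
        rw [hCm] at hy ⊢
        refine ⟨hconj tau y hy.1, ?_⟩
        have hrel : j tau * (j cyc)⁻¹ = j cyc * j tau := by
          rw [← map_inv, ← map_mul, ← map_mul, tau_cyc1]
        have h1 : (j cyc)⁻¹ * y = y * (j cyc)⁻¹ := by
          rw [inv_mul_eq_iff_eq_mul, ← mul_assoc, hy.2, mul_inv_cancel_right]
        have hrel' : (j tau)⁻¹ * j cyc = (j cyc)⁻¹ * (j tau)⁻¹ := by
          rw [← map_inv, ← map_inv, ← map_mul, ← map_mul, tau_cyc2]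
        calc j cyc * (j tau * y * (j tau)⁻¹) = (j cyc * j tau) * y * (j tau)⁻¹ := by simp only [mul_assoc]
          _ = j tau * ((j cyc)⁻¹ * y) * (j tau)⁻¹ := by rw [← hrel]; simp only [mul_assoc]
          _ = j tau * y * ((j cyc)⁻¹ * (j tau)⁻¹) := by rw [h1]; simp only [mul_assoc]
          _ = j tau * y * (j tau)⁻¹ * j cyc := by rw [← hrel']; simp only [mul_assoc]
    have hLn : j.range ≤ normalizer ((C ⊔ N : Subgroup Γ) : Set Γ) := by
      have h1 : ∀ a : S3, ∀ y ∈ C ⊔ N, j a * y * (j a)⁻¹ ∈ C ⊔ N := by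
        intro a y hy
        obtain ⟨c, hc, n, hn, rfl⟩ := mem_sup_of_normal_right.1 hy
        rw [show j a * (c * n) * (j a)⁻¹ = (j a * c * (j a)⁻¹) * (j a * n * (j a)⁻¹) by group]
        exact mul_mem_sup (hCn a c hc) (hN.conj_mem n hn _)
      rintro _ ⟨a, rfl⟩
      rw [mem_normalizer_iff]
      intro y
      refine ⟨h1 a y, fun h => ?_⟩
      have := h1 a⁻¹ _ h
      rwa [map_inv, show (j a)⁻¹ * (j a * y * (j a)⁻¹) * (j a)⁻¹⁻¹ = y by group] at this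
    rcases hmax (C ⊔ N) le_sup_right (sup_le inf_le_left hNM) hLn with h | h
    · intro x hx hxc
      have : x ∈ C ⊔ N := mem_sup_left ((hCm x).2 ⟨hx, hxc⟩)
      rwa [h] at this
    · exfalso
      apply hnc
      intro x hx y hy
      rw [← h] at hx hy
      obtain ⟨c, hc, n, hn, rfl⟩ := mem_sup_of_normal_right.1 hx
      obtain ⟨d, hd, m, hm, rfl⟩ := mem_sup_of_normal_right.1 hy
      rw [hCm] at hc hd
      have h1 := comm_cyc j hjM hMA hc.1 hd.1 hc.2 hd.2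
      have h2 := hcen n hn d hd.1
      have h3 := hcen m hm c hc.1
      have h4 := hNab n hn m hm
      have h5 : ρ c * ρ d = ρ d * ρ c := by rw [← hmul, ← hmul, h1]
      calc ρ (c * n) * ρ (d * m) = ρ c * (ρ n * ρ d) * ρ m := by rw [hmul, hmul]; simp only [mul_assoc]
        _ = (ρ c * ρ d) * (ρ n * ρ m) := by rw [h2]; simp only [mul_assoc]
        _ = ρ d * (ρ c * ρ m) * ρ n := by rw [h5, h4]; simp only [mul_assoc]
        _ = ρ (d * m) * ρ (c * n) := by rw [← h3, hmul, hmul]; simp only [mul_assoc]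
  obtain ⟨x, hx, hxN, hxt⟩ := exists_x j hjM hM6 hNM hne hcomm hC
  have hthird := third j hjM hM6 hNM hcomm hC hx
  have hginv := gen_inv j hxt
  set σ := j cyc with hσ
  set τ := j tau with hτ
  obtain ⟨x', hx'⟩ : ∃ x', x' = σ * x * σ⁻¹ := ⟨_, rfl⟩
  obtain ⟨x'', hx''⟩ : ∃ x'', x'' = σ⁻¹ * x * σ := ⟨_, rfl⟩
  rw [← hx', ← hx''] at hthird hginv
  have hx'M : x' ∈ M := by rw [hx']; exact hconj cyc x hx
  have hx''M : x'' ∈ M := by
    have := hconj cyc⁻¹ x hx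
    rwa [map_inv, inv_inv, ← hσ, ← hx''] at this
  have hσ3 : σ * σ = σ⁻¹ := by rw [hσ, ← map_mul, cyc_sq, map_inv]
  have hgen : closure ((N : Set Γ) ∪ {x, x', x''}) = M := by
    rcases hmax (closure ((N : Set Γ) ∪ {x, x', x''})) (fun n hn => subset_closure (Or.inl hn)) (by
      rw [closure_le]
      rintro y (hy | hy)
      · exact hNM hy
      · simp only [Set.mem_insert_iff, Set.mem_singleton_iff] at hy
        rcases hy with rfl | rfl | rfl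
        · exact hx
        · exact hx'M
        · exact hx''M) hginv with h | h
    · exfalso
      apply hxN
      rw [← h]
      exact subset_closure (Or.inr (by simp))
    · exact h
  -- work in the group of units
  let φ : Γ →* (Module.End 𝕜 V)ˣ := MonoidHom.toHomUnits ρ
  have hφ : ∀ g, ((φ g : (Module.End 𝕜 V)ˣ) : Module.End 𝕜 V) = ρ g := fun g => rfl
  have hcen' : ∀ n ∈ N, ∀ k ∈ M, Commute (φ n) (φ k) := by
    intro n hn k hk
    apply Units.ext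
    rw [Units.val_mul, Units.val_mul, hφ, hφ]
    exact hcen n hn k hk
  have iσ0 : σ * x * σ⁻¹ = x' := hx'.symm
  have iσ1 : σ * x' * σ⁻¹ = x'' := by
    rw [hx', hx'', show σ * (σ * x * σ⁻¹) * σ⁻¹ = (σ * σ) * x * (σ * σ)⁻¹ by group, hσ3, inv_inv]
  have iσ2 : σ * x'' * σ⁻¹ = x := by rw [hx'']; group
  obtain ⟨z, hzdef⟩ : ∃ z, z = x * x' * x⁻¹ * x'⁻¹ := ⟨_, rfl⟩
  have hzN : z ∈ N := by rw [hzdef]; exact hcomm x hx x' hx'M
  have hz : ρ z ≠ 1 := by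
    intro h0
    apply hnc
    have hstep : ∀ u v u' v' : Γ, σ * u * σ⁻¹ = u' → σ * v * σ⁻¹ = v' → ρ u * ρ v = ρ v * ρ u → ρ u' * ρ v' = ρ v' * ρ u' := by
      intro u v u' v' hu hv h
      rw [← hmul, ← hmul] at h ⊢
      rw [← hu, ← hv, show σ * u * σ⁻¹ * (σ * v * σ⁻¹) = σ * (u * v) * σ⁻¹ by group,
        show σ * v * σ⁻¹ * (σ * u * σ⁻¹) = σ * (v * u) * σ⁻¹ by group, hmul (σ * (u * v)), hmul σ (u * v),
        hmul (σ * (v * u)), hmul σ (v * u), h]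
    have c1 : ρ x * ρ x' = ρ x' * ρ x := by
      rw [← hmul, ← hmul, show x * x' = z * (x' * x) by rw [hzdef]; group, hmul, h0, one_mul]
    have c2 := hstep _ _ _ _ iσ0 iσ1 c1
    have c3 := hstep _ _ _ _ iσ1 iσ2 c2
    rw [← hgen]
    apply gen_comm
    have hsM : ∀ y ∈ ({x, x', x''} : Set Γ), y ∈ M := by
      intro y hy
      simp only [Set.mem_insert_iff, Set.mem_singleton_iff] at hy
      rcases hy with rfl | rfl | rfl
      · exact hx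
      · exact hx'M
      · exact hx''M
    rintro a (ha | ha) b (hb | hb)
    · exact hNab a ha b hb
    · exact hcen a ha b (hsM b hb)
    · exact (hcen b hb a (hsM a ha)).symm
    · simp only [Set.mem_insert_iff, Set.mem_singleton_iff] at ha hb
      rcases ha with rfl | rfl | rfl <;> rcases hb with rfl | rfl | rfl
      · rfl
      · exact c1
      · exact c3.symm
      · exact c1.symm
      · rfl
      · exact c2
      · exact c3
      · exact c2.symm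
      · rfl
  -- action of `σ`, `τ` on `z`
  have hczM : ∀ k ∈ M, Commute (φ z) (φ k) := fun k hk => hcen' z hzN k hk
  obtain ⟨n, hn⟩ : ∃ n, n = x * x' * x'' := ⟨_, rfl⟩
  have hnN : n ∈ N := by rw [hn]; exact hthird
  have hcc : φ x'' = (φ x')⁻¹ * (φ x)⁻¹ * φ n := by
    rw [hn, map_mul, map_mul]; group
  have hdd : φ z = φ x * φ x' * (φ x)⁻¹ * (φ x')⁻¹ := by
    rw [hzdef, map_mul, map_mul, map_mul, map_inv, map_inv]
  have hzσ : φ (σ * z * σ⁻¹) = φ z := by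
    have e0 : σ * z * σ⁻¹ = x' * x'' * x'⁻¹ * x''⁻¹ := by
      have e : σ * z * σ⁻¹ = (σ * x * σ⁻¹) * (σ * x' * σ⁻¹) * (σ * x * σ⁻¹)⁻¹ * (σ * x' * σ⁻¹)⁻¹ := by
        rw [hzdef]; group
      rw [e, iσ0, iσ1]
    rw [e0, map_mul, map_mul, map_mul, map_inv, map_inv, hcc]
    have e1 : φ x' * ((φ x')⁻¹ * (φ x)⁻¹ * φ n) * (φ x')⁻¹ * ((φ x')⁻¹ * (φ x)⁻¹ * φ n)⁻¹ =
        (φ x)⁻¹ * (φ n * (φ x')⁻¹ * (φ n)⁻¹) * φ x * φ x' := by group
    have e2 : φ n * (φ x')⁻¹ * (φ n)⁻¹ = (φ x')⁻¹ := by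
      rw [(hcen' n hnN x' hx'M).inv_right.eq, mul_inv_cancel_right]
    have e3 : (φ x)⁻¹ * (φ x')⁻¹ * φ x * φ x' = (φ (x' * x))⁻¹ * φ z * φ (x' * x) := by
      rw [hdd, map_mul]; group
    rw [e1, e2, e3, mul_assoc, (hczM _ (mul_mem hx'M hx)).eq, inv_mul_cancel_left]
  have hzτ : φ (τ * z * τ⁻¹) = (φ z)⁻¹ := by
    obtain ⟨n1, hn1, e1⟩ : ∃ n1 ∈ N, τ * x * τ⁻¹ = n1 * x := ⟨_, hxt, by group⟩
    have hτσ : τ * σ = σ⁻¹ * τ := by
      have : τ * σ * τ⁻¹ = σ⁻¹ := by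
        rw [hσ, hτ, ← map_inv, ← map_inv, ← map_mul, ← map_mul, tau_cyc']
      rwa [mul_inv_eq_iff_eq_mul] at this
    obtain ⟨n2, hn2, e2⟩ : ∃ n2 ∈ N, τ * x' * τ⁻¹ = n2 * x'' := by
      refine ⟨σ⁻¹ * n1 * σ⁻¹⁻¹, hN.conj_mem n1 hn1 _, ?_⟩
      rw [hx', show τ * (σ * x * σ⁻¹) * τ⁻¹ = (τ * σ) * x * (τ * σ)⁻¹ by group, hτσ,
        show σ⁻¹ * τ * x * (σ⁻¹ * τ)⁻¹ = σ⁻¹ * (τ * x * τ⁻¹) * σ by group, e1, hx'']
      group
    have e3 : τ * z * τ⁻¹ = (τ * x * τ⁻¹) * (τ * x' * τ⁻¹) * (τ * x * τ⁻¹)⁻¹ * (τ * x' * τ⁻¹)⁻¹ := by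
      rw [hzdef]; group
    rw [e3, e1, e2, map_mul, map_mul, map_mul, map_inv, map_inv, map_mul, map_mul]
    have c1 := hcen' n1 hn1 x hx
    have c2 := hcen' n1 hn1 x'' hx''M
    have c3 := hcen' n2 hn2 x hx
    have c4 := hcen' n2 hn2 x'' hx''M
    have c5 := hcen' n1 hn1 n2 (hNM hn2)
    have e4 : φ n1 * φ x * (φ n2 * φ x'') * (φ n1 * φ x)⁻¹ * (φ n2 * φ x'')⁻¹ =
        φ x * φ x'' * (φ x)⁻¹ * (φ x'')⁻¹ := by
      have f1 : φ n1 * φ x * (φ n2 * φ x'') * (φ n1 * φ x)⁻¹ * (φ n2 * φ x'')⁻¹ =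
        φ n1 * (φ x * φ n2) * φ x'' * (φ x)⁻¹ * (φ n1)⁻¹ * (φ x'')⁻¹ * (φ n2)⁻¹ := by group
      have f2 : φ n1 * (φ n2 * φ x) * φ x'' * (φ x)⁻¹ * (φ n1)⁻¹ * (φ x'')⁻¹ * (φ n2)⁻¹ =
        (φ n1 * φ n2) * (φ x * φ x'' * (φ x)⁻¹) * (φ n1)⁻¹ * (φ x'')⁻¹ * (φ n2)⁻¹ := by group
      rw [f1, ← c3.eq, f2]
      have c6 : Commute (φ n1) (φ x * φ x'' * (φ x)⁻¹) := (c1.mul_right c2).mul_right c1.inv_right
      have c7 : Commute (φ n1) ((φ x * φ x'' * (φ x)⁻¹) * (φ n1)⁻¹) := c6.mul_right (Commute.refl _).inv_right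
      have c8 : Commute (φ n2) ((φ x * φ x'' * (φ x)⁻¹)) := (c3.mul_right c4).mul_right c3.inv_right
      calc (φ n1 * φ n2) * (φ x * φ x'' * (φ x)⁻¹) * (φ n1)⁻¹ * (φ x'')⁻¹ * (φ n2)⁻¹ =
          φ n1 * (φ n2 * (φ x * φ x'' * (φ x)⁻¹)) * (φ n1)⁻¹ * ((φ x'')⁻¹ * (φ n2)⁻¹) := by simp only [mul_assoc]
        _ = φ n1 * ((φ x * φ x'' * (φ x)⁻¹) * φ n2) * (φ n1)⁻¹ * ((φ n2)⁻¹ * (φ x'')⁻¹) := by
            rw [c8.eq, (c4.inv_left.inv_right).eq]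
        _ = (φ n1 * (φ x * φ x'' * (φ x)⁻¹)) * (φ n2 * (φ n1)⁻¹) * ((φ n2)⁻¹ * (φ x'')⁻¹) := by simp only [mul_assoc]
        _ = ((φ x * φ x'' * (φ x)⁻¹) * φ n1) * ((φ n1)⁻¹ * φ n2) * ((φ n2)⁻¹ * (φ x'')⁻¹) := by
            rw [c6.eq, (c5.inv_left).eq]
        _ = φ x * φ x'' * (φ x)⁻¹ * (φ x'')⁻¹ := by group
    rw [e4, hcc]
    have e5 : φ x * ((φ x')⁻¹ * (φ x)⁻¹ * φ n) * (φ x)⁻¹ * ((φ x')⁻¹ * (φ x)⁻¹ * φ n)⁻¹ =
        φ x * (φ x')⁻¹ * (φ x)⁻¹ * (φ n * (φ x)⁻¹ * (φ n)⁻¹) * φ x * φ x' := by group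
    have e6 : φ n * (φ x)⁻¹ * (φ n)⁻¹ = (φ x)⁻¹ := by
      rw [(hcen' n hnN x hx).inv_right.eq, mul_inv_cancel_right]
    have e7 : φ x * (φ x')⁻¹ * (φ x)⁻¹ * (φ x)⁻¹ * φ x * φ x' = (φ x')⁻¹ * (φ z)⁻¹ * φ x' := by
      rw [hdd]; group
    rw [e5, e6, e7, mul_assoc, (hczM _ hx'M).inv_left.eq, inv_mul_cancel_left]
  -- choose the weight
  obtain ⟨l, hl, hlz⟩ : ∃ l : N →* 𝕜ˣ, wt ρ N l ≠ ⊥ ∧ l ⟨z, hzN⟩ ≠ 1 := by
    by_contra hcon
    push Not at hcon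
    exact hz (trivial_of_weights ρ N hNab hchar (n := ⟨z, hzN⟩) hcon)
  have hN6 : (Nat.card N).Coprime 6 := hM6.coprime_dvd_left (Subgroup.card_dvd_of_le hNM)
  have hodd : Odd (Nat.card N) := by
    rw [← Nat.coprime_two_right]
    exact hN6.coprime_dvd_right (by norm_num)
  have hcs : Commute (φ σ) (φ z) := by
    rw [map_mul, map_mul, map_inv, mul_inv_eq_iff_eq_mul] at hzσ
    exact hzσ
  have hinvol : ∀ g : Γ, φ (g * z * g⁻¹) = (φ z)⁻¹ → cj N g l ≠ l := by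
    intro g hg hgl
    refine no_inv ρ hodd hl (z := ⟨z, hzN⟩) hlz (g := g) ?_ hgl
    have := congrArg (fun u : (Module.End 𝕜 V)ˣ => (u : Module.End 𝕜 V)) hg
    rw [← map_inv] at this
    exact this
  have hi1 : cj N τ l ≠ l := hinvol τ hzτ
  have hi2 : cj N (σ * τ * σ⁻¹) l ≠ l := by
    apply hinvol
    rw [map_mul, map_mul, map_inv] at hzτ
    rw [map_mul, map_mul, map_inv, map_mul, map_mul, map_inv]
    have e1 : φ σ * φ τ * (φ σ)⁻¹ * φ z * (φ σ * φ τ * (φ σ)⁻¹)⁻¹ =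
      φ σ * (φ τ * ((φ σ)⁻¹ * φ z) * φ σ * (φ τ)⁻¹) * (φ σ)⁻¹ := by group
    rw [e1, hcs.inv_left.eq, ← mul_assoc (φ τ), inv_mul_cancel_right, hzτ, hcs.inv_right.eq, mul_inv_cancel_right]
  have hi3 : cj N (σ⁻¹ * τ * σ) l ≠ l := by
    apply hinvol
    rw [map_mul, map_mul, map_inv] at hzτ
    rw [map_mul, map_mul, map_inv, map_mul, map_mul, map_inv]
    have e1 : (φ σ)⁻¹ * φ τ * (φ σ) * φ z * ((φ σ)⁻¹ * φ τ * (φ σ))⁻¹ =
      (φ σ)⁻¹ * (φ τ * (φ σ * φ z) * (φ σ)⁻¹ * (φ τ)⁻¹) * (φ σ) := by group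
    rw [e1, hcs.eq, ← mul_assoc (φ τ), mul_inv_cancel_right, hzτ, hcs.inv_left.inv_right.eq, inv_mul_cancel_right]
  have hcyc : cj N σ l = l := by
    obtain ⟨a, ha1, ha⟩ := exists_stab ρ j hfix hchar hl
    rcases elems a with rfl | rfl | rfl | rfl | rfl | rfl
    · exact absurd rfl ha1
    · exact ha
    · rw [map_inv] at ha
      have := mem_stab.2 ha
      exact mem_stab.1 (inv_mem_iff.1 this)
    · exact absurd ha hi1
    · rw [map_mul, map_mul, map_inv] at ha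
      exact absurd ha hi2
    · rw [map_mul, map_mul, map_inv] at ha
      exact absurd ha hi3
  have hsum : ∀ v ∈ wt ρ N l, v + ρ σ v + ρ σ⁻¹ v = 0 := by
    intro v hv
    classical
    have h1 := sum_stab ρ N hchar j hfix hv
    have h2 : (Finset.univ.filter (fun a : S3 => cj N (j a) l = l)) = {1, cyc, cyc⁻¹} := by
      ext a
      simp only [Finset.mem_filter, Finset.mem_univ, true_and, Finset.mem_insert, Finset.mem_singleton]
      constructor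
      · intro ha
        rcases elems a with rfl | rfl | rfl | rfl | rfl | rfl
        · exact Or.inl rfl
        · exact Or.inr (Or.inl rfl)
        · exact Or.inr (Or.inr rfl)
        · exact absurd ha hi1
        · rw [map_mul, map_mul, map_inv] at ha
          exact absurd ha hi2
        · rw [map_mul, map_mul, map_inv] at ha
          exact absurd ha hi3
      · rintro (rfl | rfl | rfl)
        · rw [map_one]; exact cj_one l
        · exact hcyc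
        · rw [map_inv]; exact mem_stab.1 (inv_mem (mem_stab.2 hcyc))
    have h3 : ∑ a ∈ Finset.univ.filter (fun a : S3 => cj N (j a) l = l), ρ (j a) v = v + (ρ σ v + ρ σ⁻¹ v) := by
      rw [h2, Finset.sum_insert, Finset.sum_insert, Finset.sum_singleton, map_one, map_one, map_inv]
      · rfl
      · simp only [Finset.mem_singleton]; exact cyc_ne_inv
      · simp only [Finset.mem_insert, Finset.mem_singleton]
        rintro (h | h)
        · exact cyc_ne h.symm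
        · exact cyc_ne (inv_eq_one.1 h.symm)
    rw [add_assoc, ← h3]
    convert h1
  -- final
  have hst : ∀ k ∈ M, k ∈ stab N l := fun k hk => mem_stab.2 (hw k hk l hl)
  have hσst : σ ∈ stab N l := mem_stab.2 hcyc
  let π := wrep ρ N l
  have hπN : ∀ (g : stab N l) (hg : (g : Γ) ∈ N), π g = ((l ⟨g, hg⟩ : 𝕜ˣ) : 𝕜) • (1 : End 𝕜 (wt ρ N l)) := by
    intro g hg
    ext v
    rw [wrep_apply]
    exact v.2 ⟨g, hg⟩
  haveI : Nontrivial (wt ρ N l) := Submodule.nontrivial_iff_ne_bot.2 hl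
  have hM1 : (⊥ : Subgroup Γ) ≠ M := by
    rintro rfl
    exact hne (le_bot_iff.1 hNM)
  have hsM : s ∣ Nat.card M := by
    haveI : Fact s.Prime := ⟨hs⟩
    obtain ⟨k, hk⟩ := IsPGroup.iff_card.1 hMs
    rw [hk]
    apply dvd_pow_self
    rintro rfl
    rw [pow_zero] at hk
    exact hM1 (Subgroup.card_eq_one.1 hk).symm
  have hs6 : s.Coprime 6 := hM6.coprime_dvd_left hsM
  have hs2 : s ≠ 2 := by rintro rfl; norm_num at hs6
  have hs3 : s ≠ 3 := by rintro rfl; norm_num at hs6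
  have hxs : x ^ s ∈ N := pow_mem_of_max j hjM hs hMs hNM hne hcomm hmax hx
  have hMul : ∀ a b : stab N l, π (a * b) = π a * π b := fun a b => map_mul π a b
  refine core hs hs2 hs3 (π ⟨σ, hσst⟩) (π ⟨σ, hσst⟩⁻¹) (π ⟨x, hst x hx⟩) (π ⟨x', hst x' hx'M⟩) (π ⟨x'', hst x'' hx''M⟩)
    (π ⟨x'', hst x'' hx''M⟩⁻¹) ?_ ?_ ?_ ?_ ?_ ?_ ?_ ?_ (ζ := ((l ⟨z, hzN⟩ : 𝕜ˣ) : 𝕜)) (μ := ((l ⟨x ^ s, hxs⟩ : 𝕜ˣ) : 𝕜))
    ?_ ?_ (Units.ne_zero _) ?_
  · rw [← hMul, mul_inv_cancel, map_one]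
  · rw [← hMul, inv_mul_cancel, map_one]
  · rw [← hMul, mul_inv_cancel, map_one]
  · intro w hw0
    have : π ⟨x, hst x hx⟩⁻¹ (π ⟨x, hst x hx⟩ w) = w := by
      rw [← Module.End.mul_apply, ← hMul, inv_mul_cancel, map_one]; rfl
    rw [← this, hw0, map_zero]
  · rw [← hMul, ← hMul]; congr 1; apply Subtype.ext
    change σ * x = x' * σ
    rw [hx']; group
  · rw [← hMul, ← hMul]; congr 1; apply Subtype.ext
    change σ * x' = x'' * σ
    rw [← iσ1]; group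
  · rw [← hMul, ← hMul]; congr 1; apply Subtype.ext
    change σ * x'' = x * σ
    rw [← iσ2]; group
  · intro v
    apply Subtype.ext
    exact hsum v v.2
  · rw [← hMul, ← hMul]
    have e1 : (⟨x, hst x hx⟩ : stab N l) * ⟨x', hst x' hx'M⟩ = ⟨z, hst z (hNM hzN)⟩ * (⟨x', hst x' hx'M⟩ * ⟨x, hst x hx⟩) := by
      apply Subtype.ext
      change x * x' = z * (x' * x)
      rw [hzdef]; group
    rw [e1, hMul, hπN ⟨z, hst z (hNM hzN)⟩ hzN, smul_mul_assoc, one_mul]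
  · rw [← map_pow]
    have e1 : (⟨x, hst x hx⟩ : stab N l) ^ s = ⟨x ^ s, hst _ (hNM hxs)⟩ := rfl
    rw [e1, hπN ⟨x ^ s, hst _ (hNM hxs)⟩ hxs]
  · intro h
    exact hlz (Units.ext h)

end Cfsg.Agent.H24.SThree
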