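import Mathlib
import Cfsg.Agent.H24_SThree6

namespace Cfsg.Agent.H24.SThree

open Subgroup Cfsg.Agent Module Weight

variable {Γ : Type*} [Group Γ] [Finite Γ]

omit [Finite Γ] in
theorem normalizes_of_conj {A L : Subgroup Γ} (h : ∀ a ∈ A, ∀ l ∈ L, a * l * a⁻¹ ∈ L) : A ≤ normalizer (L : Set Γ) := by
  intro a ha
  rw [mem_normalizer_iff]
  intro y
  refine ⟨h a ha y, fun hy => ?_⟩
  have := h a⁻¹ (inv_mem ha) _ hy
  rwa [show a⁻¹ * (a * y * a⁻¹) * a⁻¹⁻¹ = y by group] at this

theorem beta {𝕜 V : Type*} [Field 𝕜] [IsAlgClosed 𝕜] [AddCommGroup V] [Module 𝕜 V] [FiniteDimensional 𝕜 V]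
    (ρ : Representation 𝕜 Γ V) (j : S3 →* Γ)
    (hfix : ∀ v : V, (∀ a : S3, ρ (j a) v = v) → v = 0) {s : ℕ} (hs : s.Prime) : ∀ (n : ℕ) (M : Subgroup Γ), Nat.card M = n →
    j.range ≤ normalizer (M : Set Γ) → (Nat.card M).Coprime 6 → (∀ h ∈ M, (∀ a : S3, j a * h = h * j a) → h = 1) →
    IsPGroup s M → (Nat.card M : 𝕜) ≠ 0 → ∀ x ∈ M, ∀ y ∈ M, ρ x * ρ y = ρ y * ρ x := by
  intro n
  induction n using Nat.strong_induction_on with
  | _ n ih =>
  intro M hn hjM hM6 hMA hMs hchar
  haveI : Fact s.Prime := ⟨hs⟩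
  by_cases hM1 : M = ⊥
  · intro x hx y hy
    rw [hM1, mem_bot] at hx hy
    rw [hx, hy]
  -- commutator
  have hM' : ⁅M, M⁆ < M := by
    haveI : Nontrivial M := (nontrivial_iff_ne_bot M).2 hM1
    haveI : Group.IsNilpotent M := hMs.isNilpotent
    have h1 := Group.IsSolvable.commutator_lt_top_of_nontrivial M
    have h2 : (commutator M).map M.subtype = ⁅M, M⁆ := by
      rw [commutator_def, map_commutator, ← MonoidHom.range_eq_map, range_subtype]
    rw [← h2]
    refine lt_of_le_of_ne (map_subtype_le _) fun h => ?_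
    apply h1.ne
    rw [eq_top_iff]
    intro x _
    have hx : (x : Γ) ∈ (commutator M).map M.subtype := by rw [h]; exact x.2
    obtain ⟨y, hy, hyx⟩ := hx
    have : y = x := Subtype.ext hyx
    rwa [← this]
  -- choose `N`
  let P : Subgroup Γ → Prop := fun L => ⁅M, M⁆ ≤ L ∧ L < M ∧ j.range ≤ normalizer (L : Set Γ)
  have hP0 : P ⁅M, M⁆ := by
    refine ⟨le_rfl, hM', ?_⟩
    apply normalizes_of_conj
    intro a ha l hl
    have h1 : ⁅M, M⁆ ≤ (⁅M, M⁆).comap (MulAut.conj a).toMonoidHom := by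
      rw [commutator_le]
      intro u hu v hv
      rw [mem_comap, map_commutatorElement]
      exact commutator_mem_commutator ((mem_normalizer_iff.1 (hjM ha) u).1 hu) ((mem_normalizer_iff.1 (hjM ha) v).1 hv)
    exact h1 hl
  obtain ⟨N, hN⟩ : ∃ N, Maximal P N := by
    obtain ⟨N, -, hN⟩ := (Set.toFinite {L | P L}).exists_le_maximal hP0
    exact ⟨N, hN⟩
  obtain ⟨hN1, hN2, hN3⟩ := hN.prop
  have hMN : M ≤ normalizer (N : Set Γ) := by
    apply normalizes_of_conj
    intro a ha l hl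
    have h1 : a * l * a⁻¹ * l⁻¹ ∈ N := hN1 (commutator_mem_commutator ha (hN2.le hl))
    have h2 : a * l * a⁻¹ = (a * l * a⁻¹ * l⁻¹) * l := by group
    rw [h2]
    exact mul_mem h1 hl
  have hcard : Nat.card N < Nat.card M := by
    refine lt_of_le_of_ne (Nat.le_of_dvd Nat.card_pos (card_dvd_of_le hN2.le)) fun h => ?_
    exact hN2.ne (Subgroup.eq_of_le_of_card_ge hN2.le h.ge)
  have hdvd : Nat.card N ∣ Nat.card M := card_dvd_of_le hN2.le
  have hcharN : (Nat.card N : 𝕜) ≠ 0 := by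
    obtain ⟨k, hk⟩ := hdvd
    intro h0
    apply hchar
    rw [hk, Nat.cast_mul, h0, zero_mul]
  have hNab := ih (Nat.card N) (hn ▸ hcard) N rfl hN3 (hM6.coprime_dvd_left hdvd) (fun h hh => hMA h (hN2.le hh))
    (hMs.to_le hN2.le) hcharN
  -- pass to the subgroup
  let D : Subgroup Γ := M ⊔ j.range
  have hMD : M ≤ D := le_sup_left
  have hjD : ∀ a : S3, j a ∈ D := fun a => (le_sup_right : j.range ≤ D) ⟨a, rfl⟩
  let j' : S3 →* D := j.codRestrict D hjD
  have hj' : ∀ a, ((j' a : D) : Γ) = j a := fun a => rfl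
  have hDN : D ≤ normalizer (N : Set Γ) := sup_le hMN hN3
  haveI hNn : (N.subgroupOf D).Normal := (normal_subgroupOf_iff_le_normalizer (hN2.le.trans hMD)).2 hDN
  have hcM : Nat.card (M.subgroupOf D) = Nat.card M := Nat.card_congr (subgroupOfEquivOfLe hMD).toEquiv
  have hcN : Nat.card (N.subgroupOf D) = Nat.card N := Nat.card_congr (subgroupOfEquivOfLe (hN2.le.trans hMD)).toEquiv
  have hnorm : ∀ L : Subgroup Γ, j.range ≤ normalizer (L : Set Γ) → j'.range ≤ normalizer ((L.subgroupOf D : Subgroup D) : Set D) := by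
    intro L hL
    apply normalizes_of_conj
    rintro _ ⟨a, rfl⟩ l hl
    rw [mem_subgroupOf] at hl ⊢
    exact (mem_normalizer_iff.1 (hL ⟨a, rfl⟩) _).1 hl
  have key := beta_step (ρ.comp D.subtype) j' (M := M.subgroupOf D) (hnorm M hjM) (by rw [hcM]; exact hM6)
    (by
      intro h hh hc
      apply Subtype.ext
      apply hMA _ hh
      intro a
      exact congrArg Subtype.val (hc a))
    (fun v hv => hfix v (fun a => hv a)) hs (hMs.comap_of_injective D.subtype D.subtype_injective)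
    (N := N.subgroupOf D) (fun x hx => hN2.le hx) (by
      intro h
      apply hN2.ne
      rw [← Subgroup.map_subgroupOf_eq_of_le (hN2.le.trans hMD), h, Subgroup.map_subgroupOf_eq_of_le hMD])
    (by rw [hcN]; exact hcharN)
    (by
      intro x hx y hy
      exact hN1 (commutator_mem_commutator hx hy))
    (by
      intro L hL1 hL2 hL3
      have h1 : N ≤ L.map D.subtype := by
        intro n hn
        exact ⟨⟨n, hMD (hN2.le hn)⟩, hL1 hn, rfl⟩
      have h2 : L.map D.subtype ≤ M := by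
        rintro _ ⟨l, hl, rfl⟩
        exact hL2 hl
      have h3 : j.range ≤ normalizer ((L.map D.subtype : Subgroup Γ) : Set Γ) := by
        apply normalizes_of_conj
        rintro _ ⟨a, rfl⟩ _ ⟨l, hl, rfl⟩
        exact ⟨j' a * l * (j' a)⁻¹, (mem_normalizer_iff.1 (hL3 ⟨a, rfl⟩) l).1 hl, rfl⟩
      have h4 : L.map D.subtype = N ∨ L.map D.subtype = M := by
        rcases h2.lt_or_eq with h | h
        · left
          exact le_antisymm (hN.le_of_ge ⟨hN1.trans h1, h, h3⟩ h1) h1
        · exact Or.inr h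
      have h5 : L = (L.map D.subtype).subgroupOf D := by
        rw [subgroupOf, comap_map_eq_self_of_injective D.subtype_injective]
      rcases h4 with h | h
      · left; rw [h5, h]
      · right; rw [h5, h])
    (by
      intro n hn m hm
      exact hNab n hn m hm)
  intro x hx y hy
  exact key ⟨x, hMD hx⟩ hx ⟨y, hMD hy⟩ hy

end Cfsg.Agent.H24.SThree
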