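import Mathlib
import Cfsg.Agent.H24_SThree7
import Cfsg.Agent.H24_ModRep

namespace Cfsg.Agent.H24.SThree

open Subgroup Cfsg.Agent Module Weight
open scoped commutatorElement

variable {Γ : Type*} [Group Γ] [Finite Γ]

/-- a subgroup containing a Sylow subgroup of `K` for every prime contains `K` -/
theorem gen_sylow {K L : Subgroup Γ} (h : ∀ t : ℕ, t.Prime → ∃ T : Subgroup Γ, T ≤ K ∧ T ≤ L ∧
    Nat.card T = t ^ (Nat.card K).factorization t) : K ≤ L := by
  have h1 : Nat.card K ∣ Nat.card (K ⊓ L : Subgroup Γ) := by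
    rw [Nat.dvd_iff_prime_pow_dvd_dvd]
    intro t k ht hk
    obtain ⟨T, h2, h3, h4⟩ := h t ht
    have h5 : k ≤ (Nat.card K).factorization t := (ht.pow_dvd_iff_le_factorization Nat.card_pos.ne').1 hk
    exact ((pow_dvd_pow t h5).trans (by rw [← h4])).trans (card_dvd_of_le (le_inf h2 h3))
  have h2 : K ⊓ L = K := Subgroup.eq_of_le_of_card_ge inf_le_left (Nat.le_of_dvd Nat.card_pos h1)
  exact inf_eq_left.1 h2

theorem step {𝕜 V : Type*} [Field 𝕜] [IsAlgClosed 𝕜] [AddCommGroup V] [Module 𝕜 V] [FiniteDimensional 𝕜 V]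
    {r : ℕ} (hr : r.Prime) [CharP 𝕜 r] (ρ : Representation 𝕜 Γ V) (j : S3 →* Γ)
    (hfix : ∀ v : V, (∀ a : S3, ρ (j a) v = v) → v = 0) {H : Subgroup Γ} [hH : H.Normal]
    (hH6 : (Nat.card H).Coprime 6) (hHA : ∀ h ∈ H, (∀ a : S3, j a * h = h * j a) → h = 1)
    (hfaith : ∀ h ∈ H, ρ h = 1 → h = 1)
    (hOr : ∀ P : Subgroup Γ, P.Normal → P ≤ H → IsPGroup r P → P = ⊥) (hnil : Group.IsNilpotent (⁅H, H⁆ : Subgroup Γ)) :
    ∀ x ∈ H, ∀ y ∈ H, x * y = y * x := by
  have hmul : ∀ g h : Γ, ρ (g * h) = ρ g * ρ h := fun g h => map_mul ρ g h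
  have hnorm : ∀ A L : Subgroup Γ, L.Normal → A ≤ normalizer (L : Set Γ) := fun A L hL => by
    rw [normalizer_eq_top_iff.2 hL]; exact le_top
  have hcast : ∀ (t : ℕ), t.Prime → t ≠ r → ∀ M : Subgroup Γ, IsPGroup t M → (Nat.card M : 𝕜) ≠ 0 := by
    intro t ht htr M hM h0
    haveI : Fact t.Prime := ⟨ht⟩
    obtain ⟨k, hk⟩ := IsPGroup.iff_card.1 hM
    rw [CharP.cast_eq_zero_iff 𝕜 r, hk] at h0
    exact htr ((Nat.prime_dvd_prime_iff_eq hr ht).1 (hr.dvd_of_dvd_pow h0)).symm
  -- Sylow subgroups of normal nilpotent subgroups are normal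
  have hsyl : ∀ K : Subgroup Γ, K.Normal → Group.IsNilpotent K → ∀ t : ℕ, t.Prime → ∃ T : Subgroup Γ, T ≤ K ∧ T.Normal ∧
      IsPGroup t T ∧ Nat.card T = t ^ (Nat.card K).factorization t := by
    intro K hK hKn t ht
    haveI : Fact t.Prime := ⟨ht⟩
    let T : Sylow t K := default
    haveI : (T : Subgroup K).Normal := ((Group.isNilpotent_of_finite_tfae (G := K)).out 0 3 rfl rfl).1 hKn t ⟨ht⟩ T
    haveI hch : (T : Subgroup K).Characteristic := T.characteristic_of_normal this
    refine ⟨(T : Subgroup K).map K.subtype, map_subtype_le _, ?_, ?_, ?_⟩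
    · exact ConjAct.normal_of_characteristic_of_normal
    · exact T.isPGroup'.map K.subtype
    · exact H1.Coprime.card_map_sylow T
  -- commutation from the representation
  have hab' : ∀ x ∈ H, ∀ y ∈ H, ρ x * ρ y = ρ y * ρ x → x * y = y * x := by
    intro x hx y hy h
    have h1 : ρ (x * y * (y * x)⁻¹) = 1 := by
      rw [hmul, hmul x y, h, ← hmul, ← hmul, mul_inv_cancel, map_one]
    have h2 := hfaith _ (mul_mem (mul_mem hx hy) (inv_mem (mul_mem hy hx))) h1
    exact mul_inv_eq_one.1 h2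
  -- the order of the derived group is prime to `r`
  have hDr : ¬ r ∣ Nat.card (⁅H, H⁆ : Subgroup Γ) := by
    intro hd
    obtain ⟨T, h1, h2, h3, h4⟩ := hsyl ⁅H, H⁆ inferInstance hnil r hr
    have h5 := hOr T h2 (h1.trans (commutator_le_right H H)) h3
    rw [h5, card_bot] at h4
    have h6 : 0 < (Nat.card (⁅H, H⁆ : Subgroup Γ)).factorization r := hr.factorization_pos_of_dvd Nat.card_pos.ne' hd
    have h7 := Nat.one_lt_pow h6.ne' hr.one_lt
    rw [← h4] at h7
    exact lt_irrefl _ h7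
  -- invariant Sylow subgroups
  have hT : ∀ t : ℕ, t.Prime → ∃ T : Subgroup Γ, T ≤ H ∧ j.range ≤ normalizer (T : Set Γ) ∧
      (∀ x ∈ T, ∀ y ∈ T, x * y = y * x) ∧ Nat.card T = t ^ (Nat.card H).factorization t := by
    intro t ht
    haveI : Fact t.Prime := ⟨ht⟩
    obtain ⟨P, hP⟩ := H1.Coprime.invariant_sylow_exists j.range H (hnorm _ _ hH) (coprime_range j hH6) (Or.inl (solvable_range j)) t
    have hTH : (P : Subgroup H).map H.subtype ≤ H := map_subtype_le _
    have hTp : IsPGroup t ((P : Subgroup H).map H.subtype) := P.isPGroup'.map H.subtype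
    refine ⟨(P : Subgroup H).map H.subtype, hTH, hP, ?_, H1.Coprime.card_map_sylow P⟩
    set T := (P : Subgroup H).map H.subtype with hTdef
    by_cases htr : t = r
    · intro x hx y hy
      have h1 : ⁅x, y⁆ ∈ ⁅H, H⁆ := commutator_mem_commutator (hTH hx) (hTH hy)
      have h2 : ⁅x, y⁆ ∈ T := by
        rw [commutatorElement_def]
        exact mul_mem (mul_mem (mul_mem hx hy) (inv_mem hx)) (inv_mem hy)
      obtain ⟨k, hk⟩ := hTp ⟨_, h2⟩
      have h3 : ⁅x, y⁆ ^ t ^ k = 1 := congrArg Subtype.val hk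
      have h4 : ⁅x, y⁆ ^ (Nat.card (⁅H, H⁆ : Subgroup Γ)) = 1 := by
        have : (⟨⁅x, y⁆, h1⟩ : (⁅H, H⁆ : Subgroup Γ)) ^ (Nat.card (⁅H, H⁆ : Subgroup Γ)) = 1 := pow_card_eq_one'
        exact congrArg Subtype.val this
      have h5 : (t ^ k).Coprime (Nat.card (⁅H, H⁆ : Subgroup Γ)) := by
        apply Nat.Coprime.pow_left
        rw [htr]
        exact (hr.coprime_iff_not_dvd).2 hDr
      have h6 : orderOf ⁅x, y⁆ = 1 := by
        have := Nat.dvd_gcd (orderOf_dvd_of_pow_eq_one h3) (orderOf_dvd_of_pow_eq_one h4)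
        rw [h5] at this
        exact Nat.dvd_one.1 this
      rw [orderOf_eq_one_iff] at h6
      exact commutatorElement_eq_one_iff_mul_comm.1 h6
    · intro x hx y hy
      apply hab' x (hTH hx) y (hTH hy)
      exact beta ρ j hfix ht _ T rfl hP (hH6.coprime_dvd_left (card_dvd_of_le hTH)) (fun h hh => hHA h (hTH hh)) hTp
        (hcast t ht htr T hTp) x hx y hy
  -- normal `s`-subgroups are central
  have hcent : ∀ s : ℕ, s.Prime → ∀ M : Subgroup Γ, M.Normal → M ≤ H → IsPGroup s M → H ≤ centralizer (M : Set Γ) := by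
    intro s hs M hM hMH hMs
    by_cases hsr : s = r
    · rw [hsr] at hMs
      rw [hOr M hM hMH hMs]
      intro h _
      rw [mem_centralizer_iff]
      intro x hx
      rw [coe_bot, Set.mem_singleton_iff] at hx
      rw [hx]; simp
    · have hc := hcast s hs hsr M hMs
      have hMab := beta ρ j hfix hs _ M rfl (hnorm _ _ hM) (hH6.coprime_dvd_left (card_dvd_of_le hMH))
        (fun h hh => hHA h (hMH hh)) hMs hc
      haveI := hM
      apply gen_sylow
      intro t ht
      obtain ⟨T, h1, h2, h3, h4⟩ := hT t ht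
      refine ⟨T, h1, ?_, h4⟩
      intro k hk
      rw [mem_centralizer_iff]
      intro m hm
      have hmem : k⁻¹ * m * k ∈ M := by
        have := hM.conj_mem m hm k⁻¹; rwa [inv_inv] at this
      have h5 : ρ ((⟨k⁻¹ * m * k, hmem⟩ * ⟨m, hm⟩⁻¹ : M) : Γ) = 1 := by
        apply trivial_of_weights ρ M hMab hc
        intro l hl
        rw [map_mul, map_inv, mul_inv_eq_one]
        have h6 := weights_fixed ρ j (hnorm _ _ hH) hH6 hHA hfix hMH hc h1 h2 (by
          intro k hk l hl x _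
          rw [h3 k hk l hl, show l * k * k⁻¹ * l⁻¹ = 1 by group]
          exact cj_one x) hk hl
        have h7 := DFunLike.congr_fun h6 ⟨m, hm⟩
        rw [cj_apply] at h7
        exact h7
      have h6 : k⁻¹ * m * k * m⁻¹ = 1 := hfaith _ (mul_mem (hMH hmem) (inv_mem (hMH hm))) h5
      have h7 : k⁻¹ * m * k = m := mul_inv_eq_one.1 h6
      calc m * k = k * (k⁻¹ * m * k) := by group
        _ = k * m := by rw [h7]
  have hnc : ∀ K : Subgroup Γ, K.Normal → K ≤ H → Group.IsNilpotent K → K ≤ centralizer (H : Set Γ) := by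
    intro K hK hKH hKn
    apply gen_sylow
    intro t ht
    obtain ⟨T, h1, h2, h3, h4⟩ := hsyl K hK hKn t ht
    exact ⟨T, h1, le_centralizer_iff.1 (hcent t ht T h2 (h1.trans hKH) h3), h4⟩
  have hD := hnc ⁅H, H⁆ inferInstance (commutator_le_right H H) hnil
  -- `H` is nilpotent
  have hHn : Group.IsNilpotent H := by
    have h1 : (Abelianization.of (G := H)).ker ≤ center H := by
      rw [Abelianization.ker_of]
      intro x hx
      rw [mem_center_iff]
      intro g
      have h2 : (x : Γ) ∈ ⁅H, H⁆ := by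
        have h3 : (commutator H).map H.subtype = ⁅H, H⁆ := by
          rw [commutator_def, map_commutator, ← MonoidHom.range_eq_map, range_subtype]
        rw [← h3]
        exact ⟨x, hx, rfl⟩
      have h4 := hD h2
      rw [mem_centralizer_iff] at h4
      exact Subtype.ext (h4 g g.2)
    exact Subgroup.isNilpotent_of_ker_le_center _ h1
  have hfin := hnc H hH le_rfl hHn
  intro x hx y hy
  have := hfin hx
  rw [mem_centralizer_iff] at this
  exact (this y hy).symm

end Cfsg.Agent.H24.SThree
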