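import Mathlib
import Cfsg.Agent.H24_SThree8
import Cfsg.Agent.H12_CN
import Cfsg.Agent.H1_Hall

namespace Cfsg.Agent.H24.SThree

open Subgroup Cfsg.Agent Module Weight
open scoped commutatorElement

universe u

/-- fixed points in homomorphic images -/
theorem fix_map {Γ : Type*} [Group Γ] [Finite Γ] {Δ : Type*} [Group Δ] (f : Γ →* Δ) (j : S3 →* Γ) {H : Subgroup Γ}
    (hjH : j.range ≤ normalizer (H : Set Γ)) (hH6 : (Nat.card H).Coprime 6)
    (hHA : ∀ h ∈ H, (∀ a : S3, j a * h = h * j a) → h = 1) :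
    ∀ h ∈ H.map f, (∀ a : S3, f (j a) * h = h * f (j a)) → h = 1 := by
  rintro _ ⟨x, hx, rfl⟩ hc
  have hN1 : H ≤ normalizer ((H ⊓ f.ker : Subgroup Γ) : Set Γ) := by
    apply normalizes_of_conj
    intro a ha l hl
    obtain ⟨h1, h2⟩ := mem_inf.1 hl
    exact mem_inf.2 ⟨mul_mem (mul_mem ha h1) (inv_mem ha), (inferInstance : f.ker.Normal).conj_mem l h2 a⟩
  have hN2 : j.range ≤ normalizer ((H ⊓ f.ker : Subgroup Γ) : Set Γ) := by
    apply normalizes_of_conj
    intro a ha l hl
    obtain ⟨h1, h2⟩ := mem_inf.1 hl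
    exact mem_inf.2 ⟨(mem_normalizer_iff.1 (hjH ha) l).1 h1, (inferInstance : f.ker.Normal).conj_mem l h2 a⟩
  obtain ⟨c, hc1, hc2⟩ := H1.Coprime.fixed_points_quotient j.range H hjH (coprime_range j hH6) (Or.inl (solvable_range j))
    (H ⊓ f.ker) inf_le_left hN1 hN2 x hx (by
      rintro _ ⟨a, rfl⟩
      refine mem_inf.2 ⟨mul_mem ((mem_normalizer_iff.1 (hjH ⟨a, rfl⟩) x).1 hx) (inv_mem hx), ?_⟩
      rw [MonoidHom.mem_ker, map_mul, map_mul, map_mul, map_inv, map_inv, hc a]
      group)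
  obtain ⟨h1, h2⟩ := mem_inf.1 hc1
  rw [mem_centralizer_iff] at h2
  have h3 := hHA c h1 (fun a => h2 (j a) ⟨a, rfl⟩)
  rw [h3, mul_one] at hc2
  have h4 := (mem_inf.1 (inv_mem hc2)).2
  rw [inv_inv] at h4
  exact h4

theorem main : ∀ (n : ℕ) (Γ : Type u) [Group Γ] [Finite Γ] (j : S3 →* Γ) (H : Subgroup Γ), Nat.card H = n → H.Normal →
    (Nat.card H).Coprime 6 → (∀ h ∈ H, (∀ a : S3, j a * h = h * j a) → h = 1) → Group.IsSolvable H →
    Group.IsNilpotent (⁅H, H⁆ : Subgroup Γ) := by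
  intro n
  induction n using Nat.strong_induction_on with
  | _ n ih =>
  intro Γ _ _ j H hn hH hH6 hHA hHs
  by_cases hH1 : H = ⊥
  · rw [hH1, commutator_bot_left]
    infer_instance
  haveI := hH
  have hnorm : ∀ A L : Subgroup Γ, L.Normal → A ≤ normalizer (L : Set Γ) := fun A L hL => by
    rw [normalizer_eq_top_iff.2 hL]; exact le_top
  obtain ⟨V, hVH, hVn, hV1, hVmin⟩ := H1.Hall.exists_minimal_normal hH hH1
  haveI := hVn
  have hVs : Group.IsSolvable V := Group.isSolvable_of_isSolvable_injective (f := inclusion hVH) (inclusion_injective hVH)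
  obtain ⟨hVc, r, hr, hVr⟩ := H12.CN.minimal_normal_elementary' V hVs hV1 hVmin
  haveI : Fact r.Prime := ⟨hr⟩
  have hVc' : ∀ a ∈ V, ∀ b ∈ V, a * b = b * a := by
    intro a ha b hb
    have := hVc.is_comm.comm (⟨a, ha⟩ : V) ⟨b, hb⟩
    exact congrArg Subtype.val this
  -- general smaller image
  have hsmall : ∀ {Δ : Type u} [Group Δ] (f : Γ →* Δ), V ≤ f.ker → Nat.card (H.map f) < Nat.card H := by
    intro Δ _ f hf
    have h1 : Nat.card (H.map f) ∣ Nat.card H := card_map_dvd H f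
    refine lt_of_le_of_ne (Nat.le_of_dvd Nat.card_pos h1) fun h => ?_
    let g : H → H.map f := fun x => ⟨f x, x, x.2, rfl⟩
    have hg : Function.Surjective g := by
      rintro ⟨_, x, hx, rfl⟩
      exact ⟨⟨x, hx⟩, rfl⟩
    have hgb : Function.Bijective g := by
      refine (Nat.bijective_iff_surjective_and_card g).2 ⟨hg, h.symm⟩
    apply hV1
    rw [eq_bot_iff]
    intro v hv
    have h2 : g ⟨v, hVH hv⟩ = g 1 := by
      apply Subtype.ext
      change f v = f 1
      rw [map_one]; exact hf hv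
    have h3 := hgb.1 h2
    exact congrArg Subtype.val h3
  have hcop : ∀ {Δ : Type u} [Group Δ] (f : Γ →* Δ), (Nat.card (H.map f)).Coprime 6 := by
    intro Δ _ f
    exact hH6.coprime_dvd_left (card_map_dvd H f)
  have hsol : ∀ {Δ : Type u} [Group Δ] (f : Γ →* Δ), Group.IsSolvable (H.map f) := by
    intro Δ _ f
    haveI := hHs
    exact Group.isSolvable_of_surjective (f := f.subgroupMap H) (f.subgroupMap_surjective H)
  -- the action on `V`
  let f : Γ →* MulAut V := MulAut.conjNormal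
  have hfa : ∀ g (v : V), ((f g v : V) : Γ) = g * v * g⁻¹ := fun g v => MulAut.conjNormal_apply g v
  have hker : ∀ g, f g = 1 ↔ ∀ v ∈ V, g * v = v * g := by
    intro g
    constructor
    · intro h v hv
      have h1 := hfa g ⟨v, hv⟩
      rw [h] at h1
      change v = g * v * g⁻¹ at h1
      rw [eq_mul_inv_iff_mul_eq] at h1
      exact h1.symm
    · intro h
      ext v
      rw [hfa, h v v.2, mul_inv_cancel_right]; rfl
  let f' : Γ →* f.range := f.rangeRestrict
  have hf' : Function.Surjective f' := f.rangeRestrict_surjective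
  have hkf : f'.ker = f.ker := f.ker_rangeRestrict
  have hVf : V ≤ f'.ker := by
    rw [hkf]
    intro v hv
    rw [MonoidHom.mem_ker, hker]
    exact fun w hw => hVc' v hv w hw
  haveI : (H.map f').Normal := Subgroup.Normal.map hH f' hf'
  have ih1 := ih _ (hn ▸ hsmall f' hVf) f.range (f'.comp j) (H.map f') rfl inferInstance (hcop f')
    (fix_map f' j (hnorm _ _ hH) hH6 hHA) (hsol f')
  have hr6 : ¬ r ∣ Fintype.card S3 := by
    intro h
    have h1 : Fintype.card S3 = 6 := rfl
    rw [h1] at h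
    obtain ⟨v, hv, hv1⟩ := (V.bot_or_exists_ne_one).resolve_left hV1
    have h2 : r ∣ Nat.card H := by
      have h3 : orderOf v = r := orderOf_eq_prime (hVr v hv) hv1
      rw [← h3]
      exact Subgroup.orderOf_dvd_natCard H (hVH hv)
    have h3 := Nat.dvd_gcd h2 h
    rw [hH6] at h3
    exact hr.one_lt.ne' (Nat.dvd_one.1 h3)
  obtain ⟨𝕜, i1, i2, i3, W, i4, i5, i6, ρ, hρ1, hρ2⟩ := ModRep.exists_rep (W := V) (fun a b => hVc.is_comm.comm a b) hr
    (fun w => Subtype.ext (hVr w w.2))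
  have hfixV : ∀ v : W, (∀ a : S3, ρ (f (j a)) v = v) → v = 0 := by
    refine hρ2 S3 (f.comp j) hr6 ?_
    intro w hw
    apply Subtype.ext
    apply hHA _ (hVH w.2)
    intro a
    have h1 := hfa (j a) w
    have h2 : f (j a) w = w := hw a
    rw [h2] at h1
    rw [eq_mul_inv_iff_mul_eq] at h1
    exact h1.symm
  have hst := step hr (ρ.comp f.range.subtype) (f'.comp j) hfixV (H := H.map f') (hcop f')
    (fix_map f' j (hnorm _ _ hH) hH6 hHA) (by
      intro h _ h1
      exact Subtype.ext (hρ1 _ h1))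
    (by
      intro P hP hPH hPr
      -- fixed points of `P` on `V`
      let C : Subgroup Γ :=
        { carrier := {g | ∃ h : g ∈ V, ∀ p ∈ P, (p : MulAut V) ⟨g, h⟩ = ⟨g, h⟩}
          one_mem' := ⟨one_mem _, fun p _ => map_one (p : MulAut V)⟩
          mul_mem' := by
            rintro a b ⟨ha, ha'⟩ ⟨hb, hb'⟩
            refine ⟨mul_mem ha hb, fun p hp => ?_⟩
            have : (⟨a * b, mul_mem ha hb⟩ : V) = ⟨a, ha⟩ * ⟨b, hb⟩ := rfl
            rw [this, map_mul, ha' p hp, hb' p hp]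
          inv_mem' := by
            rintro a ⟨ha, ha'⟩
            refine ⟨inv_mem ha, fun p hp => ?_⟩
            have : (⟨a⁻¹, inv_mem ha⟩ : V) = (⟨a, ha⟩)⁻¹ := rfl
            rw [this, map_inv, ha' p hp] }
      have hC : ∀ g, g ∈ C ↔ ∃ h : g ∈ V, ∀ p ∈ P, (p : MulAut V) ⟨g, h⟩ = ⟨g, h⟩ := fun g => Iff.rfl
      have hCn : C.Normal := by
        constructor
        rintro v ⟨hv, hv'⟩ x
        refine ⟨hVn.conj_mem v hv x, fun p hp => ?_⟩
        have h1 : f'.range = ⊤ := by rw [MonoidHom.range_eq_top]; exact hf'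
        have h2 := hP.conj_mem p hp (f' x)⁻¹
        have h3 := hv' _ h2
        have h4 : (⟨x * v * x⁻¹, hVn.conj_mem v hv x⟩ : V) = f x ⟨v, hv⟩ := Subtype.ext (hfa x ⟨v, hv⟩).symm
        rw [h4]
        have h5 : (((f' x)⁻¹ * p * (f' x)⁻¹⁻¹ : f.range) : MulAut V) = (f x)⁻¹ * (p : MulAut V) * f x := by
          rw [inv_inv]; rfl
        rw [h5] at h3
        change (f x)⁻¹ ((p : MulAut V) (f x ⟨v, hv⟩)) = ⟨v, hv⟩ at h3
        have h6 := congrArg (f x) h3
        rwa [MulAut.apply_inv_self] at h6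
      have hC1 : C ≠ ⊥ := by
        have hdv : r ∣ Nat.card V := by
          obtain ⟨v, hv, hv1⟩ := (V.bot_or_exists_ne_one).resolve_left hV1
          have h3 : orderOf v = r := orderOf_eq_prime (hVr v hv) hv1
          rw [← h3]
          exact Subgroup.orderOf_dvd_natCard V hv
        obtain ⟨b, hb, hb1⟩ := hPr.exists_fixed_point_of_prime_dvd_card_of_fixed_point V hdv (a := (1 : V)) (by
          intro p
          exact map_one ((p : f.range) : MulAut V))
        intro h0
        apply hb1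
        have h1 : (b : Γ) ∈ C := ⟨b.2, fun p hp => hb ⟨p, hp⟩⟩
        rw [h0, mem_bot] at h1
        exact Subtype.ext h1.symm
      have hCV : C = V := (hVmin C hCn (fun g hg => hg.1)).resolve_left hC1
      rw [eq_bot_iff]
      intro p hp
      rw [mem_bot]
      apply Subtype.ext
      ext v
      have h1 : (v : Γ) ∈ C := by rw [hCV]; exact v.2
      obtain ⟨h2, h3⟩ := h1
      exact congrArg Subtype.val (h3 p hp)) ih1
  have hcen : ⁅H, H⁆ ≤ centralizer (V : Set Γ) := by
    rw [commutator_le]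
    intro x hx y hy
    have h1 := hst _ ⟨x, hx, rfl⟩ _ ⟨y, hy, rfl⟩
    have h2 : f' ⁅x, y⁆ = 1 := by
      rw [map_commutatorElement]
      exact commutatorElement_eq_one_iff_mul_comm.2 h1
    have h3 : f ⁅x, y⁆ = 1 := by
      have : ⁅x, y⁆ ∈ f'.ker := h2
      rwa [hkf] at this
    rw [mem_centralizer_iff]
    intro v hv
    exact ((hker _).1 h3 v hv).symm
  let g := QuotientGroup.mk' V
  have hg : g.ker = V := QuotientGroup.ker_mk' V
  haveI : (H.map g).Normal := Subgroup.Normal.map hH g (QuotientGroup.mk'_surjective V)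
  have ih2 := ih _ (hn ▸ hsmall g hg.ge) (Γ ⧸ V) (g.comp j) (H.map g) rfl inferInstance (hcop g)
    (fix_map g j (hnorm _ _ hH) hH6 hHA) (hsol g)
  rw [← map_commutator] at ih2
  refine Subgroup.isNilpotent_of_ker_le_center (g.subgroupMap ⁅H, H⁆) ?_
  intro x hx
  rw [mem_center_iff]
  intro y
  have h1 : (x : Γ) ∈ V := by
    rw [← hg]
    exact congrArg Subtype.val hx
  have h2 := hcen y.2
  rw [mem_centralizer_iff] at h2
  exact Subtype.ext (h2 x h1).symm

end Cfsg.Agent.H24.SThree
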