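import Cfsg.Statements.S4275
import Mathlib

set_option autoImplicit false
open Cfsg

namespace Cfsg.Agent.S4275

/-- Let G be a transitive group of permutations of a finite set Ω, let o ∈ Ω, and let α be an automorphism of G. Then α is induced by conjugation by a permutation of Ω normalizing G if and only if the image under α of the stabilizer of o fixes some point of Ω. -/
theorem result {Ω : Type*} [Fintype Ω] (G : Subgroup (Equiv.Perm Ω)) (htr : MulAction.IsPretransitive G Ω) (o : Ω) (α : G ≃* G) : (∃ σ : Equiv.Perm Ω, σ ∈ Subgroup.normalizer (G : Set (Equiv.Perm Ω)) ∧ ∀ g : G, ((α g : G) : Equiv.Perm Ω) = σ * (g : Equiv.Perm Ω) * σ⁻¹) ↔ ∃ ω : Ω, ∀ g ∈ (MulAction.stabilizer G o).map α.toMonoidHom, g • ω = ω := by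
  constructor
  · rintro ⟨σ, hσ, h⟩
    refine ⟨σ o, ?_⟩
    rintro _ ⟨g, hg, rfl⟩
    have h1 : (g : Equiv.Perm Ω) o = o := hg
    change ((α g : G) : Equiv.Perm Ω) (σ o) = σ o
    rw [h g]
    simp [h1]
  · rintro ⟨ω, hω⟩
    classical
    have hex : ∀ x : Ω, ∃ g : G, g • o = x := fun x => htr.exists_smul_eq o x
    choose t ht using hex
    have hstab : ∀ g : G, g • o = o → α g • ω = ω := by
      intro g hg
      exact hω (α g) ⟨g, hg, rfl⟩
    have hcard : Nat.card (MulAction.stabilizer G ω) = Nat.card (MulAction.stabilizer G o) := by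
      obtain ⟨k, hk⟩ := htr.exists_smul_eq o ω
      rw [← hk, MulAction.stabilizer_smul_eq_stabilizer_map_conj]
      exact Subgroup.card_map_of_injective (MulAut.conj k).injective
    have heq : (MulAction.stabilizer G o).map α.toMonoidHom = MulAction.stabilizer G ω := by
      apply Subgroup.eq_of_le_of_card_ge
      · intro g hg
        exact hω g hg
      · rw [hcard, Subgroup.card_map_of_injective α.injective]
    have hstab' : ∀ g : G, α g • ω = ω → g • o = o := by
      intro g hg
      have h1 : α g ∈ (MulAction.stabilizer G o).map α.toMonoidHom := by rw [heq]; exact hg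
      obtain ⟨g', hg', he⟩ := h1
      have : g' = g := α.injective he
      rw [← this]; exact hg'
    have hwell : ∀ g h : G, g • o = h • o ↔ α g • ω = α h • ω := by
      intro g h
      constructor
      · intro hh
        have h1 : (h⁻¹ * g) • o = o := by rw [mul_smul, hh, inv_smul_smul]
        have h2 := hstab _ h1
        rw [map_mul, map_inv, mul_smul, inv_smul_eq_iff] at h2
        exact h2
      · intro hh
        have h1 : α (h⁻¹ * g) • ω = ω := by rw [map_mul, map_inv, mul_smul, hh, inv_smul_smul]
        have h2 := hstab' _ h1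
        rw [mul_smul, inv_smul_eq_iff] at h2
        exact h2
    let f : Ω → Ω := fun x => α (t x) • ω
    have hf : ∀ g : G, f (g • o) = α g • ω := by
      intro g
      exact (hwell _ _).mp (ht (g • o))
    have hfinj : Function.Injective f := by
      intro x y hxy
      have h1 := (hwell (t x) (t y)).mpr hxy
      rw [ht, ht] at h1
      exact h1
    have hfb : Function.Bijective f := Finite.injective_iff_bijective.mp hfinj
    let σ : Equiv.Perm Ω := Equiv.ofBijective f hfb
    have hσ : ∀ (g : G), ((α g : G) : Equiv.Perm Ω) = σ * (g : Equiv.Perm Ω) * σ⁻¹ := by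
      intro g
      rw [eq_mul_inv_iff_mul_eq]
      ext x
      rw [Equiv.Perm.mul_apply, Equiv.Perm.mul_apply]
      change (α g) • (f x) = f (g • x)
      have h1 : f x = α (t x) • ω := rfl
      have h2 : g • x = (g * t x) • o := by rw [mul_smul, ht]
      rw [h2, hf, h1, map_mul, mul_smul]
    refine ⟨σ, ?_, hσ⟩
    rw [Subgroup.mem_normalizer_iff]
    intro g
    constructor
    · intro hg
      rw [← hσ ⟨g, hg⟩]
      exact (α ⟨g, hg⟩).2
    · intro hg
      obtain ⟨g', hg'⟩ := α.surjective ⟨_, hg⟩
      have h1 := hσ g'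
      rw [hg'] at h1
      have h2 : g = g' := by
        have h3 : σ * g * σ⁻¹ = σ * g' * σ⁻¹ := h1
        exact mul_left_cancel (mul_right_cancel h3)
      rw [h2]; exact g'.2

end Cfsg.Agent.S4275
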