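import Mathlib
import Cfsg.Agent.S4275

set_option autoImplicit false

namespace Cfsg.Agent.H24.TwoTrans

open Matrix

/-- if `c ^ m` is a square with `m` odd then `c` is a square -/
theorem sq_of_pow_odd {c a m : ℕ} (hm : Odd m) (h : c ^ m = a ^ 2) : ∃ s : ℕ, c = s ^ 2 := by
  rcases Nat.eq_zero_or_pos c with rfl | hc
  · exact ⟨0, by norm_num⟩
  obtain ⟨t, rfl⟩ := hm
  have h1 : (c ^ t) ^ 2 * c = a ^ 2 := by rw [← h]; ring
  have h2 : (c ^ t) ^ 2 ∣ a ^ 2 := Dvd.intro _ h1
  have h3 : c ^ t ∣ a := (Nat.pow_dvd_pow_iff (by norm_num)).mp h2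
  obtain ⟨e, he⟩ := h3
  refine ⟨e, ?_⟩
  rw [he, mul_pow] at h1
  exact Nat.eq_of_mul_eq_mul_left (pow_pos (pow_pos hc t) 2) h1

/-- arithmetic core -/
theorem arith {n k l s m : ℕ} {a b : ℤ} (hn : 2 ≤ n) (hk : 0 < k) (hkn : k ≤ n) (hco : k.Coprime n)
    (hl : l * (n - 1) = k * (k - 1)) (hlk : l ≤ k) (hs : k - l = s ^ 2) (hm : Odd m)
    (ha : a ^ 2 = ((s : ℤ) ^ 2) ^ m) (hab : (k : ℤ) ^ m = a + b * n) : k = 1 ∨ k = n - 1 := by
  have hkn' : k < n := by
    rcases Nat.eq_or_lt_of_le hkn with h | h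
    · rw [h, Nat.coprime_self] at hco; omega
    · exact h
  -- s² ≡ k² mod n
  have hkl : (k : ℤ) - l = s ^ 2 := by
    have : ((k - l : ℕ) : ℤ) = ((s ^ 2 : ℕ) : ℤ) := by rw [hs]
    rw [Nat.cast_sub hlk] at this
    push_cast at this
    exact this
  have hl' : (l : ℤ) * (n - 1) = k * (k - 1) := by
    have : ((l * (n - 1) : ℕ) : ℤ) = ((k * (k - 1) : ℕ) : ℤ) := by rw [hl]
    rw [Nat.cast_mul, Nat.cast_mul, Nat.cast_sub (by omega), Nat.cast_sub (by omega)] at this
    push_cast at this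
    exact this
  have hcong : (k : ℤ) ^ 2 - s ^ 2 = l * n := by
    rw [← hkl]; linear_combination (-1 : ℤ) * hl'
  have hspos : 0 < s := by
    rcases Nat.eq_zero_or_pos s with h | h
    · exfalso
      rw [h] at hs
      have hkl2 : k = l := by omega
      rw [← hkl2] at hl
      have := Nat.eq_of_mul_eq_mul_left hk hl
      omega
    · exact h
  have hsk : s ^ 2 ≤ k := by omega
  have hsk' : s ≤ k := by nlinarith
  -- a = ± s^m
  have ha' : a = (s : ℤ) ^ m ∨ a = -(s : ℤ) ^ m := by
    apply sq_eq_sq_iff_eq_or_eq_neg.mp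
    rw [ha]; ring
  obtain ⟨t, ht⟩ := hm
  have hpow : (k : ℤ) ^ m - k * s ^ (2 * t) = k * ((k ^ 2) ^ t - (s ^ 2) ^ t) := by
    rw [ht]; ring
  have hd1 : (n : ℤ) ∣ (k : ℤ) ^ m - k * s ^ (2 * t) := by
    rw [hpow]
    apply Dvd.dvd.mul_left
    refine dvd_trans ?_ (sub_dvd_pow_sub_pow _ _ t)
    rw [hcong]
    exact dvd_mul_left _ _
  have hd2 : (n : ℤ) ∣ (k : ℤ) ^ m - a := ⟨b, by rw [hab]; ring⟩
  have hd3 : (n : ℤ) ∣ k * s ^ (2 * t) - a := by
    have := dvd_sub hd2 hd1
    have e : (k : ℤ) ^ m - a - (k ^ m - k * s ^ (2 * t)) = k * s ^ (2 * t) - a := by ring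
    rwa [e] at this
  have hco2 : IsCoprime (n : ℤ) ((s : ℤ) ^ (2 * t)) := by
    have h1 : IsCoprime (n : ℤ) ((k : ℤ) ^ 2) := by
      apply IsCoprime.pow_right
      exact (Nat.isCoprime_iff_coprime.mpr hco).symm
    have h2 : IsCoprime (n : ℤ) ((s : ℤ) ^ 2) := by
      have e : (s : ℤ) ^ 2 = k ^ 2 + n * (-l) := by linear_combination (-1 : ℤ) * hcong
      rw [e]
      exact IsCoprime.add_mul_left_right h1 _
    rw [pow_mul]
    exact IsCoprime.pow_right h2
  rcases ha' with h | h
  · left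
    rw [h, ht] at hd3
    have e : (k : ℤ) * s ^ (2 * t) - s ^ (2 * t + 1) = s ^ (2 * t) * (k - s) := by ring
    rw [e] at hd3
    have hd4 : (n : ℤ) ∣ k - s := hco2.dvd_of_dvd_mul_left hd3
    have h5 : (k : ℤ) - s = 0 := by
      apply Int.eq_zero_of_dvd_of_nonneg_of_lt _ _ hd4
      · have : (s : ℤ) ≤ k := by exact_mod_cast hsk'
        linarith
      · have : (k : ℤ) < n := by exact_mod_cast hkn'
        have : (0 : ℤ) < s := by exact_mod_cast hspos
        linarith
    have h6 : k = s := by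
      have : (k : ℤ) = s := by linarith
      exact_mod_cast this
    rw [← h6] at hsk
    nlinarith
  · right
    rw [h, ht] at hd3
    have e : (k : ℤ) * s ^ (2 * t) - -s ^ (2 * t + 1) = s ^ (2 * t) * (k + s) := by ring
    rw [e] at hd3
    have hd4 : (n : ℤ) ∣ k + s := hco2.dvd_of_dvd_mul_left hd3
    have hd5 : n ∣ k + s := by exact_mod_cast hd4
    obtain ⟨c, hc⟩ := hd5
    have hc1 : c = 1 := by
      have : c < 2 := by
        by_contra hcon
        push Not at hcon
        nlinarith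
      have : c ≠ 0 := by
        rintro rfl
        omega
      omega
    rw [hc1, mul_one] at hc
    -- k = n - s, and s² = k - l ; show s = 1
    have h7 : (n : ℤ) = k + s := by exact_mod_cast hc.symm
    have h8 : (s : ℤ) * (s - 1) * (k + s) = 0 ∨ True := Or.inr trivial
    -- from k² - s² = l n : (k - s) = l
    have h9 : (k : ℤ) - s = l := by
      have h10 : ((k : ℤ) - s) * (k + s) = l * (k + s) := by rw [← h7, ← hcong, h7]; ring
      have hpos : (k : ℤ) + s ≠ 0 := by
        have : (0 : ℤ) < s := by exact_mod_cast hspos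
        have : (0 : ℤ) < k := by exact_mod_cast hk
        linarith
      exact mul_right_cancel₀ hpos h10
    have h10 : (s : ℤ) ^ 2 = s := by rw [← hkl, ← h9]; ring
    have h11 : s = 1 := by
      have h12 : s ^ 2 = s := by exact_mod_cast h10
      nlinarith
    omega

variable {Ω : Type*} [Fintype Ω] [DecidableEq Ω]

theorem main (G : Subgroup (Equiv.Perm Ω)) (h2 : MulAction.IsMultiplyPretransitive G Ω 2) (o : Ω)
    (α : MulAut G) (hα : Odd (orderOf α)) (Δ : Finset Ω)
    (hΔ : ∀ g : G, g • o = o → ∀ x, x ∈ Δ ↔ α g • x ∈ Δ)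
    (hne : Δ.Nonempty) (hco : Δ.card.Coprime (Fintype.card Ω)) (hn : 2 ≤ Fintype.card Ω) :
    Δ.card = 1 ∨ Δ.card = Fintype.card Ω - 1 := by
  classical
  set n := Fintype.card Ω with hndef
  set k := Δ.card with hkdef
  have htr : ∀ x : Ω, ∃ g : G, g • o = x := by
    have : MulAction.IsPretransitive G Ω := by
      have : MulAction.IsMultiplyPretransitive G Ω 1 := by
        apply MulAction.isMultiplyPretransitive_of_le' (n := 2) (m := 1) (by norm_num)
        simp only [Nat.cast_ofNat, ENat.card_eq_coe_fintype_card]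
        exact_mod_cast hn
      exact MulAction.is_one_pretransitive_iff.mp this
    exact fun x => this.exists_smul_eq o x
  choose t ht using htr
  -- blocks
  let B : Ω → Finset Ω := fun x => Finset.univ.filter (fun y => (α (t x))⁻¹ • y ∈ Δ)
  have hB : ∀ (g : G) (y : Ω), y ∈ B (g • o) ↔ (α g)⁻¹ • y ∈ Δ := by
    intro g y
    simp only [B, Finset.mem_filter, Finset.mem_univ, true_and]
    have h1 : (g⁻¹ * t (g • o)) • o = o := by rw [mul_smul, ht, inv_smul_smul]
    rw [hΔ _ h1, map_mul, map_inv, smul_smul]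
    have : (α g)⁻¹ * α (t (g • o)) * (α (t (g • o)))⁻¹ = (α g)⁻¹ := by group
    rw [this]
  have hBcard : ∀ x, (B x).card = k := by
    intro x
    have h1 : B x = Δ.image (fun y => α (t x) • y) := by
      ext y
      simp only [B, Finset.mem_filter, Finset.mem_univ, true_and, Finset.mem_image]
      constructor
      · intro h; exact ⟨_, h, by rw [smul_inv_smul]⟩
      · rintro ⟨z, hz, rfl⟩; rw [inv_smul_smul]; exact hz
    rw [h1, Finset.card_image_of_injective _ (MulAction.injective _)]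
  have hBg : ∀ (g : G) (x y : Ω), α g • y ∈ B (g • x) ↔ y ∈ B x := by
    intro g x y
    conv_lhs => rw [← ht x, smul_smul]
    conv_rhs => rw [← ht x]
    rw [hB, hB, map_mul, _root_.mul_inv_rev, mul_smul, inv_smul_smul]
  -- matrices
  let N : Matrix Ω Ω ℤ := Matrix.of fun y x => if y ∈ B x then 1 else 0
  have hN : ∀ (g : G) (y x : Ω), N (α g • y) (g • x) = N y x := by
    intro g y x
    simp only [N, Matrix.of_apply, hBg]
  have hNcol : ∀ x, ∑ y, N y x = k := by
    intro x
    simp only [N, Matrix.of_apply]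
    rw [Finset.sum_ite_mem, Finset.univ_inter, Finset.sum_const, hBcard]
    simp
  have hrowc : ∀ y z, ∑ x, N y x = ∑ x, N z x := by
    intro y z
    obtain ⟨g, hg⟩ : ∃ g : G, g • y = z := ⟨t z * (t y)⁻¹, by
      rw [mul_smul]
      have : (t y)⁻¹ • y = o := by rw [inv_smul_eq_iff, ht]
      rw [this, ht]⟩
    obtain ⟨g', rfl⟩ := α.surjective g
    rw [← hg]
    rw [← Equiv.sum_comp (MulAction.toPerm g') (fun x => N (α g' • y) x)]
    simp only [MulAction.toPerm_apply, hN]
  have hNrow : ∀ y, ∑ x, N y x = k := by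
    intro y
    have h1 : ∑ z, ∑ x, N z x = ∑ x, ∑ z, N z x := Finset.sum_comm
    have h3 : ∑ z : Ω, ∑ x, N z x = n * ∑ x, N y x := by
      rw [Finset.sum_congr rfl (fun z _ => hrowc z y), Finset.sum_const, Finset.card_univ]
      simp [hndef]
    have h4 : ∑ x : Ω, ∑ z, N z x = n * k := by
      rw [Finset.sum_congr rfl (fun x _ => hNcol x), Finset.sum_const, Finset.card_univ]
      simp [hndef]
    rw [h3, h4] at h1
    have hn0 : (n : ℤ) ≠ 0 := by
      have : 0 < n := by omega
      exact_mod_cast this.ne'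
    exact mul_left_cancel₀ hn0 h1
  let J : Matrix Ω Ω ℤ := Matrix.of fun _ _ => 1
  have hJN : J * N = (k : ℤ) • J := by
    ext y x
    rw [Matrix.mul_apply]
    simp only [J, Matrix.of_apply, one_mul, Matrix.smul_apply, smul_eq_mul, mul_one]
    exact hNcol x
  have hNJ : N * J = (k : ℤ) • J := by
    ext y x
    rw [Matrix.mul_apply]
    simp only [J, Matrix.of_apply, mul_one, Matrix.smul_apply, smul_eq_mul]
    exact hNrow y
  have hJT : Jᵀ = J := by ext y x; rfl
  have hNTJ : Nᵀ * J = (k : ℤ) • J := by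
    have := congrArg Matrix.transpose hJN
    rwa [Matrix.transpose_mul, hJT, Matrix.transpose_smul, hJT] at this
  have hJJ : J * J = (n : ℤ) • J := by
    ext y x
    rw [Matrix.mul_apply]
    simp [J, hndef]
  -- commuting matrices are combinations of 1 and J
  have hcomb : ∀ M : Matrix Ω Ω ℤ, (∀ (g : G) (x y : Ω), M (g • x) (g • y) = M x y) →
      ∃ a b : ℤ, M = a • (1 : Matrix Ω Ω ℤ) + b • J := by
    intro M hM
    obtain ⟨x0, y0, hxy0⟩ := Fintype.one_lt_card_iff.mp (by omega : 1 < Fintype.card Ω)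
    refine ⟨M x0 x0 - M x0 y0, M x0 y0, ?_⟩
    ext x y
    simp only [Matrix.add_apply, Matrix.smul_apply, smul_eq_mul, J, Matrix.of_apply, mul_one]
    have h2' := h2.exists_smul_eq
    by_cases hxy : x = y
    · subst hxy
      rw [Matrix.one_apply_eq, mul_one, sub_add_cancel]
      have : ∃ g : G, g • x0 = x := ⟨t x * (t x0)⁻¹, by
        rw [mul_smul]
        have : (t x0)⁻¹ • x0 = o := by rw [inv_smul_eq_iff, ht]
        rw [this, ht]⟩
      obtain ⟨g, rfl⟩ := this
      exact hM g x0 x0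
    · rw [Matrix.one_apply_ne hxy, mul_zero, zero_add]
      let e0 : Fin 2 ↪ Ω := ⟨![x0, y0], by
        intro i j hij
        fin_cases i <;> fin_cases j <;> simp_all [Ne.symm]⟩
      let e1 : Fin 2 ↪ Ω := ⟨![x, y], by
        intro i j hij
        fin_cases i <;> fin_cases j <;> simp_all [Ne.symm]⟩
      obtain ⟨g, hg⟩ := h2' e0 e1
      have g0 : g • x0 = x := congrArg (fun f : Fin 2 ↪ Ω => f 0) hg
      have g1 : g • y0 = y := congrArg (fun f : Fin 2 ↪ Ω => f 1) hg
      rw [← g0, ← g1]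
      exact hM g x0 y0
  -- N^T N
  have hNTN : ∀ (g : G) (x y : Ω), (Nᵀ * N) (g • x) (g • y) = (Nᵀ * N) x y := by
    intro g x y
    rw [Matrix.mul_apply, Matrix.mul_apply]
    rw [← Equiv.sum_comp (MulAction.toPerm (α g))]
    simp only [MulAction.toPerm_apply, Matrix.transpose_apply, hN]
  obtain ⟨c, l, hcl⟩ := hcomb _ hNTN
  have hNpow : ∀ (m : ℕ) (g : G) (y x : Ω), (N ^ m) ((α ^ m) g • y) (g • x) = (N ^ m) y x := by
    intro m
    induction m with
    | zero =>
      intro g y x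
      rw [pow_zero, pow_zero, MulAut.one_apply, Matrix.one_apply, Matrix.one_apply]
      simp
    | succ m ih =>
      intro g y x
      rw [pow_succ, Matrix.mul_apply, Matrix.mul_apply]
      rw [← Equiv.sum_comp (MulAction.toPerm (α g))]
      refine Finset.sum_congr rfl (fun z _ => ?_)
      rw [MulAction.toPerm_apply, hN]
      congr 1
      have : (α ^ (m + 1)) g = (α ^ m) (α g) := by rw [pow_succ, MulAut.mul_apply]
      rw [this, ih]
  set m := orderOf α with hm
  obtain ⟨a, b, hab⟩ := hcomb (N ^ m) (by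
    intro g x y
    have := hNpow m g x y
    rwa [hm, pow_orderOf_eq_one, MulAut.one_apply] at this)
  -- evaluate
  obtain ⟨x0, y0, hxy0⟩ := Fintype.one_lt_card_iff.mp (by omega : 1 < Fintype.card Ω)
  have hdiag : (Nᵀ * N) x0 x0 = k := by
    rw [Matrix.mul_apply, ← hNcol x0]
    refine Finset.sum_congr rfl (fun z _ => ?_)
    rw [Matrix.transpose_apply]
    simp only [N, Matrix.of_apply]
    split_ifs <;> simp
  have hck : c + l = k := by
    rw [hcl] at hdiag
    simp only [Matrix.add_apply, Matrix.smul_apply, Matrix.one_apply_eq, smul_eq_mul, J, Matrix.of_apply, mul_one] at hdiag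
    exact hdiag
  have hoff : (Nᵀ * N) x0 y0 = l := by
    rw [hcl, Matrix.add_apply, Matrix.smul_apply, Matrix.smul_apply, Matrix.one_apply_ne hxy0]
    simp [J]
  have hl0 : 0 ≤ l := by
    rw [← hoff, Matrix.mul_apply]
    apply Finset.sum_nonneg
    intro z _
    rw [Matrix.transpose_apply]
    simp only [N, Matrix.of_apply]
    split_ifs <;> simp
  have hlk : l ≤ k := by
    rw [← hoff, Matrix.mul_apply, ← hNcol x0]
    apply Finset.sum_le_sum
    intro z _
    rw [Matrix.transpose_apply]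
    simp only [N, Matrix.of_apply]
    split_ifs <;> simp
  have hJne : ∀ u v : ℤ, u • J = v • J → u = v := by
    intro u v h
    have := congrFun (congrFun h x0) x0
    simpa [J] using this
  -- N^T N J = k² J
  have hkk : (k : ℤ) * k = c + l * n := by
    have h1 : Nᵀ * N * J = ((k : ℤ) * k) • J := by
      rw [Matrix.mul_assoc, hNJ, Matrix.mul_smul, hNTJ, smul_smul]
    rw [hcl, Matrix.add_mul, Matrix.smul_mul, Matrix.one_mul, Matrix.smul_mul, hJJ, smul_smul, ← add_smul] at h1
    exact (hJne _ _ h1).symm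
  have hNmJ : ∀ i : ℕ, N ^ i * J = ((k : ℤ) ^ i) • J := by
    intro i
    induction i with
    | zero => simp
    | succ i ih =>
      rw [pow_succ, Matrix.mul_assoc, hNJ, Matrix.mul_smul, ih, smul_smul]
      congr 1; ring
  have hkm : (k : ℤ) ^ m = a + b * n := by
    have h1 := hNmJ m
    rw [hab, Matrix.add_mul, Matrix.smul_mul, Matrix.one_mul, Matrix.smul_mul, hJJ, smul_smul, ← add_smul] at h1
    exact (hJne _ _ h1).symm
  -- (N^T)^i N^i = c^i 1 + d_i J
  have hSN : ∀ i : ℕ, ∃ d : ℤ, Nᵀ ^ i * N ^ i = (c ^ i) • (1 : Matrix Ω Ω ℤ) + d • J := by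
    intro i
    induction i with
    | zero => exact ⟨0, by simp⟩
    | succ i ih =>
      obtain ⟨d, hd⟩ := ih
      have h1 : Nᵀ ^ (i + 1) * N ^ (i + 1) = Nᵀ * (Nᵀ ^ i * N ^ i) * N := by
        rw [pow_succ' Nᵀ, pow_succ N]; simp only [Matrix.mul_assoc]
      rw [h1, hd, Matrix.mul_add, Matrix.add_mul, Matrix.mul_smul, Matrix.mul_one, Matrix.smul_mul, hcl,
        Matrix.mul_smul, hNTJ, Matrix.smul_mul, Matrix.smul_mul, hJN, smul_add, smul_smul, smul_smul, smul_smul, smul_smul]
      refine ⟨c ^ i * l + d * (k * k), ?_⟩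
      rw [add_smul, ← add_assoc, pow_succ, mul_assoc]
  obtain ⟨d, hd⟩ := hSN m
  have hT : Nᵀ ^ m = (N ^ m)ᵀ := (Matrix.transpose_pow N m).symm
  rw [hT, hab, Matrix.transpose_add, Matrix.transpose_smul, Matrix.transpose_one, Matrix.transpose_smul, hJT,
    Matrix.add_mul, Matrix.mul_add, Matrix.mul_add, Matrix.smul_mul, Matrix.one_mul, Matrix.smul_mul, Matrix.one_mul,
    Matrix.mul_smul, Matrix.mul_one, Matrix.smul_mul, Matrix.mul_smul, hJJ] at hd
  have hent1 := congrFun (congrFun hd x0) x0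
  have hent2 := congrFun (congrFun hd x0) y0
  simp only [Matrix.add_apply, Matrix.smul_apply, Matrix.one_apply_eq, Matrix.one_apply_ne hxy0, J, Matrix.of_apply,
    smul_eq_mul, mul_one, mul_zero, zero_add] at hent1 hent2
  have ha2 : a ^ 2 = c ^ m := by linear_combination hent1 - hent2
  -- conversion to naturals
  obtain ⟨l', rfl⟩ := Int.eq_ofNat_of_zero_le hl0
  have hlk' : l' ≤ k := by exact_mod_cast hlk
  have hc' : c = ((k - l' : ℕ) : ℤ) := by
    rw [Nat.cast_sub hlk']; linarith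
  obtain ⟨s, hs⟩ : ∃ s : ℕ, k - l' = s ^ 2 := by
    apply sq_of_pow_odd hα (a := a.natAbs)
    have h1 : ((((k - l' : ℕ) : ℤ)) ^ m) = ((a.natAbs : ℤ)) ^ 2 := by
      rw [← hc', ← ha2, Int.natAbs_sq]
    exact_mod_cast h1
  have hkpos : 0 < k := Finset.card_pos.mpr hne
  have hkn : k ≤ n := Finset.card_le_univ Δ
  have hln : l' * (n - 1) = k * (k - 1) := by
    have h1 : ((l' : ℤ)) * (n - 1) = k * (k - 1) := by
      linear_combination (-1 : ℤ) * hkk - hck
    have h2 : (((l' * (n - 1) : ℕ)) : ℤ) = ((k * (k - 1) : ℕ) : ℤ) := by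
      rw [Nat.cast_mul, Nat.cast_mul, Nat.cast_sub (by omega), Nat.cast_sub (by omega)]
      push_cast
      linear_combination h1
    exact_mod_cast h2
  apply arith hn hkpos hkn hco hln hlk' hs hα (a := a) (b := b)
  · rw [ha2, hc', hs]; push_cast; ring
  · exact hkm

end Cfsg.Agent.H24.TwoTrans
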