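import Mathlib
import Cfsg.Agent.H24_Zas21
import Cfsg.Agent.H9_TwoComp
import Cfsg.Agent.H1_Hall
import Cfsg.Agent.H11_Cores

/-! Solvable groups all of whose abelian subgroups are cyclic: the quotient. -/

namespace Cfsg.Agent.H24.Zas

open Subgroup Cfsg

/-- cyclic or quaternion -/
theorem Cyc.group {G : Type*} [Group G] [Finite G] (h : Cyc G) {p : ℕ} [Fact p.Prime] (hp : IsPGroup p G) :
    IsCyclic G ∨ (p = 2 ∧ ∃ n : ℕ, Nonempty (G ≃* QuaternionGroup (2 ^ n))) := by
  apply H23.PQuat.cyclic_or_quaternion_of_abelian hp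
  intro A hA _
  apply h A
  intro a ha b hb
  have := hA.is_comm.comm (⟨a, ha⟩ : A) ⟨b, hb⟩
  exact congrArg Subtype.val this

theorem Cyc.aut2 {G : Type*} [Group G] [Finite G] (h : Cyc G) (hp : IsPGroup 2 G) :
    IsPGroup 2 (MulAut G) ∨ Nonempty (G ≃* QuaternionGroup 2) := by
  haveI : Fact (Nat.Prime 2) := ⟨Nat.prime_two⟩
  rcases h.group hp with h1 | ⟨-, n, ⟨e⟩⟩
  · exact Or.inl (H19.AutTwo.isPGroup_mulAut_cyclic hp h1)
  · rcases Nat.lt_or_ge n 2 with hn | hn
    · interval_cases n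
      · left
        have hc : IsCyclic (QuaternionGroup (2 ^ 0)) := by
          rw [pow_zero]
          exact QuaternionGroup.quaternionGroup_one_isCyclic
        have hc' : IsCyclic G := e.isCyclic.2 hc
        exact H19.AutTwo.isPGroup_mulAut_cyclic hp hc'
      · right
        rw [pow_one] at e
        exact ⟨e⟩
    · left
      exact (H9.TwoComp.aut_quaternion n hn).of_equiv (MulAut.congr e).symm

section Quot

variable {G : Type*} [Group G] [Finite G]

theorem oddCore_normal : (oddCore G).Normal := H1.Nilp.pPrimeCore_normal 2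

theorem inf_oddCore {P : Subgroup G} (hP : IsPGroup 2 P) : P ⊓ oddCore G = ⊥ := by
  haveI : Fact (Nat.Prime 2) := ⟨Nat.prime_two⟩
  rw [← disjoint_iff]
  apply Subgroup.disjoint_of_coprime_natCard
  obtain ⟨k, hk⟩ := IsPGroup.iff_card.1 hP
  rw [hk]
  have h : (Nat.card (oddCore G)).Coprime 2 := H11.Cores.pPrimeCore_coprime 2
  exact (Nat.Coprime.pow_right k h).symm

/-- the quotient map is injective on 2-subgroups -/
theorem mk_inj {P : Subgroup G} (hP : IsPGroup 2 P) [(oddCore G).Normal] {a b : G} (ha : a ∈ P) (hb : b ∈ P)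
    (h : (QuotientGroup.mk' (oddCore G)) a = QuotientGroup.mk' (oddCore G) b) : a = b := by
  have h1 : a⁻¹ * b ∈ P ⊓ oddCore G := mem_inf.2 ⟨mul_mem (inv_mem ha) hb, QuotientGroup.eq.1 h⟩
  rw [inf_oddCore hP, mem_bot] at h1
  exact inv_mul_eq_one.1 h1

/-- 2-subgroups of the quotient embed in the group -/
theorem exists_embed [(oddCore G).Normal] {T : Subgroup (G ⧸ oddCore G)} (hT : IsPGroup 2 T) :
    ∃ f : T →* G, Function.Injective f := by
  haveI : Fact (Nat.Prime 2) := ⟨Nat.prime_two⟩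
  obtain ⟨Q, hQ⟩ := hT.exists_le_sylow
  obtain ⟨P, hP⟩ := Sylow.mapSurjective_surjective (QuotientGroup.mk'_surjective (oddCore G)) 2 Q
  have hPQ : (P : Subgroup G).map (QuotientGroup.mk' (oddCore G)) = Q := by
    rw [← hP]; rfl
  let g : (P : Subgroup G) →* (G ⧸ oddCore G) := (QuotientGroup.mk' (oddCore G)).comp (P : Subgroup G).subtype
  have hg : Function.Injective g := by
    intro a b hab
    exact Subtype.ext (mk_inj P.isPGroup' a.2 b.2 hab)
  have hgr : g.range = Q := by
    rw [← hPQ, MonoidHom.range_eq_map, ← Subgroup.map_map, ← MonoidHom.range_eq_map, Subgroup.range_subtype]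
  let e : (P : Subgroup G) ≃* g.range := MonoidHom.ofInjective hg
  have hle : T ≤ g.range := by rw [hgr]; exact hQ
  refine ⟨(P : Subgroup G).subtype.comp (e.symm.toMonoidHom.comp (inclusion hle)), ?_⟩
  exact (P : Subgroup G).subtype_injective.comp (e.symm.injective.comp (inclusion_injective hle))

theorem Cyc.quot (h : Cyc G) [(oddCore G).Normal] {T : Subgroup (G ⧸ oddCore G)} (hT : IsPGroup 2 T) : Cyc T := by
  obtain ⟨f, hf⟩ := exists_embed hT
  exact h.of_inj f hf

/-- preimages of cyclic 2-subgroups are Z-groups -/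
theorem Cyc.zgroup_comap (h : Cyc G) [(oddCore G).Normal] {T : Subgroup (G ⧸ oddCore G)} (hT : IsPGroup 2 T)
    (hTc : IsCyclic T) : IsZGroup (T.comap (QuotientGroup.mk' (oddCore G))) := by
  rw [isZGroup_iff]
  intro p hp S
  haveI : Fact p.Prime := ⟨hp⟩
  rcases (h.sub (T.comap (QuotientGroup.mk' (oddCore G)))).pgroup S.isPGroup' with h1 | ⟨rfl, -⟩
  · exact h1
  · -- embed in `T`
    have hS2 : IsPGroup 2 ((S : Subgroup (T.comap (QuotientGroup.mk' (oddCore G)))).map
      (T.comap (QuotientGroup.mk' (oddCore G))).subtype) := S.isPGroup'.map _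
    let g : (S : Subgroup (T.comap (QuotientGroup.mk' (oddCore G)))) →* T :=
      { toFun := fun s => ⟨QuotientGroup.mk' (oddCore G) ((s : T.comap (QuotientGroup.mk' (oddCore G))) : G), s.1.2⟩
        map_one' := Subtype.ext (map_one _)
        map_mul' := fun a b => Subtype.ext (map_mul (QuotientGroup.mk' (oddCore G)) _ _) }
    refine isCyclic_of_injective g ?_
    intro a b hab
    apply Subtype.ext
    apply Subtype.ext
    exact mk_inj hS2 ⟨_, a.2, rfl⟩ ⟨_, b.2, rfl⟩ (congrArg Subtype.val hab)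

end Quot

/-- the map to the four-group -/
def quatD (m : ℕ) [NeZero m] (hm : 2 ∣ m) : QuaternionGroup m →* DihedralGroup 2 where
  toFun
    | .a i => .r (ZMod.castHom (show 2 ∣ 2 * m from ⟨m, rfl⟩) (ZMod 2) i)
    | .xa i => .sr (ZMod.castHom (show 2 ∣ 2 * m from ⟨m, rfl⟩) (ZMod 2) i)
  map_one' := by
    change DihedralGroup.r (ZMod.castHom (show 2 ∣ 2 * m from ⟨m, rfl⟩) (ZMod 2) 0) = _
    rw [map_zero]; rfl
  map_mul' := by
    have hm0 : (ZMod.castHom (show 2 ∣ 2 * m from ⟨m, rfl⟩) (ZMod 2)) (m : ZMod (2 * m)) = 0 := by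
      rw [map_natCast]
      exact (ZMod.natCast_eq_zero_iff m 2).2 hm
    rintro (i | i) (j | j)
    · rw [QuaternionGroup.a_mul_a]
      change DihedralGroup.r _ = DihedralGroup.r _ * DihedralGroup.r _
      rw [DihedralGroup.r_mul_r, map_add]
    · rw [QuaternionGroup.a_mul_xa]
      change DihedralGroup.sr _ = DihedralGroup.r _ * DihedralGroup.sr _
      rw [DihedralGroup.r_mul_sr, map_sub]
    · rw [QuaternionGroup.xa_mul_a]
      change DihedralGroup.sr _ = DihedralGroup.sr _ * DihedralGroup.r _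
      rw [DihedralGroup.sr_mul_r, map_add]
    · rw [QuaternionGroup.xa_mul_xa]
      change DihedralGroup.r _ = DihedralGroup.sr _ * DihedralGroup.sr _
      rw [DihedralGroup.sr_mul_sr, map_sub, map_add, hm0, zero_add]

theorem quatD_surj (m : ℕ) [NeZero m] (hm : 2 ∣ m) : Function.Surjective (quatD m hm) := by
  have hc : Function.Surjective (ZMod.castHom (show 2 ∣ 2 * m from ⟨m, rfl⟩) (ZMod 2)) := ZMod.castHom_surjective _
  rintro (i | i)
  · obtain ⟨j, hj⟩ := hc i
    exact ⟨.a j, congrArg DihedralGroup.r hj⟩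
  · obtain ⟨j, hj⟩ := hc i
    exact ⟨.xa j, congrArg DihedralGroup.sr hj⟩

theorem quatD_ker (m : ℕ) [NeZero m] (hm : 2 ∣ m) : IsCyclic (quatD m hm).ker := by
  have hle : (quatD m hm).ker ≤ zpowers (QuaternionGroup.a 1 : QuaternionGroup m) := by
    rintro (i | i) hi
    · haveI : NeZero (2 * m) := ⟨by have := NeZero.ne m; omega⟩
      refine ⟨(i.val : ℤ), ?_⟩
      change (QuaternionGroup.a 1 : QuaternionGroup m) ^ ((i.val : ℕ) : ℤ) = _
      rw [zpow_natCast, QuaternionGroup.a_one_pow, ZMod.natCast_zmod_val]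
    · exfalso
      rw [MonoidHom.mem_ker] at hi
      change DihedralGroup.sr _ = DihedralGroup.r 0 at hi
      cases hi
  exact isCyclic_of_injective (inclusion hle) (inclusion_injective hle)

namespace AutQ

open H20.AutQ8

theorem cls_conj : ∀ x y : Q, cls (x * y * x⁻¹) = cls y := by decide +kernel
theorem cls_of_conj : ∀ x y : Q, (∀ w : Q, y * w * y⁻¹ = x * w * x⁻¹) → cls y = cls x := by decide +kernel
theorem card_inn_aux : Fintype.card {x : Q // ∀ w : Q, x * w = w * x} = 2 := by decide +kernel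

theorem inn_le : (MulAut.conj : Q →* MulAut Q).range ≤ π.ker := by
  rintro _ ⟨x, rfl⟩
  rw [MonoidHom.mem_ker]
  ext i
  rw [π_apply, MulAut.conj_apply, cls_conj, cls_rep]; rfl

theorem card_inn : Nat.card (MulAut.conj : Q →* MulAut Q).range = 4 := by
  have h1 := Subgroup.card_mul_index (MulAut.conj : Q →* MulAut Q).ker
  rw [Subgroup.index_ker] at h1
  have h2 : Nat.card (MulAut.conj : Q →* MulAut Q).ker = 2 := by
    suffices e2 : Nat.card (MulAut.conj : Q →* MulAut Q).ker = Nat.card {x : Q // ∀ w : Q, x * w = w * x} from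
      e2.trans (Nat.card_eq_fintype_card.trans card_inn_aux)
    apply Nat.card_congr
    refine Equiv.subtypeEquivRight (fun x => ?_)
    rw [MonoidHom.mem_ker]
    constructor
    · intro h w
      have := DFunLike.congr_fun h w
      rw [MulAut.conj_apply, MulAut.one_apply] at this
      exact mul_inv_eq_iff_eq_mul.1 this
    · intro h
      ext w
      rw [MulAut.conj_apply, MulAut.one_apply, h w, mul_inv_cancel_right]
  have h3 : Nat.card Q = 8 := by rw [Nat.card_eq_fintype_card]; rfl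
  rw [h2, h3] at h1
  omega

theorem inn_eq : (MulAut.conj : Q →* MulAut Q).range = π.ker :=
  Subgroup.eq_of_le_of_card_ge inn_le (by rw [card_inn]; exact card_ker_le)

theorem cent_inn {φ : MulAut Q} (h : ∀ ψ ∈ π.ker, φ * ψ = ψ * φ) : φ ∈ π.ker := by
  rw [MonoidHom.mem_ker]
  ext i
  obtain ⟨x, hx⟩ : ∃ x, x = rep i := ⟨_, rfl⟩
  rw [π_apply, ← hx, Equiv.Perm.one_apply]
  have h1 : cls (φ x) = cls x := by
    apply cls_of_conj
    intro w
    have h2 := h (MulAut.conj x) (by rw [← inn_eq]; exact ⟨x, rfl⟩)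
    obtain ⟨v, rfl⟩ := φ.surjective w
    have h3 := DFunLike.congr_fun h2 v
    rw [MulAut.mul_apply, MulAut.mul_apply, MulAut.conj_apply, MulAut.conj_apply, map_mul, map_mul, map_inv] at h3
    exact h3
  rw [h1, hx, cls_rep]

/-- subgroups containing the inner automorphisms -/
theorem range_iso {X : Subgroup (MulAut Q)} (hX : π.ker ≤ X) (h2 : ¬ IsPGroup 2 X) (hd : Nat.card X ∣ 24) :
    Nonempty (X ≃* alternatingGroup (Fin 4)) ∨ Nonempty (X ≃* Equiv.Perm (Fin 4)) := by
  haveI : Fact (Nat.Prime 2) := ⟨Nat.prime_two⟩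
  have hk4 : Nat.card (π.ker.subgroupOf X) = 4 := by
    rw [Nat.card_congr (Subgroup.subgroupOfEquivOfLe hX).toEquiv, ← inn_eq, card_inn]
  have h4 : 4 ∣ Nat.card X := by rw [← hk4]; exact Subgroup.card_subgroup_dvd_card _
  have hV2 : ∀ v ∈ π.ker.subgroupOf X, v * v = 1 := by
    intro v hv
    apply Subtype.ext
    have := ker_sq (show (v : MulAut Q) ∈ π.ker from hv)
    rw [pow_two] at this
    exact this
  have hCV : centralizer (π.ker.subgroupOf X : Set X) ≤ π.ker.subgroupOf X := by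
    intro φ hφ
    rw [mem_centralizer_iff] at hφ
    change (φ : MulAut Q) ∈ π.ker
    apply cent_inn
    intro ψ hψ
    have := hφ ⟨ψ, hX hψ⟩ hψ
    exact (congrArg Subtype.val this).symm
  have hne : Nat.card X ≠ 4 ∧ Nat.card X ≠ 8 := by
    constructor
    · intro e; exact h2 (IsPGroup.of_card (n := 2) (by rw [e]; norm_num))
    · intro e; exact h2 (IsPGroup.of_card (n := 3) (by rw [e]; norm_num))
  have hor : Nat.card X = 12 ∨ Nat.card X = 24 := by
    have hle : Nat.card X ≤ 24 := Nat.le_of_dvd (by norm_num) hd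
    obtain ⟨n, hn⟩ : ∃ n, n = Nat.card X := ⟨_, rfl⟩
    rw [← hn] at h4 hd hne hle ⊢
    obtain ⟨k, rfl⟩ := h4
    have : k ≤ 6 := by omega
    interval_cases k <;> omega
  rcases hor with h | h
  · exact Or.inl (klein_12 _ hV2 hk4 hCV h)
  · exact Or.inr (klein_24 _ hV2 hk4 hCV h)

end AutQ

end Cfsg.Agent.H24.Zas
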