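import Mathlib
import Cfsg.Agent.H24_Zas22

/-! Solvable groups all of whose abelian subgroups are cyclic: existence of the normal Z-subgroup. -/

namespace Cfsg.Agent.H24.Zas

open Subgroup Cfsg

variable {G : Type*} [Group G] [Finite G]

theorem isCyclic_of_cyc_comm {T : Type*} [Group T] (h : Cyc T) (hc : ∀ a b : T, a * b = b * a) : IsCyclic T := by
  have h1 := h ⊤ (fun a _ b _ => hc a b)
  exact isCyclic_of_surjective (Subgroup.topEquiv (G := T)) (Subgroup.topEquiv (G := T)).surjective

theorem isZGroup_of_top (h : IsZGroup (⊤ : Subgroup G)) : IsZGroup G :=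
  IsZGroup.of_injective (G' := (⊤ : Subgroup G)) (f := (Subgroup.topEquiv (G := G)).symm.toMonoidHom)
    (Subgroup.topEquiv (G := G)).symm.injective

theorem Cyc.solvable_case (h : Cyc G) (hs : Group.IsSolvable G) (hZ : ¬ IsZGroup G) :
    ∃ N : Subgroup G, N.Normal ∧ IsZGroup N ∧
      ((∃ f : G →* DihedralGroup 2, Function.Surjective f ∧ f.ker = N) ∨
        (∃ f : G →* alternatingGroup (Fin 4), Function.Surjective f ∧ f.ker = N) ∨
        (∃ f : G →* Equiv.Perm (Fin 4), Function.Surjective f ∧ f.ker = N)) := by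
  haveI : Fact (Nat.Prime 2) := ⟨Nat.prime_two⟩
  haveI hOn : (oddCore G).Normal := oddCore_normal
  have hqs := QuotientGroup.mk'_surjective (oddCore G)
  by_cases hb : IsPGroup 2 (G ⧸ oddCore G)
  · have hT : IsPGroup 2 (⊤ : Subgroup (G ⧸ oddCore G)) := hb.to_subgroup ⊤
    have hc : Cyc (G ⧸ oddCore G) := (h.quot hT).of_inj (Subgroup.topEquiv (G := G ⧸ oddCore G)).symm.toMonoidHom
      (Subgroup.topEquiv (G := G ⧸ oddCore G)).symm.injective
    have hcyc : ¬ IsCyclic (G ⧸ oddCore G) := by
      intro hcy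
      apply hZ
      apply isZGroup_of_top
      have h1 : IsCyclic (⊤ : Subgroup (G ⧸ oddCore G)) := inferInstance
      have h2 := h.zgroup_comap hT h1
      rwa [comap_top] at h2
    rcases hc.group hb with h1 | ⟨-, n, ⟨e⟩⟩
    · exact absurd h1 hcyc
    haveI : NeZero (2 ^ n) := ⟨by positivity⟩
    have hn : n ≠ 0 := by
      rintro rfl
      apply hcyc
      have hc0 : IsCyclic (QuaternionGroup (2 ^ 0)) := by
        rw [pow_zero]
        exact QuaternionGroup.quaternionGroup_one_isCyclic
      exact e.isCyclic.2 hc0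
    have hm : 2 ∣ 2 ^ n := dvd_pow_self 2 hn
    obtain ⟨T, hTd⟩ : ∃ T, T = ((quatD (2 ^ n) hm).comp e.toMonoidHom).ker := ⟨_, rfl⟩
    have hTc : IsCyclic T := by
      haveI := quatD_ker (2 ^ n) hm
      refine isCyclic_of_injective
        ({ toFun := fun t => ⟨e t, by
            have h9 : (t : G ⧸ oddCore G) ∈ ((quatD (2 ^ n) hm).comp e.toMonoidHom).ker := hTd ▸ t.2
            exact h9⟩
           map_one' := Subtype.ext (map_one e)
           map_mul' := fun a b => Subtype.ext (map_mul e (a : G ⧸ oddCore G) b) } : T →* (quatD (2 ^ n) hm).ker) ?_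
      intro a b hab
      apply Subtype.ext
      apply e.injective
      exact congrArg Subtype.val hab
    have hT2 : IsPGroup 2 T := hb.to_subgroup T
    refine ⟨T.comap (QuotientGroup.mk' (oddCore G)), ?_, h.zgroup_comap hT2 hTc, Or.inl
      ⟨((quatD (2 ^ n) hm).comp e.toMonoidHom).comp (QuotientGroup.mk' (oddCore G)), ?_, ?_⟩⟩
    · rw [hTd]; infer_instance
    · exact ((quatD_surj (2 ^ n) hm).comp e.surjective).comp hqs
    · rw [hTd, MonoidHom.comap_ker]
  · -- the 2-core
    obtain ⟨R, hRd⟩ : ∃ R, R = pCore 2 (G ⧸ oddCore G) := ⟨_, rfl⟩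
    haveI hRn : R.Normal := by rw [hRd]; exact H1.Nilp.pCore_normal 2
    have hR2 : IsPGroup 2 R := by rw [hRd]; exact H11.Cores.pCore_isPGroup 2
    haveI := hs
    have hO : pPrimeCore 2 (G ⧸ oddCore G) = ⊥ := H11.Cores.pPrimeCore_quotient 2
    have hCR : centralizer (R : Set (G ⧸ oddCore G)) ≤ R := by
      rw [hRd]; exact H1.Hall.centralizer_pCore_le 2 hO
    rcases (h.quot hR2).aut2 hR2 with h1 | ⟨⟨e⟩⟩
    · exfalso
      apply hb
      intro g
      obtain ⟨k, hk⟩ := h1 (MulAut.conjNormal g)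
      rw [← map_pow] at hk
      have h2 : g ^ 2 ^ k ∈ R := by
        apply hCR
        rw [mem_centralizer_iff]
        intro r hr
        have h3 := congrArg Subtype.val (DFunLike.congr_fun hk ⟨r, hr⟩)
        rw [MulAut.conjNormal_apply] at h3
        exact (mul_inv_eq_iff_eq_mul.1 h3).symm
      obtain ⟨m, hm⟩ := hR2 ⟨_, h2⟩
      refine ⟨k + m, ?_⟩
      rw [pow_add, pow_mul]
      exact congrArg Subtype.val hm
    · obtain ⟨c, hc⟩ : ∃ c, c = H20.MaxAb.cQ hRn e := ⟨_, rfl⟩
      have hk : c.ker = centralizer (R : Set (G ⧸ oddCore G)) := by rw [hc]; exact H20.MaxAb.cQ_ker hRn e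
      have hkR : c.ker ≤ R := by rw [hk]; exact hCR
      have hk2 : IsPGroup 2 c.ker := hR2.to_le hkR
      have hkc : IsCyclic c.ker := by
        apply isCyclic_of_cyc_comm (h.quot hk2)
        intro a b
        apply Subtype.ext
        have h2 : (b : G ⧸ oddCore G) ∈ centralizer (R : Set (G ⧸ oddCore G)) := hk ▸ b.2
        exact mem_centralizer_iff.1 h2 a (hkR a.2)
      have hX2 : ¬ IsPGroup 2 c.range := by
        intro h2
        apply hb
        intro g
        obtain ⟨k, hk'⟩ := h2 ⟨c g, g, rfl⟩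
        have h3 : c (g ^ 2 ^ k) = 1 := by
          rw [map_pow]; exact congrArg Subtype.val hk'
        obtain ⟨m, hm⟩ := hk2 ⟨g ^ 2 ^ k, h3⟩
        refine ⟨k + m, ?_⟩
        rw [pow_add, pow_mul]
        exact congrArg Subtype.val hm
      have hπ : H20.AutQ8.π.ker ≤ c.range := by
        rw [← AutQ.inn_eq]
        rintro _ ⟨x, rfl⟩
        refine ⟨(e.symm x : R), ?_⟩
        apply MulEquiv.ext
        intro w
        obtain ⟨y, rfl⟩ := e.surjective w
        rw [hc, H20.MaxAb.cQ_apply, MulAut.conj_apply]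
        have : (⟨(e.symm x : R) * (y : G ⧸ oddCore G) * ((e.symm x : R) : G ⧸ oddCore G)⁻¹,
          hRn.conj_mem y y.2 (e.symm x : R)⟩ : R) = e.symm x * y * (e.symm x)⁻¹ := rfl
        rw [this, map_mul, map_mul, map_inv, e.apply_symm_apply]
      have hker : ∀ {Y : Type} [Group Y] (e' : c.range ≃* Y),
          (e'.toMonoidHom.comp (c.rangeRestrict.comp (QuotientGroup.mk' (oddCore G)))).ker =
            c.ker.comap (QuotientGroup.mk' (oddCore G)) := by
        intro Y _ e'
        ext g
        rw [MonoidHom.mem_ker, mem_comap, MonoidHom.mem_ker]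
        constructor
        · intro h2
          have h3 : c.rangeRestrict (QuotientGroup.mk' (oddCore G) g) = 1 := e'.injective (by rw [map_one]; exact h2)
          exact congrArg Subtype.val h3
        · intro h2
          have h3 : c.rangeRestrict (QuotientGroup.mk' (oddCore G) g) = 1 := Subtype.ext h2
          change e' (c.rangeRestrict (QuotientGroup.mk' (oddCore G) g)) = 1
          rw [h3, map_one]
      refine ⟨c.ker.comap (QuotientGroup.mk' (oddCore G)), inferInstance, h.zgroup_comap hk2 hkc, Or.inr ?_⟩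
      rcases AutQ.range_iso hπ hX2 (H20.AutQ8.range_dvd c) with ⟨⟨e'⟩⟩ | ⟨⟨e'⟩⟩
      · left
        exact ⟨_, (e'.surjective.comp (c.rangeRestrict_surjective.comp hqs)), hker e'⟩
      · right
        exact ⟨_, (e'.surjective.comp (c.rangeRestrict_surjective.comp hqs)), hker e'⟩

end Cfsg.Agent.H24.Zas
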