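import Mathlib
import Cfsg.Prelude.Def_BrauerPairs
import Cfsg.Agent.H25_Cov3

/-!
# Blocks of groups with a normal p-subgroup
-/

set_option autoImplicit false
set_option linter.unusedSectionVars false
set_option linter.style.haveILetI false

namespace Cfsg.Agent.H25.BPNorm2

open Cfsg Cfsg.Agent.H10.BlockLoc Cfsg.Agent.H10.BlockAlg Cfsg.Agent.H10.BlockIdem Cfsg.Agent.H10.BlockDefect
  Cfsg.Agent.H10.BlockCov Cfsg.Agent.H10.BlockOrth Cfsg.Agent.H10.BlockMain
  Cfsg.Agent.H3.CharIrr Cfsg.Agent.H25.Red Cfsg.Agent.H25.KG Cfsg.Agent.H25.BPTr Cfsg.Agent.H25.BPMain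
  Cfsg.Agent.H25.BPDef Cfsg.Agent.H25.BPNorm Cfsg.Agent.H25.BPSub Cfsg.Agent.H25.Cov Cfsg.Agent.H25.Up
  Cfsg.Agent.H25.Cov2 Cfsg.Agent.H25.Cov3
open scoped ComplexConjugate

section

variable {M : Ideal AlgInt} {G : Type*} [Group G] [Fintype G] {p : ℕ} [hp : Fact p.Prime]
  [hMax : M.IsMaximal] [hch : CharP (KM M) p]

omit [Fintype G] in
theorem Ce_normal {P : Subgroup G} (hP : P.Normal) : (Ce P).Normal := inferInstance

/-- the block idempotent of a group with a normal `p`-subgroup is an orbit sum -/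
theorem eq_osN (hM : IsPModular p M) {P : Subgroup G} (hPn : P.Normal) (hP : IsPGroup p P)
    {B e : MonoidAlgebra (KM M) G} (hB : IsBlk ⊤ B) (he : IsBlk (Ce P) e) (h : B * e ≠ 0) :
    B = osN (Ce P) e := by
  haveI := Ce_normal hPn
  have hnn : (⊤ : Subgroup G) ≤ Subgroup.normalizer (P : Set G) := by rw [Subgroup.normalizer_eq_top]
  have hsupp := supp_of_normal hM hP le_top hnn hB.mem hB.idem
  have hBZ : B ∈ Z (Ce P) := ⟨hsupp, hB.mem.2.mono le_top⟩
  have hBe : B * e = e := (he.prim B hBZ hB.idem).resolve_right h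
  have h1 : B * osN (Ce P) e = osN (Ce P) e := by
    rw [osN, Finset.mul_sum]
    refine Finset.sum_congr rfl fun f hf => ?_
    obtain ⟨g, rfl⟩ := (mem_orbN he).1 hf
    have h2 := congrArg (cnj g) hBe
    rw [map_mul, cnj_top hB] at h2
    exact h2
  rw [← h1, mul_osN hB he h]

variable {P : Subgroup G} [Fintype (Ce P)]

/-- exact version -/
theorem blockCoeff_eq (hM : IsPModular p M) (hPn : P.Normal) (hP : IsPGroup p P)
    {B : Set (IrrCharacter G)} (hB : IsPBlock M B) {e : Set (IrrCharacter (Ce P))} (he : IsPBlock M e)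
    (h : epG M B * ep M (Ce P) e ≠ 0) (g : G) :
    blockCoeff B g = subgroupBlockCoeff (Ce P) (clI (Ce_normal hPn) e) g := by
  classical
  haveI : Fintype (IrrCharacter (Ce P)) := Fintype.ofFinite _
  have h1 := eq_osN hM hPn hP (isBlk_epG hB) (isBlk_ep he) h
  have hF := emb_FI (Ce_normal hPn) he
  let f : G → ℂ := fun g => ((fO (Ce_normal hPn) (clI (Ce_normal hPn) e) (clI_stable (Ce_normal hPn) e) : ZC G) :
    MonoidAlgebra ℂ G).coeff g
  have key : (fun t : G => blockCoeff B t) = f := by
    apply eq_of_rd (M := M)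
    · exact blockCoeff_class B
    · intro x t
      exact (mem_center_iff _).1 (fO (Ce_normal hPn) (clI (Ce_normal hPn) e) (clI_stable (Ce_normal hPn) e)).2 x t
    · exact fun x => blockCoeff_mem hB x
    · exact fun x => (FI (Ce_normal hPn) he).2 x
    · intro g
      have h3 : ((eB B * eB B : ZC G) : MonoidAlgebra ℂ G).coeff g =
          ∑ x : G, blockCoeff B x * blockCoeff B (x⁻¹ * g) := by
        rw [Subalgebra.coe_mul, coeff_mul_left]
        simp only [eB_coeff]
      rw [← h3, eB_mul_self, eB_coeff]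
    · intro g
      have h3 := congrArg (fun w : ZC G => (w : MonoidAlgebra ℂ G).coeff g)
        (fO_idem (Ce_normal hPn) (clI_stable (Ce_normal hPn) e))
      have h4 : ((fO (Ce_normal hPn) (clI (Ce_normal hPn) e) (clI_stable (Ce_normal hPn) e) *
        fO (Ce_normal hPn) (clI (Ce_normal hPn) e) (clI_stable (Ce_normal hPn) e) : ZC G) :
        MonoidAlgebra ℂ G).coeff g = ∑ x : G, f x * f (x⁻¹ * g) := by
        rw [Subalgebra.coe_mul, coeff_mul_left]
      rw [← h4]
      exact h3
    · intro x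
      have h2 := congrArg (fun w => w.coeff x) (h1.trans hF.symm)
      exact h2.trans (emb_c Function.injective_id (FI (Ce_normal hPn) he) x)
  rw [show blockCoeff B g = f g from congrFun key g]
  by_cases hg : g ∈ Ce P
  · rw [sbc_mem _ hg]
    exact fO_coeff_mem (Ce_normal hPn) (clI_stable (Ce_normal hPn) e) ⟨g, hg⟩
  · rw [sbc_notMem _ hg]
    exact fO_coeff_notMem (Ce_normal hPn) (clI_stable (Ce_normal hPn) e) hg

theorem blockCoeff_supp (hM : IsPModular p M) (hPn : P.Normal) (hP : IsPGroup p P)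
    {B : Set (IrrCharacter G)} (hB : IsPBlock M B) {g : G} (hg : g ∉ Ce P) : blockCoeff B g = 0 := by
  haveI := Ce_normal hPn
  obtain ⟨b, hb, hne⟩ := exists_covered (Ce P) (isBlk_epG hB)
  obtain ⟨e, he, rfl⟩ := exists_ep hb
  rw [blockCoeff_eq hM hPn hP hB he hne, sbc_notMem _ hg]

end

section count

variable {M : Ideal AlgInt} {G : Type*} [Group G] [Fintype G] [hMax : M.IsMaximal] {N : Subgroup G} [Fintype N]

open Classical in
/-- idempotent of the union of conjugates as an average -/
theorem clI_avg (hN : N.Normal) {b : Set (IrrCharacter N)} (hb : IsPBlock M b) {T : Subgroup G}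
    (hT : ∀ x, x ∈ T ↔ cnj x (ep M N b) = ep M N b) (g : G) :
    subgroupBlockCoeff N (clI hN b) g = (Nat.card T : ℂ)⁻¹ * ∑ x : G, subgroupBlockCoeff N b (x⁻¹ * g * x) := by
  haveI := hN
  haveI : Fintype (IrrCharacter N) := Fintype.ofFinite _
  have hc : ∀ x : G, N = cs x N := fun x => (cs_normal x).symm
  have hTn : (Nat.card T : ℂ) ≠ 0 := by exact_mod_cast Nat.card_pos.ne'
  by_cases hg : g ∈ N
  · rw [eq_inv_mul_iff_mul_eq₀ hTn]
    have h1 : (Nat.card T : ℂ) • eB (clI hN b) = ∑ x : G, eB (tB (cI x (hc x)) b) := by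
      apply om_injective
      intro ψ
      rw [map_smul, map_sum, om_eB]
      have h2 : ∀ x : G, om ψ (eB (tB (cI x (hc x)) b)) = if ψ ∈ tB (cI x (hc x)) b then 1 else 0 := fun x => om_eB _ _
      rw [Finset.sum_congr rfl fun x _ => h2 x, Finset.sum_boole]
      by_cases hψ : ψ ∈ clI hN b
      · rw [if_pos hψ, smul_eq_mul, mul_one]
        have hblk : IsPBlock M (blockOf M (ψ : N → ℂ)) := isPBlock_blockOf ψ
        obtain ⟨x0, hx0⟩ := (ep_of_mem_clI hN hb hblk (mem_blockOf_self ψ)).1 hψ
        have h3 : ∀ x, ψ ∈ tB (cI x (hc x)) b ↔ x0⁻¹ * x ∈ T := by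
          intro x
          rw [hT]
          have h4 : ψ ∈ tB (cI x (hc x)) b ↔ cnj x (ep M N b) = ep M N (blockOf M (ψ : N → ℂ)) := by
            rw [← ep_conj x (hc x)]
            constructor
            · intro h
              rw [block_eq_of_mem (isPBlock_tB _ hb) hblk h (mem_blockOf_self ψ)]
            · intro h
              rw [ep_inj (isPBlock_tB _ hb) hblk h]
              exact mem_blockOf_self ψ
          rw [h4, ← hx0]
          constructor
          · intro h
            rw [cnj_mul_apply, h, cnj_inv_cnj]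
          · intro h
            have := congrArg (cnj x0) h
            rw [← cnj_mul_apply, mul_inv_cancel_left] at this
            exact this
        have h5 : (Finset.univ.filter fun x : G => ψ ∈ tB (cI x (hc x)) b) =
            (T : Set G).toFinset.image (fun t => x0 * t) := by
          ext x
          rw [Finset.mem_filter, h3, Finset.mem_image]
          constructor
          · rintro ⟨_, h⟩
            exact ⟨x0⁻¹ * x, by rw [Set.mem_toFinset]; exact h, mul_inv_cancel_left _ _⟩
          · rintro ⟨t, ht, rfl⟩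
            rw [Set.mem_toFinset] at ht
            exact ⟨Finset.mem_univ _, by rw [inv_mul_cancel_left]; exact ht⟩
        rw [h5, Finset.card_image_of_injective _ (mul_right_injective x0)]
        congr 1
        exact Nat.card_eq_card_toFinset (T : Set G)
      · rw [if_neg hψ, smul_zero, eq_comm, Nat.cast_eq_zero, Finset.card_eq_zero, Finset.filter_eq_empty_iff]
        intro x _ h
        apply hψ
        rw [ep_of_mem_clI hN hb (isPBlock_tB (cI x (hc x)) hb) h]
        exact ⟨x, (ep_conj x (hc x) b).symm⟩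
    have h6 := congrArg (fun w : ZC N => (w : MonoidAlgebra ℂ N).coeff ⟨g, hg⟩) h1
    have h7 : (((Nat.card T : ℂ) • eB (clI hN b) : ZC N) : MonoidAlgebra ℂ N).coeff ⟨g, hg⟩ =
        (Nat.card T : ℂ) * blockCoeff (clI hN b) ⟨g, hg⟩ := by
      rw [← eB_coeff]; rfl
    have h8 : ((∑ x : G, eB (tB (cI x (hc x)) b) : ZC N) : MonoidAlgebra ℂ N).coeff ⟨g, hg⟩ =
        ∑ x : G, blockCoeff (tB (cI x (hc x)) b) ⟨g, hg⟩ := by
      rw [AddSubmonoidClass.coe_finsetSum, MonoidAlgebra.coeff_sum, Finsupp.finsetSum_apply]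
      exact Finset.sum_congr rfl fun x _ => eB_coeff _ _
    rw [sbc_mem _ hg, ← h7]
    refine Eq.trans h6 (h8.trans (Finset.sum_congr rfl fun x _ => ?_))
    have hx' : x⁻¹ * g * x ∈ N := by
      have := hN.conj_mem g hg x⁻¹
      rwa [inv_inv] at this
    rw [sbc_mem _ hx', ← blockCoeff_tB (cI x (hc x)) b]
    congr 1
    apply Subtype.ext
    show g = x * (x⁻¹ * g * x) * x⁻¹
    group
  · rw [sbc_notMem _ hg, Finset.sum_eq_zero, mul_zero]
    intro x _
    rw [sbc_notMem]
    intro h
    apply hg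
    have := hN.conj_mem _ h x
    have e : x * (x⁻¹ * g * x) * x⁻¹ = g := by group
    rwa [e] at this

end count

end Cfsg.Agent.H25.BPNorm2
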