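import Mathlib
import Cfsg.Agent.H4_ZStar
import Cfsg.Agent.H17_CV

set_option autoImplicit false

namespace Cfsg.Agent.H25.CVL4

open Cfsg

universe u

variable {G : Type u} [Group G] [Finite G]

local notation "Z" => Subgroup.center G

theorem mk_one_iff {x : G} : ((x : G) : G ⧸ Z) = 1 ↔ x ∈ Z := QuotientGroup.eq_one_iff x

theorem base (heven : Even (Nat.card (G ⧸ Z))) : ∃ x : G, (∃ n : ℕ, orderOf x = 2 ^ n) ∧ x ∉ Z ∧ x ^ 2 ∈ Z := by
  haveI : Fact (Nat.Prime 2) := ⟨Nat.prime_two⟩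
  obtain ⟨q, hq⟩ := exists_prime_orderOf_dvd_card' (G := G ⧸ Z) 2 heven.two_dvd
  obtain ⟨g, rfl⟩ := QuotientGroup.mk_surjective q
  have h0 : orderOf g ≠ 0 := (orderOf_pos g).ne'
  obtain ⟨m, hm⟩ : ∃ m : ℕ, m = orderOf g / 2 ^ (orderOf g).factorization 2 := ⟨_, rfl⟩
  have hm2 : ¬ 2 ∣ m := by rw [hm]; exact Nat.not_dvd_ordCompl Nat.prime_two h0
  have hmul : 2 ^ (orderOf g).factorization 2 * m = orderOf g := by rw [hm]; exact Nat.ordProj_mul_ordCompl_eq_self _ _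
  have hsq : ((g : G) : G ⧸ Z) ^ 2 = 1 := by rw [← hq]; exact pow_orderOf_eq_one _
  have hpm : ((g ^ m : G) : G ⧸ Z) = (g : G ⧸ Z) := by
    obtain ⟨j, hj⟩ : ∃ j, m = 2 * j + 1 := by
      rcases Nat.even_or_odd' m with ⟨j, hj | hj⟩
      · exact absurd ⟨j, hj⟩ hm2
      · exact ⟨j, hj⟩
    rw [QuotientGroup.mk_pow, hj, pow_succ, pow_mul, hsq, one_pow, one_mul]
  refine ⟨g ^ m, ⟨(orderOf g).factorization 2, ?_⟩, ?_, ?_⟩
  · have hm0 : m ≠ 0 := by rintro rfl; exact hm2 (dvd_zero _)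
    rw [orderOf_pow_of_dvd hm0 ⟨_, by rw [mul_comm]; exact hmul.symm⟩]
    exact Nat.div_eq_of_eq_mul_left (Nat.pos_of_ne_zero hm0) hmul.symm
  · rw [← mk_one_iff, hpm]
    intro h
    rw [h, orderOf_one] at hq
    exact absurd hq (by norm_num)
  · rw [← mk_one_iff, QuotientGroup.mk_pow, hpm, hsq]

theorem two_pow_of {x : G} {k : ℕ} (h : x ^ (2 ^ k) = 1) : ∃ n : ℕ, orderOf x = 2 ^ n := by
  obtain ⟨j, -, hj⟩ := (Nat.dvd_prime_pow Nat.prime_two).1 (orderOf_dvd_of_pow_eq_one h)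
  exact ⟨j, hj⟩

theorem step (hz : IsSimpleGroup (G ⧸ Z)) (hnc : ∃ a b : G ⧸ Z, a * b ≠ b * a) {t : G} {n : ℕ} (ht : orderOf t = 2 ^ n)
    (htZ : t ∉ Z) (ht2 : t ^ 2 ∈ Z) :
    ∃ g : G, (∃ m : ℕ, orderOf (t * g * t⁻¹ * g⁻¹) = 2 ^ m) ∧ t * g * t⁻¹ * g⁻¹ ∉ Z ∧ (t * g * t⁻¹ * g⁻¹) ^ 2 ∈ Z := by
  haveI := hz
  have hT1 : (t : G ⧸ Z) ≠ 1 := fun h => htZ (mk_one_iff.1 h)
  have hT2 : (t : G ⧸ Z) ^ 2 = 1 := by rw [← QuotientGroup.mk_pow]; exact mk_one_iff.2 ht2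
  have hTo : orderOf (t : G ⧸ Z) = 2 := orderOf_eq_prime hT2 hT1
  have hTi : (t : G ⧸ Z)⁻¹ = (t : G ⧸ Z) := inv_eq_of_mul_eq_one_left (by rw [← pow_two]; exact hT2)
  have hno : ¬ IsIsolatedInvolution (t : G ⧸ Z) := by
    intro hI
    have h1 := fun g => Cfsg.Agent.H4.ZStar.zstar hI g
    have hn : (oddCore (G ⧸ Z)).Normal := inferInstance
    rcases hn.eq_bot_or_eq_top with h | h
    · have h2 : (t : G ⧸ Z) ∈ Subgroup.center (G ⧸ Z) := by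
        rw [Subgroup.mem_center_iff]
        intro g
        have h3 := h1 g
        rw [h, Subgroup.mem_bot] at h3
        have h4 : (t : G ⧸ Z) * g * (t : G ⧸ Z)⁻¹ = g := mul_inv_eq_one.1 h3
        exact (mul_inv_eq_iff_eq_mul.1 h4).symm
      rcases (inferInstance : (Subgroup.center (G ⧸ Z)).Normal).eq_bot_or_eq_top with h5 | h5
      · rw [h5, Subgroup.mem_bot] at h2; exact hT1 h2
      · obtain ⟨a, b, hab⟩ := hnc
        have h6 : b ∈ Subgroup.center (G ⧸ Z) := by rw [h5]; exact Subgroup.mem_top b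
        exact hab (Subgroup.mem_center_iff.1 h6 a)
    · have h2 : Odd (Nat.card (oddCore (G ⧸ Z))) := Nat.coprime_two_right.mp (Cfsg.Agent.H11.Cores.pPrimeCore_coprime 2)
      rw [h, Subgroup.card_top] at h2
      have h3 : 2 ∣ Nat.card (G ⧸ Z) := by rw [← hTo]; exact orderOf_dvd_natCard _
      exact (Nat.not_even_iff_odd.2 h2) (even_iff_two_dvd.2 h3)
  unfold IsIsolatedInvolution at hno
  push Not at hno
  obtain ⟨q, hq, hqne⟩ := hno hTo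
  obtain ⟨g, rfl⟩ := QuotientGroup.mk_surjective q
  -- s = g t⁻¹ g⁻¹
  have hx : t * g * t⁻¹ * g⁻¹ = t * (g * t⁻¹ * g⁻¹) := by group
  have hs : ((g * t⁻¹ * g⁻¹ : G) : G ⧸ Z) = (g : G ⧸ Z) * (t : G ⧸ Z) * (g : G ⧸ Z)⁻¹ := by
    rw [QuotientGroup.mk_mul, QuotientGroup.mk_mul, QuotientGroup.mk_inv, QuotientGroup.mk_inv, hTi]
  have hs2 : (g * t⁻¹ * g⁻¹) ^ 2 ∈ Z := by
    rw [← mk_one_iff, QuotientGroup.mk_pow, hs, conj_pow, hT2, mul_one, mul_inv_cancel]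
  have hxZ : t * g * t⁻¹ * g⁻¹ ∉ Z := by
    rw [← mk_one_iff, hx, QuotientGroup.mk_mul, hs]
    intro h
    apply hqne
    have h1 := eq_inv_of_mul_eq_one_right h
    rw [h1, hTi]
  have hx2' : (t * (g * t⁻¹ * g⁻¹)) ^ 2 ∈ Z := by
    rw [← mk_one_iff, QuotientGroup.mk_pow, QuotientGroup.mk_mul, hs, hq.mul_pow, hT2, conj_pow, hT2, mul_one, mul_inv_cancel,
      one_mul]
  refine ⟨g, ?_, hxZ, by rw [hx]; exact hx2'⟩
  rw [hx]
  obtain ⟨s, hsd⟩ : ∃ s : G, s = g * t⁻¹ * g⁻¹ := ⟨_, rfl⟩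
  rw [← hsd] at hs2 hx2' hs ⊢
  have hst : s ^ (2 ^ n) = 1 := by
    rw [hsd, conj_pow, inv_pow, ← ht, pow_orderOf_eq_one, inv_one, mul_one, mul_inv_cancel]
  have htt : t ^ (2 ^ n) = 1 := by rw [← ht]; exact pow_orderOf_eq_one t
  -- c = commutator, central
  obtain ⟨c, hc⟩ : ∃ c : G, c = s⁻¹ * t⁻¹ * s * t := ⟨_, rfl⟩
  have hcZ : c ∈ Z := by
    rw [← mk_one_iff, hc, QuotientGroup.mk_mul, QuotientGroup.mk_mul, QuotientGroup.mk_mul, QuotientGroup.mk_inv,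
      QuotientGroup.mk_inv]
    rw [← hs] at hq
    rw [mul_assoc, ← hq.eq, ← mul_assoc, mul_assoc ((s : G ⧸ Z)⁻¹), inv_mul_cancel, mul_one, inv_mul_cancel]
  have hstc : s * t = t * s * c := by rw [hc]; group
  have hcc := fun y : G => Subgroup.mem_center_iff.1 hcZ y
  have ht2c := fun y : G => Subgroup.mem_center_iff.1 ht2 y
  have hs2c := fun y : G => Subgroup.mem_center_iff.1 hs2 y
  -- c ^ 2 = 1
  have hc2 : c ^ 2 = 1 := by
    have h1 : s * t ^ 2 = t ^ 2 * s * c ^ 2 := by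
      rw [pow_two t, ← mul_assoc, hstc, mul_assoc (t * s), ← hcc t, ← mul_assoc, mul_assoc t s t, hstc]
      simp only [pow_two, mul_assoc]
    rw [ht2c s] at h1
    have h2 : t ^ 2 * s * 1 = t ^ 2 * s * c ^ 2 := by rw [mul_one]; exact h1
    exact (mul_left_cancel h2).symm
  have hsq : (t * s) ^ 2 = t ^ 2 * s ^ 2 * c := by
    calc (t * s) ^ 2 = t * (s * t) * s := by rw [pow_two]; simp only [mul_assoc]
      _ = t * (t * s * c) * s := by rw [hstc]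
      _ = t * (t * s) * (c * s) := by simp only [mul_assoc]
      _ = t * (t * s) * (s * c) := by rw [hcc s]
      _ = t ^ 2 * s ^ 2 * c := by simp only [pow_two, mul_assoc]
  refine two_pow_of (k := n + 2) ?_
  have e1 : 2 ^ (n + 2) = 2 * (2 * 2 ^ n) := by ring
  rw [e1, pow_mul, hsq]
  have hcm1 : Commute (t ^ 2 * s ^ 2) c := hcc _
  have hcm2 : Commute (t ^ 2) (s ^ 2) := (ht2c (s ^ 2)).symm
  rw [hcm1.mul_pow, hcm2.mul_pow, pow_mul c, hc2, one_pow, mul_one, ← pow_mul, ← pow_mul]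
  have e2 : 2 * (2 * 2 ^ n) = 2 ^ n * 4 := by ring
  rw [e2, pow_mul, pow_mul, htt, hst]
  simp

theorem L4' (hz : IsSimpleGroup (G ⧸ Z)) (hnc : ∃ a b : G ⧸ Z, a * b ≠ b * a) (heven : Even (Nat.card (G ⧸ Z))) (k : ℕ) :
    ∃ x ∈ Cfsg.Agent.H17.CV.V G k, (∃ n : ℕ, orderOf x = 2 ^ n) ∧ x ∉ Z ∧ x ^ 2 ∈ Z := by
  induction k with
  | zero =>
    obtain ⟨x, h⟩ := base heven
    exact ⟨x, Set.mem_univ _, h⟩
  | succ k ih =>
    obtain ⟨t, htV, ⟨n, hn⟩, htZ, ht2⟩ := ih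
    obtain ⟨g, h1, h2, h3⟩ := step hz hnc hn htZ ht2
    exact ⟨t * g * t⁻¹ * g⁻¹, ⟨t, htV, g, rfl⟩, h1, h2, h3⟩

theorem solv_of_comm (h : ∀ a b : G ⧸ Z, a * b = b * a) : Group.IsSolvable G := by
  haveI : Group.IsSolvable Z := Group.isSolvable_of_comm (fun a b => Subtype.ext (Subgroup.mem_center_iff.1 b.2 a))
  haveI : Group.IsSolvable (G ⧸ Z) := Group.isSolvable_of_comm h
  refine Group.isSolvable_of_ker_le_range (Subgroup.center G).subtype (QuotientGroup.mk' Z) ?_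
  rw [QuotientGroup.ker_mk', Subgroup.range_subtype]

/-- piece L4, with the evenness (odd order theorem) as a hypothesis -/
theorem L4e (hz : IsSimpleGroup (G ⧸ Z)) (hns : ¬ Group.IsSolvable G) (heven : Even (Nat.card (G ⧸ Z))) (k : ℕ) :
    ∃ x ∈ Cfsg.Agent.H17.CV.V G k, (∃ n : ℕ, orderOf x = 2 ^ n) ∧ x ∉ Z ∧ x ^ 2 ∈ Z := by
  refine L4' hz ?_ heven k
  by_contra hcon
  push Not at hcon
  exact hns (solv_of_comm hcon)

/-- evenness from the odd order theorem for `G` modulo its center -/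
theorem even_of (hns : ¬ Group.IsSolvable G) (hodd : Odd (Nat.card (G ⧸ Z)) → Group.IsSolvable (G ⧸ Z)) :
    Even (Nat.card (G ⧸ Z)) := by
  by_contra h
  haveI := hodd (Nat.not_even_iff_odd.1 h)
  haveI : Group.IsSolvable Z := Group.isSolvable_of_comm (fun a b => Subtype.ext (Subgroup.mem_center_iff.1 b.2 a))
  apply hns
  refine Group.isSolvable_of_ker_le_range (Subgroup.center G).subtype (QuotientGroup.mk' Z) ?_
  rw [QuotientGroup.ker_mk', Subgroup.range_subtype]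

/-- piece L4 from the odd order theorem -/
theorem L4 (hFT : ∀ {H : Type u} [Group H] [Finite H], Odd (Nat.card H) → Group.IsSolvable H)
    (hz : IsSimpleGroup (G ⧸ Z)) (hns : ¬ Group.IsSolvable G) (k : ℕ) :
    ∃ x ∈ Cfsg.Agent.H17.CV.V G k, (∃ n : ℕ, orderOf x = 2 ^ n) ∧ x ∉ Z ∧ x ^ 2 ∈ Z :=
  L4e hz hns (even_of hns (fun h => hFT h)) k

end Cfsg.Agent.H25.CVL4
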