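import Cfsg.Statements.S0940
import Cfsg.Agent.H10_BlockKul

set_option autoImplicit false
open Cfsg

namespace Cfsg.Agent.S0940

/-- Let G be a finite group and M a maximal ideal of the algebraic integers containing the prime p. For every p-regular g, the idempotent coefficient of the principal block at g (the inverse of the group order times the sum over χ in the principal block of χ 1 * conj (χ g)) is congruent modulo the local ideal at M to N / R, where N is the number of pairs (x, y) with x of p-power order, y of order prime to p and x * y = g, and R is the number of elements of G of order prime to p. -/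
theorem result {G : Type*} [Group G] [Finite G] (p : ℕ) [Fact p.Prime] (M : Ideal Cfsg.AlgInt) (hM : Cfsg.IsPModular p M) (g : G) (hg : ¬ p ∣ orderOf g) : Cfsg.MemLocalIdeal M (Cfsg.blockCoeff (Cfsg.principalBlock M G) g - (Nat.card {xy : G × G // (∃ k : ℕ, orderOf xy.1 = p ^ k) ∧ ¬ p ∣ orderOf xy.2 ∧ xy.1 * xy.2 = g} : ℂ) / (Nat.card {y : G // ¬ p ∣ orderOf y} : ℂ)) := by
  classical
  haveI := Fintype.ofFinite G
  haveI := hM.2.1
  haveI : Fintype (IrrCharacter G) := Fintype.ofFinite _
  obtain ⟨h1, h2⟩ := Cfsg.Agent.H10.BlockKul.kulshammer hM hg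
  have e1 : Nat.card {y : G // ¬ p ∣ orderOf y} = (Finset.univ.filter (fun y : G => ¬ p ∣ orderOf y)).card := by
    rw [Nat.card_eq_fintype_card, Fintype.card_subtype]
  have e2 : Nat.card {xy : G × G // (∃ k : ℕ, orderOf xy.1 = p ^ k) ∧ ¬ p ∣ orderOf xy.2 ∧ xy.1 * xy.2 = g} =
      (Finset.univ.filter (fun u : G => (∃ k : ℕ, orderOf u = p ^ k) ∧ ¬ p ∣ orderOf (u * g))).card := by
    rw [← Fintype.card_subtype, ← Nat.card_eq_fintype_card]
    apply Nat.card_congr
    refine ⟨fun xy => ⟨xy.1.1⁻¹, ?_, ?_⟩, fun u => ⟨(u.1⁻¹, u.1 * g), ?_, ?_, ?_⟩, ?_, ?_⟩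
    · rw [orderOf_inv]; exact xy.2.1
    · rw [inv_mul_eq_iff_eq_mul.2 xy.2.2.2.symm]; exact xy.2.2.1
    · show ∃ k : ℕ, orderOf (u.1⁻¹) = p ^ k
      rw [orderOf_inv]; exact u.2.1
    · exact u.2.2
    · show u.1⁻¹ * (u.1 * g) = g
      group
    · intro xy
      apply Subtype.ext
      apply Prod.ext
      · show (xy.1.1⁻¹)⁻¹ = xy.1.1
        exact inv_inv _
      · exact inv_mul_eq_iff_eq_mul.2 xy.2.2.2.symm
    · intro u
      apply Subtype.ext
      show (u.1⁻¹)⁻¹ = u.1
      exact inv_inv _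
  rw [e1, e2]
  have hν : (((Finset.univ.filter (fun y : G => ¬ p ∣ orderOf y)).card : ℕ) : ℂ) ≠ 0 := by
    intro h
    apply h2
    rw [Nat.cast_eq_zero.1 h]
    exact dvd_zero p
  have h3 := Cfsg.Agent.H10.BlockLoc.ideal_mul_left
    (Cfsg.Agent.H10.BlockLoc.ring_inv_natCast hM h2) h1
  rw [mul_sub, ← mul_assoc, inv_mul_cancel₀ hν, one_mul] at h3
  rw [div_eq_inv_mul]
  exact h3

end Cfsg.Agent.S0940
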