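import Mathlib
import Cfsg.Agent.H25_Princ
import Cfsg.Agent.H25_IndCong
import Cfsg.Agent.H25_CovRel
import Cfsg.Agent.H25_Sub2
import Cfsg.Agent.S0940
import Cfsg.Agent.H3_Clifford2
import Cfsg.Agent.H12_BG6

/-!
H25_Ccb: restriction to the normaliser of a Sylow subgroup in the principal block and p-length one.
-/

set_option autoImplicit false
set_option linter.unusedSectionVars false

open scoped ComplexConjugate

namespace Cfsg.Agent.H25.Ccb

open Cfsg Cfsg.Agent.H3 Cfsg.Agent.H3.CharBasic Cfsg.Agent.H3.CharIrr Cfsg.Agent.H3.CharComplete Cfsg.Agent.H3.CharInd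
  Cfsg.Agent.H3.CharMult
  Cfsg.Agent.H10.Char Cfsg.Agent.H10.BlockLoc Cfsg.Agent.H10.BlockAlg Cfsg.Agent.H10.BlockIdem
  Cfsg.Agent.H10.PPart Cfsg.Agent.H10.BlockKer Cfsg.Agent.H10.BlockOrth Cfsg.Agent.H10.BlockInd
  Cfsg.Agent.H25.Sub Cfsg.Agent.H25.Sub2 Cfsg.Agent.H25.IndCong

section A
variable {L : Type*} [Group L] [Fintype L] {p : ℕ} [hp : Fact p.Prime] {M : Ideal AlgInt} [Fintype (IrrCharacter L)]

open Classical in
/-- a combination of the conjugates of the members of a block -/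
noncomputable def W (B : Set (IrrCharacter L)) (c : IrrCharacter L → ℂ) (x : L) : ℂ :=
  ∑ θ : IrrCharacter L, if θ ∈ B then c θ * conj ((θ : L → ℂ) x) else 0

open Classical in
theorem swap (B : Set (IrrCharacter L)) (c : IrrCharacter L → ℂ) (Q : Subgroup L) [Fintype Q] (F : Q → ℂ) :
    ∑ x : Q, F x * W B c x = (Nat.card Q : ℂ) * ∑ θ : IrrCharacter L, if θ ∈ B then c θ * classInner F (fun q : Q => (θ : L → ℂ) q) else 0 := by
  have hc : (Nat.card Q : ℂ) ≠ 0 := Nat.cast_ne_zero.2 Nat.card_pos.ne'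
  unfold W
  simp_rw [Finset.mul_sum]
  rw [Finset.sum_comm]
  refine Finset.sum_congr rfl fun θ _ => ?_
  by_cases h : θ ∈ B
  · simp only [if_pos h]
    rw [classInner, mul_left_comm, mul_inv_cancel_left₀ hc, Finset.mul_sum]
    exact Finset.sum_congr rfl fun x _ => by ring
  · simp only [if_neg h, mul_zero, Finset.sum_const_zero]

theorem coll (B : Set (IrrCharacter L)) (c : IrrCharacter L → ℂ) (Q : Subgroup L) [Fintype Q] (F : Q → ℂ)
    (h : ∀ x ∈ Q, x ≠ 1 → W B c x = 0) : ∑ x : Q, F x * W B c x = F 1 * W B c 1 := by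
  rw [Finset.sum_eq_single 1]
  · rfl
  · intro x _ hx
    rw [h x x.2 (fun h' => hx (Subtype.ext h')), mul_zero]
  · intro h'; exact absurd (Finset.mem_univ _) h'

theorem W_one_zero (hM : IsPModular p M) {B : Set (IrrCharacter L)} (hB : IsPBlock M B) {x : L} (hx : p ∣ orderOf x) :
    W B (fun θ => (θ : L → ℂ) 1) x = 0 := by
  classical
  have h1 := blockCoeff_eq_zero hM hB x hx
  unfold blockCoeff at h1
  rw [finsum_mem_irr] at h1
  have hc : (Nat.card L : ℂ)⁻¹ ≠ 0 := inv_ne_zero (Nat.cast_ne_zero.2 Nat.card_pos.ne')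
  rcases mul_eq_zero.1 h1 with h | h
  · exact absurd h hc
  · unfold W
    refine Eq.trans (Finset.sum_congr rfl fun θ _ => ?_) h
    split_ifs <;> rfl

theorem W_reg_zero (hM : IsPModular p M) {B : Set (IrrCharacter L)} (hB : IsPBlock M B) {g x : L} (hg : ¬ p ∣ orderOf g)
    (hx : p ∣ orderOf x) : W B (fun θ => (θ : L → ℂ) g) x = 0 := by
  classical
  have h1 := KB_sing hM hB hg hx
  unfold KB at h1
  unfold W
  refine Eq.trans (Finset.sum_congr rfl fun θ _ => ?_) h1
  split_ifs <;> rfl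

theorem dvd_of {Q : Subgroup L} (hQ : IsPGroup p Q) {x : L} (hx : x ∈ Q) (h1 : x ≠ 1) : p ∣ orderOf x := by
  obtain ⟨k, hk⟩ := (IsPGroup.iff_orderOf.1 hQ) ⟨x, hx⟩
  rw [Subgroup.orderOf_mk] at hk
  rw [hk]
  refine dvd_pow_self p ?_
  rintro rfl
  rw [pow_zero, orderOf_eq_one_iff] at hk
  exact h1 hk

theorem inner_nat {Q : Subgroup L} [Fintype Q] (θ θ' : IrrCharacter L) :
    ∃ n : ℕ, classInner (fun q : Q => (θ : L → ℂ) q) (fun q : Q => (θ' : L → ℂ) q) = n :=
  ci_char_nat (IsChar.res (IsIrr.isCharacter θ.2) Q) (IsChar.res (IsIrr.isCharacter θ'.2) Q)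

open Classical in
/-- the p-regular elements are in the kernel of the principal block -/
theorem reg_ker (hM : IsPModular p M) (Q : Subgroup L) [Fintype Q] (hQ : IsPGroup p Q)
    (hD : ∀ θ ∈ principalBlock M L, classInner (fun q : Q => (θ : L → ℂ) q) (fun _ => 1) ≠ 0 → θ = triv L) :
    ∀ θ ∈ principalBlock M L, ∀ g : L, ¬ p ∣ orderOf g → (θ : L → ℂ) g = (θ : L → ℂ) 1 := by
  haveI := hM.2.1
  have hB : IsPBlock M (principalBlock M L) := principal_isPBlock
  have hT : triv L ∈ principalBlock M L := triv_mem (M := M)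
  have hQs : ∀ x ∈ Q, x ≠ 1 → p ∣ orderOf x := fun x hx h1 => dvd_of hQ hx h1
  have hcQ : (Nat.card Q : ℂ) ≠ 0 := Nat.cast_ne_zero.2 Nat.card_pos.ne'
  have hc1 : ∀ θ : IrrCharacter L, conj ((θ : L → ℂ) 1) = (θ : L → ℂ) 1 := by
    intro θ
    obtain ⟨k, -, hk⟩ := IsIrr.one_eq_nat θ.2
    rw [hk, Complex.conj_natCast]
  -- the dimension
  have E1 : W (principalBlock M L) (fun θ => (θ : L → ℂ) 1) 1 = (Nat.card Q : ℂ) := by
    have h1 := swap (principalBlock M L) (fun θ => (θ : L → ℂ) 1) Q (fun _ => 1)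
    rw [coll _ _ Q _ (fun x hx h => W_one_zero hM hB (hQs x hx h)), one_mul] at h1
    rw [h1, Finset.sum_eq_single (triv L)]
    · rw [if_pos hT]
      have h2 : classInner (fun _ : Q => (1 : ℂ)) (fun q : Q => ((triv L : IrrCharacter L) : L → ℂ) q) = 1 := by
        show classInner (fun _ : Q => (1 : ℂ)) (fun q : Q => (1 : ℂ)) = 1
        rw [classInner]
        simp only [map_one, mul_one, Finset.sum_const, Finset.card_univ, nsmul_eq_mul, mul_one]
        rw [← Nat.card_eq_fintype_card, inv_mul_cancel₀ hcQ]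
      rw [h2]
      show (Nat.card Q : ℂ) * ((1 : ℂ) * 1) = _
      ring
    · intro θ _ hne
      by_cases h : θ ∈ principalBlock M L
      · rw [if_pos h]
        have h2 : classInner (fun q : Q => (θ : L → ℂ) q) (fun _ => 1) = 0 := by
          by_contra h3
          exact hne (hD θ h h3)
        have h3 : classInner (fun _ : Q => (1 : ℂ)) (fun q : Q => (θ : L → ℂ) q) = 0 := by
          rw [← ci_conj_symm, h2, map_zero]
        rw [h3, mul_zero]
      · rw [if_neg h]
    · intro h; exact absurd (Finset.mem_univ _) h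
  -- orthonormality of the restrictions
  choose n hn using fun θ θ' : IrrCharacter L => inner_nat (Q := Q) θ θ'
  choose d hd0 hd using fun θ : IrrCharacter L => IsIrr.one_eq_nat θ.2
  have E2 : ∀ θ : IrrCharacter L, ∑ θ' : IrrCharacter L, (if θ' ∈ principalBlock M L then d θ' * n θ θ' else 0) = d θ := by
    intro θ
    have h1 := swap (principalBlock M L) (fun θ => (θ : L → ℂ) 1) Q (fun q : Q => (θ : L → ℂ) q)
    rw [coll _ _ Q _ (fun x hx h => W_one_zero hM hB (hQs x hx h)), E1, mul_comm] at h1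
    have h2 := mul_left_cancel₀ hcQ h1
    have h3 : (d θ : ℂ) = ∑ θ' : IrrCharacter L, (if θ' ∈ principalBlock M L then (d θ' : ℂ) * (n θ θ' : ℂ) else 0) := by
      rw [← hd θ]
      refine h2.trans (Finset.sum_congr rfl fun θ' _ => ?_)
      rw [hn, hd]
    have h4 : ((∑ θ' : IrrCharacter L, (if θ' ∈ principalBlock M L then d θ' * n θ θ' else 0) : ℕ) : ℂ) = (d θ : ℂ) := by
      rw [h3]
      push_cast
      rfl
    exact_mod_cast h4
  have hpos : ∀ θ : IrrCharacter L, 0 < n θ θ := by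
    intro θ
    rcases Nat.eq_zero_or_pos (n θ θ) with h | h
    · exfalso
      have h1 := hn θ θ
      rw [h, Nat.cast_zero, classInner] at h1
      have h2 := (mul_eq_zero.1 h1).resolve_left (inv_ne_zero hcQ)
      have h3 : ∀ q : Q, (θ : L → ℂ) q * conj ((θ : L → ℂ) q) = ((Complex.normSq ((θ : L → ℂ) q) : ℝ) : ℂ) := fun q => Complex.mul_conj _
      rw [Finset.sum_congr rfl fun q _ => h3 q, ← Complex.ofReal_sum, Complex.ofReal_eq_zero] at h2
      have h4 := (Finset.sum_eq_zero_iff_of_nonneg (fun q _ => Complex.normSq_nonneg _)).1 h2 1 (Finset.mem_univ _)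
      exact IsIrr.one_ne_zero θ.2 (Complex.normSq_eq_zero.1 h4)
    · exact h
  have E3 : ∀ θ ∈ principalBlock M L, ∀ θ' ∈ principalBlock M L, n θ θ' = if θ' = θ then 1 else 0 := by
    intro θ hθ θ' hθ'
    have h1 := E2 θ
    rw [← Finset.add_sum_erase _ _ (Finset.mem_univ θ), if_pos hθ] at h1
    have h2 : d θ ≤ d θ * n θ θ := Nat.le_mul_of_pos_right _ (hpos θ)
    have h3 : ∑ x ∈ Finset.univ.erase θ, (if x ∈ principalBlock M L then d x * n θ x else 0) = 0 := by omega
    have h4 : d θ * n θ θ = d θ * 1 := by omega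
    split_ifs with h
    · rw [h]
      exact Nat.eq_of_mul_eq_mul_left (hd0 θ) h4
    · have h5 := (Finset.sum_eq_zero_iff.1 h3) θ' (Finset.mem_erase.2 ⟨h, Finset.mem_univ _⟩)
      rw [if_pos hθ'] at h5
      exact (Nat.mul_eq_zero.1 h5).resolve_left (hd0 θ').ne'
  intro θ hθ g hg
  have E4 : ∀ θ ∈ principalBlock M L, (θ : L → ℂ) 1 * W (principalBlock M L) (fun θ => (θ : L → ℂ) g) 1 =
      (Nat.card Q : ℂ) * (θ : L → ℂ) g := by
    intro θ hθ
    have h1 := swap (principalBlock M L) (fun θ => (θ : L → ℂ) g) Q (fun q : Q => (θ : L → ℂ) q)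
    rw [coll _ _ Q _ (fun x hx h => W_reg_zero hM hB hg (hQs x hx h))] at h1
    refine h1.trans ?_
    congr 1
    rw [Finset.sum_eq_single θ]
    · rw [if_pos hθ, hn, E3 θ hθ θ hθ, if_pos rfl, Nat.cast_one, mul_one]
    · intro θ' _ hne
      by_cases h : θ' ∈ principalBlock M L
      · rw [if_pos h, hn, E3 θ hθ θ' h, if_neg hne, Nat.cast_zero, mul_zero]
      · rw [if_neg h]
    · intro h; exact absurd (Finset.mem_univ _) h
  have h5 := E4 (triv L) hT
  have h6 : W (principalBlock M L) (fun θ => (θ : L → ℂ) g) 1 = (Nat.card Q : ℂ) := by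
    have h7 : (((triv L : IrrCharacter L) : L → ℂ) 1) = 1 := rfl
    have h8 : (((triv L : IrrCharacter L) : L → ℂ) g) = 1 := rfl
    rw [h7, h8, one_mul, mul_one] at h5
    exact h5
  have h9 := E4 θ hθ
  rw [h6, mul_comm] at h9
  exact (mul_left_cancel₀ hcQ h9).symm

end A

section B
variable {G : Type*} [Group G] [Fintype G] {p : ℕ} [hp : Fact p.Prime] {M : Ideal AlgInt} [Fintype (IrrCharacter G)]

open Classical in
/-- the sum of squares of the degrees of the members of the principal block with `P` in the kernel -/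
noncomputable def ss (M : Ideal AlgInt) (P : Subgroup G) : ℂ :=
  ∑ χ : IrrCharacter G, if χ ∈ principalBlock M G ∧ (∀ x ∈ P, (χ : G → ℂ) x = (χ : G → ℂ) 1) then (χ : G → ℂ) 1 * (χ : G → ℂ) 1 else 0

theorem inner_ker {H : Subgroup G} [Fintype H] {χ : IrrCharacter G} (h : ∀ x ∈ H, (χ : G → ℂ) x = (χ : G → ℂ) 1) :
    classInner (fun _ : H => (1 : ℂ)) (fun x : H => (χ : G → ℂ) x) = (χ : G → ℂ) 1 := by
  obtain ⟨k, -, hk⟩ := IsIrr.one_eq_nat χ.2
  have hc : (Nat.card H : ℂ) ≠ 0 := Nat.cast_ne_zero.2 Nat.card_pos.ne'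
  rw [classInner]
  have h1 : ∀ x : H, (1 : ℂ) * conj ((χ : G → ℂ) x) = (χ : G → ℂ) 1 := by
    intro x
    rw [one_mul, h x x.2, hk, Complex.conj_natCast]
  rw [Finset.sum_congr rfl fun x _ => h1 x, Finset.sum_const, Finset.card_univ, ← Nat.card_eq_fintype_card, nsmul_eq_mul,
    inv_mul_cancel_left₀ hc]

theorem inner_zero {H : Subgroup G} [Fintype H] {χ : IrrCharacter G}
    (h : classInner (fun x : H => (χ : G → ℂ) x) (fun _ => 1) = 0) :
    classInner (fun _ : H => (1 : ℂ)) (fun x : H => (χ : G → ℂ) x) = 0 := by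
  rw [← ci_conj_symm, h, map_zero]

open Classical in
theorem dimB (hM : IsPModular p M) (P : Subgroup G) [Fintype P] (hP : IsPGroup p P)
    (hK : ∀ χ ∈ principalBlock M G, classInner (fun x : P => (χ : G → ℂ) x) (fun _ => 1) ≠ 0 →
      ∀ x ∈ P, (χ : G → ℂ) x = (χ : G → ℂ) 1) :
    W (principalBlock M G) (fun χ => (χ : G → ℂ) 1) 1 = (Nat.card P : ℂ) * ss M P := by
  haveI := hM.2.1
  have hB : IsPBlock M (principalBlock M G) := principal_isPBlock
  have h1 := swap (principalBlock M G) (fun θ => (θ : G → ℂ) 1) P (fun _ => 1)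
  rw [coll _ _ P _ (fun x hx h => W_one_zero hM hB (dvd_of hP hx h)), one_mul] at h1
  rw [h1]
  congr 1
  unfold ss
  refine Finset.sum_congr rfl fun χ _ => ?_
  by_cases h : χ ∈ principalBlock M G
  · rw [if_pos h]
    by_cases h2 : ∀ x ∈ P, (χ : G → ℂ) x = (χ : G → ℂ) 1
    · rw [if_pos ⟨h, h2⟩, inner_ker h2]
    · rw [if_neg (fun h' => h2 h'.2), inner_zero (by by_contra h3; exact h2 (hK χ h h3)), mul_zero]
  · rw [if_neg h, if_neg (fun h' => h h'.1)]

open Classical in
theorem ss_nat (P : Subgroup G) : ∃ s : ℕ, ss M P = s := by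
  choose d hd0 hd using fun θ : IrrCharacter G => IsIrr.one_eq_nat θ.2
  refine ⟨∑ χ : IrrCharacter G, if χ ∈ principalBlock M G ∧ (∀ x ∈ P, (χ : G → ℂ) x = (χ : G → ℂ) 1) then d χ * d χ else 0, ?_⟩
  unfold ss
  push_cast
  refine Finset.sum_congr rfl fun χ _ => ?_
  split_ifs
  · rw [hd]
  · rfl

theorem one_count (p : ℕ) [hp : Fact p.Prime] : Nat.card {xy : G × G // (∃ k : ℕ, orderOf xy.1 = p ^ k) ∧ ¬ p ∣ orderOf xy.2 ∧ xy.1 * xy.2 = 1} = 1 := by
  rw [Nat.card_eq_one_iff_unique]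
  have key : ∀ xy : G × G, (∃ k : ℕ, orderOf xy.1 = p ^ k) ∧ ¬ p ∣ orderOf xy.2 ∧ xy.1 * xy.2 = 1 → xy = (1, 1) := by
    rintro ⟨x, y⟩ ⟨⟨k, hk⟩, hy, hxy⟩
    have h1 : x = y⁻¹ := eq_inv_of_mul_eq_one_left hxy
    have h2 : orderOf y = p ^ k := by rw [← hk]; show _ = orderOf x; rw [h1, orderOf_inv]
    have h3 : k = 0 := by
      by_contra h
      exact hy (by show p ∣ orderOf y; rw [h2]; exact dvd_pow_self p h)
    rw [h3, pow_zero, orderOf_eq_one_iff] at h2
    rw [h1, h2, inv_one]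
  refine ⟨⟨fun a b => Subtype.ext ((key a.1 a.2).trans (key b.1 b.2).symm)⟩, ⟨⟨(1, 1), ⟨0, by simp⟩, ?_, by simp⟩⟩⟩
  show ¬ p ∣ orderOf (1 : G)
  rw [orderOf_one]
  exact fun h => hp.out.one_lt.ne' (Nat.dvd_one.1 h)

theorem ss_unit (hM : IsPModular p M) (P : Sylow p G) [Fintype (P : Subgroup G)]
    (hK : ∀ χ ∈ principalBlock M G, classInner (fun x : (P : Subgroup G) => (χ : G → ℂ) x) (fun _ => 1) ≠ 0 →
      ∀ x ∈ (P : Subgroup G), (χ : G → ℂ) x = (χ : G → ℂ) 1) : ¬ MemLocalIdeal M (ss M (P : Subgroup G)) := by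
  classical
  haveI := hM.2.1
  intro hs
  have h1 := dimB hM (P : Subgroup G) P.isPGroup' hK
  have h2 := Cfsg.Agent.S0940.result p M hM (1 : G) (by rw [orderOf_one]; exact fun h => hp.out.one_lt.ne' (Nat.dvd_one.1 h))
  rw [one_count p] at h2
  have h3 : blockCoeff (principalBlock M G) 1 = (Nat.card G : ℂ)⁻¹ * W (principalBlock M G) (fun χ => (χ : G → ℂ) 1) 1 := by
    unfold blockCoeff W
    rw [finsum_mem_irr]
  have hi : (P : Subgroup G).index ≠ 0 := Subgroup.FiniteIndex.index_ne_zero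
  have hcP : (Nat.card (P : Subgroup G) : ℂ) ≠ 0 := Nat.cast_ne_zero.2 Nat.card_pos.ne'
  have h4 : blockCoeff (principalBlock M G) 1 = ss M (P : Subgroup G) / ((P : Subgroup G).index : ℂ) := by
    rw [h3, h1, ← Subgroup.card_mul_index (P : Subgroup G), Nat.cast_mul, mul_inv]
    have : ((P : Subgroup G).index : ℂ) ≠ 0 := Nat.cast_ne_zero.2 hi
    field_simp
  have h5 : MemLocalRing M (((P : Subgroup G).index : ℂ)⁻¹) := by
    have h51 := (ring_nat_div_iff hM (m := 1) one_ne_zero hi).2 (by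
      rw [Nat.factorization_eq_zero_of_not_dvd P.not_dvd_index]; exact Nat.zero_le _)
    rwa [Nat.cast_one, one_div] at h51
  have h6 : MemLocalIdeal M (blockCoeff (principalBlock M G) 1) := by
    rw [h4, div_eq_mul_inv]
    exact ideal_mul_right hs h5
  have h7 := ideal_sub h6 h2
  rw [sub_sub_cancel] at h7
  have hR : (Nat.card {y : G // ¬ p ∣ orderOf y} : ℂ) ≠ 0 := by
    have : Nonempty {y : G // ¬ p ∣ orderOf y} := ⟨⟨1, by rw [orderOf_one]; exact fun h => hp.out.one_lt.ne' (Nat.dvd_one.1 h)⟩⟩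
    exact Nat.cast_ne_zero.2 Nat.card_pos.ne'
  have h8 := ideal_mul_right h7 (ring_natCast (M := M) (Nat.card {y : G // ¬ p ∣ orderOf y}))
  rw [Nat.cast_one, one_div, inv_mul_cancel₀ hR] at h8
  exact one_notMem_ideal h8

open Classical in
/-- characters of the principal block above a member of the principal block of `L` -/
theorem exists_above (hM : IsPModular p M) (P : Subgroup G) {L : Subgroup G} [hL : L.Normal] [Fintype L]
    (hPL : ∀ χ : IrrCharacter G, (∀ x ∈ P, (χ : G → ℂ) x = (χ : G → ℂ) 1) ↔ ∀ x ∈ L, (χ : G → ℂ) x = (χ : G → ℂ) 1)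
    (hs : ¬ MemLocalIdeal M (ss M P)) {θ : IrrCharacter L} (hθ : θ ∈ principalBlock M L) :
    ∃ χ ∈ principalBlock M G, classInner (fun l : L => (χ : G → ℂ) l) (θ : L → ℂ) ≠ 0 := by
  haveI := hM.2.1
  have hB : IsPBlock M (principalBlock M G) := principal_isPBlock
  have h1 := part_ind L (principalBlock M G) (triv L)
  rw [lin_decomp] at h1
  have h2 : (∑ χ : IrrCharacter G, if χ ∈ principalBlock M G then
      classInner (indFun L ((triv L : IrrCharacter L) : L → ℂ)) (χ : G → ℂ) * (χ : G → ℂ) 1 else 0) = ss M P := by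
    unfold ss
    refine Finset.sum_congr rfl fun χ _ => ?_
    by_cases h : χ ∈ principalBlock M G
    · rw [if_pos h, frobenius L _ _ (IsIrr.isClass χ.2)]
      have h3 : classInner ((triv L : IrrCharacter L) : L → ℂ) (fun h : L => (χ : G → ℂ) h) =
        classInner (fun _ : L => (1 : ℂ)) (fun h : L => (χ : G → ℂ) h) := rfl
      rw [h3]
      by_cases h2 : ∀ x ∈ P, (χ : G → ℂ) x = (χ : G → ℂ) 1
      · rw [if_pos ⟨h, h2⟩, inner_ker ((hPL χ).1 h2)]
      · rw [if_neg (fun h' => h2 h'.2), inner_zero, zero_mul]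
        by_contra h4
        apply h2
        rw [hPL]
        have h5 := (Cfsg.Agent.H3.Clifford.inKer_iff_inner hL χ.2).2 h4
        intro x hx
        have h6 := h5 x hx 1
        rwa [mul_one] at h6
    · rw [if_neg h, if_neg (fun h' => h h'.1)]
  rw [h2] at h1
  have hz : truncZ L (eB (principalBlock M G)) ∈ ZI L M := truncZ_mem L (eB_mem_ZI hB)
  have h3 : ¬ MemLocalIdeal M (om (triv L) (truncZ L (eB (principalBlock M G)))) := by
    intro h
    apply hs
    rw [h1, indFun_one]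
    have e : (L.index : ℂ) * ((triv L : IrrCharacter L) : L → ℂ) 1 = (L.index : ℂ) := mul_one _
    rw [e]
    exact ideal_mul_left (ring_natCast _) h
  have h4 : ¬ MemLocalIdeal M (om θ (truncZ L (eB (principalBlock M G)))) := by
    intro h
    apply h3
    have h5 := om_sub_mem_of_sameBlock (χ := triv L) (ψ := θ) hθ hz
    have h6 := ideal_add h5 h
    rwa [sub_add_cancel] at h6
  have h5 := part_ind L (principalBlock M G) θ
  have h6 : blockPart (principalBlock M G) (indFun L (θ : L → ℂ)) 1 ≠ 0 := by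
    rw [h5, indFun_one]
    refine mul_ne_zero (mul_ne_zero (Nat.cast_ne_zero.2 Subgroup.FiniteIndex.index_ne_zero) (IsIrr.one_ne_zero θ.2)) ?_
    intro h; exact h4 (h ▸ ideal_zero)
  rw [lin_decomp] at h6
  obtain ⟨χ, -, hχ⟩ := Finset.exists_ne_zero_of_sum_ne_zero h6
  by_cases h : χ ∈ principalBlock M G
  · refine ⟨χ, h, ?_⟩
    rw [if_pos h] at hχ
    exact (constituent_ind_iff (IsIrr.isCharacter χ.2)).1 (left_ne_zero_of_mul hχ)
  · rw [if_neg h] at hχ; exact absurd rfl hχ

/-- a constituent of a constituent -/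
theorem trans_ne {L Q : Subgroup G} [Fintype L] [Fintype Q] (hQL : Q ≤ L) {χ : IrrCharacter G} {θ : IrrCharacter L}
    (h1 : classInner (fun l : L => (χ : G → ℂ) l) (θ : L → ℂ) ≠ 0)
    (h2 : classInner (fun x : Q => (θ : L → ℂ) ⟨x, hQL x.2⟩) (fun _ => 1) ≠ 0) :
    classInner (fun x : Q => (χ : G → ℂ) x) (fun _ => 1) ≠ 0 := by
  classical
  haveI : Fintype (IrrCharacter L) := Fintype.ofFinite _
  choose n hn using fun θ' : IrrCharacter L =>
    ci_char_nat (IsChar.comp (IsIrr.isCharacter θ'.2) (Subgroup.inclusion hQL)) (IsIrr.isCharacter (triv Q).2)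
  choose m hm using fun θ' : IrrCharacter L => ci_char_nat (IsChar.res (IsIrr.isCharacter χ.2) L) (IsIrr.isCharacter θ'.2)
  have hcl : IsClassFunction L (fun l : L => (χ : G → ℂ) l) := by
    intro x y
    exact IsIrr.isClass χ.2 _ _
  have h3 : classInner (fun x : Q => (χ : G → ℂ) x) (fun _ => 1) = ∑ θ' : IrrCharacter L, (m θ' : ℂ) * (n θ' : ℂ) := by
    have e1 : ∀ x : Q, (χ : G → ℂ) x * conj (1 : ℂ) = ∑ θ' : IrrCharacter L, (m θ' : ℂ) * ((θ' : L → ℂ) ⟨x, hQL x.2⟩ * conj (1 : ℂ)) := by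
      intro x
      have e2 : (χ : G → ℂ) x = ∑ θ' : IrrCharacter L, classInner (fun l : L => (χ : G → ℂ) l) (θ' : L → ℂ) *
        (θ' : L → ℂ) ⟨x, hQL x.2⟩ := expand_apply _ hcl ⟨x, hQL x.2⟩
      rw [e2, Finset.sum_mul]
      refine Finset.sum_congr rfl fun θ' _ => ?_
      rw [hm]; ring
    rw [classInner, Finset.sum_congr rfl fun x _ => e1 x, Finset.sum_comm, Finset.mul_sum]
    refine Finset.sum_congr rfl fun θ' _ => ?_
    rw [← Finset.mul_sum, mul_left_comm]
    congr 1
    exact hn θ'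
  rw [h3]
  have h4 : (∑ θ' : IrrCharacter L, m θ' * n θ' : ℕ) ≠ 0 := by
    intro h
    have h5 := Finset.sum_eq_zero_iff.1 h θ (Finset.mem_univ _)
    rcases Nat.mul_eq_zero.1 h5 with h6 | h6
    · apply h1
      have := hm θ
      rw [h6, Nat.cast_zero] at this
      exact this
    · apply h2
      have := hn θ
      rw [h6, Nat.cast_zero] at this
      exact this
  exact_mod_cast h4

/-- kernel of the restriction to the normaliser -/
theorem ker_of_norm (P : Subgroup G) [Fintype P] [Fintype (Subgroup.normalizer (P : Set G))] {χ : IrrCharacter G}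
    (hirr : IsIrrCharacter (Subgroup.normalizer (P : Set G)) (fun n : Subgroup.normalizer (P : Set G) => (χ : G → ℂ) n))
    (h : classInner (fun x : P => (χ : G → ℂ) x) (fun _ => 1) ≠ 0) : ∀ x ∈ P, (χ : G → ℂ) x = (χ : G → ℂ) 1 := by
  classical
  have hPN : P ≤ Subgroup.normalizer (P : Set G) := Subgroup.le_normalizer
  haveI hn : (P.subgroupOf (Subgroup.normalizer (P : Set G))).Normal :=
    (Subgroup.normal_subgroupOf_iff_le_normalizer hPN).2 le_rfl
  haveI : Fintype (P.subgroupOf (Subgroup.normalizer (P : Set G))) := Fintype.ofFinite _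
  have h1 := Cfsg.Agent.H25.CovRel.classInner_iso (Subgroup.subgroupOfEquivOfLe hPN) (fun x : P => (χ : G → ℂ) x) (fun _ => 1)
  have h2 := (Cfsg.Agent.H3.Clifford.inKer_iff_inner hn hirr).2 (fun h3 => h (h1.symm.trans h3))
  intro x hx
  have h3 := h2 ⟨x, hPN hx⟩ (Subgroup.mem_subgroupOf.2 hx) 1
  rw [mul_one] at h3
  exact h3

open Classical in
/-- the direction from restrictions to p-length one -/
theorem dir_back (hM : IsPModular p M) (P : Sylow p G)
    (hirr : ∀ χ ∈ principalBlock M G, IsIrrCharacter (Subgroup.normalizer ((P : Subgroup G) : Set G))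
      (fun n : Subgroup.normalizer ((P : Subgroup G) : Set G) => (χ : G → ℂ) n)) :
    ∃ L : Subgroup G, L.Normal ∧ (P : Subgroup G) ≤ L ∧ ∀ (g : G) (hg : g ∈ L), ¬ p ∣ orderOf g →
      ∀ θ ∈ principalBlock M L, ((θ : IrrCharacter L) : L → ℂ) ⟨g, hg⟩ = (θ : L → ℂ) 1 := by
  haveI := hM.2.1
  haveI : Fintype (P : Subgroup G) := Fintype.ofFinite _
  haveI : Fintype (Subgroup.normalizer ((P : Subgroup G) : Set G)) := Fintype.ofFinite _
  have hK : ∀ χ ∈ principalBlock M G, classInner (fun x : (P : Subgroup G) => (χ : G → ℂ) x) (fun _ => 1) ≠ 0 →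
      ∀ x ∈ (P : Subgroup G), (χ : G → ℂ) x = (χ : G → ℂ) 1 := fun χ hχ h => ker_of_norm (P : Subgroup G) (hirr χ hχ) h
  have hs := ss_unit hM P hK
  refine ⟨Subgroup.normalClosure ((P : Subgroup G) : Set G), inferInstance, Subgroup.subset_normalClosure, ?_⟩
  set L := Subgroup.normalClosure ((P : Subgroup G) : Set G) with hLdef
  have hPL : (P : Subgroup G) ≤ L := Subgroup.subset_normalClosure
  have hker : ∀ χ : IrrCharacter G, (∀ x ∈ (P : Subgroup G), (χ : G → ℂ) x = (χ : G → ℂ) 1) ↔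
      ∀ x ∈ L, (χ : G → ℂ) x = (χ : G → ℂ) 1 := by
    intro χ
    constructor
    · intro h
      haveI := kerB_normal ({χ} : Set (IrrCharacter G))
      have h1 : L ≤ kerB ({χ} : Set (IrrCharacter G)) := by
        refine Subgroup.normalClosure_le_normal ?_
        intro x hx χ' hχ'
        rw [Set.mem_singleton_iff] at hχ'
        rw [hχ']
        exact h x hx
      intro x hx
      exact h1 hx χ (Set.mem_singleton χ)
    · intro h x hx; exact h x (hPL hx)
  haveI : Fintype L := Fintype.ofFinite _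
  haveI : Fintype (IrrCharacter L) := Fintype.ofFinite _
  intro g hgL hg
  haveI : Fintype ((P : Subgroup G).subgroupOf L) := Fintype.ofFinite _
  have hD : ∀ θ ∈ principalBlock M L, classInner (fun q : (P : Subgroup G).subgroupOf L => (θ : L → ℂ) q) (fun _ => 1) ≠ 0 →
      θ = triv L := by
    intro θ hθ h1
    obtain ⟨χ, hχ, h2⟩ := exists_above hM (P : Subgroup G) hker hs hθ
    have h3 := Cfsg.Agent.H25.CovRel.classInner_iso (Subgroup.subgroupOfEquivOfLe hPL)
      (fun x : (P : Subgroup G) => (θ : L → ℂ) ⟨x, hPL x.2⟩) (fun _ => 1)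
    have h4 : classInner (fun x : (P : Subgroup G) => (θ : L → ℂ) ⟨x, hPL x.2⟩) (fun _ => 1) ≠ 0 := by
      intro h5
      exact h1 (h3.trans h5)
    have h5 := hK χ hχ (trans_ne hPL h2 h4)
    have h6 := (hker χ).1 h5
    by_contra hne
    apply h2
    have h7 : (fun l : L => (χ : G → ℂ) l) = fun l : L => (χ : G → ℂ) 1 * ((triv L : IrrCharacter L) : L → ℂ) l := by
      funext l
      show (χ : G → ℂ) l = (χ : G → ℂ) 1 * 1
      rw [mul_one]; exact h6 l l.2
    rw [h7]
    have h8 : classInner ((triv L : IrrCharacter L) : L → ℂ) (θ : L → ℂ) = 0 :=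
      ci_irr_ne (triv L).2 θ.2 (fun h => hne (Subtype.ext h.symm))
    rw [classInner] at h8 ⊢
    simp_rw [mul_assoc]
    rw [← Finset.mul_sum, mul_left_comm, h8, mul_zero]
  intro θ hθ
  exact reg_ker hM ((P : Subgroup G).subgroupOf L) P.isPGroup'.comap_subtype hD θ hθ ⟨g, hgL⟩ (by rwa [Subgroup.orderOf_mk])

end B

section C
variable {G : Type*} [Group G] [Fintype G] {p : ℕ} [hp : Fact p.Prime] {M : Ideal AlgInt}

theorem plen_of (hM : IsPModular p M) (P : Sylow p G)
    (hirr : ∀ χ ∈ principalBlock M G, IsIrrCharacter (Subgroup.normalizer ((P : Subgroup G) : Set G))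
      (fun n : Subgroup.normalizer ((P : Subgroup G) : Set G) => (χ : G → ℂ) n)) : PLengthLE p 1 G := by
  classical
  haveI := hM.2.1
  haveI : Fintype (IrrCharacter G) := Fintype.ofFinite _
  obtain ⟨L, hL, hPL, hreg⟩ := dir_back hM P hirr
  haveI : Fintype L := Fintype.ofFinite _
  have hBL : IsPBlock M (principalBlock M L) := principal_isPBlock
  have hreg' : ∀ x : L, ¬ p ∣ orderOf x → x ∈ kerB (principalBlock M L) := by
    intro x hx θ hθ
    exact hreg x x.2 (by rwa [Subgroup.orderOf_coe]) θ hθ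
  have hco := kerB_coprime hM hBL
  have hord : ∀ x ∈ kerB (principalBlock M L), ¬ p ∣ orderOf x := by
    intro x hx hd
    have h1 : orderOf (⟨x, hx⟩ : kerB (principalBlock M L)) ∣ Nat.card (kerB (principalBlock M L)) := orderOf_dvd_natCard _
    rw [Subgroup.orderOf_mk] at h1
    exact hco (hd.trans h1)
  have hKn := kerB_normal (principalBlock M L)
  have hpg : IsPGroup p (L ⧸ kerB (principalBlock M L)) := by
    intro q
    obtain ⟨g, rfl⟩ := QuotientGroup.mk'_surjective _ q
    refine ⟨(orderOf g).factorization p, ?_⟩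
    rw [← map_pow, QuotientGroup.mk'_apply, QuotientGroup.eq_one_iff]
    apply hreg'
    rw [orderOf_pow_of_dvd (pow_ne_zero _ hp.out.ne_zero) (Nat.ordProj_dvd _ _)]
    exact Nat.not_dvd_ordCompl hp.out (orderOf_pos g).ne'
  have hidx : ∃ m, (kerB (principalBlock M L)).index = p ^ m := by
    rw [Subgroup.index_eq_card]
    exact IsPGroup.iff_card.1 hpg
  set K : Subgroup G := (kerB (principalBlock M L)).map L.subtype with hK
  have hKL : K ≤ L := Subgroup.map_subtype_le _
  have hKN : K.Normal := by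
    constructor
    rintro _ ⟨k, hk, rfl⟩ g
    have h1 : g * (L.subtype k) * g⁻¹ ∈ L := hL.conj_mem _ k.2 g
    refine ⟨⟨g * (L.subtype k) * g⁻¹, h1⟩, hreg' _ ?_, rfl⟩
    rw [Subgroup.orderOf_mk, Cfsg.Agent.H10.PPart.orderOf_conj]
    have h2 := hord k hk
    rwa [← Subgroup.orderOf_coe] at h2
  rw [H22.PSolv.plengthLE_iff]
  let F : ℕ → Subgroup G := fun n => match n with
    | 0 => ⊥
    | 1 => K
    | 2 => L
    | _ + 3 => ⊤
  refine ⟨F, rfl, rfl, ?_, ?_, ?_, ?_⟩
  · intro i
    match i with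
    | 0 => exact Subgroup.normal_bot
    | 1 => exact hKN
    | 2 => exact hL
    | n + 3 => exact Subgroup.normal_top
  · intro i
    match i with
    | 0 => exact bot_le
    | 1 => exact hKL
    | 2 => exact le_top
    | n + 3 => exact le_rfl
  · intro i hi
    match i with
    | 0 =>
      show ((⊥ : Subgroup G).relIndex K).Coprime p
      rw [Subgroup.relIndex_bot_left, hK, Subgroup.card_map_of_injective L.subtype_injective]
      exact ((Nat.Prime.coprime_iff_not_dvd hp.out).2 hco).symm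
    | 1 => exact absurd hi (by decide)
    | 2 =>
      show (L.relIndex (⊤ : Subgroup G)).Coprime p
      rw [Subgroup.relIndex_top_right]
      refine Nat.Coprime.symm ((Nat.Prime.coprime_iff_not_dvd hp.out).2 fun h => ?_)
      exact P.not_dvd_index (h.trans (Subgroup.index_dvd_of_le hPL))
    | n + 3 =>
      show ((⊤ : Subgroup G).relIndex (⊤ : Subgroup G)).Coprime p
      rw [Subgroup.relIndex_self]
      exact Nat.coprime_one_left p
  · intro i hi
    match i with
    | 0 => exact absurd (by decide) hi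
    | 1 =>
      obtain ⟨m, hm⟩ := hidx
      refine ⟨m, ?_⟩
      show K.relIndex L = p ^ m
      rw [← hm, hK, Subgroup.relIndex]
      congr 1
      exact Subgroup.comap_map_eq_self_of_injective L.subtype_injective _
    | 2 => exact absurd (by decide) hi
    | n + 3 =>
      refine ⟨0, ?_⟩
      show ((⊤ : Subgroup G).relIndex (⊤ : Subgroup G)) = p ^ 0
      rw [Subgroup.relIndex_self, pow_zero]

theorem irr_of (hM : IsPModular p M) (P : Sylow p G) (h : PLengthLE p 1 G) :
    ∀ χ ∈ principalBlock M G, IsIrrCharacter (Subgroup.normalizer ((P : Subgroup G) : Set G))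
      (fun n : Subgroup.normalizer ((P : Subgroup G) : Set G) => (χ : G → ℂ) n) := by
  classical
  haveI := hM.2.1
  intro χ hχ
  obtain ⟨K, L, hKn, hLn, hKp, hKL, hidx, hL⟩ := Cfsg.Agent.H12.BG6.exists_of_plength_one h
  have hKU := Cfsg.Agent.H12.BG6.sup_normalizer_eq_top hKL hidx hL P
  haveI : Fintype (G ⧸ K) := Fintype.ofFinite _
  have hker := principal_ker hM K ((Nat.Prime.coprime_iff_not_dvd hp.out).1 hKp.symm) hχ
  obtain ⟨χb, hχb⟩ := Cfsg.Agent.H10.BlockQuot.exists_infl K hker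
  have hs : Function.Surjective ((QuotientGroup.mk' K).comp (Subgroup.normalizer ((P : Subgroup G) : Set G)).subtype) := by
    intro q
    obtain ⟨g, rfl⟩ := QuotientGroup.mk'_surjective K q
    have h1 : g ∈ K ⊔ Subgroup.normalizer ((P : Subgroup G) : Set G) := by rw [hKU]; exact Subgroup.mem_top g
    obtain ⟨k, hk, n, hn, rfl⟩ := Subgroup.mem_sup_of_normal_left.1 h1
    refine ⟨⟨n, hn⟩, ?_⟩
    show QuotientGroup.mk' K n = QuotientGroup.mk' K (k * n)
    rw [map_mul, (QuotientGroup.eq_one_iff k).2 hk |> (fun h => (h : QuotientGroup.mk' K k = 1)), one_mul]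
  have h2 := IsIrr.comp χb.2 _ hs
  rw [← hχb]
  exact h2

end C

end Cfsg.Agent.H25.Ccb
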