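import Cfsg.Agent.H25_CenSec2

/-! Central subsections. -/

open scoped ComplexConjugate

namespace Cfsg.Agent.H25.CenSec3

open Cfsg Cfsg.Agent.H10.BlockLoc Cfsg.Agent.H10.BlockAlg Cfsg.Agent.H10.BlockIdem
  Cfsg.Agent.H10.BlockSMT2 Cfsg.Agent.H10.BlockDefect Cfsg.Agent.H10.BlockMain
  Cfsg.Agent.H3.CharIrr
  Cfsg.Agent.H25.Red Cfsg.Agent.H25.KG Cfsg.Agent.H25.BPTr Cfsg.Agent.H25.BPMain
  Cfsg.Agent.H25.BPDef Cfsg.Agent.H25.BPSub Cfsg.Agent.H25.BPInd Cfsg.Agent.H25.FMT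
  Cfsg.Agent.H25.Fus Cfsg.Agent.H25.Nilp Cfsg.Agent.H25.NilpAb Cfsg.Agent.H25.Sub
  Cfsg.Agent.H25.AbSec Cfsg.Agent.H25.AbSec2 Cfsg.Agent.H25.CenSec Cfsg.Agent.H25.CenSec2
  Cfsg.Agent.H25.Rel Cfsg.Agent.H25.Up

section orb
variable {G : Type*} [Group G] [Fintype G]

open Classical in
theorem orbit_card {H T : Subgroup G} {z : G} (hH : H ≤ Subgroup.centralizer ({z} : Set G)) :
    (Finset.univ.filter (fun y : G => ∃ t ∈ T, t * z * t⁻¹ = y)).card ≤ H.relIndex T := by
  have hwd : ∀ a b : T, (QuotientGroup.leftRel (H.subgroupOf T)) a b →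
      (a : G) * z * (a : G)⁻¹ = (b : G) * z * (b : G)⁻¹ := by
    intro a b hab
    rw [QuotientGroup.leftRel_apply, Subgroup.mem_subgroupOf] at hab
    have h1 := Subgroup.mem_centralizer_singleton_iff.1 (hH hab)
    push_cast at h1
    have h2 : (b : G) * z = (a : G) * ((a : G)⁻¹ * b * z) := by group
    rw [h2, h1]; group
  let f : T ⧸ H.subgroupOf T → G := fun q => Quotient.liftOn' q (fun t => (t : G) * z * (t : G)⁻¹) hwd
  haveI : Fintype (T ⧸ H.subgroupOf T) := Fintype.ofFinite _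
  have h1 : (Finset.univ.filter (fun y : G => ∃ t ∈ T, t * z * t⁻¹ = y)) ⊆ Finset.univ.image f := by
    intro y hy
    obtain ⟨t, ht, rfl⟩ := (Finset.mem_filter.1 hy).2
    exact Finset.mem_image.2 ⟨QuotientGroup.mk ⟨t, ht⟩, Finset.mem_univ _, rfl⟩
  refine (Finset.card_le_card h1).trans (Finset.card_image_le.trans ?_)
  rw [Finset.card_univ, Subgroup.relIndex, Subgroup.index, Nat.card_eq_fintype_card]

end orb

section main
variable {p : ℕ} {M : Ideal AlgInt} {G : Type*} [Group G] [Fintype G] [hp : Fact p.Prime]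
  [hMax : M.IsMaximal] [hch : CharP (KM M) p] {P Q : Subgroup G} {E f B0 : MonoidAlgebra (KM M) G}

theorem dgh_cen (hM : IsPModular p M) (hP : BP p B0 P E) (htop : KG.Top p P E)
    (hab : P ≤ Ce Q) (hle : LE p Q f P E) : DGH p (Ce Q) f P := by
  obtain ⟨F, hF⟩ := exists_bf hP.pg hP.be
  have h1 : P ⊓ Ce Q = P := inf_eq_left.2 hab
  rw [← h1, ← fc_iff hM hP htop hle hF, hF.fc_iff]
  refine ⟨hle.le, fun g hg => ?_⟩
  rw [h1]
  exact Nat.card_le_card_of_injective _ (Subgroup.inclusion_injective inf_le_left)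

theorem cen_fiber (hM : IsPModular p M) (hP : BP p B0 P E) (htop : KG.Top p P E) {y y' : G}
    (hy : P ≤ Ce (Subgroup.zpowers y)) (hy' : P ≤ Ce (Subgroup.zpowers y'))
    {s : Σ x : G, Set (IrrCharacter (Subgroup.centralizer ({x} : Set G)))}
    (h : PhiRel M p P E y s) (h' : PhiRel M p P E y' s) : ∃ t ∈ Nf P E, t * y * t⁻¹ = y' := by
  obtain ⟨g, hg, hle⟩ := h
  obtain ⟨g', hg', hle'⟩ := h'
  set u : G := g'⁻¹ * g with hu
  have e1 : u * y * u⁻¹ = y' := by
    calc g'⁻¹ * g * y * (g'⁻¹ * g)⁻¹ = g'⁻¹ * (g * y * g⁻¹) * g' := by group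
      _ = g'⁻¹ * (g' * y' * g'⁻¹) * g' := by rw [hg, hg']
      _ = y' := by group
  set f' := KG.cnj g'⁻¹ (ep M (Subgroup.centralizer ({s.1} : Set G)) s.2) with hf'
  have h1 : LE p (Subgroup.zpowers y') f' (KG.cs u P) (KG.cnj u E) := by
    have := hle.cnj u
    rw [cs_zp, e1, hu, cnj_mul_apply, cnj_cnj_inv] at this
    exact this
  have hP2 : BP p B0 (KG.cs u P) (KG.cnj u E) := hP.cnj u
  have hcs : KG.cs u P ≤ Ce (Subgroup.zpowers y') := by
    rw [Ce_zp] at hy ⊢
    change KG.cs u P ≤ KG.Ce1 y'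
    rw [← e1, Ce1_cs]
    exact cs_mono u hy
  obtain ⟨hQ, hfb⟩ := hle'.pair hP.pg hP.be
  haveI : Fintype (Ce (Subgroup.zpowers y')) := Fintype.ofFinite _
  have hns := LE.ns hP.pg hP.be hle' (hy'.trans (Ce_le_Nm _))
  have hns2 := LE.ns hP2.pg hP2.be h1 (hcs.trans (Ce_le_Nm _))
  obtain ⟨c, hc, hLE⟩ := rel_conj hfb hy' (Ce_anti hle'.le) hP.be hns.tr (dgh_cen hM hP htop hy' hle')
    hcs (Ce_anti h1.le) hP2.pg hP2.be hns2.tr
  have h2 : KG.cs (c * u) P = P := by
    rw [cs_mul]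
    exact Subgroup.eq_of_le_of_card_ge hLE.le (by rw [card_cs, card_cs])
  have h3 : KG.cnj (c * u) E = E := by
    rw [← cs_mul, h2, ← cnj_mul_apply] at hLE
    exact hLE.eq_of_eq
  refine ⟨c * u, ⟨mem_normalizer_iff_cs.2 h2, h3⟩, ?_⟩
  rw [Ce_zp, Subgroup.mem_centralizer_singleton_iff] at hc
  calc c * u * y * (c * u)⁻¹ = c * (u * y * u⁻¹) * c⁻¹ := by group
    _ = c * y' * c⁻¹ := by rw [e1]
    _ = y' := by rw [hc]; group

/-- central subsections are major -/
theorem cen_defect (hM : IsPModular p M) {B : Set (IrrCharacter G)}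
    (hP : BP p (epG M B) P E) (htop : KG.Top p P E)
    {s : Σ x : G, Set (IrrCharacter (Subgroup.centralizer ({x} : Set G)))}
    (hs : IsPBlock M s.2) {y : G} (hy : P ≤ Ce (Subgroup.zpowers y))
    (h : PhiRel M p P E y s) : p ^ blockDefect p s.2 = Nat.card P := by
  obtain ⟨x, b⟩ := s
  obtain ⟨g, hg, hle⟩ := h
  simp only at hs hg hle ⊢
  have h4 := (dgh_cen hM hP htop hy hle).cnj g
  rw [cnj_cnj_inv, Ce_zp, ← H25.KG.Ce1, ← Ce1_cs, hg] at h4
  have h5 : IsDefectGroup p M b ((KG.cs g P).subgroupOf (Subgroup.centralizer ({x} : Set G))) :=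
    (defectH_iff' hM hs h4.le).2 h4
  haveI : Fintype (Subgroup.centralizer ({x} : Set G)) := Fintype.ofFinite _
  rw [← card_defectGroup hM hs h5, Nat.card_congr (Subgroup.subgroupOfEquivOfLe h4.le).toEquiv,
      card_cs]

/-- the bound for heights -/
theorem height_bound (hM : IsPModular p M) {B : Set (IrrCharacter G)} (hB : IsPBlock M B)
    (hP : BP p (epG M B) P E) (htop : KG.Top p P E) {H T : Subgroup G}
    (hH : H ≤ P ⊔ Ce P) (hT : Nf P E ≤ T) {χ : IrrCharacter G} (hχ : χ ∈ B) :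
    Nat.card (Subgroup.center P) * p ^ blockHeight p B (χ : G → ℂ) ≤
      Nat.card P * H.relIndex T := by
  classical
  have hdP : p ^ blockDefect p B = Nat.card P :=
    (card_defectGroup hM hB ((defectG_iff hM hB).2 (Cfsg.Agent.H25.BPDef.Top.dgh htop hP))).symm
  set Zf : Finset G := Finset.univ.filter (fun z => z ∈ P ∧ P ≤ Ce (Subgroup.zpowers z)) with hZf
  have hZc : Zf.card = Nat.card (Subgroup.center P) := by
    rw [hZf, ← Fintype.card_subtype, ← Nat.card_eq_fintype_card]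
    refine Nat.card_congr ⟨fun z => ⟨⟨z.1, z.2.1⟩, ?_⟩, fun z => ⟨z.1.1, z.1.2, ?_⟩, fun z => rfl,
      fun z => rfl⟩
    · rw [Subgroup.mem_center_iff]
      intro g
      have := z.2.2 g.2
      rw [Ce_zp, Subgroup.mem_centralizer_singleton_iff] at this
      exact Subtype.ext this
    · intro g hg
      rw [Ce_zp, Subgroup.mem_centralizer_singleton_iff]
      exact congrArg Subtype.val ((Subgroup.mem_center_iff.1 z.2) ⟨g, hg⟩)
  have hex : ∀ z : G, z ∈ Zf → ∃ s : Σ x : G, Set (IrrCharacter (Subgroup.centralizer ({x} : Set G))),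
      s.1 ∈ reps (G := G) p ∧ IsInducedBlock M (Subgroup.centralizer ({s.1} : Set G)) s.2 B ∧
      PhiRel M p P E z s := fun z hz =>
    exists_phi hM hB hP (reps_unique p) (Finset.mem_filter.1 hz).2.1
  let F : G → Σ x : G, Set (IrrCharacter (Subgroup.centralizer ({x} : Set G))) := fun z =>
    if h : z ∈ Zf then (hex z h).choose else ⟨1, ∅⟩
  have hF : ∀ z ∈ Zf, (F z).1 ∈ reps (G := G) p ∧
      IsInducedBlock M (Subgroup.centralizer ({(F z).1} : Set G)) (F z).2 B ∧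
      PhiRel M p P E z (F z) := by
    intro z hz
    have hFe : F z = (hex z hz).choose := dif_pos hz
    rw [hFe]
    exact (hex z hz).choose_spec
  have h1 := card_major_mul hM hB hχ (Zf.image F) (by
    intro s hs
    obtain ⟨z, hz, rfl⟩ := Finset.mem_image.1 hs
    obtain ⟨h2, h3, h4⟩ := hF z hz
    refine ⟨h2, h3, ?_⟩
    have h5 := cen_defect hM hP htop h3.1 (Finset.mem_filter.1 hz).2.2 h4
    rw [← hdP] at h5
    exact Nat.pow_right_injective hp.out.two_le h5)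
  have h2 : Zf.card ≤ H.relIndex T * (Zf.image F).card := by
    refine Finset.card_le_mul_card_image_of_maps_to (fun z hz => Finset.mem_image_of_mem F hz) _ ?_
    intro s hs
    obtain ⟨z, hz, rfl⟩ := Finset.mem_image.1 hs
    refine le_trans (Finset.card_le_card ?_) (orbit_card (H := H) (T := T) (z := z) ?_)
    · intro y hy
      rw [Finset.mem_filter] at hy
      obtain ⟨t, ht, h3⟩ := cen_fiber hM hP htop (Finset.mem_filter.1 hz).2.2
        (Finset.mem_filter.1 hy.1).2.2 (hF z hz).2.2 (by rw [← hy.2]; exact (hF y hy.1).2.2)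
      exact Finset.mem_filter.2 ⟨Finset.mem_univ _, t, hT ht, h3⟩
    · refine hH.trans (sup_le ?_ ?_)
      · rw [← Ce_zp]; exact (Finset.mem_filter.1 hz).2.2
      · rw [← Ce_zp]
        exact Ce_anti (by rw [Subgroup.zpowers_le]; exact (Finset.mem_filter.1 hz).2.1)
  rw [← hZc]
  calc Zf.card * p ^ blockHeight p B (χ : G → ℂ)
      ≤ H.relIndex T * (Zf.image F).card * p ^ blockHeight p B (χ : G → ℂ) := Nat.mul_le_mul_right _ h2
    _ = H.relIndex T * ((Zf.image F).card * p ^ blockHeight p B (χ : G → ℂ)) := by ring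
    _ ≤ H.relIndex T * p ^ blockDefect p B := Nat.mul_le_mul_left _ h1
    _ = Nat.card P * H.relIndex T := by rw [hdP, mul_comm]

end main

end Cfsg.Agent.H25.CenSec3
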