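import Mathlib
import Cfsg.Agent.H25_Cyp

/-!
H25_Cyq: Brauer's theorem on blocks of defect one: degrees.
-/

set_option autoImplicit false
set_option linter.unusedSectionVars false

open scoped ComplexConjugate

namespace Cfsg.Agent.H25.Cyq

open Cfsg Cfsg.Agent.H3.CharIrr Cfsg.Agent.H3.CharComplete Cfsg.Agent.H3.CharBasic
  Cfsg.Agent.H10.BlockLoc Cfsg.Agent.H10.BlockAlg Cfsg.Agent.H10.BlockIdem Cfsg.Agent.H10.BlockDefect
  Cfsg.Agent.H10.Char Cfsg.Agent.H10.PPart Cfsg.Agent.H10.BlockMain Cfsg.Agent.H10.BlockSMT2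
  Cfsg.Agent.H25.IndCong Cfsg.Agent.H25.Sub Cfsg.Agent.H25.Sub2 Cfsg.Agent.H25.Sub7 Cfsg.Agent.H25.Cyh Cfsg.Agent.H25.Cyi
  Cfsg.Agent.H25.Cyj Cfsg.Agent.H25.Cyl Cfsg.Agent.H25.Cym Cfsg.Agent.H25.Cyn Cfsg.Agent.H25.Cyo Cfsg.Agent.H25.Cyp
  Cfsg.Agent.H25.Red Cfsg.Agent.H25.KG Cfsg.Agent.H25.BPTr Cfsg.Agent.H25.BPMain Cfsg.Agent.H25.BPDef
  Cfsg.Agent.H25.Fus Cfsg.Agent.H25.Nilp Cfsg.Agent.H25.NilpAb Cfsg.Agent.H25.FMT Cfsg.Agent.H25.Cyk
  Cfsg.Agent.H9.BrVec Cfsg.Agent.H9.BrMain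

theorem exists_zp {G : Type*} [Group G] [Finite G] {p : ℕ} [hp : Fact p.Prime] {P : Subgroup G} (h : Nat.card P = p) :
    ∃ u : G, orderOf u = p ∧ P = Subgroup.zpowers u := by
  haveI : IsCyclic P := isCyclic_of_prime_card h
  obtain ⟨g, hg⟩ := IsCyclic.exists_generator (α := P)
  refine ⟨g, ?_, ?_⟩
  · rw [Subgroup.orderOf_coe, orderOf_eq_card_of_forall_mem_zpowers hg, h]
  · apply le_antisymm
    · intro x hx
      obtain ⟨k, hk⟩ := hg ⟨x, hx⟩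
      exact ⟨k, by
        have := congrArg (Subtype.val) hk
        simpa using this⟩
    · rw [Subgroup.zpowers_le]; exact g.2

theorem rel_mul_card {G : Type*} [Group G] {H K : Subgroup G} (h : H ≤ K) :
    H.relIndex K * Nat.card H = Nat.card K := by
  have h1 := (H.subgroupOf K).card_mul_index
  rw [Nat.card_congr (Subgroup.subgroupOfEquivOfLe h).toEquiv, mul_comm] at h1
  exact h1

variable {M : Ideal AlgInt} {G : Type*} [Group G] [Fintype G] {p : ℕ} [hp : Fact p.Prime]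
  [hMax : M.IsMaximal] [hch : CharP (KM M) p] {u : G} {b : Set (IrrCharacter (Ce (Subgroup.zpowers u)))}
  {B : Set (IrrCharacter G)}

theorem core (hM : IsPModular p M) (hB : IsPBlock M B) (hu : orderOf u = p)
    (hidx : ¬ p ∣ (Subgroup.zpowers u).index) (hPD : IsDefectGroup p M B (Subgroup.zpowers u))
    (hind : IsInducedBlock M (Ce (Subgroup.zpowers u)) b B) (θ : IrrCharacter (Ce (Subgroup.zpowers u)))
    (hθ : θ ∈ b) (hθP : ∀ x : Ce (Subgroup.zpowers u), (x : G) ∈ Subgroup.zpowers u →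
      (θ : Ce (Subgroup.zpowers u) → ℂ) x = (θ : Ce (Subgroup.zpowers u) → ℂ) 1)
    (T : Subgroup G) (hT : ∀ g : G, g ∈ T ↔ (g ∈ Subgroup.normalizer (Subgroup.zpowers u : Set G) ∧ Stb θ g)) (e f : ℕ)
    (he : (Ce (Subgroup.zpowers u)).relIndex T = e)
    (hf : (Ce (Subgroup.zpowers u)).relIndex (Subgroup.normalizer (Subgroup.zpowers u : Set G)) = f) :
    e ∣ p - 1 ∧ Nat.card B = e + (p - 1) / e ∧ ∃ X Y : Set (IrrCharacter G), B = X ∪ Y ∧ Disjoint X Y ∧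
      Nat.card X = e ∧ Nat.card Y = (p - 1) / e ∧
      (∀ χ ∈ X, (charDegree (χ : G → ℂ) : ℤ) ≡
          ((f / e * charDegree (θ : Ce (Subgroup.zpowers u) → ℂ) : ℕ) : ℤ) [ZMOD p] ∨
        (charDegree (χ : G → ℂ) : ℤ) ≡ -((f / e * charDegree (θ : Ce (Subgroup.zpowers u) → ℂ) : ℕ) : ℤ) [ZMOD p]) ∧
      (∃ ε : ℤ, (ε = 1 ∨ ε = -1) ∧ ∀ ψ ∈ Y, (charDegree (ψ : G → ℂ) : ℤ) ≡
        ε * ((f * charDegree (θ : Ce (Subgroup.zpowers u) → ℂ) : ℕ) : ℤ) [ZMOD p]) ∧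
      ∀ ψ ∈ Y, ∀ ψ' ∈ Y, ∀ g : G, ¬ p ∣ orderOf g → (ψ : G → ℂ) g = (ψ' : G → ℂ) g := by
  classical
  obtain ⟨hcb, hbp, htop, Θ, hfam, X, Y, δ, ε, L, hmem, hdis, hXc, hYc, hδ, hε, hLinj, hLY, hL1, hL2, hrel⟩ :=
    main_p hM hB hu hidx hPD hind
  have hΘ : Θ 0 = θ := hfam.eq_zero hθ hθP
  have hTeq : T = Nf (Subgroup.zpowers u) (ep M (Ce (Subgroup.zpowers u)) b) := by
    ext t
    rw [hT, mem_Nf_stb hcb hu hfam, hΘ]
  have hTN : T ≤ Subgroup.normalizer (Subgroup.zpowers u : Set G) := fun t ht => ((hT t).1 ht).1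
  subst hTeq
  rw [card_HT hu hTN, he] at hXc
  have hcO := card_orb (HT hu (Nf (Subgroup.zpowers u) (ep M (Ce (Subgroup.zpowers u)) b))) free_HT
  rw [card_HT hu hTN, he, ← hYc] at hcO
  have hCT : Ce (Subgroup.zpowers u) ≤ Nf (Subgroup.zpowers u) (ep M (Ce (Subgroup.zpowers u)) b) := by
    intro c hc'
    rw [mem_Nf]
    exact ⟨Ce_le_Nm _ hc', hbp.be.mem.2 c hc'⟩
  have he0 : 0 < e := by
    rw [← he, ← card_HT hu hTN]
    exact Nat.card_pos
  have hdiv : (p - 1) / e = Y.card := by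
    rw [← hcO]; exact Nat.mul_div_cancel_left _ he0
  -- the number of conjugates
  set w := (orb (Subgroup.zpowers u) (ep M (Ce (Subgroup.zpowers u)) b)).card with hw
  have hfw : f = w * e := by
    have h1 := card_orb' (M := M) (P := Subgroup.zpowers u) hbp.be
    rw [← hw] at h1
    have h2 : e * Nat.card (Ce (Subgroup.zpowers u)) = Nat.card (Nf (Subgroup.zpowers u) (ep M (Ce (Subgroup.zpowers u)) b)) := by
      rw [← he, rel_mul_card hCT]
    have h3 : f * Nat.card (Ce (Subgroup.zpowers u)) = Nat.card (Nm (Subgroup.zpowers u)) := by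
      rw [← hf]; exact rel_mul_card (Ce_le_Nm _)
    rw [← h3, ← h2, ← mul_assoc] at h1
    exact (Nat.eq_of_mul_eq_mul_right Nat.card_pos h1).symm
  have hfe : f / e = w := by rw [hfw]; exact Nat.mul_div_cancel _ he0
  -- degrees of the nonexceptional characters
  have hdeg : ∀ χ ∈ X, (p : ℤ) ∣ δ χ * (charDegree (χ : G → ℂ) : ℤ) -
      ((w * charDegree (θ : Ce (Subgroup.zpowers u) → ℂ) : ℕ) : ℤ) := by
    intro χ hχ
    have hχB : χ ∈ B := (hmem χ).2 (Or.inl hχ)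
    have h1 := val_u hM hB hu hidx hPD hind hfam hχB (hδ χ hχ).2
    rw [← hw, hΘ, ← charDegree_eq θ.2] at h1
    have h2 : MemLocalIdeal M ((χ : G → ℂ) u - (χ : G → ℂ) 1) := by
      have := H10.BlockHZ.char_sub_mem (p := p) hM (IsIrr.isCharacter χ.2) (Commute.one_right u) ⟨1, by rw [hu, pow_one]⟩
        (by rw [orderOf_one]; exact fun h => hp.out.one_lt.ne' (Nat.dvd_one.1 h))
      rwa [mul_one] at this
    rw [h1, ← charDegree_eq χ.2] at h2
    have h3 : ((w : ℂ) * ((δ χ : ℂ) * (charDegree (θ : Ce (Subgroup.zpowers u) → ℂ) : ℂ)) - (charDegree (χ : G → ℂ) : ℂ)) =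
        (((w : ℤ) * (δ χ * (charDegree (θ : Ce (Subgroup.zpowers u) → ℂ) : ℤ)) - (charDegree (χ : G → ℂ) : ℤ) : ℤ) : ℂ) := by
      push_cast; ring
    rw [h3, ideal_intCast_iff hM] at h2
    have h4 : δ χ * δ χ = 1 := by
      rcases (hδ χ hχ).1 with h | h <;> rw [h] <;> norm_num
    have h5 : δ χ * (charDegree (χ : G → ℂ) : ℤ) - ((w * charDegree (θ : Ce (Subgroup.zpowers u) → ℂ) : ℕ) : ℤ) =
        -(δ χ) * ((w : ℤ) * (δ χ * (charDegree (θ : Ce (Subgroup.zpowers u) → ℂ) : ℤ)) - (charDegree (χ : G → ℂ) : ℤ)) := by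
      push_cast
      linear_combination (w : ℤ) * (charDegree (θ : Ce (Subgroup.zpowers u) → ℂ) : ℤ) * (h4)
    rw [h5]
    exact Dvd.dvd.mul_left h2 _
  have h1r : ¬ p ∣ orderOf (1 : G) := by
    rw [orderOf_one]; exact fun h => hp.out.one_lt.ne' (Nat.dvd_one.1 h)
  refine ⟨⟨Y.card, hcO.symm⟩, ?_, (X : Set (IrrCharacter G)), (Y : Set (IrrCharacter G)), ?_, ?_, ?_, ?_, ?_, ?_, ?_⟩
  · rw [hdiv]
    have h1 : B = ((X ∪ Y : Finset (IrrCharacter G)) : Set (IrrCharacter G)) := by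
      ext χ
      rw [hmem, Finset.coe_union]
      simp
    rw [h1, Nat.card_coe_set_eq, Set.ncard_coe_finset, Finset.card_union_of_disjoint hdis, hXc]
  · ext χ
    rw [hmem]; simp
  · exact Finset.disjoint_coe.2 hdis
  · rw [Nat.card_eq_fintype_card]; simp [hXc]
  · rw [hdiv, Nat.card_eq_fintype_card]; simp
  · intro χ hχ
    have hχ' : χ ∈ X := hχ
    have h1 := hdeg χ hχ'
    rw [hfe]
    rcases (hδ χ hχ').1 with h | h
    · left
      rw [h, one_mul] at h1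
      exact (Int.modEq_iff_dvd.2 (by rw [← dvd_neg, neg_sub]; exact h1))
    · right
      rw [h] at h1
      refine (Int.modEq_iff_dvd.2 ?_)
      have h2 : -((w * charDegree (θ : Ce (Subgroup.zpowers u) → ℂ) : ℕ) : ℤ) - (charDegree (χ : G → ℂ) : ℤ) =
        -1 * (charDegree (χ : G → ℂ) : ℤ) - ((w * charDegree (θ : Ce (Subgroup.zpowers u) → ℂ) : ℕ) : ℤ) := by ring
      rw [h2]; exact h1
  · refine ⟨ε, hε, fun ψ hψ => ?_⟩
    obtain ⟨o, rfl⟩ := (hLY ψ).1 hψ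
    have h1 := hrel o 1 h1r
    rw [← charDegree_eq (L o).2] at h1
    have h2 : ε * (charDegree (L o : G → ℂ) : ℤ) = ∑ χ ∈ X, δ χ * (charDegree (χ : G → ℂ) : ℤ) := by
      have h3 : ((ε * (charDegree (L o : G → ℂ) : ℤ) : ℤ) : ℂ) = ((∑ χ ∈ X, δ χ * (charDegree (χ : G → ℂ) : ℤ) : ℤ) : ℂ) := by
        push_cast
        rw [h1]
        refine Finset.sum_congr rfl fun χ _ => ?_
        rw [charDegree_eq χ.2]
      exact_mod_cast h3
    have h3 : (p : ℤ) ∣ ∑ χ ∈ X, (δ χ * (charDegree (χ : G → ℂ) : ℤ) -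
        ((w * charDegree (θ : Ce (Subgroup.zpowers u) → ℂ) : ℕ) : ℤ)) := Finset.dvd_sum fun χ hχ => hdeg χ hχ
    rw [Finset.sum_sub_distrib, ← h2, Finset.sum_const, hXc] at h3
    have h4 : ε * ε = 1 := by
      rcases hε with h | h <;> rw [h] <;> norm_num
    refine (Int.modEq_iff_dvd.2 ?_)
    have h5 : ε * ((f * charDegree (θ : Ce (Subgroup.zpowers u) → ℂ) : ℕ) : ℤ) - (charDegree (L o : G → ℂ) : ℤ) =
        -ε * (ε * (charDegree (L o : G → ℂ) : ℤ) - e • ((w * charDegree (θ : Ce (Subgroup.zpowers u) → ℂ) : ℕ) : ℤ)) := by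
      rw [hfw]
      push_cast
      linear_combination (charDegree (L o : G → ℂ) : ℤ) * h4
    rw [h5]
    exact Dvd.dvd.mul_left h3 _
  · intro ψ hψ ψ' hψ' g hg
    obtain ⟨o, rfl⟩ := (hLY ψ).1 hψ
    obtain ⟨o', rfl⟩ := (hLY ψ').1 hψ'
    have h1 := hrel o g hg
    have h2 := hrel o' g hg
    have h3 : (ε : ℂ) ≠ 0 := by
      rcases hε with h | h <;> rw [h] <;> norm_num
    exact mul_left_cancel₀ h3 (h1.trans h2.symm)

theorem core' (hM : IsPModular p M) (hB : IsPBlock M B) {P : Subgroup G} (hPc : Nat.card P = p)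
    (hidx : ¬ p ∣ P.index) (hPD : IsDefectGroup p M B P) {b : Set (IrrCharacter (Subgroup.centralizer (P : Set G)))}
    (hind : IsInducedBlock M (Subgroup.centralizer (P : Set G)) b B)
    (θ : IrrCharacter (Subgroup.centralizer (P : Set G)))
    (hθ : θ ∈ b) (hθP : ∀ x : Subgroup.centralizer (P : Set G), (x : G) ∈ P →
      (θ : Subgroup.centralizer (P : Set G) → ℂ) x = (θ : Subgroup.centralizer (P : Set G) → ℂ) 1)
    (T : Subgroup G) (hT : ∀ g : G, g ∈ T ↔ (g ∈ Subgroup.normalizer (P : Set G) ∧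
      ∀ c c' : Subgroup.centralizer (P : Set G), (c' : G) = g * c * g⁻¹ →
        (θ : Subgroup.centralizer (P : Set G) → ℂ) c' = (θ : Subgroup.centralizer (P : Set G) → ℂ) c)) (e f : ℕ)
    (he : (Subgroup.centralizer (P : Set G)).relIndex T = e)
    (hf : (Subgroup.centralizer (P : Set G)).relIndex (Subgroup.normalizer (P : Set G)) = f) :
    e ∣ p - 1 ∧ Nat.card B = e + (p - 1) / e ∧ ∃ X Y : Set (IrrCharacter G), B = X ∪ Y ∧ Disjoint X Y ∧
      Nat.card X = e ∧ Nat.card Y = (p - 1) / e ∧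
      (∀ χ ∈ X, (charDegree (χ : G → ℂ) : ℤ) ≡
          ((f / e * charDegree (θ : Subgroup.centralizer (P : Set G) → ℂ) : ℕ) : ℤ) [ZMOD p] ∨
        (charDegree (χ : G → ℂ) : ℤ) ≡ -((f / e * charDegree (θ : Subgroup.centralizer (P : Set G) → ℂ) : ℕ) : ℤ) [ZMOD p]) ∧
      (∃ ε : ℤ, (ε = 1 ∨ ε = -1) ∧ ∀ ψ ∈ Y, (charDegree (ψ : G → ℂ) : ℤ) ≡
        ε * ((f * charDegree (θ : Subgroup.centralizer (P : Set G) → ℂ) : ℕ) : ℤ) [ZMOD p]) ∧
      ∀ ψ ∈ Y, ∀ ψ' ∈ Y, ∀ g : G, ¬ p ∣ orderOf g → (ψ : G → ℂ) g = (ψ' : G → ℂ) g := by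
  obtain ⟨u, hu, rfl⟩ := exists_zp hPc
  exact core hM hB hu hidx hPD hind θ hθ hθP T hT e f he hf

end Cfsg.Agent.H25.Cyq
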