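import Mathlib
import Cfsg.Agent.H25_Cyq
import Cfsg.Agent.H26_GalConj

/-!
H25_Cyr: Galois conjugation in blocks with defect group of order p.
-/

set_option autoImplicit false
set_option linter.unusedSectionVars false

open scoped ComplexConjugate

namespace Cfsg.Agent.H25.Cyr

open Cfsg Cfsg.Agent.H3.CharIrr Cfsg.Agent.H3.CharComplete Cfsg.Agent.H3.CharBasic Cfsg.Agent.H3.CharGal
  Cfsg.Agent.H10.BlockLoc Cfsg.Agent.H10.BlockAlg Cfsg.Agent.H10.BlockIdem Cfsg.Agent.H10.BlockDefect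
  Cfsg.Agent.H10.Char Cfsg.Agent.H10.PPart Cfsg.Agent.H10.BlockMain Cfsg.Agent.H10.BlockSMT2
  Cfsg.Agent.H25.IndCong Cfsg.Agent.H25.Sub Cfsg.Agent.H25.Sub2 Cfsg.Agent.H25.Sub7 Cfsg.Agent.H25.Cyh Cfsg.Agent.H25.Cyi
  Cfsg.Agent.H25.Cyj Cfsg.Agent.H25.Cyl Cfsg.Agent.H25.Cym Cfsg.Agent.H25.Cyn Cfsg.Agent.H25.Cyo Cfsg.Agent.H25.Cyp
  Cfsg.Agent.H25.Cyq
  Cfsg.Agent.H25.Red Cfsg.Agent.H25.KG Cfsg.Agent.H25.BPTr Cfsg.Agent.H25.BPMain Cfsg.Agent.H25.BPDef
  Cfsg.Agent.H25.Fus Cfsg.Agent.H25.Nilp Cfsg.Agent.H25.NilpAb Cfsg.Agent.H25.FMT Cfsg.Agent.H25.Cyk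
  Cfsg.Agent.H9.BrVec Cfsg.Agent.H9.BrMain Cfsg.Agent.H26.GalConj

section aut

/-- an automorphism of a subfield extends to an automorphism of `ℂ` -/
theorem extend_equiv {K : Type*} [Field K] (i : K →+* ℂ) (σ : K ≃+* K) :
    ∃ φ : ℂ ≃+* ℂ, ∀ x, φ (i x) = i (σ x) := by
  letI : Algebra K ℂ := i.toAlgebra
  obtain ⟨ι, b, hb⟩ := exists_isTranscendenceBasis' K ℂ
  haveI : IsAlgClosure (Algebra.adjoin K (Set.range b)) ℂ := IsAlgClosed.isAlgClosure_of_transcendence_basis b hb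
  let g : Algebra.adjoin K (Set.range b) ≃+* Algebra.adjoin K (Set.range b) :=
    (hb.1.aevalEquiv.symm.toRingEquiv.trans (MvPolynomial.mapEquiv ι σ)).trans hb.1.aevalEquiv.toRingEquiv
  refine ⟨IsAlgClosure.equivOfEquiv ℂ ℂ g, fun x => ?_⟩
  have h1 : i x = algebraMap (Algebra.adjoin K (Set.range b)) ℂ (algebraMap K _ x) := rfl
  rw [h1, IsAlgClosure.equivOfEquiv_algebraMap]
  have h2 : g (algebraMap K _ x) = algebraMap K _ (σ x) := by
    show hb.1.aevalEquiv (MvPolynomial.mapEquiv ι σ (hb.1.aevalEquiv.symm (algebraMap K _ x))) = _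
    rw [AlgEquiv.commutes, MvPolynomial.algebraMap_eq, MvPolynomial.mapEquiv_apply, MvPolynomial.map_C]
    exact AlgEquiv.commutes _ _
  rw [h2]
  rfl

theorem exists_aut (n : ℕ) [NeZero n] (m : ℕ) (hm : m.Coprime n) :
    ∃ φ : ℂ ≃+* ℂ, ∀ z : ℂ, z ^ n = 1 → φ z = z ^ m := by
  obtain ⟨σ, hσ⟩ := exists_gal n m hm
  obtain ⟨φ, hφ⟩ := extend_equiv (Cyc n).val.toRingHom (σ : Cyc n ≃+* Cyc n)
  refine ⟨φ, fun z hz => ?_⟩
  have h1 := hφ ⟨z, root_mem hz⟩
  have h2 := hσ ⟨z, root_mem hz⟩ hz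
  exact h1.trans h2

/-- values on elements of order dividing `m` are fixed -/
theorem fix_val {K : Type*} [Group K] [Finite K] {m : ℕ} (hm : m ≠ 0) {σ : ℂ ≃+* ℂ}
    (hσ : σ (Complex.exp (2 * Real.pi * Complex.I / m)) = Complex.exp (2 * Real.pi * Complex.I / m))
    {χ : K → ℂ} (hχ : IsCharacter K χ) {g : K} (hg : g ^ m = 1) : σ (χ g) = χ g := by
  obtain ⟨d, z, -, hz, hc⟩ := IsChar.exists_roots hχ m hm g hg
  have h1 := hc 1
  simp only [pow_one] at h1
  haveI : NeZero m := ⟨hm⟩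
  rw [h1, map_sum]
  refine Finset.sum_congr rfl fun i _ => ?_
  obtain ⟨j, -, hj⟩ := (Complex.isPrimitiveRoot_exp m hm).eq_pow_of_pow_eq_one (hz i)
  rw [← hj, map_pow, hσ]

/-- the action on the p-th roots of unity -/
theorem act_ee {p : ℕ} [hp : Fact p.Prime] (σ : ℂ ≃+* ℂ) : ∃ s : (ZMod p)ˣ, ∀ a : ZMod p, σ (Cyh.ee a) = Cyh.ee ((s : ZMod p) * a) := by
  have h1 : (σ (Cyh.ee (1 : ZMod p))) ^ p = 1 := by
    rw [← map_pow]
    have : (Cyh.ee (1 : ZMod p)) ^ p = 1 := by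
      have h2 : ∀ n : ℕ, Cyh.ee (1 : ZMod p) ^ n = Cyh.ee (n : ZMod p) := by
        intro n
        induction n with
        | zero => rw [pow_zero, Nat.cast_zero, Cyh.ee_zero]
        | succ n ih => rw [pow_succ, ih, ← Cyh.ee_add]; push_cast; rfl
      rw [h2, CharP.cast_eq_zero, Cyh.ee_zero]
    rw [this, map_one]
  obtain ⟨s, hs⟩ := exists_ee h1
  have hs0 : s ≠ 0 := by
    rintro rfl
    rw [Cyh.ee_zero] at hs
    have h2 : Cyh.ee (1 : ZMod p) = 1 := by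
      apply σ.injective; rw [← hs, map_one]
    have h3 : (1 : ZMod p) = 0 := by
      have h8 := ZMod.injective_stdAddChar (N := p)
      apply h8
      rw [AddChar.map_zero_eq_one]; exact h2
    haveI : Fact (1 < p) := ⟨hp.out.one_lt⟩
    exact one_ne_zero h3
  refine ⟨Units.mk0 s hs0, fun a => ?_⟩
  have h2 : Cyh.ee a = Cyh.ee (1 : ZMod p) ^ a.val := by rw [ee_pow, one_mul]
  rw [h2, map_pow, ← hs, ee_pow]
  rfl

end aut

section gal

variable {G : Type*} [Group G] [Fintype G] {p : ℕ} [hp : Fact p.Prime]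
  {u : G} {b : Set (IrrCharacter (Ce (Subgroup.zpowers u)))} {θ : ZMod p → IrrCharacter (Ce (Subgroup.zpowers u))}

/-- Galois conjugation of the multiplicities -/
theorem mm0_gal (hu : orderOf u = p) (hidx : ¬ p ∣ (Subgroup.zpowers u).index) (hf : Fam p u b θ) {σ : ℂ ≃+* ℂ}
    (hσ : ∀ (φ : IrrCharacter (Ce (Subgroup.zpowers u))) (y : Ce (Subgroup.zpowers u)), ¬ p ∣ orderOf y →
      σ ((φ : Ce (Subgroup.zpowers u) → ℂ) y) = (φ : Ce (Subgroup.zpowers u) → ℂ) y)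
    {s : (ZMod p)ˣ} (hs : ∀ a : ZMod p, σ (Cyh.ee a) = Cyh.ee ((s : ZMod p) * a))
    {χ ψ : IrrCharacter G} (hψ : (ψ : G → ℂ) = fun g => σ ((χ : G → ℂ) g)) (a : ZMod p) :
    mm0 θ ψ ((s : ZMod p) * a) = mm0 θ χ a := by
  letI : Fintype (Ce (Subgroup.zpowers u)) := Fintype.ofFinite _
  have h1 : ∀ c : Ce (Subgroup.zpowers u), (θ ((s : ZMod p) * a) : Ce (Subgroup.zpowers u) → ℂ) c =
      σ ((θ a : Ce (Subgroup.zpowers u) → ℂ) c) := by
    intro c
    obtain ⟨i, y, hy, hyr, hc⟩ := decomp hu hidx c.2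
    rw [hf.val ((s : ZMod p) * a) i ⟨y, hy⟩ c hyr hc, hf.val a i ⟨y, hy⟩ c hyr hc, map_mul, hs, hσ, mul_assoc]
    rw [Subgroup.orderOf_mk]; exact hyr
  have h2 : (mm0 θ ψ ((s : ZMod p) * a) : ℂ) = (mm0 θ χ a : ℂ) := by
    have e1 : (mm0 θ ψ ((s : ZMod p) * a) : ℂ) =
        classInner (fun h : Ce (Subgroup.zpowers u) => (ψ : G → ℂ) h) (θ ((s : ZMod p) * a) : Ce (Subgroup.zpowers u) → ℂ) := by
      rw [aa_spec]; rfl
    have e2 : (mm0 θ χ a : ℂ) =
        classInner (fun h : Ce (Subgroup.zpowers u) => (χ : G → ℂ) h) (θ a : Ce (Subgroup.zpowers u) → ℂ) := by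
      rw [aa_spec]; rfl
    have e3 : σ (mm0 θ χ a : ℂ) = (mm0 θ χ a : ℂ) := map_natCast σ _
    rw [← e3, e1, e2, ci_eq_sum_inv _ (IsIrr.isCharacter (θ ((s : ZMod p) * a)).2),
      ci_eq_sum_inv _ (IsIrr.isCharacter (θ a).2), map_mul, map_inv₀, map_natCast, map_sum]
    congr 1
    refine Finset.sum_congr rfl fun c _ => ?_
    rw [map_mul, h1, hψ]
  exact_mod_cast h2

theorem vv_gal (hu : orderOf u = p) (hidx : ¬ p ∣ (Subgroup.zpowers u).index) (hf : Fam p u b θ) {σ : ℂ ≃+* ℂ}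
    (hσ : ∀ (φ : IrrCharacter (Ce (Subgroup.zpowers u))) (y : Ce (Subgroup.zpowers u)), ¬ p ∣ orderOf y →
      σ ((φ : Ce (Subgroup.zpowers u) → ℂ) y) = (φ : Ce (Subgroup.zpowers u) → ℂ) y)
    {s : (ZMod p)ˣ} (hs : ∀ a : ZMod p, σ (Cyh.ee a) = Cyh.ee ((s : ZMod p) * a))
    {χ ψ : IrrCharacter G} (hψ : (ψ : G → ℂ) = fun g => σ ((χ : G → ℂ) g)) (a : ZMod p) :
    vv (mm0 θ) ψ ((s : ZMod p) * a) = vv (mm0 θ) χ a := by
  unfold Cyh.vv
  rw [mm0_gal hu hidx hf hσ hs hψ a]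
  have h := mm0_gal hu hidx hf hσ hs hψ 0
  rw [mul_zero] at h
  rw [h]

end gal

section val

variable {M : Ideal AlgInt} {G : Type*} [Group G] [Fintype G] {p : ℕ} [hp : Fact p.Prime]
  [hMax : M.IsMaximal] [hch : CharP (KM M) p] {u : G} {b : Set (IrrCharacter (Ce (Subgroup.zpowers u)))}
  {B : Set (IrrCharacter G)}

/-- the values of a nonexceptional character on singular elements are fixed -/
theorem sing_fix (hM : IsPModular p M) (hB : IsPBlock M B) (hu : orderOf u = p)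
    (hidx : ¬ p ∣ (Subgroup.zpowers u).index) (hPD : IsDefectGroup p M B (Subgroup.zpowers u))
    (hind : IsInducedBlock M (Ce (Subgroup.zpowers u)) b B) {θ : ZMod p → IrrCharacter (Ce (Subgroup.zpowers u))}
    (hf : Fam p u b θ) {χ : IrrCharacter G} (hχ : χ ∈ B) {d : ℤ} (hd : ∀ a : ZMod p, a ≠ 0 → vv (mm0 θ) χ a = d)
    {σ : ℂ ≃+* ℂ}
    (hσ : ∀ (φ : IrrCharacter (Ce (Subgroup.zpowers u))) (y : Ce (Subgroup.zpowers u)), ¬ p ∣ orderOf y →
      σ ((φ : Ce (Subgroup.zpowers u) → ℂ) y) = (φ : Ce (Subgroup.zpowers u) → ℂ) y)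
    {i : ZMod p} (hi : i ≠ 0) (y : Ce (Subgroup.zpowers u)) (hy : ¬ p ∣ orderOf y) :
    σ ((χ : G → ℂ) (zp p u i * (y : G))) = (χ : G → ℂ) (zp p u i * (y : G)) := by
  classical
  haveI : Fintype (Ce (Subgroup.zpowers u)) := Fintype.ofFinite _
  haveI : Fintype (IrrCharacter G) := Fintype.ofFinite _
  obtain ⟨hcb, hbp, htop⟩ := data hM hB hPD hind
  have hcl : IsClassFunction (Ce (Subgroup.zpowers u))
      (fun c : Ce (Subgroup.zpowers u) => (χ : G → ℂ) (zp p u i * (c : G))) := by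
    intro g x
    show (χ : G → ℂ) (zp p u i * ((x * g * x⁻¹ : Ce (Subgroup.zpowers u)) : G)) = _
    have e1 : zp p u i * ((x * g * x⁻¹ : Ce (Subgroup.zpowers u)) : G) = (x : G) * (zp p u i * g) * (x : G)⁻¹ := by
      have e2 := (zp_comm x.2 (i : ZMod p)).eq
      rw [Subgroup.coe_mul, Subgroup.coe_mul, Subgroup.coe_inv]
      calc zp p u i * ((x : G) * g * (x : G)⁻¹) = (zp p u i * (x : G)) * g * (x : G)⁻¹ := by group
        _ = (x : G) * (zp p u i * g) * (x : G)⁻¹ := by rw [e2]; group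
    rw [e1, IsIrr.isClass χ.2]
  have h1 := sum_parts (M := M) _ hcl y
  have h2 : ∀ b' ∈ blocks (Ce (Subgroup.zpowers u)) M,
      σ (blockPart b' (fun c : Ce (Subgroup.zpowers u) => (χ : G → ℂ) (zp p u i * (c : G))) y) =
      blockPart b' (fun c : Ce (Subgroup.zpowers u) => (χ : G → ℂ) (zp p u i * (c : G))) y := by
    intro b' hb'
    rw [mem_blocks] at hb'
    by_cases hi' : IsInducedBlock M (Ce (Subgroup.zpowers u)) b' B
    · obtain ⟨θ', hf'⟩ := fam_of hM hB hu hidx hPD hi'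
      obtain ⟨h3, j, hj, h4⟩ := conj_dd hM hB hu hidx hPD hind hf hi' hf' χ hi
      rw [bp_dd hu hf' χ hi y hy, h4, dd_const (mm0 θ) χ hd hj, map_mul, map_intCast, hσ _ _ hy]
    · obtain ⟨B', hB'⟩ := ind_def hM (cen_eq hu hi) (zp_ord hu i) hb'
      have h3 : χ ∉ B' := by
        intro h
        have : B' = B := block_eq_of_mem hB'.2.1 hB h hχ
        exact hi' (this ▸ hB')
      rw [sec_zero' hM (cen_eq hu hi) (zp_ord hu i) hB' h3 y hy, map_zero]
  have h3 : (χ : G → ℂ) (zp p u i * (y : G)) = ∑ b' ∈ blocks (Ce (Subgroup.zpowers u)) M,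
      blockPart b' (fun c : Ce (Subgroup.zpowers u) => (χ : G → ℂ) (zp p u i * (c : G))) y := h1
  rw [h3, map_sum]
  exact Finset.sum_congr rfl h2

omit hMax hch in
theorem conj_into (hu : orderOf u = p) (hidx : ¬ p ∣ (Subgroup.zpowers u).index) {x : G}
    (hx : ∃ k : ℕ, orderOf x = p ^ k) : ∃ t : G, t * x * t⁻¹ ∈ Subgroup.zpowers u := by
  let P : Sylow p G := (zp_pg hu).toSylow hidx
  obtain ⟨Q, hQ⟩ := (zpowers_isPGroup hx).exists_le_sylow
  obtain ⟨t, ht⟩ := MulAction.exists_smul_eq G Q P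
  refine ⟨t, ?_⟩
  have h1 : x ∈ (Q : Subgroup G) := hQ (Subgroup.mem_zpowers x)
  have h2 : t * x * t⁻¹ ∈ ((t • Q : Sylow p G) : Subgroup G) := by
    rw [Sylow.coe_subgroup_smul]
    exact Subgroup.smul_mem_pointwise_smul _ _ _ h1
  rw [ht] at h2
  exact h2

/-- the structure theorem with an abstract name for the automizer -/
theorem main_p' (hM : IsPModular p M) (hB : IsPBlock M B) (hu : orderOf u = p)
    (hidx : ¬ p ∣ (Subgroup.zpowers u).index) (hPD : IsDefectGroup p M B (Subgroup.zpowers u))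
    (hind : IsInducedBlock M (Ce (Subgroup.zpowers u)) b B) :
    ∃ H : Subgroup (ZMod p)ˣ,
    ∃ θ : ZMod p → IrrCharacter (Ce (Subgroup.zpowers u)), Fam p u b θ ∧
      ∃ (X Y : Finset (IrrCharacter G)) (δ : IrrCharacter G → ℤ) (ε : ℤ)
      (L : Orb H → IrrCharacter G),
      (∀ χ, χ ∈ B ↔ χ ∈ X ∨ χ ∈ Y) ∧ Disjoint X Y ∧
      X.card = Nat.card H ∧
      Y.card = Nat.card (Orb H) ∧
      (∀ χ ∈ X, (δ χ = 1 ∨ δ χ = -1) ∧ ∀ a : ZMod p, a ≠ 0 → Cyh.vv (mm0 θ) χ a = δ χ) ∧ (ε = 1 ∨ ε = -1) ∧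
      Function.Injective L ∧ (∀ χ, χ ∈ Y ↔ ∃ o, L o = χ) ∧
      (∀ o (x : {x : ZMod p // x ≠ 0}), Cyh.om H x = o →
        Cyh.vv (mm0 θ) (L o) x.1 = -ε) ∧
      (∀ o (x : {x : ZMod p // x ≠ 0}), Cyh.om H x ≠ o →
        Cyh.vv (mm0 θ) (L o) x.1 = 0) ∧
      (∀ o g, ¬ p ∣ orderOf g → (ε : ℂ) * (L o : G → ℂ) g = ∑ χ ∈ X, (δ χ : ℂ) * (χ : G → ℂ) g) := by
  obtain ⟨hcb, hbp, htop, Θ, hfam, h⟩ := main_p hM hB hu hidx hPD hind
  exact ⟨_, Θ, hfam, h⟩

/-- the statement on Galois conjugate exceptional characters -/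
theorem core (hM : IsPModular p M) (hB : IsPBlock M B) (hu : orderOf u = p)
    (hidx : ¬ p ∣ (Subgroup.zpowers u).index) (hPD : IsDefectGroup p M B (Subgroup.zpowers u))
    (hind : IsInducedBlock M (Ce (Subgroup.zpowers u)) b B) (m : ℕ) (hm : m = (Subgroup.zpowers u).index) :
    ∃ Y : Set (IrrCharacter G), Y ⊆ B ∧ Y.Nonempty ∧
      (∀ θ ∈ Y, ∀ ψ : IrrCharacter G, (∃ σ : ℂ ≃+* ℂ,
        σ (Complex.exp (2 * Real.pi * Complex.I / m)) = Complex.exp (2 * Real.pi * Complex.I / m) ∧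
        (ψ : G → ℂ) = fun g => σ ((θ : G → ℂ) g)) ↔ ψ ∈ Y) ∧
      (∀ χ ∈ B, χ ∉ Y → ∀ ψ : IrrCharacter G, (∃ σ : ℂ ≃+* ℂ,
        σ (Complex.exp (2 * Real.pi * Complex.I / m)) = Complex.exp (2 * Real.pi * Complex.I / m) ∧
        (ψ : G → ℂ) = fun g => σ ((χ : G → ℂ) g)) → ψ = χ) ∧
      Nat.card Y ∣ p - 1 ∧ Nat.card B = Nat.card Y + (p - 1) / Nat.card Y ∧
      ∃ δ : IrrCharacter G → ℤ, (∀ χ ∈ B, δ χ = 1 ∨ δ χ = -1) ∧ ∀ x : G, ¬ p ∣ orderOf x → ∀ θ ∈ Y,
        (∑ᶠ χ ∈ B \ Y, (δ χ : ℂ) * (χ : G → ℂ) x) + (δ θ : ℂ) * (θ : G → ℂ) x = 0 := by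
  classical
  obtain ⟨H, Θ, hfam, X, Y, δ, ε, L, hmem, hdis, hXc, hYc, hδ, hε, hLinj, hLY, hL1, hL2, hrel⟩ :=
    main_p' hM hB hu hidx hPD hind
  haveI : Fact (1 < p) := ⟨hp.out.one_lt⟩
  have hm0 : m ≠ 0 := by rw [hm]; exact Subgroup.index_ne_zero_of_finite
  have hcardG : p * m = Nat.card G := by
    rw [hm, mul_comm, ← hu, ← Nat.card_zpowers]
    exact (Subgroup.zpowers u).index_mul_card
  -- p-regular elements have order dividing m
  have hreg : ∀ (K : Subgroup G) (y : K), ¬ p ∣ orderOf y → y ^ m = 1 := by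
    intro K y hy
    rw [← orderOf_dvd_iff_pow_eq_one]
    have h1 : orderOf y ∣ p * m := by
      rw [hcardG]; exact (orderOf_dvd_natCard y).trans (Subgroup.card_subgroup_dvd_card K)
    exact (Nat.Coprime.dvd_of_dvd_mul_left ((hp.out.coprime_iff_not_dvd.2 hy).symm) h1)
  have hregG : ∀ y : G, ¬ p ∣ orderOf y → y ^ m = 1 := by
    intro y hy
    rw [← orderOf_dvd_iff_pow_eq_one]
    have h1 : orderOf y ∣ p * m := by
      rw [hcardG]; exact orderOf_dvd_natCard y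
    exact (Nat.Coprime.dvd_of_dvd_mul_left ((hp.out.coprime_iff_not_dvd.2 hy).symm) h1)
  have hσC : ∀ σ : ℂ ≃+* ℂ, σ (Complex.exp (2 * Real.pi * Complex.I / m)) = Complex.exp (2 * Real.pi * Complex.I / m) →
      ∀ (φ : IrrCharacter (Ce (Subgroup.zpowers u))) (y : Ce (Subgroup.zpowers u)), ¬ p ∣ orderOf y →
      σ ((φ : Ce (Subgroup.zpowers u) → ℂ) y) = (φ : Ce (Subgroup.zpowers u) → ℂ) y := fun σ hσ φ y hy =>
    fix_val hm0 hσ (IsIrr.isCharacter φ.2) (hreg _ y hy)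
  -- nonexceptional characters are fixed
  have hXfix : ∀ χ ∈ X, ∀ σ : ℂ ≃+* ℂ,
      σ (Complex.exp (2 * Real.pi * Complex.I / m)) = Complex.exp (2 * Real.pi * Complex.I / m) →
      ∀ g : G, σ ((χ : G → ℂ) g) = (χ : G → ℂ) g := by
    intro χ hχ σ hσ g
    have hχB : χ ∈ B := (hmem χ).2 (Or.inl hχ)
    obtain ⟨x, y, hxy, hcm, hx, hy⟩ := exists_ppart (p := p) g
    by_cases hx1 : x = 1
    · rw [hx1, one_mul] at hxy
      rw [← hxy]
      exact fix_val hm0 hσ (IsIrr.isCharacter χ.2) (hregG y hy)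
    · obtain ⟨t, ht⟩ := conj_into hu hidx hx
      obtain ⟨i, hi⟩ := (mem_zpowers_iff hu _).1 ht
      have hi0 : i ≠ 0 := by
        rintro rfl
        rw [zp_zero] at hi
        apply hx1
        have : x = t⁻¹ * (t * x * t⁻¹) * t := by group
        rw [this, hi]; group
      have hyC : t * y * t⁻¹ ∈ Ce (Subgroup.zpowers u) := by
        have h1 : Subgroup.centralizer ({zp p u i} : Set G) = Ce (Subgroup.zpowers u) := (cen_eq hu hi0).symm
        rw [← h1, Subgroup.mem_centralizer_singleton_iff, ← hi]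
        have := hcm.eq
        calc t * y * t⁻¹ * (t * x * t⁻¹) = t * (y * x) * t⁻¹ := by group
          _ = t * (x * y) * t⁻¹ := by rw [this]
          _ = t * x * t⁻¹ * (t * y * t⁻¹) := by group
      have hyr : ¬ p ∣ orderOf (⟨t * y * t⁻¹, hyC⟩ : Ce (Subgroup.zpowers u)) := by
        rw [Subgroup.orderOf_mk, orderOf_conj]; exact hy
      have h1 := sing_fix hM hB hu hidx hPD hind hfam hχB (hδ χ hχ).2 (hσC σ hσ) hi0 ⟨t * y * t⁻¹, hyC⟩ hyr
      have h2 : (χ : G → ℂ) g = (χ : G → ℂ) (zp p u i * (t * y * t⁻¹)) := by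
        rw [← hi, ← hxy]
        have : t * x * t⁻¹ * (t * y * t⁻¹) = t * (x * y) * t⁻¹ := by group
        rw [this, IsIrr.isClass χ.2]
      rw [h2]; exact h1
  have hcO := card_orb H free_HT
  rw [← hYc] at hcO
  have hYpos : 0 < Y.card := by
    rw [hYc]
    haveI : Nonempty (Orb H) := ⟨Cyh.om H ⟨1, one_ne_zero⟩⟩
    exact Nat.card_pos
  -- Galois conjugates of exceptional characters are exceptional
  have hvB : ∀ ψ : IrrCharacter G, (∃ a : ZMod p, Cyh.vv (mm0 Θ) ψ a ≠ 0) → ψ ∈ B := by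
    rintro ψ ⟨a, ha⟩
    by_contra hψ
    exact ha (vv_out hM hu hfam hind hψ a)
  have hYgal : ∀ θ ∈ Y, ∀ (ψ : IrrCharacter G) (σ : ℂ ≃+* ℂ),
      σ (Complex.exp (2 * Real.pi * Complex.I / m)) = Complex.exp (2 * Real.pi * Complex.I / m) →
      (ψ : G → ℂ) = (fun g => σ ((θ : G → ℂ) g)) → ψ ∈ Y := by
    intro θ hθ ψ σ hσ hψ
    obtain ⟨s, hs⟩ := act_ee (p := p) σ
    obtain ⟨o, rfl⟩ := (hLY θ).1 hθ
    have h1 := vv_gal hu hidx hfam (hσC σ hσ) hs hψ (rp H o).1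
    rw [hL1 o (rp H o) (om_rp H o)] at h1
    have h2 : ψ ∈ B := hvB ψ ⟨_, by rw [h1]; rcases hε with h | h <;> rw [h] <;> norm_num⟩
    rcases (hmem ψ).1 h2 with h3 | h3
    · exfalso
      have hσ' : σ.symm (Complex.exp (2 * Real.pi * Complex.I / m)) = Complex.exp (2 * Real.pi * Complex.I / m) := by
        rw [RingEquiv.symm_apply_eq]; exact hσ.symm
      have h4 := hXfix ψ h3 σ.symm hσ'
      have h5 : L o = ψ := by
        apply Subtype.ext
        funext g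
        rw [← h4 g, hψ]
        exact (σ.symm_apply_apply _).symm
      have h6 : L o ∈ X := by rw [h5]; exact h3
      exact (Finset.disjoint_left.1 hdis h6) ((hLY _).2 ⟨o, rfl⟩)
    · exact h3
  refine ⟨(Y : Set (IrrCharacter G)), ?_, ?_, ?_, ?_, ?_, ?_, ?_⟩
  · intro χ hχ
    exact (hmem χ).2 (Or.inr hχ)
  · obtain ⟨χ, hχ⟩ := Finset.card_pos.1 hYpos
    exact ⟨χ, hχ⟩
  · intro θ hθ ψ
    constructor
    · rintro ⟨σ, hσ, hψ⟩
      exact hYgal θ hθ ψ σ hσ hψ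
    · intro hψ
      obtain ⟨o, rfl⟩ := (hLY θ).1 hθ
      obtain ⟨o', rfl⟩ := (hLY ψ).1 hψ
      -- an automorphism
      set s : ZMod p := (rp H o').1 * ((rp H o).1)⁻¹ with hs
      have hs0 : s ≠ 0 := mul_ne_zero (rp H o').2 (inv_ne_zero (rp H o).2)
      have hpm : Nat.Coprime p m := by
        rw [hp.out.coprime_iff_not_dvd, hm]; exact hidx
      obtain ⟨k, hk1, hk2⟩ := Nat.chineseRemainder hpm s.val 1
      have hkp : Nat.Coprime k p := by
        rw [Nat.coprime_comm, hp.out.coprime_iff_not_dvd]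
        intro h
        have h1 : (k : ZMod p) = s := by
          have := (ZMod.natCast_eq_natCast_iff k s.val p).2 hk1
          rw [this, ZMod.natCast_zmod_val]
        rw [(ZMod.natCast_eq_zero_iff k p).2 h] at h1
        exact hs0 h1.symm
      have hkm : Nat.Coprime k m := by
        have := hk2.gcd_eq
        rw [Nat.gcd_one_left] at this
        exact this
      haveI : NeZero (p * m) := ⟨mul_ne_zero hp.out.ne_zero hm0⟩
      obtain ⟨σ, hσ⟩ := exists_aut (p * m) k (Nat.Coprime.mul_right hkp hkm)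
      have hσm : σ (Complex.exp (2 * Real.pi * Complex.I / m)) = Complex.exp (2 * Real.pi * Complex.I / m) := by
        have hprim := Complex.isPrimitiveRoot_exp m hm0
        rw [hσ _ (by rw [mul_comm p m, pow_mul, hprim.pow_eq_one, one_pow])]
        have h1 := pow_mod_orderOf (Complex.exp (2 * Real.pi * Complex.I / m)) k
        rw [← hprim.eq_orderOf] at h1
        rw [← h1, hk2]
        have h2 := pow_mod_orderOf (Complex.exp (2 * Real.pi * Complex.I / m)) 1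
        rw [← hprim.eq_orderOf, pow_one] at h2
        exact h2
      have hσp : ∀ a : ZMod p, σ (Cyh.ee a) = Cyh.ee (s * a) := by
        intro a
        have h1 : Cyh.ee a ^ p = 1 := by
          have h2 : ∀ n : ℕ, Cyh.ee a ^ n = Cyh.ee (a * (n : ZMod p)) := by
            intro n
            induction n with
            | zero => rw [pow_zero, Nat.cast_zero, mul_zero, Cyh.ee_zero]
            | succ n ih => rw [pow_succ, ih, ← Cyh.ee_add]; congr 1; push_cast; ring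
          rw [h2, CharP.cast_eq_zero, mul_zero, Cyh.ee_zero]
        rw [hσ _ (by rw [pow_mul, h1, one_pow])]
        have h2 : ∀ n : ℕ, Cyh.ee a ^ n = Cyh.ee (a * (n : ZMod p)) := by
          intro n
          induction n with
          | zero => rw [pow_zero, Nat.cast_zero, mul_zero, Cyh.ee_zero]
          | succ n ih => rw [pow_succ, ih, ← Cyh.ee_add]; congr 1; push_cast; ring
        rw [h2]
        have h3 : (k : ZMod p) = s := by
          have := (ZMod.natCast_eq_natCast_iff k s.val p).2 hk1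
          rw [this, ZMod.natCast_zmod_val]
        rw [h3, mul_comm]
      refine ⟨σ, hσm, ?_⟩
      -- the conjugate
      have hirr : IsIrrCharacter G (fun g => σ ((L o : G → ℂ) g)) := gal_irr (σ : ℂ →+* ℂ) (L o).2
      have h4 := hYgal (L o) hθ ⟨_, hirr⟩ σ hσm rfl
      obtain ⟨o'', ho''⟩ := (hLY _).1 h4
      have h5 := vv_gal hu hidx hfam (hσC σ hσm) (s := Units.mk0 s hs0) hσp
        (χ := L o) (ψ := ⟨_, hirr⟩) rfl (rp H o).1
      rw [hL1 o (rp H o) (om_rp H o), ← ho''] at h5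
      have h6 : ((Units.mk0 s hs0 : (ZMod p)ˣ) : ZMod p) * (rp H o).1 = (rp H o').1 := by
        rw [Units.val_mk0, hs, mul_assoc, inv_mul_cancel₀ (rp H o).2, mul_one]
      rw [h6] at h5
      have h7 : o' = o'' := by
        by_contra hne
        have := hL2 o'' (rp H o') (by rw [om_rp]; exact hne)
        rw [this] at h5
        rcases hε with h | h <;> rw [h] at h5 <;> norm_num at h5
      rw [h7, ho'']
  · rintro χ hχ hχY ψ ⟨σ, hσ, hψ⟩
    have hχX : χ ∈ X := by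
      rcases (hmem χ).1 hχ with h | h
      · exact h
      · exact absurd h hχY
    apply Subtype.ext
    funext g
    rw [hψ]
    exact hXfix χ hχX σ hσ g
  · rw [Nat.card_coe_set_eq, Set.ncard_coe_finset]
    exact ⟨Nat.card H, by rw [mul_comm]; exact hcO.symm⟩
  · rw [Nat.card_coe_set_eq (s := (Y : Set (IrrCharacter G))), Set.ncard_coe_finset]
    have h1 : B = ((X ∪ Y : Finset (IrrCharacter G)) : Set (IrrCharacter G)) := by
      ext χ
      rw [hmem, Finset.coe_union]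
      simp
    rw [h1, Nat.card_coe_set_eq, Set.ncard_coe_finset, Finset.card_union_of_disjoint hdis, hXc, ← hcO,
      Nat.mul_div_cancel _ hYpos, add_comm]
  · refine ⟨fun χ => if χ ∈ Y then -ε else δ χ, ?_, ?_⟩
    · intro χ hχ
      beta_reduce
      split_ifs with hY
      · rcases hε with h | h <;> rw [h] <;> norm_num
      · rcases (hmem χ).1 hχ with h | h
        · exact (hδ χ h).1
        · exact absurd h hY
    · intro x hx θ hθ
      obtain ⟨o, rfl⟩ := (hLY θ).1 hθ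
      have h1 := hrel o x hx
      have h2 : B \ (Y : Set (IrrCharacter G)) = (X : Set (IrrCharacter G)) := by
        ext χ
        rw [Set.mem_diff, hmem]
        constructor
        · rintro ⟨h | h, h'⟩
          · exact h
          · exact absurd h h'
        · intro h
          exact ⟨Or.inl h, Finset.disjoint_left.1 hdis h⟩
      rw [h2, finsum_mem_coe_finset]
      beta_reduce
      have h3 : ∑ χ ∈ X, (((if χ ∈ Y then -ε else δ χ : ℤ)) : ℂ) * (χ : G → ℂ) x = ∑ χ ∈ X, (δ χ : ℂ) * (χ : G → ℂ) x := by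
        refine Finset.sum_congr rfl fun χ hχ => ?_
        rw [if_neg (Finset.disjoint_left.1 hdis hχ)]
      rw [h3, ← h1, if_pos (by exact hθ)]
      push_cast
      ring

theorem core2 (hM : IsPModular p M) (hdiv : p ∣ Nat.card G) (hsq : ¬ p ^ 2 ∣ Nat.card G) (hB : IsPBlock M B)
    (hd : 0 < blockDefect p B) :
    ∃ Y : Set (IrrCharacter G), Y ⊆ B ∧ Y.Nonempty ∧
      (∀ θ ∈ Y, ∀ ψ : IrrCharacter G, (∃ σ : ℂ ≃+* ℂ,
        σ (Complex.exp (2 * Real.pi * Complex.I / ((Nat.card G / p ^ (Nat.card G).factorization p) : ℕ))) =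
          Complex.exp (2 * Real.pi * Complex.I / ((Nat.card G / p ^ (Nat.card G).factorization p) : ℕ)) ∧
        (ψ : G → ℂ) = fun g => σ ((θ : G → ℂ) g)) ↔ ψ ∈ Y) ∧
      (∀ χ ∈ B, χ ∉ Y → ∀ ψ : IrrCharacter G, (∃ σ : ℂ ≃+* ℂ,
        σ (Complex.exp (2 * Real.pi * Complex.I / ((Nat.card G / p ^ (Nat.card G).factorization p) : ℕ))) =
          Complex.exp (2 * Real.pi * Complex.I / ((Nat.card G / p ^ (Nat.card G).factorization p) : ℕ)) ∧
        (ψ : G → ℂ) = fun g => σ ((χ : G → ℂ) g)) → ψ = χ) ∧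
      Nat.card Y ∣ p - 1 ∧ Nat.card B = Nat.card Y + (p - 1) / Nat.card Y ∧
      ∃ δ : IrrCharacter G → ℤ, (∀ χ ∈ B, δ χ = 1 ∨ δ χ = -1) ∧ ∀ x : G, ¬ p ∣ orderOf x → ∀ θ ∈ Y,
        (∑ᶠ χ ∈ B \ Y, (δ χ : ℂ) * (χ : G → ℂ) x) + (δ θ : ℂ) * (θ : G → ℂ) x = 0 := by
  obtain ⟨P, E, hbp, htop⟩ := H25.STs.exists_max (M := M) (p := p) hB
  have hPD : IsDefectGroup p M B P := (defectG_iff hM hB).2 (BPDef.Top.dgh htop hbp)
  have hPc := card_defectGroup hM hB hPD
  have hd1 : blockDefect p B = 1 := by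
    by_contra hne
    apply hsq
    have h2 : 2 ≤ blockDefect p B := by omega
    exact ((pow_dvd_pow p h2).trans (hPc ▸ Subgroup.card_subgroup_dvd_card P))
  rw [hd1, pow_one] at hPc
  have hidx : ¬ p ∣ P.index := by
    intro h
    apply hsq
    rw [← P.card_mul_index, hPc, pow_two]
    exact Nat.mul_dvd_mul_left p h
  have hfac : (Nat.card G).factorization p = 1 := by
    rw [← P.card_mul_index, hPc, Nat.factorization_mul hp.out.ne_zero Subgroup.index_ne_zero_of_finite]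
    rw [Finsupp.add_apply, hp.out.factorization_self, Nat.factorization_eq_zero_of_not_dvd hidx]
  have hm : Nat.card G / p ^ (Nat.card G).factorization p = P.index := by
    rw [hfac, pow_one, ← P.card_mul_index, hPc, Nat.mul_div_cancel_left _ hp.out.pos]
  obtain ⟨b, hb, hbE⟩ := exists_ep hbp.be
  have hind : IsInducedBlock M (Ce P) b B :=
    ((H25.BPInd.bpo_iff_induced hM).1 (bpo_iff.2 ⟨hB, hb, by rw [hbE]; exact hbp⟩)).2
  rw [hm]
  obtain ⟨u, hu, rfl⟩ := exists_zp hPc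
  exact core hM hB hu hidx hPD hind _ rfl

end val

end Cfsg.Agent.H25.Cyr
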