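import Cfsg.Statements.S4710
import Cfsg.Agent.H25_BlockReg2

set_option autoImplicit false
open Cfsg

namespace Cfsg.Agent.S4710

open Cfsg.Agent.H25.BlockReg Cfsg.Agent.H25.BlockReg2 Cfsg.Agent.H10.BlockIdem


/-- Let p be a prime, M a maximal ideal of the algebraic integers containing p, and B a p-block of defect d of the finite group G containing k irreducible characters. If B contains a character of positive height then 2k ≤ p^(2d − 2); and every character in B has height 0 when d ≤ 1 and height at most d − 2 when d ≥ 2. -/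
theorem result {G : Type*} [Group G] [Finite G] (p : ℕ) [Fact p.Prime] (M : Ideal Cfsg.AlgInt) (hM : Cfsg.IsPModular p M) (B : Set (Cfsg.IrrCharacter G)) (hB : Cfsg.IsPBlock M B) (d : ℕ) (hd : Cfsg.blockDefect p B = d) : ((∃ χ ∈ B, 0 < Cfsg.blockHeight p B (χ : G → ℂ)) → 2 * Nat.card B ≤ p ^ (2 * d - 2)) ∧ ∀ χ ∈ B, (d ≤ 1 → Cfsg.blockHeight p B (χ : G → ℂ) = 0) ∧ (2 ≤ d → Cfsg.blockHeight p B (χ : G → ℂ) ≤ d - 2) := by
  have : Fintype G := Fintype.ofFinite G
  have : Finite (IrrCharacter G) := Cfsg.Agent.H3.CharIrr.finite_irr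
  subst hd
  refine ⟨?_, ?_⟩
  · rintro ⟨χ, hχ, h0⟩
    obtain ⟨h1, h2⟩ := pos_height hM hB hχ h0
    have h3 := card_pos_height (p := p) hM hB
    have h4 := card_block (p := p) B
    set a := ∑ᶠ ψ ∈ B, (if blockHeight p B (ψ : G → ℂ) = 0 then 1 else 0)
    set b := ∑ᶠ ψ ∈ B, (if blockHeight p B (ψ : G → ℂ) = 0 then 0 else 1)
    have h5 : p ^ (2 * (blockDefect p B - blockHeight p B (χ : G → ℂ))) ≤ p ^ (2 * blockDefect p B - 2) :=
      Nat.pow_le_pow_right hM.1.pos (by omega)
    have h6 : p ^ (2 * blockDefect p B) = p ^ 2 * p ^ (2 * blockDefect p B - 2) := by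
      rw [← pow_add]; congr 1; omega
    have h7 : 4 * b ≤ p ^ (2 * blockDefect p B - 2) := by
      have h8 : p ^ 2 * (4 * b) ≤ p ^ 2 * p ^ (2 * blockDefect p B - 2) := by
        rw [← h6]; refine le_trans (le_of_eq ?_) h3; ring
      exact Nat.le_of_mul_le_mul_left h8 (pow_pos hM.1.pos 2)
    rw [h4]
    omega
  · intro χ hχ
    refine ⟨fun h1 => ?_, fun h1 => ?_⟩
    · by_contra h2
      have := (pos_height hM hB hχ (Nat.pos_of_ne_zero h2)).1
      omega
    · rcases Nat.eq_zero_or_pos (blockHeight p B (χ : G → ℂ)) with h2 | h2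
      · rw [h2]; exact Nat.zero_le _
      · have := (pos_height hM hB hχ h2).1
        omega

end Cfsg.Agent.S4710
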