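import Mathlib
import Cfsg.Agent.H25_Czv
import Cfsg.Agent.H25_Major
import Cfsg.Agent.S4710
import Cfsg.Agent.S4716

/-!
H25_Czx: the number of characters in a block of defect d.
-/

set_option autoImplicit false
set_option linter.unusedSectionVars false

open scoped ComplexConjugate

universe u

namespace Cfsg.Agent.H25.Czx

open Cfsg Cfsg.Agent.H3 Cfsg.Agent.H3.CharIrr Cfsg.Agent.H3.CharComplete Cfsg.Agent.H3.CharBasic
  Cfsg.Agent.H10.BlockLoc Cfsg.Agent.H10.BlockAlg Cfsg.Agent.H10.BlockIdem Cfsg.Agent.H10.Char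
  Cfsg.Agent.H10.BlockSMT Cfsg.Agent.H10.BlockSMT2 Cfsg.Agent.H10.BlockTrace Cfsg.Agent.H10.BlockDefect
  Cfsg.Agent.H10.BlockMain Cfsg.Agent.H10.BlockHZ Cfsg.Agent.H10.BlockOrth Cfsg.Agent.H10.BlockNormal
  Cfsg.Agent.H10.PPart Cfsg.Agent.H25.IndCong Cfsg.Agent.H25.Red Cfsg.Agent.H25.KG
  Cfsg.Agent.H25.Sub Cfsg.Agent.H25.Sub2 Cfsg.Agent.H25.Sub3 Cfsg.Agent.H25.Sub5 Cfsg.Agent.H25.Sub7 Cfsg.Agent.H10.BlockKer
  Cfsg.Agent.H10.RegPart Cfsg.Agent.H10.BlockQuot Cfsg.Agent.H25.Dom Cfsg.Agent.H25.AbSec Cfsg.Agent.H25.AbSec2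
  Cfsg.Agent.H25.Czq Cfsg.Agent.H25.Czs Cfsg.Agent.H25.Czt Cfsg.Agent.H25.Czu Cfsg.Agent.H25.Czv

theorem two_gen {p : ℕ} [hp : Fact p.Prime] {G : Type*} [Group G] [Finite G] {D : Subgroup G} {d : ℕ} (hD : Nat.card D = p ^ d)
    (hd : d ≤ 2) : ∃ z w : G, D = Subgroup.closure {z, w} := by
  classical
  by_cases h0 : D = ⊥
  · exact ⟨1, 1, by rw [h0, Set.pair_eq_singleton]; exact Subgroup.closure_singleton_one.symm⟩
  obtain ⟨⟨z, hz⟩, hz1'⟩ := Subgroup.ne_bot_iff_exists_ne_one.1 h0
  have hz1 : z ≠ 1 := fun h => hz1' (Subtype.ext h)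
  have hcl : Subgroup.zpowers z = Subgroup.closure {z} := Subgroup.zpowers_eq_closure z
  by_cases h1 : Subgroup.zpowers z = D
  · exact ⟨z, z, by rw [← h1, hcl]; simp⟩
  have hlt : Subgroup.zpowers z < D := lt_of_le_of_ne (Subgroup.zpowers_le.2 hz) h1
  obtain ⟨w, hw, hwz⟩ := SetLike.exists_of_lt hlt
  refine ⟨z, w, ?_⟩
  symm
  have hle : Subgroup.closure {z, w} ≤ D := by
    rw [Subgroup.closure_le]
    rintro x (rfl | rfl)
    · exact hz
    · exact hw
  apply Subgroup.eq_of_le_of_card_ge hle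
  rw [hD]
  have h2 : Nat.card (Subgroup.closure {z, w}) ∣ p ^ d := by
    rw [← hD]; exact Subgroup.card_dvd_of_le hle
  obtain ⟨j, -, hj⟩ := (Nat.dvd_prime_pow hp.out).1 h2
  have h3 : Nat.card (Subgroup.zpowers z) ∣ p ^ d := by
    rw [← hD]; exact Subgroup.card_dvd_of_le hlt.le
  obtain ⟨i, -, hi⟩ := (Nat.dvd_prime_pow hp.out).1 h3
  have hi1 : 1 ≤ i := by
    by_contra h
    have : i = 0 := by omega
    rw [this, pow_zero, Nat.card_zpowers, orderOf_eq_one_iff] at hi
    exact hz1 hi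
  have h4 : Subgroup.zpowers z < Subgroup.closure {z, w} := by
    refine lt_of_le_of_ne (Subgroup.zpowers_le.2 (Subgroup.subset_closure (Set.mem_insert _ _))) (fun h => hwz ?_)
    rw [h]; exact Subgroup.subset_closure (Set.mem_insert_of_mem _ rfl)
  have h5 : Nat.card (Subgroup.zpowers z) < Nat.card (Subgroup.closure {z, w}) := by
    by_contra h
    exact h4.ne (Subgroup.eq_of_le_of_card_ge h4.le (not_lt.1 h))
  rw [hi, hj] at h5
  have h6 := (Nat.pow_lt_pow_iff_right hp.out.one_lt).1 h5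
  rw [hj]
  exact Nat.pow_le_pow_right hp.out.pos (by omega)

theorem small_ab {p : ℕ} [hp : Fact p.Prime] {G : Type*} [Group G] [Finite G] {D : Subgroup G} {d : ℕ} (hD : Nat.card D = p ^ d)
    (hd : d ≤ 2) : ∀ x ∈ D, ∀ y ∈ D, x * y = y * x := by
  intro x hx y hy
  have key : (⟨x, hx⟩ : D) * ⟨y, hy⟩ = ⟨y, hy⟩ * ⟨x, hx⟩ := by
    have h3 : d = 0 ∨ d = 1 ∨ d = 2 := by omega
    rcases h3 with rfl | rfl | rfl
    · haveI := (Nat.card_eq_one_iff_unique.1 (by rw [hD, pow_zero])).1
      exact Subsingleton.elim _ _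
    · haveI : IsCyclic D := isCyclic_of_prime_card (p := p) (by rw [hD, pow_one])
      exact (IsCyclic.isMulCommutative (α := D)).is_comm.comm _ _
    · exact IsPGroup.commutative_of_card_eq_prime_sq hD _ _
  exact congrArg Subtype.val key

theorem key (p : ℕ) [hp : Fact p.Prime] (M : Ideal AlgInt) (hM : IsPModular p M) : ∀ d : ℕ, ∀ (G : Type u) [Group G] [Fintype G]
    (B : Set (IrrCharacter G)), IsPBlock M B → blockDefect p B = d →
    (d ≤ 2 → Nat.card B ≤ p ^ d) ∧ (3 ≤ d → Nat.card B ≤ p ^ (2 * d - 2)) := by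
  intro d
  induction d using Nat.strong_induction_on with
  | _ d ih =>
  intro G _ _ B hB hd
  classical
  haveI := hM.2.1
  obtain ⟨D, hD⟩ := exists_defectGroup (p := p) hB
  have hDc := card_defectGroup hM hB hD
  rw [hd] at hDc
  refine ⟨fun h2 => ?_, fun h3 => ?_⟩
  · obtain ⟨z, w, hgen⟩ := two_gen hDc h2
    rw [← hDc]
    exact k_le hM hB hD (small_ab hDc h2) hgen
  · by_cases hpos : ∃ χ ∈ B, 0 < blockHeight p B (χ : G → ℂ)
    · have h1 := (Cfsg.Agent.S4710.result p M hM B hB d hd).1 hpos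
      omega
    · have hh : ∀ χ ∈ B, blockHeight p B (χ : G → ℂ) = 0 := by
        intro χ hχ
        by_contra hne
        exact hpos ⟨χ, hχ, Nat.pos_of_ne_zero hne⟩
      have hDp : IsPGroup p D := IsPGroup.of_card hDc
      haveI : Nontrivial D := by
        rw [← Finite.one_lt_card_iff_nontrivial, hDc]
        exact Nat.one_lt_pow (by omega) hp.out.one_lt
      haveI := hDp.center_nontrivial
      obtain ⟨n, hn0, hn⟩ := (hDp.to_subgroup (Subgroup.center D)).nontrivial_iff_card.1 inferInstance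
      obtain ⟨y, hy⟩ := exists_prime_orderOf_dvd_card' (G := Subgroup.center D) p (by rw [hn]; exact dvd_pow_self p hn0.ne')
      set z : G := ((y : D) : G) with hz
      have hzo : orderOf z = p := by rw [hz, Subgroup.orderOf_coe, Subgroup.orderOf_coe, hy]
      have hzD : z ∈ D := (y : D).2
      have hzc : ∀ t ∈ D, t * z = z * t := fun t ht =>
        congrArg Subtype.val ((Subgroup.mem_center_iff.1 y.2) ⟨t, ht⟩)
      have hzp : ∃ k : ℕ, orderOf z = p ^ k := ⟨1, by rw [pow_one]; exact hzo⟩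
      obtain ⟨b, hind, hbD⟩ := H25.Major.exists_major hM hB hD hzD hzc
      have hb := hind.1
      haveI : Fintype (Subgroup.centralizer ({z} : Set G)) := Fintype.ofFinite _
      haveI : Fintype (IrrCharacter (Subgroup.centralizer ({z} : Set G))) := Fintype.ofFinite _
      haveI : Fintype (IrrCharacter G) := Fintype.ofFinite _
      haveI := zpN_normal z
      haveI : Fintype (Subgroup.centralizer ({z} : Set G) ⧸ Subgroup.zpowers (zz z)) := Fintype.ofFinite _
      haveI : Fintype (IrrCharacter (Subgroup.centralizer ({z} : Set G) ⧸ Subgroup.zpowers (zz z))) := Fintype.ofFinite _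
      have hDC : D ≤ Subgroup.centralizer ({z} : Set G) := by
        intro t ht
        rw [Subgroup.mem_centralizer_singleton_iff]
        exact hzc t ht
      have hbc := card_defectGroup hM hb hbD
      rw [Nat.card_congr (Subgroup.subgroupOfEquivOfLe hDC).toEquiv, hDc] at hbc
      have hbd : blockDefect p b = d := (Nat.pow_right_injective hp.out.two_le hbc).symm
      have h1 := Cfsg.Agent.S4716.result p M hM B hB d hd hh z hzp b hind hbd
      have hNp := zpN_pg (z := z) hzp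
      have hCe := zpN_cen (p := p) (z := z)
      have hle : Subgroup.zpowers (zz z) ≤ D.subgroupOf (Subgroup.centralizer ({z} : Set G)) := normal_le_defectGroup hM hb hbD _ hNp
      have hcardN : Nat.card (Subgroup.zpowers (zz z)) = orderOf z := by
        rw [Nat.card_zpowers]
        exact (Subgroup.orderOf_coe (zz z)).symm
      obtain ⟨Bq, hBq, hsub, hdef⟩ := H25.Dom2.exists_dominated (Subgroup.zpowers (zz z)) hM hNp hb
      obtain ⟨φ, hφ⟩ := block_nonempty hBq
      have h2 : Bq = Bb (Subgroup.zpowers (zz z)) b :=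
        block_eq_of_mem hBq (Bb_isPBlock _ hM hNp hCe hb) hφ (hsub φ hφ)
      have h4 := card_defectGroup hM hBq ((hdef _).2 ⟨_, hbD, rfl⟩)
      have hcm := card_map_mk hle
      rw [hcardN, hzo, h4, Nat.card_congr (Subgroup.subgroupOfEquivOfLe hDC).toEquiv, hDc] at hcm
      have h5 : blockDefect p Bq = d - 1 := by
        have h6 : p ^ (blockDefect p Bq + 1) = p ^ d := by rw [pow_succ]; exact hcm
        have h7 := Nat.pow_right_injective hp.out.two_le h6
        omega
      have h6 := ih (d - 1) (by omega) _ Bq hBq h5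
      have h7 : Nat.card Bq ≤ p ^ (2 * d - 4) := by
        rcases Nat.eq_or_lt_of_le h3 with h8 | h8
        · refine (h6.1 (by omega)).trans (Nat.pow_le_pow_right hp.out.pos (by omega))
        · refine (h6.2 (by omega)).trans (Nat.pow_le_pow_right hp.out.pos (by omega))
      have h8 : blockRank p b ≤ p ^ (2 * d - 4) := by
        rw [rank_Bb (Subgroup.zpowers (zz z)) hM hNp hCe hb, ← h2]
        exact (rank_le_card hM hBq).trans h7
      have h9 : Nat.card B ^ 2 ≤ (p ^ (2 * d - 2)) ^ 2 := by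
        calc Nat.card B ^ 2 ≤ p ^ (2 * d) * blockRank p b := h1
          _ ≤ p ^ (2 * d) * p ^ (2 * d - 4) := Nat.mul_le_mul_left _ h8
          _ = (p ^ (2 * d - 2)) ^ 2 := by
            rw [← pow_add, ← pow_mul]; congr 1; omega
      exact (Nat.pow_le_pow_iff_left (by norm_num)).1 h9

end Cfsg.Agent.H25.Czx
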