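import Mathlib
import Cfsg.Agent.H25_Czu
import Cfsg.Agent.H25_SLe
import Cfsg.Agent.H25_Dom2

/-!
H25_Czy: blocks of the stabiliser of a Brauer pair with a character of large degree.
-/

set_option autoImplicit false
set_option linter.unusedSectionVars false

open scoped ComplexConjugate

namespace Cfsg.Agent.H25.Czy

open Cfsg Cfsg.Agent.H3 Cfsg.Agent.H3.CharIrr Cfsg.Agent.H3.CharComplete Cfsg.Agent.H3.CharBasic Cfsg.Agent.H3.CharInd
  Cfsg.Agent.H10.BlockLoc Cfsg.Agent.H10.BlockAlg Cfsg.Agent.H10.BlockIdem Cfsg.Agent.H10.Char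
  Cfsg.Agent.H10.BlockSMT Cfsg.Agent.H10.BlockSMT2 Cfsg.Agent.H10.BlockTrace Cfsg.Agent.H10.BlockDefect
  Cfsg.Agent.H10.BlockMain Cfsg.Agent.H10.BlockHZ Cfsg.Agent.H10.BlockOrth Cfsg.Agent.H10.BlockNormal
  Cfsg.Agent.H10.PPart Cfsg.Agent.H25.IndCong Cfsg.Agent.H25.Red
  Cfsg.Agent.H25.Sub Cfsg.Agent.H10.BlockKer
  Cfsg.Agent.H10.RegPart Cfsg.Agent.H10.BlockQuot Cfsg.Agent.H25.Dom

section
variable {G : Type*} [Group G] [Fintype G]

/-- the block component of a class function of a subgroup -/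
theorem bpr {H : Type*} [Group H] [Fintype H] (b : Set (IrrCharacter H)) {f : H → ℂ} (hf : IsClassFunction H f) (y : H) :
    blockPart b f y = ∑ k : H, blockCoeff b k * f (k * y) := by
  classical
  haveI : Fintype (IrrCharacter H) := Fintype.ofFinite _
  rw [blockPart_eq_lin b hf y, lin_apply, ← Equiv.sum_comp (Equiv.mulRight y)]
  refine Finset.sum_congr rfl fun k _ => ?_
  rw [coeff_mul_single, Equiv.coe_mulRight, mul_inv_cancel_right, eB_coeff]

theorem inner_bp {H : Type*} [Group H] [Fintype H] (b : Set (IrrCharacter H)) (f : H → ℂ) {ψ : IrrCharacter H} (hψ : ψ ∉ b) :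
    classInner (blockPart b f) (ψ : H → ℂ) = 0 := by
  classical
  haveI : Fintype (IrrCharacter H) := Fintype.ofFinite _
  have h1 : blockPart b f = fun g => ∑ φ : IrrCharacter H, (if φ ∈ b then classInner f (φ : H → ℂ) else 0) * (φ : H → ℂ) g := by
    funext g
    rw [lin_decomp]
    refine Finset.sum_congr rfl fun φ _ => ?_
    split_ifs <;> simp
  rw [h1, classInner]
  have h2 : ∀ g : H, (∑ φ : IrrCharacter H, (if φ ∈ b then classInner f (φ : H → ℂ) else 0) * (φ : H → ℂ) g) * conj ((ψ : H → ℂ) g) =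
      ∑ φ : IrrCharacter H, (if φ ∈ b then classInner f (φ : H → ℂ) else 0) * ((φ : H → ℂ) g * conj ((ψ : H → ℂ) g)) := by
    intro g
    rw [Finset.sum_mul]
    exact Finset.sum_congr rfl fun φ _ => by ring
  rw [Finset.sum_congr rfl fun g _ => h2 g, Finset.sum_comm]
  simp_rw [← Finset.mul_sum]
  rw [Finset.mul_sum]
  refine Finset.sum_eq_zero fun φ _ => ?_
  by_cases h : φ ∈ b
  · have h3 : classInner (φ : H → ℂ) (ψ : H → ℂ) = 0 :=
      ci_irr_ne φ.2 ψ.2 (fun h' => hψ (by rw [← Subtype.ext h']; exact h))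
    rw [classInner] at h3
    rw [mul_left_comm, h3, mul_zero]
  · rw [if_neg h, zero_mul, mul_zero]

theorem inner_surj {A B : Type*} [Group A] [Group B] [Fintype A] [Fintype B] (f : A →* B)
    (hf : Function.Surjective f) (u v : B → ℂ) :
    classInner (fun a => u (f a)) (fun a => v (f a)) = classInner u v := by
  classical
  haveI : Fintype (A ⧸ f.ker) := Fintype.ofFinite _
  have e := QuotientGroup.quotientKerEquivOfSurjective f hf
  have h1 := sum_coset f.ker (fun x : A ⧸ f.ker => u (QuotientGroup.quotientKerEquivOfSurjective f hf x) *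
    conj (v (QuotientGroup.quotientKerEquivOfSurjective f hf x)))
  have h2 : ∀ a : A, QuotientGroup.quotientKerEquivOfSurjective f hf (QuotientGroup.mk a) = f a := fun a => rfl
  simp_rw [h2] at h1
  have h8 : ∑ x : A ⧸ f.ker, u (QuotientGroup.quotientKerEquivOfSurjective f hf x) *
      conj (v (QuotientGroup.quotientKerEquivOfSurjective f hf x)) = ∑ b : B, u b * conj (v b) :=
    Equiv.sum_comp (QuotientGroup.quotientKerEquivOfSurjective f hf).toEquiv (fun b => u b * conj (v b))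
  unfold classInner
  rw [h1, h8]
  have h3 := Subgroup.card_eq_card_quotient_mul_card_subgroup f.ker
  have h4 : Nat.card (A ⧸ f.ker) = Nat.card B := Nat.card_congr (QuotientGroup.quotientKerEquivOfSurjective f hf).toEquiv
  rw [h4] at h3
  have h5 : (Nat.card f.ker : ℂ) ≠ 0 := Nat.cast_ne_zero.2 Nat.card_pos.ne'
  have h6 : (Nat.card B : ℂ) ≠ 0 := Nat.cast_ne_zero.2 Nat.card_pos.ne'
  rw [h3, Nat.cast_mul, nsmul_eq_mul, mul_inv]
  field_simp

end

section
variable {p : ℕ} {M : Ideal AlgInt} [hp : Fact p.Prime]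

/-- a central subgroup with a member of the quotient of full degree is the defect group -/
theorem defect_central (hM : IsPModular p M) {C : Type*} [Group C] [Fintype C] {e : Set (IrrCharacter C)} (he : IsPBlock M e)
    {Z : Subgroup C} [hZn : Z.Normal] (hZ : Z ≤ Subgroup.center C) (hZp : IsPGroup p Z) {ψ : IrrCharacter C} (hψ : ψ ∈ e)
    (hker : ∀ z ∈ Z, (ψ : C → ℂ) z = (ψ : C → ℂ) 1)
    (hdeg : (Nat.card (C ⧸ Z)).factorization p ≤ (charDegree (ψ : C → ℂ)).factorization p) : IsDefectGroup p M e Z := by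
  classical
  haveI := hM.2.1
  haveI : Fintype (C ⧸ Z) := Fintype.ofFinite _
  obtain ⟨D, hD⟩ := exists_defectGroup (p := p) he
  have hZD : Z ≤ D := normal_le_defectGroup hM he hD Z hZp
  obtain ⟨ψb, hψb⟩ := exists_infl Z hker
  obtain ⟨Bbar, hB, hsub, hdef⟩ := Cfsg.Agent.H25.Dom2.exists_dominated Z hM hZp he
  have hC := index_of_central (p := p) hZ
  have h1 : Bbar = Bb Z e := by
    obtain ⟨φ, hφ⟩ := block_nonempty hB
    exact block_eq_of_mem hB (Bb_isPBlock Z hM hZp hC he) hφ (hsub φ hφ)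
  have h2 : ψb ∈ Bbar := by
    rw [h1]
    show infl Z ψb ∈ e
    rw [hψb]; exact hψ
  have h3 : Cfsg.Agent.H25.Whi.DZ p (ψb : C ⧸ Z → ℂ) := by
    rw [Cfsg.Agent.H25.SLe.dz_iff ψb.2, ← infl_degree Z ψb, hψb]
    exact hdeg
  have h4 := Cfsg.Agent.H25.SLe.defect_of_dz hM h3
  have h5 : Bbar = blockOf M (ψb : C ⧸ Z → ℂ) := block_eq_blockOf hB h2
  rw [← h5] at h4
  have h6 : IsDefectGroup p M Bbar (D.map (QuotientGroup.mk' Z)) := (hdef _).2 ⟨D, hD, rfl⟩
  have h7 := card_defectGroup hM hB h6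
  rw [h4.2, pow_zero] at h7
  have h8 : D.map (QuotientGroup.mk' Z) = ⊥ := Subgroup.eq_bot_of_card_eq _ h7
  have h9 : D ≤ Z := by
    rw [Subgroup.map_eq_bot_iff, QuotientGroup.ker_mk'] at h8
    exact h8
  rw [le_antisymm hZD h9]
  exact hD

/-- the quotient has a member of defect zero: no normal p-subgroups -/
theorem pgroup_le (hM : IsPModular p M) {T : Type*} [Group T] [Fintype T] {N : Subgroup T} [hN : N.Normal]
    {χ : IrrCharacter T} (hker : ∀ z ∈ N, (χ : T → ℂ) z = (χ : T → ℂ) 1)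
    (hdeg : (Nat.card (T ⧸ N)).factorization p ≤ (charDegree (χ : T → ℂ)).factorization p)
    {R : Subgroup T} [hR : R.Normal] (hRp : IsPGroup p R) : R ≤ N := by
  classical
  haveI := hM.2.1
  haveI : Fintype (T ⧸ N) := Fintype.ofFinite _
  obtain ⟨χb, hχb⟩ := exists_infl N hker
  have h3 : Cfsg.Agent.H25.Whi.DZ p (χb : T ⧸ N → ℂ) := by
    rw [Cfsg.Agent.H25.SLe.dz_iff χb.2, ← infl_degree N χb, hχb]
    exact hdeg
  have h4 := Cfsg.Agent.H25.SLe.defect_of_dz hM h3
  have hB : IsPBlock M (blockOf M (χb : T ⧸ N → ℂ)) := ⟨χb, rfl⟩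
  obtain ⟨D, hD⟩ := exists_defectGroup (p := p) hB
  haveI : (R.map (QuotientGroup.mk' N)).Normal := hR.map _ (QuotientGroup.mk'_surjective N)
  have h5 := normal_le_defectGroup hM hB hD (R.map (QuotientGroup.mk' N)) (hRp.map _)
  have h7 := card_defectGroup hM hB hD
  rw [h4.2, pow_zero] at h7
  rw [Subgroup.eq_bot_of_card_eq _ h7, le_bot_iff, Subgroup.map_eq_bot_iff, QuotientGroup.ker_mk'] at h5
  exact h5

/-- the constituents of the restriction to the centraliser lie in the block of the pair -/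
theorem mem_e {G : Type*} [Group G] [Fintype G] {C T : Subgroup G} [Fintype C] [Fintype T] (hCT : C ≤ T)
    {e : Set (IrrCharacter C)} {F' : Set (IrrCharacter T)}
    (hF'e : ∀ t : T, blockCoeff F' t = subgroupBlockCoeff C e (t : G)) {χ : IrrCharacter T} (hχ : χ ∈ F')
    {ψ : IrrCharacter C} (h0 : classInner (fun c : C => (χ : T → ℂ) ⟨c, hCT c.2⟩) (ψ : C → ℂ) ≠ 0) : ψ ∈ e := by
  classical
  haveI : Fintype (IrrCharacter T) := Fintype.ofFinite _
  by_contra hne
  apply h0
  have hclT : IsClassFunction T (χ : T → ℂ) := IsIrr.isClass χ.2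
  have hclC : IsClassFunction C (fun c : C => (χ : T → ℂ) ⟨c, hCT c.2⟩) := by
    intro x y
    exact hclT ⟨x, hCT x.2⟩ ⟨y, hCT y.2⟩
  have h1 : (fun c : C => (χ : T → ℂ) ⟨c, hCT c.2⟩) = blockPart e (fun c : C => (χ : T → ℂ) ⟨c, hCT c.2⟩) := by
    funext y
    have h2 := blockPart_irr F' χ ⟨y, hCT y.2⟩
    rw [if_pos hχ, bpr F' hclT] at h2
    rw [← h2, bpr e hclC]
    symm
    refine Finset.sum_of_injOn (fun c : C => (⟨c, hCT c.2⟩ : T)) ?_ ?_ ?_ ?_
    · intro a _ b _ hab
      exact Subtype.ext (congrArg (fun t : T => (t : G)) hab)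
    · intro a _; exact Finset.mem_coe.2 (Finset.mem_univ _)
    · intro t _ ht
      have h3 : (t : G) ∉ C := fun h => ht ⟨⟨t, h⟩, Finset.mem_coe.2 (Finset.mem_univ _), rfl⟩
      rw [hF'e, subgroupBlockCoeff, dif_neg h3, zero_mul]
    · intro c _
      rw [hF'e, subgroupBlockCoeff, dif_pos c.2]
      rfl
  rw [h1]
  exact inner_bp e _ hne

theorem s4694 {G : Type*} [Group G] [Fintype G] (hM : IsPModular p M) {Q : Subgroup G}
    {e : Set (IrrCharacter (Subgroup.centralizer (Q : Set G)))} (hQp : IsPGroup p Q) (he : IsPBlock M e)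
    {T : Subgroup G}
    (hT : ∀ y : G, y ∈ T ↔ y ∈ Subgroup.normalizer (Q : Set G) ∧ StabilizesBlock (Subgroup.centralizer (Q : Set G)) e y)
    {F' : Set (IrrCharacter T)}
    (hF'e : ∀ t : T, blockCoeff F' t = subgroupBlockCoeff (Subgroup.centralizer (Q : Set G)) e (t : G))
    {χ : IrrCharacter T} (hχ : χ ∈ F')
    (hχQ : ∀ q : G, q ∈ Q → ∀ t : T, ∀ t' : T, (t' : G) = q * (t : G) → (χ : T → ℂ) t' = (χ : T → ℂ) t)
    (hdeg : (charDegree (χ : T → ℂ)).factorization p + (Nat.card Q).factorization p = (Nat.card T).factorization p) :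
    IsDefectGroup p M e ((Q ⊓ Subgroup.centralizer (Q : Set G)).subgroupOf (Subgroup.centralizer (Q : Set G))) ∧
      ∀ R : Subgroup G, R ≤ T → IsPGroup p R → (∀ t ∈ T, t ∈ Subgroup.normalizer (R : Set G)) → R ≤ Q := by
  classical
  haveI := hM.2.1
  have hTN : T ≤ Subgroup.normalizer (Q : Set G) := fun t ht => ((hT t).1 ht).1
  have hTC : T ≤ Subgroup.normalizer (Subgroup.centralizer (Q : Set G) : Set G) :=
    hTN.trans (Cfsg.Agent.H25.KG.norm_le_norm_Ce Q)
  have hCT : Subgroup.centralizer (Q : Set G) ≤ T := by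
    intro g hg
    refine (hT g).2 ⟨Subgroup.centralizer_le_normalizer _ hg, Subgroup.le_normalizer hg, fun φ hφ => ⟨φ, hφ, ?_⟩⟩
    intro k k' hk
    have h1 : k' = ⟨g, hg⟩ * k * (⟨g, hg⟩ : Subgroup.centralizer (Q : Set G))⁻¹ := Subtype.ext hk
    rw [h1]
    exact IsIrr.isClass φ.2 _ _
  have hQT : Q ≤ T := by
    intro g hg
    refine (hT g).2 ⟨Subgroup.le_normalizer hg, Cfsg.Agent.H25.KG.norm_le_norm_Ce Q (Subgroup.le_normalizer hg),
      fun φ hφ => ⟨φ, hφ, ?_⟩⟩
    intro k k' hk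
    have h1 : k' = k := Subtype.ext (by
      rw [hk, Subgroup.mem_centralizer_iff.1 k.2 g hg, mul_inv_cancel_right])
    rw [h1]
  haveI hN : (Q.subgroupOf T).Normal := (Subgroup.normal_subgroupOf_iff_le_normalizer hQT).2 hTN
  have hker : ∀ z ∈ Q.subgroupOf T, (χ : T → ℂ) z = (χ : T → ℂ) 1 := fun z hz =>
    hχQ z (Subgroup.mem_subgroupOf.1 hz) 1 z (by simp)
  have hcN : Nat.card (Q.subgroupOf T) = Nat.card Q := Nat.card_congr (Subgroup.subgroupOfEquivOfLe hQT).toEquiv
  have hv : (Nat.card (T ⧸ Q.subgroupOf T)).factorization p = (charDegree (χ : T → ℂ)).factorization p := by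
    have h1 := Subgroup.card_eq_card_quotient_mul_card_subgroup (Q.subgroupOf T)
    rw [hcN] at h1
    rw [h1, Nat.factorization_mul Nat.card_pos.ne' Nat.card_pos.ne'] at hdeg
    simp only [Finsupp.coe_add, Pi.add_apply] at hdeg
    omega
  refine ⟨?_, ?_⟩
  · haveI : Fintype (T ⧸ Q.subgroupOf T) := Fintype.ofFinite _
    obtain ⟨χb, hχb⟩ := exists_infl (Q.subgroupOf T) hker
    haveI hK0 : ((Subgroup.centralizer (Q : Set G)).subgroupOf T).Normal :=
      (Subgroup.normal_subgroupOf_iff_le_normalizer hCT).2 hTC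
    set Kb : Subgroup (T ⧸ Q.subgroupOf T) :=
      ((Subgroup.centralizer (Q : Set G)).subgroupOf T).map (QuotientGroup.mk' (Q.subgroupOf T)) with hKb
    haveI hKbn : Kb.Normal := hK0.map _ (QuotientGroup.mk'_surjective _)
    haveI : Fintype Kb := Fintype.ofFinite _
    haveI : Fintype (Subgroup.centralizer (Q : Set G)) := Fintype.ofFinite _
    let f : Subgroup.centralizer (Q : Set G) →* Kb :=
      ((QuotientGroup.mk' (Q.subgroupOf T)).comp (Subgroup.inclusion hCT)).codRestrict Kb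
        (fun c => ⟨⟨c, hCT c.2⟩, Subgroup.mem_subgroupOf.2 c.2, rfl⟩)
    have hfv : ∀ c : Subgroup.centralizer (Q : Set G), ((f c : Kb) : T ⧸ Q.subgroupOf T) =
      QuotientGroup.mk (⟨c, hCT c.2⟩ : T) := fun c => rfl
    have hfs : Function.Surjective f := by
      rintro ⟨_, ⟨t, ht, rfl⟩⟩
      exact ⟨⟨t, Subgroup.mem_subgroupOf.1 ht⟩, Subtype.ext rfl⟩
    obtain ⟨θ, hθ, h0⟩ := Cfsg.Agent.H3.CharMult.exists_constituent_res (H := Kb) χb.2
    obtain ⟨b, hb1, hb2⟩ := Cfsg.Agent.H3.Lift.degree_dvd Kb χb.2 hθ h0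
    let ψ : IrrCharacter (Subgroup.centralizer (Q : Set G)) := ⟨fun c => θ (f c), IsIrr.comp hθ f hfs⟩
    have hψe : ψ ∈ e := by
      refine mem_e hCT hF'e hχ ?_
      have h1 : (fun c : Subgroup.centralizer (Q : Set G) => (χ : T → ℂ) ⟨c, hCT c.2⟩) =
          fun c => (fun k : Kb => (χb : T ⧸ Q.subgroupOf T → ℂ) k) (f c) := by
        funext c
        rw [← hχb, infl_apply]
        rfl
      rw [h1]
      intro h2
      exact h0 ((inner_surj f hfs (fun k : Kb => (χb : T ⧸ Q.subgroupOf T → ℂ) k) θ).symm.trans h2)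
    have hZk : (Q ⊓ Subgroup.centralizer (Q : Set G)).subgroupOf (Subgroup.centralizer (Q : Set G)) = f.ker := by
      ext c
      rw [Subgroup.mem_subgroupOf, MonoidHom.mem_ker, Subtype.ext_iff, hfv]
      show _ ↔ (QuotientGroup.mk (⟨c, hCT c.2⟩ : T) : T ⧸ Q.subgroupOf T) = 1
      rw [QuotientGroup.eq_one_iff, Subgroup.mem_subgroupOf]
      exact ⟨fun h => h.1, fun h => ⟨h, c.2⟩⟩
    haveI hZn : ((Q ⊓ Subgroup.centralizer (Q : Set G)).subgroupOf (Subgroup.centralizer (Q : Set G))).Normal := by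
      rw [hZk]; infer_instance
    refine defect_central hM he ?_ ?_ hψe ?_ ?_
    · intro z hz
      rw [Subgroup.mem_center_iff]
      intro c
      refine Subtype.ext ?_
      exact (Subgroup.mem_centralizer_iff.1 c.2 _ (Subgroup.mem_subgroupOf.1 hz).1).symm
    · exact (hQp.to_le inf_le_left).comap_subtype
    · intro z hz
      rw [hZk, MonoidHom.mem_ker] at hz
      show θ (f z) = θ (f 1)
      rw [hz, map_one]
    · obtain ⟨d, hd0, hd⟩ := IsIrr.one_eq_nat hθ
      have h1 : charDegree (ψ : Subgroup.centralizer (Q : Set G) → ℂ) = d :=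
        Cfsg.Agent.H25.SLe.charDegree_eq (by show θ (f 1) = d; rw [map_one]; exact hd)
      have h2 : charDegree (χ : T → ℂ) = b * d := by
        refine Cfsg.Agent.H25.SLe.charDegree_eq ?_
        rw [← hχb, infl_apply, Nat.cast_mul, ← hd, ← hb1]
        rfl
      have hb0 : b ≠ 0 := by
        rintro rfl
        rw [Nat.cast_zero, zero_mul] at hb1
        exact IsIrr.one_ne_zero χb.2 hb1
      have h3 : Nat.card (Subgroup.centralizer (Q : Set G) ⧸
          (Q ⊓ Subgroup.centralizer (Q : Set G)).subgroupOf (Subgroup.centralizer (Q : Set G))) = Nat.card Kb := by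
        have h4 := Subgroup.card_eq_card_quotient_mul_card_subgroup
          ((Q ⊓ Subgroup.centralizer (Q : Set G)).subgroupOf (Subgroup.centralizer (Q : Set G)))
        have h5 := Subgroup.card_eq_card_quotient_mul_card_subgroup f.ker
        rw [← hZk] at h5
        have h6 : Nat.card (Subgroup.centralizer (Q : Set G) ⧸ f.ker) = Nat.card Kb :=
          Nat.card_congr (QuotientGroup.quotientKerEquivOfSurjective f hfs).toEquiv
        have h7 := Subgroup.card_eq_card_quotient_mul_card_subgroup f.ker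
        rw [h6, ← hZk] at h7
        rw [h4] at h7
        exact Nat.eq_of_mul_eq_mul_right Nat.card_pos h7
      rw [h3, h1]
      obtain ⟨j, hj⟩ := hb2
      have hi0 : Kb.index ≠ 0 := Subgroup.FiniteIndex.index_ne_zero
      have hj0 : j ≠ 0 := by rintro rfl; exact hi0 (by rw [hj, mul_zero])
      have h8 := Subgroup.card_mul_index Kb
      rw [← h8, h2, hj, Nat.factorization_mul Nat.card_pos.ne' (mul_ne_zero hb0 hj0), Nat.factorization_mul hb0 hj0,
        Nat.factorization_mul hb0 hd0.ne'] at hv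
      simp only [Finsupp.coe_add, Pi.add_apply] at hv
      omega
  · intro R hRT hRp hRn
    haveI : (R.subgroupOf T).Normal := (Subgroup.normal_subgroupOf_iff_le_normalizer hRT).2 hRn
    have h1 := pgroup_le hM hker hv.le (R := R.subgroupOf T) hRp.comap_subtype
    intro r hr
    exact Subgroup.mem_subgroupOf.1 (h1 (Subgroup.mem_subgroupOf.2 hr : (⟨r, hRT hr⟩ : T) ∈ R.subgroupOf T))

end

end Cfsg.Agent.H25.Czy
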