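import Mathlib
import Cfsg.Agent.H25_STs
import Cfsg.Agent.H25_Dom

/-!
H25_Czz: blocks whose defect group D satisfies G = D C(D).
-/

set_option autoImplicit false
set_option linter.unusedSectionVars false

open scoped ComplexConjugate

namespace Cfsg.Agent.H25.Czz

open Cfsg Cfsg.Agent.H3 Cfsg.Agent.H3.CharBasic Cfsg.Agent.H3.CharIrr Cfsg.Agent.H3.CharComplete
  Cfsg.Agent.H10.Char Cfsg.Agent.H10.BlockLoc Cfsg.Agent.H10.BlockAlg Cfsg.Agent.H10.BlockIdem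
  Cfsg.Agent.H10.BlockOrth Cfsg.Agent.H10.BlockHZ Cfsg.Agent.H10.BlockMain
  Cfsg.Agent.H10.BlockSMT Cfsg.Agent.H10.BlockSMT2 Cfsg.Agent.H10.PPart Cfsg.Agent.H10.BlockPrin
  Cfsg.Agent.H10.BlockQuot Cfsg.Agent.H25.Dom
  Cfsg.Agent.H25.STk Cfsg.Agent.H25.STl Cfsg.Agent.H25.STr Cfsg.Agent.H25.STs
  Cfsg.Agent.H25.KG Cfsg.Agent.H25.Red Cfsg.Agent.H25.BPTr Cfsg.Agent.H25.BPMain Cfsg.Agent.H25.BPDef
  Cfsg.Agent.H25.Nilp

section
variable {p : ℕ} {G : Type*} [Group G] [Fintype G] [hp : Fact p.Prime] {D : Subgroup G}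

theorem normal_of (hG : D ⊔ Subgroup.centralizer (D : Set G) = ⊤) : D.Normal := by
  have h1 : Subgroup.normalizer (D : Set G) = ⊤ := by
    rw [eq_top_iff, ← hG]
    exact sup_le Subgroup.le_normalizer (Subgroup.centralizer_le_normalizer _)
  exact Subgroup.normalizer_eq_top_iff.1 h1

/-- conjugates of elements of D under G are conjugate in D -/
theorem conj_in (hG : D ⊔ Subgroup.centralizer (D : Set G) = ⊤) (x : G) : ∃ d ∈ D, ∀ u ∈ D, x * u * x⁻¹ = d * u * d⁻¹ := by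
  haveI := normal_of hG
  have h1 : x ∈ D ⊔ Subgroup.centralizer (D : Set G) := by rw [hG]; exact Subgroup.mem_top x
  obtain ⟨d, hd, c, hc, rfl⟩ := Subgroup.mem_sup_of_normal_left.1 h1
  refine ⟨d, hd, fun u hu => ?_⟩
  have h2 := Subgroup.mem_centralizer_iff.1 hc u hu
  rw [mul_inv_rev, mul_assoc d c u, ← h2]
  group

theorem reg_mem (hD : IsPGroup p D) (hG : D ⊔ Subgroup.centralizer (D : Set G) = ⊤) {x : G} (hx : ¬ p ∣ orderOf x) :
    x ∈ Subgroup.centralizer (D : Set G) := by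
  haveI := normal_of hG
  haveI : Fintype (G ⧸ D) := Fintype.ofFinite _
  obtain ⟨k, hk⟩ := index_of_sup D hD hG
  have h1 : orderOf (QuotientGroup.mk' (Subgroup.centralizer (D : Set G)) x) ∣ orderOf x := orderOf_map_dvd _ x
  have h2 : orderOf (QuotientGroup.mk' (Subgroup.centralizer (D : Set G)) x) ∣ p ^ k := by
    rw [← hk, Subgroup.index]; exact orderOf_dvd_natCard _
  obtain ⟨j, -, hj⟩ := (Nat.dvd_prime_pow hp.out).1 h2
  have h3 : j = 0 := by
    by_contra hj0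
    exact hx ((dvd_pow_self p hj0).trans (hj ▸ h1))
  rw [h3, pow_zero, orderOf_eq_one_iff] at hj
  exact (QuotientGroup.eq_one_iff x).1 hj

end

section
variable {p : ℕ} {M : Ideal AlgInt} {G : Type*} [Group G] [Fintype G] [hMax : M.IsMaximal]
  [hp : Fact p.Prime] [hch : CharP (KM M) p] {D : Subgroup G} {E : MonoidAlgebra (KM M) G}
  {B : Set (IrrCharacter G)}

theorem nilp_of (hM : IsPModular p M) (hD : IsPGroup p D) (hG : D ⊔ Subgroup.centralizer (D : Set G) = ⊤)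
    (hB : IsPBlock M B) (hBD : IsDefectGroup p M B D) : Nilp p (epG M B) := by
  haveI := normal_of hG
  intro Q f hQ x _ _ hx
  have h1 := (defectG_iff hM hB).1 hBD
  have h2 : tr (Ce Q) (epG M B) ≠ 0 := by
    intro h0
    have := hQ.tr
    rw [h0, zero_mul] at this
    exact hQ.be.ne this.symm
  obtain ⟨y, -, hy⟩ := h1.max Q le_top hQ.pg h2
  have h3 : Q ≤ D := by
    refine hy.trans ?_
    rintro _ ⟨d, hd, rfl⟩
    exact (normal_of hG).conj_mem d hd y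
  exact Subgroup.centralizer_le h3 (reg_mem hD hG hx)

open Classical in
theorem cc_xf (hG : D ⊔ Subgroup.centralizer (D : Set G) = ⊤) (η : IrrCharacter D) (u : G) (f : MonoidAlgebra (KM M) G) :
    cc p D E (xf D (η : D → ℂ)) u f = xf D (η : D → ℂ) u * cc p D E (fun _ => 1) u f := by
  haveI hn := normal_of hG
  unfold cc
  by_cases h : ∃ x, LE p (Subgroup.zpowers (x * u * x⁻¹)) (KG.cnj x f) D E
  · rw [dif_pos h, dif_pos h, mul_one]
    set x := h.choose with hx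
    have h1 : x * u * x⁻¹ ∈ D := Subgroup.zpowers_le.1 h.choose_spec.le
    have h2 : u ∈ D := by
      have := hn.conj_mem _ h1 x⁻¹
      simpa [mul_assoc] using this
    obtain ⟨d, hd, hdu⟩ := conj_in hG x
    rw [xf_mem _ h1, xf_mem _ h2]
    have h3 : (⟨x * u * x⁻¹, h1⟩ : D) = ⟨d, hd⟩ * ⟨u, h2⟩ * (⟨d, hd⟩ : D)⁻¹ := Subtype.ext (hdu u h2)
    rw [h3]
    exact IsIrr.isClass η.2 _ _
  · rw [dif_neg h, dif_neg h, mul_zero]

theorem st_val (hM : IsPModular p M) (hG : D ⊔ Subgroup.centralizer (D : Set G) = ⊤)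
    (hB : IsPBlock M B) (hP : BP p (epG M B) D E) (htop : KG.Top p D E) {χ : IrrCharacter G} (hχ : χ ∈ B)
    (η : IrrCharacter D) {u : G} (hu : ∃ k : ℕ, orderOf u = p ^ k) {x : G} (hx : ¬ p ∣ orderOf x) (hc : Commute u x) :
    st p D E (xf D (η : D → ℂ)) (χ : G → ℂ) (u * x) = xf D (η : D → ℂ) u * (χ : G → ℂ) (u * x) := by
  classical
  haveI : Fintype (Subgroup.centralizer ({u} : Set G)) := Fintype.ofFinite _
  have hy : x ∈ Subgroup.centralizer ({u} : Set G) := Subgroup.mem_centralizer_singleton_iff.2 hc.symm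
  have h1 := st_eq (p := p) (P := D) (E := E) (xf D (η : D → ℂ)) (IsIrr.isClass χ.2) hu ⟨x, hy⟩
    (by rwa [Subgroup.orderOf_mk])
  have h2 := st_eq (p := p) (P := D) (E := E) (fun _ => 1) (IsIrr.isClass χ.2) hu ⟨x, hy⟩
    (by rwa [Subgroup.orderOf_mk])
  rw [st_one hM hB hP htop hχ] at h2
  show st p D E (xf D (η : D → ℂ)) (χ : G → ℂ) (u * ((⟨x, hy⟩ : Subgroup.centralizer ({u} : Set G)) : G)) = _
  rw [h1]
  show _ = xf D (η : D → ℂ) u * (χ : G → ℂ) (u * ((⟨x, hy⟩ : Subgroup.centralizer ({u} : Set G)) : G))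
  rw [h2, Finset.mul_sum]
  refine Finset.sum_congr rfl fun b _ => ?_
  rw [cc_xf hG, mul_assoc]

theorem height (hM : IsPModular p M) (hD : IsPGroup p D) (hG : D ⊔ Subgroup.centralizer (D : Set G) = ⊤)
    (hB : IsPBlock M B) (hBD : IsDefectGroup p M B D) {χ : IrrCharacter G} (hχ : χ ∈ B)
    (hχD : ∀ y ∈ D, (χ : G → ℂ) y = (χ : G → ℂ) 1) : blockHeight p B (χ : G → ℂ) = 0 := by
  haveI := normal_of hG
  haveI : Fintype (G ⧸ D) := Fintype.ofFinite _
  obtain ⟨χb, hχb⟩ := exists_infl D hχD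
  have h1 := Cfsg.Agent.H25.BlockReg.mB_add (p := p) hχ
  have h2 := Cfsg.Agent.H25.BlockReg.cd_fact_le (p := p) χb
  have h3 := Subgroup.card_eq_card_quotient_mul_card_subgroup D
  rw [h3, card_defectGroup hM hB hBD, Nat.factorization_mul Nat.card_pos.ne' (pow_pos hp.out.pos _).ne', Finsupp.add_apply,
    Nat.Prime.factorization_pow hp.out, Finsupp.single_eq_same] at h1
  have h4 : charDegree (χb : G ⧸ D → ℂ) = charDegree (χ : G → ℂ) := by rw [← hχb]; rfl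
  rw [h4] at h2
  unfold blockHeight
  unfold Cfsg.Agent.H25.BlockReg.mB at h1
  omega

theorem mul_ker [hDn : D.Normal] {χ : IrrCharacter G} (hχD : ∀ y ∈ D, (χ : G → ℂ) y = (χ : G → ℂ) 1) {u : G} (hu : u ∈ D) (x : G) :
    (χ : G → ℂ) (u * x) = (χ : G → ℂ) x := by
  haveI : Fintype (G ⧸ D) := Fintype.ofFinite _
  obtain ⟨χb, rfl⟩ := exists_infl D hχD
  rw [infl_apply, infl_apply, QuotientGroup.mk_mul, (QuotientGroup.eq_one_iff u).2 hu, one_mul]

/-- the property of the statement -/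
def Pr (p : ℕ) (D : Subgroup G) (χ : IrrCharacter G) (θ : G → ℂ) (ζ : IrrCharacter D) : Prop :=
  (∀ (y : D) (x : G), ¬ p ∣ orderOf x → Commute (y : G) x → θ ((y : G) * x) = (ζ : D → ℂ) y * (χ : G → ℂ) x) ∧
    (∀ z : G, (∀ y : G, IsPPart p z y → y ∉ D) → θ z = 0)

theorem pel (hD : IsPGroup p D) {y : G} (hy : y ∈ D) : ∃ k : ℕ, orderOf y = p ^ k := by
  obtain ⟨k, hk⟩ := (IsPGroup.iff_orderOf.1 hD) ⟨y, hy⟩
  rw [Subgroup.orderOf_mk] at hk
  exact ⟨k, hk⟩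

theorem pr_st (hM : IsPModular p M) (hD : IsPGroup p D) (hG : D ⊔ Subgroup.centralizer (D : Set G) = ⊤)
    (hB : IsPBlock M B) (hP : BP p (epG M B) D E) (htop : KG.Top p D E) {χ : IrrCharacter G} (hχ : χ ∈ B)
    (hχD : ∀ y ∈ D, (χ : G → ℂ) y = (χ : G → ℂ) 1) (η : IrrCharacter D) :
    Pr p D χ (st p D E (xf D (η : D → ℂ)) (χ : G → ℂ)) η := by
  haveI := normal_of hG
  constructor
  · intro y x hx hc
    rw [st_val hM hG hB hP htop hχ η (pel hD y.2) hx hc, xf_mem _ y.2, mul_ker hχD y.2]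
  · intro z hz
    obtain ⟨u, x, rfl, hc, hu, hx⟩ := exists_ppart (p := p) z
    have h1 := hz u (mk_ppart hc hu hx)
    rw [st_val hM hG hB hP htop hχ η hu hx hc]
    unfold xf
    rw [dif_neg h1, zero_mul]

theorem pr_uniq (hD : IsPGroup p D) {χ : IrrCharacter G} {θ θ' : G → ℂ} {ζ : IrrCharacter D} (h : Pr p D χ θ ζ) (h' : Pr p D χ θ' ζ) :
    θ = θ' := by
  funext z
  obtain ⟨u, x, hux, hc, hu, hx⟩ := exists_ppart (p := p) z
  by_cases hD' : u ∈ D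
  · rw [← hux]
    have h1 := h.1 ⟨u, hD'⟩ x hx hc
    have h2 := h'.1 ⟨u, hD'⟩ x hx hc
    exact h1.trans h2.symm
  · have h3 : ∀ y : G, IsPPart p z y → y ∉ D := by
      intro y hy hyD
      have h4 : y = u := ppart_unique hy (by rw [← hux]; exact mk_ppart hc hu hx)
      exact hD' (h4 ▸ hyD)
    rw [h.2 z h3, h'.2 z h3]

theorem s4714 (hM : IsPModular p M) (hD : IsPGroup p D) (hG : D ⊔ Subgroup.centralizer (D : Set G) = ⊤)
    (hB : IsPBlock M B) (hBD : IsDefectGroup p M B D) {χ : IrrCharacter G} (hχ : χ ∈ B)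
    (hχD : ∀ y ∈ D, (χ : G → ℂ) y = (χ : G → ℂ) 1) :
    (∀ θ : IrrCharacter G, θ ∈ B ↔ ∃ ζ : IrrCharacter D, Pr p D χ (θ : G → ℂ) ζ) ∧
      ∀ ζ : IrrCharacter D, ∃ θ ∈ B, Pr p D χ ((θ : IrrCharacter G) : G → ℂ) ζ := by
  classical
  haveI : Fintype D := Fintype.ofFinite _
  obtain ⟨E, hP, htop⟩ := exists_max_of hM hB hBD
  have hn := nilp_of hM hD hG hB hBD
  have h0 := height hM hD hG hB hBD hχ hχD
  have hex : ∀ ζ : IrrCharacter D, ∃ θ ∈ B, Pr p D χ ((θ : IrrCharacter G) : G → ℂ) ζ := by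
    intro ζ
    obtain ⟨ψ, hψ, he, -⟩ := nil_irr hM hB hP htop hn hχ h0 ζ
    refine ⟨ψ, hψ, ?_⟩
    rw [← he]
    exact pr_st hM hD hG hB hP htop hχ hχD ζ
  refine ⟨fun θ => ⟨fun hθ => ?_, ?_⟩, hex⟩
  · obtain ⟨η, hη⟩ := nil_surj hM hB hP htop hn hχ h0 hθ
    refine ⟨η, ?_⟩
    rw [← hη]
    exact pr_st hM hD hG hB hP htop hχ hχD η
  · rintro ⟨ζ, hζ⟩
    obtain ⟨ψ, hψ, h1⟩ := hex ζ
    have h2 := pr_uniq hD hζ h1
    have h3 : θ = ψ := Subtype.ext h2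
    rw [h3]; exact hψ

end

end Cfsg.Agent.H25.Czz
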