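import Mathlib
set_option autoImplicit false
set_option maxHeartbeats 1000000

/-! Combinatorics of integral vectors for principal blocks with dihedral Sylow subgroups. -/

namespace Cfsg.Agent.H25.DihComb

variable {ι : Type*} [DecidableEq ι]

theorem card_supp_le (S : Finset ι) (f : ι → ℤ) {m : ℕ} (h : ∑ x ∈ S, f x ^ 2 = m) :
    (S.filter (fun x => f x ≠ 0)).card ≤ m := by
  have h1 : ∑ x ∈ S.filter (fun x => f x ≠ 0), (1 : ℤ) ≤ ∑ x ∈ S, f x ^ 2 := by
    calc ∑ x ∈ S.filter (fun x => f x ≠ 0), (1 : ℤ) ≤ ∑ x ∈ S.filter (fun x => f x ≠ 0), f x ^ 2 := by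
          apply Finset.sum_le_sum
          intro x hx
          have := (Finset.mem_filter.1 hx).2
          have : 0 < f x ^ 2 := by positivity
          omega
      _ ≤ _ := Finset.sum_le_sum_of_subset_of_nonneg (Finset.filter_subset _ _)
          (fun x _ _ => sq_nonneg _)
  rw [h, Finset.sum_const, nsmul_eq_mul, mul_one] at h1
  exact_mod_cast h1

theorem sum_supp (S : Finset ι) (f : ι → ℤ) (g : ι → ℤ) :
    ∑ x ∈ S.filter (fun x => f x ≠ 0), f x * g x = ∑ x ∈ S, f x * g x := by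
  apply Finset.sum_filter_of_ne
  intro x _ h h0
  rw [h0, zero_mul] at h
  exact h rfl

theorem norm_two (S : Finset ι) (f : ι → ℤ) (d : ι → ℤ) (hd : ∀ x ∈ S, 0 < d x)
    (h : ∑ x ∈ S, f x ^ 2 = 2) (hr : 1 + ∑ x ∈ S, f x * d x = 0) :
    ∃ p ∈ S, ∃ q ∈ S, p ≠ q ∧ f p = 1 ∧ f q = -1 ∧ ∀ x ∈ S, x ≠ p → x ≠ q → f x = 0 := by
  set T := S.filter (fun x => f x ≠ 0) with hT
  have hTS : ∀ x ∈ T, x ∈ S := fun x hx => (Finset.mem_filter.1 hx).1
  have hT0 : ∀ x ∈ T, f x ≠ 0 := fun x hx => (Finset.mem_filter.1 hx).2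
  have hout : ∀ x ∈ S, x ∉ T → f x = 0 := by
    intro x hx hxT
    by_contra h0
    exact hxT (Finset.mem_filter.2 ⟨hx, h0⟩)
  have hle : T.card ≤ 2 := card_supp_le S f (m := 2) (by exact_mod_cast h)
  have hsq : ∑ x ∈ T, f x * f x = 2 := by
    rw [hT, sum_supp S f f, ← h]
    exact Finset.sum_congr rfl fun x _ => by ring
  have hdT : 1 + ∑ x ∈ T, f x * d x = 0 := by
    rw [hT, sum_supp S f d]; exact hr
  have hcases : T.card = 0 ∨ T.card = 1 ∨ T.card = 2 := by omega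
  rcases hcases with h0 | h1 | h2
  · rw [Finset.card_eq_zero.1 h0, Finset.sum_empty] at hsq
    norm_num at hsq
  · obtain ⟨a, ha⟩ := Finset.card_eq_one.1 h1
    rw [ha, Finset.sum_singleton] at hsq
    exfalso
    have h3 : f a < 2 := by nlinarith
    have h4 : -2 < f a := by nlinarith
    interval_cases hq : f a <;> omega
  · obtain ⟨a, b, hab, hTab⟩ := Finset.card_eq_two.1 h2
    have haT : a ∈ T := by rw [hTab]; simp
    have hbT : b ∈ T := by rw [hTab]; simp
    rw [hTab, Finset.sum_pair hab] at hsq hdT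
    have ha0 := hT0 a haT
    have hb0 := hT0 b hbT
    have ha1 : f a = 1 ∨ f a = -1 := by
      have h5 : 0 < f b * f b := mul_self_pos.2 hb0
      have h6 : 0 < f a * f a := mul_self_pos.2 ha0
      have h3 : f a < 2 := by nlinarith
      have h4 : -2 < f a := by nlinarith
      interval_cases hq : f a
      · right; rfl
      · exact absurd rfl ha0
      · left; rfl
    have hb1 : f b = 1 ∨ f b = -1 := by
      have h5 : 0 < f b * f b := mul_self_pos.2 hb0
      have h6 : 0 < f a * f a := mul_self_pos.2 ha0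
      have h3 : f b < 2 := by nlinarith
      have h4 : -2 < f b := by nlinarith
      interval_cases hq : f b
      · right; rfl
      · exact absurd rfl hb0
      · left; rfl
    have hda := hd a (hTS a haT)
    have hdb := hd b (hTS b hbT)
    have hrest : ∀ x ∈ S, x ≠ a → x ≠ b → f x = 0 := by
      intro x hx hxa hxb
      apply hout x hx
      rw [hTab]; simp [hxa, hxb]
    rcases ha1 with h3 | h3 <;> rcases hb1 with h4 | h4
    · exfalso; rw [h3, h4] at hdT; omega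
    · exact ⟨a, hTS a haT, b, hTS b hbT, hab, h3, h4, hrest⟩
    · exact ⟨b, hTS b hbT, a, hTS a haT, hab.symm, h4, h3, fun x hx h5 h6 => hrest x hx h6 h5⟩
    · exfalso; rw [h3, h4] at hdT; omega

theorem norm_three (S : Finset ι) (f : ι → ℤ) (h : ∑ x ∈ S, f x ^ 2 = 3) :
    (∀ x ∈ S, f x = 0 ∨ f x = 1 ∨ f x = -1) ∧ (S.filter (fun x => f x ≠ 0)).card = 3 := by
  have hb : ∀ x ∈ S, f x = 0 ∨ f x = 1 ∨ f x = -1 := by
    intro x hx
    have h1 : f x ^ 2 ≤ 3 := by
      rw [← h]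
      exact Finset.single_le_sum (f := fun x => f x ^ 2) (fun y _ => sq_nonneg (f y)) hx
    have h3 : f x < 2 := by nlinarith
    have h4 : -2 < f x := by nlinarith
    interval_cases f x <;> simp
  refine ⟨hb, ?_⟩
  have h1 : ∑ x ∈ S.filter (fun x => f x ≠ 0), (1 : ℤ) = ∑ x ∈ S, f x ^ 2 := by
    rw [Finset.sum_filter]
    apply Finset.sum_congr rfl
    intro x hx
    rcases hb x hx with h1 | h1 | h1 <;> simp [h1]
  rw [h, Finset.sum_const, nsmul_eq_mul, mul_one] at h1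
  exact_mod_cast h1

/-- inner product with a vector of type `δ (e_c - e_f)` -/
theorem inner_eq (S : Finset ι) (f : ι → ℤ) (g : ι → ℤ) {p q : ι} (hp : p ∈ S) (hq : q ∈ S)
    (hpq : p ≠ q) {a b : ℤ} (h1 : f p = a) (h2 : f q = b) (h0 : ∀ x ∈ S, x ≠ p → x ≠ q → f x = 0) :
    ∑ x ∈ S, f x * g x = a * g p + b * g q := by
  have h3 : ∑ x ∈ ({p, q} : Finset ι), f x * g x = ∑ x ∈ S, f x * g x := by
    apply Finset.sum_subset
    · intro x hx
      rcases Finset.mem_insert.1 hx with rfl | hx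
      · exact hp
      · rw [Finset.mem_singleton.1 hx]; exact hq
    · intro x hx hx'
      rw [Finset.mem_insert, Finset.mem_singleton, not_or] at hx'
      rw [h0 x hx hx'.1 hx'.2, zero_mul]
  rw [← h3, Finset.sum_pair hpq, h1, h2]

/-- The common coordinate. -/
theorem common (S : Finset ι) (d : ι → ℤ) (hd : ∀ x ∈ S, 0 < d x) (N : ℕ) (hN : 2 ≤ N)
    (w : ℕ → ι → ℤ) (hn : ∀ j, 1 ≤ j → j < N → ∑ x ∈ S, w j x ^ 2 = 2)
    (hi : ∀ i j, 1 ≤ i → i < j → j < N → ∑ x ∈ S, w i x * w j x = 1)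
    (hr : ∀ j, 1 ≤ j → j < N → 1 + ∑ x ∈ S, w j x * d x = 0) :
    ∃ c ∈ S, ∃ f : ℕ → ι, ∃ δ : ℤ, (δ = 1 ∨ δ = -1) ∧ (∀ j, 1 ≤ j → j < N → f j ∈ S ∧ f j ≠ c ∧
      w j c = δ ∧ w j (f j) = -δ ∧ ∀ x ∈ S, x ≠ c → x ≠ f j → w j x = 0) ∧
      (∀ i j, 1 ≤ i → i < j → j < N → f i ≠ f j) := by
  classical
  have hN2 : ∀ j, 1 ≤ j → j < N → ∃ pq : ι × ι, pq.1 ∈ S ∧ pq.2 ∈ S ∧ pq.1 ≠ pq.2 ∧ w j pq.1 = 1 ∧
      w j pq.2 = -1 ∧ ∀ x ∈ S, x ≠ pq.1 → x ≠ pq.2 → w j x = 0 := by
    intro j h1 h2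
    obtain ⟨p, hp, q, hq, h3, h4, h5, h6⟩ := norm_two S (w j) d hd (hn j h1 h2) (hr j h1 h2)
    exact ⟨(p, q), hp, hq, h3, h4, h5, h6⟩
  obtain ⟨c₀, hc₀, -⟩ := hN2 1 le_rfl (by
    rcases Nat.lt_or_ge 1 N with h | h
    · exact h
    · omega)
  have : ∃ pq : ℕ → ι × ι, ∀ j, 1 ≤ j → j < N → (pq j).1 ∈ S ∧ (pq j).2 ∈ S ∧ (pq j).1 ≠ (pq j).2 ∧
      w j (pq j).1 = 1 ∧ w j (pq j).2 = -1 ∧
      ∀ x ∈ S, x ≠ (pq j).1 → x ≠ (pq j).2 → w j x = 0 := by
    refine ⟨fun j => if h : 1 ≤ j ∧ j < N then (hN2 j h.1 h.2).choose else c₀, ?_⟩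
    intro j h1 h2
    simp only [dif_pos (And.intro h1 h2)]
    exact (hN2 j h1 h2).choose_spec
  obtain ⟨pq, hpq⟩ := this
  -- pairwise relation
  have hrel : ∀ i j, 1 ≤ i → i < N → 1 ≤ j → j < N → i ≠ j →
      ((pq i).1 = (pq j).1 ∧ (pq i).2 ≠ (pq j).2) ∨ ((pq i).1 ≠ (pq j).1 ∧ (pq i).2 = (pq j).2) := by
    intro i j hi1 hi2 hj1 hj2 hij
    have hin : ∑ x ∈ S, w i x * w j x = 1 := by
      rcases Nat.lt_or_gt_of_ne hij with h | h
      · exact hi i j hi1 h hj2
      · rw [← hi j i hj1 h hi2]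
        exact Finset.sum_congr rfl fun x _ => mul_comm _ _
    obtain ⟨a1, a2, a3, a4, a5, a6⟩ := hpq i hi1 hi2
    obtain ⟨b1, b2, b3, b4, b5, b6⟩ := hpq j hj1 hj2
    rw [inner_eq S (w i) (w j) a1 a2 a3 a4 a5 a6] at hin
    by_cases h1 : (pq i).1 = (pq j).1
    · left
      refine ⟨h1, fun h2 => ?_⟩
      rw [h1, h2, b4, b5] at hin
      norm_num at hin
    · right
      refine ⟨h1, ?_⟩
      by_contra h2
      have h3 : w j (pq i).1 ≤ 0 := by
        by_cases h4 : (pq i).1 = (pq j).2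
        · rw [h4, b5]; norm_num
        · rw [b6 _ a1 h1 h4]
      have h5 : 0 ≤ w j (pq i).2 := by
        by_cases h4 : (pq i).2 = (pq j).1
        · rw [h4, b4]; norm_num
        · rw [b6 _ a2 h4 h2]
      omega
  have h1N : 1 < N := by omega
  obtain ⟨a1, a2, a3, a4, a5, a6⟩ := hpq 1 le_rfl h1N
  by_cases h3 : 3 ≤ N
  · -- at least two vectors
    rcases hrel 1 2 le_rfl h1N (by norm_num) (by omega) (by norm_num) with ⟨h4, h5⟩ | ⟨h4, h5⟩
    · -- all p equal
      have hall : ∀ j, 1 ≤ j → j < N → (pq j).1 = (pq 1).1 := by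
        intro j hj1 hj2
        by_cases hj : j = 1
        · rw [hj]
        by_cases hj' : j = 2
        · rw [hj', h4]
        rcases hrel j 1 hj1 hj2 le_rfl h1N hj with ⟨h6, -⟩ | ⟨h6, h7⟩
        · exact h6
        · exfalso
          rcases hrel j 2 hj1 hj2 (by norm_num) (by omega) hj' with ⟨h8, -⟩ | ⟨-, h9⟩
          · rw [h8, ← h4] at h6; exact h6 rfl
          · rw [h9] at h7; exact h5 h7.symm
      refine ⟨(pq 1).1, a1, fun j => (pq j).2, 1, Or.inl rfl, ?_, ?_⟩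
      · intro j hj1 hj2
        obtain ⟨b1, b2, b3, b4, b5, b6⟩ := hpq j hj1 hj2
        rw [hall j hj1 hj2] at b1 b3 b4 b6
        exact ⟨b2, b3.symm, b4, b5, b6⟩
      · intro i j hi1 hij hj2
        rcases hrel i j hi1 (by omega) (by omega) hj2 (by omega) with ⟨-, h6⟩ | ⟨h6, -⟩
        · exact h6
        · exfalso; apply h6; rw [hall i hi1 (by omega), hall j (by omega) hj2]
    · have hall : ∀ j, 1 ≤ j → j < N → (pq j).2 = (pq 1).2 := by
        intro j hj1 hj2
        by_cases hj : j = 1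
        · rw [hj]
        by_cases hj' : j = 2
        · rw [hj', h5]
        rcases hrel j 1 hj1 hj2 le_rfl h1N hj with ⟨h6, h7⟩ | ⟨-, h6⟩
        · exfalso
          rcases hrel j 2 hj1 hj2 (by norm_num) (by omega) hj' with ⟨h8, -⟩ | ⟨-, h9⟩
          · rw [h8] at h6; exact h4 h6.symm
          · rw [h9, ← h5] at h7; exact h7 rfl
        · exact h6
      refine ⟨(pq 1).2, a2, fun j => (pq j).1, -1, Or.inr rfl, ?_, ?_⟩
      · intro j hj1 hj2
        obtain ⟨b1, b2, b3, b4, b5, b6⟩ := hpq j hj1 hj2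
        rw [hall j hj1 hj2] at b2 b3 b5 b6
        exact ⟨b1, b3, b5, by rw [b4]; norm_num, fun x hx h7 h8 => b6 x hx h8 h7⟩
      · intro i j hi1 hij hj2
        rcases hrel i j hi1 (by omega) (by omega) hj2 (by omega) with ⟨h6, h7⟩ | ⟨h6, -⟩
        · exfalso; apply h7; rw [hall i hi1 (by omega), hall j (by omega) hj2]
        · exact h6
  · refine ⟨(pq 1).1, a1, fun j => (pq j).2, 1, Or.inl rfl, ?_, ?_⟩
    · intro j hj1 hj2
      have : j = 1 := by omega
      subst this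
      exact ⟨a2, a3.symm, a4, a5, a6⟩
    · intro i j hi1 hij hj2; omega

/-- the full structure -/
theorem structure' (S : Finset ι) (d : ι → ℤ) (hd : ∀ x ∈ S, 0 < d x) (N : ℕ) (hN : 2 ≤ N)
    (hNe : Even N)
    (w : ℕ → ι → ℤ) (hn : ∀ j, 1 ≤ j → j < N → ∑ x ∈ S, w j x ^ 2 = 2)
    (hnN : ∑ x ∈ S, w N x ^ 2 = 3)
    (hi : ∀ i j, 1 ≤ i → i < j → j ≤ N → ∑ x ∈ S, w i x * w j x = 1)
    (hr : ∀ j, 1 ≤ j → j ≤ N → 1 + ∑ x ∈ S, w j x * d x = 0) :
    ∃ c ∈ S, ∃ u ∈ S, ∃ v ∈ S, ∃ f : ℕ → ι, ∃ δ δ₂ δ₃ : ℤ, (δ = 1 ∨ δ = -1) ∧ (δ₂ = 1 ∨ δ₂ = -1) ∧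
      (δ₃ = 1 ∨ δ₃ = -1) ∧ c ≠ u ∧ c ≠ v ∧ u ≠ v ∧
      (∀ j, 1 ≤ j → j < N → f j ∈ S ∧ f j ≠ c ∧ f j ≠ u ∧ f j ≠ v ∧
        w j c = δ ∧ w j (f j) = -δ ∧ ∀ x ∈ S, x ≠ c → x ≠ f j → w j x = 0) ∧
      (∀ i j, 1 ≤ i → i < j → j < N → f i ≠ f j) ∧
      w N c = δ ∧ w N u = δ₂ ∧ w N v = δ₃ ∧ ∀ x ∈ S, x ≠ c → x ≠ u → x ≠ v → w N x = 0 := by
  classical
  obtain ⟨c, hc, f, δ, hδ, hf, hfi⟩ := common S d hd N hN w hn
    (fun i j h1 h2 h3 => hi i j h1 h2 h3.le) (fun j h1 h2 => hr j h1 h2.le)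
  obtain ⟨hb, h3⟩ := norm_three S (w N) hnN
  -- main claim: we may choose c, f, δ such that w N c = δ
  have hmain : ∃ c ∈ S, ∃ f : ℕ → ι, ∃ δ : ℤ, (δ = 1 ∨ δ = -1) ∧ (∀ j, 1 ≤ j → j < N → f j ∈ S ∧
      f j ≠ c ∧ w j c = δ ∧ w j (f j) = -δ ∧ ∀ x ∈ S, x ≠ c → x ≠ f j → w j x = 0) ∧
      (∀ i j, 1 ≤ i → i < j → j < N → f i ≠ f j) ∧ w N c = δ ∧
      ∀ j, 1 ≤ j → j < N → w N (f j) = 0 := by
    have hin : ∀ j, 1 ≤ j → j < N → δ * w N c + -δ * w N (f j) = 1 := by
      intro j h1 h2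
      obtain ⟨b1, b2, b3, b4, b5⟩ := hf j h1 h2
      rw [← inner_eq S (w j) (w N) hc b1 b2.symm b3 b4 b5]
      exact hi j N h1 h2 le_rfl
    have hδ2 : δ * δ = 1 := by rcases hδ with h | h <;> rw [h] <;> norm_num
    have hin' : ∀ j, 1 ≤ j → j < N → w N c - w N (f j) = δ := by
      intro j h1 h2
      have h4 := hin j h1 h2
      calc w N c - w N (f j) = (δ * δ) * (w N c - w N (f j)) := by rw [hδ2, one_mul]
        _ = δ * (δ * w N c + -δ * w N (f j)) := by ring
        _ = δ := by rw [h4, mul_one]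
    by_cases h0 : w N c = 0
    · -- case B
      have hfj : ∀ j, 1 ≤ j → j < N → w N (f j) = -δ := by
        intro j h1 h2
        have := hin' j h1 h2
        rw [h0] at this
        omega
      have hδ0 : δ ≠ 0 := by rcases hδ with h | h <;> rw [h] <;> norm_num
      -- N - 1 ≤ 3
      have hinj : ((Finset.Ico 1 N).image f).card = N - 1 := by
        rw [Finset.card_image_of_injOn, Nat.card_Ico]
        intro i hi' j hj' hij
        rw [Finset.coe_Ico, Set.mem_Ico] at hi' hj'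
        by_contra hne
        rcases Nat.lt_or_gt_of_ne hne with h | h
        · exact hfi i j hi'.1 h hj'.2 hij
        · exact hfi j i hj'.1 h hi'.2 hij.symm
      have hsub : (Finset.Ico 1 N).image f ⊆ S.filter (fun x => w N x ≠ 0) := by
        intro x hx
        obtain ⟨j, hj, rfl⟩ := Finset.mem_image.1 hx
        rw [Finset.mem_Ico] at hj
        rw [Finset.mem_filter]
        refine ⟨(hf j hj.1 hj.2).1, ?_⟩
        rw [hfj j hj.1 hj.2]
        omega
      have hle := Finset.card_le_card hsub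
      rw [hinj, h3] at hle
      have hN24 : N = 2 ∨ N = 4 := by
        obtain ⟨k, hk⟩ := hNe
        omega
      rcases hN24 with rfl | rfl
      · -- swap
        obtain ⟨b1, b2, b3, b4, b5⟩ := hf 1 le_rfl (by norm_num)
        refine ⟨f 1, b1, fun _ => c, -δ, by rcases hδ with h | h <;> rw [h] <;> simp, ?_, ?_,
          hfj 1 le_rfl (by norm_num), ?_⟩
        · intro j hj1 hj2
          have : j = 1 := by omega
          subst this
          exact ⟨hc, b2.symm, b4, by rw [b3, neg_neg], fun x hx h7 h8 => b5 x hx h8 h7⟩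
        · intro i j h4 h5 h6; omega
        · intro j _ _; exact h0
      · -- N = 4 is impossible
        exfalso
        have heq : (Finset.Ico 1 4).image f = S.filter (fun x => w 4 x ≠ 0) :=
          Finset.eq_of_subset_of_card_le hsub (by rw [hinj, h3])
        have hdf : ∀ j, 1 ≤ j → j < 4 → d (f j) = d c + δ := by
          intro j h1 h2
          obtain ⟨b1, b2, b3, b4, b5⟩ := hf j h1 h2
          have h4 := hr j h1 h2.le
          rw [inner_eq S (w j) d hc b1 b2.symm b3 b4 b5] at h4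
          have h5 : δ * (1 + (δ * d c + -δ * d (f j))) = 0 := by rw [h4, mul_zero]
          have h6 : δ + (δ * δ) * d c - (δ * δ) * d (f j) = 0 := by rw [← h5]; ring
          rw [hδ2] at h6
          omega
        have hr4 := hr 4 (by norm_num) le_rfl
        rw [← sum_supp, ← heq, Finset.sum_image] at hr4
        · rw [Finset.sum_congr rfl (g := fun _ => -δ * (d c + δ)) (by
            intro j hj
            rw [Finset.mem_Ico] at hj
            rw [hfj j hj.1 hj.2, hdf j hj.1 hj.2])] at hr4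
          rw [Finset.sum_const, Nat.card_Ico] at hr4
          have h5 : (3 : ℤ) ∣ 1 := ⟨δ * (d c + δ), by
            have : (3 : ℕ) • (-δ * (d c + δ)) = -(3 * (δ * (d c + δ))) := by
              rw [nsmul_eq_mul]; push_cast; ring
            rw [this] at hr4
            omega⟩
          norm_num at h5
        · intro i hi' j hj' hij
          rw [Finset.coe_Ico, Set.mem_Ico] at hi' hj'
          by_contra hne
          rcases Nat.lt_or_gt_of_ne hne with h | h
          · exact hfi i j hi'.1 h hj'.2 hij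
          · exact hfi j i hj'.1 h hi'.2 hij.symm
    · -- case A
      have hc1 : w N c = δ := by
        rcases hb c hc with h | h | h
        · exact absurd h h0
        · rcases hδ with h' | h'
          · rw [h, h']
          · exfalso
            obtain ⟨b1, -⟩ := hf 1 le_rfl (by omega)
            have h4 := hin' 1 le_rfl (by omega)
            rw [h, h'] at h4
            rcases hb _ b1 with h5 | h5 | h5 <;> rw [h5] at h4 <;> norm_num at h4
        · rcases hδ with h' | h'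
          · exfalso
            obtain ⟨b1, -⟩ := hf 1 le_rfl (by omega)
            have h4 := hin' 1 le_rfl (by omega)
            rw [h, h'] at h4
            rcases hb _ b1 with h5 | h5 | h5 <;> rw [h5] at h4 <;> norm_num at h4
          · rw [h, h']
      refine ⟨c, hc, f, δ, hδ, hf, hfi, hc1, ?_⟩
      intro j h1 h2
      have := hin' j h1 h2
      omega
  clear hf hfi hδ
  obtain ⟨c, hc, f, δ, hδ, hf, hfi, hNc, hNf⟩ := hmain
  -- the other two coordinates
  set T := S.filter (fun x => w N x ≠ 0) with hT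
  have hcT : c ∈ T := by
    rw [hT, Finset.mem_filter]
    refine ⟨hc, ?_⟩
    rw [hNc]
    rcases hδ with h | h <;> rw [h] <;> norm_num
  have h2 : (T.erase c).card = 2 := by rw [Finset.card_erase_of_mem hcT, h3]
  obtain ⟨u, v, huv, hTuv⟩ := Finset.card_eq_two.1 h2
  have huT : u ∈ T.erase c := by rw [hTuv]; simp
  have hvT : v ∈ T.erase c := by rw [hTuv]; simp
  rw [Finset.mem_erase, hT, Finset.mem_filter] at huT hvT
  refine ⟨c, hc, u, huT.2.1, v, hvT.2.1, f, δ, w N u, w N v, hδ,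
    (hb u huT.2.1).resolve_left huT.2.2, (hb v hvT.2.1).resolve_left hvT.2.2, huT.1.symm,
    hvT.1.symm, huv, ?_, hfi, hNc, rfl, rfl, ?_⟩
  · intro j h1 h4
    obtain ⟨b1, b2, b3, b4, b5⟩ := hf j h1 h4
    have h5 := hNf j h1 h4
    refine ⟨b1, b2, ?_, ?_, b3, b4, b5⟩
    · intro h6; rw [h6] at h5; exact huT.2.2 h5
    · intro h6; rw [h6] at h5; exact hvT.2.2 h5
  · intro x hx hxc hxu hxv
    by_contra h5
    have h6 : x ∈ T.erase c := by
      rw [Finset.mem_erase, hT, Finset.mem_filter]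
      exact ⟨hxc, hx, h5⟩
    rw [hTuv, Finset.mem_insert, Finset.mem_singleton] at h6
    rcases h6 with h6 | h6
    · exact hxu h6
    · exact hxv h6

end Cfsg.Agent.H25.DihComb
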