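import Mathlib
set_option autoImplicit false
set_option maxHeartbeats 1000000

/-! Fourier transform on a cyclic group for the dihedral principal block. -/

namespace Cfsg.Agent.H25.DihFour

open Finset

variable {L : ℕ} [NeZero L] {e : AddChar (ZMod L) ℂ} {ι : Type*}

theorem sum_e (he : e.IsPrimitive) (b : ZMod L) :
    ∑ i : ZMod L, e (b * i) = if b = 0 then (L : ℂ) else 0 := by
  have h := AddChar.sum_mulShift b he
  rw [ZMod.card] at h
  rw [← (show ((if b = 0 then L else 0 : ℕ) : ℂ) = if b = 0 then (L : ℂ) else 0 by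
    split_ifs <;> simp), ← h]
  exact Finset.sum_congr rfl fun i _ => by rw [mul_comm]

/-- the coefficient `μ₀ - μ_k` -/
noncomputable def co (e : AddChar (ZMod L) ℂ) (v : ZMod L → ι → ℂ) (k : ZMod L) (x : ι) : ℂ :=
  (L : ℂ)⁻¹ * ∑ i : ZMod L, v i x * (1 - e (-(k * i)))

theorem L_ne : (L : ℂ) ≠ 0 := Nat.cast_ne_zero.2 (NeZero.ne L)

theorem gram (he : e.IsPrimitive) (v : ZMod L → ι → ℂ) (B : Finset ι)
    (horth : ∀ i j : ZMod L, i ≠ 0 → j ≠ 0 → ∑ x ∈ B, v i x * v j x =
      (L : ℂ) * ((if i = j then 1 else 0) + (if i = -j then 1 else 0)))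
    {k l : ZMod L} (hk : k ≠ 0) (hl : l ≠ 0) :
    ∑ x ∈ B, co e v k x * co e v l x = 2 + (if k = l then 1 else 0) + (if k = -l then 1 else 0) := by
  have hL := L_ne (L := L)
  have h1 : ∑ x ∈ B, co e v k x * co e v l x = (L : ℂ)⁻¹ * (L : ℂ)⁻¹ *
      ∑ i : ZMod L, ∑ j : ZMod L, (1 - e (-(k * i))) * (1 - e (-(l * j))) *
        ∑ x ∈ B, v i x * v j x := by
    unfold co
    simp only [Finset.mul_sum, Finset.sum_mul]
    conv_rhs => rw [Finset.sum_comm]
    rw [Finset.sum_comm]
    apply Finset.sum_congr rfl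
    intro i _
    rw [Finset.sum_comm]
    apply Finset.sum_congr rfl
    intro j _
    apply Finset.sum_congr rfl
    intro x _
    ring
  have h2 : ∀ i j : ZMod L, (1 - e (-(k * i))) * (1 - e (-(l * j))) * ∑ x ∈ B, v i x * v j x =
      (1 - e (-(k * i))) * (1 - e (-(l * j))) *
        ((L : ℂ) * ((if i = j then 1 else 0) + (if i = -j then 1 else 0))) := by
    intro i j
    by_cases hi : i = 0
    · rw [hi, mul_zero, neg_zero, AddChar.map_zero_eq_one, sub_self, zero_mul, zero_mul, zero_mul]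
    by_cases hj : j = 0
    · rw [hj, mul_zero, neg_zero, AddChar.map_zero_eq_one, sub_self, mul_zero, zero_mul, zero_mul]
    rw [horth i j hi hj]
  rw [h1]
  simp only [h2]
  have h3 : ∀ i : ZMod L, ∑ j : ZMod L, (1 - e (-(k * i))) * (1 - e (-(l * j))) *
      ((L : ℂ) * ((if i = j then 1 else 0) + (if i = -j then 1 else 0))) =
      (L : ℂ) * ((1 - e (-(k * i))) * ((1 - e (-(l * i))) + (1 - e (l * i)))) := by
    intro i
    have h4 : ∀ j : ZMod L, (1 - e (-(k * i))) * (1 - e (-(l * j))) *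
        ((L : ℂ) * ((if i = j then 1 else 0) + (if i = -j then 1 else 0))) =
        (if j = i then (L : ℂ) * ((1 - e (-(k * i))) * (1 - e (-(l * j)))) else 0) +
        (if j = -i then (L : ℂ) * ((1 - e (-(k * i))) * (1 - e (-(l * j)))) else 0) := by
      intro j
      have h5 : (i = j) = (j = i) := propext eq_comm
      have h6 : (i = -j) = (j = -i) := by
        apply propext
        constructor
        · rintro rfl; rw [neg_neg]
        · rintro rfl; rw [neg_neg]
      rw [if_congr (Iff.of_eq h5) rfl rfl, if_congr (Iff.of_eq h6) rfl rfl]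
      split_ifs <;> ring
    simp only [h4]
    rw [Finset.sum_add_distrib, Finset.sum_ite_eq' _ i, Finset.sum_ite_eq' _ (-i),
      if_pos (Finset.mem_univ _), if_pos (Finset.mem_univ _), mul_neg, neg_neg]
    ring
  simp only [h3]
  rw [← Finset.mul_sum]
  have h5 : ∀ i : ZMod L, (1 - e (-(k * i))) * ((1 - e (-(l * i))) + (1 - e (l * i))) =
      2 - e (-l * i) - e (l * i) - 2 * e (-k * i) + e (-(k + l) * i) + e ((l - k) * i) := by
    intro i
    have h6 : e (-(k + l) * i) = e (-(k * i)) * e (-(l * i)) := by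
      rw [← AddChar.map_add_eq_mul]; congr 1; ring
    have h7 : e ((l - k) * i) = e (-(k * i)) * e (l * i) := by
      rw [← AddChar.map_add_eq_mul]; congr 1; ring
    rw [h6, h7, neg_mul, neg_mul]
    ring
  simp only [h5]
  rw [Finset.sum_add_distrib, Finset.sum_add_distrib, Finset.sum_sub_distrib,
    Finset.sum_sub_distrib, Finset.sum_sub_distrib, ← Finset.mul_sum, sum_e he, sum_e he, sum_e he,
    sum_e he, sum_e he, if_neg (neg_ne_zero.2 hl), if_neg hl, if_neg (neg_ne_zero.2 hk),
    Finset.sum_const, Finset.card_univ, ZMod.card]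
  have h8 : (if -(k + l) = 0 then (L : ℂ) else 0) = (L : ℂ) * (if k = -l then 1 else 0) := by
    have : (-(k + l) = 0) ↔ (k = -l) := by
      rw [neg_eq_zero, add_eq_zero_iff_eq_neg]
    rw [if_congr this rfl rfl]; split_ifs <;> simp
  have h9 : (if l - k = 0 then (L : ℂ) else 0) = (L : ℂ) * (if k = l then 1 else 0) := by
    have : (l - k = 0) ↔ (k = l) := by rw [sub_eq_zero, eq_comm]
    rw [if_congr this rfl rfl]; split_ifs <;> simp
  rw [h8, h9, nsmul_eq_mul]
  field_simp
  ring

theorem inverse (he : e.IsPrimitive) (v : ZMod L → ι → ℂ) {i : ZMod L} (hi : i ≠ 0) (x : ι) :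
    v i x = -∑ k : ZMod L, co e v k x * e (k * i) := by
  have hL := L_ne (L := L)
  have h1 : ∑ k : ZMod L, co e v k x * e (k * i) = (L : ℂ)⁻¹ * ∑ j : ZMod L, v j x *
      ∑ k : ZMod L, (e (i * k) - e ((i - j) * k)) := by
    unfold co
    simp only [Finset.mul_sum, Finset.sum_mul]
    rw [Finset.sum_comm]
    apply Finset.sum_congr rfl
    intro j _
    apply Finset.sum_congr rfl
    intro k _
    have h2 : e ((i - j) * k) = e (-(k * j)) * e (i * k) := by
      rw [← AddChar.map_add_eq_mul]; congr 1; ring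
    rw [h2, mul_comm k i]
    ring
  have h2 : ∀ j : ZMod L, v j x * ∑ k : ZMod L, (e (i * k) - e ((i - j) * k)) =
      if j = i then -((L : ℂ) * v j x) else 0 := by
    intro j
    rw [Finset.sum_sub_distrib, sum_e he, sum_e he, if_neg hi]
    have : (i - j = 0) ↔ (j = i) := by rw [sub_eq_zero, eq_comm]
    rw [if_congr this rfl rfl]
    split_ifs <;> ring
  rw [h1]
  simp only [h2]
  rw [Finset.sum_ite_eq' _ i, if_pos (Finset.mem_univ _)]
  field_simp

theorem co_neg (v : ZMod L → ι → ℂ) (x : ι) (hv : ∀ i, v (-i) x = v i x) (k : ZMod L) :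
    co e v (-k) x = co e v k x := by
  unfold co
  congr 1
  apply Fintype.sum_equiv (Equiv.neg (ZMod L))
  intro i
  rw [Equiv.neg_apply, hv]
  congr 3
  ring

theorem co_zero (v : ZMod L → ι → ℂ) (x : ι) : co e v 0 x = 0 := by
  unfold co
  simp

theorem co_const (he : e.IsPrimitive) (v : ZMod L → ι → ℂ) (x : ι) (hv : ∀ i, v i x = 1)
    {k : ZMod L} (hk : k ≠ 0) : co e v k x = 1 := by
  have hL := L_ne (L := L)
  unfold co
  have h1 : ∀ i : ZMod L, v i x * (1 - e (-(k * i))) = 1 - e (-k * i) := by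
    intro i; rw [hv, one_mul, neg_mul]
  simp only [h1]
  rw [Finset.sum_sub_distrib, sum_e he, if_neg (neg_ne_zero.2 hk), Finset.sum_const,
    Finset.card_univ, ZMod.card, nsmul_eq_mul, mul_one, sub_zero, inv_mul_cancel₀ hL]

end Cfsg.Agent.H25.DihFour
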