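import Cfsg.Agent.H25_Major
import Cfsg.Agent.H25_Sub8
import Cfsg.Agent.H25_Cov2
import Cfsg.Agent.H25_PS2

/-! Blocks with abelian defect group covering a stable block of a normal subgroup of
`p`-power index (S4640). -/

open scoped ComplexConjugate

namespace Cfsg.Agent.H25.KK

open Cfsg Cfsg.Agent.H10.BlockLoc Cfsg.Agent.H10.BlockAlg Cfsg.Agent.H10.BlockIdem
  Cfsg.Agent.H10.BlockDefect Cfsg.Agent.H10.BlockSMT2 Cfsg.Agent.H10.BlockMain
  Cfsg.Agent.H3 Cfsg.Agent.H3.CharIrr Cfsg.Agent.H3.CharComplete Cfsg.Agent.H3.CharInd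
  Cfsg.Agent.H3.CharBasic Cfsg.Agent.H3.CharMult Cfsg.Agent.H25.Red Cfsg.Agent.H25.KG Cfsg.Agent.H25.BPTr
  Cfsg.Agent.H25.BPMain Cfsg.Agent.H25.BPDef Cfsg.Agent.H25.Cov Cfsg.Agent.H25.Cov2
  Cfsg.Agent.H25.Sub Cfsg.Agent.H25.Sub2 Cfsg.Agent.H25.Sub3 Cfsg.Agent.H25.Sub7 Cfsg.Agent.H25.Sub8

section major
variable {p : ℕ} {M : Ideal AlgInt} {G : Type*} [Group G] [Fintype G] [hp : Fact p.Prime]

/-- a character does not vanish on the section of a major subsection -/
theorem major_value (hM : IsPModular p M) {B : Set (IrrCharacter G)} (hB : IsPBlock M B)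
    {P : Subgroup G} (hPD : IsDefectGroup p M B P) {z : G} (hz : z ∈ P)
    (hzc : ∀ d ∈ P, d * z = z * d) {χ : IrrCharacter G} (hχ : χ ∈ B) :
    ∃ y ∈ Subgroup.centralizer ({z} : Set G), ¬ p ∣ orderOf y ∧ (χ : G → ℂ) (z * y) ≠ 0 := by
  classical
  haveI := hM.2.1
  haveI : Fintype (Subgroup.centralizer ({z} : Set G)) := Fintype.ofFinite _
  haveI : Fintype (IrrCharacter G) := Fintype.ofFinite _
  haveI : Fintype (IrrCharacter (Subgroup.centralizer ({z} : Set G))) := Fintype.ofFinite _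
  obtain ⟨b, hb, hbD⟩ := Major.exists_major hM hB hPD hz hzc
  obtain ⟨hmaj, hx⟩ := major_defect hM hB hPD hz hzc hb.1 hbD
  have h1 := maj_diag_ne hM hx hb hmaj hχ
  by_contra hcon
  push Not at hcon
  apply h1
  rw [NN, mm]
  have h2 : ∀ y : Subgroup.centralizer ({z} : Set G), (if p ∣ orderOf y then (0:ℂ) else
      bp z b (χ : G → ℂ) y * conj (bp z b (χ : G → ℂ) y)) = 0 := by
    intro y
    split_ifs with hy
    · rfl
    · have h3 : bp z b (χ : G → ℂ) y = 0 := by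
        unfold bp
        rw [blockPart_congr_reg hM hb.1 hy (f' := fun _ => 0) fun c hc => hcon c c.2
          (by rwa [Subgroup.orderOf_coe])]
        rw [blockPart_KB]
        simp
      rw [h3, zero_mul]
  rw [Finset.sum_congr rfl fun y _ => h2 y]
  simp

end major

section gal
variable {G : Type*} [Group G] [Fintype G] {N : Subgroup G} {A : Type*} [AddCommGroup A] [Fintype A]
  (q : G → A) (hq : ∀ x y, q (x * y) = q x + q y) (hk : ∀ x, q x = 0 ↔ x ∈ N)

include hq in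
theorem q_one : q 1 = 0 := by
  have := hq 1 1
  rw [one_mul] at this
  exact left_eq_add.1 this

include hq in
/-- twisting by a character of the abelian quotient -/
noncomputable def tw (ψ : AddChar A ℂ) (χ : IrrCharacter G) : IrrCharacter G :=
  ⟨fun g => ψ (q g) * (χ : G → ℂ) g, by
    let f : G →* ℂ :=
      { toFun := fun g => ψ (q g)
        map_one' := by rw [q_one q hq, AddChar.map_zero_eq_one]
        map_mul' := fun x y => by rw [hq, AddChar.map_add_eq_mul] }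
    have h1 := isIrr_of_hom_units f.toHomUnits
    have h2 : (fun g => ((f.toHomUnits g : ℂˣ) : ℂ)) = fun g => ψ (q g) := by
      funext g
      exact MonoidHom.coe_toHomUnits f g
    rw [h2] at h1
    exact IsIrr.mul_linear χ.2 (IsIrr.isCharacter h1) (by show ψ (q 1) = 1; rw [q_one q hq, AddChar.map_zero_eq_one])⟩

theorem tw_coe (ψ : AddChar A ℂ) (χ : IrrCharacter G) (g : G) :
    (tw q hq ψ χ : G → ℂ) g = ψ (q g) * (χ : G → ℂ) g := rfl

include hk in
/-- orthogonality over the quotient -/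
theorem sum_tw [Fintype N] (hs : Function.Surjective q) (f : G → ℂ) :
    ∑ ψ : AddChar A ℂ, ∑ g : G, ψ (q g) * f g = (Fintype.card A : ℂ) * ∑ n : N, f n := by
  classical
  rw [Finset.sum_comm]
  have h1 : ∀ g : G, ∑ ψ : AddChar A ℂ, ψ (q g) * f g = if g ∈ N then (Fintype.card A : ℂ) * f g else 0 := by
    intro g
    rw [← Finset.sum_mul, AddChar.sum_apply_eq_ite]
    by_cases h : g ∈ N
    · rw [if_pos ((hk g).2 h), if_pos h]
    · rw [if_neg (fun h' => h ((hk g).1 h')), if_neg h, zero_mul]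
  rw [Finset.sum_congr rfl fun g _ => h1 g, ← Finset.sum_filter, Finset.mul_sum]
  exact Finset.sum_subtype _ (by simp) _

include hk in
theorem tw_sum [Fintype N] (hs : Function.Surjective q) (χ χ' : IrrCharacter G) :
    ∑ ψ : AddChar A ℂ, classInner (tw q hq ψ χ : G → ℂ) (χ' : G → ℂ) =
      classInner (fun n : N => (χ : G → ℂ) n) (fun n : N => (χ' : G → ℂ) n) := by
  classical
  have h1 := sum_tw q hk hs (fun g => (χ : G → ℂ) g * conj ((χ' : G → ℂ) g))
  have h2 : ∀ ψ : AddChar A ℂ, classInner (tw q hq ψ χ : G → ℂ) (χ' : G → ℂ) =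
      (Nat.card G : ℂ)⁻¹ * ∑ g : G, ψ (q g) * ((χ : G → ℂ) g * conj ((χ' : G → ℂ) g)) := by
    intro ψ
    rw [classInner]
    congr 1
    exact Finset.sum_congr rfl fun g _ => by rw [tw_coe]; ring
  rw [Finset.sum_congr rfl fun ψ _ => h2 ψ, ← Finset.mul_sum, h1, classInner]
  have hf : (Nat.card G : ℂ) = Fintype.card A * Nat.card N := by
    have e : G ⧸ N ≃ A :=
      Equiv.ofBijective (Quotient.lift q (fun a b h => by
        have h' : a⁻¹ * b ∈ N := QuotientGroup.leftRel_apply.1 h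
        have h1 := (hk _).2 h'
        have h2 := hq a (a⁻¹ * b)
        rw [mul_inv_cancel_left, h1, add_zero] at h2
        exact h2.symm)) ⟨by
        intro a b
        refine Quotient.inductionOn₂ a b fun a b h => ?_
        have h : q a = q b := h
        refine Quotient.sound (QuotientGroup.leftRel_apply.2 ((hk _).1 ?_))
        have h2 := hq a (a⁻¹ * b)
        rw [mul_inv_cancel_left, ← h] at h2
        exact left_eq_add.1 h2, fun a => by
        obtain ⟨g, hg⟩ := hs a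
        exact ⟨QuotientGroup.mk g, hg⟩⟩
    have h3 := Subgroup.card_eq_card_quotient_mul_card_subgroup N
    rw [Nat.card_congr e, Nat.card_eq_fintype_card (α := A)] at h3
    exact_mod_cast h3
  have hA : (Fintype.card A : ℂ) ≠ 0 := by
    haveI : Nonempty A := ⟨0⟩
    exact_mod_cast Fintype.card_ne_zero
  have hN : (Nat.card N : ℂ) ≠ 0 := by exact_mod_cast Nat.card_pos.ne'
  rw [hf]
  field_simp

include hk in
theorem res_irr [Fintype N] (hs : Function.Surjective q) {χ : IrrCharacter G}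
    (hne : ∀ ψ : AddChar A ℂ, ψ ≠ 0 → tw q hq ψ χ ≠ χ) :
    IsIrrCharacter N (fun n : N => (χ : G → ℂ) n) := by
  classical
  apply IsChar.isIrr_of_norm (IsChar.res (IsIrr.isCharacter χ.2) N)
  have h1 := tw_sum q hq hk hs χ χ
  show classInner (fun n : N => (χ : G → ℂ) n) (fun n : N => (χ : G → ℂ) n) = 1
  rw [← h1, Finset.sum_eq_single 0]
  · have : (tw q hq 0 χ : G → ℂ) = χ := by
      funext g
      rw [tw_coe, AddChar.zero_apply, one_mul]
    rw [this, ci_irr_self χ.2]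
  · intro ψ _ hψ
    exact ci_irr_ne (tw q hq ψ χ).2 χ.2 fun h => hne ψ hψ (Subtype.ext h)
  · intro h; exact absurd (Finset.mem_univ _) h

include hk in
theorem fiber_card [Fintype N] (hs : Function.Surjective q) {χ : IrrCharacter G}
    (hne : ∀ ψ : AddChar A ℂ, ψ ≠ 0 → tw q hq ψ χ ≠ χ) :
    Nat.card {χ' : IrrCharacter G // ∀ n : N, (χ' : G → ℂ) n = (χ : G → ℂ) n} = Nat.card A := by
  classical
  have h1 : ∀ ψ : AddChar A ℂ, ∀ n : N, (tw q hq ψ χ : G → ℂ) n = (χ : G → ℂ) n := by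
    intro ψ n
    rw [tw_coe, (hk _).2 n.2, AddChar.map_zero_eq_one, one_mul]
  have e : Function.Bijective (fun ψ : AddChar A ℂ =>
      (⟨tw q hq ψ χ, h1 ψ⟩ : {χ' : IrrCharacter G // ∀ n : N, (χ' : G → ℂ) n = (χ : G → ℂ) n})) := by
    constructor
    · intro ψ ψ' h
      have h2 : tw q hq ψ χ = tw q hq ψ' χ := congrArg Subtype.val h
      by_contra hcon
      refine hne (ψ - ψ') (sub_ne_zero.2 hcon) (Subtype.ext (funext fun g => ?_))
      have h3 : ψ (q g) * (χ : G → ℂ) g = ψ' (q g) * (χ : G → ℂ) g :=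
        congrFun (congrArg Subtype.val h2) g
      rw [tw_coe, AddChar.sub_apply']
      have h4 : ψ' (q g) ≠ 0 := by
        intro h0
        have := AddChar.map_add_eq_mul ψ' (q g) (-(q g))
        rw [add_neg_cancel, AddChar.map_zero_eq_one, h0, zero_mul] at this
        exact one_ne_zero this
      rw [div_mul_eq_mul_div, h3, mul_comm, mul_div_assoc, div_self h4, mul_one]
    · rintro ⟨χ', hχ'⟩
      have h2 := tw_sum q hq hk hs χ χ'
      have h3 : (fun n : N => (χ' : G → ℂ) n) = fun n : N => (χ : G → ℂ) n := funext hχ'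
      rw [h3, ci_irr_self (res_irr q hq hk hs hne)] at h2
      obtain ⟨ψ, -, hψ⟩ := Finset.exists_ne_zero_of_sum_ne_zero (h2.trans_ne one_ne_zero)
      refine ⟨ψ, Subtype.ext (Subtype.ext ?_)⟩
      by_contra h4
      exact hψ (ci_irr_ne (tw q hq ψ χ).2 χ'.2 h4)
  rw [← Nat.card_congr (Equiv.ofBijective _ e), Nat.card_eq_fintype_card, AddChar.card_eq,
    Nat.card_eq_fintype_card]

end gal

section blocks
variable {p : ℕ} {M : Ideal AlgInt} {G : Type*} [Group G] [Fintype G] [hp : Fact p.Prime]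

theorem blockRank_eq (N : Subgroup G) [hN : N.Normal] (hNi : ∃ k : ℕ, N.index = p ^ k)
    {B : Set (IrrCharacter G)} {b : Set (IrrCharacter N)}
    (h1 : ∀ χ ∈ B, ∃ θ ∈ b, ∀ n : N, (χ : G → ℂ) n = (θ : N → ℂ) n)
    (h2 : ∀ θ ∈ b, ∃ χ ∈ B, ∀ n : N, (χ : G → ℂ) n = (θ : N → ℂ) n) :
    blockRank p B = blockRank p b := by
  classical
  let E : (N → ℂ) →ₗ[ℂ] (G → ℂ) :=
    { toFun := fun f g => if h : g ∈ N then f ⟨g, h⟩ else 0
      map_add' := fun f g => by funext x; by_cases h : x ∈ N <;> simp [h]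
      map_smul' := fun c f => by funext x; by_cases h : x ∈ N <;> simp [h] }
  have hE : Function.Injective E := by
    intro f g h
    funext n
    have := congrFun h (n : G)
    simpa [E] using this
  have key : ∀ (χ : IrrCharacter G) (θ : IrrCharacter N), (∀ n : N, (χ : G → ℂ) n = (θ : N → ℂ) n) →
      pRegularPart p (χ : G → ℂ) = E (pRegularPart p (θ : N → ℂ)) := by
    intro χ θ h
    funext g
    show pRegularPart p (χ : G → ℂ) g = if h : g ∈ N then pRegularPart p (θ : N → ℂ) ⟨g, h⟩ else 0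
    rw [BlockReg3.pReg_apply]
    by_cases hg : g ∈ N
    · rw [dif_pos hg, BlockReg3.pReg_apply, ← h ⟨g, hg⟩]
      have : orderOf (⟨g, hg⟩ : N) = orderOf g := by rw [← Subgroup.orderOf_coe]
      rw [this]
    · rw [dif_neg hg, if_pos]
      by_contra hp'
      exact hg (Cov2.mem_of_preg (H := ⊤) (N := N) (by rw [Subgroup.normalizer_eq_top]) (by
        obtain ⟨k, hk⟩ := hNi
        exact ⟨k, by rw [Subgroup.relIndex_top_right]; exact hk⟩) (Subgroup.mem_top g) hp')
  unfold blockRank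
  have hspan : Submodule.span ℂ ((fun χ : IrrCharacter G => pRegularPart p (χ : G → ℂ)) '' B) =
      (Submodule.span ℂ ((fun χ : IrrCharacter N => pRegularPart p (χ : N → ℂ)) '' b)).map E := by
    rw [Submodule.map_span]
    congr 1
    ext f
    constructor
    · rintro ⟨χ, hχ, rfl⟩
      obtain ⟨θ, hθ, h⟩ := h1 χ hχ
      exact ⟨_, ⟨θ, hθ, rfl⟩, (key χ θ h).symm⟩
    · rintro ⟨_, ⟨θ, hθ, rfl⟩, rfl⟩
      obtain ⟨χ, hχ, h⟩ := h2 θ hθ
      exact ⟨χ, hχ, key χ θ h⟩
  rw [hspan]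
  exact (LinearEquiv.finrank_eq (Submodule.equivMapOfInjective E hE _)).symm

theorem s4640 (hM : IsPModular p M) (N : Subgroup G) [hN : N.Normal] [Fintype N]
    (hNi : ∃ k : ℕ, N.index = p ^ k) (b : Set (IrrCharacter N)) (hb : IsPBlock M b)
    (hstab : ∀ g : G, StabilizesBlock N b g) (B : Set (IrrCharacter G)) (hB : IsPBlock M B)
    (hcov : ∃ χ ∈ B, ∃ θ ∈ b, classInner (fun n : N => (χ : G → ℂ) n) (θ : N → ℂ) ≠ 0)
    (P : Subgroup G) (hPD : IsDefectGroup p M B P) (hPab : ∀ x ∈ P, ∀ y ∈ P, x * y = y * x) :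
    N ⊔ P = ⊤ ∧ IsDefectGroup p M b ((P ⊓ N).subgroupOf N) ∧
    (∀ χ ∈ B, ∃ θ ∈ b, ∀ n : N, (χ : G → ℂ) n = (θ : N → ℂ) n) ∧
    (∀ θ ∈ b, Nat.card {χ : IrrCharacter G // χ ∈ B ∧ ∀ n : N, (χ : G → ℂ) n = (θ : N → ℂ) n} =
      N.index) ∧ Nat.card B = N.index * Nat.card b ∧ blockRank p B = blockRank p b := by
  classical
  haveI := hM.2.1
  haveI := charP_KM M hM
  have hblk : IsBlk N (ep M N b) := isBlk_ep hb
  have hfix : Fix ⊤ (ep M N b) := fun g _ => ((stabilizes_iff hb g).1 (hstab g)).2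
  have hidx : ∃ m : ℕ, N.relIndex ⊤ = p ^ m := by
    obtain ⟨k, hk⟩ := hNi
    exact ⟨k, by rw [Subgroup.relIndex_top_right]; exact hk⟩
  have hnorm : (⊤ : Subgroup G) ≤ Subgroup.normalizer (N : Set G) := by
    rw [Subgroup.normalizer_eq_top]
  have hE : IsBlk ⊤ (ep M N b) := blk_of_index hM le_top hnorm hidx hblk hfix
  have hBG : IsBlk ⊤ (epG M B) := isBlk_epG hB
  have hne := (cov_iff hN hB hb).1 hcov
  have heq : epG M B = ep M N b := hBG.eq_of_mul hE hne
  have hD : DGH p ⊤ (epG M B) P := (defectG_iff hM hB).1 hPD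
  have htop : N ⊔ P = ⊤ := sup_eq_top hM hNi hblk hfix (heq ▸ hD)
  have huniq : ∀ (χ : IrrCharacter G) (θ : IrrCharacter N), θ ∈ b →
      classInner (fun n : N => (χ : G → ℂ) n) (θ : N → ℂ) ≠ 0 → χ ∈ B := by
    intro χ θ hθ h
    have h1 := cov_of_char hN hb hθ h
    have h2 := (isBlk_epG (isPBlock_blockOf χ)).eq_of_mul hE h1
    have h3 := epG_inj (isPBlock_blockOf χ) hB (h2.trans heq.symm)
    rw [← h3]; exact mem_blockOf_self χ
  -- the abelian quotient
  have hcomm : ∀ a c : G ⧸ N, a * c = c * a := by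
    have hsurj : ∀ a : G ⧸ N, ∃ y ∈ P, (QuotientGroup.mk' N) y = a := by
      intro a
      obtain ⟨g, rfl⟩ := QuotientGroup.mk'_surjective N a
      have hg : g ∈ N ⊔ P := by rw [htop]; exact Subgroup.mem_top g
      obtain ⟨n, hn, y, hy, rfl⟩ := Subgroup.mem_sup_of_normal_left.1 hg
      refine ⟨y, hy, ?_⟩
      rw [map_mul, show (QuotientGroup.mk' N) n = 1 from (QuotientGroup.eq_one_iff (N := N) n).2 hn, one_mul]
    intro a c
    obtain ⟨y, hy, rfl⟩ := hsurj a
    obtain ⟨y', hy', rfl⟩ := hsurj c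
    rw [← map_mul, ← map_mul, hPab y hy y' hy']
  letI : CommGroup (G ⧸ N) := { (inferInstance : Group (G ⧸ N)) with mul_comm := hcomm }
  haveI : Fintype (Additive (G ⧸ N)) := Fintype.ofFinite _
  let q : G → Additive (G ⧸ N) := fun g => Additive.ofMul (g : G ⧸ N)
  have hq : ∀ x y, q (x * y) = q x + q y := fun x y => rfl
  have hk : ∀ x, q x = 0 ↔ x ∈ N := fun x => QuotientGroup.eq_one_iff x
  have hs : Function.Surjective q := fun a => QuotientGroup.mk_surjective a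
  have htw : ∀ χ ∈ B, ∀ ψ : AddChar (Additive (G ⧸ N)) ℂ, ψ ≠ 0 → tw q hq ψ χ ≠ χ := by
    intro χ hχ ψ hψ h
    obtain ⟨a, ha⟩ := AddChar.ne_zero_iff.1 hψ
    obtain ⟨g, rfl⟩ := hs a
    have hg : g ∈ N ⊔ P := by rw [htop]; exact Subgroup.mem_top g
    obtain ⟨n, hn, z, hz, rfl⟩ := Subgroup.mem_sup_of_normal_left.1 hg
    rw [hq, (hk n).2 hn, zero_add] at ha
    obtain ⟨y, hy, hyp, hv⟩ := major_value hM hB hPD hz (fun d hd => hPab d hd z hz) hχ
    have hyN : y ∈ N := Cov2.mem_of_preg hnorm hidx (Subgroup.mem_top y) hyp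
    have h1 := congrFun (congrArg Subtype.val h) (z * y)
    rw [show (tw q hq ψ χ).1 (z * y) = (tw q hq ψ χ : G → ℂ) (z * y) from rfl, tw_coe, hq,
      (hk y).2 hyN, add_zero] at h1
    exact ha (mul_right_cancel₀ hv (h1.trans (one_mul _).symm))
  have hres : ∀ χ ∈ B, ∃ θ ∈ b, ∀ n : N, (χ : G → ℂ) n = (θ : N → ℂ) n := by
    intro χ hχ
    have h1 := res_irr q hq hk hs (htw χ hχ)
    obtain ⟨θ, hθ, h2⟩ := cov_all hN hB hb hne hχ
    refine ⟨θ, hθ, fun n => ?_⟩
    by_contra h3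
    exact h2 (ci_irr_ne h1 θ.2 fun h4 => h3 (congrFun h4 n))
  have hext : ∀ θ ∈ b, ∃ χ ∈ B, ∀ n : N, (χ : G → ℂ) n = (θ : N → ℂ) n := by
    intro θ hθ
    obtain ⟨χ, hχ⟩ : ∃ χ : IrrCharacter G, classInner (fun n : N => (χ : G → ℂ) n) (θ : N → ℂ) ≠ 0 := by
      obtain ⟨ξ, hξ, h⟩ := exists_constituent_ind (G := G) (H := N) θ.2
      rw [constituent_ind_iff (IsIrr.isCharacter hξ)] at h
      exact ⟨⟨ξ, hξ⟩, h⟩
    have hχB := huniq χ θ hθ hχ
    refine ⟨χ, hχB, fun n => ?_⟩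
    have h1 := res_irr q hq hk hs (htw χ hχB)
    by_contra h3
    exact hχ (ci_irr_ne h1 θ.2 fun h4 => h3 (congrFun h4 n))
  have hfib : ∀ θ ∈ b, Nat.card {χ : IrrCharacter G // χ ∈ B ∧ ∀ n : N, (χ : G → ℂ) n = (θ : N → ℂ) n} =
      N.index := by
    intro θ hθ
    obtain ⟨χ, hχ, h⟩ := hext θ hθ
    have h1 := fiber_card q hq hk hs (htw χ hχ)
    have h1' : Nat.card (Additive (G ⧸ N)) = N.index := rfl
    rw [← h1', ← h1]
    refine Nat.card_congr (Equiv.subtypeEquivRight fun χ' => ?_)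
    constructor
    · rintro ⟨-, h2⟩ n
      rw [h2, h]
    · intro h2
      have h3 : ∀ n : N, (χ' : G → ℂ) n = (θ : N → ℂ) n := fun n => (h2 n).trans (h n)
      refine ⟨huniq χ' θ hθ ?_, h3⟩
      rw [show (fun n : N => (χ' : G → ℂ) n) = (θ : N → ℂ) from funext h3, ci_irr_self θ.2]
      exact one_ne_zero
  refine ⟨htop, ?_, hres, hfib, ?_, blockRank_eq N hNi hres hext⟩
  · obtain ⟨Q, hQ⟩ := exists_DGH hM hblk
    obtain ⟨g, -, -, h⟩ := knorr hBG hblk hne hD hQ
    rw [hfix g (Subgroup.mem_top g)] at h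
    exact (defectH_iff' hM hb inf_le_right).2 h
  · choose r hr hr' using hres
    have e : B ≃ Σ θ : b, {χ : IrrCharacter G // χ ∈ B ∧ ∀ n : N, (χ : G → ℂ) n = (θ : N → ℂ) n} :=
      { toFun := fun χ => ⟨⟨r χ.1 χ.2, hr χ.1 χ.2⟩, ⟨χ.1, χ.2, hr' χ.1 χ.2⟩⟩
        invFun := fun x => ⟨x.2.1, x.2.2.1⟩
        left_inv := fun χ => rfl
        right_inv := by
          rintro ⟨⟨θ, hθ⟩, ⟨χ, hχ, h⟩⟩
          have : r χ hχ = θ := Subtype.ext (funext fun n => by rw [← h n, ← hr' χ hχ n])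
          subst this
          rfl }
    haveI : Fintype b := Fintype.ofFinite _
    rw [Nat.card_congr e, Nat.card_sigma]
    rw [Finset.sum_congr rfl fun θ _ => hfib θ.1 θ.2]
    simp [mul_comm]

end blocks

end Cfsg.Agent.H25.KK
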