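import Cfsg.Agent.H25_DihGrp2
import Cfsg.Agent.H25_DihFour
import Cfsg.Agent.H25_DihComb
import Cfsg.Agent.H25_KK
import Cfsg.Agent.H25_BPInd
import Cfsg.Agent.H10_BlockV4
import Cfsg.Agent.H5_Dih
set_option autoImplicit false
set_option maxHeartbeats 1000000

namespace Cfsg.Agent.H25.DihBlk
open Cfsg Cfsg.Agent.H10.PPart Cfsg.Agent.H25.DihCnt Cfsg.Agent.H25.DihGrp Cfsg.Agent.H25.DihGrp2
  Cfsg.Agent.H10.BlockV4 Cfsg.Agent.H10.BlockKer Cfsg.Agent.H25.DihFour
open Cfsg.Agent.H3.CharIrr Cfsg.Agent.H3.CharComplete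
open scoped ComplexConjugate

variable {G : Type*} [Group G] [Fintype G] {M : Ideal AlgInt} {n : ℕ} {σ τ : G}

/-- normal complement in centralizers of elements of `P`. -/
theorem Cmp.compl {C O P : Subgroup G} (h : Cmp C O P) {z : G} (hz : z ∈ P)
    (hzC : Subgroup.centralizer ({z} : Set G) ≤ C) :
    ∃ K : Subgroup (Subgroup.centralizer ({z} : Set G)), K.Normal ∧ ¬ 2 ∣ Nat.card K ∧
      K.index = Nat.card ↥(P ⊓ Subgroup.centralizer ({z} : Set G)) ∧ ∃ k : ℕ, K.index = 2 ^ k := by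
  set Cz := Subgroup.centralizer ({z} : Set G) with hCz
  set D := O ⊓ Cz with hD
  set K : Subgroup Cz := O.subgroupOf Cz with hKdef
  let e : K ≃ D := ⟨fun x => ⟨((x : Cz) : G), ⟨x.2, (x : Cz).2⟩⟩,
    fun x => ⟨⟨(x : G), x.2.2⟩, x.2.1⟩, fun _ => rfl, fun _ => rfl⟩
  have hKD : Nat.card K = Nat.card D := Nat.card_congr e
  have hDO : Nat.card D ∣ Nat.card O := Subgroup.card_dvd_of_le inf_le_left
  have hKn : K.Normal := by
    refine ⟨fun x hx c => ?_⟩
    exact h.nrm _ (hzC c.2) _ hx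
  have hKodd : ¬ 2 ∣ Nat.card K := by
    rw [hKD]; exact fun h5 => h.odd (h5.trans hDO)
  have hcc : Nat.card Cz = Nat.card K * Nat.card ↥(P ⊓ Cz) := by
    rw [hKD, ← h.card_centralizer hz, inf_eq_right.2 hzC]
  have hKidx : K.index = Nat.card ↥(P ⊓ Cz) := by
    have h1 := K.card_mul_index
    rw [hcc] at h1
    exact Nat.eq_of_mul_eq_mul_left Nat.card_pos h1
  refine ⟨K, hKn, hKodd, hKidx, ?_⟩
  rw [hKidx]
  have : IsPGroup 2 ↥(P ⊓ Cz) := h.two.to_le inf_le_left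
  exact this.exists_card_eq

theorem exists_pow_J {P : Subgroup G} (D : DP P n σ τ) {z : G}
    (hz : z ∈ Subgroup.zpowers σ) (hz1 : z ≠ 1) : ∃ k : ℕ, z ^ k = σ ^ (2 ^ (n - 2)) := by
  have h0 : orderOf z ∣ 2 ^ (n - 1) := by
    rw [← D.hσo]; exact orderOf_dvd_of_mem_zpowers hz
  obtain ⟨a, -, ha⟩ := (Nat.dvd_prime_pow Nat.prime_two).1 h0
  have ha0 : a ≠ 0 := by
    rintro rfl
    rw [pow_zero, orderOf_eq_one_iff] at ha
    exact hz1 ha
  refine ⟨2 ^ (a - 1), ?_⟩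
  have h2 : orderOf (z ^ (2 ^ (a - 1))) = 2 := by
    rw [orderOf_pow_of_dvd (by positivity) (by rw [ha]; exact pow_dvd_pow 2 (by omega)), ha,
      Nat.pow_div (by omega) (by norm_num), show a - (a - 1) = 1 by omega, pow_one]
  refine D.eq_J ((Subgroup.zpowers σ).pow_mem hz _) ?_ ?_
  · have := pow_orderOf_eq_one (z ^ (2 ^ (a - 1)))
    rwa [h2, pow_two] at this
  · intro h
    rw [h, orderOf_one] at h2
    omega

theorem cent_le {P : Subgroup G} (D : DP P n σ τ) {z : G} (hz : z ∈ Subgroup.zpowers σ)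
    (hz1 : z ≠ 1) : Subgroup.centralizer ({z} : Set G) ≤
      Subgroup.centralizer ({σ ^ (2 ^ (n - 2))} : Set G) := by
  obtain ⟨k, hk⟩ := exists_pow_J D hz hz1
  intro x hx
  rw [Subgroup.mem_centralizer_singleton_iff] at hx ⊢
  rw [← hk]
  exact (show Commute x z from hx).pow_right k

theorem exists_compl (P : Sylow 2 G) (D : DP (P : Subgroup G) n σ τ) {z : G}
    (hz : z ∈ Subgroup.zpowers σ) (hz1 : z ≠ 1) :
    ∃ K : Subgroup (Subgroup.centralizer ({z} : Set G)), K.Normal ∧ ¬ 2 ∣ Nat.card K ∧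
      K.index = Nat.card ↥((P : Subgroup G) ⊓ Subgroup.centralizer ({z} : Set G)) ∧
      ∃ k : ℕ, K.index = 2 ^ k := by
  obtain ⟨O, hO⟩ := exists_cmp P D
  exact Cmp.compl hO (D.zle hz) (cent_le D hz hz1)

open Classical in
theorem card_cent {P : Subgroup G} (D : DP P n σ τ) {z : G}
    (hz : z ∈ Subgroup.zpowers σ) : Nat.card ↥(P ⊓ Subgroup.centralizer ({z} : Set G)) =
      if z * z = 1 then 2 ^ n else 2 ^ (n - 1) := by
  split_ifs with h
  · by_cases h1 : z = 1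
    · have : P ⊓ Subgroup.centralizer ({z} : Set G) = P := by
        apply inf_eq_left.2
        intro x _
        rw [Subgroup.mem_centralizer_singleton_iff, h1]; simp
      rw [this, D.card_P]
    · have : P ⊓ Subgroup.centralizer ({z} : Set G) = P := by
        apply inf_eq_left.2
        intro x hx
        rw [Subgroup.mem_centralizer_singleton_iff, D.eq_J hz h h1]
        exact D.J_central hx
      rw [this, D.card_P]
  · rw [D.cent_rot hz h, Nat.card_zpowers, D.hσo]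

theorem two_of_rot {P : Subgroup G} (D : DP P n σ τ) {z : G} (hz : z ∈ Subgroup.zpowers σ) :
    ∃ k : ℕ, orderOf z = 2 ^ k := by
  have h0 : orderOf z ∣ 2 ^ (n - 1) := by
    rw [← D.hσo]; exact orderOf_dvd_of_mem_zpowers hz
  obtain ⟨a, -, ha⟩ := (Nat.dvd_prime_pow Nat.prime_two).1 h0
  exact ⟨a, ha⟩

theorem val_inv {P : Subgroup G} (D : DP P n σ τ) {z : G} (hz : z ∈ Subgroup.zpowers σ)
    (χ : IrrCharacter G) : (χ : G → ℂ) z⁻¹ = (χ : G → ℂ) z := by
  obtain ⟨g, hg⟩ := isConj_iff.1 (real_rot D hz)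
  rw [← hg]
  exact IsIrr.isClass χ.2 z g

theorem val_real {P : Subgroup G} (D : DP P n σ τ) {z : G} (hz : z ∈ Subgroup.zpowers σ)
    (χ : IrrCharacter G) : conj ((χ : G → ℂ) z) = (χ : G → ℂ) z := by
  rw [← IsChar.inv_eq_conj (IsIrr.isCharacter χ.2), val_inv D hz]

open Classical in
/-- diagonal norms -/
theorem norm_rot (hM : IsPModular 2 M) [Fintype (IrrCharacter G)] (P : Sylow 2 G)
    (D : DP (P : Subgroup G) n σ τ) {z : G} (hz : z ∈ Subgroup.zpowers σ) (hz1 : z ≠ 1) :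
    ∑ χ ∈ Finset.univ.filter (fun χ : IrrCharacter G => χ ∈ principalBlock M G),
      (χ : G → ℂ) z * (χ : G → ℂ) z =
      if z * z = 1 then (2 : ℂ) ^ n else (2 : ℂ) ^ (n - 1) := by
  obtain ⟨K, hK, hK2, hKi, hKi'⟩ := exists_compl P D hz hz1
  have h1 := principal_norm_compl hM (two_of_rot D hz) hK hK2 hKi' 1 (by simp)
  rw [hKi, card_cent D hz, ← Finset.sum_filter] at h1
  rw [show (if z * z = 1 then (2 : ℂ) ^ n else (2 : ℂ) ^ (n - 1)) =
    ((if z * z = 1 then 2 ^ n else 2 ^ (n - 1) : ℕ) : ℂ) by split_ifs <;> push_cast <;> rfl, ← h1]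
  apply Finset.sum_congr rfl
  intro χ _
  rw [Subgroup.coe_one, mul_one, val_real D hz]

open Classical in
theorem orth_rot (hM : IsPModular 2 M) [Fintype (IrrCharacter G)] {P : Subgroup G}
    (D : DP P n σ τ) {y z : G} (hy : y ∈ Subgroup.zpowers σ) (hz : z ∈ Subgroup.zpowers σ)
    (hyz : ¬ IsConj y z) :
    ∑ χ ∈ Finset.univ.filter (fun χ : IrrCharacter G => χ ∈ principalBlock M G),
      (χ : G → ℂ) y * (χ : G → ℂ) z = 0 := by
  haveI := hM.2.1
  have hself : ∀ {x : G}, x ∈ Subgroup.zpowers σ → IsPPart 2 x x := fun {x} hx =>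
    ⟨1, mul_one x, Commute.one_right x, two_of_rot D hx, by simp⟩
  have h1 := H10.BlockSMT2.block_orth hM (hself hy) (hself hz) hyz
    (principal_isPBlock (M := M) (G := G))
  rw [← Finset.sum_filter] at h1
  rw [← h1]
  apply Finset.sum_congr rfl
  intro χ _
  rw [val_inv D hz]

open Classical in
theorem orth_reg (hM : IsPModular 2 M) [Fintype (IrrCharacter G)] {P : Subgroup G}
    (D : DP P n σ τ) {z ρ : G} (hz : z ∈ Subgroup.zpowers σ)
    (hz1 : z ≠ 1) (hρ : ¬ 2 ∣ orderOf ρ) :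
    ∑ χ ∈ Finset.univ.filter (fun χ : IrrCharacter G => χ ∈ principalBlock M G),
      (χ : G → ℂ) z * (χ : G → ℂ) ρ = 0 := by
  haveI := hM.2.1
  obtain ⟨k, hk⟩ := two_of_rot D hz
  have h2 : 2 ∣ orderOf z := by
    rw [hk]
    apply dvd_pow_self
    rintro rfl
    rw [pow_zero, orderOf_eq_one_iff] at hk
    exact hz1 hk
  have h1 := H10.BlockOrth.weak_orth' hM (principal_isPBlock (M := M) (G := G)) ρ z hρ h2
  rw [← Finset.sum_filter] at h1
  exact h1

/-- nonvanishing at the central involution -/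
theorem val_J_ne (hM : IsPModular 2 M) (P : Sylow 2 G) (D : DP (P : Subgroup G) n σ τ)
    {χ : IrrCharacter G} (hχ : χ ∈ principalBlock M G) :
    (χ : G → ℂ) (σ ^ (2 ^ (n - 2))) ≠ 0 := by
  haveI := hM.2.1
  have hPD : IsDefectGroup 2 M (principalBlock M G) (P : Subgroup G) :=
    (BPInd.defect_principal hM _).2 ⟨P, rfl⟩
  obtain ⟨y, hy, hy2, hne⟩ := KK.major_value hM (principal_isPBlock (M := M) (G := G)) hPD D.J_mem
    (fun d hd => D.J_central hd) hχ
  have hJz := Subgroup.npow_mem_zpowers σ (2 ^ (n - 2))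
  obtain ⟨K, hK, hK2, hKi, hKi'⟩ := exists_compl P D hJz D.J_ne
  have h1 := singular_complement hM (two_of_rot D hJz) hK hK2 hKi' ⟨y, hy⟩
    (by rwa [Subgroup.orderOf_mk]) hχ
  rw [← h1]
  exact hne

end Cfsg.Agent.H25.DihBlk
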