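import Cfsg.Agent.H25_DihBlk
set_option autoImplicit false
set_option maxHeartbeats 1000000

namespace Cfsg.Agent.H25.DihMain
open Cfsg Cfsg.Agent.H10.PPart Cfsg.Agent.H25.DihCnt Cfsg.Agent.H25.DihGrp Cfsg.Agent.H25.DihGrp2
  Cfsg.Agent.H10.BlockV4 Cfsg.Agent.H10.BlockKer Cfsg.Agent.H25.DihFour Cfsg.Agent.H25.DihBlk
  Cfsg.Agent.H5.Dih
open Cfsg.Agent.H3.CharIrr Cfsg.Agent.H3.CharComplete
open scoped ComplexConjugate

section four
variable {L : ℕ} [NeZero L] {e : AddChar (ZMod L) ℂ} {ι : Type*}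

theorem val_const (he : e.IsPrimitive) (v : ZMod L → ι → ℂ) (x : ι) {δ : ℂ}
    (h : ∀ k : ZMod L, k ≠ 0 → co e v k x = δ) {i : ZMod L} (hi : i ≠ 0) : v i x = δ := by
  rw [inverse he v hi]
  have h1 : ∀ k : ZMod L, co e v k x * e (k * i) =
      δ * e (i * k) - if k = 0 then δ else 0 := by
    intro k
    split_ifs with hk
    · rw [hk, co_zero, mul_zero, AddChar.map_zero_eq_one]; ring
    · rw [h k hk, mul_comm k i]; ring
  simp only [h1]
  rw [Finset.sum_sub_distrib, ← Finset.mul_sum, sum_e he, if_neg hi,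
    Finset.sum_ite_eq' _ (0 : ZMod L), if_pos (Finset.mem_univ _)]
  ring

theorem val_single (he : e.IsPrimitive) (v : ZMod L → ι → ℂ) (x : ι) {δ : ℂ} {a : ZMod L}
    (h : ∀ k : ZMod L, k ≠ a → co e v k x = 0) (ha : co e v a x = δ) {i : ZMod L} (hi : i ≠ 0) :
    v i x = -(δ * e (a * i)) := by
  rw [inverse he v hi, Finset.sum_eq_single a, ha]
  · intro k _ hk
    rw [h k hk, zero_mul]
  · intro h1; exact absurd (Finset.mem_univ _) h1

theorem val_pair (he : e.IsPrimitive) (v : ZMod L → ι → ℂ) (x : ι) {δ : ℂ} {a : ZMod L}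
    (haa : a ≠ -a) (h : ∀ k : ZMod L, k ≠ a → k ≠ -a → co e v k x = 0) (ha : co e v a x = -δ)
    (ha' : co e v (-a) x = -δ) {i : ZMod L} (hi : i ≠ 0) :
    v i x = δ * (e (a * i) + e (-(a * i))) := by
  classical
  rw [inverse he v hi]
  have h3 : ∑ k ∈ ({a, -a} : Finset (ZMod L)), co e v k x * e (k * i) =
      ∑ k : ZMod L, co e v k x * e (k * i) := by
    apply Finset.sum_subset (Finset.subset_univ _)
    intro k _ hk'
    rw [Finset.mem_insert, Finset.mem_singleton, not_or] at hk'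
    rw [h k hk'.1 hk'.2, zero_mul]
  rw [← h3, Finset.sum_pair haa, ha, ha', neg_mul a i]
  ring

theorem cast_ne {L : ℕ} {j : ℕ} (h1 : 0 < j) (h2 : j < L) : (j : ZMod L) ≠ 0 := by
  intro h
  rw [ZMod.natCast_eq_zero_iff] at h
  exact absurd (Nat.le_of_dvd h1 h) (by omega)

theorem rep (N : ℕ) (hN : 1 ≤ N) (k : ZMod (2 * N)) (hk : k ≠ 0) :
    ∃ j : ℕ, 1 ≤ j ∧ j ≤ N ∧ (k = (j : ZMod (2 * N)) ∨ k = -(j : ZMod (2 * N))) := by
  haveI : NeZero (2 * N) := ⟨by omega⟩
  have hlt := ZMod.val_lt k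
  have h0 : k.val ≠ 0 := by rwa [Ne, ZMod.val_eq_zero]
  have hcast : ((k.val : ℕ) : ZMod (2 * N)) = k := ZMod.natCast_zmod_val k
  by_cases h : k.val ≤ N
  · exact ⟨k.val, by omega, h, Or.inl hcast.symm⟩
  · refine ⟨2 * N - k.val, by omega, by omega, Or.inr ?_⟩
    rw [Nat.cast_sub hlt.le, hcast, ZMod.natCast_self]
    ring

end four

variable {G : Type*} [Group G] [Fintype G] {M : Ideal AlgInt} {n : ℕ} {σ τ : G}

/-- the values on the rotations -/
noncomputable def vv (L : ℕ) (σ : G) (i : ZMod L) (χ : IrrCharacter G) : ℂ := (χ : G → ℂ) (X L σ i)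

/-- integrality of the coefficients -/
theorem co_int {L : ℕ} [NeZero L] (hσ : orderOf σ = L) (e : AddChar (ZMod L) ℂ) (k : ZMod L)
    (χ : IrrCharacter G) : ∃ a : ℤ, co e (vv L σ) k χ = a := by
  classical
  let φ : Multiplicative (ZMod L) →* G := MonoidHom.mk' (fun a => X L σ (Multiplicative.toAdd a)) (by
    intro a b
    rw [toAdd_mul, X_add hσ])
  have hres : IsCharacter (Multiplicative (ZMod L)) (fun a => (χ : G → ℂ) (φ a)) :=
    H3.CharInd.IsChar.comp (IsIrr.isCharacter χ.2) φ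
  have key : ∀ k : ZMod L, ∃ m : ℕ, (L : ℂ)⁻¹ * ∑ i : ZMod L, vv L σ i χ * e (-(k * i)) = m := by
    intro k
    let lam : Multiplicative (ZMod L) →* ℂ :=
      { toFun := fun a => e (k * Multiplicative.toAdd a)
        map_one' := by rw [toAdd_one, mul_zero, AddChar.map_zero_eq_one]
        map_mul' := by
          intro a b
          rw [toAdd_mul, mul_add, AddChar.map_add_eq_mul] }
    obtain ⟨m, hm⟩ := ci_char_nat hres (IsIrr.isCharacter (H3.CharInd.isIrr_of_hom lam))
    refine ⟨m, ?_⟩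
    rw [← hm, classInner]
    have hcard : Nat.card (Multiplicative (ZMod L)) = L := by
      show Nat.card (ZMod L) = L
      rw [Nat.card_zmod]
    rw [hcard]
    congr 1
    apply Fintype.sum_equiv Multiplicative.ofAdd
    intro i
    show vv L σ i χ * e (-(k * i)) = (χ : G → ℂ) (X L σ i) * conj (e (k * i))
    rw [AddChar.map_neg_eq_conj]
    rfl
  obtain ⟨m₀, hm₀⟩ := key 0
  obtain ⟨m, hm⟩ := key k
  refine ⟨(m₀ : ℤ) - m, ?_⟩
  push_cast
  rw [← hm₀, ← hm, ← mul_sub, ← Finset.sum_sub_distrib]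
  unfold co
  congr 1
  apply Finset.sum_congr rfl
  intro i _
  rw [zero_mul, neg_zero, AddChar.map_zero_eq_one]
  ring

theorem core (hM : IsPModular 2 M) (P : Sylow 2 G) (D : DP (P : Subgroup G) n σ τ) {N : ℕ}
    (hN : N = 2 ^ (n - 2)) (hσL : orderOf σ = 2 * N) (ζ : ℂ) (hζ : IsPrimitiveRoot ζ (2 * N)) :
    Nat.card (principalBlock M G) = 3 + N ∧
    ∃ (χ₁ χ₂ χ₃ : IrrCharacter G) (χ' : Fin (N - 1) → IrrCharacter G) (δ₁ δ₂ δ₃ : ℤ),
      (δ₁ = 1 ∨ δ₁ = -1) ∧ (δ₂ = 1 ∨ δ₂ = -1) ∧ (δ₃ = 1 ∨ δ₃ = -1) ∧ Function.Injective χ' ∧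
      (χ₁ : G → ℂ) ≠ (fun _ => 1) ∧ (χ₂ : G → ℂ) ≠ (fun _ => 1) ∧ (χ₃ : G → ℂ) ≠ (fun _ => 1) ∧
      χ₁ ≠ χ₂ ∧ χ₁ ≠ χ₃ ∧ χ₂ ≠ χ₃ ∧
      (∀ j, χ' j ≠ χ₁ ∧ χ' j ≠ χ₂ ∧ χ' j ≠ χ₃ ∧ (χ' j : G → ℂ) ≠ (fun _ => 1)) ∧
      principalBlock M G = {χ : IrrCharacter G | (χ : G → ℂ) = (fun _ => 1) ∨ χ = χ₁ ∨ χ = χ₂ ∨
        χ = χ₃ ∨ ∃ j, χ = χ' j} ∧
      (∀ l : ℕ, 0 < l → l < 2 * N → (χ₁ : G → ℂ) (σ ^ l) = δ₁ ∧
        (χ₂ : G → ℂ) (σ ^ l) = δ₂ * (-1) ^ (l + 1) ∧ (χ₃ : G → ℂ) (σ ^ l) = δ₃ * (-1) ^ (l + 1) ∧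
        ∀ j : Fin (N - 1), (χ' j : G → ℂ) (σ ^ l) =
          δ₁ * (ζ ^ (((j : ℕ) + 1) * l) + (ζ ^ (((j : ℕ) + 1) * l))⁻¹)) ∧
      ∀ ρ : G, Odd (orderOf ρ) →
        1 + δ₁ * (χ₁ : G → ℂ) ρ = -δ₂ * (χ₂ : G → ℂ) ρ - δ₃ * (χ₃ : G → ℂ) ρ ∧
        ∀ j : Fin (N - 1), 1 + δ₁ * (χ₁ : G → ℂ) ρ = δ₁ * (χ' j : G → ℂ) ρ := by
  classical
  haveI := hM.2.1
  haveI : Fintype (IrrCharacter G) := Fintype.ofFinite _
  have hn := D.hn
  have hN2 : 2 ≤ N := by
    rw [hN]
    calc 2 = 2 ^ 1 := by norm_num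
      _ ≤ 2 ^ (n - 2) := Nat.pow_le_pow_right (by norm_num) (by omega)
  have hNe : Even N := by
    rw [hN, Nat.even_pow]
    exact ⟨by norm_num, by omega⟩
  haveI : NeZero (2 * N) := ⟨by omega⟩
  set e : AddChar (ZMod (2 * N)) ℂ := AddChar.zmodChar (2 * N) hζ.pow_eq_one with hedef
  have he : e.IsPrimitive := AddChar.zmodChar_primitive_of_primitive_root (2 * N) hζ
  set B := Finset.univ.filter (fun χ : IrrCharacter G => χ ∈ principalBlock M G) with hB
  have hBm : ∀ χ, χ ∈ B ↔ χ ∈ principalBlock M G := fun χ => by rw [hB]; simp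
  set v := vv (2 * N) σ with hv
  have hXm : ∀ i : ZMod (2 * N), X (2 * N) σ i ∈ Subgroup.zpowers σ := fun i => X_mem_zpowers i
  have hX1 : ∀ i : ZMod (2 * N), i ≠ 0 → X (2 * N) σ i ≠ 1 := by
    intro i hi h
    rw [← X_zero (N := 2 * N) σ] at h
    exact hi (X_inj hσL h)
  have hXsq : ∀ i : ZMod (2 * N), X (2 * N) σ i * X (2 * N) σ i = 1 ↔ i = -i := by
    intro i
    rw [← X_add hσL, ← X_zero (N := 2 * N) σ]
    constructor
    · intro h; rw [eq_neg_iff_add_eq_zero]; exact X_inj hσL h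
    · intro h; rw [eq_neg_iff_add_eq_zero] at h; rw [h]
  have hvneg : ∀ (i : ZMod (2 * N)) (χ : IrrCharacter G), v (-i) χ = v i χ := by
    intro i χ
    show (χ : G → ℂ) (X (2 * N) σ (-i)) = (χ : G → ℂ) (X (2 * N) σ i)
    rw [X_neg hσL, val_inv D (hXm i)]
  have h2n : ((2 : ℂ)) ^ (n - 1) = ((2 * N : ℕ) : ℂ) := by
    rw [hN, ← D.L_eq]; push_cast; rfl
  have h2n' : ((2 : ℂ)) ^ n = ((2 * N : ℕ) : ℂ) * 2 := by
    rw [← h2n, ← pow_succ]; congr 1; omega
  have hdiag : ∀ i : ZMod (2 * N), i ≠ 0 → ∑ χ ∈ B, v i χ * v i χ =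
      ((2 * N : ℕ) : ℂ) * (1 + (if i = -i then 1 else 0)) := by
    intro i hi
    have h1 := norm_rot hM P D (hXm i) (hX1 i hi)
    rw [← hB] at h1
    have h2 : (if X (2 * N) σ i * X (2 * N) σ i = 1 then (2 : ℂ) ^ n else (2 : ℂ) ^ (n - 1)) =
        ((2 * N : ℕ) : ℂ) * (1 + (if i = -i then 1 else 0)) := by
      rw [if_congr (hXsq i) rfl rfl, h2n, h2n']
      split_ifs <;> ring
    rw [← h2, ← h1]
    rfl
  have horth : ∀ i j : ZMod (2 * N), i ≠ 0 → j ≠ 0 → ∑ χ ∈ B, v i χ * v j χ =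
      ((2 * N : ℕ) : ℂ) * ((if i = j then 1 else 0) + (if i = -j then 1 else 0)) := by
    intro i j hi hj
    by_cases hij : i = j
    · subst hij
      rw [hdiag i hi, if_pos (rfl : i = i)]
    · by_cases hij' : i = -j
      · rw [if_neg hij, if_pos hij', hij']
        have h1 := hdiag j hj
        have h2 : ¬ j = -j := fun h => hij (hij'.trans h.symm)
        rw [if_neg h2, add_zero, mul_one] at h1
        rw [zero_add, mul_one, ← h1]
        apply Finset.sum_congr rfl
        intro χ _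
        rw [hvneg]
      · rw [if_neg hij, if_neg hij', add_zero, mul_zero]
        apply orth_rot hM D (hXm i) (hXm j)
        intro hc
        by_cases hsq : X (2 * N) σ i * X (2 * N) σ i = 1
        · have h1 := D.eq_J (hXm i) hsq (hX1 i hi)
          obtain ⟨g, hg⟩ := isConj_iff.1 hc
          have h2 : X (2 * N) σ j * X (2 * N) σ j = 1 := by
            rw [← hg]
            calc _ = g * (X (2 * N) σ i * X (2 * N) σ i) * g⁻¹ := by group
              _ = 1 := by rw [hsq]; group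
          have h3 := D.eq_J (hXm j) h2 (hX1 j hj)
          apply hij
          apply X_inj hσL
          rw [h1, h3]
        · rcases fusion P D (hXm i) (hXm j) hsq hc with h | h
          · exact hij (X_inj hσL h.symm)
          · rw [← X_neg hσL] at h
            apply hij'
            rw [X_inj hσL h, neg_neg]
  choose A hA using fun (k : ZMod (2 * N)) (χ : IrrCharacter G) => co_int (σ := σ) hσL e k χ
  have hgram : ∀ k l : ZMod (2 * N), k ≠ 0 → l ≠ 0 → ∑ χ ∈ B, A k χ * A l χ =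
      2 + (if k = l then 1 else 0) + (if k = -l then 1 else 0) := by
    intro k l hk hl
    have h1 := gram he v B horth hk hl
    have h2 : ((∑ χ ∈ B, A k χ * A l χ : ℤ) : ℂ) =
        ((2 + (if k = l then 1 else 0) + (if k = -l then 1 else 0) : ℤ) : ℂ) := by
      push_cast
      rw [← h1]
      apply Finset.sum_congr rfl
      intro χ _
      rw [hA, hA]
    exact_mod_cast h2
  have hAneg : ∀ (k : ZMod (2 * N)) (χ : IrrCharacter G), A (-k) χ = A k χ := by
    intro k χ
    have h1 := co_neg (e := e) v χ (fun i => hvneg i χ) k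
    rw [hv, hA, hA] at h1
    exact_mod_cast h1
  have hA0 : ∀ χ : IrrCharacter G, A 0 χ = 0 := by
    intro χ
    have h1 := co_zero (e := e) v χ
    rw [hv, hA] at h1
    exact_mod_cast h1
  have htrivB : triv G ∈ B := (hBm _).2 triv_mem
  have hAt : ∀ k : ZMod (2 * N), k ≠ 0 → A k (triv G) = 1 := by
    intro k hk
    have h1 := co_const he v (triv G) (fun i => rfl) hk
    rw [hv, hA] at h1
    exact_mod_cast h1
  have hreg : ∀ (k : ZMod (2 * N)) (ρ : G), ¬ 2 ∣ orderOf ρ →
      ∑ χ ∈ B, (A k χ : ℂ) * (χ : G → ℂ) ρ = 0 := by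
    intro k ρ hρ
    have h1 : ∑ χ ∈ B, (A k χ : ℂ) * (χ : G → ℂ) ρ = ((2 * N : ℕ) : ℂ)⁻¹ *
        ∑ i : ZMod (2 * N), (1 - e (-(k * i))) * ∑ χ ∈ B, v i χ * (χ : G → ℂ) ρ := by
      simp only [← hA]
      unfold co
      simp only [Finset.mul_sum, Finset.sum_mul]
      rw [Finset.sum_comm]
      apply Finset.sum_congr rfl
      intro i _
      apply Finset.sum_congr rfl
      intro χ _
      rw [hv]
      ring
    rw [h1]
    rw [Finset.sum_eq_zero, mul_zero]
    intro i _
    by_cases hi : i = 0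
    · rw [hi, mul_zero, neg_zero, AddChar.map_zero_eq_one, sub_self, zero_mul]
    · have h2 := orth_reg hM D (hXm i) (hX1 i hi) hρ
      rw [← hB] at h2
      have h3 : ∑ χ ∈ B, v i χ * (χ : G → ℂ) ρ = 0 := h2
      rw [h3, mul_zero]
  set S := B.erase (triv G) with hS
  have hSsum : ∀ i j : ℕ, (i : ZMod (2 * N)) ≠ 0 → (j : ZMod (2 * N)) ≠ 0 →
      ∑ χ ∈ S, A (i : ZMod (2 * N)) χ * A (j : ZMod (2 * N)) χ =
        1 + (if (i : ZMod (2 * N)) = j then 1 else 0) +
          (if (i : ZMod (2 * N)) = -(j : ZMod (2 * N)) then 1 else 0) := by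
    intro i j hi hj
    have h1 := hgram i j hi hj
    rw [← Finset.add_sum_erase B _ htrivB, hAt _ hi, hAt _ hj] at h1
    rw [hS]
    omega
  have hneg : ∀ i j : ℕ, (i : ZMod (2 * N)) = -(j : ZMod (2 * N)) → 2 * N ∣ i + j := by
    intro i j h
    rw [← ZMod.natCast_eq_zero_iff]
    push_cast
    rw [h]; ring
  have hinj : ∀ i j : ℕ, i < 2 * N → j < 2 * N → (i : ZMod (2 * N)) = (j : ZMod (2 * N)) → i = j := by
    intro i j hi hj h
    rw [ZMod.natCast_eq_natCast_iff'] at h
    rwa [Nat.mod_eq_of_lt hi, Nat.mod_eq_of_lt hj] at h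
  have hd : ∀ χ ∈ S, (0 : ℤ) < (charDegree (χ : G → ℂ) : ℤ) := by
    intro χ _
    exact_mod_cast H10.Char.charDegree_pos χ.2
  obtain ⟨c, hcS, u, huS, v', hvS, f, δ, δ₂, δ₃, hδ, hδ₂, hδ₃, hcu, hcv, huv, hf, hfi, hNc, hNu, hNv,
    hNr⟩ := DihComb.structure' S (fun χ => (charDegree (χ : G → ℂ) : ℤ)) hd N hN2 hNe
      (fun j χ => A (j : ZMod (2 * N)) χ)
      (by
        intro j h1 h2
        have hj0 : (j : ZMod (2 * N)) ≠ 0 := cast_ne h1 (by omega)
        have h3 := hSsum j j hj0 hj0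
        rw [if_pos rfl, if_neg] at h3
        · rw [← (show (∑ χ ∈ S, A (j : ZMod (2 * N)) χ * A (j : ZMod (2 * N)) χ) = 2 by omega)]
          exact Finset.sum_congr rfl fun χ _ => by ring
        · intro h4
          have h5 := Nat.le_of_dvd (by omega) (hneg j j h4)
          omega)
      (by
        have hj0 : (N : ZMod (2 * N)) ≠ 0 := cast_ne (by omega) (by omega)
        have h3 := hSsum N N hj0 hj0
        rw [if_pos rfl, if_pos] at h3
        · rw [← (show (∑ χ ∈ S, A (N : ZMod (2 * N)) χ * A (N : ZMod (2 * N)) χ) = 3 by omega)]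
          exact Finset.sum_congr rfl fun χ _ => by ring
        · rw [eq_neg_iff_add_eq_zero, ← Nat.cast_add, ZMod.natCast_eq_zero_iff]
          exact ⟨1, by ring⟩)
      (by
        intro i j h1 h2 h3
        have h4 := hSsum i j (cast_ne h1 (by omega)) (cast_ne (by omega) (by omega))
        rw [if_neg, if_neg] at h4
        · exact h4
        · intro h5
          have h6 := Nat.le_of_dvd (by omega) (hneg i j h5)
          omega
        · intro h5
          have := hinj i j (by omega) (by omega) h5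
          omega)
      (by
        intro j h1 h2
        have hj0 : (j : ZMod (2 * N)) ≠ 0 := cast_ne h1 (by omega)
        have h3 := hreg j 1 (by simp)
        rw [← Finset.add_sum_erase B _ htrivB, hAt _ hj0] at h3
        have h4 : ((1 + ∑ χ ∈ S, A (j : ZMod (2 * N)) χ * (charDegree (χ : G → ℂ) : ℤ) : ℤ) : ℂ) = 0 := by
          push_cast
          rw [← h3]
          congr 1
          · rw [triv_coe]; norm_num
          · apply Finset.sum_congr rfl
            intro χ _
            rw [H10.Char.charDegree_eq χ.2]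
        exact_mod_cast h4)
  have hSB : ∀ χ, χ ∈ S ↔ χ ≠ triv G ∧ χ ∈ B := fun χ => by rw [hS, Finset.mem_erase]
  have hne1 : ∀ χ : IrrCharacter G, χ ∈ S → (χ : G → ℂ) ≠ (fun _ => 1) := by
    intro χ hχ h
    exact ((hSB χ).1 hχ).1 (Subtype.ext h)
  have hfin : ∀ j : Fin (N - 1), 1 ≤ (j : ℕ) + 1 ∧ (j : ℕ) + 1 < N := by
    intro j
    have := j.2
    omega
  set χ' : Fin (N - 1) → IrrCharacter G := fun j => f ((j : ℕ) + 1) with hχ'
  have hχinj : Function.Injective χ' := by
    intro a b hab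
    by_contra hne
    rcases Nat.lt_or_gt_of_ne (fun h => hne (Fin.ext h)) with h | h
    · exact hfi _ _ (hfin a).1 (by omega) (hfin b).2 hab
    · exact hfi _ _ (hfin b).1 (by omega) (hfin a).2 hab.symm
  -- coefficients of a nonzero index reduce to 1..N
  have hrep : ∀ (k : ZMod (2 * N)) (χ : IrrCharacter G), k ≠ 0 →
      ∃ j : ℕ, 1 ≤ j ∧ j ≤ N ∧ A k χ = A (j : ZMod (2 * N)) χ ∧
        (k = (j : ZMod (2 * N)) ∨ k = -(j : ZMod (2 * N))) := by
    intro k χ hk
    obtain ⟨j, h1, h2, h3⟩ := rep N (by omega) k hk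
    refine ⟨j, h1, h2, ?_, h3⟩
    rcases h3 with h3 | h3
    · rw [h3]
    · rw [h3, hAneg]
  -- the block
  have hblock : ∀ χ : IrrCharacter G, χ ∈ B ↔ χ = triv G ∨ χ = c ∨ χ = u ∨ χ = v' ∨ ∃ j, χ = χ' j := by
    intro χ
    constructor
    · intro hχ
      by_cases ht : χ = triv G
      · exact Or.inl ht
      have hχS : χ ∈ S := (hSB χ).2 ⟨ht, hχ⟩
      have hJ := val_J_ne hM P D ((hBm χ).1 hχ)
      have hN0 : (N : ZMod (2 * N)) ≠ 0 := cast_ne (by omega) (by omega)
      have hJv : v (N : ZMod (2 * N)) χ ≠ 0 := by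
        show (χ : G → ℂ) (X (2 * N) σ (N : ZMod (2 * N))) ≠ 0
        rw [X_natCast hσL, hN]
        exact hJ
      rw [inverse he v hN0, neg_ne_zero] at hJv
      obtain ⟨k, -, hk⟩ := Finset.exists_ne_zero_of_sum_ne_zero hJv
      have hAk : A k χ ≠ 0 := by
        intro h
        apply hk
        rw [hv, hA, h, Int.cast_zero, zero_mul]
      have hk0 : k ≠ 0 := by
        rintro rfl; exact hAk (hA0 χ)
      obtain ⟨j, h1, h2, h3, -⟩ := hrep k χ hk0
      rw [h3] at hAk
      right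
      rcases Nat.lt_or_ge j N with hj | hj
      · obtain ⟨b1, b2, b3, b4, b5, b6, b7⟩ := hf j h1 hj
        by_cases hc : χ = c
        · exact Or.inl hc
        · right; right; right
          by_cases hc' : χ = f j
          · exact ⟨⟨j - 1, by omega⟩, by rw [hχ']; simp only; rw [hc']; congr 1; omega⟩
          · exact absurd (b7 χ hχS hc hc') hAk
      · have : j = N := by omega
        subst this
        by_cases hc : χ = c
        · exact Or.inl hc
        by_cases hu : χ = u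
        · exact Or.inr (Or.inl hu)
        by_cases hv : χ = v'
        · exact Or.inr (Or.inr (Or.inl hv))
        exact absurd (hNr χ hχS hc hu hv) hAk
    · rintro (rfl | rfl | rfl | rfl | ⟨j, rfl⟩)
      · exact htrivB
      · exact ((hSB _).1 hcS).2
      · exact ((hSB _).1 huS).2
      · exact ((hSB _).1 hvS).2
      · exact ((hSB _).1 (hf _ (hfin j).1 (hfin j).2).1).2
  have hχ'S : ∀ j, χ' j ∈ S := fun j => (hf _ (hfin j).1 (hfin j).2).1
  have htrivne : ∀ χ ∈ S, triv G ≠ χ := fun χ hχ h => ((hSB χ).1 hχ).1 h.symm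
  constructor
  · -- the count
    have hBeq : B = insert (triv G) (insert c (insert u (insert v' (Finset.univ.image χ')))) := by
      ext χ
      rw [hblock]
      simp only [Finset.mem_insert, Finset.mem_image, Finset.mem_univ, true_and]
      constructor
      · rintro (h | h | h | h | ⟨j, h⟩)
        · exact Or.inl h
        · exact Or.inr (Or.inl h)
        · exact Or.inr (Or.inr (Or.inl h))
        · exact Or.inr (Or.inr (Or.inr (Or.inl h)))
        · exact Or.inr (Or.inr (Or.inr (Or.inr ⟨j, h.symm⟩)))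
      · rintro (h | h | h | h | ⟨j, h⟩)
        · exact Or.inl h
        · exact Or.inr (Or.inl h)
        · exact Or.inr (Or.inr (Or.inl h))
        · exact Or.inr (Or.inr (Or.inr (Or.inl h)))
        · exact Or.inr (Or.inr (Or.inr (Or.inr ⟨j, h.symm⟩)))
    have hcard : Nat.card (principalBlock M G) = B.card := by
      rw [hB, Nat.card_coe_set_eq, Set.ncard_eq_toFinset_card']
      congr 1
      ext χ
      simp
    rw [hcard, hBeq, Finset.card_insert_of_notMem, Finset.card_insert_of_notMem,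
      Finset.card_insert_of_notMem, Finset.card_insert_of_notMem,
      Finset.card_image_of_injective _ hχinj, Finset.card_univ, Fintype.card_fin]
    · omega
    · simp only [Finset.mem_image, Finset.mem_univ, true_and, not_exists]
      intro j
      exact (hf _ (hfin j).1 (hfin j).2).2.2.2.1
    · simp only [Finset.mem_insert, Finset.mem_image, Finset.mem_univ, true_and, not_or, not_exists]
      exact ⟨huv, fun j => (hf _ (hfin j).1 (hfin j).2).2.2.1⟩
    · simp only [Finset.mem_insert, Finset.mem_image, Finset.mem_univ, true_and, not_or, not_exists]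
      exact ⟨hcu, hcv, fun j => (hf _ (hfin j).1 (hfin j).2).2.1⟩
    · simp only [Finset.mem_insert, Finset.mem_image, Finset.mem_univ, true_and, not_or, not_exists]
      exact ⟨htrivne c hcS, htrivne u huS, htrivne v' hvS, fun j h => htrivne _ (hχ'S j) h.symm⟩
  refine ⟨c, u, v', χ', δ, δ₂, δ₃, hδ, hδ₂, hδ₃, hχinj, hne1 c hcS, hne1 u huS, hne1 v' hvS, hcu,
    hcv, huv, ?_, ?_, ?_, ?_⟩
  · intro j
    obtain ⟨b1, b2, b3, b4, -⟩ := hf _ (hfin j).1 (hfin j).2
    exact ⟨b2, b3, b4, hne1 _ b1⟩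
  · ext χ
    rw [← hBm, hblock, Set.mem_setOf_eq]
    have : (χ : G → ℂ) = (fun _ => 1) ↔ χ = triv G := by
      constructor
      · intro h; exact Subtype.ext h
      · intro h; rw [h]; rfl
    rw [this]
  · -- values on rotations
    intro l hl0 hlN
    have hl : (l : ZMod (2 * N)) ≠ 0 := cast_ne hl0 hlN
    have hval : ∀ χ : IrrCharacter G, (χ : G → ℂ) (σ ^ l) = v (l : ZMod (2 * N)) χ := by
      intro χ
      show _ = (χ : G → ℂ) (X (2 * N) σ (l : ZMod (2 * N)))
      rw [X_natCast hσL]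
    have heN : e ((N : ZMod (2 * N)) * (l : ZMod (2 * N))) = (-1) ^ l := by
      have h1 : (N : ZMod (2 * N)) * (l : ZMod (2 * N)) = ((N * l : ℕ) : ZMod (2 * N)) := by
        push_cast; ring
      rw [h1, hedef, AddChar.zmodChar_apply', pow_mul]
      congr 1
      have h2 : (ζ ^ N) ^ 2 = 1 := by
        rw [← pow_mul, mul_comm]; exact hζ.pow_eq_one
      have h3 : ζ ^ N ≠ 1 := hζ.pow_ne_one_of_pos_of_lt (by omega) (by omega)
      have h4 : (ζ ^ N - 1) * (ζ ^ N + 1) = 0 := by linear_combination h2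
      rcases (mul_eq_zero.1 h4).imp sub_eq_zero.1 eq_neg_of_add_eq_zero_left with h | h
      · exact absurd h h3
      · exact h
    have hNN : (N : ZMod (2 * N)) = -(N : ZMod (2 * N)) := by
      rw [eq_neg_iff_add_eq_zero, ← Nat.cast_add, ZMod.natCast_eq_zero_iff]
      exact ⟨1, by ring⟩
    -- members of the support of `w N` other than `c`
    have hother : ∀ (χ : IrrCharacter G) (ε : ℤ), χ ∈ S → χ ≠ c → (∀ j, 1 ≤ j → j < N → χ ≠ f j) →
        A (N : ZMod (2 * N)) χ = ε → (χ : G → ℂ) (σ ^ l) = ε * (-1) ^ (l + 1) := by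
      intro χ ε hχ hχc hχf hχN
      rw [hval, val_single he v χ (δ := (ε : ℂ)) (a := (N : ZMod (2 * N))) ?_ ?_ hl, heN, pow_succ]
      · ring
      · intro k hk
        rw [hv, hA]
        by_cases hk0 : k = 0
        · rw [hk0, hA0, Int.cast_zero]
        obtain ⟨j, h1, h2, h3, h4⟩ := hrep k χ hk0
        have hjN : j < N := by
          rcases Nat.lt_or_ge j N with h | h
          · exact h
          · exfalso
            have : j = N := by omega
            rw [this] at h4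
            rcases h4 with h4 | h4
            · exact hk h4
            · rw [← hNN] at h4; exact hk h4
        obtain ⟨-, -, -, -, -, -, b7⟩ := hf j h1 hjN
        rw [h3, b7 χ hχ hχc (hχf j h1 hjN), Int.cast_zero]
      · rw [hv, hA, hχN]
    refine ⟨?_, ?_, ?_, ?_⟩
    · rw [hval]
      apply val_const he v c _ hl
      intro k hk
      rw [hv, hA]
      obtain ⟨j, h1, h2, h3, -⟩ := hrep k c hk
      rw [h3]
      rcases Nat.lt_or_ge j N with hj | hj
      · rw [(hf j h1 hj).2.2.2.2.1]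
      · have : j = N := by omega
        rw [this, hNc]
    · exact hother u δ₂ huS hcu.symm (fun j h1 h2 h => (hf j h1 h2).2.2.1 h.symm) hNu
    · exact hother v' δ₃ hvS hcv.symm (fun j h1 h2 h => (hf j h1 h2).2.2.2.1 h.symm) hNv
    · intro j
      obtain ⟨hj1, hj2⟩ := hfin j
      set m := (j : ℕ) + 1 with hm
      obtain ⟨b1, b2, b3, b4, b5, b6, b7⟩ := hf m hj1 hj2
      have hmm : (m : ZMod (2 * N)) ≠ -(m : ZMod (2 * N)) := by
        intro h
        have := Nat.le_of_dvd (by omega) (hneg m m h)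
        omega
      show (f m : G → ℂ) (σ ^ l) = _
      rw [hval, val_pair he v (f m) (δ := (δ : ℂ)) hmm ?_ ?_ ?_ hl]
      · have h1 : (m : ZMod (2 * N)) * (l : ZMod (2 * N)) = ((m * l : ℕ) : ZMod (2 * N)) := by
          push_cast; ring
        rw [AddChar.map_neg_eq_inv, h1, hedef, AddChar.zmodChar_apply']
      · intro k hk1 hk2
        rw [hv, hA]
        by_cases hk0 : k = 0
        · rw [hk0, hA0, Int.cast_zero]
        obtain ⟨i, h1, h2, h3, h4⟩ := hrep k (f m) hk0
        have him : i ≠ m := by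
          rintro rfl
          rcases h4 with h4 | h4
          · exact hk1 h4
          · exact hk2 h4
        rw [h3]
        rcases Nat.lt_or_ge i N with hi | hi
        · obtain ⟨-, -, -, -, -, -, c7⟩ := hf i h1 hi
          rw [c7 (f m) b1 b2, Int.cast_zero]
          intro h
          rcases Nat.lt_or_gt_of_ne him with h5 | h5
          · exact hfi i m h1 h5 hj2 h.symm
          · exact hfi m i hj1 h5 hi h
        · have : i = N := by omega
          rw [this, hNr (f m) b1 b2 b3 b4, Int.cast_zero]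
      · rw [hv, hA, b6]; push_cast; rfl
      · rw [hv, hA, hAneg, b6]; push_cast; rfl
  · -- odd order elements
    intro ρ hρ
    have hρ2 : ¬ 2 ∣ orderOf ρ := by
      rw [← even_iff_two_dvd, Nat.not_even_iff_odd]; exact hρ
    have hsumS : ∀ j : ℕ, 1 ≤ j → j ≤ N → 1 + ∑ χ ∈ S, (A (j : ZMod (2 * N)) χ : ℂ) * (χ : G → ℂ) ρ = 0 := by
      intro j h1 h2
      have hj0 : (j : ZMod (2 * N)) ≠ 0 := cast_ne h1 (by omega)
      have h3 := hreg j ρ hρ2
      rw [← Finset.add_sum_erase B _ htrivB, hAt _ hj0, triv_coe] at h3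
      rw [← h3]
      norm_num
      rfl
    constructor
    · have h1 := hsumS N (by omega) le_rfl
      have h2 : ∑ χ ∈ ({c, u, v'} : Finset (IrrCharacter G)),
          (A (N : ZMod (2 * N)) χ : ℂ) * (χ : G → ℂ) ρ =
          ∑ χ ∈ S, (A (N : ZMod (2 * N)) χ : ℂ) * (χ : G → ℂ) ρ := by
        apply Finset.sum_subset
        · intro χ hχ
          rw [Finset.mem_insert, Finset.mem_insert, Finset.mem_singleton] at hχ
          rcases hχ with rfl | rfl | rfl
          · exact hcS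
          · exact huS
          · exact hvS
        · intro χ hχ hχ'
          rw [Finset.mem_insert, Finset.mem_insert, Finset.mem_singleton, not_or, not_or] at hχ'
          rw [hNr χ hχ hχ'.1 hχ'.2.1 hχ'.2.2, Int.cast_zero, zero_mul]
      rw [← h2, Finset.sum_insert (by
        rw [Finset.mem_insert, Finset.mem_singleton, not_or]; exact ⟨hcu, hcv⟩),
        Finset.sum_pair huv, hNc, hNu, hNv] at h1
      linear_combination h1
    · intro j
      obtain ⟨hj1, hj2⟩ := hfin j
      obtain ⟨b1, b2, b3, b4, b5, b6, b7⟩ := hf _ hj1 hj2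
      have h1 := hsumS _ hj1 hj2.le
      have h2 : ∑ χ ∈ ({c, χ' j} : Finset (IrrCharacter G)),
          (A (((j : ℕ) + 1 : ℕ) : ZMod (2 * N)) χ : ℂ) * (χ : G → ℂ) ρ =
          ∑ χ ∈ S, (A (((j : ℕ) + 1 : ℕ) : ZMod (2 * N)) χ : ℂ) * (χ : G → ℂ) ρ := by
        apply Finset.sum_subset
        · intro χ hχ
          rw [Finset.mem_insert, Finset.mem_singleton] at hχ
          rcases hχ with rfl | rfl
          · exact hcS
          · exact b1
        · intro χ hχ hχ'
          rw [Finset.mem_insert, Finset.mem_singleton, not_or] at hχ'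
          rw [b7 χ hχ hχ'.1 hχ'.2, Int.cast_zero, zero_mul]
      rw [← h2, Finset.sum_pair b2.symm, b5] at h1
      have h3 : A (((j : ℕ) + 1 : ℕ) : ZMod (2 * N)) (χ' j) = -δ := b6
      rw [h3] at h1
      push_cast at h1
      linear_combination h1

end Cfsg.Agent.H25.DihMain
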