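import Cfsg.Agent.H25_DihMain
set_option autoImplicit false
set_option maxHeartbeats 1000000

namespace Cfsg.Agent.H25.DihOrd
open Cfsg Cfsg.Agent.H10.PPart Cfsg.Agent.H25.DihCnt Cfsg.Agent.H25.DihGrp Cfsg.Agent.H25.DihGrp2
  Cfsg.Agent.H10.BlockV4 Cfsg.Agent.H10.BlockKer Cfsg.Agent.H25.DihFour Cfsg.Agent.H25.DihBlk
  Cfsg.Agent.H25.DihMain Cfsg.Agent.H5.Dih
open Cfsg.Agent.H3.CharIrr Cfsg.Agent.H3.CharComplete
open scoped ComplexConjugate

variable {G : Type*} [Group G] [Fintype G] {M : Ideal AlgInt} {n : ℕ} {σ τ : G}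

/-- every involution of `P` is `J`, or conjugate (in `P`) to `τ` or `σ τ`. -/
theorem conj_class {P : Subgroup G} (D : DP P n σ τ) {x : G} (hx : x ∈ P)
    (hx' : x ∉ Subgroup.zpowers σ) : ∃ k : ℤ, x = σ ^ k * τ * (σ ^ k)⁻¹ ∨
      x = σ ^ k * (σ * τ) * (σ ^ k)⁻¹ := by
  have h1 := (D.hcov x hx).resolve_left hx'
  obtain ⟨m, hm⟩ := h1
  have hm' : σ ^ m = x * τ := hm
  have hxm : x = σ ^ m * τ := by rw [hm', mul_assoc, D.hτ2, mul_one]
  have hτσ : ∀ k : ℤ, τ * (σ ^ k)⁻¹ = σ ^ k * τ := by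
    intro k
    have h2 := D.tau_inv (Subgroup.inv_mem _ (Subgroup.zpow_mem_zpowers σ k))
    rw [inv_inv, mul_inv_eq_iff_eq_mul] at h2
    exact h2
  rcases Int.even_or_odd' m with ⟨k, hk | hk⟩
  · refine ⟨k, Or.inl ?_⟩
    rw [mul_assoc, hτσ, ← mul_assoc, ← zpow_add, hxm, hk]
    congr 2; ring
  · refine ⟨k, Or.inr ?_⟩
    rw [mul_assoc, mul_assoc, hτσ, ← mul_assoc, ← mul_assoc, ← zpow_add_one, ← zpow_add, hxm, hk]
    congr 2; ring

theorem one_class (P : Sylow 2 G) (D : DP (P : Subgroup G) n σ τ)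
    (h1 : IsConj (σ ^ (2 ^ (n - 2))) τ) (h2 : IsConj (σ ^ (2 ^ (n - 2))) (σ * τ)) :
    ∀ s t : G, orderOf s = 2 → orderOf t = 2 → IsConj s t := by
  have key : ∀ s : G, orderOf s = 2 → IsConj (σ ^ (2 ^ (n - 2))) s := by
    intro s hs
    obtain ⟨x, hx⟩ := H10.Homo.conj_into_sylow P ⟨1, by rw [hs, pow_one]⟩
    have hxs : IsConj (x * s * x⁻¹) s := by
      rw [isConj_iff]; exact ⟨x⁻¹, by group⟩
    refine IsConj.trans ?_ hxs
    set y := x * s * x⁻¹ with hy
    have hyo : orderOf y = 2 := by rw [hy, orderOf_conj, hs]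
    by_cases hr : y ∈ Subgroup.zpowers σ
    · rw [D.eq_J hr]
      · have := pow_orderOf_eq_one y
        rwa [hyo, pow_two] at this
      · intro h
        rw [h, orderOf_one] at hyo
        omega
    · obtain ⟨k, hk | hk⟩ := conj_class D hx hr
      · exact h1.trans (isConj_iff.2 ⟨σ ^ k, hk.symm⟩)
      · exact h2.trans (isConj_iff.2 ⟨σ ^ k, hk.symm⟩)
  intro s t hs ht
  exact (key s hs).symm.trans (key t ht)

/-- centralizers in `P` of reflections have order four. -/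
theorem cent_refl {P : Subgroup G} (D : DP P n σ τ) {s : G} (hs : s ∈ P)
    (hs' : s ∉ Subgroup.zpowers σ) :
    Nat.card ↥(P ⊓ Subgroup.centralizer ({s} : Set G)) = 4 := by
  classical
  set J := σ ^ (2 ^ (n - 2)) with hJ
  have hJr : J ∈ Subgroup.zpowers σ := Subgroup.npow_mem_zpowers σ _
  have hss := D.sq_of hs hs'
  have hsi : s⁻¹ = s := by rw [inv_eq_iff_mul_eq_one, hss]
  have hJJ : J * J = 1 := by
    have := pow_orderOf_eq_one J
    rwa [D.J_order, pow_two] at this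
  have hJs : s * J = J * s := D.J_central hs
  have hrot : ∀ x ∈ Subgroup.zpowers σ, x * s = s * x → x = 1 ∨ x = J := by
    intro x hx hxs
    have h1 := D.inv_of hs hs' hx
    rw [← hxs, mul_inv_cancel_right] at h1
    have h2 : x * x = 1 := by
      nth_rw 2 [h1]; exact mul_inv_cancel x
    by_cases h3 : x = 1
    · exact Or.inl h3
    · exact Or.inr (D.eq_J hx h2 h3)
  have hset : ((P ⊓ Subgroup.centralizer ({s} : Set G) : Subgroup G) : Set G) =
      (({1, J, s, J * s} : Finset G) : Set G) := by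
    ext x
    rw [SetLike.mem_coe, Subgroup.mem_inf, Subgroup.mem_centralizer_singleton_iff]
    simp only [Finset.coe_insert, Finset.coe_singleton, Set.mem_insert_iff,
      Set.mem_singleton_iff]
    constructor
    · rintro ⟨hx, hxs⟩
      by_cases hr : x ∈ Subgroup.zpowers σ
      · rcases hrot x hr hxs with h | h
        · exact Or.inl h
        · exact Or.inr (Or.inl h)
      · have h1 := D.mul_rot hx hr hs hs'
        have h2 : x * s * s = s * (x * s) := by rw [← mul_assoc, ← hxs]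
        rcases hrot _ h1 h2 with h | h
        · right; right; left
          rw [← hsi, ← mul_eq_one_iff_eq_inv]; exact h
        · right; right; right
          rw [← h, mul_assoc, hss, mul_one]
    · rintro (h | h | h | h)
      · rw [h]; exact ⟨P.one_mem, by simp⟩
      · rw [h]; exact ⟨D.J_mem, hJs.symm⟩
      · rw [h]; exact ⟨hs, rfl⟩
      · rw [h]; exact ⟨P.mul_mem D.J_mem hs, by rw [mul_assoc, ← mul_assoc s J s, hJs, mul_assoc]⟩
  have h1 : Nat.card ↥(P ⊓ Subgroup.centralizer ({s} : Set G)) =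
      ((P ⊓ Subgroup.centralizer ({s} : Set G) : Subgroup G) : Set G).ncard :=
    (Nat.card_coe_set_eq _)
  rw [h1, hset, Set.ncard_coe_finset]
  have hsJ : s ≠ J := fun h => hs' (by rw [h]; exact hJr)
  have hs1 : s ≠ 1 := fun h => hs' (by rw [h]; exact Subgroup.one_mem _)
  have hJs1 : J * s ∉ Subgroup.zpowers σ := by
    intro h
    apply hs'
    have := Subgroup.mul_mem _ (Subgroup.inv_mem _ hJr) h
    rwa [inv_mul_cancel_left] at this
  rw [Finset.card_insert_of_notMem, Finset.card_insert_of_notMem, Finset.card_insert_of_notMem,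
    Finset.card_singleton]
  · rw [Finset.mem_singleton]
    intro h
    rw [right_eq_mul] at h
    exact D.J_ne h
  · rw [Finset.mem_insert, Finset.mem_singleton, not_or]
    exact ⟨hsJ.symm, fun h => hJs1 (by rw [← h]; exact hJr)⟩
  · rw [Finset.mem_insert, Finset.mem_insert, Finset.mem_singleton, not_or, not_or]
    exact ⟨D.J_ne.symm, hs1.symm, fun h => hJs1 (by rw [← h]; exact Subgroup.one_mem _)⟩

theorem cnt_conj {C O P : Subgroup G} (h : Cmp C O P) {x t : G} (hx : x ∈ C) :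
    cnt O (x * t * x⁻¹) = cnt O t := by
  classical
  unfold cnt
  refine Finset.card_bij' (fun v _ => x⁻¹ * v * x) (fun v _ => x * v * x⁻¹) ?_ ?_ ?_ ?_
  · intro v hv
    rw [Finset.mem_filter] at hv ⊢
    refine ⟨Finset.mem_univ _, ?_, ?_⟩
    · have : orderOf (x⁻¹ * v * x⁻¹⁻¹) = orderOf v := orderOf_conj _ _
      rw [inv_inv] at this
      rw [this]; exact hv.2.1
    · have h1 : x⁻¹ * v * x * t⁻¹ = x⁻¹ * (v * (x * t * x⁻¹)⁻¹) * x⁻¹⁻¹ := by group
      rw [h1]
      exact h.nrm _ (C.inv_mem hx) _ hv.2.2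
  · intro v hv
    rw [Finset.mem_filter] at hv ⊢
    refine ⟨Finset.mem_univ _, ?_, ?_⟩
    · rw [orderOf_conj]; exact hv.2.1
    · have h1 : x * v * x⁻¹ * (x * t * x⁻¹)⁻¹ = x * (v * t⁻¹) * x⁻¹ := by group
      rw [h1]
      exact h.nrm _ hx _ hv.2.2
  · intro v _; show x * (x⁻¹ * v * x) * x⁻¹ = v; group
  · intro v _; show x⁻¹ * (x * v * x⁻¹) * x = v; group

/-- `∑_{s ∈ P} cnt s cnt (s⁻¹ z)` as a sum over reflections -/
theorem sum_refl {C O : Subgroup G} {P : Subgroup G} (D : DP P n σ τ) (h : Cmp C O P) {N : ℕ}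
    [NeZero (2 * N)] (hσL : orderOf σ = 2 * N) [Fintype P] {z : G} (hz : z ∈ P)
    (hzero : ∀ s ∈ Subgroup.zpowers σ, cnt O s * cnt O (s⁻¹ * z) = 0) :
    ∑ s : P, cnt O (s : G) * cnt O ((s : G)⁻¹ * z) =
      ∑ i : ZMod (2 * N), cnt O (X (2 * N) σ i * τ) * cnt O ((X (2 * N) σ i * τ)⁻¹ * z) := by
  classical
  rw [← Finset.sum_filter_of_ne (p := fun s : P => (s : G) ∉ Subgroup.zpowers σ)]
  · symm
    refine Finset.sum_bij (fun i _ => (⟨X (2 * N) σ i * τ, P.mul_mem (D.zle (X_mem_zpowers i)) D.hτ⟩ : P))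
      ?_ ?_ ?_ ?_
    · intro i _
      rw [Finset.mem_filter]
      refine ⟨Finset.mem_univ _, ?_⟩
      show X (2 * N) σ i * τ ∉ Subgroup.zpowers σ
      intro h1
      apply D.tau_notMem
      have := Subgroup.mul_mem _ (Subgroup.inv_mem _ (X_mem_zpowers (x := σ) i)) h1
      rwa [inv_mul_cancel_left] at this
    · intro i _ j _ hij
      have h1 : X (2 * N) σ i * τ = X (2 * N) σ j * τ := congrArg Subtype.val hij
      exact X_inj hσL (mul_right_cancel h1)
    · intro s hs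
      rw [Finset.mem_filter] at hs
      obtain ⟨k, hk⟩ := mem_powers_iff_mem_zpowers.2 ((D.hcov s s.2).resolve_left hs.2)
      have hk' : σ ^ k = s * τ := hk
      refine ⟨(k : ZMod (2 * N)), Finset.mem_univ _, ?_⟩
      apply Subtype.ext
      show X (2 * N) σ (k : ZMod (2 * N)) * τ = s
      rw [X_natCast hσL, hk', mul_assoc, D.hτ2, mul_one]
    · intro i _
      rfl
  · intro s _ hs hr
    exact hs (hzero s hr)

theorem refl_pow {C O : Subgroup G} {P : Subgroup G} (D : DP P n σ τ) (h : Cmp C O P) (m : ℕ) :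
    cnt O (σ ^ m * τ) = if Even m then cnt O τ else cnt O (σ * τ) := by
  have hτσ : ∀ k : ℕ, τ * (σ ^ k)⁻¹ = σ ^ k * τ := by
    intro k
    have h2 := D.tau_inv (Subgroup.inv_mem _ (Subgroup.npow_mem_zpowers σ k))
    rw [inv_inv, mul_inv_eq_iff_eq_mul] at h2
    exact h2
  have hC : ∀ k : ℕ, σ ^ k ∈ C := fun k => h.leP (P.pow_mem D.hσ k)
  split_ifs with hm
  · obtain ⟨k, hk⟩ := hm
    rw [← cnt_conj h (hC k) (t := τ)]
    congr 1
    rw [mul_assoc, hτσ, ← mul_assoc, ← pow_add, hk]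
  · rw [Nat.not_even_iff_odd] at hm
    obtain ⟨k, hk⟩ := hm
    rw [← cnt_conj h (hC k) (t := σ * τ)]
    congr 1
    rw [mul_assoc, mul_assoc, hτσ, ← mul_assoc, ← mul_assoc, ← pow_succ, ← pow_add, hk]
    congr 2; ring

theorem X_val {N : ℕ} [NeZero (2 * N)] (hσL : orderOf σ = 2 * N) (i : ZMod (2 * N)) (k : ℕ) :
    X (2 * N) σ (i + (k : ZMod (2 * N))) = σ ^ (i.val + k) := by
  rw [X_add hσL, X_natCast hσL, pow_add]; rfl

theorem refl_inv {P : Subgroup G} (D : DP P n σ τ) (k : ℕ) : (σ ^ k * τ)⁻¹ = σ ^ k * τ := by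
  have hs : σ ^ k * τ ∉ Subgroup.zpowers σ := by
    intro h1
    apply D.tau_notMem
    have := Subgroup.mul_mem _ (Subgroup.inv_mem _ (Subgroup.npow_mem_zpowers σ k)) h1
    rwa [inv_mul_cancel_left] at this
  rw [inv_eq_iff_mul_eq_one]
  exact D.sq_of (P.mul_mem (P.pow_mem D.hσ k) D.hτ) hs

theorem sum_sigma {C O : Subgroup G} {P : Subgroup G} (D : DP P n σ τ) (h : Cmp C O P) {N : ℕ}
    (hN : N = 2 ^ (n - 2)) (hσL : orderOf σ = 2 * N) [Fintype P] :
    ∑ s : P, cnt O (s : G) * cnt O ((s : G)⁻¹ * σ) = 2 * N * (cnt O τ * cnt O (σ * τ)) := by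
  classical
  have hN0 : 0 < N := by rw [hN]; positivity
  haveI : NeZero (2 * N) := ⟨by omega⟩
  rw [sum_refl D h hσL D.hσ]
  · have hterm : ∀ i : ZMod (2 * N), cnt O (X (2 * N) σ i * τ) *
        cnt O ((X (2 * N) σ i * τ)⁻¹ * σ) = cnt O τ * cnt O (σ * τ) := by
      intro i
      have h1 : X (2 * N) σ i = σ ^ ((i - 1).val + 1) := by
        have := X_val hσL (i - 1) 1
        rwa [Nat.cast_one, sub_add_cancel] at this
      set m := (i - 1).val with hm
      have h2 : (σ ^ (m + 1) * τ)⁻¹ * σ = σ ^ m * τ := by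
        rw [refl_inv D, mul_assoc]
        have h3 : τ * σ = σ⁻¹ * τ := by
          have := D.hrel
          rwa [mul_inv_eq_iff_eq_mul] at this
        rw [h3, ← mul_assoc, pow_succ, mul_inv_cancel_right]
      rw [h1, h2, refl_pow D h, refl_pow D h]
      by_cases he : Even m
      · rw [if_neg (by rw [Nat.not_even_iff_odd]; exact he.add_one), if_pos he, mul_comm]
      · rw [if_pos (by rw [Nat.not_even_iff_odd] at he; exact he.add_one), if_neg he]
    simp only [hterm]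
    rw [Finset.sum_const, Finset.card_univ, ZMod.card, smul_eq_mul]
  · intro s hs
    by_cases h2 : s * s = 1
    · by_cases h1 : s = 1
      · rw [h1, h.cnt_one, zero_mul]
      · rw [D.eq_J hs h2 h1]
        have h3 : (σ ^ (2 ^ (n - 2)))⁻¹ * σ ∈ P :=
          P.mul_mem (P.inv_mem D.J_mem) D.hσ
        rw [h.cnt_sq h3, mul_zero]
        intro h4
        apply D.sigma_sq
        have hJJ : σ ^ (2 ^ (n - 2)) * σ ^ (2 ^ (n - 2)) = 1 := by
          have := pow_orderOf_eq_one (σ ^ (2 ^ (n - 2)))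
          rwa [D.J_order, pow_two] at this
        have h5 : (σ ^ (2 ^ (n - 2)))⁻¹ = σ ^ (2 ^ (n - 2)) := by
          rw [inv_eq_iff_mul_eq_one, hJJ]
        rw [h5] at h4
        have hc : σ * σ ^ (2 ^ (n - 2)) = σ ^ (2 ^ (n - 2)) * σ := D.J_central D.hσ
        calc σ * σ = (σ ^ (2 ^ (n - 2)) * σ ^ (2 ^ (n - 2))) * (σ * σ) := by rw [hJJ, one_mul]
          _ = σ ^ (2 ^ (n - 2)) * (σ ^ (2 ^ (n - 2)) * σ) * σ := by group
          _ = σ ^ (2 ^ (n - 2)) * (σ * σ ^ (2 ^ (n - 2))) * σ := by rw [hc]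
          _ = σ ^ (2 ^ (n - 2)) * σ * (σ ^ (2 ^ (n - 2)) * σ) := by group
          _ = 1 := h4
    · rw [h.cnt_sq (D.zle hs) h2, zero_mul]

theorem sum_J {C O : Subgroup G} {P : Subgroup G} (D : DP P n σ τ) (h : Cmp C O P) {N : ℕ}
    (hN : N = 2 ^ (n - 2)) (hσL : orderOf σ = 2 * N) [Fintype P] :
    ∑ s : P, cnt O (s : G) * cnt O ((s : G)⁻¹ * σ ^ (2 ^ (n - 2))) =
      N * (cnt O τ ^ 2 + cnt O (σ * τ) ^ 2) := by
  classical
  have hn := D.hn
  have hN0 : 0 < N := by rw [hN]; positivity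
  have hNe : Even N := by
    rw [hN, Nat.even_pow]
    exact ⟨by norm_num, by omega⟩
  haveI : NeZero (2 * N) := ⟨by omega⟩
  rw [sum_refl D h hσL D.J_mem]
  · have hterm : ∀ i : ZMod (2 * N), cnt O (X (2 * N) σ i * τ) *
        cnt O ((X (2 * N) σ i * τ)⁻¹ * σ ^ (2 ^ (n - 2))) = cnt O (X (2 * N) σ i * τ) ^ 2 := by
      intro i
      rw [pow_two]
      congr 1
      show cnt O ((σ ^ i.val * τ)⁻¹ * σ ^ (2 ^ (n - 2))) = cnt O (σ ^ i.val * τ)
      have hc : τ * σ ^ (2 ^ (n - 2)) = σ ^ (2 ^ (n - 2)) * τ := D.J_central D.hτ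
      rw [refl_inv D, mul_assoc, hc, ← mul_assoc, ← pow_add, ← hN, refl_pow D h, refl_pow D h]
      have h1 : Even (i.val + N) ↔ Even i.val := by
        rw [Nat.even_add]
        exact ⟨fun h => h.2 hNe, fun h => ⟨fun _ => hNe, fun _ => h⟩⟩
      rw [if_congr h1 rfl rfl]
    simp only [hterm]
    -- pairing i with i + 1
    have hpair : ∀ i : ZMod (2 * N), cnt O (X (2 * N) σ i * τ) ^ 2 +
        cnt O (X (2 * N) σ (i + 1) * τ) ^ 2 = cnt O τ ^ 2 + cnt O (σ * τ) ^ 2 := by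
      intro i
      have h1 : X (2 * N) σ (i + 1) = σ ^ (i.val + 1) := by
        have := X_val hσL i 1
        rwa [Nat.cast_one] at this
      rw [h1]
      show cnt O (σ ^ i.val * τ) ^ 2 + _ = _
      rw [refl_pow D h, refl_pow D h]
      by_cases he : Even i.val
      · rw [if_pos he, if_neg (by rw [Nat.not_even_iff_odd]; exact he.add_one)]
      · rw [if_neg he, if_pos (by rw [Nat.not_even_iff_odd] at he; exact he.add_one), add_comm]
    have hshift : ∑ i : ZMod (2 * N), cnt O (X (2 * N) σ (i + 1) * τ) ^ 2 =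
        ∑ i : ZMod (2 * N), cnt O (X (2 * N) σ i * τ) ^ 2 :=
      Fintype.sum_equiv (Equiv.addRight 1) _ _ (fun i => rfl)
    have htot : ∑ i : ZMod (2 * N), (cnt O (X (2 * N) σ i * τ) ^ 2 +
        cnt O (X (2 * N) σ (i + 1) * τ) ^ 2) = 2 * N * (cnt O τ ^ 2 + cnt O (σ * τ) ^ 2) := by
      rw [Finset.sum_congr rfl fun i _ => hpair i, Finset.sum_const, Finset.card_univ, ZMod.card,
        smul_eq_mul]
    rw [Finset.sum_add_distrib, hshift] at htot
    linarith
  · intro s hs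
    by_cases h2 : s * s = 1
    · by_cases h1 : s = 1
      · rw [h1, h.cnt_one, zero_mul]
      · rw [D.eq_J hs h2 h1, inv_mul_cancel, h.cnt_one, mul_zero]
    · rw [h.cnt_sq (D.zle hs) h2, zero_mul]

/-- the order count -/
theorem count (hM : IsPModular 2 M) (P : Sylow 2 G) (D : DP (P : Subgroup G) n σ τ)
    (hone : ∀ s t : G, orderOf s = 2 → orderOf t = 2 → IsConj s t) {N : ℕ}
    (hN : N = 2 ^ (n - 2)) (hσL : orderOf σ = 2 * N) :
    ∃ a b : ℕ, 0 < a ∧ 0 < b ∧
      a * N * Nat.card (Subgroup.centralizer ({σ ^ (2 ^ (n - 2)), τ} : Set G)) =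
        Nat.card (Subgroup.centralizer ({σ ^ (2 ^ (n - 2))} : Set G)) ∧
      b * N * Nat.card (Subgroup.centralizer ({σ ^ (2 ^ (n - 2)), σ * τ} : Set G)) =
        Nat.card (Subgroup.centralizer ({σ ^ (2 ^ (n - 2))} : Set G)) ∧
      (Nat.card G : ℂ) * ∑ᶠ χ ∈ principalBlock M G, (χ : G → ℂ) (σ ^ (2 ^ (n - 2))) *
        (χ : G → ℂ) (σ ^ (2 ^ (n - 2))) * ((χ : G → ℂ) (σ ^ (2 ^ (n - 2))) + (χ : G → ℂ) σ) /
          (χ : G → ℂ) 1 =
        4 * (Nat.card (Subgroup.centralizer ({σ ^ (2 ^ (n - 2))} : Set G)) : ℂ) *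
          ((N : ℂ) * ((a : ℂ) + b)) ^ 2 := by
  classical
  haveI : Fintype (IrrCharacter G) := Fintype.ofFinite _
  haveI : Fintype (P : Subgroup G) := Fintype.ofFinite _
  obtain ⟨O, hO⟩ := exists_cmp P D
  haveI : Fintype O := Fintype.ofFinite _
  set J := σ ^ (2 ^ (n - 2)) with hJ
  set C := Subgroup.centralizer ({J} : Set G) with hC
  have hJr : J ∈ Subgroup.zpowers σ := Subgroup.npow_mem_zpowers σ _
  have hcC : Nat.card C = Nat.card O * (4 * N) := by
    rw [hO.card_eq, D.card_P, D.Lpow, D.L_eq, hN]; ring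
  have hpos : 0 < Nat.card O := Nat.card_pos
  have hCpos : 0 < Nat.card C := Nat.card_pos
  have hrefl : ∀ s ∈ (P : Subgroup G), s ∉ Subgroup.zpowers σ →
      cnt O s * N * Nat.card (Subgroup.centralizer ({J, s} : Set G)) = Nat.card C := by
    intro s hs hs'
    have hso : orderOf s = 2 := by
      rw [orderOf_eq_prime_iff]
      refine ⟨by rw [pow_two]; exact D.sq_of hs hs', ?_⟩
      intro h
      exact hs' (by rw [h]; exact Subgroup.one_mem _)
    have h1 := cnt_mul_card hO.odd hso (fun w hw => hO.nrm s (hO.leP hs) w hw)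
    have h2 := hO.card_centralizer hs
    rw [cent_refl D hs hs'] at h2
    have h3 : C ⊓ Subgroup.centralizer ({s} : Set G) = Subgroup.centralizer ({J, s} : Set G) := by
      ext x
      rw [Subgroup.mem_inf, hC, Subgroup.mem_centralizer_singleton_iff,
        Subgroup.mem_centralizer_singleton_iff, Subgroup.mem_centralizer_iff]
      constructor
      · rintro ⟨h4, h5⟩ y hy
        rcases hy with rfl | hy
        · exact h4.symm
        · rw [Set.mem_singleton_iff] at hy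
          rw [hy]; exact h5.symm
      · intro h4
        exact ⟨(h4 J (Or.inl rfl)).symm, (h4 s (Or.inr rfl)).symm⟩
    rw [h3] at h2
    rw [h2, hcC, ← h1]
    ring
  have hτP : τ ∉ Subgroup.zpowers σ := D.tau_notMem
  have hστP : σ * τ ∉ Subgroup.zpowers σ := by
    intro h1
    apply D.tau_notMem
    have := Subgroup.mul_mem _ (Subgroup.inv_mem _ (Subgroup.mem_zpowers σ)) h1
    rwa [inv_mul_cancel_left] at this
  have ha := hrefl τ D.hτ hτP
  have hb := hrefl (σ * τ) (Subgroup.mul_mem _ D.hσ D.hτ) hστP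
  refine ⟨cnt O τ, cnt O (σ * τ), ?_, ?_, ha, hb, ?_⟩
  · rcases Nat.eq_zero_or_pos (cnt O τ) with h | h
    · rw [h, zero_mul, zero_mul] at ha; omega
    · exact h
  · rcases Nat.eq_zero_or_pos (cnt O (σ * τ)) with h | h
    · rw [h, zero_mul, zero_mul] at hb; omega
    · exact h
  have k1 := hO.block_count hM hone D.J_order D.J_mem (le_of_eq rfl)
  rw [hO.sum_F D.J_mem (Cmp.mem_of_F hO D.J_order hC D.J_mem ⟨1, pow_one J⟩),
    sum_J D hO hN hσL] at k1
  have hσ1 : σ ≠ 1 := by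
    intro h; apply D.sigma_sq; rw [h, mul_one]
  have k2 := hO.block_count hM hone D.J_order D.hσ (cent_le D (Subgroup.mem_zpowers σ) hσ1)
  rw [hO.sum_F D.hσ (Cmp.mem_of_F hO D.J_order hC D.hσ ⟨2 ^ (n - 2), rfl⟩),
    sum_sigma D hO hN hσL] at k2
  have hsplit : ∑ᶠ χ ∈ principalBlock M G, (χ : G → ℂ) J * (χ : G → ℂ) J *
      ((χ : G → ℂ) J + (χ : G → ℂ) σ) / (χ : G → ℂ) 1 =
      ∑ᶠ χ ∈ principalBlock M G, (χ : G → ℂ) J * (χ : G → ℂ) J * conj ((χ : G → ℂ) J) /
          (χ : G → ℂ) 1 +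
      ∑ᶠ χ ∈ principalBlock M G, (χ : G → ℂ) J * (χ : G → ℂ) J * conj ((χ : G → ℂ) σ) /
          (χ : G → ℂ) 1 := by
    rw [← finsum_mem_add_distrib (Set.toFinite _)]
    apply finsum_congr
    intro χ
    apply finsum_congr
    intro _
    rw [val_real D hJr, val_real D (Subgroup.mem_zpowers σ)]
    ring
  rw [hsplit, mul_add]
  have hO0 : (Nat.card O : ℂ) ≠ 0 := Nat.cast_ne_zero.2 hpos.ne'
  apply mul_left_cancel₀ hO0
  have hcC' : (Nat.card C : ℂ) = (Nat.card O : ℂ) * (4 * N) := by rw [hcC]; push_cast; ring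
  rw [← hJ, ← hC] at k1 k2
  push_cast at k1 k2
  linear_combination -k1 - k2 + (Nat.card C : ℂ) * (N : ℂ) *
    ((cnt O τ : ℂ) + (cnt O (σ * τ) : ℂ)) ^ 2 * hcC'

end Cfsg.Agent.H25.DihOrd
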