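import Cfsg.Agent.H25_DihOrd
set_option autoImplicit false
set_option maxHeartbeats 1000000

namespace Cfsg.Agent.H25.DihOrd2
open Cfsg Cfsg.Agent.H10.PPart Cfsg.Agent.H25.DihCnt Cfsg.Agent.H25.DihGrp Cfsg.Agent.H25.DihGrp2
  Cfsg.Agent.H10.BlockV4 Cfsg.Agent.H10.BlockKer Cfsg.Agent.H25.DihFour Cfsg.Agent.H25.DihBlk
  Cfsg.Agent.H25.DihMain Cfsg.Agent.H25.DihOrd Cfsg.Agent.H5.Dih
open Cfsg.Agent.H3.CharIrr Cfsg.Agent.H3.CharComplete
open scoped ComplexConjugate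

variable {G : Type*} [Group G] [Fintype G] {M : Ideal AlgInt} {n : ℕ} {σ τ : G}

theorem sum_dih {B : Set (IrrCharacter G)} {c u v : IrrCharacter G} {m : ℕ}
    {χ' : Fin m → IrrCharacter G}
    (hB : B = {χ : IrrCharacter G | (χ : G → ℂ) = (fun _ => 1) ∨ χ = c ∨ χ = u ∨ χ = v ∨
      ∃ j, χ = χ' j}) (hinj : Function.Injective χ')
    (hc : (c : G → ℂ) ≠ (fun _ => 1)) (hu : (u : G → ℂ) ≠ (fun _ => 1))
    (hv : (v : G → ℂ) ≠ (fun _ => 1)) (hcu : c ≠ u) (hcv : c ≠ v) (huv : u ≠ v)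
    (hj : ∀ j, χ' j ≠ c ∧ χ' j ≠ u ∧ χ' j ≠ v ∧ (χ' j : G → ℂ) ≠ (fun _ => 1))
    (f : IrrCharacter G → ℂ) :
    ∑ᶠ χ ∈ B, f χ = f (triv G) + (f c + (f u + (f v + ∑ j, f (χ' j)))) := by
  classical
  have htne : ∀ χ : IrrCharacter G, (χ : G → ℂ) ≠ (fun _ => 1) → triv G ≠ χ := by
    intro χ h h'
    apply h; rw [← h']; rfl
  have hBeq : B = ((insert (triv G) (insert c (insert u (insert v (Finset.univ.image χ')))) :
      Finset (IrrCharacter G)) : Set (IrrCharacter G)) := by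
    rw [hB]
    ext χ
    have : (χ : G → ℂ) = (fun _ => 1) ↔ χ = triv G := by
      constructor
      · intro h; exact Subtype.ext h
      · intro h; rw [h]; rfl
    simp only [Set.mem_setOf_eq, this, Finset.coe_insert, Finset.coe_image, Finset.coe_univ,
      Set.image_univ, Set.mem_insert_iff, Set.mem_range]
    constructor
    · rintro (h | h | h | h | ⟨j, h⟩)
      · exact Or.inl h
      · exact Or.inr (Or.inl h)
      · exact Or.inr (Or.inr (Or.inl h))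
      · exact Or.inr (Or.inr (Or.inr (Or.inl h)))
      · exact Or.inr (Or.inr (Or.inr (Or.inr ⟨j, h.symm⟩)))
    · rintro (h | h | h | h | ⟨j, h⟩)
      · exact Or.inl h
      · exact Or.inr (Or.inl h)
      · exact Or.inr (Or.inr (Or.inl h))
      · exact Or.inr (Or.inr (Or.inr (Or.inl h)))
      · exact Or.inr (Or.inr (Or.inr (Or.inr ⟨j, h.symm⟩)))
  rw [hBeq, finsum_mem_coe_finset, Finset.sum_insert, Finset.sum_insert, Finset.sum_insert,
    Finset.sum_insert, Finset.sum_image (fun a _ b _ h => hinj h)]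
  · simp only [Finset.mem_image, Finset.mem_univ, true_and, not_exists]
    exact fun j => (hj j).2.2.1
  · simp only [Finset.mem_insert, Finset.mem_image, Finset.mem_univ, true_and, not_or, not_exists]
    exact ⟨huv, fun j => (hj j).2.1⟩
  · simp only [Finset.mem_insert, Finset.mem_image, Finset.mem_univ, true_and, not_or, not_exists]
    exact ⟨hcu, hcv, fun j => (hj j).1⟩
  · simp only [Finset.mem_insert, Finset.mem_image, Finset.mem_univ, true_and, not_or, not_exists]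
    exact ⟨htne c hc, htne u hu, htne v hv, fun j h => htne _ (hj j).2.2.2 h.symm⟩

theorem num {Gc cJ cτ cσ N a b x δ : ℚ} (hx : 0 < x) (hδ : δ * δ = 1) (hxδ : 0 < x + δ)
    (hcτ : 0 < cτ) (hcσ : 0 < cσ) (hcJ : 0 < cJ)
    (ha : a * N * cτ = cJ) (hb : b * N * cσ = cJ)
    (h : Gc * (2 + 2 * δ / x - 8 * δ / (x + δ)) = 4 * cJ * (N * (a + b)) ^ 2) :
    x ≠ δ ∧ Gc * (x - δ) ^ 2 = 2 * x * (x + δ) * cJ ^ 3 * (1 / cτ + 1 / cσ) ^ 2 := by
  have h1 : (2 + 2 * δ / x - 8 * δ / (x + δ)) * (x * (x + δ)) = 2 * (x - δ) ^ 2 := by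
    have hx' : x ≠ 0 := hx.ne'
    have hxδ' : x + δ ≠ 0 := hxδ.ne'
    field_simp
    ring
  have h2 : N * (a + b) = cJ * (1 / cτ + 1 / cσ) := by
    have h3 : N * a = cJ / cτ := by rw [eq_div_iff hcτ.ne']; linarith
    have h4 : N * b = cJ / cσ := by rw [eq_div_iff hcσ.ne']; linarith
    rw [mul_add, h3, h4]; ring
  have hkey : Gc * (x - δ) ^ 2 = 2 * x * (x + δ) * cJ ^ 3 * (1 / cτ + 1 / cσ) ^ 2 := by
    rw [h2] at h
    have h3 : Gc * (2 * (x - δ) ^ 2) = 4 * cJ * (cJ * (1 / cτ + 1 / cσ)) ^ 2 * (x * (x + δ)) := by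
      rw [← h1, ← h]; ring
    linear_combination h3 / 2
  refine ⟨?_, hkey⟩
  intro hxe
  rw [hxe, sub_self] at hkey
  rw [hxe] at hx
  rw [hxe] at hxδ
  have : 0 < 2 * δ * (δ + δ) * cJ ^ 3 * (1 / cτ + 1 / cσ) ^ 2 := by positivity
  rw [← hkey] at this
  norm_num at this

theorem s4482 (hM : IsPModular 2 M) (P : Sylow 2 G) (D : DP (P : Subgroup G) n σ τ)
    (hconj : IsConj (σ ^ (2 ^ (n - 2))) τ ∧ IsConj (σ ^ (2 ^ (n - 2))) (σ * τ))
    (χ₁ : IrrCharacter G) (hχ₁ : χ₁ ∈ principalBlock M G) (h1 : (χ₁ : G → ℂ) ≠ (fun _ => 1))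
    (δ₁ : ℤ) (hδ₁ : δ₁ = 1 ∨ δ₁ = -1)
    (hval : ∀ l : ℕ, 0 < l → l < 2 ^ (n - 1) → (χ₁ : G → ℂ) (σ ^ l) = δ₁) :
    (charDegree (χ₁ : G → ℂ) : ℤ) ≠ δ₁ ∧
    (Nat.card G : ℚ) * ((charDegree (χ₁ : G → ℂ) : ℚ) - δ₁) ^ 2 =
      2 * (charDegree (χ₁ : G → ℂ) : ℚ) * ((charDegree (χ₁ : G → ℂ) : ℚ) + δ₁) *
        (Nat.card (Subgroup.centralizer ({σ ^ (2 ^ (n - 2))} : Set G)) : ℚ) ^ 3 *
        (1 / (Nat.card (Subgroup.centralizer ({σ ^ (2 ^ (n - 2)), τ} : Set G)) : ℚ) +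
          1 / (Nat.card (Subgroup.centralizer ({σ ^ (2 ^ (n - 2)), σ * τ} : Set G)) : ℚ)) ^ 2 := by
  classical
  haveI := hM.2.1
  haveI : Fintype (IrrCharacter G) := Fintype.ofFinite _
  have hn := D.hn
  have hone := one_class P D hconj.1 hconj.2
  obtain ⟨N, hN⟩ : ∃ N, N = 2 ^ (n - 2) := ⟨_, rfl⟩
  have hL := D.L_eq
  rw [← hN] at hL
  have hσL : orderOf σ = 2 * N := D.hσo.trans hL
  have hN2 : 2 ≤ N := by
    rw [hN]
    calc 2 = 2 ^ 1 := by norm_num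
      _ ≤ 2 ^ (n - 2) := Nat.pow_le_pow_right (by norm_num) (by omega)
  have hNe : Even N := by
    rw [hN, Nat.even_pow]
    exact ⟨by norm_num, by omega⟩
  rw [hL] at hval
  obtain ⟨-, c, u, v, χ', ε, ε₂, ε₃, hε, hε₂, hε₃, hinj, hc, hu, hv, hcu, hcv, huv, hj, hB, hvals,
    hreg⟩ := core hM P D hN hσL _ (Complex.isPrimitiveRoot_exp (2 * N) (by omega))
  set ζ := Complex.exp (2 * Real.pi * Complex.I / ((2 * N : ℕ) : ℂ)) with hζ
  have hζp : IsPrimitiveRoot ζ (2 * N) := Complex.isPrimitiveRoot_exp (2 * N) (by omega)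
  have hζN : ζ ^ N = -1 := by
    have h2 : (ζ ^ N) ^ 2 = 1 := by
      rw [← pow_mul, mul_comm]; exact hζp.pow_eq_one
    have h3 : ζ ^ N ≠ 1 := hζp.pow_ne_one_of_pos_of_lt (by omega) (by omega)
    have h4 : (ζ ^ N - 1) * (ζ ^ N + 1) = 0 := by linear_combination h2
    rcases (mul_eq_zero.1 h4).imp sub_eq_zero.1 eq_neg_of_add_eq_zero_left with h | h
    · exact absurd h h3
    · exact h
  -- values at J and σ
  have hJsq : ∀ j, (χ' j : G → ℂ) (σ ^ N) * (χ' j : G → ℂ) (σ ^ N) = 4 := by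
    intro j
    have h2 := (hvals N (by omega) (by omega)).2.2.2 j
    have h3 : ζ ^ (((j : ℕ) + 1) * N) = 1 ∨ ζ ^ (((j : ℕ) + 1) * N) = -1 := by
      rw [mul_comm, pow_mul, hζN]
      exact neg_one_pow_eq_or ℂ _
    rw [h2]
    rcases hε with h | h <;> rcases h3 with h4 | h4 <;> rw [h, h4] <;> norm_num
  have hid : χ₁ = c ∧ δ₁ = ε := by
    have hmem := hχ₁
    rw [hB] at hmem
    have e1 := hval 1 (by omega) (by omega)
    have e2 := hval 2 (by omega) (by omega)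
    have eN := hval N (by omega) (by omega)
    rcases hmem with h | h | h | h | ⟨j, h⟩
    · exact absurd h h1
    · refine ⟨h, ?_⟩
      have := (hvals 1 (by omega) (by omega)).1
      rw [← h, e1] at this
      exact_mod_cast this
    · exfalso
      have f1 := (hvals 1 (by omega) (by omega)).2.1
      have f2 := (hvals 2 (by omega) (by omega)).2.1
      rw [← h, e1] at f1
      rw [← h, e2, f1] at f2
      rcases hε₂ with h5 | h5 <;> rw [h5] at f2 <;> norm_num at f2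
    · exfalso
      have f1 := (hvals 1 (by omega) (by omega)).2.2.1
      have f2 := (hvals 2 (by omega) (by omega)).2.2.1
      rw [← h, e1] at f1
      rw [← h, e2, f1] at f2
      rcases hε₃ with h5 | h5 <;> rw [h5] at f2 <;> norm_num at f2
    · exfalso
      have f1 := hJsq j
      rw [← h, eN] at f1
      rcases hδ₁ with h5 | h5 <;> rw [h5] at f1 <;> norm_num at f1
  obtain ⟨rfl, rfl⟩ := hid
  have hNodd : (-1 : ℂ) ^ (N + 1) = -1 := hNe.add_one.neg_one_pow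
  obtain ⟨a, b, ha0, hb0, ha, hb, hcount⟩ := count hM P D hone hN hσL
  have hJv : ∀ χ : IrrCharacter G, (χ : G → ℂ) (σ ^ (2 ^ (n - 2))) = (χ : G → ℂ) (σ ^ N) := by
    intro χ; rw [hN]
  have hsum := fun f => sum_dih hB hinj hc hu hv hcu hcv huv hj f
  set x := charDegree (χ₁ : G → ℂ) with hx
  have hxpos : 0 < x := H10.Char.charDegree_pos χ₁.2
  obtain ⟨r1, r2⟩ := hreg 1 (by simp)
  have hδδ : (δ₁ : ℂ) * (δ₁ : ℂ) = 1 := by
    rcases hδ₁ with h | h <;> rw [h] <;> norm_num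
  have hdeg : ∀ χ : IrrCharacter G, (χ : G → ℂ) 1 = (charDegree (χ : G → ℂ) : ℂ) := fun χ =>
    (H10.Char.charDegree_eq χ.2).symm
  have hdegj : ∀ j, (χ' j : G → ℂ) 1 = (x : ℂ) + δ₁ := by
    intro j
    have h3 := r2 j
    rw [hdeg χ₁, ← hx] at h3
    calc (χ' j : G → ℂ) 1 = (δ₁ * δ₁) * (χ' j : G → ℂ) 1 := by rw [hδδ, one_mul]
      _ = δ₁ * (δ₁ * (χ' j : G → ℂ) 1) := by ring
      _ = δ₁ * (1 + δ₁ * x) := by rw [← h3]
      _ = δ₁ + (δ₁ * δ₁) * x := by ring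
      _ = (x : ℂ) + δ₁ := by rw [hδδ]; ring
  have hposZ : 0 < (x : ℤ) + δ₁ := by
    have j₀ : Fin (N - 1) := ⟨0, by omega⟩
    have h3 := hdegj j₀
    rw [hdeg] at h3
    have h4 : ((charDegree (χ' j₀ : G → ℂ) : ℤ) : ℂ) = (((x : ℤ) + δ₁ : ℤ) : ℂ) := by
      push_cast; exact h3
    have h5 : (charDegree (χ' j₀ : G → ℂ) : ℤ) = (x : ℤ) + δ₁ := by exact_mod_cast h4
    rw [← h5]
    exact_mod_cast H10.Char.charDegree_pos (χ' j₀).2
  have hne : (x : ℂ) + δ₁ ≠ 0 := by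
    have h4 : (((x : ℤ) + δ₁ : ℤ) : ℂ) ≠ 0 := by exact_mod_cast hposZ.ne'
    push_cast at h4
    exact h4
  -- orthogonality
  have horth : ∀ z : G, z ∈ Subgroup.zpowers σ → z ≠ 1 →
      ∑ᶠ χ ∈ principalBlock M G, (χ : G → ℂ) z * (χ : G → ℂ) 1 = 0 := by
    intro z hz hz1
    rw [← orth_reg hM D hz hz1 (ρ := 1) (by simp), finsum_mem_def, finsum_eq_sum_of_fintype,
      Finset.sum_filter]
    apply Finset.sum_congr rfl
    intro χ _
    simp only [Set.indicator_apply]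
  have hσ1 : σ ≠ 1 := by
    intro h; apply D.sigma_sq; rw [h, mul_one]
  have oJ := horth (σ ^ N) (Subgroup.npow_mem_zpowers σ N) (by rw [hN]; exact D.J_ne)
  have oσ := horth σ (Subgroup.mem_zpowers σ) hσ1
  rw [hsum] at oJ oσ hcount
  obtain ⟨vJ1, vJ2, vJ3, -⟩ := hvals N (by omega) (by omega)
  obtain ⟨vs1, vs2, vs3, -⟩ := hvals 1 (by omega) (by omega)
  rw [pow_one] at vs1 vs2 vs3
  rw [hNodd] at vJ2 vJ3
  have e11 : ((-1 : ℂ)) ^ (1 + 1) = 1 := by norm_num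
  rw [e11] at vs2 vs3
  simp only [hdegj] at oJ oσ
  rw [← Finset.sum_mul] at oJ oσ
  rw [triv_coe, triv_coe, vJ1, vJ2, vJ3] at oJ
  rw [triv_coe, triv_coe, vs1, vs2, vs3] at oσ
  set AJ := ∑ j, (χ' j : G → ℂ) (σ ^ N) with hAJ
  set As := ∑ j, (χ' j : G → ℂ) σ with hAs
  have hAs0 : As = 0 := by
    have h3 : As * ((x : ℂ) + δ₁) = 0 := by linear_combination oσ - r1
    exact (mul_eq_zero.1 h3).resolve_right hne
  have hx1 : (χ₁ : G → ℂ) 1 = (x : ℂ) := hdeg χ₁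
  have hAJ0 : AJ = -2 * δ₁ := by
    have h3 : (AJ + 2 * δ₁) * ((x : ℂ) + δ₁) = 0 := by
      rw [hx1] at oJ r1
      linear_combination oJ + r1 + 2 * hδδ
    have h4 := (mul_eq_zero.1 h3).resolve_right hne
    linear_combination h4
  -- the sum
  have hterm : ∀ j, (χ' j : G → ℂ) (σ ^ (2 ^ (n - 2))) * (χ' j : G → ℂ) (σ ^ (2 ^ (n - 2))) *
      ((χ' j : G → ℂ) (σ ^ (2 ^ (n - 2))) + (χ' j : G → ℂ) σ) / (χ' j : G → ℂ) 1 =
      4 / ((x : ℂ) + δ₁) * ((χ' j : G → ℂ) (σ ^ N) + (χ' j : G → ℂ) σ) := by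
    intro j
    rw [hJv, hJsq, hdegj]
    ring
  simp only [hterm] at hcount
  rw [← Finset.mul_sum, Finset.sum_add_distrib, ← hAJ, ← hAs, hAs0, hAJ0, hJv, hJv, hJv, hJv,
    triv_coe, triv_coe, triv_coe, vJ1, vJ2, vJ3, vs1, vs2, vs3, hx1] at hcount
  have hQ : (Nat.card G : ℚ) * (2 + 2 * (δ₁ : ℚ) / x - 8 * δ₁ / ((x : ℚ) + δ₁)) =
      4 * (Nat.card (Subgroup.centralizer ({σ ^ (2 ^ (n - 2))} : Set G)) : ℚ) *
        ((N : ℚ) * ((a : ℚ) + b)) ^ 2 := by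
    have h3 : (((Nat.card G : ℚ) * (2 + 2 * (δ₁ : ℚ) / x - 8 * δ₁ / ((x : ℚ) + δ₁)) : ℚ) : ℂ) =
        ((4 * (Nat.card (Subgroup.centralizer ({σ ^ (2 ^ (n - 2))} : Set G)) : ℚ) *
        ((N : ℚ) * ((a : ℚ) + b)) ^ 2 : ℚ) : ℂ) := by
      push_cast
      rw [← hcount]
      congr 1
      have hxC : (x : ℂ) ≠ 0 := by exact_mod_cast hxpos.ne'
      field_simp
      linear_combination (-(2 * (x : ℂ) * δ₁ + 2 * δ₁ ^ 2)) * hδδ
    exact_mod_cast h3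
  have hδQ : (δ₁ : ℚ) * δ₁ = 1 := by
    rcases hδ₁ with h | h <;> rw [h] <;> norm_num
  obtain ⟨n1, n2⟩ := num (x := (x : ℚ)) (δ := (δ₁ : ℚ)) (by exact_mod_cast hxpos) hδQ
    (by exact_mod_cast hposZ)
    (cτ := (Nat.card (Subgroup.centralizer ({σ ^ (2 ^ (n - 2)), τ} : Set G)) : ℚ))
    (cσ := (Nat.card (Subgroup.centralizer ({σ ^ (2 ^ (n - 2)), σ * τ} : Set G)) : ℚ))
    (by exact_mod_cast Nat.card_pos) (by exact_mod_cast Nat.card_pos)
    (cJ := (Nat.card (Subgroup.centralizer ({σ ^ (2 ^ (n - 2))} : Set G)) : ℚ))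
    (by exact_mod_cast Nat.card_pos) (by exact_mod_cast ha) (by exact_mod_cast hb) hQ
  refine ⟨?_, n2⟩
  intro h
  apply n1
  have : ((x : ℤ) : ℚ) = (δ₁ : ℚ) := by rw [h]
  exact_mod_cast this

end Cfsg.Agent.H25.DihOrd2
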