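import Cfsg.Agent.H25_BlockReg2

/-! Consequences of the height bounds (S4499) and of the dimension formula (S4641). -/

namespace Cfsg.Agent.H25.Ht

open Cfsg Cfsg.Agent.H25.BlockReg Cfsg.Agent.H3.CharIrr Cfsg.Agent.H10.Char

variable {p : ℕ} {M : Ideal AlgInt} {G : Type*} [Group G] [Fintype G] [hp : Fact p.Prime]

theorem s4499 (hM : IsPModular p M) (B : Set (IrrCharacter G)) (hB : IsPBlock M B)
    (χ : IrrCharacter G) (hχ : χ ∈ B)
    (hdiv : p ^ ((Nat.card G).factorization p - 1) ∣ charDegree (χ : G → ℂ)) (ψ : IrrCharacter G)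
    (hψ : ψ ∈ B) : p ^ ((Nat.card G).factorization p - 1) ∣ charDegree (ψ : G → ℂ) := by
  have hne : ∀ χ : IrrCharacter G, charDegree (χ : G → ℂ) ≠ 0 := fun χ => (charDegree_pos χ.2).ne'
  have h1 : (Nat.card G).factorization p - 1 ≤ (charDegree (χ : G → ℂ)).factorization p :=
    (hp.out.pow_dvd_iff_le_factorization (hne χ)).1 hdiv
  rw [hp.out.pow_dvd_iff_le_factorization (hne ψ)]
  have h2 := mB_le (p := p) hχ
  have h3 := mB_le (p := p) hψ
  by_cases h0 : 0 < blockHeight p B (χ : G → ℂ)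
  · have h4 := (BlockReg2.pos_height hM hB hχ h0).1
    rw [defect_eq, height_eq] at h4
    omega
  · rw [height_eq] at h0
    omega

end Cfsg.Agent.H25.Ht
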