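import Mathlib

/-! Landau's theorem: finitely many finite groups with a given number of classes. -/

namespace Cfsg.Agent.H25.Landau

universe u

theorem egyptian (k : ℕ) : ∀ q : ℚ, 0 < q → ∃ N : ℕ, ∀ (ι : Type u) (s : Finset ι) (c : ι → ℕ),
    s.card ≤ k → (∀ i ∈ s, 0 < c i) → ∑ i ∈ s, (1 / (c i : ℚ)) = q → ∀ i ∈ s, c i ≤ N := by
  classical
  induction k with
  | zero =>
    intro q hq
    refine ⟨0, fun ι s c hs _ hsum i hi => ?_⟩
    rw [Nat.le_zero, Finset.card_eq_zero] at hs
    subst hs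
    simp at hi
  | succ k ih =>
    intro q hq
    -- bound for the smallest
    set m : ℕ := ⌈((k + 1 : ℕ) : ℚ) / q⌉₊ with hm
    have h1 : ∀ c : ℕ, ∃ N : ℕ, 0 < q - 1 / (c : ℚ) → ∀ (ι : Type u) (s : Finset ι) (c' : ι → ℕ),
        s.card ≤ k → (∀ i ∈ s, 0 < c' i) → ∑ i ∈ s, (1 / (c' i : ℚ)) = q - 1 / (c : ℚ) →
          ∀ i ∈ s, c' i ≤ N := by
      intro c
      by_cases h : 0 < q - 1 / (c : ℚ)
      · obtain ⟨N, hN⟩ := ih _ h
        exact ⟨N, fun _ => hN⟩
      · exact ⟨0, fun h' => absurd h' h⟩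
    choose F hF using h1
    refine ⟨m + ∑ c ∈ Finset.range (m + 1), F c, fun ι s c hs hpos hsum i hi => ?_⟩
    obtain ⟨j, hj, hjmin⟩ := Finset.exists_min_image s c ⟨i, hi⟩
    have h2 : c j ≤ m := by
      have h3 : q ≤ ((k + 1 : ℕ) : ℚ) * (1 / (c j : ℚ)) := by
        rw [← hsum]
        have h4 : ∑ i ∈ s, (1 / (c i : ℚ)) ≤ ∑ i ∈ s, (1 / (c j : ℚ)) := by
          refine Finset.sum_le_sum fun i hi => ?_
          refine one_div_le_one_div_of_le ?_ ?_
          · exact_mod_cast hpos j hj
          · exact_mod_cast hjmin i hi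
        refine h4.trans ?_
        rw [Finset.sum_const, nsmul_eq_mul]
        refine mul_le_mul_of_nonneg_right ?_ ?_
        · exact_mod_cast hs
        · positivity
      have h5 : (0:ℚ) < c j := by exact_mod_cast hpos j hj
      have h6 : (c j : ℚ) ≤ ((k + 1 : ℕ) : ℚ) / q := by
        rw [le_div_iff₀ hq]
        calc (c j : ℚ) * q ≤ c j * (((k + 1 : ℕ) : ℚ) * (1 / (c j : ℚ))) :=
              mul_le_mul_of_nonneg_left h3 h5.le
          _ = ((k + 1 : ℕ) : ℚ) := by field_simp
      exact_mod_cast h6.trans (Nat.le_ceil _)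
    by_cases hij : i = j
    · subst hij; omega
    · have h7 : i ∈ s.erase j := Finset.mem_erase.2 ⟨hij, hi⟩
      have h8 : ∑ i ∈ s.erase j, (1 / (c i : ℚ)) = q - 1 / (c j : ℚ) := by
        rw [← hsum, ← Finset.add_sum_erase s _ hj]; ring
      have h9 : 0 < q - 1 / (c j : ℚ) := by
        rw [← h8]
        refine Finset.sum_pos (fun l hl => ?_) ⟨i, h7⟩
        have : (0:ℚ) < c l := by exact_mod_cast hpos l (Finset.mem_of_mem_erase hl)
        positivity
      have h10 := hF (c j) h9 ι (s.erase j) c (by rw [Finset.card_erase_of_mem hj]; omega)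
        (fun l hl => hpos l (Finset.mem_of_mem_erase hl)) h8 i h7
      have h11 : F (c j) ≤ ∑ c ∈ Finset.range (m + 1), F c :=
        Finset.single_le_sum (f := F) (fun _ _ => Nat.zero_le _) (Finset.mem_range.2 (by omega))
      omega

/-- Landau's theorem -/
theorem landau (k : ℕ) : ∃ N : ℕ, ∀ (G : Type u) [Group G] [Finite G],
    Nat.card (ConjClasses G) ≤ k → Nat.card G ≤ N := by
  classical
  obtain ⟨N, hN⟩ := egyptian.{u} k 1 one_pos
  refine ⟨N, fun G _ _ hk => ?_⟩
  haveI : Fintype G := Fintype.ofFinite G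
  haveI : Fintype (ConjClasses G) := Fintype.ofFinite _
  have h1 : ∀ C : ConjClasses G, 0 < Nat.card G / Nat.card C.carrier ∧
      Nat.card G = Nat.card G / Nat.card C.carrier * Nat.card C.carrier ∧
      0 < Nat.card C.carrier := by
    intro C
    obtain ⟨g, rfl⟩ := ConjClasses.mk_surjective C
    have h2 : Nat.card (ConjClasses.mk g).carrier ∣ Nat.card G := by
      have h3 : Nat.card (ConjClasses.mk g).carrier = Nat.card (MulAction.orbit (ConjAct G) g) := by
        rw [ConjAct.orbit_eq_carrier_conjClasses]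
      rw [h3, Nat.card_congr (MulAction.orbitEquivQuotientStabilizer (ConjAct G) g)]
      exact Subgroup.card_quotient_dvd_card (MulAction.stabilizer (ConjAct G) g)
    have h3 : 0 < Nat.card (ConjClasses.mk g).carrier := by
      haveI : Nonempty (ConjClasses.mk g).carrier := ⟨⟨g, ConjClasses.mem_carrier_mk⟩⟩
      exact Nat.card_pos
    refine ⟨Nat.div_pos (Nat.le_of_dvd Nat.card_pos h2) h3, (Nat.div_mul_cancel h2).symm, h3⟩
  have h4 := hN (ConjClasses G) Finset.univ (fun C => Nat.card G / Nat.card C.carrier)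
    (by rw [Finset.card_univ, ← Nat.card_eq_fintype_card]; exact hk) (fun C _ => (h1 C).1)
    (by
      have h5 : ∀ C : ConjClasses G, (1 / ((Nat.card G / Nat.card C.carrier : ℕ) : ℚ)) =
          (Nat.card C.carrier : ℚ) / (Nat.card G : ℚ) := by
        intro C
        obtain ⟨h6, h7, h8⟩ := h1 C
        have h9 : ((Nat.card G / Nat.card C.carrier : ℕ) : ℚ) ≠ 0 := by exact_mod_cast h6.ne'
        have h10 : (Nat.card G : ℚ) = ((Nat.card G / Nat.card C.carrier : ℕ) : ℚ) *
          (Nat.card C.carrier : ℚ) := by exact_mod_cast h7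
        have h11 : (Nat.card C.carrier : ℚ) ≠ 0 := by exact_mod_cast h8.ne'
        rw [h10]; field_simp
      rw [Finset.sum_congr rfl fun C _ => h5 C, ← Finset.sum_div]
      have h6 : ∑ C : ConjClasses G, Nat.card C.carrier = Nat.card G := by
        rw [← Group.sum_card_conj_classes_eq_card, finsum_eq_sum_of_fintype]
        refine Finset.sum_congr rfl fun C _ => ?_
        rfl
      have h7 : (∑ C : ConjClasses G, (Nat.card C.carrier : ℚ)) = Nat.card G := by
        rw [← Nat.cast_sum, h6]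
      rw [h7, div_self]
      exact_mod_cast Nat.card_pos.ne')
    (ConjClasses.mk 1) (Finset.mem_univ _)
  have h5 : Nat.card (ConjClasses.mk (1 : G)).carrier = 1 := by
    have : (ConjClasses.mk (1 : G)).carrier = {1} := by
      ext x
      rw [ConjClasses.mem_carrier_iff_mk_eq, ConjClasses.mk_eq_mk_iff_isConj, Set.mem_singleton_iff]
      exact isConj_one_left
    rw [this]; simp
  simp only [h5, Nat.div_one] at h4
  exact h4

end Cfsg.Agent.H25.Landau
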