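import Mathlib
import Cfsg.Agent.H25_Nilp2

/-!
# Nilpotent blocks: centric pairs, extensions of `p`-power index
-/

set_option autoImplicit false
set_option linter.unusedSectionVars false
set_option linter.style.haveILetI false

namespace Cfsg.Agent.H25.Nilp

open Cfsg Cfsg.Agent.H25.Red Cfsg.Agent.H25.KG Cfsg.Agent.H25.BPTr Cfsg.Agent.H25.BPMain
  Cfsg.Agent.H25.BPDef Cfsg.Agent.H25.BPSub Cfsg.Agent.H25.Cov Cfsg.Agent.H25.Up Cfsg.Agent.H25.Cov2
  Cfsg.Agent.H25.Cov3 Cfsg.Agent.H25.FMT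
  Cfsg.Agent.H25.ExtFMT Cfsg.Agent.H25.Fus

variable {M : Ideal AlgInt} {G : Type*} [Group G] [Fintype G] {p : ℕ} [hp : Fact p.Prime]
  [hMax : M.IsMaximal] [hch : CharP (KM M) p] {B : MonoidAlgebra (KM M) G} {P Q H : Subgroup G}
  {E f : MonoidAlgebra (KM M) G}

omit [Fintype G] hp hMax hch in
theorem card_rel [Finite G] (C D : Subgroup G) : Nat.card D = C.relIndex D * Nat.card (C ⊓ D : Subgroup G) := by
  rw [← Subgroup.inf_relIndex_right, mul_comm, ← Subgroup.relIndex_bot_left (C ⊓ D),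
    Subgroup.relIndex_mul_relIndex _ _ _ bot_le inf_le_right, Subgroup.relIndex_bot_left]

omit hp hch in
theorem tr_ne_mono {R R' : Subgroup G} (h : R' ≤ R) {a : MonoidAlgebra (KM M) G} (hne : tr (Ce R) a ≠ 0) :
    tr (Ce R') a ≠ 0 := by
  intro h0
  apply hne
  rw [← tr_tr (Ce_anti h), h0, map_zero]

/-- defect group of the block `f` of `Q C_G(Q)` for a centric pair `(Q,f)` -/
theorem dgh_sup_cent (hM : IsPModular p M) (hQ : IsPGroup p Q) (hf : IsBlk (Ce Q) f)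
    (hD : DGH p (Ce Q) f (Q ⊓ Ce Q)) : IsBlk (Ce Q ⊔ Q) f ∧ DGH p (Ce Q ⊔ Q) f Q := by
  have hQC : Q ≤ Nm (Ce Q) := Subgroup.le_normalizer.trans (norm_le_norm_Ce Q)
  have hn : Ce Q ⊔ Q ≤ Nm (Ce Q) := sup_le Subgroup.le_normalizer hQC
  have hidx := relIndex_pow hQC hQ
  have hfix : Fix (Ce Q ⊔ Q) f := fix_sup hf.mem.2 (fix_of_supp hf.mem.1)
  have hH := blk_of_index hM le_sup_left hn hidx hf hfix
  refine ⟨hH, ?_⟩
  obtain ⟨D, hD'⟩ := exists_DGH (p := p) hM hH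
  have h1 := sup_eq_rel hM le_sup_left hn hidx hf hfix hD'
  have hne : tr (Ce Q) f ≠ 0 := by rw [tr_of_supp hf.mem.1]; exact hf.ne
  refine hD'.of_card le_sup_right hQ hne ?_
  have h2 : (Ce Q).relIndex D = (Ce Q).relIndex Q := by
    rw [← relIndex_sup (hD'.le.trans hn), ← relIndex_sup hQC, h1]
  have h3 := tr_ne_mono (inf_le_right : Ce Q ⊓ D ≤ D) hD'.ne
  have h4 := hD.card_le inf_le_left (hD'.pg.to_le inf_le_right) h3
  rw [card_rel (Ce Q) D, card_rel (Ce Q) Q, h2]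
  apply Nat.mul_le_mul_left
  rw [inf_comm (a := Ce Q) (b := Q)]
  exact h4

theorem nilp_sup_cent (hM : IsPModular p M) (hQ : IsPGroup p Q) (hf : IsBlk (Ce Q) f)
    (hD : DGH p (Ce Q) f (Q ⊓ Ce Q)) : NilpH p (Ce Q ⊔ Q) f := by
  obtain ⟨h1, h2⟩ := dgh_sup_cent hM hQ hf hD
  intro R hR hRp h hh ht x hxH hx hxh hxp
  have hQC : Q ≤ Nm (Ce Q) := Subgroup.le_normalizer.trans (norm_le_norm_Ce Q)
  have hn : Ce Q ⊔ Q ≤ Nm (Ce Q) := sup_le Subgroup.le_normalizer hQC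
  have h3 : x ∈ Ce Q := mem_of_preg hn (relIndex_pow hQC hQ) hxH hxp
  have h4 : tr (Ce R) f ≠ 0 := by
    intro h0
    rw [h0, zero_mul] at ht
    exact hh.ne ht.symm
  obtain ⟨y, hy, h5⟩ := h2.max R hR hRp h4
  have h6 : cs y Q = Q := mem_normalizer_iff_cs.1
    ((sup_le (Ce_le_Nm Q) Subgroup.le_normalizer : Ce Q ⊔ Q ≤ Nm Q) hy)
  rw [h6] at h5
  exact Ce_anti h5 h3

/-! ### `p`-power index -/

/-- blocks in `p`-power index: a block of `H` covering the block `h` of `K` is supported on `K` -/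
theorem cov_unique (hM : IsPModular p M) {H K : Subgroup G} (hKH : K ≤ H) (hn : H ≤ Nm K)
    (hidx : ∃ m : ℕ, K.relIndex H = p ^ m) {h : MonoidAlgebra (KM M) G} (hh : IsBlk K h)
    {F : MonoidAlgebra (KM M) G} (hF : IsBlk H F) (hne : F * h ≠ 0) : F * h = h := by
  have h1 : F ∈ Z K := ⟨supp_of_index hM hn hidx hF.mem hF.idem, hF.mem.2.mono hKH⟩
  rcases hh.prim F h1 hF.idem with h2 | h2
  · exact h2
  · exact absurd h2 hne

theorem cov_eq (hM : IsPModular p M) {H K : Subgroup G} (hKH : K ≤ H) (hn : H ≤ Nm K)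
    (hidx : ∃ m : ℕ, K.relIndex H = p ^ m) {h : MonoidAlgebra (KM M) G} (hh : IsBlk K h)
    {F F' : MonoidAlgebra (KM M) G} (hF : IsBlk H F) (hne : F * h ≠ 0) (hF' : IsBlk H F') (hne' : F' * h ≠ 0) :
    F = F' := by
  have h1 := cov_unique hM hKH hn hidx hh hF hne
  have h2 := cov_unique hM hKH hn hidx hh hF' hne'
  apply hF.eq_of_mul hF'
  intro h0
  have h3 : F * (F' * h) = h := by rw [h2, h1]
  rw [← mul_assoc, h0, zero_mul] at h3
  exact hh.ne h3.symm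

/-- relative versions of the existence of covering and covered blocks and of conjugacy -/
theorem exists_covering_rel {H K : Subgroup G} (hKH : K ≤ H) (hn : H ≤ Nm K)
    {h : MonoidAlgebra (KM M) G} (hh : IsBlk K h) : ∃ F, IsBlk H F ∧ F * h ≠ 0 := by
  haveI : Fintype H := Fintype.ofFinite _
  haveI := normal_of hn
  obtain ⟨h', rfl⟩ := up_surj (hh.mem.1.mono hKH)
  rw [blk_of_iff hKH] at hh
  obtain ⟨F, hF, h1⟩ := exists_covering hh
  refine ⟨up (KM M) H F, blk_top_iff.2 hF, ?_⟩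
  rw [← map_mul]
  intro h0
  apply h1
  apply up_inj (k := KM M) (H := H)
  rw [h0, map_zero]

theorem exists_covered_rel {H K : Subgroup G} (hKH : K ≤ H) (hn : H ≤ Nm K)
    {F : MonoidAlgebra (KM M) G} (hF : IsBlk H F) : ∃ h, IsBlk K h ∧ F * h ≠ 0 := by
  haveI : Fintype H := Fintype.ofFinite _
  haveI := normal_of hn
  obtain ⟨F', rfl⟩ := up_surj hF.mem.1
  rw [blk_top_iff] at hF
  obtain ⟨h, hh, h1⟩ := exists_covered (K.subgroupOf H) hF
  refine ⟨up (KM M) H h, (blk_of_iff hKH).2 hh, ?_⟩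
  rw [← map_mul]
  intro h0
  apply h1
  apply up_inj (k := KM M) (H := H)
  rw [h0, map_zero]

theorem cov_conj_rel {H K : Subgroup G} (hKH : K ≤ H) (hn : H ≤ Nm K)
    {F h h' : MonoidAlgebra (KM M) G} (hF : IsBlk H F) (hh : IsBlk K h) (hh' : IsBlk K h')
    (h1 : F * h ≠ 0) (h2 : F * h' ≠ 0) : ∃ g ∈ H, KG.cnj g h = h' := by
  haveI : Fintype H := Fintype.ofFinite _
  haveI := normal_of hn
  obtain ⟨F', rfl⟩ := up_surj hF.mem.1
  obtain ⟨k1, rfl⟩ := up_surj (hh.mem.1.mono hKH)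
  obtain ⟨k2, rfl⟩ := up_surj (hh'.mem.1.mono hKH)
  rw [blk_top_iff] at hF
  rw [blk_of_iff hKH] at hh hh'
  obtain ⟨g, hg⟩ := cov_conj hF hh hh' (by intro h0; apply h1; rw [← map_mul, h0, map_zero])
    (by intro h0; apply h2; rw [← map_mul, h0, map_zero])
  exact ⟨g, g.2, by rw [← up_cnj, hg]⟩

/-- B nilpotent implies c nilpotent -/
theorem nilp_down (hM : IsPModular p M) {N : Subgroup G} [hN : N.Normal] (hidx : ∃ m : ℕ, N.index = p ^ m)
    (hB : IsBlk ⊤ B) (hn : Nilp p B) : NilpH p N B := by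
  intro R hR hRp h hh ht x hxN hx hxh hxp
  have hnC : Ce R ≤ Nm (Ce R ⊓ N) := by
    intro y hy
    rw [mem_normalizer_iff_cs, cs, Subgroup.map_inf _ _ _ (MulAut.conj y).injective]
    have h5 : cs y N = N := cs_normal y
    have h6 : cs y (Ce R) = Ce R := mem_normalizer_iff_cs.1 (Subgroup.le_normalizer hy)
    rw [← cs, ← cs, h5, h6]
  have hidx' : ∃ m : ℕ, (Ce R ⊓ N).relIndex (Ce R) = p ^ m := by
    obtain ⟨m, hm⟩ := hidx
    have h1 : (Ce R ⊓ N).relIndex (Ce R) ∣ p ^ m := by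
      rw [inf_comm, Subgroup.inf_relIndex_right, ← hm]
      exact Subgroup.relIndex_dvd_index_of_normal N (Ce R)
    obtain ⟨j, -, hj⟩ := (Nat.dvd_prime_pow hp.out).1 h1
    exact ⟨j, hj⟩
  obtain ⟨F, hF, h1⟩ := exists_covering_rel inf_le_left hnC hh
  have hFh := cov_unique hM inf_le_left hnC hidx' hh hF h1
  have hxC : x ∈ Nm (Ce R) := norm_le_norm_Ce R hx
  have hxF : KG.cnj x F = F := by
    apply cov_eq hM inf_le_left hnC hidx' hh (hF.cnj_of_normalizes hxC) _ hF h1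
    have h2 : KG.cnj x F * h = KG.cnj x (F * h) := by rw [map_mul, hxh]
    rw [h2, hFh, hxh]
    exact hh.ne
  have hbp : BP p B R F := by
    refine ⟨hRp, hB, hF, ?_⟩
    have hz : tr (Ce R) B ∈ Z (Ce R) := tr_mem_Z le_top hB.mem.2
    rcases hF.prim _ hz (tr_idem hRp (fix_top hB R) hB.idem) with h2 | h2
    · exact h2
    · exfalso
      have h3 : tr (Ce R) B * (F * h) = h := by rw [hFh, ht]
      rw [← mul_assoc, h2, zero_mul] at h3
      exact hh.ne h3.symm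
  exact hn R F hbp x hx hxF hxp

omit [Fintype G] hMax hch in
/-- `p`-regular elements acting trivially on `Q/Q₀` and on `Q₀` act trivially on `Q` -/
theorem mem_Ce_of_series [Finite G] {Q Q0 : Subgroup G} (hQ : IsPGroup p Q) (hQ0 : Q0 ≤ Q) {x : G}
    (hxp : ¬ p ∣ orderOf x) (h1 : ∀ q ∈ Q, x * q * x⁻¹ * q⁻¹ ∈ Q0) (h2 : x ∈ Ce Q0) : x ∈ Ce Q := by
  rw [Subgroup.mem_centralizer_iff]
  intro q hq
  set z := x * q * x⁻¹ * q⁻¹ with hz
  have hzQ : z ∈ Q0 := h1 q hq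
  have hxz : z * x = x * z := Subgroup.mem_centralizer_iff.1 h2 z hzQ
  have h3 : ∀ n : ℕ, x ^ n * q * (x ^ n)⁻¹ = z ^ n * q := by
    intro n
    induction n with
    | zero => simp
    | succ n ih =>
      have h4 : x ^ (n + 1) * q * (x ^ (n + 1))⁻¹ = x * (x ^ n * q * (x ^ n)⁻¹) * x⁻¹ := by
        rw [pow_succ']; group
      have h5 : x * z ^ n = z ^ n * x := ((show Commute z x from hxz).pow_left n).eq.symm
      rw [h4, ih]
      have h6 : x * (z ^ n * q) * x⁻¹ = z ^ n * (x * q * x⁻¹) := by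
        rw [← mul_assoc, h5]; group
      have h7 : x * q * x⁻¹ = z * q := by rw [hz]; group
      rw [h6, h7, pow_succ]
      exact (mul_assoc (z ^ n) z q).symm
  have h4 := h3 (orderOf x)
  rw [pow_orderOf_eq_one, one_mul, inv_one, mul_one] at h4
  have h5 : z ^ orderOf x = 1 := (mul_eq_right.1 h4.symm)
  obtain ⟨k, hk⟩ := hQ ⟨z, hQ0 hzQ⟩
  have hk' : z ^ p ^ k = 1 := congrArg Subtype.val hk
  have h6 : orderOf z = 1 := Nat.eq_one_of_dvd_coprimes
    (((Nat.Prime.coprime_iff_not_dvd hp.out).2 hxp).symm.pow_right k) (orderOf_dvd_of_pow_eq_one h5)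
    (orderOf_dvd_of_pow_eq_one hk')
  rw [orderOf_eq_one_iff] at h6
  have h7 : x * q * x⁻¹ * q⁻¹ = 1 := h6
  have h8 : x * q * x⁻¹ * q⁻¹ * (q * x) = q * x := by rw [h7, one_mul]
  rw [← h8]; group

/-- a `p`-regular element commuting with a transitive `p`-group modulo the kernel fixes the points -/
theorem fix_of_orbit {K C : Subgroup G} {h : MonoidAlgebra (KM M) G} (hfixK : ∀ c ∈ C, Fix K (KG.cnj c h))
    (hKC : K ≤ C) {x : G} (hxp : ¬ p ∣ orderOf x) (hxC : ∀ c ∈ C, c⁻¹ * (x * c * x⁻¹) ∈ K)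
    (hpow : ∀ c ∈ C, ∃ j : ℕ, c ^ p ^ j ∈ K) {c : G} (hc : c ∈ C) (h1 : KG.cnj x h = KG.cnj c h) :
    KG.cnj x h = h := by
  have hK : ∀ c ∈ C, ∀ n ∈ K, KG.cnj (c * n) h = KG.cnj c h := by
    intro c hc n hn
    have := hfixK 1 (C.one_mem) n hn
    rw [cnj_one_apply] at this
    rw [cnj_mul_apply, this]
  have h2 : ∀ i : ℕ, KG.cnj (x ^ i) h = KG.cnj (c ^ i) h := by
    intro i
    induction i with
    | zero => simp
    | succ i ih =>
      rw [pow_succ', cnj_mul_apply, ih, ← cnj_mul_apply]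
      have h3 : x * c ^ i = (c ^ i * ((c ^ i)⁻¹ * (x * c ^ i * x⁻¹))) * x := by group
      rw [h3, cnj_mul_apply, h1, cnj_mul_apply]
      have h4 := hfixK c hc _ (hxC (c ^ i) (C.pow_mem hc i))
      rw [h4, ← cnj_mul_apply, pow_succ]
  have h3 := h2 (orderOf x)
  rw [pow_orderOf_eq_one, cnj_one_apply] at h3
  -- `c ^ m` fixes `h`, and a `p`-power of `c` fixes `h`
  obtain ⟨j, hj⟩ := hpow c hc
  have h4 : KG.cnj (c ^ p ^ j) h = h := by
    have := hfixK 1 C.one_mem _ hj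
    rwa [cnj_one_apply] at this
  have hst : ∀ y : G, y ∈ stb h ↔ KG.cnj y h = h := fun y => mem_stb
  have h5 : c ^ orderOf x ∈ stb h := (hst _).2 h3.symm
  have h6 : c ^ p ^ j ∈ stb h := (hst _).2 h4
  have hcop : Nat.Coprime (orderOf x) (p ^ j) := ((Nat.Prime.coprime_iff_not_dvd hp.out).2 hxp).symm.pow_right j
  have h7 : c ∈ stb h := by
    have h8 := Nat.gcd_eq_gcd_ab (orderOf x) (p ^ j)
    rw [hcop] at h8
    have h9 : c = (c ^ orderOf x) ^ (Nat.gcdA (orderOf x) (p ^ j)) * (c ^ p ^ j) ^ (Nat.gcdB (orderOf x) (p ^ j)) := by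
      rw [← zpow_natCast, ← zpow_natCast, ← zpow_mul, ← zpow_mul, ← zpow_add, ← h8]
      simp
    rw [h9]
    exact (stb h).mul_mem ((stb h).zpow_mem h5 _) ((stb h).zpow_mem h6 _)
  rw [h1]
  exact (hst _).1 h7

/-- c nilpotent implies B nilpotent -/
theorem nilp_up (hM : IsPModular p M) {N : Subgroup G} [hN : N.Normal] (hidx : ∃ m : ℕ, N.index = p ^ m)
    (hn : NilpH p N B) : Nilp p B := by
  intro Q F hbp x hx hxF hxp
  have hxN : x ∈ N := H10.BlockKer.regular_mem hp.out hidx hxp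
  set Q0 := Q ⊓ N with hQ0
  have hQ0Q : Q0 ≤ Q := inf_le_left
  have hQ0p : IsPGroup p Q0 := hbp.pg.to_le hQ0Q
  obtain ⟨f0, hf0, hle⟩ := le_exists hbp.pg hbp.be hQ0Q
  have hxQ0 : x ∈ Nm Q0 := by
    rw [mem_normalizer_iff_cs, hQ0, cs_inf, mem_normalizer_iff_cs.1 hx]
    rw [show cs x N = N from cs_normal x]
  have hxf0 : KG.cnj x f0 = f0 := by
    have h1 := hle.cnj x
    rw [mem_normalizer_iff_cs.1 hx, mem_normalizer_iff_cs.1 hxQ0, hxF] at h1
    exact le_unique hbp.pg hbp.be h1 hle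
  have hbp0 : BP p B Q0 f0 := hbp.down hle
  have hnC : Ce Q0 ≤ Nm (Ce Q0 ⊓ N) := by
    intro y hy
    rw [mem_normalizer_iff_cs, cs_inf]
    rw [show cs y N = N from cs_normal y, mem_normalizer_iff_cs.1 (Subgroup.le_normalizer hy)]
  have hidx' : ∃ m : ℕ, (Ce Q0 ⊓ N).relIndex (Ce Q0) = p ^ m := by
    obtain ⟨m, hm⟩ := hidx
    have h1 : (Ce Q0 ⊓ N).relIndex (Ce Q0) ∣ p ^ m := by
      rw [inf_comm, Subgroup.inf_relIndex_right, ← hm]
      exact Subgroup.relIndex_dvd_index_of_normal N (Ce Q0)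
    obtain ⟨j, -, hj⟩ := (Nat.dvd_prime_pow hp.out).1 h1
    exact ⟨j, hj⟩
  obtain ⟨h, hh, hne⟩ := exists_covered_rel (K := Ce Q0 ⊓ N) inf_le_left hnC hf0
  have hfh := cov_unique hM inf_le_left hnC hidx' hh hf0 hne
  have hxCe : x ∈ Nm (Ce Q0) := norm_le_norm_Ce Q0 hxQ0
  have hxK : x ∈ Nm (Ce Q0 ⊓ N) := by
    rw [mem_normalizer_iff_cs, cs_inf]
    rw [show cs x N = N from cs_normal x, mem_normalizer_iff_cs.1 hxCe]
  have h2 : f0 * KG.cnj x h ≠ 0 := by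
    have h3 : f0 * KG.cnj x h = KG.cnj x (f0 * h) := by rw [map_mul, hxf0]
    rw [h3, hfh]
    exact (hh.cnj_of_normalizes hxK).ne
  obtain ⟨c, hc, hcx⟩ := cov_conj_rel inf_le_left hnC hf0 hh (hh.cnj_of_normalizes hxK) hne h2
  have hxh : KG.cnj x h = h := by
    refine fix_of_orbit (K := Ce Q0 ⊓ N) (C := Ce Q0) ?_ inf_le_left hxp ?_ ?_ hc hcx.symm
    · intro c hc
      exact (hh.cnj_of_normalizes (hnC hc)).mem.2
    · intro c hc
      have h4 : x * c * x⁻¹ ∈ Ce Q0 := (Subgroup.mem_normalizer_iff.1 hxCe c).1 hc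
      refine ⟨Subgroup.mul_mem _ (Subgroup.inv_mem _ hc) h4, ?_⟩
      have h5 : c⁻¹ * (x * c * x⁻¹) = (c⁻¹ * x * c) * x⁻¹ := by group
      rw [h5]
      have h6 := hN.conj_mem x hxN c⁻¹
      rw [inv_inv] at h6
      exact N.mul_mem h6 (N.inv_mem hxN)
    · intro c hc
      obtain ⟨m, hm⟩ := hidx
      refine ⟨m, Subgroup.pow_mem _ hc _, ?_⟩
      rw [← hm]
      exact Subgroup.pow_index_mem N c
  have hpair : tr (Ce Q0) B * h = h := by
    rw [← hfh, ← mul_assoc, hbp0.tr]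
  have hxCQ0 : x ∈ Ce Q0 := hn Q0 inf_le_right hQ0p h hh hpair x hxN hxQ0 hxh hxp
  refine mem_Ce_of_series hbp.pg hQ0Q hxp ?_ hxCQ0
  intro q hq
  refine ⟨Q.mul_mem ((Subgroup.mem_normalizer_iff.1 hx q).1 hq) (Q.inv_mem hq), ?_⟩
  have h5 : x * q * x⁻¹ * q⁻¹ = x * (q * x⁻¹ * q⁻¹) := by group
  show x * q * x⁻¹ * q⁻¹ ∈ N
  rw [h5]
  exact N.mul_mem hxN (hN.conj_mem _ (N.inv_mem hxN) q)

end Cfsg.Agent.H25.Nilp
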