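import Mathlib
import Cfsg.Agent.H25_FR2

/-!
# Passman: every character of a covered block is covered by a character of the covering block
-/

set_option autoImplicit false
set_option linter.unusedSectionVars false
set_option linter.style.haveILetI false

namespace Cfsg.Agent.H25.Passman

open Cfsg Cfsg.Agent.H10.BlockLoc Cfsg.Agent.H10.BlockAlg Cfsg.Agent.H10.BlockIdem Cfsg.Agent.H10.BlockDefect
  Cfsg.Agent.H10.BlockInd Cfsg.Agent.H10.BlockCov
  Cfsg.Agent.H3.CharIrr Cfsg.Agent.H25.Red Cfsg.Agent.H25.KG Cfsg.Agent.H25.BPTr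
  Cfsg.Agent.H25.Cov Cfsg.Agent.H25.Cov2 Cfsg.Agent.H25.FR2
open scoped ComplexConjugate

section gen

variable {k : Type*} [Field k] {G : Type*} [Group G] [Fintype G] {N : Subgroup G} [hN : N.Normal]

theorem tr_sc {q : G ⧸ N} {a : MonoidAlgebra k G} (h : SC N q a) (hq : q ≠ 1) : tr N a = 0 := by
  apply ext_c; intro x
  by_cases hx : x ∈ N
  · rw [tr_c_of_mem _ hx]
    exact h.zero_of (fun h1 => hq (by rw [← h1]; exact (QuotientGroup.eq_one_iff x).2 hx))
  · rw [tr_c_of_notMem _ hx]; rfl

theorem tr_mul_sc {q : G ⧸ N} {x v : MonoidAlgebra k G} (hv : SC N q⁻¹ v) : tr N (x * v) = co N q x * v := by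
  classical
  haveI : Fintype (G ⧸ N) := Fintype.ofFinite _
  have h1 : x * v = ∑ r : G ⧸ N, co N r x * v := by
    rw [← Finset.sum_mul]
    congr 1
    have := sum_co N x
    refine this.symm.trans (Finset.sum_congr ?_ fun _ _ => rfl)
    ext; simp
  rw [h1, map_sum, Finset.sum_eq_single q]
  · apply tr_of_supp
    have := (sc_co N q x).mul hv
    rw [mul_inv_cancel] at this
    exact sc_one_iff.1 this
  · intro r _ hr
    apply tr_sc ((sc_co N r x).mul hv)
    intro h
    exact hr (mul_inv_eq_one.1 h)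
  · intro h; exact absurd (Finset.mem_univ _) h

theorem tr_supp_mul {T : Subgroup G} {a b : MonoidAlgebra k G} (ha : Supp T a) : tr T (a * b) = a * tr T b := by
  apply ext_c; intro x
  by_cases hx : x ∈ T
  · rw [tr_c_of_mem _ hx, mul_c, mul_c]
    refine Finset.sum_congr rfl fun y _ => ?_
    by_cases hy : a.coeff y = 0
    · rw [hy, zero_mul, zero_mul]
    · rw [tr_c_of_mem]
      exact T.mul_mem (T.inv_mem (ha y hy)) hx
  · rw [tr_c_of_notMem _ hx, eq_comm]
    by_contra h
    exact hx (ha.mul (supp_tr T b) x h)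

end gen

section main

variable {M : Ideal AlgInt} {G : Type*} [Group G] [Fintype G] {N : Subgroup G} [Fintype N]
  [hMax : M.IsMaximal]

theorem passman (hN : N.Normal) {B : Set (IrrCharacter G)} (hB : IsPBlock M B) {b : Set (IrrCharacter N)}
    (hb : IsPBlock M b) (hcov : epG M B * ep M N b ≠ 0) {θ : IrrCharacter N} (hθ : θ ∈ b) :
    ∃ χ ∈ B, classInner (fun n : N => (χ : G → ℂ) n) (θ : N → ℂ) ≠ 0 := by
  classical
  haveI := hN
  haveI : Fintype (IrrCharacter N) := Fintype.ofFinite _
  by_contra hcon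
  push Not at hcon
  have hBb := isBlk_epG hB
  have hbb := isBlk_ep hb
  have hid : (epG M B * ep M N b) * (epG M B * ep M N b) = epG M B * ep M N b := by
    have h1 : ep M N b * epG M B = epG M B * ep M N b :=
      (comm_of (hBb.mem.2) (fun _ _ => Subgroup.mem_top _)).symm
    rw [mul_assoc, ← mul_assoc (ep M N b), h1, mul_assoc, hbb.idem, ← mul_assoc, hBb.idem]
  obtain ⟨q, y, hy, hys, h⟩ := grd hbb (hBb.mem.2.mono le_top) hid hcov
  set v := ep M N b * y * ep M N b with hv
  have hvs : SC N q⁻¹ v := by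
    have h1 : SC N (1 : G ⧸ N) (ep M N b) := sc_one_iff.2 hbb.mem.1
    have := (h1.mul hys).mul h1
    rwa [one_mul, mul_one] at this
  have hvf : Fix N v := (hbb.mem.2.mul hy).mul hbb.mem.2
  have hBv : tr N (epG M B * v) = ep M N b := by
    rw [tr_mul_sc hvs]
    refine Eq.trans ?_ h
    rw [hv]; simp only [mul_assoc]
  -- lift
  choose s hs1 hs2 using fun a : KM M => rd_surj (M := M) a
  let V : MonoidAlgebra ℂ G := KG.ofF fun x => s (v.coeff x)
  have hVf : Fix N V := by
    rw [fix_iff]
    intro c hc x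
    show s (v.coeff (c * x * c⁻¹)) = s (v.coeff x)
    rw [hvf.c hc]
  let E : MonoidAlgebra ℂ G := ((eB B : ZC G) : MonoidAlgebra ℂ G)
  have hEf : Fix (⊤ : Subgroup G) E := by
    rw [fix_iff]
    intro c _ x
    exact (mem_center_iff _).1 (eB B).2 x c
  let w0 : MonoidAlgebra ℂ G := tr N (E * V)
  have hw0 : w0 ∈ KG.Z (k := ℂ) N := tr_mem_Z le_rfl ((hEf.mono le_top).mul hVf)
  let w : ZC N := ⟨ofFun fun n => w0.coeff (n : G), by
    rw [mem_center_iff]
    intro x c
    exact hw0.2.c c.2 (x : G)⟩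
  have hwc : ∀ n : N, ((w : ZC N) : MonoidAlgebra ℂ N).coeff n = (E * V).coeff (n : G) := fun n => by
    show w0.coeff (n : G) = _
    exact tr_c_of_mem _ n.2
  have hring : ∀ x, MemLocalRing M ((E * V).coeff x) := by
    intro x
    rw [mul_c]
    apply ring_sum
    intro z _
    apply ring_mul
    · show MemLocalRing M (((eB B : ZC G) : MonoidAlgebra ℂ G).coeff z)
      exact eB_mem_ZI hB z
    · exact hs1 _
  have hwI : w ∈ ZI N M := fun n => by rw [hwc]; exact hring _
  -- reduction
  have hred : ∀ x, rd M ((E * V).coeff x) = (epG M B * v).coeff x := by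
    intro x
    rw [mul_c, mul_c, rd_sum]
    · refine Finset.sum_congr rfl fun z _ => ?_
      refine (rd_mul (eB_mem_ZI hB z) (hs1 _)).trans ?_
      rw [show rd M (s (v.coeff (z⁻¹ * x))) = v.coeff (z⁻¹ * x) from hs2 _, epG_c, ← eB_coeff]
    · intro z _
      exact ring_mul (eB_mem_ZI hB z) (hs1 _)
  have hwb : ∀ n : N, MemLocalIdeal M (((w : ZC N) : MonoidAlgebra ℂ N).coeff n - blockCoeff b n) := by
    intro n
    rw [hwc, ← rd_eq_iff (hring _) (blockCoeff_mem hb n), hred]
    have h1 := congrArg (fun u => u.coeff (n : G)) hBv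
    rw [tr_c_of_mem _ n.2, ep_c, sbc_mem _ n.2] at h1
    exact h1
  -- om θ w ≡ 1
  have h1 : MemLocalIdeal M (om θ w - 1) := by
    have h2 : om θ (w - eB b) = om θ w - 1 := by rw [map_sub, om_eB, if_pos hθ]
    rw [← h2]
    apply om_ideal_of_coeff θ
    intro n
    have : ((w - eB b : ZC N) : MonoidAlgebra ℂ N).coeff n = ((w : ZC N) : MonoidAlgebra ℂ N).coeff n - blockCoeff b n := by
      rw [← eB_coeff]; rfl
    rw [this]
    exact hwb n
  -- om θ w = 0
  have h2 : om θ w = 0 := by
    -- E_θ * eB B = 0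
    have hst := orbI_stable hN θ
    have e1 : fO hN _ hst * eB B = 0 := by
      apply om_injective
      intro χ
      rw [map_mul, om_eB, map_zero]
      split_ifs with hχ
      · rw [mul_one]
        by_contra hne
        exact constituent_of_om_orb hN hne (hcon χ hχ)
      · rw [mul_zero]
    have e2 : (eB {θ} : ZC N) * eB (orbI hN θ) = eB {θ} := by
      rw [eB_mul_eB]
      congr 1
      exact Set.inter_eq_left.2 (Set.singleton_subset_iff.2 (mem_orbI_self hN θ))
    let Et : MonoidAlgebra ℂ G := H10.BlockSMT.emb N ((eB {θ} : ZC N) : MonoidAlgebra ℂ N)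
    have hEts : Supp N Et := by
      intro x hx
      by_contra hx'
      exact hx (H10.BlockSMT.emb_coeff_notMem N _ hx')
    have e3 : Et * E = 0 := by
      have e4 : Et * ((fO hN _ hst : ZC G) : MonoidAlgebra ℂ G) = Et := by
        rw [fO_coe, ← map_mul]
        congr 1
        exact congrArg (fun z : ZC N => (z : MonoidAlgebra ℂ N)) e2
      rw [← e4, mul_assoc]
      have e5 := congrArg (fun z : ZC G => (z : MonoidAlgebra ℂ G)) e1
      have e6 : ((fO hN _ hst : ZC G) : MonoidAlgebra ℂ G) * E = 0 := e5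
      rw [e6, mul_zero]
    have e7 : Et * w0 = 0 := by
      show Et * tr N (E * V) = 0
      rw [← tr_supp_mul hEts, ← mul_assoc, e3, zero_mul, map_zero]
    have e8 : H10.BlockSMT.emb N ((w : ZC N) : MonoidAlgebra ℂ N) = w0 := by
      apply ext_c; intro x
      by_cases hx : x ∈ N
      · exact (H10.BlockSMT.emb_coeff_mem N _ ⟨x, hx⟩)
      · rw [H10.BlockSMT.emb_coeff_notMem N _ hx]
        exact (tr_c_of_notMem _ hx).symm
    have e9 : (eB {θ} : ZC N) * w = 0 := by
      apply Subtype.ext
      apply ext_coeff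
      intro n
      have f1 : H10.BlockSMT.emb N (((eB {θ} * w : ZC N) : MonoidAlgebra ℂ N)) = 0 := by
        have : ((eB {θ} * w : ZC N) : MonoidAlgebra ℂ N) =
          ((eB {θ} : ZC N) : MonoidAlgebra ℂ N) * ((w : ZC N) : MonoidAlgebra ℂ N) := rfl
        rw [this, map_mul, e8]
        exact e7
      rw [← H10.BlockSMT.emb_coeff_mem N, f1]
      rfl
    have f2 := congrArg (om θ) e9
    rw [map_mul, om_eB, if_pos (Set.mem_singleton θ), one_mul, map_zero] at f2
    exact f2
  rw [h2, zero_sub] at h1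
  have := ideal_neg h1
  rw [neg_neg] at this
  exact one_notMem_ideal this

end main

end Cfsg.Agent.H25.Passman
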