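import Cfsg.Agent.H25_DefCnt
import Cfsg.Agent.H25_BlockReg2
import Cfsg.Agent.H10_BlockK

/-! Robinson's theorem: the number of blocks with a given normal defect group as a rank (S4443). -/

open scoped ComplexConjugate

namespace Cfsg.Agent.H25.Rob

open Cfsg Cfsg.Agent.H10.BlockLoc Cfsg.Agent.H10.BlockAlg Cfsg.Agent.H10.BlockIdem
  Cfsg.Agent.H10.BlockDefect Cfsg.Agent.H10.BlockSMT2 Cfsg.Agent.H10.BlockMain
  Cfsg.Agent.H10.BlockOrth Cfsg.Agent.H10.BlockK Cfsg.Agent.H10.Char
  Cfsg.Agent.H3.CharIrr Cfsg.Agent.H25.Red Cfsg.Agent.H25.DefCnt Cfsg.Agent.H25.BlockReg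

section mat

theorem rank_blocks (K : Type*) [Field K] (r s : ℕ) :
    (Matrix.fromBlocks (1 : Matrix (Fin r) (Fin r) K) 0 0 (0 : Matrix (Fin s) (Fin s) K)).rank = r := by
  classical
  have h : (Matrix.fromBlocks (1 : Matrix (Fin r) (Fin r) K) 0 0 (0 : Matrix (Fin s) (Fin s) K)) =
      Matrix.diagonal (Sum.elim (fun _ => 1) (fun _ => 0)) := by
    rw [← Matrix.fromBlocks_diagonal]
    congr 1
    exact Matrix.diagonal_zero.symm
  rw [h, Matrix.rank_diagonal]
  have e : {i : Fin r ⊕ Fin s // (Sum.elim (fun _ => (1:K)) (fun _ => 0)) i ≠ 0} ≃ Fin r :=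
    { toFun := fun i => match i with
        | ⟨Sum.inl a, _⟩ => a
        | ⟨Sum.inr a, h⟩ => absurd rfl h
      invFun := fun a => ⟨Sum.inl a, one_ne_zero⟩
      left_inv := fun i => by
        rcases i with ⟨a | a, h⟩
        · rfl
        · exact absurd rfl h
      right_inv := fun a => rfl }
  rw [Fintype.card_congr e, Fintype.card_fin]

theorem rank_map {F L : Type*} [Field F] [Field L] (f : F →+* L) {m : Type*} [Fintype m]
    (A : Matrix m m F) : (A.map f).rank = A.rank := by
  classical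
  obtain ⟨V, U, e, hV, hU, h⟩ := A.exists_rank_normal_form
  have hV' : IsUnit (V.map f) := hV.map f.mapMatrix
  have hU' : IsUnit (U.map f) := hU.map f.mapMatrix
  have h1 : V.map f * A.map f * U.map f = ((Matrix.fromBlocks
      (1 : Matrix (Fin A.rank) (Fin A.rank) L) 0 0
      (0 : Matrix (Fin (Fintype.card m - A.rank)) (Fin (Fintype.card m - A.rank)) L))).submatrix e e := by
    rw [← Matrix.map_mul, ← Matrix.map_mul, h, ← Matrix.submatrix_map, Matrix.fromBlocks_map]
    simp
  have h2 : (V.map f * A.map f * U.map f).rank = (A.map f).rank := by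
    rw [Matrix.rank_mul_eq_left_of_isUnit_det _ _ ((Matrix.isUnit_iff_isUnit_det _).1 hU'),
      Matrix.rank_mul_eq_right_of_isUnit_det _ _ ((Matrix.isUnit_iff_isUnit_det _).1 hV')]
  rw [← h2, h1, Matrix.rank_submatrix, rank_blocks]

/-- rank from a two-sided sandwich -/
theorem rank_sandwich {K : Type*} [Field K] {ι β : Type*} [Fintype ι] [Fintype β] [DecidableEq β]
    (N : Matrix ι ι K) (W W' : Matrix β ι K) (V V' : Matrix ι β K) (γ : β → K) (c : K) (hc : c ≠ 0)
    (hγ : ∀ b, γ b ≠ 0) (h : c • N = W'.transpose * Matrix.diagonal γ * W) (hV : W * V = 1)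
    (hV' : W' * V' = 1) : N.rank = Fintype.card β := by
  classical
  have hr : (c • N).rank = N.rank := by
    have h1 : c • N = N * (c • (1 : Matrix ι ι K)) := by rw [Matrix.mul_smul, Matrix.mul_one]
    have h2 : N = (c • N) * (c⁻¹ • (1 : Matrix ι ι K)) := by
      rw [Matrix.mul_smul, Matrix.mul_one, smul_smul, inv_mul_cancel₀ hc, one_smul]
    apply le_antisymm
    · rw [h1]; exact Matrix.rank_mul_le_left _ _
    · conv_lhs => rw [h2]
      exact Matrix.rank_mul_le_left _ _
  rw [← hr]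
  apply le_antisymm
  · rw [h]
    exact (Matrix.rank_mul_le_right _ _).trans (Matrix.rank_le_card_height _)
  · have h3 : V'.transpose * (c • N) * V = Matrix.diagonal γ := by
      rw [h]
      have h4 : V'.transpose * W'.transpose = 1 := by rw [← Matrix.transpose_mul, hV', Matrix.transpose_one]
      calc V'.transpose * (W'.transpose * Matrix.diagonal γ * W) * V
          = (V'.transpose * W'.transpose) * Matrix.diagonal γ * (W * V) := by
            simp only [Matrix.mul_assoc]
        _ = Matrix.diagonal γ := by rw [h4, hV, Matrix.one_mul, Matrix.mul_one]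
    have h5 : (Matrix.diagonal γ).rank = Fintype.card β := by
      rw [Matrix.rank_diagonal]
      exact Fintype.card_congr (Equiv.subtypeUnivEquiv fun b => hγ b)
    rw [← h5, ← h3]
    exact (Matrix.rank_mul_le_left _ _).trans (Matrix.rank_mul_le_right _ _)

end mat

variable {p : ℕ} {M : Ideal AlgInt} {G : Type*} [Group G] [Fintype G] [hp : Fact p.Prime]

/-- `p`-regular class whose centralizers have Sylow subgroup `D` -/
def Cl (p : ℕ) (D : Subgroup G) (C : ConjClasses G) : Prop :=
  ¬ p ∣ orderOf (rep C) ∧ IsCSyl p (rep C) D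

theorem conj_normal {D : Subgroup G} [hD : D.Normal] (x : G) :
    D.map (MulAut.conj x).toMonoidHom = D := by
  ext y
  rw [mem_conj_map]
  constructor
  · intro h
    have := hD.conj_mem _ h x
    rwa [show x * (x⁻¹ * y * x) * x⁻¹ = y by group] at this
  · intro h
    have := hD.conj_mem _ h x⁻¹
    rwa [inv_inv] at this

theorem isCSyl_conj {D : Subgroup G} [hD : D.Normal] {g g' : G} (hc : IsConj g g')
    (h : IsCSyl p g D) : IsCSyl p g' D := by
  obtain ⟨x, _, hx⟩ := IsCSyl.of_isConj hc h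
  rwa [conj_normal] at hx

theorem orderOf_conj'' {g h : G} (hc : IsConj g h) : orderOf g = orderOf h := by
  obtain ⟨c, hc⟩ := isConj_iff.1 hc
  rw [← hc]
  exact (MulEquiv.orderOf_eq (MulAut.conj c) g).symm

theorem Cl_iff {D : Subgroup G} [hD : D.Normal] (C : ConjClasses G) :
    Cl p D C ↔ ∃ x ∈ C.carrier, ¬ p ∣ orderOf x ∧ ∃ Q : Sylow p (Subgroup.centralizer ({x} : Set G)),
      (Q : Subgroup (Subgroup.centralizer ({x} : Set G))).map
        (Subgroup.centralizer ({x} : Set G)).subtype = D := by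
  constructor
  · rintro ⟨h1, Q, hQ⟩
    exact ⟨rep C, by rw [ConjClasses.mem_carrier_iff_mk_eq, mk_rep], h1, Q, hQ.symm⟩
  · rintro ⟨x, hx, h1, Q, hQ⟩
    rw [ConjClasses.mem_carrier_iff_mk_eq] at hx
    have hc : IsConj x (rep C) := by rw [← hx]; exact (isConj_rep x).symm
    refine ⟨by rwa [← orderOf_conj'' hc], isCSyl_conj hc ⟨Q, hQ.symm⟩⟩

theorem Cl.fact {D : Subgroup G} {C : ConjClasses G} (h : Cl p D C) {d : ℕ} (hd : Nat.card D = p ^ d) :
    (Nat.card (Subgroup.centralizer ({rep C} : Set G))).factorization p = d := by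
  have h1 := h.2.card
  rw [hd] at h1
  exact (Nat.pow_right_injective hp.out.two_le h1).symm

theorem defect_ge (hM : IsPModular p M) {D : Subgroup G} [D.Normal] (hD : IsPGroup p D)
    {B : Set (IrrCharacter G)} (hB : IsPBlock M B) {d : ℕ} (hd : Nat.card D = p ^ d) :
    d ≤ blockDefect p B := by
  haveI := hM.2.1
  obtain ⟨E, hE⟩ := exists_defectGroup (p := p) hB
  have h1 := normal_le_defectGroup hM hB hE D hD
  have h2 := Subgroup.card_le_of_le h1
  rw [hd, card_defectGroup hM hB hE] at h2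
  exact (Nat.pow_le_pow_iff_right hp.out.one_lt).1 h2

theorem defect_iff (hM : IsPModular p M) {D : Subgroup G} [D.Normal] (hD : IsPGroup p D)
    {B : Set (IrrCharacter G)} (hB : IsPBlock M B) {d : ℕ} (hd : Nat.card D = p ^ d) :
    IsDefectGroup p M B D ↔ blockDefect p B = d := by
  haveI := hM.2.1
  constructor
  · intro h
    have h1 := card_defectGroup hM hB h
    rw [hd] at h1
    exact (Nat.pow_right_injective hp.out.two_le h1).symm
  · intro h
    obtain ⟨E, hE⟩ := exists_defectGroup (p := p) hB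
    have h1 := normal_le_defectGroup hM hB hE D hD
    have h2 : D = E := eq_of_le_card h1 (by rw [card_defectGroup hM hB hE, h, hd])
    rw [h2]; exact hE

open Classical in
theorem key' (hM : IsPModular p M) [Fintype (ConjClasses G)] {D : Subgroup G} [D.Normal]
    (hD : IsPGroup p D) {B B' : Set (IrrCharacter G)}
    (hB : IsPBlock M B) (hB' : IsPBlock M B') (hBD : IsDefectGroup p M B D)
    (hBD' : IsDefectGroup p M B' D) {ψ : IrrCharacter G} (hψ : ψ ∈ B') :
    MemLocalIdeal M ((if ψ ∈ B then 1 else 0) - ∑ C : ConjClasses G,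
      if Cl p D C then blockCoeff B (rep C) * om ψ (cs (rep C)) else 0) := by
  haveI := hM.2.1
  obtain ⟨d, hd⟩ := IsPGroup.iff_card.1 hD
  have h1 := key hM hB hB' ((defect_iff hM hD hB hd).1 hBD) ((defect_iff hM hD hB' hd).1 hBD') hψ
  have h2 : MemLocalIdeal M ((∑ C : ConjClasses G,
      if RC p d C then blockCoeff B (rep C) * om ψ (cs (rep C)) else 0) - ∑ C : ConjClasses G,
      if Cl p D C then blockCoeff B (rep C) * om ψ (cs (rep C)) else 0) := by
    rw [← Finset.sum_sub_distrib]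
    refine ideal_sum _ _ fun C _ => ?_
    by_cases hC : Cl p D C
    · rw [if_pos hC, if_pos ⟨hC.1, hC.fact hd⟩, sub_self]; exact ideal_zero
    · rw [if_neg hC, sub_zero]
      split_ifs with hR
      · refine ideal_mul_left (blockCoeff_mem hB _) ?_
        by_contra hg
        obtain ⟨h', hc, hh⟩ := defect_centralizes hM hB' hBD' hψ hg
        apply hC
        refine ⟨hR.1, isCSyl_conj (g := h') hc.symm ?_⟩
        obtain ⟨E, hE, hle⟩ := exists_isCSyl_of_le hD hh
        obtain ⟨x, _, hx⟩ := hE.of_isConj hc.symm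
        have h3 := hx.card
        rw [card_conj_map, hR.2, ← hd] at h3
        rw [eq_of_le_card hle h3.le]
        exact hE
      · exact ideal_zero
  have h3 := ideal_add h1 h2
  convert h3 using 1
  ring

open Classical in
theorem count_eq (C C' : ConjClasses G) (S : Subgroup G) [Fintype S] [Fintype (IrrCharacter G)]
    (m : IrrCharacter G → ℕ)
    (hm : ∀ χ : IrrCharacter G, ∑ u : S, (χ : G → ℂ) u = (Nat.card S : ℂ) * m χ) :
    ((Nat.card {yz : G × G // yz.1 ∈ C.carrier ∧ yz.2 ∈ C'.carrier ∧ yz.2 * yz.1⁻¹ ∈ S} : ℕ) : ℂ) =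
      ∑ χ : IrrCharacter G, om χ (cs (rep C')) * om χ (cs (rep C)⁻¹) *
        ((Nat.card G : ℂ)⁻¹ * ((χ : G → ℂ) 1 * (Nat.card S * m χ))) := by
  have h1 : ((Nat.card {yz : G × G // yz.1 ∈ C.carrier ∧ yz.2 ∈ C'.carrier ∧ yz.2 * yz.1⁻¹ ∈ S} : ℕ) : ℂ) =
      ∑ u : S, ((cs (rep C') * cs (rep C)⁻¹ : ZC G) : MonoidAlgebra ℂ G).coeff u := by
    have hS : ∀ F : G → ℂ, ∑ u : S, F u = ∑ u : G, if u ∈ S then F u else 0 := by
      intro F
      rw [← Finset.sum_filter]
      exact (Finset.sum_subtype _ (by simp) _).symm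
    rw [hS, Nat.card_eq_fintype_card, Fintype.card_subtype, Finset.card_eq_sum_ones, Nat.cast_sum,
      Finset.sum_filter, Fintype.sum_prod_type, Finset.sum_comm]
    have h2 : ∀ u : G, (if u ∈ S then ((cs (rep C') * cs (rep C)⁻¹ : ZC G) : MonoidAlgebra ℂ G).coeff u
        else 0) = ∑ x : G, if u ∈ S then (if IsConj (rep C') x then (1:ℂ) else 0) *
          (if IsConj (rep C)⁻¹ (x⁻¹ * u) then 1 else 0) else 0 := by
      intro u
      split_ifs with hu
      · rw [Subalgebra.coe_mul, coeff_mul_left]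
        exact Finset.sum_congr rfl fun x _ => by rw [cs_coeff, cs_coeff]
      · simp
    rw [Finset.sum_congr rfl fun u _ => h2 u]
    conv_rhs => rw [Finset.sum_comm]
    refine Finset.sum_congr rfl fun x _ => ?_
    refine Fintype.sum_equiv ((Equiv.inv G).trans (Equiv.mulLeft x)) _ _ fun y => ?_
    show (if y ∈ C.carrier ∧ x ∈ C'.carrier ∧ x * y⁻¹ ∈ S then ((1 : ℕ) : ℂ) else 0) =
      if x * y⁻¹ ∈ S then (if IsConj (rep C') x then (1:ℂ) else 0) *
          (if IsConj (rep C)⁻¹ (x⁻¹ * (x * y⁻¹)) then 1 else 0) else 0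
    have e1 : IsConj (rep C') x ↔ x ∈ C'.carrier := by
      rw [ConjClasses.mem_carrier_iff_mk_eq, ← ConjClasses.mk_eq_mk_iff_isConj, mk_rep]
      exact eq_comm
    have e2 : IsConj (rep C)⁻¹ (x⁻¹ * (x * y⁻¹)) ↔ y ∈ C.carrier := by
      rw [inv_mul_cancel_left, ConjClasses.mem_carrier_iff_mk_eq]
      have e3 : IsConj (rep C)⁻¹ y⁻¹ ↔ IsConj (rep C) y := by
        simp only [isConj_iff]
        constructor
        · rintro ⟨c, hc⟩
          refine ⟨c, ?_⟩
          rw [← inv_inj, ← hc]; group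
        · rintro ⟨c, hc⟩
          refine ⟨c, ?_⟩
          rw [← hc]; group
      rw [e3, ← ConjClasses.mk_eq_mk_iff_isConj, mk_rep]
      exact eq_comm
    simp only [e1, e2]
    by_cases a1 : y ∈ C.carrier <;> by_cases a2 : x ∈ C'.carrier <;> by_cases a3 : x * y⁻¹ ∈ S <;>
      simp [a1, a2, a3]
  rw [h1]
  have h2 : ∀ u : S, ((cs (rep C') * cs (rep C)⁻¹ : ZC G) : MonoidAlgebra ℂ G).coeff u =
      ∑ χ : IrrCharacter G, om χ (cs (rep C') * cs (rep C)⁻¹) *
      ((Nat.card G : ℂ)⁻¹ * ((χ : G → ℂ) 1 * conj ((χ : G → ℂ) u))) :=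
    fun u => coeff_eq_sum _ (u : G)
  rw [Finset.sum_congr rfl (fun u _ => h2 u), Finset.sum_comm]
  refine Finset.sum_congr rfl fun χ _ => ?_
  rw [← Finset.mul_sum, ← Finset.mul_sum, ← Finset.mul_sum, ← map_sum, hm χ, map_mul]
  simp only [map_mul, map_natCast, Complex.conj_natCast]

theorem rd_nat [M.IsMaximal] (n : ℕ) : rd M (n : ℂ) = (n : KM M) := by
  rw [rd_of (ring_natCast n)]
  have : (⟨(n : ℂ), ring_natCast n⟩ : locRing M) = ((n : ℕ) : locRing M) := Subtype.ext (by simp)
  rw [this, map_natCast]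

section main
variable (hM : IsPModular p M) {D : Subgroup G} [D.Normal] (hD : IsPGroup p D) {d : ℕ}
  (hd : Nat.card D = p ^ d) (S : Sylow p G) [Fintype S] [Fintype (IrrCharacter G)]
  (m : IrrCharacter G → ℕ) (hm : ∀ χ : IrrCharacter G, ∑ u : S, (χ : G → ℂ) u = (Nat.card S : ℂ) * m χ)

theorem card_eq_mul : Nat.card G = p ^ (Nat.card G).factorization p *
    (Nat.card G / p ^ (Nat.card G).factorization p) :=
  (Nat.mul_div_cancel' (Nat.ordProj_dvd _ _)).symm

theorem not_dvd_part : ¬ p ∣ Nat.card G / p ^ (Nat.card G).factorization p :=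
  Nat.not_dvd_ordCompl hp.out Nat.card_pos.ne'

include hd in
theorem index_dvd {C : ConjClasses G} (hC : Cl p D C) :
    p ^ ((Nat.card G).factorization p - d) ∣ (Subgroup.centralizer ({rep C} : Set G)).index := by
  have h1 := Subgroup.card_mul_index (Subgroup.centralizer ({rep C} : Set G))
  have h2 : (Nat.card G).factorization p = d + (Subgroup.centralizer ({rep C} : Set G)).index.factorization p := by
    rw [← h1, Nat.factorization_mul Nat.card_pos.ne' Subgroup.index_ne_zero_of_finite, Finsupp.add_apply,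
      hC.fact hd]
  rw [hp.out.pow_dvd_iff_le_factorization Subgroup.index_ne_zero_of_finite]
  omega

include hd hm in
open Classical in
theorem formula {C C' : ConjClasses G} (hC : Cl p D C) :
    ((Nat.card {yz : G × G // yz.1 ∈ C.carrier ∧ yz.2 ∈ C'.carrier ∧
      yz.2 * yz.1⁻¹ ∈ (S : Subgroup G)} : ℕ) : ℂ) *
      ((Nat.card G / p ^ (Nat.card G).factorization p : ℕ) : ℂ) =
    ((p ^ ((Nat.card G).factorization p - d) : ℕ) : ℂ) * ∑ χ : IrrCharacter G, om χ (cs (rep C')) *
      (((Subgroup.centralizer ({rep C} : Set G)).index / p ^ ((Nat.card G).factorization p - d) : ℕ) *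
        (χ : G → ℂ) (rep C)⁻¹) * (m χ : ℂ) := by
  rw [count_eq C C' (S : Subgroup G) m hm, Finset.sum_mul, Finset.mul_sum]
  refine Finset.sum_congr rfl fun χ _ => ?_
  obtain ⟨κ, hκ⟩ := index_dvd hd hC
  have hq : 0 < p ^ ((Nat.card G).factorization p - d) := pow_pos hp.out.pos _
  have h0 : (χ : G → ℂ) 1 ≠ 0 := IsIrr.one_ne_zero χ.2
  have h1 : om χ (cs (rep C)⁻¹) = ((p ^ ((Nat.card G).factorization p - d) : ℕ) : ℂ) * κ *
      (χ : G → ℂ) (rep C)⁻¹ / (χ : G → ℂ) 1 := by
    rw [om_cs, centralChar]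
    have : Subgroup.centralizer ({(rep C)⁻¹} : Set G) = Subgroup.centralizer ({rep C} : Set G) := by
      ext x
      rw [Subgroup.mem_centralizer_singleton_iff, Subgroup.mem_centralizer_singleton_iff]
      exact ⟨fun h => (Commute.inv_right_iff (a := x) (b := rep C)).1 h,
        fun h => (Commute.inv_right_iff (a := x) (b := rep C)).2 h⟩
    rw [this, hκ]; push_cast; ring
  have hS : Nat.card S = p ^ (Nat.card G).factorization p := S.card_eq_multiplicity
  have hG : (Nat.card G : ℂ) = (p ^ (Nat.card G).factorization p : ℕ) *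
      (Nat.card G / p ^ (Nat.card G).factorization p : ℕ) := by
    exact_mod_cast card_eq_mul
  rw [h1, hκ, Nat.mul_div_cancel_left _ hq, hG]
  have h2 : ((p ^ (Nat.card G).factorization p : ℕ) : ℂ) ≠ 0 := by
    exact_mod_cast (pow_pos hp.out.pos _).ne'
  have h3 : ((Nat.card G / p ^ (Nat.card G).factorization p : ℕ) : ℂ) ≠ 0 := by
    intro h
    have h4 : Nat.card G / p ^ (Nat.card G).factorization p = 0 := by exact_mod_cast h
    exact not_dvd_part (p := p) (G := G) (by rw [h4]; exact dvd_zero _)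
  have hS' : ((Nat.card ((S : Sylow p G) : Subgroup G) : ℕ) : ℂ) = ((p ^ (Nat.card G).factorization p : ℕ) : ℂ) := by
    exact_mod_cast hS
  rw [hS']
  field_simp

theorem A_ring [M.IsMaximal] (C C' : ConjClasses G) (χ : IrrCharacter G) (k : ℕ) :
    MemLocalRing M (om χ (cs (rep C')) * ((k : ℂ) * (χ : G → ℂ) (rep C)⁻¹) * (m χ : ℂ)) :=
  ring_mul (ring_mul (om_cs_mem χ _) (ring_mul (ring_natCast _) (char_mem_ring χ _))) (ring_natCast _)

include hM hd hm in
open Classical in
theorem dvd_count {C C' : ConjClasses G} (hC : Cl p D C) :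
    p ^ ((Nat.card G).factorization p - d) ∣
    Nat.card {yz : G × G // yz.1 ∈ C.carrier ∧ yz.2 ∈ C'.carrier ∧
      yz.2 * yz.1⁻¹ ∈ (S : Subgroup G)} := by
  haveI := hM.2.1
  set n := Nat.card {yz : G × G // yz.1 ∈ C.carrier ∧ yz.2 ∈ C'.carrier ∧
      yz.2 * yz.1⁻¹ ∈ (S : Subgroup G)} with hn
  by_cases h0 : n = 0
  · rw [h0]; exact dvd_zero _
  have h1 := formula hd S m hm (C' := C') hC
  rw [← hn] at h1
  have hq : p ^ ((Nat.card G).factorization p - d) ≠ 0 := (pow_pos hp.out.pos _).ne'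
  have hq' : ((p ^ ((Nat.card G).factorization p - d) : ℕ) : ℂ) ≠ 0 := by exact_mod_cast hq
  have hm0 : Nat.card G / p ^ (Nat.card G).factorization p ≠ 0 := by
    intro h
    exact not_dvd_part (p := p) (G := G) (by rw [h]; exact dvd_zero _)
  have h2 : MemLocalRing M (((n * (Nat.card G / p ^ (Nat.card G).factorization p) : ℕ) : ℂ) /
      (p ^ ((Nat.card G).factorization p - d) : ℕ)) := by
    rw [Nat.cast_mul, h1, mul_div_cancel_left₀ _ hq']
    exact ring_sum _ _ fun χ _ => A_ring m C C' χ _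
  rw [ring_nat_div_iff hM (mul_ne_zero h0 hm0) hq, Nat.factorization_mul h0 hm0, Finsupp.add_apply,
    Nat.factorization_eq_zero_of_not_dvd (not_dvd_part (p := p) (G := G)), add_zero] at h2
  exact (Nat.factorization_le_iff_dvd hq h0).1 (by
    intro r
    by_cases hr : r = p
    · rw [hr]; exact h2
    · rw [hp.out.factorization_pow, Finsupp.single_apply, if_neg (Ne.symm hr)]; exact Nat.zero_le _)

/-- the set of blocks with defect group `D` -/
abbrev Bl (p : ℕ) (M : Ideal AlgInt) (D : Subgroup G) : Type _ :=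
  {B : Set (IrrCharacter G) // IsPBlock M B ∧ IsDefectGroup p M B D}

open Classical in
/-- the diagonal entries -/
noncomputable def gam (p : ℕ) (M : Ideal AlgInt) (D : Subgroup G) (d : ℕ) (m : IrrCharacter G → ℕ)
    (B : Bl p M D) : ℕ :=
  ∑ χ : IrrCharacter G, if χ ∈ B.1 then
    charDegree (χ : G → ℂ) / p ^ ((Nat.card G).factorization p - d) * m χ else 0

include hM hD hd in
theorem mB_Bl (B : Bl p M D) : mB p B.1 = (Nat.card G).factorization p - d := by
  have h1 := (defect_iff hM hD B.2.1 hd).1 B.2.2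
  obtain ⟨χ, hχ⟩ := (haveI := hM.2.1; block_nonempty B.2.1)
  have := mB_add (p := p) hχ
  omega

include hM hD hd in
theorem deg_dvd (B : Bl p M D) {χ : IrrCharacter G} (hχ : χ ∈ B.1) :
    p ^ ((Nat.card G).factorization p - d) ∣ charDegree (χ : G → ℂ) := by
  rw [hp.out.pow_dvd_iff_le_factorization (charDegree_pos χ.2).ne', ← mB_Bl hM hD hd B]
  exact mB_le hχ

include hM hD hd hm in
theorem gam_unit (B : Bl p M D) : ¬ p ∣ gam p M D d m B := by
  classical
  haveI := hM.2.1
  have hq : p ^ ((Nat.card G).factorization p - d) ≠ 0 := (pow_pos hp.out.pos _).ne'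
  have h1 : p ^ ((Nat.card G).factorization p - d) * (p ^ (Nat.card G).factorization p *
      gam p M D d m B) = ∑ᶠ χ ∈ B.1, charDegree (χ : G → ℂ) ^ 2 := by
    rw [finsum_mem_irr]
    have h2 : ((p ^ ((Nat.card G).factorization p - d) * (p ^ (Nat.card G).factorization p *
        gam p M D d m B) : ℕ) : ℂ) = ∑ u : S, ∑ χ : IrrCharacter G,
          (if χ ∈ B.1 then (χ : G → ℂ) u * (χ : G → ℂ) 1 else 0) := by
      rw [Finset.sum_comm, gam, Finset.mul_sum, Finset.mul_sum, Nat.cast_sum]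
      refine Finset.sum_congr rfl fun χ _ => ?_
      split_ifs with hχ
      · obtain ⟨k, hk⟩ := deg_dvd hM hD hd B hχ
        have hS : ((Nat.card S : ℕ) : ℂ) = ((p ^ (Nat.card G).factorization p : ℕ) : ℂ) := by
          exact_mod_cast S.card_eq_multiplicity
        rw [← Finset.sum_mul, hm χ, hS, ← charDegree_eq χ.2, hk, Nat.mul_div_cancel_left _ (Nat.pos_of_ne_zero hq)]
        push_cast; ring
      · simp
    have h3 : ∑ u : S, ∑ χ : IrrCharacter G,
          (if χ ∈ B.1 then (χ : G → ℂ) u * (χ : G → ℂ) 1 else 0) =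
        ∑ χ : IrrCharacter G, (if χ ∈ B.1 then (χ : G → ℂ) 1 * (χ : G → ℂ) 1 else 0) := by
      rw [Finset.sum_eq_single (1 : (S : Subgroup G))]
      · rfl
      · intro u _ hu
        refine weak_orth' hM B.2.1 1 u ?_ ?_
        · rw [orderOf_one]; exact hp.out.one_lt.ne' ∘ Nat.dvd_one.1
        · obtain ⟨k, hk⟩ := (IsPGroup.iff_orderOf.1 S.isPGroup') u
          rw [← Subgroup.orderOf_coe] at hk
          rw [hk]
          refine dvd_pow_self p fun hk0 => hu ?_
          rw [hk0, pow_zero, orderOf_eq_one_iff] at hk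
          exact Subtype.ext hk
      · intro h; exact absurd (Finset.mem_univ _) h
    rw [h3] at h2
    have h4 : ∑ χ : IrrCharacter G, (if χ ∈ B.1 then (χ : G → ℂ) 1 * (χ : G → ℂ) 1 else 0) =
        ((∑ χ : IrrCharacter G, if χ ∈ B.1 then charDegree (χ : G → ℂ) ^ 2 else 0 : ℕ) : ℂ) := by
      rw [Nat.cast_sum]
      refine Finset.sum_congr rfl fun χ _ => ?_
      split_ifs
      · rw [← charDegree_eq χ.2]; push_cast; ring
      · simp
    rw [h4] at h2
    exact_mod_cast h2
  have h5 := BlockReg2.block_dim hM B.2.1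
  rw [← h1] at h5
  have hg0 : gam p M D d m B ≠ 0 := by
    intro h0
    rw [h0, mul_zero, mul_zero] at h1
    obtain ⟨χ, hχ⟩ := block_nonempty B.2.1
    rw [finsum_mem_irr] at h1
    have := (Finset.sum_eq_zero_iff.1 h1.symm) χ (Finset.mem_univ _)
    rw [if_pos hχ] at this
    exact (pow_pos (charDegree_pos χ.2) 2).ne' this
  rw [Nat.factorization_mul hq (mul_ne_zero (pow_pos hp.out.pos _).ne' hg0),
    Nat.factorization_mul (pow_pos hp.out.pos _).ne' hg0, Finsupp.add_apply, Finsupp.add_apply,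
    hp.out.factorization_pow, hp.out.factorization_pow, Finsupp.single_eq_same, Finsupp.single_eq_same,
    mB_Bl hM hD hd B] at h5
  intro h
  have := (hp.out.dvd_iff_one_le_factorization hg0).1 h
  omega

include hM hD hd in
open Classical in
/-- the reduction of the formula -/
theorem rd_term [M.IsMaximal] [Fintype (Bl p M D)] (ψ : Bl p M D → IrrCharacter G)
    (hψ : ∀ B, ψ B ∈ B.1) {C C' : ConjClasses G} (hC : Cl p D C) (hC' : Cl p D C')
    (χ : IrrCharacter G) :
    rd M (om χ (cs (rep C')) *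
      (((Subgroup.centralizer ({rep C} : Set G)).index / p ^ ((Nat.card G).factorization p - d) : ℕ) *
        (χ : G → ℂ) (rep C)⁻¹) * (m χ : ℂ)) =
    ∑ B : Bl p M D, if χ ∈ B.1 then rd M (om (ψ B) (cs (rep C)⁻¹)) *
      ((charDegree (χ : G → ℂ) / p ^ ((Nat.card G).factorization p - d) * m χ : ℕ) : KM M) *
        rd M (om (ψ B) (cs (rep C'))) else 0 := by
  have hq : p ^ ((Nat.card G).factorization p - d) ≠ 0 := (pow_pos hp.out.pos _).ne'
  have hBχ := isPBlock_blockOf (M := M) χ
  have hrd : ∀ (B : Set (IrrCharacter G)), IsPBlock M B → χ ∈ B → ∀ φ ∈ B, ∀ g : G,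
      rd M (om χ (cs g)) = rd M (om φ (cs g)) := by
    intro B hB hχ φ hφ g
    rw [rd_eq_iff (om_cs_mem χ _) (om_cs_mem φ _)]
    exact (sameBlock_iff_om χ φ).1 (block_sameBlock hB hχ hφ) g
  by_cases hdef : blockDefect p (blockOf M (χ : G → ℂ)) = d
  · have hB0 := (defect_iff hM hD hBχ hd).2 hdef
    rw [Finset.sum_eq_single (⟨blockOf M (χ : G → ℂ), hBχ, hB0⟩ : Bl p M D)]
    · rw [if_pos (mem_blockOf_self χ)]
      obtain ⟨k, hk⟩ := deg_dvd hM hD hd (⟨blockOf M (χ : G → ℂ), hBχ, hB0⟩ : Bl p M D) (mem_blockOf_self χ)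
      obtain ⟨κ, hκ⟩ := index_dvd hd hC
      have e1 : ((κ : ℂ) * (χ : G → ℂ) (rep C)⁻¹) = om χ (cs (rep C)⁻¹) * (k : ℂ) := by
        rw [om_cs, centralChar]
        have : Subgroup.centralizer ({(rep C)⁻¹} : Set G) = Subgroup.centralizer ({rep C} : Set G) := by
          ext x
          rw [Subgroup.mem_centralizer_singleton_iff, Subgroup.mem_centralizer_singleton_iff]
          exact ⟨fun h => (Commute.inv_right_iff (a := x) (b := rep C)).1 h,
            fun h => (Commute.inv_right_iff (a := x) (b := rep C)).2 h⟩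
        rw [this, hκ, ← charDegree_eq χ.2, hk]
        have h1 : (k : ℂ) ≠ 0 := by
          intro h
          have h' : k = 0 := by exact_mod_cast h
          rw [h', mul_zero] at hk
          exact (charDegree_pos χ.2).ne' hk
        have h2 : ((p ^ ((Nat.card G).factorization p - d) : ℕ) : ℂ) ≠ 0 := by exact_mod_cast hq
        push_cast at h2 ⊢
        field_simp
      rw [hκ, Nat.mul_div_cancel_left _ (Nat.pos_of_ne_zero hq), e1, hk,
        Nat.mul_div_cancel_left _ (Nat.pos_of_ne_zero hq),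
        rd_mul (ring_mul (om_cs_mem χ _) (ring_mul (om_cs_mem χ _) (ring_natCast _))) (ring_natCast _),
        rd_mul (om_cs_mem χ _) (ring_mul (om_cs_mem χ _) (ring_natCast _)),
        rd_mul (om_cs_mem χ _) (ring_natCast _), rd_nat, rd_nat,
        hrd _ hBχ (mem_blockOf_self χ) _ (hψ ⟨blockOf M (χ : G → ℂ), hBχ, hB0⟩) (rep C'),
        hrd _ hBχ (mem_blockOf_self χ) _ (hψ ⟨blockOf M (χ : G → ℂ), hBχ, hB0⟩) (rep C)⁻¹]
      push_cast
      ring
    · intro B _ hne
      rw [if_neg]
      intro h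
      exact hne (Subtype.ext (block_eq_of_mem B.2.1 hBχ h (mem_blockOf_self χ)))
    · intro h; exact absurd (Finset.mem_univ _) h
  · have hgt : (Nat.card (Subgroup.centralizer ({rep C'} : Set G))).factorization p <
        blockDefect p (blockOf M (χ : G → ℂ)) := by
      rw [hC'.fact hd]
      exact lt_of_le_of_ne (defect_ge hM hD hBχ hd) (Ne.symm hdef)
    have h1 := om_small hM hBχ hgt (mem_blockOf_self χ)
    rw [Finset.sum_eq_zero]
    · rw [rd_eq_zero_iff (A_ring m C C' χ _), mul_assoc]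
      exact ideal_mul_right h1 (ring_mul (ring_mul (ring_natCast _) (char_mem_ring χ _)) (ring_natCast _))
    · intro B _
      rw [if_neg]
      intro h
      have h2 := (defect_iff hM hD B.2.1 hd).1 B.2.2
      rw [block_eq_of_mem B.2.1 hBχ h (mem_blockOf_self χ)] at h2
      exact hdef h2

end main

open Classical in
theorem main (hM : IsPModular p M) (D : Subgroup G) [D.Normal] (hD : IsPGroup p D) (S : Sylow p G)
    {ι : Type*} [Fintype ι] (K : ι → ConjClasses G)
    (hKinj : Function.Injective K)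
    (hK : ∀ C : ConjClasses G, (∃ i, K i = C) ↔ ∃ x ∈ C.carrier, ¬ p ∣ orderOf x ∧
      ∃ Q : Sylow p (Subgroup.centralizer ({x} : Set G)),
        (Q : Subgroup (Subgroup.centralizer ({x} : Set G))).map
          (Subgroup.centralizer ({x} : Set G)).subtype = D) :
    Nat.card {B : Set (IrrCharacter G) // IsPBlock M B ∧ IsDefectGroup p M B D} =
    (Matrix.of fun i j : ι => ((Nat.card {yz : G × G // yz.1 ∈ (K i).carrier ∧ yz.2 ∈ (K j).carrier ∧
      yz.2 * yz.1⁻¹ ∈ (S : Subgroup G)} /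
        p ^ ((Nat.card G).factorization p - (Nat.card D).factorization p) : ℕ) : ZMod p)).rank := by
  haveI := hM.2.1
  haveI := charP_KM M hM
  haveI : Fintype (ConjClasses G) := Fintype.ofFinite _
  haveI : Fintype (IrrCharacter G) := Fintype.ofFinite _
  haveI : Fintype (Bl p M D) := Fintype.ofFinite _
  haveI : Fintype S := Fintype.ofFinite _
  obtain ⟨d, hd⟩ := IsPGroup.iff_card.1 hD
  have hd' : (Nat.card D).factorization p = d := by
    rw [hd, hp.out.factorization_pow, Finsupp.single_eq_same]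
  have hm1 : ∀ χ : IrrCharacter G, ∃ m : ℕ, ∑ u : S, (χ : G → ℂ) u = (Nat.card S : ℂ) * m :=
    fun χ => sum_char_subgroup (isChar_of_irr χ.2) (S : Subgroup G)
  choose m hm using hm1
  have hne : ∀ B : Bl p M D, ∃ ψ, ψ ∈ B.1 := fun B => block_nonempty B.2.1
  choose ψ hψ using hne
  have hCl : ∀ C, (∃ i, K i = C) ↔ Cl p D C := fun C => (hK C).trans (Cl_iff C).symm
  have hKi : ∀ i, Cl p D (K i) := fun i => (hCl _).1 ⟨i, rfl⟩
  rw [hd', ← rank_map (ZMod.castHom (dvd_refl p) (KM M)), Nat.card_eq_fintype_card]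
  symm
  set q := p ^ ((Nat.card G).factorization p - d) with hq
  set N : Matrix ι ι (KM M) := ((Matrix.of fun i j : ι => ((Nat.card {yz : G × G // yz.1 ∈ (K i).carrier ∧
      yz.2 ∈ (K j).carrier ∧ yz.2 * yz.1⁻¹ ∈ (S : Subgroup G)} / q : ℕ) : ZMod p)).map
      (ZMod.castHom (dvd_refl p) (KM M))) with hN
  set W : Matrix (Bl p M D) ι (KM M) := Matrix.of fun B i => rd M (om (ψ B) (cs (rep (K i)))) with hW
  set W' : Matrix (Bl p M D) ι (KM M) := Matrix.of fun B i => rd M (om (ψ B) (cs (rep (K i))⁻¹)) with hW'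
  set V : Matrix ι (Bl p M D) (KM M) := Matrix.of fun i B => rd M (blockCoeff B.1 (rep (K i))) with hV
  set V' : Matrix ι (Bl p M D) (KM M) := Matrix.of fun i B => rd M (blockCoeff B.1 (rep (K i))⁻¹) with hV'
  -- sums over classes
  have hsum : ∀ F : ConjClasses G → ℂ, ∑ C, (if Cl p D C then F C else 0) = ∑ i, F (K i) := by
    intro F
    rw [← Finset.sum_filter]
    have : Finset.univ.filter (Cl p D) = Finset.univ.image K := by ext C; simp [← hCl]
    rw [this, Finset.sum_image fun a _ b _ h => hKinj h]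
  -- inverse classes
  have hinv : ∀ i, ∃ i', K i' = ConjClasses.mk (rep (K i))⁻¹ := by
    intro i
    rw [hCl]
    have h1 := hKi i
    have hc : IsConj (rep (K i))⁻¹ (rep (ConjClasses.mk (rep (K i))⁻¹)) := (isConj_rep _).symm
    refine ⟨?_, isCSyl_conj hc ?_⟩
    · rw [← orderOf_conj'' hc, orderOf_inv]; exact h1.1
    · have e : Subgroup.centralizer ({(rep (K i))⁻¹} : Set G) = Subgroup.centralizer ({rep (K i)} : Set G) := by
        ext x
        rw [Subgroup.mem_centralizer_singleton_iff, Subgroup.mem_centralizer_singleton_iff]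
        exact ⟨fun h => (Commute.inv_right_iff (a := x) (b := rep (K i))).1 h,
          fun h => (Commute.inv_right_iff (a := x) (b := rep (K i))).2 h⟩
      have h2 := h1.2
      unfold IsCSyl at h2 ⊢
      rw [e]; exact h2
  choose σ hσ using hinv
  have hσinj : Function.Injective σ := by
    intro i i' h
    have h1 := hσ i
    rw [h, hσ i', ConjClasses.mk_eq_mk_iff_isConj] at h1
    apply hKinj
    rw [← mk_rep (K i), ← mk_rep (K i'), ConjClasses.mk_eq_mk_iff_isConj]
    obtain ⟨c, hc⟩ := isConj_iff.1 h1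
    rw [isConj_iff]
    refine ⟨c⁻¹, ?_⟩
    rw [inv_inv, ← inv_inj (b := rep (K i')), ← mul_right_inj c, ← mul_left_inj c⁻¹, hc]
    group
  have hσbij : Function.Bijective σ := Finite.injective_iff_bijective.1 hσinj
  -- right inverses
  have hWV : W * V = 1 := by
    ext B B'
    rw [Matrix.mul_apply, Matrix.one_apply]
    show ∑ i, rd M (om (ψ B) (cs (rep (K i)))) * rd M (blockCoeff B'.1 (rep (K i))) = _
    have h1 := key' hM hD B'.2.1 B.2.1 B'.2.2 B.2.2 (hψ B)
    rw [hsum fun C => blockCoeff B'.1 (rep C) * om (ψ B) (cs (rep C))] at h1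
    have h2 : ∀ i, rd M (om (ψ B) (cs (rep (K i)))) * rd M (blockCoeff B'.1 (rep (K i))) =
        rd M (blockCoeff B'.1 (rep (K i)) * om (ψ B) (cs (rep (K i)))) := fun i => by
      rw [rd_mul (blockCoeff_mem B'.2.1 _) (om_cs_mem _ _), mul_comm]
    rw [Finset.sum_congr rfl fun i _ => h2 i, ← rd_sum _ _ fun i _ =>
      ring_mul (blockCoeff_mem B'.2.1 _) (om_cs_mem _ _)]
    have h3 : MemLocalRing M (if ψ B ∈ B'.1 then (1:ℂ) else 0) := by
      split_ifs
      · exact ring_one
      · exact ring_zero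
    rw [← (rd_eq_iff h3 (ring_sum _ _ fun i _ =>
      ring_mul (blockCoeff_mem B'.2.1 _) (om_cs_mem _ _))).2 h1]
    by_cases h : B = B'
    · rw [if_pos h, if_pos (h ▸ hψ B), rd_one]
    · rw [if_neg h, if_neg, rd_zero]
      intro h4
      exact h (Subtype.ext (block_eq_of_mem B.2.1 B'.2.1 (hψ B) h4))
  have hcs : ∀ i, (cs (rep (K i))⁻¹ : ZC G) = cs (rep (K (σ i))) := by
    intro i
    rw [hσ i]
    apply Subtype.ext
    apply ext_coeff
    intro x
    rw [cs_coeff, cs_coeff]
    have := isConj_rep (rep (K i))⁻¹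
    exact if_congr ⟨fun h => this.trans h, fun h => this.symm.trans h⟩ rfl rfl
  have hbc : ∀ (B : Set (IrrCharacter G)) i, blockCoeff B (rep (K i))⁻¹ = blockCoeff B (rep (K (σ i))) := by
    intro B i
    rw [hσ i]
    obtain ⟨c, hc⟩ := isConj_iff.1 (isConj_rep (rep (K i))⁻¹).symm
    rw [← hc]
    exact (blockCoeff_class B _ _).symm
  have hWV' : W' * V' = 1 := by
    rw [← hWV]
    ext B B'
    rw [Matrix.mul_apply, Matrix.mul_apply]
    show ∑ i, rd M (om (ψ B) (cs (rep (K i))⁻¹)) * rd M (blockCoeff B'.1 (rep (K i))⁻¹) =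
      ∑ i, rd M (om (ψ B) (cs (rep (K i)))) * rd M (blockCoeff B'.1 (rep (K i)))
    refine Fintype.sum_bijective σ hσbij _ _ fun i => ?_
    rw [hcs, hbc]
  refine rank_sandwich N W W' V V' (fun B => ((gam p M D d m B : ℕ) : KM M))
    ((Nat.card G / p ^ (Nat.card G).factorization p : ℕ) : KM M) ?_ ?_ ?_ hWV hWV'
  · intro h
    rw [CharP.cast_eq_zero_iff (KM M) p] at h
    exact not_dvd_part (p := p) (G := G) h
  · intro B h
    rw [CharP.cast_eq_zero_iff (KM M) p] at h
    exact gam_unit hM hD hd S m hm B h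
  · ext i j
    have hn := dvd_count hM hd S m hm (C' := K j) (hKi i)
    obtain ⟨n, hn⟩ := hn
    have hf := formula hd S m hm (C' := K j) (hKi i)
    have hq0 : ((p ^ ((Nat.card G).factorization p - d) : ℕ) : ℂ) ≠ 0 := by
      exact_mod_cast (pow_pos hp.out.pos _).ne'
    rw [hn, Nat.cast_mul, mul_assoc] at hf
    have hf := mul_left_cancel₀ hq0 hf
    have h1 : N i j = (n : KM M) := by
      rw [hN, Matrix.map_apply, Matrix.of_apply, map_natCast, hn, hq, Nat.mul_div_cancel_left _ (pow_pos hp.out.pos _)]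
    rw [Matrix.smul_apply, h1, smul_eq_mul, Matrix.mul_apply]
    have h2 : ∀ B, (W'.transpose * Matrix.diagonal (fun B => ((gam p M D d m B : ℕ) : KM M))) i B * W B j =
        rd M (om (ψ B) (cs (rep (K i))⁻¹)) * ((gam p M D d m B : ℕ) : KM M) * rd M (om (ψ B) (cs (rep (K j)))) := by
      intro B
      exact congrArg (· * W B j) (Matrix.mul_diagonal
        (fun B => ((gam p M D d m B : ℕ) : KM M)) W'.transpose i B)
    rw [Finset.sum_congr rfl fun B _ => h2 B]
    have h3 := congrArg (rd M) hf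
    rw [rd_mul (ring_natCast _) (ring_natCast _), rd_nat, rd_nat,
      rd_sum _ _ fun χ _ => A_ring m (K i) (K j) χ _,
      Finset.sum_congr rfl fun χ _ => rd_term hM hD hd m ψ hψ (hKi i) (hKi j) χ, Finset.sum_comm] at h3
    rw [mul_comm, h3]
    refine Finset.sum_congr rfl fun B _ => ?_
    rw [gam, Nat.cast_sum, Finset.mul_sum, Finset.sum_mul]
    refine Finset.sum_congr rfl fun χ _ => ?_
    split_ifs
    · rfl
    · simp

end Cfsg.Agent.H25.Rob
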