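import Cfsg.Agent.H25_DihCnt
import Cfsg.Agent.H10_BlockV4
set_option autoImplicit false
set_option maxHeartbeats 1000000

namespace Cfsg.Agent.H25.V4Cnt
open Cfsg Cfsg.Agent.H10.PPart Cfsg.Agent.H10.Homo Cfsg.Agent.H10.BlockV4 Cfsg.Agent.H25.DihCnt
open Cfsg.Agent.H3.CharIrr
open scoped ComplexConjugate

theorem klein_of_card {V : Type*} [Group V] [Finite V] (h4 : Nat.card V = 4) (hc : ¬ IsCyclic V) :
    IsKleinFour V := by
  refine ⟨h4, ?_⟩
  have h1 : ∀ x : V, x ^ 2 = 1 := by
    intro x
    have h2 : orderOf x ∣ 2 ^ 2 := by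
      have := orderOf_dvd_natCard x
      rwa [h4] at this
    obtain ⟨k, hk, hk'⟩ := (Nat.dvd_prime_pow Nat.prime_two).1 h2
    have hk2 : k ≠ 2 := by
      intro h5
      apply hc
      apply isCyclic_of_orderOf_eq_card x
      rw [hk', h5, h4]; rfl
    rw [← orderOf_dvd_iff_pow_eq_one, hk']
    have : k ≤ 1 := by omega
    interval_cases k <;> norm_num
  have h2 : Monoid.exponent V ∣ 2 := Monoid.exponent_dvd_of_forall_pow_eq_one h1
  rcases (Nat.dvd_prime Nat.prime_two).1 h2 with h3 | h3
  · exfalso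
    rw [Monoid.exp_eq_one_iff] at h3
    have := Finite.card_le_one_iff_subsingleton.2 h3
    omega
  · exact h3

variable {G : Type*} [Group G] [Fintype G]

theorem setup {g₀ : ℕ} (hg₀ : Odd g₀) (hG : Nat.card G = 4 * g₀)
    (hnc : ¬ ∃ N : Subgroup G, N.Normal ∧ Nat.card N = g₀) (P : Sylow 2 G) :
    IsKleinFour (P : Subgroup G) ∧ (∀ s t : G, orderOf s = 2 → orderOf t = 2 → IsConj s t) := by
  have hP4 : Nat.card (P : Subgroup G) = 4 := by
    rw [Sylow.card_eq_multiplicity, hG]
    have h1 : (4 * g₀).factorization 2 = 2 := by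
      rw [Nat.factorization_mul (by norm_num) hg₀.pos.ne', Finsupp.add_apply,
        Nat.factorization_eq_zero_of_not_dvd (n := g₀) (p := 2), add_zero,
        show (4 : ℕ) = 2 ^ 2 by norm_num, Nat.Prime.factorization_pow Nat.prime_two,
        Finsupp.single_eq_same]
      intro h5
      rw [← even_iff_two_dvd, ← Nat.not_odd_iff_even] at h5
      exact h5 hg₀
    rw [h1]
    norm_num
  have hfin : ∀ N : Subgroup G, N.Normal → N.IsComplement' (P : Subgroup G) → False := by
    intro N hN hc
    apply hnc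
    refine ⟨N, hN, ?_⟩
    have := hc.card_mul_card
    rw [hP4, hG] at this
    omega
  have hmin : (Nat.card G).minFac = 2 := by
    rw [Nat.minFac_eq_two_iff, hG]
    exact ⟨2 * g₀, by ring⟩
  have hnotcyc : ¬ IsCyclic (P : Subgroup G) := by
    intro hcyc
    exact hfin _ inferInstance (IsCyclic.isComplement' hmin hcyc)
  have hK := klein_of_card hP4 hnotcyc
  refine ⟨hK, ?_⟩
  apply conj_of_relIndex P (R2.of_klein hK)
  intro h1
  rw [Subgroup.relIndex_eq_one] at h1
  exact hfin _ inferInstance (MonoidHom.ker_transferSylow_isComplement' P h1)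

/-- the count: `#G (1 + Σ ε_i / x_i) = 8 c(J) r²` with `r c(P) = c(J)`. -/
theorem count {M : Ideal AlgInt} (hM : IsPModular 2 M) (P : Sylow 2 G)
    (hK : IsKleinFour (P : Subgroup G))
    (hone : ∀ s t : G, orderOf s = 2 → orderOf t = 2 → IsConj s t) {J : G}
    (hJP : J ∈ (P : Subgroup G)) (hJ : orderOf J = 2) :
    ∃ r : ℕ, 0 < r ∧ r * Nat.card (Subgroup.centralizer ((P : Subgroup G) : Set G)) =
      Nat.card (Subgroup.centralizer ({J} : Set G)) ∧
      (Nat.card G : ℂ) * ∑ᶠ χ ∈ principalBlock M G, (χ : G → ℂ) J * (χ : G → ℂ) J *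
        conj ((χ : G → ℂ) J) / (χ : G → ℂ) 1 =
        8 * (Nat.card (Subgroup.centralizer ({J} : Set G)) : ℂ) * (r : ℂ) ^ 2 := by
  classical
  have hR2 := R2.of_klein hK
  have hJ1 : J ≠ 1 := by
    intro h; rw [h, orderOf_one] at hJ; norm_num at hJ
  have hP4 : Nat.card (P : Subgroup G) = 4 := hK.card_four
  obtain ⟨C, hC⟩ : ∃ C, C = Subgroup.centralizer ({J} : Set G) := ⟨_, rfl⟩
  have hex := centralizer_complement P hR2 hJP hJ1
  rw [← hC] at hex ⊢
  obtain ⟨K, hKn, hKodd, hKidx⟩ := hex
  have hcomm : ∀ x ∈ (P : Subgroup G), ∀ y ∈ (P : Subgroup G), x * y = y * x := hR2.hab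
  have hPC : (P : Subgroup G) ≤ C := by
    intro x hx
    rw [hC, Subgroup.mem_centralizer_singleton_iff]
    exact hcomm x hx J hJP
  have hcmp : Cmp C (K.map C.subtype) (P : Subgroup G) :=
    Cmp.of_compl P.2 hPC K hKn hKodd hKidx
  set O := K.map C.subtype with hO
  haveI : Fintype O := Fintype.ofFinite _
  haveI : Fintype (P : Subgroup G) := Fintype.ofFinite _
  have hCO : Nat.card C = 4 * Nat.card O := by
    rw [hcmp.card_eq, hP4, mul_comm]
  -- key: for t in P outside {1, J}: cnt O t = r
  have horder : ∀ t ∈ (P : Subgroup G), t ≠ 1 → orderOf t = 2 := fun t ht ht1 =>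
    klein_order hK ht ht1
  have hgen : ∀ t ∈ (P : Subgroup G), t ≠ 1 → t ≠ J → ∀ x ∈ (P : Subgroup G),
      x = 1 ∨ x = J ∨ x = t ∨ x = t * J := by
    intro t ht ht1 htJ x hx
    by_contra hcon
    push Not at hcon
    have htJ1 : t * J ≠ 1 := by
      intro h5
      apply htJ
      have : J⁻¹ = J := by rw [inv_eq_iff_mul_eq_one, ← pow_two, ← hJ, pow_orderOf_eq_one]
      rw [← this, eq_inv_iff_mul_eq_one]; exact h5
    have htJt : t * J ≠ t := by
      intro h5; rw [mul_eq_left] at h5; exact hJ1 h5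
    have htJJ : t * J ≠ J := by
      intro h5; rw [mul_eq_right] at h5; exact ht1 h5
    have h6 : ({1, J, t, t * J, x} : Finset G).card ≤ 4 := by
      have h7 : (({1, J, t, t * J, x} : Finset G) : Set G) ⊆ ((P : Subgroup G) : Set G) := by
        intro y hy
        simp only [Finset.coe_insert, Finset.coe_singleton, Set.mem_insert_iff,
          Set.mem_singleton_iff] at hy
        rcases hy with rfl | rfl | rfl | rfl | rfl
        · exact Subgroup.one_mem _
        · exact hJP
        · exact ht
        · exact Subgroup.mul_mem _ ht hJP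
        · exact hx
      have h8 := Set.ncard_le_ncard h7 (Set.toFinite _)
      rw [Set.ncard_coe_finset] at h8
      calc _ ≤ _ := h8
        _ = 4 := by rw [← hP4]; rfl
    rw [Finset.card_insert_of_notMem, Finset.card_insert_of_notMem, Finset.card_insert_of_notMem,
      Finset.card_insert_of_notMem, Finset.card_singleton] at h6
    · omega
    · simp only [Finset.mem_singleton]; exact fun h => hcon.2.2.2 h.symm
    · simp only [Finset.mem_insert, Finset.mem_singleton, not_or]
      exact ⟨htJt.symm, fun h => hcon.2.2.1 h.symm⟩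
    · simp only [Finset.mem_insert, Finset.mem_singleton, not_or]
      exact ⟨htJ.symm, htJJ.symm, fun h => hcon.2.1 h.symm⟩
    · simp only [Finset.mem_insert, Finset.mem_singleton, not_or]
      exact ⟨hJ1.symm, ht1.symm, htJ1.symm, fun h => hcon.1 h.symm⟩
  have hcent : ∀ t ∈ (P : Subgroup G), t ≠ 1 → t ≠ J →
      C ⊓ Subgroup.centralizer ({t} : Set G) =
        Subgroup.centralizer ((P : Subgroup G) : Set G) := by
    intro t ht ht1 htJ
    ext x
    rw [Subgroup.mem_inf, hC, Subgroup.mem_centralizer_singleton_iff,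
      Subgroup.mem_centralizer_singleton_iff, Subgroup.mem_centralizer_iff]
    constructor
    · rintro ⟨h1, h2⟩ y hy
      rcases hgen t ht ht1 htJ y hy with rfl | rfl | rfl | rfl
      · simp
      · exact h1.symm
      · exact h2.symm
      · rw [mul_assoc, ← h1, ← mul_assoc, ← h2, mul_assoc]
    · intro h
      exact ⟨(h J hJP).symm, (h t ht).symm⟩
  have hcnt : ∀ t ∈ (P : Subgroup G), t ≠ 1 → t ≠ J →
      cnt O t * Nat.card (Subgroup.centralizer ((P : Subgroup G) : Set G)) = Nat.card C := by
    intro t ht ht1 htJ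
    have h1 := cnt_mul_card hcmp.odd (horder t ht ht1) (fun w hw =>
      hcmp.nrm t (hPC ht) w hw)
    have h2 := hcmp.card_centralizer ht
    rw [hcent t ht ht1 htJ] at h2
    have h3 : (P : Subgroup G) ⊓ Subgroup.centralizer ({t} : Set G) = (P : Subgroup G) := by
      apply inf_eq_left.2
      intro x hx
      rw [Subgroup.mem_centralizer_singleton_iff]
      exact hcomm x hx t ht
    rw [h3, hP4] at h2
    rw [h2, ← mul_assoc, h1, hCO, mul_comm]
  -- pick t
  obtain ⟨t, ht, ht1, htJ⟩ : ∃ t ∈ (P : Subgroup G), t ≠ 1 ∧ t ≠ J := by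
    by_contra hcon
    push Not at hcon
    have h7 : ((P : Subgroup G) : Set G) ⊆ (({1, J} : Finset G) : Set G) := by
      intro y hy
      simp only [Finset.coe_insert, Finset.coe_singleton, Set.mem_insert_iff,
          Set.mem_singleton_iff]
      by_cases hy1 : y = 1
      · exact Or.inl hy1
      · exact Or.inr (hcon y hy hy1)
    have h8 := Set.ncard_le_ncard h7 (Set.toFinite _)
    rw [Set.ncard_coe_finset] at h8
    have h9 : ((P : Subgroup G) : Set G).ncard = 4 := by rw [← hP4]; rfl
    have h10 := Finset.card_insert_le (1 : G) {J}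
    rw [Finset.card_singleton] at h10
    omega
  set c := Nat.card (Subgroup.centralizer ((P : Subgroup G) : Set G)) with hc
  have hcpos : 0 < c := Nat.card_pos
  have hCpos : 0 < Nat.card C := Nat.card_pos
  set r := cnt O t with hr
  have hrc : r * c = Nat.card C := hcnt t ht ht1 htJ
  have hr' : ∀ t' ∈ (P : Subgroup G), t' ≠ 1 → t' ≠ J → cnt O t' = r := by
    intro t' ht' h1 h2
    have := hcnt t' ht' h1 h2
    rw [← hrc] at this
    exact Nat.eq_of_mul_eq_mul_right hcpos this
  refine ⟨r, ?_, hrc, ?_⟩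
  · rcases Nat.eq_zero_or_pos r with h | h
    · rw [h, zero_mul] at hrc; omega
    · exact h
  -- the sum
  have hJJ : J * J = 1 := by rw [← pow_two, ← hJ, pow_orderOf_eq_one]
  have hsum : ∑ w : O, F ((w : G) * J) = 2 * r ^ 2 := by
    rw [hcmp.sum_F hJP (Cmp.mem_of_F hcmp hJ hC hJP ⟨1, pow_one J⟩)]
    have hterm : ∀ s : (P : Subgroup G), cnt O (s : G) * cnt O ((s : G)⁻¹ * J) =
        if (s : G) = 1 ∨ (s : G) = J then 0 else r ^ 2 := by
      intro s
      split_ifs with h
      · rcases h with h | h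
        · rw [h, hcmp.cnt_one, zero_mul]
        · rw [h, inv_mul_cancel, hcmp.cnt_one, mul_zero]
      · push Not at h
        have hs : (s : G) * (s : G) = 1 := by
          have := pow_orderOf_eq_one (s : G)
          rwa [horder s s.2 h.1, pow_two] at this
        have hsi : (s : G)⁻¹ = s := by rw [inv_eq_iff_mul_eq_one, hs]
        rw [hsi, hr' s s.2 h.1 h.2, hr' ((s : G) * J) (Subgroup.mul_mem _ s.2 hJP) ?_ ?_, pow_two]
        · intro h5
          apply h.2
          have : J⁻¹ = J := by rw [inv_eq_iff_mul_eq_one, hJJ]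
          rw [← this, eq_inv_iff_mul_eq_one]; exact h5
        · intro h5; rw [mul_eq_right] at h5; exact h.1 h5
    simp only [hterm]
    rw [Finset.sum_ite, Finset.sum_const_zero, zero_add, Finset.sum_const, smul_eq_mul]
    congr 1
    have h5 : (Finset.univ.filter (fun s : (P : Subgroup G) => ¬ ((s : G) = 1 ∨ (s : G) = J))) =
        {⟨t, ht⟩, ⟨t * J, Subgroup.mul_mem _ ht hJP⟩} := by
      ext s
      simp only [Finset.mem_filter, Finset.mem_univ, true_and, Finset.mem_insert,
        Finset.mem_singleton, not_or, Subtype.ext_iff]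
      constructor
      · rintro ⟨h1, h2⟩
        rcases hgen t ht ht1 htJ s s.2 with h | h | h | h
        · exact absurd h h1
        · exact absurd h h2
        · exact Or.inl h
        · exact Or.inr h
      · rintro (h | h)
        · rw [h]; exact ⟨ht1, htJ⟩
        · rw [h]
          refine ⟨?_, ?_⟩
          · intro h5
            apply htJ
            have : J⁻¹ = J := by rw [inv_eq_iff_mul_eq_one, hJJ]
            rw [← this, eq_inv_iff_mul_eq_one]; exact h5
          · intro h5; rw [mul_eq_right] at h5; exact ht1 h5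
    rw [h5, Finset.card_pair]
    intro h6
    have h7 : t = t * J := congrArg Subtype.val h6
    rw [left_eq_mul] at h7
    exact hJ1 h7
  have key := hcmp.block_count hM hone hJ hJP (le_of_eq hC.symm)
  rw [hsum] at key
  have hO0 : (Nat.card O : ℂ) ≠ 0 := Nat.cast_ne_zero.2 Nat.card_pos.ne'
  apply mul_left_cancel₀ hO0
  have hCO' : (Nat.card C : ℂ) = 4 * (Nat.card O : ℂ) := by rw [hCO]; push_cast; ring
  rw [← hC] at key
  push_cast at key
  calc (Nat.card O : ℂ) * ((Nat.card G : ℂ) * _) = (Nat.card G : ℂ) * (Nat.card O : ℂ) * _ := by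
        ring
    _ = (Nat.card C : ℂ) ^ 2 * (2 * (r : ℂ) ^ 2) := key.symm
    _ = _ := by rw [hCO']; ring

end Cfsg.Agent.H25.V4Cnt
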