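import Cfsg.Agent.H25_V4Cnt
import Cfsg.Agent.H26_FS
import Cfsg.Agent.H3_FS
set_option autoImplicit false
set_option maxHeartbeats 1000000

namespace Cfsg.Agent.H25.V4Cnt2
open Cfsg Cfsg.Agent.H10.PPart Cfsg.Agent.H10.Homo Cfsg.Agent.H10.BlockV4 Cfsg.Agent.H25.DihCnt
  Cfsg.Agent.H25.V4Cnt Cfsg.Agent.H10.BlockKer Cfsg.Agent.H10.BlockLoc
open Cfsg.Agent.H3.CharIrr
open scoped ComplexConjugate

variable {G : Type*} [Group G] [Fintype G]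

theorem centralizer_inv (g : G) : Subgroup.centralizer ({g⁻¹} : Set G) =
    Subgroup.centralizer ({g} : Set G) := by
  ext x
  rw [Subgroup.mem_centralizer_singleton_iff, Subgroup.mem_centralizer_singleton_iff]
  constructor
  · intro h
    have h1 : (x * g⁻¹)⁻¹ = (g⁻¹ * x)⁻¹ := by rw [h]
    simp only [mul_inv_rev, inv_inv] at h1
    calc x * g = x * (g * x⁻¹) * x := by group
      _ = x * (x⁻¹ * g) * x := by rw [h1]
      _ = g * x := by group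
  · intro h
    calc x * g⁻¹ = g⁻¹ * (g * x) * g⁻¹ := by group
      _ = g⁻¹ * (x * g) * g⁻¹ := by rw [h]
      _ = g⁻¹ * x := by group

theorem conj_mem_principal {M : Ideal AlgInt} {χ ψ : IrrCharacter G}
    (hχ : χ ∈ principalBlock M G) (hψ : ∀ g, (ψ : G → ℂ) g = conj ((χ : G → ℂ) g)) :
    ψ ∈ principalBlock M G := by
  intro g
  have h := hχ g⁻¹
  have h1 : centralChar (ψ : G → ℂ) g = centralChar (χ : G → ℂ) g⁻¹ := by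
    unfold centralChar
    rw [centralizer_inv, hψ g, hψ 1, ← IsChar.inv_eq_conj (IsIrr.isCharacter χ.2),
      ← IsChar.inv_eq_conj (IsIrr.isCharacter χ.2), inv_one]
  have h2 : centralChar (fun _ : G => (1 : ℂ)) g = centralChar (fun _ : G => (1 : ℂ)) g⁻¹ := by
    unfold centralChar
    rw [centralizer_inv]
  rw [h1, h2]
  exact h

/-- the finsum over the four characters. -/
theorem sum_four {B : Set (IrrCharacter G)} {χ₁ χ₂ χ₃ : IrrCharacter G}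
    (hB : B = {χ : IrrCharacter G | (χ : G → ℂ) = (fun _ => 1) ∨ χ = χ₁ ∨ χ = χ₂ ∨ χ = χ₃})
    (hdist : (χ₁ : G → ℂ) ≠ (fun _ => 1) ∧ (χ₂ : G → ℂ) ≠ (fun _ => 1) ∧
      (χ₃ : G → ℂ) ≠ (fun _ => 1) ∧ χ₁ ≠ χ₂ ∧ χ₁ ≠ χ₃ ∧ χ₂ ≠ χ₃) (f : IrrCharacter G → ℂ) :
    ∑ᶠ χ ∈ B, f χ = f (triv G) + (f χ₁ + (f χ₂ + f χ₃)) := by
  obtain ⟨h1, h2, h3, h12, h13, h23⟩ := hdist
  have hB' : B = {triv G, χ₁, χ₂, χ₃} := by
    rw [hB]
    ext χ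
    simp only [Set.mem_setOf_eq, Set.mem_insert_iff, Set.mem_singleton_iff]
    have : (χ : G → ℂ) = (fun _ => 1) ↔ χ = triv G := by
      constructor
      · intro h; exact Subtype.ext h
      · intro h; rw [h]; rfl
    rw [this]
  have hne : ∀ χ : IrrCharacter G, (χ : G → ℂ) ≠ (fun _ => 1) → triv G ≠ χ := by
    intro χ h h'
    apply h; rw [← h']; rfl
  rw [hB', finsum_mem_insert _ (by
      simp only [Set.mem_insert_iff, Set.mem_singleton_iff, not_or]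
      exact ⟨hne _ h1, hne _ h2, hne _ h3⟩) (Set.toFinite _),
    finsum_mem_insert _ (by
      simp only [Set.mem_insert_iff, Set.mem_singleton_iff, not_or]
      exact ⟨h12, h13⟩) (Set.toFinite _), finsum_mem_pair h23]

theorem num {N c cP r x₁ x₂ x₃ : ℚ} {e₁ e₂ e₃ : ℚ} (h1 : 0 < x₁) (h2 : 0 < x₂) (h3 : 0 < x₃)
    (hc : 0 < c) (hcP : 0 < cP) (hr : 0 < r) (hrc : r * cP = c) (he1 : e₁ * e₁ = 1)
    (he2 : e₂ * e₂ = 1) (he3 : e₃ * e₃ = 1)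
    (hrel : 1 + e₁ * x₁ + e₂ * x₂ + e₃ * x₃ = 0)
    (hN : N * (1 + (e₁ / x₁ + (e₂ / x₂ + e₃ / x₃))) = 8 * c * r ^ 2) :
    N = 8 * ((x₁ * x₂ * x₃) / ((x₁ + e₁) * (x₂ + e₂) * (x₃ + e₃))) * c ^ 3 / cP ^ 2 := by
  have hE : (x₁ + e₁) * (x₂ + e₂) * (x₃ + e₃) =
      x₁ * x₂ * x₃ * (1 + (e₁ / x₁ + (e₂ / x₂ + e₃ / x₃))) := by
    have h5 : x₁ * x₂ * x₃ * (1 + (e₁ / x₁ + (e₂ / x₂ + e₃ / x₃))) =
        x₁ * x₂ * x₃ + e₁ * x₂ * x₃ + e₂ * x₁ * x₃ + e₃ * x₁ * x₂ := by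
      field_simp
      ring
    rw [h5]
    have h6 : e₁ * e₂ * e₃ * (1 + e₁ * x₁ + e₂ * x₂ + e₃ * x₃) = 0 := by rw [hrel, mul_zero]
    have h7 : e₁ * e₂ * e₃ + (e₁ * e₁) * e₂ * e₃ * x₁ + (e₂ * e₂) * e₁ * e₃ * x₂ +
        (e₃ * e₃) * e₁ * e₂ * x₃ = 0 := by
      rw [← h6]; ring
    rw [he1, he2, he3] at h7
    linear_combination h7
  have hE0 : (x₁ + e₁) * (x₂ + e₂) * (x₃ + e₃) ≠ 0 := by
    intro h5
    rw [hE] at h5
    have h6 : x₁ * x₂ * x₃ ≠ 0 := by positivity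
    have h7 := (mul_eq_zero.1 h5).resolve_left h6
    rw [h7, mul_zero] at hN
    have : 0 < 8 * c * r ^ 2 := by positivity
    linarith
  have hcr : c = r * cP := hrc.symm
  rw [eq_div_iff (by positivity), mul_comm (8 : ℚ), mul_assoc, div_mul_eq_mul_div, eq_div_iff hE0,
    hE]
  calc N * cP ^ 2 * (x₁ * x₂ * x₃ * (1 + (e₁ / x₁ + (e₂ / x₂ + e₃ / x₃)))) =
      (N * (1 + (e₁ / x₁ + (e₂ / x₂ + e₃ / x₃)))) * cP ^ 2 * (x₁ * x₂ * x₃) := by ring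
    _ = _ := by rw [hN, hcr]; ring

theorem main {M : Ideal AlgInt} (hM : IsPModular 2 M) (P : Sylow 2 G)
    (hK : IsKleinFour (P : Subgroup G))
    (hone : ∀ s t : G, orderOf s = 2 → orderOf t = 2 → IsConj s t) {J : G}
    (hJP : J ∈ (P : Subgroup G)) (hJ : orderOf J = 2) {χ₁ χ₂ χ₃ : IrrCharacter G} {ε₁ ε₂ ε₃ : ℤ}
    (hB : principalBlock M G =
      {χ : IrrCharacter G | (χ : G → ℂ) = (fun _ => 1) ∨ χ = χ₁ ∨ χ = χ₂ ∨ χ = χ₃})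
    (hdist : (χ₁ : G → ℂ) ≠ (fun _ => 1) ∧ (χ₂ : G → ℂ) ≠ (fun _ => 1) ∧
      (χ₃ : G → ℂ) ≠ (fun _ => 1) ∧ χ₁ ≠ χ₂ ∧ χ₁ ≠ χ₃ ∧ χ₂ ≠ χ₃)
    (hε : (ε₁ = 1 ∨ ε₁ = -1) ∧ (ε₂ = 1 ∨ ε₂ = -1) ∧ (ε₃ = 1 ∨ ε₃ = -1))
    (hval : (χ₁ : G → ℂ) J = ε₁ ∧ (χ₂ : G → ℂ) J = ε₂ ∧ (χ₃ : G → ℂ) J = ε₃) :
    ∃ r : ℕ, 0 < r ∧ r * Nat.card (Subgroup.centralizer ((P : Subgroup G) : Set G)) =
      Nat.card (Subgroup.centralizer ({J} : Set G)) ∧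
      (Nat.card G : ℚ) * (1 + ((ε₁ : ℚ) / charDegree (χ₁ : G → ℂ) +
        ((ε₂ : ℚ) / charDegree (χ₂ : G → ℂ) + (ε₃ : ℚ) / charDegree (χ₃ : G → ℂ)))) =
        8 * (Nat.card (Subgroup.centralizer ({J} : Set G)) : ℚ) * (r : ℚ) ^ 2 ∧
      1 + (ε₁ : ℚ) * charDegree (χ₁ : G → ℂ) + ε₂ * charDegree (χ₂ : G → ℂ) +
        ε₃ * charDegree (χ₃ : G → ℂ) = 0 := by
  classical
  haveI := hM.2.1
  haveI : Fintype (IrrCharacter G) := Fintype.ofFinite _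
  obtain ⟨r, hr0, hrc, hr⟩ := count hM P hK hone hJP hJ
  refine ⟨r, hr0, hrc, ?_, ?_⟩
  · rw [sum_four hB hdist] at hr
    have hcub : ∀ (χ : IrrCharacter G) (ε : ℤ), (ε = 1 ∨ ε = -1) → (χ : G → ℂ) J = ε →
        (χ : G → ℂ) J * (χ : G → ℂ) J * conj ((χ : G → ℂ) J) / (χ : G → ℂ) 1 =
        (ε : ℂ) / (charDegree (χ : G → ℂ) : ℂ) := by
      intro χ ε hε hv
      rw [hv, ← H10.Char.charDegree_eq χ.2]
      rcases hε with rfl | rfl <;> simp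
    rw [hcub χ₁ ε₁ hε.1 hval.1, hcub χ₂ ε₂ hε.2.1 hval.2.1, hcub χ₃ ε₃ hε.2.2 hval.2.2,
      show ((triv G : IrrCharacter G) : G → ℂ) J = 1 from rfl,
      show ((triv G : IrrCharacter G) : G → ℂ) 1 = 1 from rfl] at hr
    rw [map_one, mul_one, mul_one, div_one] at hr
    have h5 : (((Nat.card G : ℚ) * (1 + ((ε₁ : ℚ) / charDegree (χ₁ : G → ℂ) +
        ((ε₂ : ℚ) / charDegree (χ₂ : G → ℂ) + (ε₃ : ℚ) / charDegree (χ₃ : G → ℂ)))) : ℚ) : ℂ) =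
        ((8 * (Nat.card (Subgroup.centralizer ({J} : Set G)) : ℚ) * (r : ℚ) ^ 2 : ℚ) : ℂ) := by
      push_cast
      rw [← hr]
    exact_mod_cast h5
  · have h1 := H10.BlockOrth.weak_orth' hM (principal_isPBlock (M := M) (G := G)) 1 J (by simp)
      (by rw [hJ])
    have h2 : ∑ᶠ χ ∈ principalBlock M G, (χ : G → ℂ) J * (χ : G → ℂ) 1 = 0 := by
      rw [finsum_mem_def, finsum_eq_sum_of_fintype, ← h1]
      apply Finset.sum_congr rfl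
      intro χ _
      simp only [Set.indicator_apply]
    rw [sum_four hB hdist, hval.1, hval.2.1, hval.2.2, ← H10.Char.charDegree_eq χ₁.2,
      ← H10.Char.charDegree_eq χ₂.2, ← H10.Char.charDegree_eq χ₃.2,
      show ((triv G : IrrCharacter G) : G → ℂ) J = 1 from rfl,
      show ((triv G : IrrCharacter G) : G → ℂ) 1 = 1 from rfl] at h2
    have h5 : ((1 + (ε₁ : ℚ) * charDegree (χ₁ : G → ℂ) + ε₂ * charDegree (χ₂ : G → ℂ) +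
        ε₃ * charDegree (χ₃ : G → ℂ) : ℚ) : ℂ) = ((0 : ℚ) : ℂ) := by
      push_cast
      rw [← h2]; ring
    exact_mod_cast h5

end Cfsg.Agent.H25.V4Cnt2
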