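import Cfsg.Agent.H25_V4Cnt2
import Cfsg.Agent.H26_FSClif
set_option autoImplicit false
set_option maxHeartbeats 1000000

namespace Cfsg.Agent.H25.V4Cnt3
open Cfsg Cfsg.Agent.H10.PPart Cfsg.Agent.H10.Homo Cfsg.Agent.H10.BlockV4 Cfsg.Agent.H25.DihCnt
  Cfsg.Agent.H25.V4Cnt Cfsg.Agent.H25.V4Cnt2 Cfsg.Agent.H10.BlockKer Cfsg.Agent.H10.BlockLoc
open Cfsg.Agent.H3.CharIrr Cfsg.Agent.H3.CharComplete
open scoped ComplexConjugate Matrix

variable {G : Type*} [Group G] [Fintype G]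

theorem even_of_ind_neg (χ : IrrCharacter G) (h : H26.FS.ind (χ : G → ℂ) = -1) :
    2 ∣ charDegree (χ : G → ℂ) := by
  classical
  obtain ⟨n, ρ, hρ, hρc⟩ := χ.2
  have hρχ : IsIrrCharacter G ρ.character := ⟨n, ρ, hρ, rfl⟩
  have hind : (Nat.card G : ℂ)⁻¹ * ∑ g : G, ρ.character (g * g) = -1 := by
    rw [hρc]; exact h
  have hdeg : charDegree (χ : G → ℂ) = n := by
    have h1 : (charDegree (χ : G → ℂ) : ℂ) = n := by
      rw [H10.Char.charDegree_eq χ.2, ← hρc, Representation.char_one, Module.finrank_fin_fun]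
    exact_mod_cast h1
  rw [hdeg]
  rcases H3.FS.indicator ρ hρχ with ⟨h0, -⟩ | ⟨-, c, B, hc, hB0, hBT, hBg, hcv⟩
  · rw [h0] at hind; norm_num at hind
  have hc1 : c = -1 := by rw [← hcv, hind]
  subst hc1
  rw [neg_one_smul] at hBT
  -- invariance of the range
  have hinv : ∀ g, H3.FS.mat ρ g * B = B * (H3.FS.mat ρ g⁻¹)ᵀ := by
    intro g
    have h1 : H3.FS.mat ρ g * B * (H3.FS.mat ρ g)ᵀ * (H3.FS.mat ρ g⁻¹)ᵀ =
        B * (H3.FS.mat ρ g⁻¹)ᵀ := by rw [hBg g]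
    rw [mul_assoc, ← Matrix.transpose_mul, ← H3.FS.mat_mul, inv_mul_cancel, H3.FS.mat_one,
      Matrix.transpose_one, mul_one] at h1
    exact h1
  have hρirr : ρ.IsIrreducible := hρ
  obtain ⟨-, hU⟩ := (irrep_iff ρ).1 hρirr
  have hrange := hU (LinearMap.range (Matrix.toLin' B)) (by
    rintro g _ ⟨v, rfl⟩
    refine ⟨(H3.FS.mat ρ g⁻¹)ᵀ *ᵥ v, ?_⟩
    rw [Matrix.toLin'_apply, Matrix.toLin'_apply, Matrix.mulVec_mulVec, ← hinv,
      ← Matrix.mulVec_mulVec]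
    unfold H3.FS.mat
    rw [LinearMap.toMatrix'_mulVec])
  rcases hrange with h1 | h1
  · exfalso
    apply hB0
    rw [LinearMap.range_eq_bot] at h1
    exact (Matrix.toLin'.map_eq_zero_iff).1 h1
  have hu : IsUnit B.det := by
    rw [← LinearMap.det_toLin']
    have hsurj : Function.Surjective (Matrix.toLin' B) := LinearMap.range_eq_top.1 h1
    have hinj : Function.Injective (Matrix.toLin' B) := LinearMap.injective_iff_surjective.2 hsurj
    rw [← LinearMap.isUnit_iff_isUnit_det]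
    exact (LinearMap.isUnit_iff_ker_eq_bot _).2 (LinearMap.ker_eq_bot.2 hinj)
  have hdet : B.det = (-1) ^ n * B.det := by
    conv_lhs => rw [← Matrix.det_transpose, hBT, Matrix.det_neg, Fintype.card_fin]
  have h2 : ((-1 : ℂ)) ^ n = 1 := by
    have := mul_right_cancel₀ hu.ne_zero ((one_mul B.det).trans hdet)
    exact this.symm
  by_contra h3
  have h4 : Odd n := by rw [← Nat.not_even_iff_odd, even_iff_two_dvd]; exact h3
  rw [h4.neg_one_pow] at h2
  norm_num at h2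

theorem ind_block_sum {M : Ideal AlgInt} (hM : IsPModular 2 M) (P : Sylow 2 G)
    (hP : ∀ x ∈ (P : Subgroup G), x * x = 1) {J : G} (hJ : orderOf J = 2) :
    ∑ᶠ χ ∈ principalBlock M G, H26.FS.ind (χ : G → ℂ) * (χ : G → ℂ) J = 0 := by
  classical
  haveI := hM.2.1
  haveI : Fintype (IrrCharacter G) := Fintype.ofFinite _
  set f : G → ℂ := fun g => ((Finset.univ.filter (fun s : G => s * s = g)).card : ℂ) with hf
  have hfe : f = ∑ χ : IrrCharacter G, H26.FS.ind (χ : G → ℂ) • (χ : G → ℂ) := by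
    funext g
    rw [Finset.sum_apply]
    exact H26.FS.card_sqrt g
  have hfc : ∀ χ : IrrCharacter G, classInner f (χ : G → ℂ) = H26.FS.ind (χ : G → ℂ) := by
    intro χ
    rw [hfe, ci_sum_irr]
  have hcl : IsClassFunction G f := by
    intro h g
    show ((Finset.univ.filter (fun s : G => s * s = _)).card : ℂ) = _
    congr 1
    refine Finset.card_bij' (fun s _ => g⁻¹ * s * g) (fun s _ => g * s * g⁻¹) ?_ ?_ ?_ ?_
    · intro s hs
      rw [Finset.mem_filter] at hs ⊢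
      refine ⟨Finset.mem_univ _, ?_⟩
      calc g⁻¹ * s * g * (g⁻¹ * s * g) = g⁻¹ * (s * s) * g := by group
        _ = _ := by rw [hs.2]; group
    · intro s hs
      rw [Finset.mem_filter] at hs ⊢
      refine ⟨Finset.mem_univ _, ?_⟩
      calc g * s * g⁻¹ * (g * s * g⁻¹) = g * (s * s) * g⁻¹ := by group
        _ = _ := by rw [hs.2]
    · intro s _; show g * (g⁻¹ * s * g) * g⁻¹ = s; group
    · intro s _; show g⁻¹ * (g * s * g⁻¹) * g = s; group
  have hno4 : ∀ s : G, ¬ 4 ∣ orderOf s := by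
    intro s h4
    obtain ⟨k, hk⟩ := h4
    have hs0 : 0 < orderOf s := orderOf_pos s
    have ho : orderOf (s ^ k) = 2 ^ 2 := by
      rw [orderOf_pow_of_dvd (by omega) ⟨4, by omega⟩, hk,
        Nat.mul_div_cancel _ (by omega)]; rfl
    obtain ⟨x, hx⟩ := conj_into_sylow P ⟨2, ho⟩
    have h1 := hP _ hx
    have h2 : orderOf (x * s ^ k * x⁻¹) ∣ 2 := by
      rw [orderOf_dvd_iff_pow_eq_one, pow_two]; exact h1
    rw [orderOf_conj, ho] at h2
    norm_num at h2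
  have h0 : ∀ u z : G, IsPPart 2 u z → IsConj J z → f u = 0 := by
    intro u z hu hz
    show ((Finset.univ.filter (fun s : G => s * s = u)).card : ℂ) = 0
    rw [Nat.cast_eq_zero, Finset.card_eq_zero, Finset.filter_eq_empty_iff]
    intro s _ hs
    have hzo : orderOf z = 2 := by
      rw [H10.BlockHZ.isConj_pow_order hz, hJ]
    have h2u : 2 ∣ orderOf u := by
      by_contra h5
      have h6 := (ppart_regular_iff hu).2 h5
      rw [h6, orderOf_one] at hzo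
      norm_num at hzo
    apply hno4 s
    rw [← hs, ← pow_two] at h2u
    have h3 : 2 ∣ orderOf s := h2u.trans (orderOf_pow_dvd 2)
    rw [orderOf_pow_of_dvd (by norm_num) h3] at h2u
    obtain ⟨k, hk⟩ := h3
    rw [hk, Nat.mul_div_cancel_left _ (by norm_num)] at h2u
    rw [hk]
    exact mul_dvd_mul_left 2 h2u
  have key := H10.BlockSMT2.section_vanish hM hcl (x := J) ⟨1, by rw [hJ, pow_one]⟩ h0
    (principal_isPBlock (M := M) (G := G)) (u := J) (z := J)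
    ⟨1, mul_one J, Commute.one_right J, ⟨1, by rw [hJ, pow_one]⟩, by simp⟩ (IsConj.refl J)
  unfold blockPart at key
  rw [← key]
  apply finsum_congr
  intro χ
  apply finsum_congr
  intro _
  rw [← hfc χ]
  congr 1
  unfold classInner
  congr 1
  apply Finset.sum_congr ?_ (fun _ _ => rfl)
  congr 1
  exact Subsingleton.elim _ _

theorem arith {N c cP r x q k : ℕ} (hx : 0 < x) (hq : q = 2 * x + 1) (hrc : r * cP = c)
    (hc : 0 < c) (hN : N = c * k) (h : N * (x + 1) ^ 2 = 4 * c * r ^ 2 * (x * (2 * x + 1))) :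
    ∃ m : ℕ, 4 * c = m * cP * (q + 1) ∧ 8 * N = m ^ 3 * cP * (q ^ 3 - q) := by
  have h1 : k * (x + 1) ^ 2 = (2 * r) ^ 2 * (x * (2 * x + 1)) := by
    rw [hN] at h
    apply Nat.eq_of_mul_eq_mul_left hc
    calc c * (k * (x + 1) ^ 2) = c * k * (x + 1) ^ 2 := by ring
      _ = _ := by rw [h]; ring
  have h2 : (x + 1) ^ 2 ∣ (2 * r) ^ 2 * (x * (2 * x + 1)) := ⟨k, by rw [← h1]; ring⟩
  have h3 : Nat.Coprime ((x + 1) ^ 2) (x * (2 * x + 1)) := by
    apply Nat.Coprime.pow_left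
    apply Nat.Coprime.mul_right
    · rw [Nat.coprime_comm]; exact Nat.coprime_self_add_right.2 (Nat.coprime_one_right x)
    · have h5 : 2 * x + 1 + 1 = (x + 1) * 2 := by ring
      have h6 : Nat.Coprime (2 * x + 1 + 1) (2 * x + 1) := by
        rw [Nat.coprime_self_add_left]; exact Nat.coprime_one_left _
      rw [h5] at h6
      exact Nat.Coprime.coprime_dvd_left (dvd_mul_right _ _) h6
  have h4 : (x + 1) ^ 2 ∣ (2 * r) ^ 2 := h3.dvd_of_dvd_mul_right h2
  rw [Nat.pow_dvd_pow_iff two_ne_zero] at h4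
  obtain ⟨m, hm⟩ := h4
  refine ⟨m, ?_, ?_⟩
  · rw [← hrc, hq]
    calc 4 * (r * cP) = 2 * (2 * r) * cP := by ring
      _ = _ := by rw [hm]; ring
  · have h5 : q ^ 3 - q = 4 * (x * (2 * x + 1) * (x + 1)) := by
      rw [hq]
      have : (2 * x + 1) ^ 3 = 4 * (x * (2 * x + 1) * (x + 1)) + (2 * x + 1) := by ring
      rw [this, Nat.add_sub_cancel]
    rw [h5]
    apply Nat.eq_of_mul_eq_mul_right (show 0 < (x + 1) ^ 2 by positivity)
    calc 8 * N * (x + 1) ^ 2 = 8 * (N * (x + 1) ^ 2) := by ring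
      _ = 4 * (2 * r) ^ 3 * cP * (x * (2 * x + 1)) := by rw [h, ← hrc]; ring
      _ = _ := by rw [hm]; ring

theorem s4480 {M : Ideal AlgInt} (hM : IsPModular 2 M) (P : Sylow 2 G)
    (hK : IsKleinFour (P : Subgroup G))
    (hone : ∀ s t : G, orderOf s = 2 → orderOf t = 2 → IsConj s t) {J : G}
    (hJP : J ∈ (P : Subgroup G)) (hJ : orderOf J = 2) {χ₁ χ₂ χ₃ : IrrCharacter G} {ε₁ ε₂ ε₃ : ℤ}
    (hB : principalBlock M G =
      {χ : IrrCharacter G | (χ : G → ℂ) = (fun _ => 1) ∨ χ = χ₁ ∨ χ = χ₂ ∨ χ = χ₃})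
    (hdist : (χ₁ : G → ℂ) ≠ (fun _ => 1) ∧ (χ₂ : G → ℂ) ≠ (fun _ => 1) ∧
      (χ₃ : G → ℂ) ≠ (fun _ => 1) ∧ χ₁ ≠ χ₂ ∧ χ₁ ≠ χ₃ ∧ χ₂ ≠ χ₃)
    (hε : (ε₁ = 1 ∨ ε₁ = -1) ∧ (ε₂ = 1 ∨ ε₂ = -1) ∧ (ε₃ = 1 ∨ ε₃ = -1))
    (hval : (χ₁ : G → ℂ) J = ε₁ ∧ (χ₂ : G → ℂ) J = ε₂ ∧ (χ₃ : G → ℂ) J = ε₃)
    (hprod : ε₁ * ε₂ * ε₃ = -1) (hε₃ : ε₃ = -1) :
    ∃ m : ℕ, 4 * Nat.card (Subgroup.centralizer ({J} : Set G)) =
      m * Nat.card (Subgroup.centralizer ((P : Subgroup G) : Set G)) *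
        (charDegree (χ₃ : G → ℂ) + 1) ∧
      8 * Nat.card G = m ^ 3 * Nat.card (Subgroup.centralizer ((P : Subgroup G) : Set G)) *
        (charDegree (χ₃ : G → ℂ) ^ 3 - charDegree (χ₃ : G → ℂ)) := by
  classical
  haveI := hM.2.1
  haveI : Fintype (IrrCharacter G) := Fintype.ofFinite _
  obtain ⟨r, hr0, hrc, hN, hrel⟩ := main hM P hK hone hJP hJ hB hdist hε hval
  have hx1 := H10.Char.charDegree_pos χ₁.2
  have hx2 := H10.Char.charDegree_pos χ₂.2
  have hx3 := H10.Char.charDegree_pos χ₃.2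
  set x₁ := charDegree (χ₁ : G → ℂ) with hx₁
  set x₂ := charDegree (χ₂ : G → ℂ) with hx₂
  set x₃ := charDegree (χ₃ : G → ℂ) with hx₃
  have hrelZ : (1 : ℤ) + ε₁ * x₁ + ε₂ * x₂ + ε₃ * x₃ = 0 := by exact_mod_cast hrel
  subst hε₃
  have hε12 : ε₁ = 1 ∧ ε₂ = 1 := by
    rcases hε.1 with h1 | h1 <;> rcases hε.2.1 with h2 | h2
    · exact ⟨h1, h2⟩
    · exfalso; rw [h1, h2] at hprod; norm_num at hprod
    · exfalso; rw [h1, h2] at hprod; norm_num at hprod
    · exfalso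
      rw [h1, h2] at hrelZ
      omega
  obtain ⟨he1, he2⟩ := hε12
  subst he1 he2
  -- parity of degrees
  obtain ⟨ζ₂, ζ₃, ζ₄, ε, hε', h2t, h3t, h4t, h23, h24, h34, hiff, hv, hd2, hd3, hd4, -⟩ :=
    v4_structure hM P hK hone
  have hodd : ∀ χ : IrrCharacter G, χ ∈ principalBlock M G → ¬ 2 ∣ charDegree (χ : G → ℂ) := by
    intro χ hχ h2
    have h2' : (2 : ℤ) ∣ (charDegree (χ : G → ℂ) : ℤ) := by exact_mod_cast h2
    rcases (hiff χ).1 hχ with rfl | rfl | rfl | rfl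
    · have : charDegree ((triv G : IrrCharacter G) : G → ℂ) = 1 := by
        have h1 : (charDegree ((triv G : IrrCharacter G) : G → ℂ) : ℂ) = 1 := by
          rw [H10.Char.charDegree_eq (triv G).2]; rfl
        exact_mod_cast h1
      rw [this] at h2; norm_num at h2
    · omega
    · rcases hε' with rfl | rfl <;> omega
    · omega
  have hmem1 : χ₁ ∈ principalBlock M G := by rw [hB]; exact Or.inr (Or.inl rfl)
  have hmem2 : χ₂ ∈ principalBlock M G := by rw [hB]; exact Or.inr (Or.inr (Or.inl rfl))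
  -- indicators
  have hP2 : ∀ x ∈ (P : Subgroup G), x * x = 1 := by
    intro x hx
    by_cases h1 : x = 1
    · rw [h1, mul_one]
    · have := pow_orderOf_eq_one x
      rwa [klein_order hK hx h1, pow_two] at this
  have hind := ind_block_sum hM P hP2 hJ
  rw [sum_four hB hdist, hval.1, hval.2.1, hval.2.2,
    show ((triv G : IrrCharacter G) : G → ℂ) J = 1 from rfl,
    show H26.FS.ind ((triv G : IrrCharacter G) : G → ℂ) = 1 from H26.FS.ind_one] at hind
  have hnn : ∀ χ : IrrCharacter G, χ ∈ principalBlock M G →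
      H26.FS.ind (χ : G → ℂ) = 1 ∨ H26.FS.ind (χ : G → ℂ) = 0 := by
    intro χ hχ
    rcases H26.FS.ind_cases χ with h | h | h
    · exact Or.inl h
    · exact Or.inr h
    · exact absurd (even_of_ind_neg χ h) (hodd χ hχ)
  have hzero : H26.FS.ind (χ₁ : G → ℂ) = 0 := by
    rcases hnn χ₁ hmem1 with h1 | h1
    · exfalso
      rcases hnn χ₂ hmem2 with h2 | h2 <;> rcases H26.FS.ind_cases χ₃ with h3 | h3 | h3 <;>
        rw [h1, h2, h3] at hind <;> norm_num at hind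
    · exact h1
  have hnreal : ¬ ∀ g, conj ((χ₁ : G → ℂ) g) = (χ₁ : G → ℂ) g := by
    intro h
    rcases H26.FS.ind_real χ₁ h with h1 | h1 <;> rw [h1] at hzero <;> norm_num at hzero
  let ψ : IrrCharacter G := ⟨fun g => conj ((χ₁ : G → ℂ) g), H3.CharInd.IsIrr.conj χ₁.2⟩
  have hψ : ψ ∈ principalBlock M G := conj_mem_principal hmem1 (fun g => rfl)
  have hψ2 : ψ = χ₂ := by
    rw [hB] at hψ
    rcases hψ with h | h | h | h
    · exfalso
      apply hdist.1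
      funext g
      have h1 : conj ((χ₁ : G → ℂ) g) = 1 := congrFun h g
      rw [← Complex.conj_conj ((χ₁ : G → ℂ) g), h1, map_one]
    · exfalso
      apply hnreal
      intro g
      exact congrFun (congrArg Subtype.val h) g
    · exact h
    · exfalso
      have h1 : conj ((χ₁ : G → ℂ) J) = (χ₃ : G → ℂ) J := congrFun (congrArg Subtype.val h) J
      rw [hval.1, hval.2.2] at h1
      norm_num at h1
  have hx12 : x₁ = x₂ := by
    have h1 : (x₂ : ℂ) = x₁ := by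
      rw [hx₂, hx₁, H10.Char.charDegree_eq χ₂.2, H10.Char.charDegree_eq χ₁.2, ← hψ2]
      show conj ((χ₁ : G → ℂ) 1) = _
      rw [← H10.Char.charDegree_eq χ₁.2, Complex.conj_natCast]
    exact_mod_cast h1.symm
  have hq : x₃ = 2 * x₁ + 1 := by
    rw [← hx12] at hrelZ
    omega
  obtain ⟨k, hk⟩ := Subgroup.card_subgroup_dvd_card (Subgroup.centralizer ({J} : Set G))
  apply arith (x := x₁) (k := k) (N := Nat.card G) hx1 hq hrc Nat.card_pos hk
  rw [← hx12, hq] at hN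
  have hx1' : (x₁ : ℚ) ≠ 0 := by exact_mod_cast hx1.ne'
  have h5 : (1 + (((1 : ℤ) : ℚ) / x₁ + (((1 : ℤ) : ℚ) / x₁ + ((-1 : ℤ) : ℚ) / ((2 * x₁ + 1 : ℕ) : ℚ)))) *
      ((x₁ : ℚ) * (2 * x₁ + 1)) = 2 * (x₁ + 1) ^ 2 := by
    have h6 : (2 * (x₁ : ℚ) + 1) ≠ 0 := by positivity
    push_cast
    field_simp
    ring
  have h7 : ((Nat.card G * (x₁ + 1) ^ 2 : ℕ) : ℚ) =
      ((4 * Nat.card (Subgroup.centralizer ({J} : Set G)) * r ^ 2 * (x₁ * (2 * x₁ + 1)) : ℕ) : ℚ) := by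
    push_cast
    have h8 : (Nat.card G : ℚ) * (2 * ((x₁ : ℚ) + 1) ^ 2) =
        8 * (Nat.card (Subgroup.centralizer ({J} : Set G)) : ℚ) * (r : ℚ) ^ 2 *
          ((x₁ : ℚ) * (2 * x₁ + 1)) := by
      rw [← hN, ← h5]; ring
    linear_combination h8 / 2
  exact_mod_cast h7

end Cfsg.Agent.H25.V4Cnt3
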