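import Cfsg.Agent.H25_Wat

/-! Watanabe's theorem, part 2: transport to centralizers and the main induction. -/

set_option autoImplicit false
set_option linter.unusedSectionVars false

open scoped ComplexConjugate commutatorElement

universe u

namespace Cfsg.Agent.H25.Wat

open Cfsg Cfsg.Agent.H3 Cfsg.Agent.H3.CharBasic Cfsg.Agent.H3.CharIrr Cfsg.Agent.H3.CharComplete
  Cfsg.Agent.H25.Brauer Cfsg.Agent.H10.BlockSMT2
  Cfsg.Agent.H25.STk Cfsg.Agent.H25.STl Cfsg.Agent.H25.STm Cfsg.Agent.H25.STn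
  Cfsg.Agent.H25.STo Cfsg.Agent.H25.STp Cfsg.Agent.H25.STq Cfsg.Agent.H25.STr
  Cfsg.Agent.H25.KG Cfsg.Agent.H25.Red Cfsg.Agent.H25.BPTr Cfsg.Agent.H25.BPMain Cfsg.Agent.H25.BPDef
  Cfsg.Agent.H25.Fus Cfsg.Agent.H25.Nilp Cfsg.Agent.H25.NilpAb Cfsg.Agent.H25.ExtFMT Cfsg.Agent.H25.FMT
  Cfsg.Agent.H25.Up Cfsg.Agent.H25.Rel Cfsg.Agent.H25.Rk Cfsg.Agent.H25.Cov2
  Cfsg.Agent.H25.AbSec Cfsg.Agent.H25.AbSec2 Cfsg.Agent.H25.Sub

section transport

variable {p : ℕ} {M : Ideal AlgInt} {G : Type*} [Group G] [Fintype G] [hMax : M.IsMaximal]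
  [hp : Fact p.Prime] [hch : CharP (KM M) p] {P Q : Subgroup G} {B E : MonoidAlgebra (KM M) G}

theorem transport (hM : IsPModular p M) (hP : BP p B P E) (htop : KG.Top p P E)
    (hab : ∀ x ∈ P, ∀ y ∈ P, x * y = y * x) (hQ : Q ≤ P) [Fintype (Ce Q)] :
    ∃ (f' : MonoidAlgebra (KM M) (Ce Q)) (P' : Subgroup (Ce Q)) (E' : MonoidAlgebra (KM M) (Ce Q)),
      up (KM M) (Ce Q) f' = fb p P E Q ∧ P'.map (Ce Q).subtype = P ∧
      BP p f' P' E' ∧ KG.Top p P' E' ∧ (Nf P' E').map (Ce Q).subtype = Nf P E ⊓ Ce Q ∧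
      ∀ R' ≤ P', Lr p P' E' R' = Lr p P E (Q ⊔ R'.map (Ce Q).subtype) := by
  have hle := fb_spec hP.pg hP.be hQ
  obtain ⟨hQp, hf⟩ := hle.pair hP.pg hP.be
  have hPC : P ≤ Ce Q := le_Ce_ab hab hle.le
  have hD := dgh_ab hM hP htop hab hle
  have hns : NS p Q (fb p P E Q) P E := LE.ns hP.pg hP.be hle (hPC.trans (Ce_le_Nm Q))
  have hCP : Ce P ≤ Ce Q := Ce_anti hle.le
  obtain ⟨f', hf'e⟩ := up_surj hf.mem.1
  obtain ⟨E', rfl⟩ := up_surj (hP.be.mem.1.mono hCP)
  obtain ⟨P', rfl⟩ : ∃ P' : Subgroup (Ce Q), P'.map (Ce Q).subtype = P := ⟨P.subgroupOf _, of_map hPC⟩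
  rw [← hf'e] at hf hD hns
  have hf' : IsBlk ⊤ f' := blk_top_iff.1 hf
  have hD' : DGH p ⊤ f' P' := by
    rw [← dgh_map_iff, top_map]; exact hD
  have hbp := bp_up hCP hf' hD'.pg hP.be hns.tr
  have htop' := top_of_dgh hD' hbp
  have hab' : ∀ x ∈ P', ∀ y ∈ P', x * y = y * x := by
    intro x hx y hy
    exact Subtype.ext (hab x ⟨x, hx, rfl⟩ y ⟨y, hy, rfl⟩)
  refine ⟨f', P', E', hf'e, rfl, hbp, htop', Nf_map, ?_⟩
  intro R' hR'
  have hR : Q ⊔ R'.map (Ce Q).subtype ≤ P'.map (Ce Q).subtype := sup_le hQ (map_le_iff.2 hR')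
  have hle2 := fb_spec hP.pg hP.be hR
  obtain ⟨hRp, hg⟩ := hle2.pair hP.pg hP.be
  have hns2 := LE.ns hP.pg hP.be hle2 ((le_Ce_ab hab hR).trans (Ce_le_Nm _))
  have hCe : (Ce R').map (Ce Q).subtype = Ce (Q ⊔ R'.map (Ce Q).subtype) := by
    rw [Ce_map']
    ext x
    rw [Subgroup.mem_inf, Subgroup.mem_centralizer_iff, Subgroup.mem_centralizer_iff, Subgroup.mem_centralizer_iff]
    constructor
    · rintro ⟨h1, h2⟩ y hy
      have h3 : Q ⊔ R'.map (Ce Q).subtype ≤ Subgroup.centralizer ({x} : Set G) := by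
        refine sup_le ?_ ?_
        · intro z hz
          rw [Subgroup.mem_centralizer_singleton_iff]
          exact h2 z hz
        · intro z hz
          rw [Subgroup.mem_centralizer_singleton_iff]
          exact h1 z hz
      exact Subgroup.mem_centralizer_singleton_iff.1 (h3 hy)
    · intro h
      exact ⟨fun y hy => h y (Subgroup.mem_sup_right hy), fun y hy => h y (Subgroup.mem_sup_left hy)⟩
  have hgs : Supp (Ce Q) (fb p (P'.map (Ce Q).subtype) (up (KM M) (Ce Q) E') (Q ⊔ R'.map (Ce Q).subtype)) :=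
    hg.mem.1.mono (Ce_anti le_sup_left)
  obtain ⟨g', hg'e⟩ := up_surj hgs
  have hg' : IsBlk (Ce R') g' := by
    rw [← blk_map_iff, hg'e, hCe]; exact hg
  have hns' : NS p R' g' P' E' := by
    refine ⟨hD'.pg.to_le hR', hD'.pg, hg', hbp.be, hR', (le_Ce_ab hab' hR').trans (Ce_le_Nm _), ?_, ?_⟩
    · rw [← fix_map_iff, hg'e]; exact hns2.fix
    · apply up_inj (k := KM M) (H := Ce Q)
      rw [map_mul, ← tr_Ce_up, hg'e]
      exact hns2.tr
  have h5 : fb p P' E' R' = g' := fb_eq hbp.pg hbp.be (LE.of_ns hns')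
  unfold Lr
  rw [h5, ← rk_up hg', hg'e, hCe]

end transport

section main

variable {p : ℕ} {M : Ideal AlgInt} [hMax : M.IsMaximal] [hp : Fact p.Prime] [hch : CharP (KM M) p]

theorem fb_bot {G : Type*} [Group G] [Fintype G] {P : Subgroup G} {B E : MonoidAlgebra (KM M) G}
    (hP : BP p B P E) : fb p P E ⊥ = B := fb_eq hP.pg hP.be (LE.of_ns hP.ns)

theorem Lr_bot {G : Type*} [Group G] [Fintype G] {P : Subgroup G} {E : MonoidAlgebra (KM M) G}
    {B : Set (IrrCharacter G)} (hB : IsPBlock M B)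
    (hP : BP p (epG M B) P E) : Lr p P E ⊥ = blockRank p B := by
  unfold Lr
  rw [fb_bot hP, Ce_bot, rk_top hB]

/-- the central case -/
theorem Lr_central {G : Type*} [Group G] [Fintype G] {P Q : Subgroup G} {B E : MonoidAlgebra (KM M) G}
    (hP : BP p B P E) (hQ : Q ≤ P) (hc : Ce Q = ⊤) : Lr p P E Q = Lr p P E ⊥ := by
  have h1 : NS p Q B P E := by
    refine ⟨hP.pg.to_le hQ, hP.pg, by rw [hc]; exact hP.bB, hP.be, hQ, ?_, fix_top hP.bB P, hP.tr⟩
    intro x _
    exact Ce_le_Nm Q (by rw [hc]; exact Subgroup.mem_top x)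
  unfold Lr
  rw [fb_bot hP, Ce_bot, fb_eq hP.pg hP.be (LE.of_ns h1), hc]

/-- the statement of the main theorem for a group -/
def Good (p : ℕ) (M : Ideal AlgInt) [M.IsMaximal] (G : Type*) [Group G] [Fintype G] : Prop :=
  ∀ (P : Subgroup G) (B E : MonoidAlgebra (KM M) G), BP p B P E → KG.Top p P E →
    (∀ x ∈ P, ∀ y ∈ P, x * y = y * x) → ∀ a ∈ P, (∀ t ∈ Nf P E, t * a * t⁻¹ = a) →
      Lr p P E (Subgroup.zpowers a) = Lr p P E ⊥

theorem step {G : Type*} [Group G] [Fintype G] {P : Subgroup G} {B E : MonoidAlgebra (KM M) G}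
    (hM : IsPModular p M) (hP : BP p B P E) (htop : KG.Top p P E)
    (hab : ∀ x ∈ P, ∀ y ∈ P, x * y = y * x) {y : G} (hy : y ∈ P)
    [Fintype (Ce (Subgroup.zpowers y))] (hgood : Good p M (Ce (Subgroup.zpowers y)))
    {a : G} (ha : a ∈ P) (hfix : ∀ t ∈ Nf P E, t * a * t⁻¹ = a) :
    Lr p P E (Subgroup.zpowers y ⊔ Subgroup.zpowers a) = Lr p P E (Subgroup.zpowers y) := by
  have hyP : Subgroup.zpowers y ≤ P := Subgroup.zpowers_le.2 hy
  obtain ⟨f', P', E', -, hPe, hbp, htop', hN, hL⟩ := transport hM hP htop hab hyP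
  have hab' : ∀ x ∈ P', ∀ y ∈ P', x * y = y * x := by
    intro x hx z hz
    have h1 : (x : G) ∈ P := by rw [← hPe]; exact ⟨x, hx, rfl⟩
    have h2 : (z : G) ∈ P := by rw [← hPe]; exact ⟨z, hz, rfl⟩
    exact Subtype.ext (hab x h1 z h2)
  obtain ⟨a', ha', ha'e⟩ : ∃ a' ∈ P', (Ce (Subgroup.zpowers y)).subtype a' = a := by
    have : a ∈ P'.map (Ce (Subgroup.zpowers y)).subtype := by rw [hPe]; exact ha
    exact this
  have h1 := hgood P' f' E' hbp htop' hab' a' ha' (by
    intro t ht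
    have h3 : (t : G) ∈ Nf P E := by
      have : (t : G) ∈ (Nf P' E').map (Ce (Subgroup.zpowers y)).subtype := ⟨t, ht, rfl⟩
      rw [hN] at this
      exact this.1
    apply Subtype.ext
    have h4 := hfix _ h3
    rw [← ha'e] at h4
    exact h4)
  rw [hL _ (Subgroup.zpowers_le.2 ha'), hL _ bot_le, Subgroup.map_bot, sup_bot_eq, MonoidHom.map_zpowers, ha'e] at h1
  exact h1

open Classical in
theorem sum_sub {G : Type*} [Group G] [Fintype G] (P : Subgroup G) (φ : G → ℂ) :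
    ∑ y : G, (if y ∈ P then φ y else 0) = ∑ y : P, φ y := by
  rw [← Finset.sum_filter]
  symm
  refine Finset.sum_bij (fun (y : P) _ => (y : G)) (fun y _ => ?_) (fun a _ b _ h => Subtype.ext h) (fun y hy => ?_) (fun _ _ => rfl)
  · exact Finset.mem_filter.2 ⟨Finset.mem_univ _, y.2⟩
  · exact ⟨⟨y, (Finset.mem_filter.1 hy).2⟩, Finset.mem_univ _, rfl⟩

/-- Fourier comparison -/
theorem compare {G : Type*} [Group G] [Fintype G] {P : Subgroup G} {B : Set (IrrCharacter G)}
    {E : MonoidAlgebra (KM M) G}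
    (hM : IsPModular p M) (hB : IsPBlock M B) (hP : BP p (epG M B) P E) (htop : KG.Top p P E)
    (hab : ∀ x ∈ P, ∀ y ∈ P, x * y = y * x) {F : FusionSystem P} (hF : IsBF p E F)
    {a : G} (ha : a ∈ P) (hfix : ∀ t ∈ Nf P E, t * a * t⁻¹ = a)
    (h : ∀ w ∈ F.focalSubgroup, w ∈ P → w ≠ 1 →
      Lr p P E (Subgroup.zpowers (a * w)) = Lr p P E (Subgroup.zpowers w)) :
    Lr p P E (Subgroup.zpowers a) = Lr p P E ⊥ := by
  classical
  haveI : Fintype (IrrCharacter G) := Fintype.ofFinite _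
  set N := F.focalSubgroup.subgroupOf P with hN
  set g : P → ℂ := fun y => (Lr p P E (Subgroup.zpowers (y : G)) : ℂ) / (orb P E (y : G) : ℂ) with hg
  have h1 : ∀ l ∈ Lam N, l ≠ 1 → ∑ y, ((l y : ℂˣ) : ℂ) * g y = 0 := by
    intro l hl hne
    have h2 := trace_st hM hB hP htop (ex_stab hF hl)
    rw [trace_zero hM hB hP htop hab hF hl hne, sum_ab hM hB hP htop hab (ex_stab hF hl), sum_sub] at h2
    rw [h2]
    refine Finset.sum_congr rfl fun y _ => ?_
    rw [ex_mem l y.2]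
  have h3 := fourier comm_le g h1 1
  have h4 := fourier comm_le g h1 ⟨a, ha⟩
  rw [← h4] at h3
  have h5 : (Nat.card (Lam N) : ℂ) ≠ 0 := by
    haveI := fin_Lam' (Q := P) (N := N) comm_le
    exact_mod_cast (Nat.card_pos (α := Lam N)).ne'
  have h6 := mul_left_cancel₀ h5 h3
  -- shift the second sum
  rw [← Equiv.sum_comp (Equiv.mulLeft (⟨a, ha⟩ : P)) (fun y => if (⟨a, ha⟩ : P)⁻¹ * y ∈ N then g y else 0)] at h6
  simp only [Equiv.coe_mulLeft, inv_mul_cancel_left, inv_one, one_mul] at h6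
  rw [← sub_eq_zero, ← Finset.sum_sub_distrib, Finset.sum_eq_single_of_mem (1 : P) (Finset.mem_univ _)] at h6
  · rw [if_pos N.one_mem, if_pos N.one_mem, mul_one, hg] at h6
    simp only [Subgroup.coe_one, orb_fix hfix] at h6
    rw [orb_fix (a := (1 : G)) (fun t _ => by group)] at h6
    simp only [Nat.cast_one, div_one, Subgroup.zpowers_one_eq_bot] at h6
    have h7 := sub_eq_zero.1 h6
    exact_mod_cast h7.symm
  · intro w _ hw
    by_cases hwN : w ∈ N
    · rw [if_pos hwN, if_pos hwN, hg]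
      have hw1 : (w : G) ≠ 1 := fun h' => hw (Subtype.ext h')
      have e1 := h w (Subgroup.mem_subgroupOf.1 hwN) w.2 hw1
      have e2 := orb_mul hfix (w : G)
      simp only [Subgroup.coe_mul]
      rw [e1, e2, sub_self]
    · rw [if_neg hwN, if_neg hwN, sub_zero]

/-- fixed points of the stabilizer are central in the fusion system -/
theorem fix_center {G : Type*} [Group G] [Fintype G] {P : Subgroup G} {B E : MonoidAlgebra (KM M) G}
    (hM : IsPModular p M) (hP : BP p B P E) (htop : KG.Top p P E)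
    (hab : ∀ x ∈ P, ∀ y ∈ P, x * y = y * x) {F : FusionSystem P} (hF : IsBF p E F)
    {w : G} (hw : w ∈ P) (hfix : ∀ t ∈ Nf P E, t * w * t⁻¹ = w) : w ∈ F.center := by
  rw [H27.Fus.mem_center_iff hP.pg (saturated hM hP htop hF)]
  refine ⟨hw, fun Q f hf hwQ => ?_⟩
  obtain ⟨g, hg, hfg⟩ := (hF Q f).1 hf
  obtain ⟨y, hy, hyg⟩ := ab_control hM hP htop hab hg
  rw [hfg w hwQ]
  have h1 := Subgroup.mem_centralizer_iff.1 hyg w hwQ
  -- w * (y⁻¹ g) = (y⁻¹ g) * w
  have h2 : g * w * g⁻¹ = y * w * y⁻¹ := by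
    have h3 : g = y * (y⁻¹ * g) := by group
    rw [h3]
    calc y * (y⁻¹ * g) * w * (y * (y⁻¹ * g))⁻¹ = y * ((y⁻¹ * g) * w) * (y⁻¹ * g)⁻¹ * y⁻¹ := by group
      _ = y * (w * (y⁻¹ * g)) * (y⁻¹ * g)⁻¹ * y⁻¹ := by rw [h1]
      _ = _ := by group
  rw [h2, hfix y hy]

theorem good_aux (hM : IsPModular p M) : ∀ n : ℕ, ∀ (G : Type u) [Group G] [Fintype G], Nat.card G ≤ n → Good p M G := by
  intro n
  induction n with
  | zero =>
    intro G _ _ h
    exact absurd (Nat.card_pos (α := G)) (by omega)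
  | succ n ih =>
    intro G _ _ hn P B E hP htop hab a ha hfix
    by_cases hc : Ce (Subgroup.zpowers a) = ⊤
    · exact Lr_central hP (Subgroup.zpowers_le.2 ha) hc
    have key : ∀ y ∈ P, ¬ (∀ t ∈ Nf P E, t * y * t⁻¹ = y) →
        Lr p P E (Subgroup.zpowers y ⊔ Subgroup.zpowers a) = Lr p P E (Subgroup.zpowers y) := by
      intro y hy hny
      haveI : Fintype (Ce (Subgroup.zpowers y)) := Fintype.ofFinite _
      refine step hM hP htop hab hy (ih _ ?_) ha hfix
      have h1 : Ce (Subgroup.zpowers y) ≠ ⊤ := by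
        intro h
        apply hny
        intro t _
        have h2 : t ∈ Ce (Subgroup.zpowers y) := by rw [h]; exact Subgroup.mem_top t
        have h3 := Subgroup.mem_centralizer_iff.1 h2 y (Subgroup.mem_zpowers y)
        rw [← h3, mul_inv_cancel_right]
      have h4 := Subgroup.card_le_card_group (Ce (Subgroup.zpowers y))
      have h5 : Nat.card (Ce (Subgroup.zpowers y)) ≠ Nat.card G := fun h => h1 (Subgroup.card_eq_iff_eq_top _ |>.1 h)
      omega
    obtain ⟨F, hF⟩ := exists_bf hP.pg hP.be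
    obtain ⟨B, hB, rfl⟩ := exists_epG hP.bB
    refine compare hM hB hP htop hab hF ha hfix fun w hwF hw hw1 => ?_
    have hnw : ¬ (∀ t ∈ Nf P E, t * w * t⁻¹ = w) := by
      intro h
      have h1 := fix_center hM hP htop hab hF hw h
      have h2 := (H27.Fus.central_abelian hP.pg (saturated hM hP htop hF) hab).1
      exact hw1 (Subgroup.mem_bot.1 (h2 ▸ Subgroup.mem_inf.2 ⟨h1, hwF⟩))
    have hnaw : ¬ (∀ t ∈ Nf P E, t * (a * w) * t⁻¹ = a * w) := by
      intro h
      apply hnw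
      intro t ht
      have h1 := h t ht
      have h2 := hfix t ht
      have h3 : t * (a * w) * t⁻¹ = (t * a * t⁻¹) * (t * w * t⁻¹) := by group
      rw [h3, h2] at h1
      exact mul_left_cancel h1
    have e1 := key w hw hnw
    have e2 := key (a * w) (P.mul_mem ha hw) hnaw
    rw [← e1, ← e2]
    congr 1
    apply le_antisymm
    · refine sup_le ?_ le_sup_right
      rw [Subgroup.zpowers_le]
      exact Subgroup.mul_mem _ (Subgroup.mem_sup_right (Subgroup.mem_zpowers a)) (Subgroup.mem_sup_left (Subgroup.mem_zpowers w))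
    · refine sup_le ?_ le_sup_right
      rw [Subgroup.zpowers_le]
      have : w = a⁻¹ * (a * w) := by group
      rw [this]
      refine Subgroup.mul_mem _ (Subgroup.mem_sup_right (Subgroup.inv_mem _ (Subgroup.mem_zpowers a))) ?_
      rw [inv_mul_cancel_left]
      exact Subgroup.mem_sup_left (Subgroup.mem_zpowers _)

theorem good (hM : IsPModular p M) (G : Type u) [Group G] [Fintype G] : Good p M G :=
  good_aux hM _ G le_rfl

open Classical in
/-- the number of ordinary characters -/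
theorem card_sum {G : Type*} [Group G] [Fintype G] {P : Subgroup G} {B : Set (IrrCharacter G)}
    {E : MonoidAlgebra (KM M) G}
    (hM : IsPModular p M) (hB : IsPBlock M B) (hP : BP p (epG M B) P E) (htop : KG.Top p P E)
    (hab : ∀ x ∈ P, ∀ y ∈ P, x * y = y * x) :
    (Nat.card B : ℂ) = ∑ y : P, ((Lr p P E (Subgroup.zpowers (y : G)) : ℂ) / (orb P E (y : G) : ℂ)) := by
  classical
  haveI : Fintype (IrrCharacter G) := Fintype.ofFinite _
  have hη : Stab p P E (fun _ : G => (1 : ℂ)) := fun _ _ _ _ => rfl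
  rw [← trace_one hM hB hP htop, trace_st hM hB hP htop hη, sum_ab hM hB hP htop hab hη,
    sum_sub P (fun y => (1 : ℂ) * ((Lr p P E (Subgroup.zpowers y) : ℂ) / (orb P E y : ℂ)))]
  simp only [one_mul]

/-- Watanabe's theorem in terms of idempotents -/
theorem watanabe {G : Type u} [Group G] [Fintype G] {P : Subgroup G} {B : Set (IrrCharacter G)}
    {E : MonoidAlgebra (KM M) G}
    (hM : IsPModular p M) (hB : IsPBlock M B) (hP : BP p (epG M B) P E) (htop : KG.Top p P E)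
    (hab : ∀ x ∈ P, ∀ y ∈ P, x * y = y * x) {u : G} (hu : u ∈ P) (hfix : ∀ t ∈ Nf P E, t * u * t⁻¹ = u)
    [Fintype (Ce (Subgroup.zpowers u))] {f : Set (IrrCharacter (Ce (Subgroup.zpowers u)))} (hf : IsPBlock M f)
    (hle : LE p (Subgroup.zpowers u) (ep M (Ce (Subgroup.zpowers u)) f) P E) :
    blockRank p B = blockRank p f ∧ Nat.card B = Nat.card f := by
  classical
  have hfb := fb_eq hP.pg hP.be hle
  constructor
  · have h1 := good hM G P _ E hP htop hab u hu hfix
    rw [Lr_bot hB hP] at h1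
    unfold Lr at h1
    rw [hfb, rk_ep hf] at h1
    exact h1.symm
  · have huP : Subgroup.zpowers u ≤ P := Subgroup.zpowers_le.2 hu
    obtain ⟨f', P', E', hf'e, hPe, hbp, htop', hN, hL⟩ := transport hM hP htop hab huP
    have hab' : ∀ x ∈ P', ∀ y ∈ P', x * y = y * x := by
      intro x hx z hz
      have h1 : (x : G) ∈ P := by rw [← hPe]; exact ⟨x, hx, rfl⟩
      have h2 : (z : G) ∈ P := by rw [← hPe]; exact ⟨z, hz, rfl⟩
      exact Subtype.ext (hab x h1 z h2)
    rw [hfb, ← up_epG] at hf'e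
    obtain rfl := up_inj hf'e
    have e1 := card_sum hM hB hP htop hab
    have e2 := card_sum hM hf hbp htop' hab'
    have hNf : Nf P E ⊓ Ce (Subgroup.zpowers u) = Nf P E := by
      rw [inf_eq_left]
      intro t ht
      rw [Ce_zp, Subgroup.mem_centralizer_singleton_iff]
      have := hfix t ht
      calc t * u = (t * u * t⁻¹) * t := by group
        _ = u * t := by rw [this]
    rw [hNf] at hN
    have e3 : ∑ y : P, ((Lr p P E (Subgroup.zpowers (y : G)) : ℂ) / (orb P E (y : G) : ℂ)) =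
        ∑ y : P', ((Lr p P' E' (Subgroup.zpowers (y : Ce (Subgroup.zpowers u))) : ℂ) / (orb P' E' (y : Ce (Subgroup.zpowers u)) : ℂ)) := by
      symm
      refine Finset.sum_bij (fun (y : P') _ => (⟨(y.1 : G), by rw [← hPe]; exact ⟨y.1, y.2, rfl⟩⟩ : P))
        (fun _ _ => Finset.mem_univ _) (fun a _ b _ h => ?_) (fun y _ => ?_) (fun y _ => ?_)
      · have h' : ((a.1 : Ce (Subgroup.zpowers u)) : G) = ((b.1 : Ce (Subgroup.zpowers u)) : G) :=
          congrArg (fun z : P => (z : G)) h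
        exact Subtype.ext (Subtype.ext h')
      · have h1 : (y : G) ∈ P'.map (Ce (Subgroup.zpowers u)).subtype := by rw [hPe]; exact y.2
        obtain ⟨z, hz, hzy⟩ := h1
        exact ⟨⟨z, hz⟩, Finset.mem_univ _, Subtype.ext hzy⟩
      · have hyP : ((y.1 : Ce (Subgroup.zpowers u)) : G) ∈ P := by rw [← hPe]; exact ⟨y.1, y.2, rfl⟩
        haveI : Fintype (Ce (Subgroup.zpowers ((y.1 : Ce (Subgroup.zpowers u)) : G))) := Fintype.ofFinite _
        have h2 := step hM hP htop hab hyP (good hM _) hu hfix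
        have h3 := hL (Subgroup.zpowers y.1) (Subgroup.zpowers_le.2 y.2)
        rw [MonoidHom.map_zpowers, sup_comm] at h3
        rw [h3]
        have h4 : orb P' E' (y : Ce (Subgroup.zpowers u)) = orb P E ((y.1 : Ce (Subgroup.zpowers u)) : G) := by
          unfold orb
          refine Nat.card_congr ⟨fun z => ⟨(z.1 : G), ?_⟩, fun z => ⟨⟨z.1, ?_⟩, ?_⟩, ?_, ?_⟩
          · obtain ⟨t, ht, hz⟩ := z.2
            exact ⟨t, by rw [← hN]; exact ⟨t, ht, rfl⟩, by rw [← hz]; rfl⟩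
          · obtain ⟨t, ht, hz⟩ := z.2
            rw [← hN] at ht
            obtain ⟨t', ht', rfl⟩ := ht
            rw [← hz]
            exact (t' * y.1 * t'⁻¹).2
          · obtain ⟨t, ht, hz⟩ := z.2
            rw [← hN] at ht
            obtain ⟨t', ht', rfl⟩ := ht
            exact ⟨t', ht', Subtype.ext hz⟩
          · intro z; rfl
          · intro z; rfl
        rw [h4]
        show _ = ((Lr p P E (Subgroup.zpowers ((y.1 : Ce (Subgroup.zpowers u)) : G)) : ℂ)) / _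
        rw [← h2]
        rfl
    have e4 : (Nat.card B : ℂ) = (Nat.card f : ℂ) := by rw [e1, e2, e3]
    exact_mod_cast e4

end main

end Cfsg.Agent.H25.Wat
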