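import Mathlib
import Cfsg.Agent.H23_Count

/-!
# Zariski dense subsets of positive density in finite linear groups
-/

set_option autoImplicit false
universe u v

namespace Cfsg.Agent.H26.BF

variable {G : Type u} [Group G] {F : Type v} [Field F]

/-- left translation -/
def lt (g : G) : (G → F) →ₐ[F] (G → F) where
  toFun f h := f (g * h)
  map_one' := rfl
  map_mul' _ _ := rfl
  map_zero' := rfl
  map_add' _ _ := rfl
  commutes' _ := rfl

/-- right translation -/
def rt (g : G) : (G → F) →ₐ[F] (G → F) where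
  toFun f h := f (h * g)
  map_one' := rfl
  map_mul' _ _ := rfl
  map_zero' := rfl
  map_add' _ _ := rfl
  commutes' _ := rfl

theorem lt_apply (g h : G) (f : G → F) : lt g f h = f (g * h) := rfl
theorem rt_apply (g h : G) (f : G → F) : rt g f h = f (h * g) := rfl

/-- functions in `W` vanishing on `S` -/
def van (W : Submodule F (G → F)) (S : Set G) : Submodule F (G → F) where
  carrier := {f | f ∈ W ∧ ∀ s ∈ S, f s = 0}
  add_mem' := by
    rintro a b ⟨ha, ha'⟩ ⟨hb, hb'⟩
    exact ⟨W.add_mem ha hb, fun s hs => by simp [ha' s hs, hb' s hs]⟩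
  zero_mem' := ⟨W.zero_mem, fun s _ => rfl⟩
  smul_mem' := by
    rintro c a ⟨ha, ha'⟩
    exact ⟨W.smul_mem c ha, fun s hs => by simp [ha' s hs]⟩

theorem mem_van {W : Submodule F (G → F)} {S : Set G} {f : G → F} :
    f ∈ van W S ↔ f ∈ W ∧ ∀ s ∈ S, f s = 0 := Iff.rfl

theorem van_anti (W : Submodule F (G → F)) {S T : Set G} (h : S ⊆ T) : van W T ≤ van W S :=
  fun _ hf => ⟨hf.1, fun s hs => hf.2 s (h hs)⟩

theorem van_le (W : Submodule F (G → F)) (S : Set G) : van W S ≤ W := fun _ hf => hf.1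

/-- thresholds -/
def rr (r : ℕ) : ℕ → ℕ
  | 0 => r
  | i + 1 => 2 * (rr r i) ^ 2

theorem rr_le_succ (r i : ℕ) : rr r i ≤ rr r (i + 1) := by
  show rr r i ≤ 2 * (rr r i) ^ 2
  nlinarith [Nat.zero_le (rr r i), sq_nonneg (rr r i), Nat.le_self_pow (n := 2) (by norm_num) (rr r i)]

theorem rr_mono (r : ℕ) : Monotone (rr r) := monotone_nat_of_le_succ (rr_le_succ r)

theorem count [Finite G] (N L : Subgroup G) (hL : L ≤ N) (T : Set G) (hT : T ⊆ N) (R : ℕ)
    (hR : 0 < R)
    (h1 : Nat.card N ≤ Nat.card T * R)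
    (h2 : ∀ g ∈ N, g ∉ L → Nat.card {s : G // s ∈ T ∧ g * s ∈ T} * (2 * R ^ 2) < Nat.card N) :
    L.relIndex N ≤ 2 * R := by
  classical
  have := Fintype.ofFinite G
  -- double count
  have key : ∑ g : G, (if g ∈ N then Nat.card {s : G // s ∈ T ∧ g * s ∈ T} else 0) = Nat.card T * Nat.card T := by
    have e1 : ∀ g : G, (if g ∈ N then Nat.card {s : G // s ∈ T ∧ g * s ∈ T} else 0) =
        ∑ s : G, if (s ∈ T ∧ g * s ∈ T) then 1 else 0 := by
      intro g
      rw [Finset.sum_boole]
      by_cases hg : g ∈ N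
      · rw [if_pos hg, Nat.card_eq_fintype_card, Fintype.card_subtype]; simp
      · rw [if_neg hg]
        symm
        simp only [Nat.cast_id, Finset.card_eq_zero]
        rw [Finset.filter_eq_empty_iff]
        rintro s - ⟨hs, hgs⟩
        apply hg
        have := N.mul_mem (hT hgs) (N.inv_mem (hT hs))
        simpa using this
    rw [Finset.sum_congr rfl (fun g _ => e1 g), Finset.sum_comm]
    have e2 : ∀ s : G, (∑ g : G, if (s ∈ T ∧ g * s ∈ T) then 1 else 0) = if s ∈ T then Nat.card T else 0 := by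
      intro s
      by_cases hs : s ∈ T
      · simp only [hs, true_and, if_true]
        rw [← Equiv.sum_comp (Equiv.mulRight s⁻¹)]
        simp only [Equiv.coe_mulRight, inv_mul_cancel_right]
        rw [Finset.sum_boole, Nat.card_eq_fintype_card, Fintype.card_subtype]
        simp
      · simp [hs]
    rw [Finset.sum_congr rfl (fun g _ => e2 g), ← Finset.sum_filter, Finset.sum_const, smul_eq_mul]
    congr 1
    rw [Nat.card_eq_fintype_card, Fintype.card_subtype]
  have hb : ∀ g : G, (if g ∈ N then Nat.card {s : G // s ∈ T ∧ g * s ∈ T} else 0) * (2 * R ^ 2) ≤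
      (if g ∈ L then Nat.card T * (2 * R ^ 2) else 0) + (if g ∈ N then Nat.card N else 0) := by
    intro g
    by_cases hg : g ∈ N
    · by_cases hgL : g ∈ L
      · rw [if_pos hg, if_pos hgL]
        refine le_trans (Nat.mul_le_mul_right _ ?_) (Nat.le_add_right _ _)
        rw [Nat.card_eq_fintype_card, Nat.card_eq_fintype_card]
        exact Fintype.card_le_of_injective (fun s => (⟨s.1, s.2.1⟩ : T))
          (fun a b hab => by simpa [Subtype.ext_iff] using hab)
      · rw [if_pos hg, if_neg hgL, if_pos hg, zero_add]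
        exact (h2 g hg hgL).le
    · rw [if_neg hg]; simp
  have hsum := Finset.sum_le_sum (s := Finset.univ) (fun g _ => hb g)
  rw [← Finset.sum_mul, key, Finset.sum_add_distrib, ← Finset.sum_filter, ← Finset.sum_filter,
    Finset.sum_const, Finset.sum_const, smul_eq_mul, smul_eq_mul] at hsum
  have cL : (Finset.univ.filter (fun g => g ∈ L)).card = Nat.card L := by
    rw [Nat.card_eq_fintype_card, Fintype.card_subtype]
  have cN : (Finset.univ.filter (fun g => g ∈ N)).card = Nat.card N := by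
    rw [Nat.card_eq_fintype_card, Fintype.card_subtype]
  rw [cL, cN] at hsum
  have hidx : Nat.card L * L.relIndex N = Nat.card N := by
    have := Subgroup.relIndex_mul_relIndex ⊥ L N bot_le hL
    simpa [Subgroup.relIndex_bot_left] using this
  have hLpos : 0 < Nat.card L := Nat.card_pos
  have hNpos : 0 < Nat.card N := Nat.card_pos
  obtain ⟨t, ht⟩ : ∃ t, t = Nat.card T := ⟨_, rfl⟩
  obtain ⟨l, hl⟩ : ∃ l, l = Nat.card L := ⟨_, rfl⟩
  obtain ⟨n, hn⟩ : ∃ n, n = Nat.card N := ⟨_, rfl⟩
  rw [← ht, ← hn] at h1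
  rw [← ht, ← hl, ← hn] at hsum
  rw [← hl, ← hn] at hidx
  rw [← hl] at hLpos
  rw [← hn] at hNpos
  have htpos : 0 < t := by
    rcases Nat.eq_zero_or_pos t with h0 | h0
    · rw [h0] at h1; omega
    · exact h0
  have hn2 : n * n ≤ t * R * (t * R) := Nat.mul_le_mul h1 h1
  have h3 : t * t * (2 * R ^ 2) ≤ l * (t * (2 * R ^ 2)) + t * R * (t * R) := hsum.trans (by omega)
  have h4 : t * (t * R ^ 2) ≤ t * ((2 * l) * R ^ 2) := by nlinarith
  have h5 : t ≤ 2 * l := by
    have := Nat.le_of_mul_le_mul_left h4 htpos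
    exact Nat.le_of_mul_le_mul_right this (by positivity)
  have h6 : l * L.relIndex N ≤ l * (2 * R) := by
    rw [hidx]
    calc n ≤ t * R := h1
      _ ≤ (2 * l) * R := Nat.mul_le_mul_right _ h5
      _ = l * (2 * R) := by ring
  exact Nat.le_of_mul_le_mul_left h6 hLpos

theorem dense1 [Finite G] (W : Submodule F (G → F)) [FiniteDimensional F W]
    (hW : ∀ g : G, ∀ f ∈ W, lt g f ∈ W)
    (N : Subgroup G) (S : Set G) (hS : S ⊆ N) (r : ℕ) (hr0 : 0 < r)
    (hr : Nat.card N ≤ Nat.card S * r) (D : ℕ) (hD : Module.finrank F W ≤ D) :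
    ∃ L ≤ N, L.relIndex N ≤ 2 * (rr r D) ∧
      ∃ s ∈ S, ∀ f ∈ W, (∀ s ∈ S, f s = 0) → ∀ h ∈ L, f (h * s) = 0 := by
  classical
  have hfd : ∀ T : Set G, FiniteDimensional F (van W T) := fun T =>
    Submodule.finiteDimensional_of_le (van_le W T)
  have hfr : ∀ T : Set G, Module.finrank F (van W T) ≤ D := fun T =>
    (Submodule.finrank_mono (van_le W T)).trans hD
  -- the family
  let P : ℕ → Prop := fun d => ∃ T : Set G, T ⊆ S ∧ Module.finrank F (van W T) = d ∧
    Nat.card N ≤ Nat.card T * rr r d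
  have hP : ∃ d, P d := ⟨_, S, subset_rfl, rfl, hr.trans (Nat.mul_le_mul_left _ (rr_mono r (Nat.zero_le _)))⟩
  have hPb : ∀ d, P d → d ≤ D := by
    rintro d ⟨T, -, hd, -⟩
    rw [← hd]; exact hfr T
  obtain ⟨d, hd⟩ : ∃ d, d = Nat.findGreatest P D := ⟨_, rfl⟩
  have hPd : P d := by
    obtain ⟨e, he⟩ := hP
    rw [hd]; exact Nat.findGreatest_spec (hPb e he) he
  have hmax : ∀ e, P e → e ≤ d := by
    intro e he
    rw [hd]; exact Nat.le_findGreatest (hPb e he) he
  obtain ⟨T, hTS, hTd, hTc⟩ := hPd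
  have hrpos : ∀ i, 0 < rr r i := fun i => lt_of_lt_of_le hr0 (rr_mono r (Nat.zero_le i))
  -- the set of good elements
  let A : Set G := {g | g ∈ N ∧ Nat.card N ≤ Nat.card {s : G // s ∈ T ∧ g * s ∈ T} * (2 * (rr r d) ^ 2)}
  have hstab : ∀ g ∈ A, ∀ f ∈ van W T, lt g f ∈ van W T := by
    rintro g ⟨hgN, hg⟩ f hf
    let U : Set G := {s | s ∈ T ∧ g * s ∈ T}
    have hUT : U ⊆ T := fun s hs => hs.1
    have hle : van W T ≤ van W U := van_anti W hUT
    have heq : van W T = van W U := by
      have := hfd U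
      apply Submodule.eq_of_le_of_finrank_le hle
      by_contra hlt
      push Not at hlt
      have hPU : P (Module.finrank F (van W U)) := by
        refine ⟨U, hUT.trans hTS, rfl, hg.trans (Nat.mul_le_mul_left _ ?_)⟩
        have : rr r (d + 1) ≤ rr r (Module.finrank F (van W U)) := rr_mono r (by omega)
        exact this
      have := hmax _ hPU
      omega
    rw [heq]
    refine ⟨hW g f hf.1, fun s hs => ?_⟩
    rw [lt_apply]
    exact hf.2 _ hs.2
  let L : Subgroup G := Subgroup.closure A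
  have hLN : L ≤ N := (Subgroup.closure_le N).mpr (fun g hg => hg.1)
  have hstabL : ∀ g ∈ L, ∀ f ∈ van W T, lt g f ∈ van W T := by
    intro g hg
    refine Subgroup.closure_induction (p := fun g _ => ∀ f ∈ van W T, lt g f ∈ van W T)
      hstab ?_ ?_ ?_ hg
    · intro f hf
      have : lt (1 : G) f = f := by funext h; simp [lt_apply]
      rw [this]; exact hf
    · intro a b _ _ ha hb f hf
      have : lt (a * b) f = lt b (lt a f) := by funext h; simp [lt_apply, mul_assoc]
      rw [this]; exact hb _ (ha _ hf)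
    · intro a _ ha
      have hpow : ∀ k : ℕ, ∀ f ∈ van W T, lt (a ^ k) f ∈ van W T := by
        intro k
        induction k with
        | zero => intro f hf
                  have : lt (a ^ 0) f = f := by funext h; simp [lt_apply]
                  rw [this]; exact hf
        | succ k ih => intro f hf
                       have : lt (a ^ (k + 1)) f = lt a (lt (a ^ k) f) := by
                         funext h; simp [lt_apply, pow_succ, mul_assoc]
                       rw [this]; exact ha _ (ih _ hf)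
      have hinv : a⁻¹ = a ^ (orderOf a - 1) := by
        rw [inv_eq_iff_mul_eq_one, ← pow_succ', Nat.sub_add_cancel (orderOf_pos a), pow_orderOf_eq_one]
      rw [hinv]; exact hpow _
  have hidx : L.relIndex N ≤ 2 * rr r d := by
    apply count N L hLN T (hTS.trans hS) (rr r d) (hrpos d) hTc
    intro g hgN hgL
    by_contra hcon
    push Not at hcon
    exact hgL (Subgroup.subset_closure ⟨hgN, hcon⟩)
  have hTne : T.Nonempty := by
    by_contra hcon
    rw [Set.not_nonempty_iff_eq_empty] at hcon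
    rw [hcon] at hTc
    have : 0 < Nat.card N := Nat.card_pos
    simp at hTc
    omega
  obtain ⟨s, hs⟩ := hTne
  refine ⟨L, hLN, hidx.trans (Nat.mul_le_mul_left _ (rr_mono r ?_)), s, hTS hs, ?_⟩
  · rw [← hTd]; exact hfr T
  · intro f hf hfS h hh
    have hfT : f ∈ van W T := ⟨hf, fun t ht => hfS t (hTS ht)⟩
    have := (hstabL h hh f hfT).2 s hs
    rwa [lt_apply] at this

/-- a subgroup of bounded index whose closure does not shrink -/
theorem exists_stable [Finite G] (W : Submodule F (G → F)) [FiniteDimensional F W] (D : ℕ)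
    (hD : Module.finrank F W ≤ D) (c : ℕ) (hc : 0 < c) :
    ∃ N : Subgroup G, N.index ≤ c ^ D ∧
      ∀ N' ≤ N, N'.relIndex N ≤ c → ∀ f ∈ W, (∀ x ∈ N', f x = 0) → ∀ x ∈ N, f x = 0 := by
  classical
  have hfd : ∀ T : Set G, FiniteDimensional F (van W T) := fun T =>
    Submodule.finiteDimensional_of_le (van_le W T)
  have hfr : ∀ T : Set G, Module.finrank F (van W T) ≤ D := fun T =>
    (Submodule.finrank_mono (van_le W T)).trans hD
  let P : ℕ → Prop := fun d => ∃ N : Subgroup G, Module.finrank F (van W (N : Set G)) = d ∧ N.index ≤ c ^ d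
  have hP : ∃ d, P d := ⟨_, ⊤, rfl, by
    rw [Subgroup.index_top]; exact Nat.one_le_pow _ _ hc⟩
  have hPb : ∀ d, P d → d ≤ D := by
    rintro d ⟨T, hd, -⟩
    rw [← hd]; exact hfr T
  obtain ⟨d, hd⟩ : ∃ d, d = Nat.findGreatest P D := ⟨_, rfl⟩
  have hPd : P d := by
    obtain ⟨e, he⟩ := hP
    rw [hd]; exact Nat.findGreatest_spec (hPb e he) he
  have hmax : ∀ e, P e → e ≤ d := by
    intro e he
    rw [hd]; exact Nat.le_findGreatest (hPb e he) he
  obtain ⟨N, hNd, hNi⟩ := hPd
  have hdD : d ≤ D := hPb d ⟨N, hNd, hNi⟩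
  refine ⟨N, hNi.trans (Nat.pow_le_pow_right hc hdD), ?_⟩
  intro N' hN' hidx f hf hf' x hx
  have hle : van W (N : Set G) ≤ van W (N' : Set G) := van_anti W hN'
  have heq : van W (N : Set G) = van W (N' : Set G) := by
    have := hfd (N' : Set G)
    apply Submodule.eq_of_le_of_finrank_le hle
    by_contra hlt
    push Not at hlt
    have hPU : P (Module.finrank F (van W (N' : Set G))) := by
      refine ⟨N', rfl, ?_⟩
      have h1 : N'.index = N'.relIndex N * N.index := (Subgroup.relIndex_mul_index hN').symm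
      rw [h1]
      calc N'.relIndex N * N.index ≤ c * c ^ d := Nat.mul_le_mul hidx hNi
        _ = c ^ (d + 1) := by rw [pow_succ']
        _ ≤ _ := Nat.pow_le_pow_right hc (by omega)
    have := hmax _ hPU
    omega
  have hfm : f ∈ van W (N' : Set G) := ⟨hf, fun s hs => hf' s hs⟩
  rw [← heq] at hfm
  exact hfm.2 x hx

/-- combined density statement -/
theorem exists_dense [Finite G] (W : Submodule F (G → F)) [FiniteDimensional F W]
    (hW : ∀ g : G, ∀ f ∈ W, lt g f ∈ W) (hW' : ∀ g : G, ∀ f ∈ W, rt g f ∈ W)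
    (D : ℕ) (hD : Module.finrank F W ≤ D) (r : ℕ) (hr0 : 0 < r) :
    ∃ N : Subgroup G, N.index ≤ (2 * rr r D) ^ D ∧
      ∀ S : Set G, S ⊆ N → Nat.card N ≤ Nat.card S * r →
        ∀ f ∈ W, (∀ s ∈ S, f s = 0) → ∀ x ∈ N, f x = 0 := by
  have hrpos : ∀ i, 0 < rr r i := fun i => lt_of_lt_of_le hr0 (rr_mono r (Nat.zero_le i))
  obtain ⟨N, hNi, hN⟩ := exists_stable W D hD (2 * rr r D) (by have := hrpos D; omega)
  refine ⟨N, hNi, ?_⟩
  intro S hS hc f hf hfS x hx
  obtain ⟨L, hLN, hLi, s, hs, hL⟩ := dense1 W hW N S hS r hr0 hc D hD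
  have h1 : ∀ y ∈ N, rt s f y = 0 := by
    apply hN L hLN hLi _ (hW' s f hf)
    intro y hy
    rw [rt_apply]
    exact hL f hf hfS y hy
  have := h1 (x * s⁻¹) (N.mul_mem hx (N.inv_mem (hS hs)))
  rwa [rt_apply, inv_mul_cancel_right] at this

end Cfsg.Agent.H26.BF
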