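import Mathlib
import Cfsg.Agent.H26_BF1

/-!
# Polynomial functions on a finite linear group
-/

set_option autoImplicit false
universe u v

namespace Cfsg.Agent.H26.BF

open Polynomial

variable {G : Type u} [Group G] {F : Type v} [Field F] {n : ℕ}

/-- matrix coefficient -/
def cf (A : G →* Matrix (Fin n) (Fin n) F) (ij : Fin n × Fin n) : G → F := fun g => A g ij.1 ij.2

/-- affine functions -/
def C (A : G →* Matrix (Fin n) (Fin n) F) : Submodule F (G → F) :=
  Submodule.span F ({1} ∪ Set.range (cf A))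

theorem one_le_C (A : G →* Matrix (Fin n) (Fin n) F) : (1 : Submodule F (G → F)) ≤ C A := by
  rw [Submodule.one_le]
  exact Submodule.subset_span (Or.inl rfl)

theorem C_mono (A : G →* Matrix (Fin n) (Fin n) F) {a b : ℕ} (h : a ≤ b) : C A ^ a ≤ C A ^ b := by
  obtain ⟨c, rfl⟩ := Nat.exists_eq_add_of_le h
  rw [pow_add]
  have : (1 : Submodule F (G → F)) ≤ C A ^ c := by
    rw [Submodule.one_le]
    have := Submodule.pow_mem_pow (C A) ((Submodule.one_le.mp (one_le_C A))) c
    simpa using this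
  calc C A ^ a = C A ^ a * 1 := (mul_one _).symm
    _ ≤ _ := by gcongr

theorem coef_mem (A : G →* Matrix (Fin n) (Fin n) F) (l : Matrix (Fin n) (Fin n) F →ₗ[F] F) :
    (fun g => l (A g)) ∈ C A := by
  have : (fun g => l (A g)) = ∑ i, ∑ j, (l (Matrix.single i j 1)) • cf A (i, j) := by
    funext g
    conv_lhs => rw [Matrix.matrix_eq_sum_single (A g)]
    simp only [map_sum, Finset.sum_apply, Pi.smul_apply, cf, smul_eq_mul]
    refine Finset.sum_congr rfl (fun i _ => Finset.sum_congr rfl (fun j _ => ?_))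
    have : Matrix.single i j (A g i j) = (A g i j) • Matrix.single i j (1 : F) := by
      rw [Matrix.smul_single]; simp
    rw [this, map_smul, smul_eq_mul, mul_comm]
  rw [this]
  refine Submodule.sum_mem _ (fun i _ => Submodule.sum_mem _ (fun j _ => Submodule.smul_mem _ _ ?_))
  exact Submodule.subset_span (Or.inr ⟨(i, j), rfl⟩)

theorem pow_mem (A : G →* Matrix (Fin n) (Fin n) F) (s : ℕ) :
    ∀ l : Matrix (Fin n) (Fin n) F →ₗ[F] F, (fun g => l ((A g) ^ s)) ∈ C A ^ s := by
  induction s with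
  | zero =>
    intro l
    rw [pow_zero]
    rw [Submodule.mem_one]
    exact ⟨l 1, by funext g; simp⟩
  | succ s ih =>
    intro l
    rw [pow_succ]
    have : (fun g => l ((A g) ^ (s + 1))) =
        ∑ i, ∑ j, (fun g => ((A g) ^ s) i j) * (fun g => l (Matrix.single i j (1 : F) * A g)) := by
      funext g
      simp only [Finset.sum_apply, Pi.mul_apply]
      conv_lhs => rw [pow_succ, Matrix.matrix_eq_sum_single ((A g) ^ s)]
      simp only [Finset.sum_mul, map_sum]
      refine Finset.sum_congr rfl (fun i _ => Finset.sum_congr rfl (fun j _ => ?_))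
      have : Matrix.single i j (((A g) ^ s) i j) = (((A g) ^ s) i j) • Matrix.single i j (1 : F) := by
        rw [Matrix.smul_single]; simp
      rw [this, Matrix.smul_mul, map_smul, smul_eq_mul]
    rw [this]
    refine Submodule.sum_mem _ (fun i _ => Submodule.sum_mem _ (fun j _ => Submodule.mul_mem_mul ?_ ?_))
    · exact ih ((LinearMap.proj j).comp (LinearMap.proj i : Matrix (Fin n) (Fin n) F →ₗ[F] (Fin n → F)))
    · exact coef_mem A (l.comp (LinearMap.mulLeft F (Matrix.single i j (1 : F))))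

theorem lt_C (A : G →* Matrix (Fin n) (Fin n) F) (g : G) : (C A).map (lt g).toLinearMap ≤ C A := by
  rw [C, Submodule.map_span, Submodule.span_le]
  rintro _ ⟨f, (hf | ⟨⟨i, j⟩, rfl⟩), rfl⟩
  · rw [Set.mem_singleton_iff] at hf
    rw [hf]
    exact Submodule.subset_span (Or.inl (by simp))
  · have : (lt g).toLinearMap (cf A (i, j)) = ∑ k, (A g i k) • cf A (k, j) := by
      funext h
      simp only [AlgHom.toLinearMap_apply, lt_apply, cf, Finset.sum_apply, Pi.smul_apply, map_mul,
        Matrix.mul_apply, smul_eq_mul]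
    rw [this]
    exact Submodule.sum_mem _ (fun k _ => Submodule.smul_mem _ _ (Submodule.subset_span (Or.inr ⟨_, rfl⟩)))

theorem rt_C (A : G →* Matrix (Fin n) (Fin n) F) (g : G) : (C A).map (rt g).toLinearMap ≤ C A := by
  rw [C, Submodule.map_span, Submodule.span_le]
  rintro _ ⟨f, (hf | ⟨⟨i, j⟩, rfl⟩), rfl⟩
  · rw [Set.mem_singleton_iff] at hf
    rw [hf]
    exact Submodule.subset_span (Or.inl (by simp))
  · have : (rt g).toLinearMap (cf A (i, j)) = ∑ k, (A g k j) • cf A (i, k) := by
      funext h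
      simp only [AlgHom.toLinearMap_apply, rt_apply, cf, Finset.sum_apply, Pi.smul_apply, map_mul,
        Matrix.mul_apply, smul_eq_mul]
      exact Finset.sum_congr rfl (fun k _ => mul_comm _ _)
    rw [this]
    exact Submodule.sum_mem _ (fun k _ => Submodule.smul_mem _ _ (Submodule.subset_span (Or.inr ⟨_, rfl⟩)))

theorem lt_pow (A : G →* Matrix (Fin n) (Fin n) F) (d : ℕ) (g : G) :
    ∀ f ∈ C A ^ d, lt g f ∈ C A ^ d := by
  intro f hf
  have h1 : (lt g).toLinearMap f ∈ (C A ^ d).map (lt g).toLinearMap := Submodule.mem_map_of_mem hf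
  rw [Submodule.map_pow] at h1
  exact (pow_le_pow_left' (lt_C A g) d) h1

theorem rt_pow (A : G →* Matrix (Fin n) (Fin n) F) (d : ℕ) (g : G) :
    ∀ f ∈ C A ^ d, rt g f ∈ C A ^ d := by
  intro f hf
  have h1 : (rt g).toLinearMap f ∈ (C A ^ d).map (rt g).toLinearMap := Submodule.mem_map_of_mem hf
  rw [Submodule.map_pow] at h1
  exact (pow_le_pow_left' (rt_C A g) d) h1

theorem finrank_pow (A : G →* Matrix (Fin n) (Fin n) F) (d : ℕ) :
    Module.finrank F (C A ^ d : Submodule F (G → F)) ≤ (n * n + 1) ^ d := by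
  classical
  have h1 : C A = Submodule.span F ((insert 1 (Finset.univ.image (cf A)) : Finset (G → F)) : Set (G → F)) := by
    rw [C]; congr 1; ext f; simp
  rw [h1, Submodule.span_pow, ← Finset.coe_pow]
  refine (finrank_span_finset_le_card _).trans ?_
  refine (Finset.card_pow_le).trans ?_
  refine Nat.pow_le_pow_left ?_ d
  refine (Finset.card_insert_le _ _).trans ?_
  refine Nat.add_le_add_right ?_ 1
  refine (Finset.card_image_le).trans ?_
  simp

instance fd_pow (A : G →* Matrix (Fin n) (Fin n) F) (d : ℕ) :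
    FiniteDimensional F (C A ^ d : Submodule F (G → F)) := by
  classical
  have h1 : C A = Submodule.span F ((insert 1 (Finset.univ.image (cf A)) : Finset (G → F)) : Set (G → F)) := by
    rw [C]; congr 1; ext f; simp
  rw [h1, Submodule.span_pow, ← Finset.coe_pow]
  exact FiniteDimensional.span_finset F _

theorem prod_mem (A : G →* Matrix (Fin n) (Fin n) F) {ι : Type*} (s : Finset ι) (f : ι → G → F) (m : ι → ℕ)
    (h : ∀ i ∈ s, f i ∈ C A ^ (m i)) : (∏ i ∈ s, f i) ∈ C A ^ (∑ i ∈ s, m i) := by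
  classical
  induction s using Finset.induction_on with
  | empty => simp
  | insert a s ha ih =>
    rw [Finset.prod_insert ha, Finset.sum_insert ha, pow_add]
    exact Submodule.mul_mem_mul (h a (Finset.mem_insert_self _ _))
      (ih (fun i hi => h i (Finset.mem_insert_of_mem hi)))

/-- the determinant test function -/
def dt (A : G →* Matrix (Fin n) (Fin n) F) (e k : ℕ)
    (l : Fin k → (Matrix (Fin n) (Fin n) F →ₗ[F] F)) : G → F :=
  fun g => Matrix.det (Matrix.of (fun a s : Fin k => l a ((A g) ^ (e * (s : ℕ)))))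

theorem dt_mem (A : G →* Matrix (Fin n) (Fin n) F) (e k : ℕ)
    (l : Fin k → (Matrix (Fin n) (Fin n) F →ₗ[F] F)) {d : ℕ} (hd : e * k * k ≤ d) :
    dt A e k l ∈ C A ^ d := by
  classical
  refine C_mono A hd ?_
  have : dt A e k l = ∑ σ : Equiv.Perm (Fin k), ((Equiv.Perm.sign σ : ℤ) : F) •
      ∏ s : Fin k, (fun g => l (σ s) ((A g) ^ (e * (s : ℕ)))) := by
    funext g
    rw [dt, Matrix.det_apply]
    simp only [Finset.sum_apply, Pi.smul_apply, Finset.prod_apply, Matrix.of_apply, smul_eq_mul]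
    refine Finset.sum_congr rfl (fun σ _ => ?_)
    rw [Units.smul_def, zsmul_eq_mul]
  rw [this]
  refine Submodule.sum_mem _ (fun σ _ => Submodule.smul_mem _ _ ?_)
  have h1 := prod_mem A Finset.univ (fun s : Fin k => fun g => l (σ s) ((A g) ^ (e * (s : ℕ))))
    (fun s : Fin k => e * (s : ℕ)) (fun s _ => pow_mem A _ _)
  refine C_mono A ?_ h1
  calc ∑ s : Fin k, e * (s : ℕ) ≤ ∑ s : Fin k, e * k :=
        Finset.sum_le_sum (fun s _ => Nat.mul_le_mul_left _ s.2.le)
    _ = e * k * k := by rw [Finset.sum_const, Finset.card_univ, Fintype.card_fin, smul_eq_mul]; ring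

theorem dt_eq_zero (A : G →* Matrix (Fin n) (Fin n) F) (e k : ℕ) (g : G)
    (h : ¬ LinearIndependent F (fun s : Fin k => (A g) ^ (e * (s : ℕ))))
    (l : Fin k → (Matrix (Fin n) (Fin n) F →ₗ[F] F)) : dt A e k l g = 0 := by
  classical
  by_contra hne
  apply h
  rw [Fintype.linearIndependent_iff]
  intro c hc
  have h1 : Matrix.mulVec (Matrix.of (fun a s : Fin k => l a ((A g) ^ (e * (s : ℕ))))) c = 0 := by
    funext a
    simp only [Matrix.mulVec, dotProduct, Matrix.of_apply, Pi.zero_apply]
    have := congrArg (l a) hc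
    rw [map_sum, map_zero] at this
    rw [← this]
    refine Finset.sum_congr rfl (fun s _ => ?_)
    rw [map_smul, smul_eq_mul, mul_comm]
  have h2 := Matrix.eq_zero_of_mulVec_eq_zero hne h1
  exact fun i => congrFun h2 i

theorem exists_dt (A : G →* Matrix (Fin n) (Fin n) F) (e k : ℕ) (g : G)
    (h : LinearIndependent F (fun s : Fin k => (A g) ^ (e * (s : ℕ)))) :
    ∃ l : Fin k → (Matrix (Fin n) (Fin n) F →ₗ[F] F), dt A e k l g ≠ 0 := by
  classical
  let b := Module.Basis.span h
  have hb : ∀ a : Fin k, ∃ l : Matrix (Fin n) (Fin n) F →ₗ[F] F,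
      ∀ s : Fin k, l ((A g) ^ (e * (s : ℕ))) = if s = a then 1 else 0 := by
    intro a
    obtain ⟨l, hl⟩ := LinearMap.exists_extend (b.coord a)
    refine ⟨l, fun s => ?_⟩
    have h1 := congrArg (fun f => f (b s)) hl
    simp only [LinearMap.comp_apply, Submodule.subtype_apply] at h1
    have h2 : ((b s : Submodule.span F (Set.range (fun s : Fin k => (A g) ^ (e * (s : ℕ))))) :
        Matrix (Fin n) (Fin n) F) = (A g) ^ (e * (s : ℕ)) := by
      rw [Module.Basis.span_apply]
    rw [h2] at h1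
    rw [h1, Module.Basis.coord_apply, Module.Basis.repr_self, Finsupp.single_apply]
  choose l hl using hb
  refine ⟨l, ?_⟩
  have : (Matrix.of (fun a s : Fin k => l a ((A g) ^ (e * (s : ℕ))))) = 1 := by
    ext a s
    rw [Matrix.of_apply, hl, Matrix.one_apply]
    by_cases hs : s = a
    · rw [if_pos hs, if_pos hs.symm]
    · rw [if_neg hs, if_neg (fun h => hs h.symm)]
  rw [dt, this, Matrix.det_one]
  exact one_ne_zero

/-- the minimal polynomial degree -/
noncomputable def mu (T : Matrix (Fin n) (Fin n) F) : ℕ := (minpoly F T).natDegree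

theorem mu_le (T : Matrix (Fin n) (Fin n) F) : mu T ≤ n := by
  have h1 := Matrix.minpoly_dvd_charpoly T
  have h2 := Polynomial.natDegree_le_of_dvd h1 (Matrix.charpoly_monic T).ne_zero
  rwa [Matrix.charpoly_natDegree_eq_dim, Fintype.card_fin] at h2

theorem mem_span_pow (U : Matrix (Fin n) (Fin n) F) (P : F[X]) :
    aeval U P ∈ Submodule.span F (Set.range (fun i : Fin (mu U) => U ^ (i : ℕ))) := by
  have hint : IsIntegral F U := Algebra.IsIntegral.isIntegral U
  have hmon := minpoly.monic hint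
  have h1 : aeval U P = aeval U (P %ₘ minpoly F U) := by
    conv_lhs => rw [← Polynomial.modByMonic_add_div P (minpoly F U)]
    simp
  rw [h1]
  by_cases hU : minpoly F U = 1
  · rw [hU, Polynomial.modByMonic_one, map_zero]; exact Submodule.zero_mem _
  have hdeg : (P %ₘ minpoly F U).natDegree < mu U := Polynomial.natDegree_modByMonic_lt _ hmon hU
  rw [Polynomial.aeval_eq_sum_range' hdeg, Finset.sum_range]
  exact Submodule.sum_mem _ (fun i _ => Submodule.smul_mem _ _ (Submodule.subset_span ⟨i, rfl⟩))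

theorem le_of_indep {k m : ℕ} {M : Type*} [AddCommGroup M] [Module F M] (v : Fin k → M) (w : Fin m → M)
    (hv : LinearIndependent F v) (h : ∀ i, v i ∈ Submodule.span F (Set.range w)) : k ≤ m := by
  classical
  have h1 := linearIndependent_le_span' v hv (Set.range w) (by
    rintro _ ⟨i, rfl⟩; exact h i)
  simp only [Cardinal.mk_fin, Nat.cast_le] at h1
  exact h1.trans ((Fintype.card_range_le w).trans (by simp))

theorem indep_of_le (U : Matrix (Fin n) (Fin n) F) {k : ℕ} (h : k ≤ mu U) :
    LinearIndependent F (fun i : Fin k => U ^ (i : ℕ)) := by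
  have h1 := linearIndependent_pow (K := F) U
  exact h1.comp (Fin.castLE h) (Fin.castLE_injective h)

theorem le_of_indep' (U : Matrix (Fin n) (Fin n) F) {k : ℕ}
    (h : LinearIndependent F (fun i : Fin k => U ^ (i : ℕ))) : k ≤ mu U := by
  apply le_of_indep _ _ h
  intro i
  have := mem_span_pow U (X ^ (i : ℕ))
  simpa using this

/-- the key lemma: a matrix which is a polynomial in its `q`-th power has no unipotent part -/
theorem eq_one_of (p m r a : ℕ) [Fact p.Prime] [CharP F p] (T : Matrix (Fin n) (Fin n) F) (P : F[X])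
    (hP : aeval (T ^ (p ^ m)) P = T) (hr : ¬ p ∣ r) (hU : (T ^ (p ^ m)) ^ r = 1)
    (hw : (T ^ a) ^ (p ^ m) = 1) : T ^ a = 1 := by
  have hint : IsIntegral F (T ^ (p ^ m)) := Algebra.IsIntegral.isIntegral _
  have hr0 : r ≠ 0 := fun h => hr (h ▸ dvd_zero p)
  have hrF : (r : F) ≠ 0 := fun h => hr ((CharP.cast_eq_zero_iff F p r).mp h)
  have hsep : (X ^ r - 1 : F[X]).Separable := by
    rw [Polynomial.X_pow_sub_one_separable_iff]; exact hrF
  have hdvd : minpoly F (T ^ (p ^ m)) ∣ X ^ r - 1 := minpoly.dvd _ _ (by simp [hU])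
  have hsq : Squarefree (minpoly F (T ^ (p ^ m))) := (hsep.of_dvd hdvd).squarefree
  have hrad : IsRadical (minpoly F (T ^ (p ^ m))) := hsq.isRadical
  have h1 : aeval (T ^ (p ^ m)) ((P ^ a - 1) ^ (p ^ m)) = 0 := by
    have : (P ^ a - 1) ^ (p ^ m) = (P ^ a) ^ (p ^ m) - 1 := by
      rw [sub_pow_char_pow]; simp
    rw [this, map_sub, map_pow, map_pow, hP, hw, map_one, sub_self]
  have h2 := hrad _ _ (minpoly.dvd _ _ h1)
  obtain ⟨Q, hQ⟩ := h2
  have h3 : aeval (T ^ (p ^ m)) (P ^ a - 1) = 0 := by rw [hQ, map_mul, minpoly.aeval, zero_mul]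
  rw [map_sub, map_pow, hP, map_one, sub_eq_zero] at h3
  exact h3

end Cfsg.Agent.H26.BF
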