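import Mathlib
import Cfsg.Agent.H26_BF2

/-!
# A finite linear group in characteristic `p` has a `p'`-subgroup of bounded index
-/

set_option autoImplicit false
universe u v

namespace Cfsg.Agent.H26.BF

open Polynomial

variable {G : Type u} [Group G] {F : Type v} [Field F] {n : ℕ}

theorem mu_le_of_pow (T : Matrix (Fin n) (Fin n) F) (q e : ℕ) (h : (T ^ q) ^ e = T) : mu T ≤ mu (T ^ q) := by
  apply le_of_indep _ _ (indep_of_le T le_rfl)
  intro i
  have h1 := mem_span_pow (T ^ q) (X ^ (e * (i : ℕ)))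
  rw [map_pow, aeval_X, pow_mul, h] at h1
  exact h1

/-- the bound -/
def cc (n q : ℕ) : ℕ := (2 * rr q ((n * n + 1) ^ (q * (n + 1) * (n + 1)))) ^ ((n * n + 1) ^ (q * (n + 1) * (n + 1)))

theorem bounded_pprime (p : ℕ) [hp : Fact p.Prime] [CharP F p] [Finite G]
    (A : G →* Matrix (Fin n) (Fin n) F) (hA : Function.Injective A) :
    ∃ N : Subgroup G, N.index ≤ cc n (p ^ (Nat.card G).factorization p) ∧ ¬ p ∣ Nat.card N := by
  classical
  obtain ⟨q, hq⟩ : ∃ q, q = p ^ (Nat.card G).factorization p := ⟨_, rfl⟩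
  have hq0 : 0 < q := by rw [hq]; exact pow_pos hp.out.pos _
  obtain ⟨d, hd⟩ : ∃ d, d = q * (n + 1) * (n + 1) := ⟨_, rfl⟩
  obtain ⟨N, hNi, hN⟩ := exists_dense (C A ^ d) (lt_pow A d) (rt_pow A d) ((n * n + 1) ^ d)
    (finrank_pow A d) q hq0
  refine ⟨N, ?_, ?_⟩
  · rw [← hq, cc, ← hd]; exact hNi
  intro hpN
  have hdense : ∀ S : Set G, S ⊆ N → Nat.card N ≤ Nat.card S * q → ∀ e k : ℕ, e * k * k ≤ d →
      (∀ s ∈ S, ¬ LinearIndependent F (fun i : Fin k => (A s) ^ (e * (i : ℕ)))) →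
      ∀ x ∈ N, ¬ LinearIndependent F (fun i : Fin k => (A x) ^ (e * (i : ℕ))) := by
    intro S hS hc e k hek h x hx hi
    obtain ⟨l, hl⟩ := exists_dt A e k x hi
    exact hl (hN S hS hc (dt A e k l) (dt_mem A e k l hek) (fun s hs => dt_eq_zero A e k s (h s hs) l) x hx)
  -- maximal degree
  obtain ⟨g0, hg0⟩ := Finite.exists_max (fun x : N => mu ((A x) ^ q))
  obtain ⟨J, hJ⟩ : ∃ J, J = mu ((A g0) ^ q) := ⟨_, rfl⟩
  have hJn : J ≤ n := by rw [hJ]; exact mu_le _
  have hmax : ∀ x ∈ N, mu ((A x) ^ q) ≤ J := fun x hx => by rw [hJ]; exact hg0 ⟨x, hx⟩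
  -- numbers
  obtain ⟨r, hr⟩ : ∃ r, r = Nat.card N / p ^ (Nat.card N).factorization p := ⟨_, rfl⟩
  have hNpos : Nat.card N ≠ 0 := Nat.card_pos.ne'
  have hfac : p ^ (Nat.card N).factorization p * r = Nat.card N := by
    rw [hr]; exact Nat.ordProj_mul_ordCompl_eq_self _ _
  have hpr : ¬ p ∣ r := by rw [hr]; exact Nat.not_dvd_ordCompl hp.out hNpos
  have hqN : p ^ (Nat.card N).factorization p ∣ q := by
    rw [hq]
    apply pow_dvd_pow
    exact (Nat.factorization_le_iff_dvd hNpos Nat.card_pos.ne').mpr (Subgroup.card_subgroup_dvd_card N) p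
  have hNqr : Nat.card N ∣ q * r := by
    rw [← hfac]; exact Nat.mul_dvd_mul_right hqN r
  have hr0 : 0 < r := Nat.pos_of_ne_zero (fun h => hpr (h ▸ dvd_zero p))
  have hxN : ∀ x ∈ N, x ^ (q * r) = 1 := by
    intro x hx
    have h1 : orderOf x ∣ Nat.card N := Subgroup.orderOf_dvd_natCard N hx
    exact orderOf_dvd_iff_pow_eq_one.mp (h1.trans hNqr)
  have hNle : Nat.card N ≤ r * q := by
    rw [mul_comm]
    exact Nat.le_of_dvd (Nat.mul_pos hq0 hr0) hNqr
  -- the two sets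
  let R : Set G := {x | x ∈ N ∧ x ^ r = 1}
  let S : Set G := {x | x ∈ N ∧ x ^ r ≠ 1}
  have hcR : Nat.card R = Nat.card {g : N // g ^ r = 1} := by
    refine Nat.card_congr ⟨fun x => ⟨⟨x.1, x.2.1⟩, Subtype.ext x.2.2⟩, fun x => ⟨x.1.1, x.1.2, congrArg Subtype.val x.2⟩,
      fun x => rfl, fun x => rfl⟩
  have hrR : r ∣ Nat.card R := by
    rw [hcR]; exact H23.Count.frobenius r ⟨_, by rw [mul_comm]; exact hfac.symm⟩
  have hsum : Nat.card R + Nat.card S = Nat.card N := by
    have e : N ≃ R ⊕ S := 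
      ⟨fun x => if h : x.1 ^ r = 1 then Sum.inl ⟨x.1, x.2, h⟩ else Sum.inr ⟨x.1, x.2, h⟩,
       fun y => Sum.elim (fun z => ⟨z.1, z.2.1⟩) (fun z => ⟨z.1, z.2.1⟩) y,
       fun x => by by_cases h : x.1 ^ r = 1 <;> simp [h],
       fun y => by
        rcases y with ⟨z, hz1, hz2⟩ | ⟨z, hz1, hz2⟩
        · simp [hz2]
        · simp [hz2]⟩
    rw [Nat.card_congr e, Nat.card_sum]
  have hRpos : 0 < Nat.card R := by
    have : Nonempty R := ⟨⟨1, N.one_mem, one_pow r⟩⟩
    exact Nat.card_pos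
  have hSpos : 0 < Nat.card S := by
    obtain ⟨x, hx⟩ := exists_prime_orderOf_dvd_card' (G := N) p hpN
    have : Nonempty S := ⟨⟨x.1, x.2, fun h => by
      have h1 : x ^ r = 1 := Subtype.ext h
      have h2 := orderOf_dvd_of_pow_eq_one h1
      rw [hx] at h2
      exact hpr h2⟩⟩
    exact Nat.card_pos
  have hrS : r ∣ Nat.card S := by
    have h1 : r ∣ Nat.card N := ⟨_, by rw [mul_comm]; exact hfac.symm⟩
    rw [← hsum] at h1
    exact (Nat.dvd_add_right hrR).mp h1
  have hRN : R ⊆ N := fun x hx => hx.1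
  have hSN : S ⊆ N := fun x hx => hx.1
  have hRc : Nat.card N ≤ Nat.card R * q := hNle.trans (Nat.mul_le_mul_right _ (Nat.le_of_dvd hRpos hrR))
  have hSc : Nat.card N ≤ Nat.card S * q := hNle.trans (Nat.mul_le_mul_right _ (Nat.le_of_dvd hSpos hrS))
  -- step 1
  have hd1 : 1 * (J + 1) * (J + 1) ≤ d := by
    rw [hd]
    have h1 : (J + 1) * (J + 1) ≤ (n + 1) * (n + 1) := Nat.mul_le_mul (by omega) (by omega)
    calc 1 * (J + 1) * (J + 1) = 1 * ((J + 1) * (J + 1)) := by ring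
      _ ≤ q * ((n + 1) * (n + 1)) := Nat.mul_le_mul hq0 h1
      _ = _ := by ring
  have hd2 : q * J * J ≤ d := by
    rw [hd]
    have h1 : J * J ≤ (n + 1) * (n + 1) := Nat.mul_le_mul (by omega) (by omega)
    calc q * J * J = q * (J * J) := by ring
      _ ≤ q * ((n + 1) * (n + 1)) := Nat.mul_le_mul_left _ h1
      _ = _ := by ring
  have hcop : Nat.Coprime q r := by
    rw [hq]; exact Nat.Coprime.pow_left _ ((Nat.Prime.coprime_iff_not_dvd hp.out).mpr hpr)
  have step1 : ∀ x ∈ N, mu (A x) ≤ J := by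
    intro x hx
    by_contra hcon
    push Not at hcon
    have h1 : LinearIndependent F (fun i : Fin (J + 1) => (A x) ^ (1 * (i : ℕ))) := by
      simp only [one_mul]; exact indep_of_le _ hcon
    refine hdense R hRN hRc 1 (J + 1) hd1 ?_ x hx h1
    rintro y ⟨hyN, hyr⟩ hi
    simp only [one_mul] at hi
    have h2 := le_of_indep' (A y) hi
    have h3 : mu (A y) ≤ mu ((A y) ^ q) := by
      obtain ⟨e, he⟩ : ∃ e, (y ^ q) ^ e = y := by
        have hcy : Nat.Coprime (orderOf y) q := by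
          have := orderOf_dvd_of_pow_eq_one hyr
          exact (Nat.Coprime.coprime_dvd_right this hcop).symm
        obtain ⟨e, he⟩ := exists_pow_eq_self_of_coprime (n := q) (x := y) hcy.symm
        exact ⟨e, he⟩
      apply mu_le_of_pow _ q e
      rw [← map_pow, ← map_pow, he]
    have h4 := hmax y hyN
    omega
  -- step 2
  have step2 : ∀ x ∈ S, ¬ LinearIndependent F (fun i : Fin J => (A x) ^ (q * (i : ℕ))) := by
    rintro x ⟨hxN', hxr⟩ hi
    have hi' : LinearIndependent F (fun i : Fin J => ((A x) ^ q) ^ (i : ℕ)) := by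
      simpa only [pow_mul] using hi
    have hT : (A x) ∈ Submodule.span F (Set.range (fun i : Fin J => ((A x) ^ q) ^ (i : ℕ))) := by
      by_contra hnot
      have h1 : LinearIndependent F (Fin.cons (A x) (fun i : Fin J => ((A x) ^ q) ^ (i : ℕ)) :
          Fin (J + 1) → Matrix (Fin n) (Fin n) F) := linearIndependent_finCons.mpr ⟨hi', hnot⟩
      have h2 := le_of_indep _ (fun i : Fin (mu (A x)) => (A x) ^ (i : ℕ)) h1 (by
        intro i
        refine Fin.cases ?_ (fun j => ?_) i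
        · rw [Fin.cons_zero]
          have := mem_span_pow (A x) X
          rwa [aeval_X] at this
        · rw [Fin.cons_succ, ← pow_mul]
          have := mem_span_pow (A x) (X ^ (q * (j : ℕ)))
          rwa [map_pow, aeval_X] at this)
      have := step1 x hxN'
      omega
    obtain ⟨P, hP⟩ : ∃ P : F[X], aeval ((A x) ^ q) P = A x := by
      have hle : Submodule.span F (Set.range (fun i : Fin J => ((A x) ^ q) ^ (i : ℕ))) ≤
          (aeval ((A x) ^ q) : F[X] →ₐ[F] Matrix (Fin n) (Fin n) F).range.toSubmodule := by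
        rw [Submodule.span_le]
        rintro _ ⟨i, rfl⟩
        exact ⟨X ^ (i : ℕ), by simp⟩
      obtain ⟨P, hP⟩ := hle hT
      exact ⟨P, hP⟩
    have h1 : ((A x) ^ q) ^ r = 1 := by rw [← pow_mul, ← map_pow, hxN x hxN', map_one]
    have h2 : ((A x) ^ r) ^ q = 1 := by rw [← pow_mul, mul_comm, ← map_pow, hxN x hxN', map_one]
    rw [hq] at hP h1 h2
    have h3 := eq_one_of p _ r r (A x) P hP hpr h1 h2
    apply hxr
    apply hA
    rw [map_pow, h3, map_one]
  -- step 3
  have h3 := hdense S hSN hSc q J hd2 step2 g0 g0.2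
  apply h3
  have h4 := indep_of_le ((A g0) ^ q) (k := J) (by rw [hJ])
  simpa only [pow_mul] using h4

end Cfsg.Agent.H26.BF
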