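import Mathlib

/-!
# Lifting homomorphisms along square-zero extensions of rings
-/

set_option autoImplicit false
universe u v

namespace Cfsg.Agent.H26.BF

theorem lift_sq {G : Type u} [Group G] [Fintype G] {Q : Type v} [Ring Q] (J : AddSubgroup Q)
    (hl : ∀ x ∈ J, ∀ y, y * x ∈ J) (hr : ∀ x ∈ J, ∀ y, x * y ∈ J) (h0 : ∀ x ∈ J, ∀ y ∈ J, x * y = 0)
    (w : Q) (hw : w * (Fintype.card G : Q) = 1) (hwc : ∀ x : Q, w * x = x * w)
    (φ : G → Q) (h1 : φ 1 - 1 ∈ J) (hφ : ∀ g h, φ g * φ h - φ (g * h) ∈ J) :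
    ∃ σ : G →* Q, ∀ g, σ g - φ g ∈ J := by
  classical
  let E : G → G → Q := fun g h => φ g * φ h - φ (g * h)
  have hE : ∀ g h, E g h ∈ J := hφ
  let S : G → Q := fun g => ∑ k, E g k * φ k⁻¹
  have hS : ∀ g, S g ∈ J := fun g => J.sum_mem (fun k _ => hr _ (hE g k) _)
  have hwS : ∀ g, w * S g ∈ J := fun g => hl _ (hS g) _
  have zr : ∀ x ∈ J, ∀ y z : Q, y - z ∈ J → x * y = x * z := by
    intro x hx y z hyz
    have := h0 x hx _ hyz
    rw [mul_sub, sub_eq_zero] at this
    exact this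
  have key : ∀ g h, (Fintype.card G : Q) * E g h + S (g * h) = φ g * S h + S g * φ h := by
    intro g h
    have e1 : S g * φ h = ∑ k, E g (h * k) * φ (h * k)⁻¹ * φ h := by
      rw [Finset.sum_mul, ← Equiv.sum_comp (Equiv.mulLeft h)]
      rfl
    have e2 : φ g * S h = ∑ k, φ g * (E h k * φ k⁻¹) := by rw [Finset.mul_sum]
    have e3 : (Fintype.card G : Q) * E g h = ∑ _k : G, E g h := by
      rw [Finset.sum_const, nsmul_eq_mul, Finset.card_univ]
    rw [e1, e2, e3, ← Finset.sum_add_distrib, ← Finset.sum_add_distrib]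
    refine Finset.sum_congr rfl (fun k _ => ?_)
    have f1 : E g (h * k) * φ (h * k)⁻¹ * φ h = E g (h * k) * φ k⁻¹ := by
      rw [mul_assoc]
      apply zr _ (hE _ _)
      have := hφ (h * k)⁻¹ h
      rwa [mul_inv_rev, inv_mul_cancel_right, ← mul_inv_rev] at this
    have f2 : E g h * (φ k * φ k⁻¹) = E g h * 1 := by
      apply zr _ (hE _ _)
      have := hφ k k⁻¹
      rw [mul_inv_cancel] at this
      have h2 := J.add_mem this h1
      have h3 : φ k * φ k⁻¹ - φ 1 + (φ 1 - 1) = φ k * φ k⁻¹ - 1 := by abel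
      rwa [h3] at h2
    rw [mul_one] at f2
    rw [f1]
    have f3 : E g h * φ k + E (g * h) k = φ g * E h k + E g (h * k) := by
      simp only [E]
      rw [sub_mul, mul_sub, mul_assoc g h k]
      simp only [mul_assoc]
      abel
    calc E g h + E (g * h) k * φ k⁻¹ = E g h * (φ k * φ k⁻¹) + E (g * h) k * φ k⁻¹ := by rw [f2]
      _ = (E g h * φ k + E (g * h) k) * φ k⁻¹ := by rw [add_mul, mul_assoc]
      _ = (φ g * E h k + E g (h * k)) * φ k⁻¹ := by rw [f3]
      _ = _ := by rw [add_mul, mul_assoc]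
  let s : G → Q := fun g => φ g - w * S g
  have hmul : ∀ g h, s (g * h) = s g * s h := by
    intro g h
    have z : (w * S g) * (w * S h) = 0 := h0 _ (hwS g) _ (hwS h)
    have e : s g * s h = φ g * φ h - φ g * (w * S h) - w * S g * φ h + (w * S g) * (w * S h) := by
      simp only [s]; rw [sub_mul, mul_sub, mul_sub]; abel
    rw [e, z, add_zero]
    have e1 : φ g * (w * S h) = w * (φ g * S h) := by
      rw [← mul_assoc, ← hwc (φ g), mul_assoc]
    have e2 : w * (φ g * S h) + w * S g * φ h = E g h + w * S (g * h) := by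
      rw [mul_assoc w (S g), ← mul_add, ← key g h, mul_add, ← mul_assoc, hw, one_mul]
    have e3 : φ g * φ h - φ g * (w * S h) - w * S g * φ h = φ g * φ h - (w * (φ g * S h) + w * S g * φ h) := by
      rw [e1]; abel
    rw [e3, e2]
    simp only [E, s]
    abel
  have hone : s 1 = 1 := by
    have h2 : s 1 - 1 ∈ J := by
      have : s 1 - 1 = (φ 1 - 1) - w * S 1 := by simp only [s]; abel
      rw [this]; exact J.sub_mem h1 (hwS 1)
    have h3 := h0 _ h2 _ h2
    have h4 := hmul 1 1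
    rw [mul_one] at h4
    have h5 : (s 1 - 1) * (s 1 - 1) = s 1 * s 1 - s 1 - s 1 + 1 := by
      rw [sub_mul, mul_sub, mul_one, one_mul]; abel
    rw [h5, ← h4, sub_self, zero_sub] at h3
    have h6 : s 1 = 1 := by
      have := congrArg (fun x => x + s 1) h3
      simp only [zero_add] at this
      rw [← this]; abel
    exact h6
  refine ⟨⟨⟨s, hone⟩, hmul⟩, fun g => ?_⟩
  have : s g - φ g = - (w * S g) := by simp only [s]; abel
  show s g - φ g ∈ J
  rw [this]
  exact J.neg_mem (hwS g)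

end Cfsg.Agent.H26.BF
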