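import Mathlib
import Cfsg.Agent.H26_BF4

/-!
# Lifting `p'`-linear groups to Witt vectors
-/

set_option autoImplicit false
universe u v

namespace Cfsg.Agent.H26.BF

open WittVector

/-- congruence of matrices -/
def Cg {R : Type v} [CommRing R] {n : ℕ} (I : Ideal R) (X Y : Matrix (Fin n) (Fin n) R) : Prop :=
  ∀ a b, X a b - Y a b ∈ I

theorem step {G : Type u} [Group G] [Fintype G] {R : Type v} [CommRing R] {n : ℕ} (I₁ I₂ : Ideal R)
    (h21 : I₂ ≤ I₁) (h11 : I₁ * I₁ ≤ I₂) (w : R) (hw : w * (Fintype.card G : R) = 1)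
    (φ : G → Matrix (Fin n) (Fin n) R) (h1 : Cg I₁ (φ 1) 1)
    (hφ : ∀ g h, Cg I₁ (φ g * φ h) (φ (g * h))) :
    ∃ φ' : G → Matrix (Fin n) (Fin n) R, (∀ g, Cg I₁ (φ' g) (φ g)) ∧ Cg I₂ (φ' 1) 1 ∧
      ∀ g h, Cg I₂ (φ' g * φ' h) (φ' (g * h)) := by
  classical
  let π : Matrix (Fin n) (Fin n) R →+* Matrix (Fin n) (Fin n) (R ⧸ I₂) := (Ideal.Quotient.mk I₂).mapMatrix
  have hπ : ∀ (X : Matrix (Fin n) (Fin n) R) a b, π X a b = Ideal.Quotient.mk I₂ (X a b) := fun X a b => rfl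
  let K : Ideal (R ⧸ I₂) := I₁.map (Ideal.Quotient.mk I₂)
  have hK : ∀ x, Ideal.Quotient.mk I₂ x ∈ K ↔ x ∈ I₁ := fun x => Ideal.mem_quotient_iff_mem h21
  have hKK : ∀ x ∈ K, ∀ y ∈ K, x * y = 0 := by
    intro x hx y hy
    have h2 : x * y ∈ K * K := Ideal.mul_mem_mul hx hy
    rw [← Ideal.map_mul] at h2
    have h3 := Ideal.map_mono (f := Ideal.Quotient.mk I₂) h11 h2
    rwa [Ideal.map_quotient_self, Ideal.mem_bot] at h3
  let J : AddSubgroup (Matrix (Fin n) (Fin n) (R ⧸ I₂)) :=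
    { carrier := {X | ∀ a b, X a b ∈ K}
      add_mem' := fun {x y} hx hy a b => K.add_mem (hx a b) (hy a b)
      zero_mem' := fun a b => K.zero_mem
      neg_mem' := fun {x} hx a b => K.neg_mem (hx a b) }
  have hJ : ∀ X, X ∈ J ↔ ∀ a b, X a b ∈ K := fun X => Iff.rfl
  have hJπ : ∀ X Y : Matrix (Fin n) (Fin n) R, π X - π Y ∈ J ↔ Cg I₁ X Y := by
    intro X Y
    rw [hJ]
    refine forall_congr' (fun a => forall_congr' (fun b => ?_))
    rw [Matrix.sub_apply, hπ, hπ, ← map_sub, hK]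
  obtain ⟨σ, hσ⟩ := lift_sq (G := G) J
    (fun x hx y a b => by
      rw [Matrix.mul_apply]; exact K.sum_mem (fun c _ => K.mul_mem_left _ (hx c b)))
    (fun x hx y a b => by
      rw [Matrix.mul_apply]; exact K.sum_mem (fun c _ => K.mul_mem_right _ (hx a c)))
    (fun x hx y hy => by
      ext a b
      rw [Matrix.mul_apply]
      exact Finset.sum_eq_zero (fun c _ => hKK _ (hx a c) _ (hy c b)))
    (algebraMap (R ⧸ I₂) _ (Ideal.Quotient.mk I₂ w))
    (by
      have e : ((Fintype.card G : ℕ) : Matrix (Fin n) (Fin n) (R ⧸ I₂)) =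
        algebraMap (R ⧸ I₂) _ (Ideal.Quotient.mk I₂ (Fintype.card G : R)) := by
          rw [map_natCast, map_natCast]
      rw [e, ← map_mul, ← map_mul, hw, map_one, map_one])
    (fun x => Algebra.commutes _ x)
    (fun g => π (φ g))
    (by
      have := (hJπ (φ 1) 1).mpr h1
      rwa [map_one] at this)
    (fun g h => by
      have := (hJπ _ _).mpr (hφ g h)
      rwa [map_mul] at this)
  have hlift : ∀ g, ∃ X : Matrix (Fin n) (Fin n) R, π X = σ g := by
    intro g
    choose f hf using fun a b => Ideal.Quotient.mk_surjective (I := I₂) (σ g a b)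
    exact ⟨Matrix.of f, by ext a b; rw [hπ, Matrix.of_apply, hf]⟩
  choose φ' hφ' using hlift
  have hC2 : ∀ X Y : Matrix (Fin n) (Fin n) R, π X = π Y → Cg I₂ X Y := by
    intro X Y hXY a b
    have := congrFun (congrFun hXY a) b
    rw [hπ, hπ, Ideal.Quotient.eq] at this
    exact this
  refine ⟨φ', fun g => ?_, ?_, fun g h => ?_⟩
  · rw [← hJπ, hφ']; exact hσ g
  · apply hC2; rw [hφ', map_one, map_one]
  · apply hC2; rw [map_mul, hφ', hφ', hφ', map_mul]

theorem lift_complete {G : Type u} [Group G] [Fintype G] {R : Type v} [CommRing R] {n : ℕ} (ϖ : R)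
    [IsAdicComplete (Ideal.span {ϖ}) R] (w : R) (hw : w * (Fintype.card G : R) = 1)
    (φ : G → Matrix (Fin n) (Fin n) R) (h1 : Cg (Ideal.span {ϖ}) (φ 1) 1)
    (hφ : ∀ g h, Cg (Ideal.span {ϖ}) (φ g * φ h) (φ (g * h))) :
    ∃ σ : G →* Matrix (Fin n) (Fin n) R, ∀ g, Cg (Ideal.span {ϖ}) (σ g) (φ g) := by
  classical
  obtain ⟨I, hI⟩ : ∃ I : Ideal R, I = Ideal.span {ϖ} := ⟨_, rfl⟩
  have hcomp : IsAdicComplete I R := by rw [hI]; infer_instance
  rw [← hI] at h1 hφ ⊢
  let P : ℕ → (G → Matrix (Fin n) (Fin n) R) → Prop := fun i φ =>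
    Cg (I ^ (i + 1)) (φ 1) 1 ∧ ∀ g h, Cg (I ^ (i + 1)) (φ g * φ h) (φ (g * h))
  have hstep : ∀ i : ℕ, ∀ φ : {φ // P i φ}, ∃ φ' : {φ' // P (i + 1) φ'}, ∀ g, Cg (I ^ (i + 1)) (φ'.1 g) (φ.1 g) := by
    rintro i ⟨φ, hφ1, hφ2⟩
    obtain ⟨φ', a, b, c⟩ := step (I ^ (i + 1)) (I ^ (i + 2)) (Ideal.pow_le_pow_right (by omega))
      (by rw [← pow_add]; exact Ideal.pow_le_pow_right (by omega)) w hw φ hφ1 hφ2
    exact ⟨⟨φ', b, c⟩, a⟩
  choose f hf using hstep
  let Φ : (i : ℕ) → {φ // P i φ} := fun i => Nat.rec ⟨φ, by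
    refine ⟨?_, ?_⟩
    · simpa using h1
    · simpa using hφ⟩ (fun i ψ => f i ψ) i
  have hΦ : ∀ i g, Cg (I ^ (i + 1)) ((Φ (i + 1)).1 g) ((Φ i).1 g) := fun i g => hf i (Φ i) g
  have hΦ' : ∀ m k g, Cg (I ^ (m + 1)) ((Φ (m + k)).1 g) ((Φ m).1 g) := by
    intro m k g
    induction k with
    | zero => intro a b; simp
    | succ k ih =>
      intro a b
      have h2 := hΦ (m + k) g a b
      have h3 := ih a b
      have h4 := (I ^ (m + 1)).add_mem (Ideal.pow_le_pow_right (by omega) h2) h3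
      rw [sub_add_sub_cancel] at h4
      exact h4
  have hlim : ∀ g a b, ∃ L : R, ∀ m, (Φ m).1 g a b - L ∈ I ^ m := by
    intro g a b
    have hpre : IsPrecomplete I R := inferInstance
    obtain ⟨L, hL⟩ := hpre.prec (f := fun m => (Φ m).1 g a b) (by
      intro m k hmk
      rw [SModEq.sub_mem, smul_eq_mul, Ideal.mul_top]
      obtain ⟨j, rfl⟩ := Nat.exists_eq_add_of_le hmk
      have := Ideal.pow_le_pow_right (by omega : m ≤ m + 1) (hΦ' m j g a b)
      rw [← neg_sub]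
      exact (I ^ m).neg_mem this)
    refine ⟨L, fun m => ?_⟩
    have := hL m
    rwa [SModEq.sub_mem, smul_eq_mul, Ideal.mul_top] at this
  choose L₀ hL₀ using hlim
  obtain ⟨L, hL'⟩ : ∃ L : G → Matrix (Fin n) (Fin n) R, ∀ g a b, L g a b = L₀ g a b :=
    ⟨fun g => Matrix.of (L₀ g), fun g a b => rfl⟩
  have hL : ∀ g a b m, (Φ m).1 g a b - L g a b ∈ I ^ m := fun g a b m => by rw [hL']; exact hL₀ g a b m
  have hhaus : ∀ x : R, (∀ m : ℕ, x ∈ I ^ m) → x = 0 := by
    intro x hx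
    have hh : IsHausdorff I R := inferInstance
    apply hh.haus
    intro m
    rw [SModEq.sub_mem, smul_eq_mul, Ideal.mul_top, sub_zero]
    exact hx m
  have hLm : ∀ m g, Cg (I ^ m) ((Φ m).1 g) (L g) := fun m g a b => hL g a b m
  have hmulc : ∀ m g h, Cg (I ^ m) (L g * L h) (L (g * h)) := by
    intro m g h a b
    have e1 : (((Φ m).1 g * (Φ m).1 h) a b - (Φ m).1 (g * h) a b) ∈ I ^ m :=
      Ideal.pow_le_pow_right (by omega) ((Φ m).2.2 g h a b)
    have e2 : (Φ m).1 (g * h) a b - L (g * h) a b ∈ I ^ m := hLm m (g * h) a b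
    have e3 : (L g * L h) a b - ((Φ m).1 g * (Φ m).1 h) a b ∈ I ^ m := by
      rw [Matrix.mul_apply, Matrix.mul_apply, ← Finset.sum_sub_distrib]
      refine (I ^ m).sum_mem (fun c _ => ?_)
      have f1 := hLm m g a c
      have f2 := hLm m h c b
      have : L g a c * L h c b - (Φ m).1 g a c * (Φ m).1 h c b =
        - (((Φ m).1 g a c - L g a c) * (Φ m).1 h c b) - L g a c * ((Φ m).1 h c b - L h c b) := by ring
      rw [this]
      exact (I ^ m).sub_mem ((I ^ m).neg_mem ((I ^ m).mul_mem_right _ f1)) ((I ^ m).mul_mem_left _ f2)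
    have := (I ^ m).add_mem ((I ^ m).add_mem e3 e1) e2
    rw [sub_add_sub_cancel, sub_add_sub_cancel] at this
    exact this
  have hone : L 1 = 1 := by
    ext a b
    rw [← sub_eq_zero]
    apply hhaus
    intro m
    have e1 := hLm m 1 a b
    have e2 : (Φ m).1 1 a b - (1 : Matrix (Fin n) (Fin n) R) a b ∈ I ^ m :=
      Ideal.pow_le_pow_right (by omega) ((Φ m).2.1 a b)
    have := (I ^ m).sub_mem e2 e1
    rwa [sub_sub_sub_cancel_left] at this
  have hmul : ∀ g h, L (g * h) = L g * L h := by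
    intro g h
    ext a b
    rw [eq_comm, ← sub_eq_zero]
    exact hhaus _ (fun m => hmulc m g h a b)
  refine ⟨⟨⟨L, hone⟩, hmul⟩, fun g a b => ?_⟩
  have e1 := hL g a b 1
  have e2 : (Φ 1).1 g a b - (Φ 0).1 g a b ∈ I ^ (0 + 1) := hΦ 0 g a b
  have e3 : ((Φ 0).1 g a b) = φ g a b := rfl
  rw [e3] at e2
  rw [zero_add, pow_one] at e2
  rw [pow_one] at e1
  have := I.sub_mem e2 e1
  rw [sub_sub_sub_cancel_left] at this
  exact this

/-- the Teichmüller lift -/
theorem exists_witt {G : Type u} [Group G] [Finite G] {k : Type v} [Field k] (p : ℕ) [hp : Fact p.Prime]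
    [CharP k p] [PerfectRing k p] {n : ℕ} (A : G →* Matrix (Fin n) (Fin n) k)
    (hA : Function.Injective A) (hG : ¬ p ∣ Nat.card G) :
    ∃ σ : G →* Matrix (Fin n) (Fin n) (WittVector p k), Function.Injective σ := by
  classical
  have := Fintype.ofFinite G
  rw [Nat.card_eq_fintype_card] at hG
  have hu : IsUnit ((Fintype.card G : ℕ) : WittVector p k) := by
    apply WittVector.isUnit_of_coeff_zero_ne_zero
    have h1 : (((Fintype.card G : ℕ) : WittVector p k)).coeff 0 =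
      WittVector.constantCoeff ((Fintype.card G : ℕ) : WittVector p k) := rfl
    rw [h1, map_natCast]
    exact fun h => hG ((CharP.cast_eq_zero_iff k p _).mp h)
  obtain ⟨w, hw⟩ := hu.exists_left_inv
  let φ : G → Matrix (Fin n) (Fin n) (WittVector p k) := fun g => (A g).map (WittVector.teichmuller p)
  have hcc : ∀ (X : Matrix (Fin n) (Fin n) (WittVector p k)) Y, Cg (Ideal.span {(p : WittVector p k)}) X Y ↔
      (WittVector.constantCoeff (p := p) (R := k)).mapMatrix X = (WittVector.constantCoeff (p := p) (R := k)).mapMatrix Y := by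
    intro X Y
    constructor
    · intro h
      ext a b
      have := h a b
      rw [← WittVector.ker_constantCoeff, RingHom.mem_ker, map_sub, sub_eq_zero] at this
      exact this
    · intro h a b
      rw [← WittVector.ker_constantCoeff, RingHom.mem_ker, map_sub, sub_eq_zero]
      exact congrFun (congrFun h a) b
  have hφ : ∀ g, (WittVector.constantCoeff (p := p) (R := k)).mapMatrix (φ g) = A g := by
    intro g
    ext a b
    show WittVector.constantCoeff (WittVector.teichmuller p (A g a b)) = A g a b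
    exact WittVector.teichmuller_coeff_zero p _
  obtain ⟨σ, hσ⟩ := lift_complete (G := G) (p : WittVector p k) w hw φ
    (by rw [hcc, hφ, map_one, map_one])
    (fun g h => by rw [hcc, map_mul, hφ, hφ, hφ, map_mul])
  refine ⟨σ, ?_⟩
  intro g h hgh
  apply hA
  have e1 := (hcc _ _).mp (hσ g)
  have e2 := (hcc _ _).mp (hσ h)
  rw [hφ] at e1 e2
  rw [← e1, ← e2, hgh]

end Cfsg.Agent.H26.BF
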