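import Mathlib

/-!
# Elements with eigenvalues in a small arc (Frobenius, Schur, Blichfeldt)
-/

set_option autoImplicit false

namespace Cfsg.Agent.H3.Arc

open Module

variable {E : Type*} [NormedAddCommGroup E] [InnerProductSpace ℂ E] [FiniteDimensional ℂ E]
variable {G : Type*} [Group G] (ρ : G →* (E →L[ℂ] E))

/-- common eigenvectors -/
theorem common {S : Set G} (hS : ∀ s ∈ S, ∀ t ∈ S, s * t = t * s) : ∀ (k : ℕ) (W : Submodule ℂ E), finrank ℂ W = k →
    W ≠ ⊥ → (∀ s ∈ S, ∀ w ∈ W, ρ s w ∈ W) → ∃ v ∈ W, v ≠ 0 ∧ ∀ s ∈ S, ∃ μ : ℂ, ρ s v = μ • v := by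
  intro k
  induction k using Nat.strong_induction_on with
  | _ k ih =>
  intro W hk hW hinv
  by_cases hsc : ∀ s ∈ S, ∃ μ : ℂ, ∀ w ∈ W, ρ s w = μ • w
  · obtain ⟨v, hv, hv0⟩ := Submodule.exists_mem_ne_zero_of_ne_bot hW
    exact ⟨v, hv, hv0, fun s hs => by
      obtain ⟨μ, hμ⟩ := hsc s hs
      exact ⟨μ, hμ v hv⟩⟩
  · push Not at hsc
    obtain ⟨s, hs, hns⟩ := hsc
    have : Nontrivial W := Submodule.nontrivial_iff_ne_bot.mpr hW
    obtain ⟨μ, hμ⟩ := Module.End.exists_eigenvalue (((ρ s : E →L[ℂ] E) : E →ₗ[ℂ] E).restrict (hinv s hs))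
    obtain ⟨⟨v, hvW⟩, hv⟩ := hμ.exists_hasEigenvector
    have hv1 : ρ s v = μ • v := congrArg Subtype.val hv.apply_eq_smul
    have hv0 : v ≠ 0 := fun h => hv.2 (Subtype.ext h)
    obtain ⟨w, hw, hwne⟩ := hns μ
    obtain ⟨W', hW'⟩ : ∃ W' : Submodule ℂ E, ∀ x, x ∈ W' ↔ x ∈ W ∧ ρ s x = μ • x := by
      refine ⟨{ carrier := {x | x ∈ W ∧ ρ s x = μ • x}
                add_mem' := ?_
                zero_mem' := ⟨W.zero_mem, by simp⟩
                smul_mem' := ?_ }, fun x => Iff.rfl⟩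
      · rintro a b ⟨ha, ha'⟩ ⟨hb, hb'⟩
        exact ⟨W.add_mem ha hb, by rw [map_add, ha', hb', smul_add]⟩
      · rintro c a ⟨ha, ha'⟩
        exact ⟨W.smul_mem c ha, by rw [map_smul, ha', smul_comm]⟩
    have hlt : W' < W := by
      refine lt_of_le_of_ne (fun x hx => ((hW' x).mp hx).1) (fun h => ?_)
      rw [← h] at hw
      exact hwne ((hW' w).mp hw).2
    obtain ⟨u, hu, hu0, huS⟩ := ih (finrank ℂ W') (by rw [← hk]; exact Submodule.finrank_lt_finrank_of_lt hlt) W' rfl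
      (fun h => hv0 (by
        have : v ∈ W' := (hW' v).mpr ⟨hvW, hv1⟩
        rw [h] at this
        exact this))
      (fun t ht x hx => by
        rw [hW'] at hx ⊢
        refine ⟨hinv t ht x hx.1, ?_⟩
        have h1 : ρ s (ρ t x) = ρ t (ρ s x) := by
          have h2 : ρ (s * t) x = ρ (t * s) x := by rw [hS s hs t ht]
          rw [map_mul, map_mul] at h2
          exact h2
        rw [h1, hx.2, map_smul])
    exact ⟨u, hlt.le hu, hu0, huS⟩

variable (hu : ∀ g v w, inner ℂ (ρ g v) (ρ g w) = inner ℂ v w)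

include hu in
omit [FiniteDimensional ℂ E] in
theorem norm_apply (g : G) (v : E) : ‖ρ g v‖ = ‖v‖ := by
  have h1 := hu g v v
  rw [inner_self_eq_norm_sq_to_K, inner_self_eq_norm_sq_to_K] at h1
  have h2 : ‖ρ g v‖ ^ 2 = ‖v‖ ^ 2 := by exact_mod_cast h1
  exact (sq_eq_sq₀ (norm_nonneg _) (norm_nonneg _)).mp h2

include hu in
omit [FiniteDimensional ℂ E] in
theorem opNorm_le (g : G) : ‖ρ g‖ ≤ 1 :=
  ContinuousLinearMap.opNorm_le_bound _ zero_le_one (fun v => by rw [norm_apply ρ hu, one_mul])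

include hu in
omit [FiniteDimensional ℂ E] in
theorem norm_eig {g : G} {μ : ℂ} {v : E} (hv : v ≠ 0) (h : ρ g v = μ • v) : ‖μ‖ = 1 := by
  have h1 := norm_apply ρ hu g v
  rw [h, norm_smul] at h1
  have h2 : ‖v‖ ≠ 0 := norm_ne_zero_iff.mpr hv
  exact mul_right_cancel₀ h2 (by rw [h1, one_mul])

include hu in
/-- the operator norm from the eigenvalues -/
theorem spec_norm {a : G} {c r : ℝ} (hr : 0 < r) (h : ∀ (μ : ℂ) (v : E), v ≠ 0 → ρ a v = μ • v → ‖μ - c‖ < r) :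
    ‖ρ a - (c : ℂ) • (1 : E →L[ℂ] E)‖ < r := by
  have hcomp : CompleteSpace E := FiniteDimensional.complete ℂ E
  rcases subsingleton_or_nontrivial E with hE | hE
  · have : ρ a - (c : ℂ) • (1 : E →L[ℂ] E) = 0 := by
      ext v; exact Subsingleton.elim _ _
    rw [this, norm_zero]; exact hr
  obtain ⟨T, hT⟩ : ∃ T : E →L[ℂ] E, T = ρ a - (c : ℂ) • (1 : E →L[ℂ] E) := ⟨_, rfl⟩
  have hadj : star (ρ a) = ρ a⁻¹ := by
    rw [ContinuousLinearMap.star_eq_adjoint]
    symm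
    rw [ContinuousLinearMap.eq_adjoint_iff]
    intro x y
    have h1 : x = ρ a (ρ a⁻¹ x) := by
      rw [← mul_apply_eq_comp, ← map_mul, mul_inv_cancel, map_one]; rfl
    conv_rhs => rw [h1]
    rw [hu]
  have hcomm : ρ a⁻¹ * ρ a = ρ a * ρ a⁻¹ := by rw [← map_mul, ← map_mul, inv_mul_cancel, mul_inv_cancel]
  have hTn : IsStarNormal T := by
    refine ⟨?_⟩
    rw [hT, star_sub, star_smul, star_one, hadj]
    have : Commute (ρ a⁻¹) (ρ a) := hcomm
    refine Commute.sub_left (Commute.sub_right this ?_) (Commute.sub_right ?_ ?_)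
    · exact (Commute.one_right _).smul_right _
    · exact (Commute.one_left _).smul_left _
    · exact ((Commute.one_left _).smul_left _)
  rw [← hT]
  have h1 := IsStarNormal.spectralRadius_eq_nnnorm T
  obtain ⟨z, hz, hz'⟩ := spectrum.exists_nnnorm_eq_spectralRadius T
  rw [h1] at hz'
  have h2 : ‖z‖ = ‖T‖ := by
    have : ‖z‖₊ = ‖T‖₊ := by exact_mod_cast hz'
    exact congrArg NNReal.toReal this
  rw [← h2]
  -- `z` is an eigenvalue
  have h3 : ∃ v : E, v ≠ 0 ∧ T v = z • v := by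
    by_contra hcon
    push Not at hcon
    apply hz
    have hinj : Function.Injective ((algebraMap ℂ (E →L[ℂ] E) z - T : E →L[ℂ] E) : E →ₗ[ℂ] E) := by
      rw [← LinearMap.ker_eq_bot, LinearMap.ker_eq_bot']
      intro v hv
      by_contra hv0
      apply hcon v hv0
      have h4 : z • v - T v = 0 := by
        have h5 : (algebraMap ℂ (E →L[ℂ] E) z - T) v = 0 := hv
        rw [sub_apply, Algebra.algebraMap_eq_smul_one] at h5
        exact h5
      exact (sub_eq_zero.mp h4).symm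
    have h5 := (ContinuousLinearEquiv.toUnit (LinearEquiv.ofInjectiveEndo _ hinj).toContinuousLinearEquiv).isUnit
    have h6 : ((ContinuousLinearEquiv.toUnit (LinearEquiv.ofInjectiveEndo _ hinj).toContinuousLinearEquiv : (E →L[ℂ] E)ˣ) : E →L[ℂ] E)
        = algebraMap ℂ (E →L[ℂ] E) z - T := by
      ext v; rfl
    rw [h6] at h5
    exact h5
  obtain ⟨v, hv, hTv⟩ := h3
  have h4 : ρ a v = (z + c) • v := by
    rw [hT, sub_apply] at hTv
    have h5 : ρ a v - (c : ℂ) • v = z • v := hTv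
    rw [add_smul, ← h5]; abel
  have h5 := h (z + c) v hv h4
  rwa [add_sub_cancel_right] at h5

/-- eigenvalues in the arc of half-width `30°` -/
def IsArc (g : G) : Prop := ∀ (μ : ℂ) (v : E), v ≠ 0 → ρ g v = μ • v → √3 / 2 < μ.re

theorem sqrt3 : (√3 : ℝ) ^ 2 = 3 := Real.sq_sqrt (by norm_num)

omit [FiniteDimensional ℂ E] in
theorem IsArc.conj {g : G} (h : IsArc ρ g) (x : G) : IsArc ρ (x * g * x⁻¹) := by
  intro μ v hv hμ
  apply h μ (ρ x⁻¹ v)
  · intro h0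
    apply hv
    have : v = ρ x (ρ x⁻¹ v) := by
      rw [← mul_apply_eq_comp, ← map_mul, mul_inv_cancel, map_one]; rfl
    rw [this, h0, map_zero]
  · rw [← mul_apply_eq_comp, ← map_mul, ← map_smul, ← hμ, ← mul_apply_eq_comp, ← map_mul]
    congr 2
    group

theorem re_of_norm {μ : ℂ} (h : ‖μ‖ = 1) (c : ℝ) : ‖μ - c‖ ^ 2 = 1 + c ^ 2 - 2 * c * μ.re := by
  have h1 : μ.re ^ 2 + μ.im ^ 2 = 1 := by
    have := Complex.sq_norm μ
    rw [h, Complex.normSq_apply] at this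
    nlinarith
  rw [Complex.sq_norm, Complex.normSq_apply]
  simp only [Complex.sub_re, Complex.ofReal_re, Complex.sub_im, Complex.ofReal_im, sub_zero]
  nlinarith

include hu in
theorem IsArc.norm_half {a : G} (h : IsArc ρ a) : ‖ρ a - ((√3 / 2 : ℝ) : ℂ) • (1 : E →L[ℂ] E)‖ < 1 / 2 := by
  apply spec_norm ρ hu (by norm_num)
  intro μ v hv hμ
  have h1 := h μ v hv hμ
  have h2 := re_of_norm (norm_eig ρ hu hv hμ) (√3 / 2)
  have h3 := sqrt3
  have h4 : 0 < √3 := Real.sqrt_pos.mpr (by norm_num)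
  have h5 : ‖μ - ((√3 / 2 : ℝ) : ℂ)‖ ^ 2 < (1 / 2) ^ 2 := by
    rw [h2]; nlinarith
  exact lt_of_pow_lt_pow_left₀ 2 (by norm_num) h5

include hu in
theorem IsArc.norm_one {a : G} (h : IsArc ρ a) : ‖ρ a - 1‖ < √2 := by
  have h0 := spec_norm ρ hu (a := a) (c := 1) (r := √2) (Real.sqrt_pos.mpr (by norm_num)) (by
    intro μ v hv hμ
    have h1 := h μ v hv hμ
    have h2 := re_of_norm (norm_eig ρ hu hv hμ) 1
    have h4 : 0 < √3 := Real.sqrt_pos.mpr (by norm_num)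
    have h5 : ‖μ - ((1 : ℝ) : ℂ)‖ ^ 2 < (√2) ^ 2 := by
      rw [h2, Real.sq_sqrt (by norm_num)]; nlinarith
    exact lt_of_pow_lt_pow_left₀ 2 (Real.sqrt_nonneg _) h5)
  rwa [Complex.ofReal_one, one_smul] at h0

include hu in
/-- the commutator contraction -/
theorem contract {a b : G} (ha : IsArc ρ a) (hb : ρ b ≠ 1) : ‖ρ (a * b * a⁻¹ * b⁻¹) - 1‖ < ‖ρ b - 1‖ := by
  obtain ⟨A, hA⟩ : ∃ A : E →L[ℂ] E, A = ρ a - ((√3 / 2 : ℝ) : ℂ) • (1 : E →L[ℂ] E) := ⟨_, rfl⟩
  obtain ⟨B, hB⟩ : ∃ B : E →L[ℂ] E, B = ρ b - 1 := ⟨_, rfl⟩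
  have hAn : ‖A‖ < 1 / 2 := by rw [hA]; exact ha.norm_half ρ hu
  have hBn : 0 < ‖B‖ := norm_pos_iff.mpr (by rw [hB]; exact sub_ne_zero.mpr hb)
  have h1 : ρ (a * b * a⁻¹ * b⁻¹) - 1 = (A * B - B * A) * ρ (a⁻¹ * b⁻¹) := by
    have h2 : A * B - B * A = ρ a * ρ b - ρ b * ρ a := by
      rw [hA, hB]
      simp only [sub_mul, mul_sub, mul_one, one_mul, smul_mul_assoc, mul_smul_comm, smul_sub]
      abel
    rw [h2, sub_mul, ← map_mul, ← map_mul, ← map_mul, ← map_mul]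
    have h3 : a * b * (a⁻¹ * b⁻¹) = a * b * a⁻¹ * b⁻¹ := by group
    have h4 : b * a * (a⁻¹ * b⁻¹) = 1 := by group
    rw [h3, h4, map_one]
  rw [h1, ← hB]
  calc ‖(A * B - B * A) * ρ (a⁻¹ * b⁻¹)‖ ≤ ‖A * B - B * A‖ * ‖ρ (a⁻¹ * b⁻¹)‖ := norm_mul_le _ _
    _ ≤ ‖A * B - B * A‖ * 1 := mul_le_mul_of_nonneg_left (opNorm_le ρ hu _) (norm_nonneg _)
    _ = ‖A * B - B * A‖ := mul_one _
    _ ≤ ‖A * B‖ + ‖B * A‖ := norm_sub_le _ _
    _ ≤ ‖A‖ * ‖B‖ + ‖B‖ * ‖A‖ := add_le_add (norm_mul_le _ _) (norm_mul_le _ _)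
    _ < ‖B‖ := by nlinarith

variable (hf : Function.Injective ρ)

include hu hf in
/-- if `a` commutes with `[b, a]` and `b` is close to `1` then `a` and `b` commute -/
theorem comm_of_comm [Finite G] {a b : G} (hb : ‖ρ b - 1‖ < √2) (hc : a * (b * a * b⁻¹ * a⁻¹) = (b * a * b⁻¹ * a⁻¹) * a) :
    a * b = b * a := by
  obtain ⟨c, hcdef⟩ : ∃ c, c = b * a * b⁻¹ * a⁻¹ := ⟨_, rfl⟩
  rw [← hcdef] at hc
  by_contra hne
  have hc1 : c ≠ 1 := by
    intro h
    apply hne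
    rw [hcdef] at h
    have h1 : b * a * b⁻¹ = a := mul_inv_eq_one.mp h
    calc a * b = b * a * b⁻¹ * b := by rw [h1]
      _ = b * a := by group
  -- the range of `c - 1`
  obtain ⟨R, hR⟩ : ∃ R : Submodule ℂ E, R = LinearMap.range ((ρ c - 1 : E →L[ℂ] E) : E →ₗ[ℂ] E) := ⟨_, rfl⟩
  have hRmem : ∀ x, x ∈ R ↔ ∃ y, ρ c y - y = x := by
    intro x
    rw [hR, LinearMap.mem_range]
    rfl
  have hRne : R ≠ ⊥ := by
    intro h
    apply hc1
    apply hf
    rw [map_one]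
    ext y
    have h1 : ρ c y - y ∈ R := (hRmem _).mpr ⟨y, rfl⟩
    rw [h, Submodule.mem_bot] at h1
    exact sub_eq_zero.mp h1
  have hmul : ∀ (x y : G) (v : E), ρ x (ρ y v) = ρ (x * y) v := fun x y v => by rw [map_mul]; rfl
  have hinv : ∀ s ∈ ({a, c} : Set G), ∀ w ∈ R, ρ s w ∈ R := by
    intro s hs w hw
    rw [hRmem] at hw ⊢
    obtain ⟨y, hy⟩ := hw
    refine ⟨ρ s y, ?_⟩
    rw [← hy, map_sub, hmul, hmul]
    have : c * s = s * c := by
      rcases hs with h | h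
      · rw [h, hc]
      · rw [Set.mem_singleton_iff.mp h]
    rw [this]
  have hS : ∀ s ∈ ({a, c} : Set G), ∀ t ∈ ({a, c} : Set G), s * t = t * s := by
    rintro s (hs | hs) t (ht | ht)
    · rw [hs, ht]
    · rw [hs, Set.mem_singleton_iff.mp ht, hc]
    · rw [Set.mem_singleton_iff.mp hs, ht, hc]
    · rw [Set.mem_singleton_iff.mp hs, Set.mem_singleton_iff.mp ht]
  obtain ⟨y, hyR, hy0, hyS⟩ := common ρ hS _ R rfl hRne hinv
  obtain ⟨β, hβ⟩ := hyS a (Set.mem_insert _ _)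
  obtain ⟨γ, hγ⟩ := hyS c (Set.mem_insert_of_mem _ (Set.mem_singleton _))
  have hβn := norm_eig ρ hu hy0 hβ
  have hγn := norm_eig ρ hu hy0 hγ
  -- `γ ≠ 1`
  have hγ1 : γ ≠ 1 := by
    intro h1
    rw [h1, one_smul] at hγ
    obtain ⟨z, hz⟩ := (hRmem y).mp hyR
    have h2 : ∀ k : ℕ, ρ (c ^ k) z = z + (k : ℂ) • y := by
      intro k
      induction k with
      | zero => simp
      | succ k ih =>
        rw [pow_succ', ← hmul, ih, map_add, map_smul, hγ]
        have : ρ c z = z + y := by rw [← hz]; abel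
        rw [this]; push_cast; module
    have h3 := h2 (orderOf c)
    rw [pow_orderOf_eq_one, map_one] at h3
    have h4 : (orderOf c : ℂ) • y = 0 := by
      have h5 : z = z + (orderOf c : ℂ) • y := h3
      exact (left_eq_add.mp h5)
    rcases smul_eq_zero.mp h4 with h5 | h5
    · exact (orderOf_pos c).ne' (by exact_mod_cast h5)
    · exact hy0 h5
  -- the orthogonal pair
  obtain ⟨u, hudef⟩ : ∃ u, u = ρ b⁻¹ y := ⟨_, rfl⟩
  have hbu : ρ b u = y := by rw [hudef, hmul, mul_inv_cancel, map_one]; rfl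
  have hau : ρ a u = (γ * β) • u := by
    rw [hudef, hmul]
    have : a * b⁻¹ = b⁻¹ * (c * a) := by rw [hcdef]; group
    rw [this, ← hmul, ← hmul, hβ, map_smul, hγ, map_smul, map_smul, smul_smul, mul_comm γ β]
  have hunorm : ‖u‖ = ‖y‖ := by rw [hudef]; exact norm_apply ρ hu _ _
  have horth : inner ℂ u y = 0 := by
    have h1 := hu a u y
    rw [hau, hβ, inner_smul_left, inner_smul_right] at h1
    have h2 : (starRingEnd ℂ) (γ * β) * β = (starRingEnd ℂ) γ := by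
      rw [map_mul, mul_assoc]
      have : (starRingEnd ℂ) β * β = 1 := by
        rw [mul_comm, Complex.mul_conj, Complex.normSq_eq_norm_sq, hβn]; simp
      rw [this, mul_one]
    rw [← mul_assoc, h2] at h1
    have h3 : ((starRingEnd ℂ) γ - 1) * inner ℂ u y = 0 := by rw [sub_mul, h1, one_mul, sub_self]
    rcases mul_eq_zero.mp h3 with h4 | h4
    · exfalso
      apply hγ1
      have h5 : (starRingEnd ℂ) γ = 1 := sub_eq_zero.mp h4
      have h6 := congrArg (starRingEnd ℂ) h5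
      rwa [Complex.conj_conj, map_one] at h6
    · exact h4
  have h1 : ‖ρ b u - u‖ ^ 2 = 2 * ‖u‖ ^ 2 := by
    rw [hbu, norm_sub_sq (𝕜 := ℂ), ← hunorm]
    have : inner ℂ y u = 0 := by rw [← inner_conj_symm, horth, map_zero]
    rw [this]; simp; ring
  have h2 : ‖ρ b u - u‖ ≤ ‖ρ b - 1‖ * ‖u‖ := (ρ b - 1).le_opNorm u
  have hu0 : 0 < ‖u‖ := by rw [hunorm]; exact norm_pos_iff.mpr hy0
  have h3 : ‖ρ b - 1‖ * ‖u‖ < √2 * ‖u‖ := mul_lt_mul_of_pos_right hb hu0
  have h4 : ‖ρ b u - u‖ ^ 2 < (√2 * ‖u‖) ^ 2 := pow_lt_pow_left₀ (lt_of_le_of_lt h2 h3) (norm_nonneg _) (by norm_num)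
  rw [mul_pow, Real.sq_sqrt (by norm_num), h1] at h4
  exact lt_irrefl _ h4

include hu hf in
theorem IsArc.comm [Finite G] {a : G} (ha : IsArc ρ a) {b : G} (hb : ‖ρ b - 1‖ < √2) : a * b = b * a := by
  by_contra hne
  obtain ⟨b₀, hb₀, hmin⟩ := Set.exists_min_image {b : G | ‖ρ b - 1‖ < √2 ∧ a * b ≠ b * a} (fun b => ‖ρ b - 1‖)
    (Set.toFinite _) ⟨b, hb, hne⟩
  have hne1 : ρ b₀ ≠ 1 := by
    intro h
    have : b₀ = 1 := hf (by rw [h, map_one])
    apply hb₀.2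
    rw [this]; group
  have h1 := contract ρ hu ha hne1
  have h2 : a * (a * b₀ * a⁻¹ * b₀⁻¹) = (a * b₀ * a⁻¹ * b₀⁻¹) * a := by
    by_contra h3
    have h4 := hmin (a * b₀ * a⁻¹ * b₀⁻¹) ⟨lt_trans h1 hb₀.1, h3⟩
    exact absurd h4 (not_le.mpr h1)
  apply hb₀.2
  apply comm_of_comm ρ hu hf hb₀.1
  have h3 : b₀ * a * b₀⁻¹ * a⁻¹ = (a * b₀ * a⁻¹ * b₀⁻¹)⁻¹ := by group
  rw [h3]
  have h4 : Commute a (a * b₀ * a⁻¹ * b₀⁻¹) := h2
  exact h4.inv_right

/-- the twelve arcs -/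
noncomputable def box (z : ℂ) : ℤ := ⌈z.arg / (Real.pi / 6)⌉

theorem box_mem (z : ℂ) : box z ∈ Finset.Icc (-5 : ℤ) 6 := by
  have hpi : 0 < Real.pi / 6 := by positivity
  rw [Finset.mem_Icc, box]
  constructor
  · rw [Int.le_ceil_iff]
    rw [lt_div_iff₀ hpi]
    have := Complex.neg_pi_lt_arg z
    push_cast
    linarith
  · rw [Int.ceil_le, div_le_iff₀ hpi]
    have := Complex.arg_le_pi z
    push_cast
    linarith

theorem box_eq {z w : ℂ} (hz : ‖z‖ = 1) (hw : ‖w‖ = 1) (h : box z = box w) : √3 / 2 < ((starRingEnd ℂ) z * w).re := by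
  have hpi : 0 < Real.pi / 6 := by positivity
  have h1 : |w.arg - z.arg| < Real.pi / 6 := by
    rw [box, box] at h
    have h2 := Int.ceil_lt_add_one (z.arg / (Real.pi / 6))
    have h3 := Int.le_ceil (z.arg / (Real.pi / 6))
    have h4 := Int.ceil_lt_add_one (w.arg / (Real.pi / 6))
    have h5 := Int.le_ceil (w.arg / (Real.pi / 6))
    rw [← h] at h4 h5
    have h6 : w.arg / (Real.pi / 6) < z.arg / (Real.pi / 6) + 1 := by linarith
    have h7 : z.arg / (Real.pi / 6) < w.arg / (Real.pi / 6) + 1 := by linarith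
    rw [div_lt_iff₀ hpi, add_mul, div_mul_cancel₀ _ hpi.ne', one_mul] at h6 h7
    rw [abs_lt]
    constructor <;> linarith
  have hz' : z = Complex.exp (z.arg * Complex.I) := by
    conv_lhs => rw [← Complex.norm_mul_exp_arg_mul_I z, hz]
    simp
  have hw' : w = Complex.exp (w.arg * Complex.I) := by
    conv_lhs => rw [← Complex.norm_mul_exp_arg_mul_I w, hw]
    simp
  have h2 : (starRingEnd ℂ) z * w = Complex.exp (((w.arg - z.arg : ℝ) : ℂ) * Complex.I) := by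
    conv_lhs => rw [hz', hw']
    rw [← Complex.exp_conj, ← Complex.exp_add]
    congr 1
    rw [map_mul, Complex.conj_ofReal, Complex.conj_I]
    push_cast; ring
  rw [h2, Complex.exp_ofReal_mul_I_re, ← Real.cos_abs, ← Real.cos_pi_div_six]
  apply Real.cos_lt_cos_of_nonneg_of_le_pi_div_two (abs_nonneg _) _ h1
  linarith

include hu hf in
theorem exists_abelian [Finite G] : ∃ A : Subgroup G, A.Normal ∧ (∀ x ∈ A, ∀ y ∈ A, x * y = y * x) ∧
    ∀ H : Subgroup G, (∀ x ∈ H, ∀ y ∈ H, x * y = y * x) → (A.subgroupOf H).index ≤ 12 ^ (finrank ℂ E) := by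
  classical
  obtain ⟨A, hA⟩ : ∃ A : Subgroup G, A = Subgroup.closure {g | IsArc ρ g} := ⟨_, rfl⟩
  have hXA : ∀ g, IsArc ρ g → g ∈ A := fun g hg => by rw [hA]; exact Subgroup.subset_closure hg
  have hcomm : ∀ x ∈ A, ∀ y ∈ A, x * y = y * x := by
    have h1 : A ≤ Subgroup.centralizer {g | IsArc ρ g} := by
      rw [hA, Subgroup.closure_le]
      intro a ha
      rw [SetLike.mem_coe, Subgroup.mem_centralizer_iff]
      intro b hb
      exact (IsArc.comm ρ hu hf ha (IsArc.norm_one ρ hu hb)).symm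
    have h2 : A ≤ Subgroup.centralizer (A : Set G) := by
      conv_lhs => rw [hA]
      rw [Subgroup.closure_le]
      intro b hb
      rw [SetLike.mem_coe, Subgroup.mem_centralizer_iff]
      intro a ha
      exact ((Subgroup.mem_centralizer_iff.mp (h1 ha)) b hb).symm
    intro x hx y hy
    exact ((Subgroup.mem_centralizer_iff.mp (h2 hx)) y hy).symm
  have hnorm : A.Normal := by
    refine ⟨fun n hn g => ?_⟩
    have h1 : A ≤ A.comap (MulAut.conj g).toMonoidHom := by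
      conv_lhs => rw [hA]
      rw [Subgroup.closure_le]
      intro a ha
      exact hXA _ (IsArc.conj ρ ha g)
    exact h1 hn
  refine ⟨A, hnorm, hcomm, fun H hH => ?_⟩
  have hmul : ∀ (x y : G) (v : E), ρ x (ρ y v) = ρ (x * y) v := fun x y v => by rw [map_mul]; rfl
  -- the characters of `H` occurring
  obtain ⟨Ψ, hΨ⟩ : ∃ Ψ : Set (H → ℂ), Ψ = {ψ | ∃ v : E, v ≠ 0 ∧ ∀ h : H, ρ h v = ψ h • v} := ⟨_, rfl⟩
  have hΨ' : ∀ ψ : Ψ, ∃ v : E, v ≠ 0 ∧ ∀ h : H, ρ h v = (ψ : H → ℂ) h • v := by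
    rintro ⟨ψ, hψ⟩
    rw [hΨ] at hψ
    exact hψ
  choose vec hvec0 hvec using hΨ'
  have hli : LinearIndependent ℂ vec := by
    apply linearIndependent_of_ne_zero_of_inner_eq_zero hvec0
    intro ψ φ hne
    obtain ⟨h, hh⟩ : ∃ h, (ψ : H → ℂ) h ≠ (φ : H → ℂ) h := by
      by_contra hcon
      push Not at hcon
      exact hne (Subtype.ext (funext hcon))
    have h1 := hu h (vec ψ) (vec φ)
    rw [hvec, hvec, inner_smul_left, inner_smul_right, ← mul_assoc] at h1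
    by_contra h2
    have h3 : (starRingEnd ℂ) ((ψ : H → ℂ) h) * (φ : H → ℂ) h = 1 := by
      exact mul_right_cancel₀ h2 (by rw [h1, one_mul])
    apply hh
    have h4 := norm_eig ρ hu (hvec0 ψ) (hvec ψ h)
    have h5 : (ψ : H → ℂ) h * (starRingEnd ℂ) ((ψ : H → ℂ) h) = 1 := by
      rw [Complex.mul_conj, Complex.normSq_eq_norm_sq, h4]; simp
    calc (ψ : H → ℂ) h = (ψ : H → ℂ) h * ((starRingEnd ℂ) ((ψ : H → ℂ) h) * (φ : H → ℂ) h) := by rw [h3, mul_one]
      _ = ((ψ : H → ℂ) h * (starRingEnd ℂ) ((ψ : H → ℂ) h)) * (φ : H → ℂ) h := by ring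
      _ = (φ : H → ℂ) h := by rw [h5, one_mul]
  have hfin : Finite Ψ := hli.finite
  have : Fintype Ψ := Fintype.ofFinite _
  have hcard : Fintype.card Ψ ≤ finrank ℂ E := hli.fintype_card_le_finrank
  -- the boxes
  obtain ⟨F, hF⟩ : ∃ F : (H ⧸ A.subgroupOf H) → (Ψ → Finset.Icc (-5 : ℤ) 6), ∀ q ψ, (F q ψ : ℤ) = box ((ψ : H → ℂ) q.out) :=
    ⟨fun q ψ => ⟨box ((ψ : H → ℂ) q.out), box_mem _⟩, fun q ψ => rfl⟩
  have hFinj : Function.Injective F := by
    intro q q' hqq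
    have h1 : q.out⁻¹ * q'.out ∈ A.subgroupOf H := by
      rw [Subgroup.mem_subgroupOf]
      apply hXA
      intro μ v hv hμ
      obtain ⟨W, hW⟩ : ∃ W : Submodule ℂ E, ∀ x, x ∈ W ↔ ρ ((q.out⁻¹ * q'.out : H) : G) x = μ • x := by
        refine ⟨{ carrier := {x | ρ ((q.out⁻¹ * q'.out : H) : G) x = μ • x}
                  add_mem' := fun {a b} ha hb => ?_
                  zero_mem' := by simp
                  smul_mem' := fun c {a} ha => ?_ }, fun x => Iff.rfl⟩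
        · have ha' : ρ ((q.out⁻¹ * q'.out : H) : G) a = μ • a := ha
          have hb' : ρ ((q.out⁻¹ * q'.out : H) : G) b = μ • b := hb
          change ρ ((q.out⁻¹ * q'.out : H) : G) (a + b) = μ • (a + b)
          rw [map_add, ha', hb', smul_add]
        · have ha' : ρ ((q.out⁻¹ * q'.out : H) : G) a = μ • a := ha
          change ρ ((q.out⁻¹ * q'.out : H) : G) (c • a) = μ • (c • a)
          rw [map_smul, ha', smul_comm]
      have hWne : W ≠ ⊥ := by
        intro h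
        have : v ∈ W := (hW v).mpr hμ
        rw [h] at this
        exact hv this
      obtain ⟨u, huW, hu0, huH⟩ := common ρ (S := (H : Set G)) (fun s hs t ht => hH s hs t ht) _ W rfl hWne (by
        intro s hs w hw
        rw [hW] at hw ⊢
        have h2 : ((q.out⁻¹ * q'.out : H) : G) * s = s * ((q.out⁻¹ * q'.out : H) : G) := hH _ (q.out⁻¹ * q'.out : H).2 s hs
        rw [hmul, h2, ← hmul, hw, map_smul])
      have huH' : ∀ h : H, ∃ μ : ℂ, ρ h u = μ • u := fun h => huH h h.2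
      choose ψ hψ using huH'
      have hψΨ : ψ ∈ Ψ := by rw [hΨ]; exact ⟨u, hu0, hψ⟩
      have h3 : box (ψ q.out) = box (ψ q'.out) := by
        rw [← hF q ⟨ψ, hψΨ⟩, ← hF q' ⟨ψ, hψΨ⟩, hqq]
      have h4 := box_eq (norm_eig ρ hu hu0 (hψ q.out)) (norm_eig ρ hu hu0 (hψ q'.out)) h3
      have h5 : μ = (starRingEnd ℂ) (ψ q.out) * ψ q'.out := by
        have h6 : ρ ((q.out⁻¹ * q'.out : H) : G) u = μ • u := (hW u).mp huW
        have h7 : ρ (q.out : G) (ρ ((q.out⁻¹ * q'.out : H) : G) u) = ψ q'.out • u := by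
          rw [hmul, ← hψ]
          congr 2
          push_cast
          group
        rw [h6, map_smul, hψ, smul_smul] at h7
        have h8 : μ * ψ q.out = ψ q'.out := by
          have h9 : (μ * ψ q.out - ψ q'.out) • u = 0 := by rw [sub_smul, h7, sub_self]
          exact sub_eq_zero.mp ((smul_eq_zero.mp h9).resolve_right hu0)
        rw [← h8, mul_comm μ, ← mul_assoc]
        have h9 : (starRingEnd ℂ) (ψ q.out) * ψ q.out = 1 := by
          rw [mul_comm, Complex.mul_conj, Complex.normSq_eq_norm_sq, norm_eig ρ hu hu0 (hψ q.out)]; simp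
        rw [h9, one_mul]
      rw [h5]
      exact h4
    rw [← q.out_eq, ← q'.out_eq]
    exact QuotientGroup.eq.mpr h1
  calc (A.subgroupOf H).index = Nat.card (H ⧸ A.subgroupOf H) := rfl
    _ ≤ Nat.card (Ψ → Finset.Icc (-5 : ℤ) 6) := Nat.card_le_card_of_injective F hFinj
    _ = 12 ^ Fintype.card Ψ := by
      rw [Nat.card_eq_fintype_card, Fintype.card_fun, Fintype.card_coe, Int.card_Icc]; rfl
    _ ≤ 12 ^ finrank ℂ E := Nat.pow_le_pow_right (by norm_num) hcard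

end Cfsg.Agent.H3.Arc
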