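import Mathlib
import Cfsg.Prelude.Def_Characters
import Cfsg.Agent.H3_Monomial
import Cfsg.Agent.H3_CharMult

/-!
# Jordan's theorem with the classical bound
-/

set_option autoImplicit false

open scoped ComplexConjugate

namespace Cfsg.Agent.H3.Jordan

open Cfsg Cfsg.Agent.H3.CharBasic Cfsg.Agent.H3.CharIrr Cfsg.Agent.H3.CharInt Cfsg.Agent.H3.CharCalc
  Cfsg.Agent.H3.CharComplete Cfsg.Agent.H3.CharInd Cfsg.Agent.H3.CharMult Cfsg.Agent.H3.Monomial

theorem pgroup_abelian {P : Type*} [Group P] [Fintype P] {p : ℕ} (hp : p.Prime) (hP : IsPGroup p P) {χ : P → ℂ}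
    (hχ : IsCharacter P χ) {n : ℕ} (hn : χ 1 = n) (hf : ∀ g, χ g = χ 1 → g = 1) :
    ∃ B : Subgroup P, (∀ x ∈ B, ∀ y ∈ B, x * y = y * x) ∧ B.index ∣ n.factorial := by
  classical
  have : Fact p.Prime := ⟨hp⟩
  have : Fintype (IrrCharacter P) := Fintype.ofFinite _
  have : Group.IsNilpotent P := hP.isNilpotent
  obtain ⟨m, hm, hχm⟩ := IsChar.eq_sum_nat hχ
  have hval : ∀ g, χ g = ∑ ξ : IrrCharacter P, (m ξ : ℂ) * (ξ : P → ℂ) g := by
    intro g
    have := congrFun hχm g
    rw [Finset.sum_apply] at this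
    exact this
  have hmon : ∀ ψ : IrrCharacter P, IsMon (ψ : P → ℂ) := fun ψ => mon_of_nilpotent ψ.2
  choose K lam hK using hmon
  -- the permutation module
  have hB : ∀ b, b ∈ (MulAction.toPermHom P (Σ ψ : {ψ : IrrCharacter P // m ψ ≠ 0}, P ⧸ K ψ.1)).ker →
      ∀ ψ, m ψ ≠ 0 → ∀ g : P, g⁻¹ * b * g ∈ K ψ := by
    intro b hb ψ hψ g
    rw [MonoidHom.mem_ker] at hb
    have h1 := congrArg (fun f : Equiv.Perm (Σ ψ : {ψ : IrrCharacter P // m ψ ≠ 0}, P ⧸ K ψ.1) => f ⟨⟨ψ, hψ⟩, (g : P ⧸ K ψ)⟩) hb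
    have h2 : (⟨⟨ψ, hψ⟩, b • (g : P ⧸ K ψ)⟩ : Σ ψ : {ψ : IrrCharacter P // m ψ ≠ 0}, P ⧸ K ψ.1) = ⟨⟨ψ, hψ⟩, (g : P ⧸ K ψ)⟩ := h1
    have h3 : b • (g : P ⧸ K ψ) = (g : P ⧸ K ψ) := eq_of_heq (Sigma.mk.inj h2).2
    have h4 : ((b * g : P) : P ⧸ K ψ) = (g : P ⧸ K ψ) := h3
    have h5 := QuotientGroup.eq.mp h4.symm
    rw [← mul_assoc] at h5
    exact h5
  refine ⟨(MulAction.toPermHom P (Σ ψ : {ψ : IrrCharacter P // m ψ ≠ 0}, P ⧸ K ψ.1)).ker, ?_, ?_⟩
  · intro x hx y hy
    have h1 : x * y * x⁻¹ * y⁻¹ = 1 := by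
      apply hf
      rw [hval, hval 1]
      refine Finset.sum_congr rfl (fun ψ _ => ?_)
      by_cases hψ : m ψ = 0
      · rw [hψ]; simp
      · congr 1
        rw [hK ψ]
        simp only [indFun]
        congr 1
        refine Finset.sum_congr rfl (fun g _ => ?_)
        have h2 := hB x hx ψ hψ g
        have h3 := hB y hy ψ hψ g
        have h4 : g⁻¹ * (x * y * x⁻¹ * y⁻¹) * g = (g⁻¹ * x * g) * (g⁻¹ * y * g) * (g⁻¹ * x * g)⁻¹ * (g⁻¹ * y * g)⁻¹ := by group
        have h5 : g⁻¹ * (x * y * x⁻¹ * y⁻¹) * g ∈ K ψ := by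
          rw [h4]; exact mul_mem (mul_mem (mul_mem h2 h3) (inv_mem h2)) (inv_mem h3)
        have h6 : g⁻¹ * 1 * g ∈ K ψ := by
          have : g⁻¹ * 1 * g = 1 := by group
          rw [this]; exact one_mem _
        rw [ext_mem _ _ h5, ext_mem _ _ h6]
        have h7 : (⟨g⁻¹ * (x * y * x⁻¹ * y⁻¹) * g, h5⟩ : K ψ) = ⟨_, h2⟩ * ⟨_, h3⟩ * ⟨_, h2⟩⁻¹ * ⟨_, h3⟩⁻¹ := by
          apply Subtype.ext
          simp only [Subgroup.coe_mul, Subgroup.coe_inv]
          exact h4
        have h8 : (⟨g⁻¹ * 1 * g, h6⟩ : K ψ) = 1 := by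
          apply Subtype.ext
          simp
        rw [h7, h8]
        simp only [map_mul, map_inv, map_one]
        rw [mul_comm (lam ψ ⟨_, h2⟩) (lam ψ ⟨_, h3⟩), mul_inv_cancel_right, mul_inv_cancel]
    have h3 : x * y * x⁻¹ = y := mul_inv_eq_one.mp h1
    calc x * y = x * y * x⁻¹ * x := by group
      _ = y * x := by rw [h3]
  · rw [Subgroup.index_ker]
    refine (Subgroup.card_subgroup_dvd_card _).trans ?_
    rw [Nat.card_eq_fintype_card, Fintype.card_perm]
    apply Nat.factorial_dvd_factorial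
    rw [Fintype.card_sigma]
    have h1 : n = ∑ ψ : IrrCharacter P, m ψ * (K ψ).index := by
      have h2 := hval 1
      rw [hn] at h2
      have h3 : (n : ℂ) = ((∑ ξ : IrrCharacter P, m ξ * (K ξ).index : ℕ) : ℂ) := by
        rw [h2]; push_cast
        refine Finset.sum_congr rfl (fun ψ _ => ?_)
        rw [hK ψ, ind_one]; simp
      exact_mod_cast h3
    have h2 : ∑ ψ : {ψ : IrrCharacter P // m ψ ≠ 0}, Fintype.card (P ⧸ K ψ.1) =
        ∑ ψ ∈ Finset.univ.filter (fun ψ : IrrCharacter P => m ψ ≠ 0), (K ψ).index := by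
      rw [← Finset.sum_subtype_eq_sum_filter (f := fun ψ => (K ψ).index), Finset.subtype_univ]
      refine Finset.sum_congr rfl (fun ψ _ => ?_)
      rw [Subgroup.index, Nat.card_eq_fintype_card]
    rw [h2, h1]
    calc ∑ ψ ∈ Finset.univ.filter (fun ψ : IrrCharacter P => m ψ ≠ 0), (K ψ).index
        ≤ ∑ ψ ∈ Finset.univ.filter (fun ψ : IrrCharacter P => m ψ ≠ 0), m ψ * (K ψ).index := by
          refine Finset.sum_le_sum (fun ψ hψ => ?_)
          rw [Finset.mem_filter] at hψ
          exact Nat.le_mul_of_pos_left _ (Nat.pos_of_ne_zero hψ.2)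
      _ ≤ ∑ ψ : IrrCharacter P, m ψ * (K ψ).index :=
          Finset.sum_le_sum_of_subset (Finset.filter_subset _ _)

/-- the counting -/
theorem count {G : Type*} [Group G] [Finite G] {n : ℕ} (A : Subgroup G) (hA : A.Normal)
    (h12 : ∀ H : Subgroup G, (∀ x ∈ H, ∀ y ∈ H, x * y = y * x) → (A.subgroupOf H).index ≤ 12 ^ n)
    (hB : ∀ p : ℕ, p.Prime → ∃ P B : Subgroup G, IsPGroup p P ∧ ¬ p ∣ P.index ∧ B ≤ P ∧ (∀ x ∈ B, ∀ y ∈ B, x * y = y * x) ∧
      B.relIndex P ∣ n.factorial)
    (H : Subgroup G) (hH : ∀ x ∈ H, ∀ y ∈ H, x * y = y * x) (hHi : ∀ q : ℕ, q.Prime → q ∣ H.index → q ≤ n + 1) :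
    A.index ≤ n.factorial * 12 ^ (n * (Nat.primeCounting (n + 1) + 1)) := by
  classical
  have hN0 : A.index ≠ 0 := Subgroup.index_ne_zero_of_finite
  have hfac0 : n.factorial ≠ 0 := Nat.factorial_ne_zero n
  -- small primes
  have h1 : ∀ p : ℕ, p.Prime → p ^ A.index.factorization p ≤ p ^ n.factorial.factorization p * 12 ^ n := by
    intro p hp
    have : Fact p.Prime := ⟨hp⟩
    obtain ⟨P, B, hP, hPi, hBP, hBc, hBd⟩ := hB p hp
    have h2 : A.relIndex P * (P ⊔ A).index = A.index := by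
      rw [← Subgroup.relIndex_sup_right, Subgroup.relIndex_mul_index le_sup_right]
    have h3 : ¬ p ∣ (P ⊔ A).index := fun h => hPi (h.trans (Subgroup.index_dvd_of_le le_sup_left))
    have h4 : p ^ A.index.factorization p ∣ A.relIndex P := by
      have h5 : p ^ A.index.factorization p ∣ A.relIndex P * (P ⊔ A).index := by rw [h2]; exact Nat.ordProj_dvd _ _
      exact (Nat.Coprime.pow_left _ ((Nat.Prime.coprime_iff_not_dvd hp).mpr h3)).dvd_of_dvd_mul_right h5
    have h5 : A.relIndex P ≤ A.relIndex B * B.relIndex P := by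
      have h6 : (A ⊓ B).relIndex B * B.relIndex P = (A ⊓ B).relIndex P := Subgroup.relIndex_mul_relIndex _ _ _ inf_le_right hBP
      rw [Subgroup.inf_relIndex_right] at h6
      rw [h6]
      exact Subgroup.relIndex_le_of_le_left inf_le_left (Subgroup.index_ne_zero_of_finite (H := (A ⊓ B).subgroupOf P))
    have h6 : A.relIndex B ≤ 12 ^ n := h12 B hBc
    have h7 : B.relIndex P ≤ p ^ n.factorial.factorization p := by
      obtain ⟨k, hk⟩ := IsPGroup.iff_card.mp hP
      have h8 : B.relIndex P ∣ p ^ k := by rw [← hk]; exact Subgroup.relIndex_dvd_card _ _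
      obtain ⟨i, -, hi⟩ := (Nat.dvd_prime_pow hp).mp h8
      rw [hi] at hBd ⊢
      exact Nat.pow_le_pow_right hp.pos ((hp.pow_dvd_iff_le_factorization hfac0).mp hBd)
    calc p ^ A.index.factorization p ≤ A.relIndex P := Nat.le_of_dvd (Nat.pos_of_ne_zero (Subgroup.index_ne_zero_of_finite (H := A.subgroupOf P))) h4
      _ ≤ A.relIndex B * B.relIndex P := h5
      _ ≤ 12 ^ n * p ^ n.factorial.factorization p := Nat.mul_le_mul h6 h7
      _ = _ := mul_comm _ _
  -- large primes
  have h2 : ∏ p ∈ A.index.primeFactors.filter (fun p => n + 1 < p), p ^ A.index.factorization p ≤ 12 ^ n := by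
    have h3 : A.relIndex H * (H ⊔ A).index = A.index := by
      rw [← Subgroup.relIndex_sup_right, Subgroup.relIndex_mul_index le_sup_right]
    have h4 : ∏ p ∈ A.index.primeFactors.filter (fun p => n + 1 < p), p ^ A.index.factorization p ∣ A.relIndex H := by
      apply Finset.prod_dvd_of_isRelPrime
      · intro p hp q hq hne
        rw [Finset.mem_coe, Finset.mem_filter, Nat.mem_primeFactors] at hp hq
        rw [Function.onFun, ← Nat.coprime_iff_isRelPrime]
        exact Nat.Coprime.pow _ _ ((Nat.coprime_primes hp.1.1 hq.1.1).mpr hne)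
      · intro p hp
        rw [Finset.mem_filter, Nat.mem_primeFactors] at hp
        have h5 : p ^ A.index.factorization p ∣ A.relIndex H * (H ⊔ A).index := by rw [h3]; exact Nat.ordProj_dvd _ _
        have h6 : ¬ p ∣ (H ⊔ A).index := fun h => by
          have := hHi p hp.1.1 (h.trans (Subgroup.index_dvd_of_le le_sup_left))
          omega
        exact (Nat.Coprime.pow_left _ ((Nat.Prime.coprime_iff_not_dvd hp.1.1).mpr h6)).dvd_of_dvd_mul_right h5
    calc _ ≤ A.relIndex H := Nat.le_of_dvd (Nat.pos_of_ne_zero (Subgroup.index_ne_zero_of_finite (H := A.subgroupOf H))) h4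
      _ ≤ 12 ^ n := h12 H hH
  -- the product
  have h3 : A.index = (∏ p ∈ (Finset.range (n + 2)).filter Nat.Prime, p ^ A.index.factorization p) *
      ∏ p ∈ A.index.primeFactors.filter (fun p => n + 1 < p), p ^ A.index.factorization p := by
    have h4 : A.index = ∏ p ∈ A.index.primeFactors, p ^ A.index.factorization p := by
      conv_lhs => rw [← Nat.prod_factorization_pow_eq_self hN0]
      rfl
    rw [← Finset.prod_union]
    · conv_lhs => rw [h4]
      apply Finset.prod_subset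
      · intro p hp
        rw [Finset.mem_union, Finset.mem_filter, Finset.mem_filter, Finset.mem_range]
        by_cases hle : n + 1 < p
        · exact Or.inr ⟨hp, hle⟩
        · exact Or.inl ⟨by omega, (Nat.mem_primeFactors.mp hp).1⟩
      · intro p _ hp
        rw [← Nat.support_factorization, Finsupp.notMem_support_iff] at hp
        rw [hp, pow_zero]
    · rw [Finset.disjoint_left]
      intro p hp hp'
      rw [Finset.mem_filter, Finset.mem_range] at hp
      rw [Finset.mem_filter] at hp'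
      omega
  have h4 : ∏ p ∈ (Finset.range (n + 2)).filter Nat.Prime, p ^ A.index.factorization p ≤
      n.factorial * (12 ^ n) ^ Nat.primeCounting (n + 1) := by
    have h5 : n.factorial = ∏ p ∈ (Finset.range (n + 2)).filter Nat.Prime, p ^ n.factorial.factorization p := by
      have h6 : n.factorial = ∏ p ∈ n.factorial.primeFactors, p ^ n.factorial.factorization p := by
        conv_lhs => rw [← Nat.prod_factorization_pow_eq_self hfac0]
        rfl
      conv_lhs => rw [h6]
      apply Finset.prod_subset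
      · intro p hp
        rw [Nat.mem_primeFactors] at hp
        rw [Finset.mem_filter, Finset.mem_range]
        have := (hp.1.dvd_factorial).mp hp.2.1
        exact ⟨by omega, hp.1⟩
      · intro p _ hp
        rw [← Nat.support_factorization, Finsupp.notMem_support_iff] at hp
        rw [hp, pow_zero]
    have h6 : Nat.primeCounting (n + 1) = ((Finset.range (n + 2)).filter Nat.Prime).card := by
      rw [Nat.primeCounting, Nat.primeCounting', Nat.count_eq_card_filter_range]
    calc _ ≤ ∏ p ∈ (Finset.range (n + 2)).filter Nat.Prime, (p ^ n.factorial.factorization p * 12 ^ n) :=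
          Finset.prod_le_prod' (fun p hp => h1 p (Finset.mem_filter.mp hp).2)
      _ = n.factorial * (12 ^ n) ^ Nat.primeCounting (n + 1) := by
          rw [Finset.prod_mul_distrib, Finset.prod_const, ← h5, h6]
  calc A.index = _ := h3
    _ ≤ (n.factorial * (12 ^ n) ^ Nat.primeCounting (n + 1)) * 12 ^ n := Nat.mul_le_mul h4 h2
    _ = _ := by rw [mul_assoc, ← pow_succ, ← pow_mul]

end Cfsg.Agent.H3.Jordan
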