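import Mathlib
import Cfsg.Prelude.Def_Characters
import Cfsg.Prelude.Def_Blocks
import Cfsg.Agent.H3_Jordan
import Cfsg.Agent.H3_Arc
import Cfsg.Agent.H3_Unit
import Cfsg.Agent.H3_CharQuot

/-!
# Jordan's theorem with the classical bound: assembling
-/

set_option autoImplicit false

namespace Cfsg.Agent.H3.Jordan

open Cfsg Cfsg.Agent.H3.CharBasic Cfsg.Agent.H3.CharIrr Cfsg.Agent.H3.CharInt Cfsg.Agent.H3.CharCalc
  Cfsg.Agent.H3.CharComplete Cfsg.Agent.H3.CharInd Cfsg.Agent.H3.CharMult Cfsg.Agent.H3.Monomial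

theorem jordan {G : Type*} [Group G] [Finite G] (χ : G → ℂ) (hχ : Cfsg.IsCharacter G χ)
    (hfaith : ∀ g : G, χ g = χ 1 → g = 1) (n : ℕ) (hn : Cfsg.charDegree χ = n)
    (hHall : ∃ H : Subgroup G, (∀ x ∈ H, ∀ y ∈ H, x * y = y * x) ∧ ∀ q : ℕ, q.Prime → q ∣ H.index → q ≤ n + 1) :
    ∃ A : Subgroup G, A.Normal ∧ (∀ x ∈ A, ∀ y ∈ A, x * y = y * x) ∧
      A.index ≤ Nat.factorial n * 12 ^ (n * (Nat.primeCounting (n + 1) + 1)) := by
  classical
  have : Fintype G := Fintype.ofFinite _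
  obtain ⟨m, ρ, rfl⟩ := hχ
  have hm : m = n := by
    rw [← hn, Cfsg.charDegree, Representation.char_one]
    simp
  subst hm
  have hf : Function.Injective ρ := by
    intro x y hxy
    have h1 : ρ (x * y⁻¹) = 1 := by
      rw [map_mul, hxy, ← map_mul, mul_inv_cancel, map_one]
    have h2 := hfaith _ ((Cfsg.Agent.H3.CharQuot.rep_eq_one_iff ρ _).mp h1)
    exact mul_inv_eq_one.mp h2
  obtain ⟨E, σ, hE, hσu, hσf⟩ := Cfsg.Agent.H3.Unit.exists_unitary ρ hf
  obtain ⟨A, hA, hA', hA''⟩ := Cfsg.Agent.H3.Arc.exists_abelian (E := E) (G := G) σ hσu hσf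
  obtain ⟨H, hHc, hHi⟩ := hHall
  have hχ : IsCharacter G ρ.character := ⟨m, ρ, rfl⟩
  have hχ1 : ρ.character 1 = m := by rw [Representation.char_one]; simp
  refine ⟨A, hA, hA', count A hA (fun H hH => by rw [← hE]; exact hA'' H hH) ?_ H hHc hHi⟩
  intro p hp
  have : Fact p.Prime := ⟨hp⟩
  obtain ⟨P⟩ : Nonempty (Sylow p G) := inferInstance
  have : Fintype P := Fintype.ofFinite _
  obtain ⟨B, hBc, hBi⟩ := pgroup_abelian hp P.2 (χ := fun x : P => ρ.character x) (IsChar.res hχ (P : Subgroup G)) hχ1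
    (fun g hg => Subtype.ext (hfaith g hg))
  refine ⟨P, B.map (P : Subgroup G).subtype, P.2, P.not_dvd_index, ?_, ?_, ?_⟩
  · rintro _ ⟨y, -, rfl⟩; exact y.2
  · rintro _ ⟨x, hx, rfl⟩ _ ⟨y, hy, rfl⟩
    exact congrArg Subtype.val (hBc x hx y hy)
  · have h1 : (B.map (P : Subgroup G).subtype).relIndex P = B.index := by
      rw [Subgroup.relIndex]
      congr 1
      ext x
      rw [Subgroup.mem_subgroupOf]
      constructor
      · rintro ⟨y, hy, hyx⟩
        have : y = x := Subtype.ext hyx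
        rw [← this]; exact hy
      · intro hx; exact ⟨x, hx, rfl⟩
    rw [h1]; exact hBi

end Cfsg.Agent.H3.Jordan
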