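import Mathlib
import Cfsg.Prelude.Def_Characters
import Cfsg.Agent.H3_GalProd
import Cfsg.Agent.H3_CharGal
import Cfsg.Agent.H3_CharQuot
import Cfsg.Agent.H3_Extraspecial

/-!
# Blichfeldt's theorem: elements of order `pq`
-/

set_option autoImplicit false

open scoped ComplexConjugate

namespace Cfsg.Agent.H3.Blich

open Cfsg Cfsg.Agent.H3.CharBasic Cfsg.Agent.H3.CharIrr Cfsg.Agent.H3.CharInt Cfsg.Agent.H3.CharCalc
  Cfsg.Agent.H3.CharComplete Cfsg.Agent.H3.CharInd Cfsg.Agent.H3.CharMult Cfsg.Agent.H3.CharQuot Cfsg.Agent.H3.CharGal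

variable {G : Type*} [Group G] [Fintype G]

theorem ker_of_fixed {ξ : G → ℂ} (hξ : IsCharacter G ξ) {p d : ℕ} (hp : p.Prime) (hd : ξ 1 = d) (hlt : d + 1 < p) {x : G}
    (hx : x ^ p = 1) (hfix : ∀ j, ¬ p ∣ j → ξ (x ^ j) = ξ x) : ξ x = ξ 1 := by
  classical
  obtain ⟨d', z, hd', hz, hc⟩ := IsChar.exists_roots hξ p hp.ne_zero x hx
  have hdd : d' = d := by rw [hd] at hd'; exact_mod_cast hd'.symm
  subst hdd
  have hx1 : ξ x = ∑ i, z i := by
    have := hc 1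
    rw [pow_one] at this
    rw [this]; simp
  -- the sum over the powers
  have h1 : ∑ k ∈ Finset.range p, ξ (x ^ k) = (p : ℂ) * ((Finset.univ.filter (fun i => z i = 1)).card : ℂ) := by
    rw [Finset.sum_congr rfl (fun k _ => hc k), Finset.sum_comm]
    have h2 : ∀ i, ∑ k ∈ Finset.range p, z i ^ k = if z i = 1 then (p : ℂ) else 0 := by
      intro i
      split_ifs with h
      · rw [h]; simp
      · have h3 := mul_geom_sum (z i) p
        rw [hz i, sub_self] at h3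
        exact (mul_eq_zero.mp h3).resolve_left (sub_ne_zero.mpr h)
    rw [Finset.sum_congr rfl (fun i _ => h2 i), Finset.sum_ite, Finset.sum_const, Finset.sum_const_zero, add_zero, nsmul_eq_mul, mul_comm]
  have h2 : ∑ k ∈ Finset.range p, ξ (x ^ k) = d' + ((p : ℂ) - 1) * ξ x := by
    obtain ⟨q, hq⟩ : ∃ q, p = q + 1 := ⟨p - 1, by have := hp.pos; omega⟩
    rw [hq, Finset.sum_range_succ', pow_zero, hd]
    have h3 : ∀ k ∈ Finset.range q, ξ (x ^ (k + 1)) = ξ x := by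
      intro k hk
      rw [Finset.mem_range] at hk
      apply hfix
      intro h
      have := Nat.le_of_dvd (Nat.succ_pos k) h
      omega
    rw [Finset.sum_congr rfl h3, Finset.sum_const, Finset.card_range, nsmul_eq_mul]
    push_cast; ring
  obtain ⟨a, ha⟩ : ∃ a, a = (Finset.univ.filter (fun i => z i = 1)).card := ⟨_, rfl⟩
  rw [← ha, h2] at h1
  have hale : a ≤ d' := by
    rw [ha]
    exact (Finset.card_filter_le _ _).trans (by simp)
  have hp1 : ((p : ℂ) - 1) ≠ 0 := by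
    rw [sub_ne_zero]
    exact_mod_cast hp.one_lt.ne'
  have hxq : ξ x = (((p : ℚ) * a - d') / (p - 1) : ℚ) := by
    push_cast
    rw [eq_div_iff hp1]
    rw [← h1]; ring
  obtain ⟨c, hc'⟩ := exists_int_of_isIntegral (q := ((p : ℚ) * a - d') / (p - 1)) (by rw [← hxq]; exact IsChar.isIntegral hξ x)
  have hp1' : ((p : ℚ) - 1) ≠ 0 := by
    rw [sub_ne_zero]
    exact_mod_cast hp.one_lt.ne'
  rw [div_eq_iff hp1'] at hc'
  have h3 : (p : ℤ) * a - d' = c * (p - 1) := by exact_mod_cast hc'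
  have h4 : a = d' := by
    have h5 : ((p : ℤ) - 1) ∣ ((d' : ℤ) - a) := ⟨a - c, by linear_combination -h3⟩
    have h6 : ((d' : ℤ) - a) = 0 := by
      apply Int.eq_zero_of_abs_lt_dvd h5
      rw [abs_of_nonneg (by omega)]
      omega
    omega
  have h5 : ∀ i, z i = 1 := by
    rw [ha] at h4
    have h6 : Finset.univ.filter (fun i => z i = 1) = Finset.univ := by
      apply Finset.eq_univ_of_card
      rw [h4]; simp
    intro i
    have : i ∈ Finset.univ.filter (fun i => z i = 1) := by rw [h6]; exact Finset.mem_univ i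
    exact (Finset.mem_filter.mp this).2
  rw [hx1, hd, Finset.sum_congr rfl (fun i _ => h5 i)]
  simp

/-- a suitable exponent -/
theorem exists_exp {p : ℕ} (hp : p.Prime) {N : ℕ} (hN : N ≠ 0) (hpN : p ∣ N) : ∃ m : ℕ, N.Coprime m ∧
    (∀ b, b ∣ N → ¬ p ∣ b → m ≡ 1 [MOD b]) ∧ ∀ j, ¬ p ∣ j → ∃ i, j ≡ m ^ i [MOD p] := by
  have : Fact p.Prime := ⟨hp⟩
  obtain ⟨u, hu⟩ := IsCyclic.exists_generator (α := (ZMod p)ˣ)
  obtain ⟨a, b, hb, hab⟩ := Nat.exists_eq_pow_mul_and_not_dvd hN p hp.ne_one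
  have ha : a ≠ 0 := by
    rintro rfl
    apply hb
    rw [pow_zero, one_mul] at hab
    rw [← hab]; exact hpN
  have hcop : (p ^ a).Coprime b := Nat.Coprime.pow_left a ((Nat.Prime.coprime_iff_not_dvd hp).mpr hb)
  obtain ⟨m, hm1, hm2⟩ := Nat.chineseRemainder hcop ((u : ZMod p).val) 1
  have hmp : m ≡ (u : ZMod p).val [MOD p] := hm1.of_dvd (dvd_pow_self p ha)
  have hmu : ((m : ℕ) : ZMod p) = u := by
    have h1 := (ZMod.natCast_eq_natCast_iff _ _ _).mpr hmp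
    rw [h1, ZMod.natCast_val, ZMod.cast_id', id]
  refine ⟨m, ?_, ?_, ?_⟩
  · rw [hab]
    apply Nat.Coprime.mul_left
    · apply Nat.Coprime.pow_left
      rw [Nat.Prime.coprime_iff_not_dvd hp]
      intro h
      have h1 : ((m : ℕ) : ZMod p) = 0 := (ZMod.natCast_eq_zero_iff _ _).mpr h
      rw [hmu] at h1
      exact u.ne_zero h1
    · have h1 := hm2.gcd_eq
      rw [Nat.gcd_one_left] at h1
      exact (Nat.coprime_comm).mp h1
  · intro c hc hpc
    apply hm2.of_dvd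
    rw [hab] at hc
    exact (Nat.Coprime.pow_right a ((Nat.Prime.coprime_iff_not_dvd hp).mpr hpc).symm).dvd_of_dvd_mul_left hc
  · intro j hj
    have hj0 : ((j : ℕ) : ZMod p) ≠ 0 := fun h => hj ((ZMod.natCast_eq_zero_iff _ _).mp h)
    obtain ⟨i, hi⟩ := (mem_powers_iff_mem_zpowers.mpr (hu (Units.mk0 _ hj0)) : _)
    refine ⟨i, ?_⟩
    rw [← ZMod.natCast_eq_natCast_iff]
    push_cast
    rw [hmu, ← Units.val_pow_eq_pow_val]
    have : u ^ i = Units.mk0 _ hj0 := hi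
    rw [this]; rfl

theorem no_pq {χ : G → ℂ} (hχ : IsCharacter G χ) {n : ℕ} (hn : χ 1 = n) (hf : ∀ g, χ g = χ 1 → g = 1) {p q : ℕ} (hp : p.Prime)
    (hq : q.Prime) (hnp : n + 1 < p) (hnq : n + 1 < q) {x₀ y₀ : G} (hx₀ : orderOf x₀ = p) (hy₀ : orderOf y₀ = q)
    (hno : ∀ x y : G, orderOf x = p → orderOf y = q → x * y ≠ y * x) : False := by
  classical
  have : Fintype (IrrCharacter G) := Fintype.ofFinite _
  have hpN : p ∣ Nat.card G := by rw [← hx₀]; exact orderOf_dvd_natCard x₀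
  have hqN : q ∣ Nat.card G := by rw [← hy₀]; exact orderOf_dvd_natCard y₀
  obtain ⟨m, hm1, hm2, hm3⟩ := exists_exp hp Nat.card_pos.ne' hpN
  obtain ⟨l, hl1, hl2, hl3⟩ := exists_exp hq Nat.card_pos.ne' hqN
  have hreg : ∀ g : G, ¬ p ∣ orderOf g ∨ ¬ q ∣ orderOf g := by
    intro g
    by_contra hcon
    push Not at hcon
    obtain ⟨⟨a, ha⟩, ⟨b, hb⟩⟩ := hcon
    have hg := orderOf_pos g
    have ha0 : a ≠ 0 := by rintro rfl; rw [mul_zero] at ha; omega
    have hb0 : b ≠ 0 := by rintro rfl; rw [mul_zero] at hb; omega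
    have h1 : orderOf (g ^ a) = p := by
      rw [orderOf_pow_of_dvd ha0 (by rw [ha]; exact Dvd.intro_left _ rfl), ha]
      exact Nat.mul_div_cancel _ (Nat.pos_of_ne_zero ha0)
    have h2 : orderOf (g ^ b) = q := by
      rw [orderOf_pow_of_dvd hb0 (by rw [hb]; exact Dvd.intro_left _ rfl), hb]
      exact Nat.mul_div_cancel _ (Nat.pos_of_ne_zero hb0)
    exact hno _ _ h1 h2 (by rw [← pow_add, ← pow_add, add_comm])
  -- fixed characters
  have hfixker : ∀ (r s : ℕ), r.Prime → n + 1 < r → (Nat.card G).Coprime s → (∀ j, ¬ r ∣ j → ∃ i, j ≡ s ^ i [MOD r]) →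
      ∀ ξ : IrrCharacter G, (∀ t : ℕ, (ξ : G → ℂ) 1 = t → t ≤ n) → (ξ : G → ℂ) = (fun g => (ξ : G → ℂ) (g ^ s)) →
      ∀ x : G, orderOf x = r → (ξ : G → ℂ) x = (ξ : G → ℂ) 1 := by
    intro r s hr hnr _ hs3 ξ hξn hξ x hx
    obtain ⟨t, ht0, ht⟩ := IsIrr.one_eq_nat ξ.2
    have hxr : x ^ r = 1 := by rw [← hx]; exact pow_orderOf_eq_one x
    refine ker_of_fixed (IsIrr.isCharacter ξ.2) hr ht (by have := hξn t ht; omega) hxr (fun j hj => ?_)
    obtain ⟨i, hi⟩ := hs3 j hj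
    have h1 : x ^ j = x ^ (s ^ i) := pow_eq_pow_iff_modEq.mpr (by rw [hx]; exact hi)
    rw [h1]
    clear h1 hi
    induction i with
    | zero => rw [pow_zero, pow_one]
    | succ i ih =>
      rw [pow_succ, pow_mul]
      have h2 := congrFun hξ (x ^ s ^ i)
      rw [← h2]; exact ih
  have hdich : ∀ ξ : IrrCharacter G, (∀ t : ℕ, (ξ : G → ℂ) 1 = t → t ≤ n) →
      (∀ x : G, orderOf x = p → (ξ : G → ℂ) x = (ξ : G → ℂ) 1) ∨ (∀ x : G, orderOf x = q → (ξ : G → ℂ) x = (ξ : G → ℂ) 1) := by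
    intro ξ hξn
    by_cases h1 : (ξ : G → ℂ) = (fun g => (ξ : G → ℂ) (g ^ m))
    · exact Or.inl (hfixker p m hp hnp hm1 hm3 ξ hξn h1)
    by_cases h2 : (ξ : G → ℂ) = (fun g => (ξ : G → ℂ) (g ^ l))
    · exact Or.inr (hfixker q l hq hnq hl1 hl3 ξ hξn h2)
    exfalso
    have e1 := GalProd.isIrr_pow hm1 ξ.2
    have e2 := GalProd.isIrr_pow hl1 ξ.2
    have h3 : classInner ((ξ : G → ℂ) - (fun g => (ξ : G → ℂ) (g ^ m))) ((ξ : G → ℂ) - (fun g => (ξ : G → ℂ) (g ^ l))) = 0 := by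
      rw [classInner, Finset.sum_eq_zero, mul_zero]
      intro g _
      simp only [Pi.sub_apply]
      rcases hreg g with h4 | h4
      · have h5 : g ^ m = g ^ 1 := pow_eq_pow_iff_modEq.mpr (hm2 _ (orderOf_dvd_natCard g) h4)
        rw [h5, pow_one, sub_self, zero_mul]
      · have h5 : g ^ l = g ^ 1 := pow_eq_pow_iff_modEq.mpr (hl2 _ (orderOf_dvd_natCard g) h4)
        rw [h5, pow_one, sub_self, map_zero, mul_zero]
    rw [ci_sub_left, ci_sub_right, ci_sub_right, ci_irr_self ξ.2, ci_irr_ne ξ.2 e2 h2, ci_irr_ne e1 ξ.2 (Ne.symm h1), ci_irr e1 e2] at h3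
    split_ifs at h3 <;> norm_num at h3
  obtain ⟨μ, hμ, hχμ⟩ := IsChar.eq_sum_nat hχ
  have hval : ∀ g, χ g = ∑ ξ : IrrCharacter G, (μ ξ : ℂ) * (ξ : G → ℂ) g := by
    intro g
    have := congrFun hχμ g
    rw [Finset.sum_apply] at this
    exact this
  have hcomm : x₀ * y₀ * x₀⁻¹ * y₀⁻¹ = 1 := by
    apply hf
    rw [hval, hval 1]
    refine Finset.sum_congr rfl (fun ξ _ => ?_)
    by_cases h1 : μ ξ = 0
    · rw [h1]; simp
    · congr 1
      have hξn : ∀ t : ℕ, (ξ : G → ℂ) 1 = t → t ≤ n := fun t ht =>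
        IsChar.degree_le' hχ ξ.2 (by rw [hμ]; exact_mod_cast h1) hn ht
      have hc := IsIrr.isCharacter ξ.2
      have hkn := chKer_normal hc
      rcases hdich ξ hξn with h2 | h2
      · have h3 : x₀ ∈ chKer (ξ : G → ℂ) hc := h2 x₀ hx₀
        have h4 : x₀ * y₀ * x₀⁻¹ * y₀⁻¹ ∈ chKer (ξ : G → ℂ) hc := by
          have : x₀ * y₀ * x₀⁻¹ * y₀⁻¹ = x₀ * (y₀ * x₀⁻¹ * y₀⁻¹) := by group
          rw [this]; exact mul_mem h3 (hkn.conj_mem _ (inv_mem h3) _)
        exact h4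
      · have h3 : y₀ ∈ chKer (ξ : G → ℂ) hc := h2 y₀ hy₀
        have h4 : x₀ * y₀ * x₀⁻¹ * y₀⁻¹ ∈ chKer (ξ : G → ℂ) hc := mul_mem (hkn.conj_mem _ h3 _) (inv_mem h3)
        exact h4
  have h1 : x₀ * y₀ * x₀⁻¹ = y₀ := mul_inv_eq_one.mp hcomm
  apply hno x₀ y₀ hx₀ hy₀
  calc x₀ * y₀ = x₀ * y₀ * x₀⁻¹ * x₀ := by group
    _ = y₀ * x₀ := by rw [h1]

end Cfsg.Agent.H3.Blich
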