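import Mathlib
import Cfsg.Prelude.Def_Characters
import Cfsg.Agent.H3_Blich
import Cfsg.Agent.H3_SmallRep3
import Cfsg.Agent.H1_Nilp

/-!
# Blichfeldt's theorem: abelian Hall subgroups
-/

set_option autoImplicit false

open scoped ComplexConjugate

namespace Cfsg.Agent.H3.Blich

open Cfsg Cfsg.Agent.H3.CharBasic Cfsg.Agent.H3.CharIrr Cfsg.Agent.H3.CharInt Cfsg.Agent.H3.CharCalc
  Cfsg.Agent.H3.CharComplete Cfsg.Agent.H3.CharInd Cfsg.Agent.H3.CharMult Cfsg.Agent.H3.CharQuot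
  Cfsg.Agent.H3.SmallRep

section Fixed

variable {G : Type*} [Group G] [Fintype G] {χ : G → ℂ} (hχ : IsCharacter G χ) {n : ℕ} (hn : χ 1 = n)
  (hf : ∀ g, χ g = χ 1 → g = 1)

include hχ hn hf in
/-- subgroups whose order involves only large primes are abelian -/
theorem abelian_of_large {K : Subgroup G} (hK : ∀ q : ℕ, q.Prime → q ∣ Nat.card K → n < q) : ∀ x ∈ K, ∀ y ∈ K, x * y = y * x := by
  classical
  have : Fintype K := Fintype.ofFinite _
  have : Fintype (IrrCharacter K) := Fintype.ofFinite _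
  have hχK := IsChar.res hχ K
  obtain ⟨μ, hμ, hχμ⟩ := IsChar.eq_sum_nat hχK
  have hval : ∀ g : K, χ g = ∑ ξ : IrrCharacter K, (μ ξ : ℂ) * (ξ : K → ℂ) g := by
    intro g
    have := congrFun hχμ g
    rw [Finset.sum_apply] at this
    exact this
  intro x hx y hy
  have h1 : x * y * x⁻¹ * y⁻¹ = 1 := by
    apply hf
    have e1 := hval (⟨x, hx⟩ * ⟨y, hy⟩ * ⟨x, hx⟩⁻¹ * ⟨y, hy⟩⁻¹)
    have e2 := hval 1
    have e3 : χ (x * y * x⁻¹ * y⁻¹) = ∑ ξ : IrrCharacter K, (μ ξ : ℂ) * (ξ : K → ℂ) (⟨x, hx⟩ * ⟨y, hy⟩ * ⟨x, hx⟩⁻¹ * ⟨y, hy⟩⁻¹) := e1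
    have e4 : χ 1 = ∑ ξ : IrrCharacter K, (μ ξ : ℂ) * (ξ : K → ℂ) 1 := e2
    rw [e3, e4]
    refine Finset.sum_congr rfl (fun ξ _ => ?_)
    by_cases h1 : μ ξ = 0
    · rw [h1]; simp
    · obtain ⟨t, ht0, ht, htd⟩ := IsIrr.dvd_card ξ.2
      have hle : t ≤ n := IsChar.degree_le' hχK ξ.2 (by rw [hμ]; exact_mod_cast h1) hn ht
      have ht1 : t = 1 := by
        by_contra hne
        obtain ⟨q, hq, hqt⟩ := Nat.exists_prime_and_dvd hne
        have h2 := hK q hq (hqt.trans htd)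
        have h3 := Nat.le_of_dvd ht0 hqt
        omega
      have h4 : (ξ : K → ℂ) 1 = 1 := by rw [ht, ht1]; simp
      rw [Cfsg.Agent.H3.Extraspecial.commutator_of_one (IsIrr.isCharacter ξ.2) h4 (⟨x, hx⟩ * ⟨y, hy⟩ * ⟨x, hx⟩⁻¹ * ⟨y, hy⟩⁻¹)
          (Subgroup.commutator_mem_commutator (Subgroup.mem_top _) (Subgroup.mem_top _))]
  have h3 : x * y * x⁻¹ = y := mul_inv_eq_one.mp h1
  calc x * y = x * y * x⁻¹ * x := by group
    _ = y * x := by rw [h3]

/-- adjoining a commuting element -/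
theorem adjoin_card {H : Subgroup G} {y : G} (hy : ∀ h ∈ H, h * y = y * h) (hH : ∀ q : ℕ, q.Prime → q ∣ Nat.card H → n + 1 < q)
    (hyo : ∀ q : ℕ, q.Prime → q ∣ orderOf y → n + 1 < q) :
    ∃ T : Subgroup G, H ≤ T ∧ y ∈ T ∧ ∀ q : ℕ, q.Prime → q ∣ Nat.card T → n + 1 < q := by
  classical
  have hyz : ∀ h ∈ H, ∀ i : ℤ, h * y ^ i = y ^ i * h := fun h hh i => ((show Commute h y from hy h hh).zpow_right i)
  obtain ⟨T, hT⟩ : ∃ T : Subgroup G, ∀ t, t ∈ T ↔ ∃ h ∈ H, ∃ i : ℤ, h * y ^ i = t := by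
    refine ⟨{ carrier := {t | ∃ h ∈ H, ∃ i : ℤ, h * y ^ i = t}
              mul_mem' := ?_
              one_mem' := ⟨1, one_mem _, 0, by simp⟩
              inv_mem' := ?_ }, fun t => Iff.rfl⟩
    · rintro _ _ ⟨h, hh, i, rfl⟩ ⟨h', hh', j, rfl⟩
      refine ⟨h * h', mul_mem hh hh', i + j, ?_⟩
      rw [zpow_add, mul_assoc, mul_assoc, ← mul_assoc h', hyz h' hh' i]
      group
    · rintro _ ⟨h, hh, i, rfl⟩
      refine ⟨h⁻¹, inv_mem hh, -i, ?_⟩
      rw [hyz h⁻¹ (inv_mem hh)]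
      group
  refine ⟨T, fun h hh => (hT h).mpr ⟨h, hh, 0, by simp⟩, (hT y).mpr ⟨1, one_mem _, 1, by simp⟩, ?_⟩
  intro q hq hqT
  have : Fact q.Prime := ⟨hq⟩
  obtain ⟨t, ht⟩ := exists_prime_orderOf_dvd_card' (G := T) q hqT
  obtain ⟨h, hh, i, hhi⟩ := (hT t).mp t.2
  have h1 : (t : G) ^ (Nat.card H * orderOf y) = 1 := by
    rw [← hhi, (show Commute h (y ^ i) from hyz h hh i).mul_pow]
    have h2 : h ^ (Nat.card H * orderOf y) = 1 := by
      rw [pow_mul]
      have : h ^ Nat.card H = 1 := congrArg Subtype.val (pow_card_eq_one' (x := (⟨h, hh⟩ : H)))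
      rw [this, one_pow]
    have h3 : (y ^ i) ^ (Nat.card H * orderOf y) = 1 := by
      have h4 : (y ^ i) ^ (orderOf y) = 1 := by
        rw [← zpow_natCast, ← zpow_mul, mul_comm, zpow_mul, zpow_natCast, pow_orderOf_eq_one, one_zpow]
      rw [mul_comm (Nat.card H), pow_mul, h4, one_pow]
    rw [h2, h3, one_mul]
  have h2 : orderOf (t : G) ∣ Nat.card H * orderOf y := orderOf_dvd_of_pow_eq_one h1
  rw [Subgroup.orderOf_coe, ht] at h2
  rcases (hq.dvd_mul).mp h2 with h3 | h3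
  · exact hH q hq h3
  · exact hyo q hq h3

/-- a normal `p`-complement if `p` does not divide the order of the commutator subgroup -/
theorem exists_pcompl {p : ℕ} (hp : p.Prime) (h : ¬ p ∣ Nat.card (commutator G)) : ∃ K : Subgroup G, K.Normal ∧ ¬ p ∣ Nat.card K ∧
    ∃ j, K.index = p ^ j := by
  classical
  have : Fact p.Prime := ⟨hp⟩
  -- elements whose image in the abelianization has order prime to `p`
  obtain ⟨a, b, hb, hab⟩ := Nat.exists_eq_pow_mul_and_not_dvd (Nat.card_pos (α := Abelianization G)).ne' p hp.ne_one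
  obtain ⟨K, hK⟩ : ∃ K : Subgroup G, ∀ g, g ∈ K ↔ (Abelianization.of g) ^ b = 1 := by
    refine ⟨{ carrier := {g | (Abelianization.of g) ^ b = 1}
              mul_mem' := ?_
              one_mem' := by simp
              inv_mem' := ?_ }, fun g => Iff.rfl⟩
    · intro x y hx hy
      change (Abelianization.of (x * y)) ^ b = 1
      have hx' : (Abelianization.of x) ^ b = 1 := hx
      have hy' : (Abelianization.of y) ^ b = 1 := hy
      rw [map_mul, mul_pow, hx', hy', one_mul]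
    · intro x hx
      have hx' : (Abelianization.of x) ^ b = 1 := hx
      change (Abelianization.of x⁻¹) ^ b = 1
      rw [map_inv, inv_pow, hx', inv_one]
  have hKn : K.Normal := by
    refine ⟨fun n hn g => ?_⟩
    rw [hK] at hn ⊢
    rw [map_mul, map_mul, map_inv, mul_comm, inv_mul_cancel_left, hn]
  have hKle : commutator G ≤ K := by
    intro g hg
    rw [hK]
    have : Abelianization.of g = 1 := (MonoidHom.mem_ker).mp (Abelianization.commutator_subset_ker _ hg)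
    rw [this, one_pow]
  refine ⟨K, hKn, ?_, ?_⟩
  · intro hpK
    obtain ⟨x, hx⟩ := exists_prime_orderOf_dvd_card' (G := K) p hpK
    have h1 : (Abelianization.of (x : G)) ^ b = 1 := (hK x).mp x.2
    have h2 : (x : G) ^ p = 1 := by
      rw [← hx, ← Subgroup.orderOf_coe]; exact pow_orderOf_eq_one _
    have h3 : Abelianization.of (x : G) = 1 := by
      apply orderOf_eq_one_iff.mp
      have h4 : orderOf (Abelianization.of (x : G)) ∣ p := orderOf_dvd_of_pow_eq_one (by rw [← map_pow, h2, map_one])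
      exact Nat.eq_one_of_dvd_coprimes ((Nat.Prime.coprime_iff_not_dvd hp).mpr hb) h4 (orderOf_dvd_of_pow_eq_one h1)
    have h4 : (x : G) ∈ commutator G := by
      rw [← Abelianization.ker_of, MonoidHom.mem_ker]; exact h3
    apply h
    have h5 := orderOf_dvd_natCard (⟨(x : G), h4⟩ : commutator G)
    rw [Subgroup.orderOf_mk, Subgroup.orderOf_coe, hx] at h5
    exact h5
  · -- `G / K` is a `p`-group
    have hpg : IsPGroup p (G ⧸ K) := by
      intro y
      obtain ⟨g, rfl⟩ := QuotientGroup.mk_surjective y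
      refine ⟨a, ?_⟩
      have h1 : g ^ p ^ a ∈ K := by
        rw [hK, map_pow, ← pow_mul, ← hab]
        exact pow_card_eq_one'
      have h2 : ((g ^ p ^ a : G) : G ⧸ K) = 1 := (QuotientGroup.eq_one_iff _).mpr h1
      exact h2
    obtain ⟨j, hj⟩ := IsPGroup.iff_card.mp hpg
    exact ⟨j, hj⟩

/-- a Sylow subgroup permuted by another one -/
theorem sylow_pair {p q : ℕ} (hp : p.Prime) (hq : q.Prime) (hpq : p ≠ q) (P : Sylow p G) (h : ¬ p ∣ Nat.card (commutator G)) :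
    ∃ L : Subgroup G, (∀ x ∈ P, ∀ l ∈ L, x * l * x⁻¹ ∈ L) ∧ IsPGroup q L ∧ Nat.card L = q ^ (Nat.card G).factorization q := by
  have : Fact p.Prime := ⟨hp⟩
  obtain ⟨K, hK, hpK, j, hj⟩ := exists_pcompl hp h
  obtain ⟨L, hLK, hLinv, hLq, hLc⟩ := exists_inv_sylow P hK hpK hj hq
  refine ⟨L, hLinv, hLq, ?_⟩
  rw [hLc, ← Subgroup.index_mul_card K, hj, Nat.factorization_mul (pow_ne_zero _ hp.ne_zero) Nat.card_pos.ne', Finsupp.add_apply,
    Nat.factorization_eq_zero_of_not_dvd (n := p ^ j) (p := q), zero_add]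
  intro h1
  exact hpq ((Nat.prime_dvd_prime_iff_eq hq hp).mp (hq.dvd_of_dvd_pow h1)).symm

include hχ hn hf in
/-- a `p`-group normalizing a `q`-group centralizes it if both primes are large -/
theorem pair_comm {p q : ℕ} (hp : p.Prime) (hq : q.Prime) (hnp : n + 1 < p) (hnq : n + 1 < q) {P L : Subgroup G} (hP : IsPGroup p P)
    (hL : IsPGroup q L) (hinv : ∀ x ∈ P, ∀ l ∈ L, x * l * x⁻¹ ∈ L) : ∀ x ∈ P, ∀ l ∈ L, x * l = l * x := by
  classical
  have : Fact p.Prime := ⟨hp⟩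
  have : Fact q.Prime := ⟨hq⟩
  obtain ⟨T, hT⟩ : ∃ T : Subgroup G, ∀ t, t ∈ T ↔ ∃ x ∈ P, ∃ l ∈ L, x * l = t := by
    refine ⟨{ carrier := {t | ∃ x ∈ P, ∃ l ∈ L, x * l = t}
              mul_mem' := ?_
              one_mem' := ⟨1, one_mem _, 1, one_mem _, by simp⟩
              inv_mem' := ?_ }, fun t => Iff.rfl⟩
    · rintro _ _ ⟨x, hx, l, hl, rfl⟩ ⟨y, hy, m, hm, rfl⟩
      refine ⟨x * y, mul_mem hx hy, y⁻¹ * l * y⁻¹⁻¹ * m, mul_mem (hinv y⁻¹ (inv_mem hy) l hl) hm, ?_⟩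
      group
    · rintro _ ⟨x, hx, l, hl, rfl⟩
      refine ⟨x⁻¹, inv_mem hx, x * l⁻¹ * x⁻¹, hinv x hx l⁻¹ (inv_mem hl), ?_⟩
      group
  have hPT : P ≤ T := fun x hx => (hT x).mpr ⟨x, hx, 1, one_mem _, mul_one x⟩
  have hLT : L ≤ T := fun x hx => (hT x).mpr ⟨1, one_mem _, x, hx, one_mul x⟩
  have hTab := abelian_of_large hχ hn hf (K := T) (by
    intro r hr hrT
    have : Fact r.Prime := ⟨hr⟩
    -- an element of order `r`
    obtain ⟨t, ht⟩ := exists_prime_orderOf_dvd_card' (G := T) r hrT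
    obtain ⟨x, hx, l, hl, hxl⟩ := (hT t).mp t.2
    have htr : (t : G) ^ r = 1 := by
      rw [← ht, ← Subgroup.orderOf_coe]; exact pow_orderOf_eq_one _
    -- powers of `t` modulo `L`
    have hpow : ∀ i : ℕ, ∃ l' ∈ L, (t : G) ^ i = x ^ i * l' := by
      intro i
      induction i with
      | zero => exact ⟨1, one_mem _, by simp⟩
      | succ i ih =>
        obtain ⟨l', hl', h1⟩ := ih
        refine ⟨x⁻¹ * l' * x⁻¹⁻¹ * l, mul_mem (hinv x⁻¹ (inv_mem hx) l' hl') hl, ?_⟩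
        rw [pow_succ, h1, ← hxl, pow_succ]
        group
    obtain ⟨a, ha⟩ := hP ⟨x, hx⟩
    have ha' : x ^ p ^ a = 1 := congrArg Subtype.val ha
    by_cases hrp : r = p
    · rw [hrp]; omega
    · -- then `t ∈ L`
      obtain ⟨l', hl', h1⟩ := hpow (p ^ a)
      rw [ha', one_mul] at h1
      obtain ⟨b, hb⟩ := hL ⟨l', hl'⟩
      have hb' : l' ^ q ^ b = 1 := congrArg Subtype.val hb
      have h2 : (t : G) ^ (p ^ a * q ^ b) = 1 := by rw [pow_mul, h1, hb']
      have h3 : orderOf (t : G) ∣ p ^ a * q ^ b := orderOf_dvd_of_pow_eq_one h2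
      rw [Subgroup.orderOf_coe, ht] at h3
      rcases (hr.dvd_mul).mp h3 with h4 | h4
      · exact absurd ((Nat.prime_dvd_prime_iff_eq hr hp).mp (hr.dvd_of_dvd_pow h4)) hrp
      · rw [(Nat.prime_dvd_prime_iff_eq hr hq).mp (hr.dvd_of_dvd_pow h4)]; omega)
  intro x hx l hl
  exact hTab x (hPT hx) l (hLT hl)

end Fixed

end Cfsg.Agent.H3.Blich
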