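import Mathlib
import Cfsg.Prelude.Def_Characters
import Cfsg.Agent.H3_Blich2

/-!
# Blichfeldt's theorem: abelian Hall subgroups, the induction
-/

set_option autoImplicit false

open scoped ComplexConjugate

namespace Cfsg.Agent.H3.Blich

open Cfsg Cfsg.Agent.H3.CharBasic Cfsg.Agent.H3.CharIrr Cfsg.Agent.H3.CharInt Cfsg.Agent.H3.CharCalc
  Cfsg.Agent.H3.CharComplete Cfsg.Agent.H3.CharInd Cfsg.Agent.H3.CharMult Cfsg.Agent.H3.CharQuot
  Cfsg.Agent.H3.SmallRep

universe u

theorem coprime_of_split {n a b : ℕ} (ha : ∀ q : ℕ, q.Prime → q ∣ a → n + 1 < q) (hb : ∀ q : ℕ, q.Prime → q ∣ b → q ≤ n + 1) :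
    a.Coprime b := by
  apply Nat.coprime_of_dvd
  intro k hk hka hkb
  have := ha k hk hka
  have := hb k hk hkb
  omega

theorem primes_of_pgroup {G : Type*} [Group G] [Finite G] {n q : ℕ} (hq : q.Prime) (hqn : n < q) {K : Subgroup G} (hK : IsPGroup q K) :
    ∀ r : ℕ, r.Prime → r ∣ Nat.card K → n < r := by
  intro r hr hrK
  have : Fact q.Prime := ⟨hq⟩
  obtain ⟨k, hk⟩ := IsPGroup.iff_card.mp hK
  rw [hk] at hrK
  rw [(Nat.prime_dvd_prime_iff_eq hr hq).mp (hr.dvd_of_dvd_pow hrK)]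
  exact hqn

theorem hall {n : ℕ} : ∀ (m : ℕ) (G : Type u) [Group G] [Fintype G], Nat.card G = m → ∀ χ : G → ℂ, IsCharacter G χ → χ 1 = n →
    (∀ g, χ g = χ 1 → g = 1) → ∃ H : Subgroup G, (∀ q : ℕ, q.Prime → q ∣ Nat.card H → n + 1 < q) ∧
      ∀ q : ℕ, q.Prime → q ∣ H.index → q ≤ n + 1 := by
  intro m
  induction m using Nat.strong_induction_on with
  | _ m ih =>
  intro G _ _ hm χ hχ hn hf
  classical
  obtain ⟨H, hH, hmax⟩ := Set.exists_max_image {H : Subgroup G | ∀ q : ℕ, q.Prime → q ∣ Nat.card H → n + 1 < q}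
    (fun H => Nat.card H) (Set.toFinite _) ⟨⊥, fun q hq h => by
      rw [Subgroup.card_bot] at h
      exact absurd (Nat.dvd_one.mp h) hq.ne_one⟩
  refine ⟨H, hH, ?_⟩
  intro q hq hqi
  by_contra hqn
  rw [not_le] at hqn
  have : Fact q.Prime := ⟨hq⟩
  have hHab := abelian_of_large hχ hn hf (K := H) (fun r hr h => by have := hH r hr h; omega)
  have hmaxeq : ∀ T : Subgroup G, H ≤ T → (∀ r : ℕ, r.Prime → r ∣ Nat.card T → n + 1 < r) → T = H := by
    intro T hHT hT
    exact (Subgroup.eq_of_le_of_card_ge hHT (hmax T hT)).symm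
  -- claim 1
  have claim1 : ∀ y : G, (∀ h ∈ H, h * y = y * h) → (∀ r : ℕ, r.Prime → r ∣ orderOf y → n + 1 < r) → y ∈ H := by
    intro y hy hyo
    obtain ⟨T, hHT, hyT, hT⟩ := adjoin_card hy hH hyo
    rw [← hmaxeq T hHT hT]; exact hyT
  -- orders of `r`-elements
  have hord : ∀ (r : ℕ), r.Prime → n + 1 < r → ∀ y : G, (∃ b, y ^ r ^ b = 1) → ∀ s : ℕ, s.Prime → s ∣ orderOf y → n + 1 < s := by
    intro r hr hrn y ⟨b, hb⟩ s hs hsy
    have h1 : s ∣ r ^ b := hsy.trans (orderOf_dvd_of_pow_eq_one hb)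
    rw [(Nat.prime_dvd_prime_iff_eq hs hr).mp (hs.dvd_of_dvd_pow h1)]; exact hrn
  have hcentH : ∀ (r : ℕ), r.Prime → n + 1 < r → ∀ y ∈ Subgroup.center G, (∃ b, y ^ r ^ b = 1) → y ∈ H := by
    intro r hr hrn y hy hyb
    exact claim1 y (fun h _ => Subgroup.mem_center_iff.mp hy h) (hord r hr hrn y hyb)
  have hcent : ∀ g : G, g ∉ Subgroup.center G → Subgroup.centralizer ({g} : Set G) ≠ ⊤ := by
    intro g hg h1
    apply hg
    rw [Subgroup.mem_center_iff]
    intro h
    have : h ∈ Subgroup.centralizer ({g} : Set G) := by rw [h1]; trivial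
    rw [Subgroup.mem_centralizer_singleton_iff] at this
    exact this
  -- claim 2
  have claim2 : ∀ x ∈ H, x ∉ Subgroup.center G → ∀ S : Subgroup G, S ≤ Subgroup.centralizer ({x} : Set G) →
      (∀ r : ℕ, r.Prime → r ∣ Nat.card S → n + 1 < r) → Nat.card S ∣ Nat.card H := by
    intro x hx hxc S hS hSπ
    obtain ⟨C, hC⟩ : ∃ C : Subgroup G, C = Subgroup.centralizer ({x} : Set G) := ⟨_, rfl⟩
    have hCt : C ≠ ⊤ := by rw [hC]; exact hcent x hxc
    rw [← hC] at hS
    have : Fintype C := Fintype.ofFinite _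
    have hlt : Nat.card C < m := by
      rw [← hm]
      exact lt_of_le_of_ne (Nat.card_le_card_of_injective _ C.subtype_injective)
        (fun h => hCt (Subgroup.card_eq_iff_eq_top C |>.mp h))
    obtain ⟨K, hK, hKi⟩ := ih _ hlt C rfl (fun y : C => χ y) (IsChar.res hχ C) hn (fun g hg => Subtype.ext (hf g hg))
    have hcop : ∀ T : Subgroup G, T ≤ C → (∀ r : ℕ, r.Prime → r ∣ Nat.card T → n + 1 < r) → Nat.card T ∣ Nat.card K := by
      intro T hT hTπ
      have h1 : Nat.card T ∣ K.index * Nat.card K := by rw [Subgroup.index_mul_card]; exact Subgroup.card_dvd_of_le hT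
      exact (coprime_of_split hTπ hKi).dvd_of_dvd_mul_left h1
    have hHC : H ≤ C := by
      intro h hh
      rw [hC, Subgroup.mem_centralizer_singleton_iff]
      exact hHab h hh x hx
    have h1 := hcop H hHC hH
    have h2 : Nat.card K ≤ Nat.card H := by
      have h3 := hmax (K.map C.subtype) (by
        intro r hr hrK
        rw [Subgroup.card_map_of_injective C.subtype_injective] at hrK
        exact hK r hr hrK)
      rw [Subgroup.card_map_of_injective C.subtype_injective] at h3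
      exact h3
    have h3 : Nat.card K = Nat.card H := le_antisymm h2 (Nat.le_of_dvd Nat.card_pos h1)
    rw [← h3]
    exact hcop S hS hSπ
  -- Sylow subgroups
  have hQ : ∀ L : Subgroup G, Nat.card L = q ^ (Nat.card G).factorization q → ¬ Nat.card L ∣ Nat.card H := by
    intro L hL h
    rw [hL] at h
    have h1 : q ^ ((Nat.card G).factorization q + 1) ∣ Nat.card G := by
      rw [pow_succ]
      have h2 := mul_dvd_mul h hqi
      rwa [Subgroup.card_mul_index] at h2
    have h2 := (hq.pow_dvd_iff_le_factorization Nat.card_pos.ne').mp h1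
    omega
  have hsylab : ∀ (r : ℕ) (_ : r.Prime) (_ : n + 1 < r) (R : Sylow r G), ∀ a ∈ R, ∀ b ∈ R, a * b = b * a := by
    intro r hr hrn R
    exact abelian_of_large hχ hn hf (K := (R : Subgroup G)) (primes_of_pgroup hr (by omega) R.2)
  obtain ⟨Q⟩ : Nonempty (Sylow q G) := inferInstance
  have hnotle : ∀ L : Subgroup G, IsPGroup q L → Nat.card L = q ^ (Nat.card G).factorization q → ∃ y ∈ L, y ∉ Subgroup.center G := by
    intro L hLq hL
    by_contra hcon
    push Not at hcon
    apply hQ L hL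
    apply Subgroup.card_dvd_of_le
    intro y hy
    obtain ⟨b, hb⟩ := hLq ⟨y, hy⟩
    exact hcentH q hq hqn y (hcon y hy) ⟨b, congrArg Subtype.val hb⟩
  -- claim 3
  have claim3 : ∃ p : ℕ, p.Prime ∧ n + 1 < p ∧ ∃ x ∈ H, x ∉ Subgroup.center G ∧ ∃ a, x ^ p ^ a = 1 := by
    by_contra hcon
    push Not at hcon
    have hHc : H ≤ Subgroup.center G := by
      have h1 : (Subgroup.center G).subgroupOf H = ⊤ := by
        apply Cfsg.Agent.H1.Nilp.eq_top_of_sylow_le
        intro r hr
        obtain ⟨R⟩ : Nonempty (Sylow r H) := inferInstance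
        refine ⟨R, fun x hx => ?_⟩
        rw [Subgroup.mem_subgroupOf]
        obtain ⟨a, ha⟩ := R.2 ⟨x, hx⟩
        have ha' : (x : G) ^ r ^ a = 1 := by
          have : ((x : H) ^ r ^ a : H) = 1 := congrArg Subtype.val ha
          exact_mod_cast congrArg (fun z : H => (z : G)) this
        by_cases hx1 : x = 1
        · rw [hx1]; exact one_mem _
        · have hrn : n + 1 < r := by
            apply hH r hr.out
            have h2 : orderOf x ∣ r ^ a := orderOf_dvd_of_pow_eq_one (Subtype.ext (by push_cast; exact ha'))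
            obtain ⟨i, -, hi⟩ := (Nat.dvd_prime_pow hr.out).mp h2
            have hi0 : i ≠ 0 := by
              rintro rfl
              rw [pow_zero, orderOf_eq_one_iff] at hi
              exact hx1 hi
            exact (hi ▸ dvd_pow_self r hi0 : r ∣ orderOf x).trans (orderOf_dvd_natCard x)
          by_contra hxc
          exact hcon r hr.out hrn x x.2 hxc a ha'
      intro h hh
      have : (⟨h, hh⟩ : H) ∈ (Subgroup.center G).subgroupOf H := by rw [h1]; trivial
      exact this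
    apply hQ (Q : Subgroup G) (Sylow.card_eq_multiplicity Q)
    apply Subgroup.card_dvd_of_le
    intro y hy
    obtain ⟨b, hb⟩ := Q.2 ⟨y, hy⟩
    exact claim1 y (fun h hh => (Subgroup.mem_center_iff.mp (hHc hh) y).symm)
      (hord q hq hqn y ⟨b, congrArg Subtype.val hb⟩)
  obtain ⟨p, hp, hpn, x, hxH, hxc, hxa⟩ := claim3
  have : Fact p.Prime := ⟨hp⟩
  -- claim 4
  have claim4 : ∀ y ∈ H, (∃ b, y ^ q ^ b = 1) → y ∈ Subgroup.center G := by
    intro y hy hyb
    by_contra hyc
    have hz : IsPGroup q (Subgroup.zpowers y) := by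
      obtain ⟨b, hb⟩ := hyb
      rintro ⟨_, i, rfl⟩
      refine ⟨b, Subtype.ext ?_⟩
      change (y ^ i) ^ q ^ b = 1
      rw [← zpow_natCast, ← zpow_mul, mul_comm, zpow_mul, zpow_natCast, hb, one_zpow]
    obtain ⟨Q', hQ'⟩ := hz.exists_le_sylow
    have hyQ : y ∈ (Q' : Subgroup G) := hQ' (Subgroup.mem_zpowers y)
    apply hQ (Q' : Subgroup G) (Sylow.card_eq_multiplicity Q')
    apply claim2 y hy hyc
    · intro z hz
      rw [Subgroup.mem_centralizer_singleton_iff]
      exact hsylab q hq hqn Q' z hz y hyQ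
    · exact primes_of_pgroup hq hqn Q'.2
  have hpq : p ≠ q := by
    rintro rfl
    exact hxc (claim4 x hxH hxa)
  obtain ⟨P, hxP⟩ : ∃ P : Sylow p G, x ∈ (P : Subgroup G) := by
    have hz : IsPGroup p (Subgroup.zpowers x) := by
      obtain ⟨b, hb⟩ := hxa
      rintro ⟨_, i, rfl⟩
      refine ⟨b, Subtype.ext ?_⟩
      change (x ^ i) ^ p ^ b = 1
      rw [← zpow_natCast, ← zpow_mul, mul_comm, zpow_mul, zpow_natCast, hb, one_zpow]
    obtain ⟨P, hP⟩ := hz.exists_le_sylow
    exact ⟨P, hP (Subgroup.mem_zpowers x)⟩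
  have hPH : Nat.card (P : Subgroup G) ∣ Nat.card H := by
    apply claim2 x hxH hxc
    · intro z hz
      rw [Subgroup.mem_centralizer_singleton_iff]
      exact hsylab p hp hpn P z hz x hxP
    · exact primes_of_pgroup hp hpn P.2
  -- a Sylow `p`-subgroup inside `H`
  obtain ⟨P₁, hP₁⟩ : ∃ P₁ : Sylow p G, (P₁ : Subgroup G) ≤ H := by
    obtain ⟨S⟩ : Nonempty (Sylow p H) := inferInstance
    have hS1 : IsPGroup p ((S : Subgroup H).map H.subtype) := S.2.map _
    obtain ⟨P₁, hP₁⟩ := hS1.exists_le_sylow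
    refine ⟨P₁, ?_⟩
    have h1 : (S : Subgroup H).map H.subtype = P₁ := by
      apply Subgroup.eq_of_le_of_card_ge hP₁
      rw [Subgroup.card_map_of_injective H.subtype_injective]
      have h2 : Nat.card (P₁ : Subgroup G) = Nat.card (P : Subgroup G) := by
        have e1 := Sylow.card_eq_multiplicity P₁
        have e2 := Sylow.card_eq_multiplicity P
        exact e1.trans e2.symm
      rw [h2]
      have h3 : Nat.card (P : Subgroup G) = p ^ (Nat.card G).factorization p := Sylow.card_eq_multiplicity P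
      rw [h3] at hPH ⊢
      exact Nat.le_of_dvd Nat.card_pos (S.pow_dvd_card_of_pow_dvd_card hPH)
    rw [← h1]
    rintro _ ⟨y, -, rfl⟩
    exact y.2
  -- the Sylow `q`-subgroup of `H`
  obtain ⟨T, hTH, hTq, hTc⟩ : ∃ T : Subgroup G, T ≤ H ∧ IsPGroup q T ∧ Nat.card T = q ^ (Nat.card H).factorization q := by
    obtain ⟨S⟩ : Nonempty (Sylow q H) := inferInstance
    refine ⟨(S : Subgroup H).map H.subtype, ?_, S.2.map _, ?_⟩
    · rintro _ ⟨y, -, rfl⟩; exact y.2
    · rw [Subgroup.card_map_of_injective H.subtype_injective]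
      exact Sylow.card_eq_multiplicity S
  have hTcen : T ≤ Subgroup.center G := by
    intro t ht
    obtain ⟨b, hb⟩ := hTq ⟨t, ht⟩
    exact claim4 t (hTH ht) ⟨b, congrArg Subtype.val hb⟩
  have hTn : T.Normal := by
    refine ⟨fun t ht g => ?_⟩
    rw [Subgroup.mem_center_iff.mp (hTcen ht) g, mul_inv_cancel_right]; exact ht
  have hcc : ∀ (g z : G), z ∉ Subgroup.center G → g * z * g⁻¹ ∉ Subgroup.center G := by
    intro g z hz h
    apply hz
    have h1 := (inferInstance : (Subgroup.center G).Normal).conj_mem _ h g⁻¹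
    have h2 : g⁻¹ * (g * z * g⁻¹) * g⁻¹⁻¹ = z := by group
    rwa [h2] at h1
  -- claim 5
  have claim5 : ∀ x' : G, x' ∉ Subgroup.center G → (∃ a, x' ^ p ^ a = 1) → ∀ y : G, y ∉ Subgroup.center G → (∃ b, y ^ q ^ b = 1) →
      x' * y ≠ y * x' := by
    intro x' hx'c hx'a y hyc hyb hcomm
    obtain ⟨P', hP'⟩ : ∃ P' : Sylow p G, x' ∈ (P' : Subgroup G) := by
      have hz : IsPGroup p (Subgroup.zpowers x') := by
        obtain ⟨b, hb⟩ := hx'a
        rintro ⟨_, i, rfl⟩
        refine ⟨b, Subtype.ext ?_⟩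
        change (x' ^ i) ^ p ^ b = 1
        rw [← zpow_natCast, ← zpow_mul, mul_comm, zpow_mul, zpow_natCast, hb, one_zpow]
      obtain ⟨P, hP⟩ := hz.exists_le_sylow
      exact ⟨P, hP (Subgroup.mem_zpowers x')⟩
    obtain ⟨g, hg⟩ := MulAction.exists_smul_eq G P' P₁
    have hx''H : g * x' * g⁻¹ ∈ H := by
      apply hP₁
      rw [← hg]
      exact ⟨x', hP', rfl⟩
    have hx''c := hcc g x' hx'c
    have hy''c := hcc g y hyc
    apply hy''c
    have hzq : IsPGroup q (Subgroup.zpowers (g * y * g⁻¹)) := by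
      obtain ⟨b, hb⟩ := pel_conj (p := q) hyb g
      rintro ⟨_, i, rfl⟩
      refine ⟨b, Subtype.ext ?_⟩
      change ((g * y * g⁻¹) ^ i) ^ q ^ b = 1
      rw [← zpow_natCast, ← zpow_mul, mul_comm, zpow_mul, zpow_natCast, hb, one_zpow]
    have hsup : IsPGroup q (T ⊔ Subgroup.zpowers (g * y * g⁻¹) : Subgroup G) := hTq.to_sup_of_normal_left hzq
    have h1 := claim2 _ hx''H hx''c (T ⊔ Subgroup.zpowers (g * y * g⁻¹)) (by
      rw [sup_le_iff]
      constructor
      · intro t ht
        rw [Subgroup.mem_centralizer_singleton_iff]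
        exact (Subgroup.mem_center_iff.mp (hTcen ht) _).symm
      · rw [Subgroup.zpowers_le, Subgroup.mem_centralizer_singleton_iff]
        calc g * y * g⁻¹ * (g * x' * g⁻¹) = g * (y * x') * g⁻¹ := by group
          _ = g * (x' * y) * g⁻¹ := by rw [hcomm]
          _ = _ := by group) (primes_of_pgroup hq hqn hsup)
    have h2 : T = T ⊔ Subgroup.zpowers (g * y * g⁻¹) := by
      apply Subgroup.eq_of_le_of_card_ge le_sup_left
      rw [hTc]
      obtain ⟨k, hk⟩ := IsPGroup.iff_card.mp hsup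
      rw [hk] at h1 ⊢
      exact Nat.pow_le_pow_right hq.pos ((hq.pow_dvd_iff_le_factorization Nat.card_pos.ne').mp h1)
    apply hTcen
    rw [h2]
    exact (le_sup_right : Subgroup.zpowers (g * y * g⁻¹) ≤ _) (Subgroup.mem_zpowers _)
  -- the final case distinction
  by_cases hpG : p ∣ Nat.card (commutator G)
  · by_cases hqG : q ∣ Nat.card (commutator G)
    · have : Fintype (commutator G) := Fintype.ofFinite _
      obtain ⟨x₀, hx₀⟩ := exists_prime_orderOf_dvd_card' (G := commutator G) p hpG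
      obtain ⟨y₀, hy₀⟩ := exists_prime_orderOf_dvd_card' (G := commutator G) q hqG
      have hnc : ∀ (r : ℕ) (hr : r.Prime), n + 1 < r → ∀ z : commutator G, orderOf z = r → (z : G) ∉ Subgroup.center G ∧ (∃ a, (z : G) ^ r ^ a = 1) := by
        intro r hr hrn z hz
        have : Fact r.Prime := ⟨hr⟩
        have hz1 : (z : G) ^ r ^ 1 = 1 := by
          rw [pow_one, ← hz, ← Subgroup.orderOf_coe]; exact pow_orderOf_eq_one _
        refine ⟨fun hzc => ?_, 1, hz1⟩
        have hzp : IsPGroup r (Subgroup.zpowers (z : G)) := by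
          rintro ⟨_, i, rfl⟩
          refine ⟨1, Subtype.ext ?_⟩
          change ((z : G) ^ i) ^ r ^ 1 = 1
          rw [← zpow_natCast, ← zpow_mul, mul_comm, zpow_mul, zpow_natCast, hz1, one_zpow]
        obtain ⟨R, hR⟩ := hzp.exists_le_sylow
        have h1 := inf_center_commutator R (hsylab r hr hrn R) (hR (Subgroup.mem_zpowers _)) hzc z.2
        have h2 : z = 1 := Subtype.ext h1
        rw [h2, orderOf_one] at hz
        exact hr.one_lt.ne hz
      exact no_pq (IsChar.res hχ (commutator G)) hn (fun g hg => Subtype.ext (hf g hg)) hp hq hpn hqn hx₀ hy₀ (by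
        intro a b ha hb hab
        obtain ⟨ha1, ha2⟩ := hnc p hp hpn a ha
        obtain ⟨hb1, hb2⟩ := hnc q hq hqn b hb
        exact claim5 a ha1 ha2 b hb1 hb2 (congrArg Subtype.val hab))
    · obtain ⟨L, hLinv, hLp, hLc⟩ := sylow_pair hq hp hpq.symm Q hqG
      have hcm := pair_comm hχ hn hf hq hp hqn hpn Q.2 hLp hLinv
      obtain ⟨y, hyQ, hyc⟩ := hnotle (Q : Subgroup G) Q.2 (Sylow.card_eq_multiplicity Q)
      obtain ⟨l, hl, hlc⟩ : ∃ l ∈ L, l ∉ Subgroup.center G := by
        by_contra hcon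
        push Not at hcon
        have hLn : L.Normal := by
          refine ⟨fun t ht g => ?_⟩
          rw [Subgroup.mem_center_iff.mp (hcon t ht) g, mul_inv_cancel_right]; exact ht
        have hLP : L ≤ P := hLp.le_sylow_of_normal P
        have hLPe : L = P := by
          apply Subgroup.eq_of_le_of_card_ge hLP
          have h3 : Nat.card (P : Subgroup G) = p ^ (Nat.card G).factorization p := Sylow.card_eq_multiplicity P
          rw [h3, hLc]
        exact hxc (hcon x (by rw [hLPe]; exact hxP))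
      obtain ⟨a, ha⟩ := hLp ⟨l, hl⟩
      obtain ⟨b, hb⟩ := Q.2 ⟨y, hyQ⟩
      exact claim5 l hlc ⟨a, congrArg Subtype.val ha⟩ y hyc ⟨b, congrArg Subtype.val hb⟩ (hcm y hyQ l hl).symm
  · obtain ⟨L, hLinv, hLq, hLc⟩ := sylow_pair hp hq hpq P hpG
    have hcm := pair_comm hχ hn hf hp hq hpn hqn P.2 hLq hLinv
    obtain ⟨y, hyL, hyc⟩ := hnotle L hLq hLc
    obtain ⟨b, hb⟩ := hLq ⟨y, hyL⟩
    exact claim5 x hxc hxa y hyc ⟨b, congrArg Subtype.val hb⟩ (hcm x hxP y hyL)

end Cfsg.Agent.H3.Blich
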