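import Mathlib
import Cfsg.Agent.H26_BF3
import Cfsg.Agent.H26_BF5
import Cfsg.Agent.H3_CharBasic
import Cfsg.Agent.S4469

/-!
# Embedding into the complex numbers; Jordan's theorem for `p'`-groups
-/

set_option autoImplicit false
universe u v

namespace Cfsg.Agent.H26.BF

open Cardinal

theorem exists_embed (R : Type v) [CommRing R] [IsDomain R] [CharZero R] [Countable R] :
    ∃ f : R →+* ℂ, Function.Injective f := by
  let M := MvPolynomial ℂ R
  let K := FractionRing M
  let L := AlgebraicClosure K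
  have hM : #M = Cardinal.lift.{v} #ℂ := by
    show #(MvPolynomial ℂ R) = _
    rw [MvPolynomial.cardinalMk_eq_max_lift]
    have h1 : Cardinal.lift.{0} #R ≤ ℵ₀ := by simp
    have h2 : ℵ₀ ≤ Cardinal.lift.{v} #ℂ := by simpa using Cardinal.aleph0_le_continuum
    rw [max_eq_left (h2.trans (le_max_right _ _)), max_eq_right (h1.trans h2)]
  have hK : #K = #M := IsLocalization.cardinalMk K (nonZeroDivisors M) le_rfl
  have hL : #L ≤ max #K ℵ₀ := Algebra.IsAlgebraic.cardinalMk_le_max K L
  have hℂ : ℵ₀ ≤ Cardinal.lift.{v} #ℂ := by simpa using Cardinal.aleph0_le_continuum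
  have hL1 : #L ≤ Cardinal.lift.{v} #ℂ := by
    rw [hK, hM, max_eq_left hℂ] at hL; exact hL
  have hL2 : Cardinal.lift.{v} #ℂ ≤ #L := by
    rw [← hM, ← hK]
    exact Cardinal.mk_le_of_injective (algebraMap K L).injective
  have hL3 : #L = Cardinal.lift.{v} #ℂ := le_antisymm hL1 hL2
  have : CharZero M := by
    show CharZero (MvPolynomial ℂ R)
    exact charZero_of_injective_algebraMap (MvPolynomial.C_injective ℂ R)
  have : CharZero K := charZero_of_injective_algebraMap (IsFractionRing.injective M K)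
  have : CharZero L := charZero_of_injective_algebraMap (algebraMap K L).injective
  have hunc : ℵ₀ < #L := by
    rw [hL3]; simpa using Cardinal.aleph0_lt_continuum
  obtain ⟨e⟩ := IsAlgClosed.ringEquiv_of_equiv_of_charZero (K := L) (L := ℂ) hunc (by
    rw [← Cardinal.lift_mk_eq'.{v, 0}] 
    rw [hL3]; simp)
  refine ⟨e.toRingHom.comp ((algebraMap K L).comp ((algebraMap M K).comp (MvPolynomial.C : R →+* M))), ?_⟩
  exact e.injective.comp ((algebraMap K L).injective.comp ((IsFractionRing.injective M K).comp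
    (MvPolynomial.C_injective ℂ R)))

theorem exists_complex {G : Type u} [Group G] [Finite G] {R : Type v} [CommRing R] [IsDomain R] [CharZero R]
    {n : ℕ} (A : G →* Matrix (Fin n) (Fin n) R) (hA : Function.Injective A) :
    ∃ B : G →* Matrix (Fin n) (Fin n) ℂ, Function.Injective B := by
  classical
  have := Fintype.ofFinite G
  let ev : MvPolynomial (G × Fin n × Fin n) ℤ →+* R :=
    (MvPolynomial.aeval (fun t : G × Fin n × Fin n => A t.1 t.2.1 t.2.2)).toRingHom
  let R₀ := ev.range
  have hcount : Countable R₀ := by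
    have : Countable (MvPolynomial (G × Fin n × Fin n) ℤ) := by
      rw [← Cardinal.mk_le_aleph0_iff]
      refine (MvPolynomial.cardinalMk_le_max_lift).trans ?_
      refine max_le (max_le ?_ ?_) le_rfl
      · rw [Cardinal.lift_le_aleph0]; exact Cardinal.mk_le_aleph0
      · rw [Cardinal.lift_le_aleph0]; exact Cardinal.mk_le_aleph0
    exact ev.rangeRestrict_surjective.countable
  obtain ⟨f, hf⟩ := exists_embed R₀
  have hmem : ∀ g i j, A g i j ∈ R₀ := fun g i j => ⟨MvPolynomial.X (g, i, j), by
    show MvPolynomial.aeval _ _ = _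
    rw [MvPolynomial.aeval_X]⟩
  let A₀ : G → Matrix (Fin n) (Fin n) R₀ := fun g => Matrix.of (fun i j => ⟨A g i j, hmem g i j⟩)
  have hA₀ : ∀ g, (R₀.subtype).mapMatrix (A₀ g) = A g := fun g => by ext i j; rfl
  have hinj : Function.Injective ((R₀.subtype).mapMatrix : Matrix (Fin n) (Fin n) R₀ →+* Matrix (Fin n) (Fin n) R) := by
    intro X Y h
    ext i j
    exact congrFun (congrFun h i) j
  let A₁ : G →* Matrix (Fin n) (Fin n) R₀ :=
    { toFun := A₀
      map_one' := hinj (by rw [hA₀, map_one, map_one])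
      map_mul' := fun g h => hinj (by rw [map_mul, hA₀, hA₀, hA₀, map_mul]) }
  refine ⟨(f.mapMatrix : Matrix (Fin n) (Fin n) R₀ →+* Matrix (Fin n) (Fin n) ℂ).toMonoidHom.comp A₁, ?_⟩
  intro g h hgh
  apply hA
  rw [← hA₀, ← hA₀]
  congr 1
  ext i j
  have := congrFun (congrFun hgh i) j
  exact congrArg Subtype.val (hf this)

/-- Jordan's theorem, matrix form -/
theorem jordan_complex {G : Type u} [Group G] [Finite G] {n : ℕ} (B : G →* Matrix (Fin n) (Fin n) ℂ)
    (hB : Function.Injective B) :
    ∃ A : Subgroup G, A.Normal ∧ (∀ x ∈ A, ∀ y ∈ A, x * y = y * x) ∧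
      A.index ≤ Nat.factorial n * 12 ^ (n * (Nat.primeCounting (n + 1) + 1)) := by
  let ρ : Representation ℂ G (Fin n → ℂ) := (Matrix.toLinAlgEquiv' : Matrix (Fin n) (Fin n) ℂ ≃ₐ[ℂ] _).toAlgHom.toMonoidHom.comp B
  have hρ : ∀ g, ρ g = Matrix.toLinAlgEquiv' (B g) := fun g => rfl
  have h1 : ρ.character 1 = (n : ℂ) := by
    rw [Representation.char_one]; simp
  refine S4469.result (fun g => ρ.character g) ⟨n, ρ, rfl⟩ ?_ n ?_
  · intro g hg
    have h2 := (H3.CharBasic.char_eq_finrank_iff ρ g).mp (by
      rw [hg, Representation.char_one])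
    apply hB
    rw [map_one]
    rw [hρ] at h2
    have h3 : Matrix.toLinAlgEquiv' (B g) = Matrix.toLinAlgEquiv' (1 : Matrix (Fin n) (Fin n) ℂ) := by
      rw [h2, map_one]; rfl
    exact Matrix.toLinAlgEquiv'.injective h3
  · show charDegree (fun g => ρ.character g) = n
    rw [Cfsg.charDegree, h1]
    simp


/-- Jordan's theorem for `p'`-groups in characteristic `p` -/
theorem jordan_char_p {G : Type u} [Group G] [Finite G] {F : Type v} [Field F] (p : ℕ) [hp : Fact p.Prime]
    [CharP F p] {n : ℕ} (A : G →* Matrix (Fin n) (Fin n) F) (hA : Function.Injective A)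
    (hG : ¬ p ∣ Nat.card G) :
    ∃ H : Subgroup G, H.Normal ∧ (∀ x ∈ H, ∀ y ∈ H, x * y = y * x) ∧
      H.index ≤ Nat.factorial n * 12 ^ (n * (Nat.primeCounting (n + 1) + 1)) := by
  let K := AlgebraicClosure F
  have hK : CharP K p := charP_of_injective_algebraMap (algebraMap F K).injective p
  let A' : G →* Matrix (Fin n) (Fin n) K :=
    ((algebraMap F K).mapMatrix : Matrix (Fin n) (Fin n) F →+* Matrix (Fin n) (Fin n) K).toMonoidHom.comp A
  have hA' : Function.Injective A' := by
    intro g h hgh
    apply hA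
    ext i j
    have := congrFun (congrFun hgh i) j
    exact (algebraMap F K).injective this
  obtain ⟨σ, hσ⟩ := exists_witt p A' hA' hG
  have hdom : IsDomain (WittVector p K) := inferInstance
  have hcz : CharZero (WittVector p K) := by
    refine charZero_of_inj_zero (fun m hm => ?_)
    by_contra hm0
    have hfac : p ^ m.factorization p * (m / p ^ m.factorization p) = m := Nat.ordProj_mul_ordCompl_eq_self _ _
    have hnd : ¬ p ∣ m / p ^ m.factorization p := Nat.not_dvd_ordCompl hp.out hm0
    rw [← hfac, Nat.cast_mul, Nat.cast_pow] at hm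
    rcases mul_eq_zero.mp hm with h | h
    · exact WittVector.p_nonzero p K (eq_zero_of_pow_eq_zero h)
    · have h1 := congrArg (WittVector.constantCoeff (p := p) (R := K)) h
      rw [map_natCast, map_zero] at h1
      exact hnd ((CharP.cast_eq_zero_iff K p _).mp h1)
  obtain ⟨B, hB⟩ := exists_complex σ hσ
  exact jordan_complex B hB

/-- **Brauer--Feit** -/
theorem brauer_feit {G : Type u} [Group G] [Finite G] {F : Type v} [Field F] (p : ℕ) [hp : Fact p.Prime]
    [CharP F p] {n : ℕ} (A : G →* Matrix (Fin n) (Fin n) F) (hA : Function.Injective A) :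
    ∃ H : Subgroup G, H.Normal ∧ IsMulCommutative H ∧
      H.index ≤ (cc n (p ^ (Nat.card G).factorization p) *
        (Nat.factorial n * 12 ^ (n * (Nat.primeCounting (n + 1) + 1)))).factorial := by
  obtain ⟨N, hNi, hN⟩ := bounded_pprime p A hA
  obtain ⟨H, -, hHc, hHi⟩ := jordan_char_p p (A.comp N.subtype) (hA.comp N.subtype_injective) hN
  let H' : Subgroup G := H.map N.subtype
  have hidx : H'.index ≤ cc n (p ^ (Nat.card G).factorization p) *
      (Nat.factorial n * 12 ^ (n * (Nat.primeCounting (n + 1) + 1))) := by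
    have h1 : H'.index = H.index * N.index := by
      rw [Subgroup.index_map_subtype]
    rw [h1, mul_comm]
    exact Nat.mul_le_mul hNi hHi
  have hcore : H'.normalCore.index ≤ (H'.index).factorial := by
    have h1 : H'.index ≠ 0 := Subgroup.index_ne_zero_of_finite
    have : Finite (G ⧸ H') := inferInstance
    rw [Subgroup.normalCore_eq_ker, Subgroup.index_ker]
    have h2 := Subgroup.card_subgroup_dvd_card (MulAction.toPermHom G (G ⧸ H')).range
    rw [Nat.card_perm] at h2
    exact Nat.le_of_dvd (Nat.factorial_pos _) h2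
  refine ⟨H'.normalCore, inferInstance, ?_, hcore.trans (Nat.factorial_le hidx)⟩
  refine ⟨⟨?_⟩⟩
  rintro ⟨x, hx⟩ ⟨y, hy⟩
  obtain ⟨x', hx', rfl⟩ := Subgroup.normalCore_le H' hx
  obtain ⟨y', hy', rfl⟩ := Subgroup.normalCore_le H' hy
  have := hHc x' hx' y' hy'
  exact Subtype.ext (congrArg N.subtype this)

end Cfsg.Agent.H26.BF
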