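import Mathlib
import Cfsg.Agent.H10_BlockPS
import Cfsg.Agent.H10_BlockFMT
import Cfsg.Agent.H26_Defect
import Cfsg.Agent.H26_BP
import Cfsg.Agent.H26_GalConj
import Cfsg.Agent.H26_Kernel

/-!
# H26_One: groups with a single `p`-block; congruences for characters at elements of prime order
-/

set_option autoImplicit false

namespace Cfsg.Agent.H26.One

open Cfsg Cfsg.Agent.H3.CharIrr Cfsg.Agent.H3.CharComplete Cfsg.Agent.H3.CharInd
  Cfsg.Agent.H3.CharBasic Cfsg.Agent.H10.BlockLoc Cfsg.Agent.H10.BlockMain Cfsg.Agent.H10.BlockDefect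
  Cfsg.Agent.H10.Char Cfsg.Agent.H10.BlockAlg Cfsg.Agent.H10.BlockIdem Cfsg.Agent.H10.BlockNormal
  Cfsg.Agent.H10.BlockKer Cfsg.Agent.H10.BlockInd Cfsg.Agent.H26.GalConj Cfsg.Agent.H26.Basic

open scoped ComplexConjugate

variable {G : Type*} [Group G] [Fintype G] {p : ℕ} {M : Ideal AlgInt}

/-- a normal `p`-subgroup whose centralizer is a `p`-group forces a single block -/
theorem one_block_of_normal (hM : IsPModular p M) (Q : Subgroup G) [hQn : Q.Normal] (hQ : IsPGroup p Q)
    (hC : IsPGroup p (Subgroup.centralizer (Q : Set G))) (χ ψ : IrrCharacter G) :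
    SameBlock M (χ : G → ℂ) (ψ : G → ℂ) := by
  haveI := hM.2.1
  haveI : (Subgroup.centralizer (Q : Set G)).Normal := inferInstance
  set R : Subgroup G := Q ⊔ Subgroup.centralizer (Q : Set G) with hR
  haveI hRn : R.Normal := Subgroup.sup_normal _ _
  have hRp : IsPGroup p R := hQ.to_sup_of_normal_left hC
  have hCR : Subgroup.centralizer (R : Set G) ≤ R :=
    (Subgroup.centralizer_le (SetLike.coe_subset_coe.2 (le_sup_left : Q ≤ R))).trans le_sup_right
  intro g
  rw [← om_cs, ← om_cs]
  by_cases hg : g ∈ Subgroup.centralizer (R : Set G)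
  · have h1 := Cfsg.Agent.H10.BlockPS.om_normal_p hM χ R hRp (hCR hg)
    have h2 := Cfsg.Agent.H10.BlockPS.om_normal_p hM ψ R hRp (hCR hg)
    have := ideal_sub h1 h2
    rwa [sub_sub_sub_cancel_right] at this
  · exact ideal_sub (om_cs_mem_ideal hM R hRp χ hg) (om_cs_mem_ideal hM R hRp ψ hg)

/-- local criterion for a single block -/
theorem one_block_of_local [hp : Fact p.Prime] (hM : IsPModular p M)
    (hloc : ∀ z : G, orderOf z = p → ∀ (_ : Fintype (Subgroup.centralizer ({z} : Set G)))
      (χ ψ : IrrCharacter (Subgroup.centralizer ({z} : Set G))), 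
        SameBlock M (χ : (Subgroup.centralizer ({z} : Set G)) → ℂ) (ψ : (Subgroup.centralizer ({z} : Set G)) → ℂ))
    (hdz : ∀ χ : IrrCharacter G, ¬ p ^ (Nat.card G).factorization p ∣ charDegree (χ : G → ℂ))
    (χ ψ : IrrCharacter G) : SameBlock M (χ : G → ℂ) (ψ : G → ℂ) := by
  haveI := hM.2.1
  classical
  suffices h : ∀ B : Set (IrrCharacter G), IsPBlock M B → B = principalBlock M G by
    have h1 := h _ (isPBlock_blockOf (M := M) χ)
    have h2 := h _ (isPBlock_blockOf (M := M) ψ)
    have h3 : χ ∈ principalBlock M G := h1 ▸ (show SameBlock M (χ : G → ℂ) (χ : G → ℂ) from sameBlock_refl _)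
    have h4 : ψ ∈ principalBlock M G := h2 ▸ (show SameBlock M (ψ : G → ℂ) (ψ : G → ℂ) from sameBlock_refl _)
    exact block_sameBlock principal_isPBlock h3 h4
  intro B hB
  obtain ⟨D, hD⟩ := exists_defectGroup (p := p) hB
  by_cases hD1 : D = ⊥
  · exfalso
    obtain ⟨g, hg, P, hP⟩ := hD
    obtain ⟨χ, hχ, h0⟩ := Cfsg.Agent.H26.Defect.exists_min (p := p) B (block_nonempty hB)
    have h1 := Cfsg.Agent.H26.Defect.factorization_of_height_zero hM hB hg hχ h0
    apply hdz χ
    have h2 : ¬ p ∣ Nat.card (Subgroup.centralizer ({g} : Set G)) := by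
      intro h
      have h3 := P.dvd_card_of_dvd_card h
      have h4 : (P : Subgroup (Subgroup.centralizer ({g} : Set G))) = ⊥ := by
        rw [← (Subgroup.map_eq_bot_iff_of_injective _ (Subgroup.subtype_injective _)), ← hP, hD1]
      rw [h4, Subgroup.card_bot] at h3
      exact hp.out.one_lt.ne' (Nat.dvd_one.1 h3)
    have h3 : (charDegree (χ : G → ℂ)).factorization p = (Nat.card G).factorization p := by
      rw [h1, ← (Subgroup.centralizer ({g} : Set G)).card_mul_index,
        Nat.factorization_mul Nat.card_pos.ne' Subgroup.index_ne_zero_of_finite, Finsupp.add_apply,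
        Nat.factorization_eq_zero_of_not_dvd h2, zero_add]
    rw [← h3]
    exact Nat.ordProj_dvd _ _
  · have hDp : IsPGroup p D := by
      obtain ⟨g, hg, P, hP⟩ := hD
      rw [hP]
      exact P.isPGroup'.map _
    haveI : Nontrivial D := (Subgroup.nontrivial_iff_ne_bot _).2 hD1
    have hpD : p ∣ Nat.card D := by
      obtain ⟨n, hn, h⟩ := (hDp.nontrivial_iff_card).1 inferInstance
      rw [h]; exact dvd_pow_self p hn.ne'
    obtain ⟨⟨z, hz⟩, hzo⟩ := exists_prime_orderOf_dvd_card' p hpD
    rw [Subgroup.orderOf_mk] at hzo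
    have hP : IsPGroup p (Subgroup.zpowers z) := IsPGroup.of_card (n := 1) (by rw [Nat.card_zpowers, hzo, pow_one])
    haveI : Fintype (Subgroup.centralizer ({z} : Set G)) := Fintype.ofFinite _
    have hcz : Subgroup.centralizer ((Subgroup.zpowers z : Subgroup G) : Set G) = Subgroup.centralizer ({z} : Set G) := by
      ext g
      rw [Subgroup.mem_centralizer_iff, Subgroup.mem_centralizer_singleton_iff]
      constructor
      · intro h; exact (h z (Subgroup.mem_zpowers z)).symm
      · rintro h _ ⟨k, rfl⟩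
        have hc : Commute g z := h
        exact (hc.zpow_right k).eq.symm
    have hPH : Subgroup.zpowers z ≤ Subgroup.centralizer ({z} : Set G) := by
      rw [Subgroup.zpowers_le, Subgroup.mem_centralizer_singleton_iff]
    obtain ⟨b, hb, hind⟩ := Cfsg.Agent.H10.BlockFMT.exists_inducing_of_le_defect (Subgroup.zpowers z)
      (Subgroup.centralizer ({z} : Set G)) hM hP hPH hcz.le
      (by rw [← hcz]; exact Subgroup.centralizer_le_normalizer _) hB hD (x := 1) (by
        rintro _ ⟨y, hy, rfl⟩
        change (1 : G) * y * (1 : G)⁻¹ ∈ D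
        rw [one_mul, inv_one, mul_one]
        exact (Subgroup.zpowers_le.2 hz) hy)
    have hb1 : b = principalBlock M (Subgroup.centralizer ({z} : Set G)) := by
      obtain ⟨ξ, hξ⟩ := block_nonempty hb
      exact block_eq_of_mem hb principal_isPBlock hξ
        (hloc z hzo inferInstance (triv _) ξ)
    have h3 := (third_main hM (Subgroup.centralizer ({z} : Set G)) (b := b) (by exact ⟨B, hind⟩)).2 hb1
    exact isInducedBlock_unique _ hind h3

end Cfsg.Agent.H26.One
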