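import Mathlib
import Cfsg.Agent.H26_Cnt1
import Cfsg.Agent.H26_One

/-!
# H26_Cnt2: character values on the elements of prime order `p`, `p` exactly dividing the group order
-/

set_option autoImplicit false

namespace Cfsg.Agent.H26.Cnt

open Cfsg Cfsg.Agent.H3.CharIrr Cfsg.Agent.H3.CharComplete Cfsg.Agent.H3.CharInd Cfsg.Agent.H3.CharInt
  Cfsg.Agent.H3.CharBasic Cfsg.Agent.H3.CharGal Cfsg.Agent.H10.BlockLoc Cfsg.Agent.H10.BlockMain Cfsg.Agent.H10.Char Cfsg.Agent.H26.GalConj Cfsg.Agent.H26.Basic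

open scoped ComplexConjugate

variable {G : Type*} [Group G] [Fintype G] {p : ℕ} [hp : Fact p.Prime]

omit [Fintype G] in
theorem ord_conj (c x : G) : orderOf (c * x * c⁻¹) = orderOf x := (MulAut.conj c).orderOf_eq x

omit [Fintype G] in
theorem isConj_inv {a b : G} (h : IsConj a b) : IsConj a⁻¹ b⁻¹ := by
  obtain ⟨c, hc⟩ := isConj_iff.1 h
  exact isConj_iff.2 ⟨c, by rw [← hc]; group⟩

theorem val_conj (χ : IrrCharacter G) {a b : G} (h : IsConj a b) : (χ : G → ℂ) a = (χ : G → ℂ) b := by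
  obtain ⟨c, rfl⟩ := isConj_iff.1 h
  exact (IsIrr.isClass χ.2 a c).symm

theorem norm_inv (χ : IrrCharacter G) (a : G) : ‖(χ : G → ℂ) a⁻¹‖ = ‖(χ : G → ℂ) a‖ := by
  rw [inv_eq, Complex.norm_conj]

theorem norm_int (χ : IrrCharacter G) {x : G} (hx : orderOf x = p)
    (h : ∀ j : ℕ, ¬ p ∣ j → IsConj (x ^ j) x ∨ IsConj (x ^ j) x⁻¹) :
    ∃ n : ℕ, ‖(χ : G → ℂ) x‖ ^ 2 = n ∧ n ≡ (charDegree (χ : G → ℂ)) ^ 2 [MOD p] := by
  haveI : NeZero p := ⟨hp.out.ne_zero⟩
  have hxp : x ^ p = 1 := by rw [← hx]; exact pow_orderOf_eq_one x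
  have hxp' : x⁻¹ ^ p = 1 := by rw [inv_pow, hxp, inv_one]
  set z : ℂ := (χ : G → ℂ) x * (χ : G → ℂ) x⁻¹ with hz
  have hznorm : z = ((‖(χ : G → ℂ) x‖ ^ 2 : ℝ) : ℂ) := by
    rw [hz, inv_eq, Complex.mul_conj, Complex.normSq_eq_norm_sq]
  have hmem : z ∈ Cyc p := mul_mem (IsChar.mem_cyc (IsIrr.isCharacter χ.2) x hxp)
      (IsChar.mem_cyc (IsIrr.isCharacter χ.2) x⁻¹ hxp')
  obtain ⟨q, hq⟩ := rat_of_hom hmem (by
    intro φ m hm hφ
    rw [hz, map_mul, pow_char hp.out.ne_zero hφ (IsIrr.isCharacter χ.2) x hxp,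
      pow_char hp.out.ne_zero hφ (IsIrr.isCharacter χ.2) x⁻¹ hxp']
    have hm' : ¬ p ∣ m := (Nat.Prime.coprime_iff_not_dvd hp.out).1 hm.symm
    have e1 : x⁻¹ ^ m = (x ^ m)⁻¹ := inv_pow x m
    rcases h m hm' with h1 | h1
    · rw [e1, val_conj χ h1, val_conj χ (isConj_inv h1)]
    · rw [e1, val_conj χ h1, val_conj χ (isConj_inv h1), inv_inv, mul_comm])
  have hint : IsIntegral ℤ z := (integral_val χ _).mul (integral_val χ _)
  rw [hq] at hint
  obtain ⟨k, hk⟩ := int_of_integral_rat hint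
  have hzk : z = (k : ℂ) := by rw [hq, ← hk]; push_cast; rfl
  have hk0 : 0 ≤ k := by
    have h1 : ((‖(χ : G → ℂ) x‖ ^ 2 : ℝ) : ℂ) = ((k : ℝ) : ℂ) := by rw [← hznorm, hzk]; push_cast; rfl
    have h2 := Complex.ofReal_injective h1
    have h3 : (0 : ℝ) ≤ k := by rw [← h2]; positivity
    exact_mod_cast h3
  obtain ⟨n, rfl⟩ := Int.eq_ofNat_of_zero_le hk0
  refine ⟨n, ?_, ?_⟩
  · have h1 : ((‖(χ : G → ℂ) x‖ ^ 2 : ℝ) : ℂ) = ((n : ℝ) : ℂ) := by rw [← hznorm, hzk]; push_cast; rfl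
    exact Complex.ofReal_injective h1
  · obtain ⟨M, hM⟩ := Cfsg.Agent.H26.Kernel.exists_isPModular p hp.out
    haveI := hM.2.1
    have h1 := Cfsg.Agent.H26.BP.val_sub_mem hM (IsIrr.isCharacter χ.2) (x := x) ⟨1, by rw [hx, pow_one]⟩
    have h2 := Cfsg.Agent.H26.BP.val_sub_mem hM (IsIrr.isCharacter χ.2) (x := x⁻¹) ⟨1, by rw [orderOf_inv, hx, pow_one]⟩
    have h3 := ideal_mul_right h1 (char_mem_ring χ x⁻¹)
    have h4 := ideal_mul_right h2 (char_mem_ring χ 1)
    have h5 := ideal_add h3 h4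
    have h6 : MemLocalIdeal M (((n : ℤ) - (charDegree (χ : G → ℂ) : ℤ) ^ 2 : ℤ) : ℂ) := by
      convert h5 using 1
      push_cast
      rw [cd_eq]
      have h7 : ((n : ℤ) : ℂ) = z := hzk.symm
      push_cast at h7
      rw [h7, hz]
      ring
    have h7 := (ideal_intCast_iff hM _).1 h6
    have h8 := (Int.modEq_iff_dvd.2 h7).symm
    have h9 : (n : ℤ) ≡ (((charDegree (χ : G → ℂ)) ^ 2 : ℕ) : ℤ) [ZMOD p] := by
      push_cast; exact h8
    exact (Int.natCast_modEq_iff).1 h9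

open Classical in
theorem class_card (x : G) : (Finset.univ.filter (IsConj x)).card * Nat.card (Subgroup.centralizer ({x} : Set G)) = Nat.card G := by
  have h1 := card_class_eq_index x
  rw [h1, mul_comm]
  exact Subgroup.card_mul_index _

/-- every element of order `p` is conjugate to a power of `x` -/
theorem conj_into {x g : G} (hx : orderOf x = p) (hg : orderOf g = p) (hG : ¬ p ^ 2 ∣ Nat.card G) :
    ∃ j : ℕ, ¬ p ∣ j ∧ IsConj (x ^ j) g := by
  have hsyl : ∀ y : G, orderOf y = p → ∃ P : Sylow p G, Subgroup.zpowers y = (P : Subgroup G) := by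
    intro y hy
    have hP : IsPGroup p (Subgroup.zpowers y) := IsPGroup.of_card (n := 1) (by rw [Nat.card_zpowers, hy, pow_one])
    obtain ⟨P, hPx⟩ := hP.exists_le_sylow
    refine ⟨P, ?_⟩
    have hcardP : Nat.card (P : Subgroup G) ∣ p := by
      obtain ⟨k, hk⟩ := IsPGroup.iff_card.1 P.isPGroup'
      rw [hk]
      have h1 : k ≤ 1 := by
        by_contra h
        apply hG
        exact (pow_dvd_pow p (by omega : 2 ≤ k)).trans (hk ▸ Subgroup.card_subgroup_dvd_card (P : Subgroup G))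
      calc p ^ k ∣ p ^ 1 := pow_dvd_pow p h1
        _ = p := pow_one p
    apply Subgroup.eq_of_le_of_card_ge hPx
    rw [Nat.card_zpowers, hy]
    exact Nat.le_of_dvd hp.out.pos hcardP
  obtain ⟨P, hP⟩ := hsyl x hx
  obtain ⟨Q, hQ⟩ := hsyl g hg
  obtain ⟨c, hc⟩ := MulAction.exists_smul_eq G Q P
  have h1 : c * g * c⁻¹ ∈ (P : Subgroup G) := by
    rw [← hc, Sylow.coe_subgroup_smul]
    have h2 : g ∈ (Q : Subgroup G) := by rw [← hQ]; exact Subgroup.mem_zpowers g
    exact Subgroup.smul_mem_pointwise_smul g (MulAut.conj c) _ h2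
  rw [← hP] at h1
  obtain ⟨j, hj⟩ := mem_powers_iff_mem_zpowers.2 h1
  have hj' : x ^ j = c * g * c⁻¹ := hj
  refine ⟨j, ?_, ?_⟩
  · intro hpj
    have h2 : x ^ j = 1 := by rw [← hx] at hpj; exact orderOf_dvd_iff_pow_eq_one.1 hpj
    rw [h2] at hj'
    have h3 : g = 1 := by
      have h4 : g = c⁻¹ * (c * g * c⁻¹) * c := by group
      rw [h4, ← hj']; group
    rw [h3, orderOf_one] at hg
    exact hp.out.one_lt.ne hg
  · rw [isConj_comm, isConj_iff]
    exact ⟨c, hj'.symm⟩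

open Classical in
theorem prime_card {x : G} (hx : orderOf x = p) (hG : ¬ p ^ 2 ∣ Nat.card G)
    (h : Nat.card (autG x) = p - 1 ∨ (2 * Nat.card (autG x) = p - 1 ∧ Odd (Nat.card (autG x)))) :
    (∀ j : ℕ, ¬ p ∣ j → IsConj (x ^ j) x ∨ IsConj (x ^ j) x⁻¹) ∧
      (Finset.univ.filter (fun g : G => orderOf g = p)).card *
        (Nat.card (Subgroup.centralizer ({x} : Set G)) * Nat.card (autG x)) = (p - 1) * Nat.card G := by
  rcases h with h | ⟨h, hodd⟩
  · have h1 : ∀ j : ℕ, ¬ p ∣ j → IsConj (x ^ j) x := fun j hj => conj_of_full hx h hj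
    refine ⟨fun j hj => Or.inl (h1 j hj), ?_⟩
    have h2 : Finset.univ.filter (fun g : G => orderOf g = p) = Finset.univ.filter (IsConj x) := by
      ext g
      simp only [Finset.mem_filter, Finset.mem_univ, true_and]
      constructor
      · intro hg
        obtain ⟨j, hj, hc⟩ := conj_into hx hg hG
        exact (h1 j hj).symm.trans hc
      · intro hg
        obtain ⟨c, rfl⟩ := isConj_iff.1 hg
        rw [← hx]
        exact ord_conj c x
    rw [h2, ← mul_assoc, class_card, h, mul_comm]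
  · obtain ⟨h1, h1'⟩ := conj_of_half hx h hodd
    refine ⟨h1, ?_⟩
    have h2 : Finset.univ.filter (fun g : G => orderOf g = p) =
        Finset.univ.filter (IsConj x) ∪ Finset.univ.filter (IsConj x⁻¹) := by
      ext g
      simp only [Finset.mem_filter, Finset.mem_univ, true_and, Finset.mem_union]
      constructor
      · intro hg
        obtain ⟨j, hj, hc⟩ := conj_into hx hg hG
        rcases h1 j hj with h3 | h3
        · exact Or.inl (h3.symm.trans hc)
        · exact Or.inr (h3.symm.trans hc)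
      · rintro (hg | hg)
        · obtain ⟨c, rfl⟩ := isConj_iff.1 hg
          rw [← hx]
          exact ord_conj c x
        · obtain ⟨c, rfl⟩ := isConj_iff.1 hg
          rw [← hx, ← orderOf_inv x]
          exact ord_conj c x⁻¹
    have h3 : Disjoint (Finset.univ.filter (IsConj x)) (Finset.univ.filter (IsConj x⁻¹)) := by
      rw [Finset.disjoint_left]
      intro g hg hg'
      simp only [Finset.mem_filter, Finset.mem_univ, true_and] at hg hg'
      exact h1' (hg.trans hg'.symm)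
    have h4 : (Finset.univ.filter (IsConj x⁻¹)).card * Nat.card (Subgroup.centralizer ({x} : Set G)) = Nat.card G := by
      have h5 := class_card x⁻¹
      have h6 : Subgroup.centralizer ({x⁻¹} : Set G) = Subgroup.centralizer ({x} : Set G) := by
        ext g
        rw [Subgroup.mem_centralizer_singleton_iff, Subgroup.mem_centralizer_singleton_iff]
        exact ⟨fun h => by have h7 : Commute g x⁻¹ := h; exact (Commute.inv_right_iff.1 h7),
          fun h => by have h7 : Commute g x := h; exact (Commute.inv_right_iff.2 h7)⟩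
      rwa [h6] at h5
    rw [h2, Finset.card_union_of_disjoint h3, ← mul_assoc, add_mul, class_card, h4, ← h]
    ring

open Classical in
theorem prime_sum (χ : IrrCharacter G) {x : G} (hx : orderOf x = p) (hG : ¬ p ^ 2 ∣ Nat.card G)
    (h : ∀ j : ℕ, ¬ p ∣ j → IsConj (x ^ j) x ∨ IsConj (x ^ j) x⁻¹) :
    ∃ n : ℕ, (∀ g : G, orderOf g = p → ‖(χ : G → ℂ) g‖ ^ 2 = n) ∧
      ∑ g ∈ Finset.univ.filter (fun g : G => orderOf g = p), ‖(χ : G → ℂ) g‖ ^ 2 =
      n * (Finset.univ.filter (fun g : G => orderOf g = p)).card ∧ n ≡ (charDegree (χ : G → ℂ)) ^ 2 [MOD p] := by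
  obtain ⟨n, hn, hmod⟩ := norm_int χ hx h
  have h1 : ∀ g : G, orderOf g = p → ‖(χ : G → ℂ) g‖ ^ 2 = n := by
    intro g hg
    obtain ⟨j, hj, hc⟩ := conj_into hx hg hG
    rw [← val_conj χ hc]
    rcases h j hj with h3 | h3
    · rw [val_conj χ h3, hn]
    · rw [val_conj χ h3, norm_inv, hn]
  refine ⟨n, h1, ?_, hmod⟩
  rw [Finset.sum_congr rfl (fun g hg => h1 g (Finset.mem_filter.1 hg).2), Finset.sum_const, nsmul_eq_mul, mul_comm]

theorem sum_all (χ : IrrCharacter G) : ∑ g : G, ‖(χ : G → ℂ) g‖ ^ 2 = (Nat.card G : ℝ) := by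
  have h1 := ci_irr_self χ.2
  rw [ci_eq_sum_inv _ (IsIrr.isCharacter χ.2)] at h1
  have h2 : (Nat.card G : ℂ) ≠ 0 := by exact_mod_cast Nat.card_pos.ne'
  have h3 : ∑ g : G, (χ : G → ℂ) g * (χ : G → ℂ) g⁻¹ = (Nat.card G : ℂ) := by
    rw [inv_mul_eq_one₀ h2] at h1
    exact h1.symm
  have h4 : ((∑ g : G, ‖(χ : G → ℂ) g‖ ^ 2 : ℝ) : ℂ) = ((Nat.card G : ℝ) : ℂ) := by
    rw [Complex.ofReal_sum]
    push_cast
    rw [← h3]
    refine Finset.sum_congr rfl fun g _ => ?_
    rw [inv_eq, Complex.mul_conj, Complex.normSq_eq_norm_sq]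
    push_cast; rfl
  exact Complex.ofReal_injective h4

end Cfsg.Agent.H26.Cnt
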