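import Mathlib
import Cfsg.Agent.H26_Cnt2
import Cfsg.Agent.H25_Elem

/-!
# H26_Cnt3: lower bound for the `p`-singular part of the norm
-/

set_option autoImplicit false

namespace Cfsg.Agent.H26.Cnt

open Cfsg Cfsg.Agent.H3.CharIrr Cfsg.Agent.H3.CharComplete Cfsg.Agent.H3.CharInd Cfsg.Agent.H3.CharInt
  Cfsg.Agent.H3.CharBasic Cfsg.Agent.H3.CharGal Cfsg.Agent.H10.BlockLoc Cfsg.Agent.H10.BlockMain Cfsg.Agent.H10.Char Cfsg.Agent.H26.GalConj Cfsg.Agent.H26.Basic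

open scoped ComplexConjugate

variable {G : Type*} [Group G] [Fintype G] {p : ℕ} [hp : Fact p.Prime]

open Classical in
theorem sing_int (χ : IrrCharacter G) (a : ℕ) (ha : (Nat.card G).factorization p ≤ a) :
    ∃ k : ℤ, (p : ℝ) ^ a * ∑ g ∈ Finset.univ.filter (fun g : G => p ∣ orderOf g), ‖(χ : G → ℂ) g‖ ^ 2 = k * Nat.card G := by
  have h1 := Cfsg.Agent.H25.Elem.regFun_gen (G := G) (p := p) ha (IsIrr.isCharacter χ.2)
  obtain ⟨m, hm⟩ := ci_gen_int h1 (IsGen.of_char (IsIrr.isCharacter χ.2))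
  refine ⟨(p : ℤ) ^ a - m, ?_⟩
  have h2 : ((p : ℝ) ^ a * ∑ g ∈ Finset.univ.filter (fun g : G => ¬ p ∣ orderOf g), ‖(χ : G → ℂ) g‖ ^ 2 : ℝ) = m * Nat.card G := by
    have h3 : (((p : ℝ) ^ a * ∑ g ∈ Finset.univ.filter (fun g : G => ¬ p ∣ orderOf g), ‖(χ : G → ℂ) g‖ ^ 2 : ℝ) : ℂ) =
        ((m * Nat.card G : ℝ) : ℂ) := by
      rw [ci_eq_sum_inv _ (IsIrr.isCharacter χ.2)] at hm
      have h4 : (Nat.card G : ℂ) ≠ 0 := by exact_mod_cast Nat.card_pos.ne'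
      rw [inv_mul_eq_iff_eq_mul₀ h4] at hm
      push_cast
      rw [mul_comm (m : ℂ), ← hm, Finset.mul_sum, Finset.sum_filter]
      refine Finset.sum_congr rfl fun g _ => ?_
      rw [Cfsg.Agent.H25.Elem.regFun]
      by_cases hg : p ∣ orderOf g
      · rw [if_neg (not_not.2 hg), if_pos hg, zero_mul]
      · rw [if_pos hg, if_neg hg, inv_eq, mul_assoc, Complex.mul_conj, Complex.normSq_eq_norm_sq]
        push_cast; rfl
    exact Complex.ofReal_injective h3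
  have h5 := sum_all χ
  rw [← Finset.sum_filter_add_sum_filter_not Finset.univ (fun g : G => p ∣ orderOf g)] at h5
  push_cast
  have h6 : (p : ℝ) ^ a * (∑ g ∈ Finset.univ.filter (fun g : G => p ∣ orderOf g), ‖(χ : G → ℂ) g‖ ^ 2 +
      ∑ g ∈ Finset.univ.filter (fun g : G => ¬ p ∣ orderOf g), ‖(χ : G → ℂ) g‖ ^ 2) = (p : ℝ) ^ a * Nat.card G := by
    rw [h5]
  linarith

open Classical in
theorem sing_ge (χ : IrrCharacter G) (a : ℕ) (ha : (Nat.card G).factorization p ≤ a)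
    (h : ∃ g, p ∣ orderOf g ∧ (χ : G → ℂ) g ≠ 0) :
    (Nat.card G : ℝ) ≤ (p : ℝ) ^ a * ∑ g ∈ Finset.univ.filter (fun g : G => p ∣ orderOf g), ‖(χ : G → ℂ) g‖ ^ 2 := by
  obtain ⟨k, hk⟩ := sing_int χ a ha
  obtain ⟨g, hg, hg0⟩ := h
  have h1 : 0 < ∑ g ∈ Finset.univ.filter (fun g : G => p ∣ orderOf g), ‖(χ : G → ℂ) g‖ ^ 2 := by
    apply Finset.sum_pos' (fun x _ => by positivity)
    exact ⟨g, Finset.mem_filter.2 ⟨Finset.mem_univ _, hg⟩, by have := norm_pos_iff.2 hg0; positivity⟩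
  have h2 : (0 : ℝ) < p := by exact_mod_cast hp.out.pos
  have h3 : (0 : ℝ) < Nat.card G := by exact_mod_cast Nat.card_pos
  have h4 : (0 : ℝ) < k * Nat.card G := by rw [← hk]; positivity
  have h5 : (0 : ℝ) < k := by
    by_contra hcon
    push Not at hcon
    nlinarith
  have h6 : (1 : ℤ) ≤ k := by
    have : (0 : ℤ) < k := by exact_mod_cast h5
    omega
  have h7 : (1 : ℝ) ≤ k := by exact_mod_cast h6
  rw [hk]
  nlinarith

theorem exists_sing_ne (χ : IrrCharacter G) (hd : ¬ p ∣ charDegree (χ : G → ℂ)) (hG : p ∣ Nat.card G) :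
    ∃ g, p ∣ orderOf g ∧ (χ : G → ℂ) g ≠ 0 := by
  obtain ⟨x, hx⟩ := exists_prime_orderOf_dvd_card' p hG
  refine ⟨x, by rw [hx], fun h0 => ?_⟩
  obtain ⟨M, hM⟩ := Cfsg.Agent.H26.Kernel.exists_isPModular p hp.out
  have h1 := Cfsg.Agent.H26.BP.val_sub_mem hM (IsIrr.isCharacter χ.2) (x := x) ⟨1, by rw [hx, pow_one]⟩
  rw [h0, zero_sub, ← cd_eq] at h1
  apply hd
  haveI := hM.2.1
  have h2 := ideal_neg h1
  rw [neg_neg] at h2
  exact (ideal_natCast_iff hM _).1 h2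

end Cfsg.Agent.H26.Cnt
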