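import Mathlib

/-! Combinatorics of exceptional characters: vectors with Gram matrix `3 + δ`. -/

set_option autoImplicit false

namespace Cfsg.Agent.H26.Ex1

variable {ι κ : Type*} [Fintype ι] [DecidableEq ι]

theorem ent {w : ι → ℤ} (h : ∑ i, w i * w i = 3) (x : ι) : w x = 0 ∨ w x = 1 ∨ w x = -1 := by
  have h1 : w x * w x ≤ 3 := by
    rw [← h]
    exact Finset.single_le_sum (f := fun i => w i * w i) (fun i _ => mul_self_nonneg _)
      (Finset.mem_univ x)
  have h2 : w x < 2 := by nlinarith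
  have h3 : -2 < w x := by nlinarith
  omega

theorem two {w w' : ι → ℤ} (h : ∑ i, w i * w i = 3) (h' : ∑ i, w' i * w' i = 3)
    (hh : ∑ i, w i * w' i = 2) : ∃ c d : ι, w c ≠ 0 ∧ w' c = 0 ∧ w d = 0 ∧ w' d ≠ 0 ∧
      ∀ x, x ≠ c → x ≠ d → w x = w' x := by
  classical
  have e1 : ∑ i, (w i - w' i) * (w i - w' i) = 2 := by
    have : ∀ i, (w i - w' i) * (w i - w' i) = w i * w i + w' i * w' i - 2 * (w i * w' i) :=
      fun i => by ring
    simp_rw [this]
    rw [Finset.sum_sub_distrib, Finset.sum_add_distrib, ← Finset.mul_sum, h, h', hh]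
    norm_num
  have e2 : ∑ i, (w i * w i - w' i * w' i) = 0 := by
    rw [Finset.sum_sub_distrib, h, h']; norm_num
  set T := Finset.univ.filter (fun i => w i ≠ w' i) with hT
  have hTm : ∀ i, i ∉ T → w i = w' i := by
    intro i hi
    by_contra h3
    exact hi (by rw [hT]; simp [h3])
  have e3 : ∑ i ∈ T, (w i - w' i) * (w i - w' i) = 2 := by
    rw [← e1]
    refine Finset.sum_subset (Finset.subset_univ _) fun i _ hi => ?_
    rw [hTm i hi]; ring
  have e4 : ∑ i ∈ T, (w i * w i - w' i * w' i) = 0 := by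
    rw [← e2]
    refine Finset.sum_subset (Finset.subset_univ _) fun i _ hi => ?_
    rw [hTm i hi]; ring
  have hge : ∀ i ∈ T, 1 ≤ (w i - w' i) * (w i - w' i) := by
    intro i hi
    have : w i - w' i ≠ 0 := by
      rw [hT, Finset.mem_filter] at hi
      exact sub_ne_zero.2 hi.2
    rcases lt_or_gt_of_ne this with h3 | h3 <;> nlinarith
  have hcard : T.card ≤ 2 := by
    have h3 : ∑ i ∈ T, (1 : ℤ) ≤ 2 := e3 ▸ Finset.sum_le_sum hge
    rw [Finset.sum_const, nsmul_eq_mul, mul_one] at h3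
    exact_mod_cast h3
  interval_cases hc : T.card
  · rw [Finset.card_eq_zero.1 hc] at e3
    simp at e3
  · obtain ⟨c, hc'⟩ := Finset.card_eq_one.1 hc
    rw [hc', Finset.sum_singleton] at e3
    exfalso
    have h3 : w c - w' c < 2 := by nlinarith
    have h4 : -2 < w c - w' c := by nlinarith
    generalize w c - w' c = a at e3 h3 h4
    interval_cases a <;> norm_num at e3
  · obtain ⟨c, d, hcd, hTcd⟩ := Finset.card_eq_two.1 hc
    have hcT : c ∈ T := by rw [hTcd]; simp
    have hdT : d ∈ T := by rw [hTcd]; simp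
    have g1 := hge c hcT
    have g2 := hge d hdT
    rw [hTcd, Finset.sum_pair hcd] at e3 e4
    have hoff : ∀ x, x ≠ c → x ≠ d → w x = w' x := by
      intro x h3 h4
      apply hTm
      rw [hTcd]; simp [h3, h4]
    have a1 := ent h c
    have a2 := ent h' c
    have a3 := ent h d
    have a4 := ent h' d
    have hc2 : (w c - w' c) * (w c - w' c) = 1 := by omega
    have hd2 : (w d - w' d) * (w d - w' d) = 1 := by omega
    have key : (w c ≠ 0 ∧ w' c = 0 ∧ w d = 0 ∧ w' d ≠ 0) ∨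
        (w d ≠ 0 ∧ w' d = 0 ∧ w c = 0 ∧ w' c ≠ 0) := by
      rcases a1 with a1 | a1 | a1 <;> rcases a2 with a2 | a2 | a2 <;> rcases a3 with a3 | a3 | a3 <;>
        rcases a4 with a4 | a4 | a4 <;> rw [a1, a2] at hc2 <;> rw [a3, a4] at hd2 <;>
        rw [a1, a2, a3, a4] at e4 ⊢ <;> revert hc2 hd2 e4 <;> decide
    rcases key with ⟨k1, k2, k3, k4⟩ | ⟨k1, k2, k3, k4⟩
    · exact ⟨c, d, k1, k2, k3, k4, hoff⟩
    · exact ⟨d, c, k1, k2, k3, k4, fun x h3 h4 => hoff x h4 h3⟩

theorem eq_of_three {w w' : ι → ℤ} (h : ∑ i, w i * w i = 3) (h' : ∑ i, w' i * w' i = 3)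
    (hh : ∑ i, w i * w' i = 3) : w = w' := by
  have e1 : ∑ i, (w i - w' i) * (w i - w' i) = 0 := by
    have : ∀ i, (w i - w' i) * (w i - w' i) = w i * w i + w' i * w' i - 2 * (w i * w' i) :=
      fun i => by ring
    simp_rw [this]
    rw [Finset.sum_sub_distrib, Finset.sum_add_distrib, ← Finset.mul_sum, h, h', hh]
    norm_num
  funext i
  have := (Finset.sum_eq_zero_iff_of_nonneg (fun i _ => mul_self_nonneg (w i - w' i))).1 e1 i
    (Finset.mem_univ i)
  exact sub_eq_zero.1 (mul_self_eq_zero.1 this)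

/-- the data -/
structure Sys (w : κ → ι → ℤ) (R : κ → κ → Prop) (deg : ι → ℤ) : Prop where
  norm : ∀ k, ∑ i, w k i * w k i = 3
  rel : ∀ k l, R k l → ∑ i, w k i * w l i = 3
  nrel : ∀ k l, ¬ R k l → ∑ i, w k i * w l i = 2
  hD : ∀ k, 1 + ∑ i, w k i * deg i = 0
  pos : ∀ i, 0 < deg i
  h2 : ∃ k l, ¬ R k l
  h4 : ∀ a b c, ¬ R a b → ¬ R a c → ¬ R b c → ∃ d, ¬ R a d ∧ ¬ R b d ∧ ¬ R c d

variable {w : κ → ι → ℤ} {R : κ → κ → Prop} {deg : ι → ℤ}

theorem Sys.tw (S : Sys w R deg) {k l : κ} (h : ¬ R k l) : ∃ c d : ι, w k c ≠ 0 ∧ w l c = 0 ∧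
    w k d = 0 ∧ w l d ≠ 0 ∧ ∀ x, x ≠ c → x ≠ d → w k x = w l x :=
  two (S.norm k) (S.norm l) (S.nrel k l h)

theorem Sys.eq (S : Sys w R deg) {k l : κ} (h : R k l) : w k = w l :=
  eq_of_three (S.norm k) (S.norm l) (S.rel k l h)

theorem Sys.rel_of_eq (S : Sys w R deg) {k l : κ} (h : w k = w l) : R k l := by
  by_contra h1
  have h2 := S.nrel k l h1
  rw [h, S.norm l] at h2
  norm_num at h2

theorem Sys.degrel (S : Sys w R deg) {k l : κ} {c d : ι} (h1 : w l c = 0) (h2 : w k d = 0)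
    (hcd : c ≠ d) (h : ∀ x, x ≠ c → x ≠ d → w k x = w l x) : w k c * deg c = w l d * deg d := by
  have e1 : ∑ i, (w k i - w l i) * deg i = 0 := by
    simp_rw [sub_mul]
    rw [Finset.sum_sub_distrib]
    have a := S.hD k
    have b := S.hD l
    linarith
  rw [← Finset.add_sum_erase _ _ (Finset.mem_univ c),
    ← Finset.add_sum_erase _ _ (Finset.mem_erase.2 ⟨hcd.symm, Finset.mem_univ d⟩),
    Finset.sum_eq_zero] at e1
  · rw [h1, h2] at e1
    linarith
  · intro x hx
    rw [Finset.mem_erase, Finset.mem_erase] at hx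
    rw [h x hx.2.1 hx.1]; ring

/-- two different dropped points force the same added point -/
theorem Sys.sl (S : Sys w R deg) {k l l' : κ} (hll : ¬ R l l') {c d c' d' : ι}
    (h1 : w k c ≠ 0) (h2 : w l c = 0) (h3 : w k d = 0) (h4 : w l d ≠ 0)
    (h5 : ∀ x, x ≠ c → x ≠ d → w k x = w l x)
    (h1' : w k c' ≠ 0) (h2' : w l' c' = 0) (h3' : w k d' = 0) (h4' : w l' d' ≠ 0)
    (h5' : ∀ x, x ≠ c' → x ≠ d' → w k x = w l' x) (hc : c ≠ c') :
    d = d' ∧ w l d = w l' d := by
  obtain ⟨a, b, i1, i2, i3, i4, i5⟩ := S.tw hll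
  have hcd' : c ≠ d' := fun h => h1 (h ▸ h3')
  have hc'd : c' ≠ d := fun h => h1' (h ▸ h3)
  have e1 : w l' c ≠ 0 := by rw [← h5' c hc hcd']; exact h1
  have e2 : w l c' ≠ 0 := by rw [← h5 c' hc.symm hc'd]; exact h1'
  -- c = b, c' = a
  have hcb : c = b := by
    by_contra h
    by_cases h' : c = a
    · rw [h'] at h2; exact i1 h2
    · have := i5 c h' h
      rw [h2] at this
      exact e1 this.symm
  have hca : c' = a := by
    by_contra h
    by_cases h' : c' = b
    · exact hc (hcb.trans h'.symm)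
    · have := i5 c' h h'
      rw [h2'] at this
      exact e2 this
  have hd : w l d = w l' d := i5 d (fun h => hc'd (hca.trans h.symm)) (fun h => by
    rw [← hcb] at h
    exact h1 (h ▸ h3))
  refine ⟨?_, hd⟩
  by_contra h
  have := h5' d (fun h => hc'd h.symm) h
  rw [h3] at this
  rw [hd] at h4
  exact h4 this.symm

theorem Sys.sunflower (S : Sys w R deg) (hsymm : ∀ a b, R a b → R b a) {k l l' : κ}
    (hkl : ¬ R k l) (hkl' : ¬ R k l') {c d c' d' : ι}
    (h1 : w k c ≠ 0) (h2 : w l c = 0) (h3 : w k d = 0) (h4 : w l d ≠ 0)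
    (h5 : ∀ x, x ≠ c → x ≠ d → w k x = w l x)
    (h1' : w k c' ≠ 0) (h2' : w l' c' = 0) (h3' : w k d' = 0) (h4' : w l' d' ≠ 0)
    (h5' : ∀ x, x ≠ c' → x ≠ d' → w k x = w l' x) : c = c' := by
  classical
  by_contra hc
  have hcd : c ≠ d := fun h => h1 (h ▸ h3)
  have hcd' : c' ≠ d' := fun h => h1' (h ▸ h3')
  by_cases hll : R l l'
  · have e := S.eq hll
    apply h1
    rw [h5' c hc (fun h => h1 (h ▸ h3')), ← e, h2]
  obtain ⟨hdd, hdv⟩ := S.sl hll h1 h2 h3 h4 h5 h1' h2' h3' h4' h5' hc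
  obtain ⟨m, hm1, hm2, hm3⟩ := S.h4 k l l' hkl hkl' hll
  obtain ⟨c1, d1, j1, j2, j3, j4, j5⟩ := S.tw hm1
  have hcd1 : c1 ≠ d1 := fun h => j1 (h ▸ j3)
  have q1 := S.degrel h2 h3 hcd h5
  have q2 := S.degrel h2' h3' hcd' h5'
  by_cases hc1 : c1 = c
  · have hne : c1 ≠ c' := fun h => hc (hc1.symm.trans h)
    obtain ⟨hd1, hv1⟩ := S.sl (fun h => hm3 (hsymm _ _ h)) j1 j2 j3 j4 j5 h1' h2' h3' h4' h5' hne
    apply hm2
    apply S.rel_of_eq
    funext x
    by_cases hx : x = c
    · rw [hx, h2, ← hc1, j2]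
    · by_cases hx' : x = d
      · rw [hx', hdd, ← hd1, hv1, hd1, ← hdd, hdv]
      · rw [← h5 x hx hx', j5 x (by rw [hc1]; exact hx) (by rw [hd1, ← hdd]; exact hx')]
  · by_cases hc1' : c1 = c'
    · have hne : c1 ≠ c := hc1
      obtain ⟨hd1, hv1⟩ := S.sl (fun h => hm2 (hsymm _ _ h)) j1 j2 j3 j4 j5 h1 h2 h3 h4 h5 hne
      apply hm3
      apply S.rel_of_eq
      funext x
      by_cases hx : x = c'
      · rw [hx, h2', ← hc1', j2]
      · by_cases hx' : x = d'
        · rw [hx', ← hdd, ← hd1, hv1, hd1, hdv]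
        · rw [← h5' x hx hx', j5 x (by rw [hc1']; exact hx) (by rw [hd1, hdd]; exact hx')]
    · obtain ⟨hd1, hv1⟩ := S.sl (fun h => hm2 (hsymm _ _ h)) j1 j2 j3 j4 j5 h1 h2 h3 h4 h5 hc1
      have q3 := S.degrel j2 j3 hcd1 j5
      rw [hd1] at q3
      rw [hd1] at hv1
      rw [hv1] at q3
      rw [← hdd, ← hdv] at q2
      -- the support of w k is {c, c', c1}
      have hn := S.norm k
      have hDk := S.hD k
      have hs1 : ∀ x, x ≠ c → x ≠ c' → x ≠ c1 → w k x = 0 := by
        intro x x1 x2 x3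
        rw [← Finset.add_sum_erase _ _ (Finset.mem_univ c),
          ← Finset.add_sum_erase _ _ (Finset.mem_erase.2 ⟨fun h => hc h.symm, Finset.mem_univ c'⟩),
          ← Finset.add_sum_erase _ _ (Finset.mem_erase.2 ⟨hc1', Finset.mem_erase.2 ⟨hc1,
            Finset.mem_univ c1⟩⟩)] at hn
        have n1 : w k c * w k c = 1 := by
          rcases ent (S.norm k) c with h | h | h
          · exact absurd h h1
          · rw [h]; norm_num
          · rw [h]; norm_num
        have n2 : w k c' * w k c' = 1 := by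
          rcases ent (S.norm k) c' with h | h | h
          · exact absurd h h1'
          · rw [h]; norm_num
          · rw [h]; norm_num
        have n3 : w k c1 * w k c1 = 1 := by
          rcases ent (S.norm k) c1 with h | h | h
          · exact absurd h j1
          · rw [h]; norm_num
          · rw [h]; norm_num
        rw [n1, n2, n3] at hn
        have hz : ∑ x ∈ ((Finset.univ.erase c).erase c').erase c1, w k x * w k x = 0 := by linarith
        have := (Finset.sum_eq_zero_iff_of_nonneg (fun i _ => mul_self_nonneg (w k i))).1 hz x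
          (by simp [x1, x2, x3])
        exact mul_self_eq_zero.1 this
      rw [← Finset.add_sum_erase _ _ (Finset.mem_univ c),
          ← Finset.add_sum_erase _ _ (Finset.mem_erase.2 ⟨fun h => hc h.symm, Finset.mem_univ c'⟩),
          ← Finset.add_sum_erase _ _ (Finset.mem_erase.2 ⟨hc1', Finset.mem_erase.2 ⟨hc1,
            Finset.mem_univ c1⟩⟩), Finset.sum_eq_zero (s := ((Finset.univ.erase c).erase c').erase c1)]
        at hDk
      · rw [q1, q2, q3] at hDk
        omega
      · intro x hx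
        rw [Finset.mem_erase, Finset.mem_erase, Finset.mem_erase] at hx
        rw [hs1 x hx.2.2.1 hx.2.1 hx.1, zero_mul]

/-- the structure theorem -/
theorem Sys.main (S : Sys w R deg) (hsymm : ∀ a b, R a b → R b a) :
    ∃ (x2 x3 : ι) (a2 a3 δ : ℤ) (z : κ → ι), x2 ≠ x3 ∧ (a2 = 1 ∨ a2 = -1) ∧ (a3 = 1 ∨ a3 = -1) ∧
      (δ = 1 ∨ δ = -1) ∧ (∀ k, z k ≠ x2 ∧ z k ≠ x3) ∧
      (∀ k i, w k i = (if i = x2 then a2 else 0) + (if i = x3 then a3 else 0) -
        (if i = z k then δ else 0)) ∧ (∀ k l, z k = z l ↔ R k l) := by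
  classical
  obtain ⟨k0, l0, hkl⟩ := S.h2
  obtain ⟨c0, d0, h1, h2, h3, h4, h5⟩ := S.tw hkl
  -- support of w k0
  have hn := S.norm k0
  have hcard : ((Finset.univ.filter (fun i => w k0 i ≠ 0)).erase c0).card = 2 := by
    have e1 : ∑ i, w k0 i * w k0 i = ((Finset.univ.filter (fun i => w k0 i ≠ 0)).card : ℤ) := by
      rw [Finset.card_filter]
      push_cast
      refine Finset.sum_congr rfl fun i _ => ?_
      rcases ent hn i with h | h | h <;> rw [h] <;> norm_num
    rw [hn] at e1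
    rw [Finset.card_erase_of_mem (by simp [h1])]
    omega
  obtain ⟨x2, x3, hx23, hX⟩ := Finset.card_eq_two.1 hcard
  have hXm : ∀ i, (i = x2 ∨ i = x3) ↔ (i ≠ c0 ∧ w k0 i ≠ 0) := by
    intro i
    have : i ∈ ((Finset.univ.filter (fun i => w k0 i ≠ 0)).erase c0) ↔ i ∈ ({x2, x3} : Finset ι) := by
      rw [hX]
    rw [Finset.mem_erase, Finset.mem_filter, Finset.mem_insert, Finset.mem_singleton] at this
    rw [← this]; simp
  have hx2 := (hXm x2).1 (Or.inl rfl)
  have hx3 := (hXm x3).1 (Or.inr rfl)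
  have sg : ∀ k i, w k i ≠ 0 → w k i = 1 ∨ w k i = -1 := fun k i h =>
    (ent (S.norm k) i).resolve_left h
  -- for each k
  have hk : ∀ k, ∃ (z : ι) (η : ℤ), z ≠ x2 ∧ z ≠ x3 ∧ (η = 1 ∨ η = -1) ∧
      ∀ i, w k i = (if i = x2 then w k0 x2 else 0) + (if i = x3 then w k0 x3 else 0) +
        (if i = z then η else 0) := by
    intro k
    by_cases hR : R k0 k
    · refine ⟨c0, w k0 c0, hx2.1.symm, hx3.1.symm, sg k0 c0 h1, fun i => ?_⟩
      rw [← S.eq hR]
      by_cases i1 : i = x2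
      · rw [if_pos i1, if_neg (by rw [i1]; exact hx23), if_neg (by rw [i1]; exact hx2.1), i1]; ring
      · by_cases i2 : i = x3
        · rw [if_neg i1, if_pos i2, if_neg (by rw [i2]; exact hx3.1), i2]; ring
        · rw [if_neg i1, if_neg i2]
          by_cases i3 : i = c0
          · rw [if_pos i3, i3]; ring
          · rw [if_neg i3]
            by_contra h
            have := (hXm i).2 ⟨i3, by simpa using h⟩
            rcases this with h6 | h6
            · exact i1 h6
            · exact i2 h6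
    · obtain ⟨c', d', h1', h2', h3', h4', h5'⟩ := S.tw hR
      have hcc := S.sunflower hsymm hkl hR h1 h2 h3 h4 h5 h1' h2' h3' h4' h5'
      rw [← hcc] at h1' h2' h5'
      have hd2 : d' ≠ x2 := fun h => hx2.2 (h ▸ h3')
      have hd3 : d' ≠ x3 := fun h => hx3.2 (h ▸ h3')
      refine ⟨d', w k d', hd2, hd3, sg k d' h4', fun i => ?_⟩
      by_cases i1 : i = x2
      · rw [if_pos i1, if_neg (by rw [i1]; exact hx23), if_neg (by rw [i1]; exact hd2.symm), i1,
          ← h5' x2 hx2.1 hd2.symm]; ring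
      · by_cases i2 : i = x3
        · rw [if_neg i1, if_pos i2, if_neg (by rw [i2]; exact hd3.symm), i2,
            ← h5' x3 hx3.1 hd3.symm]; ring
        · rw [if_neg i1, if_neg i2]
          by_cases i3 : i = d'
          · rw [if_pos i3, i3]; ring
          · rw [if_neg i3]
            by_cases i4 : i = c0
            · rw [i4, h2']; ring
            · rw [← h5' i i4 i3]
              by_contra h
              have := (hXm i).2 ⟨i4, by simpa using h⟩
              rcases this with h6 | h6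
              · exact i1 h6
              · exact i2 h6
  choose z η hz2 hz3 hη hw using hk
  -- η is constant
  have hq : ∀ k, η k * deg (z k) = -(1 + w k0 x2 * deg x2 + w k0 x3 * deg x3) := by
    intro k
    have h6 := S.hD k
    simp_rw [hw k, add_mul, ite_mul, zero_mul] at h6
    rw [Finset.sum_add_distrib, Finset.sum_add_distrib, Finset.sum_ite_eq' , Finset.sum_ite_eq',
      Finset.sum_ite_eq'] at h6
    simp only [Finset.mem_univ, if_true] at h6
    linarith
  have hηc : ∀ k, η k = η k0 := by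
    intro k
    have h6 := (hq k).trans (hq k0).symm
    have p1 := S.pos (z k)
    have p2 := S.pos (z k0)
    rcases hη k with h7 | h7 <;> rcases hη k0 with h8 | h8 <;> rw [h7, h8] at h6 ⊢
    · exfalso; linarith
    · exfalso; linarith
  refine ⟨x2, x3, w k0 x2, w k0 x3, -η k0, z, hx23, sg _ _ hx2.2, sg _ _ hx3.2, ?_,
    fun k => ⟨hz2 k, hz3 k⟩, fun k i => ?_, fun k l => ⟨fun h => ?_, fun h => ?_⟩⟩
  · rcases hη k0 with h | h <;> rw [h] <;> norm_num
  · rw [hw k i, hηc k]
    split_ifs <;> ring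
  · apply S.rel_of_eq
    funext i
    rw [hw k i, hw l i, hηc k, hηc l, h]
  · have e := congrFun (S.eq h) (z k)
    rw [hw k, hw l, if_neg (hz2 k), if_neg (hz3 k), if_pos rfl] at e
    by_contra hne
    rw [if_neg hne] at e
    rcases hη k with h8 | h8 <;> rw [h8] at e <;> norm_num at e

end Cfsg.Agent.H26.Ex1
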