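import Mathlib
import Cfsg.Agent.H3_CharInd
import Cfsg.Agent.H3_CharComplete

/-! Linear characters of finite abelian groups: Fourier inversion. -/

set_option autoImplicit false

namespace Cfsg.Agent.H26.Ex2

open Cfsg Cfsg.Agent.H3.CharIrr Cfsg.Agent.H3.CharComplete Cfsg.Agent.H3.CharInd
open scoped ComplexConjugate

variable {A : Type*} [Group A]

instance finite_hom [Finite A] : Finite (A →* ℂˣ) := by
  classical
  haveI : Fintype A := Fintype.ofFinite A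
  have h : ∀ (ψ : A →* ℂˣ) (a : A), ψ a ∈ (rootsOfUnity (Fintype.card A) ℂ : Set ℂˣ) := by
    intro ψ a
    rw [SetLike.mem_coe, mem_rootsOfUnity, ← map_pow, pow_card_eq_one, map_one]
  haveI : NeZero (Fintype.card A) := ⟨Fintype.card_ne_zero⟩
  haveI : Finite (rootsOfUnity (Fintype.card A) ℂ) := inferInstance
  refine Finite.of_injective (fun (ψ : A →* ℂˣ) (a : A) =>
    (⟨ψ a, h ψ a⟩ : rootsOfUnity (Fintype.card A) ℂ)) ?_
  intro ψ φ hh
  apply MonoidHom.ext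
  intro a
  exact congrArg Subtype.val (congrFun hh a)

variable [Finite A]

theorem card_hom (hab : ∀ x y : A, x * y = y * x) : Nat.card (A →* ℂˣ) = Nat.card A := by
  letI : CommGroup A := { ‹Group A› with mul_comm := hab }
  haveI : NeZero (Monoid.exponent A) := ⟨Monoid.exponent_ne_zero_of_finite⟩
  haveI : HasEnoughRootsOfUnity ℂ (Monoid.exponent A) := inferInstance
  exact CommGroup.card_monoidHom_of_hasEnoughRootsOfUnity A ℂ

theorem exists_hom (hab : ∀ x y : A, x * y = y * x) {z : A} (hz : z ≠ 1) :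
    ∃ ψ : A →* ℂˣ, ψ z ≠ 1 := by
  letI : CommGroup A := { ‹Group A› with mul_comm := hab }
  haveI : NeZero (Monoid.exponent A) := ⟨Monoid.exponent_ne_zero_of_finite⟩
  haveI : HasEnoughRootsOfUnity ℂ (Monoid.exponent A) := inferInstance
  exact CommGroup.exists_apply_ne_one_of_hasEnoughRootsOfUnity A ℂ hz

theorem sum_hom (hab : ∀ x y : A, x * y = y * x) [Fintype (A →* ℂˣ)] [DecidableEq A] (z : A) :
    ∑ ψ : A →* ℂˣ, ((ψ z : ℂˣ) : ℂ) = if z = 1 then (Nat.card A : ℂ) else 0 := by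
  split_ifs with h
  · subst h
    simp only [map_one, Units.val_one, Finset.sum_const, Finset.card_univ, nsmul_eq_mul, mul_one]
    rw [← Nat.card_eq_fintype_card, card_hom hab]
  · obtain ⟨φ, hφ⟩ := exists_hom hab h
    have h1 : ∑ ψ : A →* ℂˣ, ((ψ z : ℂˣ) : ℂ) = (φ z : ℂ) * ∑ ψ : A →* ℂˣ, ((ψ z : ℂˣ) : ℂ) := by
      rw [Finset.mul_sum]
      have := Equiv.sum_comp (Equiv.mulLeft φ) (fun ψ : A →* ℂˣ => ((ψ z : ℂˣ) : ℂ))
      rw [← this]
      refine Finset.sum_congr rfl fun ψ _ => ?_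
      change (((φ * ψ) z : ℂˣ) : ℂ) = _
      rw [MonoidHom.mul_apply, Units.val_mul]
    have h2 : (1 - (φ z : ℂ)) * ∑ ψ : A →* ℂˣ, ((ψ z : ℂˣ) : ℂ) = 0 := by
      rw [sub_mul, one_mul, ← h1, sub_self]
    rcases mul_eq_zero.1 h2 with h3 | h3
    · exfalso
      apply hφ
      apply Units.ext
      rw [Units.val_one]
      exact (sub_eq_zero.1 h3).symm
    · exact h3

theorem conj_hom (ψ : A →* ℂˣ) (x : A) : conj ((ψ x : ℂˣ) : ℂ) = ((ψ x⁻¹ : ℂˣ) : ℂ) :=
  (IsChar.inv_eq_conj (IsIrr.isCharacter (isIrr_of_hom_units ψ)) x).symm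

theorem expand [Fintype A] (hab : ∀ x y : A, x * y = y * x) [Fintype (A →* ℂˣ)]
    (f : A → ℂ) (y : A) : f y = ∑ ψ : A →* ℂˣ, classInner f (fun x => ((ψ x : ℂˣ) : ℂ)) * (ψ y : ℂ) := by
  classical
  simp_rw [classInner, conj_hom, mul_assoc, Finset.sum_mul]
  rw [← Finset.mul_sum, Finset.sum_comm]
  have h1 : ∀ x : A, ∑ ψ : A →* ℂˣ, f x * ((ψ x⁻¹ : ℂˣ) : ℂ) * (ψ y : ℂ) =
      f x * (if x = y then (Nat.card A : ℂ) else 0) := by
    intro x
    have h2 : ∀ ψ : A →* ℂˣ, f x * ((ψ x⁻¹ : ℂˣ) : ℂ) * (ψ y : ℂ) = f x * ((ψ (x⁻¹ * y) : ℂˣ) : ℂ) := by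
      intro ψ
      rw [map_mul, Units.val_mul, mul_assoc]
    simp_rw [h2]
    rw [← Finset.mul_sum, sum_hom hab]
    congr 1
    by_cases h3 : x = y
    · rw [if_pos h3, if_pos (by rw [h3, inv_mul_cancel])]
    · rw [if_neg h3, if_neg (fun h4 => h3 (inv_mul_eq_one.1 h4))]
  simp_rw [h1]
  rw [Finset.sum_eq_single y]
  · rw [if_pos rfl, mul_comm (f y), ← mul_assoc, inv_mul_cancel₀, one_mul]
    exact_mod_cast Nat.card_pos.ne'
  · intro x _ hx
    rw [if_neg hx, mul_zero]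
  · intro h; exact absurd (Finset.mem_univ _) h

theorem ci_hom [Fintype A] [DecidableEq (A →* ℂˣ)] (ψ φ : A →* ℂˣ) :
    classInner (fun x => ((ψ x : ℂˣ) : ℂ)) (fun x => ((φ x : ℂˣ) : ℂ)) = if ψ = φ then 1 else 0 := by
  split_ifs with h
  · rw [h, ci_irr_self (isIrr_of_hom_units φ)]
  · rw [ci_irr_ne (isIrr_of_hom_units ψ) (isIrr_of_hom_units φ)]
    intro h1
    apply h
    apply MonoidHom.ext
    intro x
    exact Units.ext (congrFun h1 x)

end Cfsg.Agent.H26.Ex2
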