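import Mathlib
import Cfsg.Agent.H26_Ex1
import Cfsg.Agent.H26_Ex2
import Cfsg.Agent.H26_B0
import Cfsg.Agent.H26_BP
import Cfsg.Agent.H26_Kernel
import Cfsg.Agent.H10_BlockKer
import Cfsg.Agent.H10_PPart
import Cfsg.Agent.H10_BlockSMT2

/-! The principal block of a group with an abelian Sylow subgroup on which the normalizer induces
a group of order three acting freely. -/

set_option autoImplicit false

namespace Cfsg.Agent.H26.Ex3

open Cfsg Cfsg.Agent.H3.CharIrr Cfsg.Agent.H3.CharComplete Cfsg.Agent.H3.CharInd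
  Cfsg.Agent.H26.Basic Cfsg.Agent.H26.BP Cfsg.Agent.H10.BlockLoc Cfsg.Agent.H10.BlockIdem
  Cfsg.Agent.H10.BlockKer Cfsg.Agent.H10.BlockOrth Cfsg.Agent.H10.BlockSMT2 Cfsg.Agent.H26.Ex1
  Cfsg.Agent.H26.Ex2
open scoped ComplexConjugate

variable {G : Type*} [Group G] [Fintype G] {p : ℕ} [hp : Fact p.Prime] {M : Ideal AlgInt}
  {P : Subgroup G} {a : P →* P}

open Classical in
structure Dat (p : ℕ) (M : Ideal AlgInt) [Fintype (IrrCharacter G)] (P : Subgroup G) (a : P →* P) :
    Prop where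
  hM : IsPModular p M
  pg : IsPGroup p P
  ab : ∀ x y : P, x * y = y * x
  cop : ¬ p ∣ P.index
  a3 : ∀ x, a (a (a x)) = x
  fp : ∀ x, a x = x → x = 1
  cj : ∀ x : P, IsConj (x : G) (a x : P)
  fus : ∀ x y : P, IsConj (x : G) (y : G) → y = x ∨ y = a x ∨ y = a (a x)
  orth : ∀ x : P, x ≠ 1 → ∑ χ : IrrCharacter G, (if χ ∈ principalBlock M G then
    (χ : G → ℂ) x * conj ((χ : G → ℂ) x) else 0) = Nat.card P
  big : 4 < Nat.card P

variable [Fintype (IrrCharacter G)]

theorem Dat.inj (D : Dat p M P a) : Function.Injective a := by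
  intro x y h
  rw [← D.a3 x, h, D.a3]

theorem Dat.ne2 (D : Dat p M P a) {x : P} (hx : a (a x) = x) : x = 1 := by
  have h := D.a3 x
  rw [hx] at h
  exact D.fp x h

/-- the relation -/
def R (a : P →* P) (ψ φ : P →* ℂˣ) : Prop := φ = ψ ∨ φ.comp a = ψ ∨ (φ.comp a).comp a = ψ

theorem Dat.comp3 (D : Dat p M P a) (φ : P →* ℂˣ) : ((φ.comp a).comp a).comp a = φ := by
  ext x
  simp only [MonoidHom.comp_apply]
  rw [D.a3]

theorem Dat.Rsymm (D : Dat p M P a) {ψ φ : P →* ℂˣ} (h : R a ψ φ) : R a φ ψ := by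
  rcases h with h | h | h
  · exact Or.inl h.symm
  · right; right
    rw [← h]; exact D.comp3 φ
  · right; left
    rw [← h]; exact D.comp3 φ

theorem Dat.Rtrans (D : Dat p M P a) {ψ φ η : P →* ℂˣ} (h : R a ψ φ) (h' : R a φ η) : R a ψ η := by
  rcases h with h | h | h <;> rcases h' with h' | h' | h'
  · exact Or.inl (h'.trans h)
  · exact Or.inr (Or.inl (h'.trans h))
  · exact Or.inr (Or.inr (h'.trans h))
  · right; left; rw [h']; exact h
  · right; right; rw [h']; exact h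
  · left; rw [← D.comp3 η, h']; exact h
  · right; right; rw [h']; exact h
  · left; rw [← D.comp3 η, h']; exact h
  · right; left
    rw [← h, ← h', D.comp3 η]

theorem Dat.fix1 (D : Dat p M P a) {φ : P →* ℂˣ} (h : φ.comp a = φ) : φ = 1 := by
  have hinj : Function.Injective (fun x : P => a x * x⁻¹) := by
    intro x y hxy
    change a x * x⁻¹ = a y * y⁻¹ at hxy
    have h1 : a (y⁻¹ * x) = y⁻¹ * x := by
      rw [map_mul, map_inv]
      have h2 : a x = a y * y⁻¹ * x := by rw [← hxy]; group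
      rw [h2]
      have h3 := D.ab (a y)⁻¹ (a y * y⁻¹)
      group
    have h2 := D.fp _ h1
    exact (inv_mul_eq_one.1 h2).symm
  have hsurj := Finite.surjective_of_injective hinj
  ext y
  obtain ⟨x, rfl⟩ := hsurj y
  have h1 : φ (a x) = φ x := by rw [← MonoidHom.comp_apply, h]
  change ((φ (a x * x⁻¹) : ℂˣ) : ℂ) = _
  rw [map_mul, map_inv, h1, mul_inv_cancel]
  rfl

theorem Dat.fix2 (D : Dat p M P a) {φ : P →* ℂˣ} (h : (φ.comp a).comp a = φ) : φ = 1 := by
  apply D.fix1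
  have h1 := D.comp3 φ
  rw [h] at h1
  exact h1

theorem comp_ne_one (D : Dat p M P a) {φ : P →* ℂˣ} (h : φ ≠ 1) : φ.comp a ≠ 1 := by
  intro h1
  apply h
  rw [← D.comp3 φ, h1]
  rfl

theorem exists_nn (P : Subgroup G) (χ : IrrCharacter G) (ψ : P →* ℂˣ) :
    ∃ n : ℕ, ∀ _ : Fintype P,
      classInner (fun x : P => (χ : G → ℂ) x) (fun x => ((ψ x : ℂˣ) : ℂ)) = n := by
  haveI inst : Fintype P := Fintype.ofFinite P
  obtain ⟨n, hn⟩ := ci_char_nat (IsChar.res (IsIrr.isCharacter χ.2) P)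
    (IsIrr.isCharacter (isIrr_of_hom_units ψ))
  refine ⟨n, fun i => ?_⟩
  have e : i = inst := Subsingleton.elim _ _
  rw [e]
  exact hn

/-- multiplicities -/
noncomputable def nn (P : Subgroup G) (χ : IrrCharacter G) (ψ : P →* ℂˣ) : ℕ :=
  (exists_nn P χ ψ).choose

theorem nn_spec [Fintype P] (χ : IrrCharacter G) (ψ : P →* ℂˣ) :
    classInner (fun x : P => (χ : G → ℂ) x) (fun x => ((ψ x : ℂˣ) : ℂ)) = nn P χ ψ :=
  (exists_nn P χ ψ).choose_spec _

/-- the contributions -/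
noncomputable def v (P : Subgroup G) (χ : IrrCharacter G) (ψ : P →* ℂˣ) : ℤ :=
  (nn P χ 1 : ℤ) - nn P χ ψ

theorem v_eq [Fintype P] (χ : IrrCharacter G) (ψ : P →* ℂˣ) :
    (v P χ ψ : ℂ) = (Nat.card P : ℂ)⁻¹ * ∑ y : P, (χ : G → ℂ) y * conj (1 - ((ψ y : ℂˣ) : ℂ)) := by
  rw [v]
  push_cast
  rw [← nn_spec χ 1, ← nn_spec χ ψ, classInner, classInner, ← mul_sub, ← Finset.sum_sub_distrib]
  congr 1
  refine Finset.sum_congr rfl fun y _ => ?_
  rw [map_sub, map_one, MonoidHom.one_apply, Units.val_one, map_one]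
  ring

theorem v_eq' [Fintype P] (χ : IrrCharacter G) (ψ : P →* ℂˣ) :
    (v P χ ψ : ℂ) = (Nat.card P : ℂ)⁻¹ * ∑ y : P, conj ((χ : G → ℂ) y) * (1 - ((ψ y : ℂˣ) : ℂ)) := by
  have h := congrArg conj (v_eq χ ψ)
  rw [map_intCast] at h
  rw [h, map_mul, map_inv₀, map_natCast, map_sum]
  congr 1
  refine Finset.sum_congr rfl fun y _ => ?_
  rw [map_mul, Complex.conj_conj]

theorem v_one (χ : IrrCharacter G) : v P χ 1 = 0 := sub_self _

theorem pel (D : Dat p M P a) (y : P) : ∃ k : ℕ, orderOf (y : G) = p ^ k := by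
  obtain ⟨k, hk⟩ := (IsPGroup.iff_orderOf.1 D.pg) y
  exact ⟨k, by rw [← hk, Subgroup.orderOf_coe]⟩

theorem psing (D : Dat p M P a) {y : P} (hy : y ≠ 1) : p ∣ orderOf (y : G) := by
  obtain ⟨k, hk⟩ := pel D y
  rw [hk]
  apply dvd_pow_self
  rintro rfl
  rw [pow_zero, orderOf_eq_one_iff] at hk
  exact hy (Subtype.ext hk)

open Classical in
theorem orth_gen (D : Dat p M P a) {x : P} (hx : x ≠ 1) (y : P) :
    ∑ χ : IrrCharacter G, (if χ ∈ principalBlock M G then
      (χ : G → ℂ) x * conj ((χ : G → ℂ) y) else 0) =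
      (if y = x then (Nat.card P : ℂ) else 0) + (if y = a x then (Nat.card P : ℂ) else 0) +
        (if y = a (a x) then (Nat.card P : ℂ) else 0) := by
  haveI := D.hM.2.1
  have hd1 : a x ≠ x := fun h => hx (D.fp x h)
  have hd2 : a (a x) ≠ x := fun h => hx (D.ne2 h)
  have hd3 : a (a x) ≠ a x := fun h => hd1 (D.inj h)
  have main : ∀ y : P, IsConj (x : G) (y : G) → ∑ χ : IrrCharacter G,
      (if χ ∈ principalBlock M G then (χ : G → ℂ) x * conj ((χ : G → ℂ) y) else 0) =
        Nat.card P := by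
    intro y h
    rw [← D.orth x hx]
    refine Finset.sum_congr rfl fun χ _ => ?_
    rw [IsClass.eq_of_isConj (IsIrr.isClass χ.2) h]
  by_cases h1 : y = x
  · rw [if_pos h1, if_neg (by rw [h1]; exact hd1.symm), if_neg (by rw [h1]; exact hd2.symm),
      main y (by rw [h1])]
    ring
  · by_cases h2 : y = a x
    · rw [if_neg h1, if_pos h2, if_neg (by rw [h2]; exact hd3.symm),
        main y (by rw [h2]; exact D.cj x)]
      ring
    · by_cases h3 : y = a (a x)
      · rw [if_neg h1, if_neg h2, if_pos h3,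
          main y (by rw [h3]; exact (D.cj x).trans (D.cj (a x)))]
        ring
      · rw [if_neg h1, if_neg h2, if_neg h3]
        have h4 := block_orth D.hM (isPPart_self hp.out (pel D x)) (isPPart_self hp.out (pel D y))
          (fun h => by
            rcases D.fus x y h with h | h | h
            · exact h1 h
            · exact h2 h
            · exact h3 h) (B := principalBlock M G) principal_isPBlock
        rw [add_zero, add_zero]
        refine Eq.trans (Finset.sum_congr rfl fun χ _ => ?_) h4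
        rw [inv_eq]

open Classical in
/-- relations -/
theorem rel_gen [Fintype P] (F : IrrCharacter G → ℂ)
    (hF : ∀ y : P, y ≠ 1 → ∑ χ : IrrCharacter G, (if χ ∈ principalBlock M G then
      (χ : G → ℂ) y * F χ else 0) = 0) (ψ : P →* ℂˣ) :
    ∑ χ : IrrCharacter G, (if χ ∈ principalBlock M G then (v P χ ψ : ℂ) * F χ else 0) = 0 := by
  have h1 : ∀ χ : IrrCharacter G, (if χ ∈ principalBlock M G then (v P χ ψ : ℂ) * F χ else 0) =
      ∑ y : P, ((Nat.card P : ℂ)⁻¹ * conj (1 - ((ψ y : ℂˣ) : ℂ))) *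
        (if χ ∈ principalBlock M G then (χ : G → ℂ) y * F χ else 0) := by
    intro χ
    split_ifs
    · rw [v_eq, Finset.mul_sum, Finset.sum_mul]
      refine Finset.sum_congr rfl fun y _ => by ring
    · simp
  simp_rw [h1]
  rw [Finset.sum_comm]
  apply Finset.sum_eq_zero
  intro y _
  rw [← Finset.mul_sum]
  by_cases hy : y = 1
  · subst hy
    rw [map_one, Units.val_one, sub_self, map_zero, mul_zero, zero_mul]
  · rw [hF y hy, mul_zero]

open Classical in
theorem gram (D : Dat p M P a) {ψ φ : P →* ℂˣ} (hψ : ψ ≠ 1) (hφ : φ ≠ 1) :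
    ∑ χ : IrrCharacter G, (if χ ∈ principalBlock M G then v P χ ψ * v P χ φ else 0) =
      3 + if R a ψ φ then 1 else 0 := by
  haveI : Fintype P := Fintype.ofFinite P
  have key : (∑ χ : IrrCharacter G, (if χ ∈ principalBlock M G then (v P χ ψ : ℂ) * (v P χ φ : ℂ)
      else 0)) = 3 + if R a ψ φ then 1 else 0 := by
    have h1 : ∀ χ : IrrCharacter G, (if χ ∈ principalBlock M G then (v P χ ψ : ℂ) * (v P χ φ : ℂ)
        else 0) = ∑ x : P, ∑ y : P, ((Nat.card P : ℂ)⁻¹ ^ 2 * conj (1 - ((ψ x : ℂˣ) : ℂ)) *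
          (1 - ((φ y : ℂˣ) : ℂ))) * (if χ ∈ principalBlock M G then
            (χ : G → ℂ) x * conj ((χ : G → ℂ) y) else 0) := by
      intro χ
      split_ifs
      · rw [v_eq, v_eq', Finset.mul_sum, Finset.mul_sum, Finset.sum_mul_sum]
        refine Finset.sum_congr rfl fun x _ => Finset.sum_congr rfl fun y _ => by ring
      · simp
    simp_rw [h1]
    rw [Finset.sum_comm]
    simp_rw [Finset.sum_comm (s := (Finset.univ : Finset (IrrCharacter G)))]
    simp_rw [← Finset.mul_sum]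
    have hcP : (Nat.card P : ℂ) ≠ 0 := by exact_mod_cast Nat.card_pos.ne'
    have h2 : ∀ x : P, ∑ y : P, ((Nat.card P : ℂ)⁻¹ ^ 2 * conj (1 - ((ψ x : ℂˣ) : ℂ)) *
          (1 - ((φ y : ℂˣ) : ℂ))) * ∑ χ : IrrCharacter G, (if χ ∈ principalBlock M G then
            (χ : G → ℂ) x * conj ((χ : G → ℂ) y) else 0) =
        (Nat.card P : ℂ)⁻¹ * ((1 - ((φ x : ℂˣ) : ℂ)) * conj (1 - ((ψ x : ℂˣ) : ℂ))) +
        (Nat.card P : ℂ)⁻¹ * ((1 - (((φ.comp a) x : ℂˣ) : ℂ)) * conj (1 - ((ψ x : ℂˣ) : ℂ))) +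
        (Nat.card P : ℂ)⁻¹ * ((1 - ((((φ.comp a).comp a) x : ℂˣ) : ℂ)) *
          conj (1 - ((ψ x : ℂˣ) : ℂ))) := by
      intro x
      by_cases hx : x = 1
      · subst hx
        simp only [map_one, Units.val_one, sub_self, map_zero, mul_zero, zero_mul,
          Finset.sum_const_zero, add_zero]
      · simp_rw [orth_gen D hx, mul_add, mul_ite, mul_zero]
        rw [Finset.sum_add_distrib, Finset.sum_add_distrib, Finset.sum_ite_eq',
          Finset.sum_ite_eq', Finset.sum_ite_eq']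
        simp only [Finset.mem_univ, if_true, MonoidHom.comp_apply]
        field_simp
    simp_rw [h2]
    rw [Finset.sum_add_distrib, Finset.sum_add_distrib, ← Finset.mul_sum, ← Finset.mul_sum,
      ← Finset.mul_sum]
    have h3 : ∀ η : P →* ℂˣ, η ≠ 1 → (Nat.card P : ℂ)⁻¹ * ∑ x : P, (1 - ((η x : ℂˣ) : ℂ)) *
        conj (1 - ((ψ x : ℂˣ) : ℂ)) = 1 + if η = ψ then 1 else 0 := by
      intro η hη
      have e1 : ∀ x : P, (1 - ((η x : ℂˣ) : ℂ)) * conj (1 - ((ψ x : ℂˣ) : ℂ)) =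
          (((1 : P →* ℂˣ) x : ℂˣ) : ℂ) * conj (((1 : P →* ℂˣ) x : ℂˣ) : ℂ) -
          (((1 : P →* ℂˣ) x : ℂˣ) : ℂ) * conj ((ψ x : ℂˣ) : ℂ) -
          ((η x : ℂˣ) : ℂ) * conj (((1 : P →* ℂˣ) x : ℂˣ) : ℂ) +
          ((η x : ℂˣ) : ℂ) * conj ((ψ x : ℂˣ) : ℂ) := by
        intro x
        rw [MonoidHom.one_apply, Units.val_one, map_one, map_sub, map_one]; ring
      simp_rw [e1]
      rw [Finset.sum_add_distrib, Finset.sum_sub_distrib, Finset.sum_sub_distrib, mul_add, mul_sub,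
        mul_sub]
      have c1 := ci_hom (A := P) 1 1
      have c2 := ci_hom (A := P) 1 ψ
      have c3 := ci_hom (A := P) η 1
      have c4 := ci_hom (A := P) η ψ
      rw [classInner] at c1 c2 c3 c4
      rw [c1, c2, c3, c4, if_pos rfl, if_neg hψ.symm, if_neg hη]
      ring
    rw [h3 _ hφ, h3 _ (comp_ne_one D hφ), h3 _ (comp_ne_one D (comp_ne_one D hφ))]
    have n1 : φ.comp a ≠ φ := fun h => hφ (D.fix1 h)
    have n2 : (φ.comp a).comp a ≠ φ := fun h => hφ (D.fix2 h)
    have n3 : (φ.comp a).comp a ≠ φ.comp a := fun h => (comp_ne_one D hφ) (D.fix1 h)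
    by_cases h4 : φ = ψ
    · have hR : R a ψ φ := Or.inl h4
      rw [if_pos h4, if_pos hR, if_neg (by rw [← h4]; exact n1), if_neg (by rw [← h4]; exact n2)]
      ring
    · by_cases h5 : φ.comp a = ψ
      · have hR : R a ψ φ := Or.inr (Or.inl h5)
        rw [if_neg h4, if_pos h5, if_pos hR, if_neg (by rw [← h5]; exact n3)]
        ring
      · by_cases h6 : (φ.comp a).comp a = ψ
        · have hR : R a ψ φ := Or.inr (Or.inr h6)
          rw [if_neg h4, if_neg h5, if_pos h6, if_pos hR]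
          ring
        · have hR : ¬ R a ψ φ := by
            rintro (h | h | h)
            · exact h4 h
            · exact h5 h
            · exact h6 h
          rw [if_neg h4, if_neg h5, if_neg h6, if_neg hR]
          ring
  have h7 : ((∑ χ : IrrCharacter G, (if χ ∈ principalBlock M G then v P χ ψ * v P χ φ else 0) : ℤ) : ℂ)
      = ((3 + if R a ψ φ then 1 else 0 : ℤ) : ℂ) := by
    push_cast
    rw [← key]
  exact_mod_cast h7

end Cfsg.Agent.H26.Ex3
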