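import Mathlib
import Cfsg.Agent.H26_Ex3

/-! The exceptional characters in the principal block. -/

set_option autoImplicit false

namespace Cfsg.Agent.H26.Ex3

open Cfsg Cfsg.Agent.H3.CharIrr Cfsg.Agent.H3.CharComplete Cfsg.Agent.H3.CharInd
  Cfsg.Agent.H26.Basic Cfsg.Agent.H26.BP Cfsg.Agent.H10.BlockLoc Cfsg.Agent.H10.BlockIdem
  Cfsg.Agent.H10.BlockKer Cfsg.Agent.H10.BlockOrth Cfsg.Agent.H10.BlockSMT2 Cfsg.Agent.H26.Ex1
  Cfsg.Agent.H26.Ex2
open scoped ComplexConjugate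

variable {G : Type*} [Group G] [Fintype G] {p : ℕ} [hp : Fact p.Prime] {M : Ideal AlgInt}
  {P : Subgroup G} {a : P →* P} [Fintype (IrrCharacter G)]

open Classical in
noncomputable def cls (a : P →* P) (ψ : P →* ℂˣ) : Finset (P →* ℂˣ) :=
  {ψ, ψ.comp a, (ψ.comp a).comp a}

theorem mem_cls (D : Dat p M P a) {ψ φ : P →* ℂˣ} : φ ∈ cls a ψ ↔ R a ψ φ := by
  classical
  rw [cls, Finset.mem_insert, Finset.mem_insert, Finset.mem_singleton]
  constructor
  · rintro (h | h | h)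
    · exact Or.inl h
    · right; right; rw [h, D.comp3]
    · right; left; rw [h, D.comp3]
  · rintro (h | h | h)
    · exact Or.inl h
    · right; right; rw [← h, D.comp3]
    · right; left; rw [← h, D.comp3]

theorem card_cls (D : Dat p M P a) {ψ : P →* ℂˣ} (hψ : ψ ≠ 1) : (cls a ψ).card = 3 := by
  classical
  have n1 : ψ.comp a ≠ ψ := fun h => hψ (D.fix1 h)
  have n2 : (ψ.comp a).comp a ≠ ψ := fun h => hψ (D.fix2 h)
  have n3 : (ψ.comp a).comp a ≠ ψ.comp a := fun h => (comp_ne_one D hψ) (D.fix1 h)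
  rw [cls, Finset.card_insert_of_notMem, Finset.card_insert_of_notMem, Finset.card_singleton]
  · rw [Finset.mem_singleton]; exact n3.symm
  · rw [Finset.mem_insert, Finset.mem_singleton]
    rintro (h | h)
    · exact n1 h.symm
    · exact n2 h.symm

theorem cls_ne_one (D : Dat p M P a) {ψ φ : P →* ℂˣ} (hψ : ψ ≠ 1) (h : R a ψ φ) : φ ≠ 1 := by
  rintro rfl
  rcases h with h | h | h
  · exact hψ h.symm
  · exact hψ h.symm
  · exact hψ h.symm

theorem card_erase (D : Dat p M P a) [Fintype (P →* ℂˣ)] [DecidableEq (P →* ℂˣ)] :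
    ((Finset.univ : Finset (P →* ℂˣ)).erase 1).card = Nat.card P - 1 := by
  rw [Finset.card_erase_of_mem (Finset.mem_univ _), Finset.card_univ, ← Nat.card_eq_fintype_card,
    card_hom D.ab]

theorem card_ne_ten (D : Dat p M P a) : Nat.card P ≠ 10 := by
  intro h
  obtain ⟨n, hn⟩ := IsPGroup.iff_card.1 D.pg
  rw [h] at hn
  have h2 : 2 ∣ p := Nat.prime_two.dvd_of_dvd_pow (n := n) (by rw [← hn]; norm_num)
  have h5 : 5 ∣ p := Nat.prime_five.dvd_of_dvd_pow (n := n) (by rw [← hn]; norm_num)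
  have e2 := (Nat.prime_dvd_prime_iff_eq Nat.prime_two hp.out).1 h2
  have e5 := (Nat.prime_dvd_prime_iff_eq Nat.prime_five hp.out).1 h5
  omega

open Classical in
theorem sum_split (D : Dat p M P a) {N : Type*} [AddCommGroup N] (f : IrrCharacter G → N) :
    ∑ χ : IrrCharacter G, (if χ ∈ principalBlock M G then f χ else 0) =
      f (triv G) + ∑ i : {χ : IrrCharacter G // χ ∈ principalBlock M G ∧ χ ≠ triv G}, f i.1 := by
  haveI := D.hM.2.1
  have ht : (triv G : IrrCharacter G) ∈ principalBlock M G := triv_mem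
  rw [← Finset.sum_filter, ← Finset.add_sum_erase _ _ (show triv G ∈ Finset.univ.filter
    (fun χ : IrrCharacter G => χ ∈ principalBlock M G) by simp [ht])]
  congr 1
  rw [← Finset.sum_subtype_of_mem f (p := fun χ : IrrCharacter G => χ ∈ principalBlock M G ∧ χ ≠ triv G)]
  · refine Finset.sum_congr ?_ fun _ _ => rfl
    ext ⟨i, hi⟩
    simp [hi.1, hi.2]
  · intro x hx
    rw [Finset.mem_erase, Finset.mem_filter] at hx
    exact ⟨hx.2.2, hx.1⟩

theorem v_triv {ψ : P →* ℂˣ} (hψ : ψ ≠ 1) : v P (triv G) ψ = 1 := by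
  classical
  haveI : Fintype P := Fintype.ofFinite P
  have h0 : (fun x : P => ((triv G : IrrCharacter G) : G → ℂ) x) =
      fun x : P => (((1 : P →* ℂˣ) x : ℂˣ) : ℂ) := by
    funext x
    rw [triv_coe]; rfl
  have h1 := nn_spec (P := P) (triv G) 1
  have h2 := nn_spec (P := P) (triv G) ψ
  rw [h0, ci_hom, if_pos rfl] at h1
  rw [h0, ci_hom, if_neg hψ.symm] at h2
  have h3 : nn P (triv G) 1 = 1 := by exact_mod_cast h1.symm
  have h4 : nn P (triv G) ψ = 0 := by exact_mod_cast h2.symm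
  rw [v, h3, h4]; norm_num

open Classical in
theorem sys (D : Dat p M P a) : Sys
    (fun (k : {ψ : P →* ℂˣ // ψ ≠ 1}) (i : {χ : IrrCharacter G // χ ∈ principalBlock M G ∧
      χ ≠ triv G}) => v P i.1 k.1) (fun k l => R a k.1 l.1)
    (fun i => (charDegree (i.1 : G → ℂ) : ℤ)) := by
  haveI := D.hM.2.1
  haveI : Fintype (P →* ℂˣ) := Fintype.ofFinite _
  have hg : ∀ (k l : {ψ : P →* ℂˣ // ψ ≠ 1}), ∑ i : {χ : IrrCharacter G // χ ∈ principalBlock M G ∧
      χ ≠ triv G}, v P i.1 k.1 * v P i.1 l.1 = 2 + if R a k.1 l.1 then 1 else 0 := by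
    intro k l
    have h := gram D k.2 l.2
    rw [sum_split D (fun χ => v P χ k.1 * v P χ l.1), v_triv k.2, v_triv l.2] at h
    linarith
  have hex : ∀ S : Finset (P →* ℂˣ), S.card < Nat.card P - 1 → ∃ d : P →* ℂˣ, d ≠ 1 ∧ d ∉ S := by
    intro S hS
    rw [← card_erase D] at hS
    obtain ⟨d, hd, hdS⟩ := Finset.exists_mem_notMem_of_card_lt_card hS
    exact ⟨d, (Finset.mem_erase.1 hd).1, hdS⟩
  have hbig := D.big
  refine ⟨fun k => ?_, fun k l h => ?_, fun k l h => ?_, fun k => ?_, fun i => ?_, ?_, ?_⟩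
  · rw [hg, if_pos (show R a k.1 k.1 from Or.inl rfl)]; norm_num
  · rw [hg, if_pos h]; norm_num
  · rw [hg, if_neg h]; norm_num
  · haveI : Fintype P := Fintype.ofFinite P
    have h1 := rel_gen (M := M) (P := P) (fun χ => (χ : G → ℂ) 1) (fun y hy => by
      have := weak_orth' D.hM (B := principalBlock M G) principal_isPBlock (1 : G) (y : G)
        (by rw [orderOf_one]; exact hp.out.one_lt.ne' ∘ Nat.dvd_one.1) (psing D hy)
      exact this) k.1
    have h2 : ((∑ χ : IrrCharacter G, (if χ ∈ principalBlock M G then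
        v P χ k.1 * (charDegree (χ : G → ℂ) : ℤ) else 0) : ℤ) : ℂ) = 0 := by
      rw [← h1]
      push_cast
      refine Finset.sum_congr rfl fun χ _ => ?_
      rw [cd_eq]
    have h3 : (∑ χ : IrrCharacter G, (if χ ∈ principalBlock M G then
        v P χ k.1 * (charDegree (χ : G → ℂ) : ℤ) else 0) : ℤ) = 0 := by exact_mod_cast h2
    rw [sum_split D (fun χ => v P χ k.1 * (charDegree (χ : G → ℂ) : ℤ)), v_triv k.2] at h3
    have h4 : (charDegree ((triv G : IrrCharacter G) : G → ℂ) : ℤ) = 1 := by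
      have := cd_eq (triv G)
      rw [triv_coe] at this
      exact_mod_cast this
    rw [h4] at h3
    linarith
  · exact_mod_cast cd_pos i.1
  · obtain ⟨d, hd, -⟩ := hex ∅ (by rw [Finset.card_empty]; omega)
    obtain ⟨e, he, hed⟩ := hex (cls a d) (by rw [card_cls D hd]; omega)
    exact ⟨⟨d, hd⟩, ⟨e, he⟩, fun h => hed ((mem_cls D).2 h)⟩
  · intro x y z hxy hxz hyz
    have hd : ∀ s t : {ψ : P →* ℂˣ // ψ ≠ 1}, ¬ R a s.1 t.1 → Disjoint (cls a s.1) (cls a t.1) := by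
      intro s t hst
      rw [Finset.disjoint_left]
      intro u h1 h2
      exact hst (D.Rtrans ((mem_cls D).1 h1) (D.Rsymm ((mem_cls D).1 h2)))
    have hc : (cls a x.1 ∪ cls a y.1 ∪ cls a z.1).card = 9 := by
      rw [Finset.card_union_of_disjoint, Finset.card_union_of_disjoint (hd x y hxy),
        card_cls D x.2, card_cls D y.2, card_cls D z.2]
      rw [Finset.disjoint_union_left]
      exact ⟨hd x z hxz, hd y z hyz⟩
    have hsub : cls a x.1 ∪ cls a y.1 ∪ cls a z.1 ⊆ (Finset.univ : Finset (P →* ℂˣ)).erase 1 := by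
      intro u hu
      rw [Finset.mem_union, Finset.mem_union] at hu
      rw [Finset.mem_erase]
      refine ⟨?_, Finset.mem_univ _⟩
      rcases hu with (hu | hu) | hu
      · exact cls_ne_one D x.2 ((mem_cls D).1 hu)
      · exact cls_ne_one D y.2 ((mem_cls D).1 hu)
      · exact cls_ne_one D z.2 ((mem_cls D).1 hu)
    have h1 := Finset.card_le_card hsub
    rw [hc, card_erase D] at h1
    have h10 := card_ne_ten D
    obtain ⟨u, hu, huS⟩ := hex (cls a x.1 ∪ cls a y.1 ∪ cls a z.1) (by rw [hc]; omega)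
    rw [Finset.mem_union, Finset.mem_union] at huS
    push Not at huS
    exact ⟨⟨u, hu⟩, fun h => huS.1.1 ((mem_cls D).2 h), fun h => huS.1.2 ((mem_cls D).2 h),
      fun h => huS.2 ((mem_cls D).2 h)⟩

open Classical in
structure Out (M : Ideal AlgInt) (P : Subgroup G) (a : P →* P) (X2 X3 : IrrCharacter G)
    (a2 a3 δ : ℤ) (z : (P →* ℂˣ) → IrrCharacter G) : Prop where
  m2 : X2 ∈ principalBlock M G ∧ X2 ≠ triv G
  m3 : X3 ∈ principalBlock M G ∧ X3 ≠ triv G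
  ne : X2 ≠ X3
  s2 : a2 = 1 ∨ a2 = -1
  s3 : a3 = 1 ∨ a3 = -1
  sd : δ = 1 ∨ δ = -1
  mz : ∀ ψ, ψ ≠ 1 → z ψ ∈ principalBlock M G ∧ z ψ ≠ triv G ∧ z ψ ≠ X2 ∧ z ψ ≠ X3
  val : ∀ χ ∈ principalBlock M G, ∀ ψ, ψ ≠ 1 → v P χ ψ = (if χ = triv G then 1 else 0) +
    (if χ = X2 then a2 else 0) + (if χ = X3 then a3 else 0) - (if χ = z ψ then δ else 0)
  inj : ∀ ψ φ, ψ ≠ 1 → φ ≠ 1 → (z ψ = z φ ↔ R a ψ φ)

theorem core (D : Dat p M P a) : ∃ (X2 X3 : IrrCharacter G) (a2 a3 δ : ℤ)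
    (z : (P →* ℂˣ) → IrrCharacter G), Out M P a X2 X3 a2 a3 δ z := by
  classical
  obtain ⟨x2, x3, a2, a3, δ, z, h1, h2, h3, h4, h5, h6, h7⟩ := (sys D).main
    (fun k l h => D.Rsymm h)
  refine ⟨x2.1, x3.1, a2, a3, δ, fun ψ => if h : ψ = 1 then triv G else (z ⟨ψ, h⟩).1,
    ⟨x2.2, x3.2, fun h => h1 (Subtype.ext h), h2, h3, h4, ?_, ?_, ?_⟩⟩
  · intro ψ hψ
    rw [dif_neg hψ]
    exact ⟨(z ⟨ψ, hψ⟩).2.1, (z ⟨ψ, hψ⟩).2.2, fun h => (h5 ⟨ψ, hψ⟩).1 (Subtype.ext h),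
      fun h => (h5 ⟨ψ, hψ⟩).2 (Subtype.ext h)⟩
  · intro χ hχ ψ hψ
    rw [dif_neg hψ]
    by_cases ht : χ = triv G
    · rw [ht, v_triv hψ, if_pos rfl, if_neg (fun h => x2.2.2 h.symm), if_neg (fun h => x3.2.2 h.symm),
        if_neg (fun h => (z ⟨ψ, hψ⟩).2.2 h.symm)]
      norm_num
    · have h8 := h6 ⟨ψ, hψ⟩ ⟨χ, hχ, ht⟩
      have e : ∀ i : {χ : IrrCharacter G // χ ∈ principalBlock M G ∧ χ ≠ triv G},
          ((⟨χ, hχ, ht⟩ : {χ : IrrCharacter G // χ ∈ principalBlock M G ∧ χ ≠ triv G}) = i) =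
            (χ = i.1) := fun i => by
        rw [Subtype.ext_iff]
      simp only [e] at h8
      rw [if_neg ht, zero_add]
      exact h8
  · intro ψ φ hψ hφ
    rw [dif_neg hψ, dif_neg hφ]
    rw [← h7 ⟨ψ, hψ⟩ ⟨φ, hφ⟩]
    exact ⟨fun h => Subtype.ext h, fun h => congrArg Subtype.val h⟩

end Cfsg.Agent.H26.Ex3
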