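import Mathlib
import Cfsg.Agent.H26_Ex4

/-! Values, completeness, and relations for the exceptional characters. -/

set_option autoImplicit false

namespace Cfsg.Agent.H26.Ex3

open Cfsg Cfsg.Agent.H3.CharIrr Cfsg.Agent.H3.CharComplete Cfsg.Agent.H3.CharInd
  Cfsg.Agent.H26.Basic Cfsg.Agent.H26.BP Cfsg.Agent.H10.BlockLoc Cfsg.Agent.H10.BlockIdem
  Cfsg.Agent.H10.BlockKer Cfsg.Agent.H10.BlockOrth Cfsg.Agent.H10.BlockSMT2 Cfsg.Agent.H26.Ex1
  Cfsg.Agent.H26.Ex2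
open scoped ComplexConjugate

variable {G : Type*} [Group G] [Fintype G] {p : ℕ} [hp : Fact p.Prime] {M : Ideal AlgInt}
  {P : Subgroup G} {a : P →* P} [Fintype (IrrCharacter G)]

open Classical in
theorem val_formula (D : Dat p M P a) [Fintype (P →* ℂˣ)] (χ : IrrCharacter G) (y : P) :
    (χ : G → ℂ) y = nn P χ 1 * (if y = 1 then (Nat.card P : ℂ) else 0) -
      ∑ ψ : P →* ℂˣ, (v P χ ψ : ℂ) * (ψ y : ℂˣ) := by
  haveI : Fintype P := Fintype.ofFinite P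
  rw [expand D.ab (fun x : P => (χ : G → ℂ) x) y, ← sum_hom D.ab y, Finset.mul_sum,
    ← Finset.sum_sub_distrib]
  refine Finset.sum_congr rfl fun ψ _ => ?_
  rw [nn_spec, v]
  push_cast
  ring

theorem val_ne (D : Dat p M P a) [Fintype (P →* ℂˣ)] (χ : IrrCharacter G) {y : P} (hy : y ≠ 1) :
    (χ : G → ℂ) y = - ∑ ψ : P →* ℂˣ, (v P χ ψ : ℂ) * (ψ y : ℂˣ) := by
  rw [val_formula D, if_neg hy]; ring

theorem sum_v_const (D : Dat p M P a) [Fintype (P →* ℂˣ)] {χ : IrrCharacter G} {b : ℤ}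
    (h : ∀ ψ : P →* ℂˣ, ψ ≠ 1 → v P χ ψ = b) (y : P) :
    ∑ ψ : P →* ℂˣ, (v P χ ψ : ℂ) * (ψ y : ℂˣ) = b * (∑ ψ : P →* ℂˣ, ((ψ y : ℂˣ) : ℂ)) - b := by
  classical
  rw [← Finset.add_sum_erase _ _ (Finset.mem_univ (1 : P →* ℂˣ)), v_one,
    ← Finset.add_sum_erase _ (fun ψ : P →* ℂˣ => ((ψ y : ℂˣ) : ℂ)) (Finset.mem_univ 1), mul_add,
    Finset.mul_sum]
  have : ∑ x ∈ (Finset.univ : Finset (P →* ℂˣ)).erase 1, (v P χ x : ℂ) * (x y : ℂˣ) =
      ∑ x ∈ (Finset.univ : Finset (P →* ℂˣ)).erase 1, (b : ℂ) * (x y : ℂˣ) := by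
    refine Finset.sum_congr rfl fun ψ hψ => ?_
    rw [h ψ (Finset.mem_erase.1 hψ).1]
  rw [this, MonoidHom.one_apply, Units.val_one]
  push_cast
  ring

variable {X2 X3 : IrrCharacter G} {a2 a3 δ : ℤ} {z : (P →* ℂˣ) → IrrCharacter G}

theorem Out.v2 (O : Out M P a X2 X3 a2 a3 δ z) {ψ : P →* ℂˣ} (hψ : ψ ≠ 1) : v P X2 ψ = a2 := by
  rw [O.val X2 O.m2.1 ψ hψ, if_neg O.m2.2, if_pos rfl, if_neg O.ne,
    if_neg (O.mz ψ hψ).2.2.1.symm]
  ring

theorem Out.v3 (O : Out M P a X2 X3 a2 a3 δ z) {ψ : P →* ℂˣ} (hψ : ψ ≠ 1) : v P X3 ψ = a3 := by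
  rw [O.val X3 O.m3.1 ψ hψ, if_neg O.m3.2, if_neg O.ne.symm, if_pos rfl,
    if_neg (O.mz ψ hψ).2.2.2.symm]
  ring

open Classical in
theorem Out.vz (O : Out M P a X2 X3 a2 a3 δ z) {ψ φ : P →* ℂˣ} (hψ : ψ ≠ 1) (hφ : φ ≠ 1) :
    v P (z φ) ψ = if R a φ ψ then -δ else 0 := by
  rw [O.val (z φ) (O.mz φ hφ).1 ψ hψ, if_neg (O.mz φ hφ).2.1, if_neg (O.mz φ hφ).2.2.1,
    if_neg (O.mz φ hφ).2.2.2]
  by_cases h : R a φ ψ
  · rw [if_pos h, if_pos ((O.inj φ ψ hφ hψ).2 h)]; ring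
  · rw [if_neg h, if_neg (fun h' => h ((O.inj φ ψ hφ hψ).1 h'))]; ring

theorem Out.val2 (O : Out M P a X2 X3 a2 a3 δ z) (D : Dat p M P a) {y : P} (hy : y ≠ 1) :
    (X2 : G → ℂ) y = a2 := by
  classical
  haveI : Fintype (P →* ℂˣ) := Fintype.ofFinite _
  rw [val_ne D X2 hy, sum_v_const D (fun ψ h => O.v2 h), sum_hom D.ab, if_neg hy]
  ring

theorem Out.val3 (O : Out M P a X2 X3 a2 a3 δ z) (D : Dat p M P a) {y : P} (hy : y ≠ 1) :
    (X3 : G → ℂ) y = a3 := by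
  classical
  haveI : Fintype (P →* ℂˣ) := Fintype.ofFinite _
  rw [val_ne D X3 hy, sum_v_const D (fun ψ h => O.v3 h), sum_hom D.ab, if_neg hy]
  ring

theorem Out.sum_vz (O : Out M P a X2 X3 a2 a3 δ z) (D : Dat p M P a) [Fintype (P →* ℂˣ)]
    {φ : P →* ℂˣ} (hφ : φ ≠ 1) (y : P) :
    ∑ ψ : P →* ℂˣ, (v P (z φ) ψ : ℂ) * (ψ y : ℂˣ) = - δ * ∑ ψ ∈ cls a φ, ((ψ y : ℂˣ) : ℂ) := by
  classical
  rw [Finset.mul_sum, ← Finset.sum_subset (Finset.subset_univ (cls a φ))]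
  · refine Finset.sum_congr rfl fun ψ hψ => ?_
    have hR := (mem_cls D).1 hψ
    rw [O.vz (cls_ne_one D hφ hR) hφ, if_pos hR]
    push_cast; ring
  · intro ψ _ hψ
    by_cases h1 : ψ = 1
    · rw [h1, v_one]; simp
    · rw [O.vz h1 hφ, if_neg (fun h => hψ ((mem_cls D).2 h))]; simp

theorem Out.valz (O : Out M P a X2 X3 a2 a3 δ z) (D : Dat p M P a) {φ : P →* ℂˣ} (hφ : φ ≠ 1)
    {y : P} (hy : y ≠ 1) : (z φ : G → ℂ) y = δ * ∑ ψ ∈ cls a φ, ((ψ y : ℂˣ) : ℂ) := by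
  classical
  haveI : Fintype (P →* ℂˣ) := Fintype.ofFinite _
  rw [val_ne D (z φ) hy, O.sum_vz D hφ]
  ring

theorem Out.deg2 (O : Out M P a X2 X3 a2 a3 δ z) (D : Dat p M P a) :
    ∃ n : ℤ, (charDegree (X2 : G → ℂ) : ℤ) = Nat.card P * n + a2 := by
  classical
  haveI : Fintype (P →* ℂˣ) := Fintype.ofFinite _
  have h := val_formula D X2 1
  rw [if_pos rfl, sum_v_const D (fun ψ h => O.v2 h), sum_hom D.ab, if_pos rfl,
    Subgroup.coe_one, ← cd_eq] at h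
  refine ⟨nn P X2 1 - a2, ?_⟩
  have h2 : ((charDegree (X2 : G → ℂ) : ℤ) : ℂ) = ((Nat.card P * (nn P X2 1 - a2) + a2 : ℤ) : ℂ) := by
    push_cast
    rw [h]; ring
  exact_mod_cast h2

theorem Out.deg3 (O : Out M P a X2 X3 a2 a3 δ z) (D : Dat p M P a) :
    ∃ n : ℤ, (charDegree (X3 : G → ℂ) : ℤ) = Nat.card P * n + a3 := by
  classical
  haveI : Fintype (P →* ℂˣ) := Fintype.ofFinite _
  have h := val_formula D X3 1
  rw [if_pos rfl, sum_v_const D (fun ψ h => O.v3 h), sum_hom D.ab, if_pos rfl,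
    Subgroup.coe_one, ← cd_eq] at h
  refine ⟨nn P X3 1 - a3, ?_⟩
  have h2 : ((charDegree (X3 : G → ℂ) : ℤ) : ℂ) = ((Nat.card P * (nn P X3 1 - a3) + a3 : ℤ) : ℂ) := by
    push_cast
    rw [h]; ring
  exact_mod_cast h2

theorem Out.degz (O : Out M P a X2 X3 a2 a3 δ z) (D : Dat p M P a) {φ : P →* ℂˣ} (hφ : φ ≠ 1) :
    ∃ n : ℤ, (charDegree (z φ : G → ℂ) : ℤ) = Nat.card P * n + 3 * δ := by
  classical
  haveI : Fintype (P →* ℂˣ) := Fintype.ofFinite _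
  have h := val_formula D (z φ) 1
  rw [if_pos rfl, O.sum_vz D hφ, Subgroup.coe_one, ← cd_eq] at h
  simp only [map_one, Units.val_one, Finset.sum_const, card_cls D hφ, nsmul_eq_mul, mul_one] at h
  refine ⟨nn P (z φ) 1, ?_⟩
  have h2 : ((charDegree (z φ : G → ℂ) : ℤ) : ℂ) = ((Nat.card P * (nn P (z φ) 1) + 3 * δ : ℤ) : ℂ) := by
    push_cast
    rw [h]; push_cast; ring
  exact_mod_cast h2

/-- every character of the principal block is accounted for -/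
theorem Out.complete (O : Out M P a X2 X3 a2 a3 δ z) (D : Dat p M P a) {χ : IrrCharacter G}
    (hχ : χ ∈ principalBlock M G) : χ = triv G ∨ χ = X2 ∨ χ = X3 ∨ ∃ ψ, ψ ≠ 1 ∧ χ = z ψ := by
  classical
  haveI : Fintype (P →* ℂˣ) := Fintype.ofFinite _
  haveI := D.hM.2.1
  by_contra hcon
  push Not at hcon
  obtain ⟨c1, c2, c3, c4⟩ := hcon
  have h0 : ∀ ψ : P →* ℂˣ, v P χ ψ = 0 := by
    intro ψ
    by_cases hψ : ψ = 1
    · rw [hψ, v_one]
    · rw [O.val χ hχ ψ hψ, if_neg c1, if_neg c2, if_neg c3, if_neg (c4 ψ hψ)]; ring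
  have hb := D.big
  haveI : Nontrivial P := by
    rw [← Finite.one_lt_card_iff_nontrivial]; omega
  obtain ⟨y, hy⟩ := exists_ne (1 : P)
  have h1 : (χ : G → ℂ) y = 0 := by
    rw [val_ne D χ hy]
    simp [h0]
  have h2 := (Cfsg.Agent.H26.B0.mem_principal_iff χ).1 hχ (y : G)
  have h3 : centralChar (χ : G → ℂ) (y : G) = 0 := by
    rw [centralChar, h1]; simp
  rw [h3, sub_zero] at h2
  have hPc : P ≤ Subgroup.centralizer ({(y : G)} : Set G) := by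
    intro x hx
    rw [Subgroup.mem_centralizer_singleton_iff]
    exact congrArg Subtype.val (D.ab ⟨x, hx⟩ y)
  have h4 : ¬ p ∣ (Subgroup.centralizer ({(y : G)} : Set G)).index := fun h =>
    D.cop (h.trans (Subgroup.index_dvd_of_le hPc))
  exact h4 ((ideal_natCast_iff D.hM _).1 h2)

open Classical in
theorem Out.relF (O : Out M P a X2 X3 a2 a3 δ z) (D : Dat p M P a) (F : IrrCharacter G → ℂ)
    (hF : ∀ y : P, y ≠ 1 → ∑ χ : IrrCharacter G, (if χ ∈ principalBlock M G then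
      (χ : G → ℂ) y * F χ else 0) = 0) {ψ : P →* ℂˣ} (hψ : ψ ≠ 1) :
    F (triv G) + a2 * F X2 + a3 * F X3 - δ * F (z ψ) = 0 := by
  haveI := D.hM.2.1
  haveI : Fintype P := Fintype.ofFinite P
  have ht : (triv G : IrrCharacter G) ∈ principalBlock M G := triv_mem
  have h := rel_gen (M := M) (P := P) F hF ψ
  have h1 : ∀ χ : IrrCharacter G, (if χ ∈ principalBlock M G then (v P χ ψ : ℂ) * F χ else 0) =
      (if χ = triv G then F (triv G) else 0) + (if χ = X2 then a2 * F X2 else 0) +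
        (if χ = X3 then a3 * F X3 else 0) - (if χ = z ψ then δ * F (z ψ) else 0) := by
    intro χ
    have hmz := O.mz ψ hψ
    by_cases hχ : χ ∈ principalBlock M G
    · rw [if_pos hχ, O.val χ hχ ψ hψ]
      push_cast
      rw [sub_mul, add_mul, add_mul]
      congr 1
      · congr 1
        · congr 1
          · split_ifs with h2
            · rw [h2]; ring
            · ring
          · split_ifs with h2
            · rw [h2]
            · ring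
        · split_ifs with h2
          · rw [h2]
          · ring
      · split_ifs with h2
        · rw [h2]
        · ring
    · rw [if_neg hχ, if_neg (fun h2 => hχ (by rw [h2]; exact ht)),
        if_neg (fun h2 => hχ (by rw [h2]; exact O.m2.1)),
        if_neg (fun h2 => hχ (by rw [h2]; exact O.m3.1)),
        if_neg (fun h2 => hχ (by rw [h2]; exact hmz.1))]
      ring
  simp_rw [h1] at h
  rw [Finset.sum_sub_distrib, Finset.sum_add_distrib, Finset.sum_add_distrib, Finset.sum_ite_eq',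
    Finset.sum_ite_eq', Finset.sum_ite_eq', Finset.sum_ite_eq'] at h
  simpa using h

end Cfsg.Agent.H26.Ex3
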