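import Mathlib
import Cfsg.Agent.H26_BP
import Cfsg.Agent.H10_BlockKer
import Cfsg.Agent.H10_BlockSMT2

/-!
# H26_PBSum: `∑_{χ ∈ B₀(G)} |χ(u)|² = ∑_{ψ ∈ B₀(C(u))} ψ(1)²` for a `p`-element `u`
-/

set_option autoImplicit false

namespace Cfsg.Agent.H26.PBSum

open Cfsg Cfsg.Agent.H3.CharIrr Cfsg.Agent.H3.CharComplete Cfsg.Agent.H3.CharInd
  Cfsg.Agent.H10.BlockAlg Cfsg.Agent.H10.BlockLoc Cfsg.Agent.H10.BlockIdem
  Cfsg.Agent.H10.BlockOrth Cfsg.Agent.H10.BlockSMT Cfsg.Agent.H10.BlockSMT2 Cfsg.Agent.H10.BlockKer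
  Cfsg.Agent.H26.Basic Cfsg.Agent.H26.BP

open scoped ComplexConjugate

variable {G : Type*} [Group G] [Fintype G] {p : ℕ} {M : Ideal AlgInt}

open scoped Classical in
theorem sum_sq_principal (hM : IsPModular p M) [Fintype (IrrCharacter G)] {u : G}
    (hu : ∃ k : ℕ, orderOf u = p ^ k)
    [Fintype (IrrCharacter (Subgroup.centralizer ({u} : Set G)))] :
    ∑ χ : IrrCharacter G, (if χ ∈ principalBlock M G then (χ : G → ℂ) u * conj ((χ : G → ℂ) u) else 0) =
      ∑ ψ : IrrCharacter (Subgroup.centralizer ({u} : Set G)),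
        (if ψ ∈ principalBlock M (Subgroup.centralizer ({u} : Set G)) then
          (ψ : Subgroup.centralizer ({u} : Set G) → ℂ) 1 ^ 2 else 0) := by
  classical
  haveI : Fact p.Prime := ⟨hM.1⟩
  haveI := hM.2.1
  haveI : Fintype (Subgroup.centralizer ({u} : Set G)) := Fintype.ofFinite _
  have hBG : IsPBlock M (principalBlock M G) := principal_isPBlock
  have hBC : IsPBlock M (principalBlock M (Subgroup.centralizer ({u} : Set G))) := principal_isPBlock
  set f : G → ℂ := ∑ χ : IrrCharacter G, (conj ((χ : G → ℂ) u)) • (χ : G → ℂ) with hf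
  have hfc : IsClassFunction G f := isClass_sum _ _ fun χ _ => isClass_smul _ _ (IsIrr.isClass χ.2)
  have hfv : ∀ g : G, f g = if IsConj g u then (Nat.card (Subgroup.centralizer ({g} : Set G)) : ℂ) else 0 := by
    intro g
    rw [← orth2 g u, hf, Finset.sum_apply]
    refine Finset.sum_congr rfl fun χ _ => ?_
    rw [Pi.smul_apply, smul_eq_mul, mul_comm]
  have h1 := principal_section hM (isPPart_self hM.1 hu) hfc
  -- left side
  have hL : lin f (((eB (principalBlock M G) : ZC G) : MonoidAlgebra ℂ G) * MonoidAlgebra.single u (1:ℂ)) =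
      ∑ χ : IrrCharacter G, (if χ ∈ principalBlock M G then (χ : G → ℂ) u * conj ((χ : G → ℂ) u) else 0) := by
    rw [← blockPart_eq_lin _ hfc, blockPart_eq_sum]
    refine Finset.sum_congr rfl fun χ _ => ?_
    rw [hf, ci_sum_irr, mul_comm]
  rw [← hL, h1, lin_emb_mul_single, Finset.sum_eq_single (1 : Subgroup.centralizer ({u} : Set G))]
  · rw [eB_coeff, blockCoeff_eq_sum, Subgroup.coe_one, one_mul, hfv, if_pos (IsConj.refl u)]
    have : (Nat.card (Subgroup.centralizer ({u} : Set G)) : ℂ) ≠ 0 := card_cast_ne_zero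
    rw [mul_comm, ← mul_assoc, mul_inv_cancel₀ this, one_mul]
    refine Finset.sum_congr rfl fun ψ _ => ?_
    split_ifs
    · rw [← cd_eq, map_natCast]; ring
    · rfl
  · intro k _ hk
    rw [eB_coeff]
    by_cases hreg : p ∣ orderOf k
    · rw [blockCoeff_eq_zero hM hBC k hreg, zero_mul]
    · rw [hfv, if_neg, mul_zero]
      intro hcj
      apply hk
      -- `u` is the `p`-part of `k * u`, of order `orderOf k * orderOf u`
      have hcom : Commute (u : G) (k : G) := (Subgroup.mem_centralizer_iff.1 k.2 u (Set.mem_singleton u))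
      obtain ⟨n, hn⟩ := hu
      have hk' : orderOf (k : G) = orderOf k := Subgroup.orderOf_coe k
      have hcop : (orderOf (k : G)).Coprime (orderOf u) := by
        rw [hk', hn]
        apply Nat.Coprime.pow_right
        rw [Nat.coprime_comm]
        exact (Nat.Prime.coprime_iff_not_dvd hM.1).2 hreg
      have h2 := hcom.symm.orderOf_mul_eq_mul_orderOf_of_coprime hcop
      have h3 : orderOf ((k : G) * u) = orderOf u := by
        obtain ⟨c, hc⟩ := isConj_iff.1 hcj
        have h5 := Cfsg.Agent.H10.PPart.orderOf_conj c ((k : G) * u)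
        rw [hc] at h5
        exact h5.symm
      rw [h3] at h2
      have h4 : orderOf (k : G) = 1 := by
        have := orderOf_pos u
        exact Nat.eq_of_mul_eq_mul_right this (by rw [one_mul]; exact h2.symm)
      exact Subtype.ext (orderOf_eq_one_iff.1 h4)
  · intro h; exact absurd (Finset.mem_univ _) h

end Cfsg.Agent.H26.PBSum
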