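import Mathlib
import Cfsg.Agent.H26_Ex5
import Cfsg.Agent.H26_PBSum
import Cfsg.Agent.H10_BlockMax

/-! Local structure: setup of the data. -/

set_option autoImplicit false

namespace Cfsg.Agent.H26.Ex3

open Cfsg Cfsg.Agent.H3.CharIrr Cfsg.Agent.H3.CharComplete Cfsg.Agent.H3.CharInd
  Cfsg.Agent.H26.Basic Cfsg.Agent.H26.BP Cfsg.Agent.H10.BlockLoc Cfsg.Agent.H10.BlockIdem
  Cfsg.Agent.H10.BlockKer Cfsg.Agent.H10.BlockOrth Cfsg.Agent.H10.BlockSMT2 Cfsg.Agent.H26.Ex1
  Cfsg.Agent.H26.Ex2 Cfsg.Agent.H10.BlockAlg Cfsg.Agent.H10.BlockNormal Cfsg.Agent.H26.PBSum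
open scoped ComplexConjugate

variable {G : Type*} [Group G] [Fintype G] {p : ℕ} [hp : Fact p.Prime] {M : Ideal AlgInt}

open Classical in
theorem sum_sq_nilp (hM : IsPModular p M) [Fintype (IrrCharacter G)] (L Q : Subgroup G)
    [hLn : L.Normal] (hL : ¬ p ∣ Nat.card L) (hc : Subgroup.IsComplement' L Q) (hQ : IsPGroup p Q) :
    ∑ ψ : IrrCharacter G, (if ψ ∈ principalBlock M G then (ψ : G → ℂ) 1 ^ 2 else 0) =
      Nat.card Q := by
  haveI := hM.2.1
  have hidx : L.index = Nat.card Q := hc.symm.index_eq_card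
  have hk : ∃ k : ℕ, L.index = p ^ k := by
    rw [hidx]; exact IsPGroup.iff_card.1 hQ
  have hiff : ∀ ψ : IrrCharacter G, ψ ∈ principalBlock M G ↔
      ∀ u ∈ L, (ψ : G → ℂ) u = (ψ : G → ℂ) 1 := fun ψ =>
    ⟨fun h => principal_ker hM L hL h, fun h => principal_of_complement hM L hL hk h⟩
  have hL0 : (Nat.card L : ℂ) ≠ 0 := by exact_mod_cast Nat.card_pos.ne'
  have h1 : ∀ ψ : IrrCharacter G, (if ψ ∈ principalBlock M G then (ψ : G → ℂ) 1 ^ 2 else 0) =
      ∑ u : G, (Nat.card L : ℂ)⁻¹ * ((if u ∈ L then 1 else 0) *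
        ((ψ : G → ℂ) 1 * (ψ : G → ℂ) u)) := by
    intro ψ
    have h2 := om_normalSum ψ L
    rw [om_apply, lin_apply] at h2
    simp only [normalSum_coeff] at h2
    have h3 : ∑ u : G, (if u ∈ L then (1 : ℂ) else 0) * (ψ : G → ℂ) u =
        (if (∀ u ∈ L, (ψ : G → ℂ) u = (ψ : G → ℂ) 1) then (Nat.card L : ℂ) else 0) *
          (ψ : G → ℂ) 1 := by
      rw [← h2, div_mul_cancel₀ _ (one_ne ψ)]
    have h4 : ∑ u : G, (Nat.card L : ℂ)⁻¹ * ((if u ∈ L then 1 else 0) *
        ((ψ : G → ℂ) 1 * (ψ : G → ℂ) u)) = (Nat.card L : ℂ)⁻¹ * ((ψ : G → ℂ) 1 *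
          ∑ u : G, (if u ∈ L then (1 : ℂ) else 0) * (ψ : G → ℂ) u) := by
      rw [Finset.mul_sum, Finset.mul_sum]
      exact Finset.sum_congr rfl fun u _ => by ring
    rw [h4, h3]
    by_cases hψ : ψ ∈ principalBlock M G
    · rw [if_pos hψ, if_pos ((hiff ψ).1 hψ)]
      field_simp
    · rw [if_neg hψ, if_neg (fun h => hψ ((hiff ψ).2 h))]
      ring
  simp_rw [h1]
  rw [Finset.sum_comm]
  simp_rw [← Finset.mul_sum]
  simp_rw [sum_one_mul]
  rw [Finset.sum_eq_single 1, if_pos L.one_mem, if_pos rfl]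
  · rw [← hidx, ← Subgroup.card_mul_index L]
    push_cast
    field_simp
  · intro u _ hu
    rw [if_neg hu, mul_zero]
  · intro h; exact absurd (Finset.mem_univ _) h

/-- conjugation by a normalizing element -/
def cjP (P : Subgroup G) (g : G) (hg : ∀ x ∈ P, g * x * g⁻¹ ∈ P) : P →* P where
  toFun x := ⟨g * x * g⁻¹, hg x x.2⟩
  map_one' := Subtype.ext (by simp)
  map_mul' x y := Subtype.ext (by simp)

theorem loc (P : Sylow p G) {y : G} (hy : y ∈ (P : Subgroup G))
    (hab : ∀ x ∈ (P : Subgroup G), ∀ z ∈ (P : Subgroup G), x * z = z * x)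
    (hfrob : Subgroup.centralizer ({y} : Set G) ⊓ Subgroup.normalizer ((P : Subgroup G) : Set G) =
      Subgroup.centralizer ((P : Subgroup G) : Set G)) :
    ∃ L : Subgroup (Subgroup.centralizer ({y} : Set G)), L.Normal ∧ ¬ p ∣ Nat.card L ∧
      Subgroup.IsComplement' L ((P : Subgroup G).subgroupOf (Subgroup.centralizer ({y} : Set G))) ∧
      ∀ g, g ∈ L ↔ ¬ p ∣ orderOf g := by
  set C : Subgroup G := Subgroup.centralizer ({y} : Set G) with hC
  have hPC : (P : Subgroup G) ≤ C := by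
    intro x hx
    rw [hC, Subgroup.mem_centralizer_singleton_iff]
    exact hab x hx y hy
  have hQ : IsPGroup p ((P : Subgroup G).subgroupOf C) :=
    P.2.comap_of_injective _ Subtype.val_injective
  have hQi : ¬ p ∣ ((P : Subgroup G).subgroupOf C).index := by
    intro h
    have h1 : (P : Subgroup G).relIndex C ∣ (P : Subgroup G).index :=
      Subgroup.relIndex_dvd_index_of_le hPC
    exact P.not_dvd_index (h.trans h1)
  let Q : Sylow p C := hQ.toSylow hQi
  have hQc : ((Q : Sylow p C) : Subgroup C) = (P : Subgroup G).subgroupOf C := rfl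
  rw [← hQc]
  apply Cfsg.Agent.H10.BlockMax.burnside_reg Q
  intro c hc
  rw [hQc] at hc ⊢
  have h1 : (c : G) ∈ C ⊓ Subgroup.normalizer ((P : Subgroup G) : Set G) := by
    refine Subgroup.mem_inf.2 ⟨c.2, ?_⟩
    rw [Subgroup.mem_normalizer_iff] at hc ⊢
    intro x
    constructor
    · intro hx
      have h2 := (hc ⟨x, hPC hx⟩).1 (by rw [Subgroup.mem_subgroupOf]; exact hx)
      rw [Subgroup.mem_subgroupOf] at h2
      exact h2
    · intro hx
      have hxC : x ∈ C := by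
        have h3 := C.mul_mem (C.mul_mem (C.inv_mem c.2) (hPC hx)) c.2
        have e : (c : G)⁻¹ * (c * x * (c : G)⁻¹) * c = x := by group
        rwa [e] at h3
      have h2 := (hc ⟨x, hxC⟩).2 (by rw [Subgroup.mem_subgroupOf]; exact hx)
      rw [Subgroup.mem_subgroupOf] at h2
      exact h2
  rw [hfrob] at h1
  rw [Subgroup.mem_centralizer_iff]
  intro x hx
  rw [SetLike.mem_coe, Subgroup.mem_subgroupOf] at hx
  exact Subtype.ext ((Subgroup.mem_centralizer_iff.1 h1) x hx)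

theorem setup (hM : IsPModular p M) [Fintype (IrrCharacter G)] (P : Sylow p G)
    (hab : ∀ x ∈ (P : Subgroup G), ∀ z ∈ (P : Subgroup G), x * z = z * x)
    (hCN : (Subgroup.centralizer ((P : Subgroup G) : Set G)).relIndex
      (Subgroup.normalizer ((P : Subgroup G) : Set G)) = 3)
    (hm2 : 3 + 1 < Nat.card P)
    (hfrob : ∀ y : G, y ∈ (P : Subgroup G) → y ≠ 1 → Subgroup.centralizer ({y} : Set G) ⊓
      Subgroup.normalizer ((P : Subgroup G) : Set G) =
        Subgroup.centralizer ((P : Subgroup G) : Set G)) :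
    ∃ a : (P : Subgroup G) →* (P : Subgroup G), Dat p M (P : Subgroup G) a ∧
      (∀ n ∈ Subgroup.normalizer ((P : Subgroup G) : Set G),
        (∀ x : (P : Subgroup G), n * x * n⁻¹ = x) ∨ (∀ x : (P : Subgroup G), n * x * n⁻¹ = a x) ∨
        (∀ x : (P : Subgroup G), n * x * n⁻¹ = a (a x))) ∧
      (∃ g ∈ Subgroup.normalizer ((P : Subgroup G) : Set G),
        ∀ x : (P : Subgroup G), g * x * g⁻¹ = a x) ∧
      (∀ y : (P : Subgroup G), y ≠ 1 → ∀ z : G, IsPPart p z (y : G) →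
        ∀ χ : IrrCharacter G, χ ∈ principalBlock M G → (χ : G → ℂ) z = (χ : G → ℂ) y) := by
  classical
  set N : Subgroup G := Subgroup.normalizer ((P : Subgroup G) : Set G) with hN
  set C : Subgroup G := Subgroup.centralizer ((P : Subgroup G) : Set G) with hC
  have hCN' : C ≤ N := Subgroup.centralizer_le_normalizer _
  -- pick g
  obtain ⟨g, hgN, hgC⟩ : ∃ g ∈ N, g ∉ C := by
    by_contra h
    push Not at h
    have : C.relIndex N = 1 := Subgroup.relIndex_eq_one.2 h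
    omega
  haveI hCn : (C.subgroupOf N).Normal := by
    refine ⟨fun c hc n => ?_⟩
    rw [Subgroup.mem_subgroupOf] at hc ⊢
    rw [hC, Subgroup.mem_centralizer_iff] at hc ⊢
    intro x hx
    have h1 : (n : G)⁻¹ * x * n ∈ (P : Subgroup G) := by
      have := (Subgroup.mem_normalizer_iff.1 (N.inv_mem n.2) x).1 hx
      rwa [inv_inv] at this
    have h2 := hc _ h1
    calc x * ((n * c * n⁻¹ : N) : G) = n * ((n : G)⁻¹ * x * n * c) * (n : G)⁻¹ := by
          push_cast; group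
      _ = n * (c * ((n : G)⁻¹ * x * n)) * (n : G)⁻¹ := by rw [h2]
      _ = ((n * c * n⁻¹ : N) : G) * x := by push_cast; group
  have hcard : Nat.card (N ⧸ C.subgroupOf N) = 3 := hCN
  obtain ⟨q, hq⟩ : ∃ q : N →* N ⧸ C.subgroupOf N, ∀ n : N, (n : G) ∈ C ↔ q n = 1 :=
    ⟨QuotientGroup.mk' _, fun n => by
      rw [← Subgroup.mem_subgroupOf]; exact (QuotientGroup.eq_one_iff n).symm⟩
  have hqg : q ⟨g, hgN⟩ ≠ 1 := fun h => hgC ((hq ⟨g, hgN⟩).2 h)
  have hog : orderOf (q ⟨g, hgN⟩) = 3 := by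
    haveI : Fact (Nat.Prime 3) := ⟨Nat.prime_three⟩
    have h1 : orderOf (q ⟨g, hgN⟩) ∣ 3 := hcard ▸ orderOf_dvd_natCard _
    rcases (Nat.dvd_prime Nat.prime_three).1 h1 with h | h
    · exact absurd (orderOf_eq_one_iff.1 h) hqg
    · exact h
  have hgP : ∀ x ∈ (P : Subgroup G), g * x * g⁻¹ ∈ (P : Subgroup G) := fun x hx =>
    (Subgroup.mem_normalizer_iff.1 hgN x).1 hx
  set a : (P : Subgroup G) →* (P : Subgroup G) := cjP (P : Subgroup G) g hgP with ha
  have haa : ∀ x : (P : Subgroup G), ((a x : (P : Subgroup G)) : G) = g * x * g⁻¹ := fun x => rfl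
  have hCfix : ∀ c ∈ C, ∀ x ∈ (P : Subgroup G), c * x * c⁻¹ = x := by
    intro c hc x hx
    rw [mul_inv_eq_iff_eq_mul]
    exact (Subgroup.mem_centralizer_iff.1 hc x hx).symm
  have hcases : ∀ n ∈ N, (∀ x : (P : Subgroup G), n * x * n⁻¹ = x) ∨
      (∀ x : (P : Subgroup G), n * x * n⁻¹ = a x) ∨
        (∀ x : (P : Subgroup G), n * x * n⁻¹ = a (a x)) := by
    intro n hn
    have h1 : q ⟨n, hn⟩ ∈ Subgroup.zpowers (q ⟨g, hgN⟩) := by
      have h2 : Subgroup.zpowers (q ⟨g, hgN⟩) = ⊤ := by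
        apply Subgroup.eq_top_of_card_eq
        rw [Nat.card_zpowers, hog, hcard]
      rw [h2]; exact Subgroup.mem_top _
    rw [← mem_powers_iff_mem_zpowers, Submonoid.mem_powers_iff] at h1
    obtain ⟨k, hk⟩ := h1
    have hk' : q ⟨g, hgN⟩ ^ (k % 3) = q ⟨n, hn⟩ := by
      rw [← hk, ← hog, pow_mod_orderOf]
    have h3 : k % 3 < 3 := Nat.mod_lt _ (by norm_num)
    have h4 : ((⟨g, hgN⟩ ^ (k % 3) : N)⁻¹ * ⟨n, hn⟩ : N) = ((⟨g, hgN⟩ ^ (k % 3) : N)⁻¹ * ⟨n, hn⟩ : N) := rfl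
    have h5 : (((⟨g, hgN⟩ ^ (k % 3) : N)⁻¹ * ⟨n, hn⟩ : N) : G) ∈ C := by
      rw [hq, map_mul, map_inv, map_pow, hk', inv_mul_cancel]
    push_cast at h5
    have h6 : ∀ x ∈ (P : Subgroup G), n * x * n⁻¹ = g ^ (k % 3) * x * (g ^ (k % 3))⁻¹ := by
      intro x hx
      have h7 := hCfix _ h5 x hx
      calc n * x * n⁻¹ = g ^ (k % 3) * ((g ^ (k % 3))⁻¹ * n * x * ((g ^ (k % 3))⁻¹ * n)⁻¹) *
            (g ^ (k % 3))⁻¹ := by group
        _ = _ := by rw [h7]
    generalize k % 3 = r at h3 h6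
    interval_cases r
    · left; intro x; rw [h6 x x.2]; simp
    · right; left; intro x; rw [h6 x x.2, pow_one]; rfl
    · right; right; intro x; rw [h6 x x.2, haa, haa, pow_two]; group
  have hnc : ∀ x : (P : Subgroup G), x ≠ 1 → a x ≠ x := by
    intro x hx h
    have h1 : g ∈ Subgroup.centralizer ({(x : G)} : Set G) ⊓ N := by
      refine Subgroup.mem_inf.2 ⟨?_, hgN⟩
      rw [Subgroup.mem_centralizer_singleton_iff]
      have h2 : g * x * g⁻¹ = x := congrArg Subtype.val h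
      rwa [mul_inv_eq_iff_eq_mul] at h2
    rw [hfrob x x.2 (fun h => hx (Subtype.ext h))] at h1
    exact hgC h1
  refine ⟨a, ⟨hM, P.2, fun x y => Subtype.ext (hab x x.2 y y.2), P.not_dvd_index, ?_, ?_, ?_, ?_,
    ?_, by omega⟩, hcases, ⟨g, hgN, fun x => rfl⟩, ?_⟩
  · intro x
    apply Subtype.ext
    rw [haa, haa, haa]
    have h1 : g ^ 3 ∈ C := by
      have h2 : (((⟨g, hgN⟩ : N) ^ 3 : N) : G) ∈ C := by
        rw [hq, map_pow, ← hog, pow_orderOf_eq_one]
      simpa using h2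
    have h2 := hCfix _ h1 x x.2
    calc g * (g * (g * x * g⁻¹) * g⁻¹) * g⁻¹ = g ^ 3 * x * (g ^ 3)⁻¹ := by
          simp only [pow_succ, pow_zero, one_mul]; group
      _ = x := h2
  · intro x hx
    by_contra h
    exact hnc x h hx
  · intro x
    exact isConj_iff.2 ⟨g, rfl⟩
  · intro x y h
    obtain ⟨c, hc⟩ := isConj_iff.1 h
    haveI : IsMulCommutative (P : Subgroup G) := ⟨⟨fun x y => Subtype.ext (hab x x.2 y y.2)⟩⟩
    obtain ⟨n, hn, hnc⟩ := P.conj_eq_normalizer_conj_of_mem (x : G) c⁻¹ x.2 (by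
      rw [inv_inv, hc]; exact y.2)
    rw [inv_inv, hc] at hnc
    have hn' : n⁻¹ ∈ N := N.inv_mem hn
    rcases hcases n⁻¹ hn' with h1 | h1 | h1
    · left
      apply Subtype.ext
      have h2 := h1 x
      rw [inv_inv] at h2
      rw [hnc, h2]
    · right; left
      apply Subtype.ext
      have h2 := h1 x
      rw [inv_inv] at h2
      rw [hnc, h2]
    · right; right
      apply Subtype.ext
      have h2 := h1 x
      rw [inv_inv] at h2
      rw [hnc, h2]
  · intro x hx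
    have hx1 : (x : G) ≠ 1 := fun h => hx (Subtype.ext h)
    obtain ⟨L, hLn, hLp, hLc, -⟩ := loc P x.2 hab (hfrob x x.2 hx1)
    haveI : Fintype (Subgroup.centralizer ({(x : G)} : Set G)) := Fintype.ofFinite _
    haveI : Fintype (IrrCharacter (Subgroup.centralizer ({(x : G)} : Set G))) := Fintype.ofFinite _
    have hpx : ∃ k : ℕ, orderOf (x : G) = p ^ k := by
      obtain ⟨k, hk⟩ := (IsPGroup.iff_orderOf.1 P.2) x
      exact ⟨k, by rw [← hk, Subgroup.orderOf_coe]⟩
    have h1 := sum_sq_principal hM hpx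
    have h2 := sum_sq_nilp hM L _ hLp hLc (P.2.comap_of_injective _ Subtype.val_injective)
    have h3 : Nat.card ((P : Subgroup G).subgroupOf (Subgroup.centralizer ({(x : G)} : Set G))) =
        Nat.card P := by
      refine Nat.card_congr (Subgroup.subgroupOfEquivOfLe ?_).toEquiv
      intro z hz
      rw [Subgroup.mem_centralizer_singleton_iff]
      exact hab z hz x x.2
    rw [h3] at h2
    refine Eq.trans ?_ (h1.trans h2)
    exact Finset.sum_congr rfl fun χ _ => rfl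
  · intro y hy z hz χ hχ
    have hy1 : (y : G) ≠ 1 := fun h => hy (Subtype.ext h)
    obtain ⟨L, hLn, hLp, hLc, hL⟩ := loc P y.2 hab (hfrob y y.2 hy1)
    obtain ⟨w, hw1, hw2, hw3, hw4⟩ := hz
    have hwC : w ∈ Subgroup.centralizer ({(y : G)} : Set G) := by
      rw [Subgroup.mem_centralizer_singleton_iff]
      exact hw2.eq.symm
    have hwL : (⟨w, hwC⟩ : Subgroup.centralizer ({(y : G)} : Set G)) ∈ L := by
      rw [hL, Subgroup.orderOf_mk]; exact hw4
    have hwO : (⟨w, hwC⟩ : Subgroup.centralizer ({(y : G)} : Set G)) ∈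
        pPrimeCore p (Subgroup.centralizer ({(y : G)} : Set G)) := by
      have : L ≤ pPrimeCore p (Subgroup.centralizer ({(y : G)} : Set G)) :=
        le_sSup ⟨hLn, ((Nat.Prime.coprime_iff_not_dvd hp.out).2 hLp).symm⟩
      exact this hwL
    rw [← hw1]
    exact principal_constant hM hw3 hwO hχ

end Cfsg.Agent.H26.Ex3
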