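import Mathlib
import Cfsg.Agent.H11_Cores

/-! Bounding the order of a finite group by the centralizers of the involutions of a four-group. -/

set_option autoImplicit false

namespace Cfsg.Agent.H26.FG

universe u
variable {G : Type u} [Group G]

theorem conj_of_odd {z w : G} (hz : z * z = 1) (hw : w * w = 1) (ho : Odd (orderOf (z * w))) :
    ∃ h ∈ Subgroup.zpowers (z * w), w = h⁻¹ * z * h := by
  obtain ⟨n, hn⟩ := ho
  have hzi : z⁻¹ = z := inv_eq_of_mul_eq_one_left hz
  have hwi : w⁻¹ = w := inv_eq_of_mul_eq_one_left hw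
  refine ⟨(z * w) ^ (n + 1), Subgroup.npow_mem_zpowers _ _, ?_⟩
  have h1 : z * (z * w) * z⁻¹ = (z * w)⁻¹ := by
    rw [mul_inv_rev, hzi, hwi, ← mul_assoc, hz, one_mul]
  have h2 : z * (z * w) ^ (n + 1) * z⁻¹ = ((z * w) ^ (n + 1))⁻¹ := by
    rw [← conj_pow, h1, inv_pow]
  have h3 : (z * w) ^ (n + 1) * (z * w) ^ (n + 1) = z * w := by
    rw [← pow_add, show n + 1 + (n + 1) = (2 * n + 1) + 1 by ring, pow_succ, ← hn,
      pow_orderOf_eq_one, one_mul]
  rw [← h2, hzi]
  calc w = z * (z * w) := by rw [← mul_assoc, hz, one_mul]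
    _ = z * ((z * w) ^ (n + 1) * (z * w) ^ (n + 1)) := by rw [h3]
    _ = _ := by
      rw [mul_assoc (z * (z * w) ^ (n + 1)) z z, hz, mul_one]
      group

theorem orderOf_odd_of_mem {K : Subgroup G} [Finite G] (hK : Odd (Nat.card K)) {x : G} (hx : x ∈ K) :
    Odd (orderOf x) := by
  have h1 : orderOf (⟨x, hx⟩ : K) ∣ Nat.card K := orderOf_dvd_natCard _
  rw [Subgroup.orderOf_mk] at h1
  exact Odd.of_dvd_nat hK h1

theorem comm_of_zpowers {x y : G} {a : G} (hx : a ∈ Subgroup.zpowers x) (h : y * x = x * y) :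
    y * a = a * y := by
  obtain ⟨n, rfl⟩ := Subgroup.mem_zpowers_iff.1 hx
  exact (Commute.zpow_right (show Commute y x from h) n)

/-- coprime action of a four-group: the product of the three centralizers -/
theorem triple [Finite G] (K : Subgroup G) [K.Normal] (hK : Odd (Nat.card K)) {u v : G}
    (hu : u * u = 1) (hv : v * v = 1) (huv : u * v = v * u) {x : G} (hx : x ∈ K) :
    ∃ a b c : G, a ∈ Subgroup.centralizer {v} ∧ b ∈ Subgroup.centralizer {u * v} ∧
      c ∈ Subgroup.centralizer {u} ∧ x = a * b * c := by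
  classical
  have hui : u⁻¹ = u := inv_eq_of_mul_eq_one_left hu
  have hvi : v⁻¹ = v := inv_eq_of_mul_eq_one_left hv
  have huvs : (u * v) * (u * v) = 1 := by
    rw [mul_assoc, ← mul_assoc v u v, ← huv, mul_assoc u v v, hv, mul_one, hu]
  obtain ⟨q, hq⟩ : ∃ q : G →* G ⧸ K, ∀ g, g ∈ K ↔ q g = 1 :=
    ⟨QuotientGroup.mk' K, fun g => (QuotientGroup.eq_one_iff g).symm⟩
  have key : ∀ {g k : G}, k ∈ K → q (k⁻¹ * g * k) = q g := by
    intro g k hk
    rw [map_mul, map_mul, map_inv, (hq k).1 hk, inv_one, one_mul, mul_one]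
  have qs : ∀ {g : G}, g * g = 1 → q g * q g = 1 := by
    intro g hg; rw [← map_mul, hg, map_one]
  have hsq : ∀ {g k : G}, g * g = 1 → (k⁻¹ * g * k) * (k⁻¹ * g * k) = 1 := by
    intro g k hg
    calc (k⁻¹ * g * k) * (k⁻¹ * g * k) = k⁻¹ * (g * g) * k := by group
      _ = 1 := by rw [hg]; group
  obtain ⟨b, hb⟩ : ∃ b, b = x⁻¹ * v * x := ⟨_, rfl⟩
  have hbb : b * b = 1 := by rw [hb]; exact hsq hv
  have hqb : q b = q v := by rw [hb]; exact key hx
  have hbi : b⁻¹ = b := inv_eq_of_mul_eq_one_left hbb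
  have hquv : q (u * v) * q (u * v) = 1 := qs huvs
  have h2 : (u * b) * (u * b) ∈ K := by
    rw [hq, map_mul, map_mul, hqb, ← map_mul, hquv]
  obtain ⟨n, hn⟩ := orderOf_odd_of_mem hK h2
  obtain ⟨z, hz⟩ : ∃ z, z = (u * b) ^ (2 * n + 1) := ⟨_, rfl⟩
  have hzz : z * z = 1 := by
    rw [hz, ← pow_add, ← two_mul, pow_mul, pow_two, ← hn, pow_orderOf_eq_one]
  have hqz : q z = q (u * v) := by
    rw [hz, map_pow, map_mul, hqb, ← map_mul, pow_succ, pow_mul, pow_two, hquv, one_pow, one_mul]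
  have hzuv : (u * v) * z ∈ K := by
    rw [hq, map_mul, hqz, hquv]
  have hub : u * (u * b) * u⁻¹ = (u * b)⁻¹ := by
    rw [mul_inv_rev, hui, hbi, ← mul_assoc, hu, one_mul]
  have hzi : z⁻¹ = z := inv_eq_of_mul_eq_one_left hzz
  have huz : u * z = z * u := by
    have h3 : u * z * u⁻¹ = z⁻¹ := by rw [hz, ← conj_pow, hub, inv_pow]
    rw [hzi] at h3
    rw [mul_inv_eq_iff_eq_mul] at h3
    exact h3
  have hbz : b * z = z * b := by
    have h3 : b * (u * b) * b⁻¹ = (u * b)⁻¹ := by
      rw [mul_inv_rev, hui, hbi, mul_assoc, mul_assoc, hbb, mul_one]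
    have h4 : b * z * b⁻¹ = z⁻¹ := by rw [hz, ← conj_pow, h3, inv_pow]
    rw [hzi] at h4
    rw [mul_inv_eq_iff_eq_mul] at h4
    exact h4
  obtain ⟨y, hy1, hy2⟩ := conj_of_odd huvs hzz (orderOf_odd_of_mem hK hzuv)
  have hyK : y ∈ K := (Subgroup.zpowers_le.2 hzuv) hy1
  -- the conjugates by y
  have hcomm : ∀ {g : G}, g * (u * v) = (u * v) * g → (y⁻¹ * g * y) * z = z * (y⁻¹ * g * y) := by
    intro g hg
    rw [hy2]
    calc (y⁻¹ * g * y) * (y⁻¹ * (u * v) * y) = y⁻¹ * (g * (u * v)) * y := by group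
      _ = y⁻¹ * ((u * v) * g) * y := by rw [hg]
      _ = _ := by group
  have hgu : u * (u * v) = (u * v) * u := by
    rw [mul_assoc, ← huv]
  have hgv : v * (u * v) = (u * v) * v := by
    rw [← mul_assoc, ← huv]
  -- u
  have h4 : u * (y⁻¹ * u * y) ∈ K := by
    rw [hq, map_mul, key hyK, qs hu]
  obtain ⟨s, hs1, hs2⟩ := conj_of_odd hu (hsq (k := y) hu) (orderOf_odd_of_mem hK h4)
  have hsz : z * s = s * z := by
    refine comm_of_zpowers hs1 ?_
    calc z * (u * (y⁻¹ * u * y)) = (z * u) * (y⁻¹ * u * y) := by group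
      _ = (u * z) * (y⁻¹ * u * y) := by rw [huz]
      _ = u * (z * (y⁻¹ * u * y)) := by group
      _ = u * ((y⁻¹ * u * y) * z) := by rw [hcomm hgu]
      _ = _ := by group
  -- v
  have h5 : (y⁻¹ * v * y) * b ∈ K := by
    rw [hq, map_mul, key hyK, hqb, qs hv]
  obtain ⟨s', hs'1, hs'2⟩ := conj_of_odd (hsq (k := y) hv) hbb (orderOf_odd_of_mem hK h5)
  have hs'z : z * s' = s' * z := by
    refine comm_of_zpowers hs'1 ?_
    calc z * ((y⁻¹ * v * y) * b) = (z * (y⁻¹ * v * y)) * b := by group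
      _ = ((y⁻¹ * v * y) * z) * b := by rw [hcomm hgv]
      _ = (y⁻¹ * v * y) * (z * b) := by group
      _ = (y⁻¹ * v * y) * (b * z) := by rw [hbz]
      _ = _ := by group
  -- conj back
  have hback : ∀ {g : G}, z * g = g * z → (y * g * y⁻¹) * (u * v) = (u * v) * (y * g * y⁻¹) := by
    intro g hg
    have e : u * v = y * z * y⁻¹ := by rw [hy2]; group
    rw [e]
    calc (y * g * y⁻¹) * (y * z * y⁻¹) = y * (g * z) * y⁻¹ := by group
      _ = y * (z * g) * y⁻¹ := by rw [hg]
      _ = _ := by group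
  refine ⟨x * s'⁻¹ * y⁻¹, (y * s' * y⁻¹) * (y * s * y⁻¹), y * s⁻¹, ?_, ?_, ?_, by group⟩
  · rw [Subgroup.mem_centralizer_singleton_iff]
    have h6 : x⁻¹ * v * x = s'⁻¹ * (y⁻¹ * v * y) * s' := by rw [← hb, hs'2]
    have h7 : v = x * (s'⁻¹ * (y⁻¹ * v * y) * s') * x⁻¹ := by rw [← h6]; group
    calc x * s'⁻¹ * y⁻¹ * v = x * (s'⁻¹ * (y⁻¹ * v * y) * s') * x⁻¹ * (x * s'⁻¹ * y⁻¹) := by group
      _ = v * (x * s'⁻¹ * y⁻¹) := by rw [← h7]
  · rw [Subgroup.mem_centralizer_singleton_iff]
    calc y * s' * y⁻¹ * (y * s * y⁻¹) * (u * v) = y * s' * y⁻¹ * ((y * s * y⁻¹) * (u * v)) := by group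
      _ = (y * s' * y⁻¹) * (u * v) * (y * s * y⁻¹) := by rw [hback hsz]; group
      _ = (u * v) * (y * s' * y⁻¹) * (y * s * y⁻¹) := by rw [hback hs'z]
      _ = _ := by group
  · rw [Subgroup.mem_centralizer_singleton_iff]
    have h7 : u = s * (y⁻¹ * u * y) * s⁻¹ := by rw [hs2]; group
    calc y * s⁻¹ * u = y * s⁻¹ * (s * (y⁻¹ * u * y) * s⁻¹) := by rw [← h7]
      _ = _ := by group

theorem card_odd_le [Finite G] (K : Subgroup G) [K.Normal] (hK : Odd (Nat.card K)) {u v : G}
    (hu : u * u = 1) (hv : v * v = 1) (huv : u * v = v * u) (c : ℕ)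
    (h1 : Nat.card (Subgroup.centralizer {u}) ≤ c) (h2 : Nat.card (Subgroup.centralizer {v}) ≤ c)
    (h3 : Nat.card (Subgroup.centralizer {u * v}) ≤ c) : Nat.card K ≤ c ^ 3 := by
  classical
  have h : ∀ x : K, ∃ t : (Subgroup.centralizer {v}) × (Subgroup.centralizer {u * v}) ×
      (Subgroup.centralizer {u}), (x : G) = t.1 * t.2.1 * t.2.2 := by
    intro x
    obtain ⟨a, b, c, ha, hb, hc, e⟩ := triple K hK hu hv huv x.2
    exact ⟨(⟨a, ha⟩, ⟨b, hb⟩, ⟨c, hc⟩), e⟩
  choose f hf using h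
  have hinj : Function.Injective f := by
    intro x y hxy
    apply Subtype.ext
    rw [hf x, hf y, hxy]
  refine (Nat.card_le_card_of_injective f hinj).trans ?_
  rw [Nat.card_prod, Nat.card_prod]
  calc _ ≤ c * (c * c) := Nat.mul_le_mul h2 (Nat.mul_le_mul h3 h1)
    _ = c ^ 3 := by ring

/-- centralizers in quotients -/
theorem quot_cent [Finite G] (N : Subgroup G) [N.Normal] (t : G) :
    Nat.card (Subgroup.centralizer {(QuotientGroup.mk t : G ⧸ N)}) ≤
      Nat.card (Subgroup.centralizer {t}) := by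
  classical
  set D : Subgroup G := (Subgroup.centralizer {(QuotientGroup.mk t : G ⧸ N)}).comap
    (QuotientGroup.mk' N) with hD
  have hmem : ∀ g : G, g ∈ D → g * t * g⁻¹ * t⁻¹ ∈ N := by
    intro g hg
    rw [hD, Subgroup.mem_comap, Subgroup.mem_centralizer_singleton_iff] at hg
    rw [← QuotientGroup.eq_one_iff]
    change (QuotientGroup.mk' N) (g * t * g⁻¹ * t⁻¹) = 1
    have h1 : (QuotientGroup.mk' N) g * (QuotientGroup.mk' N) t =
      (QuotientGroup.mk' N) t * (QuotientGroup.mk' N) g := hg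
    rw [map_mul, map_mul, map_mul, map_inv, map_inv, h1]
    group
  have h1 : Nat.card D ≤ Nat.card N * Nat.card (Subgroup.centralizer {t}) := by
    have h2 : ∀ n : N, ∃ g0 : G, ∀ g : G, g ∈ D → g * t * g⁻¹ * t⁻¹ = n →
        g0⁻¹ * g ∈ Subgroup.centralizer {t} := by
      intro n
      by_cases h : ∃ g0 : G, g0 * t * g0⁻¹ * t⁻¹ = n
      · obtain ⟨g0, h0⟩ := h
        refine ⟨g0, fun g _ hg => ?_⟩
        rw [Subgroup.mem_centralizer_singleton_iff]
        have h3 : g * t * g⁻¹ = g0 * t * g0⁻¹ := by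
          rw [← h0] at hg
          exact mul_right_cancel hg
        calc g0⁻¹ * g * t = g0⁻¹ * (g * t * g⁻¹) * g := by group
          _ = g0⁻¹ * (g0 * t * g0⁻¹) * g := by rw [h3]
          _ = _ := by group
      · exact ⟨1, fun g _ hg => absurd ⟨g, hg⟩ h⟩
    choose g0 hg0 using h2
    let F : D → N × (Subgroup.centralizer {t}) := fun g =>
      (⟨_, hmem g g.2⟩, ⟨(g0 ⟨_, hmem g g.2⟩)⁻¹ * g, hg0 _ g g.2 rfl⟩)
    have hF : Function.Injective F := by
      intro a b hab
      have h3 := congrArg Prod.fst hab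
      have h4 := congrArg (fun s => ((Prod.snd s : Subgroup.centralizer {t}) : G)) hab
      change (⟨_, hmem a a.2⟩ : N) = ⟨_, hmem b b.2⟩ at h3
      change (g0 ⟨_, hmem a a.2⟩)⁻¹ * (a : G) = (g0 ⟨_, hmem b b.2⟩)⁻¹ * b at h4
      rw [h3] at h4
      exact Subtype.ext (mul_left_cancel h4)
    have h3 := Nat.card_le_card_of_injective F hF
    rwa [Nat.card_prod] at h3
  have h2 : Nat.card D = Nat.card N *
      Nat.card (Subgroup.centralizer {(QuotientGroup.mk t : G ⧸ N)}) := by
    rw [hD, H11.Cores.card_comap_of_surjective _ (QuotientGroup.mk'_surjective N),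
      QuotientGroup.ker_mk']
  rw [h2] at h1
  exact Nat.le_of_mul_le_mul_left h1 Nat.card_pos

/-- Brauer–Fowler counting in a coset -/
theorem bf [Finite G] (M : Subgroup G) [M.Normal] {t : G} (ht : t * t = 1) (c : ℕ)
    (hc : Nat.card (Subgroup.centralizer {t}) ≤ c) :
    Nat.card M ≤ 2 * c ∨ ∃ w ∈ M, w ≠ 1 ∧
      Nat.card M ≤ 2 * c ^ 2 * Nat.card (Subgroup.centralizer {w} ⊓ M : Subgroup G) := by
  classical
  haveI : Fintype G := Fintype.ofFinite G
  by_contra hcon
  push Not at hcon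
  obtain ⟨hcon1, hcon2⟩ := hcon
  have hc0 : 0 < c := lt_of_lt_of_le Nat.card_pos hc
  obtain ⟨q, hq⟩ : ∃ q : G →* G ⧸ M, ∀ g, g ∈ M ↔ q g = 1 :=
    ⟨QuotientGroup.mk' M, fun g => (QuotientGroup.eq_one_iff g).symm⟩
  have card_sub : ∀ H : Subgroup G, (Finset.univ.filter (· ∈ H)).card = Nat.card H := by
    intro H
    rw [Nat.card_eq_fintype_card, Fintype.card_subtype]
  obtain ⟨Mf, hMf⟩ : ∃ Mf : Finset G, Mf = Finset.univ.filter (· ∈ M) := ⟨_, rfl⟩
  have hMm : ∀ g, g ∈ Mf ↔ g ∈ M := fun g => by rw [hMf]; simp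
  have hMc : Mf.card = Nat.card M := by rw [hMf]; exact card_sub M
  obtain ⟨X, hX⟩ : ∃ X : Finset G, X = Mf.image (fun m => m⁻¹ * t * m) := ⟨_, rfl⟩
  have hXm : ∀ x, x ∈ X ↔ ∃ m ∈ M, m⁻¹ * t * m = x := by
    intro x
    rw [hX, Finset.mem_image]
    simp only [hMm]
  have h1 : Mf.card ≤ c * X.card := by
    rw [hX]
    refine Finset.card_le_mul_card_image Mf c (fun a ha => ?_)
    obtain ⟨m0, hm0, rfl⟩ := Finset.mem_image.1 ha
    refine le_trans ?_ hc
    rw [← card_sub]
    refine Finset.card_le_card_of_injOn (fun m => m * m0⁻¹) ?_ ?_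
    · intro m hm
      simp only [Finset.coe_filter, Set.mem_setOf_eq] at hm
      simp only [Finset.coe_filter, Set.mem_setOf_eq, Finset.mem_univ, true_and]
      rw [Subgroup.mem_centralizer_singleton_iff]
      calc m * m0⁻¹ * t = m * (m0⁻¹ * t * m0) * m0⁻¹ := by group
        _ = m * (m⁻¹ * t * m) * m0⁻¹ := by rw [hm.2]
        _ = _ := by group
    · intro m _ m' _ h
      exact mul_right_cancel h
  have hXs : ∀ x ∈ X, x * x = 1 ∧ q x = q t := by
    intro x hx
    obtain ⟨m, hm, rfl⟩ := (hXm x).1 hx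
    constructor
    · calc (m⁻¹ * t * m) * (m⁻¹ * t * m) = m⁻¹ * (t * t) * m := by group
        _ = 1 := by rw [ht]; group
    · rw [map_mul, map_mul, map_inv, (hq m).1 hm, inv_one, one_mul, mul_one]
  have hqt : q t * q t = 1 := by rw [← map_mul, ht, map_one]
  have h2 : ∀ p ∈ X ×ˢ X, p.1 * p.2 ∈ Mf := by
    intro p hp
    rw [Finset.mem_product] at hp
    rw [hMm, hq, map_mul, (hXs _ hp.1).2, (hXs _ hp.2).2, hqt]
  have h3 : (X ×ˢ X).card = ∑ w ∈ Mf, ((X ×ˢ X).filter (fun p => p.1 * p.2 = w)).card :=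
    Finset.card_eq_sum_card_fiberwise h2
  have h4 : ((X ×ˢ X).filter (fun p => p.1 * p.2 = 1)).card ≤ X.card := by
    refine Finset.card_le_card_of_injOn (fun p => p.1) ?_ ?_
    · intro p hp
      simp only [Finset.coe_filter, Set.mem_setOf_eq, Finset.mem_product] at hp
      exact hp.1.1
    · intro p hp p' hp' h
      simp only [Finset.coe_filter, Set.mem_setOf_eq, Finset.mem_product] at hp hp'
      simp only at h
      refine Prod.ext h ?_
      have e1 := hp.2
      have e2 := hp'.2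
      rw [← h, ← e1] at e2
      exact (mul_left_cancel e2).symm
  have h5 : ∀ w : G, ((X ×ˢ X).filter (fun p => p.1 * p.2 = w)).card ≤
      Nat.card (Subgroup.centralizer {w} ⊓ M : Subgroup G) := by
    intro w
    rcases ((X ×ˢ X).filter (fun p => p.1 * p.2 = w)).eq_empty_or_nonempty with h | ⟨p0, hp0⟩
    · rw [h]; simp
    · simp only [Finset.mem_filter, Finset.mem_product] at hp0
      have hinv : ∀ p : G × G, p.1 ∈ X → p.2 ∈ X → p.1 * p.2 = w → p.1 * w * p.1 = w⁻¹ := by
        intro p hp1 hp2 hw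
        have e1 := (hXs _ hp1).1
        have e2 := (hXs _ hp2).1
        have i1 : p.1⁻¹ = p.1 := inv_eq_of_mul_eq_one_left e1
        have i2 : p.2⁻¹ = p.2 := inv_eq_of_mul_eq_one_left e2
        rw [← hw, mul_inv_rev, i1, i2, ← mul_assoc, e1, one_mul]
      rw [← card_sub]
      refine Finset.card_le_card_of_injOn (fun p => p0.1 * p.1) ?_ ?_
      · intro p hp
        simp only [Finset.coe_filter, Set.mem_setOf_eq, Finset.mem_product] at hp
        simp only [Finset.coe_filter, Set.mem_setOf_eq, Finset.mem_univ, true_and]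
        rw [Subgroup.mem_inf, Subgroup.mem_centralizer_singleton_iff]
        have e1 := hinv p hp.1.1 hp.1.2 hp.2
        have e0 := hinv p0 hp0.1.1 hp0.1.2 hp0.2
        have s1 := (hXs _ hp.1.1).1
        have s0 := (hXs _ hp0.1.1).1
        refine ⟨?_, ?_⟩
        · calc p0.1 * p.1 * w = p0.1 * (p.1 * w * p.1) * p.1⁻¹ := by group
            _ = p0.1 * (p0.1 * w * p0.1) * p.1⁻¹ := by rw [e1, e0]
            _ = (p0.1 * p0.1) * w * p0.1 * p.1⁻¹ := by group
            _ = w * p0.1 * p.1 := by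
              rw [s0, one_mul, inv_eq_of_mul_eq_one_left s1]
            _ = _ := by group
        · rw [hq, map_mul, (hXs _ hp.1.1).2, (hXs _ hp0.1.1).2, hqt]
      · intro p hp p' hp' h
        simp only [Finset.coe_filter, Set.mem_setOf_eq, Finset.mem_product] at hp hp'
        have h' := mul_left_cancel h
        refine Prod.ext h' ?_
        have e1 := hp.2
        have e2 := hp'.2
        rw [← h', ← e1] at e2
        exact (mul_left_cancel e2).symm
  have h1M : (1 : G) ∈ Mf := (hMm 1).2 M.one_mem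
  rw [← Finset.add_sum_erase _ _ h1M, Finset.card_product] at h3
  have h6 : 2 * c ^ 2 * ∑ w ∈ Mf.erase 1, ((X ×ˢ X).filter (fun p => p.1 * p.2 = w)).card ≤
      Mf.card * Mf.card := by
    rw [Finset.mul_sum]
    calc _ ≤ ∑ w ∈ Mf.erase 1, Mf.card := by
          refine Finset.sum_le_sum fun w hw => ?_
          rw [Finset.mem_erase, hMm] at hw
          have h7 := hcon2 w hw.2 hw.1
          rw [← hMc] at h7
          exact (Nat.mul_le_mul le_rfl (h5 w)).trans h7.le
      _ = (Mf.erase 1).card * Mf.card := by rw [Finset.sum_const, smul_eq_mul]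
      _ ≤ _ := Nat.mul_le_mul (Finset.card_le_card (Finset.erase_subset _ _)) le_rfl
  have h7 : Mf.card * Mf.card ≤ (c * X.card) * (c * X.card) := Nat.mul_le_mul h1 h1
  have h8 : 2 * c ^ 2 * (X.card * X.card) ≤ 2 * c ^ 2 * X.card + (c * X.card) * (c * X.card) := by
    rw [h3, mul_add]
    exact add_le_add (Nat.mul_le_mul le_rfl h4) (h6.trans h7)
  have h9 : X.card ≤ 2 := by
    by_contra h
    push Not at h
    have h10 : c ^ 2 * (X.card * X.card) ≤ c ^ 2 * (2 * X.card) := by nlinarith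
    have h11 := Nat.le_of_mul_le_mul_left h10 (by positivity)
    nlinarith
  rw [← hMc] at hcon1
  have : c * X.card ≤ c * 2 := Nat.mul_le_mul le_rfl h9
  omega

theorem index_core_le {M : Type u} [Group M] [Finite M] (H : Subgroup M) (d : ℕ)
    (hd : H.index ≤ d) : H.normalCore.index ≤ d.factorial := by
  rw [Subgroup.normalCore_eq_ker, Subgroup.index_ker]
  refine (Subgroup.card_le_card_group _).trans ?_
  rw [Nat.card_perm]
  exact Nat.factorial_le hd

theorem exists_max_normal {M : Type u} [Group M] [Finite M] (N : Subgroup M) [hN : N.Normal]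
    (h : N ≠ ⊤) : ∃ Q : Subgroup M, Q.Normal ∧ Q ≠ ⊤ ∧ N ≤ Q ∧
      ∀ R : Subgroup M, R.Normal → Q ≤ R → R = Q ∨ R = ⊤ := by
  obtain ⟨Q, hQ1, hQ2⟩ := Set.Finite.exists_le_maximal
    (s := {Q : Subgroup M | Q.Normal ∧ Q ≠ ⊤}) (Set.toFinite _) (a := N) ⟨hN, h⟩
  refine ⟨Q, hQ2.prop.1, hQ2.prop.2, hQ1, fun R hR hQR => ?_⟩
  by_cases hRt : R = ⊤
  · exact Or.inr hRt
  · exact Or.inl (le_antisymm (hQ2.le_of_ge ⟨hR, hRt⟩ hQR) hQR)

theorem index_inf_eq {M : Type u} [Group M] [Finite M] (R Q : Subgroup M) [Q.Normal]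
    (h : R ⊔ Q = ⊤) : (R ⊓ Q).index = R.index * Q.index := by
  have h1 : (R ⊓ Q).relIndex R * R.index = (R ⊓ Q).index := Subgroup.relIndex_mul_index inf_le_left
  have h2 : (R ⊓ Q).relIndex R = Q.relIndex R := Subgroup.inf_relIndex_left R Q
  have h3 : Q.relIndex (R ⊔ Q) = Q.relIndex R := Subgroup.relIndex_sup_right R Q
  rw [h, Subgroup.relIndex_top_right] at h3
  rw [← h1, h2, ← h3, mul_comm]

theorem min_normal [Finite G] (M : Subgroup G) [hMn : M.Normal]
    (hmin : ∀ N : Subgroup G, N.Normal → N ≤ M → N = ⊥ ∨ N = M)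
    (hev : 2 ∣ Nat.card M) (a d : ℕ) (ha : ¬ 2 ^ (a + 1) ∣ Nat.card G) {w : G} (hwM : w ∈ M)
    (hw : w ≠ 1)
    (hd : Nat.card M ≤ d * Nat.card (Subgroup.centralizer {w} ⊓ M : Subgroup G)) :
    Nat.card M ≤ (d.factorial + 1) ^ a := by
  classical
  have hMG : Nat.card M ∣ Nat.card G := Subgroup.card_subgroup_dvd_card M
  have hle : ∀ k : ℕ, 2 ^ k ∣ Nat.card M → k ≤ a := by
    intro k hk
    by_contra h
    push Not at h
    exact ha (((Nat.pow_dvd_pow 2 h).trans hk).trans hMG)
  rcases hmin (Subgroup.centralizer (M : Set G) ⊓ M) inferInstance inf_le_right with hz | hz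
  · -- nonabelian
    set H : Subgroup M := (Subgroup.centralizer {w}).subgroupOf M with hH
    have hcH : Nat.card H = Nat.card (Subgroup.centralizer {w} ⊓ M : Subgroup G) := by
      rw [hH, ← Subgroup.inf_subgroupOf_right]
      exact Nat.card_congr (Subgroup.subgroupOfEquivOfLe inf_le_right).toEquiv
    have hHi : H.index ≤ d := by
      have h1 := Subgroup.card_mul_index H
      rw [hcH] at h1
      rw [← h1, mul_comm] at hd
      exact Nat.le_of_mul_le_mul_right hd Nat.card_pos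
    have hHt : H ≠ ⊤ := by
      intro h
      have h1 : w ∈ Subgroup.centralizer (M : Set G) ⊓ M := by
        refine Subgroup.mem_inf.2 ⟨?_, hwM⟩
        rw [Subgroup.mem_centralizer_iff]
        intro m hm
        have h2 : (⟨m, hm⟩ : M) ∈ H := by rw [h]; exact Subgroup.mem_top _
        rw [hH, Subgroup.mem_subgroupOf, Subgroup.mem_centralizer_singleton_iff] at h2
        exact h2
      rw [hz, Subgroup.mem_bot] at h1
      exact hw h1
    have hct : H.normalCore ≠ ⊤ := fun h => hHt (top_le_iff.1 (h ▸ H.normalCore_le))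
    obtain ⟨Q, hQn, hQt, hQc, hQm⟩ := exists_max_normal H.normalCore hct
    have hQi : Q.index ≤ d.factorial :=
      (Nat.le_of_dvd (Nat.pos_of_ne_zero Subgroup.index_ne_zero_of_finite)
        (Subgroup.index_dvd_of_le hQc)).trans (index_core_le H d hHi)
    let φ : G → (M →* M) := fun g => (MulAut.conjNormal g : M ≃* M).toMonoidHom
    have hφ : ∀ g (x : M), ((φ g x : M) : G) = g * x * g⁻¹ := fun g x => by
      change ((MulAut.conjNormal g x : M) : G) = _
      rw [MulAut.conjNormal_apply]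
    have hφi : ∀ g, Function.Injective (φ g) := fun g => (MulAut.conjNormal g : M ≃* M).injective
    have hφs : ∀ g, Function.Surjective (φ g) := fun g => (MulAut.conjNormal g : M ≃* M).surjective
    have hn : ∀ g, (Q.comap (φ g)).Normal := fun g => hQn.comap _
    have hqi : ∀ g, (Q.comap (φ g)).index = Q.index := fun g =>
      Q.index_comap_of_surjective (hφs g)
    have hmx : ∀ g (R : Subgroup M), R.Normal → R ≤ Q.comap (φ g) ∨ R ⊔ Q.comap (φ g) = ⊤ := by
      intro g R hR
      have h1 : (R.map (φ g)).Normal := hR.map _ (hφs g)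
      rcases hQm (R.map (φ g) ⊔ Q) inferInstance le_sup_right with h2 | h2
      · left
        rw [← Subgroup.map_le_iff_le_comap]
        exact h2 ▸ le_sup_left
      · right
        have h3 := congrArg (Subgroup.comap (φ g)) h2
        rw [← Subgroup.comap_sup_eq _ _ _ (hφs g), Subgroup.comap_map_eq_self_of_injective (hφi g),
          Subgroup.comap_top] at h3
        exact h3
    have hfin : ∀ S : Finset G, (S.inf fun g => Q.comap (φ g)).Normal ∧
        ∃ n : ℕ, (S.inf fun g => Q.comap (φ g)).index = Q.index ^ n := by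
      intro S
      induction S using Finset.induction_on with
      | empty =>
        rw [Finset.inf_empty]
        exact ⟨inferInstance, 0, by rw [Subgroup.index_top, pow_zero]⟩
      | insert g S _ ih =>
        obtain ⟨ih1, n, ih2⟩ := ih
        rw [Finset.inf_insert]
        haveI := hn g
        refine ⟨inferInstance, ?_⟩
        rcases hmx g _ ih1 with h1 | h1
        · exact ⟨n, by rw [inf_eq_right.2 h1, ih2]⟩
        · refine ⟨n + 1, ?_⟩
          rw [inf_comm, index_inf_eq _ _ h1, ih2, hqi, pow_succ]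
    haveI : Fintype G := Fintype.ofFinite G
    obtain ⟨-, n, hn2⟩ := hfin Finset.univ
    have hbot : (Finset.univ.inf fun g => Q.comap (φ g)) = ⊥ := by
      set K0 : Subgroup M := Finset.univ.inf fun g => Q.comap (φ g) with hK0
      have hK0m : ∀ x, x ∈ K0 ↔ ∀ g, φ g x ∈ Q := by
        intro x
        rw [hK0, Finset.inf_eq_iInf]
        simp only [Subgroup.mem_iInf, Subgroup.mem_comap, Finset.mem_univ, forall_true_left]
      have hnn : (K0.map M.subtype).Normal := by
        refine ⟨fun x hx g => ?_⟩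
        obtain ⟨y, hy, rfl⟩ := Subgroup.mem_map.1 hx
        refine Subgroup.mem_map.2 ⟨φ g y, ?_, ?_⟩
        · rw [hK0m]
          intro h
          have h1 := (hK0m y).1 hy (h * g)
          have h2 : φ h (φ g y) = φ (h * g) y := by
            apply Subtype.ext
            rw [hφ, hφ, hφ]; group
          rw [h2]; exact h1
        · exact hφ g y
      rcases hmin _ hnn (Subgroup.map_subtype_le K0) with h1 | h1
      · rwa [Subgroup.map_eq_bot_iff_of_injective _ M.subtype_injective] at h1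
      · exfalso
        apply hQt
        rw [Subgroup.eq_top_iff']
        intro x
        have h2 : (x : G) ∈ K0.map M.subtype := by rw [h1]; exact x.2
        obtain ⟨y, hy, hyx⟩ := Subgroup.mem_map.1 h2
        have h3 : y = x := Subtype.ext hyx
        rw [h3] at hy
        have h4 := (hK0m x).1 hy 1
        have h5 : φ 1 x = x := by
          apply Subtype.ext; rw [hφ]; group
        rwa [h5] at h4
    rw [hbot, Subgroup.index_bot] at hn2
    have hq2 : 2 ∣ Q.index := by
      rw [hn2] at hev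
      exact Nat.prime_two.dvd_of_dvd_pow hev
    have hna : n ≤ a := hle n (by rw [hn2]; exact pow_dvd_pow_of_dvd hq2 n)
    rw [hn2]
    calc Q.index ^ n ≤ (d.factorial + 1) ^ n := Nat.pow_le_pow_left (by omega) n
      _ ≤ _ := Nat.pow_le_pow_right (by omega) hna
  · -- abelian
    have hab : ∀ x ∈ M, ∀ y ∈ M, x * y = y * x := by
      intro x hx y hy
      rw [← hz] at hy
      exact (Subgroup.mem_centralizer_iff.1 hy.1) x hx
    let N : Subgroup G :=
      { carrier := {x | x ∈ M ∧ x * x = 1}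
        one_mem' := ⟨M.one_mem, one_mul 1⟩
        mul_mem' := by
          rintro x y ⟨hx, hx'⟩ ⟨hy, hy'⟩
          refine ⟨M.mul_mem hx hy, ?_⟩
          calc x * y * (x * y) = x * (y * x) * y := by group
            _ = x * (x * y) * y := by rw [hab y hy x hx]
            _ = (x * x) * (y * y) := by group
            _ = 1 := by rw [hx', hy', one_mul]
        inv_mem' := by
          rintro x ⟨hx, hx'⟩
          refine ⟨M.inv_mem hx, ?_⟩
          rw [← mul_inv_rev, hx', inv_one] }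
    have hNn : N.Normal := by
      refine ⟨fun x hx g => ⟨hMn.conj_mem x hx.1 g, ?_⟩⟩
      calc g * x * g⁻¹ * (g * x * g⁻¹) = g * (x * x) * g⁻¹ := by group
        _ = 1 := by rw [hx.2]; group
    have hNM : N ≤ M := fun x hx => hx.1
    rcases hmin N hNn hNM with h1 | h1
    · exfalso
      haveI : Fact (Nat.Prime 2) := ⟨Nat.prime_two⟩
      obtain ⟨x, hx⟩ := exists_prime_orderOf_dvd_card' 2 hev
      have h2 : (x : G) ∈ N := by
        refine ⟨x.2, ?_⟩
        have := pow_orderOf_eq_one x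
        rw [hx, pow_two] at this
        exact congrArg Subtype.val this
      rw [h1, Subgroup.mem_bot] at h2
      have h3 : x = 1 := Subtype.ext h2
      rw [h3, orderOf_one] at hx
      omega
    · have hpg : IsPGroup 2 M := by
        intro x
        refine ⟨1, ?_⟩
        have h2 : (x : G) ∈ N := by rw [h1]; exact x.2
        apply Subtype.ext
        rw [pow_one, pow_two]
        exact h2.2
      haveI : Fact (Nat.Prime 2) := ⟨Nat.prime_two⟩
      obtain ⟨k, hk⟩ := (IsPGroup.iff_card).1 hpg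
      have hka : k ≤ a := hle k (by rw [hk])
      rw [hk]
      have hf : 1 ≤ d.factorial := Nat.factorial_pos d
      calc 2 ^ k ≤ 2 ^ a := Nat.pow_le_pow_right (by norm_num) hka
        _ ≤ _ := Nat.pow_le_pow_left (by omega) a

theorem card_le_of_mem [Finite G] (M : Subgroup G) [hM : M.Normal] {t : G} (ht : t ∈ M) :
    Nat.card G ≤ Nat.card (Subgroup.centralizer {t}) * Nat.card M := by
  classical
  haveI : Fintype G := Fintype.ofFinite G
  have card_sub : ∀ H : Subgroup G, (Finset.univ.filter (· ∈ H)).card = Nat.card H := by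
    intro H
    rw [Nat.card_eq_fintype_card, Fintype.card_subtype]
  rw [Nat.card_eq_fintype_card (α := G), ← Finset.card_univ]
  refine (Finset.card_le_mul_card_image (f := fun g => g * t * g⁻¹) Finset.univ
    (Nat.card (Subgroup.centralizer {t})) (fun a ha => ?_)).trans
    (Nat.mul_le_mul le_rfl ?_)
  · obtain ⟨g0, _, rfl⟩ := Finset.mem_image.1 ha
    rw [← card_sub]
    refine Finset.card_le_card_of_injOn (fun g => g0⁻¹ * g) ?_ ?_
    · intro g hg
      simp only [Finset.coe_filter, Set.mem_setOf_eq, Finset.mem_univ, true_and] at hg ⊢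
      rw [Subgroup.mem_centralizer_singleton_iff]
      calc g0⁻¹ * g * t = g0⁻¹ * (g * t * g⁻¹) * g := by group
        _ = g0⁻¹ * (g0 * t * g0⁻¹) * g := by rw [hg]
        _ = _ := by group
    · intro g _ g' _ h
      exact mul_left_cancel h
  · rw [← card_sub]
    refine Finset.card_le_card fun x hx => ?_
    obtain ⟨g, _, rfl⟩ := Finset.mem_image.1 hx
    simp only [Finset.mem_filter, Finset.mem_univ, true_and]
    exact hM.conj_mem t ht g

/-- the hypotheses -/
structure Hyp (c : ℕ) (u v : G) : Prop where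
  hu : u * u = 1
  hv : v * v = 1
  huv : u * v = v * u
  hu1 : u ≠ 1
  hv1 : v ≠ 1
  hne : u * v ≠ 1
  cu : Nat.card (Subgroup.centralizer {u}) ≤ c
  cv : Nat.card (Subgroup.centralizer {v}) ≤ c
  cuv : Nat.card (Subgroup.centralizer {u * v}) ≤ c

theorem Hyp.quot [Finite G] {c : ℕ} {u v : G} (h : Hyp c u v) (N : Subgroup G) [N.Normal]
    (h1 : u ∉ N) (h2 : v ∉ N) (h3 : u * v ∉ N) :
    Hyp c (QuotientGroup.mk u : G ⧸ N) (QuotientGroup.mk v) := by
  refine ⟨?_, ?_, ?_, ?_, ?_, ?_, ?_, ?_, ?_⟩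
  · rw [← QuotientGroup.mk_mul, h.hu, QuotientGroup.mk_one]
  · rw [← QuotientGroup.mk_mul, h.hv, QuotientGroup.mk_one]
  · rw [← QuotientGroup.mk_mul, h.huv, QuotientGroup.mk_mul]
  · rw [Ne, QuotientGroup.eq_one_iff]; exact h1
  · rw [Ne, QuotientGroup.eq_one_iff]; exact h2
  · rw [← QuotientGroup.mk_mul, Ne, QuotientGroup.eq_one_iff]; exact h3
  · exact (quot_cent N u).trans h.cu
  · exact (quot_cent N v).trans h.cv
  · rw [← QuotientGroup.mk_mul]; exact (quot_cent N (u * v)).trans h.cuv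

theorem not_mem_odd [Finite G] {K : Subgroup G} (hK : Odd (Nat.card K)) {u : G} (hu : u * u = 1)
    (hu1 : u ≠ 1) : u ∉ K := by
  intro h
  have h1 := orderOf_odd_of_mem hK h
  have h2 : orderOf u ∣ 2 := orderOf_dvd_of_pow_eq_one (by rw [pow_two, hu])
  rcases (Nat.dvd_prime Nat.prime_two).1 h2 with h3 | h3
  · exact hu1 (orderOf_eq_one_iff.1 h3)
  · rw [h3] at h1; exact absurd h1 (by decide)

theorem main_core (c a N : ℕ) (ih : ∀ (G : Type u) [Group G] [Finite G] (u v : G), Hyp c u v →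
      ¬ 2 ^ (a + 1) ∣ Nat.card G → Nat.card G ≤ N) [Finite G] (u v : G) (h : Hyp c u v)
    (ha : ¬ 2 ^ (a + 2) ∣ Nat.card G)
    (hodd : ∀ K : Subgroup G, K.Normal → Odd (Nat.card K) → K = ⊥) :
    Nat.card G ≤ (c + N) * (2 * c + ((2 * c ^ 2).factorial + 1) ^ (a + 1)) := by
  classical
  haveI : Nontrivial G := ⟨u, 1, h.hu1⟩
  obtain ⟨M, hM⟩ := Set.Finite.exists_minimal (s := {M : Subgroup G | M.Normal ∧ M ≠ ⊥})
    (Set.toFinite _) ⟨⊤, inferInstance, top_ne_bot⟩
  haveI hMn : M.Normal := hM.prop.1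
  have hmin : ∀ N : Subgroup G, N.Normal → N ≤ M → N = ⊥ ∨ N = M := by
    intro N hN hNM
    by_cases hb : N = ⊥
    · exact Or.inl hb
    · exact Or.inr (le_antisymm hNM (hM.le_of_le ⟨hN, hb⟩ hNM))
  have hev : 2 ∣ Nat.card M := by
    by_contra h2
    exact hM.prop.2 (hodd M hMn (Nat.odd_iff.2 (by omega)))
  have hB : Nat.card M ≤ 2 * c + ((2 * c ^ 2).factorial + 1) ^ (a + 1) := by
    rcases bf M h.hu c h.cu with h1 | ⟨w, hwM, hw, h1⟩
    · omega
    · have := min_normal M hmin hev (a + 1) (2 * c ^ 2) ha hwM hw h1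
      omega
  by_cases hmem : u ∈ M ∨ v ∈ M ∨ u * v ∈ M
  · have h1 : Nat.card G ≤ c * Nat.card M := by
      rcases hmem with h1 | h1 | h1
      · exact (card_le_of_mem M h1).trans (Nat.mul_le_mul h.cu le_rfl)
      · exact (card_le_of_mem M h1).trans (Nat.mul_le_mul h.cv le_rfl)
      · exact (card_le_of_mem M h1).trans (Nat.mul_le_mul h.cuv le_rfl)
    exact h1.trans (Nat.mul_le_mul (by omega) hB)
  · push Not at hmem
    have h1 := ih (G ⧸ M) _ _ (h.quot M hmem.1 hmem.2.1 hmem.2.2) (by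
      intro h2
      apply ha
      rw [Subgroup.card_eq_card_quotient_mul_card_subgroup M, pow_succ]
      exact Nat.mul_dvd_mul h2 hev)
    rw [Subgroup.card_eq_card_quotient_mul_card_subgroup M]
    exact Nat.mul_le_mul (by omega) hB

theorem main (c a : ℕ) : ∃ N : ℕ, ∀ (G : Type u) [Group G] [Finite G] (u v : G), Hyp c u v →
      ¬ 2 ^ (a + 1) ∣ Nat.card G → Nat.card G ≤ N := by
  classical
  induction a with
  | zero =>
    refine ⟨0, fun G _ _ u v h ha => ?_⟩
    exfalso
    apply ha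
    have h2 : orderOf u ∣ 2 := orderOf_dvd_of_pow_eq_one (by rw [pow_two, h.hu])
    rcases (Nat.dvd_prime Nat.prime_two).1 h2 with h3 | h3
    · exact absurd (orderOf_eq_one_iff.1 h3) h.hu1
    · rw [zero_add, pow_one, ← h3]; exact orderOf_dvd_natCard u
  | succ a ih =>
    obtain ⟨N, hN⟩ := ih
    refine ⟨(c + N) * (2 * c + ((2 * c ^ 2).factorial + 1) ^ (a + 1)) * c ^ 3,
      fun G _ _ u v h ha => ?_⟩
    obtain ⟨K, hK⟩ := Set.Finite.exists_maximal
      (s := {K : Subgroup G | K.Normal ∧ Odd (Nat.card K)}) (Set.toFinite _)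
      ⟨⊥, inferInstance, by rw [Subgroup.card_bot]; exact odd_one⟩
    haveI hKn : K.Normal := hK.prop.1
    have hKo := hK.prop.2
    have huvs : (u * v) * (u * v) = 1 := by
      rw [mul_assoc, ← mul_assoc v u v, ← h.huv, mul_assoc u v v, h.hv, mul_one, h.hu]
    have h1 := card_odd_le K hKo h.hu h.hv h.huv c h.cu h.cv h.cuv
    have h2 := main_core (G := G ⧸ K) c a N hN _ _ (h.quot K (not_mem_odd hKo h.hu h.hu1)
      (not_mem_odd hKo h.hv h.hv1) (not_mem_odd hKo huvs h.hne))
      (fun h3 => ha (h3.trans (Subgroup.card_quotient_dvd_card K))) (by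
        intro L hL hLo
        have hn : (L.comap (QuotientGroup.mk' K)).Normal := hL.comap _
        have hc : Odd (Nat.card (L.comap (QuotientGroup.mk' K))) := by
          rw [H11.Cores.card_comap_of_surjective _ (QuotientGroup.mk'_surjective K),
            QuotientGroup.ker_mk']
          exact hKo.mul hLo
        have hle : K ≤ L.comap (QuotientGroup.mk' K) := by
          intro x hx
          rw [Subgroup.mem_comap, (QuotientGroup.eq_one_iff x).2 hx |> (fun e =>
            (show (QuotientGroup.mk' K) x = 1 from e))]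
          exact L.one_mem
        have h3 : L.comap (QuotientGroup.mk' K) ≤ K := hK.le_of_ge ⟨hn, hc⟩ hle
        rw [eq_bot_iff]
        intro y hy
        obtain ⟨x, rfl⟩ := QuotientGroup.mk'_surjective K y
        rw [Subgroup.mem_bot]
        exact (QuotientGroup.eq_one_iff x).2 (h3 hy))
    rw [Subgroup.card_eq_card_quotient_mul_card_subgroup K]
    exact Nat.mul_le_mul h2 h1

end Cfsg.Agent.H26.FG
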