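import Mathlib
import Cfsg.Agent.H26_Ex6
import Cfsg.Agent.H26_FG
import Cfsg.Agent.H3_CharCalc
import Cfsg.Agent.H10_BlockV4

/-! Involutions and the exceptional characters. -/

set_option autoImplicit false

namespace Cfsg.Agent.H26.Ex3

open Cfsg Cfsg.Agent.H3.CharIrr Cfsg.Agent.H3.CharComplete Cfsg.Agent.H3.CharInd
  Cfsg.Agent.H26.Basic Cfsg.Agent.H26.BP Cfsg.Agent.H10.BlockLoc Cfsg.Agent.H10.BlockIdem
  Cfsg.Agent.H10.BlockKer Cfsg.Agent.H10.BlockOrth Cfsg.Agent.H10.BlockSMT2 Cfsg.Agent.H26.Ex1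
  Cfsg.Agent.H26.Ex2
open scoped ComplexConjugate

theorem arith_odd {a2 a3 δ : ℤ} (h2 : a2 = 1 ∨ a2 = -1) (h3 : a3 = 1 ∨ a3 = -1)
    (hδ : δ = 1 ∨ δ = -1) {f2 f3 f : ℕ} (p2 : 0 < f2) (p3 : 0 < f3) (pf : 0 < f) {x2 x3 x : ℤ}
    (E1 : (1 : ℤ) + a2 * f2 + a3 * f3 - δ * f = 0) (E2 : 1 + a2 * x2 + a3 * x3 - δ * x = 0)
    (E3 : (1 : ℚ) + a2 * (x2 ^ 2 / f2) + a3 * (x3 ^ 2 / f3) - δ * (x ^ 2 / f) = 0)
    (n2 : x2 ≠ f2) (n3 : x3 ≠ f3) (n : x ≠ f) :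
    ((a2 = -1 ∧ a3 = -1 ∧ δ = -1) ∨ (a2 = -1 ∧ a3 = 1 ∧ δ = 1) ∨ (a2 = 1 ∧ a3 = -1 ∧ δ = 1)) ∧
      IsSquare (f * (f2 * f3)) := by
  have q2 : (f2 : ℚ) ≠ 0 := by exact_mod_cast p2.ne'
  have q3 : (f3 : ℚ) ≠ 0 := by exact_mod_cast p3.ne'
  have qf : (f : ℚ) ≠ 0 := by exact_mod_cast pf.ne'
  obtain ⟨r1, hr1⟩ : ∃ r1 : ℚ, r1 = x2 / f2 := ⟨_, rfl⟩
  obtain ⟨r2, hr2⟩ : ∃ r2 : ℚ, r2 = x3 / f3 := ⟨_, rfl⟩
  obtain ⟨r3, hr3⟩ : ∃ r3 : ℚ, r3 = x / f := ⟨_, rfl⟩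
  have e1 : (x2 : ℚ) = r1 * f2 := by rw [hr1]; field_simp
  have e2 : (x3 : ℚ) = r2 * f3 := by rw [hr2]; field_simp
  have e3 : (x : ℚ) = r3 * f := by rw [hr3]; field_simp
  have E1' : (1 : ℚ) + a2 * f2 + a3 * f3 - δ * f = 0 := by exact_mod_cast E1
  have E2' : (1 : ℚ) + a2 * (r1 * f2) + a3 * (r2 * f3) - δ * (r3 * f) = 0 := by
    rw [← e1, ← e2, ← e3]; exact_mod_cast E2
  have E3' : (1 : ℚ) + a2 * f2 * r1 ^ 2 + a3 * f3 * r2 ^ 2 - δ * f * r3 ^ 2 = 0 := by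
    rw [e1, e2, e3] at E3
    have a1 : (r1 * (f2 : ℚ)) ^ 2 / f2 = f2 * r1 ^ 2 := by field_simp
    have a2' : (r2 * (f3 : ℚ)) ^ 2 / f3 = f3 * r2 ^ 2 := by field_simp
    have a3' : (r3 * (f : ℚ)) ^ 2 / f = f * r3 ^ 2 := by field_simp
    rw [a1, a2', a3'] at E3
    linarith
  have m1 : r1 ≠ 1 := by
    intro h; apply n2
    rw [h, one_mul] at e1; exact_mod_cast e1
  have m2 : r2 ≠ 1 := by
    intro h; apply n3
    rw [h, one_mul] at e2; exact_mod_cast e2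
  have m3 : r3 ≠ 1 := by
    intro h; apply n
    rw [h, one_mul] at e3; exact_mod_cast e3
  have L1 : (1 - r2) * (1 - r3) + (a2 * f2) * ((r1 - r2) * (r1 - r3)) = 0 := by
    linear_combination E3' - (r2 + r3) * E2' + r2 * r3 * E1'
  have L2 : (1 - r1) * (1 - r3) + (a3 * f3) * ((r2 - r1) * (r2 - r3)) = 0 := by
    linear_combination E3' - (r1 + r3) * E2' + r1 * r3 * E1'
  have L3 : (1 - r1) * (1 - r2) + (-δ * f) * ((r3 - r1) * (r3 - r2)) = 0 := by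
    linear_combination E3' - (r1 + r2) * E2' + r1 * r2 * E1'
  obtain ⟨D, hD⟩ : ∃ D : ℚ, D = (r1 - r2) * (r1 - r3) * (r2 - r3) := ⟨_, rfl⟩
  obtain ⟨E, hE⟩ : ∃ E : ℚ, E = (1 - r1) * (1 - r2) * (1 - r3) := ⟨_, rfl⟩
  have key : (-(a2 * a3 * δ) * (f * (f2 * f3)) : ℚ) * D ^ 2 = E ^ 2 := by
    have k1 : (a2 * f2 : ℚ) * ((r1 - r2) * (r1 - r3)) = - ((1 - r2) * (1 - r3)) := by linarith
    have k2 : (a3 * f3 : ℚ) * ((r2 - r1) * (r2 - r3)) = - ((1 - r1) * (1 - r3)) := by linarith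
    have k3 : (-δ * f : ℚ) * ((r3 - r1) * (r3 - r2)) = - ((1 - r1) * (1 - r2)) := by linarith
    have k4 : ((a2 * f2 : ℚ) * ((r1 - r2) * (r1 - r3))) * ((a3 * f3 : ℚ) * ((r2 - r1) * (r2 - r3))) *
        ((-δ * f : ℚ) * ((r3 - r1) * (r3 - r2))) =
        (- ((1 - r2) * (1 - r3))) * (- ((1 - r1) * (1 - r3))) * (- ((1 - r1) * (1 - r2))) := by
      rw [k1, k2, k3]
    rw [hD, hE]
    linear_combination (-1) * k4
  have hE0 : E ≠ 0 := by
    rw [hE]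
    exact mul_ne_zero (mul_ne_zero (sub_ne_zero.2 m1.symm) (sub_ne_zero.2 m2.symm))
      (sub_ne_zero.2 m3.symm)
  have hD0 : D ≠ 0 := by
    intro h
    rw [h] at key
    apply hE0
    have : E ^ 2 = 0 := by rw [← key]; ring
    exact pow_eq_zero_iff (two_ne_zero) |>.1 this
  have hF : (0 : ℚ) < f * (f2 * f3) := by positivity
  have hsign : (0 : ℚ) < -(a2 * a3 * δ) := by
    by_contra h
    push Not at h
    have h5 : (-(a2 * a3 * δ) * (f * (f2 * f3)) : ℚ) * D ^ 2 ≤ 0 :=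
      mul_nonpos_of_nonpos_of_nonneg (mul_nonpos_of_nonpos_of_nonneg h hF.le) (sq_nonneg _)
    have h6 : 0 < E ^ 2 := by positivity
    linarith
  have hsign' : 0 < -(a2 * a3 * δ) := by exact_mod_cast hsign
  refine ⟨?_, ?_⟩
  · have p2' : (0 : ℤ) < f2 := by exact_mod_cast p2
    have p3' : (0 : ℤ) < f3 := by exact_mod_cast p3
    have pf' : (0 : ℤ) < f := by exact_mod_cast pf
    rcases h2 with rfl | rfl <;> rcases h3 with rfl | rfl <;> rcases hδ with rfl | rfl <;>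
      first
      | (exfalso; revert hsign'; norm_num; done)
      | (exfalso; linarith)
      | norm_num
  · have hone : (-(a2 * a3 * δ) : ℚ) = 1 := by
      clear key hsign E1 E2 E3 E1' E2' E3' L1 L2 L3
      rcases h2 with rfl | rfl <;> rcases h3 with rfl | rfl <;> rcases hδ with rfl | rfl <;>
        first
        | (exfalso; revert hsign'; norm_num; done)
        | norm_num
    rw [hone, one_mul] at key
    rw [← Rat.isSquare_natCast_iff]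
    refine ⟨E / D, ?_⟩
    push_cast
    field_simp
    linarith

theorem arith_two {a2 a3 δ : ℤ} (h2 : a2 = 1 ∨ a2 = -1) (h3 : a3 = 1 ∨ a3 = -1)
    (hδ : δ = 1 ∨ δ = -1) {c f2 f3 f : ℕ} (hc : 16 ≤ c) (p2 : 0 < f2) (p3 : 0 < f3) (pf : 0 < f)
    (c2 : ∃ n : ℤ, (f2 : ℤ) = c * n + a2) (c3 : ∃ n : ℤ, (f3 : ℤ) = c * n + a3)
    (cf : ∃ n : ℤ, (f : ℤ) = c * n + 3 * δ)
    (n2 : (f2 : ℤ) ≠ a2) (n3 : (f3 : ℤ) ≠ a3)
    (E : (1 : ℚ) + a2 * (1 / f2) + a3 * (1 / f3) - δ * (9 / f) = 0) : False := by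
  have big : ∀ {f : ℕ} {b : ℤ}, 0 < f → (b = 1 ∨ b = -1) → (∃ n : ℤ, (f : ℤ) = c * n + b) →
      (f : ℤ) ≠ b → 15 ≤ f := by
    intro f b pf hb hn hne
    obtain ⟨n, hn⟩ := hn
    have hcz : (16 : ℤ) ≤ c := by exact_mod_cast hc
    have hfz : (0 : ℤ) < f := by exact_mod_cast pf
    have hn0 : n ≠ 0 := by rintro rfl; apply hne; rw [hn]; ring
    have hn1 : 1 ≤ n := by
      by_contra h
      have h4 : n ≤ -1 := by omega
      have : (c : ℤ) * n ≤ -16 := by nlinarith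
      rcases hb with h | h <;> rw [h] at hn <;> linarith
    have : (16 : ℤ) ≤ c * n := by nlinarith
    have h5 : (15 : ℤ) ≤ f := by
      rcases hb with h | h <;> rw [h] at hn <;> linarith
    exact_mod_cast h5
  have b2 : (15 : ℚ) ≤ f2 := by exact_mod_cast big p2 h2 c2 n2
  have b3 : (15 : ℚ) ≤ f3 := by exact_mod_cast big p3 h3 c3 n3
  have i2 : (1 : ℚ) / f2 ≤ 1 / 15 := one_div_le_one_div_of_le (by norm_num) b2
  have i3 : (1 : ℚ) / f3 ≤ 1 / 15 := one_div_le_one_div_of_le (by norm_num) b3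
  have j2 : (0 : ℚ) < 1 / f2 := by positivity
  have j3 : (0 : ℚ) < 1 / f3 := by positivity
  have pfq : (0 : ℚ) < f := by exact_mod_cast pf
  have k2 : -(1 / 15 : ℚ) ≤ a2 * (1 / f2) ∧ (a2 * (1 / f2) : ℚ) ≤ 1 / 15 := by
    rcases h2 with h | h <;> rw [h] <;> push_cast <;> constructor <;> linarith
  have k3 : -(1 / 15 : ℚ) ≤ a3 * (1 / f3) ∧ (a3 * (1 / f3) : ℚ) ≤ 1 / 15 := by
    rcases h3 with h | h <;> rw [h] <;> push_cast <;> constructor <;> linarith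
  have k9 : (0 : ℚ) < 9 / f := by positivity
  rcases hδ with h | h
  · rw [h] at E cf
    push_cast at E
    obtain ⟨n, hn⟩ := cf
    have e9 : (9 : ℚ) / f = 1 + a2 * (1 / f2) + a3 * (1 / f3) := by linarith
    have l1 : (13 / 15 : ℚ) ≤ 9 / f := by rw [e9]; linarith [k2.1, k3.1]
    have l2 : (9 / f : ℚ) ≤ 17 / 15 := by rw [e9]; linarith [k2.2, k3.2]
    rw [le_div_iff₀ pfq] at l1
    rw [div_le_iff₀ pfq] at l2
    have u1 : f < 11 := by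
      have : (f : ℚ) < 11 := by linarith
      exact_mod_cast this
    have u2 : 7 < f := by
      have : (7 : ℚ) < f := by linarith
      exact_mod_cast this
    have hcz : (16 : ℤ) ≤ c := by exact_mod_cast hc
    have u1' : (f : ℤ) < 11 := by exact_mod_cast u1
    have u2' : (7 : ℤ) < f := by exact_mod_cast u2
    rcases lt_trichotomy n 0 with h4 | h4 | h4
    · have : (c : ℤ) * n ≤ -16 := by nlinarith
      linarith
    · rw [h4] at hn; linarith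
    · have : (16 : ℤ) ≤ c * n := by nlinarith
      linarith
  · rw [h] at E
    push_cast at E
    linarith [k2.1, k3.1]

end Cfsg.Agent.H26.Ex3
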