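import Mathlib
import Cfsg.Agent.H26_Ex7

/-! Products of conjugates of an involution in the sections of the Sylow subgroup. -/

set_option autoImplicit false

namespace Cfsg.Agent.H26.Ex3

open Cfsg Cfsg.Agent.H3.CharIrr Cfsg.Agent.H3.CharComplete Cfsg.Agent.H3.CharInd
  Cfsg.Agent.H26.Basic Cfsg.Agent.H26.BP Cfsg.Agent.H10.BlockLoc Cfsg.Agent.H10.BlockIdem
  Cfsg.Agent.H10.BlockKer Cfsg.Agent.H10.BlockOrth Cfsg.Agent.H10.BlockSMT2 Cfsg.Agent.H26.Ex1
  Cfsg.Agent.H26.Ex2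
open scoped ComplexConjugate

theorem ppart_inv {G : Type*} [Group G] {p : ℕ} {g x : G} (h : IsPPart p g x) :
    IsPPart p g⁻¹ x⁻¹ := by
  obtain ⟨y, hy, hc, hk, hn⟩ := h
  refine ⟨y⁻¹, ?_, hc.inv_inv, by simpa using hk, by simpa using hn⟩
  rw [← hy, hc.eq, mul_inv_rev]

/-- if `h = t₁ t₂` is a product of two involutions then `t₁` inverts the `p`-part of `h` -/
theorem inverts {G : Type*} [Group G] [Finite G] {p : ℕ} [Fact p.Prime] {h z t₁ t₂ : G}
    (h1 : t₁ * t₁ = 1) (h2 : t₂ * t₂ = 1) (hh : t₁ * t₂ = h) (hz : IsPPart p h z) :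
    t₁ * z * t₁⁻¹ = z⁻¹ := by
  have e1 : t₁⁻¹ = t₁ := by rw [inv_eq_iff_mul_eq_one]; exact h1
  have e2 : t₂⁻¹ = t₂ := by rw [inv_eq_iff_mul_eq_one]; exact h2
  have e3 : t₁ * h * t₁⁻¹ = h⁻¹ := by
    rw [← hh, mul_inv_rev, e1, e2]
    have : t₁ * (t₁ * t₂) * t₁ = (t₁ * t₁) * t₂ * t₁ := by group
    rw [this, h1, one_mul]
  have h3 := Cfsg.Agent.H10.PPart.conj_ppart hz t₁
  rw [e3] at h3
  exact Cfsg.Agent.H10.PPart.ppart_unique h3 (ppart_inv hz)

variable {G : Type*} [Group G] [Fintype G] {p : ℕ} [hp : Fact p.Prime] {M : Ideal AlgInt}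
  {P : Subgroup G} {a : P →* P}

theorem conj_sq {t : G} (ht : t * t = 1) (b : G) : (b * t * b⁻¹) * (b * t * b⁻¹) = 1 := by
  calc (b * t * b⁻¹) * (b * t * b⁻¹) = b * (t * t) * b⁻¹ := by group
    _ = 1 := by rw [ht]; group

open Classical in
theorem F0 [Fintype (IrrCharacter G)] (hM : IsPModular p M) {t x : G}
    (hx : ∃ k : ℕ, orderOf x = p ^ k)
    (hno : ∀ u z : G, IsPPart p u z → IsConj x z → ∀ b c : G, b * t * b⁻¹ * (c * t * c⁻¹) ≠ u⁻¹) :
    ∑ χ : IrrCharacter G, (if χ ∈ principalBlock M G then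
      (χ : G → ℂ) x * ((χ : G → ℂ) t ^ 2 / (χ : G → ℂ) 1) else 0) = 0 := by
  haveI := hM.2.1
  have hBP : IsPBlock M (principalBlock M G) := principal_isPBlock
  set f : G → ℂ := ∑ χ : IrrCharacter G, ((χ : G → ℂ) t ^ 2 / (χ : G → ℂ) 1) • (χ : G → ℂ) with hf
  have hfc : IsClassFunction G f := isClass_sum _ _ fun χ _ => isClass_smul _ _ (IsIrr.isClass χ.2)
  have h0 : ∀ u z : G, IsPPart p u z → IsConj x z → f u = 0 := by
    intro u z hu hyz
    have h1 := Cfsg.Agent.H3.CharCalc.class_mult t t u⁻¹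
    have h2 : (Finset.univ.filter (fun p : G × G => p.1 * t * p.1⁻¹ * (p.2 * t * p.2⁻¹) = u⁻¹)) = ∅ := by
      rw [Finset.filter_eq_empty_iff]
      rintro ⟨b, c⟩ _ hab
      exact hno u z hu hyz b c hab
    rw [h2, Finset.card_empty, Nat.cast_zero] at h1
    have h3 := (mul_eq_zero.1 h1.symm).resolve_left card_cast_ne_zero
    rw [hf, Finset.sum_apply]
    refine (Finset.sum_congr rfl fun χ _ => ?_).trans h3
    rw [Pi.smul_apply, smul_eq_mul, ← inv_eq, inv_inv]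
    ring
  have h1 := section_vanish hM hfc hx h0 hBP (isPPart_self hp.out hx) (IsConj.refl x)
  rw [blockPart_eq_sum] at h1
  refine (Finset.sum_congr rfl fun χ _ => ?_).trans h1
  rw [hf, ci_sum_irr]
  split_ifs
  · ring
  · rfl

/-- characters with `t` in the kernel -/
theorem ker_ne {t : G} (htop : ∀ K : Subgroup G, K.Normal → t ∈ K → K = ⊤) {χ : IrrCharacter G}
    (hχt : χ ≠ triv G) : (χ : G → ℂ) t ≠ (χ : G → ℂ) 1 := by
  intro h
  have htop' := htop (Cfsg.Agent.H26.Kernel.kerS (χ : G → ℂ) (IsIrr.isCharacter χ.2))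
    (Cfsg.Agent.H26.Kernel.kerS_normal _ _) (by rw [Cfsg.Agent.H26.Kernel.mem_kerS]; exact h)
  apply hχt
  apply Subtype.ext
  have h2 : (χ : G → ℂ) = fun _ => (χ : G → ℂ) 1 := by
    funext g
    exact (Cfsg.Agent.H26.Kernel.mem_kerS _ g).1 (by rw [htop']; exact Subgroup.mem_top g)
  by_contra hne
  have h3 := ci_irr_ne χ.2 (triv G).2 hne
  rw [classInner] at h3
  have h4 : ∑ g : G, (χ : G → ℂ) g * (starRingEnd ℂ) (((triv G : IrrCharacter G) : G → ℂ) g) =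
      (Nat.card G : ℂ) * (χ : G → ℂ) 1 := by
    simp_rw [triv_coe, map_one, mul_one]
    rw [h2]
    simp
  rw [h4] at h3
  have h5 := one_ne χ
  have h6 : (Nat.card G : ℂ) ≠ 0 := card_cast_ne_zero
  rw [inv_mul_cancel_left₀ h6] at h3
  exact h5 h3

variable [Fintype (IrrCharacter G)]

/-- a nontrivial element of `P` conjugate to its inverse is an involution -/
theorem real_inv (D : Dat p M P a) {y : P} (h : IsConj (y : G) ((y⁻¹ : P) : G)) : y⁻¹ = y := by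
  rcases D.fus y y⁻¹ h with h1 | h1 | h1
  · exact h1
  · have h2 : a (a y) = y := by
      rw [← h1, map_inv, ← h1, inv_inv]
    have := D.ne2 h2
    rw [this]; simp
  · have h2 : a (a (a (a y))) = y := by
      rw [← h1, map_inv, map_inv, ← h1, inv_inv]
    rw [D.a3] at h2
    have := D.fp y h2
    rw [this]; simp

theorem no_prod_odd (D : Dat p M P a) (hp2 : p ≠ 2) {t : G} (ht : t * t = 1) {y : P} (hy : y ≠ 1) :
    ∀ u z : G, IsPPart p u z → IsConj (y : G) z → ∀ b c : G,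
      b * t * b⁻¹ * (c * t * c⁻¹) ≠ u⁻¹ := by
  intro u z hu hyz b c h
  have h1 := inverts (p := p) (conj_sq ht b) (conj_sq ht c) h (ppart_inv hu)
  obtain ⟨g, hg⟩ := isConj_iff.1 hyz
  have h2 : IsConj (y : G) ((y⁻¹ : P) : G) := by
    rw [isConj_iff]
    refine ⟨g⁻¹ * (b * t * b⁻¹) * g, ?_⟩
    rw [Subgroup.coe_inv]
    have e1 : (b * t * b⁻¹) * z * (b * t * b⁻¹)⁻¹ = z⁻¹ := by
      have := congrArg (·⁻¹) h1
      simp only [inv_inv] at this
      rw [← this]; group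
    calc g⁻¹ * (b * t * b⁻¹) * g * y * (g⁻¹ * (b * t * b⁻¹) * g)⁻¹ =
          g⁻¹ * ((b * t * b⁻¹) * (g * y * g⁻¹) * (b * t * b⁻¹)⁻¹) * g := by group
      _ = g⁻¹ * (g * y * g⁻¹)⁻¹ * g := by rw [hg, e1]
      _ = _ := by group
  have h3 := real_inv D h2
  have h4 : y * y = 1 := by
    calc y * y = y * y⁻¹ := by rw [h3]
      _ = 1 := mul_inv_cancel y
  have h5 : orderOf (y : G) ∣ 2 := by
    apply orderOf_dvd_of_pow_eq_one
    rw [pow_two]; exact congrArg Subtype.val h4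
  have h6 := psing D hy
  have h7 := (Nat.prime_dvd_prime_iff_eq hp.out Nat.prime_two).1 (h6.trans h5)
  exact hp2 h7

theorem prod_three (D : Dat p M P a) (τ : P) : τ * a τ * a (a τ) = 1 := by
  apply D.fp
  rw [map_mul, map_mul, D.a3, D.ab (a τ * a (a τ)) τ, mul_assoc]

end Cfsg.Agent.H26.Ex3
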