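import Mathlib
import Cfsg.Agent.H26_Ex8

/-! The prime two. -/

set_option autoImplicit false

namespace Cfsg.Agent.H26.Ex3

open Cfsg Cfsg.Agent.H3.CharIrr Cfsg.Agent.H3.CharComplete Cfsg.Agent.H3.CharInd
  Cfsg.Agent.H26.Basic Cfsg.Agent.H26.BP Cfsg.Agent.H10.BlockLoc Cfsg.Agent.H10.BlockIdem
  Cfsg.Agent.H10.BlockKer Cfsg.Agent.H10.BlockOrth Cfsg.Agent.H10.BlockSMT2 Cfsg.Agent.H26.Ex1
  Cfsg.Agent.H26.Ex2
open scoped ComplexConjugate

variable {G : Type*} [Group G] [Fintype G] {M : Ideal AlgInt}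
  {P : Subgroup G} {a : P →* P} [Fintype (IrrCharacter G)]

theorem sq_eq (D : Dat 2 M P a) {τ q q' : P} (hτ : τ * τ = 1)
    (h : q = τ ∨ q = a τ ∨ q = a (a τ)) (h' : q' = τ ∨ q' = a τ ∨ q' = a (a τ)) :
    q * q' = 1 ∨ q * q' = τ ∨ q * q' = a τ ∨ q * q' = a (a τ) := by
  have e3 := prod_three D τ
  have s1 : a τ * a τ = 1 := by rw [← map_mul, hτ, map_one]
  have s2 : a (a τ) * a (a τ) = 1 := by rw [← map_mul, s1, map_one]
  have i2 : (a (a τ))⁻¹ = a (a τ) := inv_eq_of_mul_eq_one_left s2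
  have m1 : τ * a τ = a (a τ) := by rw [← i2]; exact eq_inv_of_mul_eq_one_left e3
  have m2 : a τ * a (a τ) = τ := by rw [← map_mul, m1, D.a3]
  have m3 : a (a τ) * τ = a τ := by
    have := congrArg a m2
    rw [map_mul, D.a3] at this
    exact this
  have m1' : a τ * τ = a (a τ) := by rw [D.ab]; exact m1
  have m2' : a (a τ) * a τ = τ := by rw [D.ab]; exact m2
  have m3' : τ * a (a τ) = a τ := by rw [D.ab]; exact m3
  rcases h with h | h | h <;> rcases h' with h' | h' | h' <;> rw [h, h']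
  · exact Or.inl hτ
  · exact Or.inr (Or.inr (Or.inr m1))
  · exact Or.inr (Or.inr (Or.inl m3'))
  · exact Or.inr (Or.inr (Or.inr m1'))
  · exact Or.inl s1
  · exact Or.inr (Or.inl m2)
  · exact Or.inr (Or.inr (Or.inl m3))
  · exact Or.inr (Or.inl m2')
  · exact Or.inl s2

theorem no_prod_two (D : Dat 2 M P a)
    (hloc : ∀ y : P, y ≠ 1 → ∃ L : Subgroup (Subgroup.centralizer ({(y : G)} : Set G)), L.Normal ∧
      ¬ 2 ∣ Nat.card L ∧ Subgroup.IsComplement' L (P.subgroupOf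
        (Subgroup.centralizer ({(y : G)} : Set G))) ∧ ∀ g, g ∈ L ↔ ¬ 2 ∣ orderOf g)
    {τ y : P} (hτ : τ * τ = 1) (hy1 : y ≠ 1) (hy2 : y ≠ τ) (hy3 : y ≠ a τ) (hy4 : y ≠ a (a τ)) :
    ∀ u z : G, IsPPart 2 u z → IsConj (y : G) z → ∀ b c : G,
      b * τ * b⁻¹ * (c * τ * c⁻¹) ≠ u⁻¹ := by
  classical
  haveI : Fact (Nat.Prime 2) := ⟨Nat.prime_two⟩
  intro u z hu hyz b c h
  obtain ⟨g, hg⟩ := isConj_iff.1 hyz
  have hτG : (τ : G) * τ = 1 := congrArg Subtype.val hτ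
  obtain ⟨s, hs⟩ : ∃ s, s = (g⁻¹ * b) * τ * (g⁻¹ * b)⁻¹ := ⟨_, rfl⟩
  obtain ⟨s', hs'⟩ : ∃ s', s' = (g⁻¹ * c) * τ * (g⁻¹ * c)⁻¹ := ⟨_, rfl⟩
  obtain ⟨u', hu'⟩ : ∃ u', u' = g⁻¹ * u * g := ⟨_, rfl⟩
  have hss : s * s = 1 := by rw [hs]; exact conj_sq hτG _
  have hss' : s' * s' = 1 := by rw [hs']; exact conj_sq hτG _
  have hcs : IsConj (τ : G) s := isConj_iff.2 ⟨_, hs.symm⟩
  have hcs' : IsConj (τ : G) s' := isConj_iff.2 ⟨_, hs'.symm⟩
  have hprod : s * s' = u'⁻¹ := by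
    rw [hs, hs', hu']
    calc (g⁻¹ * b) * τ * (g⁻¹ * b)⁻¹ * ((g⁻¹ * c) * τ * (g⁻¹ * c)⁻¹) =
          g⁻¹ * (b * τ * b⁻¹ * (c * τ * c⁻¹)) * g := by group
      _ = g⁻¹ * u⁻¹ * g := by rw [h]
      _ = _ := by group
  have hpp : IsPPart 2 u' (y : G) := by
    have h1 := Cfsg.Agent.H10.PPart.conj_ppart hu g⁻¹
    rw [inv_inv, ← hu'] at h1
    have e : g⁻¹ * z * g = y := by rw [← hg]; group
    rwa [e] at h1
  have h1 := inverts (p := 2) hss hss' hprod (ppart_inv hpp)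
  rw [inv_inv] at h1
  have h2 : IsConj (y : G) ((y⁻¹ : P) : G) := by
    rw [isConj_iff]
    refine ⟨s, ?_⟩
    rw [Subgroup.coe_inv]
    have h3 : s * (y : G) * s⁻¹ = (y : G)⁻¹ := by
      have h4 : (s * (y : G)⁻¹ * s⁻¹)⁻¹ = (y : G)⁻¹ := by rw [h1]
      rw [← h4]; group
    exact h3
  have hyi := real_inv D h2
  have hyiG : (y : G)⁻¹ = y := congrArg Subtype.val hyi
  rw [hyiG] at h1
  have hsC : s ∈ Subgroup.centralizer ({(y : G)} : Set G) := by
    rw [Subgroup.mem_centralizer_singleton_iff]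
    rwa [mul_inv_eq_iff_eq_mul] at h1
  obtain ⟨w, hw1, hw2, hw3, hw4⟩ := hpp
  have hwC : w ∈ Subgroup.centralizer ({(y : G)} : Set G) := by
    rw [Subgroup.mem_centralizer_singleton_iff]
    exact hw2.eq.symm
  have hyC : (y : G) ∈ Subgroup.centralizer ({(y : G)} : Set G) := by
    rw [Subgroup.mem_centralizer_singleton_iff]
  have huC : u' ∈ Subgroup.centralizer ({(y : G)} : Set G) := by
    rw [← hw1]; exact Subgroup.mul_mem _ hyC hwC
  have hs'C : s' ∈ Subgroup.centralizer ({(y : G)} : Set G) := by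
    have : s' = s⁻¹ * u'⁻¹ := by rw [← hprod]; group
    rw [this]
    exact Subgroup.mul_mem _ (Subgroup.inv_mem _ hsC) (Subgroup.inv_mem _ huC)
  have hL0 := hloc y hy1
  obtain ⟨C, hC⟩ : ∃ C : Subgroup G, C = Subgroup.centralizer ({(y : G)} : Set G) := ⟨_, rfl⟩
  rw [← hC] at hL0 hsC hwC hyC huC hs'C
  obtain ⟨L, hLn, hLp, hLc, hL⟩ := hL0
  have hPC : P ≤ C := by
    intro x hx
    rw [hC, Subgroup.mem_centralizer_singleton_iff]
    exact congrArg Subtype.val (D.ab ⟨x, hx⟩ y)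
  obtain ⟨π, hπ⟩ : ∃ π : C →* C ⧸ L, ∀ g, g ∈ L ↔ π g = 1 :=
    ⟨QuotientGroup.mk' L, fun g => (QuotientGroup.eq_one_iff g).symm⟩
  have hint : ∀ x : C, x ∈ L → (x : G) ∈ P → x = 1 := by
    intro x hx hxP
    have h3 := hLc.disjoint
    rw [Subgroup.disjoint_def] at h3
    exact h3 hx (Subgroup.mem_subgroupOf.2 hxP)
  have claim : ∀ r : C, r * r = 1 → IsConj (τ : G) (r : G) → ∃ q : P, (q = τ ∨ q = a τ ∨
      q = a (a τ)) ∧ π r = π ⟨q, hPC q.2⟩ := by
    intro r hr hcr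
    obtain ⟨⟨l, q⟩, hlq⟩ := hLc.2 r
    have hlq' : (l : C) * q = r := hlq
    have hqP : ((q : C) : G) ∈ P := Subgroup.mem_subgroupOf.1 q.2
    have hπr : π r = π q := by
      rw [← hlq', map_mul, (hπ _).1 l.2, one_mul]
    have hq2 : (q : C) * q = 1 := by
      apply hint
      · rw [hπ, map_mul, ← hπr, ← map_mul, hr, map_one]
      · exact P.mul_mem hqP hqP
    have hrq : r * (q : C) = l := by
      rw [← hlq', mul_assoc, hq2, mul_one]
    have hodd : Odd (orderOf (r * (q : C))) := by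
      rw [hrq, Nat.odd_iff]
      have := (hL l).1 l.2
      omega
    obtain ⟨k, -, hk⟩ := Cfsg.Agent.H26.FG.conj_of_odd hr hq2 hodd
    have hcq : IsConj (τ : G) (((q : C) : G)) := by
      refine hcr.trans ?_
      rw [isConj_iff]
      refine ⟨(k : G)⁻¹, ?_⟩
      rw [hk]
      push_cast
      group
    exact ⟨⟨q, hqP⟩, D.fus τ ⟨q, hqP⟩ hcq, hπr⟩
  obtain ⟨q, hq, hqπ⟩ := claim ⟨s, hsC⟩ (Subtype.ext hss) hcs
  obtain ⟨q', hq', hqπ'⟩ := claim ⟨s', hs'C⟩ (Subtype.ext hss') hcs'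
  have hwL : (⟨w, hwC⟩ : C) ∈ L := by
    rw [hL, Subgroup.orderOf_mk]; exact hw4
  have e1 : (⟨s, hsC⟩ : C) * ⟨s', hs'C⟩ = (⟨w, hwC⟩ : C)⁻¹ * ⟨y, hyC⟩ := by
    apply Subtype.ext
    change s * s' = w⁻¹ * y
    rw [hprod, ← hw1, mul_inv_rev, hyiG]
  have e2 : π (⟨q, hPC q.2⟩ * ⟨q', hPC q'.2⟩) = π ⟨y, hyC⟩ := by
    rw [map_mul, ← hqπ, ← hqπ', ← map_mul, e1, map_mul, map_inv, (hπ _).1 hwL, inv_one, one_mul]
  have e3 : ((⟨q, hPC q.2⟩ : C) * ⟨q', hPC q'.2⟩) * (⟨y, hyC⟩ : C)⁻¹ = 1 := by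
    apply hint
    · rw [hπ, map_mul, e2, map_inv, mul_inv_cancel]
    · exact P.mul_mem (P.mul_mem q.2 q'.2) (P.inv_mem y.2)
  have e4 : q * q' = y := by
    apply Subtype.ext
    have := congrArg Subtype.val (mul_inv_eq_one.1 e3)
    exact this
  rcases sq_eq D hτ hq hq' with h5 | h5 | h5 | h5 <;> rw [e4] at h5
  · exact hy1 h5
  · exact hy2 h5
  · exact hy3 h5
  · exact hy4 h5

/-- a linear character trivial on the three involutions -/
theorem exists_triv (D : Dat 2 M P a) {τ : P} (hτ : τ * τ = 1) (hτ1 : τ ≠ 1) :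
    ∃ ψ : P →* ℂˣ, ψ ≠ 1 ∧ ψ τ = 1 ∧ ψ (a τ) = 1 ∧ ψ (a (a τ)) = 1 := by
  classical
  haveI : Fintype (P →* ℂˣ) := Fintype.ofFinite _
  by_contra hcon
  push Not at hcon
  have m1 : τ * a τ = a (a τ) := by
    have s1 : a τ * a τ = 1 := by rw [← map_mul, hτ, map_one]
    have s2 : a (a τ) * a (a τ) = 1 := by rw [← map_mul, s1, map_one]
    have i2 : (a (a τ))⁻¹ = a (a τ) := inv_eq_of_mul_eq_one_left s2
    rw [← i2]; exact eq_inv_of_mul_eq_one_left (prod_three D τ)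
  have n1 : a τ ≠ 1 := fun h => hτ1 (D.inj (by rw [h, map_one]))
  have n2 : a (a τ) ≠ 1 := fun h => n1 (D.inj (by rw [h, map_one]))
  have hpm : ∀ (ψ : P →* ℂˣ) (x : P), x * x = 1 → (ψ x : ℂ) = 1 ∨ (ψ x : ℂ) = -1 := by
    intro ψ x hx
    have h1 : ((ψ x : ℂˣ) : ℂ) * (ψ x : ℂˣ) = 1 := by
      rw [← Units.val_mul, ← map_mul, hx, map_one, Units.val_one]
    exact mul_self_eq_one_iff.1 h1
  have hsum : ∑ ψ : P →* ℂˣ, ((1 + (ψ τ : ℂ)) * (1 + (ψ (a τ) : ℂ))) = Nat.card P := by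
    have e : ∀ ψ : P →* ℂˣ, ((1 + (ψ τ : ℂ)) * (1 + (ψ (a τ) : ℂ))) = ((ψ 1 : ℂˣ) : ℂ) + (ψ τ : ℂ) +
        (ψ (a τ) : ℂ) + (ψ (a (a τ)) : ℂ) := by
      intro ψ
      have h1 : ((ψ (a (a τ)) : ℂˣ) : ℂ) = (ψ τ : ℂ) * (ψ (a τ) : ℂ) := by
        rw [← m1, map_mul, Units.val_mul]
      rw [h1, map_one, Units.val_one]; ring
    simp_rw [e]
    rw [Finset.sum_add_distrib, Finset.sum_add_distrib, Finset.sum_add_distrib, sum_hom D.ab,
      sum_hom D.ab, sum_hom D.ab, sum_hom D.ab, if_pos rfl, if_neg hτ1, if_neg n1, if_neg n2]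
    ring
  rw [Finset.sum_eq_single 1] at hsum
  · have h1 : (Nat.card P : ℂ) = 4 := by
      rw [← hsum]
      simp only [MonoidHom.one_apply, Units.val_one]; norm_num
    have h2 : Nat.card P = 4 := by exact_mod_cast h1
    have := D.big
    omega
  · intro ψ _ hψ
    rcases hpm ψ τ hτ with h1 | h1
    · rcases hpm ψ (a τ) (by rw [← map_mul, hτ, map_one]) with h2 | h2
      · exfalso
        have h1' : ψ τ = 1 := Units.ext h1
        have h2' : ψ (a τ) = 1 := Units.ext h2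
        apply hcon ψ hψ h1' h2'
        rw [← m1, map_mul, h1', h2', one_mul]
      · rw [h2]; ring
    · rw [h1]; ring
  · intro h; exact absurd (Finset.mem_univ _) h

open Classical in
theorem relF' {p : ℕ} [hp : Fact p.Prime] {X2 X3 : IrrCharacter G} {a2 a3 δ : ℤ}
    {z : (P →* ℂˣ) → IrrCharacter G}
    (O : Out M P a X2 X3 a2 a3 δ z) (D : Dat p M P a) (F : IrrCharacter G → ℂ) {ψ : P →* ℂˣ}
    (hF : ∀ y : P, ψ y ≠ 1 → ∑ χ : IrrCharacter G, (if χ ∈ principalBlock M G then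
      (χ : G → ℂ) y * F χ else 0) = 0) (hψ : ψ ≠ 1) :
    F (triv G) + a2 * F X2 + a3 * F X3 - δ * F (z ψ) = 0 := by
  haveI := D.hM.2.1
  haveI : Fintype P := Fintype.ofFinite P
  have ht : (triv G : IrrCharacter G) ∈ principalBlock M G := triv_mem
  have h : ∑ χ : IrrCharacter G, (if χ ∈ principalBlock M G then (v P χ ψ : ℂ) * F χ else 0) = 0 := by
    have h1 : ∀ χ : IrrCharacter G, (if χ ∈ principalBlock M G then (v P χ ψ : ℂ) * F χ else 0) =
        ∑ y : P, ((Nat.card P : ℂ)⁻¹ * conj (1 - ((ψ y : ℂˣ) : ℂ))) *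
          (if χ ∈ principalBlock M G then (χ : G → ℂ) y * F χ else 0) := by
      intro χ
      split_ifs
      · rw [v_eq, Finset.mul_sum, Finset.sum_mul]
        refine Finset.sum_congr rfl fun y _ => by ring
      · simp
    simp_rw [h1]
    rw [Finset.sum_comm]
    apply Finset.sum_eq_zero
    intro y _
    rw [← Finset.mul_sum]
    by_cases hy : ψ y = 1
    · rw [hy, Units.val_one, sub_self, map_zero, mul_zero, zero_mul]
    · rw [hF y hy, mul_zero]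
  have h1 : ∀ χ : IrrCharacter G, (if χ ∈ principalBlock M G then (v P χ ψ : ℂ) * F χ else 0) =
      (if χ = triv G then F (triv G) else 0) + (if χ = X2 then a2 * F X2 else 0) +
        (if χ = X3 then a3 * F X3 else 0) - (if χ = z ψ then δ * F (z ψ) else 0) := by
    intro χ
    have hmz := O.mz ψ hψ
    by_cases hχ : χ ∈ principalBlock M G
    · rw [if_pos hχ, O.val χ hχ ψ hψ]
      push_cast
      rw [sub_mul, add_mul, add_mul]
      congr 1
      · congr 1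
        · congr 1
          · split_ifs with h2
            · rw [h2]; ring
            · ring
          · split_ifs with h2
            · rw [h2]
            · ring
        · split_ifs with h2
          · rw [h2]
          · ring
      · split_ifs with h2
        · rw [h2]
        · ring
    · rw [if_neg hχ, if_neg (fun h2 => hχ (by rw [h2]; exact ht)),
        if_neg (fun h2 => hχ (by rw [h2]; exact O.m2.1)),
        if_neg (fun h2 => hχ (by rw [h2]; exact O.m3.1)),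
        if_neg (fun h2 => hχ (by rw [h2]; exact hmz.1))]
      ring
  simp_rw [h1] at h
  rw [Finset.sum_sub_distrib, Finset.sum_add_distrib, Finset.sum_add_distrib, Finset.sum_ite_eq',
    Finset.sum_ite_eq', Finset.sum_ite_eq', Finset.sum_ite_eq'] at h
  simpa using h

end Cfsg.Agent.H26.Ex3
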