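import Mathlib
import Cfsg.Agent.H26_Ex9

/-! Counting exceptional characters; the case of the prime two is void. -/

set_option autoImplicit false

namespace Cfsg.Agent.H26.Ex3

open Cfsg Cfsg.Agent.H3.CharIrr Cfsg.Agent.H3.CharComplete Cfsg.Agent.H3.CharInd
  Cfsg.Agent.H26.Basic Cfsg.Agent.H26.BP Cfsg.Agent.H10.BlockLoc Cfsg.Agent.H10.BlockIdem
  Cfsg.Agent.H10.BlockKer Cfsg.Agent.H10.BlockOrth Cfsg.Agent.H10.BlockSMT2 Cfsg.Agent.H26.Ex1
  Cfsg.Agent.H26.Ex2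
open scoped ComplexConjugate

variable {G : Type*} [Group G] [Fintype G] {p : ℕ} [hp : Fact p.Prime] {M : Ideal AlgInt}
  {P : Subgroup G} {a : P →* P} [Fintype (IrrCharacter G)]
  {X2 X3 : IrrCharacter G} {a2 a3 δ : ℤ} {z : (P →* ℂˣ) → IrrCharacter G}

theorem Out.card_Y (O : Out M P a X2 X3 a2 a3 δ z) (D : Dat p M P a) :
    Set.ncard {χ : IrrCharacter G | ∃ ψ, ψ ≠ 1 ∧ χ = z ψ} * 3 = Nat.card P - 1 := by
  classical
  haveI : Fintype (P →* ℂˣ) := Fintype.ofFinite _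
  have h1 : {χ : IrrCharacter G | ∃ ψ, ψ ≠ 1 ∧ χ = z ψ} =
      (((Finset.univ : Finset (P →* ℂˣ)).erase 1).image z : Finset (IrrCharacter G)) := by
    ext χ
    simp only [Set.mem_setOf_eq, Finset.coe_image, Set.mem_image, Finset.mem_coe,
      Finset.mem_erase, Finset.mem_univ, and_true]
    constructor
    · rintro ⟨ψ, h, rfl⟩; exact ⟨ψ, h, rfl⟩
    · rintro ⟨ψ, h, rfl⟩; exact ⟨ψ, h, rfl⟩
  rw [h1, Set.ncard_coe_finset, ← card_erase D, Finset.card_eq_sum_card_image z, mul_comm]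
  rw [Finset.sum_const_nat (m := 3), mul_comm]
  intro χ hχ
  obtain ⟨ψ, hψ, rfl⟩ := Finset.mem_image.1 hχ
  rw [Finset.mem_erase] at hψ
  have h2 : (((Finset.univ : Finset (P →* ℂˣ)).erase 1).filter (fun φ => z φ = z ψ)) = cls a ψ := by
    ext φ
    rw [Finset.mem_filter, Finset.mem_erase, mem_cls D]
    constructor
    · rintro ⟨⟨h, -⟩, h'⟩
      exact (O.inj ψ φ hψ.1 h).1 h'.symm
    · intro h
      have hφ := cls_ne_one D hψ.1 h
      exact ⟨⟨hφ, Finset.mem_univ _⟩, ((O.inj ψ φ hψ.1 hφ).2 h).symm⟩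
  rw [h2, card_cls D hψ.1]

theorem sixteen {M : Ideal AlgInt} (D : Dat 2 M P a) (h3 : 3 ∣ Nat.card P - 1) :
    16 ≤ Nat.card P := by
  haveI : Fact (Nat.Prime 2) := ⟨Nat.prime_two⟩
  obtain ⟨n, hn⟩ := IsPGroup.iff_card.1 D.pg
  have hb := D.big
  rw [hn] at hb h3 ⊢
  have h4 : 4 ≤ n := by
    by_contra h
    have : n ≤ 3 := by omega
    interval_cases n <;> simp at hb h3
  calc 16 = 2 ^ 4 := by norm_num
    _ ≤ _ := Nat.pow_le_pow_right (by norm_num) h4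

theorem exists_hom_ne (D : Dat p M P a) : ∃ ψ : P →* ℂˣ, ψ ≠ 1 := by
  have hb := D.big
  haveI : Nontrivial P := by
    rw [← Finite.one_lt_card_iff_nontrivial]; omega
  obtain ⟨y, hy⟩ := exists_ne (1 : P)
  obtain ⟨ψ, hψ⟩ := exists_hom D.ab hy
  exact ⟨ψ, fun h => hψ (by rw [h]; rfl)⟩

/-- the case of the prime two -/
theorem two_false {M : Ideal AlgInt} (D : Dat 2 M P a) (O : Out M P a X2 X3 a2 a3 δ z)
    (hloc : ∀ y : P, y ≠ 1 → ∃ L : Subgroup (Subgroup.centralizer ({(y : G)} : Set G)), L.Normal ∧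
      ¬ 2 ∣ Nat.card L ∧ Subgroup.IsComplement' L (P.subgroupOf
        (Subgroup.centralizer ({(y : G)} : Set G))) ∧ ∀ g, g ∈ L ↔ ¬ 2 ∣ orderOf g)
    (τ : P) (hτ : orderOf (τ : G) = 2)
    (htop : ∀ K : Subgroup G, K.Normal → (τ : G) ∈ K → K = ⊤) : False := by
  classical
  haveI : Fact (Nat.Prime 2) := ⟨Nat.prime_two⟩
  have hτG : (τ : G) * τ = 1 := by rw [← pow_two, ← hτ, pow_orderOf_eq_one]
  have hττ : τ * τ = 1 := Subtype.ext hτG
  have hτ1 : τ ≠ 1 := by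
    rintro rfl
    rw [Subgroup.coe_one, orderOf_one] at hτ
    omega
  obtain ⟨ψ, hψ, t1, t2, t3⟩ := exists_triv D hττ hτ1
  have h1 := relF' O D (fun χ => (χ : G → ℂ) τ ^ 2 / (χ : G → ℂ) 1) (ψ := ψ) (by
    intro y hy
    have y1 : y ≠ 1 := fun h => hy (by rw [h, map_one])
    have y2 : y ≠ τ := fun h => hy (by rw [h, t1])
    have y3 : y ≠ a τ := fun h => hy (by rw [h, t2])
    have y4 : y ≠ a (a τ) := fun h => hy (by rw [h, t3])
    exact F0 D.hM (pel D y) (no_prod_two D hloc hττ y1 y2 y3 y4)) hψ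
  have e2 := O.val2 D hτ1
  have e3 := O.val3 D hτ1
  have ez : (z ψ : G → ℂ) τ = δ * 3 := by
    rw [O.valz D hψ hτ1]
    congr 1
    have n1 : ψ.comp a ≠ ψ := fun h => hψ (D.fix1 h)
    have n2 : (ψ.comp a).comp a ≠ ψ := fun h => hψ (D.fix2 h)
    have n3 : (ψ.comp a).comp a ≠ ψ.comp a := fun h => (comp_ne_one D hψ) (D.fix1 h)
    rw [cls, Finset.sum_insert, Finset.sum_insert, Finset.sum_singleton]
    · simp only [MonoidHom.comp_apply]
      rw [t1, t2, t3, Units.val_one]; norm_num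
    · rw [Finset.mem_singleton]; exact n3.symm
    · rw [Finset.mem_insert, Finset.mem_singleton]
      rintro (h | h)
      · exact n1 h.symm
      · exact n2 h.symm
  have sq2 : (a2 : ℂ) ^ 2 = 1 := by
    rcases O.s2 with h | h <;> rw [h] <;> norm_num
  have sq3 : (a3 : ℂ) ^ 2 = 1 := by
    rcases O.s3 with h | h <;> rw [h] <;> norm_num
  have sqd : (δ : ℂ) ^ 2 = 1 := by
    rcases O.sd with h | h <;> rw [h] <;> norm_num
  simp only [e2, e3, ez, triv_coe, sq2, sq3, mul_pow, sqd] at h1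
  rw [← cd_eq, ← cd_eq, ← cd_eq] at h1
  have h2 : ((1 + a2 * (1 / (charDegree (X2 : G → ℂ))) + a3 * (1 / (charDegree (X3 : G → ℂ))) -
      δ * (9 / (charDegree (z ψ : G → ℂ))) : ℚ) : ℂ) = 0 := by
    push_cast
    rw [← h1]
    norm_num
  have h3 : (1 : ℚ) + a2 * (1 / (charDegree (X2 : G → ℂ))) + a3 * (1 / (charDegree (X3 : G → ℂ))) -
      δ * (9 / (charDegree (z ψ : G → ℂ))) = 0 := by exact_mod_cast h2
  refine arith_two O.s2 O.s3 O.sd (sixteen D ⟨_, by rw [← O.card_Y D, mul_comm]⟩) (cd_pos X2)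
    (cd_pos X3) (cd_pos (z ψ)) (O.deg2 D) (O.deg3 D) (O.degz D hψ) ?_ ?_ h3
  · intro h
    apply ker_ne htop O.m2.2
    rw [e2, ← cd_eq, ← h]; norm_num
  · intro h
    apply ker_ne htop O.m3.2
    rw [e3, ← cd_eq, ← h]; norm_num

/-- odd primes -/
theorem odd_main (D : Dat p M P a) (O : Out M P a X2 X3 a2 a3 δ z) (hp2 : p ≠ 2) {t : G}
    (ht : orderOf t = 2) (htop : ∀ K : Subgroup G, K.Normal → t ∈ K → K = ⊤)
    {ψ : P →* ℂˣ} (hψ : ψ ≠ 1) :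
    ((a2 = -1 ∧ a3 = -1 ∧ δ = -1) ∨ (a2 = -1 ∧ a3 = 1 ∧ δ = 1) ∨ (a2 = 1 ∧ a3 = -1 ∧ δ = 1)) ∧
      IsSquare (charDegree (z ψ : G → ℂ) * (charDegree (X2 : G → ℂ) * charDegree (X3 : G → ℂ))) := by
  classical
  haveI := D.hM.2.1
  have htt : t * t = 1 := by rw [← pow_two, ← ht, pow_orderOf_eq_one]
  have hpt : ¬ p ∣ orderOf t := by
    rw [ht]
    intro h
    exact hp2 ((Nat.prime_dvd_prime_iff_eq hp.out Nat.prime_two).1 h)
  have hp1 : ¬ p ∣ orderOf (1 : G) := by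
    rw [orderOf_one]
    exact fun h => hp.out.one_lt.ne' (Nat.dvd_one.1 h)
  have hBP : IsPBlock M (principalBlock M G) := principal_isPBlock
  have R1 := O.relF D (fun χ => (χ : G → ℂ) 1)
    (fun y hy => weak_orth' D.hM hBP 1 (y : G) hp1 (psing D hy)) hψ
  have R2 := O.relF D (fun χ => (χ : G → ℂ) t)
    (fun y hy => weak_orth' D.hM hBP t (y : G) hpt (psing D hy)) hψ
  have R3 := O.relF D (fun χ => (χ : G → ℂ) t ^ 2 / (χ : G → ℂ) 1)
    (fun y hy => F0 D.hM (pel D y) (no_prod_odd D hp2 htt hy)) hψ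
  obtain ⟨x2, hx2⟩ := Cfsg.Agent.H10.BlockV4.invol_int' X2 ht
  obtain ⟨x3, hx3⟩ := Cfsg.Agent.H10.BlockV4.invol_int' X3 ht
  obtain ⟨x, hx⟩ := Cfsg.Agent.H10.BlockV4.invol_int' (z ψ) ht
  simp only [hx2, hx3, hx, triv_coe] at R1 R2 R3
  rw [← cd_eq, ← cd_eq, ← cd_eq] at R1 R3
  refine arith_odd O.s2 O.s3 O.sd (cd_pos X2) (cd_pos X3) (cd_pos (z ψ)) (x2 := x2) (x3 := x3)
    (x := x) ?_ ?_ ?_ ?_ ?_ ?_
  · exact_mod_cast R1
  · exact_mod_cast R2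
  · have h2 : ((1 + a2 * (x2 ^ 2 / (charDegree (X2 : G → ℂ))) + a3 * (x3 ^ 2 / (charDegree (X3 : G → ℂ))) -
      δ * (x ^ 2 / (charDegree (z ψ : G → ℂ))) : ℚ) : ℂ) = 0 := by
      push_cast
      rw [← R3]
      norm_num
    exact_mod_cast h2
  · intro h
    apply ker_ne htop O.m2.2
    rw [hx2, ← cd_eq, h]; norm_num
  · intro h
    apply ker_ne htop O.m3.2
    rw [hx3, ← cd_eq, h]; norm_num
  · intro h
    apply ker_ne htop (O.mz ψ hψ).2.1
    rw [hx, ← cd_eq, h]; norm_num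

end Cfsg.Agent.H26.Ex3
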