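import Mathlib
import Cfsg.Prelude.Def_Characters
import Cfsg.Agent.H26_Ext3
import Cfsg.Agent.H25_Orbit
import Cfsg.Agent.H25_Glaub
import Cfsg.Agent.H25_BrauerP
import Cfsg.Agent.H1_Basic

/-!
# H26_Ext4: Dade's detection by elementary subgroups
-/

set_option autoImplicit false

namespace Cfsg.Agent.H26.Ext4

open Cfsg Cfsg.Agent.H3.CharIrr Cfsg.Agent.H3.CharComplete Cfsg.Agent.H3.CharInd Cfsg.Agent.H3.CharInt
  Cfsg.Agent.H3.Clifford Cfsg.Agent.H3.CharMult Cfsg.Agent.H26.Basic Cfsg.Agent.H26.Ext1 Cfsg.Agent.H26.Ext2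
  Cfsg.Agent.H3.Lift Cfsg.Agent.H10.Char Cfsg.Agent.H25.Glaub Cfsg.Agent.H25.GlaubCore Cfsg.Agent.H25.Orbit
  Cfsg.Agent.H25.BrauerP

open scoped ComplexConjugate

section fixed

variable {Γ : Type*} [Group Γ] [Finite Γ] {p : ℕ} [hp : Fact p.Prime]

theorem exists_fixed {D S : Subgroup Γ} (hn : ∀ s ∈ S, ∀ g ∈ D, s * g * s⁻¹ ∈ D) (hS : IsPGroup p S)
    [Fintype (IrrCharacter D)] (a : IrrCharacter D → ℤ)
    (ha : ∀ s ∈ S, ∀ φ φ' : IrrCharacter D, (∀ g g' : D, (g' : Γ) = s * g * s⁻¹ → (φ' : D → ℂ) g' = (φ : D → ℂ) g) → a φ' = a φ)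
    (h : ¬ (p : ℤ) ∣ ∑ φ, a φ) : ∃ φ : IrrCharacter D, TInv S (φ : D → ℂ) ∧ ¬ (p : ℤ) ∣ a φ := by
  classical
  haveI : Fintype D := Fintype.ofFinite _
  letI i1 := conjAct D S hn
  letI i2 := irrAct D S
  have hF : ∀ (g : S) (x : IrrCharacter D), a (g • x) = a x := by
    intro s φ
    apply ha s s.2 φ (s • φ)
    intro g g' hg
    show (φ : D → ℂ) (s⁻¹ • g') = _
    refine congrArg (φ : D → ℂ) (Subtype.ext ?_)
    show ((s⁻¹ : S) : Γ) * (g' : Γ) * ((s⁻¹ : S) : Γ)⁻¹ = g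
    rw [hg]
    simp only [Subgroup.coe_inv]
    group
  obtain ⟨y, -, hy⟩ := sum_fixed hS a hF
  by_contra hcon
  push Not at hcon
  apply h
  have h1 : (p : ℤ) ∣ ∑ x ∈ Finset.univ.filter (fun x : IrrCharacter D => ∀ g : S, g • x = x), a x := by
    apply Finset.dvd_sum
    intro φ hφ
    apply hcon
    rw [tinv_iff hn, inv_iff]
    exact (Finset.mem_filter.1 hφ).2
  have h2 : ∑ x, a x = p • y + ∑ x ∈ Finset.univ.filter (fun x : IrrCharacter D => ∀ g : S, g • x = x), a x := by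
    rw [← hy, sub_add_cancel]
  rw [h2]
  exact dvd_add (by rw [nsmul_eq_mul]; exact dvd_mul_right _ _) h1

end fixed

section main

variable {G : Type*} [Group G] [Fintype G] {p : ℕ} [hp : Fact p.Prime]

open scoped Classical in
/-- `|ϑ|²` on `N`, extended by zero -/
noncomputable def Phi (N : Subgroup G) (ϑ : N → ℂ) : G → ℂ :=
  fun g => if h : g ∈ N then ϑ ⟨g, h⟩ * conj (ϑ ⟨g, h⟩) else 0

theorem Phi_mem {N : Subgroup G} {ϑ : N → ℂ} {g : G} (h : g ∈ N) : Phi N ϑ g = ϑ ⟨g, h⟩ * conj (ϑ ⟨g, h⟩) := by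
  rw [Phi, dif_pos h]

theorem Phi_not {N : Subgroup G} {ϑ : N → ℂ} {g : G} (h : g ∉ N) : Phi N ϑ g = 0 := by
  rw [Phi, dif_neg h]

theorem Phi_conj {N : Subgroup G} {ϑ : N → ℂ} (g : G) : conj (Phi N ϑ g) = Phi N ϑ g := by
  by_cases h : g ∈ N
  · rw [Phi_mem h, map_mul, Complex.conj_conj, mul_comm]
  · rw [Phi_not h, map_zero]

theorem Phi_class {N : Subgroup G} [hN : N.Normal] {ϑ : N → ℂ}
    (hinv : ∀ (g : G) (n : N), ϑ ⟨g * n * g⁻¹, hN.conj_mem (n : G) n.2 g⟩ = ϑ n) : IsClassFunction G (Phi N ϑ) := by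
  intro g x
  by_cases h : g ∈ N
  · rw [Phi_mem h, Phi_mem (hN.conj_mem g h x), hinv x ⟨g, h⟩]
  · rw [Phi_not h, Phi_not (fun h' => h ?_)]
    have := hN.conj_mem _ h' x⁻¹
    have e : x⁻¹ * (x * g * x⁻¹) * x⁻¹⁻¹ = g := by group
    rwa [e] at this

/-- restriction of a function on `N` to `E ⊓ N` -/
def rD {N : Subgroup G} (E : Subgroup G) (ϑ : N → ℂ) : ↥(E ⊓ N) → ℂ := fun x => ϑ ⟨x, x.2.2⟩

def rE {N : Subgroup G} (E : Subgroup G) (ψ : E → ℂ) : ↥(E ⊓ N) → ℂ := fun x => ψ ⟨x, x.2.1⟩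

theorem rD_char {N : Subgroup G} (E : Subgroup G) {ϑ : N → ℂ} (h : IsCharacter N ϑ) : IsCharacter ↥(E ⊓ N) (rD E ϑ) :=
  IsChar.comp h (Subgroup.inclusion inf_le_right)

theorem rE_char {N : Subgroup G} (E : Subgroup G) {ψ : E → ℂ} (h : IsCharacter E ψ) : IsCharacter ↥(E ⊓ N) (rE E ψ) :=
  IsChar.comp h (Subgroup.inclusion inf_le_left)

theorem sum_ind {N : Subgroup G} [hN : N.Normal] {ϑ : N → ℂ}
    (hinv : ∀ (g : G) (n : N), ϑ ⟨g * n * g⁻¹, hN.conj_mem (n : G) n.2 g⟩ = ϑ n) (E : Subgroup G) [Fintype ↥(E ⊓ N)]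
    (ψ : E → ℂ) :
    (Nat.card N : ℂ)⁻¹ * ∑ g, indFun E ψ g * Phi N ϑ g =
      ((E ⊔ N).index : ℂ) * classInner (rE E ψ * rD E ϑ) (rD E ϑ) := by
  classical
  haveI : Fintype E := Fintype.ofFinite _
  have h1 := Cfsg.Agent.H25.Brauer.frobenius E ψ (Phi N ϑ) (Phi_class hinv)
  have hG0 : (Nat.card G : ℂ) ≠ 0 := by exact_mod_cast Nat.card_pos.ne'
  have hN0 : (Nat.card N : ℂ) ≠ 0 := by exact_mod_cast Nat.card_pos.ne'
  have hE0 : (Nat.card E : ℂ) ≠ 0 := by exact_mod_cast Nat.card_pos.ne'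
  have hD0 : (Nat.card ↥(E ⊓ N) : ℂ) ≠ 0 := by exact_mod_cast Nat.card_pos.ne'
  rw [classInner, classInner] at h1
  simp_rw [Phi_conj] at h1
  have h2 : ∑ g, indFun E ψ g * Phi N ϑ g = (Nat.card G : ℂ) * ((Nat.card E : ℂ)⁻¹ * ∑ x : E, ψ x * Phi N ϑ x) := by
    rw [← h1]; field_simp
  have h3 : ∑ x : E, ψ x * Phi N ϑ x = ∑ x : ↥(E ⊓ N), rE E ψ x * rD E ϑ x * conj (rD E ϑ x) := by
    rw [← Finset.sum_filter_add_sum_filter_not Finset.univ (fun x : E => (x : G) ∈ N)]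
    rw [Finset.sum_eq_zero (s := Finset.univ.filter (fun x : E => ¬ (x : G) ∈ N)), add_zero]
    · symm
      apply Finset.sum_bij (fun (x : ↥(E ⊓ N)) _ => (⟨x, x.2.1⟩ : E))
      · intro a _
        rw [Finset.mem_filter]; exact ⟨Finset.mem_univ _, a.2.2⟩
      · intro a _ b _ hab
        exact Subtype.ext (congrArg (fun x : E => (x : G)) hab)
      · intro b hb
        exact ⟨⟨b, b.2, (Finset.mem_filter.1 hb).2⟩, Finset.mem_univ _, rfl⟩
      · intro a _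
        rw [Phi_mem a.2.2]
        show ψ _ * ϑ _ * conj (ϑ _) = _
        ring
    · intro x hx
      rw [Phi_not (Finset.mem_filter.1 hx).2, mul_zero]
  have hcard : (Nat.card G : ℂ) * Nat.card ↥(E ⊓ N) = ((E ⊔ N).index : ℂ) * Nat.card E * Nat.card N := by
    have e1 : Nat.card (E ⊔ N : Subgroup G) * Nat.card (E ⊓ N : Subgroup G) = Nat.card E * Nat.card N :=
      Cfsg.Agent.H1.Basic.card_sup_mul_card_inf (by rw [Subgroup.normalizer_eq_top]; exact le_top)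
    have e2 := (E ⊔ N).index_mul_card
    have e3 : Nat.card G * Nat.card ↥(E ⊓ N) = (E ⊔ N).index * Nat.card E * Nat.card N := by
      rw [← e2, mul_assoc, e1, mul_assoc]
    exact_mod_cast e3
  rw [h2, h3, classInner]
  simp only [Pi.mul_apply]
  have h4 : (Nat.card G : ℂ) = ((E ⊔ N).index : ℂ) * Nat.card E * Nat.card N / Nat.card ↥(E ⊓ N) := by
    rw [eq_div_iff hD0, hcard]
  rw [h4]
  field_simp

theorem conj_res_iff {E N : Subgroup G} [hN : N.Normal] {s : G} (hs : s ∈ E) {φ φ' : IrrCharacter ↥(E ⊓ N)}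
    [Fintype ↥(E ⊓ N)]
    (h : ∀ g g' : ↥(E ⊓ N), (g' : G) = s * g * s⁻¹ → (φ' : ↥(E ⊓ N) → ℂ) g' = (φ : ↥(E ⊓ N) → ℂ) g)
    {F : ↥(E ⊓ N) → ℂ} (hF : ∀ g g' : ↥(E ⊓ N), (g' : G) = s * g * s⁻¹ → F g' = F g) :
    classInner F (φ' : ↥(E ⊓ N) → ℂ) = classInner F (φ : ↥(E ⊓ N) → ℂ) := by
  let e : ↥(E ⊓ N) ≃ ↥(E ⊓ N) :=
    { toFun := fun g => ⟨s * g * s⁻¹, E.mul_mem (E.mul_mem hs g.2.1) (E.inv_mem hs), hN.conj_mem _ g.2.2 s⟩
      invFun := fun g => ⟨s⁻¹ * g * s, E.mul_mem (E.mul_mem (E.inv_mem hs) g.2.1) hs, by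
        have := hN.conj_mem _ g.2.2 s⁻¹
        rwa [inv_inv] at this⟩
      left_inv := fun g => Subtype.ext (by simp; group)
      right_inv := fun g => Subtype.ext (by simp; group) }
  rw [classInner, classInner, ← Equiv.sum_comp e]
  congr 1
  refine Finset.sum_congr rfl fun g _ => ?_
  rw [h g (e g) rfl, hF g (e g) rfl]

/-- Dade's detection theorem -/
theorem detect (N : Subgroup G) [hN : N.Normal] (hind : ∃ k : ℕ, N.index = p ^ k) (ϑ : N → ℂ)
    (hϑ : IsIrrCharacter N ϑ)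
    (hinv : ∀ (g : G) (n : N), ϑ ⟨g * n * g⁻¹, hN.conj_mem (n : G) n.2 g⟩ = ϑ n) :
    ∃ (E : Subgroup G) (φ : IrrCharacter ↥(E ⊓ N)), IsElementary p E ∧ E ⊔ N = ⊤ ∧
      (∀ (g : G) (hg : g ∈ E) (x : ↥(E ⊓ N)), (φ : ↥(E ⊓ N) → ℂ) ⟨g * x * g⁻¹, ⟨(E.mul_mem (E.mul_mem hg x.2.1) (E.inv_mem hg)), hN.conj_mem (x : G) x.2.2 g⟩⟩ = (φ : ↥(E ⊓ N) → ℂ) x) ∧
      ∃ m : ℕ, ¬ p ∣ m ∧ ∀ [Fintype ↥(E ⊓ N)], classInner (rD E ϑ) (φ : ↥(E ⊓ N) → ℂ) = (m : ℂ) := by
  classical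
  haveI : Fintype N := Fintype.ofFinite _
  by_contra hcon
  -- every induced character gives a multiple of p
  have key : ∀ (E : Subgroup G) (ψ : E → ℂ), IsElementary p E → IsCharacter E ψ →
      ∃ z : ℤ, (Nat.card N : ℂ)⁻¹ * ∑ g, indFun E ψ g * Phi N ϑ g = (p : ℂ) * z := by
    intro E ψ hE hψ
    haveI : Fintype E := Fintype.ofFinite _
    haveI : Fintype ↥(E ⊓ N) := Fintype.ofFinite _
    haveI : Fintype (IrrCharacter ↥(E ⊓ N)) := Fintype.ofFinite _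
    rw [sum_ind hinv]
    have hϑD := rD_char E (IsIrr.isCharacter hϑ)
    have hprod := IsChar.mul (rE_char (N := N) E hψ) hϑD
    obtain ⟨n1, hn1, -⟩ := IsChar.eq_sum_nat hϑD
    obtain ⟨n2, hn2, -⟩ := IsChar.eq_sum_nat hprod
    have hsum : classInner (rE E ψ * rD E ϑ) (rD E ϑ) = ((∑ φ, (n2 φ * n1 φ : ℤ) : ℤ) : ℂ) := by
      rw [ci_eq_sum _ _ (IsChar.isClass hprod)]
      push_cast
      refine Finset.sum_congr rfl fun φ _ => ?_
      rw [hn2, hn1, Complex.conj_natCast]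
    by_cases hidx : p ∣ (E ⊔ N).index
    · obtain ⟨c, hc⟩ := hidx
      refine ⟨c * ∑ φ, (n2 φ * n1 φ : ℤ), ?_⟩
      rw [hsum, hc]; push_cast; ring
    · have htop : E ⊔ N = ⊤ := by
        rw [← Subgroup.index_eq_one]
        obtain ⟨k, hk⟩ := hind
        have h1 : (E ⊔ N).index ∣ p ^ k := by rw [← hk]; exact Subgroup.index_dvd_of_le le_sup_right
        obtain ⟨i, -, hi⟩ := (Nat.dvd_prime_pow hp.out).1 h1
        rcases Nat.eq_zero_or_pos i with rfl | hi0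
        · rw [hi, pow_zero]
        · exact absurd (by rw [hi]; exact dvd_pow_self p hi0.ne') hidx
      rw [hsum, htop, Subgroup.index_top]
      by_contra hz
      have hnd : ¬ (p : ℤ) ∣ ∑ φ, (n2 φ * n1 φ : ℤ) := by
        rintro ⟨z, hz'⟩
        exact hz ⟨z, by rw [hz']; push_cast; ring⟩
      -- the Sylow subgroup of E
      obtain ⟨x, hxc, hxo, k, hxk⟩ := hE
      obtain ⟨S⟩ : Nonempty (Sylow p E) := inferInstance
      have hES : (S : Subgroup E) ⊔ Subgroup.zpowers x = ⊤ := by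
        rw [← Subgroup.index_eq_one]
        have h1 : ((S : Subgroup E) ⊔ Subgroup.zpowers x).index ∣ p ^ k := by
          rw [← hxk]; exact Subgroup.index_dvd_of_le le_sup_right
        have h2 : ((S : Subgroup E) ⊔ Subgroup.zpowers x).index ∣ (S : Subgroup E).index := Subgroup.index_dvd_of_le le_sup_left
        have h3 : ¬ p ∣ (S : Subgroup E).index := S.not_dvd_index
        obtain ⟨i, -, hi⟩ := (Nat.dvd_prime_pow hp.out).1 h1
        rcases Nat.eq_zero_or_pos i with rfl | hi0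
        · rw [hi, pow_zero]
        · exact absurd ((by rw [hi]; exact dvd_pow_self p hi0.ne' : p ∣ _).trans h2) h3
      have hS' : IsPGroup p ((S : Subgroup E).map E.subtype) := S.isPGroup'.map _
      have hSE : (S : Subgroup E).map E.subtype ≤ E := Subgroup.map_subtype_le _
      have hn : ∀ s ∈ (S : Subgroup E).map E.subtype, ∀ g ∈ E ⊓ N, s * g * s⁻¹ ∈ E ⊓ N := fun s hs g hg =>
        ⟨E.mul_mem (E.mul_mem (hSE hs) hg.1) (E.inv_mem (hSE hs)), hN.conj_mem _ hg.2 s⟩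
      have hrD : ∀ s ∈ E, ∀ g g' : ↥(E ⊓ N), (g' : G) = s * g * s⁻¹ → rD E ϑ g' = rD E ϑ g := by
        intro s hs g g' hg
        have := hinv s ⟨g, g.2.2⟩
        rw [rD, rD, ← this]
        exact congrArg ϑ (Subtype.ext hg)
      have hrE : ∀ s ∈ E, ∀ g g' : ↥(E ⊓ N), (g' : G) = s * g * s⁻¹ → rE (N := N) E ψ g' = rE E ψ g := by
        intro s hs g g' hg
        have := IsChar.isClass hψ ⟨g, g.2.1⟩ ⟨s, hs⟩
        rw [rE, rE, ← this]
        exact congrArg ψ (Subtype.ext hg)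
      obtain ⟨φ, hφ, hpφ⟩ := exists_fixed hn hS' (fun φ => (n2 φ * n1 φ : ℤ)) (by
        intro s hs φ φ' h
        have h1 := conj_res_iff (hN := hN) (hSE hs) h (hrD s (hSE hs))
        have h2 := conj_res_iff (hN := hN) (F := rE E ψ * rD E ϑ) (hSE hs) h (fun g g' hg => by
          rw [Pi.mul_apply, Pi.mul_apply, hrD s (hSE hs) g g' hg, hrE s (hSE hs) g g' hg])
        rw [hn1, hn1] at h1
        rw [hn2, hn2] at h2
        have h1' : n1 φ' = n1 φ := by exact_mod_cast h1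
        have h2' : n2 φ' = n2 φ := by exact_mod_cast h2
        simp only [h1', h2']) hnd
      apply hcon
      refine ⟨E, φ, ⟨x, hxc, hxo, k, hxk⟩, htop, ?_, n1 φ, ?_, ?_⟩
      · intro g hg y
        have h1 : (⟨g, hg⟩ : E) ∈ (S : Subgroup E) ⊔ Subgroup.zpowers x := by rw [hES]; exact Subgroup.mem_top _
        haveI : (Subgroup.zpowers x).Normal := ⟨fun a ha b => by
          have hac : a ∈ Subgroup.center E := (Subgroup.zpowers_le.2 hxc) ha
          have := Subgroup.mem_center_iff.1 hac b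
          rw [this, mul_inv_cancel_right]; exact ha⟩
        obtain ⟨s, hs, z, hz, hsz⟩ := Subgroup.mem_sup_of_normal_right.1 h1
        have hzc : z ∈ Subgroup.center E := (Subgroup.zpowers_le.2 hxc) hz
        have hzy := Subgroup.mem_center_iff.1 hzc ⟨y, y.2.1⟩
        have hzy' : (y : G) * z = z * y := congrArg Subtype.val hzy
        apply hφ s ⟨s, hs, rfl⟩
        show g * y * g⁻¹ = s * y * (s : G)⁻¹
        have hg' : g = (s : G) * z := (congrArg Subtype.val hsz).symm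
        rw [hg']
        calc (s : G) * z * y * ((s : G) * z)⁻¹ = s * (z * y) * (z : G)⁻¹ * (s : G)⁻¹ := by group
          _ = s * (y * z) * (z : G)⁻¹ * (s : G)⁻¹ := by rw [hzy']
          _ = _ := by group
      · intro hd
        apply hpφ
        exact Dvd.dvd.mul_left (Int.natCast_dvd_natCast.2 hd) _
      · intro inst
        rw [← hn1 φ]
        congr 1
        exact Subsingleton.elim _ _
  -- the closure argument
  have hall : ∀ v ∈ VP p G, ∃ z : ℤ, (Nat.card N : ℂ)⁻¹ * ∑ g, v g * Phi N ϑ g = (p : ℂ) * z := by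
    intro v hv
    induction hv using AddSubgroup.closure_induction with
    | mem x hx => obtain ⟨E, ψ, hE, hψ, rfl⟩ := hx; exact key E ψ hE hψ
    | zero => exact ⟨0, by simp⟩
    | add x y _ _ hx hy =>
      obtain ⟨a, ha⟩ := hx
      obtain ⟨b, hb⟩ := hy
      refine ⟨a + b, ?_⟩
      have : ∑ g, (x + y) g * Phi N ϑ g = ∑ g, x g * Phi N ϑ g + ∑ g, y g * Phi N ϑ g := by
        rw [← Finset.sum_add_distrib]
        exact Finset.sum_congr rfl fun g _ => by rw [Pi.add_apply, add_mul]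
      rw [this, mul_add, ha, hb]; push_cast; ring
    | neg x _ hx =>
      obtain ⟨a, ha⟩ := hx
      refine ⟨-a, ?_⟩
      have : ∑ g, (-x) g * Phi N ϑ g = - ∑ g, x g * Phi N ϑ g := by
        rw [← Finset.sum_neg_distrib]
        exact Finset.sum_congr rfl fun g _ => by rw [Pi.neg_apply, neg_mul]
      rw [this, mul_neg, ha]; push_cast; ring
  obtain ⟨z, hz⟩ := hall _ (prime_part_mem_VP p)
  set m := Nat.card G / p ^ (Nat.card G).factorization p with hm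
  have hself : (Nat.card N : ℂ)⁻¹ * ∑ g, Phi N ϑ g = 1 := by
    rw [← ci_irr_self hϑ, classInner]
    congr 1
    rw [← Finset.sum_filter_add_sum_filter_not Finset.univ (fun x : G => x ∈ N)]
    rw [Finset.sum_eq_zero (s := Finset.univ.filter (fun x : G => ¬ x ∈ N)), add_zero]
    · symm
      apply Finset.sum_bij (fun (x : N) _ => (x : G))
      · intro a _
        rw [Finset.mem_filter]; exact ⟨Finset.mem_univ _, a.2⟩
      · intro a _ b _ hab
        exact Subtype.ext hab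
      · intro b hb
        exact ⟨⟨b, (Finset.mem_filter.1 hb).2⟩, Finset.mem_univ _, rfl⟩
      · intro a _
        rw [Phi_mem a.2]
    · intro x hx
      rw [Phi_not (Finset.mem_filter.1 hx).2]
  have h5 : (m : ℂ) = (p : ℂ) * z := by
    rw [← hz, ← Finset.mul_sum, ← mul_assoc, mul_comm _ (m : ℂ), mul_assoc, hself, mul_one]
  have h6 : (m : ℤ) = p * z := by exact_mod_cast h5
  have h7 : ¬ p ∣ m := Nat.not_dvd_ordCompl hp.out Nat.card_pos.ne'
  exact h7 (Int.natCast_dvd_natCast.1 ⟨z, h6⟩)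

end main

end Cfsg.Agent.H26.Ext4
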