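import Mathlib
import Cfsg.Prelude.Def_Characters
import Cfsg.Agent.H26_Ext4

/-!
# H26_Ext5: extension from a supplement (determinants on isotypic components)
-/

set_option autoImplicit false

namespace Cfsg.Agent.H26.Ext5

open Cfsg Cfsg.Agent.H3.CharIrr Cfsg.Agent.H3.CharComplete Cfsg.Agent.H3.CharInd Cfsg.Agent.H3.CharInt
  Cfsg.Agent.H3.Clifford Cfsg.Agent.H3.CharMult Cfsg.Agent.H26.Basic Cfsg.Agent.H26.Ext1 Cfsg.Agent.H26.Ext2
  Cfsg.Agent.H26.Ext3 Cfsg.Agent.H3.Lift Cfsg.Agent.H10.Char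

open scoped ComplexConjugate

universe u

variable {G Γ : Type u} [Group G] [Group Γ] [Finite G] [Finite Γ] {N : Subgroup G} [hN : N.Normal]
  {π : Γ →* G} {j : N →* Γ} {ϑ' : Γ → ℂ} {ϑ : N → ℂ}

section wt

variable {V : Type*} [AddCommGroup V] [Module ℂ V] [FiniteDimensional ℂ V]

/-- weight space -/
def wt {D : Type*} [Group D] (ρ : Representation ℂ D V) (φ : D →* ℂˣ) : Submodule ℂ V where
  carrier := {v | ∀ d, ρ d v = (φ d : ℂ) • v}
  add_mem' := fun {a b} ha hb d => by rw [map_add, ha d, hb d, smul_add]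
  zero_mem' := fun d => by rw [map_zero, smul_zero]
  smul_mem' := fun c v hv d => by rw [map_smul, hv d, smul_comm]

theorem finrank_wt {D : Type*} [Group D] [Fintype D] (ρ : Representation ℂ D V) (φ : D →* ℂˣ) :
    (Module.finrank ℂ (wt ρ φ) : ℂ) = (Nat.card D : ℂ)⁻¹ * ∑ d : D, (((φ d)⁻¹ : ℂˣ) : ℂ) * ρ.character d := by
  have hD0 : (Nat.card D : ℂ) ≠ 0 := by exact_mod_cast Nat.card_pos.ne'
  obtain ⟨e, he⟩ : ∃ e : V →ₗ[ℂ] V, e = (Nat.card D : ℂ)⁻¹ • ∑ d : D, (((φ d)⁻¹ : ℂˣ) : ℂ) • ρ d := ⟨_, rfl⟩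
  have hea : ∀ v, e v = (Nat.card D : ℂ)⁻¹ • ∑ d : D, (((φ d)⁻¹ : ℂˣ) : ℂ) • ρ d v := by
    intro v
    rw [he, LinearMap.smul_apply, LinearMap.sum_apply]
    rfl
  have hproj : LinearMap.IsProj (wt ρ φ) e := by
    constructor
    · intro v d
      have h1 : ρ d (∑ x : D, (((φ x)⁻¹ : ℂˣ) : ℂ) • ρ x v) = (φ d : ℂ) • ∑ x : D, (((φ x)⁻¹ : ℂˣ) : ℂ) • ρ x v := by
        rw [map_sum, Finset.smul_sum, ← Equiv.sum_comp (Equiv.mulLeft d) (fun x : D => (φ d : ℂ) • (((φ x)⁻¹ : ℂˣ) : ℂ) • ρ x v)]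
        refine Finset.sum_congr rfl fun x _ => ?_
        rw [map_smul, Equiv.coe_mulLeft, map_mul, map_mul, smul_smul, ← Units.val_mul, mul_inv, mul_inv_cancel_left]
        rfl
      rw [hea, map_smul, h1, smul_comm]
    · intro v hv
      rw [hea]
      have h1 : ∀ d : D, (((φ d)⁻¹ : ℂˣ) : ℂ) • ρ d v = v := by
        intro d
        rw [hv d, smul_smul, Units.inv_mul, one_smul]
      rw [Finset.sum_congr rfl fun d _ => h1 d, Finset.sum_const, Finset.card_univ, ← Nat.card_eq_fintype_card,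
        ← Nat.cast_smul_eq_nsmul ℂ, smul_smul, inv_mul_cancel₀ hD0, one_smul]
  rw [← LinearMap.IsProj.trace hproj, he, map_smul, map_sum, smul_eq_mul]
  congr 1
  refine Finset.sum_congr rfl fun d _ => ?_
  rw [map_smul, smul_eq_mul]
  rfl

end wt

/-- If the character `φ` of `D ≤ N` is stable under the supplement `S` of `N`, occurs in `ϑ` with multiplicity `a`
and its restriction to `S ⊓ N` extends to `S`, then `a` is an extension exponent. -/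
theorem ext_of_sub (h : LiftD N π j ϑ' ϑ) {S D : Subgroup G} (hDN : D ≤ N) (hSN : S ⊔ N = ⊤)
    (hSD : S ⊓ N ≤ D) [Fintype D] (φ : D →* ℂˣ)
    (hφ : ∀ s ∈ S, ∀ d : D, ∃ d' : D, (d' : G) = s⁻¹ * d * s ∧ φ d' = φ d) (a : ℕ)
    (ha : (Nat.card D : ℂ)⁻¹ * ∑ d : D, (((φ d)⁻¹ : ℂˣ) : ℂ) * ϑ ⟨d, hDN d.2⟩ = a)
    (μ : S →* ℂˣ) (hμ : ∀ (s : G) (hs : s ∈ S) (hsN : s ∈ N), μ ⟨s, hs⟩ = φ ⟨s, hSD ⟨hs, hsN⟩⟩) :
    (a : ℤ) ∈ ExtExp (N.comap π) (lh h) := by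
  classical
  obtain ⟨n, ρ, hρi, hρ⟩ := id h.irr
  let jD : D →* Γ := j.comp (Subgroup.inclusion hDN)
  let ρD : Representation ℂ D (Fin n → ℂ) := ρ.comp jD
  have hjD : ∀ d : D, π (jD d) = d := fun d => h.pj _
  -- the weight space
  have hU : ∀ g : S.comap π, ∀ v ∈ wt ρD φ, (ρ.comp (S.comap π).subtype : Representation ℂ (S.comap π) (Fin n → ℂ)) g v ∈ wt ρD φ := by
    intro g v hv d
    obtain ⟨d', hd', hφd⟩ := hφ (π g) g.2 d
    have h1 : jD d * g = g * jD d' := by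
      have h2 := j_conj h (g : Γ) (Subgroup.inclusion hDN d')
      have h3 : (⟨π g * (Subgroup.inclusion hDN d' : G) * (π g)⁻¹, hN.conj_mem _ (Subgroup.inclusion hDN d').2 _⟩ : N) = Subgroup.inclusion hDN d := by
        apply Subtype.ext
        show π g * (d' : G) * (π g)⁻¹ = d
        rw [hd']; group
      rw [h3] at h2
      show j (Subgroup.inclusion hDN d) * g = g * j (Subgroup.inclusion hDN d')
      rw [← h2, inv_mul_cancel_right]
    show ρ (jD d) (ρ g v) = _ • ρ g v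
    rw [← Module.End.mul_apply, ← map_mul, h1, map_mul, Module.End.mul_apply]
    have h2 : ρ (jD d') v = (φ d' : ℂ) • v := hv d'
    rw [h2, map_smul, hφd]
  obtain ⟨τ, hτ⟩ : ∃ τ : Representation ℂ (S.comap π) (wt ρD φ), ∀ g (v : wt ρD φ), ((τ g v : wt ρD φ) : Fin n → ℂ) = ρ g v :=
    ⟨subRep (ρ.comp (S.comap π).subtype : Representation ℂ (S.comap π) (Fin n → ℂ)) (wt ρD φ) hU, fun g v => rfl⟩
  have hdim : Module.finrank ℂ (wt ρD φ) = a := by
    have h1 := finrank_wt ρD φ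
    have h2 : ∀ d : D, ρD.character d = ϑ ⟨d, hDN d.2⟩ := by
      intro d
      rw [← h.ext, ← hρ]
      rfl
    rw [Finset.sum_congr rfl fun d _ => by rw [h2 d], ha] at h1
    exact_mod_cast h1
  obtain ⟨δ, hδ⟩ : ∃ δ : S.comap π →* ℂˣ, ∀ g, (δ g : ℂ) = LinearMap.det (τ g) :=
    ⟨(LinearMap.det.comp (τ : S.comap π →* _)).toHomUnits, fun g => by rw [MonoidHom.coe_toHomUnits]; rfl⟩
  let πS : S.comap π →* S := (π.comp (S.comap π).subtype).codRestrict S (fun x => x.2)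
  obtain ⟨κ, hκ⟩ : ∃ κ : S.comap π →* ℂˣ, ∀ g, κ g = δ g * (μ (πS g) ^ a)⁻¹ :=
    ⟨δ * ((μ.comp πS) ^ a)⁻¹, fun g => rfl⟩
  have hscal : ∀ (g : S.comap π) (c : ℂˣ), (∀ v ∈ wt ρD φ, ρ g v = (c : ℂ) • v) → δ g = c ^ a := by
    intro g c hc
    apply Units.ext
    rw [hδ]
    have h1 : τ g = (c : ℂ) • LinearMap.id := by
      apply LinearMap.ext
      intro v
      apply Subtype.ext
      rw [hτ, hc v v.2]; rfl
    rw [h1, LinearMap.det_smul, LinearMap.det_id, mul_one, hdim, Units.val_pow_eq_pow_val]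
  -- on the kernel
  have hκz : ∀ (z : Γ) (hz : z ∈ π.ker) (hzS : z ∈ S.comap π), κ ⟨z, hzS⟩ = lh h ⟨z, mem_comap_k hz⟩ ^ a := by
    intro z hz hzS
    have h1 : πS ⟨z, hzS⟩ = 1 := Subtype.ext (MonoidHom.mem_ker.1 hz)
    rw [hκ, h1, map_one, one_pow, inv_one, mul_one]
    apply hscal
    intro v _
    obtain ⟨c, hc⟩ := central_scalar ρ hρi (h.kc hz)
    have h2 := lh_k h hz 1
    rw [one_mul] at h2
    have h3 : ϑ' z = c * ϑ' 1 := by
      rw [← hρ, Representation.character, hc, map_smul, smul_eq_mul, LinearMap.trace_id, Representation.char_one]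
    have h4 : c = lh h ⟨z, mem_comap_k hz⟩ := by
      rw [h3] at h2
      exact mul_right_cancel₀ (irr_one_ne h.irr) h2
    show ρ z v = _
    rw [hc, h4]; rfl
  -- on j(S ⊓ N)
  have hκj : ∀ (m : N) (hm : j m ∈ S.comap π), κ ⟨j m, hm⟩ = 1 := by
    intro m hm
    have hmS : (m : G) ∈ S := by
      have := Subgroup.mem_comap.1 hm
      rwa [h.pj] at this
    have h1 : πS ⟨j m, hm⟩ = ⟨m, hmS⟩ := Subtype.ext (h.pj m)
    rw [hκ, h1, hμ m hmS m.2]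
    have h2 : δ ⟨j m, hm⟩ = φ ⟨m, hSD ⟨hmS, m.2⟩⟩ ^ a := by
      apply hscal
      intro v hv
      exact hv ⟨m, hSD ⟨hmS, m.2⟩⟩
    rw [h2, mul_inv_cancel]
  -- descend to the quotient by j(N)
  haveI := h.jn
  let f : S.comap π →* Γ ⧸ j.range := (QuotientGroup.mk' j.range).comp (S.comap π).subtype
  have hf : Function.Surjective f := by
    intro y
    obtain ⟨g, rfl⟩ := QuotientGroup.mk_surjective y
    have h1 : π g ∈ S ⊔ N := by rw [hSN]; exact Subgroup.mem_top _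
    obtain ⟨s, hs, m, hm, hsm⟩ := Subgroup.mem_sup_of_normal_right.1 h1
    have h2 : g * (j ⟨m, hm⟩)⁻¹ ∈ S.comap π := by
      rw [Subgroup.mem_comap, map_mul, map_inv, h.pj, ← hsm]
      simpa using hs
    refine ⟨⟨_, h2⟩, ?_⟩
    show (QuotientGroup.mk (g * (j ⟨m, hm⟩)⁻¹) : Γ ⧸ j.range) = QuotientGroup.mk g
    rw [QuotientGroup.mk_mul, (QuotientGroup.eq_one_iff ((j ⟨m, hm⟩)⁻¹)).2 (j.range.inv_mem ⟨_, rfl⟩), mul_one]
  have hker : f.ker ≤ κ.ker := by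
    intro x hx
    rw [MonoidHom.mem_ker] at hx ⊢
    have h1 : (x : Γ) ∈ j.range := (QuotientGroup.eq_one_iff (x : Γ)).1 hx
    obtain ⟨m, hm⟩ := h1
    have := hκj m (by rw [hm]; exact x.2)
    rw [← this]
    congr 1
    exact Subtype.ext hm.symm
  obtain ⟨ν, hν⟩ : ∃ ν : Γ ⧸ j.range →* ℂˣ, ∀ x, ν (f x) = κ x :=
    ⟨f.liftOfSurjective hf ⟨κ, hker⟩, fun x => MonoidHom.liftOfRightInverse_comp_apply f _ _ ⟨κ, hker⟩ x⟩
  refine ⟨ν.comp (QuotientGroup.mk' j.range), fun y => ?_⟩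
  have hzS : zp π j y ∈ S.comap π := by
    rw [Subgroup.mem_comap, MonoidHom.mem_ker.1 (zp_ker h y)]; exact S.one_mem
  have h1 : (QuotientGroup.mk (y : Γ) : Γ ⧸ j.range) = f ⟨zp π j y, hzS⟩ := by
    show _ = (QuotientGroup.mk (zp π j y) : Γ ⧸ j.range)
    rw [zp, QuotientGroup.mk_mul, (QuotientGroup.eq_one_iff ((j _)⁻¹)).2 (j.range.inv_mem ⟨_, rfl⟩), mul_one]
  show ν (QuotientGroup.mk (y : Γ)) = _
  rw [h1, hν, hκz _ (zp_ker h y) hzS, zpow_natCast]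
  congr 1
  apply Units.ext
  rw [lh_apply, lh_apply, zp_k (zp_ker h y)]

end Cfsg.Agent.H26.Ext5
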