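import Mathlib
import Cfsg.Agent.H26_GalConj
import Cfsg.Agent.H26_Galois
import Cfsg.Agent.H26_Gagola

/-!
# H26_GalSum: `|S| ≤ ∑_{χ ∈ S} |χ v|²` for Galois stable sets of characters; counting lemmas
-/

set_option autoImplicit false

namespace Cfsg.Agent.H26.GalSum

open Cfsg Cfsg.Agent.H3.CharIrr Cfsg.Agent.H3.CharComplete Cfsg.Agent.H3.CharInd
  Cfsg.Agent.H3.CharGal Cfsg.Agent.H26.Basic Cfsg.Agent.H26.GalConj Cfsg.Agent.H26.Galois

open scoped ComplexConjugate

variable {G : Type*} [Group G]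

theorem card_le_sum_char [Fintype G] (S : Finset (IrrCharacter G))
    (hS : ∀ (m : ℕ) (hm : m.Coprime (Nat.card G)), ∀ χ ∈ S, powI m hm χ ∈ S) (v : G)
    (hv : ∀ χ ∈ S, (χ : G → ℂ) v ≠ 0) : (S.card : ℝ) ≤ ∑ χ ∈ S, Complex.normSq ((χ : G → ℂ) v) := by
  classical
  haveI : NeZero (Nat.card G) := ⟨Nat.card_pos.ne'⟩
  have hint : IsIntegral ℤ (∏ χ ∈ S, (χ : G → ℂ) v * (χ : G → ℂ) v⁻¹) :=
    IsIntegral.prod _ fun χ _ => (integral_val χ _).mul (integral_val χ _)
  have hmem : ∏ χ ∈ S, (χ : G → ℂ) v * (χ : G → ℂ) v⁻¹ ∈ Cyc (Nat.card G) := by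
    apply prod_mem
    intro χ _
    exact mul_mem (IsChar.mem_cyc (IsIrr.isCharacter χ.2) v pow_card_eq_one')
      (IsChar.mem_cyc (IsIrr.isCharacter χ.2) v⁻¹ pow_card_eq_one')
  obtain ⟨q, hq⟩ := rat_of_hom hmem (by
    intro φ m hm hφ
    rw [map_prod]
    have h1 : ∀ χ ∈ S, φ ((χ : G → ℂ) v * (χ : G → ℂ) v⁻¹) = (powI m hm χ : G → ℂ) v * (powI m hm χ : G → ℂ) v⁻¹ := by
      intro χ _
      rw [map_mul, pow_char Nat.card_pos.ne' hφ (IsIrr.isCharacter χ.2) v pow_card_eq_one',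
        pow_char Nat.card_pos.ne' hφ (IsIrr.isCharacter χ.2) v⁻¹ pow_card_eq_one']
      rfl
    rw [Finset.prod_congr rfl h1]
    have h2 : S.image (powI m hm) = S := by
      apply Finset.eq_of_subset_of_card_le
      · intro χ hχ
        obtain ⟨ψ, hψ, rfl⟩ := Finset.mem_image.1 hχ
        exact hS m hm ψ hψ
      · rw [Finset.card_image_of_injective _ (powI_injective m hm)]
    conv_rhs => rw [← h2]
    rw [Finset.prod_image (fun a _ b _ h => powI_injective m hm h)])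
  have hns : ∀ χ : IrrCharacter G, (χ : G → ℂ) v * (χ : G → ℂ) v⁻¹ = ((Complex.normSq ((χ : G → ℂ) v) : ℝ) : ℂ) := by
    intro χ; rw [inv_eq, Complex.mul_conj]
  rw [hq] at hint
  obtain ⟨k, hk⟩ := int_of_integral_rat hint
  have hprod : (∏ χ ∈ S, Complex.normSq ((χ : G → ℂ) v) : ℝ) = k := by
    have h3 : ((∏ χ ∈ S, Complex.normSq ((χ : G → ℂ) v) : ℝ) : ℂ) = ((k : ℝ) : ℂ) := by
      push_cast
      rw [← Finset.prod_congr rfl (fun χ _ => hns χ), hq, ← hk]
      push_cast; rfl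
    exact_mod_cast h3
  have hpos : ∀ χ ∈ S, 0 < Complex.normSq ((χ : G → ℂ) v) := fun χ hχ => Complex.normSq_pos.2 (hv χ hχ)
  have hk1 : (1 : ℤ) ≤ k := by
    have h4 : (0 : ℝ) < k := by rw [← hprod]; exact Finset.prod_pos hpos
    have : 0 < k := by exact_mod_cast h4
    omega
  have h5 := card_le_sum_of_prod (ι := S) (fun χ => Complex.normSq ((χ.1 : G → ℂ) v)) (fun χ => hpos χ.1 χ.2) (by
    rw [Finset.prod_coe_sort S (fun χ : IrrCharacter G => Complex.normSq ((χ : G → ℂ) v)), hprod]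
    exact_mod_cast hk1)
  rw [Fintype.card_coe, Finset.sum_coe_sort S (fun χ : IrrCharacter G => Complex.normSq ((χ : G → ℂ) v))] at h5
  exact h5

theorem sum_normSq [Fintype G] [Fintype (IrrCharacter G)] (x : G) :
    ∑ χ : IrrCharacter G, Complex.normSq ((χ : G → ℂ) x) = (Nat.card (Subgroup.centralizer ({x} : Set G)) : ℝ) := by
  classical
  have h1 := orth2 x x
  rw [if_pos (IsConj.refl x)] at h1
  have h2 : ((∑ χ : IrrCharacter G, Complex.normSq ((χ : G → ℂ) x) : ℝ) : ℂ) = ((Nat.card (Subgroup.centralizer ({x} : Set G)) : ℝ) : ℂ) := by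
    push_cast
    rw [← h1]
    exact Finset.sum_congr rfl fun χ _ => by rw [Complex.mul_conj]
  exact_mod_cast h2

theorem card_conjClasses_congr {H : Type*} [Group H] (e : G ≃* H) : Nat.card (ConjClasses G) = Nat.card (ConjClasses H) := by
  apply Nat.card_eq_of_bijective (ConjClasses.map e.toMonoidHom)
  constructor
  · intro a b h
    obtain ⟨a, rfl⟩ := ConjClasses.mk_surjective a
    obtain ⟨b, rfl⟩ := ConjClasses.mk_surjective b
    have h1 : ConjClasses.mk (e a) = ConjClasses.mk (e b) := h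
    rw [ConjClasses.mk_eq_mk_iff_isConj, isConj_iff] at h1 ⊢
    obtain ⟨c, hc⟩ := h1
    refine ⟨e.symm c, e.injective ?_⟩
    rw [map_mul, map_mul, map_inv, e.apply_symm_apply, hc]
  · intro b
    obtain ⟨b, rfl⟩ := ConjClasses.mk_surjective b
    exact ⟨ConjClasses.mk (e.symm b), by
      show ConjClasses.mk (e (e.symm b)) = _
      rw [e.apply_symm_apply]⟩

open scoped Classical in
/-- number of characters with `N` in the kernel -/
theorem card_ker [Fintype G] [Fintype (IrrCharacter G)] (N : Subgroup G) [N.Normal] :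
    (Finset.univ.filter (fun ψ : IrrCharacter G => ∀ n ∈ N, (ψ : G → ℂ) n = (ψ : G → ℂ) 1)).card = Nat.card (ConjClasses (G ⧸ N)) := by
  classical
  haveI : Fintype (IrrCharacter (G ⧸ N)) := Fintype.ofFinite _
  have h1 := Cfsg.Agent.H26.Gagola.sum_inflate N (fun _ => (1:ℂ))
  rw [Finset.sum_const, Finset.sum_const, nsmul_one, nsmul_one, Nat.cast_inj, Finset.card_univ, ← Nat.card_eq_fintype_card] at h1
  rw [← card_irr, h1]

open scoped Classical in
/-- sum of squares of degrees of characters with `N` in the kernel -/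
theorem sum_sq_ker [Fintype G] [Fintype (IrrCharacter G)] (N : Subgroup G) [N.Normal] :
    ∑ ψ ∈ Finset.univ.filter (fun ψ : IrrCharacter G => ∀ n ∈ N, (ψ : G → ℂ) n = (ψ : G → ℂ) 1), (ψ : G → ℂ) 1 ^ 2 = (N.index : ℂ) := by
  classical
  haveI : Fintype (IrrCharacter (G ⧸ N)) := Fintype.ofFinite _
  haveI : Fintype (G ⧸ N) := Fintype.ofFinite _
  have h1 := Cfsg.Agent.H26.Gagola.sum_inflate N (fun f => f 1 ^ 2)
  rw [← h1]
  have h2 := sum_sq (G := G ⧸ N)
  rw [Subgroup.index, ← h2]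
  rfl

end Cfsg.Agent.H26.GalSum
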