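import Mathlib
import Cfsg.Prelude.Def_Characters
import Cfsg.Agent.H3_Clifford2
import Cfsg.Agent.H3_CharMult
import Cfsg.Agent.H3_Extraspecial
import Cfsg.Agent.H10_Char

/-!
# H26_GoDown: restriction to a normal subgroup with abelian quotient
-/

set_option autoImplicit false
set_option linter.unusedSectionVars false

namespace Cfsg.Agent.H26.GoDown

open Cfsg Cfsg.Agent.H3.CharIrr Cfsg.Agent.H3.CharInd Cfsg.Agent.H3.CharMult Cfsg.Agent.H3.CharComplete Cfsg.Agent.H3.Clifford Cfsg.Agent.H10.Char

open scoped ComplexConjugate

section abs

variable {X : Type*} [Group X] [Fintype X] (Lx : Subgroup X) [hL : Lx.Normal]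

theorem irr_of_stab [Fintype Lx] {θ : X → ℂ} (hθ : IsIrrCharacter X θ)
    (hab : ∀ a b : X, a * b * a⁻¹ * b⁻¹ ∈ Lx)
    (hst : ∀ f : X →* ℂˣ, (∀ l ∈ Lx, f l = 1) → (∀ x, (f x : ℂ) * θ x = θ x) → f = 1) :
    IsIrrCharacter Lx (fun l : Lx => θ l) := by
  classical
  have hc := IsIrr.isCharacter hθ
  have hprod : IsCharacter X (θ * fun g => conj (θ g)) := IsChar.mul hc (IsChar.conj hc)
  have hB := avg_isChar (N := Lx) hL hprod
  have hcomm : commutator X ≤ Lx := by
    rw [commutator_def, Subgroup.commutator_le]
    intro a _ b _
    exact hab a b
  have h1 : avg Lx (θ * fun g => conj (θ g)) = fun _ => 1 := by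
    apply ext_inner (IsChar.isClass hB) (IsIrr.isClass isIrr_one)
    intro lam hlam
    rw [ci_avg_left]
    rcases avg_irr hL hlam with h | h
    · rw [h.avg_eq]
      -- lam is linear
      have hl1 : lam 1 = 1 := Cfsg.Agent.H3.Extraspecial.one_of_commutator hlam fun z hz => by
        have := h z (hcomm hz) 1
        rwa [mul_one] at this
      by_cases hz : classInner (θ * fun g => conj (θ g)) lam = 0
      · rw [hz, eq_comm]
        apply ci_irr_ne isIrr_one hlam
        rintro rfl
        have : classInner (θ * fun g => conj (θ g)) (fun _ => 1) = classInner θ θ := by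
          rw [classInner, classInner]; simp
        rw [this, ci_irr_self hθ] at hz
        exact one_ne_zero hz
      · have h2 : classInner θ (lam * θ) ≠ 0 := by
          intro h0
          apply hz
          rw [← h0, classInner, classInner]
          congr 1
          refine Finset.sum_congr rfl fun g _ => ?_
          simp only [Pi.mul_apply, map_mul]; ring
        have h3 : θ = lam * θ := by
          by_contra hne'
          exact h2 (ci_irr_ne hθ (IsIrr.mul_linear hθ (IsIrr.isCharacter hlam) hl1) hne')
        obtain ⟨f, hf⟩ := IsChar.hom_units_of_one (IsIrr.isCharacter hlam) hl1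
        have hf1 : f = 1 := by
          apply hst f
          · intro l hl
            apply Units.ext
            rw [← hf, Units.val_one]
            have := h l hl 1
            rwa [mul_one, hl1] at this
          · intro x
            rw [← hf]
            exact (congrFun h3 x).symm
        have h5 : lam = fun _ => 1 := by
          funext g
          rw [hf, hf1]; rfl
        rw [h5, ci_irr_self isIrr_one]
        have : classInner (θ * fun g => conj (θ g)) (fun _ => 1) = classInner θ θ := by
          rw [classInner, classInner]; simp
        rw [this, ci_irr_self hθ]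
    · rw [h, ci_zero_right, eq_comm]
      apply ci_irr_ne isIrr_one hlam
      rintro rfl
      have := congrFun h 1
      simp [avg] at this
  apply IsChar.isIrr_of_norm (IsChar.res hc Lx)
  have h2 := congrFun h1 1
  simp only [avg, Pi.mul_apply, mul_one] at h2
  rw [classInner]
  exact h2

end abs

end Cfsg.Agent.H26.GoDown
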