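import Cfsg.Agent.H26_Pres
import Cfsg.Agent.H8_J1pA
import Cfsg.Agent.H8_J1pT
import Cfsg.Agent.H8_Act2
import Cfsg.Agent.H8_Act3

set_option autoImplicit false
set_option maxRecDepth 100000

namespace Cfsg.Agent.H26.J1p

open H8 H8.CE H8.Net H8.Act H8.Cox H8.Act2 H8.Act3 H26.Pres

abbrev P : Type := PresentedGroup (RS J1pR.ds J1pR.rels)

/-- the letters -/
noncomputable abbrev x : ℕ → P := xx J1pR.ds J1pR.rels

theorem hrels : ∀ w ∈ J1pR.rels, ev x w = 1 := ev_xx

theorem h0 : x 0 = 1 := xx_zero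

theorem ic_ok : icOk J1pR.ic J1pR.ds J1pR.rels = true := by decide +kernel

theorem hic : ∀ y, y < 16 → x (il J1pR.ic y) = (x y)⁻¹ := Pres.hic ic_ok h0 xx_big hrels

/-- the small subgroup -/
noncomputable def H6 : Subgroup P := Subgroup.zpowers (x 6)

theorem b1 : H6.relIndex (Subgroup.closure (x '' {y | y ∈ [1, 2, 3]})) ≤ 25080 ∧
    H6.relIndex (Subgroup.closure (x '' {y | y ∈ [1, 2, 3]})) ≠ 0 := by
  have h := J1pT.bound (x := ren x [0, 1, 2, 3, 6, 7]) (H := H6)
    (ren_hic hic (by decide +kernel)) h0 (ren_rels hrels (by decide +kernel)) (by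
      intro s hs
      simp only [J1pT.L, List.mem_cons, List.not_mem_nil, or_false] at hs
      rcases hs with rfl | rfl
      · exact Subgroup.mem_zpowers _
      · have h7 : x 7 = (x 6)⁻¹ := hic 6 (by decide)
        show x 7 ∈ H6
        rw [h7]
        exact H6.inv_mem (Subgroup.mem_zpowers _))
  rw [ren_image [0, 1, 2, 3, 6, 7] 3 [1, 2, 3] (by decide) (by decide)] at h
  exact h

theorem top : Subgroup.closure (x '' {y | y ∈ [1, 2, 3]}) = ⊤ := by
  apply closure_top
  intro a
  cases a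
  exacts [⟨1, by decide, by rw [lmD_getD_lt (by decide)]; rfl⟩, ⟨2, by decide, by rw [lmD_getD_lt (by decide)]; rfl⟩]

theorem zpow : x 6 ^ 7 = 1 := by
  have h1 := hrels [1, 2, 1, 2, 1, 2, 1, 2, 1, 2, 1, 2, 1, 2] (by decide +kernel)
  have h2 := hrels [1, 2, 7] (by decide +kernel)
  have h7 : x 7 = (x 6)⁻¹ := hic 6 (by decide)
  simp only [ev_cons, ev_nil, mul_one] at h1 h2
  rw [h7, ← mul_assoc, mul_inv_eq_one] at h2
  rw [← h2]
  simpa only [pow_succ, pow_zero, one_mul, mul_assoc] using h1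

theorem c6 : Nat.card H6 ≤ 7 ∧ Nat.card H6 ≠ 0 := by
  have h1 : orderOf (x 6) ∣ 7 := orderOf_dvd_of_pow_eq_one zpow
  have h2 : Nat.card H6 = orderOf (x 6) := Nat.card_zpowers _
  rw [h2]
  exact ⟨Nat.le_of_dvd (by decide) h1, fun h => by rw [h] at h1; exact absurd (Nat.eq_zero_of_zero_dvd h1) (by decide)⟩

theorem cT : Nat.card P ≤ 175560 ∧ Nat.card P ≠ 0 := by
  have h : H6 ≤ Subgroup.closure (x '' {y | y ∈ [1, 2, 3]}) := by rw [top]; exact le_top
  have h1 := card_le_of_relIndex h b1 c6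
  rw [top, Subgroup.card_top] at h1
  exact h1

instance instFin : Finite P := Nat.finite_of_card_ne_zero cT.2

theorem hn : 1045 ≤ 2 ^ 11 := by decide

/-- images of the generators -/
noncomputable def fP : Bool → Equiv.Perm (Fin 1045) := fun b => xP J1pA.sys hn J1pA.inv_ok (if b then 2 else 1)

theorem d0 : eqW J1pA.L (nat_lit 1045) (nat_lit 11) (J1pR.ds.getD 0 []) [4] = true := by decide +kernel

theorem d1 : eqW J1pA.L (nat_lit 1045) (nat_lit 11) (J1pR.ds.getD 1 []) [5] = true := by decide +kernel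

theorem d2 : eqW J1pA.L (nat_lit 1045) (nat_lit 11) (J1pR.ds.getD 2 []) [6] = true := by decide +kernel

theorem d3 : eqW J1pA.L (nat_lit 1045) (nat_lit 11) (J1pR.ds.getD 3 []) [7] = true := by decide +kernel


theorem fP_x (j : ℕ) (_hj : j < 16) : xF fP (lmD J1pR.ds) j = xP J1pA.sys hn J1pA.inv_ok j := by
  refine hx_of (X := xP J1pA.sys hn J1pA.inv_ok) fP (by decide +kernel) (xP_eq_one _ _ _ _ rfl) rfl rfl (xP_il J1pA.sys hn J1pA.inv_ok 2 (by decide))
    ?_ ?_ j
  · intro i hi
    have hi' : i < 4 := hi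
    interval_cases i
    · have h1 := ev_xP_eq J1pA.sys hn J1pA.inv_ok (by decide) (by decide) d0
      rw [ev_cons, ev_nil, mul_one] at h1
      exact h1
    · have h1 := ev_xP_eq J1pA.sys hn J1pA.inv_ok (by decide) (by decide) d1
      rw [ev_cons, ev_nil, mul_one] at h1
      exact h1
    · have h1 := ev_xP_eq J1pA.sys hn J1pA.inv_ok (by decide) (by decide) d2
      rw [ev_cons, ev_nil, mul_one] at h1
      exact h1
    · have h1 := ev_xP_eq J1pA.sys hn J1pA.inv_ok (by decide) (by decide) d3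
      rw [ev_cons, ev_nil, mul_one] at h1
      exact h1
  · intro y hy
    by_cases h16 : y < 16
    · apply xP_eq_one
      have hy' : 8 ≤ y := hy
      interval_cases y <;> rfl
    · unfold xP
      rw [dif_neg h16]

theorem exists_phi : ∃ φ : P →* Equiv.Perm (Fin 1045), Compat φ x J1pA.L :=
  exists_action (RS J1pR.ds J1pR.rels) (lmD J1pR.ds) J1pA.sys hn J1pA.inv_ok J1pA.rel_ok (by decide +kernel) fP fP_x
    (fun _ h => lifts fP h)

/-- the action -/
noncomputable def phi : P →* Equiv.Perm (Fin 1045) := exists_phi.choose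

theorem compat : Compat phi x J1pA.L := exists_phi.choose_spec

theorem main : Nat.card P = 175560 ∧ Function.Injective phi := by
  have h := order_eq (φ := phi) J1pA.sys
    (exists_g J1pA.sys hn compat J1pA.sg_ok (by decide +kernel)) J1pA.levs J1pA.chain
    (by rw [J1pA.prodM_levs]; exact cT.1)
  rwa [J1pA.prodM_levs] at h

theorem simple : IsSimpleGroup P := by
  refine simple_of_data (p := 19) (e := 1) J1pA.sys hn compat main.2 hic (by decide) (by decide) (by decide) J1pA.trans
    J1pA.hfix J1pA.orbs (by decide) (by decide +kernel) (by decide) (by decide) ?_ J1pA.pw_ok ?_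
  · rw [main.1]; decide
  · apply closure_top
    intro a
    cases a
    exacts [⟨1, by decide, by rw [lmD_getD_lt (by decide)]; rfl⟩, ⟨2, by decide, by rw [lmD_getD_lt (by decide)]; rfl⟩]

/-- a copy in a group from elements satisfying the relations -/
theorem exists_sub {G : Type} [Group G] (X : ℕ → G) (h11 : X 1 * X 1 = 1) (h23 : X 2 * X 3 = 1)
    {bs : List (List ℕ)} (hb : basOk J1pR.ds J1pR.rels bs = true) (hlt : (bs.all fun w => w.all fun y => Nat.blt y 4) = true)
    (hX : ∀ w ∈ bs, ev X w = 1) (hz : X 0 = 1) (hne : X 1 ≠ 1) : ∃ K : Subgroup G, IsSimpleGroup K ∧ Nat.card K = 175560 := by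
  let f : Bool → G := fun b => if b then X 2 else X 1
  have hs : ∀ y, y < 4 → xF f (lmD J1pR.ds) y = X y := by
    intro y hy
    interval_cases y
    · rw [xF_zero, hz]
    · rw [xF_one]; rfl
    · rw [xF_two]; rfl
    · rw [xF_three]; exact (eq_inv_of_mul_eq_one_right h23).symm
  have hbs : ∀ w ∈ bs, ev (xF f (lmD J1pR.ds)) w = 1 := by
    intro w hw
    rw [← hX w hw]
    rw [List.all_eq_true] at hlt
    have h1 := hlt w hw
    rw [List.all_eq_true] at h1
    have h2 : ∀ z ∈ w, z < 4 := fun z hz => blt_eq.1 (h1 z hz)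
    clear hw h1
    induction w with
    | nil => rfl
    | cons z w ih => rw [ev_cons, ev_cons, ih (fun z' hz' => h2 z' (by simp [hz'])), hs z (h2 z (by simp))]
  let h : P →* G := PresentedGroup.toGroup (lifts_of f (by decide +kernel) hb h11 hbs)
  have hx1 : h (x 1) = X 1 := by
    show FreeGroup.lift f ((lmD J1pR.ds).getD 1 1) = X 1
    exact hs 1 (by decide)
  haveI := simple
  have hker : h.ker = ⊥ := by
    rcases simple.eq_bot_or_eq_top_of_normal h.ker inferInstance with h1 | h1
    · exact h1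
    · exfalso
      have h2 : x 1 ∈ h.ker := by rw [h1]; exact Subgroup.mem_top _
      rw [MonoidHom.mem_ker, hx1] at h2
      exact hne h2
  have hinj : Function.Injective h := (MonoidHom.ker_eq_bot_iff h).1 hker
  let e : P ≃* h.range := MonoidHom.ofInjective hinj
  refine ⟨h.range, ?_, ?_⟩
  · haveI : Nontrivial h.range := e.toEquiv.symm.nontrivial
    exact IsSimpleGroup.isSimpleGroup_of_surjective e.toMonoidHom e.surjective
  · rw [← Nat.card_congr e.toEquiv, main.1]

end Cfsg.Agent.H26.J1p
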