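import Cfsg.Agent.H8_Net

/-!
Linear maps on bit vectors of length `K`, acting on sets of codes stored as natural numbers with `2 ^ K` bits.
-/

set_option autoImplicit false

namespace Cfsg.Agent.H26.J3a

open Cfsg.Agent.H8.CE (N N_eq)
open Cfsg.Agent.H8.Net (stg stg2 stpos stg_testBit plane plane_testBit)

/-- elementary map: add bit `i` to bit `j` -/
def el (i j y : ℕ) : ℕ := y ^^^ (bif y.testBit i then 2 ^ j else 0)

/-- the mask of the codes with bit `i` set and bit `j` not set -/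
noncomputable def mk (K i j : ℕ) : ℕ := Nat.xor (plane i K) (Nat.land (plane i K) (plane j K))

noncomputable def ap1 (K i j v : ℕ) : ℕ := stg (2 ^ j) (mk K i j) v

theorem mk_testBit (K i j y : ℕ) : (mk K i j).testBit y = (decide (y < 2 ^ K) && (y.testBit i && !y.testBit j)) := by
  have e : mk K i j = plane i K ^^^ (plane i K &&& plane j K) := rfl
  rw [e, Nat.testBit_xor, Nat.testBit_and, plane_testBit, plane_testBit]
  cases decide (y < 2 ^ K) <;> cases y.testBit i <;> cases y.testBit j <;> rfl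

theorem add_pow_of_not {y j : ℕ} (h : y.testBit j = false) : y + 2 ^ j = y ^^^ 2 ^ j := by
  have hb : y % 2 ^ j < 2 ^ j := Nat.mod_lt _ (by positivity)
  have hy : y = 2 ^ j * (y / 2 ^ j) + y % 2 ^ j := (Nat.div_add_mod y (2 ^ j)).symm
  have ha : (y / 2 ^ j) % 2 = 0 := by
    rw [Nat.testBit_eq_decide_div_mod_eq] at h
    rcases Nat.mod_two_eq_zero_or_one (y / 2 ^ j) with h1 | h1
    · exact h1
    · rw [h1] at h; simp at h
  have hy2 : y + 2 ^ j = 2 ^ j * (y / 2 ^ j + 1) + y % 2 ^ j := by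
    rw [Nat.mul_add, Nat.mul_one]; omega
  apply Nat.eq_of_testBit_eq
  intro t
  rw [hy2, Nat.testBit_two_pow_mul_add _ hb, Nat.testBit_xor, Nat.testBit_two_pow]
  conv_rhs => rw [hy]
  rw [Nat.testBit_two_pow_mul_add _ hb]
  by_cases h1 : t < j
  · have h2 : ¬ j = t := by omega
    simp [h1, h2]
  · rw [if_neg h1, if_neg h1]
    obtain ⟨c, hc⟩ : ∃ c, y / 2 ^ j = 2 * c := ⟨y / 2 ^ j / 2, by omega⟩
    rw [hc]
    by_cases h2 : j = t
    · subst h2
      rw [Nat.sub_self, Nat.testBit_zero, Nat.testBit_zero]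
      have e1 : (2 * c + 1) % 2 = 1 := by omega
      have e2 : (2 * c) % 2 = 0 := by omega
      simp [e1, e2]
    · obtain ⟨d, hd⟩ : ∃ d, t - j = d + 1 := ⟨t - j - 1, by omega⟩
      rw [hd, Nat.testBit_succ, Nat.testBit_succ]
      have e1 : (2 * c + 1) / 2 = c := by omega
      have e2 : 2 * c / 2 = c := by omega
      simp [e1, e2, h2]

theorem xor_lt {K y j : ℕ} (hy : y < 2 ^ K) (hj : j < K) : y ^^^ 2 ^ j < 2 ^ K :=
  Nat.xor_lt_two_pow hy (Nat.pow_lt_pow_right (by omega) hj)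

theorem el_lt {K i j y : ℕ} (hy : y < 2 ^ K) (hj : j < K) : el i j y < 2 ^ K := by
  unfold el
  cases y.testBit i
  · simpa using hy
  · exact xor_lt hy hj

theorem sub_pow_of {y j : ℕ} (h : y.testBit j = true) : 2 ^ j ≤ y ∧ y - 2 ^ j = y ^^^ 2 ^ j := by
  have h1 : (y ^^^ 2 ^ j).testBit j = false := by
    rw [Nat.testBit_xor, Nat.testBit_two_pow, h]; simp
  have h2 := add_pow_of_not h1
  rw [Nat.xor_assoc, Nat.xor_self, Nat.xor_zero] at h2
  constructor <;> omega

theorem mk_ok {K i j : ℕ} (hi : i < K) (hj : j < K) (hij : i ≠ j) : mk K i j &&& (mk K i j <<< (2 ^ j)) = 0 := by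
  apply Nat.eq_of_testBit_eq
  intro y
  rw [Nat.zero_testBit, Nat.testBit_and, Nat.testBit_shiftLeft, mk_testBit, mk_testBit]
  by_cases h1 : y ≥ 2 ^ j
  · obtain ⟨z, rfl⟩ := Nat.exists_eq_add_of_le h1
    rw [Nat.add_sub_cancel_left]
    by_cases h2 : z.testBit j = true
    · simp [h2]
    · rw [Bool.not_eq_true] at h2
      have h3 : (2 ^ j + z).testBit j = true := by
        rw [Nat.add_comm, add_pow_of_not h2, Nat.testBit_xor, Nat.testBit_two_pow, h2]; simp
      simp [h3]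
  · simp [h1]

theorem ap1_testBit {K i j : ℕ} (hi : i < K) (hj : j < K) (hij : i ≠ j) (v y : ℕ) (hy : y < 2 ^ K) :
    (ap1 K i j v).testBit y = v.testBit (el i j y) := by
  unfold ap1
  rw [stg_testBit (mk_ok hi hj hij)]
  congr 1
  unfold stpos el
  rw [mk_testBit]
  cases hb : y.testBit i
  · -- not moved
    have h1 : ¬ (2 ^ j ≤ y ∧ (mk K i j).testBit (y - 2 ^ j) = true) := by
      rintro ⟨h2, h3⟩
      rw [mk_testBit] at h3
      simp only [Bool.and_eq_true, decide_eq_true_eq, Bool.not_eq_true'] at h3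
      obtain ⟨h4, h5, h6⟩ := h3
      have h7 := add_pow_of_not h6
      rw [Nat.sub_add_cancel h2] at h7
      rw [h7, Nat.testBit_xor, h5, Nat.testBit_two_pow] at hb
      have : ¬ j = i := fun h => hij h.symm
      simp [this] at hb
    rw [if_neg (by simp), if_neg h1]
    simp
  · cases hc : y.testBit j
    · rw [if_pos (by simp [hy])]
      simp [add_pow_of_not hc]
    · obtain ⟨h2, h3⟩ := sub_pow_of hc
      have h4 : (mk K i j).testBit (y - 2 ^ j) = true := by
        rw [mk_testBit, h3, Nat.testBit_xor, Nat.testBit_xor, Nat.testBit_two_pow, Nat.testBit_two_pow, hb, hc]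
        have : ¬ j = i := fun h => hij h.symm
        simp [this, xor_lt hy hj]
      rw [if_neg (by simp), if_pos ⟨h2, h4⟩]
      simp [h3]

/-! ### Lists of elementary maps -/

/-- position map -/
def pos : List (ℕ × ℕ) → ℕ → ℕ
  | [], y => y
  | p :: t, y => el p.1 p.2 (pos t y)

/-- action on sets -/
noncomputable def apL (K : ℕ) (ops : List (ℕ × ℕ)) (v : ℕ) : ℕ := ops.foldl (fun v p => ap1 K p.1 p.2 v) v

def Ok (K : ℕ) (ops : List (ℕ × ℕ)) : Prop := ∀ p ∈ ops, p.1 < K ∧ p.2 < K ∧ p.1 ≠ p.2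

theorem pos_lt {K : ℕ} : ∀ {ops : List (ℕ × ℕ)}, Ok K ops → ∀ {y : ℕ}, y < 2 ^ K → pos ops y < 2 ^ K
  | [], _, y, hy => hy
  | p :: t, h, y, hy => el_lt (pos_lt (fun q hq => h q (by simp [hq])) hy) (h p (by simp)).2.1

theorem apL_testBit {K : ℕ} : ∀ (ops : List (ℕ × ℕ)), Ok K ops → ∀ (v y : ℕ), y < 2 ^ K →
    (apL K ops v).testBit y = v.testBit (pos ops y)
  | [], _, v, y, _ => rfl
  | p :: t, h, v, y, hy => by
    have h1 : apL K (p :: t) v = apL K t (ap1 K p.1 p.2 v) := rfl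
    have ht : Ok K t := fun q hq => h q (by simp [hq])
    obtain ⟨h2, h3, h4⟩ := h p (by simp)
    rw [h1, apL_testBit t ht _ y hy, ap1_testBit h2 h3 h4 _ _ (pos_lt ht hy)]
    rfl

theorem el_xor (i j x y : ℕ) : el i j (x ^^^ y) = el i j x ^^^ el i j y := by
  unfold el
  rw [Nat.testBit_xor]
  cases x.testBit i <;> cases y.testBit i
  · simp
  · simp [Nat.xor_assoc]
  · simp only [Bool.xor_false, cond_true, cond_false, Nat.xor_zero]
    rw [Nat.xor_assoc, Nat.xor_comm y, ← Nat.xor_assoc]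
  · simp only [Bool.xor_true, Bool.not_true, cond_true, cond_false, Nat.xor_zero]
    rw [Nat.xor_assoc, ← Nat.xor_assoc (2 ^ j), Nat.xor_comm (2 ^ j) y, Nat.xor_assoc y, Nat.xor_self, Nat.xor_zero]

theorem pos_xor : ∀ (ops : List (ℕ × ℕ)) (x y : ℕ), pos ops (x ^^^ y) = pos ops x ^^^ pos ops y
  | [], x, y => rfl
  | p :: t, x, y => by
    show el p.1 p.2 (pos t (x ^^^ y)) = el p.1 p.2 (pos t x) ^^^ el p.1 p.2 (pos t y)
    rw [pos_xor t, el_xor]

theorem el_zero (i j : ℕ) : el i j 0 = 0 := by simp [el]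

theorem pos_zero : ∀ (ops : List (ℕ × ℕ)), pos ops 0 = 0
  | [] => rfl
  | p :: t => by
    show el p.1 p.2 (pos t 0) = 0
    rw [pos_zero t, el_zero]

/-- induction over codes -/
theorem code_induct {P : ℕ → Prop} (h0 : P 0) (hx : ∀ x y, P x → P y → P (x ^^^ y)) :
    ∀ (K : ℕ), (∀ i < K, P (2 ^ i)) → ∀ y < 2 ^ K, P y := by
  intro K
  induction K with
  | zero =>
    intro _ y hy
    have : y = 0 := by
      have : (2 : ℕ) ^ 0 = 1 := rfl
      omega
    rw [this]; exact h0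
  | succ K ih =>
    intro h y hy
    have ih' := ih (fun i hi => h i (by omega))
    cases hb : y.testBit K
    · apply ih'
      rw [pow_succ] at hy
      by_contra hc
      push Not at hc
      obtain ⟨z, rfl⟩ := Nat.exists_eq_add_of_le hc
      have h1 : z < 2 ^ K := by omega
      rw [Nat.testBit_two_pow_add_eq, Nat.testBit_lt_two_pow h1] at hb
      simp at hb
    · obtain ⟨h1, h2⟩ := sub_pow_of hb
      have h3 : y ^^^ 2 ^ K < 2 ^ K := by
        rw [← h2]
        rw [pow_succ] at hy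
        omega
      have h4 : y = (y ^^^ 2 ^ K) ^^^ 2 ^ K := by rw [Nat.xor_assoc, Nat.xor_self, Nat.xor_zero]
      rw [h4]
      exact hx _ _ (ih' _ h3) (h K (by omega))

/-! ### Rounds -/

noncomputable def T (K : ℕ) (A B : List (ℕ × ℕ)) (v : ℕ) : ℕ := Nat.lor v (Nat.lor (apL K A v) (apL K B v))

theorem T_testBit {K : ℕ} {A B : List (ℕ × ℕ)} (hA : Ok K A) (hB : Ok K B) (v y : ℕ) (hy : y < 2 ^ K) :
    (T K A B v).testBit y = (v.testBit y || (v.testBit (pos A y) || v.testBit (pos B y))) := by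
  have e : T K A B v = v ||| (apL K A v ||| apL K B v) := rfl
  rw [e, Nat.testBit_or, Nat.testBit_or, apL_testBit A hA v y hy, apL_testBit B hB v y hy]

noncomputable def TI (K : ℕ) (A B : List (ℕ × ℕ)) (n v : ℕ) : ℕ := Nat.rec v (fun _ r => T K A B r) n

theorem TI_reach {K : ℕ} {A B : List (ℕ × ℕ)} (hA : Ok K A) (hB : Ok K B) (R : ℕ → Prop) (x0 : ℕ) (h0 : R x0)
    (h1 : ∀ y, y < 2 ^ K → R (pos A y) → R y) (h2 : ∀ y, y < 2 ^ K → R (pos B y) → R y) :
    ∀ (n y : ℕ), y < 2 ^ K → (TI K A B n (2 ^ x0)).testBit y = true → R y := by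
  intro n
  induction n with
  | zero =>
    intro y hy h
    have h3 : (2 ^ x0).testBit y = true := h
    rw [Nat.testBit_two_pow] at h3
    simp only [decide_eq_true_eq] at h3
    rw [← h3]; exact h0
  | succ n ih =>
    intro y hy h
    have h3 : TI K A B (n + 1) (2 ^ x0) = T K A B (TI K A B n (2 ^ x0)) := rfl
    rw [h3, T_testBit hA hB _ y hy] at h
    simp only [Bool.or_eq_true] at h
    rcases h with h | h | h
    · exact ih y hy h
    · exact h1 y hy (ih _ (pos_lt hA hy) h)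
    · exact h2 y hy (ih _ (pos_lt hB hy) h)

/-! ### Kernel versions -/

noncomputable def stK {β : Type} (s m v : ℕ) (k : ℕ → β) : β :=
  N (Nat.land (Nat.xor (Nat.shiftRight v s) v) m) fun t => N (Nat.xor (Nat.xor v t) (Nat.shiftLeft t s)) k

theorem stK_eq {β : Type} (s m v : ℕ) (k : ℕ → β) : stK s m v k = k (stg s m v) := by
  unfold stK
  rw [N_eq, N_eq]
  rfl

/-- list of pairs (shift, mask) -/
noncomputable def mks {β : Type} (K : ℕ) (ops : List (ℕ × ℕ)) : (List (ℕ × ℕ) → β) → β :=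
  List.rec (motive := fun _ => (List (ℕ × ℕ) → β) → β) (fun k => k [])
    (fun p _ ih k => N (Nat.pow (nat_lit 2) p.2) fun s => N (mk K p.1 p.2) fun m => ih fun l => k ((s, m) :: l)) ops

theorem mks_eq {β : Type} (K : ℕ) (ops : List (ℕ × ℕ)) (k : List (ℕ × ℕ) → β) :
    mks K ops k = k (ops.map fun p => (2 ^ p.2, mk K p.1 p.2)) := by
  induction ops generalizing k with
  | nil => rfl
  | cons p t ih =>
    have h1 : mks K (p :: t) k = N (Nat.pow 2 p.2) fun s => N (mk K p.1 p.2) fun m => mks K t fun l => k ((s, m) :: l) := rfl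
    rw [h1, N_eq, N_eq, ih]
    rfl

noncomputable def rn {β : Type} (l : List (ℕ × ℕ)) : ℕ → (ℕ → β) → β :=
  List.rec (motive := fun _ => ℕ → (ℕ → β) → β) (fun v k => k v)
    (fun p _ ih v k => stK p.1 p.2 v fun v' => ih v' k) l

theorem rn_eq {β : Type} (K : ℕ) (ops : List (ℕ × ℕ)) (v : ℕ) (k : ℕ → β) :
    rn (ops.map fun p => (2 ^ p.2, mk K p.1 p.2)) v k = k (apL K ops v) := by
  induction ops generalizing v with
  | nil => rfl
  | cons p t ih =>
    have h1 : rn ((p :: t).map fun p => (2 ^ p.2, mk K p.1 p.2)) v k =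
      stK (2 ^ p.2) (mk K p.1 p.2) v fun v' => rn (t.map fun p => (2 ^ p.2, mk K p.1 p.2)) v' k := rfl
    rw [h1, stK_eq, ih]
    rfl

/-- rounds -/
noncomputable def rdK {β : Type} (a b : List (ℕ × ℕ)) (n : ℕ) : ℕ → (ℕ → β) → β :=
  Nat.rec (motive := fun _ => ℕ → (ℕ → β) → β) (fun v k => k v)
    (fun _ ih v k => rn a v fun x => rn b v fun y => N (Nat.lor v (Nat.lor x y)) fun w => ih w k) n

theorem TI_succ' (K : ℕ) (A B : List (ℕ × ℕ)) (n v : ℕ) : TI K A B (n + 1) v = TI K A B n (T K A B v) := by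
  induction n with
  | zero => rfl
  | succ n ih =>
    have h1 : TI K A B (n + 1 + 1) v = T K A B (TI K A B (n + 1) v) := rfl
    rw [h1, ih]
    rfl

theorem rdK_eq {β : Type} (K : ℕ) (A B : List (ℕ × ℕ)) (n v : ℕ) (k : ℕ → β) :
    rdK (A.map fun p => (2 ^ p.2, mk K p.1 p.2)) (B.map fun p => (2 ^ p.2, mk K p.1 p.2)) n v k = k (TI K A B n v) := by
  induction n generalizing v with
  | zero => rfl
  | succ n ih =>
    have h1 : rdK (A.map fun p => (2 ^ p.2, mk K p.1 p.2)) (B.map fun p => (2 ^ p.2, mk K p.1 p.2)) (n + 1) v k =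
      rn (A.map fun p => (2 ^ p.2, mk K p.1 p.2)) v fun x => rn (B.map fun p => (2 ^ p.2, mk K p.1 p.2)) v fun y =>
        N (Nat.lor v (Nat.lor x y)) fun w => rdK (A.map fun p => (2 ^ p.2, mk K p.1 p.2)) (B.map fun p => (2 ^ p.2, mk K p.1 p.2)) n w k := rfl
    rw [h1, rn_eq, rn_eq, N_eq, ih, TI_succ']
    rfl

/-! ### Counting -/

/-- force evaluation, `0` at `0` -/
noncomputable def NZ (x : ℕ) (f : ℕ → ℕ) : ℕ := Nat.rec 0 (fun m _ => f (Nat.succ m)) x

theorem NZ_eq (x : ℕ) (f : ℕ → ℕ) (h : f 0 = 0) : NZ x f = f x := by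
  cases x
  · exact h.symm
  · rfl

/-- number of one bits among the first `2 ^ d` -/
noncomputable def pc (d : ℕ) : ℕ → ℕ :=
  Nat.rec (motive := fun _ => ℕ → ℕ) (fun n => Nat.land n (nat_lit 1))
    (fun d ih n => Nat.add (NZ (Nat.land n (Nat.sub (Nat.pow (nat_lit 2) (Nat.pow (nat_lit 2) d)) (nat_lit 1))) ih)
      (NZ (Nat.shiftRight n (Nat.pow (nat_lit 2) d)) ih)) d

/-- the count -/
def cnt (m n : ℕ) : ℕ := ((Finset.range m).filter fun y => n.testBit y = true).card

theorem cnt_zero (m : ℕ) : cnt m 0 = 0 := by simp [cnt]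

theorem cnt_add (m n : ℕ) : cnt (m + m) n = cnt m (n &&& (2 ^ m - 1)) + cnt m (n >>> m) := by
  have h1 : cnt (m + m) n = cnt m n + cnt m (n >>> m) := by
    unfold cnt
    rw [Finset.card_filter, Finset.card_filter, Finset.card_filter, Finset.sum_range_add]
    congr 1
    apply Finset.sum_congr rfl
    intro y _
    rw [Nat.testBit_shiftRight]
  have h2 : cnt m n = cnt m (n &&& (2 ^ m - 1)) := by
    unfold cnt
    congr 1
    apply Finset.filter_congr
    intro y hy
    rw [Finset.mem_range] at hy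
    rw [Nat.testBit_and, Nat.testBit_two_pow_sub_one, decide_eq_true hy, Bool.and_true]
  rw [h1, h2]

theorem pc_zero' (d : ℕ) : pc d 0 = 0 := by
  induction d with
  | zero => rfl
  | succ d ih =>
    have h1 : pc (d + 1) 0 = NZ (0 &&& (2 ^ 2 ^ d - 1)) (pc d) + NZ (0 >>> 2 ^ d) (pc d) := rfl
    rw [h1, Nat.zero_and, Nat.zero_shiftRight]
    rfl

theorem pc_eq (d n : ℕ) : pc d n = cnt (2 ^ d) n := by
  induction d generalizing n with
  | zero =>
    have h1 : pc 0 n = n &&& 1 := rfl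
    rw [h1]
    unfold cnt
    have h2 : (2 : ℕ) ^ 0 = 1 := rfl
    rw [h2, Finset.card_filter, Finset.sum_range_one, Nat.and_one_is_mod, Nat.testBit_zero]
    rcases Nat.mod_two_eq_zero_or_one n with h | h <;> simp [h]
  | succ d ih =>
    have h1 : pc (d + 1) n = NZ (n &&& (2 ^ 2 ^ d - 1)) (pc d) + NZ (n >>> 2 ^ d) (pc d) := rfl
    rw [h1, NZ_eq _ _ (pc_zero' d), NZ_eq _ _ (pc_zero' d), ih, ih, pow_succ, mul_two, cnt_add]

end Cfsg.Agent.H26.J3a
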