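import Cfsg.Agent.H26_J3b
import Cfsg.Agent.H20_J3Z

/-!
Orbits of the triple cover of J3 on the lines of the 9-space over the field with 4 elements.
-/

set_option autoImplicit false
set_option maxRecDepth 100000

namespace Cfsg.Agent.H26.J3c

open Cfsg.Agent.H8.CE (N N_eq)
open Cfsg.Agent.H8.Net (plane plane_testBit)
open Cfsg.Agent.H26.J3a Cfsg.Agent.H26.J3b
open Cfsg.Agent.H20.J3X Cfsg.Agent.H20.J3Y Cfsg.Agent.H20.J3Z Cfsg.Spor Matrix
open scoped MatrixGroups

/-! ### Results of the kernel computations -/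

theorem gen1 (K n v c : ℕ) (A B : List (ℕ × ℕ)) :
    (mks K A fun a => mks K B fun b => rdK a b n v fun S => rn a S fun x => rn b S fun y =>
      (Bool.rec false (Bool.rec false (Nat.beq (pc K S) c) (Nat.beq y S)) (Nat.beq x S) : Bool)) =
    Bool.rec false (Bool.rec false (Nat.beq (pc K (TI K A B n v)) c) (Nat.beq (apL K B (TI K A B n v)) (TI K A B n v)))
      (Nat.beq (apL K A (TI K A B n v)) (TI K A B n v)) := by
  rw [mks_eq, mks_eq, rdK_eq, rn_eq, rn_eq]

theorem gen2 (X Y c Z W W' : ℕ) (h : (Bool.rec false (Bool.rec false (Nat.beq Z c) (Nat.beq W Y)) (Nat.beq W' X) : Bool) = true) :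
    W' = X ∧ W = Y ∧ Z = c := by
  cases h1 : Nat.beq W' X
  · rw [h1] at h; exact absurd h (by simp)
  · rw [h1] at h
    cases h2 : Nat.beq W Y
    · rw [h2] at h; exact absurd h (by simp)
    · rw [h2] at h
      exact ⟨Nat.eq_of_beq_eq_true h1, Nat.eq_of_beq_eq_true h2, Nat.eq_of_beq_eq_true h⟩

theorem gen3 (K n v c : ℕ) (A B : List (ℕ × ℕ))
    (h : (mks K A fun a => mks K B fun b => rdK a b n v fun S => rn a S fun x => rn b S fun y =>
      (Bool.rec false (Bool.rec false (Nat.beq (pc K S) c) (Nat.beq y S)) (Nat.beq x S) : Bool)) = true) :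
    apL K A (TI K A B n v) = TI K A B n v ∧ apL K B (TI K A B n v) = TI K A B n v ∧ cnt (2 ^ K) (TI K A B n v) = c := by
  rw [gen1] at h
  have h2 := gen2 _ _ _ _ _ _ h
  rw [← pc_eq]
  exact h2

theorem gen4 (K n v : ℕ) (A B : List (ℕ × ℕ)) (Z : ℕ)
    (h : (mks K A fun a => mks K B fun b => rdK a b n v fun S => Nat.beq (Nat.lor S (nat_lit 1)) Z) = true) :
    Nat.lor (TI K A B n v) (nat_lit 1) = Z := by
  rw [mks_eq, mks_eq, rdK_eq] at h
  exact Nat.eq_of_beq_eq_true h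

theorem two1 : (2 : ℕ) ^ 1 = 2 := by norm_num
theorem two3 : (2 : ℕ) ^ 3 = 8 := by norm_num

theorem S1_eq : S1 = TI 18 opsA opsB 48 2 := by
  unfold S1; rw [two1]
theorem S3_eq : S3 = TI 18 opsA opsB 45 8 := by
  unfold S3; rw [two3]

theorem chk1_iff : apL 18 opsA S1 = S1 ∧ apL 18 opsB S1 = S1 ∧ cnt (2 ^ 18) S1 = 69768 := by
  rw [S1_eq]
  exact gen3 18 48 2 69768 opsA opsB chk1_true

theorem chk3_iff : Nat.lor S3 (nat_lit 1) = Nat.xor (Nat.sub (Nat.pow (nat_lit 2) (Nat.pow (nat_lit 2) (nat_lit 18))) (nat_lit 1))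
    (PM [0, 1, 2, 3, 4, 5, 6, 7, 8]) := by
  rw [S3_eq]
  exact gen4 18 45 8 opsA opsB
    (Nat.xor (Nat.sub (Nat.pow (nat_lit 2) (Nat.pow (nat_lit 2) (nat_lit 18))) (nat_lit 1)) (PM [0, 1, 2, 3, 4, 5, 6, 7, 8])) chk3_true

theorem PM_cons (z : ℕ) (l : List ℕ) : PM (z :: l) = (plane z 18 ||| plane (9 + z) 18) ^^^ PM l := rfl
theorem PM_nil : PM [] = 0 := rfl

theorem PM_testBit (l : List ℕ) (y : ℕ) (hy : y < 2 ^ 18) :
    (PM l).testBit y = l.foldr (fun z b => ((y.testBit z || y.testBit (9 + z)) ^^ b)) false := by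
  induction l with
  | nil => rw [PM_nil]; simp
  | cons z l ih =>
    rw [PM_cons, Nat.testBit_xor, Nat.testBit_or, plane_testBit, plane_testBit, ih, decide_eq_true hy]
    simp

/-! ### Vectors -/

section
variable {F : Type*} [Field F] {ω : F}

/-- the vector with a given code -/
def vec (ω : F) (n : ℕ) : F9 → F := fun z => tv ω n (ix z)

theorem vec_xor (h : FH ω) (x y : ℕ) : vec ω (x ^^^ y) = vec ω x + vec ω y := by
  ext z; exact tv_xor h x y _

theorem vec_zero : vec ω 0 = 0 := by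
  ext z; exact tv_zero _

theorem mulVec_vec (h : FH ω) {M : List ℕ} (hM : M.length = 9) (n : ℕ) : toM ω M *ᵥ vec ω n = vec ω (mulV M n) := by
  ext w
  rw [Matrix.mulVec, dotProduct]
  show ∑ z, toM ω M w z * vec ω n z = tv ω (mulV M n) (ix w)
  rw [tv_mulV h M _ _ (ix_lt w), hM]
  exact sum_ix (fun j => tv ω (M.getD j 0) (ix w) * tv ω n j)

theorem vec_pos (h : FH ω) {M : List ℕ} (hM : M.length = 9) {ops : List (ℕ × ℕ)}
    (hp : ∀ i < 18, pos ops (2 ^ i) = mulV M (2 ^ i)) (y : ℕ) (hy : y < 2 ^ 18) :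
    toM ω M *ᵥ vec ω y = vec ω (pos ops y) := by
  refine code_induct (P := fun y => toM ω M *ᵥ vec ω y = vec ω (pos ops y)) ?_ ?_ 18 ?_ y hy
  · show toM ω M *ᵥ vec ω 0 = vec ω (pos ops 0)
    rw [pos_zero, vec_zero, Matrix.mulVec_zero]
  · intro x y hx hy
    show toM ω M *ᵥ vec ω (x ^^^ y) = vec ω (pos ops (x ^^^ y))
    rw [pos_xor, vec_xor h, vec_xor h, Matrix.mulVec_add, hx, hy]
  · intro i hi
    show toM ω M *ᵥ vec ω (2 ^ i) = vec ω (pos ops (2 ^ i))
    rw [hp i hi, mulVec_vec h hM]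

theorem tb_inj (h : FH ω) {u v u' v' : Bool} (he : tb ω u v = tb ω u' v') : u = u' ∧ v = v' := by
  have h0 := h.ne0
  have h1 := h.ne1
  have h2 := h.h2
  have h3 : (1 : F) ≠ 0 := one_ne_zero
  have e1 : (1 : F) + ω ≠ 0 := fun hc => h1 (by linear_combination hc - h2)
  cases u <;> cases v <;> cases u' <;> cases v' <;> simp [tb] at he ⊢
  all_goals first
    | exact absurd he.symm h0
    | exact absurd he h0
    | exact absurd he h1
    | exact absurd he.symm h1
    | exact absurd he e1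
    | exact absurd he.symm e1
    | exact h3 (by linear_combination he)
    | exact h3 (by linear_combination -he)
    | exact h0 (by linear_combination he)
    | exact h0 (by linear_combination -he)

theorem vec_inj (h : FH ω) {x y : ℕ} (hx : x < 2 ^ 18) (hy : y < 2 ^ 18) (he : vec ω x = vec ω y) : x = y := by
  have hix : ∀ j < 9, ∃ z : F9, ix z = j := by decide
  have hb : ∀ j < 9, x.testBit j = y.testBit j ∧ x.testBit (9 + j) = y.testBit (9 + j) := by
    intro j hj
    obtain ⟨z, hz⟩ := hix j hj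
    have h1 := congrFun he z
    unfold vec tv at h1
    rw [hz] at h1
    exact tb_inj h h1
  apply Nat.eq_of_testBit_eq
  intro t
  by_cases h1 : t < 9
  · exact (hb t h1).1
  · by_cases h2 : t < 18
    · have := (hb (t - 9) (by omega)).2
      rwa [show 9 + (t - 9) = t by omega] at this
    · rw [Nat.testBit_lt_two_pow (lt_of_lt_of_le hx (Nat.pow_le_pow_right (by omega) (by omega))),
        Nat.testBit_lt_two_pow (lt_of_lt_of_le hy (Nat.pow_le_pow_right (by omega) (by omega)))]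

theorem vec_surj [Fintype F] (hF : Fintype.card F = 4) (h : FH ω) (v : F9 → F) : ∃ y < 2 ^ 18, vec ω y = v := by
  classical
  have h1 : Function.Injective (fun y : Fin (2 ^ 18) => vec ω y) := by
    intro x y hxy
    exact Fin.ext (vec_inj h x.2 y.2 hxy)
  have h2 : Function.Bijective (fun y : Fin (2 ^ 18) => vec ω y) := by
    rw [Fintype.bijective_iff_injective_and_card]
    refine ⟨h1, ?_⟩
    have h9 : Fintype.card F9 = 9 := by decide
    rw [Fintype.card_fin, Fintype.card_fun, hF, h9]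
    norm_num
  obtain ⟨y, hy⟩ := h2.2 v
  exact ⟨y, y.2, hy⟩

theorem vec_one (h : FH ω) : vec ω 1 = (Pi.single (0 : F9) (1 : F) : F9 → F) := by
  have h1 : ∀ z : F9, (1 : ℕ).testBit (ix z) = decide (z = 0) ∧ (1 : ℕ).testBit (9 + ix z) = false := by decide
  ext z
  obtain ⟨h2, h3⟩ := h1 z
  unfold vec tv
  rw [h2, h3]
  by_cases hz : z = 0
  · subst hz; simp [tb]
  · simp [tb, hz, Pi.single_apply]

/-! ### The group -/

theorem MA_eq : tab.getD 1 idM = MA := rfl
theorem MB_eq : tab.getD 2 idM = MB := rfl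

theorem al_vec (h : FH ω) (y : ℕ) (hy : y < 2 ^ 18) : (al h : Matrix F9 F9 F) *ᵥ vec ω y = vec ω (pos opsA y) := by
  have e : (al h : Matrix F9 F9 F) = toM ω MA := by rw [← MA_eq]; rfl
  rw [e]
  exact vec_pos h rfl posA y hy

theorem be_vec (h : FH ω) (y : ℕ) (hy : y < 2 ^ 18) : (be h : Matrix F9 F9 F) *ᵥ vec ω y = vec ω (pos opsB y) := by
  have e : (be h : Matrix F9 F9 F) = toM ω MB := by rw [← MB_eq]; rfl
  rw [e]
  exact vec_pos h rfl posB y hy

theorem al_mem (h : FH ω) : al h ∈ threeJ3 F ω := by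
  rw [T_eq h]; exact Subgroup.subset_closure (by simp)
theorem be_mem (h : FH ω) : be h ∈ threeJ3 F ω := by
  rw [T_eq h]; exact Subgroup.subset_closure (by simp)

theorem inv_act (g : GL F9 F) (u v : F9 → F) : (g : Matrix F9 F9 F) *ᵥ u = v ↔ ((g⁻¹ : GL F9 F) : Matrix F9 F9 F) *ᵥ v = u := by
  constructor
  · rintro rfl
    rw [Matrix.mulVec_mulVec, ← Units.val_mul, inv_mul_cancel, Units.val_one, Matrix.one_mulVec]
  · rintro rfl
    rw [Matrix.mulVec_mulVec, ← Units.val_mul, mul_inv_cancel, Units.val_one, Matrix.one_mulVec]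

/-- reachable codes -/
theorem reach (h : FH ω) (x0 n y : ℕ) (hy : y < 2 ^ 18) (hb : (TI 18 opsA opsB n (2 ^ x0)).testBit y = true) :
    ∃ g ∈ threeJ3 F ω, (g : Matrix F9 F9 F) *ᵥ vec ω x0 = vec ω y := by
  refine TI_reach OkA OkB (fun y => ∃ g ∈ threeJ3 F ω, (g : Matrix F9 F9 F) *ᵥ vec ω x0 = vec ω y) x0 ?_ ?_ ?_ n y hy hb
  · exact ⟨1, one_mem _, by rw [Units.val_one, Matrix.one_mulVec]⟩
  · rintro y hy ⟨g, hg, he⟩
    refine ⟨(al h)⁻¹ * g, mul_mem (inv_mem (al_mem h)) hg, ?_⟩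
    rw [Units.val_mul, ← Matrix.mulVec_mulVec, he, ← inv_act]
    exact al_vec h y hy
  · rintro y hy ⟨g, hg, he⟩
    refine ⟨(be h)⁻¹ * g, mul_mem (inv_mem (be_mem h)) hg, ?_⟩
    rw [Units.val_mul, ← Matrix.mulVec_mulVec, he, ← inv_act]
    exact be_vec h y hy

/-- invariance of the first set -/
theorem S1_inv [Fintype F] (hF : Fintype.card F = 4) (h : FH ω) {g : GL F9 F} (hg : g ∈ threeJ3 F ω) :
    ∀ y < 2 ^ 18, ∀ y' < 2 ^ 18, (g : Matrix F9 F9 F) *ᵥ vec ω y = vec ω y' → S1.testBit y = S1.testBit y' := by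
  obtain ⟨cA, cB, _⟩ := chk1_iff
  rw [T_eq h] at hg
  induction hg using Subgroup.closure_induction with
  | mem x hx =>
    intro y hy y' hy' he
    rcases hx with rfl | rfl
    · rw [al_vec h y hy] at he
      rw [← vec_inj h (pos_lt OkA hy) hy' he, ← apL_testBit opsA OkA _ y hy, cA]
    · rw [be_vec h y hy] at he
      rw [← vec_inj h (pos_lt OkB hy) hy' he, ← apL_testBit opsB OkB _ y hy, cB]
  | one =>
    intro y hy y' hy' he
    rw [Units.val_one, Matrix.one_mulVec] at he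
    rw [vec_inj h hy hy' he]
  | mul a b _ _ iha ihb =>
    intro y hy y' hy' he
    obtain ⟨y'', hy'', he''⟩ := vec_surj hF h ((b : Matrix F9 F9 F) *ᵥ vec ω y)
    rw [Units.val_mul, ← Matrix.mulVec_mulVec, ← he''] at he
    rw [ihb y hy y'' hy'' he''.symm, iha y'' hy'' y' hy' he]
  | inv a _ ih =>
    intro y hy y' hy' he
    rw [← inv_act] at he
    exact (ih y' hy' y hy he).symm

theorem S1_one : S1.testBit 1 = true := by
  have h1 : ∀ n, (TI 18 opsA opsB n (2 ^ 1)).testBit 1 = true := by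
    intro n
    induction n with
    | zero =>
      have e : TI 18 opsA opsB 0 (2 ^ 1) = 2 ^ 1 := rfl
      rw [e, Nat.testBit_two_pow]; simp
    | succ n ih =>
      have e : TI 18 opsA opsB (n + 1) (2 ^ 1) = T 18 opsA opsB (TI 18 opsA opsB n (2 ^ 1)) := rfl
      rw [e, T_testBit OkA OkB _ 1 (by norm_num), ih]; simp
  exact h1 48

theorem orbit_iff [Fintype F] (hF : Fintype.card F = 4) (h : FH ω) (y : ℕ) (hy : y < 2 ^ 18) :
    (∃ g ∈ threeJ3 F ω, (g : Matrix F9 F9 F) *ᵥ vec ω 1 = vec ω y) ↔ S1.testBit y = true := by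
  constructor
  · rintro ⟨g, hg, he⟩
    rw [← S1_inv hF h hg 1 (by norm_num) y hy he, S1_one]
  · intro hb
    exact reach h 1 48 y hy hb

end

end Cfsg.Agent.H26.J3c
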