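import Cfsg.Agent.H26_J3c

/-!
Orbits of the triple cover of J3 on the lines of the 9-space over the field with 4 elements.
-/

set_option autoImplicit false
set_option maxRecDepth 100000

namespace Cfsg.Agent.H26.J3d

open Cfsg.Agent.H26.J3a Cfsg.Agent.H26.J3b Cfsg.Agent.H26.J3c
open Cfsg.Agent.H20.J3X Cfsg.Agent.H20.J3Y Cfsg.Agent.H20.J3Z Cfsg.Spor Matrix
open scoped MatrixGroups

theorem full_testBit (k y : ℕ) :
    (Nat.sub (Nat.pow (nat_lit 2) (Nat.pow (nat_lit 2) k)) (nat_lit 1)).testBit y = decide (y < 2 ^ k) :=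
  Nat.testBit_two_pow_sub_one (2 ^ k) y

/-- parity of the number of nonzero entries -/
def par (y : ℕ) (l : List ℕ) : Bool := l.foldr (fun z b => ((y.testBit z || y.testBit (9 + z)) ^^ b)) false

theorem S3_of (y : ℕ) (hy : y < 2 ^ 18) (h0 : y ≠ 0) (hp : par y [0, 1, 2, 3, 4, 5, 6, 7, 8] = false) : S3.testBit y = true := by
  have h1 := congrArg (fun n => Nat.testBit n y) chk3_iff
  have e1 : ∀ a b : ℕ, (Nat.lor a b).testBit y = (a.testBit y || b.testBit y) := fun a b => Nat.testBit_or a b y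
  have e2 : ∀ a b : ℕ, (Nat.xor a b).testBit y = (a.testBit y ^^ b.testBit y) := fun a b => Nat.testBit_xor a b y
  simp only [e1, e2, full_testBit] at h1
  rw [PM_testBit _ y hy] at h1
  have h2 : List.foldr (fun z b => ((y.testBit z || y.testBit (9 + z)) ^^ b)) false [0, 1, 2, 3, 4, 5, 6, 7, 8] = false := hp
  rw [h2, decide_eq_true hy] at h1
  have h3 : Nat.testBit (nat_lit 1) y = false := by
    obtain ⟨m, rfl⟩ := Nat.exists_eq_succ_of_ne_zero h0
    rw [Nat.succ_eq_add_one, Nat.testBit_succ]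
    simp
  rw [h3] at h1
  simpa using h1

section
variable {F : Type*} [Field F] {ω : F}

theorem FH_of [Fintype F] (hF : Fintype.card F = 4) (hω : ω ^ 2 + ω + 1 = 0) : FH ω := by
  refine ⟨?_, hω⟩
  have h1 : ((Fintype.card F : ℕ) : F) = 0 := Nat.cast_card_eq_zero F
  rw [hF] at h1
  have h2 : (2 : F) * 2 = 0 := by
    have : ((4 : ℕ) : F) = 2 * 2 := by norm_num
    rw [← this]; exact h1
  rcases mul_eq_zero.1 h2 with h | h <;> exact h

theorem tb_cube (h : FH ω) (u v : Bool) : (tb ω u v) ^ 3 = bif (u || v) then 1 else 0 := by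
  have h3 := h.cube
  have hs := h.sq
  have h2 := h.h2
  cases u <;> cases v
  · simp [tb]
  · simp [tb, h3]
  · simp [tb]
  · simp only [tb, cond_true, Bool.or_true]
    have : (1 + ω) ^ 3 = 1 := by
      have e : (1 : F) + ω = ω ^ 2 := hs.symm
      rw [e, ← pow_mul, mul_comm, pow_mul, h3, one_pow]
    exact this

theorem sum_par (h : FH ω) (y : ℕ) (l : List ℕ) :
    (l.map fun j => (tv ω y j) ^ 3).sum = bif par y l then (1 : F) else 0 := by
  induction l with
  | nil => simp [par]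
  | cons z l ih =>
    have e : par y (z :: l) = ((y.testBit z || y.testBit (9 + z)) ^^ par y l) := rfl
    rw [List.map_cons, List.sum_cons, ih, e, bx 1 h.oo]
    congr 1
    exact tb_cube h _ _

theorem iso_par (h : FH ω) (y : ℕ) (hs : ∑ z, (vec ω y z) ^ 3 = 0) : par y [0, 1, 2, 3, 4, 5, 6, 7, 8] = false := by
  have h1 : ∑ z : F9, (vec ω y z) ^ 3 = ∑ j ∈ Finset.range 9, (tv ω y j) ^ 3 := sum_ix (fun j => (tv ω y j) ^ 3)
  have h2 : ∑ j ∈ Finset.range 9, (tv ω y j) ^ 3 = (([0, 1, 2, 3, 4, 5, 6, 7, 8] : List ℕ).map fun j => (tv ω y j) ^ 3).sum := by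
    simp only [Finset.sum_range_succ, Finset.sum_range_zero, List.map_cons, List.map_nil, List.sum_cons, List.sum_nil]
    ring
  rw [h1, h2, sum_par h] at hs
  cases hp : par y [0, 1, 2, 3, 4, 5, 6, 7, 8]
  · rfl
  · rw [hp] at hs; simp at hs

theorem iso_reach [Fintype F] (hF : Fintype.card F = 4) (h : FH ω) (v : F9 → F) (hv : v ≠ 0) (hs : ∑ z, (v z) ^ 3 = 0) :
    ∃ g ∈ threeJ3 F ω, (g : Matrix F9 F9 F) *ᵥ vec ω 3 = v := by
  obtain ⟨y, hy, rfl⟩ := vec_surj hF h v
  refine reach h 3 45 y hy (S3_of y hy ?_ (iso_par h y hs))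
  rintro rfl
  exact hv vec_zero

theorem part2 [Fintype F] (hF : Fintype.card F = 4) (h : FH ω) (v w : F9 → F) (hv : v ≠ 0) (hw : w ≠ 0)
    (hsv : ∑ z, (v z) ^ 3 = 0) (hsw : ∑ z, (w z) ^ 3 = 0) :
    ∃ g ∈ threeJ3 F ω, ∃ c : F, c ≠ 0 ∧ (g : Matrix F9 F9 F) *ᵥ v = c • w := by
  obtain ⟨g1, hg1, e1⟩ := iso_reach hF h v hv hsv
  obtain ⟨g2, hg2, e2⟩ := iso_reach hF h w hw hsw
  refine ⟨g2 * g1⁻¹, mul_mem hg2 (inv_mem hg1), 1, one_ne_zero, ?_⟩
  rw [inv_act] at e1
  rw [Units.val_mul, ← Matrix.mulVec_mulVec, e1, e2, one_smul]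

/-! ### scalars -/

theorem scal (h : FH ω) : ∃ s ∈ threeJ3 F ω, (s : Matrix F9 F9 F) = ω • (1 : Matrix F9 F9 F) := by
  refine ⟨(al h * be h) ^ 19, pow_mem (mul_mem (al_mem h) (be_mem h)) _, ?_⟩
  have h1 := v8 h
  rw [toM8 h] at h1
  have h2 : yG h 8 = (al h * be h) ^ 19 := by simp [yG]
  rw [← h2]; exact h1

theorem nz_cases [Fintype F] (hF : Fintype.card F = 4) (h : FH ω) (c : F) (hc : c ≠ 0) : c = 1 ∨ c = ω ∨ c = ω ^ 2 := by
  have h1 : c ^ 3 = 1 := by
    have := FiniteField.pow_card_sub_one_eq_one c hc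
    rw [hF] at this
    exact this
  have h2 : (c - 1) * (c ^ 2 + c + 1) = 0 := by linear_combination h1
  rcases mul_eq_zero.1 h2 with h3 | h3
  · left; exact sub_eq_zero.1 h3
  · right
    have h4 : (c - ω) * (c - ω ^ 2) = 0 := by
      have h5 := h.hw
      have h6 := h.cube
      linear_combination h3 - c * h5 + h6
    rcases mul_eq_zero.1 h4 with h5 | h5
    · left; exact sub_eq_zero.1 h5
    · right; exact sub_eq_zero.1 h5

theorem scal_all [Fintype F] (hF : Fintype.card F = 4) (h : FH ω) (c : F) (hc : c ≠ 0) :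
    ∃ s ∈ threeJ3 F ω, ∀ v : F9 → F, (s : Matrix F9 F9 F) *ᵥ v = c • v := by
  obtain ⟨s, hs, es⟩ := scal h
  rcases nz_cases hF h c hc with rfl | rfl | rfl
  · exact ⟨1, one_mem _, fun v => by rw [Units.val_one, Matrix.one_mulVec, one_smul]⟩
  · exact ⟨s, hs, fun v => by rw [es, Matrix.smul_mulVec, Matrix.one_mulVec]⟩
  · refine ⟨s * s, mul_mem hs hs, fun v => ?_⟩
    rw [Units.val_mul, ← Matrix.mulVec_mulVec, es, Matrix.smul_mulVec, Matrix.smul_mulVec, Matrix.one_mulVec, Matrix.one_mulVec,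
      smul_smul, pow_two]

end

section
variable {F : Type} [Field F] {ω : F}

theorem part1 [Fintype F] (hF : Fintype.card F = 4) (h : FH ω) :
    {L : Submodule F (F9 → F) | ∃ g ∈ threeJ3 F ω, L = F ∙ ((g : Matrix F9 F9 F) *ᵥ (Pi.single (0 : F9) (1 : F) : F9 → F))}.ncard = 23256 := by
  classical
  set e0 : F9 → F := Pi.single (0 : F9) (1 : F) with he0
  have hv1 : vec ω 1 = e0 := vec_one h
  let W : Finset (F9 → F) := Finset.univ.filter fun v => ∃ g ∈ threeJ3 F ω, (g : Matrix F9 F9 F) *ᵥ e0 = v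
  have hW : ∀ v, v ∈ W ↔ ∃ g ∈ threeJ3 F ω, (g : Matrix F9 F9 F) *ᵥ e0 = v := fun v => by simp [W]
  have hWc : W.card = 69768 := by
    have h1 : W = ((Finset.range (2 ^ 18)).filter fun y => S1.testBit y = true).image (vec ω) := by
      ext v
      rw [hW, Finset.mem_image]
      constructor
      · rintro ⟨g, hg, rfl⟩
        obtain ⟨y, hy, hy2⟩ := vec_surj hF h ((g : Matrix F9 F9 F) *ᵥ e0)
        refine ⟨y, ?_, hy2⟩
        rw [Finset.mem_filter, Finset.mem_range]
        refine ⟨hy, (orbit_iff hF h y hy).1 ⟨g, hg, ?_⟩⟩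
        rw [hv1, hy2]
      · rintro ⟨y, hy, rfl⟩
        rw [Finset.mem_filter, Finset.mem_range] at hy
        obtain ⟨g, hg, hge⟩ := (orbit_iff hF h y hy.1).2 hy.2
        exact ⟨g, hg, by rw [← hv1, hge]⟩
    rw [h1, Finset.card_image_of_injOn]
    · exact chk1_iff.2.2
    · intro x hx y hy hxy
      rw [Finset.mem_coe, Finset.mem_filter, Finset.mem_range] at hx hy
      exact vec_inj h hx.1 hy.1 hxy
  have hne : ∀ v ∈ W, v ≠ 0 := by
    intro v hv
    obtain ⟨g, hg, hge⟩ := (hW v).1 hv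
    rintro rfl
    rw [inv_act, Matrix.mulVec_zero] at hge
    have := congrFun hge 0
    rw [he0] at this
    simp at this
  have hset : {L : Submodule F (F9 → F) | ∃ g ∈ threeJ3 F ω, L = F ∙ ((g : Matrix F9 F9 F) *ᵥ e0)} =
      ((W.image fun v => F ∙ v : Finset (Submodule F (F9 → F))) : Set (Submodule F (F9 → F))) := by
    ext L
    rw [Set.mem_setOf_eq, Finset.mem_coe, Finset.mem_image]
    constructor
    · rintro ⟨g, hg, rfl⟩
      exact ⟨_, (hW _).2 ⟨g, hg, rfl⟩, rfl⟩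
    · rintro ⟨v, hv, rfl⟩
      obtain ⟨g, hg, rfl⟩ := (hW v).1 hv
      exact ⟨g, hg, rfl⟩
  rw [hset, Set.ncard_coe_finset]
  have hsum := Finset.card_eq_sum_card_image (fun v : F9 → F => (F ∙ v : Submodule F (F9 → F))) W
  have hfib : ∀ L ∈ W.image (fun v : F9 → F => (F ∙ v : Submodule F (F9 → F))),
      (W.filter fun v => (F ∙ v : Submodule F (F9 → F)) = L).card = 3 := by
    intro L hL
    obtain ⟨v, hv, rfl⟩ := Finset.mem_image.1 hL
    have hv0 := hne v hv
    have h1 : (W.filter fun u => (F ∙ u : Submodule F (F9 → F)) = F ∙ v) = ((Finset.univ : Finset F).erase 0).image fun c => c • v := by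
      ext u
      rw [Finset.mem_filter, Finset.mem_image]
      constructor
      · rintro ⟨hu, hu2⟩
        have h3 : u ∈ (F ∙ v : Submodule F (F9 → F)) := by rw [← hu2]; exact Submodule.mem_span_singleton_self u
        obtain ⟨c, rfl⟩ := Submodule.mem_span_singleton.1 h3
        refine ⟨c, ?_, rfl⟩
        rw [Finset.mem_erase]
        refine ⟨?_, Finset.mem_univ _⟩
        rintro rfl
        exact hne _ hu (zero_smul _ _)
      · rintro ⟨c, hc, rfl⟩
        have hc0 : c ≠ 0 := (Finset.mem_erase.1 hc).1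
        obtain ⟨s, hs, hse⟩ := scal_all hF h c hc0
        obtain ⟨g, hg, hge⟩ := (hW v).1 hv
        refine ⟨(hW _).2 ⟨s * g, mul_mem hs hg, ?_⟩, ?_⟩
        · rw [Units.val_mul, ← Matrix.mulVec_mulVec, hge, hse]
        · exact Submodule.span_singleton_smul_eq (IsUnit.mk0 c hc0) v
    rw [h1, Finset.card_image_of_injective, Finset.card_erase_of_mem (Finset.mem_univ _), Finset.card_univ, hF]
    intro a b hab
    have h2 : (a - b) • v = 0 := by
      rw [sub_smul]; exact sub_eq_zero.2 hab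
    rcases smul_eq_zero.1 h2 with h3 | h3
    · exact sub_eq_zero.1 h3
    · exact absurd h3 hv0
  rw [Finset.sum_congr rfl hfib, Finset.sum_const, hWc, smul_eq_mul] at hsum
  omega

end

end Cfsg.Agent.H26.J3d
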