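import Cfsg.Agent.H26_L37N

set_option autoImplicit false
set_option maxRecDepth 1000000

namespace Cfsg.Agent.H26.L37

open H8.CE H8.Net H8.Act H26.Sp

theorem vl6 : vlOk (net L 6) 6384 456 (rN 6) = true := by decide +kernel

end Cfsg.Agent.H26.L37
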