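import Cfsg.Agent.H26_L37V3
import Cfsg.Agent.H26_L37V4
import Cfsg.Agent.H26_L37V5
import Cfsg.Agent.H26_L37V6
import Cfsg.Agent.H26_L37V7
import Cfsg.Agent.H26_L37V8
import Cfsg.Agent.H26_SpLab2
import Cfsg.Agent.S0243

/-! The point stabilizer of the O'Nan group is an extension of `PSL(3, 7)` by an outer automorphism. -/

set_option autoImplicit false
set_option maxRecDepth 100000

namespace Cfsg.Agent.H26.L37

open Cfsg H8.CE H8.Net H8.Act H8.Act2 H8.Act3 H26.ONM H26.Sp Cfsg.Spor Matrix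

theorem hq : quotB H8.ONA.L L l9 bet 5587 11971 = true :=
  quotB_of (n := 122760) (d := 6384) (r := rN) H8.ONA.sys (by
    intro y hy
    simp only [List.mem_cons, List.not_mem_nil, or_false] at hy
    rcases hy with rfl | rfl | rfl | rfl | rfl | rfl
    exacts [fs3, fs4, fs5, fs6, fs7, fs8]) (by
    intro y hy
    simp only [List.mem_cons, List.not_mem_nil, or_false] at hy
    rcases hy with rfl | rfl | rfl | rfl | rfl | rfl
    exacts [ap3, ap4, ap5, ap6, ap7, ap8]) (by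
    intro y hy
    simp only [List.mem_cons, List.not_mem_nil, or_false] at hy
    rcases hy with rfl | rfl | rfl | rfl | rfl | rfl
    exacts [iv3, iv4, iv5, iv6, iv7, iv8]) (by
    intro y hy
    simp only [List.mem_cons, List.not_mem_nil, or_false] at hy
    rcases hy with rfl | rfl | rfl | rfl | rfl | rfl
    exacts [vl3, vl4, vl5, vl6, vl7, vl8])

theorem hicS : ∀ y ∈ l9, il H8.ONR.ic y ∈ l9 ∧ x (il H8.ONR.ic y) = (x y)⁻¹ := by
  have h1 : ∀ y ∈ l9, il H8.ONR.ic y ∈ l9 := by decide +kernel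
  have h2 : ∀ y ∈ l9, y < 16 := by decide
  exact fun y hy => ⟨h1 y hy, hic y (h2 y hy)⟩

theorem bet_surj (j : ℕ) (hj : j < 456) : ∃ i, 5587 ≤ i ∧ i < 11971 ∧ i < 122760 ∧ bet i = j := by
  have h := rep_ok
  rw [List.all_eq_true] at h
  have h1 := h j (List.mem_range.2 hj)
  rw [Bool.and_eq_true] at h1
  have h2 : rep j < 11971 := blt_eq.1 h1.2
  exact ⟨rep j, Nat.le_add_right _ _, h2, by omega, Nat.eq_of_beq_eq_true h1.1⟩

theorem exists_psi : ∃ ψ : Subgroup.closure (x '' {y | y ∈ l9}) →* Equiv.Perm (Fin 456),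
      (∀ y ∈ l9, ∀ i : Fin 456, ((((ψ (xS x l9 y))⁻¹ : Equiv.Perm (Fin 456)) i : Fin 456) : ℕ) = (net L y).pos i) ∧
      ∀ h : Subgroup.closure (x '' {y | y ∈ l9}), ∀ i : Fin 122760, 5587 ≤ (i : ℕ) → (i : ℕ) < 11971 →
        bet ((phi (h : ON) i : Fin 122760) : ℕ) = ((ψ h ⟨bet i, bet_lt i⟩ : Fin 456) : ℕ) :=
  exists_quot (k := 9) (ic := H8.ONR.ic) compat sys (by decide) inv_ok (by decide) hicS bet_lt bet_surj hq

/-- the action on flags -/
noncomputable def psi : Subgroup.closure (x '' {y | y ∈ l9}) →* Equiv.Perm (Fin 456) := exists_psi.choose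

theorem compatS : Compat psi (xS x l9) L :=
  compat_quot exists_psi.choose_spec.1 (by
    intro y hy
    interval_cases y
    · exact Or.inr rfl
    · exact Or.inr rfl
    · exact Or.inr rfl
    · exact Or.inl (by decide)
    · exact Or.inl (by decide)
    · exact Or.inl (by decide)
    · exact Or.inl (by decide)
    · exact Or.inl (by decide)
    · exact Or.inl (by decide)
    · exact Or.inr rfl
    · exact Or.inr rfl
    · exact Or.inr rfl
    · exact Or.inr rfl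
    · exact Or.inr rfl
    · exact Or.inr rfl
    · exact Or.inr rfl)

theorem cardHS : Nat.card (Subgroup.closure (x '' {y | y ∈ l9})) = 3753792 := cardH

theorem psi_inj : Function.Injective psi :=
  (order_eq sys (exists_g sys (by decide : 456 ≤ 2 ^ 9) compatS sg_ok (by decide +kernel)) levs chain
    (by rw [cardHS, prodM_levs])).2

/-! ### Labels -/

/-- the tensor of a flag -/
def vv (i : Fin 456) : Fin 3 × Fin 3 → K := tens (vc vN i) (vc wN i)

theorem nr_all (i : ℕ) (hi : i < 456) : nr vN i = true ∧ nr wN i = true ∧ fl vN i wN i = true := by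
  have h := nr_ok
  rw [List.all_eq_true] at h
  have h1 := h i (List.mem_range.2 hi)
  simp only [Bool.and_eq_true] at h1
  exact ⟨h1.1.1, h1.1.2, h1.2⟩

theorem cd_step (i : ℕ) (hi : i < 455) : cd2 vN wN i < cd2 vN wN (i + 1) := by
  have h := cd_ok
  rw [List.all_eq_true] at h
  exact blt_eq.1 (h i (List.mem_range.2 hi))

theorem cd_mono (i : ℕ) : ∀ d, i + d + 1 < 456 → cd2 vN wN i < cd2 vN wN (i + d + 1) := by
  intro d
  induction d with
  | zero => intro h; exact cd_step i (by omega)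
  | succ d ih =>
    intro h
    exact (ih (by omega)).trans (cd_step (i + d + 1) (by omega))

theorem cd_inj (i j : ℕ) (hi : i < 456) (hj : j < 456) (h : cd2 vN wN i = cd2 vN wN j) : i = j := by
  by_contra hne
  rcases Nat.lt_or_gt_of_ne hne with h1 | h1
  · have h2 := cd_mono i (j - i - 1) (by omega)
    rw [show i + (j - i - 1) + 1 = j by omega] at h2
    omega
  · have h2 := cd_mono j (i - j - 1) (by omega)
    rw [show j + (i - j - 1) + 1 = i by omega] at h2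
    omega

theorem dg_cast {a b : ℕ} (ha : a < 7) (hb : b < 7) (h : (a : K) = (b : K)) : a = b := by
  have h1 := (ZMod.natCast_eq_natCast_iff' a b 7).1 h
  omega

/-- all digits are smaller than seven -/
theorem dig_ok : ((List.range 456).all fun i => Nat.blt (dg vN i 0) 7 && Nat.blt (dg vN i 1) 7 && Nat.blt (dg vN i 2) 7 &&
    Nat.blt (dg wN i 0) 7 && Nat.blt (dg wN i 1) 7 && Nat.blt (dg wN i 2) 7) = true := by decide +kernel

theorem dig (i : ℕ) (hi : i < 456) : (∀ t : Fin 3, dg vN i t < 7) ∧ (∀ t : Fin 3, dg wN i t < 7) := by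
  have h := dig_ok
  rw [List.all_eq_true] at h
  have h1 := h i (List.mem_range.2 hi)
  simp only [Bool.and_eq_true] at h1
  obtain ⟨⟨⟨⟨⟨a0, a1⟩, a2⟩, b0⟩, b1⟩, b2⟩ := h1
  constructor
  · intro t
    fin_cases t
    exacts [blt_eq.1 a0, blt_eq.1 a1, blt_eq.1 a2]
  · intro t
    fin_cases t
    exacts [blt_eq.1 b0, blt_eq.1 b1, blt_eq.1 b2]

theorem vv_inj (i j : Fin 456) (h : ∃ c : K, c ≠ 0 ∧ vv i = c • vv j) : i = j := by
  obtain ⟨c, hc, h⟩ := h
  obtain ⟨h1, h2⟩ := tens_inj (nr_sound (nr_all i i.2).1) (nr_sound (nr_all i i.2).2.1) (nr_sound (nr_all j j.2).1)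
    (nr_sound (nr_all j j.2).2.1) hc h
  apply Fin.ext
  apply cd_inj _ _ i.2 j.2
  have e1 : ∀ t : Fin 3, dg vN i t = dg vN j t := fun t =>
    dg_cast ((dig i i.2).1 t) ((dig j j.2).1 t) (congrFun h1 t)
  have e2 : ∀ t : Fin 3, dg wN i t = dg wN j t := fun t =>
    dg_cast ((dig i i.2).2 t) ((dig j j.2).2 t) (congrFun h2 t)
  have f0 : dg vN i 0 = dg vN j 0 := e1 0
  have f1 : dg vN i 1 = dg vN j 1 := e1 1
  have f2 : dg vN i 2 = dg vN j 2 := e1 2
  have g0 : dg wN i 0 = dg wN j 0 := e2 0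
  have g1 : dg wN i 1 = dg wN j 1 := e2 1
  have g2 : dg wN i 2 = dg wN j 2 := e2 2
  unfold cd2
  rw [cd_dg, cd_dg, cd_dg, cd_dg, f0, f1, f2, g0, g1, g2]

/-! ### The letters -/

theorem pos_psi {y : ℕ} (hy : y < 16) (j : Fin 456) : (net L y).pos ((psi (xS x l9 y) j : Fin 456) : ℕ) = j := by
  rw [← compatS y hy]
  exact congrArg Fin.val (Equiv.symm_apply_apply _ _)

theorem det_ok : ∀ y ∈ [4, 5, 6, 7, 8], (mt (mM y)).det = 1 ∧ mt (mM y) * (mt (mC y))ᵀ = 1 := by decide +kernel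

theorem outer_ok : mt (mM 3) * (mt (mC 3))ᵀ = 1 := by decide +kernel

/-- the matrix of a product of two letters -/
def AA (y : ℕ) (hy : y ∈ [4, 5, 6, 7, 8]) : S := ⟨mt (mM y), (det_ok y hy).1⟩

theorem AA_inv (y : ℕ) (hy : y ∈ [4, 5, 6, 7, 8]) : (cm (AA y hy)⁻¹)ᵀ = mt (mC y) := by
  have h1 : cm (AA y hy) * (mt (mC y))ᵀ = 1 := (det_ok y hy).2
  have h2 : cm (AA y hy)⁻¹ * cm (AA y hy) = 1 := by
    rw [← cm_mul, inv_mul_cancel, cm_one]
  have h3 : cm (AA y hy)⁻¹ = (mt (mC y))ᵀ := by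
    calc cm (AA y hy)⁻¹ = cm (AA y hy)⁻¹ * (cm (AA y hy) * (mt (mC y))ᵀ) := by rw [h1, Matrix.mul_one]
      _ = (mt (mC y))ᵀ := by rw [← Matrix.mul_assoc, h2, Matrix.one_mul]
  rw [h3, transpose_transpose]

theorem tvY_ok {y : ℕ} (hy : y ∈ [4, 5, 6, 7, 8]) : tvY y = true := by
  simp only [List.mem_cons, List.not_mem_nil, or_false] at hy
  rcases hy with rfl | rfl | rfl | rfl | rfl
  exacts [tv4, tv5, tv6, tv7, tv8]

theorem tens_smul (c d : K) (v w : Fin 3 → K) : tens (c • v) (d • w) = (c * d) • tens v w := by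
  ext p
  simp only [tens, Pi.smul_apply, smul_eq_mul]
  ring

theorem let_mem {y : ℕ} (hy : y ∈ [4, 5, 6, 7, 8]) : (xS x l9 3 * xS x l9 y, AA y hy) ∈ labP psi rho vv := by
  have hy16 : y < 16 := by
    have : ∀ y ∈ [4, 5, 6, 7, 8], y < 16 := by decide
    exact this y hy
  rw [mem_labP]
  intro j
  have h := tvY_ok hy
  rw [tvY, List.all_eq_true] at h
  have h2 := h (psi (xS x l9 3 * xS x l9 y) j : Fin 456) (List.mem_range.2 (Fin.is_lt _))
  have h4 : (net L y).pos ((net L 3).pos ((psi (xS x l9 3 * xS x l9 y) j : Fin 456) : ℕ)) = j := by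
    rw [map_mul, Equiv.Perm.mul_apply, pos_psi (by decide), pos_psi hy16]
  rw [h4, Bool.and_eq_true] at h2
  obtain ⟨c, hc, h5⟩ := prA_sound h2.1
  obtain ⟨d, hd, h6⟩ := prA_sound h2.2
  refine ⟨c * d, mul_ne_zero hc hd, ?_⟩
  show rho (AA y hy) *ᵥ tens (vc vN j) (vc wN j) = _
  rw [rho_tens, AA_inv]
  have h7 : cm (AA y hy) = mt (mM y) := rfl
  rw [h7, h5, h6, tens_smul]
  rfl

theorem outer (j : Fin 456) : ∃ c : K, c ≠ 0 ∧ TT (mt (mM 3)) (mt (mC 3)) *ᵥ vv j = c • vv (psi (xS x l9 3) j) := by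
  have h := tvS_ok
  rw [tvS, List.all_eq_true] at h
  have h2 := h (psi (xS x l9 3) j : Fin 456) (List.mem_range.2 (Fin.is_lt _))
  rw [pos_psi (by decide), Bool.and_eq_true] at h2
  obtain ⟨c, hc, h5⟩ := prA_sound h2.1
  obtain ⟨d, hd, h6⟩ := prA_sound h2.2
  refine ⟨c * d, mul_ne_zero hc hd, ?_⟩
  show _ *ᵥ tens (vc vN j) (vc wN j) = _
  rw [TT_tens, h5, h6, tens_smul]
  rfl

/-- conjugation by the outer letter -/
theorem lab_conj {h : Subgroup.closure (x '' {y | y ∈ l9})} {A : S} (hh : (h, A) ∈ labP psi rho vv) :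
    ∃ A' : S, (xS x l9 3 * h * (xS x l9 3)⁻¹, A') ∈ labP psi rho vv := by
  obtain ⟨A', hA'⟩ := TT_rho outer_ok A
  refine ⟨A', ?_⟩
  rw [mem_labP] at hh ⊢
  intro j
  obtain ⟨i, rfl⟩ : ∃ i, psi (xS x l9 3) i = j := (psi (xS x l9 3)).surjective j
  obtain ⟨c, hc, e1⟩ := outer i
  obtain ⟨d, hd, e2⟩ := hh i
  obtain ⟨f, hf, e3⟩ := outer (psi h i)
  refine ⟨c⁻¹ * d * f, mul_ne_zero (mul_ne_zero (inv_ne_zero hc) hd) hf, ?_⟩
  have e4 : vv (psi (xS x l9 3) i) = c⁻¹ • (TT (mt (mM 3)) (mt (mC 3)) *ᵥ vv i) := by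
    rw [e1, smul_smul, inv_mul_cancel₀ hc, one_smul]
  have e5 : psi (xS x l9 3 * h * (xS x l9 3)⁻¹) (psi (xS x l9 3) i) = psi (xS x l9 3) (psi h i) := by
    rw [map_mul, map_mul, map_inv, Equiv.Perm.mul_apply, Equiv.Perm.mul_apply]
    congr 2
    exact Equiv.symm_apply_apply _ _
  rw [e5, e4, mulVec_smul, mulVec_mulVec, ← hA', ← mulVec_mulVec, e2, mulVec_smul, e3, smul_smul, smul_smul]

/-! ### Scalars -/

theorem fr_ok : (fr.getD 0 0 < 456 ∧ ∀ t : Fin 3, vc vN (fr.getD 0 0) t = (![1, 0, 0] : Fin 3 → K) t) ∧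
    (fr.getD 1 0 < 456 ∧ ∀ t : Fin 3, vc vN (fr.getD 1 0) t = (![0, 1, 0] : Fin 3 → K) t) ∧
    (fr.getD 2 0 < 456 ∧ ∀ t : Fin 3, vc vN (fr.getD 2 0) t = (![0, 0, 1] : Fin 3 → K) t) ∧
    (fr.getD 3 0 < 456 ∧ ∀ t : Fin 3, vc vN (fr.getD 3 0) t = (![1, 1, 1] : Fin 3 → K) t) := by decide +kernel

theorem wne (i : ℕ) (hi : i < 456) : vc wN i ≠ 0 := by
  obtain ⟨s, hs, -⟩ := nr_sound (nr_all i hi).2.1
  intro h
  rw [h] at hs
  exact zero_ne_one hs

theorem hc1 (A : S) (hA : ((1 : Subgroup.closure (x '' {y | y ∈ l9})), A) ∈ labP psi rho vv) :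
    A ∈ Subgroup.center S := by
  rw [mem_labP] at hA
  have key : ∀ (i : ℕ) (e : Fin 3 → K), i < 456 → (∀ t : Fin 3, vc vN i t = e t) → ∃ d : K, cm A *ᵥ e = d • e := by
    intro i e hi he
    obtain ⟨c, hc, e1⟩ := hA ⟨i, hi⟩
    rw [map_one] at e1
    have e2 : rho A *ᵥ tens (vc vN i) (vc wN i) = c • tens (vc vN i) (vc wN i) := e1
    obtain ⟨d, hd⟩ := eig_of_tens (wne i hi) e2
    have e3 : vc vN i = e := funext he
    rw [e3] at hd
    exact ⟨d, hd⟩
  obtain ⟨⟨a0, b0⟩, ⟨a1, b1⟩, ⟨a2, b2⟩, ⟨a3, b3⟩⟩ := fr_ok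
  exact central_of_frame (key _ _ a0 b0) (key _ _ a1 b1) (key _ _ a2 b2) (key _ _ a3 b3)

theorem hc2 (A : S) (hA : A ∈ Subgroup.center S) :
    ((1 : Subgroup.closure (x '' {y | y ∈ l9})), A) ∈ labP psi rho vv := by
  rw [mem_labP]
  intro i
  refine ⟨1, one_ne_zero, ?_⟩
  rw [one_smul, map_one]
  exact rho_center hA (fl_sound (nr_all i i.2).2.2)

/-! ### The theorem -/

theorem card_psl : Nat.card (Matrix.ProjectiveSpecialLinearGroup (Fin 3) (ZMod 7)) = 1876896 := by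
  have h : Nat.gcd 3 (7 - 1) * ((7 - 1) * Nat.card (Matrix.ProjectiveSpecialLinearGroup (Fin 3) (ZMod 7))) =
      ∏ i : Fin 3, (7 ^ 3 - 7 ^ (i : ℕ)) :=
    Cfsg.Agent.S0243.result (F := ZMod 7) (q := 7) (ZMod.card 7) 3 (by norm_num)
  have h2 : ∏ i : Fin 3, (7 ^ 3 - 7 ^ (i : ℕ)) = 33784128 := by
    rw [Fin.prod_univ_three]
    rfl
  rw [h2, show Nat.gcd 3 (7 - 1) = 3 by decide] at h
  omega

theorem mainN : ∃ N : Subgroup (Subgroup.closure (x '' {y | y ∈ l9})), N.Normal ∧ N.index = 2 ∧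
    Nonempty (N ≃* Matrix.ProjectiveSpecialLinearGroup (Fin 3) (ZMod 7)) := by
  have hs : xS x l9 3 * xS x l9 3 = 1 := by
    apply Subtype.ext
    rw [Subgroup.coe_mul, xS_coe (by decide), Subgroup.coe_one]
    have h1 := hic 3 (by decide)
    have h2 : il H8.ONR.ic 3 = 3 := by decide
    rw [h2] at h1
    exact mul_eq_one_iff_eq_inv.2 h1
  have hidx := idx_le_two (N := labN psi rho vv) (s := xS x l9 3) (by rw [hs]; exact one_mem _)
    (by
      intro h hh
      obtain ⟨A, hA⟩ := mem_labN.1 hh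
      obtain ⟨A', hA'⟩ := lab_conj hA
      exact mem_labN.2 ⟨A', hA'⟩) (xS_top (x := x) l9) (by
      rintro _ ⟨y, hy, rfl⟩
      right
      have hy' : y = 3 ∨ y ∈ [4, 5, 6, 7, 8] := by
        have : ∀ y ∈ l9, y = 3 ∨ y ∈ [4, 5, 6, 7, 8] := by decide
        exact this y hy
      rcases hy' with rfl | h
      · rw [hs]; exact one_mem _
      · exact mem_labN.2 ⟨_, let_mem h⟩)
  obtain ⟨F, hF⟩ := lab_hom hc1 hc2 vv_inj
  have hFi : Function.Injective F := by
    rw [injective_iff_map_eq_one]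
    intro h hh
    have h1 := (hF h).1 hh
    have h2 : ((h : Subgroup.closure (x '' {y | y ∈ l9}))) = 1 := psi_inj (h1.trans (map_one psi).symm)
    exact Subtype.ext h2
  haveI : Finite (Matrix.ProjectiveSpecialLinearGroup (Fin 3) (ZMod 7)) :=
    Nat.finite_of_card_ne_zero (by rw [card_psl]; norm_num)
  have hle : Nat.card (labN psi rho vv) ≤ 1876896 := by
    rw [← card_psl]
    exact Nat.card_le_card_of_injective F hFi
  have h1 := (labN psi rho vv).card_mul_index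
  rw [cardHS] at h1
  have h2 := hidx.2
  have h4 : (labN psi rho vv).index = 2 := by
    have h5 : (labN psi rho vv).index ≠ 0 := by
      intro h; rw [h] at h1; omega
    have h6 : (labN psi rho vv).index ≠ 1 := by
      intro h; rw [h] at h1; omega
    omega
  have h5 : Nat.card (labN psi rho vv) = 1876896 := by
    rw [h4] at h1; omega
  have hb : Function.Bijective F :=
    (Nat.bijective_iff_injective_and_card F).2 ⟨hFi, h5.trans card_psl.symm⟩
  exact ⟨labN psi rho vv, hidx.1, h4, ⟨MulEquiv.ofBijective F hb⟩⟩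

theorem S1693 : ∃ N : Subgroup (Hl l9), N.Normal ∧ N.index = 2 ∧
    Nonempty (N ≃* Matrix.ProjectiveSpecialLinearGroup (Fin 3) (ZMod 7)) := mainN

end Cfsg.Agent.H26.L37
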