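import Mathlib

/-! Packed vectors over the field with seven elements and the adjoint action of `SL(3, 7)`. -/

set_option autoImplicit false

namespace Cfsg.Agent.H26.L37

open Matrix

instance : Fact (Nat.Prime 7) := ⟨by norm_num⟩

abbrev K : Type := ZMod 7

/-- a digit -/
def dg (N i t : ℕ) : ℕ :=
  Nat.land (Nat.shiftRight N (Nat.add (Nat.mul (nat_lit 9) i) (Nat.mul (nat_lit 3) t))) (nat_lit 7)

/-- a vector -/
def vc (N i : ℕ) (t : Fin 3) : K := ((dg N i t : ℕ) : K)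

/-- a matrix -/
def mt (M : ℕ) : Matrix (Fin 3) (Fin 3) K := Matrix.of fun i j => ((dg M i j : ℕ) : K)

/-- one coordinate of the product of a matrix with a vector -/
def mv (M N j r : ℕ) : ℕ :=
  Nat.add (Nat.add (Nat.mul (dg M r 0) (dg N j 0)) (Nat.mul (dg M r 1) (dg N j 1))) (Nat.mul (dg M r 2) (dg N j 2))

theorem mv_cast (M N j : ℕ) (r : Fin 3) : ((mv M N j r : ℕ) : K) = (mt M *ᵥ vc N j) r := by
  have h : mv M N j r = dg M r 0 * dg N j 0 + dg M r 1 * dg N j 1 + dg M r 2 * dg N j 2 := rfl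
  rw [h, mulVec, dotProduct, Fin.sum_univ_three]
  push_cast
  rfl

/-- comparison up to a scalar -/
def pr (M N j N' i c : ℕ) : Bool :=
  Nat.beq (Nat.mod (mv M N j 0) 7) (Nat.mod (Nat.mul c (dg N' i 0)) 7) &&
  Nat.beq (Nat.mod (mv M N j 1) 7) (Nat.mod (Nat.mul c (dg N' i 1)) 7) &&
  Nat.beq (Nat.mod (mv M N j 2) 7) (Nat.mod (Nat.mul c (dg N' i 2)) 7)

def prA (M N j N' i : ℕ) : Bool :=
  pr M N j N' i 1 || pr M N j N' i 2 || pr M N j N' i 3 || pr M N j N' i 4 || pr M N j N' i 5 || pr M N j N' i 6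

theorem cast_eq {a b : ℕ} (h : Nat.beq (Nat.mod a 7) (Nat.mod b 7) = true) : (a : K) = (b : K) :=
  (ZMod.natCast_eq_natCast_iff a b 7).2 (Nat.eq_of_beq_eq_true h)

theorem pr_sound {M N j N' i c : ℕ} (h : pr M N j N' i c = true) : mt M *ᵥ vc N j = (c : K) • vc N' i := by
  simp only [pr, Bool.and_eq_true] at h
  obtain ⟨⟨h0, h1⟩, h2⟩ := h
  have key : ∀ r : Fin 3, Nat.beq (Nat.mod (mv M N j r) 7) (Nat.mod (Nat.mul c (dg N' i r)) 7) = true →
      (mt M *ᵥ vc N j) r = ((c : K) • vc N' i) r := by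
    intro r hr
    rw [← mv_cast, cast_eq hr, Pi.smul_apply, smul_eq_mul]
    show ((c * dg N' i r : ℕ) : K) = _
    push_cast
    rfl
  ext r
  fin_cases r
  exacts [key 0 h0, key 1 h1, key 2 h2]

theorem prA_sound {M N j N' i : ℕ} (h : prA M N j N' i = true) :
    ∃ c : K, c ≠ 0 ∧ mt M *ᵥ vc N j = c • vc N' i := by
  simp only [prA, Bool.or_eq_true] at h
  rcases h with ((((h | h) | h) | h) | h) | h
  exacts [⟨_, by decide, pr_sound h⟩, ⟨_, by decide, pr_sound h⟩, ⟨_, by decide, pr_sound h⟩,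
    ⟨_, by decide, pr_sound h⟩, ⟨_, by decide, pr_sound h⟩, ⟨_, by decide, pr_sound h⟩]

/-- normalized vectors -/
def nr (N i : ℕ) : Bool :=
  Nat.beq (dg N i 0) 1 || (Nat.beq (dg N i 0) 0 && (Nat.beq (dg N i 1) 1 || (Nat.beq (dg N i 1) 0 && Nat.beq (dg N i 2) 1)))

theorem nr_sound {N i : ℕ} (h : nr N i = true) : ∃ s : Fin 3, vc N i s = 1 ∧ ∀ r < s, vc N i r = 0 := by
  simp only [nr, Bool.or_eq_true, Bool.and_eq_true] at h
  have e : ∀ (t : Fin 3) (a : ℕ), Nat.beq (dg N i t) a = true → vc N i t = (a : K) := by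
    intro t a h
    show ((dg N i t : ℕ) : K) = a
    rw [Nat.eq_of_beq_eq_true h]
  rcases h with h | ⟨h0, h | ⟨h1, h⟩⟩
  · refine ⟨0, by rw [e 0 1 h]; rfl, fun r hr => absurd hr (by omega)⟩
  · refine ⟨1, by rw [e 1 1 h]; rfl, fun r hr => ?_⟩
    have : r = 0 := by omega
    subst this
    rw [e 0 0 h0]; rfl
  · refine ⟨2, by rw [e 2 1 h]; rfl, fun r hr => ?_⟩
    have : r = 0 ∨ r = 1 := by omega
    rcases this with rfl | rfl
    · rw [e 0 0 h0]; rfl
    · rw [e 1 0 h1]; rfl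

/-- incidence -/
def fl (V i W : ℕ) (j : ℕ) : Bool :=
  Nat.beq (Nat.mod (Nat.add (Nat.add (Nat.mul (dg V i 0) (dg W j 0)) (Nat.mul (dg V i 1) (dg W j 1)))
    (Nat.mul (dg V i 2) (dg W j 2))) 7) (Nat.mod 0 7)

theorem fl_sound {V i W j : ℕ} (h : fl V i W j = true) : vc V i ⬝ᵥ vc W j = 0 := by
  have h1 := cast_eq h
  rw [dotProduct, Fin.sum_univ_three]
  have h2 : ((dg V i 0 * dg W j 0 + dg V i 1 * dg W j 1 + dg V i 2 * dg W j 2 : ℕ) : K) = ((0 : ℕ) : K) := h1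
  push_cast at h2
  exact h2

/-- the code of a flag -/
def cd2 (V W i : ℕ) : ℕ :=
  Nat.add (Nat.land (Nat.shiftRight V (Nat.mul (nat_lit 9) i)) (nat_lit 511))
    (Nat.mul (nat_lit 512) (Nat.land (Nat.shiftRight W (Nat.mul (nat_lit 9) i)) (nat_lit 511)))

theorem dg_lt (N i t : ℕ) : dg N i t < 8 := Nat.lt_of_le_of_lt Nat.and_le_right (by decide)

theorem land7 (n : ℕ) : Nat.land n 7 = n % 8 := Nat.and_two_pow_sub_one_eq_mod n 3

theorem land511 (n : ℕ) : Nat.land n 511 = n % 512 := Nat.and_two_pow_sub_one_eq_mod n 9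

theorem cd_dg (N i : ℕ) : Nat.land (Nat.shiftRight N (Nat.mul (nat_lit 9) i)) (nat_lit 511) =
    dg N i 0 + 8 * dg N i 1 + 64 * dg N i 2 := by
  have e : ∀ t, dg N i t = (N / 2 ^ (9 * i + 3 * t)) % 8 := by
    intro t
    show Nat.land (N >>> (9 * i + 3 * t)) 7 = _
    rw [land7, Nat.shiftRight_eq_div_pow]
  have e2 : Nat.land (Nat.shiftRight N (Nat.mul (nat_lit 9) i)) (nat_lit 511) = (N / 2 ^ (9 * i)) % 512 := by
    show Nat.land (N >>> (9 * i)) 511 = _
    rw [land511, Nat.shiftRight_eq_div_pow]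
  rw [e2, e 0, e 1, e 2]
  rw [show 9 * i + 3 * 0 = 9 * i by omega, show 9 * i + 3 * 1 = 9 * i + 3 by omega,
    show 9 * i + 3 * 2 = 9 * i + 6 by omega, pow_add, pow_add, ← Nat.div_div_eq_div_mul, ← Nat.div_div_eq_div_mul]
  generalize N / 2 ^ (9 * i) = n
  omega

/-! ### The tensors -/

/-- the tensor of two vectors -/
def tens (v w : Fin 3 → K) : Fin 3 × Fin 3 → K := fun p => v p.1 * w p.2

/-- the special linear group -/
abbrev S : Type := SpecialLinearGroup (Fin 3) K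

/-- the matrix of an element -/
def cm (A : S) : Matrix (Fin 3) (Fin 3) K := A.1

theorem cm_one : cm 1 = 1 := rfl

theorem cm_mul (A B : S) : cm (A * B) = cm A * cm B := rfl

theorem cm_det (A : S) : (cm A).det = 1 := A.2

theorem kap (A B : Matrix (Fin 3) (Fin 3) K) (s t k l : Fin 3) : kronecker A B (s, t) (k, l) = A s k * B t l := rfl

/-- the adjoint action -/
def rhoF (A : S) : Matrix (Fin 3 × Fin 3) (Fin 3 × Fin 3) K :=
  kronecker (cm A) (cm A⁻¹)ᵀ

theorem rhoF_one : rhoF 1 = 1 := by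
  rw [rhoF, inv_one, cm_one, transpose_one]
  exact one_kronecker_one

theorem rhoF_mul (A B : S) : rhoF (A * B) = rhoF A * rhoF B := by
  rw [rhoF, rhoF, rhoF, _root_.mul_inv_rev, cm_mul, cm_mul, transpose_mul]
  exact mul_kronecker_mul _ _ _ _

/-- the adjoint representation -/
def rho : S →* Matrix (Fin 3 × Fin 3) (Fin 3 × Fin 3) K where
  toFun := rhoF
  map_one' := rhoF_one
  map_mul' := rhoF_mul

theorem kron_tens (A B : Matrix (Fin 3) (Fin 3) K) (v w : Fin 3 → K) :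
    kronecker A B *ᵥ tens v w = tens (A *ᵥ v) (B *ᵥ w) := by
  ext ⟨s, t⟩
  simp only [mulVec, dotProduct, tens, kap, Fintype.sum_prod_type]
  rw [Finset.sum_mul_sum]
  apply Finset.sum_congr rfl
  intro i _
  apply Finset.sum_congr rfl
  intro j _
  ring

theorem rho_tens (A : S) (v w : Fin 3 → K) :
    rho A *ᵥ tens v w = tens ((cm A) *ᵥ v) ((cm A⁻¹)ᵀ *ᵥ w) :=
  kron_tens _ _ _ _

/-- the outer automorphism on tensors -/
def TT (B B' : Matrix (Fin 3) (Fin 3) K) : Matrix (Fin 3 × Fin 3) (Fin 3 × Fin 3) K :=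
  Matrix.of fun p q => B p.1 q.2 * B' p.2 q.1

theorem TT_tens (B B' : Matrix (Fin 3) (Fin 3) K) (v w : Fin 3 → K) :
    TT B B' *ᵥ tens v w = tens (B *ᵥ w) (B' *ᵥ v) := by
  ext ⟨s, t⟩
  simp only [mulVec, dotProduct, tens, TT, Matrix.of_apply, Fintype.sum_prod_type]
  rw [Finset.sum_mul_sum, Finset.sum_comm]
  apply Finset.sum_congr rfl
  intro i _
  apply Finset.sum_congr rfl
  intro j _
  ring

theorem TT_kron (B B' X Y : Matrix (Fin 3) (Fin 3) K) : TT B B' * kronecker X Y = TT (B * Y) (B' * X) := by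
  ext ⟨s, t⟩ ⟨k, l⟩
  simp only [Matrix.mul_apply, TT, Matrix.of_apply, kap, Fintype.sum_prod_type]
  rw [Finset.sum_mul_sum, Finset.sum_comm]
  apply Finset.sum_congr rfl
  intro i _
  apply Finset.sum_congr rfl
  intro j _
  ring

theorem kron_TT (B B' X Y : Matrix (Fin 3) (Fin 3) K) : kronecker X Y * TT B B' = TT (X * B) (Y * B') := by
  ext ⟨s, t⟩ ⟨k, l⟩
  simp only [Matrix.mul_apply, TT, Matrix.of_apply, kap, Fintype.sum_prod_type]
  rw [Finset.sum_mul_sum]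
  apply Finset.sum_congr rfl
  intro i _
  apply Finset.sum_congr rfl
  intro j _
  ring

/-- the outer automorphism normalizes the image -/
theorem TT_rho {B B' : Matrix (Fin 3) (Fin 3) K} (h : B * B'ᵀ = 1) (A : S) : ∃ A' : S, TT B B' * rho A = rho A' * TT B B' := by
  have h' : B'ᵀ * B = 1 := mul_eq_one_comm.1 h
  have hdet : (B * (cm A⁻¹)ᵀ * B'ᵀ).det = 1 := by
    rw [det_mul, det_mul, det_transpose (cm A⁻¹), cm_det, mul_one,
      ← det_mul, h, det_one]
  let A' : S := ⟨_, hdet⟩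
  have hA' : (cm A') = B * (cm A⁻¹)ᵀ * B'ᵀ := rfl
  have hAA : (cm A⁻¹) * (cm A) = 1 := by
    rw [← cm_mul, inv_mul_cancel, cm_one]
  have hAA' : (cm A) * (cm A⁻¹) = 1 := mul_eq_one_comm.1 hAA
  have hinv : (cm A'⁻¹) = B * (cm A)ᵀ * B'ᵀ := by
    have h1 : (cm A') * (B * (cm A)ᵀ * B'ᵀ) = 1 := by
      rw [hA']
      calc B * (cm A⁻¹)ᵀ * B'ᵀ * (B * (cm A)ᵀ * B'ᵀ)
          = B * (cm A⁻¹)ᵀ * (B'ᵀ * B) * (cm A)ᵀ * B'ᵀ := by
            simp only [Matrix.mul_assoc]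
        _ = B * ((cm A⁻¹)ᵀ * (cm A)ᵀ) * B'ᵀ := by
            rw [h', Matrix.mul_one]; simp only [Matrix.mul_assoc]
        _ = 1 := by rw [← transpose_mul, hAA', transpose_one, Matrix.mul_one, h]
    have h2 : (cm A'⁻¹) * (cm A') = 1 := by
      rw [← cm_mul, inv_mul_cancel, cm_one]
    calc (cm A'⁻¹)
        = (cm A'⁻¹) * ((cm A') * (B * (cm A)ᵀ * B'ᵀ)) := by
          rw [h1, Matrix.mul_one]
      _ = B * (cm A)ᵀ * B'ᵀ := by rw [← Matrix.mul_assoc, h2, Matrix.one_mul]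
  refine ⟨A', ?_⟩
  show TT B B' * kronecker (cm A) (cm A⁻¹)ᵀ =
    kronecker (cm A') (cm A'⁻¹)ᵀ * TT B B'
  have h3 : Bᵀ * B' = 1 := by
    have := congrArg transpose h'
    rwa [transpose_mul, transpose_transpose, transpose_one] at this
  have e1 : B * (cm A⁻¹)ᵀ * B'ᵀ * B = B * (cm A⁻¹)ᵀ := by
    rw [Matrix.mul_assoc, h', Matrix.mul_one]
  have e2 : (B * (cm A)ᵀ * B'ᵀ)ᵀ * B' = B' * cm A := by
    rw [transpose_mul, transpose_mul, transpose_transpose, transpose_transpose, Matrix.mul_assoc, Matrix.mul_assoc, h3,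
      Matrix.mul_one]
  rw [TT_kron, kron_TT, hA', hinv, e1, e2]

/-- central elements act trivially on incident tensors -/
theorem rho_center {A : S} (hA : A ∈ Subgroup.center S) {v w : Fin 3 → K} (h : v ⬝ᵥ w = 0) :
    rho A *ᵥ tens v w = tens v w := by
  have hdet : (1 + vecMulVec v w).det = 1 := by
    rw [vecMulVec_eq Unit, det_one_add_replicateCol_mul_replicateRow, dotProduct_comm, h, add_zero]
  have h1 := Subgroup.mem_center_iff.1 hA ⟨_, hdet⟩
  have h2 : (1 + vecMulVec v w) * (cm A) = (cm A) * (1 + vecMulVec v w) :=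
    congrArg Subtype.val h1
  rw [add_mul, mul_add, Matrix.one_mul, Matrix.mul_one] at h2
  have h3 := add_left_cancel h2
  have hAA : (cm A) * (cm A⁻¹) = 1 := by
    rw [← cm_mul, mul_inv_cancel, cm_one]
  have h4 : (cm A) * vecMulVec v w * (cm A⁻¹) = vecMulVec v w := by
    rw [← h3, Matrix.mul_assoc, hAA, Matrix.mul_one]
  rw [rho_tens]
  ext ⟨s, t⟩
  have h5 := congrFun (congrFun h4 s) t
  rw [mul_vecMulVec, vecMulVec_mul, vecMulVec_apply, vecMulVec_apply] at h5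
  show ((cm A) *ᵥ v) s * ((cm A⁻¹)ᵀ *ᵥ w) t = v s * w t
  rw [mulVec_transpose]
  exact h5

theorem tens_zero {v w : Fin 3 → K} (h : tens v w = 0) (hw : w ≠ 0) : v = 0 := by
  obtain ⟨t, ht⟩ : ∃ t, w t ≠ 0 := by
    by_contra hcon
    push Not at hcon
    exact hw (funext hcon)
  ext s
  have h1 := congrFun h (s, t)
  exact (mul_eq_zero.1 h1).resolve_right ht

/-- an eigentensor gives an eigenvector -/
theorem eig_of_tens {A : S} {v w : Fin 3 → K} (hw : w ≠ 0) {c : K} (h : rho A *ᵥ tens v w = c • tens v w) :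
    ∃ d : K, (cm A) *ᵥ v = d • v := by
  rw [rho_tens] at h
  have hw' : (cm A⁻¹)ᵀ *ᵥ w ≠ 0 := by
    intro h0
    apply hw
    have h1 : (cm A)ᵀ *ᵥ ((cm A⁻¹)ᵀ *ᵥ w) = w := by
      rw [mulVec_mulVec, ← transpose_mul, ← cm_mul, inv_mul_cancel, cm_one,
        transpose_one, one_mulVec]
    rw [h0, mulVec_zero] at h1
    exact h1.symm
  obtain ⟨t, ht⟩ : ∃ t, ((cm A⁻¹)ᵀ *ᵥ w) t ≠ 0 := by
    by_contra hcon
    push Not at hcon
    exact hw' (funext hcon)
  refine ⟨c * w t * (((cm A⁻¹)ᵀ *ᵥ w) t)⁻¹, ?_⟩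
  ext s
  have h1 := congrFun h (s, t)
  rw [Pi.smul_apply, smul_eq_mul] at h1
  have h2 : ((cm A) *ᵥ v) s * ((cm A⁻¹)ᵀ *ᵥ w) t = c * (v s * w t) := h1
  rw [Pi.smul_apply, smul_eq_mul]
  field_simp
  rw [h2]
  ring

/-- a matrix with the four eigenvectors of a frame is central -/
theorem central_of_frame {A : S} (h0 : ∃ d : K, (cm A) *ᵥ ![1, 0, 0] = d • ![1, 0, 0])
    (h1 : ∃ d : K, (cm A) *ᵥ ![0, 1, 0] = d • ![0, 1, 0])
    (h2 : ∃ d : K, (cm A) *ᵥ ![0, 0, 1] = d • ![0, 0, 1])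
    (h3 : ∃ d : K, (cm A) *ᵥ ![1, 1, 1] = d • ![1, 1, 1]) : A ∈ Subgroup.center S := by
  obtain ⟨a, ha⟩ := h0
  obtain ⟨b, hb⟩ := h1
  obtain ⟨c, hc⟩ := h2
  obtain ⟨d, hd⟩ := h3
  have e : (cm A) = d • (1 : Matrix (Fin 3) (Fin 3) K) := by
    have a0 := congrFun ha 0
    have a1 := congrFun ha 1
    have a2 := congrFun ha 2
    have b0 := congrFun hb 0
    have b1 := congrFun hb 1
    have b2 := congrFun hb 2
    have c0 := congrFun hc 0
    have c1 := congrFun hc 1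
    have c2 := congrFun hc 2
    have d0 := congrFun hd 0
    have d1 := congrFun hd 1
    have d2 := congrFun hd 2
    simp [mulVec, dotProduct, Fin.sum_univ_three] at a0 a1 a2 b0 b1 b2 c0 c1 c2 d0 d1 d2
    rw [b0, c0, add_zero, add_zero] at d0
    rw [a1, c1, zero_add, add_zero] at d1
    rw [a2, b2, zero_add, zero_add] at d2
    ext i j
    rw [Matrix.smul_apply, smul_eq_mul]
    fin_cases i <;> fin_cases j <;> simp [a1, a2, b0, b2, c0, c1, d0, d1, d2]
  rw [Subgroup.mem_center_iff]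
  intro B
  apply Subtype.ext
  show (cm B) * (cm A) = (cm A) * (cm B)
  rw [e, Matrix.mul_smul, Matrix.mul_one, smul_mul, Matrix.one_mul]

/-- tensors of normalized vectors determine the vectors -/
theorem tens_inj {v w v' w' : Fin 3 → K} (hv : ∃ s : Fin 3, v s = 1 ∧ ∀ r < s, v r = 0)
    (hw : ∃ s : Fin 3, w s = 1 ∧ ∀ r < s, w r = 0) (hv' : ∃ s : Fin 3, v' s = 1 ∧ ∀ r < s, v' r = 0)
    (hw' : ∃ s : Fin 3, w' s = 1 ∧ ∀ r < s, w' r = 0) {c : K} (hc : c ≠ 0) (h : tens v w = c • tens v' w') :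
    v = v' ∧ w = w' := by
  obtain ⟨s, hs, hs0⟩ := hv
  obtain ⟨t, ht, ht0⟩ := hw
  obtain ⟨s', hs', hs0'⟩ := hv'
  obtain ⟨t', ht', ht0'⟩ := hw'
  have e : ∀ a b, v a * w b = c * (v' a * w' b) := fun a b => congrFun h (a, b)
  have e1 := e s t
  rw [hs, ht, one_mul] at e1
  have e2 := e s' t'
  rw [hs', ht', mul_one, mul_one] at e2
  have n1 : v' s ≠ 0 := by rintro h0; rw [h0, zero_mul, mul_zero] at e1; exact one_ne_zero e1
  have n2 : w' t ≠ 0 := by rintro h0; rw [h0, mul_zero, mul_zero] at e1; exact one_ne_zero e1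
  have n3 : v s' ≠ 0 := by rintro h0; rw [h0, zero_mul] at e2; exact hc e2.symm
  have n4 : w t' ≠ 0 := by rintro h0; rw [h0, mul_zero] at e2; exact hc e2.symm
  have s1 : s = s' := by
    apply le_antisymm
    · by_contra hlt; exact n3 (hs0 s' (not_le.1 hlt))
    · by_contra hlt; exact n1 (hs0' s (not_le.1 hlt))
  have t1 : t = t' := by
    apply le_antisymm
    · by_contra hlt; exact n4 (ht0 t' (not_le.1 hlt))
    · by_contra hlt; exact n2 (ht0' t (not_le.1 hlt))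
  subst s1 t1
  rw [hs, ht, one_mul] at e2
  rw [← e2] at e
  constructor
  · ext a
    have := e a t
    rwa [ht, ht', mul_one, mul_one, one_mul] at this
  · ext b
    have := e s b
    rwa [hs, hs', one_mul, one_mul, one_mul] at this

end Cfsg.Agent.H26.L37
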