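import Mathlib
import Cfsg.Agent.H28_Cls2
import Cfsg.Agent.H7_M24d
import Cfsg.Agent.H26_One

/-!
# H26_M24F: fixed points in `M24`; local blocks at octad involutions
-/

set_option autoImplicit false

namespace Cfsg.Agent.H26.M24F

open Cfsg Cfsg.Agent.H7.Golay Cfsg.Agent.H7.Oct Cfsg.Agent.H7.M24 Cfsg.Agent.H7.M24d Cfsg.Agent.H28.Cls
open scoped Pointwise

/-- the pointwise stabilizer of `o` in `M24` -/
def EO (o : Finset GolayPt) : Subgroup (Equiv.Perm GolayPt) :=
  M24 ⊓ fixingSubgroup (Equiv.Perm GolayPt) (o : Set GolayPt)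

theorem mem_EO {g : Equiv.Perm GolayPt} {o : Finset GolayPt} : g ∈ EO o ↔ g ∈ M24 ∧ ∀ p ∈ o, g p = p := mem_fixing

theorem card_pt : Fintype.card GolayPt = 24 := by decide

theorem fix_le {g : Equiv.Perm GolayPt} (hg : g ∈ M24) (h1 : g ≠ 1) : (fixF g).card ≤ 8 := by
  by_contra h
  exact h1 (Cfsg.Agent.H7.M24c.fix_nine hg (fixF g) (by omega) (fun p hp => mem_fixF.1 hp))

theorem card_oct {o : Finset GolayPt} (ho : o ∈ octads) : o.card = 8 := by
  exact ho.2

theorem fixF_EO {o : Finset GolayPt} (ho : o ∈ octads) {g : Equiv.Perm GolayPt} (hg : g ∈ EO o) (h1 : g ≠ 1) :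
    fixF g = o := by
  symm
  apply Finset.eq_of_subset_of_card_le
  · intro p hp
    rw [mem_fixF]
    exact (mem_EO.1 hg).2 p hp
  · rw [card_oct ho]
    exact fix_le (mem_EO.1 hg).1 h1

/-- `EO o` is transitive off `o` -/
theorem EO_trans {o : Finset GolayPt} (ho : o ∈ octads) {a b : GolayPt} (ha : a ∉ o) (hb : b ∉ o) :
    ∃ e ∈ EO o, e a = b := by
  classical
  have hstab : ∀ (e : EO o) (c : GolayPt), c ∉ o → (e : Equiv.Perm GolayPt) c ∉ o := by
    intro e c hc h
    apply hc
    have h1 := (mem_EO.1 e.2).2 _ h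
    exact (e : Equiv.Perm GolayPt).injective h1 ▸ h
  let f : EO o → {c : GolayPt // c ∉ o} := fun e => ⟨(e : Equiv.Perm GolayPt) a, hstab e a ha⟩
  have hinj : Function.Injective f := by
    intro e e' h
    have h1 : (e : Equiv.Perm GolayPt) a = (e' : Equiv.Perm GolayPt) a := congrArg Subtype.val h
    by_contra hne
    have h2 : ((e'⁻¹ * e : EO o) : Equiv.Perm GolayPt) ≠ 1 := by
      intro h3
      apply hne
      have h4 : e'⁻¹ * e = 1 := Subtype.ext h3
      exact (inv_mul_eq_one.1 h4).symm
    have h3 := fixF_EO ho (e'⁻¹ * e).2 h2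
    apply ha
    rw [← h3, mem_fixF]
    change (e' : Equiv.Perm GolayPt)⁻¹ ((e : Equiv.Perm GolayPt) a) = a
    rw [h1]; exact (e' : Equiv.Perm GolayPt).symm_apply_apply a
  haveI : Fintype (EO o) := Fintype.ofFinite _
  have hcard : Fintype.card (EO o) = Fintype.card {c : GolayPt // c ∉ o} := by
    rw [← Nat.card_eq_fintype_card, Fintype.card_subtype_compl, card_pt, Fintype.card_coe, card_oct ho]
    exact card_fixing_octad ho
  have hbij := (Fintype.bijective_iff_injective_and_card f).2 ⟨hinj, hcard⟩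
  obtain ⟨e, he⟩ := hbij.2 ⟨b, hb⟩
  exact ⟨e, e.2, congrArg Subtype.val he⟩

/-- `EO o` is self-centralizing -/
theorem EO_cent {o : Finset GolayPt} (ho : o ∈ octads) {c : Equiv.Perm GolayPt} (hc : c ∈ M24)
    (h : ∀ e ∈ EO o, c * e = e * c) : c ∈ EO o := by
  classical
  -- a point off `o`
  obtain ⟨a, ha⟩ : ∃ a, a ∉ o := by
    by_contra hcon
    push Not at hcon
    have h1 : o = Finset.univ := Finset.eq_univ_iff_forall.2 hcon
    have h2 := card_oct ho
    rw [h1, Finset.card_univ, card_pt] at h2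
    omega
  obtain ⟨b, hb, hba⟩ : ∃ b, b ∉ o ∧ b ≠ a := by
    by_contra hcon
    push Not at hcon
    have h1 : (Finset.univ : Finset GolayPt) ⊆ insert a o := by
      intro p _
      by_cases hp : p ∈ o
      · exact Finset.mem_insert_of_mem hp
      · rw [hcon p hp]; exact Finset.mem_insert_self _ _
    have h2 := Finset.card_le_card h1
    rw [Finset.card_univ, card_pt] at h2
    have h3 := Finset.card_insert_le a o
    rw [card_oct ho] at h3
    omega
  obtain ⟨e0, he0, he0a⟩ := EO_trans ho ha hb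
  have hne : e0 ≠ 1 := by
    rintro rfl; exact hba he0a.symm
  have h1 : c • o = o := by
    have h2 := fixF_conj c e0
    have h3 : c * e0 * c⁻¹ = e0 := by rw [h e0 he0]; group
    rw [h3, fixF_EO ho he0 hne] at h2
    exact h2.symm
  have hca : c a ∉ o := by
    intro h2
    apply ha
    rw [← h1, Finset.mem_smul_finset] at h2
    obtain ⟨y, hy, hya⟩ := h2
    have : y = a := c.injective hya
    exact this ▸ hy
  obtain ⟨e, he, hea⟩ := EO_trans ho ha hca
  have h4 : e⁻¹ * c = 1 := by
    apply Cfsg.Agent.H7.M24c.fix_nine (mul_mem (inv_mem (mem_EO.1 he).1) hc) oᶜ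
    · rw [Finset.card_compl, card_oct ho, card_pt]; norm_num
    · intro p hp
      rw [Finset.mem_compl] at hp
      obtain ⟨f, hf, hfa⟩ := EO_trans ho ha hp
      have h5 : f * e = e * f := by
        have h6 := sq_fixing_octad ho (mul_mem hf he : f * e ∈ EO o)
        have h7 : f * f = 1 := sq_fixing_octad ho hf
        have h8 : e * e = 1 := sq_fixing_octad ho he
        calc f * e = f * (f * e * (f * e)) * e := by rw [h6]; group
          _ = (f * f) * e * f * (e * e) := by group
          _ = e * f := by rw [h7, h8]; group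
      have h9 : e⁻¹ * c * f = f * (e⁻¹ * c) := by
        calc e⁻¹ * c * f = e⁻¹ * (c * f) := by group
          _ = e⁻¹ * (f * c) := by rw [h f hf]
          _ = e⁻¹ * (f * e) * (e⁻¹ * c) := by group
          _ = e⁻¹ * (e * f) * (e⁻¹ * c) := by rw [h5]
          _ = f * (e⁻¹ * c) := by group
      have h10 : (e⁻¹ * c) a = a := by
        change e⁻¹ (c a) = a
        rw [← hea]; exact e.symm_apply_apply a
      rw [← hfa]
      have h11 := congrArg (fun g : Equiv.Perm GolayPt => g a) h9
      change (e⁻¹ * c) (f a) = f ((e⁻¹ * c) a) at h11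
      rw [h11, h10]
  rw [inv_mul_eq_one] at h4
  rw [← h4]; exact he

open Cfsg.Agent.H26.One in
/-- one 2-block for the centralizer of an octad involution -/
theorem one_block_oct {M : Ideal AlgInt} (hM : IsPModular 2 M) {K : Subgroup (Equiv.Perm GolayPt)} (hK : K ≤ M24)
    (z : K) {o : Finset GolayPt} (ho : o ∈ octads) (hz : fixF (z : Equiv.Perm GolayPt) = o) (hEK : EO o ≤ K)
    (_ : Fintype (Subgroup.centralizer ({z} : Set K))) (χ ψ : IrrCharacter (Subgroup.centralizer ({z} : Set K))) :
    SameBlock M (χ : (Subgroup.centralizer ({z} : Set K)) → ℂ) (ψ : (Subgroup.centralizer ({z} : Set K)) → ℂ) := by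
  classical
  let f : Subgroup.centralizer ({z} : Set K) →* Equiv.Perm GolayPt := K.subtype.comp (Subgroup.subtype _)
  have hf : Function.Injective f := fun a b h => Subtype.ext (Subtype.ext h)
  have hzE : (z : Equiv.Perm GolayPt) ∈ EO o := by
    rw [mem_EO]
    exact ⟨hK z.2, fun p hp => by rw [← hz, mem_fixF] at hp; exact hp⟩
  have habel : ∀ a ∈ EO o, ∀ b ∈ EO o, a * b = b * a := by
    intro f hf e he
    have h6 := sq_fixing_octad ho (mul_mem hf he : f * e ∈ EO o)
    have h7 : f * f = 1 := sq_fixing_octad ho hf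
    have h8 : e * e = 1 := sq_fixing_octad ho he
    calc f * e = f * (f * e * (f * e)) * e := by rw [h6]; group
      _ = (f * f) * e * f * (e * e) := by group
      _ = e * f := by rw [h7, h8]; group
  -- the elements of `EO o`, seen in the centralizer
  have hlift : ∀ e ∈ EO o, ∃ c : Subgroup.centralizer ({z} : Set K), f c = e := by
    intro e he
    have h1 : (⟨e, hEK he⟩ : K) ∈ Subgroup.centralizer ({z} : Set K) := by
      rw [Subgroup.mem_centralizer_singleton_iff]
      exact Subtype.ext (habel e he z hzE)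
    exact ⟨⟨⟨e, hEK he⟩, h1⟩, rfl⟩
  have hinv : ∀ c : Subgroup.centralizer ({z} : Set K), f c • o = o := by
    intro c
    have h1 := Subgroup.mem_centralizer_singleton_iff.1 c.2
    have h2 : f c * (z : Equiv.Perm GolayPt) = z * f c := congrArg Subtype.val h1
    have h3 := fixF_conj (f c) (z : Equiv.Perm GolayPt)
    have h4 : f c * (z : Equiv.Perm GolayPt) * (f c)⁻¹ = z := by rw [h2]; group
    rw [h4, hz] at h3
    exact h3.symm
  have hN : ((EO o).comap f).Normal := by
    constructor
    intro n hn g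
    rw [Subgroup.mem_comap] at hn ⊢
    rw [map_mul, map_mul, map_inv, mem_EO]
    refine ⟨mul_mem (mul_mem (hK g.1.2) (mem_EO.1 hn).1) (inv_mem (hK g.1.2)), fun p hp => ?_⟩
    have h5 : (f g)⁻¹ p ∈ o := by
      have h6 := hp
      rw [← hinv g, Finset.mem_smul_finset] at h6
      obtain ⟨q, hq, h7⟩ := h6
      have h8 : (f g)⁻¹ p = q := by rw [← h7]; exact (f g).symm_apply_apply q
      rw [h8]; exact hq
    change f g (f n ((f g)⁻¹ p)) = p
    rw [(mem_EO.1 hn).2 _ h5]
    exact (f g).apply_symm_apply p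
  haveI := hN
  have hQ : IsPGroup 2 ((EO o).comap f) := by
    intro g
    refine ⟨1, ?_⟩
    apply Subtype.ext
    apply hf
    rw [pow_one, SubgroupClass.coe_pow, map_pow, pow_two]
    exact sq_fixing_octad ho g.2
  refine one_block_of_normal hM ((EO o).comap f) hQ (hQ.to_le ?_) χ ψ
  intro c hc
  rw [Subgroup.mem_comap]
  apply EO_cent ho (hK c.1.2)
  intro e he
  obtain ⟨e', rfl⟩ := hlift e he
  have h1 := Subgroup.mem_centralizer_iff.1 hc e' he
  have h2 := congrArg f h1
  rw [map_mul, map_mul] at h2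
  exact h2.symm

end Cfsg.Agent.H26.M24F
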