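import Mathlib
import Cfsg.Agent.H26_M24F
import Cfsg.Agent.H26_Cnt2
import Cfsg.Agent.H14_M24Gen

/-!
# H26_M22: `M22` has one 2-block
-/

set_option autoImplicit false

namespace Cfsg.Agent.H26.M24F

open Cfsg Cfsg.Agent.H7.Golay Cfsg.Agent.H7.Oct Cfsg.Agent.H7.M24 Cfsg.Agent.H7.M24d Cfsg.Agent.H28.Cls Cfsg.Agent.H26.Cnt
open scoped Pointwise

/-- fixed points in an invariant set -/
theorem fix_mod {q : ℕ} [hq : Fact q.Prime] {y : Equiv.Perm GolayPt} (hy : orderOf y = q) (S : Finset GolayPt)
    (hS : ∀ a ∈ S, y a ∈ S) : S.card ≡ (S ∩ fixF y).card [MOD q] := by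
  classical
  let f : Function.End S := fun a => ⟨y a, hS a a.2⟩
  have hpow : ∀ (n : ℕ) (a : S), (((f ^ n : Function.End S) a : S) : GolayPt) = (y ^ n) (a : GolayPt) := by
    intro n
    induction n with
    | zero => intro a; rfl
    | succ n ih =>
      intro a
      rw [pow_succ' f n, pow_succ' y n]
      change ((f ((f ^ n : Function.End S) a) : S) : GolayPt) = y ((y ^ n) a)
      rw [← ih]
  have hf : f ^ q ^ 1 = 1 := by
    funext a
    apply Subtype.ext
    rw [hpow, pow_one, ← hy, pow_orderOf_eq_one]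
    rfl
  have h1 := Equiv.Perm.card_fixedPoints_modEq (p := q) (n := 1) hf
  rw [Fintype.card_coe] at h1
  refine h1.trans ?_
  have h2 : Fintype.card f.fixedPoints = (S ∩ fixF y).card := by
    rw [← Fintype.card_coe]
    refine Fintype.card_congr
      { toFun := fun a => ⟨(a : S), Finset.mem_inter.2 ⟨(a : S).2, mem_fixF.2 (congrArg Subtype.val a.2)⟩⟩
        invFun := fun a => ⟨⟨a, (Finset.mem_inter.1 a.2).1⟩, Subtype.ext (mem_fixF.1 (Finset.mem_inter.1 a.2).2)⟩
        left_inv := fun _ => rfl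
        right_inv := fun _ => rfl }
  rw [h2]

theorem fix_univ {q : ℕ} [hq : Fact q.Prime] {y : Equiv.Perm GolayPt} (hy : orderOf y = q) :
    24 ≡ (fixF y).card [MOD q] := by
  have h1 := fix_mod hy Finset.univ (fun _ _ => Finset.mem_univ _)
  rwa [Finset.card_univ, card_pt, Finset.univ_inter] at h1

/-- commuting elements of prime order -/
theorem fix_pair {p q : ℕ} [Fact p.Prime] [Fact q.Prime] {x y : Equiv.Perm GolayPt} (hx : orderOf x = p)
    (hy : orderOf y = q) (h : x * y = y * x) :
    (fixF x).card ≡ (fixF x ∩ fixF y).card [MOD q] ∧ (fixF y).card ≡ (fixF x ∩ fixF y).card [MOD p] := by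
  constructor
  · apply fix_mod hy
    intro a ha
    rw [mem_fixF] at ha ⊢
    change (x * y) a = y a
    rw [h]
    change y (x a) = y a
    rw [ha]
  · rw [Finset.inter_comm]
    apply fix_mod hx
    intro a ha
    rw [mem_fixF] at ha ⊢
    change (y * x) a = x a
    rw [← h]
    change x (y a) = x a
    rw [ha]

/-- number of fixed points in terms of the order, when there are at least two -/
theorem fix_values {q : ℕ} [hq : Fact q.Prime] {y : Equiv.Perm GolayPt} (hM : y ∈ M24) (hy : orderOf y = q)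
    (h2 : (fixF y).card ≠ 0) : (q = 2 → (fixF y).card = 8) ∧ (q = 3 → (fixF y).card = 6) ∧ (fixF y).card ≤ 8 ∧
      24 ≡ (fixF y).card [MOD q] := by
  have hne : y ≠ 1 := by
    rintro rfl
    rw [orderOf_one] at hy
    exact hq.out.one_lt.ne hy
  refine ⟨?_, ?_, fix_le hM hne, fix_univ hy⟩
  · rintro rfl
    rcases inv_fix hM hy with h | h
    · exact card_oct h
    · exact absurd h h2
  · rintro rfl
    rcases three_fix hM hy with h | h
    · exact h
    · exact absurd h h2

theorem M22_le : Spor.M22 ≤ M24 := inf_le_left.trans inf_le_left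

theorem M22_fix {g : Equiv.Perm GolayPt} (hg : g ∈ Spor.M22) : ({none, some 0} : Finset GolayPt) ⊆ fixF g := by
  intro a ha
  rw [mem_fixF]
  rcases Finset.mem_insert.1 ha with rfl | ha
  · exact hg.1.2
  · rw [Finset.mem_singleton.1 ha]; exact hg.2

/-- in `M22` the centralizers of elements of order 5, 7, 11 -/
theorem M22_pair {p q : ℕ} [hp : Fact p.Prime] [hq : Fact q.Prime] {x y : Equiv.Perm GolayPt} (hxM : x ∈ Spor.M22)
    (hyM : y ∈ Spor.M22) (hx : orderOf x = p) (hy : orderOf y = q) (h : x * y = y * x)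
    (hp' : p = 5 ∨ p = 7 ∨ p = 11) (hq' : q = 2 ∨ q = 3 ∨ q = 5 ∨ q = 7 ∨ q = 11) : q = p := by
  have h1 := fix_pair hx hy h
  have hF : 2 ≤ (fixF x ∩ fixF y).card := by
    have h2 := Finset.card_le_card (Finset.subset_inter (M22_fix hxM) (M22_fix hyM))
    have h3 : ({none, some 0} : Finset GolayPt).card = 2 := by decide
    omega
  have hFx : (fixF x ∩ fixF y).card ≤ (fixF x).card := Finset.card_le_card Finset.inter_subset_left
  have hFy : (fixF x ∩ fixF y).card ≤ (fixF y).card := Finset.card_le_card Finset.inter_subset_right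
  have vx := fix_values (M22_le hxM) hx (by omega)
  have vy := fix_values (M22_le hyM) hy (by omega)
  obtain ⟨h1a, h1b⟩ := h1
  obtain ⟨-, -, vx3, vx4⟩ := vx
  obtain ⟨vy1, vy2, vy3, vy4⟩ := vy
  generalize (fixF x ∩ fixF y).card = F at *
  generalize (fixF x).card = a at *
  generalize (fixF y).card = b at *
  unfold Nat.ModEq at *
  rcases hp' with rfl | rfl | rfl <;> rcases hq' with rfl | rfl | rfl | rfl | rfl <;> first | rfl | (exfalso; simp at vy1 vy2; omega)

end Cfsg.Agent.H26.M24F
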