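import Mathlib
import Cfsg.Agent.H26_M22

/-!
# H26_M22b: `M22` has one 2-block
-/

set_option autoImplicit false

namespace Cfsg.Agent.H26.M24F

open Cfsg Cfsg.Agent.H7.Golay Cfsg.Agent.H7.Oct Cfsg.Agent.H7.M24 Cfsg.Agent.H7.M24d Cfsg.Agent.H28.Cls Cfsg.Agent.H26.Cnt
  Cfsg.Agent.H26.Basic
open scoped Pointwise

theorem eq_prime_of {n p : ℕ} (hp : p.Prime) (h0 : n ≠ 0) (h : ∀ q : ℕ, q.Prime → q ∣ n → q = p) (h1 : p ∣ n)
    (h2 : ¬ p ^ 2 ∣ n) : n = p := by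
  have h3 := Nat.eq_prime_pow_of_unique_prime_dvd h0 (fun {d} hd hdn => h d hd hdn)
  rw [h3] at h1 h2 ⊢
  have h4 : n.primeFactorsList.length ≠ 0 := by
    intro h; rw [h, pow_zero] at h1; exact hp.one_lt.ne' (Nat.dvd_one.1 h1)
  have h5 : n.primeFactorsList.length < 2 := by
    by_contra hcon
    exact h2 (pow_dvd_pow p (by omega))
  have h6 : n.primeFactorsList.length = 1 := by omega
  rw [h6, pow_one]

theorem M22_primes {q : ℕ} (hq : q.Prime) (h : q ∣ 443520) : q = 2 ∨ q = 3 ∨ q = 5 ∨ q = 7 ∨ q = 11 := by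
  have h1 : (443520 : ℕ) = 2 ^ 7 * 3 ^ 2 * 5 * 7 * 11 := by norm_num
  rw [h1] at h
  rcases (Nat.Prime.dvd_mul hq).1 h with h | h
  · rcases (Nat.Prime.dvd_mul hq).1 h with h | h
    · rcases (Nat.Prime.dvd_mul hq).1 h with h | h
      · rcases (Nat.Prime.dvd_mul hq).1 h with h | h
        · left; exact (Nat.prime_dvd_prime_iff_eq hq Nat.prime_two).1 (hq.dvd_of_dvd_pow h)
        · right; left; exact (Nat.prime_dvd_prime_iff_eq hq Nat.prime_three).1 (hq.dvd_of_dvd_pow h)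
      · right; right; left; exact (Nat.prime_dvd_prime_iff_eq hq Nat.prime_five).1 h
    · right; right; right; left; exact (Nat.prime_dvd_prime_iff_eq hq (by norm_num)).1 h
  · right; right; right; right; exact (Nat.prime_dvd_prime_iff_eq hq (by norm_num)).1 h

theorem M22_cent {p : ℕ} [hp : Fact p.Prime] {x : Spor.M22} (hx : orderOf x = p) (hp' : p = 5 ∨ p = 7 ∨ p = 11) :
    Nat.card (Subgroup.centralizer ({x} : Set Spor.M22)) = p := by
  apply eq_prime_of hp.out Nat.card_pos.ne'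
  · intro q hq hqd
    haveI : Fact q.Prime := ⟨hq⟩
    obtain ⟨⟨y, hy⟩, hyo⟩ := exists_prime_orderOf_dvd_card' q hqd
    rw [Subgroup.orderOf_mk] at hyo
    have h1 := Subgroup.mem_centralizer_singleton_iff.1 hy
    refine M22_pair (x := x) (y := y) x.2 y.2 ?_ ?_ ?_ hp' ?_
    · rw [← hx]; exact Subgroup.orderOf_coe x
    · rw [← hyo]; exact Subgroup.orderOf_coe y
    · exact congrArg Subtype.val h1.symm
    · apply M22_primes hq
      rw [← Cfsg.Agent.H14.M24Gen.card_M22]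
      exact hqd.trans (Subgroup.card_subgroup_dvd_card _)
  · rw [← hx]
    have h1 : x ∈ Subgroup.centralizer ({x} : Set Spor.M22) := Subgroup.mem_centralizer_singleton_iff.2 rfl
    have h2 := orderOf_dvd_natCard (⟨x, h1⟩ : Subgroup.centralizer ({x} : Set Spor.M22))
    rwa [Subgroup.orderOf_mk] at h2
  · intro h
    have h1 := h.trans (Subgroup.card_subgroup_dvd_card _)
    rw [Cfsg.Agent.H14.M24Gen.card_M22] at h1
    rcases hp' with rfl | rfl | rfl <;> revert h1 <;> norm_num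

theorem M22_sq {p : ℕ} (hp' : p = 5 ∨ p = 7 ∨ p = 11) : ¬ p ^ 2 ∣ Nat.card Spor.M22 := by
  rw [Cfsg.Agent.H14.M24Gen.card_M22]
  rcases hp' with rfl | rfl | rfl <;> norm_num

instance f5 : Fact (Nat.Prime 5) := ⟨by norm_num⟩
instance f7 : Fact (Nat.Prime 7) := ⟨by norm_num⟩
instance f11 : Fact (Nat.Prime 11) := ⟨by norm_num⟩

theorem dvd_cases {a n : ℕ} (h : a ∣ n) (hn : n ≠ 0) : a ∈ n.divisors := Nat.mem_divisors.2 ⟨h, hn⟩

theorem M22_aut5 {x : Spor.M22} (hx : orderOf x = 5) : Nat.card (autG x) = 4 := by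
  obtain ⟨n, hn, hc⟩ := sylow_count (p := 5) hx (M22_sq (Or.inl rfl))
  rw [M22_cent hx (Or.inl rfl), Cfsg.Agent.H14.M24Gen.card_M22] at hc
  have h1 := card_autG_dvd (p := 5) hx
  have h2 := Nat.le_of_dvd (by norm_num) h1
  have h0 := Nat.card_pos (α := autG x)
  generalize Nat.card (autG x) = a at *
  unfold Nat.ModEq at hn
  interval_cases a <;> omega

theorem M22_aut7 {x : Spor.M22} (hx : orderOf x = 7) : Nat.card (autG x) = 3 := by
  obtain ⟨n, hn, hc⟩ := sylow_count (p := 7) hx (M22_sq (Or.inr (Or.inl rfl)))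
  rw [M22_cent hx (Or.inr (Or.inl rfl)), Cfsg.Agent.H14.M24Gen.card_M22] at hc
  have h1 := card_autG_dvd (p := 7) hx
  have h2 := Nat.le_of_dvd (by norm_num) h1
  have h0 := Nat.card_pos (α := autG x)
  generalize Nat.card (autG x) = a at *
  unfold Nat.ModEq at hn
  interval_cases a <;> omega

theorem M22_aut11 {x : Spor.M22} (hx : orderOf x = 11) : Nat.card (autG x) = 5 := by
  obtain ⟨n, hn, hc⟩ := sylow_count (p := 11) hx (M22_sq (Or.inr (Or.inr rfl)))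
  rw [M22_cent hx (Or.inr (Or.inr rfl)), Cfsg.Agent.H14.M24Gen.card_M22] at hc
  have h1 := card_autG_dvd (p := 11) hx
  have h2 := Nat.le_of_dvd (by norm_num) h1
  have h0 := Nat.card_pos (α := autG x)
  generalize Nat.card (autG x) = a at *
  unfold Nat.ModEq at hn
  interval_cases a <;> omega

theorem M22_exists {p : ℕ} [hp : Fact p.Prime] (hp' : p = 5 ∨ p = 7 ∨ p = 11) : ∃ x : Spor.M22, orderOf x = p := by
  apply exists_prime_orderOf_dvd_card'
  rw [Cfsg.Agent.H14.M24Gen.card_M22]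
  rcases hp' with rfl | rfl | rfl <;> norm_num

open Classical in
theorem M22_data5 [Fintype Spor.M22] (χ : IrrCharacter Spor.M22) :
    ∃ n : ℕ, (∀ g : Spor.M22, orderOf g = 5 → ‖(χ : Spor.M22 → ℂ) g‖ ^ 2 = n) ∧
      ∑ g ∈ Finset.univ.filter (fun g : Spor.M22 => orderOf g = 5), ‖(χ : Spor.M22 → ℂ) g‖ ^ 2 =
      n * 88704 ∧ n % 5 = ((charDegree (χ : Spor.M22 → ℂ)) ^ 2) % 5 := by
  obtain ⟨x, hx⟩ := M22_exists (p := 5) (Or.inl rfl)
  obtain ⟨h1, h2⟩ := prime_card hx (M22_sq (Or.inl rfl)) (Or.inl (M22_aut5 hx))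
  obtain ⟨n, h3, h4, h5⟩ := prime_sum χ hx (M22_sq (Or.inl rfl)) h1
  rw [M22_cent hx (Or.inl rfl), M22_aut5 hx, Cfsg.Agent.H14.M24Gen.card_M22] at h2
  refine ⟨n, h3, ?_, h5⟩
  rw [h4]
  have h6 : (Finset.univ.filter (fun g : Spor.M22 => orderOf g = 5)).card = 88704 := by omega
  rw [h6]; norm_num

open Classical in
theorem M22_data7 [Fintype Spor.M22] (χ : IrrCharacter Spor.M22) :
    ∃ n : ℕ, (∀ g : Spor.M22, orderOf g = 7 → ‖(χ : Spor.M22 → ℂ) g‖ ^ 2 = n) ∧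
      ∑ g ∈ Finset.univ.filter (fun g : Spor.M22 => orderOf g = 7), ‖(χ : Spor.M22 → ℂ) g‖ ^ 2 =
      n * 126720 ∧ n % 7 = ((charDegree (χ : Spor.M22 → ℂ)) ^ 2) % 7 := by
  obtain ⟨x, hx⟩ := M22_exists (p := 7) (Or.inr (Or.inl rfl))
  obtain ⟨h1, h2⟩ := prime_card hx (M22_sq (Or.inr (Or.inl rfl))) (Or.inr (by rw [M22_aut7 hx]; exact ⟨rfl, by decide⟩))
  obtain ⟨n, h3, h4, h5⟩ := prime_sum χ hx (M22_sq (Or.inr (Or.inl rfl))) h1
  rw [M22_cent hx (Or.inr (Or.inl rfl)), M22_aut7 hx, Cfsg.Agent.H14.M24Gen.card_M22] at h2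
  refine ⟨n, h3, ?_, h5⟩
  rw [h4]
  have h6 : (Finset.univ.filter (fun g : Spor.M22 => orderOf g = 7)).card = 126720 := by omega
  rw [h6]; norm_num

open Classical in
theorem M22_data11 [Fintype Spor.M22] (χ : IrrCharacter Spor.M22) :
    ∃ n : ℕ, (∀ g : Spor.M22, orderOf g = 11 → ‖(χ : Spor.M22 → ℂ) g‖ ^ 2 = n) ∧
      ∑ g ∈ Finset.univ.filter (fun g : Spor.M22 => orderOf g = 11), ‖(χ : Spor.M22 → ℂ) g‖ ^ 2 =
      n * 80640 ∧ n % 11 = ((charDegree (χ : Spor.M22 → ℂ)) ^ 2) % 11 := by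
  obtain ⟨x, hx⟩ := M22_exists (p := 11) (Or.inr (Or.inr rfl))
  obtain ⟨h1, h2⟩ := prime_card hx (M22_sq (Or.inr (Or.inr rfl))) (Or.inr (by rw [M22_aut11 hx]; exact ⟨rfl, by decide⟩))
  obtain ⟨n, h3, h4, h5⟩ := prime_sum χ hx (M22_sq (Or.inr (Or.inr rfl))) h1
  rw [M22_cent hx (Or.inr (Or.inr rfl)), M22_aut11 hx, Cfsg.Agent.H14.M24Gen.card_M22] at h2
  refine ⟨n, h3, ?_, h5⟩
  rw [h4]
  have h6 : (Finset.univ.filter (fun g : Spor.M22 => orderOf g = 11)).card = 80640 := by omega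
  rw [h6]; norm_num

end Cfsg.Agent.H26.M24F
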