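import Mathlib
import Cfsg.Agent.H26_M22b

/-!
# H26_M22c: `M22` has one 2-block
-/

set_option autoImplicit false

namespace Cfsg.Agent.H26.M24F

open Cfsg Cfsg.Agent.H7.Golay Cfsg.Agent.H7.Oct Cfsg.Agent.H7.M24 Cfsg.Agent.H7.M24d Cfsg.Agent.H28.Cls Cfsg.Agent.H26.Cnt
  Cfsg.Agent.H26.Basic Cfsg.Agent.H3.CharIrr Cfsg.Agent.H3.CharComplete
open scoped Pointwise

theorem M22_dz (χ : IrrCharacter Spor.M22) :
    ¬ 2 ^ (Nat.card Spor.M22).factorization 2 ∣ charDegree (χ : Spor.M22 → ℂ) := by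
  classical
  haveI : Fintype Spor.M22 := Fintype.ofFinite _
  intro hdz
  have hd := cd_dvd_card χ
  rw [Cfsg.Agent.H14.M24Gen.card_M22] at hdz hd
  have hf2 : (443520 : ℕ).factorization 2 = 7 := by
    have h1 : (443520 : ℕ) = 2 ^ 7 * 3465 := by norm_num
    rw [h1, Nat.factorization_mul (by norm_num) (by norm_num), Finsupp.add_apply, Nat.Prime.factorization_pow Nat.prime_two,
      Nat.factorization_eq_zero_of_not_dvd (by norm_num : ¬ 2 ∣ 3465)]
    simp
  rw [hf2] at hdz
  have hd0 := cd_pos χ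
  obtain ⟨n5, h5a, h5b, h5c⟩ := M22_data5 χ
  obtain ⟨n7, h7a, h7b, h7c⟩ := M22_data7 χ
  obtain ⟨n11, h11a, h11b, h11c⟩ := M22_data11 χ
  have htot := sum_all χ
  rw [Cfsg.Agent.H14.M24Gen.card_M22] at htot
  set F : Spor.M22 → ℝ := fun g => ‖(χ : Spor.M22 → ℂ) g‖ ^ 2 with hF
  have hF0 : ∀ g, 0 ≤ F g := fun g => by positivity
  have hone : F 1 = ((charDegree (χ : Spor.M22 → ℂ)) ^ 2 : ℕ) := by
    rw [hF]
    change ‖(χ : Spor.M22 → ℂ) 1‖ ^ 2 = _
    rw [← cd_eq, Complex.norm_natCast]; push_cast; rfl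
  set O : Finset Spor.M22 := Finset.univ.filter fun g => orderOf g ≠ 1 ∧ orderOf g ≠ 5 ∧ orderOf g ≠ 7 ∧ orderOf g ≠ 11 with hO
  have hsplit : ∑ g, F g = F 1 + (∑ g ∈ Finset.univ.filter (fun g : Spor.M22 => orderOf g = 5), F g) +
      (∑ g ∈ Finset.univ.filter (fun g : Spor.M22 => orderOf g = 7), F g) +
      (∑ g ∈ Finset.univ.filter (fun g : Spor.M22 => orderOf g = 11), F g) + ∑ g ∈ O, F g := by
    have h1 : F 1 = ∑ g ∈ Finset.univ.filter (fun g : Spor.M22 => orderOf g = 1), F g := by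
      have : Finset.univ.filter (fun g : Spor.M22 => orderOf g = 1) = {1} := by
        ext g; simp
      rw [this, Finset.sum_singleton]
    rw [h1, hO, Finset.sum_filter, Finset.sum_filter, Finset.sum_filter, Finset.sum_filter, Finset.sum_filter,
      ← Finset.sum_add_distrib, ← Finset.sum_add_distrib, ← Finset.sum_add_distrib, ← Finset.sum_add_distrib]
    refine Finset.sum_congr rfl fun g _ => ?_
    by_cases e1 : orderOf g = 1
    · rw [e1]; simp
    by_cases e5 : orderOf g = 5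
    · rw [e5]; simp
    by_cases e7 : orderOf g = 7
    · rw [e7]; simp
    by_cases e11 : orderOf g = 11
    · rw [e11]; simp
    simp [e1, e5, e7, e11]
  have hO0 : 0 ≤ ∑ g ∈ O, F g := Finset.sum_nonneg fun g _ => hF0 g
  change ∑ g, F g = _ at htot
  rw [hsplit, hone] at htot
  change ∑ g ∈ Finset.univ.filter (fun g : Spor.M22 => orderOf g = 5), F g = _ at h5b
  change ∑ g ∈ Finset.univ.filter (fun g : Spor.M22 => orderOf g = 7), F g = _ at h7b
  change ∑ g ∈ Finset.univ.filter (fun g : Spor.M22 => orderOf g = 11), F g = _ at h11b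
  rw [h5b, h7b, h11b] at htot
  set d := charDegree (χ : Spor.M22 → ℂ) with hdd
  have hineq : d ^ 2 + n5 * 88704 + n7 * 126720 + n11 * 80640 ≤ 443520 := by
    have h1 : ((d ^ 2 + n5 * 88704 + n7 * 126720 + n11 * 80640 : ℕ) : ℝ) ≤ ((443520 : ℕ) : ℝ) := by
      push_cast
      push_cast at htot
      linarith
    exact_mod_cast h1
  obtain ⟨k, hk⟩ := hdz
  have hk1 : d = 128 * k := by rw [hk]; norm_num
  have hk6 : k ≤ 5 := by
    by_contra hcon
    push Not at hcon
    have h1 : 768 ≤ d := by omega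
    have h2 : 768 ^ 2 ≤ d ^ 2 := Nat.pow_le_pow_left h1 2
    omega
  interval_cases k
  · omega
  · rw [hk1] at h7c hineq
    norm_num at h7c hineq
    omega
  · rw [hk1] at hd
    revert hd; norm_num
  · -- degree 384
    have h5 : n5 = 1 ∧ n7 = 1 ∧ n11 = 1 := by
      rw [hk1] at h5c h7c h11c hineq
      norm_num at h5c h7c h11c hineq
      omega
    obtain ⟨rfl, rfl, rfl⟩ := h5
    have hzero : ∑ g ∈ O, F g = 0 := by
      rw [hk1] at htot
      push_cast at htot
      linarith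
    have hvan : ∀ g : Spor.M22, 3 ∣ orderOf g → (χ : Spor.M22 → ℂ) g = 0 := by
      intro g hg
      have hgO : g ∈ O := by
        rw [hO, Finset.mem_filter]
        refine ⟨Finset.mem_univ _, ?_, ?_, ?_, ?_⟩ <;> intro h <;> rw [h] at hg <;> revert hg <;> norm_num
      have h1 := (Finset.sum_eq_zero_iff_of_nonneg (fun g _ => hF0 g)).1 hzero g hgO
      have h2 : ‖(χ : Spor.M22 → ℂ) g‖ = 0 := by
        have h3 : ‖(χ : Spor.M22 → ℂ) g‖ ^ 2 = 0 := h1
        exact pow_eq_zero_iff (two_ne_zero) |>.1 h3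
      exact norm_eq_zero.1 h2
    haveI : Fact (Nat.Prime 3) := ⟨Nat.prime_three⟩
    have h3 := Cfsg.Agent.H10.BlockHZ.factorization_of_vanish (p := 3) χ.2 hvan (cd_dvd_card χ)
    rw [Cfsg.Agent.H14.M24Gen.card_M22] at h3
    change d.factorization 3 = _ at h3
    have h4 : 3 ^ 2 ∣ d := by
      have h5 : (443520 : ℕ).factorization 3 = 2 := by
        have h6 : (443520 : ℕ) = 3 ^ 2 * 49280 := by norm_num
        rw [h6, Nat.factorization_mul (by norm_num) (by norm_num), Finsupp.add_apply, Nat.Prime.factorization_pow Nat.prime_three,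
          Nat.factorization_eq_zero_of_not_dvd (by norm_num : ¬ 3 ∣ 49280)]
        simp
      rw [← h5, ← h3]
      exact Nat.ordProj_dvd _ _
    rw [hk1] at h4
    revert h4; norm_num
  · rw [hk1] at hd
    revert hd; norm_num
  · rw [hk1] at h7c hineq
    norm_num at h7c hineq
    omega

theorem M22_block {M : Ideal AlgInt} (hM : IsPModular 2 M) (χ ψ : IrrCharacter Spor.M22) :
    SameBlock M (χ : Spor.M22 → ℂ) (ψ : Spor.M22 → ℂ) := by
  classical
  haveI : Fintype Spor.M22 := Fintype.ofFinite _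
  haveI : Fact (Nat.Prime 2) := ⟨Nat.prime_two⟩
  refine Cfsg.Agent.H26.One.one_block_of_local hM ?_ M22_dz χ ψ
  intro z hz hft
  have hz' : orderOf (z : Equiv.Perm GolayPt) = 2 := by rw [← hz]; exact Subgroup.orderOf_coe z
  have hfix := M22_fix z.2
  have ho : fixF (z : Equiv.Perm GolayPt) ∈ octads := by
    rcases inv_fix (M22_le z.2) hz' with h | h
    · exact h
    · exfalso
      rw [Finset.card_eq_zero] at h
      rw [h] at hfix
      exact absurd (hfix (Finset.mem_insert_self _ _)) (Finset.notMem_empty _)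
  refine one_block_oct hM M22_le z ho rfl ?_ hft
  intro e he
  have h1 := mem_EO.1 he
  refine ⟨⟨h1.1, ?_⟩, ?_⟩
  · exact h1.2 _ (hfix (Finset.mem_insert_self _ _))
  · exact h1.2 _ (hfix (Finset.mem_insert_of_mem (Finset.mem_singleton_self _)))

end Cfsg.Agent.H26.M24F
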