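import Cfsg.Statements.S5607
import Cfsg.Agent.H28_Cen

set_option autoImplicit false
open scoped Pointwise
open Cfsg

namespace Cfsg.Agent.S5607

open Cfsg.Agent.H7.Golay Cfsg.Agent.H7.Oct Cfsg.Agent.H7.M24 Cfsg.Agent.H28.Tree Cfsg.Agent.H28.Tree2 Cfsg.Agent.H28.Cls Cfsg.Agent.H28.Cen Cfsg.Agent.H28.Sxt Cfsg.Agent.H28.SxtOrb
open Cfsg.Agent.H14.M24Eng (invl comp has_fixK')
open scoped Pointwise

def tA : T2 := (.sing 0 0 (.comm 0 (.split 2 8192 (.sing 2 13 (.sing 3 20 (.split 4 4 (.comm 0 (.oct 757 754 47 (.bad 4))) (.split 4 8 (.comm 0 (.oct 757 754 47 (.bad 4))) (.split 4 16 (.comm 0 (.oct 757 720 47 (.bad 4))) (.split 4 32 (.comm 0 (.oct 757 720 47 (.bad 4))) (.split 4 64 (.comm 0 (.oct 757 698 47 (.bad 4))) (.split 4 128 (.comm 0 (.oct 757 690 47 (.bad 4))) (.split 4 256 (.comm 0 (.oct 757 687 47 (.bad 4))) (.split 4 512 (.comm 0 (.oct 757 698 47 (.bad 4))) (.split 4 1024 (.comm 0 (.oct 757 720 47 (.bad 4))) (.split 4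 2048 (.comm 0 (.oct 757 687 47 (.bad 4))) (.split 4 4096 (.comm 0 (.oct 757 690 47 (.bad 4))) (.split 4 16384 (.comm 0 (.oct 757 690 47 (.bad 4))) (.split 4 32768 (.comm 0 (.oct 757 687 47 (.bad 4))) (.split 4 65536 (.comm 0 (.oct 757 698 47 (.bad 4))) (.split 4 131072 (.comm 0 (.oct 757 720 47 (.bad 4))) (.split 4 262144 (.comm 0 (.oct 757 754 47 (.bad 4))) (.split 4 524288 (.comm 0 (.oct 757 698 47 (.bad 4))) (.split 4 2097152 (.comm 0 (.oct 757 754 47 (.bad 4))) (.split 4 4194304 (.comm 0 (.oct 757 687 47 (.bad 4))) (.comm 0 (.oct 757 690 47 (.bad 4)))))))))))))))))))))))) (.sing 2 20 (.sing 3 13 (.split 4 4 (.comm 0 (.oct 757 754 47 (.bad 4))) (.split 4 8 (.comm 0 (.oct 757 754 47 (.bad 4))) (.split 4 16 (.comm 0 (.oct 757 720 47 (.bad 4))) (.split 4 32 (.comm 0 (.oct 757 720 47 (.bad 4))) (.split 4 64 (.comm 0 (.oct 757 698 47 (.bad 4))) (.split 4 128 (.comm 0 (.oct 757 690 47 (.bad 4))) (.split 4 256 (.comm 0 (.oct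 757 687 47 (.bad 4))) (.split 4 512 (.comm 0 (.oct 757 698 47 (.bad 4))) (.split 4 1024 (.comm 0 (.oct 757 720 47 (.bad 4))) (.split 4 2048 (.comm 0 (.oct 757 687 47 (.bad 4))) (.split 4 4096 (.comm 0 (.oct 757 690 47 (.bad 4))) (.split 4 16384 (.comm 0 (.oct 757 690 47 (.bad 4))) (.split 4 32768 (.comm 0 (.oct 757 687 47 (.bad 4))) (.split 4 65536 (.comm 0 (.oct 757 698 47 (.bad 4))) (.split 4 131072 (.comm 0 (.oct 757 720 47 (.bad 4))) (.split 4 262144 (.comm 0 (.oct 757 754 47 (.bad 4))) (.split 4 524288 (.comm 0 (.oct 757 698 47 (.bad 4))) (.split 4 2097152 (.comm 0 (.oct 757 754 47 (.bad 4))) (.split 4 4194304 (.comm 0 (.oct 757 687 47 (.bad 4))) (.comm 0 (.oct 757 690 47 (.bad 4)))))))))))))))))))))))))))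
def tB : T2 := (.sing 0 0 (.sing 2 2 (.comm 0 (.split 4 8192 (.oct 757 754 47 (.bad 4)) (.split 4 262144 (.oct 757 754 47 (.bad 4)) (.split 4 1048576 (.oct 757 754 47 (.bad 4)) (.oct 757 754 47 (.bad 4))))))))
def tC : T2 := (.comm 0 (.oct 757 757 47 (.oct 681 681 61 (.comm 0 (.oct 737 737 59 (.split 6 64 (.comm 0 (.oct 447 447 524346 (.oct 506 506 8540161 (.comm 0 (.good [0, 1, 2, 3, 4, 5, 6, 7, 8, 9, 10, 11, 12, 13, 14, 15, 16, 17, 18, 19, 20, 21, 22, 23] []))))) (.split 6 65536 (.comm 0 (.oct 502 503 524318 (.bad 6))) (.comm 0 (.oct 728 754 524363 (.bad 2))))))))))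
def O1 : List ℕ := [2, 3, 4, 5, 6, 7, 8, 9, 10, 11, 12, 14, 15, 16, 17, 18, 19, 21, 22, 23]
def O2 : List ℕ := [4, 5, 6, 7, 8, 9, 10, 11, 12, 14, 15, 16, 17, 19, 22, 23]
def g0 : List (List ℕ) := [[2, 3, 1, 0, 12, 23, 16, 4, 22, 19, 7, 15, 10, 21, 5, 11, 6, 14, 13, 9, 18, 20, 8, 17], [1, 0, 16, 9, 2, 3, 11, 14, 5, 8, 21, 10, 12, 13, 7, 17, 22, 18, 19, 15, 20, 6, 4, 23], [13, 20, 2, 3, 8, 22, 5, 6, 23, 17, 15, 7, 9, 1, 19, 14, 10, 11, 21, 4, 0, 18, 12, 16]]
def g1 : List (List ℕ) := [[0, 1, 6, 19, 22, 8, 23, 4, 18, 7, 15, 2, 10, 13, 5, 3, 14, 11, 16, 12, 20, 9, 21, 17], [0, 1, 14, 7, 2, 3, 4, 22, 6, 17, 18, 16, 15, 13, 8, 9, 10, 21, 23, 5, 20, 12, 19, 11], [0, 1, 3, 2, 6, 19, 23, 22, 10, 14, 9, 5, 11, 20, 8, 4, 7, 16, 18, 12, 13, 21, 17, 15]]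
def g2 : List (List ℕ) := [[0, 1, 2, 3, 8, 22, 17, 16, 7, 5, 15, 23, 19, 20, 9, 12, 4, 11, 21, 10, 13, 18, 14, 6], [0, 1, 2, 3, 7, 14, 11, 4, 16, 22, 12, 6, 10, 13, 5, 19, 8, 23, 18, 15, 20, 21, 9, 17], [0, 1, 2, 3, 15, 11, 5, 19, 12, 17, 8, 14, 16, 20, 6, 7, 10, 22, 21, 4, 13, 18, 23, 9], [0, 1, 2, 3, 5, 4, 16, 14, 11, 19, 17, 8, 23, 13, 7, 22, 6, 10, 18, 9, 20, 21, 15, 12]]

theorem inv0 : ∀ g ∈ cenM zB, g (pt 0) = pt 0 → g (pt 1) = pt 1 := by
  intro g hg h
  have h1 : g (zB (pt 0)) = zB (g (pt 0)) := congrArg (fun f : Equiv.Perm GolayPt => f (pt 0)) (mem_cenM.1 hg).2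
  have h2 : zB (pt 0) = pt 1 := rep_zB.apply_pt (by norm_num)
  rw [h, h2] at h1
  exact h1

theorem tA_ok : check2 [(invl lB, lB)] 0 (fun _ _ => false) tA (st0 [0] 2 (0 :: 1 :: O1)) = true := by decide +kernel
theorem tB_ok : check2 [(invl lB, lB)] 0 (fun _ _ => false) tB (st0 [2, 0] 4 O2) = true := by decide +kernel
theorem tC_ok : check2 [(invl lB, lB)] 0 (fun r _ => [List.range 24].any fun r' => beqL r r') tC (st1 [4, 2, 0]) = true := by
  decide +kernel

theorem has0 : Has (cenM zB) g0 := has_cen rep_zB (by decide +kernel)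
theorem has1 : Has (fixK (cenM zB) [0]) g1 := has_fixK' (has_cen rep_zB (by decide +kernel)) (by decide)
theorem has2 : Has (fixK (cenM zB) [2, 0]) g2 := has_fixK' (has_cen rep_zB (by decide +kernel)) (by decide)

theorem trans0 : ∀ m ∈ List.range 24, ∃ g ∈ cenM zB, g (pt m) = pt 0 :=
  descent_pt _ g0 has0 _ 0 (by decide +kernel)

theorem card_cen : Nat.card (cenM zB) = 7680 := by
  have c0 := card_fixK (cenM zB) [] 0 (by norm_num) (List.range 24) (List.nodup_range) (by simp)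
    (fun g _ => by rw [List.mem_range]; exact ix_lt _) (by rw [fixK_nil]; exact trans0)
  have c1 := card_fixK (cenM zB) [0] 2 (by norm_num) O1 (by decide) (list_all_lt (by decide)) (by
      intro g hg
      have h1 := inv_of_tree (cenM_le zB) (rels_cen rep_zB) (list_all_lt (by decide)) tA tA_ok g hg
      have hg0 : g (pt 0) = pt 0 := (mem_fixK.1 hg).2 (pt 0) (by rw [ix_pt 0 (by norm_num)]; simp)
      have hg1 := inv0 g (mem_fixK.1 hg).1 hg0
      rw [List.mem_cons, List.mem_cons] at h1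
      rcases h1 with h1 | h1 | h1
      · exfalso
        have : g (pt 2) = g (pt 0) := by
          rw [hg0]; apply ix_injective; rw [h1]; rfl
        exact absurd (g.injective this) (by decide)
      · exfalso
        have : g (pt 2) = g (pt 1) := by
          rw [hg1]; apply ix_injective; rw [h1]; rfl
        exact absurd (g.injective this) (by decide)
      · exact h1)
    (descent_pt _ g1 has1 _ 2 (by decide +kernel))
  have c2 := card_fixK (cenM zB) [2, 0] 4 (by norm_num) O2 (by decide) (list_all_lt (by decide))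
    (inv_of_tree (cenM_le zB) (rels_cen rep_zB) (list_all_lt (by decide)) tB tB_ok)
    (descent_pt _ g2 has2 _ 4 (by decide +kernel))
  have c3 := card_one_of_tree (cenM_le zB) (rels_cen rep_zB) (l := [4, 2, 0]) (list_all_lt (by decide)) tC tC_ok
  rw [fixK_nil] at c0
  rw [c0, c1, c2, c3]
  rfl

/-- the property of the sextet -/
def PS (t : Equiv.Perm GolayPt) (S : Finset (Finset GolayPt)) : Prop := S ∈ sextets ∧ ∀ T ∈ S, t • T = T

theorem PS_conj {c t : Equiv.Perm GolayPt} (hc : c ∈ M24) {S : Finset (Finset GolayPt)} (h : PS t S) :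
    PS (c * t * c⁻¹) (c • S) := by
  refine ⟨(smul_mem_sextets_iff hc).2 h.1, ?_⟩
  intro T hT
  rw [Finset.mem_smul_finset] at hT
  obtain ⟨U, hU, rfl⟩ := hT
  rw [mul_smul, mul_smul, inv_smul_smul, h.2 U hU]

theorem sex_unique : (sexT.all fun N => !((flds N).all fun m => Nat.beq (act lB m) m) || Nat.beq (key N) 10387456)
    = true := by decide +kernel

theorem sex_exists : (sexT.any fun N => ((flds N).all fun m => Nat.beq (act lB m) m) && Nat.beq (key N) 10387456)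
    = true := by decide +kernel

theorem PS_iff {N : ℕ} (hN : N ∈ sexT) : PS zB (sx (key N)) ↔ ((flds N).all fun m => Nat.beq (act lB m) m) = true := by
  rw [List.all_eq_true]
  have hf : ∀ m, zB • ofMask m = ofMask m ↔ ofMask (act lB m) = ofMask m := by
    intro m; rw [rep_zB.smul_ofMask]
  constructor
  · rintro ⟨_, h⟩ m hm
    have h1 := h (ofMask m) (by rw [sx_key hN, List.mem_toFinset, List.mem_map]; exact ⟨m, hm, rfl⟩)
    rw [hf] at h1
    have hm24 : m < 16777216 := by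
      simp only [flds, List.mem_cons, List.not_mem_nil, or_false] at hm
      rcases hm with rfl | rfl | rfl | rfl | rfl | rfl <;> exact fld_lt N _
    rw [(ofMask_inj (act_lt rep_zB) hm24).1 h1]
    exact Nat.beq_refl m
  · intro h
    refine ⟨sextet_iff'.2 ⟨N, hN, rfl⟩, fun T hT => ?_⟩
    rw [sx_key hN, List.mem_toFinset, List.mem_map] at hT
    obtain ⟨m, hm, rfl⟩ := hT
    rw [hf, Nat.eq_of_beq_eq_true (h m hm)]

theorem PS_ex : ∃ S, PS zB S := by
  have h := sex_exists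
  rw [List.any_eq_true] at h
  obtain ⟨N, hN, h⟩ := h
  rw [Bool.and_eq_true] at h
  exact ⟨_, (PS_iff hN).2 h.1⟩

theorem PS_un {S S' : Finset (Finset GolayPt)} (h : PS zB S) (h' : PS zB S') : S = S' := by
  have key : ∀ S, PS zB S → S = sx 10387456 := by
    intro S h
    obtain ⟨N, hN, rfl⟩ := sextet_iff'.1 h.1
    have h1 := sex_unique
    rw [List.all_eq_true] at h1
    have h2 := h1 N hN
    rw [(PS_iff hN).1 h] at h2
    have h3 : Nat.beq (key N) 10387456 = true := by simpa using h2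
    rw [Nat.eq_of_beq_eq_true h3]
  rw [key S h, key S' h']

/-- For a fixed-point-free involution t of the group of the length-24 code: its centraliser in that group has order 7680, is transitive on the 24 points, and is contained, together with t, in the stabiliser of some sextet. -/
theorem result (t : Equiv.Perm Cfsg.GolayPt) (ht : t ∈ Cfsg.M24) (h₂ : orderOf t = 2) (h₀ : ∀ p, t p ≠ p) : Nat.card {c : Equiv.Perm Cfsg.GolayPt // c ∈ Cfsg.M24 ∧ c * t = t * c} = 7680 ∧ (∀ p q : Cfsg.GolayPt, ∃ c ∈ Cfsg.M24, c * t = t * c ∧ c p = q) ∧ ∃ S ∈ Cfsg.sextets, t • S = S ∧ ∀ c ∈ Cfsg.M24, c * t = t * c → c • S = S := by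
  obtain ⟨c, hc, hct⟩ := class_B ht h₂ (by rw [card_zero_iff.2 h₀]; norm_num)
  have htc : t = c⁻¹ * zB * c := by rw [← hct]; group
  refine ⟨?_, ?_, ?_⟩
  · have h1 : Nat.card {c : Equiv.Perm Cfsg.GolayPt // c ∈ Cfsg.M24 ∧ c * t = t * c} = Nat.card (cenM t) :=
      Nat.card_congr (Equiv.subtypeEquivRight fun x => mem_cenM.symm)
    rw [h1, card_cen_conj hc hct, card_cen]
  · have key : ∀ p, ∃ d ∈ Cfsg.M24, d * t = t * d ∧ d (c⁻¹ p) = c⁻¹ (pt 0) := by
      intro p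
      obtain ⟨g, hg, hgp⟩ := trans0 (ix p) (by rw [List.mem_range]; exact ix_lt _)
      obtain ⟨hgM, hgz⟩ := mem_cenM.1 hg
      rw [pt_ix] at hgp
      refine ⟨c⁻¹ * g * c, mul_mem (mul_mem (inv_mem hc) hgM) hc, ?_, ?_⟩
      · rw [htc]
        have e1 : c⁻¹ * g * c * (c⁻¹ * zB * c) = c⁻¹ * (g * zB) * c := by group
        have e2 : c⁻¹ * zB * c * (c⁻¹ * g * c) = c⁻¹ * (zB * g) * c := by group
        rw [e1, e2, hgz]
      · show c⁻¹ (g (c (c⁻¹ p))) = _
        have : c (c⁻¹ p) = p := c.apply_symm_apply p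
        rw [this, hgp]
    intro p q
    obtain ⟨d, hd, hdt, hdp⟩ := key (c p)
    obtain ⟨e, he, het, hep⟩ := key (c q)
    have a1 : c⁻¹ (c p) = p := c.symm_apply_apply p
    have a2 : c⁻¹ (c q) = q := c.symm_apply_apply q
    rw [a1] at hdp
    rw [a2] at hep
    refine ⟨e⁻¹ * d, mul_mem (inv_mem he) hd, ?_, ?_⟩
    · have h1 : e⁻¹ * t = t * e⁻¹ := by
        have : e⁻¹ * (e * t) * e⁻¹ = e⁻¹ * (t * e) * e⁻¹ := by rw [het]
        have e3 : e⁻¹ * (e * t) * e⁻¹ = t * e⁻¹ := by group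
        have e4 : e⁻¹ * (t * e) * e⁻¹ = e⁻¹ * t := by group
        rw [e3, e4] at this
        exact this.symm
      rw [mul_assoc, hdt, ← mul_assoc, h1, mul_assoc]
    · show e⁻¹ (d p) = q
      rw [hdp, ← hep]
      exact e.symm_apply_apply q
  · obtain ⟨S, hS⟩ := PS_ex
    have hS' : PS t (c⁻¹ • S) := by
      have := PS_conj (inv_mem hc) hS
      rw [inv_inv, ← htc] at this
      exact this
    refine ⟨c⁻¹ • S, hS'.1, ?_, ?_⟩
    · have h1 : ∀ T ∈ c⁻¹ • S, t • T = T := hS'.2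
      ext T
      rw [Finset.mem_smul_finset]
      constructor
      · rintro ⟨U, hU, rfl⟩
        rw [h1 U hU]; exact hU
      · intro hT
        exact ⟨T, hT, h1 T hT⟩
    · intro d hd hdt
      have h1 : PS zB (c • (d • (c⁻¹ • S))) := by
        have h2 := PS_conj hd hS'
        have h3 : d * t * d⁻¹ = t := by rw [hdt]; group
        rw [h3] at h2
        have h4 := PS_conj hc h2
        rw [hct] at h4
        exact h4
      have h5 := PS_un h1 hS
      rw [eq_inv_smul_iff]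
      exact h5

end Cfsg.Agent.S5607
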