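import Mathlib
import Cfsg.Agent.H26_M22
import Cfsg.Agent.S5607

/-!
# H26_Sxt: one 2-block for the centralizer of a fixed-point-free involution of `M24`
-/

set_option autoImplicit false

namespace Cfsg.Agent.H26.M24F

open Cfsg Cfsg.Agent.H7.Golay Cfsg.Agent.H7.Oct Cfsg.Agent.H7.M24 Cfsg.Agent.H7.M24d Cfsg.Agent.H28.Cls Cfsg.Agent.H26.Cnt
  Cfsg.Agent.H28.Sxt Cfsg.Agent.S5607
open scoped Pointwise

theorem EO_comm {o : Finset GolayPt} (ho : o ∈ octads) {f e : Equiv.Perm GolayPt} (hf : f ∈ EO o) (he : e ∈ EO o) :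
    f * e = e * f := by
  have h6 := sq_fixing_octad ho (mul_mem hf he : f * e ∈ EO o)
  have h7 : f * f = 1 := sq_fixing_octad ho hf
  have h8 : e * e = 1 := sq_fixing_octad ho he
  calc f * e = f * (f * e * (f * e)) * e := by rw [h6]; group
    _ = (f * f) * e * f * (e * e) := by group
    _ = e * f := by rw [h7, h8]; group

theorem smul_eq_of_fix {e : Equiv.Perm GolayPt} {T : Finset GolayPt} (h : ∀ p ∈ T, e p = p) : e • T = T := by
  apply Finset.eq_of_subset_of_card_le
  · intro q hq
    obtain ⟨p, hp, rfl⟩ := Finset.mem_smul_finset.1 hq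
    have : e • p = p := h p hp
    rw [this]; exact hp
  · rw [Finset.card_smul_finset]

theorem sextet_smul {S : Finset (Finset GolayPt)} (hS : S ∈ sextets) {e : Equiv.Perm GolayPt} (he : e ∈ M24)
    {T : Finset GolayPt} (hT : T ∈ S) (h : e • T = T) : e • S = S := by
  have h1 : e • S ∈ sextets := smul_mem_sextets he hS
  have h2 : T ∈ e • S := by rw [Finset.mem_smul_finset]; exact ⟨T, hT, h⟩
  rw [sextet_eq h1 h2, ← sextet_eq hS hT]

theorem mem_smul_of {e : Equiv.Perm GolayPt} {T : Finset GolayPt} {a : GolayPt} (ha : a ∈ T) : e a ∈ e • T :=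
  Finset.mem_smul_finset.2 ⟨a, ha, rfl⟩

theorem exists_e {z : Equiv.Perm GolayPt} (hz : z ∈ M24) (hz2 : z * z = 1) (hfix : ∀ p, z p ≠ p)
    {S : Finset (Finset GolayPt)} (hPS : PS z S) {T U : Finset GolayPt} (hT : T ∈ S) (hU : U ∈ S) (hne : T ≠ U) :
    ∃ e ∈ M24, e * z = z * e ∧ (∀ V ∈ S, e • V = V) ∧ fixF e = T ∪ U := by
  classical
  obtain ⟨hS, hinv⟩ := hPS
  have ho : T ∪ U ∈ octads := hS.2.2 T hT U hU hne
  obtain ⟨V, hV, hVT, hVU⟩ : ∃ V ∈ S, V ≠ T ∧ V ≠ U := by
    by_contra hcon
    push Not at hcon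
    have h1 : S ⊆ {T, U} := by
      intro W hW
      by_cases h : W = T
      · rw [h]; exact Finset.mem_insert_self _ _
      · rw [hcon W hW h]; exact Finset.mem_insert_of_mem (Finset.mem_singleton_self _)
    have h2 := Finset.card_le_card h1
    rw [hS.1] at h2
    have h3 := Finset.card_insert_le T {U}
    rw [Finset.card_singleton] at h3
    omega
  have hoff : ∀ W ∈ S, W ≠ T → W ≠ U → ∀ a ∈ W, a ∉ T ∪ U := by
    intro W hW h1 h2 a ha h3
    rcases Finset.mem_union.1 h3 with h | h
    · exact (Finset.disjoint_left.1 (sextet_disj hS hW hT h1)) ha h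
    · exact (Finset.disjoint_left.1 (sextet_disj hS hW hU h2)) ha h
  obtain ⟨a, ha⟩ : V.Nonempty := by rw [← Finset.card_pos, hS.2.1 V hV]; norm_num
  have hza : z a ∈ V := by
    have h := mem_smul_of (e := z) ha
    rwa [hinv V hV] at h
  have ha' := hoff V hV hVT hVU a ha
  have hza' := hoff V hV hVT hVU _ hza
  obtain ⟨e, he, hea⟩ := EO_trans ho ha' hza'
  have heM := (mem_EO.1 he).1
  have hne1 : e ≠ 1 := by
    rintro rfl
    exact hfix a hea.symm
  have heT : e • T = T := smul_eq_of_fix fun p hp => (mem_EO.1 he).2 p (Finset.mem_union_left _ hp)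
  have heS := sextet_smul hS heM hT heT
  have hmeet : ∀ {W W' : Finset GolayPt} {b : GolayPt}, W ∈ S → W' ∈ S → b ∈ W → b ∈ W' → W = W' := by
    intro W W' b hW hW' hb hb'
    by_contra h
    exact (Finset.disjoint_left.1 (sextet_disj hS hW hW' h)) hb hb'
  have heV : e • V = V := by
    have h1 : e • V ∈ S := by
      have h2 := Finset.smul_mem_smul_finset (a := e) hV
      rwa [heS] at h2
    exact hmeet h1 hV (by rw [← hea]; exact mem_smul_of ha) hza
  refine ⟨e, heM, ?_, ?_, fixF_EO ho he hne1⟩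
  · -- commutation
    have hzo : ∀ p ∈ T ∪ U, z⁻¹ p ∈ T ∪ U := by
      intro p hp
      have hzz : z⁻¹ = z := inv_eq_of_mul_eq_one_right hz2
      rw [hzz]
      rcases Finset.mem_union.1 hp with h | h
      · apply Finset.mem_union_left
        have h1 := mem_smul_of (e := z) h
        rwa [hinv T hT] at h1
      · apply Finset.mem_union_right
        have h1 := mem_smul_of (e := z) h
        rwa [hinv U hU] at h1
    have he' : z * e * z⁻¹ ∈ EO (T ∪ U) := by
      rw [mem_EO]
      refine ⟨mul_mem (mul_mem hz heM) (inv_mem hz), fun p hp => ?_⟩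
      change z (e (z⁻¹ p)) = p
      rw [(mem_EO.1 he).2 _ (hzo p hp)]
      exact z.apply_symm_apply p
    have h1 : (z * e * z⁻¹) (z a) = a := by
      change z (e (z⁻¹ (z a))) = a
      have h2 : z⁻¹ (z a) = a := z.symm_apply_apply a
      rw [h2, hea]
      exact congrArg (fun f : Equiv.Perm GolayPt => f a) hz2
    have h2 : e (z a) = a := by
      rw [← hea]
      have h3 : e * e = 1 := sq_fixing_octad ho he
      exact congrArg (fun f : Equiv.Perm GolayPt => f a) h3
    have h3 : e⁻¹ * (z * e * z⁻¹) = 1 := by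
      by_contra hcon
      have h4 := fixF_EO ho (mul_mem (inv_mem he) he') hcon
      apply hza'
      rw [← h4, mem_fixF]
      change e⁻¹ ((z * e * z⁻¹) (z a)) = z a
      rw [h1]
      exact (Equiv.symm_apply_eq e).2 h2.symm
    rw [inv_mul_eq_one] at h3
    nth_rewrite 1 [h3]; group
  · intro W hW
    by_cases hWT : W = T
    · rw [hWT]; exact heT
    by_cases hWU : W = U
    · rw [hWU]
      exact smul_eq_of_fix fun p hp => (mem_EO.1 he).2 p (Finset.mem_union_right _ hp)
    obtain ⟨w, hw⟩ : W.Nonempty := by rw [← Finset.card_pos, hS.2.1 W hW]; norm_num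
    obtain ⟨f, hf, hfa⟩ := EO_trans ho ha' (hoff W hW hWT hWU w hw)
    have hfT : f • T = T := smul_eq_of_fix fun p hp => (mem_EO.1 hf).2 p (Finset.mem_union_left _ hp)
    have hfS := sextet_smul hS (mem_EO.1 hf).1 hT hfT
    have hfV : f • V = W := by
      have h1 : f • V ∈ S := by
        have h2 := Finset.smul_mem_smul_finset (a := f) hV
        rwa [hfS] at h2
      exact hmeet h1 hW (by rw [← hfa]; exact mem_smul_of ha) hw
    rw [← hfV, ← mul_smul, EO_comm ho he hf, mul_smul, heV]

theorem isPGroup_of_primes {G : Type*} [Group G] [Finite G] {p : ℕ} (h : ∀ q : ℕ, q.Prime → q ∣ Nat.card G → q = p) :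
    IsPGroup p G :=
  IsPGroup.of_card (Nat.eq_prime_pow_of_unique_prime_dvd Nat.card_pos.ne' (fun {d} hd hdn => h d hd hdn))

/-- elements of odd prime order commuting with `z` and fixing all tetrads are trivial -/
theorem odd_trivial {z c : Equiv.Perm GolayPt} {r : ℕ} [hr : Fact r.Prime] (hr2 : r ≠ 2) (hz2 : orderOf z = 2) (hfix : ∀ p, z p ≠ p)
    {S : Finset (Finset GolayPt)} (hPS : PS z S) (hc : orderOf c = r) (hcz : c * z = z * c) (hcT : ∀ T ∈ S, c • T = T) : False := by
  classical
  haveI : Fact (Nat.Prime 2) := ⟨Nat.prime_two⟩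
  have h1 : c = 1 := by
    ext1 p
    obtain ⟨T, hT, hp⟩ := sextet_cover hPS.1 p
    have hcard := hPS.1.2.1 T hT
    have h1 := fix_mod hc T (fun a ha => by
      have h := mem_smul_of (e := c) ha
      rwa [hcT T hT] at h)
    have h2 := fix_mod hz2 (T ∩ fixF c) (fun a ha => by
      rw [Finset.mem_inter] at ha ⊢
      refine ⟨?_, ?_⟩
      · have h := mem_smul_of (e := z) ha.1
        rwa [hPS.2 T hT] at h
      · have h3 := mem_fixF.1 ha.2
        rw [mem_fixF]
        change (c * z) a = z a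
        rw [hcz]
        change z (c a) = z a
        rw [h3])
    have h3 : (T ∩ fixF c) ∩ fixF z = ∅ := by
      rw [Finset.eq_empty_iff_forall_notMem]
      intro a ha
      exact hfix a (mem_fixF.1 (Finset.mem_inter.1 ha).2)
    rw [h3, Finset.card_empty] at h2
    have h4 : (T ∩ fixF c).card ≤ T.card := Finset.card_le_card Finset.inter_subset_left
    rw [hcard] at h1 h4
    have h5 : (T ∩ fixF c).card = 4 := by
      have hr1 := hr.out.two_le
      generalize (T ∩ fixF c).card = n at *
      have h6 : r ∣ 4 - n := (Nat.modEq_iff_dvd' h4).1 h1.symm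
      unfold Nat.ModEq at h2
      interval_cases n
      · exfalso
        have : r ∣ 2 ^ 2 := h6
        exact hr2 ((Nat.prime_dvd_prime_iff_eq hr.out Nat.prime_two).1 (hr.out.dvd_of_dvd_pow this))
      · omega
      · exfalso
        exact hr2 ((Nat.prime_dvd_prime_iff_eq hr.out Nat.prime_two).1 h6)
      · omega
      · rfl
    have h6 : T ∩ fixF c = T := Finset.eq_of_subset_of_card_le Finset.inter_subset_left (by rw [h5, hcard])
    rw [← h6] at hp
    exact mem_fixF.1 (Finset.mem_inter.1 hp).2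
  rw [h1, orderOf_one] at hc
  exact hr.out.one_lt.ne hc

open Cfsg.Agent.H26.One in
theorem one_block_fpf {M : Ideal AlgInt} (hM : IsPModular 2 M) (z : M24) (hz : orderOf (z : Equiv.Perm GolayPt) = 2)
    (hfix : ∀ p, (z : Equiv.Perm GolayPt) p ≠ p)
    (_ : Fintype (Subgroup.centralizer ({z} : Set M24))) (χ ψ : IrrCharacter (Subgroup.centralizer ({z} : Set M24))) :
    SameBlock M (χ : (Subgroup.centralizer ({z} : Set M24)) → ℂ) (ψ : (Subgroup.centralizer ({z} : Set M24)) → ℂ) := by
  classical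
  let f : Subgroup.centralizer ({z} : Set M24) →* Equiv.Perm GolayPt := M24.subtype.comp (Subgroup.subtype _)
  have hf : Function.Injective f := fun a b h => Subtype.ext (Subtype.ext h)
  have hz2 := (orderOf_two hz).1
  obtain ⟨c, hc, hcz⟩ := class_B z.2 hz (by rw [card_zero_iff.2 hfix]; norm_num)
  obtain ⟨S0, hS0⟩ := PS_ex
  have hPS : PS (z : Equiv.Perm GolayPt) (c⁻¹ • S0) := by
    have h := PS_conj (inv_mem hc) hS0
    rw [← hcz] at h
    have e : c⁻¹ * (c * (z : Equiv.Perm GolayPt) * c⁻¹) * c⁻¹⁻¹ = z := by group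
    rwa [e] at h
  set S := c⁻¹ • S0 with hSdef
  have hun : ∀ S', PS (z : Equiv.Perm GolayPt) S' → S' = S := by
    intro S' h'
    have h1 := PS_conj hc h'
    have h2 := PS_conj hc hPS
    rw [hcz] at h1 h2
    have h3 := PS_un h1 h2
    exact smul_left_cancel c h3
  have hcomm : ∀ g : Subgroup.centralizer ({z} : Set M24), f g * (z : Equiv.Perm GolayPt) = z * f g := by
    intro g
    exact congrArg Subtype.val (Subgroup.mem_centralizer_singleton_iff.1 g.2)
  have hinvS : ∀ g : Subgroup.centralizer ({z} : Set M24), f g • S = S := by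
    intro g
    apply hun
    have h := PS_conj (c := f g) g.1.2 hPS
    have e : f g * (z : Equiv.Perm GolayPt) * (f g)⁻¹ = z := by rw [hcomm]; group
    rwa [e] at h
  let K : Subgroup (Subgroup.centralizer ({z} : Set M24)) :=
    { carrier := {g | ∀ T ∈ S, f g • T = T}
      one_mem' := fun T _ => by rw [map_one, one_smul]
      mul_mem' := fun {a b} ha hb T hT => by rw [map_mul, mul_smul, hb T hT, ha T hT]
      inv_mem' := fun {a} ha T hT => by rw [map_inv, inv_smul_eq_iff, ha T hT] }
  have hmemK : ∀ g, g ∈ K ↔ ∀ T ∈ S, f g • T = T := fun g => Iff.rfl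
  haveI hKn : K.Normal := by
    constructor
    intro n hn g
    rw [hmemK] at hn ⊢
    intro T hT
    have h1 : (f g)⁻¹ • T ∈ S := by
      have h2 := Finset.smul_mem_smul_finset (a := (f g)⁻¹) hT
      have h3 : (f g)⁻¹ • S = S := by rw [inv_smul_eq_iff, hinvS g]
      rwa [h3] at h2
    rw [map_mul, map_mul, map_inv, mul_smul, mul_smul, hn _ h1, smul_inv_smul]
  have hKp : IsPGroup 2 K := by
    apply isPGroup_of_primes
    intro q hq hqd
    by_contra hq2
    haveI : Fact q.Prime := ⟨hq⟩
    obtain ⟨⟨y, hy⟩, hyo⟩ := exists_prime_orderOf_dvd_card' q hqd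
    rw [Subgroup.orderOf_mk] at hyo
    refine odd_trivial (c := f y) (r := q) hq2 hz hfix hPS ?_ (hcomm y) hy
    rw [← hyo]
    exact orderOf_injective f hf y
  refine one_block_of_normal hM K hKp (hKp.to_le ?_) χ ψ
  intro g hg
  rw [hmemK]
  have hinv2 : ∀ T ∈ S, ∀ U ∈ S, T ≠ U → f g • (T ∪ U) = T ∪ U := by
    intro T hT U hU hne
    obtain ⟨e, he, hez, heK, hef⟩ := exists_e z.2 hz2 hfix hPS hT hU hne
    have h1 : (⟨e, he⟩ : M24) ∈ Subgroup.centralizer ({z} : Set M24) := by
      rw [Subgroup.mem_centralizer_singleton_iff]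
      exact Subtype.ext hez
    have h2 : (⟨⟨e, he⟩, h1⟩ : Subgroup.centralizer ({z} : Set M24)) ∈ K := heK
    have h3 := Subgroup.mem_centralizer_iff.1 hg _ h2
    have h4 := congrArg f h3
    rw [map_mul, map_mul] at h4
    have h5 : e * f g = f g * e := h4
    have h6 := fixF_conj (f g) e
    have h7 : f g * e * (f g)⁻¹ = e := by rw [← h5]; group
    rw [h7, hef] at h6
    exact h6.symm
  intro T hT
  by_contra hne
  have hTS : f g • T ∈ S := by
    have h2 := Finset.smul_mem_smul_finset (a := f g) hT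
    rwa [hinvS g] at h2
  obtain ⟨V, hV, hVT, hVU⟩ : ∃ V ∈ S, V ≠ T ∧ V ≠ f g • T := by
    by_contra hcon
    push Not at hcon
    have h1 : S ⊆ {T, f g • T} := by
      intro W hW
      by_cases h : W = T
      · rw [h]; exact Finset.mem_insert_self _ _
      · rw [hcon W hW h]; exact Finset.mem_insert_of_mem (Finset.mem_singleton_self _)
    have h2 := Finset.card_le_card h1
    rw [hPS.1.1] at h2
    have h3 := Finset.card_insert_le T {f g • T}
    rw [Finset.card_singleton] at h3
    omega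
  have h1 := hinv2 T hT V hV hVT.symm
  obtain ⟨a, ha⟩ : T.Nonempty := by rw [← Finset.card_pos, hPS.1.2.1 T hT]; norm_num
  have h2 : f g a ∈ T ∪ V := by
    rw [← h1]; exact mem_smul_of (Finset.mem_union_left _ ha)
  have h3 : f g a ∈ f g • T := mem_smul_of ha
  rcases Finset.mem_union.1 h2 with h | h
  · exact (Finset.disjoint_left.1 (sextet_disj hPS.1 hTS hT hne)) h3 h
  · exact (Finset.disjoint_left.1 (sextet_disj hPS.1 hV hTS hVU)) h h3

end Cfsg.Agent.H26.M24F
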