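import Cfsg.Statements.S5604
import Cfsg.Agent.H28_Cen
import Cfsg.Agent.H7_M24b

set_option autoImplicit false
open scoped Pointwise
open Cfsg

namespace Cfsg.Agent.S5604

open Cfsg.Agent.H7.Golay Cfsg.Agent.H7.Oct Cfsg.Agent.H7.M24 Cfsg.Agent.H28.Tree Cfsg.Agent.H28.Tree2 Cfsg.Agent.H28.Cls Cfsg.Agent.H28.Cen Cfsg.Agent.H28.Sxt Cfsg.Agent.H28.SxtOrb
open Cfsg.Agent.H14.M24Eng (invl comp powl has_fixK' rep_mul rep_inv rep_powl rep_one rep_eq_list)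
open scoped Pointwise

def l7 : List ℕ := [20, 13, 21, 4, 8, 15, 14, 2, 9, 16, 17, 11, 22, 7, 0, 3, 5, 23, 18, 19, 10, 12, 1, 6]
def tF : T2 := (.comm 0 (.comm 0 (.comm 0 (.comm 0 (.comm 0 (.comm 0 (.split 0 2048 (.sing 0 11 (.comm 0 (.bad 0))) (.split 0 262144 (.sing 0 18 (.comm 0 (.bad 0))) (.sing 0 19 (.comm 0 (.bad 0)))))))))))
def tI : T2 := (.split 0 1 (.sing 0 0 (.comm 0 (.comm 0 (.comm 0 (.comm 0 (.comm 0 (.comm 0 (.oct 528 528 148545 (.split 1 2 (.comm 0 (.comm 0 (.comm 0 (.comm 0 (.comm 0 (.comm 0 (.oct 506 690 4345857 (.bad 1)))))))) (.split 1 4 (.comm 0 (.comm 0 (.comm 0 (.comm 0 (.comm 0 (.comm 0 (.oct 506 510 4345857 (.bad 19)))))))) (.split 1 8 (.comm 0 (.comm 0 (.comm 0 (.comm 0 (.comm 0 (.comm 0 (.oct 506 564 4345857 (.bad 6)))))))) (.split 1 16 (.comm 0 (.comm 0 (.comm 0 (.comm 0 (.comm 0 (.comm 0 (.oct 506 538 4345857 (.bad 10)))))))) (.split 1 32 (.comm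 0 (.comm 0 (.comm 0 (.comm 0 (.comm 0 (.comm 0 (.oct 506 592 4345857 (.bad 2)))))))) (.split 1 128 (.comm 0 (.comm 0 (.comm 0 (.comm 0 (.comm 0 (.comm 0 (.oct 506 627 4345857 (.bad 2)))))))) (.split 1 256 (.comm 0 (.comm 0 (.comm 0 (.comm 0 (.comm 0 (.comm 0 (.oct 506 579 4345857 (.bad 13)))))))) (.split 1 512 (.comm 0 (.comm 0 (.comm 0 (.comm 0 (.comm 0 (.comm 0 (.oct 506 579 4345857 (.bad 1)))))))) (.split 1 2048 (.sing 1 11 (.comm 0 (.bad 1))) (.split 1 4096 (.comm 0 (.comm 0 (.comm 0 (.comm 0 (.comm 0 (.comm 0 (.oct 506 707 4345857 (.bad 10)))))))) (.split 1 8192 (.comm 0 (.comm 0 (.comm 0 (.comm 0 (.comm 0 (.comm 0 (.oct 210 475 5255172 (.bad 19)))))))) (.split 1 32768 (.comm 0 (.comm 0 (.comm 0 (.comm 0 (.comm 0 (.comm 0 (.oct 506 734 4345857 (.bad 19)))))))) (.split 1 65536 (.comm 0 (.comm 0 (.comm 0 (.comm 0 (.comm 0 (.comm 0 (.oct 210 122 5255172 (.bad 19))))))))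 (.split 1 262144 (.sing 1 18 (.comm 0 (.bad 1))) (.split 1 2097152 (.comm 0 (.comm 0 (.comm 0 (.comm 0 (.comm 0 (.comm 0 (.oct 506 564 4345857 (.bad 6)))))))) (.comm 0 (.comm 0 (.comm 0 (.comm 0 (.comm 0 (.comm 0 (.oct 506 690 4345857 (.bad 13))))))))))))))))))))))))))))))) (.split 0 2 (.sing 0 1 (.comm 0 (.comm 0 (.comm 0 (.comm 0 (.comm 0 (.comm 0 (.oct 528 459 148545 (.split 1 1 (.comm 0 (.comm 0 (.comm 0 (.comm 0 (.comm 0 (.comm 0 (.oct 506 332 4345857 (.bad 2)))))))) (.split 1 8 (.comm 0 (.comm 0 (.comm 0 (.comm 0 (.comm 0 (.comm 0 (.oct 506 712 4345857 (.bad 10)))))))) (.split 1 16 (.comm 0 (.comm 0 (.comm 0 (.comm 0 (.comm 0 (.comm 0 (.oct 506 416 4345857 (.bad 13)))))))) (.split 1 32 (.comm 0 (.comm 0 (.comm 0 (.comm 0 (.comm 0 (.comm 0 (.oct 506 424 4345857 (.bad 19)))))))) (.split 1 64 (.comm 0 (.comm 0 (.comm 0 (.comm 0 (.comm 0 (.comm 0 (.oct 506 695 4345857 (.bad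 1)))))))) (.split 1 256 (.comm 0 (.comm 0 (.comm 0 (.comm 0 (.comm 0 (.comm 0 (.oct 506 416 4345857 (.bad 1)))))))) (.split 1 512 (.comm 0 (.comm 0 (.comm 0 (.comm 0 (.comm 0 (.comm 0 (.oct 210 608 5255172 (.bad 19)))))))) (.split 1 1024 (.comm 0 (.comm 0 (.comm 0 (.comm 0 (.comm 0 (.comm 0 (.oct 506 442 4345857 (.bad 6)))))))) (.split 1 16384 (.comm 0 (.comm 0 (.comm 0 (.comm 0 (.comm 0 (.comm 0 (.oct 210 572 5255172 (.bad 19)))))))) (.split 1 32768 (.comm 0 (.comm 0 (.comm 0 (.comm 0 (.comm 0 (.comm 0 (.oct 506 442 4345857 (.bad 6)))))))) (.split 1 65536 (.comm 0 (.comm 0 (.comm 0 (.comm 0 (.comm 0 (.comm 0 (.oct 506 401 4345857 (.bad 2)))))))) (.split 1 131072 (.comm 0 (.comm 0 (.comm 0 (.comm 0 (.comm 0 (.comm 0 (.oct 506 350 4345857 (.bad 10)))))))) (.split 1 262144 (.sing 1 18 (.comm 0 (.bad 1))) (.split 1 524288 (.sing 1 19 (.comm 0 (.bad 1))) (.split 1 1048576 (.comm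 0 (.comm 0 (.comm 0 (.comm 0 (.comm 0 (.comm 0 (.oct 506 340 4345857 (.bad 19)))))))) (.comm 0 (.comm 0 (.comm 0 (.comm 0 (.comm 0 (.comm 0 (.oct 506 695 4345857 (.bad 13))))))))))))))))))))))))))))))) (.split 0 4 (.sing 0 2 (.comm 0 (.comm 0 (.comm 0 (.comm 0 (.comm 0 (.comm 0 (.oct 528 459 148545 (.split 1 1 (.comm 0 (.comm 0 (.comm 0 (.comm 0 (.comm 0 (.comm 0 (.oct 506 460 4345857 (.bad 13)))))))) (.split 1 8 (.comm 0 (.comm 0 (.comm 0 (.comm 0 (.comm 0 (.comm 0 (.oct 506 484 4345857 (.bad 2)))))))) (.split 1 16 (.comm 0 (.comm 0 (.comm 0 (.comm 0 (.comm 0 (.comm 0 (.oct 506 457 4345857 (.bad 19)))))))) (.split 1 32 (.comm 0 (.comm 0 (.comm 0 (.comm 0 (.comm 0 (.comm 0 (.oct 506 500 4345857 (.bad 1)))))))) (.split 1 64 (.comm 0 (.comm 0 (.comm 0 (.comm 0 (.comm 0 (.comm 0 (.oct 506 740 4345857 (.bad 6)))))))) (.split 1 256 (.comm 0 (.comm 0 (.comm 0 (.comm 0 (.comm 0 (.comm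 0 (.oct 506 740 4345857 (.bad 6)))))))) (.split 1 512 (.comm 0 (.comm 0 (.comm 0 (.comm 0 (.comm 0 (.comm 0 (.oct 506 469 4345857 (.bad 10)))))))) (.split 1 1024 (.comm 0 (.comm 0 (.comm 0 (.comm 0 (.comm 0 (.comm 0 (.oct 210 143 5255172 (.bad 19)))))))) (.split 1 16384 (.comm 0 (.comm 0 (.comm 0 (.comm 0 (.comm 0 (.comm 0 (.oct 506 754 4345857 (.bad 10)))))))) (.split 1 32768 (.comm 0 (.comm 0 (.comm 0 (.comm 0 (.comm 0 (.comm 0 (.oct 210 625 5255172 (.bad 19)))))))) (.split 1 65536 (.comm 0 (.comm 0 (.comm 0 (.comm 0 (.comm 0 (.comm 0 (.oct 506 500 4345857 (.bad 13)))))))) (.split 1 131072 (.comm 0 (.comm 0 (.comm 0 (.comm 0 (.comm 0 (.comm 0 (.oct 506 746 4345857 (.bad 2)))))))) (.split 1 262144 (.sing 1 18 (.comm 0 (.bad 1))) (.split 1 524288 (.sing 1 19 (.comm 0 (.bad 1))) (.split 1 1048576 (.comm 0 (.comm 0 (.comm 0 (.comm 0 (.comm 0 (.comm 0 (.oct 506 460 4345857 (.bad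 1)))))))) (.comm 0 (.comm 0 (.comm 0 (.comm 0 (.comm 0 (.comm 0 (.oct 506 476 4345857 (.bad 19))))))))))))))))))))))))))))))) (.split 0 8 (.sing 0 3 (.comm 0 (.comm 0 (.comm 0 (.comm 0 (.comm 0 (.comm 0 (.oct 528 205 148545 (.split 1 1 (.comm 0 (.comm 0 (.comm 0 (.comm 0 (.comm 0 (.comm 0 (.oct 506 203 4345857 (.bad 10)))))))) (.split 1 2 (.comm 0 (.comm 0 (.comm 0 (.comm 0 (.comm 0 (.comm 0 (.oct 506 619 4345857 (.bad 6)))))))) (.split 1 4 (.comm 0 (.comm 0 (.comm 0 (.comm 0 (.comm 0 (.comm 0 (.oct 506 318 4345857 (.bad 1)))))))) (.split 1 64 (.comm 0 (.comm 0 (.comm 0 (.comm 0 (.comm 0 (.comm 0 (.oct 506 678 4345857 (.bad 19)))))))) (.split 1 128 (.comm 0 (.comm 0 (.comm 0 (.comm 0 (.comm 0 (.comm 0 (.oct 506 318 4345857 (.bad 13)))))))) (.split 1 1024 (.comm 0 (.comm 0 (.comm 0 (.comm 0 (.comm 0 (.comm 0 (.oct 506 615 4345857 (.bad 1)))))))) (.split 1 2048 (.sing 1 11 (.comm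 0 (.bad 1))) (.split 1 4096 (.comm 0 (.comm 0 (.comm 0 (.comm 0 (.comm 0 (.comm 0 (.oct 506 443 4345857 (.bad 2)))))))) (.split 1 8192 (.comm 0 (.comm 0 (.comm 0 (.comm 0 (.comm 0 (.comm 0 (.oct 506 328 4345857 (.bad 10)))))))) (.split 1 16384 (.comm 0 (.comm 0 (.comm 0 (.comm 0 (.comm 0 (.comm 0 (.oct 506 619 4345857 (.bad 6)))))))) (.split 1 131072 (.comm 0 (.comm 0 (.comm 0 (.comm 0 (.comm 0 (.comm 0 (.oct 210 535 5255172 (.bad 19)))))))) (.split 1 524288 (.sing 1 19 (.comm 0 (.bad 1))) (.split 1 1048576 (.comm 0 (.comm 0 (.comm 0 (.comm 0 (.comm 0 (.comm 0 (.oct 506 615 4345857 (.bad 13)))))))) (.split 1 2097152 (.comm 0 (.comm 0 (.comm 0 (.comm 0 (.comm 0 (.comm 0 (.oct 210 210 5255172 (.bad 19)))))))) (.split 1 4194304 (.comm 0 (.comm 0 (.comm 0 (.comm 0 (.comm 0 (.comm 0 (.oct 506 438 4345857 (.bad 19)))))))) (.comm 0 (.comm 0 (.comm 0 (.comm 0 (.comm 0 (.comm 0 (.oct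 506 195 4345857 (.bad 2))))))))))))))))))))))))))))))) (.split 0 16 (.sing 0 4 (.comm 0 (.comm 0 (.comm 0 (.comm 0 (.comm 0 (.comm 0 (.oct 528 205 148545 (.split 1 1 (.comm 0 (.comm 0 (.comm 0 (.comm 0 (.comm 0 (.comm 0 (.oct 506 287 4345857 (.bad 6)))))))) (.split 1 2 (.comm 0 (.comm 0 (.comm 0 (.comm 0 (.comm 0 (.comm 0 (.oct 506 123 4345857 (.bad 19)))))))) (.split 1 4 (.comm 0 (.comm 0 (.comm 0 (.comm 0 (.comm 0 (.comm 0 (.oct 506 206 4345857 (.bad 13)))))))) (.split 1 64 (.comm 0 (.comm 0 (.comm 0 (.comm 0 (.comm 0 (.comm 0 (.oct 506 624 4345857 (.bad 2)))))))) (.split 1 128 (.comm 0 (.comm 0 (.comm 0 (.comm 0 (.comm 0 (.comm 0 (.oct 506 289 4345857 (.bad 10)))))))) (.split 1 1024 (.comm 0 (.comm 0 (.comm 0 (.comm 0 (.comm 0 (.comm 0 (.oct 506 208 4345857 (.bad 13)))))))) (.split 1 2048 (.sing 1 11 (.comm 0 (.bad 1))) (.split 1 4096 (.comm 0 (.comm 0 (.comm 0 (.comm 0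 (.comm 0 (.comm 0 (.oct 210 428 5255172 (.bad 19)))))))) (.split 1 8192 (.comm 0 (.comm 0 (.comm 0 (.comm 0 (.comm 0 (.comm 0 (.oct 506 287 4345857 (.bad 6)))))))) (.split 1 16384 (.comm 0 (.comm 0 (.comm 0 (.comm 0 (.comm 0 (.comm 0 (.oct 506 581 4345857 (.bad 19)))))))) (.split 1 131072 (.comm 0 (.comm 0 (.comm 0 (.comm 0 (.comm 0 (.comm 0 (.oct 506 208 4345857 (.bad 1)))))))) (.split 1 524288 (.sing 1 19 (.comm 0 (.bad 1))) (.split 1 1048576 (.comm 0 (.comm 0 (.comm 0 (.comm 0 (.comm 0 (.comm 0 (.oct 506 117 4345857 (.bad 10)))))))) (.split 1 2097152 (.comm 0 (.comm 0 (.comm 0 (.comm 0 (.comm 0 (.comm 0 (.oct 506 206 4345857 (.bad 1)))))))) (.split 1 4194304 (.comm 0 (.comm 0 (.comm 0 (.comm 0 (.comm 0 (.comm 0 (.oct 506 505 4345857 (.bad 2)))))))) (.comm 0 (.comm 0 (.comm 0 (.comm 0 (.comm 0 (.comm 0 (.oct 210 302 5255172 (.bad 19))))))))))))))))))))))))))))))) (.split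 0 32 (.sing 0 5 (.comm 0 (.comm 0 (.comm 0 (.comm 0 (.comm 0 (.comm 0 (.oct 528 205 148545 (.split 1 1 (.comm 0 (.comm 0 (.comm 0 (.comm 0 (.comm 0 (.comm 0 (.oct 506 555 4345857 (.bad 1)))))))) (.split 1 2 (.comm 0 (.comm 0 (.comm 0 (.comm 0 (.comm 0 (.comm 0 (.oct 506 253 4345857 (.bad 13)))))))) (.split 1 4 (.comm 0 (.comm 0 (.comm 0 (.comm 0 (.comm 0 (.comm 0 (.oct 506 368 4345857 (.bad 2)))))))) (.split 1 64 (.comm 0 (.comm 0 (.comm 0 (.comm 0 (.comm 0 (.comm 0 (.oct 506 649 4345857 (.bad 10)))))))) (.split 1 128 (.comm 0 (.comm 0 (.comm 0 (.comm 0 (.comm 0 (.comm 0 (.oct 210 212 5255172 (.bad 19)))))))) (.split 1 1024 (.comm 0 (.comm 0 (.comm 0 (.comm 0 (.comm 0 (.comm 0 (.oct 506 51 4345857 (.bad 2)))))))) (.split 1 2048 (.sing 1 11 (.comm 0 (.bad 1))) (.split 1 4096 (.comm 0 (.comm 0 (.comm 0 (.comm 0 (.comm 0 (.comm 0 (.oct 506 436 4345857 (.bad 6)))))))) (.split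 1 8192 (.comm 0 (.comm 0 (.comm 0 (.comm 0 (.comm 0 (.comm 0 (.oct 506 253 4345857 (.bad 1)))))))) (.split 1 16384 (.comm 0 (.comm 0 (.comm 0 (.comm 0 (.comm 0 (.comm 0 (.oct 506 555 4345857 (.bad 13)))))))) (.split 1 131072 (.comm 0 (.comm 0 (.comm 0 (.comm 0 (.comm 0 (.comm 0 (.oct 506 72 4345857 (.bad 19)))))))) (.split 1 524288 (.sing 1 19 (.comm 0 (.bad 1))) (.split 1 1048576 (.comm 0 (.comm 0 (.comm 0 (.comm 0 (.comm 0 (.comm 0 (.oct 210 745 5255172 (.bad 19)))))))) (.split 1 2097152 (.comm 0 (.comm 0 (.comm 0 (.comm 0 (.comm 0 (.comm 0 (.oct 506 545 4345857 (.bad 19)))))))) (.split 1 4194304 (.comm 0 (.comm 0 (.comm 0 (.comm 0 (.comm 0 (.comm 0 (.oct 506 370 4345857 (.bad 10)))))))) (.comm 0 (.comm 0 (.comm 0 (.comm 0 (.comm 0 (.comm 0 (.oct 506 436 4345857 (.bad 6))))))))))))))))))))))))))))))) (.split 0 64 (.sing 0 6 (.comm 0 (.comm 0 (.comm 0 (.comm 0 (.comm 0 (.comm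 0 (.oct 528 528 148545 (.split 1 2 (.comm 0 (.comm 0 (.comm 0 (.comm 0 (.comm 0 (.comm 0 (.oct 506 40 4345857 (.bad 2)))))))) (.split 1 4 (.comm 0 (.comm 0 (.comm 0 (.comm 0 (.comm 0 (.comm 0 (.oct 506 30 4345857 (.bad 10)))))))) (.split 1 8 (.comm 0 (.comm 0 (.comm 0 (.comm 0 (.comm 0 (.comm 0 (.oct 506 105 4345857 (.bad 13)))))))) (.split 1 16 (.comm 0 (.comm 0 (.comm 0 (.comm 0 (.comm 0 (.comm 0 (.oct 506 105 4345857 (.bad 1)))))))) (.split 1 32 (.comm 0 (.comm 0 (.comm 0 (.comm 0 (.comm 0 (.comm 0 (.oct 506 674 4345857 (.bad 6)))))))) (.split 1 128 (.comm 0 (.comm 0 (.comm 0 (.comm 0 (.comm 0 (.comm 0 (.oct 506 674 4345857 (.bad 6)))))))) (.split 1 256 (.comm 0 (.comm 0 (.comm 0 (.comm 0 (.comm 0 (.comm 0 (.oct 210 386 5255172 (.bad 19)))))))) (.split 1 512 (.comm 0 (.comm 0 (.comm 0 (.comm 0 (.comm 0 (.comm 0 (.oct 506 177 4345857 (.bad 2)))))))) (.split 1 2048 (.sing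 1 11 (.comm 0 (.bad 1))) (.split 1 4096 (.comm 0 (.comm 0 (.comm 0 (.comm 0 (.comm 0 (.comm 0 (.oct 506 464 4345857 (.bad 1)))))))) (.split 1 8192 (.comm 0 (.comm 0 (.comm 0 (.comm 0 (.comm 0 (.comm 0 (.oct 506 279 4345857 (.bad 19)))))))) (.split 1 32768 (.comm 0 (.comm 0 (.comm 0 (.comm 0 (.comm 0 (.comm 0 (.oct 506 445 4345857 (.bad 10)))))))) (.split 1 65536 (.comm 0 (.comm 0 (.comm 0 (.comm 0 (.comm 0 (.comm 0 (.oct 506 67 4345857 (.bad 19)))))))) (.split 1 262144 (.sing 1 18 (.comm 0 (.bad 1))) (.split 1 2097152 (.comm 0 (.comm 0 (.comm 0 (.comm 0 (.comm 0 (.comm 0 (.oct 506 464 4345857 (.bad 13)))))))) (.comm 0 (.comm 0 (.comm 0 (.comm 0 (.comm 0 (.comm 0 (.oct 210 493 5255172 (.bad 19))))))))))))))))))))))))))))))) (.split 0 128 (.sing 0 7 (.comm 0 (.comm 0 (.comm 0 (.comm 0 (.comm 0 (.comm 0 (.oct 528 459 148545 (.split 1 1 (.comm 0 (.comm 0 (.comm 0 (.comm 0 (.comm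 0 (.comm 0 (.oct 506 644 4345857 (.bad 1)))))))) (.split 1 8 (.comm 0 (.comm 0 (.comm 0 (.comm 0 (.comm 0 (.comm 0 (.oct 506 660 4345857 (.bad 19)))))))) (.split 1 16 (.comm 0 (.comm 0 (.comm 0 (.comm 0 (.comm 0 (.comm 0 (.oct 506 242 4345857 (.bad 6)))))))) (.split 1 32 (.comm 0 (.comm 0 (.comm 0 (.comm 0 (.comm 0 (.comm 0 (.oct 210 139 5255172 (.bad 19)))))))) (.split 1 64 (.comm 0 (.comm 0 (.comm 0 (.comm 0 (.comm 0 (.comm 0 (.oct 506 743 4345857 (.bad 10)))))))) (.split 1 256 (.comm 0 (.comm 0 (.comm 0 (.comm 0 (.comm 0 (.comm 0 (.oct 506 461 4345857 (.bad 10)))))))) (.split 1 512 (.comm 0 (.comm 0 (.comm 0 (.comm 0 (.comm 0 (.comm 0 (.oct 506 253 4345857 (.bad 13)))))))) (.split 1 1024 (.comm 0 (.comm 0 (.comm 0 (.comm 0 (.comm 0 (.comm 0 (.oct 506 222 4345857 (.bad 2)))))))) (.split 1 16384 (.comm 0 (.comm 0 (.comm 0 (.comm 0 (.comm 0 (.comm 0 (.oct 506 644 4345857 (.bad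 13)))))))) (.split 1 32768 (.comm 0 (.comm 0 (.comm 0 (.comm 0 (.comm 0 (.comm 0 (.oct 506 323 4345857 (.bad 2)))))))) (.split 1 65536 (.comm 0 (.comm 0 (.comm 0 (.comm 0 (.comm 0 (.comm 0 (.oct 506 253 4345857 (.bad 1)))))))) (.split 1 131072 (.comm 0 (.comm 0 (.comm 0 (.comm 0 (.comm 0 (.comm 0 (.oct 506 240 4345857 (.bad 19)))))))) (.split 1 262144 (.sing 1 18 (.comm 0 (.bad 1))) (.split 1 524288 (.sing 1 19 (.comm 0 (.bad 1))) (.split 1 1048576 (.comm 0 (.comm 0 (.comm 0 (.comm 0 (.comm 0 (.comm 0 (.oct 210 531 5255172 (.bad 19)))))))) (.comm 0 (.comm 0 (.comm 0 (.comm 0 (.comm 0 (.comm 0 (.oct 506 242 4345857 (.bad 6))))))))))))))))))))))))))))))) (.split 0 256 (.sing 0 8 (.comm 0 (.comm 0 (.comm 0 (.comm 0 (.comm 0 (.comm 0 (.oct 528 205 148545 (.split 1 1 (.comm 0 (.comm 0 (.comm 0 (.comm 0 (.comm 0 (.comm 0 (.oct 506 12 4345857 (.bad 19)))))))) (.split 1 2 (.comm 0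 (.comm 0 (.comm 0 (.comm 0 (.comm 0 (.comm 0 (.oct 506 97 4345857 (.bad 2)))))))) (.split 1 4 (.comm 0 (.comm 0 (.comm 0 (.comm 0 (.comm 0 (.comm 0 (.oct 506 140 4345857 (.bad 10)))))))) (.split 1 64 (.comm 0 (.comm 0 (.comm 0 (.comm 0 (.comm 0 (.comm 0 (.oct 210 711 5255172 (.bad 19)))))))) (.split 1 128 (.comm 0 (.comm 0 (.comm 0 (.comm 0 (.comm 0 (.comm 0 (.oct 506 220 4345857 (.bad 6)))))))) (.split 1 1024 (.comm 0 (.comm 0 (.comm 0 (.comm 0 (.comm 0 (.comm 0 (.oct 506 417 4345857 (.bad 10)))))))) (.split 1 2048 (.sing 1 11 (.comm 0 (.bad 1))) (.split 1 4096 (.comm 0 (.comm 0 (.comm 0 (.comm 0 (.comm 0 (.comm 0 (.oct 506 481 4345857 (.bad 1)))))))) (.split 1 8192 (.comm 0 (.comm 0 (.comm 0 (.comm 0 (.comm 0 (.comm 0 (.oct 506 230 4345857 (.bad 19)))))))) (.split 1 16384 (.comm 0 (.comm 0 (.comm 0 (.comm 0 (.comm 0 (.comm 0 (.oct 506 565 4345857 (.bad 2)))))))) (.split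 1 131072 (.comm 0 (.comm 0 (.comm 0 (.comm 0 (.comm 0 (.comm 0 (.oct 506 105 4345857 (.bad 13)))))))) (.split 1 524288 (.sing 1 19 (.comm 0 (.bad 1))) (.split 1 1048576 (.comm 0 (.comm 0 (.comm 0 (.comm 0 (.comm 0 (.comm 0 (.oct 506 220 4345857 (.bad 6)))))))) (.split 1 2097152 (.comm 0 (.comm 0 (.comm 0 (.comm 0 (.comm 0 (.comm 0 (.oct 506 481 4345857 (.bad 13)))))))) (.split 1 4194304 (.comm 0 (.comm 0 (.comm 0 (.comm 0 (.comm 0 (.comm 0 (.oct 210 478 5255172 (.bad 19)))))))) (.comm 0 (.comm 0 (.comm 0 (.comm 0 (.comm 0 (.comm 0 (.oct 506 105 4345857 (.bad 1))))))))))))))))))))))))))))))) (.split 0 512 (.sing 0 9 (.comm 0 (.comm 0 (.comm 0 (.comm 0 (.comm 0 (.comm 0 (.oct 528 205 148545 (.split 1 1 (.comm 0 (.comm 0 (.comm 0 (.comm 0 (.comm 0 (.comm 0 (.oct 506 141 4345857 (.bad 2)))))))) (.split 1 2 (.comm 0 (.comm 0 (.comm 0 (.comm 0 (.comm 0 (.comm 0 (.oct 210 524 5255172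 (.bad 19)))))))) (.split 1 4 (.comm 0 (.comm 0 (.comm 0 (.comm 0 (.comm 0 (.comm 0 (.oct 506 166 4345857 (.bad 6)))))))) (.split 1 64 (.comm 0 (.comm 0 (.comm 0 (.comm 0 (.comm 0 (.comm 0 (.oct 506 602 4345857 (.bad 1)))))))) (.split 1 128 (.comm 0 (.comm 0 (.comm 0 (.comm 0 (.comm 0 (.comm 0 (.oct 506 304 4345857 (.bad 19)))))))) (.split 1 1024 (.comm 0 (.comm 0 (.comm 0 (.comm 0 (.comm 0 (.comm 0 (.oct 506 166 4345857 (.bad 6)))))))) (.split 1 2048 (.sing 1 11 (.comm 0 (.bad 1))) (.split 1 4096 (.comm 0 (.comm 0 (.comm 0 (.comm 0 (.comm 0 (.comm 0 (.oct 506 416 4345857 (.bad 13)))))))) (.split 1 8192 (.comm 0 (.comm 0 (.comm 0 (.comm 0 (.comm 0 (.comm 0 (.oct 506 301 4345857 (.bad 2)))))))) (.split 1 16384 (.comm 0 (.comm 0 (.comm 0 (.comm 0 (.comm 0 (.comm 0 (.oct 210 532 5255172 (.bad 19)))))))) (.split 1 131072 (.comm 0 (.comm 0 (.comm 0 (.comm 0 (.comm 0 (.comm 0 (.oct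 506 198 4345857 (.bad 10)))))))) (.split 1 524288 (.sing 1 19 (.comm 0 (.bad 1))) (.split 1 1048576 (.comm 0 (.comm 0 (.comm 0 (.comm 0 (.comm 0 (.comm 0 (.oct 506 135 4345857 (.bad 19)))))))) (.split 1 2097152 (.comm 0 (.comm 0 (.comm 0 (.comm 0 (.comm 0 (.comm 0 (.oct 506 617 4345857 (.bad 10)))))))) (.split 1 4194304 (.comm 0 (.comm 0 (.comm 0 (.comm 0 (.comm 0 (.comm 0 (.oct 506 416 4345857 (.bad 1)))))))) (.comm 0 (.comm 0 (.comm 0 (.comm 0 (.comm 0 (.comm 0 (.oct 506 602 4345857 (.bad 13))))))))))))))))))))))))))))))) (.split 0 1024 (.sing 0 10 (.comm 0 (.comm 0 (.comm 0 (.comm 0 (.comm 0 (.comm 0 (.oct 528 528 148545 (.split 1 2 (.comm 0 (.comm 0 (.comm 0 (.comm 0 (.comm 0 (.comm 0 (.oct 506 596 4345857 (.bad 10)))))))) (.split 1 4 (.comm 0 (.comm 0 (.comm 0 (.comm 0 (.comm 0 (.comm 0 (.oct 210 418 5255172 (.bad 19)))))))) (.split 1 8 (.comm 0 (.comm 0 (.comm 0 (.comm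 0 (.comm 0 (.comm 0 (.oct 506 88 4345857 (.bad 2)))))))) (.split 1 16 (.comm 0 (.comm 0 (.comm 0 (.comm 0 (.comm 0 (.comm 0 (.oct 506 24 4345857 (.bad 19)))))))) (.split 1 32 (.comm 0 (.comm 0 (.comm 0 (.comm 0 (.comm 0 (.comm 0 (.oct 506 168 4345857 (.bad 1)))))))) (.split 1 128 (.comm 0 (.comm 0 (.comm 0 (.comm 0 (.comm 0 (.comm 0 (.oct 506 460 4345857 (.bad 1)))))))) (.split 1 256 (.comm 0 (.comm 0 (.comm 0 (.comm 0 (.comm 0 (.comm 0 (.oct 506 336 4345857 (.bad 6)))))))) (.split 1 512 (.comm 0 (.comm 0 (.comm 0 (.comm 0 (.comm 0 (.comm 0 (.oct 506 542 4345857 (.bad 10)))))))) (.split 1 2048 (.sing 1 11 (.comm 0 (.bad 1))) (.split 1 4096 (.comm 0 (.comm 0 (.comm 0 (.comm 0 (.comm 0 (.comm 0 (.oct 506 364 4345857 (.bad 19)))))))) (.split 1 8192 (.comm 0 (.comm 0 (.comm 0 (.comm 0 (.comm 0 (.comm 0 (.oct 506 460 4345857 (.bad 13)))))))) (.split 1 32768 (.comm 0 (.comm 0 (.comm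 0 (.comm 0 (.comm 0 (.comm 0 (.oct 210 204 5255172 (.bad 19)))))))) (.split 1 65536 (.comm 0 (.comm 0 (.comm 0 (.comm 0 (.comm 0 (.comm 0 (.oct 506 168 4345857 (.bad 13)))))))) (.split 1 262144 (.sing 1 18 (.comm 0 (.bad 1))) (.split 1 2097152 (.comm 0 (.comm 0 (.comm 0 (.comm 0 (.comm 0 (.comm 0 (.oct 506 2 4345857 (.bad 2)))))))) (.comm 0 (.comm 0 (.comm 0 (.comm 0 (.comm 0 (.comm 0 (.oct 506 336 4345857 (.bad 6))))))))))))))))))))))))))))))) (.split 0 2048 (.sing 0 11 (.comm 0 (.bad 0))) (.split 0 4096 (.sing 0 12 (.comm 0 (.comm 0 (.comm 0 (.comm 0 (.comm 0 (.comm 0 (.oct 528 459 148545 (.split 1 1 (.comm 0 (.comm 0 (.comm 0 (.comm 0 (.comm 0 (.comm 0 (.oct 506 373 4345857 (.bad 6)))))))) (.split 1 8 (.comm 0 (.comm 0 (.comm 0 (.comm 0 (.comm 0 (.comm 0 (.oct 506 206 4345857 (.bad 1)))))))) (.split 1 16 (.comm 0 (.comm 0 (.comm 0 (.comm 0 (.comm 0 (.comm 0 (.oct 210 179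 5255172 (.bad 19)))))))) (.split 1 32 (.comm 0 (.comm 0 (.comm 0 (.comm 0 (.comm 0 (.comm 0 (.oct 506 307 4345857 (.bad 10)))))))) (.split 1 64 (.comm 0 (.comm 0 (.comm 0 (.comm 0 (.comm 0 (.comm 0 (.oct 506 520 4345857 (.bad 2)))))))) (.split 1 256 (.comm 0 (.comm 0 (.comm 0 (.comm 0 (.comm 0 (.comm 0 (.oct 506 16 4345857 (.bad 2)))))))) (.split 1 512 (.comm 0 (.comm 0 (.comm 0 (.comm 0 (.comm 0 (.comm 0 (.oct 506 58 4345857 (.bad 19)))))))) (.split 1 1024 (.comm 0 (.comm 0 (.comm 0 (.comm 0 (.comm 0 (.comm 0 (.oct 506 37 4345857 (.bad 13)))))))) (.split 1 16384 (.comm 0 (.comm 0 (.comm 0 (.comm 0 (.comm 0 (.comm 0 (.oct 506 595 4345857 (.bad 19)))))))) (.split 1 32768 (.comm 0 (.comm 0 (.comm 0 (.comm 0 (.comm 0 (.comm 0 (.oct 506 206 4345857 (.bad 13)))))))) (.split 1 65536 (.comm 0 (.comm 0 (.comm 0 (.comm 0 (.comm 0 (.comm 0 (.oct 506 373 4345857 (.bad 6)))))))) (.split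 1 131072 (.comm 0 (.comm 0 (.comm 0 (.comm 0 (.comm 0 (.comm 0 (.oct 506 37 4345857 (.bad 1)))))))) (.split 1 262144 (.sing 1 18 (.comm 0 (.bad 1))) (.split 1 524288 (.sing 1 19 (.comm 0 (.bad 1))) (.split 1 1048576 (.comm 0 (.comm 0 (.comm 0 (.comm 0 (.comm 0 (.comm 0 (.oct 506 229 4345857 (.bad 10)))))))) (.comm 0 (.comm 0 (.comm 0 (.comm 0 (.comm 0 (.comm 0 (.oct 210 32 5255172 (.bad 19))))))))))))))))))))))))))))))) (.split 0 8192 (.sing 0 13 (.comm 0 (.comm 0 (.comm 0 (.comm 0 (.comm 0 (.comm 0 (.oct 528 459 148545 (.split 1 1 (.comm 0 (.comm 0 (.comm 0 (.comm 0 (.comm 0 (.comm 0 (.oct 210 369 5255172 (.bad 19)))))))) (.split 1 8 (.comm 0 (.comm 0 (.comm 0 (.comm 0 (.comm 0 (.comm 0 (.oct 506 280 4345857 (.bad 6)))))))) (.split 1 16 (.comm 0 (.comm 0 (.comm 0 (.comm 0 (.comm 0 (.comm 0 (.oct 506 23 4345857 (.bad 10)))))))) (.split 1 32 (.comm 0 (.comm 0 (.comm 0 (.comm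 0 (.comm 0 (.comm 0 (.oct 506 422 4345857 (.bad 2)))))))) (.split 1 64 (.comm 0 (.comm 0 (.comm 0 (.comm 0 (.comm 0 (.comm 0 (.oct 506 690 4345857 (.bad 13)))))))) (.split 1 256 (.comm 0 (.comm 0 (.comm 0 (.comm 0 (.comm 0 (.comm 0 (.oct 506 406 4345857 (.bad 13)))))))) (.split 1 512 (.comm 0 (.comm 0 (.comm 0 (.comm 0 (.comm 0 (.comm 0 (.oct 506 406 4345857 (.bad 1)))))))) (.split 1 1024 (.comm 0 (.comm 0 (.comm 0 (.comm 0 (.comm 0 (.comm 0 (.oct 506 17 4345857 (.bad 19)))))))) (.split 1 16384 (.comm 0 (.comm 0 (.comm 0 (.comm 0 (.comm 0 (.comm 0 (.oct 506 690 4345857 (.bad 1)))))))) (.split 1 32768 (.comm 0 (.comm 0 (.comm 0 (.comm 0 (.comm 0 (.comm 0 (.oct 506 190 4345857 (.bad 19)))))))) (.split 1 65536 (.comm 0 (.comm 0 (.comm 0 (.comm 0 (.comm 0 (.comm 0 (.oct 210 408 5255172 (.bad 19)))))))) (.split 1 131072 (.comm 0 (.comm 0 (.comm 0 (.comm 0 (.comm 0 (.comm 0 (.oct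 506 280 4345857 (.bad 6)))))))) (.split 1 262144 (.sing 1 18 (.comm 0 (.bad 1))) (.split 1 524288 (.sing 1 19 (.comm 0 (.bad 1))) (.split 1 1048576 (.comm 0 (.comm 0 (.comm 0 (.comm 0 (.comm 0 (.comm 0 (.oct 506 359 4345857 (.bad 2)))))))) (.comm 0 (.comm 0 (.comm 0 (.comm 0 (.comm 0 (.comm 0 (.oct 506 74 4345857 (.bad 10))))))))))))))))))))))))))))))) (.split 0 16384 (.sing 0 14 (.comm 0 (.comm 0 (.comm 0 (.comm 0 (.comm 0 (.comm 0 (.oct 528 528 148545 (.split 1 2 (.comm 0 (.comm 0 (.comm 0 (.comm 0 (.comm 0 (.comm 0 (.oct 210 106 5255172 (.bad 19)))))))) (.split 1 4 (.comm 0 (.comm 0 (.comm 0 (.comm 0 (.comm 0 (.comm 0 (.oct 506 614 4345857 (.bad 6)))))))) (.split 1 8 (.comm 0 (.comm 0 (.comm 0 (.comm 0 (.comm 0 (.comm 0 (.oct 506 563 4345857 (.bad 10)))))))) (.split 1 16 (.comm 0 (.comm 0 (.comm 0 (.comm 0 (.comm 0 (.comm 0 (.oct 506 602 4345857 (.bad 13)))))))) (.split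 1 32 (.comm 0 (.comm 0 (.comm 0 (.comm 0 (.comm 0 (.comm 0 (.oct 506 587 4345857 (.bad 19)))))))) (.split 1 128 (.comm 0 (.comm 0 (.comm 0 (.comm 0 (.comm 0 (.comm 0 (.oct 506 632 4345857 (.bad 19)))))))) (.split 1 256 (.comm 0 (.comm 0 (.comm 0 (.comm 0 (.comm 0 (.comm 0 (.oct 506 602 4345857 (.bad 1)))))))) (.split 1 512 (.comm 0 (.comm 0 (.comm 0 (.comm 0 (.comm 0 (.comm 0 (.oct 210 178 5255172 (.bad 19)))))))) (.split 1 2048 (.sing 1 11 (.comm 0 (.bad 1))) (.split 1 4096 (.comm 0 (.comm 0 (.comm 0 (.comm 0 (.comm 0 (.comm 0 (.oct 506 695 4345857 (.bad 13)))))))) (.split 1 8192 (.comm 0 (.comm 0 (.comm 0 (.comm 0 (.comm 0 (.comm 0 (.oct 506 643 4345857 (.bad 2)))))))) (.split 1 32768 (.comm 0 (.comm 0 (.comm 0 (.comm 0 (.comm 0 (.comm 0 (.oct 506 614 4345857 (.bad 6)))))))) (.split 1 65536 (.comm 0 (.comm 0 (.comm 0 (.comm 0 (.comm 0 (.comm 0 (.oct 506 583 4345857 (.bad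 2)))))))) (.split 1 262144 (.sing 1 18 (.comm 0 (.bad 1))) (.split 1 2097152 (.comm 0 (.comm 0 (.comm 0 (.comm 0 (.comm 0 (.comm 0 (.oct 506 506 4345857 (.bad 10)))))))) (.comm 0 (.comm 0 (.comm 0 (.comm 0 (.comm 0 (.comm 0 (.oct 506 695 4345857 (.bad 1))))))))))))))))))))))))))))))) (.split 0 32768 (.sing 0 15 (.comm 0 (.comm 0 (.comm 0 (.comm 0 (.comm 0 (.comm 0 (.oct 528 205 148545 (.split 1 1 (.comm 0 (.comm 0 (.comm 0 (.comm 0 (.comm 0 (.comm 0 (.oct 506 168 4345857 (.bad 13)))))))) (.split 1 2 (.comm 0 (.comm 0 (.comm 0 (.comm 0 (.comm 0 (.comm 0 (.oct 506 146 4345857 (.bad 10)))))))) (.split 1 4 (.comm 0 (.comm 0 (.comm 0 (.comm 0 (.comm 0 (.comm 0 (.oct 210 706 5255172 (.bad 19)))))))) (.split 1 64 (.comm 0 (.comm 0 (.comm 0 (.comm 0 (.comm 0 (.comm 0 (.oct 506 735 4345857 (.bad 6)))))))) (.split 1 128 (.comm 0 (.comm 0 (.comm 0 (.comm 0 (.comm 0 (.comm 0 (.oct 506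 500 4345857 (.bad 1)))))))) (.split 1 1024 (.comm 0 (.comm 0 (.comm 0 (.comm 0 (.comm 0 (.comm 0 (.oct 210 45 5255172 (.bad 19)))))))) (.split 1 2048 (.sing 1 11 (.comm 0 (.bad 1))) (.split 1 4096 (.comm 0 (.comm 0 (.comm 0 (.comm 0 (.comm 0 (.comm 0 (.oct 506 413 4345857 (.bad 19)))))))) (.split 1 8192 (.comm 0 (.comm 0 (.comm 0 (.comm 0 (.comm 0 (.comm 0 (.oct 506 500 4345857 (.bad 13)))))))) (.split 1 16384 (.comm 0 (.comm 0 (.comm 0 (.comm 0 (.comm 0 (.comm 0 (.oct 506 590 4345857 (.bad 10)))))))) (.split 1 131072 (.comm 0 (.comm 0 (.comm 0 (.comm 0 (.comm 0 (.comm 0 (.oct 506 613 4345857 (.bad 2)))))))) (.split 1 524288 (.sing 1 19 (.comm 0 (.bad 1))) (.split 1 1048576 (.comm 0 (.comm 0 (.comm 0 (.comm 0 (.comm 0 (.comm 0 (.oct 506 168 4345857 (.bad 1)))))))) (.split 1 2097152 (.comm 0 (.comm 0 (.comm 0 (.comm 0 (.comm 0 (.comm 0 (.oct 506 167 4345857 (.bad 2))))))))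 (.split 1 4194304 (.comm 0 (.comm 0 (.comm 0 (.comm 0 (.comm 0 (.comm 0 (.oct 506 735 4345857 (.bad 6)))))))) (.comm 0 (.comm 0 (.comm 0 (.comm 0 (.comm 0 (.comm 0 (.oct 506 159 4345857 (.bad 19))))))))))))))))))))))))))))))) (.split 0 65536 (.sing 0 16 (.comm 0 (.comm 0 (.comm 0 (.comm 0 (.comm 0 (.comm 0 (.oct 528 205 148545 (.split 1 1 (.comm 0 (.comm 0 (.comm 0 (.comm 0 (.comm 0 (.comm 0 (.oct 210 18 5255172 (.bad 19)))))))) (.split 1 2 (.comm 0 (.comm 0 (.comm 0 (.comm 0 (.comm 0 (.comm 0 (.oct 506 406 4345857 (.bad 1)))))))) (.split 1 4 (.comm 0 (.comm 0 (.comm 0 (.comm 0 (.comm 0 (.comm 0 (.oct 506 111 4345857 (.bad 19)))))))) (.split 1 64 (.comm 0 (.comm 0 (.comm 0 (.comm 0 (.comm 0 (.comm 0 (.oct 506 579 4345857 (.bad 13)))))))) (.split 1 128 (.comm 0 (.comm 0 (.comm 0 (.comm 0 (.comm 0 (.comm 0 (.oct 506 284 4345857 (.bad 2)))))))) (.split 1 1024 (.comm 0 (.comm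 0 (.comm 0 (.comm 0 (.comm 0 (.comm 0 (.oct 506 402 4345857 (.bad 19)))))))) (.split 1 2048 (.sing 1 11 (.comm 0 (.bad 1))) (.split 1 4096 (.comm 0 (.comm 0 (.comm 0 (.comm 0 (.comm 0 (.comm 0 (.oct 506 403 4345857 (.bad 10)))))))) (.split 1 8192 (.comm 0 (.comm 0 (.comm 0 (.comm 0 (.comm 0 (.comm 0 (.oct 210 467 5255172 (.bad 19)))))))) (.split 1 16384 (.comm 0 (.comm 0 (.comm 0 (.comm 0 (.comm 0 (.comm 0 (.oct 506 579 4345857 (.bad 1)))))))) (.split 1 131072 (.comm 0 (.comm 0 (.comm 0 (.comm 0 (.comm 0 (.comm 0 (.oct 506 124 4345857 (.bad 6)))))))) (.split 1 524288 (.sing 1 19 (.comm 0 (.bad 1))) (.split 1 1048576 (.comm 0 (.comm 0 (.comm 0 (.comm 0 (.comm 0 (.comm 0 (.oct 506 127 4345857 (.bad 2)))))))) (.split 1 2097152 (.comm 0 (.comm 0 (.comm 0 (.comm 0 (.comm 0 (.comm 0 (.oct 506 124 4345857 (.bad 6)))))))) (.split 1 4194304 (.comm 0 (.comm 0 (.comm 0 (.comm 0 (.comm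 0 (.comm 0 (.oct 506 406 4345857 (.bad 13)))))))) (.comm 0 (.comm 0 (.comm 0 (.comm 0 (.comm 0 (.comm 0 (.oct 506 129 4345857 (.bad 10))))))))))))))))))))))))))))))) (.split 0 131072 (.sing 0 17 (.comm 0 (.comm 0 (.comm 0 (.comm 0 (.comm 0 (.comm 0 (.oct 528 528 148545 (.split 1 2 (.comm 0 (.comm 0 (.comm 0 (.comm 0 (.comm 0 (.comm 0 (.oct 506 556 4345857 (.bad 6)))))))) (.split 1 4 (.comm 0 (.comm 0 (.comm 0 (.comm 0 (.comm 0 (.comm 0 (.oct 506 628 4345857 (.bad 1)))))))) (.split 1 8 (.comm 0 (.comm 0 (.comm 0 (.comm 0 (.comm 0 (.comm 0 (.oct 210 95 5255172 (.bad 19)))))))) (.split 1 16 (.comm 0 (.comm 0 (.comm 0 (.comm 0 (.comm 0 (.comm 0 (.oct 506 546 4345857 (.bad 2)))))))) (.split 1 32 (.comm 0 (.comm 0 (.comm 0 (.comm 0 (.comm 0 (.comm 0 (.oct 506 615 4345857 (.bad 13)))))))) (.split 1 128 (.comm 0 (.comm 0 (.comm 0 (.comm 0 (.comm 0 (.comm 0 (.oct 506 628 4345857 (.bad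 13)))))))) (.split 1 256 (.comm 0 (.comm 0 (.comm 0 (.comm 0 (.comm 0 (.comm 0 (.oct 506 631 4345857 (.bad 19)))))))) (.split 1 512 (.comm 0 (.comm 0 (.comm 0 (.comm 0 (.comm 0 (.comm 0 (.oct 506 556 4345857 (.bad 6)))))))) (.split 1 2048 (.sing 1 11 (.comm 0 (.bad 1))) (.split 1 4096 (.comm 0 (.comm 0 (.comm 0 (.comm 0 (.comm 0 (.comm 0 (.oct 506 692 4345857 (.bad 2)))))))) (.split 1 8192 (.comm 0 (.comm 0 (.comm 0 (.comm 0 (.comm 0 (.comm 0 (.oct 506 659 4345857 (.bad 10)))))))) (.split 1 32768 (.comm 0 (.comm 0 (.comm 0 (.comm 0 (.comm 0 (.comm 0 (.oct 506 615 4345857 (.bad 1)))))))) (.split 1 65536 (.comm 0 (.comm 0 (.comm 0 (.comm 0 (.comm 0 (.comm 0 (.oct 506 540 4345857 (.bad 10)))))))) (.split 1 262144 (.sing 1 18 (.comm 0 (.bad 1))) (.split 1 2097152 (.comm 0 (.comm 0 (.comm 0 (.comm 0 (.comm 0 (.comm 0 (.oct 210 282 5255172 (.bad 19)))))))) (.comm 0 (.comm 0 (.comm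 0 (.comm 0 (.comm 0 (.comm 0 (.oct 506 682 4345857 (.bad 19))))))))))))))))))))))))))))))) (.split 0 262144 (.sing 0 18 (.comm 0 (.bad 0))) (.split 0 524288 (.sing 0 19 (.comm 0 (.bad 0))) (.split 0 1048576 (.sing 0 20 (.comm 0 (.comm 0 (.comm 0 (.comm 0 (.comm 0 (.comm 0 (.oct 528 528 148545 (.split 1 2 (.comm 0 (.comm 0 (.comm 0 (.comm 0 (.comm 0 (.comm 0 (.oct 506 644 4345857 (.bad 13)))))))) (.split 1 4 (.comm 0 (.comm 0 (.comm 0 (.comm 0 (.comm 0 (.comm 0 (.oct 506 697 4345857 (.bad 2)))))))) (.split 1 8 (.comm 0 (.comm 0 (.comm 0 (.comm 0 (.comm 0 (.comm 0 (.oct 506 103 4345857 (.bad 19)))))))) (.split 1 16 (.comm 0 (.comm 0 (.comm 0 (.comm 0 (.comm 0 (.comm 0 (.oct 506 357 4345857 (.bad 6)))))))) (.split 1 32 (.comm 0 (.comm 0 (.comm 0 (.comm 0 (.comm 0 (.comm 0 (.oct 210 755 5255172 (.bad 19)))))))) (.split 1 128 (.comm 0 (.comm 0 (.comm 0 (.comm 0 (.comm 0 (.comm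 0 (.oct 210 630 5255172 (.bad 19)))))))) (.split 1 256 (.comm 0 (.comm 0 (.comm 0 (.comm 0 (.comm 0 (.comm 0 (.oct 506 236 4345857 (.bad 10)))))))) (.split 1 512 (.comm 0 (.comm 0 (.comm 0 (.comm 0 (.comm 0 (.comm 0 (.oct 506 555 4345857 (.bad 13)))))))) (.split 1 2048 (.sing 1 11 (.comm 0 (.bad 1))) (.split 1 4096 (.comm 0 (.comm 0 (.comm 0 (.comm 0 (.comm 0 (.comm 0 (.oct 506 357 4345857 (.bad 6)))))))) (.split 1 8192 (.comm 0 (.comm 0 (.comm 0 (.comm 0 (.comm 0 (.comm 0 (.oct 506 644 4345857 (.bad 1)))))))) (.split 1 32768 (.comm 0 (.comm 0 (.comm 0 (.comm 0 (.comm 0 (.comm 0 (.oct 506 620 4345857 (.bad 2)))))))) (.split 1 65536 (.comm 0 (.comm 0 (.comm 0 (.comm 0 (.comm 0 (.comm 0 (.oct 506 555 4345857 (.bad 1)))))))) (.split 1 262144 (.sing 1 18 (.comm 0 (.bad 1))) (.split 1 2097152 (.comm 0 (.comm 0 (.comm 0 (.comm 0 (.comm 0 (.comm 0 (.oct 506 27 4345857 (.bad 19))))))))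 (.comm 0 (.comm 0 (.comm 0 (.comm 0 (.comm 0 (.comm 0 (.oct 506 352 4345857 (.bad 10))))))))))))))))))))))))))))))) (.split 0 2097152 (.sing 0 21 (.comm 0 (.comm 0 (.comm 0 (.comm 0 (.comm 0 (.comm 0 (.oct 528 459 148545 (.split 1 1 (.comm 0 (.comm 0 (.comm 0 (.comm 0 (.comm 0 (.comm 0 (.oct 506 92 4345857 (.bad 10)))))))) (.split 1 8 (.comm 0 (.comm 0 (.comm 0 (.comm 0 (.comm 0 (.comm 0 (.oct 210 267 5255172 (.bad 19)))))))) (.split 1 16 (.comm 0 (.comm 0 (.comm 0 (.comm 0 (.comm 0 (.comm 0 (.oct 506 250 4345857 (.bad 2)))))))) (.split 1 32 (.comm 0 (.comm 0 (.comm 0 (.comm 0 (.comm 0 (.comm 0 (.oct 506 318 4345857 (.bad 13)))))))) (.split 1 64 (.comm 0 (.comm 0 (.comm 0 (.comm 0 (.comm 0 (.comm 0 (.oct 506 507 4345857 (.bad 19)))))))) (.split 1 256 (.comm 0 (.comm 0 (.comm 0 (.comm 0 (.comm 0 (.comm 0 (.oct 506 6 4345857 (.bad 19)))))))) (.split 1 512 (.comm 0 (.comm 0 (.comm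 0 (.comm 0 (.comm 0 (.comm 0 (.oct 506 539 4345857 (.bad 6)))))))) (.split 1 1024 (.comm 0 (.comm 0 (.comm 0 (.comm 0 (.comm 0 (.comm 0 (.oct 506 628 4345857 (.bad 1)))))))) (.split 1 16384 (.comm 0 (.comm 0 (.comm 0 (.comm 0 (.comm 0 (.comm 0 (.oct 506 539 4345857 (.bad 6)))))))) (.split 1 32768 (.comm 0 (.comm 0 (.comm 0 (.comm 0 (.comm 0 (.comm 0 (.oct 506 318 4345857 (.bad 1)))))))) (.split 1 65536 (.comm 0 (.comm 0 (.comm 0 (.comm 0 (.comm 0 (.comm 0 (.oct 506 57 4345857 (.bad 10)))))))) (.split 1 131072 (.comm 0 (.comm 0 (.comm 0 (.comm 0 (.comm 0 (.comm 0 (.oct 210 665 5255172 (.bad 19)))))))) (.split 1 262144 (.sing 1 18 (.comm 0 (.bad 1))) (.split 1 524288 (.sing 1 19 (.comm 0 (.bad 1))) (.split 1 1048576 (.comm 0 (.comm 0 (.comm 0 (.comm 0 (.comm 0 (.comm 0 (.oct 506 628 4345857 (.bad 13)))))))) (.comm 0 (.comm 0 (.comm 0 (.comm 0 (.comm 0 (.comm 0 (.oct 506 231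 4345857 (.bad 2))))))))))))))))))))))))))))))) (.split 0 4194304 (.sing 0 22 (.comm 0 (.comm 0 (.comm 0 (.comm 0 (.comm 0 (.comm 0 (.oct 528 459 148545 (.split 1 1 (.comm 0 (.comm 0 (.comm 0 (.comm 0 (.comm 0 (.comm 0 (.oct 506 479 4345857 (.bad 19)))))))) (.split 1 8 (.comm 0 (.comm 0 (.comm 0 (.comm 0 (.comm 0 (.comm 0 (.oct 506 481 4345857 (.bad 13)))))))) (.split 1 16 (.comm 0 (.comm 0 (.comm 0 (.comm 0 (.comm 0 (.comm 0 (.oct 506 481 4345857 (.bad 1)))))))) (.split 1 32 (.comm 0 (.comm 0 (.comm 0 (.comm 0 (.comm 0 (.comm 0 (.oct 506 491 4345857 (.bad 6)))))))) (.split 1 64 (.comm 0 (.comm 0 (.comm 0 (.comm 0 (.comm 0 (.comm 0 (.oct 210 591 5255172 (.bad 19)))))))) (.split 1 256 (.comm 0 (.comm 0 (.comm 0 (.comm 0 (.comm 0 (.comm 0 (.oct 210 83 5255172 (.bad 19)))))))) (.split 1 512 (.comm 0 (.comm 0 (.comm 0 (.comm 0 (.comm 0 (.comm 0 (.oct 506 499 4345857 (.bad 2))))))))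 (.split 1 1024 (.comm 0 (.comm 0 (.comm 0 (.comm 0 (.comm 0 (.comm 0 (.oct 506 452 4345857 (.bad 10)))))))) (.split 1 16384 (.comm 0 (.comm 0 (.comm 0 (.comm 0 (.comm 0 (.comm 0 (.oct 506 738 4345857 (.bad 2)))))))) (.split 1 32768 (.comm 0 (.comm 0 (.comm 0 (.comm 0 (.comm 0 (.comm 0 (.oct 506 502 4345857 (.bad 10)))))))) (.split 1 65536 (.comm 0 (.comm 0 (.comm 0 (.comm 0 (.comm 0 (.comm 0 (.oct 506 470 4345857 (.bad 19)))))))) (.split 1 131072 (.comm 0 (.comm 0 (.comm 0 (.comm 0 (.comm 0 (.comm 0 (.oct 506 464 4345857 (.bad 13)))))))) (.split 1 262144 (.sing 1 18 (.comm 0 (.bad 1))) (.split 1 524288 (.sing 1 19 (.comm 0 (.bad 1))) (.split 1 1048576 (.comm 0 (.comm 0 (.comm 0 (.comm 0 (.comm 0 (.comm 0 (.oct 506 491 4345857 (.bad 6)))))))) (.comm 0 (.comm 0 (.comm 0 (.comm 0 (.comm 0 (.comm 0 (.oct 506 464 4345857 (.bad 1))))))))))))))))))))))))))))))) (.sing 0 23 (.comm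 0 (.comm 0 (.comm 0 (.comm 0 (.comm 0 (.comm 0 (.oct 528 528 148545 (.split 1 2 (.comm 0 (.comm 0 (.comm 0 (.comm 0 (.comm 0 (.comm 0 (.oct 506 158 4345857 (.bad 19)))))))) (.split 1 4 (.comm 0 (.comm 0 (.comm 0 (.comm 0 (.comm 0 (.comm 0 (.oct 506 37 4345857 (.bad 13)))))))) (.split 1 8 (.comm 0 (.comm 0 (.comm 0 (.comm 0 (.comm 0 (.comm 0 (.oct 506 208 4345857 (.bad 1)))))))) (.split 1 16 (.comm 0 (.comm 0 (.comm 0 (.comm 0 (.comm 0 (.comm 0 (.oct 210 313 5255172 (.bad 19)))))))) (.split 1 32 (.comm 0 (.comm 0 (.comm 0 (.comm 0 (.comm 0 (.comm 0 (.oct 506 153 4345857 (.bad 10)))))))) (.split 1 128 (.comm 0 (.comm 0 (.comm 0 (.comm 0 (.comm 0 (.comm 0 (.oct 506 238 4345857 (.bad 10)))))))) (.split 1 256 (.comm 0 (.comm 0 (.comm 0 (.comm 0 (.comm 0 (.comm 0 (.oct 506 28 4345857 (.bad 2)))))))) (.split 1 512 (.comm 0 (.comm 0 (.comm 0 (.comm 0 (.comm 0 (.comm 0 (.oct 506 66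 4345857 (.bad 19)))))))) (.split 1 2048 (.sing 1 11 (.comm 0 (.bad 1))) (.split 1 4096 (.comm 0 (.comm 0 (.comm 0 (.comm 0 (.comm 0 (.comm 0 (.oct 210 346 5255172 (.bad 19)))))))) (.split 1 8192 (.comm 0 (.comm 0 (.comm 0 (.comm 0 (.comm 0 (.comm 0 (.oct 506 259 4345857 (.bad 6)))))))) (.split 1 32768 (.comm 0 (.comm 0 (.comm 0 (.comm 0 (.comm 0 (.comm 0 (.oct 506 208 4345857 (.bad 13)))))))) (.split 1 65536 (.comm 0 (.comm 0 (.comm 0 (.comm 0 (.comm 0 (.comm 0 (.oct 506 259 4345857 (.bad 6)))))))) (.split 1 262144 (.sing 1 18 (.comm 0 (.bad 1))) (.split 1 2097152 (.comm 0 (.comm 0 (.comm 0 (.comm 0 (.comm 0 (.comm 0 (.oct 506 37 4345857 (.bad 1)))))))) (.comm 0 (.comm 0 (.comm 0 (.comm 0 (.comm 0 (.comm 0 (.oct 506 463 4345857 (.bad 2))))))))))))))))))))))))))))))))))))))))))))))))))))))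
def tB : T2 := (.sing 0 0 (.comm 0 (.comm 0 (.comm 0 (.comm 0 (.comm 0 (.comm 0 (.oct 528 528 148545 (.split 1 4 (.comm 0 (.comm 0 (.comm 0 (.comm 0 (.comm 0 (.comm 0 (.oct 506 596 4345857 (.bad 10)))))))) (.split 1 8 (.comm 0 (.comm 0 (.comm 0 (.comm 0 (.comm 0 (.comm 0 (.oct 506 583 4345857 (.bad 6)))))))) (.split 1 16 (.comm 0 (.comm 0 (.comm 0 (.comm 0 (.comm 0 (.comm 0 (.oct 506 587 4345857 (.bad 19)))))))) (.split 1 32 (.comm 0 (.comm 0 (.comm 0 (.comm 0 (.comm 0 (.comm 0 (.oct 506 602 4345857 (.bad 6)))))))) (.split 1 128 (.comm 0 (.comm 0 (.comm 0 (.comm 0 (.comm 0 (.comm 0 (.oct 506 695 4345857 (.bad 6)))))))) (.split 1 256 (.comm 0 (.comm 0 (.comm 0 (.comm 0 (.comm 0 (.comm 0 (.oct 506 614 4345857 (.bad 20)))))))) (.split 1 2048 (.sing 1 11 (.comm 0 (.bad 1))) (.split 1 4096 (.comm 0 (.comm 0 (.comm 0 (.comm 0 (.comm 0 (.comm 0 (.oct 506 632 4345857 (.bad 19))))))))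 (.split 1 8192 (.comm 0 (.comm 0 (.comm 0 (.comm 0 (.comm 0 (.comm 0 (.oct 506 695 4345857 (.bad 1)))))))) (.split 1 32768 (.comm 0 (.comm 0 (.comm 0 (.comm 0 (.comm 0 (.comm 0 (.oct 506 542 4345857 (.bad 10)))))))) (.split 1 65536 (.comm 0 (.comm 0 (.comm 0 (.comm 0 (.comm 0 (.comm 0 (.oct 506 602 4345857 (.bad 1)))))))) (.split 1 262144 (.sing 1 18 (.comm 0 (.bad 1))) (.split 1 2097152 (.comm 0 (.comm 0 (.comm 0 (.comm 0 (.comm 0 (.comm 0 (.oct 506 643 4345857 (.bad 6)))))))) (.comm 0 (.comm 0 (.comm 0 (.comm 0 (.comm 0 (.comm 0 (.oct 506 614 4345857 (.bad 20)))))))))))))))))))))))))))))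
def tC : T2 := (.sing 0 0 (.comm 0 (.comm 0 (.comm 0 (.comm 0 (.comm 0 (.comm 0 (.oct 330 330 4222978 (.comm 0 (.comm 0 (.comm 0 (.comm 0 (.oct 506 506 217089 (.good [0, 1, 2, 3, 4, 5, 6, 7, 8, 9, 10, 11, 12, 13, 14, 15, 16, 17, 18, 19, 20, 21, 22, 23] []))))))))))))))
def O0 : List ℕ := [0, 1, 2, 3, 4, 5, 6, 7, 8, 9, 10, 12, 13, 14, 15, 16, 17, 20, 21, 22, 23]
def g0 : List (List ℕ) := [[8, 23, 0, 7, 2, 1, 3, 14, 21, 12, 16, 19, 10, 6, 4, 13, 22, 5, 11, 18, 9, 20, 17, 15], [1, 6, 20, 15, 3, 16, 12, 0, 4, 8, 7, 19, 17, 14, 22, 5, 9, 2, 18, 11, 13, 10, 23, 21], [3, 10, 6, 1, 13, 12, 5, 23, 7, 2, 8, 19, 0, 17, 15, 22, 21, 9, 11, 18, 4, 14, 20, 16], [5, 0, 17, 12, 22, 2, 9, 10, 1, 13, 3, 19, 6, 20, 16, 21, 7, 4, 11, 18, 15, 23, 14, 8]]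
def lu : List ℕ := [0, 9, 15, 21, 12, 7, 6, 5, 22, 1, 10, 18, 4, 16, 14, 2, 13, 17, 11, 19, 20, 3, 8, 23]
def lx : List ℕ := [0, 8, 4, 1, 7, 2, 17, 15, 21, 22, 23, 18, 5, 16, 6, 12, 13, 14, 11, 19, 10, 9, 3, 20]
def lp : List ℕ := [0, 9, 15, 21, 12, 7, 6, 5, 22, 1, 10, 18, 4, 16, 14, 2, 13, 17, 11, 19, 20, 3, 8, 23]
def lq : List ℕ := [1, 6, 20, 15, 3, 16, 12, 0, 4, 8, 7, 19, 17, 14, 22, 5, 9, 2, 18, 11, 13, 10, 23, 21]

theorem ok7 : isM24 l7 = true := by decide +kernel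

noncomputable def z7 : Equiv.Perm GolayPt := (exists_M24 ok7).choose
theorem z7_mem : z7 ∈ M24 := (exists_M24 ok7).choose_spec.1
theorem rep7 : Rep z7 l7 := (exists_M24 ok7).choose_spec.2

theorem eq_of_lists {g h : Equiv.Perm GolayPt} {a b : List ℕ} (hg : Rep g a) (hh : Rep h b) (hab : beqL a b = true) :
    g = h := by
  rw [beqL_eq hab] at hg
  exact hg.unique hh

theorem z7_pow : z7 ^ 7 = 1 := eq_of_lists (rep_powl rep7 7) rep_one (by decide +kernel)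
theorem z7_ne : z7 ≠ 1 := by
  intro h
  have h1 : z7 (pt 0) = pt 0 := by rw [h]; rfl
  rw [rep7.apply_pt (by norm_num)] at h1
  exact absurd h1 (by decide)

theorem tF_ok : check2 [(invl l7, l7)] 0 (fun _ _ => false) tF (st0 [] 0 O0) = true := by decide +kernel
theorem tB_ok : check2 [(invl l7, l7)] 0 (fun _ _ => false) tB (st0 [0] 1 [1, 9]) = true := by decide +kernel
theorem tC_ok : check2 [(invl l7, l7)] 0 (fun r _ => [List.range 24].any fun r' => beqL r r') tC (st1 [1, 0]) = true := by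
  decide +kernel
theorem tI_ok : check2 [(invl l7, invl l7)] 0 (fun _ _ => false) tI (cuts []) = true := by decide +kernel

theorem has0 : Has (cenM z7) g0 := has_cen rep7 (by decide +kernel)
theorem hasu : Has (fixK (cenM z7) [0]) [lu] := has_fixK' (has_cen rep7 (by decide +kernel)) (by decide)

theorem card_cen : Nat.card (cenM z7) = 42 := by
  have c0 := card_fixK (cenM z7) [] 0 (by norm_num) O0 (by decide) (list_all_lt (by decide))
    (inv_of_tree (cenM_le z7) (rels_cen rep7) (list_all_lt (by decide)) tF tF_ok)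
    (by rw [fixK_nil]; exact descent_pt _ g0 has0 _ 0 (by decide +kernel))
  have c1 := card_fixK (cenM z7) [0] 1 (by norm_num) [1, 9] (by decide) (list_all_lt (by decide))
    (inv_of_tree (cenM_le z7) (rels_cen rep7) (list_all_lt (by decide)) tB tB_ok)
    (descent_pt _ [lu] hasu _ 1 (by decide +kernel))
  have c3 := card_one_of_tree (cenM_le z7) (rels_cen rep7) (l := [1, 0]) (list_all_lt (by decide)) tC tC_ok
  rw [fixK_nil] at c0
  rw [c0, c1, c3]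
  rfl

theorem no_inv {g : Equiv.Perm GolayPt} (hg : g ∈ M24) (h : g * z7 = z7⁻¹ * g) : False := by
  refine bad_of hg (R := [(invl l7, invl l7)]) ?_ (e := 0) (fun h => absurd h (by norm_num))
    (fun h => absurd h (by norm_num)) tI _ tI_ok (val_cuts [] (by simp))
  intro x hx
  rw [List.mem_singleton] at hx
  subst hx
  exact ⟨z7, z7⁻¹, rep_inv rep7, rep_inv rep7, h⟩

theorem ex_x : ∃ x ∈ M24, x * z7 = z7 ^ 2 * x := by
  obtain ⟨x, hx, hr⟩ := exists_M24 (l := lx) (by decide +kernel)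
  exact ⟨x, hx, eq_of_lists (rep_mul hr rep7) (rep_mul (rep_powl rep7 2) hr) (by decide +kernel)⟩

theorem ex_pq : ∃ p ∈ cenM z7, ∃ q ∈ cenM z7, p * q ≠ q * p := by
  obtain ⟨p, hp, hr⟩ := has_cen rep7 (gs := [lp, lq]) (by decide +kernel) lp (by simp)
  obtain ⟨q, hq, hs⟩ := has_cen rep7 (gs := [lp, lq]) (by decide +kernel) lq (by simp)
  refine ⟨p, hp, q, hq, fun h => ?_⟩
  have h1 := rep_mul hr hs
  rw [h] at h1
  have h2 := rep_eq_list h1 (rep_mul hs hr)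
  have h3 : beqL (comp lp lq) (comp lq lp) = false := by decide +kernel
  rw [h2, beqL_refl] at h3
  exact absurd h3 (by decide)

/-- the trio of fixed octads -/
def PT (t : Equiv.Perm GolayPt) (S : Finset (Finset GolayPt)) : Prop := S ∈ trios ∧ ∀ T ∈ S, t • T = T

theorem PT_conj {c t : Equiv.Perm GolayPt} (hc : c ∈ M24) {S : Finset (Finset GolayPt)} (h : PT t S) :
    PT (c * t * c⁻¹) (c • S) := by
  refine ⟨(smul_mem_trios_iff hc).2 h.1, ?_⟩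
  intro T hT
  rw [Finset.mem_smul_finset] at hT
  obtain ⟨U, hU, rfl⟩ := hT
  rw [mul_smul, mul_smul, inv_smul_smul, h.2 U hU]

theorem PT_pow {t : Equiv.Perm GolayPt} {S : Finset (Finset GolayPt)} (h : PT t S) (n : ℕ) : PT (t ^ n) S := by
  refine ⟨h.1, fun T hT => ?_⟩
  induction n with
  | zero => rw [pow_zero, one_smul]
  | succ n ih => rw [pow_succ, mul_smul, h.2 T hT, ih]

theorem tr_unique : (trioL.all fun N => !((tflds N).all fun m => Nat.beq (act l7 m) m) || Nat.beq N 169617939333944)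
    = true := by decide +kernel

theorem tr_exists : (trioL.any fun N => ((tflds N).all fun m => Nat.beq (act l7 m) m) && Nat.beq N 169617939333944)
    = true := by decide +kernel

theorem PT_iff {N : ℕ} (hN : N ∈ trioL) : PT z7 (tr N) ↔ ((tflds N).all fun m => Nat.beq (act l7 m) m) = true := by
  rw [List.all_eq_true]
  have hf : ∀ m, z7 • ofMask m = ofMask m ↔ ofMask (act l7 m) = ofMask m := by
    intro m; rw [rep7.smul_ofMask]
  constructor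
  · rintro ⟨_, h⟩ m hm
    have h1 := h (ofMask m) (by rw [tr_flds, List.mem_toFinset, List.mem_map]; exact ⟨m, hm, rfl⟩)
    rw [hf] at h1
    rw [(ofMask_inj (act_lt rep7) (tflds_lt hN m hm)).1 h1]
    exact Nat.beq_refl m
  · intro h
    refine ⟨trio_iff.2 ⟨N, hN, rfl⟩, fun T hT => ?_⟩
    rw [tr_flds, List.mem_toFinset, List.mem_map] at hT
    obtain ⟨m, hm, rfl⟩ := hT
    rw [hf, Nat.eq_of_beq_eq_true (h m hm)]

theorem PT_ex : ∃ S, PT z7 S := by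
  have h := tr_exists
  rw [List.any_eq_true] at h
  obtain ⟨N, hN, h⟩ := h
  rw [Bool.and_eq_true] at h
  exact ⟨_, (PT_iff hN).2 h.1⟩

theorem PT_un {S S' : Finset (Finset GolayPt)} (h : PT z7 S) (h' : PT z7 S') : S = S' := by
  have key : ∀ S, PT z7 S → S = tr 169617939333944 := by
    intro S h
    obtain ⟨N, hN, rfl⟩ := trio_iff.1 h.1
    have h1 := tr_unique
    rw [List.all_eq_true] at h1
    have h2 := h1 N hN
    rw [(PT_iff hN).1 h] at h2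
    have h3 : Nat.beq N 169617939333944 = true := by simpa using h2
    rw [Nat.eq_of_beq_eq_true h3]
  rw [key S h, key S' h']

noncomputable def ze : ↥M24 := ⟨z7, z7_mem⟩

theorem ze_pow : ze ^ 7 = 1 := Subtype.ext z7_pow
theorem order_ze : orderOf ze = 7 :=
  orderOf_eq_prime (hp := ⟨by norm_num⟩) ze_pow (fun h => z7_ne (congrArg Subtype.val h))

noncomputable def S0 : Subgroup ↥M24 := Subgroup.zpowers ze

theorem card_S0 : Nat.card S0 = 7 := by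
  unfold S0
  rw [Nat.card_zpowers, order_ze]

theorem mem_S0 {x : ↥M24} : x ∈ S0 ↔ ∃ k < 7, x = ze ^ k := by
  unfold S0
  rw [mem_zpowers_iff_mem_range_orderOf, order_ze]
  simp only [Finset.mem_image, Finset.mem_range]
  constructor
  · rintro ⟨k, hk, rfl⟩; exact ⟨k, hk, rfl⟩
  · rintro ⟨k, hk, rfl⟩; exact ⟨k, hk, rfl⟩

theorem mem_cen {x : ↥M24} : x ∈ Subgroup.centralizer (S0 : Set ↥M24) ↔ x * ze = ze * x := by
  rw [Subgroup.mem_centralizer_iff]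
  constructor
  · intro h
    exact (h ze (Subgroup.mem_zpowers ze)).symm
  · intro h y hy
    obtain ⟨k, _, rfl⟩ := mem_S0.1 hy
    exact (((show Commute x ze from h).pow_right k).eq).symm

theorem card_cen0 : Nat.card ↥(Subgroup.centralizer (S0 : Set ↥M24)) = 42 := by
  rw [← card_cen]
  apply Nat.card_congr
  refine ⟨fun g => ⟨g.1.1, mem_cenM.2 ⟨g.1.2, congrArg Subtype.val (mem_cen.1 g.2)⟩⟩,
    fun g => ⟨⟨g.1, (mem_cenM.1 g.2).1⟩, mem_cen.2 (Subtype.ext (mem_cenM.1 g.2).2)⟩, fun _ => rfl, fun _ => rfl⟩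

theorem conj_pow' {x : ↥M24} {k : ℕ} (h : x * ze * x⁻¹ = ze ^ k) (n : ℕ) : x ^ n * ze * (x ^ n)⁻¹ = ze ^ (k ^ n) := by
  induction n with
  | zero => simp
  | succ n ih =>
    have e : x ^ (n + 1) * ze * (x ^ (n + 1))⁻¹ = x * (x ^ n * ze * (x ^ n)⁻¹) * x⁻¹ := by
      rw [pow_succ']; group
    rw [e, ih, ← conj_pow, h, ← pow_mul, ← pow_succ']

theorem mem_nor {x : ↥M24} : x ∈ Subgroup.normalizer (S0 : Set ↥M24) ↔ ∃ i < 3, x * ze * x⁻¹ = ze ^ (2 ^ i) := by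
  rw [Subgroup.mem_normalizer_iff]
  constructor
  · intro h
    have h1 := (h ze).1 (Subgroup.mem_zpowers ze)
    obtain ⟨k, hk, h2⟩ := mem_S0.1 h1
    have hk' : k = 3 ∨ k = 5 ∨ k = 6 → False := by
      intro hk
      have h3 := conj_pow' h2 3
      have h4 : ze ^ (k ^ 3) = ze⁻¹ := by
        rw [eq_inv_iff_mul_eq_one, ← pow_succ]
        have h5 : 7 ∣ k ^ 3 + 1 := by
          rcases hk with rfl | rfl | rfl <;> norm_num
        obtain ⟨m, hm⟩ := h5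
        rw [hm, pow_mul, ze_pow, one_pow]
      rw [h4] at h3
      refine no_inv (x ^ 3).2 ?_
      have h6 : x ^ 3 * ze = ze⁻¹ * x ^ 3 := by
        rw [← h3]; group
      exact congrArg Subtype.val h6
    have hk0 : k ≠ 0 := by
      rintro rfl
      rw [pow_zero, mul_inv_eq_one, mul_eq_left] at h2
      exact z7_ne (congrArg Subtype.val h2)
    interval_cases k
    · exact absurd rfl hk0
    · exact ⟨0, by norm_num, h2⟩
    · exact ⟨1, by norm_num, h2⟩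
    · exact absurd (Or.inl rfl) hk'
    · exact ⟨2, by norm_num, h2⟩
    · exact absurd (Or.inr (Or.inl rfl)) hk'
    · exact absurd (Or.inr (Or.inr rfl)) hk'
  · rintro ⟨i, hi, h⟩
    have h1 : x ∈ Subgroup.normalizer (S0 : Set ↥M24) := by
      haveI : Finite ↥S0 := Nat.finite_of_card_ne_zero (by rw [card_S0]; norm_num)
      haveI : Finite ↑(S0 : Set ↥M24) := this
      apply Subgroup.mem_normalizer_fintype (S := (S0 : Set ↥M24))
      intro n hn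
      obtain ⟨k, _, rfl⟩ := mem_S0.1 hn
      rw [← conj_pow, h, ← pow_mul]
      exact Subgroup.pow_mem _ (Subgroup.mem_zpowers ze) _
    exact Subgroup.mem_normalizer_iff.1 h1

theorem card_nor0 : Nat.card ↥(Subgroup.normalizer (S0 : Set ↥M24)) = 126 := by
  obtain ⟨x', hx', hx2⟩ := ex_x
  set x : ↥M24 := ⟨x', hx'⟩ with hx
  have hxz : x * ze = ze ^ 2 * x := Subtype.ext hx2
  have hxc : x * ze * x⁻¹ = ze ^ 2 := by rw [hxz]; group
  have hxi : ∀ i : ℕ, x ^ i * ze * (x ^ i)⁻¹ = ze ^ (2 ^ i) := conj_pow' hxc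
  have hinj : ∀ i < 3, ∀ j < 3, ze ^ (2 ^ i) = ze ^ (2 ^ j) → i = j := by
    intro i hi j hj h
    rw [pow_inj_mod, order_ze] at h
    interval_cases i <;> interval_cases j <;> first | rfl | (exfalso; revert h; decide)
  have e : Fin 3 × ↥(Subgroup.centralizer (S0 : Set ↥M24)) ≃ ↥(Subgroup.normalizer (S0 : Set ↥M24)) := by
    refine Equiv.ofBijective (fun y => ⟨x ^ (y.1 : ℕ) * y.2.1, ?_⟩) ⟨?_, ?_⟩
    · rw [mem_nor]
      refine ⟨y.1, y.1.2, ?_⟩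
      have h1 := mem_cen.1 y.2.2
      have e1 : x ^ (y.1 : ℕ) * y.2.1 * ze * (x ^ (y.1 : ℕ) * y.2.1)⁻¹ =
          x ^ (y.1 : ℕ) * (y.2.1 * ze) * y.2.1⁻¹ * (x ^ (y.1 : ℕ))⁻¹ := by group
      rw [e1, h1, ← hxi]
      group
    · rintro ⟨i, c⟩ ⟨j, d⟩ h
      have h0 : x ^ (i : ℕ) * c.1 = x ^ (j : ℕ) * d.1 := congrArg Subtype.val h
      have key : ∀ (i : Fin 3) (c : ↥(Subgroup.centralizer (S0 : Set ↥M24))),
          (x ^ (i : ℕ) * c.1) * ze * (x ^ (i : ℕ) * c.1)⁻¹ = ze ^ (2 ^ (i : ℕ)) := by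
        intro i c
        have h1 := mem_cen.1 c.2
        have e1 : x ^ (i : ℕ) * c.1 * ze * (x ^ (i : ℕ) * c.1)⁻¹ =
          x ^ (i : ℕ) * (c.1 * ze) * c.1⁻¹ * (x ^ (i : ℕ))⁻¹ := by group
        rw [e1, h1, ← hxi]
        group
      have hij : i = j := by
        have h1 := key i c
        rw [h0, key j d] at h1
        exact Fin.ext (hinj _ i.2 _ j.2 h1.symm)
      subst hij
      have h1 : c = d := Subtype.ext (mul_left_cancel h0)
      rw [h1]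
    · intro y
      obtain ⟨i, hi, h⟩ := mem_nor.1 y.2
      refine ⟨(⟨i, hi⟩, ⟨(x ^ i)⁻¹ * y.1, ?_⟩), ?_⟩
      · rw [mem_cen]
        have h1 : y.1 * ze = ze ^ (2 ^ i) * y.1 := by rw [← h]; group
        have h2 : (x ^ i)⁻¹ * ze ^ (2 ^ i) = ze * (x ^ i)⁻¹ := by rw [← hxi]; group
        rw [mul_assoc, h1, ← mul_assoc, h2, mul_assoc]
      · apply Subtype.ext
        show x ^ i * ((x ^ i)⁻¹ * y.1) = y.1
        group
  rw [← Nat.card_congr e, Nat.card_prod, card_cen0, Nat.card_fin]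

theorem conj_exists (S : Subgroup ↥Cfsg.M24) (hS : Nat.card S = 7) : ∃ c : ↥M24,
    S = S0.map (MulAut.conj c).toMonoidHom := by
  haveI : Fact (Nat.Prime 7) := ⟨by norm_num⟩
  have hf : (Nat.card ↥M24).factorization 7 = 1 := by
    rw [card_M24, show (244823040 : ℕ) = 7 * 34974720 by norm_num,
      Nat.factorization_mul (by norm_num) (by norm_num), Finsupp.add_apply,
      Nat.factorization_eq_zero_of_not_dvd (n := 34974720) (p := 7) (by norm_num), Nat.Prime.factorization_self (by norm_num)]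
  let P : Sylow 7 ↥M24 := Sylow.ofCard S (by rw [hS, hf]; norm_num)
  let P0 : Sylow 7 ↥M24 := Sylow.ofCard S0 (by rw [card_S0, hf]; norm_num)
  obtain ⟨c, hc⟩ := MulAction.exists_smul_eq ↥M24 P0 P
  refine ⟨c, ?_⟩
  have h1 := congrArg (fun Q : Sylow 7 ↥M24 => (Q : Subgroup ↥M24)) hc
  exact h1.symm

/-- For a subgroup S of order 7 of the group of the length-24 code (a Sylow 7-subgroup): the normaliser of S has order 126, the centraliser of S has order 42 and is non-abelian, and the whole normaliser leaves some trio invariant. (These are the orders of a Frobenius group of order 21 times a symmetric group of degree 3; the isomorphism type itself is not asserted here.) -/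
theorem result (S : Subgroup ↥Cfsg.M24) (hS : Nat.card S = 7) : Nat.card ↥(Subgroup.normalizer (S : Set ↥Cfsg.M24)) = 126 ∧ Nat.card ↥(Subgroup.centralizer (S : Set ↥Cfsg.M24)) = 42 ∧ (∃ x ∈ Subgroup.centralizer (S : Set ↥Cfsg.M24), ∃ y ∈ Subgroup.centralizer (S : Set ↥Cfsg.M24), x * y ≠ y * x) ∧ ∃ T ∈ Cfsg.trios, ∀ n ∈ Subgroup.normalizer (S : Set ↥Cfsg.M24), ((n : ↥Cfsg.M24) : Equiv.Perm Cfsg.GolayPt) • T = T := by
  obtain ⟨c, rfl⟩ := conj_exists S hS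
  set e : ↥M24 ≃* ↥M24 := MulAut.conj c with he
  have hcen : ∀ x, x ∈ Subgroup.centralizer ((S0.map e.toMonoidHom : Subgroup ↥M24) : Set ↥M24) ↔
      e.symm x ∈ Subgroup.centralizer (S0 : Set ↥M24) := by
    intro x
    rw [Subgroup.mem_centralizer_iff, Subgroup.mem_centralizer_iff]
    constructor
    · intro h y hy
      have h1 := h (e y) (Subgroup.mem_map_of_mem _ hy)
      apply e.injective
      rw [map_mul, map_mul, e.apply_symm_apply]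
      exact h1
    · rintro h _ ⟨y, hy, rfl⟩
      have h1 := h y hy
      have h2 := congrArg e h1
      rw [map_mul, map_mul, e.apply_symm_apply] at h2
      exact h2
  refine ⟨?_, ?_, ?_, ?_⟩
  · rw [← Subgroup.map_equiv_normalizer_eq, ← card_nor0]
    exact Subgroup.card_map_of_injective e.injective
  · rw [← card_cen0]
    refine Nat.card_congr ⟨fun x => ⟨e.symm x.1, (hcen _).1 x.2⟩, fun x => ⟨e x.1, (hcen _).2 (by
      rw [e.symm_apply_apply]; exact x.2)⟩, fun x => ?_, fun x => ?_⟩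
    · apply Subtype.ext
      exact e.apply_symm_apply _
    · apply Subtype.ext
      exact e.symm_apply_apply _
  · obtain ⟨p, hp, q, hq, hpq⟩ := ex_pq
    obtain ⟨hp1, hp2⟩ := mem_cenM.1 hp
    obtain ⟨hq1, hq2⟩ := mem_cenM.1 hq
    refine ⟨e ⟨p, hp1⟩, (hcen _).2 ?_, e ⟨q, hq1⟩, (hcen _).2 ?_, ?_⟩
    · rw [e.symm_apply_apply, mem_cen]; exact Subtype.ext hp2
    · rw [e.symm_apply_apply, mem_cen]; exact Subtype.ext hq2
    · intro h
      rw [← map_mul, ← map_mul] at h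
      exact hpq (congrArg Subtype.val (e.injective h))
  · obtain ⟨T, hT⟩ := PT_ex
    refine ⟨(c : Equiv.Perm GolayPt) • T, (smul_mem_trios_iff c.2).2 hT.1, ?_⟩
    intro n hn
    rw [← Subgroup.map_equiv_normalizer_eq] at hn
    obtain ⟨m, hm, rfl⟩ := hn
    obtain ⟨i, _, hi⟩ := mem_nor.1 hm
    have h1 : PT (z7 ^ (2 ^ i)) ((m : Equiv.Perm GolayPt) • T) := by
      have h2 := PT_conj m.2 hT
      have h3 : (m : Equiv.Perm GolayPt) * z7 * (m : Equiv.Perm GolayPt)⁻¹ = z7 ^ (2 ^ i) := congrArg Subtype.val hi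
      rw [h3] at h2
      exact h2
    have h2 : PT z7 ((m : Equiv.Perm GolayPt) • T) := by
      have h3 := PT_pow h1 (4 ^ i)
      have h4 : (z7 ^ (2 ^ i)) ^ (4 ^ i) = z7 := by
        rw [← pow_mul, ← mul_pow]
        have h5 : 8 ^ i % 7 = 1 := by
          rw [Nat.pow_mod]; simp
        rw [show 2 * 4 = 8 by norm_num, ← Nat.div_add_mod (8 ^ i) 7, h5, pow_add, pow_mul, z7_pow, one_pow, one_mul,
          pow_one]
      rw [h4] at h3
      exact h3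
    have h3 := PT_un h2 hT
    show ((c : Equiv.Perm GolayPt) * (m : Equiv.Perm GolayPt) * (c : Equiv.Perm GolayPt)⁻¹) • (c : Equiv.Perm GolayPt) • T = _
    rw [mul_smul, mul_smul, inv_smul_smul, h3]

end Cfsg.Agent.S5604
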