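import Mathlib
import Cfsg.Agent.H26_Sxt
import Cfsg.Agent.H26_M22b
import Cfsg.Agent.H26_Cnt3
import Cfsg.Agent.S5604

/-!
# H26_M24H: `M24` has one 2-block
-/

set_option autoImplicit false

namespace Cfsg.Agent.H26.M24F

open Cfsg Cfsg.Agent.H7.Golay Cfsg.Agent.H7.Oct Cfsg.Agent.H7.M24 Cfsg.Agent.H7.M24d Cfsg.Agent.H28.Cls Cfsg.Agent.H26.Cnt
  Cfsg.Agent.H26.Basic Cfsg.Agent.H28.Cen
open scoped Pointwise

/-- commuting elements of prime order, one of order 11 or 23 -/
theorem M24_pair {p q : ℕ} [hp : Fact p.Prime] [hq : Fact q.Prime] {x y : Equiv.Perm GolayPt} (hxM : x ∈ M24)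
    (hyM : y ∈ M24) (hx : orderOf x = p) (hy : orderOf y = q) (h : x * y = y * x)
    (hp' : p = 11 ∨ p = 23) (hq' : q = 2 ∨ q = 3 ∨ q = 5 ∨ q = 7 ∨ q = 11 ∨ q = 23) : q = p := by
  have hne : ∀ {g : Equiv.Perm GolayPt} {r : ℕ} (_ : r.Prime), orderOf g = r → g ≠ 1 := by
    rintro g r hr h rfl
    rw [orderOf_one] at h
    exact hr.one_lt.ne h
  by_cases hfpf : q = 2 ∧ (fixF y).card = 0
  · exfalso
    obtain ⟨rfl, h0⟩ := hfpf
    have h1 := (Cfsg.Agent.S5607.result y hyM hy (card_zero_iff.1 h0)).1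
    have h2 : Nat.card (cenM y) = 7680 := by
      rw [← h1]
      exact Nat.card_congr (Equiv.subtypeEquivRight fun c => mem_cenM)
    have h3 : x ∈ cenM y := mem_cenM.2 ⟨hxM, h⟩
    have h4 := orderOf_dvd_natCard (⟨x, h3⟩ : cenM y)
    rw [Subgroup.orderOf_mk, hx, h2] at h4
    rcases hp' with rfl | rfl <;> revert h4 <;> norm_num
  have h1 := fix_pair hx hy h
  have hFx : (fixF x ∩ fixF y).card ≤ (fixF x).card := Finset.card_le_card Finset.inter_subset_left
  have hFy : (fixF x ∩ fixF y).card ≤ (fixF y).card := Finset.card_le_card Finset.inter_subset_right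
  have vx := fix_le hxM (hne hp.out hx)
  have vy := fix_le hyM (hne hq.out hy)
  have ux := fix_univ hx
  have uy := fix_univ hy
  have v2 : q = 2 → (fixF y).card = 8 := by
    rintro rfl
    rcases inv_fix hyM hy with h | h
    · exact card_oct h
    · exact absurd ⟨rfl, h⟩ hfpf
  have v3 : q = 3 → (fixF y).card = 6 ∨ (fixF y).card = 0 := by
    rintro rfl
    exact three_fix hyM hy
  obtain ⟨h1a, h1b⟩ := h1
  clear hfpf
  generalize (fixF x ∩ fixF y).card = F at *
  generalize (fixF x).card = a at *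
  generalize (fixF y).card = b at *
  unfold Nat.ModEq at *
  rcases hp' with rfl | rfl <;> rcases hq' with rfl | rfl | rfl | rfl | rfl | rfl <;>
    first | rfl | (exfalso; simp at v2 v3; omega)

theorem M24_primes {q : ℕ} (hq : q.Prime) (h : q ∣ 244823040) : q = 2 ∨ q = 3 ∨ q = 5 ∨ q = 7 ∨ q = 11 ∨ q = 23 := by
  have h1 : (244823040 : ℕ) = 2 ^ 10 * 3 ^ 3 * 5 * 7 * 11 * 23 := by norm_num
  rw [h1] at h
  rcases (Nat.Prime.dvd_mul hq).1 h with h | h
  · rcases (Nat.Prime.dvd_mul hq).1 h with h | h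
    · rcases (Nat.Prime.dvd_mul hq).1 h with h | h
      · rcases (Nat.Prime.dvd_mul hq).1 h with h | h
        · rcases (Nat.Prime.dvd_mul hq).1 h with h | h
          · left; exact (Nat.prime_dvd_prime_iff_eq hq Nat.prime_two).1 (hq.dvd_of_dvd_pow h)
          · right; left; exact (Nat.prime_dvd_prime_iff_eq hq Nat.prime_three).1 (hq.dvd_of_dvd_pow h)
        · right; right; left; exact (Nat.prime_dvd_prime_iff_eq hq Nat.prime_five).1 h
      · right; right; right; left; exact (Nat.prime_dvd_prime_iff_eq hq (by norm_num)).1 h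
    · right; right; right; right; left; exact (Nat.prime_dvd_prime_iff_eq hq (by norm_num)).1 h
  · right; right; right; right; right; exact (Nat.prime_dvd_prime_iff_eq hq (by norm_num)).1 h

theorem M24_cent {p : ℕ} [hp : Fact p.Prime] {x : M24} (hx : orderOf x = p) (hp' : p = 11 ∨ p = 23) :
    Nat.card (Subgroup.centralizer ({x} : Set M24)) = p := by
  apply eq_prime_of hp.out Nat.card_pos.ne'
  · intro q hq hqd
    haveI : Fact q.Prime := ⟨hq⟩
    obtain ⟨⟨y, hy⟩, hyo⟩ := exists_prime_orderOf_dvd_card' q hqd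
    rw [Subgroup.orderOf_mk] at hyo
    have h1 := Subgroup.mem_centralizer_singleton_iff.1 hy
    refine M24_pair (x := x) (y := y) x.2 y.2 ?_ ?_ ?_ hp' ?_
    · rw [← hx]; exact Subgroup.orderOf_coe x
    · rw [← hyo]; exact Subgroup.orderOf_coe y
    · exact congrArg Subtype.val h1.symm
    · apply M24_primes hq
      rw [← Cfsg.Agent.H7.M24.card_M24]
      exact hqd.trans (Subgroup.card_subgroup_dvd_card _)
  · rw [← hx]
    have h1 : x ∈ Subgroup.centralizer ({x} : Set M24) := Subgroup.mem_centralizer_singleton_iff.2 rfl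
    have h2 := orderOf_dvd_natCard (⟨x, h1⟩ : Subgroup.centralizer ({x} : Set M24))
    rwa [Subgroup.orderOf_mk] at h2
  · intro h
    have h1 := h.trans (Subgroup.card_subgroup_dvd_card _)
    rw [Cfsg.Agent.H7.M24.card_M24] at h1
    rcases hp' with rfl | rfl <;> revert h1 <;> norm_num

theorem M24_sq {p : ℕ} (hp' : p = 5 ∨ p = 7 ∨ p = 11 ∨ p = 23) : ¬ p ^ 2 ∣ Nat.card M24 := by
  rw [Cfsg.Agent.H7.M24.card_M24]
  rcases hp' with rfl | rfl | rfl | rfl <;> norm_num

instance f23 : Fact (Nat.Prime 23) := ⟨by norm_num⟩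

theorem M24_aut11 {x : M24} (hx : orderOf x = 11) : Nat.card (autG x) = 10 := by
  obtain ⟨n, hn, hc⟩ := sylow_count (p := 11) hx (M24_sq (by simp))
  rw [M24_cent hx (by simp), Cfsg.Agent.H7.M24.card_M24] at hc
  have h1 := card_autG_dvd (p := 11) hx
  have h2 := Nat.le_of_dvd (by norm_num) h1
  have h0 := Nat.card_pos (α := autG x)
  generalize Nat.card (autG x) = a at *
  unfold Nat.ModEq at hn
  interval_cases a <;> omega

theorem M24_aut23 {x : M24} (hx : orderOf x = 23) : Nat.card (autG x) = 11 := by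
  obtain ⟨n, hn, hc⟩ := sylow_count (p := 23) hx (M24_sq (by simp))
  rw [M24_cent hx (by simp), Cfsg.Agent.H7.M24.card_M24] at hc
  have h1 := card_autG_dvd (p := 23) hx
  have h2 := Nat.le_of_dvd (by norm_num) h1
  have h0 := Nat.card_pos (α := autG x)
  generalize Nat.card (autG x) = a at *
  unfold Nat.ModEq at hn
  interval_cases a <;> omega

theorem M24_cent7 {x : M24} (hx : orderOf x = 7) : Nat.card (Subgroup.centralizer ({x} : Set M24)) = 42 := by
  have h := (Cfsg.Agent.S5604.result (Subgroup.zpowers x) (by rw [Nat.card_zpowers, hx])).2.1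
  rwa [centralizer_zpowers] at h

theorem M24_aut7 {x : M24} (hx : orderOf x = 7) : Nat.card (autG x) = 3 := by
  have h := (Cfsg.Agent.S5604.result (Subgroup.zpowers x) (by rw [Nat.card_zpowers, hx])).1
  rw [card_normalizer, M24_cent7 hx] at h
  omega

theorem M24_exists {p : ℕ} [hp : Fact p.Prime] (hp' : p = 5 ∨ p = 7 ∨ p = 11 ∨ p = 23) : ∃ x : M24, orderOf x = p := by
  apply exists_prime_orderOf_dvd_card'
  rw [Cfsg.Agent.H7.M24.card_M24]
  rcases hp' with rfl | rfl | rfl | rfl <;> norm_num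

open Classical in
theorem M24_data7 [Fintype M24] (χ : IrrCharacter M24) :
    ∃ n : ℕ, ∑ g ∈ Finset.univ.filter (fun g : M24 => orderOf g = 7), ‖(χ : M24 → ℂ) g‖ ^ 2 =
      n * 11658240 ∧ n % 7 = ((charDegree (χ : M24 → ℂ)) ^ 2) % 7 := by
  obtain ⟨x, hx⟩ := M24_exists (p := 7) (by simp)
  obtain ⟨h1, h2⟩ := prime_card hx (M24_sq (by simp)) (Or.inr (by rw [M24_aut7 hx]; exact ⟨rfl, by decide⟩))
  obtain ⟨n, h3, h4, h5⟩ := prime_sum χ hx (M24_sq (by simp)) h1
  rw [M24_cent7 hx, M24_aut7 hx, Cfsg.Agent.H7.M24.card_M24] at h2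
  refine ⟨n, ?_, h5⟩
  rw [h4]
  have h6 : (Finset.univ.filter (fun g : M24 => orderOf g = 7)).card = 11658240 := by omega
  rw [h6]; norm_num

open Classical in
theorem M24_data11 [Fintype M24] (χ : IrrCharacter M24) :
    ∃ n : ℕ, ∑ g ∈ Finset.univ.filter (fun g : M24 => orderOf g = 11), ‖(χ : M24 → ℂ) g‖ ^ 2 =
      n * 22256640 ∧ n % 11 = ((charDegree (χ : M24 → ℂ)) ^ 2) % 11 := by
  obtain ⟨x, hx⟩ := M24_exists (p := 11) (by simp)
  obtain ⟨h1, h2⟩ := prime_card hx (M24_sq (by simp)) (Or.inl (M24_aut11 hx))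
  obtain ⟨n, h3, h4, h5⟩ := prime_sum χ hx (M24_sq (by simp)) h1
  rw [M24_cent hx (by simp), M24_aut11 hx, Cfsg.Agent.H7.M24.card_M24] at h2
  refine ⟨n, ?_, h5⟩
  rw [h4]
  have h6 : (Finset.univ.filter (fun g : M24 => orderOf g = 11)).card = 22256640 := by omega
  rw [h6]; norm_num

open Classical in
theorem M24_data23 [Fintype M24] (χ : IrrCharacter M24) :
    ∃ n : ℕ, ∑ g ∈ Finset.univ.filter (fun g : M24 => orderOf g = 23), ‖(χ : M24 → ℂ) g‖ ^ 2 =
      n * 21288960 ∧ n % 23 = ((charDegree (χ : M24 → ℂ)) ^ 2) % 23 := by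
  obtain ⟨x, hx⟩ := M24_exists (p := 23) (by simp)
  obtain ⟨h1, h2⟩ := prime_card hx (M24_sq (by simp)) (Or.inr (by rw [M24_aut23 hx]; exact ⟨rfl, by decide⟩))
  obtain ⟨n, h3, h4, h5⟩ := prime_sum χ hx (M24_sq (by simp)) h1
  rw [M24_cent hx (by simp), M24_aut23 hx, Cfsg.Agent.H7.M24.card_M24] at h2
  refine ⟨n, ?_, h5⟩
  rw [h4]
  have h6 : (Finset.univ.filter (fun g : M24 => orderOf g = 23)).card = 21288960 := by omega
  rw [h6]; norm_num

end Cfsg.Agent.H26.M24F
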