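import Mathlib
import Cfsg.Agent.H26_M24H

/-!
# H26_M24I: `M24` has one 2-block
-/

set_option autoImplicit false

namespace Cfsg.Agent.H26.M24F

open Cfsg Cfsg.Agent.H7.Golay Cfsg.Agent.H7.Oct Cfsg.Agent.H7.M24 Cfsg.Agent.H7.M24d Cfsg.Agent.H28.Cls Cfsg.Agent.H26.Cnt
  Cfsg.Agent.H26.Basic Cfsg.Agent.H3.CharIrr Cfsg.Agent.H3.CharComplete
open scoped Pointwise

theorem M24_fact2 : (244823040 : ℕ).factorization 2 = 10 := by
  have h1 : (244823040 : ℕ) = 2 ^ 10 * 239085 := by norm_num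
  rw [h1, Nat.factorization_mul (by norm_num) (by norm_num), Finsupp.add_apply, Nat.Prime.factorization_pow Nat.prime_two,
    Nat.factorization_eq_zero_of_not_dvd (by norm_num : ¬ 2 ∣ 239085)]
  simp

theorem M24_fact5 : (244823040 : ℕ).factorization 5 = 1 := by
  have h1 : (244823040 : ℕ) = 5 ^ 1 * 48964608 := by norm_num
  rw [h1, Nat.factorization_mul (by norm_num) (by norm_num), Finsupp.add_apply, Nat.Prime.factorization_pow (by norm_num),
    Nat.factorization_eq_zero_of_not_dvd (by norm_num : ¬ 5 ∣ 48964608)]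
  simp

theorem M24_dz (χ : IrrCharacter M24) :
    ¬ 2 ^ (Nat.card M24).factorization 2 ∣ charDegree (χ : M24 → ℂ) := by
  classical
  haveI : Fintype M24 := Fintype.ofFinite _
  intro hdz
  have hd := cd_dvd_card χ
  rw [Cfsg.Agent.H7.M24.card_M24] at hdz hd
  rw [M24_fact2] at hdz
  have hd0 := cd_pos χ
  obtain ⟨n7, h7b, h7c⟩ := M24_data7 χ
  obtain ⟨n11, h11b, h11c⟩ := M24_data11 χ
  obtain ⟨n23, h23b, h23c⟩ := M24_data23 χ
  have htot := sum_all χ
  rw [Cfsg.Agent.H7.M24.card_M24] at htot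
  set F : M24 → ℝ := fun g => ‖(χ : M24 → ℂ) g‖ ^ 2 with hF
  have hF0 : ∀ g, 0 ≤ F g := fun g => by positivity
  have hone : F 1 = ((charDegree (χ : M24 → ℂ)) ^ 2 : ℕ) := by
    rw [hF]
    change ‖(χ : M24 → ℂ) 1‖ ^ 2 = _
    rw [← cd_eq, Complex.norm_natCast]; push_cast; rfl
  have hsplit : F 1 + (∑ g ∈ Finset.univ.filter (fun g : M24 => orderOf g = 7), F g) +
      (∑ g ∈ Finset.univ.filter (fun g : M24 => orderOf g = 11), F g) +
      (∑ g ∈ Finset.univ.filter (fun g : M24 => orderOf g = 23), F g) +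
      (∑ g ∈ Finset.univ.filter (fun g : M24 => 5 ∣ orderOf g), F g) ≤ ∑ g, F g := by
    have h1 : F 1 = ∑ g ∈ Finset.univ.filter (fun g : M24 => orderOf g = 1), F g := by
      have : Finset.univ.filter (fun g : M24 => orderOf g = 1) = {1} := by
        ext g; simp
      rw [this, Finset.sum_singleton]
    rw [h1, Finset.sum_filter, Finset.sum_filter, Finset.sum_filter, Finset.sum_filter, Finset.sum_filter,
      ← Finset.sum_add_distrib, ← Finset.sum_add_distrib, ← Finset.sum_add_distrib, ← Finset.sum_add_distrib]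
    refine Finset.sum_le_sum fun g _ => ?_
    have h0 := hF0 g
    by_cases e1 : orderOf g = 1
    · rw [e1]; simp
    by_cases e7 : orderOf g = 7
    · rw [e7]; simp
    by_cases e11 : orderOf g = 11
    · rw [e11]; simp
    by_cases e23 : orderOf g = 23
    · rw [e23]; simp
    rw [if_neg e1, if_neg e7, if_neg e11, if_neg e23]
    split_ifs <;> linarith
  have hS5 : (0 : ℝ) ≤ ∑ g ∈ Finset.univ.filter (fun g : M24 => 5 ∣ orderOf g), F g := Finset.sum_nonneg fun g _ => hF0 g
  have h5 : ¬ 5 ∣ charDegree (χ : M24 → ℂ) →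
      (48964608 : ℝ) ≤ ∑ g ∈ Finset.univ.filter (fun g : M24 => 5 ∣ orderOf g), F g := by
    intro h
    have h1 := sing_ge (p := 5) χ 1 (by rw [Cfsg.Agent.H7.M24.card_M24, M24_fact5])
      (exists_sing_ne χ h (by rw [Cfsg.Agent.H7.M24.card_M24]; norm_num))
    rw [Cfsg.Agent.H7.M24.card_M24] at h1
    change ((244823040 : ℕ) : ℝ) ≤ ((5 : ℕ) : ℝ) ^ 1 * ∑ g ∈ Finset.univ.filter (fun g : M24 => 5 ∣ orderOf g), F g at h1
    push_cast at h1
    linarith
  change ∑ g, F g = _ at htot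
  rw [htot, hone] at hsplit
  change ∑ g ∈ Finset.univ.filter (fun g : M24 => orderOf g = 7), F g = _ at h7b
  change ∑ g ∈ Finset.univ.filter (fun g : M24 => orderOf g = 11), F g = _ at h11b
  change ∑ g ∈ Finset.univ.filter (fun g : M24 => orderOf g = 23), F g = _ at h23b
  rw [h23b, h7b, h11b] at hsplit
  set d := charDegree (χ : M24 → ℂ) with hdd
  have hineq : d ^ 2 + n7 * 11658240 + n11 * 22256640 + n23 * 21288960 ≤ 244823040 := by
    have h1 : ((d ^ 2 + n7 * 11658240 + n11 * 22256640 + n23 * 21288960 : ℕ) : ℝ) ≤ ((244823040 : ℕ) : ℝ) := by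
      push_cast
      push_cast at hsplit
      linarith
    exact_mod_cast h1
  have hineq5 : ¬ 5 ∣ d → d ^ 2 + n7 * 11658240 + n11 * 22256640 + n23 * 21288960 + 48964608 ≤ 244823040 := by
    intro h
    have h2 := h5 h
    have h1 : ((d ^ 2 + n7 * 11658240 + n11 * 22256640 + n23 * 21288960 + 48964608 : ℕ) : ℝ) ≤ ((244823040 : ℕ) : ℝ) := by
      push_cast
      push_cast at hsplit
      linarith
    exact_mod_cast h1
  clear hsplit h5 hS5 htot h7b h11b h23b hone
  obtain ⟨k, hk⟩ := hdz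
  have hk1 : d = 1024 * k := by rw [hk]; norm_num
  have hk6 : k ≤ 15 := by
    by_contra hcon
    push Not at hcon
    have h1 : 16384 ≤ d := by omega
    have h2 : 16384 ^ 2 ≤ d ^ 2 := Nat.pow_le_pow_left h1 2
    omega
  clear hk
  clear_value d
  clear hF0 hF
  subst hk1
  interval_cases k
  · omega
  all_goals first
    | (exfalso; revert hd; norm_num; done)
    | (norm_num at h7c h11c h23c hineq hineq5; omega)

theorem M24_block {M : Ideal AlgInt} (hM : IsPModular 2 M) (χ ψ : IrrCharacter M24) :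
    SameBlock M (χ : M24 → ℂ) (ψ : M24 → ℂ) := by
  classical
  haveI : Fintype M24 := Fintype.ofFinite _
  haveI : Fact (Nat.Prime 2) := ⟨Nat.prime_two⟩
  refine Cfsg.Agent.H26.One.one_block_of_local hM ?_ M24_dz χ ψ
  intro z hz hft
  have hz' : orderOf (z : Equiv.Perm GolayPt) = 2 := by rw [← hz]; exact Subgroup.orderOf_coe z
  rcases inv_fix z.2 hz' with h | h
  · exact one_block_oct hM le_rfl z h rfl inf_le_left hft
  · exact one_block_fpf hM z hz' (card_zero_iff.1 h) hft

end Cfsg.Agent.H26.M24F
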