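import Cfsg.Agent.H26_O7N
import Cfsg.Agent.H26_SpLab
import Cfsg.Agent.H26_Sp2

/-! The subgroup of `Fi22` isomorphic to the seven-dimensional orthogonal group over the field with three elements. -/

set_option autoImplicit false
set_option maxRecDepth 100000

namespace Cfsg.Agent.H26.O7

open Cfsg H8.CE H8.Net H8.Act H8.Act2 H8.Act3 H8.Fi22M H26.Sp Cfsg.Spor Matrix

/-- the letters -/
abbrev ly : List ℕ := [2, 3, 4, 5, 6, 7, 8, 9]

theorem bet_lt' (i : ℕ) (hi : i < 351) : bet i < 3510 := by
  have h := bet_lt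
  rw [List.all_eq_true] at h
  exact blt_eq.1 (h i (List.mem_range.2 hi))

theorem bet_step (i : ℕ) (hi : i < 350) : bet i < bet (i + 1) := by
  have h := bet_mono
  rw [List.all_eq_true] at h
  exact blt_eq.1 (h i (List.mem_range.2 hi))

theorem bet_mono' (i : ℕ) : ∀ d, i + d + 1 < 351 → bet i < bet (i + d + 1) := by
  intro d
  induction d with
  | zero => intro h; exact bet_step i (by omega)
  | succ d ih =>
    intro h
    exact (ih (by omega)).trans (bet_step (i + d + 1) (by omega))

theorem bet_inj (i j : ℕ) (hi : i < 351) (hj : j < 351) (h : bet i = bet j) : i = j := by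
  by_contra hne
  rcases Nat.lt_or_gt_of_ne hne with h1 | h1
  · have h2 := bet_mono' i (j - i - 1) (by omega)
    rw [show i + (j - i - 1) + 1 = j by omega] at h2
    omega
  · have h2 := bet_mono' j (i - j - 1) (by omega)
    rw [show j + (i - j - 1) + 1 = i by omega] at h2
    omega

theorem sb {y : ℕ} (hy : y ∈ ly) : sbY y = true := by
  simp only [ly, List.mem_cons, List.not_mem_nil, or_false] at hy
  rcases hy with rfl | rfl | rfl | rfl | rfl | rfl | rfl | rfl
  exacts [sb2, sb3, sb4, sb5, sb6, sb7, sb8, sb9]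

theorem exists_psi : ∃ ψ : Subgroup.closure (x '' {y | y ∈ ly}) →* Equiv.Perm (Fin 351),
      (∀ y ∈ ly, ∀ i : Fin 351, ((((ψ (xS x ly y))⁻¹ : Equiv.Perm (Fin 351)) i : Fin 351) : ℕ) = (net L y).pos i) ∧
      ∀ h : Subgroup.closure (x '' {y | y ∈ ly}), ∀ i : Fin 351,
        ((phi (h : Spor.Fi22) ⟨bet i, bet_lt' i i.2⟩ : Fin 3510) : ℕ) = bet ((ψ h i : Fin 351) : ℕ) :=
  exists_subact (k := 9) (ic := H8.Fi22R.ic) compat sys (by decide) inv_ok (by decide) bet_lt' bet_inj (by
    intro y hy i hi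
    have h := sb hy
    rw [sbY, List.all_eq_true] at h
    exact Nat.eq_of_beq_eq_true (h i (List.mem_range.2 hi)))

/-- the action on 351 points -/
noncomputable def psi : Subgroup.closure (x '' {y | y ∈ ly}) →* Equiv.Perm (Fin 351) := exists_psi.choose

theorem compatS : Compat psi (xS x ly) L :=
  compat_quot exists_psi.choose_spec.1 (by
    intro y hy
    interval_cases y
    · exact Or.inr rfl
    · exact Or.inr rfl
    · exact Or.inl (by decide)
    · exact Or.inl (by decide)
    · exact Or.inl (by decide)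
    · exact Or.inl (by decide)
    · exact Or.inl (by decide)
    · exact Or.inl (by decide)
    · exact Or.inl (by decide)
    · exact Or.inl (by decide)
    · exact Or.inr rfl
    · exact Or.inr rfl
    · exact Or.inr rfl
    · exact Or.inr rfl
    · exact Or.inr rfl
    · exact Or.inr rfl)

theorem cardK : Nat.card (Subgroup.closure (x '' {y | y ∈ ly})) = 4585351680 := by
  have h1 := (Subgroup.closure (x '' {y | y ∈ ly})).card_mul_index
  have h2 : (Subgroup.closure (x '' {y | y ∈ ly})).index = 14080 := K_index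
  rw [h2, main.1] at h1
  exact Nat.eq_of_mul_eq_mul_right (show 0 < 14080 by norm_num) (h1.trans (by norm_num))

theorem psi_inj : Function.Injective psi :=
  (order_eq sys (exists_g sys (by decide : 351 ≤ 2 ^ 9) compatS sg_ok (by decide +kernel)) levs chain
    (by rw [cardK, prodM_levs])).2

/-! ### Labels -/

/-- the vector of a point -/
def vv (i : Fin 351) : I → K := vc vN i

theorem vv_inj (i j : Fin 351) (h : ∃ c : K, c ≠ 0 ∧ vv i = c • vv j) : i = j := by
  obtain ⟨c, hc, h⟩ := h
  obtain ⟨c', hc', hcc, hk⟩ := prop_kN (N := vN) (i := i) (j := j) h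
  have h1 := idx_ok
  rw [List.all_eq_true] at h1
  have h2 := h1 i (List.mem_range.2 i.2)
  have h3 := h1 j (List.mem_range.2 j.2)
  simp only [Bool.and_eq_true] at h2 h3
  have e1 := Nat.eq_of_beq_eq_true h2.1
  rw [hk] at e1
  have hc0 : c' ≠ 0 := by
    rintro rfl
    apply hc
    rw [← hcc]
    rfl
  have e2 : idx (kN vN c' j) = j := by
    interval_cases c'
    · exact absurd rfl hc0
    · exact Nat.eq_of_beq_eq_true h3.1
    · exact Nat.eq_of_beq_eq_true h3.2
  rw [e2] at e1
  exact Fin.ext e1.symm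

/-! ### The letters -/

theorem Qw {y : ℕ} (hy : y ∈ ly) : Q (vc wN y) = 2 := by
  have h : ∀ y ∈ ly, Q (vc wN y) = 2 := by decide +kernel
  exact h y hy

theorem tvY_ok {y : ℕ} (hy : y ∈ ly) : tvY y = true := by
  simp only [ly, List.mem_cons, List.not_mem_nil, or_false] at hy
  rcases hy with rfl | rfl | rfl | rfl | rfl | rfl | rfl | rfl
  exacts [tv2, tv3, tv4, tv5, tv6, tv7, tv8, tv9]

theorem let_mem {y : ℕ} (hy : y ∈ ly) :
    (xS x ly y, rfS (vc wN y) (Qw hy)) ∈ labP psi rho vv := by
  have hy16 : y < 16 := by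
    have : ∀ y ∈ ly, y < 16 := by decide
    exact this y hy
  rw [mem_labP]
  intro j
  have h := tvY_ok hy
  rw [tvY, List.all_eq_true] at h
  have h2 := h (psi (xS x ly y) j : Fin 351) (List.mem_range.2 (Fin.is_lt _))
  have h4 : (net L y).pos ((psi (xS x ly y) j : Fin 351) : ℕ) = j := by
    rw [← compatS y hy16]
    exact congrArg Fin.val (Equiv.symm_apply_apply _ _)
  rw [h4] at h2
  obtain ⟨c, hc, h3⟩ := tvA_sound h2
  exact ⟨c, hc, h3⟩

/-! ### Scalars -/

theorem sc_eq : ∀ b c d : K, b ≠ 0 → c * (d * b) = b → c = d := by decide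

/-- coefficients as field elements -/
def cK (t : I) (j : ℕ) : K := (((cf.getD (ps t) []).getD j 0 : ℕ) : K)

theorem span_ok : ∀ t r : I, (Pi.single t 1 : I → K) r = cK t 0 * vc wN 2 r + cK t 1 * vc wN 3 r + cK t 2 * vc wN 4 r +
    cK t 3 * vc wN 5 r + cK t 4 * vc wN 6 r + cK t 5 * vc wN 7 r + cK t 6 * vc wN 8 r + cK t 7 * vc wN 9 r := by
  decide +kernel

theorem one_of_eig (A : SO) (h : ∀ y ∈ ly, ∃ c : K, rho A *ᵥ vc wN y = c • vc wN y) : A = 1 := by
  have key : ∀ y z, B (vc wN y) (vc wN z) ≠ 0 → ∀ c d : K, rho A *ᵥ vc wN y = c • vc wN y →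
      rho A *ᵥ vc wN z = d • vc wN z → c = d := by
    intro y z hyz c d hc hd
    have h1 := rho_B A (vc wN y) (vc wN z)
    rw [hc, hd, B_smul_left, B_smul_right] at h1
    exact sc_eq _ _ _ hyz h1
  obtain ⟨c2, h2⟩ := h 2 (by decide)
  obtain ⟨c3, h3⟩ := h 3 (by decide)
  obtain ⟨c4, h4⟩ := h 4 (by decide)
  obtain ⟨c5, h5⟩ := h 5 (by decide)
  obtain ⟨c6, h6⟩ := h 6 (by decide)
  obtain ⟨c7, h7⟩ := h 7 (by decide)
  obtain ⟨c8, h8⟩ := h 8 (by decide)
  obtain ⟨c9, h9⟩ := h 9 (by decide)
  have e23 : c3 = c2 := key 3 2 (by decide +kernel) _ _ h3 h2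
  have e34 : c4 = c3 := key 4 3 (by decide +kernel) _ _ h4 h3
  have e45 : c5 = c4 := key 5 4 (by decide +kernel) _ _ h5 h4
  have e56 : c6 = c5 := key 6 5 (by decide +kernel) _ _ h6 h5
  have e67 : c7 = c6 := key 7 6 (by decide +kernel) _ _ h7 h6
  have e48 : c8 = c4 := key 8 4 (by decide +kernel) _ _ h8 h4
  have e89 : c9 = c8 := key 9 8 (by decide +kernel) _ _ h9 h8
  rw [e23] at h3 e34
  rw [e34] at h4 e45 e48
  rw [e45] at h5 e56
  rw [e56] at h6 e67
  rw [e67] at h7
  rw [e48] at h8 e89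
  rw [e89] at h9
  have hs : ∀ t : I, rho A *ᵥ (Pi.single t 1) = c2 • Pi.single t 1 := by
    intro t
    have e : (Pi.single t 1 : I → K) = cK t 0 • vc wN 2 + cK t 1 • vc wN 3 + cK t 2 • vc wN 4 +
        cK t 3 • vc wN 5 + cK t 4 • vc wN 6 + cK t 5 • vc wN 7 + cK t 6 • vc wN 8 + cK t 7 • vc wN 9 := by
      ext r
      rw [span_ok t r]
      rfl
    rw [e]
    simp only [mulVec_add, mulVec_smul, h2, h3, h4, h5, h6, h7, h8, h9, smul_add]
    simp only [smul_comm _ c2]
  have hA : rho A = c2 • (1 : Matrix I I K) := by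
    ext r t
    have h1 := congrFun (hs t) r
    rw [mulVec_single_one, Matrix.col_apply] at h1
    rw [h1, Pi.smul_apply, Matrix.smul_apply, Matrix.one_apply, Pi.single_apply]
  have hdet := rho_det A
  rw [hA, det_smul, det_one, mul_one] at hdet
  have hc : c2 = 1 := by
    have h7 : ∀ c : K, c ^ 7 = 1 → c = 1 := by decide
    exact h7 c2 (by rw [← hdet]; rfl)
  apply rho_inj
  rw [hA, hc, one_smul, map_one]

theorem pY_ok : ∀ y ∈ ly, pY.getD y 0 < 351 ∧ ∀ t : I, vc vN (pY.getD y 0) t = vc wN y t := by decide +kernel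

theorem hc1 (A : SO) (hA : ((1 : Subgroup.closure (x '' {y | y ∈ ly})), A) ∈ labP psi rho vv) : A = 1 := by
  rw [mem_labP] at hA
  apply one_of_eig
  intro y hy
  obtain ⟨h1, h2⟩ := pY_ok y hy
  obtain ⟨c, hc, e⟩ := hA ⟨_, h1⟩
  refine ⟨c, ?_⟩
  have h3 : vv ⟨_, h1⟩ = vc wN y := funext h2
  rw [map_one] at e
  have h4 : ((1 : Equiv.Perm (Fin 351)) ⟨pY.getD y 0, h1⟩ : Fin 351) = ⟨_, h1⟩ := rfl
  rw [h4, h3] at e
  exact e

/-- the homomorphism to the orthogonal group -/
theorem exists_F : ∃ F : Subgroup.closure (x '' {y | y ∈ ly}) →* SO, Function.Injective F ∧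
    ∀ y (hy : y ∈ ly), F (xS x ly y) = rfS (vc wN y) (Qw hy) := by
  obtain ⟨F, hF⟩ := graph_hom (labP psi rho vv) _ (xS_top (x := x) ly) (by
    rintro _ ⟨y, hy, rfl⟩
    exact ⟨_, let_mem hy⟩) hc1
  refine ⟨F, ?_, ?_⟩
  · rw [injective_iff_map_eq_one]
    intro h hh
    have h1 := hF h
    rw [hh] at h1
    exact lab_snd_inj psi_inj vv_inj h1
  · intro y hy
    have h1 := (labP psi rho vv).mul_mem ((labP psi rho vv).inv_mem (hF (xS x ly y))) (let_mem hy)
    have h2 : ((xS x ly y, F (xS x ly y))⁻¹ * (xS x ly y, rfS (vc wN y) (Qw hy)) :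
        Subgroup.closure (x '' {y | y ∈ ly}) × SO) = (1, (F (xS x ly y))⁻¹ * rfS (vc wN y) (Qw hy)) := by
      ext <;> simp
    rw [h2] at h1
    exact (inv_mul_eq_one.1 (hc1 _ h1))

/-! ### Perfectness -/

theorem evs {w w' : List ℕ} (h : ev x w = ev x w') (hw : (w.all fun y => ly.contains y) = true)
    (hw' : (w'.all fun y => ly.contains y) = true) : ev (xS x ly) w = ev (xS x ly) w' := by
  have key : ∀ w : List ℕ, (w.all fun y => ly.contains y) = true →
      ((ev (xS x ly) w : Subgroup.closure (x '' {y | y ∈ ly})) : Fi22) = ev x w := by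
    intro w
    induction w with
    | nil => intro _; rfl
    | cons y w ih =>
      intro hw
      rw [List.all_cons, Bool.and_eq_true] at hw
      rw [ev_cons, ev_cons, Subgroup.coe_mul, ih hw.2, xS_coe (by rw [← List.contains_iff_mem]; exact hw.1)]
  apply Subtype.ext
  rw [key w hw, key w' hw', h]

theorem eqv {u w : List ℕ} (hu : (u.all fun y => Nat.blt y 16) = true) (hw : (w.all fun y => Nat.blt y 16) = true)
    (he : eqW H8.Fi22A.L 3510 12 u w = true) : ev x u = ev x w :=
  @evq _ _ 3510 12 _ _ _ compat main.2 H8.Fi22A.sys hn u w hu hw he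

theorem s2 : eqW H8.Fi22A.L 3510 12 [2, 2] [] = true := by decide +kernel
theorem s3 : eqW H8.Fi22A.L 3510 12 [3, 3] [] = true := by decide +kernel
theorem s4 : eqW H8.Fi22A.L 3510 12 [4, 4] [] = true := by decide +kernel
theorem s5 : eqW H8.Fi22A.L 3510 12 [5, 5] [] = true := by decide +kernel
theorem s6 : eqW H8.Fi22A.L 3510 12 [6, 6] [] = true := by decide +kernel
theorem s7 : eqW H8.Fi22A.L 3510 12 [7, 7] [] = true := by decide +kernel
theorem s8 : eqW H8.Fi22A.L 3510 12 [8, 8] [] = true := by decide +kernel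
theorem s9 : eqW H8.Fi22A.L 3510 12 [9, 9] [] = true := by decide +kernel
theorem w23 : eqW H8.Fi22A.L 3510 12 [2, 3, 2] [3, 2, 3] = true := by decide +kernel
theorem w34 : eqW H8.Fi22A.L 3510 12 [3, 4, 3] [4, 3, 4] = true := by decide +kernel
theorem w45 : eqW H8.Fi22A.L 3510 12 [4, 5, 4] [5, 4, 5] = true := by decide +kernel
theorem w56 : eqW H8.Fi22A.L 3510 12 [5, 6, 5] [6, 5, 6] = true := by decide +kernel
theorem w67 : eqW H8.Fi22A.L 3510 12 [6, 7, 6] [7, 6, 7] = true := by decide +kernel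
theorem w48 : eqW H8.Fi22A.L 3510 12 [4, 8, 4] [8, 4, 8] = true := by decide +kernel
theorem w89 : eqW H8.Fi22A.L 3510 12 [8, 9, 8] [9, 8, 9] = true := by decide +kernel
theorem w9 : eqW H8.Fi22A.L 3510 12 (powW [2, 3, 4, 5, 6, 7, 8] 9) [] = true := by decide +kernel

theorem perf {T : Type*} [CommGroup T] (f : Subgroup.closure (x '' {y | y ∈ ly}) →* T) : f = 1 := by
  have hE : ∀ w w' : List ℕ, eqW H8.Fi22A.L 3510 12 w w' = true → (w.all fun y => Nat.blt y 16) = true →
      (w'.all fun y => Nat.blt y 16) = true → (w.all fun y => ly.contains y) = true →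
      (w'.all fun y => ly.contains y) = true → f (ev (xS x ly) w) = f (ev (xS x ly) w') := by
    intro w w' h h1 h2 h3 h4
    rw [evs (eqv h1 h2 h) h3 h4]
  have adj : ∀ a b : T, a * b * a = b * a * b → a = b := by
    intro a b h
    have h1 : a * (a * b) = b * (a * b) := by
      rw [← mul_assoc, mul_comm (a * a) b]
      calc b * (a * a) = a * b * a := by rw [← mul_assoc, mul_comm b a]
        _ = b * a * b := h
        _ = b * (a * b) := mul_assoc _ _ _
    exact mul_right_cancel h1
  have e23 := hE _ _ w23 (by decide) (by decide) (by decide) (by decide)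
  have e34 := hE _ _ w34 (by decide) (by decide) (by decide) (by decide)
  have e45 := hE _ _ w45 (by decide) (by decide) (by decide) (by decide)
  have e56 := hE _ _ w56 (by decide) (by decide) (by decide) (by decide)
  have e67 := hE _ _ w67 (by decide) (by decide) (by decide) (by decide)
  have e48 := hE _ _ w48 (by decide) (by decide) (by decide) (by decide)
  have e89 := hE _ _ w89 (by decide) (by decide) (by decide) (by decide)
  have q2 := hE _ _ s2 (by decide) (by decide) (by decide) (by decide)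
  have q9 := hE _ _ w9 (by decide +kernel) (by decide) (by decide +kernel) (by decide)
  simp only [ev_powW] at q9
  simp only [ev_cons, ev_nil, mul_one, map_mul, map_pow, map_one, ← mul_assoc] at e23 e34 e45 e56 e67 e48 e89 q2 q9
  have t3 := (adj _ _ e23).symm
  have t4 := (adj _ _ e34).symm
  have t5 := (adj _ _ e45).symm
  have t6 := (adj _ _ e56).symm
  have t7 := (adj _ _ e67).symm
  have t8 := (adj _ _ e48).symm
  have t9 := (adj _ _ e89).symm
  rw [t5] at t6
  rw [t6] at t7
  rw [t8] at t9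
  rw [t4] at t5 t6 t7 t8 t9
  rw [t3] at t4 t5 t6 t7 t8 t9
  rw [t3, t4, t5, t6, t7, t8] at q9
  have h1 : f (xS x ly 2) = 1 := by
    generalize f (xS x ly 2) = a at q2 q9
    have h2 : (a * a * a * a * a * a * a) ^ 9 = (a * a) ^ 31 * a := by
      rw [← pow_two, ← pow_mul, ← pow_succ, ← pow_succ, ← pow_succ, ← pow_succ, ← pow_succ, ← pow_succ, ← pow_mul]
    rw [h2, q2, one_pow, one_mul] at q9
    exact q9
  have h2 : (⊤ : Subgroup (Subgroup.closure (x '' {y | y ∈ ly}))) ≤ f.ker := by
    rw [← xS_top (x := x) ly, Subgroup.closure_le]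
    rintro _ ⟨y, hy, rfl⟩
    simp only [ly, Set.mem_ofPred_eq, List.mem_cons, List.not_mem_nil, or_false] at hy
    rcases hy with rfl | rfl | rfl | rfl | rfl | rfl | rfl | rfl
    · exact h1
    · exact t3.trans h1
    · exact t4.trans h1
    · exact t5.trans h1
    · exact t6.trans h1
    · exact t7.trans h1
    · exact t8.trans h1
    · exact t9.trans h1
  ext h
  exact h2 (Subgroup.mem_top h)

/-! ### The isomorphism -/

theorem main7 (hcard : Nat.card (POmega K Q) = 4585351680) :
    Nonempty (Subgroup.closure (x '' {y | y ∈ ly}) ≃* POmega K Q) := by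
  obtain ⟨F, hFi, hFy⟩ := exists_F
  have hmem : ∀ h, ((F h : SO) : isometryGroup K Q) ∈ Omega K Q := by
    intro h
    have h1 := perf ((Abelianization.of (G := isometryGroup K Q)).comp (SO.subtype.comp F))
    have h2 := DFunLike.congr_fun h1 h
    have h3 : ((F h : SO) : isometryGroup K Q) ∈ (Abelianization.of (G := isometryGroup K Q)).ker := h2
    rw [Abelianization.ker_of] at h3
    exact h3
  let F1 : Subgroup.closure (x '' {y | y ∈ ly}) →* Omega K Q :=
    (SO.subtype.comp F).codRestrict (Omega K Q) hmem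
  have hF1 : Function.Injective F1 := by
    intro a b hab
    apply hFi
    apply Subtype.ext
    have h1 : ((F1 a : Omega K Q) : isometryGroup K Q) = (F1 b : Omega K Q) := congrArg Subtype.val hab
    exact h1
  let F2 : Subgroup.closure (x '' {y | y ∈ ly}) →* POmega K Q := (QuotientGroup.mk' _).comp F1
  have hF2 : Function.Injective F2 := by
    rw [injective_iff_map_eq_one]
    intro h hh
    have h1 : F1 h ∈ Subgroup.center (Omega K Q) := (QuotientGroup.eq_one_iff _).1 hh
    have h2 : ∀ k, h * k = k * h := by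
      intro k
      apply hF1
      rw [map_mul, map_mul]
      exact (Subgroup.mem_center_iff.1 h1 (F1 k)).symm
    apply hFi
    rw [map_one]
    apply one_of_eig
    intro y hy
    apply comm_eig (Qw hy)
    rw [← hFy y hy, ← map_mul, ← map_mul, h2]
  haveI : Finite (POmega K Q) := Nat.finite_of_card_ne_zero (by rw [hcard]; norm_num)
  have hb : Function.Bijective F2 :=
    (Nat.bijective_iff_injective_and_card F2).2 ⟨hF2, by rw [cardK, hcard]⟩
  exact ⟨MulEquiv.ofBijective F2 hb⟩

end Cfsg.Agent.H26.O7
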