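import Cfsg.Agent.H26_O7F

/-! Packed vectors over the field with three elements. -/

set_option autoImplicit false

namespace Cfsg.Agent.H26.O7

open Matrix Cfsg

/-- digit of a packed list of vectors of length 7 -/
def cdN (N i t : ℕ) : ℕ :=
  Nat.land (Nat.shiftRight N (Nat.add (Nat.mul (nat_lit 14) i) (Nat.mul (nat_lit 2) t))) (nat_lit 3)

/-- position of a coordinate -/
def ps : I → ℕ
  | .inl _ => 0
  | .inr (.inl i) => 1 + i
  | .inr (.inr i) => 4 + i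

/-- the vector -/
def vc (N i : ℕ) (t : I) : K := ((cdN N i (ps t) : ℕ) : K)

/-- the bilinear form -/
def bN (N i M j : ℕ) : ℕ :=
  Nat.add (Nat.add (Nat.add (Nat.mul 2 (Nat.mul (cdN N i 0) (cdN M j 0)))
    (Nat.add (Nat.mul (cdN N i 1) (cdN M j 4)) (Nat.mul (cdN N i 4) (cdN M j 1))))
    (Nat.add (Nat.mul (cdN N i 2) (cdN M j 5)) (Nat.mul (cdN N i 5) (cdN M j 2))))
    (Nat.add (Nat.mul (cdN N i 3) (cdN M j 6)) (Nat.mul (cdN N i 6) (cdN M j 3)))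

theorem bN_cast (N i M j : ℕ) : ((bN N i M j : ℕ) : K) = B (vc N i) (vc M j) := by
  have h : bN N i M j = 2 * (cdN N i 0 * cdN M j 0) + (cdN N i 1 * cdN M j 4 + cdN N i 4 * cdN M j 1) +
    (cdN N i 2 * cdN M j 5 + cdN N i 5 * cdN M j 2) + (cdN N i 3 * cdN M j 6 + cdN N i 6 * cdN M j 3) := rfl
  rw [h]
  simp only [B, Fin.sum_univ_three, vc, ps]
  push_cast
  norm_num
  ring

/-- one coordinate of the check of a reflection -/
def tvC (N i j M y c t : ℕ) : Bool :=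
  Nat.beq (Nat.mod (Nat.mul c (cdN N i t)) 3)
    (Nat.mod (Nat.mul 2 (Nat.add (cdN N j t) (Nat.mul (bN N j M y) (cdN M y t)))) 3)

/-- check `-(v j + B(v j, w) w) = c v i` -/
def tvB (N i j M y c : ℕ) : Bool :=
  tvC N i j M y c 0 && tvC N i j M y c 1 && tvC N i j M y c 2 && tvC N i j M y c 3 && tvC N i j M y c 4 &&
    tvC N i j M y c 5 && tvC N i j M y c 6

theorem cast_eq {a b : ℕ} (h : Nat.beq (Nat.mod a 3) (Nat.mod b 3) = true) : (a : K) = (b : K) :=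
  (ZMod.natCast_eq_natCast_iff a b 3).2 (Nat.eq_of_beq_eq_true h)

theorem two_neg (a : K) : 2 * a = -a := by revert a; decide

theorem tvC_sound {N i j M y c : ℕ} {t : ℕ} (h : tvC N i j M y c t = true) :
    (c : K) * (cdN N i t : ℕ) = -(((cdN N j t : ℕ) : K) + B (vc N j) (vc M y) * (cdN M y t : ℕ)) := by
  have h1 := cast_eq h
  rw [← bN_cast, ← two_neg]
  have h2 : ((c * cdN N i t : ℕ) : K) = ((2 * (cdN N j t + bN N j M y * cdN M y t) : ℕ) : K) := h1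
  push_cast at h2
  exact h2

theorem tvB_sound {N i j M y c : ℕ} (h : tvB N i j M y c = true) (t : I) :
    (c : K) * vc N i t = -(vc N j t + B (vc N j) (vc M y) * vc M y t) := by
  simp only [tvB, Bool.and_eq_true] at h
  obtain ⟨⟨⟨⟨⟨⟨h0, h1⟩, h2⟩, h3⟩, h4⟩, h5⟩, h6⟩ := h
  have key : ∀ s, s = 0 ∨ s = 1 ∨ s = 2 ∨ s = 3 ∨ s = 4 ∨ s = 5 ∨ s = 6 → tvC N i j M y c s = true := by
    rintro s (rfl | rfl | rfl | rfl | rfl | rfl | rfl)
    exacts [h0, h1, h2, h3, h4, h5, h6]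
  apply tvC_sound
  apply key
  rcases t with _ | t | t
  · exact Or.inl rfl
  · show 1 + (t : ℕ) = 0 ∨ _
    have := t.2
    rw [show ps (Sum.inr (Sum.inl t)) = 1 + (t : ℕ) from rfl]
    omega
  · have := t.2
    rw [show ps (Sum.inr (Sum.inr t)) = 4 + (t : ℕ) from rfl]
    omega

/-- the same with a search for the scalar -/
def tvA (N i j M y : ℕ) : Bool := tvB N i j M y 1 || tvB N i j M y 2

theorem tvA_sound {N i j M y : ℕ} (h : tvA N i j M y = true) :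
    ∃ c : K, c ≠ 0 ∧ rf (vc M y) *ᵥ vc N j = c • vc N i := by
  have key : ∀ c : ℕ, (c : K) ≠ 0 → tvB N i j M y c = true →
      ∃ c : K, c ≠ 0 ∧ rf (vc M y) *ᵥ vc N j = c • vc N i := by
    intro c hc0 h1
    refine ⟨c, hc0, ?_⟩
    rw [rf_mulVec]
    ext t
    rw [Pi.smul_apply, smul_eq_mul, tvB_sound h1 t]
    rfl
  simp only [tvA, Bool.or_eq_true] at h
  rcases h with h | h
  · exact key 1 (by decide) h
  · exact key 2 (by decide) h

/-- the code of a multiple of a vector -/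
def kN (N c i : ℕ) : ℕ :=
  Nat.add (Nat.mod (Nat.mul c (cdN N i 0)) 3) (Nat.mul 4 (Nat.add (Nat.mod (Nat.mul c (cdN N i 1)) 3)
    (Nat.mul 4 (Nat.add (Nat.mod (Nat.mul c (cdN N i 2)) 3) (Nat.mul 4 (Nat.add (Nat.mod (Nat.mul c (cdN N i 3)) 3)
    (Nat.mul 4 (Nat.add (Nat.mod (Nat.mul c (cdN N i 4)) 3) (Nat.mul 4 (Nat.add (Nat.mod (Nat.mul c (cdN N i 5)) 3)
    (Nat.mul 4 (Nat.mod (Nat.mul c (cdN N i 6)) 3))))))))))))

theorem prop_kN {N i j : ℕ} {c : K} (h : vc N i = c • vc N j) : ∃ c' : ℕ, c' < 3 ∧ (c' : K) = c ∧ kN N 1 i = kN N c' j := by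
  refine ⟨c.val, ZMod.val_lt c, ZMod.natCast_zmod_val c, ?_⟩
  have h1 : ∀ t : I, Nat.mod (Nat.mul 1 (cdN N i (ps t))) 3 = Nat.mod (Nat.mul c.val (cdN N j (ps t))) 3 := by
    intro t
    have h2 := congrFun h t
    have h3 : ((1 * cdN N i (ps t) : ℕ) : K) = ((c.val * cdN N j (ps t) : ℕ) : K) := by
      push_cast
      rw [ZMod.natCast_zmod_val, one_mul]
      exact h2
    exact (ZMod.natCast_eq_natCast_iff' _ _ 3).1 h3
  have z0 := h1 (.inl ())
  have z1 := h1 (.inr (.inl 0))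
  have z2 := h1 (.inr (.inl 1))
  have z3 := h1 (.inr (.inl 2))
  have z4 := h1 (.inr (.inr 0))
  have z5 := h1 (.inr (.inr 1))
  have z6 := h1 (.inr (.inr 2))
  unfold kN
  rw [show Nat.mod (Nat.mul 1 (cdN N i 0)) 3 = _ from z0, show Nat.mod (Nat.mul 1 (cdN N i 1)) 3 = _ from z1,
    show Nat.mod (Nat.mul 1 (cdN N i 2)) 3 = _ from z2, show Nat.mod (Nat.mul 1 (cdN N i 3)) 3 = _ from z3,
    show Nat.mod (Nat.mul 1 (cdN N i 4)) 3 = _ from z4, show Nat.mod (Nat.mul 1 (cdN N i 5)) 3 = _ from z5,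
    show Nat.mod (Nat.mul 1 (cdN N i 6)) 3 = _ from z6]
  rfl

end Cfsg.Agent.H26.O7
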