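import Mathlib
import Cfsg.Prelude.Def_Classical

/-! The seven-dimensional orthogonal group over the field with three elements. -/

set_option autoImplicit false

namespace Cfsg.Agent.H26.O7

open Matrix Cfsg

/-- the index type -/
abbrev I : Type := Unit ⊕ (Fin 3 ⊕ Fin 3)

abbrev K : Type := ZMod 3

/-- the quadratic form -/
abbrev Q : (I → K) → K := quadFormOdd 3 K

/-- the bilinear form -/
def B (u v : I → K) : K := 2 * (u (.inl ()) * v (.inl ())) +
  ∑ i : Fin 3, (u (.inr (.inl i)) * v (.inr (.inr i)) + u (.inr (.inr i)) * v (.inr (.inl i)))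

theorem B_def (u v : I → K) : B u v = Q (u + v) - Q u - Q v := by
  simp only [B, Q, quadFormOdd, Fin.sum_univ_three, Pi.add_apply]
  ring

theorem Q_add_smul (u w : I → K) (c : K) : Q (u + c • w) = Q u + c * B u w + c ^ 2 * Q w := by
  simp only [B, Q, quadFormOdd, Fin.sum_univ_three, Pi.add_apply, Pi.smul_apply, smul_eq_mul]
  ring

theorem Q_neg (u : I → K) : Q (-u) = Q u := by
  simp only [Q, quadFormOdd, Fin.sum_univ_three, Pi.neg_apply]
  ring

theorem B_self (w : I → K) : B w w = 2 * Q w := by
  simp only [B, Q, quadFormOdd, Fin.sum_univ_three]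
  ring

theorem B_add_left (u u' v : I → K) : B (u + u') v = B u v + B u' v := by
  simp only [B, Fin.sum_univ_three, Pi.add_apply]
  ring

theorem B_smul_left (c : K) (u v : I → K) : B (c • u) v = c * B u v := by
  simp only [B, Fin.sum_univ_three, Pi.smul_apply, smul_eq_mul]
  ring

theorem B_smul_right (c : K) (u v : I → K) : B u (c • v) = c * B u v := by
  simp only [B, Fin.sum_univ_three, Pi.smul_apply, smul_eq_mul]
  ring

theorem B_comm (u v : I → K) : B u v = B v u := by
  simp only [B, Fin.sum_univ_three]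
  ring

/-- the dual vector -/
def bd (w : I → K) : I → K
  | .inl _ => 2 * w (.inl ())
  | .inr (.inl i) => w (.inr (.inr i))
  | .inr (.inr i) => w (.inr (.inl i))

theorem bd_dot (w v : I → K) : bd w ⬝ᵥ v = B v w := by
  rw [dotProduct, Fintype.sum_sum_type, Fintype.sum_sum_type]
  simp only [bd, B, Fin.sum_univ_three, Finset.univ_unique, Finset.sum_singleton, PUnit.default_eq_unit]
  ring

/-- minus the reflection -/
def rf (w : I → K) : Matrix I I K := -(1 + vecMulVec w (bd w))

theorem rf_mulVec (w v : I → K) : rf w *ᵥ v = -(v + B v w • w) := by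
  rw [rf, neg_mulVec, add_mulVec, one_mulVec, vecMulVec_mulVec]
  congr 2
  ext t
  rw [Pi.smul_apply, Pi.smul_apply, smul_eq_mul, MulOpposite.smul_eq_mul_unop, MulOpposite.unop_op, mul_comm, bd_dot]

theorem rf_sq {w : I → K} (hw : Q w = 2) : rf w * rf w = 1 := by
  have h : ∀ v : I → K, (rf w * rf w) *ᵥ v = v := by
    intro v
    rw [← mulVec_mulVec, rf_mulVec, rf_mulVec]
    have h1 : B (-(v + B v w • w)) w = -(B v w + B v w * (2 * Q w)) := by
      rw [← B_self, ← neg_one_smul K (v + B v w • w), B_smul_left, B_add_left, B_smul_left]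
      ring
    rw [h1, hw]
    have h2 : -(B v w + B v w * (2 * 2)) = B v w := by
      generalize B v w = b
      revert b; decide
    rw [h2]
    ext t
    simp only [Pi.neg_apply, Pi.add_apply, Pi.smul_apply, smul_eq_mul]
    ring
  ext i j
  have h1 := congrFun (h (Pi.single j 1)) i
  rw [mulVec_single_one] at h1
  rw [Matrix.one_apply]
  rw [Matrix.col_apply, Pi.single_apply] at h1
  exact h1

theorem rf_Q {w : I → K} (hw : Q w = 2) (v : I → K) : Q (rf w *ᵥ v) = Q v := by
  rw [rf_mulVec, Q_neg, Q_add_smul, hw]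
  generalize B v w = b
  generalize Q v = q
  revert b q; decide

theorem rf_det {w : I → K} (hw : Q w = 2) : (rf w).det = 1 := by
  rw [rf, det_neg, vecMulVec_eq Unit, det_one_add_replicateCol_mul_replicateRow, bd_dot, B_self, hw]
  decide

/-- the special orthogonal group -/
def SO : Subgroup (isometryGroup K Q) := (Matrix.GeneralLinearGroup.det.comp (isometryGroup K Q).subtype).ker

theorem mem_SO {A : isometryGroup K Q} : A ∈ SO ↔ ((A : Matrix.GeneralLinearGroup I K) : Matrix I I K).det = 1 := by
  rw [SO, MonoidHom.mem_ker, MonoidHom.comp_apply, Units.ext_iff, Matrix.GeneralLinearGroup.val_det_apply]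
  exact Iff.rfl

/-- the reflection in the special orthogonal group -/
def rfS (w : I → K) (hw : Q w = 2) : SO :=
  ⟨⟨⟨rf w, rf w, rf_sq hw, rf_sq hw⟩, fun u _ => rf_Q hw u⟩, by
    rw [mem_SO]
    exact rf_det hw⟩

/-- the matrix of an element -/
def rho : SO →* Matrix I I K := (Units.coeHom (Matrix I I K)).comp ((isometryGroup K Q).subtype.comp SO.subtype)

theorem rho_rfS (w : I → K) (hw : Q w = 2) : rho (rfS w hw) = rf w := rfl

theorem rho_inj : Function.Injective rho := by
  intro A B h
  apply Subtype.ext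
  apply Subtype.ext
  apply Units.ext
  exact h

theorem rho_Q (A : SO) (u : I → K) : Q (rho A *ᵥ u) = Q u := A.1.2 u u

theorem rho_B (A : SO) (u v : I → K) : B (rho A *ᵥ u) (rho A *ᵥ v) = B u v := by
  rw [B_def, B_def, ← mulVec_add, rho_Q, rho_Q, rho_Q]

theorem rho_det (A : SO) : (rho A).det = 1 := by
  exact mem_SO.1 A.2

/-- an element commuting with a reflection fixes its line -/
theorem comm_eig {A : SO} {w : I → K} (hw : Q w = 2) (hA : A * rfS w hw = rfS w hw * A) :
    ∃ c : K, rho A *ᵥ w = c • w := by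
  have h1 : rho A * rf w = rf w * rho A := by
    have h3 := congrArg rho hA
    rwa [map_mul, map_mul, rho_rfS] at h3
  have h2 : rf w *ᵥ (rho A *ᵥ w) = rho A *ᵥ (rf w *ᵥ w) := by
    rw [mulVec_mulVec, mulVec_mulVec, h1]
  rw [rf_mulVec, rf_mulVec, B_self, hw] at h2
  rw [mulVec_neg, mulVec_add, mulVec_smul] at h2
  refine ⟨B (rho A *ᵥ w) w, ?_⟩
  ext t
  have h3 := congrFun h2 t
  simp only [Pi.neg_apply, Pi.add_apply, Pi.smul_apply, smul_eq_mul] at h3 ⊢
  generalize (rho A *ᵥ w) t = a at h3 ⊢
  generalize B (rho A *ᵥ w) w * w t = b at h3 ⊢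
  revert a b; decide

end Cfsg.Agent.H26.O7
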