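import Cfsg.Agent.H26_ONM
import Cfsg.Agent.H26_J1p
import Cfsg.Agent.H26_M11p

/-! Subgroups of the O'Nan group and its permutation representation. -/

set_option autoImplicit false
set_option maxRecDepth 100000

namespace Cfsg.Agent.H26.ONM

open H8 H8.CE H8.Net H8.Act H8.Cox H8.CS H8.ONR H8.Act2 H8.Act3 H8.Act5 Cfsg.Spor H26.Pres

/-- choice of letters -/
def sel (a b c : ℕ) (y : ℕ) : ℕ := if y = 1 then a else if y = 2 then b else if y = 3 then c else 0

theorem ev_sel {G : Type*} [Group G] (X : ℕ → G) (a b c : ℕ) (w : List ℕ) :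
    ev (fun y => X (sel a b c y)) w = ev X (w.map (sel a b c)) := by
  induction w with
  | nil => rfl
  | cons y w ih => rw [ev_cons, List.map_cons, ev_cons, ih]

/-- basic relators for a subgroup of order 175560 -/
def bJ : List (List ℕ) := J1pR.rels.filter fun w => (w.all fun y => Nat.blt y 4) && !(redW w []).isEmpty

/-- basic relators for a subgroup of order 7920 -/
def bM : List (List ℕ) := M11pR.rels.filter fun w => (w.all fun y => Nat.blt y 4) && !(redW w []).isEmpty

theorem bJ_ok : basOk J1pR.ds J1pR.rels bJ = true := by decide +kernel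
theorem bM_ok : basOk M11pR.ds M11pR.rels bM = true := by decide +kernel
theorem bJ_lt : (bJ.all fun w => w.all fun y => Nat.blt y 4) = true := by decide +kernel
theorem bM_lt : (bM.all fun w => w.all fun y => Nat.blt y 4) = true := by decide +kernel
theorem bJ_sub : (bJ.all fun w => ONA.j1r.contains (w.map (sel 5 16 17))) = true := by decide +kernel
theorem bM_sub : (bM.all fun w => ONA.m11r.contains (w.map (sel 5 18 19))) = true := by decide +kernel
theorem j_inv : ONA.j1r.contains [16, 17] = true := by decide +kernel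
theorem m_inv : ONA.m11r.contains [18, 19] = true := by decide +kernel

theorem subs : (∃ K : Subgroup ON, Cfsg.IsJ1 K) ∧ (∃ K : Subgroup ON, Cfsg.IsM11 K) := by
  obtain ⟨X, hX, hXc⟩ := exists_XX
  have e5 : X 5 * X 5 = 1 := by
    rw [hX 5 (by decide)]
    have h := hic 5 (by decide)
    rw [show il ic 5 = 5 by decide] at h
    nth_rw 1 [h]
    exact inv_mul_cancel _
  have e0 : X 0 = 1 := by rw [hX 0 (by decide)]; exact h0
  have hne : X 5 ≠ 1 := by
    rw [hX 5 (by decide)]
    intro h
    have h1 := norm_top (⊥ : Subgroup ON) (by rw [h]; exact Subgroup.one_mem _)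
    have h2 : Nat.card ON = 1 := by
      have h3 : Nat.card (⊤ : Subgroup ON) = 1 := by rw [← h1]; exact Subgroup.card_bot
      rwa [Subgroup.card_top] at h3
    rw [main.1] at h2
    exact absurd h2 (by norm_num)
  have key : ∀ rs : List (List ℕ), Good ONA.L (nat_lit 122760) (nat_lit 17) (rs.map fun w => (w, [])) → ∀ w, rs.contains w = true →
      ev X w = 1 := by
    intro rs hg w hw
    rw [List.contains_iff_mem] at hw
    have h1 := hg (w, []) (List.mem_map.2 ⟨w, hw, rfl⟩)
    have h2 := evX_eq hXc main.2 ONA.sys hn h1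
    rw [h2, ev_nil]
  refine ⟨?_, ?_⟩
  · obtain ⟨K, h1, h2⟩ := J1p.exists_sub (fun y => X (sel 5 16 17 y)) e5 (by
        have h1 := key _ ONA.j1_good _ j_inv
        rw [ev_cons, ev_cons, ev_nil, mul_one] at h1
        exact h1) bJ_ok bJ_lt (by
        intro w hw
        rw [ev_sel]
        refine key _ ONA.j1_good _ ?_
        have h := bJ_sub
        rw [List.all_eq_true] at h
        exact h w hw) e0 hne
    exact ⟨K, h1, h2⟩
  · obtain ⟨K, h1, h2⟩ := M11p.exists_sub (fun y => X (sel 5 18 19 y)) e5 (by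
        have h1 := key _ ONA.m11_good _ m_inv
        rw [ev_cons, ev_cons, ev_nil, mul_one] at h1
        exact h1) bM_ok bM_lt (by
        intro w hw
        rw [ev_sel]
        refine key _ ONA.m11_good _ ?_
        have h := bM_sub
        rw [List.all_eq_true] at h
        exact h w hw) e0 hne
    exact ⟨K, h1, h2⟩

theorem S0460 : ∃ H : Subgroup (Equiv.Perm (Fin 122760)), Cfsg.IsON H ∧ MulAction.IsPretransitive H (Fin 122760) ∧
    Nat.card (MulAction.stabilizer H (0 : Fin 122760)) = 3753792 ∧ (∃ K : Subgroup H, Cfsg.IsJ1 K) ∧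
      (∃ K : Subgroup H, Cfsg.IsM11 K) := by
  let e : ON ≃* phi.range := MonoidHom.ofInjective main.2
  haveI := simple
  have sub : ∀ K : Subgroup ON, IsSimpleGroup K → IsSimpleGroup (K.map e.toMonoidHom) ∧
      Nat.card (K.map e.toMonoidHom) = Nat.card K := by
    intro K hK
    let E : K ≃* K.map e.toMonoidHom := e.subgroupMap K
    haveI : Nontrivial (K.map e.toMonoidHom) := E.toEquiv.symm.nontrivial
    exact ⟨IsSimpleGroup.isSimpleGroup_of_surjective E.toMonoidHom E.surjective, (Nat.card_congr E.toEquiv).symm⟩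
  refine ⟨phi.range, ⟨?_, ?_⟩, ?_, ?_, ?_, ?_⟩
  · haveI : Nontrivial phi.range := e.toEquiv.symm.nontrivial
    exact IsSimpleGroup.isSimpleGroup_of_surjective e.toMonoidHom e.surjective
  · rw [← Nat.card_congr e.toEquiv, main.1]
  · constructor
    intro i j
    obtain ⟨g, hg⟩ := htr i
    obtain ⟨g', hg'⟩ := htr j
    refine ⟨e (g' * g⁻¹), ?_⟩
    show phi (g' * g⁻¹) i = j
    rw [map_mul, map_inv, ← hg, ← hg']
    show phi g' ((phi g)⁻¹ (phi g _)) = _
    congr 1
    exact Equiv.symm_apply_apply _ _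
  · have h3 : (Hl l9).map e.toMonoidHom = MulAction.stabilizer phi.range (0 : Fin 122760) := by
      ext q
      rw [MulAction.mem_stabilizer_iff]
      constructor
      · rintro ⟨g, hg, rfl⟩
        exact (H_index.2 g).1 hg
      · intro hq
        obtain ⟨g, rfl⟩ := e.surjective q
        exact ⟨g, (H_index.2 g).2 hq, rfl⟩
    rw [← h3, ← cardH]
    exact (Nat.card_congr (e.subgroupMap (Hl l9)).toEquiv).symm
  · obtain ⟨K, h1, h2⟩ := subs.1
    exact ⟨K.map e.toMonoidHom, (sub K h1).1, by rw [(sub K h1).2, h2]⟩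
  · obtain ⟨K, h1, h2⟩ := subs.2
    exact ⟨K.map e.toMonoidHom, (sub K h1).1, by rw [(sub K h1).2, h2]⟩

end Cfsg.Agent.H26.ONM
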