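import Cfsg.Agent.H8_ONA
import Cfsg.Agent.H8_ON1T
import Cfsg.Agent.H8_ON2T
import Cfsg.Agent.H8_ON3T
import Cfsg.Agent.H8_Act5
import Cfsg.Prelude.Def_Sporadic

set_option autoImplicit false
set_option maxRecDepth 100000
set_option linter.constructorNameAsVariable false

namespace Cfsg.Agent.H26.ONM

open H8 H8.CE H8.Net H8.Act H8.Cox H8.CS H8.ONR H8.Act2 H8.Act3 H8.Act5 Cfsg.Spor

abbrev RR : Set (FreeGroup ON.Gen) := coxRelators ON.edges ∪ {r | r ∈ ON.extra}

/-- the letters in the presented group -/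
noncomputable abbrev x : ℕ → ON := xG RR lm

theorem hic : ∀ y, y < 16 → x (il ic y) = (x y)⁻¹ := by
  have h := (words _ (lift_of_rel RR)).1
  rw [← xG_eq] at h
  exact h

theorem hrels : ∀ w ∈ rels, ev x w = 1 := by
  have h := (words _ (lift_of_rel RR)).2
  rw [← xG_eq] at h
  exact h

theorem h0 : x 0 = 1 := by
  unfold x xG
  simp [lm]

theorem sub_rels {rs : List (List ℕ)} (h : (rs.all fun w => rels.contains w) = true) : ∀ w ∈ rs, ev x w = 1 := by
  intro w hw
  rw [List.all_eq_true] at h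
  have := h w hw
  rw [List.contains_iff_mem] at this
  exact hrels w this

/-- subgroups generated by lists of letters -/
noncomputable def Hl (l : List ℕ) : Subgroup ON := Subgroup.closure (x '' {y | y ∈ l})

theorem Hl_mono {l l' : List ℕ} (h : (l.all fun y => l'.contains y) = true) : Hl l ≤ Hl l' := by
  apply Subgroup.closure_mono
  apply Set.image_mono
  intro y hy
  rw [List.all_eq_true] at h
  have := h y hy
  rwa [List.contains_iff_mem] at this

theorem mem_Hl {l : List ℕ} {y : ℕ} (h : l.contains y = true) : x y ∈ Hl l :=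
  Subgroup.subset_closure ⟨y, by rwa [List.contains_iff_mem] at h, rfl⟩

theorem Hl_top : Hl [1, 2, 3, 4, 5, 6, 7, 8] = ⊤ := by
  apply closure_top
  intro a
  cases a
  exacts [⟨1, by decide, rfl⟩, ⟨3, by decide, rfl⟩, ⟨4, by decide, rfl⟩, ⟨5, by decide, rfl⟩, ⟨6, by decide, rfl⟩,
    ⟨7, by decide, rfl⟩, ⟨8, by decide, rfl⟩]

/-- letters fixing the point `0` -/
abbrev l9 : List ℕ := [3, 4, 5, 6, 7, 8]

theorem b1 : (Hl l9).relIndex (Hl [1, 2, 3, 4, 5, 6, 7, 8]) ≤ 122760 ∧
    (Hl l9).relIndex (Hl [1, 2, 3, 4, 5, 6, 7, 8]) ≠ 0 := by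
  have h := ON1T.bound (x := x) (H := Hl l9)
    hic h0 (sub_rels (by decide +kernel)) (by
      intro s hs
      simp only [ON1T.L, List.mem_cons, List.not_mem_nil, or_false] at hs
      rcases hs with rfl | rfl | rfl | rfl | rfl | rfl <;> exact mem_Hl (by decide))
  have e : (x '' {y | 1 ≤ y ∧ y ≤ 8}) = x '' {y | y ∈ ([1, 2, 3, 4, 5, 6, 7, 8] : List ℕ)} := by
    congr 1
    ext y
    simp only [Set.mem_ofPred_eq, List.mem_cons, List.not_mem_nil, or_false]
    omega
  rw [e] at h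
  exact h

theorem b2 : (Hl [3, 4, 5, 6, 8]).relIndex (Hl l9) ≤ 5586 ∧ (Hl [3, 4, 5, 6, 8]).relIndex (Hl l9) ≠ 0 := by
  have h := ON2T.bound (x := ren x [0, 3, 4, 5, 6, 7, 8]) (H := Hl [3, 4, 5, 6, 8])
    (ren_hic hic (by decide +kernel)) h0 (ren_rels hrels (by decide +kernel)) (by
      intro s hs
      simp only [ON2T.L, List.mem_cons, List.not_mem_nil, or_false] at hs
      rcases hs with rfl | rfl | rfl | rfl | rfl <;> exact mem_Hl (by decide))
  rw [ren_image [0, 3, 4, 5, 6, 7, 8] 6 [3, 4, 5, 6, 7, 8] (by decide) (by decide)] at h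
  exact h

theorem b3 : (⊥ : Subgroup ON).relIndex (Hl [3, 4, 5, 6, 8]) ≤ 672 ∧
    (⊥ : Subgroup ON).relIndex (Hl [3, 4, 5, 6, 8]) ≠ 0 := by
  have h := ON3T.bound (x := ren x [0, 3, 4, 5, 6, 8]) (H := ⊥)
    (ren_hic hic (by decide +kernel)) h0 (ren_rels hrels (by decide +kernel)) (by
      intro s hs
      simp [ON3T.L] at hs)
  rw [ren_image [0, 3, 4, 5, 6, 8] 5 [3, 4, 5, 6, 8] (by decide) (by decide)] at h
  exact h

theorem c3 : Nat.card (Hl [3, 4, 5, 6, 8]) ≤ 672 ∧ Nat.card (Hl [3, 4, 5, 6, 8]) ≠ 0 := by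
  have h := b3
  rwa [Subgroup.relIndex_bot_left] at h

theorem c2 : Nat.card (Hl l9) ≤ 5586 * 672 ∧ Nat.card (Hl l9) ≠ 0 :=
  card_le_of_relIndex (Hl_mono (by decide)) b2 c3

theorem c1 : Nat.card (Hl [1, 2, 3, 4, 5, 6, 7, 8]) ≤ 122760 * (5586 * 672) ∧
    Nat.card (Hl [1, 2, 3, 4, 5, 6, 7, 8]) ≠ 0 :=
  card_le_of_relIndex (Hl_mono (by decide)) b1 c2

theorem card_le : Nat.card ON ≤ 460815505920 := by
  have h := c1.1
  rw [Hl_top, Subgroup.card_top] at h
  exact h

instance instFiniteON : Finite ON := by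
  have h := c1.2
  rw [Hl_top, Subgroup.card_top] at h
  exact Nat.finite_of_card_ne_zero h

/-! ### The action on 122760 points -/

theorem hn : 122760 ≤ 2 ^ 17 := by decide

/-- images of the letters -/
noncomputable abbrev y (j : ℕ) := xP ONA.sys hn ONA.inv_ok j

/-- images of the generators -/
noncomputable def fP : ON.Gen → Equiv.Perm (Fin 122760)
  | .g => y 1
  | .a => y 3
  | .b => y 4
  | .c => y 5
  | .d => y 6
  | .e => y 7
  | .f => y 8

theorem relP : ∀ w ∈ rels, ev (xP ONA.sys hn ONA.inv_ok) w = 1 :=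
  relP_of2 ONA.sys hn ONA.inv_ok ONA.sg_ok ONA.sg_len ONA.crels_good ONA.crels_ex (by decide +kernel) (by decide +kernel)

theorem fP_x (j : ℕ) (hj : j < 16) : xF fP lm j = xP ONA.sys hn ONA.inv_ok j := by
  interval_cases j
  · rw [xP_eq_one _ _ _ _ rfl]; simp [xF, lm]
  · rw [x1]; rfl
  · rw [x2]; exact (xP_il ONA.sys hn ONA.inv_ok 1 (by decide)).symm
  · rw [x3]; rfl
  · rw [x4]; rfl
  · rw [x5]; rfl
  · rw [x6]; rfl
  · rw [x7]; rfl
  · rw [x8]; rfl
  all_goals rw [xP_eq_one _ _ _ _ rfl]; simp [xF, lm]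

theorem exists_phi : ∃ φ : ON →* Equiv.Perm (Fin 122760), Compat φ x ONA.L :=
  exists_action2 RR lm ONA.sys hn ONA.inv_ok relP (by decide +kernel) fP fP_x (lifts fP)

/-- the action -/
noncomputable def phi : ON →* Equiv.Perm (Fin 122760) := exists_phi.choose

theorem compat : Compat phi x ONA.L := exists_phi.choose_spec

theorem main : Nat.card ON = 460815505920 ∧ Function.Injective phi := by
  have h := order_eq (φ := phi) ONA.sys
    (exists_g ONA.sys hn compat ONA.sg_ok ONA.sg_len) ONA.levs ONA.chain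
    (by rw [ONA.prodM_levs]; exact card_le)
  rwa [ONA.prodM_levs] at h

/-- a normal subgroup containing `c` is everything -/
theorem norm_top (M : Subgroup ON) [M.Normal] (hc : x 5 ∈ M) : M = ⊤ := by
  have key : ∀ (Q : Type) [Group Q] (q : ON →* Q), q (x 5) = 1 → ∀ y ∈ [1, 2, 3, 4, 5, 6, 7, 8], q (x y) = 1 := by
    intro Q _ q h5
    have hr : ∀ w ∈ rels, ev (fun y => q (x y)) w = 1 := by
      intro w hw
      have h1 : ∀ w : List ℕ, ev (fun y => q (x y)) w = q (ev x w) := by
        intro w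
        induction w with
        | nil => simp
        | cons a w ih => rw [ev_cons, ev_cons, map_mul, ih]
      rw [h1, hrels w hw, map_one]
    have sq : ∀ y, y < 16 → il ic y = y → q (x y) * q (x y) = 1 := by
      intro y hy hy'
      have h1 := hic y hy
      rw [hy'] at h1
      rw [← map_mul]
      nth_rw 1 [h1]
      rw [inv_mul_cancel, map_one]
    have s3 := sq 3 (by decide) (by decide)
    have s4 := sq 4 (by decide) (by decide)
    have s6 := sq 6 (by decide) (by decide)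
    have s7 := sq 7 (by decide) (by decide)
    have s8 := sq 8 (by decide) (by decide)
    have r45 := hr (coxW 4 5 3) (by simp [rels])
    have r34 := hr (coxW 3 4 3) (by simp [rels])
    have r78 := hr (coxW 7 8 3) (by simp [rels])
    have r67 := hr (coxW 6 7 3) (by simp [rels])
    have e1 := hr ([3, 8] ++ powW [6, 5] 4) (by simp [rels])
    have e0 := hr ([3, 8, 2, 2]) (by simp [rels])
    have e4 := hr (powW [4, 5, 6, 1] 5) (by simp [rels])
    rw [ev_coxW] at r45 r34 r78 r67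
    simp only [ev_append, ev_powW, ev_cons, ev_nil, mul_one, h5, one_mul] at e0 e1 e4 r45
    have f4 : q (x 4) = 1 := by
      have h1 : q (x 4) ^ 3 = q (x 4) := by rw [pow_succ, pow_two, s4, one_mul]
      rw [← h1]; exact r45
    rw [f4, mul_one] at r34
    have f3 : q (x 3) = 1 := by
      have h1 : q (x 3) ^ 3 = q (x 3) := by rw [pow_succ, pow_two, s3, one_mul]
      rw [← h1]; exact r34
    have f8 : q (x 8) = 1 := by
      have h1 : q (x 6) ^ 4 = 1 := by
        rw [show (4 : ℕ) = 2 * 2 from rfl, pow_mul, pow_two (q (x 6)), s6, one_pow]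
      rw [h1, f3, one_mul, mul_one] at e1
      exact e1
    rw [f8, mul_one] at r78
    have f7 : q (x 7) = 1 := by
      have h1 : q (x 7) ^ 3 = q (x 7) := by rw [pow_succ, pow_two, s7, one_mul]
      rw [← h1]; exact r78
    rw [f7, mul_one] at r67
    have f6 : q (x 6) = 1 := by
      have h1 : q (x 6) ^ 3 = q (x 6) := by rw [pow_succ, pow_two, s6, one_mul]
      rw [← h1]; exact r67
    have f2' : q (x 2) * q (x 2) = 1 := by
      rw [f3, f8, one_mul, one_mul] at e0
      exact e0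
    have f21 : q (x 2) = (q (x 1))⁻¹ := by
      have h1 := hic 1 (by decide)
      rw [show il ic 1 = 2 by decide] at h1
      rw [h1, map_inv]
    have f1 : q (x 1) = 1 := by
      rw [f4, f6, one_mul, one_mul] at e4
      rw [f21, ← mul_inv_rev, inv_eq_one] at f2'
      have h1 : q (x 1) ^ 5 = q (x 1) := by
        rw [pow_succ, show (4 : ℕ) = 2 * 2 from rfl, pow_mul, pow_two (q (x 1)), f2', one_pow, one_mul]
      rw [← h1]; exact e4
    have f2 : q (x 2) = 1 := by rw [f21, f1, inv_one]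
    intro y hy
    simp only [List.mem_cons, List.not_mem_nil, or_false] at hy
    rcases hy with rfl | rfl | rfl | rfl | rfl | rfl | rfl | rfl
    exacts [f1, f2, f3, f4, h5, f6, f7, f8]
  rw [← top_le_iff, ← Hl_top]
  unfold Hl
  rw [Subgroup.closure_le]
  rintro _ ⟨y, hy, rfl⟩
  have h1 := key (ON ⧸ M) (QuotientGroup.mk' M) ((QuotientGroup.eq_one_iff _).2 hc) y hy
  exact (QuotientGroup.eq_one_iff _).1 h1

theorem hn0 : 0 < 122760 := by decide

theorem htr : ∀ i : Fin 122760, ∃ g, phi g ⟨0, hn0⟩ = i :=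
  trans_of ONA.sys compat (by decide) hn0 ONA.trans

theorem exists_XX : ∃ X : ℕ → ON, (∀ y, y < 16 → X y = x y) ∧ CompatX phi X ONA.L :=
  exists_X ONA.sys hn compat ONA.sg_ok ONA.sg_len

theorem simple : IsSimpleGroup ON := by
  obtain ⟨X, hX, hXc⟩ := exists_XX
  refine simple_of (p := 11) (e := 1) (φ := phi) (by decide) main.2 htr (ONA.ods.map Prod.fst) (by decide) ?_ (by decide) (by decide)
    (by decide) (by rw [main.1]; decide) ?_
  · intro a s l hl ha
    obtain ⟨r, c, hcn, hr⟩ := orbB_sound ONA.ods ONA.orbs a s l hl ha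
    refine ⟨⟨c, hcn⟩, fun i hi1 hi2 => ?_⟩
    obtain ⟨g, _, hg0, hgc⟩ := suborb_of ONA.sys compat (by decide) ONA.hfix hn0 (by omega) hcn hr i hi1 hi2
    exact ⟨g, hg0, hgc⟩
  · intro M hMn hM
    have h1 : X 5 ∈ M := pwX_sound ONA.sys hn hXc main.2 hM ONA.pws ONA.pw_ok 5 (by decide)
    rw [hX 5 (by decide)] at h1
    exact norm_top M h1

theorem isX : Cfsg.IsON ON := ⟨simple, main.1⟩

theorem H_index : (Hl l9).index = 122760 ∧ ∀ g, g ∈ Hl l9 ↔ phi g ⟨0, hn0⟩ = ⟨0, hn0⟩ := by
  have h := b1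
  rw [Hl_top, Subgroup.relIndex_top_right] at h
  exact index_of_fix hn0 htr (fix_closure ONA.sys compat (by decide) hn0 ONA.hfix) h.1 h.2

theorem cardH : Nat.card (Hl l9) = 3753792 := by
  have h1 := (Hl l9).card_mul_index
  rw [H_index.1, main.1] at h1
  exact Nat.eq_of_mul_eq_mul_right (show 0 < 122760 by norm_num) (h1.trans (by norm_num))

theorem map_H : (Subgroup.closure ({ON.a, ON.b, ON.c, ON.d, ON.e, ON.f} : Set (FreeGroup ON.Gen))).map
    (PresentedGroup.mk RR) = Hl l9 := by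
  apply map_closure_gens
  · intro s hs
    simp only [Set.mem_insert_iff, Set.mem_singleton_iff] at hs
    rcases hs with rfl | rfl | rfl | rfl | rfl | rfl
    exacts [⟨3, by decide, rfl⟩, ⟨4, by decide, rfl⟩, ⟨5, by decide, rfl⟩, ⟨6, by decide, rfl⟩, ⟨7, by decide, rfl⟩,
      ⟨8, by decide, rfl⟩]
  · intro y hy
    simp only [List.mem_cons, List.not_mem_nil, or_false] at hy
    rcases hy with rfl | rfl | rfl | rfl | rfl | rfl <;> simp [lm]

end Cfsg.Agent.H26.ONM
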