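import Mathlib
import Cfsg.Agent.H25_BPInd
import Cfsg.Agent.H25_FMT
import Cfsg.Agent.H25_Red2
import Cfsg.Agent.H10_BlockKer
import Cfsg.Agent.H12_Core

/-!
# Kernels of Brauer correspondents: the idempotent of a normal `p'`-subgroup
-/

set_option autoImplicit false
set_option linter.unusedSectionVars false
set_option linter.style.haveILetI false

namespace Cfsg.Agent.H26.PiKer

open Cfsg Cfsg.Agent.H10.BlockLoc Cfsg.Agent.H10.BlockAlg Cfsg.Agent.H10.BlockIdem Cfsg.Agent.H10.BlockDefect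
  Cfsg.Agent.H10.BlockNormal Cfsg.Agent.H10.BlockKer
  Cfsg.Agent.H3.CharIrr Cfsg.Agent.H25.Red Cfsg.Agent.H25.KG Cfsg.Agent.H25.BPTr Cfsg.Agent.H25.BPMain
  Cfsg.Agent.H25.BPDef Cfsg.Agent.H25.FMT
open scoped ComplexConjugate

section uN

variable {k : Type*} [Field k] {G : Type*} [Group G] [Fintype G]

open scoped Classical in
/-- the idempotent `|N|⁻¹ ∑ N` -/
noncomputable def uN (k : Type*) [Field k] (N : Subgroup G) : MonoidAlgebra k G :=
  ofF fun x => if x ∈ N then ((Nat.card N : ℕ) : k)⁻¹ else 0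

theorem uN_c_mem (N : Subgroup G) {x : G} (hx : x ∈ N) : (uN k N).coeff x = ((Nat.card N : ℕ) : k)⁻¹ := by
  rw [uN, coeff_ofF, if_pos hx]

theorem uN_c_not (N : Subgroup G) {x : G} (hx : x ∉ N) : (uN k N).coeff x = 0 := by
  rw [uN, coeff_ofF, if_neg hx]

theorem mul_uN {N : Subgroup G} (h0 : ((Nat.card N : ℕ) : k) ≠ 0) {a : MonoidAlgebra k G}
    (ha : ∀ g, ∀ n ∈ N, a.coeff (g * n) = a.coeff g) : a * uN k N = a := by
  classical
  apply ext_c
  intro g
  rw [mul_c']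
  have h1 : ∀ x, a.coeff (g * x⁻¹) * (uN k N).coeff x = if x ∈ N then a.coeff g * ((Nat.card N : ℕ) : k)⁻¹ else 0 := by
    intro x
    split_ifs with h
    · rw [uN_c_mem N h, ha g _ (N.inv_mem h)]
    · rw [uN_c_not N h, mul_zero]
  rw [Finset.sum_congr rfl fun x _ => h1 x, ← Finset.sum_filter, Finset.sum_const, nsmul_eq_mul]
  have h2 : (Finset.univ.filter (fun x => x ∈ N)).card = Nat.card N := by
    rw [Nat.card_eq_fintype_card, Fintype.card_subtype]
  rw [h2]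
  field_simp

theorem uN_supp {N H : Subgroup G} (h : N ≤ H) : Supp H (uN k N) := by
  intro x hx
  by_contra hne
  exact hx (uN_c_not N (fun h' => hne (h h')))

theorem uN_fix {N H : Subgroup G} (h : H ≤ Nm N) : Fix H (uN k N) := by
  rw [fix_iff]
  intro g hg x
  by_cases hx : x ∈ N
  · rw [uN_c_mem N hx, uN_c_mem N ((Subgroup.mem_normalizer_iff.1 (h hg) x).1 hx)]
  · rw [uN_c_not N hx, uN_c_not N (fun h' => hx ((Subgroup.mem_normalizer_iff.1 (h hg) x).2 h'))]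

theorem uN_mem_Z {N H : Subgroup G} (h : N ≤ H) (hn : H ≤ Nm N) : uN k N ∈ Z H := ⟨uN_supp h, uN_fix hn⟩

theorem uN_mul {N N' : Subgroup G} (h : N ≤ N') (h0 : ((Nat.card N : ℕ) : k) ≠ 0) : uN k N' * uN k N = uN k N' := by
  apply mul_uN h0
  intro g n hn
  by_cases hg : g ∈ N'
  · rw [uN_c_mem N' hg, uN_c_mem N' (N'.mul_mem hg (h hn))]
  · rw [uN_c_not N' hg, uN_c_not N' (fun h' => hg ((N'.mul_mem_cancel_right (h hn)).1 h'))]

theorem uN_idem {N : Subgroup G} (h0 : ((Nat.card N : ℕ) : k) ≠ 0) : uN k N * uN k N = uN k N := uN_mul le_rfl h0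

theorem cast_ne {p : ℕ} [CharP k p] {N : Subgroup G} (h : ¬ p ∣ Nat.card N) : ((Nat.card N : ℕ) : k) ≠ 0 := by
  rw [Ne, CharP.cast_eq_zero_iff k p]; exact h

theorem uN_tr {p : ℕ} [hp : Fact p.Prime] [CharP k p] {P N : Subgroup G} (hP : IsPGroup p P) (hn : P ≤ Nm N)
    (h : ¬ p ∣ Nat.card N) : tr (Ce P) (uN k N) = uN k (N ⊓ Ce P) := by
  classical
  have h0 := cast_ne (k := k) h
  set a := tr (Ce P) (uN k N) with ha
  have haa : a * a = a := by
    rw [ha, ← br_mul hP (uN_fix hn) (uN_fix hn), uN_idem h0]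
  have ha1 : ∀ x ∈ N ⊓ Ce P, a.coeff x = ((Nat.card N : ℕ) : k)⁻¹ := by
    intro x hx
    rw [ha, tr_c_of_mem _ hx.2, uN_c_mem N hx.1]
  have ha2 : ∀ x, x ∉ N ⊓ Ce P → a.coeff x = 0 := by
    intro x hx
    by_cases hxC : x ∈ Ce P
    · rw [ha, tr_c_of_mem _ hxC, uN_c_not N (fun h' => hx ⟨h', hxC⟩)]
    · rw [ha, tr_c_of_notMem _ hxC]
  have h1 : ((Nat.card (N ⊓ Ce P : Subgroup G) : ℕ) : k) * (((Nat.card N : ℕ) : k)⁻¹ * ((Nat.card N : ℕ) : k)⁻¹) = ((Nat.card N : ℕ) : k)⁻¹ := by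
    have h2 : (a * a).coeff (1 : G) = a.coeff 1 := by rw [haa]
    rw [mul_c', ha1 1 (Subgroup.one_mem _)] at h2
    have h3 : ∀ x, a.coeff (1 * x⁻¹) * a.coeff x = if x ∈ N ⊓ Ce P then ((Nat.card N : ℕ) : k)⁻¹ * ((Nat.card N : ℕ) : k)⁻¹ else 0 := by
      intro x
      split_ifs with hx
      · rw [ha1 x hx, one_mul, ha1 _ (Subgroup.inv_mem _ hx)]
      · rw [ha2 x hx, mul_zero]
    rw [Finset.sum_congr rfl fun x _ => h3 x, ← Finset.sum_filter, Finset.sum_const, nsmul_eq_mul] at h2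
    have h5 : (Finset.univ.filter (fun x => x ∈ N ⊓ Ce P)).card = Nat.card (N ⊓ Ce P : Subgroup G) := by
      rw [Nat.card_eq_fintype_card, Fintype.card_subtype]
    rw [h5] at h2
    exact h2
  have h4 : ((Nat.card (N ⊓ Ce P : Subgroup G) : ℕ) : k) = ((Nat.card N : ℕ) : k) := by
    field_simp at h1
    exact h1
  apply ext_c
  intro x
  by_cases hx : x ∈ N ⊓ Ce P
  · rw [ha1 x hx, uN_c_mem _ hx, h4]
  · rw [ha2 x hx, uN_c_not _ hx]

theorem uN_cnj (x : G) (N : Subgroup G) : cnj x (uN k N) = uN k (cs x N) := by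
  apply ext_c
  intro g
  rw [cnj_c]
  by_cases h : x⁻¹ * g * x ∈ N
  · rw [uN_c_mem N h, uN_c_mem _ (mem_cs.2 h), card_cs]
  · rw [uN_c_not N h, uN_c_not _ (fun h' => h (mem_cs.1 h'))]

/-- going up -/
theorem up_step {p : ℕ} [hp : Fact p.Prime] [CharP k p] {Q P K : Subgroup G} {f e : MonoidAlgebra k G} (h : NS p Q f P e)
    (hPK : P ≤ Nm K) (hK : ¬ p ∣ Nat.card K) (hf : f * uN k K = f) : e * uN k (K ⊓ Ce P) = e := by
  have h1 := congrArg (tr (Ce P)) hf
  rw [br_mul h.pP h.fix (uN_fix hPK), uN_tr h.pP hPK hK] at h1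
  have h2 : e = tr (Ce P) f * e := h.tr.symm
  have h3 : tr (Ce P) f * e = e * tr (Ce P) f := (comm_of h.be.mem.2 (supp_tr _ _)).symm
  rw [h3] at h2
  conv_lhs => rw [h2, mul_assoc, h1]
  exact h2.symm

/-- going down -/
theorem down_step {p : ℕ} [hp : Fact p.Prime] [CharP k p] {Q P K : Subgroup G} {f e : MonoidAlgebra k G} (h : NS p Q f P e)
    (hKQ : K ≤ Ce Q) (hQK : Ce Q ≤ Nm K)
    (hPK : P ≤ Nm K) (hK : ¬ p ∣ Nat.card K) (he : e * uN k (K ⊓ Ce P) = e) : f * uN k K = f := by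
  have h0 := cast_ne (k := k) hK
  have hcomm : uN k K * f = f * uN k K := Z_comm (uN_mem_Z hKQ hQK) h.bf.mem
  rcases h.bf.prim (uN k K) (uN_mem_Z hKQ hQK) (uN_idem h0) with h1 | h1
  · rw [← hcomm, h1]
  · exfalso
    rw [hcomm] at h1
    have h2 := congrArg (tr (Ce P)) h1
    rw [br_mul h.pP h.fix (uN_fix hPK), uN_tr h.pP hPK hK, map_zero] at h2
    apply h.be.ne
    have h3 : e * tr (Ce P) f = e := by rw [comm_of h.be.mem.2 (supp_tr _ _)]; exact h.tr
    rw [← he, ← h3, mul_assoc, h2, mul_zero]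

end uN

section ker

variable {M : Ideal AlgInt} {G : Type*} [Group G] [Fintype G] {p : ℕ} [hp : Fact p.Prime]
  [hMax : M.IsMaximal] [hch : CharP (KM M) p]

theorem coeff_sc_mul {H : Type*} [Group H] [Fintype H] {c : ℂ} (hc : MemLocalRing M c) (w : ZI H M) (y : H) :
    (((sc hc * w : ZI H M) : ZC H) : MonoidAlgebra ℂ H).coeff y = c * ((w : ZC H) : MonoidAlgebra ℂ H).coeff y := by
  have h1 : ((sc hc * w : ZI H M) : ZC H) = c • (w : ZC H) := by
    rw [Algebra.smul_def]; rfl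
  rw [h1]
  rfl

/-- the idempotent in `ZI` -/
noncomputable def zN (H : Type*) [Group H] [Fintype H] (N : Subgroup H) [N.Normal] {c : ℂ} (hc : MemLocalRing M c) : ZI H M :=
  sc hc * ⟨normalSum N, normalSum_mem N⟩

theorem zN_c {H : Type*} [Group H] [Fintype H] (N : Subgroup H) [N.Normal] {c : ℂ} (hc : MemLocalRing M c) (y : H) [Decidable (y ∈ N)] :
    (((zN H N hc : ZI H M) : ZC H) : MonoidAlgebra ℂ H).coeff y = if y ∈ N then c else 0 := by
  rw [zN, coeff_sc_mul]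
  change c * (normalSum N : MonoidAlgebra ℂ H).coeff y = _
  rw [normalSum_coeff]
  split_ifs <;> simp

theorem om_zN {H : Type*} [Group H] [Fintype H] (N : Subgroup H) [N.Normal] {c : ℂ} (hc : MemLocalRing M c) (χ : IrrCharacter H)
    [Decidable (∀ u ∈ N, (χ : H → ℂ) u = (χ : H → ℂ) 1)] :
    omI χ (zN H N hc : ZI H M) = if (∀ u ∈ N, (χ : H → ℂ) u = (χ : H → ℂ) 1) then c * (Nat.card N : ℂ) else 0 := by
  rw [zN, map_mul, omI_sc, omI_apply]
  change c * om χ (normalSum N) = _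
  rw [om_normalSum]
  split_ifs <;> simp

theorem ker_iff (hM : IsPModular p M) {H N : Subgroup G} (hNH : N ≤ H) (hn : H ≤ Nm N) (hp' : ¬ p ∣ Nat.card N)
    {b : Set (IrrCharacter H)} (hb : IsPBlock M b) :
    ep M H b * uN (KM M) N = ep M H b ↔ ∀ h : H, (h : G) ∈ N → h ∈ blockKer b := by
  classical
  haveI : Fintype H := Fintype.ofFinite _
  haveI hN' : (N.subgroupOf H).Normal := by
    constructor
    intro n hn' g
    rw [Subgroup.mem_subgroupOf] at hn' ⊢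
    exact (Subgroup.mem_normalizer_iff.1 (hn g.2) n).1 hn'
  have hi : Function.Injective H.subtype := H.subtype_injective
  have hcN : (Nat.card (N.subgroupOf H) : ℂ) = Nat.card N := by
    rw [Nat.card_congr (Subgroup.subgroupOfEquivOfLe hNH).toEquiv]
  have hN0 : (Nat.card N : ℂ) ≠ 0 := Nat.cast_ne_zero.2 Nat.card_pos.ne'
  have hring : MemLocalRing M ((Nat.card N : ℂ)⁻¹) := ring_inv_natCast hM hp'
  obtain ⟨z, hzdef⟩ : ∃ z : ZI H M, z = zN H (N.subgroupOf H) hring := ⟨_, rfl⟩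
  have hrd : rd M ((Nat.card N : ℂ)⁻¹) = ((Nat.card N : ℕ) : KM M)⁻¹ := by
    have h1 : rd M ((Nat.card N : ℂ)⁻¹) * ((Nat.card N : ℕ) : KM M) = 1 := by
      have h2 : rd M ((Nat.card N : ℂ)) = ((Nat.card N : ℕ) : KM M) := by
        rw [rd_of (ring_natCast _)]
        exact map_natCast (rs (M := M)) (Nat.card N)
      rw [← h2, ← rd_mul hring (ring_natCast _), inv_mul_cancel₀ hN0, rd_one]
    exact eq_inv_of_mul_eq_one_left h1
  have hz : Cfsg.Agent.H25.Red.emb H.subtype hi z = uN (KM M) N := by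
    apply ext_c
    intro g
    by_cases hg : g ∈ H
    · have h1 := emb_c (i := H.subtype) hi z ⟨g, hg⟩
      have h2 : (Cfsg.Agent.H25.Red.emb H.subtype hi z).coeff g = rd M ((((z : ZI H M) : ZC H) : MonoidAlgebra ℂ H).coeff ⟨g, hg⟩) := h1
      rw [h2, hzdef, zN_c]
      by_cases hgN : g ∈ N
      · rw [if_pos (Subgroup.mem_subgroupOf.2 hgN), uN_c_mem N hgN, hrd]
      · rw [if_neg (fun h => hgN (Subgroup.mem_subgroupOf.1 h)), uN_c_not N hgN, rd_zero]
    · rw [emb_c_not hi z (by rw [Subgroup.range_subtype]; exact hg), uN_c_not N (fun h => hg (hNH h))]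
  have hidem : Cfsg.Agent.H25.Red.emb H.subtype hi z * Cfsg.Agent.H25.Red.emb H.subtype hi z = Cfsg.Agent.H25.Red.emb H.subtype hi z := by
    rw [hz, uN_idem (cast_ne hp')]
  have hom : ∀ χ : IrrCharacter H, omI χ z = if (∀ u ∈ N.subgroupOf H, (χ : H → ℂ) u = (χ : H → ℂ) 1) then 1 else 0 := by
    intro χ
    rw [hzdef, om_zN, hcN, inv_mul_cancel₀ hN0]
  have hcomm : ep M H b * uN (KM M) N = uN (KM M) N * ep M H b :=
    Z_comm (isBlk_ep hb).mem (uN_mem_Z hNH hn)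
  have hiff : ∀ χ ∈ b, (ep M H b * uN (KM M) N = ep M H b ↔ (∀ u ∈ N.subgroupOf H, (χ : H → ℂ) u = (χ : H → ℂ) 1)) := by
    intro χ hχ
    have h1 := mul_eps_iff hi hb z hχ hidem
    rw [← ep_eq, hz, ← hcomm] at h1
    rw [h1, hom χ]
    split_ifs with h
    · rw [sub_self]
      exact ⟨fun _ => h, fun _ => ideal_zero⟩
    · constructor
      · intro h2
        exfalso
        rw [zero_sub] at h2
        have := ideal_neg h2
        rw [neg_neg] at this
        exact one_notMem_ideal this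
      · intro h2; exact absurd h2 h
  constructor
  · intro h g hg χ hχ
    exact (hiff χ hχ).1 h g (Subgroup.mem_subgroupOf.2 hg)
  · intro h
    obtain ⟨χ, hχ⟩ := block_nonempty hb
    exact (hiff χ hχ).2 (fun u hu => h u (Subgroup.mem_subgroupOf.1 hu) χ hχ)

end ker

end Cfsg.Agent.H26.PiKer
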