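import Mathlib
import Cfsg.Agent.H26_PiKer
import Cfsg.Agent.H25_IndQ

/-!
# Kernels of Brauer correspondents, II
-/

set_option autoImplicit false
set_option linter.unusedSectionVars false
set_option linter.style.haveILetI false

namespace Cfsg.Agent.H26.PiKer2

open Cfsg Cfsg.Agent.H10.BlockLoc Cfsg.Agent.H10.BlockAlg Cfsg.Agent.H10.BlockIdem Cfsg.Agent.H10.BlockDefect
  Cfsg.Agent.H10.BlockNormal Cfsg.Agent.H10.BlockKer Cfsg.Agent.H12.Core
  Cfsg.Agent.H3.CharIrr Cfsg.Agent.H25.Red Cfsg.Agent.H25.KG Cfsg.Agent.H25.BPTr Cfsg.Agent.H25.BPMain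
  Cfsg.Agent.H25.BPDef Cfsg.Agent.H25.FMT Cfsg.Agent.H25.IndQ Cfsg.Agent.H26.PiKer
open scoped ComplexConjugate Pointwise

section gen

variable {k : Type*} [Field k] {G : Type*} [Group G] [Fintype G] {p : ℕ} [hp : Fact p.Prime] [CharP k p]

theorem mul_uN_mono {a : MonoidAlgebra k G} {N N' : Subgroup G} (h : N ≤ N') (hN' : ¬ p ∣ Nat.card N')
    (ha : a * uN k N' = a) : a * uN k N = a := by
  have hN : ¬ p ∣ Nat.card N := fun hd => hN' (hd.trans (Subgroup.card_dvd_of_le h))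
  conv_lhs => rw [← ha, mul_assoc, uN_mul h (cast_ne hN)]
  exact ha

theorem not_dvd_O {σ : Set ℕ} (hσ : p ∉ σ) (X : Subgroup G) : ¬ p ∣ Nat.card (piCoreOf σ X) :=
  fun h => hσ (piCoreOf_piNum σ X p hp.out h)

/-- descending along inclusions of Brauer pairs -/
theorem down_le {σ : Set ℕ} (hσ : p ∉ σ) {Q P : Subgroup G} {f e : MonoidAlgebra k G}
    (h : LE p Q f P e) (hk : e * uN k (piCoreOf σ (Ce P)) = e) : f * uN k (piCoreOf σ (Ce Q)) = f := by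
  refine LE.rec_head (motive := fun Q f => f * uN k (piCoreOf σ (Ce Q)) = f) hk ?_ h
  intro Q f R g hns _ hg
  refine down_step hns (piCoreOf_le _ _) (le_normalizer_piCoreOf _ _) ?_ (not_dvd_O hσ _) ?_
  · exact (hns.norm.trans (norm_le_norm_Ce Q)).trans (normalizer_le_normalizer_piCoreOf _ _)
  · exact mul_uN_mono (piCoreOf_inf_le (Ce_anti hns.le)) (not_dvd_O hσ _) hg

/-- closedness under `σ`-elements -/
def Cl (σ : Set ℕ) (X : Subgroup G) : Prop :=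
  ∀ x ∈ X, (∀ q : ℕ, q.Prime → q ∣ orderOf x → q ∈ σ) → x ∈ piCoreOf σ X

theorem O_order {σ : Set ℕ} {X : Subgroup G} {x : G} (hx : x ∈ piCoreOf σ X) (q : ℕ) (hq : q.Prime) (h : q ∣ orderOf x) : q ∈ σ := by
  apply piCoreOf_piNum σ X q hq
  exact h.trans (by rw [← Subgroup.orderOf_mk x hx]; exact orderOf_dvd_natCard _)

theorem Cl.anti {σ : Set ℕ} {X Y : Subgroup G} (h : Cl σ X) (hYX : Y ≤ X) : Cl σ Y := fun x hx hq =>
  piCoreOf_inf_le hYX ⟨h x (hYX hx) hq, hx⟩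

theorem Cl.inf_eq {σ : Set ℕ} {X Y : Subgroup G} (h : Cl σ X) (hYX : Y ≤ X) : piCoreOf σ X ⊓ Y = piCoreOf σ Y := by
  apply le_antisymm (piCoreOf_inf_le hYX)
  intro x hx
  have hxY := piCoreOf_le _ _ hx
  exact ⟨h x (hYX hxY) (fun q hq hd => O_order hx q hq hd), hxY⟩

theorem up_le {σ : Set ℕ} (hσ : p ∉ σ) {Q P : Subgroup G} {f e : MonoidAlgebra k G}
    (h : LE p Q f P e) (hcl : Cl σ (Ce Q)) (hk : f * uN k (piCoreOf σ (Ce Q)) = f) :
    Cl σ (Ce P) ∧ e * uN k (piCoreOf σ (Ce P)) = e := by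
  refine LE.rec_head (motive := fun Q f => Cl σ (Ce Q) → f * uN k (piCoreOf σ (Ce Q)) = f →
    Cl σ (Ce P) ∧ e * uN k (piCoreOf σ (Ce P)) = e) (fun h1 h2 => ⟨h1, h2⟩) ?_ h hcl hk
  intro Q f R g hns _ hg hQ hf
  apply hg (hQ.anti (Ce_anti hns.le))
  have h1 := up_step hns ((hns.norm.trans (norm_le_norm_Ce Q)).trans (normalizer_le_normalizer_piCoreOf _ _))
    (not_dvd_O hσ _) hf
  rwa [hQ.inf_eq (Ce_anti hns.le)] at h1

theorem O_cs (σ : Set ℕ) (x : G) (X : Subgroup G) : piCoreOf σ (cs x X) = cs x (piCoreOf σ X) :=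
  (conj_piCoreOf σ X x).symm

theorem cnj_O {σ : Set ℕ} {Q : Subgroup G} {f : MonoidAlgebra k G} (x : G) :
    cnj x f * uN k (piCoreOf σ (Ce (cs x Q))) = cnj x f ↔ f * uN k (piCoreOf σ (Ce Q)) = f := by
  rw [Ce, centralizer_cs, O_cs, ← uN_cnj, ← map_mul]
  exact ⟨fun h => cnj_injective x h, fun h => by rw [h]⟩

theorem all_pairs {σ : Set ℕ} (hσ : p ∉ σ) {B : MonoidAlgebra k G} {Q P : Subgroup G} {f e : MonoidAlgebra k G}
    (hP : BP p B P e) (ht : Top p P e) (hk : e * uN k (piCoreOf σ (Ce P)) = e) (hQ : BP p B Q f) :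
    f * uN k (piCoreOf σ (Ce Q)) = f := by
  obtain ⟨x, hx⟩ := hP.conj_le ht hQ
  exact (cnj_O x).1 (down_le hσ hx hk)

theorem top_of_pair {σ : Set ℕ} (hσ : p ∉ σ) {B : MonoidAlgebra k G} {Q P : Subgroup G} {f e : MonoidAlgebra k G}
    (hP : BP p B P e) (ht : Top p P e) (hQ : BP p B Q f) (hcl : Cl σ (Ce Q)) (hk : f * uN k (piCoreOf σ (Ce Q)) = f) :
    e * uN k (piCoreOf σ (Ce P)) = e := by
  obtain ⟨x, hx⟩ := hP.conj_le ht hQ
  refine (up_le hσ hx ?_ ((cnj_O x).2 hk)).2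
  intro y hy hq
  rw [Ce, centralizer_cs, O_cs, mem_cs]
  rw [Ce, centralizer_cs, mem_cs] at hy
  apply hcl _ hy
  intro q hqp hd
  apply hq q hqp
  have h1 : orderOf (x⁻¹ * y * x) = orderOf y := by
    have := orderOf_injective (MulAut.conj x⁻¹).toMonoidHom (MulAut.conj x⁻¹).injective y
    rw [← this]; simp
  rwa [h1] at hd

/-- descending from a pair to a block of an overgroup -/
theorem down_gen {H P K : Subgroup G} {β E : MonoidAlgebra k G} (hP : IsPGroup p P) (hβ : IsBlk H β) (hfix : Fix P β)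
    (hKH : K ≤ H) (hHK : H ≤ Nm K) (hPK : P ≤ Nm K) (hK : ¬ p ∣ Nat.card K) (hE : IsBlk (Ce P) E)
    (htr : tr (Ce P) β * E = E) (he : E * uN k (K ⊓ Ce P) = E) : β * uN k K = β := by
  have h0 := cast_ne (k := k) hK
  have hcomm : uN k K * β = β * uN k K := Z_comm (uN_mem_Z hKH hHK) hβ.mem
  rcases hβ.prim (uN k K) (uN_mem_Z hKH hHK) (uN_idem h0) with h1 | h1
  · rw [← hcomm, h1]
  · exfalso
    rw [hcomm] at h1
    have h2 := congrArg (tr (Ce P)) h1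
    rw [br_mul hP hfix (uN_fix hPK), uN_tr hP hPK hK, map_zero] at h2
    apply hE.ne
    have h3 : E * tr (Ce P) β = E := by rw [comm_of hE.mem.2 (supp_tr _ _)]; exact htr
    rw [← he, ← h3, mul_assoc, h2, mul_zero]

theorem br_pow {P : Subgroup G} (hP : IsPGroup p P) {a : MonoidAlgebra k G} (ha : Fix P a) (n : ℕ) :
    Fix P (a ^ n) ∧ tr (Ce P) (a ^ n) = tr (Ce P) a ^ n := by
  induction n with
  | zero => rw [pow_zero, pow_zero]; exact ⟨Fix.one P, tr_one _⟩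
  | succ n ih =>
    rw [pow_succ, pow_succ]
    refine ⟨ih.1.mul ha, ?_⟩
    rw [br_mul hP ih.1 ha, ih.2]

end gen

section main

variable {M : Ideal AlgInt} {G : Type*} [Group G] [Fintype G] {p : ℕ} [hp : Fact p.Prime]
  [hMax : M.IsMaximal] [hch : CharP (KM M) p]

/-- a maximal pair from the defect group data of the Brauer correspondent -/
theorem exists_top_pair (hM : IsPModular p M) {B : Set (IrrCharacter G)} (hB : IsPBlock M B) {D : Subgroup G}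
    (hBD : IsDefectGroup p M B D) {B₁ : Set (IrrCharacter ↥(Subgroup.normalizer (D : Set G)))}
    (hB₁ : IsInducedBlock M (Subgroup.normalizer (D : Set G)) B₁ B) :
    ∃ e, BP p (epG M B) D e ∧ Top p D e ∧ ep M (Nm D) B₁ * e = e := by
  have hD := (defectG_iff hM hB).1 hBD
  have hb := isBlk_epG (M := M) hB
  obtain ⟨h1, h2⟩ := fmtA hM hb hD
  have h3 := (ind_iff hM hD.pg Subgroup.le_normalizer (Ce_le_Nm D) le_rfl hB₁.1 hB).1 hB₁
  have h4 : tr (Ce D) (epG M B) = ep M (Nm D) B₁ :=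
    h1.eq_of_mul (isBlk_ep hB₁.1) (by rw [h3]; exact (isBlk_ep hB₁.1).ne)
  obtain ⟨e, he⟩ := exists_bp hb hD.pg hD.ne
  exact ⟨e, he, top_of_dgh hD he, by rw [← h4]; exact he.tr⟩

theorem O_Nm_le_Ce {σ : Set ℕ} (hσ : p ∉ σ) {D : Subgroup G} (hD : IsPGroup p D) : piCoreOf σ (Nm D) ≤ Ce D := by
  intro x hx
  rw [Subgroup.mem_centralizer_iff]
  intro d hd
  have hdN : d ∈ Nm D := Subgroup.le_normalizer hd
  have hxN := piCoreOf_le _ _ hx
  -- commutator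
  have h1 : d * x * d⁻¹ * x⁻¹ ∈ piCoreOf σ (Nm D) :=
    Subgroup.mul_mem _ ((Subgroup.mem_normalizer_iff.1 (le_normalizer_piCoreOf σ _ hdN) x).1 hx) (Subgroup.inv_mem _ hx)
  have h2 : d * x * d⁻¹ * x⁻¹ ∈ D := by
    have h3 : x * d⁻¹ * x⁻¹ ∈ D := (Subgroup.mem_normalizer_iff.1 hxN d⁻¹).1 (D.inv_mem hd)
    have h4 : d * x * d⁻¹ * x⁻¹ = d * (x * d⁻¹ * x⁻¹) := by group
    rw [h4]; exact D.mul_mem hd h3
  have h5 : d * x * d⁻¹ * x⁻¹ = 1 := by
    obtain ⟨k, hk⟩ := IsPGroup.iff_orderOf.1 hD ⟨_, h2⟩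
    rw [Subgroup.orderOf_mk] at hk
    rcases Nat.eq_zero_or_pos k with rfl | hk0
    · rwa [pow_zero, orderOf_eq_one_iff] at hk
    · exact absurd (O_order h1 p hp.out (by rw [hk]; exact dvd_pow_self p hk0.ne')) hσ
  calc d * x = d * x * d⁻¹ * x⁻¹ * (x * d) := by group
    _ = x * d := by rw [h5, one_mul]

theorem top_iff_corr (hM : IsPModular p M) {σ : Set ℕ} (hσ : p ∉ σ) {D : Subgroup G} (hD : IsPGroup p D)
    {B₁ e : MonoidAlgebra (KM M) G} (hB₁ : IsBlk (Nm D) B₁) (he : IsBlk (Ce D) e) (hmul : B₁ * e = e) :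
    e * uN (KM M) (piCoreOf σ (Ce D)) = e ↔ B₁ * uN (KM M) (piCoreOf σ (Nm D)) = B₁ := by
  have hmul' : e * B₁ = e := by
    rw [← comm_of (H := Ce D) (hB₁.mem.2.mono (Ce_le_Nm D)) he.mem.1]; exact hmul
  constructor
  · intro h
    have h1 : piCoreOf σ (Nm D) ≤ piCoreOf σ (Ce D) := by
      have := piCoreOf_inf_le (π := σ) (Ce_le_Nm D)
      rwa [inf_eq_left.2 (O_Nm_le_Ce hσ hD)] at this
    have h2 := mul_uN_mono h1 (not_dvd_O hσ _) h
    have h0 := cast_ne (k := KM M) (not_dvd_O hσ (Nm D))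
    have hZ : uN (KM M) (piCoreOf σ (Nm D)) ∈ Z (Nm D) := uN_mem_Z (piCoreOf_le _ _) (le_normalizer_piCoreOf _ _)
    rcases hB₁.prim _ hZ (uN_idem h0) with h3 | h3
    · rw [Z_comm hB₁.mem hZ]; exact h3
    · exfalso
      apply he.ne
      rw [Z_comm hZ hB₁.mem] at h3
      rw [← h2, ← hmul', mul_assoc, h3, mul_zero]
  · intro h
    have h1 : piCoreOf σ (Ce D) ≤ piCoreOf σ (Nm D) :=
      piCoreOf_le_piCoreOf (Ce_le_Nm D) (norm_le_norm_Ce D)
    have h2 := mul_uN_mono h1 (not_dvd_O hσ _) h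
    conv_lhs => rw [← hmul', mul_assoc, h2]
    exact hmul'

end main

end Cfsg.Agent.H26.PiKer2
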