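import Mathlib
import Cfsg.Agent.H26_PiKer2

/-!
# Kernels of Brauer correspondents, III: induced blocks and pairs
-/

set_option autoImplicit false
set_option linter.unusedSectionVars false
set_option linter.style.haveILetI false

namespace Cfsg.Agent.H26.PiKer3

open Cfsg Cfsg.Agent.H10.BlockLoc Cfsg.Agent.H10.BlockAlg Cfsg.Agent.H10.BlockIdem Cfsg.Agent.H10.BlockDefect
  Cfsg.Agent.H10.BlockNormal Cfsg.Agent.H10.BlockKer Cfsg.Agent.H12.Core Cfsg.Agent.H10.BlockInd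
  Cfsg.Agent.H3.CharIrr Cfsg.Agent.H25.Red Cfsg.Agent.H25.KG Cfsg.Agent.H25.BPTr Cfsg.Agent.H25.BPMain
  Cfsg.Agent.H25.BPDef Cfsg.Agent.H25.FMT Cfsg.Agent.H25.IndQ Cfsg.Agent.H26.PiKer Cfsg.Agent.H26.PiKer2
open scoped ComplexConjugate Pointwise

variable {M : Ideal AlgInt} {G : Type*} [Group G] [Fintype G] {p : ℕ} [hp : Fact p.Prime]
  [hMax : M.IsMaximal] [hch : CharP (KM M) p]

theorem ind_pow (hM : IsPModular p M) {H : Subgroup G} {b : Set (IrrCharacter H)} {B : Set (IrrCharacter G)}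
    (hind : IsInducedBlock M H b B) : ∃ n : ℕ, (tr H (epG M B) - 1) ^ n * ep M H b = 0 := by
  classical
  haveI : Fintype H := Fintype.ofFinite _
  have hi : Function.Injective H.subtype := H.subtype_injective
  have hb := hind.1
  have hB := hind.2.1
  obtain ⟨z, hz⟩ : ∃ z : ZI H M, z = ⟨truncZ H (eB B), truncZ_mem H (eB_mem_ZI hB)⟩ := ⟨_, rfl⟩
  obtain ⟨χ, hχ⟩ := block_nonempty hb
  obtain ⟨ψ, hψ⟩ := block_nonempty hB
  obtain ⟨n, hn⟩ := pow_sub_mul (i := H.subtype) hi hb z hχ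
  have h1 : Cfsg.Agent.H25.Red.emb H.subtype hi z = tr H (epG M B) := by
    apply ext_c
    intro g
    by_cases hg : g ∈ H
    · have h1 := emb_c (i := H.subtype) hi z ⟨g, hg⟩
      have h2 : (Cfsg.Agent.H25.Red.emb H.subtype hi z).coeff g = rd M ((((z : ZI H M) : ZC H) : MonoidAlgebra ℂ H).coeff ⟨g, hg⟩) := h1
      rw [h2, tr_c_of_mem _ hg, epG_c, hz]
      show rd M ((truncZ H (eB B) : MonoidAlgebra ℂ H).coeff ⟨g, hg⟩) = _
      rw [truncZ_coeff, eB_coeff]
    · rw [emb_c_not hi z (by rw [Subgroup.range_subtype]; exact hg), tr_c_of_notMem _ hg]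
  have h2 : rd M (omI χ z) = 1 := by
    have h3 := ((isInducedBlock_iff H b B).1 hind).2.2 χ hχ ψ hψ (eB B) (eB_mem_ZI hB)
    rw [om_eB, if_pos hψ] at h3
    have h4 : omI χ z = om χ (truncZ H (eB B)) := by rw [hz]; rfl
    rw [h4, ← rd_one, rd_eq_iff (by rw [← h4]; exact omI_mem χ z) ring_one]
    exact h3
  refine ⟨n, ?_⟩
  rw [h1, h2, map_one, ← ep_eq] at hn
  exact hn

theorem bp_of_ind (hM : IsPModular p M) {H P : Subgroup G} {b : Set (IrrCharacter H)} {B : Set (IrrCharacter G)}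
    (hind : IsInducedBlock M H b B) (hP : IsPGroup p P) (hPH : P ≤ H) (hCH : Ce P ≤ H) {E : MonoidAlgebra (KM M) G}
    (hE : IsBlk (Ce P) E) (htr : tr (Ce P) (ep M H b) * E = E) : BP p (epG M B) P E := by
  have hb := isBlk_ep (M := M) hind.1
  have hB := isBlk_epG (M := M) hind.2.1
  refine ⟨hP, hB, hE, ?_⟩
  obtain ⟨n, hn⟩ := ind_pow hM hind
  have hfixB : Fix P (epG M B) := fix_top hB P
  have hfixa : Fix P (tr H (epG M B) - 1) :=
    (Fix.sub (Fix.tr (hPH.trans Subgroup.le_normalizer) hfixB) (Fix.one P))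
  have hfixb : Fix P (ep M H b) := hb.mem.2.mono hPH
  obtain ⟨h1, h2⟩ := br_pow hP hfixa n
  have h3 := congrArg (tr (Ce P)) hn
  rw [br_mul hP h1 hfixb, h2, map_zero, map_sub, tr_tr hCH, tr_one] at h3
  have h4 : (tr (Ce P) (epG M B) - 1) ^ n * E = 0 := by
    have h5 : (tr (Ce P) (epG M B) - 1) ^ n * (tr (Ce P) (ep M H b) * E) = 0 := by
      rw [← mul_assoc, h3, zero_mul]
    rwa [htr] at h5
  have hv : tr (Ce P) (epG M B) ∈ Z (Ce P) := tr_mem_Z le_top hB.mem.2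
  rcases hE.prim _ hv (tr_idem hP hfixB hB.idem) with h5 | h5
  · exact h5
  · exfalso
    have h6 : ∀ m : ℕ, (tr (Ce P) (epG M B) - 1) ^ m * E = (-1) ^ m * E := by
      intro m
      induction m with
      | zero => rw [pow_zero, pow_zero]
      | succ m ih =>
        rw [pow_succ, mul_assoc, sub_mul, h5, one_mul, zero_sub, mul_neg, ih, pow_succ, mul_neg_one, neg_mul]
    rw [h6 n] at h4
    apply hE.ne
    have h7 : ((-1 : MonoidAlgebra (KM M) G) ^ n) * ((-1) ^ n * E) = E := by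
      rw [← mul_assoc, ← pow_add, Even.neg_one_pow (Even.add_self n), one_mul]
    rw [← h7, h4, mul_zero]

theorem mem_O {σ : Set ℕ} {H : Subgroup G} (h : H) : (h : G) ∈ piCoreOf σ H ↔ h ∈ piCore σ H := by
  rw [piCoreOf]
  exact Subgroup.mem_map_iff_mem H.subtype_injective

theorem ker_iff' (hM : IsPModular p M) {σ : Set ℕ} (hσ : p ∉ σ) {H : Subgroup G} {b : Set (IrrCharacter H)}
    (hb : IsPBlock M b) : ep M H b * uN (KM M) (piCoreOf σ H) = ep M H b ↔ ∀ h : H, h ∈ piCore σ H → h ∈ blockKer b := by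
  rw [ker_iff hM (piCoreOf_le _ _) (le_normalizer_piCoreOf _ _) (not_dvd_O hσ _) hb]
  exact forall_congr' fun h => by rw [mem_O]

/-- generalised third main theorem for kernels -/
theorem ker_of_ind (hM : IsPModular p M) {σ : Set ℕ} (hσ : p ∉ σ) {B : Set (IrrCharacter G)} {D : Subgroup G}
    {e : MonoidAlgebra (KM M) G} (hD : BP p (epG M B) D e) (ht : Top p D e) (hk : e * uN (KM M) (piCoreOf σ (Ce D)) = e)
    {H P : Subgroup G} {b : Set (IrrCharacter H)} (hind : IsInducedBlock M H b B) (hP : IsPGroup p P) (hPH : P ≤ H)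
    (hCH : Ce P ≤ H) (hne : tr (Ce P) (ep M H b) ≠ 0) :
    ep M H b * uN (KM M) (piCoreOf σ H) = ep M H b := by
  have hb := isBlk_ep (M := M) hind.1
  have hfixb : Fix P (ep M H b) := hb.mem.2.mono hPH
  have hv : tr (Ce P) (ep M H b) ∈ Z (Ce P) := tr_mem_Z hCH hb.mem.2
  obtain ⟨E, hE, hEt⟩ := exists_blk hv (tr_idem hP hfixb hb.idem) hne
  have hbp := bp_of_ind hM hind hP hPH hCH hE hEt
  have h1 := all_pairs hσ hD ht hk hbp
  have h2 : E * uN (KM M) (piCoreOf σ H ⊓ Ce P) = E := mul_uN_mono (piCoreOf_inf_le hCH) (not_dvd_O hσ _) h1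
  exact down_gen hP hb hfixb (piCoreOf_le _ _) (le_normalizer_piCoreOf _ _) (hPH.trans (le_normalizer_piCoreOf _ _))
    (not_dvd_O hσ _) hE hEt h2

end Cfsg.Agent.H26.PiKer3
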