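import Cfsg.Agent.H8_Cox

/-! Presented groups with two generators given by words. -/

set_option autoImplicit false

namespace Cfsg.Agent.H26.Pres

open H8.CE H8.Net H8.Act H8.Cox

/-- the letters of the generators -/
def base : List (FreeGroup Bool) := [1, FreeGroup.of false, FreeGroup.of true, (FreeGroup.of true)⁻¹]

/-- all the letters -/
def lmD (ds : List (List ℕ)) : List (FreeGroup Bool) := base ++ ds.map (ev fun y => base.getD y 1)

/-- relators -/
def RS (ds ws : List (List ℕ)) : Set (FreeGroup Bool) := {r | ∃ w ∈ ws, r = ev (fun y => (lmD ds).getD y 1) w}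

theorem map_ev {A B : Type*} [Group A] [Group B] (f : A →* B) (x : ℕ → A) (w : List ℕ) :
    f (ev x w) = ev (fun y => f (x y)) w := by
  induction w with
  | nil => simp
  | cons y w ih => rw [ev_cons, ev_cons, map_mul, ih]

/-- the letters in the presented group -/
noncomputable abbrev xx (ds ws : List (List ℕ)) : ℕ → PresentedGroup (RS ds ws) := xG (RS ds ws) (lmD ds)

theorem ev_xx {ds ws : List (List ℕ)} : ∀ w ∈ ws, ev (xx ds ws) w = 1 := by
  intro w hw
  have h1 := map_ev (PresentedGroup.mk (RS ds ws)) (fun y => (lmD ds).getD y 1) w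
  have h2 : ev (xx ds ws) w = ev (fun y => PresentedGroup.mk (RS ds ws) ((fun y => (lmD ds).getD y 1) y)) w := rfl
  rw [h2, ← h1]
  exact PresentedGroup.mk_eq_one_iff.2 (Subgroup.subset_normalClosure ⟨w, hw, rfl⟩)

theorem lifts {K : Type} [Group K] {ds ws : List (List ℕ)} (f : Bool → K) (h : ∀ w ∈ ws, ev (xF f (lmD ds)) w = 1) :
    ∀ r ∈ RS ds ws, FreeGroup.lift f r = 1 := by
  rintro _ ⟨w, hw, rfl⟩
  rw [map_ev]
  exact h w hw

theorem lmD_getD_lt {ds : List (List ℕ)} {y : ℕ} (h : y < 4) : (lmD ds).getD y 1 = base.getD y 1 := by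
  rw [lmD, List.getD_append _ _ _ _ (by simpa [base] using h)]

theorem lmD_getD_ge {ds : List (List ℕ)} {i : ℕ} (h : i < ds.length) :
    (lmD ds).getD (4 + i) 1 = ev (fun y => base.getD y 1) ds[i] := by
  rw [lmD, List.getD_append_right _ _ _ _ (by simp [base])]
  have h1 : 4 + i - base.length = i := by simp [base]
  rw [h1, List.getD_eq_getElem _ _ (by simpa using h), List.getElem_map]

theorem lmD_getD_big {ds : List (List ℕ)} {y : ℕ} (h : 4 + ds.length ≤ y) : (lmD ds).getD y 1 = 1 :=
  List.getD_eq_default _ _ (by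
    have h1 : (lmD ds).length = 4 + ds.length := by simp [lmD, base]; omega
    rw [h1]; exact h)

/-- the inverses are among the relators -/
def icOk (ic : ℕ) (ds ws : List (List ℕ)) : Bool := (List.range 16).all fun y =>
  ws.contains [y, il ic y] || ((Nat.beq y 0 || Nat.ble (4 + ds.length) y) && Nat.beq (il ic y) 0)

theorem lmD_zero {ds : List (List ℕ)} : (lmD ds).getD 0 1 = 1 := by
  rw [lmD_getD_lt (by decide)]; rfl

theorem hic {ic : ℕ} {ds ws : List (List ℕ)} (h : icOk ic ds ws = true) {K : Type} [Group K] {x : ℕ → K} (h0 : x 0 = 1)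
    (hbig : ∀ y, 4 + ds.length ≤ y → x y = 1) (hr : ∀ w ∈ ws, ev x w = 1) (y : ℕ) (hy : y < 16) :
    x (il ic y) = (x y)⁻¹ := by
  rw [icOk, List.all_eq_true] at h
  have h1 := h y (List.mem_range.2 hy)
  rw [Bool.or_eq_true] at h1
  rcases h1 with h1 | h1
  · rw [List.contains_iff_mem] at h1
    have h2 := hr _ h1
    rw [ev_cons, ev_cons, ev_nil, mul_one] at h2
    exact (eq_inv_of_mul_eq_one_right h2)
  · rw [Bool.and_eq_true, Bool.or_eq_true] at h1
    rw [Nat.eq_of_beq_eq_true h1.2, h0]
    rcases h1.1 with h2 | h2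
    · rw [Nat.eq_of_beq_eq_true h2, h0, inv_one]
    · rw [hbig y (Nat.le_of_ble_eq_true h2), inv_one]

theorem xx_zero {ds ws : List (List ℕ)} : xx ds ws 0 = 1 := by
  show PresentedGroup.mk _ ((lmD ds).getD 0 1) = 1
  rw [lmD_zero, map_one]

theorem xx_big {ds ws : List (List ℕ)} (y : ℕ) (hy : 4 + ds.length ≤ y) : xx ds ws y = 1 := by
  show PresentedGroup.mk _ ((lmD ds).getD y 1) = 1
  rw [lmD_getD_big hy, map_one]

theorem xF_zero {K : Type} [Group K] {ds : List (List ℕ)} (f : Bool → K) : xF f (lmD ds) 0 = 1 := by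
  show FreeGroup.lift f ((lmD ds).getD 0 1) = 1
  rw [lmD_zero, map_one]

theorem xF_big {K : Type} [Group K] {ds : List (List ℕ)} (f : Bool → K) (y : ℕ) (hy : 4 + ds.length ≤ y) :
    xF f (lmD ds) y = 1 := by
  show FreeGroup.lift f ((lmD ds).getD y 1) = 1
  rw [lmD_getD_big hy, map_one]

theorem xF_one {K : Type} [Group K] {ds : List (List ℕ)} (f : Bool → K) : xF f (lmD ds) 1 = f false := by
  show FreeGroup.lift f ((lmD ds).getD 1 1) = _
  rw [lmD_getD_lt (by decide)]; exact FreeGroup.lift_apply_of

theorem xF_two {K : Type} [Group K] {ds : List (List ℕ)} (f : Bool → K) : xF f (lmD ds) 2 = f true := by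
  show FreeGroup.lift f ((lmD ds).getD 2 1) = _
  rw [lmD_getD_lt (by decide)]; exact FreeGroup.lift_apply_of

theorem xF_three {K : Type} [Group K] {ds : List (List ℕ)} (f : Bool → K) : xF f (lmD ds) 3 = (f true)⁻¹ := by
  show FreeGroup.lift f ((lmD ds).getD 3 1) = _
  rw [lmD_getD_lt (by decide)]
  show FreeGroup.lift f (FreeGroup.of true)⁻¹ = _
  rw [map_inv, FreeGroup.lift_apply_of]

/-- expansion of the letters -/
def expW (ds : List (List ℕ)) (w : List ℕ) : List ℕ := w.flatMap fun y => if y < 4 then [y] else ds.getD (y - 4) []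

theorem ev_append' {K : Type*} [Group K] (x : ℕ → K) (u v : List ℕ) : ev x (u ++ v) = ev x u * ev x v := ev_append x u v

theorem xF_exp {K : Type} [Group K] {ds : List (List ℕ)} (f : Bool → K) (hds : (ds.all fun w => w.all fun y => Nat.blt y 4) = true)
    (w : List ℕ) : ev (xF f (lmD ds)) (expW ds w) = ev (xF f (lmD ds)) w := by
  induction w with
  | nil => rfl
  | cons y w ih =>
    have h1 : expW ds (y :: w) = (if y < 4 then [y] else ds.getD (y - 4) []) ++ expW ds w := rfl
    rw [h1, ev_append', ih, ev_cons]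
    congr 1
    by_cases hy : y < 4
    · rw [if_pos hy, ev_cons, ev_nil, mul_one]
    · rw [if_neg hy]
      by_cases hy2 : y - 4 < ds.length
      · have h2 : 4 + (y - 4) = y := by omega
        rw [List.getD_eq_getElem _ _ hy2]
        have h3 : xF f (lmD ds) y = FreeGroup.lift f (ev (fun y => base.getD y 1) ds[y - 4]) := by
          rw [← lmD_getD_ge hy2, h2]; rfl
        rw [h3, map_ev]
        have h4 : ∀ z ∈ ds[y - 4], z < 4 := by
          rw [List.all_eq_true] at hds
          have h5 := hds _ (List.getElem_mem hy2)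
          rw [List.all_eq_true] at h5
          exact fun z hz => blt_eq.1 (h5 z hz)
        generalize ds[y - 4] = u at h4
        induction u with
        | nil => rfl
        | cons z u ihu =>
          rw [ev_cons, ev_cons, ihu (fun z' hz' => h4 z' (by simp [hz']))]
          congr 1
          show FreeGroup.lift f ((lmD ds).getD z 1) = _
          rw [lmD_getD_lt (h4 z (by simp))]
      · rw [List.getD_eq_default _ _ (by omega), ev_nil, xF_big f y (by omega)]

/-- free reduction, with letter `1` an involution -/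
def redW : List ℕ → List ℕ → List ℕ
  | [], acc => acc.reverse
  | y :: w, [] => redW w [y]
  | y :: w, z :: acc => if (y = 1 ∧ z = 1) ∨ (y = 2 ∧ z = 3) ∨ (y = 3 ∧ z = 2) then redW w acc else redW w (y :: z :: acc)

theorem ev_redW {K : Type*} [Group K] {x : ℕ → K} (h1 : x 1 * x 1 = 1) (h2 : x 2 * x 3 = 1) (h3 : x 3 * x 2 = 1) :
    ∀ (w acc : List ℕ), ev x (redW w acc) = ev x acc.reverse * ev x w
  | [], acc => by rw [redW, ev_nil, mul_one]
  | y :: w, [] => by
    rw [redW, ev_redW h1 h2 h3 w [y]]
    simp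
  | y :: w, z :: acc => by
    rw [redW]
    split_ifs with h
    · rw [ev_redW h1 h2 h3 w acc, List.reverse_cons, ev_append', ev_cons, ev_nil, mul_one, ev_cons]
      have h4 : x z * x y = 1 := by
        rcases h with ⟨rfl, rfl⟩ | ⟨rfl, rfl⟩ | ⟨rfl, rfl⟩
        exacts [h1, h3, h2]
      rw [mul_assoc, ← mul_assoc (x z), h4, one_mul]
    · rw [ev_redW h1 h2 h3 w (y :: z :: acc), List.reverse_cons (a := y), ev_append', ev_cons, ev_nil, mul_one, ev_cons,
        mul_assoc]

/-- the relators follow from basic relators -/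
def basOk (ds ws bs : List (List ℕ)) : Bool := ws.all fun w => (redW (expW ds w) []).isEmpty || bs.contains (redW (expW ds w) [])

theorem lifts_of {K : Type} [Group K] {ds ws bs : List (List ℕ)} (f : Bool → K)
    (hds : (ds.all fun w => w.all fun y => Nat.blt y 4) = true) (hb : basOk ds ws bs = true) (h1 : f false * f false = 1)
    (hbs : ∀ w ∈ bs, ev (xF f (lmD ds)) w = 1) : ∀ r ∈ RS ds ws, FreeGroup.lift f r = 1 := by
  apply lifts
  intro w hw
  rw [basOk, List.all_eq_true] at hb
  have h2 := hb w hw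
  have h3 : ev (xF f (lmD ds)) (redW (expW ds w) []) = ev (xF f (lmD ds)) w := by
    rw [ev_redW (by rw [xF_one]; exact h1) (by rw [xF_two, xF_three]; simp) (by rw [xF_two, xF_three]; simp),
      List.reverse_nil, ev_nil, one_mul, xF_exp f hds]
  rw [Bool.or_eq_true] at h2
  rcases h2 with h2 | h2
  · rw [← h3, List.isEmpty_iff.1 h2, ev_nil]
  · rw [List.contains_iff_mem] at h2
    rw [← h3, hbs _ h2]

/-- values of the letters from permutations -/
theorem hx_of {K : Type} [Group K] {ds : List (List ℕ)} {X : ℕ → K} (f : Bool → K)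
    (hds : (ds.all fun w => w.all fun y => Nat.blt y 4) = true) (h0 : X 0 = 1) (h1 : f false = X 1) (h2 : f true = X 2)
    (h3 : X 3 = (X 2)⁻¹) (hd : ∀ i (hi : i < ds.length), ev X ds[i] = X (4 + i)) (hb : ∀ y, 4 + ds.length ≤ y → X y = 1)
    (y : ℕ) : xF f (lmD ds) y = X y := by
  have hs : ∀ y, y < 4 → xF f (lmD ds) y = X y := by
    intro y hy
    interval_cases y
    · rw [xF_zero, h0]
    · rw [xF_one, h1]
    · rw [xF_two, h2]
    · rw [xF_three, h2, h3]
  by_cases hy : y < 4
  · exact hs y hy
  · by_cases hy2 : y - 4 < ds.length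
    · have h5 : 4 + (y - 4) = y := by omega
      have h6 := hd (y - 4) hy2
      rw [h5] at h6
      rw [← h6]
      have h7 := xF_exp f hds [y]
      rw [ev_cons, ev_nil, mul_one] at h7
      rw [← h7]
      have h8 : expW ds [y] = ds[y - 4] := by
        have h9 : expW ds [y] = ds.getD (y - 4) [] := by simp [expW, hy]
        rw [h9, List.getD_eq_getElem _ _ hy2]
      rw [h8]
      have h4 : ∀ z ∈ ds[y - 4], z < 4 := by
        rw [List.all_eq_true] at hds
        have h5 := hds _ (List.getElem_mem hy2)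
        rw [List.all_eq_true] at h5
        exact fun z hz => blt_eq.1 (h5 z hz)
      generalize ds[y - 4] = u at h4
      induction u with
      | nil => rfl
      | cons z u ihu =>
        rw [ev_cons, ev_cons, ihu (fun z' hz' => h4 z' (by simp [hz'])), hs z (h4 z (by simp))]
    · rw [xF_big f y (by omega), hb y (by omega)]

end Cfsg.Agent.H26.Pres
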