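import Cfsg.Agent.H26_SpHeN
import Cfsg.Agent.S0245

/-! The point stabilizer of the Held group on 2058 points. -/

set_option autoImplicit false
set_option maxRecDepth 100000

namespace Cfsg.Agent.H26.SpHe

open Cfsg H8.CE H8.Net H8.Act H8.HeM H26.Sp Matrix

/-- the coordinates -/
def ee : Fin 2 ⊕ Fin 2 → Fin 4 := Sum.elim ![0, 1] ![2, 3]

/-- the vector of a point -/
def vv (i : Fin 85) : Fin 2 ⊕ Fin 2 → F4 := fun p => v4 i (ee p)

/-- the matrix of a letter -/
def AA (y : ℕ) : Matrix (Fin 2 ⊕ Fin 2) (Fin 2 ⊕ Fin 2) F4 := Matrix.of fun p q => F4.mk (mm y (ee p) (ee q))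

/-- all coordinates -/
def cc : List (Fin 2 ⊕ Fin 2) := [Sum.inl 0, Sum.inl 1, Sum.inr 0, Sum.inr 1]

theorem mem_cc (p : Fin 2 ⊕ Fin 2) : p ∈ cc := by
  rcases p with p | p <;> fin_cases p <;> simp [cc]

theorem AA_ok : ([1, 3, 4, 5, 6, 10, 11].all fun y => cc.all fun p => cc.all fun q => decide
    ((AA y * J (Fin 2) F4 * (AA y)ᵀ) p q = J (Fin 2) F4 p q)) = true := by
  decide +kernel

theorem AA_mem {y : ℕ} (hy : y ∈ [1, 3, 4, 5, 6, 10, 11]) : AA y ∈ symplecticGroup (Fin 2) F4 := by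
  rw [SymplecticGroup.mem_iff]
  ext p q
  have h := AA_ok
  rw [List.all_eq_true] at h
  have h1 := h y hy
  rw [List.all_eq_true] at h1
  have h2 := h1 p (mem_cc p)
  rw [List.all_eq_true] at h2
  exact of_decide_eq_true (h2 q (mem_cc q))

theorem mulVec_AA (M : Fin 4 → Fin 4 → Fin 4) (w : Fin 4 → F4) (p : Fin 2 ⊕ Fin 2) :
    (Matrix.of (fun p q => F4.mk (M (ee p) (ee q))) *ᵥ (fun q => w (ee q))) p = lin M w (ee p) := by
  rw [mulVec, dotProduct, Fintype.sum_sum_type, Fin.sum_univ_two, Fin.sum_univ_two]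
  simp only [Matrix.of_apply, lin, ee, Sum.elim_inl, Sum.elim_inr, Matrix.cons_val_zero, Matrix.cons_val_one]
  ring

theorem propB_iff {u v : Fin 4 → F4} : propB u v = true ↔ ∃ c : F4, c ≠ 0 ∧ ∀ t, u t = c * v t := by
  rw [propB, decide_eq_true_iff]
  constructor
  · rintro ⟨c, hc, h0, h1, h2, h3⟩
    refine ⟨c, hc, fun t => ?_⟩
    fin_cases t
    exacts [h0, h1, h2, h3]
  · rintro ⟨c, hc, h⟩
    exact ⟨c, hc, h 0, h 1, h 2, h 3⟩

theorem ee_surj (t : Fin 4) : ∃ p, ee p = t := by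
  revert t; decide

theorem vv_inj_ok : ((List.range 85).all fun i => (List.range 85).all fun j =>
    Nat.beq i j || !propB (v4 i) (v4 j)) = true := by decide +kernel

theorem vv_inj (i j : Fin 85) (h : ∃ c : F4, c ≠ 0 ∧ vv i = c • vv j) : i = j := by
  obtain ⟨c, hc, h⟩ := h
  have h1 := vv_inj_ok
  rw [List.all_eq_true] at h1
  have h2 := h1 i (List.mem_range.2 i.2)
  rw [List.all_eq_true] at h2
  have h3 := h2 j (List.mem_range.2 j.2)
  have h4 : propB (v4 i) (v4 j) = true := by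
    rw [propB_iff]
    refine ⟨c, hc, fun t => ?_⟩
    obtain ⟨p, rfl⟩ := ee_surj t
    exact congrFun h p
  rw [h4] at h3
  simp only [Bool.not_true, Bool.or_false] at h3
  exact Fin.ext (Nat.eq_of_beq_eq_true h3)

/-! ### Scalars -/

theorem eig_ok : (∃ i < 85, propB (v4 i) ![1, 0, 0, 0] = true) ∧ (∃ i < 85, propB (v4 i) ![0, 1, 0, 0] = true) ∧
    (∃ i < 85, propB (v4 i) ![0, 0, 1, 0] = true) ∧ (∃ i < 85, propB (v4 i) ![0, 0, 0, 1] = true) ∧
    (∃ i < 85, propB (v4 i) ![1, 1, 0, 0] = true) ∧ (∃ i < 85, propB (v4 i) ![1, 0, 1, 0] = true) ∧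
    (∃ i < 85, propB (v4 i) ![1, 0, 0, 1] = true) := by decide +kernel

theorem eig (A : Matrix (Fin 2 ⊕ Fin 2) (Fin 2 ⊕ Fin 2) F4) (h : ∀ i : Fin 85, ∃ c : F4, c ≠ 0 ∧ A *ᵥ vv i = c • vv i)
    {w : Fin 4 → F4} (hw : ∃ i < 85, propB (v4 i) w = true) :
    ∃ c : F4, A *ᵥ (fun p => w (ee p)) = c • (fun p => w (ee p)) := by
  obtain ⟨i, hi, h1⟩ := hw
  rw [propB_iff] at h1
  obtain ⟨d, hd, h1⟩ := h1
  obtain ⟨c, hc, h2⟩ := h ⟨i, hi⟩
  refine ⟨c, ?_⟩
  have h3 : vv ⟨i, hi⟩ = d • fun p => w (ee p) := by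
    ext p; exact h1 (ee p)
  rw [h3, mulVec_smul, smul_comm] at h2
  exact smul_right_injective _ hd h2

theorem scal (A : Matrix (Fin 2 ⊕ Fin 2) (Fin 2 ⊕ Fin 2) F4) (hA : A ∈ symplecticGroup (Fin 2) F4)
    (h : ∀ i : Fin 85, ∃ c : F4, c ≠ 0 ∧ A *ᵥ vv i = c • vv i) : A = 1 := by
  obtain ⟨e0, e1, e2, e3, e01, e02, e03⟩ := eig_ok
  obtain ⟨c0, h0⟩ := eig A h e0
  obtain ⟨c1, h1⟩ := eig A h e1
  obtain ⟨c2, h2⟩ := eig A h e2
  obtain ⟨c3, h3⟩ := eig A h e3
  obtain ⟨d1, g1⟩ := eig A h e01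
  obtain ⟨d2, g2⟩ := eig A h e02
  obtain ⟨d3, g3⟩ := eig A h e03
  have a1 := congrFun h0 (Sum.inl 0)
  have a2 := congrFun h0 (Sum.inl 1)
  have a3 := congrFun h0 (Sum.inr 0)
  have a4 := congrFun h0 (Sum.inr 1)
  have b1 := congrFun h1 (Sum.inl 0)
  have b2 := congrFun h1 (Sum.inl 1)
  have b3 := congrFun h1 (Sum.inr 0)
  have b4 := congrFun h1 (Sum.inr 1)
  have f1 := congrFun h2 (Sum.inl 0)
  have f2 := congrFun h2 (Sum.inl 1)
  have f3 := congrFun h2 (Sum.inr 0)
  have f4 := congrFun h2 (Sum.inr 1)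
  have k1 := congrFun h3 (Sum.inl 0)
  have k2 := congrFun h3 (Sum.inl 1)
  have k3 := congrFun h3 (Sum.inr 0)
  have k4 := congrFun h3 (Sum.inr 1)
  have l1 := congrFun g1 (Sum.inl 0)
  have l2 := congrFun g1 (Sum.inl 1)
  have m1 := congrFun g2 (Sum.inl 0)
  have m2 := congrFun g2 (Sum.inr 0)
  have n1 := congrFun g3 (Sum.inl 0)
  have n2 := congrFun g3 (Sum.inr 1)
  simp only [mulVec, dotProduct, Fintype.sum_sum_type, Fin.sum_univ_two, ee, Sum.elim_inl, Sum.elim_inr,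
    Matrix.cons_val_zero, Matrix.cons_val_one, Matrix.cons_val, Pi.smul_apply, smul_eq_mul, mul_one, mul_zero, add_zero,
    zero_add] at a1 a2 a3 a4 b1 b2 b3 b4 f1 f2 f3 f4 k1 k2 k3 k4 l1 l2 m1 m2 n1 n2
  have hc1 : c1 = c0 := by
    rw [← b2, ← a1]
    rw [a2, zero_add] at l2
    rw [b1, add_zero] at l1
    rw [l1, l2]
  have hc2 : c2 = c0 := by
    rw [← f3, ← a1]
    rw [a3, zero_add] at m2
    rw [f1, add_zero] at m1
    rw [m1, m2]
  have hc3 : c3 = c0 := by
    rw [← k4, ← a1]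
    rw [a4, zero_add] at n2
    rw [k1, add_zero] at n1
    rw [n1, n2]
  rw [hc1] at b2
  rw [hc2] at f3
  rw [hc3] at k4
  have hA1 : A = c0 • (1 : Matrix (Fin 2 ⊕ Fin 2) (Fin 2 ⊕ Fin 2) F4) := by
    ext p q
    rw [Matrix.smul_apply, smul_eq_mul]
    rcases p with p | p <;> rcases q with q | q <;> fin_cases p <;> fin_cases q
    · rw [Matrix.one_apply_eq, mul_one]; exact a1
    · exact b1.trans (by simp)
    · exact a2.trans (by simp)
    · exact b2.trans (by simp)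
    · exact f1.trans (by simp)
    · exact k1.trans (by simp)
    · exact f2.trans (by simp)
    · exact k2.trans (by simp)
    · exact a3.trans (by simp)
    · exact b3.trans (by simp)
    · exact a4.trans (by simp)
    · exact b4.trans (by simp)
    · exact f3.trans (by simp)
    · exact k3.trans (by simp)
    · exact f4.trans (by simp)
    · exact k4.trans (by simp)
  rw [SymplecticGroup.mem_iff, hA1, transpose_smul, transpose_one, smul_mul, one_mul, smul_mul,
    Matrix.mul_smul, Matrix.mul_one, smul_smul] at hA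
  have h5 := congrFun (congrFun hA (Sum.inr 0)) (Sum.inl 0)
  rw [Matrix.smul_apply] at h5
  have h6 : (J (Fin 2) F4) (Sum.inr 0) (Sum.inl 0) = 1 := by simp [J]
  rw [h6, smul_eq_mul, mul_one] at h5
  have h7 : ∀ c : F4, c * c = 1 → c = 1 := by decide
  rw [hA1, h7 _ h5, one_smul]

/-! ### The action of the subgroup -/

theorem hicS : ∀ y ∈ l9, il H8.HeR.ic y ∈ l9 ∧ x (il H8.HeR.ic y) = (x y)⁻¹ := by
  have h1 : ∀ y ∈ l9, il H8.HeR.ic y ∈ l9 := by decide +kernel
  have h2 : ∀ y ∈ l9, y < 16 := by decide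
  exact fun y hy => ⟨h1 y hy, hic y (h2 y hy)⟩

theorem bet_surj (j : ℕ) (hj : j < 85) : ∃ i, 273 ≤ i ∧ i < 698 ∧ i < 2058 ∧ bet i = j := by
  have h := rep_ok
  rw [List.all_eq_true] at h
  have h1 := h j (List.mem_range.2 hj)
  simp only [Bool.and_eq_true] at h1
  have h2 : rep j < 698 := blt_eq.1 h1.1.2
  exact ⟨rep j, Nat.le_of_ble_eq_true h1.1.1, h2, by omega, Nat.eq_of_beq_eq_true h1.2⟩

theorem exists_psi : ∃ ψ : Subgroup.closure (x '' {y | y ∈ l9}) →* Equiv.Perm (Fin 85),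
      (∀ y ∈ l9, ∀ i : Fin 85, ((((ψ (xS x l9 y))⁻¹ : Equiv.Perm (Fin 85)) i : Fin 85) : ℕ) = (net L y).pos i) ∧
      ∀ h : Subgroup.closure (x '' {y | y ∈ l9}), ∀ i : Fin 2058, 273 ≤ (i : ℕ) → (i : ℕ) < 698 →
        bet ((phi (h : Spor.He) i : Fin 2058) : ℕ) = ((ψ h ⟨bet i, bet_lt i⟩ : Fin 85) : ℕ) :=
  exists_quot (k := 7) (ic := H8.HeR.ic) compat sys (by decide) inv_ok (by decide) hicS bet_lt bet_surj hq

/-- the action on the blocks -/
noncomputable def psi : Subgroup.closure (x '' {y | y ∈ l9}) →* Equiv.Perm (Fin 85) := exists_psi.choose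

theorem compatS : Compat psi (xS x l9) L :=
  compat_quot exists_psi.choose_spec.1 (by
    intro y hy
    interval_cases y
    · exact Or.inr rfl
    · exact Or.inl (by decide)
    · exact Or.inr rfl
    · exact Or.inl (by decide)
    · exact Or.inl (by decide)
    · exact Or.inl (by decide)
    · exact Or.inl (by decide)
    · exact Or.inr rfl
    · exact Or.inl (by decide)
    · exact Or.inl (by decide)
    · exact Or.inl (by decide)
    · exact Or.inl (by decide)
    · exact Or.inr rfl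
    · exact Or.inr rfl
    · exact Or.inr rfl
    · exact Or.inr rfl)

theorem cardH : Nat.card (Subgroup.closure (x '' {y | y ∈ l9})) = 1958400 := by
  have h1 := (Subgroup.closure (x '' {y | y ∈ l9})).card_mul_index
  have h2 : (Subgroup.closure (x '' {y | y ∈ l9})).index = 2058 := H_index.1
  rw [h2, main.1] at h1
  omega

theorem psi_inj : Function.Injective psi :=
  (order_eq (φ := psi) sys (exists_g (k := 7) sys (by decide) compatS sg_ok (by decide +kernel)) levs chain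
    (by rw [prodM_levs, cardH])).2

/-! ### The identification -/

/-- the inclusion of the symplectic group -/
def rho : symplecticGroup (Fin 2) F4 →* Matrix (Fin 2 ⊕ Fin 2) (Fin 2 ⊕ Fin 2) F4 :=
  (symplecticGroup (Fin 2) F4).subtype

theorem psi_pos {y : ℕ} (hy : y < 16) (i : Fin 85) : ∃ j : Fin 85, psi (xS x l9 y) j = i ∧ (j : ℕ) = (net L y).pos i :=
  ⟨(psi (xS x l9 y))⁻¹ i, Equiv.apply_symm_apply _ _, compatS y hy i⟩

theorem lin_mem {y : ℕ} (hy : y ∈ [1, 3, 4, 5, 6, 10, 11]) :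
    (xS x l9 y, (⟨AA y, AA_mem hy⟩ : symplecticGroup (Fin 2) F4)) ∈ labP psi rho vv := by
  have hy16 : y < 16 := by
    have : ∀ y ∈ [1, 3, 4, 5, 6, 10, 11], y < 16 := by decide
    exact this y hy
  rw [mem_labP]
  intro j
  have h := lin_ok
  rw [List.all_eq_true] at h
  have h1 := h y hy
  rw [List.all_eq_true] at h1
  have h2 := h1 (psi (xS x l9 y) j : Fin 85) (List.mem_range.2 (Fin.is_lt _))
  rw [propB_iff] at h2
  obtain ⟨c, hc, h3⟩ := h2
  have h4 : (net L y).pos ((psi (xS x l9 y) j : Fin 85) : ℕ) = j := by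
    rw [← compatS y hy16]
    exact congrArg Fin.val (Equiv.symm_apply_apply _ _)
  rw [h4] at h3
  refine ⟨c, hc, ?_⟩
  ext p
  exact (mulVec_AA (mm y) (v4 j) p).trans (h3 (ee p))

theorem fr_mem {y : ℕ} (hy : y ∈ [8, 9]) (j : Fin 85) :
    ∃ c : F4, c ≠ 0 ∧ vv (psi (xS x l9 y) j) = c • fun t => F4.frob (vv j t) := by
  have hy16 : y < 16 := by
    have : ∀ y ∈ [8, 9], y < 16 := by decide
    exact this y hy
  have h := fr_ok
  rw [List.all_eq_true] at h
  have h1 := h y hy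
  rw [List.all_eq_true] at h1
  have h2 := h1 (psi (xS x l9 y) j : Fin 85) (List.mem_range.2 (Fin.is_lt _))
  rw [propB_iff] at h2
  obtain ⟨c, hc, h3⟩ := h2
  have h4 : (net L y).pos ((psi (xS x l9 y) j : Fin 85) : ℕ) = j := by
    rw [← compatS y hy16]
    exact congrArg Fin.val (Equiv.symm_apply_apply _ _)
  rw [h4] at h3
  refine ⟨c⁻¹, inv_ne_zero hc, ?_⟩
  ext p
  show vv (psi (xS x l9 y) j) p = c⁻¹ * F4.frob (vv j p)
  have h5 : F4.frob (vv j p) = c * vv (psi (xS x l9 y) j) p := h3 (ee p)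
  rw [h5, inv_mul_cancel_left₀ hc]

theorem frob_stable (A : symplecticGroup (Fin 2) F4) : ∃ A' : symplecticGroup (Fin 2) F4, rho A' = (rho A).map F4.frob := by
  have h := A.2
  rw [SymplecticGroup.mem_iff] at h
  refine ⟨⟨(A : Matrix _ _ F4).map F4.frob, ?_⟩, rfl⟩
  rw [SymplecticGroup.mem_iff]
  have hJ : (J (Fin 2) F4).map F4.frob = J (Fin 2) F4 := by
    ext p q
    rcases p with p | p <;> rcases q with q | q <;> simp [J, Matrix.one_apply, apply_ite F4.frob]
  have h1 := congrArg (fun M : Matrix (Fin 2 ⊕ Fin 2) (Fin 2 ⊕ Fin 2) F4 => M.map F4.frob) h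
  simp only [Matrix.map_mul, transpose_map, hJ] at h1
  exact h1

theorem card_sp : Nat.card (symplecticGroup (Fin 2) F4) = 979200 := by
  rw [S0245.result F4.card 2]
  simp [Finset.prod_range_succ]

instance : Finite (symplecticGroup (Fin 2) F4) := Nat.finite_of_card_ne_zero (by rw [card_sp]; decide)

theorem frob_inv (a : F4) : F4.frob (F4.frob a) = a := F4.frob_frob a

theorem mainS : ∃ N : Subgroup (Subgroup.closure (x '' {y | y ∈ l9})), N.Normal ∧ N.index = 2 ∧
    Nonempty (N ≃* symplecticGroup (Fin 2) F4) := by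
  have hu := lab_equiv (ψ := psi) (ρ := rho) (v := vv) (fun A hA => by
      rw [mem_labP] at hA
      refine Subtype.ext (scal A A.2 fun i => ?_)
      obtain ⟨c, hc, h⟩ := hA i
      rw [map_one] at h
      exact ⟨c, hc, h⟩) (fun h hh => lab_snd_inj psi_inj vv_inj hh)
  have hs2 : xS x l9 8 * xS x l9 8 ∈ labN psi rho vv := mem_labN.2 ⟨1, lab_sq F4.frob_frob (fr_mem (by decide))⟩
  have hidx := idx_le_two (N := labN psi rho vv) (s := xS x l9 8) hs2 (fun h hh => by
      obtain ⟨A, hA⟩ := mem_labN.1 hh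
      exact mem_labN.2 (lab_semi frob_stable (fr_mem (by decide)) hA)) (xS_top (x := x) l9) (by
      rintro _ ⟨y, hy, rfl⟩
      have hy' : y ∈ [1, 3, 4, 5, 6, 10, 11] ∨ y = 8 ∨ y = 9 := by
        have : ∀ y ∈ l9, y ∈ [1, 3, 4, 5, 6, 10, 11] ∨ y = 8 ∨ y = 9 := by decide
        exact this y hy
      rcases hy' with h | rfl | rfl
      · exact Or.inl (mem_labN.2 ⟨_, lin_mem h⟩)
      · exact Or.inr hs2
      · right
        have h9 : xS x l9 9 = (xS x l9 8)⁻¹ := by
          apply Subtype.ext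
          rw [Subgroup.coe_inv, xS_coe (show 9 ∈ l9 by decide), xS_coe (show 8 ∈ l9 by decide)]
          exact hic 8 (by decide)
        rw [h9, mul_inv_cancel]
        exact one_mem _)
  have h1 := (labN psi rho vv).card_mul_index
  rw [cardH] at h1
  have h2 := hu.1
  rw [card_sp] at h2
  have h3 := hidx.2
  have h4 : (labN psi rho vv).index = 2 := by
    have h5 : (labN psi rho vv).index ≠ 0 := by
      intro h; rw [h] at h1; omega
    have h6 : (labN psi rho vv).index ≠ 1 := by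
      intro h; rw [h] at h1; omega
    omega
  have h5 : Nat.card (labN psi rho vv) = 979200 := by
    rw [h4] at h1; omega
  exact ⟨labN psi rho vv, hidx.1, h4, hu.2 (by rw [card_sp, h5])⟩

theorem S1682 : ∃ (N : Subgroup (Hl [1, 3, 4, 5, 6, 8, 10])) (K : Type) (_ : Field K) (_ : Fintype K), N.Normal ∧
    N.index = 2 ∧ Fintype.card K = 4 ∧ Nonempty (N ≃* Matrix.symplecticGroup (Fin 2) K) := by
  rw [Hl_eq]
  obtain ⟨N, h1, h2, h3⟩ := mainS
  exact ⟨N, F4, inferInstance, inferInstance, h1, h2, F4.card, h3⟩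

theorem S0462 : ∃ H : Subgroup (Equiv.Perm (Fin 2058)), Cfsg.IsHe H ∧ MulAction.IsPretransitive H (Fin 2058) ∧
    ∃ (F : Type) (_ : Field F) (_ : Fintype F), Fintype.card F = 4 ∧
      ∃ N : Subgroup (MulAction.stabilizer H (0 : Fin 2058)), N.index = 2 ∧
        Nonempty (N ≃* Matrix.symplecticGroup (Fin 2) F) := by
  have e : Spor.He ≃* phi.range := MonoidHom.ofInjective main.2
  let e : Spor.He ≃* phi.range := MonoidHom.ofInjective main.2
  haveI := H8.HeM.simple
  refine ⟨phi.range, ⟨?_, ?_⟩, ?_, F4, inferInstance, inferInstance, F4.card, ?_⟩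
  · haveI : Nontrivial phi.range := e.toEquiv.symm.nontrivial
    exact IsSimpleGroup.isSimpleGroup_of_surjective e.toMonoidHom e.surjective
  · rw [← Nat.card_congr e.toEquiv, main.1]
  · constructor
    intro i j
    obtain ⟨g, hg⟩ := htr i
    obtain ⟨g', hg'⟩ := htr j
    refine ⟨e (g' * g⁻¹), ?_⟩
    show phi (g' * g⁻¹) i = j
    rw [map_mul, map_inv, ← hg, ← hg']
    show phi g' ((phi g)⁻¹ (phi g _)) = _
    congr 1
    exact Equiv.symm_apply_apply _ _
  · obtain ⟨N, -, h2, ⟨f⟩⟩ := mainS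
    have h3 : (Subgroup.closure (x '' {y | y ∈ l9})).map e.toMonoidHom = MulAction.stabilizer phi.range (0 : Fin 2058) := by
      ext q
      rw [MulAction.mem_stabilizer_iff]
      constructor
      · rintro ⟨g, hg, rfl⟩
        exact (H_index.2 g).1 hg
      · intro hq
        obtain ⟨g, rfl⟩ := e.surjective q
        exact ⟨g, (H_index.2 g).2 hq, rfl⟩
    let E : Subgroup.closure (x '' {y | y ∈ l9}) ≃* MulAction.stabilizer phi.range (0 : Fin 2058) :=
      (e.subgroupMap _).trans (MulEquiv.subgroupCongr h3)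
    refine ⟨N.map E.toMonoidHom, ?_, ⟨(E.subgroupMap N).symm.trans f⟩⟩
    rw [← h2]
    exact Subgroup.index_map_equiv N E

end Cfsg.Agent.H26.SpHe
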