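import Cfsg.Agent.H26_SpL

/-! Restriction of an action to an orbit. -/

set_option autoImplicit false

namespace Cfsg.Agent.H26.Sp

open H8.CE H8.Net H8.Act H8.Cox

variable {G : Type*} [Group G] {n m : ℕ} {φ : G →* Equiv.Perm (Fin n)} {x : ℕ → G} {L Lm : List Nt}

/-- an action on a part of the points -/
theorem exists_subact (hc : Compat φ x L) {ic k : ℕ} (hsm : sysOk Lm m = true) (hm : m ≤ 2 ^ k)
    (him : invOk Lm m k ic = true) {l : List ℕ} (hl : ∀ y ∈ l, y < 16)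
    {β : ℕ → ℕ} (hβ : ∀ i, i < m → β i < n) (hinj : ∀ i j, i < m → j < m → β i = β j → i = j)
    (hq : ∀ y ∈ l, ∀ i, i < m → (net L y).pos (β i) = β ((net Lm y).pos i)) :
    ∃ ψ : Subgroup.closure (x '' {y | y ∈ l}) →* Equiv.Perm (Fin m),
      (∀ y ∈ l, ∀ i : Fin m, ((((ψ (xS x l y))⁻¹ : Equiv.Perm (Fin m)) i : Fin m) : ℕ) = (net Lm y).pos i) ∧
      ∀ h : Subgroup.closure (x '' {y | y ∈ l}), ∀ i : Fin m,
        ((φ (h : G) ⟨β i, hβ i i.2⟩ : Fin n) : ℕ) = β ((ψ h i : Fin m) : ℕ) := by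
  let R : Subgroup (Subgroup.closure (x '' {y | y ∈ l}) × Equiv.Perm (Fin m)) :=
    { carrier := {p | ∀ i : Fin m, φ (p.1 : G) ⟨β i, hβ i i.2⟩ = ⟨β (p.2 i : Fin m), hβ _ (p.2 i).2⟩}
      one_mem' := by
        intro i
        show φ (((1 : Subgroup.closure (x '' {y | y ∈ l})) : G)) ⟨β i, hβ i i.2⟩ = ⟨β i, hβ i i.2⟩
        rw [Subgroup.coe_one, map_one]; rfl
      mul_mem' := by
        rintro ⟨g, p⟩ ⟨g', p'⟩ hg hg' i
        show φ ((g : G) * (g' : G)) ⟨β i, hβ i i.2⟩ = ⟨β (p (p' i) : Fin m), hβ _ (p (p' i)).2⟩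
        rw [map_mul, Equiv.Perm.mul_apply]
        have h1 := hg' i
        have h2 := hg (p' i)
        simp only at h1 h2
        rw [h1, h2]
      inv_mem' := by
        rintro ⟨g, p⟩ hg i
        show φ ((g : G)⁻¹) ⟨β i, hβ i i.2⟩ = ⟨β ((p⁻¹ : Equiv.Perm (Fin m)) i : Fin m), hβ _ ((p⁻¹ : Equiv.Perm (Fin m)) i).2⟩
        rw [map_inv, Equiv.Perm.inv_eq_iff_eq]
        have h1 := hg ((p⁻¹ : Equiv.Perm (Fin m)) i)
        have h2 : p ((p⁻¹ : Equiv.Perm (Fin m)) i) = i := Equiv.apply_symm_apply _ _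
        simp only at h1
        rw [h1]
        apply Fin.ext
        show β i = β (p ((p⁻¹ : Equiv.Perm (Fin m)) i) : Fin m)
        rw [h2] }
  have hgen : ∀ y ∈ l, (xS x l y, xP hsm hm him y) ∈ R := by
    intro y hy i
    have hy16 := hl y hy
    show φ (xS x l y : G) ⟨β i, hβ i i.2⟩ = ⟨β (xP hsm hm him y i : Fin m), hβ _ (xP hsm hm him y i).2⟩
    rw [xS_coe hy]
    have h1 := hc y hy16 ⟨β (xP hsm hm him y i : Fin m), hβ _ (xP hsm hm him y i).2⟩
    have h2 := hq y hy (xP hsm hm him y i : Fin m) (xP hsm hm him y i).2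
    have h3 := xP_inv_apply hsm hm him y hy16 (xP hsm hm him y i)
    have h4 : ((xP hsm hm him y)⁻¹ : Equiv.Perm (Fin m)) (xP hsm hm him y i) = i := Equiv.symm_apply_apply _ _
    rw [h4] at h3
    have h5 : ((φ (x y))⁻¹ : Equiv.Perm (Fin n)) ⟨β (xP hsm hm him y i : Fin m), hβ _ (xP hsm hm him y i).2⟩ =
        ⟨β i, hβ i i.2⟩ := by
      apply Fin.ext
      rw [h1]
      show (net L y).pos (β (xP hsm hm him y i : Fin m)) = β i
      rw [h2, ← h3]
    rw [Equiv.Perm.inv_eq_iff_eq] at h5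
    exact h5.symm
  obtain ⟨ψ, hψ⟩ := graph_hom R (xS x l '' {y | y ∈ l}) (xS_top l) (by
      rintro _ ⟨y, hy, rfl⟩
      exact ⟨_, hgen y hy⟩) (by
      intro t ht
      ext i
      have h1 := ht i
      have h2 : (⟨β i, hβ i i.2⟩ : Fin n) = ⟨β (t i : Fin m), hβ _ (t i).2⟩ := by
        rw [← h1]
        show _ = φ (((1 : Subgroup.closure (x '' {y | y ∈ l})) : G)) _
        rw [Subgroup.coe_one, map_one]; rfl
      exact (hinj _ _ i.2 (t i).2 (congrArg Fin.val h2)).symm)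
  refine ⟨ψ, ?_, fun h i => congrArg Fin.val (hψ h i)⟩
  intro y hy i
  have hy16 := hl y hy
  have h1 : ψ (xS x l y) = xP hsm hm him y := by
    have h2 := R.mul_mem (hψ (xS x l y)) (R.inv_mem (hgen y hy))
    ext i
    have h3 := h2 (xP hsm hm him y i)
    have h4 : ((xP hsm hm him y)⁻¹ : Equiv.Perm (Fin m)) (xP hsm hm him y i) = i := Equiv.symm_apply_apply _ _
    have h5 : (((xS x l y, ψ (xS x l y)) * (xS x l y, xP hsm hm him y)⁻¹).2 :
        Equiv.Perm (Fin m)) (xP hsm hm him y i) = ψ (xS x l y) i := by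
      show ψ (xS x l y) (((xP hsm hm him y)⁻¹ : Equiv.Perm (Fin m)) (xP hsm hm him y i)) = _
      rw [h4]
    have h6 : φ ((((xS x l y, ψ (xS x l y)) * (xS x l y, xP hsm hm him y)⁻¹).1 : Subgroup.closure (x '' {y | y ∈ l})) : G)
        ⟨β (xP hsm hm him y i : Fin m), hβ _ (xP hsm hm him y i).2⟩ =
        ⟨β (xP hsm hm him y i : Fin m), hβ _ (xP hsm hm him y i).2⟩ := by
      show φ ((xS x l y * (xS x l y)⁻¹ : Subgroup.closure (x '' {y | y ∈ l})) : G) _ = _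
      rw [mul_inv_cancel, Subgroup.coe_one, map_one]; rfl
    have h7 := h6.symm.trans h3
    have h8 := congrArg Fin.val h7
    have h9 : (xP hsm hm him y i : Fin m) = ψ (xS x l y) i := by
      apply Fin.ext
      apply hinj _ _ (Fin.is_lt _) (Fin.is_lt _)
      have h10 : β (xP hsm hm him y i : Fin m) = β ((((xS x l y, ψ (xS x l y)) * (xS x l y, xP hsm hm him y)⁻¹).2 :
        Equiv.Perm (Fin m)) (xP hsm hm him y i) : Fin m) := h8
      rwa [h5] at h10
    rw [h9]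
  rw [h1]
  exact xP_inv_apply hsm hm him y hy16 i

end Cfsg.Agent.H26.Sp
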