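import Cfsg.Agent.H26_SpL

/-! Induced actions on blocks checked with bit planes. -/

set_option autoImplicit false

namespace Cfsg.Agent.H26.Sp

open H8.CE H8.Net H8.Act

/-- the number with the given bit planes -/
def bv (l : List ℕ) (i : ℕ) : ℕ :=
  l.foldr (fun Q c => Nat.add (Nat.land (Nat.shiftRight Q i) (nat_lit 1)) (Nat.mul (nat_lit 2) c)) (nat_lit 0)

theorem bit_eq (Q i : ℕ) : Nat.land (Nat.shiftRight Q i) (nat_lit 1) = (Q.testBit i).toNat := by
  rw [Nat.toNat_testBit]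
  show (Q >>> i) &&& 1 = _
  rw [Nat.and_one_is_mod, Nat.shiftRight_eq_div_pow]

theorem bv_congr {ι : Type*} (l : List ι) (f g : ι → ℕ) (i j : ℕ) (h : ∀ p ∈ l, (f p).testBit i = (g p).testBit j) :
    bv (l.map f) i = bv (l.map g) j := by
  induction l with
  | nil => rfl
  | cons p l ih =>
    show Nat.add (Nat.land (Nat.shiftRight (f p) i) 1) (Nat.mul 2 (bv (l.map f) i)) =
      Nat.add (Nat.land (Nat.shiftRight (g p) j) 1) (Nat.mul 2 (bv (l.map g) j))
    rw [ih (fun p hp => h p (by simp [hp])), bit_eq, bit_eq, h p (by simp)]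

/-- the check of the planes -/
noncomputable def apOk (t : Nt) (a : ℕ) (l : List (ℕ × ℕ)) : Bool :=
  l.all fun p => Nat.beq (t.ap (Nat.shiftLeft p.1 a)) (Nat.shiftLeft p.2 a)

/-- the check of the interval -/
noncomputable def ivOk (t : Nt) (a d : ℕ) : Bool :=
  Nat.beq (t.ap (Nat.shiftLeft (ones d) a)) (Nat.shiftLeft (ones d) a)

theorem ivOk_sound {t : Nt} (ht : t.Ok) {a d : ℕ} (h : ivOk t a d = true) {i : ℕ} (hi : a ≤ i) (hi' : i < a + d) :
    a ≤ t.pos i ∧ t.pos i < a + d := by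
  have h1 := Nat.eq_of_beq_eq_true h
  have h2 : Nat.testBit _ i = Nat.testBit _ i := congrArg (fun v => Nat.testBit v i) h1
  rw [Nt.ap_testBit ht] at h2
  have h3 : ∀ j, (Nat.shiftLeft (ones d) a).testBit j = (decide (j ≥ a) && decide (j - a < d)) := by
    intro j
    show (ones d <<< a).testBit j = _
    rw [Nat.testBit_shiftLeft, ones_testBit]
  rw [h3, h3] at h2
  have h4 : (decide (i ≥ a) && decide (i - a < d)) = true := by
    rw [Bool.and_eq_true, decide_eq_true_eq, decide_eq_true_eq]; omega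
  rw [h4, Bool.and_eq_true, decide_eq_true_eq, decide_eq_true_eq] at h2
  omega

theorem apOk_sound {t : Nt} (ht : t.Ok) {a : ℕ} {l : List (ℕ × ℕ)} (h : apOk t a l = true) {i : ℕ} (hi : a ≤ i)
    (hp : a ≤ t.pos i) : bv (l.map Prod.fst) (t.pos i - a) = bv (l.map Prod.snd) (i - a) := by
  rw [apOk, List.all_eq_true] at h
  apply bv_congr
  intro p hpl
  have h1 := Nat.eq_of_beq_eq_true (h p hpl)
  have h2 : Nat.testBit _ i = Nat.testBit _ i := congrArg (fun v => Nat.testBit v i) h1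
  rw [Nt.ap_testBit ht] at h2
  have h3 : ∀ (q j : ℕ), a ≤ j → (Nat.shiftLeft q a).testBit j = q.testBit (j - a) := by
    intro q j hj
    show (q <<< a).testBit j = _
    rw [Nat.testBit_shiftLeft]
    simp [hj]
  rw [h3 _ _ hp, h3 _ _ hi] at h2
  exact h2

/-- the check of the values -/
def vlOk (t : Nt) (d m : ℕ) (l : List (ℕ × ℕ)) : Bool :=
  (List.range d).all fun i => Nat.beq (Nat.mod (bv (l.map Prod.snd) i) m) (t.pos (Nat.mod (bv (l.map Prod.fst) i) m))

theorem quotB_of {L Lm : List Nt} {n : ℕ} (hs : sysOk L n = true) {ys : List ℕ} {a d m : ℕ} {q : List ℕ} {r : ℕ → List (ℕ × ℕ)}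
    (hq : ∀ y ∈ ys, (r y).map Prod.fst = q)
    (h1 : ∀ y ∈ ys, apOk (net L y) a (r y) = true)
    (h2 : ∀ y ∈ ys, ivOk (net L y) a d = true) (h3 : ∀ y ∈ ys, vlOk (net Lm y) d m (r y) = true) :
    quotB L Lm ys (fun i => Nat.mod (bv q (Nat.sub i a)) m) a (a + d) = true := by
  rw [quotB, List.all_eq_true]
  intro y hy
  rw [List.all_eq_true]
  intro i hi
  rw [List.mem_range] at hi
  have hok := (net_mem hs y).1
  obtain ⟨h4, h5⟩ := ivOk_sound hok (h2 y hy) (i := a + i) (by omega) (by omega)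
  have h6 := apOk_sound hok (h1 y hy) (i := a + i) (by omega) h4
  have h7 := h3 y hy
  rw [vlOk, List.all_eq_true] at h7
  have h8 := Nat.eq_of_beq_eq_true (h7 i (List.mem_range.2 (by omega)))
  rw [Bool.and_eq_true, Bool.and_eq_true]
  refine ⟨⟨Nat.ble_eq_true_of_le h4, blt_eq.2 h5⟩, ?_⟩
  have e : a + i - a = i := by omega
  rw [e, hq y hy] at h6
  rw [hq y hy, ← h6] at h8
  have h9 : Nat.mod (bv q (Nat.sub ((net L y).pos (a + i)) a)) m = (net Lm y).pos (Nat.mod (bv q (Nat.sub (a + i) a)) m) := by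
    rw [show Nat.sub (a + i) a = i from e]
    exact h8
  rw [h9]
  exact Nat.beq_refl _

end Cfsg.Agent.H26.Sp
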