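import Mathlib
import Cfsg.Prelude
import Cfsg.Agent.H1_Hall

set_option autoImplicit false

/-! The number of Hall subgroups of a solvable group. -/

namespace Cfsg.Agent.H27.HallNum

open Subgroup
open scoped Pointwise

universe u

section Fix

variable {G : Type u} [Group G] [Finite G]

theorem fixmod {p : ℕ} [Fact p.Prime] {P A : Subgroup G} (hP : IsPGroup p P) (hn : P ≤ normalizer (A : Set G)) :
    Nat.card A ≡ Nat.card (A ⊓ centralizer (P : Set G) : Subgroup G) [MOD p] := by
  let act : MulAction P A := MulAction.compHom A ((Subgroup.normalizerMonoidHom A).comp (Subgroup.inclusion hn))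
  have h1 := hP.card_modEq_card_fixedPoints A
  have h2 : Nat.card (MulAction.fixedPoints P A) = Nat.card (A ⊓ centralizer (P : Set G) : Subgroup G) := by
    refine Nat.card_congr ⟨fun a => ⟨(a.1 : G), ⟨a.1.2, ?_⟩⟩, fun a => ⟨⟨a.1, a.2.1⟩, ?_⟩, fun _ => rfl, fun _ => rfl⟩
    · refine mem_centralizer_iff.mpr ?_
      intro x hx
      have h3 : x * (a.1 : G) * x⁻¹ = (a.1 : G) := congrArg Subtype.val (a.2 ⟨x, hx⟩)
      exact mul_inv_eq_iff_eq_mul.mp h3
    · intro x
      apply Subtype.ext
      change (x : G) * a.1 * (x : G)⁻¹ = a.1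
      have h3 := mem_centralizer_iff.mp a.2.2 (x : G) x.2
      rw [h3]
      group
  rw [h2] at h1
  exact h1

theorem chain (r : ℕ) (hr : r.Prime) (n : ℕ) : ∀ (M H : Subgroup G), Nat.card H = n → Group.IsSolvable H →
    H ≤ normalizer (M : Set G) → IsPGroup r M → (Nat.card H).Coprime r →
    ∃ l : List ℕ, (M ⊓ centralizer (H : Set G)).relIndex M = l.prod ∧
      ∀ x ∈ l, (∃ e, x = r ^ e) ∧ x ∣ Nat.card M ∧ ∃ q : ℕ, q.Prime ∧ q ∣ Nat.card H ∧ x ≡ 1 [MOD q] := by
  induction n using Nat.strong_induction_on with
  | _ n ih =>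
    intro M H hn hs hHM hM hco
    by_cases hb : H = ⊥
    · subst hb
      refine ⟨[], ?_, by simp⟩
      have : M ⊓ centralizer ((⊥ : Subgroup G) : Set G) = M := by
        apply inf_eq_left.mpr
        intro x _
        rw [mem_centralizer_iff]
        intro y hy
        rw [mem_bot.mp hy]
        simp
      rw [this, relIndex_self]
      rfl
    haveI := hs
    haveI : Nontrivial H := (Subgroup.nontrivial_iff_ne_bot H).mpr hb
    obtain ⟨K, hKn, hKp, -⟩ := H1.Basic.exists_normal_index_prime (G := H)
    haveI := hKn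
    set p := K.index with hp
    haveI : Fact p.Prime := ⟨hKp⟩
    let H1 := K.map H.subtype
    have hH1 : H1 ≤ H := Subgroup.map_subtype_le K
    have hcard1 : Nat.card H1 = Nat.card K := Subgroup.card_map_of_injective H.subtype_injective
    have hcK := K.card_mul_index
    have hpd : p ∣ Nat.card H := ⟨Nat.card K, by rw [← hcK, mul_comm]⟩
    have hlt : Nat.card H1 < n := by
      rw [hcard1, ← hn, ← hcK]
      exact lt_mul_of_one_lt_right Nat.card_pos hKp.one_lt
    have hs1 : Group.IsSolvable H1 := solvable_of_solvable_injective (Subgroup.inclusion_injective hH1)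
    obtain ⟨l, hl, hlx⟩ := ih _ hlt M H1 rfl hs1 (hH1.trans hHM) hM
      (Nat.Coprime.coprime_dvd_left (Subgroup.card_dvd_of_le hH1) hco)
    -- Sylow `p`-subgroup of `H`
    obtain ⟨Q⟩ : Nonempty (Sylow p H) := inferInstance
    let P := (Q : Subgroup H).map H.subtype
    have hPp : IsPGroup p P := Q.2.map _
    have hPH : P ≤ H := Subgroup.map_subtype_le _
    have hsup : H1 ⊔ P = H := by
      have h1 : K ⊔ (Q : Subgroup H) = ⊤ := by
        have h2 : (K ⊔ (Q : Subgroup H)).index ∣ K.index := Subgroup.index_dvd_of_le le_sup_left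
        rcases (Nat.dvd_prime hKp).mp h2 with h3 | h3
        · exact Subgroup.index_eq_one.mp h3
        · exfalso
          have h4 : (K ⊔ (Q : Subgroup H)).index ∣ (Q : Subgroup H).index := Subgroup.index_dvd_of_le le_sup_right
          rw [h3] at h4
          exact Q.not_dvd_index h4
      have h2 := congrArg (Subgroup.map H.subtype) h1
      rw [Subgroup.map_sup, ← MonoidHom.range_eq_map, H.range_subtype] at h2
      exact h2
    have hH1n : H ≤ normalizer (H1 : Set G) := by
      have : (H1.subgroupOf H).Normal := by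
        have h3 : H1.subgroupOf H = K := Subgroup.comap_map_eq_self_of_injective H.subtype_injective K
        rw [h3]
        exact hKn
      exact (Subgroup.normal_subgroupOf_iff_le_normalizer hH1).mp this
    let M1 := M ⊓ centralizer (H1 : Set G)
    have hM1n : H ≤ normalizer (M1 : Set G) := by
      intro h hh
      refine Subgroup.mem_normalizer_fintype ?_
      rintro x ⟨hx1, hx2⟩
      refine ⟨(mem_normalizer_iff.mp (hHM hh) x).mp hx1, ?_⟩
      refine mem_centralizer_iff.mpr ?_
      intro y hy
      have h3 : h⁻¹ * y * h⁻¹⁻¹ ∈ H1 := (mem_normalizer_iff.mp (inv_mem (hH1n hh)) y).mp hy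
      have h4 := mem_centralizer_iff.mp hx2 _ h3
      rw [inv_inv] at h4
      calc y * (h * x * h⁻¹) = h * ((h⁻¹ * y * h) * x) * h⁻¹ := by group
        _ = h * (x * (h⁻¹ * y * h)) * h⁻¹ := by rw [h4]
        _ = h * x * h⁻¹ * y := by group
    have hfix := fixmod hPp (hPH.trans hM1n)
    have hCeq : M1 ⊓ centralizer (P : Set G) = M ⊓ centralizer (H : Set G) := by
      apply le_antisymm
      · rintro x ⟨⟨hx1, hx2⟩, hx3⟩
        refine ⟨hx1, ?_⟩
        have h3 : H1 ⊔ P ≤ centralizer ({x} : Set G) := by
          refine sup_le ?_ ?_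
          · intro y hy
            rw [mem_centralizer_singleton_iff]
            exact mem_centralizer_iff.mp hx2 y hy
          · intro y hy
            rw [mem_centralizer_singleton_iff]
            exact mem_centralizer_iff.mp hx3 y hy
        rw [hsup] at h3
        refine mem_centralizer_iff.mpr ?_
        intro y hy
        exact mem_centralizer_singleton_iff.mp (h3 hy)
      · rintro x ⟨hx1, hx2⟩
        have h3 := mem_centralizer_iff.mp hx2
        exact ⟨⟨hx1, mem_centralizer_iff.mpr fun y hy => h3 y (hH1 hy)⟩,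
          mem_centralizer_iff.mpr fun y hy => h3 y (hPH hy)⟩
    rw [hCeq] at hfix
    set C := M ⊓ centralizer (H : Set G) with hC
    have hCM1 : C ≤ M1 := by rw [← hCeq]; exact inf_le_left
    have hM1M : M1 ≤ M := inf_le_left
    have hmul := Subgroup.relIndex_mul_relIndex C M1 M hCM1 hM1M
    have hcC : Nat.card C * C.relIndex M1 = Nat.card M1 := by
      have := Subgroup.card_mul_index (C.subgroupOf M1)
      rw [Nat.card_congr (Subgroup.subgroupOfEquivOfLe hCM1).toEquiv] at this
      exact this
    have hdvd : C.relIndex M1 ∣ Nat.card M :=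
      (Dvd.intro_left _ hcC).trans (Subgroup.card_dvd_of_le hM1M)
    have hrp : p ≠ r := by
      intro h3
      have h4 : r ∣ Nat.card H := h3 ▸ hpd
      have h5 := Nat.dvd_gcd h4 (dvd_refl r)
      rw [Nat.Coprime] at hco
      rw [hco] at h5
      exact hr.one_lt.ne' (Nat.dvd_one.mp h5)
    have hCr : IsPGroup r C := hM.to_le inf_le_left
    refine ⟨C.relIndex M1 :: l, ?_, ?_⟩
    · rw [List.prod_cons, ← hl]
      exact hmul.symm
    · intro x hx
      rcases List.mem_cons.mp hx with rfl | hx
      · obtain ⟨k, hk⟩ := (haveI : Fact r.Prime := ⟨hr⟩; IsPGroup.iff_card.mp hM)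
        refine ⟨?_, hdvd, p, hKp, hpd, ?_⟩
        · have h3 := hdvd
          rw [hk] at h3
          obtain ⟨e, -, he⟩ := (Nat.dvd_prime_pow hr).mp h3
          exact ⟨e, he⟩
        · obtain ⟨c, hc⟩ := (haveI : Fact r.Prime := ⟨hr⟩; IsPGroup.iff_card.mp hCr)
          rw [← hcC] at hfix
          have h4 : Nat.gcd p (Nat.card C) = 1 := by
            rw [hc]
            exact Nat.Coprime.pow_right c ((Nat.coprime_primes hKp hr).mpr hrp)
          have h5 : Nat.card C * C.relIndex M1 ≡ Nat.card C * 1 [MOD p] := by rw [mul_one]; exact hfix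
          exact Nat.ModEq.cancel_left_of_coprime h4 h5
      · obtain ⟨h3, h4, q, h5, h6, h7⟩ := hlx x hx
        exact ⟨h3, h4, q, h5, h6.trans (Subgroup.card_dvd_of_le hH1), h7⟩

end Fix

/-- the property of the factors -/
def Good (G : Type u) [Group G] (m x : ℕ) : Prop :=
  (∃ q e : ℕ, q.Prime ∧ x = q ^ e) ∧ (∃ K L : Subgroup G, K.Normal ∧ L.Normal ∧ K < L ∧
    (∀ M : Subgroup G, M.Normal → K ≤ M → M ≤ L → M = K ∨ M = L) ∧ x ∣ K.relIndex L) ∧
    (∃ q : ℕ, q.Prime ∧ q ∣ m ∧ x ≡ 1 [MOD q])

theorem Good.lift {G : Type u} [Group G] (M : Subgroup G) [M.Normal] {m m' x : ℕ} (h : Good (G ⧸ M) m x) (hm : m ∣ m') :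
    Good G m' x := by
  obtain ⟨h1, ⟨K, L, hK, hL, hKL, hmin, hx⟩, q, hq, hqm, hxq⟩ := h
  have hsurj := QuotientGroup.mk'_surjective M
  refine ⟨h1, ⟨K.comap (QuotientGroup.mk' M), L.comap (QuotientGroup.mk' M), inferInstance, inferInstance, ?_, ?_, ?_⟩,
    q, hq, hqm.trans hm, hxq⟩
  · exact (Subgroup.comap_lt_comap_of_surjective hsurj).mpr hKL
  · intro X hX hKX hXL
    have hMX : (QuotientGroup.mk' M).ker ≤ X := (Subgroup.ker_le_comap _ K).trans hKX
    have hXX : (X.map (QuotientGroup.mk' M)).comap (QuotientGroup.mk' M) = X := Subgroup.comap_map_eq_self hMX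
    haveI := hX
    have h3 := hmin (X.map (QuotientGroup.mk' M)) (hX.map _ hsurj) (by
      rw [← Subgroup.map_comap_eq_self_of_surjective hsurj K]
      exact Subgroup.map_mono hKX) (by
      rw [← Subgroup.map_comap_eq_self_of_surjective hsurj L]
      exact Subgroup.map_mono hXL)
    rcases h3 with h3 | h3
    · left; rw [← h3, hXX]
    · right; rw [← h3, hXX]
  · rw [Subgroup.relIndex_comap, Subgroup.map_comap_eq_self_of_surjective hsurj]
    exact hx

/-- main induction -/
theorem main (n : ℕ) : ∀ (G : Type u) [Group G] [Finite G] [Group.IsSolvable G], Nat.card G = n →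
    ∀ H : Subgroup G, (Nat.card H).Coprime H.index →
    ∃ l : List ℕ, (normalizer (H : Set G)).index = l.prod ∧ ∀ x ∈ l, Good G (Nat.card H) x := by
  induction n using Nat.strong_induction_on with
  | _ n ih =>
    intro G _ _ _ hn H hH
    by_cases hnt : Nontrivial G
    swap
    · rw [not_nontrivial_iff_subsingleton] at hnt
      refine ⟨[], ?_, by simp⟩
      rw [List.prod_nil, Subgroup.index_eq_one, eq_top_iff]
      intro x _
      rw [Subsingleton.elim x 1]
      exact one_mem _
    obtain ⟨M, hMn, hMb, hmin⟩ := H1.Hall.exists_minimal_normal_of_nontrivial G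
    haveI := hMn
    obtain ⟨hc, r, hr, hx⟩ := H1.Hall.minimal_normal_elementary M hMb hmin
    haveI : Fact r.Prime := ⟨hr⟩
    have hMp : IsPGroup r M := H1.Hall.isPGroup_of_pow_eq_one hx
    have hsurj := QuotientGroup.mk'_surjective M
    have hGM : Nat.card G = Nat.card (G ⧸ M) * Nat.card M := Subgroup.card_eq_card_quotient_mul_card_subgroup M
    have hM1 : 1 < Nat.card M := by
      rw [Finite.one_lt_card_iff_nontrivial]
      exact (Subgroup.nontrivial_iff_ne_bot M).mpr hMb
    have hlt : Nat.card (G ⧸ M) < n := by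
      rw [← hn, hGM]
      exact lt_mul_of_one_lt_right Nat.card_pos hM1
    have hcm : Nat.card (H.map (QuotientGroup.mk' M)) ∣ Nat.card H := Subgroup.card_map_dvd H _
    have him : (H.map (QuotientGroup.mk' M)).index ∣ H.index :=
      Subgroup.index_map_dvd H hsurj
    obtain ⟨l, hl, hlx⟩ := ih _ hlt (G ⧸ M) rfl (H.map (QuotientGroup.mk' M))
      ((Nat.Coprime.coprime_dvd_left hcm hH).coprime_dvd_right him)
    have hidx : (normalizer ((H ⊔ M : Subgroup G) : Set G)).index = l.prod := by
      rw [← hl]
      have h1 : (H.map (QuotientGroup.mk' M)).comap (QuotientGroup.mk' M) = H ⊔ M := by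
        rw [Subgroup.comap_map_eq, QuotientGroup.ker_mk']
      rw [← h1, ← Subgroup.comap_normalizer_eq_of_surjective _ hsurj,
        Subgroup.index_comap_of_surjective _ hsurj]
    have hgood : ∀ x ∈ l, Good G (Nat.card H) x := fun x hx => (hlx x hx).lift M hcm
    by_cases hrH : r ∣ Nat.card H
    · have hMH : M ≤ H := by
        apply H1.Hall.le_of_not_dvd_index hMp
        intro h2
        have h3 := Nat.dvd_gcd hrH h2
        rw [Nat.Coprime] at hH
        rw [hH] at h3
        exact hr.one_lt.ne' (Nat.dvd_one.mp h3)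
      rw [sup_eq_left.mpr hMH] at hidx
      exact ⟨l, hidx, hgood⟩
    · have hco : (Nat.card H).Coprime r := ((Nat.Prime.coprime_iff_not_dvd hr).mpr hrH).symm
      have hsol : Group.IsSolvable H := inferInstance
      obtain ⟨l2, hl2, hlx2⟩ := chain r hr _ M H rfl hsol (by
        rw [Subgroup.normalizer_eq_top M]; exact le_top) hMp hco
      have hMH1 : M ⊓ H = ⊥ := by
        obtain ⟨k, hk⟩ := IsPGroup.iff_card.mp hMp
        refine Subgroup.inf_eq_bot_of_coprime ?_
        rw [hk]
        exact Nat.Coprime.pow_left k hco.symm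
      have hNC : M ⊓ normalizer (H : Set G) = M ⊓ centralizer (H : Set G) := by
        apply le_antisymm
        · rintro x ⟨hx1, hx2⟩
          refine ⟨hx1, mem_centralizer_iff.mpr ?_⟩
          intro y hy
          have h1 : x * y * x⁻¹ * y⁻¹ ∈ H :=
            H.mul_mem ((mem_normalizer_iff.mp hx2 y).mp hy) (H.inv_mem hy)
          have h2 : x * y * x⁻¹ * y⁻¹ ∈ M := by
            have h3 : x * y * x⁻¹ * y⁻¹ = x * (y * x⁻¹ * y⁻¹) := by group
            rw [h3]
            exact M.mul_mem hx1 (hMn.conj_mem _ (M.inv_mem hx1) y)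
          have h3 : x * y * x⁻¹ * y⁻¹ ∈ M ⊓ H := ⟨h2, h1⟩
          rw [hMH1, mem_bot, mul_inv_eq_one, mul_inv_eq_iff_eq_mul] at h3
          exact h3.symm
        · exact inf_le_inf_left M (Subgroup.centralizer_le_normalizer _)
      have hNle : normalizer (H : Set G) ≤ normalizer ((H ⊔ M : Subgroup G) : Set G) := by
        intro g hg
        refine Subgroup.mem_normalizer_fintype ?_
        intro x hx
        have h1 : g * x * g⁻¹ ∈ (H ⊔ M).map (MulAut.conj g).toMonoidHom := ⟨x, hx, rfl⟩
        rw [Subgroup.map_sup] at h1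
        have h2 : H.map (MulAut.conj g).toMonoidHom ⊔ M.map (MulAut.conj g).toMonoidHom ≤ H ⊔ M := by
          refine sup_le_sup ?_ ?_
          · rintro _ ⟨w, hw, rfl⟩
            exact (Subgroup.mem_normalizer_iff.mp hg w).mp hw
          · rintro _ ⟨w, hw, rfl⟩
            exact hMn.conj_mem w hw g
        exact h2 h1
      have hfr : normalizer ((H ⊔ M : Subgroup G) : Set G) = normalizer (H : Set G) ⊔ M := by
        apply le_antisymm
        · intro g hg
          have h1 : MulAut.conj g • H ≤ H ⊔ M := by
            rintro _ ⟨x, hx, rfl⟩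
            exact (mem_normalizer_iff.mp hg x).mp (mem_sup_left hx)
          have h2 : Nat.card H = Nat.card (MulAut.conj g • H : Subgroup G) :=
            (Subgroup.card_map_of_injective (MulAut.conj g).injective).symm
          obtain ⟨l', hl', he⟩ := H1.Hall.hall_conj_in (L := H ⊔ M) inferInstance le_sup_left h1 h2
            (Nat.Coprime.coprime_dvd_right (Subgroup.relIndex_dvd_index_of_le le_sup_left) hH)
          have h3 : l'⁻¹ * g ∈ normalizer (H : Set G) := by
            refine Subgroup.mem_normalizer_fintype ?_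
            intro x hx
            have h4 : g * x * g⁻¹ ∈ MulAut.conj l' • H := by
              rw [he]
              exact ⟨x, hx, rfl⟩
            obtain ⟨y, hy, hye⟩ := h4
            have h5 : l' * y * l'⁻¹ = g * x * g⁻¹ := hye
            have h6 : l'⁻¹ * g * x * (l'⁻¹ * g)⁻¹ = y := by
              calc l'⁻¹ * g * x * (l'⁻¹ * g)⁻¹ = l'⁻¹ * (g * x * g⁻¹) * l' := by group
                _ = y := by rw [← h5]; group
            rw [h6]
            exact hy
          have h7 : g = l' * (l'⁻¹ * g) := by group
          rw [h7]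
          exact Subgroup.mul_mem _ ((sup_le_sup_right Subgroup.le_normalizer M) hl') (mem_sup_left h3)
        · exact sup_le hNle (le_sup_right.trans Subgroup.le_normalizer)
      have hrel : (normalizer (H : Set G)).relIndex (normalizer ((H ⊔ M : Subgroup G) : Set G)) =
          (M ⊓ centralizer (H : Set G)).relIndex M := by
        rw [hfr, ← hNC]
        have h1 := Subgroup.relIndex_mul_relIndex (M ⊓ normalizer (H : Set G)) (normalizer (H : Set G))
          (normalizer (H : Set G) ⊔ M) inf_le_right le_sup_left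
        have h2 := Subgroup.relIndex_mul_relIndex (M ⊓ normalizer (H : Set G)) M
          (normalizer (H : Set G) ⊔ M) inf_le_left le_sup_right
        rw [← h2, Subgroup.relIndex_sup_right, Subgroup.inf_relIndex_right, mul_comm] at h1
        exact Nat.eq_of_mul_eq_mul_right (Nat.pos_of_ne_zero (Subgroup.index_ne_zero_of_finite
          (H := M.subgroupOf (normalizer (H : Set G))))) h1
      have hmul := Subgroup.relIndex_mul_index hNle
      refine ⟨l2 ++ l, ?_, ?_⟩
      · rw [List.prod_append, ← hl2, ← hrel, ← hidx]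
        exact hmul.symm
      · intro x hx
        rcases List.mem_append.mp hx with hx | hx
        · obtain ⟨⟨e, he⟩, h2, h3⟩ := hlx2 x hx
          refine ⟨⟨r, e, hr, he⟩, ⟨⊥, M, inferInstance, hMn, bot_lt_iff_ne_bot.mpr hMb, ?_, ?_⟩, h3⟩
          · intro X hX _ hXM
            exact hmin X hX hXM
          · rw [Subgroup.relIndex_bot_left]
            exact h2
        · exact hgood x hx

theorem count {G : Type u} [Group G] [Finite G] [Group.IsSolvable G] (m n : ℕ) (hG : Nat.card G = m * n)
    (hmn : Nat.Coprime m n) (H : Subgroup G) (hH : Nat.card H = m) :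
    Nat.card {K : Subgroup G // Nat.card K = m} = (normalizer (H : Set G)).index := by
  let act : MulAction G (Subgroup G) := MulAction.compHom (Subgroup G) (MulAut.conj : G →* MulAut G)
  have hst : MulAction.stabilizer G H = normalizer (H : Set G) := by
    ext g
    rw [MulAction.mem_stabilizer_iff]
    change MulAut.conj g • H = H ↔ _
    constructor
    · intro h
      refine Subgroup.mem_normalizer_fintype ?_
      intro x hx
      have : g * x * g⁻¹ ∈ MulAut.conj g • H := ⟨x, hx, rfl⟩
      rw [h] at this
      exact this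
    · intro h
      refine Subgroup.eq_of_le_of_card_ge ?_ ?_
      · rintro _ ⟨x, hx, rfl⟩
        exact (mem_normalizer_iff.mp h x).mp hx
      · exact (Subgroup.card_map_of_injective (MulAut.conj g).injective).ge
  have horb : MulAction.orbit G H = {K : Subgroup G | Nat.card K = m} := by
    ext K
    constructor
    · rintro ⟨g, rfl⟩
      exact (Subgroup.card_map_of_injective (MulAut.conj g).injective).trans hH
    · intro hK
      obtain ⟨g, hg⟩ := H1.Hall.hall_conj m n hG hmn H K hH hK
      exact ⟨g, hg⟩
  rw [← hst, MulAction.index_stabilizer, horb, ← Nat.card_coe_set_eq]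
  rfl

end Cfsg.Agent.H27.HallNum
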