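import Mathlib

set_option autoImplicit false

/-! The Krull-Remak-Schmidt theorem for finite groups. -/

namespace Cfsg.Agent.H27.KRS

open Subgroup

/-- directly indecomposable nontrivial group -/
def Indec (X : Type*) [Group X] : Prop :=
  Nontrivial X ∧ ∀ H K : Subgroup X, H.Normal → K.Normal → H ⊓ K = ⊥ → H ⊔ K = ⊤ → H = ⊥ ∨ K = ⊥

theorem exists_idem {M : Type*} [Monoid M] [Finite M] (f : M) : ∃ t : ℕ, 0 < t ∧ f ^ t * f ^ t = f ^ t := by
  obtain ⟨a, b, hab, h⟩ := Finite.exists_ne_map_eq_of_infinite (fun n : ℕ => f ^ n)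
  wlog hlt : a < b generalizing a b
  · exact this b a hab.symm h.symm (lt_of_le_of_ne (not_lt.mp hlt) hab.symm)
  obtain ⟨d, rfl⟩ : ∃ d, b = a + d := ⟨b - a, by omega⟩
  have hd : 0 < d := by omega
  have h1 : ∀ t, a ≤ t → f ^ (t + d) = f ^ t := by
    intro t ht
    obtain ⟨c, rfl⟩ : ∃ c, t = c + a := ⟨t - a, by omega⟩
    rw [add_assoc, pow_add, pow_add f c a]
    exact congrArg _ h.symm
  have h2 : ∀ k t, a ≤ t → f ^ (t + k * d) = f ^ t := by
    intro k
    induction k with
    | zero => intro t _; simp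
    | succ k ih =>
      intro t ht
      have : t + (k + 1) * d = (t + d) + k * d := by ring
      rw [this, ih _ (by omega), h1 t ht]
  refine ⟨(a + 1) * d, Nat.mul_pos (by omega) hd, ?_⟩
  rw [← pow_add]
  refine h2 (a + 1) _ ?_
  calc a ≤ (a + 1) * 1 := by omega
    _ ≤ (a + 1) * d := Nat.mul_le_mul_left _ hd

section Fit

variable {X : Type*} [Group X] [Finite X]

theorem fitting (hX : Indec X) (f : Monoid.End X) (hf : ∀ g a, f (g * a * g⁻¹) = g * f a * g⁻¹)
    (hni : ¬ Function.Injective f) : ∃ n : ℕ, ∀ x, (f ^ n) x = 1 := by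
  haveI : Finite (Monoid.End X) := Finite.of_injective (fun g : Monoid.End X => (g : X → X)) DFunLike.coe_injective
  obtain ⟨t, ht, hE⟩ := exists_idem f
  have hEE : ∀ x, (f ^ t) ((f ^ t) x) = (f ^ t) x := fun x => by
    have := congrArg (fun g : Monoid.End X => g x) hE
    exact this
  have hn : ∀ (n : ℕ) g a, (f ^ n) (g * a * g⁻¹) = g * (f ^ n) a * g⁻¹ := by
    intro n
    induction n with
    | zero => intro g a; rfl
    | succ n ih =>
      intro g a
      rw [pow_succ]
      change (f ^ n) (f (g * a * g⁻¹)) = g * (f ^ n) (f a) * g⁻¹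
      rw [hf, ih]
  let E : X →* X := f ^ t
  have hEn : E.range.Normal := by
    refine ⟨?_⟩
    rintro _ ⟨x, rfl⟩ g
    exact ⟨g * x * g⁻¹, hn t g x⟩
  have hinf : E.ker ⊓ E.range = ⊥ := by
    rw [eq_bot_iff]
    rintro _ ⟨h1, ⟨x, rfl⟩⟩
    have h2 : E (E x) = 1 := h1
    have h3 : E (E x) = E x := hEE x
    rw [h3] at h2
    exact h2
  have hsup : E.ker ⊔ E.range = ⊤ := by
    rw [eq_top_iff]
    intro x _
    have h1 : x * (E x)⁻¹ ∈ E.ker := by
      rw [MonoidHom.mem_ker, map_mul, map_inv]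
      have h3 : E (E x) = E x := hEE x
      rw [h3, mul_inv_cancel]
    have h2 : x = (x * (E x)⁻¹) * E x := by group
    rw [h2]
    exact mul_mem_sup h1 ⟨x, rfl⟩
  rcases hX.2 E.ker E.range inferInstance hEn hinf hsup with h | h
  · exfalso
    apply hni
    have hEi : Function.Injective E := (MonoidHom.ker_eq_bot_iff E).mp h
    obtain ⟨s, rfl⟩ : ∃ s, t = s + 1 := ⟨t - 1, by omega⟩
    intro x y hxy
    apply hEi
    change (f ^ (s + 1)) x = (f ^ (s + 1)) y
    rw [pow_succ]
    change (f ^ s) (f x) = (f ^ s) (f y)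
    rw [hxy]
  · refine ⟨t, fun x => ?_⟩
    have : E x ∈ E.range := ⟨x, rfl⟩
    rw [h] at this
    exact this

theorem sum_lemma (hX : Indec X) (s f' θ : X →* X) (hs : ∀ g a, s (g * a * g⁻¹) = g * s a * g⁻¹)
    (hθ : ∀ g a, θ (g * a * g⁻¹) = g * θ a * g⁻¹) (hθi : Function.Injective θ)
    (hsum : ∀ x, θ x = s x * f' x) (hsi : ¬ Function.Injective s) : Function.Injective f' := by
  have hb : Function.Bijective θ := (Finite.injective_iff_bijective).mp hθi
  let Θ : X ≃* X := MulEquiv.ofBijective θ hb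
  have hΘ : ∀ x, Θ x = θ x := fun x => rfl
  let u : Monoid.End X := Θ.symm.toMonoidHom.comp s
  have hu : ∀ x, Θ (u x) = s x := fun x => Θ.apply_symm_apply (s x)
  have hun : ∀ g a, u (g * a * g⁻¹) = g * u a * g⁻¹ := by
    intro g a
    apply Θ.injective
    rw [hu, hs, hΘ, hθ, ← hΘ, hu]
  have hui : ¬ Function.Injective u := by
    intro h
    apply hsi
    intro x y hxy
    apply h
    apply Θ.injective
    rw [hu, hu, hxy]
  obtain ⟨n, hn⟩ := fitting hX u hun hui
  rw [injective_iff_map_eq_one]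
  intro x hx
  have h1 : θ x = s x := by rw [hsum, hx, mul_one]
  have h2 : u x = x := by
    apply Θ.injective
    rw [hu, hΘ, h1]
  have h3 : ∀ k : ℕ, (u ^ k) x = x := by
    intro k
    induction k with
    | zero => rfl
    | succ k ih =>
      rw [pow_succ]
      change (u ^ k) (u x) = x
      rw [h2, ih]
  rw [← h3 n, hn]

end Fit

section Step

variable {I J : Type*} [Fintype I] [Fintype J] [DecidableEq I] [DecidableEq J]
  {A : I → Type*} {B : J → Type*} [∀ i, Group (A i)] [∀ j, Group (B j)]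

def tS (S : Finset J) : (∀ j, B j) →* (∀ j, B j) where
  toFun y := fun j => if j ∈ S then y j else 1
  map_one' := by ext j; simp
  map_mul' x y := by
    ext j
    by_cases h : j ∈ S <;> simp [h]

theorem tS_comm {S S' : Finset J} (h : Disjoint S S') (y z : ∀ j, B j) : Commute (tS S y) (tS S' z) := by
  ext j
  change (if j ∈ S then y j else 1) * (if j ∈ S' then z j else 1) =
    (if j ∈ S' then z j else 1) * (if j ∈ S then y j else 1)
  by_cases h1 : j ∈ S
  · have h2 : j ∉ S' := Finset.disjoint_left.mp h h1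
    simp [h1, h2]
  · simp [h1]

theorem tS_union {S S' : Finset J} (h : Disjoint S S') (y : ∀ j, B j) :
    tS (S ∪ S') y = tS S y * tS S' y := by
  ext j
  change (if j ∈ S ∪ S' then y j else 1) = (if j ∈ S then y j else 1) * (if j ∈ S' then y j else 1)
  by_cases h1 : j ∈ S
  · have h2 : j ∉ S' := Finset.disjoint_left.mp h h1
    simp [h1, h2]
  · by_cases h2 : j ∈ S' <;> simp [h1, h2]

variable (e : ((i : I) → A i) ≃* ((j : J) → B j)) (i0 : I)

def sS (S : Finset J) : A i0 →* A i0 :=
  (Pi.evalMonoidHom A i0).comp (e.symm.toMonoidHom.comp ((tS S).comp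
    (e.toMonoidHom.comp (MonoidHom.mulSingle A i0))))

theorem sS_apply (S : Finset J) (a : A i0) : sS e i0 S a = (e.symm (tS S (e (Pi.mulSingle i0 a)))) i0 := rfl

theorem sS_univ (a : A i0) : sS e i0 Finset.univ a = a := by
  rw [sS_apply]
  have : tS Finset.univ (e (Pi.mulSingle i0 a)) = e (Pi.mulSingle i0 a) := by
    ext j
    change (if j ∈ Finset.univ then (e (Pi.mulSingle i0 a)) j else 1) = _
    simp
  rw [this, MulEquiv.symm_apply_apply, Pi.mulSingle_eq_same]

theorem sS_empty (a : A i0) : sS e i0 ∅ a = 1 := by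
  rw [sS_apply]
  have : tS ∅ (e (Pi.mulSingle i0 a)) = 1 := by
    ext j
    change (if j ∈ (∅ : Finset J) then (e (Pi.mulSingle i0 a)) j else 1) = _
    simp
  rw [this, map_one]
  rfl

theorem sS_union {S S' : Finset J} (h : Disjoint S S') (a : A i0) :
    sS e i0 (S ∪ S') a = sS e i0 S a * sS e i0 S' a := by
  rw [sS_apply, tS_union h, map_mul]
  rfl

theorem sS_comm {S S' : Finset J} (h : Disjoint S S') (a b : A i0) :
    sS e i0 S a * sS e i0 S' b = sS e i0 S' b * sS e i0 S a := by
  rw [sS_apply, sS_apply]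
  have := congrArg (fun z => (e.symm z) i0) (tS_comm h (e (Pi.mulSingle i0 a)) (e (Pi.mulSingle i0 b))).eq
  simp only [map_mul, Pi.mul_apply] at this
  exact this

theorem sS_normal (S : Finset J) (g a : A i0) : sS e i0 S (g * a * g⁻¹) = g * sS e i0 S a * g⁻¹ := by
  have hd : Disjoint Sᶜ S := disjoint_compl_left
  have hg : g = sS e i0 S g * sS e i0 Sᶜ g := by
    conv_lhs => rw [← sS_univ e i0 g]
    rw [← sS_union e i0 disjoint_compl_right, Finset.union_compl]
  have hc := sS_comm e i0 hd g a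
  rw [map_mul, map_mul, map_inv]
  conv_rhs => rw [hg]
  rw [mul_inv_rev]
  calc sS e i0 S g * sS e i0 S a * (sS e i0 S g)⁻¹
      = sS e i0 S g * (sS e i0 S a * sS e i0 Sᶜ g) * (sS e i0 Sᶜ g)⁻¹ * (sS e i0 S g)⁻¹ := by group
    _ = sS e i0 S g * (sS e i0 Sᶜ g * sS e i0 S a) * (sS e i0 Sᶜ g)⁻¹ * (sS e i0 S g)⁻¹ := by rw [hc]
    _ = _ := by group

variable [∀ i, Finite (A i)] [∀ j, Finite (B j)]

theorem exists_j (hA : Indec (A i0)) : ∃ j, Function.Injective (sS e i0 {j}) := by
  have key : ∀ S : Finset J, (∃ j ∈ S, Function.Injective (sS e i0 {j})) ∨ ¬ Function.Injective (sS e i0 S) := by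
    intro S
    induction S using Finset.induction_on with
    | empty =>
      right
      intro h
      haveI := hA.1
      obtain ⟨x, hx⟩ := exists_ne (1 : A i0)
      apply hx
      apply h
      rw [sS_empty, sS_empty]
    | insert j S hj ih =>
      by_cases h : Function.Injective (sS e i0 (insert j S))
      · left
        rcases ih with ⟨j', hj', h'⟩ | h'
        · exact ⟨j', Finset.mem_insert_of_mem hj', h'⟩
        · refine ⟨j, Finset.mem_insert_self j S, ?_⟩
          refine sum_lemma hA (sS e i0 S) (sS e i0 {j}) (sS e i0 (insert j S)) (sS_normal e i0 S)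
            (sS_normal e i0 _) h ?_ h'
          intro x
          rw [← sS_union e i0 (Finset.disjoint_singleton_right.mpr hj)]
          congr 2
          rw [Finset.union_comm]
          rfl
      · exact Or.inr h
  rcases key Finset.univ with ⟨j, -, hj⟩ | h
  · exact ⟨j, hj⟩
  · exfalso
    apply h
    intro x y hxy
    rwa [sS_univ, sS_univ] at hxy

/-- `A i0 → B j` -/
def al (j : J) : A i0 →* B j :=
  (Pi.evalMonoidHom B j).comp (e.toMonoidHom.comp (MonoidHom.mulSingle A i0))

/-- `B j → A i0` -/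
def be (j : J) : B j →* A i0 :=
  (Pi.evalMonoidHom A i0).comp (e.symm.toMonoidHom.comp (MonoidHom.mulSingle B j))

omit [∀ i, Finite (A i)] [∀ j, Finite (B j)] in
theorem be_al (j : J) (a : A i0) : be e i0 j (al e i0 j a) = sS e i0 {j} a := by
  rw [sS_apply]
  have : tS {j} (e (Pi.mulSingle i0 a)) = Pi.mulSingle j ((e (Pi.mulSingle i0 a)) j) := by
    ext j'
    change (if j' ∈ ({j} : Finset J) then (e (Pi.mulSingle i0 a)) j' else 1) = _
    by_cases h : j' = j
    · subst h
      simp
    · simp [h]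
  rw [this]
  rfl

/-- extension by one -/
def ex (j0 : J) : (∀ j : {j // j ≠ j0}, B j) →* ∀ j, B j where
  toFun y := fun j => if h : j ≠ j0 then y ⟨j, h⟩ else 1
  map_one' := by ext j; by_cases h : j = j0 <;> simp [h]
  map_mul' x y := by
    ext j
    by_cases h : j = j0 <;> simp [h]

def ph (j0 : J) : (∀ j : {j // j ≠ j0}, B j) →* (∀ i : {i // i ≠ i0}, A i) where
  toFun y := fun i => (e.symm (ex j0 y)) i.1
  map_one' := by ext i; simp
  map_mul' x y := by ext i; simp

include e in
theorem step (hA : Indec (A i0)) (hB : ∀ j, Indec (B j)) : ∃ j0, Nonempty (A i0 ≃* B j0) ∧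
    Nonempty ((∀ i : {i // i ≠ i0}, A i) ≃* (∀ j : {j // j ≠ j0}, B j)) := by
  obtain ⟨j0, hj⟩ := exists_j e i0 hA
  have hinj : Function.Injective (fun a => be e i0 j0 (al e i0 j0 a)) := by
    intro x y hxy
    apply hj
    rw [← be_al, ← be_al]
    exact hxy
  have hsurj : Function.Surjective (fun a => be e i0 j0 (al e i0 j0 a)) :=
    (Finite.injective_iff_surjective).mp hinj
  have hai : Function.Injective (al e i0 j0) := fun x y hxy => hinj (congrArg (be e i0 j0) hxy)
  have hrn : (al e i0 j0).range.Normal := by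
    refine ⟨?_⟩
    rintro _ ⟨a, rfl⟩ b
    let Y := e.symm (Pi.mulSingle j0 b)
    refine ⟨Y i0 * a * (Y i0)⁻¹, ?_⟩
    have h1 : Pi.mulSingle i0 (Y i0 * a * (Y i0)⁻¹) = Y * Pi.mulSingle i0 a * Y⁻¹ := by
      ext i
      by_cases h : i = i0
      · subst h
        simp
      · simp [h]
    change (e (Pi.mulSingle i0 (Y i0 * a * (Y i0)⁻¹))) j0 = b * (e (Pi.mulSingle i0 a)) j0 * b⁻¹
    rw [h1, map_mul, map_mul, map_inv]
    have h2 : e Y = Pi.mulSingle j0 b := e.apply_symm_apply _
    rw [h2]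
    simp
  have hinf : (al e i0 j0).range ⊓ (be e i0 j0).ker = ⊥ := by
    rw [eq_bot_iff]
    rintro _ ⟨⟨a, rfl⟩, h2⟩
    have h3 : be e i0 j0 (al e i0 j0 a) = be e i0 j0 (al e i0 j0 1) := by
      rw [map_one (al e i0 j0), map_one]
      exact h2
    have h4 : a = 1 := hinj h3
    rw [h4, map_one]
    exact one_mem _
  have hsup : (al e i0 j0).range ⊔ (be e i0 j0).ker = ⊤ := by
    rw [eq_top_iff]
    intro b _
    obtain ⟨a, ha⟩ := hsurj (be e i0 j0 b)
    have ha' : be e i0 j0 (al e i0 j0 a) = be e i0 j0 b := ha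
    have h1 : (al e i0 j0 a)⁻¹ * b ∈ (be e i0 j0).ker := by
      rw [MonoidHom.mem_ker, map_mul, map_inv, ha', inv_mul_cancel]
    have h2 : b = al e i0 j0 a * ((al e i0 j0 a)⁻¹ * b) := by group
    rw [h2]
    exact mul_mem_sup ⟨a, rfl⟩ h1
  haveI := hA.1
  have hbi : Function.Injective (be e i0 j0) := by
    rcases (hB j0).2 _ _ hrn inferInstance hinf hsup with h | h
    · exfalso
      obtain ⟨x, hx⟩ := exists_ne (1 : A i0)
      apply hx
      apply hai
      rw [map_one]
      have : al e i0 j0 x ∈ (al e i0 j0).range := ⟨x, rfl⟩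
      rw [h] at this
      exact this
    · exact (MonoidHom.ker_eq_bot_iff _).mp h
  have has : Function.Surjective (al e i0 j0) := by
    intro b
    obtain ⟨a, ha⟩ := hsurj (be e i0 j0 b)
    exact ⟨a, hbi ha⟩
  refine ⟨j0, ⟨MulEquiv.ofBijective (al e i0 j0) ⟨hai, has⟩⟩, ?_⟩
  have hphi : Function.Injective (ph e i0 j0) := by
    rw [injective_iff_map_eq_one]
    intro y hy
    have h1 : e.symm (ex j0 y) = Pi.mulSingle i0 ((e.symm (ex j0 y)) i0) := by
      ext i
      by_cases h : i = i0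
      · subst h
        simp
      · rw [Pi.mulSingle_eq_of_ne h]
        exact congrFun hy ⟨i, h⟩
    set a := (e.symm (ex j0 y)) i0 with ha
    have h2 : ex j0 y = e (Pi.mulSingle i0 a) := by rw [← h1, MulEquiv.apply_symm_apply]
    have h3 : al e i0 j0 a = 1 := by
      change (e (Pi.mulSingle i0 a)) j0 = 1
      rw [← h2]
      change (if h : j0 ≠ j0 then y ⟨j0, h⟩ else (1 : B j0)) = 1
      simp
    have h4 : a = 1 := hai (by rw [h3, map_one])
    rw [h4, Pi.mulSingle_one, map_one] at h2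
    ext j
    have h5 := congrFun h2 j.1
    change (if h : j.1 ≠ j0 then y ⟨j.1, h⟩ else (1 : B j.1)) = 1 at h5
    rw [dif_pos j.2] at h5
    exact h5
  have hcard : Nat.card (∀ j : {j // j ≠ j0}, B j) = Nat.card (∀ i : {i // i ≠ i0}, A i) := by
    have h1 := Nat.card_congr e.toEquiv
    rw [Nat.card_congr (Equiv.piSplitAt i0 A), Nat.card_congr (Equiv.piSplitAt j0 B), Nat.card_prod, Nat.card_prod,
      Nat.card_congr (MulEquiv.ofBijective (al e i0 j0) ⟨hai, has⟩).toEquiv] at h1
    exact (Nat.eq_of_mul_eq_mul_left Nat.card_pos h1).symm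
  exact ⟨(MulEquiv.ofBijective (ph e i0 j0)
    ((Nat.bijective_iff_injective_and_card _).mpr ⟨hphi, hcard⟩)).symm⟩

end Step

theorem main (n : ℕ) : ∀ {I J : Type} [Fintype I] [Fintype J] [DecidableEq I] [DecidableEq J]
    {A : I → Type*} {B : J → Type*} [∀ i, Group (A i)] [∀ j, Group (B j)] [∀ i, Finite (A i)] [∀ j, Finite (B j)]
    (_ : ∀ i, Indec (A i)) (_ : ∀ j, Indec (B j)) (_ : ((i : I) → A i) ≃* ((j : J) → B j)),
    Fintype.card I = n → ∃ σ : I ≃ J, ∀ i, Nonempty (A i ≃* B (σ i)) := by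
  induction n with
  | zero =>
    intro I J _ _ _ _ A B _ _ _ _ hA hB e hI
    haveI : IsEmpty I := Fintype.card_eq_zero_iff.mp hI
    haveI : IsEmpty J := by
      refine ⟨fun j => ?_⟩
      haveI := (hB j).1
      obtain ⟨x, hx⟩ := exists_ne (1 : B j)
      haveI : Subsingleton ((j : J) → B j) := e.symm.toEquiv.subsingleton
      have h1 : (Pi.mulSingle j x : (j : J) → B j) = 1 := Subsingleton.elim _ _
      have h2 := congrFun h1 j
      rw [Pi.mulSingle_eq_same] at h2
      exact hx h2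
    exact ⟨Equiv.equivOfIsEmpty I J, fun i => isEmptyElim i⟩
  | succ n ih =>
    intro I J _ _ _ _ A B _ _ _ _ hA hB e hI
    haveI : Nonempty I := Fintype.card_pos_iff.mp (by omega)
    obtain ⟨i0⟩ : Nonempty I := inferInstance
    obtain ⟨j0, h0, ⟨e'⟩⟩ := step e i0 (hA i0) hB
    have hc : Fintype.card {i // i ≠ i0} = n := by
      have := Fintype.card_subtype_compl (fun i : I => i = i0)
      rw [Fintype.card_subtype_eq, hI] at this
      exact this
    obtain ⟨σ', hσ'⟩ := ih (A := fun i : {i // i ≠ i0} => A i) (B := fun j : {j // j ≠ j0} => B j)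
      (fun i => hA i) (fun j => hB j) e' hc
    let σ : I ≃ J :=
      { toFun := fun i => if h : i = i0 then j0 else (σ' ⟨i, h⟩).1
        invFun := fun j => if h : j = j0 then i0 else (σ'.symm ⟨j, h⟩).1
        left_inv := by
          intro i
          by_cases h : i = i0
          · simp [h]
          · have h1 := (σ' ⟨i, h⟩).2
            simp [h, h1]
        right_inv := by
          intro j
          by_cases h : j = j0
          · simp [h]
          · have h1 := (σ'.symm ⟨j, h⟩).2
            simp [h, h1] }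
    refine ⟨σ, fun i => ?_⟩
    by_cases h : i = i0
    · subst h
      have h1 : σ i = j0 := dif_pos rfl
      rw [h1]
      exact h0
    · have h1 : σ i = (σ' ⟨i, h⟩).1 := dif_neg h
      rw [h1]
      exact hσ' ⟨i, h⟩

end Cfsg.Agent.H27.KRS
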