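import Mathlib

set_option autoImplicit false

namespace Cfsg.Agent.H27Mon

lemma fixd {T : Type*} [Group T] [Finite T] (h2 : IsPGroup 2 T) (β : MulAut T) {r : ℕ}
    (hr : r.Prime) (hr2 : r ≠ 2) (hβ : β ^ r = 1) (N M : Subgroup T) (hne : ∃ x ∈ M, x ∉ N)
    (hmul : ∀ x ∈ M, x ∉ N → ∀ y ∈ M, y ∉ N → x * y ∈ N) (hNM : N ≤ M)
    (hN : ∀ x ∈ N, β x ∈ N) (hM : ∀ x ∈ M, β x ∈ M) : ∃ x ∈ M, x ∉ N ∧ β x = x := by
  classical
  haveI : Fact r.Prime := ⟨hr⟩
  let X := {x : T // x ∈ M ∧ x ∉ N}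
  obtain ⟨x0, hx0, hx0N⟩ := hne
  have hcard : Nat.card N = Nat.card X := by
    apply Nat.card_congr
    refine ⟨fun n => ⟨x0 * n, M.mul_mem hx0 (hNM n.2), fun h => hx0N ?_⟩,
      fun y => ⟨x0⁻¹ * y.1, hmul _ (M.inv_mem hx0) (fun h => hx0N (by simpa using h)) _ y.2.1 y.2.2⟩,
      ?_, ?_⟩
    · have := N.mul_mem h (N.inv_mem n.2)
      simpa using this
    · intro n
      apply Subtype.ext
      simp
    · intro y
      apply Subtype.ext
      simp
  obtain ⟨k, hk⟩ := (IsPGroup.iff_card.mp (h2.to_subgroup N))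
  have hNk : ∀ (j : ℕ) (x : T), x ∈ N → (β ^ j) x ∈ N := by
    intro j
    induction j with
    | zero => intro x hx; simpa using hx
    | succ j ih =>
      intro x hx
      rw [pow_succ, MulAut.mul_apply]
      exact ih _ (hN _ hx)
  let f : Function.End X := fun x => ⟨β x.1, hM _ x.2.1, fun h => x.2.2 (by
    have h1 := hNk (r - 1) _ h
    rw [← MulAut.mul_apply, ← pow_succ, Nat.sub_add_cancel hr.one_lt.le, hβ, MulAut.one_apply] at h1
    exact h1)⟩
  have hfk : ∀ (j : ℕ) (x : X), (((f ^ j : Function.End X) x : X) : T) = (β ^ j) (x : T) := by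
    intro j
    induction j with
    | zero => intro x; rfl
    | succ j ih =>
      intro x
      rw [pow_succ, pow_succ, MulAut.mul_apply]
      exact ih (f x)
  have hfr : f ^ r ^ 1 = 1 := by
    funext x
    apply Subtype.ext
    rw [hfk, pow_one, hβ]
    rfl
  haveI : Fintype X := Fintype.ofFinite X
  have hmod := Equiv.Perm.card_fixedPoints_modEq (p := r) (n := 1) hfr
  by_contra hcon
  push Not at hcon
  have h0 : Fintype.card (Function.fixedPoints f) = 0 := by
    rw [Fintype.card_eq_zero_iff]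
    constructor
    rintro ⟨x, hx⟩
    have hx' : f x = x := hx
    exact hcon x.1 x.2.1 x.2.2 (congrArg Subtype.val hx')
  rw [h0, ← Nat.card_eq_fintype_card, ← hcard, hk, Nat.modEq_zero_iff_dvd] at hmod
  exact hr2 ((Nat.prime_dvd_prime_iff_eq hr Nat.prime_two).mp (hr.dvd_of_dvd_pow hmod))

/-- if every automorphism of odd prime exponent is trivial then the group is a 2-group -/
lemma two_of {A : Type*} [Group A] [Finite A]
    (h : ∀ β : A, ∀ r : ℕ, r.Prime → r ≠ 2 → β ^ r = 1 → β = 1) : IsPGroup 2 A := by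
  rw [IsPGroup.iff_card]
  refine ⟨_, Nat.eq_prime_pow_of_unique_prime_dvd (Nat.card_pos).ne' ?_⟩
  intro r hr hdvd
  by_contra hr2
  haveI : Fact r.Prime := ⟨hr⟩
  obtain ⟨β, hβ⟩ := exists_prime_orderOf_dvd_card' r hdvd
  have h1 := h β r hr hr2 (by rw [← hβ, pow_orderOf_eq_one])
  rw [h1, orderOf_one] at hβ
  exact hr.one_lt.ne hβ

end Cfsg.Agent.H27Mon
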