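import Cfsg.Agent.H27_Mon

set_option autoImplicit false

namespace Cfsg.Agent.H27Mon

abbrev V (q : ℕ) := Fin 2 → ZMod q

abbrev GLV (q : ℕ) := V q ≃ₗ[ZMod q] V q

def isD {q : ℕ} (f : GLV q) (a s : ZMod q) : Prop := ∀ v, f v = ![a * v 0, s * a⁻¹ * v 1]

def isA {q : ℕ} (f : GLV q) (a s : ZMod q) : Prop := ∀ v, f v = ![s * a⁻¹ * v 1, a * v 0]

lemma isD_mul {q : ℕ} [Fact q.Prime] {f g : GLV q} {a s b r : ZMod q} (hf : isD f a s)
    (hg : isD g b r) : isD (f * g) (a * b) (s * r) := by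
  intro v
  rw [LinearEquiv.mul_apply, hg v, hf]
  ext i
  fin_cases i
  · simp; ring
  · simp only [Fin.mk_one, Matrix.cons_val_one, Matrix.cons_val_fin_one]
    rw [mul_inv]; ring

lemma isD_one {q : ℕ} [Fact q.Prime] : isD (1 : GLV q) 1 1 := by
  intro v
  ext i
  fin_cases i <;> simp

lemma isD_pow {q : ℕ} [Fact q.Prime] {f : GLV q} {a s : ZMod q} (hf : isD f a s) (k : ℕ) :
    isD (f ^ k) (a ^ k) (s ^ k) := by
  induction k with
  | zero => simpa using isD_one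
  | succ k ih => rw [pow_succ, pow_succ, pow_succ]; exact isD_mul ih hf

lemma isD_ext {q : ℕ} {f g : GLV q} {a s : ZMod q} (hf : isD f a s) (hg : isD g a s) : f = g := by
  apply LinearEquiv.ext
  intro v
  rw [hf v, hg v]

lemma isD_inj {q : ℕ} [Fact q.Prime] {f : GLV q} {a s b r : ZMod q} (ha : a ≠ 0)
    (hf : isD f a s) (hg : isD f b r) : a = b ∧ s = r := by
  have h1 := (hf ![1, 0]).symm.trans (hg ![1, 0])
  have h2 := (hf ![0, 1]).symm.trans (hg ![0, 1])
  have e1 : a = b := by simpa using congrFun h1 0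
  refine ⟨e1, ?_⟩
  have e2 : s * a⁻¹ = r * b⁻¹ := by simpa using congrFun h2 1
  rw [← e1] at e2
  exact mul_right_cancel₀ (inv_ne_zero ha) e2

lemma isDA {q : ℕ} [Fact q.Prime] {f : GLV q} {a s b r : ZMod q} (ha : a ≠ 0)
    (hf : isD f a s) (hg : isA f b r) : False := by
  have h1 := (hf ![1, 0]).symm.trans (hg ![1, 0])
  have e1 : a = 0 := by simpa using congrFun h1 0
  exact ha e1

lemma isA_mul {q : ℕ} [Fact q.Prime] {f g : GLV q} {a s b r : ZMod q} (ha : a ≠ 0) (hb : b ≠ 0)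
    (hs : s * s = 1) (hf : isA f a s) (hg : isA g b r) :
    isD (f * g) (s * a⁻¹ * b) (s * r) := by
  intro v
  have hs0 : s ≠ 0 := by rintro rfl; simp at hs
  have hsi : s⁻¹ = s := inv_eq_of_mul_eq_one_right hs
  rw [LinearEquiv.mul_apply, hg v, hf]
  ext i
  fin_cases i
  · simp; ring
  · simp only [Fin.mk_one, Matrix.cons_val_one, Matrix.cons_val_fin_one, Matrix.cons_val_zero]
    rw [mul_inv, mul_inv, inv_inv, hsi]
    linear_combination (-(r * a * b⁻¹ * v 1)) * hs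

lemma isDA_mul {q : ℕ} [Fact q.Prime] {f g : GLV q} {a s b r : ZMod q} (ha : a ≠ 0) (hb : b ≠ 0)
    (hs : s * s = 1) (hf : isD f a s) (hg : isA g b r) :
    isA (f * g) (s * a⁻¹ * b) (s * r) := by
  intro v
  have hs0 : s ≠ 0 := by rintro rfl; simp at hs
  have hsi : s⁻¹ = s := inv_eq_of_mul_eq_one_right hs
  rw [LinearEquiv.mul_apply, hg v, hf]
  ext i
  fin_cases i
  · simp only [Fin.zero_eta, Matrix.cons_val_one, Matrix.cons_val_fin_one, Matrix.cons_val_zero]
    rw [mul_inv, mul_inv, inv_inv, hsi]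
    linear_combination (-(r * a * b⁻¹ * v 1)) * hs
  · simp; ring

lemma isAD_mul {q : ℕ} [Fact q.Prime] {f g : GLV q} {a s b r : ZMod q} (ha : a ≠ 0) (hb : b ≠ 0)
    (hf : isA f a s) (hg : isD g b r) :
    isA (f * g) (a * b) (s * r) := by
  intro v
  rw [LinearEquiv.mul_apply, hg v, hf]
  ext i
  fin_cases i
  · simp only [Fin.zero_eta, Matrix.cons_val_one, Matrix.cons_val_fin_one, Matrix.cons_val_zero]
    rw [mul_inv]; ring
  · simp; ring

def dg {q : ℕ} [Fact q.Prime] (a b : ZMod q) (ha : a ≠ 0) (hb : b ≠ 0) : GLV q where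
  toFun v := ![a * v 0, b * v 1]
  invFun v := ![a⁻¹ * v 0, b⁻¹ * v 1]
  map_add' v w := by ext i; fin_cases i <;> simp <;> ring
  map_smul' c v := by ext i; fin_cases i <;> simp <;> ring
  left_inv v := by ext i; fin_cases i <;> simp [ha, hb]
  right_inv v := by ext i; fin_cases i <;> simp [ha, hb]

lemma isD_dg {q : ℕ} [Fact q.Prime] (a s : ZMod q) (ha : a ≠ 0) (hs : s * a⁻¹ ≠ 0) :
    isD (dg a (s * a⁻¹) ha hs) a s := fun v => rfl

end Cfsg.Agent.H27Mon
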