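import Cfsg.Agent.H27_Mon2

set_option autoImplicit false

namespace Cfsg.Agent.H27Mon

variable {q : ℕ} [Fact q.Prime]

def PD (f : GLV q) : Prop := ∃ a s : ZMod q, a ≠ 0 ∧ (s = 1 ∨ s = -1) ∧ isD f a s

def PA (f : GLV q) : Prop := ∃ a s : ZMod q, a ≠ 0 ∧ (s = 1 ∨ s = -1) ∧ isA f a s

lemma sq1 {s : ZMod q} (hs : s = 1 ∨ s = -1) : s * s = 1 := by
  rcases hs with rfl | rfl <;> ring

lemma pm_mul {s r : ZMod q} (hs : s = 1 ∨ s = -1) (hr : r = 1 ∨ r = -1) :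
    s * r = 1 ∨ s * r = -1 := by
  rcases hs with rfl | rfl <;> rcases hr with rfl | rfl <;> simp

lemma isD_inv {f : GLV q} {a s : ZMod q} (ha : a ≠ 0) (hs : s * s = 1) (hf : isD f a s) :
    isD f⁻¹ a⁻¹ s := by
  have hs0 : s ≠ 0 := by rintro rfl; simp at hs
  have h1 : a⁻¹ ≠ 0 := inv_ne_zero ha
  have h2 : s * a⁻¹⁻¹ ≠ 0 := mul_ne_zero hs0 (inv_ne_zero h1)
  have h3 : f * dg a⁻¹ (s * a⁻¹⁻¹) h1 h2 = 1 := by
    apply isD_ext (a := 1) (s := 1) _ isD_one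
    have := isD_mul hf (isD_dg a⁻¹ s h1 h2)
    rwa [mul_inv_cancel₀ ha, hs] at this
  rw [inv_eq_of_mul_eq_one_right h3]
  exact isD_dg a⁻¹ s h1 h2

lemma PD_mul {f g : GLV q} (hf : PD f) (hg : PD g) : PD (f * g) := by
  obtain ⟨a, s, ha, hs, hf⟩ := hf
  obtain ⟨b, r, hb, hr, hg⟩ := hg
  exact ⟨a * b, s * r, mul_ne_zero ha hb, pm_mul hs hr, isD_mul hf hg⟩

lemma PD_comm {f g : GLV q} (hf : PD f) (hg : PD g) : f * g = g * f := by
  obtain ⟨a, s, ha, hs, hf⟩ := hf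
  obtain ⟨b, r, hb, hr, hg⟩ := hg
  apply isD_ext (isD_mul hf hg)
  rw [mul_comm a b, mul_comm s r]
  exact isD_mul hg hf

lemma PA_mul {f g : GLV q} (hf : PA f) (hg : PA g) : PD (f * g) := by
  obtain ⟨a, s, ha, hs, hf⟩ := hf
  obtain ⟨b, r, hb, hr, hg⟩ := hg
  have hs0 : s ≠ 0 := by
    intro h; have := sq1 hs; rw [h] at this; simp at this
  exact ⟨_, _, mul_ne_zero (mul_ne_zero hs0 (inv_ne_zero ha)) hb, pm_mul hs hr,
    isA_mul ha hb (sq1 hs) hf hg⟩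

def DD (T : Subgroup (GLV q)) : Subgroup T where
  carrier := {t | PD (t : GLV q)}
  mul_mem' := fun {x y} hx hy => PD_mul hx hy
  one_mem' := ⟨1, 1, one_ne_zero, Or.inl rfl, isD_one⟩
  inv_mem' := by
    rintro x ⟨a, s, ha, hs, hf⟩
    exact ⟨a⁻¹, s, inv_ne_zero ha, hs, isD_inv ha (sq1 hs) hf⟩

lemma mem_DD {T : Subgroup (GLV q)} {t : T} : t ∈ DD T ↔ PD (t : GLV q) := Iff.rfl

def D0 (T : Subgroup (GLV q)) (N : ℕ) : Subgroup T where
  carrier := {t | PD (t : GLV q) ∧ t ^ N = 1}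
  mul_mem' := by
    rintro x y ⟨hx, hxN⟩ ⟨hy, hyN⟩
    refine ⟨PD_mul hx hy, ?_⟩
    have hc : Commute x y := Subtype.ext (PD_comm hx hy)
    rw [hc.mul_pow, hxN, hyN, one_mul]
  one_mem' := ⟨(DD T).one_mem, one_pow N⟩
  inv_mem' := by
    rintro x ⟨hx, hxN⟩
    exact ⟨(DD T).inv_mem hx, by rw [inv_pow, hxN, inv_one]⟩

def D1 (T : Subgroup (GLV q)) : Subgroup T where
  carrier := {t | ∃ u : T, PD (u : GLV q) ∧ t = u * u}
  mul_mem' := by
    rintro x y ⟨u, hu, rfl⟩ ⟨v, hv, rfl⟩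
    refine ⟨u * v, PD_mul hu hv, ?_⟩
    have hc : u * v = v * u := Subtype.ext (PD_comm hu hv)
    calc u * u * (v * v) = u * (u * v) * v := by group
      _ = u * (v * u) * v := by rw [hc]
      _ = u * v * (u * v) := by group
  one_mem' := ⟨1, (DD T).one_mem, (one_mul 1).symm⟩
  inv_mem' := by
    rintro x ⟨u, hu, rfl⟩
    exact ⟨u⁻¹, (DD T).inv_mem hu, by group⟩

/-- a PD element times PA element etc -/
lemma PA_sq {f : GLV q} (hf : PA f) : f ^ 4 = 1 := by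
  obtain ⟨a, s, ha, hs, hf⟩ := hf
  have h1 := isA_mul ha ha (sq1 hs) hf hf
  have h2 : s * a⁻¹ * a = s := by rw [mul_assoc, inv_mul_cancel₀ ha, mul_one]
  rw [h2, sq1 hs] at h1
  have h3 := isD_mul h1 h1
  rw [sq1 hs, one_mul] at h3
  have h4 : f ^ 4 = f * f * (f * f) := by
    simp only [pow_succ, pow_zero, one_mul, mul_assoc]
  rw [h4]
  exact isD_ext h3 isD_one

lemma pow_one_of {m : ℕ} (hq : q = 2 ^ m + 1) {a : ZMod q} (ha : a ≠ 0) : a ^ (2 ^ m) = 1 := by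
  have := ZMod.pow_card_sub_one_eq_one ha
  have h : q - 1 = 2 ^ m := Nat.sub_eq_of_eq_add hq
  rwa [h] at this

lemma two_group {m : ℕ} (hq : q = 2 ^ m + 1) (T : Subgroup (GLV q))
    (hT : ∀ t : T, PD (t : GLV q) ∨ PA (t : GLV q)) : IsPGroup 2 T := by
  intro t
  rcases hT t with h | h
  · obtain ⟨a, s, ha, hs, hf⟩ := h
    refine ⟨m + 1, Subtype.ext ?_⟩
    have h1 := isD_pow hf (2 ^ (m + 1))
    have h2 : a ^ (2 ^ (m + 1)) = 1 := by rw [pow_succ, pow_mul, pow_one_of hq ha, one_pow]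
    have h3 : s ^ (2 ^ (m + 1)) = 1 := by
      rw [pow_succ', pow_mul, pow_two, sq1 hs, one_pow]
    rw [h2, h3] at h1
    exact isD_ext h1 isD_one
  · exact ⟨2, Subtype.ext (PA_sq h)⟩

/-- The main case. -/
theorem main_big {m : ℕ} (hq : q = 2 ^ m + 1) (hm : 3 ≤ m) (T : Subgroup (GLV q))
    (hT : ∀ t : T, PD (t : GLV q) ∨ PA (t : GLV q))
    (hTD : ∀ f : GLV q, PD f → f ∈ T) (hTA : ∃ f : GLV q, f ∈ T ∧ PA f)
    [Finite T] (β : MulAut T) (r : ℕ) (hr : r.Prime) (hr2 : r ≠ 2) (hβ : β ^ r = 1) : β = 1 := by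
  classical
  have h2 := two_group hq T hT
  set N := 2 ^ (m - 1) with hN
  have hN2 : N * 2 = 2 ^ m := by rw [hN, ← pow_succ, Nat.sub_add_cancel (by omega)]
  have hNe : Even N := by
    rw [hN, show m - 1 = (m - 2) + 1 by omega, pow_succ]
    exact even_two.mul_left _
  have hqodd : (-1 : ZMod q) ≠ 1 := by
    have hq2 : q ≠ 2 := by
      intro h
      have : 2 ^ 3 ≤ 2 ^ m := Nat.pow_le_pow_right (by norm_num) hm
      omega
    haveI : Fact (2 < q) := ⟨by have := (Fact.out : q.Prime).two_le; omega⟩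
    exact ZMod.neg_one_ne_one
  have hpmN : ∀ s : ZMod q, (s = 1 ∨ s = -1) → s ^ N = 1 := by
    intro s hs
    rcases hs with rfl | rfl
    · exact one_pow _
    · exact hNe.neg_one_pow
  have hPAD : ∀ f : GLV q, PA f → ¬ PD f := by
    rintro f ⟨a, s, ha, hs, hf⟩ ⟨b, r, hb, hr, hg⟩
    exact isDA hb hg hf
  have hnot : ∀ t : T, t ∉ DD T → PA (t : GLV q) := by
    intro t ht
    rcases hT t with h | h
    · exact absurd h ht
    · exact h
  -- a generator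
  obtain ⟨γ, hγ⟩ := IsCyclic.exists_generator (α := (ZMod q)ˣ)
  have hγo : orderOf γ = 2 ^ m := by
    rw [orderOf_eq_card_of_forall_mem_zpowers hγ, Nat.card_eq_fintype_card, ZMod.card_units, hq,
      Nat.add_sub_cancel]
  have hγo' : orderOf (γ : ZMod q) = 2 ^ m := by rw [orderOf_units, hγo]
  have hγ0 : (γ : ZMod q) ≠ 0 := γ.ne_zero
  have hγ4 : (γ : ZMod q) ^ 4 ≠ 1 := by
    intro h
    have h1 := orderOf_dvd_of_pow_eq_one h
    rw [hγo'] at h1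
    have h3 := Nat.le_of_dvd (by norm_num) h1
    have : 2 ^ 3 ≤ 2 ^ m := Nat.pow_le_pow_right (by norm_num) hm
    omega
  have hγN : (γ : ZMod q) ^ N ≠ 1 := by
    intro h
    have h1 := orderOf_dvd_of_pow_eq_one h
    rw [hγo', ← hN2] at h1
    have hNpos : 0 < N := by rw [hN]; positivity
    have h3 := Nat.le_of_dvd hNpos h1
    omega
  have hd0 : (1 : ZMod q) * (γ : ZMod q)⁻¹ ≠ 0 := mul_ne_zero one_ne_zero (inv_ne_zero hγ0)
  have hg0 : isD (dg (γ : ZMod q) (1 * (γ : ZMod q)⁻¹) hγ0 hd0) γ 1 := isD_dg _ _ _ _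
  set g0 : T := ⟨_, hTD _ ⟨_, _, hγ0, Or.inl rfl, hg0⟩⟩ with hg0def
  have hg0D : g0 ∈ DD T := ⟨_, _, hγ0, Or.inl rfl, hg0⟩
  have hg04 : g0 ^ 4 ≠ 1 := by
    intro h
    have h1 := isD_pow hg0 4
    have h3 : (dg (γ : ZMod q) (1 * (γ : ZMod q)⁻¹) hγ0 hd0) ^ 4 = 1 := congrArg Subtype.val h
    rw [h3] at h1
    exact hγ4 (isD_inj one_ne_zero isD_one h1).1.symm
  -- β preserves DD
  have hβ1 : ∀ t : T, t ^ 4 ≠ 1 → β t ∈ DD T := by
    intro t ht
    by_contra hcon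
    have h1 := PA_sq (hnot _ hcon)
    apply ht
    have h3 : (β t) ^ 4 = 1 := Subtype.ext h1
    rw [← map_pow] at h3
    exact (MulEquiv.map_eq_one_iff β).mp h3
  have hβD : ∀ t ∈ DD T, β t ∈ DD T := by
    intro t ht
    by_cases h4 : t ^ 4 = 1
    · have hc : Commute t g0 := Subtype.ext (PD_comm ht hg0D)
      have h5 : (t * g0) ^ 4 ≠ 1 := by rw [hc.mul_pow, h4, one_mul]; exact hg04
      have h6 := (DD T).mul_mem (hβ1 _ h5) ((DD T).inv_mem (hβ1 _ hg04))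
      rw [map_mul, mul_assoc, mul_inv_cancel, mul_one] at h6
      exact h6
    · exact hβ1 t h4
  -- the three fixed elements
  obtain ⟨f0, hf0T, hf0A⟩ := hTA
  obtain ⟨f', -, hf'D, hf'⟩ := fixd h2 β hr hr2 hβ (DD T) ⊤
    ⟨⟨f0, hf0T⟩, Subgroup.mem_top _, hPAD _ hf0A⟩
    (fun x _ hx y _ hy => PA_mul (hnot x hx) (hnot y hy)) le_top hβD (fun _ _ => Subgroup.mem_top _)
  have hND0 : ∀ x ∈ DD T, x ∉ D0 T N → ∃ a s : ZMod q, a ≠ 0 ∧ (s = 1 ∨ s = -1) ∧
      isD (x : GLV q) a s ∧ a ^ N = -1 := by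
    rintro x ⟨a, s, ha, hs, hx⟩ hxN
    refine ⟨a, s, ha, hs, hx, ?_⟩
    have h1 : a ^ N * a ^ N = 1 := by rw [← pow_two, ← pow_mul, hN2, pow_one_of hq ha]
    rcases mul_self_eq_one_iff.mp h1 with h3 | h3
    · exfalso
      apply hxN
      refine ⟨⟨a, s, ha, hs, hx⟩, Subtype.ext ?_⟩
      have h5 := isD_pow hx N
      rw [h3, hpmN s hs] at h5
      exact isD_ext h5 isD_one
    · exact h3
  have hg0N : g0 ∉ D0 T N := by
    rintro ⟨-, h⟩
    have h1 := isD_pow hg0 N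
    have h3 : (dg (γ : ZMod q) (1 * (γ : ZMod q)⁻¹) hγ0 hd0) ^ N = 1 := congrArg Subtype.val h
    rw [h3] at h1
    exact hγN (isD_inj one_ne_zero isD_one h1).1.symm
  obtain ⟨d', hd'D, hd'N, hd'⟩ := fixd h2 β hr hr2 hβ (D0 T N) (DD T) ⟨g0, hg0D, hg0N⟩
    (by
      intro x hx hxN y hy hyN
      obtain ⟨a, s, ha, hs, hxa, haN⟩ := hND0 x hx hxN
      obtain ⟨b, t, hb, ht, hyb, hbN⟩ := hND0 y hy hyN
      refine ⟨PD_mul hx hy, Subtype.ext ?_⟩
      have h5 := isD_pow (isD_mul hxa hyb) N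
      rw [mul_pow, haN, hbN, hpmN _ (pm_mul hs ht), neg_mul_neg, one_mul] at h5
      exact isD_ext h5 isD_one)
    (fun x hx => hx.1) (fun x hx => ⟨hβD x hx.1, by rw [← map_pow, hx.2, map_one]⟩) hβD
  have hb1 : ∀ x ∈ D0 T N, ∃ b s : ZMod q, b ≠ 0 ∧ (s = 1 ∨ s = -1) ∧ isD (x : GLV q) b s ∧
      b ^ N = 1 := by
    rintro x ⟨⟨b, s, hb, hs, hx⟩, hxN⟩
    refine ⟨b, s, hb, hs, hx, ?_⟩
    have h5 := isD_pow hx N
    have h6 : (x : GLV q) ^ N = 1 := congrArg Subtype.val hxN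
    rw [h6] at h5
    exact (isD_inj one_ne_zero isD_one h5).1.symm
  have hsqr : ∀ b : ZMod q, b ≠ 0 → b ^ N = 1 → ∃ c : ZMod q, c ≠ 0 ∧ b = c * c := by
    intro b hb hbN
    have h1 : q / 2 = N := by rw [hq, ← hN2]; omega
    rw [← h1] at hbN
    obtain ⟨c, hc⟩ := (ZMod.euler_criterion q hb).mpr hbN
    refine ⟨c, ?_, hc⟩
    rintro rfl
    exact hb (by rw [hc, mul_zero])
  have hnD1 : ∀ x ∈ D0 T N, x ∉ D1 T → ∃ b c : ZMod q, b ≠ 0 ∧ c ≠ 0 ∧ b = c * c ∧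
      isD (x : GLV q) b (-1) := by
    intro x hx hx1
    obtain ⟨b, s, hb, hs, hxb, hbN⟩ := hb1 x hx
    obtain ⟨c, hc, hbc⟩ := hsqr b hb hbN
    refine ⟨b, c, hb, hc, hbc, ?_⟩
    rcases hs with rfl | rfl
    · exfalso
      apply hx1
      have hc1 : (1 : ZMod q) * c⁻¹ ≠ 0 := mul_ne_zero one_ne_zero (inv_ne_zero hc)
      have hcd : isD (dg c (1 * c⁻¹) hc hc1) c 1 := isD_dg _ _ _ _
      refine ⟨⟨_, hTD _ ⟨_, _, hc, Or.inl rfl, hcd⟩⟩, ⟨_, _, hc, Or.inl rfl, hcd⟩, Subtype.ext ?_⟩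
      have h5 := isD_mul hcd hcd
      rw [← hbc, mul_one (1 : ZMod q)] at h5
      exact isD_ext hxb h5
    · exact hxb
  have h11 : (-1 : ZMod q) * (1 : ZMod q)⁻¹ ≠ 0 :=
    mul_ne_zero (neg_ne_zero.mpr one_ne_zero) (inv_ne_zero one_ne_zero)
  have he : isD (dg (1 : ZMod q) (-1 * (1 : ZMod q)⁻¹) one_ne_zero h11) 1 (-1) := isD_dg _ _ _ _
  set e : T := ⟨_, hTD _ ⟨_, _, one_ne_zero, Or.inr rfl, he⟩⟩ with hedef
  obtain ⟨e', he'D, he'N, he'⟩ := fixd h2 β hr hr2 hβ (D1 T) (D0 T N)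
    ⟨e, ⟨⟨_, _, one_ne_zero, Or.inr rfl, he⟩, Subtype.ext (by
        have h5 := isD_pow he N
        rw [one_pow, hpmN (-1) (Or.inr rfl)] at h5
        exact isD_ext h5 isD_one)⟩, by
      rintro ⟨u, ⟨a, s, ha, hs, hu⟩, h⟩
      have h5 := isD_mul hu hu
      have h6 : dg (1 : ZMod q) (-1 * (1 : ZMod q)⁻¹) one_ne_zero h11 = (u : GLV q) * u :=
        congrArg Subtype.val h
      rw [← h6, sq1 hs] at h5
      exact hqodd (isD_inj one_ne_zero he h5).2⟩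
    (by
      intro x hx hx1 y hy hy1
      obtain ⟨b, c, hb, hc, hbc, hxb⟩ := hnD1 x hx hx1
      obtain ⟨b', c', hb', hc', hbc', hyb⟩ := hnD1 y hy hy1
      have hcc : c * c' ≠ 0 := mul_ne_zero hc hc'
      have hc1 : (1 : ZMod q) * (c * c')⁻¹ ≠ 0 := mul_ne_zero one_ne_zero (inv_ne_zero hcc)
      have hcd : isD (dg (c * c') (1 * (c * c')⁻¹) hcc hc1) (c * c') 1 := isD_dg _ _ _ _
      refine ⟨⟨_, hTD _ ⟨_, _, hcc, Or.inl rfl, hcd⟩⟩, ⟨_, _, hcc, Or.inl rfl, hcd⟩, Subtype.ext ?_⟩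
      have h5 := isD_mul hcd hcd
      have h6 := isD_mul hxb hyb
      have h7 : c * c' * (c * c') = b * b' := by rw [hbc, hbc']; ring
      rw [h7, mul_one (1 : ZMod q)] at h5
      rw [neg_mul_neg, mul_one (1 : ZMod q)] at h6
      exact isD_ext h6 h5)
    (by
      rintro x ⟨u, ⟨a, s, ha, hs, hu⟩, rfl⟩
      refine ⟨PD_mul ⟨a, s, ha, hs, hu⟩ ⟨a, s, ha, hs, hu⟩, Subtype.ext ?_⟩
      have h5 := isD_pow (isD_mul hu hu) N
      have h6 : (a * a) ^ N = 1 := by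
        rw [← pow_two, ← pow_mul, mul_comm, hN2, pow_one_of hq ha]
      rw [h6, hpmN _ (pm_mul hs hs)] at h5
      exact isD_ext h5 isD_one)
    (by
      rintro x ⟨u, hu, rfl⟩
      exact ⟨β u, hβD u hu, map_mul β u u⟩)
    (fun x hx => ⟨hβD x hx.1, by rw [← map_pow, hx.2, map_one]⟩)
  -- everything is fixed
  obtain ⟨a, s, ha, hs, hda, haN⟩ := hND0 d' hd'D hd'N
  obtain ⟨b, c, hb, hc, hbc, hebm⟩ := hnD1 e' he'D he'N
  obtain ⟨b2, s2, hb2, hs2, heb2, hbN2⟩ := hb1 e' he'D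
  have hbN : b ^ N = 1 := by rw [(isD_inj hb hebm heb2).1, hbN2]
  have haord : orderOf (Units.mk0 a ha) = 2 ^ m := by
    have h1 : orderOf a = 2 ^ ((m - 1) + 1) := by
      apply orderOf_eq_prime_pow
      · rw [← hN, haN]; exact hqodd
      · rw [Nat.sub_add_cancel (by omega)]; exact pow_one_of hq ha
    rw [← orderOf_units, Units.val_mk0, h1, Nat.sub_add_cancel (by omega)]
  have hall : ∀ w : ZMod q, w ≠ 0 → ∃ k : ℕ, a ^ k = w := by
    intro w hw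
    have h1 : Subgroup.zpowers (Units.mk0 a ha) = ⊤ := by
      apply Subgroup.eq_top_of_card_eq
      rw [Nat.card_zpowers, haord, Nat.card_eq_fintype_card, ZMod.card_units, hq,
        Nat.add_sub_cancel]
    have h3 : Units.mk0 w hw ∈ Subgroup.zpowers (Units.mk0 a ha) := by rw [h1]; exact Subgroup.mem_top _
    rw [← mem_powers_iff_mem_zpowers] at h3
    obtain ⟨k, hk⟩ := h3
    refine ⟨k, ?_⟩
    have := congrArg Units.val hk
    simpa using this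
  obtain ⟨j, hj⟩ := hall b hb
  have hjeven : Even j := by
    by_contra hodd
    rw [Nat.not_even_iff_odd] at hodd
    have h1 : a ^ (j * N) = 1 := by rw [pow_mul, hj, hbN]
    rw [mul_comm, pow_mul, haN, hodd.neg_one_pow] at h1
    exact hqodd h1
  have hsj : s ^ j = 1 := by
    rcases hs with rfl | rfl
    · exact one_pow _
    · exact hjeven.neg_one_pow
  have hfe : β e = e := by
    have h1 : e * d' ^ j = e' := by
      apply Subtype.ext
      have h5 := isD_mul he (isD_pow hda j)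
      rw [one_mul, hj, hsj, mul_one] at h5
      exact isD_ext h5 hebm
    have h3 : e = e' * (d' ^ j)⁻¹ := by rw [← h1]; group
    rw [h3, map_mul, map_inv, map_pow, hd', he']
  have hfD : ∀ t ∈ DD T, β t = t := by
    rintro t ⟨w, s', hw, hs', ht⟩
    obtain ⟨k, hk⟩ := hall w hw
    have hsk : s ^ k = 1 ∨ s ^ k = -1 := by
      rcases hs with rfl | rfl
      · left; exact one_pow _
      · exact neg_one_pow_eq_or _ k
    by_cases hss : s' = s ^ k
    · have h1 : t = d' ^ k := by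
        apply Subtype.ext
        have h5 := isD_pow hda k
        rw [hk, ← hss] at h5
        exact isD_ext ht h5
      rw [h1, map_pow, hd']
    · have h1 : t = e * d' ^ k := by
        apply Subtype.ext
        have h5 := isD_mul he (isD_pow hda k)
        have h6 : (-1 : ZMod q) * s ^ k = s' := by
          rcases hsk with h | h <;> rcases hs' with h' | h' <;> rw [h, h'] at hss ⊢
          · exact absurd rfl hss
          · ring
          · ring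
          · exact absurd rfl hss
        rw [one_mul, hk, h6] at h5
        exact isD_ext ht h5
      rw [h1, map_mul, map_pow, hd', hfe]
  apply MulEquiv.ext
  intro t
  rw [MulAut.one_apply]
  by_cases ht : t ∈ DD T
  · exact hfD t ht
  · have h1 : t * f' ∈ DD T := PA_mul (hnot t ht) (hnot f' hf'D)
    have h3 := hfD _ h1
    rw [map_mul, hf'] at h3
    exact mul_right_cancel h3

end Cfsg.Agent.H27Mon
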