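import Mathlib

set_option autoImplicit false

namespace Cfsg.Agent.H27NF

abbrev T := ℕ × ℕ × ℕ × ℕ

def mulT (p : ℕ) (x y : T) : T :=
  ((x.1 * y.1 + x.2.1 * y.2.2.1) % p, (x.1 * y.2.1 + x.2.1 * y.2.2.2) % p,
   (x.2.2.1 * y.1 + x.2.2.2 * y.2.2.1) % p, (x.2.2.1 * y.2.1 + x.2.2.2 * y.2.2.2) % p)

def eqT (x y : T) : Bool :=
  Nat.beq x.1 y.1 && (Nat.beq x.2.1 y.2.1 && (Nat.beq x.2.2.1 y.2.2.1 && Nat.beq x.2.2.2 y.2.2.2))

lemma eqT_iff (x y : T) : eqT x y = true ↔ x = y := by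
  obtain ⟨a, b, c, d⟩ := x
  obtain ⟨a', b', c', d'⟩ := y
  simp [eqT, Prod.ext_iff, Nat.beq_eq]

def memT (x : T) (L : List T) : Bool := L.any (fun y => eqT x y)

lemma memT_iff (x : T) (L : List T) : memT x L = true ↔ x ∈ L := by
  simp only [memT, List.any_eq_true, eqT_iff]
  constructor
  · rintro ⟨y, hy, rfl⟩; exact hy
  · intro h; exact ⟨x, h, rfl⟩

def toM (p : ℕ) (x : T) : Matrix (Fin 2) (Fin 2) (ZMod p) :=
  !![(x.1 : ZMod p), (x.2.1 : ZMod p); (x.2.2.1 : ZMod p), (x.2.2.2 : ZMod p)]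

lemma toM_mul (p : ℕ) (x y : T) : toM p (mulT p x y) = toM p x * toM p y := by
  simp [toM, mulT, Matrix.mul_fin_two, ZMod.natCast_mod]

lemma toM_one (p : ℕ) : toM p (1, 0, 0, 1) = 1 := by
  simp [toM, Matrix.one_fin_two]

def ev (p : ℕ) (gs : List T) : List ℕ → T
  | [] => (1, 0, 0, 1)
  | i :: w => mulT p (gs.getD i (1, 0, 0, 1)) (ev p gs w)

/-- the elements reached by words lie in the closure -/
lemma ev_mem {p : ℕ} [Fact p.Prime] (gs : List T)
    (H : Subgroup (Matrix.GeneralLinearGroup (Fin 2) (ZMod p)))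
    (hg : ∀ t ∈ gs, ∃ h ∈ H, (h : Matrix (Fin 2) (Fin 2) (ZMod p)) = toM p t) (w : List ℕ) :
    ∃ h ∈ H, (h : Matrix (Fin 2) (Fin 2) (ZMod p)) = toM p (ev p gs w) := by
  induction w with
  | nil => exact ⟨1, H.one_mem, by simp [ev, toM_one]⟩
  | cons i w ih =>
    obtain ⟨h, hh, hhe⟩ := ih
    have h2 : ∃ k ∈ H, (k : Matrix (Fin 2) (Fin 2) (ZMod p)) =
        toM p (gs.getD i (1, 0, 0, 1)) := by
      by_cases hi : i < gs.length
      · rw [List.getD_eq_getElem _ _ hi]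
        exact hg _ (List.getElem_mem hi)
      · rw [List.getD_eq_default _ _ (not_lt.mp hi)]
        exact ⟨1, H.one_mem, by simp [toM_one]⟩
    obtain ⟨k, hk, hke⟩ := h2
    exact ⟨k * h, H.mul_mem hk hh, by simp [ev, toM_mul, hke, hhe]⟩

def tup {p : ℕ} (M : Matrix (Fin 2) (Fin 2) (ZMod p)) : T :=
  ((M 0 0).val, (M 0 1).val, (M 1 0).val, (M 1 1).val)

lemma tup_inj {p : ℕ} [NeZero p] {M N : Matrix (Fin 2) (Fin 2) (ZMod p)} (h : tup M = tup N) :
    M = N := by
  simp only [tup, Prod.mk.injEq] at h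
  obtain ⟨h1, h2, h3, h4⟩ := h
  ext i j
  fin_cases i <;> fin_cases j
  · exact ZMod.val_injective p h1
  · exact ZMod.val_injective p h2
  · exact ZMod.val_injective p h3
  · exact ZMod.val_injective p h4

lemma tup_toM {p : ℕ} [NeZero p] {x : T} (hx : x.1 < p ∧ x.2.1 < p ∧ x.2.2.1 < p ∧ x.2.2.2 < p) :
    tup (toM p x) = x := by
  obtain ⟨a, b, c, d⟩ := x
  simp only at hx
  simp [tup, toM, ZMod.val_natCast_of_lt hx.1, ZMod.val_natCast_of_lt hx.2.1,
    ZMod.val_natCast_of_lt hx.2.2.1, ZMod.val_natCast_of_lt hx.2.2.2]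

def chkMul (p : ℕ) (gs : List T) (L : List T) : Bool :=
  gs.all (fun g => L.all (fun t => memT (mulT p g t) L))

def chkBd (p : ℕ) (L : List T) : Bool :=
  L.all (fun x => Nat.blt x.1 p && (Nat.blt x.2.1 p && (Nat.blt x.2.2.1 p && Nat.blt x.2.2.2 p)))

def nodupT : List T → Bool
  | [] => true
  | x :: L => (! memT x L) && nodupT L

lemma nodupT_iff (L : List T) : nodupT L = true → L.Nodup := by
  induction L with
  | nil => intro _; exact List.nodup_nil
  | cons x L ih =>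
    intro h
    simp only [nodupT, Bool.and_eq_true, Bool.not_eq_true'] at h
    refine List.nodup_cons.mpr ⟨?_, ih h.2⟩
    intro hx
    have := (memT_iff x L).mpr hx
    rw [h.1] at this
    exact absurd this (by simp)

/-- elements of a closure given by a list closed under left multiplication -/
theorem mem_list {p : ℕ} [Fact p.Prime] (gs gi : List T) (L : List T)
    (S : Set (Matrix.GeneralLinearGroup (Fin 2) (ZMod p)))
    (hS : ∀ s ∈ S, (∃ t ∈ gs, (s : Matrix (Fin 2) (Fin 2) (ZMod p)) = toM p t) ∧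
      (∃ t ∈ gi, ((s⁻¹ : Matrix.GeneralLinearGroup (Fin 2) (ZMod p)) :
        Matrix (Fin 2) (Fin 2) (ZMod p)) = toM p t))
    (h1 : memT (1, 0, 0, 1) L = true) (hm : chkMul p gs L = true) (hmi : chkMul p gi L = true)
    (h : Matrix.GeneralLinearGroup (Fin 2) (ZMod p)) (hh : h ∈ Subgroup.closure S) :
    ∃ t ∈ L, (h : Matrix (Fin 2) (Fin 2) (ZMod p)) = toM p t := by
  induction hh using Subgroup.closure_induction_left with
  | one => exact ⟨_, (memT_iff _ _).mp h1, by simp [toM_one]⟩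
  | mul_left x hx y hy ih =>
    obtain ⟨t, ht, hte⟩ := ih
    obtain ⟨⟨g, hg, hge⟩, -⟩ := hS x hx
    simp only [chkMul, List.all_eq_true, memT_iff] at hm
    exact ⟨_, hm g hg t ht, by rw [Units.val_mul, toM_mul, hge, hte]⟩
  | inv_mul_cancel x hx y hy ih =>
    obtain ⟨t, ht, hte⟩ := ih
    obtain ⟨-, ⟨g, hg, hge⟩⟩ := hS x hx
    simp only [chkMul, List.all_eq_true, memT_iff] at hmi
    exact ⟨_, hmi g hg t ht, by rw [Units.val_mul, toM_mul, hge, hte]⟩

/-- card of the closure -/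
theorem card_list {p : ℕ} [Fact p.Prime] (gs gi : List T) (L : List T) (W : List (List ℕ))
    (S : Set (Matrix.GeneralLinearGroup (Fin 2) (ZMod p)))
    (hS : ∀ s ∈ S, (∃ t ∈ gs, (s : Matrix (Fin 2) (Fin 2) (ZMod p)) = toM p t) ∧
      (∃ t ∈ gi, ((s⁻¹ : Matrix.GeneralLinearGroup (Fin 2) (ZMod p)) :
        Matrix (Fin 2) (Fin 2) (ZMod p)) = toM p t))
    (hS2 : ∀ t ∈ gs, ∃ s ∈ S, (s : Matrix (Fin 2) (Fin 2) (ZMod p)) = toM p t)
    (h1 : memT (1, 0, 0, 1) L = true) (hm : chkMul p gs L = true) (hmi : chkMul p gi L = true)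
    (hb : chkBd p L = true) (hn : nodupT L = true) (hW : W.map (ev p gs) = L) :
    Nat.card (Subgroup.closure S) = L.length := by
  classical
  have hinj : Function.Injective (fun h : Subgroup.closure S =>
      tup ((h : Matrix.GeneralLinearGroup (Fin 2) (ZMod p)) : Matrix (Fin 2) (Fin 2) (ZMod p))) := by
    intro a b hab
    exact Subtype.ext (Units.ext (tup_inj hab))
  rw [← Nat.card_range_of_injective hinj]
  have hbd : ∀ x ∈ L, x.1 < p ∧ x.2.1 < p ∧ x.2.2.1 < p ∧ x.2.2.2 < p := by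
    intro x hx
    simp only [chkBd, List.all_eq_true, Bool.and_eq_true] at hb
    obtain ⟨h1, h2, h3, h4⟩ := hb x hx
    exact ⟨Nat.blt_eq.mp h1, Nat.blt_eq.mp h2, Nat.blt_eq.mp h3, Nat.blt_eq.mp h4⟩
  have hr : Set.range (fun h : Subgroup.closure S =>
      tup ((h : Matrix.GeneralLinearGroup (Fin 2) (ZMod p)) : Matrix (Fin 2) (Fin 2) (ZMod p))) =
      (L.toFinset : Set T) := by
    ext t
    simp only [Set.mem_range, List.coe_toFinset, Set.mem_setOf_eq]
    constructor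
    · rintro ⟨h, rfl⟩
      obtain ⟨t, ht, hte⟩ := mem_list gs gi L S hS h1 hm hmi h.1 h.2
      rw [hte, tup_toM (hbd t ht)]
      exact ht
    · intro ht
      have ht' := ht
      rw [← hW, List.mem_map] at ht'
      obtain ⟨w, -, hw⟩ := ht'
      obtain ⟨h, hh, hhe⟩ := ev_mem gs (Subgroup.closure S) (by
        intro t ht
        obtain ⟨s, hs, hse⟩ := hS2 t ht
        exact ⟨s, Subgroup.subset_closure hs, hse⟩) w
      refine ⟨⟨h, hh⟩, ?_⟩
      simp only
      rw [hhe, hw, tup_toM (hbd t ht)]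
  rw [hr, Nat.card_coe_set_eq, Set.ncard_coe_finset, List.toFinset_card_of_nodup (nodupT_iff L hn)]

def chkFix (p : ℕ) (L : List T) : Bool :=
  L.all (fun x => eqT x (1, 0, 0, 1) ||
    ! Nat.beq (((x.1 + (p - 1)) * (x.2.2.2 + (p - 1))) % p) ((x.2.1 * x.2.2.1) % p))

theorem fix_list {p : ℕ} [Fact p.Prime] (L : List T) (hf : chkFix p L = true) {t : T} (ht : t ∈ L)
    (v : Fin 2 → ZMod p) (hv : v ≠ 0) (h : (toM p t).mulVec v = v) : t = (1, 0, 0, 1) := by
  simp only [chkFix, List.all_eq_true, Bool.or_eq_true, eqT_iff] at hf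
  rcases hf t ht with h1 | h1
  · exact h1
  · exfalso
    have hp1 : 1 ≤ p := (Fact.out : p.Prime).one_lt.le
    have h2 : ¬ (((t.1 + (p - 1)) * (t.2.2.2 + (p - 1))) % p) = ((t.2.1 * t.2.2.1) % p) := by
      intro h3
      rw [h3] at h1
      simp at h1
    apply h2
    have h3 : (((t.1 + (p - 1)) * (t.2.2.2 + (p - 1)) : ℕ) : ZMod p) = ((t.2.1 * t.2.2.1 : ℕ) : ZMod p) := by
      have e1 : (t.1 : ZMod p) * v 0 + (t.2.1 : ZMod p) * v 1 = v 0 := by
        have := congrFun h 0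
        simpa [toM, Matrix.mulVec, dotProduct, Fin.sum_univ_two] using this
      have e2 : (t.2.2.1 : ZMod p) * v 0 + (t.2.2.2 : ZMod p) * v 1 = v 1 := by
        have := congrFun h 1
        simpa [toM, Matrix.mulVec, dotProduct, Fin.sum_univ_two] using this
      push_cast [Nat.cast_sub hp1]
      simp only [CharP.cast_eq_zero, zero_sub]
      by_cases hv0 : v 0 = 0
      · have hv1 : v 1 ≠ 0 := by
          intro h'; apply hv; ext i; fin_cases i
          · exact hv0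
          · exact h'
        rw [hv0] at e1 e2
        apply mul_right_cancel₀ (pow_ne_zero 2 hv1)
        linear_combination ((t.1 : ZMod p) - 1) * v 1 * e2 - (t.2.2.1 : ZMod p) * v 1 * e1
      · apply mul_right_cancel₀ (pow_ne_zero 2 hv0)
        linear_combination ((t.2.2.2 : ZMod p) - 1) * v 0 * e1 - (t.2.1 : ZMod p) * v 0 * e2
    exact (ZMod.natCast_eq_natCast_iff' _ _ _).mp h3

/-- a fixed-point-free group of the right order is regular -/
theorem regular_of {p : ℕ} [Fact p.Prime]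
    (H : Subgroup (Matrix.GeneralLinearGroup (Fin 2) (ZMod p)))
    (hc : Nat.card H = p ^ 2 - 1)
    (hf : ∀ h ∈ H, ∀ v : Fin 2 → ZMod p, v ≠ 0 →
      (h : Matrix (Fin 2) (Fin 2) (ZMod p)).mulVec v = v → h = 1) :
    ∀ v w : Fin 2 → ZMod p, v ≠ 0 → w ≠ 0 →
      ∃! h : H, Matrix.mulVec ((h : Matrix.GeneralLinearGroup (Fin 2) (ZMod p)) :
        Matrix (Fin 2) (Fin 2) (ZMod p)) v = w := by
  classical
  intro v w hv hw
  have hne : ∀ (h : Matrix.GeneralLinearGroup (Fin 2) (ZMod p)) (u : Fin 2 → ZMod p), u ≠ 0 →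
      (h : Matrix (Fin 2) (Fin 2) (ZMod p)).mulVec u ≠ 0 := by
    intro h u hu h0
    apply hu
    have : ((h⁻¹ : Matrix.GeneralLinearGroup (Fin 2) (ZMod p)) :
        Matrix (Fin 2) (Fin 2) (ZMod p)).mulVec
        ((h : Matrix (Fin 2) (Fin 2) (ZMod p)).mulVec u) = u := by
      rw [Matrix.mulVec_mulVec, ← Units.val_mul, inv_mul_cancel, Units.val_one, Matrix.one_mulVec]
    rw [← this, h0, Matrix.mulVec_zero]
  let f : H → {u : Fin 2 → ZMod p // u ≠ 0} := fun h =>
    ⟨((h : Matrix.GeneralLinearGroup (Fin 2) (ZMod p)) :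
        Matrix (Fin 2) (Fin 2) (ZMod p)).mulVec v, hne _ _ hv⟩
  have hinj : Function.Injective f := by
    intro a b hab
    have hab' : ((a : Matrix.GeneralLinearGroup (Fin 2) (ZMod p)) :
        Matrix (Fin 2) (Fin 2) (ZMod p)).mulVec v =
      ((b : Matrix.GeneralLinearGroup (Fin 2) (ZMod p)) :
        Matrix (Fin 2) (Fin 2) (ZMod p)).mulVec v := congrArg Subtype.val hab
    have h1 : ((b⁻¹ * a : H) : Matrix.GeneralLinearGroup (Fin 2) (ZMod p)) = 1 := by
      apply hf _ (b⁻¹ * a).2 v hv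
      rw [Subgroup.coe_mul, Units.val_mul, ← Matrix.mulVec_mulVec, hab', Matrix.mulVec_mulVec,
        ← Units.val_mul, Subgroup.coe_inv, inv_mul_cancel, Units.val_one, Matrix.one_mulVec]
    have h2 : b⁻¹ * a = 1 := Subtype.ext h1
    exact (inv_mul_eq_one.mp h2).symm
  have hcard : Nat.card {u : Fin 2 → ZMod p // u ≠ 0} = p ^ 2 - 1 := by
    have h1 : Nat.card {u : Fin 2 → ZMod p // ¬ (u = 0)} =
        Nat.card (Fin 2 → ZMod p) - Nat.card {u : Fin 2 → ZMod p // u = 0} := by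
      rw [Nat.card_eq_fintype_card, Nat.card_eq_fintype_card, Nat.card_eq_fintype_card]
      exact Fintype.card_subtype_compl _
    have h2 : Nat.card {u : Fin 2 → ZMod p // u = 0} = 1 := by
      rw [Nat.card_eq_fintype_card, Fintype.card_subtype_eq]
    have h3 : Nat.card (Fin 2 → ZMod p) = p ^ 2 := by
      simp [Nat.card_eq_fintype_card]
    rw [h2, h3] at h1
    exact h1
  haveI : Finite {u : Fin 2 → ZMod p // u ≠ 0} := inferInstance
  have hbij : Function.Bijective f :=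
    (Nat.bijective_iff_injective_and_card f).mpr ⟨hinj, by rw [hc, hcard]⟩
  obtain ⟨h, hh⟩ := hbij.2 ⟨w, hw⟩
  refine ⟨h, congrArg Subtype.val hh, ?_⟩
  intro k hk
  apply hinj
  rw [hh]
  exact Subtype.ext hk

end Cfsg.Agent.H27NF
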