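import Cfsg.Agent.H27_NF

set_option autoImplicit false

namespace Cfsg.Agent.H27NF

lemma inv_eq {p : ℕ} [Fact p.Prime] {A : Matrix.GeneralLinearGroup (Fin 2) (ZMod p)} {g gi : T}
    (hA : (A : Matrix (Fin 2) (Fin 2) (ZMod p)) = toM p g) (h : mulT p gi g = (1, 0, 0, 1)) :
    ((A⁻¹ : Matrix.GeneralLinearGroup (Fin 2) (ZMod p)) : Matrix (Fin 2) (Fin 2) (ZMod p)) =
      toM p gi := by
  have h1 : toM p gi * (A : Matrix (Fin 2) (Fin 2) (ZMod p)) = 1 := by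
    rw [hA, ← toM_mul, h, toM_one]
  calc ((A⁻¹ : Matrix.GeneralLinearGroup (Fin 2) (ZMod p)) : Matrix (Fin 2) (Fin 2) (ZMod p))
      = (toM p gi * (A : Matrix (Fin 2) (Fin 2) (ZMod p))) *
        ((A⁻¹ : Matrix.GeneralLinearGroup (Fin 2) (ZMod p)) :
          Matrix (Fin 2) (Fin 2) (ZMod p)) := by rw [h1, one_mul]
    _ = toM p gi := by
        rw [mul_assoc, ← Units.val_mul, mul_inv_cancel, Units.val_one, mul_one]

theorem full {p : ℕ} [Fact p.Prime] (gs gi : List T) (L : List T) (W : List (List ℕ))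
    (S : Set (Matrix.GeneralLinearGroup (Fin 2) (ZMod p)))
    (hS : ∀ s ∈ S, (∃ t ∈ gs, (s : Matrix (Fin 2) (Fin 2) (ZMod p)) = toM p t) ∧
      (∃ t ∈ gi, ((s⁻¹ : Matrix.GeneralLinearGroup (Fin 2) (ZMod p)) :
        Matrix (Fin 2) (Fin 2) (ZMod p)) = toM p t))
    (hS2 : ∀ t ∈ gs, ∃ s ∈ S, (s : Matrix (Fin 2) (Fin 2) (ZMod p)) = toM p t)
    (h1 : memT (1, 0, 0, 1) L = true) (hm : chkMul p gs L = true) (hmi : chkMul p gi L = true)
    (hb : chkBd p L = true) (hn : nodupT L = true) (hW : W.map (ev p gs) = L)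
    (hf : chkFix p L = true) (hl : L.length = p ^ 2 - 1) :
    Nat.card (Subgroup.closure S) = p ^ 2 - 1 ∧
    ∀ v w : Fin 2 → ZMod p, v ≠ 0 → w ≠ 0 →
      ∃! h : Subgroup.closure S, Matrix.mulVec
        ((h : Matrix.GeneralLinearGroup (Fin 2) (ZMod p)) :
        Matrix (Fin 2) (Fin 2) (ZMod p)) v = w := by
  have hc := card_list gs gi L W S hS hS2 h1 hm hmi hb hn hW
  refine ⟨hc.trans hl, regular_of _ (hc.trans hl) ?_⟩
  intro h hh v hv hfv
  obtain ⟨t, ht, hte⟩ := mem_list gs gi L S hS h1 hm hmi h hh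
  rw [hte] at hfv
  have := fix_list L hf ht v hv hfv
  apply Units.ext
  rw [hte, this, toM_one, Units.val_one]

end Cfsg.Agent.H27NF
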