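import Mathlib
import Cfsg.Prelude
import Cfsg.Agent.H21_O168b
import Cfsg.Agent.H5_Rec
import Cfsg.Agent.H17_S4

set_option autoImplicit false

/-! Klein four-subgroups of the simple group of order 168. -/

namespace Cfsg.Agent.H27.O168

open Subgroup

theorem k4_iff {G : Type*} [Group G] (U : Subgroup G) :
    IsKleinFour U ↔ Nat.card U = 4 ∧ ∀ x ∈ U, x * x = 1 := by
  constructor
  · intro h
    refine ⟨h.card_four, fun x hx => ?_⟩
    have h1 := Monoid.pow_exponent_eq_one (⟨x, hx⟩ : U)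
    rw [h.exponent_two, pow_two] at h1
    exact congrArg Subtype.val h1
  · rintro ⟨h1, h2⟩
    refine ⟨h1, ?_⟩
    have h3 : Monoid.exponent U ∣ 2 := Monoid.exponent_dvd_of_forall_pow_eq_one fun x => by
      rw [pow_two]
      exact Subtype.ext (h2 x x.2)
    rcases (Nat.dvd_prime Nat.prime_two).mp h3 with h4 | h4
    · exfalso
      rw [Monoid.exp_eq_one_iff] at h4
      have : Nat.card U = 1 := Nat.card_of_subsingleton 1
      omega
    · exact h4

def P1 (x : DihedralGroup 4) : Prop := x = 1 ∨ x = .r 2 ∨ x = .sr 0 ∨ x = .sr 2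

def P2 (x : DihedralGroup 4) : Prop := x = 1 ∨ x = .r 2 ∨ x = .sr 1 ∨ x = .sr 3

instance : DecidablePred P1 := fun x => by unfold P1; infer_instance

instance : DecidablePred P2 := fun x => by unfold P2; infer_instance

def K1 : Subgroup (DihedralGroup 4) where
  carrier := {x | P1 x}
  mul_mem' := by
    have : ∀ x y : DihedralGroup 4, P1 x → P1 y → P1 (x * y) := by decide
    exact fun {x y} => this x y
  one_mem' := Or.inl rfl
  inv_mem' := by
    have : ∀ x : DihedralGroup 4, P1 x → P1 x⁻¹ := by decide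
    exact fun {x} => this x

def K2 : Subgroup (DihedralGroup 4) where
  carrier := {x | P2 x}
  mul_mem' := by
    have : ∀ x y : DihedralGroup 4, P2 x → P2 y → P2 (x * y) := by decide
    exact fun {x y} => this x y
  one_mem' := Or.inl rfl
  inv_mem' := by
    have : ∀ x : DihedralGroup 4, P2 x → P2 x⁻¹ := by decide
    exact fun {x} => this x

theorem card_K1 : Nat.card K1 = 4 := by
  change Nat.card {x : DihedralGroup 4 // P1 x} = 4
  rw [Nat.card_eq_fintype_card]
  decide

theorem card_K2 : Nat.card K2 = 4 := by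
  change Nat.card {x : DihedralGroup 4 // P2 x} = 4
  rw [Nat.card_eq_fintype_card]
  decide

theorem sq_K1 : ∀ x ∈ K1, x * x = 1 := by
  have : ∀ x : DihedralGroup 4, P1 x → x * x = 1 := by decide
  exact this

theorem sq_K2 : ∀ x ∈ K2, x * x = 1 := by
  have : ∀ x : DihedralGroup 4, P2 x → x * x = 1 := by decide
  exact this

theorem K1_ne : K1 ≠ K2 := by
  intro h
  have h1 : (DihedralGroup.sr 0 : DihedralGroup 4) ∈ K1 := Or.inr (Or.inr (Or.inl rfl))
  rw [h] at h1
  revert h1
  have : ¬ P2 (DihedralGroup.sr 0) := by decide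
  exact this

theorem eq_K {K : Subgroup (DihedralGroup 4)} (hK : Nat.card K = 4) (h : ∀ x ∈ K, x * x = 1) : K = K1 ∨ K = K2 := by
  by_contra hcon
  push Not at hcon
  obtain ⟨h1, h2⟩ := hcon
  have h3 : ¬ K ≤ K1 := fun h3 => h1 (Subgroup.eq_of_le_of_card_ge h3 (by rw [hK, card_K1]))
  have h4 : ¬ K ≤ K2 := fun h3 => h2 (Subgroup.eq_of_le_of_card_ge h3 (by rw [hK, card_K2]))
  obtain ⟨x, hx, hx1⟩ := SetLike.not_le_iff_exists.mp h3
  obtain ⟨y, hy, hy1⟩ := SetLike.not_le_iff_exists.mp h4
  have key : ∀ x y : DihedralGroup 4, ¬ P1 x → ¬ P2 y → x * x = 1 → y * y = 1 → (x * y) * (x * y) ≠ 1 := by decide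
  exact key x y hx1 hy1 (h x hx) (h y hy) (h _ (K.mul_mem hx hy))

section F

variable {G : Type*} [Group G] {T : Subgroup G} (e : T ≃* DihedralGroup 4)

def F (K : Subgroup (DihedralGroup 4)) : Subgroup G := (K.comap e.toMonoidHom).map T.subtype

theorem F_le (K : Subgroup (DihedralGroup 4)) : F e K ≤ T := Subgroup.map_subtype_le _

theorem F_inj : Function.Injective (F e) := by
  intro K L h
  have h1 := Subgroup.map_injective T.subtype_injective h
  exact Subgroup.comap_injective e.surjective h1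

theorem F_k4 {K : Subgroup (DihedralGroup 4)} (hK : Nat.card K = 4) (h : ∀ x ∈ K, x * x = 1) :
    IsKleinFour (F e K) := by
  rw [k4_iff]
  constructor
  · unfold F
    rw [Subgroup.card_map_of_injective T.subtype_injective]
    exact (Nat.card_congr (e.toEquiv.subtypeEquiv (fun x => Iff.rfl))).trans hK
  · rintro _ ⟨x, hx, rfl⟩
    have h1 := h _ hx
    rw [← map_mul] at h1
    have h2 : x * x = 1 := e.injective (by rw [map_one]; exact h1)
    exact congrArg Subtype.val h2

theorem eq_F {U : Subgroup G} (hUT : U ≤ T) (hU : IsKleinFour U) : U = F e K1 ∨ U = F e K2 := by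
  obtain ⟨h1, h2⟩ := (k4_iff U).mp hU
  have hK : Nat.card ((U.subgroupOf T).map e.toMonoidHom) = 4 := by
    rw [Subgroup.card_map_of_injective e.injective, ← h1]
    exact Nat.card_congr (Subgroup.subgroupOfEquivOfLe hUT).toEquiv
  have hS : ∀ x ∈ (U.subgroupOf T).map e.toMonoidHom, x * x = 1 := by
    rintro _ ⟨x, hx, rfl⟩
    rw [← map_mul]
    have : x * x = 1 := Subtype.ext (h2 x.1 hx)
    rw [this, map_one]
  have hF : F e ((U.subgroupOf T).map e.toMonoidHom) = U := by
    unfold F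
    rw [Subgroup.comap_map_eq_self_of_injective e.injective, Subgroup.subgroupOf_map_subtype, inf_eq_left.mpr hUT]
  rcases eq_K hK hS with h | h
  · left; rw [← h, hF]
  · right; rw [← h, hF]

include e in
theorem card_two : Nat.card {U : Subgroup G // U ≤ T ∧ IsKleinFour ↥U} = 2 := by
  have h1 : {U : Subgroup G | U ≤ T ∧ IsKleinFour ↥U} = {F e K1, F e K2} := by
    ext U
    constructor
    · rintro ⟨h1, h2⟩
      exact eq_F e h1 h2
    · rintro (rfl | rfl)
      · exact ⟨F_le e _, F_k4 e card_K1 sq_K1⟩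
      · exact ⟨F_le e _, F_k4 e card_K2 sq_K2⟩
  change Nat.card ({U : Subgroup G | U ≤ T ∧ IsKleinFour ↥U} : Set (Subgroup G)) = 2
  rw [h1, Nat.card_coe_set_eq, Set.ncard_pair (fun h => K1_ne (F_inj e h))]

end F

section V

variable {G : Type*} [Group G] [Finite G] [IsSimpleGroup G]

theorem le_norm {T U : Subgroup G} (hT : Nat.card T = 8) (hUT : U ≤ T) (hU : IsKleinFour U) :
    T ≤ normalizer (U : Set G) := by
  rw [← Subgroup.normal_subgroupOf_iff_le_normalizer hUT]
  apply Subgroup.normal_of_index_eq_two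
  have h1 := Subgroup.card_mul_index (U.subgroupOf T)
  rw [hT, Nat.card_congr (Subgroup.subgroupOfEquivOfLe hUT).toEquiv, hU.card_four] at h1
  omega

theorem card_T (h : Nat.card G = 168) (T : Sylow 2 G) : Nat.card (T : Subgroup G) = 8 := by
  obtain ⟨e⟩ := H21.O168.sylow_dih h T
  rw [Nat.card_congr e.toEquiv, DihedralGroup.nat_card]

theorem not_conj (h : Nat.card G = 168) (T : Sylow 2 G) (U W : Subgroup G) (hU : U ≤ (T : Subgroup G))
    (hW : W ≤ (T : Subgroup G)) (kU : IsKleinFour ↥U) (kW : IsKleinFour ↥W) (hne : U ≠ W) (g : G) :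
    U.map (MulAut.conj g).toMonoidHom ≠ W := by
  intro he
  have hT8 := card_T h T
  have hg8 : Nat.card ((g • T : Sylow 2 G) : Subgroup G) = 8 := card_T h _
  have h1 := le_norm hT8 hW kW
  have h2 : W ≤ ((g • T : Sylow 2 G) : Subgroup G) := by
    rw [← he]
    rintro _ ⟨x, hx, rfl⟩
    exact Subgroup.smul_mem_pointwise_smul _ _ _ (hU hx)
  have h3 := le_norm hg8 h2 kW
  obtain ⟨n, hn⟩ := MulAction.exists_smul_eq (normalizer (W : Set G)) ((g • T).subtype h3) (T.subtype h1)
  rw [Sylow.smul_subtype] at hn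
  have h4 := Sylow.subtype_injective hn
  have h5 : ((n : G) * g) • T = T := by
    rw [mul_smul]
    exact h4
  rw [Sylow.smul_eq_iff_mem_normalizer] at h5
  have h5' : (n : G) * g ∈ (T : Subgroup G) := by
    rw [← H21.O168.normalizer_eq h T]
    exact h5
  have h6 : (n : G) * g ∈ normalizer (U : Set G) := le_norm hT8 hU kU h5'
  apply hne
  -- U = W
  have h7 : ∀ x ∈ U, x ∈ W := by
    intro x hx
    -- x = (n g) y (n g)⁻¹ for y ∈ U
    have h8 : ((n : G) * g)⁻¹ * x * (((n : G) * g)⁻¹)⁻¹ ∈ U := by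
      have := (Subgroup.mem_normalizer_iff.mp (inv_mem h6) x).mp hx
      exact this
    have h9 : g * (((n : G) * g)⁻¹ * x * (((n : G) * g)⁻¹)⁻¹) * g⁻¹ ∈ W :=
      he.le ⟨_, h8, rfl⟩
    have h10 : (n : G) * (g * (((n : G) * g)⁻¹ * x * (((n : G) * g)⁻¹)⁻¹) * g⁻¹) * (n : G)⁻¹ ∈ W :=
      (Subgroup.mem_normalizer_iff.mp n.2 _).mp h9
    have h11 : (n : G) * (g * (((n : G) * g)⁻¹ * x * (((n : G) * g)⁻¹)⁻¹) * g⁻¹) * (n : G)⁻¹ = x := by group
    rwa [h11] at h10
  exact Subgroup.eq_of_le_of_card_ge h7 (by rw [kU.card_four, kW.card_four])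

open Cfsg.Agent.H17.S4

omit [Finite G] [IsSimpleGroup G] in
theorem k4_V4 {u v : G} {hu2 : u * u = 1} {hv2 : v * v = 1} {hcomm : u * v = v * u} (hu : u ≠ 1) (hv : v ≠ 1)
    (huv : u ≠ v) : IsKleinFour (V4 u v hu2 hv2 hcomm) := by
  have h1 : u * v ≠ 1 := fun h => huv (by
    have := congrArg (u * ·) h
    simp only [← mul_assoc, hu2, one_mul, mul_one] at this
    exact this.symm)
  have h2 : u ≠ u * v := fun h => hv (left_eq_mul.mp h)
  have h3 : v ≠ u * v := fun h => hu (right_eq_mul.mp h)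
  rw [k4_iff]
  constructor
  · change Nat.card (({1, u, v, u * v} : Set G)) = 4
    rw [Nat.card_coe_set_eq, Set.ncard_insert_of_notMem, Set.ncard_insert_of_notMem, Set.ncard_pair h3]
    · simp [huv, h2]
    · simp [hu.symm, hv.symm, h1.symm]
  · intro x hx
    rcases mem_V4.mp hx with rfl | rfl | rfl | rfl
    · exact one_mul 1
    · exact hu2
    · exact hv2
    · rw [mul_assoc, ← mul_assoc v u v, ← hcomm, mul_assoc, hv2, mul_one, hu2]

theorem iso_S4 (h : Nat.card G = 168) {u v c r : G} (hu2 : u * u = 1) (hv2 : v * v = 1) (hcomm : u * v = v * u)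
    (hu : u ≠ 1) (hv : v ≠ 1) (huv : u ≠ v) (hc : c * c * c = 1) (hcu : c * u * c⁻¹ = v) (hcv : c * v * c⁻¹ = u * v)
    (hru : r * u * r⁻¹ = u) (hrv : r * v * r⁻¹ = u * v) :
    Nonempty (normalizer ((V4 u v hu2 hv2 hcomm : Subgroup G) : Set G) ≃* Equiv.Perm (Fin 4)) := by
  have k4 : IsKleinFour (V4 u v hu2 hv2 hcomm) := k4_V4 hu hv huv
  have ou : orderOf u = 2 := by
    rw [orderOf_eq_iff (by norm_num)]
    refine ⟨by rw [pow_two, hu2], fun m hm hm0 => ?_⟩
    have : m = 1 := by omega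
    rw [this, pow_one]
    exact hu
  have hC8 := H21.O168.card_cent2 h ou
  have hle : V4 u v hu2 hv2 hcomm ≤ centralizer ({u} : Set G) := by
    intro x hx
    rw [Subgroup.mem_centralizer_singleton_iff]
    rcases mem_V4.mp hx with rfl | rfl | rfl | rfl
    · simp
    · rfl
    · exact hcomm.symm
    · rw [mul_assoc, ← hcomm]
  have h1 := le_norm hC8 hle k4
  set N := normalizer ((V4 u v hu2 hv2 hcomm : Subgroup G) : Set G) with hN
  have mu : u ∈ V4 u v hu2 hv2 hcomm := mem_V4.mpr (Or.inr (Or.inl rfl))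
  have mv : v ∈ V4 u v hu2 hv2 hcomm := mem_V4.mpr (Or.inr (Or.inr (Or.inl rfl)))
  have muv : u * v ∈ V4 u v hu2 hv2 hcomm := Subgroup.mul_mem _ mu mv
  have hcN : c ∈ N := by
    refine Subgroup.mem_normalizer_fintype ?_
    intro x hx
    rcases mem_V4.mp hx with rfl | rfl | rfl | rfl
    · rw [mul_one, mul_inv_cancel]; exact Subgroup.one_mem _
    · rw [hcu]; exact mv
    · rw [hcv]; exact muv
    · have : c * (u * v) * c⁻¹ = u := by
        calc c * (u * v) * c⁻¹ = (c * u * c⁻¹) * (c * v * c⁻¹) := by group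
          _ = v * (u * v) := by rw [hcu, hcv]
          _ = u := by rw [hcomm, ← mul_assoc, hv2, one_mul]
      rw [this]; exact mu
  have hrN : r ∈ N := by
    refine Subgroup.mem_normalizer_fintype ?_
    intro x hx
    rcases mem_V4.mp hx with rfl | rfl | rfl | rfl
    · rw [mul_one, mul_inv_cancel]; exact Subgroup.one_mem _
    · rw [hru]; exact mu
    · rw [hrv]; exact muv
    · have : r * (u * v) * r⁻¹ = v := by
        calc r * (u * v) * r⁻¹ = (r * u * r⁻¹) * (r * v * r⁻¹) := by group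
          _ = u * (u * v) := by rw [hru, hrv]
          _ = v := by rw [← mul_assoc, hu2, one_mul]
      rw [this]; exact mv
  have huN : u ∈ N := Subgroup.le_normalizer mu
  have hvN : v ∈ N := Subgroup.le_normalizer mv
  have hcard : Nat.card N = 24 := by
    have h8 : 8 ∣ Nat.card N := by
      rw [← hC8]
      exact Subgroup.card_dvd_of_le h1
    have h3 : 3 ∣ Nat.card N := by
      have hc1 : c ≠ 1 := by
        rintro rfl
        apply huv
        rw [← hcu]
        simp
      haveI : Fact (Nat.Prime 3) := ⟨Nat.prime_three⟩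
      have oc : orderOf (⟨c, hcN⟩ : N) = 3 := by
        rw [← Subgroup.orderOf_coe]
        refine orderOf_eq_prime ?_ hc1
        rw [pow_succ, pow_two]
        exact hc
      rw [← oc]
      exact orderOf_dvd_natCard _
    have h24 : 24 ∣ Nat.card N := (by norm_num : Nat.Coprime 8 3).mul_dvd_of_dvd_of_dvd h8 h3
    have h168 : Nat.card N ∣ 24 * 7 := by
      have := Subgroup.card_subgroup_dvd_card N
      rwa [h] at this
    obtain ⟨k, hk⟩ := h24
    rw [hk] at h168
    have hk7 := Nat.dvd_of_mul_dvd_mul_left (by norm_num) h168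
    rcases (Nat.dvd_prime (by norm_num : Nat.Prime 7)).mp hk7 with rfl | rfl
    · exact hk
    · exfalso
      have htop : N = ⊤ := Subgroup.eq_top_of_card_eq N (by rw [hk, h])
      have hnorm : (V4 u v hu2 hv2 hcomm).Normal := Subgroup.normalizer_eq_top_iff.mp htop
      rcases hnorm.eq_bot_or_eq_top with h5 | h5
      · have := k4.card_four
        rw [h5, Subgroup.card_bot] at this
        omega
      · have := k4.card_four
        rw [h5, Subgroup.card_top, h] at this
        omega
  have huv1 : v ≠ u * v := fun h => hu (right_eq_mul.mp h)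
  have huv2 : u * v ≠ 1 := fun h => huv (by
    have := congrArg (u * ·) h
    simp only [← mul_assoc, hu2, one_mul, mul_one] at this
    exact this.symm)
  refine H5.Rec.s4_rec (a := (⟨v, hvN⟩ : N)) (b := ⟨u * v, N.mul_mem huN hvN⟩) (c := ⟨c, hcN⟩) (r := ⟨r, hrN⟩) hcard
    ⟨Subtype.ext hv2, Subtype.ext ?_, Subtype.ext ?_, fun h => hv (congrArg Subtype.val h),
      fun h => huv2 (congrArg Subtype.val h), fun h => huv1 (congrArg Subtype.val h)⟩
    (Subtype.ext hcv) (Subtype.ext ?_) (Subtype.ext hc) (Subtype.ext hrv) (Subtype.ext ?_)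
  · change u * v * (u * v) = 1
    rw [mul_assoc, ← mul_assoc v u v, ← hcomm, mul_assoc, hv2, mul_one, hu2]
  · change v * (u * v) = u * v * v
    rw [← mul_assoc, hcomm]
  · change c * (u * v) * c⁻¹ = v * (u * v)
    calc c * (u * v) * c⁻¹ = (c * u * c⁻¹) * (c * v * c⁻¹) := by group
      _ = v * (u * v) := by rw [hcu, hcv]
  · change r * (u * v) * r⁻¹ = v
    calc r * (u * v) * r⁻¹ = (r * u * r⁻¹) * (r * v * r⁻¹) := by group
      _ = u * (u * v) := by rw [hru, hrv]
      _ = v := by rw [← mul_assoc, hu2, one_mul]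

theorem norm_conj (U : Subgroup G) (g : G) :
    normalizer ((U.map (MulAut.conj g).toMonoidHom : Subgroup G) : Set G) =
      (normalizer (U : Set G)).map (MulAut.conj g).toMonoidHom :=
  (Subgroup.map_equiv_normalizer_eq U (MulAut.conj g)).symm

theorem iso_conj {U : Subgroup G} {g : G}
    (h : Nonempty (normalizer ((U.map (MulAut.conj g).toMonoidHom : Subgroup G) : Set G) ≃* Equiv.Perm (Fin 4))) :
    Nonempty (normalizer (U : Set G) ≃* Equiv.Perm (Fin 4)) := by
  rw [norm_conj] at h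
  obtain ⟨e⟩ := h
  exact ⟨((normalizer (U : Set G)).equivMapOfInjective _ (MulAut.conj g).injective).trans e⟩

theorem all_S4 (h : Nat.card G = 168) (U : Subgroup G) (hU : IsKleinFour U) :
    Nonempty (normalizer (U : Set G) ≃* Equiv.Perm (Fin 4)) := by
  obtain ⟨a, b, c, d, ha, hb, hba, hbn, hc, hca, hcb, hd, hda, hdb⟩ := H21.O168.gens2 (G := G) h
  have ha4 : a * a * (a * a) = 1 := by
    have := pow_orderOf_eq_one a
    rw [ha] at this
    rw [← this]
    simp only [pow_succ, pow_zero, one_mul, mul_assoc]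
  have ha2 : a * a ≠ 1 := by
    intro h
    have : orderOf a ∣ 2 := orderOf_dvd_of_pow_eq_one (by rw [pow_two, h])
    rw [ha] at this
    omega
  have hcomm : (a * a) * b = b * (a * a) := by
    have h1 : b * (a * a) * b⁻¹ = (a * a)⁻¹ := by
      calc b * (a * a) * b⁻¹ = (b * a * b⁻¹) * (b * a * b⁻¹) := by group
        _ = (a * a)⁻¹ := by rw [hba]; group
    have h2 : (a * a)⁻¹ = a * a := inv_eq_of_mul_eq_one_left ha4
    rw [h2] at h1
    calc (a * a) * b = b * (a * a) * b⁻¹ * b := by rw [h1]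
      _ = b * (a * a) := by group
  have hab : a * b * a⁻¹ = (a * a) * b := by
    have h1 : b * a⁻¹ = a * b := by
      have h2 : b * a = a⁻¹ * b := by rw [← hba]; group
      calc b * a⁻¹ = a * (a⁻¹ * b) * a⁻¹ := by group
        _ = a * (b * a) * a⁻¹ := by rw [h2]
        _ = a * b := by group
    rw [mul_assoc, h1, mul_assoc]
  have hb1 : b ≠ 1 := by
    rintro rfl
    exact hbn (Subgroup.one_mem _)
  have hbz : ∀ k : ℕ, b ≠ a ^ k := fun k hk => hbn (hk ▸ Subgroup.npow_mem_zpowers a k)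
  have h1 : a * a ≠ b := fun h => hbz 2 (by rw [pow_two, h])
  -- second pair
  have hv2 : (a * b) * (a * b) = 1 := by
    have h2 : a * b = (a * a) * b * a := by rw [← hab]; group
    calc (a * b) * (a * b) = (a * b * a⁻¹) * (a * a) * b := by group
      _ = 1 := by rw [hab, mul_assoc (a * a) b (a * a), ← hcomm, ← mul_assoc, ha4, one_mul, hb]
  have hcomm2 : (a * a) * (a * b) = (a * b) * (a * a) := by
    rw [mul_assoc a b, ← hcomm]
    simp only [mul_assoc]
  have hv1 : a * b ≠ 1 := by
    intro h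
    apply hbn
    have : b = a⁻¹ := eq_inv_of_mul_eq_one_right h
    rw [this]
    exact Subgroup.inv_mem _ (Subgroup.mem_zpowers a)
  have h2 : a * a ≠ a * b := by
    intro h
    have : a = b := mul_left_cancel h
    exact hbn (this ▸ Subgroup.mem_zpowers a)
  have hru : a * (a * a) * a⁻¹ = a * a := by group
  have hrv : a * (a * b) * a⁻¹ = (a * a) * (a * b) := by
    calc a * (a * b) * a⁻¹ = a * (a * b * a⁻¹) := by group
      _ = a * ((a * a) * b) := by rw [hab]
      _ = (a * a) * (a * b) := by simp only [mul_assoc]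
  have S1 := iso_S4 h ha4 hb hcomm ha2 hb1 h1 hc hca hcb hru hab
  have S2 := iso_S4 h ha4 hv2 hcomm2 ha2 hv1 h2 hd hda hdb hru hrv
  have k1 : IsKleinFour (V4 (a * a) b ha4 hb hcomm) := k4_V4 ha2 hb1 h1
  have k2 : IsKleinFour (V4 (a * a) (a * b) ha4 hv2 hcomm2) := k4_V4 ha2 hv1 h2
  have hne : V4 (a * a) b ha4 hb hcomm ≠ V4 (a * a) (a * b) ha4 hv2 hcomm2 := by
    intro he
    have h3 : b ∈ V4 (a * a) (a * b) ha4 hv2 hcomm2 := by
      rw [← he]
      exact mem_V4.mpr (Or.inr (Or.inr (Or.inl rfl)))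
    rcases mem_V4.mp h3 with h4 | h4 | h4 | h4
    · exact hb1 h4
    · exact h1 h4.symm
    · have : a = 1 := right_eq_mul.mp h4
      rw [this] at ha2
      exact ha2 (one_mul 1)
    · have h5 : (a * a * a) * b = b := by
        rw [mul_assoc (a * a) a b]
        exact h4.symm
      have h6 : a * a * a = 1 := mul_eq_right.mp h5
      have h7 : orderOf a ∣ 3 := orderOf_dvd_of_pow_eq_one (by rw [pow_succ, pow_two]; exact h6)
      rw [ha] at h7
      omega
  have ou : orderOf (a * a) = 2 := by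
    rw [orderOf_eq_iff (by norm_num)]
    refine ⟨by rw [pow_two, ha4], fun m hm hm0 => ?_⟩
    have : m = 1 := by omega
    rw [this, pow_one]
    exact ha2
  have hC8 := H21.O168.card_cent2 h ou
  have hCp : IsPGroup 2 (centralizer ({a * a} : Set G)) := IsPGroup.of_card (n := 3) (by rw [hC8]; norm_num)
  obtain ⟨T0, hT0⟩ := hCp.exists_le_sylow
  have hle : ∀ {v : G} (hv : v * v = 1) (hc : (a * a) * v = v * (a * a)),
      V4 (a * a) v ha4 hv hc ≤ (T0 : Subgroup G) := by
    intro v hv hc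
    refine le_trans ?_ hT0
    intro x hx
    rw [Subgroup.mem_centralizer_singleton_iff]
    rcases mem_V4.mp hx with rfl | rfl | rfl | rfl
    · rw [one_mul, mul_one]
    · rfl
    · exact hc.symm
    · rw [mul_assoc (a * a) v, ← hc]
  have hUp : IsPGroup 2 U := IsPGroup.of_card (n := 2) (by rw [hU.card_four]; norm_num)
  obtain ⟨Q, hQ⟩ := hUp.exists_le_sylow
  obtain ⟨g, hg⟩ := MulAction.exists_smul_eq G Q T0
  have hUg : U.map (MulAut.conj g).toMonoidHom ≤ (T0 : Subgroup G) := by
    rw [← hg]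
    rintro _ ⟨x, hx, rfl⟩
    exact Subgroup.smul_mem_pointwise_smul _ _ _ (hQ hx)
  have kUg : IsKleinFour (U.map (MulAut.conj g).toMonoidHom : Subgroup G) := by
    obtain ⟨h3, h4⟩ := (k4_iff U).mp hU
    rw [k4_iff]
    refine ⟨by rw [Subgroup.card_map_of_injective (MulAut.conj g).injective, h3], ?_⟩
    rintro _ ⟨x, hx, rfl⟩
    rw [← map_mul, h4 x hx, map_one]
  obtain ⟨e⟩ := H21.O168.sylow_dih h T0
  have hfin : U.map (MulAut.conj g).toMonoidHom = V4 (a * a) b ha4 hb hcomm ∨
      U.map (MulAut.conj g).toMonoidHom = V4 (a * a) (a * b) ha4 hv2 hcomm2 := by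
    rcases eq_F e hUg kUg with h3 | h3 <;> rcases eq_F e (hle hb hcomm) k1 with h4 | h4 <;>
      rcases eq_F e (hle hv2 hcomm2) k2 with h5 | h5
    · exact absurd (h4.trans h5.symm) hne
    · exact Or.inl (h3.trans h4.symm)
    · exact Or.inr (h3.trans h5.symm)
    · exact absurd (h4.trans h5.symm) hne
    · exact absurd (h4.trans h5.symm) hne
    · exact Or.inr (h3.trans h5.symm)
    · exact Or.inl (h3.trans h4.symm)
    · exact absurd (h4.trans h5.symm) hne
  apply iso_conj (g := g)
  rcases hfin with h3 | h3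
  · rw [h3]; exact S1
  · rw [h3]; exact S2

end V

end Cfsg.Agent.H27.O168
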