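import Mathlib
import Cfsg.Prelude
import Cfsg.Agent.H27_O168
import Cfsg.Agent.H3_Burnside
import Cfsg.Agent.H1_Hall

set_option autoImplicit false

/-! Maximal subgroups of the simple group of order 168. -/

namespace Cfsg.Agent.H27.O168

open Subgroup

variable {G : Type*} [Group G] [Finite G] [IsSimpleGroup G]

theorem index_ge (h : Nat.card G = 168) {M : Subgroup G} (hM : M ≠ ⊤) : 7 ≤ M.index := by
  have h1 : M.normalCore = ⊥ := by
    rcases (inferInstance : M.normalCore.Normal).eq_bot_or_eq_top with h1 | h1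
    · exact h1
    · exact absurd (top_le_iff.mp (h1 ▸ M.normalCore_le)) hM
  have hinj : Function.Injective (MulAction.toPermHom G (G ⧸ M)) := by
    rw [← MonoidHom.ker_eq_bot_iff, ← Subgroup.normalCore_eq_ker]
    exact h1
  have h2 := Subgroup.card_dvd_of_injective _ hinj
  rw [Nat.card_perm, h] at h2
  have h3 : 7 ∣ (Nat.card (G ⧸ M)).factorial := (by norm_num : 7 ∣ 168).trans h2
  exact (Nat.Prime.dvd_factorial (by norm_num)).mp h3

theorem card_le (h : Nat.card G = 168) {M : Subgroup G} (hM : M ≠ ⊤) : Nat.card M ≤ 24 := by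
  have h1 := index_ge h hM
  have h2 := Subgroup.card_mul_index M
  rw [h] at h2
  by_contra hc
  push Not at hc
  have : 25 * 7 ≤ Nat.card M * M.index := Nat.mul_le_mul hc h1
  omega

theorem solv (h : Nat.card G = 168) {M : Subgroup G} (hM : M ≠ ⊤) : Group.IsSolvable M := by
  have h1 := card_le h hM
  have h2 := Subgroup.card_subgroup_dvd_card M
  rw [h] at h2
  have h0 : 0 < Nat.card M := Nat.card_pos
  generalize hn : Nat.card M = n at h1 h2 h0
  have p2 := Nat.prime_two
  have p3 := Nat.prime_three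
  have p7 : Nat.Prime 7 := by norm_num
  have key : (∃ a b, n = 2 ^ a * 3 ^ b) ∨ ∃ a b, n = 2 ^ a * 7 ^ b ∨ n = 3 ^ a * 7 ^ b := by
    interval_cases n
    · exact Or.inl ⟨0, 0, rfl⟩
    · exact Or.inl ⟨1, 0, rfl⟩
    · exact Or.inl ⟨0, 1, rfl⟩
    · exact Or.inl ⟨2, 0, rfl⟩
    · omega
    · exact Or.inl ⟨1, 1, rfl⟩
    · exact Or.inr ⟨0, 1, Or.inl rfl⟩
    · exact Or.inl ⟨3, 0, rfl⟩
    · omega
    · omega
    · omega
    · exact Or.inl ⟨2, 1, rfl⟩
    · omega
    · exact Or.inr ⟨1, 1, Or.inl rfl⟩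
    · omega
    · omega
    · omega
    · omega
    · omega
    · omega
    · exact Or.inr ⟨1, 1, Or.inr rfl⟩
    · omega
    · omega
    · exact Or.inl ⟨3, 1, rfl⟩
  rcases key with ⟨a, b, h3⟩ | ⟨a, b, h3 | h3⟩
  · exact H3.Burnside.burnside _ M 2 3 a b p2 p3 hn h3
  · exact H3.Burnside.burnside _ M 2 7 a b p2 p7 hn h3
  · exact H3.Burnside.burnside _ M 3 7 a b p3 p7 hn h3

theorem card_N (h : Nat.card G = 168) {U : Subgroup G} (hU : IsKleinFour U) :
    Nat.card (normalizer (U : Set G)) = 24 := by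
  obtain ⟨e⟩ := all_S4 h U hU
  rw [Nat.card_congr e.toEquiv, Nat.card_perm, Nat.card_eq_fintype_card, Fintype.card_fin]
  rfl

theorem ne_top_of_card (h : Nat.card G = 168) {M : Subgroup G} {n : ℕ} (hM : Nat.card M = n) (hn : n ≠ 168) :
    M ≠ ⊤ := by
  rintro rfl
  rw [Subgroup.card_top, h] at hM
  exact hn hM.symm

/-- a subgroup of order 24 is maximal -/
theorem coatom24 (h : Nat.card G = 168) {M : Subgroup G} (hM : Nat.card M = 24) : IsCoatom M := by
  refine ⟨ne_top_of_card h hM (by norm_num), fun X hX => ?_⟩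
  by_contra hne
  have h1 := card_le h hne
  exact hX.ne (Subgroup.eq_of_le_of_card_ge hX.le (by rw [hM]; exact h1))

theorem exists_k4 (h : Nat.card G = 168) (T : Sylow 2 G) : ∃ U ≤ (T : Subgroup G), IsKleinFour U := by
  obtain ⟨e⟩ := H21.O168.sylow_dih h T
  exact ⟨F e K1, F_le e _, F_k4 e card_K1 sq_K1⟩

theorem two_le (h : Nat.card G = 168) {M : Subgroup G} (hM : IsPGroup 2 M) :
    ∃ U : Subgroup G, IsKleinFour U ∧ M ≤ normalizer (U : Set G) := by
  obtain ⟨T, hT⟩ := hM.exists_le_sylow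
  obtain ⟨U, hUT, hU⟩ := exists_k4 h T
  exact ⟨U, hU, hT.trans (le_norm (card_T h T) hUT hU)⟩

omit [Finite G] [IsSimpleGroup G] in
theorem k4_map {U : Subgroup G} (hU : IsKleinFour U) (g : G) :
    IsKleinFour (U.map (MulAut.conj g).toMonoidHom : Subgroup G) := by
  obtain ⟨h3, h4⟩ := (k4_iff U).mp hU
  rw [k4_iff]
  refine ⟨by rw [Subgroup.card_map_of_injective (MulAut.conj g).injective, h3], ?_⟩
  rintro _ ⟨x, hx, rfl⟩
  rw [← map_mul, h4 x hx, map_one]

theorem three_le (h : Nat.card G = 168) {A : Subgroup G} (hA : Nat.card A = 3) :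
    ∃ U : Subgroup G, IsKleinFour U ∧ normalizer (A : Set G) ≤ normalizer (U : Set G) := by
  haveI : Fact (Nat.Prime 3) := ⟨Nat.prime_three⟩
  obtain ⟨T⟩ : Nonempty (Sylow 2 G) := inferInstance
  obtain ⟨U, -, hU⟩ := exists_k4 h T
  obtain ⟨e⟩ := all_S4 h U hU
  let y0 : Equiv.Perm (Fin 4) := Equiv.swap 0 1 * Equiv.swap 1 2
  let t0 : Equiv.Perm (Fin 4) := Equiv.swap 0 1
  have hy0 : y0 ^ 3 = 1 ∧ y0 ≠ 1 ∧ t0 ^ 2 = 1 ∧ t0 ≠ 1 ∧ t0 * y0 * t0⁻¹ = y0⁻¹ := by decide +kernel
  obtain ⟨q1, q2, q3, q4, q5⟩ := hy0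
  set y := e.symm y0 with hy
  set t := e.symm t0 with ht
  have r1 : y ^ 3 = 1 := by rw [hy, ← map_pow, q1, map_one]
  have r2 : y ≠ 1 := by
    intro hh
    apply q2
    rw [← e.apply_symm_apply y0, ← hy, hh, map_one]
  have r3 : t ^ 2 = 1 := by rw [ht, ← map_pow, q3, map_one]
  have r4 : t ≠ 1 := by
    intro hh
    apply q4
    rw [← e.apply_symm_apply t0, ← ht, hh, map_one]
  have r5 : t * y * t⁻¹ = y⁻¹ := by rw [hy, ht, ← map_mul, ← map_inv, ← map_mul, q5, map_inv]
  have oy : orderOf (y : G) = 3 := by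
    refine orderOf_eq_prime ?_ (fun hh => r2 (Subtype.ext hh))
    exact congrArg Subtype.val r1
  have ot : orderOf (t : G) = 2 := by
    refine orderOf_eq_prime ?_ (fun hh => r4 (Subtype.ext hh))
    exact congrArg Subtype.val r3
  have r5' : (t : G) * (y : G) * (t : G)⁻¹ = (y : G)⁻¹ := congrArg Subtype.val r5
  have hY3 : Nat.card (zpowers (y : G)) = 3 := by rw [Nat.card_zpowers, oy]
  -- the normalizer of ⟨y⟩
  have htN : (t : G) ∈ normalizer ((zpowers (y : G) : Subgroup G) : Set G) := by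
    refine Subgroup.mem_normalizer_fintype ?_
    rintro x ⟨k, rfl⟩
    change (t : G) * (y : G) ^ k * (t : G)⁻¹ ∈ zpowers (y : G)
    have : (t : G) * (y : G) ^ k * (t : G)⁻¹ = ((t : G) * (y : G) * (t : G)⁻¹) ^ k := by rw [conj_zpow]
    rw [this, r5']
    exact Subgroup.zpow_mem _ (Subgroup.inv_mem _ (Subgroup.mem_zpowers _)) k
  have syl : ∀ {B : Subgroup G}, Nat.card B = 3 → ∃ Q : Sylow 3 G, (Q : Subgroup G) = B := by
    intro B hB
    have hBp : IsPGroup 3 B := IsPGroup.of_card (n := 1) (by rw [hB]; norm_num)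
    obtain ⟨Q, hQ⟩ := hBp.exists_le_sylow
    exact ⟨Q, (Subgroup.eq_of_le_of_card_ge hQ (by rw [hB, H21.O168.card_P3 h Q])).symm⟩
  obtain ⟨Q0, hQ0⟩ := syl hY3
  obtain ⟨Q, hQ⟩ := syl hA
  have h6 : Nat.card (normalizer ((zpowers (y : G) : Subgroup G) : Set G)) = 6 := by
    rw [← hQ0]
    exact H21.O168.card_N3 h Q0
  have hle : normalizer ((zpowers (y : G) : Subgroup G) : Set G) ≤ normalizer (U : Set G) := by
    have h1 : 6 ∣ Nat.card (normalizer ((zpowers (y : G) : Subgroup G) : Set G) ⊓ normalizer (U : Set G) :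
        Subgroup G) := by
      have d3 : 3 ∣ Nat.card (normalizer ((zpowers (y : G) : Subgroup G) : Set G) ⊓ normalizer (U : Set G) :
          Subgroup G) := by
        rw [← hY3]
        refine Subgroup.card_dvd_of_le (le_inf Subgroup.le_normalizer ?_)
        rw [Subgroup.zpowers_le]
        exact y.2
      have d2 : 2 ∣ Nat.card (normalizer ((zpowers (y : G) : Subgroup G) : Set G) ⊓ normalizer (U : Set G) :
          Subgroup G) := by
        rw [← ot, ← Nat.card_zpowers]
        refine Subgroup.card_dvd_of_le ?_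
        rw [Subgroup.zpowers_le]
        exact ⟨htN, t.2⟩
      exact (by norm_num : Nat.Coprime 2 3).mul_dvd_of_dvd_of_dvd d2 d3
    have h2 := Nat.le_of_dvd Nat.card_pos h1
    have h3 := Subgroup.eq_of_le_of_card_ge (inf_le_left : normalizer ((zpowers (y : G) : Subgroup G) : Set G) ⊓
      normalizer (U : Set G) ≤ _) (by rw [h6]; exact h2)
    rw [← h3]
    exact inf_le_right
  obtain ⟨g, hg⟩ := MulAction.exists_smul_eq G Q0 Q
  have hAg : A = (zpowers (y : G)).map (MulAut.conj g).toMonoidHom := by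
    rw [← hQ, ← hg, ← hQ0]
    rfl
  refine ⟨U.map (MulAut.conj g).toMonoidHom, k4_map hU g, ?_⟩
  rw [hAg, norm_conj, norm_conj]
  exact Subgroup.map_mono hle

theorem norm_coatom (h : Nat.card G = 168) {M : Subgroup G} (hM : IsCoatom M) :
    (∃ U : Subgroup G, IsKleinFour U ∧ M = normalizer (U : Set G)) ∨
      ∃ P : Sylow 7 G, M = normalizer ((P : Subgroup G) : Set G) := by
  have hfin : ∀ {U : Subgroup G}, IsKleinFour U → M ≤ normalizer (U : Set G) → M = normalizer (U : Set G) := by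
    intro U hU hle
    rcases hM.le_iff.mp hle with h1 | h1
    · exact absurd h1 (ne_top_of_card h (card_N h hU) (by norm_num))
    · exact h1.symm
  by_cases hb : M = ⊥
  · left
    obtain ⟨U, hU, hle⟩ := two_le h (M := ⊥) (IsPGroup.of_bot)
    exact ⟨U, hU, hfin hU (hb ▸ hle)⟩
  haveI := solv h hM.1
  haveI : Nontrivial M := (Subgroup.nontrivial_iff_ne_bot M).mpr hb
  obtain ⟨N, hNn, hNb, hmin⟩ := H1.Hall.exists_minimal_normal_of_nontrivial M
  haveI := hNn
  obtain ⟨hc, q, hq, hx⟩ := H1.Hall.minimal_normal_elementary N hNb hmin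
  haveI : Fact q.Prime := ⟨hq⟩
  let A := N.map M.subtype
  have hAM : M ≤ normalizer (A : Set G) := by
    have : (A.subgroupOf M).Normal := by
      have : A.subgroupOf M = N := Subgroup.comap_map_eq_self_of_injective M.subtype_injective N
      rw [this]
      exact hNn
    exact (Subgroup.normal_subgroupOf_iff_le_normalizer (Subgroup.map_subtype_le N)).mp this
  have hAx : ∀ x ∈ A, x ^ q = 1 := by
    rintro _ ⟨x, hx', rfl⟩
    exact congrArg Subtype.val (hx x hx')
  have hAb : A ≠ ⊥ := by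
    intro h1
    exact hNb ((Subgroup.map_eq_bot_iff_of_injective _ M.subtype_injective).mp h1)
  have hAq : IsPGroup q A := fun x => ⟨1, by
    rw [pow_one]
    exact Subtype.ext (hAx x x.2)⟩
  obtain ⟨Q, hQ⟩ := hAq.exists_le_sylow
  have hq168 : q ∣ 168 := by
    obtain ⟨k, hk⟩ := IsPGroup.iff_card.mp hAq
    have hk0 : k ≠ 0 := by
      rintro rfl
      rw [pow_zero] at hk
      exact hAb (Subgroup.card_eq_one.mp hk)
    rw [← h]
    exact ((dvd_pow_self q hk0).trans hk.symm.dvd).trans (Subgroup.card_subgroup_dvd_card A)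
  have hq3 : q = 2 ∨ q = 3 ∨ q = 7 := by
    have h1 : q ∈ Nat.primeFactors 168 := Nat.mem_primeFactors.mpr ⟨hq, hq168, by norm_num⟩
    have h2 : Nat.primeFactors 168 = {2, 3, 7} := by decide +kernel
    rw [h2] at h1
    simpa using h1
  rcases hq3 with rfl | rfl | rfl
  · left
    -- orders 2, 4
    have hc8 := card_T h Q
    have hdv : Nat.card A ∣ 2 ^ 3 := by
      have := Subgroup.card_dvd_of_le hQ
      rw [hc8] at this
      exact this
    obtain ⟨k, hk3, hk⟩ := (Nat.dvd_prime_pow Nat.prime_two).mp hdv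
    interval_cases k
    · exact absurd (Subgroup.card_eq_one.mp hk) hAb
    · -- order two
      obtain ⟨z, hz⟩ : ∃ z, z ∈ A ∧ z ≠ 1 := by
        by_contra hcon
        push Not at hcon
        exact hAb ((Subgroup.eq_bot_iff_forall A).mpr hcon)
      have hMz : M ≤ centralizer ({z} : Set G) := by
        intro m hm
        rw [Subgroup.mem_centralizer_singleton_iff]
        have h1 : m * z * m⁻¹ ∈ A := (Subgroup.mem_normalizer_iff.mp (hAM hm) z).mp hz.1
        have h2 : m * z * m⁻¹ ≠ 1 := by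
          intro h2
          apply hz.2
          rw [mul_inv_eq_one] at h2
          exact mul_eq_left.mp h2
        have h3 : m * z * m⁻¹ = z := by
          have hcard : Nat.card A = 2 := by rw [hk]; norm_num
          obtain ⟨x, y, hxy, huniv⟩ := Nat.card_eq_two_iff.mp hcard
          have hall : ∀ w : A, w = x ∨ w = y := by
            intro w
            have : w ∈ (Set.univ : Set A) := trivial
            rw [← huniv] at this
            exact this
          rcases hall 1 with e1 | e1 <;> rcases hall ⟨z, hz.1⟩ with e2 | e2 <;> rcases hall ⟨_, h1⟩ with e3 | e3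
          · exact absurd (congrArg Subtype.val (e2.trans e1.symm)) hz.2
          · exact absurd (congrArg Subtype.val (e2.trans e1.symm)) hz.2
          · exact absurd (congrArg Subtype.val (e3.trans e1.symm)) h2
          · exact congrArg Subtype.val (e3.trans e2.symm)
          · exact congrArg Subtype.val (e3.trans e2.symm)
          · exact absurd (congrArg Subtype.val (e3.trans e1.symm)) h2
          · exact absurd (congrArg Subtype.val (e2.trans e1.symm)) hz.2
          · exact absurd (congrArg Subtype.val (e2.trans e1.symm)) hz.2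
        calc m * z = m * z * m⁻¹ * m := by group
          _ = z * m := by rw [h3]
      have oz : orderOf z = 2 := orderOf_eq_prime (hAx z hz.1) hz.2
      have hC8 := H21.O168.card_cent2 h oz
      have hCp : IsPGroup 2 (centralizer ({z} : Set G)) := IsPGroup.of_card (n := 3) (by rw [hC8]; norm_num)
      obtain ⟨U, hU, hle⟩ := two_le h (hCp.to_le hMz)
      exact ⟨U, hU, hfin hU hle⟩
    · have kA : IsKleinFour A := by
        rw [k4_iff]
        exact ⟨by rw [hk]; norm_num, fun x hx => by rw [← pow_two]; exact hAx x hx⟩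
      exact ⟨A, kA, hfin kA hAM⟩
    · exfalso
      have hAQ : A = (Q : Subgroup G) := Subgroup.eq_of_le_of_card_ge hQ (by rw [hk, hc8]; norm_num)
      obtain ⟨e⟩ := H21.O168.sylow_dih h Q
      have h1 := hAx (e.symm (DihedralGroup.r 1) : (Q : Subgroup G)) (by rw [hAQ]; exact (e.symm _).2)
      have h2 : (e.symm (DihedralGroup.r 1)) ^ 2 = 1 := Subtype.ext h1
      have h3 := congrArg e h2
      rw [map_pow, map_one, MulEquiv.apply_symm_apply] at h3
      revert h3
      decide
  · left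
    have hc3 := H21.O168.card_P3 h Q
    have hA3 : Nat.card A = 3 := by
      have h1 := Subgroup.card_dvd_of_le hQ
      rw [hc3] at h1
      rcases (Nat.dvd_prime Nat.prime_three).mp h1 with h2 | h2
      · exact absurd (Subgroup.card_eq_one.mp h2) hAb
      · exact h2
    obtain ⟨U, hU, hle⟩ := three_le h hA3
    exact ⟨U, hU, hfin hU (hAM.trans hle)⟩
  · right
    have hc7 := H21.O168.card_P7 h Q
    have hAQ : A = (Q : Subgroup G) := by
      have h1 := Subgroup.card_dvd_of_le hQ
      rw [hc7] at h1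
      rcases (Nat.dvd_prime (by norm_num : Nat.Prime 7)).mp h1 with h2 | h2
      · exact absurd (Subgroup.card_eq_one.mp h2) hAb
      · exact Subgroup.eq_of_le_of_card_ge hQ (by rw [h2, hc7])
    refine ⟨Q, ?_⟩
    rw [hAQ] at hAM
    rcases hM.le_iff.mp hAM with h1 | h1
    · exfalso
      have h2 := H21.O168.card_N7 h Q
      rw [h1, Subgroup.card_top, h] at h2
      omega
    · exact h1.symm

theorem part1 (h : Nat.card G = 168) {M : Subgroup G} (hM : IsCoatom M) :
    Nonempty (↥M ≃* Equiv.Perm (Fin 4)) ∨ (Nat.card ↥M = 21 ∧ ¬ IsMulCommutative ↥M) := by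
  rcases norm_coatom h hM with ⟨U, hU, rfl⟩ | ⟨P, rfl⟩
  · exact Or.inl (all_S4 h U hU)
  · right
    have hN := H21.O168.card_N7 h P
    refine ⟨hN, fun hc => ?_⟩
    have hP := H21.O168.card_P7 h P
    haveI : Fact (Nat.Prime 7) := ⟨by norm_num⟩
    obtain ⟨x, hx⟩ := exists_prime_orderOf_dvd_card' (G := (P : Subgroup G)) 7 (by rw [hP])
    have hx' : orderOf (x : G) = 7 := by rw [Subgroup.orderOf_coe]; exact hx
    have h1 := H21.O168.card_cent7 h hx'
    have h2 : normalizer ((P : Subgroup G) : Set G) ≤ centralizer ({(x : G)} : Set G) := by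
      intro m hm
      rw [Subgroup.mem_centralizer_singleton_iff]
      have h3 := hc.is_comm.comm ⟨m, hm⟩ ⟨(x : G), Subgroup.le_normalizer x.2⟩
      exact congrArg Subtype.val h3
    have h3 := Subgroup.card_le_of_le h2
    rw [hN, h1] at h3
    omega

theorem part2 (h : Nat.card G = 168) {M M' : Subgroup G} (hM : IsCoatom M) (hM' : IsCoatom M')
    (c : Nat.card M = 21) (c' : Nat.card M' = 21) : ∃ g : G, M' = M.map (MulAut.conj g).toMonoidHom := by
  rcases norm_coatom h hM with ⟨U, hU, rfl⟩ | ⟨P, rfl⟩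
  · rw [card_N h hU] at c
    omega
  rcases norm_coatom h hM' with ⟨U, hU, rfl⟩ | ⟨P', rfl⟩
  · rw [card_N h hU] at c'
    omega
  haveI : Fact (Nat.Prime 7) := ⟨by norm_num⟩
  obtain ⟨g, hg⟩ := MulAction.exists_smul_eq G P P'
  refine ⟨g, ?_⟩
  rw [← norm_conj, ← hg]
  rfl

theorem part3 (h : Nat.card G = 168) : ∃ M₁ M₂ : Subgroup G, IsCoatom M₁ ∧ IsCoatom M₂ ∧
    Nonempty (↥M₁ ≃* Equiv.Perm (Fin 4)) ∧ Nonempty (↥M₂ ≃* Equiv.Perm (Fin 4)) ∧
    (∀ g : G, M₂ ≠ M₁.map (MulAut.conj g).toMonoidHom) ∧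
    ∀ M : Subgroup G, IsCoatom M → Nonempty (↥M ≃* Equiv.Perm (Fin 4)) →
      ∃ g : G, M = M₁.map (MulAut.conj g).toMonoidHom ∨ M = M₂.map (MulAut.conj g).toMonoidHom := by
  obtain ⟨T⟩ : Nonempty (Sylow 2 G) := inferInstance
  obtain ⟨e⟩ := H21.O168.sylow_dih h T
  have hT8 := card_T h T
  have k1 : IsKleinFour (F e K1) := F_k4 e card_K1 sq_K1
  have k2 : IsKleinFour (F e K2) := F_k4 e card_K2 sq_K2
  have hne : F e K1 ≠ F e K2 := fun hh => K1_ne (F_inj e hh)
  have l1 : F e K1 ≤ (T : Subgroup G) := F_le e K1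
  have l2 : F e K2 ≤ (T : Subgroup G) := F_le e K2
  have hall : ∀ U : Subgroup G, U ≤ (T : Subgroup G) → IsKleinFour U → U = F e K1 ∨ U = F e K2 :=
    fun U hUT hU => eq_F e hUT hU
  generalize F e K1 = U1 at k1 hne l1 hall
  generalize F e K2 = U2 at k2 hne l2 hall
  refine ⟨normalizer (U1 : Set G), normalizer (U2 : Set G), coatom24 h (card_N h k1), coatom24 h (card_N h k2),
    all_S4 h U1 k1, all_S4 h U2 k2, ?_, ?_⟩
  · intro g hg
    rw [← norm_conj] at hg
    set W := U1.map (MulAut.conj g).toMonoidHom with hW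
    have kW : IsKleinFour W := k4_map k1 g
    have hTN : (T : Subgroup G) ≤ normalizer (W : Set G) := hg ▸ le_norm hT8 l2 k2
    have hWp : IsPGroup 2 W := IsPGroup.of_card (n := 2) (by rw [kW.card_four]; norm_num)
    have hTW : IsPGroup 2 ((T : Subgroup G) ⊔ W : Subgroup G) := T.2.to_sup_of_normal_right' hWp hTN
    have hWT : W ≤ (T : Subgroup G) := by
      have h1 := T.3 hTW le_sup_left
      rw [← h1]
      exact le_sup_right
    have hW2 : W ≠ U2 := not_conj h T U1 U2 l1 l2 k1 k2 hne g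
    have hW1 : W = U1 := (hall W hWT kW).resolve_right hW2
    rw [hW1] at hg
    -- the common normalizer normalizes `T = U1 ⊔ U2`
    have hsup : U1 ⊔ U2 = (T : Subgroup G) := by
      refine Subgroup.eq_of_le_of_card_ge (sup_le l1 l2) ?_
      have h1 : Nat.card U1 ∣ Nat.card (U1 ⊔ U2 : Subgroup G) := Subgroup.card_dvd_of_le le_sup_left
      have h2 : Nat.card (U1 ⊔ U2 : Subgroup G) ∣ 8 := by
        rw [← hT8]
        exact Subgroup.card_dvd_of_le (sup_le l1 l2)
      rw [k1.card_four] at h1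
      have h3 : Nat.card (U1 ⊔ U2 : Subgroup G) ≠ 4 := by
        intro h4
        have h5 : U1 = U1 ⊔ U2 := Subgroup.eq_of_le_of_card_ge le_sup_left (by rw [h4, k1.card_four])
        have h6 : U2 ≤ U1 := by rw [h5]; exact le_sup_right
        exact hne (Subgroup.eq_of_le_of_card_ge h6 (by rw [k1.card_four, k2.card_four])).symm
      rw [hT8]
      obtain ⟨k, hk⟩ := h1
      rw [hk] at h2 h3 ⊢
      have h4 : k ∣ 2 := Nat.dvd_of_mul_dvd_mul_left (by norm_num : 0 < 4) h2
      rcases (Nat.dvd_prime Nat.prime_two).mp h4 with rfl | rfl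
      · exact absurd rfl h3
      · norm_num
    have hle : normalizer (U2 : Set G) ≤ normalizer ((T : Subgroup G) : Set G) := by
      intro m hm
      have hm1 : m ∈ normalizer (U1 : Set G) := hg ▸ hm
      refine Subgroup.mem_normalizer_fintype ?_
      intro x hx
      have hx' : x ∈ U1 ⊔ U2 := by rw [hsup]; exact hx
      have h1 : m * x * m⁻¹ ∈ (U1 ⊔ U2).map (MulAut.conj m).toMonoidHom := ⟨x, hx', rfl⟩
      rw [Subgroup.map_sup] at h1
      have h2 : U1.map (MulAut.conj m).toMonoidHom ⊔ U2.map (MulAut.conj m).toMonoidHom ≤ (T : Subgroup G) := by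
        refine sup_le ?_ ?_
        · rintro _ ⟨w, hw, rfl⟩
          exact l1 ((Subgroup.mem_normalizer_iff.mp hm1 w).mp hw)
        · rintro _ ⟨w, hw, rfl⟩
          exact l2 ((Subgroup.mem_normalizer_iff.mp hm w).mp hw)
      exact h2 h1
    rw [H21.O168.normalizer_eq h T] at hle
    have := Subgroup.card_le_of_le hle
    rw [card_N h k2, hT8] at this
    omega
  · rintro M hM ⟨f⟩
    have hM24 : Nat.card M = 24 := by
      rw [Nat.card_congr f.toEquiv, Nat.card_perm, Nat.card_eq_fintype_card, Fintype.card_fin]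
      rfl
    rcases norm_coatom h hM with ⟨U, hU, rfl⟩ | ⟨P, rfl⟩
    · have hUp : IsPGroup 2 U := IsPGroup.of_card (n := 2) (by rw [hU.card_four]; norm_num)
      obtain ⟨Q, hQ⟩ := hUp.exists_le_sylow
      obtain ⟨g, hg⟩ := MulAction.exists_smul_eq G Q T
      have hUg : U.map (MulAut.conj g).toMonoidHom ≤ (T : Subgroup G) := by
        rw [← hg]
        rintro _ ⟨x, hx, rfl⟩
        exact Subgroup.smul_mem_pointwise_smul _ _ _ (hQ hx)
      have hback : U = (U.map (MulAut.conj g).toMonoidHom).map (MulAut.conj g⁻¹).toMonoidHom := by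
        rw [Subgroup.map_map]
        have : (MulAut.conj g⁻¹).toMonoidHom.comp (MulAut.conj g).toMonoidHom = MonoidHom.id G := by
          ext x
          change g⁻¹ * (g * x * g⁻¹) * g⁻¹⁻¹ = x
          group
        rw [this, Subgroup.map_id]
      refine ⟨g⁻¹, ?_⟩
      rcases hall _ hUg (k4_map hU g) with h1 | h1
      · left
        rw [← norm_conj, ← h1, ← hback]
      · right
        rw [← norm_conj, ← h1, ← hback]
    · rw [H21.O168.card_N7 h P] at hM24
      omega

end Cfsg.Agent.H27.O168
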