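import Mathlib

set_option autoImplicit false

namespace Cfsg.Agent.H27P34

open Matrix

variable {F : Type*} [Field F]

lemma no_quad (B : Matrix (Fin 3) (Fin 3) F) (hB : B * B + B + 1 = 0) (hdet : B.det = 1)
    (h3 : (1 : F) + 1 + 1 ≠ 0) : ∃ c : F, B = c • (1 : Matrix (Fin 3) (Fin 3) F) := by
  by_contra hns
  have hv : ∃ v : Fin 3 → F, LinearIndependent F ![v, B *ᵥ v] := by
    by_contra hcon
    push Not at hcon
    obtain ⟨a, ha⟩ := (Matrix.toLin' B).exists_eq_smul_id_of_forall_notLinearIndependent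
      (fun v => by rw [Matrix.toLin'_apply]; exact hcon v)
    apply hns
    refine ⟨a, ?_⟩
    have h1 : LinearMap.toMatrix' (Matrix.toLin' B) =
        LinearMap.toMatrix' (a • (1 : Module.End F (Fin 3 → F))) := by rw [ha]
    rw [LinearMap.toMatrix'_toLin', map_smul] at h1
    rw [h1]
    congr 1
    exact LinearMap.toMatrix'_one
  obtain ⟨v, hv⟩ := hv
  obtain ⟨w, hw⟩ := exists_linearIndependent_snoc_of_lt_finrank hv (by simp)
  set P : Matrix (Fin 3) (Fin 3) F :=
    Matrix.of (fun i j => (Fin.snoc ![v, B *ᵥ v] w : Fin 3 → Fin 3 → F) j i) with hP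
  have hPu : IsUnit P := Matrix.linearIndependent_cols_iff_isUnit.mp hw
  have hPd : IsUnit P.det := (Matrix.isUnit_iff_isUnit_det P).mp hPu
  have hinj : Function.Injective P.mulVec := Matrix.mulVec_injective_iff_isUnit.mpr hPu
  have c0 : P *ᵥ Pi.single 0 1 = v := by
    rw [Matrix.mulVec_single_one]; rfl
  have c1 : P *ᵥ Pi.single 1 1 = B *ᵥ v := by
    rw [Matrix.mulVec_single_one]; rfl
  set C := P⁻¹ * B * P with hC
  have hPC : P * C = B * P := by
    rw [hC, ← mul_assoc, ← mul_assoc, Matrix.mul_nonsing_inv P hPd, one_mul]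
  have e0 : C *ᵥ Pi.single 0 1 = Pi.single 1 1 := by
    apply hinj
    change P *ᵥ (C *ᵥ _) = P *ᵥ _
    rw [Matrix.mulVec_mulVec, hPC, ← Matrix.mulVec_mulVec, c0, c1]
  have e1 : C *ᵥ Pi.single 1 1 = - Pi.single 1 1 - Pi.single 0 1 := by
    apply hinj
    change P *ᵥ (C *ᵥ _) = P *ᵥ _
    rw [Matrix.mulVec_mulVec, hPC, ← Matrix.mulVec_mulVec, c1, Matrix.mulVec_sub,
      Matrix.mulVec_neg, c0, c1, Matrix.mulVec_mulVec]
    have h1 : B * B = -B - 1 := by
      have : B * B = (B * B + B + 1) - B - 1 := by abel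
      rw [this, hB]; abel
    rw [h1, Matrix.sub_mulVec, Matrix.neg_mulVec, Matrix.one_mulVec]
  rw [Matrix.mulVec_single_one] at e0 e1
  have f00 : C 0 0 = 0 := by simpa using congrFun e0 0
  have f10 : C 1 0 = 1 := by simpa using congrFun e0 1
  have f20 : C 2 0 = 0 := by simpa using congrFun e0 2
  have f01 : C 0 1 = -1 := by simpa using congrFun e1 0
  have f11 : C 1 1 = -1 := by simpa using congrFun e1 1
  have f21 : C 2 1 = 0 := by simpa using congrFun e1 2
  have hCdet : C.det = 1 := by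
    rw [hC, Matrix.det_mul, Matrix.det_mul, hdet, mul_one, ← Matrix.det_mul,
      Matrix.nonsing_inv_mul P hPd, Matrix.det_one]
  have hCq : C * C + C + 1 = 0 := by
    have : C * C + C + 1 = P⁻¹ * (B * B + B + 1) * P := by
      have h1 : C * C = P⁻¹ * (B * B) * P := by
        calc C * C = P⁻¹ * B * (P * P⁻¹) * B * P := by rw [hC]; simp only [mul_assoc]
          _ = P⁻¹ * (B * B) * P := by
              rw [Matrix.mul_nonsing_inv P hPd, mul_one]; simp only [mul_assoc]
      have h2 : (1 : Matrix (Fin 3) (Fin 3) F) = P⁻¹ * 1 * P := by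
        rw [mul_one, Matrix.nonsing_inv_mul P hPd]
      rw [mul_add, mul_add, add_mul, add_mul, ← h1, ← h2]
    rw [this, hB, mul_zero, zero_mul]
  have g22 : C 2 2 = 1 := by
    rw [Matrix.det_fin_three, f00, f10, f20, f01, f11, f21] at hCdet
    linear_combination hCdet
  have q22 := congrFun (congrFun hCq 2) 2
  rw [Matrix.add_apply, Matrix.add_apply, Matrix.mul_apply, Fin.sum_univ_three, f20, f21, g22] at q22
  apply h3
  simpa using q22

lemma diag3 (A : Matrix (Fin 3) (Fin 3) F) (hA : A * A * A = 1) (hdet : A.det = 1)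
    (hns : ¬ ∃ c : F, A = c • (1 : Matrix (Fin 3) (Fin 3) F)) (ω : F) (hω : ω ^ 2 + ω + 1 = 0)
    (h2 : (1 : F) + 1 = 0) :
    ∃ P : Matrix (Fin 3) (Fin 3) F, IsUnit P.det ∧ A * P = P * diagonal ![1, ω, ω ^ 2] := by
  have h3 : (1 : F) + 1 + 1 ≠ 0 := by rw [h2, zero_add]; exact one_ne_zero
  have hω3 : ω ^ 3 = 1 := by
    have : ω ^ 3 - 1 = (ω - 1) * (ω ^ 2 + ω + 1) := by ring
    rw [hω, mul_zero] at this
    exact sub_eq_zero.mp this
  have hω1 : ω ≠ 1 := by
    rintro rfl
    apply h3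
    linear_combination hω
  have hev : ∀ ζ : F, ζ ^ 3 = 1 → ∃ v : Fin 3 → F, v ≠ 0 ∧ A *ᵥ v = ζ • v := by
    intro ζ hζ
    set E : Matrix (Fin 3) (Fin 3) F := 1 + ζ ^ 2 • A + ζ • (A * A) with hE
    have hAE : A * E = ζ • E := by
      rw [hE, mul_add, mul_add, mul_one, Matrix.mul_smul, Matrix.mul_smul, ← mul_assoc, hA,
        smul_add, smul_add, smul_smul, smul_smul]
      have h4 : ζ * ζ ^ 2 = 1 := by rw [← hζ]; ring
      have h5 : ζ * ζ = ζ ^ 2 := by ring
      rw [h4, h5, one_smul]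
      abel
    have hE0 : E ≠ 0 := by
      intro h0
      have hq : (ζ ^ 2 • A) * (ζ ^ 2 • A) + ζ ^ 2 • A + 1 = 0 := by
        rw [Matrix.smul_mul, Matrix.mul_smul, smul_smul]
        have h5 : ζ ^ 2 * ζ ^ 2 = ζ := by
          calc ζ ^ 2 * ζ ^ 2 = ζ ^ 3 * ζ := by ring
            _ = ζ := by rw [hζ, one_mul]
        rw [h5, ← h0, hE]
        abel
      have hd : (ζ ^ 2 • A).det = 1 := by
        rw [Matrix.det_smul, hdet, Fintype.card_fin, mul_one, ← pow_mul, mul_comm, pow_mul, hζ,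
          one_pow]
      obtain ⟨c, hc⟩ := no_quad _ hq hd h3
      apply hns
      refine ⟨ζ * c, ?_⟩
      rw [mul_smul, ← hc, smul_smul]
      have h4 : ζ * ζ ^ 2 = 1 := by rw [← hζ]; ring
      rw [h4, one_smul]
    have : ∃ j : Fin 3, E *ᵥ Pi.single j 1 ≠ 0 := by
      by_contra hcon
      push Not at hcon
      apply hE0
      ext i j
      have := congrFun (hcon j) i
      rw [Matrix.mulVec_single_one] at this
      exact this
    obtain ⟨j, hj⟩ := this
    refine ⟨_, hj, ?_⟩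
    rw [Matrix.mulVec_mulVec, hAE, Matrix.smul_mulVec]
  obtain ⟨v0, hv0, a0⟩ := hev 1 (by ring)
  obtain ⟨v1, hv1, a1⟩ := hev ω hω3
  obtain ⟨v2, hv2, a2⟩ := hev (ω ^ 2) (by rw [← pow_mul, mul_comm, pow_mul, hω3, one_pow])
  have hω0 : ω ≠ 0 := by rintro rfl; simp at hω3
  have hω2 : ω ^ 2 ≠ 1 := by
    intro h
    apply hω1
    calc ω = ω ^ 2 * ω := by rw [h, one_mul]
      _ = ω ^ 3 := by ring
      _ = 1 := hω3
  have hω22 : ω ^ 2 ≠ ω := by
    intro h
    apply hω1
    have : ω * (ω - 1) = 0 := by linear_combination h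
    rcases mul_eq_zero.mp this with h | h
    · exact absurd h hω0
    · exact sub_eq_zero.mp h
  have hinj : Function.Injective (![1, ω, ω ^ 2] : Fin 3 → F) := by
    intro i j hij
    have hneg : (-1 : F) = 1 := by linear_combination (-1) * h2
    fin_cases i <;> fin_cases j <;> simp at hij ⊢
    · exact hω1 hij.symm
    · exact hω2 hij.symm
    · exact hω1 hij
    · exact hω22 hij.symm
    · rcases hij with h | h
      · exact hω1 h
      · exact hω1 (h.trans hneg)
    · exact hω22 hij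
  have hli : LinearIndependent F (![v0, v1, v2] : Fin 3 → Fin 3 → F) := by
    apply Module.End.eigenvectors_linearIndependent' (Matrix.toLin' A) ![1, ω, ω ^ 2] hinj
    intro i
    rw [Module.End.hasEigenvector_iff, Module.End.mem_eigenspace_iff]
    fin_cases i
    · exact ⟨a0, hv0⟩
    · exact ⟨a1, hv1⟩
    · exact ⟨a2, hv2⟩
  set P : Matrix (Fin 3) (Fin 3) F :=
    Matrix.of (fun i j => (![v0, v1, v2] : Fin 3 → Fin 3 → F) j i) with hP
  have hPu : IsUnit P := Matrix.linearIndependent_cols_iff_isUnit.mp hli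
  refine ⟨P, (Matrix.isUnit_iff_isUnit_det P).mp hPu, ?_⟩
  have hcol : ∀ j : Fin 3, A *ᵥ ((![v0, v1, v2] : Fin 3 → Fin 3 → F) j) =
      (![1, ω, ω ^ 2] : Fin 3 → F) j • ((![v0, v1, v2] : Fin 3 → Fin 3 → F) j) := by
    intro j
    fin_cases j
    · exact a0
    · exact a1
    · exact a2
  ext i j
  rw [Matrix.mul_diagonal]
  have := congrFun (hcol j) i
  rw [mul_comm]
  exact this

lemma cube_one (A : Matrix (Fin 3) (Fin 3) F) (r : F) (hr : ∀ x : F, x ≠ 0 → x ^ 3 = 1)
    (hr0 : r ≠ 0) (hA : A ^ 3 = r • (1 : Matrix (Fin 3) (Fin 3) F)) (hdet : A.det = 1) : r = 1 := by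
  by_contra hr1
  open Polynomial in
  have hirr : Irreducible ((X : Polynomial F) ^ 3 - Polynomial.C r) := by
    apply (Polynomial.irreducible_of_degree_le_three_of_not_isRoot
      (by
        rw [Polynomial.natDegree_X_pow_sub_C]
        decide)
      ?_)
    intro x hx
    rw [Polynomial.IsRoot, Polynomial.eval_sub, Polynomial.eval_pow, Polynomial.eval_X,
      Polynomial.eval_C, sub_eq_zero] at hx
    by_cases h0 : x = 0
    · rw [h0] at hx
      apply hr0
      rw [← hx]; ring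
    · exact hr1 (by rw [← hx, hr x h0])
  have hmonic : (Polynomial.X ^ 3 - Polynomial.C r : Polynomial F).Monic :=
    Polynomial.monic_X_pow_sub_C r (by norm_num)
  have haev : Polynomial.aeval A (Polynomial.X ^ 3 - Polynomial.C r : Polynomial F) = 0 := by
    rw [map_sub, map_pow, Polynomial.aeval_X, Polynomial.aeval_C, hA, Algebra.algebraMap_eq_smul_one,
      sub_self]
  have hmin : Polynomial.X ^ 3 - Polynomial.C r = minpoly F A :=
    minpoly.eq_of_irreducible_of_monic hirr haev hmonic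
  have hdvd : (Polynomial.X ^ 3 - Polynomial.C r : Polynomial F) ∣ A.charpoly := by
    rw [hmin]; exact Matrix.minpoly_dvd_charpoly A
  have heq : A.charpoly = Polynomial.X ^ 3 - Polynomial.C r := by
    apply Polynomial.eq_of_monic_of_dvd_of_natDegree_le hmonic A.charpoly_monic hdvd
    rw [Matrix.charpoly_natDegree_eq_dim, Polynomial.natDegree_X_pow_sub_C, Fintype.card_fin]
  have hd := Matrix.det_eq_sign_charpoly_coeff A
  rw [hdet, heq] at hd
  simp at hd
  apply hr1
  rw [hd]
  ring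

end Cfsg.Agent.H27P34
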