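import Mathlib
import Cfsg.Agent.H10_PrD8

/-! Contract for the character part of Peterfalvi §13, (13.3)-(13.10). -/

set_option autoImplicit false

namespace Cfsg.Agent.H27.PF13

open Cfsg Cfsg.Agent.H10.CycTI Cfsg.Agent.H10.CycTI2 Cfsg.Agent.H10.PrD2 Cfsg.Agent.H10.PrD4 Cfsg.Agent.H10.PrD6
  Cfsg.Agent.H10.PrD8

/-- One side of (13.1): `K = S'`, `P = S_F`, `N = P × C_U(P) = F(S)`, `u = |K : N|`, `c = |N : P|`. -/
structure Sd {G : Type*} [Group G] [Fintype G] (S : Subgroup G) [Fintype S] (K P N : Subgroup S)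
    (W₁ W₂ : Subgroup G) (A : Set G) (R : G → Subgroup G) (p q u c : ℕ) : Prop where
  pd : PD S K P W₁ W₂ A R
  hp : p.Prime
  hq : q.Prime
  cardW1 : Nat.card W₁ = q
  cardW2 : Nat.card W₂ = p
  cardP : Nat.card P = p ^ q
  cardN : Nat.card N = p ^ q * c
  cardK : Nat.card K = p ^ q * c * u
  P_le : P ≤ N
  N_le : N ≤ K
  N_normal : N.Normal
  N_comm : ∀ a ∈ N, ∀ b ∈ N, a * b = b * a
  /-- `N^#` is a TI-subset with normalizer `S` -/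
  ti : ∀ (g : G) (x y : S), x ∈ N → x ≠ 1 → y ∈ N → g * x * g⁻¹ = y → g ∈ S
  /-- the Dade map is induction on functions with support in `N^#` -/
  R_bot : ∀ x : S, x ∈ N → x ≠ 1 → R x = ⊥
  N_A : ∀ x : S, x ∈ N → x ≠ 1 → (x : G) ∈ A
  /-- (13.2)(d) -/
  coh : ∃ τ₁, Ext (indD K P ⊥) (dadeIsometry (A0 S W₁ W₂ A) S R) τ₁
  /-- (9.8)/(9.9), (13.3)(a): the reducible characters are induced from `N` -/
  red_ind : ∀ μ δ, MU K W₁ W₂ μ δ → ∀ ψ, X2 W₁ W₂ ψ → ψ ≠ 1 →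
    ∃ θ : N → ℂ, IsIrrCharacter N θ ∧ red K μ ψ = indFun N θ

/-- (13.3)(c): either some irreducible character of `S` is induced from `N` with `P` not in its kernel, or
`c = 1` and `u = (p^q-1)/(p-1)` -/
def Alt {G : Type*} [Group G] {S : Subgroup G} [Fintype S] (P N : Subgroup S) (p q u c : ℕ) : Prop :=
  (∃ θ : N → ℂ, IsIrrCharacter N θ ∧ (∃ x : N, (x : S) ∈ P ∧ θ x ≠ θ 1) ∧ IsIrrCharacter S (indFun N θ)) ∨
    (c = 1 ∧ u * (p - 1) = p ^ q - 1)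

/-- The result (13.10)+(13.11): to be proven. -/
def C1310 : Prop :=
  ∀ {G : Type} [Group G] [Fintype G] (S T : Subgroup G) [Fintype S] [Fintype T] (K P N : Subgroup S)
    (K' P' N' : Subgroup T) (W₁ W₂ : Subgroup G) (A A' : Set G) (R R' : G → Subgroup G) (p q u c v d : ℕ),
    Sd S K P N W₁ W₂ A R p q u c → Sd T K' P' N' W₂ W₁ A' R' q p v d → Alt P N p q u c →
    (∀ (x : S) (y : T) (g : G), x ∈ N → x ≠ 1 → y ∈ N' → g * x * g⁻¹ ≠ y) →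
    v * (q - 1) ≤ q ^ p - 1 → 2 * p + 1 ≤ v →
    (7 ≤ q → (4 / 5 : ℝ) * p ^ (q - 1) / q < u / c) ∧ (5 ≤ q → (7 / 10 : ℝ) * p ^ (q - 1) / q < u / c) ∧
    (q = 3 → (49 / 100 : ℝ) * p ^ 2 / 3 < u / c ∧ ((p : ℝ) ^ 2 - 1) / 6 < u / c)

end Cfsg.Agent.H27.PF13
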