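import Mathlib
import Cfsg.Agent.H27_Sc5

/-! The saturation criterion, part six: the form of the statement. -/

set_option autoImplicit false

namespace Cfsg.Agent.H27.Sc

open Cfsg.FusionSystem Cfsg.Agent.H27.Fus Cfsg.Agent.H27.Grp Cfsg.Agent.H27.Ix

universe u

section
variable {Ω : Type*} [Group Ω] {S : Subgroup Ω} {F : FusionSystem S} {P Q R U P₀ Q₁ : Subgroup Ω} {f g : Ω → Ω}
variable {p m : ℕ} [Fact p.Prime] [Finite S]

theorem star_of (ℋ : Set (Subgroup Ω))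
    (hstar : ∀ P : Subgroup Ω, F.IsCentric P → P ∉ ℋ → ∃ Q, F.IsConj P Q ∧ ¬ (autInducedBy S Q ⊓ OpA F p Q ≤ Inn Q)) :
    ∀ P : Subgroup Ω, P ≤ S → P ∉ ℋ → ∃ Q, F.IsConj P Q ∧ ∃ x ∈ normalizerIn S Q, x ∉ Q ∧
      ∃ α ∈ OpA F p Q, ∀ y : Q, (α y : Ω) = x * y * x⁻¹ := by
  intro P hP hPℋ
  by_cases hc : F.IsCentric P
  · obtain ⟨Q, hQ, h⟩ := hstar P hc hPℋ
    rw [SetLike.not_le_iff_exists] at h
    obtain ⟨α, ⟨h1, h2⟩, h3⟩ := h
    obtain ⟨x, hx, h4⟩ := mem_autInducedBy.1 h1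
    have hQS := isConj_le' hQ
    have hfin : Finite Q := finite_of_le hQS
    refine ⟨Q, hQ, x, mem_nrm_of_forall hQS hx fun t ht => ?_, fun hxQ => h3 (mem_inn.2 ⟨x, hxQ, h4⟩), α, h2, h4⟩
    rw [← h4 ⟨t, ht⟩]; exact (α _).2
  · have h : ∃ Q, F.IsConj P Q ∧ ¬ centralizerIn S Q ≤ Q := by
      by_contra h
      push Not at h
      exact hc ⟨hP, h⟩
    obtain ⟨Q, hQ, h⟩ := h
    rw [SetLike.not_le_iff_exists] at h
    obtain ⟨x, hx, hxQ⟩ := h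
    have h1 : ∀ y ∈ Q, y = x * y * x⁻¹ := by
      intro y hy
      have := Subgroup.mem_centralizer_iff.1 hx.2 y hy
      rw [← this]; group
    have hQS := isConj_le' hQ
    have hfin : Finite Q := finite_of_le hQS
    refine ⟨Q, hQ, x, mem_nrm_of_forall hQS hx.1 fun t ht => ?_, hxQ, 1, one_mem _, fun y => h1 y y.2⟩
    rw [← h1 t ht]; exact ht

end

end Cfsg.Agent.H27.Sc
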