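import Mathlib
import Cfsg.Agent.H13_Trf2
import Cfsg.Agent.H13_Syl
import Cfsg.Agent.H22_Coprime3
import Cfsg.Agent.H1_FusE
import Cfsg.Agent.S0215

/-! Simple groups with a Sylow 2-subgroup `R = C(z)`, `Φ(R) = ⟨z⟩`: `R` is dihedral of order 8. -/

set_option autoImplicit false
set_option linter.all false

namespace Cfsg.Agent.H28.D8

universe u
open Subgroup

/-- a self-normalizing Sylow 2-subgroup: central involutions are in the Frattini subgroup. -/
theorem central_frattini {L : Type u} [Group L] [Finite L] (hG : ∀ (A : Type u) [CommGroup A] (f : L →* A), f = 1)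
    (R : Sylow 2 L) (hN : Subgroup.normalizer ((R : Subgroup L) : Set L) ≤ R) {a : L} (haR : a ∈ (R : Subgroup L))
    (ha2 : a * a = 1) (hac : ∀ x ∈ (R : Subgroup L), x * a = a * x) : a ∈ (frattini ↥(R : Subgroup L)).map (R : Subgroup L).subtype := by
  by_contra hcon
  have := Fact.mk Nat.prime_two
  have h1 : (⟨a, haR⟩ : (R : Subgroup L)) ∉ frattini ↥(R : Subgroup L) := fun h => hcon ⟨_, h, rfl⟩
  rw [H1.Nilp.mem_frattini_iff] at h1
  push Not at h1
  obtain ⟨M, hM, haM⟩ := h1
  obtain ⟨hMn, hMi⟩ := H1.Nilp.index_eq_of_isCoatom_pgroup R.isPGroup' hM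
  have hTM : (M.map (R : Subgroup L).subtype).subgroupOf (R : Subgroup L) = M := by
    rw [Subgroup.subgroupOf, Subgroup.comap_map_eq_self_of_injective (R : Subgroup L).subtype_injective]
  have hTn : ((M.map (R : Subgroup L).subtype).subgroupOf (R : Subgroup L)).Normal := by rw [hTM]; exact hMn
  have hcyc : IsCyclic ((R : Subgroup L) ⧸ (M.map (R : Subgroup L).subtype).subgroupOf (R : Subgroup L)) := by
    apply isCyclic_of_prime_card (p := 2)
    rw [← Subgroup.index_eq_card, hTM, hMi]
  have haT : a ∉ M.map (R : Subgroup L).subtype := by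
    rintro ⟨b, hb, hb'⟩
    apply haM
    have : b = ⟨a, haR⟩ := Subtype.ext hb'
    rw [← this]; exact hb
  have ha1 : a ≠ 1 := by rintro rfl; exact haT (one_mem _)
  have hord : orderOf a = 2 := orderOf_eq_prime (by rw [pow_two, ha2]) ha1
  obtain ⟨g, hg1, hg2, hg3⟩ := H13.Trf.extremal_conj (H13.Syl.isSylIn_sylow_top R) (Subgroup.map_subtype_le M) (hTn := hTn) hcyc hG hord haR haT
  have hle : H13.Syl.cj g (R : Subgroup L) ≤ R := by
    have h2 : (R : Subgroup L) ⊓ centralizer {a} = R := by
      apply le_antisymm inf_le_left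
      intro y hy
      exact ⟨hy, Subgroup.mem_centralizer_singleton_iff.mpr (hac y hy)⟩
    rw [h2] at hg3
    exact hg3.trans inf_le_left
  have hgn : g ∈ Subgroup.normalizer ((R : Subgroup L) : Set L) := by
    have h3 : H13.Syl.cj g (R : Subgroup L) = R := by
      apply Subgroup.eq_of_le_of_card_ge hle
      exact (Nat.card_congr ((R : Subgroup L).equivMapOfInjective (MulAut.conj g).toMonoidHom (MulAut.conj g).injective).toEquiv).le
    rw [Subgroup.mem_normalizer_iff]
    intro h
    constructor
    · intro hh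
      have : g * h * g⁻¹ ∈ H13.Syl.cj g (R : Subgroup L) := ⟨h, hh, rfl⟩
      rw [h3] at this; exact this
    · intro hh
      rw [← SetLike.mem_coe, ← h3] at hh
      obtain ⟨y, hy, hy'⟩ := hh
      have : g * y * g⁻¹ = g * h * g⁻¹ := hy'
      have : y = h := by simpa using this
      rw [← this]; exact hy
  have h5 : g * a * g⁻¹ = a := by
    rw [hac g (hN hgn), mul_inv_cancel_right]
  rw [h5] at hg1
  exact haT hg1

variable {L : Type u} [Group L] [Finite L]

theorem frat_comm (R : Sylow 2 L) {x y : L} (hx : x ∈ (R : Subgroup L)) (hy : y ∈ (R : Subgroup L)) :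
    x * y * x⁻¹ * y⁻¹ ∈ (frattini ↥(R : Subgroup L)).map (R : Subgroup L).subtype := by
  have := Fact.mk Nat.prime_two
  exact H22.Coprime3.commutator_le_map_frattini R.isPGroup' (Subgroup.commutator_mem_commutator hx hy)

theorem frat_sq (R : Sylow 2 L) {x : L} (hx : x ∈ (R : Subgroup L)) :
    x * x ∈ (frattini ↥(R : Subgroup L)).map (R : Subgroup L).subtype := by
  have := Fact.mk Nat.prime_two
  have := H22.Coprime3.pow_mem_map_frattini (p := 2) R.isPGroup' hx
  rwa [pow_two] at this

theorem zp2 {z : L} (hz : orderOf z = 2) {x : L} (hx : x ∈ Subgroup.zpowers z) : x = 1 ∨ x = z := by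
  have h2 : z * z = 1 := by rw [← pow_two, ← hz, pow_orderOf_eq_one]
  obtain ⟨k, rfl⟩ := Subgroup.mem_zpowers_iff.mp hx
  rcases Int.even_or_odd' k with ⟨m, rfl | rfl⟩
  · left; rw [zpow_mul, show z ^ (2:ℤ) = 1 by rw [zpow_ofNat, pow_two, h2], one_zpow]
  · right; rw [zpow_add, zpow_mul, show z ^ (2:ℤ) = 1 by rw [zpow_ofNat, pow_two, h2], one_zpow, one_mul, zpow_one]

theorem main [IsSimpleGroup L] (hL : ¬ IsMulCommutative L) (z : L) (hz : orderOf z = 2) (R : Sylow 2 L)
    (hR : (R : Subgroup L) = Subgroup.centralizer ({z} : Set L))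
    (hΦ : (frattini ↥(R : Subgroup L)).map (R : Subgroup L).subtype = Subgroup.zpowers z) :
    Nonempty (↥(R : Subgroup L) ≃* DihedralGroup 4) := by
  have := Fact.mk Nat.prime_two
  have hz2 : z * z = 1 := by rw [← pow_two, ← hz, pow_orderOf_eq_one]
  have hz1 : z ≠ 1 := by rintro rfl; simp at hz
  have hmem : ∀ x : L, x ∈ (R : Subgroup L) ↔ x * z = z * x := by
    intro x; rw [hR]; exact Subgroup.mem_centralizer_singleton_iff
  have hzR : z ∈ (R : Subgroup L) := (hmem z).mpr rfl
  -- perfect
  have hG : ∀ (A : Type u) [CommGroup A] (f : L →* A), f = 1 := by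
    intro A _ f
    rcases f.normal_ker.eq_bot_or_eq_top with h | h
    · exfalso; apply hL
      rw [MonoidHom.ker_eq_bot_iff] at h
      exact ⟨⟨fun x y => h (by rw [map_mul, map_mul, mul_comm])⟩⟩
    · ext x
      have : x ∈ f.ker := by rw [h]; exact Subgroup.mem_top x
      exact this
  -- the center of L is trivial
  have hcent : Subgroup.center L = ⊥ := by
    rcases (inferInstance : (Subgroup.center L).Normal).eq_bot_or_eq_top with h | h
    · exact h
    · exfalso; apply hL
      exact ⟨⟨fun x y => by
        have : y ∈ Subgroup.center L := by rw [h]; exact Subgroup.mem_top y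
        exact (Subgroup.mem_center_iff.mp this x)⟩⟩
  -- normalizer
  have hN : Subgroup.normalizer ((R : Subgroup L) : Set L) ≤ R := by
    intro g hg
    have h1 := H22.Coprime3.le_normalizer_map_frattini (A := Subgroup.normalizer ((R : Subgroup L) : Set L)) (K := (R : Subgroup L)) le_rfl hg
    rw [hΦ] at h1
    have h2 := (Subgroup.mem_normalizer_iff.mp h1 z).mp (Subgroup.mem_zpowers z)
    rw [hmem]
    rcases zp2 hz h2 with h | h
    · exfalso; apply hz1
      have : z = g⁻¹ * (g * z * g⁻¹) * g := by group
      rw [this, h]; group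
    · calc g * z = g * z * g⁻¹ * g := by group
        _ = z * g := by rw [h]
  -- a conjugate
  obtain ⟨g, hg, hgne⟩ : ∃ g : L, g * z * g⁻¹ ∈ (R : Subgroup L) ∧ g * z * g⁻¹ ≠ z := by
    by_contra hcon
    push Not at hcon
    obtain ⟨N, hNn, hodd, hN2⟩ := Cfsg.Agent.S0215.result R z hz hzR hcon
    rcases hNn.eq_bot_or_eq_top with h | h
    · apply hz1
      have : z ∈ Subgroup.center L := by
        rw [Subgroup.mem_center_iff]
        intro g
        have := hN2 g
        rw [h, Subgroup.mem_bot] at this
        have h2 : z * g = g * z := by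
          calc z * g = (z * g * z⁻¹ * g⁻¹) * (g * z) := by group
            _ = g * z := by rw [this, one_mul]
        exact h2.symm
      rw [hcent, Subgroup.mem_bot] at this
      exact this
    · rw [h, Subgroup.card_top] at hodd
      have : orderOf z ∣ Nat.card L := orderOf_dvd_natCard z
      rw [hz] at this
      exact (Nat.not_even_iff_odd.mpr hodd) (even_iff_two_dvd.mpr this)
  set t := g * z * g⁻¹ with ht
  have ht2 : t * t = 1 := by
    calc t * t = g * (z * z) * g⁻¹ := by rw [ht]; group
      _ = 1 := by rw [hz2]; group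
  have ht1 : t ≠ 1 := by
    intro h; apply hz1
    have : z = g⁻¹ * t * g := by rw [ht]; group
    rw [this, h]; group
  have htz : t * z = z * t := (hmem t).mp hg
  -- facts on R
  have hcm : ∀ x ∈ (R : Subgroup L), ∀ y ∈ (R : Subgroup L), x * y * x⁻¹ * y⁻¹ = 1 ∨ x * y * x⁻¹ * y⁻¹ = z := by
    intro x hx y hy
    apply zp2 hz
    rw [← hΦ]; exact frat_comm R hx hy
  have hsq : ∀ x ∈ (R : Subgroup L), x * x = 1 ∨ x * x = z := by
    intro x hx
    apply zp2 hz
    rw [← hΦ]; exact frat_sq R hx
  -- facts on C(t)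
  have hcj : ∀ x : L, x * t = t * x → g⁻¹ * x * g ∈ (R : Subgroup L) := by
    intro x hx
    rw [hmem]
    calc g⁻¹ * x * g * z = g⁻¹ * (x * t) * g := by rw [ht]; group
      _ = g⁻¹ * (t * x) * g := by rw [hx]
      _ = z * (g⁻¹ * x * g) := by rw [ht]; group
  have hcmt : ∀ x : L, x * t = t * x → ∀ y : L, y * t = t * y → x * y * x⁻¹ * y⁻¹ = 1 ∨ x * y * x⁻¹ * y⁻¹ = t := by
    intro x hx y hy
    have e : x * y * x⁻¹ * y⁻¹ = g * (g⁻¹ * x * g * (g⁻¹ * y * g) * (g⁻¹ * x * g)⁻¹ * (g⁻¹ * y * g)⁻¹) * g⁻¹ := by group
    rcases hcm _ (hcj x hx) _ (hcj y hy) with h | h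
    · left; rw [e, h]; group
    · right; rw [e, h]
  have hsqt : ∀ x : L, x * t = t * x → x * x = 1 ∨ x * x = t := by
    intro x hx
    have e : x * x = g * ((g⁻¹ * x * g) * (g⁻¹ * x * g)) * g⁻¹ := by group
    rcases hsq _ (hcj x hx) with h | h
    · left; rw [e, h]; group
    · right; rw [e, h]
  -- elements of U = R ∩ C(t)
  have hU2 : ∀ x ∈ (R : Subgroup L), x * t = t * x → x * x = 1 := by
    intro x hx hxt
    rcases hsq x hx with h | h
    · exact h
    · rcases hsqt x hxt with h' | h'
      · exact h'
      · exact absurd (h'.symm.trans h) hgne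
  have hUc : ∀ x ∈ (R : Subgroup L), x * t = t * x → ∀ y ∈ (R : Subgroup L), y * t = t * y → x * y = y * x := by
    intro x hx hxt y hy hyt
    have : x * y * x⁻¹ * y⁻¹ = 1 := by
      rcases hcm x hx y hy with h | h
      · exact h
      · rcases hcmt x hxt y hyt with h' | h'
        · exact h'
        · exact absurd (h'.symm.trans h) hgne
    calc x * y = x * y * x⁻¹ * y⁻¹ * (y * x) := by group
      _ = y * x := by rw [this, one_mul]
  -- some r in R not commuting with t
  obtain ⟨r, hr, hrt⟩ : ∃ r ∈ (R : Subgroup L), r * t ≠ t * r := by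
    by_contra hcon
    push Not at hcon
    -- R = C(t), so R^g = R, abelian
    have hle : ∀ x ∈ (R : Subgroup L), g⁻¹ * x * g ∈ (R : Subgroup L) := fun x hx => hcj x (hcon x hx)
    have hgR : g⁻¹ ∈ (R : Subgroup L) := by
      apply hN
      rw [Subgroup.mem_normalizer_iff]
      have h3 : (R : Subgroup L).map (MulAut.conj g⁻¹).toMonoidHom = R := by
        apply Subgroup.eq_of_le_of_card_ge
        · rintro _ ⟨x, hx, rfl⟩
          have := hle x hx
          simpa using this
        · exact (Nat.card_congr ((R : Subgroup L).equivMapOfInjective (MulAut.conj g⁻¹).toMonoidHom (MulAut.conj g⁻¹).injective).toEquiv).le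
      intro h
      constructor
      · intro hh
        have := hle h hh
        simpa using this
      · intro hh
        rw [← SetLike.mem_coe, ← h3] at hh
        obtain ⟨y, hy, hy'⟩ := hh
        have : g⁻¹ * y * g⁻¹⁻¹ = g⁻¹ * h * g⁻¹⁻¹ := hy'
        have : y = h := by simpa using this
        rw [← this]; exact hy
    apply hgne
    have h4 := (hmem _).mp hgR
    calc t = g * (z * g⁻¹) := by rw [ht]; group
      _ = g * (g⁻¹ * z) := by rw [h4]
      _ = z := by group
  have hrt' : r * t * r⁻¹ = z * t := by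
    rcases hcm r hr t hg with h | h
    · exfalso; apply hrt
      calc r * t = r * t * r⁻¹ * t⁻¹ * (t * r) := by group
        _ = t * r := by rw [h, one_mul]
    · calc r * t * r⁻¹ = r * t * r⁻¹ * t⁻¹ * t := by group
        _ = z * t := by rw [h]
  -- every element of R is in U or rU
  have hUr : ∀ x ∈ (R : Subgroup L), x * t = t * x ∨ (r⁻¹ * x) * t = t * (r⁻¹ * x) := by
    intro x hx
    rcases hcm x hx t hg with h | h
    · left
      calc x * t = x * t * x⁻¹ * t⁻¹ * (t * x) := by group
        _ = t * x := by rw [h, one_mul]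
    · right
      have h1 : x * t * x⁻¹ = z * t := by
        calc x * t * x⁻¹ = x * t * x⁻¹ * t⁻¹ * t := by group
          _ = z * t := by rw [h]
      calc (r⁻¹ * x) * t = r⁻¹ * (x * t * x⁻¹) * x := by group
        _ = r⁻¹ * (r * t * r⁻¹) * x := by rw [h1, hrt']
        _ = t * (r⁻¹ * x) := by group
  -- the center of R
  have hZ : ∀ a ∈ (R : Subgroup L), (∀ x ∈ (R : Subgroup L), x * a = a * x) → a = 1 ∨ a = z := by
    intro a ha hac
    apply zp2 hz
    rw [← hΦ]
    exact central_frattini hG R hN ha (hU2 a ha (hac t hg).symm) hac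
  -- U = {1,z,t,tz}
  have hrz : r * z = z * r := (hmem r).mp hr
  have hU : ∀ x ∈ (R : Subgroup L), x * t = t * x → x = 1 ∨ x = z ∨ x = t ∨ x = z * t := by
    intro x hx hxt
    have hcen : ∀ y ∈ (R : Subgroup L), y * t = t * y → y * r = r * y → (y = 1 ∨ y = z) := by
      intro y hy hyt hyr
      apply hZ y hy
      intro w hw
      rcases hUr w hw with h | h
      · exact hUc w hw h y hy hyt
      · have h1 := hUc _ ((R : Subgroup L).mul_mem ((R : Subgroup L).inv_mem hr) hw) h y hy hyt
        calc w * y = r * (r⁻¹ * w * y) := by group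
          _ = r * (y * (r⁻¹ * w)) := by rw [h1]
          _ = (r * y) * r⁻¹ * w := by group
          _ = (y * r) * r⁻¹ * w := by rw [hyr]
          _ = y * w := by group
    rcases hcm r hr x hx with h | h
    · have hxr : x * r = r * x := by
        calc x * r = 1 * (x * r) := by rw [one_mul]
          _ = r * x * r⁻¹ * x⁻¹ * (x * r) := by rw [h]
          _ = r * x := by group
      rcases hcen x hx hxt hxr with h | h
      · left; exact h
      · right; left; exact h
    · have h1 : r * x * r⁻¹ = z * x := by
        calc r * x * r⁻¹ = r * x * r⁻¹ * x⁻¹ * x := by group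
          _ = z * x := by rw [h]
      have hxz : x * z = z * x := (hmem x).mp hx
      have h2 : r * (x * t) * r⁻¹ = x * t := by
        calc r * (x * t) * r⁻¹ = (r * x * r⁻¹) * (r * t * r⁻¹) := by group
          _ = z * x * (z * t) := by rw [h1, hrt']
          _ = z * (x * z) * t := by group
          _ = (z * z) * (x * t) := by rw [hxz]; group
          _ = x * t := by rw [hz2, one_mul]
      have h3 : (x * t) * r = r * (x * t) := by
        calc (x * t) * r = r * (x * t) * r⁻¹ * r := by rw [h2]
          _ = r * (x * t) := by group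
      have h4 : (x * t) * t = t * (x * t) := by
        calc (x * t) * t = (t * x) * t := by rw [hxt]
          _ = t * (x * t) := mul_assoc _ _ _
      have e : x = (x * t) * t := by rw [mul_assoc, ht2, mul_one]
      rcases hcen (x * t) ((R : Subgroup L).mul_mem hx hg) h4 h3 with h | h
      · right; right; left; rw [e, h, one_mul]
      · right; right; right; rw [e, h]
  -- an involution not commuting with t
  obtain ⟨s, hs, hs2, hst⟩ : ∃ s ∈ (R : Subgroup L), s * s = 1 ∧ s * t ≠ t * s := by
    rcases hsq r hr with h | h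
    · exact ⟨r, hr, h, hrt⟩
    · refine ⟨r * t, (R : Subgroup L).mul_mem hr hg, ?_, ?_⟩
      · calc r * t * (r * t) = (r * t * r⁻¹) * (r * r) * t := by group
          _ = (z * t) * z * t := by rw [hrt', h]
          _ = z * (t * z) * t := by group
          _ = (z * z) * (t * t) := by rw [htz]; group
          _ = 1 := by rw [hz2, ht2, one_mul]
      · intro h2; apply hrt
        calc r * t = (r * t * t) * t := by rw [mul_assoc r t t, ht2, mul_one]
          _ = (t * (r * t)) * t := by rw [h2]
          _ = t * r * (t * t) := by group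
          _ = t * r := by rw [ht2, mul_one]
  -- order 8
  have hzt : z ≠ t := fun h => hgne h.symm
  have hcard : Nat.card (R : Subgroup L) = 8 := by
    have hfin : (Nat.card (R : Subgroup L)) ≤ 8 := by
      classical
      have hsub : ((R : Subgroup L) : Set L) ⊆ (({1, z, t, z * t, r, r * z, r * t, r * (z * t)} : Finset L) : Set L) := by
        intro x hx
        rcases hUr x hx with h | h
        · rcases hU x hx h with h | h | h | h <;> simp [h]
        · have h5 := hU _ ((R : Subgroup L).mul_mem ((R : Subgroup L).inv_mem hr) hx) h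
          have e : x = r * (r⁻¹ * x) := by group
          rcases h5 with h | h | h | h <;> rw [e, h] <;> simp
      have h6 := Set.ncard_le_ncard hsub (Finset.finite_toSet _)
      rw [Set.ncard_coe_finset] at h6
      refine h6.trans ?_
      repeat refine (Finset.card_insert_le _ _).trans (Nat.succ_le_succ ?_)
      simp
    obtain ⟨k, hk⟩ := IsPGroup.iff_card.mp R.isPGroup'
    have hnc : ¬ ∀ x ∈ (R : Subgroup L), ∀ y ∈ (R : Subgroup L), x * y = y * x := fun h => hrt (h r hr t hg)
    have hk3 : k ≤ 3 := by
      by_contra hcon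
      have : 2 ^ 4 ≤ 2 ^ k := Nat.pow_le_pow_right (by norm_num) (by omega)
      omega
    have hk2 : ¬ k ≤ 2 := by
      intro hk2
      apply hnc
      have hcomm : IsMulCommutative ↥(R : Subgroup L) := by
        interval_cases k
        · have h1 : Nat.card ↥(R : Subgroup L) = 1 := by simpa using hk
          have := (Nat.card_eq_one_iff_unique.mp h1).1
          exact ⟨⟨fun a b => Subsingleton.elim _ _⟩⟩
        · have h1 : Nat.card ↥(R : Subgroup L) = 2 := by simpa using hk
          have := isCyclic_of_prime_card h1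
          exact ⟨⟨fun a b => (IsCyclic.commGroup (α := ↥(R : Subgroup L))).mul_comm a b⟩⟩
        · have h1 : Nat.card ↥(R : Subgroup L) = 2 ^ 2 := by simpa using hk
          exact ⟨⟨fun a b => (IsPGroup.commGroupOfCardEqPrimeSq h1).mul_comm a b⟩⟩
      intro x hx y hy
      exact congrArg Subtype.val (hcomm.is_comm.comm (⟨x, hx⟩ : ↥(R : Subgroup L)) ⟨y, hy⟩)
    have : k = 3 := by omega
    rw [hk, this]; norm_num
  refine H1.FusE.d8_of hcard (u := ⟨s, hs⟩) (v := ⟨t, hg⟩) (Subtype.ext hs2) (Subtype.ext ht2) ?_
  intro h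
  exact hst (congrArg Subtype.val h)

end Cfsg.Agent.H28.D8
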