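import Cfsg.Agent.H28_F78C0
import Cfsg.Agent.H28_F78C1
import Cfsg.Agent.H28_F78C2
import Cfsg.Agent.H28_F78C3

set_option autoImplicit false
set_option maxRecDepth 1000000

namespace Cfsg.Agent.H28.F78

open Cfsg.Agent.H28.PM

/-- the matrices -/
def T (β : ℕ) : Matrix (Fin 78) (Fin 78) (ZMod 13) := toM 13 78 β

def U (s : List ℕ) : Matrix (Fin 78) (Fin 78) (ZMod 13) := toS 13 78 80 s

theorem mul_of {A : List ℕ} {β γ : ℕ} (hA : colOk 78 80 A = true) (hβ : good 78 β = true)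
    (hγ : good 78 γ = true) (h : mulOk 13 78 80 β A γ = true) : U A * T β = T γ :=
  toM_mul (by decide) (by decide) hA hβ hγ h

theorem one : T mI = 1 := toM_id id_mI

theorem u_of {s : List ℕ} {β : ℕ} (h : U s * T mI = T β) : U s = T β := by
  rw [one, mul_one] at h; exact h

theorem f_of {s : List ℕ} {a b c : ℕ} (hu : U s = T a) (he : U s * T b = T c) : T a * T b = T c := by
  rw [← hu]; exact he

theorem cm_of {a b c : ℕ} (h : T a * T b = T c) (h' : T b * T a = T c) : T a * T b = T b * T a := h.trans h'.symm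

theorem br_of {a b c c' q : ℕ} (h1 : T b * T a = T c) (h2 : T a * T c = T q) (h3 : T a * T b = T c') (h4 : T b * T c' = T q) :
    T a * (T b * T a) = T b * (T a * T b) := by
  rw [h1, h2, h3, h4]

theorem st_of {a c c' : ℕ} {M : Matrix (Fin 78) (Fin 78) (ZMod 13)} (hM : M = T c) (h : T a * T c = T c') : T a * M = T c' := by
  rw [hM]; exact h

theorem p10_of {c s2 s4 s8 : ℕ} {M : Matrix (Fin 78) (Fin 78) (ZMod 13)} (hM : M = T c) (h1 : T c * T c = T s2)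
    (h2 : T s2 * T s2 = T s4) (h3 : T s4 * T s4 = T s8) (h4 : T s8 * T s2 = T mI) : M ^ 10 = 1 := by
  have : M ^ 10 = ((M * M) * (M * M)) * ((M * M) * (M * M)) * (M * M) := by
    simp only [pow_succ, pow_zero, one_mul, mul_assoc]
  rw [this, hM, h1, h2, h3, h4, one]

theorem p9_of {c s2 s4 s8 : ℕ} {M : Matrix (Fin 78) (Fin 78) (ZMod 13)} (hM : M = T c) (h1 : T c * T c = T s2)
    (h2 : T s2 * T s2 = T s4) (h3 : T s4 * T s4 = T s8) (h4 : T s8 * T c = T mI) : M ^ 9 = 1 := by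
  have : M ^ 9 = ((M * M) * (M * M)) * ((M * M) * (M * M)) * M := by
    simp only [pow_succ, pow_zero, one_mul, mul_assoc]
  rw [this, hM, h1, h2, h3, h4, one]

theorem e_m_a_mI : U sm_a * T mI = T m_a := mul_of k_m_a g_mI g_m_a c_m_a_mI

theorem e_m_b_mI : U sm_b * T mI = T m_b := mul_of k_m_b g_mI g_m_b c_m_b_mI

theorem e_m_c_mI : U sm_c * T mI = T m_c := mul_of k_m_c g_mI g_m_c c_m_c_mI

theorem e_m_d_mI : U sm_d * T mI = T m_d := mul_of k_m_d g_mI g_m_d c_m_d_mI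

theorem e_m_e_mI : U sm_e * T mI = T m_e := mul_of k_m_e g_mI g_m_e c_m_e_mI

theorem e_m_f_mI : U sm_f * T mI = T m_f := mul_of k_m_f g_mI g_m_f c_m_f_mI

theorem e_m_g_mI : U sm_g * T mI = T m_g := mul_of k_m_g g_mI g_m_g c_m_g_mI

theorem e_m_h_mI : U sm_h * T mI = T m_h := mul_of k_m_h g_mI g_m_h c_m_h_mI

theorem e_m_i_mI : U sm_i * T mI = T m_i := mul_of k_m_i g_mI g_m_i c_m_i_mI

theorem e_m_a_m_a : U sm_a * T m_a = T mI := mul_of k_m_a g_m_a g_mI c_m_a_m_a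

theorem e_m_b_m_b : U sm_b * T m_b = T mI := mul_of k_m_b g_m_b g_mI c_m_b_m_b

theorem e_m_c_m_c : U sm_c * T m_c = T mI := mul_of k_m_c g_m_c g_mI c_m_c_m_c

theorem e_m_d_m_d : U sm_d * T m_d = T mI := mul_of k_m_d g_m_d g_mI c_m_d_m_d

theorem e_m_e_m_e : U sm_e * T m_e = T mI := mul_of k_m_e g_m_e g_mI c_m_e_m_e

theorem e_m_f_m_f : U sm_f * T m_f = T mI := mul_of k_m_f g_m_f g_mI c_m_f_m_f

theorem e_m_g_m_g : U sm_g * T m_g = T mI := mul_of k_m_g g_m_g g_mI c_m_g_m_g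

theorem e_m_h_m_h : U sm_h * T m_h = T mI := mul_of k_m_h g_m_h g_mI c_m_h_m_h

theorem e_m_i_m_i : U sm_i * T m_i = T mI := mul_of k_m_i g_m_i g_mI c_m_i_m_i

theorem e_m_a_m_b : U sm_a * T m_b = T p1 := mul_of k_m_a g_m_b g_p1 c_m_a_m_b

theorem e_m_b_m_a : U sm_b * T m_a = T p2 := mul_of k_m_b g_m_a g_p2 c_m_b_m_a

theorem e_m_b_p1 : U sm_b * T p1 = T p3 := mul_of k_m_b g_p1 g_p3 c_m_b_p1

theorem e_m_a_p2 : U sm_a * T p2 = T p3 := mul_of k_m_a g_p2 g_p3 c_m_a_p2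

theorem e_m_a_m_c : U sm_a * T m_c = T p4 := mul_of k_m_a g_m_c g_p4 c_m_a_m_c

theorem e_m_c_m_a : U sm_c * T m_a = T p4 := mul_of k_m_c g_m_a g_p4 c_m_c_m_a

theorem e_m_a_m_d : U sm_a * T m_d = T p5 := mul_of k_m_a g_m_d g_p5 c_m_a_m_d

theorem e_m_d_m_a : U sm_d * T m_a = T p5 := mul_of k_m_d g_m_a g_p5 c_m_d_m_a

theorem e_m_a_m_e : U sm_a * T m_e = T p6 := mul_of k_m_a g_m_e g_p6 c_m_a_m_e

theorem e_m_e_m_a : U sm_e * T m_a = T p6 := mul_of k_m_e g_m_a g_p6 c_m_e_m_a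

theorem e_m_a_m_f : U sm_a * T m_f = T p7 := mul_of k_m_a g_m_f g_p7 c_m_a_m_f

theorem e_m_f_m_a : U sm_f * T m_a = T p7 := mul_of k_m_f g_m_a g_p7 c_m_f_m_a

theorem e_m_a_m_g : U sm_a * T m_g = T p8 := mul_of k_m_a g_m_g g_p8 c_m_a_m_g

theorem e_m_g_m_a : U sm_g * T m_a = T p8 := mul_of k_m_g g_m_a g_p8 c_m_g_m_a

theorem e_m_a_m_h : U sm_a * T m_h = T p9 := mul_of k_m_a g_m_h g_p9 c_m_a_m_h

theorem e_m_h_m_a : U sm_h * T m_a = T p9 := mul_of k_m_h g_m_a g_p9 c_m_h_m_a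

theorem e_m_a_m_i : U sm_a * T m_i = T p10 := mul_of k_m_a g_m_i g_p10 c_m_a_m_i

theorem e_m_i_m_a : U sm_i * T m_a = T p10 := mul_of k_m_i g_m_a g_p10 c_m_i_m_a

theorem e_m_b_m_c : U sm_b * T m_c = T p11 := mul_of k_m_b g_m_c g_p11 c_m_b_m_c

theorem e_m_c_m_b : U sm_c * T m_b = T p12 := mul_of k_m_c g_m_b g_p12 c_m_c_m_b

theorem e_m_c_p11 : U sm_c * T p11 = T p13 := mul_of k_m_c g_p11 g_p13 c_m_c_p11

theorem e_m_b_p12 : U sm_b * T p12 = T p13 := mul_of k_m_b g_p12 g_p13 c_m_b_p12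

theorem e_m_b_m_d : U sm_b * T m_d = T p14 := mul_of k_m_b g_m_d g_p14 c_m_b_m_d

theorem e_m_d_m_b : U sm_d * T m_b = T p14 := mul_of k_m_d g_m_b g_p14 c_m_d_m_b

theorem e_m_b_m_e : U sm_b * T m_e = T p15 := mul_of k_m_b g_m_e g_p15 c_m_b_m_e

theorem e_m_e_m_b : U sm_e * T m_b = T p15 := mul_of k_m_e g_m_b g_p15 c_m_e_m_b

theorem e_m_b_m_f : U sm_b * T m_f = T p16 := mul_of k_m_b g_m_f g_p16 c_m_b_m_f

theorem e_m_f_m_b : U sm_f * T m_b = T p16 := mul_of k_m_f g_m_b g_p16 c_m_f_m_b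

theorem e_m_b_m_g : U sm_b * T m_g = T p17 := mul_of k_m_b g_m_g g_p17 c_m_b_m_g

theorem e_m_g_m_b : U sm_g * T m_b = T p17 := mul_of k_m_g g_m_b g_p17 c_m_g_m_b

theorem e_m_b_m_h : U sm_b * T m_h = T p18 := mul_of k_m_b g_m_h g_p18 c_m_b_m_h

theorem e_m_h_m_b : U sm_h * T m_b = T p18 := mul_of k_m_h g_m_b g_p18 c_m_h_m_b

theorem e_m_b_m_i : U sm_b * T m_i = T p19 := mul_of k_m_b g_m_i g_p19 c_m_b_m_i

theorem e_m_i_m_b : U sm_i * T m_b = T p19 := mul_of k_m_i g_m_b g_p19 c_m_i_m_b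

theorem e_m_c_m_d : U sm_c * T m_d = T p20 := mul_of k_m_c g_m_d g_p20 c_m_c_m_d

theorem e_m_d_m_c : U sm_d * T m_c = T p21 := mul_of k_m_d g_m_c g_p21 c_m_d_m_c

theorem e_m_d_p20 : U sm_d * T p20 = T p22 := mul_of k_m_d g_p20 g_p22 c_m_d_p20

theorem e_m_c_p21 : U sm_c * T p21 = T p22 := mul_of k_m_c g_p21 g_p22 c_m_c_p21

theorem e_m_c_m_e : U sm_c * T m_e = T p23 := mul_of k_m_c g_m_e g_p23 c_m_c_m_e

theorem e_m_e_m_c : U sm_e * T m_c = T p23 := mul_of k_m_e g_m_c g_p23 c_m_e_m_c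

theorem e_m_c_m_f : U sm_c * T m_f = T p24 := mul_of k_m_c g_m_f g_p24 c_m_c_m_f

theorem e_m_f_m_c : U sm_f * T m_c = T p24 := mul_of k_m_f g_m_c g_p24 c_m_f_m_c

theorem e_m_c_m_g : U sm_c * T m_g = T p25 := mul_of k_m_c g_m_g g_p25 c_m_c_m_g

theorem e_m_g_m_c : U sm_g * T m_c = T p25 := mul_of k_m_g g_m_c g_p25 c_m_g_m_c

theorem e_m_c_m_h : U sm_c * T m_h = T p26 := mul_of k_m_c g_m_h g_p26 c_m_c_m_h

theorem e_m_h_m_c : U sm_h * T m_c = T p26 := mul_of k_m_h g_m_c g_p26 c_m_h_m_c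

theorem e_m_c_m_i : U sm_c * T m_i = T p27 := mul_of k_m_c g_m_i g_p27 c_m_c_m_i

theorem e_m_i_m_c : U sm_i * T m_c = T p27 := mul_of k_m_i g_m_c g_p27 c_m_i_m_c

theorem e_m_d_m_e : U sm_d * T m_e = T p28 := mul_of k_m_d g_m_e g_p28 c_m_d_m_e

theorem e_m_e_m_d : U sm_e * T m_d = T p29 := mul_of k_m_e g_m_d g_p29 c_m_e_m_d

theorem e_m_e_p28 : U sm_e * T p28 = T p30 := mul_of k_m_e g_p28 g_p30 c_m_e_p28

theorem e_m_d_p29 : U sm_d * T p29 = T p30 := mul_of k_m_d g_p29 g_p30 c_m_d_p29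

theorem e_m_d_m_f : U sm_d * T m_f = T p31 := mul_of k_m_d g_m_f g_p31 c_m_d_m_f

theorem e_m_f_m_d : U sm_f * T m_d = T p31 := mul_of k_m_f g_m_d g_p31 c_m_f_m_d

theorem e_m_d_m_g : U sm_d * T m_g = T p32 := mul_of k_m_d g_m_g g_p32 c_m_d_m_g

theorem e_m_g_m_d : U sm_g * T m_d = T p32 := mul_of k_m_g g_m_d g_p32 c_m_g_m_d

theorem e_m_d_m_h : U sm_d * T m_h = T p33 := mul_of k_m_d g_m_h g_p33 c_m_d_m_h

theorem e_m_h_m_d : U sm_h * T m_d = T p34 := mul_of k_m_h g_m_d g_p34 c_m_h_m_d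

theorem e_m_h_p33 : U sm_h * T p33 = T p35 := mul_of k_m_h g_p33 g_p35 c_m_h_p33

theorem e_m_d_p34 : U sm_d * T p34 = T p35 := mul_of k_m_d g_p34 g_p35 c_m_d_p34

theorem e_m_d_m_i : U sm_d * T m_i = T p36 := mul_of k_m_d g_m_i g_p36 c_m_d_m_i

theorem e_m_i_m_d : U sm_i * T m_d = T p36 := mul_of k_m_i g_m_d g_p36 c_m_i_m_d

theorem e_m_e_m_f : U sm_e * T m_f = T p37 := mul_of k_m_e g_m_f g_p37 c_m_e_m_f

theorem e_m_f_m_e : U sm_f * T m_e = T p38 := mul_of k_m_f g_m_e g_p38 c_m_f_m_e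

theorem e_m_f_p37 : U sm_f * T p37 = T p39 := mul_of k_m_f g_p37 g_p39 c_m_f_p37

theorem e_m_e_p38 : U sm_e * T p38 = T p39 := mul_of k_m_e g_p38 g_p39 c_m_e_p38

theorem e_m_e_m_g : U sm_e * T m_g = T p40 := mul_of k_m_e g_m_g g_p40 c_m_e_m_g

theorem e_m_g_m_e : U sm_g * T m_e = T p40 := mul_of k_m_g g_m_e g_p40 c_m_g_m_e

theorem e_m_e_m_h : U sm_e * T m_h = T p41 := mul_of k_m_e g_m_h g_p41 c_m_e_m_h

theorem e_m_h_m_e : U sm_h * T m_e = T p41 := mul_of k_m_h g_m_e g_p41 c_m_h_m_e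

theorem e_m_e_m_i : U sm_e * T m_i = T p42 := mul_of k_m_e g_m_i g_p42 c_m_e_m_i

theorem e_m_i_m_e : U sm_i * T m_e = T p42 := mul_of k_m_i g_m_e g_p42 c_m_i_m_e

theorem e_m_f_m_g : U sm_f * T m_g = T p43 := mul_of k_m_f g_m_g g_p43 c_m_f_m_g

theorem e_m_g_m_f : U sm_g * T m_f = T p44 := mul_of k_m_g g_m_f g_p44 c_m_g_m_f

theorem e_m_g_p43 : U sm_g * T p43 = T p45 := mul_of k_m_g g_p43 g_p45 c_m_g_p43

theorem e_m_f_p44 : U sm_f * T p44 = T p45 := mul_of k_m_f g_p44 g_p45 c_m_f_p44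

theorem e_m_f_m_h : U sm_f * T m_h = T p46 := mul_of k_m_f g_m_h g_p46 c_m_f_m_h

theorem e_m_h_m_f : U sm_h * T m_f = T p46 := mul_of k_m_h g_m_f g_p46 c_m_h_m_f

theorem e_m_f_m_i : U sm_f * T m_i = T p47 := mul_of k_m_f g_m_i g_p47 c_m_f_m_i

theorem e_m_i_m_f : U sm_i * T m_f = T p47 := mul_of k_m_i g_m_f g_p47 c_m_i_m_f

theorem e_m_g_m_h : U sm_g * T m_h = T p48 := mul_of k_m_g g_m_h g_p48 c_m_g_m_h

theorem e_m_h_m_g : U sm_h * T m_g = T p48 := mul_of k_m_h g_m_g g_p48 c_m_h_m_g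

theorem e_m_g_m_i : U sm_g * T m_i = T p49 := mul_of k_m_g g_m_i g_p49 c_m_g_m_i

theorem e_m_i_m_g : U sm_i * T m_g = T p49 := mul_of k_m_i g_m_g g_p49 c_m_i_m_g

theorem e_m_h_m_i : U sm_h * T m_i = T p50 := mul_of k_m_h g_m_i g_p50 c_m_h_m_i

theorem e_m_i_m_h : U sm_i * T m_h = T p51 := mul_of k_m_i g_m_h g_p51 c_m_i_m_h

theorem e_m_i_p50 : U sm_i * T p50 = T p52 := mul_of k_m_i g_p50 g_p52 c_m_i_p50

theorem e_m_h_p51 : U sm_h * T p51 = T p52 := mul_of k_m_h g_p51 g_p52 c_m_h_p51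

theorem e_m_d_p50 : U sm_d * T p50 = T p53 := mul_of k_m_d g_p50 g_p53 c_m_d_p50

theorem e_m_f_p53 : U sm_f * T p53 = T p54 := mul_of k_m_f g_p53 g_p54 c_m_f_p53

theorem e_m_e_p54 : U sm_e * T p54 = T p55 := mul_of k_m_e g_p54 g_p55 c_m_e_p54

theorem e_m_d_p55 : U sm_d * T p55 = T p56 := mul_of k_m_d g_p55 g_p56 c_m_d_p55

theorem e_m_b_p56 : U sm_b * T p56 = T p57 := mul_of k_m_b g_p56 g_p57 c_m_b_p56

theorem e_m_c_p57 : U sm_c * T p57 = T p58 := mul_of k_m_c g_p57 g_p58 c_m_c_p57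

theorem e_m_d_p58 : U sm_d * T p58 = T p59 := mul_of k_m_d g_p58 g_p59 c_m_d_p58

theorem e_p59_mI : U sp59 * T mI = T p59 := mul_of k_p59 g_mI g_p59 c_p59_mI

theorem e_p59_p59 : U sp59 * T p59 = T p60 := mul_of k_p59 g_p59 g_p60 c_p59_p59

theorem e_p60_mI : U sp60 * T mI = T p60 := mul_of k_p60 g_mI g_p60 c_p60_mI

theorem e_p60_p60 : U sp60 * T p60 = T p61 := mul_of k_p60 g_p60 g_p61 c_p60_p60

theorem e_p61_mI : U sp61 * T mI = T p61 := mul_of k_p61 g_mI g_p61 c_p61_mI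

theorem e_p61_p61 : U sp61 * T p61 = T p62 := mul_of k_p61 g_p61 g_p62 c_p61_p61

theorem e_p62_mI : U sp62 * T mI = T p62 := mul_of k_p62 g_mI g_p62 c_p62_mI

theorem e_p62_p60 : U sp62 * T p60 = T mI := mul_of k_p62 g_p60 g_mI c_p62_p60

theorem e_m_e_p46 : U sm_e * T p46 = T p63 := mul_of k_m_e g_p46 g_p63 c_m_e_p46

theorem e_m_d_p63 : U sm_d * T p63 = T p64 := mul_of k_m_d g_p63 g_p64 c_m_d_p63

theorem e_m_c_p64 : U sm_c * T p64 = T p65 := mul_of k_m_c g_p64 g_p65 c_m_c_p64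

theorem e_m_b_p65 : U sm_b * T p65 = T p66 := mul_of k_m_b g_p65 g_p66 c_m_b_p65

theorem e_m_a_p66 : U sm_a * T p66 = T p67 := mul_of k_m_a g_p66 g_p67 c_m_a_p66

theorem e_p67_mI : U sp67 * T mI = T p67 := mul_of k_p67 g_mI g_p67 c_p67_mI

theorem e_p67_p67 : U sp67 * T p67 = T p68 := mul_of k_p67 g_p67 g_p68 c_p67_p67

theorem e_p68_mI : U sp68 * T mI = T p68 := mul_of k_p68 g_mI g_p68 c_p68_mI

theorem e_p68_p68 : U sp68 * T p68 = T p69 := mul_of k_p68 g_p68 g_p69 c_p68_p68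

theorem e_p69_mI : U sp69 * T mI = T p69 := mul_of k_p69 g_mI g_p69 c_p69_mI

theorem e_p69_p69 : U sp69 * T p69 = T p70 := mul_of k_p69 g_p69 g_p70 c_p69_p69

theorem e_p70_mI : U sp70 * T mI = T p70 := mul_of k_p70 g_mI g_p70 c_p70_mI

theorem e_p70_p67 : U sp70 * T p67 = T mI := mul_of k_p70 g_p67 g_mI c_p70_p67

theorem e_m_f_p48 : U sm_f * T p48 = T p71 := mul_of k_m_f g_p48 g_p71 c_m_f_p48

theorem e_m_e_p71 : U sm_e * T p71 = T p72 := mul_of k_m_e g_p71 g_p72 c_m_e_p71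

theorem e_m_d_p72 : U sm_d * T p72 = T p73 := mul_of k_m_d g_p72 g_p73 c_m_d_p72

theorem e_m_c_p73 : U sm_c * T p73 = T p74 := mul_of k_m_c g_p73 g_p74 c_m_c_p73

theorem e_m_b_p74 : U sm_b * T p74 = T p75 := mul_of k_m_b g_p74 g_p75 c_m_b_p74

theorem e_p75_mI : U sp75 * T mI = T p75 := mul_of k_p75 g_mI g_p75 c_p75_mI

theorem e_p75_p75 : U sp75 * T p75 = T p76 := mul_of k_p75 g_p75 g_p76 c_p75_p75

theorem e_p76_mI : U sp76 * T mI = T p76 := mul_of k_p76 g_mI g_p76 c_p76_mI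

theorem e_p76_p76 : U sp76 * T p76 = T p77 := mul_of k_p76 g_p76 g_p77 c_p76_p76

theorem e_p77_mI : U sp77 * T mI = T p77 := mul_of k_p77 g_mI g_p77 c_p77_mI

theorem e_p77_p77 : U sp77 * T p77 = T p78 := mul_of k_p77 g_p77 g_p78 c_p77_p77

theorem e_p78_mI : U sp78 * T mI = T p78 := mul_of k_p78 g_mI g_p78 c_p78_mI

theorem e_p78_p75 : U sp78 * T p75 = T mI := mul_of k_p78 g_p75 g_mI c_p78_p75

theorem u_m_a : U sm_a = T m_a := u_of e_m_a_mI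

theorem u_m_b : U sm_b = T m_b := u_of e_m_b_mI

theorem u_m_c : U sm_c = T m_c := u_of e_m_c_mI

theorem u_m_d : U sm_d = T m_d := u_of e_m_d_mI

theorem u_m_e : U sm_e = T m_e := u_of e_m_e_mI

theorem u_m_f : U sm_f = T m_f := u_of e_m_f_mI

theorem u_m_g : U sm_g = T m_g := u_of e_m_g_mI

theorem u_m_h : U sm_h = T m_h := u_of e_m_h_mI

theorem u_m_i : U sm_i = T m_i := u_of e_m_i_mI

theorem u_p59 : U sp59 = T p59 := u_of e_p59_mI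

theorem u_p60 : U sp60 = T p60 := u_of e_p60_mI

theorem u_p61 : U sp61 = T p61 := u_of e_p61_mI

theorem u_p62 : U sp62 = T p62 := u_of e_p62_mI

theorem u_p67 : U sp67 = T p67 := u_of e_p67_mI

theorem u_p68 : U sp68 = T p68 := u_of e_p68_mI

theorem u_p69 : U sp69 = T p69 := u_of e_p69_mI

theorem u_p70 : U sp70 = T p70 := u_of e_p70_mI

theorem u_p75 : U sp75 = T p75 := u_of e_p75_mI

theorem u_p76 : U sp76 = T p76 := u_of e_p76_mI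

theorem u_p77 : U sp77 = T p77 := u_of e_p77_mI

theorem u_p78 : U sp78 = T p78 := u_of e_p78_mI

theorem f_m_a_mI : T m_a * T mI = T m_a := f_of u_m_a e_m_a_mI

theorem f_m_b_mI : T m_b * T mI = T m_b := f_of u_m_b e_m_b_mI

theorem f_m_c_mI : T m_c * T mI = T m_c := f_of u_m_c e_m_c_mI

theorem f_m_d_mI : T m_d * T mI = T m_d := f_of u_m_d e_m_d_mI

theorem f_m_e_mI : T m_e * T mI = T m_e := f_of u_m_e e_m_e_mI

theorem f_m_f_mI : T m_f * T mI = T m_f := f_of u_m_f e_m_f_mI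

theorem f_m_g_mI : T m_g * T mI = T m_g := f_of u_m_g e_m_g_mI

theorem f_m_h_mI : T m_h * T mI = T m_h := f_of u_m_h e_m_h_mI

theorem f_m_i_mI : T m_i * T mI = T m_i := f_of u_m_i e_m_i_mI

theorem f_m_a_m_a : T m_a * T m_a = T mI := f_of u_m_a e_m_a_m_a

theorem f_m_b_m_b : T m_b * T m_b = T mI := f_of u_m_b e_m_b_m_b

theorem f_m_c_m_c : T m_c * T m_c = T mI := f_of u_m_c e_m_c_m_c

theorem f_m_d_m_d : T m_d * T m_d = T mI := f_of u_m_d e_m_d_m_d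

theorem f_m_e_m_e : T m_e * T m_e = T mI := f_of u_m_e e_m_e_m_e

theorem f_m_f_m_f : T m_f * T m_f = T mI := f_of u_m_f e_m_f_m_f

theorem f_m_g_m_g : T m_g * T m_g = T mI := f_of u_m_g e_m_g_m_g

theorem f_m_h_m_h : T m_h * T m_h = T mI := f_of u_m_h e_m_h_m_h

theorem f_m_i_m_i : T m_i * T m_i = T mI := f_of u_m_i e_m_i_m_i

theorem f_m_a_m_b : T m_a * T m_b = T p1 := f_of u_m_a e_m_a_m_b

theorem f_m_b_m_a : T m_b * T m_a = T p2 := f_of u_m_b e_m_b_m_a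

theorem f_m_b_p1 : T m_b * T p1 = T p3 := f_of u_m_b e_m_b_p1

theorem f_m_a_p2 : T m_a * T p2 = T p3 := f_of u_m_a e_m_a_p2

theorem f_m_a_m_c : T m_a * T m_c = T p4 := f_of u_m_a e_m_a_m_c

theorem f_m_c_m_a : T m_c * T m_a = T p4 := f_of u_m_c e_m_c_m_a

theorem f_m_a_m_d : T m_a * T m_d = T p5 := f_of u_m_a e_m_a_m_d

theorem f_m_d_m_a : T m_d * T m_a = T p5 := f_of u_m_d e_m_d_m_a

theorem f_m_a_m_e : T m_a * T m_e = T p6 := f_of u_m_a e_m_a_m_e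

theorem f_m_e_m_a : T m_e * T m_a = T p6 := f_of u_m_e e_m_e_m_a

theorem f_m_a_m_f : T m_a * T m_f = T p7 := f_of u_m_a e_m_a_m_f

theorem f_m_f_m_a : T m_f * T m_a = T p7 := f_of u_m_f e_m_f_m_a

theorem f_m_a_m_g : T m_a * T m_g = T p8 := f_of u_m_a e_m_a_m_g

theorem f_m_g_m_a : T m_g * T m_a = T p8 := f_of u_m_g e_m_g_m_a

theorem f_m_a_m_h : T m_a * T m_h = T p9 := f_of u_m_a e_m_a_m_h

theorem f_m_h_m_a : T m_h * T m_a = T p9 := f_of u_m_h e_m_h_m_a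

theorem f_m_a_m_i : T m_a * T m_i = T p10 := f_of u_m_a e_m_a_m_i

theorem f_m_i_m_a : T m_i * T m_a = T p10 := f_of u_m_i e_m_i_m_a

theorem f_m_b_m_c : T m_b * T m_c = T p11 := f_of u_m_b e_m_b_m_c

theorem f_m_c_m_b : T m_c * T m_b = T p12 := f_of u_m_c e_m_c_m_b

theorem f_m_c_p11 : T m_c * T p11 = T p13 := f_of u_m_c e_m_c_p11

theorem f_m_b_p12 : T m_b * T p12 = T p13 := f_of u_m_b e_m_b_p12

theorem f_m_b_m_d : T m_b * T m_d = T p14 := f_of u_m_b e_m_b_m_d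

theorem f_m_d_m_b : T m_d * T m_b = T p14 := f_of u_m_d e_m_d_m_b

theorem f_m_b_m_e : T m_b * T m_e = T p15 := f_of u_m_b e_m_b_m_e

theorem f_m_e_m_b : T m_e * T m_b = T p15 := f_of u_m_e e_m_e_m_b

theorem f_m_b_m_f : T m_b * T m_f = T p16 := f_of u_m_b e_m_b_m_f

theorem f_m_f_m_b : T m_f * T m_b = T p16 := f_of u_m_f e_m_f_m_b

theorem f_m_b_m_g : T m_b * T m_g = T p17 := f_of u_m_b e_m_b_m_g

theorem f_m_g_m_b : T m_g * T m_b = T p17 := f_of u_m_g e_m_g_m_b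

theorem f_m_b_m_h : T m_b * T m_h = T p18 := f_of u_m_b e_m_b_m_h

theorem f_m_h_m_b : T m_h * T m_b = T p18 := f_of u_m_h e_m_h_m_b

theorem f_m_b_m_i : T m_b * T m_i = T p19 := f_of u_m_b e_m_b_m_i

theorem f_m_i_m_b : T m_i * T m_b = T p19 := f_of u_m_i e_m_i_m_b

theorem f_m_c_m_d : T m_c * T m_d = T p20 := f_of u_m_c e_m_c_m_d

theorem f_m_d_m_c : T m_d * T m_c = T p21 := f_of u_m_d e_m_d_m_c

theorem f_m_d_p20 : T m_d * T p20 = T p22 := f_of u_m_d e_m_d_p20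

theorem f_m_c_p21 : T m_c * T p21 = T p22 := f_of u_m_c e_m_c_p21

theorem f_m_c_m_e : T m_c * T m_e = T p23 := f_of u_m_c e_m_c_m_e

theorem f_m_e_m_c : T m_e * T m_c = T p23 := f_of u_m_e e_m_e_m_c

theorem f_m_c_m_f : T m_c * T m_f = T p24 := f_of u_m_c e_m_c_m_f

theorem f_m_f_m_c : T m_f * T m_c = T p24 := f_of u_m_f e_m_f_m_c

theorem f_m_c_m_g : T m_c * T m_g = T p25 := f_of u_m_c e_m_c_m_g

theorem f_m_g_m_c : T m_g * T m_c = T p25 := f_of u_m_g e_m_g_m_c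

theorem f_m_c_m_h : T m_c * T m_h = T p26 := f_of u_m_c e_m_c_m_h

theorem f_m_h_m_c : T m_h * T m_c = T p26 := f_of u_m_h e_m_h_m_c

theorem f_m_c_m_i : T m_c * T m_i = T p27 := f_of u_m_c e_m_c_m_i

theorem f_m_i_m_c : T m_i * T m_c = T p27 := f_of u_m_i e_m_i_m_c

theorem f_m_d_m_e : T m_d * T m_e = T p28 := f_of u_m_d e_m_d_m_e

theorem f_m_e_m_d : T m_e * T m_d = T p29 := f_of u_m_e e_m_e_m_d

theorem f_m_e_p28 : T m_e * T p28 = T p30 := f_of u_m_e e_m_e_p28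

theorem f_m_d_p29 : T m_d * T p29 = T p30 := f_of u_m_d e_m_d_p29

theorem f_m_d_m_f : T m_d * T m_f = T p31 := f_of u_m_d e_m_d_m_f

theorem f_m_f_m_d : T m_f * T m_d = T p31 := f_of u_m_f e_m_f_m_d

theorem f_m_d_m_g : T m_d * T m_g = T p32 := f_of u_m_d e_m_d_m_g

theorem f_m_g_m_d : T m_g * T m_d = T p32 := f_of u_m_g e_m_g_m_d

theorem f_m_d_m_h : T m_d * T m_h = T p33 := f_of u_m_d e_m_d_m_h

theorem f_m_h_m_d : T m_h * T m_d = T p34 := f_of u_m_h e_m_h_m_d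

theorem f_m_h_p33 : T m_h * T p33 = T p35 := f_of u_m_h e_m_h_p33

theorem f_m_d_p34 : T m_d * T p34 = T p35 := f_of u_m_d e_m_d_p34

theorem f_m_d_m_i : T m_d * T m_i = T p36 := f_of u_m_d e_m_d_m_i

theorem f_m_i_m_d : T m_i * T m_d = T p36 := f_of u_m_i e_m_i_m_d

theorem f_m_e_m_f : T m_e * T m_f = T p37 := f_of u_m_e e_m_e_m_f

theorem f_m_f_m_e : T m_f * T m_e = T p38 := f_of u_m_f e_m_f_m_e

theorem f_m_f_p37 : T m_f * T p37 = T p39 := f_of u_m_f e_m_f_p37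

theorem f_m_e_p38 : T m_e * T p38 = T p39 := f_of u_m_e e_m_e_p38

theorem f_m_e_m_g : T m_e * T m_g = T p40 := f_of u_m_e e_m_e_m_g

theorem f_m_g_m_e : T m_g * T m_e = T p40 := f_of u_m_g e_m_g_m_e

theorem f_m_e_m_h : T m_e * T m_h = T p41 := f_of u_m_e e_m_e_m_h

theorem f_m_h_m_e : T m_h * T m_e = T p41 := f_of u_m_h e_m_h_m_e

theorem f_m_e_m_i : T m_e * T m_i = T p42 := f_of u_m_e e_m_e_m_i

theorem f_m_i_m_e : T m_i * T m_e = T p42 := f_of u_m_i e_m_i_m_e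

theorem f_m_f_m_g : T m_f * T m_g = T p43 := f_of u_m_f e_m_f_m_g

theorem f_m_g_m_f : T m_g * T m_f = T p44 := f_of u_m_g e_m_g_m_f

theorem f_m_g_p43 : T m_g * T p43 = T p45 := f_of u_m_g e_m_g_p43

theorem f_m_f_p44 : T m_f * T p44 = T p45 := f_of u_m_f e_m_f_p44

theorem f_m_f_m_h : T m_f * T m_h = T p46 := f_of u_m_f e_m_f_m_h

theorem f_m_h_m_f : T m_h * T m_f = T p46 := f_of u_m_h e_m_h_m_f

theorem f_m_f_m_i : T m_f * T m_i = T p47 := f_of u_m_f e_m_f_m_i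

theorem f_m_i_m_f : T m_i * T m_f = T p47 := f_of u_m_i e_m_i_m_f

theorem f_m_g_m_h : T m_g * T m_h = T p48 := f_of u_m_g e_m_g_m_h

theorem f_m_h_m_g : T m_h * T m_g = T p48 := f_of u_m_h e_m_h_m_g

theorem f_m_g_m_i : T m_g * T m_i = T p49 := f_of u_m_g e_m_g_m_i

theorem f_m_i_m_g : T m_i * T m_g = T p49 := f_of u_m_i e_m_i_m_g

theorem f_m_h_m_i : T m_h * T m_i = T p50 := f_of u_m_h e_m_h_m_i

theorem f_m_i_m_h : T m_i * T m_h = T p51 := f_of u_m_i e_m_i_m_h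

theorem f_m_i_p50 : T m_i * T p50 = T p52 := f_of u_m_i e_m_i_p50

theorem f_m_h_p51 : T m_h * T p51 = T p52 := f_of u_m_h e_m_h_p51

theorem f_m_d_p50 : T m_d * T p50 = T p53 := f_of u_m_d e_m_d_p50

theorem f_m_f_p53 : T m_f * T p53 = T p54 := f_of u_m_f e_m_f_p53

theorem f_m_e_p54 : T m_e * T p54 = T p55 := f_of u_m_e e_m_e_p54

theorem f_m_d_p55 : T m_d * T p55 = T p56 := f_of u_m_d e_m_d_p55

theorem f_m_b_p56 : T m_b * T p56 = T p57 := f_of u_m_b e_m_b_p56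

theorem f_m_c_p57 : T m_c * T p57 = T p58 := f_of u_m_c e_m_c_p57

theorem f_m_d_p58 : T m_d * T p58 = T p59 := f_of u_m_d e_m_d_p58

theorem f_p59_mI : T p59 * T mI = T p59 := f_of u_p59 e_p59_mI

theorem f_p59_p59 : T p59 * T p59 = T p60 := f_of u_p59 e_p59_p59

theorem f_p60_mI : T p60 * T mI = T p60 := f_of u_p60 e_p60_mI

theorem f_p60_p60 : T p60 * T p60 = T p61 := f_of u_p60 e_p60_p60

theorem f_p61_mI : T p61 * T mI = T p61 := f_of u_p61 e_p61_mI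

theorem f_p61_p61 : T p61 * T p61 = T p62 := f_of u_p61 e_p61_p61

theorem f_p62_mI : T p62 * T mI = T p62 := f_of u_p62 e_p62_mI

theorem f_p62_p60 : T p62 * T p60 = T mI := f_of u_p62 e_p62_p60

theorem f_m_e_p46 : T m_e * T p46 = T p63 := f_of u_m_e e_m_e_p46

theorem f_m_d_p63 : T m_d * T p63 = T p64 := f_of u_m_d e_m_d_p63

theorem f_m_c_p64 : T m_c * T p64 = T p65 := f_of u_m_c e_m_c_p64

theorem f_m_b_p65 : T m_b * T p65 = T p66 := f_of u_m_b e_m_b_p65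

theorem f_m_a_p66 : T m_a * T p66 = T p67 := f_of u_m_a e_m_a_p66

theorem f_p67_mI : T p67 * T mI = T p67 := f_of u_p67 e_p67_mI

theorem f_p67_p67 : T p67 * T p67 = T p68 := f_of u_p67 e_p67_p67

theorem f_p68_mI : T p68 * T mI = T p68 := f_of u_p68 e_p68_mI

theorem f_p68_p68 : T p68 * T p68 = T p69 := f_of u_p68 e_p68_p68

theorem f_p69_mI : T p69 * T mI = T p69 := f_of u_p69 e_p69_mI

theorem f_p69_p69 : T p69 * T p69 = T p70 := f_of u_p69 e_p69_p69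

theorem f_p70_mI : T p70 * T mI = T p70 := f_of u_p70 e_p70_mI

theorem f_p70_p67 : T p70 * T p67 = T mI := f_of u_p70 e_p70_p67

theorem f_m_f_p48 : T m_f * T p48 = T p71 := f_of u_m_f e_m_f_p48

theorem f_m_e_p71 : T m_e * T p71 = T p72 := f_of u_m_e e_m_e_p71

theorem f_m_d_p72 : T m_d * T p72 = T p73 := f_of u_m_d e_m_d_p72

theorem f_m_c_p73 : T m_c * T p73 = T p74 := f_of u_m_c e_m_c_p73

theorem f_m_b_p74 : T m_b * T p74 = T p75 := f_of u_m_b e_m_b_p74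

theorem f_p75_mI : T p75 * T mI = T p75 := f_of u_p75 e_p75_mI

theorem f_p75_p75 : T p75 * T p75 = T p76 := f_of u_p75 e_p75_p75

theorem f_p76_mI : T p76 * T mI = T p76 := f_of u_p76 e_p76_mI

theorem f_p76_p76 : T p76 * T p76 = T p77 := f_of u_p76 e_p76_p76

theorem f_p77_mI : T p77 * T mI = T p77 := f_of u_p77 e_p77_mI

theorem f_p77_p77 : T p77 * T p77 = T p78 := f_of u_p77 e_p77_p77

theorem f_p78_mI : T p78 * T mI = T p78 := f_of u_p78 e_p78_mI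

theorem f_p78_p75 : T p78 * T p75 = T mI := f_of u_p78 e_p78_p75

theorem sq_a : T m_a * T m_a = 1 := f_m_a_m_a.trans one

theorem sq_b : T m_b * T m_b = 1 := f_m_b_m_b.trans one

theorem sq_c : T m_c * T m_c = 1 := f_m_c_m_c.trans one

theorem sq_d : T m_d * T m_d = 1 := f_m_d_m_d.trans one

theorem sq_e : T m_e * T m_e = 1 := f_m_e_m_e.trans one

theorem sq_f : T m_f * T m_f = 1 := f_m_f_m_f.trans one

theorem sq_g : T m_g * T m_g = 1 := f_m_g_m_g.trans one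

theorem sq_h : T m_h * T m_h = 1 := f_m_h_m_h.trans one

theorem sq_i : T m_i * T m_i = 1 := f_m_i_m_i.trans one

theorem br_a_b : T m_a * (T m_b * T m_a) = T m_b * (T m_a * T m_b) :=
  br_of f_m_b_m_a f_m_a_p2 f_m_a_m_b f_m_b_p1

theorem cm_a_c : T m_a * T m_c = T m_c * T m_a := cm_of f_m_a_m_c f_m_c_m_a

theorem cm_a_d : T m_a * T m_d = T m_d * T m_a := cm_of f_m_a_m_d f_m_d_m_a

theorem cm_a_e : T m_a * T m_e = T m_e * T m_a := cm_of f_m_a_m_e f_m_e_m_a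

theorem cm_a_f : T m_a * T m_f = T m_f * T m_a := cm_of f_m_a_m_f f_m_f_m_a

theorem cm_a_g : T m_a * T m_g = T m_g * T m_a := cm_of f_m_a_m_g f_m_g_m_a

theorem cm_a_h : T m_a * T m_h = T m_h * T m_a := cm_of f_m_a_m_h f_m_h_m_a

theorem cm_a_i : T m_a * T m_i = T m_i * T m_a := cm_of f_m_a_m_i f_m_i_m_a

theorem br_b_c : T m_b * (T m_c * T m_b) = T m_c * (T m_b * T m_c) :=
  br_of f_m_c_m_b f_m_b_p12 f_m_b_m_c f_m_c_p11

theorem cm_b_d : T m_b * T m_d = T m_d * T m_b := cm_of f_m_b_m_d f_m_d_m_b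

theorem cm_b_e : T m_b * T m_e = T m_e * T m_b := cm_of f_m_b_m_e f_m_e_m_b

theorem cm_b_f : T m_b * T m_f = T m_f * T m_b := cm_of f_m_b_m_f f_m_f_m_b

theorem cm_b_g : T m_b * T m_g = T m_g * T m_b := cm_of f_m_b_m_g f_m_g_m_b

theorem cm_b_h : T m_b * T m_h = T m_h * T m_b := cm_of f_m_b_m_h f_m_h_m_b

theorem cm_b_i : T m_b * T m_i = T m_i * T m_b := cm_of f_m_b_m_i f_m_i_m_b

theorem br_c_d : T m_c * (T m_d * T m_c) = T m_d * (T m_c * T m_d) :=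
  br_of f_m_d_m_c f_m_c_p21 f_m_c_m_d f_m_d_p20

theorem cm_c_e : T m_c * T m_e = T m_e * T m_c := cm_of f_m_c_m_e f_m_e_m_c

theorem cm_c_f : T m_c * T m_f = T m_f * T m_c := cm_of f_m_c_m_f f_m_f_m_c

theorem cm_c_g : T m_c * T m_g = T m_g * T m_c := cm_of f_m_c_m_g f_m_g_m_c

theorem cm_c_h : T m_c * T m_h = T m_h * T m_c := cm_of f_m_c_m_h f_m_h_m_c

theorem cm_c_i : T m_c * T m_i = T m_i * T m_c := cm_of f_m_c_m_i f_m_i_m_c

theorem br_d_e : T m_d * (T m_e * T m_d) = T m_e * (T m_d * T m_e) :=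
  br_of f_m_e_m_d f_m_d_p29 f_m_d_m_e f_m_e_p28

theorem cm_d_f : T m_d * T m_f = T m_f * T m_d := cm_of f_m_d_m_f f_m_f_m_d

theorem cm_d_g : T m_d * T m_g = T m_g * T m_d := cm_of f_m_d_m_g f_m_g_m_d

theorem br_d_h : T m_d * (T m_h * T m_d) = T m_h * (T m_d * T m_h) :=
  br_of f_m_h_m_d f_m_d_p34 f_m_d_m_h f_m_h_p33

theorem cm_d_i : T m_d * T m_i = T m_i * T m_d := cm_of f_m_d_m_i f_m_i_m_d

theorem br_e_f : T m_e * (T m_f * T m_e) = T m_f * (T m_e * T m_f) :=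
  br_of f_m_f_m_e f_m_e_p38 f_m_e_m_f f_m_f_p37

theorem cm_e_g : T m_e * T m_g = T m_g * T m_e := cm_of f_m_e_m_g f_m_g_m_e

theorem cm_e_h : T m_e * T m_h = T m_h * T m_e := cm_of f_m_e_m_h f_m_h_m_e

theorem cm_e_i : T m_e * T m_i = T m_i * T m_e := cm_of f_m_e_m_i f_m_i_m_e

theorem br_f_g : T m_f * (T m_g * T m_f) = T m_g * (T m_f * T m_g) :=
  br_of f_m_g_m_f f_m_f_p44 f_m_f_m_g f_m_g_p43

theorem cm_f_h : T m_f * T m_h = T m_h * T m_f := cm_of f_m_f_m_h f_m_h_m_f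

theorem cm_f_i : T m_f * T m_i = T m_i * T m_f := cm_of f_m_f_m_i f_m_i_m_f

theorem cm_g_h : T m_g * T m_h = T m_h * T m_g := cm_of f_m_g_m_h f_m_h_m_g

theorem cm_g_i : T m_g * T m_i = T m_i * T m_g := cm_of f_m_g_m_i f_m_i_m_g

theorem br_h_i : T m_h * (T m_i * T m_h) = T m_i * (T m_h * T m_i) :=
  br_of f_m_i_m_h f_m_h_p51 f_m_h_m_i f_m_i_p50

theorem w0 : (T m_d * (T m_c * (T m_b * (T m_d * (T m_e * (T m_f * (T m_d * (T m_h * (T m_i))))))))) ^ 10 = 1 :=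
  p10_of (st_of (st_of (st_of (st_of (st_of (st_of (st_of (st_of rfl f_m_h_m_i) f_m_d_p50) f_m_f_p53) f_m_e_p54) f_m_d_p55) f_m_b_p56) f_m_c_p57) f_m_d_p58) f_p59_p59 f_p60_p60 f_p61_p61 f_p62_p60

theorem w1 : (T m_a * (T m_b * (T m_c * (T m_d * (T m_e * (T m_f * (T m_h))))))) ^ 9 = 1 :=
  p9_of (st_of (st_of (st_of (st_of (st_of (st_of rfl f_m_f_m_h) f_m_e_p46) f_m_d_p63) f_m_c_p64) f_m_b_p65) f_m_a_p66) f_p67_p67 f_p68_p68 f_p69_p69 f_p70_p67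

theorem w2 : (T m_b * (T m_c * (T m_d * (T m_e * (T m_f * (T m_g * (T m_h))))))) ^ 9 = 1 :=
  p9_of (st_of (st_of (st_of (st_of (st_of (st_of rfl f_m_g_m_h) f_m_f_p48) f_m_e_p71) f_m_d_p72) f_m_c_p73) f_m_b_p74) f_p75_p75 f_p76_p76 f_p77_p77 f_p78_p75

end Cfsg.Agent.H28.F78
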