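import Cfsg.Agent.H28_F78
import Cfsg.Agent.H8_Fi22M

/-! The representation of degree 78 of Fi22 over the field of 13 elements. -/

set_option autoImplicit false
set_option maxRecDepth 100000

namespace Cfsg.Agent.H28.F78

open Cfsg.Agent.H28.PM Cfsg.Spor Cfsg.Agent.H8.Cox

/-- involutory matrices -/
noncomputable def gl (β : ℕ) (h : T β * T β = 1) : GL (Fin 78) (ZMod 13) := ⟨T β, T β, h, h⟩

theorem gl_sq {β : ℕ} (h : T β * T β = 1) : gl β h * gl β h = 1 := Units.ext h

theorem pair2 {a b : ℕ} (ha : T a * T a = 1) (hb : T b * T b = 1) (h : T a * T b = T b * T a) :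
    (gl a ha * gl b hb) ^ 2 = 1 ∧ (gl b hb * gl a ha) ^ 2 = 1 := by
  have h1 : gl a ha * gl b hb = gl b hb * gl a ha := Units.ext h
  have e : (gl a ha * gl b hb) ^ 2 = 1 := by
    rw [pow_two]
    calc gl a ha * gl b hb * (gl a ha * gl b hb) = gl a ha * gl b hb * (gl b hb * gl a ha) := by rw [h1]
      _ = gl a ha * (gl b hb * gl b hb) * gl a ha := by simp only [mul_assoc]
      _ = 1 := by rw [gl_sq hb, mul_one, gl_sq ha]
  exact ⟨e, by rw [← h1]; exact e⟩

theorem pair3a {a b : ℕ} (ha : T a * T a = 1) (hb : T b * T b = 1) (h : T a * (T b * T a) = T b * (T a * T b)) :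
    (gl a ha * gl b hb) ^ 3 = 1 := by
  have h1 : gl a ha * (gl b hb * gl a ha) = gl b hb * (gl a ha * gl b hb) := Units.ext h
  have e : (gl a ha * gl b hb) ^ 3 = 1 := by
    calc (gl a ha * gl b hb) ^ 3 = (gl a ha * (gl b hb * gl a ha)) * (gl b hb * (gl a ha * gl b hb)) := by
          simp only [pow_succ, pow_zero, one_mul, mul_assoc]
      _ = (gl a ha * (gl b hb * gl a ha)) * (gl a ha * (gl b hb * gl a ha)) := by rw [← h1]
      _ = gl a ha * gl b hb * (gl a ha * gl a ha) * gl b hb * gl a ha := by simp only [mul_assoc]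
      _ = gl a ha * (gl b hb * gl b hb) * gl a ha := by rw [gl_sq ha, mul_one]; simp only [mul_assoc]
      _ = 1 := by rw [gl_sq hb, mul_one, gl_sq ha]
  exact e

theorem pair3 {a b : ℕ} (ha : T a * T a = 1) (hb : T b * T b = 1) (h : T a * (T b * T a) = T b * (T a * T b)) :
    (gl a ha * gl b hb) ^ 3 = 1 ∧ (gl b hb * gl a ha) ^ 3 = 1 := ⟨pair3a ha hb h, pair3a hb ha h.symm⟩

/-- images of the generators -/
noncomputable def f : Fi22.Gen → GL (Fin 78) (ZMod 13)
  | .a => gl m_a sq_a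
  | .b => gl m_b sq_b
  | .c => gl m_c sq_c
  | .d => gl m_d sq_d
  | .e => gl m_e sq_e
  | .f => gl m_f sq_f
  | .g => gl m_g sq_g
  | .h => gl m_h sq_h
  | .i => gl m_i sq_i

theorem cox : ∀ p q : Fi22.Gen, (f p * f q) ^ coxLabel Fi22.edges p q = 1 := by
  intro p q
  cases p <;> cases q
  · rw [show coxLabel Fi22.edges .a .a = 1 by decide, pow_one]; exact gl_sq sq_a
  · rw [show coxLabel Fi22.edges .a .b = 3 by decide]; exact (pair3 sq_a sq_b br_a_b).1
  · rw [show coxLabel Fi22.edges .a .c = 2 by decide]; exact (pair2 sq_a sq_c cm_a_c).1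
  · rw [show coxLabel Fi22.edges .a .d = 2 by decide]; exact (pair2 sq_a sq_d cm_a_d).1
  · rw [show coxLabel Fi22.edges .a .e = 2 by decide]; exact (pair2 sq_a sq_e cm_a_e).1
  · rw [show coxLabel Fi22.edges .a .f = 2 by decide]; exact (pair2 sq_a sq_f cm_a_f).1
  · rw [show coxLabel Fi22.edges .a .g = 2 by decide]; exact (pair2 sq_a sq_g cm_a_g).1
  · rw [show coxLabel Fi22.edges .a .h = 2 by decide]; exact (pair2 sq_a sq_h cm_a_h).1
  · rw [show coxLabel Fi22.edges .a .i = 2 by decide]; exact (pair2 sq_a sq_i cm_a_i).1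
  · rw [show coxLabel Fi22.edges .b .a = 3 by decide]; exact (pair3 sq_a sq_b br_a_b).2
  · rw [show coxLabel Fi22.edges .b .b = 1 by decide, pow_one]; exact gl_sq sq_b
  · rw [show coxLabel Fi22.edges .b .c = 3 by decide]; exact (pair3 sq_b sq_c br_b_c).1
  · rw [show coxLabel Fi22.edges .b .d = 2 by decide]; exact (pair2 sq_b sq_d cm_b_d).1
  · rw [show coxLabel Fi22.edges .b .e = 2 by decide]; exact (pair2 sq_b sq_e cm_b_e).1
  · rw [show coxLabel Fi22.edges .b .f = 2 by decide]; exact (pair2 sq_b sq_f cm_b_f).1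
  · rw [show coxLabel Fi22.edges .b .g = 2 by decide]; exact (pair2 sq_b sq_g cm_b_g).1
  · rw [show coxLabel Fi22.edges .b .h = 2 by decide]; exact (pair2 sq_b sq_h cm_b_h).1
  · rw [show coxLabel Fi22.edges .b .i = 2 by decide]; exact (pair2 sq_b sq_i cm_b_i).1
  · rw [show coxLabel Fi22.edges .c .a = 2 by decide]; exact (pair2 sq_a sq_c cm_a_c).2
  · rw [show coxLabel Fi22.edges .c .b = 3 by decide]; exact (pair3 sq_b sq_c br_b_c).2
  · rw [show coxLabel Fi22.edges .c .c = 1 by decide, pow_one]; exact gl_sq sq_c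
  · rw [show coxLabel Fi22.edges .c .d = 3 by decide]; exact (pair3 sq_c sq_d br_c_d).1
  · rw [show coxLabel Fi22.edges .c .e = 2 by decide]; exact (pair2 sq_c sq_e cm_c_e).1
  · rw [show coxLabel Fi22.edges .c .f = 2 by decide]; exact (pair2 sq_c sq_f cm_c_f).1
  · rw [show coxLabel Fi22.edges .c .g = 2 by decide]; exact (pair2 sq_c sq_g cm_c_g).1
  · rw [show coxLabel Fi22.edges .c .h = 2 by decide]; exact (pair2 sq_c sq_h cm_c_h).1
  · rw [show coxLabel Fi22.edges .c .i = 2 by decide]; exact (pair2 sq_c sq_i cm_c_i).1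
  · rw [show coxLabel Fi22.edges .d .a = 2 by decide]; exact (pair2 sq_a sq_d cm_a_d).2
  · rw [show coxLabel Fi22.edges .d .b = 2 by decide]; exact (pair2 sq_b sq_d cm_b_d).2
  · rw [show coxLabel Fi22.edges .d .c = 3 by decide]; exact (pair3 sq_c sq_d br_c_d).2
  · rw [show coxLabel Fi22.edges .d .d = 1 by decide, pow_one]; exact gl_sq sq_d
  · rw [show coxLabel Fi22.edges .d .e = 3 by decide]; exact (pair3 sq_d sq_e br_d_e).1
  · rw [show coxLabel Fi22.edges .d .f = 2 by decide]; exact (pair2 sq_d sq_f cm_d_f).1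
  · rw [show coxLabel Fi22.edges .d .g = 2 by decide]; exact (pair2 sq_d sq_g cm_d_g).1
  · rw [show coxLabel Fi22.edges .d .h = 3 by decide]; exact (pair3 sq_d sq_h br_d_h).1
  · rw [show coxLabel Fi22.edges .d .i = 2 by decide]; exact (pair2 sq_d sq_i cm_d_i).1
  · rw [show coxLabel Fi22.edges .e .a = 2 by decide]; exact (pair2 sq_a sq_e cm_a_e).2
  · rw [show coxLabel Fi22.edges .e .b = 2 by decide]; exact (pair2 sq_b sq_e cm_b_e).2
  · rw [show coxLabel Fi22.edges .e .c = 2 by decide]; exact (pair2 sq_c sq_e cm_c_e).2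
  · rw [show coxLabel Fi22.edges .e .d = 3 by decide]; exact (pair3 sq_d sq_e br_d_e).2
  · rw [show coxLabel Fi22.edges .e .e = 1 by decide, pow_one]; exact gl_sq sq_e
  · rw [show coxLabel Fi22.edges .e .f = 3 by decide]; exact (pair3 sq_e sq_f br_e_f).1
  · rw [show coxLabel Fi22.edges .e .g = 2 by decide]; exact (pair2 sq_e sq_g cm_e_g).1
  · rw [show coxLabel Fi22.edges .e .h = 2 by decide]; exact (pair2 sq_e sq_h cm_e_h).1
  · rw [show coxLabel Fi22.edges .e .i = 2 by decide]; exact (pair2 sq_e sq_i cm_e_i).1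
  · rw [show coxLabel Fi22.edges .f .a = 2 by decide]; exact (pair2 sq_a sq_f cm_a_f).2
  · rw [show coxLabel Fi22.edges .f .b = 2 by decide]; exact (pair2 sq_b sq_f cm_b_f).2
  · rw [show coxLabel Fi22.edges .f .c = 2 by decide]; exact (pair2 sq_c sq_f cm_c_f).2
  · rw [show coxLabel Fi22.edges .f .d = 2 by decide]; exact (pair2 sq_d sq_f cm_d_f).2
  · rw [show coxLabel Fi22.edges .f .e = 3 by decide]; exact (pair3 sq_e sq_f br_e_f).2
  · rw [show coxLabel Fi22.edges .f .f = 1 by decide, pow_one]; exact gl_sq sq_f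
  · rw [show coxLabel Fi22.edges .f .g = 3 by decide]; exact (pair3 sq_f sq_g br_f_g).1
  · rw [show coxLabel Fi22.edges .f .h = 2 by decide]; exact (pair2 sq_f sq_h cm_f_h).1
  · rw [show coxLabel Fi22.edges .f .i = 2 by decide]; exact (pair2 sq_f sq_i cm_f_i).1
  · rw [show coxLabel Fi22.edges .g .a = 2 by decide]; exact (pair2 sq_a sq_g cm_a_g).2
  · rw [show coxLabel Fi22.edges .g .b = 2 by decide]; exact (pair2 sq_b sq_g cm_b_g).2
  · rw [show coxLabel Fi22.edges .g .c = 2 by decide]; exact (pair2 sq_c sq_g cm_c_g).2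
  · rw [show coxLabel Fi22.edges .g .d = 2 by decide]; exact (pair2 sq_d sq_g cm_d_g).2
  · rw [show coxLabel Fi22.edges .g .e = 2 by decide]; exact (pair2 sq_e sq_g cm_e_g).2
  · rw [show coxLabel Fi22.edges .g .f = 3 by decide]; exact (pair3 sq_f sq_g br_f_g).2
  · rw [show coxLabel Fi22.edges .g .g = 1 by decide, pow_one]; exact gl_sq sq_g
  · rw [show coxLabel Fi22.edges .g .h = 2 by decide]; exact (pair2 sq_g sq_h cm_g_h).1
  · rw [show coxLabel Fi22.edges .g .i = 2 by decide]; exact (pair2 sq_g sq_i cm_g_i).1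
  · rw [show coxLabel Fi22.edges .h .a = 2 by decide]; exact (pair2 sq_a sq_h cm_a_h).2
  · rw [show coxLabel Fi22.edges .h .b = 2 by decide]; exact (pair2 sq_b sq_h cm_b_h).2
  · rw [show coxLabel Fi22.edges .h .c = 2 by decide]; exact (pair2 sq_c sq_h cm_c_h).2
  · rw [show coxLabel Fi22.edges .h .d = 3 by decide]; exact (pair3 sq_d sq_h br_d_h).2
  · rw [show coxLabel Fi22.edges .h .e = 2 by decide]; exact (pair2 sq_e sq_h cm_e_h).2
  · rw [show coxLabel Fi22.edges .h .f = 2 by decide]; exact (pair2 sq_f sq_h cm_f_h).2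
  · rw [show coxLabel Fi22.edges .h .g = 2 by decide]; exact (pair2 sq_g sq_h cm_g_h).2
  · rw [show coxLabel Fi22.edges .h .h = 1 by decide, pow_one]; exact gl_sq sq_h
  · rw [show coxLabel Fi22.edges .h .i = 3 by decide]; exact (pair3 sq_h sq_i br_h_i).1
  · rw [show coxLabel Fi22.edges .i .a = 2 by decide]; exact (pair2 sq_a sq_i cm_a_i).2
  · rw [show coxLabel Fi22.edges .i .b = 2 by decide]; exact (pair2 sq_b sq_i cm_b_i).2
  · rw [show coxLabel Fi22.edges .i .c = 2 by decide]; exact (pair2 sq_c sq_i cm_c_i).2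
  · rw [show coxLabel Fi22.edges .i .d = 2 by decide]; exact (pair2 sq_d sq_i cm_d_i).2
  · rw [show coxLabel Fi22.edges .i .e = 2 by decide]; exact (pair2 sq_e sq_i cm_e_i).2
  · rw [show coxLabel Fi22.edges .i .f = 2 by decide]; exact (pair2 sq_f sq_i cm_f_i).2
  · rw [show coxLabel Fi22.edges .i .g = 2 by decide]; exact (pair2 sq_g sq_i cm_g_i).2
  · rw [show coxLabel Fi22.edges .i .h = 3 by decide]; exact (pair3 sq_h sq_i br_h_i).2
  · rw [show coxLabel Fi22.edges .i .i = 1 by decide, pow_one]; exact gl_sq sq_i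

theorem rels : ∀ r ∈ coxRelators Fi22.edges ∪ {r | r ∈ Fi22.extra}, FreeGroup.lift f r = 1 := by
  rintro r (hr | hr)
  · exact (cox_iff Fi22.edges f).2 (fun p _ q _ => cox p q) r hr
  · simp only [Set.mem_ofPred_eq, Fi22.extra, List.mem_cons, List.not_mem_nil, or_false] at hr
    rcases hr with rfl | rfl | rfl
    · simp only [map_mul, map_pow, FreeGroup.lift_apply_of, mul_assoc]
      exact Units.ext w0
    · simp only [map_mul, map_pow, FreeGroup.lift_apply_of, mul_assoc]
      exact Units.ext w1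
    · simp only [map_mul, map_pow, FreeGroup.lift_apply_of, mul_assoc]
      exact Units.ext w2

theorem ent : dig (row 78 m_a 22) 22 = 12 := by decide +kernel

theorem ne_one {β i : ℕ} (hi : i < 78) {c : ℕ} (h : dig (row 78 β i) i = c) (hc : ((c : ℕ) : ZMod 13) ≠ 1) : T β ≠ 1 := by
  intro he
  have h1 := congrFun (congrFun he ⟨i, hi⟩) ⟨i, hi⟩
  rw [Matrix.one_apply_eq] at h1
  apply hc
  rw [← h1, ← h]
  rfl

theorem final : ∃ φ : Fi22 →* GL (Fin 78) (ZMod 13), Function.Injective φ := by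
  let φ : Fi22 →* GL (Fin 78) (ZMod 13) := PresentedGroup.toGroup rels
  refine ⟨φ, ?_⟩
  haveI := Cfsg.Agent.H8.Fi22M.simple
  rw [← MonoidHom.ker_eq_bot_iff]
  rcases Subgroup.Normal.eq_bot_or_eq_top (inferInstance : φ.ker.Normal) with h | h
  · exact h
  · exfalso
    have h1 : PresentedGroup.of Fi22.Gen.a ∈ φ.ker := by rw [h]; trivial
    rw [MonoidHom.mem_ker] at h1
    have h2 : φ (PresentedGroup.of Fi22.Gen.a) = f .a := PresentedGroup.toGroup.of rels
    rw [h2] at h1
    exact ne_one (by decide) ent (by decide) (congrArg Units.val h1)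

end Cfsg.Agent.H28.F78
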