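import Mathlib
import Cfsg.Prelude.Def_FischerSpaces
import Cfsg.Agent.H28_TT1

set_option autoImplicit false

/-! Fischer spaces and their involutory quandles. -/

namespace Cfsg.Agent.H28.FS

open Cfsg Cfsg.LineSystem

/-- a quandle of 3-transposition kind -/
structure FQ {Y : Type*} (op : Y → Y → Y) : Prop where
  idem : ∀ u, op u u = u
  inv : ∀ u v, op u (op u v) = v
  dist : ∀ x u v, op x (op u v) = op (op x u) (op x v)
  braid : ∀ u v, op u v ≠ v → op u v = op v u

def QL {Y : Type*} (op : Y → Y → Y) : Set (Set Y) := {l | ∃ u v, op u v ≠ v ∧ l = {u, v, op u v}}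

section FQ

variable {Y : Type*} {op : Y → Y → Y} (Q : FQ op)
include Q

theorem op_inj (u : Y) : Function.Injective (op u) := by
  intro v w h
  rw [← Q.inv u v, h, Q.inv]

theorem ne_symm {u v : Y} (h : op u v ≠ v) : op v u ≠ u := by
  intro h'
  have h1 := Q.braid u v h
  rw [h'] at h1
  -- op u v = u = op u u
  have h2 : op u v = op u u := by rw [h1, Q.idem]
  have h3 := op_inj Q u h2
  apply h; rw [h3, Q.idem]

theorem ne_of {u v : Y} (h : op u v ≠ v) : u ≠ v := by
  rintro rfl; exact h (Q.idem u)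

theorem op_ne_left {u v : Y} (h : op u v ≠ v) : op u v ≠ u := by
  intro h'
  have h2 : op u v = op u u := by rw [h', Q.idem]
  have h3 := op_inj Q u h2
  exact ne_of Q h h3.symm

theorem op_uw {u v : Y} (_h : op u v ≠ v) : op u (op u v) = v := Q.inv u v

theorem op_vw {u v : Y} (h : op u v ≠ v) : op v (op u v) = u := by
  rw [Q.braid u v h, Q.inv]

theorem op_wu {u v : Y} (h : op u v ≠ v) : op (op u v) u = v := by
  have h1 : op (op u v) (op u u) = op u (op v u) := (Q.dist u v u).symm
  rw [Q.idem] at h1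
  rw [h1, ← Q.braid u v h, Q.inv]

theorem op_wv {u v : Y} (h : op u v ≠ v) : op (op u v) v = u := by
  rw [Q.braid u v h]
  exact op_wu Q (ne_symm Q h)

/-- the third point -/
theorem third_of_mem {l : Set Y} (hl : l ∈ QL op) {x y : Y} (hx : x ∈ l) (hy : y ∈ l) (hxy : x ≠ y) :
    op x y ≠ y ∧ l = {x, y, op x y} := by
  obtain ⟨u, v, h, rfl⟩ := hl
  have e1 := op_uw Q h
  have e2 := op_vw Q h
  have e3 := op_wu Q h
  have e4 := op_wv Q h
  have e5 := Q.braid u v h
  have n1 := ne_of Q h
  have n2 := op_ne_left Q h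
  simp only [Set.mem_insert_iff, Set.mem_singleton_iff] at hx hy
  rcases hx with rfl | rfl | rfl <;> rcases hy with rfl | rfl | rfl
  · exact absurd rfl hxy
  · exact ⟨h, rfl⟩
  · rw [e1]; exact ⟨h.symm, by ext z; simp only [Set.mem_insert_iff, Set.mem_singleton_iff]; tauto⟩
  · rw [← e5]; exact ⟨n2, by ext z; simp only [Set.mem_insert_iff, Set.mem_singleton_iff]; tauto⟩
  · exact absurd rfl hxy
  · rw [e2]; exact ⟨n2.symm, by ext z; simp only [Set.mem_insert_iff, Set.mem_singleton_iff]; tauto⟩
  · rw [e3]; exact ⟨n1.symm, by ext z; simp only [Set.mem_insert_iff, Set.mem_singleton_iff]; tauto⟩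
  · rw [e4]; exact ⟨n1, by ext z; simp only [Set.mem_insert_iff, Set.mem_singleton_iff]; tauto⟩
  · exact absurd rfl hxy

theorem mem_QL {u v : Y} (h : op u v ≠ v) : ({u, v, op u v} : Set Y) ∈ QL op := ⟨u, v, h, rfl⟩

theorem partialLinear : IsPartialLinear (QL op) := by
  intro l hl m hm x y hxy hx hy hx' hy'
  rw [(third_of_mem Q hl hx hy hxy).2, (third_of_mem Q hm hx' hy' hxy).2]

theorem ncard_three {l : Set Y} (hl : l ∈ QL op) : l.ncard = 3 := by
  obtain ⟨u, v, h, rfl⟩ := hl
  rw [Set.ncard_eq_three]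
  exact ⟨u, v, op u v, ne_of Q h, (op_ne_left Q h).symm, h.symm, rfl⟩

theorem lineMap_eq (x y : Y) : lineMap (QL op) x y = op x y := by
  unfold lineMap
  split_ifs with h
  · have h1 := h.choose_spec
    obtain ⟨h1, h2, h3, h4⟩ := h1
    obtain ⟨h5, h6⟩ := third_of_mem Q h4 (x := x) (y := y) (by simp) (by simp) h3
    have h7 : op x y ∈ ({x, y, h.choose} : Set Y) := by rw [h6]; simp
    simp only [Set.mem_insert_iff, Set.mem_singleton_iff] at h7
    rcases h7 with h7 | h7 | h7
    · exact absurd h7 (op_ne_left Q h5)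
    · exact absurd h7 h5
    · exact h7.symm
  · by_contra hne
    apply h
    have hne' : op x y ≠ y := fun h' => hne h'.symm
    exact ⟨op x y, op_ne_left Q hne', hne', ne_of Q hne', mem_QL Q hne'⟩

theorem op_image {x : Y} {l : Set Y} (hl : l ∈ QL op) : op x '' l ∈ QL op := by
  obtain ⟨u, v, h, rfl⟩ := hl
  have h1 : op (op x u) (op x v) ≠ op x v := by
    rw [← Q.dist]; intro h'; exact h (op_inj Q x h')
  convert mem_QL Q h1 using 1
  rw [Set.image_insert_eq, Set.image_insert_eq, Set.image_singleton, Q.dist]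

end FQ

/-! ### the two models -/

def opD (s t : DualAffinePoint) : DualAffinePoint :=
  if h : (symmDiff s.1 t.1).card = 2 then ⟨symmDiff s.1 t.1, h⟩ else t

set_option maxRecDepth 100000 in
theorem FQ_D : FQ opD := by
  refine ⟨?_, ?_, ?_, ?_⟩
  · decide +kernel
  · decide +kernel
  · decide +kernel
  · decide +kernel

theorem QL_D : QL opD = dualAffinePlaneTwo := by
  ext l
  constructor
  · rintro ⟨u, v, h, rfl⟩
    have key : ∀ u v : DualAffinePoint, opD u v ≠ v → ∃ i : Fin 4, ∀ s : DualAffinePoint, (s = u ∨ s = v ∨ s = opD u v) ↔ i ∉ s.1 := by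
      decide +kernel
    obtain ⟨i, hi⟩ := key u v h
    refine ⟨i, ?_⟩
    ext s
    simp only [Set.mem_insert_iff, Set.mem_singleton_iff, Set.mem_setOf_eq]
    exact hi s
  · rintro ⟨i, rfl⟩
    have key : ∀ i : Fin 4, ∃ u v : DualAffinePoint, opD u v ≠ v ∧ ∀ s : DualAffinePoint, i ∉ s.1 ↔ (s = u ∨ s = v ∨ s = opD u v) := by
      decide +kernel
    obtain ⟨u, v, h, h1⟩ := key i
    refine ⟨u, v, h, ?_⟩
    ext s
    simp only [Set.mem_insert_iff, Set.mem_singleton_iff, Set.mem_setOf_eq]
    exact h1 s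

def opA (u v : Fin 2 → ZMod 3) : Fin 2 → ZMod 3 := -(u + v)

theorem three_smul' (u : Fin 2 → ZMod 3) : u + u + u = 0 := by
  ext i
  have : ∀ x : ZMod 3, x + x + x = 0 := by decide
  exact this (u i)

theorem FQ_A : FQ opA := by
  refine ⟨?_, ?_, ?_, ?_⟩
  · intro u
    unfold opA
    rw [neg_eq_iff_add_eq_zero]; exact three_smul' u
  · intro u v
    unfold opA
    abel
  · intro x u v
    unfold opA
    have := three_smul' x
    have h1 : -(x + -(u + v)) = u + v - x := by abel
    have h2 : -(-(x + u) + -(x + v)) = u + v - x + (x + x + x) := by abel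
    rw [h1, h2, this, add_zero]
  · intro u v _
    unfold opA; rw [add_comm]

theorem QL_A : QL opA = affinePlaneThree := by
  have z3 : ∀ c : ZMod 3, c = 0 ∨ c = 1 ∨ c = 2 := by decide
  ext l
  constructor
  · rintro ⟨u, v, h, rfl⟩
    refine ⟨u, v - u, ?_, ?_⟩
    · intro h'
      rw [sub_eq_zero] at h'
      apply h
      rw [h']; exact FQ_A.idem u
    · ext s
      simp only [Set.mem_insert_iff, Set.mem_singleton_iff, Set.mem_setOf_eq]
      have h3 : -(u + v) = u + (2 : ZMod 3) • (v - u) := by
        have h4 := three_smul' v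
        have h5 : u + (2 : ZMod 3) • (v - u) = -(u + v) + (v + v + v) := by
          rw [show (2 : ZMod 3) = 1 + 1 from rfl, add_smul, one_smul]; abel
        rw [h5, h4, add_zero]
      constructor
      · rintro (rfl | rfl | rfl)
        · exact ⟨0, by simp⟩
        · exact ⟨1, by simp⟩
        · exact ⟨2, h3⟩
      · rintro ⟨c, rfl⟩
        rcases z3 c with rfl | rfl | rfl
        · left; simp
        · right; left; simp
        · right; right; exact h3.symm
  · rintro ⟨v, w, hw, rfl⟩
    refine ⟨v, v + w, ?_, ?_⟩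
    · intro h
      apply hw
      have h1 : opA v (v + w) - (v + w) = -(v + v + v) - (w + w + w) + w := by unfold opA; abel
      rw [three_smul', three_smul', h] at h1
      simpa using h1.symm
    · ext s
      simp only [Set.mem_insert_iff, Set.mem_singleton_iff, Set.mem_setOf_eq]
      have h3 : opA v (v + w) = v + (2 : ZMod 3) • w := by
        have h5 : opA v (v + w) = v + (2 : ZMod 3) • w - (v + v + v) - (w + w + w) := by
          rw [show (2 : ZMod 3) = 1 + 1 from rfl, add_smul, one_smul]; unfold opA; abel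
        rw [h5, three_smul', three_smul', sub_zero, sub_zero]
      rw [h3]
      constructor
      · rintro ⟨c, rfl⟩
        rcases z3 c with rfl | rfl | rfl
        · left; simp
        · right; left; simp
        · right; right; rfl
      · rintro (rfl | rfl | rfl)
        · exact ⟨0, by simp⟩
        · exact ⟨1, by simp⟩
        · exact ⟨2, rfl⟩

end Cfsg.Agent.H28.FS
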