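import Mathlib
import Cfsg.Agent.H28_FS

set_option autoImplicit false

/-! Fischer spaces are quandles. -/

namespace Cfsg.Agent.H28.FS

open Cfsg Cfsg.LineSystem

section lm

variable {X : Type*} {L : Set (Set X)}

theorem lm_self (x : X) : lineMap L x x = x := by
  unfold lineMap
  rw [dif_neg]
  rintro ⟨z, -, -, h, -⟩
  exact h rfl

theorem lm_of (hP : IsPartialLinear L) {x y z : X} (h : ({x, y, z} : Set X) ∈ L) (hxy : x ≠ y) (hzx : z ≠ x) (hzy : z ≠ y) :
    lineMap L x y = z := by
  unfold lineMap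
  have hex : ∃ z : X, z ≠ x ∧ z ≠ y ∧ x ≠ y ∧ ({x, y, z} : Set X) ∈ L := ⟨z, hzx, hzy, hxy, h⟩
  rw [dif_pos hex]
  obtain ⟨h1, h2, h3, h4⟩ := hex.choose_spec
  have h5 := hP _ h4 _ h x y hxy (by simp) (by simp) (by simp) (by simp)
  have h6 : hex.choose ∈ ({x, y, z} : Set X) := by rw [← h5]; simp
  simp only [Set.mem_insert_iff, Set.mem_singleton_iff] at h6
  rcases h6 with h6 | h6 | h6
  · exact absurd h6 h1
  · exact absurd h6 h2
  · exact h6

theorem lm_spec {x y : X} (h : lineMap L x y ≠ y) :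
    ({x, y, lineMap L x y} : Set X) ∈ L ∧ x ≠ y ∧ lineMap L x y ≠ x := by
  unfold lineMap at h ⊢
  split_ifs at h ⊢ with hex
  · obtain ⟨h1, h2, h3, h4⟩ := hex.choose_spec
    exact ⟨h4, h3, h1⟩
  · exact absurd rfl h

theorem lm_inv (hP : IsPartialLinear L) (x y : X) : lineMap L x (lineMap L x y) = y := by
  by_cases h : lineMap L x y = y
  · rw [h, h]
  · obtain ⟨h1, h2, h3⟩ := lm_spec h
    refine lm_of hP ?_ h3.symm h2.symm (fun h' => h h'.symm)
    convert h1 using 1
    ext z; simp only [Set.mem_insert_iff, Set.mem_singleton_iff]; tauto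

theorem lm_braid (hP : IsPartialLinear L) {x y : X} (h : lineMap L x y ≠ y) : lineMap L x y = lineMap L y x := by
  obtain ⟨h1, h2, h3⟩ := lm_spec h
  symm
  refine lm_of hP ?_ h2.symm h h3
  convert h1 using 1
  ext z; simp only [Set.mem_insert_iff, Set.mem_singleton_iff]; tauto

theorem line_perm {x y z : X} (h : ({x, y, z} : Set X) ∈ L) : ({x, z, y} : Set X) ∈ L := by
  convert h using 1
  ext z; simp only [Set.mem_insert_iff, Set.mem_singleton_iff]; tauto

theorem line_perm' {x y z : X} (h : ({x, y, z} : Set X) ∈ L) : ({y, x, z} : Set X) ∈ L := by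
  convert h using 1
  ext z; simp only [Set.mem_insert_iff, Set.mem_singleton_iff]; tauto

theorem col_dist (hP : IsPartialLinear L) (h3 : ∀ l ∈ L, l.ncard = 3) {l : Set X} (hl : l ∈ L) {x u v : X}
    (hx : x ∈ l) (hu : u ∈ l) (hv : v ∈ l) :
    lineMap L x (lineMap L u v) = lineMap L (lineMap L x u) (lineMap L x v) := by
  obtain ⟨p, q, r, hpq, hpr, hqr, rfl⟩ := Set.ncard_eq_three.1 (h3 l hl)
  have e1 : lineMap L p q = r := lm_of hP hl hpq hpr.symm hqr.symm
  have e2 : lineMap L q p = r := lm_of hP (line_perm' hl) hpq.symm hqr.symm hpr.symm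
  have e3 : lineMap L p r = q := lm_of hP (line_perm hl) hpr hpq.symm hqr
  have e4 : lineMap L r p = q := lm_of hP (line_perm' (line_perm hl)) hpr.symm hqr hpq.symm
  have e5 : lineMap L q r = p := lm_of hP (line_perm (line_perm' hl)) hqr hpq hpr
  have e6 : lineMap L r q = p := lm_of hP (line_perm' (line_perm (line_perm' hl))) hqr.symm hpr hpq
  have s1 := lm_self (L := L) p
  have s2 := lm_self (L := L) q
  have s3 := lm_self (L := L) r
  simp only [Set.mem_insert_iff, Set.mem_singleton_iff] at hx hu hv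
  rcases hx with rfl | rfl | rfl <;> rcases hu with rfl | rfl | rfl <;> rcases hv with rfl | rfl | rfl <;>
    simp only [e1, e2, e3, e4, e5, e6, s1, s2, s3]

theorem subspace_span (S : Set X) : IsSubspace L (span L S) := by
  intro l hl x hx y hy hxy hxl hyl z hz T hT
  exact hT.2 l hl x (hx T hT) y (hy T hT) hxy hxl hyl hz

theorem subset_span (S : Set X) : S ⊆ span L S := fun _ hx _ hT => hT.1 hx

/-- inside a subspace isomorphic to a quandle line system, `lineMap` is the quandle operation -/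
theorem sub_op (hP : IsPartialLinear L) {S : Set X} (hS : IsSubspace L S) {Y : Type} {op : Y → Y → Y} (Q : FQ op)
    {e : S ≃ Y} (he : IsIso (restrict L S) (QL op) e) (x y : S) :
    ∃ z : S, lineMap L (x : X) (y : X) = z ∧ e z = op (e x) (e y) := by
  by_cases h : op (e x) (e y) = e y
  · refine ⟨y, ?_, h.symm⟩
    by_contra hne
    obtain ⟨h1, h2, h3⟩ := lm_spec hne
    have hsub : ({(x : X), (y : X), lineMap L (x : X) (y : X)} : Set X) ⊆ S :=
      hS _ h1 x x.2 y y.2 h2 (by simp) (by simp)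
    have hz : lineMap L (x : X) (y : X) ∈ S := hsub (by simp)
    have h4 : ({s : S | (s : X) ∈ ({(x : X), (y : X), lineMap L (x : X) (y : X)} : Set X)} : Set S) ∈ restrict L S :=
      ⟨_, h1, hsub, rfl⟩
    have h5 := (he _).1 h4
    have hxy : e x ≠ e y := fun h' => h2 (congrArg Subtype.val (e.injective h'))
    have h6 := third_of_mem Q h5 (x := e x) (y := e y) ⟨x, by simp, rfl⟩ ⟨y, by simp, rfl⟩ hxy
    exact h6.1 h
  · have h1 := mem_QL Q h
    obtain ⟨z, hz⟩ := e.surjective (op (e x) (e y))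
    refine ⟨z, ?_, hz⟩
    have h2 : (e '' ({x, y, z} : Set S)) ∈ QL op := by
      rw [Set.image_insert_eq, Set.image_insert_eq, Set.image_singleton, hz]; exact h1
    have h3 := (he _).2 h2
    obtain ⟨l, hl, hlS, hlm⟩ := h3
    have hl' : l = {(x : X), (y : X), (z : X)} := by
      ext w
      constructor
      · intro hw
        have : (⟨w, hlS hw⟩ : S) ∈ ({x, y, z} : Set S) := by rw [hlm]; exact hw
        simp only [Set.mem_insert_iff, Set.mem_singleton_iff, Subtype.ext_iff] at this ⊢
        exact this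
      · intro hw
        have : ∀ s : S, s ∈ ({x, y, z} : Set S) → (s : X) ∈ l := by
          intro s hs; rw [hlm] at hs; exact hs
        simp only [Set.mem_insert_iff, Set.mem_singleton_iff] at hw
        rcases hw with rfl | rfl | rfl
        · exact this x (by simp)
        · exact this y (by simp)
        · exact this z (by simp)
    rw [hl'] at hl
    refine lm_of hP hl ?_ ?_ ?_
    · intro h'
      exact ne_of Q h (by rw [Subtype.ext h'])
    · intro h'
      apply op_ne_left Q h
      rw [← hz, Subtype.ext h']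
    · intro h'
      apply h
      rw [← hz, Subtype.ext h']

theorem plane_dist (hP : IsPartialLinear L) {S : Set X} (hS : IsSubspace L S) {Y : Type} {op : Y → Y → Y} (Q : FQ op)
    {e : S ≃ Y} (he : IsIso (restrict L S) (QL op) e) {x u v : X} (hx : x ∈ S) (hu : u ∈ S) (hv : v ∈ S) :
    lineMap L x (lineMap L u v) = lineMap L (lineMap L x u) (lineMap L x v) := by
  obtain ⟨a, ha, ha'⟩ := sub_op hP hS Q he ⟨u, hu⟩ ⟨v, hv⟩
  obtain ⟨b, hb, hb'⟩ := sub_op hP hS Q he ⟨x, hx⟩ ⟨u, hu⟩
  obtain ⟨c, hc, hc'⟩ := sub_op hP hS Q he ⟨x, hx⟩ ⟨v, hv⟩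
  obtain ⟨d, hd, hd'⟩ := sub_op hP hS Q he ⟨x, hx⟩ a
  obtain ⟨f, hf, hf'⟩ := sub_op hP hS Q he b c
  simp only at ha hb hc hd hf
  rw [ha, hb, hc, hd, hf]
  congr 1
  apply e.injective
  rw [hd', hf', ha', hb', hc', Q.dist]

theorem two_lines (hF : IsFischerSpace L) {l m : Set X} (hl : l ∈ L) (hm : m ∈ L) {p : X} (hpl : p ∈ l) (hpm : p ∈ m)
    {x u v : X} (hx : x ∈ l ∪ m) (hu : u ∈ l ∪ m) (hv : v ∈ l ∪ m) :
    lineMap L x (lineMap L u v) = lineMap L (lineMap L x u) (lineMap L x v) := by
  obtain ⟨hP, h3, hpl'⟩ := hF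
  by_cases hlm : l = m
  · subst hlm
    rw [Set.union_self] at hx hu hv
    exact col_dist hP h3 hl hx hu hv
  · have hsub := subset_span (L := L) (l ∪ m)
    rcases hpl' l hl m hm hlm ⟨p, hpl, hpm⟩ with ⟨e, he⟩ | ⟨e, he⟩
    · rw [← QL_D] at he
      exact plane_dist hP (subspace_span _) FQ_D he (hsub hx) (hsub hu) (hsub hv)
    · rw [← QL_A] at he
      exact plane_dist hP (subspace_span _) FQ_A he (hsub hx) (hsub hu) (hsub hv)

theorem fs_dist (hF : IsFischerSpace L) (x u v : X) :
    lineMap L x (lineMap L u v) = lineMap L (lineMap L x u) (lineMap L x v) := by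
  by_cases h1 : lineMap L x u = u
  · by_cases h2 : lineMap L x v = v
    · by_cases h3 : lineMap L u v = v
      · rw [h1, h3, h2, h3]
      · by_cases h4 : lineMap L x (lineMap L u v) = lineMap L u v
        · rw [h4, h1, h2]
        · exact two_lines hF (lm_spec h3).1 (lm_spec h4).1 (p := lineMap L u v) (by simp) (by simp) (by simp) (by simp) (by simp)
    · by_cases h3 : lineMap L u v = v
      · by_cases h4 : lineMap L u (lineMap L x v) = lineMap L x v
        · rw [h1, h3, h4]
        · exact two_lines hF (lm_spec h2).1 (lm_spec h4).1 (p := lineMap L x v) (by simp) (by simp) (by simp) (by simp) (by simp)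
      · exact two_lines hF (lm_spec h2).1 (lm_spec h3).1 (p := v) (by simp) (by simp) (by simp) (by simp) (by simp)
  · by_cases h2 : lineMap L x v = v
    · by_cases h3 : lineMap L u v = v
      · by_cases h4 : lineMap L (lineMap L x u) v = v
        · rw [h3, h2, h4]
        · exact two_lines hF (lm_spec h1).1 (lm_spec h4).1 (p := lineMap L x u) (by simp) (by simp) (by simp) (by simp) (by simp)
      · exact two_lines hF (lm_spec h1).1 (lm_spec h3).1 (p := u) (by simp) (by simp) (by simp) (by simp) (by simp)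
    · exact two_lines hF (lm_spec h1).1 (lm_spec h2).1 (p := x) (by simp) (by simp) (by simp) (by simp) (by simp)

theorem fs_FQ (hF : IsFischerSpace L) : FQ (lineMap L) :=
  ⟨lm_self, lm_inv hF.1, fs_dist hF, fun _ _ h => lm_braid hF.1 h⟩

theorem fs_QL (hF : IsFischerSpace L) : QL (lineMap L) = L := by
  ext l
  constructor
  · rintro ⟨u, v, h, rfl⟩
    exact (lm_spec h).1
  · intro hl
    obtain ⟨p, q, r, hpq, hpr, hqr, rfl⟩ := Set.ncard_eq_three.1 (hF.2.1 l hl)
    have e1 : lineMap L p q = r := lm_of hF.1 hl hpq hpr.symm hqr.symm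
    exact ⟨p, q, by rw [e1]; exact hqr.symm, by rw [e1]⟩

end lm

end Cfsg.Agent.H28.FS
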