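import Mathlib
import Cfsg.Agent.H28_FS2
import Cfsg.Agent.H28_UQ3

set_option autoImplicit false

/-! The Fischer space of a 3-transposition group. -/

namespace Cfsg.Agent.H28.FS

open Cfsg Cfsg.LineSystem Cfsg.Agent.H28.Basic Cfsg.Agent.H28.VW

section gen

variable {X Y : Type*} {op : X → X → X} {op' : Y → Y → Y} (Q : FQ op) (Q' : FQ op') {P : Y → X}
  (hinj : Function.Injective P) (hop : ∀ u v, P (op' u v) = op (P u) (P v))

include Q hop in
theorem range_subspace : IsSubspace (QL op) (Set.range P) := by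
  rintro l hl _ ⟨u, rfl⟩ _ ⟨v, rfl⟩ hne hu hv
  obtain ⟨-, h2⟩ := third_of_mem Q hl hu hv hne
  rw [h2, ← hop]
  rintro z (rfl | rfl | rfl) <;> exact ⟨_, rfl⟩

include Q Q' hinj hop in
theorem iso_of_hom : Isomorphic (restrict (QL op) (Set.range P)) (QL op') := by
  have key : ∀ m : Set Y, m ∈ QL op' ↔ (Equiv.ofInjective P hinj) '' m ∈ restrict (QL op) (Set.range P) := by
    intro m
    constructor
    · rintro ⟨u, v, h, rfl⟩
      have h1 : op (P u) (P v) ≠ P v := by rw [← hop]; intro h'; exact h (hinj h')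
      refine ⟨_, mem_QL Q h1, ?_, ?_⟩
      · rw [← hop]
        rintro z (rfl | rfl | rfl) <;> exact ⟨_, rfl⟩
      · rw [Set.image_insert_eq, Set.image_insert_eq, Set.image_singleton, ← hop]
        ext z
        simp only [Set.mem_insert_iff, Set.mem_singleton_iff, Set.mem_setOf_eq, Subtype.ext_iff, Equiv.ofInjective_apply]
    · rintro ⟨l, hl, hlS, hlm⟩
      obtain ⟨x, y, h, rfl⟩ := hl
      obtain ⟨u, rfl⟩ := hlS (show x ∈ ({x, y, op x y} : Set X) by simp)
      obtain ⟨v, rfl⟩ := hlS (show y ∈ ({P u, y, op (P u) y} : Set X) by simp)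
      refine ⟨u, v, ?_, ?_⟩
      · intro h'; apply h; rw [← hop, h']
      · apply (Equiv.ofInjective P hinj).injective.image_injective
        rw [hlm, Set.image_insert_eq, Set.image_insert_eq, Set.image_singleton]
        ext z
        simp only [Set.mem_insert_iff, Set.mem_singleton_iff, Set.mem_setOf_eq, Subtype.ext_iff, Equiv.ofInjective_apply, hop]
  refine ⟨(Equiv.ofInjective P hinj).symm, fun l => ?_⟩
  rw [key, ← Set.image_comp]
  simp

include Q in
theorem subspace_op {T : Set X} (hT : IsSubspace (QL op) T) {x y : X} (hx : x ∈ T) (hy : y ∈ T) : op x y ∈ T := by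
  by_cases h : op x y = y
  · rw [h]; exact hy
  · exact hT _ (mem_QL Q h) x hx y hy (ne_of Q h) (by simp) (by simp) (by simp)

theorem span_eq {S R : Set X} (h1 : S ⊆ R) (h2 : IsSubspace (QL op) R) (h3 : ∀ T, S ⊆ T → IsSubspace (QL op) T → R ⊆ T) :
    span (QL op) S = R := by
  apply Set.Subset.antisymm
  · intro x hx; exact hx R ⟨h1, h2⟩
  · intro x hx T hT; exact h3 T hT.1 hT.2 hx

end gen

variable {G : Type*} [Group G] {D : Set G} (hD : IsThreeTranspositionGroup D)

/-- conjugation on `D` -/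
def dop (hD : IsThreeTranspositionGroup D) (x y : D) : D := ⟨x * y * (x : G)⁻¹, hD.2.1 x y y.2⟩

include hD

theorem dop_eq_iff (x y : D) : dop hD x y = y ↔ Commute (x : G) (y : G) := by
  rw [Subtype.ext_iff]
  show (x : G) * y * (x : G)⁻¹ = y ↔ (x : G) * y = y * x
  constructor
  · intro h; nth_rw 2 [← h]; group
  · intro h; rw [h]; group

theorem dop_FQ : FQ (dop hD) := by
  refine ⟨?_, ?_, ?_, ?_⟩
  · intro u; rw [dop_eq_iff]
  · intro u v
    apply Subtype.ext
    show (u : G) * (u * v * (u : G)⁻¹) * (u : G)⁻¹ = v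
    have h1 := tt_sq hD.1 u.2
    calc (u : G) * (u * v * (u : G)⁻¹) * (u : G)⁻¹ = (u * u : G) * v * (u * u : G)⁻¹ := by group
      _ = v := by rw [h1]; group
  · intro x u v
    apply Subtype.ext
    show (x : G) * (u * v * (u : G)⁻¹) * (x : G)⁻¹ = (x * u * (x : G)⁻¹) * (x * v * (x : G)⁻¹) * (x * u * (x : G)⁻¹)⁻¹
    group
  · intro u v h
    rw [Ne, dop_eq_iff] at h
    apply Subtype.ext
    show (u : G) * v * (u : G)⁻¹ = v * u * (v : G)⁻¹
    rw [tt_inv hD.1 u.2, tt_inv hD.1 v.2]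
    exact tt_braid hD.1 u.2 v.2 h

theorem lines_eq : threeTranspositionLines D = QL (dop hD) := by
  have Q := dop_FQ hD
  ext l
  constructor
  · rintro ⟨x, y, h, rfl⟩
    refine ⟨y, x, ?_, ?_⟩
    · rw [Ne, dop_eq_iff]; exact fun h' => h h'.symm
    · ext z
      simp only [Set.mem_setOf_eq, Set.mem_insert_iff, Set.mem_singleton_iff, Subtype.ext_iff, dop]
      tauto
  · rintro ⟨x, y, h, rfl⟩
    rw [Ne, dop_eq_iff] at h
    refine ⟨y, x, fun h' => h h'.symm, ?_⟩
    ext z
    simp only [Set.mem_setOf_eq, Set.mem_insert_iff, Set.mem_singleton_iff, Subtype.ext_iff, dop]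
    tauto

omit hD in
def swD (s : DualAffinePoint) : Equiv.Perm (Fin 4) :=
  if s.1 = {0, 1} then Equiv.swap 0 1 else if s.1 = {1, 2} then Equiv.swap 1 2 else if s.1 = {2, 3} then Equiv.swap 2 3
  else if s.1 = {0, 2} then Equiv.swap 0 2 else if s.1 = {1, 3} then Equiv.swap 1 3 else Equiv.swap 0 3

omit hD in
theorem swD_op : ∀ s t, swD (opD s t) = swD s * swD t * (swD s)⁻¹ := by decide +kernel

omit hD in
theorem swD_inj : Function.Injective swD := by unfold Function.Injective; decide +kernel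

omit hD in
theorem swD_conj : ∀ s, ∃ σ, swD s = σ * Equiv.swap 1 2 * σ⁻¹ := by decide +kernel

omit hD in
def s12 : DualAffinePoint := ⟨{1, 2}, by decide⟩
omit hD in
def s01 : DualAffinePoint := ⟨{0, 1}, by decide⟩
omit hD in
def s23 : DualAffinePoint := ⟨{2, 3}, by decide⟩

omit hD in
theorem sD_all : ∀ s, s = s12 ∨ s = s01 ∨ s = s23 ∨ s = opD s12 s01 ∨ s = opD s12 s23 ∨ s = opD s01 (opD s12 s23) := by
  decide +kernel

theorem caseA {a b c : D} (hab : ¬ Commute (a : G) b) (hac : ¬ Commute (a : G) c) (hbc : Commute (b : G) c) (hne : b ≠ c) :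
    Isomorphic (restrict (QL (dop hD)) (span (QL (dop hD)) (({a, b, dop hD a b} : Set D) ∪ {a, c, dop hD a c}))) dualAffinePlaneTwo := by
  have Q := dop_FQ hD
  obtain ⟨φ, h1, h2, h3⟩ := exists_hom_s4 (b : G) a c (tt_sq hD.1 b.2) (tt_sq hD.1 a.2) (tt_sq hD.1 c.2)
    (tt_braid hD.1 b.2 a.2 (fun h => hab h.symm)).symm
    (tt_braid hD.1 a.2 c.2 hac).symm hbc.symm.eq
  have hφ : Function.Injective φ := by
    apply s4_hom_injective
    rw [map_mul, h1, h3]
    intro h
    apply hne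
    apply Subtype.ext
    rw [← tt_inv hD.1 c.2]; exact eq_inv_of_mul_eq_one_left h
  have hmem : ∀ s, φ (swD s) ∈ D := by
    intro s
    obtain ⟨σ, hσ⟩ := swD_conj s
    rw [hσ, map_mul, map_mul, map_inv, h2]
    exact hD.2.1 _ _ a.2
  let P : DualAffinePoint → D := fun s => ⟨φ (swD s), hmem s⟩
  have hPinj : Function.Injective P := by
    intro s t h
    exact swD_inj (hφ (congrArg Subtype.val h))
  have hop : ∀ u v, P (opD u v) = dop hD (P u) (P v) := by
    intro u v
    apply Subtype.ext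
    show φ (swD (opD u v)) = φ (swD u) * φ (swD v) * (φ (swD u))⁻¹
    rw [swD_op, map_mul, map_mul, map_inv]
  have ha : P s12 = a := Subtype.ext h2
  have hb : P s01 = b := Subtype.ext h1
  have hc : P s23 = c := Subtype.ext h3
  have hspan : span (QL (dop hD)) (({a, b, dop hD a b} : Set D) ∪ {a, c, dop hD a c}) = Set.range P := by
    apply span_eq
    · rw [← ha, ← hb, ← hc, ← hop, ← hop]
      rintro z ((rfl | rfl | rfl) | (rfl | rfl | rfl)) <;> exact ⟨_, rfl⟩
    · exact range_subspace Q hop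
    · rintro T hT hT2 _ ⟨s, rfl⟩
      have ta : P s12 ∈ T := hT (by rw [ha]; simp)
      have tb : P s01 ∈ T := hT (by rw [hb]; simp)
      have tc : P s23 ∈ T := hT (by rw [hc]; simp)
      rcases sD_all s with rfl | rfl | rfl | rfl | rfl | rfl
      · exact ta
      · exact tb
      · exact tc
      · rw [hop]; exact subspace_op Q hT2 ta tb
      · rw [hop]; exact subspace_op Q hT2 ta tc
      · rw [hop, hop]; exact subspace_op Q hT2 tb (subspace_op Q hT2 ta tc)
  rw [hspan, ← QL_D]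
  exact iso_of_hom Q FQ_D hPinj hop


section plane

omit hD

/-- translates of `a` -/
def RR (x y a : G) (i j : ZMod 3) : G := x ^ i.val * y ^ j.val * a * (x ^ i.val * y ^ j.val)⁻¹

variable {x y a ζ : G} (hx : x ^ 3 = 1) (hy : y ^ 3 = 1) (hζx : Commute ζ x) (hζy : Commute ζ y) (hζa : Commute ζ a)
  (hxy : x * y = ζ * (y * x)) (ha : a * a = 1) (hax : a * x * a = x⁻¹) (hay : a * y * a = y⁻¹)

include hx in
theorem pow_val_succ (k : ZMod 3) : x ^ (k + 1).val = x * x ^ k.val := by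
  have h3 : ∀ k : ZMod 3, k = 0 ∨ k = 1 ∨ k = 2 := by decide
  rcases h3 k with rfl | rfl | rfl
  · show x ^ 1 = x * x ^ 0; simp
  · show x ^ 2 = x * x ^ 1; rw [pow_one, pow_two]
  · show x ^ 0 = x * x ^ 2; rw [← pow_succ', hx, pow_zero]

include hx in
theorem pow_val_neg (k : ZMod 3) : x ^ (-k).val = (x⁻¹) ^ k.val := by
  have h3 : ∀ k : ZMod 3, k = 0 ∨ k = 1 ∨ k = 2 := by decide
  rcases h3 k with rfl | rfl | rfl
  · show x ^ 0 = x⁻¹ ^ 0; simp
  · show x ^ 2 = x⁻¹ ^ 1
    rw [pow_one, eq_inv_iff_mul_eq_one, ← pow_succ, hx]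
  · show x ^ 1 = x⁻¹ ^ 2
    rw [inv_pow, eq_inv_iff_mul_eq_one, ← pow_add]; exact hx

include hx in
theorem R_x (k l : ZMod 3) : x * RR x y a k l * x⁻¹ = RR x y a (k + 1) l := by
  unfold RR; rw [pow_val_succ hx]; group

include hζx hxy in
theorem y_pow (n : ℕ) : y * x ^ n = (ζ⁻¹) ^ n * (x ^ n * y) := by
  induction n with
  | zero => simp
  | succ n ih =>
    have h1 : y * x = ζ⁻¹ * (x * y) := by rw [hxy]; group
    rw [pow_succ x, ← mul_assoc, ih]
    calc ζ⁻¹ ^ n * (x ^ n * y) * x = ζ⁻¹ ^ n * (x ^ n * (y * x)) := by group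
      _ = ζ⁻¹ ^ n * (x ^ n * ζ⁻¹) * (x * y) := by rw [h1]; group
      _ = ζ⁻¹ ^ n * (ζ⁻¹ * x ^ n) * (x * y) := by rw [(hζx.inv_left.pow_right n).eq]
      _ = _ := by rw [pow_succ ζ⁻¹ n]; group

include hζx hζy hζa in
theorem R_comm (k l : ZMod 3) : Commute ζ (RR x y a k l) := by
  unfold RR
  have h1 : Commute ζ (x ^ k.val * y ^ l.val) := (hζx.pow_right _).mul_right (hζy.pow_right _)
  exact (h1.mul_right hζa).mul_right h1.inv_right

include hy hζx hζy hζa hxy in
theorem R_y (k l : ZMod 3) : y * RR x y a k l * y⁻¹ = RR x y a k (l + 1) := by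
  have h1 := y_pow hζx hxy k.val
  have h2 := R_comm hζx hζy hζa k (l + 1)
  have h3 : y * (x ^ k.val * y ^ l.val) = ζ⁻¹ ^ k.val * (x ^ k.val * y ^ (l + 1).val) := by
    rw [← mul_assoc, h1, pow_val_succ hy]; group
  have h4 : y * RR x y a k l * y⁻¹ = (y * (x ^ k.val * y ^ l.val)) * a * (y * (x ^ k.val * y ^ l.val))⁻¹ := by
    unfold RR; group
  rw [h4, h3]
  have h5 : ζ⁻¹ ^ k.val * (x ^ k.val * y ^ (l + 1).val) * a * (ζ⁻¹ ^ k.val * (x ^ k.val * y ^ (l + 1).val))⁻¹ =
      ζ⁻¹ ^ k.val * RR x y a k (l + 1) * (ζ⁻¹ ^ k.val)⁻¹ := by unfold RR; group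
  rw [h5, (h2.inv_left.pow_left k.val).eq, mul_inv_cancel_right]

include hx hy ha hax hay in
theorem R_a (k l : ZMod 3) : a * RR x y a k l * a⁻¹ = RR x y a (-k) (-l) := by
  have hai : a⁻¹ = a := inv_eq_of_mul_eq_one_right ha
  have h1 : a * (x ^ k.val * y ^ l.val) * a⁻¹ = x ^ (-k).val * y ^ (-l).val := by
    rw [pow_val_neg hx, pow_val_neg hy, ← hax, ← hay]
    have e1 : a * x * a = a * x * a⁻¹ := by rw [hai]
    have e2 : a * y * a = a * y * a⁻¹ := by rw [hai]
    rw [e1, e2, conj_pow, conj_pow]; group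
  unfold RR
  rw [← h1]; group

include hx hy hζx hζy hζa hxy in
theorem R_T (i j k l : ZMod 3) : (x ^ i.val * y ^ j.val) * RR x y a k l * (x ^ i.val * y ^ j.val)⁻¹ = RR x y a (i + k) (j + l) := by
  have h1 : ∀ (n : ℕ) (k l : ZMod 3), x ^ n * RR x y a k l * (x ^ n)⁻¹ = RR x y a (n + k) l := by
    intro n
    induction n with
    | zero => intro k l; simp
    | succ n ih =>
      intro k l
      have : x ^ (n + 1) * RR x y a k l * (x ^ (n + 1))⁻¹ = x ^ n * (x * RR x y a k l * x⁻¹) * (x ^ n)⁻¹ := by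
        rw [pow_succ]; group
      rw [this, R_x hx, ih]; congr 1; push_cast; ring
  have h2 : ∀ (n : ℕ) (k l : ZMod 3), y ^ n * RR x y a k l * (y ^ n)⁻¹ = RR x y a k (n + l) := by
    intro n
    induction n with
    | zero => intro k l; simp
    | succ n ih =>
      intro k l
      have : y ^ (n + 1) * RR x y a k l * (y ^ (n + 1))⁻¹ = y ^ n * (y * RR x y a k l * y⁻¹) * (y ^ n)⁻¹ := by
        rw [pow_succ]; group
      rw [this, R_y hy hζx hζy hζa hxy, ih]; congr 1; push_cast; ring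
  have : (x ^ i.val * y ^ j.val) * RR x y a k l * (x ^ i.val * y ^ j.val)⁻¹ =
      x ^ i.val * (y ^ j.val * RR x y a k l * (y ^ j.val)⁻¹) * (x ^ i.val)⁻¹ := by group
  rw [this, h2, h1]
  simp

include hx hy hζx hζy hζa hxy ha hax hay in
theorem R_op (i j k l : ZMod 3) : RR x y a i j * RR x y a k l * (RR x y a i j)⁻¹ = RR x y a (-(i + k)) (-(j + l)) := by
  set T := x ^ i.val * y ^ j.val with hT
  have h1 : RR x y a k l = T * RR x y a (k - i) (l - j) * T⁻¹ := by
    rw [R_T hx hy hζx hζy hζa hxy]; congr 1 <;> ring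
  have h2 : RR x y a i j = T * a * T⁻¹ := rfl
  rw [h1, h2]
  have h3 : T * a * T⁻¹ * (T * RR x y a (k - i) (l - j) * T⁻¹) * (T * a * T⁻¹)⁻¹ = T * (a * RR x y a (k - i) (l - j) * a⁻¹) * T⁻¹ := by
    group
  rw [h3, R_a hx hy ha hax hay, R_T hx hy hζx hζy hζa hxy]
  have h4 : ∀ u v : ZMod 3, u + -(v - u) = -(u + v) := by decide
  rw [h4, h4]

end plane

theorem caseB {a b c : D} (hab : ¬ Commute (a : G) b) (hac : ¬ Commute (a : G) c) (hbc : ¬ Commute (b : G) c)
    (hbc' : ¬ Commute (b : G) (dop hD a c : D)) :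
    Isomorphic (restrict (QL (dop hD)) (span (QL (dop hD)) (({a, b, dop hD a b} : Set D) ∪ {a, c, dop hD a c}))) affinePlaneThree := by
  have Q := dop_FQ hD
  have hai := tt_inv hD.1 a.2
  have ha2 := tt_sq hD.1 a.2
  have hbi := tt_inv hD.1 b.2
  have hci := tt_inv hD.1 c.2
  have hx := tt_cube hD.1 a.2 b.2 hab
  have hy := tt_cube hD.1 a.2 c.2 hac
  have hmid : (c : G) * b * c ∈ D := by have := hD.2.1 c b b.2; rwa [hci] at this
  have hnc : ¬ Commute (a : G) (c * b * c) := by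
    intro h
    apply hbc'
    show Commute (b : G) (a * c * (a : G)⁻¹)
    rw [hai, tt_braid hD.1 a.2 c.2 hac]
    have h1 := (commute_conj_iff (c : G) (a : G) (c * b * c)).2 h
    have h2 : (c : G) * (c * b * c) * (c : G)⁻¹ = b := by
      rw [hci]
      calc (c : G) * (c * b * c) * c = (c * c : G) * b * (c * c) := by group
        _ = b := by rw [tt_sq hD.1 c.2]; group
    rw [h2, hci] at h1
    exact h1.symm
  have h1 : (((a : G) * b)⁻¹ * (a * c)) ^ 3 = 1 := by
    have : ((a : G) * b)⁻¹ * (a * c) = b * c := by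
      rw [mul_inv_rev, hai, hbi]
      calc (b : G) * a * (a * c) = b * (a * a) * c := by group
        _ = _ := by rw [ha2, mul_one]
    rw [this]; exact tt_cube hD.1 b.2 c.2 hbc
  have h2 : (((a : G) * (c : G)) * ((a : G) * (b : G))⁻¹ * ((a : G) * (c : G))) ^ 3 = 1 := by
    have : ((a : G) * (c : G)) * ((a : G) * (b : G))⁻¹ * ((a : G) * (c : G)) = a * (c * b * c) := by
      rw [mul_inv_rev, hai, hbi]
      calc (a : G) * c * (b * a) * (a * c) = a * c * b * (a * a) * c := by group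
        _ = a * (c * b * c) := by rw [ha2, mul_one]; group
    rw [this]; exact tt_cube hD.1 a.2 hmid hnc
  obtain ⟨k1, k2⟩ := UQ.plane_comm hx hy h1 h2
  have hax : (a : G) * (a * b) * a = (a * b : G)⁻¹ := by rw [mul_inv_rev, hai, hbi, ← mul_assoc, ha2, one_mul]
  have hay : (a : G) * (a * c) * a = (a * c : G)⁻¹ := by rw [mul_inv_rev, hai, hci, ← mul_assoc, ha2, one_mul]
  have k3 : ((a : G) * (b : G)) * (a : G) * ((a : G) * (b : G))⁻¹ = b := conj_eq hD.1 a.2 b.2 hab
  have k4 : ((a : G) * (c : G)) * (a : G) * ((a : G) * (c : G))⁻¹ = c := conj_eq hD.1 a.2 c.2 hac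
  obtain ⟨x, hxd⟩ : ∃ x, x = (a : G) * b := ⟨_, rfl⟩
  obtain ⟨y, hyd⟩ : ∃ y, y = (a : G) * c := ⟨_, rfl⟩
  rw [← hxd] at hx hax k3
  rw [← hyd] at hy hay k4
  rw [← hxd, ← hyd] at k1 k2
  obtain ⟨ζ, hζ⟩ : ∃ ζ, ζ = x * y * x⁻¹ * y⁻¹ := ⟨_, rfl⟩
  rw [← hζ] at k1 k2
  have hxy : x * y = ζ * (y * x) := by rw [hζ]; group
  have haxi : (a : G) * x⁻¹ * a = x := by
    rw [← hax]
    calc (a : G) * (a * x * a) * a = (a * a) * x * (a * a) := by group
      _ = x := by rw [ha2, one_mul, mul_one]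
  have hayi : (a : G) * y⁻¹ * a = y := by
    rw [← hay]
    calc (a : G) * (a * y * a) * a = (a * a) * y * (a * a) := by group
      _ = y := by rw [ha2, one_mul, mul_one]
  have hζa : Commute ζ a := by
    have e1 : (a : G) * ζ * a = x⁻¹ * y⁻¹ * x * y := by
      rw [hζ]
      calc (a : G) * (x * y * x⁻¹ * y⁻¹) * a = a * x * (a * a) * y * (a * a) * x⁻¹ * (a * a) * y⁻¹ * a := by
            rw [ha2]; group
        _ = (a * x * a) * (a * y * a) * (a * x⁻¹ * a) * (a * y⁻¹ * a) := by group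
        _ = _ := by rw [hax, hay, haxi, hayi]
    have e2 : x⁻¹ * y⁻¹ * x * y = ζ := by
      have : x⁻¹ * y⁻¹ * x * y = (y * x)⁻¹ * (x * y) := by group
      rw [this, hxy, ← mul_assoc, ← ((k2.mul_right k1).inv_right).eq, inv_mul_cancel_right]
    have e3 : (a : G) * ζ * a = ζ := by rw [e1, e2]
    show ζ * a = a * ζ
    nth_rw 1 [← e3]
    rw [mul_assoc, ha2, mul_one]
  have hmem : ∀ i j, RR x y (a : G) i j ∈ D := fun i j => hD.2.1 _ _ a.2
  let P : (Fin 2 → ZMod 3) → D := fun u => ⟨RR x y (a : G) (u 0) (u 1), hmem _ _⟩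
  have hop : ∀ u v, P (opA u v) = dop hD (P u) (P v) := by
    intro u v
    apply Subtype.ext
    exact (R_op hx hy k1 k2 hζa hxy ha2 hax hay _ _ _ _).symm
  have p00 : RR x y (a : G) 0 0 = a := by simp [RR]
  have p10 : RR x y (a : G) 1 0 = b := by
    have : RR x y (a : G) 1 0 = x * a * x⁻¹ := by
      unfold RR; rw [show (1 : ZMod 3).val = 1 from rfl, show (0 : ZMod 3).val = 0 from rfl]; simp
    rw [this, k3]
  have p01 : RR x y (a : G) 0 1 = c := by
    have : RR x y (a : G) 0 1 = y * a * y⁻¹ := by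
      unfold RR; rw [show (1 : ZMod 3).val = 1 from rfl, show (0 : ZMod 3).val = 0 from rfl]; simp
    rw [this, k4]
  have P0 : P ![0, 0] = a := Subtype.ext p00
  have P1 : P ![1, 0] = b := Subtype.ext p10
  have P2 : P ![0, 1] = c := Subtype.ext p01
  have o1 : P ![2, 0] = dop hD a b := by
    rw [← P0, ← P1, ← hop]; congr 1; decide
  have o2 : P ![0, 2] = dop hD a c := by
    rw [← P0, ← P2, ← hop]; congr 1; decide
  have hnab : a ≠ b := by rintro rfl; exact hab (Commute.refl _)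
  have hnac : a ≠ c := by rintro rfl; exact hac (Commute.refl _)
  have hnbc : b ≠ c := by rintro rfl; exact hbc (Commute.refl _)
  have hPinj : Function.Injective P := by
    have htr : ∀ t u v, P u = P v → P (t + u) = P (t + v) := by
      intro t u v h
      apply Subtype.ext
      have h1 := congrArg Subtype.val h
      have h2 : RR x y (a : G) (u 0) (u 1) = RR x y (a : G) (v 0) (v 1) := h1
      show RR x y (a : G) (t 0 + u 0) (t 1 + u 1) = RR x y (a : G) (t 0 + v 0) (t 1 + v 1)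
      rw [← R_T hx hy k1 k2 hζa hxy, ← R_T hx hy k1 k2 hζa hxy, h2]
    have hz : ∀ w, P w = P ![0, 0] → w = ![0, 0] := by
      have hall : ∀ w : Fin 2 → ZMod 3, w = ![0, 0] ∨ w = ![1, 0] ∨ w = ![2, 0] ∨ w = ![0, 1] ∨ w = ![0, 2] ∨
          w = ![1, 1] ∨ w = ![2, 2] ∨ w = ![1, 2] ∨ w = ![2, 1] := by decide +kernel
      intro w hw
      have hbad : ∀ t u : Fin 2 → ZMod 3, t + w = u → P (t + ![0, 0]) = P u := by
        intro t u htu; rw [← htu]; exact (htr t _ _ hw).symm
      rcases hall w with h | h | h | h | h | h | h | h | h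
      · exact h
      · exfalso; rw [h, P0, P1] at hw; exact hnab hw.symm
      · exfalso
        have := hbad ![1, 0] ![0, 0] (by rw [h]; decide)
        rw [show (![1, 0] + ![0, 0] : Fin 2 → ZMod 3) = ![1, 0] by decide, P0, P1] at this
        exact hnab this.symm
      · exfalso; rw [h, P0, P2] at hw; exact hnac hw.symm
      · exfalso
        have := hbad ![0, 1] ![0, 0] (by rw [h]; decide)
        rw [show (![0, 1] + ![0, 0] : Fin 2 → ZMod 3) = ![0, 1] by decide, P0, P2] at this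
        exact hnac this.symm
      · exfalso
        have := hbad ![0, 2] ![1, 0] (by rw [h]; decide)
        rw [show (![0, 2] + ![0, 0] : Fin 2 → ZMod 3) = ![0, 2] by decide, P1, o2] at this
        exact hbc' (by rw [this])
      · exfalso
        have := hbad ![1, 0] ![0, 2] (by rw [h]; decide)
        rw [show (![1, 0] + ![0, 0] : Fin 2 → ZMod 3) = ![1, 0] by decide, P1, o2] at this
        exact hbc' (by rw [← this])
      · exfalso
        have := hbad ![0, 1] ![1, 0] (by rw [h]; decide)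
        rw [show (![0, 1] + ![0, 0] : Fin 2 → ZMod 3) = ![0, 1] by decide, P1, P2] at this
        exact hnbc this.symm
      · exfalso
        have := hbad ![1, 0] ![0, 1] (by rw [h]; decide)
        rw [show (![1, 0] + ![0, 0] : Fin 2 → ZMod 3) = ![1, 0] by decide, P1, P2] at this
        exact hnbc this
    intro u v h
    have h1 := htr (-u) u v h
    rw [neg_add_cancel] at h1
    have h2 : (0 : Fin 2 → ZMod 3) = ![0, 0] := by decide
    rw [h2] at h1
    have h3 := hz _ h1.symm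
    rw [← h2, neg_add_eq_zero] at h3
    exact h3
  have hspan : span (QL (dop hD)) (({a, b, dop hD a b} : Set D) ∪ {a, c, dop hD a c}) = Set.range P := by
    apply span_eq
    · rintro z ((rfl | rfl | rfl) | (rfl | rfl | rfl))
      · exact ⟨_, P0⟩
      · exact ⟨_, P1⟩
      · exact ⟨_, o1⟩
      · exact ⟨_, P0⟩
      · exact ⟨_, P2⟩
      · exact ⟨_, o2⟩
    · exact range_subspace Q hop
    · rintro T hT hT2 _ ⟨s, rfl⟩
      have ta : P ![0, 0] ∈ T := hT (by rw [P0]; simp)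
      have tb : P ![1, 0] ∈ T := hT (by rw [P1]; simp)
      have tc : P ![0, 1] ∈ T := hT (by rw [P2]; simp)
      have cl : ∀ u v, P u ∈ T → P v ∈ T → P (opA u v) ∈ T := by
        intro u v hu hv; rw [hop]; exact subspace_op Q hT2 hu hv
      have hall : ∀ w : Fin 2 → ZMod 3, w = ![0, 0] ∨ w = ![1, 0] ∨ w = ![0, 1] ∨ w = opA ![0, 0] ![1, 0] ∨ w = opA ![0, 0] ![0, 1] ∨
          w = opA ![1, 0] ![0, 1] ∨ w = opA (opA ![0, 0] ![1, 0]) (opA ![0, 0] ![0, 1]) ∨
          w = opA (opA ![0, 0] ![1, 0]) ![0, 1] ∨ w = opA ![1, 0] (opA ![0, 0] ![0, 1]) := by decide +kernel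
      rcases hall s with rfl | rfl | rfl | rfl | rfl | rfl | rfl | rfl | rfl
      · exact ta
      · exact tb
      · exact tc
      · exact cl _ _ ta tb
      · exact cl _ _ ta tc
      · exact cl _ _ tb tc
      · exact cl _ _ (cl _ _ ta tb) (cl _ _ ta tc)
      · exact cl _ _ (cl _ _ ta tb) tc
      · exact cl _ _ tb (cl _ _ ta tc)
  rw [hspan, ← QL_A]
  exact iso_of_hom Q FQ_A hPinj hop

end Cfsg.Agent.H28.FS
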