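import Cfsg.Statements.S5433
import Cfsg.Agent.H28_Large

set_option autoImplicit false
open Cfsg

namespace Cfsg.Agent.S5433

open Cfsg.Agent.H28.Xsp Cfsg.Agent.H28.Large

/-- Let Q be a large extraspecial 2-subgroup of the finite group G (extraspecial; centralizer equal to its centre; normal in the centralizer of its centre; normalizing no non-trivial subgroup of odd order), and L a normal subgroup of G containing Q. Then G is the product of L and the normalizer of Q. -/
theorem result {G : Type*} [Group G] [Finite G] (Q : Subgroup G) (hQ : Cfsg.IsLargeExtraspecial Q) (L : Subgroup G) [L.Normal] (hQL : Q ≤ L) : L ⊔ Subgroup.normalizer (Q : Set G) = ⊤ := by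
  have : Fact (Nat.Prime 2) := ⟨Nat.prime_two⟩
  obtain ⟨z, h⟩ := Pre.of_large hQ
  have hQp : IsPGroup 2 (Q.subgroupOf L) :=
    h.isPGroup.comap_of_injective L.subtype L.subtype_injective
  obtain ⟨P, hP⟩ := hQp.exists_le_sylow
  set S := (P : Subgroup L).map L.subtype with hS
  have hQS : Q ≤ S := by
    intro q hq
    exact ⟨⟨q, hQL hq⟩, hP (Subgroup.mem_subgroupOf.mpr hq), rfl⟩
  have hSp : IsPGroup 2 S := P.isPGroup'.map L.subtype
  have hF : Subgroup.normalizer (S : Set G) ⊔ L = ⊤ := H1.Nilp.frattini_argument P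
  have hcen : ∀ x ∈ S, (∀ y ∈ S, y * x = x * y) → x = 1 ∨ x = z := by
    intro x hx hc
    have h1 : x ∈ Subgroup.centralizer (Q : Set G) := by
      rw [Subgroup.mem_centralizer_iff]
      intro y hy
      exact hc y (hQS hy)
    rwa [h.cent, mem_zpowers_of_sq h.sq] at h1
  have hSnt : Nontrivial S := by
    refine ⟨⟨⟨z, hQS h.mem⟩, 1, ?_⟩⟩
    intro h1
    exact h.ne (congrArg Subtype.val h1)
  have hcn := hSp.center_nontrivial
  obtain ⟨x, hx1⟩ := exists_ne (1 : Subgroup.center ↥S)
  have hx := Subgroup.mem_center_iff.mp x.2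
  have hxz : ((x : ↥S) : G) = z := by
    rcases hcen _ (x : ↥S).2 (fun y hy => congrArg Subtype.val (hx ⟨y, hy⟩)) with h1 | h1
    · exfalso
      apply hx1
      apply Subtype.ext
      apply Subtype.ext
      exact h1
    · exact h1
  have hzS : ∀ y ∈ S, y * z = z * y := by
    intro y hy
    rw [← hxz]
    exact congrArg Subtype.val (hx ⟨y, hy⟩)
  have hNS : Subgroup.normalizer (S : Set G) ≤ Subgroup.normalizer (Q : Set G) := by
    intro n hn
    apply h.norm
    rw [Subgroup.mem_centralizer_singleton_iff, ← mul_inv_eq_iff_eq_mul]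
    rw [Subgroup.mem_normalizer_iff] at hn
    have h1 : n * z * n⁻¹ ∈ S := (hn z).mp (hQS h.mem)
    rcases hcen _ h1 (by
      intro y hy
      have h2 : n⁻¹ * y * n ∈ S := by
        rw [hn]; simpa [mul_assoc] using hy
      have h3 := hzS _ h2
      calc y * (n * z * n⁻¹) = n * ((n⁻¹ * y * n) * z) * n⁻¹ := by group
        _ = n * (z * (n⁻¹ * y * n)) * n⁻¹ := by rw [h3]
        _ = _ := by group) with h2 | h2
    · exfalso
      apply h.ne
      rw [mul_inv_eq_iff_eq_mul, one_mul] at h2
      exact (mul_eq_left (a := n)).mp h2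
    · exact h2
  rw [eq_top_iff, ← hF]
  exact sup_le (hNS.trans le_sup_right) le_sup_left

end Cfsg.Agent.S5433
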