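import Cfsg.Agent.H28_CoreC
import Cfsg.Agent.H11_FStar
import Cfsg.Agent.S5433

set_option autoImplicit false
set_option linter.all false
open Cfsg
open scoped commutatorElement

namespace Cfsg.Agent.H28.Large

open Cfsg.Agent.H28.Xsp

variable {G : Type*} [Group G] [Finite G]

/-- `F*(C(z))` extraspecial gives the working hypotheses. -/
theorem pre_of_F {z : G} (hz : orderOf z = 2) {Q : Subgroup G}
    (hF : (Cfsg.generalizedFittingSubgroup ↥(Subgroup.centralizer ({z} : Set G))).map
      (Subgroup.centralizer ({z} : Set G)).subtype = Q)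
    (hQ : Cfsg.IsExtraspecial 2 ↥Q) : Pre Q z := by
  have : Fact (Nat.Prime 2) := ⟨Nat.prime_two⟩
  have hzz := H28.Basic.mul_self_of_orderOf hz
  obtain ⟨w, hw⟩ := Xsp.exists_of_isExtraspecial hQ
  have hcoreQ : coreC z ≤ Q := by
    rw [← hF]
    apply Subgroup.map_mono
    exact (H1.Nilp.pCore_le_fitting 2).trans le_sup_right
  have hzQ : z ∈ Q := hcoreQ (self_mem_coreC hzz)
  have hQC : Q ≤ Subgroup.centralizer ({z} : Set G) := by
    rw [← hF]
    rintro _ ⟨y, _, rfl⟩
    exact y.2
  have hzw : z = w := by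
    rcases hw.cen z hzQ (fun y hy =>
      (Subgroup.mem_centralizer_singleton_iff.mp (hQC hy)).symm) with h | h
    · exfalso
      rw [h] at hz
      simp at hz
    · exact h
  subst hzw
  have hcent : Subgroup.centralizer (Q : Set G) = Subgroup.zpowers z := by
    apply le_antisymm
    · intro y hy
      have hyC : y ∈ Subgroup.centralizer ({z} : Set G) := by
        rw [Subgroup.mem_centralizer_singleton_iff]
        exact (Subgroup.mem_centralizer_iff.mp hy z hzQ).symm
      have h1 : (⟨y, hyC⟩ : ↥(Subgroup.centralizer ({z} : Set G))) ∈ Subgroup.centralizer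
          ((Cfsg.generalizedFittingSubgroup ↥(Subgroup.centralizer ({z} : Set G)) :
            Subgroup ↥(Subgroup.centralizer ({z} : Set G))) : Set ↥(Subgroup.centralizer ({z} : Set G))) := by
        rw [Subgroup.mem_centralizer_iff]
        intro u hu
        apply Subtype.ext
        have huQ : (u : G) ∈ Q := by rw [← hF]; exact ⟨u, hu, rfl⟩
        exact Subgroup.mem_centralizer_iff.mp hy u huQ
      have h2 := H11.FStar.centralizer_generalizedFitting_le h1
      have h3 : y ∈ Q := by rw [← hF]; exact ⟨⟨y, hyC⟩, h2, rfl⟩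
      rw [mem_zpowers_of_sq hw.sq]
      exact hw.cen y h3 (fun u hu => (Subgroup.mem_centralizer_iff.mp hy u hu).symm)
    · rw [Subgroup.zpowers_le, Subgroup.mem_centralizer_iff]
      intro y hy
      exact (hw.zc y hy).symm
  refine ⟨hw, hcent, ?_, Xsp.not_comm_of_isExtraspecial hQ⟩
  -- normality
  have hn : (Cfsg.generalizedFittingSubgroup ↥(Subgroup.centralizer ({z} : Set G))).Normal := inferInstance
  intro c hc
  have key : ∀ c ∈ Subgroup.centralizer ({z} : Set G), ∀ y ∈ Q, c * y * c⁻¹ ∈ Q := by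
    intro c hc y hy
    rw [← hF] at hy ⊢
    obtain ⟨u, hu, rfl⟩ := hy
    exact ⟨⟨c, hc⟩ * u * ⟨c, hc⟩⁻¹, hn.conj_mem u hu ⟨c, hc⟩, rfl⟩
  rw [Subgroup.mem_normalizer_iff]
  intro y
  constructor
  · exact key c hc y
  · intro hy
    have := key c⁻¹ (inv_mem hc) _ hy
    simpa [mul_assoc] using this

/-- If some noncentral conjugate of `z` lies in `Q`, then `Q` is large. -/
theorem Pre.large_of_conj {Q : Subgroup G} {z : G} (h : Pre Q z) (g : G) (hx : g * z * g⁻¹ ∈ Q)
    (hne : g * z * g⁻¹ ≠ z) : IsLargeExtraspecial Q :=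
  h.large_of_core hx (h.conj g).ne hne (h.conj g).sq (Q.map (MulAut.conj g).toMonoidHom)
    (h.isPGroup.map _) (h.sym_conj g hx) (fun c hc n hn => (h.conj g).conj_mem_of_comm hc hn)

/-- a nontrivial normal subgroup contains `z`. -/
theorem Pre.mem_of_normal {Q : Subgroup G} {z : G} (h : Pre Q z) (hL : IsLargeExtraspecial Q)
    (N : Subgroup G) [hN : N.Normal] (hN1 : N ≠ ⊥) : z ∈ N := by
  have : Fact (Nat.Prime 2) := ⟨Nat.prime_two⟩
  have heven : Even (Nat.card N) := by
    rw [← Nat.not_odd_iff_even]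
    intro hodd
    apply hN1
    apply hL.2.2.2 N hodd
    intro q _
    rw [Subgroup.normalizer_eq_top]
    exact Subgroup.mem_top q
  -- fixed points of Q on N
  let _ : MulAction Q N :=
    { smul := fun q n => ⟨(q : G) * n * (q : G)⁻¹, hN.conj_mem n n.2 q⟩
      one_smul := fun n => by
        apply Subtype.ext
        show ((1 : Q) : G) * n * ((1 : Q) : G)⁻¹ = n
        simp
      mul_smul := fun a b n => by
        apply Subtype.ext
        show ((a * b : Q) : G) * n * ((a * b : Q) : G)⁻¹ = (a : G) * ((b : G) * n * (b : G)⁻¹) * (a : G)⁻¹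
        simp only [Subgroup.coe_mul]
        group }
  have hsm : ∀ (q : Q) (n : N), ((q • n : N) : G) = (q : G) * n * (q : G)⁻¹ := fun q n => rfl
  have hmod := h.isPGroup.card_modEq_card_fixedPoints N
  have h2 : 2 ∣ Nat.card (MulAction.fixedPoints Q N) := by
    have h3 : 2 ∣ Nat.card N := heven.two_dvd
    exact (Nat.ModEq.dvd_iff hmod (dvd_refl 2)).mp h3
  have h1mem : (1 : N) ∈ MulAction.fixedPoints Q N := by
    intro q
    apply Subtype.ext
    rw [hsm]; simp
  obtain ⟨⟨n, hn⟩, hne⟩ : ∃ n : MulAction.fixedPoints Q N, n ≠ ⟨1, h1mem⟩ := by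
    have hpos : 0 < Nat.card (MulAction.fixedPoints Q N) := by
      have : Nonempty (MulAction.fixedPoints Q N) := ⟨⟨1, h1mem⟩⟩
      exact Nat.card_pos
    have hge : 2 ≤ Nat.card (MulAction.fixedPoints Q N) := Nat.le_of_dvd hpos h2
    have : Nontrivial (MulAction.fixedPoints Q N) := Finite.one_lt_card_iff_nontrivial.mp (by omega)
    exact exists_ne _
  have hnQ : (n : G) ∈ Subgroup.centralizer (Q : Set G) := by
    rw [Subgroup.mem_centralizer_iff]
    intro q hq
    have := congrArg Subtype.val (hn ⟨q, hq⟩)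
    rw [hsm] at this
    exact mul_inv_eq_iff_eq_mul.mp this
  rw [h.cent, mem_zpowers_of_sq h.sq] at hnQ
  rcases hnQ with h4 | h4
  · exfalso
    apply hne
    apply Subtype.ext
    apply Subtype.ext
    exact h4
  · rw [← h4]; exact n.2

end Cfsg.Agent.H28.Large
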