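import Cfsg.Agent.H28_CoreC

set_option autoImplicit false
set_option linter.all false
open Cfsg
open scoped commutatorElement

namespace Cfsg.Agent.H28.Large

open Cfsg.Agent.H28.Xsp

variable {G : Type*} [Group G] [Finite G]

theorem centralizer_closure_pair (x z : G) : Subgroup.centralizer ((Subgroup.closure ({x, z} : Set G) : Subgroup G) : Set G) =
    Subgroup.centralizer ({x} : Set G) ⊓ Subgroup.centralizer ({z} : Set G) := by
  apply le_antisymm
  · apply le_inf
    · apply Subgroup.centralizer_le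
      intro y hy; rw [Set.mem_singleton_iff] at hy; subst hy
      exact Subgroup.subset_closure (by simp)
    · apply Subgroup.centralizer_le
      intro y hy; rw [Set.mem_singleton_iff] at hy; subst hy
      exact Subgroup.subset_closure (by simp)
  · rw [Subgroup.le_centralizer_iff, Subgroup.closure_le]
    intro y hy
    rw [SetLike.mem_coe, Subgroup.mem_centralizer_iff]
    intro c hc
    obtain ⟨h1, h2⟩ := Subgroup.mem_inf.mp hc
    rcases hy with hy | hy
    · rw [hy]; exact Subgroup.mem_centralizer_singleton_iff.mp h1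
    · rw [Set.mem_singleton_iff] at hy
      rw [hy]; exact Subgroup.mem_centralizer_singleton_iff.mp h2

theorem mem_normalizer_closure_pair {x z n : G}
    (h1 : n * x * n⁻¹ ∈ Subgroup.closure ({x, z} : Set G))
    (h2 : n * z * n⁻¹ ∈ Subgroup.closure ({x, z} : Set G)) :
    n ∈ Subgroup.normalizer ((Subgroup.closure ({x, z} : Set G) : Subgroup G) : Set G) := by
  have h3 : (Subgroup.closure ({x, z} : Set G)).map (MulAut.conj n).toMonoidHom ≤
      Subgroup.closure ({x, z} : Set G) := by
    rw [MonoidHom.map_closure, Subgroup.closure_le]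
    rintro _ ⟨y, hy, rfl⟩
    rcases hy with hy | hy
    · rw [hy]; exact h1
    · rw [Set.mem_singleton_iff] at hy; rw [hy]; exact h2
  have h4 : (Subgroup.closure ({x, z} : Set G)).map (MulAut.conj n).toMonoidHom =
      Subgroup.closure ({x, z} : Set G) := by
    apply Subgroup.eq_of_le_of_card_ge h3
    rw [Subgroup.card_map_of_injective (MulAut.conj n).injective]
  rw [Subgroup.mem_normalizer_iff]
  intro y
  constructor
  · intro hy
    rw [← h4, mem_map_conj]
    have : n⁻¹ * (n * y * n⁻¹) * n = y := by group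
    rwa [this]
  · intro hy
    rw [← h4, mem_map_conj] at hy
    have : n⁻¹ * (n * y * n⁻¹) * n = y := by group
    rwa [this] at hy

/-- `N(V)/C(V) ≅ S₃` : index version. -/
theorem relIndex_six {x z q y : G} (hx1 : x ≠ 1) (hz1 : z ≠ 1) (hxz : x ≠ z) (hxx : x * x = 1)
    (hzz : z * z = 1) (hzx : z * x = x * z) (hqz : q * z * q⁻¹ = z) (hqx : q * x * q⁻¹ = z * x)
    (hyx : y * x * y⁻¹ = x) (hyz : y * z * y⁻¹ = z * x) :
    (Subgroup.centralizer ((Subgroup.closure ({x, z} : Set G) : Subgroup G) : Set G)).relIndex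
      (Subgroup.normalizer ((Subgroup.closure ({x, z} : Set G) : Subgroup G) : Set G)) = 6 := by
  classical
  set V : Subgroup G := Subgroup.closure ({x, z} : Set G) with hV
  set N : Subgroup G := Subgroup.normalizer (V : Set G) with hN
  have hxV : x ∈ V := Subgroup.subset_closure (by simp)
  have hzV : z ∈ V := Subgroup.subset_closure (by simp)
  have hzxV : z * x ∈ V := V.mul_mem hzV hxV
  have hzx1 : z * x ≠ 1 := by
    intro h
    apply hxz
    have := eq_inv_of_mul_eq_one_right h
    rw [this]; exact inv_eq_of_mul_eq_one_left hzz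
  have hzxx : z * x ≠ x := by
    intro h; exact hz1 ((mul_eq_right (a := z)).mp h)
  have hzxz : z * x ≠ z := by
    intro h; exact hx1 ((mul_eq_left (b := x)).mp h)
  have hzxx' : z * x * x = z := by rw [mul_assoc, hxx, mul_one]
  have hzzx : z * (z * x) = x := by rw [← mul_assoc, hzz, one_mul]
  let f : G → G × G := fun n => (n * z * n⁻¹, n * x * n⁻¹)
  have hfmul : ∀ a b c d e : G, a * z * a⁻¹ = c → a * x * a⁻¹ = d → b * z * b⁻¹ = e →
      (b * a) * z * (b * a)⁻¹ = b * c * b⁻¹ ∧ (b * a) * x * (b * a)⁻¹ = b * d * b⁻¹ := by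
    intro a b c d e h1 h2 h3
    constructor
    · rw [← h1]; group
    · rw [← h2]; group
  have hyzx : y * (z * x) * y⁻¹ = z := by
    calc y * (z * x) * y⁻¹ = (y * z * y⁻¹) * (y * x * y⁻¹) := by group
      _ = z := by rw [hyz, hyx, hzxx']
  have hqzx : q * (z * x) * q⁻¹ = x := by
    calc q * (z * x) * q⁻¹ = (q * z * q⁻¹) * (q * x * q⁻¹) := by group
      _ = x := by rw [hqz, hqx, hzzx]
  let S : Finset (G × G) := {(z, x), (z, z * x), (z * x, x), (x, z * x), (z * x, z), (x, z)}
  have hScard : S.card = 6 := by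
    have hne1 : x ≠ z := hxz
    have hne1' : z ≠ x := hxz.symm
    have e1 : x ≠ z * x := hzxx.symm
    have e2 : z ≠ z * x := hzxz.symm
    simp only [S]
    repeat rw [Finset.card_insert_of_notMem]
    · simp
    all_goals simp [hne1, hne1', e1, e2, hzxx, hzxz, hx1, hz1]
  -- elements realizing
  have hreal : ∀ s ∈ S, ∃ n ∈ N, f n = s := by
    have hf1 : f 1 = (z, x) := by simp [f]
    have hfq : f q = (z, z * x) := by simp only [f]; rw [hqz, hqx]
    have hfy : f y = (z * x, x) := by simp only [f]; rw [hyz, hyx]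
    have hfqy : f (q * y) = (x, z * x) := by
      simp only [f]
      have h1 : (q * y) * z * (q * y)⁻¹ = q * (y * z * y⁻¹) * q⁻¹ := by group
      have h2 : (q * y) * x * (q * y)⁻¹ = q * (y * x * y⁻¹) * q⁻¹ := by group
      rw [h1, h2, hyz, hyx, hqzx, hqx]
    have hfyq : f (y * q) = (z * x, z) := by
      simp only [f]
      have h1 : (y * q) * z * (y * q)⁻¹ = y * (q * z * q⁻¹) * y⁻¹ := by group
      have h2 : (y * q) * x * (y * q)⁻¹ = y * (q * x * q⁻¹) * y⁻¹ := by group
      rw [h1, h2, hqz, hqx, hyz, hyzx]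
    have hfqyq : f (q * (y * q)) = (x, z) := by
      simp only [f] at hfyq ⊢
      have h1 : (q * (y * q)) * z * (q * (y * q))⁻¹ = q * ((y * q) * z * (y * q)⁻¹) * q⁻¹ := by group
      have h2 : (q * (y * q)) * x * (q * (y * q))⁻¹ = q * ((y * q) * x * (y * q)⁻¹) * q⁻¹ := by group
      rw [Prod.mk.injEq] at hfyq
      rw [h1, h2, hfyq.1, hfyq.2, hqzx, hqz]
    have hqN : q ∈ N := mem_normalizer_closure_pair (by rw [hqx]; exact hzxV) (by rw [hqz]; exact hzV)
    have hyN : y ∈ N := mem_normalizer_closure_pair (by rw [hyx]; exact hxV) (by rw [hyz]; exact hzxV)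
    intro s hs
    simp only [S, Finset.mem_insert, Finset.mem_singleton] at hs
    rcases hs with rfl | rfl | rfl | rfl | rfl | rfl
    · exact ⟨1, N.one_mem, hf1⟩
    · exact ⟨q, hqN, hfq⟩
    · exact ⟨y, hyN, hfy⟩
    · exact ⟨q * y, N.mul_mem hqN hyN, hfqy⟩
    · exact ⟨y * q, N.mul_mem hyN hqN, hfyq⟩
    · exact ⟨q * (y * q), N.mul_mem hqN (N.mul_mem hyN hqN), hfqyq⟩
  have hmemS : ∀ n ∈ N, f n ∈ S := by
    intro n hn
    rw [hN, Subgroup.mem_normalizer_iff] at hn
    have h1 := mem_pair hxx hzz hzx ((hn z).mp hzV)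
    have h2 := mem_pair hxx hzz hzx ((hn x).mp hxV)
    have h3 : n * z * n⁻¹ ≠ 1 := by
      intro h; apply hz1
      rw [mul_inv_eq_iff_eq_mul, one_mul] at h
      exact (mul_eq_left (a := n)).mp h
    have h4 : n * x * n⁻¹ ≠ 1 := by
      intro h; apply hx1
      rw [mul_inv_eq_iff_eq_mul, one_mul] at h
      exact (mul_eq_left (a := n)).mp h
    have h5 : n * z * n⁻¹ ≠ n * x * n⁻¹ := by
      intro h; apply hxz
      exact (mul_left_cancel (mul_right_cancel h)).symm
    simp only [f, S, Finset.mem_insert, Finset.mem_singleton, Prod.mk.injEq]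
    rcases h1 with h1 | h1 | h1 | h1
    · exact absurd h1 h3
    · rcases h2 with h2 | h2 | h2 | h2
      · exact absurd h2 h4
      · exact absurd (h1.trans h2.symm) h5
      · simp [h1, h2]
      · simp [h1, h2]
    · rcases h2 with h2 | h2 | h2 | h2
      · exact absurd h2 h4
      · simp [h1, h2]
      · exact absurd (h1.trans h2.symm) h5
      · simp [h1, h2]
    · rcases h2 with h2 | h2 | h2 | h2
      · exact absurd h2 h4
      · simp [h1, h2]
      · simp [h1, h2]
      · exact absurd (h1.trans h2.symm) h5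
  -- f a = f b iff same coset
  set C : Subgroup G := Subgroup.centralizer (V : Set G) with hC
  have hCmem : ∀ c, c ∈ C ↔ c * x = x * c ∧ c * z = z * c := by
    intro c
    rw [hC, hV, centralizer_closure_pair, Subgroup.mem_inf, Subgroup.mem_centralizer_singleton_iff,
      Subgroup.mem_centralizer_singleton_iff]
  have hf : ∀ a b : G, f a = f b ↔ a⁻¹ * b ∈ C := by
    intro a b
    rw [hCmem]
    simp only [f, Prod.mk.injEq]
    have key : ∀ w : G, a * w * a⁻¹ = b * w * b⁻¹ ↔ a⁻¹ * b * w = w * (a⁻¹ * b) := by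
      intro w
      constructor
      · intro h
        calc a⁻¹ * b * w = a⁻¹ * (b * w * b⁻¹) * b := by group
          _ = a⁻¹ * (a * w * a⁻¹) * b := by rw [h]
          _ = _ := by group
      · intro h
        calc a * w * a⁻¹ = a * (w * (a⁻¹ * b)) * b⁻¹ := by group
          _ = a * ((a⁻¹ * b) * w) * b⁻¹ := by rw [h]
          _ = _ := by group
    rw [key, key]
    exact and_comm
  have hcard : Nat.card (↥N ⧸ (C.subgroupOf N)) = Nat.card S := by
    let fq : ↥N ⧸ (C.subgroupOf N) → ↥S :=
      Quotient.lift (fun n : ↥N => (⟨f n, hmemS n n.2⟩ : ↥S)) (by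
        intro a b hab
        have := QuotientGroup.leftRel_apply.mp hab
        rw [Subgroup.mem_subgroupOf] at this
        apply Subtype.ext
        exact (hf a b).mpr this)
    apply Nat.card_congr (Equiv.ofBijective fq ⟨?_, ?_⟩)
    · intro a b
      refine Quotient.inductionOn₂ a b ?_
      intro a b hab
      apply Quotient.sound
      apply QuotientGroup.leftRel_apply.mpr
      rw [Subgroup.mem_subgroupOf]
      exact (hf a b).mp (congrArg Subtype.val hab)
    · rintro ⟨s, hs⟩
      obtain ⟨n, hn, hns⟩ := hreal s hs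
      refine ⟨Quotient.mk _ ⟨n, hn⟩, ?_⟩
      apply Subtype.ext
      exact hns
  show Nat.card (↥N ⧸ (C.subgroupOf N)) = 6
  rw [hcard, Nat.card_eq_fintype_card, Fintype.card_coe, hScard]

end Cfsg.Agent.H28.Large
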