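import Mathlib
import Cfsg.Prelude.Def_Sporadic_a

set_option autoImplicit false

/-!
Self-dual binary codes of length 24 with minimum weight at least 8.
-/

namespace Cfsg.Agent.H28.Gol

open Cfsg Finset

/-- words -/
abbrev W24 := Fin 24 → ZMod 2

/-- support -/
def sp (w : W24) : Finset (Fin 24) := Finset.univ.filter fun i => w i ≠ 0

theorem mem_sp {w : W24} {i : Fin 24} : i ∈ sp w ↔ w i ≠ 0 := by simp [sp]

theorem mem_sp' {w : W24} {i : Fin 24} : i ∈ sp w ↔ w i = 1 := by
  rw [mem_sp]
  generalize w i = a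
  revert a; decide

theorem hn_eq (w : W24) : hammingNorm w = (sp w).card := rfl

/-- the word with given support -/
def iw (s : Finset (Fin 24)) : W24 := fun i => if i ∈ s then 1 else 0

theorem sp_iw (s : Finset (Fin 24)) : sp (iw s) = s := by
  ext i
  rw [mem_sp']
  by_cases h : i ∈ s
  · simp [iw, h]
  · simp [iw, h]

theorem iw_sp (w : W24) : iw (sp w) = w := by
  funext i
  by_cases h : i ∈ sp w
  · simp only [iw, h, if_true]; exact (mem_sp'.1 h).symm
  · simp only [iw, h, if_false]
    by_contra h'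
    exact h (mem_sp.2 (fun h'' => h' h''.symm))

theorem sp_inj {v w : W24} (h : sp v = sp w) : v = w := by rw [← iw_sp v, h, iw_sp]

theorem sp_zero : sp 0 = ∅ := by
  ext i; simp [mem_sp]

theorem sp_eq_empty {w : W24} : sp w = ∅ ↔ w = 0 := by
  rw [← sp_zero]
  exact ⟨sp_inj, fun h => by rw [h]⟩

theorem sp_add (v w : W24) : sp (v + w) = symmDiff (sp v) (sp w) := by
  ext i
  rw [Finset.mem_symmDiff, mem_sp', mem_sp', mem_sp', Pi.add_apply]
  generalize v i = a
  generalize w i = b
  revert a b; decide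

theorem card_symmDiff (s t : Finset (Fin 24)) : (symmDiff s t).card + 2 * (s ∩ t).card = s.card + t.card := by
  have h1 : (symmDiff s t).card = (s \ t).card + (t \ s).card := by
    rw [symmDiff_def, Finset.sup_eq_union, Finset.card_union_of_disjoint]
    rw [Finset.disjoint_left]
    intro a ha hb
    rw [Finset.mem_sdiff] at ha hb
    exact hb.2 ha.1
  have h2 := Finset.card_sdiff_add_card_inter s t
  have h3 := Finset.card_sdiff_add_card_inter t s
  rw [Finset.inter_comm t s] at h3
  omega

theorem card_add (v w : W24) : (sp (v + w)).card + 2 * (sp v ∩ sp w).card = (sp v).card + (sp w).card := by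
  rw [sp_add]; exact card_symmDiff _ _

/-- the abstract codes -/
structure SD (C : Submodule (ZMod 2) W24) : Prop where
  hdim : Module.finrank (ZMod 2) C = 12
  horth : ∀ v ∈ C, ∀ w ∈ C, ∑ i, v i * w i = 0
  hmin : ∀ w ∈ C, w ≠ 0 → 8 ≤ hammingNorm w

variable {C : Submodule (ZMod 2) W24}

namespace SD

theorem min8 (h : SD C) {w : W24} (hw : w ∈ C) (h0 : w ≠ 0) : 8 ≤ (sp w).card := h.hmin w hw h0

theorem eq_zero (h : SD C) {w : W24} (hw : w ∈ C) (h0 : (sp w).card < 8) : w = 0 := by
  by_contra h1
  have := h.min8 hw h1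
  omega

/-- the dual code is the code -/
theorem dual (h : SD C) {w : W24} (hw : ∀ v ∈ C, ∑ i, v i * w i = 0) : w ∈ C := by
  let B : LinearMap.BilinForm (ZMod 2) W24 := Matrix.toBilin' (1 : Matrix (Fin 24) (Fin 24) (ZMod 2))
  have hB : ∀ x y, B x y = ∑ i, x i * y i := by
    intro x y
    show Matrix.toBilin' 1 x y = _
    rw [Matrix.toBilin'_apply']
    rw [Matrix.one_mulVec]
    rfl
  have hnd : B.Nondegenerate := by
    have h1 : (1 : Matrix (Fin 24) (Fin 24) (ZMod 2)).Nondegenerate := Matrix.nondegenerate_of_det_ne_zero (by rw [Matrix.det_one]; exact one_ne_zero)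
    exact h1.toBilin'
  have hrefl : B.IsRefl := by
    intro x y hxy
    rw [hB] at hxy ⊢
    rw [← hxy]
    exact Finset.sum_congr rfl (fun i _ => mul_comm _ _)
  have h1 := LinearMap.BilinForm.finrank_orthogonal hnd C
  have h2 : C ≤ B.orthogonal C := by
    intro x hx
    rw [LinearMap.BilinForm.mem_orthogonal_iff]
    intro y hy
    rw [hB]
    exact h.horth y hy x hx
  have h3 : Module.finrank (ZMod 2) W24 = 24 := by rw [Module.finrank_fintype_fun_eq_card]; rfl
  have h4 : C = B.orthogonal C := by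
    apply Submodule.eq_of_le_of_finrank_eq h2
    rw [h1, h3, h.hdim]
  rw [h4, LinearMap.BilinForm.mem_orthogonal_iff]
  intro y hy
  rw [hB]
  exact hw y hy

theorem sum_sp (w : W24) : ∑ i, w i = ((sp w).card : ZMod 2) := by
  rw [Finset.card_eq_sum_ones, Nat.cast_sum, sp, Finset.sum_filter]
  apply Finset.sum_congr rfl
  intro i _
  by_cases h : w i ≠ 0
  · rw [if_pos h]
    have := mem_sp'.1 (mem_sp.2 h)
    rw [this]; rfl
  · rw [if_neg h]
    push Not at h
    exact h

theorem even (h : SD C) {w : W24} (hw : w ∈ C) : 2 ∣ (sp w).card := by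
  have h1 := h.horth w hw w hw
  have h2 : ∑ i, w i * w i = ∑ i, w i := by
    apply Finset.sum_congr rfl
    intro i _
    generalize w i = a
    revert a; decide
  rw [h2, sum_sp] at h1
  exact (ZMod.natCast_eq_zero_iff _ _).1 h1

theorem ones_mem (h : SD C) : (fun _ => 1 : W24) ∈ C := by
  apply h.dual
  intro v hv
  have : ∑ i, v i * (1 : ZMod 2) = ∑ i, v i := Finset.sum_congr rfl (fun i _ => mul_one _)
  rw [this, sum_sp]
  exact (ZMod.natCast_eq_zero_iff _ _).2 (h.even hv)

theorem weights (h : SD C) {w : W24} (hw : w ∈ C) : (sp w).card ∈ ({0, 8, 10, 12, 14, 16, 24} : Finset ℕ) := by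
  have h1 := h.even hw
  have h2 : (sp w).card = 0 ∨ 8 ≤ (sp w).card := by
    by_cases h0 : w = 0
    · left; rw [h0, sp_zero]; rfl
    · right; exact h.min8 hw h0
  have h3 : (sp (w + fun _ => 1)).card + (sp w).card = 24 := by
    have := card_add w (fun _ => 1)
    have h4 : sp (fun _ => 1 : W24) = Finset.univ := by
      ext i; simp [mem_sp]
    rw [h4, Finset.inter_univ, Finset.card_univ, Fintype.card_fin] at this
    omega
  have h4 : (sp (w + fun _ => 1)).card = 0 ∨ 8 ≤ (sp (w + fun _ => 1)).card := by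
    by_cases h0 : (w + fun _ => 1) = 0
    · left; rw [h0, sp_zero]; rfl
    · right; exact h.min8 (C.add_mem hw h.ones_mem) h0
  simp only [Finset.mem_insert, Finset.mem_singleton]
  omega

/-- restriction to few coordinates is onto -/
theorem res_surj (h : SD C) (T : Finset (Fin 24)) (hT : T.card ≤ 7) (f : T → ZMod 2) : ∃ c ∈ C, ∀ i : T, c i = f i := by
  let res : C →ₗ[ZMod 2] (T → ZMod 2) := (LinearMap.funLeft (ZMod 2) (ZMod 2) (fun i : T => (i : Fin 24))).comp C.subtype
  have hs : LinearMap.range res = ⊤ := by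
    by_contra hne
    obtain ⟨φ, hφ0, hφ⟩ := Submodule.exists_le_ker_of_lt_top (LinearMap.range res) (lt_top_iff_ne_top.2 hne)
    apply hφ0
    let a : W24 := fun i => if hi : i ∈ T then φ (Pi.single ⟨i, hi⟩ 1) else 0
    have hφa : ∀ x : T → ZMod 2, φ x = ∑ i : T, x i * a i := by
      intro x
      have : x = ∑ i : T, x i • (Pi.single i 1 : T → ZMod 2) := by
        funext j
        rw [Finset.sum_apply]
        simp only [Pi.smul_apply, Pi.single_apply, smul_eq_mul, mul_ite, mul_one, mul_zero]
        rw [Finset.sum_ite_eq, if_pos (Finset.mem_univ _)]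
      conv_lhs => rw [this]
      rw [map_sum]
      apply Finset.sum_congr rfl
      intro i _
      rw [map_smul, smul_eq_mul]
      congr 1
      show _ = if hi : (i : Fin 24) ∈ T then φ (Pi.single ⟨i, hi⟩ 1) else 0
      rw [dif_pos i.2]
    have ha : a ∈ C := by
      apply h.dual
      intro v hv
      have h1 : φ (res ⟨v, hv⟩) = 0 := hφ ⟨_, rfl⟩
      rw [hφa] at h1
      rw [← h1]
      have h2 : ∑ i : T, (res ⟨v, hv⟩) i * a i = ∑ i ∈ T, v i * a i := by
        rw [← Finset.sum_coe_sort T (fun i => v i * a i)]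
        rfl
      rw [h2]
      symm
      apply Finset.sum_subset (Finset.subset_univ T)
      intro i _ hi
      have : a i = 0 := dif_neg hi
      rw [this, mul_zero]
    have hsp : sp a ⊆ T := by
      intro i hi
      by_contra hiT
      exact mem_sp.1 hi (dif_neg hiT)
    have ha0 : a = 0 := h.eq_zero ha (lt_of_le_of_lt (Finset.card_le_card hsp) (by omega))
    apply LinearMap.ext
    intro x
    rw [hφa, ha0]
    simp
  have : f ∈ LinearMap.range res := by rw [hs]; trivial
  obtain ⟨c, hc⟩ := this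
  exact ⟨c, c.2, fun i => congrFun hc i⟩

theorem card_C (h : SD C) : Nat.card C = 4096 := by
  rw [Module.natCard_eq_pow_finrank (K := ZMod 2), h.hdim, Nat.card_zmod]
  norm_num

open Classical in
/-- number of words with given ones -/
theorem ones (h : SD C) (T : Finset (Fin 24)) (hT : T.card ≤ 7) :
    (Finset.univ.filter fun c : C => T ⊆ sp (c : W24)).card * 2 ^ T.card = 4096 := by
  classical
  let res : C →+ (T → ZMod 2) := ((LinearMap.funLeft (ZMod 2) (ZMod 2) (fun i : T => (i : Fin 24))).comp C.subtype).toAddMonoidHom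
  have hs : Function.Surjective res := by
    intro f
    obtain ⟨c, hc, hcf⟩ := h.res_surj T hT f
    exact ⟨⟨c, hc⟩, funext hcf⟩
  have h1 : ∀ f : T → ZMod 2, (Finset.univ.filter fun c : C => res c = f).card = (Finset.univ.filter fun c : C => T ⊆ sp (c : W24)).card := by
    intro f
    have h2 : (Finset.univ.filter fun c : C => T ⊆ sp (c : W24)) = Finset.univ.filter fun c : C => res c = fun _ => 1 := by
      ext c
      rw [Finset.mem_filter, Finset.mem_filter]
      refine and_congr_right fun _ => ?_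
      constructor
      · intro hc
        funext i
        exact mem_sp'.1 (hc i.2)
      · intro hc i hi
        exact mem_sp'.2 (congrFun hc ⟨i, hi⟩)
    rw [h2]
    exact AddMonoidHom.card_fiber_eq_of_mem_range res (Set.mem_range.2 (hs f)) (Set.mem_range.2 (hs _))
  have h3 := Finset.card_eq_sum_card_fiberwise (s := (Finset.univ : Finset C)) (t := (Finset.univ : Finset (T → ZMod 2))) (f := res)
    (fun _ _ => Finset.mem_coe.2 (Finset.mem_univ _))
  rw [Finset.sum_congr rfl (fun f _ => h1 f), Finset.sum_const, smul_eq_mul, Finset.card_univ, Finset.card_univ] at h3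
  rw [Fintype.card_fun, ZMod.card, Fintype.card_coe] at h3
  have h4 : Fintype.card C = 4096 := by rw [← Nat.card_eq_fintype_card]; exact h.card_C
  rw [h4] at h3
  rw [mul_comm]; exact h3.symm

open Classical in
/-- moments -/
theorem moment (h : SD C) (k : ℕ) (hk : k ≤ 7) :
    (∑ c : C, ((sp (c : W24)).card.choose k : ℤ)) = (Nat.choose 24 k) * 2 ^ (12 - k) := by
  have h1 : ∀ c : C, (((sp (c : W24)).card.choose k : ℕ) : ℤ) = ∑ T ∈ Finset.powersetCard k (Finset.univ : Finset (Fin 24)), if T ⊆ sp (c : W24) then (1 : ℤ) else 0 := by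
    intro c
    rw [← Finset.card_powersetCard, Finset.sum_ite, Finset.sum_const_zero, add_zero, Finset.sum_const, nsmul_eq_mul, mul_one]
    congr 2
    ext T
    rw [Finset.mem_filter, Finset.mem_powersetCard, Finset.mem_powersetCard]
    constructor
    · rintro ⟨h2, h3⟩; exact ⟨⟨Finset.subset_univ _, h3⟩, h2⟩
    · rintro ⟨⟨_, h3⟩, h2⟩; exact ⟨h2, h3⟩
  rw [Finset.sum_congr rfl (fun c _ => h1 c), Finset.sum_comm]
  have h2 : ∀ T ∈ Finset.powersetCard k (Finset.univ : Finset (Fin 24)), (∑ c : C, if T ⊆ sp (c : W24) then (1 : ℤ) else 0) = 2 ^ (12 - k) := by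
    intro T hT
    rw [Finset.mem_powersetCard] at hT
    rw [Finset.sum_ite, Finset.sum_const_zero, add_zero, Finset.sum_const, nsmul_eq_mul, mul_one]
    have h3 := h.ones T (by omega)
    rw [hT.2] at h3
    have h4 : 2 ^ (12 - k) * 2 ^ k = 4096 := by
      rw [← pow_add, show 12 - k + k = 12 by omega]; norm_num
    have h5 := Nat.eq_of_mul_eq_mul_right (Nat.pos_of_ne_zero (pow_ne_zero k two_ne_zero)) (h3.trans h4.symm)
    rw [h5]; push_cast; ring
  rw [Finset.sum_congr rfl h2, Finset.sum_const, Finset.card_powersetCard, Finset.card_univ, Fintype.card_fin, nsmul_eq_mul]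

open Classical in
/-- sums of combinations of binomial coefficients -/
theorem comb (h : SD C) (p : ℕ → ℤ) (n : ℕ) (hn : n ≤ 7) :
    (∑ c : C, ∑ k ∈ Finset.range (n + 1), p k * ((sp (c : W24)).card.choose k : ℤ)) =
      ∑ k ∈ Finset.range (n + 1), p k * ((Nat.choose 24 k) * 2 ^ (12 - k)) := by
  rw [Finset.sum_comm]
  apply Finset.sum_congr rfl
  intro k hk
  rw [Finset.mem_range] at hk
  rw [← Finset.mul_sum, h.moment k (by omega)]

def pc : ℕ → ℤ := fun k => [0, -292215, 214830, -99540, 32280, -6840, 720].getD k 0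
def qc : ℕ → ℤ := fun k => [0, 3795, -1430, 276, -24].getD k 0

/-- such a code is doubly even -/
theorem doubly (h : SD C) {w : W24} (hw : w ∈ C) : (sp w).card ∈ ({0, 8, 12, 16, 24} : Finset ℕ) := by
  classical
  have h1 := h.comb pc 6 (by norm_num)
  have h2 : ∑ k ∈ Finset.range (6 + 1), pc k * ((Nat.choose 24 k : ℤ) * 2 ^ (12 - k)) = 0 := by decide +kernel
  rw [h2] at h1
  have h3 : ∀ n ∈ ({0, 8, 10, 12, 14, 16, 24} : Finset ℕ), 0 ≤ ∑ k ∈ Finset.range (6 + 1), pc k * (n.choose k : ℤ) := by
    decide +kernel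
  have h4 : ∀ n ∈ ({0, 8, 10, 12, 14, 16, 24} : Finset ℕ), ∑ k ∈ Finset.range (6 + 1), pc k * (n.choose k : ℤ) = 0 →
      n ∈ ({0, 8, 12, 16, 24} : Finset ℕ) := by
    decide +kernel
  have h5 := (Finset.sum_eq_zero_iff_of_nonneg (fun (c : C) _ => h3 _ (h.weights c.2))).1 h1 ⟨w, hw⟩ (Finset.mem_univ _)
  exact h4 _ (h.weights hw) h5

open Classical in
theorem count8 (h : SD C) : (Finset.univ.filter fun c : C => (sp (c : W24)).card = 8).card = 759 := by
  have h1 := h.comb qc 4 (by norm_num)
  have h2 : ∑ k ∈ Finset.range (4 + 1), qc k * ((Nat.choose 24 k : ℤ) * 2 ^ (12 - k)) = 4096 * 759 := by decide +kernel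
  rw [h2] at h1
  have h3 : ∀ n ∈ ({0, 8, 12, 16, 24} : Finset ℕ), ∑ k ∈ Finset.range (4 + 1), qc k * (n.choose k : ℤ) = if n = 8 then 4096 else 0 := by
    decide +kernel
  rw [Finset.sum_congr rfl (fun (c : C) _ => h3 _ (h.doubly c.2)), Finset.sum_ite, Finset.sum_const_zero, add_zero,
    Finset.sum_const, nsmul_eq_mul] at h1
  omega

/-- the octads -/
theorem unique5 (h : SD C) {v w : W24} (hv : v ∈ C) (hw : w ∈ C) (h8 : (sp v).card = 8) (h8' : (sp w).card = 8)
    {S : Finset (Fin 24)} (hS : S.card = 5) (h1 : S ⊆ sp v) (h2 : S ⊆ sp w) : v = w := by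
  have h3 := card_add v w
  have h4 : 5 ≤ (sp v ∩ sp w).card := by
    rw [← hS]; exact Finset.card_le_card (Finset.subset_inter h1 h2)
  have h5 := h.eq_zero (C.add_mem hv hw) (by omega)
  apply sp_inj
  have h6 : symmDiff (sp v) (sp w) = ∅ := by rw [← sp_add, h5, sp_zero]
  exact symmDiff_eq_bot.1 h6

theorem exists5 (h : SD C) {S : Finset (Fin 24)} (hS : S.card = 5) : ∃ v ∈ C, (sp v).card = 8 ∧ S ⊆ sp v := by
  classical
  let O : Finset C := Finset.univ.filter fun c : C => (sp (c : W24)).card = 8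
  let P : Finset (Finset (Fin 24)) := Finset.powersetCard 5 Finset.univ
  have h1 : (O.biUnion fun c => Finset.powersetCard 5 (sp (c : W24))).card = 42504 := by
    rw [Finset.card_biUnion]
    · have : ∀ c ∈ O, (Finset.powersetCard 5 (sp (c : W24))).card = 56 := by
        intro c hc
        rw [Finset.card_powersetCard, (Finset.mem_filter.1 hc).2]
        rfl
      rw [Finset.sum_congr rfl this, Finset.sum_const, h.count8]
      rfl
    · intro c hc d hd hcd
      show Disjoint (Finset.powersetCard 5 (sp (c : W24))) (Finset.powersetCard 5 (sp (d : W24)))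
      rw [Finset.disjoint_left]
      intro T hT hT'
      rw [Finset.mem_powersetCard] at hT hT'
      apply hcd
      apply Subtype.ext
      exact h.unique5 c.2 d.2 (Finset.mem_filter.1 hc).2 (Finset.mem_filter.1 hd).2 hT.2 hT.1 hT'.1
  have h2 : (O.biUnion fun c => Finset.powersetCard 5 (sp (c : W24))) = P := by
    apply Finset.eq_of_subset_of_card_le
    · intro T hT
      obtain ⟨c, _, hc⟩ := Finset.mem_biUnion.1 hT
      rw [Finset.mem_powersetCard] at hc ⊢
      exact ⟨Finset.subset_univ _, hc.2⟩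
    · rw [h1, Finset.card_powersetCard, Finset.card_univ, Fintype.card_fin]
      decide
  have h3 : S ∈ O.biUnion fun c => Finset.powersetCard 5 (sp (c : W24)) := by
    rw [h2, Finset.mem_powersetCard]
    exact ⟨Finset.subset_univ _, hS⟩
  obtain ⟨c, hc, hcS⟩ := Finset.mem_biUnion.1 h3
  exact ⟨c, c.2, (Finset.mem_filter.1 hc).2, (Finset.mem_powersetCard.1 hcS).1⟩

theorem mem_words {s : Finset (Fin 24)} : s ∈ wordsOfWeight (C : Set W24) 8 ↔ ∃ v ∈ C, (sp v).card = 8 ∧ sp v = s := by
  constructor
  · rintro ⟨⟨v, hv, h1⟩, h2⟩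
    have h3 : sp v = s := by
      rw [← h1]
      ext i
      rw [mem_sp]
      simp [support₂]
    exact ⟨v, hv, by rw [h3]; exact h2, h3⟩
  · rintro ⟨v, hv, h2, rfl⟩
    refine ⟨⟨v, hv, ?_⟩, h2⟩
    ext i
    rw [mem_sp]
    simp [support₂]

theorem steiner (h : SD C) : IsSteinerSystem 5 8 (wordsOfWeight (C : Set W24) 8) := by
  constructor
  · intro b hb
    obtain ⟨v, _, h1, rfl⟩ := mem_words.1 hb
    exact h1
  · intro S hS
    obtain ⟨v, hv, h8, hSv⟩ := h.exists5 hS
    refine ⟨sp v, ⟨mem_words.2 ⟨v, hv, h8, rfl⟩, hSv⟩, ?_⟩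
    rintro b ⟨hb, hSb⟩
    obtain ⟨w, hw, h8', rfl⟩ := mem_words.1 hb
    rw [h.unique5 hw hv h8' h8 hS hSb hSv]

/-- reduction of the weight -/
theorem reduce (h : SD C) {w : W24} (hw : 5 ≤ (sp w).card) : ∃ v ∈ C, (sp v).card = 8 ∧ (sp (w + v)).card < (sp w).card := by
  obtain ⟨S, hS, hS5⟩ := Finset.exists_subset_card_eq hw
  obtain ⟨v, hv, h8, hSv⟩ := h.exists5 hS5
  refine ⟨v, hv, h8, ?_⟩
  have h1 := card_add w v
  have h2 : 5 ≤ (sp w ∩ sp v).card := by
    rw [← hS5]; exact Finset.card_le_card (Finset.subset_inter hS hSv)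
  omega

theorem span8 (h : SD C) : Submodule.span (ZMod 2) {w : W24 | w ∈ C ∧ hammingNorm w = 8} = C := by
  apply le_antisymm
  · rw [Submodule.span_le]
    rintro w ⟨hw, _⟩
    exact hw
  · have key : ∀ n : ℕ, ∀ w ∈ C, (sp w).card = n → w ∈ Submodule.span (ZMod 2) {w : W24 | w ∈ C ∧ hammingNorm w = 8} := by
      intro n
      induction n using Nat.strong_induction_on with
      | _ n ih =>
        intro w hw hn
        by_cases h0 : w = 0
        · rw [h0]; exact Submodule.zero_mem _
        · have h1 := h.min8 hw h0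
          obtain ⟨v, hv, h8, hlt⟩ := h.reduce (by omega : 5 ≤ (sp w).card)
          have h2 := ih _ (by omega) (w + v) (C.add_mem hw hv) rfl
          have h3 : v ∈ Submodule.span (ZMod 2) {w : W24 | w ∈ C ∧ hammingNorm w = 8} :=
            Submodule.subset_span ⟨hv, h8⟩
          have h4 : w = (w + v) - v := by abel
          rw [h4]
          exact Submodule.sub_mem _ h2 h3
    intro w hw
    exact key _ w hw rfl

theorem exists_leader (h : SD C) (w : W24) : ∃ u : W24, u - w ∈ C ∧ (sp u).card ≤ 4 := by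
  have key : ∀ n : ℕ, ∀ w : W24, (sp w).card = n → ∃ u : W24, u - w ∈ C ∧ (sp u).card ≤ 4 := by
    intro n
    induction n using Nat.strong_induction_on with
    | _ n ih =>
      intro w hn
      by_cases h4 : (sp w).card ≤ 4
      · exact ⟨w, by rw [sub_self]; exact C.zero_mem, h4⟩
      · obtain ⟨v, hv, h8, hlt⟩ := h.reduce (by omega : 5 ≤ (sp w).card)
        obtain ⟨u, hu, hu4⟩ := ih _ (by omega) (w + v) rfl
        refine ⟨u, ?_, hu4⟩
        have : u - w = (u - (w + v)) + v := by abel
        rw [this]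
        exact C.add_mem hu hv
  exact key _ w rfl

end SD

/-! ### counting in Steiner systems -/

theorem card_between {α : Type*} [DecidableEq α] (T b : Finset α) (hTb : T ⊆ b) (t : ℕ) (ht : T.card ≤ t) :
    ((Finset.powersetCard t b).filter (T ⊆ ·)).card = (b.card - T.card).choose (t - T.card) := by
  rw [← Finset.card_sdiff_of_subset hTb, ← Finset.card_powersetCard]
  symm
  apply Finset.card_bij (fun S _ => T ∪ S)
  · intro S hS
    rw [Finset.mem_powersetCard] at hS
    rw [Finset.mem_filter, Finset.mem_powersetCard]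
    refine ⟨⟨Finset.union_subset hTb (hS.1.trans Finset.sdiff_subset), ?_⟩, Finset.subset_union_left⟩
    rw [Finset.card_union_of_disjoint, hS.2]
    · omega
    · rw [Finset.disjoint_left]
      intro a ha ha'
      exact (Finset.mem_sdiff.1 (hS.1 ha')).2 ha
  · intro S hS S' hS' h
    rw [Finset.mem_powersetCard] at hS hS'
    ext a
    constructor
    · intro ha
      have h1 : a ∈ T ∪ S' := by rw [← h]; exact Finset.mem_union_right _ ha
      rcases Finset.mem_union.1 h1 with h2 | h2
      · exact absurd h2 (Finset.mem_sdiff.1 (hS.1 ha)).2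
      · exact h2
    · intro ha
      have h1 : a ∈ T ∪ S := by rw [h]; exact Finset.mem_union_right _ ha
      rcases Finset.mem_union.1 h1 with h2 | h2
      · exact absurd h2 (Finset.mem_sdiff.1 (hS'.1 ha)).2
      · exact h2
  · intro S hS
    rw [Finset.mem_filter, Finset.mem_powersetCard] at hS
    refine ⟨S \ T, ?_, Finset.union_sdiff_of_subset hS.2⟩
    rw [Finset.mem_powersetCard]
    refine ⟨Finset.sdiff_subset_sdiff hS.1.1 (le_refl _), ?_⟩
    rw [Finset.card_sdiff_of_subset hS.2, hS.1.2]

open Classical in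
/-- number of blocks through a set -/
theorem steiner_count {α : Type*} [Fintype α] {t k : ℕ} {B : Set (Finset α)} (hB : IsSteinerSystem t k B)
    (T : Finset α) (hT : T.card ≤ t) :
    ((Finset.univ.filter fun b : Finset α => b ∈ B).filter (T ⊆ ·)).card * (k - T.card).choose (t - T.card) =
      (Fintype.card α - T.card).choose (t - T.card) := by
  have h1 : ((Finset.powersetCard t (Finset.univ : Finset α)).filter (T ⊆ ·)).card =
      (Fintype.card α - T.card).choose (t - T.card) := by
    rw [card_between T Finset.univ (Finset.subset_univ _) t hT, Finset.card_univ]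
  rw [← h1]
  have key := Finset.card_mul_eq_card_mul (s := (Finset.univ.filter fun b : Finset α => b ∈ B).filter (T ⊆ ·))
    (t := (Finset.powersetCard t (Finset.univ : Finset α)).filter (T ⊆ ·)) (fun b S => S ⊆ b)
    (m := (k - T.card).choose (t - T.card)) (n := 1) ?_ ?_
  · rw [key, mul_one]
  · intro b hb
    rw [Finset.mem_filter, Finset.mem_filter] at hb
    have h2 := card_between T b hb.2 t hT
    rw [hB.1 b hb.1.2] at h2
    rw [← h2]
    congr 1
    ext S
    simp only [Finset.mem_bipartiteAbove, Finset.mem_filter, Finset.mem_powersetCard, Finset.subset_univ, true_and]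
    tauto
  · intro S hS
    rw [Finset.mem_filter, Finset.mem_powersetCard] at hS
    obtain ⟨b, ⟨hb1, hb2⟩, hb3⟩ := hB.2 S hS.1.2
    rw [Finset.card_eq_one]
    refine ⟨b, ?_⟩
    ext b'
    simp only [Finset.mem_bipartiteBelow, Finset.mem_filter, Finset.mem_univ, true_and, Finset.mem_singleton]
    constructor
    · rintro ⟨⟨h2, _⟩, h3⟩
      exact hb3 b' ⟨h2, h3⟩
    · rintro rfl
      exact ⟨⟨hb1, hS.2.trans hb2⟩, hb2⟩

end Cfsg.Agent.H28.Gol
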