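import Mathlib
import Cfsg.Agent.H28_Large
import Cfsg.Agent.H11_Local

/-! Centralizers of involutions in `2^{n+1}:GL_{n+1}(2)` (possibly inside a larger group). -/

set_option autoImplicit false
set_option linter.all false

namespace Cfsg.Agent.H28.Hol

open Subgroup Cfsg Cfsg.Agent.H28.Xsp Cfsg.Agent.H28.Large

abbrev X (n : ℕ) := ZMod 2 × (Fin n → ZMod 2)

structure Hol {G : Type*} [Group G] {n : ℕ} (T : X n → G) (μ : (X n ≃ₗ[ZMod 2] X n) →* G) : Prop where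
  add : ∀ x y, T (x + y) = T x * T y
  act : ∀ φ x, μ φ * T x = T (φ x) * μ φ
  inj : ∀ x φ, T x * μ φ = 1 → x = 0 ∧ φ = 1
  cen : ∀ x, x ≠ 0 → ∀ g, g * T x = T x * g → ∃ y φ, g = T y * μ φ

def e {n : ℕ} : X n := (1, 0)

def Tr {n : ℕ} (φ : X n ≃ₗ[ZMod 2] X n) : Prop := ∀ x, φ x = x ∨ φ x = x + e

variable {n : ℕ}

theorem ss (x : X n) : x + x = 0 := ZModModule.add_self x

theorem z2 : ∀ a : ZMod 2, a = 0 ∨ a = 1 := by decide

theorem e_ne : (e : X n) ≠ 0 := by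
  intro h
  have := congrArg Prod.fst h
  exact absurd this (show (1 : ZMod 2) ≠ 0 by decide)

theorem Tr.e {φ : X n ≃ₗ[ZMod 2] X n} (h : Tr φ) : φ e = Hol.e := by
  rcases h Hol.e with h1 | h1
  · exact h1
  · exfalso
    rw [ss] at h1
    apply e_ne (n := n)
    have := φ.injective (h1.trans (map_zero φ).symm)
    exact this

theorem Tr.one : Tr (1 : X n ≃ₗ[ZMod 2] X n) := fun x => Or.inl rfl

theorem Tr.mul {φ ψ : X n ≃ₗ[ZMod 2] X n} (h : Tr φ) (h' : Tr ψ) : Tr (φ * ψ) := by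
  intro x
  show φ (ψ x) = x ∨ φ (ψ x) = x + Hol.e
  rcases h' x with h1 | h1
  · rw [h1]; exact h x
  · rw [h1, map_add, h.e]
    rcases h x with h2 | h2
    · right; rw [h2]
    · left; rw [h2, add_assoc, ss, add_zero]

theorem Tr.comm {φ ψ : X n ≃ₗ[ZMod 2] X n} (h : Tr φ) (h' : Tr ψ) : φ * ψ = ψ * φ := by
  apply LinearEquiv.ext
  intro x
  show φ (ψ x) = ψ (φ x)
  rcases h' x with h1 | h1 <;> rcases h x with h2 | h2
  · rw [h1, h2, h1]
  · rw [h1, h2, map_add, h1, h'.e]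
  · rw [h1, h2, map_add, h2, h.e, h1]
  · rw [h1, h2, map_add, map_add, h1, h2, h.e, h'.e]

theorem Tr.sq {φ : X n ≃ₗ[ZMod 2] X n} (h : Tr φ) : φ * φ = 1 := by
  apply LinearEquiv.ext
  intro x
  show φ (φ x) = x
  rcases h x with h1 | h1
  · rw [h1, h1]
  · rw [h1, map_add, h1, h.e, add_assoc, ss, add_zero]

theorem Tr.conj {φ ψ : X n ≃ₗ[ZMod 2] X n} (h : Tr φ) (hψ : ψ Hol.e = Hol.e) : Tr (ψ * φ * ψ⁻¹) := by
  intro x
  show ψ (φ (ψ.symm x)) = x ∨ ψ (φ (ψ.symm x)) = x + Hol.e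
  rcases h (ψ.symm x) with h1 | h1
  · left; rw [h1, LinearEquiv.apply_symm_apply]
  · right; rw [h1, map_add, LinearEquiv.apply_symm_apply, hψ]

/-- the general element of the stabilizer of `e`. -/
def AA (g : (Fin n → ZMod 2) ≃ₗ[ZMod 2] (Fin n → ZMod 2)) (a : Fin n → ZMod 2) : X n ≃ₗ[ZMod 2] X n where
  toFun x := (x.1 + a ⬝ᵥ x.2, g x.2)
  map_add' x y := by
    ext1
    · show x.1 + y.1 + a ⬝ᵥ (x.2 + y.2) = x.1 + a ⬝ᵥ x.2 + (y.1 + a ⬝ᵥ y.2)
      rw [dotProduct_add]; ring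
    · show g (x.2 + y.2) = g x.2 + g y.2
      rw [map_add]
  map_smul' r x := by
    ext1
    · show r * x.1 + a ⬝ᵥ (r • x.2) = r * (x.1 + a ⬝ᵥ x.2)
      rw [dotProduct_smul, smul_eq_mul]; ring
    · show g (r • x.2) = r • g x.2
      rw [map_smul]
  invFun x := (x.1 + a ⬝ᵥ (g.symm x.2), g.symm x.2)
  left_inv x := by
    ext1
    · show x.1 + a ⬝ᵥ x.2 + a ⬝ᵥ (g.symm (g x.2)) = x.1
      rw [LinearEquiv.symm_apply_apply, add_assoc, CharTwo.add_self_eq_zero, add_zero]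
    · show g.symm (g x.2) = x.2
      rw [LinearEquiv.symm_apply_apply]
  right_inv x := by
    ext1
    · show x.1 + a ⬝ᵥ (g.symm x.2) + a ⬝ᵥ (g.symm x.2) = x.1
      rw [add_assoc, CharTwo.add_self_eq_zero, add_zero]
    · show g (g.symm x.2) = x.2
      rw [LinearEquiv.apply_symm_apply]

theorem AA_apply (g : (Fin n → ZMod 2) ≃ₗ[ZMod 2] (Fin n → ZMod 2)) (a : Fin n → ZMod 2) (x : X n) :
    AA g a x = (x.1 + a ⬝ᵥ x.2, g x.2) := rfl

theorem AA_e (g : (Fin n → ZMod 2) ≃ₗ[ZMod 2] (Fin n → ZMod 2)) (a : Fin n → ZMod 2) : AA g a e = e := by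
  rw [AA_apply]
  show ((1 : ZMod 2) + a ⬝ᵥ (0 : Fin n → ZMod 2), g 0) = (1, 0)
  rw [dotProduct_zero, add_zero, map_zero]

theorem AA_one_tr (a : Fin n → ZMod 2) : Tr (AA 1 a) := by
  intro x
  rw [AA_apply]
  rcases z2 (a ⬝ᵥ x.2) with h | h
  · left; rw [h, add_zero]; rfl
  · right; rw [h]
    show (x.1 + 1, x.2) = x + (1, 0)
    ext1
    · rfl
    · show x.2 = x.2 + 0; rw [add_zero]

theorem AA_one_inj {a b : Fin n → ZMod 2} (h : AA (1 : (Fin n → ZMod 2) ≃ₗ[ZMod 2] (Fin n → ZMod 2)) a = AA 1 b) : a = b := by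
  funext i
  have h1 := congrArg (fun φ : X n ≃ₗ[ZMod 2] X n => (φ (0, Pi.single i 1)).1) h
  simp only [AA_apply, zero_add, dotProduct_single_one] at h1
  exact h1

/-- every transvection-like map is `AA 1 a`. -/
theorem Tr.exists_eq {φ : X n ≃ₗ[ZMod 2] X n} (h : Tr φ) : ∃ a, φ = AA 1 a := by
  refine ⟨fun i => (φ (0, Pi.single i 1)).1, ?_⟩
  have h2 : ∀ x, (φ x).2 = x.2 := by
    intro x
    rcases h x with h1 | h1
    · rw [h1]
    · rw [h1]; show x.2 + 0 = x.2; rw [add_zero]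
  let f : (Fin n → ZMod 2) →ₗ[ZMod 2] ZMod 2 :=
    { toFun := fun b => (φ (0, b)).1
      map_add' := fun b c => by
        have : ((0 : ZMod 2), b + c) = (0, b) + (0, c) := by simp
        rw [this, map_add]; rfl
      map_smul' := fun r b => by
        have : ((0 : ZMod 2), r • b) = r • ((0 : ZMod 2), b) := by simp
        rw [this, map_smul]; rfl }
  apply LinearEquiv.ext
  intro x
  have hx : x = x.1 • Hol.e + (0, x.2) := by
    show x = x.1 • ((1 : ZMod 2), (0 : Fin n → ZMod 2)) + (0, x.2)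
    simp
  have hf : (φ (0, x.2)).1 = (fun i => (φ (0, Pi.single i 1)).1) ⬝ᵥ x.2 := by
    show f x.2 = _
    rw [LinearMap.pi_apply_eq_sum_univ f x.2]
    unfold dotProduct
    apply Finset.sum_congr rfl
    intro i _
    rw [smul_eq_mul, mul_comm]
    congr 1
    show (φ (0, fun j => if i = j then 1 else 0)).1 = (φ (0, Pi.single i 1)).1
    congr 3
    funext j
    rw [Pi.single_apply]
    simp only [eq_comm]
  ext1
  · conv_lhs => rw [hx, map_add, map_smul, h.e]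
    rw [AA_apply]
    show x.1 * 1 + (φ (0, x.2)).1 = x.1 + _
    rw [hf, mul_one]
  · rw [h2, AA_apply]; rfl

/-- a transvection moving a given vector. -/
theorem exists_move {y : X n} (hy : y ≠ 0) (hy' : y ≠ e) : ∃ a, AA (1 : (Fin n → ZMod 2) ≃ₗ[ZMod 2] (Fin n → ZMod 2)) a y ≠ y := by
  have h2 : y.2 ≠ 0 := by
    intro h0
    rcases z2 y.1 with h1 | h1
    · exact hy (Prod.ext h1 h0)
    · exact hy' (Prod.ext h1 h0)
  obtain ⟨i, hi⟩ := Function.ne_iff.mp h2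
  refine ⟨Pi.single i 1, ?_⟩
  intro h3
  have h4 := congrArg Prod.fst h3
  rw [AA_apply] at h4
  simp only [single_one_dotProduct, add_eq_left] at h4
  exact hi h4

variable {G : Type*} [Group G] {T : X n → G} {μ : (X n ≃ₗ[ZMod 2] X n) →* G}

namespace Hol

theorem T0 (H : Hol T μ) : T 0 = 1 := by
  have := H.add 0 0
  rw [add_zero] at this
  exact (mul_eq_left.mp this.symm)

theorem TT (H : Hol T μ) (x : X n) : T x * T x = 1 := by rw [← H.add, ss, H.T0]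

theorem Tinv (H : Hol T μ) (x : X n) : (T x)⁻¹ = T x := inv_eq_of_mul_eq_one_left (H.TT x)

theorem Tcomm (H : Hol T μ) (x y : X n) : T x * T y = T y * T x := by rw [← H.add, ← H.add, add_comm]

theorem mulr (H : Hol T μ) (x y : X n) (φ ψ : X n ≃ₗ[ZMod 2] X n) :
    (T x * μ φ) * (T y * μ ψ) = T (x + φ y) * μ (φ * ψ) := by
  rw [H.add, map_mul]
  calc (T x * μ φ) * (T y * μ ψ) = T x * (μ φ * T y) * μ ψ := by group
    _ = T x * (T (φ y) * μ φ) * μ ψ := by rw [H.act]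
    _ = _ := by group

theorem injr (H : Hol T μ) {x y : X n} {φ ψ : X n ≃ₗ[ZMod 2] X n} (h : T x * μ φ = T y * μ ψ) : x = y ∧ φ = ψ := by
  have h1 : T (x + (φ * ψ⁻¹) y) * μ (φ * ψ⁻¹) = 1 := by
    have h2 := H.mulr x y (φ * ψ⁻¹) 1
    rw [mul_one, map_one, mul_one] at h2
    rw [← h2, map_mul, map_inv]
    calc T x * (μ φ * (μ ψ)⁻¹) * T y = (T x * μ φ) * (μ ψ)⁻¹ * T y := by group
      _ = (T y * μ ψ) * (μ ψ)⁻¹ * T y := by rw [h]
      _ = T y * T y := by group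
      _ = 1 := H.TT y
  obtain ⟨h2, h3⟩ := H.inj _ _ h1
  have h4 : φ = ψ := mul_inv_eq_one.mp h3
  refine ⟨?_, h4⟩
  rw [h3] at h2
  have h5 : x + y = 0 := h2
  calc x = x + (y + y) := by rw [ss, add_zero]
    _ = (x + y) + y := by rw [add_assoc]
    _ = y := by rw [h5, zero_add]

theorem invr (H : Hol T μ) (x : X n) (φ : X n ≃ₗ[ZMod 2] X n) : (T x * μ φ)⁻¹ = T (φ⁻¹ x) * μ φ⁻¹ := by
  rw [mul_inv_rev, H.Tinv, ← map_inv, H.act]

theorem one_eq (H : Hol T μ) : (1 : G) = T 0 * μ 1 := by rw [H.T0, map_one, mul_one]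

theorem T_eq (H : Hol T μ) (x : X n) : T x = T x * μ 1 := by rw [map_one, mul_one]

theorem Tinj (H : Hol T μ) {x y : X n} (h : T x = T y) : x = y := by
  rw [H.T_eq x, H.T_eq y] at h; exact (H.injr h).1

/-- centralizer of `T e` -/
theorem comm_iff (H : Hol T μ) {x y : X n} {φ : X n ≃ₗ[ZMod 2] X n} : (T x * μ φ) * T y = T y * (T x * μ φ) ↔ φ y = y := by
  rw [H.T_eq y, H.mulr, H.mulr]
  show T (x + φ y) * μ (φ * 1) = T (y + x) * μ (1 * φ) ↔ _
  constructor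
  · intro h
    have := (H.injr h).1
    rw [add_comm y x] at this
    exact add_left_cancel this
  · intro h
    rw [h, add_comm, mul_one, one_mul]

theorem cent_e (H : Hol T μ) {g : G} : g * T e = T e * g ↔ ∃ y φ, g = T y * μ φ ∧ φ e = e := by
  constructor
  · intro h
    obtain ⟨y, φ, rfl⟩ := H.cen e e_ne g h
    exact ⟨y, φ, rfl, H.comm_iff.mp h⟩
  · rintro ⟨y, φ, rfl, h⟩
    exact H.comm_iff.mpr h

/-- the subgroup `Q`. -/
def Q (H : Hol T μ) : Subgroup G where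
  carrier := {g | ∃ y φ, Tr φ ∧ g = T y * μ φ}
  one_mem' := ⟨0, 1, Tr.one, H.one_eq⟩
  mul_mem' := by
    rintro _ _ ⟨y, φ, h, rfl⟩ ⟨y', φ', h', rfl⟩
    exact ⟨_, _, h.mul h', H.mulr _ _ _ _⟩
  inv_mem' := by
    rintro _ ⟨y, φ, h, rfl⟩
    refine ⟨_, _, ?_, H.invr _ _⟩
    have : φ⁻¹ = φ := inv_eq_of_mul_eq_one_left h.sq
    rw [this]; exact h

theorem mem_Q (H : Hol T μ) {g : G} : g ∈ H.Q ↔ ∃ y φ, Tr φ ∧ g = T y * μ φ := Iff.rfl

theorem cen_Q (H : Hol T μ) {g : G} (h : ∀ y ∈ H.Q, g * y = y * g) : g = 1 ∨ g = T e := by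
  have h1 : ∀ x, g * T x = T x * g := fun x => h _ ⟨x, 1, Tr.one, H.T_eq x⟩
  obtain ⟨y, φ, rfl⟩ := H.cen e e_ne g (h1 e)
  have hφ : φ = 1 := by
    apply LinearEquiv.ext
    intro x
    exact H.comm_iff.mp (h1 x)
  subst hφ
  rw [map_one, mul_one]
  by_cases hy : y = 0
  · left; rw [hy, H.T0]
  by_cases hy' : y = e
  · right; rw [hy']
  exfalso
  obtain ⟨a, ha⟩ := exists_move hy hy'
  apply ha
  have h2 := h (T 0 * μ (AA 1 a)) ⟨0, _, AA_one_tr a, rfl⟩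
  rw [map_one, mul_one] at h2
  exact H.comm_iff.mp h2.symm

theorem xsp (H : Hol T μ) : Xsp H.Q (T e) where
  mem := ⟨e, 1, Tr.one, H.T_eq e⟩
  ne := by
    intro h
    have := H.Tinj (h.trans H.T0.symm)
    exact e_ne this
  sq := H.TT e
  zc := by
    rintro _ ⟨y, φ, h, rfl⟩
    exact (H.comm_iff.mpr h.e).symm
  comm := by
    rintro _ ⟨y, φ, h, rfl⟩ _ ⟨y', φ', h', rfl⟩
    rw [H.mulr, H.mulr, h.comm h', ← mul_assoc, ← H.add]
    have key : (y + φ y' = y' + φ' y) ∨ (y + φ y' = e + (y' + φ' y)) := by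
      rcases h y' with h1 | h1 <;> rcases h' y with h2 | h2 <;> rw [h1, h2]
      · left; rw [add_comm]
      · right
        have := ss (e : X n)
        rw [add_comm y y']
        calc y' + y = (e + e) + (y' + y) := by rw [this, zero_add]
          _ = e + (y' + (y + e)) := by abel
      · right; abel
      · left; abel
    rcases key with h3 | h3
    · left; rw [h3]
    · right; rw [h3]
  sqr := by
    rintro _ ⟨y, φ, h, rfl⟩
    rw [H.mulr, h.sq, map_one, mul_one]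
    rcases h y with h1 | h1
    · left; rw [h1, ss, H.T0]
    · right; rw [h1, ← add_assoc, ss, zero_add]
  cen := fun x _ h => H.cen_Q h

variable [Finite G]

theorem pre (H : Hol T μ) (hn : 1 ≤ n) : Pre H.Q (T e) where
  toXsp := H.xsp
  cent := by
    apply le_antisymm
    · intro g hg
      rw [mem_zpowers_of_sq (H.TT e)]
      apply H.cen_Q
      intro y hy
      exact (mem_centralizer_iff.mp hg y hy).symm
    · rw [Subgroup.zpowers_le]
      rw [mem_centralizer_iff]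
      intro y hy
      exact (H.xsp.zc y hy).symm
  norm := by
    intro g hg
    rw [mem_centralizer_singleton_iff] at hg
    have key : ∀ g : G, g * T e = T e * g → ∀ q ∈ H.Q, g * q * g⁻¹ ∈ H.Q := by
      intro g hg
      obtain ⟨y, φ, rfl, hφ⟩ := H.cent_e.mp hg
      rintro _ ⟨x, ψ, hψ, rfl⟩
      rw [H.invr, H.mulr, H.mulr]
      exact ⟨_, _, hψ.conj hφ, rfl⟩
    rw [mem_normalizer_iff]
    intro q
    constructor
    · exact key g hg q
    · intro h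
      have hg' : g⁻¹ * T e = T e * g⁻¹ := by
        calc g⁻¹ * T e = g⁻¹ * (T e * g) * g⁻¹ := by group
          _ = g⁻¹ * (g * T e) * g⁻¹ := by rw [hg]
          _ = T e * g⁻¹ := by group
      have := key g⁻¹ hg' _ h
      have e2 : g⁻¹ * (g * q * g⁻¹) * g⁻¹⁻¹ = q := by group
      rwa [e2] at this
  nc := by
    have hy : ((0 : ZMod 2), (Pi.single (⟨0, hn⟩ : Fin n) (1 : ZMod 2) : Fin n → ZMod 2)) ≠ 0 := by
      intro h
      have := congrFun (congrArg Prod.snd h) ⟨0, hn⟩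
      simp at this
    have hy' : ((0 : ZMod 2), (Pi.single (⟨0, hn⟩ : Fin n) (1 : ZMod 2) : Fin n → ZMod 2)) ≠ e := by
      intro h
      have := congrArg Prod.fst h
      exact absurd this (by show (0 : ZMod 2) ≠ 1; decide)
    obtain ⟨a, ha⟩ := exists_move hy hy'
    refine ⟨T 0 * μ (AA 1 a), ⟨0, _, AA_one_tr a, rfl⟩, T ((0 : ZMod 2), Pi.single (⟨0, hn⟩ : Fin n) (1 : ZMod 2)), ⟨_, 1, Tr.one, H.T_eq _⟩, ?_⟩
    intro h
    exact ha (H.comm_iff.mp h)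

theorem card_Q (H : Hol T μ) : Nat.card H.Q = 2 ^ (2 * n + 1) := by
  have h1 : Nat.card (X n × (Fin n → ZMod 2)) = Nat.card H.Q := by
    apply Nat.card_congr
    refine Equiv.ofBijective (fun p => (⟨T p.1 * μ (AA 1 p.2), ⟨_, _, AA_one_tr p.2, rfl⟩⟩ : H.Q)) ⟨?_, ?_⟩
    · rintro ⟨x, a⟩ ⟨y, b⟩ h
      have h2 := H.injr (congrArg Subtype.val h)
      exact Prod.ext h2.1 (AA_one_inj h2.2)
    · rintro ⟨_, y, φ, h, rfl⟩
      obtain ⟨a, rfl⟩ := h.exists_eq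
      exact ⟨(y, a), rfl⟩
  rw [← h1, Nat.card_eq_fintype_card]
  simp [X, ZMod.card]
  ring

/-- the elementary abelian subgroup. -/
def E (H : Hol T μ) : Subgroup G where
  carrier := Set.range T
  one_mem' := ⟨0, H.T0⟩
  mul_mem' := by rintro _ _ ⟨x, rfl⟩ ⟨y, rfl⟩; exact ⟨x + y, H.add x y⟩
  inv_mem' := by rintro _ ⟨x, rfl⟩; exact ⟨x, (H.Tinv x).symm⟩

theorem E_le (H : Hol T μ) : H.E ≤ H.Q := by
  rintro _ ⟨x, rfl⟩; exact ⟨x, 1, Tr.one, H.T_eq x⟩

theorem E_ea (H : Hol T μ) : Cfsg.IsElementaryAbelian 2 H.E := by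
  refine ⟨⟨⟨?_⟩⟩, ?_⟩
  · rintro ⟨_, ⟨x, rfl⟩⟩ ⟨_, ⟨y, rfl⟩⟩
    exact Subtype.ext (H.Tcomm x y)
  · rintro _ ⟨x, rfl⟩
    show (T x) ^ 2 = 1
    rw [pow_two]; exact H.TT x

theorem card_E (H : Hol T μ) : Nat.card H.E = 2 ^ (n + 1) := by
  have h1 : Nat.card (X n) = Nat.card H.E := by
    apply Nat.card_congr
    refine Equiv.ofBijective (fun p => (⟨T p, ⟨p, rfl⟩⟩ : H.E)) ⟨?_, ?_⟩
    · intro x y h
      exact H.Tinj (congrArg Subtype.val h)
    · rintro ⟨_, y, rfl⟩; exact ⟨y, rfl⟩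
  rw [← h1, Nat.card_eq_fintype_card]
  simp [X, ZMod.card]
  ring

end Hol

end Cfsg.Agent.H28.Hol
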