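import Mathlib
import Cfsg.Agent.H28_Hol

/-! Centralizers of involutions in `2^{n+1}:GL_{n+1}(2)`, part 2. -/

set_option autoImplicit false
set_option linter.all false

namespace Cfsg.Agent.H28.Hol

open Subgroup Cfsg Cfsg.Agent.H28.Xsp Cfsg.Agent.H28.Large

theorem exists_lin {V : Type*} [AddCommGroup V] [Module (ZMod 2) V] [FiniteDimensional (ZMod 2) V] {b b' : V} (hb : b ≠ 0) (hb' : b' ≠ 0) :
    ∃ g : V ≃ₗ[ZMod 2] V, g b = b' := by
  obtain ⟨g, hg⟩ := Submodule.exists_linearEquiv_restrict_eq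
    ((LinearEquiv.toSpanNonzeroSingleton (ZMod 2) V b hb).symm.trans (LinearEquiv.toSpanNonzeroSingleton (ZMod 2) V b' hb'))
  refine ⟨g, ?_⟩
  have h1 := hg ⟨b, Submodule.mem_span_singleton_self b⟩
  rw [← h1]
  have : (LinearEquiv.toSpanNonzeroSingleton (ZMod 2) V b hb).symm ⟨b, Submodule.mem_span_singleton_self b⟩ = 1 := by
    rw [LinearEquiv.symm_apply_eq]
    apply Subtype.ext
    simp
  rw [LinearEquiv.trans_apply, this]
  simp

variable {n : ℕ} {G : Type*} [Group G] [Finite G] {T : X n → G} {μ : (X n ≃ₗ[ZMod 2] X n) →* G}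

theorem fix_decomp {φ : X n ≃ₗ[ZMod 2] X n} (hφ : φ e = e) (x : X n) : (φ x).2 = (φ (0, x.2)).2 := by
  have hx : x = x.1 • Hol.e + (0, x.2) := by
    show x = x.1 • ((1 : ZMod 2), (0 : Fin n → ZMod 2)) + (0, x.2)
    simp
  conv_lhs => rw [hx, map_add, map_smul, hφ]
  show x.1 • (0 : Fin n → ZMod 2) + (φ (0, x.2)).2 = _
  rw [smul_zero, zero_add]

namespace Hol

/-- the linear parts of a subgroup. -/
def lin (H : Hol T μ) (P : Subgroup G) : Subgroup (X n ≃ₗ[ZMod 2] X n) where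
  carrier := {φ | ∃ y, T y * μ φ ∈ P}
  one_mem' := ⟨0, by rw [← H.one_eq]; exact one_mem P⟩
  mul_mem' := by
    rintro φ ψ ⟨y, hy⟩ ⟨y', hy'⟩
    exact ⟨y + φ y', by rw [← H.mulr]; exact P.mul_mem hy hy'⟩
  inv_mem' := by
    rintro φ ⟨y, hy⟩
    exact ⟨φ⁻¹ y, by rw [← H.invr]; exact P.inv_mem hy⟩

theorem pow_eq (H : Hol T μ) (y : X n) (φ : X n ≃ₗ[ZMod 2] X n) (k : ℕ) : ∃ y', (T y * μ φ) ^ k = T y' * μ (φ ^ k) := by
  induction k with
  | zero => exact ⟨0, by rw [pow_zero, pow_zero]; exact H.one_eq⟩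
  | succ k ih =>
    obtain ⟨y', h⟩ := ih
    exact ⟨_, by rw [pow_succ, h, H.mulr, pow_succ]⟩

theorem lin_p (H : Hol T μ) {P : Subgroup G} (hP : IsPGroup 2 P) : IsPGroup 2 (H.lin P) := by
  rintro ⟨φ, y, hy⟩
  obtain ⟨k, hk⟩ := hP ⟨_, hy⟩
  refine ⟨k, Subtype.ext ?_⟩
  have hk' : (T y * μ φ) ^ (2 ^ k) = 1 := congrArg Subtype.val hk
  obtain ⟨y', h⟩ := H.pow_eq y φ (2 ^ k)
  rw [h, H.one_eq] at hk'
  exact (H.injr hk').2

/-- a normal 2-subgroup of the centralizer is contained in `Q`. -/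
theorem le_Q (H : Hol T μ) (hn : 1 ≤ n) {P : Subgroup G} (hP : IsPGroup 2 P) (hPc : ∀ p ∈ P, p * T e = T e * p)
    (hn' : ∀ g, g * T e = T e * g → ∀ p ∈ P, g * p * g⁻¹ ∈ P) : P ≤ H.Q := by
  classical
  have := Fact.mk Nat.prime_two
  have hfix : ∀ φ ∈ H.lin P, φ e = e := by
    rintro φ ⟨y, hy⟩
    exact H.comm_iff.mp (hPc _ hy)
  let _ : MulAction ↥(H.lin P) (Fin n → ZMod 2) :=
    { smul := fun φ b => ((φ : X n ≃ₗ[ZMod 2] X n) (0, b)).2
      one_smul := fun b => rfl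
      mul_smul := fun φ ψ b => by
        show ((φ : X n ≃ₗ[ZMod 2] X n) ((ψ : X n ≃ₗ[ZMod 2] X n) (0, b))).2 = ((φ : X n ≃ₗ[ZMod 2] X n) (0, ((ψ : X n ≃ₗ[ZMod 2] X n) (0, b)).2)).2
        exact fix_decomp (hfix φ φ.2) _ }
  have hsm : ∀ (φ : ↥(H.lin P)) (b : Fin n → ZMod 2), φ • b = ((φ : X n ≃ₗ[ZMod 2] X n) (0, b)).2 := fun _ _ => rfl
  have h0 : (0 : Fin n → ZMod 2) ∈ MulAction.fixedPoints ↥(H.lin P) (Fin n → ZMod 2) := by
    intro φ
    rw [hsm]
    have : ((0 : ZMod 2), (0 : Fin n → ZMod 2)) = 0 := rfl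
    rw [this, map_zero]; rfl
  have hcard : 2 ∣ Nat.card (Fin n → ZMod 2) := by
    rw [Nat.card_eq_fintype_card]
    simp [ZMod.card]
    omega
  obtain ⟨b, hb, hb0⟩ := (H.lin_p hP).exists_fixed_point_of_prime_dvd_card_of_fixed_point (Fin n → ZMod 2) hcard h0
  -- all vectors are fixed
  have hall : ∀ φ ∈ H.lin P, ∀ b', (φ (0, b')).2 = b' := by
    rintro φ ⟨y, hy⟩ b'
    by_cases hb' : b' = 0
    · rw [hb']
      have : ((0 : ZMod 2), (0 : Fin n → ZMod 2)) = 0 := rfl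
      rw [this, map_zero]; rfl
    obtain ⟨g, hg⟩ := exists_lin (Ne.symm hb0) hb'
    -- conjugate by AA g 0
    have h1 := hn' ((T 0 * μ (AA g 0))⁻¹) (by
      have := H.comm_iff (x := 0) (y := e) (φ := AA g 0)
      have h2 := this.mpr (AA_e g 0)
      calc (T 0 * μ (AA g 0))⁻¹ * T e = (T 0 * μ (AA g 0))⁻¹ * (T e * (T 0 * μ (AA g 0))) * (T 0 * μ (AA g 0))⁻¹ := by group
        _ = (T 0 * μ (AA g 0))⁻¹ * ((T 0 * μ (AA g 0)) * T e) * (T 0 * μ (AA g 0))⁻¹ := by rw [h2]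
        _ = T e * (T 0 * μ (AA g 0))⁻¹ := by group) _ hy
    rw [inv_inv, H.invr, H.mulr, H.mulr] at h1
    have h3 : (AA g 0)⁻¹ * φ * AA g 0 ∈ H.lin P := ⟨_, h1⟩
    have h4 := hb ⟨_, h3⟩
    rw [hsm] at h4
    have h5 : ((AA g 0).symm (φ (AA g 0 (0, b)))).2 = b := h4
    have h6 : AA g 0 (0, b) = (0, b') := by
      rw [AA_apply]
      show ((0 : ZMod 2) + 0 ⬝ᵥ b, g b) = (0, b')
      rw [zero_dotProduct, add_zero, hg]
    rw [h6] at h5
    have h7 : ((AA g 0).symm (φ (0, b'))).2 = g.symm (φ (0, b')).2 := rfl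
    rw [h7, LinearEquiv.symm_apply_eq] at h5
    rw [h5, hg]
  intro p hp
  obtain ⟨y, φ, rfl, hφ⟩ := H.cent_e.mp (hPc p hp)
  refine ⟨y, φ, ?_, rfl⟩
  intro x
  have h1 : (φ x).2 = x.2 := by rw [fix_decomp hφ, hall φ ⟨y, hp⟩]
  rcases z2 ((φ x).1 + x.1) with h2 | h2
  · left
    refine Prod.ext ?_ h1
    calc (φ x).1 = (φ x).1 + (x.1 + x.1) := by rw [CharTwo.add_self_eq_zero, add_zero]
      _ = ((φ x).1 + x.1) + x.1 := by ring
      _ = x.1 := by rw [h2, zero_add]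
  · right
    refine Prod.ext ?_ ?_
    · show (φ x).1 = x.1 + 1
      calc (φ x).1 = (φ x).1 + (x.1 + x.1) := by rw [CharTwo.add_self_eq_zero, add_zero]
        _ = ((φ x).1 + x.1) + x.1 := by ring
        _ = x.1 + 1 := by rw [h2, add_comm]
    · show (φ x).2 = x.2 + 0
      rw [h1, add_zero]

theorem core_eq (H : Hol T μ) (hn : 1 ≤ n) :
    H.Q = (Cfsg.pCore 2 ↥(Subgroup.centralizer ({T e} : Set G))).map (Subgroup.centralizer ({T e} : Set G)).subtype := by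
  apply le_antisymm
  · apply H11.Local.le_map_pCore 2
    · intro q hq
      rw [mem_centralizer_singleton_iff]
      exact (H.xsp.zc q hq).symm
    · exact H.xsp.isPGroup
    · exact (H.pre hn).norm
  · apply H.le_Q hn
    · exact (H11.Cores.pCore_isPGroup 2).map _
    · rintro _ ⟨p, hp, rfl⟩
      exact mem_centralizer_singleton_iff.mp p.2
    · rintro g hg _ ⟨p, hp, rfl⟩
      have hn2 : (Cfsg.pCore 2 ↥(Subgroup.centralizer ({T e} : Set G))).Normal := by infer_instance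
      exact ⟨_, hn2.conj_mem p hp ⟨g, mem_centralizer_singleton_iff.mpr hg⟩, rfl⟩

/-- the complement -/
def κ (H : Hol T μ) : ((Fin n → ZMod 2) ≃ₗ[ZMod 2] (Fin n → ZMod 2)) →* G where
  toFun g := μ (AA g 0)
  map_one' := by
    have : AA (1 : (Fin n → ZMod 2) ≃ₗ[ZMod 2] (Fin n → ZMod 2)) 0 = 1 := by
      apply LinearEquiv.ext
      intro x
      rw [AA_apply]
      show (x.1 + 0 ⬝ᵥ x.2, x.2) = x
      rw [zero_dotProduct, add_zero]
    rw [this, map_one]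
  map_mul' g h := by
    rw [← map_mul]
    congr 1
    apply LinearEquiv.ext
    intro x
    show (x.1 + 0 ⬝ᵥ x.2, g (h x.2)) = AA g 0 (AA h 0 x)
    rw [AA_apply, AA_apply]
    show _ = (x.1 + 0 ⬝ᵥ x.2 + 0 ⬝ᵥ (h x.2), g (h x.2))
    rw [zero_dotProduct, zero_dotProduct, add_zero, add_zero]

theorem κ_inj (H : Hol T μ) : Function.Injective H.κ := by
  rw [injective_iff_map_eq_one]
  intro g hg
  have h1 : T 0 * μ (AA g 0) = T 0 * μ 1 := by
    rw [← H.one_eq, H.T0, one_mul]; exact hg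
  have h2 := (H.injr h1).2
  apply LinearEquiv.ext
  intro b
  have h3 := congrArg (fun φ : X n ≃ₗ[ZMod 2] X n => (φ (0, b)).2) h2
  exact h3

/-- induced map. -/
def ind {φ : X n ≃ₗ[ZMod 2] X n} (hφ : φ e = e) : (Fin n → ZMod 2) ≃ₗ[ZMod 2] (Fin n → ZMod 2) where
  toFun b := (φ (0, b)).2
  map_add' b c := by
    have : ((0 : ZMod 2), b + c) = (0, b) + (0, c) := by simp
    rw [this, map_add]; rfl
  map_smul' r b := by
    have : ((0 : ZMod 2), r • b) = r • ((0 : ZMod 2), b) := by simp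
    rw [this, map_smul]; rfl
  invFun b := (φ.symm (0, b)).2
  left_inv b := by
    have hφ' : φ.symm Hol.e = Hol.e := by rw [LinearEquiv.symm_apply_eq]; exact hφ.symm
    show (φ.symm (0, (φ (0, b)).2)).2 = b
    rw [← fix_decomp hφ', LinearEquiv.symm_apply_apply]
  right_inv b := by
    show (φ (0, (φ.symm (0, b)).2)).2 = b
    rw [← fix_decomp hφ, LinearEquiv.apply_symm_apply]

theorem K_compl (H : Hol T μ) (hn : 1 ≤ n) : H.κ.range ≤ Subgroup.centralizer ({T e} : Set G) ∧ H.Q ⊓ H.κ.range = ⊥ ∧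
    H.Q ⊔ H.κ.range = Subgroup.centralizer ({T e} : Set G) := by
  have hle : H.κ.range ≤ Subgroup.centralizer ({T e} : Set G) := by
    rintro _ ⟨g, rfl⟩
    rw [mem_centralizer_singleton_iff]
    have := (H.comm_iff (x := 0) (y := e) (φ := AA g 0)).mpr (AA_e g 0)
    rw [H.T0, one_mul] at this
    exact this
  have hQle : H.Q ≤ Subgroup.centralizer ({T e} : Set G) := by
    intro q hq
    rw [mem_centralizer_singleton_iff]
    exact (H.xsp.zc q hq).symm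
  refine ⟨hle, ?_, le_antisymm (sup_le hQle hle) ?_⟩
  · rw [eq_bot_iff]
    rintro _ ⟨⟨y, φ, hφ, h1⟩, ⟨g, rfl⟩⟩
    have h2 : T 0 * μ (AA g 0) = T y * μ φ := by
      rw [H.T0, one_mul]; exact h1
    obtain ⟨h3, h4⟩ := H.injr h2
    rw [mem_bot]
    have : g = 1 := by
      apply LinearEquiv.ext
      intro b
      have h5 : (φ (0, b)).2 = b := by
        rcases hφ (0, b) with h6 | h6
        · rw [h6]
        · rw [h6]; show b + 0 = b; rw [add_zero]
      rw [← h4, AA_apply] at h5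
      exact h5
    rw [this, map_one]
  · intro c hc
    obtain ⟨y, φ, rfl, hφ⟩ := H.cent_e.mp (mem_centralizer_singleton_iff.mp hc)
    have h1 : T y * μ φ = (T y * μ (φ * (AA (ind hφ) 0)⁻¹)) * H.κ (ind hφ) := by
      show T y * μ φ = (T y * μ (φ * (AA (ind hφ) 0)⁻¹)) * μ (AA (ind hφ) 0)
      rw [mul_assoc, ← map_mul, inv_mul_cancel_right]
    rw [h1]
    refine Subgroup.mul_mem_sup ⟨y, _, ?_, rfl⟩ ⟨_, rfl⟩
    intro x
    show φ ((AA (ind hφ) 0).symm x) = x ∨ φ ((AA (ind hφ) 0).symm x) = x + e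
    obtain ⟨w, rfl⟩ := (AA (ind hφ) 0).surjective x
    rw [LinearEquiv.symm_apply_apply]
    have h2 : (φ w).2 = (AA (ind hφ) 0 w).2 := by
      rw [AA_apply, fix_decomp hφ]; rfl
    rcases z2 ((φ w).1 + (AA (ind hφ) 0 w).1) with h3 | h3
    · left
      refine Prod.ext ?_ h2
      calc (φ w).1 = (φ w).1 + ((AA (ind hφ) 0 w).1 + (AA (ind hφ) 0 w).1) := by rw [CharTwo.add_self_eq_zero, add_zero]
        _ = ((φ w).1 + (AA (ind hφ) 0 w).1) + (AA (ind hφ) 0 w).1 := by ring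
        _ = _ := by rw [h3, zero_add]
    · right
      refine Prod.ext ?_ ?_
      · show (φ w).1 = (AA (ind hφ) 0 w).1 + 1
        calc (φ w).1 = (φ w).1 + ((AA (ind hφ) 0 w).1 + (AA (ind hφ) 0 w).1) := by rw [CharTwo.add_self_eq_zero, add_zero]
          _ = ((φ w).1 + (AA (ind hφ) 0 w).1) + (AA (ind hφ) 0 w).1 := by ring
          _ = _ := by rw [h3, add_comm]
      · show (φ w).2 = (AA (ind hφ) 0 w).2 + 0
        rw [h2, add_zero]

theorem K_iso (H : Hol T μ) : Nonempty (↥H.κ.range ≃* Matrix.GeneralLinearGroup (Fin n) (ZMod 2)) := by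
  have e1 : ((Fin n → ZMod 2) ≃ₗ[ZMod 2] (Fin n → ZMod 2)) ≃* ↥H.κ.range := MonoidHom.ofInjective H.κ_inj
  exact ⟨(e1.symm.trans (LinearMap.GeneralLinearGroup.generalLinearEquiv (ZMod 2) (Fin n → ZMod 2)).symm).trans
    Matrix.GeneralLinearGroup.toLin.symm⟩

end Hol

end Cfsg.Agent.H28.Hol
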