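import Mathlib
import Cfsg.Agent.H28_Hol2
import Cfsg.Agent.H1_Partition
import Cfsg.Agent.H2_AutEA

/-! Centralizers of involutions in `2^{n+1}:GL_{n+1}(2)`, part 3. -/

set_option autoImplicit false
set_option linter.all false

namespace Cfsg.Agent.H28.Hol

open Subgroup Cfsg Cfsg.Agent.H28.Xsp Cfsg.Agent.H28.Large

variable {n : ℕ} {G : Type*} [Group G] [Finite G] {T : X n → G} {μ : (X n ≃ₗ[ZMod 2] X n) →* G}

namespace Hol

theorem E_not_cyclic (H : Hol T μ) (hn : 1 ≤ n) : ¬ IsCyclic H.E := by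
  rintro ⟨⟨g, hg⟩, h⟩
  obtain ⟨x, rfl⟩ := hg
  have h1 : Nat.card H.E ≤ 2 := by
    have h2 : orderOf (⟨T x, ⟨x, rfl⟩⟩ : H.E) = Nat.card H.E := orderOf_eq_card_of_forall_mem_zpowers h
    rw [← h2]
    apply orderOf_le_of_pow_eq_one (by norm_num)
    apply Subtype.ext
    show (T x) ^ 2 = 1
    rw [pow_two, H.TT]
  rw [H.card_E] at h1
  have : 2 ^ 2 ≤ 2 ^ (n + 1) := Nat.pow_le_pow_right (by norm_num) (by omega)
  omega

theorem isLarge (H : Hol T μ) (hn : 1 ≤ n) : IsLargeExtraspecial H.Q := by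
  apply (H.pre hn).large
  intro K hK hQK
  have hEK : H.E ≤ normalizer (K : Set G) := H.E_le.trans hQK
  have hcomm : IsMulCommutative H.E := H.E_ea.1
  have hcop : (Nat.card H.E).Coprime (Nat.card K) := by
    rw [H.card_E]
    apply Nat.Coprime.pow_left
    rw [Nat.coprime_two_left]; exact hK
  have hgen := H1.Partition.generation H.E K (H.E_not_cyclic hn) hEK hcop
  have hKE : K ≤ normalizer (H.E : Set G) := by
    rw [← hgen]
    apply iSup₂_le
    rintro _ ⟨⟨x, rfl⟩, hx⟩ g hg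
    have hx0 : x ≠ 0 := by rintro rfl; exact hx H.T0
    obtain ⟨y, φ, rfl⟩ := H.cen x hx0 g (mem_centralizer_singleton_iff.mp hg.2)
    have key : ∀ (y : X n) (φ : X n ≃ₗ[ZMod 2] X n), ∀ q ∈ H.E, (T y * μ φ) * q * (T y * μ φ)⁻¹ ∈ H.E := by
      rintro y φ _ ⟨w, rfl⟩
      refine ⟨φ w, ?_⟩
      calc T (φ w) = T y * T y * T (φ w) := by rw [H.TT, one_mul]
        _ = T y * (T (φ w) * T y) := by rw [mul_assoc, H.Tcomm y (φ w)]
        _ = T y * (T (φ w) * μ φ) * (μ φ)⁻¹ * (T y)⁻¹ := by rw [H.Tinv]; group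
        _ = T y * (μ φ * T w) * (μ φ)⁻¹ * (T y)⁻¹ := by rw [H.act]
        _ = (T y * μ φ) * T w * (T y * μ φ)⁻¹ := by group
    rw [mem_normalizer_iff]
    intro q
    constructor
    · exact key y φ q
    · intro h
      have h2 := key (φ⁻¹ y) φ⁻¹ _ h
      rw [← H.invr] at h2
      have e2 : (T y * μ φ)⁻¹ * ((T y * μ φ) * q * (T y * μ φ)⁻¹) * ((T y * μ φ)⁻¹)⁻¹ = q := by group
      rwa [e2] at h2
  intro k hk
  rw [mem_centralizer_singleton_iff]
  have hE2 : IsPGroup 2 H.E := H.xsp.isPGroup.to_le H.E_le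
  have hz : T e ∈ H.E := ⟨e, rfl⟩
  exact commute_of_normalize (inf_eq_bot_of_odd hK hE2) hk hz ((mem_normalizer_iff.mp (hKE hk) _).mp hz)
    ((mem_normalizer_iff.mp (hEK hz) _).mp (K.inv_mem hk))

/-- the complete statement. -/
theorem all (H : Hol T μ) (hn : 1 ≤ n) (Q : Subgroup G)
    (hQ : Q = (Cfsg.pCore 2 ↥(Subgroup.centralizer ({T e} : Set G))).map (Subgroup.centralizer ({T e} : Set G)).subtype) :
    Cfsg.IsExtraspecial 2 ↥Q ∧ Nat.card ↥Q = 2 ^ (2 * n + 1) ∧
      (∃ E : Subgroup G, E ≤ Q ∧ Cfsg.IsElementaryAbelian 2 E ∧ Nat.card ↥E = 2 ^ (n + 1)) ∧ Cfsg.IsLargeExtraspecial Q ∧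
      ∃ K : Subgroup G, K ≤ Subgroup.centralizer ({T e} : Set G) ∧ Q ⊓ K = ⊥ ∧ Q ⊔ K = Subgroup.centralizer ({T e} : Set G) ∧
        Nonempty (↥K ≃* Matrix.GeneralLinearGroup (Fin n) (ZMod 2)) := by
  rw [← H.core_eq hn] at hQ
  subst hQ
  obtain ⟨h1, h2, h3⟩ := H.K_compl hn
  exact ⟨(H.pre hn).isExtra, H.card_Q, ⟨H.E, H.E_le, H.E_ea, H.card_E⟩, H.isLarge hn, H.κ.range, h1, h2, h3, H.K_iso⟩

end Hol

/-- Existence of coordinates. -/
theorem exists_hol {G : Type*} [Group G] [Finite G] (n : ℕ) (P U M : Subgroup G) (hU : Cfsg.IsElementaryAbelian 2 U)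
    (hUcard : Nat.card ↥U = 2 ^ (n + 1)) (hPU : P ≤ normalizer (U : Set G)) (hMP : M ≤ P) (hUM : U ⊓ M = ⊥) (hUM' : P ≤ U ⊔ M)
    (hfaith : ∀ m ∈ M, (∀ u ∈ U, m * u * m⁻¹ = u) → m = 1)
    (hfull : ∀ φ : ↥U ≃* ↥U, ∃ m ∈ M, ∀ u : ↥U, ((φ u : ↥U) : G) = m * u * m⁻¹)
    (hcen : ∀ u ∈ U, u ≠ 1 → ∀ g, g * u = u * g → g ∈ P) {z : G} (hz : z ∈ U) (hz1 : z ≠ 1) :
    ∃ (T : X n → G) (μ : (X n ≃ₗ[ZMod 2] X n) →* G), Hol T μ ∧ T e = z := by
  classical
  have hUc : ∀ a b : U, a * b = b * a := fun a b => hU.1.is_comm.comm a b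
  let _ : CommGroup U := { (inferInstance : Group U) with mul_comm := hUc }
  let V := Additive U
  have h2V : ∀ v : V, 2 • v = 0 := by
    intro v
    apply Additive.toMul.injective
    apply Subtype.ext
    show ((Additive.toMul v : U) : G) ^ 2 = 1
    exact hU.2 _ (Additive.toMul v).2
  let _ : Module (ZMod 2) V := AddCommGroup.zmodModule h2V
  have hfin : Finite V := inferInstanceAs (Finite U)
  have hfd : Module.Finite (ZMod 2) V := Module.Finite.of_finite
  have hrank : Module.finrank (ZMod 2) V = Module.finrank (ZMod 2) (X n) := by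
    have h1 := Module.natCard_eq_pow_finrank (K := ZMod 2) (V := V)
    have h2 : Nat.card V = 2 ^ (n + 1) := hUcard
    rw [h2, Nat.card_zmod] at h1
    have h3 := Nat.pow_right_injective (le_refl 2) h1
    rw [← h3]
    simp [X, Module.finrank_prod]
    ring
  let ψ0 : V ≃ₗ[ZMod 2] X n := LinearEquiv.ofFinrankEq _ _ hrank
  have hz0 : ψ0 (Additive.ofMul ⟨z, hz⟩) ≠ 0 := by
    intro h
    have h1 := ψ0.injective (h.trans (map_zero ψ0).symm)
    apply hz1
    exact congrArg Subtype.val (Additive.ofMul.injective h1)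
  obtain ⟨g, hg⟩ := exists_lin hz0 (e_ne (n := n))
  let ψ : V ≃ₗ[ZMod 2] X n := ψ0.trans g
  have hψz : ψ (Additive.ofMul ⟨z, hz⟩) = e := hg
  let T : X n → G := fun x => ((Additive.toMul (ψ.symm x) : U) : G)
  have hTU : ∀ x, T x ∈ U := fun x => (Additive.toMul (ψ.symm x)).2
  have hTadd : ∀ x y, T (x + y) = T x * T y := by
    intro x y
    show ((Additive.toMul (ψ.symm (x + y)) : U) : G) = _
    rw [map_add]; rfl
  have hTsurj : ∀ u (hu : u ∈ U), T (ψ (Additive.ofMul ⟨u, hu⟩)) = u := by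
    intro u hu
    show ((Additive.toMul (ψ.symm (ψ (Additive.ofMul ⟨u, hu⟩))) : U) : G) = u
    rw [LinearEquiv.symm_apply_apply]; rfl
  have hTinj : ∀ x y, T x = T y → x = y := by
    intro x y h
    have h1 : ψ.symm x = ψ.symm y := Additive.toMul.injective (Subtype.ext h)
    exact ψ.symm.injective h1
  have hTe : T e = z := by rw [← hψz, hTsurj]
  -- automorphisms
  have hex : ∀ φ : X n ≃ₗ[ZMod 2] X n, ∃ m ∈ M, ∀ x, m * T x * m⁻¹ = T (φ x) := by
    intro φ
    let Φ : ↥U ≃* ↥U :=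
      { toFun := fun u => Additive.toMul (ψ.symm (φ (ψ (Additive.ofMul u))))
        invFun := fun u => Additive.toMul (ψ.symm (φ.symm (ψ (Additive.ofMul u))))
        left_inv := fun u => by simp
        right_inv := fun u => by simp
        map_mul' := fun u v => by
          rw [ofMul_mul, map_add, map_add, map_add]; rfl }
    obtain ⟨m, hm, hm'⟩ := hfull Φ
    refine ⟨m, hm, fun x => ?_⟩
    have := hm' ⟨T x, hTU x⟩
    rw [← this]
    show ((Additive.toMul (ψ.symm (φ (ψ (Additive.ofMul (⟨T x, hTU x⟩ : U))))) : U) : G) = ((Additive.toMul (ψ.symm (φ x)) : U) : G)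
    have h2 : Additive.ofMul (⟨T x, hTU x⟩ : U) = ψ.symm x := rfl
    rw [h2, LinearEquiv.apply_symm_apply]
  choose m hmM hmact using hex
  have huniq : ∀ a ∈ M, ∀ b ∈ M, (∀ x, a * T x * a⁻¹ = b * T x * b⁻¹) → a = b := by
    intro a ha b hb h
    have h1 := hfaith (b⁻¹ * a) (M.mul_mem (M.inv_mem hb) ha) (by
      intro u hu
      rw [← hTsurj u hu]
      set x := ψ (Additive.ofMul ⟨u, hu⟩)
      calc b⁻¹ * a * T x * (b⁻¹ * a)⁻¹ = b⁻¹ * (a * T x * a⁻¹) * b := by group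
        _ = b⁻¹ * (b * T x * b⁻¹) * b := by rw [h]
        _ = T x := by group)
    rw [inv_mul_eq_one] at h1
    exact h1.symm
  let μ : (X n ≃ₗ[ZMod 2] X n) →* G := MonoidHom.mk' m (by
    intro φ χ
    apply huniq _ (hmM _) _ (M.mul_mem (hmM _) (hmM _))
    intro x
    rw [hmact]
    calc T ((φ * χ) x) = T (φ (χ x)) := rfl
      _ = m φ * T (χ x) * (m φ)⁻¹ := by rw [hmact]
      _ = m φ * (m χ * T x * (m χ)⁻¹) * (m φ)⁻¹ := by rw [hmact χ x]
      _ = _ := by group)
  have hμ : ∀ φ, μ φ = m φ := fun _ => rfl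
  refine ⟨T, μ, ⟨hTadd, ?_, ?_, ?_⟩, hTe⟩
  · intro φ x
    rw [hμ, ← hmact φ x]; group
  · intro x φ h
    have h1 : T x ∈ U ⊓ M := by
      refine ⟨hTU x, ?_⟩
      have : T x = (μ φ)⁻¹ := eq_inv_of_mul_eq_one_left h
      rw [this]; exact M.inv_mem (hmM φ)
    rw [hUM, mem_bot] at h1
    have hT0 : T 0 = 1 := by
      have := hTadd 0 0
      rw [add_zero] at this
      exact (mul_eq_left.mp this.symm)
    refine ⟨hTinj _ _ (h1.trans hT0.symm), ?_⟩
    rw [h1, one_mul] at h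
    apply LinearEquiv.ext
    intro y
    apply hTinj
    rw [← hmact φ y, ← hμ, h, one_mul, inv_one, mul_one]; rfl
  · intro x hx g hgx
    have hx1 : T x ≠ 1 := by
      intro h
      have hT0 : T 0 = 1 := by
        have := hTadd 0 0
        rw [add_zero] at this
        exact (mul_eq_left.mp this.symm)
      exact hx (hTinj _ _ (h.trans hT0.symm))
    have hgP := hcen (T x) (hTU x) hx1 g hgx
    -- g = u * m
    have hdec : ∃ u ∈ U, ∃ m' ∈ M, g = u * m' := by
      let S : Subgroup G :=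
        { carrier := {g | ∃ u ∈ U, ∃ m' ∈ M, g = u * m'}
          one_mem' := ⟨1, one_mem _, 1, one_mem _, by rw [one_mul]⟩
          mul_mem' := by
            rintro _ _ ⟨u, hu, a, ha, rfl⟩ ⟨v, hv, b, hb, rfl⟩
            refine ⟨u * (a * v * a⁻¹), U.mul_mem hu ((mem_normalizer_iff.mp (hPU (hMP ha)) v).mp hv), a * b, M.mul_mem ha hb, by group⟩
          inv_mem' := by
            rintro _ ⟨u, hu, a, ha, rfl⟩
            refine ⟨a⁻¹ * u⁻¹ * a⁻¹⁻¹, (mem_normalizer_iff.mp (hPU (hMP (M.inv_mem ha))) u⁻¹).mp (U.inv_mem hu), a⁻¹, M.inv_mem ha, by group⟩ }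
      have hle : U ⊔ M ≤ S := sup_le (fun u hu => ⟨u, hu, 1, one_mem _, by rw [mul_one]⟩) (fun a ha => ⟨1, one_mem _, a, ha, by rw [one_mul]⟩)
      exact hle (hUM' hgP)
    obtain ⟨u, hu, a, ha, rfl⟩ := hdec
    -- linear map of a
    have haU : ∀ x, a * T x * a⁻¹ ∈ U := fun x => (mem_normalizer_iff.mp (hPU (hMP ha)) _).mp (hTU x)
    have haU' : ∀ x, a⁻¹ * T x * a ∈ U := fun x => by
      have := (mem_normalizer_iff.mp (hPU (hMP (M.inv_mem ha))) _).mp (hTU x)
      rwa [inv_inv] at this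
    let f : X n →+ X n :=
      { toFun := fun x => ψ (Additive.ofMul ⟨a * T x * a⁻¹, haU x⟩)
        map_zero' := by
          have : (⟨a * T 0 * a⁻¹, haU 0⟩ : U) = 1 := by
            apply Subtype.ext
            show a * T 0 * a⁻¹ = 1
            have hT0 : T 0 = 1 := by
              have := hTadd 0 0
              rw [add_zero] at this
              exact (mul_eq_left.mp this.symm)
            rw [hT0, mul_one, mul_inv_cancel]
          rw [this]; simp
        map_add' := fun x y => by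
          rw [← map_add, ← ofMul_mul]
          congr 2
          apply Subtype.ext
          show a * T (x + y) * a⁻¹ = (a * T x * a⁻¹) * (a * T y * a⁻¹)
          rw [hTadd]; group }
    let f' : X n → X n := fun x => ψ (Additive.ofMul ⟨a⁻¹ * T x * a, haU' x⟩)
    have hf1 : ∀ x, T (f x) = a * T x * a⁻¹ := fun x => hTsurj _ _
    have hf2 : ∀ x, T (f' x) = a⁻¹ * T x * a := fun x => hTsurj _ _
    let φ : X n ≃ₗ[ZMod 2] X n :=
      { toFun := f
        map_add' := f.map_add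
        map_smul' := fun r x => ZMod.map_smul f r x
        invFun := f'
        left_inv := fun x => by
          apply hTinj
          rw [hf2, hf1]; group
        right_inv := fun x => by
          apply hTinj
          show T (f (f' x)) = _
          rw [hf1, hf2]; group }
    refine ⟨ψ (Additive.ofMul ⟨u, hu⟩), φ, ?_⟩
    rw [hTsurj, hμ]
    congr 1
    apply huniq _ ha _ (hmM _)
    intro x
    rw [hmact]
    exact (hf1 x).symm

end Cfsg.Agent.H28.Hol
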