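import Mathlib
import Cfsg.Agent.H28_Hol3

/-! Centralizers of transvections in `SL_{n+2}(2)`. -/

set_option autoImplicit false
set_option linter.all false

namespace Cfsg.Agent.H28.Hol

open Subgroup Cfsg Cfsg.Agent.H28.Xsp Cfsg.Agent.H28.Large Matrix

/-- `GL_n(2) = SL_n(2)`. -/
theorem gl_sl (n : ℕ) : Nonempty (Matrix.GeneralLinearGroup (Fin n) (ZMod 2) ≃* Matrix.SpecialLinearGroup (Fin n) (ZMod 2)) := by
  have hinj : Function.Injective (Matrix.SpecialLinearGroup.toGL : Matrix.SpecialLinearGroup (Fin n) (ZMod 2) →* _) := by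
    intro a b h
    apply Subtype.ext
    exact congrArg (fun g : Matrix.GeneralLinearGroup (Fin n) (ZMod 2) => (g : Matrix (Fin n) (Fin n) (ZMod 2))) h
  have hsurj : Function.Surjective (Matrix.SpecialLinearGroup.toGL : Matrix.SpecialLinearGroup (Fin n) (ZMod 2) →* _) := by
    intro g
    have hd : (g : Matrix (Fin n) (Fin n) (ZMod 2)).det = 1 := by
      rcases z2 (g : Matrix (Fin n) (Fin n) (ZMod 2)).det with h | h
      · exfalso
        have h1 := (Matrix.isUnit_iff_isUnit_det _).mp g.isUnit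
        rw [h] at h1
        exact not_isUnit_zero h1
      · exact h
    exact ⟨⟨g, hd⟩, Units.ext rfl⟩
  exact ⟨(MulEquiv.ofBijective _ ⟨hinj, hsurj⟩).symm⟩

/-- by counting, a faithful complement of the right order is full. -/
theorem full_of_card {G : Type*} [Group G] [Finite G] (n : ℕ) (P U M : Subgroup G) (hU : Cfsg.IsElementaryAbelian 2 U)
    (hUcard : Nat.card ↥U = 2 ^ (n + 1)) (hPU : P ≤ normalizer (U : Set G)) (hMP : M ≤ P)
    (hfaith : ∀ m ∈ M, (∀ u ∈ U, m * u * m⁻¹ = u) → m = 1)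
    (hcard : (∏ i : Fin (n + 1), (2 ^ (n + 1) - 2 ^ (i : ℕ))) ≤ Nat.card M) :
    ∀ φ : ↥U ≃* ↥U, ∃ m ∈ M, ∀ u : ↥U, ((φ u : ↥U) : G) = m * u * m⁻¹ := by
  have := Fact.mk Nat.prime_two
  have hc := H2.AutEA.card_mulAut_ea (A := U) (p := 2) hU.1 (fun a => Subtype.ext (hU.2 a a.2)) (n + 1) hUcard
  let f : M → MulAut U := fun m =>
    { toFun := fun u => ⟨m * u * (m : G)⁻¹, (mem_normalizer_iff.mp (hPU (hMP m.2)) _).mp u.2⟩
      invFun := fun u => ⟨(m : G)⁻¹ * u * m, by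
        have := (mem_normalizer_iff.mp (hPU (hMP (M.inv_mem m.2))) u).mp u.2
        rwa [inv_inv] at this⟩
      left_inv := fun u => Subtype.ext (by show (m : G)⁻¹ * (m * u * (m : G)⁻¹) * m = u; group)
      right_inv := fun u => Subtype.ext (by show (m : G) * ((m : G)⁻¹ * u * m) * (m : G)⁻¹ = u; group)
      map_mul' := fun u v => Subtype.ext (by show (m : G) * (u * v) * (m : G)⁻¹ = (m * u * (m : G)⁻¹) * (m * v * (m : G)⁻¹); group) }
  have hf : ∀ (m : M) (u : U), ((f m u : U) : G) = m * u * (m : G)⁻¹ := fun _ _ => rfl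
  have hinj : Function.Injective f := by
    intro a b h
    have h1 := hfaith ((b : G)⁻¹ * a) (M.mul_mem (M.inv_mem b.2) a.2) (by
      intro u hu
      have h2 : ((f a ⟨u, hu⟩ : U) : G) = ((f b ⟨u, hu⟩ : U) : G) := by rw [h]
      rw [hf, hf] at h2
      calc (b : G)⁻¹ * a * u * ((b : G)⁻¹ * a)⁻¹ = (b : G)⁻¹ * (a * u * (a : G)⁻¹) * b := by group
        _ = (b : G)⁻¹ * (b * u * (b : G)⁻¹) * b := by rw [h2]
        _ = u := by group)
    rw [inv_mul_eq_one] at h1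
    exact Subtype.ext h1.symm
  have hbij : Function.Bijective f := by
    apply (Nat.bijective_iff_injective_and_card f).mpr
    exact ⟨hinj, le_antisymm (Nat.card_le_card_of_injective f hinj) (by rw [hc]; exact hcard)⟩
  intro φ
  obtain ⟨m, hm⟩ := hbij.2 φ
  refine ⟨m, m.2, fun u => ?_⟩
  rw [← hf, hm]

variable {n : ℕ}

abbrev SL2 (n : ℕ) := Matrix.SpecialLinearGroup (Fin n) (ZMod 2)
abbrev Mt (n : ℕ) := Matrix (Fin n) (Fin n) (ZMod 2)

/-- the block embedding. -/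
def B (g : Mt (n + 1)) : Mt (n + 2) := Matrix.of fun i j => Fin.cases (Fin.cases 1 (fun _ => 0) j) (fun i' => Fin.cases 0 (fun j' => g i' j') j) i

theorem B_mul (g h : Mt (n + 1)) : B (g * h) = B g * B h := by
  ext i j
  refine Fin.cases ?_ (fun i' => ?_) i <;> refine Fin.cases ?_ (fun j' => ?_) j <;>
    simp [B, Matrix.mul_apply, Fin.sum_univ_succ]

theorem B_one : B (1 : Mt (n + 1)) = 1 := by
  ext i j
  refine Fin.cases ?_ (fun i' => ?_) i <;> refine Fin.cases ?_ (fun j' => ?_) j <;>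
    simp [B, Matrix.one_apply, Fin.succ_ne_zero, eq_comm]

theorem B_inj {g h : Mt (n + 1)} (he : B g = B h) : g = h := by
  ext i j
  have := congrFun (congrFun he i.succ) j.succ
  simpa [B] using this

theorem B_det (g : Matrix.GeneralLinearGroup (Fin (n + 1)) (ZMod 2)) : (B (g : Mt (n + 1))).det = 1 := by
  have h1 : B (g : Mt (n + 1)) * B ((g⁻¹ : Matrix.GeneralLinearGroup (Fin (n + 1)) (ZMod 2)) : Mt (n + 1)) = 1 := by
    rw [← B_mul, ← Units.val_mul, mul_inv_cancel, Units.val_one, B_one]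
  have h2 := congrArg Matrix.det h1
  rw [Matrix.det_mul, Matrix.det_one] at h2
  rcases z2 (B (g : Mt (n + 1))).det with h | h
  · rw [h, zero_mul] at h2; exact absurd h2 (by decide)
  · exact h

def ι (g : Matrix.GeneralLinearGroup (Fin (n + 1)) (ZMod 2)) : SL2 (n + 2) := ⟨B (g : Mt (n + 1)), B_det g⟩

theorem ι_inj : Function.Injective (ι (n := n)) := by
  intro a b h
  apply Units.ext
  exact B_inj (congrArg Subtype.val h)

/-- `1 + e₀ ⊗ f` -/
def tv (f : Fin (n + 2) → ZMod 2) : Mt (n + 2) := 1 + Matrix.vecMulVec (Pi.single 0 1) f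

abbrev e0 : Fin (n + 2) → ZMod 2 := Pi.single 0 1

theorem tv_mul {f : Fin (n + 2) → ZMod 2} (g : Fin (n + 2) → ZMod 2) (hf : f 0 = 0) : tv f * tv g = tv (f + g) := by
  unfold tv
  rw [add_mul, mul_add, mul_add, one_mul, one_mul, mul_one, Matrix.vecMulVec_mul_vecMulVec]
  have : f ⬝ᵥ (Pi.single 0 1 : Fin (n + 2) → ZMod 2) = 0 := by rw [dotProduct_single_one, hf]
  rw [this, zero_smul, Matrix.vecMulVec_zero, add_zero, add_assoc, add_comm (Matrix.vecMulVec _ g), ← Matrix.vecMulVec_add]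

def FF (f : Fin (n + 1) → ZMod 2) : Fin (n + 2) → ZMod 2 := Fin.cons 0 f

theorem FF_zero_apply (f : Fin (n + 1) → ZMod 2) : FF f 0 = 0 := rfl
theorem FF_add (f g : Fin (n + 1) → ZMod 2) : FF (f + g) = FF f + FF g := by
  funext i
  refine Fin.cases ?_ (fun j => ?_) i
  · simp [FF]
  · simp [FF]
theorem FF_inj {f g : Fin (n + 1) → ZMod 2} (h : FF f = FF g) : f = g := by
  funext i
  have := congrFun h i.succ
  simpa [FF] using this
theorem FF_zero : FF (0 : Fin (n + 1) → ZMod 2) = 0 := by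
  funext i
  refine Fin.cases ?_ (fun j => ?_) i
  · simp [FF]
  · simp [FF]
theorem FF_tail {v : Fin (n + 2) → ZMod 2} (h : v 0 = 0) : FF (Fin.tail v) = v := by
  funext i
  refine Fin.cases ?_ (fun j => ?_) i
  · simp [FF, h]
  · simp [FF, Fin.tail]

theorem tv_det {f : Fin (n + 2) → ZMod 2} (hf : f 0 = 0) : (tv f).det = 1 := by
  have h1 : tv f * tv f = 1 := by
    rw [tv_mul f hf]
    have : f + f = 0 := ZModModule.add_self f
    rw [this]; unfold tv; rw [Matrix.vecMulVec_zero, add_zero]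
  have h2 := congrArg Matrix.det h1
  rw [Matrix.det_mul, Matrix.det_one] at h2
  rcases z2 (tv f).det with h | h
  · rw [h, zero_mul] at h2; exact absurd h2 (by decide)
  · exact h

def uu (f : Fin (n + 1) → ZMod 2) : SL2 (n + 2) := ⟨tv (FF f), tv_det (FF_zero_apply f)⟩

theorem uu_val (f : Fin (n + 1) → ZMod 2) : (uu f : Mt (n + 2)) = 1 + Matrix.vecMulVec e0 (FF f) := rfl

theorem uu_add (f g : Fin (n + 1) → ZMod 2) : uu (f + g) = uu f * uu g := by
  apply Subtype.ext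
  show tv (FF (f + g)) = tv (FF f) * tv (FF g)
  rw [tv_mul _ (FF_zero_apply f), FF_add]

theorem uu_inj : Function.Injective (uu (n := n)) := by
  intro f g h
  apply FF_inj
  have h1 : (1 : Mt (n + 2)) + Matrix.vecMulVec e0 (FF f) = 1 + Matrix.vecMulVec e0 (FF g) := congrArg Subtype.val h
  have h2 := add_left_cancel h1
  funext j
  have h3 := congrFun (congrFun h2 0) j
  simpa [Matrix.vecMulVec_apply] using h3

theorem uu_sq (f : Fin (n + 1) → ZMod 2) : uu f * uu f = 1 := by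
  rw [← uu_add]
  have : f + f = 0 := ZModModule.add_self f
  rw [this]
  apply Subtype.ext
  rw [uu_val, FF_zero, Matrix.vecMulVec_zero, add_zero]; rfl

theorem uu_zero : uu (0 : Fin (n + 1) → ZMod 2) = 1 := by
  apply Subtype.ext
  rw [uu_val, FF_zero, Matrix.vecMulVec_zero, add_zero]; rfl

theorem uu_inv (f : Fin (n + 1) → ZMod 2) : (uu f)⁻¹ = uu f := inv_eq_of_mul_eq_one_left (uu_sq f)

/-- the transvections with centre `e₀`. -/
def Us : Subgroup (SL2 (n + 2)) where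
  carrier := Set.range uu
  one_mem' := ⟨0, uu_zero⟩
  mul_mem' := by rintro _ _ ⟨x, rfl⟩ ⟨y, rfl⟩; exact ⟨x + y, uu_add x y⟩
  inv_mem' := by rintro _ ⟨x, rfl⟩; exact ⟨x, (uu_inv x).symm⟩

theorem Us_ea : Cfsg.IsElementaryAbelian 2 (Us (n := n)) := by
  refine ⟨⟨⟨?_⟩⟩, ?_⟩
  · rintro ⟨_, ⟨x, rfl⟩⟩ ⟨_, ⟨y, rfl⟩⟩
    apply Subtype.ext
    show uu x * uu y = uu y * uu x
    rw [← uu_add, ← uu_add, add_comm x y]
  · rintro _ ⟨x, rfl⟩
    rw [pow_two]; exact uu_sq x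

theorem card_Us : Nat.card (Us (n := n)) = 2 ^ (n + 1) := by
  have h1 : Nat.card (Fin (n + 1) → ZMod 2) = Nat.card (Us (n := n)) := by
    apply Nat.card_congr
    refine Equiv.ofBijective (fun p => (⟨uu p, ⟨p, rfl⟩⟩ : Us (n := n))) ⟨?_, ?_⟩
    · intro x y h
      exact uu_inj (congrArg Subtype.val h)
    · rintro ⟨_, ⟨y, rfl⟩⟩; exact ⟨y, rfl⟩
  rw [← h1, Nat.card_eq_fintype_card]
  simp [ZMod.card]

/-- the stabilizer of `e₀`. -/
def Ps : Subgroup (SL2 (n + 2)) where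
  carrier := {g | (g : Mt (n + 2)) *ᵥ e0 = e0}
  one_mem' := by show (1 : Mt (n + 2)) *ᵥ e0 = e0; rw [Matrix.one_mulVec]
  mul_mem' := by
    intro g h hg hh
    show ((g : Mt (n + 2)) * (h : Mt (n + 2))) *ᵥ e0 = e0
    rw [← Matrix.mulVec_mulVec, hh, hg]
  inv_mem' := by
    intro g hg
    have h1 : ((g⁻¹ : SL2 (n + 2)) : Mt (n + 2)) * (g : Mt (n + 2)) = 1 := by
      rw [← Matrix.SpecialLinearGroup.coe_mul, inv_mul_cancel]; rfl
    show ((g⁻¹ : SL2 (n + 2)) : Mt (n + 2)) *ᵥ e0 = e0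
    calc ((g⁻¹ : SL2 (n + 2)) : Mt (n + 2)) *ᵥ e0 = ((g⁻¹ : SL2 (n + 2)) : Mt (n + 2)) *ᵥ ((g : Mt (n + 2)) *ᵥ e0) := by rw [hg]
      _ = e0 := by rw [Matrix.mulVec_mulVec, h1, Matrix.one_mulVec]

def Ms : Subgroup (SL2 (n + 2)) where
  carrier := {g | (g : Mt (n + 2)) *ᵥ e0 = e0 ∧ e0 ᵥ* (g : Mt (n + 2)) = e0}
  one_mem' := by
    refine ⟨?_, ?_⟩
    · show (1 : Mt (n + 2)) *ᵥ e0 = e0; rw [Matrix.one_mulVec]
    · show e0 ᵥ* (1 : Mt (n + 2)) = e0; rw [Matrix.vecMul_one]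
  mul_mem' := by
    rintro g h ⟨hg, hg'⟩ ⟨hh, hh'⟩
    refine ⟨?_, ?_⟩
    · show ((g : Mt (n + 2)) * (h : Mt (n + 2))) *ᵥ e0 = e0
      rw [← Matrix.mulVec_mulVec, hh, hg]
    · show e0 ᵥ* ((g : Mt (n + 2)) * (h : Mt (n + 2))) = e0
      rw [← Matrix.vecMul_vecMul, hg', hh']
  inv_mem' := by
    rintro g ⟨hg, hg'⟩
    have h1 : ((g⁻¹ : SL2 (n + 2)) : Mt (n + 2)) * (g : Mt (n + 2)) = 1 := by
      rw [← Matrix.SpecialLinearGroup.coe_mul, inv_mul_cancel]; rfl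
    have h2 : (g : Mt (n + 2)) * ((g⁻¹ : SL2 (n + 2)) : Mt (n + 2)) = 1 := by
      rw [← Matrix.SpecialLinearGroup.coe_mul, mul_inv_cancel]; rfl
    refine ⟨?_, ?_⟩
    · show ((g⁻¹ : SL2 (n + 2)) : Mt (n + 2)) *ᵥ e0 = e0
      calc ((g⁻¹ : SL2 (n + 2)) : Mt (n + 2)) *ᵥ e0 = ((g⁻¹ : SL2 (n + 2)) : Mt (n + 2)) *ᵥ ((g : Mt (n + 2)) *ᵥ e0) := by rw [hg]
        _ = e0 := by rw [Matrix.mulVec_mulVec, h1, Matrix.one_mulVec]
    · show e0 ᵥ* ((g⁻¹ : SL2 (n + 2)) : Mt (n + 2)) = e0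
      calc e0 ᵥ* ((g⁻¹ : SL2 (n + 2)) : Mt (n + 2)) = (e0 ᵥ* (g : Mt (n + 2))) ᵥ* ((g⁻¹ : SL2 (n + 2)) : Mt (n + 2)) := by rw [hg']
        _ = e0 := by rw [Matrix.vecMul_vecMul, h2, Matrix.vecMul_one]

theorem Ms_le : Ms (n := n) ≤ Ps := fun _ h => h.1

theorem dot_e0 (v : Fin (n + 2) → ZMod 2) : v ⬝ᵥ e0 = v 0 := by rw [dotProduct_single_one]

/-- `g u = u' g`. -/
theorem conj_uu {g : SL2 (n + 2)} (hg : g ∈ Ps) (f : Fin (n + 1) → ZMod 2) : ∃ f', g * uu f = uu f' * g ∧ FF f' ᵥ* (g : Mt (n + 2)) = FF f := by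
  have h1 : ((g⁻¹ : SL2 (n + 2)) : Mt (n + 2)) * (g : Mt (n + 2)) = 1 := by
    rw [← Matrix.SpecialLinearGroup.coe_mul, inv_mul_cancel]; rfl
  have hgi : ((g⁻¹ : SL2 (n + 2)) : Mt (n + 2)) *ᵥ e0 = e0 := Ps.inv_mem hg
  have h0 : (FF f ᵥ* ((g⁻¹ : SL2 (n + 2)) : Mt (n + 2))) 0 = 0 := by
    rw [← dot_e0 (FF f ᵥ* ((g⁻¹ : SL2 (n + 2)) : Mt (n + 2))), ← Matrix.dotProduct_mulVec, hgi, dot_e0]; rfl
  obtain ⟨f', hf'⟩ : ∃ f', FF f' = FF f ᵥ* ((g⁻¹ : SL2 (n + 2)) : Mt (n + 2)) := ⟨_, FF_tail h0⟩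
  have h2 : FF f' ᵥ* (g : Mt (n + 2)) = FF f := by
    rw [hf', Matrix.vecMul_vecMul, h1, Matrix.vecMul_one]
  refine ⟨f', ?_, h2⟩
  apply Subtype.ext
  show (g : Mt (n + 2)) * (uu f : Mt (n + 2)) = (uu f' : Mt (n + 2)) * (g : Mt (n + 2))
  rw [uu_val, uu_val, mul_add, add_mul, mul_one, one_mul, Matrix.mul_vecMulVec, Matrix.vecMulVec_mul, h2, show (g : Mt (n + 2)) *ᵥ e0 = e0 from hg]

theorem Ps_norm : Ps (n := n) ≤ normalizer ((Us : Subgroup (SL2 (n + 2))) : Set (SL2 (n + 2))) := by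
  have key : ∀ g ∈ Ps (n := n), ∀ u ∈ Us, g * u * g⁻¹ ∈ Us := by
    rintro g hg _ ⟨f, rfl⟩
    obtain ⟨f', h1, -⟩ := conj_uu hg f
    rw [h1, mul_inv_cancel_right]
    exact ⟨f', rfl⟩
  intro g hg
  rw [mem_normalizer_iff]
  intro u
  refine ⟨key g hg u, fun h => ?_⟩
  have := key g⁻¹ (Ps.inv_mem hg) _ h
  have e2 : g⁻¹ * (g * u * g⁻¹) * g⁻¹⁻¹ = u := by group
  rwa [e2] at this

theorem UM_bot : (Us : Subgroup (SL2 (n + 2))) ⊓ Ms = ⊥ := by
  rw [eq_bot_iff]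
  rintro _ ⟨⟨f, rfl⟩, h⟩
  have h2 : e0 ᵥ* (uu f : Mt (n + 2)) = e0 := h.2
  rw [uu_val, Matrix.vecMul_add, Matrix.vecMul_one, Matrix.vecMul_vecMulVec, dot_e0] at h2
  have h3 : ((Pi.single 0 1 : Fin (n + 2) → ZMod 2) 0) • FF f = 0 := by
    have := add_left_cancel (h2.trans (add_zero _).symm)
    exact this
  rw [Pi.single_eq_same, one_smul, ← FF_zero] at h3
  rw [mem_bot, FF_inj h3, uu_zero]

theorem P_le : Ps (n := n) ≤ Us ⊔ Ms := by
  intro g hg
  have hg' : (g : Mt (n + 2)) *ᵥ e0 = e0 := hg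
  have h1 : ((g⁻¹ : SL2 (n + 2)) : Mt (n + 2)) * (g : Mt (n + 2)) = 1 := by
    rw [← Matrix.SpecialLinearGroup.coe_mul, inv_mul_cancel]; rfl
  have hgi : ((g⁻¹ : SL2 (n + 2)) : Mt (n + 2)) *ᵥ e0 = e0 := Ps.inv_mem hg
  set r : Fin (n + 2) → ZMod 2 := e0 ᵥ* (g : Mt (n + 2)) + e0 with hr
  have hr0 : r 0 = 0 := by
    rw [hr, Pi.add_apply, ← dot_e0 (e0 ᵥ* (g : Mt (n + 2))), ← Matrix.dotProduct_mulVec, hg', dot_e0]
    simp [Pi.single_eq_same]
    decide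
  have hf0 : (r ᵥ* ((g⁻¹ : SL2 (n + 2)) : Mt (n + 2))) 0 = 0 := by
    rw [← dot_e0 (r ᵥ* ((g⁻¹ : SL2 (n + 2)) : Mt (n + 2))), ← Matrix.dotProduct_mulVec, hgi, dot_e0, hr0]
  set f := Fin.tail (r ᵥ* ((g⁻¹ : SL2 (n + 2)) : Mt (n + 2))) with hf
  have hF : FF f ᵥ* (g : Mt (n + 2)) = r := by
    rw [hf, FF_tail hf0, Matrix.vecMul_vecMul, h1, Matrix.vecMul_one]
  have hm : ((uu f * g : SL2 (n + 2)) : Mt (n + 2)) = (g : Mt (n + 2)) + Matrix.vecMulVec e0 r := by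
    rw [Matrix.SpecialLinearGroup.coe_mul, uu_val, add_mul, one_mul, Matrix.vecMulVec_mul, hF]
  have hmM : uu f * g ∈ Ms := by
    refine ⟨?_, ?_⟩
    · show ((uu f * g : SL2 (n + 2)) : Mt (n + 2)) *ᵥ e0 = e0
      rw [hm, Matrix.add_mulVec, hg', Matrix.vecMulVec_mulVec, dot_e0, hr0]
      simp
    · show e0 ᵥ* ((uu f * g : SL2 (n + 2)) : Mt (n + 2)) = e0
      rw [hm, Matrix.vecMul_add, Matrix.vecMul_vecMulVec, dot_e0]
      show e0 ᵥ* (g : Mt (n + 2)) + ((Pi.single 0 1 : Fin (n + 2) → ZMod 2) 0) • r = e0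
      rw [Pi.single_eq_same, one_smul, hr, ← add_assoc, ZModModule.add_self, zero_add]
  have e2 : g = uu f * (uu f * g) := by rw [← mul_assoc, uu_sq, one_mul]
  rw [e2]
  exact Subgroup.mul_mem_sup ⟨f, rfl⟩ hmM

theorem faith {m : SL2 (n + 2)} (hm : m ∈ Ms) (h : ∀ u ∈ (Us : Subgroup (SL2 (n + 2))), m * u * m⁻¹ = u) : m = 1 := by
  have h1 : ∀ f : Fin (n + 1) → ZMod 2, FF f ᵥ* (m : Mt (n + 2)) = FF f := by
    intro f
    obtain ⟨f', h2, h3⟩ := conj_uu (Ms_le hm) f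
    have h4 := h (uu f) ⟨f, rfl⟩
    rw [h2, mul_inv_cancel_right] at h4
    rw [uu_inj h4] at h3
    exact h3
  have h2 : e0 ᵥ* (m : Mt (n + 2)) = e0 := hm.2
  apply Subtype.ext
  show (m : Mt (n + 2)) = 1
  ext i j
  have h3 : (Pi.single i 1 : Fin (n + 2) → ZMod 2) ᵥ* (m : Mt (n + 2)) = Pi.single i 1 := by
    revert i
    intro i
    refine Fin.cases ?_ (fun i' => ?_) i
    · exact h2
    · have := h1 (Pi.single i' 1)
      have e3 : FF (Pi.single i' (1 : ZMod 2)) = (Pi.single i'.succ 1 : Fin (n + 2) → ZMod 2) := by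
        funext k
        refine Fin.cases ?_ (fun k' => ?_) k
        · simp [FF, Pi.single_apply, (Fin.succ_ne_zero _).symm]
        · simp [FF, Pi.single_apply]
      rw [e3] at this
      exact this
  have h4 := congrFun h3 j
  rw [Matrix.single_one_vecMul] at h4
  rw [show (m : Mt (n + 2)) i j = (m : Mt (n + 2)).row i j from rfl, h4, Matrix.one_apply, Pi.single_apply]
  simp only [eq_comm]

theorem card_Ms : (∏ i : Fin (n + 1), (2 ^ (n + 1) - 2 ^ (i : ℕ))) ≤ Nat.card (Ms (n := n)) := by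
  have h1 : Nat.card (Matrix.GeneralLinearGroup (Fin (n + 1)) (ZMod 2)) = ∏ i : Fin (n + 1), (2 ^ (n + 1) - 2 ^ (i : ℕ)) := by
    have := Matrix.card_GL_field (𝔽 := ZMod 2) (n + 1)
    rw [ZMod.card] at this
    exact this
  rw [← h1]
  refine Nat.card_le_card_of_injective (fun g => (⟨ι g, ?_, ?_⟩ : Ms (n := n))) ?_
  · show B (g : Mt (n + 1)) *ᵥ e0 = e0
    funext i
    rw [Matrix.mulVec_single_one]
    refine Fin.cases ?_ (fun i' => ?_) i
    · simp [B, Matrix.col]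
    · simp [B, Matrix.col]
  · show e0 ᵥ* B (g : Mt (n + 1)) = e0
    funext i
    rw [Matrix.single_one_vecMul]
    refine Fin.cases ?_ (fun i' => ?_) i
    · simp [B, Matrix.row]
    · simp [B, Matrix.row]
  · intro a b h
    exact ι_inj (congrArg Subtype.val h)

theorem cen_Us {u : SL2 (n + 2)} (hu : u ∈ Us) (hu1 : u ≠ 1) {g : SL2 (n + 2)} (h : g * u = u * g) : g ∈ Ps := by
  obtain ⟨f, rfl⟩ := hu
  have hf : FF f ≠ 0 := by
    intro h0
    rw [← FF_zero] at h0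
    exact hu1 (by rw [FF_inj h0, uu_zero])
  obtain ⟨j, hj⟩ := Function.ne_iff.mp hf
  have hj1 : FF f j = 1 := by
    rcases z2 (FF f j) with h1 | h1
    · exact absurd h1 hj
    · exact h1
  have h1 : (g : Mt (n + 2)) * (uu f : Mt (n + 2)) = (uu f : Mt (n + 2)) * (g : Mt (n + 2)) := congrArg Subtype.val h
  rw [uu_val, mul_add, add_mul, mul_one, one_mul, Matrix.mul_vecMulVec, Matrix.vecMulVec_mul] at h1
  have h2 := add_left_cancel h1
  -- column j
  have h3 : ∀ i, ((g : Mt (n + 2)) *ᵥ e0) i = (e0 : Fin (n + 2) → ZMod 2) i * (FF f ᵥ* (g : Mt (n + 2))) j := by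
    intro i
    have := congrFun (congrFun h2 i) j
    rw [Matrix.vecMulVec_apply, Matrix.vecMulVec_apply, hj1, mul_one] at this
    exact this
  have h4 : (FF f ᵥ* (g : Mt (n + 2))) j = 1 := by
    rcases z2 ((FF f ᵥ* (g : Mt (n + 2))) j) with h5 | h5
    · exfalso
      have h6 : (g : Mt (n + 2)) *ᵥ e0 = 0 := by
        funext i; rw [h3, h5, mul_zero]; rfl
      have h7 : ((g⁻¹ : SL2 (n + 2)) : Mt (n + 2)) * (g : Mt (n + 2)) = 1 := by
        rw [← Matrix.SpecialLinearGroup.coe_mul, inv_mul_cancel]; rfl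
      have h8 : (e0 : Fin (n + 2) → ZMod 2) = 0 := by
        calc (e0 : Fin (n + 2) → ZMod 2) = ((g⁻¹ : SL2 (n + 2)) : Mt (n + 2)) *ᵥ ((g : Mt (n + 2)) *ᵥ e0) := by
              rw [Matrix.mulVec_mulVec, h7, Matrix.one_mulVec]
          _ = 0 := by rw [h6, Matrix.mulVec_zero]
      have h9 := congrFun h8 0
      simp at h9
    · exact h5
  show (g : Mt (n + 2)) *ᵥ e0 = e0
  funext i
  rw [h3, h4, mul_one]

theorem sl_hol {z : SL2 (n + 2)} (hz : (z : Mt (n + 2)) = Matrix.transvection 0 1 1) :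
    ∃ (T : X n → SL2 (n + 2)) (μ : (X n ≃ₗ[ZMod 2] X n) →* SL2 (n + 2)), Hol T μ ∧ T e = z := by
  have hzu : z = uu (Pi.single 0 1) := by
    apply Subtype.ext
    rw [hz, uu_val]
    unfold Matrix.transvection
    congr 1
    ext i j
    rw [Matrix.vecMulVec_apply]
    refine Fin.cases ?_ (fun i' => ?_) i
    · refine Fin.cases ?_ (fun j' => ?_) j
      · simp [FF, Matrix.single_apply]
      · refine Fin.cases ?_ (fun j'' => ?_) j'
        · simp [FF, Matrix.single_apply]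
        · simp only [FF, Matrix.single_apply, Fin.cons_succ, Pi.single_apply]
          have h1 : (1 : Fin (n + 2)) ≠ (Fin.succ (Fin.succ j'') : Fin (n + 2)) := by
            intro h
            have := congrArg Fin.val h
            simp at this
          have h2 : (Fin.succ j'' : Fin (n + 1)) ≠ 0 := Fin.succ_ne_zero _
          simp [h1, h2]
    · simp [FF, Matrix.single_apply, Pi.single_apply, (Fin.succ_ne_zero _).symm]
  have hz1 : uu (Pi.single 0 1 : Fin (n + 1) → ZMod 2) ≠ 1 := by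
    rw [← uu_zero]
    intro h
    have := congrFun (uu_inj h) 0
    simp at this
  rw [hzu]
  exact exists_hol n Ps Us Ms Us_ea card_Us Ps_norm Ms_le UM_bot P_le (fun m hm => faith hm)
    (full_of_card n Ps Us Ms Us_ea card_Us Ps_norm Ms_le (fun m hm => faith hm) card_Ms)
    (fun u hu hu1 g h => cen_Us hu hu1 h) ⟨_, rfl⟩ hz1

end Cfsg.Agent.H28.Hol
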