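import Mathlib
import Cfsg.Agent.H28_Hol4
import Cfsg.Agent.H7_OctadStab
import Cfsg.Agent.H7_M24d

/-! Centralizers of 2-central involutions in `M₂₄`. -/

set_option autoImplicit false
set_option linter.all false

namespace Cfsg.Agent.H28.Hol

open Subgroup Cfsg Cfsg.Agent.H28.Xsp Cfsg.Agent.H28.Large
open Cfsg.Agent.H7.Golay Cfsg.Agent.H7.Oct Cfsg.Agent.H7.M24 Cfsg.Agent.H7.M24b Cfsg.Agent.H7.M24c Cfsg.Agent.H7.M24d Cfsg.Agent.H7.OctadStab
open scoped Pointwise

section
variable {o : Finset GolayPt} {p : GolayPt}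

abbrev FX (o : Finset GolayPt) : Subgroup (Equiv.Perm GolayPt) := M24 ⊓ fixingSubgroup (Equiv.Perm GolayPt) (o : Set GolayPt)
abbrev ST (o : Finset GolayPt) : Subgroup (Equiv.Perm GolayPt) := M24 ⊓ MulAction.stabilizer (Equiv.Perm GolayPt) o
abbrev SP (o : Finset GolayPt) (p : GolayPt) : Subgroup (Equiv.Perm GolayPt) :=
  M24 ⊓ MulAction.stabilizer (Equiv.Perm GolayPt) o ⊓ MulAction.stabilizer (Equiv.Perm GolayPt) p

theorem FX_comm {a b : Equiv.Perm GolayPt} (ho : o ∈ octads) (ha : a ∈ FX o) (hb : b ∈ FX o) : a * b = b * a := by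
  have h1 := sq_fixing_octad ho ha
  have h2 := sq_fixing_octad ho hb
  have h3 := sq_fixing_octad ho ((FX o).mul_mem ha hb)
  have ha' : a⁻¹ = a := inv_eq_of_mul_eq_one_left h1
  have hb' : b⁻¹ = b := inv_eq_of_mul_eq_one_left h2
  have hab : (a * b)⁻¹ = a * b := inv_eq_of_mul_eq_one_left h3
  rw [mul_inv_rev, ha', hb'] at hab
  exact hab.symm

theorem fix_eq_one {u : Equiv.Perm GolayPt} (ho : o ∈ octads) (hu : u ∈ FX o) {q : GolayPt} (hq : q ∉ o) (h : u q = q) : u = 1 := by
  obtain ⟨huM, huo⟩ := mem_fixing.mp hu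
  have hcard : o.card = 8 := ho.2
  apply fix_nine huM (insert q o)
  · rw [Finset.card_insert_of_notMem hq, hcard]
  · intro r hr
    rcases Finset.mem_insert.mp hr with h1 | h1
    · rw [h1]; exact h
    · exact huo r h1

theorem card_compl (ho : o ∈ octads) : (oᶜ : Finset GolayPt).card = 16 := by
  have hcard : o.card = 8 := ho.2
  rw [Finset.card_compl, hcard]; decide

theorem FX_trans (ho : o ∈ octads) (hp : p ∉ o) {q : GolayPt} (hq : q ∉ o) : ∃ u ∈ FX o, u p = q := by
  classical
  let f : ↥(FX o) → {x : GolayPt // x ∈ (oᶜ : Finset GolayPt)} := fun u => ⟨u.1 p, by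
    rw [Finset.mem_compl]
    intro h
    have h1 : u.1 • o = o := by
      apply smul_eq_of_forall
      intro x
      have huo := (mem_fixing.mp u.2).2
      constructor
      · intro hx
        have h3 := huo _ hx
        have := u.1.injective h3
        rwa [this] at hx
      · intro hx; rw [huo x hx]; exact hx
    exact hp ((apply_mem_iff h1 p).mp h)⟩
  have hinj : Function.Injective f := by
    intro a b hab
    have h1 : a.1 p = b.1 p := congrArg Subtype.val hab
    have h2 : (b.1⁻¹ * a.1) p = p := by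
      show b.1⁻¹ (a.1 p) = p
      rw [h1]; exact b.1.symm_apply_apply p
    have h3 := fix_eq_one ho ((FX o).mul_mem ((FX o).inv_mem b.2) a.2) hp h2
    rw [inv_mul_eq_one] at h3
    exact Subtype.ext h3.symm
  have hbij : Function.Bijective f := by
    apply (Nat.bijective_iff_injective_and_card f).mpr
    refine ⟨hinj, ?_⟩
    rw [card_fixing_octad ho, Nat.card_eq_fintype_card, Fintype.card_coe, card_compl ho]
  obtain ⟨u, hu⟩ := hbij.2 ⟨q, Finset.mem_compl.mpr hq⟩
  exact ⟨u.1, u.2, congrArg Subtype.val hu⟩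

theorem m24_hol {z : ↥M24} (hz : z ≠ 1)
    (hfix : (Finset.univ.filter fun p : Cfsg.GolayPt => (z : Equiv.Perm Cfsg.GolayPt) p = p) ∈ Cfsg.octads) :
    ∃ (T : X 3 → ↥M24) (μ : (X 3 ≃ₗ[ZMod 2] X 3) →* ↥M24), Hol T μ ∧ T e = z := by
  set o := (Finset.univ.filter fun p : Cfsg.GolayPt => (z : Equiv.Perm Cfsg.GolayPt) p = p) with ho'
  have ho : o ∈ octads := hfix
  obtain ⟨p, hp⟩ : ∃ p, p ∈ (oᶜ : Finset GolayPt) := by
    apply Finset.card_pos.mp
    rw [card_compl ho]; norm_num
  rw [Finset.mem_compl] at hp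
  have hzU : (z : Equiv.Perm GolayPt) ∈ FX o := by
    rw [mem_fixing]
    refine ⟨z.2, ?_⟩
    intro q hq
    exact (Finset.mem_filter.mp hq).2
  have hFXST : FX o ≤ ST o := by
    intro u hu
    refine ⟨hu.1, ?_⟩
    show u • o = o
    apply smul_eq_of_forall
    intro x
    have huo := (mem_fixing.mp hu).2
    constructor
    · intro hx
      have h3 := huo _ hx
      have := u.injective h3
      rwa [this] at hx
    · intro hx; rw [huo x hx]; exact hx
  have hSPST : SP o p ≤ ST o := inf_le_left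
  have hea : Cfsg.IsElementaryAbelian 2 ((FX o).subgroupOf M24) := by
    refine ⟨⟨⟨?_⟩⟩, ?_⟩
    · rintro ⟨a, ha⟩ ⟨b, hb⟩
      apply Subtype.ext
      apply Subtype.ext
      exact FX_comm ho ha hb
    · rintro a ha
      apply Subtype.ext
      show (a : Equiv.Perm GolayPt) ^ 2 = 1
      rw [pow_two]; exact sq_fixing_octad ho ha
  have hcU : Nat.card ((FX o).subgroupOf M24) = 2 ^ (3 + 1) := by
    rw [Nat.card_congr (Subgroup.subgroupOfEquivOfLe (inf_le_left : FX o ≤ M24)).toEquiv, card_fixing_octad ho]; norm_num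
  have hcM : Nat.card ((SP o p).subgroupOf M24) = 20160 := by
    rw [Nat.card_congr (Subgroup.subgroupOfEquivOfLe ((inf_le_left.trans inf_le_left) : SP o p ≤ M24)).toEquiv, card_stab_octad_pt ho hp]
  have hnorm : (ST o).subgroupOf M24 ≤ normalizer (((FX o).subgroupOf M24 : Subgroup ↥M24) : Set ↥M24) := by
    intro g hg
    rw [mem_normalizer_iff]
    intro x
    have h1 : (g : Equiv.Perm GolayPt) • o = o := hg.2
    exact fixing_conj g.2 h1 x
  have hfaith : ∀ m ∈ (SP o p).subgroupOf M24, (∀ u ∈ (FX o).subgroupOf M24, m * u * m⁻¹ = u) → m = 1 := by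
    intro m hm h
    have hm2 := mem_stab_pt.mp hm
    apply Subtype.ext
    apply fix_nine m.2 (oᶜ)
    · rw [card_compl ho]; norm_num
    · intro q hq
      rw [Finset.mem_compl] at hq
      obtain ⟨u, hu, hup⟩ := FX_trans ho hp hq
      have h1 := congrArg Subtype.val (h ⟨u, hu.1⟩ hu)
      have h2 : (m : Equiv.Perm GolayPt) * u * (m : Equiv.Perm GolayPt)⁻¹ = u := h1
      have h3 : (m : Equiv.Perm GolayPt) * u = u * m := by
        calc (m : Equiv.Perm GolayPt) * u = m * u * (m : Equiv.Perm GolayPt)⁻¹ * m := by group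
          _ = u * m := by rw [h2]
      have h4 := congrArg (fun σ : Equiv.Perm GolayPt => σ p) h3
      simp only [Equiv.Perm.mul_apply] at h4
      have hmp : (m : Equiv.Perm GolayPt) p = p := hm2.2
      rw [hup, hmp, hup] at h4
      exact h4
  have hcen : ∀ u ∈ (FX o).subgroupOf M24, u ≠ 1 → ∀ g : ↥M24, g * u = u * g → g ∈ (ST o).subgroupOf M24 := by
    intro u hu hu1 g hg
    have hg' : (g : Equiv.Perm GolayPt) * u = u * g := congrArg Subtype.val hg
    refine ⟨g.2, ?_⟩
    show (g : Equiv.Perm GolayPt) • o = o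
    apply smul_eq_of_forall
    have hfixu : ∀ x, (u : Equiv.Perm GolayPt) x = x ↔ x ∈ o := by
      intro x
      constructor
      · intro h
        by_contra hx
        exact hu1 (Subtype.ext (fix_eq_one ho hu hx h))
      · intro hx; exact (mem_fixing.mp hu).2 x hx
    intro x
    rw [← hfixu, ← hfixu]
    have h4 := congrArg (fun σ : Equiv.Perm GolayPt => σ x) hg'
    simp only [Equiv.Perm.mul_apply] at h4
    rw [← h4]
    exact ⟨fun h => (g : Equiv.Perm GolayPt).injective h, fun h => by rw [h]⟩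
  refine exists_hol 3 ((ST o).subgroupOf M24) ((FX o).subgroupOf M24) ((SP o p).subgroupOf M24) hea hcU hnorm ?_ ?_ ?_ hfaith
    (full_of_card 3 ((ST o).subgroupOf M24) ((FX o).subgroupOf M24) ((SP o p).subgroupOf M24) hea hcU hnorm ?_ hfaith ?_) hcen hzU hz
  · exact fun x hx => hSPST hx
  · rw [eq_bot_iff]
    intro x hx
    have h1 : (x : Equiv.Perm GolayPt) ∈ FX o ⊓ SP o p := ⟨hx.1, hx.2⟩
    rw [fixing_inf ho hp, mem_bot] at h1
    rw [mem_bot]; exact Subtype.ext h1
  · rw [← Subgroup.subgroupOf_sup (inf_le_left : FX o ≤ M24) ((inf_le_left.trans inf_le_left) : SP o p ≤ M24), fixing_sup ho hp]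
  · exact fun x hx => hSPST hx
  · rw [hcM]
    decide

end

end Cfsg.Agent.H28.Hol
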