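import Mathlib
import Cfsg.Agent.H7_L1

set_option autoImplicit false

namespace Cfsg.Agent.H28.L1

open Cfsg Cfsg.Agent.H7.L1

theorem sqNorm_two (z : GolayPt → ℤ) : sqNorm ((2 : ℤ) • z) = 4 * sqNorm z := by
  unfold sqNorm
  rw [Finset.mul_sum]
  apply Finset.sum_congr rfl
  intro i _
  rw [Pi.smul_apply, smul_eq_mul]
  ring

/-- short vectors congruent modulo twice the lattice -/
theorem short_cong {x y : GolayPt → ℤ} (hx : x ∈ leechLattice) (hy : y ∈ leechLattice) (hxy : x ≠ y)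
    (hxn : sqNorm x ≤ 64) (hyn : sqNorm y ≤ 64) (hc : ∃ z ∈ leechLattice, x - y = (2 : ℤ) • z) :
    x = -y ∨ (sqNorm x = 64 ∧ sqNorm y = 64 ∧ dotInt x y = 0) := by
  obtain ⟨z, hz, hc⟩ := hc
  by_cases hn : x = -y
  · exact Or.inl hn
  right
  have hz0 : z ≠ 0 := by
    rintro rfl
    rw [smul_zero, sub_eq_zero] at hc
    exact hxy hc
  have hz' : z + y ∈ leechLattice := leechLattice.add_mem hz hy
  have hc' : x + y = (2 : ℤ) • (z + y) := by
    rw [smul_add, ← hc, two_smul]
    abel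
  have hz0' : z + y ≠ 0 := by
    intro h
    rw [h, smul_zero] at hc'
    exact hn (eq_neg_of_add_eq_zero_left hc')
  have h1 := min_norm hz hz0
  have h2 := min_norm hz' hz0'
  have h3 := sqNorm_two z
  have h4 := sqNorm_two (z + y)
  rw [← hc, sqNorm_sub] at h3
  rw [← hc', sqNorm_add] at h4
  refine ⟨by omega, by omega, by omega⟩

end Cfsg.Agent.H28.L1
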