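import Mathlib
import Cfsg.Agent.H28_Large
import Cfsg.Agent.H28_D8
import Cfsg.Agent.H13_Syl
import Cfsg.Agent.H11_FStar
import Cfsg.Agent.H11_Local
import Cfsg.Agent.H11_Bal3
import Cfsg.Agent.H1_Fpf
import Cfsg.Agent.S0542
import Cfsg.Agent.H17_PC

/-! The generalized Fitting subgroup of a group with a large extraspecial 2-subgroup. -/

set_option autoImplicit false
set_option linter.all false

namespace Cfsg.Agent.H28.LF

universe u
open Subgroup Cfsg Cfsg.Agent.H28.Xsp Cfsg.Agent.H28.Large Cfsg.Agent.H11.Components Cfsg.Agent.H11.FStar Cfsg.Agent.H11.Cores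

/-- in a non-abelian simple group no involution is self-centralizing. -/
theorem not_self_cent {H : Type u} [Group H] [Finite H] [IsSimpleGroup H] (hH : ¬ IsMulCommutative H) {t : H}
    (ht : t * t = 1) (ht1 : t ≠ 1) (hc : ∀ c : H, c * t = t * c → c = 1 ∨ c = t) : False := by
  have := Fact.mk Nat.prime_two
  have hord : orderOf t = 2 := orderOf_eq_prime (by rw [pow_two, ht]) ht1
  have hp : IsPGroup 2 (Subgroup.zpowers t) := IsPGroup.of_card (n := 1) (by rw [Nat.card_zpowers, hord, pow_one])
  obtain ⟨T, hT⟩ := hp.exists_le_sylow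
  have htT : t ∈ (T : Subgroup H) := hT (Subgroup.mem_zpowers t)
  obtain ⟨x, hx, hx1, -, hxc⟩ := H17.PC.exists_central (p := 2) (T := (T : Subgroup H)) (R := (T : Subgroup H)) T.isPGroup'
    (by intro h0; rw [h0, Subgroup.mem_bot] at htT; exact ht1 htT) le_rfl le_normalizer
  have hxt : x = t := by
    rcases hc x (hxc t htT).symm with h | h
    · exact absurd h hx1
    · exact h
  subst hxt
  have hiso : ∀ g : H, g * x * g⁻¹ ∈ T → g * x * g⁻¹ = x := by
    intro g hg
    rcases hc _ (hxc _ hg) with h | h
    · exfalso; apply ht1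
      have : x = g⁻¹ * (g * x * g⁻¹) * g := by group
      rw [this, h]; group
    · exact h
  obtain ⟨N, hNn, hodd, hN2⟩ := Cfsg.Agent.S0215.result T x hord htT hiso
  rcases hNn.eq_bot_or_eq_top with h | h
  · have hxc : x ∈ Subgroup.center H := by
      rw [Subgroup.mem_center_iff]
      intro g
      have := hN2 g
      rw [h, Subgroup.mem_bot] at this
      have h2 : x * g = g * x := by
        calc x * g = (x * g * x⁻¹ * g⁻¹) * (g * x) := by group
          _ = g * x := by rw [this, one_mul]
      exact h2.symm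
    rcases (inferInstance : (Subgroup.center H).Normal).eq_bot_or_eq_top with h' | h'
    · rw [h', Subgroup.mem_bot] at hxc; exact ht1 hxc
    · apply hH
      exact ⟨⟨fun x y => by
        have : y ∈ Subgroup.center H := by rw [h']; exact Subgroup.mem_top y
        exact (Subgroup.mem_center_iff.mp this x)⟩⟩
  · rw [h, Subgroup.card_top] at hodd
    have : orderOf x ∣ Nat.card H := orderOf_dvd_natCard x
    rw [hord] at this
    exact (Nat.not_even_iff_odd.mpr hodd) (even_iff_two_dvd.mpr this)

variable {G : Type u} [Group G] [Finite G] {Q : Subgroup G} {z : G}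

theorem mem_of_inv (h : Pre Q z) (hodd : ∀ K : Subgroup G, Odd (Nat.card K) → Q ≤ normalizer (K : Set G) → K = ⊥)
    {P : Subgroup G} (hP : P ≠ ⊥) (hQP : Q ≤ normalizer (P : Set G)) : z ∈ P := by
  have := Fact.mk Nat.prime_two
  obtain ⟨T, hQT, hT⟩ := H13.Syl.exists_isSylIn_ge (p := 2) (A := Q) (H := P ⊔ Q) h.isPGroup le_sup_right
  have hn : P ⊔ Q ≤ normalizer (P : Set G) := sup_le le_normalizer hQP
  have hS := hT.inf_of_le_normalizer le_sup_left hn
  have hne : T ⊓ P ≠ ⊥ := by
    intro h0
    apply hP; apply hodd P _ hQP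
    have := hS.not_dvd
    rw [h0, relIndex_bot_left] at this
    rw [← Nat.not_even_iff_odd, even_iff_two_dvd]; exact this
  have h1 := H1.Fpf.inf_centralizer_ne_bot (p := 2) (P := Q) (V := T ⊓ P) h.isPGroup hS.isPGroup hne
    ((le_inf (hQT.trans le_normalizer) hQP).trans inf_normalizer_le_normalizer_inf)
  obtain ⟨x, hx, hx1⟩ : ∃ x ∈ (T ⊓ P) ⊓ centralizer (Q : Set G), x ≠ 1 := by
    by_contra hcon
    push Not at hcon
    exact h1 ((eq_bot_iff_forall _).mpr hcon)
  have h2 : x ∈ centralizer (Q : Set G) := hx.2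
  rw [h.cent, mem_zpowers_of_sq h.sq] at h2
  rcases h2 with h2 | h2
  · exact absurd h2 hx1
  · rw [← h2]; exact hx.1.2

theorem not_cent (h : Pre Q z) {L : Subgroup G} (hL : IsComponent L) : ¬ ∀ x ∈ L, x * z = z * x := by
  intro hc
  have := Fact.mk Nat.prime_two
  have hn : L ≤ normalizer (Q : Set G) := fun x hx => h.norm (mem_centralizer_singleton_iff.mpr (hc x hx))
  have hQnil : Group.IsNilpotent Q := h.isPGroup.isNilpotent
  have h1 : ⁅L, Q⁆ = ⊥ := commutator_eq_bot_of_solvable_of_le_normalizer hL (by infer_instance) hn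
  have h2 : L ≤ centralizer (Q : Set G) := (commutator_eq_bot_iff_le_centralizer.mp h1)
  rw [h.cent] at h2
  have h3 : IsPGroup 2 L := h.isPGroup.to_le (h2.trans (by rw [zpowers_le]; exact h.mem))
  have := h3.isNilpotent
  exact not_isSolvable_of_isComponent hL inferInstance

/-- the first alternative: `O_2(G) ≠ 1`. -/
theorem case_core (h : Pre Q z) (hodd : ∀ K : Subgroup G, Odd (Nat.card K) → Q ≤ normalizer (K : Set G) → K = ⊥)
    (hO : pCore 2 G ≠ ⊥) : IsMulCommutative ↥(Subgroup.normalClosure ({z} : Set G)) ∧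
      generalizedFittingSubgroup G = pCore 2 G := by
  have := Fact.mk Nat.prime_two
  have hz : z ∈ pCore 2 G := mem_of_inv h hodd hO (by rw [normalizer_eq_top]; exact le_top)
  have hOp : IsPGroup 2 (pCore 2 G) := pCore_isPGroup 2
  constructor
  · have hne : (center ↥(pCore 2 G)).map (pCore 2 G).subtype ≠ ⊥ := by
      intro h0
      have hnt : Nontrivial ↥(pCore 2 G) := (Subgroup.nontrivial_iff_ne_bot _).mpr hO
      have h1 := hOp.bot_lt_center
      rw [Subgroup.map_eq_bot_iff, Subgroup.ker_subtype, le_bot_iff] at h0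
      exact h1.ne' h0
    have hn : ((center ↥(pCore 2 G)).map (pCore 2 G).subtype).Normal := H11.Cores.map_subtype_normal_of_characteristic _ _
    have hz2 : z ∈ (center ↥(pCore 2 G)).map (pCore 2 G).subtype :=
      mem_of_inv h hodd hne (by rw [normalizer_eq_top]; exact le_top)
    have hle : Subgroup.normalClosure ({z} : Set G) ≤ (center ↥(pCore 2 G)).map (pCore 2 G).subtype := by
      apply Subgroup.normalClosure_le_normal
      rw [Set.singleton_subset_iff]; exact hz2
    refine ⟨⟨fun a b => Subtype.ext ?_⟩⟩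
    obtain ⟨a', ha', ha⟩ := hle a.2
    obtain ⟨b', hb', hb⟩ := hle b.2
    show (a : G) * b = b * a
    rw [← ha, ← hb]
    have := Subgroup.mem_center_iff.mp hb' a'
    exact congrArg Subtype.val this
  · have hpp : pPrimeCore 2 G = ⊥ := by
      apply hodd
      · have := pPrimeCore_coprime 2 (G := G)
        rw [Nat.coprime_comm, Nat.coprime_two_left] at this
        exact this
      · rw [normalizer_eq_top]; exact le_top
    have hlay : layer G = ⊥ := by
      rw [layer_eq_bot_iff_no_component]
      intro K hK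
      apply not_cent h hK
      have hnil : Group.IsNilpotent (pCore 2 G) := hOp.isNilpotent
      have h1 := commutator_eq_bot_of_solvable_of_le_normalizer hK (H := pCore 2 G) (by infer_instance)
        (by rw [normalizer_eq_top]; exact le_top)
      intro x hx
      exact (mem_centralizer_iff.mp ((commutator_eq_bot_iff_le_centralizer.mp h1) hx) z hz).symm
    rw [layer_eq_bot_iff_generalizedFitting.mp hlay, H11.Bal.fitting_eq_pCore 2 hpp]

theorem fit_bot (h : Pre Q z) (hodd : ∀ K : Subgroup G, Odd (Nat.card K) → Q ≤ normalizer (K : Set G) → K = ⊥)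
    (hO : pCore 2 G = ⊥) : fittingSubgroup G = ⊥ := by
  have := Fact.mk Nat.prime_two
  have hpp : pPrimeCore 2 G = ⊥ := by
    apply hodd
    · have := pPrimeCore_coprime 2 (G := G)
      rw [Nat.coprime_comm, Nat.coprime_two_left] at this
      exact this
    · rw [normalizer_eq_top]; exact le_top
  rw [H11.Bal.fitting_eq_pCore 2 hpp, hO]

/-- `L ⊓ C(L) = 1` for a component. -/
theorem inf_cent (hf : fittingSubgroup G = ⊥) {L : Subgroup G} (hL : IsComponent L) : L ⊓ centralizer (L : Set G) = ⊥ := by
  rw [eq_bot_iff]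
  intro x hx
  have h1 : x ∈ centralizer (generalizedFittingSubgroup G : Set G) := by
    have h2 : generalizedFittingSubgroup G = layer G := by
      unfold generalizedFittingSubgroup; rw [hf, sup_bot_eq]
    rw [h2]
    have h3 : layer G ≤ centralizer ({x} : Set G) := by
      rw [layer_le_iff]
      intro K hK
      by_cases hKL : K = L
      · subst hKL
        intro y hy
        rw [mem_centralizer_singleton_iff]
        exact (mem_centralizer_iff.mp hx.2 y hy)
      · have h4 := commutator_eq_bot_iff_le_centralizer.mp (commutator_eq_bot_of_ne hK hL hKL)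
        intro y hy
        rw [mem_centralizer_singleton_iff]
        exact (mem_centralizer_iff.mp (h4 hy) x hx.1).symm
    rw [mem_centralizer_iff]
    intro y hy
    exact mem_centralizer_singleton_iff.mp (h3 hy)
  have h5 := centralizer_generalizedFitting_le_fitting h1
  rwa [hf] at h5

theorem simple_comp (hf : fittingSubgroup G = ⊥) {L : Subgroup G} (hL : IsComponent L) :
    IsSimpleGroup ↥L ∧ ¬ IsMulCommutative ↥L := by
  refine ⟨?_, IsQuasisimple.not_isMulCommutative hL.2⟩
  have hc : center ↥L = ⊥ := by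
    rw [eq_bot_iff]
    intro x hx
    have : (x : G) ∈ L ⊓ centralizer (L : Set G) := by
      refine ⟨x.2, mem_centralizer_iff.mpr ?_⟩
      intro y hy
      exact congrArg Subtype.val (mem_center_iff.mp hx ⟨y, hy⟩)
    rw [inf_cent hf hL, mem_bot] at this
    rw [mem_bot]; exact Subtype.ext this
  have hnt : Nontrivial ↥L := IsQuasisimple.nontrivial hL.2
  refine { eq_bot_or_eq_top_of_normal := ?_ }
  intro N hN
  rcases IsQuasisimple.normal_eq_top_or_le_center hL.2 N with h | h
  · right; exact h
  · left; rw [hc] at h; exact le_bot_iff.mp h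

theorem U (hf : fittingSubgroup G = ⊥) {L : Subgroup G} (hL : IsComponent L) {l l' p p' : G} (hl : l ∈ L) (hl' : l' ∈ L)
    (hp : p ∈ centralizer (L : Set G)) (hp' : p' ∈ centralizer (L : Set G)) (he : l * p = l' * p') : l = l' ∧ p = p' := by
  have h1 : l'⁻¹ * l ∈ L ⊓ centralizer (L : Set G) := by
    refine ⟨L.mul_mem (L.inv_mem hl') hl, ?_⟩
    have : l'⁻¹ * l = p' * p⁻¹ := by
      calc l'⁻¹ * l = l'⁻¹ * (l * p) * p⁻¹ := by group
        _ = l'⁻¹ * (l' * p') * p⁻¹ := by rw [he]
        _ = p' * p⁻¹ := by group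
    rw [this]
    exact (centralizer (L : Set G)).mul_mem hp' ((centralizer (L : Set G)).inv_mem hp)
  rw [inf_cent hf hL, mem_bot] at h1
  have h2 : l = l' := by
    calc l = l' * (l'⁻¹ * l) := by group
      _ = l' := by rw [h1, mul_one]
  refine ⟨h2, ?_⟩
  rw [h2] at he
  exact mul_left_cancel he

theorem layer_le {L : Subgroup G} (hL : IsComponent L) {x : G} (hx : x ∈ layer G) :
    ∃ l ∈ L, ∃ p ∈ centralizer (L : Set G), x = l * p := by
  have hcomm : ∀ (m : L) (n : ↥(centralizer (L : Set G))), Commute (L.subtype m) ((centralizer (L : Set G)).subtype n) := by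
    intro m n
    exact (mem_centralizer_iff.mp n.2 m m.2)
  have h1 : layer G ≤ (MonoidHom.noncommCoprod L.subtype (centralizer (L : Set G)).subtype hcomm).range := by
    rw [layer_le_iff]
    intro K hK
    by_cases hKL : K = L
    · subst hKL
      intro y hy
      exact ⟨(⟨y, hy⟩, 1), by simp [MonoidHom.noncommCoprod_apply]⟩
    · have h4 := commutator_eq_bot_iff_le_centralizer.mp (commutator_eq_bot_of_ne hK hL hKL)
      intro y hy
      exact ⟨(1, ⟨y, h4 hy⟩), by simp [MonoidHom.noncommCoprod_apply]⟩
  obtain ⟨⟨a, b⟩, hab⟩ := h1 hx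
  refine ⟨a, a.2, b, b.2, ?_⟩
  rw [← hab]; simp [MonoidHom.noncommCoprod_apply]

theorem cj_cent {L : Subgroup G} (hL : IsComponent L) {g : G} (hg : g ∉ normalizer (L : Set G)) {l : G} (hl : l ∈ L) :
    g * l * g⁻¹ ∈ centralizer (L : Set G) := by
  have h1 : IsComponent (L.map (MulAut.conj g).toMonoidHom) := (isComponent_map_conj L g).mpr hL
  have h2 : L.map (MulAut.conj g).toMonoidHom ≠ L := by
    intro h0; apply hg
    rw [H13.Syl.mem_normalizer_iff_cj]; exact h0
  have h3 := commutator_eq_bot_iff_le_centralizer.mp (commutator_eq_bot_of_ne h1 hL h2)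
  exact h3 ⟨l, hl, rfl⟩

/-- all components are among two given ones whose product contains `z`. -/
theorem comps (h : Pre Q z) {K L L' : Subgroup G} (hK : IsComponent K) (hL : IsComponent L) (hL' : IsComponent L')
    {a b : G} (ha : a ∈ L) (hb : b ∈ L') (he : z = a * b) : K = L ∨ K = L' := by
  by_contra hcon
  push Not at hcon
  apply not_cent h hK
  have h1 := commutator_eq_bot_iff_le_centralizer.mp (commutator_eq_bot_of_ne hK hL hcon.1)
  have h2 := commutator_eq_bot_iff_le_centralizer.mp (commutator_eq_bot_of_ne hK hL' hcon.2)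
  intro x hx
  have h3 := mem_centralizer_iff.mp (h1 hx) a ha
  have h4 := mem_centralizer_iff.mp (h2 hx) b hb
  rw [he, ← mul_assoc, ← h3, mul_assoc, ← h4, mul_assoc]

theorem closure_eq (h : Pre Q z) (hf : fittingSubgroup G = ⊥) (hzl : z ∈ layer G) :
    Subgroup.normalClosure ({z} : Set G) = generalizedFittingSubgroup G := by
  have h2 : generalizedFittingSubgroup G = layer G := by
    unfold generalizedFittingSubgroup; rw [hf, sup_bot_eq]
  rw [h2]
  have hln : (layer G).Normal := by infer_instance
  apply le_antisymm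
  · apply Subgroup.normalClosure_le_normal
    rw [Set.singleton_subset_iff]; exact hzl
  · rw [layer_le_iff]
    intro K hK
    have hMn : (Subgroup.normalClosure ({z} : Set G)).Normal := Subgroup.normalClosure_normal
    rcases le_or_commutator_eq_bot hK (Subgroup.Normal.isSubnormal hMn) with h3 | h3
    · exact h3
    · exfalso
      apply not_cent h hK
      intro x hx
      exact (mem_centralizer_iff.mp ((commutator_eq_bot_iff_le_centralizer.mp h3) hx) z
        (Subgroup.subset_normalClosure (Set.mem_singleton z))).symm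

end Cfsg.Agent.H28.LF
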