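import Mathlib
import Cfsg.Agent.H28_LF

/-! The generalized Fitting subgroup of a group with a large extraspecial 2-subgroup, part 2. -/

set_option autoImplicit false
set_option linter.all false

namespace Cfsg.Agent.H28.LF

universe u
open Subgroup Cfsg Cfsg.Agent.H28.Xsp Cfsg.Agent.H28.Large Cfsg.Agent.H11.Components Cfsg.Agent.H11.FStar Cfsg.Agent.H11.Cores

variable {G : Type u} [Group G] [Finite G] {Q : Subgroup G} {z : G}

/-- the data in the non-normalized case. -/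
structure Dat (Q : Subgroup G) (z : G) (L : Subgroup G) (u z1 w : G) : Prop where
  pre : Pre Q z
  hf : fittingSubgroup G = ⊥
  hL : IsComponent L
  hu : u ∈ Q
  huL : u ∉ normalizer (L : Set G)
  hz1 : z1 ∈ L
  hw : w ∈ centralizer (L : Set G)
  hz : z = z1 * w
  hzn : z ∈ normalizer (L : Set G)

namespace Dat

variable {L : Subgroup G} {u z1 w : G}

theorem zz1 (D : Dat Q z L u z1 w) : z1 * z = z * z1 := by
  have h1 := mem_centralizer_iff.mp D.hw z1 D.hz1
  rw [D.hz, mul_assoc, ← h1]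

theorem sq (D : Dat Q z L u z1 w) : z1 * z1 = 1 := by
  have h1 := mem_centralizer_iff.mp D.hw z1 D.hz1
  have h2 : (z1 * z1) * (w * w) = 1 * 1 := by
    calc (z1 * z1) * (w * w) = z1 * (z1 * w) * w := by group
      _ = z1 * (w * z1) * w := by rw [h1]
      _ = (z1 * w) * (z1 * w) := by group
      _ = 1 * 1 := by rw [← D.hz, D.pre.sq, one_mul]
  exact (U D.hf D.hL (L.mul_mem D.hz1 D.hz1) (one_mem _) ((centralizer (L : Set G)).mul_mem D.hw D.hw) (one_mem _) h2).1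

theorem ne (D : Dat Q z L u z1 w) : z1 ≠ 1 := by
  intro h1
  apply not_cent D.pre D.hL
  have h2 := D.hw
  rw [show w = z by rw [D.hz, h1, one_mul]] at h2
  exact fun x hx => mem_centralizer_iff.mp h2 x hx

theorem cent_conj {L : Subgroup G} {q w : G} (hq : q ∈ normalizer (L : Set G)) (hw : w ∈ centralizer (L : Set G)) :
    q * w * q⁻¹ ∈ centralizer (L : Set G) := by
  rw [mem_centralizer_iff]
  intro l hl
  have h1 : q⁻¹ * l * q ∈ L := by
    have := (mem_normalizer_iff.mp hq (q⁻¹ * l * q)).mpr (by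
      have : q * (q⁻¹ * l * q) * q⁻¹ = l := by group
      rw [this]; exact hl)
    exact this
  have h2 := mem_centralizer_iff.mp hw _ h1
  calc l * (q * w * q⁻¹) = q * ((q⁻¹ * l * q) * w) * q⁻¹ := by group
    _ = q * (w * (q⁻¹ * l * q)) * q⁻¹ := by rw [h2]
    _ = q * w * q⁻¹ * l := by group

theorem fix (D : Dat Q z L u z1 w) {q : G} (hq : q ∈ normalizer (L : Set G)) (hqz : q * z = z * q) : q * z1 * q⁻¹ = z1 := by
  have h1 : q * z1 * q⁻¹ ∈ L := (mem_normalizer_iff.mp hq z1).mp D.hz1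
  have h3 : (q * z1 * q⁻¹) * (q * w * q⁻¹) = z1 * w := by
    calc (q * z1 * q⁻¹) * (q * w * q⁻¹) = q * (z1 * w) * q⁻¹ := by group
      _ = q * z * q⁻¹ := by rw [D.hz]
      _ = z := by rw [hqz, mul_inv_cancel_right]
      _ = z1 * w := D.hz
  exact (U D.hf D.hL h1 D.hz1 (cent_conj hq D.hw) D.hw h3).1

theorem uc (D : Dat Q z L u z1 w) {l : G} (hl : l ∈ L) : u * l * u⁻¹ ∈ centralizer (L : Set G) :=
  cj_cent D.hL D.huL hl

theorem y_mem (D : Dat Q z L u z1 w) {c : G} (hc : c * z = z * c) : c⁻¹ * (u * c * u⁻¹) ∈ Q := by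
  have h1 : c⁻¹ * z = z * c⁻¹ := by
    calc c⁻¹ * z = c⁻¹ * (z * c) * c⁻¹ := by group
      _ = c⁻¹ * (c * z) * c⁻¹ := by rw [hc]
      _ = z * c⁻¹ := by group
  have h2 := D.pre.conj_mem_of_comm h1 D.hu
  have h3 : c⁻¹ * (u * c * u⁻¹) = (c⁻¹ * u * c⁻¹⁻¹) * u⁻¹ := by group
  rw [h3]
  exact Q.mul_mem h2 (Q.inv_mem D.hu)

theorem w1_mem (D : Dat Q z L u z1 w) : z1 * (u * z1 * u⁻¹) ∈ Q := by
  have := D.y_mem D.zz1
  rwa [show z1⁻¹ = z1 from inv_eq_of_mul_eq_one_left D.sq] at this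

theorem qz (D : Dat Q z L u z1 w) {q : G} (hq : q ∈ Q) : q * z = z * q := (D.pre.zc q hq).symm

theorem zq (D : Dat Q z L u z1 w) {q : G} : z * q ∈ normalizer (L : Set G) ↔ q ∈ normalizer (L : Set G) := by
  constructor
  · intro h
    have := (normalizer (L : Set G)).mul_mem ((normalizer (L : Set G)).inv_mem D.hzn) h
    rwa [inv_mul_cancel_left] at this
  · intro h; exact (normalizer (L : Set G)).mul_mem D.hzn h

/-- in an extraspecial group `a⁻¹b ∈ {ba, zba}`. -/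
theorem inv_mul (h : Pre Q z) {a b : G} (ha : a ∈ Q) (hb : b ∈ Q) : a⁻¹ * b = b * a ∨ a⁻¹ * b = z * (b * a) := by
  have hai : a⁻¹ = a ∨ a⁻¹ = z * a := by
    rcases h.sqr a ha with h1 | h1
    · left; exact inv_eq_of_mul_eq_one_left h1
    · right
      apply inv_eq_of_mul_eq_one_left
      rw [mul_assoc, h1, h.sq]
  have hzz : ∀ x : G, z * (z * x) = x := fun x => by rw [← mul_assoc, h.sq, one_mul]
  rcases hai with h1 | h1 <;> rcases h.comm a ha b hb with h2 | h2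
  · left; rw [h1, h2]
  · right; rw [h1, h2]
  · right; rw [h1, mul_assoc, h2]
  · left; rw [h1, mul_assoc, h2, hzz]

/-- `z = z₁ · u z₁ u⁻¹`. -/
theorem key (D : Dat Q z L u z1 w) : z = z1 * (u * z1 * u⁻¹) := by
  have hsimp := simple_comp D.hf D.hL
  have h := D.pre
  by_contra hne
  have hzz : ∀ x : G, z * (z * x) = x := fun x => by rw [← mul_assoc, h.sq, one_mul]
  set w1 := z1 * (u * z1 * u⁻¹) with hw1
  have hwQ : w1 ∈ Q := D.w1_mem
  have hcomm : (u * z1 * u⁻¹) * z1 = z1 * (u * z1 * u⁻¹) := (mem_centralizer_iff.mp (D.uc D.hz1) z1 D.hz1).symm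
  have hw11 : w1 ≠ 1 := by
    intro h0
    apply D.ne
    exact (U D.hf D.hL D.hz1 (one_mem _) (D.uc D.hz1) (one_mem _) (by rw [← hw1, h0, one_mul])).1
  obtain ⟨v, hv, hvne⟩ := h.exists_not_comm hwQ hw11 (fun h0 => hne h0.symm)
  -- (va)
  have hva : v ∉ normalizer (L : Set G) := by
    intro hvn
    have h1 := D.fix hvn (D.qz hv)
    have hq : u⁻¹ * v * u ∈ Q := Q.mul_mem (Q.mul_mem (Q.inv_mem D.hu) hv) D.hu
    have h2 : u⁻¹ * v * u ∈ normalizer (L : Set G) := by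
      have := h.conj_eq (Q.inv_mem D.hu) hv
      rw [inv_inv] at this
      rcases this with h3 | h3
      · rw [h3]; exact hvn
      · rw [h3, D.zq]; exact hvn
    have h3 := D.fix h2 (D.qz hq)
    apply hvne
    have h4 : v * w1 * v⁻¹ = w1 := by
      calc v * w1 * v⁻¹ = (v * z1 * v⁻¹) * (u * ((u⁻¹ * v * u) * z1 * (u⁻¹ * v * u)⁻¹) * u⁻¹) := by rw [hw1]; group
        _ = w1 := by rw [h1, h3]
    calc w1 * v = v * w1 * v⁻¹ * v := by rw [h4]
      _ = v * w1 := by group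
  -- (vb)
  have hvb : u⁻¹ * v ∉ normalizer (L : Set G) := by
    intro hqn
    have hqQ : u⁻¹ * v ∈ Q := Q.mul_mem (Q.inv_mem D.hu) hv
    have h1 := D.fix hqn (D.qz hqQ)
    have h2 : v * z1 * v⁻¹ = u * z1 * u⁻¹ := by
      calc v * z1 * v⁻¹ = u * ((u⁻¹ * v) * z1 * (u⁻¹ * v)⁻¹) * u⁻¹ := by group
        _ = u * z1 * u⁻¹ := by rw [h1]
    have h3 : v * (u * z1 * u⁻¹) * v⁻¹ = z1 := by
      -- v u = u (q u),  q u = u q or z u q
      have huu : ∀ x : G, x * z = z * x → (u * u) * x * (u * u)⁻¹ = x := by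
        intro x hx
        rcases h.sqr u D.hu with h5 | h5
        · rw [h5]; group
        · rw [h5, ← hx, mul_inv_cancel_right]
      rcases h.comm _ hqQ u D.hu with h4 | h4
      · calc v * (u * z1 * u⁻¹) * v⁻¹ = u * (u⁻¹ * v * u) * z1 * (u * (u⁻¹ * v * u))⁻¹ := by group
          _ = u * (u * (u⁻¹ * v)) * z1 * (u * (u * (u⁻¹ * v)))⁻¹ := by rw [h4]
          _ = (u * u) * ((u⁻¹ * v) * z1 * (u⁻¹ * v)⁻¹) * (u * u)⁻¹ := by group
          _ = (u * u) * z1 * (u * u)⁻¹ := by rw [h1]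
          _ = z1 := huu z1 D.zz1
      · calc v * (u * z1 * u⁻¹) * v⁻¹ = u * (u⁻¹ * v * u) * z1 * (u * (u⁻¹ * v * u))⁻¹ := by group
          _ = u * (z * (u * (u⁻¹ * v))) * z1 * (u * (z * (u * (u⁻¹ * v))))⁻¹ := by rw [h4]
          _ = (u * z) * u * ((u⁻¹ * v) * z1 * (u⁻¹ * v)⁻¹) * ((u * z) * u)⁻¹ := by group
          _ = (z * u) * u * z1 * ((z * u) * u)⁻¹ := by rw [h1, D.qz D.hu]
          _ = z * ((u * u) * z1 * (u * u)⁻¹) * z⁻¹ := by group
          _ = z1 := by rw [huu z1 D.zz1, ← D.zz1, mul_inv_cancel_right]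
    apply hvne
    have h4 : v * w1 * v⁻¹ = w1 := by
      calc v * w1 * v⁻¹ = (v * z1 * v⁻¹) * (v * (u * z1 * u⁻¹) * v⁻¹) := by rw [hw1]; group
        _ = (u * z1 * u⁻¹) * z1 := by rw [h2, h3]
        _ = w1 := by rw [hcomm]
    calc w1 * v = v * w1 * v⁻¹ * v := by rw [h4]
      _ = v * w1 := by group
  -- (vc)
  have hvc : v * u ∉ normalizer (L : Set G) := by
    intro h1
    apply hvb
    rcases inv_mul h D.hu hv with h2 | h2
    · rw [h2]; exact h1
    · rw [h2, D.zq]; exact h1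
  -- the contradiction
  have hfin : ∀ c ∈ L, c * z = z * c → c = 1 ∨ c = z1 := by
    intro c hc hcz
    have hy := D.y_mem hcz
    have hvy : v * (c⁻¹ * (u * c * u⁻¹)) * v⁻¹ ∈ centralizer (L : Set G) := by
      have : v * (c⁻¹ * (u * c * u⁻¹)) * v⁻¹ = (v * c⁻¹ * v⁻¹) * ((v * u) * c * (v * u)⁻¹) := by group
      rw [this]
      exact (centralizer (L : Set G)).mul_mem (cj_cent D.hL hva (L.inv_mem hc)) (cj_cent D.hL hvc hc)
    rcases h.conj_eq hv hy with h1 | h1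
    · left
      have h2 := (U D.hf D.hL (one_mem L) (L.inv_mem hc) hvy (D.uc hc) (by rw [one_mul, h1])).1
      exact (inv_eq_one.mp h2.symm)
    · right
      have hwc : w * c⁻¹ = c⁻¹ * w := (mem_centralizer_iff.mp D.hw _ (L.inv_mem hc)).symm
      have h2 := (U D.hf D.hL (one_mem L) (L.mul_mem D.hz1 (L.inv_mem hc)) hvy
        ((centralizer (L : Set G)).mul_mem D.hw (D.uc hc)) (by
          rw [one_mul, h1, D.hz]
          calc z1 * w * (c⁻¹ * (u * c * u⁻¹)) = z1 * (w * c⁻¹) * (u * c * u⁻¹) := by group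
            _ = z1 * (c⁻¹ * w) * (u * c * u⁻¹) := by rw [hwc]
            _ = z1 * c⁻¹ * (w * (u * c * u⁻¹)) := by group)).1
      exact (mul_inv_eq_one.mp h2.symm).symm
  have := hsimp.1
  refine not_self_cent (H := ↥L) hsimp.2 (t := ⟨z1, D.hz1⟩) (Subtype.ext D.sq) (fun h0 => D.ne (congrArg Subtype.val h0)) ?_
  intro c hc
  have hc' : (c : G) * z1 = z1 * c := congrArg Subtype.val hc
  have hwc : w * c = c * w := (mem_centralizer_iff.mp D.hw _ c.2).symm
  have hcz : (c : G) * z = z * c := by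
    rw [D.hz, ← mul_assoc, hc', mul_assoc, ← hwc, mul_assoc]
  rcases hfin c c.2 hcz with h1 | h1
  · left; exact Subtype.ext h1
  · right; exact Subtype.ext h1

theorem cz_iff (D : Dat Q z L u z1 w) {c : G} (hc : c ∈ L) : c * z = z * c ↔ c * z1 = z1 * c := by
  constructor
  · intro h
    have := D.fix (le_normalizer hc) h
    calc c * z1 = c * z1 * c⁻¹ * c := by group
      _ = z1 * c := by rw [this]
  · intro hc'
    have hwc : w * c = c * w := (mem_centralizer_iff.mp D.hw _ hc).symm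
    rw [D.hz, ← mul_assoc, hc', mul_assoc, ← hwc, mul_assoc]

/-- squares in `C_L(z)`. -/
theorem csq (D : Dat Q z L u z1 w) {c : G} (hc : c ∈ L) (hcz : c * z = z * c) : c * c = 1 ∨ c * c = z1 := by
  have hz1i : z1⁻¹ = z1 := inv_eq_of_mul_eq_one_left D.sq
  have hy := D.y_mem hcz
  have huc := D.uc hc
  have hcomm := mem_centralizer_iff.mp huc _ (L.inv_mem hc)
  have e : (c⁻¹ * (u * c * u⁻¹)) * (c⁻¹ * (u * c * u⁻¹)) = (c⁻¹ * c⁻¹) * ((u * c * u⁻¹) * (u * c * u⁻¹)) := by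
    calc (c⁻¹ * (u * c * u⁻¹)) * (c⁻¹ * (u * c * u⁻¹)) = c⁻¹ * ((u * c * u⁻¹) * c⁻¹) * (u * c * u⁻¹) := by group
      _ = c⁻¹ * (c⁻¹ * (u * c * u⁻¹)) * (u * c * u⁻¹) := by rw [hcomm]
      _ = _ := by group
  have hmul := (centralizer (L : Set G)).mul_mem huc huc
  rcases D.pre.sqr _ hy with h1 | h1
  · left
    rw [e] at h1
    have := (U D.hf D.hL (L.mul_mem (L.inv_mem hc) (L.inv_mem hc)) (one_mem _) hmul (one_mem _) (by rw [h1, one_mul])).1
    rw [← mul_inv_rev, inv_eq_one] at this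
    exact this
  · right
    rw [e, D.hz] at h1
    have := (U D.hf D.hL (L.mul_mem (L.inv_mem hc) (L.inv_mem hc)) D.hz1 hmul D.hw h1).1
    rw [← mul_inv_rev, inv_eq_iff_eq_inv, hz1i] at this
    exact this

end Dat

end Cfsg.Agent.H28.LF
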