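import Mathlib
import Cfsg.Agent.H28_LF2
import Cfsg.Agent.H1_Frattini

/-! The generalized Fitting subgroup of a group with a large extraspecial 2-subgroup, part 3. -/

set_option autoImplicit false
set_option linter.all false

namespace Cfsg.Agent.H28.LF

universe u
open Subgroup Cfsg Cfsg.Agent.H28.Xsp Cfsg.Agent.H28.Large Cfsg.Agent.H11.Components Cfsg.Agent.H11.FStar Cfsg.Agent.H11.Cores

variable {G : Type u} [Group G] [Finite G] {Q : Subgroup G} {z : G}

theorem frat_le_of_sq {R : Type u} [Group R] [Finite R] (N : Subgroup R) [N.Normal] (h : ∀ x : R, x * x ∈ N) : frattini R ≤ N := by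
  have := Fact.mk Nat.prime_two
  apply H1.Frattini.frattini_le_of_elementary (p := 2) N
  · rw [← Subgroup.Normal.quotient_commutative_iff_commutator_le]
    refine ⟨⟨fun a b => ?_⟩⟩
    have h2 : ∀ a : R ⧸ N, a * a = 1 := by
      intro a
      obtain ⟨a, rfl⟩ := QuotientGroup.mk_surjective a
      rw [← QuotientGroup.mk_mul, QuotientGroup.eq_one_iff]; exact h a
    have hi : ∀ a : R ⧸ N, a⁻¹ = a := fun a => inv_eq_of_mul_eq_one_left (h2 a)
    calc a * b = (a * b)⁻¹ := (hi _).symm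
      _ = b⁻¹ * a⁻¹ := mul_inv_rev _ _
      _ = b * a := by rw [hi, hi]
  · intro x; rw [pow_two]; exact h x

/-- `z` is central in each 2-subgroup above `Q`. -/
theorem central_above (h : Pre Q z) {T : Subgroup G} (hT : IsPGroup 2 T) (hQT : Q ≤ T) : ∀ t ∈ T, t * z = z * t := by
  have := Fact.mk Nat.prime_two
  have hT1 : T ≠ ⊥ := by
    intro h0
    have := hQT h.mem
    rw [h0, mem_bot] at this
    exact h.ne this
  obtain ⟨x, hx, hx1, -, hxc⟩ := H17.PC.exists_central (p := 2) (T := T) (R := T) hT hT1 le_rfl le_normalizer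
  have h2 : x ∈ centralizer (Q : Set G) := by
    rw [mem_centralizer_iff]
    intro q hq
    exact hxc q (hQT hq)
  rw [h.cent, mem_zpowers_of_sq h.sq] at h2
  rcases h2 with h2 | h2
  · exact absurd h2 hx1
  · rw [← h2]; exact hxc

namespace Dat

variable {L : Subgroup G} {u z1 w : G}

theorem sylow (D : Dat Q z L u z1 w) : ∃ R : Sylow 2 ↥L, (R : Subgroup ↥L) = (centralizer ({z1} : Set G)).subgroupOf L ∧
    (frattini ↥(R : Subgroup ↥L)).map ((L.subtype).comp (R : Subgroup ↥L).subtype) ≤ Subgroup.zpowers z1 := by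
  have := Fact.mk Nat.prime_two
  obtain ⟨T, hQT⟩ := D.pre.isPGroup.exists_le_sylow
  obtain ⟨R, hR⟩ := Cfsg.Agent.S0542.result 2 L D.hL.1 T
  have hpg : IsPGroup 2 ↥((centralizer ({z1} : Set G)).subgroupOf L) := by
    intro x
    refine ⟨2, ?_⟩
    have hx : (x : ↥L) ∈ (centralizer ({z1} : Set G)).subgroupOf L := x.2
    rw [mem_subgroupOf, mem_centralizer_singleton_iff] at hx
    have h1 := D.csq (x : ↥L).2 ((D.cz_iff (x : ↥L).2).mpr hx)
    apply Subtype.ext
    apply Subtype.ext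
    show ((x : ↥L) : G) ^ (2 ^ 2) = 1
    have e : ((x : ↥L) : G) ^ (2 ^ 2) = (((x : ↥L) : G) * ((x : ↥L) : G)) * (((x : ↥L) : G) * ((x : ↥L) : G)) := by
      rw [← pow_two, ← pow_two, ← pow_mul]; norm_num
    rw [e]
    rcases h1 with h1 | h1
    · rw [h1, one_mul]
    · rw [h1, D.sq]
  have hRle : (R : Subgroup ↥L) ≤ (centralizer ({z1} : Set G)).subgroupOf L := by
    intro x hx
    rw [hR, mem_subgroupOf] at hx
    rw [mem_subgroupOf, mem_centralizer_singleton_iff]
    exact (D.cz_iff x.2).mp (central_above D.pre T.isPGroup' hQT x hx)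
  have hReq : (R : Subgroup ↥L) = (centralizer ({z1} : Set G)).subgroupOf L := (R.is_maximal' hpg hRle).symm
  refine ⟨R, hReq, ?_⟩
  have hz1L : z1 ∈ L := D.hz1
  -- N = ⟨z1⟩ inside R
  set N : Subgroup ↥(R : Subgroup ↥L) := (Subgroup.zpowers z1).comap ((L.subtype).comp (R : Subgroup ↥L).subtype) with hN
  have hmemN : ∀ x : ↥(R : Subgroup ↥L), x ∈ N ↔ (((x : ↥L) : G) = 1 ∨ ((x : ↥L) : G) = z1) := by
    intro x
    rw [hN, mem_comap, mem_zpowers_of_sq D.sq]
    rfl
  have hRc : ∀ x : ↥(R : Subgroup ↥L), ((x : ↥L) : G) * z1 = z1 * ((x : ↥L) : G) := by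
    intro x
    have hx : (x : ↥L) ∈ (R : Subgroup ↥L) := x.2
    have hx2 := hRle hx
    rw [mem_subgroupOf, mem_centralizer_singleton_iff] at hx2
    exact hx2
  have hNn : N.Normal := by
    refine ⟨fun n hn g => ?_⟩
    rw [hmemN] at hn ⊢
    rcases hn with h1 | h1
    · left
      show ((g : ↥L) : G) * ((n : ↥L) : G) * ((g : ↥L) : G)⁻¹ = 1
      rw [h1, mul_one, mul_inv_cancel]
    · right
      show ((g : ↥L) : G) * ((n : ↥L) : G) * ((g : ↥L) : G)⁻¹ = z1
      rw [h1, hRc, mul_inv_cancel_right]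
  have hle := frat_le_of_sq N (by
    intro x
    rw [hmemN]
    exact D.csq (x : ↥L).2 ((D.cz_iff (x : ↥L).2).mpr (hRc x)))
  exact (Subgroup.map_mono hle).trans (Subgroup.map_comap_le _ _)

theorem z_notMem (D : Dat Q z L u z1 w) : z ∉ L := by
  intro hz
  have hk := D.key
  have h1 := (U D.hf D.hL hz D.hz1 (one_mem _) (D.uc D.hz1) (by rw [mul_one]; exact hk)).2
  apply D.ne
  have : z1 = u⁻¹ * (u * z1 * u⁻¹) * u := by group
  rw [this, ← h1]; group

/-- `C_E(z)` -/
theorem ne_core (D : Dat Q z L u z1 w) :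
    Q ≠ (Cfsg.pCore 2 ↥(Subgroup.centralizer ({z} : Set G))).map (Subgroup.centralizer ({z} : Set G)).subtype := by
  intro hQ
  have := Fact.mk Nat.prime_two
  have h := D.pre
  have hk := D.key
  set Lu := L.map (MulAut.conj u).toMonoidHom with hLu
  have hLuc : IsComponent Lu := (isComponent_map_conj L u).mpr D.hL
  have hmemLu : ∀ l ∈ L, u * l * u⁻¹ ∈ Lu := fun l hl => ⟨l, hl, rfl⟩
  have hall : ∀ K : Subgroup G, IsComponent K → K = L ∨ K = Lu := fun K hK =>
    comps h hK D.hL hLuc D.hz1 (hmemLu z1 D.hz1) hk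
  have hLuC : Lu ≤ centralizer (L : Set G) := by
    rintro _ ⟨l, hl, rfl⟩
    exact D.uc hl
  -- elements of the layer
  have hlay : ∀ e ∈ layer G, ∃ a ∈ L, ∃ b ∈ L, e = a * (u * b * u⁻¹) := by
    intro e he
    have hcomm : ∀ (m : L) (n : Lu), Commute (L.subtype m) (Lu.subtype n) := by
      intro m n
      exact (mem_centralizer_iff.mp (hLuC n.2) m m.2)
    have h1 : layer G ≤ (MonoidHom.noncommCoprod L.subtype Lu.subtype hcomm).range := by
      rw [layer_le_iff]
      intro K hK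
      rcases hall K hK with rfl | rfl
      · intro y hy
        exact ⟨(⟨y, hy⟩, 1), by simp [MonoidHom.noncommCoprod_apply]⟩
      · intro y hy
        exact ⟨(1, ⟨y, hy⟩), by simp [MonoidHom.noncommCoprod_apply]⟩
    obtain ⟨⟨a, b⟩, hab⟩ := h1 he
    obtain ⟨b', hb', hb⟩ := b.2
    refine ⟨a, a.2, b', hb', ?_⟩
    rw [← hab]
    show (a : G) * (b : G) = _
    rw [← hb]; rfl
  have hX : IsPGroup 2 ↥(layer G ⊓ centralizer ({z} : Set G)) := by
    intro x
    refine ⟨2, Subtype.ext ?_⟩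
    show (x : G) ^ (2 ^ 2) = 1
    obtain ⟨a, ha, b, hb, hab⟩ := hlay x x.2.1
    have hxz : (x : G) * z = z * x := mem_centralizer_singleton_iff.mp x.2.2
    have hcb : (u * b * u⁻¹) * a = a * (u * b * u⁻¹) := (mem_centralizer_iff.mp (D.uc hb) a ha).symm
    have hcz1 : (u * b * u⁻¹) * z1 = z1 * (u * b * u⁻¹) := (mem_centralizer_iff.mp (D.uc hb) z1 D.hz1).symm
    have hca : (u * z1 * u⁻¹) * a = a * (u * z1 * u⁻¹) := (mem_centralizer_iff.mp (D.uc D.hz1) a ha).symm
    -- x z = a z1 * (u b z1 u⁻¹),  z x = z1 a * (u z1 b u⁻¹)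
    have e1 : (a * z1) * (u * (b * z1) * u⁻¹) = (z1 * a) * (u * (z1 * b) * u⁻¹) := by
      calc (a * z1) * (u * (b * z1) * u⁻¹) = a * (z1 * (u * b * u⁻¹)) * (u * z1 * u⁻¹) := by group
        _ = a * ((u * b * u⁻¹) * z1) * (u * z1 * u⁻¹) := by rw [hcz1]
        _ = (a * (u * b * u⁻¹)) * (z1 * (u * z1 * u⁻¹)) := by group
        _ = x * z := by rw [← hab, ← hk]
        _ = z * x := hxz
        _ = (z1 * (u * z1 * u⁻¹)) * (a * (u * b * u⁻¹)) := by rw [← hab, ← hk]
        _ = z1 * ((u * z1 * u⁻¹) * a) * (u * b * u⁻¹) := by group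
        _ = z1 * (a * (u * z1 * u⁻¹)) * (u * b * u⁻¹) := by rw [hca]
        _ = (z1 * a) * (u * (z1 * b) * u⁻¹) := by group
    obtain ⟨h3, h4⟩ := U D.hf D.hL (L.mul_mem ha D.hz1) (L.mul_mem D.hz1 ha) (D.uc (L.mul_mem hb D.hz1)) (D.uc (L.mul_mem D.hz1 hb)) e1
    have h5 : b * z1 = z1 * b := by simpa using h4
    have ha2 := D.csq ha ((D.cz_iff ha).mpr h3)
    have hb2 := D.csq hb ((D.cz_iff hb).mpr h5)
    have ha4 : (a * a) * (a * a) = 1 := by
      rcases ha2 with h1 | h1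
      · rw [h1, one_mul]
      · rw [h1, D.sq]
    have hb4 : (b * b) * (b * b) = 1 := by
      rcases hb2 with h1 | h1
      · rw [h1, one_mul]
      · rw [h1, D.sq]
    have e : (x : G) ^ (2 ^ 2) = a ^ (2 ^ 2) * (u * b * u⁻¹) ^ (2 ^ 2) := by
      rw [hab]
      exact (show Commute a (u * b * u⁻¹) from hcb.symm).mul_pow _
    rw [e]
    have e2 : a ^ (2 ^ 2) = (a * a) * (a * a) := by rw [← pow_two, ← pow_two, ← pow_mul]; norm_num
    have e3 : (u * b * u⁻¹) ^ (2 ^ 2) = u * ((b * b) * (b * b)) * u⁻¹ := by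
      rw [conj_pow]
      have : b ^ (2 ^ 2) = (b * b) * (b * b) := by rw [← pow_two, ← pow_two, ← pow_mul]; norm_num
      rw [this]
    rw [e2, e3, ha4, hb4]; group
  have hnorm : centralizer ({z} : Set G) ≤ normalizer ((layer G ⊓ centralizer ({z} : Set G) : Subgroup G) : Set G) := by
    refine le_trans (le_inf ?_ le_normalizer) inf_normalizer_le_normalizer_inf
    rw [normalizer_eq_top]; exact le_top
  have hle := H11.Local.le_map_pCore 2 (N := centralizer ({z} : Set G)) inf_le_right hX hnorm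
  rw [← hQ] at hle
  -- C_L(z) ≤ Q
  have hLQ : ∀ a ∈ L, a * z = z * a → a ∈ Q := fun a ha haz =>
    hle ⟨le_layer D.hL ha, mem_centralizer_singleton_iff.mpr haz⟩
  have hsimp := simple_comp D.hf D.hL
  have := hsimp.1
  refine not_self_cent (H := ↥L) hsimp.2 (t := ⟨z1, D.hz1⟩) (Subtype.ext D.sq) (fun h0 => D.ne (congrArg Subtype.val h0)) ?_
  intro c hc
  have hc' : (c : G) * z1 = z1 * c := congrArg Subtype.val hc
  have hcz := (D.cz_iff c.2).mpr hc'
  have hcQ := hLQ c c.2 hcz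
  have hci : (c : G)⁻¹ * z = z * (c : G)⁻¹ := by
    calc (c : G)⁻¹ * z = (c : G)⁻¹ * (z * c) * (c : G)⁻¹ := by group
      _ = (c : G)⁻¹ * (c * z) * (c : G)⁻¹ := by rw [hcz]
      _ = z * (c : G)⁻¹ := by group
  -- [c,u]
  have hcomm := h.conj_eq D.hu (Q.inv_mem hcQ)
  rcases hcomm with h1 | h1
  · -- u c⁻¹ u⁻¹ = c⁻¹
    left
    have h2 := (U D.hf D.hL (one_mem L) (L.inv_mem c.2) (D.uc (L.inv_mem c.2)) (one_mem _) (by rw [one_mul, mul_one, h1])).1
    exact Subtype.ext (inv_eq_one.mp h2.symm)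
  · right
    have h2 := (U D.hf D.hL (one_mem L) (L.mul_mem D.hz1 (L.inv_mem c.2)) (D.uc (L.inv_mem c.2)) (D.uc D.hz1) (by
      rw [one_mul, h1]
      have h3 : (u * z1 * u⁻¹) * (c : G)⁻¹ = (c : G)⁻¹ * (u * z1 * u⁻¹) :=
        (mem_centralizer_iff.mp (D.uc D.hz1) _ (L.inv_mem c.2)).symm
      calc z * (c : G)⁻¹ = z1 * ((u * z1 * u⁻¹) * (c : G)⁻¹) := by rw [← mul_assoc, ← hk]
        _ = z1 * (c : G)⁻¹ * (u * z1 * u⁻¹) := by rw [h3]; group)).1
    exact Subtype.ext (mul_inv_eq_one.mp h2.symm).symm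

end Dat

theorem main (hQ : Cfsg.IsLargeExtraspecial Q)
    (hz : ((Subgroup.center ↥Q).map Q.subtype) = Subgroup.zpowers z) (M : Subgroup G) (hM : M = Subgroup.normalClosure ({z} : Set G)) :
    (IsMulCommutative ↥M ∧ Cfsg.generalizedFittingSubgroup G = Cfsg.pCore 2 G) ∨
      (M = Cfsg.generalizedFittingSubgroup G ∧ IsSimpleGroup ↥M ∧ ¬ IsMulCommutative ↥M) ∨
      (M = Cfsg.generalizedFittingSubgroup G ∧ ∃ (L : Subgroup G) (u : G), u ∈ Q ∧ IsSimpleGroup ↥L ∧ ¬ IsMulCommutative ↥L ∧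
        L ⊓ (L).map (MulAut.conj u).toMonoidHom = ⊥ ∧ (∀ x ∈ L, ∀ y ∈ (L).map (MulAut.conj u).toMonoidHom, x * y = y * x) ∧
        L ⊔ (L).map (MulAut.conj u).toMonoidHom = M ∧ ∃ z₁ ∈ L, z = z₁ * (u * z₁ * u⁻¹) ∧
        (∃ R : Sylow 2 ↥L, (R : Subgroup ↥L) = (Subgroup.centralizer ({z₁} : Set G)).subgroupOf L ∧
          (frattini ↥(R : Subgroup ↥L)).map ((L.subtype).comp (R : Subgroup ↥L).subtype) ≤ Subgroup.zpowers z₁) ∧
        Q ≠ (Cfsg.pCore 2 ↥(Subgroup.centralizer ({z} : Set G))).map (Subgroup.centralizer ({z} : Set G)).subtype) := by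
  obtain ⟨z', h⟩ := Pre.of_large hQ
  have hodd := hQ.2.2.2
  have hzz : z' = z := by
    have h1 := h.center_map
    rw [hz] at h1
    have h2 : z ∈ Subgroup.zpowers z' := by rw [← h1]; exact Subgroup.mem_zpowers z
    have h3 : z' ∈ Subgroup.zpowers z := by rw [h1]; exact Subgroup.mem_zpowers z'
    rw [mem_zpowers_of_sq h.sq] at h2
    rcases h2 with h2 | h2
    · rw [h2, Subgroup.zpowers_one_eq_bot, Subgroup.mem_bot] at h3
      exact absurd h3 h.ne
    · exact h2.symm
  subst hzz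
  by_cases hO : pCore 2 G = ⊥
  swap
  · left
    have := case_core h hodd hO
    rw [hM]; exact this
  right
  have hf := fit_bot h hodd hO
  have hgf : generalizedFittingSubgroup G = layer G := by
    unfold generalizedFittingSubgroup; rw [hf, sup_bot_eq]
  have hlne : layer G ≠ ⊥ := by
    intro h0
    have h1 : centralizer (generalizedFittingSubgroup G : Set G) = ⊤ := by
      rw [hgf, h0, Subgroup.centralizer_eq_top_iff_subset]
      intro x hx
      rw [SetLike.mem_coe, mem_bot] at hx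
      rw [hx]; exact one_mem _
    have h2 := centralizer_generalizedFitting_le_fitting (G := G)
    rw [h1, hf] at h2
    exact h.ne (mem_bot.mp (h2 (mem_top z')))
  have hln : (layer G).Normal := by infer_instance
  have hzl : z' ∈ layer G := mem_of_inv h hodd hlne (by rw [normalizer_eq_top]; exact le_top)
  have hMF := closure_eq h hf hzl
  obtain ⟨L, hL⟩ : ∃ L : Subgroup G, IsComponent L := by
    by_contra hcon
    push Not at hcon
    exact hlne (layer_eq_bot_iff_no_component.mpr hcon)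
  have hsimp := simple_comp hf hL
  by_cases hQL : Q ≤ normalizer (L : Set G)
  · left
    have hzL : z' ∈ L := mem_of_inv h hodd (H11.Components.IsComponent.ne_bot hL) hQL
    have hML : M = L := by
      rw [hM, hMF, hgf]
      apply le_antisymm
      · rw [layer_le_iff]
        intro K hK
        rcases comps h hK hL hL hzL (one_mem L) (by rw [mul_one]) with h1 | h1 <;> rw [h1]
      · exact le_layer hL
    refine ⟨by rw [hM, hMF], ?_, ?_⟩
    · rw [hML]; exact hsimp.1
    · rw [hML]; exact hsimp.2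
  · right
    obtain ⟨u, hu, huL⟩ := SetLike.not_le_iff_exists.mp hQL
    obtain ⟨z1, hz1, w, hw, hzw⟩ := layer_le hL hzl
    have D : Dat Q z' L u z1 w := ⟨h, hf, hL, hu, huL, hz1, hw, hzw, H11.Components.IsComponent.layer_le_normalizer hL hzl⟩
    have hk := D.key
    have hLuC : L.map (MulAut.conj u).toMonoidHom ≤ centralizer (L : Set G) := by
      rintro _ ⟨l, hl, rfl⟩
      exact D.uc hl
    have hLuc : IsComponent (L.map (MulAut.conj u).toMonoidHom) := (isComponent_map_conj L u).mpr hL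
    refine ⟨by rw [hM, hMF], L, u, hu, hsimp.1, hsimp.2, ?_, ?_, ?_, z1, hz1, hk, D.sylow, D.ne_core⟩
    · rw [eq_bot_iff, ← inf_cent hf hL]
      exact inf_le_inf_left _ hLuC
    · intro x hx y hy
      exact mem_centralizer_iff.mp (hLuC hy) x hx
    · rw [hM, hMF, hgf]
      apply le_antisymm
      · exact sup_le (le_layer hL) (le_layer hLuc)
      · rw [layer_le_iff]
        intro K hK
        rcases comps h hK hL hLuc hz1 ⟨z1, hz1, rfl⟩ hk with h1 | h1
        · rw [h1]; exact le_sup_left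
        · rw [h1]; exact le_sup_right

end Cfsg.Agent.H28.LF
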