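import Mathlib
import Cfsg.Agent.H7_Co
import Cfsg.Agent.H28_L1

set_option autoImplicit false

/-!
The Leech lattice modulo two: congruence, congruence stabilisers.
-/

namespace Cfsg.Agent.H28.M2L

open Cfsg Cfsg.Agent.H7.Co

/-- congruence modulo twice the lattice -/
def Cg (v w : leechLattice) : Prop := ∃ x : leechLattice, v = w + (x + x)

theorem Cg.refl (v : leechLattice) : Cg v v := ⟨0, by simp⟩
theorem Cg.symm {v w : leechLattice} (h : Cg v w) : Cg w v := by
  obtain ⟨x, rfl⟩ := h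
  exact ⟨-x, by abel⟩
theorem Cg.trans {u v w : leechLattice} (h : Cg u v) (h' : Cg v w) : Cg u w := by
  obtain ⟨x, rfl⟩ := h
  obtain ⟨y, rfl⟩ := h'
  exact ⟨y + x, by abel⟩
theorem Cg.smul {v w : leechLattice} (h : Cg v w) (g : Co0) : Cg (g • v) (g • w) := by
  obtain ⟨x, rfl⟩ := h
  exact ⟨g • x, by rw [smul_add'', smul_add'']⟩
theorem Cg.neg (v : leechLattice) : Cg (-v) v := ⟨-v, by abel⟩
theorem Cg.add {u v w x : leechLattice} (h : Cg u v) (h' : Cg w x) : Cg (u + w) (v + x) := by
  obtain ⟨a, rfl⟩ := h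
  obtain ⟨b, rfl⟩ := h'
  exact ⟨a + b, by abel⟩
theorem cg_zero {v : leechLattice} : Cg v 0 ↔ ∃ x : leechLattice, v = x + x := by
  unfold Cg
  simp only [zero_add]

theorem Cg.short {v w : leechLattice} (h : Cg v w) (hv : Nm v ≤ 64) (hw : Nm w ≤ 64) :
    v = w ∨ v = -w ∨ (Nm v = 64 ∧ Nm w = 64 ∧ Dt v w = 0) := by
  by_cases hvw : v = w
  · exact Or.inl hvw
  · right
    obtain ⟨x, hx⟩ := h
    rcases L1.short_cong v.2 w.2 (fun h => hvw (Subtype.ext h)) hv hw ⟨x, x.2, by
      rw [hx, two_smul]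
      show (w : GolayPt → ℤ) + (x + x) - w = x + x
      abel⟩ with h1 | h1
    · left
      exact Subtype.ext h1
    · right
      exact h1

theorem Cg.norm {v w : leechLattice} (h : Cg v w) (hv : Nm v ≤ 64) (hw : Nm w ≤ 64) : Nm v = Nm w := by
  rcases h.short hv hw with rfl | rfl | h
  · rfl
  · exact nm_neg w
  · rw [h.1, h.2.1]

/-- the stabiliser of a class modulo two -/
def cs (v : leechLattice) : Subgroup Co0 where
  carrier := {g | Cg (g • v) v}
  one_mem' := by
    show Cg ((1 : Co0) • v) v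
    rw [one_smul]; exact Cg.refl v
  mul_mem' := by
    intro a b ha hb
    show Cg ((a * b) • v) v
    rw [mul_smul]
    exact (hb.smul a).trans ha
  inv_mem' := by
    intro a ha
    show Cg (a⁻¹ • v) v
    have h := (Cg.symm ha).smul a⁻¹
    rw [inv_smul_smul] at h
    exact h

theorem mem_cs {v : leechLattice} {g : Co0} : g ∈ cs v ↔ Cg (g • v) v := Iff.rfl

theorem mem_cs_short {v : leechLattice} (hv : Nm v < 64) {g : Co0} : g ∈ cs v ↔ g • v = v ∨ g • v = -v := by
  rw [mem_cs]
  constructor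
  · intro h
    rcases h.short (by rw [nm_smul]; omega) (by omega) with h | h | h
    · exact Or.inl h
    · exact Or.inr h
    · omega
  · rintro (h | h)
    · rw [h]; exact Cg.refl v
    · rw [h]; exact Cg.neg v

end Cfsg.Agent.H28.M2L
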