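import Mathlib
import Cfsg.Agent.H28_M2L
import Cfsg.Agent.H7_Co5

set_option autoImplicit false

/-!
Every class of the Leech lattice modulo two has a short representative.
-/

namespace Cfsg.Agent.H28.M2A

open Cfsg Cfsg.Agent.H7.Co Cfsg.Agent.H7.Co3 Cfsg.Agent.H28.M2L

/-- twice the lattice -/
def twoL : AddSubgroup leechLattice where
  carrier := {v | ∃ x : leechLattice, v = x + x}
  zero_mem' := ⟨0, by simp⟩
  add_mem' := by
    rintro a b ⟨x, rfl⟩ ⟨y, rfl⟩
    exact ⟨x + y, by abel⟩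
  neg_mem' := by
    rintro a ⟨x, rfl⟩
    exact ⟨-x, by abel⟩

theorem mk_eq {v w : leechLattice} : (QuotientAddGroup.mk v : leechLattice ⧸ twoL) = QuotientAddGroup.mk w ↔ Cg v w := by
  rw [QuotientAddGroup.eq]
  constructor
  · rintro ⟨x, hx⟩
    refine ⟨-x, ?_⟩
    have : v = w - (-v + w) := by abel
    rw [this, hx]
    abel
  · rintro ⟨x, rfl⟩
    exact ⟨-x, by abel⟩

theorem exists_surj : ∃ f : (Fin 24 → Fin 2) → leechLattice ⧸ twoL, Function.Surjective f := by
  classical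
  let N : Submodule ℤ (GolayPt → ℤ) := AddSubgroup.toIntSubmodule leechLattice
  obtain ⟨n, ⟨b⟩⟩ := Submodule.nonempty_basis_of_pid (Pi.basisFun ℤ GolayPt) N
  have hn : n ≤ 24 := by
    have h1 := Module.finrank_eq_card_basis b
    have h2 := Submodule.finrank_le N
    rw [h1, Module.finrank_eq_card_basis (Pi.basisFun ℤ GolayPt), Fintype.card_fin] at h2
    exact h2
  let bb : Fin n → leechLattice := fun i => ⟨(b i : GolayPt → ℤ), (b i).2⟩
  refine ⟨fun c => QuotientAddGroup.mk (∑ i : Fin n, ((c ⟨i, by omega⟩ : ℕ) : ℤ) • bb i), ?_⟩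
  intro q
  obtain ⟨v, rfl⟩ := QuotientAddGroup.mk_surjective q
  obtain ⟨r, hr⟩ : ∃ r : Fin n → ℤ, v = ∑ i : Fin n, (r i) • bb i := by
    let v' : N := ⟨(v : GolayPt → ℤ), v.2⟩
    refine ⟨b.repr v', ?_⟩
    apply Subtype.ext
    have h1 := congrArg (fun x : N => (x : GolayPt → ℤ)) (b.sum_repr v')
    simp only [AddSubmonoidClass.coe_finset_sum] at h1
    rw [AddSubmonoidClass.coe_finset_sum]
    exact h1.symm
  refine ⟨fun i => if h : i.1 < n then ⟨(r ⟨i.1, h⟩ % 2).toNat, by omega⟩ else 0, ?_⟩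
  rw [mk_eq]
  refine ⟨-∑ i : Fin n, (r i / 2) • bb i, ?_⟩
  rw [hr, ← Finset.sum_neg_distrib, ← Finset.sum_add_distrib, ← Finset.sum_add_distrib]
  apply Finset.sum_congr rfl
  intro i _
  simp only [i.2, dif_pos]
  have h2 : ((((r i % 2).toNat : ℕ)) : ℤ) = r i - 2 * (r i / 2) := by omega
  rw [h2, sub_smul, mul_smul, two_smul]
  abel

theorem card_quot : Finite (leechLattice ⧸ twoL) ∧ Nat.card (leechLattice ⧸ twoL) ≤ 16777216 := by
  obtain ⟨f, hf⟩ := exists_surj
  haveI : Finite (leechLattice ⧸ twoL) := Finite.of_surjective f hf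
  refine ⟨this, ?_⟩
  have h := Nat.card_le_card_of_surjective f hf
  rw [Nat.card_eq_fintype_card (α := Fin 24 → Fin 2)] at h
  simpa using h

/-- the classes of vectors of a given norm -/
noncomputable def cl (n : ℤ) : Finset (leechLattice ⧸ twoL) := by
  classical
  exact (finite_nm n).toFinset.image QuotientAddGroup.mk

theorem mem_cl {n : ℤ} {q : leechLattice ⧸ twoL} : q ∈ cl n ↔ ∃ v : leechLattice, Nm v = n ∧ QuotientAddGroup.mk v = q := by
  classical
  unfold cl
  rw [Finset.mem_image]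
  simp

theorem card_cl (n : ℤ) (k : ℕ) (hk : ∀ y : leechLattice, Nm y = n → {x : leechLattice | Nm x = n ∧ Cg x y}.ncard ≤ k) :
    {x : leechLattice | Nm x = n}.ncard ≤ k * (cl n).card := by
  classical
  have h1 : {x : leechLattice | Nm x = n}.ncard = (finite_nm n).toFinset.card := by
    rw [Set.ncard_eq_toFinset_card _ (finite_nm n)]
  rw [h1]
  have h2 : cl n = (finite_nm n).toFinset.image QuotientAddGroup.mk := by
    unfold cl
    congr
  rw [h2]
  apply Finset.card_le_mul_card_image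
  intro a ha
  rw [Finset.mem_image] at ha
  obtain ⟨y, hy, rfl⟩ := ha
  rw [Set.Finite.mem_toFinset] at hy
  refine le_trans (le_of_eq ?_) (hk y hy)
  rw [← Set.ncard_coe_finset]
  congr 1
  ext x
  simp only [Finset.coe_filter, Set.Finite.mem_toFinset, Set.mem_setOf_eq, mk_eq]

theorem fib2 (n : ℤ) (hn : n < 64) (y : leechLattice) (hy : Nm y = n) : {x : leechLattice | Nm x = n ∧ Cg x y}.ncard ≤ 2 := by
  have h : {x : leechLattice | Nm x = n ∧ Cg x y} ⊆ {y, -y} := by
    rintro x ⟨hx, hc⟩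
    rcases hc.short (by omega) (by omega) with h | h | h
    · exact Or.inl h
    · exact Or.inr h
    · omega
  refine (Set.ncard_le_ncard h (Set.toFinite _)).trans ?_
  exact (Set.ncard_insert_le _ _).trans (by rw [Set.ncard_singleton])

theorem cross_iff {x y : leechLattice} (hx : Nm x = 64) : y ∈ crossL x ↔ Nm y = 64 ∧ Cg y x := by
  unfold crossL
  rw [Set.mem_setOf_eq, hx]
  apply and_congr_right
  intro _
  constructor
  · rintro ⟨z, hz⟩
    refine ⟨-z, ?_⟩
    have : y = x - (x - y) := by abel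
    rw [this, hz, two_smul]
    abel
  · rintro ⟨z, hz⟩
    exact ⟨-z, by rw [hz, two_smul]; abel⟩

theorem fib48 (y : leechLattice) (hy : Nm y = 64) : {x : leechLattice | Nm x = 64 ∧ Cg x y}.ncard ≤ 48 := by
  rw [← ncard_crossL y hy]
  apply le_of_eq
  congr 1
  ext x
  rw [cross_iff hy]
  rfl

theorem cl_disj {m n : ℤ} (hm : m ≤ 64) (hn : n ≤ 64) (hmn : m ≠ n) : Disjoint (cl m) (cl n) := by
  rw [Finset.disjoint_left]
  intro q hq hq'
  obtain ⟨v, hv, rfl⟩ := mem_cl.1 hq
  obtain ⟨w, hw, h⟩ := mem_cl.1 hq'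
  rw [mk_eq] at h
  apply hmn
  rw [← hv, ← hw]
  exact (h.norm (by omega) (by omega)).symm

theorem short_rep (v : leechLattice) : ∃ w : leechLattice, Cg v w ∧ Nm w ≤ 64 := by
  classical
  obtain ⟨hfin, hc⟩ := card_quot
  haveI := hfin
  haveI := Fintype.ofFinite (leechLattice ⧸ twoL)
  have h2 := card_cl 32 2 (fib2 32 (by norm_num))
  have h3 := card_cl 48 2 (fib2 48 (by norm_num))
  have h4 := card_cl 64 48 fib48
  rw [cnt32] at h2
  rw [cnt48] at h3
  rw [cnt64] at h4
  have h0 : 1 ≤ (cl 0).card := by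
    apply Finset.card_pos.2
    exact ⟨_, mem_cl.2 ⟨0, by rw [nm_zero_iff], rfl⟩⟩
  have d1 := cl_disj (m := 0) (n := 32) (by norm_num) (by norm_num) (by norm_num)
  have d2 := cl_disj (m := 0) (n := 48) (by norm_num) (by norm_num) (by norm_num)
  have d3 := cl_disj (m := 0) (n := 64) (by norm_num) (by norm_num) (by norm_num)
  have d4 := cl_disj (m := 32) (n := 48) (by norm_num) (by norm_num) (by norm_num)
  have d5 := cl_disj (m := 32) (n := 64) (by norm_num) (by norm_num) (by norm_num)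
  have d6 := cl_disj (m := 48) (n := 64) (by norm_num) (by norm_num) (by norm_num)
  have hU : (cl 0 ∪ cl 32 ∪ cl 48 ∪ cl 64).card = (cl 0).card + (cl 32).card + (cl 48).card + (cl 64).card := by
    rw [Finset.card_union_of_disjoint, Finset.card_union_of_disjoint, Finset.card_union_of_disjoint d1]
    · rw [Finset.disjoint_union_left]; exact ⟨d2, d4⟩
    · rw [Finset.disjoint_union_left, Finset.disjoint_union_left]; exact ⟨⟨d3, d5⟩, d6⟩
  have hall : cl 0 ∪ cl 32 ∪ cl 48 ∪ cl 64 = Finset.univ := by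
    apply Finset.eq_univ_of_card
    apply le_antisymm (Finset.card_le_univ _)
    rw [← Nat.card_eq_fintype_card]
    refine hc.trans ?_
    rw [hU]
    omega
  have hv : (QuotientAddGroup.mk v : leechLattice ⧸ twoL) ∈ cl 0 ∪ cl 32 ∪ cl 48 ∪ cl 64 := by
    rw [hall]; exact Finset.mem_univ _
  have key : ∀ n : ℤ, n ≤ 64 → (QuotientAddGroup.mk v : leechLattice ⧸ twoL) ∈ cl n →
      ∃ w : leechLattice, Cg v w ∧ Nm w ≤ 64 := by
    intro n hn h
    obtain ⟨w, hw, h⟩ := mem_cl.1 h
    exact ⟨w, (mk_eq.1 h).symm, by omega⟩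
  simp only [Finset.mem_union] at hv
  rcases hv with ((hv | hv) | hv) | hv
  · exact key _ (by norm_num) hv
  · exact key _ (by norm_num) hv
  · exact key _ (by norm_num) hv
  · exact key _ (by norm_num) hv

theorem nm_emod (v : leechLattice) : Nm v % 16 = 0 := H7.L1.norm_emod v.2
theorem dt_emod (v w : leechLattice) : Dt v w % 8 = 0 := H7.L1.dot_emod v.2 w.2

/-- short vectors have type 0, 2, 3 or 4 -/
theorem types {v : leechLattice} (h : Nm v ≤ 64) : v = 0 ∨ Nm v = 32 ∨ Nm v = 48 ∨ Nm v = 64 := by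
  by_cases h0 : v = 0
  · exact Or.inl h0
  · have h1 := nm_min h0
    have h2 := nm_emod v
    omega

theorem not_cg_zero {v : leechLattice} (h : Nm v ≤ 64) (h0 : v ≠ 0) : ¬ Cg v 0 := by
  intro hc
  have := hc.norm h (by rw [nm_zero_iff.2 rfl]; norm_num)
  rw [nm_zero_iff.2 rfl, nm_zero_iff] at this
  exact h0 this

end Cfsg.Agent.H28.M2A
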