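import Mathlib
import Cfsg.Agent.H28_M2A
import Cfsg.Agent.H7_LV

set_option autoImplicit false

/-!
Uniqueness of the invariant quadratic form on the Leech lattice modulo two.
-/

namespace Cfsg.Agent.H28.M2F

open Cfsg Cfsg.Agent.H7.Co Cfsg.Agent.H7.Co3 Cfsg.Agent.H28.M2L Cfsg.Agent.H28.M2A Cfsg.Agent.H7.LV Cfsg.Agent.H7.L2

def aV : leechLattice := mkv 4809888602596411592251961864670007025873776061092905673969426218569707395620320208916062104815431832249226231820 (by decide +kernel) (by decide +kernel)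
theorem aV_coe : (aV : GolayPt → ℤ) = dec 4809888602596411592251961864670007025873776061092905673969426218569707395620320208916062104815431832249226231820 := rfl
theorem aV_nm : Nm aV = 32 := by
  show sqNorm (aV : GolayPt → ℤ) = 32
  rw [aV_coe]; decide +kernel

def aW : leechLattice := mkv 4809888602596411592251961864670007025873776061092905673969426218569707395620320208916066940518710290765924794372 (by decide +kernel) (by decide +kernel)
theorem aW_coe : (aW : GolayPt → ℤ) = dec 4809888602596411592251961864670007025873776061092905673969426218569707395620320208916066940518710290765924794372 := rfl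
theorem aW_nm : Nm aW = 32 := by
  show sqNorm (aW : GolayPt → ℤ) = 32
  rw [aW_coe]; decide +kernel

def aU : leechLattice := mkv 4809888602596411592251961864670007025873776061092905661415222744873342593286925141499642537486003791910670827526 (by decide +kernel) (by decide +kernel)
theorem aU_coe : (aU : GolayPt → ℤ) = dec 4809888602596411592251961864670007025873776061092905661415222744873342593286925141499642537486003791910670827526 := rfl
theorem aU_nm : Nm aU = 32 := by
  show sqNorm (aU : GolayPt → ℤ) = 32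
  rw [aU_coe]; decide +kernel

def aT : leechLattice := mkv 6012360752965542125503469811454960152463628246337217577806741116558566318238347685756423879107961370963534675978 (by decide +kernel) (by decide +kernel)
theorem aT_coe : (aT : GolayPt → ℤ) = dec 6012360752965542125503469811454960152463628246337217577806741116558566318238347685756423879107961370963534675978 := rfl
theorem aT_nm : Nm aT = 32 := by
  show sqNorm (aT : GolayPt → ℤ) = 32
  rw [aT_coe]; decide +kernel

theorem aVW : Dt aV aW = -16 := by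
  show dotInt (aV : GolayPt → ℤ) aW = -16
  rw [aV_coe, aW_coe]; decide +kernel
theorem aUV : Dt aU aV = -16 := by
  show dotInt (aU : GolayPt → ℤ) aV = -16
  rw [aU_coe, aV_coe]; decide +kernel
theorem aUW : Dt aU aW = 8 := by
  show dotInt (aU : GolayPt → ℤ) aW = 8
  rw [aU_coe, aW_coe]; decide +kernel
theorem aTV : Dt aT aV = 8 := by
  show dotInt (aT : GolayPt → ℤ) aV = 8
  rw [aT_coe, aV_coe]; decide +kernel
theorem aTW : Dt aT aW = -8 := by
  show dotInt (aT : GolayPt → ℤ) aW = -8
  rw [aT_coe, aW_coe]; decide +kernel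

/-- the standard form -/
def qf (v : leechLattice) : ZMod 2 := ((Nm v / 16 : ℤ) : ZMod 2)

theorem qf_cg {v w : leechLattice} (h : Cg v w) : qf v = qf w := by
  obtain ⟨x, rfl⟩ := h
  unfold qf
  rw [ZMod.intCast_eq_intCast_iff_dvd_sub]
  rw [nm_add, nm_add, dt_add']
  have h1 := nm_emod w
  have h2 := nm_emod x
  have h3 := dt_emod w x
  have h4 := dt_self x
  rw [h4]
  push_cast
  omega

section
variable {Q : leechLattice → ZMod 2} (hcoset : ∀ v w : leechLattice, Q (v + (w + w)) = Q v)
  (hquad : ∀ u v w : leechLattice, Q (u + v + w) + Q u + Q v + Q w = Q (u + v) + Q (u + w) + Q (v + w))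
  (hinv : ∀ (g : Co0) (v : leechLattice), Q (g • v) = Q v)

/-- the polar form -/
def BB (Q : leechLattice → ZMod 2) (u v : leechLattice) : ZMod 2 := Q (u + v) + Q u + Q v

include hcoset in
theorem q_cg {v w : leechLattice} (h : Cg v w) : Q v = Q w := by
  obtain ⟨x, rfl⟩ := h
  exact hcoset w x

include hquad in
theorem q_zero : Q 0 = 0 := by
  have h := hquad 0 0 0
  simp only [add_zero] at h
  revert h
  generalize Q 0 = a
  revert a
  decide

include hquad in
theorem bb_add (u v w : leechLattice) : BB Q u (v + w) = BB Q u v + BB Q u w := by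
  unfold BB
  have h := hquad u v w
  rw [← add_assoc]
  revert h
  generalize Q (u + v + w) = a
  generalize Q (u + v) = b
  generalize Q (u + w) = c
  generalize Q (v + w) = d
  generalize Q u = e
  generalize Q v = f
  generalize Q w = g
  revert a b c d e f g
  decide

include hinv in
theorem q_norm {v w : leechLattice} (h : (Nm v = 32 ∧ Nm w = 32) ∨ (Nm v = 48 ∧ Nm w = 48) ∨ (Nm v = 64 ∧ Nm w = 64)) :
    Q v = Q w := by
  have key : ∃ g : Co0, g • v = w := by
    rcases h with h | h | h
    · exact trans32 v w h.1 h.2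
    · exact trans48 v w h.1 h.2
    · exact trans64 v w h.1 h.2
  obtain ⟨g, rfl⟩ := key
  exact (hinv g v).symm

include hcoset hquad hinv in
/-- values of the form -/
theorem unique (hne : ∃ v, Q v ≠ 0) (v : leechLattice) : Q v = qf v := by
  have hVW : Nm (aV + aW) = 32 := by rw [nm_add, aV_nm, aW_nm, aVW]; norm_num
  have hUV : Nm (aU + aV) = 32 := by rw [nm_add, aU_nm, aV_nm, aUV]; norm_num
  -- type 2 vectors
  have q2 : ∀ x, Nm x = 32 → Q x = Q aU := fun x hx => q_norm hinv (Or.inl ⟨hx, aU_nm⟩)
  -- inner product 8 or -8 gives a vector of type 3 in the class of the sum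
  have sum8 : ∀ x y, Nm x = 32 → Nm y = 32 → (Dt x y = 8 ∨ Dt x y = -8) → ∃ t, Nm t = 48 ∧ Q (x + y) = Q t := by
    intro x y hx hy h
    rcases h with h | h
    · refine ⟨x - y, by rw [nm_sub, hx, hy, h]; norm_num, ?_⟩
      apply q_cg hcoset
      exact ⟨y, by abel⟩
    · exact ⟨x + y, by rw [nm_add, hx, hy, h]; norm_num, rfl⟩
  have q3 : ∀ x y, Nm x = 48 → Nm y = 48 → Q x = Q y := fun x y hx hy => q_norm hinv (Or.inr (Or.inl ⟨hx, hy⟩))
  have q4 : ∀ x y, Nm x = 64 → Nm y = 64 → Q x = Q y := fun x y hx hy => q_norm hinv (Or.inr (Or.inr ⟨hx, hy⟩))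
  have d1 : Dt aU (aV + aW) = -8 := by rw [dt_add', aUV, aUW]; norm_num
  have d2 : Dt aT (aV + aW) = 0 := by rw [dt_add', aTV, aTW]; norm_num
  have hTVW : Nm (aT + (aV + aW)) = 64 := by rw [nm_add, aT_nm, hVW, d2]; norm_num
  obtain ⟨t1, n1, e1⟩ := sum8 aU aW aU_nm aW_nm (Or.inl aUW)
  obtain ⟨t2, n2, e2⟩ := sum8 aU (aV + aW) aU_nm hVW (Or.inr d1)
  obtain ⟨t3, n3, e3⟩ := sum8 aT aV aT_nm aV_nm (Or.inl aTV)
  obtain ⟨t4, n4, e4⟩ := sum8 aT aW aT_nm aW_nm (Or.inr aTW)
  have b1 := bb_add hquad aU aV aW
  have b2 := bb_add hquad aT aV aW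
  unfold BB at b1 b2
  rw [e1, e2, q3 t1 t2 n1 n2, q2 _ hVW, q2 _ hUV, q2 _ aV_nm, q2 _ aW_nm] at b1
  rw [e3, e4, q3 t3 t4 n3 n4, q2 _ hVW, q2 _ aV_nm, q2 _ aW_nm, q2 _ aT_nm] at b2
  have ha : Q aU = 0 := by
    revert b1
    generalize Q t2 = b
    generalize Q aU = a
    revert a b
    decide
  rw [ha] at b2
  have hc : Q (aT + (aV + aW)) = 0 := by
    revert b2
    generalize Q (aT + (aV + aW)) = a
    generalize Q t4 = b
    revert a b
    decide
  have h2 : ∀ x, Nm x = 32 → Q x = 0 := fun x hx => by rw [q2 x hx, ha]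
  have h4 : ∀ x, Nm x = 64 → Q x = 0 := fun x hx => by rw [q4 x _ hx hTVW, hc]
  have h3 : ∀ x, Nm x = 48 → Q x = 1 := by
    intro x hx
    by_contra hx1
    have hx0 : Q x = 0 := by
      revert hx1
      generalize Q x = a
      revert a
      decide
    obtain ⟨y, hy⟩ := hne
    obtain ⟨w, hw, hw64⟩ := short_rep y
    rw [q_cg hcoset hw] at hy
    rcases types hw64 with h | h | h | h
    · rw [h, q_zero hquad] at hy; exact hy rfl
    · exact hy (h2 w h)
    · exact hy (by rw [q3 w x h hx, hx0])
    · exact hy (h4 w h)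
  obtain ⟨w, hw, hw64⟩ := short_rep v
  rw [q_cg hcoset hw, qf_cg hw]
  unfold qf
  rcases types hw64 with h | h | h | h
  · rw [h, q_zero hquad, nm_zero_iff.2 rfl]; rfl
  · rw [h2 w h, h]; decide
  · rw [h3 w h, h]; decide
  · rw [h4 w h, h]; decide

end

end Cfsg.Agent.H28.M2F
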