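import Mathlib
import Cfsg.Agent.H28_M2A
import Cfsg.Agent.H7_Co6
import Cfsg.Agent.H7_M24c

set_option autoImplicit false

/-!
Stabilisers of classes of the Leech lattice modulo two: normal 2-subgroups.
-/

namespace Cfsg.Agent.H28.M2N

open Cfsg Cfsg.Agent.H7.Golay Cfsg.Agent.H7.Oct Cfsg.Agent.H7.M24 Cfsg.Agent.H7.L1
open Cfsg.Agent.H7.Co Cfsg.Agent.H7.Co3 Cfsg.Agent.H7.Co4 Cfsg.Agent.H7.Co5 Cfsg.Agent.H7.Co6 Cfsg.Agent.H28.M2L Cfsg.Agent.H28.M2A

/-! ### the class of a vector of norm 64 -/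

theorem crossL_of_mem {x y : leechLattice} (hx : Nm x = 64) (h : y ∈ crossL x) : crossL y = crossL x := by
  rw [cross_iff hx] at h
  ext w
  rw [cross_iff h.1, cross_iff hx]
  exact ⟨fun h' => ⟨h'.1, h'.2.trans h.2⟩, fun h' => ⟨h'.1, h'.2.trans h.2.symm⟩⟩

theorem cs_O8 (i : GolayPt) : cs (O8 i) = NN := by
  ext g
  rw [mem_cs, mem_NN]
  have hn : Nm (g • O8 i) = 64 := by rw [nm_smul, nm_O8]
  have hcr : crossL (g • O8 i) = (g • ·) '' SC := by rw [crossL_smul, crossL_O8]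
  have hst : ∀ v : leechLattice, (v : GolayPt → ℤ) ∈ stdCross ↔ v ∈ SC := by
    intro v
    rw [← coe_image_SC]
    constructor
    · rintro ⟨w, hw, h⟩
      rw [← Subtype.ext h]; exact hw
    · intro h
      exact ⟨v, h, rfl⟩
  constructor
  · intro h
    have h1 : g • O8 i ∈ crossL (O8 i) := (cross_iff (nm_O8 i)).2 ⟨hn, h⟩
    have h2 := crossL_of_mem (nm_O8 i) h1
    rw [hcr, crossL_O8] at h2
    intro v hv
    rw [hst] at hv ⊢
    rw [← h2]
    exact ⟨v, hv, rfl⟩
  · intro h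
    have h1 : g • O8 i ∈ SC := (hst _).1 (h _ ((hst _).2 (mem_SC.2 ⟨i, Or.inl rfl⟩)))
    rw [← crossL_O8 i, cross_iff (nm_O8 i)] at h1
    exact h1.2

theorem mem_cs_smul {v : leechLattice} {g h : Co0} : h ∈ cs (g • v) ↔ g⁻¹ * h * g ∈ cs v := by
  rw [mem_cs, mem_cs, mul_smul, mul_smul]
  constructor
  · intro hh
    have := hh.smul g⁻¹
    rwa [inv_smul_smul] at this
  · intro hh
    have := hh.smul g
    rwa [smul_inv_smul] at this

/-! ### monomial elements -/

theorem co_ext {g h : Co0} (H : ∀ v : leechLattice, ((g • v : leechLattice) : GolayPt → ℤ) = (h • v : leechLattice)) :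
    g = h := by
  apply Subtype.ext
  apply Equiv.ext
  intro v
  exact Subtype.ext (H v)

theorem empty_mem : (∅ : Finset GolayPt) ∈ Cw := by
  rw [show (∅ : Finset GolayPt) = ofMask 0 from ofMask_zero.symm]
  exact (ofMask_mem_supports (by norm_num)).2 (mem_codeL_iff.2 (by decide +kernel))

/-- the permutation matrices -/
noncomputable def monF (σ : M24) : Co0 := (exists_mono σ.2 empty_mem).choose

theorem monF_spec (σ : M24) (v : leechLattice) : ((monF σ • v : leechLattice) : GolayPt → ℤ) = signedPerm σ ∅ v :=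
  (exists_mono σ.2 empty_mem).choose_spec v

theorem signedPerm_empty (σ : Equiv.Perm GolayPt) (x : GolayPt → ℤ) : signedPerm σ ∅ x = fun i => x (σ.symm i) := by
  funext i
  simp [signedPerm]

theorem signedPerm_mul (σ τ : Equiv.Perm GolayPt) (c d : Finset GolayPt) (x : GolayPt → ℤ) :
    signedPerm σ c (signedPerm τ d x) = fun i => if (i ∈ c) ≠ (σ.symm i ∈ d) then -x ((σ * τ).symm i) else
      x ((σ * τ).symm i) := by
  funext i
  simp only [signedPerm]
  have e : (σ * τ).symm i = τ.symm (σ.symm i) := rfl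
  rw [e]
  by_cases h1 : i ∈ c <;> by_cases h2 : σ.symm i ∈ d <;> simp [h1, h2]

noncomputable def mon : M24 →* Co0 := MonoidHom.mk' monF (fun σ τ => by
  apply co_ext
  intro v
  rw [mul_smul, monF_spec, monF_spec, monF_spec, signedPerm_empty, signedPerm_empty, signedPerm_empty]
  rfl)

theorem mon_spec (σ : M24) (v : leechLattice) : ((mon σ • v : leechLattice) : GolayPt → ℤ) = signedPerm σ ∅ v := monF_spec σ v

theorem mon_mem (σ : M24) : mon σ ∈ NN := mem_NN.2 (pres_of_mono (mon_spec σ))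

theorem mem_NN' {g : Co0} : g ∈ NN ↔ ∃ σ ∈ M24, ∃ c ∈ Cw, ∀ v : leechLattice,
    ((g • v : leechLattice) : GolayPt → ℤ) = signedPerm σ c v := by
  constructor
  · intro h
    exact mono_of_pres (mem_NN.1 h)
  · rintro ⟨σ, _, c, _, h⟩
    exact mem_NN.2 (pres_of_mono h)

/-- the permutation part -/
def IsM (g : Co0) (σ : Equiv.Perm GolayPt) (c : Finset GolayPt) : Prop :=
  ∀ v : leechLattice, ((g • v : leechLattice) : GolayPt → ℤ) = signedPerm σ c v

theorem IsM.mul {g h : Co0} {σ τ : Equiv.Perm GolayPt} {c d : Finset GolayPt} (hg : IsM g σ c) (hh : IsM h τ d) :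
    ∃ e, IsM (g * h) (σ * τ) e := by
  refine ⟨Finset.univ.filter fun i => (i ∈ c) ≠ (σ.symm i ∈ d), fun v => ?_⟩
  rw [mul_smul, hg, hh, signedPerm_mul]
  funext i
  simp only [signedPerm, Finset.mem_filter, Finset.mem_univ, true_and]

theorem IsM.perm_unique {g : Co0} {σ τ : Equiv.Perm GolayPt} {c d : Finset GolayPt} (hg : IsM g σ c) (hh : IsM g τ d) :
    σ = τ ∧ c = d := signedPerm_inj (fun v => by rw [← hg, ← hh])

theorem isM_one : IsM 1 1 ∅ := by
  intro v
  rw [one_smul, signedPerm_empty]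
  rfl

theorem isM_mon (σ : M24) : IsM (mon σ) σ ∅ := mon_spec σ

/-- the diagonal matrices -/
def DD : Subgroup Co0 where
  carrier := {g | ∃ c ∈ Cw, IsM g 1 c}
  one_mem' := ⟨∅, empty_mem, isM_one⟩
  mul_mem' := by
    rintro a b ⟨c, hc, ha⟩ ⟨d, hd, hb⟩
    refine ⟨symmDiff c d, symmDiff_mem_supports hc hd, ?_⟩
    intro v
    rw [mul_smul, ha, hb, signedPerm_mul]
    funext i
    simp only [signedPerm, Finset.mem_symmDiff, mul_one]
    have e : (1 : Equiv.Perm GolayPt).symm i = i := rfl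
    rw [e]
    by_cases h1 : i ∈ c <;> by_cases h2 : i ∈ d <;> simp [h1, h2]
  inv_mem' := by
    rintro a ⟨c, hc, ha⟩
    refine ⟨c, hc, ?_⟩
    have h2 : a * a = 1 := by
      apply co_ext
      intro v
      rw [mul_smul, ha, ha, one_smul, signedPerm_mul]
      funext i
      have e : (1 * 1 : Equiv.Perm GolayPt).symm i = i := rfl
      have e' : (1 : Equiv.Perm GolayPt).symm i = i := rfl
      rw [e, e']
      simp
    rw [inv_eq_of_mul_eq_one_right h2]
    exact ha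

theorem mem_DD {g : Co0} : g ∈ DD ↔ ∃ c ∈ Cw, IsM g 1 c := Iff.rfl

theorem DD_le : DD ≤ NN := by
  rintro g ⟨c, hc, h⟩
  exact mem_NN'.2 ⟨1, one_mem _, c, hc, h⟩

theorem DD_sq {g : Co0} (hg : g ∈ DD) : g * g = 1 := by
  obtain ⟨c, _, ha⟩ := hg
  apply co_ext
  intro v
  rw [mul_smul, ha, ha, one_smul, signedPerm_mul]
  funext i
  have e : (1 * 1 : Equiv.Perm GolayPt).symm i = i := rfl
  have e' : (1 : Equiv.Perm GolayPt).symm i = i := rfl
  rw [e, e']
  simp

theorem DD_comm {g h : Co0} (hg : g ∈ DD) (hh : h ∈ DD) : g * h = h * g := by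
  have h1 := DD_sq (mul_mem hg hh)
  have h2 := DD_sq hg
  have h3 := DD_sq hh
  have e1 : g⁻¹ = g := inv_eq_of_mul_eq_one_right h2
  have e2 : h⁻¹ = h := inv_eq_of_mul_eq_one_right h3
  have h4 : (g * h)⁻¹ = g * h := inv_eq_of_mul_eq_one_right h1
  rw [mul_inv_rev, e1, e2] at h4
  exact h4.symm

/-- every monomial element is a diagonal one times a permutation matrix -/
theorem NN_split {g : Co0} (hg : g ∈ NN) : ∃ d ∈ DD, ∃ σ : M24, g = d * mon σ := by
  obtain ⟨σ, hσ, c, hc, h⟩ := mem_NN'.1 hg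
  refine ⟨g * (mon ⟨σ, hσ⟩)⁻¹, ?_, ⟨σ, hσ⟩, by group⟩
  obtain ⟨d, hd⟩ := exists_mono (one_mem M24) hc
  have : g = d * mon ⟨σ, hσ⟩ := by
    apply co_ext
    intro v
    rw [mul_smul, hd, mon_spec, h, signedPerm_mul]
    funext i
    simp only [signedPerm]
    have e : (1 * σ : Equiv.Perm GolayPt).symm i = σ.symm i := rfl
    rw [e]
    by_cases h1 : i ∈ c <;> simp [h1]
  rw [this, mul_inv_cancel_right]
  exact ⟨c, hc, hd⟩

theorem mon_inj : Function.Injective mon := by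
  intro σ τ h
  have h1 := isM_mon σ
  rw [h] at h1
  exact Subtype.ext (h1.perm_unique (isM_mon τ)).1

theorem DD_inf_mon {σ : M24} (h : mon σ ∈ DD) : σ = 1 := by
  obtain ⟨c, _, h⟩ := h
  exact Subtype.ext ((isM_mon σ).perm_unique h).1

/-- a 2-subgroup of `NN` normalised by the permutation matrices is diagonal -/
theorem two_le_DD (N : Subgroup Co0) (hN : N ≤ NN) (h2 : IsPGroup 2 N) (hn : ∀ σ : M24, ∀ n ∈ N, mon σ * n * (mon σ)⁻¹ ∈ N) :
    N ≤ DD := by
  -- the permutation parts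
  let T : Subgroup M24 :=
    { carrier := {τ | ∃ n ∈ N, ∃ c, IsM n τ c}
      one_mem' := ⟨1, one_mem _, ∅, isM_one⟩
      mul_mem' := by
        rintro a b ⟨m, hm, c, hc⟩ ⟨n, hn, d, hd⟩
        obtain ⟨e, he⟩ := hc.mul hd
        exact ⟨m * n, mul_mem hm hn, e, he⟩
      inv_mem' := by
        rintro a ⟨m, hm, c, hc⟩
        obtain ⟨σ, hσ, d, hd, h⟩ := mem_NN'.1 (inv_mem (hN hm))
        obtain ⟨e, he⟩ := IsM.mul hc (show IsM m⁻¹ σ d from h)
        rw [mul_inv_cancel] at he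
        have h1 := (he.perm_unique isM_one).1
        refine ⟨m⁻¹, inv_mem hm, d, ?_⟩
        have h3 : ((a⁻¹ : M24) : Equiv.Perm GolayPt) = σ := by
          show (a : Equiv.Perm GolayPt)⁻¹ = σ
          exact inv_eq_of_mul_eq_one_right h1
        rw [h3]; exact h }
  have hTn : T.Normal := by
    constructor
    rintro τ ⟨n, hnn, c, hc⟩ σ
    obtain ⟨e, he⟩ := IsM.mul (isM_mon σ) hc
    obtain ⟨f, hf⟩ := IsM.mul he (isM_mon σ⁻¹)
    refine ⟨mon σ * n * (mon σ)⁻¹, hn σ n hnn, f, ?_⟩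
    rw [← map_inv]
    exact hf
  have hT2 : IsPGroup 2 T := by
    rintro ⟨τ, n, hnn, c, hc⟩
    obtain ⟨k, hk⟩ := h2 ⟨n, hnn⟩
    refine ⟨k, ?_⟩
    have hk' : n ^ 2 ^ k = 1 := congrArg Subtype.val hk
    have hpow : ∀ m : ℕ, ∃ e, IsM (n ^ m) ((τ : Equiv.Perm GolayPt) ^ m) e := by
      intro m
      induction m with
      | zero => exact ⟨∅, by rw [pow_zero, pow_zero]; exact isM_one⟩
      | succ m ih =>
        obtain ⟨e, he⟩ := ih
        obtain ⟨f, hf⟩ := he.mul hc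
        exact ⟨f, by rw [pow_succ, pow_succ]; exact hf⟩
    obtain ⟨e, he⟩ := hpow (2 ^ k)
    rw [hk'] at he
    apply Subtype.ext
    apply Subtype.ext
    exact (he.perm_unique isM_one).1
  have hbot : T = ⊥ := by
    haveI : IsSimpleGroup M24 := H7.M24c.M24_simple
    rcases hTn.eq_bot_or_eq_top with h | h
    · exact h
    · exfalso
      rw [h] at hT2
      obtain ⟨n, hn⟩ := IsPGroup.iff_card.1 hT2
      rw [Subgroup.card_top, card_M24] at hn
      have h3 : 3 ∣ 2 ^ n := by rw [← hn]; norm_num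
      have := Nat.Prime.dvd_of_dvd_pow Nat.prime_three h3
      omega
  intro n hnn
  obtain ⟨σ, hσ, c, hc, h⟩ := mem_NN'.1 (hN hnn)
  have h1 : (⟨σ, hσ⟩ : M24) ∈ T := ⟨n, hnn, c, h⟩
  rw [hbot, Subgroup.mem_bot] at h1
  have h2 : σ = 1 := congrArg Subtype.val h1
  subst h2
  exact ⟨c, hc, h⟩

theorem card_DD : Nat.card DD ≤ 4096 := by
  rw [← ncard_Cw]
  have hch : ∀ g : DD, ∃ c ∈ Cw, IsM (g : Co0) 1 c := fun g => g.2
  choose f hf hf' using hch
  have hinj : Function.Injective f := by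
    intro a b hab
    apply Subtype.ext
    apply co_ext
    intro v
    rw [hf' a, hf' b, hab]
  haveI : Finite (Cw : Set (Finset GolayPt)) := Set.toFinite _
  have := Nat.card_le_card_of_injective (fun g : DD => (⟨f g, hf g⟩ : (Cw : Set (Finset GolayPt))))
    (fun a b h => hinj (congrArg Subtype.val h))
  exact this

end Cfsg.Agent.H28.M2N
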