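import Mathlib
import Cfsg.Agent.H28_M2N
import Cfsg.Agent.H7_L11

set_option autoImplicit false

/-!
A 2-subgroup normalised by the stabiliser of a short vector of the Leech lattice, and lying in it, is trivial.
-/

namespace Cfsg.Agent.H28.M2S

open Cfsg Cfsg.Agent.H7.Golay Cfsg.Agent.H7.Oct Cfsg.Agent.H7.M24 Cfsg.Agent.H7.L1 Cfsg.Agent.H7.L2 Cfsg.Agent.H7.LV Cfsg.Agent.H7.L11
open Cfsg.Agent.H7.Co Cfsg.Agent.H7.Co3 Cfsg.Agent.H7.Co4 Cfsg.Agent.H7.Co5 Cfsg.Agent.H7.Co6 Cfsg.Agent.H28.M2L Cfsg.Agent.H28.M2A Cfsg.Agent.H28.M2N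

/-- the vectors `4 e_i + b e_j` -/
def PM (i j : GolayPt) (h : i ≠ j) (b : ℤ) (hb : b = 4 ∨ b = -4) : leechLattice :=
  ⟨Pi.single i 4 + Pi.single j b, (memA h (Or.inl rfl) hb).1⟩

theorem PM_coe (i j : GolayPt) (h : i ≠ j) (b : ℤ) (hb : b = 4 ∨ b = -4) :
    (PM i j h b hb : GolayPt → ℤ) = Pi.single i 4 + Pi.single j b := rfl

theorem PM_nm (i j : GolayPt) (h : i ≠ j) (b : ℤ) (hb : b = 4 ∨ b = -4) : Nm (PM i j h b hb) = 32 :=
  (memA h (Or.inl rfl) hb).2

theorem dotInt_add' (x y z : GolayPt → ℤ) : dotInt x (y + z) = dotInt x y + dotInt x z := by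
  simp only [dotInt, Pi.add_apply, mul_add, Finset.sum_add_distrib]

theorem PM_dt (x : leechLattice) (i j : GolayPt) (h : i ≠ j) (b : ℤ) (hb : b = 4 ∨ b = -4) :
    Dt x (PM i j h b hb) = (x : GolayPt → ℤ) i * 4 + (x : GolayPt → ℤ) j * b := by
  show dotInt (x : GolayPt → ℤ) (Pi.single i 4 + Pi.single j b) = _
  rw [dotInt_add', H7.L4.dotInt_single, H7.L4.dotInt_single]

theorem PM_dt2 (i j : GolayPt) (h : i ≠ j) (b : ℤ) (hb : b = 4 ∨ b = -4) (k l : GolayPt) (h' : k ≠ l) (c : ℤ) (hc : c = 4 ∨ c = -4) :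
    Dt (PM i j h b hb) (PM k l h' c hc) =
      ((if k = i then 4 else 0) + (if k = j then b else 0)) * 4 + ((if l = i then 4 else 0) + (if l = j then b else 0)) * c := by
  rw [PM_dt, PM_coe]
  simp only [Pi.add_apply, Pi.single_apply]

/-- an octad vector with opposite signs at the first two points -/
def bA : leechLattice := mkv 3607434800216208979637733945018219942915348371342380112047506370135535054530460544225964595853996248023920148490 (by decide +kernel) (by decide +kernel)
theorem bA_coe : (bA : GolayPt → ℤ) = dec 3607434800216208979637733945018219942915348371342380112047506370135535054530460544225964595853996248023920148490 := rfl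
theorem bA_nm : Nm bA = 32 := by
  show sqNorm (bA : GolayPt → ℤ) = 32
  rw [bA_coe]; decide +kernel
/-- an octad vector through the first point only -/
def bX : leechLattice := mkv 6012360752965542125503469811454960152463628246337217577806741116558566318238347685756423879107961370963534675978 (by decide +kernel) (by decide +kernel)
theorem bX_coe : (bX : GolayPt → ℤ) = dec 6012360752965542125503469811454960152463628246337217577806741116558566318238347685756423879107961370963534675978 := rfl
def bY : leechLattice := mkv 4809906950585339512889239902479873228917604918324582836307343383383503180897428579190859228606367357148395601928 (by decide +kernel) (by decide +kernel)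
theorem bY_coe : (bY : GolayPt → ℤ) = dec 4809906950585339512889239902479873228917604918324582836307343383383503180897428579190859228606367357148395601928 := rfl

/-- points -/
abbrev p0 : GolayPt := pt 0
abbrev p1 : GolayPt := pt 1
/-- a point of the octad and one outside it -/
abbrev pp : GolayPt := pt 13
abbrev pq : GolayPt := pt 2

theorem h01 : p0 ≠ p1 := by decide
theorem hpq : pp ≠ pq := by decide

/-- the base vector -/
def vV : leechLattice := PM p0 p1 h01 4 (Or.inl rfl)
def vC : leechLattice := PM p0 p1 h01 (-4) (Or.inr rfl)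
def vB : leechLattice := PM pp pq hpq 4 (Or.inl rfl)

theorem dt_A_V : Dt bA vV = 0 := by
  rw [vV, PM_dt, bA_coe]; decide +kernel
theorem dt_A_C : Dt bA vC ≠ 0 := by
  rw [vC, PM_dt, bA_coe]; decide +kernel
theorem dt_A_B : Dt bA vB ≠ 0 := by
  rw [vB, PM_dt, bA_coe]; decide +kernel
theorem dt_C_V : Dt vC vV = 0 := by
  rw [vC, vV, PM_dt2]; decide
theorem dt_B_V : Dt vB vV = 0 := by
  rw [vB, vV, PM_dt2]; decide

theorem smul_self_of {n : Co0} {w w' : leechLattice} (h : n • w = w) (h' : n • w' = w' ∨ n • w' = -w') (hd : Dt w w' ≠ 0) :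
    n • w' = w' := by
  rcases h' with h' | h'
  · exact h'
  · exfalso
    have := dt_smul n w w'
    rw [h, h', dt_neg'] at this
    omega

theorem smul_neg_of {n : Co0} {w w' : leechLattice} (h : n • w = -w) (h' : n • w' = w' ∨ n • w' = -w') (hd : Dt w w' ≠ 0) :
    n • w' = -w' := by
  rcases h' with h' | h'
  · exfalso
    have := dt_smul n w w'
    rw [h, h', dt_neg] at this
    omega
  · exact h'

theorem O8_eq (i j : GolayPt) (h : i ≠ j) : O8 i = PM i j h 4 (Or.inl rfl) + PM i j h (-4) (Or.inr rfl) := by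
  apply Subtype.ext
  rw [AddSubgroup.coe_add, PM_coe, PM_coe, O8_coe, Pi.single_neg, show (8 : ℤ) = 4 + 4 by norm_num, Pi.single_add]
  abel

theorem O8_eq' : O8 p1 = vV - vC := by
  apply Subtype.ext
  rw [AddSubgroupClass.coe_sub, vV, vC, PM_coe, PM_coe, O8_coe, Pi.single_neg, show (8 : ℤ) = 4 + 4 by norm_num, Pi.single_add]
  abel

theorem O8_eq0 : O8 p0 = vV + vC := O8_eq p0 p1 h01

theorem octs {i : GolayPt} (h0 : i ≠ p0) (h1 : i ≠ p1) : ∃ j, ∃ h : i ≠ j, (∀ b hb, Dt (PM i j h b hb) vV = 0) ∧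
    (∀ b hb, Dt vB (PM i j h b hb) ≠ 0) := by
  by_cases hip : i = pp
  · subst hip
    refine ⟨pt 3, by decide, ?_, ?_⟩
    · rintro b (rfl | rfl) <;> rw [vV, PM_dt2] <;> decide
    · rintro b (rfl | rfl) <;> rw [vB, PM_dt2] <;> decide
  by_cases hiq : i = pq
  · subst hiq
    refine ⟨pt 3, by decide, ?_, ?_⟩
    · rintro b (rfl | rfl) <;> rw [vV, PM_dt2] <;> decide
    · rintro b (rfl | rfl) <;> rw [vB, PM_dt2] <;> decide
  · refine ⟨pp, hip, ?_, ?_⟩
    · rintro b (rfl | rfl) <;> rw [vV, PM_dt2] <;>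
        simp only [Ne.symm h0, Ne.symm h1, if_false] <;> decide
    · rintro b (rfl | rfl) <;> rw [vB, PM_dt2] <;>
        simp only [hip, hiq, if_false] <;> decide

theorem base {n : Co0} (hV : n • vV = vV) (h : ∀ w : leechLattice, Nm w = 32 → Dt w vV = 0 → n • w = w ∨ n • w = -w) :
    n = 1 := by
  have hA := h bA bA_nm dt_A_V
  have hB := h vB (PM_nm _ _ _ _ _) dt_B_V
  have hC := h vC (PM_nm _ _ _ _ _) dt_C_V
  rcases hB with hB' | hB'
  · have hA' := smul_self_of hB' hA (by rw [dt_comm]; exact dt_A_B)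
    have hC' := smul_self_of hA' hC dt_A_C
    apply ext8
    intro i
    rw [one_smul]
    by_cases h0 : i = p0
    · rw [h0, O8_eq0, smul_add'', hV, hC']
    by_cases h1 : i = p1
    · rw [h1, O8_eq', smul_sub'', hV, hC']
    obtain ⟨j, hij, h2, h3⟩ := octs h0 h1
    rw [O8_eq i j hij, smul_add'', smul_self_of hB' (h _ (PM_nm _ _ _ _ _) (h2 _ _)) (h3 _ _),
      smul_self_of hB' (h _ (PM_nm _ _ _ _ _) (h2 _ _)) (h3 _ _)]
  · exfalso
    have hA' := smul_neg_of hB' hA (by rw [dt_comm]; exact dt_A_B)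
    have hC' := smul_neg_of hA' hC dt_A_C
    have e0 : n • O8 p0 = O8 p1 := by
      rw [O8_eq0, O8_eq', smul_add'', hV, hC', sub_eq_add_neg]
    have e1 : n • O8 p1 = O8 p0 := by
      rw [O8_eq0, O8_eq', smul_sub'', hV, hC', sub_neg_eq_add]
    have e2 : ∀ i, i ≠ p0 → i ≠ p1 → n • O8 i = -O8 i := by
      intro i h0 h1
      obtain ⟨j, hij, h2, h3⟩ := octs h0 h1
      rw [O8_eq i j hij, smul_add'', smul_neg_of hB' (h _ (PM_nm _ _ _ _ _) (h2 _ _)) (h3 _ _),
        smul_neg_of hB' (h _ (PM_nm _ _ _ _ _) (h2 _ _)) (h3 _ _), neg_add]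
    have hx : ((n • bX : leechLattice) : GolayPt → ℤ) = fun i => if i = p0 then (bX : GolayPt → ℤ) p1 else
        if i = p1 then (bX : GolayPt → ℤ) p0 else -(bX : GolayPt → ℤ) i := by
      funext i
      show _ = if i = p0 then (bX : GolayPt → ℤ) p1 else if i = p1 then (bX : GolayPt → ℤ) p0 else -(bX : GolayPt → ℤ) i
      have h8 := dt_O8 (n • bX) i
      by_cases h0 : i = p0
      · rw [if_pos h0]
        rw [h0, ← e1, dt_smul, dt_O8] at h8
        rw [h0]
        omega
      rw [if_neg h0]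
      by_cases h1 : i = p1
      · rw [if_pos h1]
        rw [h1, ← e0, dt_smul, dt_O8] at h8
        rw [h1]
        omega
      rw [if_neg h1]
      have h9 := dt_smul n (O8 i) bX
      rw [e2 i h0 h1, dt_neg, h8, dt_O8] at h9
      omega
    have hd := dt_emod (n • bX) bY
    have hd' : Dt (n • bX) bY = -12 := by
      show dotInt ((n • bX : leechLattice) : GolayPt → ℤ) bY = -12
      rw [hx, bX_coe, bY_coe]
      decide +kernel
    rw [hd'] at hd
    revert hd
    decide

/-- a 2-subgroup of the stabiliser of a short vector, normal in it, is trivial -/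
theorem no_two {v : leechLattice} (hv : Nm v = 32) (N : Subgroup Co0) (h2 : IsPGroup 2 N) (hN : ∀ n ∈ N, n • v = v)
    (hn : ∀ g : Co0, g • v = v → ∀ n ∈ N, g * n * g⁻¹ ∈ N) : N = ⊥ := by
  have hne : ∀ x : leechLattice, Nm x = 32 → x ≠ -x := by
    intro x hx h
    have h1 : Dt x x = Dt x (-x) := congrArg (Dt x) h
    rw [dt_neg', dt_self, hx] at h1
    norm_num at h1
  have hZ : IsPGroup 2 (Subgroup.center Co0) := IsPGroup.of_card (n := 1) (by rw [card_center]; norm_num)
  let P : Subgroup Co0 := N ⊔ Subgroup.center Co0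
  have hP : IsPGroup 2 P := IsPGroup.to_sup_of_normal_right h2 hZ
  have hm1 : m1 ∈ P := Subgroup.mem_sup_right ((center_eq m1).2 (Or.inr rfl))
  have hPv : ∀ p ∈ P, p • v = v ∨ p • v = -v := by
    intro p hp
    obtain ⟨a, ha, z, hz, rfl⟩ := Subgroup.mem_sup_of_normal_right.1 hp
    rcases (center_eq z).1 hz with rfl | rfl
    · left; rw [mul_one]; exact hN a ha
    · right; rw [mul_smul, m1_smul, smul_neg'', hN a ha]
  let X : SubMulAction P leechLattice :=
    { carrier := {x | Nm x = 32 ∧ Dt x v = 0}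
      smul_mem' := by
        rintro ⟨p, hp⟩ x ⟨h1, h3⟩
        refine ⟨?_, ?_⟩
        · show Nm (p • x) = 32
          rw [nm_smul, h1]
        · show Dt (p • x) v = 0
          have h4 := dt_smul p x v
          rcases hPv p hp with h5 | h5
          · rw [h5, h3] at h4; exact h4
          · rw [h5, h3, dt_neg'] at h4; omega }
  have hXc : Nat.card X = 93150 := cnt_0 v hv
  haveI : Finite X := Nat.finite_of_card_ne_zero (by rw [hXc]; norm_num)
  obtain ⟨x, hx⟩ : ∃ x : X, ¬ 4 ∣ Nat.card (MulAction.orbit P x) := by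
    by_contra h
    push Not at h
    have h5 := Nat.card_congr (MulAction.selfEquivSigmaOrbits P X)
    haveI : Fintype (MulAction.orbitRel.Quotient P X) := Fintype.ofFinite _
    rw [Nat.card_sigma, hXc] at h5
    have h6 : 4 ∣ 93150 := by
      rw [h5]
      exact Finset.dvd_sum (fun i _ => h _)
    omega
  obtain ⟨k, hk⟩ := hP.card_orbit x
  have hk2 : Nat.card (MulAction.orbit P x) ≤ 2 := by
    rw [hk] at hx ⊢
    rcases k with _ | _ | k
    · norm_num
    · norm_num
    · exfalso
      apply hx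
      rw [pow_succ, pow_succ, mul_assoc]
      exact dvd_mul_left _ _
  -- the elements of `N` fix this vector up to sign
  have hfix : ∀ n ∈ N, n • (x : leechLattice) = x ∨ n • (x : leechLattice) = -x := by
    intro n hnn
    by_contra hcon
    push Not at hcon
    have e1 : ((⟨m1, hm1⟩ : P) • x : X) ∈ MulAction.orbit P x := MulAction.mem_orbit _ _
    have e2 : ((⟨n, Subgroup.mem_sup_left hnn⟩ : P) • x : X) ∈ MulAction.orbit P x := MulAction.mem_orbit _ _
    have e3 : x ∈ MulAction.orbit P x := MulAction.mem_orbit_self _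
    have f1 : (((⟨m1, hm1⟩ : P) • x : X) : leechLattice) = -x := m1_smul x
    have f2 : (((⟨n, Subgroup.mem_sup_left hnn⟩ : P) • x : X) : leechLattice) = n • (x : leechLattice) := rfl
    set y1 := ((⟨m1, hm1⟩ : P) • x : X)
    set y2 := ((⟨n, Subgroup.mem_sup_left hnn⟩ : P) • x : X)
    have d1 : x ≠ y1 := by
      intro h
      have := congrArg Subtype.val h
      rw [f1] at this
      exact hne _ x.2.1 this
    have d2 : x ≠ y2 := by
      intro h
      have := congrArg Subtype.val h
      rw [f2] at this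
      exact hcon.1 this.symm
    have d3 : y1 ≠ y2 := by
      intro h
      have := congrArg Subtype.val h
      rw [f1, f2] at this
      exact hcon.2 this.symm
    have hsub : ({x, y1, y2} : Set X) ⊆ MulAction.orbit P x := by
      rintro y (rfl | rfl | rfl)
      · exact e3
      · exact e1
      · exact e2
    have hc3 : ({x, y1, y2} : Set X).ncard = 3 := Set.ncard_eq_three.2 ⟨x, y1, y2, d1, d2, d3, rfl⟩
    have := Set.ncard_le_ncard hsub (Set.toFinite _)
    rw [hc3] at this
    have h6 : (MulAction.orbit P x).ncard = Nat.card (MulAction.orbit P x) := rfl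
    omega
  have hall : ∀ n ∈ N, ∀ w : leechLattice, Nm w = 32 → Dt w v = 0 → n • w = w ∨ n • w = -w := by
    intro n hnn w hw hwv
    obtain ⟨g, hg1, hg2⟩ := pair_0 v x v w hv hv x.2.1 hw x.2.2 hwv
    have hgi : g⁻¹ • v = v := by rw [inv_smul_eq_iff, hg1]
    have h3 := hfix _ (hn g⁻¹ hgi n hnn)
    have h4 : (g⁻¹ * n * g⁻¹⁻¹) • (x : leechLattice) = g⁻¹ • (n • w) := by
      rw [inv_inv, mul_smul, mul_smul, hg2]
    rw [h4, inv_smul_eq_iff, inv_smul_eq_iff, smul_neg'', hg2] at h3
    exact h3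
  obtain ⟨g, hg⟩ := trans32 v vV hv (PM_nm _ _ _ _ _)
  rw [Subgroup.eq_bot_iff_forall]
  intro n hnn
  have hb : g * n * g⁻¹ = 1 := by
    apply base
    · rw [mul_smul, mul_smul, ← hg, inv_smul_smul, hN n hnn]
    · intro w hw hwv
      have h1 : Nm (g⁻¹ • w) = 32 := by rw [nm_smul, hw]
      have h3 : Dt (g⁻¹ • w) v = 0 := by
        rw [← dt_smul g, smul_inv_smul, hg, hwv]
      have h4 := hall n hnn _ h1 h3
      rw [mul_smul, mul_smul]
      rcases h4 with h4 | h4
      · left; rw [h4, smul_inv_smul]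
      · right; rw [h4, smul_neg'', smul_inv_smul]
  have : n = g⁻¹ * (g * n * g⁻¹) * g := by group
  rw [this, hb]; group

end Cfsg.Agent.H28.M2S
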