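import Mathlib
import Cfsg.Prelude.Def_AxialAlgebras

set_option autoImplicit false

/-! Majorana pairs: fusion rules and transport. -/

namespace Cfsg.Agent.H28.Maj

open Cfsg Cfsg.Axial

variable {V : Type*} [AddCommGroup V] [Module ℝ V] {mul : V →ₗ[ℝ] V →ₗ[ℝ] V} {B : LinearMap.BilinForm ℝ V}
  {μ : V ≃ₗ[ℝ] V} {a : V}

theorem mem_eigen {c : ℝ} {v : V} : v ∈ eigen mul a c ↔ mul a v = c • v := Module.End.mem_eigenspace_iff

theorem mem_eS1 {c : ℝ} {v : V} : v ∈ eigenSum mul a {c} ↔ mul a v = c • v := by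
  unfold eigenSum; rw [iSup_singleton, mem_eigen]

theorem mem_eS2 {c d : ℝ} {v : V} : v ∈ eigenSum mul a {c, d} ↔ ∃ x y, v = x + y ∧ mul a x = c • x ∧ mul a y = d • y := by
  unfold eigenSum; rw [iSup_insert, iSup_singleton, Submodule.mem_sup]
  constructor
  · rintro ⟨x, hx, y, hy, rfl⟩; exact ⟨x, y, rfl, mem_eigen.1 hx, mem_eigen.1 hy⟩
  · rintro ⟨x, y, rfl, hx, hy⟩; exact ⟨x, mem_eigen.2 hx, y, mem_eigen.2 hy, rfl⟩

theorem mem_eS3 {c d e : ℝ} {v : V} : v ∈ eigenSum mul a {c, d, e} ↔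
    ∃ x y z, v = x + y + z ∧ mul a x = c • x ∧ mul a y = d • y ∧ mul a z = e • z := by
  unfold eigenSum; rw [iSup_insert, iSup_insert, iSup_singleton, Submodule.mem_sup]
  constructor
  · rintro ⟨x, hx, w, hw, rfl⟩
    obtain ⟨y, hy, z, hz, rfl⟩ := Submodule.mem_sup.1 hw
    exact ⟨x, y, z, by abel, mem_eigen.1 hx, mem_eigen.1 hy, mem_eigen.1 hz⟩
  · rintro ⟨x, y, z, rfl, hx, hy, hz⟩
    exact ⟨x, mem_eigen.2 hx, y + z, Submodule.mem_sup.2 ⟨y, mem_eigen.2 hy, z, mem_eigen.2 hz, rfl⟩, by abel⟩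

theorem mem_eS4 {c d e f : ℝ} {v : V} : v ∈ eigenSum mul a {c, d, e, f} ↔
    ∃ x y z w, v = x + y + z + w ∧ mul a x = c • x ∧ mul a y = d • y ∧ mul a z = e • z ∧ mul a w = f • w := by
  unfold eigenSum; rw [iSup_insert, iSup_insert, iSup_insert, iSup_singleton, Submodule.mem_sup]
  constructor
  · rintro ⟨x, hx, w1, hw1, rfl⟩
    obtain ⟨y, hy, w2, hw2, rfl⟩ := Submodule.mem_sup.1 hw1
    obtain ⟨z, hz, w, hw, rfl⟩ := Submodule.mem_sup.1 hw2
    exact ⟨x, y, z, w, by abel, mem_eigen.1 hx, mem_eigen.1 hy, mem_eigen.1 hz, mem_eigen.1 hw⟩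
  · rintro ⟨x, y, z, w, rfl, hx, hy, hz, hw⟩
    exact ⟨x, mem_eigen.2 hx, y + (z + w), Submodule.mem_sup.2 ⟨y, mem_eigen.2 hy, z + w, Submodule.mem_sup.2 ⟨z, mem_eigen.2 hz, w, mem_eigen.2 hw, rfl⟩, rfl⟩, by abel⟩

section fus

variable (h : IsMajoranaPair mul B μ a)
include h

theorem ne_zero : a ≠ 0 := h.2.2.1.1.1
theorem idem : mul a a = a := h.2.2.1.1.2.1
theorem mulμ (u v : V) : μ (mul u v) = mul (μ u) (μ v) := h.1 u v
theorem Bμ (u v : V) : B (μ u) (μ v) = B u v := h.2.1 u v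

theorem one_eigen {v : V} (hv : mul a v = v) : ∃ t : ℝ, v = t • a := by
  have h1 : v ∈ eigen mul a 1 := mem_eigen.2 (by rw [one_smul]; exact hv)
  rw [h.2.2.1.2, Submodule.mem_span_singleton] at h1
  obtain ⟨t, ht⟩ := h1
  exact ⟨t, ht.symm⟩

/-- decomposition of a vector -/
theorem decomp (v : V) : ∃ (t : ℝ) (y z w : V), v = t • a + y + z + w ∧ mul a y = 0 ∧ mul a z = (1 / 4 : ℝ) • z ∧
    mul a w = (1 / 32 : ℝ) • w := by
  have h1 : v ∈ eigenSum mul a majoranaSpectrum := by rw [h.2.2.1.1.2.2.1]; trivial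
  rw [show majoranaSpectrum = ({1, 0, 1 / 4, 1 / 32} : Set ℝ) from rfl, mem_eS4] at h1
  obtain ⟨x, y, z, w, rfl, hx, hy, hz, hw⟩ := h1
  obtain ⟨t, rfl⟩ := one_eigen h (by rw [hx, one_smul])
  exact ⟨t, y, z, w, rfl, by rw [hy, zero_smul], hz, hw⟩

theorem mu_zero {v : V} (hv : mul a v = 0) : μ v = v := by
  apply h.2.2.2.1
  rw [mem_eS3]
  exact ⟨0, v, 0, by simp, by simp, by rw [hv, zero_smul], by simp⟩

theorem mu_four {v : V} (hv : mul a v = (1 / 4 : ℝ) • v) : μ v = v := by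
  apply h.2.2.2.1
  rw [mem_eS3]
  exact ⟨0, 0, v, by simp, by simp, by simp, hv⟩

theorem mu_a : μ a = a := by
  apply h.2.2.2.1
  rw [mem_eS3]
  exact ⟨a, 0, 0, by simp, by rw [idem h, one_smul], by simp, by simp⟩

theorem mu_32 {v : V} (hv : mul a v = (1 / 32 : ℝ) • v) : μ v = -v := h.2.2.2.2 v (mem_eigen.2 hv)

theorem mu_decomp {t : ℝ} {y z w : V} (hy : mul a y = 0) (hz : mul a z = (1 / 4 : ℝ) • z)
    (hw : mul a w = (1 / 32 : ℝ) • w) : μ (t • a + y + z + w) = t • a + y + z - w := by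
  rw [map_add, map_add, map_add, map_smul, mu_a h, mu_zero h hy, mu_four h hz, mu_32 h hw]; abel

theorem mu_sq (v : V) : μ (μ v) = v := by
  obtain ⟨t, y, z, w, rfl, hy, hz, hw⟩ := decomp h v
  rw [mu_decomp h hy hz hw]
  have : t • a + y + z - w = t • a + y + z + (-w) := by abel
  rw [this, mu_decomp h hy hz (by rw [map_neg, hw, smul_neg])]; abel

theorem fus00 {u v : V} (hu : mul a u = 0) (hv : mul a v = 0) : mul a (mul u v) = 0 := by
  have h1 := h.2.2.1.1.2.2.2 0 (by simp [majoranaSpectrum]) 0 (by simp [majoranaSpectrum]) u (mem_eigen.2 (by rw [hu, zero_smul])) v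
    (mem_eigen.2 (by rw [hv, zero_smul]))
  have h2 : monsterLaw (1 / 4 : ℝ) (1 / 32) 0 0 = {0} := by
    unfold monsterLaw; norm_num
  rw [h2, mem_eS1, zero_smul] at h1
  exact h1

theorem fus04 {u v : V} (hu : mul a u = 0) (hv : mul a v = (1 / 4 : ℝ) • v) : mul a (mul u v) = (1 / 4 : ℝ) • mul u v := by
  have h1 := h.2.2.1.1.2.2.2 0 (by simp [majoranaSpectrum]) (1 / 4) (by simp [majoranaSpectrum]) u (mem_eigen.2 (by rw [hu, zero_smul])) v
    (mem_eigen.2 hv)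
  have h2 : monsterLaw (1 / 4 : ℝ) (1 / 32) 0 (1 / 4) = {1 / 4} := by
    unfold monsterLaw; norm_num
  rw [h2, mem_eS1] at h1
  exact h1

theorem fus44 {u v : V} (hu : mul a u = (1 / 4 : ℝ) • u) (hv : mul a v = (1 / 4 : ℝ) • v) :
    ∃ (t : ℝ) (w : V), mul u v = t • a + w ∧ mul a w = 0 := by
  have h1 := h.2.2.1.1.2.2.2 (1 / 4) (by simp [majoranaSpectrum]) (1 / 4) (by simp [majoranaSpectrum]) u (mem_eigen.2 hu) v
    (mem_eigen.2 hv)
  have h2 : monsterLaw (1 / 4 : ℝ) (1 / 32) (1 / 4) (1 / 4) = {1, 0} := by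
    unfold monsterLaw; norm_num
  rw [h2, mem_eS2] at h1
  obtain ⟨x, y, h3, hx, hy⟩ := h1
  obtain ⟨t, rfl⟩ := one_eigen h (by rw [hx, one_smul])
  exact ⟨t, y, h3, by rw [hy, zero_smul]⟩

end fus

/-- transport by an automorphism -/
theorem transport (h : IsMajoranaPair mul B μ a) (g : V ≃ₗ[ℝ] V) (hg : ∀ u v : V, g (mul u v) = mul (g u) (g v))
    (hgB : ∀ u v : V, B (g u) (g v) = B u v) : IsMajoranaPair mul B (g * μ * g⁻¹) (g a) := by
  have hgi : ∀ u v : V, g⁻¹ (mul u v) = mul (g⁻¹ u) (g⁻¹ v) := by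
    intro u v
    apply g.injective
    rw [hg]
    show g (g.symm (mul u v)) = mul (g (g.symm u)) (g (g.symm v))
    rw [g.apply_symm_apply, g.apply_symm_apply, g.apply_symm_apply]
  have hgBi : ∀ u v : V, B (g⁻¹ u) (g⁻¹ v) = B u v := by
    intro u v
    rw [← hgB]
    show B (g (g.symm u)) (g (g.symm v)) = B u v
    rw [g.apply_symm_apply, g.apply_symm_apply]
  have e1 : ∀ (c : ℝ) (v : V), mul a v = c • v ↔ mul (g a) (g v) = c • g v := by
    intro c v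
    rw [← hg, ← map_smul]
    exact ⟨fun h => by rw [h], fun h => g.injective h⟩
  have e2 : ∀ (c : ℝ), eigen mul (g a) c = (eigen mul a c).map (g : V →ₗ[ℝ] V) := by
    intro c
    ext v
    rw [Submodule.mem_map, mem_eigen]
    constructor
    · intro hv
      refine ⟨g.symm v, mem_eigen.2 ?_, g.apply_symm_apply v⟩
      rw [e1, g.apply_symm_apply]; exact hv
    · rintro ⟨w, hw, rfl⟩
      exact (e1 c w).1 (mem_eigen.1 hw)
  have e3 : ∀ S : Set ℝ, eigenSum mul (g a) S = (eigenSum mul a S).map (g : V →ₗ[ℝ] V) := by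
    intro S
    unfold eigenSum
    rw [Submodule.map_iSup]
    congr 1; ext1 c
    rw [Submodule.map_iSup]
    congr 1; ext1 hc
    exact e2 c
  refine ⟨?_, ?_, ⟨⟨?_, ?_, ?_, ?_⟩, ?_⟩, ?_, ?_⟩
  · intro u v
    show g (μ (g⁻¹ (mul u v))) = mul (g (μ (g⁻¹ u))) (g (μ (g⁻¹ v)))
    rw [hgi, h.1, hg]
  · intro u v
    show B (g (μ (g⁻¹ u))) (g (μ (g⁻¹ v))) = B u v
    rw [hgB, h.2.1, hgBi]
  · intro h0
    exact ne_zero h (by rw [← g.symm_apply_apply a, h0, map_zero])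
  · rw [← hg, idem h]
  · rw [e3, h.2.2.1.1.2.2.1, Submodule.map_top]
    exact LinearEquiv.range g
  · intro c hc d hd u hu v hv
    rw [e2] at hu hv
    obtain ⟨u, hu, rfl⟩ := hu
    obtain ⟨v, hv, rfl⟩ := hv
    rw [e3]
    refine ⟨mul u v, h.2.2.1.1.2.2.2 c hc d hd u hu v hv, ?_⟩
    exact hg u v
  · rw [e2, h.2.2.1.2, Submodule.map_span, Set.image_singleton]; rfl
  · intro v hv
    rw [e3] at hv
    obtain ⟨v, hv, rfl⟩ := hv
    show g (μ (g⁻¹ (g v))) = g v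
    have : g⁻¹ (g v) = v := g.symm_apply_apply v
    rw [this]
    congr 1
    exact h.2.2.2.1 v hv
  · intro v hv
    rw [e2] at hv
    obtain ⟨v, hv, rfl⟩ := hv
    show g (μ (g⁻¹ (g v))) = -g v
    have : g⁻¹ (g v) = v := g.symm_apply_apply v
    rw [this, ← map_neg]
    congr 1
    exact h.2.2.2.2 v hv

end Cfsg.Agent.H28.Maj
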