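import Mathlib
import Cfsg.Agent.H28_Maj

set_option autoImplicit false

/-! Commuting Majorana involutions. -/

namespace Cfsg.Agent.H28.Maj

open Cfsg Cfsg.Axial

variable {V : Type*} [AddCommGroup V] [Module ℝ V] {mul : V →ₗ[ℝ] V →ₗ[ℝ] V} {B : LinearMap.BilinForm ℝ V}
  {μ : V ≃ₗ[ℝ] V} {a : V}

/-- eigenvectors for different eigenvalues are orthogonal -/
theorem orth (hV : IsMajoranaAmbient mul B) {c d : ℝ} (hcd : c ≠ d) {u v : V} (hu : mul a u = c • u) (hv : mul a v = d • v) :
    B u v = 0 := by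
  have h1 : B u (mul a v) = B (mul u a) v := hV.2.2.2.1 u a v
  rw [hV.1 u a, hu, hv, map_smul, map_smul, LinearMap.smul_apply, smul_eq_mul, smul_eq_mul] at h1
  have h2 : (d - c) * B u v = 0 := by linarith
  rcases mul_eq_zero.1 h2 with h | h
  · exact absurd (sub_eq_zero.1 h).symm hcd
  · exact h

/-- a quarter eigenvector in the sum of the 1- and 0-eigenspaces is zero -/
theorem four_disj (h : IsMajoranaPair mul B μ a) {x w : V} {t : ℝ} (hx : mul a x = (1 / 4 : ℝ) • x) (hxw : x = t • a + w)
    (hw : mul a w = 0) : x = 0 := by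
  have h1 : mul a x = t • a := by rw [hxw, map_add, map_smul, idem h, hw, add_zero]
  rw [h1] at hx
  have h2 := congrArg (mul a) hx
  rw [map_smul, map_smul, idem h, h1] at h2
  have h3 : t • a = 0 := by
    have : t • a = (4 / 3 : ℝ) • (t • a - (1 / 4 : ℝ) • t • a) := by module
    rw [this, ← h2, sub_self, smul_zero]
  have : x = (4 : ℝ) • ((1 / 4 : ℝ) • x) := by module
  rw [this, ← hx, h3, smul_zero]

theorem half (hV : IsMajoranaAmbient mul B) (h : IsMajoranaPair mul B μ a) (hn : B a a = 1) {b : V} (hb : mul b b = b)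
    (hμ : μ b = b) :
    mul a (mul a b) = (1 / 4 : ℝ) • mul a b + (3 / 4 * B a b) • a ∧
    mul b (mul a b) + (7 * B a b) • mul a (mul a b) - B a b • mul a b - (3 * B a b ^ 2) • a - (4 : ℝ) • mul (mul a b) (mul a b) =
      ((2 - B a b) / 4) • (mul a b - B a b • a) ∧
    (B a b = 0 → mul a b = 0) := by
  obtain ⟨t, α, β, w, hdec, hα, hβ, hw⟩ := decomp h b
  have hw0 : w = 0 := by
    have h1 := mu_decomp h (t := t) hα hβ hw
    rw [← hdec, hμ, hdec] at h1
    have h2 : w = (1 / 2 : ℝ) • ((t • a + α + β + w) - (t • a + α + β - w)) := by module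
    rw [h2, h1, sub_self, smul_zero]
  rw [hw0, add_zero] at hdec
  have haa := idem h
  have oα : B a α = 0 := orth hV (c := 1) (d := 0) (by norm_num) (by rw [haa, one_smul]) (by rw [hα, zero_smul])
  have oβ : B a β = 0 := orth hV (c := 1) (d := 1 / 4) (by norm_num) (by rw [haa, one_smul]) hβ
  have oαβ : B β α = 0 := orth hV (c := 1 / 4) (d := 0) (by norm_num) hβ (by rw [hα, zero_smul])
  have ht : B a b = t := by
    rw [hdec, map_add, map_add, map_smul, hn, oα, oβ, smul_eq_mul]; ring
  rw [ht]
  have hs : mul a b = t • a + (1 / 4 : ℝ) • β := by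
    rw [hdec, map_add, map_add, map_smul, haa, hα, hβ]; module
  have has : mul a (mul a b) = (1 / 4 : ℝ) • mul a b + (3 / 4 * t) • a := by
    rw [hs, map_add, map_smul, map_smul, haa, hβ]; module
  have hβs : β = (4 : ℝ) • mul a b - (4 * t) • a := by rw [hs]; module
  have hαs : α = b + (3 * t) • a - (4 : ℝ) • mul a b := by
    have : α = b - t • a - β := by
      nth_rw 1 [hdec]; abel
    rw [this, hβs]; module
  have hcm := hV.1
  refine ⟨has, ?_, ?_⟩
  · -- the quarter part of b * b = b
    obtain ⟨t', w', h44, hw'⟩ := fus44 h hβ hβ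
    have h04 := fus04 h hα hβ
    have h00 := fus00 h hα hα
    have hbb : mul b b = (t * t) • a + mul α α + mul β β + (t / 2) • β + (2 : ℝ) • mul α β := by
      have e : mul b b = mul (t • a + α + β) (t • a + α + β) := by rw [← hdec]
      rw [e]
      simp only [map_add, map_smul, LinearMap.add_apply, LinearMap.smul_apply]
      rw [haa, hα, hβ, hcm α a, hα, hcm β a, hβ, hcm β α]
      module
    rw [hb] at hbb
    have hx : mul a ((t / 2) • β + (2 : ℝ) • mul α β - β) = (1 / 4 : ℝ) • ((t / 2) • β + (2 : ℝ) • mul α β - β) := by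
      rw [map_sub, map_add, map_smul, map_smul, h04, hβ]; module
    have hx2 : (t / 2) • β + (2 : ℝ) • mul α β - β = (t - t * t - t') • a + (α - mul α α - w') := by
      have e1 : (t / 2) • β + (2 : ℝ) • mul α β = b - (t * t) • a - mul α α - mul β β := by
        nth_rw 1 [hbb]; module
      rw [e1, h44]
      nth_rw 1 [hdec]; module
    have hx3 := four_disj h hx hx2 (by rw [map_sub, map_sub, hα, h00, hw']; simp)
    have hαβ : mul α β = ((2 - t) / 4) • β := by
      have e1 : mul α β = (1 / 2 : ℝ) • ((t / 2) • β + (2 : ℝ) • mul α β - β) + ((2 - t) / 4) • β := by module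
      rw [hx3, smul_zero, zero_add] at e1
      exact e1
    have e5 : mul α β = (4 : ℝ) • (mul b (mul a b) + (7 * t) • mul a (mul a b) - t • mul a b - (3 * t ^ 2) • a - (4 : ℝ) • mul (mul a b) (mul a b)) := by
      rw [hαs]
      nth_rw 1 [hβs]
      simp only [map_add, map_sub, map_smul, LinearMap.add_apply, LinearMap.sub_apply, LinearMap.smul_apply]
      rw [haa, hcm b a, hcm (mul a b) a]
      module
    have e6 : mul b (mul a b) + (7 * t) • mul a (mul a b) - t • mul a b - (3 * t ^ 2) • a - (4 : ℝ) • mul (mul a b) (mul a b) = (1 / 4 : ℝ) • mul α β := by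
      rw [e5]; module
    rw [e6, hαβ, hβs]; module
  · intro ht0
    have h1 : B a (mul b b) = B (mul a b) b := hV.2.2.2.1 a b b
    rw [hb, ht, ht0] at h1
    have h2 : B (mul a b) b = (1 / 4 : ℝ) * B β β := by
      rw [hs, ht0, zero_smul, zero_add]
      nth_rw 1 [hdec]
      rw [ht0, zero_smul, zero_add, map_add, map_smul, LinearMap.smul_apply, LinearMap.smul_apply, oαβ, smul_eq_mul, smul_eq_mul]; ring
    rw [h2] at h1
    have h3 : β = 0 := by
      by_contra hne
      have := hV.2.2.1 β hne
      linarith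
    rw [hs, ht0, h3]; simp

end Cfsg.Agent.H28.Maj
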