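import Cfsg.Agent.H28_FourGrp

set_option autoImplicit false
set_option linter.all false
open Cfsg
open scoped commutatorElement

namespace Cfsg.Agent.H28.Large

open Cfsg.Agent.H28.Xsp

variable {G : Type*} [Group G] [Finite G]

/-- the set-up of (S5430), (S5431). -/
structure XR (Q Q' : Subgroup G) (z x g : G) : Prop where
  h : Pre Q z
  hQ' : Q' = Q.map (MulAut.conj g).toMonoidHom
  hxg : x = g * z * g⁻¹
  hxQ : x ∈ Q
  hxz : x ≠ z

namespace XR

variable {Q Q' : Subgroup G} {z x g : G}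

theorem h' (S : XR Q Q' z x g) : Pre Q' x := by
  rw [S.hQ', S.hxg]; exact S.h.conj g

theorem hzQ' (S : XR Q Q' z x g) : z ∈ Q' := by
  rw [S.hQ']
  apply S.h.sym_conj
  rw [← S.hxg]; exact S.hxQ

theorem hzx (S : XR Q Q' z x g) : z * x = x * z := S.h.zc x S.hxQ

/-- the members of `V`. -/
abbrev V (z x : G) : Subgroup G := Subgroup.closure ({x, z} : Set G)

theorem mem_V (S : XR Q Q' z x g) {v : G} : v ∈ V z x ↔ v = 1 ∨ v = x ∨ v = z ∨ v = z * x := by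
  constructor
  · exact mem_pair S.h'.sq S.h.sq S.hzx
  · have hx : x ∈ V z x := Subgroup.subset_closure (by simp)
    have hz : z ∈ V z x := Subgroup.subset_closure (by simp)
    rintro (h | h | h | h) <;> rw [h]
    · exact one_mem _
    · exact hx
    · exact hz
    · exact mul_mem hz hx

theorem mem_CV (S : XR Q Q' z x g) {c : G} :
    c ∈ Subgroup.centralizer ((V z x : Subgroup G) : Set G) ↔ c * x = x * c ∧ c * z = z * c := by
  rw [centralizer_closure_pair, Subgroup.mem_inf, Subgroup.mem_centralizer_singleton_iff,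
    Subgroup.mem_centralizer_singleton_iff]

theorem V_le_Q (S : XR Q Q' z x g) : V z x ≤ Q := by
  rw [Subgroup.closure_le]
  intro y hy
  rcases hy with hy | hy
  · rw [hy]; exact S.hxQ
  · rw [Set.mem_singleton_iff] at hy; rw [hy]; exact S.h.mem

theorem V_le_Q' (S : XR Q Q' z x g) : V z x ≤ Q' := by
  rw [Subgroup.closure_le]
  intro y hy
  rcases hy with hy | hy
  · rw [hy]; exact S.h'.mem
  · rw [Set.mem_singleton_iff] at hy; rw [hy]; exact S.hzQ'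

theorem Q_le_NV (S : XR Q Q' z x g) : Q ≤ Subgroup.normalizer ((V z x : Subgroup G) : Set G) :=
  S.h.le_normalizer S.V_le_Q (Subgroup.subset_closure (by simp))

theorem Q'_le_NV (S : XR Q Q' z x g) : Q' ≤ Subgroup.normalizer ((V z x : Subgroup G) : Set G) :=
  S.h'.le_normalizer S.V_le_Q' (Subgroup.subset_closure (by simp))

/-- `C(V)` is normal in `N(V)`. -/
theorem conj_mem_CV {n c : G} (hn : n ∈ Subgroup.normalizer ((V z x : Subgroup G) : Set G))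
    (hc : c ∈ Subgroup.centralizer ((V z x : Subgroup G) : Set G)) :
    n * c * n⁻¹ ∈ Subgroup.centralizer ((V z x : Subgroup G) : Set G) := by
  rw [Subgroup.mem_centralizer_iff] at hc ⊢
  intro v hv
  have h1 : n⁻¹ * v * n ∈ (V z x : Subgroup G) := by
    rw [Subgroup.mem_normalizer_iff.mp hn]
    have : n * (n⁻¹ * v * n) * n⁻¹ = v := by group
    rw [this]; exact hv
  have h2 := hc _ h1
  calc v * (n * c * n⁻¹) = n * ((n⁻¹ * v * n) * c) * n⁻¹ := by group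
    _ = n * (c * (n⁻¹ * v * n)) * n⁻¹ := by rw [h2]
    _ = _ := by group

theorem CV_conj_Q (S : XR Q Q' z x g) {c q : G}
    (hc : c ∈ Subgroup.centralizer ((V z x : Subgroup G) : Set G)) (hq : q ∈ Q) : c * q * c⁻¹ ∈ Q :=
  S.h.conj_mem_of_comm (S.mem_CV.mp hc).2 hq

theorem CV_conj_Q' (S : XR Q Q' z x g) {c q : G}
    (hc : c ∈ Subgroup.centralizer ((V z x : Subgroup G) : Set G)) (hq : q ∈ Q') : c * q * c⁻¹ ∈ Q' :=
  S.h'.conj_mem_of_comm (S.mem_CV.mp hc).1 hq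

/-- `P = C_Q(x)`. -/
abbrev P (Q : Subgroup G) (x : G) : Subgroup G := Q ⊓ Subgroup.centralizer ({x} : Set G)

theorem mem_P {Q : Subgroup G} {x p : G} : p ∈ P Q x ↔ p ∈ Q ∧ p * x = x * p := by
  rw [Subgroup.mem_inf, Subgroup.mem_centralizer_singleton_iff]

theorem P_eq (S : XR Q Q' z x g) {p : G} :
    p ∈ P Q x ↔ p ∈ Q ∧ p ∈ Subgroup.centralizer ((V z x : Subgroup G) : Set G) := by
  rw [mem_P, S.mem_CV]
  constructor
  · rintro ⟨h1, h2⟩; exact ⟨h1, h2, (S.h.zc p h1).symm⟩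
  · rintro ⟨h1, h2, _⟩; exact ⟨h1, h2⟩

theorem P'_eq (S : XR Q Q' z x g) {p : G} :
    p ∈ P Q' z ↔ p ∈ Q' ∧ p ∈ Subgroup.centralizer ((V z x : Subgroup G) : Set G) := by
  rw [mem_P, S.mem_CV]
  constructor
  · rintro ⟨h1, h2⟩; exact ⟨h1, (S.h'.zc p h1).symm, h2⟩
  · rintro ⟨h1, _, h2⟩; exact ⟨h1, h2⟩

/-- `[q, c] ∈ P` for `q ∈ Q`, `c ∈ C(V)`. -/
theorem comm_mem_P (S : XR Q Q' z x g) {q c : G} (hq : q ∈ Q)
    (hc : c ∈ Subgroup.centralizer ((V z x : Subgroup G) : Set G)) : q * c * q⁻¹ * c⁻¹ ∈ P Q x := by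
  rw [S.P_eq]
  constructor
  · have h1 := S.CV_conj_Q hc (Q.inv_mem hq)
    have : q * c * q⁻¹ * c⁻¹ = q * (c * q⁻¹ * c⁻¹) := by group
    rw [this]; exact Q.mul_mem hq h1
  · exact mul_mem (conj_mem_CV (S.Q_le_NV hq) hc) (inv_mem hc)

theorem comm_mem_P' (S : XR Q Q' z x g) {q c : G} (hq : q ∈ Q')
    (hc : c ∈ Subgroup.centralizer ((V z x : Subgroup G) : Set G)) : q * c * q⁻¹ * c⁻¹ ∈ P Q' z := by
  rw [S.P'_eq]
  constructor
  · have h1 := S.CV_conj_Q' hc (Q'.inv_mem hq)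
    have : q * c * q⁻¹ * c⁻¹ = q * (c * q⁻¹ * c⁻¹) := by group
    rw [this]; exact Q'.mul_mem hq h1
  · exact mul_mem (conj_mem_CV (S.Q'_le_NV hq) hc) (inv_mem hc)

/-- `R = P' P`. -/
abbrev R (Q Q' : Subgroup G) (z x : G) : Subgroup G := P Q' z ⊔ P Q x

theorem P_le_N (S : XR Q Q' z x g) : P Q x ≤ Subgroup.normalizer ((P Q' z : Subgroup G) : Set G) := by
  have key : ∀ p ∈ P Q x, ∀ r ∈ P Q' z, p * r * p⁻¹ ∈ P Q' z := by
    intro p hp r hr
    rw [S.P_eq] at hp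
    have hr' := S.P'_eq.mp hr
    rw [S.P'_eq]
    exact ⟨S.CV_conj_Q' hp.2 hr'.1, mul_mem (mul_mem hp.2 hr'.2) (inv_mem hp.2)⟩
  intro p hp
  rw [Subgroup.mem_normalizer_iff]
  intro r
  constructor
  · exact key p hp r
  · intro hr
    have := key p⁻¹ (inv_mem hp) _ hr
    have h2 : p⁻¹ * (p * r * p⁻¹) * p⁻¹⁻¹ = r := by group
    rwa [h2] at this

theorem mem_R (S : XR Q Q' z x g) {r : G} : r ∈ R Q Q' z x ↔ ∃ p ∈ P Q x, ∃ p' ∈ P Q' z, r = p * p' := by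
  constructor
  · intro hr
    rw [R, sup_comm, H2.Card.mem_sup_iff S.P_le_N] at hr
    obtain ⟨a, ha, b, hb, hab⟩ := hr
    exact ⟨a, ha, b, hb, hab.symm⟩
  · rintro ⟨p, hp, p', hp', rfl⟩
    exact mul_mem (Subgroup.mem_sup_right hp) (Subgroup.mem_sup_left hp')

theorem R_le_CV (S : XR Q Q' z x g) : R Q Q' z x ≤ Subgroup.centralizer ((V z x : Subgroup G) : Set G) := by
  apply sup_le
  · intro p hp; exact (S.P'_eq.mp hp).2
  · intro p hp; exact (S.P_eq.mp hp).2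

theorem Q_conj_R (S : XR Q Q' z x g) {q r : G} (hq : q ∈ Q) (hr : r ∈ R Q Q' z x) :
    q * r * q⁻¹ ∈ R Q Q' z x := by
  have h1 : q * r * q⁻¹ = (q * r * q⁻¹ * r⁻¹) * r := by group
  rw [h1]
  exact mul_mem (Subgroup.mem_sup_right (S.comm_mem_P hq (S.R_le_CV hr))) hr

theorem Q'_conj_R (S : XR Q Q' z x g) {q r : G} (hq : q ∈ Q') (hr : r ∈ R Q Q' z x) :
    q * r * q⁻¹ ∈ R Q Q' z x := by
  have h1 : q * r * q⁻¹ = (q * r * q⁻¹ * r⁻¹) * r := by group
  rw [h1]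
  exact mul_mem (Subgroup.mem_sup_left (S.comm_mem_P' hq (S.R_le_CV hr))) hr

theorem le_normalizer_of_conj {A B : Subgroup G} (h : ∀ a ∈ A, ∀ b ∈ B, a * b * a⁻¹ ∈ B) :
    A ≤ Subgroup.normalizer (B : Set G) := by
  intro a ha
  rw [Subgroup.mem_normalizer_iff]
  intro r
  constructor
  · exact h a ha r
  · intro hr
    have := h a⁻¹ (inv_mem ha) _ hr
    have h2 : a⁻¹ * (a * r * a⁻¹) * a⁻¹⁻¹ = r := by group
    rwa [h2] at this

theorem X_le_NR (S : XR Q Q' z x g) :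
    Q ⊔ Q' ≤ Subgroup.normalizer ((R Q Q' z x : Subgroup G) : Set G) :=
  sup_le (le_normalizer_of_conj fun q hq r hr => S.Q_conj_R hq hr)
    (le_normalizer_of_conj fun q hq r hr => S.Q'_conj_R hq hr)

theorem R_le_X : R Q Q' z x ≤ Q ⊔ Q' :=
  sup_le (inf_le_left.trans le_sup_right) (inf_le_left.trans le_sup_left)

theorem V_le_E (S : XR Q Q' z x g) : V z x ≤ Q ⊓ Q' := le_inf S.V_le_Q S.V_le_Q'

theorem E_le_CV (S : XR Q Q' z x g) : Q ⊓ Q' ≤ Subgroup.centralizer ((V z x : Subgroup G) : Set G) := by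
  intro e he
  obtain ⟨h1, h2⟩ := Subgroup.mem_inf.mp he
  rw [S.mem_CV]
  exact ⟨(S.h'.zc e h2).symm, (S.h.zc e h1).symm⟩

theorem E_le_P (S : XR Q Q' z x g) : Q ⊓ Q' ≤ P Q x := fun e he =>
  S.P_eq.mpr ⟨(Subgroup.mem_inf.mp he).1, S.E_le_CV he⟩

theorem E_le_P' (S : XR Q Q' z x g) : Q ⊓ Q' ≤ P Q' z := fun e he =>
  S.P'_eq.mpr ⟨(Subgroup.mem_inf.mp he).2, S.E_le_CV he⟩

theorem P_inf_P' (S : XR Q Q' z x g) : P Q' z ⊓ P Q x = Q ⊓ Q' := by
  apply le_antisymm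
  · intro e he
    obtain ⟨h1, h2⟩ := Subgroup.mem_inf.mp he
    exact Subgroup.mem_inf.mpr ⟨(mem_P.mp h2).1, (mem_P.mp h1).1⟩
  · exact le_inf S.E_le_P' S.E_le_P

/-- the two movers. -/
theorem exists_q (S : XR Q Q' z x g) : ∃ q ∈ Q, q * x * q⁻¹ = z * x :=
  S.h.exists_move S.hxQ S.h'.ne S.hxz

theorem exists_y (S : XR Q Q' z x g) : ∃ y ∈ Q', y * z * y⁻¹ = z * x := by
  obtain ⟨y, hy, hyz⟩ := S.h'.exists_move S.hzQ' S.h.ne S.hxz.symm
  exact ⟨y, hy, by rw [hyz, S.hzx]⟩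

theorem q_z (S : XR Q Q' z x g) {q : G} (hq : q ∈ Q) : q * z * q⁻¹ = z := by
  rw [← S.h.zc q hq, mul_inv_cancel_right]

theorem y_x (S : XR Q Q' z x g) {y : G} (hy : y ∈ Q') : y * x * y⁻¹ = x := by
  rw [← S.h'.zc y hy, mul_inv_cancel_right]

/-- `Q = P ∪ qP`. -/
theorem Q_cases (S : XR Q Q' z x g) {q : G} (hq : q ∈ Q) (hqx : q * x * q⁻¹ = z * x) {a : G}
    (ha : a ∈ Q) : a ∈ P Q x ∨ ∃ p ∈ P Q x, a = p * q := by
  rcases S.h.conj_eq ha S.hxQ with h1 | h1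
  · left
    rw [mem_P]
    exact ⟨ha, mul_inv_eq_iff_eq_mul.mp h1⟩
  · right
    refine ⟨a * q⁻¹, ?_, by group⟩
    rw [mem_P]
    refine ⟨Q.mul_mem ha (Q.inv_mem hq), ?_⟩
    have h2 : q⁻¹ * x * q = z * x := by
      have h3 : q⁻¹ * (z * x) * q = x := by rw [← hqx]; group
      have h4 : q⁻¹ * z * q = z := by
        have := S.q_z hq
        calc q⁻¹ * z * q = q⁻¹ * (q * z * q⁻¹) * q := by rw [this]
          _ = z := by group
      have h5 : q⁻¹ * (z * x) * q = (q⁻¹ * z * q) * (q⁻¹ * x * q) := by group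
      rw [h5, h4] at h3
      calc q⁻¹ * x * q = (z * z) * (q⁻¹ * x * q) := by rw [S.h.sq, one_mul]
        _ = z * (z * (q⁻¹ * x * q)) := by group
        _ = _ := by rw [h3]
    have h6 : a * q⁻¹ * x * (a * q⁻¹)⁻¹ = x := by
      calc a * q⁻¹ * x * (a * q⁻¹)⁻¹ = a * (q⁻¹ * x * q) * a⁻¹ := by group
        _ = a * (z * x) * a⁻¹ := by rw [h2]
        _ = (a * z * a⁻¹) * (a * x * a⁻¹) := by group
        _ = z * (z * x) := by rw [S.q_z ha, h1]
        _ = x := by rw [← mul_assoc, S.h.sq, one_mul]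
    exact mul_inv_eq_iff_eq_mul.mp h6

/-- swap roles. -/
theorem symm (S : XR Q Q' z x g) : XR Q' Q x z g⁻¹ where
  h := S.h'
  hQ' := by
    rw [S.hQ']
    ext y
    rw [mem_map_conj, mem_map_conj]
    have : g⁻¹ * (g⁻¹⁻¹ * y * g⁻¹) * g = y := by group
    rw [this]
  hxg := by rw [S.hxg]; group
  hxQ := S.hzQ'
  hxz := S.hxz.symm

theorem V_symm : V x z = V z x := by
  unfold V
  rw [Set.pair_comm]

theorem Q'_cases (S : XR Q Q' z x g) {y : G} (hy : y ∈ Q') (hyz : y * z * y⁻¹ = z * x) {a : G}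
    (ha : a ∈ Q') : a ∈ P Q' z ∨ ∃ p ∈ P Q' z, a = p * y := by
  apply S.symm.Q_cases hy (by rw [hyz, S.hzx]) ha

theorem q_sq (S : XR Q Q' z x g) {q : G} (hq : q ∈ Q) : q * q ∈ R Q Q' z x := by
  have hz : z ∈ P Q x := by rw [mem_P]; exact ⟨S.h.mem, S.hzx⟩
  rcases S.h.sqr q hq with h | h <;> rw [h]
  · exact one_mem _
  · exact Subgroup.mem_sup_right hz

theorem y_sq (S : XR Q Q' z x g) {y : G} (hy : y ∈ Q') : y * y ∈ R Q Q' z x := by
  have hx : x ∈ P Q' z := by rw [mem_P]; exact ⟨S.h'.mem, S.hzx.symm⟩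
  rcases S.h'.sqr y hy with h | h <;> rw [h]
  · exact one_mem _
  · exact Subgroup.mem_sup_left hx

/-- key: `q y q⁻¹ (y q y⁻¹)⁻¹ ∈ R`. -/
theorem braid (S : XR Q Q' z x g) {q y : G} (hq : q ∈ Q) (hqx : q * x * q⁻¹ = z * x)
    (hy : y ∈ Q') (hyz : y * z * y⁻¹ = z * x) :
    (q * y * q⁻¹) * (y * q * y⁻¹) ∈ R Q Q' z x := by
  -- both lie in Q'' = y Q y⁻¹ = q Q' q⁻¹
  have hQQ : Q'.map (MulAut.conj q).toMonoidHom = Q.map (MulAut.conj y).toMonoidHom := by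
    have h1 : Q'.map (MulAut.conj q).toMonoidHom = Q.map (MulAut.conj (q * g)).toMonoidHom := by
      rw [S.hQ']
      ext w
      rw [mem_map_conj, mem_map_conj, mem_map_conj]
      have : g⁻¹ * (q⁻¹ * w * q) * g = (q * g)⁻¹ * w * (q * g) := by group
      rw [this]
    rw [h1]
    apply S.h.map_conj_eq
    rw [hyz, ← hqx, S.hxg]; group
  have hmem1 : q * y * q⁻¹ ∈ Q'.map (MulAut.conj q).toMonoidHom := ⟨y, hy, rfl⟩
  have hmem2 : y * q * y⁻¹ ∈ Q'.map (MulAut.conj q).toMonoidHom := by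
    rw [hQQ]; exact ⟨q, hq, rfl⟩
  have hmem : (q * y * q⁻¹) * (y * q * y⁻¹) ∈ Q'.map (MulAut.conj q).toMonoidHom := mul_mem hmem1 hmem2
  rw [mem_map_conj] at hmem
  -- it centralizes V
  have hcent : (q * y * q⁻¹) * (y * q * y⁻¹) ∈ Subgroup.centralizer ((V z x : Subgroup G) : Set G) := by
    have hqz := S.q_z hq
    have hyx := S.y_x hy
    have hqzx : q * (z * x) * q⁻¹ = x := by
      calc q * (z * x) * q⁻¹ = (q * z * q⁻¹) * (q * x * q⁻¹) := by group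
        _ = x := by rw [hqz, hqx, ← mul_assoc, S.h.sq, one_mul]
    have hyzx : y * (z * x) * y⁻¹ = z := by
      calc y * (z * x) * y⁻¹ = (y * z * y⁻¹) * (y * x * y⁻¹) := by group
        _ = z := by rw [hyz, hyx, mul_assoc, S.h'.sq, mul_one]
    -- inverses
    have inv_of : ∀ a b c : G, a * b * a⁻¹ = c → a⁻¹ * c * a = b := by
      intro a b c h; rw [← h]; group
    have hqx' : q⁻¹ * x * q = z * x := inv_of _ _ _ hqzx
    have hqz' : q⁻¹ * z * q = z := inv_of _ _ _ hqz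
    have hqzx' : q⁻¹ * (z * x) * q = x := inv_of _ _ _ hqx
    have hyx' : y⁻¹ * x * y = x := inv_of _ _ _ hyx
    have hyz' : y⁻¹ * z * y = z * x := inv_of _ _ _ hyzx
    have hyzx' : y⁻¹ * (z * x) * y = z := inv_of _ _ _ hyz
    rw [S.mem_CV]
    constructor
    · rw [← mul_inv_eq_iff_eq_mul]
      calc q * y * q⁻¹ * (y * q * y⁻¹) * x * (q * y * q⁻¹ * (y * q * y⁻¹))⁻¹
          = q * (y * (q⁻¹ * (y * (q * (y⁻¹ * x * y) * q⁻¹) * y⁻¹) * q) * y⁻¹) * q⁻¹ := by group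
        _ = x := by rw [hyx', hqx, hyzx, hqz', hyz, hqzx]
    · rw [← mul_inv_eq_iff_eq_mul]
      calc q * y * q⁻¹ * (y * q * y⁻¹) * z * (q * y * q⁻¹ * (y * q * y⁻¹))⁻¹
          = q * (y * (q⁻¹ * (y * (q * (y⁻¹ * z * y) * q⁻¹) * y⁻¹) * q) * y⁻¹) * q⁻¹ := by group
        _ = z := by rw [hyz', hqzx, hyx, hqx', hyzx, hqz]
  -- so q⁻¹ (..) q ∈ P'
  set u := (q * y * q⁻¹) * (y * q * y⁻¹) with hu
  have h1 : q⁻¹ * u * q ∈ P Q' z := by
    rw [S.P'_eq]
    refine ⟨hmem, ?_⟩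
    have := conj_mem_CV (S.Q_le_NV (Q.inv_mem hq)) hcent
    simpa using this
  have h2 : u = q * (q⁻¹ * u * q) * q⁻¹ := by group
  rw [h2]
  exact S.Q_conj_R hq (Subgroup.mem_sup_left h1)

/-- normal form of elements of `X`. -/
theorem X_cases (S : XR Q Q' z x g) {q y : G} (hq : q ∈ Q) (hqx : q * x * q⁻¹ = z * x)
    (hy : y ∈ Q') (hyz : y * z * y⁻¹ = z * x) {a : G} (ha : a ∈ Q ⊔ Q') :
    ∃ r ∈ R Q Q' z x, ∃ w ∈ ({1, q, y, q * y, y * q, q * y * q} : Set G), a = r * w := by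
  have hRn := S.X_le_NR
  have hqX : q ∈ Q ⊔ Q' := Subgroup.mem_sup_left hq
  have hyX : y ∈ Q ⊔ Q' := Subgroup.mem_sup_right hy
  -- moving r through
  have hmv : ∀ w ∈ Q ⊔ Q', ∀ r ∈ R Q Q' z x, w * r * w⁻¹ ∈ R Q Q' z x := fun w hw r hr =>
    (Subgroup.mem_normalizer_iff.mp (hRn hw) r).mp hr
  -- the set T of such elements is closed under left multiplication by Q and Q'
  have hbr := S.braid hq hqx hy hyz
  have hqq := S.q_sq hq
  have hyy := S.y_sq hy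
  -- congruence notation: a ~ b iff a b⁻¹ ∈ R
  let W : Set G := {1, q, y, q * y, y * q, q * y * q}
  have hWX : ∀ w ∈ W, w ∈ Q ⊔ Q' := by
    intro w hw
    rcases hw with rfl | rfl | rfl | rfl | rfl | rfl
    · exact one_mem _
    · exact hqX
    · exact hyX
    · exact mul_mem hqX hyX
    · exact mul_mem hyX hqX
    · exact mul_mem (mul_mem hqX hyX) hqX
  have hyqy : ∃ r ∈ R Q Q' z x, y * q * y = r * (q * y * q) := by
    -- (q y q⁻¹)(y q y⁻¹) = s ∈ R ; q⁻¹ = (q q)⁻¹ q ...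
    refine ⟨(y * q * y) * (q * y * q)⁻¹, ?_, by group⟩
    -- y q y q⁻¹ y⁻¹ q⁻¹ ; use s⁻¹ = y q⁻¹ y⁻¹ q y⁻¹ q⁻¹
    have h1 := inv_mem hbr
    have h2 : ((q * y * q⁻¹) * (y * q * y⁻¹))⁻¹ = y * q⁻¹ * y⁻¹ * q * y⁻¹ * q⁻¹ := by group
    rw [h2] at h1
    -- want y q y q⁻¹ y⁻¹ q⁻¹
    -- y q y q⁻¹ = y (q q) q⁻¹ · y⁻¹ (y y) · q⁻¹... do it in steps
    have h3 : (y * q * y) * (q * y * q)⁻¹ =
        (y * (q * q) * y⁻¹) * ((y * q⁻¹) * (y * y) * (y * q⁻¹)⁻¹) *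
          ((y * q⁻¹ * y⁻¹) * (q * q)⁻¹ * (y * q⁻¹ * y⁻¹)⁻¹) *
          (y * q⁻¹ * y⁻¹ * q * y⁻¹ * q⁻¹) := by group
    rw [h3]
    have hyq : y * q⁻¹ ∈ Q ⊔ Q' := mul_mem hyX (inv_mem hqX)
    exact mul_mem (mul_mem (mul_mem (hmv y hyX _ hqq) (hmv _ hyq _ hyy))
      (hmv _ (mul_mem hyq (inv_mem hyX)) _ (inv_mem hqq))) h1
  have hqW : ∀ w ∈ W, ∃ r ∈ R Q Q' z x, ∃ w' ∈ W, q * w = r * w' := by
    intro w hw
    rcases hw with rfl | rfl | rfl | rfl | rfl | rfl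
    · exact ⟨1, one_mem _, q, by simp [W], by group⟩
    · exact ⟨w * w, hqq, 1, by simp [W], by group⟩
    · exact ⟨1, one_mem _, q * w, by simp [W], by group⟩
    · exact ⟨q * q, hqq, y, by simp [W], by group⟩
    · exact ⟨1, one_mem _, q * y * q, by simp [W], by group⟩
    · exact ⟨q * q, hqq, y * q, by simp [W], by group⟩
  have hyW : ∀ w ∈ W, ∃ r ∈ R Q Q' z x, ∃ w' ∈ W, y * w = r * w' := by
    intro w hw
    obtain ⟨s, hs, hsy⟩ := hyqy
    rcases hw with rfl | rfl | rfl | rfl | rfl | rfl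
    · exact ⟨1, one_mem _, y, by simp [W], by group⟩
    · exact ⟨1, one_mem _, y * w, by simp [W], by group⟩
    · exact ⟨w * w, hyy, 1, by simp [W], by group⟩
    · exact ⟨s, hs, q * y * q, by simp [W], by rw [← hsy]; group⟩
    · exact ⟨y * y, hyy, q, by simp [W], by group⟩
    · -- y q y q = s (q y q) q = s (qy (qq) (qy)⁻¹) q y
      refine ⟨s * ((q * y) * (q * q) * (q * y)⁻¹), mul_mem hs (hmv _ (mul_mem hqX hyX) _ hqq),
        q * y, by simp [W], ?_⟩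
      calc y * (q * y * q) = (y * q * y) * q := by group
        _ = s * (q * y * q) * q := by rw [hsy]
        _ = _ := by group
  have hstepQ : ∀ b ∈ Q, ∀ c, (∃ r ∈ R Q Q' z x, ∃ w ∈ W, c = r * w) →
      ∃ r ∈ R Q Q' z x, ∃ w ∈ W, b * c = r * w := by
    rintro b hb c ⟨r, hr, w, hw, rfl⟩
    have hbX : b ∈ Q ⊔ Q' := Subgroup.mem_sup_left hb
    rcases S.Q_cases hq hqx hb with h1 | ⟨p, hp, h1⟩
    · exact ⟨b * r, mul_mem (Subgroup.mem_sup_right h1) hr, w, hw, by group⟩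
    · obtain ⟨s, hs, w', hw', h2⟩ := hqW w hw
      refine ⟨p * (q * r * q⁻¹) * s, mul_mem (mul_mem (Subgroup.mem_sup_right hp) (hmv q hqX r hr)) hs,
        w', hw', ?_⟩
      rw [h1]
      calc p * q * (r * w) = p * (q * r * q⁻¹) * (q * w) := by group
        _ = _ := by rw [h2]; group
  have hstepQ' : ∀ b ∈ Q', ∀ c, (∃ r ∈ R Q Q' z x, ∃ w ∈ W, c = r * w) →
      ∃ r ∈ R Q Q' z x, ∃ w ∈ W, b * c = r * w := by
    rintro b hb c ⟨r, hr, w, hw, rfl⟩
    have hbX : b ∈ Q ⊔ Q' := Subgroup.mem_sup_right hb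
    rcases S.Q'_cases hy hyz hb with h1 | ⟨p, hp, h1⟩
    · exact ⟨b * r, mul_mem (Subgroup.mem_sup_left h1) hr, w, hw, by group⟩
    · obtain ⟨s, hs, w', hw', h2⟩ := hyW w hw
      refine ⟨p * (y * r * y⁻¹) * s, mul_mem (mul_mem (Subgroup.mem_sup_left hp) (hmv y hyX r hr)) hs,
        w', hw', ?_⟩
      rw [h1]
      calc p * y * (r * w) = p * (y * r * y⁻¹) * (y * w) := by group
        _ = _ := by rw [h2]; group
  rw [← Subgroup.closure_eq Q, ← Subgroup.closure_eq Q', ← Subgroup.closure_union] at ha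
  induction ha using Subgroup.closure_induction_left with
  | one => exact ⟨1, one_mem _, 1, by simp, by simp⟩
  | mul_left b hb c _ ih =>
    rcases hb with hb | hb
    · exact hstepQ b hb c ih
    · exact hstepQ' b hb c ih
  | inv_mul_cancel b hb c _ ih =>
    rcases hb with hb | hb
    · exact hstepQ b⁻¹ (Q.inv_mem hb) c ih
    · exact hstepQ' b⁻¹ (Q'.inv_mem hb) c ih

theorem X_inf_CV (S : XR Q Q' z x g) :
    R Q Q' z x = (Q ⊔ Q') ⊓ Subgroup.centralizer ((V z x : Subgroup G) : Set G) := by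
  apply le_antisymm (le_inf R_le_X S.R_le_CV)
  intro a ha
  obtain ⟨haX, haC⟩ := Subgroup.mem_inf.mp ha
  obtain ⟨q, hq, hqx⟩ := S.exists_q
  obtain ⟨y, hy, hyz⟩ := S.exists_y
  obtain ⟨r, hr, w, hw, rfl⟩ := S.X_cases hq hqx hy hyz haX
  have hwC : w ∈ Subgroup.centralizer ((V z x : Subgroup G) : Set G) := by
    have := mul_mem (inv_mem (S.R_le_CV hr)) haC
    rwa [inv_mul_cancel_left] at this
  have hqz := S.q_z hq
  have hyx := S.y_x hy
  have hqzx : q * (z * x) * q⁻¹ = x := by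
    calc q * (z * x) * q⁻¹ = (q * z * q⁻¹) * (q * x * q⁻¹) := by group
      _ = x := by rw [hqz, hqx, ← mul_assoc, S.h.sq, one_mul]
  have hyzx : y * (z * x) * y⁻¹ = z := by
    calc y * (z * x) * y⁻¹ = (y * z * y⁻¹) * (y * x * y⁻¹) := by group
      _ = z := by rw [hyz, hyx, mul_assoc, S.h'.sq, mul_one]
  rw [S.mem_CV, ← mul_inv_eq_iff_eq_mul, ← mul_inv_eq_iff_eq_mul] at hwC
  have hzx1 : z * x ≠ x := by
    intro h; exact S.h.ne ((mul_eq_right (a := z)).mp h)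
  have hzx2 : z * x ≠ z := by
    intro h; exact S.h'.ne ((mul_eq_left (b := x)).mp h)
  obtain ⟨hw1, hw2⟩ := hwC
  rcases hw with rfl | rfl | rfl | rfl | rfl | rfl
  · rw [mul_one]; exact hr
  · exact absurd (hqx.symm.trans hw1) hzx1
  · exact absurd (hyz.symm.trans hw2) hzx2
  · exfalso
    have h1 : q * y * x * (q * y)⁻¹ = q * (y * x * y⁻¹) * q⁻¹ := by group
    rw [h1, hyx, hqx] at hw1
    exact hzx1 hw1
  · exfalso
    have h1 : y * q * z * (y * q)⁻¹ = y * (q * z * q⁻¹) * y⁻¹ := by group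
    rw [h1, hqz, hyz] at hw2
    exact hzx2 hw2
  · exfalso
    have h1 : q * y * q * z * (q * y * q)⁻¹ = q * (y * (q * z * q⁻¹) * y⁻¹) * q⁻¹ := by group
    rw [h1, hqz, hyz, hqzx] at hw2
    exact S.hxz hw2

theorem X_le_NV (S : XR Q Q' z x g) :
    Q ⊔ Q' ≤ Subgroup.normalizer ((V z x : Subgroup G) : Set G) := sup_le S.Q_le_NV S.Q'_le_NV

/-- every element of `N(V)` acts on `V` as an element of `X`. -/
theorem exists_X (S : XR Q Q' z x g) {n : G}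
    (hn : n ∈ Subgroup.normalizer ((V z x : Subgroup G) : Set G)) :
    ∃ u ∈ Q ⊔ Q', u⁻¹ * n ∈ Subgroup.centralizer ((V z x : Subgroup G) : Set G) := by
  obtain ⟨q, hq, hqx⟩ := S.exists_q
  obtain ⟨y, hy, hyz⟩ := S.exists_y
  have hqX : q ∈ Q ⊔ Q' := Subgroup.mem_sup_left hq
  have hyX : y ∈ Q ⊔ Q' := Subgroup.mem_sup_right hy
  have hqz := S.q_z hq
  have hyx := S.y_x hy
  have hqzx : q * (z * x) * q⁻¹ = x := by
    calc q * (z * x) * q⁻¹ = (q * z * q⁻¹) * (q * x * q⁻¹) := by group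
      _ = x := by rw [hqz, hqx, ← mul_assoc, S.h.sq, one_mul]
  have hyzx : y * (z * x) * y⁻¹ = z := by
    calc y * (z * x) * y⁻¹ = (y * z * y⁻¹) * (y * x * y⁻¹) := by group
      _ = z := by rw [hyz, hyx, mul_assoc, S.h'.sq, mul_one]
  have key : ∀ u ∈ Q ⊔ Q', u * z * u⁻¹ = n * z * n⁻¹ → u * x * u⁻¹ = n * x * n⁻¹ →
      ∃ u ∈ Q ⊔ Q', u⁻¹ * n ∈ Subgroup.centralizer ((V z x : Subgroup G) : Set G) := by
    intro u hu h1 h2
    refine ⟨u, hu, ?_⟩
    rw [S.mem_CV]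
    constructor
    · calc u⁻¹ * n * x = u⁻¹ * (n * x * n⁻¹) * n := by group
        _ = u⁻¹ * (u * x * u⁻¹) * n := by rw [h2]
        _ = _ := by group
    · calc u⁻¹ * n * z = u⁻¹ * (n * z * n⁻¹) * n := by group
        _ = u⁻¹ * (u * z * u⁻¹) * n := by rw [h1]
        _ = _ := by group
  have hx1 := S.h'.ne
  have hz1 := S.h.ne
  have hxz := S.hxz
  have hzV : z ∈ V z x := S.mem_V.mpr (by simp)
  have hxV : x ∈ V z x := S.mem_V.mpr (by simp)
  rw [Subgroup.mem_normalizer_iff] at hn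
  have h1 := S.mem_V.mp ((hn z).mp hzV)
  have h2 := S.mem_V.mp ((hn x).mp hxV)
  have h3 : n * z * n⁻¹ ≠ 1 := by
    intro h; apply hz1
    rw [mul_inv_eq_iff_eq_mul, one_mul] at h
    exact (mul_eq_left (a := n)).mp h
  have h4 : n * x * n⁻¹ ≠ 1 := by
    intro h; apply hx1
    rw [mul_inv_eq_iff_eq_mul, one_mul] at h
    exact (mul_eq_left (a := n)).mp h
  have h5 : n * z * n⁻¹ ≠ n * x * n⁻¹ := by
    intro h; apply hxz
    exact (mul_left_cancel (mul_right_cancel h)).symm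
  rcases h1 with h1 | h1 | h1 | h1
  · exact absurd h1 h3
  · rcases h2 with h2 | h2 | h2 | h2
    · exact absurd h2 h4
    · exact absurd (h1.trans h2.symm) h5
    · -- (x, z) : q y q
      apply key (q * y * q) (mul_mem (mul_mem hqX hyX) hqX)
      · rw [h1]
        calc q * y * q * z * (q * y * q)⁻¹ = q * (y * (q * z * q⁻¹) * y⁻¹) * q⁻¹ := by group
          _ = x := by rw [hqz, hyz, hqzx]
      · rw [h2]
        calc q * y * q * x * (q * y * q)⁻¹ = q * (y * (q * x * q⁻¹) * y⁻¹) * q⁻¹ := by group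
          _ = z := by rw [hqx, hyzx, hqz]
    · -- (x, zx) : q y
      apply key (q * y) (mul_mem hqX hyX)
      · rw [h1]
        calc q * y * z * (q * y)⁻¹ = q * (y * z * y⁻¹) * q⁻¹ := by group
          _ = x := by rw [hyz, hqzx]
      · rw [h2]
        calc q * y * x * (q * y)⁻¹ = q * (y * x * y⁻¹) * q⁻¹ := by group
          _ = z * x := by rw [hyx, hqx]
  · rcases h2 with h2 | h2 | h2 | h2
    · exact absurd h2 h4
    · apply key 1 (one_mem _)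
      · rw [h1]; group
      · rw [h2]; group
    · exact absurd (h1.trans h2.symm) h5
    · exact key q hqX (by rw [h1, hqz]) (by rw [h2, hqx])
  · rcases h2 with h2 | h2 | h2 | h2
    · exact absurd h2 h4
    · exact key y hyX (by rw [h1, hyz]) (by rw [h2, hyx])
    · -- (zx, z): y q
      apply key (y * q) (mul_mem hyX hqX)
      · rw [h1]
        calc y * q * z * (y * q)⁻¹ = y * (q * z * q⁻¹) * y⁻¹ := by group
          _ = z * x := by rw [hqz, hyz]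
      · rw [h2]
        calc y * q * x * (y * q)⁻¹ = y * (q * x * q⁻¹) * y⁻¹ := by group
          _ = z := by rw [hqx, hyzx]
    · exact absurd (h1.trans h2.symm) h5

theorem CV_le_NX (S : XR Q Q' z x g) {c u : G}
    (hc : c ∈ Subgroup.centralizer ((V z x : Subgroup G) : Set G)) (hu : u ∈ Q ⊔ Q') :
    c * u * c⁻¹ ∈ Q ⊔ Q' := by
  rw [← Subgroup.closure_eq Q, ← Subgroup.closure_eq Q', ← Subgroup.closure_union] at hu
  induction hu using Subgroup.closure_induction with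
  | mem a ha =>
    rcases ha with ha | ha
    · exact Subgroup.mem_sup_left (S.CV_conj_Q hc ha)
    · exact Subgroup.mem_sup_right (S.CV_conj_Q' hc ha)
  | one => rw [mul_one, mul_inv_cancel]; exact one_mem _
  | mul a b _ _ ha hb =>
    have : c * (a * b) * c⁻¹ = (c * a * c⁻¹) * (c * b * c⁻¹) := by group
    rw [this]; exact mul_mem ha hb
  | inv a _ ha =>
    have : c * a⁻¹ * c⁻¹ = (c * a * c⁻¹)⁻¹ := by group
    rw [this]; exact inv_mem ha

/-- `[X, C(V)] ≤ R`. -/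
theorem comm_X_CV (S : XR Q Q' z x g) {c u : G}
    (hc : c ∈ Subgroup.centralizer ((V z x : Subgroup G) : Set G)) (hu : u ∈ Q ⊔ Q') :
    u * c * u⁻¹ * c⁻¹ ∈ R Q Q' z x := by
  rw [S.X_inf_CV, Subgroup.mem_inf]
  constructor
  · have h1 := S.CV_le_NX hc (inv_mem hu)
    have : u * c * u⁻¹ * c⁻¹ = u * (c * u⁻¹ * c⁻¹) := by group
    rw [this]; exact mul_mem hu h1
  · exact mul_mem (conj_mem_CV (S.X_le_NV hu) hc) (inv_mem hc)

theorem R_isPGroup (S : XR Q Q' z x g) : IsPGroup 2 (R Q Q' z x : Subgroup G) := by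
  have : Fact (Nat.Prime 2) := ⟨Nat.prime_two⟩
  have h1 : IsPGroup 2 (P Q x : Subgroup G) := S.h.isPGroup.to_le inf_le_left
  have h2 : IsPGroup 2 (P Q' z : Subgroup G) := S.h'.isPGroup.to_le inf_le_left
  exact h2.to_sup_of_normal_left' h1 S.P_le_N

end XR

end Cfsg.Agent.H28.Large
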