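import Mathlib
import Cfsg.Agent.H28_M2S
import Cfsg.Agent.H28_M2F
import Cfsg.Agent.H28_XR

set_option autoImplicit false

/-!
Groups of Monster type: abstract set-up.
-/

namespace Cfsg.Agent.H28.Mon

open Cfsg Cfsg.Agent.H28.Xsp Cfsg.Agent.H28.Large
open Cfsg.Agent.H7.Co Cfsg.Agent.H7.Co3 Cfsg.Agent.H7.Co4 Cfsg.Agent.H7.Co5 Cfsg.Agent.H7.Co6 Cfsg.Agent.H28.M2L Cfsg.Agent.H28.M2A Cfsg.Agent.H28.M2N

variable {G : Type*} [Group G] [Finite G]

/-- The abstract set-up: `Rel v x` says that the class of the lattice vector `v` corresponds to `x ∈ Q` modulo `z`, `Act g c`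
that the lattice automorphism `g` (modulo sign) corresponds to `c ∈ C(z)` modulo `Q`. -/
structure MS (z : G) (Q : Subgroup G) (Rel : leechLattice → G → Prop) (Act : Co0 → G → Prop) : Prop where
  pre : Pre Q z
  card : Nat.card Q = 2 ^ 25
  rel_mem : ∀ {v x}, Rel v x → x ∈ Q
  rel_ex : ∀ v, ∃ x, Rel v x
  rel_ex' : ∀ {x}, x ∈ Q → ∃ v, Rel v x
  rel_mul : ∀ {v w x y}, Rel v x → Rel w y → Rel (v + w) (x * y)
  rel_eq : ∀ {v x y}, Rel v x → Rel v y → y = x ∨ y = z * x
  rel_z : ∀ {v x}, Rel v x → Rel v (z * x)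
  rel_cg : ∀ {v w x}, Rel v x → Rel w x → Cg v w
  rel_of_cg : ∀ {v w x}, Cg v w → Rel v x → Rel w x
  act_cen : ∀ {g c}, Act g c → c * z = z * c
  act_rel : ∀ {g c v x}, Act g c → Rel v x → Rel (g • v) (c * x * c⁻¹)
  act_ex : ∀ g, ∃ c, Act g c
  act_ex' : ∀ {c}, c * z = z * c → ∃ g, Act g c
  act_mul : ∀ {g c g' c'}, Act g c → Act g' c' → Act (g * g') (c * c')
  act_inv : ∀ {g c}, Act g c → Act g⁻¹ c⁻¹
  act_one : ∀ {c}, Act 1 c ↔ c ∈ Q
  act_m1 : ∀ {g c}, Act g c → Act (m1 * g) c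
  act_uniq : ∀ {g h c}, Act g c → Act h c → h = g ∨ h = m1 * g

namespace MS

variable {z : G} {Q : Subgroup G} {Rel : leechLattice → G → Prop} {Act : Co0 → G → Prop}

theorem rel_zero (M : MS z Q Rel Act) : Rel 0 1 := by
  obtain ⟨v, hv⟩ := M.rel_ex' Q.one_mem
  have h := M.rel_mul hv hv
  rw [mul_one] at h
  have h1 : Cg v (v + v) := M.rel_cg hv h
  refine M.rel_of_cg ?_ hv
  obtain ⟨x, hx⟩ := h1
  refine ⟨-x, ?_⟩
  have : v = v + v + (x + x) := hx
  have h2 : v + (v + (x + x)) = v + 0 := by rw [add_zero, ← add_assoc]; exact this.symm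
  have h3 := add_left_cancel h2
  rw [zero_add]
  have h4 : v = -(x + x) := by rw [eq_neg_iff_add_eq_zero]; exact h3
  rw [h4]; abel

theorem rel_zero_z (M : MS z Q Rel Act) : Rel 0 z := by
  have := M.rel_z M.rel_zero
  rwa [mul_one] at this

theorem ne_of (M : MS z Q Rel Act) {v : leechLattice} {x : G} (h : Rel v x) (hv : ¬ Cg v 0) : x ≠ 1 ∧ x ≠ z := by
  constructor
  · rintro rfl; exact hv (M.rel_cg h M.rel_zero)
  · rintro rfl; exact hv (M.rel_cg h M.rel_zero_z)

theorem cg_zero_of (M : MS z Q Rel Act) {v : leechLattice} {x : G} (h : Rel v x) (hv : Cg v 0) : x = 1 ∨ x = z := by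
  have := M.rel_eq M.rel_zero (M.rel_of_cg hv h)
  rwa [mul_one] at this

/-- the squaring form -/
noncomputable def sqf (Rel : leechLattice → G → Prop) (v : leechLattice) : ZMod 2 := by
  classical
  exact if ∃ x, Rel v x ∧ x * x = 1 then 0 else 1

theorem zz (M : MS z Q Rel Act) : z * z = 1 := M.pre.sq

theorem sqf_eq (M : MS z Q Rel Act) {v : leechLattice} {x : G} (h : Rel v x) :
    (sqf Rel v = 0 ↔ x * x = 1) ∧ (sqf Rel v = 1 ↔ x * x = z) := by
  classical
  have hx := M.rel_mem h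
  have key : (∃ x, Rel v x ∧ x * x = 1) ↔ x * x = 1 := by
    constructor
    · rintro ⟨y, hy, hyy⟩
      rcases M.rel_eq h hy with rfl | rfl
      · exact hyy
      · have h2 : z * x * (z * x) = z * z * (x * x) := by
          calc z * x * (z * x) = z * (x * z) * x := by group
            _ = z * (z * x) * x := by rw [M.pre.zc x hx]
            _ = _ := by group
        rw [h2, M.zz, one_mul] at hyy
        exact hyy
    · intro h1; exact ⟨x, h, h1⟩
  unfold sqf
  by_cases h1 : x * x = 1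
  · rw [if_pos (key.2 h1)]
    refine ⟨⟨fun _ => h1, fun _ => rfl⟩, ⟨fun h => absurd h (by decide), fun h => ?_⟩⟩
    rw [h1] at h
    exact absurd h.symm M.pre.ne
  · rw [if_neg (fun h => h1 (key.1 h))]
    refine ⟨⟨fun h => absurd h (by decide), fun h => absurd h h1⟩, ⟨fun _ => ?_, fun _ => rfl⟩⟩
    exact (M.pre.sqr x hx).resolve_left h1

/-- `z` to a power -/
def zp (z : G) (a : ZMod 2) : G := z ^ a.val

omit [Finite G] in
theorem zp_add {z : G} (hz : z * z = 1) (a b : ZMod 2) : zp z (a + b) = zp z a * zp z b := by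
  have h2 : ∀ n : ℕ, z ^ (n % 2) = z ^ n := by
    intro n
    conv_rhs => rw [← Nat.div_add_mod n 2, pow_add, pow_mul, pow_two, hz, one_pow, one_mul]
  unfold zp
  rw [ZMod.val_add, h2, pow_add]

omit [Finite G] in
theorem zp_inj {z : G} (h1 : z ≠ 1) {a b : ZMod 2} (h : zp z a = zp z b) : a = b := by
  have key : ∀ a : ZMod 2, (a = 0 ∧ zp z a = 1) ∨ (a = 1 ∧ zp z a = z) := by
    intro a
    have h3 : a = 0 ∨ a = 1 := by
      revert a; decide
    rcases h3 with rfl | rfl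
    · exact Or.inl ⟨rfl, pow_zero z⟩
    · exact Or.inr ⟨rfl, pow_one z⟩
  rcases key a with ⟨ha, ha'⟩ | ⟨ha, ha'⟩ <;> rcases key b with ⟨hb, hb'⟩ | ⟨hb, hb'⟩
  · rw [ha, hb]
  · rw [ha', hb'] at h; exact absurd h.symm h1
  · rw [ha', hb'] at h; exact absurd h h1
  · rw [ha, hb]

theorem sqf_zp (M : MS z Q Rel Act) {v : leechLattice} {x : G} (h : Rel v x) : x * x = zp z (sqf Rel v) := by
  have h1 := M.sqf_eq h
  have h3 : sqf Rel v = 0 ∨ sqf Rel v = 1 := by
    generalize sqf Rel v = a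
    revert a; decide
  rcases h3 with h3 | h3
  · rw [h1.1.1 h3, h3]; exact (pow_zero z).symm
  · rw [h1.2.1 h3, h3]; exact (pow_one z).symm

theorem zp_comm (M : MS z Q Rel Act) (a : ZMod 2) {x : G} (hx : x ∈ Q) : zp z a * x = x * zp z a := by
  unfold zp
  exact ((show Commute z x from M.pre.zc x hx).pow_left _)

theorem exists_beta (M : MS z Q Rel Act) {x y : G} (hx : x ∈ Q) (hy : y ∈ Q) : ∃ b : ZMod 2, x * y = zp z b * (y * x) := by
  rcases M.pre.comm x hx y hy with h | h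
  · refine ⟨0, ?_⟩
    show _ = z ^ 0 * _
    rw [pow_zero, one_mul, h]
  · refine ⟨1, ?_⟩
    show _ = z ^ 1 * _
    rw [pow_one, h]

theorem sq_mul (M : MS z Q Rel Act) {x y : G} (hx : x ∈ Q) (hy : y ∈ Q) {b : ZMod 2} (h : x * y = zp z b * (y * x)) :
    (x * y) * (x * y) = zp z b * (x * x) * (y * y) := by
  have h' : y * x = zp z b * (x * y) := by
    rw [h, ← mul_assoc, ← zp_add M.zz]
    have : b + b = 0 := by clear h; revert b; decide
    rw [this]
    show _ = z ^ 0 * _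
    rw [pow_zero, one_mul]
  calc (x * y) * (x * y) = x * (y * x) * y := by group
    _ = x * (zp z b * (x * y)) * y := by rw [h']
    _ = (x * zp z b) * (x * y * y) := by group
    _ = (zp z b * x) * (x * y * y) := by rw [M.zp_comm b hx]
    _ = _ := by group

theorem sqf_add (M : MS z Q Rel Act) {v w : leechLattice} {x y : G} (hv : Rel v x) (hw : Rel w y) {b : ZMod 2}
    (h : x * y = zp z b * (y * x)) : sqf Rel (v + w) = sqf Rel v + sqf Rel w + b := by
  have h1 := M.sqf_zp (M.rel_mul hv hw)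
  rw [M.sq_mul (M.rel_mem hv) (M.rel_mem hw) h, M.sqf_zp hv, M.sqf_zp hw, ← zp_add M.zz, ← zp_add M.zz] at h1
  have := zp_inj M.pre.ne h1
  rw [← this]; ring

theorem sqf_eq_qf (M : MS z Q Rel Act) (v : leechLattice) : sqf Rel v = M2F.qf v := by
  apply M2F.unique
  · -- cosets
    intro v w
    obtain ⟨x, hx⟩ := M.rel_ex v
    have h2 : Rel (v + (w + w)) x := M.rel_of_cg (Cg.symm ⟨w, rfl⟩) hx
    have h3 := M.sqf_zp hx
    rw [M.sqf_zp h2] at h3
    exact zp_inj M.pre.ne h3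
  · -- quadratic
    intro u v w
    obtain ⟨x, hx⟩ := M.rel_ex u
    obtain ⟨y, hy⟩ := M.rel_ex v
    obtain ⟨t, ht⟩ := M.rel_ex w
    have mx := M.rel_mem hx
    have my := M.rel_mem hy
    have mt := M.rel_mem ht
    obtain ⟨a, ha⟩ := M.exists_beta mx my
    obtain ⟨b, hb⟩ := M.exists_beta mx mt
    obtain ⟨c, hc⟩ := M.exists_beta my mt
    have hbc : x * y * t = zp z (b + c) * (t * (x * y)) := by
      calc x * y * t = x * (y * t) := by group
        _ = x * (zp z c * (t * y)) := by rw [hc]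
        _ = (x * zp z c) * (t * y) := by group
        _ = (zp z c * x) * (t * y) := by rw [M.zp_comm c mx]
        _ = zp z c * (x * t) * y := by group
        _ = zp z c * (zp z b * (t * x)) * y := by rw [hb]
        _ = (zp z c * zp z b) * (t * (x * y)) := by group
        _ = _ := by rw [← zp_add M.zz, add_comm]
    rw [M.sqf_add (M.rel_mul hx hy) ht hbc, M.sqf_add hx hy ha, M.sqf_add hx ht hb, M.sqf_add hy ht hc]
    generalize sqf Rel u = p
    generalize sqf Rel v = q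
    generalize sqf Rel w = r
    clear hbc ha hb hc
    revert a b c p q r
    decide
  · intro g v
    obtain ⟨x, hx⟩ := M.rel_ex v
    obtain ⟨c, hc⟩ := M.act_ex g
    have h1 := M.sqf_zp (M.act_rel hc hx)
    have h2 : (c * x * c⁻¹) * (c * x * c⁻¹) = x * x := by
      have e1 : (c * x * c⁻¹) * (c * x * c⁻¹) = c * (x * x) * c⁻¹ := by group
      rw [e1, M.sqf_zp hx]
      have hcz : Commute c z := M.act_cen hc
      have := hcz.pow_right (sqf Rel v).val
      rw [show zp z (sqf Rel v) = z ^ (sqf Rel v).val from rfl, this.eq, mul_inv_cancel_right]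
    rw [h2, M.sqf_zp hx] at h1
    exact (zp_inj M.pre.ne h1).symm
  · -- non-trivial
    obtain ⟨x, hx, y, hy, hxy⟩ := M.pre.nc
    by_contra hcon
    push Not at hcon
    apply hxy
    have key : ∀ x ∈ Q, x * x = 1 := by
      intro x hx
      obtain ⟨v, hv⟩ := M.rel_ex' hx
      exact (M.sqf_eq hv).1.1 (hcon v)
    have h1 := key x hx
    have h2 := key y hy
    have h3 := key _ (mul_mem hx hy)
    have e1 : x⁻¹ = x := inv_eq_of_mul_eq_one_right h1
    have e2 : y⁻¹ = y := inv_eq_of_mul_eq_one_right h2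
    have e3 : (x * y)⁻¹ = x * y := inv_eq_of_mul_eq_one_right h3
    rw [mul_inv_rev, e1, e2] at e3
    exact e3.symm

theorem sq_one_iff (M : MS z Q Rel Act) {v : leechLattice} {x : G} (h : Rel v x) : x * x = 1 ↔ Nm v % 32 = 0 := by
  rw [← (M.sqf_eq h).1, M.sqf_eq_qf]
  unfold M2F.qf
  have h1 := nm_emod v
  rw [ZMod.intCast_zmod_eq_zero_iff_dvd]
  push_cast
  omega

/-- every element of `Q` outside `⟨z⟩` is of type 2, 3 or 4 -/
theorem exists_type (M : MS z Q Rel Act) {x : G} (hx : x ∈ Q) (h1 : x ≠ 1) (hz : x ≠ z) :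
    ∃ v, Rel v x ∧ (Nm v = 32 ∨ Nm v = 48 ∨ Nm v = 64) := by
  obtain ⟨v, hv⟩ := M.rel_ex' hx
  obtain ⟨w, hw, hn⟩ := short_rep v
  have hw' := M.rel_of_cg hw hv
  refine ⟨w, hw', ?_⟩
  rcases types hn with rfl | h
  · exfalso
    rcases M.cg_zero_of hw' (Cg.refl 0) with h | h
    · exact h1 h
    · exact hz h
  · exact h

theorem type_unique (M : MS z Q Rel Act) {v w : leechLattice} {x : G} (hv : Rel v x) (hw : Rel w x) (h1 : Nm v ≤ 64)
    (h2 : Nm w ≤ 64) : Nm v = Nm w := (M.rel_cg hv hw).norm h1 h2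

theorem inv_type (M : MS z Q Rel Act) {x : G} (hx : x ∈ Q) (h1 : x ≠ 1) (hz : x ≠ z) (hxx : x * x = 1) :
    ∃ v, Rel v x ∧ (Nm v = 32 ∨ Nm v = 64) := by
  obtain ⟨v, hv, h⟩ := M.exists_type hx h1 hz
  refine ⟨v, hv, ?_⟩
  have := (M.sq_one_iff hv).1 hxx
  omega

/-- adjusting a lift -/
theorem exists_lift (M : MS z Q Rel Act) {v : leechLattice} {g : Co0} {x y : G} (hv : Rel v x) (hw : Rel (g • v) y)
    (h0 : ¬ Cg v 0) : ∃ c, Act g c ∧ c * x * c⁻¹ = y := by
  obtain ⟨c, hc⟩ := M.act_ex g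
  have h1 := M.act_rel hc hv
  rcases M.rel_eq h1 hw with h | h
  · exact ⟨c, hc, h.symm⟩
  · have h0' : ¬ Cg (g • v) 0 := by
      intro hh
      apply h0
      have := hh.smul g⁻¹
      rwa [inv_smul_smul, smul_zero''] at this
    obtain ⟨hn1, hn2⟩ := M.ne_of h1 h0'
    obtain ⟨q, hq, hq'⟩ := M.pre.exists_move (M.rel_mem h1) hn1 hn2
    refine ⟨q * c, ?_, ?_⟩
    · have := M.act_mul (M.act_one.2 hq) hc
      rwa [one_mul] at this
    · rw [h, ← hq']; group

theorem conj_of_type (M : MS z Q Rel Act) {v w : leechLattice} {x y : G} (hv : Rel v x) (hw : Rel w y)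
    (h : (Nm v = 32 ∧ Nm w = 32) ∨ (Nm v = 48 ∧ Nm w = 48) ∨ (Nm v = 64 ∧ Nm w = 64)) :
    ∃ c : G, c * z = z * c ∧ c * x * c⁻¹ = y := by
  have key : ∃ g : Co0, g • v = w := by
    rcases h with h | h | h
    · exact trans32 v w h.1 h.2
    · exact trans48 v w h.1 h.2
    · exact trans64 v w h.1 h.2
  obtain ⟨g, rfl⟩ := key
  have h0 : ¬ Cg v 0 := by
    apply not_cg_zero (by omega)
    rintro rfl
    rw [nm_zero_iff.2 rfl] at h
    omega
  obtain ⟨c, hc, hcx⟩ := M.exists_lift hv hw h0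
  exact ⟨c, M.act_cen hc, hcx⟩

end MS

end Cfsg.Agent.H28.Mon
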