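import Mathlib
import Cfsg.Agent.H28_Mon

set_option autoImplicit false

/-!
Groups of Monster type: the conjugates of the central involution in the extraspecial subgroup.
-/

namespace Cfsg.Agent.H28.Mon

open Cfsg Cfsg.Agent.H28.Xsp Cfsg.Agent.H28.Large
open Cfsg.Agent.H7.Co Cfsg.Agent.H7.Co3 Cfsg.Agent.H7.Co4 Cfsg.Agent.H7.Co5 Cfsg.Agent.H7.Co6 Cfsg.Agent.H28.M2L Cfsg.Agent.H28.M2A Cfsg.Agent.H28.M2N

variable {G : Type*} [Group G] [Finite G]

namespace MS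

variable {z : G} {Q Q' : Subgroup G} {s g : G} {Rel : leechLattice → G → Prop} {Act : Co0 → G → Prop}

/-! ### orders -/

theorem card_Q' (M : MS z Q Rel Act) (S : XR Q Q' z s g) : Nat.card Q' = 2 ^ 25 := by
  rw [S.hQ', ← M.card]
  exact (Nat.card_congr (Q.equivMapOfInjective (MulAut.conj g).toMonoidHom (MulAut.conj g).injective).toEquiv).symm

theorem card_P' (M : MS z Q Rel Act) (S : XR Q Q' z s g) : Nat.card (XR.P Q' z : Subgroup G) = 2 ^ 24 := by
  have h1 := S.h'.card_le_two_mul (le_refl Q') S.hzQ'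
  rw [M.card_Q' S] at h1
  have h2 : (XR.P Q' z : Subgroup G) ≤ Q' := inf_le_left
  have h3 : (XR.P Q' z : Subgroup G) ≠ Q' := by
    intro h
    have hz' := S.symm
    obtain ⟨y, hy, hyy⟩ := S.exists_y
    rw [← h, XR.mem_P] at hy
    have : y * z * y⁻¹ = z := by rw [hy.2, mul_inv_cancel_right]
    rw [this] at hyy
    have h4 : z * s = z * 1 := by rw [mul_one]; exact hyy.symm
    exact S.h'.ne (mul_left_cancel h4)
  have h4 := Subgroup.card_dvd_of_le h2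
  rw [M.card_Q' S] at h4
  obtain ⟨k, hk, hk'⟩ := (Nat.dvd_prime_pow Nat.prime_two).1 h4
  have h5 : k ≠ 25 := by
    rintro rfl
    exact h3 (Subgroup.eq_of_le_of_card_ge h2 (by rw [hk', M.card_Q' S]))
  have h6 : 24 ≤ k := by
    by_contra hlt
    have : 2 ^ k ≤ 2 ^ 23 := Nat.pow_le_pow_right (by norm_num) (by omega)
    have h7 : Nat.card (XR.P Q' z : Subgroup G) ≤ 2 ^ 23 := by rw [hk']; exact this
    have h8 : (Q' ⊓ Subgroup.centralizer ({z} : Set G) : Subgroup G) = XR.P Q' z := rfl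
    rw [h8] at h1
    omega
  have h7 : k = 24 := by omega
  rw [hk', h7]

omit [Finite G] in
theorem E_sq (h : Xsp Q z) (h' : Xsp Q' s) (hne : s ≠ z) {a : G} (ha : a ∈ Q ⊓ Q') : a * a = 1 := by
  rcases h.sqr a ha.1 with h1 | h1
  · exact h1
  · rcases h'.sqr a ha.2 with h2 | h2
    · exact h2
    · exact absurd (h2.symm.trans h1) hne

omit [Finite G] in
theorem E_comm (h : Xsp Q z) (h' : Xsp Q' s) (hne : s ≠ z) {a b : G} (ha : a ∈ Q ⊓ Q') (hb : b ∈ Q ⊓ Q') : a * b = b * a := by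
  rcases h.comm a ha.1 b hb.1 with h1 | h1
  · exact h1
  · rcases h'.comm a ha.2 b hb.2 with h2 | h2
    · exact h2
    · rw [h1] at h2
      exact absurd (mul_right_cancel h2).symm hne

theorem card_E_le (M : MS z Q Rel Act) (S : XR Q Q' z s g) : Nat.card (Q ⊓ Q' : Subgroup G) ≤ 2 ^ 13 := by
  have h1 := S.h.duality (R := Q ⊓ Q') ⟨S.h.mem, S.hzQ'⟩ inf_le_left
  rw [M.card] at h1
  have h2 : Q ⊓ Q' ≤ Q ⊓ Subgroup.centralizer ((Q ⊓ Q' : Subgroup G) : Set G) := by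
    intro a ha
    refine ⟨ha.1, Subgroup.mem_centralizer_iff.2 fun b hb => ?_⟩
    exact (E_comm S.h.toXsp S.h'.toXsp S.hxz ha hb).symm
  have h3 := Subgroup.card_le_of_le h2
  have h4 : Nat.card (Q ⊓ Q' : Subgroup G) * Nat.card (Q ⊓ Q' : Subgroup G) ≤ 2 ^ 26 := by
    calc _ ≤ Nat.card (Q ⊓ Q' : Subgroup G) * Nat.card (Q ⊓ Subgroup.centralizer ((Q ⊓ Q' : Subgroup G) : Set G) : Subgroup G) :=
        Nat.mul_le_mul_left _ h3
      _ = 2 * 2 ^ 25 := h1
      _ = 2 ^ 26 := by norm_num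
  by_contra hlt
  have : (2 ^ 13 + 1) * (2 ^ 13 + 1) ≤ Nat.card (Q ⊓ Q' : Subgroup G) * Nat.card (Q ⊓ Q' : Subgroup G) :=
    Nat.mul_le_mul (by omega) (by omega)
  have h5 : 2 ^ 26 < (2 ^ 13 + 1) * (2 ^ 13 + 1) := by norm_num
  omega

/-! ### the action -/

/-- the lattice automorphisms induced by a subgroup of the centraliser -/
def im (M : MS z Q Rel Act) (P : Subgroup G) : Subgroup Co0 where
  carrier := {γ | ∃ p ∈ P, Act γ p}
  one_mem' := ⟨1, P.one_mem, M.act_one.2 Q.one_mem⟩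
  mul_mem' := by
    rintro a b ⟨p, hp, ha⟩ ⟨q, hq, hb⟩
    exact ⟨p * q, P.mul_mem hp hq, M.act_mul ha hb⟩
  inv_mem' := by
    rintro a ⟨p, hp, ha⟩
    exact ⟨p⁻¹, P.inv_mem hp, M.act_inv ha⟩

theorem mem_im (M : MS z Q Rel Act) {P : Subgroup G} {γ : Co0} : γ ∈ M.im P ↔ ∃ p ∈ P, Act γ p := Iff.rfl

theorem act_pow (M : MS z Q Rel Act) {γ : Co0} {p : G} (h : Act γ p) (n : ℕ) : Act (γ ^ n) (p ^ n) := by
  induction n with
  | zero => rw [pow_zero, pow_zero]; exact M.act_one.2 Q.one_mem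
  | succ n ih => rw [pow_succ, pow_succ]; exact M.act_mul ih h

theorem m1_sq : (m1 * m1 : Co0) = 1 := by
  apply ext32
  intro x _
  rw [mul_smul, m1_smul, m1_smul, neg_neg, one_smul]

theorem m1_mem_im (M : MS z Q Rel Act) (P : Subgroup G) : m1 ∈ M.im P := by
  refine ⟨1, P.one_mem, ?_⟩
  have := M.act_m1 (M.act_one.2 Q.one_mem)
  rwa [mul_one] at this

theorem im_two (M : MS z Q Rel Act) {P : Subgroup G} (h2 : IsPGroup 2 P) : IsPGroup 2 (M.im P) := by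
  rintro ⟨γ, p, hp, h⟩
  obtain ⟨k, hk⟩ := h2 ⟨p, hp⟩
  have hk' : p ^ 2 ^ k = 1 := congrArg Subtype.val hk
  have h3 := M.act_pow h (2 ^ k)
  rw [hk'] at h3
  refine ⟨k + 1, ?_⟩
  apply Subtype.ext
  show γ ^ 2 ^ (k + 1) = 1
  rw [pow_succ, pow_mul, pow_two]
  rcases M.act_uniq (M.act_one.2 Q.one_mem) h3 with h4 | h4
  · rw [h4, mul_one]
  · rw [h4, mul_one, m1_sq]

/-- what commutes with `x` stabilises its class -/
theorem cs_of_comm (M : MS z Q Rel Act) {v : leechLattice} {x c : G} {γ : Co0} (hv : Rel v x) (h : Act γ c)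
    (hc : c * x * c⁻¹ = x) : γ ∈ cs v := by
  have h1 := M.act_rel h hv
  rw [hc] at h1
  exact M.rel_cg h1 hv

/-- elements of the class stabiliser lift to elements commuting with `x` -/
theorem lift_cs (M : MS z Q Rel Act) {v : leechLattice} {x : G} {γ : Co0} (hv : Rel v x) (h0 : ¬ Cg v 0) (h : γ ∈ cs v) :
    ∃ c, Act γ c ∧ c * x = x * c := by
  have h1 : Rel (γ • v) x := M.rel_of_cg (Cg.symm h) hv
  obtain ⟨c, hc, hcx⟩ := M.exists_lift hv h1 h0
  exact ⟨c, hc, by rw [mul_inv_eq_iff_eq_mul] at hcx; exact hcx⟩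

theorem im_le_cs (M : MS z Q Rel Act) (S : XR Q Q' z s g) {v : leechLattice} (hv : Rel v s) :
    M.im (XR.P Q' z) ≤ cs v := by
  rintro γ ⟨p, hp, h⟩
  rw [S.P'_eq, S.mem_CV] at hp
  exact M.cs_of_comm hv h (by rw [hp.2.1, mul_inv_cancel_right])

theorem im_normal (M : MS z Q Rel Act) (S : XR Q Q' z s g) {v : leechLattice} (hv : Rel v s) (h0 : ¬ Cg v 0)
    {a γ : Co0} (ha : a ∈ cs v) (hγ : γ ∈ M.im (XR.P Q' z)) : a * γ * a⁻¹ ∈ M.im (XR.P Q' z) := by
  obtain ⟨p, hp, h⟩ := hγ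
  obtain ⟨c, hc, hcx⟩ := M.lift_cs hv h0 ha
  refine ⟨c * p * c⁻¹, ?_, M.act_mul (M.act_mul hc h) (M.act_inv hc)⟩
  have hcV : c ∈ Subgroup.centralizer ((XR.V z s : Subgroup G) : Set G) := S.mem_CV.2 ⟨hcx, M.act_cen hc⟩
  rw [S.P'_eq] at hp ⊢
  exact ⟨S.CV_conj_Q' hcV hp.1, mul_mem (mul_mem hcV hp.2) (inv_mem hcV)⟩

theorem P'_isPGroup (S : XR Q Q' z s g) : IsPGroup 2 (XR.P Q' z : Subgroup G) :=
  S.h'.isPGroup.to_le inf_le_left

/-- the counting formula -/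
theorem count (M : MS z Q Rel Act) (S : XR Q Q' z s g) :
    Nat.card (M.im (XR.P Q' z)) * Nat.card (Q ⊓ Q' : Subgroup G) = 2 ^ 25 := by
  have key := double_count (M.im (XR.P Q' z) : Set Co0) ((XR.P Q' z : Subgroup G) : Set G) (Set.toFinite _) (Set.toFinite _)
    (fun γ p => Act γ p) (Nat.card (Q ⊓ Q' : Subgroup G)) 2 ?_ ?_
  · have e1 : (M.im (XR.P Q' z) : Set Co0).ncard = Nat.card (M.im (XR.P Q' z)) := rfl
    have e2 : ((XR.P Q' z : Subgroup G) : Set G).ncard = Nat.card (XR.P Q' z : Subgroup G) := rfl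
    rw [e1, e2, M.card_P' S] at key
    rw [key]; norm_num
  · rintro γ ⟨p, hp, h⟩
    have : {b | b ∈ ((XR.P Q' z : Subgroup G) : Set G) ∧ Act γ b} = (fun e => p * e) '' ((Q ⊓ Q' : Subgroup G) : Set G) := by
      ext b
      constructor
      · rintro ⟨hb, hb'⟩
        refine ⟨p⁻¹ * b, ?_, by group⟩
        have h1 := M.act_mul (M.act_inv h) hb'
        rw [inv_mul_cancel, M.act_one] at h1
        exact ⟨h1, (S.P'_eq.1 (mul_mem (inv_mem hp) hb)).1⟩
      · rintro ⟨e, he, rfl⟩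
        refine ⟨mul_mem hp (S.E_le_P' he), ?_⟩
        have h1 := M.act_mul h (M.act_one.2 he.1)
        rwa [mul_one] at h1
    rw [this, Set.ncard_image_of_injective _ (mul_right_injective p)]
    rfl
  · intro p hp
    have hpz : p * z = z * p := (XR.mem_P.1 hp).2
    obtain ⟨γ, hγ⟩ := M.act_ex' hpz
    have : {a | a ∈ (M.im (XR.P Q' z) : Set Co0) ∧ Act a p} = {γ, m1 * γ} := by
      ext b
      constructor
      · rintro ⟨hb, hb'⟩
        exact M.act_uniq hγ hb'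
      · rintro (rfl | rfl)
        · exact ⟨⟨p, hp, hγ⟩, hγ⟩
        · exact ⟨⟨p, hp, M.act_m1 hγ⟩, M.act_m1 hγ⟩
    rw [this]
    apply Set.ncard_pair
    intro h
    apply m1_ne
    have h1 : (1 : Co0) * γ = m1 * γ := by rw [one_mul]; exact h
    exact (mul_right_cancel h1).symm

/-- conjugates of `z` are not of type 2 -/
theorem not_type2 (M : MS z Q Rel Act) (S : XR Q Q' z s g) {v : leechLattice} (hv : Rel v s) (h32 : Nm v = 32) : False := by
  have h0 : ¬ Cg v 0 := by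
    apply not_cg_zero (by omega)
    rintro rfl
    rw [nm_zero_iff.2 rfl] at h32
    omega
  have hN := M2S.no_two h32 (M.im (XR.P Q' z) ⊓ MulAction.stabilizer Co0 v)
    ((M.im_two (P'_isPGroup S)).to_le inf_le_left) (fun n hn => hn.2) (by
      rintro a ha n ⟨hn1, hn2⟩
      refine ⟨M.im_normal S hv h0 ((mem_cs_short (by omega)).2 (Or.inl ha)) hn1, ?_⟩
      have hn2' : n • v = v := hn2
      show (a * n * a⁻¹) • v = v
      have : a⁻¹ • v = v := by rw [inv_smul_eq_iff, ha]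
      rw [mul_smul, mul_smul, this, hn2', ha])
  have hle : M.im (XR.P Q' z) ≤ Subgroup.center Co0 := by
    intro γ hγ
    rw [center_eq]
    have h1 := M.im_le_cs S hv hγ
    rcases (mem_cs_short (by omega)).1 h1 with h2 | h2
    · left
      have : γ ∈ M.im (XR.P Q' z) ⊓ MulAction.stabilizer Co0 v := ⟨hγ, h2⟩
      rw [hN] at this
      exact Subgroup.mem_bot.1 this
    · right
      have h3 : m1 * γ ∈ M.im (XR.P Q' z) ⊓ MulAction.stabilizer Co0 v := by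
        refine ⟨mul_mem (M.m1_mem_im _) hγ, ?_⟩
        show (m1 * γ) • v = v
        rw [mul_smul, h2, m1_smul, neg_neg]
      rw [hN, Subgroup.mem_bot] at h3
      have : γ = m1 * (m1 * γ) := by rw [← mul_assoc, m1_sq, one_mul]
      rw [this, h3, mul_one]
  have h1 := Subgroup.card_le_of_le hle
  rw [card_center] at h1
  have h2 := M.count S
  have h3 := M.card_E_le S
  have h4 : Nat.card (M.im (XR.P Q' z)) * Nat.card (Q ⊓ Q' : Subgroup G) ≤ 2 * 2 ^ 13 := Nat.mul_le_mul h1 h3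
  omega

/-- conjugates of `z` in `Q` other than `z` are of type 4 -/
theorem type4 (M : MS z Q Rel Act) (S : XR Q Q' z s g) : ∃ v, Rel v s ∧ Nm v = 64 := by
  obtain ⟨v, hv, h⟩ := M.inv_type S.hxQ S.h'.ne S.hxz S.h'.sq
  rcases h with h | h
  · exact (M.not_type2 S hv h).elim
  · exact ⟨v, hv, h⟩

/-- the two groups determined by a conjugate of `z` -/
theorem main4 (M : MS z Q Rel Act) (S : XR Q Q' z s g) : ∃ v, Rel v s ∧ Nm v = 64 ∧ ∃ a : Co0, a • v = O8 none ∧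
    Nat.card (Q ⊓ Q' : Subgroup G) = 2 ^ 13 ∧ (∀ γ, γ ∈ M.im (XR.P Q' z) ↔ a * γ * a⁻¹ ∈ DD) ∧
    (∀ γ, γ ∈ cs v ↔ a * γ * a⁻¹ ∈ NN) := by
  obtain ⟨v, hv, h64⟩ := M.type4 S
  have h0 : ¬ Cg v 0 := by
    apply not_cg_zero (by omega)
    rintro rfl
    rw [nm_zero_iff.2 rfl] at h64
    omega
  obtain ⟨a, ha⟩ := trans64 v (O8 none) h64 (nm_O8 none)
  have hcs : ∀ γ, γ ∈ cs v ↔ a * γ * a⁻¹ ∈ NN := by
    intro γ
    rw [← cs_O8 none, ← ha, mem_cs_smul]
    have : a⁻¹ * (a * γ * a⁻¹) * a = γ := by group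
    rw [this]
  let N' : Subgroup Co0 := (M.im (XR.P Q' z)).map (MulAut.conj a).toMonoidHom
  have hmem : ∀ γ, a * γ * a⁻¹ ∈ N' ↔ γ ∈ M.im (XR.P Q' z) := by
    intro γ
    constructor
    · rintro ⟨δ, hδ, h⟩
      have h1 : a * δ * a⁻¹ = a * γ * a⁻¹ := h
      have h2 := mul_left_cancel (mul_right_cancel h1)
      rw [← h2]; exact hδ
    · intro h
      exact ⟨γ, h, rfl⟩
  have hmem' : ∀ δ ∈ N', ∃ γ ∈ M.im (XR.P Q' z), a * γ * a⁻¹ = δ := by
    rintro δ ⟨γ, hγ, rfl⟩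
    exact ⟨γ, hγ, rfl⟩
  have hcard : Nat.card N' = Nat.card (M.im (XR.P Q' z)) :=
    (Nat.card_congr ((M.im (XR.P Q' z)).equivMapOfInjective (MulAut.conj a).toMonoidHom (MulAut.conj a).injective).toEquiv).symm
  have hN' : N' ≤ DD := by
    apply two_le_DD
    · intro δ hδ
      obtain ⟨γ, hγ, rfl⟩ := hmem' δ hδ
      exact (hcs γ).1 (M.im_le_cs S hv hγ)
    · exact (M.im_two (P'_isPGroup S)).map _
    · intro σ δ hδ
      obtain ⟨γ, hγ, rfl⟩ := hmem' δ hδ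
      have h1 : a⁻¹ * mon σ * a ∈ cs v := by
        rw [hcs]
        have : a * (a⁻¹ * mon σ * a) * a⁻¹ = mon σ := by group
        rw [this]
        exact mon_mem σ
      have h2 := M.im_normal S hv h0 h1 hγ
      have h3 : mon σ * (a * γ * a⁻¹) * (mon σ)⁻¹ = a * ((a⁻¹ * mon σ * a) * γ * (a⁻¹ * mon σ * a)⁻¹) * a⁻¹ := by group
      rw [h3, hmem]
      exact h2
  have hle : Nat.card N' ≤ 4096 := (Subgroup.card_le_of_le hN').trans card_DD
  have hcount := M.count S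
  have hE := M.card_E_le S
  have hE2 : 2 ^ 13 ≤ Nat.card (Q ⊓ Q' : Subgroup G) := by
    by_contra hlt
    have : Nat.card (M.im (XR.P Q' z)) * Nat.card (Q ⊓ Q' : Subgroup G) ≤ 4096 * (2 ^ 13 - 1) :=
      Nat.mul_le_mul (by omega) (by omega)
    omega
  have hE3 : Nat.card (Q ⊓ Q' : Subgroup G) = 2 ^ 13 := le_antisymm hE hE2
  have hNeq : N' = DD := by
    apply Subgroup.eq_of_le_of_card_ge hN'
    rw [hE3] at hcount
    have := card_DD
    rw [hcard]
    omega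
  refine ⟨v, hv, h64, a, ha, hE3, ?_, hcs⟩
  intro γ
  rw [← hNeq, hmem]

end MS

end Cfsg.Agent.H28.Mon
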