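import Mathlib
import Cfsg.Agent.H28_Mon2
import Cfsg.Agent.H28_FSet

set_option autoImplicit false

/-!
Groups of Monster type: the abstract set-up is available.
-/

namespace Cfsg.Agent.H28.Mon

open Cfsg Cfsg.Agent.H28.Xsp Cfsg.Agent.H28.Large
open Cfsg.Agent.H7.Co Cfsg.Agent.H7.Co3 Cfsg.Agent.H7.Co4 Cfsg.Agent.H7.Co5 Cfsg.Agent.H7.Co6 Cfsg.Agent.H28.M2L Cfsg.Agent.H28.M2A Cfsg.Agent.H28.M2N

variable {G : Type*} [Group G] [Finite G] {z : G} {Q : Subgroup (Subgroup.centralizer ({z} : Set G))}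

/-- the subgroup of the whole group -/
abbrev Qm (Q : Subgroup (Subgroup.centralizer ({z} : Set G))) : Subgroup G := Q.map (Subgroup.centralizer ({z} : Set G)).subtype

theorem mem_Qm {x : G} : x ∈ Qm Q ↔ ∃ q : Q, ((q : Subgroup.centralizer ({z} : Set G)) : G) = x := by
  constructor
  · rintro ⟨q, hq, rfl⟩
    exact ⟨⟨q, hq⟩, rfl⟩
  · rintro ⟨q, rfl⟩
    exact ⟨q, q.2, rfl⟩

def RelD (ψ : leechLattice → Q ⧸ Subgroup.center Q) (v : leechLattice) (x : G) : Prop :=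
  ∃ q : Q, ψ v = QuotientGroup.mk q ∧ ((q : Subgroup.centralizer ({z} : Set G)) : G) = x

def ActD [Q.Normal] (e : (Subgroup.centralizer ({z} : Set G)) ⧸ Q ≃* Spor.Co1) (g : Co0) (c : G) : Prop :=
  ∃ hc : c ∈ Subgroup.centralizer ({z} : Set G), (QuotientGroup.mk g : Spor.Co1) =
    e (QuotientGroup.mk ⟨c, hc⟩)

theorem pre_of_setting {w : ℕ} (hS : IsExtraspecialCentralizerSetting z Q w) : Pre (Qm Q) z := by
  obtain ⟨hz, hF, hE, hc, -⟩ := hS
  apply pre_of_F hz
  · rw [hF]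
  · obtain ⟨u, hu⟩ := Xsp.top_of_isExtraspecial hE
    have h1 := hu.map ((Subgroup.centralizer ({z} : Set G)).subtype.comp Q.subtype)
      ((Subgroup.centralizer ({z} : Set G)).subtype_injective.comp Q.subtype_injective)
    have h2 : (⊤ : Subgroup Q).map ((Subgroup.centralizer ({z} : Set G)).subtype.comp Q.subtype) = Qm Q := by
      rw [← Subgroup.map_map, ← MonoidHom.range_eq_map, Subgroup.range_subtype]
    rw [h2] at h1
    apply h1.isExtraspecial
    obtain ⟨x, hx, y, hy, hxy⟩ := Xsp.not_comm_of_isExtraspecial hE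
    exact ⟨_, mem_Qm.2 ⟨⟨x, hx⟩, rfl⟩, _, mem_Qm.2 ⟨⟨y, hy⟩, rfl⟩, fun hh => hxy (Subtype.ext hh)⟩

theorem center_iff (hP : Pre (Qm Q) z) (q : Q) : q ∈ Subgroup.center Q ↔
    ((q : Subgroup.centralizer ({z} : Set G)) : G) = 1 ∨ ((q : Subgroup.centralizer ({z} : Set G)) : G) = z := by
  constructor
  · intro h
    apply hP.cen _ (mem_Qm.2 ⟨q, rfl⟩)
    intro y hy
    obtain ⟨r, rfl⟩ := mem_Qm.1 hy
    exact congrArg (fun t : Q => ((t : Subgroup.centralizer ({z} : Set G)) : G)) ((Subgroup.mem_center_iff.1 h r).symm)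
  · rintro (h | h)
    · have : q = 1 := Subtype.ext (Subtype.ext h)
      rw [this]; exact one_mem _
    · rw [Subgroup.mem_center_iff]
      intro r
      apply Subtype.ext
      apply Subtype.ext
      show ((r : Subgroup.centralizer ({z} : Set G)) : G) * q = q * r
      rw [h]
      exact (hP.zc _ (mem_Qm.2 ⟨r, rfl⟩)).symm

theorem ms_of [Q.Normal] (hS : IsExtraspecialCentralizerSetting z Q 12)
    {e : (Subgroup.centralizer ({z} : Set G)) ⧸ Q ≃* Spor.Co1} {ψ : leechLattice → Q ⧸ Subgroup.center Q}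
    (hI : IsLeechModTwoIso Q e ψ) : MS z (Qm Q) (RelD ψ) (ActD e) := by
  have hP := pre_of_setting hS
  obtain ⟨h1, h2, h3, h4⟩ := hI
  have hzQ : ∃ q : Q, ((q : Subgroup.centralizer ({z} : Set G)) : G) = z := mem_Qm.1 hP.mem
  have hone : ψ 0 = 1 := (h3 0).2 ⟨0, by simp⟩
  have hker : ∀ v w : leechLattice, ψ v = ψ w ↔ Cg v w := by
    intro v w
    have hneg : ψ (-w) * ψ w = 1 := by rw [← h1, neg_add_cancel, hone]
    constructor
    · intro h
      have h5 : ψ (v + -w) = 1 := by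
        rw [h1, h, ← h1, add_neg_cancel, hone]
      obtain ⟨x, hx⟩ := (h3 _).1 h5
      refine ⟨x, ?_⟩
      rw [← hx]; abel
    · rintro ⟨x, rfl⟩
      rw [h1, (h3 (x + x)).2 ⟨x, rfl⟩, mul_one]
  exact
  { pre := hP
    card := by
      rw [← hS.2.2.2.1]
      exact (Nat.card_congr (Q.equivMapOfInjective _ (Subgroup.subtype_injective _)).toEquiv).symm
    rel_mem := by
      rintro v x ⟨q, hq, rfl⟩
      exact mem_Qm.2 ⟨q, rfl⟩
    rel_ex := by
      intro v
      obtain ⟨q, hq⟩ := QuotientGroup.mk_surjective (ψ v)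
      exact ⟨_, q, hq.symm, rfl⟩
    rel_ex' := by
      intro x hx
      obtain ⟨q, rfl⟩ := mem_Qm.1 hx
      obtain ⟨v, hv⟩ := h2 (QuotientGroup.mk q)
      exact ⟨v, q, hv, rfl⟩
    rel_mul := by
      rintro v w x y ⟨q, hq, rfl⟩ ⟨r, hr, rfl⟩
      exact ⟨q * r, by rw [h1, hq, hr]; rfl, rfl⟩
    rel_eq := by
      rintro v x y ⟨q, hq, rfl⟩ ⟨r, hr, rfl⟩
      have h5 : (QuotientGroup.mk q : Q ⧸ Subgroup.center Q) = QuotientGroup.mk r := by rw [← hq, hr]
      rw [QuotientGroup.eq, center_iff hP] at h5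
      have h6 : (((q⁻¹ * r : Q) : Subgroup.centralizer ({z} : Set G)) : G) =
        ((q : Subgroup.centralizer ({z} : Set G)) : G)⁻¹ * ((r : Subgroup.centralizer ({z} : Set G)) : G) := rfl
      rw [h6] at h5
      rcases h5 with h5 | h5
      · left
        exact (inv_mul_eq_one.1 h5).symm
      · right
        rw [inv_mul_eq_iff_eq_mul] at h5
        rw [h5]
        exact (hP.zc _ (mem_Qm.2 ⟨q, rfl⟩)).symm
    rel_z := by
      rintro v x ⟨q, hq, rfl⟩
      obtain ⟨u, hu⟩ := hzQ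
      refine ⟨u * q, ?_, congrArg (fun t => t * ((q : Subgroup.centralizer ({z} : Set G)) : G)) hu⟩
      rw [hq]
      have h5 : (QuotientGroup.mk (u * q) : Q ⧸ Subgroup.center Q) = QuotientGroup.mk u * QuotientGroup.mk q := rfl
      rw [h5, (QuotientGroup.eq_one_iff u).2 ((center_iff hP u).2 (Or.inr hu)), one_mul]
    rel_cg := by
      rintro v w x ⟨q, hq, rfl⟩ ⟨r, hr, h5⟩
      have : r = q := Subtype.ext (Subtype.ext h5)
      rw [← hker, hq, hr, this]
    rel_of_cg := by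
      rintro v w x h ⟨q, hq, rfl⟩
      exact ⟨q, by rw [← (hker v w).2 h, hq], rfl⟩
    act_cen := by
      rintro g c ⟨hc, _⟩
      exact Subgroup.mem_centralizer_singleton_iff.1 hc
    act_rel := by
      rintro g c v x ⟨hc, h⟩ ⟨q, hq, rfl⟩
      exact ⟨_, h4 ⟨c, hc⟩ g h v q hq, rfl⟩
    act_ex := by
      intro g
      obtain ⟨c, hc⟩ := QuotientGroup.mk_surjective (e.symm (QuotientGroup.mk g : Spor.Co1))
      exact ⟨c, c.2, by
        have : (QuotientGroup.mk ⟨(c : G), c.2⟩ : (Subgroup.centralizer ({z} : Set G)) ⧸ Q) = QuotientGroup.mk c := rfl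
        rw [this, hc, e.apply_symm_apply]⟩
    act_ex' := by
      intro c hc
      obtain ⟨g, hg⟩ := QuotientGroup.mk_surjective (e (QuotientGroup.mk ⟨c, Subgroup.mem_centralizer_singleton_iff.2 hc⟩))
      exact ⟨g, _, hg⟩
    act_mul := by
      rintro g c g' c' ⟨hc, h⟩ ⟨hc', h'⟩
      refine ⟨mul_mem hc hc', ?_⟩
      have e1 : (QuotientGroup.mk (g * g') : Spor.Co1) = QuotientGroup.mk g * QuotientGroup.mk g' := rfl
      have e2 : (QuotientGroup.mk ⟨c * c', mul_mem hc hc'⟩ : (Subgroup.centralizer ({z} : Set G)) ⧸ Q) =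
        QuotientGroup.mk ⟨c, hc⟩ * QuotientGroup.mk ⟨c', hc'⟩ := rfl
      rw [e1, e2, map_mul, h, h']
    act_inv := by
      rintro g c ⟨hc, h⟩
      refine ⟨inv_mem hc, ?_⟩
      have e1 : (QuotientGroup.mk g⁻¹ : Spor.Co1) = (QuotientGroup.mk g)⁻¹ := rfl
      have e2 : (QuotientGroup.mk ⟨c⁻¹, inv_mem hc⟩ : (Subgroup.centralizer ({z} : Set G)) ⧸ Q) =
        (QuotientGroup.mk ⟨c, hc⟩)⁻¹ := rfl
      rw [e1, e2, map_inv, h]
    act_one := by
      intro c
      have e1 : (QuotientGroup.mk (1 : Co0) : Spor.Co1) = 1 := rfl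
      constructor
      · rintro ⟨hc, h⟩
        rw [e1, eq_comm, MulEquivClass.map_eq_one_iff, QuotientGroup.eq_one_iff] at h
        exact mem_Qm.2 ⟨⟨_, h⟩, rfl⟩
      · intro h
        obtain ⟨q, rfl⟩ := mem_Qm.1 h
        refine ⟨q.1.2, ?_⟩
        rw [e1]
        have e2 : (QuotientGroup.mk ⟨((q : Subgroup.centralizer ({z} : Set G)) : G), q.1.2⟩ :
          (Subgroup.centralizer ({z} : Set G)) ⧸ Q) = 1 := (QuotientGroup.eq_one_iff _).2 q.2
        rw [e2, map_one]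
    act_m1 := by
      rintro g c ⟨hc, h⟩
      refine ⟨hc, ?_⟩
      have e1 : (QuotientGroup.mk (m1 * g) : Spor.Co1) = QuotientGroup.mk m1 * QuotientGroup.mk g := rfl
      have e2 : (QuotientGroup.mk m1 : Spor.Co1) = 1 := (QuotientGroup.eq_one_iff _).2 ((center_eq m1).2 (Or.inr rfl))
      rw [e1, e2, one_mul, h]
    act_uniq := by
      rintro g h c ⟨hc, h5⟩ ⟨hc', h6⟩
      have h7 : (QuotientGroup.mk g : Spor.Co1) = QuotientGroup.mk h := by rw [h5, h6]
      rw [QuotientGroup.eq, center_eq] at h7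
      rcases h7 with h7 | h7
      · left; exact (inv_mul_eq_one.1 h7).symm
      · right
        rw [inv_mul_eq_iff_eq_mul] at h7
        rw [h7]
        have hm : m1 ∈ Subgroup.center Co0 := (center_eq m1).2 (Or.inr rfl)
        exact Subgroup.mem_center_iff.1 hm g }

/-- the pair given by a conjugate -/
theorem xr_of {w : ℕ} (hS : IsExtraspecialCentralizerSetting z Q w) {s g : G} (hs : s ∈ Qm Q) (hs1 : s ≠ z)
    (hg : g * z * g⁻¹ = s) : XR (Qm Q) ((Qm Q).map (MulAut.conj g).toMonoidHom) z s g where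
  h := pre_of_setting hS
  hQ' := rfl
  hxg := hg.symm
  hxQ := hs
  hxz := hs1

theorem mem_Qm_of {s : G} (hsQ : ∃ hsc : s ∈ Subgroup.centralizer ({z} : Set G),
    (⟨s, hsc⟩ : Subgroup.centralizer ({z} : Set G)) ∈ Q) : s ∈ Qm Q := by
  obtain ⟨h, h'⟩ := hsQ
  exact mem_Qm.2 ⟨⟨_, h'⟩, rfl⟩

end Cfsg.Agent.H28.Mon
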