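import Mathlib
import Cfsg.Agent.H28_Mon3
import Cfsg.Agent.H18_CharP

set_option autoImplicit false

/-!
Groups of Monster type: the involutions of the other kind.
-/

namespace Cfsg.Agent.H28.Mon

open Cfsg Cfsg.Agent.H28.Xsp Cfsg.Agent.H28.Large Cfsg.Agent.H7.Golay Cfsg.Agent.H7.L1 Cfsg.Agent.H7.L2 Cfsg.Agent.H7.LV
open Cfsg.Agent.H7.Co Cfsg.Agent.H7.Co3 Cfsg.Agent.H7.Co4 Cfsg.Agent.H7.Co5 Cfsg.Agent.H7.Co6 Cfsg.Agent.H28.M2L Cfsg.Agent.H28.M2A Cfsg.Agent.H28.M2N

variable {G : Type*} [Group G] [Finite G]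

namespace MS

variable {z : G} {Q Q' : Subgroup G} {s g : G} {Rel : leechLattice → G → Prop} {Act : Co0 → G → Prop}

/-- commuting and inner products -/
theorem comm_iff (M : MS z Q Rel Act) {v w : leechLattice} {x y : G} (hv : Rel v x) (hw : Rel w y) :
    x * y = y * x ↔ Dt v w % 16 = 0 := by
  obtain ⟨b, hb⟩ := M.exists_beta (M.rel_mem hv) (M.rel_mem hw)
  have h1 := M.sqf_add hv hw hb
  rw [M.sqf_eq_qf, M.sqf_eq_qf, M.sqf_eq_qf] at h1
  unfold M2F.qf at h1
  rw [nm_add] at h1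
  obtain ⟨p, hp⟩ : ∃ p, Nm v = 16 * p := ⟨Nm v / 16, by have := nm_emod v; omega⟩
  obtain ⟨q, hq⟩ : ∃ q, Nm w = 16 * q := ⟨Nm w / 16, by have := nm_emod w; omega⟩
  obtain ⟨d, hd⟩ : ∃ d, Dt v w = 8 * d := ⟨Dt v w / 8, by have := dt_emod v w; omega⟩
  have e1 : (16 * p + 2 * (8 * d) + 16 * q) / 16 = p + d + q := by omega
  have e2 : (16 * p) / 16 = p := by omega
  have e3 : (16 * q) / 16 = q := by omega
  rw [hp, hq, hd, e1, e2, e3] at h1
  push_cast at h1
  have hbd : b = (d : ZMod 2) := by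
    have : (p : ZMod 2) + (d : ZMod 2) + q = p + q + d := by ring
    rw [this] at h1
    exact (add_left_cancel h1).symm
  have h2 : x * y = y * x ↔ b = 0 := by
    constructor
    · intro h
      rw [h] at hb
      have h3 : zp z b = 1 := by
        have h4 : 1 * (y * x) = zp z b * (y * x) := by rw [one_mul]; exact hb
        exact (mul_right_cancel h4).symm
      have h5 : zp z b = zp z 0 := by rw [h3]; exact (pow_zero z).symm
      exact zp_inj M.pre.ne h5
    · rintro rfl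
      rw [hb]
      show z ^ 0 * _ = _
      rw [pow_zero, one_mul]
  rw [h2, hbd, hd, ZMod.intCast_zmod_eq_zero_iff_dvd]
  push_cast
  omega

/-- changing the identification by a lattice automorphism -/
theorem twist (M : MS z Q Rel Act) (b : Co0) : MS z Q (fun v x => Rel (b⁻¹ • v) x) (fun g c => Act (b⁻¹ * g * b) c) where
  pre := M.pre
  card := M.card
  rel_mem := fun h => M.rel_mem h
  rel_ex := fun v => M.rel_ex _
  rel_ex' := by
    intro x hx
    obtain ⟨v, hv⟩ := M.rel_ex' hx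
    exact ⟨b • v, by rw [inv_smul_smul]; exact hv⟩
  rel_mul := by
    intro v w x y h1 h2
    rw [smul_add'']
    exact M.rel_mul h1 h2
  rel_eq := fun h1 h2 => M.rel_eq h1 h2
  rel_z := fun h => M.rel_z h
  rel_cg := by
    intro v w x h1 h2
    have := (M.rel_cg h1 h2).smul b
    rwa [smul_inv_smul, smul_inv_smul] at this
  rel_of_cg := fun h h1 => M.rel_of_cg (h.smul b⁻¹) h1
  act_cen := fun h => M.act_cen h
  act_rel := by
    intro g c v x h1 h2
    have := M.act_rel h1 h2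
    rwa [← mul_smul, show b⁻¹ * g * b * b⁻¹ = b⁻¹ * g by group, mul_smul] at this
  act_ex := fun g => M.act_ex _
  act_ex' := by
    intro c hc
    obtain ⟨g, hg⟩ := M.act_ex' hc
    exact ⟨b * g * b⁻¹, by rw [show b⁻¹ * (b * g * b⁻¹) * b = g by group]; exact hg⟩
  act_mul := by
    intro g c g' c' h1 h2
    have := M.act_mul h1 h2
    rwa [show b⁻¹ * g * b * (b⁻¹ * g' * b) = b⁻¹ * (g * g') * b by group] at this
  act_inv := by
    intro g c h
    have := M.act_inv h
    rwa [show (b⁻¹ * g * b)⁻¹ = b⁻¹ * g⁻¹ * b by group] at this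
  act_one := by
    intro c
    rw [mul_one, inv_mul_cancel]
    exact M.act_one
  act_m1 := by
    intro g c h
    have h1 := M.act_m1 h
    have hm : m1 * b⁻¹ = b⁻¹ * m1 := (Subgroup.mem_center_iff.1 ((center_eq m1).2 (Or.inr rfl)) b⁻¹).symm
    rwa [show m1 * (b⁻¹ * g * b) = (m1 * b⁻¹) * g * b by group, hm, show b⁻¹ * m1 * g * b = b⁻¹ * (m1 * g) * b by group] at h1
  act_uniq := by
    intro g h c h1 h2
    have hm : m1 * b⁻¹ = b⁻¹ * m1 := (Subgroup.mem_center_iff.1 ((center_eq m1).2 (Or.inr rfl)) b⁻¹).symm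
    rcases M.act_uniq h1 h2 with h3 | h3
    · left
      have : b * (b⁻¹ * h * b) * b⁻¹ = b * (b⁻¹ * g * b) * b⁻¹ := by rw [h3]
      rwa [show b * (b⁻¹ * h * b) * b⁻¹ = h by group, show b * (b⁻¹ * g * b) * b⁻¹ = g by group] at this
    · right
      have : b * (b⁻¹ * h * b) * b⁻¹ = b * (m1 * (b⁻¹ * g * b)) * b⁻¹ := by rw [h3]
      rwa [show b * (b⁻¹ * h * b) * b⁻¹ = h by group, show b * (m1 * (b⁻¹ * g * b)) * b⁻¹ = b * (m1 * b⁻¹) * g by group, hm,
        show b * (b⁻¹ * m1) * g = m1 * g by group] at this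

theorem zt_conj (M : MS z Q Rel Act) {t : G} (ht : t ∈ Q) (h1 : t ≠ 1) (h2 : t ≠ z) : IsConj t (z * t) := by
  obtain ⟨q, hq, hq'⟩ := M.pre.exists_move ht h1 h2
  exact isConj_iff.2 ⟨q, hq'⟩

omit [Finite G] in
theorem ne_one_of_order {t : G} (h : orderOf t = 2) : t ≠ 1 ∧ t * t = 1 := by
  constructor
  · rintro rfl
    rw [orderOf_one] at h
    norm_num at h
  · have := pow_orderOf_eq_one t
    rwa [h, pow_two] at this

/-- the vector with image in the intersection -/
def wO : leechLattice := mkv 4809906950585343784798126593072511333333228335004322620908854802038186885587858899971634509995232971676159836168 (by decide +kernel) (by decide +kernel)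
theorem wO_coe : (wO : GolayPt → ℤ) = dec 4809906950585343784798126593072511333333228335004322620908854802038186885587858899971634509995232971676159836168 := rfl

theorem mask_mem : ofMask 4038912 ∈ Cw := (ofMask_mem_supports (by norm_num)).2 (mem_codeL_iff.2 (by decide +kernel))

theorem exists_d : ∃ d ∈ DD, Nm (wO + d • (-wO)) = 32 := by
  obtain ⟨d, hd⟩ := exists_mono (one_mem M24) mask_mem
  refine ⟨d, ⟨_, mask_mem, hd⟩, ?_⟩
  show sqNorm ((wO : GolayPt → ℤ) + ((d • (-wO) : leechLattice) : GolayPt → ℤ)) = 32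
  rw [hd, AddSubgroup.coe_neg]
  have : (wO : GolayPt → ℤ) + signedPerm 1 (ofMask 4038912) (-(wO : GolayPt → ℤ)) =
      fun i => dec 4809906950585343784798126593072511333333228335004322620908854802038186885587858899971634509995232971676159836168 i +
        if Nat.testBit 4038912 (ix i) then dec 4809906950585343784798126593072511333333228335004322620908854802038186885587858899971634509995232971676159836168 i
        else -dec 4809906950585343784798126593072511333333228335004322620908854802038186885587858899971634509995232971676159836168 i := by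
    funext i
    rw [wO_coe]
    simp only [Pi.add_apply, signedPerm, mem_ofMask, Pi.neg_apply, neg_neg]
    rfl
  rw [this]
  decide +kernel

theorem type2_of_inv (M : MS z Q Rel Act) (S : XR Q Q' z s g) {t : G} (ht : t ∈ Q) (h2 : orderOf t = 2) (hc : ¬ IsConj z t) :
    ∃ v, Rel v t ∧ Nm v = 32 := by
  obtain ⟨h1, h3⟩ := ne_one_of_order h2
  have hz : t ≠ z := by
    rintro rfl
    exact hc (IsConj.refl _)
  obtain ⟨v, hv, h4⟩ := M.inv_type ht h1 hz h3
  rcases h4 with h4 | h4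
  · exact ⟨v, hv, h4⟩
  · exfalso
    apply hc
    obtain ⟨w, hw, hw'⟩ := M.type4 S
    obtain ⟨c, -, hcs⟩ := M.conj_of_type hw hv (Or.inr (Or.inr ⟨hw', h4⟩))
    rw [isConj_iff]
    exact ⟨c * g, by rw [← hcs, S.hxg]; group⟩

theorem not_conj_of_type2 (M : MS z Q Rel Act) {t : G} {v : leechLattice} (hv : Rel v t) (h : Nm v = 32) : ¬ IsConj z t := by
  intro hc
  obtain ⟨k, hk⟩ := isConj_iff.1 hc
  have h0 : ¬ Cg v 0 := by
    apply not_cg_zero (by omega)
    rintro rfl
    rw [nm_zero_iff.2 rfl] at h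
    omega
  obtain ⟨w, hw, hw'⟩ := M.type4 (Q' := Q.map (MulAut.conj k).toMonoidHom) (g := k)
    ⟨M.pre, rfl, hk.symm, M.rel_mem hv, (M.ne_of hv h0).2⟩
  have := M.type_unique hv hw (by omega) (by omega)
  omega

/-- a type 2 element in the intersection -/
theorem exists_type2 (M : MS z Q Rel Act) (S : XR Q Q' z s g) : ∃ t ∈ Q ⊓ Q', ∃ v, Rel v t ∧ Nm v = 32 := by
  obtain ⟨v, hv, h64, a, ha, hcard, him, hcs⟩ := M.main4 S
  obtain ⟨d, hd, hdn⟩ := exists_d
  -- lift
  have hd' : a⁻¹ * d * a ∈ M.im (XR.P Q' z) := by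
    rw [him]
    rwa [show a * (a⁻¹ * d * a) * a⁻¹ = d by group]
  obtain ⟨p, hp, hpa⟩ := hd'
  obtain ⟨x, hx⟩ := M.rel_ex (a⁻¹ • wO)
  have hxQ := M.rel_mem hx
  have hxs : x * s = s * x := by
    rw [M.comm_iff hx hv]
    have : Dt (a⁻¹ • wO) v = Dt wO (O8 none) := by
      rw [← dt_smul a, smul_inv_smul, ha]
    rw [this, dt_comm, dt_O8, wO_coe]
    decide +kernel
  have hxi : Rel (a⁻¹ • (-wO)) x⁻¹ := by
    rw [smul_neg'']
    have h1 : Rel (-(a⁻¹ • wO)) x := M.rel_of_cg (Cg.symm (Cg.neg _)) hx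
    rcases M.pre.sqr x hxQ with h2 | h2
    · rw [inv_eq_of_mul_eq_one_right h2]; exact h1
    · have h3 : x⁻¹ = z * x := by
        apply inv_eq_of_mul_eq_one_right
        calc x * (z * x) = (x * z) * x := by group
          _ = (z * x) * x := by rw [M.pre.zc x hxQ]
          _ = z * (x * x) := by group
          _ = z * z := by rw [h2]
          _ = 1 := M.zz
      rw [h3]
      exact M.rel_z h1
  have hxP : x ∈ XR.P Q s := XR.mem_P.2 ⟨hxQ, hxs⟩
  have hxCV := (S.P_eq.1 hxP).2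
  have hpCV := (S.P'_eq.1 hp).2
  refine ⟨x * (p * x⁻¹ * p⁻¹), Subgroup.mem_inf.2 ⟨?_, ?_⟩, a⁻¹ • (wO + d • (-wO)), ?_, ?_⟩
  · exact Q.mul_mem hxQ (S.CV_conj_Q hpCV (Q.inv_mem hxQ))
  · have : x * (p * x⁻¹ * p⁻¹) = (x * p * x⁻¹) * p⁻¹ := by group
    rw [this]
    exact Q'.mul_mem (S.CV_conj_Q' hxCV (S.P'_eq.1 hp).1) (Q'.inv_mem (S.P'_eq.1 hp).1)
  · rw [smul_add'']
    apply M.rel_mul hx
    have := M.act_rel hpa hxi
    rwa [← mul_smul, show a⁻¹ * d * a * a⁻¹ = a⁻¹ * d by group, mul_smul] at this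
  · rw [nm_smul]; exact hdn

end MS

end Cfsg.Agent.H28.Mon
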