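import Mathlib
import Cfsg.Agent.H28_Mon4

set_option autoImplicit false

/-!
Groups of Monster type: the centraliser of an involution of the other kind.
-/

namespace Cfsg.Agent.H28.Mon

open Cfsg Cfsg.Agent.H28.Xsp Cfsg.Agent.H28.Large
open Cfsg.Agent.H7.Co Cfsg.Agent.H7.Co3 Cfsg.Agent.H7.Co4 Cfsg.Agent.H7.Co5 Cfsg.Agent.H7.Co6 Cfsg.Agent.H28.M2L Cfsg.Agent.H28.M2A Cfsg.Agent.H28.M2N

variable {G : Type*} [Group G] [Finite G]

/-- order of the centraliser of a non-central involution in an extraspecial group -/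
theorem card_cQ {Q : Subgroup G} {z t : G} (h : Xsp Q z) {n : ℕ} (hc : Nat.card Q = 2 ^ (n + 1)) (ht : t ∈ Q) (h1 : t ≠ 1)
    (hz : t ≠ z) : Nat.card (Q ⊓ Subgroup.centralizer ({t} : Set G) : Subgroup G) = 2 ^ n := by
  have h1' := h.card_le_two_mul (le_refl Q) ht
  rw [hc] at h1'
  have h2 : (Q ⊓ Subgroup.centralizer ({t} : Set G) : Subgroup G) ≤ Q := inf_le_left
  have h3 : (Q ⊓ Subgroup.centralizer ({t} : Set G) : Subgroup G) ≠ Q := by
    intro hh
    obtain ⟨y, hy, hyy⟩ := h.exists_not_comm ht h1 hz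
    rw [← hh] at hy
    exact hyy (Subgroup.mem_centralizer_singleton_iff.1 (Subgroup.mem_inf.1 hy).2).symm
  have h4 := Subgroup.card_dvd_of_le h2
  rw [hc] at h4
  obtain ⟨k, hk, hk'⟩ := (Nat.dvd_prime_pow Nat.prime_two).1 h4
  have h5 : k ≠ n + 1 := by
    rintro rfl
    exact h3 (Subgroup.eq_of_le_of_card_ge h2 (by rw [hk', hc]))
  have h6 : n ≤ k := by
    by_contra hlt
    have h7 : 2 ^ (k + 1) ≤ 2 ^ n := Nat.pow_le_pow_right (by norm_num) (by omega)
    have h8 : 2 ^ n < 2 ^ (n + 1) := Nat.pow_lt_pow_right (by norm_num) (by omega)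
    rw [hk'] at h1'
    rw [pow_succ] at h7
    omega
  have h7 : k = n := by omega
  rw [hk', h7]

namespace MS

variable {z t : G} {Q Q' : Subgroup G} {s g : G} {Rel : leechLattice → G → Prop} {Act : Co0 → G → Prop}

/-- fusion in the centraliser of `t` -/
theorem exists_fuse (M : MS z Q Rel Act) (S : XR Q Q' z s g) {v : leechLattice} (ht : Rel v t) (hn : Nm v = 32) :
    ∃ h : G, h * t = t * h ∧ h * z * h⁻¹ ∈ Q ∧ h * z * h⁻¹ ≠ z ∧ h * z * h⁻¹ ≠ z * t := by
  obtain ⟨t', ht', w, hw, hwn⟩ := M.exists_type2 S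
  have h0 : ∀ w : leechLattice, Nm w = 32 → ¬ Cg w 0 := by
    intro w hw
    apply not_cg_zero (by omega)
    rintro rfl
    rw [nm_zero_iff.2 rfl] at hw
    omega
  have htQ' : t' ∈ Q' := (Subgroup.mem_inf.1 ht').2
  rw [S.hQ', mem_map_conj] at htQ'
  have hnc := M.not_conj_of_type2 hw hwn
  have hnc' : ¬ IsConj z (g⁻¹ * t' * g) := by
    intro hc
    apply hnc
    refine hc.trans (isConj_iff.2 ⟨g, by group⟩)
  obtain ⟨ht1, htz⟩ := M.ne_of hw (h0 w hwn)
  have htt : t' * t' = 1 := (M.sq_one_iff hw).2 (by omega)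
  have ho : orderOf (g⁻¹ * t' * g) = 2 := by
    rw [orderOf_eq_prime_iff]
    constructor
    · rw [pow_two]
      calc g⁻¹ * t' * g * (g⁻¹ * t' * g) = g⁻¹ * (t' * t') * g := by group
        _ = 1 := by rw [htt]; group
    · intro h
      apply ht1
      have : t' = g * (g⁻¹ * t' * g) * g⁻¹ := by group
      rw [this, h]; group
  obtain ⟨v'', hv'', hn''⟩ := M.type2_of_inv S htQ' ho hnc'
  obtain ⟨c, hcz, hct⟩ := M.conj_of_type hv'' hw (Or.inl ⟨hn'', hwn⟩)
  obtain ⟨c', hcz', hct'⟩ := M.conj_of_type hw ht (Or.inl ⟨hwn, hn⟩)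
  have k1 : (g * c⁻¹) * t' * (g * c⁻¹)⁻¹ = t' := by
    have h1 : c⁻¹ * t' * c = g⁻¹ * t' * g := by
      have h2 : c⁻¹ * (c * (g⁻¹ * t' * g) * c⁻¹) * c = g⁻¹ * t' * g := by group
      rwa [hct] at h2
    calc (g * c⁻¹) * t' * (g * c⁻¹)⁻¹ = g * (c⁻¹ * t' * c) * g⁻¹ := by group
      _ = t' := by rw [h1]; group
  have k2 : (g * c⁻¹) * z * (g * c⁻¹)⁻¹ = s := by
    have : c⁻¹ * z * c = z := by
      rw [mul_assoc, ← hcz]; group
    calc (g * c⁻¹) * z * (g * c⁻¹)⁻¹ = g * (c⁻¹ * z * c) * g⁻¹ := by group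
      _ = s := by rw [this, S.hxg]
  set k := g * c⁻¹
  have h2 : (c' * k * c'⁻¹) * z * (c' * k * c'⁻¹)⁻¹ = c' * s * c'⁻¹ := by
    have : c'⁻¹ * z * c' = z := by
      rw [mul_assoc, ← hcz']; group
    calc (c' * k * c'⁻¹) * z * (c' * k * c'⁻¹)⁻¹ = c' * (k * (c'⁻¹ * z * c') * k⁻¹) * c'⁻¹ := by group
      _ = _ := by rw [this, k2]
  have hcQ : c' * s * c'⁻¹ ∈ Q := M.pre.conj_mem_of_comm hcz' S.hxQ
  refine ⟨c' * k * c'⁻¹, ?_, ?_, ?_, ?_⟩
  · have : (c' * k * c'⁻¹) * t * (c' * k * c'⁻¹)⁻¹ = t := by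
      calc (c' * k * c'⁻¹) * t * (c' * k * c'⁻¹)⁻¹ = c' * (k * (c'⁻¹ * t * c') * k⁻¹) * c'⁻¹ := by group
        _ = c' * (k * t' * k⁻¹) * c'⁻¹ := by rw [← hct']; group
        _ = t := by rw [k1, hct']
    exact mul_inv_eq_iff_eq_mul.1 this
  · rw [h2]; exact hcQ
  · rw [h2]
    intro h
    apply S.hxz
    have : s = c'⁻¹ * (c' * s * c'⁻¹) * c' := by group
    rw [this, h, mul_assoc, ← hcz']; group
  · intro h
    apply M.not_conj_of_type2 (M.rel_z ht) hn
    rw [← h]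
    exact isConj_iff.2 ⟨_, rfl⟩

/-- elements of odd order acting trivially -/
theorem odd_trivial (M : MS z Q Rel Act) (ht : t ∈ Q) (htt : t * t = 1) {x : G} (hxz : x * z = z * x) (hxt : x * t = t * x)
    (hx : (orderOf x).Coprime 2) (h : ∀ q ∈ Q, q * t = t * q → q * x * q⁻¹ * x⁻¹ = 1 ∨ q * x * q⁻¹ * x⁻¹ = t) : x = 1 := by
  have h2t : IsPGroup 2 (Subgroup.zpowers t) := (M.pre.isPGroup).to_le (by rw [Subgroup.zpowers_le]; exact ht)
  have hx0 : 0 < orderOf x := orderOf_pos x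
  have s1 : ∀ q ∈ Q, q * t = t * q → q * x = x * q := by
    intro q hq hqt
    refine H18.CharP.commute_of_pgroup h2t hx hx0 ?_ ?_
    · rcases h q hq hqt with h3 | h3
      · rw [h3]; exact one_mem _
      · rw [h3]; exact Subgroup.mem_zpowers t
    · intro r hr
      obtain ⟨k, rfl⟩ := Subgroup.mem_zpowers_iff.1 hr
      exact ((show Commute x t from hxt).zpow_right k).eq.symm
  let V : Subgroup G := Subgroup.closure {t, z}
  have hzt : z * t = t * z := M.pre.zc t ht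
  have hVmem : ∀ {w}, w ∈ V → w = 1 ∨ w = t ∨ w = z ∨ w = z * t := fun hw => mem_pair htt M.zz hzt hw
  have hVQ : V ≤ Q := by
    rw [Subgroup.closure_le]
    rintro y (rfl | hy)
    · exact ht
    · rw [Set.mem_singleton_iff.1 hy]; exact M.pre.mem
  have hzV : z ∈ V := Subgroup.subset_closure (by simp)
  have htV : t ∈ V := Subgroup.subset_closure (by simp)
  have s2 : ∀ q ∈ Q, q * x = x * q := by
    intro q hq
    refine H18.CharP.commute_of_pgroup (R := V) (M.pre.isPGroup.to_le hVQ) hx hx0 ?_ ?_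
    · rw [← M.pre.double_centralizer hzV hVQ]
      refine Subgroup.mem_inf.2 ⟨?_, ?_⟩
      · have h1 := M.pre.conj_mem_of_comm hxz (Q.inv_mem hq)
        have : q * x * q⁻¹ * x⁻¹ = q * (x * q⁻¹ * x⁻¹) := by group
        rw [this]; exact Q.mul_mem hq h1
      · rw [Subgroup.mem_centralizer_iff]
        intro y hy
        obtain ⟨hyQ, hyV⟩ := Subgroup.mem_inf.1 hy
        have hyt : y * t = t * y := (Subgroup.mem_centralizer_iff.1 hyV t htV).symm
        have hyx := s1 y hyQ hyt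
        have h3 : q⁻¹ * y * q = y ∨ q⁻¹ * y * q = z * y := by
          have := M.pre.conj_eq (Q.inv_mem hq) hyQ
          rwa [inv_inv] at this
        have h4 : x * (q⁻¹ * y * q) = (q⁻¹ * y * q) * x := by
          rcases h3 with h3 | h3
          · rw [h3, hyx]
          · rw [h3]
            calc x * (z * y) = (x * z) * y := by group
              _ = (z * x) * y := by rw [hxz]
              _ = z * (x * y) := by group
              _ = z * (y * x) := by rw [hyx]
              _ = _ := by group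
        calc y * (q * x * q⁻¹ * x⁻¹) = q * ((q⁻¹ * y * q) * x) * q⁻¹ * x⁻¹ := by group
          _ = q * (x * (q⁻¹ * y * q)) * q⁻¹ * x⁻¹ := by rw [h4]
          _ = q * x * q⁻¹ * (y * x⁻¹) := by group
          _ = q * x * q⁻¹ * (x⁻¹ * y) := by
            have : y * x⁻¹ = x⁻¹ * y := by
              rw [mul_inv_eq_iff_eq_mul, mul_assoc, hyx, inv_mul_cancel_left]
            rw [this]
          _ = _ := by group
    · intro r hr
      rcases hVmem hr with rfl | rfl | rfl | rfl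
      · simp
      · exact hxt.symm
      · exact hxz.symm
      · calc z * t * x = z * (t * x) := by group
          _ = z * (x * t) := by rw [hxt]
          _ = (z * x) * t := by group
          _ = (x * z) * t := by rw [hxz]
          _ = _ := by group
  have h5 : x ∈ Subgroup.centralizer (Q : Set G) := by
    rw [Subgroup.mem_centralizer_iff]
    exact s2
  rw [M.pre.cent] at h5
  refine H18.CharP.eq_one_of_pgroup (R := Subgroup.zpowers z) ?_ hx h5
  exact M.pre.isPGroup.to_le (by rw [Subgroup.zpowers_le]; exact M.pre.mem)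

/-- normal 2-subgroups of `C(z) ∩ C(t)` lie in `Q` -/
theorem le_Q (M : MS z Q Rel Act) {v : leechLattice} (ht : Rel v t) (hn : Nm v = 32) (N : Subgroup G) (h2 : IsPGroup 2 N)
    (hNz : ∀ x ∈ N, x * z = z * x) (hNt : ∀ x ∈ N, x * t = t * x)
    (hN : ∀ c : G, c * z = z * c → c * t = t * c → ∀ x ∈ N, c * x * c⁻¹ ∈ N) : N ≤ Q := by
  have h0 : ¬ Cg v 0 := by
    apply not_cg_zero (by omega)
    rintro rfl
    rw [nm_zero_iff.2 rfl] at hn
    omega
  have hN' := M2S.no_two hn (M.im N ⊓ MulAction.stabilizer Co0 v)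
    ((M.im_two h2).to_le inf_le_left) (fun n hn => hn.2) (by
      rintro a ha n ⟨⟨p, hp, hnp⟩, hn2⟩
      obtain ⟨c, hc, hct⟩ := M.lift_cs ht h0 ((mem_cs_short (by omega)).2 (Or.inl ha))
      refine ⟨⟨c * p * c⁻¹, hN c (M.act_cen hc) hct p hp, M.act_mul (M.act_mul hc hnp) (M.act_inv hc)⟩, ?_⟩
      have hn2' : n • v = v := hn2
      show (a * n * a⁻¹) • v = v
      have : a⁻¹ • v = v := by rw [inv_smul_eq_iff, ha]
      rw [mul_smul, mul_smul, this, hn2', ha])
  intro x hx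
  obtain ⟨γ, hγ⟩ := M.act_ex' (hNz x hx)
  have h1 : γ ∈ cs v := M.cs_of_comm ht hγ (by rw [hNt x hx, mul_inv_cancel_right])
  rcases (mem_cs_short (by omega)).1 h1 with h3 | h3
  · have : γ ∈ M.im N ⊓ MulAction.stabilizer Co0 v := ⟨⟨x, hx, hγ⟩, h3⟩
    rw [hN', Subgroup.mem_bot] at this
    rw [this, M.act_one] at hγ
    exact hγ
  · have h4 : m1 * γ ∈ M.im N ⊓ MulAction.stabilizer Co0 v := by
      refine ⟨⟨x, hx, M.act_m1 hγ⟩, ?_⟩
      show (m1 * γ) • v = v
      rw [mul_smul, h3, m1_smul, neg_neg]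
    rw [hN', Subgroup.mem_bot] at h4
    have := M.act_m1 hγ
    rw [h4, M.act_one] at this
    exact this

end MS

end Cfsg.Agent.H28.Mon
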