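import Mathlib
import Cfsg.Agent.H28_Mon5

set_option autoImplicit false

/-!
Groups of Monster type: the quotient of the centraliser of an involution of the other kind.
-/

namespace Cfsg.Agent.H28.Mon

open Cfsg Cfsg.Agent.H28.Xsp Cfsg.Agent.H28.Large
open Cfsg.Agent.H7.Co Cfsg.Agent.H7.Co3 Cfsg.Agent.H7.Co4 Cfsg.Agent.H7.Co5 Cfsg.Agent.H7.Co6 Cfsg.Agent.H28.M2L Cfsg.Agent.H28.M2A Cfsg.Agent.H28.M2N

variable {G : Type*} [Group G] [Finite G]

abbrev HH (t : G) : Subgroup G := Subgroup.centralizer ({t} : Set G)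
abbrev TT (t : G) : Subgroup (HH t) := (Subgroup.zpowers t).subgroupOf (HH t)

/-- the situation: `t` of type 2 -/
structure BM (z t : G) (Q : Subgroup G) (Rel : leechLattice → G → Prop) (Act : Co0 → G → Prop) : Prop where
  M : MS z Q Rel Act
  hU : Rel Spor.leechU t
  hz : z ∈ HH t

section
variable {z t : G} {Q : Subgroup G} {Rel : leechLattice → G → Prop} {Act : Co0 → G → Prop} [hn : (TT t).Normal]

theorem nmU : Nm Spor.leechU = 32 := by
  show sqNorm Spor.vecU = 32
  decide +kernel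

theorem cgU : ¬ Cg Spor.leechU 0 := by
  apply not_cg_zero (by rw [nmU]; norm_num)
  intro h
  have := nmU
  rw [h, nm_zero_iff.2 rfl] at this
  norm_num at this

namespace BM

omit hn in
theorem tt (B : BM z t Q Rel Act) : t * t = 1 := (B.M.sq_one_iff B.hU).2 (by rw [nmU]; norm_num)

omit hn in
theorem t1 (B : BM z t Q Rel Act) : t ≠ 1 := (B.M.ne_of B.hU cgU).1

omit hn in
theorem tz (B : BM z t Q Rel Act) : t ≠ z := (B.M.ne_of B.hU cgU).2

omit hn in
theorem tQ (B : BM z t Q Rel Act) : t ∈ Q := B.M.rel_mem B.hU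

omit hn in
theorem zt (B : BM z t Q Rel Act) : z * t = t * z := B.M.pre.zc t B.tQ

theorem mk_eq (B : BM z t Q Rel Act) {h h' : HH t} :
    (QuotientGroup.mk h : HH t ⧸ TT t) = QuotientGroup.mk h' ↔ (h' : G) = h ∨ (h' : G) = h * t := by
  rw [QuotientGroup.eq, Subgroup.mem_subgroupOf, mem_zpowers_of_sq B.tt]
  show (h : G)⁻¹ * h' = 1 ∨ (h : G)⁻¹ * h' = t ↔ _
  rw [inv_mul_eq_one, inv_mul_eq_iff_eq_mul, eq_comm]

/-- the image of `z` -/
def zB (B : BM z t Q Rel Act) : HH t ⧸ TT t := QuotientGroup.mk ⟨z, B.hz⟩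

abbrev CB (B : BM z t Q Rel Act) : Subgroup (HH t ⧸ TT t) := Subgroup.centralizer ({B.zB} : Set (HH t ⧸ TT t))

def QB0 (_B : BM z t Q Rel Act) : Subgroup (HH t ⧸ TT t) := (Q.subgroupOf (HH t)).map (QuotientGroup.mk' (TT t))

def QB (B : BM z t Q Rel Act) : Subgroup B.CB := B.QB0.subgroupOf B.CB

theorem mem_CB (B : BM z t Q Rel Act) {h : HH t} : (QuotientGroup.mk h : HH t ⧸ TT t) ∈ B.CB ↔ (h : G) * z = z * h := by
  rw [Subgroup.mem_centralizer_singleton_iff]
  constructor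
  · intro hh
    have h1 : (QuotientGroup.mk (⟨z, B.hz⟩ * h) : HH t ⧸ TT t) = QuotientGroup.mk (h * ⟨z, B.hz⟩) := hh.symm
    rw [B.mk_eq] at h1
    rcases h1 with h1 | h1
    · exact h1
    · exfalso
      have h2 : (h : G) * z = z * h * t := h1
      have h3 : (h : G) * t = t * h := Subgroup.mem_centralizer_singleton_iff.1 h.2
      have h4 : (h : G) * z * (h : G)⁻¹ = z * t := by
        rw [h2, mul_assoc z, h3]; group
      apply B.M.not_conj_of_type2 (B.M.rel_z B.hU) nmU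
      exact isConj_iff.2 ⟨_, h4⟩
  · intro hh
    show (QuotientGroup.mk (h * ⟨z, B.hz⟩) : HH t ⧸ TT t) = QuotientGroup.mk (⟨z, B.hz⟩ * h)
    congr 1
    exact Subtype.ext hh

theorem mem_QB0 (B : BM z t Q Rel Act) {h : HH t} : (QuotientGroup.mk h : HH t ⧸ TT t) ∈ B.QB0 ↔ (h : G) ∈ Q := by
  constructor
  · rintro ⟨k, hk, hkh⟩
    have h1 : (QuotientGroup.mk k : HH t ⧸ TT t) = QuotientGroup.mk h := hkh
    rw [B.mk_eq] at h1
    have hk' : (k : G) ∈ Q := hk
    rcases h1 with h1 | h1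
    · rw [h1]; exact hk'
    · rw [h1]; exact Q.mul_mem hk' B.tQ
  · intro h1
    exact ⟨h, h1, rfl⟩

theorem QB0_le (B : BM z t Q Rel Act) : B.QB0 ≤ B.CB := by
  intro x hx
  obtain ⟨h, rfl⟩ := QuotientGroup.mk_surjective x
  rw [B.mem_QB0] at hx
  rw [B.mem_CB]
  exact (B.M.pre.zc _ hx).symm

instance finHH (t : G) [(TT t).Normal] : Finite (HH t ⧸ TT t) := inferInstance

/-- the image of `Q` is extraspecial -/
theorem xsp0 (B : BM z t Q Rel Act) : Xsp B.QB0 B.zB where
  mem := B.mem_QB0.2 B.M.pre.mem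
  ne := by
    intro h
    have h1 : (QuotientGroup.mk 1 : HH t ⧸ TT t) = QuotientGroup.mk ⟨z, B.hz⟩ := h.symm
    rw [B.mk_eq] at h1
    rcases h1 with h1 | h1
    · exact B.M.pre.ne h1
    · rw [OneMemClass.coe_one, one_mul] at h1
      exact B.tz h1.symm
  sq := by
    show (QuotientGroup.mk (⟨z, B.hz⟩ * ⟨z, B.hz⟩) : HH t ⧸ TT t) = QuotientGroup.mk 1
    congr 1
    exact Subtype.ext B.M.zz
  zc := by
    intro x hx
    obtain ⟨h, rfl⟩ := QuotientGroup.mk_surjective x
    rw [B.mem_QB0] at hx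
    show (QuotientGroup.mk (⟨z, B.hz⟩ * h) : HH t ⧸ TT t) = QuotientGroup.mk (h * ⟨z, B.hz⟩)
    congr 1
    exact Subtype.ext (B.M.pre.zc _ hx)
  comm := by
    intro x hx y hy
    obtain ⟨h, rfl⟩ := QuotientGroup.mk_surjective x
    obtain ⟨k, rfl⟩ := QuotientGroup.mk_surjective y
    rw [B.mem_QB0] at hx hy
    rcases B.M.pre.comm _ hx _ hy with h1 | h1
    · left
      show (QuotientGroup.mk (h * k) : HH t ⧸ TT t) = QuotientGroup.mk (k * h)
      congr 1
      exact Subtype.ext h1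
    · right
      show (QuotientGroup.mk (h * k) : HH t ⧸ TT t) = QuotientGroup.mk (⟨z, B.hz⟩ * (k * h))
      congr 1
      exact Subtype.ext h1
  sqr := by
    intro x hx
    obtain ⟨h, rfl⟩ := QuotientGroup.mk_surjective x
    rw [B.mem_QB0] at hx
    rcases B.M.pre.sqr _ hx with h1 | h1
    · left
      show (QuotientGroup.mk (h * h) : HH t ⧸ TT t) = QuotientGroup.mk 1
      congr 1
      exact Subtype.ext h1
    · right
      show (QuotientGroup.mk (h * h) : HH t ⧸ TT t) = QuotientGroup.mk ⟨z, B.hz⟩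
      congr 1
      exact Subtype.ext h1
  cen := by
    intro x hx hxc
    obtain ⟨h, rfl⟩ := QuotientGroup.mk_surjective x
    rw [B.mem_QB0] at hx
    -- `h` commutes with the centraliser of `t` in `Q`
    have h1 : ∀ y ∈ Q, y * t = t * y → (h : G) * y = y * h := by
      intro y hy hyt
      have h2 := hxc (QuotientGroup.mk ⟨y, Subgroup.mem_centralizer_singleton_iff.2 hyt⟩) (B.mem_QB0.2 hy)
      have h3 : (QuotientGroup.mk (h * ⟨y, Subgroup.mem_centralizer_singleton_iff.2 hyt⟩) : HH t ⧸ TT t) =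
        QuotientGroup.mk (⟨y, Subgroup.mem_centralizer_singleton_iff.2 hyt⟩ * h) := h2
      rw [B.mk_eq] at h3
      rcases h3 with h3 | h3
      · exact h3.symm
      · have h4 : y * (h : G) = h * y * t := h3
        rcases B.M.pre.comm _ hx _ hy with h5 | h5
        · exact h5
        · exfalso
          rw [h5] at h4
          -- y h = z y h t
          have h6 : z * (y * (h : G)) * t = (z * t) * (y * h) := by
            have h7 : (y * (h : G)) * t = t * (y * h) := by
              have h8 : (h : G) * t = t * h := Subgroup.mem_centralizer_singleton_iff.1 h.2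
              calc (y * (h : G)) * t = y * (h * t) := by group
                _ = (y * t) * h := by rw [h8]; group
                _ = _ := by rw [hyt]; group
            calc z * (y * (h : G)) * t = z * ((y * (h : G)) * t) := by group
              _ = _ := by rw [h7]; group
          rw [h6] at h4
          have h7 : (1 : G) * (y * h) = (z * t) * (y * h) := by rw [one_mul]; exact h4
          have h8 := mul_right_cancel h7
          apply B.tz
          have : t = z⁻¹ * (z * t) := by group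
          rw [this, ← h8, mul_one]
          exact inv_eq_of_mul_eq_one_right B.M.zz
    let V : Subgroup G := Subgroup.closure {t, z}
    have hVQ : V ≤ Q := by
      rw [Subgroup.closure_le]
      rintro y (rfl | hy)
      · exact B.tQ
      · rw [Set.mem_singleton_iff.1 hy]; exact B.M.pre.mem
    have hzV : z ∈ V := Subgroup.subset_closure (by simp)
    have htV : t ∈ V := Subgroup.subset_closure (by simp)
    have h2 : (h : G) ∈ V := by
      rw [← B.M.pre.double_centralizer hzV hVQ]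
      refine Subgroup.mem_inf.2 ⟨hx, ?_⟩
      rw [Subgroup.mem_centralizer_iff]
      intro y hy
      obtain ⟨hyQ, hyV⟩ := Subgroup.mem_inf.1 hy
      exact (h1 y hyQ (Subgroup.mem_centralizer_iff.1 hyV t htV).symm).symm
    rcases mem_pair B.tt B.M.zz B.zt h2 with h3 | h3 | h3 | h3
    · left
      show (QuotientGroup.mk h : HH t ⧸ TT t) = QuotientGroup.mk 1
      congr 1
      exact Subtype.ext h3
    · left
      show (QuotientGroup.mk h : HH t ⧸ TT t) = QuotientGroup.mk 1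
      symm
      rw [B.mk_eq]
      right
      rw [OneMemClass.coe_one, one_mul, h3]
    · right
      show (QuotientGroup.mk h : HH t ⧸ TT t) = QuotientGroup.mk ⟨z, B.hz⟩
      congr 1
      exact Subtype.ext h3
    · right
      show (QuotientGroup.mk h : HH t ⧸ TT t) = QuotientGroup.mk ⟨z, B.hz⟩
      symm
      rw [B.mk_eq]
      exact Or.inr h3

theorem card_QB0 (B : BM z t Q Rel Act) : Nat.card B.QB0 = 2 ^ 23 := by
  have h24 := card_cQ (n := 24) B.M.pre.toXsp B.M.card B.tQ B.t1 B.tz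
  have key := double_count (B.QB0 : Set (HH t ⧸ TT t)) ((Q ⊓ HH t : Subgroup G) : Set G) (Set.toFinite _) (Set.toFinite _)
    (fun x y => ∃ hy : y ∈ HH t, (QuotientGroup.mk ⟨y, hy⟩ : HH t ⧸ TT t) = x) 2 1 ?_ ?_
  · have e1 : (B.QB0 : Set (HH t ⧸ TT t)).ncard = Nat.card B.QB0 := rfl
    have e2 : ((Q ⊓ HH t : Subgroup G) : Set G).ncard = Nat.card (Q ⊓ HH t : Subgroup G) := rfl
    rw [e1, e2, h24] at key
    omega
  · intro x hx
    obtain ⟨h, rfl⟩ := QuotientGroup.mk_surjective x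
    rw [SetLike.mem_coe, B.mem_QB0] at hx
    have : {b | b ∈ ((Q ⊓ HH t : Subgroup G) : Set G) ∧ ∃ hy : b ∈ HH t, (QuotientGroup.mk ⟨b, hy⟩ : HH t ⧸ TT t) =
        QuotientGroup.mk h} = {(h : G), (h : G) * t} := by
      ext b
      constructor
      · rintro ⟨hb, hb', h1⟩
        exact B.mk_eq.1 h1.symm
      · intro hb
        have hbH : b ∈ HH t := by
          rcases hb with rfl | rfl
          · exact h.2
          · exact mul_mem h.2 (Subgroup.mem_centralizer_singleton_iff.2 rfl)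
        have hbQ : b ∈ Q := by
          rcases hb with rfl | rfl
          · exact hx
          · exact Q.mul_mem hx B.tQ
        exact ⟨Subgroup.mem_inf.2 ⟨hbQ, hbH⟩, hbH, ((B.mk_eq (h := h) (h' := ⟨b, hbH⟩)).2 hb).symm⟩
    rw [this]
    apply Set.ncard_pair
    intro h1
    apply B.t1
    have : (h : G) * 1 = h * t := by rw [mul_one]; exact h1
    exact (mul_left_cancel this).symm
  · intro y hy
    obtain ⟨hyQ, hyH⟩ := Subgroup.mem_inf.1 hy
    have : {x | x ∈ (B.QB0 : Set (HH t ⧸ TT t)) ∧ ∃ hy : y ∈ HH t, (QuotientGroup.mk ⟨y, hy⟩ : HH t ⧸ TT t) = x} =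
        {QuotientGroup.mk ⟨y, hyH⟩} := by
      ext x
      constructor
      · rintro ⟨_, _, rfl⟩; rfl
      · rintro rfl; exact ⟨B.mem_QB0.2 hyQ, hyH, rfl⟩
    rw [this, Set.ncard_singleton]

theorem card_QB (B : BM z t Q Rel Act) : Nat.card B.QB = 2 ^ 23 := by
  rw [← B.card_QB0]
  exact Nat.card_congr (Subgroup.subgroupOfEquivOfLe B.QB0_le).toEquiv

theorem mem_QB (B : BM z t Q Rel Act) {c : B.CB} : c ∈ B.QB ↔ ∃ h : HH t, (QuotientGroup.mk h : HH t ⧸ TT t) = c ∧ (h : G) ∈ Q := by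
  constructor
  · intro hc
    obtain ⟨h, hh⟩ := QuotientGroup.mk_surjective (c : HH t ⧸ TT t)
    refine ⟨h, hh, ?_⟩
    rw [← B.mem_QB0, hh]
    exact hc
  · rintro ⟨h, hh, hq⟩
    show (c : HH t ⧸ TT t) ∈ B.QB0
    rw [← hh, B.mem_QB0]
    exact hq

theorem normal_QB (B : BM z t Q Rel Act) : B.QB.Normal := by
  constructor
  intro q hq c
  obtain ⟨h, hh, hhQ⟩ := B.mem_QB.1 hq
  obtain ⟨k, hk⟩ := QuotientGroup.mk_surjective (c : HH t ⧸ TT t)
  have hkz : (k : G) * z = z * k := by rw [← B.mem_CB, hk]; exact c.2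
  rw [B.mem_QB]
  refine ⟨k * h * k⁻¹, ?_, B.M.pre.conj_mem_of_comm hkz hhQ⟩
  show (QuotientGroup.mk k : HH t ⧸ TT t) * QuotientGroup.mk h * (QuotientGroup.mk k)⁻¹ = (c : HH t ⧸ TT t) * (q : HH t ⧸ TT t) * (c : HH t ⧸ TT t)⁻¹
  rw [hh, hk]

theorem map_QB (B : BM z t Q Rel Act) : B.QB.map B.CB.subtype = B.QB0 := by
  unfold QB
  rw [Subgroup.subgroupOf_map_subtype]
  exact inf_eq_left.2 B.QB0_le

/-- `z` in its centraliser -/
def zC (B : BM z t Q Rel Act) : B.CB := ⟨B.zB, Subgroup.mem_centralizer_singleton_iff.2 rfl⟩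

theorem xsp (B : BM z t Q Rel Act) : Xsp B.QB B.zC := by
  apply Xsp.comap_of_injective B.CB.subtype B.CB.subtype_injective
  rw [B.map_QB]
  exact B.xsp0

theorem extra (B : BM z t Q Rel Act) : IsExtraspecial 2 B.QB := by
  apply B.xsp.isExtraspecial
  by_contra hcon
  push Not at hcon
  have h1 : ∀ x ∈ B.QB, x = 1 ∨ x = B.zC := fun x hx => B.xsp.cen x hx (fun y hy => hcon x hx y hy)
  have h2 : (B.QB : Set B.CB) ⊆ {1, B.zC} := fun x hx => h1 x hx
  have h3 := Set.ncard_le_ncard h2 (Set.toFinite _)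
  have h4 : (B.QB : Set B.CB).ncard = Nat.card B.QB := rfl
  rw [h4, B.card_QB] at h3
  have h5 := Set.ncard_insert_le (1 : B.CB) {B.zC}
  rw [Set.ncard_singleton] at h5
  omega

/-- the generalised Fitting subgroup -/
theorem pCore_eq (B : BM z t Q Rel Act) : pCore 2 B.CB = B.QB := by
  haveI := B.normal_QB
  haveI : Fact (Nat.Prime 2) := ⟨Nat.prime_two⟩
  apply le_antisymm
  · -- the preimage in the whole group
    let K : Subgroup (HH t ⧸ TT t) := (pCore 2 B.CB).map B.CB.subtype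
    have hK : IsPGroup 2 K := (H11.Cores.pCore_isPGroup (G := B.CB) 2).map _
    let L : Subgroup (HH t) := K.comap (QuotientGroup.mk' (TT t))
    have hL : IsPGroup 2 L := by
      apply IsPGroup.comap_of_ker_isPGroup hK
      rw [QuotientGroup.ker_mk']
      have : IsPGroup 2 (Subgroup.zpowers t) := (B.M.pre.isPGroup).to_le (by rw [Subgroup.zpowers_le]; exact B.tQ)
      exact this.comap_of_injective _ (HH t).subtype_injective
    let N : Subgroup G := L.map (HH t).subtype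
    have hN : IsPGroup 2 N := hL.map _
    have hmem : ∀ x, x ∈ N ↔ ∃ h : HH t, (h : G) = x ∧ (QuotientGroup.mk h : HH t ⧸ TT t) ∈ K := by
      intro x
      constructor
      · rintro ⟨h, hh, rfl⟩
        exact ⟨h, rfl, hh⟩
      · rintro ⟨h, rfl, hh⟩
        exact ⟨h, hh, rfl⟩
    have hKC : K ≤ B.CB := by
      rintro _ ⟨c, _, rfl⟩
      exact c.2
    have hle := B.M.le_Q B.hU nmU N hN (by
      intro x hx
      obtain ⟨h, rfl, hh⟩ := (hmem x).1 hx
      exact B.mem_CB.1 (hKC hh)) (by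
      intro x hx
      obtain ⟨h, rfl, hh⟩ := (hmem x).1 hx
      exact Subgroup.mem_centralizer_singleton_iff.1 h.2) (by
      intro c hcz hct x hx
      obtain ⟨h, rfl, hh⟩ := (hmem x).1 hx
      rw [hmem]
      let c' : HH t := ⟨c, Subgroup.mem_centralizer_singleton_iff.2 hct⟩
      refine ⟨c' * h * c'⁻¹, rfl, ?_⟩
      obtain ⟨k, hk, hkh⟩ := hh
      have hc' : (QuotientGroup.mk c' : HH t ⧸ TT t) ∈ B.CB := B.mem_CB.2 hcz
      refine ⟨⟨_, hc'⟩ * k * ⟨_, hc'⟩⁻¹, ?_, ?_⟩
      · exact (inferInstance : (pCore 2 B.CB).Normal).conj_mem k hk _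
      · show (QuotientGroup.mk c' : HH t ⧸ TT t) * (k : HH t ⧸ TT t) * (QuotientGroup.mk c')⁻¹ = _
        have hkh' : (k : HH t ⧸ TT t) = QuotientGroup.mk h := hkh
        rw [hkh']
        rfl)
    intro c hc
    obtain ⟨h, hh⟩ := QuotientGroup.mk_surjective (c : HH t ⧸ TT t)
    rw [B.mem_QB]
    refine ⟨h, hh, hle ((hmem _).2 ⟨h, rfl, ?_⟩)⟩
    rw [hh]
    exact ⟨c, hc, rfl⟩
  · apply H11.Cores.le_pCore
    exact B.xsp.isPGroup

theorem fstar (B : BM z t Q Rel Act) : generalizedFittingSubgroup B.CB = B.QB := by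
  haveI : Fact (Nat.Prime 2) := ⟨Nat.prime_two⟩
  rw [← B.pCore_eq, ← H18.CharP.hasCharP_iff]
  apply H18.CharP.hasCharP_of'
  intro c hc hcom
  rw [B.pCore_eq] at hcom
  obtain ⟨h, hh⟩ := QuotientGroup.mk_surjective (c : HH t ⧸ TT t)
  have hht : (h : G) * t = t * h := Subgroup.mem_centralizer_singleton_iff.1 h.2
  have hhz : (h : G) * z = z * h := by rw [← B.mem_CB, hh]; exact c.2
  -- a lift of odd order
  set n := orderOf c with hn'
  have hodd : n % 2 = 1 := by
    rw [Nat.coprime_comm] at hc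
    exact Nat.odd_iff.1 (Nat.coprime_two_left.1 hc)
  have h1 : (QuotientGroup.mk (h ^ n) : HH t ⧸ TT t) = QuotientGroup.mk 1 := by
    have h2 : (c : HH t ⧸ TT t) ^ n = 1 := by
      rw [← SubmonoidClass.coe_pow, hn', pow_orderOf_eq_one]; rfl
    rw [QuotientGroup.mk_pow, hh, h2]; rfl
  have h2 : ((h : G) ^ n) ^ 2 = 1 := by
    have h3 := B.mk_eq.1 h1.symm
    rw [OneMemClass.coe_one, one_mul, SubmonoidClass.coe_pow] at h3
    rcases h3 with h3 | h3
    · rw [h3, one_pow]
    · rw [h3, pow_two, B.tt]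
  have hx := B.M.odd_trivial (x := (h : G) ^ (n + 1)) B.tQ B.tt ?_ ?_ ?_ ?_
  · -- the element is trivial
    apply Subtype.ext
    have h3 : (c : HH t ⧸ TT t) = (c : HH t ⧸ TT t) ^ (n + 1) := by
      rw [pow_succ, ← SubmonoidClass.coe_pow, hn', pow_orderOf_eq_one, OneMemClass.coe_one, one_mul]
    have h4 : h ^ (n + 1) = 1 := Subtype.ext (by rw [SubmonoidClass.coe_pow]; exact hx)
    rw [h3, ← hh, ← QuotientGroup.mk_pow, h4]
    rfl
  · exact ((show Commute (h : G) z from hhz).pow_left _).eq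
  · exact ((show Commute (h : G) t from hht).pow_left _).eq
  · have h3 : ((h : G) ^ (n + 1)) ^ n = 1 := by
      obtain ⟨m, hm⟩ : ∃ m, n + 1 = 2 * m := ⟨(n + 1) / 2, by omega⟩
      rw [← pow_mul, mul_comm, pow_mul, hm, pow_mul, h2, one_pow]
    have h4 := orderOf_dvd_of_pow_eq_one h3
    exact Nat.Coprime.coprime_dvd_left h4 hc
  · intro q hq hqt
    let q' : HH t := ⟨q, Subgroup.mem_centralizer_singleton_iff.2 hqt⟩
    have hqC : (QuotientGroup.mk q' : HH t ⧸ TT t) ∈ B.CB := B.QB0_le (B.mem_QB0.2 hq)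
    have h3 := hcom ⟨_, hqC⟩ (B.mem_QB.2 ⟨q', rfl, hq⟩)
    have h4 : (QuotientGroup.mk q' : HH t ⧸ TT t) * (c : HH t ⧸ TT t) = (c : HH t ⧸ TT t) * QuotientGroup.mk q' := congrArg Subtype.val h3
    have h5 : (QuotientGroup.mk (q' * h ^ (n + 1) * q'⁻¹ * (h ^ (n + 1))⁻¹) : HH t ⧸ TT t) = QuotientGroup.mk 1 := by
      show (QuotientGroup.mk q' : HH t ⧸ TT t) * (QuotientGroup.mk h) ^ (n + 1) * (QuotientGroup.mk q')⁻¹ *
        ((QuotientGroup.mk h) ^ (n + 1))⁻¹ = 1
      rw [hh, ((show Commute (QuotientGroup.mk q' : HH t ⧸ TT t) (c : HH t ⧸ TT t) from h4).pow_right (n + 1)).eq,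
        mul_inv_cancel_right, mul_inv_cancel]
    have h6 := B.mk_eq.1 h5.symm
    rw [OneMemClass.coe_one, one_mul] at h6
    exact h6

end BM

end

end Cfsg.Agent.H28.Mon
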