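import Mathlib
import Cfsg.Agent.H28_Mon6

set_option autoImplicit false

/-!
Groups of Monster type: the quotient of the centraliser of an involution of the other kind is of Baby Monster type.
-/

namespace Cfsg.Agent.H28.Mon

open Cfsg Cfsg.Agent.H28.Xsp Cfsg.Agent.H28.Large
open Cfsg.Agent.H7.Co Cfsg.Agent.H7.Co3 Cfsg.Agent.H7.Co4 Cfsg.Agent.H7.Co5 Cfsg.Agent.H7.Co6 Cfsg.Agent.H28.M2L Cfsg.Agent.H28.M2A Cfsg.Agent.H28.M2N

variable {G : Type*} [Group G] [Finite G]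

/-- the second Conway group inside the first -/
def io : Spor.Co2 →* Co0 := Subgroup.inclusion inf_le_left

theorem io_smul (γ : Spor.Co2) (x : leechLattice) : io γ • x = γ • x := rfl

theorem io_U (γ : Spor.Co2) : io γ • Spor.leechU = Spor.leechU := γ.2.2

def toCo2 (γ : Co0) (h : γ • Spor.leechU = Spor.leechU) : Spor.Co2 := ⟨γ.1, γ.2, h⟩

theorem io_toCo2 (γ : Co0) (h : γ • Spor.leechU = Spor.leechU) : io (toCo2 γ h) = γ := rfl

theorem io_inj {γ δ : Spor.Co2} (h : io γ = io δ) : γ = δ := Subgroup.inclusion_injective inf_le_left h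

theorem negU : -Spor.leechU ≠ Spor.leechU := by
  intro h
  have h1 : Dt Spor.leechU (-Spor.leechU) = Dt Spor.leechU Spor.leechU := congrArg (Dt Spor.leechU) h
  rw [dt_neg', dt_self, nmU] at h1
  norm_num at h1

section
variable {z t : G} {Q : Subgroup G} {Rel : leechLattice → G → Prop} {Act : Co0 → G → Prop} [hn : (TT t).Normal]

namespace BM

/-- corresponding elements -/
def AB (B : BM z t Q Rel Act) (γ : Spor.Co2) (c : B.CB) : Prop :=
  ∃ h : HH t, (QuotientGroup.mk h : HH t ⧸ TT t) = c ∧ Act (io γ) h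

theorem AB_ex (B : BM z t Q Rel Act) (c : B.CB) : ∃ γ, B.AB γ c := by
  obtain ⟨h, hh⟩ := QuotientGroup.mk_surjective (c : HH t ⧸ TT t)
  have hht : (h : G) * t = t * h := Subgroup.mem_centralizer_singleton_iff.1 h.2
  have hhz : (h : G) * z = z * h := by rw [← B.mem_CB, hh]; exact c.2
  obtain ⟨γ, hγ⟩ := B.M.act_ex' hhz
  have h1 : γ ∈ cs Spor.leechU := B.M.cs_of_comm B.hU hγ (by rw [hht, mul_inv_cancel_right])
  rcases (mem_cs_short (by rw [nmU]; norm_num)).1 h1 with h3 | h3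
  · exact ⟨toCo2 γ h3, h, hh, hγ⟩
  · have h4 : (m1 * γ) • Spor.leechU = Spor.leechU := by rw [mul_smul, h3, m1_smul, neg_neg]
    exact ⟨toCo2 (m1 * γ) h4, h, hh, B.M.act_m1 hγ⟩

theorem AB_uniq (B : BM z t Q Rel Act) {c : B.CB} {γ δ : Spor.Co2} (h1 : B.AB γ c) (h2 : B.AB δ c) : γ = δ := by
  obtain ⟨h, hh, ha⟩ := h1
  obtain ⟨k, hk, hb⟩ := h2
  have h3 := B.mk_eq.1 (hh.trans hk.symm)
  have h4 : Act (io δ) (h : G) := by
    rcases h3 with h3 | h3
    · rw [← h3]; exact hb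
    · have h5 := B.M.act_mul hb (B.M.act_one.2 B.tQ)
      rw [h3, mul_one, mul_assoc, B.tt, mul_one] at h5
      exact h5
  apply io_inj
  rcases B.M.act_uniq ha h4 with h5 | h5
  · exact h5.symm
  · exfalso
    have h6 := congrArg (fun x : Co0 => x • Spor.leechU) h5
    have h7 : io δ • Spor.leechU = (m1 * io γ) • Spor.leechU := h6
    rw [io_U, mul_smul, io_U, m1_smul] at h7
    exact negU h7.symm

theorem AB_mul (B : BM z t Q Rel Act) {c d : B.CB} {γ δ : Spor.Co2} (h1 : B.AB γ c) (h2 : B.AB δ d) : B.AB (γ * δ) (c * d) := by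
  obtain ⟨h, hh, ha⟩ := h1
  obtain ⟨k, hk, hb⟩ := h2
  refine ⟨h * k, ?_, ?_⟩
  · show (QuotientGroup.mk h : HH t ⧸ TT t) * QuotientGroup.mk k = (c : HH t ⧸ TT t) * (d : HH t ⧸ TT t)
    rw [hh, hk]
  · rw [map_mul]
    exact B.M.act_mul ha hb

theorem AB_surj (B : BM z t Q Rel Act) (γ : Spor.Co2) : ∃ c, B.AB γ c := by
  obtain ⟨c, hc, hct⟩ := B.M.lift_cs B.hU cgU (γ := io γ) (by rw [mem_cs, io_U]; exact Cg.refl _)
  let h : HH t := ⟨c, Subgroup.mem_centralizer_singleton_iff.2 hct⟩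
  have hm : (QuotientGroup.mk h : HH t ⧸ TT t) ∈ B.CB := B.mem_CB.2 (B.M.act_cen hc)
  exact ⟨⟨_, hm⟩, h, rfl, hc⟩

theorem AB_one (B : BM z t Q Rel Act) {c : B.CB} : B.AB 1 c ↔ c ∈ B.QB := by
  rw [B.mem_QB]
  constructor
  · rintro ⟨h, hh, ha⟩
    rw [map_one, B.M.act_one] at ha
    exact ⟨h, hh, ha⟩
  · rintro ⟨h, hh, ha⟩
    refine ⟨h, hh, ?_⟩
    rw [map_one, B.M.act_one]
    exact ha

noncomputable def Ph (B : BM z t Q Rel Act) : B.CB →* Spor.Co2 :=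
  MonoidHom.mk' (fun c => (B.AB_ex c).choose) (fun c d =>
    B.AB_uniq (B.AB_ex (c * d)).choose_spec (B.AB_mul (B.AB_ex c).choose_spec (B.AB_ex d).choose_spec))

theorem Ph_spec (B : BM z t Q Rel Act) (c : B.CB) : B.AB (B.Ph c) c := (B.AB_ex c).choose_spec

theorem Ph_surj (B : BM z t Q Rel Act) : Function.Surjective B.Ph := by
  intro γ
  obtain ⟨c, hc⟩ := B.AB_surj γ
  exact ⟨c, B.AB_uniq (B.Ph_spec c) hc⟩

theorem Ph_ker (B : BM z t Q Rel Act) : B.QB = B.Ph.ker := by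
  ext c
  rw [MonoidHom.mem_ker, ← B.AB_one]
  constructor
  · intro h
    exact B.AB_uniq (B.Ph_spec c) h
  · intro h
    have := B.Ph_spec c
    rwa [h] at this

noncomputable def ee (B : BM z t Q Rel Act) [B.QB.Normal] : B.CB ⧸ B.QB ≃* Spor.Co2 :=
  (QuotientGroup.quotientMulEquivOfEq B.Ph_ker).trans (QuotientGroup.quotientKerEquivOfSurjective B.Ph B.Ph_surj)

theorem ee_mk (B : BM z t Q Rel Act) [B.QB.Normal] (c : B.CB) : B.ee (QuotientGroup.mk c) = B.Ph c := rfl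

/-! ### the module -/

theorem perp_iff {x : leechLattice} : x ∈ leechPerpU ↔ Dt x Spor.leechU % 16 = 0 := by
  show (16 : ℤ) ∣ dotInt (x : GolayPt → ℤ) Spor.vecU ↔ _
  exact Int.dvd_iff_emod_eq_zero

theorem exists_q (B : BM z t Q Rel Act) (x : leechPerpU) : ∃ h : HH t, Rel (x : leechLattice) (h : G) := by
  obtain ⟨q, hq⟩ := B.M.rel_ex (x : leechLattice)
  have h1 : q * t = t * q := (B.M.comm_iff hq B.hU).2 (perp_iff.1 x.2)
  exact ⟨⟨q, Subgroup.mem_centralizer_singleton_iff.2 h1⟩, hq⟩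

theorem mem_CB_of (B : BM z t Q Rel Act) {h : HH t} (hq : (h : G) ∈ Q) : (QuotientGroup.mk h : HH t ⧸ TT t) ∈ B.CB :=
  B.QB0_le (B.mem_QB0.2 hq)

def toQ (B : BM z t Q Rel Act) (h : HH t) (hq : (h : G) ∈ Q) : B.QB :=
  ⟨⟨QuotientGroup.mk h, B.mem_CB_of hq⟩, B.mem_QB0.2 hq⟩

noncomputable def psi (B : BM z t Q Rel Act) (x : leechPerpU) : B.QB ⧸ Subgroup.center B.QB :=
  QuotientGroup.mk (B.toQ (B.exists_q x).choose (B.M.rel_mem (B.exists_q x).choose_spec))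

theorem mem_center (B : BM z t Q Rel Act) (q : B.QB) : q ∈ Subgroup.center B.QB ↔ ((q : B.CB) : HH t ⧸ TT t) = 1 ∨
    ((q : B.CB) : HH t ⧸ TT t) = B.zB := by
  constructor
  · intro h
    rcases B.xsp.cen (q : B.CB) q.2 (fun y hy => congrArg Subtype.val ((Subgroup.mem_center_iff.1 h ⟨y, hy⟩).symm)) with h1 | h1
    · left; rw [h1]; rfl
    · right; rw [h1]; rfl
  · intro h
    rw [Subgroup.mem_center_iff]
    intro r
    apply Subtype.ext
    rcases h with h | h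
    · have h1 : (q : B.CB) = 1 := Subtype.ext h
      show (r : B.CB) * q = q * r
      rw [h1, mul_one, one_mul]
    · have h1 : (q : B.CB) = B.zC := Subtype.ext h
      show (r : B.CB) * q = q * r
      rw [h1]
      exact (B.xsp.zc _ r.2).symm

theorem psi_spec (B : BM z t Q Rel Act) (x : leechPerpU) (q : B.QB) : B.psi x = QuotientGroup.mk q ↔
    ∃ h : HH t, Rel (x : leechLattice) (h : G) ∧ (QuotientGroup.mk h : HH t ⧸ TT t) = ((q : B.CB) : HH t ⧸ TT t) := by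
  have hs := (B.exists_q x).choose_spec
  set h0 := (B.exists_q x).choose with hh0
  have hq0 := B.M.rel_mem hs
  have e0 : B.psi x = QuotientGroup.mk (B.toQ h0 hq0) := rfl
  rw [e0, QuotientGroup.eq, B.mem_center]
  have e1 : ((((B.toQ h0 hq0)⁻¹ * q : B.QB) : B.CB) : HH t ⧸ TT t) = (QuotientGroup.mk h0)⁻¹ * ((q : B.CB) : HH t ⧸ TT t) := rfl
  rw [e1, inv_mul_eq_one, inv_mul_eq_iff_eq_mul]
  constructor
  · rintro (h | h)
    · exact ⟨h0, hs, h⟩
    · refine ⟨⟨z, B.hz⟩ * h0, B.M.rel_z hs, ?_⟩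
      rw [h]
      show (QuotientGroup.mk ⟨z, B.hz⟩ : HH t ⧸ TT t) * QuotientGroup.mk h0 = QuotientGroup.mk h0 * QuotientGroup.mk ⟨z, B.hz⟩
      exact B.xsp0.zc _ (B.mem_QB0.2 hq0)
  · rintro ⟨h, hh, hq⟩
    rcases B.M.rel_eq hs hh with h1 | h1
    · left
      rw [← hq]
      congr 1
      exact Subtype.ext h1.symm
    · right
      rw [← hq]
      have h2 : h = ⟨z, B.hz⟩ * h0 := Subtype.ext h1
      rw [h2]
      show (QuotientGroup.mk ⟨z, B.hz⟩ : HH t ⧸ TT t) * QuotientGroup.mk h0 = QuotientGroup.mk h0 * QuotientGroup.mk ⟨z, B.hz⟩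
      exact B.xsp0.zc _ (B.mem_QB0.2 hq0)

theorem psi_ex (B : BM z t Q Rel Act) (x : leechPerpU) : ∃ h : HH t, ∃ q : B.QB, B.psi x = QuotientGroup.mk q ∧
    Rel (x : leechLattice) (h : G) ∧ (QuotientGroup.mk h : HH t ⧸ TT t) = ((q : B.CB) : HH t ⧸ TT t) :=
  ⟨_, _, rfl, (B.exists_q x).choose_spec, rfl⟩

theorem iso (B : BM z t Q Rel Act) [hnQ : B.QB.Normal] : IsLeechPerpModTwoIso (z := B.zB) B.QB B.ee B.psi := by
  refine ⟨?_, ?_, ?_, ?_⟩
  · intro x y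
    obtain ⟨h, q, e1, h1, h2⟩ := B.psi_ex x
    obtain ⟨k, r, e2, k1, k2⟩ := B.psi_ex y
    rw [e1, e2]
    have e3 : (QuotientGroup.mk q : B.QB ⧸ Subgroup.center B.QB) * QuotientGroup.mk r = QuotientGroup.mk (q * r) := rfl
    rw [e3, B.psi_spec]
    refine ⟨h * k, B.M.rel_mul h1 k1, ?_⟩
    show (QuotientGroup.mk h : HH t ⧸ TT t) * QuotientGroup.mk k = ((q : B.CB) : HH t ⧸ TT t) * ((r : B.CB) : HH t ⧸ TT t)
    rw [h2, k2]
  · intro a
    obtain ⟨q, rfl⟩ := QuotientGroup.mk_surjective a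
    obtain ⟨h, hh, hq⟩ := B.mem_QB.1 q.2
    obtain ⟨v, hv⟩ := B.M.rel_ex' hq
    have hht : (h : G) * t = t * h := Subgroup.mem_centralizer_singleton_iff.1 h.2
    have hp : v ∈ leechPerpU := perp_iff.2 ((B.M.comm_iff hv B.hU).1 hht)
    exact ⟨⟨v, hp⟩, (B.psi_spec _ _).2 ⟨h, hv, hh⟩⟩
  · intro x
    have e3 : (1 : B.QB ⧸ Subgroup.center B.QB) = QuotientGroup.mk 1 := rfl
    rw [e3, B.psi_spec]
    have e4 : (((1 : B.QB) : B.CB) : HH t ⧸ TT t) = QuotientGroup.mk 1 := rfl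
    rw [e4]
    constructor
    · rintro ⟨h, hh, h1⟩
      rw [eq_comm, B.mk_eq, OneMemClass.coe_one, one_mul] at h1
      rcases h1 with h1 | h1
      · left
        rw [h1] at hh
        exact cg_zero.1 (B.M.rel_cg hh B.M.rel_zero)
      · right
        rw [h1] at hh
        exact B.M.rel_cg hh B.hU
    · rintro (h1 | h1)
      · have h2 : Rel (x : leechLattice) (1 : G) := B.M.rel_of_cg (Cg.symm (cg_zero.2 h1)) B.M.rel_zero
        exact ⟨1, h2, rfl⟩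
      · have h2 : Rel (x : leechLattice) t := B.M.rel_of_cg (Cg.symm h1) B.hU
        refine ⟨⟨t, Subgroup.mem_centralizer_singleton_iff.2 rfl⟩, h2, ?_⟩
        symm
        rw [B.mk_eq]
        right
        rw [OneMemClass.coe_one, one_mul]
  · intro c γ hγ x y hxy q hq
    have hγ' : B.Ph c = γ := hγ
    have h1 := B.Ph_spec c
    rw [hγ'] at h1
    obtain ⟨h, hh, ha⟩ := h1
    obtain ⟨k, hk, hkq⟩ := (B.psi_spec _ _).1 hq
    rw [B.psi_spec]
    refine ⟨h * k * h⁻¹, ?_, ?_⟩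
    · have := B.M.act_rel ha hk
      rw [io_smul, hxy] at this
      exact this
    · show (QuotientGroup.mk h : HH t ⧸ TT t) * QuotientGroup.mk k * (QuotientGroup.mk h)⁻¹ =
        (c : HH t ⧸ TT t) * ((q : B.CB) : HH t ⧸ TT t) * (c : HH t ⧸ TT t)⁻¹
      rw [hh, hkq]

theorem setting (B : BM z t Q Rel Act) {s g : G} {Q' : Subgroup G} (S : XR Q Q' z s g) :
    IsExtraspecialCentralizerSetting B.zB B.QB 11 := by
  refine ⟨B.xsp0.orderOf_z, B.fstar, B.extra, B.card_QB, ?_⟩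
  obtain ⟨h, hht, hQ, h1, h2⟩ := B.M.exists_fuse S B.hU nmU
  let h' : HH t := ⟨h, Subgroup.mem_centralizer_singleton_iff.2 hht⟩
  have hcoe : ((h' * ⟨z, B.hz⟩ * h'⁻¹ : HH t) : G) = h * z * h⁻¹ := rfl
  have hm : (QuotientGroup.mk (h' * ⟨z, B.hz⟩ * h'⁻¹) : HH t ⧸ TT t) ∈ B.CB := B.mem_CB_of (by rw [hcoe]; exact hQ)
  refine ⟨QuotientGroup.mk h', ⟨hm, ?_⟩, ?_⟩
  · exact B.mem_QB0.2 (by rw [hcoe]; exact hQ)
  · intro hh
    have h3 : (QuotientGroup.mk (h' * ⟨z, B.hz⟩ * h'⁻¹) : HH t ⧸ TT t) = QuotientGroup.mk ⟨z, B.hz⟩ := hh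
    rw [eq_comm, B.mk_eq, hcoe] at h3
    rcases h3 with h3 | h3
    · exact h1 h3
    · exact h2 h3

theorem main (B : BM z t Q Rel Act) {s g : G} {Q' : Subgroup G} (S : XR Q Q' z s g) :
    IsOfBabyMonsterType (HH t ⧸ TT t) :=
  ⟨B.zB, B.QB, B.normal_QB, B.setting S, @BM.ee _ _ _ _ _ _ _ _ hn B B.normal_QB, B.psi, @BM.iso _ _ _ _ _ _ _ _ hn B B.normal_QB⟩

end BM

end

end Cfsg.Agent.H28.Mon
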