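import Mathlib
import Cfsg.Agent.H28_OrbS
import Cfsg.Agent.H28_OrbT
import Cfsg.Agent.H28_OrbY
import Cfsg.Agent.H28_OrbD
import Cfsg.Agent.H28_OrbO

set_option autoImplicit false

namespace Cfsg.Agent.H28.OrbStd

open Cfsg Cfsg.Agent.H7.Golay Cfsg.Agent.H7.Oct Cfsg.Agent.H7.M24 Cfsg.Agent.H28.Sxt Cfsg.Agent.H28.SxtFix
open Cfsg.Agent.H28.Pk Cfsg.Agent.H28.SxtOrb Cfsg.Agent.H28.OrbK
open scoped Pointwise

/-- `M24` is transitive on `k`-subsets, `k ≤ 5` -/
theorem set_trans (k : ℕ) (hk : k ≤ 5) {s t : Finset GolayPt} (hs : s.card = k) (ht : t.card = k) :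
    ∃ g ∈ M24, g • s = t := by
  let e := (s.equivFinOfCardEq hs).symm
  let f := (t.equivFinOfCardEq ht).symm
  obtain ⟨g, hg, h⟩ := H7.M24b.ktrans k hk (fun i => (e i : GolayPt)) (fun i => (f i : GolayPt))
    (fun i j h => e.injective (Subtype.ext h)) (fun i j h => f.injective (Subtype.ext h))
  refine ⟨g, hg, ?_⟩
  apply Finset.eq_of_subset_of_card_le
  · intro p hp
    obtain ⟨q, hq, rfl⟩ := Finset.mem_smul_finset.1 hp
    have := h (e.symm ⟨q, hq⟩)
    simp only [Equiv.apply_symm_apply] at this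
    rw [Equiv.Perm.smul_def, this]
    exact (f _).2
  · rw [Finset.card_smul_finset, hs, ht]

theorem std_Y {Y : Finset GolayPt} (hY : Y.card = 3) : ∃ h ∈ M24, h • Y = ofMask 7 :=
  set_trans 3 (by norm_num) hY (by rw [card_ofMask]; decide)

theorem sextet_trans {S S' : Finset (Finset GolayPt)} (hS : S ∈ sextets) (hS' : S' ∈ sextets) : ∃ h ∈ M24, h • S = S' := by
  obtain ⟨t, ht⟩ := sextet_nonempty hS
  obtain ⟨t', ht'⟩ := sextet_nonempty hS'
  obtain ⟨g, hg, h⟩ := set_trans 4 (by norm_num) (hS.2.1 t ht) (hS'.2.1 t' ht')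
  refine ⟨g, hg, ?_⟩
  have h1 : t' ∈ g • S := by rw [← h]; exact Finset.smul_mem_smul_finset ht
  rw [sextet_eq (smul_mem_sextets hg hS) h1, ← sextet_eq hS' ht']

theorem trio_trans {T T' : Finset (Finset GolayPt)} (hT : T ∈ trios) (hT' : T' ∈ trios) : ∃ h ∈ M24, h • T = T' := by
  obtain ⟨a, b, h1, rfl⟩ := trio_std hT
  obtain ⟨a', b', h1', rfl⟩ := trio_std hT'
  have ha := (ofMask_mem_octads (octL_lt h1.1)).2 h1.1
  have ha' := (ofMask_mem_octads (octL_lt h1'.1)).2 h1'.1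
  have hb := (ofMask_mem_octads (octL_lt h1.2.1)).2 h1.2.1
  have hb' := (ofMask_mem_octads (octL_lt h1'.2.1)).2 h1'.2.1
  obtain ⟨g, hg, hgo⟩ := H7.M24b.octad_trans ha ha'
  have h2 : g • ofMask b ∈ H28.Orb.DD (ofMask a') 0 := by
    refine ⟨mem_octads_iff.1 ((smul_mem_octads_iff hg).2 hb), ?_⟩
    rw [← hgo, ← Finset.smul_finset_inter, Finset.card_smul_finset, Finset.disjoint_iff_inter_eq_empty.1 h1.disj]; rfl
  have h3 : ofMask b' ∈ H28.Orb.DD (ofMask a') 0 :=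
    ⟨mem_octads_iff.1 hb', by rw [Finset.disjoint_iff_inter_eq_empty.1 h1'.disj]; rfl⟩
  obtain ⟨g', hg', h4, h5⟩ := H28.Orb.tr0 ha' _ h2 _ h3
  refine ⟨g' * g, mul_mem hg' hg, ?_⟩
  have h6 := (trio_iff.1 ((smul_mem_trios_iff (mul_mem hg' hg)).2 h1.mem))
  have e1 : (g' * g) • ofMask a = ofMask a' := by rw [mul_smul, hgo, h4]
  have e2 : (g' * g) • ofMask b = ofMask b' := by rw [mul_smul, h5]
  have e3 : (g' * g) • ofMask (Nat.xor (Nat.xor a b) 16777215) = ofMask (Nat.xor (Nat.xor a' b') 16777215) := by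
    rw [third_eq, third_eq, ← e1, ← e2, ← Finset.smul_finset_symmDiff]
    ext p
    rw [Finset.mem_compl, Finset.mem_smul_finset]
    constructor
    · rintro ⟨q, hq, rfl⟩
      rw [Finset.mem_compl] at hq
      rw [Finset.smul_mem_smul_finset_iff]; exact hq
    · intro hp
      refine ⟨(g' * g)⁻¹ • p, ?_, by rw [smul_inv_smul]⟩
      rw [Finset.mem_compl]
      intro hq
      apply hp
      rw [← smul_inv_smul (g' * g) p]
      exact Finset.smul_mem_smul_finset hq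
  rw [tr3, tr3, Finset.smul_finset_insert, Finset.smul_finset_insert, Finset.smul_finset_singleton, e1, e2, e3]

theorem std_S {S : Finset (Finset GolayPt)} (hS : S ∈ sextets) {N : ℕ} (hN : N ∈ sexT) :
    ∃ h ∈ M24, h • S = sx (SxtOrb.key N) := sextet_trans hS (sextet_iff'.2 ⟨N, hN, rfl⟩)

theorem std_T {S : Finset (Finset GolayPt)} (hS : S ∈ trios) {n : ℕ} (hn : n ∈ trioL) :
    ∃ h ∈ M24, h • S = tr n := trio_trans hS (trio_iff.2 ⟨n, hn, rfl⟩)

theorem std_D {d : Finset GolayPt} (hd : d ∈ dodecads) : ∃ h ∈ M24,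
    h • ({d, Finset.univ \ d} : Finset (Finset GolayPt)) = {ofMask 28637, ofMask (28637 ^^^ 16777215)} := by
  obtain ⟨g, hg, h⟩ := H7.M24b.dodecad_std hd
  refine ⟨g, hg, ?_⟩
  rw [Finset.smul_finset_insert, Finset.smul_finset_singleton, h, ofMask_compl]
  congr 2
  rw [← h]
  ext p
  rw [Finset.mem_compl, Finset.mem_smul_finset]
  constructor
  · rintro ⟨q, hq, rfl⟩
    rw [Finset.mem_sdiff] at hq
    rw [Finset.smul_mem_smul_finset_iff]; exact hq.2
  · intro hp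
    refine ⟨g⁻¹ • p, ?_, by rw [smul_inv_smul]⟩
    rw [Finset.mem_sdiff]
    refine ⟨Finset.mem_univ _, fun hq => hp ?_⟩
    rw [← smul_inv_smul g p]
    exact Finset.smul_mem_smul_finset hq

end Cfsg.Agent.H28.OrbStd
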