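import Mathlib
import Cfsg.Agent.H28_OrbP
import Cfsg.Agent.H28_OrbStd
import Cfsg.Agent.H28_Tree
import Cfsg.Agent.H28_Six

set_option autoImplicit false

namespace Cfsg.Agent.H28.OctV

open Cfsg Cfsg.Agent.H7.Golay Cfsg.Agent.H7.Oct Cfsg.Agent.H7.M24 Cfsg.Agent.H28.Sxt Cfsg.Agent.H28.SxtFix
open Cfsg.Agent.H28.Pk Cfsg.Agent.H28.SxtOrb Cfsg.Agent.H28.OrbK Cfsg.Agent.H28.Tree
open scoped Pointwise

def L15 : List ℕ := [88575001088, 88570962176, 88571568896, 88567932992, 88574536256, 88570251584, 88571743040, 88572545056, 88569973280, 88573765920, 88568179488, 88572862560, 88569143904, 88573673824, 88568775520]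

theorem L15_eq : L15 = trioL.filter fun n => (tflds n).any fun m => Nat.beq m 5279 := by decide +kernel

theorem mem_L15 {n : ℕ} (hn : n ∈ trioL) : n ∈ L15 ↔ ofMask 5279 ∈ tr n := by
  rw [L15_eq, List.mem_filter, tr_flds, List.mem_toFinset, List.mem_map, List.any_eq_true]
  constructor
  · rintro ⟨_, m, hm, h⟩
    exact ⟨m, hm, by rw [Nat.eq_of_beq_eq_true h]⟩
  · rintro ⟨m, hm, h⟩
    exact ⟨hn, m, hm, by rw [Nat.beq_eq]; exact (ofMask_inj (tflds_lt hn m hm) (by norm_num)).1 h⟩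

/-- test for the sixteen elements -/
noncomputable def QV (l _k : List ℕ) : Bool := (Nat.beq (l.getD 10 0) 10 && Nat.beq (l.getD 12 0) 12) &&
  L15.all fun n => Nat.beq (tact l n) n

def treeV : Tr := (.oct 758 758 31 (.split 10 1 (.split 12 1 (.split 5 32 (.oct 499 757 4142 (.bad 0)) (.split 5 64 (.oct 499 756 4142 (.bad 0)) (.split 5 256 (.oct 499 755 4142 (.bad 0)) (.split 5 512 (.oct 499 756 4142 (.bad 0)) (.split 5 2048 (.oct 499 756 4142 (.bad 0)) (.split 5 8192 (.oct 499 754 4142 (.bad 0)) (.split 5 16384 (.oct 499 757 4142 (.bad 0)) (.split 5 32768 (.oct 499 755 4142 (.bad 0)) (.split 5 65536 (.oct 499 755 4142 (.bad 0)) (.split 5 131072 (.oct 499 757 4142 (.bad 0)) (.split 5 262144 (.oct 499 754 4142 (.bad 0)) (.split 5 524288 (.oct 499 755 4142 (.bad 0)) (.split 5 1048576 (.oct 499 754 4142 (.bad 0)) (.split 5 2097152 (.oct 499 754 4142 (.bad 0)) (.split 5 4194304 (.oct 499 756 4142 (.bad 0)) (.oct 499 757 4142 (.bad 0)))))))))))))))))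 (.split 12 2 (.split 5 32 (.oct 757 757 47 (.bad 10)) (.split 5 64 (.oct 757 756 47 (.bad 10)) (.split 5 256 (.oct 757 755 47 (.bad 10)) (.split 5 512 (.oct 757 756 47 (.bad 10)) (.split 5 2048 (.oct 757 756 47 (.bad 10)) (.split 5 8192 (.oct 757 754 47 (.bad 10)) (.split 5 16384 (.oct 757 757 47 (.bad 10)) (.split 5 32768 (.oct 757 755 47 (.bad 10)) (.split 5 65536 (.oct 757 755 47 (.bad 10)) (.split 5 131072 (.oct 757 757 47 (.bad 10)) (.split 5 262144 (.oct 757 754 47 (.bad 10)) (.split 5 524288 (.oct 757 755 47 (.bad 10)) (.split 5 1048576 (.oct 757 754 47 (.bad 10)) (.split 5 2097152 (.oct 757 754 47 (.bad 10)) (.split 5 4194304 (.oct 757 756 47 (.bad 10)) (.oct 757 757 47 (.bad 10))))))))))))))))) (.split 12 4 (.split 5 32 (.oct 757 757 47 (.bad 10)) (.split 5 64 (.oct 757 756 47 (.bad 10)) (.split 5 256 (.oct 757 755 47 (.bad 10)) (.split 5 512 (.oct 757 756 47 (.bad 10)) (.split 5 2048 (.oct 757 756 47 (.bad 10)) (.split 5 8192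 (.oct 757 754 47 (.bad 10)) (.split 5 16384 (.oct 757 757 47 (.bad 10)) (.split 5 32768 (.oct 757 755 47 (.bad 10)) (.split 5 65536 (.oct 757 755 47 (.bad 10)) (.split 5 131072 (.oct 757 757 47 (.bad 10)) (.split 5 262144 (.oct 757 754 47 (.bad 10)) (.split 5 524288 (.oct 757 755 47 (.bad 10)) (.split 5 1048576 (.oct 757 754 47 (.bad 10)) (.split 5 2097152 (.oct 757 754 47 (.bad 10)) (.split 5 4194304 (.oct 757 756 47 (.bad 10)) (.oct 757 757 47 (.bad 10))))))))))))))))) (.split 12 8 (.split 5 32 (.oct 757 757 47 (.bad 10)) (.split 5 64 (.oct 757 756 47 (.bad 10)) (.split 5 256 (.oct 757 755 47 (.bad 10)) (.split 5 512 (.oct 757 756 47 (.bad 10)) (.split 5 2048 (.oct 757 756 47 (.bad 10)) (.split 5 8192 (.oct 757 754 47 (.bad 10)) (.split 5 16384 (.oct 757 757 47 (.bad 10)) (.split 5 32768 (.oct 757 755 47 (.bad 10)) (.split 5 65536 (.oct 757 755 47 (.bad 10)) (.split 5 131072 (.oct 757 757 47 (.bad 10)) (.split 5 262144 (.oct 757 754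 47 (.bad 10)) (.split 5 524288 (.oct 757 755 47 (.bad 10)) (.split 5 1048576 (.oct 757 754 47 (.bad 10)) (.split 5 2097152 (.oct 757 754 47 (.bad 10)) (.split 5 4194304 (.oct 757 756 47 (.bad 10)) (.oct 757 757 47 (.bad 10))))))))))))))))) (.split 12 16 (.split 5 32 (.oct 681 681 61 (.bad 10)) (.split 5 64 (.oct 681 680 61 (.bad 10)) (.split 5 256 (.oct 681 679 61 (.bad 10)) (.split 5 512 (.oct 681 679 61 (.bad 10)) (.split 5 2048 (.oct 681 678 61 (.bad 10)) (.split 5 8192 (.oct 681 680 61 (.bad 10)) (.split 5 16384 (.oct 681 678 61 (.bad 10)) (.split 5 32768 (.oct 681 681 61 (.bad 10)) (.split 5 65536 (.oct 681 678 61 (.bad 10)) (.split 5 131072 (.oct 681 680 61 (.bad 10)) (.split 5 262144 (.oct 681 678 61 (.bad 10)) (.split 5 524288 (.oct 681 680 61 (.bad 10)) (.split 5 1048576 (.oct 681 681 61 (.bad 10)) (.split 5 2097152 (.oct 681 679 61 (.bad 10)) (.split 5 4194304 (.oct 681 681 61 (.bad 10)) (.oct 681 679 61 (.bad 10)))))))))))))))))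 (.split 12 128 (.split 5 32 (.oct 623 625 4153 (.bad 7)) (.split 5 64 (.oct 623 622 4153 (.bad 7)) (.split 5 256 (.oct 623 619 4153 (.bad 7)) (.split 5 512 (.oct 623 625 4153 (.bad 7)) (.split 5 2048 (.oct 623 625 4153 (.bad 7)) (.split 5 8192 (.oct 623 619 4153 (.bad 7)) (.split 5 16384 (.oct 623 622 4153 (.bad 7)) (.split 5 32768 (.oct 623 618 4153 (.bad 7)) (.split 5 65536 (.oct 623 619 4153 (.bad 7)) (.split 5 131072 (.oct 623 625 4153 (.bad 7)) (.split 5 262144 (.oct 623 618 4153 (.bad 7)) (.split 5 524288 (.oct 623 618 4153 (.bad 7)) (.split 5 1048576 (.oct 623 619 4153 (.bad 7)) (.split 5 2097152 (.oct 623 618 4153 (.bad 7)) (.split 5 4194304 (.oct 623 622 4153 (.bad 7)) (.oct 623 622 4153 (.bad 7))))))))))))))))) (.split 12 1024 (.split 5 32 (.oct 757 757 47 (.bad 10)) (.split 5 64 (.oct 757 756 47 (.bad 10)) (.split 5 256 (.oct 757 755 47 (.bad 10)) (.split 5 512 (.oct 757 756 47 (.bad 10)) (.split 5 2048 (.oct 757 756 47 (.bad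 10)) (.split 5 8192 (.oct 757 754 47 (.bad 10)) (.split 5 16384 (.oct 757 757 47 (.bad 10)) (.split 5 32768 (.oct 757 755 47 (.bad 10)) (.split 5 65536 (.oct 757 755 47 (.bad 10)) (.split 5 131072 (.oct 757 757 47 (.bad 10)) (.split 5 262144 (.oct 757 754 47 (.bad 10)) (.split 5 524288 (.oct 757 755 47 (.bad 10)) (.split 5 1048576 (.oct 757 754 47 (.bad 10)) (.split 5 2097152 (.oct 757 754 47 (.bad 10)) (.split 5 4194304 (.oct 757 756 47 (.bad 10)) (.oct 757 757 47 (.bad 10))))))))))))))))) (.split 5 32 (.oct 757 757 47 (.bad 10)) (.split 5 64 (.oct 757 756 47 (.bad 10)) (.split 5 256 (.oct 757 755 47 (.bad 10)) (.split 5 512 (.oct 757 756 47 (.bad 10)) (.split 5 2048 (.oct 757 756 47 (.bad 10)) (.split 5 8192 (.oct 757 754 47 (.bad 10)) (.split 5 16384 (.oct 757 757 47 (.bad 10)) (.split 5 32768 (.oct 757 755 47 (.bad 10)) (.split 5 65536 (.oct 757 755 47 (.bad 10)) (.split 5 131072 (.oct 757 757 47 (.bad 10)) (.split 5 262144 (.oct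 757 754 47 (.bad 10)) (.split 5 524288 (.oct 757 755 47 (.bad 10)) (.split 5 1048576 (.oct 757 754 47 (.bad 10)) (.split 5 2097152 (.oct 757 754 47 (.bad 10)) (.split 5 4194304 (.oct 757 756 47 (.bad 10)) (.oct 757 757 47 (.bad 10)))))))))))))))))))))))) (.split 10 2 (.split 12 1 (.split 5 32 (.oct 499 757 4142 (.bad 0)) (.split 5 64 (.oct 499 756 4142 (.bad 0)) (.split 5 256 (.oct 499 755 4142 (.bad 0)) (.split 5 512 (.oct 499 756 4142 (.bad 0)) (.split 5 2048 (.oct 499 756 4142 (.bad 0)) (.split 5 8192 (.oct 499 754 4142 (.bad 0)) (.split 5 16384 (.oct 499 757 4142 (.bad 0)) (.split 5 32768 (.oct 499 755 4142 (.bad 0)) (.split 5 65536 (.oct 499 755 4142 (.bad 0)) (.split 5 131072 (.oct 499 757 4142 (.bad 0)) (.split 5 262144 (.oct 499 754 4142 (.bad 0)) (.split 5 524288 (.oct 499 755 4142 (.bad 0)) (.split 5 1048576 (.oct 499 754 4142 (.bad 0)) (.split 5 2097152 (.oct 499 754 4142 (.bad 0)) (.split 5 4194304 (.oct 499 756 4142 (.bad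 0)) (.oct 499 757 4142 (.bad 0))))))))))))))))) (.split 12 2 (.split 5 32 (.oct 757 757 47 (.bad 10)) (.split 5 64 (.oct 757 756 47 (.bad 10)) (.split 5 256 (.oct 757 755 47 (.bad 10)) (.split 5 512 (.oct 757 756 47 (.bad 10)) (.split 5 2048 (.oct 757 756 47 (.bad 10)) (.split 5 8192 (.oct 757 754 47 (.bad 10)) (.split 5 16384 (.oct 757 757 47 (.bad 10)) (.split 5 32768 (.oct 757 755 47 (.bad 10)) (.split 5 65536 (.oct 757 755 47 (.bad 10)) (.split 5 131072 (.oct 757 757 47 (.bad 10)) (.split 5 262144 (.oct 757 754 47 (.bad 10)) (.split 5 524288 (.oct 757 755 47 (.bad 10)) (.split 5 1048576 (.oct 757 754 47 (.bad 10)) (.split 5 2097152 (.oct 757 754 47 (.bad 10)) (.split 5 4194304 (.oct 757 756 47 (.bad 10)) (.oct 757 757 47 (.bad 10))))))))))))))))) (.split 12 4 (.split 5 32 (.oct 757 757 47 (.bad 10)) (.split 5 64 (.oct 757 756 47 (.bad 10)) (.split 5 256 (.oct 757 755 47 (.bad 10)) (.split 5 512 (.oct 757 756 47 (.bad 10)) (.split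 5 2048 (.oct 757 756 47 (.bad 10)) (.split 5 8192 (.oct 757 754 47 (.bad 10)) (.split 5 16384 (.oct 757 757 47 (.bad 10)) (.split 5 32768 (.oct 757 755 47 (.bad 10)) (.split 5 65536 (.oct 757 755 47 (.bad 10)) (.split 5 131072 (.oct 757 757 47 (.bad 10)) (.split 5 262144 (.oct 757 754 47 (.bad 10)) (.split 5 524288 (.oct 757 755 47 (.bad 10)) (.split 5 1048576 (.oct 757 754 47 (.bad 10)) (.split 5 2097152 (.oct 757 754 47 (.bad 10)) (.split 5 4194304 (.oct 757 756 47 (.bad 10)) (.oct 757 757 47 (.bad 10))))))))))))))))) (.split 12 8 (.split 5 32 (.oct 757 757 47 (.bad 10)) (.split 5 64 (.oct 757 756 47 (.bad 10)) (.split 5 256 (.oct 757 755 47 (.bad 10)) (.split 5 512 (.oct 757 756 47 (.bad 10)) (.split 5 2048 (.oct 757 756 47 (.bad 10)) (.split 5 8192 (.oct 757 754 47 (.bad 10)) (.split 5 16384 (.oct 757 757 47 (.bad 10)) (.split 5 32768 (.oct 757 755 47 (.bad 10)) (.split 5 65536 (.oct 757 755 47 (.bad 10)) (.split 5 131072 (.oct 757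 757 47 (.bad 10)) (.split 5 262144 (.oct 757 754 47 (.bad 10)) (.split 5 524288 (.oct 757 755 47 (.bad 10)) (.split 5 1048576 (.oct 757 754 47 (.bad 10)) (.split 5 2097152 (.oct 757 754 47 (.bad 10)) (.split 5 4194304 (.oct 757 756 47 (.bad 10)) (.oct 757 757 47 (.bad 10))))))))))))))))) (.split 12 16 (.split 5 32 (.oct 499 505 4142 (.bad 4)) (.split 5 64 (.oct 499 504 4142 (.bad 4)) (.split 5 256 (.oct 499 505 4142 (.bad 4)) (.split 5 512 (.oct 499 503 4142 (.bad 4)) (.split 5 2048 (.oct 499 505 4142 (.bad 4)) (.split 5 8192 (.oct 499 505 4142 (.bad 4)) (.split 5 16384 (.oct 499 502 4142 (.bad 4)) (.split 5 32768 (.oct 499 504 4142 (.bad 4)) (.split 5 65536 (.oct 499 503 4142 (.bad 4)) (.split 5 131072 (.oct 499 503 4142 (.bad 4)) (.split 5 262144 (.oct 499 504 4142 (.bad 4)) (.split 5 524288 (.oct 499 502 4142 (.bad 4)) (.split 5 1048576 (.oct 499 503 4142 (.bad 4)) (.split 5 2097152 (.oct 499 502 4142 (.bad 4)) (.split 5 4194304 (.oct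 499 502 4142 (.bad 4)) (.oct 499 504 4142 (.bad 4))))))))))))))))) (.split 12 128 (.split 5 32 (.oct 499 500 4142 (.bad 7)) (.split 5 64 (.oct 499 498 4142 (.bad 7)) (.split 5 256 (.oct 499 496 4142 (.bad 7)) (.split 5 512 (.oct 499 500 4142 (.bad 7)) (.split 5 2048 (.oct 499 495 4142 (.bad 7)) (.split 5 8192 (.oct 499 498 4142 (.bad 7)) (.split 5 16384 (.oct 499 498 4142 (.bad 7)) (.split 5 32768 (.oct 499 500 4142 (.bad 7)) (.split 5 65536 (.oct 499 498 4142 (.bad 7)) (.split 5 131072 (.oct 499 495 4142 (.bad 7)) (.split 5 262144 (.oct 499 495 4142 (.bad 7)) (.split 5 524288 (.oct 499 495 4142 (.bad 7)) (.split 5 1048576 (.oct 499 496 4142 (.bad 7)) (.split 5 2097152 (.oct 499 500 4142 (.bad 7)) (.split 5 4194304 (.oct 499 496 4142 (.bad 7)) (.oct 499 496 4142 (.bad 7))))))))))))))))) (.split 12 1024 (.split 5 32 (.oct 499 501 4142 (.bad 10)) (.split 5 64 (.oct 499 501 4142 (.bad 10)) (.split 5 256 (.oct 499 494 4142 (.bad 10)) (.split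 5 512 (.oct 499 494 4142 (.bad 10)) (.split 5 2048 (.oct 499 492 4142 (.bad 10)) (.split 5 8192 (.oct 499 491 4142 (.bad 10)) (.split 5 16384 (.oct 499 494 4142 (.bad 10)) (.split 5 32768 (.oct 499 491 4142 (.bad 10)) (.split 5 65536 (.oct 499 492 4142 (.bad 10)) (.split 5 131072 (.oct 499 491 4142 (.bad 10)) (.split 5 262144 (.oct 499 494 4142 (.bad 10)) (.split 5 524288 (.oct 499 501 4142 (.bad 10)) (.split 5 1048576 (.oct 499 501 4142 (.bad 10)) (.split 5 2097152 (.oct 499 492 4142 (.bad 10)) (.split 5 4194304 (.oct 499 491 4142 (.bad 10)) (.oct 499 492 4142 (.bad 10))))))))))))))))) (.split 5 32 (.oct 499 499 4142 (.bad 10)) (.split 5 64 (.oct 499 497 4142 (.bad 10)) (.split 5 256 (.oct 499 497 4142 (.bad 10)) (.split 5 512 (.oct 499 493 4142 (.bad 10)) (.split 5 2048 (.oct 499 490 4142 (.bad 10)) (.split 5 8192 (.oct 499 493 4142 (.bad 10)) (.split 5 16384 (.oct 499 490 4142 (.bad 10)) (.split 5 32768 (.oct 499 490 4142 (.bad 10))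 (.split 5 65536 (.oct 499 499 4142 (.bad 10)) (.split 5 131072 (.oct 499 497 4142 (.bad 10)) (.split 5 262144 (.oct 499 499 4142 (.bad 10)) (.split 5 524288 (.oct 499 493 4142 (.bad 10)) (.split 5 1048576 (.oct 499 490 4142 (.bad 10)) (.split 5 2097152 (.oct 499 497 4142 (.bad 10)) (.split 5 4194304 (.oct 499 499 4142 (.bad 10)) (.oct 499 493 4142 (.bad 10)))))))))))))))))))))))) (.split 10 4 (.split 12 1 (.split 5 32 (.oct 499 757 4142 (.bad 0)) (.split 5 64 (.oct 499 756 4142 (.bad 0)) (.split 5 256 (.oct 499 755 4142 (.bad 0)) (.split 5 512 (.oct 499 756 4142 (.bad 0)) (.split 5 2048 (.oct 499 756 4142 (.bad 0)) (.split 5 8192 (.oct 499 754 4142 (.bad 0)) (.split 5 16384 (.oct 499 757 4142 (.bad 0)) (.split 5 32768 (.oct 499 755 4142 (.bad 0)) (.split 5 65536 (.oct 499 755 4142 (.bad 0)) (.split 5 131072 (.oct 499 757 4142 (.bad 0)) (.split 5 262144 (.oct 499 754 4142 (.bad 0)) (.split 5 524288 (.oct 499 755 4142 (.bad 0)) (.split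 5 1048576 (.oct 499 754 4142 (.bad 0)) (.split 5 2097152 (.oct 499 754 4142 (.bad 0)) (.split 5 4194304 (.oct 499 756 4142 (.bad 0)) (.oct 499 757 4142 (.bad 0))))))))))))))))) (.split 12 2 (.split 5 32 (.oct 757 757 47 (.bad 10)) (.split 5 64 (.oct 757 756 47 (.bad 10)) (.split 5 256 (.oct 757 755 47 (.bad 10)) (.split 5 512 (.oct 757 756 47 (.bad 10)) (.split 5 2048 (.oct 757 756 47 (.bad 10)) (.split 5 8192 (.oct 757 754 47 (.bad 10)) (.split 5 16384 (.oct 757 757 47 (.bad 10)) (.split 5 32768 (.oct 757 755 47 (.bad 10)) (.split 5 65536 (.oct 757 755 47 (.bad 10)) (.split 5 131072 (.oct 757 757 47 (.bad 10)) (.split 5 262144 (.oct 757 754 47 (.bad 10)) (.split 5 524288 (.oct 757 755 47 (.bad 10)) (.split 5 1048576 (.oct 757 754 47 (.bad 10)) (.split 5 2097152 (.oct 757 754 47 (.bad 10)) (.split 5 4194304 (.oct 757 756 47 (.bad 10)) (.oct 757 757 47 (.bad 10))))))))))))))))) (.split 12 4 (.split 5 32 (.oct 757 757 47 (.bad 10)) (.split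 5 64 (.oct 757 756 47 (.bad 10)) (.split 5 256 (.oct 757 755 47 (.bad 10)) (.split 5 512 (.oct 757 756 47 (.bad 10)) (.split 5 2048 (.oct 757 756 47 (.bad 10)) (.split 5 8192 (.oct 757 754 47 (.bad 10)) (.split 5 16384 (.oct 757 757 47 (.bad 10)) (.split 5 32768 (.oct 757 755 47 (.bad 10)) (.split 5 65536 (.oct 757 755 47 (.bad 10)) (.split 5 131072 (.oct 757 757 47 (.bad 10)) (.split 5 262144 (.oct 757 754 47 (.bad 10)) (.split 5 524288 (.oct 757 755 47 (.bad 10)) (.split 5 1048576 (.oct 757 754 47 (.bad 10)) (.split 5 2097152 (.oct 757 754 47 (.bad 10)) (.split 5 4194304 (.oct 757 756 47 (.bad 10)) (.oct 757 757 47 (.bad 10))))))))))))))))) (.split 12 8 (.split 5 32 (.oct 757 757 47 (.bad 10)) (.split 5 64 (.oct 757 756 47 (.bad 10)) (.split 5 256 (.oct 757 755 47 (.bad 10)) (.split 5 512 (.oct 757 756 47 (.bad 10)) (.split 5 2048 (.oct 757 756 47 (.bad 10)) (.split 5 8192 (.oct 757 754 47 (.bad 10)) (.split 5 16384 (.oct 757 757 47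 (.bad 10)) (.split 5 32768 (.oct 757 755 47 (.bad 10)) (.split 5 65536 (.oct 757 755 47 (.bad 10)) (.split 5 131072 (.oct 757 757 47 (.bad 10)) (.split 5 262144 (.oct 757 754 47 (.bad 10)) (.split 5 524288 (.oct 757 755 47 (.bad 10)) (.split 5 1048576 (.oct 757 754 47 (.bad 10)) (.split 5 2097152 (.oct 757 754 47 (.bad 10)) (.split 5 4194304 (.oct 757 756 47 (.bad 10)) (.oct 757 757 47 (.bad 10))))))))))))))))) (.split 12 16 (.split 5 32 (.oct 499 505 4142 (.bad 4)) (.split 5 64 (.oct 499 504 4142 (.bad 4)) (.split 5 256 (.oct 499 505 4142 (.bad 4)) (.split 5 512 (.oct 499 503 4142 (.bad 4)) (.split 5 2048 (.oct 499 505 4142 (.bad 4)) (.split 5 8192 (.oct 499 505 4142 (.bad 4)) (.split 5 16384 (.oct 499 502 4142 (.bad 4)) (.split 5 32768 (.oct 499 504 4142 (.bad 4)) (.split 5 65536 (.oct 499 503 4142 (.bad 4)) (.split 5 131072 (.oct 499 503 4142 (.bad 4)) (.split 5 262144 (.oct 499 504 4142 (.bad 4)) (.split 5 524288 (.oct 499 502 4142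 (.bad 4)) (.split 5 1048576 (.oct 499 503 4142 (.bad 4)) (.split 5 2097152 (.oct 499 502 4142 (.bad 4)) (.split 5 4194304 (.oct 499 502 4142 (.bad 4)) (.oct 499 504 4142 (.bad 4))))))))))))))))) (.split 12 128 (.split 5 32 (.oct 499 500 4142 (.bad 7)) (.split 5 64 (.oct 499 498 4142 (.bad 7)) (.split 5 256 (.oct 499 496 4142 (.bad 7)) (.split 5 512 (.oct 499 500 4142 (.bad 7)) (.split 5 2048 (.oct 499 495 4142 (.bad 7)) (.split 5 8192 (.oct 499 498 4142 (.bad 7)) (.split 5 16384 (.oct 499 498 4142 (.bad 7)) (.split 5 32768 (.oct 499 500 4142 (.bad 7)) (.split 5 65536 (.oct 499 498 4142 (.bad 7)) (.split 5 131072 (.oct 499 495 4142 (.bad 7)) (.split 5 262144 (.oct 499 495 4142 (.bad 7)) (.split 5 524288 (.oct 499 495 4142 (.bad 7)) (.split 5 1048576 (.oct 499 496 4142 (.bad 7)) (.split 5 2097152 (.oct 499 500 4142 (.bad 7)) (.split 5 4194304 (.oct 499 496 4142 (.bad 7)) (.oct 499 496 4142 (.bad 7))))))))))))))))) (.split 12 1024 (.split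 5 32 (.oct 499 501 4142 (.bad 10)) (.split 5 64 (.oct 499 501 4142 (.bad 10)) (.split 5 256 (.oct 499 494 4142 (.bad 10)) (.split 5 512 (.oct 499 494 4142 (.bad 10)) (.split 5 2048 (.oct 499 492 4142 (.bad 10)) (.split 5 8192 (.oct 499 491 4142 (.bad 10)) (.split 5 16384 (.oct 499 494 4142 (.bad 10)) (.split 5 32768 (.oct 499 491 4142 (.bad 10)) (.split 5 65536 (.oct 499 492 4142 (.bad 10)) (.split 5 131072 (.oct 499 491 4142 (.bad 10)) (.split 5 262144 (.oct 499 494 4142 (.bad 10)) (.split 5 524288 (.oct 499 501 4142 (.bad 10)) (.split 5 1048576 (.oct 499 501 4142 (.bad 10)) (.split 5 2097152 (.oct 499 492 4142 (.bad 10)) (.split 5 4194304 (.oct 499 491 4142 (.bad 10)) (.oct 499 492 4142 (.bad 10))))))))))))))))) (.split 5 32 (.oct 499 499 4142 (.bad 10)) (.split 5 64 (.oct 499 497 4142 (.bad 10)) (.split 5 256 (.oct 499 497 4142 (.bad 10)) (.split 5 512 (.oct 499 493 4142 (.bad 10)) (.split 5 2048 (.oct 499 490 4142 (.bad 10)) (.split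 5 8192 (.oct 499 493 4142 (.bad 10)) (.split 5 16384 (.oct 499 490 4142 (.bad 10)) (.split 5 32768 (.oct 499 490 4142 (.bad 10)) (.split 5 65536 (.oct 499 499 4142 (.bad 10)) (.split 5 131072 (.oct 499 497 4142 (.bad 10)) (.split 5 262144 (.oct 499 499 4142 (.bad 10)) (.split 5 524288 (.oct 499 493 4142 (.bad 10)) (.split 5 1048576 (.oct 499 490 4142 (.bad 10)) (.split 5 2097152 (.oct 499 497 4142 (.bad 10)) (.split 5 4194304 (.oct 499 499 4142 (.bad 10)) (.oct 499 493 4142 (.bad 10)))))))))))))))))))))))) (.split 10 8 (.split 12 1 (.split 5 32 (.oct 499 757 4142 (.bad 0)) (.split 5 64 (.oct 499 756 4142 (.bad 0)) (.split 5 256 (.oct 499 755 4142 (.bad 0)) (.split 5 512 (.oct 499 756 4142 (.bad 0)) (.split 5 2048 (.oct 499 756 4142 (.bad 0)) (.split 5 8192 (.oct 499 754 4142 (.bad 0)) (.split 5 16384 (.oct 499 757 4142 (.bad 0)) (.split 5 32768 (.oct 499 755 4142 (.bad 0)) (.split 5 65536 (.oct 499 755 4142 (.bad 0)) (.split 5 131072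 (.oct 499 757 4142 (.bad 0)) (.split 5 262144 (.oct 499 754 4142 (.bad 0)) (.split 5 524288 (.oct 499 755 4142 (.bad 0)) (.split 5 1048576 (.oct 499 754 4142 (.bad 0)) (.split 5 2097152 (.oct 499 754 4142 (.bad 0)) (.split 5 4194304 (.oct 499 756 4142 (.bad 0)) (.oct 499 757 4142 (.bad 0))))))))))))))))) (.split 12 2 (.split 5 32 (.oct 757 757 47 (.bad 10)) (.split 5 64 (.oct 757 756 47 (.bad 10)) (.split 5 256 (.oct 757 755 47 (.bad 10)) (.split 5 512 (.oct 757 756 47 (.bad 10)) (.split 5 2048 (.oct 757 756 47 (.bad 10)) (.split 5 8192 (.oct 757 754 47 (.bad 10)) (.split 5 16384 (.oct 757 757 47 (.bad 10)) (.split 5 32768 (.oct 757 755 47 (.bad 10)) (.split 5 65536 (.oct 757 755 47 (.bad 10)) (.split 5 131072 (.oct 757 757 47 (.bad 10)) (.split 5 262144 (.oct 757 754 47 (.bad 10)) (.split 5 524288 (.oct 757 755 47 (.bad 10)) (.split 5 1048576 (.oct 757 754 47 (.bad 10)) (.split 5 2097152 (.oct 757 754 47 (.bad 10)) (.split 5 4194304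 (.oct 757 756 47 (.bad 10)) (.oct 757 757 47 (.bad 10))))))))))))))))) (.split 12 4 (.split 5 32 (.oct 757 757 47 (.bad 10)) (.split 5 64 (.oct 757 756 47 (.bad 10)) (.split 5 256 (.oct 757 755 47 (.bad 10)) (.split 5 512 (.oct 757 756 47 (.bad 10)) (.split 5 2048 (.oct 757 756 47 (.bad 10)) (.split 5 8192 (.oct 757 754 47 (.bad 10)) (.split 5 16384 (.oct 757 757 47 (.bad 10)) (.split 5 32768 (.oct 757 755 47 (.bad 10)) (.split 5 65536 (.oct 757 755 47 (.bad 10)) (.split 5 131072 (.oct 757 757 47 (.bad 10)) (.split 5 262144 (.oct 757 754 47 (.bad 10)) (.split 5 524288 (.oct 757 755 47 (.bad 10)) (.split 5 1048576 (.oct 757 754 47 (.bad 10)) (.split 5 2097152 (.oct 757 754 47 (.bad 10)) (.split 5 4194304 (.oct 757 756 47 (.bad 10)) (.oct 757 757 47 (.bad 10))))))))))))))))) (.split 12 8 (.split 5 32 (.oct 757 757 47 (.bad 10)) (.split 5 64 (.oct 757 756 47 (.bad 10)) (.split 5 256 (.oct 757 755 47 (.bad 10)) (.split 5 512 (.oct 757 756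 47 (.bad 10)) (.split 5 2048 (.oct 757 756 47 (.bad 10)) (.split 5 8192 (.oct 757 754 47 (.bad 10)) (.split 5 16384 (.oct 757 757 47 (.bad 10)) (.split 5 32768 (.oct 757 755 47 (.bad 10)) (.split 5 65536 (.oct 757 755 47 (.bad 10)) (.split 5 131072 (.oct 757 757 47 (.bad 10)) (.split 5 262144 (.oct 757 754 47 (.bad 10)) (.split 5 524288 (.oct 757 755 47 (.bad 10)) (.split 5 1048576 (.oct 757 754 47 (.bad 10)) (.split 5 2097152 (.oct 757 754 47 (.bad 10)) (.split 5 4194304 (.oct 757 756 47 (.bad 10)) (.oct 757 757 47 (.bad 10))))))))))))))))) (.split 12 16 (.split 5 32 (.oct 499 505 4142 (.bad 4)) (.split 5 64 (.oct 499 504 4142 (.bad 4)) (.split 5 256 (.oct 499 505 4142 (.bad 4)) (.split 5 512 (.oct 499 503 4142 (.bad 4)) (.split 5 2048 (.oct 499 505 4142 (.bad 4)) (.split 5 8192 (.oct 499 505 4142 (.bad 4)) (.split 5 16384 (.oct 499 502 4142 (.bad 4)) (.split 5 32768 (.oct 499 504 4142 (.bad 4)) (.split 5 65536 (.oct 499 503 4142 (.bad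 4)) (.split 5 131072 (.oct 499 503 4142 (.bad 4)) (.split 5 262144 (.oct 499 504 4142 (.bad 4)) (.split 5 524288 (.oct 499 502 4142 (.bad 4)) (.split 5 1048576 (.oct 499 503 4142 (.bad 4)) (.split 5 2097152 (.oct 499 502 4142 (.bad 4)) (.split 5 4194304 (.oct 499 502 4142 (.bad 4)) (.oct 499 504 4142 (.bad 4))))))))))))))))) (.split 12 128 (.split 5 32 (.oct 499 500 4142 (.bad 7)) (.split 5 64 (.oct 499 498 4142 (.bad 7)) (.split 5 256 (.oct 499 496 4142 (.bad 7)) (.split 5 512 (.oct 499 500 4142 (.bad 7)) (.split 5 2048 (.oct 499 495 4142 (.bad 7)) (.split 5 8192 (.oct 499 498 4142 (.bad 7)) (.split 5 16384 (.oct 499 498 4142 (.bad 7)) (.split 5 32768 (.oct 499 500 4142 (.bad 7)) (.split 5 65536 (.oct 499 498 4142 (.bad 7)) (.split 5 131072 (.oct 499 495 4142 (.bad 7)) (.split 5 262144 (.oct 499 495 4142 (.bad 7)) (.split 5 524288 (.oct 499 495 4142 (.bad 7)) (.split 5 1048576 (.oct 499 496 4142 (.bad 7)) (.split 5 2097152 (.oct 499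 500 4142 (.bad 7)) (.split 5 4194304 (.oct 499 496 4142 (.bad 7)) (.oct 499 496 4142 (.bad 7))))))))))))))))) (.split 12 1024 (.split 5 32 (.oct 499 501 4142 (.bad 10)) (.split 5 64 (.oct 499 501 4142 (.bad 10)) (.split 5 256 (.oct 499 494 4142 (.bad 10)) (.split 5 512 (.oct 499 494 4142 (.bad 10)) (.split 5 2048 (.oct 499 492 4142 (.bad 10)) (.split 5 8192 (.oct 499 491 4142 (.bad 10)) (.split 5 16384 (.oct 499 494 4142 (.bad 10)) (.split 5 32768 (.oct 499 491 4142 (.bad 10)) (.split 5 65536 (.oct 499 492 4142 (.bad 10)) (.split 5 131072 (.oct 499 491 4142 (.bad 10)) (.split 5 262144 (.oct 499 494 4142 (.bad 10)) (.split 5 524288 (.oct 499 501 4142 (.bad 10)) (.split 5 1048576 (.oct 499 501 4142 (.bad 10)) (.split 5 2097152 (.oct 499 492 4142 (.bad 10)) (.split 5 4194304 (.oct 499 491 4142 (.bad 10)) (.oct 499 492 4142 (.bad 10))))))))))))))))) (.split 5 32 (.oct 499 499 4142 (.bad 10)) (.split 5 64 (.oct 499 497 4142 (.bad 10)) (.split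 5 256 (.oct 499 497 4142 (.bad 10)) (.split 5 512 (.oct 499 493 4142 (.bad 10)) (.split 5 2048 (.oct 499 490 4142 (.bad 10)) (.split 5 8192 (.oct 499 493 4142 (.bad 10)) (.split 5 16384 (.oct 499 490 4142 (.bad 10)) (.split 5 32768 (.oct 499 490 4142 (.bad 10)) (.split 5 65536 (.oct 499 499 4142 (.bad 10)) (.split 5 131072 (.oct 499 497 4142 (.bad 10)) (.split 5 262144 (.oct 499 499 4142 (.bad 10)) (.split 5 524288 (.oct 499 493 4142 (.bad 10)) (.split 5 1048576 (.oct 499 490 4142 (.bad 10)) (.split 5 2097152 (.oct 499 497 4142 (.bad 10)) (.split 5 4194304 (.oct 499 499 4142 (.bad 10)) (.oct 499 493 4142 (.bad 10)))))))))))))))))))))))) (.split 10 16 (.split 12 1 (.split 5 32 (.oct 487 753 4150 (.bad 0)) (.split 5 64 (.oct 487 752 4150 (.bad 0)) (.split 5 256 (.oct 487 752 4150 (.bad 0)) (.split 5 512 (.oct 487 753 4150 (.bad 0)) (.split 5 2048 (.oct 487 751 4150 (.bad 0)) (.split 5 8192 (.oct 487 750 4150 (.bad 0)) (.split 5 16384 (.oct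 487 752 4150 (.bad 0)) (.split 5 32768 (.oct 487 751 4150 (.bad 0)) (.split 5 65536 (.oct 487 750 4150 (.bad 0)) (.split 5 131072 (.oct 487 751 4150 (.bad 0)) (.split 5 262144 (.oct 487 753 4150 (.bad 0)) (.split 5 524288 (.oct 487 753 4150 (.bad 0)) (.split 5 1048576 (.oct 487 752 4150 (.bad 0)) (.split 5 2097152 (.oct 487 751 4150 (.bad 0)) (.split 5 4194304 (.oct 487 750 4150 (.bad 0)) (.oct 487 750 4150 (.bad 0))))))))))))))))) (.split 12 2 (.split 5 32 (.oct 623 737 4153 (.bad 1)) (.split 5 64 (.oct 623 737 4153 (.bad 1)) (.split 5 256 (.oct 623 736 4153 (.bad 1)) (.split 5 512 (.oct 623 735 4153 (.bad 1)) (.split 5 2048 (.oct 623 734 4153 (.bad 1)) (.split 5 8192 (.oct 623 735 4153 (.bad 1)) (.split 5 16384 (.oct 623 735 4153 (.bad 1)) (.split 5 32768 (.oct 623 735 4153 (.bad 1)) (.split 5 65536 (.oct 623 737 4153 (.bad 1)) (.split 5 131072 (.oct 623 736 4153 (.bad 1)) (.split 5 262144 (.oct 623 736 4153 (.bad 1)) (.split 5 524288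 (.oct 623 734 4153 (.bad 1)) (.split 5 1048576 (.oct 623 734 4153 (.bad 1)) (.split 5 2097152 (.oct 623 737 4153 (.bad 1)) (.split 5 4194304 (.oct 623 736 4153 (.bad 1)) (.oct 623 734 4153 (.bad 1))))))))))))))))) (.split 12 4 (.split 5 32 (.oct 623 681 4153 (.bad 2)) (.split 5 64 (.oct 623 680 4153 (.bad 2)) (.split 5 256 (.oct 623 679 4153 (.bad 2)) (.split 5 512 (.oct 623 679 4153 (.bad 2)) (.split 5 2048 (.oct 623 678 4153 (.bad 2)) (.split 5 8192 (.oct 623 680 4153 (.bad 2)) (.split 5 16384 (.oct 623 678 4153 (.bad 2)) (.split 5 32768 (.oct 623 681 4153 (.bad 2)) (.split 5 65536 (.oct 623 678 4153 (.bad 2)) (.split 5 131072 (.oct 623 680 4153 (.bad 2)) (.split 5 262144 (.oct 623 678 4153 (.bad 2)) (.split 5 524288 (.oct 623 680 4153 (.bad 2)) (.split 5 1048576 (.oct 623 681 4153 (.bad 2)) (.split 5 2097152 (.oct 623 679 4153 (.bad 2)) (.split 5 4194304 (.oct 623 681 4153 (.bad 2)) (.oct 623 679 4153 (.bad 2))))))))))))))))) (.split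 12 8 (.split 5 32 (.oct 487 505 4150 (.bad 3)) (.split 5 64 (.oct 487 504 4150 (.bad 3)) (.split 5 256 (.oct 487 505 4150 (.bad 3)) (.split 5 512 (.oct 487 503 4150 (.bad 3)) (.split 5 2048 (.oct 487 505 4150 (.bad 3)) (.split 5 8192 (.oct 487 505 4150 (.bad 3)) (.split 5 16384 (.oct 487 502 4150 (.bad 3)) (.split 5 32768 (.oct 487 504 4150 (.bad 3)) (.split 5 65536 (.oct 487 503 4150 (.bad 3)) (.split 5 131072 (.oct 487 503 4150 (.bad 3)) (.split 5 262144 (.oct 487 504 4150 (.bad 3)) (.split 5 524288 (.oct 487 502 4150 (.bad 3)) (.split 5 1048576 (.oct 487 503 4150 (.bad 3)) (.split 5 2097152 (.oct 487 502 4150 (.bad 3)) (.split 5 4194304 (.oct 487 502 4150 (.bad 3)) (.oct 487 504 4150 (.bad 3))))))))))))))))) (.split 12 16 (.split 5 32 (.oct 499 505 4142 (.bad 4)) (.split 5 64 (.oct 499 504 4142 (.bad 4)) (.split 5 256 (.oct 499 505 4142 (.bad 4)) (.split 5 512 (.oct 499 503 4142 (.bad 4)) (.split 5 2048 (.oct 499 505 4142 (.bad 4))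 (.split 5 8192 (.oct 499 505 4142 (.bad 4)) (.split 5 16384 (.oct 499 502 4142 (.bad 4)) (.split 5 32768 (.oct 499 504 4142 (.bad 4)) (.split 5 65536 (.oct 499 503 4142 (.bad 4)) (.split 5 131072 (.oct 499 503 4142 (.bad 4)) (.split 5 262144 (.oct 499 504 4142 (.bad 4)) (.split 5 524288 (.oct 499 502 4142 (.bad 4)) (.split 5 1048576 (.oct 499 503 4142 (.bad 4)) (.split 5 2097152 (.oct 499 502 4142 (.bad 4)) (.split 5 4194304 (.oct 499 502 4142 (.bad 4)) (.oct 499 504 4142 (.bad 4))))))))))))))))) (.split 12 128 (.split 5 32 (.oct 487 489 4150 (.bad 7)) (.split 5 64 (.oct 487 489 4150 (.bad 7)) (.split 5 256 (.oct 487 484 4150 (.bad 7)) (.split 5 512 (.oct 487 483 4150 (.bad 7)) (.split 5 2048 (.oct 487 483 4150 (.bad 7)) (.split 5 8192 (.oct 487 482 4150 (.bad 7)) (.split 5 16384 (.oct 487 483 4150 (.bad 7)) (.split 5 32768 (.oct 487 482 4150 (.bad 7)) (.split 5 65536 (.oct 487 484 4150 (.bad 7)) (.split 5 131072 (.oct 487 489 4150 (.bad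 7)) (.split 5 262144 (.oct 487 484 4150 (.bad 7)) (.split 5 524288 (.oct 487 482 4150 (.bad 7)) (.split 5 1048576 (.oct 487 482 4150 (.bad 7)) (.split 5 2097152 (.oct 487 484 4150 (.bad 7)) (.split 5 4194304 (.oct 487 489 4150 (.bad 7)) (.oct 487 483 4150 (.bad 7))))))))))))))))) (.split 12 1024 (.split 5 32 (.oct 487 488 4150 (.bad 10)) (.split 5 64 (.oct 487 486 4150 (.bad 10)) (.split 5 256 (.oct 487 480 4150 (.bad 10)) (.split 5 512 (.oct 487 486 4150 (.bad 10)) (.split 5 2048 (.oct 487 479 4150 (.bad 10)) (.split 5 8192 (.oct 487 486 4150 (.bad 10)) (.split 5 16384 (.oct 487 488 4150 (.bad 10)) (.split 5 32768 (.oct 487 488 4150 (.bad 10)) (.split 5 65536 (.oct 487 488 4150 (.bad 10)) (.split 5 131072 (.oct 487 480 4150 (.bad 10)) (.split 5 262144 (.oct 487 479 4150 (.bad 10)) (.split 5 524288 (.oct 487 480 4150 (.bad 10)) (.split 5 1048576 (.oct 487 479 4150 (.bad 10)) (.split 5 2097152 (.oct 487 486 4150 (.bad 10)) (.split 5 4194304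 (.oct 487 479 4150 (.bad 10)) (.oct 487 480 4150 (.bad 10))))))))))))))))) (.split 5 32 (.oct 487 487 4150 (.bad 10)) (.split 5 64 (.oct 487 485 4150 (.bad 10)) (.split 5 256 (.oct 487 481 4150 (.bad 10)) (.split 5 512 (.oct 487 481 4150 (.bad 10)) (.split 5 2048 (.oct 487 485 4150 (.bad 10)) (.split 5 8192 (.oct 487 478 4150 (.bad 10)) (.split 5 16384 (.oct 487 478 4150 (.bad 10)) (.split 5 32768 (.oct 487 481 4150 (.bad 10)) (.split 5 65536 (.oct 487 485 4150 (.bad 10)) (.split 5 131072 (.oct 487 478 4150 (.bad 10)) (.split 5 262144 (.oct 487 478 4150 (.bad 10)) (.split 5 524288 (.oct 487 485 4150 (.bad 10)) (.split 5 1048576 (.oct 487 487 4150 (.bad 10)) (.split 5 2097152 (.oct 487 487 4150 (.bad 10)) (.split 5 4194304 (.oct 487 481 4150 (.bad 10)) (.oct 487 487 4150 (.bad 10)))))))))))))))))))))))) (.split 10 128 (.split 12 1 (.split 5 32 (.oct 733 733 171 (.bad 10)) (.split 5 64 (.oct 733 730 171 (.bad 10)) (.split 5 256 (.oct 733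 727 171 (.bad 10)) (.split 5 512 (.oct 733 726 171 (.bad 10)) (.split 5 2048 (.oct 733 727 171 (.bad 10)) (.split 5 8192 (.oct 733 733 171 (.bad 10)) (.split 5 16384 (.oct 733 727 171 (.bad 10)) (.split 5 32768 (.oct 733 730 171 (.bad 10)) (.split 5 65536 (.oct 733 726 171 (.bad 10)) (.split 5 131072 (.oct 733 730 171 (.bad 10)) (.split 5 262144 (.oct 733 726 171 (.bad 10)) (.split 5 524288 (.oct 733 733 171 (.bad 10)) (.split 5 1048576 (.oct 733 730 171 (.bad 10)) (.split 5 2097152 (.oct 733 727 171 (.bad 10)) (.split 5 4194304 (.oct 733 733 171 (.bad 10)) (.oct 733 726 171 (.bad 10))))))))))))))))) (.split 12 2 (.split 5 32 (.oct 609 733 4265 (.bad 1)) (.split 5 64 (.oct 609 730 4265 (.bad 1)) (.split 5 256 (.oct 609 727 4265 (.bad 1)) (.split 5 512 (.oct 609 726 4265 (.bad 1)) (.split 5 2048 (.oct 609 727 4265 (.bad 1)) (.split 5 8192 (.oct 609 733 4265 (.bad 1)) (.split 5 16384 (.oct 609 727 4265 (.bad 1)) (.split 5 32768 (.oct 609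 730 4265 (.bad 1)) (.split 5 65536 (.oct 609 726 4265 (.bad 1)) (.split 5 131072 (.oct 609 730 4265 (.bad 1)) (.split 5 262144 (.oct 609 726 4265 (.bad 1)) (.split 5 524288 (.oct 609 733 4265 (.bad 1)) (.split 5 1048576 (.oct 609 730 4265 (.bad 1)) (.split 5 2097152 (.oct 609 727 4265 (.bad 1)) (.split 5 4194304 (.oct 609 733 4265 (.bad 1)) (.oct 609 726 4265 (.bad 1))))))))))))))))) (.split 12 4 (.split 5 32 (.oct 706 748 4259 (.bad 2)) (.split 5 64 (.oct 706 746 4259 (.bad 2)) (.split 5 256 (.oct 706 744 4259 (.bad 2)) (.split 5 512 (.oct 706 744 4259 (.bad 2)) (.split 5 2048 (.oct 706 748 4259 (.bad 2)) (.split 5 8192 (.oct 706 744 4259 (.bad 2)) (.split 5 16384 (.oct 706 743 4259 (.bad 2)) (.split 5 32768 (.oct 706 743 4259 (.bad 2)) (.split 5 65536 (.oct 706 748 4259 (.bad 2)) (.split 5 131072 (.oct 706 744 4259 (.bad 2)) (.split 5 262144 (.oct 706 743 4259 (.bad 2)) (.split 5 524288 (.oct 706 746 4259 (.bad 2)) (.split 5 1048576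 (.oct 706 748 4259 (.bad 2)) (.split 5 2097152 (.oct 706 746 4259 (.bad 2)) (.split 5 4194304 (.oct 706 743 4259 (.bad 2)) (.oct 706 746 4259 (.bad 2))))))))))))))))) (.split 12 8 (.split 5 32 (.oct 706 733 4259 (.bad 3)) (.split 5 64 (.oct 706 730 4259 (.bad 3)) (.split 5 256 (.oct 706 727 4259 (.bad 3)) (.split 5 512 (.oct 706 726 4259 (.bad 3)) (.split 5 2048 (.oct 706 727 4259 (.bad 3)) (.split 5 8192 (.oct 706 733 4259 (.bad 3)) (.split 5 16384 (.oct 706 727 4259 (.bad 3)) (.split 5 32768 (.oct 706 730 4259 (.bad 3)) (.split 5 65536 (.oct 706 726 4259 (.bad 3)) (.split 5 131072 (.oct 706 730 4259 (.bad 3)) (.split 5 262144 (.oct 706 726 4259 (.bad 3)) (.split 5 524288 (.oct 706 733 4259 (.bad 3)) (.split 5 1048576 (.oct 706 730 4259 (.bad 3)) (.split 5 2097152 (.oct 706 727 4259 (.bad 3)) (.split 5 4194304 (.oct 706 733 4259 (.bad 3)) (.oct 706 726 4259 (.bad 3))))))))))))))))) (.split 12 16 (.split 5 32 (.oct 706 721 4259 (.bad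 4)) (.split 5 64 (.oct 706 718 4259 (.bad 4)) (.split 5 256 (.oct 706 721 4259 (.bad 4)) (.split 5 512 (.oct 706 715 4259 (.bad 4)) (.split 5 2048 (.oct 706 718 4259 (.bad 4)) (.split 5 8192 (.oct 706 718 4259 (.bad 4)) (.split 5 16384 (.oct 706 714 4259 (.bad 4)) (.split 5 32768 (.oct 706 721 4259 (.bad 4)) (.split 5 65536 (.oct 706 714 4259 (.bad 4)) (.split 5 131072 (.oct 706 714 4259 (.bad 4)) (.split 5 262144 (.oct 706 718 4259 (.bad 4)) (.split 5 524288 (.oct 706 714 4259 (.bad 4)) (.split 5 1048576 (.oct 706 715 4259 (.bad 4)) (.split 5 2097152 (.oct 706 715 4259 (.bad 4)) (.split 5 4194304 (.oct 706 715 4259 (.bad 4)) (.oct 706 721 4259 (.bad 4))))))))))))))))) (.split 12 128 (.split 5 32 (.oct 499 500 4142 (.bad 7)) (.split 5 64 (.oct 499 498 4142 (.bad 7)) (.split 5 256 (.oct 499 496 4142 (.bad 7)) (.split 5 512 (.oct 499 500 4142 (.bad 7)) (.split 5 2048 (.oct 499 495 4142 (.bad 7)) (.split 5 8192 (.oct 499 498 4142 (.bad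 7)) (.split 5 16384 (.oct 499 498 4142 (.bad 7)) (.split 5 32768 (.oct 499 500 4142 (.bad 7)) (.split 5 65536 (.oct 499 498 4142 (.bad 7)) (.split 5 131072 (.oct 499 495 4142 (.bad 7)) (.split 5 262144 (.oct 499 495 4142 (.bad 7)) (.split 5 524288 (.oct 499 495 4142 (.bad 7)) (.split 5 1048576 (.oct 499 496 4142 (.bad 7)) (.split 5 2097152 (.oct 499 500 4142 (.bad 7)) (.split 5 4194304 (.oct 499 496 4142 (.bad 7)) (.oct 499 496 4142 (.bad 7))))))))))))))))) (.split 12 1024 (.split 5 32 (.oct 706 709 4259 (.bad 10)) (.split 5 64 (.oct 706 709 4259 (.bad 10)) (.split 5 256 (.oct 706 694 4259 (.bad 10)) (.split 5 512 (.oct 706 709 4259 (.bad 10)) (.split 5 2048 (.oct 706 692 4259 (.bad 10)) (.split 5 8192 (.oct 706 691 4259 (.bad 10)) (.split 5 16384 (.oct 706 709 4259 (.bad 10)) (.split 5 32768 (.oct 706 691 4259 (.bad 10)) (.split 5 65536 (.oct 706 691 4259 (.bad 10)) (.split 5 131072 (.oct 706 692 4259 (.bad 10)) (.split 5 262144 (.oct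 706 694 4259 (.bad 10)) (.split 5 524288 (.oct 706 694 4259 (.bad 10)) (.split 5 1048576 (.oct 706 694 4259 (.bad 10)) (.split 5 2097152 (.oct 706 691 4259 (.bad 10)) (.split 5 4194304 (.oct 706 692 4259 (.bad 10)) (.oct 706 692 4259 (.bad 10))))))))))))))))) (.split 5 32 (.oct 706 706 4259 (.bad 10)) (.split 5 64 (.oct 706 700 4259 (.bad 10)) (.split 5 256 (.oct 706 700 4259 (.bad 10)) (.split 5 512 (.oct 706 693 4259 (.bad 10)) (.split 5 2048 (.oct 706 693 4259 (.bad 10)) (.split 5 8192 (.oct 706 690 4259 (.bad 10)) (.split 5 16384 (.oct 706 690 4259 (.bad 10)) (.split 5 32768 (.oct 706 693 4259 (.bad 10)) (.split 5 65536 (.oct 706 700 4259 (.bad 10)) (.split 5 131072 (.oct 706 706 4259 (.bad 10)) (.split 5 262144 (.oct 706 706 4259 (.bad 10)) (.split 5 524288 (.oct 706 693 4259 (.bad 10)) (.split 5 1048576 (.oct 706 690 4259 (.bad 10)) (.split 5 2097152 (.oct 706 706 4259 (.bad 10)) (.split 5 4194304 (.oct 706 700 4259 (.bad 10))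 (.oct 706 690 4259 (.bad 10)))))))))))))))))))))))) (.split 10 1024 (.split 12 1 (.split 5 32 (.oct 499 757 4142 (.bad 0)) (.split 5 64 (.oct 499 756 4142 (.bad 0)) (.split 5 256 (.oct 499 755 4142 (.bad 0)) (.split 5 512 (.oct 499 756 4142 (.bad 0)) (.split 5 2048 (.oct 499 756 4142 (.bad 0)) (.split 5 8192 (.oct 499 754 4142 (.bad 0)) (.split 5 16384 (.oct 499 757 4142 (.bad 0)) (.split 5 32768 (.oct 499 755 4142 (.bad 0)) (.split 5 65536 (.oct 499 755 4142 (.bad 0)) (.split 5 131072 (.oct 499 757 4142 (.bad 0)) (.split 5 262144 (.oct 499 754 4142 (.bad 0)) (.split 5 524288 (.oct 499 755 4142 (.bad 0)) (.split 5 1048576 (.oct 499 754 4142 (.bad 0)) (.split 5 2097152 (.oct 499 754 4142 (.bad 0)) (.split 5 4194304 (.oct 499 756 4142 (.bad 0)) (.oct 499 757 4142 (.bad 0))))))))))))))))) (.split 12 2 (.split 5 32 (.oct 757 757 47 (.bad 12)) (.split 5 64 (.oct 757 756 47 (.bad 12)) (.split 5 256 (.oct 757 755 47 (.bad 12)) (.split 5 512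 (.oct 757 756 47 (.bad 12)) (.split 5 2048 (.oct 757 756 47 (.bad 12)) (.split 5 8192 (.oct 757 754 47 (.bad 12)) (.split 5 16384 (.oct 757 757 47 (.bad 12)) (.split 5 32768 (.oct 757 755 47 (.bad 12)) (.split 5 65536 (.oct 757 755 47 (.bad 12)) (.split 5 131072 (.oct 757 757 47 (.bad 12)) (.split 5 262144 (.oct 757 754 47 (.bad 12)) (.split 5 524288 (.oct 757 755 47 (.bad 12)) (.split 5 1048576 (.oct 757 754 47 (.bad 12)) (.split 5 2097152 (.oct 757 754 47 (.bad 12)) (.split 5 4194304 (.oct 757 756 47 (.bad 12)) (.oct 757 757 47 (.bad 12))))))))))))))))) (.split 12 4 (.split 5 32 (.oct 757 757 47 (.bad 12)) (.split 5 64 (.oct 757 756 47 (.bad 12)) (.split 5 256 (.oct 757 755 47 (.bad 12)) (.split 5 512 (.oct 757 756 47 (.bad 12)) (.split 5 2048 (.oct 757 756 47 (.bad 12)) (.split 5 8192 (.oct 757 754 47 (.bad 12)) (.split 5 16384 (.oct 757 757 47 (.bad 12)) (.split 5 32768 (.oct 757 755 47 (.bad 12)) (.split 5 65536 (.oct 757 755 47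 (.bad 12)) (.split 5 131072 (.oct 757 757 47 (.bad 12)) (.split 5 262144 (.oct 757 754 47 (.bad 12)) (.split 5 524288 (.oct 757 755 47 (.bad 12)) (.split 5 1048576 (.oct 757 754 47 (.bad 12)) (.split 5 2097152 (.oct 757 754 47 (.bad 12)) (.split 5 4194304 (.oct 757 756 47 (.bad 12)) (.oct 757 757 47 (.bad 12))))))))))))))))) (.split 12 8 (.split 5 32 (.oct 757 757 47 (.bad 12)) (.split 5 64 (.oct 757 756 47 (.bad 12)) (.split 5 256 (.oct 757 755 47 (.bad 12)) (.split 5 512 (.oct 757 756 47 (.bad 12)) (.split 5 2048 (.oct 757 756 47 (.bad 12)) (.split 5 8192 (.oct 757 754 47 (.bad 12)) (.split 5 16384 (.oct 757 757 47 (.bad 12)) (.split 5 32768 (.oct 757 755 47 (.bad 12)) (.split 5 65536 (.oct 757 755 47 (.bad 12)) (.split 5 131072 (.oct 757 757 47 (.bad 12)) (.split 5 262144 (.oct 757 754 47 (.bad 12)) (.split 5 524288 (.oct 757 755 47 (.bad 12)) (.split 5 1048576 (.oct 757 754 47 (.bad 12)) (.split 5 2097152 (.oct 757 754 47 (.bad 12))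 (.split 5 4194304 (.oct 757 756 47 (.bad 12)) (.oct 757 757 47 (.bad 12))))))))))))))))) (.split 12 16 (.split 5 32 (.oct 499 505 4142 (.bad 4)) (.split 5 64 (.oct 499 504 4142 (.bad 4)) (.split 5 256 (.oct 499 505 4142 (.bad 4)) (.split 5 512 (.oct 499 503 4142 (.bad 4)) (.split 5 2048 (.oct 499 505 4142 (.bad 4)) (.split 5 8192 (.oct 499 505 4142 (.bad 4)) (.split 5 16384 (.oct 499 502 4142 (.bad 4)) (.split 5 32768 (.oct 499 504 4142 (.bad 4)) (.split 5 65536 (.oct 499 503 4142 (.bad 4)) (.split 5 131072 (.oct 499 503 4142 (.bad 4)) (.split 5 262144 (.oct 499 504 4142 (.bad 4)) (.split 5 524288 (.oct 499 502 4142 (.bad 4)) (.split 5 1048576 (.oct 499 503 4142 (.bad 4)) (.split 5 2097152 (.oct 499 502 4142 (.bad 4)) (.split 5 4194304 (.oct 499 502 4142 (.bad 4)) (.oct 499 504 4142 (.bad 4))))))))))))))))) (.split 12 128 (.split 5 32 (.oct 499 500 4142 (.bad 7)) (.split 5 64 (.oct 499 498 4142 (.bad 7)) (.split 5 256 (.oct 499 496 4142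 (.bad 7)) (.split 5 512 (.oct 499 500 4142 (.bad 7)) (.split 5 2048 (.oct 499 495 4142 (.bad 7)) (.split 5 8192 (.oct 499 498 4142 (.bad 7)) (.split 5 16384 (.oct 499 498 4142 (.bad 7)) (.split 5 32768 (.oct 499 500 4142 (.bad 7)) (.split 5 65536 (.oct 499 498 4142 (.bad 7)) (.split 5 131072 (.oct 499 495 4142 (.bad 7)) (.split 5 262144 (.oct 499 495 4142 (.bad 7)) (.split 5 524288 (.oct 499 495 4142 (.bad 7)) (.split 5 1048576 (.oct 499 496 4142 (.bad 7)) (.split 5 2097152 (.oct 499 500 4142 (.bad 7)) (.split 5 4194304 (.oct 499 496 4142 (.bad 7)) (.oct 499 496 4142 (.bad 7))))))))))))))))) (.split 12 1024 (.split 5 32 (.oct 499 501 4142 (.bad 10)) (.split 5 64 (.oct 499 501 4142 (.bad 10)) (.split 5 256 (.oct 499 494 4142 (.bad 10)) (.split 5 512 (.oct 499 494 4142 (.bad 10)) (.split 5 2048 (.oct 499 492 4142 (.bad 10)) (.split 5 8192 (.oct 499 491 4142 (.bad 10)) (.split 5 16384 (.oct 499 494 4142 (.bad 10)) (.split 5 32768 (.oct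 499 491 4142 (.bad 10)) (.split 5 65536 (.oct 499 492 4142 (.bad 10)) (.split 5 131072 (.oct 499 491 4142 (.bad 10)) (.split 5 262144 (.oct 499 494 4142 (.bad 10)) (.split 5 524288 (.oct 499 501 4142 (.bad 10)) (.split 5 1048576 (.oct 499 501 4142 (.bad 10)) (.split 5 2097152 (.oct 499 492 4142 (.bad 10)) (.split 5 4194304 (.oct 499 491 4142 (.bad 10)) (.oct 499 492 4142 (.bad 10))))))))))))))))) (.split 5 32 (.oct 499 499 4142 (.oct 757 757 47 (.oct 749 749 4135 (.oct 487 487 4150 (.oct 733 733 171 (.oct 216 216 13111300 (.oct 334 334 3158018 (.good [0, 1, 2, 3, 4, 5, 6, 7, 8, 9, 10, 11, 12, 13, 14, 15, 16, 17, 18, 19, 20, 21, 22, 23] [])))))))) (.split 5 64 (.oct 499 497 4142 (.oct 757 756 47 (.oct 749 749 4135 (.oct 487 485 4150 (.oct 733 730 171 (.oct 216 211 13111300 (.oct 334 330 3158018 (.good [0, 1, 2, 3, 4, 6, 5, 7, 18, 14, 10, 23, 12, 15, 9, 13, 21, 22, 8, 20, 19, 16, 17, 11] [])))))))) (.split 5 256 (.oct 499 497 4142 (.oct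 757 755 47 (.oct 749 742 4135 (.oct 487 481 4150 (.oct 733 727 171 (.oct 216 243 13111300 (.oct 334 335 3158018 (.good [0, 1, 2, 3, 4, 8, 18, 7, 5, 20, 10, 13, 12, 11, 19, 23, 17, 16, 6, 14, 9, 22, 21, 15] [])))))))) (.split 5 512 (.oct 499 493 4142 (.oct 757 756 47 (.oct 749 740 4135 (.oct 487 481 4150 (.oct 733 726 171 (.oct 216 210 13111300 (.oct 334 368 3158018 (.good [0, 1, 2, 3, 4, 9, 14, 7, 20, 5, 10, 17, 12, 16, 6, 21, 13, 11, 19, 18, 8, 15, 23, 22] [])))))))) (.split 5 2048 (.oct 499 490 4142 (.oct 757 756 47 (.oct 749 742 4135 (.oct 487 485 4150 (.oct 733 727 171 (.oct 216 231 13111300 (.oct 334 341 3158018 (.good [0, 1, 2, 3, 4, 11, 23, 7, 13, 17, 10, 5, 12, 8, 22, 18, 20, 9, 15, 21, 16, 19, 14, 6] [])))))))) (.split 5 8192 (.oct 499 493 4142 (.oct 757 754 47 (.oct 749 749 4135 (.oct 487 478 4150 (.oct 733 733 171 (.oct 216 214 13111300 (.oct 334 376 3158018 (.good [0, 1, 2, 3, 4, 13, 15, 7, 11, 16, 10, 8, 12, 5, 21, 6, 9,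 20, 23, 22, 17, 14, 19, 18] [])))))))) (.split 5 16384 (.oct 499 490 4142 (.oct 757 757 47 (.oct 749 740 4135 (.oct 487 478 4150 (.oct 733 727 171 (.oct 216 217 13111300 (.oct 334 350 3158018 (.good [0, 1, 2, 3, 4, 14, 9, 7, 19, 6, 10, 22, 12, 21, 5, 16, 15, 23, 20, 8, 18, 13, 11, 17] [])))))))) (.split 5 32768 (.oct 499 490 4142 (.oct 757 755 47 (.oct 749 749 4135 (.oct 487 481 4150 (.oct 733 730 171 (.oct 216 219 13111300 (.oct 334 379 3158018 (.good [0, 1, 2, 3, 4, 15, 13, 7, 23, 21, 10, 18, 12, 6, 16, 5, 14, 19, 11, 17, 22, 9, 20, 8] [])))))))) (.split 5 65536 (.oct 499 499 4142 (.oct 757 755 47 (.oct 749 740 4135 (.oct 487 485 4150 (.oct 733 726 171 (.oct 216 255 13111300 (.oct 334 356 3158018 (.good [0, 1, 2, 3, 4, 16, 21, 7, 17, 13, 10, 20, 12, 9, 15, 14, 5, 8, 22, 23, 11, 6, 18, 19] [])))))))) (.split 5 131072 (.oct 499 497 4142 (.oct 757 757 47 (.oct 749 738 4135 (.oct 487 478 4150 (.oct 733 730 171 (.oct 216 237 13111300 (.oct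 334 363 3158018 (.good [0, 1, 2, 3, 4, 17, 22, 7, 16, 11, 10, 9, 12, 20, 23, 19, 8, 5, 21, 15, 13, 18, 6, 14] [])))))))) (.split 5 262144 (.oct 499 499 4142 (.oct 757 754 47 (.oct 749 742 4135 (.oct 487 478 4150 (.oct 733 726 171 (.oct 216 234 13111300 (.oct 334 331 3158018 (.good [0, 1, 2, 3, 4, 18, 8, 7, 6, 19, 10, 15, 12, 23, 20, 11, 22, 21, 5, 9, 14, 17, 16, 13] [])))))))) (.split 5 524288 (.oct 499 493 4142 (.oct 757 755 47 (.oct 749 738 4135 (.oct 487 485 4150 (.oct 733 733 171 (.oct 216 244 13111300 (.oct 334 351 3158018 (.good [0, 1, 2, 3, 4, 19, 20, 7, 14, 18, 10, 21, 12, 22, 8, 17, 23, 15, 9, 5, 6, 11, 13, 16] [])))))))) (.split 5 1048576 (.oct 499 490 4142 (.oct 757 754 47 (.oct 749 738 4135 (.oct 487 487 4150 (.oct 733 730 171 (.oct 216 235 13111300 (.oct 334 367 3158018 (.good [0, 1, 2, 3, 4, 20, 19, 7, 9, 8, 10, 16, 12, 17, 18, 22, 11, 13, 14, 6, 5, 23, 15, 21] [])))))))) (.split 5 2097152 (.oct 499 497 4142 (.oct 757 754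 47 (.oct 749 740 4135 (.oct 487 487 4150 (.oct 733 727 171 (.oct 216 257 13111300 (.oct 334 365 3158018 (.good [0, 1, 2, 3, 4, 21, 16, 7, 22, 15, 10, 19, 12, 14, 13, 9, 6, 18, 17, 11, 23, 5, 8, 20] [])))))))) (.split 5 4194304 (.oct 499 499 4142 (.oct 757 756 47 (.oct 749 738 4135 (.oct 487 481 4150 (.oct 733 733 171 (.oct 216 250 13111300 (.oct 334 354 3158018 (.good [0, 1, 2, 3, 4, 22, 17, 7, 21, 23, 10, 14, 12, 19, 11, 20, 18, 6, 16, 13, 15, 8, 5, 9] [])))))))) (.oct 499 493 4142 (.oct 757 757 47 (.oct 749 742 4135 (.oct 487 487 4150 (.oct 733 726 171 (.oct 216 247 13111300 (.oct 334 338 3158018 (.good [0, 1, 2, 3, 4, 23, 11, 7, 15, 22, 10, 6, 12, 18, 17, 8, 19, 14, 13, 16, 21, 20, 9, 5] [])))))))))))))))))))))))))))))) (.split 12 1 (.split 5 32 (.oct 499 757 4142 (.bad 0)) (.split 5 64 (.oct 499 756 4142 (.bad 0)) (.split 5 256 (.oct 499 755 4142 (.bad 0)) (.split 5 512 (.oct 499 756 4142 (.bad 0)) (.split 5 2048 (.oct 499 756 4142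 (.bad 0)) (.split 5 8192 (.oct 499 754 4142 (.bad 0)) (.split 5 16384 (.oct 499 757 4142 (.bad 0)) (.split 5 32768 (.oct 499 755 4142 (.bad 0)) (.split 5 65536 (.oct 499 755 4142 (.bad 0)) (.split 5 131072 (.oct 499 757 4142 (.bad 0)) (.split 5 262144 (.oct 499 754 4142 (.bad 0)) (.split 5 524288 (.oct 499 755 4142 (.bad 0)) (.split 5 1048576 (.oct 499 754 4142 (.bad 0)) (.split 5 2097152 (.oct 499 754 4142 (.bad 0)) (.split 5 4194304 (.oct 499 756 4142 (.bad 0)) (.oct 499 757 4142 (.bad 0))))))))))))))))) (.split 12 2 (.split 5 32 (.oct 757 757 47 (.bad 12)) (.split 5 64 (.oct 757 756 47 (.bad 12)) (.split 5 256 (.oct 757 755 47 (.bad 12)) (.split 5 512 (.oct 757 756 47 (.bad 12)) (.split 5 2048 (.oct 757 756 47 (.bad 12)) (.split 5 8192 (.oct 757 754 47 (.bad 12)) (.split 5 16384 (.oct 757 757 47 (.bad 12)) (.split 5 32768 (.oct 757 755 47 (.bad 12)) (.split 5 65536 (.oct 757 755 47 (.bad 12)) (.split 5 131072 (.oct 757 757 47 (.bad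 12)) (.split 5 262144 (.oct 757 754 47 (.bad 12)) (.split 5 524288 (.oct 757 755 47 (.bad 12)) (.split 5 1048576 (.oct 757 754 47 (.bad 12)) (.split 5 2097152 (.oct 757 754 47 (.bad 12)) (.split 5 4194304 (.oct 757 756 47 (.bad 12)) (.oct 757 757 47 (.bad 12))))))))))))))))) (.split 12 4 (.split 5 32 (.oct 757 757 47 (.bad 12)) (.split 5 64 (.oct 757 756 47 (.bad 12)) (.split 5 256 (.oct 757 755 47 (.bad 12)) (.split 5 512 (.oct 757 756 47 (.bad 12)) (.split 5 2048 (.oct 757 756 47 (.bad 12)) (.split 5 8192 (.oct 757 754 47 (.bad 12)) (.split 5 16384 (.oct 757 757 47 (.bad 12)) (.split 5 32768 (.oct 757 755 47 (.bad 12)) (.split 5 65536 (.oct 757 755 47 (.bad 12)) (.split 5 131072 (.oct 757 757 47 (.bad 12)) (.split 5 262144 (.oct 757 754 47 (.bad 12)) (.split 5 524288 (.oct 757 755 47 (.bad 12)) (.split 5 1048576 (.oct 757 754 47 (.bad 12)) (.split 5 2097152 (.oct 757 754 47 (.bad 12)) (.split 5 4194304 (.oct 757 756 47 (.bad 12)) (.oct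 757 757 47 (.bad 12))))))))))))))))) (.split 12 8 (.split 5 32 (.oct 757 757 47 (.bad 12)) (.split 5 64 (.oct 757 756 47 (.bad 12)) (.split 5 256 (.oct 757 755 47 (.bad 12)) (.split 5 512 (.oct 757 756 47 (.bad 12)) (.split 5 2048 (.oct 757 756 47 (.bad 12)) (.split 5 8192 (.oct 757 754 47 (.bad 12)) (.split 5 16384 (.oct 757 757 47 (.bad 12)) (.split 5 32768 (.oct 757 755 47 (.bad 12)) (.split 5 65536 (.oct 757 755 47 (.bad 12)) (.split 5 131072 (.oct 757 757 47 (.bad 12)) (.split 5 262144 (.oct 757 754 47 (.bad 12)) (.split 5 524288 (.oct 757 755 47 (.bad 12)) (.split 5 1048576 (.oct 757 754 47 (.bad 12)) (.split 5 2097152 (.oct 757 754 47 (.bad 12)) (.split 5 4194304 (.oct 757 756 47 (.bad 12)) (.oct 757 757 47 (.bad 12))))))))))))))))) (.split 12 16 (.split 5 32 (.oct 499 505 4142 (.bad 4)) (.split 5 64 (.oct 499 504 4142 (.bad 4)) (.split 5 256 (.oct 499 505 4142 (.bad 4)) (.split 5 512 (.oct 499 503 4142 (.bad 4)) (.split 5 2048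 (.oct 499 505 4142 (.bad 4)) (.split 5 8192 (.oct 499 505 4142 (.bad 4)) (.split 5 16384 (.oct 499 502 4142 (.bad 4)) (.split 5 32768 (.oct 499 504 4142 (.bad 4)) (.split 5 65536 (.oct 499 503 4142 (.bad 4)) (.split 5 131072 (.oct 499 503 4142 (.bad 4)) (.split 5 262144 (.oct 499 504 4142 (.bad 4)) (.split 5 524288 (.oct 499 502 4142 (.bad 4)) (.split 5 1048576 (.oct 499 503 4142 (.bad 4)) (.split 5 2097152 (.oct 499 502 4142 (.bad 4)) (.split 5 4194304 (.oct 499 502 4142 (.bad 4)) (.oct 499 504 4142 (.bad 4))))))))))))))))) (.split 12 128 (.split 5 32 (.oct 499 500 4142 (.bad 7)) (.split 5 64 (.oct 499 498 4142 (.bad 7)) (.split 5 256 (.oct 499 496 4142 (.bad 7)) (.split 5 512 (.oct 499 500 4142 (.bad 7)) (.split 5 2048 (.oct 499 495 4142 (.bad 7)) (.split 5 8192 (.oct 499 498 4142 (.bad 7)) (.split 5 16384 (.oct 499 498 4142 (.bad 7)) (.split 5 32768 (.oct 499 500 4142 (.bad 7)) (.split 5 65536 (.oct 499 498 4142 (.bad 7)) (.split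 5 131072 (.oct 499 495 4142 (.bad 7)) (.split 5 262144 (.oct 499 495 4142 (.bad 7)) (.split 5 524288 (.oct 499 495 4142 (.bad 7)) (.split 5 1048576 (.oct 499 496 4142 (.bad 7)) (.split 5 2097152 (.oct 499 500 4142 (.bad 7)) (.split 5 4194304 (.oct 499 496 4142 (.bad 7)) (.oct 499 496 4142 (.bad 7))))))))))))))))) (.split 12 1024 (.split 5 32 (.oct 499 501 4142 (.oct 757 757 47 (.oct 487 488 4150 (.oct 391 394 8392850 (.bad 18))))) (.split 5 64 (.oct 499 501 4142 (.oct 757 756 47 (.oct 487 486 4150 (.oct 391 392 8392850 (.bad 18))))) (.split 5 256 (.oct 499 494 4142 (.oct 757 755 47 (.oct 487 480 4150 (.oct 391 405 8392850 (.bad 18))))) (.split 5 512 (.oct 499 494 4142 (.oct 757 756 47 (.oct 487 486 4150 (.oct 391 400 8392850 (.bad 18))))) (.split 5 2048 (.oct 499 492 4142 (.oct 757 756 47 (.oct 487 479 4150 (.oct 391 394 8392850 (.bad 18))))) (.split 5 8192 (.oct 499 491 4142 (.oct 757 754 47 (.oct 487 486 4150 (.oct 391 405 8392850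 (.bad 18))))) (.split 5 16384 (.oct 499 494 4142 (.oct 757 757 47 (.oct 487 488 4150 (.oct 391 405 8392850 (.bad 18))))) (.split 5 32768 (.oct 499 491 4142 (.oct 757 755 47 (.oct 487 488 4150 (.oct 391 400 8392850 (.bad 18))))) (.split 5 65536 (.oct 499 492 4142 (.oct 757 755 47 (.oct 487 488 4150 (.oct 391 392 8392850 (.bad 18))))) (.split 5 131072 (.oct 499 491 4142 (.oct 757 757 47 (.oct 487 480 4150 (.oct 391 400 8392850 (.bad 18))))) (.split 5 262144 (.oct 499 494 4142 (.oct 757 754 47 (.oct 487 479 4150 (.oct 391 400 8392850 (.bad 18))))) (.split 5 524288 (.oct 499 501 4142 (.oct 757 755 47 (.oct 487 480 4150 (.oct 391 394 8392850 (.bad 18))))) (.split 5 1048576 (.oct 499 501 4142 (.oct 757 754 47 (.oct 487 479 4150 (.oct 391 392 8392850 (.bad 18))))) (.split 5 2097152 (.oct 499 492 4142 (.oct 757 754 47 (.oct 487 486 4150 (.oct 391 394 8392850 (.bad 18))))) (.split 5 4194304 (.oct 499 491 4142 (.oct 757 756 47 (.oct 487 479 4150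 (.oct 391 405 8392850 (.bad 18))))) (.oct 499 492 4142 (.oct 757 757 47 (.oct 487 480 4150 (.oct 391 392 8392850 (.bad 18)))))))))))))))))))) (.split 5 32 (.oct 499 499 4142 (.bad 10)) (.split 5 64 (.oct 499 497 4142 (.bad 10)) (.split 5 256 (.oct 499 497 4142 (.bad 10)) (.split 5 512 (.oct 499 493 4142 (.bad 10)) (.split 5 2048 (.oct 499 490 4142 (.bad 10)) (.split 5 8192 (.oct 499 493 4142 (.bad 10)) (.split 5 16384 (.oct 499 490 4142 (.bad 10)) (.split 5 32768 (.oct 499 490 4142 (.bad 10)) (.split 5 65536 (.oct 499 499 4142 (.bad 10)) (.split 5 131072 (.oct 499 497 4142 (.bad 10)) (.split 5 262144 (.oct 499 499 4142 (.bad 10)) (.split 5 524288 (.oct 499 493 4142 (.bad 10)) (.split 5 1048576 (.oct 499 490 4142 (.bad 10)) (.split 5 2097152 (.oct 499 497 4142 (.bad 10)) (.split 5 4194304 (.oct 499 499 4142 (.bad 10)) (.oct 499 493 4142 (.bad 10))))))))))))))))))))))))))))))))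

theorem treeV_ok : check [] 0 QV treeV (Tree.imgs [(0, 0), (1, 1), (2, 2), (3, 3), (4, 4), (7, 7)]) = true := by
  decide +kernel

theorem V_spec {g : Equiv.Perm GolayPt} (hg : g ∈ fixK M24 [7, 4, 3, 2, 1, 0]) :
    (∀ p ∈ ofMask 5279, g p = p) ∧ ∀ T ∈ trios, ofMask 5279 ∈ T → g • T = T := by
  rw [mem_fixK] at hg
  obtain ⟨hM, hf⟩ := hg
  have hf' : ∀ i ∈ [7, 4, 3, 2, 1, 0], g (pt i) = pt i := by
    intro i hi
    apply hf
    have : ∀ i ∈ [7, 4, 3, 2, 1, 0], i < 24 := by decide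
    rw [ix_pt i (this i hi)]; exact hi
  obtain ⟨l, k, hl, hQ⟩ := check_spec hM (rels_nil g) (e := 0) (fun h => absurd h (by norm_num))
    (fun h => absurd h (by norm_num)) QV treeV _ treeV_ok (val_imgs _ (by
      intro x hx
      simp only [List.mem_cons, List.not_mem_nil, or_false] at hx
      rcases hx with rfl | rfl | rfl | rfl | rfl | rfl
      · exact ⟨by norm_num, hf' 0 (by decide)⟩
      · exact ⟨by norm_num, hf' 1 (by decide)⟩
      · exact ⟨by norm_num, hf' 2 (by decide)⟩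
      · exact ⟨by norm_num, hf' 3 (by decide)⟩
      · exact ⟨by norm_num, hf' 4 (by decide)⟩
      · exact ⟨by norm_num, hf' 7 (by decide)⟩))
  simp only [QV, Bool.and_eq_true, List.all_eq_true] at hQ
  obtain ⟨⟨h10, h12⟩, hQ⟩ := hQ
  constructor
  · intro p hp
    rw [mem_ofMask] at hp
    have h1 : ∀ i < 24, Nat.testBit 5279 i = true → i ∈ [7, 4, 3, 2, 1, 0] ∨ i = 10 ∨ i = 12 := by decide
    rcases h1 _ (ix_lt p) hp with h | h | h
    · exact hf p h
    · apply ix_injective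
      rw [hl.2, h]; exact Nat.eq_of_beq_eq_true h10
    · apply ix_injective
      rw [hl.2, h]; exact Nat.eq_of_beq_eq_true h12
  · intro T hT hO
    obtain ⟨n, hn, rfl⟩ := trio_iff.1 hT
    rw [(smul_tr hM hl hn).1, Nat.eq_of_beq_eq_true (hQ n ((mem_L15 hn).2 hO))]

/-- the octads disjoint from the standard one separate the other points -/
theorem separate : ∀ i < 24, ∀ j < 24, Nat.testBit 5279 i = false → Nat.testBit 5279 j = false → i ≠ j →
    ((octL.filter fun m => Nat.beq (Nat.land m 5279) 0).any fun m => Nat.testBit m i && !(Nat.testBit m j)) = true := by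
  decide +kernel

theorem fix_of_disj {h : Equiv.Perm GolayPt} (hh : h ∈ M24) (h5 : h (pt 5) = pt 5) (ho : h • ofMask 5279 = ofMask 5279)
    (hT : ∀ T ∈ trios, ofMask 5279 ∈ T → h • T = T) : h = 1 := by
  have hp5 : pt 5 ∉ ofMask 5279 := by rw [mem_ofMask]; decide
  have hO : ofMask 5279 ∈ octads := (ofMask_mem_octads (by norm_num)).2 octad0_mem
  -- octads disjoint from the standard one are fixed
  have hA : ∀ m ∈ octL, m &&& 5279 = 0 → h • ofMask m = ofMask m := by
    intro m hm hm0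
    have hgood : Good 5279 m := ⟨octad0_mem, hm, by rw [Nat.and_comm]; exact hm0⟩
    have h1 := hT _ hgood.mem (by simp [tr3])
    obtain ⟨g3, g4, g5⟩ := hgood.third
    have key : ∀ A : Finset GolayPt, A ∈ tr3 5279 m → pt 5 ∈ A → h • A = A := by
      intro A hA hpA
      have h2 : h • A ∈ tr3 5279 m := by rw [← h1]; exact Finset.smul_mem_smul_finset hA
      have h3 : pt 5 ∈ h • A := by
        rw [← h5]; exact Finset.smul_mem_smul_finset hpA
      by_contra hne
      exact Finset.disjoint_left.1 (hgood.mem.2.2 _ h2 _ hA hne) h3 hpA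
    by_cases hpm : pt 5 ∈ ofMask m
    · exact key _ (by simp [tr3]) hpm
    · have hc : pt 5 ∈ ofMask (Nat.xor (Nat.xor 5279 m) 16777215) := by
        rw [third_eq, Finset.mem_compl, Finset.mem_symmDiff]
        rintro (⟨a, _⟩ | ⟨a, _⟩)
        · exact hp5 a
        · exact hpm a
      have h2 := key _ (by simp [tr3]) hc
      have h3 : h • ofMask m ∈ tr3 5279 m := by
        rw [← h1]; exact Finset.smul_mem_smul_finset (by simp [tr3])
      simp only [tr3, Finset.mem_insert, Finset.mem_singleton] at h3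
      rcases h3 with h3 | h3 | h3
      · rw [← ho, smul_left_cancel_iff] at h3
        exact absurd h3.symm (octad_ne_of_disj hO hgood.disj)
      · exact h3
      · rw [← h2, smul_left_cancel_iff] at h3
        exact absurd h3 (octad_ne_of_disj ((ofMask_mem_octads (octL_lt hm)).2 hm) g5)
  apply H7.M24c.fix_nine hh (ofMask 5279)ᶜ
  · rw [Finset.card_compl, card_ofMask]
    have : Fintype.card GolayPt = 24 := by decide
    rw [this]; decide
  · intro p hp
    rw [Finset.mem_compl] at hp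
    have hq : h p ∉ ofMask 5279 := by
      intro hc
      rw [← ho] at hc
      exact hp ((Finset.smul_mem_smul_finset_iff h).1 hc)
    by_contra hne
    rw [mem_ofMask] at hp hq
    have h1 := separate (ix p) (ix_lt p) (ix (h p)) (ix_lt _) (by simpa using hp) (by simpa using hq)
      (fun e => hne (ix_injective e).symm)
    rw [List.any_eq_true] at h1
    obtain ⟨m, hm, h2⟩ := h1
    rw [List.mem_filter] at hm
    rw [Bool.and_eq_true, Bool.not_eq_true'] at h2
    have h3 := hA m hm.1 (Nat.eq_of_beq_eq_true hm.2)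
    have h4 : h p ∈ ofMask m := by
      rw [← h3]; exact Finset.smul_mem_smul_finset (mem_ofMask.2 h2.1)
    rw [mem_ofMask, h2.2] at h4
    exact absurd h4 (by decide)

theorem pw_of_trios {g : Equiv.Perm GolayPt} (hg : g ∈ M24) (ho : g • ofMask 5279 = ofMask 5279)
    (hT : ∀ T ∈ trios, ofMask 5279 ∈ T → g • T = T) : ∀ p ∈ ofMask 5279, g p = p := by
  have h5 : pt 5 ∉ ofMask 5279 := by rw [mem_ofMask]; decide
  have hg5 : g (pt 5) ∉ ofMask 5279 := by
    intro hc
    rw [← ho] at hc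
    exact h5 ((Finset.smul_mem_smul_finset_iff g).1 hc)
  have hL : ix (g (pt 5)) ∈ Six.L16 := by
    rw [mem_ofMask] at hg5
    have h10 : ∀ i, i < 24 → ¬ Nat.testBit 5279 i = true → i ∈ Six.L16 := by decide
    exact h10 _ (ix_lt _) hg5
  obtain ⟨τ, hτ, h'⟩ := descent_pt _ sg6 ((has_M24 sg6_ok).fixK sg6_ok) _ 5 (by decide +kernel) _ hL
  rw [pt_ix] at h'
  obtain ⟨v1, v2⟩ := V_spec hτ
  have hτM := (mem_fixK.1 hτ).1
  have e : τ * g = 1 := by
    apply fix_of_disj (mul_mem hτM hg) h'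
    · rw [mul_smul, ho]
      ext p
      rw [Finset.mem_smul_finset]
      constructor
      · rintro ⟨q, hq, rfl⟩
        rw [Equiv.Perm.smul_def, v1 q hq]; exact hq
      · intro hp; exact ⟨p, hp, v1 p hp⟩
    · intro T hT' hO
      rw [mul_smul, hT T hT' hO, v2 T hT' hO]
  intro p hp
  have h1 : τ (g p) = p := by rw [← Equiv.Perm.mul_apply, e]; rfl
  have h2 : g p ∈ ofMask 5279 := by rw [← ho]; exact Finset.smul_mem_smul_finset hp
  rw [v1 _ h2] at h1
  exact h1

/-- the kernel of the action on the fifteen trios containing an octad -/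
theorem trios_iff {o : Finset GolayPt} (ho : o ∈ octads) {g : Equiv.Perm GolayPt} (hg : g ∈ M24) (hgo : g • o = o) :
    (∀ T ∈ trios, o ∈ T → g • T = T) ↔ ∀ p ∈ o, g p = p := by
  obtain ⟨h, hh, hho⟩ := H7.PairFacts.std_o ho
  have hho : h • o = ofMask 5279 := hho
  have hM : h * g * h⁻¹ ∈ M24 := mul_mem (mul_mem hh hg) (inv_mem hh)
  have e0 : (h * g * h⁻¹) • ofMask 5279 = ofMask 5279 := by
    rw [← hho, mul_smul, inv_smul_smul, mul_smul, hgo]
  constructor
  · intro hT p hp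
    have h1 := pw_of_trios hM e0 (by
      intro T hT' hO
      have h2 : h⁻¹ • T ∈ trios := (smul_mem_trios_iff (inv_mem hh)).2 hT'
      have h3 : o ∈ h⁻¹ • T := by
        rw [Finset.mem_inv_smul_finset_iff, hho]; exact hO
      rw [mul_smul, mul_smul, hT _ h2 h3, smul_inv_smul]) (h p) (by rw [← hho]; exact Finset.smul_mem_smul_finset hp)
    rw [Equiv.Perm.mul_apply, Equiv.Perm.mul_apply] at h1
    have h4 : h⁻¹ (h p) = p := h.symm_apply_apply p
    rw [h4] at h1
    exact h.injective h1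
  · intro hp T hT hO
    have h1 : h * g * h⁻¹ ∈ fixK M24 [7, 4, 3, 2, 1, 0] := by
      rw [mem_fixK]
      refine ⟨hM, fun q hq => ?_⟩
      have h2 : q ∈ ofMask 5279 := by
        rw [mem_ofMask]
        have : ∀ i ∈ [7, 4, 3, 2, 1, 0], Nat.testBit 5279 i = true := by decide
        exact this _ hq
      rw [← hho] at h2
      obtain ⟨r, hr, rfl⟩ := Finset.mem_smul_finset.1 h2
      show h (g (h⁻¹ (h r))) = h r
      have h4 : h⁻¹ (h r) = r := h.symm_apply_apply r
      rw [h4, hp r hr]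
    have h2 := (V_spec h1).2 (h • T) ((smul_mem_trios_iff hh).2 hT) (by rw [← hho]; exact Finset.smul_mem_smul_finset hO)
    rw [mul_smul, inv_smul_smul, mul_smul, smul_left_cancel_iff] at h2
    exact h2

theorem nm_one_iff {o : Finset GolayPt} (ho : o ∈ octads) {T : Finset (Finset GolayPt)} (hT : T ∈ trios) :
    nm o T = 1 ↔ o ∈ T := by
  have hcov : ∀ p : GolayPt, ∃ t ∈ T, p ∈ t := by
    intro p
    obtain ⟨a, b, h, rfl⟩ := trio_std hT
    by_cases h1 : p ∈ ofMask a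
    · exact ⟨_, by simp [tr3], h1⟩
    · by_cases h2 : p ∈ ofMask b
      · exact ⟨_, by simp [tr3], h2⟩
      · refine ⟨ofMask (Nat.xor (Nat.xor a b) 16777215), by simp [tr3], ?_⟩
        rw [third_eq, Finset.mem_compl, Finset.mem_symmDiff]
        rintro (⟨x, _⟩ | ⟨x, _⟩)
        · exact h1 x
        · exact h2 x
  constructor
  · intro h
    rw [nm, Finset.card_eq_one] at h
    obtain ⟨t, ht⟩ := h
    have htT : t ∈ T := by
      have : t ∈ T.filter fun t => (t ∩ o).Nonempty := by rw [ht]; exact Finset.mem_singleton_self t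
      exact (Finset.mem_filter.1 this).1
    have hsub : o ⊆ t := by
      intro p hp
      obtain ⟨u, hu, hpu⟩ := hcov p
      have : u ∈ T.filter fun t => (t ∩ o).Nonempty :=
        Finset.mem_filter.2 ⟨hu, ⟨p, Finset.mem_inter.2 ⟨hpu, hp⟩⟩⟩
      rw [ht, Finset.mem_singleton] at this
      rw [← this]; exact hpu
    have : o = t := Finset.eq_of_subset_of_card_le hsub (by rw [ho.2, (hT.2.1 t htT).2])
    rw [this]; exact htT
  · intro h
    rw [nm, Finset.card_eq_one]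
    refine ⟨o, ?_⟩
    ext t
    rw [Finset.mem_filter, Finset.mem_singleton]
    constructor
    · rintro ⟨htT, p, hp⟩
      rw [Finset.mem_inter] at hp
      by_contra hne
      exact Finset.disjoint_left.1 (hT.2.2 t htT o h hne) hp.1 hp.2
    · rintro rfl
      refine ⟨h, ?_⟩
      rw [Finset.inter_self, ← Finset.card_pos, ho.2]
      norm_num

end Cfsg.Agent.H28.OctV
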