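import Cfsg.Agent.H28_Quot
import Cfsg.Agent.H1_Coprime2

set_option autoImplicit false
set_option linter.all false
open Cfsg
open scoped commutatorElement

namespace Cfsg.Agent.H28.Large

open Cfsg.Agent.H28.Xsp

/-- a finite group of order `2·odd`, `w` an involution: a normal subgroup `O` of odd order with `G = O ∪ wO`. -/
theorem exists_odd_normal {D : Type*} [Group D] [Finite D] (h4 : ¬ 4 ∣ Nat.card D) (w : D) (hw : w * w = 1)
    (hw1 : w ≠ 1) : ∃ O : Subgroup D, O.Normal ∧ Odd (Nat.card O) ∧ ∀ d : D, d ∈ O ∨ w * d ∈ O := by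
  have : Fact (Nat.Prime 2) := ⟨Nat.prime_two⟩
  obtain ⟨P⟩ : Nonempty (Sylow 2 D) := inferInstance
  have hPcard := P.card_eq_multiplicity
  have how : orderOf w = 2 := orderOf_eq_prime (by rw [pow_two]; exact hw) hw1
  have h2 : 2 ∣ Nat.card D := by rw [← how]; exact orderOf_dvd_natCard w
  have hcard0 : Nat.card D ≠ 0 := Nat.card_pos.ne'
  have hfac : (Nat.card D).factorization 2 = 1 := by
    have h1 : 1 ≤ (Nat.card D).factorization 2 :=
      (Nat.Prime.dvd_iff_one_le_factorization Nat.prime_two hcard0).mp h2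
    by_contra hne
    have h3 : 2 ≤ (Nat.card D).factorization 2 := by omega
    apply h4
    have := (Nat.Prime.pow_dvd_iff_le_factorization Nat.prime_two hcard0).mpr h3
    simpa using this
  rw [hfac, pow_one] at hPcard
  have hN : Subgroup.normalizer ((P : Subgroup D) : Set D) ≤ Subgroup.centralizer ((P : Subgroup D) : Set D) := by
    intro n hn
    rw [Subgroup.mem_centralizer_iff]
    intro p hp
    have hPc := hPcard
    rw [Nat.card_eq_two_iff' (1 : (P : Subgroup D))] at hPc
    obtain ⟨v, hv1, hvu⟩ := hPc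
    by_cases hp1 : p = 1
    · rw [hp1]; simp
    have e1 : (⟨p, hp⟩ : (P : Subgroup D)) = v := hvu _ (fun h => hp1 (congrArg Subtype.val h))
    have hnp : n * p * n⁻¹ ∈ (P : Subgroup D) := (Subgroup.mem_normalizer_iff.mp hn p).mp hp
    have e2 : (⟨n * p * n⁻¹, hnp⟩ : (P : Subgroup D)) = v := hvu _ (by
      intro h
      apply hp1
      have : n * p * n⁻¹ = 1 := congrArg Subtype.val h
      rw [mul_inv_eq_iff_eq_mul, one_mul] at this
      exact (mul_eq_left (a := n)).mp this)
    have e3 : p = n * p * n⁻¹ := congrArg Subtype.val (e1.trans e2.symm)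
    have e4 : p * n = n * p := by
      calc p * n = (n * p * n⁻¹) * n := by rw [← e3]
        _ = n * p := by group
    exact e4
  set O := (MonoidHom.transferSylow P hN).ker with hO
  have hOc := MonoidHom.ker_transferSylow_isComplement' P hN
  have hOn := MonoidHom.not_dvd_card_ker_transferSylow P hN
  rw [← hO] at hOc hOn
  have hodd : Odd (Nat.card O) := by
    rw [← Nat.not_even_iff_odd]
    intro h
    exact hOn h.two_dvd
  refine ⟨O, inferInstance, hodd, ?_⟩
  have hidx : O.index = 2 := by
    rw [hOc.symm.index_eq_card, hPcard]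
  have hwO : w ∉ O := by
    intro hwO
    have h1 : orderOf (⟨w, hwO⟩ : O) ∣ Nat.card O := orderOf_dvd_natCard _
    rw [Subgroup.orderOf_mk, how] at h1
    exact hOn h1
  intro d
  by_cases hd : d ∈ O
  · exact Or.inl hd
  · right
    exact (Subgroup.mul_mem_iff_of_index_two hidx).mpr ⟨fun h => absurd h hwO, fun h => absurd h hd⟩

variable {G : Type*} [Group G] [Finite G]

/-- fixed points of odd order groups in `Q`: noncentral elements of `C_Q(A)` are noncentral in `C_Q(A)`. -/
theorem Pre.exists_cent_not_comm {Q : Subgroup G} {z : G} (h : Pre Q z) {A : Subgroup G}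
    (hAz : ∀ a ∈ A, a * z = z * a) (hAodd : Odd (Nat.card A)) {c : G} (hc : c ∈ Q)
    (hcA : ∀ a ∈ A, a * c = c * a) (hc1 : c ≠ 1) (hcz : c ≠ z) :
    ∃ d ∈ Q, (∀ a ∈ A, a * d = d * a) ∧ d * c ≠ c * d := by
  have : Fact (Nat.Prime 2) := ⟨Nat.prime_two⟩
  have hA : A ≤ Subgroup.normalizer (Q : Set G) := by
    intro a ha
    apply h.norm
    rw [Subgroup.mem_centralizer_singleton_iff]; exact hAz a ha
  have hcop : (Nat.card A).Coprime (Nat.card Q) := by
    obtain ⟨n, hn⟩ := h.isPGroup.exists_card_eq
    rw [hn]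
    exact (Nat.coprime_two_right.mpr hAodd).pow_right n
  have hsolv : Group.IsSolvable A ∨ Group.IsSolvable Q := by
    right
    have : Group.IsNilpotent Q := h.isPGroup.isNilpotent
    infer_instance
  have hAz' : A ≤ Subgroup.centralizer ((Subgroup.zpowers z : Subgroup G) : Set G) := by
    intro a ha
    rw [centralizer_zpowers_eq, Subgroup.mem_centralizer_singleton_iff]
    exact hAz a ha
  have hQQ : ⁅Q, Q⁆ ≤ Subgroup.zpowers z := by
    rw [Subgroup.commutator_le]
    intro x hx y hy
    rw [mem_zpowers_of_sq h.sq, commutatorElement_def]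
    rcases h.comm x hx y hy with h1 | h1
    · left; rw [h1]; group
    · right; rw [h1]; group
  set C := Q ⊓ Subgroup.centralizer (A : Set G) with hC
  have hthree : ⁅⁅Q, A⁆, C⁆ = ⊥ := by
    apply Subgroup.commutator_commutator_eq_bot_of_rotate
    · have h1 : ⁅A, C⁆ = ⊥ := by
        rw [Subgroup.commutator_eq_bot_iff_le_centralizer, Subgroup.le_centralizer_iff]
        exact inf_le_right
      rw [h1, Subgroup.commutator_bot_left]
    · rw [Subgroup.commutator_eq_bot_iff_le_centralizer, Subgroup.le_centralizer_iff]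
      apply hAz'.trans
      apply Subgroup.centralizer_le
      exact (Subgroup.commutator_mono inf_le_left le_rfl).trans hQQ
  have hcomm : ∀ x ∈ C, ∀ y ∈ ⁅Q, A⁆, x * y = y * x := by
    intro x hx y hy
    rw [Subgroup.commutator_eq_bot_iff_le_centralizer] at hthree
    exact Subgroup.mem_centralizer_iff.mp (hthree hy) x hx
  have hcC : c ∈ C := by
    rw [hC, Subgroup.mem_inf, Subgroup.mem_centralizer_iff]
    exact ⟨hc, hcA⟩
  by_contra hcon
  push Not at hcon
  rcases h.cen c hc (by
    intro y hy
    obtain ⟨u, hu, d, hd, rfl⟩ := H1.Coprime.exists_mul_of_coprime hA hcop hsolv hy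
    obtain ⟨hd1, hd2⟩ := Subgroup.mem_inf.mp hd
    have h1 := hcon d hd1 (Subgroup.mem_centralizer_iff.mp hd2)
    calc c * (u * d) = (c * u) * d := by group
      _ = (u * c) * d := by rw [hcomm c hcC u hu]
      _ = u * (c * d) := by group
      _ = u * (d * c) := by rw [h1]
      _ = _ := by group) with h1 | h1
  · exact hc1 h1
  · exact hcz h1

end Cfsg.Agent.H28.Large
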