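import Mathlib
import Cfsg.Agent.H28_SxtOrb

set_option autoImplicit false

/-!
Orbits of stabilisers described by a numerical invariant.
-/

namespace Cfsg.Agent.H28.OrbK

open Cfsg Cfsg.Agent.H7.Golay Cfsg.Agent.H7.Oct Cfsg.Agent.H7.M24 Cfsg.Agent.H28.Sxt Cfsg.Agent.H28.SxtFix
open Cfsg.Agent.H28.Pk Cfsg.Agent.H28.SxtOrb
open scoped Pointwise

section
variable {α β : Type*} [MulAction (Equiv.Perm GolayPt) α] [MulAction (Equiv.Perm GolayPt) β] (F : Fam β) (X0 : α)
  (iv : α → β → ℕ) (hiv : ∀ g ∈ M24, ∀ X s, iv (g • X) (g • s) = iv X s) (T : List ℕ) (key : ℕ → ℕ)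
  (hT : T.map key = F.K) (v : ℕ → ℕ) (hv : ∀ N ∈ T, v N = iv X0 (F.lab (key N)))

include hiv hT hv

theorem trans_k (gs : List (List ℕ))
    (hgs : Has (M24 ⊓ MulAction.stabilizer (Equiv.Perm GolayPt) X0) gs) (k k0 W : ℕ)
    (check : cert F.am gs key (fun N => Nat.beq (v N) k) k0 T W = true) {X : α} (hX : ∃ h ∈ M24, h • X = X0) {s s' : β}
    (hs : s ∈ F.X) (hs' : s' ∈ F.X) (hPs : iv X s = k) (hPs' : iv X s' = k) : ∃ g ∈ M24, g • X = X ∧ g • s = s' := by
  apply trans_std F X0 (fun X s => iv X s = k) (fun g hg X s h => by rw [hiv g hg]; exact h) T key hT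
    (fun N => Nat.beq (v N) k) (fun N hN => by rw [Nat.beq_eq, hv N hN]) gs hgs k0 W check hX hs hs' hPs hPs'

theorem count_k (k c : ℕ) (hc : (T.filter fun N => Nat.beq (v N) k).length = c) {X : α}
    (hX : ∃ h ∈ M24, h • X = X0) : {s | s ∈ F.X ∧ iv X s = k}.ncard = c := by
  rw [count_std F X0 (fun X s => iv X s = k) (fun g hg X s h => by rw [hiv g hg]; exact h) T key hT
    (fun N => Nat.beq (v N) k) (fun N hN => by rw [Nat.beq_eq, hv N hN]) hX, hc]

theorem orb_k (gs : List (List ℕ)) (hgs : Has (M24 ⊓ MulAction.stabilizer (Equiv.Perm GolayPt) X0) gs) (k k0 W c : ℕ)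
    (check : cert F.am gs key (fun N => Nat.beq (v N) k) k0 T W = true)
    (hc : (T.filter fun N => Nat.beq (v N) k).length = c) (hpos : 0 < c) {X : α} (hX : ∃ h ∈ M24, h • X = X0) :
    ∃ Y ∈ F.X, iv X Y = k ∧ (MulAction.orbit ↥(MulAction.stabilizer M24 X) Y).ncard = c ∧
      MulAction.orbit ↥(MulAction.stabilizer M24 X) Y = {s | s ∈ F.X ∧ iv X s = k} := by
  have hn := count_k F X0 iv hiv T key hT v hv k c hc hX
  obtain ⟨Y, hY⟩ : {s | s ∈ F.X ∧ iv X s = k}.Nonempty := by
    by_contra h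
    rw [Set.not_nonempty_iff_eq_empty] at h
    rw [h, Set.ncard_empty] at hn
    omega
  have ho : MulAction.orbit ↥(MulAction.stabilizer M24 X) Y = {s | s ∈ F.X ∧ iv X s = k} := by
    apply H28.Orb.orbit_stab X _ _ _ hY
    · intro s hs s' hs'
      exact trans_k F X0 iv hiv T key hT v hv gs hgs k k0 W check hX hs.1 hs'.1 hs.2 hs'.2
    · intro g hg hgX s hs
      refine ⟨(F.inv g hg s).2 hs.1, ?_⟩
      have := hiv g hg X s
      rw [hgX] at this
      rw [this]; exact hs.2
  exact ⟨Y, hY.1, hY.2, by rw [ho]; exact hn, ho⟩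

theorem vals_k (vals : List ℕ) (h : (T.all fun N => vals.contains (v N)) = true) {X : α}
    (hX : ∃ h ∈ M24, h • X = X0) {s : β} (hs : s ∈ F.X) : iv X s ∈ vals := by
  obtain ⟨g, hg, hX⟩ := hX
  obtain ⟨n, hn, hn2⟩ := (F.mem _).1 ((F.inv g hg s).2 hs)
  rw [← hT] at hn
  obtain ⟨N, hN, rfl⟩ := List.mem_map.1 hn
  have h2 := List.all_eq_true.1 h N hN
  rw [hv N hN, ← hn2, ← hX, hiv g hg] at h2
  exact List.contains_iff_mem.1 h2

end

theorem map_id' (L : List ℕ) : L.map (fun n => n) = L := by simp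

/-- number of members meeting a set -/
def nm (o : Finset GolayPt) (S : Finset (Finset GolayPt)) : ℕ := (S.filter fun t => (t ∩ o).Nonempty).card

theorem card_filter_smul (g : Equiv.Perm GolayPt) (S : Finset (Finset GolayPt)) (P Q : Finset GolayPt → Prop)
    [DecidablePred P] [DecidablePred Q] (h : ∀ t, Q (g • t) ↔ P t) : ((g • S).filter Q).card = (S.filter P).card := by
  have : (g • S).filter Q = g • (S.filter P) := by
    ext t
    rw [Finset.mem_filter, Finset.mem_smul_finset, Finset.mem_smul_finset]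
    constructor
    · rintro ⟨⟨u, hu, rfl⟩, hq⟩
      exact ⟨u, Finset.mem_filter.2 ⟨hu, (h u).1 hq⟩, rfl⟩
    · rintro ⟨u, hu, rfl⟩
      rw [Finset.mem_filter] at hu
      exact ⟨⟨u, hu.1, rfl⟩, (h u).2 hu.2⟩
  rw [this, Finset.card_smul_finset]

theorem nonempty_smul (g : Equiv.Perm GolayPt) (t o : Finset GolayPt) :
    ((g • t) ∩ (g • o)).Nonempty ↔ (t ∩ o).Nonempty := by
  rw [← Finset.smul_finset_inter, Finset.smul_finset_nonempty]

theorem nm_smul (g : Equiv.Perm GolayPt) (o : Finset GolayPt) (S : Finset (Finset GolayPt)) :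
    nm (g • o) (g • S) = nm o S :=
  card_filter_smul g S _ _ fun t => nonempty_smul g t o

/-- test for meeting -/
def meets (m t : ℕ) : Bool := !(Nat.beq (Nat.land t m) 0)

theorem meets_iff {m t : ℕ} (ht : t < 16777216) : meets m t = true ↔ (ofMask t ∩ ofMask m).Nonempty := by
  rw [← ofMask_and, Finset.nonempty_iff_ne_empty, ← ofMask_zero, Ne,
    ofMask_inj (lt_of_le_of_lt Nat.and_le_left ht) (by norm_num)]
  unfold meets
  rw [Bool.not_eq_true']
  change Nat.beq (t &&& m) 0 = false ↔ _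
  constructor
  · intro h h0
    rw [h0] at h
    exact absurd h (by decide)
  · intro h
    by_contra hc
    exact h (Nat.eq_of_beq_eq_true (by simpa using hc))

theorem nm_sx {m N : ℕ} (hN : N ∈ sexT) : cnt (meets m) (flds N) = nm (ofMask m) (sx (SxtOrb.key N)) :=
  (card_filter_sx hN _ _ fun _ ht => meets_iff ht).symm

theorem nm_tr {m n : ℕ} (hn : n ∈ trioL) : cnt (meets m) (tflds n) = nm (ofMask m) (tr n) :=
  (card_filter_tr hn _ _ fun _ ht => meets_iff ht).symm

/-- number of incidences between two families -/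
def nn (A B : Finset (Finset GolayPt)) : ℕ := ∑ o ∈ A, nm o B

theorem nn_smul (g : Equiv.Perm GolayPt) (A B : Finset (Finset GolayPt)) : nn (g • A) (g • B) = nn A B := by
  unfold nn
  have : g • A = A.image (fun t => g • t) := rfl
  rw [this, Finset.sum_image (fun x _ y _ h => MulAction.injective g h)]
  exact Finset.sum_congr rfl fun o _ => nm_smul g o B

theorem sum_toFinset (L : List ℕ) (hL : (L.map ofMask).Nodup) (f : Finset GolayPt → ℕ) :
    ∑ o ∈ (L.map ofMask).toFinset, f o = (L.map fun m => f (ofMask m)).sum := by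
  rw [List.sum_toFinset _ hL, List.map_map]
  rfl

/-- sum over the members of a list -/
def lsum (f : ℕ → ℕ) (L : List ℕ) : ℕ := (L.map f).sum

theorem nn_tr_sx {n N : ℕ} (hn : n ∈ trioL) (hN : N ∈ sexT) :
    lsum (fun m => cnt (meets m) (flds N)) (tflds n) = nn (tr n) (sx (SxtOrb.key N)) := by
  rw [nn, tr_flds, sum_toFinset _ (tflds_nodup hn), lsum]
  congr 1
  apply List.map_congr_left
  intro m _
  exact nm_sx hN

end Cfsg.Agent.H28.OrbK
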