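import Mathlib
import Cfsg.Agent.H28_Xsp
import Cfsg.Agent.H16_Quad5
import Cfsg.Agent.H16_Quad6
import Cfsg.Agent.H16_Mat
import Cfsg.Prelude.Def_KGroupFacts

/-! The outer automorphism group of an extraspecial 2-group. -/

set_option autoImplicit false
set_option linter.all false

namespace Cfsg.Agent.H28.OutX

universe u v
open Subgroup Cfsg Cfsg.Agent.H28.Xsp Cfsg.Agent.H16.Quad QuadraticMap
open scoped Matrix

section
variable {E : Type u} [Group E] {z : E}

/-- `z ^ a` -/
def zz (z : E) (a : ZMod 2) : E := if a = 0 then 1 else z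

theorem z2 : ∀ a : ZMod 2, a = 0 ∨ a = 1 := by decide

@[simp] theorem zz0 : zz z 0 = 1 := by simp [zz]
@[simp] theorem zz1 : zz z 1 = z := by simp [zz]

theorem zz_add (h : Xsp (⊤ : Subgroup E) z) (a b : ZMod 2) : zz z (a + b) = zz z a * zz z b := by
  rcases z2 a with rfl | rfl <;> rcases z2 b with rfl | rfl
  · simp
  · simp
  · simp
  · rw [show (1 : ZMod 2) + 1 = 0 by decide]; simp [h.sq]

theorem zz_comm (h : Xsp (⊤ : Subgroup E) z) (a : ZMod 2) (x : E) : zz z a * x = x * zz z a := by
  rcases z2 a with rfl | rfl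
  · simp
  · simp [h.zc x (mem_top x)]

theorem zz_inj (h : Xsp (⊤ : Subgroup E) z) {a b : ZMod 2} (hab : zz z a = zz z b) : a = b := by
  rcases z2 a with rfl | rfl <;> rcases z2 b with rfl | rfl
  · rfl
  · simp at hab; exact absurd hab.symm h.ne
  · simp at hab; exact absurd hab h.ne
  · rfl

theorem zz_cancel (h : Xsp (⊤ : Subgroup E) z) {a b : ZMod 2} {x : E} (hab : zz z a * x = zz z b * x) : a = b :=
  zz_inj h (mul_right_cancel hab)

theorem exists_sq (h : Xsp (⊤ : Subgroup E) z) (x : E) : ∃ a, x * x = zz z a := by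
  rcases h.sqr x (mem_top x) with h1 | h1
  · exact ⟨0, by rw [h1, zz0]⟩
  · exact ⟨1, by rw [h1, zz1]⟩

theorem exists_c (h : Xsp (⊤ : Subgroup E) z) (x y : E) : ∃ a, x * y = zz z a * (y * x) := by
  rcases h.comm x (mem_top x) y (mem_top y) with h1 | h1
  · exact ⟨0, by rw [h1, zz0, one_mul]⟩
  · exact ⟨1, by rw [h1, zz1]⟩

/-- a coordinatization -/
structure Pr (z : E) {W : Type v} [AddCommGroup W] [Module (ZMod 2) W] (π : E → W) (Q : QuadraticForm (ZMod 2) W) : Prop where
  xsp : Xsp (⊤ : Subgroup E) z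
  mul : ∀ x y, π (x * y) = π x + π y
  surj : Function.Surjective π
  ker : ∀ x, π x = 0 ↔ x = 1 ∨ x = z
  q : ∀ x, x * x = zz z (Q (π x))

end

section
variable {E : Type u} [Group E] {z : E} {W : Type v} [AddCommGroup W] [Module (ZMod 2) W] {π : E → W} {Q : QuadraticForm (ZMod 2) W}

namespace Pr

theorem c (P : Pr z π Q) (x y : E) : x * y = zz z (polar Q (π x) (π y)) * (y * x) := by
  obtain ⟨a, ha⟩ := exists_c P.xsp x y
  have h1 := P.q (x * y)
  rw [P.mul, H16.Quad.map_add, zz_add P.xsp, zz_add P.xsp, ← P.q, ← P.q] at h1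
  have h2 : (x * y) * (x * y) = zz z a * (x * x) * (y * y) := by
    calc (x * y) * (x * y) = zz z a * (y * x) * (x * y) := by rw [← ha]
      _ = zz z a * (y * (x * x)) * y := by group
      _ = zz z a * ((x * x) * y) * y := by rw [P.q x, zz_comm P.xsp (Q (π x)) y]
      _ = zz z a * (x * x) * (y * y) := by group
  have h3 : zz z a * ((x * x) * (y * y)) = zz z (polar Q (π x) (π y)) * ((x * x) * (y * y)) := by
    calc zz z a * ((x * x) * (y * y)) = (x * y) * (x * y) := by rw [h2]; group
      _ = (x * x) * (y * y) * zz z (polar Q (π x) (π y)) := h1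
      _ = _ := by rw [zz_comm P.xsp]
  rw [← zz_cancel P.xsp h3]
  exact ha

theorem one (P : Pr z π Q) : π 1 = 0 := (P.ker 1).mpr (Or.inl rfl)
theorem zer (P : Pr z π Q) : π z = 0 := (P.ker z).mpr (Or.inr rfl)

theorem eq_iff (P : Pr z π Q) {x y : E} : π x = π y ↔ ∃ a, y = zz z a * x := by
  constructor
  · intro h
    have h1 : π (y * x⁻¹) = 0 := by
      have h2 : π (x * x⁻¹) = 0 := by rw [mul_inv_cancel, P.one]
      rw [P.mul] at h2 ⊢
      rw [← h, h2]
    rcases (P.ker _).mp h1 with h2 | h2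
    · exact ⟨0, by rw [zz0, one_mul]; exact (mul_inv_eq_one.mp h2)⟩
    · exact ⟨1, by rw [zz1, ← h2]; group⟩
  · rintro ⟨a, rfl⟩
    rw [P.mul]
    rcases z2 a with rfl | rfl
    · rw [zz0, P.one, zero_add]
    · rw [zz1, P.zer, zero_add]

theorem inv (P : Pr z π Q) (x : E) : π x⁻¹ = π x := by
  have h2 : π (x * x⁻¹) = 0 := by rw [mul_inv_cancel, P.one]
  rw [P.mul] at h2
  have h3 : π x + π x = 0 := ZModModule.add_self _
  exact (add_left_cancel (h3.trans h2.symm)).symm

theorem nd (P : Pr z π Q) : (QuadraticMap.polarBilin Q).Nondegenerate := by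
  apply nd_of
  intro v hv
  obtain ⟨x, rfl⟩ := P.surj v
  rw [P.ker]
  apply P.xsp.cen x (mem_top x)
  intro y _
  have := P.c x y
  rw [hv, zz0, one_mul] at this
  exact this

theorem comp (P : Pr z π Q) {W' : Type*} [AddCommGroup W'] [Module (ZMod 2) W'] {Q' : QuadraticForm (ZMod 2) W'}
    (φ : W ≃ₗ[ZMod 2] W') (hφ : ∀ v, Q' (φ v) = Q v) : Pr z (fun x => φ (π x)) Q' where
  xsp := P.xsp
  mul x y := by rw [P.mul, _root_.map_add]
  surj := φ.surjective.comp P.surj
  ker x := by rw [LinearEquiv.map_eq_zero_iff, P.ker]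
  q x := by rw [hφ]; exact P.q x

end Pr
end

/-- existence of the coordinatization. -/
theorem exists_pr {E : Type u} [Group E] [Finite E] {z : E} (h : Xsp (⊤ : Subgroup E) z) (hcen : ∀ x : E, x ∈ center E ↔ x = 1 ∨ x = z) :
    ∃ (W : Type u) (_ : AddCommGroup W) (_ : Module (ZMod 2) W) (_ : Finite W) (π : E → W) (Q : QuadraticForm (ZMod 2) W), Pr z π Q := by
  classical
  have hsq : ∀ x : E, x * x ∈ center E := fun x => (hcen _).mpr (h.sqr x (mem_top x))
  let N := center E
  have hs : ∀ a : E ⧸ N, a * a = 1 := by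
    intro a
    obtain ⟨x, rfl⟩ := QuotientGroup.mk_surjective a
    rw [← QuotientGroup.mk_mul, QuotientGroup.eq_one_iff]; exact hsq x
  have hi : ∀ a : E ⧸ N, a⁻¹ = a := fun a => inv_eq_of_mul_eq_one_left (hs a)
  let _ : CommGroup (E ⧸ N) := { (inferInstance : Group (E ⧸ N)) with
    mul_comm := fun a b => by
      calc a * b = (a * b)⁻¹ := (hi _).symm
        _ = b⁻¹ * a⁻¹ := mul_inv_rev _ _
        _ = b * a := by rw [hi, hi] }
  let V := Additive (E ⧸ N)
  let _ : Module (ZMod 2) V := AddCommGroup.zmodModule (by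
    intro v
    apply Additive.toMul.injective
    show (Additive.toMul v) ^ 2 = 1
    rw [pow_two]; exact hs _)
  let π : E → V := fun x => Additive.ofMul (QuotientGroup.mk x)
  have hmul : ∀ x y, π (x * y) = π x + π y := fun x y => rfl
  have hsurj : Function.Surjective π := by
    intro v
    obtain ⟨x, hx⟩ := QuotientGroup.mk_surjective (Additive.toMul v)
    exact ⟨x, by show Additive.ofMul (QuotientGroup.mk x) = v; rw [hx]; rfl⟩
  have hker : ∀ x, π x = 0 ↔ x = 1 ∨ x = z := by
    intro x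
    rw [← hcen]
    exact (QuotientGroup.eq_one_iff (N := N) x)
  have heq : ∀ x y, π x = π y → ∃ a, y = zz z a * x := by
    intro x y hxy
    have h1 : π (y * x⁻¹) = 0 := by
      have h2 : π (x * x⁻¹) = 0 := by rw [mul_inv_cancel]; exact (hker 1).mpr (Or.inl rfl)
      rw [hmul] at h2 ⊢
      rw [← hxy, h2]
    rcases (hker _).mp h1 with h2 | h2
    · exact ⟨0, by rw [zz0, one_mul]; exact (mul_inv_eq_one.mp h2)⟩
    · exact ⟨1, by rw [zz1, ← h2]; group⟩
  -- the functions
  choose q hq using exists_sq h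
  choose c hc using exists_c h
  let s := Function.surjInv hsurj
  have hs' : ∀ v, π (s v) = v := Function.surjInv_eq hsurj
  have hqz : ∀ a x, q (zz z a * x) = q x := by
    intro a x
    apply zz_inj h
    rw [← hq, ← hq]
    have h2 : zz z a * zz z a = 1 := by
      rw [← zz_add h]
      have : a + a = 0 := CharTwo.add_self_eq_zero a
      rw [this, zz0]
    calc zz z a * x * (zz z a * x) = zz z a * (x * zz z a) * x := by group
      _ = zz z a * (zz z a * x) * x := by rw [zz_comm h a x]
      _ = (zz z a * zz z a) * (x * x) := by group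
      _ = x * x := by rw [h2, one_mul]
  have hcr : ∀ x y w, c x (y * w) = c x y + c x w := by
    intro x y w
    apply zz_cancel h (x := (y * w) * x)
    rw [← hc, zz_add h]
    calc x * (y * w) = (x * y) * w := by group
      _ = zz z (c x y) * (y * x) * w := by rw [hc x y]
      _ = zz z (c x y) * y * (x * w) := by group
      _ = zz z (c x y) * y * (zz z (c x w) * (w * x)) := by rw [hc x w]
      _ = zz z (c x y) * (y * zz z (c x w)) * (w * x) := by group
      _ = zz z (c x y) * (zz z (c x w) * y) * (w * x) := by rw [zz_comm h (c x w) y]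
      _ = _ := by group
  have hcs : ∀ x y, c x y = c y x := by
    intro x y
    have h1 := hc x y
    rw [hc y x, ← mul_assoc, ← zz_add h] at h1
    have h2 : zz z 0 * (x * y) = zz z (c x y + c y x) * (x * y) := by rw [zz0, one_mul]; exact h1
    have h3 := zz_cancel h h2
    rcases z2 (c x y) with h4 | h4 <;> rcases z2 (c y x) with h5 | h5 <;> rw [h4, h5] at h3 ⊢
    · exact absurd h3 (by decide)
    · exact absurd h3 (by decide)
  have hcl : ∀ x y w, c (x * y) w = c x w + c y w := by
    intro x y w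
    rw [hcs, hcr, hcs w x, hcs w y]
  have hcz : ∀ x a, c x (zz z a) = 0 := by
    intro x a
    apply zz_cancel h (x := zz z a * x)
    rw [← hc, zz0, one_mul, zz_comm h]
  have hczr : ∀ x a y, c x (zz z a * y) = c x y := by
    intro x a y; rw [hcr, hcz, zero_add]
  have hczl : ∀ x a y, c (zz z a * x) y = c x y := by
    intro x a y; rw [hcs, hczr, hcs]
  have hqm : ∀ x y, q (x * y) = q x + q y + c x y := by
    intro x y
    apply zz_inj h
    rw [← hq, zz_add h, zz_add h, ← hq, ← hq]
    calc (x * y) * (x * y) = zz z (c x y) * (y * x) * (x * y) := by rw [← hc x y]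
      _ = zz z (c x y) * (y * (x * x)) * y := by group
      _ = zz z (c x y) * ((x * x) * y) * y := by rw [hq x, zz_comm h (q x) y]
      _ = zz z (c x y) * ((x * x) * (y * y)) := by group
      _ = x * x * (y * y) * zz z (c x y) := by rw [zz_comm h (c x y) (x * x * (y * y))]
  have hq1 : q 1 = 0 := by
    apply zz_inj h; rw [← hq, zz0, one_mul]
  let Qf : V → ZMod 2 := fun v => q (s v)
  let Bf : V → V → ZMod 2 := fun v w => c (s v) (s w)
  have hQf : ∀ x, Qf (π x) = q x := by
    intro x
    obtain ⟨a, ha⟩ := heq x (s (π x)) (hs' (π x)).symm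
    show q (s (π x)) = q x
    rw [ha, hqz]
  have hBf : ∀ x y, Bf (π x) (π y) = c x y := by
    intro x y
    obtain ⟨a, ha⟩ := heq x (s (π x)) (hs' (π x)).symm
    obtain ⟨b, hb⟩ := heq y (s (π y)) (hs' (π y)).symm
    show c (s (π x)) (s (π y)) = c x y
    rw [ha, hb, hczl, hczr]
  have hBl : ∀ u v w, Bf (u + v) w = Bf u w + Bf v w := by
    intro u v w
    obtain ⟨x, rfl⟩ := hsurj u; obtain ⟨y, rfl⟩ := hsurj v; obtain ⟨t, rfl⟩ := hsurj w
    rw [← hmul, hBf, hBf, hBf, hcl]
  have hBr : ∀ u v w, Bf u (v + w) = Bf u v + Bf u w := by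
    intro u v w
    obtain ⟨x, rfl⟩ := hsurj u; obtain ⟨y, rfl⟩ := hsurj v; obtain ⟨t, rfl⟩ := hsurj w
    rw [← hmul, hBf, hBf, hBf, hcr]
  have hB0l : ∀ w, Bf 0 w = 0 := fun w => by have := hBl 0 0 w; rw [add_zero] at this; exact (left_eq_add.mp this)
  have hB0r : ∀ w, Bf w 0 = 0 := fun w => by have := hBr w 0 0; rw [add_zero] at this; exact (left_eq_add.mp this)
  let B : V →ₗ[ZMod 2] V →ₗ[ZMod 2] ZMod 2 := LinearMap.mk₂ (ZMod 2) Bf hBl
    (by
      intro r u w
      rcases z2 r with rfl | rfl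
      · rw [zero_smul, zero_smul, hB0l]
      · rw [one_smul, one_smul])
    hBr
    (by
      intro r u w
      rcases z2 r with rfl | rfl
      · rw [zero_smul, zero_smul, hB0r]
      · rw [one_smul, one_smul])
  let Q : QuadraticForm (ZMod 2) V :=
    { toFun := Qf
      toFun_smul := by
        intro a v
        rcases z2 a with rfl | rfl
        · rw [zero_smul, mul_zero, zero_smul]
          have : (0 : V) = π 1 := rfl
          rw [this, hQf, hq1]
        · rw [one_smul, mul_one, one_smul]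
      exists_companion' := ⟨B, by
        intro u w
        obtain ⟨x, rfl⟩ := hsurj u; obtain ⟨y, rfl⟩ := hsurj w
        show Qf (π x + π y) = Qf (π x) + Qf (π y) + Bf (π x) (π y)
        rw [← hmul, hQf, hQf, hQf, hBf, hqm]⟩ }
  refine ⟨V, inferInstance, inferInstance, inferInstanceAs (Finite (E ⧸ N)), π, Q, h, hmul, hsurj, hker, ?_⟩
  intro x
  show x * x = zz z (Qf (π x))
  rw [hQf, ← hq]

end Cfsg.Agent.H28.OutX
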