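import Mathlib
import Cfsg.Agent.H28_OutX

/-! The outer automorphism group of an extraspecial 2-group, part 2. -/

set_option autoImplicit false
set_option linter.all false

namespace Cfsg.Agent.H28.OutX

universe u v
open Subgroup Cfsg Cfsg.Agent.H28.Xsp Cfsg.Agent.H16.Quad QuadraticMap

/-- characters separating an element from a subgroup with elementary abelian quotient. -/
theorem exists_char {A : Type u} [Group A] (D : Subgroup A) [D.Normal] (h : ∀ x, x * x ∈ D) {c : A} (hc : c ∉ D) :
    ∃ χ : A → ZMod 2, (∀ x y, χ (x * y) = χ x + χ y) ∧ (∀ d ∈ D, χ d = 0) ∧ χ c = 1 := by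
  have hs : ∀ a : A ⧸ D, a * a = 1 := by
    intro a
    obtain ⟨x, rfl⟩ := QuotientGroup.mk_surjective a
    rw [← QuotientGroup.mk_mul, QuotientGroup.eq_one_iff]; exact h x
  have hi : ∀ a : A ⧸ D, a⁻¹ = a := fun a => inv_eq_of_mul_eq_one_left (hs a)
  let _ : CommGroup (A ⧸ D) := { (inferInstance : Group (A ⧸ D)) with
    mul_comm := fun a b => by
      calc a * b = (a * b)⁻¹ := (hi _).symm
        _ = b⁻¹ * a⁻¹ := mul_inv_rev _ _
        _ = b * a := by rw [hi, hi] }
  let V := Additive (A ⧸ D)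
  let _ : Module (ZMod 2) V := AddCommGroup.zmodModule (by
    intro v
    apply Additive.toMul.injective
    show (Additive.toMul v) ^ 2 = 1
    rw [pow_two]; exact hs _)
  let v : V := Additive.ofMul (QuotientGroup.mk c)
  have hv : v ≠ 0 := by
    intro h0
    apply hc
    rw [← QuotientGroup.eq_one_iff]
    exact Additive.ofMul.injective h0
  have h1 : ¬ ∀ f : Module.Dual (ZMod 2) V, f v = 0 := by
    intro h0
    exact hv ((Module.forall_dual_apply_eq_zero_iff (ZMod 2) v).mp h0)
  push Not at h1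
  obtain ⟨f, hf⟩ := h1
  refine ⟨fun x => f (Additive.ofMul (QuotientGroup.mk x)), ?_, ?_, ?_⟩
  · intro x y
    show f (Additive.ofMul (QuotientGroup.mk (x * y))) = _
    rw [QuotientGroup.mk_mul, ofMul_mul, _root_.map_add]
  · intro d hd
    show f (Additive.ofMul (QuotientGroup.mk d)) = 0
    rw [(QuotientGroup.eq_one_iff d).mpr hd, ofMul_one, map_zero]
  · rcases z2 (f v) with h2 | h2
    · exact absurd h2 hf
    · exact h2

variable {E : Type u} [Group E] [Finite E] {z : E} {W : Type v} [AddCommGroup W] [Module (ZMod 2) W] {π : E → W} {Q : QuadraticForm (ZMod 2) W}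

namespace Pr

theorem aut_z (P : Pr z π Q) (α : MulAut E) : α z = z := by
  have h1 : α z = 1 ∨ α z = z := by
    apply P.xsp.cen _ (mem_top _)
    intro y _
    have h2 := P.xsp.zc (α.symm y) (mem_top _)
    have h3 := congrArg α h2
    rw [map_mul, map_mul, MulEquiv.apply_symm_apply] at h3
    exact h3
  rcases h1 with h1 | h1
  · exfalso
    apply P.xsp.ne
    exact α.injective (h1.trans (map_one α).symm)
  · exact h1

theorem aut_zz (P : Pr z π Q) (α : MulAut E) (a : ZMod 2) : α (zz z a) = zz z a := by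
  rcases z2 a with rfl | rfl
  · rw [zz0, map_one]
  · rw [zz1, P.aut_z]

/-- a section -/
noncomputable def s (P : Pr z π Q) : W → E := Function.surjInv P.surj

theorem π_s (P : Pr z π Q) (w : W) : π (P.s w) = w := Function.surjInv_eq P.surj w

theorem π_aut (P : Pr z π Q) (α : MulAut E) {x y : E} (h : π x = π y) : π (α x) = π (α y) := by
  obtain ⟨a, rfl⟩ := P.eq_iff.mp h
  rw [map_mul, P.aut_zz]
  exact P.eq_iff.mpr ⟨a, rfl⟩

/-- the induced linear map -/
noncomputable def θ (P : Pr z π Q) (α : MulAut E) : W ≃ₗ[ZMod 2] W where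
  toFun w := π (α (P.s w))
  map_add' v w := by
    rw [← P.mul, ← map_mul]
    apply P.π_aut
    rw [P.π_s, P.mul, P.π_s, P.π_s]
  map_smul' r v := by
    rcases z2 r with rfl | rfl
    · simp only [zero_smul, RingHom.id_apply]
      have h0 : π (P.s 0) = π 1 := by rw [P.π_s, P.one]
      rw [P.π_aut α h0, map_one, P.one]
    · simp only [one_smul, RingHom.id_apply]
  invFun w := π (α.symm (P.s w))
  left_inv w := by
    show π (α.symm (P.s (π (α (P.s w))))) = w
    have h1 : π (P.s (π (α (P.s w)))) = π (α (P.s w)) := P.π_s _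
    have h2 := P.π_aut (α⁻¹) h1
    have h3 : π (α.symm (P.s (π (α (P.s w))))) = π (α.symm (α (P.s w))) := h2
    rw [h3, MulEquiv.symm_apply_apply, P.π_s]
  right_inv w := by
    show π (α (P.s (π (α.symm (P.s w))))) = w
    have h1 : π (P.s (π (α.symm (P.s w)))) = π (α.symm (P.s w)) := P.π_s _
    rw [P.π_aut α h1, MulEquiv.apply_symm_apply, P.π_s]

theorem θ_π (P : Pr z π Q) (α : MulAut E) (x : E) : P.θ α (π x) = π (α x) := P.π_aut α (P.π_s (π x))

theorem θ_mem (P : Pr z π Q) (α : MulAut E) : P.θ α ∈ OG Q := by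
  rw [mem_OG]
  intro w
  obtain ⟨x, rfl⟩ := P.surj w
  rw [P.θ_π]
  apply zz_inj P.xsp
  rw [← P.q, ← P.q, ← map_mul, P.q, P.aut_zz]

noncomputable def Θ (P : Pr z π Q) : MulAut E →* OG Q :=
  MonoidHom.mk' (fun α => ⟨P.θ α, P.θ_mem α⟩) (by
    intro α β
    apply Subtype.ext
    apply LinearEquiv.ext
    intro w
    obtain ⟨x, rfl⟩ := P.surj w
    show P.θ (α * β) (π x) = P.θ α (P.θ β (π x))
    rw [P.θ_π, P.θ_π, P.θ_π]
    rfl)

theorem Θ_apply (P : Pr z π Q) (α : MulAut E) (x : E) : (P.Θ α).1 (π x) = π (α x) := P.θ_π α x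

theorem Θ_ker [Finite W] (P : Pr z π Q) : P.Θ.ker = Inn E := by
  ext α
  constructor
  · intro h
    rw [MonoidHom.mem_ker] at h
    have h1 : ∀ x, π (α x) = π x := by
      intro x
      rw [← P.Θ_apply, h]; rfl
    have hex : ∀ x, ∃ a, α x = zz z a * x := fun x => P.eq_iff.mp (h1 x).symm
    choose l hl using hex
    have hlm : ∀ x y, l (x * y) = l x + l y := by
      intro x y
      apply zz_cancel P.xsp (x := x * y)
      rw [← hl, map_mul, hl x, hl y, zz_add P.xsp]
      calc zz z (l x) * x * (zz z (l y) * y) = zz z (l x) * (x * zz z (l y)) * y := by group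
        _ = zz z (l x) * (zz z (l y) * x) * y := by rw [zz_comm P.xsp (l y) x]
        _ = _ := by group
    have hlz : ∀ a, l (zz z a) = 0 := by
      intro a
      apply zz_cancel P.xsp (x := zz z a)
      rw [← hl, P.aut_zz, zz0, one_mul]
    have hls : ∀ x y, π x = π y → l x = l y := by
      intro x y hxy
      obtain ⟨a, rfl⟩ := P.eq_iff.mp hxy
      rw [hlm, hlz, zero_add]
    let L : W →ₗ[ZMod 2] ZMod 2 :=
      { toFun := fun w => l (P.s w)
        map_add' := fun v w => by
          rw [← hlm]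
          apply hls
          rw [P.π_s, P.mul, P.π_s, P.π_s]
        map_smul' := fun r v => by
          rcases z2 r with rfl | rfl
          · simp only [zero_smul, RingHom.id_apply]
            have : l (P.s 0) = l 1 := hls _ _ (by rw [P.π_s, P.one])
            rw [this, ← zz0 (z := z), hlz]
          · simp only [one_smul, RingHom.id_apply] }
    obtain ⟨w, hw⟩ := nd_exists_functional P.nd L
    obtain ⟨y, rfl⟩ := P.surj w
    refine ⟨y, ?_⟩
    apply MulEquiv.ext
    intro x
    rw [MulAut.conj_apply, hl x]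
    have h2 : polar Q (π y) (π x) = l x := by
      rw [hw]; exact hls _ _ (P.π_s _)
    calc y * x * y⁻¹ = zz z (polar Q (π y) (π x)) * (x * y) * y⁻¹ := by rw [← P.c]
      _ = zz z (l x) * x := by rw [h2]; group
  · rintro ⟨y, rfl⟩
    rw [MonoidHom.mem_ker]
    apply Subtype.ext
    apply LinearEquiv.ext
    intro w
    obtain ⟨x, rfl⟩ := P.surj w
    rw [P.Θ_apply, MulAut.conj_apply]
    show π (y * x * y⁻¹) = π x
    rw [P.mul, P.mul, P.inv, add_comm (π y), add_assoc, ZModModule.add_self, add_zero]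

theorem Θ_surj (P : Pr z π Q) : Function.Surjective P.Θ := by
  rintro ⟨φ, hφ⟩
  rw [mem_OG] at hφ
  -- the fibre product
  let F : Subgroup (E × E) :=
    { carrier := {p | φ (π p.1) = π p.2}
      one_mem' := by show φ (π 1) = π 1; rw [P.one, map_zero]
      mul_mem' := by
        intro p q hp hq
        show φ (π (p.1 * q.1)) = π (p.2 * q.2)
        rw [P.mul, P.mul, _root_.map_add, show φ (π p.1) = π p.2 from hp, show φ (π q.1) = π q.2 from hq]
      inv_mem' := by
        intro p hp
        show φ (π p.1⁻¹) = π p.2⁻¹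
        rw [P.inv, P.inv]; exact hp }
  have hF : ∀ x y, (x, y) ∈ F ↔ φ (π x) = π y := fun x y => Iff.rfl
  have hzzmem : ∀ a b, (zz z a, zz z b) ∈ F := by
    intro a b
    rw [hF]
    have h1 : ∀ a, π (zz z a) = 0 := by
      intro a
      rw [P.ker]
      rcases z2 a with rfl | rfl
      · left; rw [zz0]
      · right; rw [zz1]
    rw [h1, h1, map_zero]
  let D : Subgroup F :=
    { carrier := {p | ∃ a, (p : E × E) = (zz z a, zz z a)}
      one_mem' := ⟨0, by rw [zz0]; rfl⟩
      mul_mem' := by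
        rintro p q ⟨a, ha⟩ ⟨b, hb⟩
        refine ⟨a + b, ?_⟩
        show (p : E × E) * (q : E × E) = _
        rw [ha, hb, zz_add P.xsp]; rfl
      inv_mem' := by
        rintro p ⟨a, ha⟩
        refine ⟨a, ?_⟩
        show (p : E × E)⁻¹ = _
        have h1 : (zz z a)⁻¹ = zz z a := by
          apply inv_eq_of_mul_eq_one_left
          rw [← zz_add P.xsp, CharTwo.add_self_eq_zero, zz0]
        rw [ha]
        exact Prod.ext h1 h1 }
  have hDn : D.Normal := by
    refine ⟨fun p hp g => ?_⟩
    obtain ⟨a, ha⟩ := hp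
    refine ⟨a, ?_⟩
    show (g : E × E) * (p : E × E) * (g : E × E)⁻¹ = _
    rw [ha]
    apply Prod.ext
    · show (g : E × E).1 * zz z a * (g : E × E).1⁻¹ = zz z a
      rw [← zz_comm P.xsp, mul_inv_cancel_right]
    · show (g : E × E).2 * zz z a * (g : E × E).2⁻¹ = zz z a
      rw [← zz_comm P.xsp, mul_inv_cancel_right]
  have hDsq : ∀ p : F, p * p ∈ D := by
    rintro ⟨⟨x, y⟩, hp⟩
    refine ⟨Q (π x), ?_⟩
    show (x * x, y * y) = _
    rw [P.q x, P.q y, ← (hF x y).mp hp, hφ]
  let c : F := ⟨(1, z), by have := hzzmem 0 1; rwa [zz0, zz1] at this⟩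
  have hcD : c ∉ D := by
    rintro ⟨a, ha⟩
    have h1 : (1 : E) = zz z a := congrArg Prod.fst ha
    have h2 : z = zz z a := congrArg Prod.snd ha
    exact P.xsp.ne (h2.trans h1.symm)
  obtain ⟨χ, hχm, hχD, hχc⟩ := exists_char D hDsq hcD
  -- unique lift
  have hex : ∀ x : E, ∃ y : E, ∃ h : (x, y) ∈ F, χ ⟨(x, y), h⟩ = 0 := by
    intro x
    obtain ⟨y, hy⟩ := P.surj (φ (π x))
    have hy' : (x, y) ∈ F := (hF x y).mpr hy.symm
    rcases z2 (χ ⟨(x, y), hy'⟩) with h1 | h1
    · exact ⟨y, hy', h1⟩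
    · refine ⟨y * z, ?_, ?_⟩
      · rw [hF, P.mul, P.zer, add_zero]; exact hy.symm
      · have h2 : (⟨(x, y * z), by rw [hF, P.mul, P.zer, add_zero]; exact hy.symm⟩ : F) = ⟨(x, y), hy'⟩ * c := by
          apply Subtype.ext
          show (x, y * z) = (x, y) * (1, z)
          exact Prod.ext (mul_one x).symm rfl
        rw [h2, hχm, h1, hχc]; decide
  choose f hfF hfχ using hex
  have huniq : ∀ x y (h : (x, y) ∈ F), χ ⟨(x, y), h⟩ = 0 → y = f x := by
    intro x y h h0
    have h1 : π y = π (f x) := by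
      rw [← (hF x y).mp h, ← (hF x (f x)).mp (hfF x)]
    obtain ⟨a, ha⟩ := P.eq_iff.mp h1
    rcases z2 a with rfl | rfl
    · rw [zz0, one_mul] at ha; exact ha.symm
    · exfalso
      rw [zz1, P.xsp.zc y (mem_top y)] at ha
      have h2 : (⟨(x, f x), hfF x⟩ : F) = ⟨(x, y), h⟩ * c := by
        apply Subtype.ext
        show (x, f x) = (x, y) * (1, z)
        exact Prod.ext (mul_one x).symm ha
      have h3 := hfχ x
      rw [h2, hχm, h0, hχc, zero_add] at h3
      exact absurd h3 (by decide)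
  have hfm : ∀ x y, f (x * y) = f x * f y := by
    intro x y
    symm
    apply huniq (x * y) (f x * f y) (F.mul_mem (hfF x) (hfF y))
    have h2 : (⟨(x * y, f x * f y), F.mul_mem (hfF x) (hfF y)⟩ : F) = ⟨(x, f x), hfF x⟩ * ⟨(y, f y), hfF y⟩ := rfl
    rw [h2, hχm, hfχ, hfχ, add_zero]
  have hfz : f z = z := by
    symm
    apply huniq z z (by have := hzzmem 1 1; rwa [zz1] at this)
    exact hχD _ ⟨1, Prod.ext zz1.symm zz1.symm⟩
  let α0 : E →* E := MonoidHom.mk' f hfm
  have hinj : Function.Injective α0 := by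
    rw [injective_iff_map_eq_one]
    intro x hx
    have hx' : f x = 1 := hx
    have h1 := (hF x (f x)).mp (hfF x)
    rw [hx', P.one] at h1
    have h2 : π x = 0 := by
      apply φ.injective; rw [h1, map_zero]
    rcases (P.ker x).mp h2 with h3 | h3
    · exact h3
    · exfalso
      rw [h3, hfz] at hx'
      exact P.xsp.ne hx'
  let α : MulAut E := MulEquiv.ofBijective α0 (Finite.injective_iff_bijective.mp hinj)
  refine ⟨α, ?_⟩
  apply Subtype.ext
  apply LinearEquiv.ext
  intro w
  obtain ⟨x, rfl⟩ := P.surj w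
  rw [P.Θ_apply]
  exact ((hF x (f x)).mp (hfF x)).symm

theorem out [Finite W] (P : Pr z π Q) : Nonempty (Out E ≃* OG Q) := by
  have e1 := QuotientGroup.quotientKerEquivOfSurjective P.Θ P.Θ_surj
  have h := P.Θ_ker
  exact ⟨(QuotientGroup.quotientMulEquivOfEq h.symm).trans e1⟩

end Pr

end Cfsg.Agent.H28.OutX
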