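import Mathlib
import Cfsg.Agent.H28_OutX2
import Cfsg.Agent.H16_Std

/-! The outer automorphism group of an extraspecial 2-group, part 3. -/

set_option autoImplicit false
set_option linter.all false

namespace Cfsg.Agent.H28.OutX

universe u v
open Subgroup Cfsg Cfsg.Agent.H28.Xsp Cfsg.Agent.H16.Quad QuadraticMap Module

variable {E : Type u} [Group E] [Finite E] {z : E} {W : Type v} [AddCommGroup W] [Module (ZMod 2) W] {π : E → W} {Q : QuadraticForm (ZMod 2) W}

namespace Pr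

theorem coord_bij (P : Pr z π Q) : Function.Bijective (fun p : W × ZMod 2 => zz z p.2 * P.s p.1) := by
  constructor
  · rintro ⟨v, a⟩ ⟨w, b⟩ h
    have h' : zz z a * P.s v = zz z b * P.s w := h
    have h1 : π (P.s v) = π (P.s w) := by
      have e1 : π (zz z a * P.s v) = π (P.s v) := (P.eq_iff.mpr ⟨a, rfl⟩).symm
      have e2 : π (zz z b * P.s w) = π (P.s w) := (P.eq_iff.mpr ⟨b, rfl⟩).symm
      rw [← e1, ← e2, h']
    rw [P.π_s, P.π_s] at h1
    subst h1
    rw [zz_cancel P.xsp h']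
  · intro x
    obtain ⟨a, ha⟩ := P.eq_iff.mp (P.π_s (π x))
    exact ⟨(π x, a), ha.symm⟩

theorem card_W (P : Pr z π Q) : Nat.card E = 2 * Nat.card W := by
  rw [← Nat.card_congr (Equiv.ofBijective _ P.coord_bij), Nat.card_prod, Nat.card_zmod, mul_comm]

/-- preimage of a subspace. -/
def pre (P : Pr z π Q) (U : Submodule (ZMod 2) W) : Subgroup E where
  carrier := {x | π x ∈ U}
  one_mem' := by show π 1 ∈ U; rw [P.one]; exact U.zero_mem
  mul_mem' := by
    intro x y hx hy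
    show π (x * y) ∈ U
    rw [P.mul]; exact U.add_mem hx hy
  inv_mem' := by
    intro x hx
    show π x⁻¹ ∈ U
    rw [P.inv]; exact hx

theorem card_pre (P : Pr z π Q) (U : Submodule (ZMod 2) W) : Nat.card (P.pre U) = 2 * Nat.card U := by
  have h1 : Nat.card (P.pre U) = Nat.card (U × ZMod 2) := by
    symm
    apply Nat.card_congr
    refine Equiv.ofBijective (fun p => (⟨zz z p.2 * P.s p.1, ?_⟩ : P.pre U)) ⟨?_, ?_⟩
    · show π (zz z p.2 * P.s p.1) ∈ U
      have e1 : π (zz z p.2 * P.s p.1) = π (P.s p.1) := (P.eq_iff.mpr ⟨p.2, rfl⟩).symm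
      rw [e1, P.π_s]; exact p.1.2
    · rintro ⟨v, a⟩ ⟨w, b⟩ h
      have h2 := P.coord_bij.1 (a₁ := ((v : W), a)) (a₂ := ((w : W), b)) (congrArg Subtype.val h)
      have h3 : a = b := congrArg Prod.snd h2
      exact Prod.ext (Subtype.ext (congrArg Prod.fst h2)) h3
    · rintro ⟨x, hx⟩
      obtain ⟨⟨w, a⟩, h2⟩ := P.coord_bij.2 x
      have h2' : zz z a * P.s w = x := h2
      have e1 : π (zz z a * P.s w) = π (P.s w) := (P.eq_iff.mpr ⟨a, rfl⟩).symm
      have hw : w ∈ U := by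
        have : π x ∈ U := hx
        rwa [← h2', e1, P.π_s] at this
      exact ⟨(⟨w, hw⟩, a), Subtype.ext h2'⟩
  rw [h1, Nat.card_prod, Nat.card_zmod, mul_comm]

theorem ea_pre (P : Pr z π Q) {U : Submodule (ZMod 2) W} (hU : ∀ u ∈ U, Q u = 0) [FiniteDimensional (ZMod 2) W] :
    Cfsg.IsElementaryAbelian 2 (P.pre U) := by
  refine ⟨⟨⟨?_⟩⟩, ?_⟩
  · rintro ⟨x, hx⟩ ⟨y, hy⟩
    apply Subtype.ext
    show x * y = y * x
    have h1 := P.c x y
    rw [ts_polar hU hx hy, zz0, one_mul] at h1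
    exact h1
  · intro x hx
    rw [pow_two, P.q, hU _ hx, zz0]

/-- image of an elementary abelian subgroup. -/
def img (P : Pr z π Q) (A : Subgroup E) : Submodule (ZMod 2) W where
  carrier := {w | ∃ x ∈ A, π x = w}
  zero_mem' := ⟨1, one_mem A, P.one⟩
  add_mem' := by
    rintro _ _ ⟨x, hx, rfl⟩ ⟨y, hy, rfl⟩
    exact ⟨x * y, A.mul_mem hx hy, P.mul x y⟩
  smul_mem' := by
    rintro r _ ⟨x, hx, rfl⟩
    rcases z2 r with rfl | rfl
    · rw [zero_smul]; exact ⟨1, one_mem A, P.one⟩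
    · rw [one_smul]; exact ⟨x, hx, rfl⟩

theorem le_pre_img (P : Pr z π Q) (A : Subgroup E) : A ≤ P.pre (P.img A) := fun x hx => ⟨x, hx, rfl⟩

end Pr

theorem final {E : Type u} [Group E] [Finite E] (hE : Cfsg.IsExtraspecial 2 E) (n : ℕ) (hn : 1 ≤ n)
    (hcard : Nat.card E = 2 ^ (2 * n + 1)) :
    ((∃ A : Subgroup E, Cfsg.IsElementaryAbelian 2 A ∧ Nat.card ↥A = 2 ^ (n + 1)) →
      Nonempty (Cfsg.Out E ≃* Cfsg.isometryGroup (ZMod 2) (Cfsg.quadFormPlus n (ZMod 2)))) ∧
    ((¬ ∃ A : Subgroup E, Cfsg.IsElementaryAbelian 2 A ∧ Nat.card ↥A = 2 ^ (n + 1)) →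
      Nonempty (Cfsg.Out E ≃* Cfsg.isometryGroup (ZMod 2) (Cfsg.quadFormMinus (n - 1) (ZMod 2) 1 1))) := by
  obtain ⟨z, h⟩ := Xsp.top_of_isExtraspecial hE
  have hcen : ∀ x : E, x ∈ center E ↔ x = 1 ∨ x = z := by
    intro x
    constructor
    · intro hx
      apply h.cen x (mem_top x)
      intro y _
      exact (mem_center_iff.mp hx y).symm
    · rintro (rfl | rfl)
      · exact one_mem _
      · rw [mem_center_iff]
        intro y
        exact (h.zc y (mem_top y)).symm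
  obtain ⟨W, i1, i2, i3, π, Q, P⟩ := exists_pr h hcen
  have hfd : Module.Finite (ZMod 2) W := Module.Finite.of_finite
  have hW : Nat.card W = 2 ^ (2 * n) := by
    have := P.card_W
    rw [hcard, pow_succ, mul_comm] at this
    exact (Nat.eq_of_mul_eq_mul_left (by norm_num) this).symm
  have hrank : finrank (ZMod 2) W = 2 * n := by
    have h1 := Module.natCard_eq_pow_finrank (K := ZMod 2) (V := W)
    rw [hW, Nat.card_zmod] at h1
    exact (Nat.pow_right_injective (le_refl 2) h1).symm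
  have hnd := P.nd
  have key : IsPlus Q n ↔ ∃ A : Subgroup E, Cfsg.IsElementaryAbelian 2 A ∧ Nat.card ↥A = 2 ^ (n + 1) := by
    constructor
    · intro hp
      obtain ⟨U, hU, hU2⟩ := hp.exists_ts
      refine ⟨P.pre U, P.ea_pre hU, ?_⟩
      rw [P.card_pre, Module.natCard_eq_pow_finrank (K := ZMod 2) (V := U), hU2, Nat.card_zmod, pow_succ, mul_comm]
    · rintro ⟨A, hA, hA2⟩
      have hts : ∀ u ∈ P.img A, Q u = 0 := by
        rintro _ ⟨x, hx, rfl⟩
        apply zz_inj P.xsp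
        rw [← P.q, zz0, ← pow_two]
        exact hA.2 x hx
      have h1 : 2 ^ (n + 1) ≤ 2 * Nat.card (P.img A) := by
        rw [← P.card_pre, ← hA2]
        exact Nat.card_le_card_of_injective _ (Subgroup.inclusion_injective (P.le_pre_img A))
      rw [Module.natCard_eq_pow_finrank (K := ZMod 2) (V := P.img A), Nat.card_zmod, ← pow_succ'] at h1
      have h2 := (Nat.pow_le_pow_iff_right (by norm_num : 1 < 2)).mp h1
      have h3 := ts_finrank_le hnd hts
      exact isPlus_of_ts hnd hrank hts (by omega)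
  constructor
  · intro hA
    obtain ⟨φ, hφ⟩ := (key.mpr hA).isom (plusQ_isPlus (F := ZMod 2) n)
    obtain ⟨e1⟩ := (P.comp φ hφ).out
    rw [← coe_plusQ]
    exact ⟨e1.trans (H16.Quad.toOG _).symm⟩
  · intro hA
    have hM : IsMinus Q (n - 1) := by
      rcases plus_or_minus hnd (m := n - 1) (by omega) with h1 | h1
      · exfalso
        apply hA
        rw [← key]
        have : n - 1 + 1 = n := by omega
        rwa [this] at h1
      · exact h1
    have hab : ∀ z₁ z₂ : ZMod 2, z₁ ^ 2 + 1 * z₁ * z₂ + 1 * z₂ ^ 2 = 0 → z₁ = 0 ∧ z₂ = 0 := by decide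
    obtain ⟨φ, hφ⟩ := IsMinus.isom hnd (nd_minusQ (F := ZMod 2) (n - 1) hab) hM (minusQ_isMinus (F := ZMod 2) (n - 1) hab)
    obtain ⟨e1⟩ := (P.comp φ hφ).out
    rw [← coe_minusQ]
    exact ⟨e1.trans (H16.Quad.toOG _).symm⟩

end Cfsg.Agent.H28.OutX
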