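import Cfsg.Agent.H8_CE

/-! Packed matrices: kernel-checked products of matrices over `ZMod p`.
A matrix of size `n` is one natural number, in base `65536`, with the entries `(i, j)` at position `n * i + j`.
The left factor of a product is given by its rows, as lists of pairs (column, entry) coded in base `2048`. -/

set_option autoImplicit false

namespace Cfsg.Agent.H28.PM

open Cfsg.Agent.H8.CE

/-- digit -/
def dig (V j : ℕ) : ℕ := V / 65536 ^ j % 65536

theorem dig_zero (V : ℕ) : dig V 0 = V % 65536 := by simp [dig]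
theorem dig_succ (V j : ℕ) : dig V (j + 1) = dig (V / 65536) j := by
  simp only [dig]
  rw [Nat.div_div_eq_div_mul, pow_succ, Nat.mul_comm]

/-- packing -/
def pk (n : ℕ) (s : ℕ → ℕ) : ℕ := ∑ j ∈ Finset.range n, s j * 65536 ^ j

theorem pk_succ (n : ℕ) (s : ℕ → ℕ) : pk (n + 1) s = s 0 + 65536 * pk n (fun j => s (j + 1)) := by
  rw [pk, Finset.sum_range_succ', pk, Finset.mul_sum]
  rw [add_comm]
  congr 1
  · simp
  · apply Finset.sum_congr rfl
    intro j _
    rw [pow_succ]; ring

theorem dig_pk (n : ℕ) : ∀ (s : ℕ → ℕ), (∀ j, j < n → s j < 65536) → ∀ j, j < n → dig (pk n s) j = s j := by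
  induction n with
  | zero => intro s _ j hj; omega
  | succ n ih =>
    intro s hs j hj
    have h0 := hs 0 (by omega)
    rw [pk_succ]
    cases j with
    | zero => rw [dig_zero]; omega
    | succ j =>
      rw [dig_succ]
      have : (s 0 + 65536 * pk n (fun j => s (j + 1))) / 65536 = pk n (fun j => s (j + 1)) := by omega
      rw [this]
      exact ih _ (fun j hj => hs (j + 1) (by omega)) j (by omega)

theorem pk_dig (n : ℕ) : ∀ V, V < 65536 ^ n → pk n (dig V) = V := by
  induction n with
  | zero =>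
    intro V hV
    have : V = 0 := by rw [pow_zero] at hV; omega
    subst this; rfl
  | succ n ih =>
    intro V hV
    rw [pk_succ, dig_zero]
    have h1 : (fun j => dig V (j + 1)) = dig (V / 65536) := by funext j; exact dig_succ V j
    rw [h1, ih]
    · omega
    · rw [Nat.div_lt_iff_lt_mul (by norm_num)]
      rwa [← pow_succ]

/-- row `k` -/
def row (n β k : ℕ) : ℕ := β / 65536 ^ (n * k) % 65536 ^ n

theorem row_lt (n β k : ℕ) : row n β k < 65536 ^ n := Nat.mod_lt _ (by positivity)

theorem dig_row (n β k : ℕ) {j : ℕ} (hj : j < n) : dig (row n β k) j = dig β (n * k + j) := by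
  unfold dig row
  obtain ⟨m, rfl⟩ : ∃ m, n = j + 1 + m := ⟨n - j - 1, by omega⟩
  have h1 : 65536 ^ (j + 1 + m) = 65536 ^ j * (65536 * 65536 ^ m) := by ring
  rw [h1, Nat.mod_mul_right_div_self, Nat.mod_mul_right_mod, Nat.div_div_eq_div_mul, ← pow_add]

/-- all the rows are small -/
theorem dig_shift (V j : ℕ) : dig V j = (V >>> (16 * j)) % 2 ^ 16 := by
  unfold dig
  rw [Nat.shiftRight_eq_div_pow, pow_mul]
  norm_num

theorem dig_and (V M j : ℕ) : dig (V &&& M) j = dig V j &&& dig M j := by
  rw [dig_shift, dig_shift, dig_shift, Nat.shiftRight_and_distrib, Nat.and_mod_two_pow]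

/-- repetition -/
def rep (n : ℕ) : ℕ := (65536 ^ n - 1) / 65535

theorem rep_eq (n : ℕ) (c : ℕ) : c * rep n = pk n fun _ => c := by
  have : rep n = ∑ j ∈ Finset.range n, 65536 ^ j := (Nat.geomSum_eq (by norm_num : 2 ≤ 65536) n).symm
  rw [this, pk, Finset.mul_sum]

theorem mask {x s t : ℕ} (hx : x < 65536) (hst : s + t = 16) (h : x &&& ((2 ^ t - 1) * 2 ^ s) = 0) : x < 2 ^ s := by
  have h1 : (x &&& ((2 ^ t - 1) * 2 ^ s)) >>> s = (x >>> s) &&& (2 ^ t - 1) := by
    rw [Nat.shiftRight_and_distrib]
    congr 1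
    rw [Nat.shiftRight_eq_div_pow, Nat.mul_div_cancel _ (by positivity)]
  rw [h, Nat.zero_shiftRight, Nat.and_two_pow_sub_one_eq_mod, Nat.shiftRight_eq_div_pow] at h1
  have h2 : x / 2 ^ s < 2 ^ t := by
    rw [Nat.div_lt_iff_lt_mul (by positivity), ← pow_add, add_comm t s, hst]
    exact hx
  rw [Nat.mod_eq_of_lt h2] at h1
  exact (Nat.div_eq_zero_iff_lt (by positivity)).1 h1.symm

theorem mask_dig {V n s t : ℕ} (hst : s + t = 16) (h : V &&& (((2 ^ t - 1) * 2 ^ s) * rep n) = 0) {j : ℕ} (hj : j < n) :
    dig V j < 2 ^ s := by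
  have hc : (2 ^ t - 1) * 2 ^ s < 65536 := by
    have : 2 ^ t * 2 ^ s = 65536 := by rw [← pow_add, add_comm t s, hst]; norm_num
    have h2 : 0 < 2 ^ s := by positivity
    rw [Nat.sub_mul, this]; omega
  have h1 : dig (V &&& (((2 ^ t - 1) * 2 ^ s) * rep n)) j = dig V j &&& ((2 ^ t - 1) * 2 ^ s) := by
    rw [dig_and, rep_eq, dig_pk n _ (fun _ _ => hc) j hj]
  rw [h] at h1
  have h0 : dig 0 j = 0 := by simp [dig]
  rw [h0] at h1
  exact mask (Nat.mod_lt _ (by norm_num)) hst h1.symm

/-- goodness: all entries less than 16 -/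
noncomputable def good (n β : ℕ) : Bool :=
  Nat.beq (Nat.land β (Nat.mul (nat_lit 65520) (Nat.div (Nat.sub (Nat.pow (nat_lit 65536) (Nat.mul n n)) (nat_lit 1)) (nat_lit 65535)))) (nat_lit 0)

theorem good_dig {n β : ℕ} (h : good n β = true) {j : ℕ} (hj : j < n * n) : dig β j < 16 := by
  have h1 : β &&& (((2 ^ 12 - 1) * 2 ^ 4) * rep (n * n)) = 0 := Nat.eq_of_beq_eq_true h
  exact mask_dig (s := 4) (t := 12) rfl h1 hj

theorem good_row {n β : ℕ} (h : good n β = true) {k j : ℕ} (hk : k < n) (hj : j < n) : dig (row n β k) j < 16 := by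
  rw [dig_row n β k hj]
  apply good_dig h
  calc n * k + j < n * k + n := by omega
    _ = n * (k + 1) := by ring
    _ ≤ n * n := Nat.mul_le_mul_left _ hk

/-- decoding of a sparse row -/
def dec : ℕ → ℕ → List (ℕ × ℕ)
  | 0, _ => []
  | m + 1, r => bif Nat.beq r 0 then [] else (r / 16 % 128, r % 16) :: dec m (r / 2048)

/-- linear combination -/
def comb (n β : ℕ) : List (ℕ × ℕ) → ℕ
  | [] => 0
  | (k, a) :: l => a * row n β k + comb n β l

noncomputable def combK (β sh md : ℕ) (m : ℕ) : ℕ → ℕ → (ℕ → Bool) → Bool :=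
  Nat.rec (motive := fun _ => ℕ → ℕ → (ℕ → Bool) → Bool) (fun _ acc k => k acc)
    (fun _ ih r acc k => Bool.rec
      (N (Nat.div r (nat_lit 2048)) fun r' =>
        N (Nat.add acc (Nat.mul (Nat.mod r (nat_lit 16))
          (Nat.mod (Nat.shiftRight β (Nat.mul sh (Nat.mod (Nat.div r (nat_lit 16)) (nat_lit 128)))) md))) fun acc' =>
        ih r' acc' k)
      (k acc) (Nat.beq r (nat_lit 0))) m

theorem combK_eq (n β m : ℕ) : ∀ (r acc : ℕ) (k : ℕ → Bool),
    combK β (16 * n) (65536 ^ n) m r acc k = k (acc + comb n β (dec m r)) := by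
  induction m with
  | zero => intro r acc k; rfl
  | succ m ih =>
    intro r acc k
    have h1 : combK β (16 * n) (65536 ^ n) (m + 1) r acc k = Bool.rec
      (N (Nat.div r (nat_lit 2048)) fun r' =>
        N (Nat.add acc (Nat.mul (Nat.mod r (nat_lit 16))
          (Nat.mod (Nat.shiftRight β (Nat.mul (16 * n) (Nat.mod (Nat.div r (nat_lit 16)) (nat_lit 128)))) (65536 ^ n)))) fun acc' =>
        combK β (16 * n) (65536 ^ n) m r' acc' k)
      (k acc) (Nat.beq r (nat_lit 0)) := rfl
    rw [h1, N_eq, N_eq, ih]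
    cases hb : Nat.beq r (nat_lit 0) with
    | true =>
      have : dec (m + 1) r = [] := by
        show (bif Nat.beq r 0 then [] else _) = _
        rw [show Nat.beq r 0 = true from hb]; rfl
      rw [this]; rfl
    | false =>
      have : dec (m + 1) r = (r / 16 % 128, r % 16) :: dec m (r / 2048) := by
        show (bif Nat.beq r 0 then [] else _) = _
        rw [show Nat.beq r 0 = false from hb]; rfl
      rw [this]
      show k _ = k _
      congr 1
      show acc + (r % 16) * (β >>> ((16 * n) * (r / 16 % 128)) % 65536 ^ n) + comb n β (dec m (r / 2048)) =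
        acc + ((r % 16) * row n β (r / 16 % 128) + comb n β (dec m (r / 2048)))
      have h2 : β >>> ((16 * n) * (r / 16 % 128)) % 65536 ^ n = row n β (r / 16 % 128) := by
        rw [Nat.shiftRight_eq_div_pow, row]
        congr 2
        rw [Nat.mul_assoc, pow_mul]
        norm_num
      rw [h2]; ring

/-- check of a row -/
noncomputable def rowOk (p mk S C : ℕ) : Bool :=
  N (Nat.div (Nat.sub S C) p) fun K => Bool.rec false (Nat.beq (Nat.land K mk) (nat_lit 0)) (Nat.beq (Nat.add (Nat.mul p K) C) S)

/-- check of a product -/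
noncomputable def mulK (p β γ sh md mk : ℕ) (m : ℕ) (A : List ℕ) : ℕ → Bool :=
  List.rec (motive := fun _ => ℕ → Bool) (fun _ => true)
    (fun a _ ih i => Bool.rec false (N (Nat.add i sh) ih)
      (combK β sh md m a (nat_lit 0) fun S => N (Nat.mod (Nat.shiftRight γ i) md) fun C => rowOk p mk S C)) A

noncomputable def mulOk (p n m β : ℕ) (A : List ℕ) (γ : ℕ) : Bool :=
  N (Nat.mul (nat_lit 16) n) fun sh => N (Nat.pow (nat_lit 65536) n) fun md =>
    N (Nat.mul (nat_lit 61440) (Nat.div (Nat.sub md (nat_lit 1)) (nat_lit 65535))) fun mk => mulK p β γ sh md mk m A (nat_lit 0)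

theorem mulK_sound {p n m β γ mk : ℕ} : ∀ {A : List ℕ} {i0 : ℕ}, mulK p β γ (16 * n) (65536 ^ n) mk m A (16 * n * i0) = true →
    ∀ i, i < A.length → rowOk p mk (comb n β (dec m (A.getD i 0))) (row n γ (i0 + i)) = true := by
  intro A
  induction A with
  | nil => intro i0 _ i hi; simp at hi
  | cons a A ih =>
    intro i0 h i hi
    have h1 : mulK p β γ (16 * n) (65536 ^ n) mk m (a :: A) (16 * n * i0) =
      Bool.rec false (N (Nat.add (16 * n * i0) (16 * n)) (mulK p β γ (16 * n) (65536 ^ n) mk m A))
      (combK β (16 * n) (65536 ^ n) m a (nat_lit 0) fun S => N (Nat.mod (Nat.shiftRight γ (16 * n * i0)) (65536 ^ n)) fun C => rowOk p mk S C) := rfl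
    rw [h1, combK_eq, N_eq, N_eq] at h
    have h2 : Nat.mod (Nat.shiftRight γ (16 * n * i0)) (65536 ^ n) = row n γ i0 := by
      show (γ >>> (16 * n * i0)) % 65536 ^ n = _
      rw [Nat.shiftRight_eq_div_pow, row]
      congr 2
      rw [Nat.mul_assoc, pow_mul]
      norm_num
    rw [h2] at h
    cases hb : rowOk p mk (nat_lit 0 + comb n β (dec m a)) (row n γ i0) with
    | false => rw [hb] at h; exact absurd h (by simp)
    | true =>
      rw [hb] at h
      cases i with
      | zero => simpa using hb
      | succ i =>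
        have h3 : Nat.add (16 * n * i0) (16 * n) = 16 * n * (i0 + 1) := by
          show 16 * n * i0 + 16 * n = _
          ring
        rw [h3] at h
        have := ih h i (by simpa using hi)
        rw [show i0 + (i + 1) = i0 + 1 + i by ring]
        simpa using this

/-- sums of the decoded entries -/
theorem dec_len (m r : ℕ) : (dec m r).length ≤ m := by
  induction m generalizing r with
  | zero => simp [dec]
  | succ m ih =>
    rw [dec]
    cases Nat.beq r 0 with
    | true => simp
    | false => simpa using ih _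

theorem dec_lt {m r : ℕ} : ∀ q ∈ dec m r, q.2 < 16 := by
  induction m generalizing r with
  | zero => simp [dec]
  | succ m ih =>
    intro q hq
    rw [dec] at hq
    cases hb : Nat.beq r 0 with
    | true => rw [hb] at hq; simp at hq
    | false =>
      rw [hb] at hq
      simp only [cond_false, List.mem_cons] at hq
      rcases hq with rfl | hq
      · exact Nat.mod_lt _ (by norm_num)
      · exact ih q hq

theorem comb_dig {n β : ℕ} (hβ : good n β = true) : ∀ (l : List (ℕ × ℕ)), (∀ q ∈ l, q.2 < 16) → (∀ q ∈ l, q.1 < n) →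
    l.length ≤ 128 → ∃ s : ℕ → ℕ, comb n β l = pk n s ∧ (∀ j, j < n → s j ≤ 225 * l.length) ∧
      ∀ j, j < n → s j = (l.map fun q => q.2 * dig (row n β q.1) j).sum := by
  intro l
  induction l with
  | nil =>
    intro _ _ _
    refine ⟨fun _ => 0, ?_, ?_, ?_⟩
    · simp [comb, pk]
    · intro j _; simp
    · intro j _; simp
  | cons q l ih =>
    intro h1 h2 h3
    obtain ⟨s, hs1, hs2, hs3⟩ := ih (fun q hq => h1 q (by simp [hq])) (fun q hq => h2 q (by simp [hq]))
      (by simp at h3; omega)
    refine ⟨fun j => q.2 * dig (row n β q.1) j + s j, ?_, ?_, ?_⟩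
    · obtain ⟨k, a⟩ := q
      show a * row n β k + comb n β l = _
      rw [hs1, pk, pk]
      conv_lhs => rw [← pk_dig n (row n β k) (row_lt n β k), pk, Finset.mul_sum, ← Finset.sum_add_distrib]
      apply Finset.sum_congr rfl
      intro j _
      ring
    · intro j hj
      have h4 := hs2 j hj
      have h5 : dig (row n β q.1) j ≤ 15 := by
        have := good_row hβ (h2 q (by simp)) hj; omega
      have h6 : q.2 ≤ 15 := by have := h1 q (by simp); omega
      have h7 := Nat.mul_le_mul h6 h5
      simp only [List.length_cons]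
      omega
    · intro j hj
      show q.2 * dig (row n β q.1) j + s j = _
      rw [hs3 j hj]; simp

/-- the matrix of a packed number -/
def toM (p n : ℕ) (β : ℕ) : Matrix (Fin n) (Fin n) (ZMod p) := fun i j => ((dig (row n β i) j : ℕ) : ZMod p)

/-- the matrix of a sparse list -/
def toS (p n m : ℕ) (A : List ℕ) : Matrix (Fin n) (Fin n) (ZMod p) := fun i k =>
  (((dec m (A.getD i 0)).map fun q => if q.1 = (k : ℕ) then q.2 else 0).sum : ℕ)

/-- the columns are in range -/
def colOk (n m : ℕ) (A : List ℕ) : Bool := Nat.beq A.length n && A.all fun a => (dec m a).all fun q => Nat.blt q.1 n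

theorem rowOk_sound {p n S C : ℕ} {s : ℕ → ℕ} (hp : p ≤ 15) (hS : S = pk n s) (hs : ∀ j, j < n → s j < 65536)
    (hC : C < 65536 ^ n) (hC' : ∀ j, j < n → dig C j < 16)
    (h : rowOk p (61440 * ((65536 ^ n - 1) / 65535)) S C = true) : ∀ j, j < n → s j % p = dig C j % p := by
  unfold rowOk at h
  rw [N_eq] at h
  set K := Nat.div (Nat.sub S C) p with hK
  cases hb : Nat.beq (Nat.add (Nat.mul p K) C) S with
  | false => rw [hb] at h; exact absurd h (by simp)
  | true =>
    rw [hb] at h
    have h1 : K &&& (((2 ^ 4 - 1) * 2 ^ 12) * rep n) = 0 := Nat.eq_of_beq_eq_true h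
    have h2 : p * K + C = S := Nat.eq_of_beq_eq_true hb
    intro j hj
    have hKd : ∀ j, j < n → dig K j < 4096 := fun j hj => mask_dig (s := 12) (t := 4) rfl h1 hj
    -- K is less than 65536 ^ n or p = 0
    rcases Nat.eq_zero_or_pos p with rfl | hp0
    · rw [Nat.zero_mul, Nat.zero_add] at h2
      rw [h2, hS, dig_pk n s hs j hj]
    · have hSlt : S < 65536 ^ n := by
        rw [hS, pk]
        clear h2 h hS hK hb h1 hKd
        have : ∀ m ≤ n, ∑ j ∈ Finset.range m, s j * 65536 ^ j < 65536 ^ m := by
          intro m hm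
          induction m with
          | zero => simp
          | succ m ih =>
            rw [Finset.sum_range_succ, pow_succ]
            have h4 := ih (by omega)
            have h5 := hs m (by omega)
            have h6 : s m * 65536 ^ m ≤ 65535 * 65536 ^ m := Nat.mul_le_mul_right _ (by omega)
            omega
        exact this n le_rfl
      have hKlt : K < 65536 ^ n := by
        have : K ≤ p * K := Nat.le_mul_of_pos_left _ hp0
        omega
      have h3 : S = pk n fun j => p * dig K j + dig C j := by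
        rw [← h2]
        conv_lhs => rw [← pk_dig n K hKlt, ← pk_dig n C hC]
        simp only [pk]
        rw [Finset.mul_sum, ← Finset.sum_add_distrib]
        apply Finset.sum_congr rfl
        intro j _
        ring
      have h4 : ∀ j, j < n → p * dig K j + dig C j < 65536 := by
        intro j hj
        have h5 := hKd j hj
        have h6 := hC' j hj
        have h7 : p * dig K j ≤ 15 * 4095 := Nat.mul_le_mul hp (by omega)
        omega
      have h5 := dig_pk n _ h4 j hj
      rw [← h3, hS, dig_pk n s hs j hj] at h5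
      rw [h5, Nat.mul_add_mod]

theorem toM_mul {p n m : ℕ} {A : List ℕ} {β γ : ℕ} (hp : p ≤ 15) (hm : m ≤ 128) (hA : colOk n m A = true) (hβ : good n β = true)
    (hγ : good n γ = true) (h : mulOk p n m β A γ = true) : toS p n m A * toM p n β = toM p n γ := by
  rw [colOk, Bool.and_eq_true, List.all_eq_true] at hA
  have hlen : A.length = n := Nat.eq_of_beq_eq_true hA.1
  unfold mulOk at h
  rw [N_eq, N_eq, N_eq] at h
  ext i j
  have hi : (i : ℕ) < A.length := by rw [hlen]; exact i.2
  have h1 := mulK_sound (n := n) (i0 := 0) (p := p) (m := m) (β := β) (γ := γ) (A := A)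
    (mk := 61440 * ((65536 ^ n - 1) / 65535)) h i hi
  rw [Nat.zero_add] at h1
  have hcol : ∀ q ∈ dec m (A.getD i 0), q.1 < n := by
    have h2 := hA.2 (A.getD i 0) (by rw [List.getD_eq_getElem _ _ hi]; exact List.getElem_mem hi)
    rw [List.all_eq_true] at h2
    intro q hq
    have := h2 q hq
    exact Nat.le_of_ble_eq_true this
  obtain ⟨s, hs1, hs2, hs3⟩ := comb_dig hβ (dec m (A.getD i 0)) dec_lt hcol ((dec_len _ _).trans hm)
  have h3 := rowOk_sound (n := n) (p := p) hp hs1 (fun j hj => by
      have h4 := hs2 j hj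
      have h5 := dec_len m (A.getD i 0)
      have h6 : 225 * (dec m (A.getD i 0)).length ≤ 225 * 128 := Nat.mul_le_mul_left _ (h5.trans hm)
      omega) (row_lt _ _ _) (fun j hj => good_row hγ i.2 hj) h1 j j.2
  rw [hs3 j j.2] at h3
  rw [Matrix.mul_apply]
  simp only [toM, toS]
  have h4 : ((dig (row n γ i) j : ℕ) : ZMod p) = (((dec m (A.getD i 0)).map fun q => q.2 * dig (row n β q.1) j).sum : ℕ) := by
    rw [← ZMod.natCast_mod (dig (row n γ i) j) p, ← h3, ZMod.natCast_mod]
  rw [h4]
  have h5 : ∀ l : List (ℕ × ℕ), (∀ q ∈ l, q.1 < n) →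
      ∑ k : Fin n, (((l.map fun q => if q.1 = (k : ℕ) then q.2 else 0).sum : ℕ) : ZMod p) * ((dig (row n β k) j : ℕ) : ZMod p) =
      (((l.map fun q => q.2 * dig (row n β q.1) j).sum : ℕ) : ZMod p) := by
    intro l
    induction l with
    | nil => intro _; simp
    | cons q l ih =>
      intro hl
      simp only [List.map_cons, List.sum_cons, Nat.cast_add, add_mul, Finset.sum_add_distrib]
      rw [ih (fun q hq => hl q (by simp [hq]))]
      congr 1
      rw [Finset.sum_eq_single ⟨q.1, hl q (by simp)⟩]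
      · simp
      · intro k _ hk
        rw [if_neg (fun h => hk (Fin.ext h.symm))]; simp
      · intro h; exact absurd (Finset.mem_univ _) h
  exact h5 _ hcol

/-- check of the identity -/
def isId (n β : ℕ) : Bool := (List.range n).all fun i => Nat.beq (row n β i) (Nat.pow 65536 i)

theorem toM_id {p n β : ℕ} (h : isId n β = true) : toM p n β = 1 := by
  ext i j
  rw [isId, List.all_eq_true] at h
  have h1 := Nat.eq_of_beq_eq_true (h i (List.mem_range.2 i.2))
  simp only [toM]
  rw [h1]
  have h2 : dig (65536 ^ (i : ℕ)) j = if (i : ℕ) = j then 1 else 0 := by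
    unfold dig
    rcases lt_trichotomy (i : ℕ) (j : ℕ) with h | h | h
    · rw [if_neg (by omega), Nat.div_eq_of_lt (Nat.pow_lt_pow_right (by norm_num) h)]
    · rw [if_pos h, h, Nat.div_self (by positivity)]
    · rw [if_neg (by omega), Nat.pow_div h.le (by norm_num)]
      obtain ⟨k, hk⟩ : ∃ k, (i : ℕ) - j = k + 1 := ⟨i - j - 1, by omega⟩
      rw [hk, pow_succ, Nat.mul_mod_left]
  show ((dig (65536 ^ (i : ℕ)) j : ℕ) : ZMod p) = _
  rw [h2, Matrix.one_apply]
  by_cases hij : i = j
  · simp [hij]
  · rw [if_neg (fun h => hij (Fin.ext h)), if_neg hij]; simp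

end Cfsg.Agent.H28.PM
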