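import Mathlib
import Cfsg.Prelude.Def_Sporadic_a
import Cfsg.Agent.H28_Gol

set_option autoImplicit false

/-!
Projective planes of order four as Steiner systems S(2,5,21).
-/

namespace Cfsg.Agent.H28.Pl

open Cfsg Finset

variable {α : Type*} [Fintype α] [DecidableEq α]

structure Pl (L : Set (Finset α)) : Prop where
  card : Fintype.card α = 21
  st : IsSteinerSystem 2 5 L

def Ind (L : Set (Finset α)) (S : Finset α) : Prop := ∀ l ∈ L, (l ∩ S).card ≤ 2

variable {L : Set (Finset α)}

theorem Ind.mono {S T : Finset α} (h : Ind L S) (hT : T ⊆ S) : Ind L T := fun l hl =>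
  (Finset.card_le_card (Finset.inter_subset_inter_left hT)).trans (h l hl)

theorem pair_card {p q : α} (h : p ≠ q) : ({p, q} : Finset α).card = 2 := Finset.card_pair h

namespace Pl

theorem l5 (P : Pl L) {l : Finset α} (hl : l ∈ L) : l.card = 5 := P.st.1 l hl

theorem exists_line (P : Pl L) {p q : α} (h : p ≠ q) : ∃ l ∈ L, p ∈ l ∧ q ∈ l := by
  obtain ⟨l, ⟨hl, hs⟩, _⟩ := P.st.2 {p, q} (pair_card h)
  exact ⟨l, hl, hs (by simp), hs (by simp)⟩

theorem line_unique (P : Pl L) {p q : α} (h : p ≠ q) {l m : Finset α} (hl : l ∈ L) (hm : m ∈ L) (h1 : p ∈ l) (h2 : q ∈ l)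
    (h3 : p ∈ m) (h4 : q ∈ m) : l = m := by
  obtain ⟨k, _, hk⟩ := P.st.2 {p, q} (pair_card h)
  have e1 := hk l ⟨hl, by intro x hx; simp only [Finset.mem_insert, Finset.mem_singleton] at hx; rcases hx with rfl | rfl <;> assumption⟩
  have e2 := hk m ⟨hm, by intro x hx; simp only [Finset.mem_insert, Finset.mem_singleton] at hx; rcases hx with rfl | rfl <;> assumption⟩
  rw [e1, e2]

theorem inter_le (P : Pl L) {l m : Finset α} (hl : l ∈ L) (hm : m ∈ L) (h : l ≠ m) {p q : α} (h1 : p ∈ l) (h2 : p ∈ m)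
    (h3 : q ∈ l) (h4 : q ∈ m) : p = q := by
  by_contra hne
  exact h (P.line_unique hne hl hm h1 h3 h2 h4)

open Classical in
/-- the lines -/
noncomputable def lines (L : Set (Finset α)) : Finset (Finset α) := Finset.univ.filter fun l => l ∈ L

theorem mem_lines {l : Finset α} : l ∈ lines L ↔ l ∈ L := by simp [lines]

theorem through (P : Pl L) (p : α) : ((lines L).filter fun l => p ∈ l).card = 5 := by
  have h := Gol.steiner_count P.st {p} (by simp)
  rw [P.card, Finset.card_singleton] at h
  have e1 : Nat.choose (5 - 1) (2 - 1) = 4 := rfl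
  have e2 : Nat.choose (21 - 1) (2 - 1) = 20 := rfl
  rw [e1, e2] at h
  have h2 : ((lines L).filter fun l => p ∈ l).card * 4 = 20 := by
    rw [← h]
    congr 2
    ext l
    simp [lines]
  omega

/-- two lines meet -/
theorem meet (P : Pl L) {l m : Finset α} (hl : l ∈ L) (hm : m ∈ L) : ∃ p, p ∈ l ∧ p ∈ m := by
  by_cases hlm : l = m
  · subst hlm
    have := P.l5 hl
    obtain ⟨p, hp⟩ := Finset.card_pos.1 (by omega : 0 < l.card)
    exact ⟨p, hp, hp⟩
  · obtain ⟨p, hpm, hpl⟩ : ∃ p ∈ m, p ∉ l := by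
      by_contra hcon
      push Not at hcon
      exact hlm (Finset.eq_of_subset_of_card_le hcon (by rw [P.l5 hl, P.l5 hm])).symm
    have hne : ∀ x ∈ l, p ≠ x := fun x hx h => hpl (h ▸ hx)
    choose! f hf using fun x (hx : x ∈ l) => P.exists_line (hne x hx)
    have hinj : Set.InjOn f l := by
      intro x hx y hy hxy
      by_contra hne'
      have h1 := hf x hx
      have h2 := hf y hy
      have h3 : f x = l := P.line_unique hne' h1.1 hl h1.2.2 (by rw [hxy]; exact h2.2.2) hx hy
      apply hpl
      rw [← h3]; exact h1.2.1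
    have himg : l.image f = (lines L).filter fun k => p ∈ k := by
      apply Finset.eq_of_subset_of_card_le
      · intro k hk
        obtain ⟨x, hx, rfl⟩ := Finset.mem_image.1 hk
        have h1 := hf x hx
        rw [Finset.mem_filter, mem_lines]
        exact ⟨h1.1, h1.2.1⟩
      · rw [P.through, Finset.card_image_of_injOn hinj, P.l5 hl]
    have : m ∈ l.image f := by
      rw [himg, Finset.mem_filter, mem_lines]
      exact ⟨hm, hpm⟩
    obtain ⟨x, hx, rfl⟩ := Finset.mem_image.1 this
    exact ⟨x, hx, (hf x hx).2.2⟩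

/-! ### secants -/

/-- the secants of a set -/
noncomputable def sec (L : Set (Finset α)) (S : Finset α) : Finset (Finset α) := (lines L).filter fun l => (l ∩ S).card = 2

theorem mem_sec {S l : Finset α} : l ∈ sec L S ↔ l ∈ L ∧ (l ∩ S).card = 2 := by
  rw [sec, Finset.mem_filter, mem_lines]

theorem card_sec (P : Pl L) {S : Finset α} (hS : Ind L S) : (sec L S).card = S.card.choose 2 := by
  have key := Finset.card_mul_eq_card_mul (s := sec L S) (t := Finset.powersetCard 2 S) (fun l T => T ⊆ l) (m := 1) (n := 1) ?_ ?_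
  · rw [mul_one, mul_one, Finset.card_powersetCard] at key
    exact key
  · intro l hl
    rw [mem_sec] at hl
    rw [Finset.card_eq_one]
    refine ⟨l ∩ S, ?_⟩
    ext T
    simp only [Finset.mem_bipartiteAbove, Finset.mem_powersetCard, Finset.mem_singleton]
    constructor
    · rintro ⟨⟨h1, h2⟩, h3⟩
      exact Finset.eq_of_subset_of_card_le (Finset.subset_inter h3 h1) (by omega)
    · rintro rfl
      exact ⟨⟨Finset.inter_subset_right, hl.2⟩, Finset.inter_subset_left⟩
  · intro T hT
    rw [Finset.mem_powersetCard] at hT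
    obtain ⟨l, ⟨hl, hTl⟩, hu⟩ := P.st.2 T hT.2
    rw [Finset.card_eq_one]
    refine ⟨l, ?_⟩
    ext m
    simp only [Finset.mem_bipartiteBelow, Finset.mem_singleton, mem_sec]
    constructor
    · rintro ⟨⟨h1, h2⟩, h3⟩
      exact hu m ⟨h1, h3⟩
    · rintro rfl
      refine ⟨⟨hl, le_antisymm (hS m hl) ?_⟩, hTl⟩
      rw [← hT.2]
      exact Finset.card_le_card (Finset.subset_inter hTl hT.1)

/-- number of secants through a point -/
noncomputable def mx (L : Set (Finset α)) (S : Finset α) (x : α) : ℕ := ((sec L S).filter fun l => x ∈ l).card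

theorem sum_mx (P : Pl L) {S : Finset α} (hS : Ind L S) : ∑ x, mx L S x = S.card.choose 2 * 5 := by
  have h1 : ∀ x, mx L S x = ∑ l ∈ sec L S, if x ∈ l then 1 else 0 := by
    intro x
    rw [mx, Finset.card_filter]
  rw [Finset.sum_congr rfl (fun x _ => h1 x), Finset.sum_comm]
  have h2 : ∀ l ∈ sec L S, (∑ x, if x ∈ l then 1 else 0) = 5 := by
    intro l hl
    rw [← Finset.card_filter, ← P.l5 (mem_sec.1 hl).1]
    congr 1
    ext x; simp
  rw [Finset.sum_congr rfl h2, Finset.sum_const, P.card_sec hS, smul_eq_mul]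

theorem sum_choose (P : Pl L) {S : Finset α} (hS : Ind L S) : ∑ x, (mx L S x).choose 2 = (S.card.choose 2).choose 2 := by
  have h1 : ∀ x, (mx L S x).choose 2 = ∑ T ∈ Finset.powersetCard 2 (sec L S), if ∀ l ∈ T, x ∈ l then 1 else 0 := by
    intro x
    rw [mx, ← Finset.card_powersetCard, ← Finset.card_filter]
    congr 1
    ext T
    rw [Finset.mem_powersetCard, Finset.mem_filter, Finset.mem_powersetCard]
    constructor
    · rintro ⟨h1, h2⟩
      exact ⟨⟨h1.trans (Finset.filter_subset _ _), h2⟩, fun l hl => (Finset.mem_filter.1 (h1 hl)).2⟩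
    · rintro ⟨⟨h1, h2⟩, h3⟩
      exact ⟨fun l hl => Finset.mem_filter.2 ⟨h1 hl, h3 l hl⟩, h2⟩
  rw [Finset.sum_congr rfl (fun x _ => h1 x), Finset.sum_comm]
  have h2 : ∀ T ∈ Finset.powersetCard 2 (sec L S), (∑ x, if ∀ l ∈ T, x ∈ l then 1 else 0) = 1 := by
    intro T hT
    rw [Finset.mem_powersetCard] at hT
    obtain ⟨l, m, hlm, rfl⟩ := Finset.card_eq_two.1 hT.2
    have hl := (mem_sec.1 (hT.1 (by simp : l ∈ ({l, m} : Finset (Finset α))))).1
    have hm := (mem_sec.1 (hT.1 (by simp : m ∈ ({l, m} : Finset (Finset α))))).1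
    obtain ⟨p, hp, hp'⟩ := P.meet hl hm
    rw [← Finset.card_filter, Finset.card_eq_one]
    refine ⟨p, ?_⟩
    ext x
    simp only [Finset.mem_filter, Finset.mem_univ, true_and, Finset.mem_insert, Finset.mem_singleton, forall_eq_or_imp, forall_eq]
    constructor
    · rintro ⟨h3, h4⟩
      exact P.inter_le hl hm hlm h3 h4 hp hp'
    · rintro rfl
      exact ⟨hp, hp'⟩
  rw [Finset.sum_congr rfl h2, Finset.sum_const, Finset.card_powersetCard, P.card_sec hS, smul_eq_mul, mul_one]

theorem mx_mem (P : Pl L) {S : Finset α} (hS : Ind L S) {x : α} (hx : x ∈ S) : mx L S x = S.card - 1 := by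
  rw [← Finset.card_erase_of_mem hx]
  have hne : ∀ y ∈ S.erase x, x ≠ y := fun y hy => (Finset.ne_of_mem_erase hy).symm
  choose! f hf using fun y (hy : y ∈ S.erase x) => P.exists_line (hne y hy)
  have hfs : ∀ y ∈ S.erase x, f y ∈ sec L S := by
    intro y hy
    have h1 := hf y hy
    rw [mem_sec]
    refine ⟨h1.1, le_antisymm (hS _ h1.1) ?_⟩
    rw [← pair_card (hne y hy)]
    apply Finset.card_le_card
    intro w hw
    simp only [Finset.mem_insert, Finset.mem_singleton] at hw
    rcases hw with rfl | rfl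
    · exact Finset.mem_inter.2 ⟨h1.2.1, hx⟩
    · exact Finset.mem_inter.2 ⟨h1.2.2, Finset.mem_of_mem_erase hy⟩
  have hinj : Set.InjOn f (S.erase x) := by
    intro y hy y' hy' hyy
    by_contra hne'
    have h1 := hf y hy
    have h2 := hf y' hy'
    have h3 := hS (f y) h1.1
    have h4 : ({x, y, y'} : Finset α) ⊆ f y ∩ S := by
      intro w hw
      simp only [Finset.mem_insert, Finset.mem_singleton] at hw
      rcases hw with rfl | rfl | rfl
      · exact Finset.mem_inter.2 ⟨h1.2.1, hx⟩
      · exact Finset.mem_inter.2 ⟨h1.2.2, Finset.mem_of_mem_erase hy⟩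
      · exact Finset.mem_inter.2 ⟨by rw [hyy]; exact h2.2.2, Finset.mem_of_mem_erase hy'⟩
    have h5 := Finset.card_le_card h4
    rw [Finset.card_eq_three.2 ⟨x, y, y', hne y hy, hne y' hy', hne', rfl⟩] at h5
    omega
  rw [mx, ← Finset.card_image_of_injOn hinj]
  congr 1
  ext l
  rw [Finset.mem_filter, Finset.mem_image]
  constructor
  · rintro ⟨hl, hxl⟩
    rw [mem_sec] at hl
    have h1 : 0 < ((l ∩ S).erase x).card := by
      rw [Finset.card_erase_of_mem (Finset.mem_inter.2 ⟨hxl, hx⟩), hl.2]
      norm_num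
    obtain ⟨y, hy⟩ := Finset.card_pos.1 h1
    rw [Finset.mem_erase, Finset.mem_inter] at hy
    have hy' : y ∈ S.erase x := Finset.mem_erase.2 ⟨hy.1, hy.2.2⟩
    have h2 := hf y hy'
    exact ⟨y, hy', P.line_unique hy.1.symm h2.1 hl.1 h2.2.1 h2.2.2 hxl hy.2.1⟩
  · rintro ⟨y, hy, rfl⟩
    exact ⟨hfs y hy, (hf y hy).2.1⟩

theorem mx_not_mem (P : Pl L) {S : Finset α} {x : α} (hx : x ∉ S) : 2 * mx L S x ≤ S.card := by
  have h1 : (((sec L S).filter fun l => x ∈ l).biUnion fun l => l ∩ S).card = mx L S x * 2 := by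
    rw [Finset.card_biUnion]
    · rw [mx]
      apply Finset.sum_const_nat
      intro l hl
      rw [Finset.mem_filter, mem_sec] at hl
      exact hl.1.2
    · intro l hl m hm hlm
      show Disjoint (l ∩ S) (m ∩ S)
      rw [Finset.disjoint_left]
      intro y hy hy'
      rw [Finset.mem_inter] at hy hy'
      rw [Finset.mem_coe, Finset.mem_filter, mem_sec] at hl hm
      have := P.inter_le hl.1.1 hm.1.1 hlm hl.2 hm.2 hy.1 hy'.1
      rw [this] at hx
      exact hx hy.2
  have h2 : (((sec L S).filter fun l => x ∈ l).biUnion fun l => l ∩ S) ⊆ S := by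
    intro y hy
    obtain ⟨l, _, hl⟩ := Finset.mem_biUnion.1 hy
    exact (Finset.mem_inter.1 hl).2
  have := Finset.card_le_card h2
  omega

/-- points extending an independent set -/
theorem ext_iff (P : Pl L) {S : Finset α} (hS : Ind L S) {x : α} (hx : x ∉ S) : Ind L (insert x S) ↔ mx L S x = 0 := by
  rw [mx, Finset.card_eq_zero, Finset.filter_eq_empty_iff]
  constructor
  · intro h l hl hxl
    rw [mem_sec] at hl
    have h1 := h l hl.1
    rw [Finset.inter_insert_of_mem hxl, Finset.card_insert_of_notMem (fun h' => hx (Finset.mem_inter.1 h').2)] at h1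
    omega
  · intro h l hl
    by_cases hxl : x ∈ l
    · rw [Finset.inter_insert_of_mem hxl, Finset.card_insert_of_notMem (fun h' => hx (Finset.mem_inter.1 h').2)]
      have h1 := hS l hl
      have h2 : (l ∩ S).card ≠ 2 := fun h2 => h (mem_sec.2 ⟨hl, h2⟩) hxl
      omega
    · rw [Finset.inter_insert_of_notMem hxl]
      exact hS l hl

open Classical in
/-- the number of points extending an independent set -/
theorem count_ext (P : Pl L) {S : Finset α} (hS : Ind L S) (k e : ℕ) (hk : S.card = k) (hk5 : k ≤ 5)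
    (he : e + k * (k - 1) * 0 + (k.choose 2 * 5 - k * (k - 1)) + k = 21 + ((k.choose 2).choose 2 - k * (k - 1).choose 2))
    (h1 : k * (k - 1) ≤ k.choose 2 * 5) (h2 : k * (k - 1).choose 2 ≤ (k.choose 2).choose 2) :
    (Finset.univ.filter fun x => x ∉ S ∧ Ind L (insert x S)).card = e := by
  have s1 := P.sum_mx hS
  have s2 := P.sum_choose hS
  rw [← Finset.sum_add_sum_compl S] at s1 s2
  have t1 : ∑ x ∈ S, mx L S x = k * (k - 1) := by
    rw [Finset.sum_congr rfl (fun x hx => P.mx_mem hS hx), Finset.sum_const, hk, smul_eq_mul]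
  have t2 : ∑ x ∈ S, (mx L S x).choose 2 = k * (k - 1).choose 2 := by
    rw [Finset.sum_congr rfl (fun x hx => by rw [P.mx_mem hS hx]), Finset.sum_const, hk, smul_eq_mul]
  rw [t1, hk] at s1
  rw [t2, hk] at s2
  have t3 : (Finset.univ.filter fun x => x ∉ S ∧ Ind L (insert x S)).card = ∑ x ∈ Sᶜ, if mx L S x = 0 then 1 else 0 := by
    rw [← Finset.card_filter]
    congr 1
    ext x
    simp only [Finset.mem_filter, Finset.mem_univ, true_and, Finset.mem_compl]
    constructor
    · rintro ⟨h3, h4⟩; exact ⟨h3, (P.ext_iff hS h3).1 h4⟩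
    · rintro ⟨h3, h4⟩; exact ⟨h3, (P.ext_iff hS h3).2 h4⟩
  have t4 : ∑ x ∈ Sᶜ, ((if mx L S x = 0 then 1 else 0) + mx L S x) = ∑ x ∈ Sᶜ, (1 + (mx L S x).choose 2) := by
    apply Finset.sum_congr rfl
    intro x hx
    have h3 := P.mx_not_mem (Finset.mem_compl.1 hx)
    have h4 : mx L S x ≤ 2 := by omega
    interval_cases mx L S x <;> rfl
  rw [Finset.sum_add_distrib, Finset.sum_add_distrib, ← t3, Finset.sum_const, smul_eq_mul, mul_one, Finset.card_compl, P.card, hk] at t4
  omega

open Classical in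
theorem ext2 (P : Pl L) {S : Finset α} (hS : Ind L S) (hk : S.card = 2) :
    (Finset.univ.filter fun x => x ∉ S ∧ Ind L (insert x S)).card = 16 :=
  P.count_ext hS 2 16 hk (by norm_num) (by decide) (by decide) (by decide)

open Classical in
theorem ext3 (P : Pl L) {S : Finset α} (hS : Ind L S) (hk : S.card = 3) :
    (Finset.univ.filter fun x => x ∉ S ∧ Ind L (insert x S)).card = 9 :=
  P.count_ext hS 3 9 hk (by norm_num) (by decide) (by decide) (by decide)

open Classical in
theorem ext4 (P : Pl L) {S : Finset α} (hS : Ind L S) (hk : S.card = 4) :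
    (Finset.univ.filter fun x => x ∉ S ∧ Ind L (insert x S)).card = 2 :=
  P.count_ext hS 4 2 hk (by norm_num) (by decide) (by decide) (by decide)

open Classical in
theorem ext5 (P : Pl L) {S : Finset α} (hS : Ind L S) (hk : S.card = 5) :
    (Finset.univ.filter fun x => x ∉ S ∧ Ind L (insert x S)).card = 1 :=
  P.count_ext hS 5 1 hk (by norm_num) (by decide) (by decide) (by decide)

open Classical in
/-- independent sets of given size -/
noncomputable def I (L : Set (Finset α)) (k : ℕ) : Finset (Finset α) := Finset.univ.filter fun S => S.card = k ∧ Ind L S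

theorem mem_I {k : ℕ} {S : Finset α} : S ∈ I L k ↔ S.card = k ∧ Ind L S := by simp [I]

open Classical in
theorem count_step (k e : ℕ) (h : ∀ S : Finset α, Ind L S → S.card = k →
    (Finset.univ.filter fun x => x ∉ S ∧ Ind L (insert x S)).card = e) : (I L k).card * e = (I L (k + 1)).card * (k + 1) := by
  apply Finset.card_mul_eq_card_mul (fun S T => S ⊆ T)
  · intro S hS
    rw [mem_I] at hS
    rw [← h S hS.2 hS.1]
    symm
    apply Finset.card_bij (fun x _ => insert x S)
    · intro x hx
      simp only [Finset.mem_filter, Finset.mem_univ, true_and] at hx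
      rw [Finset.mem_bipartiteAbove, mem_I]
      exact ⟨⟨by rw [Finset.card_insert_of_notMem hx.1, hS.1], hx.2⟩, Finset.subset_insert _ _⟩
    · intro x hx y hy hxy
      simp only [Finset.mem_filter, Finset.mem_univ, true_and] at hx hy
      have h1 : x ∈ insert y S := by rw [← hxy]; exact Finset.mem_insert_self _ _
      rcases Finset.mem_insert.1 h1 with h2 | h2
      · exact h2
      · exact absurd h2 hx.1
    · intro T hT
      rw [Finset.mem_bipartiteAbove, mem_I] at hT
      obtain ⟨⟨h1, h2⟩, h3⟩ := hT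
      have h4 : (T \ S).card = 1 := by rw [Finset.card_sdiff_of_subset h3]; omega
      obtain ⟨x, hx⟩ := Finset.card_eq_one.1 h4
      have hxm : x ∈ T \ S := by rw [hx]; exact Finset.mem_singleton_self _
      rw [Finset.mem_sdiff] at hxm
      have h5 : insert x S = T := by
        apply Finset.eq_of_subset_of_card_le
        · rw [Finset.insert_subset_iff]; exact ⟨hxm.1, h3⟩
        · rw [Finset.card_insert_of_notMem hxm.2, hS.1, h1]
      refine ⟨x, ?_, h5⟩
      simp only [Finset.mem_filter, Finset.mem_univ, true_and]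
      exact ⟨hxm.2, by rw [h5]; exact h2⟩
  · intro T hT
    rw [mem_I] at hT
    have : (I L k).bipartiteBelow (fun S T => S ⊆ T) T = Finset.powersetCard k T := by
      ext S
      rw [Finset.mem_bipartiteBelow, mem_I, Finset.mem_powersetCard]
      constructor
      · rintro ⟨⟨h1, _⟩, h2⟩; exact ⟨h2, h1⟩
      · rintro ⟨h1, h2⟩; exact ⟨⟨h2, hT.2.mono h1⟩, h1⟩
    rw [this, Finset.card_powersetCard, hT.1, Nat.choose_succ_self_right]

theorem card_I2 (P : Pl L) : (I L 2).card = 210 := by
  have : I L 2 = Finset.powersetCard 2 Finset.univ := by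
    ext S
    rw [mem_I, Finset.mem_powersetCard]
    constructor
    · rintro ⟨h, _⟩; exact ⟨Finset.subset_univ _, h⟩
    · rintro ⟨_, h⟩
      exact ⟨h, fun l _ => (Finset.card_le_card Finset.inter_subset_right).trans (le_of_eq h)⟩
  rw [this, Finset.card_powersetCard, Finset.card_univ, P.card]
  rfl

theorem card_I3 (P : Pl L) : (I L 3).card = 1120 := by
  have : (I L 2).card * 16 = (I L 3).card * 3 := count_step 2 16 (fun S hS hk => P.ext2 hS hk)
  rw [P.card_I2] at this
  omega

theorem card_I4 (P : Pl L) : (I L 4).card = 2520 := by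
  have : (I L 3).card * 9 = (I L 4).card * 4 := count_step 3 9 (fun S hS hk => P.ext3 hS hk)
  rw [P.card_I3] at this
  omega

theorem card_I5 (P : Pl L) : (I L 5).card = 1008 := by
  have : (I L 4).card * 2 = (I L 5).card * 5 := count_step 4 2 (fun S hS hk => P.ext4 hS hk)
  rw [P.card_I4] at this
  omega

theorem card_I6 (P : Pl L) : (I L 6).card = 168 := by
  have : (I L 5).card * 1 = (I L 6).card * 6 := count_step 5 1 (fun S hS hk => P.ext5 hS hk)
  rw [P.card_I5] at this
  omega

end Pl

end Cfsg.Agent.H28.Pl
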