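import Mathlib
import Cfsg.Agent.H28_Pl

set_option autoImplicit false

/-!
Projective planes of order four: reconstruction from a hyperoval.
-/

namespace Cfsg.Agent.H28.Pl

open Cfsg Finset

variable {α : Type*} [Fintype α] [DecidableEq α] {β : Type*} [Fintype β] [DecidableEq β]
variable {L : Set (Finset α)} {L' : Set (Finset β)}

/-- a labelled hyperoval -/
structure Hy (L : Set (Finset α)) (h : Fin 6 → α) : Prop where
  P : Pl L
  inj : Function.Injective h
  ind : Ind L (Finset.univ.image h)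

namespace Hy

variable {h : Fin 6 → α} {h' : Fin 6 → β}

theorem three (H : Hy L h) {l : Finset α} (hl : l ∈ L) {i j k : Fin 6} (hij : i ≠ j) (hik : i ≠ k) (hjk : j ≠ k)
    (h1 : h i ∈ l) (h2 : h j ∈ l) (h3 : h k ∈ l) : False := by
  have h4 := H.ind l hl
  have h5 : ({h i, h j, h k} : Finset α) ⊆ l ∩ Finset.univ.image h := by
    intro w hw
    simp only [Finset.mem_insert, Finset.mem_singleton] at hw
    rw [Finset.mem_inter]
    rcases hw with rfl | rfl | rfl
    · exact ⟨h1, Finset.mem_image_of_mem _ (Finset.mem_univ _)⟩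
    · exact ⟨h2, Finset.mem_image_of_mem _ (Finset.mem_univ _)⟩
    · exact ⟨h3, Finset.mem_image_of_mem _ (Finset.mem_univ _)⟩
  have h6 := Finset.card_le_card h5
  rw [Finset.card_eq_three.2 ⟨h i, h j, h k, H.inj.ne hij, H.inj.ne hik, H.inj.ne hjk, rfl⟩] at h6
  omega

/-- every line through a point of the hyperoval is a secant -/
theorem secant (H : Hy L h) {l : Finset α} (hl : l ∈ L) (i : Fin 6) (hi : h i ∈ l) : ∃ j, j ≠ i ∧ h j ∈ l := by
  have hne : ∀ j ∈ Finset.univ.erase i, h i ≠ h j := fun j hj => H.inj.ne (Finset.ne_of_mem_erase hj).symm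
  choose! f hf using fun j (hj : j ∈ Finset.univ.erase i) => H.P.exists_line (hne j hj)
  have hinj : Set.InjOn f (Finset.univ.erase i) := by
    intro j hj k hk hjk
    by_contra hne'
    have h1 := hf j hj
    have h2 := hf k hk
    exact H.three h1.1 (Finset.ne_of_mem_erase hj).symm (Finset.ne_of_mem_erase hk).symm hne' h1.2.1 h1.2.2 (by rw [hjk]; exact h2.2.2)
  have himg : (Finset.univ.erase i).image f = (Pl.lines L).filter fun k => h i ∈ k := by
    apply Finset.eq_of_subset_of_card_le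
    · intro k hk
      obtain ⟨x, hx, rfl⟩ := Finset.mem_image.1 hk
      have h1 := hf x hx
      rw [Finset.mem_filter, Pl.mem_lines]
      exact ⟨h1.1, h1.2.1⟩
    · rw [H.P.through, Finset.card_image_of_injOn hinj, Finset.card_erase_of_mem (Finset.mem_univ _), Finset.card_univ, Fintype.card_fin]
  have : l ∈ (Finset.univ.erase i).image f := by
    rw [himg, Finset.mem_filter, Pl.mem_lines]
    exact ⟨hl, hi⟩
  obtain ⟨x, hx, rfl⟩ := Finset.mem_image.1 this
  exact ⟨x, Finset.ne_of_mem_erase hx, (hf x hx).2.2⟩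

/-- collinearity with two points of the hyperoval -/
def Co (L : Set (Finset α)) (h : Fin 6 → α) (p : α) (i j : Fin 6) : Prop := i ≠ j ∧ ∃ l ∈ L, p ∈ l ∧ h i ∈ l ∧ h j ∈ l

theorem Co.symm {p : α} {i j : Fin 6} (hc : Co L h p i j) : Co L h p j i := by
  obtain ⟨h1, l, h2, h3, h4, h5⟩ := hc
  exact ⟨h1.symm, l, h2, h3, h5, h4⟩

theorem exists_partner (H : Hy L h) {p : α} (hp : ∀ i, h i ≠ p) (i : Fin 6) : ∃ j, Co L h p i j := by
  obtain ⟨l, hl, h1, h2⟩ := H.P.exists_line (hp i)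
  obtain ⟨j, hj, hjl⟩ := H.secant hl i h1
  exact ⟨j, hj.symm, l, hl, h2, h1, hjl⟩

theorem partner_unique (H : Hy L h) {p : α} (hp : ∀ i, h i ≠ p) {i j k : Fin 6} (h1 : Co L h p i j) (h2 : Co L h p i k) : j = k := by
  obtain ⟨hij, l, hl, a1, a2, a3⟩ := h1
  obtain ⟨hik, m, hm, b1, b2, b3⟩ := h2
  have : l = m := H.P.line_unique (hp i) hl hm a2 a1 b2 b1
  subst this
  by_contra hjk
  exact H.three hl hij hik hjk a2 a3 b3

/-- two points with two common pairs -/
theorem point_unique (H : Hy L h) {p q : α} {i j k l : Fin 6} (hki : k ≠ i) (hkj : k ≠ j) (h1 : Co L h p i j) (h2 : Co L h q i j)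
    (h3 : Co L h p k l) (h4 : Co L h q k l) : p = q := by
  obtain ⟨hij, m, hm, a1, a2, a3⟩ := h1
  obtain ⟨_, m', hm', b1, b2, b3⟩ := h2
  have e1 : m = m' := H.P.line_unique (H.inj.ne hij) hm hm' a2 a3 b2 b3
  subst e1
  obtain ⟨hkl, n, hn, c1, c2, c3⟩ := h3
  obtain ⟨_, n', hn', d1, d2, d3⟩ := h4
  have e2 : n = n' := H.P.line_unique (H.inj.ne hkl) hn hn' c2 c3 d2 d3
  subst e2
  have hmn : m ≠ n := by
    rintro rfl
    exact H.three hm hij hki.symm hkj.symm a2 a3 c2
  exact H.P.inter_le hm hn hmn a1 c1 b1 d1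

theorem exists_point (H : Hy L h) {i j k l : Fin 6} (hij : i ≠ j) (hkl : k ≠ l) (hki : k ≠ i) (hkj : k ≠ j) (hli : l ≠ i) (hlj : l ≠ j) :
    ∃ p, (∀ a, h a ≠ p) ∧ Co L h p i j ∧ Co L h p k l := by
  obtain ⟨m, hm, m1, m2⟩ := H.P.exists_line (H.inj.ne hij)
  obtain ⟨n, hn, n1, n2⟩ := H.P.exists_line (H.inj.ne hkl)
  obtain ⟨p, hp, hp'⟩ := H.P.meet hm hn
  refine ⟨p, ?_, ⟨hij, m, hm, hp, m1, m2⟩, ⟨hkl, n, hn, hp', n1, n2⟩⟩
  rintro a rfl
  have ha1 : a = i ∨ a = j := by
    by_contra hcon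
    push Not at hcon
    exact H.three hm hij (Ne.symm hcon.1) (Ne.symm hcon.2) m1 m2 hp
  have ha2 : a = k ∨ a = l := by
    by_contra hcon
    push Not at hcon
    exact H.three hn hkl (Ne.symm hcon.1) (Ne.symm hcon.2) n1 n2 hp'
  rcases ha1 with rfl | rfl <;> rcases ha2 with h3 | h3
  · exact hki h3.symm
  · exact hli h3.symm
  · exact hkj h3.symm
  · exact hlj h3.symm

/-- corresponding points -/
def G (L : Set (Finset α)) (L' : Set (Finset β)) (h : Fin 6 → α) (h' : Fin 6 → β) (p : α) (q : β) : Prop :=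
  (∃ i, p = h i ∧ q = h' i) ∨ ((∀ i, h i ≠ p) ∧ (∀ i, h' i ≠ q) ∧ ∀ i j, Co L h p i j ↔ Co L' h' q i j)

theorem G.symm {p : α} {q : β} (hg : G L L' h h' p q) : G L' L h' h q p := by
  rcases hg with ⟨i, h1, h2⟩ | ⟨h1, h2, h3⟩
  · exact Or.inl ⟨i, h2, h1⟩
  · exact Or.inr ⟨h2, h1, fun i j => (h3 i j).symm⟩

/-- the complement of a five element set of labels -/
theorem six {a b c d e : Fin 6} (hab : a ≠ b) (hac : a ≠ c) (had : a ≠ d) (hae : a ≠ e) (hbc : b ≠ c) (hbd : b ≠ d) (hbe : b ≠ e)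
    (hcd : c ≠ d) (hce : c ≠ e) (hde : d ≠ e) {x y : Fin 6} (hx : x ≠ a ∧ x ≠ b ∧ x ≠ c ∧ x ≠ d ∧ x ≠ e)
    (hy : y ≠ a ∧ y ≠ b ∧ y ≠ c ∧ y ≠ d ∧ y ≠ e) : x = y := by
  have h1 : ({a, b, c, d, e} : Finset (Fin 6)).card = 5 := by
    rw [Finset.card_insert_of_notMem (by simp [hab, hac, had, hae]), Finset.card_insert_of_notMem (by simp [hbc, hbd, hbe]),
      Finset.card_insert_of_notMem (by simp [hcd, hce]), Finset.card_pair hde]
  have h2 : ({a, b, c, d, e} : Finset (Fin 6))ᶜ.card = 1 := by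
    rw [Finset.card_compl, h1, Fintype.card_fin]
  obtain ⟨w, hw⟩ := Finset.card_eq_one.1 h2
  have hx' : x ∈ ({a, b, c, d, e} : Finset (Fin 6))ᶜ := by
    simp only [Finset.mem_compl, Finset.mem_insert, Finset.mem_singleton, not_or]
    exact hx
  have hy' : y ∈ ({a, b, c, d, e} : Finset (Fin 6))ᶜ := by
    simp only [Finset.mem_compl, Finset.mem_insert, Finset.mem_singleton, not_or]
    exact hy
  rw [hw, Finset.mem_singleton] at hx' hy'
  rw [hx', hy']

/-- the synthemes agree as soon as they share two duads -/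
theorem agree (H : Hy L h) (H' : Hy L' h') {p : α} {q : β} (hp : ∀ i, h i ≠ p) (hq : ∀ i, h' i ≠ q) {i j k l : Fin 6}
    (hki : k ≠ i) (hkj : k ≠ j) (h1 : Co L h p i j) (h2 : Co L' h' q i j)
    (h3 : Co L h p k l) (h4 : Co L' h' q k l) (a b : Fin 6) (hab : Co L h p a b) : Co L' h' q a b := by
  have hli : l ≠ i := by
    rintro rfl
    have := H.partner_unique hp h1 h3.symm
    exact hkj this.symm
  have hlj : l ≠ j := by
    rintro rfl
    have := H.partner_unique hp h1.symm h3.symm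
    exact hki this.symm
  by_cases hai : a = i
  · subst hai
    rw [← H.partner_unique hp h1 hab]; exact h2
  by_cases haj : a = j
  · subst haj
    rw [← H.partner_unique hp h1.symm hab]; exact h2.symm
  by_cases hak : a = k
  · subst hak
    rw [← H.partner_unique hp h3 hab]; exact h4
  by_cases hal : a = l
  · subst hal
    rw [← H.partner_unique hp h3.symm hab]; exact h4.symm
  obtain ⟨c, hc⟩ := H'.exists_partner hq a
  have hb : b ≠ i ∧ b ≠ j ∧ b ≠ k ∧ b ≠ l ∧ b ≠ a := by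
    refine ⟨?_, ?_, ?_, ?_, hab.1.symm⟩
    · rintro rfl; exact haj (H.partner_unique hp h1 hab.symm).symm
    · rintro rfl; exact hai (H.partner_unique hp h1.symm hab.symm).symm
    · rintro rfl; exact hal (H.partner_unique hp h3 hab.symm).symm
    · rintro rfl; exact hak (H.partner_unique hp h3.symm hab.symm).symm
  have hc' : c ≠ i ∧ c ≠ j ∧ c ≠ k ∧ c ≠ l ∧ c ≠ a := by
    refine ⟨?_, ?_, ?_, ?_, hc.1.symm⟩
    · rintro rfl; exact haj (H'.partner_unique hq h2 hc.symm).symm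
    · rintro rfl; exact hai (H'.partner_unique hq h2.symm hc.symm).symm
    · rintro rfl; exact hal (H'.partner_unique hq h4 hc.symm).symm
    · rintro rfl; exact hak (H'.partner_unique hq h4.symm hc.symm).symm
  have : b = c := six h1.1 hki.symm (Ne.symm hli) (Ne.symm hai) hkj.symm (Ne.symm hlj) (Ne.symm haj) h3.1 (Ne.symm hak) (Ne.symm hal) hb hc'
  rw [this]; exact hc

theorem exists_other (i j : Fin 6) : ∃ k : Fin 6, k ≠ i ∧ k ≠ j := by
  revert i j; decide

theorem G_exists (H : Hy L h) (H' : Hy L' h') (p : α) : ∃ q, G L L' h h' p q := by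
  by_cases hp : ∃ i, p = h i
  · obtain ⟨i, rfl⟩ := hp
    exact ⟨h' i, Or.inl ⟨i, rfl, rfl⟩⟩
  · push Not at hp
    have hp' : ∀ i, h i ≠ p := fun i => (hp i).symm
    obtain ⟨j, hj⟩ := H.exists_partner hp' 0
    obtain ⟨k, hk0, hkj⟩ := exists_other 0 j
    obtain ⟨l, hl⟩ := H.exists_partner hp' k
    have hli : l ≠ 0 := by
      rintro rfl
      exact hkj (H.partner_unique hp' hj hl.symm).symm
    have hlj : l ≠ j := by
      rintro rfl
      exact hk0 (H.partner_unique hp' hj.symm hl.symm).symm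
    obtain ⟨q, hq, q1, q2⟩ := H'.exists_point hj.1 hl.1 hk0 hkj hli hlj
    refine ⟨q, Or.inr ⟨hp', hq, fun a b => ⟨?_, ?_⟩⟩⟩
    · exact H.agree H' hp' hq hk0 hkj hj q1 hl q2 a b
    · exact H'.agree H hq hp' hk0 hkj q1 hj q2 hl a b

theorem G_unique (H : Hy L h) (H' : Hy L' h') {p : α} {q r : β} (h1 : G L L' h h' p q) (h2 : G L L' h h' p r) : q = r := by
  rcases h1 with ⟨i, rfl, rfl⟩ | ⟨a1, a2, a3⟩
  · rcases h2 with ⟨j, h3, rfl⟩ | ⟨b1, _, _⟩
    · rw [H.inj h3]
    · exact absurd rfl (b1 i)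
  · rcases h2 with ⟨j, rfl, rfl⟩ | ⟨b1, b2, b3⟩
    · exact absurd rfl (a1 j)
    · obtain ⟨j, hj⟩ := H.exists_partner a1 0
      obtain ⟨k, hk0, hkj⟩ := exists_other 0 j
      obtain ⟨l, hl⟩ := H.exists_partner a1 k
      exact H'.point_unique hk0 hkj ((a3 _ _).1 hj) ((b3 _ _).1 hj) ((a3 _ _).1 hl) ((b3 _ _).1 hl)

/-- at most two lines through an outside point avoid the hyperoval -/
theorem ext_lines (H : Hy L h) {p : α} (hp : ∀ i, h i ≠ p) {l m n : Finset α} (hl : l ∈ L) (hm : m ∈ L) (hn : n ∈ L)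
    (hpl : p ∈ l) (hpm : p ∈ m) (hpn : p ∈ n) (el : ∀ i, h i ∉ l) (em : ∀ i, h i ∉ m) (en : ∀ i, h i ∉ n) (hlm : l ≠ m)
    (hln : l ≠ n) : m = n := by
  by_contra hmn
  obtain ⟨j, hj⟩ := H.exists_partner hp 0
  obtain ⟨k, hk0, hkj⟩ := exists_other 0 j
  obtain ⟨e, he⟩ := H.exists_partner hp k
  have hex : ∀ a b c d : Fin 6, ∃ x : Fin 6, x ≠ a ∧ x ≠ b ∧ x ≠ c ∧ x ≠ d := by
    intro a b c d
    by_contra hcon
    push Not at hcon
    have h1 : (Finset.univ : Finset (Fin 6)) ⊆ {a, b, c, d} := by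
      intro x _
      simp only [Finset.mem_insert, Finset.mem_singleton]
      by_contra h2
      push Not at h2
      exact h2.2.2.2 (hcon x h2.1 h2.2.1 h2.2.2.1)
    have h2 := Finset.card_le_card h1
    have h3 : ({a, b, c, d} : Finset (Fin 6)).card ≤ 4 := Finset.card_le_four
    rw [Finset.card_univ, Fintype.card_fin] at h2
    omega
  obtain ⟨x, hx0, hxj, hxk, hxe⟩ := hex 0 j k e
  obtain ⟨s1, hs1, a1, a2⟩ := H.P.exists_line (hp 0)
  obtain ⟨s2, hs2, b1, b2⟩ := H.P.exists_line (hp k)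
  obtain ⟨s3, hs3, c1, c2⟩ := H.P.exists_line (hp x)
  have n12 : s1 ≠ s2 := by
    rintro rfl
    exact hkj (H.partner_unique hp hj ⟨hk0.symm, s1, hs1, a2, a1, b1⟩).symm
  have n13 : s1 ≠ s3 := by
    rintro rfl
    exact hxj (H.partner_unique hp hj ⟨hx0.symm, s1, hs1, a2, a1, c1⟩).symm
  have n23 : s2 ≠ s3 := by
    rintro rfl
    exact hxe (H.partner_unique hp he ⟨hxk.symm, s2, hs2, b2, b1, c1⟩).symm
  have hsub : ({l, m, n, s1, s2, s3} : Finset (Finset α)) ⊆ (Pl.lines L).filter fun k => p ∈ k := by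
    intro w hw
    simp only [Finset.mem_insert, Finset.mem_singleton] at hw
    rw [Finset.mem_filter, Pl.mem_lines]
    rcases hw with rfl | rfl | rfl | rfl | rfl | rfl
    · exact ⟨hl, hpl⟩
    · exact ⟨hm, hpm⟩
    · exact ⟨hn, hpn⟩
    · exact ⟨hs1, a2⟩
    · exact ⟨hs2, b2⟩
    · exact ⟨hs3, c2⟩
  have hc := Finset.card_le_card hsub
  rw [H.P.through] at hc
  have q1 : l ≠ s1 := by rintro rfl; exact el 0 a1
  have q2 : l ≠ s2 := by rintro rfl; exact el k b1
  have q3 : l ≠ s3 := by rintro rfl; exact el x c1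
  have q4 : m ≠ s1 := by rintro rfl; exact em 0 a1
  have q5 : m ≠ s2 := by rintro rfl; exact em k b1
  have q6 : m ≠ s3 := by rintro rfl; exact em x c1
  have q7 : n ≠ s1 := by rintro rfl; exact en 0 a1
  have q8 : n ≠ s2 := by rintro rfl; exact en k b1
  have q9 : n ≠ s3 := by rintro rfl; exact en x c1
  rw [Finset.card_insert_of_notMem (by simp [hlm, hln, q1, q2, q3]), Finset.card_insert_of_notMem (by simp [hmn, q4, q5, q6]),
    Finset.card_insert_of_notMem (by simp [q7, q8, q9]), Finset.card_insert_of_notMem (by simp [n12, n13]),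
    Finset.card_pair n23] at hc
  omega

/-- an external line joins points whose synthemes share no duad; conversely -/
theorem ext_of (H' : Hy L' h') {p q : β} (hp : ∀ i, h' i ≠ p) (hq : ∀ i, h' i ≠ q) (hpq : ∀ i j, Co L' h' p i j → ¬ Co L' h' q i j)
    {l : Finset β} (hl : l ∈ L') (h1 : p ∈ l) (h2 : q ∈ l) : ∀ i, h' i ∉ l := by
  intro i hi
  obtain ⟨j, hj, hjl⟩ := H'.secant hl i hi
  exact hpq i j ⟨hj.symm, l, hl, h1, hi, hjl⟩ ⟨hj.symm, l, hl, h2, hi, hjl⟩

/-- lines are mapped to lines -/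
theorem map_line (H : Hy L h) (H' : Hy L' h') {b : Finset α} (hb : b ∈ L) : ∃ b' ∈ L', ∀ p ∈ b, ∀ q, G L L' h h' p q → q ∈ b' := by
  by_cases hsec : ∃ i, h i ∈ b
  · obtain ⟨i, hi⟩ := hsec
    obtain ⟨j, hj, hjb⟩ := H.secant hb i hi
    obtain ⟨b', hb', c1, c2⟩ := H'.P.exists_line (H'.inj.ne hj.symm)
    refine ⟨b', hb', ?_⟩
    intro p hp q hg
    rcases hg with ⟨k, rfl, rfl⟩ | ⟨h1, h2, h3⟩
    · have : k = i ∨ k = j := by
        by_contra hcon
        push Not at hcon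
        exact H.three hb hj.symm (Ne.symm hcon.1) (Ne.symm hcon.2) hi hjb hp
      rcases this with rfl | rfl
      · exact c1
      · exact c2
    · obtain ⟨_, l, hl, l1, l2, l3⟩ := (h3 i j).1 ⟨hj.symm, b, hb, hp, hi, hjb⟩
      rwa [H'.P.line_unique (H'.inj.ne hj.symm) hb' hl c1 c2 l2 l3]
  · push Not at hsec
    have hout : ∀ p ∈ b, ∀ i, h i ≠ p := fun p hp i hh => hsec i (hh ▸ hp)
    choose f hf using H.G_exists H'
    have hfo : ∀ p ∈ b, (∀ i, h' i ≠ f p) ∧ ∀ i j, Co L h p i j ↔ Co L' h' (f p) i j := by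
      intro p hp
      rcases hf p with ⟨k, hk, _⟩ | ⟨_, h2, h3⟩
      · exact absurd hk.symm (hout p hp k)
      · exact ⟨h2, h3⟩
    have hfi : ∀ p ∈ b, ∀ q ∈ b, p ≠ q → f p ≠ f q := by
      intro p hp q hq hpq heq
      apply hpq
      have h1 := hf p
      rw [heq] at h1
      exact H'.G_unique H h1.symm (hf q).symm
    have hdis : ∀ p ∈ b, ∀ q ∈ b, p ≠ q → ∀ i j, Co L' h' (f p) i j → ¬ Co L' h' (f q) i j := by
      intro p hp q hq hpq i j h1 h2
      rw [← (hfo p hp).2] at h1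
      rw [← (hfo q hq).2] at h2
      obtain ⟨hij, l, hl, a1, a2, a3⟩ := h1
      obtain ⟨_, m, hm, b1, b2, b3⟩ := h2
      have e1 : l = m := H.P.line_unique (H.inj.ne hij) hl hm a2 a3 b2 b3
      rw [← e1] at b1
      have e2 : l = b := H.P.line_unique hpq hl hb a1 b1 hp hq
      rw [e2] at a2
      exact hsec i a2
    have hext : ∀ p ∈ b, ∀ q ∈ b, p ≠ q → ∀ l ∈ L', f p ∈ l → f q ∈ l → ∀ i, h' i ∉ l := by
      intro p hp q hq hpq l hl h1 h2
      exact H'.ext_of (hfo p hp).1 (hfo q hq).1 (hdis p hp q hq hpq) hl h1 h2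
    -- two points
    have hb5 := H.P.l5 hb
    obtain ⟨p1, hp1⟩ := Finset.card_pos.1 (by omega : 0 < b.card)
    obtain ⟨p2, hp2⟩ := Finset.card_pos.1 (by rw [Finset.card_erase_of_mem hp1]; omega : 0 < (b.erase p1).card)
    rw [Finset.mem_erase] at hp2
    have h12 : p1 ≠ p2 := hp2.1.symm
    obtain ⟨m1, hm1, m11, m12⟩ := H'.P.exists_line (hfi p1 hp1 p2 hp2.2 h12)
    refine ⟨m1, hm1, ?_⟩
    intro z hz q hg
    have hqz : q = f z := H.G_unique H' hg (hf z)
    rw [hqz]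
    by_contra hzm
    have hz1 : p1 ≠ z := by rintro rfl; exact hzm m11
    have hz2 : p2 ≠ z := by rintro rfl; exact hzm m12
    obtain ⟨m2, hm2, m21, m22⟩ := H'.P.exists_line (hfi p1 hp1 z hz hz1)
    obtain ⟨m3, hm3, m31, m32⟩ := H'.P.exists_line (hfi p2 hp2.2 z hz hz2)
    have n12 : m1 ≠ m2 := by rintro rfl; exact hzm m22
    have n13 : m1 ≠ m3 := by rintro rfl; exact hzm m32
    have n23 : m2 ≠ m3 := by
      rintro rfl
      exact n12 (H'.P.line_unique (hfi p1 hp1 p2 hp2.2 h12) hm1 hm2 m11 m12 m21 m31)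
    obtain ⟨w, hw⟩ := Finset.card_pos.1 (by
      rw [Finset.card_erase_of_mem (by simp [hz, hz1.symm, hz2.symm] : z ∈ (b.erase p1).erase p2), Finset.card_erase_of_mem (by simp [h12.symm, hp2.2] : p2 ∈ b.erase p1),
        Finset.card_erase_of_mem hp1]; omega : 0 < (((b.erase p1).erase p2).erase z).card)
    simp only [Finset.mem_erase] at hw
    obtain ⟨hwz, hw2, hw1, hwb⟩ := hw
    obtain ⟨k1, hk1, k11, k12⟩ := H'.P.exists_line (hfi p1 hp1 w hwb hw1.symm)
    obtain ⟨k2, hk2, k21, k22⟩ := H'.P.exists_line (hfi p2 hp2.2 w hwb hw2.symm)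
    obtain ⟨k3, hk3, k31, k32⟩ := H'.P.exists_line (hfi z hz w hwb hwz.symm)
    have x1 := hext p1 hp1 p2 hp2.2 h12 m1 hm1 m11 m12
    have x2 := hext p1 hp1 z hz hz1 m2 hm2 m21 m22
    have x3 := hext p2 hp2.2 z hz hz2 m3 hm3 m31 m32
    have y1 := hext p1 hp1 w hwb hw1.symm k1 hk1 k11 k12
    have y2 := hext p2 hp2.2 w hwb hw2.symm k2 hk2 k21 k22
    have y3 := hext z hz w hwb hwz.symm k3 hk3 k31 k32
    have c1 : k1 = m1 ∨ k1 = m2 := by
      by_cases hk : k1 = m1
      · exact Or.inl hk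
      · right
        exact (H'.ext_lines (hfo p1 hp1).1 hm1 hm2 hk1 m11 m21 k11 x1 x2 y1 n12 (Ne.symm hk)).symm
    have c2 : k2 = m1 ∨ k2 = m3 := by
      by_cases hk : k2 = m1
      · exact Or.inl hk
      · right
        exact (H'.ext_lines (hfo p2 hp2.2).1 hm1 hm3 hk2 m12 m31 k21 x1 x3 y2 n13 (Ne.symm hk)).symm
    have c3 : k3 = m2 ∨ k3 = m3 := by
      by_cases hk : k3 = m2
      · exact Or.inl hk
      · right
        exact (H'.ext_lines (hfo z hz).1 hm2 hm3 hk3 m22 m32 k31 x2 x3 y3 n23 (Ne.symm hk)).symm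
    have hfw1 := hfi p1 hp1 w hwb hw1.symm
    have hfw2 := hfi p2 hp2.2 w hwb hw2.symm
    have hfwz := hfi z hz w hwb hwz.symm
    rcases c1 with c1 | c1
    · rw [c1] at k12
      rcases c3 with c3 | c3
      · rw [c3] at k32
        exact hfw1 (H'.P.inter_le hm1 hm2 n12 m11 m21 k12 k32)
      · rw [c3] at k32
        exact hfw2 (H'.P.inter_le hm1 hm3 n13 m12 m31 k12 k32)
    · rw [c1] at k12
      rcases c2 with c2 | c2
      · rw [c2] at k22
        exact hfw1 (H'.P.inter_le hm1 hm2 n12 m11 m21 k22 k12)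
      · rw [c2] at k22
        exact hfwz (H'.P.inter_le hm2 hm3 n23 m22 m32 k12 k22)

/-- the isomorphism -/
theorem exists_iso (H : Hy L h) (H' : Hy L' h') : ∃ e : α ≃ β, (fun b => b.image e) '' L = L' ∧ ∀ i, e (h i) = h' i := by
  choose f hf using H.G_exists H'
  choose g hg using H'.G_exists H
  let e : α ≃ β :=
    { toFun := f
      invFun := g
      left_inv := fun p => H'.G_unique H (hg (f p)) (hf p).symm
      right_inv := fun q => H.G_unique H' (hf (g q)) (hg q).symm }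
  have hmap : ∀ b ∈ L, b.image e ∈ L' := by
    intro b hb
    obtain ⟨b', hb', hbb⟩ := H.map_line H' hb
    have : b.image e = b' := by
      apply Finset.eq_of_subset_of_card_le
      · intro q hq
        obtain ⟨p, hp, rfl⟩ := Finset.mem_image.1 hq
        exact hbb p hp _ (hf p)
      · rw [Finset.card_image_of_injective _ e.injective, H.P.l5 hb, H'.P.l5 hb']
    rw [this]; exact hb'
  have hmap' : ∀ b ∈ L', b.image e.symm ∈ L := by
    intro b hb
    obtain ⟨b', hb', hbb⟩ := H'.map_line H hb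
    have : b.image e.symm = b' := by
      apply Finset.eq_of_subset_of_card_le
      · intro q hq
        obtain ⟨p, hp, rfl⟩ := Finset.mem_image.1 hq
        exact hbb p hp _ (hg p)
      · rw [Finset.card_image_of_injective _ e.symm.injective, H'.P.l5 hb, H.P.l5 hb']
    rw [this]; exact hb'
  refine ⟨e, ?_, fun i => ?_⟩
  · apply Set.Subset.antisymm
    · rintro _ ⟨b, hb, rfl⟩
      exact hmap b hb
    · intro b hb
      refine ⟨b.image e.symm, hmap' b hb, ?_⟩
      show (b.image e.symm).image e = b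
      rw [Finset.image_image, Equiv.self_comp_symm, Finset.image_id]
  · exact H.G_unique H' (hf (h i)) (Or.inl ⟨i, rfl, rfl⟩)

/-- uniqueness -/
theorem iso_unique (H : Hy L h) {e e' : α ≃ β} (P' : Pl L') (he : (fun b => b.image e) '' L = L') (he' : (fun b => b.image e') '' L = L')
    (hee : ∀ i, e (h i) = e' (h i)) : e = e' := by
  apply Equiv.ext
  intro p
  by_cases hp : ∃ i, p = h i
  · obtain ⟨i, rfl⟩ := hp; exact hee i
  · push Not at hp
    have hp' : ∀ i, h i ≠ p := fun i => (hp i).symm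
    have hm : ∀ b ∈ L, b.image e ∈ L' := fun b hb => by rw [← he]; exact ⟨b, hb, rfl⟩
    have hm' : ∀ b ∈ L, b.image e' ∈ L' := fun b hb => by rw [← he']; exact ⟨b, hb, rfl⟩
    obtain ⟨j, hj⟩ := H.exists_partner hp' 0
    obtain ⟨k, hk0, hkj⟩ := exists_other 0 j
    obtain ⟨l, hl⟩ := H.exists_partner hp' k
    obtain ⟨h0j, m, hm1, m1, m2, m3⟩ := hj
    obtain ⟨hkl, n, hn1, n1, n2, n3⟩ := hl
    have hmn : m ≠ n := by
      rintro rfl
      exact H.three hm1 h0j hk0.symm hkj.symm m2 m3 n2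
    have em : m.image e = m.image e' := P'.line_unique (p := e (h 0)) (q := e (h j)) (fun hh => H.inj.ne h0j (e.injective hh))
      (hm m hm1) (hm' m hm1) (Finset.mem_image_of_mem _ m2) (Finset.mem_image_of_mem _ m3)
      (by rw [hee]; exact Finset.mem_image_of_mem _ m2) (by rw [hee]; exact Finset.mem_image_of_mem _ m3)
    have en : n.image e = n.image e' := P'.line_unique (p := e (h k)) (q := e (h l)) (fun hh => H.inj.ne hkl (e.injective hh))
      (hm n hn1) (hm' n hn1) (Finset.mem_image_of_mem _ n2) (Finset.mem_image_of_mem _ n3)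
      (by rw [hee]; exact Finset.mem_image_of_mem _ n2) (by rw [hee]; exact Finset.mem_image_of_mem _ n3)
    have hmn' : m.image e ≠ n.image e := fun hh => hmn (Finset.image_injective e.injective hh)
    exact P'.inter_le (hm m hm1) (hm n hn1) hmn' (Finset.mem_image_of_mem _ m1) (Finset.mem_image_of_mem _ n1)
      (by rw [em]; exact Finset.mem_image_of_mem _ m1) (by rw [en]; exact Finset.mem_image_of_mem _ n1)

end Hy

theorem Pl.exists_hy (P : Pl L) : ∃ h : Fin 6 → α, Hy L h := by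
  have h1 : 0 < (Pl.I L 6).card := by rw [P.card_I6]; norm_num
  obtain ⟨S, hS⟩ := Finset.card_pos.1 h1
  rw [Pl.mem_I] at hS
  let e : Fin 6 ≃ S := (S.equivFinOfCardEq hS.1).symm
  have hinj : Function.Injective (fun i => (e i : α)) := Subtype.val_injective.comp e.injective
  refine ⟨fun i => e i, P, hinj, ?_⟩
  have : Finset.univ.image (fun i => (e i : α)) = S := by
    apply Finset.eq_of_subset_of_card_le
    · intro x hx
      obtain ⟨i, _, rfl⟩ := Finset.mem_image.1 hx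
      exact (e i).2
    · rw [hS.1, Finset.card_image_of_injective _ hinj, Finset.card_univ, Fintype.card_fin]
  rw [this]; exact hS.2

end Cfsg.Agent.H28.Pl
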