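import Cfsg.Agent.H28_FSet

set_option autoImplicit false
set_option linter.all false
open Cfsg
open scoped commutatorElement

namespace Cfsg.Agent.H28.Large

open Cfsg.Agent.H28.Xsp

variable {G : Type*} [Group G] [Finite G]

theorem mk_eq_iff {M N₀ : Subgroup G} [hn : (N₀.subgroupOf M).Normal] (a b : ↥M) :
    QuotientGroup.mk' (N₀.subgroupOf M) a = QuotientGroup.mk' (N₀.subgroupOf M) b ↔
      (a : G) * (b : G)⁻¹ ∈ N₀ := by
  rw [← mul_inv_eq_one, ← map_inv, ← map_mul]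
  show (QuotientGroup.mk (a * b⁻¹) : ↥M ⧸ (N₀.subgroupOf M)) = 1 ↔ _
  rw [QuotientGroup.eq_one_iff, Subgroup.mem_subgroupOf]
  rfl

/-- passing to a quotient `M / N₀`. -/
theorem pre_quot {M N₀ R : Subgroup G} [hn : (N₀.subgroupOf M).Normal] (hRM : R ≤ M) {z : G}
    (hzR : z ∈ R) (hzN : z ∉ N₀) (hzz : z * z = 1) (hzc : ∀ r ∈ R, z * r = r * z)
    (hcomm : ∀ r ∈ R, ∀ s ∈ R, r * s = s * r ∨ r * s = z * (s * r))
    (hsqr : ∀ r ∈ R, r * r = 1 ∨ r * r = z)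
    (hcent : ∀ m ∈ M, (∀ s ∈ R, m * s * m⁻¹ * s⁻¹ ∈ N₀) → m ∈ N₀ ∨ z * m ∈ N₀)
    (hnorm : ∀ m ∈ M, m * z * m⁻¹ * z⁻¹ ∈ N₀ → ∀ r ∈ R, m * r * m⁻¹ ∈ R)
    (hnc : ∃ r ∈ R, ∃ s ∈ R, r * s ≠ s * r) :
    Pre ((R.subgroupOf M).map (QuotientGroup.mk' (N₀.subgroupOf M)))
      (QuotientGroup.mk' (N₀.subgroupOf M) ⟨z, hRM hzR⟩) := by
  set π := QuotientGroup.mk' (N₀.subgroupOf M) with hπ
  have hzi : z⁻¹ = z := inv_eq_of_mul_eq_one_left hzz
  have hmem : ∀ y, y ∈ (R.subgroupOf M).map π ↔ ∃ r, ∃ hr : r ∈ R, π ⟨r, hRM hr⟩ = y := by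
    intro y
    constructor
    · rintro ⟨⟨r, hrM⟩, hr, rfl⟩
      exact ⟨r, Subgroup.mem_subgroupOf.mp hr, rfl⟩
    · rintro ⟨r, hr, rfl⟩
      exact ⟨⟨r, hRM hr⟩, Subgroup.mem_subgroupOf.mpr hr, rfl⟩
  have hcent' : ∀ m : ↥M, (∀ s, ∀ hs : s ∈ R, π m * π ⟨s, hRM hs⟩ = π ⟨s, hRM hs⟩ * π m) →
      π m = 1 ∨ π m = π ⟨z, hRM hzR⟩ := by
    intro m hm
    have h1 : ∀ s ∈ R, (m : G) * s * (m : G)⁻¹ * s⁻¹ ∈ N₀ := by
      intro s hs
      have h2 := hm s hs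
      rw [← map_mul, ← map_mul, mk_eq_iff] at h2
      have h3 : ((m * ⟨s, hRM hs⟩ : ↥M) : G) * ((⟨s, hRM hs⟩ * m : ↥M) : G)⁻¹ =
          (m : G) * s * (m : G)⁻¹ * s⁻¹ := by
        simp only [Subgroup.coe_mul]; group
      rwa [h3] at h2
    rcases hcent m m.2 h1 with h2 | h2
    · left
      rw [← map_one π, mk_eq_iff]
      simpa using h2
    · right
      rw [mk_eq_iff]
      -- z * m ∈ N₀, want m * z⁻¹ ∈ N₀
      have h4 : (⟨z, hRM hzR⟩ * m : ↥M) ∈ N₀.subgroupOf M := Subgroup.mem_subgroupOf.mpr h2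
      have h5 := hn.conj_mem _ h4 (⟨z, hRM hzR⟩⁻¹)
      have h6 : (⟨z, hRM hzR⟩⁻¹ : ↥M) * (⟨z, hRM hzR⟩ * m) * (⟨z, hRM hzR⟩⁻¹ : ↥M)⁻¹ = m * ⟨z, hRM hzR⟩ := by group
      rw [h6, Subgroup.mem_subgroupOf] at h5
      rw [hzi]; exact h5
  refine ⟨⟨?_, ?_, ?_, ?_, ?_, ?_, ?_⟩, ?_, ?_, ?_⟩
  · exact (hmem _).mpr ⟨z, hzR, rfl⟩
  · intro h1
    apply hzN
    rw [← map_one π, mk_eq_iff] at h1
    simpa using h1
  · rw [← map_mul]
    have : (⟨z, hRM hzR⟩ * ⟨z, hRM hzR⟩ : ↥M) = 1 := Subtype.ext hzz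
    rw [this, map_one]
  · intro y hy
    obtain ⟨r, hr, rfl⟩ := (hmem y).mp hy
    rw [← map_mul, ← map_mul]
    congr 1
    exact Subtype.ext (hzc r hr)
  · intro y hy w hw
    obtain ⟨r, hr, rfl⟩ := (hmem y).mp hy
    obtain ⟨s, hs, rfl⟩ := (hmem w).mp hw
    rw [← map_mul, ← map_mul, ← map_mul]
    rcases hcomm r hr s hs with h1 | h1
    · left; congr 1; exact Subtype.ext h1
    · right; congr 1; exact Subtype.ext h1
  · intro y hy
    obtain ⟨r, hr, rfl⟩ := (hmem y).mp hy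
    rw [← map_mul]
    rcases hsqr r hr with h1 | h1
    · left
      have : (⟨r, hRM hr⟩ * ⟨r, hRM hr⟩ : ↥M) = 1 := Subtype.ext h1
      rw [this, map_one]
    · right
      congr 1
      exact Subtype.ext h1
  · intro y hy hc
    obtain ⟨r, hr, rfl⟩ := (hmem y).mp hy
    apply hcent'
    intro s hs
    exact hc _ ((hmem _).mpr ⟨s, hs, rfl⟩)
  · apply le_antisymm
    · intro y hy
      obtain ⟨m, rfl⟩ := QuotientGroup.mk'_surjective (N₀.subgroupOf M) y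
      rw [Subgroup.mem_centralizer_iff] at hy
      have h1 := hcent' m (fun s hs => (hy _ ((hmem _).mpr ⟨s, hs, rfl⟩)).symm)
      rcases h1 with h1 | h1
      · have h1' : (QuotientGroup.mk' (N₀.subgroupOf M)) m = 1 := h1
        rw [h1']; exact one_mem _
      · have h1' : (QuotientGroup.mk' (N₀.subgroupOf M)) m = π ⟨z, hRM hzR⟩ := h1
        rw [h1']; exact Subgroup.mem_zpowers _
    · rw [Subgroup.zpowers_le, Subgroup.mem_centralizer_iff]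
      intro y hy
      obtain ⟨r, hr, rfl⟩ := (hmem y).mp hy
      rw [← map_mul, ← map_mul]
      congr 1
      exact Subtype.ext (hzc r hr).symm
  · intro y hy
    obtain ⟨m, hm⟩ := QuotientGroup.mk'_surjective (N₀.subgroupOf M) y
    have hm' : π m = y := hm
    rw [Subgroup.mem_centralizer_singleton_iff, ← hm', ← map_mul, ← map_mul, mk_eq_iff] at hy
    have h3 : ((m * ⟨z, hRM hzR⟩ : ↥M) : G) * ((⟨z, hRM hzR⟩ * m : ↥M) : G)⁻¹ =
        (m : G) * z * (m : G)⁻¹ * z⁻¹ := by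
      simp only [Subgroup.coe_mul]; group
    rw [h3] at hy
    have h4 := hnorm m m.2 hy
    -- normalizer
    have h5 : ((R.subgroupOf M).map π).map (MulAut.conj y).toMonoidHom ≤ (R.subgroupOf M).map π := by
      rintro _ ⟨w, hw, rfl⟩
      obtain ⟨r, hr, rfl⟩ := (hmem w).mp hw
      apply (hmem _).mpr
      refine ⟨(m : G) * r * (m : G)⁻¹, h4 r hr, ?_⟩
      show _ = y * π ⟨r, hRM hr⟩ * y⁻¹
      rw [← hm', ← map_inv, ← map_mul, ← map_mul]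
      congr 1
    have h6 : ((R.subgroupOf M).map π).map (MulAut.conj y).toMonoidHom = (R.subgroupOf M).map π := by
      apply Subgroup.eq_of_le_of_card_ge h5
      have h8 : Nat.card (((R.subgroupOf M).map π).map (MulAut.conj y).toMonoidHom) =
          Nat.card ((R.subgroupOf M).map π) := Subgroup.card_map_of_injective (MulAut.conj y).injective
      exact h8.ge
    rw [Subgroup.mem_normalizer_iff]
    intro w
    constructor
    · intro hw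
      rw [← h6]; exact ⟨w, hw, rfl⟩
    · intro hw
      rw [← h6] at hw
      obtain ⟨v, hv, hvw⟩ := hw
      have : v = w := by
        have h7 : y * v * y⁻¹ = y * w * y⁻¹ := hvw
        exact mul_left_cancel (mul_right_cancel h7)
      rwa [← this]
  · obtain ⟨r, hr, s, hs, hrs⟩ := hnc
    refine ⟨π ⟨r, hRM hr⟩, (hmem _).mpr ⟨r, hr, rfl⟩, π ⟨s, hRM hs⟩, (hmem _).mpr ⟨s, hs, rfl⟩, ?_⟩
    intro h1
    rw [← map_mul, ← map_mul, mk_eq_iff] at h1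
    have h2 := (hcomm r hr s hs).resolve_left hrs
    apply hzN
    have h3 : ((⟨r, hRM hr⟩ * ⟨s, hRM hs⟩ : ↥M) : G) * ((⟨s, hRM hs⟩ * ⟨r, hRM hr⟩ : ↥M) : G)⁻¹ = z := by
      show r * s * (s * r)⁻¹ = z
      rw [h2]; group
    rwa [h3] at h1

end Cfsg.Agent.H28.Large
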