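import Mathlib
import Cfsg.Agent.H16_OneCl
import Cfsg.Agent.H16_MatOm
import Cfsg.Prelude.Def_FischerSpaces

set_option autoImplicit false

/-! Reflections of one norm class over the field with three elements (adapted from the even-dimensional case). -/

namespace Cfsg.Agent.H28.RF

open Cfsg Cfsg.Agent

open Cfsg.Agent.H16.Quad Module in
theorem cl_index {F : Type*} [Field F] [Fintype F] (h2 : (2 : F) ≠ 0) {n : ℕ} (hn : 5 ≤ n) (Q : QuadraticForm F (Fin n → F)) (hQ : (QuadraticMap.polarBilin Q).Nondegenerate) (c : F) (hc : c ≠ 0) : (Subgroup.closure {g : ↥(Cfsg.isometryGroup F ⇑Q) | ∃ (v : Fin n → F) (t : F), t ≠ 0 ∧ Q v = c * t ^ 2 ∧ ((g : Matrix.GeneralLinearGroup (Fin n) F) : Matrix (Fin n) (Fin n) F) = Cfsg.reflectionMatrix ⇑Q v}).index = 2 := by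
  have hne : Nat.card F ≠ 2 := card_ne_two_of h2
  have hfr : finrank F (Fin n → F) = n := Module.finrank_fin_fun F
  obtain ⟨δ, θ, hch, hδ⟩ := exists_chars hQ (Or.inl hne)
  have hcond : finrank F (Fin n → F) = 2 ∨ (4 ≤ finrank F (Fin n → F) ∧ Nat.card F ≠ 3) ∨ 5 ≤ finrank F (Fin n → F) := by
    rw [hfr, Nat.card_eq_fintype_card]
    right; right; exact hn
  -- character
  obtain ⟨ψ, hψ⟩ : ∃ ψ : OG Q →* ℤˣ, ∀ v, Q v ≠ 0 → (ψ (rf Q v) = 1 ↔ IsSquare (Q v * c)) := by
    by_cases hsq : IsSquare c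
    · refine ⟨θ, fun v hv => ?_⟩
      rw [hch.the v hv, isSquare_mul_iff hv hc]
      tauto
    · refine ⟨δ * θ, fun v hv => ?_⟩
      rw [MonoidHom.mul_apply, hch.del v hv, isSquare_mul_iff hv hc, ← hch.the v hv]
      rcases Int.units_eq_one_or (θ (rf Q v)) with h | h <;> rw [h]
      · simp [hsq]
      · simp [hsq]
  -- the subgroup is the kernel
  have hle : clS Q c ≤ ψ.ker := by
    rw [clS, Subgroup.closure_le]
    rintro _ ⟨v, t, ht, hv, rfl⟩
    have hv0 : Q v ≠ 0 := by rw [hv]; exact mul_ne_zero hc (pow_ne_zero 2 ht)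
    exact (hψ v hv0).2 ⟨c * t, by rw [hv]; ring⟩
  have hnorm : (clS Q c).Normal := by
    refine ⟨fun x hx g => ?_⟩
    rw [clS] at hx ⊢
    induction hx using Subgroup.closure_induction with
    | mem y hy =>
      obtain ⟨v, t, ht, hv, rfl⟩ := hy
      rw [rf_conj]
      exact Subgroup.subset_closure ⟨_, t, ht, by rw [mem_OG.1 g.2, hv], rfl⟩
    | one => simp [Subgroup.one_mem]
    | mul a b _ _ ha hb =>
      have : g * (a * b) * g⁻¹ = (g * a * g⁻¹) * (g * b * g⁻¹) := by group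
      rw [this]; exact Subgroup.mul_mem _ ha hb
    | inv a _ ha =>
      have : g * a⁻¹ * g⁻¹ = (g * a * g⁻¹)⁻¹ := by group
      rw [this]; exact Subgroup.inv_mem _ ha
  have hker : ψ.ker ≤ clS Q c := by
    intro g hg
    obtain ⟨vs, hvs, rfl⟩ := exists_rpr hQ (Or.inl hne) g
    -- images in the quotient
    have hpair : ∀ a b : Fin n → F, Q a ≠ 0 → Q b ≠ 0 → IsSquare (Q a * Q b) → rf Q a * rf Q b ∈ clS Q c := by
      intro a b ha hb hab
      obtain ⟨r, hr⟩ := hab
      have hr0 : r ≠ 0 := by rintro rfl; exact mul_ne_zero ha hb (by rw [hr]; ring)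
      have h1 : Q ((r / Q b) • b) = Q a := by
        rw [H16.Quad.map_smul]; field_simp; linear_combination -hr
      have h3 := rf_rf_mem_clS' hQ h2 hc hch hδ hcond ha (b := (r / Q b) • b) h1.symm
      rwa [rf_smul (div_ne_zero hr0 hb)] at h3
    obtain ⟨B, hB2, hB⟩ : ∃ B : OG Q ⧸ clS Q c, B * B = 1 ∧ ∀ v, Q v ≠ 0 → ¬ IsSquare (Q v * c) → (QuotientGroup.mk (rf Q v) : OG Q ⧸ clS Q c) = B := by
      by_cases hex : ∃ v, Q v ≠ 0 ∧ ¬ IsSquare (Q v * c)
      · obtain ⟨v, hv, hv2⟩ := hex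
        refine ⟨QuotientGroup.mk (rf Q v), by rw [← QuotientGroup.mk_mul, rf_sq]; rfl, fun w hw hw2 => ?_⟩
        rw [QuotientGroup.eq]
        have i1 : (rf Q w)⁻¹ = rf Q w := inv_eq_of_mul_eq_one_right (rf_sq w)
        rw [i1]
        apply hpair w v hw hv
        rw [isSquare_mul_iff hw hv]
        rw [isSquare_mul_iff hv hc] at hv2
        rw [isSquare_mul_iff hw hc] at hw2
        tauto
      · push Not at hex
        exact ⟨1, by simp, fun v hv hv2 => absurd (hex v hv) hv2⟩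
    have key : ∀ ws : List (Fin n → F), (∀ v ∈ ws, Q v ≠ 0) → ∃ k : ℕ, (QuotientGroup.mk (rpr Q ws) : OG Q ⧸ clS Q c) = B ^ k ∧ ψ (rpr Q ws) = (-1) ^ k := by
      intro ws hws
      induction ws with
      | nil => exact ⟨0, by rw [rpr_nil]; simp, by rw [rpr_nil]; simp⟩
      | cons v ws ih =>
        have hv := hws v List.mem_cons_self
        obtain ⟨k, hk1, hk2⟩ := ih fun w hw => hws w (List.mem_cons_of_mem _ hw)
        by_cases hsq : IsSquare (Q v * c)
        · refine ⟨k, ?_, ?_⟩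
          · rw [rpr_cons, QuotientGroup.mk_mul, hk1, (QuotientGroup.eq_one_iff _).2 (rf_mem_clS hc hv hsq), one_mul]
          · rw [rpr_cons, _root_.map_mul, hk2, (hψ v hv).2 hsq, one_mul]
        · refine ⟨k + 1, ?_, ?_⟩
          · rw [rpr_cons, QuotientGroup.mk_mul, hk1, hB v hv hsq, pow_succ']
          · rw [rpr_cons, _root_.map_mul, hk2, pow_succ']
            congr 1
            rcases Int.units_eq_one_or (ψ (rf Q v)) with h | h
            · exact absurd ((hψ v hv).1 h) hsq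
            · exact h
    obtain ⟨k, hk1, hk2⟩ := key vs hvs
    rw [MonoidHom.mem_ker.1 hg] at hk2
    have hev : Even k := by
      by_contra hodd
      rw [Nat.not_even_iff_odd] at hodd
      rw [hodd.neg_one_pow] at hk2
      exact absurd hk2 (by decide)
    obtain ⟨j, rfl⟩ := hev
    rw [← QuotientGroup.eq_one_iff, hk1, ← two_mul, pow_mul, sq, hB2, one_pow]
  have heq : clS Q c = ψ.ker := le_antisymm hle hker
  have hidx : (clS Q c).index = 2 := by
    have hsurj : Function.Surjective ψ := by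
      obtain ⟨⟨v, hv, hv2⟩, w, hw, hw2⟩ := exists_both hQ h2 (by rw [hfr]; omega)
      have hex : ∃ x, Q x ≠ 0 ∧ ¬ IsSquare (Q x * c) := by
        by_cases hsq : IsSquare c
        · exact ⟨w, hw, by rw [isSquare_mul_iff hw hc]; tauto⟩
        · exact ⟨v, hv, by rw [isSquare_mul_iff hv hc]; tauto⟩
      obtain ⟨x, hx, hx2⟩ := hex
      intro a
      rcases Int.units_eq_one_or a with rfl | rfl
      · exact ⟨1, by simp⟩
      · refine ⟨rf Q x, ?_⟩
        rcases Int.units_eq_one_or (ψ (rf Q x)) with h | h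
        · exact absurd ((hψ x hx).1 h) hx2
        · exact h
    rw [heq, Subgroup.index_ker, MonoidHom.range_eq_top.2 hsurj]
    simp [Nat.card_eq_fintype_card]
  have hfin : Subgroup.closure {g : ↥(Cfsg.isometryGroup F ⇑Q) | ∃ (v : Fin n → F) (t : F), t ≠ 0 ∧ Q v = c * t ^ 2 ∧ ((g : Matrix.GeneralLinearGroup (Fin n) F) : Matrix (Fin n) (Fin n) F) = Cfsg.reflectionMatrix ⇑Q v} =
      (clS Q c).comap (toOG Q).toMonoidHom := by
    rw [clS, closure_comap_toOG]
    congr 1
    ext x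
    constructor
    · rintro ⟨v, t, ht, hv, hx⟩
      exact ⟨v, t, ht, hv, toOG_refl hx⟩
    · rintro ⟨v, t, ht, hv, hx⟩
      refine ⟨v, t, ht, hv, ?_⟩
      have hx' : x = (toOG Q).symm (rf Q v) := by rw [← hx]; simp
      rw [hx', symm_rf_coe]
  rw [hfin, Subgroup.index_comap_of_surjective _ (toOG Q).surjective, hidx]



end Cfsg.Agent.H28.RF
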