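import Mathlib
import Cfsg.Agent.H28_RF
import Cfsg.Agent.H28_TT1

set_option autoImplicit false

/-! Reflections over the field with three elements: vectors. -/

namespace Cfsg.Agent.H28.RF

open Cfsg Cfsg.Agent Cfsg.Agent.H16.Quad Module
open QuadraticMap (polar)

abbrev K := ZMod 3

theorem z3 : ∀ c : ZMod 3, c ≠ 0 → c * c = 1 := by decide
theorem k2 : (2 : ZMod 3) ≠ 0 := by decide
theorem f1 : ∀ c : ZMod 3, -c + -c + 0 = c := by decide
theorem f2 : ∀ c : ZMod 3, -c + -c - 0 = c := by decide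
theorem f3 : ∀ a c : ZMod 3, a ≠ 0 → c ≠ 0 → a ≠ c → a = -c := by decide

variable {V : Type*} [AddCommGroup V] [Module (ZMod 3) V] [FiniteDimensional (ZMod 3) V] {Q : QuadraticForm (ZMod 3) V}

theorem exists_perp1 (hQ : (QuadraticMap.polarBilin Q).Nondegenerate) {u : V} (hu : Q u ≠ 0) (hd : 3 ≤ finrank (ZMod 3) V)
    {d : ZMod 3} (hd0 : d ≠ 0) : ∃ x, Q x = d ∧ polar Q u x = 0 := by
  have hu0 : u ≠ 0 := by rintro rfl; simp at hu
  have hnd := nd_perp hQ (disjoint_span_singleton k2 hu)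
  have hfr := finrank_perp_singleton hQ hu0
  obtain ⟨x, hx⟩ := exists_norm hnd (by rw [hfr]; omega) hd0
  exact ⟨x, hx, mem_perp_span_singleton.1 x.2⟩

theorem exists_perp2 (hQ : (QuadraticMap.polarBilin Q).Nondegenerate) {u v : V} (hu : Q u ≠ 0) (hv : Q v ≠ 0)
    (huv : polar Q u v = 0) (hd : 4 ≤ finrank (ZMod 3) V) {d : ZMod 3} (hd0 : d ≠ 0) :
    ∃ x, Q x = d ∧ polar Q u x = 0 ∧ polar Q v x = 0 := by
  have hu0 : u ≠ 0 := by rintro rfl; simp at hu
  have hnd := nd_perp hQ (disjoint_span_singleton k2 hu)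
  have hfr := finrank_perp_singleton hQ hu0
  let v1 : perp Q (Submodule.span (ZMod 3) {u}) := ⟨v, mem_perp_span_singleton.2 huv⟩
  obtain ⟨x, hx, hx2⟩ := exists_perp1 hnd (u := v1) hv (by rw [hfr]; omega) hd0
  exact ⟨x, hx, mem_perp_span_singleton.1 x.2, hx2⟩

theorem exists_nonperp (hQ : (QuadraticMap.polarBilin Q).Nondegenerate) {w : V} (hw : w ≠ 0) (hd : 3 ≤ finrank (ZMod 3) V)
    {c : ZMod 3} (hc : c ≠ 0) : ∃ x, Q x = c ∧ polar Q x w ≠ 0 := by
  by_contra hcon
  push Not at hcon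
  apply hw
  have hcc := z3 c hc
  -- anisotropic vectors
  have h1 : ∀ y, Q y ≠ 0 → polar Q y w = 0 := by
    intro y hy
    by_cases hyc : Q y = c
    · exact hcon y hyc
    have hyc' : Q y = -c := f3 _ _ hy hc hyc
    obtain ⟨x, hx, hx2⟩ := exists_perp1 hQ hy hd (d := -c) (neg_ne_zero.2 hc)
    have e1 := hcon (y + x) (by rw [H16.Quad.map_add, hx, hx2, hyc', f1])
    have e2 := hcon (y - x) (by rw [H16.Quad.map_sub, hx, hx2, hyc', f2])
    rw [QuadraticMap.polar_add_left] at e1
    rw [QuadraticMap.polar_sub_left] at e2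
    generalize polar Q y w = a at e1 e2 ⊢
    generalize polar Q x w = b at e1 e2
    revert a b; decide
  apply nd_eq_zero hQ
  intro y
  rw [polar_symm]
  by_cases hy : Q y = 0
  · by_cases hy0 : y = 0
    · rw [hy0, QuadraticMap.polar_zero_left]
    obtain ⟨z, hz, hyz⟩ := exists_partner hQ hy0 hy
    have e1 := h1 (y + z) (by rw [H16.Quad.map_add, hy, hz, hyz]; decide)
    have e2 := h1 (y + (y + z)) (by
      rw [H16.Quad.map_add, H16.Quad.map_add, hy, hz, hyz, QuadraticMap.polar_add_right, polar_self, hy, hyz]; decide)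
    rw [QuadraticMap.polar_add_left, e1, add_zero] at e2
    exact e2
  · exact h1 y hy

/-- two non-orthogonal vectors of the same norm have a common orthogonal vector of that norm -/
theorem exists_perp_both (hQ : (QuadraticMap.polarBilin Q).Nondegenerate) {u v : V} {c : ZMod 3} (hc : c ≠ 0) (hu : Q u = c)
    (hv : Q v = c) (huv : polar Q u v ≠ 0) (h1 : v ≠ u) (h2 : v ≠ -u) (hd : 5 ≤ finrank (ZMod 3) V) :
    ∃ x, Q x = c ∧ polar Q u x = 0 ∧ polar Q v x = 0 := by
  have main : ∀ v' : V, Q v' = c → polar Q u v' = 2 * c → v' ≠ u → ∃ x, Q x = c ∧ polar Q u x = 0 ∧ polar Q v' x = 0 := by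
    intro v' hv' hp hne
    have hu0 : u ≠ 0 := by rintro rfl; rw [QuadraticMap.map_zero] at hu; exact hc hu.symm
    have hnd := nd_perp hQ (disjoint_span_singleton k2 (v := u) (by rw [hu]; exact hc))
    have hfr := finrank_perp_singleton hQ hu0
    have hz0 : u - v' ≠ 0 := fun h => hne (sub_eq_zero.1 h).symm
    have hzp : polar Q u (u - v') = 0 := by
      rw [QuadraticMap.polar_sub_right, polar_self, hp, hu, sub_self]
    have hQz : Q (u - v') = 0 := by
      rw [H16.Quad.map_sub, hu, hv', hp]; ring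
    obtain ⟨z1, hz1⟩ : ∃ z1 : perp Q (Submodule.span (ZMod 3) {u}), (z1 : V) = u - v' :=
      ⟨⟨u - v', mem_perp_span_singleton.2 hzp⟩, rfl⟩
    have hz10 : z1 ≠ 0 := by
      intro h; apply hz0; rw [← hz1, h]; rfl
    have hQz1 : (Q.comp (perp Q (Submodule.span (ZMod 3) {u})).subtype) z1 = 0 := by
      show Q (z1 : V) = 0; rw [hz1, hQz]
    obtain ⟨y, hy, hzy⟩ := exists_partner hnd hz10 hQz1
    have hfam : HypFam (Q.comp (perp Q (Submodule.span (ZMod 3) {u})).subtype) (fun _ : Fin 1 => z1) (fun _ => y) := by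
      refine ⟨fun _ => hQz1, fun _ => hy, fun i j => ?_, fun _ _ => ?_, fun _ _ => ?_⟩
      · rw [if_pos (Subsingleton.elim i j)]; exact hzy
      · rw [polar_self, hQz1, mul_zero]
      · rw [polar_self, hy, mul_zero]
    have hnd2 := nd_perp hnd hfam.disjoint
    have hfr2 := hfam.finrank_perp hnd
    obtain ⟨x, hx⟩ := exists_norm hnd2 (by rw [hfr2, hfr, Fintype.card_fin]; omega) hc
    have hxu : polar Q u (x : V) = 0 := mem_perp_span_singleton.1 (x : perp Q (Submodule.span (ZMod 3) {u})).2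
    have hxz : polar Q (u - v') (x : V) = 0 := by
      have := mem_perp.1 x.2 z1 (e_mem (F := ZMod 3) (fun _ : Fin 1 => z1) (fun _ => y) 0)
      rw [← hz1]; exact this
    refine ⟨x, hx, hxu, ?_⟩
    rw [QuadraticMap.polar_sub_left, hxu, zero_sub, neg_eq_zero] at hxz
    exact hxz
  by_cases hp : polar Q u v = 2 * c
  · exact main v hv hp h1
  · have hp' : polar Q u (-v) = 2 * c := by
      rw [QuadraticMap.polar_neg_right]
      generalize polar Q u v = a at huv hp ⊢
      clear hu hv main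
      revert a c; decide
    obtain ⟨x, hx, hx1, hx2⟩ := main (-v) (by rw [QuadraticMap.map_neg, hv]) hp' (fun h => h2 (by rw [← h, neg_neg]))
    refine ⟨x, hx, hx1, ?_⟩
    rw [QuadraticMap.polar_neg_left, neg_eq_zero] at hx2
    exact hx2

/-- a vector orthogonal to `v` but not to `w` -/
theorem exists_sep (hQ : (QuadraticMap.polarBilin Q).Nondegenerate) {v w : V} {c : ZMod 3} (hc : c ≠ 0) (hv : Q v = c)
    (hw : ∀ a : ZMod 3, w ≠ a • v) (hd : 4 ≤ finrank (ZMod 3) V) : ∃ x, Q x = c ∧ polar Q v x = 0 ∧ polar Q w x ≠ 0 := by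
  have hv0 : v ≠ 0 := by rintro rfl; rw [QuadraticMap.map_zero] at hv; exact hc hv.symm
  have hnd := nd_perp hQ (disjoint_span_singleton k2 (v := v) (by rw [hv]; exact hc))
  have hfr := finrank_perp_singleton hQ hv0
  obtain ⟨a, ha⟩ : ∃ a : ZMod 3, polar Q v (w - a • v) = 0 := by
    refine ⟨2 * c * polar Q v w, ?_⟩
    rw [QuadraticMap.polar_sub_right, polar_smul_right, polar_self, hv]
    generalize polar Q v w = b
    clear hv
    revert b c; decide
  have hne : w - a • v ≠ 0 := fun h => hw a (sub_eq_zero.1 h)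
  let w1 : perp Q (Submodule.span (ZMod 3) {v}) := ⟨w - a • v, mem_perp_span_singleton.2 ha⟩
  obtain ⟨x, hx, hx2⟩ := exists_nonperp hnd (w := w1) (fun h => hne (congrArg Subtype.val h)) (by rw [hfr]; omega) hc
  have hxv : polar Q v (x : V) = 0 := mem_perp_span_singleton.1 x.2
  refine ⟨x, hx, hxv, fun h => hx2 ?_⟩
  show polar Q (x : V) (w - a • v) = 0
  rw [polar_symm, QuadraticMap.polar_sub_left, polar_smul_left, h, hxv, mul_zero, sub_zero]

/-! reflections -/

theorem rf_comm_of {u v : V} (h : polar Q u v = 0) : rf Q u * rf Q v = rf Q v * rf Q u := by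
  have h1 := rf_conj (rf Q u) v
  have h2 : (rf Q u).1 v = v := refl_fix (by rw [polar_symm]; exact h)
  rw [h2] at h1
  nth_rw 2 [← h1]; group

theorem rf_inv (u : V) : (rf Q u)⁻¹ = rf Q u := inv_eq_of_mul_eq_one_right (rf_sq u)

theorem smul_cases (a : ZMod 3) (v : V) : a • v = 0 ∨ a • v = v ∨ a • v = -v := by
  have h3 : ∀ a : ZMod 3, a = 0 ∨ a = 1 ∨ a = -1 := by decide
  rcases h3 a with rfl | rfl | rfl
  · left; simp
  · right; left; simp
  · right; right; simp

theorem rf_eq_cases {u v : V} (hu : Q u ≠ 0) (h : rf Q u = rf Q v) : u = v ∨ u = -v := by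
  have h1 : refl Q u u = refl Q v u := congrArg (fun g : OG Q => (g.1 u)) h
  rw [refl_self hu, refl_apply] at h1
  obtain ⟨k, hk⟩ : ∃ k, k = (Q v)⁻¹ * polar Q u v := ⟨_, rfl⟩
  rw [← hk] at h1
  have h3 : (3 : ZMod 3) = 0 := rfl
  have h2 : u = -(k • v) := by
    have e : u + k • v = (3 : ZMod 3) • u := by
      have e1 : k • v = u - (u - k • v) := by abel
      rw [e1, ← h1]
      have : (3 : ZMod 3) • u = u + u + u := by
        rw [show (3 : ZMod 3) = 1 + 1 + 1 from rfl, add_smul, add_smul, one_smul]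
      rw [this]; abel
    rw [h3, zero_smul] at e
    exact eq_neg_of_add_eq_zero_left e
  have hu0 : u ≠ 0 := by rintro rfl; simp at hu
  rcases smul_cases k v with h | h | h
  · rw [h, neg_zero] at h2; exact absurd h2 hu0
  · right; rw [h2, h]
  · left; rw [h2, h, neg_neg]

theorem rf_comm_iff {u v : V} (hu : Q u ≠ 0) (hv : Q v ≠ 0) (h1 : v ≠ u) (h2 : v ≠ -u) (hc : rf Q u * rf Q v = rf Q v * rf Q u) :
    polar Q u v = 0 := by
  have e1 := rf_conj (rf Q u) v
  rw [hc, mul_inv_cancel_right] at e1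
  have e2 : (rf Q u).1 v = v - ((Q u)⁻¹ * polar Q v u) • u := refl_apply Q u v
  obtain ⟨k, hk⟩ : ∃ k, k = (Q u)⁻¹ * polar Q v u := ⟨_, rfl⟩
  rw [← hk] at e2
  have hu0 : u ≠ 0 := by rintro rfl; simp at hu
  have hv0 : v ≠ 0 := by rintro rfl; simp at hv
  rcases rf_eq_cases hv e1 with h | h
  · rw [e2] at h
    have h3 : k • u = 0 := by
      have : k • u = v - (v - k • u) := by abel
      rw [this, ← h, sub_self]
    rcases smul_eq_zero.1 h3 with h4 | h4
    · rw [h4] at hk
      rcases mul_eq_zero.1 hk.symm with h | h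
      · exact absurd (inv_eq_zero.1 h) hu
      · rw [polar_symm]; exact h
    · exact absurd h4 hu0
  · rw [e2] at h
    exfalso
    have h3 : k • u = -v := by
      have e : k • u + v = (3 : ZMod 3) • v := by
        have e1 : k • u = v - (v - k • u) := by abel
        have e4 : v - k • u = -v := by
          have : v - k • u = -(-(v - k • u)) := by abel
          rw [this, ← h]
        rw [e1, e4]
        have : (3 : ZMod 3) • v = v + v + v := by
          rw [show (3 : ZMod 3) = 1 + 1 + 1 from rfl, add_smul, add_smul, one_smul]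
        rw [this]; abel
      rw [show (3 : ZMod 3) = 0 from rfl, zero_smul] at e
      exact eq_neg_of_add_eq_zero_left e
    rcases smul_cases k u with h4 | h4 | h4
    · rw [h4] at h3; exact hv0 (by rw [← neg_neg v, ← h3, neg_zero])
    · rw [h4] at h3; exact h2 (by rw [h3, neg_neg])
    · rw [h4] at h3; exact h1 (by rw [← neg_neg v, ← h3, neg_neg])

theorem rf_neg (v : V) : rf Q (-v) = rf Q v := by
  have := rf_smul (Q := Q) (v := v) (a := (-1 : ZMod 3)) (by decide)
  rwa [neg_one_smul] at this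

theorem rf_braid {u v : V} {c : ZMod 3} (hc : c ≠ 0) (hu : Q u = c) (hv : Q v = c) (huv : polar Q u v ≠ 0) :
    rf Q u * rf Q v * rf Q u = rf Q v * rf Q u * rf Q v := by
  have e1 := rf_conj (rf Q u) v
  have e2 := rf_conj (rf Q v) u
  rw [rf_inv] at e1 e2
  rw [e1, e2]
  have a1 : (rf Q u).1 v = v - ((Q u)⁻¹ * polar Q v u) • u := refl_apply Q u v
  have a2 : (rf Q v).1 u = u - ((Q v)⁻¹ * polar Q u v) • v := refl_apply Q v u
  rw [a1, a2, hu, hv, polar_symm Q v u]
  obtain ⟨k, hk⟩ : ∃ k, k = c⁻¹ * polar Q u v := ⟨_, rfl⟩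
  rw [← hk]
  have hk0 : k ≠ 0 := by rw [hk]; exact mul_ne_zero (inv_ne_zero hc) huv
  have hkk := z3 k hk0
  have : v - k • u = (-k) • (u - k • v) := by
    rw [smul_sub, smul_smul, neg_smul, neg_mul, hkk, neg_one_smul]; abel
  rw [this, rf_smul (neg_ne_zero.2 hk0)]

end Cfsg.Agent.H28.RF
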