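import Mathlib
import Cfsg.Agent.H28_RF2

set_option autoImplicit false

/-! Reflections over the field with three elements: the reflection group. -/

namespace Cfsg.Agent.H28.RF

open Cfsg Cfsg.Agent Cfsg.Agent.H16.Quad Module Cfsg.Agent.H28.Basic
open QuadraticMap (polar)

variable {n : ℕ} {Q : QuadraticForm (ZMod 3) (Fin n → ZMod 3)} {c : ZMod 3}

def DD (Q : QuadraticForm (ZMod 3) (Fin n → ZMod 3)) (c : ZMod 3) : Set ↥(Cfsg.reflectionSubgroup (⇑Q) c) :=
  {g : ↥(Cfsg.reflectionSubgroup (⇑Q) c) | (g : ↥(Cfsg.isometryGroup (ZMod 3) (⇑Q))) ∈ Cfsg.reflectionsOfNorm (⇑Q) c}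

noncomputable def TT (Q : QuadraticForm (ZMod 3) (Fin n → ZMod 3)) (c : ZMod 3) : ↥(Cfsg.reflectionSubgroup (⇑Q) c) →* OG Q :=
  (toOG Q).toMonoidHom.comp (Cfsg.reflectionSubgroup (⇑Q) c).subtype

theorem TT_inj : Function.Injective (TT Q c) := by
  intro x y h
  exact Subtype.ext ((toOG Q).injective h)

theorem exists_rho {v : Fin n → ZMod 3} (hv : Q v = c) : ∃ g ∈ DD Q c, TT Q c g = rf Q v := by
  have h1 : (toOG Q).symm (rf Q v) ∈ Cfsg.reflectionsOfNorm (⇑Q) c := ⟨v, hv, symm_rf_coe Q v⟩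
  refine ⟨⟨(toOG Q).symm (rf Q v), Subgroup.subset_closure h1⟩, h1, ?_⟩
  show toOG Q ((toOG Q).symm (rf Q v)) = rf Q v
  rw [MulEquiv.apply_symm_apply]

theorem mem_DD {g : ↥(Cfsg.reflectionSubgroup (⇑Q) c)} : g ∈ DD Q c ↔ ∃ v, Q v = c ∧ TT Q c g = rf Q v := by
  constructor
  · rintro ⟨v, hv, hg⟩
    exact ⟨v, hv, toOG_refl hg⟩
  · rintro ⟨v, hv, hg⟩
    obtain ⟨g', hg', h⟩ := exists_rho hv
    rw [TT_inj (hg.trans h.symm)]
    exact hg'

theorem DD_conj (g : ↥(Cfsg.reflectionSubgroup (⇑Q) c)) {d : ↥(Cfsg.reflectionSubgroup (⇑Q) c)} (hd : d ∈ DD Q c) :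
    g * d * g⁻¹ ∈ DD Q c := by
  obtain ⟨v, hv, h⟩ := mem_DD.1 hd
  rw [mem_DD]
  refine ⟨(TT Q c g).1 v, ?_, ?_⟩
  · rw [mem_OG.1 (TT Q c g).2 v, hv]
  · rw [map_mul, map_mul, map_inv, h, rf_conj]

theorem rf_ne_one {v : Fin n → ZMod 3} (hv : Q v ≠ 0) : rf Q v ≠ 1 := by
  intro h
  have h1 : refl Q v v = v := congrArg (fun g : OG Q => g.1 v) h
  rw [refl_self hv] at h1
  have hv0 : v ≠ 0 := by rintro rfl; simp at hv
  apply hv0
  have e : (2 : ZMod 3) • v = 0 := by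
    rw [show (2 : ZMod 3) = 1 + 1 from rfl, add_smul, one_smul]
    nth_rw 1 [← h1]; abel
  rcases smul_eq_zero.1 e with h | h
  · exact absurd h k2
  · exact h

theorem DD_set (hc : c ≠ 0) : IsThreeTranspositionSet (DD Q c) := by
  refine ⟨fun d hd => ?_, fun d hd e he => ?_⟩
  · obtain ⟨v, hv, h⟩ := mem_DD.1 hd
    refine orderOf_eq_prime ?_ ?_
    · apply TT_inj; rw [map_pow, h, map_one, pow_two, rf_sq]
    · rintro rfl
      rw [map_one] at h
      exact rf_ne_one (by rw [hv]; exact hc) h.symm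
  · obtain ⟨v, hv, h⟩ := mem_DD.1 hd
    obtain ⟨w, hw, h'⟩ := mem_DD.1 he
    have e1 : TT Q c ((d * e) ^ 2) = (rf Q v * rf Q w) ^ 2 := by rw [map_pow, map_mul, h, h']
    have e2 : TT Q c ((d * e) ^ 3) = (rf Q v * rf Q w) ^ 3 := by rw [map_pow, map_mul, h, h']
    by_cases hp : polar Q v w = 0
    · left
      apply TT_inj
      rw [e1, map_one]
      exact (commute_iff_sq (rf_sq v) (rf_sq w)).1 (rf_comm_of hp)
    · right
      apply TT_inj
      rw [e2, map_one]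
      exact cube_of_braid (rf_sq v) (rf_sq w) (rf_braid hc hv hw hp)

theorem conj_of_ne (hc : c ≠ 0) {u v : Fin n → ZMod 3} (hu : Q u = c) (hv : Q v = c) (huv : polar Q u v ≠ 0)
    {d e : ↥(Cfsg.reflectionSubgroup (⇑Q) c)} (hd : TT Q c d = rf Q u) (he : TT Q c e = rf Q v) :
    IsConj d e := by
  rw [isConj_iff]
  refine ⟨d * e, ?_⟩
  apply TT_inj
  simp only [map_mul, map_inv, mul_inv_rev, hd, he, rf_inv]
  have hb := rf_braid hc hu hv huv
  calc rf Q u * rf Q v * rf Q u * (rf Q v * rf Q u) = (rf Q u * rf Q v * rf Q u) * rf Q v * rf Q u := by group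
    _ = rf Q v * rf Q u * (rf Q v * rf Q v) * rf Q u := by rw [hb]; group
    _ = rf Q v * (rf Q u * rf Q u) := by rw [rf_sq]; group
    _ = rf Q v := by rw [rf_sq, mul_one]

theorem DD_class (hQ : (QuadraticMap.polarBilin Q).Nondegenerate) (hn : 4 ≤ n) (hc : c ≠ 0) :
    IsThreeTranspositionClass (DD Q c) := by
  have hfr : finrank (ZMod 3) (Fin n → ZMod 3) = n := Module.finrank_fin_fun _
  have hcc : 2 * c ≠ 0 := mul_ne_zero k2 hc
  refine ⟨DD_set hc, ?_, ?_⟩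
  · obtain ⟨v, hv⟩ := exists_norm hQ (by rw [hfr]; omega) hc
    obtain ⟨d, hd, hdv⟩ := exists_rho hv
    refine ⟨d, hd, ?_⟩
    ext g
    constructor
    · intro hg
      show IsConj d g
      obtain ⟨w, hw, hgw⟩ := mem_DD.1 hg
      by_cases hp : polar Q v w = 0
      · obtain ⟨x, hx, hvx, hwx⟩ := exists_perp2 hQ (u := v) (v := w) (by rw [hv]; exact hc) (by rw [hw]; exact hc) hp
          (by rw [hfr]; exact hn) (d := -c) (neg_ne_zero.2 hc)
        have hs : Q (v + w + x) = c := by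
          rw [H16.Quad.map_add, H16.Quad.map_add, hv, hw, hp, hx, QuadraticMap.polar_add_left, hvx, hwx]; ring
        have hp1 : polar Q v (v + w + x) ≠ 0 := by
          rw [QuadraticMap.polar_add_right, QuadraticMap.polar_add_right, polar_self, hp, hvx, hv, add_zero, add_zero]; exact hcc
        have hp2 : polar Q (v + w + x) w ≠ 0 := by
          rw [QuadraticMap.polar_add_left, QuadraticMap.polar_add_left, polar_self, hp, polar_symm Q x w, hwx, hw, zero_add, add_zero]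
          exact hcc
        obtain ⟨e, he, hes⟩ := exists_rho hs
        exact (conj_of_ne hc hv hs hp1 hdv hes).trans (conj_of_ne hc hs hw hp2 hes hgw)
      · exact conj_of_ne hc hv hw hp hdv hgw
    · intro hg
      rw [show (g ∈ conjugatesOf d) = IsConj d g from rfl, isConj_iff] at hg
      obtain ⟨x, rfl⟩ := hg
      exact DD_conj x hd
  · exact Subgroup.closure_closure_coe_preimage

theorem exists_sing_perp2 {V : Type*} [AddCommGroup V] [Module (ZMod 3) V] [FiniteDimensional (ZMod 3) V]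
    {Q : QuadraticForm (ZMod 3) V} (hQ : (QuadraticMap.polarBilin Q).Nondegenerate) {u v : V} (hu : Q u ≠ 0) (hv : Q v ≠ 0)
    (huv : polar Q u v = 0) (hd : 5 ≤ finrank (ZMod 3) V) :
    ∃ x, x ≠ 0 ∧ Q x = 0 ∧ polar Q u x = 0 ∧ polar Q v x = 0 := by
  have hu0 : u ≠ 0 := by rintro rfl; simp at hu
  have hnd := nd_perp hQ (disjoint_span_singleton k2 hu)
  have hfr := finrank_perp_singleton hQ hu0
  obtain ⟨v1, hv1⟩ : ∃ v1 : perp Q (Submodule.span (ZMod 3) {u}), (v1 : V) = v := ⟨⟨v, mem_perp_span_singleton.2 huv⟩, rfl⟩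
  have hv1' : (Q.comp (perp Q (Submodule.span (ZMod 3) {u})).subtype) v1 ≠ 0 := by
    show Q (v1 : V) ≠ 0; rw [hv1]; exact hv
  have hv10 : v1 ≠ 0 := by rintro rfl; simp at hv1'
  have hnd2 := nd_perp hnd (disjoint_span_singleton k2 hv1')
  have hfr2 := finrank_perp_singleton hnd hv10
  obtain ⟨x, hx0, hx⟩ := exists_singular hnd2 (by rw [hfr2, hfr]; omega)
  refine ⟨x, ?_, hx, mem_perp_span_singleton.1 (x : perp Q (Submodule.span (ZMod 3) {u})).2, ?_⟩
  · intro h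
    apply hx0
    apply Subtype.ext
    apply Subtype.ext
    exact h
  · have := mem_perp_span_singleton.1 x.2
    rw [← hv1]; exact this

/-- separation -/
theorem exists_sep' (hQ : (QuadraticMap.polarBilin Q).Nondegenerate) (hn : 5 ≤ n) (hc : c ≠ 0)
    {v w : Fin n → ZMod 3} (hv : Q v = c) (hw : Q w = c) (hvw : rf Q v ≠ rf Q w) :
    ∃ x, Q x = c ∧ polar Q v x = 0 ∧ polar Q w x ≠ 0 ∧ x ≠ w ∧ x ≠ -w := by
  have hfr : finrank (ZMod 3) (Fin n → ZMod 3) = n := Module.finrank_fin_fun _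
  by_cases hp : polar Q v w = 0
  · obtain ⟨z, hz0, hz, hvz, hwz⟩ := exists_sing_perp2 hQ (u := v) (v := w) (by rw [hv]; exact hc) (by rw [hw]; exact hc) hp (by rw [hfr]; exact hn)
    refine ⟨w + z, ?_, ?_, ?_, ?_, ?_⟩
    · rw [H16.Quad.map_add, hw, hz, hwz]; ring
    · rw [QuadraticMap.polar_add_right, hp, hvz, add_zero]
    · rw [QuadraticMap.polar_add_right, polar_self, hwz, hw, add_zero]; exact mul_ne_zero k2 hc
    · intro h; apply hz0; simpa using h
    · intro h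
      have hz' : z = w := by
        have e : z = (w + z) - w := by abel
        rw [e, h]
        have e3 : (3 : ZMod 3) • w = w + w + w := by
          rw [show (3 : ZMod 3) = 1 + 1 + 1 from rfl, add_smul, add_smul, one_smul]
        rw [show (3 : ZMod 3) = 0 from rfl, zero_smul] at e3
        calc -w - w = -w - w + (w + w + w) := by rw [← e3, add_zero]
          _ = w := by abel
      rw [hz', hw] at hz
      exact hc hz
  · have hw' : ∀ a : ZMod 3, w ≠ a • v := by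
      rintro a rfl
      rcases smul_cases a v with h | h | h
      · rw [h, QuadraticMap.map_zero] at hw; exact hc hw.symm
      · apply hvw; rw [h]
      · apply hvw; rw [h, rf_neg]
    obtain ⟨x, hx, hvx, hwx⟩ := exists_sep hQ hc hv hw' (by rw [hfr]; omega)
    refine ⟨x, hx, hvx, hwx, ?_, ?_⟩
    · rintro rfl; exact hp hvx
    · intro h
      rw [h, QuadraticMap.polar_neg_right, neg_eq_zero] at hvx
      exact hp hvx

/-- separation in the class -/
theorem DD_sep (hQ : (QuadraticMap.polarBilin Q).Nondegenerate) (hn : 5 ≤ n) (hc : c ≠ 0)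
    {a b : ↥(Cfsg.reflectionSubgroup (⇑Q) c)} (ha : a ∈ DD Q c) (hb : b ∈ DD Q c) (hab : a ≠ b) :
    ∃ y ∈ DD Q c, Commute a y ∧ ¬ Commute b y ∧ y ≠ a := by
  obtain ⟨v, hv, hav⟩ := mem_DD.1 ha
  obtain ⟨w, hw, hbw⟩ := mem_DD.1 hb
  have hvw : rf Q v ≠ rf Q w := by rw [← hav, ← hbw]; exact fun h => hab (TT_inj h)
  obtain ⟨x, hx, hvx, hwx, h1, h2⟩ := exists_sep' hQ hn hc hv hw hvw
  obtain ⟨y, hy, hyx⟩ := exists_rho hx
  refine ⟨y, hy, ?_, ?_, ?_⟩
  · apply TT_inj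
    rw [map_mul, map_mul, hav, hyx]; exact rf_comm_of hvx
  · intro h
    have h3 := congrArg (TT Q c) h.eq
    rw [map_mul, map_mul, hbw, hyx] at h3
    exact hwx (rf_comm_iff (by rw [hw]; exact hc) (by rw [hx]; exact hc) h1 h2 h3)
  · rintro rfl
    rw [hav] at hyx
    have h4 : polar Q v v ≠ 0 := by rw [polar_self, hv]; exact mul_ne_zero k2 hc
    rcases rf_eq_cases (by rw [hv]; exact hc) hyx with h | h
    · rw [← h] at hvx; exact h4 hvx
    · have h5 : x = -v := by rw [h, neg_neg]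
      rw [h5, QuadraticMap.polar_neg_right, neg_eq_zero] at hvx; exact h4 hvx

theorem DD_two (hQ : (QuadraticMap.polarBilin Q).Nondegenerate) (hn : 5 ≤ n) (hc : c ≠ 0) :
    ∃ a ∈ DD Q c, ∃ b ∈ DD Q c, a ≠ b := by
  have hfr : finrank (ZMod 3) (Fin n → ZMod 3) = n := Module.finrank_fin_fun _
  obtain ⟨v, hv⟩ := exists_norm hQ (by rw [hfr]; omega) hc
  obtain ⟨w, hw, hvw⟩ := exists_perp1 hQ (u := v) (by rw [hv]; exact hc) (by rw [hfr]; omega) hc
  obtain ⟨a, ha, hav⟩ := exists_rho hv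
  obtain ⟨b, hb, hbw⟩ := exists_rho hw
  refine ⟨a, ha, b, hb, ?_⟩
  rintro rfl
  rw [hav] at hbw
  have h4 : polar Q v v ≠ 0 := by rw [polar_self, hv]; exact mul_ne_zero k2 hc
  rcases rf_eq_cases (by rw [hv]; exact hc) hbw with h | h
  · rw [← h] at hvw; exact h4 hvw
  · have h5 : w = -v := by rw [h, neg_neg]
    rw [h5, QuadraticMap.polar_neg_right, neg_eq_zero] at hvw; exact h4 hvw

theorem DD_two_core (hQ : (QuadraticMap.polarBilin Q).Nondegenerate) (hn : 5 ≤ n) (hc : c ≠ 0) :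
    pCore 2 ↥(Cfsg.reflectionSubgroup (⇑Q) c) ≤ Subgroup.center ↥(Cfsg.reflectionSubgroup (⇑Q) c) := by
  have hD := DD_class hQ (by omega) hc
  intro g hg
  apply TT1.mem_center_of hD.2.2
  intro d hd
  have h1 : g * d * g⁻¹ ∈ VW.Vcl (DD Q c) d := by
    rw [VW.Vcl_eq hD.1 (TT1.cls_conj hD) hd]
    refine ⟨DD_conj g hd, ?_⟩
    have : d⁻¹ * (g * d * g⁻¹) = (d⁻¹ * g * d⁻¹⁻¹) * g⁻¹ := by group
    rw [this]
    exact mul_mem ((inferInstance : (pCore 2 ↥(Cfsg.reflectionSubgroup (⇑Q) c)).Normal).conj_mem g hg _) (inv_mem hg)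
  by_contra hnc
  have hne : d ≠ g * d * g⁻¹ := by
    intro h
    apply hnc
    show d * g = g * d
    nth_rw 1 [h]; group
  obtain ⟨y, hy, h2, h3, -⟩ := DD_sep hQ hn hc hd (DD_conj g hd) hne
  exact h3 ((h1.2 y hy).2 h2)

theorem DD_three_core (hQ : (QuadraticMap.polarBilin Q).Nondegenerate) (hn : 5 ≤ n) (hc : c ≠ 0) :
    pCore 3 ↥(Cfsg.reflectionSubgroup (⇑Q) c) ≤ Subgroup.center ↥(Cfsg.reflectionSubgroup (⇑Q) c) := by
  have hD := DD_class hQ (by omega) hc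
  intro g hg
  apply TT1.mem_center_of hD.2.2
  intro d hd
  have h1 : g * d * g⁻¹ ∈ VW.Wcl (DD Q c) d := by
    rw [VW.Wcl_eq hD.1 (TT1.cls_conj hD) hd]
    refine ⟨DD_conj g hd, ?_⟩
    have : d⁻¹ * (g * d * g⁻¹) = (d⁻¹ * g * d⁻¹⁻¹) * g⁻¹ := by group
    rw [this]
    exact mul_mem ((inferInstance : (pCore 3 ↥(Cfsg.reflectionSubgroup (⇑Q) c)).Normal).conj_mem g hg _) (inv_mem hg)
  by_contra hnc
  have hne : d ≠ g * d * g⁻¹ := by
    intro h
    apply hnc
    show d * g = g * d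
    nth_rw 1 [h]; group
  obtain ⟨y, hy, h2, h3, h4⟩ := DD_sep hQ hn hc hd (DD_conj g hd) hne
  exact h3 (((VW.mem_Wcl.1 h1).2 y hy).1 ⟨h4, h2⟩).2

theorem DD_connected (hQ : (QuadraticMap.polarBilin Q).Nondegenerate) (hn : 5 ≤ n) (hc : c ≠ 0) :
    (commutingGraph (DD Q c)).Connected := by
  have hfr : finrank (ZMod 3) (Fin n → ZMod 3) = n := Module.finrank_fin_fun _
  obtain ⟨a0, ha0, -⟩ := DD_two hQ hn hc
  haveI : Nonempty (DD Q c) := ⟨⟨a0, ha0⟩⟩
  have hreach : ∀ a b : DD Q c, Commute (a : ↥(Cfsg.reflectionSubgroup (⇑Q) c)) b → (commutingGraph (DD Q c)).Reachable a b := by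
    intro a b h
    by_cases hab : a = b
    · rw [hab]
    · apply SimpleGraph.Adj.reachable
      rw [commutingGraph, SimpleGraph.fromRel_adj]
      exact ⟨hab, Or.inl h⟩
  have hcm : ∀ {a b : ↥(Cfsg.reflectionSubgroup (⇑Q) c)} {v w : Fin n → ZMod 3}, TT Q c a = rf Q v → TT Q c b = rf Q w → polar Q v w = 0 → Commute a b := by
    intro a b v w h1 h2 h3
    apply TT_inj
    rw [map_mul, map_mul, h1, h2]; exact rf_comm_of h3
  refine ⟨?_⟩
  rintro ⟨a, ha⟩ ⟨b, hb⟩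
  obtain ⟨v, hv, hav⟩ := mem_DD.1 ha
  obtain ⟨w, hw, hbw⟩ := mem_DD.1 hb
  by_cases hp : polar Q v w = 0
  · exact hreach _ _ (hcm hav hbw hp)
  by_cases h1 : w = v
  · have : a = b := TT_inj (by rw [hav, hbw, h1])
    subst this; exact hreach _ _ (Commute.refl _)
  by_cases h2 : w = -v
  · have : a = b := TT_inj (by rw [hav, hbw, h2, rf_neg])
    subst this; exact hreach _ _ (Commute.refl _)
  obtain ⟨x, hx, hvx, hwx⟩ := exists_perp_both hQ hc hv hw hp h1 h2 (by rw [hfr]; exact hn)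
  obtain ⟨y, hy, hyx⟩ := exists_rho hx
  exact (hreach ⟨a, ha⟩ ⟨y, hy⟩ (hcm hav hyx hvx)).trans (hreach ⟨y, hy⟩ ⟨b, hb⟩ (hcm hbw hyx hwx).symm)

end Cfsg.Agent.H28.RF
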