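import Mathlib
import Cfsg.Agent.H28_TT2

set_option autoImplicit false

/-! Primitive 3-transposition groups. -/

namespace Cfsg.Agent.H28.TT3

open Cfsg Cfsg.Agent Cfsg.Agent.H28.Basic Cfsg.Agent.H28.VW Cfsg.Agent.H28.TT1 Cfsg.Agent.H28.TT2 Cfsg.Agent.H11.Components Cfsg.Agent.H11.FStar Cfsg.Agent.H11.Cores
open scoped commutatorElement

universe u

variable {G : Type u} [Group G] {D : Set G}

theorem block_of_rel (hc : ∀ g : G, ∀ d ∈ D, g * d * g⁻¹ ∈ D) {R : G → G → Prop} (hsymm : ∀ a b, R a b → R b a)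
    (htrans : ∀ a b c, R a b → R b c → R a c) (hconj : ∀ g a b : G, R a b → R (g * a * g⁻¹) (g * b * g⁻¹)) (d : G) :
    ∀ g : G, (fun x => g * x * g⁻¹) '' {x | x ∈ D ∧ R d x} = {x | x ∈ D ∧ R d x} ∨
      Disjoint ((fun x => g * x * g⁻¹) '' {x | x ∈ D ∧ R d x}) {x | x ∈ D ∧ R d x} := by
  intro g
  by_cases hdis : Disjoint ((fun x => g * x * g⁻¹) '' {x | x ∈ D ∧ R d x}) {x | x ∈ D ∧ R d x}
  · right; exact hdis
  left
  rw [Set.not_disjoint_iff] at hdis
  obtain ⟨x, ⟨y, ⟨hyD, hdy⟩, hyx⟩, hxD, hdx⟩ := hdis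
  have hyx' : g * y * g⁻¹ = x := hyx
  have h1 : R (g * d * g⁻¹) d := by
    apply htrans _ x _ _ (hsymm _ _ hdx)
    rw [← hyx']; exact hconj g _ _ hdy
  ext z
  constructor
  · rintro ⟨w, ⟨hwD, hdw⟩, rfl⟩
    exact ⟨hc g w hwD, htrans _ _ _ (hsymm _ _ h1) (hconj g _ _ hdw)⟩
  · rintro ⟨hzD, hdz⟩
    refine ⟨g⁻¹ * z * g, ⟨?_, ?_⟩, by group⟩
    · have := hc g⁻¹ z hzD
      rwa [inv_inv] at this
    · have h2 := hconj g⁻¹ _ _ (htrans _ _ _ h1 hdz)
      have e1 : g⁻¹ * (g * d * g⁻¹) * g⁻¹⁻¹ = d := by group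
      have e2 : g⁻¹ * z * g⁻¹⁻¹ = g⁻¹ * z * g := by group
      rwa [e1, e2] at h2

theorem prim_class (hD : IsThreeTranspositionGroup D) (hprim : IsPrimitiveUnderConj D) : IsThreeTranspositionClass D := by
  obtain ⟨htr, ⟨a, ha, -⟩, -⟩ := hprim
  refine ⟨hD.1, ⟨a, ha, ?_⟩, hD.2.2⟩
  ext x
  constructor
  · intro hx
    obtain ⟨g, hg⟩ := htr a ha x hx
    exact isConj_iff.2 ⟨g, hg⟩
  · intro hx
    obtain ⟨g, hg⟩ := isConj_iff.1 (show IsConj a x from hx)
    rw [← hg]; exact hD.2.1 g a ha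

theorem prim_two [Finite G] (hD : IsThreeTranspositionGroup D) (hprim : IsPrimitiveUnderConj D) : pCore 2 G ≤ Subgroup.center G := by
  have hcl := prim_class hD hprim
  have hc := hD.2.1
  obtain ⟨d, hd, -⟩ := hcl.2.1
  have hset : {x | x ∈ D ∧ (∀ e ∈ D, Commute x e ↔ Commute d e)} = Vcl D d := rfl
  have hb := block_of_rel hc (R := fun a b => ∀ e ∈ D, Commute b e ↔ Commute a e)
    (fun a b h e he => (h e he).symm) (fun a b c h1 h2 e he => (h2 e he).trans (h1 e he)) (fun g a b h e he => by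
      have he' : g⁻¹ * e * g ∈ D := by simpa using hc g⁻¹ e he
      have h1 := h _ he'
      have h2 : e = g * (g⁻¹ * e * g) * g⁻¹ := by group
      rw [h2, commute_conj_iff, commute_conj_iff]
      exact h1) d
  rcases hprim.2.2 _ (fun x hx => hx.1) hb with h | h
  · apply le_center_of_comm hcl inferInstance hd
    intro x hx
    have h3 : x * d * x⁻¹ ∈ Vcl D d := by
      rw [Vcl_eq hD.1 hc hd]
      refine ⟨hc x d hd, ?_⟩
      have h2 : d⁻¹ * (x * d * x⁻¹) = (d⁻¹ * x * d) * x⁻¹ := by group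
      rw [h2]
      refine mul_mem ?_ (inv_mem hx)
      have := (inferInstance : (pCore 2 G).Normal).conj_mem x hx d⁻¹
      simpa using this
    have h4 : x * d * x⁻¹ = d := h h3 (Vcl_refl hd)
    show d * x = x * d
    calc d * x = (x * d * x⁻¹) * x := by rw [h4]
      _ = x * d := by group
  · exfalso
    obtain ⟨e, he, hde⟩ := exists_ncomm hcl hprim.2.1 hd
    have he' : e ∈ {x | x ∈ D ∧ (∀ e ∈ D, Commute x e ↔ Commute d e)} := by rw [h]; exact he
    exact hde ((he'.2 e he).1 (Commute.refl e))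

theorem prim_three [Finite G] (hD : IsThreeTranspositionGroup D) (hprim : IsPrimitiveUnderConj D)
    (hw : ∃ a ∈ D, ∃ b ∈ D, a ≠ b ∧ Commute a b) : pCore 3 G ≤ Subgroup.center G := by
  have hcl := prim_class hD hprim
  have hc := hD.2.1
  obtain ⟨d, hd, b, hb, hdb, hcdb⟩ := hw
  have hblk := block_of_rel hc (R := fun a b => ∀ y ∈ D, (y ≠ a ∧ Commute a y) ↔ (y ≠ b ∧ Commute b y))
    (fun a b h e he => (h e he).symm) (fun a b c h1 h2 e he => (h1 e he).trans (h2 e he)) (fun g a b h e he => by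
      have he' : g⁻¹ * e * g ∈ D := by simpa using hc g⁻¹ e he
      have h1 := h _ he'
      have h2 : e = g * (g⁻¹ * e * g) * g⁻¹ := by group
      rw [h2, commute_conj_iff, commute_conj_iff]
      have h3 : ∀ x y : G, g * x * g⁻¹ ≠ g * y * g⁻¹ ↔ x ≠ y := by
        intro x y
        rw [not_iff_not]
        exact ⟨fun h => mul_left_cancel (mul_right_cancel h), fun h => by rw [h]⟩
      rw [h3, h3]
      exact h1) d
  have hset : ∀ x, x ∈ {x | x ∈ D ∧ ∀ y ∈ D, (y ≠ d ∧ Commute d y) ↔ (y ≠ x ∧ Commute x y)} ↔ x ∈ Wcl D d := by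
    intro x
    rw [mem_Wcl]; rfl
  rcases hprim.2.2 _ (fun x hx => hx.1) hblk with h | h
  · apply le_center_of_comm hcl inferInstance hd
    intro x hx
    have h3 : x * d * x⁻¹ ∈ Wcl D d := by
      rw [Wcl_orbit hD.1 hc hd]
      exact ⟨x, hx, rfl⟩
    have h4 : x * d * x⁻¹ = d := h ((hset _).2 h3) ((hset _).2 (Wcl_refl hd))
    show d * x = x * d
    calc d * x = (x * d * x⁻¹) * x := by rw [h4]
      _ = x * d := by group
  · exfalso
    have he' : b ∈ Wcl D d := by
      rw [← hset, h]; exact hb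
    exact Wcl_ncommute (Wcl_refl hd) he' hdb hcdb

/-- adjacency in `D` -/
def Adj (D : Set G) (a b : G) : Prop := a ∈ D ∧ b ∈ D ∧ Commute a b

theorem reach_of (a : G) (ha : a ∈ D) {b : G} (h : Relation.ReflTransGen (Adj D) a b) :
    ∃ hb : b ∈ D, (commutingGraph D).Reachable ⟨a, ha⟩ ⟨b, hb⟩ := by
  induction h with
  | refl => exact ⟨ha, SimpleGraph.Reachable.refl _⟩
  | @tail b c _ hbc ih =>
    obtain ⟨hb, hr⟩ := ih
    refine ⟨hbc.2.1, hr.trans ?_⟩
    by_cases hbc' : b = c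
    · subst hbc'; exact SimpleGraph.Reachable.refl _
    · apply SimpleGraph.Adj.reachable
      rw [commutingGraph, SimpleGraph.fromRel_adj]
      exact ⟨fun h => hbc' (congrArg Subtype.val h), Or.inl hbc.2.2⟩

theorem prim_connected (hD : IsThreeTranspositionGroup D) (hprim : IsPrimitiveUnderConj D)
    (hw : ∃ a ∈ D, ∃ b ∈ D, a ≠ b ∧ Commute a b) : (commutingGraph D).Connected := by
  have hcl := prim_class hD hprim
  have hc := hD.2.1
  obtain ⟨d, hd, b, hb, hdb, hcdb⟩ := hw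
  have hsym : ∀ a b : G, Relation.ReflTransGen (Adj D) a b → Relation.ReflTransGen (Adj D) b a := by
    intro a b h
    induction h with
    | refl => exact Relation.ReflTransGen.refl
    | tail _ hbc ih => exact Relation.ReflTransGen.head ⟨hbc.2.1, hbc.1, hbc.2.2.symm⟩ ih
  have hblk := block_of_rel hc (R := Relation.ReflTransGen (Adj D)) hsym
    (fun a b c h1 h2 => h1.trans h2) (fun g a b h => by
      induction h with
      | refl => exact Relation.ReflTransGen.refl
      | tail _ hbc ih => exact Relation.ReflTransGen.tail ih ⟨hc g _ hbc.1, hc g _ hbc.2.1, (commute_conj_iff g _ _).2 hbc.2.2⟩) d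
  have hall : ∀ x ∈ D, Relation.ReflTransGen (Adj D) d x := by
    rcases hprim.2.2 _ (fun x hx => hx.1) hblk with h | h
    · exfalso
      exact hdb (h (⟨hd, Relation.ReflTransGen.refl⟩ : d ∈ {x | x ∈ D ∧ Relation.ReflTransGen (Adj D) d x})
        (⟨hb, Relation.ReflTransGen.single ⟨hd, hb, hcdb⟩⟩ : b ∈ {x | x ∈ D ∧ Relation.ReflTransGen (Adj D) d x}))
    · intro x hx
      have : x ∈ {x | x ∈ D ∧ Relation.ReflTransGen (Adj D) d x} := by rw [h]; exact hx
      exact this.2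
  haveI : Nonempty D := ⟨⟨d, hd⟩⟩
  refine ⟨?_⟩
  intro x y
  obtain ⟨_, hx⟩ := reach_of d hd (hall x x.2)
  obtain ⟨_, hy⟩ := reach_of d hd (hall y y.2)
  exact hx.symm.trans hy

theorem dsub_closure {S : Set G} (hS : S ⊆ D) : IsDSubgroup D (Subgroup.closure S) := by
  unfold IsDSubgroup
  apply le_antisymm
  · rw [Subgroup.closure_le]
    rintro x ⟨-, hx⟩; exact hx
  · exact Subgroup.closure_mono fun x hx => ⟨hS hx, Subgroup.subset_closure hx⟩

theorem prim_maximal [Finite G] (hD : IsThreeTranspositionGroup D) (hprim : IsPrimitiveUnderConj D)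
    (hw : ∃ a ∈ D, ∃ b ∈ D, a ≠ b ∧ Commute a b) {d : G} (hd : d ∈ D) (H : Subgroup G) (hH : IsDSubgroup D H)
    (hM : Subgroup.closure {y : G | y ∈ D ∧ Commute d y} ≤ H) :
    H = Subgroup.closure {y : G | y ∈ D ∧ Commute d y} ∨ H = ⊤ := by
  have hcl := prim_class hD hprim
  have hS := hD.1
  have hc := hD.2.1
  set M := Subgroup.closure {y : G | y ∈ D ∧ Commute d y} with hMdef
  by_contra hcon0
  -- a maximal counterexample
  let 𝓗 : Set (Subgroup G) := {H | IsDSubgroup D H ∧ M ≤ H ∧ ¬ (H = M ∨ H = ⊤)}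
  have h𝓗 : 𝓗.Nonempty := ⟨H, hH, hM, hcon0⟩
  obtain ⟨H, hHm⟩ := (Set.toFinite 𝓗).exists_maximal h𝓗
  obtain ⟨⟨hH, hM, hcon⟩, hmax⟩ := hHm
  push Not at hcon
  obtain ⟨hHM, hHtop⟩ := hcon
  have hdM : d ∈ M := Subgroup.subset_closure ⟨hd, Commute.refl d⟩
  have hdH : d ∈ H := hM hdM
  let X : Set G := {x | ∃ h ∈ H, x = h * d * h⁻¹}
  have hXD : ∀ x ∈ X, x ∈ D := by rintro _ ⟨h, -, rfl⟩; exact hc h d hd
  have hXH : ∀ x ∈ X, x ∈ H := by
    rintro _ ⟨h, hh, rfl⟩; exact H.mul_mem (H.mul_mem hh hdH) (H.inv_mem hh)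
  have hdX : d ∈ X := ⟨1, H.one_mem, by group⟩
  -- (1)
  have h1 : ∀ x ∈ X, ∀ y ∈ D, Commute x y → y ∈ H := by
    rintro _ ⟨h, hh, rfl⟩ y hy hcom
    have h2 : h⁻¹ * y * h⁻¹⁻¹ ∈ D := hc h⁻¹ y hy
    have h3 : Commute d (h⁻¹ * y * h⁻¹⁻¹) := by
      rw [← commute_conj_iff h]
      have : h * (h⁻¹ * y * h⁻¹⁻¹) * h⁻¹ = y := by group
      rw [this]; exact hcom
    have h4 : h⁻¹ * y * h⁻¹⁻¹ ∈ H := hM (Subgroup.subset_closure ⟨h2, h3⟩)
    have : y = h * (h⁻¹ * y * h⁻¹⁻¹) * h⁻¹ := by group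
    rw [this]
    exact H.mul_mem (H.mul_mem hh h4) (H.inv_mem hh)
  -- (2)
  have h2 : ∀ x ∈ X, ∀ y ∈ D, y ∈ H → ¬ Commute x y → y ∈ X := by
    intro x hx y hyD hyH hxy
    have hxD := hXD x hx
    have h3 := conj_eq hS hxD hyD hxy
    obtain ⟨h, hh, rfl⟩ := hx
    refine ⟨(h * d * h⁻¹ * y) * h, ?_, ?_⟩
    · exact H.mul_mem (H.mul_mem (H.mul_mem (H.mul_mem hh hdH) (H.inv_mem hh)) hyH) hh
    · conv_lhs => rw [← h3]
      group
  -- (3)
  have h3 : ∃ e ∈ X, ¬ Commute d e := by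
    by_contra hno
    push Not at hno
    apply hHM
    apply le_antisymm _ hM
    rw [← hH, Subgroup.closure_le]
    rintro y ⟨hyD, hyH⟩
    by_cases hdy : Commute d y
    · exact Subgroup.subset_closure ⟨hyD, hdy⟩
    · exact absurd (hno y (h2 d hdX y hyD hyH hdy)) hdy
  obtain ⟨e, heX, hde⟩ := h3
  -- (4)
  have h4 : ∃ y ∈ D, y ∈ H ∧ y ∉ X := by
    by_contra hno
    push Not at hno
    have hconn := prim_connected hD hprim hw
    have key : ∀ (u v : D), (commutingGraph D).Walk u v → (u : G) ∈ X → (v : G) ∈ X := by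
      intro u v w
      induction w with
      | nil => exact id
      | @cons u v w' hadj _ ih =>
        intro hu
        apply ih
        have hcom : Commute (u : G) (v : G) := by
          have h2 := (SimpleGraph.fromRel_adj _ _ _).1 hadj
          rcases h2.2 with h | h
          · exact h
          · exact h.symm
        exact hno _ v.2 (h1 _ hu _ v.2 hcom)
    apply hHtop
    rw [eq_top_iff, ← hD.2.2, Subgroup.closure_le]
    intro x hx
    obtain ⟨w⟩ := hconn.preconnected ⟨d, hd⟩ ⟨x, hx⟩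
    exact hXH x (key _ _ w hdX)
  obtain ⟨y0, hy0D, hy0H, hy0X⟩ := h4
  -- (5)
  have h5 : ∀ P : G → Prop, P d → (∀ x ∈ X, P x → ∀ x' ∈ X, ¬ Commute x x' → P x') → ∀ x ∈ X, P x := by
    rintro P hPd hP _ ⟨h, hh, rfl⟩
    have hh' : h ∈ Subgroup.closure {y : G | y ∈ D ∧ y ∈ H} := by rw [hH]; exact hh
    have key : ∀ h ∈ Subgroup.closure {y : G | y ∈ D ∧ y ∈ H}, P (h * d * h⁻¹) := by
      intro h hh
      have step : ∀ s : G, s ∈ D → s ∈ H → ∀ h ∈ Subgroup.closure {y : G | y ∈ D ∧ y ∈ H}, P (h * d * h⁻¹) → P (s * h * d * (s * h)⁻¹) := by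
        intro s hsD hsH h hh hPh
        have hhH : h ∈ H := by rw [← hH]; exact hh
        have hxX : h * d * h⁻¹ ∈ X := ⟨h, hhH, rfl⟩
        have e1 : s * h * d * (s * h)⁻¹ = s * (h * d * h⁻¹) * s⁻¹ := by group
        rw [e1]
        by_cases hsx : Commute s (h * d * h⁻¹)
        · rw [hsx.eq, mul_inv_cancel_right]; exact hPh
        · have hsi := tt_inv hS hsD
          have hb := tt_braid hS hsD (hXD _ hxX) hsx
          apply hP _ hxX hPh
          · exact ⟨s * h, H.mul_mem hsH hhH, by group⟩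
          · intro hcom
            apply hsx
            -- x commutes with s x s
            rw [hsi, hb] at hcom
            have h6 : Commute (h * d * h⁻¹) s := by
              have h7 : (h * d * h⁻¹) * ((h * d * h⁻¹) * s * (h * d * h⁻¹)) = ((h * d * h⁻¹) * s * (h * d * h⁻¹)) * (h * d * h⁻¹) := hcom
              generalize h * d * h⁻¹ = x at h7 hxX
              have hxx := tt_sq hS (hXD _ hxX)
              show x * s = s * x
              symm
              calc s * x = (x * x) * (s * x) := by rw [hxx, one_mul]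
                _ = x * (x * s * x) := by group
                _ = (x * s * x) * x := h7
                _ = x * s * (x * x) := by group
                _ = x * s := by rw [hxx, mul_one]
            exact h6.symm
      induction hh using Subgroup.closure_induction_left with
      | one => simpa using hPd
      | mul_left s hs h hh ih => exact step s hs.1 hs.2 h hh ih
      | inv_mul_cancel s hs h hh ih =>
        rw [tt_inv hS hs.1]
        exact step s hs.1 hs.2 h hh ih
    exact key h hh'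
  -- (6a)
  have h6a : ∀ g : G, g * d = d * g → ∀ x ∈ X, ¬ (g * x * g⁻¹ ∈ D ∧ g * x * g⁻¹ ∈ H ∧ g * x * g⁻¹ ∉ X) := by
    rintro g hg x0 hx0 ⟨hyD, hyH, hyX⟩
    have hgd : g⁻¹ * d * g = d := by
      calc g⁻¹ * d * g = g⁻¹ * (d * g) := by group
        _ = g⁻¹ * (g * d) := by rw [hg]
        _ = d := by group
    -- y commutes with all of X
    have hyc : ∀ x ∈ X, Commute x (g * x0 * g⁻¹) := by
      intro x hx
      by_contra hnc
      exact hyX (h2 x hx _ hyD hyH hnc)
    have hgx : ∀ x ∈ X, g⁻¹ * x * g ∈ D ∧ g⁻¹ * x * g ∈ H := by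
      intro x hx
      have hD1 : g⁻¹ * x * g ∈ D := by
        have := hc g⁻¹ x (hXD x hx)
        rwa [inv_inv] at this
      refine ⟨hD1, h1 x0 hx0 _ hD1 ?_⟩
      rw [← commute_conj_iff g]
      have : g * (g⁻¹ * x * g) * g⁻¹ = x := by group
      rw [this]
      exact (hyc x hx).symm
    have hP := h5 (fun x => g⁻¹ * x * g ∈ X) (by show g⁻¹ * d * g ∈ X; rw [hgd]; exact hdX) (by
      intro x hx hPx x' hx' hnc
      refine h2 _ hPx _ (hgx x' hx').1 (hgx x' hx').2 ?_
      intro hcom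
      apply hnc
      rw [← commute_conj_iff g⁻¹]
      rw [inv_inv]; exact hcom)
    -- bijectivity on the finite set X
    have hmaps : Set.MapsTo (fun x => g⁻¹ * x * g) X X := hP
    have hinj : Set.InjOn (fun x => g⁻¹ * x * g) X := by
      intro a _ b _ hab
      exact mul_left_cancel (mul_right_cancel hab)
    have himg : (fun x => g⁻¹ * x * g) '' X = X :=
      Set.eq_of_subset_of_ncard_le hmaps.image_subset (by rw [Set.ncard_image_of_injOn hinj]) (Set.toFinite _)
    obtain ⟨x1, hx1, hx1'⟩ : x0 ∈ (fun x => g⁻¹ * x * g) '' X := by rw [himg]; exact hx0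
    apply hyX
    have : g * x0 * g⁻¹ = x1 := by
      rw [← show g⁻¹ * x1 * g = x0 from hx1']; group
    rw [this]; exact hx1
  -- (6b)
  have h6b : ∀ g : G, g * d = d * g → ∀ y ∈ D, y ∈ H → y ∉ X → g⁻¹ * y * g ∈ D ∧ g⁻¹ * y * g ∈ H ∧ g⁻¹ * y * g ∉ X := by
    intro g hg y hyD hyH hyX
    have hgd : g * d * g⁻¹ = d := by rw [hg, mul_inv_cancel_right]
    have hdy : Commute d y := by
      by_contra hnc
      exact hyX (h2 d hdX y hyD hyH hnc)
    have hD1 : g⁻¹ * y * g ∈ D := by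
      have := hc g⁻¹ y hyD
      rwa [inv_inv] at this
    refine ⟨hD1, h1 d hdX _ hD1 ?_, ?_⟩
    · rw [← commute_conj_iff g, hgd]
      have : g * (g⁻¹ * y * g) * g⁻¹ = y := by group
      rw [this]; exact hdy
    · intro hX1
      apply h6a g hg _ hX1
      have : g * (g⁻¹ * y * g) * g⁻¹ = y := by group
      rw [this]; exact ⟨hyD, hyH, hyX⟩
  -- (6c)
  let X' : Set G := {z | z ∈ D ∧ ∀ y ∈ D, y ∈ H → y ∉ X → Commute z y}
  have hXX' : X ⊆ X' := by
    intro x hx
    refine ⟨hXD x hx, fun y hyD hyH hyX => ?_⟩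
    by_contra hnc
    exact hyX (h2 x hx y hyD hyH hnc)
  have h6c : ∀ g : G, g * d = d * g → ∀ x ∈ X, g * x * g⁻¹ ∈ X' := by
    intro g hg x hx
    refine ⟨hc g x (hXD x hx), fun y hyD hyH hyX => ?_⟩
    obtain ⟨a1, a2, a3⟩ := h6b g hg y hyD hyH hyX
    have := (hXX' hx).2 _ a1 a2 a3
    rw [← commute_conj_iff g] at this
    have e1 : g * (g⁻¹ * y * g) * g⁻¹ = y := by group
    rwa [e1] at this
  -- (6d)
  have hX'H : X' ⊆ H := by
    let H' : Subgroup G := Subgroup.closure (X' ∪ {y | y ∈ D ∧ y ∈ H})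
    have hHH' : H ≤ H' := by
      conv_lhs => rw [← hH]
      exact Subgroup.closure_mono Set.subset_union_right
    have hH'D : IsDSubgroup D H' := dsub_closure (by
      rintro x (hx | hx)
      · exact hx.1
      · exact hx.1)
    have hH'M : H' ≠ M := fun h => hHM (le_antisymm (h ▸ hHH') hM)
    have hH'top : H' ≠ ⊤ := by
      intro htop
      -- centralizer of X' is normalized by everything
      have hnorm : ∀ g : G, ∀ z ∈ Subgroup.centralizer X', g * z * g⁻¹ ∈ Subgroup.centralizer X' := by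
        intro g
        have hg : g ∈ H' := by rw [htop]; trivial
        have hgen : ∀ s ∈ X' ∪ {y | y ∈ D ∧ y ∈ H}, ∀ z ∈ Subgroup.centralizer X', s * z * s⁻¹ ∈ Subgroup.centralizer X' := by
          have hin : ∀ s ∈ X', ∀ z ∈ Subgroup.centralizer X', s * z * s⁻¹ ∈ Subgroup.centralizer X' := by
            intro s hs z hz
            rw [(Subgroup.mem_centralizer_iff.1 hz) s hs, mul_inv_cancel_right]; exact hz
          rintro s (hs | ⟨hsD, hsH⟩) z hz
          · exact hin s hs z hz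
          · by_cases hsX : s ∈ X
            · exact hin s (hXX' hsX) z hz
            · have hsC : s ∈ Subgroup.centralizer X' := by
                rw [Subgroup.mem_centralizer_iff]
                intro w hw
                exact (hw.2 s hsD hsH hsX).eq
              exact Subgroup.mul_mem _ (Subgroup.mul_mem _ hsC hz) (Subgroup.inv_mem _ hsC)
        have hgen' : ∀ s ∈ X' ∪ {y | y ∈ D ∧ y ∈ H}, s⁻¹ = s := by
          rintro s (hs | hs)
          · exact tt_inv hS hs.1
          · exact tt_inv hS hs.1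
        induction hg using Subgroup.closure_induction_left with
        | one => intro z hz; simpa using hz
        | mul_left s hs h hh ih =>
          intro z hz
          have e1 : s * h * z * (s * h)⁻¹ = s * (h * z * h⁻¹) * s⁻¹ := by group
          rw [e1]; exact hgen s hs _ (ih z hz)
        | inv_mul_cancel s hs h hh ih =>
          intro z hz
          rw [hgen' s hs]
          have e1 : s * h * z * (s * h)⁻¹ = s * (h * z * h⁻¹) * s⁻¹ := by group
          rw [e1]; exact hgen s hs _ (ih z hz)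
      have hy0C : y0 ∈ Subgroup.centralizer X' := by
        rw [Subgroup.mem_centralizer_iff]
        intro w hw
        exact (hw.2 y0 hy0D hy0H hy0X).eq
      obtain ⟨g, hg⟩ := hprim.1 y0 hy0D d hd
      have hdC : d ∈ Subgroup.centralizer X' := by rw [← hg]; exact hnorm g y0 hy0C
      exact hde ((Subgroup.mem_centralizer_iff.1 hdC) e (hXX' heX)).symm
    have hle : H' ≤ H := hmax (show H' ∈ 𝓗 from ⟨hH'D, hM.trans hHH', by push Not; exact ⟨hH'M, hH'top⟩⟩) hHH'
    intro x hx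
    exact hle (Subgroup.subset_closure (Or.inl hx))
  -- (6e)
  have h6e : ∀ g : G, g * d = d * g → ∀ x ∈ X, g * x * g⁻¹ ∈ X := by
    intro g hg
    have hgd : g * d * g⁻¹ = d := by rw [hg, mul_inv_cancel_right]
    apply h5 (fun x => g * x * g⁻¹ ∈ X)
    · show g * d * g⁻¹ ∈ X
      rw [hgd]; exact hdX
    · intro x hx hPx x' hx' hnc
      have h7 := h6c g hg x' hx'
      refine h2 _ hPx _ h7.1 (hX'H h7) ?_
      rw [commute_conj_iff]; exact hnc
  -- X is a block
  have hXconj : ∀ k ∈ H, ∀ x ∈ X, k * x * k⁻¹ ∈ X := by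
    rintro k hk _ ⟨h, hh, rfl⟩
    exact ⟨k * h, H.mul_mem hk hh, by group⟩
  have hblock : ∀ g : G, (fun x => g * x * g⁻¹) '' X = X ∨ Disjoint ((fun x => g * x * g⁻¹) '' X) X := by
    intro g
    by_cases hdis : Disjoint ((fun x => g * x * g⁻¹) '' X) X
    · right; exact hdis
    left
    rw [Set.not_disjoint_iff] at hdis
    obtain ⟨x, ⟨y, hy, hyx⟩, hxX⟩ := hdis
    obtain ⟨k, hk, rfl⟩ := hy
    obtain ⟨h, hh, rfl⟩ := hxX
    have e1 : g * (k * d * k⁻¹) * g⁻¹ = h * d * h⁻¹ := hyx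
    have e2 : (h⁻¹ * g * k) * d = d * (h⁻¹ * g * k) := by
      calc (h⁻¹ * g * k) * d = h⁻¹ * (g * (k * d * k⁻¹) * g⁻¹) * g * k := by group
        _ = h⁻¹ * (h * d * h⁻¹) * g * k := by rw [e1]
        _ = d * (h⁻¹ * g * k) := by group
    have hsub : (fun x => g * x * g⁻¹) '' X ⊆ X := by
      rintro _ ⟨x, hx, rfl⟩
      have h8 := h6e _ e2 (k⁻¹ * x * k) (by
        have := hXconj k⁻¹ (H.inv_mem hk) x hx
        rwa [inv_inv] at this)
      have h9 := hXconj h hh _ h8
      have e3 : h * (h⁻¹ * g * k * (k⁻¹ * x * k) * (h⁻¹ * g * k)⁻¹) * h⁻¹ = g * x * g⁻¹ := by group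
      rw [e3] at h9
      exact h9
    refine Set.eq_of_subset_of_ncard_le hsub ?_ (Set.toFinite _)
    rw [Set.ncard_image_of_injective]
    intro a b hab
    exact mul_left_cancel (mul_right_cancel hab)
  rcases hprim.2.2 X hXD hblock with h | h
  · have : d = e := h hdX heX
    exact hde (this ▸ Commute.refl d)
  · apply hHtop
    rw [eq_top_iff, ← hD.2.2, Subgroup.closure_le, ← h]
    exact hXH

end Cfsg.Agent.H28.TT3
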