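import Mathlib
import Cfsg.Agent.H28_VW2
import Cfsg.Agent.H28_TT3

set_option autoImplicit false

/-! Relations between pairwise commuting 3-transpositions. -/

namespace Cfsg.Agent.H28.Rel

open Cfsg Cfsg.Agent.H28.Basic Cfsg.Agent.H28.VW

universe u
variable {G : Type u} [Group G] {D : Set G}

theorem s4rel (a x d : G) (ha : a * a = 1) (hx : x * x = 1) (hd : d * d = 1)
    (hax : a * x * a = x * a * x) (hxd : d * x * d = x * d * x) (had : d * a = a * d) (hne : a * d ≠ 1) :
    (a * d) * x * (a * d)⁻¹ ≠ x ∧ Commute x ((a * d) * x * (a * d)⁻¹) ∧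
    (x * (a * d) * x) * a * (x * (a * d) * x)⁻¹ = d ∧ (x * (a * d) * x) * d * (x * (a * d) * x)⁻¹ = a := by
  obtain ⟨ι, i0, i1, i2⟩ := exists_hom_s4 a x d ha hx hd hax.symm hxd had
  have hinj := s4_hom_injective ι (by rw [map_mul, i0, i2]; exact hne)
  have e : (a * d) * x * (a * d)⁻¹ = ι (Equiv.swap 0 3) := by
    rw [← i0, ← i1, ← i2, ← map_mul, ← map_inv, ← map_mul, ← map_mul]
    congr 1; decide
  refine ⟨?_, ?_, ?_, ?_⟩
  · rw [e, ← i1]
    intro h
    have := hinj h
    revert this; decide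
  · rw [e, ← i1]
    show ι _ * ι _ = ι _ * ι _
    rw [← map_mul, ← map_mul]
    exact congrArg ι (by decide)
  · rw [← i0, ← i1, ← i2]
    simp only [← map_mul, ← map_inv]
    exact congrArg ι (by decide)
  · rw [← i0, ← i1, ← i2]
    simp only [← map_mul, ← map_inv]
    exact congrArg ι (by decide)

/-- two commuting members -/
theorem two_not (hD : IsThreeTranspositionSet D) {a b x : G} (ha : a ∈ D) (hb : b ∈ D) (hx : x ∈ D) (hab : Commute a b) (hne : a ≠ b)
    (hxa : ¬ Commute a x) (hxb : ¬ Commute b x) : (a * b) * x * (a * b)⁻¹ ≠ x ∧ Commute x ((a * b) * x * (a * b)⁻¹) ∧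
    (x * (a * b) * x) * a * (x * (a * b) * x)⁻¹ = b ∧ (x * (a * b) * x) * b * (x * (a * b) * x)⁻¹ = a :=
  s4rel a x b (tt_sq hD ha) (tt_sq hD hx) (tt_sq hD hb) (tt_braid hD ha hx hxa) (tt_braid hD hb hx hxb) hab.eq.symm
    (fun h => hne (by rw [eq_inv_of_mul_eq_one_left h, tt_inv hD hb]))

theorem two_not' (hD : IsThreeTranspositionSet D) {a b x : G} (ha : a ∈ D) (hb : b ∈ D) (hx : x ∈ D) (hab : Commute a b) (hne : a ≠ b)
    (hxa : ¬ Commute a x) (hxb : ¬ Commute b x) : ¬ Commute (a * b) x := by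
  intro h
  apply (two_not hD ha hb hx hab hne hxa hxb).1
  rw [h.eq]; group

/-- three commuting members -/
theorem three_not (hD : IsThreeTranspositionSet D) {a b c x : G} (ha : a ∈ D) (hb : b ∈ D) (hc : c ∈ D) (hx : x ∈ D) (hab : Commute a b)
    (hne : a ≠ b) (hxa : ¬ Commute a x) (hxb : ¬ Commute b x) (hxc : ¬ Commute c x) : ¬ Commute (a * b * c) x := by
  intro h
  obtain ⟨-, h1, -⟩ := two_not hD ha hb hx hab hne hxa hxb
  have e1 : (a * b)⁻¹ = a * b := by rw [mul_inv_rev, tt_inv hD ha, tt_inv hD hb, hab.eq]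
  have e2 : (a * b) * (a * b) = 1 := by nth_rw 1 [← e1]; exact inv_mul_cancel _
  have e3 : c * x * c = (a * b) * x * (a * b)⁻¹ := by
    have h2 : (a * b * c) * x = x * (a * b * c) := h.eq
    calc c * x * c = (a * b) * ((a * b) * c * x) * c := by
          have : (a * b) * ((a * b) * c * x) * c = ((a * b) * (a * b)) * (c * x * c) := by group
          rw [this, e2, one_mul]
      _ = (a * b) * (x * (a * b * c)) * c := by rw [h2]
      _ = (a * b) * x * (a * b) * (c * c) := by group
      _ = _ := by rw [tt_sq hD hc, mul_one, e1]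
  rw [← e3] at h1
  have h3 := tt_cube hD hc hx hxc
  have cc := tt_sq hD hc
  have xx := tt_sq hD hx
  have h4 : x * (c * x * c) = (c * x * c) * x := h1.eq
  apply hxc
  rw [commute_iff_sq cc xx]
  have h5 : (c * x) ^ 2 = (c * x) ^ 2 * ((c * x) ^ 3) := by rw [h3, mul_one]
  have h6 : (c * x) ^ 2 * (c * x) ^ 2 = 1 := by
    calc (c * x) ^ 2 * (c * x) ^ 2 = ((c * x * c) * x) * ((c * x) ^ 2) := by rw [pow_two]; group
      _ = (x * (c * x * c)) * (c * x) ^ 2 := by rw [h4]
      _ = x * c * x * (c * c) * x * c * x := by rw [pow_two]; group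
      _ = x * c * (x * x) * c * x := by rw [cc]; group
      _ = x * (c * c) * x := by rw [xx]; group
      _ = 1 := by rw [cc, mul_one, xx]
  have h7 : (c * x) ^ 4 = 1 := by rw [← h6, ← pow_add]
  have h8 : c * x = 1 := by
    have : (c * x) ^ 4 = (c * x) ^ 3 * (c * x) := by rw [← pow_succ]
    rw [h7, h3, one_mul] at this
    exact this.symm
  rw [h8, one_pow]

/-- a member commuting with a product of at most three commuting members commutes with the factors -/
theorem comm_two (hD : IsThreeTranspositionSet D) {a b x : G} (ha : a ∈ D) (hb : b ∈ D) (hx : x ∈ D) (hab : Commute a b) (hne : a ≠ b)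
    (h : Commute (a * b) x) : Commute a x ∧ Commute b x := by
  by_cases h1 : Commute a x
  · refine ⟨h1, ?_⟩
    have : b = a⁻¹ * (a * b) := by group
    rw [this]; exact h1.inv_left.mul_left h
  · by_cases h2 : Commute b x
    · exfalso; apply h1
      have : a = (a * b) * b⁻¹ := by group
      rw [this]; exact h.mul_left h2.inv_left
    · exact absurd h (two_not' hD ha hb hx hab hne h1 h2)

theorem comm_three (hD : IsThreeTranspositionSet D) {a b c x : G} (ha : a ∈ D) (hb : b ∈ D) (hc : c ∈ D) (hx : x ∈ D) (hab : Commute a b)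
    (hac : Commute a c) (hbc : Commute b c) (nab : a ≠ b) (nac : a ≠ c) (nbc : b ≠ c)
    (h : Commute (a * b * c) x) : Commute a x ∧ Commute b x ∧ Commute c x := by
  by_cases h1 : Commute c x
  · have h2 : Commute (a * b) x := by
      have : a * b = (a * b * c) * c⁻¹ := by group
      rw [this]; exact h.mul_left h1.inv_left
    have := comm_two hD ha hb hx hab nab h2
    exact ⟨this.1, this.2, h1⟩
  by_cases h2 : Commute a x
  · exfalso
    have h3 : Commute (b * c) x := by
      have : b * c = a⁻¹ * (a * b * c) := by group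
      rw [this]; exact h2.inv_left.mul_left h
    exact h1 (comm_two hD hb hc hx hbc nbc h3).2
  by_cases h3 : Commute b x
  · exfalso
    have h4 : Commute (a * c) x := by
      have : a * c = b⁻¹ * (a * b * c) := by rw [hab.eq]; group
      rw [this]; exact h3.inv_left.mul_left h
    exact h1 (comm_two hD ha hc hx hac nac h4).2
  exact absurd h (three_not hD ha hb hc hx hab nab h2 h3 h1)

/-- the list version -/
theorem comm_list (hD : IsThreeTranspositionSet D) (l : List G) (hn : l.Nodup) (hlen : l.length ≤ 3) (hl : ∀ a ∈ l, a ∈ D)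
    (hc : ∀ a ∈ l, ∀ b ∈ l, Commute a b) {x : G} (hx : x ∈ D) (h : Commute l.prod x) : ∀ a ∈ l, Commute a x := by
  match l, hn, hlen, hl, hc, h with
  | [], _, _, _, _, _ => intro a ha; simp at ha
  | [a], _, _, _, _, h =>
    intro b hb
    simp only [List.mem_singleton] at hb
    rw [hb]; simpa using h
  | [a, b], hn, _, hl, hc, h =>
    have h' : Commute (a * b) x := by simpa using h
    have := comm_two hD (hl a (by simp)) (hl b (by simp)) hx (hc a (by simp) b (by simp)) (by rintro rfl; simp at hn) h'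
    intro y hy
    simp only [List.mem_cons, List.not_mem_nil, or_false] at hy
    rcases hy with rfl | rfl
    · exact this.1
    · exact this.2
  | [a, b, c], hn, _, hl, hc, h =>
    have h' : Commute (a * b * c) x := by
      have e : [a, b, c].prod = a * b * c := by simp [mul_assoc]
      rwa [e] at h
    simp only [List.nodup_cons, List.mem_cons, List.not_mem_nil, or_false, not_or] at hn
    have := comm_three hD (hl a (by simp)) (hl b (by simp)) (hl c (by simp)) hx (hc a (by simp) b (by simp)) (hc a (by simp) c (by simp))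
      (hc b (by simp) c (by simp)) hn.1.1 hn.1.2 hn.2.1 h'
    intro y hy
    simp only [List.mem_cons, List.not_mem_nil, or_false] at hy
    rcases hy with rfl | rfl | rfl
    · exact this.1
    · exact this.2.1
    · exact this.2.2
  | _ :: _ :: _ :: _ :: _, _, hlen, _, _, _ => simp at hlen; omega

/-- no relations of length at most `N` -/
def RelFree (D : Set G) (N : ℕ) : Prop := ∀ L : List G, L.Nodup → (∀ a ∈ L, a ∈ D) → (∀ a ∈ L, ∀ b ∈ L, Commute a b) → L.prod = 1 →
  L.length ≤ N → L = []

/-- members are determined by their commuting partners -/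
def VTriv (D : Set G) : Prop := ∀ a ∈ D, ∀ b ∈ D, (∀ x ∈ D, Commute a x ↔ Commute b x) → a = b

theorem relFree4 (hD : IsThreeTranspositionSet D) (hV : VTriv D) (hZ : ∀ d ∈ D, ∃ x ∈ D, ¬ Commute d x) : RelFree D 4 := by
  intro L hn hl hc hp hlen
  match L, hn, hl, hc, hp, hlen with
  | [], _, _, _, _, _ => rfl
  | [a], _, hl, _, hp, _ =>
    exfalso
    exact tt_ne_one hD (hl a (by simp)) (by simpa using hp)
  | [a, b], hn, hl, hc, hp, _ =>
    exfalso
    have h1 : a * b = 1 := by simpa using hp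
    have : a = b := by rw [eq_inv_of_mul_eq_one_left h1, tt_inv hD (hl b (by simp))]
    subst this
    simp at hn
  | [a, b, c], hn, hl, hc, hp, _ =>
    exfalso
    obtain ⟨x, hx, hax⟩ := hZ a (hl a (by simp))
    exact hax (comm_list hD [a, b, c] hn (by simp) hl hc hx (by rw [hp]; exact Commute.one_left x) a (by simp))
  | [a, b, c, d], hn, hl, hc, hp, _ =>
    exfalso
    have hp' : a * (b * (c * d)) = 1 := by simpa using hp
    simp only [List.nodup_cons, List.mem_cons, List.not_mem_nil, or_false, not_or] at hn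
    obtain ⟨⟨nab, nac, nad⟩, ⟨nbc, nbd⟩, ncd, -⟩ := hn
    have hab := hc a (by simp) b (by simp)
    have key : ∀ {p q r s : G}, p ∈ D → q ∈ D → r ∈ D → s ∈ D → Commute q r → Commute q s → Commute r s → q ≠ r → q ≠ s → r ≠ s →
        p * (q * (r * s)) = 1 → ∀ x ∈ D, Commute p x → Commute q x := by
      intro p q r s hp hq hr hs cqr cqs crs nqr nqs nrs he x hx hpx
      have h1 : q * r * s = p⁻¹ := by
        rw [mul_assoc]; exact eq_inv_of_mul_eq_one_right he
      exact (comm_three hD hq hr hs hx cqr cqs crs nqr nqs nrs (by rw [h1]; exact hpx.inv_left)).1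
    apply nab
    apply hV a (hl a (by simp)) b (hl b (by simp))
    intro x hx
    refine ⟨key (hl a (by simp)) (hl b (by simp)) (hl c (by simp)) (hl d (by simp)) (hc _ (by simp) _ (by simp)) (hc _ (by simp) _ (by simp))
      (hc _ (by simp) _ (by simp)) nbc nbd ncd hp' x hx, ?_⟩
    refine key (hl b (by simp)) (hl a (by simp)) (hl c (by simp)) (hl d (by simp)) (hc _ (by simp) _ (by simp)) (hc _ (by simp) _ (by simp))
      (hc _ (by simp) _ (by simp)) nac nad ncd ?_ x hx
    rw [← mul_assoc, ← hab.eq, mul_assoc]; exact hp'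
  | _ :: _ :: _ :: _ :: _ :: _, _, _, _, _, hlen => simp at hlen; omega

theorem vtriv_of_core [Finite G] (hD : IsThreeTranspositionSet D) (hc : ∀ g : G, ∀ d ∈ D, g * d * g⁻¹ ∈ D) (h : pCore 2 G = ⊥) :
    VTriv D := by
  intro a ha b hb hab
  have h1 : b ∈ Vcl D a := ⟨hb, fun e he => (hab e he).symm⟩
  rw [Vcl_eq hD hc ha, h] at h1
  have h2 := h1.2
  rw [Subgroup.mem_bot, inv_mul_eq_one] at h2
  exact h2

/-- a member whose neighbours contain those of another -/
theorem nb_eq [Finite G] (hc : ∀ g : G, ∀ d ∈ D, g * d * g⁻¹ ∈ D) {d b : G} (hT : ∃ g : G, g * b * g⁻¹ = d) (hV : VTriv D)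
    (hd : d ∈ D) (hb : b ∈ D)
    (h : ∀ x ∈ D, Commute d x → Commute b x) : b = d := by
  obtain ⟨g, hg⟩ := hT
  have h1 : {x | x ∈ D ∧ Commute d x} ⊆ {x | x ∈ D ∧ Commute b x} := fun x hx => ⟨hx.1, h x hx.1 hx.2⟩
  have h2 : {x | x ∈ D ∧ Commute b x}.ncard ≤ {x | x ∈ D ∧ Commute d x}.ncard := by
    refine Set.ncard_le_ncard_of_injOn (fun x => g * x * g⁻¹) ?_ ?_ (Set.toFinite _)
    · rintro x ⟨hx, hbx⟩
      refine ⟨hc g x hx, ?_⟩
      rw [← hg]; exact (commute_conj_iff g b x).mpr hbx
    · intro x _ y _ hxy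
      have : g * x * g⁻¹ = g * y * g⁻¹ := hxy
      simpa using this
  have h3 := Set.eq_of_subset_of_ncard_le h1 h2 (Set.toFinite _)
  refine (hV d hd b hb fun x hx => ⟨h x hx, fun hbx => ?_⟩).symm
  have : x ∈ {x | x ∈ D ∧ Commute d x} := by rw [h3]; exact ⟨hx, hbx⟩
  exact this.2

end Cfsg.Agent.H28.Rel
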