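import Mathlib
import Cfsg.Agent.H28_Rel

set_option autoImplicit false

/-! Localization of relations between pairwise commuting 3-transpositions. -/

namespace Cfsg.Agent.H28.Rel

open Cfsg Cfsg.Agent.H28.Basic Cfsg.Agent.H28.VW

universe u
variable {G : Type u} [Group G] {D : Set G}

def Nb (D : Set G) (d : G) : Set G := {y : G | y ∈ D ∧ y ≠ d ∧ Commute d y}

abbrev Hd (D : Set G) (d : G) : Subgroup G := Subgroup.closure (Nb D d)

/-- the neighbours as elements of the subgroup they generate -/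
def DH (D : Set G) (d : G) : Set ↥(Hd D d) := {x : ↥(Hd D d) | (x : G) ∈ Nb D d}

/-- the image modulo the centre -/
def Db (D : Set G) (d : G) : Set (↥(Hd D d) ⧸ Subgroup.center ↥(Hd D d)) :=
  (QuotientGroup.mk : ↥(Hd D d) → ↥(Hd D d) ⧸ Subgroup.center ↥(Hd D d)) '' DH D d

theorem hd_commute {d x : G} (hx : x ∈ Hd D d) : Commute d x := by
  have h1 : Hd D d ≤ Subgroup.centralizer ({d} : Set G) := by
    rw [Subgroup.closure_le]
    rintro y ⟨-, -, hy⟩
    rw [SetLike.mem_coe, Subgroup.mem_centralizer_singleton_iff]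
    exact hy.eq.symm
  exact (Subgroup.mem_centralizer_singleton_iff.mp (h1 hx)).symm

theorem tts_DH (hD : IsThreeTranspositionSet D) (d : G) : IsThreeTranspositionSet (DH D d) := by
  constructor
  · rintro ⟨x, hx⟩ (h : x ∈ Nb D d)
    rw [← Subgroup.orderOf_coe]
    exact hD.1 x h.1
  · rintro ⟨x, hx⟩ (h : x ∈ Nb D d) ⟨y, hy⟩ (h' : y ∈ Nb D d)
    rcases hD.2 x h.1 y h'.1 with h1 | h1
    · left; exact Subtype.ext h1
    · right; exact Subtype.ext h1

theorem nb_conj (hc : ∀ g : G, ∀ d ∈ D, g * d * g⁻¹ ∈ D) (g : G)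
    {d a : G} (ha : a ∈ Nb D d) : g * a * g⁻¹ ∈ Nb D (g * d * g⁻¹) := by
  refine ⟨hc g a ha.1, ?_, ?_⟩
  · intro h
    exact ha.2.1 (by simpa using h)
  · exact (commute_conj_iff g d a).mpr ha.2.2

theorem conj_DH (hc : ∀ g : G, ∀ d ∈ D, g * d * g⁻¹ ∈ D) (d : G) : ∀ g : ↥(Hd D d), ∀ x ∈ DH D d, g * x * g⁻¹ ∈ DH D d := by
  rintro ⟨g, hg⟩ ⟨x, hx⟩ (h : x ∈ Nb D d)
  show g * x * g⁻¹ ∈ Nb D d
  have h1 := nb_conj hc g h
  have h2 : g * d * g⁻¹ = d := by rw [← (hd_commute hg).eq]; group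
  rwa [h2] at h1

theorem closure_DH (D : Set G) (d : G) : Subgroup.closure (DH D d) = ⊤ := by
  rw [eq_top_iff]
  have h := Subgroup.closure_closure_coe_preimage (k := Nb D d)
  rw [← h]
  exact Subgroup.closure_mono fun x hx => hx

theorem mem_center_iff' {d : G} (z : ↥(Hd D d)) : z ∈ Subgroup.center ↥(Hd D d) ↔ ∀ x ∈ Nb D d, Commute (z : G) x := by
  rw [Subgroup.mem_center_iff]
  constructor
  · intro h x hx
    exact (congrArg Subtype.val (h ⟨x, Subgroup.subset_closure hx⟩)).symm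
  · intro h g
    have h1 : Hd D d ≤ Subgroup.centralizer ({(z : G)} : Set G) := by
      rw [Subgroup.closure_le]
      intro y hy
      rw [SetLike.mem_coe, Subgroup.mem_centralizer_singleton_iff]
      exact (h y hy).eq.symm
    exact Subtype.ext (Subgroup.mem_centralizer_singleton_iff.mp (h1 g.2))

/-- transitivity -/
def Tr (D : Set G) : Prop := ∀ a ∈ D, ∀ b ∈ D, ∃ g : G, g * a * g⁻¹ = b

variable (hD : IsThreeTranspositionSet D) (hc : ∀ g : G, ∀ d ∈ D, g * d * g⁻¹ ∈ D) (hT : Tr D) (hV : VTriv D)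

include hc hT hV in
/-- neighbours are not central -/
theorem nb_not_center [Finite G] {d : G} (hd : d ∈ D) {b : G} (hb : b ∈ Nb D d) : ∃ x ∈ Nb D d, ¬ Commute b x := by
  by_contra hcon
  push Not at hcon
  apply hb.2.1
  apply nb_eq hc (hT b hb.1 d hd) hV hd hb.1
  intro x hx hdx
  by_cases h : x = d
  · rw [h]; exact hb.2.2.symm
  · exact hcon x ⟨hx, h, hdx⟩

include hD hc hT hV in
theorem nb_inj [Finite G] {d : G} (hd : d ∈ D) {b c : G} (hb : b ∈ Nb D d) (hcc : c ∈ Nb D d)
    (h : ∀ x ∈ Nb D d, Commute (b⁻¹ * c) x) : b = c := by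
  by_contra hne
  have h1 := h b hb
  have hbc : Commute b c := by
    have : c = b * (b⁻¹ * c) := by group
    rw [this]; exact (Commute.refl b).mul_right h1.symm
  obtain ⟨x, hx, hnx⟩ := nb_not_center hc hT hV hd hb
  have h2 := h x hx
  rw [tt_inv hD hb.1] at h2
  exact hnx (comm_two hD hb.1 hcc.1 hx.1 hbc hne h2).1

include hD hc hT hV in
theorem tts_Db [Finite G] {d : G} (hd : d ∈ D) : IsThreeTranspositionSet (Db D d) := by
  have hDH := tts_DH hD d
  constructor
  · rintro _ ⟨x, hx, rfl⟩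
    rw [orderOf_eq_prime_iff]
    constructor
    · rw [← QuotientGroup.mk_pow, QuotientGroup.eq_one_iff, pow_two, tt_sq hDH hx]
      exact one_mem _
    · intro h
      rw [QuotientGroup.eq_one_iff, mem_center_iff'] at h
      obtain ⟨y, hy, hny⟩ := nb_not_center hc hT hV hd (b := (x : G)) hx
      exact hny (h y hy)
  · rintro _ ⟨x, hx, rfl⟩ _ ⟨y, hy, rfl⟩
    rcases hDH.2 x hx y hy with h | h
    · left; rw [← QuotientGroup.mk_mul, ← QuotientGroup.mk_pow, h]; rfl
    · right; rw [← QuotientGroup.mk_mul, ← QuotientGroup.mk_pow, h]; rfl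

include hc in
theorem conj_Db (d : G) : ∀ g : ↥(Hd D d) ⧸ Subgroup.center ↥(Hd D d), ∀ x ∈ Db D d, g * x * g⁻¹ ∈ Db D d := by
  rintro g _ ⟨x, hx, rfl⟩
  obtain ⟨g, rfl⟩ := QuotientGroup.mk_surjective g
  exact ⟨g * x * g⁻¹, conj_DH hc d g x hx, rfl⟩

theorem closure_Db (d : G) : Subgroup.closure (Db D d) = ⊤ := by
  have h1 : Db D d = (QuotientGroup.mk' (Subgroup.center ↥(Hd D d))) '' DH D d := rfl
  rw [h1, ← MonoidHom.map_closure, closure_DH, ← MonoidHom.range_eq_map, MonoidHom.range_eq_top]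
  exact QuotientGroup.mk'_surjective _

include hD hc hT hV in
/-- commuting in the quotient -/
theorem commute_Db [Finite G] {d : G} {x y : ↥(Hd D d)} (hx : x ∈ DH D d) (hy : y ∈ DH D d) (hd : d ∈ D) :
    Commute (QuotientGroup.mk x : ↥(Hd D d) ⧸ Subgroup.center ↥(Hd D d)) (QuotientGroup.mk y) ↔ Commute (x : G) (y : G) := by
  constructor
  · intro h
    have h0 := tts_Db hD hc hT hV hd
    by_contra hn
    have h1 : (QuotientGroup.mk x * QuotientGroup.mk y : ↥(Hd D d) ⧸ Subgroup.center ↥(Hd D d)) ^ 3 = 1 := by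
      rw [← QuotientGroup.mk_mul, ← QuotientGroup.mk_pow]
      have : (x * y) ^ 3 = 1 := Subtype.ext (tt_cube hD hx.1 hy.1 hn)
      rw [this]; rfl
    have h2 := (commute_iff_sq (tt_sq h0 ⟨x, hx, rfl⟩) (tt_sq h0 ⟨y, hy, rfl⟩)).mp h
    have h3 : (QuotientGroup.mk x * QuotientGroup.mk y : ↥(Hd D d) ⧸ Subgroup.center ↥(Hd D d)) = 1 := by
      have : (QuotientGroup.mk x * QuotientGroup.mk y : ↥(Hd D d) ⧸ Subgroup.center ↥(Hd D d)) ^ 3 =
        (QuotientGroup.mk x * QuotientGroup.mk y) ^ 2 * (QuotientGroup.mk x * QuotientGroup.mk y) := pow_succ _ 2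
      rw [h1, h2, one_mul] at this
      exact this.symm
    have h4 : (QuotientGroup.mk x : ↥(Hd D d) ⧸ Subgroup.center ↥(Hd D d)) = QuotientGroup.mk y := by
      rw [eq_inv_of_mul_eq_one_left h3, tt_inv h0 ⟨y, hy, rfl⟩]
    rw [QuotientGroup.eq, mem_center_iff'] at h4
    have h5 : (x : G) = y := nb_inj hD hc hT hV hd hx hy (by simpa using h4)
    exact hn (by rw [h5])
  · intro h
    show QuotientGroup.mk x * QuotientGroup.mk y = QuotientGroup.mk y * QuotientGroup.mk x
    rw [← QuotientGroup.mk_mul, ← QuotientGroup.mk_mul]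
    congr 1
    exact Subtype.ext h.eq

include hD hc hT hV in
/-- localization -/
theorem relFree_succ [Finite G] {N : ℕ} {d₁ : G} (hd₁ : d₁ ∈ D) (hR : RelFree (Db D d₁) N) : RelFree D (N + 1) := by
  intro L hn hl hcm hp hlen
  match L, hn, hl, hcm, hp, hlen with
  | [], _, _, _, _, _ => rfl
  | d :: L', hn, hl, hcm, hp, hlen =>
    exfalso
    obtain ⟨g, hg⟩ := hT d (hl d (by simp)) d₁ hd₁
    have hd := hl d (by simp)
    rw [List.nodup_cons] at hn
    let L₂ : List G := L'.map (MulAut.conj g)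
    have hL₂ : ∀ x ∈ L₂, x ∈ Nb D d₁ := by
      intro x hx
      obtain ⟨y, hy, rfl⟩ := List.mem_map.mp hx
      rw [← hg]
      exact nb_conj hc g ⟨hl y (List.mem_cons_of_mem _ hy), fun h => hn.1 (h ▸ hy), hcm d (by simp) y (List.mem_cons_of_mem _ hy)⟩
    have hp₂ : L₂.prod = d₁ := by
      have h1 : L₂.prod = MulAut.conj g L'.prod := (map_list_prod (MulAut.conj g) L').symm
      have h2 : L'.prod = d := by
        rw [List.prod_cons] at hp
        rw [eq_inv_of_mul_eq_one_right hp, tt_inv hD hd]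
      rw [h1, h2]; exact hg
    have hn₂ : L₂.Nodup := hn.2.map (MulAut.conj g).injective
    have hc₂ : ∀ x ∈ L₂, ∀ y ∈ L₂, Commute x y := by
      intro x hx y hy
      obtain ⟨x', hx', rfl⟩ := List.mem_map.mp hx
      obtain ⟨y', hy', rfl⟩ := List.mem_map.mp hy
      exact (commute_conj_iff g x' y').mpr (hcm x' (List.mem_cons_of_mem _ hx') y' (List.mem_cons_of_mem _ hy'))
    have hlen₂ : L₂.length ≤ N := by
      have : L₂.length = L'.length := List.length_map _
      rw [this]
      simpa using hlen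
    have hmem : ∀ x ∈ L₂, x ∈ Hd D d₁ := fun x hx => Subgroup.subset_closure (hL₂ x hx)
    obtain ⟨L₃, hL₃⟩ : ∃ L₃ : List ↥(Hd D d₁), L₃.map (Hd D d₁).subtype = L₂ := by
      refine ⟨L₂.attach.map (fun x => ⟨x.1, hmem x.1 x.2⟩), ?_⟩
      rw [List.map_map]
      exact List.attach_map_subtype_val L₂
    have hL₃m : ∀ x ∈ L₃, (x : G) ∈ L₂ := fun x hx => by rw [← hL₃]; exact List.mem_map.mpr ⟨x, hx, rfl⟩
    let L₄ := L₃.map (QuotientGroup.mk' (Subgroup.center ↥(Hd D d₁)))
    have hfin : L₄ = [] := by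
      refine hR L₄ ?_ ?_ ?_ ?_ ?_
      · have hn₃ : L₃.Nodup := by
          rw [← hL₃] at hn₂
          exact List.Nodup.of_map _ hn₂
        refine List.Nodup.map_on ?_ hn₃
        intro x hx y hy hxy
        have h4 : (QuotientGroup.mk x : ↥(Hd D d₁) ⧸ Subgroup.center ↥(Hd D d₁)) = QuotientGroup.mk y := hxy
        rw [QuotientGroup.eq, mem_center_iff'] at h4
        exact Subtype.ext (nb_inj hD hc hT hV hd₁ (hL₂ _ (hL₃m x hx)) (hL₂ _ (hL₃m y hy)) (by simpa using h4))
      · intro x hx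
        obtain ⟨y, hy, rfl⟩ := List.mem_map.mp hx
        exact ⟨y, hL₂ _ (hL₃m y hy), rfl⟩
      · intro x hx y hy
        obtain ⟨x', hx', rfl⟩ := List.mem_map.mp hx
        obtain ⟨y', hy', rfl⟩ := List.mem_map.mp hy
        exact (commute_Db hD hc hT hV (hL₂ _ (hL₃m x' hx')) (hL₂ _ (hL₃m y' hy')) hd₁).mpr (hc₂ _ (hL₃m x' hx') _ (hL₃m y' hy'))
      · have h1 : L₄.prod = QuotientGroup.mk' (Subgroup.center ↥(Hd D d₁)) L₃.prod := (map_list_prod _ L₃).symm
        rw [h1, QuotientGroup.mk'_apply, QuotientGroup.eq_one_iff, mem_center_iff']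
        have h2 : ((L₃.prod : ↥(Hd D d₁)) : G) = d₁ :=
          (map_list_prod (Hd D d₁).subtype L₃).trans (by rw [hL₃]; exact hp₂)
        rw [h2]
        intro x hx
        exact hx.2.2
      · have h1 : L₄.length = L₂.length := by
          rw [← hL₃, List.length_map, List.length_map]
        rw [h1]; exact hlen₂
    have h1 : L₃ = [] := List.map_eq_nil_iff.mp hfin
    rw [h1, List.map_nil] at hL₃
    rw [← hL₃, List.prod_nil] at hp₂
    exact tt_ne_one hD hd₁ hp₂.symm

theorem reverse_prod (l : List G) (h : ∀ a ∈ l, a⁻¹ = a) : l.reverse.prod = l.prod⁻¹ := by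
  induction l with
  | nil => simp
  | cons a l ih =>
    rw [List.reverse_cons, List.prod_append, List.prod_singleton, List.prod_cons, mul_inv_rev,
      ih fun b hb => h b (List.mem_cons_of_mem _ hb), h a (by simp)]

/-- unique factorization -/
theorem uniq_fact (hD : IsThreeTranspositionSet D) {N : ℕ} (hR : RelFree D N) : ∀ l l' : List G, l.Nodup → l'.Nodup → (∀ a ∈ l, a ∈ D) →
    (∀ a ∈ l', a ∈ D) → (∀ a ∈ l, ∀ b ∈ l, Commute a b) → (∀ a ∈ l', ∀ b ∈ l', Commute a b) → (∀ a ∈ l, ∀ b ∈ l', Commute a b) →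
    l.length + l'.length ≤ N → l.prod = l'.prod → ∀ x : G, x ∈ l ↔ x ∈ l' := by
  classical
  intro l
  induction hk : l.length using Nat.strong_induction_on generalizing l with
  | _ k ih =>
  intro l' hn hn' hl hl' hc hc' hcc hlen hp
  by_cases hex : ∃ a, a ∈ l ∧ a ∈ l'
  · obtain ⟨a, ha, ha'⟩ := hex
    have p1 := List.perm_cons_erase ha
    have p2 := List.perm_cons_erase ha'
    have e1 : l.prod = a * (l.erase a).prod := by
      rw [p1.prod_eq' (List.pairwise_of_forall_mem_list fun x hx y hy => hc x hx y hy), List.prod_cons]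
    have e2 : l'.prod = a * (l'.erase a).prod := by
      rw [p2.prod_eq' (List.pairwise_of_forall_mem_list fun x hx y hy => hc' x hx y hy), List.prod_cons]
    have e3 : (l.erase a).prod = (l'.erase a).prod := by
      rw [e1, e2] at hp; exact mul_left_cancel hp
    have s1 : ∀ {x}, x ∈ l.erase a → x ∈ l := fun h => List.mem_of_mem_erase h
    have s2 : ∀ {x}, x ∈ l'.erase a → x ∈ l' := fun h => List.mem_of_mem_erase h
    have k1 : (l.erase a).length = l.length - 1 := List.length_erase_of_mem ha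
    have k2 : (l'.erase a).length = l'.length - 1 := List.length_erase_of_mem ha'
    have k3 : 0 < l.length := List.length_pos_of_mem ha
    have := ih (l.erase a).length (by omega) (l.erase a) rfl (l'.erase a) (hn.erase a) (hn'.erase a) (fun x hx => hl x (s1 hx))
      (fun x hx => hl' x (s2 hx)) (fun x hx y hy => hc x (s1 hx) y (s1 hy)) (fun x hx y hy => hc' x (s2 hx) y (s2 hy))
      (fun x hx y hy => hcc x (s1 hx) y (s2 hy)) (by omega) e3
    intro x
    rw [p1.mem_iff, p2.mem_iff, List.mem_cons, List.mem_cons, this x]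
  · have hrev : l'.reverse.prod = l'.prod⁻¹ := reverse_prod l' fun a ha => tt_inv hD (hl' a ha)
    have hL := hR (l ++ l'.reverse) ?_ ?_ ?_ ?_ ?_
    · rw [List.append_eq_nil_iff, List.reverse_eq_nil_iff] at hL
      rw [hL.1, hL.2]; intro x; rfl
    · rw [List.nodup_append]
      refine ⟨hn, List.nodup_reverse.mpr hn', ?_⟩
      intro a ha b hb hab
      exact hex ⟨a, ha, by rw [hab]; exact List.mem_reverse.mp hb⟩
    · intro a ha
      rcases List.mem_append.mp ha with h | h
      · exact hl a h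
      · exact hl' a (List.mem_reverse.mp h)
    · intro a ha b hb
      rcases List.mem_append.mp ha with h | h <;> rcases List.mem_append.mp hb with h' | h'
      · exact hc a h b h'
      · exact hcc a h b (List.mem_reverse.mp h')
      · exact (hcc b h' a (List.mem_reverse.mp h)).symm
      · exact hc' a (List.mem_reverse.mp h) b (List.mem_reverse.mp h')
    · rw [List.prod_append, hrev, hp, mul_inv_cancel]
    · rw [List.length_append, List.length_reverse]; omega

end Cfsg.Agent.H28.Rel
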