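import Mathlib
import Cfsg.Agent.H28_Rel2

set_option autoImplicit false

/-! Transitivity of the local groups; cores modulo the centre. -/

namespace Cfsg.Agent.H28.Rel

open Cfsg Cfsg.Agent.H28.Basic Cfsg.Agent.H28.VW

universe u

theorem pCore_mod_center {H : Type u} [Group H] [Finite H] (p : ℕ) [hp : Fact p.Prime] (h : pCore p H ≤ Subgroup.center H) :
    pCore p (H ⧸ Subgroup.center H) = ⊥ := by
  let π := QuotientGroup.mk' (Subgroup.center H)
  let K : Subgroup H := (pCore p (H ⧸ Subgroup.center H)).comap π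
  have hKn : Group.IsNilpotent ↥K := by
    let f : ↥K →* ↥(pCore p (H ⧸ Subgroup.center H)) := π.subgroupComap _
    have hnil : Group.IsNilpotent ↥(pCore p (H ⧸ Subgroup.center H)) := (H11.Cores.pCore_isPGroup p).isNilpotent
    refine Subgroup.isNilpotent_of_ker_le_center f ?_
    intro x hx
    rw [MonoidHom.mem_ker] at hx
    have h1 : π (x : H) = 1 := congrArg Subtype.val hx
    have h2 : (x : H) ∈ Subgroup.center H := (QuotientGroup.eq_one_iff _).mp h1
    rw [Subgroup.mem_center_iff]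
    intro y
    exact Subtype.ext (Subgroup.mem_center_iff.mp h2 y)
  obtain ⟨S⟩ : Nonempty (Sylow p ↥K) := inferInstance
  have hSn : (S : Subgroup ↥K).Normal := inferInstance
  have hSchar : (S : Subgroup ↥K).Characteristic := Sylow.characteristic_of_normal S hSn
  have hm : ((S : Subgroup ↥K).map K.subtype).Normal := H11.Cores.map_subtype_normal_of_characteristic K S
  have hSp : IsPGroup p ↥((S : Subgroup ↥K).map K.subtype) := S.isPGroup'.map _
  have hSZ : (S : Subgroup ↥K).map K.subtype ≤ Subgroup.center H := (H11.Cores.le_pCore p hSp).trans h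
  have hKZ : K ≤ Subgroup.center H := by
    intro x hx
    obtain ⟨k, hk⟩ := H11.Cores.pCore_isPGroup (G := H ⧸ Subgroup.center H) p ⟨π x, hx⟩
    have h1 : x ^ (p ^ k) ∈ Subgroup.center H := by
      have h2 : (π x) ^ (p ^ k) = 1 := congrArg Subtype.val hk
      rw [← map_pow] at h2
      exact (QuotientGroup.eq_one_iff _).mp h2
    have h3 : x ^ (S : Subgroup ↥K).index ∈ Subgroup.center H := by
      have h4 := Subgroup.pow_index_mem (S : Subgroup ↥K) ⟨x, hx⟩
      exact hSZ ⟨_, h4, rfl⟩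
    have hcop : IsCoprime ((p ^ k : ℕ) : ℤ) ((S : Subgroup ↥K).index : ℤ) := by
      rw [Nat.isCoprime_iff_coprime]
      exact Nat.Coprime.pow_left k ((Nat.Prime.coprime_iff_not_dvd hp.out).mpr S.not_dvd_index)
    obtain ⟨u, v, huv⟩ := hcop
    have h5 : x = (x ^ (p ^ k)) ^ u * (x ^ (S : Subgroup ↥K).index) ^ v := by
      rw [← zpow_natCast, ← zpow_natCast, ← zpow_mul, ← zpow_mul, ← zpow_add, mul_comm _ u, mul_comm _ v, huv, zpow_one]
    rw [h5]
    exact mul_mem (Subgroup.zpow_mem _ h1 _) (Subgroup.zpow_mem _ h3 _)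
  rw [eq_bot_iff]
  intro y hy
  obtain ⟨x, rfl⟩ := QuotientGroup.mk'_surjective _ y
  exact (QuotientGroup.eq_one_iff x).mpr (hKZ hy)

variable {G : Type u} [Group G] {D : Set G}

theorem nc_conj (hD : IsThreeTranspositionSet D) {y e : G} (hy : y ∈ D) (he : e ∈ D) (h : ¬ Commute y e) :
    (y * e) * y * (y * e)⁻¹ = e := by
  have b := tt_braid hD hy he h
  rw [mul_inv_rev, tt_inv hD hy, tt_inv hD he]
  calc y * e * y * (e * y) = (y * e * y) * e * y := by group
    _ = (e * y * e) * e * y := by rw [b]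
    _ = e * y * (e * e) * y := by group
    _ = e * (y * y) := by rw [tt_sq hD he]; group
    _ = e := by rw [tt_sq hD hy, mul_one]

/-- orbits of the local group -/
def Orb (D : Set G) (d x : G) : Set G := {y | ∃ h ∈ Hd D d, y = h * x * h⁻¹}

theorem orb_self (d x : G) : x ∈ Orb D d x := ⟨1, one_mem _, by group⟩

theorem orb_sub (hc : ∀ g : G, ∀ d ∈ D, g * d * g⁻¹ ∈ D) {d x : G} (hx : x ∈ Nb D d) : Orb D d x ⊆ Nb D d := by
  rintro y ⟨h, hh, rfl⟩
  have h1 := nb_conj hc h hx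
  have h2 : h * d * h⁻¹ = d := by rw [← (hd_commute hh).eq]; group
  rwa [h2] at h1

theorem orb_inv {d x : G} {h : G} (hh : h ∈ Hd D d) {y : G} (hy : y ∈ Orb D d x) : h * y * h⁻¹ ∈ Orb D d x := by
  obtain ⟨k, hk, rfl⟩ := hy
  exact ⟨h * k, mul_mem hh hk, by group⟩

theorem hd_conj (hc : ∀ g : G, ∀ d ∈ D, g * d * g⁻¹ ∈ D) (g d : G) {h : G} (hh : h ∈ Hd D d) : g * h * g⁻¹ ∈ Hd D (g * d * g⁻¹) := by
  have h1 : Hd D d ≤ (Hd D (g * d * g⁻¹)).comap (MulAut.conj g).toMonoidHom := by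
    rw [Subgroup.closure_le]
    intro y hy
    exact Subgroup.subset_closure (nb_conj hc g hy)
  exact h1 hh

/-- the local group is transitive on the neighbours -/
theorem tr_local [Finite G] (hG : IsThreeTranspositionGroup D) (hprim : IsPrimitiveUnderConj D) (hV : VTriv D) {d : G} (hd : d ∈ D) :
    ∀ a ∈ Nb D d, ∀ b ∈ Nb D d, ∃ h ∈ Hd D d, h * a * h⁻¹ = b := by
  intro a ha b hb
  by_contra hcon
  push Not at hcon
  have hD := hG.1
  have hc := hG.2.1
  -- an orbit of maximal size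
  obtain ⟨x, hx, hmax⟩ := (Set.toFinite (Nb D d)).exists_maximalFor (fun x => (Orb D d x).ncard) _ ⟨a, ha⟩
  have hmax' : ∀ y ∈ Nb D d, (Orb D d y).ncard ≤ (Orb D d x).ncard := by
    intro y hy
    rcases le_total (Orb D d y).ncard (Orb D d x).ncard with h | h
    · exact h
    · exact hmax hy h
  obtain ⟨e, he, heX⟩ : ∃ e ∈ Nb D d, e ∉ Orb D d x := by
    by_contra h
    push Not at h
    obtain ⟨h1, hh1, e1⟩ := h a ha
    obtain ⟨h2, hh2, e2⟩ := h b hb
    apply hcon (h2 * h1⁻¹) (mul_mem hh2 (inv_mem hh1))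
    rw [e1, e2]; group
  set X := Orb D d x with hX
  have hXN : X ⊆ Nb D d := orb_sub hc hx
  have hout : ∀ z ∈ Nb D d, z ∉ X → ∀ y ∈ X, Commute y z := by
    intro z hz hzX y hy
    by_contra h
    apply hzX
    rw [← nc_conj hD (hXN hy).1 hz.1 h]
    exact orb_inv (mul_mem (Subgroup.subset_closure (hXN hy)) (Subgroup.subset_closure hz)) hy
  have hXe : X ⊆ Nb D e := fun y hy => ⟨(hXN hy).1, fun h => heX (h ▸ hy), (hout e he heX y hy).symm⟩
  have hgen : ∀ h ∈ Hd D d, ∀ y ∈ X, ∃ k ∈ Subgroup.closure X, h * y * h⁻¹ = k * y * k⁻¹ := by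
    intro h hh
    induction hh using Subgroup.closure_induction with
    | mem z hz =>
      intro y hy
      by_cases hzX : z ∈ X
      · exact ⟨z, Subgroup.subset_closure hzX, rfl⟩
      · refine ⟨1, one_mem _, ?_⟩
        rw [← (hout z hz hzX y hy).eq]; group
    | one => intro y hy; exact ⟨1, one_mem _, rfl⟩
    | mul h1 h2 hh1 hh2 ih1 ih2 =>
      intro y hy
      obtain ⟨k2, hk2, e2⟩ := ih2 y hy
      obtain ⟨k1, hk1, e1⟩ := ih1 (h2 * y * h2⁻¹) (orb_inv hh2 hy)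
      refine ⟨k1 * k2, mul_mem hk1 hk2, ?_⟩
      calc h1 * h2 * y * (h1 * h2)⁻¹ = h1 * (h2 * y * h2⁻¹) * h1⁻¹ := by group
        _ = k1 * (h2 * y * h2⁻¹) * k1⁻¹ := e1
        _ = k1 * (k2 * y * k2⁻¹) * k1⁻¹ := by rw [e2]
        _ = _ := by group
    | inv h hh ih =>
      intro y hy
      obtain ⟨k, hk, e1⟩ := ih (h⁻¹ * y * h⁻¹⁻¹) (orb_inv (inv_mem hh) hy)
      refine ⟨k⁻¹, inv_mem hk, ?_⟩
      have e2 : y = k * (h⁻¹ * y * h⁻¹⁻¹) * k⁻¹ := by rw [← e1]; group
      nth_rw 2 [e2]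
      group
  have hXsub : X ⊆ Orb D e x := by
    rintro y ⟨h, hh, rfl⟩
    obtain ⟨k, hk, e1⟩ := hgen h hh x (orb_self d x)
    rw [e1]
    exact ⟨k, Subgroup.closure_mono hXe hk, rfl⟩
  have hxe : x ∈ Nb D e := hXe (orb_self d x)
  have hcard : (Orb D e x).ncard ≤ X.ncard := by
    obtain ⟨g, hg⟩ := hprim.1 e he.1 d hd
    refine le_trans ?_ (hmax' (g * x * g⁻¹) (by rw [← hg]; exact nb_conj hc g hxe))
    refine Set.ncard_le_ncard_of_injOn (fun y => g * y * g⁻¹) ?_ ?_ (Set.toFinite _)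
    · rintro y ⟨h, hh, rfl⟩
      refine ⟨g * h * g⁻¹, by rw [← hg]; exact hd_conj hc g e hh, by group⟩
    · intro y _ z _ hyz
      have : g * y * g⁻¹ = g * z * g⁻¹ := hyz
      simpa using this
  have hXeq : X = Orb D e x := Set.eq_of_subset_of_ncard_le hXsub hcard (Set.toFinite _)
  -- the stabilizer of X
  have stab : ∀ h ∈ Subgroup.closure ({y | y ∈ D ∧ Commute d y} ∪ {y | y ∈ D ∧ Commute e y}), ∀ y ∈ X, h * y * h⁻¹ ∈ X := by
    have hone : ∀ f : G, (∀ h ∈ Nb D f, ∀ y ∈ X, h * y * h⁻¹ ∈ X) → (∀ y ∈ X, f * y * f⁻¹ ∈ X) → ∀ z, z ∈ D → Commute f z →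
        ∀ y ∈ X, z * y * z⁻¹ ∈ X := by
      intro f h1 h2 z hz hfz y hy
      by_cases h : z = f
      · rw [h]; exact h2 y hy
      · exact h1 z ⟨hz, h, hfz⟩ y hy
    have hgens : ∀ z ∈ ({y | y ∈ D ∧ Commute d y} ∪ {y | y ∈ D ∧ Commute e y} : Set G), ∀ y ∈ X, z * y * z⁻¹ ∈ X := by
      rintro z (⟨hz, hdz⟩ | ⟨hz, hdz⟩)
      · refine hone d (fun h hh y hy => orb_inv (Subgroup.subset_closure hh) hy) (fun y hy => ?_) z hz hdz
        rw [(hXN hy).2.2.eq, mul_inv_cancel_right]; exact hy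
      · refine hone e (fun h hh y hy => ?_) (fun y hy => ?_) z hz hdz
        · rw [hXeq] at hy ⊢
          exact orb_inv (Subgroup.subset_closure hh) hy
        · rw [(hXe hy).2.2.eq, mul_inv_cancel_right]; exact hy
    have hgi : ∀ z ∈ ({y | y ∈ D ∧ Commute d y} ∪ {y | y ∈ D ∧ Commute e y} : Set G), z⁻¹ = z := by
      rintro z (⟨hz, -⟩ | ⟨hz, -⟩) <;> exact tt_inv hD hz
    intro h hh
    refine Subgroup.closure_induction_right (p := fun h _ => ∀ y ∈ X, h * y * h⁻¹ ∈ X) ?_ ?_ ?_ hh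
    · intro y hy; rw [inv_one, one_mul, mul_one]; exact hy
    · intro h _ z hz ih y hy
      have : h * z * y * (h * z)⁻¹ = h * (z * y * z⁻¹) * h⁻¹ := by group
      rw [this]; exact ih _ (hgens z hz y hy)
    · intro h _ z hz ih y hy
      rw [hgi z hz]
      have : h * z * y * (h * z)⁻¹ = h * (z * y * z⁻¹) * h⁻¹ := by group
      rw [this]; exact ih _ (hgens z hz y hy)
  have hw : ∃ a ∈ D, ∃ b ∈ D, a ≠ b ∧ Commute a b := ⟨a, ha.1, d, hd, ha.2.1, ha.2.2.symm⟩
  rcases TT3.prim_maximal hG hprim hw hd (Subgroup.closure ({y | y ∈ D ∧ Commute d y} ∪ {y | y ∈ D ∧ Commute e y}))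
    (TT3.dsub_closure (by rintro z (⟨hz, -⟩ | ⟨hz, -⟩) <;> exact hz)) (Subgroup.closure_mono Set.subset_union_left) with h | h
  · have h1 : ∀ z ∈ D, Commute e z → Commute d z := by
      intro z hz hez
      have h2 : z ∈ Subgroup.closure ({y | y ∈ D ∧ Commute d y} ∪ {y | y ∈ D ∧ Commute e y}) :=
        Subgroup.subset_closure (Or.inr ⟨hz, hez⟩)
      rw [h] at h2
      have h3 : Subgroup.closure {y : G | y ∈ D ∧ Commute d y} ≤ Subgroup.centralizer ({d} : Set G) := by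
        rw [Subgroup.closure_le]
        rintro y ⟨-, hy⟩
        rw [SetLike.mem_coe, Subgroup.mem_centralizer_singleton_iff]
        exact hy.eq.symm
      exact (Subgroup.mem_centralizer_singleton_iff.mp (h3 h2)).symm
    have h4 := nb_eq hc (hprim.1 d hd e he.1) hV he.1 hd h1
    exact he.2.1 h4.symm
  · obtain ⟨g, hg⟩ := hprim.1 x hx.1 d hd
    have h1 := stab g (by rw [h]; trivial) x (orb_self d x)
    rw [hg] at h1
    exact (hXN h1).2.1 rfl

end Cfsg.Agent.H28.Rel
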