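import Mathlib
import Cfsg.Agent.H28_Rel3
import Cfsg.Agent.S0283

set_option autoImplicit false

/-! No short relations between commuting transpositions in groups of type M(22) and M(23). -/

namespace Cfsg.Agent.H28.Rel

open Cfsg Cfsg.Agent.H28.Basic Cfsg.Agent.H28.VW

universe u

theorem not_top_of_simple {H : Type u} [Group H] (hs : IsSimpleGroup (H ⧸ Subgroup.center H)) :
    Subgroup.center (H ⧸ Subgroup.center H) = ⊥ := by
  rcases hs.eq_bot_or_eq_top_of_normal (Subgroup.center (H ⧸ Subgroup.center H)) inferInstance with h | h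
  · exact h
  · exfalso
    have hcomm : ∀ a b : H ⧸ Subgroup.center H, a * b = b * a := by
      intro a b
      have : b ∈ Subgroup.center (H ⧸ Subgroup.center H) := by rw [h]; trivial
      exact (Subgroup.mem_center_iff.mp this a)
    letI : CommGroup (H ⧸ Subgroup.center H) := { (inferInstance : Group (H ⧸ Subgroup.center H)) with mul_comm := hcomm }
    have hcyc : IsCyclic (H ⧸ Subgroup.center H) := by
      have hs' : IsSimpleGroup (H ⧸ Subgroup.center H) := hs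
      infer_instance
    have h2 : ∀ a b : H, a * b = b * a := commutative_of_cyclic_center_quotient (QuotientGroup.mk' (Subgroup.center H)) (by
      rw [QuotientGroup.ker_mk'])
    have h3 : Subgroup.center H = ⊤ := by
      rw [eq_top_iff]; intro x _
      rw [Subgroup.mem_center_iff]; intro y; exact h2 y x
    obtain ⟨a, b, hab⟩ := hs.toNontrivial
    apply hab
    obtain ⟨a, rfl⟩ := QuotientGroup.mk_surjective a
    obtain ⟨b, rfl⟩ := QuotientGroup.mk_surjective b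
    rw [QuotientGroup.eq, h3]; trivial

theorem pCore_of_simple {H : Type u} [Group H] [Finite H] (p : ℕ) [Fact p.Prime] (hs : IsSimpleGroup (H ⧸ Subgroup.center H)) :
    pCore p (H ⧸ Subgroup.center H) = ⊥ := by
  rcases hs.eq_bot_or_eq_top_of_normal (pCore p (H ⧸ Subgroup.center H)) inferInstance with h | h
  · exact h
  · exfalso
    have h1 := H11.Cores.pCore_isPGroup (G := H ⧸ Subgroup.center H) p
    rw [h] at h1
    have h2 : IsPGroup p (H ⧸ Subgroup.center H) := h1.of_equiv Subgroup.topEquiv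
    haveI := hs.toNontrivial
    have h3 := h2.center_nontrivial
    rw [not_top_of_simple hs] at h3
    exact not_nontrivial _ h3

variable {G : Type u} [Group G] {D : Set G}

theorem ncent (hgen : Subgroup.closure D = ⊤) (hD : IsThreeTranspositionSet D) (hZ : Subgroup.center G = ⊥) :
    ∀ d ∈ D, ∃ x ∈ D, ¬ Commute d x := by
  intro d hd
  by_contra h
  push Not at h
  have h1 : d ∈ Subgroup.center G := TT1.mem_center_of hgen fun x hx => (h x hx).symm
  rw [hZ, Subgroup.mem_bot] at h1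
  exact tt_ne_one hD hd h1

theorem tr_Db (hc : ∀ g : G, ∀ d ∈ D, g * d * g⁻¹ ∈ D) {d : G} (h : ∀ a ∈ Nb D d, ∀ b ∈ Nb D d, ∃ h ∈ Hd D d, h * a * h⁻¹ = b) :
    Tr (Db D d) := by
  rintro _ ⟨a, ha, rfl⟩ _ ⟨b, hb, rfl⟩
  obtain ⟨k, hk, e⟩ := h a ha b hb
  refine ⟨QuotientGroup.mk ⟨k, hk⟩, ?_⟩
  rw [← QuotientGroup.mk_inv, ← QuotientGroup.mk_mul, ← QuotientGroup.mk_mul]
  congr 1
  exact Subtype.ext e

/-- a simple local group -/
theorem relFree_simple [Finite G] (hD : IsThreeTranspositionSet D) (hc : ∀ g : G, ∀ d ∈ D, g * d * g⁻¹ ∈ D) (hT : Tr D) (hV : VTriv D)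
    {d : G} (hd : d ∈ D) (hs : IsSimpleGroup (↥(Hd D d) ⧸ Subgroup.center ↥(Hd D d))) : RelFree D 5 := by
  refine relFree_succ hD hc hT hV hd ?_
  have h0 := tts_Db hD hc hT hV hd
  exact relFree4 h0 (vtriv_of_core h0 (conj_Db hc d) (pCore_of_simple 2 hs)) (ncent (closure_Db d) h0 (not_top_of_simple hs))

theorem psu_simple {F : Type} [Field F] [Fintype F] (hF : Fintype.card F = 4) : IsSimpleGroup (Cfsg.PSU 6 F 2) :=
  Cfsg.Agent.S0283.result (q := 2) (by rw [hF]; norm_num) 6 (by norm_num) (by rintro ⟨h, -⟩; norm_num at h)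

theorem m22_simple (h22 : IsOfTypeM22 G D) : ∃ d ∈ D, ∃ c ∈ D, ¬ Commute d c ∧ IsSimpleGroup (↥(Hd D d) ⧸ Subgroup.center ↥(Hd D d)) ∧
    ∃ c₃ : ZMod 3, c₃ ≠ 0 ∧ IsProjReflectionGroupModThree
      (↥(Subgroup.closure (Nb D d ∩ Nb D c)) ⧸ Subgroup.center ↥(Subgroup.closure (Nb D d ∩ Nb D c))) 6 1 c₃ := by
  obtain ⟨-, d, hd, c, hcD, hdc, ⟨F, iF, iF', hF, ⟨e⟩⟩, hL⟩ := h22
  refine ⟨d, hd, c, hcD, hdc, ?_, hL⟩
  haveI := psu_simple hF
  exact MulEquiv.isSimpleGroup e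

theorem relFree_M22 [Finite G] (hD : IsThreeTranspositionSet D) (hc : ∀ g : G, ∀ d ∈ D, g * d * g⁻¹ ∈ D) (hT : Tr D) (hV : VTriv D)
    (h22 : IsOfTypeM22 G D) : RelFree D 5 := by
  obtain ⟨d, hd, -, -, -, hs, -⟩ := m22_simple h22
  exact relFree_simple hD hc hT hV hd hs

/-- transport of the hypothesis on the 2-core -/
theorem core_transport (hc : ∀ g : G, ∀ d ∈ D, g * d * g⁻¹ ∈ D) (p : ℕ) {d₀ d : G} (hT : ∃ g : G, g * d₀ * g⁻¹ = d)
    (h : pCore p ↥(Hd D d₀) ≤ Subgroup.center ↥(Hd D d₀)) : pCore p ↥(Hd D d) ≤ Subgroup.center ↥(Hd D d) := by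
  obtain ⟨g, rfl⟩ := hT
  have hmap : (Hd D d₀).map (MulAut.conj g).toMonoidHom = Hd D (g * d₀ * g⁻¹) := by
    apply le_antisymm
    · rintro _ ⟨x, hx, rfl⟩; exact hd_conj hc g d₀ hx
    · intro y hy
      refine ⟨g⁻¹ * y * g, ?_, ?_⟩
      · have := hd_conj hc g⁻¹ (g * d₀ * g⁻¹) hy
        have e : g⁻¹ * (g * d₀ * g⁻¹) * g⁻¹⁻¹ = d₀ := by group
        rw [e] at this
        simpa using this
      · show g * (g⁻¹ * y * g) * g⁻¹ = y
        group
  let e : ↥(Hd D d₀) ≃* ↥(Hd D (g * d₀ * g⁻¹)) :=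
    ((Hd D d₀).equivMapOfInjective (MulAut.conj g).toMonoidHom (MulAut.conj g).injective).trans (MulEquiv.subgroupCongr hmap)
  intro x hx
  rw [← H11.Cores.map_equiv_pCore (p := p) e] at hx
  obtain ⟨y, hy, rfl⟩ := hx
  have h1 := h hy
  rw [Subgroup.mem_center_iff] at h1 ⊢
  intro z
  obtain ⟨w, rfl⟩ := e.surjective z
  show e w * e y = e y * e w
  rw [← map_mul, h1 w, map_mul]

/-- the local group of a primitive group -/
theorem local_facts [Finite G] (hG : IsThreeTranspositionGroup D) (hprim : IsPrimitiveUnderConj D) (hZ : Subgroup.center G = ⊥)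
    {d₀ : G} (hd₀ : d₀ ∈ D) (h2 : pCore 2 ↥(Hd D d₀) ≤ Subgroup.center ↥(Hd D d₀)) :
    VTriv D ∧ Tr D ∧ ∀ d ∈ D, IsThreeTranspositionSet (Db D d) ∧ Tr (Db D d) ∧ VTriv (Db D d) := by
  have hcore : pCore 2 G = ⊥ := by
    rw [eq_bot_iff, ← hZ]; exact TT3.prim_two hG hprim
  have hV : VTriv D := vtriv_of_core hG.1 hG.2.1 hcore
  have hT : Tr D := hprim.1
  refine ⟨hV, hT, fun d hd => ?_⟩
  have h0 := tts_Db hG.1 hG.2.1 hT hV hd
  refine ⟨h0, tr_Db hG.2.1 (tr_local hG hprim hV hd), vtriv_of_core h0 (conj_Db hG.2.1 d) (pCore_mod_center 2 ?_)⟩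
  exact core_transport hG.2.1 2 (hT d₀ hd₀ d hd) h2

theorem relFree_M23 [Finite G] (hG : IsThreeTranspositionGroup D) (hprim : IsPrimitiveUnderConj D)
    {d₀ : G} (hd₀ : d₀ ∈ D) (h2 : pCore 2 ↥(Hd D d₀) ≤ Subgroup.center ↥(Hd D d₀)) (h23 : IsOfTypeM23 G D) : RelFree D 6 := by
  obtain ⟨hZ, d, hd, -, -, -, h22, -⟩ := h23
  obtain ⟨hV, hT, hloc⟩ := local_facts hG hprim hZ hd₀ h2
  obtain ⟨h0, hT1, hV1⟩ := hloc d hd
  refine relFree_succ hG.1 hG.2.1 hT hV hd ?_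
  exact relFree_M22 h0 (conj_Db hG.2.1 d) hT1 hV1 h22

end Cfsg.Agent.H28.Rel
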