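import Mathlib
import Cfsg.Agent.H28_Rel4

set_option autoImplicit false

/-! Swapping commuting transpositions. -/

namespace Cfsg.Agent.H28.Rel

open Cfsg Cfsg.Agent.H28.Basic Cfsg.Agent.H28.VW

universe u

variable {G : Type u} [Group G] {D : Set G}

/-- transitivity of a local group which is simple modulo its centre -/
theorem tr_simple [Finite G] (hD : IsThreeTranspositionSet D) (hc : ∀ g : G, ∀ d ∈ D, g * d * g⁻¹ ∈ D) (hT : Tr D) (hV : VTriv D)
    {d : G} (hd : d ∈ D) (hs : IsSimpleGroup (↥(Hd D d) ⧸ Subgroup.center ↥(Hd D d))) :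
    ∀ a ∈ Nb D d, ∀ b ∈ Nb D d, ∃ h ∈ Hd D d, h * a * h⁻¹ = b := by
  intro a ha b hb
  by_contra hcon
  push Not at hcon
  have hXN : Orb D d a ⊆ Nb D d := orb_sub hc ha
  have hout : ∀ y ∈ Orb D d a, Commute y b := by
    intro y hy
    by_contra h
    have h1 : b ∈ Orb D d a := by
      rw [← nc_conj hD (hXN hy).1 hb.1 h]
      exact orb_inv (mul_mem (Subgroup.subset_closure (hXN hy)) (Subgroup.subset_closure hb)) hy
    obtain ⟨k, hk, e⟩ := h1
    exact hcon k hk e.symm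
  let A : Subgroup ↥(Hd D d) := Subgroup.closure {x : ↥(Hd D d) | (x : G) ∈ Orb D d a}
  have hAn : A.Normal := by
    refine ⟨fun n hn g => ?_⟩
    have h1 : A ≤ A.comap (MulAut.conj g).toMonoidHom := by
      rw [Subgroup.closure_le]
      intro x hx
      refine Subgroup.subset_closure ?_
      show (g : G) * (x : G) * (g : G)⁻¹ ∈ Orb D d a
      exact orb_inv g.2 hx
    exact h1 hn
  have hAb : ∀ x ∈ A, Commute (x : G) b := by
    intro x hx
    induction hx using Subgroup.closure_induction with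
    | mem x hx => exact hout _ hx
    | one => exact Commute.one_left b
    | mul x y _ _ h1 h2 => exact h1.mul_left h2
    | inv x _ h1 => exact h1.inv_left
  let π := QuotientGroup.mk' (Subgroup.center ↥(Hd D d))
  have hπ : Function.Surjective π := QuotientGroup.mk'_surjective _
  rcases hs.eq_bot_or_eq_top_of_normal (A.map π) (hAn.map π hπ) with h | h
  · obtain ⟨x, hx, hnx⟩ := nb_not_center hc hT hV hd ha
    have h1 : (⟨a, Subgroup.subset_closure ha⟩ : ↥(Hd D d)) ∈ A := Subgroup.subset_closure (orb_self d a)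
    have h2 : π ⟨a, Subgroup.subset_closure ha⟩ ∈ A.map π := ⟨_, h1, rfl⟩
    rw [h, Subgroup.mem_bot] at h2
    have h3 : (⟨a, Subgroup.subset_closure ha⟩ : ↥(Hd D d)) ∈ Subgroup.center ↥(Hd D d) := (QuotientGroup.eq_one_iff _).mp h2
    rw [mem_center_iff'] at h3
    exact hnx (h3 x hx)
  · obtain ⟨x, hx, hnx⟩ := nb_not_center hc hT hV hd hb
    have h1 : π ⟨x, Subgroup.subset_closure hx⟩ ∈ A.map π := by rw [h]; trivial
    obtain ⟨y, hy, hyx⟩ := h1
    have h2 : y⁻¹ * ⟨x, Subgroup.subset_closure hx⟩ ∈ Subgroup.center ↥(Hd D d) := QuotientGroup.eq.mp hyx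
    rw [mem_center_iff'] at h2
    have h3 := h2 b hb
    apply hnx
    have h4 : x = (y : G) * ((y : G)⁻¹ * x) := by group
    rw [h4]
    exact ((hAb y hy).mul_left h3).symm

theorem exists_nc (hD : IsThreeTranspositionSet D) (hc : ∀ g : G, ∀ d ∈ D, g * d * g⁻¹ ∈ D) (hgen : Subgroup.closure D = ⊤) (hT : Tr D)
    {d : G} (hd : d ∈ D) (hloc : ∀ a ∈ Nb D d, ∀ b ∈ Nb D d, ∃ h ∈ Hd D d, h * a * h⁻¹ = b) :
    ∀ a ∈ D, ∀ b ∈ D, a ≠ b → Commute a b → ∃ x ∈ D, ¬ Commute a x ∧ ¬ Commute b x := by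
  intro a ha b hb hne hab
  by_contra hcon
  push Not at hcon
  -- no pair has a common non-neighbour
  have key : ∀ x ∈ D, ∀ y ∈ D, x ≠ y → Commute x y → ∀ z ∈ D, ¬ Commute x z → Commute y z := by
    intro x hx y hy hxy hcxy z hz hxz
    obtain ⟨g1, hg1⟩ := hT x hx d hd
    obtain ⟨g2, hg2⟩ := hT a ha d hd
    have n1 : g1 * y * g1⁻¹ ∈ Nb D d := by
      rw [← hg1]; exact nb_conj hc g1 ⟨hy, hxy.symm, hcxy⟩
    have n2 : g2 * b * g2⁻¹ ∈ Nb D d := by
      rw [← hg2]; exact nb_conj hc g2 ⟨hb, hne.symm, hab⟩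
    obtain ⟨k, hk, hkk⟩ := hloc _ n1 _ n2
    have e1 : (g2⁻¹ * k * g1) * x * (g2⁻¹ * k * g1)⁻¹ = a := by
      calc (g2⁻¹ * k * g1) * x * (g2⁻¹ * k * g1)⁻¹ = g2⁻¹ * (k * (g1 * x * g1⁻¹) * k⁻¹) * g2 := by group
        _ = g2⁻¹ * (k * d * k⁻¹) * g2 := by rw [hg1]
        _ = g2⁻¹ * d * g2 := by rw [← (hd_commute hk).eq]; group
        _ = a := by rw [← hg2]; group
    have e2 : (g2⁻¹ * k * g1) * y * (g2⁻¹ * k * g1)⁻¹ = b := by
      calc (g2⁻¹ * k * g1) * y * (g2⁻¹ * k * g1)⁻¹ = g2⁻¹ * (k * (g1 * y * g1⁻¹) * k⁻¹) * g2 := by group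
        _ = b := by rw [hkk]; group
    have h1 := hcon ((g2⁻¹ * k * g1) * z * (g2⁻¹ * k * g1)⁻¹) (hc _ z hz)
      (by rw [← e1, commute_conj_iff]; exact hxz)
    rw [← e2, commute_conj_iff] at h1
    exact h1
  -- the class of `a`
  have hY : ∀ z ∈ D, ∀ y ∈ D, (y = a ∨ ¬ Commute y a) → (z * y * z⁻¹ = a ∨ ¬ Commute (z * y * z⁻¹) a) := by
    intro z hz y hy hya
    by_cases hzy : Commute z y
    · have : z * y * z⁻¹ = y := by rw [hzy.eq]; group
      rw [this]; exact hya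
    · by_cases h1 : z * y * z⁻¹ = a
      · left; exact h1
      · right
        intro h2
        -- `w = zyz` commutes with `a`, `w` does not commute with `y`
        have hw : z * y * z⁻¹ ∈ D := hc z y hy
        have hwy : ¬ Commute (z * y * z⁻¹) y := by
          intro h3
          apply hzy
          have b1 := tt_braid hD hz hy hzy
          rw [tt_inv hD hz] at h3
          have h4 : z * y * z * y = y * (z * y * z) := h3.eq
          have h5 : (z * y) ^ 2 = (y * z) ^ 2 := by rw [pow_two, pow_two, ← mul_assoc, h4]; group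
          have h6 : (y * z) ^ 2 = ((z * y) ^ 2)⁻¹ := by
            rw [← inv_pow, mul_inv_rev, tt_inv hD hz, tt_inv hD hy]
          rw [h6] at h5
          have h7 : (z * y) ^ 4 = 1 := by
            have : (z * y) ^ 4 = (z * y) ^ 2 * (z * y) ^ 2 := by rw [← pow_add]
            rw [this]; nth_rw 2 [h5]; exact mul_inv_cancel _
          have h8 := tt_cube hD hz hy hzy
          have h9 : z * y = 1 := by
            have : (z * y) ^ 4 = (z * y) ^ 3 * (z * y) := pow_succ _ 3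
            rw [h7, h8, one_mul] at this
            exact this.symm
          have : z = y := by rw [eq_inv_of_mul_eq_one_left h9, tt_inv hD hy]
          rw [this]
        rcases hya with h3 | h3
        · rw [h3] at hwy h2
          exact hwy h2
        · exact h3 (key _ hw a ha h1 h2 y hy hwy).symm
  have hall : ∀ g : G, ∀ y ∈ D, (y = a ∨ ¬ Commute y a) → (g * y * g⁻¹ = a ∨ ¬ Commute (g * y * g⁻¹) a) := by
    intro g
    have hg : g ∈ Subgroup.closure D := by rw [hgen]; trivial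
    refine Subgroup.closure_induction_right (p := fun g _ => ∀ y ∈ D, (y = a ∨ ¬ Commute y a) → (g * y * g⁻¹ = a ∨ ¬ Commute (g * y * g⁻¹) a))
      ?_ ?_ ?_ hg
    · intro y _ h; simpa using h
    · intro g _ z hz ih y hy h
      have : g * z * y * (g * z)⁻¹ = g * (z * y * z⁻¹) * g⁻¹ := by group
      rw [this]; exact ih _ (hc z y hy) (hY z hz y hy h)
    · intro g _ z hz ih y hy h
      rw [tt_inv hD hz]
      have : g * z * y * (g * z)⁻¹ = g * (z * y * z⁻¹) * g⁻¹ := by group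
      rw [this]; exact ih _ (hc z y hy) (hY z hz y hy h)
  obtain ⟨g, hg⟩ := hT a ha b hb
  rcases hall g a ha (Or.inl rfl) with h | h
  · rw [hg] at h; exact hne h.symm
  · rw [hg] at h; exact h hab.symm

/-- swapping two commuting transpositions, fixing a third -/
theorem exists_swap [Finite G] (hG : IsThreeTranspositionGroup D) (hprim : IsPrimitiveUnderConj D)
    {d₀ : G} (hd₀ : d₀ ∈ D) (h2 : pCore 2 ↥(Hd D d₀) ≤ Subgroup.center ↥(Hd D d₀)) (h23 : IsOfTypeM23 G D) {a b c : G} (ha : a ∈ D)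
    (hb : b ∈ D) (hcD : c ∈ D) (nab : a ≠ b) (nac : a ≠ c) (nbc : b ≠ c) (cab : Commute a b) (cac : Commute a c) (cbc : Commute b c) :
    ∃ g : G, g * a * g⁻¹ = b ∧ g * b * g⁻¹ = a ∧ g * c * g⁻¹ = c := by
  obtain ⟨hZ, d, hd, -, -, -, h22, -⟩ := h23
  obtain ⟨hV, hT, hloc⟩ := local_facts hG hprim hZ hd₀ h2
  obtain ⟨h0, hT1, hV1⟩ := hloc d hd
  obtain ⟨e, he, -, -, -, hs, -⟩ := m22_simple h22
  have hc1 := conj_Db hG.2.1 d
  have htr := tr_simple h0 hc1 hT1 hV1 he hs
  obtain ⟨g, hg⟩ := hT c hcD d hd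
  have na : g * a * g⁻¹ ∈ Nb D d := by rw [← hg]; exact nb_conj hG.2.1 g ⟨ha, nac, cac.symm⟩
  have nb : g * b * g⁻¹ ∈ Nb D d := by rw [← hg]; exact nb_conj hG.2.1 g ⟨hb, nbc, cbc.symm⟩
  let A : ↥(Hd D d) := ⟨g * a * g⁻¹, Subgroup.subset_closure na⟩
  let B : ↥(Hd D d) := ⟨g * b * g⁻¹, Subgroup.subset_closure nb⟩
  have hAB : Commute (A : G) (B : G) := (commute_conj_iff g a b).mpr cab
  have hne : (QuotientGroup.mk A : ↥(Hd D d) ⧸ Subgroup.center ↥(Hd D d)) ≠ QuotientGroup.mk B := by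
    intro h
    rw [QuotientGroup.eq, mem_center_iff'] at h
    have h3 : (A : G) = B := nb_inj hG.1 hG.2.1 hT hV hd na nb (by simpa using h)
    apply nab
    have : g * a * g⁻¹ = g * b * g⁻¹ := h3
    simpa using this
  obtain ⟨_, ⟨z, hz, rfl⟩, hz1, hz2⟩ := exists_nc h0 hc1 (closure_Db d) hT1 he htr _ ⟨A, na, rfl⟩ _ ⟨B, nb, rfl⟩ hne
    ((commute_Db hG.1 hG.2.1 hT hV (x := A) (y := B) na nb hd).mpr hAB)
  rw [commute_Db hG.1 hG.2.1 hT hV (x := A) (y := z) na hz hd] at hz1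
  rw [commute_Db hG.1 hG.2.1 hT hV (x := B) (y := z) nb hz hd] at hz2
  have hz : (z : G) ∈ Nb D d := hz
  set x : G := g⁻¹ * (z : G) * g⁻¹⁻¹ with hx
  have hxN : x ∈ Nb D c := by
    have := nb_conj hG.2.1 g⁻¹ hz
    have e1 : g⁻¹ * d * g⁻¹⁻¹ = c := by rw [← hg]; group
    rwa [e1] at this
  have hxa : ¬ Commute a x := by
    intro h
    apply hz1
    have h3 := (commute_conj_iff g a x).mpr h
    have e1 : g * x * g⁻¹ = z := by rw [hx]; group
    rw [e1] at h3; exact h3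
  have hxb : ¬ Commute b x := by
    intro h
    apply hz2
    have h3 := (commute_conj_iff g b x).mpr h
    have e1 : g * x * g⁻¹ = z := by rw [hx]; group
    rw [e1] at h3; exact h3
  obtain ⟨-, -, e1, e2⟩ := two_not hG.1 ha hb hxN.1 cab nab hxa hxb
  refine ⟨x * (a * b) * x, e1, e2, ?_⟩
  have hcc : Commute (x * (a * b) * x) c := ((hxN.2.2.symm).mul_left (cac.mul_left cbc)).mul_left hxN.2.2.symm
  rw [hcc.eq]; group

end Cfsg.Agent.H28.Rel
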