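import Mathlib
import Cfsg.Agent.H28_Rel5
import Cfsg.Agent.H28_RF3

set_option autoImplicit false

/-! The six-dimensional projective reflection groups over the field of order 3 are not simple. -/

namespace Cfsg.Agent.H28.Rel

open Cfsg Cfsg.Agent Cfsg.Agent.H16.Quad Cfsg.Agent.H28.RF Module Matrix
open QuadraticMap (polar polar_neg_right polar_neg_left polar_add_left polar_add_right polar_self polar_comm polar_sub_right)

variable {Q : QuadraticForm (ZMod 3) (Fin 6 → ZMod 3)} {c : ZMod 3}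

theorem z3two : ∀ a : ZMod 3, a = -a → a = 0 := by decide

/-- central elements are scalars -/
theorem center_scalar (hQ : (QuadraticMap.polarBilin Q).Nondegenerate) (hc : c ≠ 0) {z : ↥(Cfsg.reflectionSubgroup (⇑Q) c)}
    (hz : z ∈ Subgroup.center ↥(Cfsg.reflectionSubgroup (⇑Q) c)) :
    (∀ v, (TT Q c z).1 v = v) ∨ ∀ v, (TT Q c z).1 v = -v := by
  have hp : ∀ x y, polar Q ((TT Q c z).1 x) ((TT Q c z).1 y) = polar Q x y := by
    intro x y
    unfold polar
    rw [← _root_.map_add, mem_OG.1 (TT Q c z).2, mem_OG.1 (TT Q c z).2, mem_OG.1 (TT Q c z).2]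
  have hfr : finrank (ZMod 3) (Fin 6 → ZMod 3) = 6 := by simp
  have h1 : ∀ v, Q v = c → (TT Q c z).1 v = v ∨ (TT Q c z).1 v = -v := by
    intro v hv
    obtain ⟨g, hg, hgv⟩ := exists_rho (Q := Q) hv
    have h2 : g * z = z * g := Subgroup.mem_center_iff.mp hz g
    have h3 : TT Q c z * rf Q v * (TT Q c z)⁻¹ = rf Q v := by
      rw [← hgv, ← map_mul, ← h2, map_mul]; group
    rw [rf_conj] at h3
    have h4 := rf_eq_cases (u := (TT Q c z).1 v) (v := v) (by rw [mem_OG.1 (TT Q c z).2, hv]; exact hc) h3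
    exact h4
  have hall : (∀ v, Q v = c → (TT Q c z).1 v = v) ∨ (∀ v, Q v = c → (TT Q c z).1 v = -v) := by
    by_contra hcon
    push Not at hcon
    obtain ⟨⟨v, hv, hzv⟩, ⟨u, hu, hzu⟩⟩ := hcon
    have hv' := (h1 v hv).resolve_left hzv
    have hu' := (h1 u hu).resolve_right hzu
    have huv : polar Q u v = 0 := by
      have := hp u v
      rw [hu', hv', polar_neg_right] at this
      exact z3two _ this.symm
    obtain ⟨x, hx, hux, hvx⟩ := exists_perp2 hQ (u := u) (v := v) (by rw [hu]; exact hc) (by rw [hv]; exact hc) huv (by rw [hfr]; norm_num)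
      (d := -c) (neg_ne_zero.mpr hc)
    have e1 : Q (u + v + x) = c := by
      have e2 : Q (u + v) = c + c := by rw [QuadraticMap.map_add Q u v, hu, hv, huv, add_zero]
      rw [QuadraticMap.map_add Q (u + v) x, e2, hx, polar_add_left, hux, hvx]; ring
    have e2 : polar Q u (u + v + x) = 2 * c := by
      rw [polar_add_right, polar_add_right, huv, hux, H16.Quad.polar_self, hu]; ring
    have e3 : polar Q v (u + v + x) = 2 * c := by
      rw [polar_add_right, polar_add_right, polar_comm Q v u, huv, hvx, H16.Quad.polar_self, hv]; ring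
    have h2c : (2 : ZMod 3) * c ≠ 0 := mul_ne_zero k2 hc
    rcases h1 _ e1 with h | h
    · have := hp v (u + v + x)
      rw [hv', h, polar_neg_left, e3] at this
      exact h2c (z3two _ this.symm)
    · have := hp u (u + v + x)
      rw [hu', h, polar_neg_right, e2] at this
      exact h2c (z3two _ this.symm)
  rcases hall with h | h
  · left
    intro w
    by_contra hw
    obtain ⟨x, hx, hxw⟩ := exists_nonperp hQ (w := (TT Q c z).1 w - w) (sub_ne_zero.mpr hw) (by rw [hfr]; norm_num) hc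
    apply hxw
    rw [polar_sub_right]
    have := hp x w
    rw [h x hx] at this
    rw [this, sub_self]
  · right
    intro w
    by_contra hw
    obtain ⟨x, hx, hxw⟩ := exists_nonperp hQ (w := (TT Q c z).1 w + w) (fun h0 => hw (eq_neg_of_add_eq_zero_left h0)) (by rw [hfr]; norm_num) hc
    apply hxw
    rw [polar_add_right]
    have := hp x w
    rw [h x hx, polar_neg_left] at this
    rw [← this]; ring

/-- the determinant -/
noncomputable def dt (Q : QuadraticForm (ZMod 3) (Fin 6 → ZMod 3)) (c : ZMod 3) : ↥(Cfsg.reflectionSubgroup (⇑Q) c) →* (ZMod 3)ˣ :=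
  Matrix.GeneralLinearGroup.det.comp ((Cfsg.isometryGroup (ZMod 3) (⇑Q)).subtype.comp (Cfsg.reflectionSubgroup (⇑Q) c).subtype)

theorem dt_val (z : ↥(Cfsg.reflectionSubgroup (⇑Q) c)) : ((dt Q c z : (ZMod 3)ˣ) : ZMod 3) =
    Matrix.det ((((z : ↥(Cfsg.isometryGroup (ZMod 3) (⇑Q))) : GL (Fin 6) (ZMod 3)) : Matrix (Fin 6) (Fin 6) (ZMod 3))) :=
  Matrix.GeneralLinearGroup.val_det_apply (z : ↥(Cfsg.isometryGroup (ZMod 3) (⇑Q))).1

theorem dt_center (hQ : (QuadraticMap.polarBilin Q).Nondegenerate) (hc : c ≠ 0) {z : ↥(Cfsg.reflectionSubgroup (⇑Q) c)}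
    (hz : z ∈ Subgroup.center ↥(Cfsg.reflectionSubgroup (⇑Q) c)) : dt Q c z = 1 := by
  have hmat : ((((z : ↥(Cfsg.isometryGroup (ZMod 3) (⇑Q))) : GL (Fin 6) (ZMod 3)) : Matrix (Fin 6) (Fin 6) (ZMod 3))) = 1 ∨
      ((((z : ↥(Cfsg.isometryGroup (ZMod 3) (⇑Q))) : GL (Fin 6) (ZMod 3)) : Matrix (Fin 6) (Fin 6) (ZMod 3))) = -1 := by
    rcases center_scalar hQ hc hz with h | h
    · left
      refine mat_ext fun v => ?_
      rw [Matrix.one_mulVec]
      exact h v
    · right
      refine mat_ext fun v => ?_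
      rw [Matrix.neg_mulVec, Matrix.one_mulVec]
      exact h v
  apply Units.ext
  show Matrix.det _ = 1
  rcases hmat with h | h
  · rw [MonoidHom.comp_apply] at *
    show Matrix.det ((((z : ↥(Cfsg.isometryGroup (ZMod 3) (⇑Q))) : GL (Fin 6) (ZMod 3)) : Matrix (Fin 6) (Fin 6) (ZMod 3))) = 1
    rw [h, Matrix.det_one]
  · show Matrix.det ((((z : ↥(Cfsg.isometryGroup (ZMod 3) (⇑Q))) : GL (Fin 6) (ZMod 3)) : Matrix (Fin 6) (Fin 6) (ZMod 3))) = 1
    rw [h, Matrix.det_neg, Matrix.det_one]; decide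

theorem refl_not_simple (hQ : (QuadraticMap.polarBilin Q).Nondegenerate) (hc : c ≠ 0) :
    ¬ IsSimpleGroup (↥(Cfsg.reflectionSubgroup (⇑Q) c) ⧸ Subgroup.center ↥(Cfsg.reflectionSubgroup (⇑Q) c)) := by
  intro hs
  let θ : ↥(Cfsg.reflectionSubgroup (⇑Q) c) ⧸ Subgroup.center ↥(Cfsg.reflectionSubgroup (⇑Q) c) →* (ZMod 3)ˣ :=
    QuotientGroup.lift _ (dt Q c) fun z hz => dt_center hQ hc hz
  have hθ : ∀ g, θ (QuotientGroup.mk g) = dt Q c g := fun g => rfl
  rcases hs.eq_bot_or_eq_top_of_normal θ.ker inferInstance with h | h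
  · have hinj : Function.Injective θ := (MonoidHom.ker_eq_bot_iff θ).mp h
    have h1 : Subgroup.center (↥(Cfsg.reflectionSubgroup (⇑Q) c) ⧸ Subgroup.center ↥(Cfsg.reflectionSubgroup (⇑Q) c)) = ⊤ := by
      rw [eq_top_iff]; intro x _
      rw [Subgroup.mem_center_iff]
      intro y
      apply hinj
      rw [map_mul, map_mul, mul_comm]
    rw [not_top_of_simple hs] at h1
    obtain ⟨a, b, hab⟩ := hs.toNontrivial
    apply hab
    have h2 : a ∈ (⊥ : Subgroup (↥(Cfsg.reflectionSubgroup (⇑Q) c) ⧸ Subgroup.center ↥(Cfsg.reflectionSubgroup (⇑Q) c))) := by rw [h1]; trivial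
    have h3 : b ∈ (⊥ : Subgroup (↥(Cfsg.reflectionSubgroup (⇑Q) c) ⧸ Subgroup.center ↥(Cfsg.reflectionSubgroup (⇑Q) c))) := by rw [h1]; trivial
    rw [Subgroup.mem_bot] at h2 h3
    rw [h2, h3]
  · obtain ⟨v, hv⟩ : ∃ v, Q v = c := by
      obtain ⟨w, hw⟩ : ∃ w : Fin 6 → ZMod 3, w ≠ 0 := exists_ne 0
      obtain ⟨x, hx, -⟩ := exists_nonperp hQ hw (by simp) hc
      exact ⟨x, hx⟩
    obtain ⟨g, hg, hgv⟩ := exists_rho (Q := Q) hv
    have h1 : QuotientGroup.mk g ∈ θ.ker := by rw [h]; trivial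
    rw [MonoidHom.mem_ker, hθ] at h1
    obtain ⟨w, hw, hgw⟩ := hg
    have h2 : ((dt Q c g : (ZMod 3)ˣ) : ZMod 3) = 1 := by rw [h1]; exact Units.val_one
    rw [dt_val] at h2
    have h3 : Matrix.det (Cfsg.reflectionMatrix (⇑Q) w) = -1 := det_reflectionMatrix (by rw [hw]; exact hc)
    have h4 : (1 : ZMod 3) = -1 := h2.symm.trans ((congrArg Matrix.det hgw).trans h3)
    revert h4; decide

end Cfsg.Agent.H28.Rel
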