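import Mathlib
import Cfsg.Agent.H28_Rel6

set_option autoImplicit false

/-! Groups of type M(22) without the primitivity assumption; type M(24). -/

namespace Cfsg.Agent.H28.Rel

open Cfsg Cfsg.Agent.H28.Basic Cfsg.Agent.H28.VW

universe u

theorem core_le_of_simple {H : Type u} [Group H] [Finite H] (p : ℕ) [Fact p.Prime] (hs : IsSimpleGroup (H ⧸ Subgroup.center H)) :
    pCore p H ≤ Subgroup.center H := by
  intro x hx
  have hn : ((pCore p H).map (QuotientGroup.mk' (Subgroup.center H))).Normal :=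
    (inferInstance : (pCore p H).Normal).map _ (QuotientGroup.mk'_surjective _)
  have h1 : (pCore p H).map (QuotientGroup.mk' (Subgroup.center H)) ≤ pCore p (H ⧸ Subgroup.center H) :=
    H11.Cores.le_pCore p ((H11.Cores.pCore_isPGroup (G := H) p).map _)
  have h2 := h1 ⟨x, hx, rfl⟩
  rw [pCore_of_simple p hs, Subgroup.mem_bot] at h2
  exact (QuotientGroup.eq_one_iff x).mp h2

variable {G : Type u} [Group G] {D : Set G}

theorem vtriv_of_simple [Finite G] (hD : IsThreeTranspositionSet D) (hc : ∀ g : G, ∀ d ∈ D, g * d * g⁻¹ ∈ D) (hT : Tr D)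
    {f : G} (hf : f ∈ D) (hs : IsSimpleGroup (↥(Hd D f) ⧸ Subgroup.center ↥(Hd D f))) : VTriv D := by
  intro a ha b hb hab
  by_contra hne
  have hpart : ∀ g ∈ D, ∃ g' ∈ D, g' ≠ g ∧ ∀ x ∈ D, Commute g x ↔ Commute g' x := by
    intro g hg
    obtain ⟨t, ht⟩ := hT a ha g hg
    refine ⟨t * b * t⁻¹, hc t b hb, ?_, ?_⟩
    · intro h
      apply hne
      rw [← ht] at h
      have : b = a := by simpa using h
      exact this.symm
    · intro x hx
      have h1 := hab (t⁻¹ * x * t⁻¹⁻¹) (hc t⁻¹ x hx)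
      have e : t * (t⁻¹ * x * t⁻¹⁻¹) * t⁻¹ = x := by group
      rw [← commute_conj_iff t a, ← commute_conj_iff t b, e, ht] at h1
      exact h1
  have hcen : ∀ g ∈ Nb D f, ∀ x ∈ Nb D f, Commute g x := by
    intro g hg x hx
    obtain ⟨g', hg', hne', heq⟩ := hpart g hg.1
    by_cases h : g' = f
    · rw [heq x hx.1, h]; exact hx.2.2
    · have hfg' : Commute f g' := ((heq f hf).mp hg.2.2.symm).symm
      have hg'N : g' ∈ Nb D f := ⟨hg', h, hfg'⟩
      have hgg' : Commute g g' := ((heq g hg.1).mp (Commute.refl g)).symm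
      let A : ↥(Hd D f) := ⟨g, Subgroup.subset_closure hg⟩
      let B : ↥(Hd D f) := ⟨g', Subgroup.subset_closure hg'N⟩
      have h1 : B ∈ Vcl (DH D f) A := by
        refine ⟨hg'N, ?_⟩
        intro e he
        have h2 := heq (e : G) he.1
        constructor
        · intro h3
          have h4 : Commute g' (e : G) := congrArg Subtype.val h3.eq
          exact Subtype.ext (h2.mpr h4).eq
        · intro h3
          have h4 : Commute g (e : G) := congrArg Subtype.val h3.eq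
          exact Subtype.ext (h2.mp h4).eq
      rw [Vcl_eq (tts_DH hD f) (conj_DH hc f) hg] at h1
      have h2 := core_le_of_simple 2 hs h1.2
      rw [mem_center_iff'] at h2
      have h3 : Commute (g⁻¹ * g') x := h2 x hx
      rw [tt_inv hD hg.1] at h3
      exact (comm_two hD hg.1 hg' hx.1 hgg' (fun h => hne' h.symm) h3).1
  have htop : Subgroup.center ↥(Hd D f) = ⊤ := by
    rw [eq_top_iff]
    intro x _
    rw [mem_center_iff']
    intro y hy
    have h1 : Hd D f ≤ Subgroup.centralizer ({y} : Set G) := by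
      rw [Subgroup.closure_le]
      intro z hz
      rw [SetLike.mem_coe, Subgroup.mem_centralizer_singleton_iff]
      exact hcen z hz y hy
    exact Subgroup.mem_centralizer_singleton_iff.mp (h1 x.2)
  obtain ⟨p, q, hpq⟩ := hs.toNontrivial
  apply hpq
  obtain ⟨p, rfl⟩ := QuotientGroup.mk_surjective p
  obtain ⟨q, rfl⟩ := QuotientGroup.mk_surjective q
  rw [QuotientGroup.eq, htop]; trivial

theorem tr_of_M22 [Finite G] (hD : IsThreeTranspositionSet D) (hc : ∀ g : G, ∀ d ∈ D, g * d * g⁻¹ ∈ D) (hgen : Subgroup.closure D = ⊤)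
    (h22 : IsOfTypeM22 G D) : Tr D := by
  have hZ := h22.1
  obtain ⟨f, hf, c', hc', hnc, hs, c₃, hc₃, Q, hQ, -, ⟨eL⟩⟩ := m22_simple h22
  suffices h : ∀ y ∈ D, ∃ g : G, g * f * g⁻¹ = y by
    intro a ha b hb
    obtain ⟨g, rfl⟩ := h a ha
    obtain ⟨g', rfl⟩ := h b hb
    exact ⟨g' * g⁻¹, by group⟩
  by_contra hcon
  push Not at hcon
  obtain ⟨y₀, hy₀, hy₀f⟩ := hcon
  let X : Set G := {y | y ∈ D ∧ ∀ g : G, g * f * g⁻¹ ≠ y}
  have hy₀X : y₀ ∈ X := ⟨hy₀, hy₀f⟩
  have hXc : ∀ g : G, ∀ y ∈ X, g * y * g⁻¹ ∈ X := by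
    rintro g y ⟨hy, hyf⟩
    refine ⟨hc g y hy, fun h heq => hyf (g⁻¹ * h) ?_⟩
    calc (g⁻¹ * h) * f * (g⁻¹ * h)⁻¹ = g⁻¹ * (h * f * h⁻¹) * g := by group
      _ = y := by rw [heq]; group
  have hcomm : ∀ y ∈ X, ∀ w ∈ D, w ∉ X → Commute y w := by
    intro y hy w hw hwX
    by_contra h
    apply hwX
    rw [← nc_conj hD hy.1 hw h]
    exact hXc _ y hy
  have hfX : f ∉ X := fun h => h.2 1 (by group)
  have hc'X : c' ∉ X := fun h => h.2 (f * c') (nc_conj hD hf hc' hnc)
  have hXf : X ⊆ Nb D f := fun y hy => ⟨hy.1, fun h => hfX (h ▸ hy), (hcomm y hy f hf hfX).symm⟩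
  have hXc' : X ⊆ Nb D c' := fun y hy => ⟨hy.1, fun h => hc'X (h ▸ hy), (hcomm y hy c' hc' hc'X).symm⟩
  let A : Subgroup ↥(Hd D f) := Subgroup.closure {x : ↥(Hd D f) | (x : G) ∈ X}
  have hAn : A.Normal := by
    refine ⟨fun n hn g => ?_⟩
    have h1 : A ≤ A.comap (MulAut.conj g).toMonoidHom := by
      rw [Subgroup.closure_le]
      intro x hx
      refine Subgroup.subset_closure ?_
      show (g : G) * (x : G) * (g : G)⁻¹ ∈ X
      exact hXc g x hx
    exact h1 hn
  have hAX : ∀ x ∈ A, (x : G) ∈ Subgroup.closure X := by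
    intro x hx
    induction hx using Subgroup.closure_induction with
    | mem x hx => exact Subgroup.subset_closure hx
    | one => exact one_mem _
    | mul x y _ _ h1 h2 => exact mul_mem h1 h2
    | inv x _ h1 => exact inv_mem h1
  let π := QuotientGroup.mk' (Subgroup.center ↥(Hd D f))
  have hπ : Function.Surjective π := QuotientGroup.mk'_surjective _
  rcases hs.eq_bot_or_eq_top_of_normal (A.map π) (hAn.map π hπ) with h | h
  · have h1 : (⟨y₀, Subgroup.subset_closure (hXf hy₀X)⟩ : ↥(Hd D f)) ∈ A := Subgroup.subset_closure hy₀X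
    have h2 : π ⟨y₀, Subgroup.subset_closure (hXf hy₀X)⟩ ∈ A.map π := ⟨_, h1, rfl⟩
    rw [h, Subgroup.mem_bot] at h2
    have h3 : (⟨y₀, Subgroup.subset_closure (hXf hy₀X)⟩ : ↥(Hd D f)) ∈ Subgroup.center ↥(Hd D f) := (QuotientGroup.eq_one_iff _).mp h2
    rw [mem_center_iff'] at h3
    have h4 : y₀ ∈ Subgroup.center G := TT1.mem_center_of hgen fun x hx => by
      by_cases hxX : x ∈ X
      · exact (h3 x (hXf hxX)).symm
      · exact (hcomm y₀ hy₀X x hx hxX).symm
    rw [hZ, Subgroup.mem_bot] at h4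
    exact tt_ne_one hD hy₀ h4
  · -- `L` modulo its centre is simple
    set L := Subgroup.closure (Nb D f ∩ Nb D c') with hL
    have hLH : L ≤ Hd D f := Subgroup.closure_mono Set.inter_subset_left
    have hXL : Subgroup.closure X ≤ L := Subgroup.closure_mono fun y hy => ⟨hXf hy, hXc' hy⟩
    let φ : ↥L →* ↥(Hd D f) ⧸ Subgroup.center ↥(Hd D f) := π.comp (Subgroup.inclusion hLH)
    have hφs : Function.Surjective φ := by
      intro q
      have hq : q ∈ A.map π := by rw [h]; trivial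
      obtain ⟨y, hy, rfl⟩ := hq
      exact ⟨⟨(y : G), hXL (hAX y hy)⟩, rfl⟩
    have hker : φ.ker = Subgroup.center ↥L := by
      ext z
      rw [MonoidHom.mem_ker]
      constructor
      · intro hz
        have h3 : Subgroup.inclusion hLH z ∈ Subgroup.center ↥(Hd D f) := (QuotientGroup.eq_one_iff _).mp hz
        rw [Subgroup.mem_center_iff] at h3 ⊢
        intro w
        have h4 := congrArg Subtype.val (h3 (Subgroup.inclusion hLH w))
        exact Subtype.ext h4
      · intro hz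
        refine (QuotientGroup.eq_one_iff _).mpr ?_
        rw [mem_center_iff']
        intro x hx
        have hx' : π ⟨x, Subgroup.subset_closure hx⟩ ∈ A.map π := by rw [h]; trivial
        obtain ⟨y, hy, hyx⟩ := hx'
        have h2 : y⁻¹ * ⟨x, Subgroup.subset_closure hx⟩ ∈ Subgroup.center ↥(Hd D f) := QuotientGroup.eq.mp hyx
        have h4 : x = (y : G) * ((y : G)⁻¹ * x) := by group
        rw [h4]
        have h5 : Commute (z : G) (y : G) := (congrArg Subtype.val (Subgroup.mem_center_iff.mp hz ⟨(y : G), hXL (hAX y hy)⟩)).symm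
        have h6 : Commute (z : G) ((y : G)⁻¹ * x) := congrArg Subtype.val (Subgroup.mem_center_iff.mp h2 ⟨(z : G), hLH z.2⟩)
        exact h5.mul_right h6
    have e1 : ↥L ⧸ Subgroup.center ↥L ≃* ↥(Hd D f) ⧸ Subgroup.center ↥(Hd D f) :=
      (QuotientGroup.quotientMulEquivOfEq hker.symm).trans (QuotientGroup.quotientKerEquivOfSurjective φ hφs)
    have e2 : (↥(Cfsg.reflectionSubgroup (⇑Q) c₃) ⧸ Subgroup.center ↥(Cfsg.reflectionSubgroup (⇑Q) c₃)) ≃*
        ↥(Hd D f) ⧸ Subgroup.center ↥(Hd D f) := eL.symm.trans e1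
    exact refl_not_simple hQ hc₃ (MulEquiv.isSimpleGroup e2)

theorem relFree_M24 [Finite G] (hG : IsThreeTranspositionGroup D) (hprim : IsPrimitiveUnderConj D)
    {d₀ : G} (hd₀ : d₀ ∈ D) (h2 : pCore 2 ↥(Hd D d₀) ≤ Subgroup.center ↥(Hd D d₀)) (h24 : IsOfTypeM24 G D) : RelFree D 6 := by
  obtain ⟨hZ, d, hd, -, -, -, h23, -⟩ := h24
  obtain ⟨hV, hT, hloc⟩ := local_facts hG hprim hZ hd₀ h2
  obtain ⟨h0, hT1, hV1⟩ := hloc d hd
  refine relFree_succ hG.1 hG.2.1 hT hV hd ?_
  obtain ⟨-, e, he, -, -, -, h22, -⟩ := h23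
  have hc1 := conj_Db hG.2.1 d
  refine relFree_succ h0 hc1 hT1 hV1 he ?_
  have h22' : IsOfTypeM22 _ (Db (Db D d) e) := h22
  have h00 := tts_Db h0 hc1 hT1 hV1 he
  have hc2 := conj_Db hc1 e
  have hT2 := tr_of_M22 h00 hc2 (closure_Db e) h22'
  obtain ⟨f, hf, -, -, -, hs, -⟩ := m22_simple h22'
  have hV2 := vtriv_of_simple h00 hc2 hT2 hf hs
  exact relFree4 h00 hV2 (ncent (closure_Db e) h00 h22'.1)

end Cfsg.Agent.H28.Rel
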