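import Mathlib
import Cfsg.Agent.H28_Basic

set_option autoImplicit false

/-! The Coxeter presentation of the symmetric group of degree 5. -/

namespace Cfsg.Agent.H28.S5

open Cfsg.Agent.H28.Basic

def t0 : Equiv.Perm (Fin 5) := Equiv.swap 0 1
def t1 : Equiv.Perm (Fin 5) := Equiv.swap 1 2
def t2 : Equiv.Perm (Fin 5) := Equiv.swap 2 3
def t3 : Equiv.Perm (Fin 5) := Equiv.swap 3 4

/-- coset representatives -/
def cc {G : Type*} [Group G] (b p d a : G) : Fin 5 → G := ![1, d, d * p, d * p * b, d * p * b * a]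

theorem exists_hom {G : Type*} [Group G] (a b p d : G) (ha : a * a = 1) (hb : b * b = 1) (hp : p * p = 1) (hd : d * d = 1)
    (hab : b * a * b = a * b * a) (hbp : p * b * p = b * p * b) (hpd : d * p * d = p * d * p)
    (hap : p * a = a * p) (had : d * a = a * d) (hbd : d * b = b * d) :
    ∃ φ : Equiv.Perm (Fin 5) →* G, φ t0 = a ∧ φ t1 = b ∧ φ t2 = p ∧ φ t3 = d := by
  obtain ⟨ι, i0, i1, i2⟩ := exists_hom_s4 (G := Equiv.Perm (Fin 5)) t0 t1 t2 (by decide) (by decide) (by decide) (by decide) (by decide) (by decide)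
  obtain ⟨ψ, p0, p1, p2⟩ := exists_hom_s4 (G := G) a b p ha hb hp hab hbp hap
  have hι : Function.Injective ι := by
    apply s4_hom_injective
    rw [map_mul, i0, i2]; decide
  -- ι fixes the last point
  have hfix : ∀ h, (ι h) 4 = 4 := by
    have hgen : Subgroup.closure (Set.range s4swap) = ⊤ := by
      rw [eq_top_iff]
      intro σ _
      obtain ⟨m, rfl⟩ := s4_surj σ
      have : ∀ w : List (Fin 3), wprod s4swap w ∈ Subgroup.closure (Set.range s4swap) := by
        intro w
        induction w with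
        | nil => exact one_mem _
        | cons i w ih =>
          have e : wprod s4swap (i :: w) = s4swap i * wprod s4swap w := by simp [wprod]
          rw [e]
          exact mul_mem (Subgroup.subset_closure ⟨i, rfl⟩) ih
      exact this _
    intro h
    have hh : h ∈ Subgroup.closure (Set.range s4swap) := by rw [hgen]; trivial
    induction hh using Subgroup.closure_induction with
    | mem x hx =>
      obtain ⟨i, rfl⟩ := hx
      fin_cases i
      · show (ι (Equiv.swap 0 1)) 4 = 4; rw [i0]; decide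
      · show (ι (Equiv.swap 1 2)) 4 = 4; rw [i1]; decide
      · show (ι (Equiv.swap 2 3)) 4 = 4; rw [i2]; decide
    | one => rw [map_one]; rfl
    | mul x y _ _ hx hy => rw [map_mul, Equiv.Perm.mul_apply, hy, hx]
    | inv x _ hx =>
      rw [map_inv, Equiv.Perm.inv_eq_iff_eq, hx]
  let C5 := cc t1 t2 t3 t0
  let CG := cc b p d a
  let K : Subgroup (Equiv.Perm (Fin 5) × G) := Subgroup.closure {(t0, a), (t1, b), (t2, p), (t3, d)}
  let P : Equiv.Perm (Fin 5) × G → Prop := fun x => ∃ (h : Equiv.Perm (Fin 4)) (j : Fin 5), x = (ι h * C5 j, ψ h * CG j)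
  have hP1 : P 1 := ⟨1, 0, by
    rw [map_one, map_one]
    exact Prod.ext (show (1 : Equiv.Perm (Fin 5)) = 1 * C5 0 by decide) (show (1 : G) = 1 * 1 by rw [one_mul])⟩
  -- right multiplication
  have key : ∀ (j : Fin 5) (i : Fin 4), P (C5 j * ![t0, t1, t2, t3] i, CG j * ![a, b, p, d] i) := by
    have r0 : P (C5 0 * t0, CG 0 * a) := ⟨Equiv.swap 0 1, 0, by rw [i0, p0]; simp [C5, CG, cc]⟩
    have r1 : P (C5 0 * t1, CG 0 * b) := ⟨Equiv.swap 1 2, 0, by rw [i1, p1]; simp [C5, CG, cc]⟩
    have r2 : P (C5 0 * t2, CG 0 * p) := ⟨Equiv.swap 2 3, 0, by rw [i2, p2]; simp [C5, CG, cc]⟩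
    have r3 : P (C5 0 * t3, CG 0 * d) := ⟨1, 1, by simp [C5, CG, cc]⟩
    have q0 : P (C5 1 * t0, CG 1 * a) := ⟨Equiv.swap 0 1, 1, by
      rw [i0, p0, Prod.mk.injEq]; exact ⟨by decide, by show d * a = a * d; exact had⟩⟩
    have q1 : P (C5 1 * t1, CG 1 * b) := ⟨Equiv.swap 1 2, 1, by
      rw [i1, p1, Prod.mk.injEq]; exact ⟨by decide, by show d * b = b * d; exact hbd⟩⟩
    have q2 : P (C5 1 * t2, CG 1 * p) := ⟨1, 2, by
      rw [map_one, map_one, Prod.mk.injEq]; exact ⟨by decide, by show d * p = 1 * (d * p); rw [one_mul]⟩⟩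
    have q3 : P (C5 1 * t3, CG 1 * d) := ⟨1, 0, by
      rw [map_one, map_one, Prod.mk.injEq]; exact ⟨by decide, by show d * d = 1 * 1; rw [hd, one_mul]⟩⟩
    have u0 : P (C5 2 * t0, CG 2 * a) := ⟨Equiv.swap 0 1, 2, by
      rw [i0, p0, Prod.mk.injEq]
      exact ⟨by decide, by show d * p * a = a * (d * p); rw [mul_assoc, hap, ← mul_assoc, had, mul_assoc]⟩⟩
    have u1 : P (C5 2 * t1, CG 2 * b) := ⟨1, 3, by
      rw [map_one, map_one, Prod.mk.injEq]; exact ⟨by decide, by show d * p * b = 1 * (d * p * b); rw [one_mul]⟩⟩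
    have u2 : P (C5 2 * t2, CG 2 * p) := ⟨1, 1, by
      rw [map_one, map_one, Prod.mk.injEq]; exact ⟨by decide, by show d * p * p = 1 * d; rw [mul_assoc, hp, mul_one, one_mul]⟩⟩
    have u3 : P (C5 2 * t3, CG 2 * d) := ⟨Equiv.swap 2 3, 2, by
      rw [i2, p2, Prod.mk.injEq]; exact ⟨by decide, by show d * p * d = p * (d * p); rw [hpd, mul_assoc]⟩⟩
    have v0 : P (C5 3 * t0, CG 3 * a) := ⟨1, 4, by
      rw [map_one, map_one, Prod.mk.injEq]; exact ⟨by decide, by show d * p * b * a = 1 * (d * p * b * a); rw [one_mul]⟩⟩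
    have v1 : P (C5 3 * t1, CG 3 * b) := ⟨1, 2, by
      rw [map_one, map_one, Prod.mk.injEq]; exact ⟨by decide, by show d * p * b * b = 1 * (d * p); rw [mul_assoc, hb, mul_one, one_mul]⟩⟩
    have v2 : P (C5 3 * t2, CG 3 * p) := ⟨Equiv.swap 1 2, 3, by
      rw [i1, p1, Prod.mk.injEq]
      exact ⟨by decide, by
        show d * p * b * p = b * (d * p * b)
        calc d * p * b * p = d * (p * b * p) := by group
          _ = (d * b) * (p * b) := by rw [hbp]; group
          _ = _ := by rw [hbd]; group⟩⟩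
    have v3 : P (C5 3 * t3, CG 3 * d) := ⟨Equiv.swap 2 3, 3, by
      rw [i2, p2, Prod.mk.injEq]
      exact ⟨by decide, by
        show d * p * b * d = p * (d * p * b)
        calc d * p * b * d = d * p * (b * d) := by group
          _ = (d * p * d) * b := by rw [← hbd]; group
          _ = _ := by rw [hpd]; group⟩⟩
    have w0 : P (C5 4 * t0, CG 4 * a) := ⟨1, 3, by
      rw [map_one, map_one, Prod.mk.injEq]
      exact ⟨by decide, by show d * p * b * a * a = 1 * (d * p * b); rw [mul_assoc, ha, mul_one, one_mul]⟩⟩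
    have w1 : P (C5 4 * t1, CG 4 * b) := ⟨Equiv.swap 0 1, 4, by
      rw [i0, p0, Prod.mk.injEq]
      exact ⟨by decide, by
        show d * p * b * a * b = a * (d * p * b * a)
        calc d * p * b * a * b = d * p * (b * a * b) := by group
          _ = d * (p * a) * (b * a) := by rw [hab]; group
          _ = (d * a) * p * (b * a) := by rw [hap]; group
          _ = _ := by rw [had]; group⟩⟩
    have w2 : P (C5 4 * t2, CG 4 * p) := ⟨Equiv.swap 1 2, 4, by
      rw [i1, p1, Prod.mk.injEq]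
      exact ⟨by decide, by
        show d * p * b * a * p = b * (d * p * b * a)
        calc d * p * b * a * p = d * p * b * (a * p) := by group
          _ = d * (p * b * p) * a := by rw [← hap]; group
          _ = (d * b) * (p * b) * a := by rw [hbp]; group
          _ = _ := by rw [hbd]; group⟩⟩
    have w3 : P (C5 4 * t3, CG 4 * d) := ⟨Equiv.swap 2 3, 4, by
      rw [i2, p2, Prod.mk.injEq]
      exact ⟨by decide, by
        show d * p * b * a * d = p * (d * p * b * a)
        calc d * p * b * a * d = d * p * b * (a * d) := by group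
          _ = d * p * (b * d) * a := by rw [← had]; group
          _ = (d * p * d) * b * a := by rw [← hbd]; group
          _ = _ := by rw [hpd]; group⟩⟩
    intro j i
    fin_cases j <;> fin_cases i
    · exact r0
    · exact r1
    · exact r2
    · exact r3
    · exact q0
    · exact q1
    · exact q2
    · exact q3
    · exact u0
    · exact u1
    · exact u2
    · exact u3
    · exact v0
    · exact v1
    · exact v2
    · exact v3
    · exact w0
    · exact w1
    · exact w2
    · exact w3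
  have hmul : ∀ x, P x → ∀ i : Fin 4, P (x * (![t0, t1, t2, t3] i, ![a, b, p, d] i)) := by
    rintro _ ⟨h, j, rfl⟩ i
    obtain ⟨h', j', e⟩ := key j i
    refine ⟨h * h', j', ?_⟩
    rw [Prod.mk.injEq] at e
    rw [Prod.mk_mul_mk, mul_assoc, mul_assoc, e.1, e.2, map_mul, map_mul, mul_assoc, mul_assoc]
  have hgens : ∀ y ∈ ({(t0, a), (t1, b), (t2, p), (t3, d)} : Set (Equiv.Perm (Fin 5) × G)), ∃ i : Fin 4, y = (![t0, t1, t2, t3] i, ![a, b, p, d] i) := by
    rintro y (rfl | rfl | rfl | rfl)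
    · exact ⟨0, rfl⟩
    · exact ⟨1, rfl⟩
    · exact ⟨2, rfl⟩
    · exact ⟨3, rfl⟩
  have hinv : ∀ y ∈ ({(t0, a), (t1, b), (t2, p), (t3, d)} : Set (Equiv.Perm (Fin 5) × G)), y⁻¹ = y := by
    rintro y (rfl | rfl | rfl | rfl)
    · exact Prod.ext (show t0⁻¹ = t0 by decide) (inv_eq_of_mul_eq_one_right ha)
    · exact Prod.ext (show t1⁻¹ = t1 by decide) (inv_eq_of_mul_eq_one_right hb)
    · exact Prod.ext (show t2⁻¹ = t2 by decide) (inv_eq_of_mul_eq_one_right hp)
    · exact Prod.ext (show t3⁻¹ = t3 by decide) (inv_eq_of_mul_eq_one_right hd)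
  have hKmem : ∀ x ∈ K, P x := by
    intro x hx
    refine Subgroup.closure_induction_right (p := fun x _ => P x) hP1 ?_ ?_ hx
    · intro x _ y hy hxP
      obtain ⟨i, rfl⟩ := hgens y hy
      exact hmul x hxP i
    · intro x _ y hy hxP
      rw [hinv y hy]
      obtain ⟨i, rfl⟩ := hgens y hy
      exact hmul x hxP i
  have hgen5 : ∀ σ : Equiv.Perm (Fin 5), ∃ g, (σ, g) ∈ K := by
    intro σ
    have hσ : σ ∈ K.map (MonoidHom.fst _ _) := by
      have h1 : K.map (MonoidHom.fst (Equiv.Perm (Fin 5)) G) = ⊤ := by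
        rw [eq_top_iff, ← Equiv.Perm.closure_isSwap, Subgroup.closure_le]
        have m0 : t0 ∈ K.map (MonoidHom.fst (Equiv.Perm (Fin 5)) G) := ⟨(t0, a), Subgroup.subset_closure (by simp), rfl⟩
        have m1 : t1 ∈ K.map (MonoidHom.fst (Equiv.Perm (Fin 5)) G) := ⟨(t1, b), Subgroup.subset_closure (by simp), rfl⟩
        have m2 : t2 ∈ K.map (MonoidHom.fst (Equiv.Perm (Fin 5)) G) := ⟨(t2, p), Subgroup.subset_closure (by simp), rfl⟩
        have m3 : t3 ∈ K.map (MonoidHom.fst (Equiv.Perm (Fin 5)) G) := ⟨(t3, d), Subgroup.subset_closure (by simp), rfl⟩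
        have hall : ∀ i j : Fin 5, i ≠ j → Equiv.swap i j = t0 ∨ Equiv.swap i j = t1 ∨ Equiv.swap i j = t2 ∨ Equiv.swap i j = t3 ∨
            Equiv.swap i j = t0 * t1 * t0 ∨ Equiv.swap i j = t1 * t2 * t1 ∨ Equiv.swap i j = t2 * t3 * t2 ∨
            Equiv.swap i j = t0 * (t1 * t2 * t1) * t0 ∨ Equiv.swap i j = t1 * (t2 * t3 * t2) * t1 ∨
            Equiv.swap i j = t0 * (t1 * (t2 * t3 * t2) * t1) * t0 := by decide
        rintro σ ⟨i, j, hij, rfl⟩
        have mm := fun {x y : Equiv.Perm (Fin 5)} (hx : x ∈ K.map (MonoidHom.fst (Equiv.Perm (Fin 5)) G)) hy => mul_mem (S := Subgroup (Equiv.Perm (Fin 5))) (s := K.map (MonoidHom.fst (Equiv.Perm (Fin 5)) G)) (a := x) (b := y) hx hy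
        rcases hall i j hij with h | h | h | h | h | h | h | h | h | h <;> rw [h]
        · exact m0
        · exact m1
        · exact m2
        · exact m3
        · exact mm (mm m0 m1) m0
        · exact mm (mm m1 m2) m1
        · exact mm (mm m2 m3) m2
        · exact mm (mm m0 (mm (mm m1 m2) m1)) m0
        · exact mm (mm m1 (mm (mm m2 m3) m2)) m1
        · exact mm (mm m0 (mm (mm m1 (mm (mm m2 m3) m2)) m1)) m0
      rw [h1]; trivial
    obtain ⟨⟨σ', g⟩, hx, rfl⟩ := hσ
    exact ⟨g, hx⟩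
  obtain ⟨φ, hφ⟩ := exists_hom_of_graph K hgen5 (by
    intro g hx
    obtain ⟨h, j, e⟩ := hKmem _ hx
    rw [Prod.mk.injEq] at e
    have h4 : (ι h * C5 j) 4 = 4 := by rw [← e.1]; rfl
    have hj : j = 0 := by
      have h5 : (C5 j) 4 = 4 := by
        rw [Equiv.Perm.mul_apply] at h4
        nth_rw 2 [← hfix h] at h4
        exact (ι h).injective h4
      revert h5
      have : ∀ j, (C5 j) 4 = 4 → j = 0 := by decide
      exact this j
    subst hj
    have h6 : ι h = 1 := by
      have : C5 0 = 1 := rfl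
      rw [this, mul_one] at e; exact e.1.symm
    have h7 : h = 1 := hι (by rw [h6, map_one])
    rw [h7] at e
    have : CG 0 = 1 := rfl
    rw [this, mul_one] at e
    rw [e.2, map_one])
  refine ⟨φ, ?_, ?_, ?_, ?_⟩
  · exact (hφ _ _).mp (Subgroup.subset_closure (by simp))
  · exact (hφ _ _).mp (Subgroup.subset_closure (by simp))
  · exact (hφ _ _).mp (Subgroup.subset_closure (by simp))
  · exact (hφ _ _).mp (Subgroup.subset_closure (by simp))

end Cfsg.Agent.H28.S5
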