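import Mathlib
import Cfsg.Agent.H28_Maj2

set_option autoImplicit false

/-! Two-generated Majorana algebras: the basic identities. -/

namespace Cfsg.Agent.H28.Maj

open Cfsg Cfsg.Axial

variable {V : Type*} [AddCommGroup V] [Module ℝ V] {mul : V →ₗ[ℝ] V →ₗ[ℝ] V} {B : LinearMap.BilinForm ℝ V}
  {μ : V ≃ₗ[ℝ] V} {a : V}

/-- basic products with an axis -/
theorem V1 (hV : IsMajoranaAmbient mul B) (h : IsMajoranaPair mul B μ a) (hn : B a a = 1) (b : V) :
    mul a (μ b) = (mul a b - (1 / 32 : ℝ) • (a + b)) + (1 / 32 : ℝ) • (a + μ b) ∧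
    mul a (mul a b - (1 / 32 : ℝ) • (a + b)) = (7 / 32 : ℝ) • (mul a b - (1 / 32 : ℝ) • (a + b)) +
      (3 / 4 * B a b - 25 / 1024) • a + (7 / 2048 : ℝ) • (b + μ b) ∧
    mul a ((1 / 2 : ℝ) • (b - μ b)) = (1 / 32 : ℝ) • ((1 / 2 : ℝ) • (b - μ b)) ∧
    B a b * B a b + 0 = B a b * B a b := by
  obtain ⟨t, α, β, w, hdec, hα, hβ, hw⟩ := decomp h b
  have haa := idem h
  have oα : B a α = 0 := orth hV (c := 1) (d := 0) (by norm_num) (by rw [haa, one_smul]) (by rw [hα, zero_smul])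
  have oβ : B a β = 0 := orth hV (c := 1) (d := 1 / 4) (by norm_num) (by rw [haa, one_smul]) hβ
  have ow : B a w = 0 := orth hV (c := 1) (d := 1 / 32) (by norm_num) (by rw [haa, one_smul]) hw
  have ht : B a b = t := by
    rw [hdec, map_add, map_add, map_add, map_smul, hn, oα, oβ, ow, smul_eq_mul]; ring
  have hμb : μ b = t • a + α + β - w := by rw [hdec]; exact mu_decomp h hα hβ hw
  have hab : mul a b = t • a + (1 / 4 : ℝ) • β + (1 / 32 : ℝ) • w := by
    rw [hdec, map_add, map_add, map_add, map_smul, haa, hα, hβ, hw]; module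
  rw [ht]
  refine ⟨?_, ?_, ?_, by ring⟩
  · rw [hμb, hab, hdec, map_sub, map_add, map_add, map_smul, haa, hα, hβ, hw]; module
  · rw [map_sub, map_smul, map_add, haa, hab, hμb, map_add, map_add, map_smul, map_smul, map_smul, haa, hβ, hw, hdec]; module
  · rw [hμb, hdec]
    simp only [map_smul, map_sub, map_add]
    rw [haa, hα, hβ, hw]; module

/-- the second main tool -/
theorem V2 (hV : IsMajoranaAmbient mul B) (h : IsMajoranaPair mul B μ a) (hn : B a a = 1) {u v : V} (hu : mul a u = 0)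
    (hv : mul a v = (1 / 4 : ℝ) • v) :
    mul a (mul (u - v) (u + v)) = -(1 / 4 * B v v) • a ∧ mul a (mul u (u + v)) = (1 / 4 : ℝ) • mul u v := by
  have h00 := fus00 h hu hu
  have h04 := fus04 h hu hv
  obtain ⟨t, w, h44, hw⟩ := fus44 h hv hv
  have haa := idem h
  have ow : B a w = 0 := orth hV (c := 1) (d := 0) (by norm_num) (by rw [haa, one_smul]) (by rw [hw, zero_smul])
  have ht : t = 1 / 4 * B v v := by
    have h1 : B a (mul v v) = B (mul a v) v := hV.2.2.2.1 a v v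
    rw [h44, map_add, map_smul, hn, ow, hv, map_smul, LinearMap.smul_apply, smul_eq_mul, smul_eq_mul] at h1
    linarith
  constructor
  · have e : mul (u - v) (u + v) = mul u u - mul v v := by
      rw [map_sub, LinearMap.sub_apply, map_add, map_add, hV.1 v u]; abel
    rw [e, map_sub, h00, h44, map_add, map_smul, haa, hw, ht]; module
  · rw [map_add, map_add, h00, h04, zero_add]

theorem V4 (hV : IsMajoranaAmbient mul B) (h : IsMajoranaPair mul B μ a) (hn : B a a = 1) {b c d e s r p : V} {x z : ℝ}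
    (hc : μ b = c) (hbb : mul b b = b) (hcc : mul c c = c) (hs : mul a b = s + (1 / 32 : ℝ) • (a + b))
    (hr : mul a d = r + (1 / 32 : ℝ) • (a + d)) (hre : mul a e = r + (1 / 32 : ℝ) • (a + e))
    (hp : mul b c = p + (1 / 32 : ℝ) • (b + c)) (hx : B a b = x) (hz : B b c = z) (hnb : B b b = 1)
    (hsb : mul b s = (7 / 32 : ℝ) • s + (3 / 4 * x - 25 / 1024) • b + (7 / 2048 : ℝ) • (a + d))
    (hsc : mul c s = (7 / 32 : ℝ) • s + (3 / 4 * x - 25 / 1024) • c + (7 / 2048 : ℝ) • (a + e)) :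
    mul a p = (-(32 / 3) * x ^ 2 + 5 / 3 * x - z / 24 - 127 / 3072) • a + (x / 6 - 19 / 3072) • (b + c) + (7 / 6144 : ℝ) • (d + e) +
      (32 / 3 * x - 19 / 48) • s + (7 / 96 : ℝ) • r ∧
    mul s s = (7 / 6 * x ^ 2 - 7 / 384 * x + 7 / 1536 * z - 7 / 98304) • a + (49 / 768 * x - 245 / 196608) • (b + c) +
      (49 / 196608 : ℝ) • (d + e) + (-(5 / 12) * x - 13 / 1536) • s - (7 / 1536 : ℝ) • r + (7 / 2048 : ℝ) • p := by
  obtain ⟨v1, v2, v3, -⟩ := V1 hV h hn b
  have hs' : mul a b - (1 / 32 : ℝ) • (a + b) = s := by rw [hs]; module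
  rw [hs', hx, hc] at v2
  rw [hs', hc] at v1
  rw [hc] at v3
  have haa := idem h
  have hcm := hV.1
  set u : V := (7 / 16 : ℝ) • (b + c) + (3 * x - 1 / 8) • a - (4 : ℝ) • s with hu
  set v : V := (4 : ℝ) • s + (1 / 8 - 4 * x) • a + (1 / 16 : ℝ) • (b + c) with hv
  have hu0 : mul a u = 0 := by
    rw [hu]; simp only [map_sub, map_add, map_smul]; rw [v1, v2, haa, hs]; module
  have hv0 : mul a v = (1 / 4 : ℝ) • v := by
    rw [hv]; simp only [map_sub, map_add, map_smul]; rw [v1, v2, haa, hs]; module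
  obtain ⟨k1, k2⟩ := V2 hV h hn hu0 hv0
  -- the norm of `v`
  have hvv : B v v = 4 * x - 4 * x ^ 2 - 1 / 16 + z / 16 := by
    have hb : b = x • a + u + v + (1 / 2 : ℝ) • (b - c) := by rw [hu, hv]; module
    have o1 : B v a = 0 := orth hV (c := 1 / 4) (d := 1) (by norm_num) hv0 (by rw [haa, one_smul])
    have o2 : B v u = 0 := orth hV (c := 1 / 4) (d := 0) (by norm_num) hv0 (by rw [hu0, zero_smul])
    have o3 : B v ((1 / 2 : ℝ) • (b - c)) = 0 := orth hV (c := 1 / 4) (d := 1 / 32) (by norm_num) hv0 v3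
    have h1 : B v b = B v v := by
      nth_rw 1 [hb]
      rw [map_add, map_add, map_add, map_smul, o1, o2, o3, smul_zero]; ring
    have h2 : B s b = 31 / 32 * x - 1 / 32 := by
      rw [← hs', map_sub, LinearMap.sub_apply, map_smul, LinearMap.smul_apply, map_add, LinearMap.add_apply]
      have h3 : B (mul a b) b = B a (mul b b) := (hV.2.2.2.1 a b b).symm
      rw [h3, hbb, hx, hnb, smul_eq_mul]; ring
    have h4 : B c b = z := by rw [hV.2.1 c b, hz]
    rw [← h1, hv]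
    simp only [map_add, map_smul, LinearMap.add_apply, LinearMap.smul_apply, smul_eq_mul]
    rw [h2, hx, hnb, h4]; ring
  have e1 : u - v = (3 / 8 : ℝ) • (b + c) + (7 * x - 1 / 4) • a - (8 : ℝ) • s := by rw [hu, hv]; module
  have e2 : u + v = (1 / 2 : ℝ) • (b + c) - x • a := by rw [hu, hv]; module
  have hX : mul (u - v) (u + v) = (75 / 256 - 23 / 8 * x) • (b + c) - (7 / 512 : ℝ) • (d + e) + (-x ^ 2 + x / 4 - 9 / 256) • a +
      (8 * x - 2) • s + (3 / 8 : ℝ) • p := by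
    rw [e1, e2]
    simp only [map_sub, map_add, map_smul, LinearMap.add_apply, LinearMap.smul_apply, LinearMap.sub_apply]
    rw [hcm b a, hcm c a, hcm s b, hcm s c, hcm s a, hcm c b, haa, hbb, hcc, hs, v1, v2, hsb, hsc, hp]
    module
  have hap : mul a p = (-(32 / 3) * x ^ 2 + 5 / 3 * x - z / 24 - 127 / 3072) • a + (x / 6 - 19 / 3072) • (b + c) + (7 / 6144 : ℝ) • (d + e) +
      (32 / 3 * x - 19 / 48) • s + (7 / 96 : ℝ) • r := by
    rw [hX, hvv] at k1
    simp only [map_sub, map_add, map_smul] at k1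
    rw [hs, v1, hr, hre, haa, v2] at k1
    linear_combination (norm := module) (8 / 3 : ℝ) • k1
  refine ⟨hap, ?_⟩
  have e3 : mul u (u + v) = (1 / 2 : ℝ) • mul u (b + c) := by
    rw [e2, map_sub, map_smul, map_smul, hcm u a, hu0]; module
  have e4 : mul u v = (4 : ℝ) • mul u s + (1 / 16 : ℝ) • mul u (b + c) := by
    rw [hv, map_add, map_add, map_smul, map_smul, map_smul, hcm u a, hu0]; module
  have e5 : mul u (b + c) = (7 / 16 : ℝ) • (b + c + (2 : ℝ) • p + (1 / 16 : ℝ) • (b + c)) + (3 * x - 1 / 8) • ((2 : ℝ) • s + (1 / 32 : ℝ) • (a + b) +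
      (1 / 32 : ℝ) • (a + c)) - (4 : ℝ) • ((7 / 16 : ℝ) • s + (3 / 4 * x - 25 / 1024) • (b + c) + (7 / 2048 : ℝ) • (a + d) + (7 / 2048 : ℝ) • (a + e)) := by
    rw [hu]
    simp only [map_sub, map_add, map_smul, LinearMap.add_apply, LinearMap.smul_apply, LinearMap.sub_apply]
    rw [hcm s b, hcm s c, hcm c b, hbb, hcc, hs, v1, hsb, hsc, hp]
    module
  have e6 : mul u s = (7 / 16 : ℝ) • ((7 / 16 : ℝ) • s + (3 / 4 * x - 25 / 1024) • (b + c) + (7 / 2048 : ℝ) • (a + d) + (7 / 2048 : ℝ) • (a + e)) +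
      (3 * x - 1 / 8) • ((7 / 32 : ℝ) • s + (3 / 4 * x - 25 / 1024) • a + (7 / 2048 : ℝ) • (b + c)) - (4 : ℝ) • mul s s := by
    rw [hu]
    simp only [map_sub, map_add, map_smul, LinearMap.add_apply, LinearMap.smul_apply, LinearMap.sub_apply]
    rw [hsb, hsc, v2]
    module
  rw [e3, e4, e5, e6] at k2
  simp only [map_sub, map_add, map_smul] at k2
  rw [hs, v1, hr, hre, haa, v2, hap] at k2
  linear_combination (norm := module) (1 / 4 : ℝ) • k2

end Cfsg.Agent.H28.Maj
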