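import Mathlib
import Cfsg.Agent.H28_Sak

set_option autoImplicit false

/-! Two-generated Majorana algebras: the sequence of axes. -/

namespace Cfsg.Agent.H28.Maj

open Cfsg Cfsg.Axial

variable {V : Type*} [AddCommGroup V] [Module ℝ V]

/-- a sequence of axes permuted by its own reflections -/
structure Sq (mul : V →ₗ[ℝ] V →ₗ[ℝ] V) (B : LinearMap.BilinForm ℝ V) where
  a : ℤ → V
  τ : ℤ → (V ≃ₗ[ℝ] V)
  pair : ∀ i, IsMajoranaPair mul B (τ i) (a i)
  nrm : ∀ i, B (a i) (a i) = 1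
  refl : ∀ i j, τ i (a j) = a (2 * i - j)

variable {mul : V →ₗ[ℝ] V →ₗ[ℝ] V} {B : LinearMap.BilinForm ℝ V} (S : Sq mul B) (hV : IsMajoranaAmbient mul B)

namespace Sq

/-- the reduced product -/
noncomputable def σ (n i : ℤ) : V := mul (S.a i) (S.a (i + n)) - (1 / 32 : ℝ) • (S.a i + S.a (i + n))

theorem g_refl (k i j : ℤ) : B (S.a (2 * k - i)) (S.a (2 * k - j)) = B (S.a i) (S.a j) := by
  rw [← S.refl, ← S.refl, Bμ (S.pair k)]

include hV in
theorem g_symm (i j : ℤ) : B (S.a i) (S.a j) = B (S.a j) (S.a i) := hV.2.1 _ _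

theorem g_two (i j : ℤ) : B (S.a (i + 2)) (S.a (j + 2)) = B (S.a i) (S.a j) := by
  have h1 := S.g_refl 0 i j
  have h2 := S.g_refl 1 (2 * 0 - i) (2 * 0 - j)
  rw [show 2 * 1 - (2 * 0 - i) = i + 2 by ring, show 2 * 1 - (2 * 0 - j) = j + 2 by ring, h1] at h2
  exact h2

include hV in
theorem σ_step (n i : ℤ) : S.σ n (i + n) = S.σ n i := by
  obtain ⟨v1, -⟩ := V1 hV (S.pair (i + n)) (S.nrm _) (S.a i)
  have e : S.τ (i + n) (S.a i) = S.a (i + n + n) := by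
    rw [S.refl]; congr 1; ring
  rw [e] at v1
  unfold σ
  rw [v1, hV.1 (S.a i) (S.a (i + n))]; module

include hV in
theorem σ_one (i : ℤ) : S.σ 1 i = S.σ 1 0 := by
  induction i using Int.induction_on with
  | zero => rfl
  | succ i ih => rw [S.σ_step hV, ih]
  | pred i ih => rw [← ih, ← S.σ_step hV 1 (-(i : ℤ) - 1)]; congr 1; ring

include hV in
theorem g_one (i : ℤ) : B (S.a i) (S.a (i + 1)) = B (S.a 0) (S.a 1) := by
  have step : ∀ i : ℤ, B (S.a (i + 1)) (S.a (i + 1 + 1)) = B (S.a i) (S.a (i + 1)) := by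
    intro i
    have h := S.g_refl (i + 1) i (i + 1)
    rw [show 2 * (i + 1) - i = i + 1 + 1 by ring, show 2 * (i + 1) - (i + 1) = i + 1 by ring, S.g_symm hV] at h
    exact h
  induction i using Int.induction_on with
  | zero => rfl
  | succ i ih => rw [step, ih]
  | pred i ih =>
    have h := step (-(i : ℤ) - 1)
    rw [show -(i : ℤ) - 1 + 1 = -(i : ℤ) by ring] at h ⊢
    rw [← h, ih]

include hV in
/-- the identities at base `i` -/
theorem base (i : ℤ) (x z : ℝ) (hx : B (S.a 0) (S.a 1) = x) (hz : B (S.a (i - 1)) (S.a (i + 1)) = z) :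
    mul (S.a i) (S.σ 2 (i - 1)) = (-(32 / 3) * x ^ 2 + 5 / 3 * x - z / 24 - 127 / 3072) • S.a i +
      (x / 6 - 19 / 3072) • (S.a (i + 1) + S.a (i - 1)) + (7 / 6144 : ℝ) • (S.a (i + 2) + S.a (i - 2)) +
      (32 / 3 * x - 19 / 48) • S.σ 1 0 + (7 / 96 : ℝ) • S.σ 2 i ∧
    mul (S.σ 1 0) (S.σ 1 0) = (7 / 6 * x ^ 2 - 7 / 384 * x + 7 / 1536 * z - 7 / 98304) • S.a i +
      (49 / 768 * x - 245 / 196608) • (S.a (i + 1) + S.a (i - 1)) +
      (49 / 196608 : ℝ) • (S.a (i + 2) + S.a (i - 2)) + (-(5 / 12) * x - 13 / 1536) • S.σ 1 0 - (7 / 1536 : ℝ) • S.σ 2 i +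
      (7 / 2048 : ℝ) • S.σ 2 (i - 1) := by
  have hσ : ∀ j, mul (S.a j) (S.a (j + 1)) = S.σ 1 0 + (1 / 32 : ℝ) • (S.a j + S.a (j + 1)) := by
    intro j; rw [← S.σ_one hV j]; unfold σ; module
  have key : ∀ j, mul (S.a j) (S.σ 1 0) = (7 / 32 : ℝ) • S.σ 1 0 + (3 / 4 * x - 25 / 1024) • S.a j +
      (7 / 2048 : ℝ) • (S.a (j + 1) + S.a (j - 1)) := by
    intro j
    obtain ⟨-, v2, -⟩ := V1 hV (S.pair j) (S.nrm j) (S.a (j + 1))
    have e1 : mul (S.a j) (S.a (j + 1)) - (1 / 32 : ℝ) • (S.a j + S.a (j + 1)) = S.σ 1 0 := by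
      rw [← S.σ_one hV j]; rfl
    have e2 : S.τ j (S.a (j + 1)) = S.a (j - 1) := by rw [S.refl]; congr 1; ring
    rw [e1, S.g_one hV, hx, e2] at v2
    exact v2
  refine V4 hV (S.pair i) (S.nrm i) (b := S.a (i + 1)) (c := S.a (i - 1)) (d := S.a (i + 2)) (e := S.a (i - 2)) ?_ (idem (S.pair _)) (idem (S.pair _))
    (hσ i) ?_ ?_ ?_ ?_ ?_ (S.nrm _) ?_ ?_
  · rw [S.refl]; congr 1; ring
  · unfold σ; module
  · have h1 := S.σ_step hV 2 (i - 2)
    have e : i - 2 + 2 = i := by ring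
    rw [e] at h1
    rw [h1]; unfold σ
    rw [e, hV.1 (S.a i) (S.a (i - 2))]; module
  · unfold σ
    have e : i - 1 + 2 = i + 1 := by ring
    rw [e, hV.1 (S.a (i + 1))]; module
  · rw [S.g_one hV, hx]
  · rw [S.g_symm hV, hz]
  · rw [key]
    have e : i + 1 + 1 = i + 2 := by ring
    have e' : i + 1 - 1 = i := by ring
    rw [e, e']; module
  · rw [key]
    have e : i - 1 + 1 = i := by ring
    have e' : i - 1 - 1 = i - 2 := by ring
    rw [e, e']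

include hV in
/-- the expression of the third axis -/
theorem R0 (x y z : ℝ) (hx : B (S.a 0) (S.a 1) = x) (hy : B (S.a 0) (S.a 2) = y) (hz : B (S.a (-1)) (S.a 1) = z) :
    S.a 3 = S.a 2 + S.a (-2) - S.a (-1) + (256 * x - 5) • (S.a 1 + S.a (-1) - S.a 2 - S.a 0) +
      ((32768 * x ^ 2 - 512 * x + 128 * z - 2) / 7) • S.a 0 - ((32768 * x ^ 2 - 512 * x + 128 * y - 2) / 7) • S.a 1 -
      (32 : ℝ) • (S.σ 2 0 - S.σ 2 (-1)) := by
  obtain ⟨-, h0⟩ := S.base hV 0 x z hx (by simpa using hz)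
  obtain ⟨-, h1⟩ := S.base hV 1 x y hx (by simpa using hy)
  have e : S.σ 2 1 = S.σ 2 (-1) := by simpa using S.σ_step hV 2 (-1)
  rw [h0] at h1
  norm_num at h1
  rw [e] at h1
  linear_combination (norm := module) (-(196608 / 49) : ℝ) • h1

end Sq

end Cfsg.Agent.H28.Maj
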