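import Mathlib
import Cfsg.Agent.H28_Sak2

set_option autoImplicit false

/-! Two-generated Majorana algebras: scalar relations. -/

namespace Cfsg.Agent.H28.Maj

open Cfsg Cfsg.Axial

variable {V : Type*} [AddCommGroup V] [Module ℝ V]

variable {mul : V →ₗ[ℝ] V →ₗ[ℝ] V} {B : LinearMap.BilinForm ℝ V} (S : Sq mul B) (hV : IsMajoranaAmbient mul B)

namespace Sq

theorem g_two_mul (k i j : ℤ) : B (S.a (i + 2 * k)) (S.a (j + 2 * k)) = B (S.a i) (S.a j) := by
  induction k using Int.induction_on with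
  | zero => simp
  | succ k ih =>
    rw [show i + 2 * ((k : ℤ) + 1) = (i + 2 * k) + 2 by ring, show j + 2 * ((k : ℤ) + 1) = (j + 2 * k) + 2 by ring, S.g_two, ih]
  | pred k ih =>
    rw [← ih, ← S.g_two (i + 2 * (-(k : ℤ) - 1))]
    rw [show i + 2 * (-(k : ℤ) - 1) + 2 = i + 2 * -(k : ℤ) by ring, show j + 2 * (-(k : ℤ) - 1) + 2 = j + 2 * -(k : ℤ) by ring]

include hV in
/-- odd differences -/
theorem gd_odd (n i : ℤ) (hn : Odd n) : B (S.a i) (S.a (i + n)) = B (S.a 0) (S.a n) := by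
  obtain ⟨m, rfl⟩ := hn
  rcases Int.even_or_odd i with ⟨k, rfl⟩ | ⟨k, rfl⟩
  · have h := S.g_two_mul k 0 (2 * m + 1)
    rw [show 0 + 2 * k = k + k by ring, show 2 * m + 1 + 2 * k = k + k + (2 * m + 1) by ring] at h
    exact h
  · have h := S.g_two_mul k 1 (1 + (2 * m + 1))
    rw [show 1 + 2 * k = 2 * k + 1 by ring, show 1 + (2 * m + 1) + 2 * k = 2 * k + 1 + (2 * m + 1) by ring] at h
    rw [h]
    have h2 := S.g_refl (m + 1) 0 (2 * m + 1)
    rw [show 2 * (m + 1) - 0 = 1 + (2 * m + 1) by ring, show 2 * (m + 1) - (2 * m + 1) = 1 by ring] at h2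
    rw [S.g_symm hV, h2]

include hV in
/-- even differences at even positions -/
theorem gd_even (n i : ℤ) (hi : Even i) : B (S.a i) (S.a (i + n)) = B (S.a 0) (S.a n) := by
  obtain ⟨k, rfl⟩ := hi
  have h := S.g_two_mul k 0 n
  rw [show 0 + 2 * k = k + k by ring, show n + 2 * k = k + k + n by ring] at h
  exact h

include hV in
/-- even differences at odd positions -/
theorem gd_even' (n i : ℤ) (hi : Odd i) : B (S.a i) (S.a (i + n)) = B (S.a 1) (S.a (1 + n)) := by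
  obtain ⟨k, rfl⟩ := hi
  have h := S.g_two_mul k 1 (1 + n)
  rw [show 1 + 2 * k = 2 * k + 1 by ring, show 1 + n + 2 * k = 2 * k + 1 + n by ring] at h
  exact h

include hV in
theorem pair_one (i : ℤ) {x : ℝ} (hx : B (S.a 0) (S.a 1) = x) : B (S.σ 1 0) (S.a i) = 31 / 32 * x - 1 / 32 := by
  rw [← S.σ_one hV i]
  unfold σ
  have h1 : B (mul (S.a i) (S.a (i + 1))) (S.a i) = x := by
    rw [hV.1 (S.a i), ← hV.2.2.2.1, idem (S.pair i), S.g_symm hV, S.g_one hV, hx]
  have h2 : B (S.a (i + 1)) (S.a i) = x := by rw [S.g_symm hV, S.g_one hV, hx]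
  simp only [map_sub, map_add, map_smul, LinearMap.sub_apply, LinearMap.add_apply, LinearMap.smul_apply, smul_eq_mul]
  rw [h1, h2, S.nrm]; ring

include hV in
theorem pair_even (i : ℤ) {y : ℝ} (hy : B (S.a i) (S.a (i + 2)) = y) : B (S.σ 2 i) (S.a i) = 31 / 32 * y - 1 / 32 := by
  unfold σ
  have h1 : B (mul (S.a i) (S.a (i + 2))) (S.a i) = y := by
    rw [hV.1 (S.a i), ← hV.2.2.2.1, idem (S.pair i), S.g_symm hV, hy]
  have h2 : B (S.a (i + 2)) (S.a i) = y := by rw [S.g_symm hV, hy]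
  simp only [map_sub, map_add, map_smul, LinearMap.sub_apply, LinearMap.add_apply, LinearMap.smul_apply, smul_eq_mul]
  rw [h1, h2, S.nrm]; ring

include hV in
theorem pair_odd (i : ℤ) {x y : ℝ} (hx : B (S.a 0) (S.a 1) = x) (hy : B (S.a i) (S.a (i + 2)) = y) :
    B (S.σ 2 i) (S.a (i + 1)) = 15 / 16 * x - 1 / 32 + y / 32 := by
  unfold σ
  have e1 : mul (S.a (i + 2)) (S.a (i + 1)) = S.σ 1 0 + (1 / 32 : ℝ) • (S.a (i + 1) + S.a (i + 2)) := by
    rw [hV.1, ← S.σ_one hV (i + 1)]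
    unfold σ
    rw [show i + 1 + 1 = i + 2 by ring]; module
  have x1 : B (S.a i) (S.a (i + 1)) = x := by rw [S.g_one hV, hx]
  have x2 : B (S.a (i + 2)) (S.a (i + 1)) = x := by
    have := S.g_one hV (i + 1)
    rw [show i + 1 + 1 = i + 2 by ring] at this
    rw [S.g_symm hV, this, hx]
  have h1 : B (mul (S.a i) (S.a (i + 2))) (S.a (i + 1)) = 31 / 32 * x - 1 / 32 + (1 / 32) * (x + y) := by
    rw [← hV.2.2.2.1, e1, map_add, map_smul, map_add, x1, hy, hV.2.1, S.pair_one hV i hx, smul_eq_mul]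
  simp only [map_sub, map_add, map_smul, LinearMap.sub_apply, LinearMap.add_apply, LinearMap.smul_apply, smul_eq_mul]
  rw [h1, x1, x2]; ring

include hV in
theorem x_nonneg : 0 ≤ B (S.a 0) (S.a 1) := by
  have h1 := hV.2.2.2.2 (S.a 0) (S.a 1)
  rw [idem (S.pair 0), idem (S.pair 1)] at h1
  refine le_trans ?_ h1
  by_cases h : mul (S.a 0) (S.a 1) = 0
  · rw [h, map_zero]
  · exact (hV.2.2.1 _ h).le

include hV in
/-- the two second inner products agree -/
theorem y_eq_z : B (S.a (-1)) (S.a 1) = B (S.a 0) (S.a 2) := by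
  obtain ⟨x, hx⟩ : ∃ x, B (S.a 0) (S.a 1) = x := ⟨_, rfl⟩
  obtain ⟨y, hy⟩ : ∃ x, B (S.a 0) (S.a 2) = x := ⟨_, rfl⟩
  obtain ⟨z, hz⟩ : ∃ x, B (S.a (-1)) (S.a 1) = x := ⟨_, rfl⟩
  obtain ⟨w, hw⟩ : ∃ x, B (S.a 0) (S.a 3) = x := ⟨_, rfl⟩
  have hx0 := S.x_nonneg hV
  rw [hx] at hx0
  have hR := S.R0 hV x y z hx hy hz
  have p20 : B (S.a 2) (S.a 0) = y := by rw [S.g_symm hV, hy]
  have m20 : B (S.a (-2)) (S.a 0) = y := by
    have := S.gd_even hV 2 (-2) (by decide)
    norm_num at this; rw [this, hy]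
  have m10 : B (S.a (-1)) (S.a 0) = x := by
    have := S.g_one hV (-1)
    norm_num at this; rw [this, hx]
  have p10 : B (S.a 1) (S.a 0) = x := by rw [S.g_symm hV, hx]
  have p30 : B (S.a 3) (S.a 0) = w := by rw [S.g_symm hV, hw]
  have p21 : B (S.a 2) (S.a 1) = x := by
    have := S.g_one hV 1
    norm_num at this; rw [S.g_symm hV, this, hx]
  have m21 : B (S.a (-2)) (S.a 1) = w := by
    have := S.gd_odd hV 3 (-2) (by decide)
    norm_num at this; rw [this, hw]
  have p31 : B (S.a 3) (S.a 1) = z := by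
    have := S.gd_even' hV 2 (-1) (by decide)
    norm_num at this; rw [S.g_symm hV, ← this, hz]
  have q1 : B (S.σ 2 0) (S.a 0) = 31 / 32 * y - 1 / 32 := S.pair_even hV 0 (by simpa using hy)
  have q2 : B (S.σ 2 (-1)) (S.a 0) = 15 / 16 * x - 1 / 32 + z / 32 := by
    have := S.pair_odd hV (-1) hx (y := z) (by norm_num; exact hz)
    norm_num at this; linarith
  have q3 : B (S.σ 2 0) (S.a 1) = 15 / 16 * x - 1 / 32 + y / 32 := by
    have := S.pair_odd hV 0 hx (y := y) (by norm_num; exact hy)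
    norm_num at this; linarith
  have q4 : B (S.σ 2 (-1)) (S.a 1) = 31 / 32 * z - 1 / 32 := by
    have := S.pair_even hV 1 (y := z) (by norm_num; rw [S.g_symm hV, p31])
    have e : S.σ 2 1 = S.σ 2 (-1) := by simpa using S.σ_step hV 2 (-1)
    rw [e] at this; exact this
  have r0 := congrArg (fun v => B v (S.a 0)) hR
  have r1 := congrArg (fun v => B v (S.a 1)) hR
  simp only [map_sub, map_add, map_smul, LinearMap.sub_apply, LinearMap.add_apply, LinearMap.smul_apply, smul_eq_mul] at r0 r1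
  rw [p30, p20, m20, m10, p10, S.nrm, q1, q2] at r0
  rw [p31, p21, m21, S.nrm, hx, hz, q3, q4] at r1
  have key : (y - z) * (303 + 1920 * x) = 0 := by
    linear_combination 7 * r0 + 7 * r1
  rcases mul_eq_zero.1 key with h | h
  · linarith
  · linarith

end Sq

end Cfsg.Agent.H28.Maj
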