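import Mathlib
import Cfsg.Agent.H28_Sak3

set_option autoImplicit false

/-! Two-generated Majorana algebras: the nine possibilities. -/

namespace Cfsg.Agent.H28.Maj

open Cfsg Cfsg.Axial

variable {V : Type*} [AddCommGroup V] [Module ℝ V]

variable {mul : V →ₗ[ℝ] V →ₗ[ℝ] V} {B : LinearMap.BilinForm ℝ V} (S : Sq mul B) (hV : IsMajoranaAmbient mul B)

namespace Sq

include hV in
/-- the product of the axes at distance three -/
theorem F0 (x y : ℝ) (hx : B (S.a 0) (S.a 1) = x) (hy : B (S.a 0) (S.a 2) = y) :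
    mul (S.a 0) (S.a 3) - (1 / 32 : ℝ) • (S.a 0 + S.a 3) =
      -(7 / 96 : ℝ) • (S.a 2 + S.a (-2)) + (16 / 3 * x - 19 / 96) • (S.a 1 + S.a (-1)) +
      (84992 / 21 * x ^ 2 - 5360 / 21 * x - 172 / 21 * y + 1303 / 336) • S.a 0 +
      (-(32768 / 7) * x ^ 2 + 19456 / 21 * x - 128 / 7 * y - 491 / 21) • S.σ 1 0 +
      (-256 * x + 10 / 3) • S.σ 2 0 - S.σ 2 (-1) := by
  have hz := S.y_eq_z hV
  rw [hy] at hz
  have hR := S.R0 hV x y y hx hy hz
  obtain ⟨hp, -⟩ := S.base hV 0 x y hx (by simpa using hz)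
  norm_num at hp
  have m0 : mul (S.a 0) (S.a 0) = S.a 0 := idem (S.pair 0)
  have m1 : mul (S.a 0) (S.a 1) = S.σ 1 0 + (1 / 32 : ℝ) • (S.a 0 + S.a 1) := by
    unfold σ; norm_num
  have m1' : mul (S.a 0) (S.a (-1)) = S.σ 1 0 + (1 / 32 : ℝ) • (S.a 0 + S.a (-1)) := by
    rw [← S.σ_one hV (-1)]
    unfold σ; norm_num
    rw [hV.1 (S.a 0)]; module
  have m2 : mul (S.a 0) (S.a 2) = S.σ 2 0 + (1 / 32 : ℝ) • (S.a 0 + S.a 2) := by
    unfold σ; norm_num
  have m2' : mul (S.a 0) (S.a (-2)) = S.σ 2 0 + (1 / 32 : ℝ) • (S.a 0 + S.a (-2)) := by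
    have e : S.σ 2 0 = S.σ 2 (-2) := by simpa using S.σ_step hV 2 (-2)
    rw [e]
    unfold σ; norm_num
    rw [hV.1 (S.a 0)]; module
  have ms : mul (S.a 0) (S.σ 2 0) = (7 / 32 : ℝ) • S.σ 2 0 + (3 / 4 * y - 25 / 1024) • S.a 0 +
      (7 / 2048 : ℝ) • (S.a 2 + S.a (-2)) := by
    obtain ⟨-, v2, -⟩ := V1 hV (S.pair 0) (S.nrm 0) (S.a 2)
    have e1 : mul (S.a 0) (S.a 2) - (1 / 32 : ℝ) • (S.a 0 + S.a 2) = S.σ 2 0 := by unfold σ; norm_num
    have e2 : S.τ 0 (S.a 2) = S.a (-2) := by rw [S.refl]; norm_num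
    rw [e1, hy, e2] at v2
    exact v2
  have h3 : mul (S.a 0) (S.a 3) = mul (S.a 0) (S.a 2 + S.a (-2) - S.a (-1) + (256 * x - 5) • (S.a 1 + S.a (-1) - S.a 2 - S.a 0) +
      ((32768 * x ^ 2 - 512 * x + 128 * y - 2) / 7) • S.a 0 - ((32768 * x ^ 2 - 512 * x + 128 * y - 2) / 7) • S.a 1 -
      (32 : ℝ) • (S.σ 2 0 - S.σ 2 (-1))) := by rw [← hR]
  simp only [map_sub, map_add, map_smul] at h3
  rw [m0, m1, m1', m2, m2', ms, hp] at h3
  rw [h3]
  nth_rw 1 [hR]
  module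

include hV in
/-- the scalar relations -/
theorem rel (x y : ℝ) (hx : B (S.a 0) (S.a 1) = x) (hy : B (S.a 0) (S.a 2) = y) :
    ∃ w t u v : ℝ, B (S.a 0) (S.a 3) = w ∧ B (S.a (-2)) (S.a 2) = t ∧ B (S.a (-2)) (S.a 3) = u ∧ B (S.a (-3)) (S.a 3) = v ∧
    w = y + (256 * x - 6) * (x - y) + ((32768 * x ^ 2 - 2304 * x + 128 * y + 33) / 7) * (1 - x) - (30 * y - 30 * x) ∧
    t = x + (256 * x - 6) * (1 - w) + ((32768 * x ^ 2 - 2304 * x + 128 * y + 33) / 7) * (x - y) + (30 * y - 30 * x) ∧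
    u = 1 + (256 * x - 6) * (x - t) + ((32768 * x ^ 2 - 2304 * x + 128 * y + 33) / 7) * (y - w) - (30 * y - 30 * x) ∧
    v = x + (256 * x - 6) * (y - u) + ((32768 * x ^ 2 - 2304 * x + 128 * y + 33) / 7) * (w - t) + (30 * y - 30 * x) ∧
    30 / 32 * x - 1 / 32 + w / 32 = -(7 / 96) * (1 + t) + (16 / 3 * x - 19 / 96) * (x + w) +
      (84992 / 21 * x ^ 2 - 5360 / 21 * x - 172 / 21 * y + 1303 / 336) * y +
      (-(32768 / 7) * x ^ 2 + 19456 / 21 * x - 128 / 7 * y - 491 / 21) * (31 / 32 * x - 1 / 32) +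
      (-256 * x + 10 / 3) * (31 / 32 * y - 1 / 32) - (15 / 16 * x - 1 / 32 + y / 32) ∧
    31 / 32 * w - 1 / 32 = -(7 / 96) * (x + u) + (16 / 3 * x - 19 / 96) * (y + t) +
      (84992 / 21 * x ^ 2 - 5360 / 21 * x - 172 / 21 * y + 1303 / 336) * w +
      (-(32768 / 7) * x ^ 2 + 19456 / 21 * x - 128 / 7 * y - 491 / 21) * (31 / 32 * x - 1 / 32) +
      (-256 * x + 10 / 3) * (15 / 16 * x - 1 / 32 + y / 32) - (31 / 32 * y - 1 / 32) := by
  have hz := S.y_eq_z hV
  rw [hy] at hz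
  obtain ⟨w, hw⟩ : ∃ w, B (S.a 0) (S.a 3) = w := ⟨_, rfl⟩
  obtain ⟨t, ht⟩ : ∃ w, B (S.a (-2)) (S.a 2) = w := ⟨_, rfl⟩
  obtain ⟨u, hu⟩ : ∃ w, B (S.a (-2)) (S.a 3) = w := ⟨_, rfl⟩
  obtain ⟨v, hv⟩ : ∃ w, B (S.a (-3)) (S.a 3) = w := ⟨_, rfl⟩
  obtain ⟨t', ht'⟩ : ∃ w, B (S.a (-1)) (S.a 3) = w := ⟨_, rfl⟩
  refine ⟨w, t, u, v, hw, ht, hu, hv, ?_⟩
  have hR := S.R0 hV x y y hx hy hz
  have hF := S.F0 hV x y hx hy
  have sy := S.g_symm hV
  -- the inner products
  have b01 : B (S.a 0) (S.a 1) = x := hx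
  have b12 : B (S.a 1) (S.a 2) = x := by have := S.g_one hV 1; norm_num at this; rw [this, hx]
  have b23 : B (S.a 2) (S.a 3) = x := by have := S.g_one hV 2; norm_num at this; rw [this, hx]
  have c10 : B (S.a (-1)) (S.a 0) = x := by have := S.g_one hV (-1); norm_num at this; rw [this, hx]
  have c21 : B (S.a (-2)) (S.a (-1)) = x := by have := S.g_one hV (-2); norm_num at this; rw [this, hx]
  have c32 : B (S.a (-3)) (S.a (-2)) = x := by have := S.g_one hV (-3); norm_num at this; rw [this, hx]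
  have b02 : B (S.a 0) (S.a 2) = y := hy
  have c20 : B (S.a (-2)) (S.a 0) = y := by have := S.gd_even hV 2 (-2) (by decide); norm_num at this; rw [this, hy]
  have c11 : B (S.a (-1)) (S.a 1) = y := hz
  have b13 : B (S.a 1) (S.a 3) = y := by have := S.gd_even' hV 2 (-1) (by decide); norm_num at this; rw [← this, hz]
  have c31 : B (S.a (-3)) (S.a (-1)) = y := by
    have := S.gd_even' hV 2 (-3) (by decide); norm_num at this; rw [this, b13]
  have b03 : B (S.a 0) (S.a 3) = w := hw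
  have c12 : B (S.a (-1)) (S.a 2) = w := by have := S.gd_odd hV 3 (-1) (by decide); norm_num at this; rw [this, hw]
  have c2p1 : B (S.a (-2)) (S.a 1) = w := by have := S.gd_odd hV 3 (-2) (by decide); norm_num at this; rw [this, hw]
  have c30 : B (S.a (-3)) (S.a 0) = w := by have := S.gd_odd hV 3 (-3) (by decide); norm_num at this; rw [this, hw]
  have c3p1 : B (S.a (-3)) (S.a 1) = t' := by
    have h1 := S.gd_even' hV 4 (-3) (by decide)
    have h2 := S.gd_even' hV 4 (-1) (by decide)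
    norm_num at h1 h2; rw [h1, ← h2, ht']
  have c3p2 : B (S.a (-3)) (S.a 2) = u := by
    have h1 := S.gd_odd hV 5 (-3) (by decide)
    have h2 := S.gd_odd hV 5 (-2) (by decide)
    norm_num at h1 h2; rw [h1, ← h2, hu]
  -- pairings of σ 2
  have e2 : S.σ 2 0 = S.σ 2 (-2) := by simpa using S.σ_step hV 2 (-2)
  have e4 : S.σ 2 (-2) = S.σ 2 (-4) := by simpa using S.σ_step hV 2 (-4)
  have e2' : S.σ 2 2 = S.σ 2 0 := by simpa using S.σ_step hV 2 0
  have e1 : S.σ 2 1 = S.σ 2 (-1) := by simpa using S.σ_step hV 2 (-1)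
  have e1' : S.σ 2 3 = S.σ 2 1 := by simpa using S.σ_step hV 2 1
  have e3 : S.σ 2 (-1) = S.σ 2 (-3) := by simpa using S.σ_step hV 2 (-3)
  have b24 : B (S.a 2) (S.a 4) = y := by have := S.gd_even hV 2 2 (by decide); norm_num at this; rw [this, hy]
  have b35 : B (S.a 3) (S.a 5) = y := by
    have := S.gd_even' hV 2 3 (by decide); norm_num at this; rw [this, b13]
  have c42 : B (S.a (-4)) (S.a (-2)) = y := by have := S.gd_even hV 2 (-4) (by decide); norm_num at this; rw [this, hy]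
  have p0 : B (S.σ 2 0) (S.a 0) = 31 / 32 * y - 1 / 32 := S.pair_even hV 0 (by norm_num; exact b02)
  have p2 : B (S.σ 2 0) (S.a 2) = 31 / 32 * y - 1 / 32 := by rw [← e2']; exact S.pair_even hV 2 (by norm_num; exact b24)
  have pm2 : B (S.σ 2 0) (S.a (-2)) = 31 / 32 * y - 1 / 32 := by rw [e2]; exact S.pair_even hV (-2) (by norm_num; exact c20)
  have pm1 : B (S.σ 2 0) (S.a (-1)) = 15 / 16 * x - 1 / 32 + y / 32 := by
    rw [e2]
    have := S.pair_odd hV (-2) hx (y := y) (by norm_num; exact c20)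
    norm_num at this; linarith
  have pm3 : B (S.σ 2 0) (S.a (-3)) = 15 / 16 * x - 1 / 32 + y / 32 := by
    rw [e2, e4]
    have := S.pair_odd hV (-4) hx (y := y) (by norm_num; exact c42)
    norm_num at this; linarith
  have p3 : B (S.σ 2 0) (S.a 3) = 15 / 16 * x - 1 / 32 + y / 32 := by
    rw [← e2']
    have := S.pair_odd hV 2 hx (y := y) (by norm_num; exact b24)
    norm_num at this; linarith
  have r0 : B (S.σ 2 (-1)) (S.a 0) = 15 / 16 * x - 1 / 32 + y / 32 := by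
    have := S.pair_odd hV (-1) hx (y := y) (by norm_num; exact c11)
    norm_num at this; linarith
  have r2 : B (S.σ 2 (-1)) (S.a 2) = 15 / 16 * x - 1 / 32 + y / 32 := by
    rw [← e1]
    have := S.pair_odd hV 1 hx (y := y) (by norm_num; exact b13)
    norm_num at this; linarith
  have rm2 : B (S.σ 2 (-1)) (S.a (-2)) = 15 / 16 * x - 1 / 32 + y / 32 := by
    rw [e3]
    have := S.pair_odd hV (-3) hx (y := y) (by norm_num; exact c31)
    norm_num at this; linarith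
  have rm1 : B (S.σ 2 (-1)) (S.a (-1)) = 31 / 32 * y - 1 / 32 := S.pair_even hV (-1) (by norm_num; exact c11)
  have rm3 : B (S.σ 2 (-1)) (S.a (-3)) = 31 / 32 * y - 1 / 32 := by rw [e3]; exact S.pair_even hV (-3) (by norm_num; exact c31)
  have r3 : B (S.σ 2 (-1)) (S.a 3) = 31 / 32 * y - 1 / 32 := by rw [← e1, ← e1']; exact S.pair_even hV 3 (by norm_num; exact b35)
  -- pairings of the relation
  have k0 := congrArg (fun v => B v (S.a 0)) hR
  have k2 := congrArg (fun v => B v (S.a 2)) hR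
  have km1 := congrArg (fun v => B v (S.a (-1))) hR
  have km2 := congrArg (fun v => B v (S.a (-2))) hR
  have km3 := congrArg (fun v => B v (S.a (-3))) hR
  simp only [map_sub, map_add, map_smul, LinearMap.sub_apply, LinearMap.add_apply, LinearMap.smul_apply, smul_eq_mul] at k0 k2 km1 km2 km3
  rw [sy 3 0, sy 2 0, sy 1 0, b03, b02, c20, c10, b01, S.nrm, p0, r0] at k0
  rw [sy 3 2, b23, S.nrm, ht, c12, b12, b02, p2, r2] at k2
  rw [sy 3 (-1), sy 2 (-1), sy 1 (-1), sy 0 (-1), ht', c12, c21, c11, c10, S.nrm, pm1, rm1] at km1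
  rw [sy 3 (-2), sy 2 (-2), sy 1 (-2), sy 0 (-2), sy (-1) (-2), hu, ht, c2p1, c20, c21, S.nrm, pm2, rm2] at km2
  rw [sy 3 (-3), sy 2 (-3), sy 1 (-3), sy 0 (-3), sy (-1) (-3), sy (-2) (-3), hv, c3p2, c3p1, c30, c31, c32, pm3, rm3] at km3
  have tt : t' = t := by linear_combination km1 + k2
  rw [tt] at km3
  refine ⟨by linear_combination k0, by linear_combination -k2, by linear_combination km2, by linear_combination km3, ?_, ?_⟩
  · have h1 := congrArg (fun v => B v (S.a 2)) hF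
    simp only [map_sub, map_add, map_smul, LinearMap.sub_apply, LinearMap.add_apply, LinearMap.smul_apply, smul_eq_mul, map_neg,
      LinearMap.neg_apply] at h1
    have h2 : B (mul (S.a 0) (S.a 3)) (S.a 2) = 31 / 32 * x - 1 / 32 + 1 / 32 * (y + w) := by
      have e : mul (S.a 3) (S.a 2) = S.σ 1 0 + (1 / 32 : ℝ) • (S.a 2 + S.a 3) := by
        rw [← S.σ_one hV 2, hV.1]
        unfold σ; norm_num
      rw [← hV.2.2.2.1, e, map_add, map_smul, map_add, b02, b03, hV.2.1, S.pair_one hV 0 hx, smul_eq_mul]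
    rw [h2, b02, sy 3 2, b23, S.nrm, ht, b12, c12, S.pair_one hV 2 hx, p2, r2] at h1
    linear_combination h1
  · have h1 := congrArg (fun v => B v (S.a 3)) hF
    simp only [map_sub, map_add, map_smul, LinearMap.sub_apply, LinearMap.add_apply, LinearMap.smul_apply, smul_eq_mul, map_neg,
      LinearMap.neg_apply] at h1
    have h2 : B (mul (S.a 0) (S.a 3)) (S.a 3) = w := by
      rw [← hV.2.2.2.1, idem (S.pair 3), hw]
    rw [h2, b03, S.nrm, b23, hu, b13, ht', S.pair_one hV 3 hx, p3, r3, tt] at h1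
    linear_combination h1

end Sq

end Cfsg.Agent.H28.Maj
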