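import Mathlib
import Cfsg.Agent.H28_Sak4

set_option autoImplicit false

/-! Two-generated Majorana algebras: solution of the scalar relations. -/

namespace Cfsg.Agent.H28.Maj

open Cfsg Cfsg.Axial

theorem solve {p q : ℝ} (hp : 0 ≤ p)
    (h2 : p ^ 4 - 284 * p ^ 3 + 5 * p ^ 2 * q + 5760 * p ^ 2 + 278 * p * q + 4 * q ^ 2 - 38400 * p - 1336 * q + 79872 = 0)
    (h3 : 2 * p ^ 5 - 577 * p ^ 4 + 25 * p ^ 3 * q + 10776 * p ^ 3 - 389 * p ^ 2 * q + 23 * p * q ^ 2 - 53760 * p ^ 2 + 10366 * p * q +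
      174 * q ^ 2 - 32256 * p - 46416 * q + 479232 = 0) :
    (p = 256 ∧ q = 256) ∨ (p = 32 ∧ q = 256) ∨ (p = 0 ∧ q = 256) ∨ (p = 13 ∧ q = 13) ∨ (p = 4 ∧ q = 4) ∨ (p = 8 ∧ q = 0) ∨
    (p = 4 ∧ q = 32) ∨ (p = 6 ∧ q = 6) ∨ (p = 5 ∧ q = 13) := by
  have h4 : (p - 4) * (q * (p ^ 2 + 592 * p + 780) + (p ^ 4 - 266 * p ^ 3 + 1600 * p ^ 2 + 28672 * p - 199680)) = 0 := by
    linear_combination (-(4 / 15)) * h3 + (23 * p + 174) / 15 * h2
  rcases mul_eq_zero.1 h4 with h | h
  · have hp4 : p = 4 := by linarith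
    subst hp4
    have h5 : (q - 4) * (q - 32) = 0 := by linear_combination (1 / 4) * h2
    rcases mul_eq_zero.1 h5 with h' | h'
    · right; right; right; right; left; exact ⟨rfl, by linarith⟩
    · right; right; right; right; right; right; left; exact ⟨rfl, by linarith⟩
  · have hA : 0 < p ^ 2 + 592 * p + 780 := by positivity
    have h5 : p * ((p - 256) * ((p - 32) * ((p - 13) * ((p - 8) * ((p - 6) * (p - 5)))))) = 0 := by
      linear_combination (-(1 / 3136)) * (p ^ 2 + 592 * p + 780) ^ 2 * h2 +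
        (1 / 3136) * ((p ^ 2 + 592 * p + 780) * (5 * p ^ 2 + 278 * p - 1336) + 4 * (q * (p ^ 2 + 592 * p + 780) -
          (p ^ 4 - 266 * p ^ 3 + 1600 * p ^ 2 + 28672 * p - 199680))) * h
    rcases mul_eq_zero.1 h5 with h6 | h6
    · subst h6; right; right; left; exact ⟨rfl, by linarith⟩
    rcases mul_eq_zero.1 h6 with h7 | h7
    · obtain rfl : p = 256 := by linarith
      left; exact ⟨rfl, by linarith⟩
    rcases mul_eq_zero.1 h7 with h8 | h8
    · obtain rfl : p = 32 := by linarith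
      right; left; exact ⟨rfl, by linarith⟩
    rcases mul_eq_zero.1 h8 with h9 | h9
    · obtain rfl : p = 13 := by linarith
      right; right; right; left; exact ⟨rfl, by linarith⟩
    rcases mul_eq_zero.1 h9 with h10 | h10
    · obtain rfl : p = 8 := by linarith
      right; right; right; right; right; left; exact ⟨rfl, by linarith⟩
    rcases mul_eq_zero.1 h10 with h11 | h11
    · obtain rfl : p = 6 := by linarith
      right; right; right; right; right; right; right; left; exact ⟨rfl, by linarith⟩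
    · obtain rfl : p = 5 := by linarith
      right; right; right; right; right; right; right; right; exact ⟨rfl, by linarith⟩

variable {V : Type*} [AddCommGroup V] [Module ℝ V]

variable {mul : V →ₗ[ℝ] V →ₗ[ℝ] V} {B : LinearMap.BilinForm ℝ V} (S : Sq mul B) (hV : IsMajoranaAmbient mul B)

namespace Sq

include hV in
theorem eq_of_ip {i j : ℤ} (h : B (S.a i) (S.a j) = 1) : S.a i = S.a j := by
  by_contra hne
  have h1 := hV.2.2.1 _ (sub_ne_zero.2 hne)
  have h2 : B (S.a i - S.a j) (S.a i - S.a j) = 0 := by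
    simp only [map_sub, LinearMap.sub_apply]
    rw [S.nrm, S.nrm, S.g_symm hV j i, h]; ring
  rw [h2] at h1
  exact lt_irrefl _ h1

include hV in
/-- coincidences among the axes -/
theorem nine : ∃ i j : ℤ, S.a i = S.a j ∧ 0 < j - i ∧ j - i ≤ 6 := by
  obtain ⟨x, hx⟩ : ∃ x, B (S.a 0) (S.a 1) = x := ⟨_, rfl⟩
  obtain ⟨y, hy⟩ : ∃ x, B (S.a 0) (S.a 2) = x := ⟨_, rfl⟩
  obtain ⟨w, t, u, v, hw, ht, hu, hv, k1, k2, k3, k4, k5, k6⟩ := S.rel hV x y hx hy
  have hx0 := S.x_nonneg hV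
  rw [hx] at hx0
  have k1' := k1
  have k2' := k2
  have k3' := k3
  rw [k1] at k2 k3 k5 k6
  rw [k2] at k3 k5 k6
  rw [k3] at k6
  rcases solve (p := 256 * x) (q := 256 * y) (by linarith)
    (by linear_combination (114688 / 3 : ℝ) * k5) (by linear_combination (-(802816 / 3) : ℝ) * k6) with
    ⟨e1, e2⟩ | ⟨e1, e2⟩ | ⟨e1, e2⟩ | ⟨e1, e2⟩ | ⟨e1, e2⟩ | ⟨e1, e2⟩ | ⟨e1, e2⟩ | ⟨e1, e2⟩ | ⟨e1, e2⟩
  · exact ⟨0, 1, S.eq_of_ip hV (by rw [hx]; linarith), by norm_num, by norm_num⟩
  · exact ⟨0, 2, S.eq_of_ip hV (by rw [hy]; linarith), by norm_num, by norm_num⟩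
  · exact ⟨0, 2, S.eq_of_ip hV (by rw [hy]; linarith), by norm_num, by norm_num⟩
  · obtain rfl : x = 13 / 256 := by linarith
    obtain rfl : y = 13 / 256 := by linarith
    exact ⟨0, 3, S.eq_of_ip hV (by rw [hw, k1']; norm_num), by norm_num, by norm_num⟩
  · obtain rfl : x = 4 / 256 := by linarith
    obtain rfl : y = 4 / 256 := by linarith
    exact ⟨0, 3, S.eq_of_ip hV (by rw [hw, k1']; norm_num), by norm_num, by norm_num⟩
  · obtain rfl : x = 8 / 256 := by linarith
    obtain rfl : y = 0 := by linarith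
    exact ⟨-2, 2, S.eq_of_ip hV (by rw [ht, k2', k1']; norm_num), by norm_num, by norm_num⟩
  · obtain rfl : x = 4 / 256 := by linarith
    obtain rfl : y = 32 / 256 := by linarith
    exact ⟨-2, 2, S.eq_of_ip hV (by rw [ht, k2', k1']; norm_num), by norm_num, by norm_num⟩
  · obtain rfl : x = 6 / 256 := by linarith
    obtain rfl : y = 6 / 256 := by linarith
    exact ⟨-2, 3, S.eq_of_ip hV (by rw [hu, k3', k2', k1']; norm_num), by norm_num, by norm_num⟩
  · obtain rfl : x = 5 / 256 := by linarith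
    obtain rfl : y = 13 / 256 := by linarith
    exact ⟨-3, 3, S.eq_of_ip hV (by rw [hv, k4, k3', k2', k1']; norm_num), by norm_num, by norm_num⟩

end Sq

end Cfsg.Agent.H28.Maj
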