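import Cfsg.Agent.H8_CS2
import Cfsg.Agent.H28_SpC0_P0
import Cfsg.Agent.H28_SpC0_P1
import Cfsg.Agent.H28_SpC0_P2
import Cfsg.Agent.H28_SpC0_P3
import Cfsg.Agent.H28_SpC0_C0
import Cfsg.Agent.H28_SpC0_C1

set_option autoImplicit false
set_option maxRecDepth 1000000

namespace Cfsg.Agent.H8.SpC0

open CE CS

theorem facts_ok {G : Type*} [Group G] {x : ℕ → G} {H : Subgroup G}
    (hic : ∀ y, y < 16 → x (il ic y) = (x y)⁻¹) (h0 : x 0 = 1) (hrels : ∀ w ∈ rels, ev x w = 1)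
    (hst : ∀ g, g < (nat_lit 46622) + L.length → VF H x (rho x S) (nat_lit 46622) S g) :
    ∀ g, g < (nat_lit 200063) → VF H x (rho x S) (nat_lit 46622) S g := by
  have hv : rt.Valid x ic := RS.valid_of_chk hic h0 (relsAll_ok hic rels_lt hrels) rt rt_chk
  have hn : (nat_lit 46622) ≤ 1048576 := Nat.le_of_ble_eq_true (by decide)
  have g0 : ∀ g, g < (nat_lit 46630) → VF H x (rho x S) (nat_lit 46622) S g := hst

  have g1 := dedProg_sound (H := H) (ρ := rho x S) hic hn hv prog0 g0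
  have g2 := dedProg_sound (H := H) (ρ := rho x S) hic hn hv prog1 g1
  have g3 := dedProg_sound (H := H) (ρ := rho x S) hic hn hv prog2 g2
  have g4 := dedProg_sound (H := H) (ρ := rho x S) hic hn hv prog3 g3
  exact g4

theorem bound {G : Type*} [Group G] {x : ℕ → G} {H : Subgroup G}
    (hic : ∀ y, y < 16 → x (il ic y) = (x y)⁻¹) (h0 : x 0 = 1) (hrels : ∀ w ∈ rels, ev x w = 1)
    (hL : ∀ s ∈ L, x s ∈ H) :
    H.relIndex (Subgroup.closure (x '' {y | 1 ≤ y ∧ y ≤ 9})) ≤ 28160 ∧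
      H.relIndex (Subgroup.closure (x '' {y | 1 ≤ y ∧ y ≤ 9})) ≠ 0 :=
  bound_of2 (k := 9) (n := 28160) (kk := 16) hic h0 hL (by decide) (by decide) (by decide) (by decide) (by decide) lets_ok
    s0 defs ini (facts_ok hic h0 hrels) (fun hf hic0 hl hk hn h => cloProg_sound hic h0 hic0 hn hf hl hk clo1 (cloProg_sound hic h0 hic0 hn hf hl hk clo0 (h)))

end Cfsg.Agent.H8.SpC0
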