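import Cfsg.Agent.H8_Cox
import Cfsg.Agent.H8_Act2
import Cfsg.Agent.H8_Fi22eT
import Cfsg.Agent.H8_Fi22fT
import Cfsg.Agent.H8_Fi22gT
import Cfsg.Agent.H8_Fi23cT
import Cfsg.Agent.H8_Fi23dT
import Cfsg.Agent.H28_SpC0
import Cfsg.Agent.H28_SpC1
import Cfsg.Agent.H28_SpC2
import Cfsg.Agent.H28_SpC3
import Cfsg.Agent.H28_SpC4

/-! The group of the diagram Y_{5,3,2} with the spider relation.
Letters: a=1, b=2, c=3, d=4 (centre), e=5, f=6, g=7, j=8, h=9, i=10, k=11. -/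

set_option autoImplicit false
set_option maxRecDepth 100000

namespace Cfsg.Agent.H28.Sp

open Cfsg.Agent.H8 Cfsg.Agent.H8.CE Cfsg.Agent.H8.Net Cfsg.Agent.H8.Act Cfsg.Agent.H8.Cox Cfsg.Agent.H8.CS
open Cfsg.Agent.H8.Act2

/-- edges -/
def edg : List (ℕ × ℕ) := [(1, 2), (2, 3), (3, 4), (4, 5), (4, 9), (5, 6), (6, 7), (7, 8), (8, 11), (9, 10)]

/-- label -/
def lb (i j : ℕ) : ℕ := bif edg.contains (i, j) || edg.contains (j, i) then 3 else 2

/-- coxeter words of pairs of letters from a list -/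
def pairsW : List ℕ → List (List ℕ)
  | [] => []
  | i :: l => (l.map fun j => coxW i j (lb i j)) ++ pairsW l

/-- words of the first ten letters -/
def relsA : List (List ℕ) := [1, 2, 3, 4, 5, 6, 7, 8, 9, 10].map (fun i => [i, i]) ++
  (pairsW [1, 2, 3, 4, 5, 6, 7, 8, 9, 10] ++ [powW [4, 3, 2, 4, 5, 6, 4, 9, 10] 10])

/-- words with the letter 11 -/
def relsB : List (List ℕ) := [11, 11] :: [1, 2, 3, 4, 5, 6, 7, 8, 9, 10].map fun i => coxW i 11 (lb i 11)

def allrels : List (List ℕ) := relsA ++ relsB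

/-- the relators -/
def R : Set (FreeGroup ℕ) := {r | ∃ w ∈ allrels, r = (w.map FreeGroup.of).prod} ∪
  {r | ∃ y, (y = 0 ∨ 12 ≤ y) ∧ r = FreeGroup.of y}

abbrev SG : Type := PresentedGroup R

/-- letters -/
noncomputable def x (y : ℕ) : SG := PresentedGroup.of y

theorem lift_word {K : Type*} [Group K] (f : ℕ → K) (w : List ℕ) :
    FreeGroup.lift f (w.map FreeGroup.of).prod = ev f w := by
  induction w with
  | nil => simp
  | cons y w ih => simp [ih]

theorem mk_word (w : List ℕ) : PresentedGroup.mk R (w.map FreeGroup.of).prod = ev x w := by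
  induction w with
  | nil => simp
  | cons y w ih => rw [List.map_cons, List.prod_cons, map_mul, ih, ev_cons]; rfl

theorem hrel : ∀ w ∈ allrels, ev x w = 1 := by
  intro w hw
  rw [← mk_word]
  exact PresentedGroup.mk_eq_one_iff.2 (Subgroup.subset_normalClosure (Or.inl ⟨w, hw, rfl⟩))

theorem x_out {y : ℕ} (h : y = 0 ∨ 12 ≤ y) : x y = 1 :=
  PresentedGroup.mk_eq_one_iff.2 (Subgroup.subset_normalClosure (Or.inr ⟨y, h, rfl⟩))

theorem exists_hom' {K : Type*} [Group K] (f : ℕ → K) (h : ∀ w ∈ allrels, ev f w = 1)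
    (h0 : ∀ y, (y = 0 ∨ 12 ≤ y) → f y = 1) : ∃ φ : SG →* K, ∀ y, φ (x y) = f y := by
  have hR : ∀ r ∈ R, FreeGroup.lift f r = 1 := by
    rintro r (⟨w, hw, rfl⟩ | ⟨y, hy, rfl⟩)
    · rw [lift_word]; exact h w hw
    · rw [FreeGroup.lift_apply_of]; exact h0 y hy
  refine ⟨PresentedGroup.toGroup hR, ?_⟩
  intro y
  exact PresentedGroup.toGroup.of hR

theorem map_ev {G K : Type*} [Group G] [Group K] (φ : G →* K) (u : ℕ → G) (w : List ℕ) :
    φ (ev u w) = ev (fun y => φ (u y)) w := by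
  induction w with
  | nil => simp
  | cons y w ih => rw [ev_cons, ev_cons, map_mul, ih]

/-- inverse letters -/
def ic : ℕ := 0xba9876543210

theorem sq (y : ℕ) : x y * x y = 1 := by
  by_cases hy : y = 0 ∨ 12 ≤ y
  · rw [x_out hy]; simp
  · have h : y < 12 := by omega
    have h' : y ≠ 0 := by omega
    have : [y, y] ∈ allrels := by
      interval_cases y <;> first | exact absurd rfl h' | decide +kernel
    have := hrel _ this
    simpa using this

theorem hic : ∀ y, y < 16 → x (il ic y) = (x y)⁻¹ := by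
  intro y hy
  have h1 : x (il ic y) = x y := by
    by_cases h : 12 ≤ y
    · rw [x_out (Or.inr h)]
      have : il ic y = 0 := by interval_cases y <;> decide
      rw [this, x_out (Or.inl rfl)]
    · have : il ic y = y := by
        have : y < 12 := by omega
        interval_cases y <;> decide
      rw [this]
  rw [h1]
  exact eq_inv_of_mul_eq_one_left (sq y)

theorem h0 : x 0 = 1 := x_out (Or.inl rfl)

/-- subgroups generated by lists of letters -/
noncomputable def Kl (l : List ℕ) : Subgroup SG := Subgroup.closure (x '' {y | y ∈ l})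

theorem Kl_mono {l l' : List ℕ} (h : (l.all fun y => l'.contains y) = true) : Kl l ≤ Kl l' := by
  apply Subgroup.closure_mono
  apply Set.image_mono
  intro y hy
  rw [List.all_eq_true] at h
  have := h y hy
  rwa [List.contains_iff_mem] at this

theorem mem_Kl {l : List ℕ} {y : ℕ} (h : l.contains y = true) : x y ∈ Kl l :=
  Subgroup.subset_closure ⟨y, by rwa [List.contains_iff_mem] at h, rfl⟩

theorem b3 : (Kl [2, 3, 4, 5, 6, 7, 9]).relIndex (Kl [2, 3, 4, 5, 6, 7, 9, 10]) ≤ 3159 ∧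
    (Kl [2, 3, 4, 5, 6, 7, 9]).relIndex (Kl [2, 3, 4, 5, 6, 7, 9, 10]) ≠ 0 := by
  have h := Fi23cT.bound (x := ren x [0, 2, 3, 4, 5, 6, 7, 9, 10]) (H := (Kl [2, 3, 4, 5, 6, 7, 9]))
    (ren_hic hic (by decide +kernel)) h0 (ren_rels hrel (by decide +kernel)) (by
      intro s hs
      simp only [Fi23cT.L, List.mem_cons, List.not_mem_nil, or_false] at hs
      rcases hs with rfl | rfl | rfl | rfl | rfl | rfl | rfl <;> exact mem_Kl (by decide))
  rw [ren_image [0, 2, 3, 4, 5, 6, 7, 9, 10] 8 [2, 3, 4, 5, 6, 7, 9, 10] (by decide) (by decide)] at h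
  exact h

theorem b4 : (Kl [2, 3, 4, 5, 6, 9]).relIndex (Kl [2, 3, 4, 5, 6, 7, 9]) ≤ 56 ∧
    (Kl [2, 3, 4, 5, 6, 9]).relIndex (Kl [2, 3, 4, 5, 6, 7, 9]) ≠ 0 := by
  have h := Fi23dT.bound (x := ren x [0, 2, 3, 4, 5, 6, 7, 9]) (H := (Kl [2, 3, 4, 5, 6, 9]))
    (ren_hic hic (by decide +kernel)) h0 (ren_rels hrel (by decide +kernel)) (by
      intro s hs
      simp only [Fi23dT.L, List.mem_cons, List.not_mem_nil, or_false] at hs
      rcases hs with rfl | rfl | rfl | rfl | rfl | rfl <;> exact mem_Kl (by decide))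
  rw [ren_image [0, 2, 3, 4, 5, 6, 7, 9] 7 [2, 3, 4, 5, 6, 7, 9] (by decide) (by decide)] at h
  exact h

theorem b5 : (Kl [3, 4, 5, 6, 9]).relIndex (Kl [2, 3, 4, 5, 6, 9]) ≤ 27 ∧
    (Kl [3, 4, 5, 6, 9]).relIndex (Kl [2, 3, 4, 5, 6, 9]) ≠ 0 := by
  have h := Fi22eT.bound (x := ren x [0, 2, 3, 4, 5, 6, 9]) (H := (Kl [3, 4, 5, 6, 9]))
    (ren_hic hic (by decide +kernel)) h0 (ren_rels hrel (by decide +kernel)) (by
      intro s hs
      simp only [Fi22eT.L, List.mem_cons, List.not_mem_nil, or_false] at hs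
      rcases hs with rfl | rfl | rfl | rfl | rfl <;> exact mem_Kl (by decide))
  rw [ren_image [0, 2, 3, 4, 5, 6, 9] 6 [2, 3, 4, 5, 6, 9] (by decide) (by decide)] at h
  exact h

theorem b6 : (Kl [3, 4, 5, 6]).relIndex (Kl [3, 4, 5, 6, 9]) ≤ 16 ∧
    (Kl [3, 4, 5, 6]).relIndex (Kl [3, 4, 5, 6, 9]) ≠ 0 := by
  have h := Fi22fT.bound (x := ren x [0, 3, 4, 5, 6, 9]) (H := (Kl [3, 4, 5, 6]))
    (ren_hic hic (by decide +kernel)) h0 (ren_rels hrel (by decide +kernel)) (by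
      intro s hs
      simp only [Fi22fT.L, List.mem_cons, List.not_mem_nil, or_false] at hs
      rcases hs with rfl | rfl | rfl | rfl <;> exact mem_Kl (by decide))
  rw [ren_image [0, 3, 4, 5, 6, 9] 5 [3, 4, 5, 6, 9] (by decide) (by decide)] at h
  exact h

theorem b7 : (⊥ : Subgroup SG).relIndex (Kl [3, 4, 5, 6]) ≤ 120 ∧
    (⊥ : Subgroup SG).relIndex (Kl [3, 4, 5, 6]) ≠ 0 := by
  have h := Fi22gT.bound (x := ren x [0, 3, 4, 5, 6]) (H := (⊥ : Subgroup SG))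
    (ren_hic hic (by decide +kernel)) h0 (ren_rels hrel (by decide +kernel)) (by
      intro s hs
      simp [Fi22gT.L] at hs)
  rw [ren_image [0, 3, 4, 5, 6] 4 [3, 4, 5, 6] (by decide) (by decide)] at h
  exact h

theorem b2 : (Kl [2, 3, 4, 5, 6, 7, 9, 10]).relIndex (Kl [1, 2, 3, 4, 5, 6, 7, 9, 10]) ≤ 28160 ∧
    (Kl [2, 3, 4, 5, 6, 7, 9, 10]).relIndex (Kl [1, 2, 3, 4, 5, 6, 7, 9, 10]) ≠ 0 := by
  have h := SpC0.bound (x := ren x [0, 1, 2, 3, 4, 5, 6, 7, 9, 10]) (H := (Kl [2, 3, 4, 5, 6, 7, 9, 10]))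
    (ren_hic hic (by decide +kernel)) h0 (ren_rels hrel (by decide +kernel)) (by
      intro s hs
      simp only [SpC0.L, List.mem_cons, List.not_mem_nil, or_false] at hs
      rcases hs with rfl | rfl | rfl | rfl | rfl | rfl | rfl | rfl <;> exact mem_Kl (by decide))
  rw [ren_image [0, 1, 2, 3, 4, 5, 6, 7, 9, 10] 9 [1, 2, 3, 4, 5, 6, 7, 9, 10] (by decide) (by decide)] at h
  exact h

theorem c7 : Nat.card (Kl [3, 4, 5, 6]) ≤ 120 ∧ Nat.card (Kl [3, 4, 5, 6]) ≠ 0 := by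
  have h := b7
  rwa [Subgroup.relIndex_bot_left] at h

theorem c6 : Nat.card (Kl [3, 4, 5, 6, 9]) ≤ 16 * (120) ∧ Nat.card (Kl [3, 4, 5, 6, 9]) ≠ 0 :=
  card_le_of_relIndex (Kl_mono (by decide)) b6 c7

theorem c5 : Nat.card (Kl [2, 3, 4, 5, 6, 9]) ≤ 27 * (16 * (120)) ∧ Nat.card (Kl [2, 3, 4, 5, 6, 9]) ≠ 0 :=
  card_le_of_relIndex (Kl_mono (by decide)) b5 c6

theorem c4 : Nat.card (Kl [2, 3, 4, 5, 6, 7, 9]) ≤ 56 * (27 * (16 * (120))) ∧ Nat.card (Kl [2, 3, 4, 5, 6, 7, 9]) ≠ 0 :=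
  card_le_of_relIndex (Kl_mono (by decide)) b4 c5

theorem c3 : Nat.card (Kl [2, 3, 4, 5, 6, 7, 9, 10]) ≤ 3159 * (56 * (27 * (16 * (120)))) ∧
    Nat.card (Kl [2, 3, 4, 5, 6, 7, 9, 10]) ≠ 0 :=
  card_le_of_relIndex (Kl_mono (by decide)) b3 c4

theorem c2 : Nat.card (Kl [1, 2, 3, 4, 5, 6, 7, 9, 10]) ≤ 28160 * (3159 * (56 * (27 * (16 * (120))))) ∧
    Nat.card (Kl [1, 2, 3, 4, 5, 6, 7, 9, 10]) ≠ 0 :=
  card_le_of_relIndex (Kl_mono (by decide)) b2 c3

/-! ### Injectivity -/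

theorem inj1 {G K : Type*} [Group G] [Group K] {H : Subgroup G} (φ : G →* K) {n : ℕ} (h1 : Nat.card H ≤ n ∧ Nat.card H ≠ 0)
    (h2 : n ≤ Nat.card (H.map φ)) {u : G} (hu : u ∈ H) (h : φ u = 1) : u = 1 := by
  haveI : Finite H := Nat.finite_of_card_ne_zero h1.2
  let f : H → H.map φ := fun g => ⟨φ g, Subgroup.mem_map_of_mem φ g.2⟩
  have hs : Function.Surjective f := by
    rintro ⟨_, g, hg, rfl⟩
    exact ⟨⟨g, hg⟩, rfl⟩
  haveI : Finite (H.map φ) := Finite.of_surjective f hs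
  have hb : Function.Bijective f := by
    rw [Nat.bijective_iff_surjective_and_card]
    refine ⟨hs, ?_⟩
    exact le_antisymm (h1.1.trans h2) (Nat.card_le_card_of_surjective f hs)
  have := hb.1 (a₁ := ⟨u, hu⟩) (a₂ := 1) (Subtype.ext (by simpa [f] using h))
  exact congrArg Subtype.val this

theorem inj2 {G K : Type*} [Group G] [Group K] {H : Subgroup G} (φ : G →* K) (ε : G →* ℤˣ) {n : ℕ}
    (h1 : Nat.card H ≤ 2 * n ∧ Nat.card H ≠ 0) (h2 : n ≤ Nat.card (H.map φ)) {z : G} (hz : z ∈ H) (hz1 : φ z = 1)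
    (hz2 : ε z = -1) {u : G} (hu : u ∈ H) (h : φ u = 1) (h' : ε u = 1) : u = 1 := by
  have hn : n ≤ Nat.card (H.map φ) := h2
  haveI : Finite H := Nat.finite_of_card_ne_zero h1.2
  -- the map to the product
  refine inj1 (H := H) (φ.prod ε) (n := 2 * n) h1 ?_ hu (by simp [h, h'])
  haveI : Finite (H.map (φ.prod ε)) := by
    refine Finite.of_surjective (fun g : H => (⟨(φ.prod ε) g, Subgroup.mem_map_of_mem _ g.2⟩ : H.map (φ.prod ε))) ?_
    rintro ⟨_, g, hg, rfl⟩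
    exact ⟨⟨g, hg⟩, rfl⟩
  -- injection of (H.map φ) × ℤˣ
  have key : ∀ k ∈ H.map φ, ∀ e : ℤˣ, (k, e) ∈ H.map (φ.prod ε) := by
    rintro _ ⟨g, hg, rfl⟩ e
    by_cases he : ε g = e
    · exact ⟨g, hg, by simp [he]⟩
    · refine ⟨g * z, H.mul_mem hg hz, ?_⟩
      have : ε g = -e := by
        rcases Int.units_eq_one_or (ε g) with h3 | h3 <;> rcases Int.units_eq_one_or e with h4 | h4 <;>
          simp_all
      simp [hz1, hz2, this]
  let f : (H.map φ) × ℤˣ → H.map (φ.prod ε) := fun p => ⟨(p.1, p.2), key _ p.1.2 _⟩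
  have hf : Function.Injective f := by
    rintro ⟨⟨a, ha⟩, e⟩ ⟨⟨b, hb⟩, e'⟩ h3
    have h4 := congrArg Subtype.val h3
    simp only [f, Prod.mk.injEq] at h4
    rw [Prod.mk.injEq, Subtype.mk.injEq]
    exact h4
  have h5 := Nat.card_le_card_of_injective f hf
  rw [Nat.card_prod] at h5
  have h6 : Nat.card ℤˣ = 2 := by
    rw [Nat.card_eq_fintype_card]; rfl
  rw [h6] at h5
  omega

end Cfsg.Agent.H28.Sp
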