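import Cfsg.Agent.H28_SpN1
import Cfsg.Agent.H28_SpN2
import Cfsg.Agent.H28_SpN3

/-! Word checks in the 31671-point action. -/

set_option autoImplicit false
set_option maxRecDepth 1000000

namespace Cfsg.Agent.H28.SpN

open Cfsg.Agent.H8 Cfsg.Agent.H8.CE Cfsg.Agent.H8.Net Cfsg.Agent.H8.Act Cfsg.Agent.H8.Act4 Cfsg.Agent.H8.Act5

def p0 : List (List ℕ × List ℕ) := [(w0 ++ w0, []), (w0 ++ [1], [1] ++ w0), (w0 ++ [2], [2] ++ w0), (w0 ++ [3], [3] ++ w0), (w0 ++ [4], [4] ++ w0), (w0 ++ [5], [5] ++ w0), (w0 ++ [6], [6] ++ w0)]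

def p1 : List (List ℕ × List ℕ) := [(w0 ++ [7], [7] ++ w0), (w0 ++ [9], [9] ++ w0), (w0 ++ [10], [10] ++ w0), (w1, w0), (powW ([8] ++ w0) 3, [])]

theorem good0 : Good Fi23A.L 31671 15 p0 :=
  (good_append (good_of_eqR c0) (good_append (good_of_eqR c1) (good_append (good_of_eqR c2) (good_append (good_of_eqR c3) (good_append (good_of_eqR c4) (good_append (good_of_eqR c5) (good_of_eqR c6)))))))

theorem good1 : Good Fi23A.L 31671 15 p1 :=
  (good_append (good_of_eqR c7) (good_append (good_of_eqR c8) (good_append (good_of_eqR c9) (good_append (good_of_eqR c10) (good_of_eqR c11)))))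

end Cfsg.Agent.H28.SpN
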