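import Cfsg.Agent.H28_SpA
import Cfsg.Agent.H28_SpN
import Cfsg.Agent.H8_Fi23M

/-! The E7 relations in the group of Y_{5,3,2} with the spider relation. -/

set_option autoImplicit false
set_option maxRecDepth 100000

namespace Cfsg.Agent.H28.Sp

open Cfsg.Agent.H8 Cfsg.Agent.H8.CE Cfsg.Agent.H8.Net Cfsg.Agent.H8.Act Cfsg.Agent.H8.Cox Cfsg.Agent.H8.CS
open Cfsg.Agent.H8.Act2 Cfsg.Agent.H8.Act5 SpN

/-! ### The Fischer group -/

/-- the E7 element in Fi23 -/
noncomputable def Z : Cfsg.Spor.Fi23 := ev Fi23M.x w0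

theorem w0_lt : ∀ y ∈ w0, y < 16 := powW_lt (by decide) 9
theorem w1_lt : ∀ y ∈ w1, y < 16 := powW_lt (by decide) 9

theorem eqw {u w : List ℕ} (h : eqW Fi23A.L 31671 15 u w = true) (hu : ∀ y ∈ u, y < 16) (hw : ∀ y ∈ w, y < 16) :
    ev Fi23M.x u = ev Fi23M.x w :=
  ev_eq_of_inj Fi23M.compat Fi23M.main.2 Fi23A.sys Fi23M.hn hu hw h

theorem Z_sq : Z * Z = 1 := by
  have h := eqw (good0 (w0 ++ w0, []) (by simp [p0])) (by
    intro y hy; rw [List.mem_append] at hy; exact hy.elim (w0_lt y) (w0_lt y)) (by simp)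
  rw [ev_append, ev_nil] at h
  exact h

theorem comm_aux {y : ℕ} (hy : y < 16) (h : eqW Fi23A.L 31671 15 (w0 ++ [y]) ([y] ++ w0) = true) :
    Z * Fi23M.x y = Fi23M.x y * Z := by
  have h := eqw h (by
    intro z hz; rw [List.mem_append] at hz
    rcases hz with hz | hz
    · exact w0_lt z hz
    · rw [List.mem_singleton] at hz; omega) (by
    intro z hz; rw [List.mem_append] at hz
    rcases hz with hz | hz
    · rw [List.mem_singleton] at hz; omega
    · exact w0_lt z hz)
  rw [ev_append, ev_append, ev_cons, ev_nil, mul_one] at h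
  exact h

theorem Z_comm (y : ℕ) (hy : [1, 2, 3, 4, 5, 6, 7, 9, 10].contains y = true) : Z * Fi23M.x y = Fi23M.x y * Z := by
  rw [List.contains_iff_mem] at hy
  simp only [List.mem_cons, List.not_mem_nil, or_false] at hy
  rcases hy with rfl | rfl | rfl | rfl | rfl | rfl | rfl | rfl | rfl
  · exact comm_aux (by decide) (good0 (w0 ++ [1], [1] ++ w0) (by simp [p0]))
  · exact comm_aux (by decide) (good0 (w0 ++ [2], [2] ++ w0) (by simp [p0]))
  · exact comm_aux (by decide) (good0 (w0 ++ [3], [3] ++ w0) (by simp [p0]))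
  · exact comm_aux (by decide) (good0 (w0 ++ [4], [4] ++ w0) (by simp [p0]))
  · exact comm_aux (by decide) (good0 (w0 ++ [5], [5] ++ w0) (by simp [p0]))
  · exact comm_aux (by decide) (good0 (w0 ++ [6], [6] ++ w0) (by simp [p0]))
  · exact comm_aux (by decide) (good1 (w0 ++ [7], [7] ++ w0) (by simp [p1]))
  · exact comm_aux (by decide) (good1 (w0 ++ [9], [9] ++ w0) (by simp [p1]))
  · exact comm_aux (by decide) (good1 (w0 ++ [10], [10] ++ w0) (by simp [p1]))

theorem Z_w1 : ev Fi23M.x w1 = Z := eqw (good1 (w1, w0) (by simp [p1])) w1_lt w0_lt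

theorem Z_j : (Fi23M.x 8 * Z) ^ 3 = 1 := by
  have h := eqw (good1 (powW ([8] ++ w0) 3, []) (by simp [p1])) (powW_lt (by
    intro z hz; rw [List.mem_append] at hz
    rcases hz with hz | hz
    · rw [List.mem_singleton] at hz; omega
    · exact w0_lt z hz) 3) (by simp)
  rw [ev_powW, ev_nil, ev_append, ev_cons, ev_nil, mul_one] at h
  exact h

theorem sq23 (y : ℕ) (hy : 1 ≤ y ∧ y ≤ 10) : Fi23M.x y * Fi23M.x y = 1 := by
  have h := Fi23M.hic y (by omega)
  have : il Fi23R.ic y = y := by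
    obtain ⟨h1, h2⟩ := hy
    interval_cases y <;> decide
  rw [this] at h
  exact mul_eq_one_iff_eq_inv.2 h

/-! ### The maps -/

/-- images of the letters -/
noncomputable def f (y : ℕ) : Cfsg.Spor.Fi23 := if y = 11 then Z else Fi23M.x y

theorem f_ne {y : ℕ} (h : y ≠ 11) : f y = Fi23M.x y := if_neg h

theorem ev_congr2 {K : Type*} [Group K] {u v : ℕ → K} {w : List ℕ} (h : ∀ y ∈ w, u y = v y) : ev u w = ev v w := by
  induction w with
  | nil => rfl
  | cons y w ih => rw [ev_cons, ev_cons, h y (by simp), ih (fun z hz => h z (by simp [hz]))]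

theorem x23_out {y : ℕ} (h : y = 0 ∨ 11 ≤ y) : Fi23M.x y = 1 := by
  rcases h with rfl | h
  · exact Fi23M.h0
  · show PresentedGroup.mk _ (Fi23R.lm.getD y 1) = 1
    have : Fi23R.lm.getD y 1 = 1 := by
      apply List.getD_eq_default
      simpa [Fi23R.lm] using h
    rw [this, map_one]

theorem relsA_ok : ∀ w ∈ relsA, ev f w = 1 := by
  intro w hw
  have hlt : ∀ y ∈ w, y ≠ 11 := by
    have : (relsA.all fun w => w.all fun y => !(y == 11)) = true := by decide +kernel
    rw [List.all_eq_true] at this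
    have := this w hw
    rw [List.all_eq_true] at this
    intro y hy
    simpa using this y hy
  rw [ev_congr2 (fun y hy => f_ne (hlt y hy))]
  rw [relsA, List.mem_append] at hw
  rcases hw with hw | hw
  · rw [List.mem_map] at hw
    obtain ⟨i, hi, rfl⟩ := hw
    have : 1 ≤ i ∧ i ≤ 10 := by
      simp only [List.mem_cons, List.not_mem_nil, or_false] at hi
      omega
    simpa using sq23 i this
  · exact Fi23M.sub_rels (rs := pairsW [1, 2, 3, 4, 5, 6, 7, 8, 9, 10] ++ [powW [4, 3, 2, 4, 5, 6, 4, 9, 10] 10])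
      (by decide +kernel) w hw

theorem inv_comm {K : Type*} [Group K] {a b : K} (ha : a * a = 1) (hb : b * b = 1) (h : a * b = b * a) :
    (a * b) ^ 2 = 1 := by
  rw [pow_two]
  calc a * b * (a * b) = a * b * (b * a) := by rw [h]
    _ = a * (b * b) * a := by group
    _ = 1 := by rw [hb, mul_one, ha]

theorem relsB_ok : ∀ w ∈ relsB, ev f w = 1 := by
  intro w hw
  have f11 : f 11 = Z := if_pos rfl
  simp only [relsB, List.map_cons, List.map_nil, List.mem_cons, List.not_mem_nil, or_false] at hw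
  have key : ∀ y, [1, 2, 3, 4, 5, 6, 7, 9, 10].contains y = true → y ≠ 11 → (1 ≤ y ∧ y ≤ 10) →
      ev f (coxW y 11 2) = 1 := by
    intro y h1 h2 h3
    rw [ev_coxW, f11, f_ne h2]
    exact inv_comm (sq23 y h3) Z_sq (Z_comm y h1).symm
  rcases hw with rfl | rfl | rfl | rfl | rfl | rfl | rfl | rfl | rfl | rfl | rfl
  · simpa [f11] using Z_sq
  · exact key 1 (by decide) (by decide) (by decide)
  · exact key 2 (by decide) (by decide) (by decide)
  · exact key 3 (by decide) (by decide) (by decide)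
  · exact key 4 (by decide) (by decide) (by decide)
  · exact key 5 (by decide) (by decide) (by decide)
  · exact key 6 (by decide) (by decide) (by decide)
  · exact key 7 (by decide) (by decide) (by decide)
  · show ev f (coxW 8 11 3) = 1
    rw [ev_coxW, f11, f_ne (by decide)]
    exact Z_j
  · exact key 9 (by decide) (by decide) (by decide)
  · exact key 10 (by decide) (by decide) (by decide)

theorem exists_phi : ∃ φ : SG →* Cfsg.Spor.Fi23, ∀ y, φ (x y) = f y := by
  refine exists_hom' f ?_ ?_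
  · intro w hw
    rw [allrels, List.mem_append] at hw
    exact hw.elim (relsA_ok w) (relsB_ok w)
  · intro y hy
    rw [f_ne (by omega), x23_out (by omega)]

noncomputable def phi : SG →* Cfsg.Spor.Fi23 := exists_phi.choose
theorem phi_x (y : ℕ) : phi (x y) = f y := exists_phi.choose_spec y

/-- signs -/
def fe (y : ℕ) : ℤˣ := if y = 0 ∨ 12 ≤ y then 1 else -1

theorem exists_eps : ∃ ε : SG →* ℤˣ, ∀ y, ε (x y) = fe y := by
  refine exists_hom' fe ?_ ?_
  · decide +kernel
  · intro y hy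
    exact if_pos hy

noncomputable def eps : SG →* ℤˣ := exists_eps.choose
theorem eps_x (y : ℕ) : eps (x y) = fe y := exists_eps.choose_spec y

theorem phi_ev {w : List ℕ} (h : ∀ y ∈ w, y ≠ 11) : phi (ev x w) = ev Fi23M.x w := by
  rw [map_ev]
  apply ev_congr2
  intro y hy
  rw [phi_x, f_ne (h y hy)]

theorem eps_ev (w : List ℕ) : eps (ev x w) = ev fe w := by
  rw [map_ev]
  apply ev_congr2
  intro y _
  exact eps_x y

theorem map_Kl {l : List ℕ} (h : l.contains 11 = false) : (Kl l).map phi = Fi23M.Hl l := by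
  rw [Kl, Fi23M.Hl, MonoidHom.map_closure]
  congr 1
  have h' : ∀ y ∈ l, y ≠ 11 := by
    intro y hy h2
    subst h2
    rw [← List.contains_iff_mem] at hy
    rw [hy] at h
    exact absurd h (by decide)
  ext g
  constructor
  · rintro ⟨_, ⟨y, hy, rfl⟩, rfl⟩
    exact ⟨y, hy, by rw [phi_x, f_ne (h' y hy)]⟩
  · rintro ⟨y, hy, rfl⟩
    exact ⟨x y, ⟨y, hy, rfl⟩, by rw [phi_x, f_ne (h' y hy)]⟩

theorem lower {G : Type*} [Group G] {H K : Subgroup G} (h : H ≤ K) {n m : ℕ} (hn : 0 < n) (h1 : H.relIndex K ≤ n)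
    (h2 : n * m ≤ Nat.card K) : m ≤ Nat.card H := by
  have h3 : Nat.card H * H.relIndex K = Nat.card K := by
    rw [Subgroup.relIndex, ← Subgroup.card_mul_index (H.subgroupOf K)]
    congr 1
    exact (Nat.card_congr (Subgroup.subgroupOfEquivOfLe h).toEquiv).symm
  have h4 : n * m ≤ n * Nat.card H := by
    calc n * m ≤ Nat.card K := h2
      _ = Nat.card H * H.relIndex K := h3.symm
      _ ≤ Nat.card H * n := Nat.mul_le_mul_left _ h1
      _ = n * Nat.card H := Nat.mul_comm _ _
  exact Nat.le_of_mul_le_mul_left h4 hn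

theorem l2 : 14080 * (3159 * (56 * (27 * (16 * (120))))) ≤ Nat.card (Fi23M.Hl [1, 2, 3, 4, 5, 6, 7, 9, 10]) := by
  refine lower (Fi23M.Hl_mono (by decide)) (by decide) Fi23M.b1.1 ?_
  rw [Fi23M.Hl_top, Subgroup.card_top, Fi23M.main.1]

theorem l3 : 3159 * (56 * (27 * (16 * (120)))) ≤ Nat.card (Fi23M.Hl [2, 3, 4, 5, 6, 7, 9, 10]) :=
  lower (Fi23M.Hl_mono (by decide)) (by decide) Fi23M.b2.1 l2

theorem l4 : 56 * (27 * (16 * (120))) ≤ Nat.card (Fi23M.Hl [2, 3, 4, 5, 6, 7, 9]) :=
  lower (Fi23M.Hl_mono (by decide)) (by decide) Fi23M.b3.1 l3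

theorem i1 {u : SG} (hu : u ∈ Kl [2, 3, 4, 5, 6, 7, 9]) (h : phi u = 1) : u = 1 :=
  inj1 phi c4 (by rw [map_Kl (by decide)]; exact l4) hu h

theorem i2 {u : SG} (hu : u ∈ Kl [2, 3, 4, 5, 6, 7, 9, 10]) (h : phi u = 1) : u = 1 :=
  inj1 phi c3 (by rw [map_Kl (by decide)]; exact l3) hu h

theorem ev_mem {l w : List ℕ} (h : (w.all fun y => l.contains y) = true) : ev x w ∈ Kl l := by
  rw [List.all_eq_true] at h
  induction w with
  | nil => exact (Kl l).one_mem
  | cons y w ih =>
    rw [ev_cons]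
    exact (Kl l).mul_mem (mem_Kl (h y (by simp))) (ih (fun z hz => h z (by simp [hz])))

theorem i3 {u : SG} (hu : u ∈ Kl [1, 2, 3, 4, 5, 6, 7, 9, 10]) (h : phi u = 1) (h' : eps u = 1) : u = 1 := by
  refine inj2 phi eps (n := 14080 * (3159 * (56 * (27 * (16 * (120)))))) ⟨?_, c2.2⟩ (by rw [map_Kl (by decide)]; exact l2)
    (z := ev x (powW [1, 2, 3, 4, 5, 6, 9] 9)) (ev_mem (by decide +kernel)) ?_ ?_ hu h h'
  · exact c2.1.trans (by decide)
  · rw [phi_ev (by
      intro y hy
      have : ((powW [1, 2, 3, 4, 5, 6, 9] 9).all fun y => !(y == 11)) = true := by decide +kernel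
      rw [List.all_eq_true] at this
      simpa using this y hy)]
    exact Fi23M.hrels0 _ (by decide +kernel)
  · rw [eps_ev]
    decide +kernel

end Cfsg.Agent.H28.Sp
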