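import Cfsg.Agent.H28_SpB

/-! The end node is the E7 element. -/

set_option autoImplicit false
set_option maxRecDepth 100000

namespace Cfsg.Agent.H28.Sp

open Cfsg.Agent.H8 Cfsg.Agent.H8.CE Cfsg.Agent.H8.Net Cfsg.Agent.H8.Act Cfsg.Agent.H8.Cox Cfsg.Agent.H8.CS
open Cfsg.Agent.H8.Act2 Cfsg.Agent.H8.Act5 SpN

/-- the E7 element -/
noncomputable def zz : SG := ev x w0

theorem ne11_of {w : List ℕ} (h : (w.all fun y => !(y == 11)) = true) : ∀ y ∈ w, y ≠ 11 := by
  rw [List.all_eq_true] at h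
  intro y hy
  simpa using h y hy

theorem phi_zz : phi zz = Z := phi_ev (ne11_of (by decide +kernel))
theorem eps_zz : eps zz = -1 := by
  rw [zz, eps_ev]; decide +kernel

theorem zz_mem : zz ∈ Kl [2, 3, 4, 5, 6, 7, 9] := ev_mem (by decide +kernel)

theorem zz_sq : zz * zz = 1 :=
  i1 ((Kl _).mul_mem zz_mem zz_mem) (by rw [map_mul, phi_zz, Z_sq])

/-- from `a z a z = 1` -/
theorem comm_of {y : ℕ} (h : x y * zz * x y * zz = 1) : zz * x y = x y * zz := by
  have h1 : x y * zz * (x y * zz) = 1 := by rw [← mul_assoc]; exact h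
  have h2 : x y * zz = (x y * zz)⁻¹ := mul_eq_one_iff_eq_inv.1 h1
  rw [h2, mul_inv_rev, ← mul_eq_one_iff_eq_inv.1 zz_sq, ← mul_eq_one_iff_eq_inv.1 (sq y)]

theorem phi_comm {y : ℕ} (hy : [1, 2, 3, 4, 5, 6, 7, 9, 10].contains y = true) (h11 : y ≠ 11) (h3 : 1 ≤ y ∧ y ≤ 10) :
    phi (x y * zz * x y * zz) = 1 := by
  rw [map_mul, map_mul, map_mul, phi_zz, phi_x, f_ne h11]
  have := inv_comm (sq23 y h3) Z_sq (Z_comm y hy).symm
  rw [pow_two, ← mul_assoc] at this
  exact this

theorem comm7 {y : ℕ} (h : [2, 3, 4, 5, 6, 7, 9].contains y = true) : zz * x y = x y * zz := by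
  apply comm_of
  have hm := mem_Kl h
  refine i1 ((Kl _).mul_mem ((Kl _).mul_mem ((Kl _).mul_mem hm zz_mem) hm) zz_mem) ?_
  rw [List.contains_iff_mem] at h
  simp only [List.mem_cons, List.not_mem_nil, or_false] at h
  apply phi_comm
  · rcases h with rfl | rfl | rfl | rfl | rfl | rfl | rfl <;> decide
  · omega
  · omega

theorem comm10 : zz * x 10 = x 10 * zz := by
  apply comm_of
  have h := SpC1.word0 (x := ren x [0, 2, 3, 4, 5, 6, 7, 9, 10]) (H := (Kl [2, 3, 4, 5, 6, 7, 9]))
    (ren_hic hic (by decide +kernel)) h0 (ren_rels hrel (by decide +kernel)) (by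
      intro s hs
      simp only [SpC1.L, List.mem_cons, List.not_mem_nil, or_false] at hs
      rcases hs with rfl | rfl | rfl | rfl | rfl | rfl | rfl <;> exact mem_Kl (by decide))
  rw [ev_ren] at h
  have h2 : x 10 * zz * x 10 ∈ Kl [2, 3, 4, 5, 6, 7, 9] := by
    have e : ev x ([10] ++ w0 ++ [10]) = x 10 * zz * x 10 := by
      rw [ev_append, ev_append, ev_cons, ev_nil, mul_one]; rfl
    rw [← e]
    convert h using 2
    decide +kernel
  refine i1 ((Kl _).mul_mem h2 zz_mem) ?_
  exact phi_comm (by decide) (by decide) (by decide)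

/-- extended letters -/
noncomputable def X (y : ℕ) : SG := if y = 12 then zz else x y

theorem X12 : X 12 = zz := if_pos rfl
theorem X_ne {y : ℕ} (h : y ≠ 12) : X y = x y := if_neg h

theorem hrelX : ∀ w ∈ allrels, ev X w = 1 := by
  intro w hw
  have : (allrels.all fun w => w.all fun y => !(y == 12)) = true := by decide +kernel
  rw [List.all_eq_true] at this
  have h2 := this w hw
  rw [List.all_eq_true] at h2
  rw [ev_congr2 (v := x) (fun y hy => X_ne (by simpa using h2 y hy))]
  exact hrel w hw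

def icX : ℕ := 0xcba9876543210

theorem hicX : ∀ y, y < 16 → X (il icX y) = (X y)⁻¹ := by
  intro y hy
  by_cases h12 : y = 12
  · subst h12
    have : il icX 12 = 12 := by decide
    rw [this, X12]
    exact eq_inv_of_mul_eq_one_left zz_sq
  · have h1 : il icX y = il ic y := by
      interval_cases y <;> first | decide | exact absurd rfl h12
    have h2 : il ic y ≠ 12 := by
      interval_cases y <;> decide
    rw [h1, X_ne h2, X_ne h12]
    exact hic y hy

theorem X0 : X 0 = 1 := by rw [X_ne (by decide)]; exact h0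

theorem X_w0 : ev X w0 = zz := by
  rw [zz]
  apply ev_congr2
  have : (w0.all fun y => !(y == 12)) = true := by decide +kernel
  rw [List.all_eq_true] at this
  intro y hy
  exact X_ne (by simpa using this y hy)

theorem ev_zy {y : ℕ} (hy : y ≠ 12) (h : zz * x y = x y * zz) : ev X [12, y, 12, y] = 1 := by
  rw [ev_cons, ev_cons, ev_cons, ev_cons, ev_nil, mul_one, X12, X_ne hy]
  rw [show zz * (x y * (zz * x y)) = (zz * x y) * (zz * x y) by group]
  have := inv_comm zz_sq (sq y) h
  rw [pow_two] at this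
  exact this

/-- stage 2 -/
def L2 : List (List ℕ) := allrels ++ ((12 :: w0) :: [2, 3, 4, 5, 6, 7, 9, 10].map fun y => [12, y, 12, y])

theorem hL2 : ∀ w ∈ L2, ev X w = 1 := by
  intro w hw
  rw [L2, List.mem_append] at hw
  rcases hw with hw | hw
  · exact hrelX w hw
  · rw [List.mem_cons] at hw
    rcases hw with rfl | hw
    · rw [ev_cons, X_w0, X12, zz_sq]
    · rw [List.mem_map] at hw
      obtain ⟨y, hy, rfl⟩ := hw
      by_cases h10 : y = 10
      · subst h10; exact ev_zy (by decide) comm10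
      · simp only [List.mem_cons, List.not_mem_nil, or_false] at hy
        refine ev_zy (by omega) (comm7 ?_)
        rcases hy with rfl | rfl | rfl | rfl | rfl | rfl | rfl | rfl
        all_goals first | decide | exact absurd rfl h10

theorem XKl {l : List ℕ} {y : ℕ} (h : l.contains y = true) (h' : y ≠ 12) : X y ∈ Kl l := by
  rw [X_ne h']; exact mem_Kl h

theorem zz_mem' {l : List ℕ} (h : (w0.all fun y => l.contains y) = true) : zz ∈ Kl l := ev_mem h

theorem comm1 : zz * x 1 = x 1 * zz := by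
  apply comm_of
  have hz : zz ∈ Kl [2, 3, 4, 5, 6, 7, 9, 10] := zz_mem' (by decide +kernel)
  have h := SpC2.word0 (x := ren X [0, 1, 2, 3, 4, 5, 6, 7, 9, 10, 12]) (H := (Kl [2, 3, 4, 5, 6, 7, 9, 10]))
    (ren_hic hicX (by decide +kernel)) X0 (ren_rels hL2 (by decide +kernel)) (by
      intro s hs
      simp only [SpC2.L, List.mem_cons, List.not_mem_nil, or_false] at hs
      rcases hs with rfl | rfl | rfl | rfl | rfl | rfl | rfl | rfl | rfl
      all_goals first | exact XKl (by decide) (by decide) | (show X 12 ∈ _; rw [X12]; exact hz))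
  have h2 : x 1 * zz * x 1 ∈ Kl [2, 3, 4, 5, 6, 7, 9, 10] := by
    have e : ev (ren X [0, 1, 2, 3, 4, 5, 6, 7, 9, 10, 12]) [1, 10, 1] = x 1 * zz * x 1 := by
      rw [ev_ren]
      show ev X [1, 12, 1] = _
      rw [ev_cons, ev_cons, ev_cons, ev_nil, mul_one, X12, X_ne (by decide), mul_assoc]
    rw [← e]; exact h
  refine i2 ((Kl _).mul_mem h2 hz) ?_
  exact phi_comm (by decide) (by decide) (by decide)

/-- stage 3 -/
def L3 : List (List ℕ) := [12, 1, 12, 1] :: L2

theorem hL3 : ∀ w ∈ L3, ev X w = 1 := by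
  intro w hw
  rw [L3, List.mem_cons] at hw
  rcases hw with rfl | hw
  · exact ev_zy (by decide) comm1
  · exact hL2 w hw

theorem zj : (zz * x 8) ^ 3 = 1 := by
  have hz : zz ∈ Kl [1, 2, 3, 4, 5, 6, 7, 9, 10] := zz_mem' (by decide +kernel)
  have h := SpC3.word0 (x := ren X [0, 1, 2, 3, 4, 5, 6, 7, 8, 9, 10, 12]) (H := (Kl [1, 2, 3, 4, 5, 6, 7, 9, 10]))
    (ren_hic hicX (by decide +kernel)) X0 (ren_rels hL3 (by decide +kernel)) (by
      intro s hs
      simp only [SpC3.L, List.mem_cons, List.not_mem_nil, or_false] at hs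
      rcases hs with rfl | rfl | rfl | rfl | rfl | rfl | rfl | rfl | rfl | rfl
      all_goals first | exact XKl (by decide) (by decide) | (show X 12 ∈ _; rw [X12]; exact hz))
  have h2 : (zz * x 8) ^ 3 ∈ Kl [1, 2, 3, 4, 5, 6, 7, 9, 10] := by
    have e : ev (ren X [0, 1, 2, 3, 4, 5, 6, 7, 8, 9, 10, 12]) [11, 8, 11, 8, 11, 8] = (zz * x 8) ^ 3 := by
      rw [ev_ren]
      show ev X [12, 8, 12, 8, 12, 8] = _
      simp only [ev_cons, ev_nil, mul_one, X12, X_ne (show (8 : ℕ) ≠ 12 by decide), pow_succ, pow_zero, one_mul, mul_assoc]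
    rw [← e]; exact h
  refine i3 h2 ?_ ?_
  · rw [map_pow, map_mul, phi_zz, phi_x, f_ne (by decide)]
    exact pow_swap _ _ _ Z_j
  · rw [map_pow, map_mul, eps_zz, eps_x]
    decide

theorem comm11 : zz * x 11 = x 11 * zz := by
  have key : ∀ w : List ℕ, (∀ y ∈ w, x y * x 11 = x 11 * x y) → ev x w * x 11 = x 11 * ev x w := by
    intro w
    induction w with
    | nil => intro _; simp
    | cons y w ih =>
      intro h
      rw [ev_cons, mul_assoc, ih (fun z hz => h z (by simp [hz])), ← mul_assoc, h y (by simp), mul_assoc]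
  apply key
  intro y hy
  have h1 : (w0.all fun y => allrels.contains (coxW y 11 2)) = true := by decide +kernel
  rw [List.all_eq_true] at h1
  have h2 := h1 y hy
  rw [List.contains_iff_mem] at h2
  have h3 := hrel _ h2
  rw [ev_coxW, pow_two] at h3
  have h4 : x y * x 11 = (x y * x 11)⁻¹ := mul_eq_one_iff_eq_inv.1 h3
  rw [h4, mul_inv_rev, ← mul_eq_one_iff_eq_inv.1 (sq 11), ← mul_eq_one_iff_eq_inv.1 (sq y)]

/-- stage 4 -/
def L4 : List (List ℕ) := [11, 9, 11, 9] :: [11, 10, 11, 10] :: [12, 11, 12, 11] :: [12, 8, 12, 8, 12, 8] :: L3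

theorem hL4 : ∀ w ∈ L4, ev X w = 1 := by
  intro w hw
  rw [L4, List.mem_cons, List.mem_cons, List.mem_cons, List.mem_cons] at hw
  rcases hw with rfl | rfl | rfl | rfl | hw
  · have h1 := hrelX (coxW 9 11 2) (by decide +kernel)
    rw [ev_coxW] at h1
    have h2 := pow_swap _ _ _ h1
    rw [← ev_coxW] at h2
    exact h2
  · have h1 := hrelX (coxW 10 11 2) (by decide +kernel)
    rw [ev_coxW] at h1
    have h2 := pow_swap _ _ _ h1
    rw [← ev_coxW] at h2
    exact h2
  · exact ev_zy (by decide) comm11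
  · have := zj
    simp only [ev_cons, ev_nil, mul_one, X12, X_ne (show (8 : ℕ) ≠ 12 by decide)]
    simpa only [pow_succ, pow_zero, one_mul, mul_assoc] using this
  · exact hL3 w hw

theorem main0 : x 11 = zz := by
  have hz : zz ∈ Kl [1, 2, 3, 4, 5, 6, 7, 9, 10] := zz_mem' (by decide +kernel)
  have h := SpC4.word0 (x := ren X [0, 1, 2, 3, 4, 5, 6, 7, 8, 11, 9, 10, 12]) (H := (Kl [1, 2, 3, 4, 5, 6, 7, 9, 10]))
    (ren_hic hicX (by decide +kernel)) X0 (ren_rels hL4 (by decide +kernel)) (by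
      intro s hs
      simp only [SpC4.L, List.mem_cons, List.not_mem_nil, or_false] at hs
      rcases hs with rfl | rfl | rfl | rfl | rfl | rfl | rfl | rfl | rfl | rfl
      all_goals first | exact XKl (by decide) (by decide) | (show X 12 ∈ _; rw [X12]; exact hz))
  have h2 : x 11 ∈ Kl [1, 2, 3, 4, 5, 6, 7, 9, 10] := by
    have e : ev (ren X [0, 1, 2, 3, 4, 5, 6, 7, 8, 11, 9, 10, 12]) [9] = x 11 := by
      rw [ev_ren]
      show ev X [11] = _
      rw [ev_cons, ev_nil, mul_one, X_ne (by decide)]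
    rw [← e]; exact h
  have h3 : x 11 * zz = 1 := by
    refine i3 ((Kl _).mul_mem h2 hz) ?_ ?_
    · rw [map_mul, phi_zz, phi_x, show f 11 = Z from if_pos rfl, Z_sq]
    · rw [map_mul, eps_zz, eps_x]; decide
  rw [mul_eq_one_iff_eq_inv.1 h3]
  exact (mul_eq_one_iff_eq_inv.1 zz_sq).symm

theorem main1 : x 11 = ev x w1 := by
  have h : ev x w1 * zz = 1 := by
    refine i2 ((Kl _).mul_mem (ev_mem (l := [2, 3, 4, 5, 6, 7, 9, 10]) (by decide +kernel)) (zz_mem' (by decide +kernel))) ?_
    rw [map_mul, phi_zz, phi_ev (ne11_of (by decide +kernel)), Z_w1, Z_sq]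
  rw [main0, mul_eq_one_iff_eq_inv.1 h]
  exact mul_eq_one_iff_eq_inv.1 zz_sq

/-- in any group the relations imply the E7 relations -/
theorem final {K : Type*} [Group K] (u : ℕ → K) (h : ∀ w ∈ allrels, ev u w = 1) :
    u 11 = ev u w0 ∧ u 11 = ev u w1 := by
  classical
  let v : ℕ → K := fun y => if y = 0 ∨ 12 ≤ y then 1 else u y
  have hlt : (allrels.all fun w => w.all fun y => Nat.ble 1 y && Nat.ble y 11) = true := by decide +kernel
  have hv : ∀ w : List ℕ, (w.all fun y => Nat.ble 1 y && Nat.ble y 11) = true → ev v w = ev u w := by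
    intro w hw
    rw [List.all_eq_true] at hw
    apply ev_congr2
    intro y hy
    have := hw y hy
    rw [Bool.and_eq_true] at this
    have h1 := Nat.le_of_ble_eq_true this.1
    have h2 := Nat.le_of_ble_eq_true this.2
    exact if_neg (by omega)
  obtain ⟨φ, hφ⟩ := exists_hom' v (by
    intro w hw
    rw [List.all_eq_true] at hlt
    rw [hv w (hlt w hw)]
    exact h w hw) (fun y hy => if_pos hy)
  have hφ' : (fun y => φ (x y)) = v := funext hφ
  have hu : v 11 = u 11 := if_neg (by decide)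
  constructor
  · have := congrArg φ main0
    rw [zz, map_ev, hφ, hφ', hu, hv w0 (by decide +kernel)] at this
    exact this
  · have := congrArg φ main1
    rw [map_ev, hφ, hφ', hu, hv w1 (by decide +kernel)] at this
    exact this

end Cfsg.Agent.H28.Sp
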