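import Cfsg.Agent.H28_SpW

/-! Word checks in the 31671-point action. -/

set_option autoImplicit false
set_option maxRecDepth 1000000

namespace Cfsg.Agent.H28.SpN

open Cfsg.Agent.H8 Cfsg.Agent.H8.CE Cfsg.Agent.H8.Net Cfsg.Agent.H8.Act Cfsg.Agent.H8.Act4 Cfsg.Agent.H8.Act5

theorem c0 : eqR Fi23A.L (nat_lit 31671) (nat_lit 15) [(w0 ++ w0, [])] (nat_lit 0) (nat_lit 15) = true := by decide +kernel

theorem c1 : eqR Fi23A.L (nat_lit 31671) (nat_lit 15) [(w0 ++ [1], [1] ++ w0)] (nat_lit 0) (nat_lit 15) = true := by decide +kernel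

theorem c2 : eqR Fi23A.L (nat_lit 31671) (nat_lit 15) [(w0 ++ [2], [2] ++ w0)] (nat_lit 0) (nat_lit 15) = true := by decide +kernel

theorem c3 : eqR Fi23A.L (nat_lit 31671) (nat_lit 15) [(w0 ++ [3], [3] ++ w0)] (nat_lit 0) (nat_lit 15) = true := by decide +kernel

end Cfsg.Agent.H28.SpN
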