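import Cfsg.Agent.H8_Fi23A_L

/-! Words checked in the 31671-point action. -/

set_option autoImplicit false
set_option maxRecDepth 1000000

namespace Cfsg.Agent.H28.SpN

open Cfsg.Agent.H8 Cfsg.Agent.H8.CE Cfsg.Agent.H8.Net Cfsg.Agent.H8.Act Cfsg.Agent.H8.Act4 Cfsg.Agent.H8.Act5

/-- the Coxeter word of type E7 -/
def w0 : List ℕ := powW [2, 3, 4, 5, 6, 7, 9] 9
/-- the other one -/
def w1 : List ℕ := powW [3, 4, 5, 6, 7, 9, 10] 9

end Cfsg.Agent.H28.SpN
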