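import Cfsg.Agent.H28_XR

set_option autoImplicit false
set_option linter.all false
open Cfsg
open scoped commutatorElement

namespace Cfsg.Agent.H28.Large

open Cfsg.Agent.H28.Xsp

variable {G : Type*} [Group G] [Finite G]

namespace XR

variable {Q Q' : Subgroup G} {z x g : G}

theorem realize (S : XR Q Q' z x g) {a b : G} (h1 : a = x ∨ a = z ∨ a = z * x)
    (h2 : b = x ∨ b = z ∨ b = z * x) (hab : a ≠ b) :
    ∃ u ∈ Q ⊔ Q', u * z * u⁻¹ = a ∧ u * x * u⁻¹ = b := by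
  obtain ⟨q, hq, hqx⟩ := S.exists_q
  obtain ⟨y, hy, hyz⟩ := S.exists_y
  have hqX : q ∈ Q ⊔ Q' := Subgroup.mem_sup_left hq
  have hyX : y ∈ Q ⊔ Q' := Subgroup.mem_sup_right hy
  have hqz := S.q_z hq
  have hyx := S.y_x hy
  have hqzx : q * (z * x) * q⁻¹ = x := by
    calc q * (z * x) * q⁻¹ = (q * z * q⁻¹) * (q * x * q⁻¹) := by group
      _ = x := by rw [hqz, hqx, ← mul_assoc, S.h.sq, one_mul]
  have hyzx : y * (z * x) * y⁻¹ = z := by
    calc y * (z * x) * y⁻¹ = (y * z * y⁻¹) * (y * x * y⁻¹) := by group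
      _ = z := by rw [hyz, hyx, mul_assoc, S.h'.sq, mul_one]
  rcases h1 with h1 | h1 | h1
  · rcases h2 with h2 | h2 | h2
    · exact absurd (h1.trans h2.symm) hab
    · refine ⟨q * y * q, mul_mem (mul_mem hqX hyX) hqX, ?_, ?_⟩
      · rw [h1]
        calc q * y * q * z * (q * y * q)⁻¹ = q * (y * (q * z * q⁻¹) * y⁻¹) * q⁻¹ := by group
          _ = x := by rw [hqz, hyz, hqzx]
      · rw [h2]
        calc q * y * q * x * (q * y * q)⁻¹ = q * (y * (q * x * q⁻¹) * y⁻¹) * q⁻¹ := by group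
          _ = z := by rw [hqx, hyzx, hqz]
    · refine ⟨q * y, mul_mem hqX hyX, ?_, ?_⟩
      · rw [h1]
        calc q * y * z * (q * y)⁻¹ = q * (y * z * y⁻¹) * q⁻¹ := by group
          _ = x := by rw [hyz, hqzx]
      · rw [h2]
        calc q * y * x * (q * y)⁻¹ = q * (y * x * y⁻¹) * q⁻¹ := by group
          _ = z * x := by rw [hyx, hqx]
  · rcases h2 with h2 | h2 | h2
    · refine ⟨1, one_mem _, ?_, ?_⟩
      · rw [h1]; group
      · rw [h2]; group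
    · exact absurd (h1.trans h2.symm) hab
    · exact ⟨q, hqX, by rw [h1, hqz], by rw [h2, hqx]⟩
  · rcases h2 with h2 | h2 | h2
    · exact ⟨y, hyX, by rw [h1, hyz], by rw [h2, hyx]⟩
    · refine ⟨y * q, mul_mem hyX hqX, ?_, ?_⟩
      · rw [h1]
        calc y * q * z * (y * q)⁻¹ = y * (q * z * q⁻¹) * y⁻¹ := by group
          _ = z * x := by rw [hqz, hyz]
      · rw [h2]
        calc y * q * x * (y * q)⁻¹ = y * (q * x * q⁻¹) * y⁻¹ := by group
          _ = z := by rw [hqx, hyzx]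
    · exact absurd (h1.trans h2.symm) hab

/-- `V \ {1}` as a type. -/
abbrev T3 (z x : G) : Type _ := {v : G // v = x ∨ v = z ∨ v = z * x}

theorem zx_ne (S : XR Q Q' z x g) : z * x ≠ 1 ∧ z * x ≠ x ∧ z * x ≠ z := by
  refine ⟨?_, ?_, ?_⟩
  · intro h
    apply S.hxz
    rw [eq_inv_of_mul_eq_one_right h]; exact S.h.zinv
  · intro h; exact S.h.ne ((mul_eq_right (a := z)).mp h)
  · intro h; exact S.h'.ne ((mul_eq_left (b := x)).mp h)

theorem card_T3 (S : XR Q Q' z x g) : Nat.card (T3 z x) = 3 := by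
  classical
  obtain ⟨h1, h2, h3⟩ := S.zx_ne
  have h4 := S.hxz
  have : (T3 z x) = {v : G // v ∈ ({x, z, z * x} : Finset G)} := by
    simp only [T3, Finset.mem_insert, Finset.mem_singleton]
  rw [this, Nat.card_eq_fintype_card, Fintype.card_coe]
  rw [Finset.card_insert_of_notMem, Finset.card_insert_of_notMem, Finset.card_singleton]
  · simp [h3.symm]
  · simp [h4, h2.symm]

theorem conj_T3 (S : XR Q Q' z x g) {n v : G}
    (hn : n ∈ Subgroup.normalizer ((V z x : Subgroup G) : Set G)) (hv : v = x ∨ v = z ∨ v = z * x) :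
    n * v * n⁻¹ = x ∨ n * v * n⁻¹ = z ∨ n * v * n⁻¹ = z * x := by
  have hvV : v ∈ V z x := S.mem_V.mpr (Or.inr hv)
  have h1 := S.mem_V.mp ((Subgroup.mem_normalizer_iff.mp hn v).mp hvV)
  rcases h1 with h1 | h1
  · exfalso
    have h2 : v = 1 := by
      rw [mul_inv_eq_iff_eq_mul, one_mul] at h1
      exact (mul_eq_left (a := n)).mp h1
    obtain ⟨h3, _, _⟩ := S.zx_ne
    rcases hv with hv | hv | hv
    · exact S.h'.ne (hv.symm.trans h2)
    · exact S.h.ne (hv.symm.trans h2)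
    · exact h3 (hv.symm.trans h2)
  · exact h1

/-- the action of `X` on `V \ {1}`. -/
def rho (S : XR Q Q' z x g) : ↥(Q ⊔ Q') →* Equiv.Perm (T3 z x) where
  toFun n :=
    { toFun := fun v => ⟨(n : G) * v * (n : G)⁻¹, S.conj_T3 (S.X_le_NV n.2) v.2⟩
      invFun := fun v => ⟨(n : G)⁻¹ * v * (n : G), by
        have := S.conj_T3 (S.X_le_NV (inv_mem n.2)) v.2
        simpa using this⟩
      left_inv := fun v => by
        apply Subtype.ext
        show (n : G)⁻¹ * ((n : G) * v * (n : G)⁻¹) * (n : G) = v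
        group
      right_inv := fun v => by
        apply Subtype.ext
        show (n : G) * ((n : G)⁻¹ * v * (n : G)) * (n : G)⁻¹ = v
        group }
  map_one' := by
    ext v
    show ((1 : ↥(Q ⊔ Q')) : G) * v * ((1 : ↥(Q ⊔ Q')) : G)⁻¹ = v
    simp
  map_mul' a b := by
    ext v
    show ((a * b : ↥(Q ⊔ Q')) : G) * v * ((a * b : ↥(Q ⊔ Q')) : G)⁻¹ = (a : G) * ((b : G) * v * (b : G)⁻¹) * (a : G)⁻¹
    simp only [Subgroup.coe_mul]
    group

theorem rho_ker (S : XR Q Q' z x g) : S.rho.ker = (R Q Q' z x).subgroupOf (Q ⊔ Q') := by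
  ext n
  rw [MonoidHom.mem_ker, Subgroup.mem_subgroupOf, S.X_inf_CV, Subgroup.mem_inf]
  constructor
  · intro h
    refine ⟨n.2, ?_⟩
    rw [S.mem_CV]
    have h1 := congrArg Subtype.val (Equiv.congr_fun h ⟨x, Or.inl rfl⟩)
    have h2 := congrArg Subtype.val (Equiv.congr_fun h ⟨z, Or.inr (Or.inl rfl)⟩)
    exact ⟨mul_inv_eq_iff_eq_mul.mp h1, mul_inv_eq_iff_eq_mul.mp h2⟩
  · rintro ⟨_, hn⟩
    ext v
    show (n : G) * v * (n : G)⁻¹ = v
    rw [mul_inv_eq_iff_eq_mul]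
    have hv : (v : G) ∈ V z x := S.mem_V.mpr (Or.inr v.2)
    exact (Subgroup.mem_centralizer_iff.mp hn v hv).symm

theorem rho_surj (S : XR Q Q' z x g) : Function.Surjective S.rho := by
  intro σ
  have hne : σ ⟨z, Or.inr (Or.inl rfl)⟩ ≠ σ ⟨x, Or.inl rfl⟩ := by
    intro h
    exact S.hxz (congrArg Subtype.val (σ.injective h)).symm
  obtain ⟨u, hu, h1, h2⟩ := S.realize (σ ⟨z, Or.inr (Or.inl rfl)⟩).2 (σ ⟨x, Or.inl rfl⟩).2
    (fun h => hne (Subtype.ext h))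
  refine ⟨⟨u, hu⟩, ?_⟩
  have e1 : S.rho ⟨u, hu⟩ ⟨z, Or.inr (Or.inl rfl)⟩ = σ ⟨z, Or.inr (Or.inl rfl)⟩ := Subtype.ext h1
  have e2 : S.rho ⟨u, hu⟩ ⟨x, Or.inl rfl⟩ = σ ⟨x, Or.inl rfl⟩ := Subtype.ext h2
  have e3 : S.rho ⟨u, hu⟩ ⟨z * x, Or.inr (Or.inr rfl)⟩ = σ ⟨z * x, Or.inr (Or.inr rfl)⟩ := by
    -- the remaining value
    obtain ⟨k1, k2, k3⟩ := S.zx_ne
    have n1 : (⟨z * x, Or.inr (Or.inr rfl)⟩ : T3 z x) ≠ ⟨x, Or.inl rfl⟩ := fun h => k2 (congrArg Subtype.val h)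
    have n2 : (⟨z * x, Or.inr (Or.inr rfl)⟩ : T3 z x) ≠ ⟨z, Or.inr (Or.inl rfl)⟩ := fun h => k3 (congrArg Subtype.val h)
    by_contra hcon
    -- σ surjective: rho(zx) = σ w for some w
    obtain ⟨w, hw⟩ := σ.surjective (S.rho ⟨u, hu⟩ ⟨z * x, Or.inr (Or.inr rfl)⟩)
    rcases w with ⟨w, hw'⟩
    rcases hw' with hw' | hw' | hw'
    · subst hw'
      rw [← e2] at hw
      exact n1 ((S.rho ⟨u, hu⟩).injective hw).symm
    · subst hw'
      rw [← e1] at hw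
      exact n2 ((S.rho ⟨u, hu⟩).injective hw).symm
    · subst hw'
      exact hcon hw.symm
  ext v
  rcases v with ⟨v, hv | hv | hv⟩
  · subst hv; rw [e2]
  · subst hv; rw [e1]
  · subst hv; rw [e3]

set_option maxRecDepth 4000 in
theorem perm3 : ∀ σ : Equiv.Perm (Fin 3), σ ≠ 1 → ∃ τ : Equiv.Perm (Fin 3),
    (σ * (τ * σ * τ⁻¹)) ^ 3 = 1 ∧ σ * (τ * σ * τ⁻¹) ≠ 1 := by decide

/-- transport to `Perm (Fin 3)`. -/
theorem exists_hom (S : XR Q Q' z x g) : ∃ f : ↥(Q ⊔ Q') →* Equiv.Perm (Fin 3),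
    Function.Surjective f ∧ f.ker = (R Q Q' z x).subgroupOf (Q ⊔ Q') := by
  have h1 := S.card_T3
  have hfin : Finite (T3 z x) := inferInstance
  have e : T3 z x ≃ Fin 3 := by
    have := Finite.equivFin (T3 z x)
    rwa [h1] at this
  refine ⟨(e.permCongrHom : Equiv.Perm (T3 z x) ≃* Equiv.Perm (Fin 3)).toMonoidHom.comp S.rho, ?_, ?_⟩
  · exact (e.permCongrHom : Equiv.Perm (T3 z x) ≃* Equiv.Perm (Fin 3)).surjective.comp S.rho_surj
  · rw [← S.rho_ker]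
    ext n
    rw [MonoidHom.mem_ker, MonoidHom.mem_ker, MonoidHom.comp_apply]
    constructor
    · intro h
      have : (e.permCongrHom : Equiv.Perm (T3 z x) ≃* Equiv.Perm (Fin 3)) (S.rho n) = 1 := h
      rwa [map_eq_one_iff _ (MulEquiv.injective _)] at this
    · intro h
      rw [h, map_one]

theorem R_eq_pCore (S : XR Q Q' z x g) :
    R Q Q' z x = (Cfsg.pCore 2 ↥(Q ⊔ Q' : Subgroup G)).map (Q ⊔ Q' : Subgroup G).subtype := by
  have : Fact (Nat.Prime 2) := ⟨Nat.prime_two⟩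
  obtain ⟨f, hf, hk⟩ := S.exists_hom
  have hRn : ((R Q Q' z x).subgroupOf (Q ⊔ Q')).Normal := by rw [← hk]; infer_instance
  have hRp : IsPGroup 2 ((R Q Q' z x).subgroupOf (Q ⊔ Q')) :=
    S.R_isPGroup.comap_of_injective _ (Subgroup.subtype_injective _)
  apply le_antisymm
  · intro r hr
    have h1 := H1.Nilp.le_pCore hRn hRp
    exact ⟨⟨r, R_le_X hr⟩, h1 (Subgroup.mem_subgroupOf.mpr hr), rfl⟩
  · rintro _ ⟨n, hn, rfl⟩
    have hn' : n ∈ Cfsg.pCore 2 ↥(Q ⊔ Q' : Subgroup G) := hn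
    have hnorm : (Cfsg.pCore 2 ↥(Q ⊔ Q' : Subgroup G)).Normal := H1.Nilp.pCore_normal 2
    have hp : IsPGroup 2 (Cfsg.pCore 2 ↥(Q ⊔ Q' : Subgroup G)) := H1.Nilp.pCore_isPGroup 2
    by_contra hcon
    have h1 : f n ≠ 1 := by
      intro h
      apply hcon
      have : n ∈ f.ker := h
      rw [hk, Subgroup.mem_subgroupOf] at this
      exact this
    obtain ⟨τ, h2, h3⟩ := perm3 (f n) h1
    obtain ⟨t, rfl⟩ := hf τ
    have h4 : n * (t * n * t⁻¹) ∈ Cfsg.pCore 2 ↥(Q ⊔ Q' : Subgroup G) :=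
      mul_mem hn' (hnorm.conj_mem n hn' t)
    obtain ⟨k, hk'⟩ := hp ⟨_, h4⟩
    have h5 : (n * (t * n * t⁻¹)) ^ 2 ^ k = 1 := congrArg Subtype.val hk'
    apply h3
    have h6 : f (n * (t * n * t⁻¹)) = f n * (f t * f n * (f t)⁻¹) := by simp
    have h7 : (f n * (f t * f n * (f t)⁻¹)) ^ 2 ^ k = 1 := by
      rw [← h6, ← map_pow, h5, map_one]
    rw [← orderOf_dvd_iff_pow_eq_one] at h2 h7
    have h8 : Nat.Coprime 3 (2 ^ k) := Nat.Coprime.pow_right k (by norm_num)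
    have h9 := Nat.Coprime.eq_one_of_dvd (Nat.Coprime.coprime_dvd_left h2 h8) h7
    rwa [orderOf_eq_one_iff] at h9

end XR

end Cfsg.Agent.H28.Large
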