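import Mathlib
import Cfsg.Agent.H28_Xsp
import Cfsg.Agent.H16_Quad5
import Cfsg.Prelude.Def_Transfer

set_option autoImplicit false

/-! Construction of extraspecial 2-groups from quadratic forms over the field with two elements. -/

namespace Cfsg.Agent.H28.XspC

open Cfsg Cfsg.Agent Cfsg.Agent.H28 Module

variable {W : Type} [AddCommGroup W] [Module (ZMod 2) W]

/-- the extension of `W` by the field with two elements with cocycle `β` -/
@[ext] structure XG (β : W →ₗ[ZMod 2] W →ₗ[ZMod 2] ZMod 2) where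
  v : W
  s : ZMod 2

variable {β : W →ₗ[ZMod 2] W →ₗ[ZMod 2] ZMod 2}

instance : Mul (XG β) := ⟨fun x y => ⟨x.v + y.v, x.s + y.s + β x.v y.v⟩⟩
instance : One (XG β) := ⟨⟨0, 0⟩⟩
instance : Inv (XG β) := ⟨fun x => ⟨-x.v, -x.s + β x.v x.v⟩⟩

@[simp] theorem mul_v (x y : XG β) : (x * y).v = x.v + y.v := rfl
@[simp] theorem mul_s (x y : XG β) : (x * y).s = x.s + y.s + β x.v y.v := rfl
@[simp] theorem one_v : (1 : XG β).v = 0 := rfl
@[simp] theorem one_s : (1 : XG β).s = 0 := rfl
@[simp] theorem inv_v (x : XG β) : (x⁻¹).v = -x.v := rfl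
@[simp] theorem inv_s (x : XG β) : (x⁻¹).s = -x.s + β x.v x.v := rfl

instance : Group (XG β) := Group.ofLeftAxioms
  (by
    intro x y z
    ext
    · simp [add_assoc]
    · simp; ring)
  (by intro x; ext <;> simp)
  (by
    intro x
    ext
    · simp
    · have key : ∀ a b : ZMod 2, -a + b + a + -b = 0 := by decide
      rw [mul_s, inv_s, inv_v, map_neg, LinearMap.neg_apply]; exact key _ _)

def eqv (β : W →ₗ[ZMod 2] W →ₗ[ZMod 2] ZMod 2) : XG β ≃ W × ZMod 2 where
  toFun x := (x.v, x.s)
  invFun p := ⟨p.1, p.2⟩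
  left_inv _ := rfl
  right_inv _ := rfl

instance [Finite W] : Finite (XG β) := Finite.of_equiv _ (eqv β).symm

def zz : XG β := ⟨0, 1⟩

theorem z2 : ∀ a : ZMod 2, a = 0 ∨ a = 1 := by decide
theorem z2' : ∀ a b : ZMod 2, a = b ∨ a = 1 + b := by decide

theorem vv (u : W) : u + u = 0 := by
  have : (2 : ZMod 2) • u = u + u := two_smul _ _
  rw [← this, show (2 : ZMod 2) = 0 from rfl, zero_smul]

theorem xsp (hnd : ∀ u : W, (∀ v, β u v = β v u) → u = 0) : Xsp.Xsp (⊤ : Subgroup (XG β)) zz := by
  refine ⟨trivial, ?_, ?_, ?_, ?_, ?_, ?_⟩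
  · intro h; have := congrArg XG.s h; simp [zz] at this
  · ext
    · simp [zz]
    · simp [zz]; decide
  · intro x _
    ext
    · simp [zz]
    · simp [zz]; ring
  · intro x _ y _
    rcases z2' (β x.v y.v) (β y.v x.v) with h | h
    · left
      ext
      · simp [add_comm]
      · simp [h, add_comm]
    · right
      ext
      · simp [zz, add_comm]
      · simp [zz, h]; ring
  · intro x _
    rcases z2 (β x.v x.v) with h | h
    · left
      ext
      · simp [vv]
      · simp [h, vv]
    · right
      ext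
      · simp [zz, vv]
      · simp [zz, h, vv]
  · intro x _ hx
    have hv : x.v = 0 := by
      apply hnd
      intro v
      have := congrArg XG.s (hx ⟨v, 0⟩ trivial)
      simpa using this
    rcases z2 x.s with h | h
    · left; ext
      · exact hv
      · exact h
    · right; ext
      · exact hv
      · exact h

theorem card_XG [Finite W] [FiniteDimensional (ZMod 2) W] : Nat.card (XG β) = 2 ^ (finrank (ZMod 2) W + 1) := by
  rw [Nat.card_congr (eqv β), Nat.card_prod, Module.natCard_eq_pow_finrank (K := ZMod 2) (V := W), Nat.card_zmod, pow_succ]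


open Cfsg.Agent.H16.Quad

theorem polar_beta {Q : QuadraticForm (ZMod 2) W} (hβ : ∀ v, β v v = Q v) (u v : W) :
    QuadraticMap.polar Q u v = β u v + β v u := by
  unfold QuadraticMap.polar
  rw [← hβ, ← hβ, ← hβ]; simp; ring

/-- the subgroup over a subspace -/
def ovr (U : Submodule (ZMod 2) W) : Subgroup (XG β) where
  carrier := {x | x.v ∈ U}
  mul_mem' := by intro x y hx hy; exact U.add_mem hx hy
  one_mem' := U.zero_mem
  inv_mem' := by intro x hx; exact U.neg_mem hx

theorem card_ovr [FiniteDimensional (ZMod 2) W] (U : Submodule (ZMod 2) W) :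
    Nat.card (ovr (β := β) U) = 2 ^ (finrank (ZMod 2) U + 1) := by
  have e : ovr (β := β) U ≃ U × ZMod 2 :=
    { toFun := fun x => (⟨x.1.v, x.2⟩, x.1.s)
      invFun := fun p => ⟨⟨p.1, p.2⟩, p.1.2⟩
      left_inv := fun _ => rfl
      right_inv := fun _ => rfl }
  haveI : Finite U := Module.finite_of_finite (ZMod 2)
  rw [Nat.card_congr e, Nat.card_prod, Module.natCard_eq_pow_finrank (K := ZMod 2) (V := U), Nat.card_zmod, pow_succ]

theorem main [FiniteDimensional (ZMod 2) W] (Q : QuadraticForm (ZMod 2) W) (hQ : (QuadraticMap.polarBilin Q).Nondegenerate)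
    {n w : ℕ} (hn : 1 ≤ n) (hdim : finrank (ZMod 2) W = 2 * n)
    (hU : ∃ U : Submodule (ZMod 2) W, (∀ u ∈ U, Q u = 0) ∧ finrank (ZMod 2) U = w)
    (hle : ∀ U : Submodule (ZMod 2) W, (∀ u ∈ U, Q u = 0) → finrank (ZMod 2) U ≤ w) :
    ∃ (E : Type) (_ : Group E) (_ : Finite E), Cfsg.IsExtraspecial 2 E ∧ Nat.card E = 2 ^ (2 * n + 1) ∧
      sSup {k : ℕ | ∃ A : Subgroup E, Cfsg.IsElementaryAbelian 2 A ∧ Nat.card A = 2 ^ k} = w + 1 := by
  obtain ⟨β, hβ⟩ := LinearMap.BilinMap.toQuadraticMap_surjective (R := ZMod 2) (M := W) (N := ZMod 2) Q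
  have hβ' : ∀ v, β v v = Q v := by intro v; rw [← hβ]; rfl
  haveI : Finite W := Module.finite_of_finite (ZMod 2)
  have hpol := polar_beta hβ'
  have hnd : ∀ u : W, (∀ v, β u v = β v u) → u = 0 := by
    intro u hu
    apply nd_eq_zero hQ
    intro v
    rw [hpol, hu]
    have : ∀ a : ZMod 2, a + a = 0 := by decide
    exact this _
  have hx := xsp hnd
  refine ⟨XG β, inferInstance, inferInstance, ?_, ?_, ?_⟩
  · apply hx.isExtraspecial_top
    haveI : Nontrivial W := Module.nontrivial_of_finrank_pos (R := ZMod 2) (by rw [hdim]; omega)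
    obtain ⟨u, hu⟩ := exists_ne (0 : W)
    by_contra hcon
    push Not at hcon
    apply hu
    apply hnd
    intro v
    have := congrArg XG.s (hcon ⟨u, 0⟩ ⟨v, 0⟩)
    simpa using this
  · rw [card_XG, hdim]
  · apply IsGreatest.csSup_eq
    constructor
    · obtain ⟨U, hU, hUw⟩ := hU
      refine ⟨ovr U, ⟨?_, ?_⟩, by rw [card_ovr, hUw]⟩
      · refine ⟨⟨?_⟩⟩
        rintro ⟨x, hxU⟩ ⟨y, hyU⟩
        apply Subtype.ext
        have h1 : β x.v y.v = β y.v x.v := by
          have h2 := hpol x.v y.v
          have h3 : QuadraticMap.polar Q x.v y.v = 0 := by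
            unfold QuadraticMap.polar
            rw [hU _ (U.add_mem hxU hyU), hU _ hxU, hU _ hyU]; simp
          rw [h3] at h2
          have : ∀ a b : ZMod 2, 0 = a + b → a = b := by decide
          exact this _ _ h2
        ext
        · exact add_comm _ _
        · show x.s + y.s + β x.v y.v = y.s + x.s + β y.v x.v
          rw [h1, add_comm x.s]
      · rintro x hxU
        rw [pow_two]
        ext
        · exact vv _
        · show x.s + x.s + β x.v x.v = 0
          rw [hβ', hU _ hxU]
          have : ∀ a : ZMod 2, a + a + 0 = 0 := by decide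
          exact this _
    · rintro k ⟨A, hA, hAk⟩
      let U : Submodule (ZMod 2) W :=
        { carrier := {u | ∃ s, (⟨u, s⟩ : XG β) ∈ A}
          add_mem' := by
            rintro u v ⟨s, hs⟩ ⟨t, ht⟩
            exact ⟨_, A.mul_mem hs ht⟩
          zero_mem' := ⟨0, A.one_mem⟩
          smul_mem' := by
            rintro c u ⟨s, hs⟩
            rcases z2 c with rfl | rfl
            · rw [zero_smul]; exact ⟨0, A.one_mem⟩
            · rw [one_smul]; exact ⟨s, hs⟩ }
      have hUts : ∀ u ∈ U, Q u = 0 := by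
        rintro u ⟨s, hs⟩
        have h1 := congrArg XG.s (hA.2 _ hs)
        rw [pow_two] at h1
        have h2 : s + s + β u u = 0 := h1
        rw [hβ'] at h2
        have : ∀ a b : ZMod 2, a + a + b = 0 → b = 0 := by decide
        exact this _ _ h2
      have hAU : A ≤ ovr U := by
        intro x hx
        exact ⟨x.s, hx⟩
      have h1 := Nat.card_le_card_of_injective _ (Subgroup.inclusion_injective hAU)
      rw [hAk, card_ovr] at h1
      have h2 := (Nat.pow_le_pow_iff_right (by norm_num : 1 < 2)).1 h1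
      have h3 := hle U hUts
      omega

end Cfsg.Agent.H28.XspC
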