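import Mathlib
import Cfsg.Agent.H29_Trv2
import Cfsg.Prelude.Def_GeometricClasses

set_option autoImplicit false

/-! transport of geometric classes along bijections of index types -/

namespace Cfsg.Agent.H29.Rx

open Matrix Module Cfsg.Geo Cfsg.Agent.H29.Trv
open scoped Kronecker commutatorElement

variable {F : Type*} [Field F] {ι κ : Type} [Fintype ι] [DecidableEq ι] [Fintype κ] [DecidableEq κ] (e : ι ≃ κ)

/-- coordinates -/
def L : (ι → F) ≃ₗ[F] (κ → F) := LinearEquiv.funCongrLeft F F e.symm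

theorem L_apply (v : ι → F) (j : κ) : L e v j = v (e.symm j) := rfl

theorem L_symm (v : κ → F) : (L e).symm v = L e.symm v := rfl

theorem L_L (v : ι → F) : L e.symm (L e v) = v := (L e).symm_apply_apply v

theorem L_L' (v : κ → F) : L e (L e.symm v) = v := (L e).apply_symm_apply v

/-- matrices -/
def rM : Matrix ι ι F ≃ₐ[F] Matrix κ κ F := Matrix.reindexAlgEquiv F F e

theorem rM_symm (M : Matrix κ κ F) : (rM e).symm M = rM e.symm M := rfl

theorem rM_rM (M : Matrix ι ι F) : rM e.symm (rM e M) = M := (rM e).symm_apply_apply M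

theorem rM_rM' (M : Matrix κ κ F) : rM e (rM e.symm M) = M := (rM e).apply_symm_apply M

theorem actM (M : Matrix ι ι F) (v : ι → F) : (rM e M) *ᵥ (L e v) = L e (M *ᵥ v) := by
  funext j
  show ∑ k, M (e.symm j) (e.symm k) * v (e.symm k) = ∑ i, M (e.symm j) i * v i
  rw [← Equiv.sum_comp e.symm (fun i => M (e.symm j) i * v i)]

theorem coe_r (g : GL ι F) : ((glReindex e g : GL κ F) : Matrix κ κ F) = rM e (g : Matrix ι ι F) := rfl

theorem r_r (g : GL ι F) : glReindex e.symm (glReindex e g) = g := by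
  apply Units.ext
  rw [coe_r, coe_r, rM_rM]

theorem r_r' (g : GL κ F) : glReindex e (glReindex e.symm g) = g := by
  apply Units.ext
  rw [coe_r, coe_r, rM_rM']

theorem act (g : GL ι F) (v : ι → F) :
    ((glReindex e g : GL κ F) : Matrix κ κ F) *ᵥ (L e v) = L e ((g : Matrix ι ι F) *ᵥ v) := actM e _ v

/-- pulled back forms -/
def pf (f' : (κ → F) → (κ → F) → F) (u v : ι → F) : F := f' (L e u) (L e v)

theorem pf_pf (f : (ι → F) → (ι → F) → F) : pf e (pf e.symm f) = f := by
  funext u v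
  show f (L e.symm (L e u)) (L e.symm (L e v)) = f u v
  rw [L_L, L_L]

/-- pulled back subspaces -/
def cW (W' : Submodule F (κ → F)) : Submodule F (ι → F) := W'.comap ((L e : (ι → F) ≃ₗ[F] (κ → F)) : (ι → F) →ₗ[F] (κ → F))

theorem mem_cW {W' : Submodule F (κ → F)} {v : ι → F} : v ∈ cW e W' ↔ L e v ∈ W' := Iff.rfl

theorem cW_bot {W' : Submodule F (κ → F)} (h : W' ≠ ⊥) : cW e W' ≠ ⊥ := by
  intro h0
  apply h
  rw [eq_bot_iff]
  intro w hw
  have h1 : L e.symm w ∈ cW e W' := by rw [mem_cW, L_L']; exact hw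
  rw [h0, Submodule.mem_bot] at h1
  rw [Submodule.mem_bot, ← L_L' e w, h1, map_zero]

theorem cW_top {W' : Submodule F (κ → F)} (h : W' ≠ ⊤) : cW e W' ≠ ⊤ := by
  intro h0
  apply h
  rw [eq_top_iff]
  intro w _
  have h1 : L e.symm w ∈ cW e W' := by rw [h0]; trivial
  rwa [mem_cW, L_L'] at h1

theorem finrank_cW (W' : Submodule F (κ → F)) : finrank F (cW e W') = finrank F W' := by
  have h1 : cW e W' = W'.map (((L e).symm : (κ → F) ≃ₗ[F] (ι → F)) : (κ → F) →ₗ[F] (ι → F)) := by
    ext v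
    rw [mem_cW, Submodule.mem_map]
    constructor
    · intro h; exact ⟨_, h, (L e).symm_apply_apply v⟩
    · rintro ⟨w, hw, rfl⟩
      show L e ((L e).symm w) ∈ W'
      rw [LinearEquiv.apply_symm_apply]
      exact hw
  rw [h1]
  exact LinearEquiv.finrank_map_eq (L e).symm W'

theorem stab_iff {W' : Submodule F (κ → F)} {g : GL ι F} :
    glReindex e g ∈ subspaceStabilizer W' ↔ g ∈ subspaceStabilizer (cW e W') := by
  rw [mem_stab_iff, mem_stab_iff]
  constructor
  · intro h w hw
    rw [mem_cW, ← act]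
    exact h _ hw
  · intro h w hw
    have h1 := h (L e.symm w) (by rw [mem_cW, L_L']; exact hw)
    rw [mem_cW, ← act, L_L'] at h1
    exact h1

theorem ts_pull {f' : (κ → F) → (κ → F) → F} {W' : Submodule F (κ → F)} (h : IsTotallySingularFor f' W') :
    IsTotallySingularFor (pf e f') (cW e W') := fun _ hu _ hv => h _ hu _ hv

theorem nd_pull {f' : (κ → F) → (κ → F) → F} {W' : Submodule F (κ → F)} (h : IsNondegenerateOn f' W') :
    IsNondegenerateOn (pf e f') (cW e W') := by
  intro w hw hw0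
  obtain ⟨⟨x, hx, hxw⟩, ⟨y, hy, hyw⟩⟩ := h (L e w) hw (fun h0 => hw0 ((L e).injective (by rw [h0, map_zero])))
  refine ⟨⟨L e.symm x, ?_, ?_⟩, ⟨L e.symm y, ?_, ?_⟩⟩
  · rw [mem_cW, L_L']; exact hx
  · show f' (L e (L e.symm x)) (L e w) ≠ 0
    rw [L_L']; exact hxw
  · rw [mem_cW, L_L']; exact hy
  · show f' (L e w) (L e (L e.symm y)) ≠ 0
    rw [L_L']; exact hyw

theorem ndf_pull {f' : (κ → F) → (κ → F) → F} (h : IsNondegenerateForm f') : IsNondegenerateForm (pf e f') := by
  intro w hw0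
  obtain ⟨⟨x, hxw⟩, ⟨y, hyw⟩⟩ := h (L e w) (fun h0 => hw0 ((L e).injective (by rw [h0, map_zero])))
  refine ⟨⟨L e.symm x, ?_⟩, ⟨L e.symm y, ?_⟩⟩
  · show f' (L e (L e.symm x)) (L e w) ≠ 0
    rw [L_L']; exact hxw
  · show f' (L e w) (L e (L e.symm y)) ≠ 0
    rw [L_L']; exact hyw

variable {t k : ℕ}

theorem dec_pull {D' : Fin t → Submodule F (κ → F)} (h : IsMDecomposition k D') :
    IsMDecomposition k (fun i => cW e (D' i)) where
  two_le := h.two_le
  pos := h.pos
  finrank_eq := fun i => by rw [finrank_cW]; exact h.finrank_eq i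
  indep := by
    have h1 := h.indep
    rw [iSupIndep_def] at h1 ⊢
    intro i
    rw [disjoint_iff, eq_bot_iff]
    intro v hv
    have h2 : L e v ∈ D' i ⊓ ⨆ j, ⨆ (_ : j ≠ i), D' j := by
      refine ⟨hv.1, ?_⟩
      have h3 : (⨆ j, ⨆ (_ : j ≠ i), cW e (D' j)) ≤ cW e (⨆ j, ⨆ (_ : j ≠ i), D' j) := by
        apply iSup_le; intro j
        apply iSup_le; intro hj
        exact Submodule.comap_mono (le_iSup₂ (f := fun j (_ : j ≠ i) => D' j) j hj)
      exact h3 hv.2
    rw [(disjoint_iff.1 (h1 i)), Submodule.mem_bot] at h2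
    rw [Submodule.mem_bot]
    exact (L e).injective (by rw [h2, map_zero])
  iSup_eq_top := by
    rw [eq_top_iff]
    intro v _
    have h1 : L e v ∈ (⨆ i, D' i : Submodule F (κ → F)) := by
      have := h.iSup_eq_top
      rw [this]; trivial
    have h2 : (⨆ i, D' i : Submodule F (κ → F)) ≤ (⨆ i, cW e (D' i)).comap (((L e).symm : (κ → F) ≃ₗ[F] (ι → F)) : (κ → F) →ₗ[F] (ι → F)) := by
      apply iSup_le
      intro i w hw
      show (L e).symm w ∈ (⨆ i, cW e (D' i))
      apply Submodule.mem_iSup_of_mem i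
      show L e ((L e).symm w) ∈ D' i
      rw [LinearEquiv.apply_symm_apply]
      exact hw
    have h3 := h2 h1
    show v ∈ (⨆ i, cW e (D' i))
    have h4 : (L e).symm (L e v) ∈ (⨆ i, cW e (D' i)) := h3
    rwa [LinearEquiv.symm_apply_apply] at h4

theorem ndec_pull {f' : (κ → F) → (κ → F) → F} {D' : Fin t → Submodule F (κ → F)}
    (h : IsNondegenerateMDecomposition f' k D') : IsNondegenerateMDecomposition (pf e f') k (fun i => cW e (D' i)) where
  decomp := dec_pull e h.decomp
  nondegenerate := fun i => nd_pull e (h.nondegenerate i)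
  orthogonal := fun i j hij _ hu _ hv => h.orthogonal i j hij _ hu _ hv

theorem decStab_iff {D' : Fin t → Submodule F (κ → F)} {g : GL ι F} :
    glReindex e g ∈ decompositionStabilizer D' ↔ g ∈ decompositionStabilizer (fun i => cW e (D' i)) := by
  have key : ∀ W V : Submodule F (κ → F), W.map (Matrix.toLin' ((glReindex e g : GL κ F) : Matrix κ κ F)) = V ↔
      (cW e W).map (Matrix.toLin' (g : Matrix ι ι F)) = cW e V := by
    intro W V
    constructor
    · rintro rfl
      ext v
      rw [mem_cW]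
      constructor
      · rintro ⟨u, hu, rfl⟩
        refine ⟨L e u, hu, ?_⟩
        rw [Matrix.toLin'_apply, Matrix.toLin'_apply, act]
      · rintro ⟨w, hw, hwv⟩
        refine ⟨L e.symm w, by rw [SetLike.mem_coe, mem_cW, L_L']; exact hw, ?_⟩
        apply (L e).injective
        rw [Matrix.toLin'_apply, ← act, L_L', ← hwv, Matrix.toLin'_apply]
    · intro h
      ext w
      constructor
      · rintro ⟨u, hu, rfl⟩
        have h1 : (g : Matrix ι ι F) *ᵥ (L e.symm u) ∈ cW e V := by
          rw [← h]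
          exact ⟨L e.symm u, by rw [SetLike.mem_coe, mem_cW, L_L']; exact hu, rfl⟩
        rw [mem_cW, ← act, L_L'] at h1
        exact h1
      · intro hw
        have h1 : L e.symm w ∈ cW e V := by rw [mem_cW, L_L']; exact hw
        rw [← h] at h1
        obtain ⟨u, hu, huw⟩ := h1
        refine ⟨L e u, hu, ?_⟩
        rw [Matrix.toLin'_apply, act, ← Matrix.toLin'_apply, huw, L_L']
  constructor
  · rintro ⟨σ, hσ⟩
    exact ⟨σ, fun i => (key _ _).1 (hσ i)⟩
  · rintro ⟨σ, hσ⟩
    exact ⟨σ, fun i => (key _ _).2 (hσ i)⟩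

/-- pulled back algebras -/
def cK (K' : Subalgebra F (Matrix κ κ F)) : Subalgebra F (Matrix ι ι F) := K'.comap ((rM e : Matrix ι ι F ≃ₐ[F] Matrix κ κ F) : Matrix ι ι F →ₐ[F] Matrix κ κ F)

theorem mem_cK {K' : Subalgebra F (Matrix κ κ F)} {M : Matrix ι ι F} : M ∈ cK e K' ↔ rM e M ∈ K' := Iff.rfl

variable {r : ℕ}

theorem fld_pull {K' : Subalgebra F (Matrix κ κ F)} (h : IsFieldSubalgebra r K') : IsFieldSubalgebra r (cK e K') where
  comm := by
    intro x hx y hy
    apply (rM e).injective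
    rw [map_mul, map_mul]
    exact h.comm _ ((mem_cK e).1 hx) _ ((mem_cK e).1 hy)
  inv := by
    intro x hx hx0
    obtain ⟨y, hy, hxy⟩ := h.inv _ ((mem_cK e).1 hx) (fun h0 => hx0 ((rM e).injective (by rw [h0, map_zero])))
    refine ⟨rM e.symm y, by rw [mem_cK, rM_rM']; exact hy, ?_⟩
    apply (rM e).injective
    rw [map_mul, rM_rM', hxy, map_one]
  finrank_eq := by
    rw [← h.finrank_eq]
    let φ : cK e K' ≃ₗ[F] K' :=
      { toFun := fun x => ⟨rM e x, x.2⟩
        map_add' := fun x y => Subtype.ext (map_add (rM e) _ _)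
        map_smul' := fun c x => Subtype.ext (map_smul (rM e) _ _)
        invFun := fun y => ⟨rM e.symm y, by rw [mem_cK, rM_rM']; exact y.2⟩
        left_inv := fun x => Subtype.ext (rM_rM e _)
        right_inv := fun y => Subtype.ext (rM_rM' e _) }
    exact φ.finrank_eq

theorem sa_pull {f' : (κ → F) → (κ → F) → F} {K' : Subalgebra F (Matrix κ κ F)} (h : IsSelfAdjointFor f' K') :
    IsSelfAdjointFor (pf e f') (cK e K') := by
  intro k hk u v
  have := h _ ((mem_cK e).1 hk) (L e u) (L e v)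
  rw [actM, actM] at this
  exact this

theorem sa_push {f' : (κ → F) → (κ → F) → F} {K' : Subalgebra F (Matrix κ κ F)}
    (h : IsSelfAdjointFor (pf e f') (cK e K')) : IsSelfAdjointFor f' K' := by
  intro k hk u v
  have := h (rM e.symm k) (by rw [mem_cK, rM_rM']; exact hk) (L e.symm u) (L e.symm v)
  have h1 : f' (L e (rM e.symm k *ᵥ L e.symm u)) (L e (L e.symm v)) = f' (L e (L e.symm u)) (L e (rM e.symm k *ᵥ L e.symm v)) := this
  rwa [← actM, ← actM, rM_rM', L_L', L_L'] at h1

theorem alt_pull {f' : (κ → F) → (κ → F) → F} {K' : Subalgebra F (Matrix κ κ F)}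
    (h : ∀ k ∈ K', ∀ v, f' (k *ᵥ v) v = 0) : ∀ k ∈ cK e K', ∀ v, pf e f' (k *ᵥ v) v = 0 := by
  intro k hk v
  have := h _ ((mem_cK e).1 hk) (L e v)
  rw [actM] at this
  exact this

theorem adj_pull {f' : (κ → F) → (κ → F) → F} {K' : Subalgebra F (Matrix κ κ F)} (h : IsAdjointClosedFor f' K') :
    IsAdjointClosedFor (pf e f') (cK e K') := by
  intro k hk
  obtain ⟨k', hk', hadj⟩ := h _ ((mem_cK e).1 hk)
  refine ⟨rM e.symm k', by rw [mem_cK, rM_rM']; exact hk', ?_⟩
  intro u v
  have := hadj (L e u) (L e v)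
  rw [actM, ← rM_rM' e k', actM] at this
  exact this

theorem norm_iff {K' : Subalgebra F (Matrix κ κ F)} {g : GL ι F} :
    glReindex e g ∈ subalgebraNormalizer K' ↔ g ∈ subalgebraNormalizer (cK e K') := by
  have hgi : (((glReindex e g : GL κ F)⁻¹ : GL κ F) : Matrix κ κ F) = rM e ((g⁻¹ : GL ι F) : Matrix ι ι F) := by
    rw [← map_inv]; rfl
  constructor
  · intro h x
    have := h (rM e x)
    rw [mem_cK, mem_cK, map_mul, map_mul, this, coe_r, hgi]
  · intro h x
    have := h (rM e.symm x)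
    rw [mem_cK, mem_cK, map_mul, map_mul, rM_rM'] at this
    rw [this, coe_r, hgi]

/-! tensor products, subfields -/

theorem conj_r (P' : GL κ F) (x : GL ι F) :
    glReindex e (glReindex e.symm P' * x * (glReindex e.symm P')⁻¹) = P' * glReindex e x * P'⁻¹ := by
  rw [map_mul, map_mul, map_inv, r_r']

theorem map_iff {A : Subgroup (GL ι F)} {P' : GL κ F} {g : GL ι F} :
    glReindex e g ∈ (A.map (glReindex e).toMonoidHom).map (MulAut.conj P').toMonoidHom ↔
      g ∈ A.map (MulAut.conj (glReindex e.symm P')).toMonoidHom := by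
  constructor
  · rintro ⟨_, ⟨x, hx, rfl⟩, hxg⟩
    refine ⟨x, hx, ?_⟩
    apply (glReindex e).injective
    rw [← hxg]
    exact conj_r e P' x
  · rintro ⟨x, hx, rfl⟩
    exact ⟨_, ⟨x, hx, rfl⟩, (conj_r e P' x).symm⟩

theorem re_trans {μ : Type} [Fintype μ] [DecidableEq μ] (e' : κ ≃ μ) (B : Subgroup (GL μ F)) :
    B.map (glReindex e'.symm).toMonoidHom =
      (B.map (glReindex (e.trans e').symm).toMonoidHom).map (glReindex e).toMonoidHom := by
  rw [Subgroup.map_map]
  congr 1
  apply MonoidHom.ext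
  intro x
  apply Units.ext
  ext i j
  show (x : Matrix μ μ F) (e'.symm.symm i) (e'.symm.symm j) = (x : Matrix μ μ F)
    (((e.trans e').symm).symm (e.symm i)) (((e.trans e').symm).symm (e.symm j))
  simp

theorem tp_iff {n₁ n₂ : ℕ} {e' : κ ≃ Fin n₁ × Fin n₂} {P' : GL κ F} {g : GL ι F} :
    glReindex e g ∈ tensorProductSubgroup n₁ n₂ e' P' ↔
      g ∈ tensorProductSubgroup n₁ n₂ (e.trans e') (glReindex e.symm P') := by
  unfold tensorProductSubgroup
  rw [re_trans e e', map_iff]

theorem tw_iff {m t : ℕ} {e' : κ ≃ (Fin t → Fin m)} {P' : GL κ F} {g : GL ι F} :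
    glReindex e g ∈ tensorWreathSubgroup m t e' P' ↔
      g ∈ tensorWreathSubgroup m t (e.trans e') (glReindex e.symm P') := by
  unfold tensorWreathSubgroup
  rw [re_trans e e', map_iff]

theorem coord_pull {μ : Type} (e' : κ ≃ μ) (P' : GL κ F) (x : μ → F) :
    L e (((glReindex e.symm P' : GL ι F) : Matrix ι ι F) *ᵥ (x ∘ (e.trans e'))) = (P' : Matrix κ κ F) *ᵥ (x ∘ e') := by
  rw [← act, r_r']
  congr 1
  funext j
  show x (e' (e (e.symm j))) = x (e' j)
  rw [Equiv.apply_symm_apply]

theorem tpf_pull {σ : F → F} {f' : (κ → F) → (κ → F) → F} {n₁ n₂ : ℕ} {f₁ : (Fin n₁ → F) → (Fin n₁ → F) → F}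
    {f₂ : (Fin n₂ → F) → (Fin n₂ → F) → F} {e' : κ ≃ Fin n₁ × Fin n₂} {P' : GL κ F}
    (h : IsTensorFormStructure σ f' f₁ f₂ e' P') :
    IsTensorFormStructure σ (pf e f') f₁ f₂ (e.trans e') (glReindex e.symm P') := by
  obtain ⟨c, hc, hf⟩ := h
  refine ⟨c, hc, fun x y => ?_⟩
  show f' (L e _) (L e _) = _
  rw [coord_pull, coord_pull]
  exact hf x y

theorem twf_pull {σ : F → F} {f' : (κ → F) → (κ → F) → F} {k t : ℕ} {f₁ : (Fin k → F) → (Fin k → F) → F}
    {e' : κ ≃ (Fin t → Fin k)} {P' : GL κ F}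
    (h : IsTensorPowerFormStructure σ f' f₁ e' P') :
    IsTensorPowerFormStructure σ (pf e f') f₁ (e.trans e') (glReindex e.symm P') := by
  obtain ⟨c, hc, hf⟩ := h
  refine ⟨c, hc, fun x y => ?_⟩
  show f' (L e _) (L e _) = _
  rw [coord_pull, coord_pull]
  exact hf x y

theorem scal_iff {g : GL ι F} : glReindex e g ∈ scalars κ F ↔ g ∈ scalars ι F := by
  rw [mem_scalars_iff, mem_scalars_iff]
  constructor
  · rintro ⟨c, hc⟩
    refine ⟨c, ?_⟩
    apply (rM e).injective
    rw [map_smul, map_one]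
    exact hc
  · rintro ⟨c, hc⟩
    refine ⟨c, ?_⟩
    rw [coe_r, hc, map_smul, map_one]

theorem scal_map : (scalars ι F).map (glReindex e).toMonoidHom = scalars κ F := by
  ext g
  constructor
  · rintro ⟨x, hx, rfl⟩
    exact (scal_iff e).2 hx
  · intro hg
    refine ⟨glReindex e.symm g, ?_, r_r' e g⟩
    rw [SetLike.mem_coe, ← scal_iff e, r_r']
    exact hg

theorem sub_iff {F₀ : Subfield F} {P' : GL κ F} {g : GL ι F} :
    glReindex e g ∈ subfieldSubgroup F₀ P' ↔ g ∈ subfieldSubgroup F₀ (glReindex e.symm P') := by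
  unfold subfieldSubgroup
  rw [← map_iff e]
  have h1 : (Matrix.GeneralLinearGroup.map (n := κ) (F₀.subtype : F₀ →+* F)).range ⊔ scalars κ F =
      ((Matrix.GeneralLinearGroup.map (n := ι) (F₀.subtype : F₀ →+* F)).range ⊔ scalars ι F).map
        (glReindex e).toMonoidHom := by
    rw [Subgroup.map_sup, scal_map]
    congr 1
    ext x
    constructor
    · rintro ⟨y, rfl⟩
      refine ⟨_, ⟨glReindex e.symm y, rfl⟩, ?_⟩
      apply Units.ext
      ext i j
      show ((F₀.subtype : F₀ →+* F)) ((y : Matrix κ κ F₀) (e (e.symm i)) (e (e.symm j))) = F₀.subtype ((y : Matrix κ κ F₀) i j)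
      simp
    · rintro ⟨_, ⟨y, rfl⟩, rfl⟩
      exact ⟨glReindex e y, rfl⟩
  rw [h1]

theorem subf_pull {f' : (κ → F) → (κ → F) → F} {F₀ : Subfield F} {ζ : F} {P' : GL κ F}
    (h : IsFormRationalStructure f' F₀ ζ P') : IsFormRationalStructure (pf e f') F₀ ζ (glReindex e.symm P') := by
  intro u v hu hv
  have := h (L e u) (L e v) (fun i => hu _) (fun i => hv _)
  show ζ * f' (L e _) (L e _) ∈ F₀
  rw [← act, ← act, r_r']
  exact this

/-! quadratic forms -/

/-- pulled back quadratic forms -/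
def pq (Q' : (κ → F) → F) (v : ι → F) : F := Q' (L e v)

theorem pq_pq (Q : (ι → F) → F) : pq e (pq e.symm Q) = Q := by
  funext u
  show Q (L e.symm (L e u)) = Q u
  rw [L_L]

theorem polar_pq (Q' : (κ → F) → F) : QuadraticMap.polar (pq e Q') = pf e (QuadraticMap.polar Q') := by
  funext u v
  show Q' (L e (u + v)) - Q' (L e u) - Q' (L e v) = Q' (L e u + L e v) - Q' (L e u) - Q' (L e v)
  rw [map_add]

theorem bil_pull {f' : (κ → F) → (κ → F) → F} (h : IsBilinearForm f') : IsBilinearForm (pf e f') where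
  add_left := fun x y v => by
    show f' (L e (x + y)) (L e v) = _
    rw [map_add]; exact h.add_left _ _ _
  smul_left := fun c x v => by
    show f' (L e (c • x)) (L e v) = _
    rw [map_smul]; exact h.smul_left _ _ _
  add_right := fun x y v => by
    show f' (L e x) (L e (y + v)) = _
    rw [map_add]; exact h.add_right _ _ _
  smul_right := fun c x v => by
    show f' (L e x) (L e (c • v)) = _
    rw [map_smul]; exact h.smul_right _ _ _

theorem nq_pull {Q' : (κ → F) → F} (h : IsNondegenerateQuadraticForm Q') : IsNondegenerateQuadraticForm (pq e Q') where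
  smul := fun c v => by
    show Q' (L e (c • v)) = c ^ 2 * Q' (L e v)
    rw [map_smul]; exact h.smul _ _
  polar_bilinear := by rw [polar_pq]; exact bil_pull e h.polar_bilinear
  nondegenerate := by rw [polar_pq]; exact ndf_pull e h.nondegenerate

theorem quadSim_iff {Q' : (κ → F) → F} {g : GL ι F} :
    glReindex e g ∈ quadSimilarityGroup Q' ↔ g ∈ quadSimilarityGroup (pq e Q') := by
  constructor
  · rintro ⟨c, hc⟩
    refine ⟨c, fun v => ?_⟩
    show Q' (L e _) = c * Q' (L e v)
    rw [← act]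
    exact hc _
  · rintro ⟨c, hc⟩
    refine ⟨c, fun v => ?_⟩
    have : Q' (L e _) = c * Q' (L e _) := hc (L e.symm v)
    rw [← act, L_L'] at this
    exact this

theorem sim_iff {f' : (κ → F) → (κ → F) → F} {g : GL ι F} :
    glReindex e g ∈ similarityGroup f' ↔ g ∈ similarityGroup (pf e f') := by
  constructor
  · rintro ⟨c, hc⟩
    refine ⟨c, fun u v => ?_⟩
    show f' (L e _) (L e _) = c * f' (L e u) (L e v)
    rw [← act, ← act]
    exact hc _ _
  · rintro ⟨c, hc⟩
    refine ⟨c, fun u v => ?_⟩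
    have : f' (L e _) (L e _) = c * f' (L e _) (L e _) := hc (L e.symm u) (L e.symm v)
    rw [← act, ← act, L_L', L_L'] at this
    exact this

theorem symp_pull {f' : (κ → F) → (κ → F) → F} (h : IsSymplecticForm f') : IsSymplecticForm (pf e f') where
  bilinear := bil_pull e h.bilinear
  skew := fun _ _ => h.skew _ _
  alternating := fun _ => h.alternating _
  nondegenerate := ndf_pull e h.nondegenerate

theorem unit_pull {σ : F ≃+* F} {f' : (κ → F) → (κ → F) → F} (h : IsUnitaryForm σ f') : IsUnitaryForm σ (pf e f') where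
  ne_refl := h.ne_refl
  involutive := h.involutive
  add_left := fun x y v => by
    show f' (L e (x + y)) (L e v) = _
    rw [map_add]; exact h.add_left _ _ _
  smul_left := fun c x v => by
    show f' (L e (c • x)) (L e v) = _
    rw [map_smul]; exact h.smul_left _ _ _
  herm := fun _ _ => h.herm _ _
  nondegenerate := ndf_pull e h.nondegenerate

end Cfsg.Agent.H29.Rx
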