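import Mathlib
import Cfsg.Agent.H29_Rx1

set_option autoImplicit false

/-! transport of geometric classes along bijections of index types, II -/

namespace Cfsg.Agent.H29.Rx

open Matrix Module Cfsg.Geo Cfsg.Agent.H29.Trv
open scoped Kronecker commutatorElement

variable {F : Type*} [Field F] {ι κ : Type} [Fintype ι] [DecidableEq ι] [Fintype κ] [DecidableEq κ] (e : ι ≃ κ)

/-- pulled back groups -/
def cR (R' : Subgroup (GL κ F)) : Subgroup (GL ι F) := R'.comap (glReindex e : GL ι F ≃* GL κ F).toMonoidHom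

theorem mem_cR {R' : Subgroup (GL κ F)} {g : GL ι F} : g ∈ cR e R' ↔ glReindex e g ∈ R' := Iff.rfl

theorem mem_cR' {R' : Subgroup (GL κ F)} {g : GL κ F} (hg : g ∈ R') : glReindex e.symm g ∈ cR e R' := by
  rw [mem_cR, r_r']; exact hg

theorem cR_cR (R : Subgroup (GL ι F)) : cR e (cR e.symm R) = R := by
  ext g
  rw [mem_cR, mem_cR, r_r]

theorem cR_map (R' : Subgroup (GL κ F)) : cR e R' = R'.map (glReindex e.symm : GL κ F ≃* GL ι F).toMonoidHom := by
  ext g
  rw [mem_cR]
  constructor
  · intro h; exact ⟨_, h, r_r e g⟩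
  · rintro ⟨x, hx, rfl⟩
    show glReindex e (glReindex e.symm x) ∈ R'
    rw [r_r']; exact hx

/-- the isomorphism -/
def ψ (R' : Subgroup (GL κ F)) : cR e R' ≃* R' where
  toFun x := ⟨glReindex e x, x.2⟩
  invFun y := ⟨glReindex e.symm y, mem_cR' e y.2⟩
  left_inv x := Subtype.ext (r_r e _)
  right_inv y := Subtype.ext (r_r' e _)
  map_mul' x y := Subtype.ext (map_mul (glReindex e) _ _)

theorem mset_pull {R' : Subgroup (GL κ F)} {M : Matrix ι ι F} : M ∈ matrixSet (cR e R') ↔ rM e M ∈ matrixSet R' := by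
  constructor
  · rintro ⟨x, hx, rfl⟩
    exact ⟨glReindex e x, hx, rfl⟩
  · rintro ⟨y, hy, hyM⟩
    refine ⟨glReindex e.symm y, mem_cR' e hy, ?_⟩
    apply (rM e).injective
    rw [← hyM]
    show rM e (rM e.symm _) = _
    rw [rM_rM']

theorem irr_pull {S' : Set (Matrix κ κ F)} {S : Set (Matrix ι ι F)} (hS : ∀ M, M ∈ S ↔ rM e M ∈ S')
    (h : ActsIrreducibly S') : ActsIrreducibly S := by
  intro W hW
  rcases h (cW e.symm W) (by
    rintro s hs _ ⟨v, hv, rfl⟩
    rw [SetLike.mem_coe, mem_cW] at hv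
    rw [mem_cW, Matrix.toLin'_apply, ← actM e.symm]
    have h1 := hW (rM e.symm s) (by rw [hS, rM_rM']; exact hs) ⟨L e.symm v, hv, rfl⟩
    rw [Matrix.toLin'_apply] at h1
    exact h1) with h1 | h1
  · left
    by_contra hne
    exact cW_bot e.symm hne h1
  · right
    by_contra hne
    exact cW_top e.symm hne h1

theorem absIrr_pull {S' : Set (Matrix κ κ F)} {S : Set (Matrix ι ι F)} (hS : ∀ M, M ∈ S ↔ rM e M ∈ S')
    (h : ActsAbsolutelyIrreducibly S') : ActsAbsolutelyIrreducibly S := by
  refine ⟨irr_pull e hS h.1, ?_⟩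
  intro M hM
  obtain ⟨c, hc⟩ := h.2 (rM e M) (by
    intro s hs
    have h1 := hM (rM e.symm s) (by rw [hS, rM_rM']; exact hs)
    have h2 := congrArg (rM e) h1
    rwa [map_mul, map_mul, rM_rM'] at h2)
  refine ⟨c, ?_⟩
  apply (rM e).injective
  rw [hc, map_smul, map_one]

theorem char_map {A B : Type*} [Group A] [Group B] (φ : A ≃* B) (H : Subgroup A) (hH : H.Characteristic) :
    (H.map φ.toMonoidHom).Characteristic := by
  rw [Subgroup.characteristic_iff_le_comap]
  rintro θ _ ⟨x, hx, rfl⟩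
  rw [Subgroup.mem_comap]
  have h1 := (Subgroup.characteristic_iff_le_comap.1 hH) ((φ.trans θ).trans φ.symm) hx
  rw [Subgroup.mem_comap] at h1
  refine ⟨_, h1, ?_⟩
  show φ (φ.symm (θ (φ x))) = θ (φ x)
  rw [MulEquiv.apply_symm_apply]

theorem comm_map {A B : Type*} [Group A] [Group B] (φ : A ≃* B) (H : Subgroup A) (hH : IsMulCommutative H) :
    IsMulCommutative (H.map φ.toMonoidHom) := by
  constructor
  constructor
  rintro ⟨_, x, hx, rfl⟩ ⟨_, y, hy, rfl⟩
  apply Subtype.ext
  show φ x * φ y = φ y * φ x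
  rw [← map_mul, ← map_mul]
  congr 1
  exact congrArg Subtype.val (hH.is_comm.comm (⟨x, hx⟩ : H) ⟨y, hy⟩)

variable {r k : ℕ}

theorem styp_pull {R' : Subgroup (GL κ F)} (h : IsSymplecticTypeGroup r R') : IsSymplecticTypeGroup r (cR e R') where
  prime := h.prime
  pGroup := h.pGroup.of_equiv (ψ e R').symm
  cyclic_of_characteristic := by
    intro A hA hab
    have h1 := h.cyclic_of_characteristic (A.map (ψ e R').toMonoidHom) (char_map (ψ e R') A hA) (comm_map (ψ e R') A hab)
    let θ : A ≃* A.map (ψ e R').toMonoidHom := A.equivMapOfInjective _ (ψ e R').injective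
    exact isCyclic_of_injective θ.toMonoidHom θ.injective
  exponent_eq := by
    rw [← h.exponent_eq]
    exact Monoid.exponent_eq_of_mulEquiv (ψ e R')

theorem minus_pull {R' : Subgroup (GL κ F)} (h : IsOfMinusType k R') : IsOfMinusType k (cR e R') := by
  intro A hab hsq
  have h1 := h (A.map (ψ e R').toMonoidHom) (comm_map (ψ e R') A hab) (by
    rintro _ ⟨x, hx, rfl⟩
    show ψ e R' x * ψ e R' x = 1
    rw [← map_mul, hsq x hx, map_one])
  rwa [← Nat.card_congr (A.equivMapOfInjective _ (ψ e R').injective).toEquiv] at h1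

theorem card_cR (R' : Subgroup (GL κ F)) : Nat.card (cR e R') = Nat.card R' := Nat.card_congr (ψ e R').toEquiv

theorem center_cR (R' : Subgroup (GL κ F)) : Nat.card (Subgroup.center (cR e R')) = Nat.card (Subgroup.center R') :=
  Nat.card_congr (Subgroup.centerCongr (ψ e R')).toEquiv

theorem nmz_iff {R' : Subgroup (GL κ F)} {g : GL ι F} :
    glReindex e g ∈ subgroupNormalizer R' ↔ g ∈ subgroupNormalizer (cR e R') := by
  unfold subgroupNormalizer
  rw [Subgroup.mem_normalizer_iff, Subgroup.mem_normalizer_iff]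
  constructor
  · intro h x
    have h1 := h (glReindex e x)
    rw [← map_mul, ← map_inv, ← map_mul] at h1
    exact h1
  · intro h x
    have h1 := h (glReindex e.symm x)
    rw [mem_cR, mem_cR, map_mul, map_mul, map_inv, r_r'] at h1
    exact h1

theorem real_push {F₀ : Subfield F} {R' : Subgroup (GL κ F)} (h : RealisableOver F₀ (matrixSet (cR e R'))) :
    RealisableOver F₀ (matrixSet R') := by
  obtain ⟨B, hB⟩ := h
  refine ⟨glReindex e B, ?_⟩
  intro s hs i j
  have h1 := hB (rM e.symm s) (by rw [mset_pull, rM_rM']; exact hs) (e.symm i) (e.symm j)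
  have h2 : ((glReindex e B : GL κ F) : Matrix κ κ F) * s * (((glReindex e B)⁻¹ : GL κ F) : Matrix κ κ F) =
      rM e ((B : Matrix ι ι F) * rM e.symm s * ((B⁻¹ : GL ι F) : Matrix ι ι F)) := by
    rw [map_mul, map_mul, rM_rM', ← map_inv]
    rfl
  rw [h2]
  exact h1

theorem core_pull {H' P' : Subgroup (GL κ F)} (h : IsResidualCore H' P') : IsResidualCore (cR e H') (cR e P') where
  le := fun _ hx => h.le hx
  normal := by
    intro a ha x hx
    rw [mem_cR, map_mul, map_mul, map_inv]
    exact h.normal _ ha _ hx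
  perfect := by
    rw [cR_map, ← Subgroup.map_commutator, h.perfect]
  simple := by
    haveI := h.simple
    let θ : (cR e P') ⧸ (scalars ι F).subgroupOf (cR e P') ≃* P' ⧸ (scalars κ F).subgroupOf P' :=
      QuotientGroup.congr _ _ (ψ e P') (by
        ext x
        constructor
        · rintro ⟨y, hy, rfl⟩
          exact (scal_iff e).2 hy
        · intro hx
          refine ⟨(ψ e P').symm x, ?_, (ψ e P').apply_symm_apply x⟩
          rw [SetLike.mem_coe, Subgroup.mem_subgroupOf, ← scal_iff e]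
          show glReindex e (glReindex e.symm (x : GL κ F)) ∈ _
          rw [r_r']
          exact hx)
    exact θ.isSimpleGroup
  nonabelian := by
    intro hab
    apply h.nonabelian
    constructor
    constructor
    intro x y
    obtain ⟨x, rfl⟩ := QuotientGroup.mk_surjective x
    obtain ⟨y, rfl⟩ := QuotientGroup.mk_surjective y
    have h1 := hab.is_comm.comm (QuotientGroup.mk ((ψ e P').symm x) : (cR e P') ⧸ (scalars ι F).subgroupOf (cR e P'))
      (QuotientGroup.mk ((ψ e P').symm y))
    rw [← QuotientGroup.mk_mul, ← QuotientGroup.mk_mul, QuotientGroup.eq, Subgroup.mem_subgroupOf, ← scal_iff e] at h1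
    rw [← QuotientGroup.mk_mul, ← QuotientGroup.mk_mul, QuotientGroup.eq, Subgroup.mem_subgroupOf]
    have h2 : glReindex e ((((((ψ e P').symm x) * ((ψ e P').symm y))⁻¹ * (((ψ e P').symm y) * ((ψ e P').symm x)) : cR e P')) : GL ι F) =
        (((x * y)⁻¹ * (y * x) : P') : GL κ F) := by
      have h3 : ψ e P' (((((ψ e P').symm x) * ((ψ e P').symm y))⁻¹ * (((ψ e P').symm y) * ((ψ e P').symm x)))) =
          (x * y)⁻¹ * (y * x) := by
        simp only [map_mul, map_inv, MulEquiv.apply_symm_apply]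
      exact congrArg Subtype.val h3
    rwa [h2] at h1
  centralizer_scalar := by
    intro a ha hc
    rw [← scal_iff e]
    apply h.centralizer_scalar _ ha
    intro x hx
    have h1 := hc (glReindex e.symm x) (mem_cR' e hx)
    rw [← scal_iff e, map_mul, map_mul, map_mul, map_inv, map_inv, r_r'] at h1
    exact h1
  absIrred := absIrr_pull e (fun M => mset_pull e) h.absIrred
  no_subfield := fun F₀ hF₀ hreal => h.no_subfield F₀ hF₀ (real_push e hreal)

theorem fixes_push {P' : Subgroup (GL κ F)} {f : (ι → F) → (ι → F) → F} (h : FixesForm (matrixSet (cR e P')) f) :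
    FixesForm (matrixSet P') (pf e.symm f) := by
  intro s hs u v
  show f (L e.symm _) (L e.symm _) = f (L e.symm u) (L e.symm v)
  rw [← actM, ← actM]
  exact h _ (by rw [mset_pull, rM_rM']; exact hs) _ _

theorem fixesQ_push {P' : Subgroup (GL κ F)} {Q : (ι → F) → F} (h : FixesQuadForm (matrixSet (cR e P')) Q) :
    FixesQuadForm (matrixSet P') (pq e.symm Q) := by
  intro s hs v
  show Q (L e.symm _) = Q (L e.symm v)
  rw [← actM]
  exact h _ (by rw [mset_pull, rM_rM']; exact hs) _

theorem res_symp_pull {H' : Subgroup (GL κ F)} (h : InSymplecticResidualClass H') :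
    InSymplecticResidualClass (cR e H') := by
  obtain ⟨P', hcore, h1, h2⟩ := h
  refine ⟨cR e P', core_pull e hcore, ?_, ?_⟩
  · rintro ⟨Q, hQ, hfix⟩
    exact h1 ⟨pq e.symm Q, nq_pull e.symm hQ, fixesQ_push e hfix⟩
  · rintro ⟨σ, f, hf, hfix⟩
    exact h2 ⟨σ, pf e.symm f, unit_pull e.symm hf, fixes_push e hfix⟩

theorem res_orth_pull {H' : Subgroup (GL κ F)} (h : InOrthogonalResidualClass H') :
    InOrthogonalResidualClass (cR e H') := by
  obtain ⟨P', hcore, h2⟩ := h
  refine ⟨cR e P', core_pull e hcore, ?_⟩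
  rintro ⟨σ, f, hf, hfix⟩
  exact h2 ⟨σ, pf e.symm f, unit_pull e.symm hf, fixes_push e hfix⟩

end Cfsg.Agent.H29.Rx
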