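import Mathlib
import Cfsg.Agent.H29_Max2

set_option autoImplicit false

/-! decompositions over small fields -/

namespace Cfsg.Agent.H29.Asc

open Matrix Module Cfsg.Geo Cfsg.Agent.H29.Trv Cfsg.Agent.H29.AscT Cfsg.Agent.H29.AscF

variable {F : Type*} [Field F] {n : ℕ}

/-- a basis adapted to a decomposition -/
theorem dec_basis {t m : ℕ} {D : Fin t → Submodule F (Fin n → F)} (hD : IsMDecomposition m D) :
    ∃ b : Module.Basis (Fin t × Fin m) F (Fin n → F), (∀ i a, b (i, a) ∈ D i) ∧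
      ∀ i, ∀ x ∈ D i, ∃ c : Fin m → F, x = ∑ a, c a • b (i, a) := by
  classical
  have hint : DirectSum.IsInternal D :=
    (DirectSum.isInternal_submodule_iff_iSupIndep_and_iSup_eq_top D).2 ⟨hD.indep, hD.iSup_eq_top⟩
  let v : ∀ i, Module.Basis (Fin m) F (D i) := fun i => Module.finBasisOfFinrankEq F (D i) (hD.finrank_eq i)
  let b := (hint.collectedBasis v).reindex (Equiv.sigmaEquivProd (Fin t) (Fin m))
  have hb : ∀ i a, b (i, a) = (v i a : Fin n → F) := by
    intro i a
    simp [b]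
    rfl
  refine ⟨b, fun i a => by rw [hb]; exact (v i a).2, fun i x hx => ?_⟩
  refine ⟨(v i).repr ⟨x, hx⟩, ?_⟩
  have h1 := (v i).sum_repr ⟨x, hx⟩
  have h2 : ((∑ a, (v i).repr ⟨x, hx⟩ a • v i a : D i) : Fin n → F) = x := congrArg (Subtype.val) h1
  simp only [Submodule.coe_sum, Submodule.coe_smul] at h2
  simp only [hb]
  exact h2.symm

theorem dec_card {t m : ℕ} {D : Fin t → Submodule F (Fin n → F)} (hD : IsMDecomposition m D) : t * m = n := by
  obtain ⟨b, -, -⟩ := dec_basis hD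
  have := card_eq_of_basis b
  rwa [Fintype.card_prod, Fintype.card_fin, Fintype.card_fin] at this

/-- the block form of an element of the stabiliser of a decomposition -/
theorem dec_block {t m : ℕ} {D : Fin t → Submodule F (Fin n → F)}
    {b : Module.Basis (Fin t × Fin m) F (Fin n → F)} (hb : ∀ i a, b (i, a) ∈ D i)
    (hb' : ∀ i, ∀ x ∈ D i, ∃ c : Fin m → F, x = ∑ a, c a • b (i, a))
    {g : GL (Fin n) F} (hg : g ∈ decompositionStabilizer D) :
    ∃ (σ : Equiv.Perm (Fin t)) (A : Fin t → Matrix (Fin m) (Fin m) F),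
      ∀ i a, (g : Matrix (Fin n) (Fin n) F) *ᵥ b (i, a) = ∑ a', A i a' a • b (σ i, a') := by
  obtain ⟨σ, hσ⟩ := hg
  have h1 : ∀ i a, ∃ c : Fin m → F, (g : Matrix (Fin n) (Fin n) F) *ᵥ b (i, a) = ∑ a', c a' • b (σ i, a') := by
    intro i a
    apply hb'
    rw [← hσ i]
    exact ⟨b (i, a), hb i a, rfl⟩
  choose c hc using h1
  exact ⟨σ, fun i => Matrix.of fun a' a => c i a a', hc⟩

/-- matrices of block form -/
def blk {t m : ℕ} (σ : Equiv.Perm (Fin t)) (A : Fin t → Matrix (Fin m) (Fin m) F) :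
    Matrix (Fin t × Fin m) (Fin t × Fin m) F :=
  Matrix.of fun x y => if x.1 = σ y.1 then A y.1 x.2 y.2 else 0

theorem conj_of_basis' {κ : Type*} [Fintype κ] [DecidableEq κ] (b : κ → (Fin n → F)) (e : Fin n ≃ κ)
    (P : GL (Fin n) F) (hP : ∀ i, (P : Matrix (Fin n) (Fin n) F) *ᵥ (Pi.single i 1) = b (e i))
    (g : GL (Fin n) F) (Y : Matrix κ κ F) (h : ∀ y, (g : Matrix (Fin n) (Fin n) F) *ᵥ b y = ∑ x, Y x y • b x) :
    ((P⁻¹ * g * P : GL (Fin n) F) : Matrix (Fin n) (Fin n) F) = Y.submatrix e e := by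
  have h1 := conj_of_basis b e P hP g Y h
  rw [Units.val_mul, Units.val_mul, mul_assoc, h1, ← mul_assoc, ← Units.val_mul, inv_mul_cancel,
    Units.val_one, one_mul]

theorem dec_conj {t m : ℕ} {D : Fin t → Submodule F (Fin n → F)} (hD : IsMDecomposition m D) :
    ∃ (e : Fin n ≃ Fin t × Fin m) (P : GL (Fin n) F), ∀ g ∈ decompositionStabilizer D,
      ∃ (σ : Equiv.Perm (Fin t)) (A : Fin t → Matrix (Fin m) (Fin m) F),
        ((P⁻¹ * g * P : GL (Fin n) F) : Matrix (Fin n) (Fin n) F) = (blk σ A).submatrix e e := by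
  classical
  obtain ⟨b, hb, hb'⟩ := dec_basis hD
  have hc : Fintype.card (Fin n) = Fintype.card (Fin t × Fin m) := by
    rw [card_eq_of_basis b, Fintype.card_fin]
  let e : Fin n ≃ Fin t × Fin m := Fintype.equivOfCardEq hc
  obtain ⟨P, hP⟩ := exists_GL_basis b e
  refine ⟨e, P, fun g hg => ?_⟩
  obtain ⟨σ, A, h⟩ := dec_block hb hb' hg
  refine ⟨σ, A, conj_of_basis' b e P hP g _ ?_⟩
  rintro ⟨i, a⟩
  rw [h i a, Fintype.sum_prod_type, Finset.sum_eq_single (σ i)]
  · apply Finset.sum_congr rfl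
    intro a' _
    simp [blk]
  · intro j _ hj
    apply Finset.sum_eq_zero
    intro a' _
    simp [blk, hj]
  · simp

/-- monomial matrices from line decompositions -/
theorem mono_of_lines [Fintype F] {t : ℕ} {D : Fin t → Submodule F (Fin n → F)} (hD : IsMDecomposition 1 D) :
    ∃ B : GL (Fin n) F, ∀ x ∈ decompositionStabilizer D, ∃ (π : Equiv.Perm (Fin n)) (d : Fin n → F),
      (∀ i, d i ^ (Fintype.card F - 1) = 1) ∧
      ∀ i j, ((B⁻¹ * x * B : GL (Fin n) F) : Matrix (Fin n) (Fin n) F) i j = if i = π j then d j else 0 := by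
  classical
  obtain ⟨e, P, hP⟩ := dec_conj hD
  refine ⟨P, fun g hg => ?_⟩
  obtain ⟨σ, A, h⟩ := hP g hg
  let e' : Fin n ≃ Fin t := e.trans (Equiv.prodUnique (Fin t) (Fin 1))
  have he' : ∀ i, (e i).1 = e' i := fun i => rfl
  have he2 : ∀ i, (e i).2 = 0 := fun i => Subsingleton.elim _ _
  let π : Equiv.Perm (Fin n) := (e'.trans σ).trans e'.symm
  have hent : ∀ i j, ((P⁻¹ * g * P : GL (Fin n) F) : Matrix (Fin n) (Fin n) F) i j =
      if i = π j then A (e' j) 0 0 else 0 := by
    intro i j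
    rw [h]
    simp only [Matrix.submatrix_apply, blk, Matrix.of_apply, he', he2]
    congr 1
    apply propext
    constructor
    · intro hh
      show i = e'.symm (σ (e' j))
      rw [← hh, Equiv.symm_apply_apply]
    · intro hh
      rw [hh]
      show e' (e'.symm (σ (e' j))) = _
      rw [Equiv.apply_symm_apply]
  refine ⟨π, fun j => A (e' j) 0 0, ?_, hent⟩
  intro j
  apply FiniteField.pow_card_sub_one_eq_one
  intro h0
  -- the j-th column would vanish
  have h1 : ((P⁻¹ * g * P : GL (Fin n) F) : Matrix (Fin n) (Fin n) F) *ᵥ (Pi.single j 1) = 0 := by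
    rw [Matrix.mulVec_single_one]
    funext i
    show ((P⁻¹ * g * P : GL (Fin n) F) : Matrix (Fin n) (Fin n) F) i j = 0
    have h0' : A (e' j) 0 0 = 0 := h0
    rw [hent, h0']
    split_ifs <;> rfl
  have h2 := inv_mulVec_self (P⁻¹ * g * P) (Pi.single j (1 : F))
  rw [h1, Matrix.mulVec_zero] at h2
  have h3 := congrFun h2 j
  simp at h3

theorem quad_of_monomial (h2 : (2 : F) ≠ 0) (R : Subgroup (GL (Fin n) F)) {B : GL (Fin n) F}
    (hB : ∀ x ∈ R, ∃ (π : Equiv.Perm (Fin n)) (d : Fin n → F), (∀ i, d i ^ 2 = 1) ∧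
      ∀ i j, ((B⁻¹ * x * B : GL (Fin n) F) : Matrix (Fin n) (Fin n) F) i j = if i = π j then d j else 0) :
    ∃ Q : (Fin n → F) → F, IsNondegenerateQuadraticForm Q ∧ FixesQuadForm (matrixSet R) Q := by
  classical
  set b : Matrix (Fin n) (Fin n) F := ((B⁻¹ : GL (Fin n) F) : Matrix (Fin n) (Fin n) F) with hb
  have hbdet : b.det ≠ 0 := ((Matrix.isUnit_iff_isUnit_det _).1 (B⁻¹).isUnit).ne_zero
  let Q : (Fin n → F) → F := fun v => (b *ᵥ v) ⬝ᵥ (b *ᵥ v)
  have hpol : QuadraticMap.polar Q = fun v w => 2 * ((b *ᵥ v) ⬝ᵥ (b *ᵥ w)) := by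
    funext v w
    unfold QuadraticMap.polar
    simp only [Q, Matrix.mulVec_add, add_dotProduct, dotProduct_add]
    rw [dotProduct_comm (b *ᵥ w) (b *ᵥ v)]
    ring
  refine ⟨Q, ⟨?_, ?_, ?_⟩, ?_⟩
  · intro c v
    simp only [Q, Matrix.mulVec_smul, smul_dotProduct, dotProduct_smul, smul_eq_mul]
    ring
  · rw [hpol]
    exact
      { add_left := fun x y v => by rw [Matrix.mulVec_add, add_dotProduct]; ring
        smul_left := fun c x v => by rw [Matrix.mulVec_smul, smul_dotProduct, smul_eq_mul]; ring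
        add_right := fun v x y => by rw [Matrix.mulVec_add, dotProduct_add]; ring
        smul_right := fun c v x => by rw [Matrix.mulVec_smul, dotProduct_smul, smul_eq_mul]; ring }
  · rw [hpol]
    intro v hv
    have hbv : b *ᵥ v ≠ 0 := by
      intro h0
      apply hbdet
      rw [← Matrix.exists_mulVec_eq_zero_iff]
      exact ⟨v, hv, h0⟩
    obtain ⟨i, hi⟩ := Function.ne_iff.1 hbv
    have hBb : b *ᵥ ((B : Matrix (Fin n) (Fin n) F) *ᵥ Pi.single i 1) = Pi.single i 1 := inv_mulVec_self B _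
    have hi' : (b *ᵥ v) i ≠ 0 := hi
    constructor
    · refine ⟨(B : Matrix (Fin n) (Fin n) F) *ᵥ Pi.single i 1, ?_⟩
      show 2 * ((b *ᵥ ((B : Matrix (Fin n) (Fin n) F) *ᵥ Pi.single i 1)) ⬝ᵥ (b *ᵥ v)) ≠ 0
      rw [hBb, single_dotProduct, one_mul]
      exact mul_ne_zero h2 hi'
    · refine ⟨(B : Matrix (Fin n) (Fin n) F) *ᵥ Pi.single i 1, ?_⟩
      show 2 * ((b *ᵥ v) ⬝ᵥ (b *ᵥ ((B : Matrix (Fin n) (Fin n) F) *ᵥ Pi.single i 1))) ≠ 0
      rw [hBb, dotProduct_single, mul_one]
      exact mul_ne_zero h2 hi'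
  · rintro _ ⟨x, hx, rfl⟩ v
    obtain ⟨π, d, hd, hij⟩ := hB x hx
    set D : Matrix (Fin n) (Fin n) F := ((B⁻¹ * x * B : GL (Fin n) F) : Matrix (Fin n) (Fin n) F) with hD
    have hbx : b * (x : Matrix (Fin n) (Fin n) F) = D * b := by
      rw [hD, hb, ← Units.val_mul, ← Units.val_mul, mul_inv_cancel_right]
    have hDv : ∀ w : Fin n → F, ∀ j, (D *ᵥ w) (π j) = d j * w j := by
      intro w j
      rw [Matrix.mulVec, dotProduct, Finset.sum_eq_single j]
      · rw [hij, if_pos rfl]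
      · intro k _ hk
        rw [hij, if_neg (fun h => hk (π.injective h).symm), zero_mul]
      · simp
    show (b *ᵥ ((x : Matrix (Fin n) (Fin n) F) *ᵥ v)) ⬝ᵥ (b *ᵥ ((x : Matrix (Fin n) (Fin n) F) *ᵥ v)) = _
    rw [Matrix.mulVec_mulVec, hbx, ← Matrix.mulVec_mulVec]
    show ∑ i, (D *ᵥ (b *ᵥ v)) i * (D *ᵥ (b *ᵥ v)) i = _
    rw [← Equiv.sum_comp π]
    apply Finset.sum_congr rfl
    intro j _
    rw [hDv]
    have := hd j
    linear_combination (b *ᵥ v) j * (b *ᵥ v) j * this

/-- line decompositions over small fields -/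
theorem lines_small [Fintype F] (hn : 3 ≤ n) (hq : Fintype.card F ≤ 4) {t : ℕ} {D : Fin t → Submodule F (Fin n → F)}
    (hD : IsMDecomposition 1 D) :
    (∃ W : Submodule F (Fin n → F), W ≠ ⊥ ∧ W ≠ ⊤ ∧ decompositionStabilizer D ≤ subspaceStabilizer W) ∨
    (∃ Q : (Fin n → F) → F, IsNondegenerateQuadraticForm Q ∧ (2 : F) ≠ 0 ∧
      decompositionStabilizer D ≤ quadSimilarityGroup Q) ∨
    (∃ (σ : F ≃+* F) (f : (Fin n → F) → (Fin n → F) → F), IsUnitaryForm σ f ∧
      decompositionStabilizer D ≤ similarityGroup f) := by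
  classical
  haveI : Nonempty (Fin n) := ⟨⟨0, by omega⟩⟩
  obtain ⟨B, hB⟩ := mono_of_lines hD
  have hq2 : 1 < Fintype.card F := Fintype.one_lt_card
  obtain ⟨p, hch⟩ := CharP.exists F
  haveI := hch
  have hp : p.Prime := CharP.char_is_prime F p
  haveI : Fact p.Prime := ⟨hp⟩
  obtain ⟨e', -, hcard⟩ := FiniteField.card F p
  have h3 : Fintype.card F = 2 ∨ Fintype.card F = 3 ∨ Fintype.card F = 4 := by omega
  rcases h3 with h3 | h3 | h3
  · left
    rw [h3] at hB
    let v : Fin n → F := (B : Matrix (Fin n) (Fin n) F) *ᵥ (fun _ => 1)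
    have hv : v ≠ 0 := by
      intro h0
      have h4 := inv_mulVec_self B (fun _ => (1 : F))
      change _ *ᵥ v = _ at h4
      rw [h0, Matrix.mulVec_zero] at h4
      have := congrFun h4 ⟨0, by omega⟩
      simp at this
    refine ⟨Submodule.span F {v}, ?_, ?_, ?_⟩
    · intro h
      have : v ∈ Submodule.span F {v} := Submodule.mem_span_singleton_self v
      rw [h, Submodule.mem_bot] at this
      exact hv this
    · intro h
      have h4 := finrank_span_singleton (K := F) hv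
      rw [h, finrank_top, Module.finrank_fintype_fun_eq_card, Fintype.card_fin] at h4
      omega
    · intro g hg
      obtain ⟨π, d, hd, hij⟩ := hB g hg
      rw [mem_stab_iff]
      intro w hw
      obtain ⟨c, rfl⟩ := Submodule.mem_span_singleton.1 hw
      have hgv : (g : Matrix (Fin n) (Fin n) F) *ᵥ v = v := by
        have h5 : ((B⁻¹ * g * B : GL (Fin n) F) : Matrix (Fin n) (Fin n) F) *ᵥ (fun _ => (1 : F)) = fun _ => 1 := by
          funext i
          rw [Matrix.mulVec, dotProduct, Finset.sum_eq_single (π.symm i)]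
          · rw [hij, if_pos (by simp)]
            have := hd (π.symm i)
            simpa using this
          · intro k _ hk
            rw [hij, if_neg, zero_mul]
            rintro rfl
            exact hk (by simp)
          · simp
        have h6 := congrArg (fun w => (B : Matrix (Fin n) (Fin n) F) *ᵥ w) h5
        simp only [Matrix.mulVec_mulVec] at h6
        rw [← Units.val_mul] at h6
        have h7 : B * (B⁻¹ * g * B) = g * B := by group
        rw [h7, Units.val_mul, ← Matrix.mulVec_mulVec] at h6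
        exact h6
      rw [Matrix.mulVec_smul, hgv]
      exact Submodule.smul_mem _ _ (Submodule.mem_span_singleton_self v)
  · right; left
    have h2 : (2 : F) ≠ 0 := by
      intro h0
      have h4 : p ∣ 2 := (CharP.cast_eq_zero_iff F p 2).1 (by exact_mod_cast h0)
      have h5 := (Nat.prime_dvd_prime_iff_eq hp Nat.prime_two).1 h4
      subst h5
      rw [h3] at hcard
      have : 2 ∣ 3 := by rw [hcard]; exact dvd_pow_self 2 e'.pos.ne'
      omega
    rw [h3] at hB
    obtain ⟨Q, hQ, hfix⟩ := quad_of_monomial h2 (decompositionStabilizer D) hB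
    refine ⟨Q, hQ, h2, fun g hg => ⟨1, fun v => ?_⟩⟩
    rw [Units.val_one, one_mul]
    exact hfix _ ⟨g, hg, rfl⟩ v
  · right; right
    have hp2 : p = 2 := by
      have : p ∣ 2 ^ 2 := by
        have h4 : p ∣ Fintype.card F := by rw [hcard]; exact dvd_pow_self p e'.pos.ne'
        rw [h3] at h4; exact h4
      exact (Nat.prime_dvd_prime_iff_eq hp Nat.prime_two).1 (hp.dvd_of_dvd_pow this)
    subst hp2
    have hcard2 : Fintype.card F = 2 ^ 2 := by rw [h3]; rfl
    obtain ⟨σ, hσ1, hσ2, hσ3⟩ := exists_invol (F := F) (p := 2) (e := 2) (d := 1) hcard2 one_pos rfl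
    rw [h3] at hB
    obtain ⟨f, hf, hfix⟩ := unitary_of_monomial (by omega) (decompositionStabilizer D) hB σ hσ1 hσ2 (by
      intro d hd
      rw [hσ3, pow_one, ← pow_succ']
      exact hd)
    refine ⟨σ, f, hf, fun g hg => ⟨1, fun u v => ?_⟩⟩
    rw [Units.val_one, one_mul]
    exact hfix _ ⟨g, hg, rfl⟩ u v

end Cfsg.Agent.H29.Asc
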