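import Mathlib
import Cfsg.Agent.H29_Fm16
import Cfsg.Agent.H29_Max3

set_option autoImplicit false

/-! symplectic forms: extension fields and quadratic forms -/

namespace Cfsg.Agent.H29.Fm

open Matrix Module Cfsg.Geo Cfsg.Agent.H29.Clifford Cfsg.Agent.H29.Asc Cfsg.Agent.H29.AscF Cfsg.Agent.H29.Trv
  Cfsg.Agent.H29.AscT
open scoped Kronecker commutatorElement

variable {F : Type*} [Field F] {n k m r : ℕ}
variable {f : (Fin n → F) → (Fin n → F) → F}
variable {G : Subgroup (GL (Fin n) F)}

/-- alternating non-degenerate forms -/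
structure SpF (f : (Fin n → F) → (Fin n → F) → F) : Prop where
  sfm : SFm (RingEquiv.refl F) (-1) f
  alt : ∀ v, f v v = 0

theorem SpF.of_symp (h : IsSymplecticForm f) : SpF f := ⟨SFm.of_symp h, h.alternating⟩

theorem SpF.skew (h : SpF f) (u v : Fin n → F) : f u v = - f v u := by
  have := h.sfm.herm u v
  rwa [RingEquiv.refl_apply, neg_one_mul] at this

theorem SpF.smul_right (h : SpF f) (c : F) (u v : Fin n → F) : f u (c • v) = c * f u v := by
  have := h.sfm.smul_right c u v
  rwa [RingEquiv.refl_apply] at this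

theorem SpF.symp (h : SpF f) : IsSymplecticForm f where
  bilinear := ⟨h.sfm.add_left, h.sfm.smul_left, h.sfm.add_right, fun v c x => by
    first | exact h.smul_right c v x | exact h.smul_right v c x⟩
  skew := h.skew
  alternating := h.alt
  nondegenerate := h.sfm.isNondeg

/-- quadratic forms from splittings of the identity in characteristic two -/
theorem quad_theta (h : SpF f) (h2 : (2 : F) = 0) {θ θ' : (Fin n → F) →ₗ[F] (Fin n → F)}
    (hadj : ∀ u v, f (θ u) v = f u (θ' v)) (hsum : ∀ v, θ v + θ' v = v) :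
    IsNondegenerateQuadraticForm (fun v => f (θ v) v) ∧ (∀ u v, QuadraticMap.polar (fun v => f (θ v) v) u v = f u v) ∧
      ∀ g : GL (Fin n) F, (∀ u v, f ((g : Matrix (Fin n) (Fin n) F) *ᵥ u) ((g : Matrix (Fin n) (Fin n) F) *ᵥ v) = f u v) →
        ((∀ v, θ ((g : Matrix (Fin n) (Fin n) F) *ᵥ v) = (g : Matrix (Fin n) (Fin n) F) *ᵥ θ v) ∨
        (∀ v, θ ((g : Matrix (Fin n) (Fin n) F) *ᵥ v) = (g : Matrix (Fin n) (Fin n) F) *ᵥ θ' v)) →
        g ∈ quadSimilarityGroup (fun v => f (θ v) v) := by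
  have hsym : ∀ u v, f u v = f v u := by
    intro u v
    rw [h.skew u v]
    linear_combination -(f v u) * h2
  have hpol : ∀ u v, QuadraticMap.polar (fun v => f (θ v) v) u v = f u v := by
    intro u v
    show f (θ (u + v)) (u + v) - f (θ u) u - f (θ v) v = f u v
    rw [map_add, h.sfm.add_left, h.sfm.add_right, h.sfm.add_right, hsym (θ v) u]
    have h3 : f u (θ v) = f (θ' u) v := by
      rw [hsym u, hadj, hsym]
    have h4 : f (θ u) v + f (θ' u) v = f u v := by rw [← h.sfm.add_left, hsum]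
    rw [h3]
    linear_combination h4
  have hpe : QuadraticMap.polar (fun v => f (θ v) v) = f := by
    funext u v
    exact hpol u v
  refine ⟨⟨?_, ?_, ?_⟩, hpol, ?_⟩
  · intro c v
    show f (θ (c • v)) (c • v) = c ^ 2 * f (θ v) v
    rw [map_smul, h.sfm.smul_left, h.smul_right]
    ring
  · rw [hpe]; exact h.symp.bilinear
  · rw [hpe]; exact h.sfm.isNondeg
  · intro g hg hθ
    refine ⟨1, fun v => ?_⟩
    show f (θ ((g : Matrix (Fin n) (Fin n) F) *ᵥ v)) ((g : Matrix (Fin n) (Fin n) F) *ᵥ v) = ((1 : Fˣ) : F) * f (θ v) v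
    rw [Units.val_one, one_mul]
    rcases hθ with h3 | h3
    · rw [h3, hg]
    · rw [h3, hg, hsym, ← hadj]

/-- the adjoint on a commutative adjoint-closed algebra -/
theorem adj_unique (h : SpF f) {x y z : Matrix (Fin n) (Fin n) F} (hy : ∀ u v, f (x *ᵥ u) v = f u (y *ᵥ v))
    (hz : ∀ u v, f (x *ᵥ u) v = f u (z *ᵥ v)) : y = z := by
  apply Cfsg.Agent.H29.Trv.ext_mulVec
  intro v
  apply h.sfm.ext_right
  intro u
  rw [← hy, hz]

/-- a field of prime degree that is not self-adjoint has degree two -/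
theorem fld_not_sa [Fintype F] (hn : 0 < n) (h : SpF f) (hr : r.Prime) {K : Subalgebra F (Matrix (Fin n) (Fin n) F)}
    (hK : IsFieldSubalgebra r K) (hadj : IsAdjointClosedFor f K) (hns : ¬ IsSelfAdjointFor f K) :
    r = 2 ∧ ∃ k₀ ∈ K, ∃ k₁ ∈ K, (∀ u v, f (k₀ *ᵥ u) v = f u (k₁ *ᵥ v)) ∧ k₀ ≠ k₁ ∧ (∃ a : F, k₀ + k₁ = a • 1) ∧
      (∃ b : F, k₀ * k₁ = b • 1) := by
  classical
  haveI : Nonempty (Fin n) := ⟨⟨0, hn⟩⟩
  have h1 : ∀ k : K, ∃ k' : K, ∀ u v, f ((k : Matrix (Fin n) (Fin n) F) *ᵥ u) v = f u ((k' : Matrix (Fin n) (Fin n) F) *ᵥ v) := by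
    intro k
    obtain ⟨k', hk', hkk⟩ := hadj k k.2
    exact ⟨⟨k', hk'⟩, hkk⟩
  choose s hs using h1
  have hs2 : ∀ k, s (s k) = k := by
    intro k
    apply Subtype.ext
    refine adj_unique h (hs (s k)) ?_
    intro u v
    rw [h.skew, ← hs, ← h.skew]
  have hsmul : ∀ k l, s (k * l) = s k * s l := by
    intro k l
    apply Subtype.ext
    refine adj_unique h (hs (k * l)) ?_
    intro u v
    have e1 : ((s k * s l : K) : Matrix (Fin n) (Fin n) F) = (s l : Matrix (Fin n) (Fin n) F) * (s k : Matrix (Fin n) (Fin n) F) :=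
      hK.comm _ (s k).2 _ (s l).2
    rw [e1]
    show f (((k : Matrix (Fin n) (Fin n) F) * (l : Matrix (Fin n) (Fin n) F)) *ᵥ u) v = _
    rw [← Matrix.mulVec_mulVec, ← Matrix.mulVec_mulVec, hs, hs]
  have hsadd : ∀ k l, s (k + l) = s k + s l := by
    intro k l
    apply Subtype.ext
    refine adj_unique h (hs (k + l)) ?_
    intro u v
    show f (((k : Matrix (Fin n) (Fin n) F) + (l : Matrix (Fin n) (Fin n) F)) *ᵥ u) v =
      f u (((s k : Matrix (Fin n) (Fin n) F) + (s l : Matrix (Fin n) (Fin n) F)) *ᵥ v)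
    rw [Matrix.add_mulVec, Matrix.add_mulVec, h.sfm.add_left, h.sfm.add_right, hs, hs]
  have hssc : ∀ c : F, s (algebraMap F K c) = algebraMap F K c := by
    intro c
    apply Subtype.ext
    refine adj_unique h (hs (algebraMap F K c)) ?_
    intro u v
    show f ((algebraMap F (Matrix (Fin n) (Fin n) F) c) *ᵥ u) v = f u ((algebraMap F (Matrix (Fin n) (Fin n) F) c) *ᵥ v)
    rw [Algebra.algebraMap_eq_smul_one, Matrix.smul_mulVec, Matrix.smul_mulVec, Matrix.one_mulVec, Matrix.one_mulVec,
      h.sfm.smul_left, h.smul_right]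
  haveI : NoZeroDivisors K := by
    constructor
    intro a b hab
    by_contra hcon
    push Not at hcon
    obtain ⟨ha, hb⟩ := hcon
    obtain ⟨y, hy, hay⟩ := hK.inv a a.2 (fun h => ha (Subtype.ext h))
    apply hb
    apply Subtype.ext
    have h3 : (a : Matrix (Fin n) (Fin n) F) * (b : Matrix (Fin n) (Fin n) F) = 0 := congrArg Subtype.val hab
    have h4 : y * (a : Matrix (Fin n) (Fin n) F) = 1 := mul_eq_one_comm.1 hay
    calc (b : Matrix (Fin n) (Fin n) F) = y * (a : Matrix (Fin n) (Fin n) F) * b := by rw [h4, one_mul]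
      _ = 0 := by rw [mul_assoc, h3, mul_zero]
  haveI : Nontrivial K := ⟨0, 1, fun h => by
    have h3 : (0 : Matrix (Fin n) (Fin n) F) = 1 := congrArg Subtype.val h
    exact zero_ne_one h3⟩
  haveI : IsDomain K := NoZeroDivisors.to_isDomain K
  haveI := Subalgebra.isSimpleOrder_of_finrank_prime F K (by rw [hK.finrank_eq]; exact hr)
  let L : Subalgebra F K :=
    { carrier := {k | s k = k}
      mul_mem' := by
        intro a b ha hb
        show s (a * b) = a * b
        rw [hsmul, ha, hb]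
      add_mem' := by
        intro a b ha hb
        show s (a + b) = a + b
        rw [hsadd, ha, hb]
      algebraMap_mem' := hssc }
  have hLmem : ∀ k, k ∈ L ↔ s k = k := fun k => Iff.rfl
  have hL : L = ⊥ := by
    refine (eq_bot_or_eq_top L).resolve_right ?_
    intro htop
    apply hns
    intro k hk u v
    have h3 : (⟨k, hk⟩ : K) ∈ L := by rw [htop]; trivial
    have h4 := hs ⟨k, hk⟩ u v
    rw [(hLmem _).1 h3] at h4
    exact h4
  have hsc : ∀ k, s k = k → ∃ a : F, k = algebraMap F K a := by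
    intro k hk
    have : k ∈ L := hk
    rw [hL, Algebra.mem_bot] at this
    obtain ⟨a, ha⟩ := this
    exact ⟨a, ha.symm⟩
  obtain ⟨k₀, hk₀⟩ : ∃ k₀, s k₀ ≠ k₀ := by
    by_contra hcon
    push Not at hcon
    apply hns
    intro k hk u v
    have h4 := hs ⟨k, hk⟩ u v
    rw [hcon] at h4
    exact h4
  have hcomm : ∀ a b : K, a * b = b * a := fun a b => Subtype.ext (hK.comm _ a.2 _ b.2)
  have hspan : ∀ x : K, ∃ a b : F, x = algebraMap F K a + b • k₀ := by
    intro x
    have hd : k₀ - s k₀ ≠ 0 := sub_ne_zero.2 (Ne.symm hk₀)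
    obtain ⟨y, hy, hdy⟩ := hK.inv (k₀ - s k₀ : K) (k₀ - s k₀ : K).2 (fun h => hd (Subtype.ext h))
    set y' : K := ⟨y, hy⟩ with hy'
    have hdy' : (k₀ - s k₀) * y' = 1 := Subtype.ext hdy
    have hneg : ∀ a, s (-a) = - s a := by
      intro a
      have h3 := hsadd a (-a)
      rw [add_neg_cancel] at h3
      have h4 : s 0 = 0 := by
        have := hsadd 0 0
        rw [add_zero] at this
        exact left_eq_add.1 this
      rw [h4] at h3
      exact (neg_eq_of_add_eq_zero_right h3.symm).symm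
    have hant : ∀ a, s (a - s a) + (a - s a) = 0 := by
      intro a
      rw [sub_eq_add_neg, hsadd, hneg, hs2]
      abel
    set d := k₀ - s k₀ with hddef
    set e := x - s x with hedef
    have hqd : (e * y') * d = e := by rw [mul_assoc, hcomm y', hdy', mul_one]
    have hq1 : s (e * y') * d = e := by
      have e1 : s (e * y') * (s d + d) = 0 := by rw [hant, mul_zero]
      rw [mul_add, ← hsmul, hqd] at e1
      have e2 := hant x
      exact add_left_cancel (e1.trans e2.symm)
    have hq2 : s (e * y') = e * y' := by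
      have e3 : (s (e * y')) * d * y' = (e * y') * d * y' := by rw [hq1, hqd]
      rwa [mul_assoc, mul_assoc (e * y'), hdy', mul_one, mul_one] at e3
    obtain ⟨b, hb⟩ := hsc (e * y') hq2
    have hxb : e = b • d := by
      calc e = e * y' * d := hqd.symm
        _ = b • d := by rw [hb, Algebra.smul_def]
    have hsb : ∀ (c : F) a, s (c • a) = c • s a := by
      intro c a
      rw [Algebra.smul_def, hsmul, hssc, ← Algebra.smul_def]
    obtain ⟨a, ha⟩ := hsc (x - b • k₀) (by
      rw [sub_eq_add_neg, hsadd, hneg, hsb]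
      rw [hddef, hedef, smul_sub] at hxb
      have : s x = x - b • k₀ + b • s k₀ := by
        have h5 : s x = x - (x - s x) := by abel
        rw [h5, hxb]; abel
      rw [this]; abel)
    exact ⟨a, b, by rw [← ha]; abel⟩
  have hr2 : r ≤ 2 := by
    rw [← hK.finrank_eq]
    have htop : Submodule.span F (Set.range ![(1 : K), k₀]) = ⊤ := by
      rw [eq_top_iff]
      intro x _
      obtain ⟨a, b, rfl⟩ := hspan x
      apply Submodule.add_mem
      · rw [Algebra.algebraMap_eq_smul_one]
        exact Submodule.smul_mem _ _ (Submodule.subset_span ⟨0, rfl⟩)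
      · exact Submodule.smul_mem _ _ (Submodule.subset_span ⟨1, rfl⟩)
    have := finrank_range_le_card (R := F) ![(1 : K), k₀]
    rw [Set.finrank, htop, finrank_top, Fintype.card_fin] at this
    exact this
  refine ⟨le_antisymm hr2 hr.two_le, k₀, k₀.2, s k₀, (s k₀).2, hs k₀, fun h => hk₀ (Subtype.ext h).symm, ?_, ?_⟩
  · obtain ⟨a, ha⟩ := hsc (k₀ + s k₀) (by rw [hsadd, hs2, add_comm])
    refine ⟨a, ?_⟩
    have := congrArg Subtype.val ha
    rw [← Algebra.algebraMap_eq_smul_one]
    exact this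
  · obtain ⟨b, hb⟩ := hsc (k₀ * s k₀) (by rw [hsmul, hs2, hcomm])
    refine ⟨b, ?_⟩
    have := congrArg Subtype.val hb
    rw [← Algebra.algebraMap_eq_smul_one]
    exact this

end Cfsg.Agent.H29.Fm
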