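import Mathlib
import Cfsg.Agent.H29_Sy1

set_option autoImplicit false

/-! symplectic forms: extension fields, subfields, II -/

namespace Cfsg.Agent.H29.Fm

open Matrix Module Cfsg.Geo Cfsg.Agent.H29.Clifford Cfsg.Agent.H29.Asc Cfsg.Agent.H29.AscF Cfsg.Agent.H29.Trv
  Cfsg.Agent.H29.AscT
open scoped Kronecker commutatorElement

variable {F : Type*} [Field F] {n k m r : ℕ}
variable {f : (Fin n → F) → (Fin n → F) → F}
variable {G : Subgroup (GL (Fin n) F)}

theorem sa_add (h : SpF f) {κ : Matrix (Fin n) (Fin n) F} (hk : ∀ u v, f (κ *ᵥ u) v = f u (κ *ᵥ v)) (u v : Fin n → F) :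
    f (κ *ᵥ (u + v)) (u + v) = f (κ *ᵥ u) u + f (κ *ᵥ v) v := by
  rw [Matrix.mulVec_add, h.sfm.add_left, h.sfm.add_right, h.sfm.add_right]
  have h1 : f (κ *ᵥ v) u = - f (κ *ᵥ u) v := by rw [hk, h.skew]
  rw [h1]
  ring

theorem conj_mem_norm {K : Subalgebra F (Matrix (Fin n) (Fin n) F)} {g : GL (Fin n) F} (hg : g ∈ subalgebraNormalizer K)
    {κ : Matrix (Fin n) (Fin n) F} (hκ : κ ∈ K) :
    ((g⁻¹ : GL (Fin n) F) : Matrix (Fin n) (Fin n) F) * κ * (g : Matrix (Fin n) (Fin n) F) ∈ K := by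
  rw [hg]
  have h1 : (g : Matrix (Fin n) (Fin n) F) * ((g⁻¹ : GL (Fin n) F) : Matrix (Fin n) (Fin n) F) = 1 := by
    rw [← Units.val_mul, mul_inv_cancel, Units.val_one]
  have h2 : (g : Matrix (Fin n) (Fin n) F) * (((g⁻¹ : GL (Fin n) F) : Matrix (Fin n) (Fin n) F) * κ * (g : Matrix (Fin n) (Fin n) F)) *
      ((g⁻¹ : GL (Fin n) F) : Matrix (Fin n) (Fin n) F) = κ := by
    calc _ = ((g : Matrix (Fin n) (Fin n) F) * ((g⁻¹ : GL (Fin n) F) : Matrix (Fin n) (Fin n) F)) * κ *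
          ((g : Matrix (Fin n) (Fin n) F) * ((g⁻¹ : GL (Fin n) F) : Matrix (Fin n) (Fin n) F)) := by simp only [mul_assoc]
      _ = κ := by rw [h1, one_mul, mul_one]
  rw [h2]
  exact hκ

theorem comm_conj {g : GL (Fin n) F} (κ : Matrix (Fin n) (Fin n) F) (v : Fin n → F) :
    κ *ᵥ ((g : Matrix (Fin n) (Fin n) F) *ᵥ v) = (g : Matrix (Fin n) (Fin n) F) *ᵥ
      ((((g⁻¹ : GL (Fin n) F) : Matrix (Fin n) (Fin n) F) * κ * (g : Matrix (Fin n) (Fin n) F)) *ᵥ v) := by
  rw [Matrix.mulVec_mulVec, Matrix.mulVec_mulVec]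
  congr 1
  rw [← mul_assoc, ← mul_assoc, ← Units.val_mul, mul_inv_cancel, Units.val_one, one_mul]

/-- self-adjoint fields are alternating for irreducible groups -/
theorem sa_alt [Fintype F] (hn : 0 < n) (h : SpF f) {K : Subalgebra F (Matrix (Fin n) (Fin n) F)}
    (hK : IsFieldSubalgebra r K) (hsa : IsSelfAdjointFor f K) (hG : Fx f G) (hirr : ActsIrreducibly (matrixSet G))
    (hle : G ≤ subalgebraNormalizer K) : ∀ κ ∈ K, ∀ v, f (κ *ᵥ v) v = 0 := by
  classical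
  let W : Submodule F (Fin n → F) :=
    { carrier := {v | ∀ κ ∈ K, f (κ *ᵥ v) v = 0}
      add_mem' := by
        intro u v hu hv κ hκ
        rw [sa_add h (hsa κ hκ), hu κ hκ, hv κ hκ, add_zero]
      zero_mem' := by
        intro κ hκ
        exact h.sfm.zero_right _
      smul_mem' := by
        intro c v hv κ hκ
        rw [Matrix.mulVec_smul, h.sfm.smul_left, h.smul_right, hv κ hκ, mul_zero, mul_zero] }
  have hWmem : ∀ v, v ∈ W ↔ ∀ κ ∈ K, f (κ *ᵥ v) v = 0 := fun v => Iff.rfl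
  rcases hirr W (by
    rintro _ ⟨g, hg, rfl⟩ _ ⟨v, hv, rfl⟩
    show (g : Matrix (Fin n) (Fin n) F) *ᵥ v ∈ W
    intro κ hκ
    rw [comm_conj, hG g hg]
    exact hv _ (conj_mem_norm (hle hg) hκ)) with hW | hW
  · exfalso
    let S : (Fin n → F) → (K →ₗ[F] F) := fun v =>
      { toFun := fun κ => f ((κ : Matrix (Fin n) (Fin n) F) *ᵥ v) v
        map_add' := by
          intro a b
          show f (((a : Matrix (Fin n) (Fin n) F) + (b : Matrix (Fin n) (Fin n) F)) *ᵥ v) v = _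
          rw [Matrix.add_mulVec, h.sfm.add_left]
        map_smul' := by
          intro c a
          show f ((c • (a : Matrix (Fin n) (Fin n) F)) *ᵥ v) v = _
          rw [Matrix.smul_mulVec, h.sfm.smul_left]
          rfl }
    have hinj : Function.Injective S := by
      intro u v huv
      have h1 : u - v ∈ W := by
        intro κ hκ
        have h2 : f (κ *ᵥ u) u = f (κ *ᵥ v) v := LinearMap.congr_fun huv ⟨κ, hκ⟩
        have h3 := sa_add h (hsa κ hκ) (u - v) v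
        rw [sub_add_cancel, h2] at h3
        exact right_eq_add.1 h3
      rw [hW, Submodule.mem_bot] at h1
      exact sub_eq_zero.1 h1
    have hne : ∃ l : K →ₗ[F] F, l 1 ≠ 0 := by
      have h1 : (1 : K) ≠ 0 := by
        haveI : Nonempty (Fin n) := ⟨⟨0, hn⟩⟩
        intro h3
        have h4 : (1 : Matrix (Fin n) (Fin n) F) = 0 := congrArg Subtype.val h3
        exact one_ne_zero h4
      by_contra hno
      push Not at hno
      exact h1 ((Module.forall_dual_apply_eq_zero_iff F (1 : K)).1 hno)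
    obtain ⟨l, hl⟩ := hne
    have hnot : l ∉ Set.range S := by
      rintro ⟨v, rfl⟩
      apply hl
      show f ((1 : Matrix (Fin n) (Fin n) F) *ᵥ v) v = 0
      rw [Matrix.one_mulVec, h.alt]
    haveI : Finite (K →ₗ[F] F) := Module.finite_of_finite F
    haveI : Fintype (K →ₗ[F] F) := Fintype.ofFinite _
    have hlt := Fintype.card_lt_of_injective_of_notMem S hinj hnot
    have e1 : Fintype.card (K →ₗ[F] F) = Fintype.card F ^ r := by
      rw [Module.card_eq_pow_finrank (K := F), Module.finrank_linearMap, Module.finrank_self, mul_one, hK.finrank_eq]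
    have e2 : Fintype.card (Fin n → F) = Fintype.card F ^ n := by
      rw [Module.card_eq_pow_finrank (K := F), Module.finrank_fintype_fun_eq_card, Fintype.card_fin]
    rw [e1, e2] at hlt
    have h5 := Nat.le_of_dvd hn (fld_dvd hn hK)
    have h6 := Nat.pow_le_pow_right (Fintype.card_pos (α := F)) h5
    omega
  · intro κ hκ v
    have : v ∈ W := by rw [hW]; trivial
    exact this κ hκ

/-- subfields and symplectic forms -/
theorem subfield_symp [Fintype F] (hn : 0 < n) (h : SpF f) {P : Subgroup (GL (Fin n) F)} (henv : env P = ⊤)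
    {F₀ : Subfield F} (hF₀ : F₀ ≠ ⊤) (hreal : RealisableOver F₀ (matrixSet P))
    (hsim : ∀ s ∈ P, ∃ c ∈ F₀, c ≠ 0 ∧ ∀ u v, f ((s : Matrix (Fin n) (Fin n) F) *ᵥ u)
      ((s : Matrix (Fin n) (Fin n) F) *ᵥ v) = c * f u v) :
    ∃ (F₁ : Subfield F) (r : ℕ) (Q : GL (Fin n) F) (ζ : F), r.Prime ∧ Fintype.card F = Nat.card F₁ ^ r ∧ ζ ≠ 0 ∧
      IsFormRationalStructure f F₁ ζ Q ∧ ∀ g : GL (Fin n) F, (∀ x ∈ P, g * x * g⁻¹ ∈ P) → g ∈ subfieldSubgroup F₁ Q := by
  classical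
  haveI : Nonempty (Fin n) := ⟨⟨0, hn⟩⟩
  obtain ⟨F₁, r, hle, hr, hcard⟩ := exists_max_subfield F₀ hF₀
  obtain ⟨B', hB'⟩ := hreal
  set B := B'⁻¹ with hBdef
  have hmem : ∀ g : GL (Fin n) F, (∀ x ∈ P, g * x * g⁻¹ ∈ P) → g ∈ subfieldSubgroup F₁ B :=
    fun g hg => subfield_mono hle _ (normaliser_le_subfield F₀ hn henv B' hB' hg)
  have hB : ∀ s ∈ P, ∀ i j, ((B⁻¹ * s * B : GL (Fin n) F) : Matrix (Fin n) (Fin n) F) i j ∈ F₁ := by
    intro s hs i j
    rw [hBdef, inv_inv, Units.val_mul, Units.val_mul]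
    exact hle (hB' _ ⟨s, hs, rfl⟩ i j)
  obtain ⟨i₀, j₀, h0, hrat⟩ := rational_gram hn h.sfm henv F₁ B hB (fun s hs => by
    obtain ⟨c, hc, hc0, hcs⟩ := hsim s hs
    exact ⟨c, hle hc, hc0, hcs⟩)
  exact ⟨F₁, r, B, _, hr, hcard, inv_ne_zero h0, rational_of_entries h.sfm hrat, hmem⟩

end Cfsg.Agent.H29.Fm
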