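import Mathlib
import Cfsg.Agent.H29_Sy2
import Cfsg.Agent.H16_Desc

set_option autoImplicit false

/-! descent to subfields through twists -/

namespace Cfsg.Agent.H29.Fm

open Matrix Module Cfsg.Geo Cfsg.Agent.H29.Clifford Cfsg.Agent.H29.Asc Cfsg.Agent.H29.AscF Cfsg.Agent.H29.Trv
  Cfsg.Agent.H29.AscT
open scoped Kronecker commutatorElement

variable {F : Type*} [Field F] {n k m r : ℕ}
variable {f : (Fin n → F) → (Fin n → F) → F}
variable {G : Subgroup (GL (Fin n) F)}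

/-- elements of the fixed field are norms -/
theorem norm_pow [Fintype F] {q₀ r : ℕ} (hq₀ : 1 < q₀) (hcard : Fintype.card F = q₀ ^ r) {c : Fˣ}
    (hc : c ^ q₀ = c) : ∃ d : Fˣ, d ^ (∑ i ∈ Finset.range r, q₀ ^ i) = c := by
  set s := ∑ i ∈ Finset.range r, q₀ ^ i with hs
  have hgeom : s * (q₀ - 1) = q₀ ^ r - 1 := by
    have key : ∀ r : ℕ, (∑ i ∈ Finset.range r, q₀ ^ i) * (q₀ - 1) + 1 = q₀ ^ r := by
      obtain ⟨t, rfl⟩ : ∃ t, q₀ = t + 1 := ⟨q₀ - 1, by omega⟩
      intro r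
      rw [Nat.add_sub_cancel]
      induction r with
      | zero => simp
      | succ r ih =>
        rw [Finset.sum_range_succ, pow_succ, ← ih]
        have := ih
        nlinarith
    have := key r
    rw [← hs] at this
    omega
  have hcq : c ^ (q₀ - 1) = 1 := by
    apply mul_right_cancel (b := c)
    rw [← pow_succ, Nat.sub_add_cancel hq₀.le, one_mul]
    exact hc
  obtain ⟨g, hg⟩ := IsCyclic.exists_generator (α := Fˣ)
  obtain ⟨k, hk⟩ := mem_powers_iff_mem_zpowers.2 (hg c)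
  have hk' : g ^ k = c := hk
  have hord : orderOf g = s * (q₀ - 1) := by
    rw [hgeom, ← hcard, ← card_units]
    exact orderOf_eq_card_of_forall_mem_zpowers hg
  have hdvd : s * (q₀ - 1) ∣ k * (q₀ - 1) := by
    rw [← hord]
    apply orderOf_dvd_of_pow_eq_one
    rw [pow_mul, hk', hcq]
  obtain ⟨j, hj⟩ := Nat.dvd_of_mul_dvd_mul_right (by omega : 0 < q₀ - 1) hdvd
  refine ⟨g ^ j, ?_⟩
  rw [← pow_mul, mul_comm, ← hj, hk']

/-- a group equivalent to its Galois twist is realisable over the fixed field -/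
theorem realise_of_twist [Fintype F] (hn : 0 < n) {R : Subgroup (GL (Fin n) F)} (henv : env R = ⊤)
    {F₁ : Subfield F} {r : ℕ} (hr : r.Prime) (hcard : Fintype.card F = Nat.card F₁ ^ r) {φ : F →+* F}
    (hφ : ∀ x, φ x = x ^ Nat.card F₁) (hφm : ∀ x, x ∈ F₁ ↔ φ x = x) {T : Matrix (Fin n) (Fin n) F} (hT : T ≠ 0)
    (hTR : ∀ x ∈ R, T * (x : Matrix (Fin n) (Fin n) F).map φ = (x : Matrix (Fin n) (Fin n) F) * T) :
    RealisableOver F₁ (matrixSet R) := by
  classical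
  haveI : Nonempty (Fin n) := ⟨⟨0, hn⟩⟩
  set q₀ := Nat.card F₁ with hq₀def
  have hq₀ : 1 < q₀ := Finite.one_lt_card
  have hdet : T.det ≠ 0 := by
    intro hd
    obtain ⟨v, hv, hv0⟩ := Matrix.exists_vecMul_eq_zero_iff.2 hd
    let W : Submodule F (Fin n → F) := LinearMap.range (Matrix.toLin' T)
    rcases (absIrr_of_env_top henv).1 W (by
      rintro _ ⟨x, hx, rfl⟩ _ ⟨_, ⟨u, rfl⟩, rfl⟩
      refine ⟨(x : Matrix (Fin n) (Fin n) F).map φ *ᵥ u, ?_⟩
      rw [Matrix.toLin'_apply, Matrix.toLin'_apply, Matrix.toLin'_apply, Matrix.mulVec_mulVec, Matrix.mulVec_mulVec,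
        hTR x hx]) with h1 | h1
    · apply hT
      apply Cfsg.Agent.H29.Trv.ext_mulVec
      intro u
      have h2 : T *ᵥ u ∈ W := ⟨u, rfl⟩
      rw [h1, Submodule.mem_bot] at h2
      rw [h2, Matrix.zero_mulVec]
    · apply hv
      funext i
      have h2 : (Pi.single i 1 : Fin n → F) ∈ W := by rw [h1]; trivial
      obtain ⟨u, hu⟩ := h2
      have h3 : v ⬝ᵥ (T *ᵥ u) = 0 := by rw [Matrix.dotProduct_mulVec, hv0, zero_dotProduct]
      rw [← Matrix.toLin'_apply, hu, dotProduct_single, mul_one] at h3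
      exact h3
  set g : GL (Fin n) F := Matrix.GeneralLinearGroup.mkOfDetNeZero T hdet with hg
  have hgT : (g : Matrix (Fin n) (Fin n) F) = T := rfl
  clear_value g
  let σ : F ≃+* F := RingEquiv.ofBijective φ (Finite.injective_iff_bijective.1 φ.injective)
  have hσ : ∀ x, σ x = φ x := fun x => rfl
  have hσpow : ∀ (k : ℕ) x, (σ ^ k) x = x ^ (q₀ ^ k) := by
    intro k
    induction k with
    | zero => intro x; rw [pow_zero, pow_zero, pow_one]; rfl
    | succ k ih =>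
      intro x
      rw [pow_succ', pow_succ, pow_mul, ← ih x]
      show σ ((σ ^ k) x) = _
      rw [hσ, hφ]
  have hσr : σ ^ r = 1 := by
    ext x
    rw [hσpow, ← hcard, FiniteField.pow_card]
    rfl
  have hσ1 : σ ≠ 1 := by
    intro h1
    have htop : Nat.card F₁ = Fintype.card F := by
      have : ∀ x : F, x ∈ F₁ := fun x => (hφm x).2 (by
        rw [← hσ, h1]; rfl)
      rw [← Nat.card_eq_fintype_card]
      exact Nat.card_congr ⟨fun x => x, fun x => ⟨x, this x⟩, fun x => rfl, fun x => rfl⟩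
    rw [← hq₀def] at htop
    rw [← htop] at hcard
    have h2 : q₀ ^ 1 < q₀ ^ r := Nat.pow_lt_pow_right hq₀ hr.one_lt
    rw [pow_one] at h2
    omega
  haveI : Fact r.Prime := ⟨hr⟩
  have hord : orderOf σ = r := orderOf_eq_prime hσr hσ1
  have hcommute : ∀ x ∈ R, ∀ v, Cfsg.Agent.H16.Desc.sl g σ ((x : Matrix (Fin n) (Fin n) F) *ᵥ v) =
      (x : Matrix (Fin n) (Fin n) F) *ᵥ Cfsg.Agent.H16.Desc.sl g σ v := by
    intro x hx v
    rw [Cfsg.Agent.H16.Desc.sl, Cfsg.Agent.H16.Desc.map_mulVec, Matrix.mulVec_mulVec, Cfsg.Agent.H16.Desc.sl,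
      Matrix.mulVec_mulVec, hgT]
    congr 1
    exact hTR x hx
  have hiter : ∀ (k : ℕ), ∀ x ∈ R, ∀ v, (Cfsg.Agent.H16.Desc.sl g σ)^[k] ((x : Matrix (Fin n) (Fin n) F) *ᵥ v) =
      (x : Matrix (Fin n) (Fin n) F) *ᵥ (Cfsg.Agent.H16.Desc.sl g σ)^[k] v := by
    intro k x hx
    induction k with
    | zero => intro v; rfl
    | succ k ih =>
      intro v
      rw [Function.iterate_succ_apply, Function.iterate_succ_apply, hcommute x hx, ih]
  set N := Cfsg.Agent.H16.Desc.Nn σ g r with hN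
  have hNr : ∀ v, (Cfsg.Agent.H16.Desc.sl g σ)^[r] v = (N : Matrix (Fin n) (Fin n) F) *ᵥ v := by
    intro v
    rw [Cfsg.Agent.H16.Desc.sl_iter, hσr]
    rfl
  obtain ⟨c, hc⟩ := mem_scalars.1 (scalar_of_commute hn henv (x := N) (by
    intro y hy
    apply Units.ext
    apply Cfsg.Agent.H29.Trv.ext_mulVec
    intro v
    rw [Units.val_mul, Units.val_mul, ← Matrix.mulVec_mulVec, ← Matrix.mulVec_mulVec, ← hNr, ← hNr, hiter r y hy]))
  have hNv : ∀ v, (Cfsg.Agent.H16.Desc.sl g σ)^[r] v = (c : F) • v := by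
    intro v
    rw [hNr, ← hc, sc_coe, Matrix.smul_mulVec, Matrix.one_mulVec]
  have hσc : σ (c : F) = c := by
    have h1 : ∀ v, (Cfsg.Agent.H16.Desc.sl g σ)^[r] (Cfsg.Agent.H16.Desc.sl g σ v) =
        Cfsg.Agent.H16.Desc.sl g σ ((Cfsg.Agent.H16.Desc.sl g σ)^[r] v) := by
      intro v
      rw [← Function.iterate_succ_apply]
      exact Function.iterate_succ_apply' _ _ _
    have h2 : ∃ v, Cfsg.Agent.H16.Desc.sl g σ v ≠ 0 := by
      refine ⟨Pi.single ⟨0, hn⟩ 1, ?_⟩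
      intro h0
      rw [Cfsg.Agent.H16.Desc.sl] at h0
      have h3 := congrArg (fun w => ((g⁻¹ : GL (Fin n) F) : Matrix (Fin n) (Fin n) F) *ᵥ w) h0
      simp only [Matrix.mulVec_mulVec, ← Units.val_mul, inv_mul_cancel, Units.val_one, Matrix.one_mulVec,
        Matrix.mulVec_zero] at h3
      have h4 := congrFun h3 ⟨0, hn⟩
      simp only [Pi.single_eq_same, map_one, Pi.zero_apply] at h4
      exact one_ne_zero h4
    obtain ⟨v, hv⟩ := h2
    have h3 := h1 v
    rw [hNv, hNv, Cfsg.Agent.H16.Desc.sl_smul] at h3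
    have h4 : (σ (c : F) - (c : F)) • Cfsg.Agent.H16.Desc.sl g σ v = 0 := by
      rw [sub_smul, h3, sub_self]
    exact sub_eq_zero.1 ((smul_eq_zero.1 h4).resolve_right hv)
  obtain ⟨d, hd⟩ := norm_pow (q₀ := q₀) (r := r) (c := c⁻¹) hq₀ hcard (by
    rw [inv_pow]
    congr 1
    apply Units.ext
    rw [Units.val_pow_eq_pow_val, ← hφ, ← hσ]
    exact hσc)
  let Θ : (Fin n → F) → (Fin n → F) := fun v => (d : F) • Cfsg.Agent.H16.Desc.sl g σ v
  have hΘ : ∀ v, Θ v = (d : F) • Cfsg.Agent.H16.Desc.sl g σ v := fun v => rfl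
  have hΘk : ∀ (k : ℕ) v, Θ^[k] v = ((d : F) ^ (∑ i ∈ Finset.range k, q₀ ^ i)) • (Cfsg.Agent.H16.Desc.sl g σ)^[k] v := by
    intro k
    induction k with
    | zero => intro v; simp
    | succ k ih =>
      intro v
      rw [Function.iterate_succ_apply', ih, hΘ, Cfsg.Agent.H16.Desc.sl_smul, hσ, hφ, smul_smul,
        Function.iterate_succ_apply']
      congr 1
      rw [← pow_mul, ← pow_succ', Finset.sum_range_succ', pow_zero, Finset.sum_mul]
      congr 2
  have hΘr : ∀ v, Θ^[r] v = v := by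
    intro v
    rw [hΘk, hNv, smul_smul, ← Units.val_pow_eq_pow_val, hd, Units.inv_mul, one_smul]
  have hΘadd : ∀ u v, Θ (u + v) = Θ u + Θ v := by
    intro u v
    rw [hΘ, hΘ, hΘ, Cfsg.Agent.H16.Desc.sl_add, smul_add]
  have hΘsmul : ∀ (a : F) v, Θ (a • v) = σ a • Θ v := by
    intro a v
    rw [hΘ, hΘ, Cfsg.Agent.H16.Desc.sl_smul, smul_comm]
  obtain ⟨B, hB⟩ := Cfsg.Agent.H16.Desc.exists_fixed_gl (ι := Fin n) σ hord hr.pos (τ := Θ) hΘadd hΘsmul hΘr
  have hsum : ∀ (s : Finset (Fin n)) (w : Fin n → (Fin n → F)), Θ (∑ i ∈ s, w i) = ∑ i ∈ s, Θ (w i) := by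
    intro s w
    induction s using Finset.induction_on with
    | empty =>
      rw [Finset.sum_empty, Finset.sum_empty]
      have := hΘadd 0 0
      rw [add_zero] at this
      exact left_eq_add.1 this
    | insert a s ha ih => rw [Finset.sum_insert ha, Finset.sum_insert ha, hΘadd, ih]
  have hBu : ∀ u : Fin n → F, Θ ((B : Matrix (Fin n) (Fin n) F) *ᵥ u) =
      (B : Matrix (Fin n) (Fin n) F) *ᵥ (fun i => σ (u i)) := by
    intro u
    have h3 : ∀ (u : Fin n → F), (B : Matrix (Fin n) (Fin n) F) *ᵥ u =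
        ∑ i, u i • ((B : Matrix (Fin n) (Fin n) F) *ᵥ Pi.single i 1) := by
      intro u
      conv_lhs => rw [pi_eq_sum_univ' u]
      have h4 : ∀ (s : Finset (Fin n)) (v : Fin n → (Fin n → F)),
        (B : Matrix (Fin n) (Fin n) F) *ᵥ (∑ i ∈ s, v i) = ∑ i ∈ s, (B : Matrix (Fin n) (Fin n) F) *ᵥ (v i) :=
        fun s v => map_sum (Matrix.mulVecLin (B : Matrix (Fin n) (Fin n) F)) v s
      rw [h4]
      simp only [Matrix.mulVec_smul]
    rw [h3 u, h3 (fun i => σ (u i)), hsum]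
    apply Finset.sum_congr rfl
    intro i _
    rw [hΘsmul]
    congr 1
    exact hB i
  refine ⟨B⁻¹, ?_⟩
  rintro _ ⟨x, hx, rfl⟩ i j
  rw [inv_inv]
  set M : Matrix (Fin n) (Fin n) F := ((B⁻¹ : GL (Fin n) F) : Matrix (Fin n) (Fin n) F) *
    (x : Matrix (Fin n) (Fin n) F) * (B : Matrix (Fin n) (Fin n) F) with hM
  have hBM : (B : Matrix (Fin n) (Fin n) F) * M = (x : Matrix (Fin n) (Fin n) F) * (B : Matrix (Fin n) (Fin n) F) := by
    rw [hM, ← mul_assoc, ← mul_assoc, ← Units.val_mul, mul_inv_cancel, Units.val_one, one_mul]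
  have hΘx : ∀ v, Θ ((x : Matrix (Fin n) (Fin n) F) *ᵥ v) = (x : Matrix (Fin n) (Fin n) F) *ᵥ Θ v := by
    intro v
    rw [hΘ, hΘ, hcommute x hx, Matrix.mulVec_smul]
  have key : (B : Matrix (Fin n) (Fin n) F) * M.map φ = (B : Matrix (Fin n) (Fin n) F) * M := by
    apply Cfsg.Agent.H29.Trv.ext_mulVec
    intro w
    obtain ⟨u, rfl⟩ : ∃ u : Fin n → F, w = fun i => σ (u i) :=
      ⟨fun i => σ.symm (w i), by funext i; exact (σ.apply_symm_apply _).symm⟩
    have e1 := hBu (M *ᵥ u)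
    rw [Cfsg.Agent.H16.Desc.map_mulVec, Matrix.mulVec_mulVec, Matrix.mulVec_mulVec] at e1
    have e2 := hBu u
    rw [hBM, ← Matrix.mulVec_mulVec, hΘx, e2] at e1
    have e3 : ((x : Matrix (Fin n) (Fin n) F) * (B : Matrix (Fin n) (Fin n) F)) *ᵥ (fun i => σ (u i)) =
      (x : Matrix (Fin n) (Fin n) F) *ᵥ ((B : Matrix (Fin n) (Fin n) F) *ᵥ (fun i => σ (u i))) :=
      (Matrix.mulVec_mulVec _ _ _).symm
    rw [hBM, e3, e1]
    rfl
  have key2 : M.map φ = M := by
    have h1 := congrArg (fun X => ((B⁻¹ : GL (Fin n) F) : Matrix (Fin n) (Fin n) F) * X) key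
    simp only [← mul_assoc, ← Units.val_mul, inv_mul_cancel, Units.val_one, one_mul] at h1
    exact h1
  rw [hφm]
  exact congrFun (congrFun key2 i) j

end Cfsg.Agent.H29.Fm
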