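import Mathlib
import Cfsg.Agent.H29_Sy3

set_option autoImplicit false

/-! symplectic-type groups of isometries of symplectic forms -/

namespace Cfsg.Agent.H29.Fm

open Matrix Module Cfsg.Geo Cfsg.Agent.H29.Clifford Cfsg.Agent.H29.Asc Cfsg.Agent.H29.AscF Cfsg.Agent.H29.Trv
  Cfsg.Agent.H29.AscT
open scoped Kronecker commutatorElement

variable {F : Type*} [Field F] {n k m r : ℕ}
variable {f : (Fin n → F) → (Fin n → F) → F}
variable {G E R : Subgroup (GL (Fin n) F)}

/-- the isometry group -/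
def isoG (f : (Fin n → F) → (Fin n → F) → F) : Subgroup (GL (Fin n) F) where
  carrier := {x | ∀ u v, f ((x : Matrix (Fin n) (Fin n) F) *ᵥ u) ((x : Matrix (Fin n) (Fin n) F) *ᵥ v) = f u v}
  mul_mem' := by
    intro a b ha hb u v
    rw [Units.val_mul, ← Matrix.mulVec_mulVec, ← Matrix.mulVec_mulVec, ha, hb]
  one_mem' := by intro u v; simp
  inv_mem' := by
    intro a ha u v
    have := ha (((a⁻¹ : GL (Fin n) F) : Matrix (Fin n) (Fin n) F) *ᵥ u) (((a⁻¹ : GL (Fin n) F) : Matrix (Fin n) (Fin n) F) *ᵥ v)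
    rw [Matrix.mulVec_mulVec, Matrix.mulVec_mulVec, ← Units.val_mul, mul_inv_cancel, Units.val_one,
      Matrix.one_mulVec, Matrix.one_mulVec] at this
    exact this.symm

theorem mem_isoG {x : GL (Fin n) F} : x ∈ isoG f ↔ ∀ u v, f ((x : Matrix (Fin n) (Fin n) F) *ᵥ u)
    ((x : Matrix (Fin n) (Fin n) F) *ᵥ v) = f u v := Iff.rfl

theorem sc_neg_one : sc n F (-1) = -1 := by
  apply Units.ext
  rw [sc_coe, Units.val_neg, Units.val_neg, Units.val_one, Units.val_one, neg_smul, one_smul]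

/-- isometries normalised by `G` in a symplectic-type group -/
structure XS (f : (Fin n → F) → (Fin n → F) → F) (G E R : Subgroup (GL (Fin n) F)) : Prop extends ST 2 G E where
  sp : SpF f
  hG : G ≤ isoG f
  mem : ∀ x, x ∈ R ↔ x ∈ E ∧ x ∈ isoG f
  scale' : ∀ x ∈ E, ∃ c : Fˣ, sc n F c * x ∈ R

theorem XS.le (h : XS f G E R) : R ≤ E := fun x hx => ((h.mem x).1 hx).1

theorem XS.iso (h : XS f G E R) : R ≤ isoG f := fun x hx => ((h.mem x).1 hx).2

theorem XS.normR (h : XS f G E R) {g : GL (Fin n) F} (hg : g ∈ G) {x : GL (Fin n) F} (hx : x ∈ R) :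
    g * x * g⁻¹ ∈ R := by
  rw [h.mem] at hx ⊢
  exact ⟨h.norm g hg x hx.1, Subgroup.mul_mem _ (Subgroup.mul_mem _ (h.hG hg) hx.2) (Subgroup.inv_mem _ (h.hG hg))⟩

theorem XS.envR (h : XS f G E R) : Asc.env R = ⊤ := by
  rw [eq_top_iff, ← h.env]
  apply Algebra.adjoin_le
  rintro _ ⟨_, ⟨x, hx, rfl⟩, rfl⟩
  obtain ⟨c, hc⟩ := h.scale' x hx
  have h1 := mem_env hc
  rw [Units.val_mul, sc_coe, Matrix.smul_mul, one_mul, map_smul] at h1
  have h2 := Subalgebra.smul_mem _ h1 ((c⁻¹ : Fˣ) : F)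
  rw [smul_smul, Units.inv_mul, one_smul] at h2
  exact h2

/-- scalar isometries -/
theorem SpF.scal (h : SpF f) (hn : 0 < n) {x : GL (Fin n) F} (hx : x ∈ isoG f) (hs : x ∈ scalars (Fin n) F) :
    x = 1 ∨ x = -1 := by
  obtain ⟨c, rfl⟩ := mem_scalars.1 hs
  have hv : (Pi.single ⟨0, hn⟩ (1 : F) : Fin n → F) ≠ 0 := by
    intro h0
    have := congrFun h0 ⟨0, hn⟩
    rw [Pi.single_eq_same] at this
    exact one_ne_zero this
  obtain ⟨u, hu⟩ := h.sfm.nd _ hv
  have h1 := mem_isoG.1 hx u (Pi.single ⟨0, hn⟩ (1 : F))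
  rw [sc_coe, Matrix.smul_mulVec, Matrix.smul_mulVec, Matrix.one_mulVec, Matrix.one_mulVec, h.sfm.smul_left,
    h.smul_right] at h1
  have h2 : ((c : F) * c - 1) * f u (Pi.single ⟨0, hn⟩ (1 : F)) = 0 := by linear_combination h1
  have h3 : (c : F) * c = 1 := sub_eq_zero.1 ((mul_eq_zero.1 h2).resolve_right hu)
  rcases mul_self_eq_one_iff.1 h3 with h4 | h4
  · left
    have : c = 1 := Units.ext h4
    rw [this, map_one]
  · right
    have : c = -1 := Units.ext (by rw [h4, Units.val_neg, Units.val_one])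
    rw [this, sc_neg_one]

theorem XS.neg (h : XS f G E R) : -1 ∈ R := by
  rw [h.mem, ← sc_neg_one]
  refine ⟨h.Zle (sc_mem _), mem_isoG.2 fun u v => ?_⟩
  rw [sc_neg_one, Units.val_neg, Units.val_one, Matrix.neg_mulVec, Matrix.neg_mulVec, Matrix.one_mulVec,
    Matrix.one_mulVec, h.sp.sfm.neg_left, h.sp.sfm.neg_right, neg_neg]

theorem XS.sq (h : XS f G E R) (hn : 0 < n) {x : GL (Fin n) F} (hx : x ∈ R) : x * x = 1 ∨ x * x = -1 := by
  apply h.sp.scal hn (h.iso (R.mul_mem hx hx))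
  have := h.pow x (h.le hx)
  rwa [pow_two] at this

theorem XS.comm2 (h : XS f G E R) (hn : 0 < n) {x y : GL (Fin n) F} (hx : x ∈ R) (hy : y ∈ R) :
    x * y = y * x ∨ x * y = -(y * x) := by
  have h1 : ⁅x, y⁆ ∈ R := by
    rw [commutatorElement_def]
    exact R.mul_mem (R.mul_mem (R.mul_mem hx hy) (R.inv_mem hx)) (R.inv_mem hy)
  have h2 : x * y = ⁅x, y⁆ * (y * x) := by rw [commutatorElement_def]; group
  rcases h.sp.scal hn (h.iso h1) (h.comm x (h.le hx) y (h.le hy)) with h3 | h3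
  · left; rw [h3, one_mul] at h2; exact h2
  · right; rw [h3, neg_one_mul] at h2; exact h2

theorem XS.central (h : XS f G E R) (hn : 0 < n) {x : GL (Fin n) F} (hx : x ∈ R) (hc : ∀ y ∈ R, x * y = y * x) :
    x = 1 ∨ x = -1 := h.sp.scal hn (h.iso hx) (scalar_of_commute hn h.envR hc)

theorem XS.exists_anti (h : XS f G E R) (hn : 0 < n) {x : GL (Fin n) F} (hx : x ∈ R) (h1 : x ≠ 1) (h2 : x ≠ -1) :
    ∃ y ∈ R, x * y = -(y * x) := by
  by_contra hcon
  push Not at hcon
  rcases h.central hn hx (fun y hy => (h.comm2 hn hx hy).resolve_right (hcon y hy)) with h3 | h3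
  · exact h1 h3
  · exact h2 h3

theorem XS.two (h : XS f G E R) (hn : 2 ≤ n) [Finite F] : (2 : F) ≠ 0 := by
  intro h2
  have hneg : ∀ z : GL (Fin n) F, -z = z := by
    intro z
    apply Units.ext
    rw [Units.val_neg]
    ext i j
    rw [Matrix.neg_apply]
    linear_combination -((z : Matrix (Fin n) (Fin n) F) i j) * h2
  have h3 : R ≤ scalars (Fin n) F := by
    intro x hx
    apply scalar_of_commute (by omega) h.envR
    intro y hy
    rcases h.comm2 (by omega) hx hy with h4 | h4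
    · exact h4
    · rw [h4, hneg]
  apply h.not_le hn
  intro x hx
  obtain ⟨c, hc⟩ := h.scale' x hx
  have h4 := h3 hc
  have : x = (sc n F c)⁻¹ * (sc n F c * x) := by group
  rw [this]
  exact Subgroup.mul_mem _ (Subgroup.inv_mem _ (sc_mem c)) h4

theorem XS.trace (h : XS f G E R) (hn : 2 ≤ n) [Finite F] {x : GL (Fin n) F} (hx : x ∈ R) (h1 : x ≠ 1) (h2 : x ≠ -1) :
    (x : Matrix (Fin n) (Fin n) F).trace = 0 := by
  obtain ⟨y, hy, hxy⟩ := h.exists_anti (by omega) hx h1 h2
  have h3 : y⁻¹ * (x * y) = -x := by rw [hxy, mul_neg]; group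
  have h4 := congrArg (fun z : GL (Fin n) F => (z : Matrix (Fin n) (Fin n) F).trace) h3
  simp only [Units.val_mul, Units.val_neg, Matrix.trace_neg] at h4
  rw [Matrix.trace_mul_comm, mul_assoc, ← Units.val_mul, mul_inv_cancel, Units.val_one, mul_one] at h4
  have h5 : (2 : F) * (x : Matrix (Fin n) (Fin n) F).trace = 0 := by linear_combination h4
  exact (mul_eq_zero.1 h5).resolve_left (h.two hn)

/-- construction -/
theorem XS.of_ST (h : ST 2 G E) (hs : SpF f) (hG : G ≤ isoG f) (hE : ∀ x ∈ E, ∃ c : Fˣ, sc n F c * x ∈ isoG f) :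
    XS f G E (E ⊓ isoG f) where
  toST := h
  sp := hs
  hG := hG
  mem := fun x => Iff.rfl
  scale' := by
    intro x hx
    obtain ⟨c, hc⟩ := hE x hx
    exact ⟨c, E.mul_mem (h.Zle (sc_mem c)) hx, hc⟩

theorem XS.relIndex (h : XS f G E R) [Finite F] (hn : 0 < n) : (scalars (Fin n) F).relIndex R = n * n := by
  rw [← h.card_quot hn, ← Subgroup.relIndex_sup_right]
  congr 1
  apply le_antisymm
  · exact sup_le h.le h.Zle
  · intro x hx
    obtain ⟨c, hc⟩ := h.scale' x hx
    have : x = (sc n F c * x) * (sc n F c)⁻¹ := by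
      rw [sc_comm, mul_inv_cancel_right]
    rw [this]
    exact Subgroup.mul_mem _ (Subgroup.mem_sup_left hc)
      (Subgroup.mem_sup_right (Subgroup.inv_mem _ (sc_mem c)))

theorem XS.card_scalars (h : XS f G E R) [Finite F] (hn : 2 ≤ n) :
    Nat.card ((scalars (Fin n) F).subgroupOf R) = 2 := by
  have hne : (1 : GL (Fin n) F) ≠ -1 := by
    intro h1
    haveI : Nonempty (Fin n) := ⟨⟨0, by omega⟩⟩
    have h2 := congrArg (fun z : GL (Fin n) F => (z : Matrix (Fin n) (Fin n) F) ⟨0, by omega⟩ ⟨0, by omega⟩) h1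
    simp only [Units.val_one, Units.val_neg, Matrix.neg_apply, Matrix.one_apply_eq] at h2
    apply h.two hn
    linear_combination h2
  rw [Nat.card_eq_two_iff]
  refine ⟨⟨⟨1, R.one_mem⟩, Subgroup.mem_subgroupOf.2 (Subgroup.one_mem _)⟩,
    ⟨⟨-1, h.neg⟩, Subgroup.mem_subgroupOf.2 (by
      show (-1 : GL (Fin n) F) ∈ _
      rw [← sc_neg_one]; exact sc_mem _)⟩, ?_, ?_⟩
  · intro h1
    exact hne (congrArg (fun z : (scalars (Fin n) F).subgroupOf R => ((z : R) : GL (Fin n) F)) h1)
  · rw [Set.eq_univ_iff_forall]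
    intro z
    rcases h.sp.scal (by omega) (h.iso (z : R).2) (Subgroup.mem_subgroupOf.1 z.2) with h3 | h3
    · left; exact Subtype.ext (Subtype.ext h3)
    · right; exact Subtype.ext (Subtype.ext h3)

theorem XS.card (h : XS f G E R) [Finite F] (hn : 2 ≤ n) : Nat.card R = 2 * (n * n) := by
  rw [← Subgroup.card_mul_index ((scalars (Fin n) F).subgroupOf R), h.card_scalars hn]
  congr 1
  exact h.relIndex (by omega)

theorem XS.center (h : XS f G E R) (hn : 0 < n) :
    Subgroup.center R = (scalars (Fin n) F).subgroupOf R := by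
  ext x
  rw [Subgroup.mem_center_iff, Subgroup.mem_subgroupOf]
  constructor
  · intro hx
    exact scalar_of_commute hn h.envR (fun y hy => (congrArg Subtype.val (hx ⟨y, hy⟩)).symm)
  · intro hx y
    obtain ⟨c, hc⟩ := mem_scalars.1 hx
    apply Subtype.ext
    show (y : GL (Fin n) F) * x = x * y
    rw [← hc, sc_comm]

theorem XS.card_center (h : XS f G E R) [Finite F] (hn : 2 ≤ n) : Nat.card (Subgroup.center R) = 2 := by
  rw [h.center (by omega), h.card_scalars hn]

theorem XS.dim' (h : XS f G E R) [Finite F] (hn : 2 ≤ n) : ∃ k, n = 2 ^ k ∧ Nat.card R = 2 ^ (1 + 2 * k) := by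
  obtain ⟨k, hk⟩ := h.dim (by omega)
  refine ⟨k, hk, ?_⟩
  rw [h.card hn, hk]
  ring

theorem XS.exponent (h : XS f G E R) [Finite F] (hn : 2 ≤ n) : Monoid.exponent R = 2 * Nat.gcd 2 2 := by
  have h4 : Monoid.exponent R ∣ 4 := by
    apply Monoid.exponent_dvd_of_forall_pow_eq_one
    intro x
    apply Subtype.ext
    show (x : GL (Fin n) F) ^ 4 = 1
    have : (x : GL (Fin n) F) ^ 4 = (x * x) * (x * x) := by
      rw [show 4 = 2 + 2 from rfl, pow_add, pow_two]
    rw [this]
    rcases h.sq (by omega) x.2 with h1 | h1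
    · rw [h1, one_mul]
    · rw [h1, neg_mul_neg, one_mul]
  have h2 : ¬ Monoid.exponent R ∣ 2 := by
    intro hd
    have hsq : ∀ x ∈ R, x * x = 1 := by
      intro x hx
      have := (Monoid.exponent_dvd_iff_forall_pow_eq_one.1 hd) ⟨x, hx⟩
      have := congrArg Subtype.val this
      rw [pow_two] at this
      exact this
    have hne : ¬ R ≤ scalars (Fin n) F := by
      intro hle
      have := h.relIndex (by omega)
      rw [Subgroup.relIndex_eq_one.2 hle] at this
      nlinarith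
    apply hne
    intro x hx
    apply scalar_of_commute (by omega) h.envR
    intro y hy
    have e1 := hsq x hx
    have e2 := hsq y hy
    have e3 := hsq (x * y) (R.mul_mem hx hy)
    have hx' : x⁻¹ = x := inv_eq_of_mul_eq_one_left e1
    have hy' : y⁻¹ = y := inv_eq_of_mul_eq_one_left e2
    have e4 : (x * y)⁻¹ = x * y := inv_eq_of_mul_eq_one_left e3
    rw [← e4, _root_.mul_inv_rev, hx', hy']
  have h5 : Monoid.exponent R ∣ 2 ^ 2 := h4
  obtain ⟨j, hj, hje⟩ := (Nat.dvd_prime_pow Nat.prime_two).1 h5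
  rw [hje]
  have : j = 2 := by
    by_contra hne
    apply h2
    rw [hje]
    exact pow_dvd_pow 2 (by omega : j ≤ 1)
  rw [this]
  rfl

theorem XS.pgroup (h : XS f G E R) (hn : 0 < n) : IsPGroup 2 R := by
  intro x
  refine ⟨2, Subtype.ext ?_⟩
  show (x : GL (Fin n) F) ^ 4 = 1
  have : (x : GL (Fin n) F) ^ 4 = (x * x) * (x * x) := by
      rw [show 4 = 2 + 2 from rfl, pow_add, pow_two]
  rw [this]
  rcases h.sq hn x.2 with h1 | h1
  · rw [h1, one_mul]
  · rw [h1, neg_mul_neg, one_mul]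

/-- characteristic abelian subgroups are cyclic -/
theorem XS.char_cyclic (h : XS f G E R) [Fintype F] (hn : 2 ≤ n) (A : Subgroup R) (hA : A.Characteristic)
    (hab : IsMulCommutative A) : IsCyclic A := by
  have hn0 : 0 < n := by omega
  have hnorm : ∀ g ∈ G, ∀ x ∈ A.map R.subtype, g * x * g⁻¹ ∈ A.map R.subtype := by
    rintro g hg _ ⟨x, hx, rfl⟩
    let φ : R ≃* R :=
      { toFun := fun y => ⟨g * y * g⁻¹, h.normR hg y.2⟩
        invFun := fun y => ⟨g⁻¹ * y * g, by
          have := h.normR (G.inv_mem_iff.2 hg) y.2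
          rwa [inv_inv] at this⟩
        left_inv := fun y => Subtype.ext (by show g⁻¹ * (g * (y : GL (Fin n) F) * g⁻¹) * g = y; group)
        right_inv := fun y => Subtype.ext (by show g * (g⁻¹ * (y : GL (Fin n) F) * g) * g⁻¹ = y; group)
        map_mul' := fun y z => Subtype.ext (by
          show g * ((y : GL (Fin n) F) * z) * g⁻¹ = (g * y * g⁻¹) * (g * z * g⁻¹); group) }
    have h1 := (Subgroup.characteristic_iff_le_comap.1 hA) φ hx
    exact ⟨φ x, h1, rfl⟩
  have hcomm : ∀ x ∈ A, ∀ y ∈ A, x * y = y * x := by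
    intro x hx y hy
    exact congrArg Subtype.val (hab.is_comm.comm (⟨x, hx⟩ : A) ⟨y, hy⟩)
  rcases h.min (A.map R.subtype ⊔ scalars (Fin n) F) le_sup_right
    (sup_le ((Subgroup.map_subtype_le _).trans h.le) h.Zle) (by
      intro g hg x hx
      rw [Subgroup.mem_sup_of_normal_right] at hx
      obtain ⟨y, hy, z, ⟨c, rfl⟩, rfl⟩ := hx
      have : g * (y * sc n F c) * g⁻¹ = (g * y * g⁻¹) * sc n F c := by
        calc g * (y * sc n F c) * g⁻¹ = g * y * (sc n F c * g⁻¹) := by group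
          _ = g * y * (g⁻¹ * sc n F c) := by rw [sc_comm]
          _ = _ := by group
      show g * (y * sc n F c) * g⁻¹ ∈ _
      rw [this]
      exact Subgroup.mul_mem _ (Subgroup.mem_sup_left (hnorm g hg y hy)) (Subgroup.mem_sup_right (sc_mem c)))
    with h1 | h1
  · -- scalar
    have h2 : ∀ x : A, ∃ c : Fˣ, sc n F c = ((x : R) : GL (Fin n) F) := fun x =>
      mem_scalars.1 (h1 (Subgroup.mem_sup_left ⟨x, x.2, rfl⟩))
    choose f hf using h2
    let f' : A →* F :=
      { toFun := fun x => (f x : F)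
        map_one' := by
          have : f 1 = 1 := sc_injective hn0 (by rw [hf, map_one]; rfl)
          rw [this]; rfl
        map_mul' := fun x y => by
          have : f (x * y) = f x * f y := sc_injective hn0 (by rw [hf, map_mul, hf, hf]; rfl)
          rw [this]; rfl }
    have hinj : Function.Injective f' := by
      intro x y hxy
      have h3 : f x = f y := Units.ext hxy
      have h4 : ((x : R) : GL (Fin n) F) = ((y : R) : GL (Fin n) F) := by rw [← hf, ← hf, h3]
      exact Subtype.ext (Subtype.ext h4)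
    haveI : Finite (GL (Fin n) F) := Finite.of_injective
      (fun g : GL (Fin n) F => ((g : Matrix (Fin n) (Fin n) F))) (fun a b h => Units.ext h)
    exact isCyclic_of_subgroup_isDomain f' hinj
  · exfalso
    apply h.not_le hn
    intro x hx
    apply h.scalar_of_central hn0
    intro y hy
    have hS : ∀ x ∈ A.map R.subtype ⊔ scalars (Fin n) F, ∃ a ∈ A, ∃ c : Fˣ, x = (a : GL (Fin n) F) * sc n F c := by
      intro x hx
      rw [Subgroup.mem_sup_of_normal_right] at hx
      obtain ⟨y, ⟨a, ha, rfl⟩, z, ⟨c, rfl⟩, rfl⟩ := hx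
      exact ⟨a, ha, c, rfl⟩
    obtain ⟨a, ha, c, rfl⟩ := hS x (h1 hx)
    obtain ⟨b, hb, d, rfl⟩ := hS y (h1 hy)
    have hab' : (a : GL (Fin n) F) * b = b * a := congrArg Subtype.val (hcomm a ha b hb)
    calc (a : GL (Fin n) F) * sc n F c * (b * sc n F d) = a * (sc n F c * b) * sc n F d := by group
      _ = (a * b) * (sc n F c * sc n F d) := by rw [sc_comm]; group
      _ = (b * a) * (sc n F d * sc n F c) := by rw [hab', sc_comm c (sc n F d)]
      _ = b * (a * sc n F d) * sc n F c := by group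
      _ = b * (sc n F d * a) * sc n F c := by rw [sc_comm d]
      _ = _ := by group

end Cfsg.Agent.H29.Fm
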