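import Mathlib
import Cfsg.Agent.H29_Sy4

set_option autoImplicit false

/-! symplectic-type groups of isometries of symplectic forms, II -/

namespace Cfsg.Agent.H29.Fm

open Matrix Module Cfsg.Geo Cfsg.Agent.H29.Clifford Cfsg.Agent.H29.Asc Cfsg.Agent.H29.AscF Cfsg.Agent.H29.Trv
  Cfsg.Agent.H29.AscT
open scoped Kronecker commutatorElement

variable {F : Type*} [Field F] {n k m r : ℕ}
variable {f : (Fin n → F) → (Fin n → F) → F}
variable {G E R : Subgroup (GL (Fin n) F)}

/-- elements distinct modulo scalars are linearly independent -/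
theorem st_indep (h : ST r G E) (hn : 0 < n) {J : Type*} (w : J → E)
    (hw : ∀ i j, ((w i : GL (Fin n) F))⁻¹ * (w j : GL (Fin n) F) ∈ scalars (Fin n) F → i = j) :
    LinearIndependent F (fun j => ((w j : GL (Fin n) F) : Matrix (Fin n) (Fin n) F)) := by
  classical
  haveI : Nonempty (Fin n) := ⟨⟨0, hn⟩⟩
  let v : J → Matrix (Fin n) (Fin n) F := fun j => ((w j : E) : GL (Fin n) F)
  choose c hc1 hc2 using fun (x : E) (y : E) => h.exists_comm hn x.2 y.2
  let T : E → Module.End F (Matrix (Fin n) (Fin n) F) := fun y =>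
    { toFun := fun M => ((y : GL (Fin n) F) : Matrix (Fin n) (Fin n) F) * M * (((y : GL (Fin n) F)⁻¹ : GL (Fin n) F) : Matrix (Fin n) (Fin n) F)
      map_add' := fun a b => by rw [Matrix.mul_add, Matrix.add_mul]
      map_smul' := fun a b => by rw [Matrix.mul_smul, Matrix.smul_mul]; rfl }
  have hT : ∀ (y : E) (j : J), T y (v j) = ((c y (w j) : Fˣ) : F) • v j := by
    intro y j
    show ((y : GL (Fin n) F) : Matrix (Fin n) (Fin n) F) * ((w j : E) : GL (Fin n) F) *
      (((y : GL (Fin n) F)⁻¹ : GL (Fin n) F) : Matrix (Fin n) (Fin n) F) = _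
    rw [← Units.val_mul, hc1 y (w j), Units.val_mul, Units.val_mul, sc_coe, Matrix.smul_mul, one_mul,
      Matrix.smul_mul, Matrix.mul_assoc, Units.mul_inv, mul_one]
  have hv : ∀ j, v j ≠ 0 := by
    intro j h0
    have := ((w j : E) : GL (Fin n) F).mul_inv
    change v j * _ = 1 at this
    rw [h0, zero_mul] at this
    exact zero_ne_one this
  have hinj : Function.Injective (fun (j : J) (y : E) => ((c y (w j) : Fˣ) : F)) := by
    intro i j hij
    have h1 : ∀ y, c y (w i) = c y (w j) := fun y => Units.ext (congrFun hij y)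
    apply hw
    apply h.scalar_of_central hn
    intro y hy
    have e1 := hc1 ⟨y, hy⟩ (w i)
    have e2 := hc1 ⟨y, hy⟩ (w j)
    rw [h1] at e1
    simp only at e1 e2
    set a := ((w i : E) : GL (Fin n) F)
    set b := ((w j : E) : GL (Fin n) F)
    set d := c ⟨y, hy⟩ (w j)
    have e3 : a⁻¹ * y = sc n F d * (y * a⁻¹) := by
      calc a⁻¹ * y = a⁻¹ * (y * a) * a⁻¹ := by group
        _ = a⁻¹ * (sc n F d * a) * (y * a⁻¹) := by rw [e1]; group
        _ = _ := by rw [sc_comm]; group
    calc a⁻¹ * b * y = a⁻¹ * (b * y) := by group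
      _ = a⁻¹ * ((sc n F d)⁻¹ * (y * b)) := by rw [e2]; group
      _ = (sc n F d)⁻¹ * (a⁻¹ * y) * b := by
          rw [← map_inv, ← mul_assoc, ← sc_comm]; group
      _ = (sc n F d)⁻¹ * (sc n F d * (y * a⁻¹)) * b := by rw [e3]
      _ = y * (a⁻¹ * b) := by group
  exact indep_of_characters T v _ hv hT hinj

/-- descent for symplectic-type groups -/
theorem XS.realise (h : XS f G E R) [Fintype F] (hn : 2 ≤ n) {F₁ : Subfield F} {r : ℕ} (hr : r.Prime)
    (hcard : Fintype.card F = Nat.card F₁ ^ r) : RealisableOver F₁ (matrixSet R) := by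
  classical
  obtain ⟨φ, hφ, hφm⟩ := exists_phi F₁
  haveI : Finite (GL (Fin n) F) := Finite.of_injective
      (fun g : GL (Fin n) F => ((g : Matrix (Fin n) (Fin n) F))) (fun a b h => Units.ext h)
  haveI : Fintype R := Fintype.ofFinite R
  have hn0 : 0 < n := by omega
  haveI : Nonempty (Fin n) := ⟨⟨0, hn0⟩⟩
  let z : Fin n := ⟨0, hn0⟩
  let M : R → Matrix (Fin n) (Fin n) F := fun x => ((x : GL (Fin n) F) : Matrix (Fin n) (Fin n) F)
  have hMmul : ∀ x y, M (x * y) = M x * M y := fun x y => rfl
  have hM1 : M 1 = 1 := rfl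
  let Z : Matrix (Fin n) (Fin n) F := ∑ x : R, (φ (M x⁻¹ z z)) • M x
  have hZ : Z.trace ≠ 0 := by
    rw [Matrix.trace_sum]
    have hne : (1 : R) ≠ ⟨-1, h.neg⟩ := by
      intro h1
      have h2 := congrArg (fun x : R => M x z z) h1
      have h3 : M ⟨-1, h.neg⟩ z z = -1 := by
        show ((-1 : GL (Fin n) F) : Matrix (Fin n) (Fin n) F) z z = -1
        rw [Units.val_neg, Units.val_one, Matrix.neg_apply, Matrix.one_apply_eq]
      simp only [h3, hM1, Matrix.one_apply_eq] at h2
      apply h.two hn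
      linear_combination h2
    rw [Finset.sum_eq_add (1 : R) ⟨-1, h.neg⟩ hne]
    · have e1 : M (1 : R)⁻¹ z z = 1 := by rw [inv_one, hM1, Matrix.one_apply_eq]
      have e2 : M (⟨-1, h.neg⟩ : R)⁻¹ z z = -1 := by
        show (((-1 : GL (Fin n) F)⁻¹ : GL (Fin n) F) : Matrix (Fin n) (Fin n) F) z z = -1
        rw [inv_neg_one, Units.val_neg, Units.val_one, Matrix.neg_apply, Matrix.one_apply_eq]
      have e3 : M (⟨-1, h.neg⟩ : R) = -1 := by
        show ((-1 : GL (Fin n) F) : Matrix (Fin n) (Fin n) F) = -1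
        rw [Units.val_neg, Units.val_one]
      rw [e1, e2, e3, hM1, map_neg, map_one, one_smul, neg_smul_neg, one_smul, Matrix.trace_one, Fintype.card_fin]
      obtain ⟨k, hk⟩ := h.dim hn0
      rw [hk, Nat.cast_pow, Nat.cast_two, ← two_mul]
      exact mul_ne_zero (h.two hn) (pow_ne_zero _ (h.two hn))
    · intro x _ hx
      rw [Matrix.trace_smul]
      have : (M x).trace = 0 := h.trace hn x.2 (fun h1 => hx.1 (Subtype.ext h1)) (fun h1 => hx.2 (Subtype.ext h1))
      rw [this, smul_zero]
    · intro h1; exact absurd (Finset.mem_univ _) h1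
    · intro h1; exact absurd (Finset.mem_univ _) h1
  obtain ⟨i, hi⟩ : ∃ i, Z i i ≠ 0 := by
    by_contra hcon
    push Not at hcon
    apply hZ
    show ∑ i, Z i i = 0
    exact Finset.sum_eq_zero fun i _ => hcon i
  let T : Matrix (Fin n) (Fin n) F := ∑ x : R, M x * Matrix.single i z 1 * (M x⁻¹).map φ
  refine realise_of_twist hn0 h.envR hr hcard hφ hφm (T := T) ?_ ?_
  · intro h0
    apply hi
    have h1 : T i z = Z i i := by
      show (∑ x : R, M x * Matrix.single i z 1 * (M x⁻¹).map φ : Matrix (Fin n) (Fin n) F) i z =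
        (∑ x : R, (φ (M x⁻¹ z z)) • M x : Matrix (Fin n) (Fin n) F) i i
      rw [Matrix.sum_apply, Matrix.sum_apply]
      apply Finset.sum_congr rfl
      intro x _
      rw [Matrix.mul_apply, Finset.sum_eq_single z]
      · rw [Matrix.mul_single_apply_same, Matrix.map_apply, Matrix.smul_apply, smul_eq_mul, mul_one, mul_comm]
      · intro j _ hj
        rw [Matrix.mul_single_apply_of_ne _ _ _ _ _ hj, zero_mul]
      · intro h1; exact absurd (Finset.mem_univ _) h1
    rw [← h1, h0, Matrix.zero_apply]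
  · intro y hy
    show (∑ x : R, M x * Matrix.single i z 1 * (M x⁻¹).map φ) * _ = _ * (∑ x : R, M x * Matrix.single i z 1 * (M x⁻¹).map φ)
    rw [Finset.sum_mul, Finset.mul_sum]
    symm
    rw [← Equiv.sum_comp (Equiv.mulLeft (⟨y, hy⟩ : R))
      (fun x => M x * Matrix.single i z 1 * (M x⁻¹).map φ * ((y : GL (Fin n) F) : Matrix (Fin n) (Fin n) F).map φ)]
    apply Finset.sum_congr rfl
    intro x _
    show M ⟨y, hy⟩ * (M x * Matrix.single i z 1 * (M x⁻¹).map φ) =
      M (⟨y, hy⟩ * x) * Matrix.single i z 1 * (M ((⟨y, hy⟩ : R) * x)⁻¹).map φ * (M ⟨y, hy⟩).map φ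
    have e1 : (M ((⟨y, hy⟩ : R) * x)⁻¹).map φ * (M ⟨y, hy⟩).map φ = (M x⁻¹).map φ := by
      rw [← Matrix.map_mul, ← hMmul, _root_.mul_inv_rev, inv_mul_cancel_right]
    rw [mul_assoc (M (⟨y, hy⟩ * x) * Matrix.single i z 1), e1, hMmul]
    simp only [mul_assoc]

/-- symplectic-type groups of isometries are of minus type -/
theorem XS.minus (h : XS f G E R) [Finite F] (hn : 2 ≤ n) (hk : n = 2 ^ k) : IsOfMinusType k R := by
  classical
  intro A hab hsq
  by_contra hcon
  rw [not_lt] at hcon
  have hn0 : 0 < n := by omega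
  haveI : Nonempty (Fin n) := ⟨⟨0, hn0⟩⟩
  haveI : Finite (GL (Fin n) F) := Finite.of_injective
      (fun g : GL (Fin n) F => ((g : Matrix (Fin n) (Fin n) F))) (fun a b h => Units.ext h)
  set A' := A.map R.subtype with hA'
  have hA'R : A' ≤ R := Subgroup.map_subtype_le _
  have hA'sq : ∀ x ∈ A', x * x = 1 := by
    rintro _ ⟨x, hx, rfl⟩
    exact congrArg Subtype.val (hsq x hx)
  have hA'c : ∀ x ∈ A', ∀ y ∈ A', x * y = y * x := by
    rintro _ ⟨x, hx, rfl⟩ _ ⟨y, hy, rfl⟩
    have := hab.is_comm.comm (⟨x, hx⟩ : A) ⟨y, hy⟩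
    exact congrArg (fun z : A => ((z : R) : GL (Fin n) F)) this
  have hBc : ∀ x ∈ Asc.env A', ∀ y ∈ Asc.env A', x * y = y * x := by
    intro x hx y hy
    exact env_commute (fun x hx y hy => hA'c x hx y hy) hx hy
  have hBsa : ∀ x ∈ Asc.env A', Adj f x x := by
    intro x hx
    induction hx using Algebra.adjoin_induction with
    | mem r hr =>
      obtain ⟨_, ⟨x, hx, rfl⟩, rfl⟩ := hr
      have h1 := Adj.group (G := R) (fun g hg => h.iso hg) (hA'R hx)
      have h2 : x⁻¹ = x := inv_eq_of_mul_eq_one_left (hA'sq x hx)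
      rwa [h2] at h1
    | algebraMap c =>
      rw [Algebra.algebraMap_eq_smul_one]
      exact Adj.smul h.sp.sfm c Adj.one
    | add x y _ _ hx hy => exact Adj.add h.sp.sfm hx hy
    | mul x y hx' hy' hx hy =>
      have h1 := Adj.mul hx hy
      rwa [← hBc x hx' y hy'] at h1
  obtain ⟨t, e, hinj, hmem, -, hsum⟩ := PI.enum (S := (Asc.env A').toSubring) (fun x hx y hy => hBc x hx y hy)
  have horth : ∀ i j, i ≠ j → e i * e j = 0 := fun i j hij =>
    PI.orth (fun x hx y hy => hBc x hx y hy) (hmem i) (hmem j) (fun h => hij (hinj h))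
  have hev : ∀ a ∈ A', ∀ i, ∃ s : F, tl n F ((a : GL (Fin n) F) : Matrix (Fin n) (Fin n) F) * e i = s • e i := by
    intro a ha i
    obtain ⟨he1, he2, he3, he4⟩ := hmem i
    set α := tl n F ((a : GL (Fin n) F) : Matrix (Fin n) (Fin n) F) with hα
    have hαB : α ∈ Asc.env A' := mem_env ha
    have hαα : α * α = 1 := by
      rw [hα, ← map_mul, ← Units.val_mul, hA'sq a ha, Units.val_one, map_one]
    set p : Module.End F (Fin n → F) := (2 : F)⁻¹ • (1 + α) with hp
    have hpB : p ∈ Asc.env A' := Subalgebra.smul_mem _ (Subalgebra.add_mem _ (Subalgebra.one_mem _) hαB) _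
    have h2 := h.two hn
    have hpp : p * p = p := by
      rw [hp, smul_mul_smul_comm, mul_add, mul_one, add_mul, one_mul, hαα]
      have : (1 : Module.End F (Fin n → F)) + α + (α + 1) = (2 : F) • (1 + α) := by
        rw [two_smul]; abel
      rw [this, smul_smul]
      congr 1
      field_simp
    have hpe : p * e i = e i * p := hBc p hpB _ he1
    rcases he4 (e i * p) (Subalgebra.mul_mem _ he1 hpB) (by
        calc e i * p * (e i * p) = e i * (p * e i) * p := by simp only [mul_assoc]
          _ = (e i * e i) * (p * p) := by rw [hpe]; simp only [mul_assoc]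
          _ = e i * p := by rw [he2, hpp]) (by rw [← mul_assoc, he2]) with h3 | h3
    · refine ⟨-1, ?_⟩
      rw [← hpe, hp, smul_mul_assoc] at h3
      have h4 := (smul_eq_zero.1 h3).resolve_left (inv_ne_zero h2)
      rw [add_mul, one_mul] at h4
      exact (eq_neg_of_add_eq_zero_right h4).trans (neg_one_smul F (e i)).symm
    · refine ⟨1, ?_⟩
      rw [← hpe, hp, smul_mul_assoc, add_mul, one_mul] at h3
      have h4 : e i + α * e i = (2 : F) • e i := by
        conv_rhs => rw [← h3]
        rw [smul_smul, mul_inv_cancel₀ h2, one_smul]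
      rw [two_smul] at h4
      rw [one_smul]
      exact add_left_cancel h4
  -- the number of idempotents
  have hnt : n ≤ t := by
    let Zs := (scalars (Fin n) F).subgroupOf A'
    let w : (A' ⧸ Zs) → E := fun j => ⟨((j.out : A') : GL (Fin n) F), h.le (hA'R (j.out : A').2)⟩
    have hw := st_indep h.toST hn0 w (by
      intro i j hij
      have h3 : (QuotientGroup.mk (i.out : A') : A' ⧸ Zs) = QuotientGroup.mk (j.out : A') := by
        rw [QuotientGroup.eq]
        exact hij
      rwa [QuotientGroup.out_eq', QuotientGroup.out_eq'] at h3)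
    have hw2 : LinearIndependent F (fun j => tl n F (((w j : GL (Fin n) F)) : Matrix (Fin n) (Fin n) F)) :=
      hw.map' (tl n F).toLinearEquiv.toLinearMap (LinearEquiv.ker _)
    haveI : Fintype (A' ⧸ Zs) := Fintype.ofFinite _
    have h1 := finrank_span_eq_card hw2
    have h2 : Submodule.span F (Set.range (fun j => tl n F (((w j : GL (Fin n) F)) : Matrix (Fin n) (Fin n) F))) ≤
        Submodule.span F (Set.range e) := by
      rw [Submodule.span_le]
      rintro _ ⟨j, rfl⟩
      show tl n F (((w j : GL (Fin n) F)) : Matrix (Fin n) (Fin n) F) ∈ _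
      rw [← mul_one (tl n F (((w j : GL (Fin n) F)) : Matrix (Fin n) (Fin n) F)), ← hsum, Finset.mul_sum]
      apply Submodule.sum_mem
      intro i _
      obtain ⟨s, hs⟩ := hev (w j : GL (Fin n) F) (j.out : A').2 i
      rw [hs]
      exact Submodule.smul_mem _ _ (Submodule.subset_span ⟨i, rfl⟩)
    have h3 := Submodule.finrank_mono h2
    have h4 := finrank_range_le_card (R := F) e
    rw [Set.finrank, Fintype.card_fin] at h4
    have h5 : Nat.card A' = Nat.card (A' ⧸ Zs) * Nat.card Zs := Subgroup.card_eq_card_quotient_mul_card_subgroup _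
    have h6 : Nat.card Zs ≤ 2 := by
      rw [← h.card_scalars hn]
      let φ : Zs → (scalars (Fin n) F).subgroupOf R := fun x => ⟨⟨((x : A') : GL (Fin n) F), hA'R (x : A').2⟩, x.2⟩
      apply Nat.card_le_card_of_injective φ
      intro x y hxy
      apply Subtype.ext
      apply Subtype.ext
      exact congrArg (fun z : (scalars (Fin n) F).subgroupOf R => ((z : R) : GL (Fin n) F)) hxy
    have h7 : Nat.card A' = Nat.card A := by
      rw [hA']
      exact Nat.card_congr (A.equivMapOfInjective R.subtype R.subtype_injective).toEquiv.symm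
    rw [← Nat.card_eq_fintype_card] at h1
    rw [pow_succ, ← hk, ← h7, h5] at hcon
    have h8 : Nat.card (A' ⧸ Zs) ≤ t := by omega
    nlinarith
  -- eigenvectors
  have hv : ∀ i, ∃ v : Fin n → F, v ≠ 0 ∧ e i v = v := by
    intro i
    obtain ⟨he1, he2, he3, he4⟩ := hmem i
    obtain ⟨u, hu⟩ : ∃ u, e i u ≠ 0 := by
      by_contra hcon
      push Not at hcon
      exact he3 (LinearMap.ext hcon)
    refine ⟨e i u, hu, ?_⟩
    exact LinearMap.congr_fun he2 u
  choose v hv0 hv1 using hv
  have hvo : ∀ i j, i ≠ j → e i (v j) = 0 := by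
    intro i j hij
    rw [← hv1 j]
    exact LinearMap.congr_fun (horth i j hij) (v j)
  have hli : LinearIndependent F v := by
    rw [Fintype.linearIndependent_iff]
    intro c hc i
    have h1 := congrArg (e i) hc
    rw [map_sum, map_zero, Finset.sum_eq_single i] at h1
    · rw [map_smul, hv1] at h1
      exact (smul_eq_zero.1 h1).resolve_right (hv0 i)
    · intro j _ hj
      rw [map_smul, hvo i j (Ne.symm hj), smul_zero]
    · intro h1; exact absurd (Finset.mem_univ _) h1
  have htn : t = n := by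
    have := hli.fintype_card_le_finrank
    rw [Fintype.card_fin, Module.finrank_fintype_fun_eq_card, Fintype.card_fin] at this
    omega
  have hspan : Submodule.span F (Set.range v) = ⊤ := by
    haveI : Nonempty (Fin t) := ⟨⟨0, by omega⟩⟩
    apply hli.span_eq_top_of_card_eq_finrank
    rw [Fintype.card_fin, Module.finrank_fintype_fun_eq_card, Fintype.card_fin, htn]
  let i₀ : Fin t := ⟨0, by omega⟩
  have hort : ∀ j, f (v j) (v i₀) = 0 := by
    intro j
    by_cases hj : j = i₀
    · rw [hj, h.sp.alt]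
    · have h1 := hBsa (e i₀) (hmem i₀).1 (v j) (v i₀)
      rw [hv1, hvo i₀ j (Ne.symm hj), h.sp.sfm.zero_left] at h1
      exact h1.symm
  let W : Submodule F (Fin n → F) :=
    { carrier := {w | f w (v i₀) = 0}
      add_mem' := by
        intro a b ha hb
        show f (a + b) (v i₀) = 0
        rw [h.sp.sfm.add_left, ha, hb, add_zero]
      zero_mem' := h.sp.sfm.zero_left _
      smul_mem' := by
        intro c a ha
        show f (c • a) (v i₀) = 0
        rw [h.sp.sfm.smul_left, ha, mul_zero] }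
  have hW : W = ⊤ := by
    rw [eq_top_iff, ← hspan, Submodule.span_le]
    rintro _ ⟨j, rfl⟩
    exact hort j
  obtain ⟨x, hx⟩ := h.sp.sfm.nd _ (hv0 i₀)
  apply hx
  have : x ∈ W := by rw [hW]; trivial
  exact this

end Cfsg.Agent.H29.Fm
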