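import Mathlib
import Cfsg.Agent.H29_Sy5

set_option autoImplicit false

/-! groups of isometries of symplectic forms outside the geometric classes -/

namespace Cfsg.Agent.H29.Fm

open Matrix Module Cfsg.Geo Cfsg.Agent.H29.Clifford Cfsg.Agent.H29.Asc Cfsg.Agent.H29.AscF Cfsg.Agent.H29.Trv
  Cfsg.Agent.H29.AscT
open scoped Kronecker commutatorElement

variable {F : Type*} [Field F] {n k m r : ℕ}
variable {f : (Fin n → F) → (Fin n → F) → F}
variable {G : Subgroup (GL (Fin n) F)}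

/-- groups of isometries of a symplectic form lying in no member of the geometric classes -/
structure NS [Fintype F] (f : (Fin n → F) → (Fin n → F) → F) (G : Subgroup (GL (Fin n) F)) : Prop where
  sp : SpF f
  fix : Fx f G
  ts : ∀ W : Submodule F (Fin n → F), W ≠ ⊥ → IsTotallySingularFor f W → ¬ G ≤ subspaceStabilizer W
  nd : ∀ W : Submodule F (Fin n → F), W ≠ ⊥ → IsNondegenerateOn f W → 2 * finrank F W < n →
    ¬ G ≤ subspaceStabilizer W
  ndd : ∀ (t k : ℕ) (D : Fin t → Submodule F (Fin n → F)), IsNondegenerateMDecomposition f k D →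
    ¬ G ≤ decompositionStabilizer D
  tsd : Odd (Fintype.card F) → ∀ (k : ℕ) (D : Fin 2 → Submodule F (Fin n → F)), IsMDecomposition k D →
    (∀ i, IsTotallySingularFor f (D i)) → ¬ G ≤ decompositionStabilizer D
  fsa : ∀ (r : ℕ) (K : Subalgebra F (Matrix (Fin n) (Fin n) F)), r.Prime → IsFieldSubalgebra r K →
    IsSelfAdjointFor f K → (∀ k ∈ K, ∀ v, f (k *ᵥ v) v = 0) → ¬ G ≤ subalgebraNormalizer K
  fun2 : ∀ K : Subalgebra F (Matrix (Fin n) (Fin n) F), Odd (Fintype.card F) → IsFieldSubalgebra 2 K →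
    IsAdjointClosedFor f K → ¬ IsSelfAdjointFor f K → ¬ G ≤ subalgebraNormalizer K
  ten : ∀ (n₁ n₂ : ℕ) (e : Fin n ≃ Fin n₁ × Fin n₂) (P : GL (Fin n) F) (f₁ : (Fin n₁ → F) → (Fin n₁ → F) → F)
    (f₂ : (Fin n₂ → F) → (Fin n₂ → F) → F), Odd (Fintype.card F) → 3 ≤ n₂ → IsSymplecticForm f₁ → IsSymmetricForm f₂ →
    IsTensorFormStructure id f f₁ f₂ e P → ¬ G ≤ tensorProductSubgroup n₁ n₂ e P
  sub : ∀ (F₀ : Subfield F) (r : ℕ) (P : GL (Fin n) F) (ζ : F), r.Prime → Fintype.card F = Nat.card F₀ ^ r → ζ ≠ 0 →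
    IsFormRationalStructure f F₀ ζ P → ¬ G ≤ subfieldSubgroup F₀ P
  sty : ∀ (R : Subgroup (GL (Fin n) F)) (p k : ℕ), IsSymplecticTypeGroup 2 R →
      ActsAbsolutelyIrreducibly (matrixSet R) → R ≤ similarityGroup f → p.Prime → Odd p → Fintype.card F = p →
      Nat.card R = 2 ^ (1 + 2 * k) → Nat.card (Subgroup.center R) = 2 → IsOfMinusType k R → n = 2 ^ k →
      R ≤ isoG f → env R = ⊤ → (∀ x ∈ R, ∀ y ∈ R, ⁅x, y⁆ ∈ scalars (Fin n) F) → ¬ G ≤ subgroupNormalizer R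
  wr : ∀ (k t : ℕ) (e : Fin n ≃ (Fin t → Fin k)) (P : GL (Fin n) F) (f₁ : (Fin k → F) → (Fin k → F) → F),
    Odd (Fintype.card F) → Odd t → 3 ≤ t → ¬ (Fintype.card F = 3 ∧ k = 2) → IsSymplecticForm f₁ →
    IsTensorPowerFormStructure id f f₁ e P → ¬ G ≤ tensorWreathSubgroup k t e P
  quad : ∀ Q : (Fin n → F) → F, ¬ Odd (Fintype.card F) → IsNondegenerateQuadraticForm Q →
    (∀ u v, QuadraticMap.polar Q u v = f u v) → ¬ G ≤ quadSimilarityGroup Q

theorem not_odd_of_two [Fintype F] (h2 : (2 : F) = 0) : ¬ Odd (Fintype.card F) := by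
  rintro ⟨k, hk⟩
  have h1 : ((Fintype.card F : ℕ) : F) = 0 := FiniteField.cast_card_eq_zero F
  rw [hk, Nat.cast_add, Nat.cast_mul, Nat.cast_two, h2, zero_mul, zero_add, Nat.cast_one] at h1
  exact one_ne_zero h1

theorem NS.irr [Fintype F] (hG : NS f G) : ActsIrreducibly (matrixSet G) := by
  by_contra hirr
  rcases reducible_cases hG.sp.sfm hG.fix hirr with ⟨W, h1, h2, h3⟩ | ⟨W, h1, h2, h3, h4⟩ | ⟨k, D, h1, -, h3⟩
  · exact hG.ts W h1 h2 h3
  · exact hG.nd W h1 h2 h3 h4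
  · exact hG.ndd 2 k D h1 h3

/-- the projections of a decomposition into two subspaces -/
theorem exists_proj {D₀ D₁ : Submodule F (Fin n → F)} (h : IsCompl D₀ D₁) :
    ∃ θ θ' : (Fin n → F) →ₗ[F] (Fin n → F), (∀ v, θ v ∈ D₀) ∧ (∀ v, θ' v ∈ D₁) ∧ (∀ v, θ v + θ' v = v) ∧
      ∀ a ∈ D₀, ∀ b ∈ D₁, θ (a + b) = a := by
  let θ : (Fin n → F) →ₗ[F] (Fin n → F) := D₀.subtype ∘ₗ Submodule.linearProjOfIsCompl D₀ D₁ h
  have h1 : ∀ a ∈ D₀, ∀ b ∈ D₁, θ (a + b) = a := by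
    intro a ha b hb
    have e1 : θ a = a := by
      show ((Submodule.linearProjOfIsCompl D₀ D₁ h a : D₀) : Fin n → F) = a
      have := Submodule.linearProjOfIsCompl_apply_left h ⟨a, ha⟩
      exact congrArg Subtype.val this
    have e2 : θ b = 0 := by
      show ((Submodule.linearProjOfIsCompl D₀ D₁ h b : D₀) : Fin n → F) = 0
      have := Submodule.linearProjOfIsCompl_apply_right h ⟨b, hb⟩
      exact congrArg Subtype.val this
    rw [map_add, e1, e2, add_zero]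
  refine ⟨θ, LinearMap.id - θ, fun v => (Submodule.linearProjOfIsCompl D₀ D₁ h v).2, ?_, ?_, h1⟩
  · intro v
    have hv : v ∈ D₀ ⊔ D₁ := by rw [h.sup_eq_top]; trivial
    obtain ⟨a, ha, b, hb, rfl⟩ := Submodule.mem_sup.1 hv
    show (a + b) - θ (a + b) ∈ D₁
    rw [h1 a ha b hb, add_sub_cancel_left]
    exact hb
  · intro v
    show θ v + (v - θ v) = v
    abel

theorem isCompl_of_dec {D : Fin 2 → Submodule F (Fin n → F)} (hD : IsMDecomposition k D) : IsCompl (D 0) (D 1) := by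
  constructor
  · have := (iSupIndep_def.1 hD.indep) 0
    refine this.mono_right ?_
    exact le_iSup₂ (f := fun j (_ : j ≠ (0 : Fin 2)) => D j) 1 (by decide)
  · rw [codisjoint_iff, eq_top_iff, ← hD.iSup_eq_top]
    apply iSup_le
    intro i
    fin_cases i
    · exact le_sup_left
    · exact le_sup_right

/-- in characteristic two a pair of complementary totally singular subspaces gives a quadratic form -/
theorem tsd_quad (h : SpF f) (h2 : (2 : F) = 0) (hG : Fx f G) {D : Fin 2 → Submodule F (Fin n → F)}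
    (hD : IsMDecomposition k D) (hts : ∀ i, IsTotallySingularFor f (D i)) (hle : G ≤ decompositionStabilizer D) :
    ∃ Q : (Fin n → F) → F, IsNondegenerateQuadraticForm Q ∧ (∀ u v, QuadraticMap.polar Q u v = f u v) ∧
      G ≤ quadSimilarityGroup Q := by
  obtain ⟨θ, θ', hθ, hθ', hsum, hθs⟩ := exists_proj (isCompl_of_dec hD)
  have hθ's : ∀ a ∈ D 0, ∀ b ∈ D 1, θ' (a + b) = b := by
    intro a ha b hb
    have := hsum (a + b)
    rw [hθs a ha b hb] at this
    exact add_left_cancel this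
  have hadj : ∀ u v, f (θ u) v = f u (θ' v) := by
    intro u v
    have e1 : f (θ u) v = f (θ u) (θ' v) := by
      conv_lhs => rw [← hsum v]
      rw [h.sfm.add_right, hts 0 _ (hθ u) _ (hθ v), zero_add]
    have e2 : f u (θ' v) = f (θ u) (θ' v) := by
      conv_lhs => rw [← hsum u]
      rw [h.sfm.add_left, hts 1 _ (hθ' u) _ (hθ' v), add_zero]
    rw [e1, e2]
  obtain ⟨h3, h4, h5⟩ := quad_theta h h2 hadj hsum
  refine ⟨_, h3, h4, ?_⟩
  intro g hg
  apply h5 g (hG g hg)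
  obtain ⟨σ, hσ⟩ := hle hg
  have hmap : ∀ i, ∀ w ∈ D i, (g : Matrix (Fin n) (Fin n) F) *ᵥ w ∈ D (σ i) := by
    intro i w hw
    rw [← hσ i]
    exact ⟨w, hw, rfl⟩
  have hcases : (σ 0 = 0 ∧ σ 1 = 1) ∨ (σ 0 = 1 ∧ σ 1 = 0) := by
    revert σ
    intro σ _ _
    have : ∀ σ : Equiv.Perm (Fin 2), (σ 0 = 0 ∧ σ 1 = 1) ∨ (σ 0 = 1 ∧ σ 1 = 0) := by decide
    exact this σ
  rcases hcases with ⟨h0, h1⟩ | ⟨h0, h1⟩
  · left
    intro v
    have e0 := hmap 0 _ (hθ v)
    have e1 := hmap 1 _ (hθ' v)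
    rw [h0] at e0
    rw [h1] at e1
    conv_lhs => rw [← hsum v, Matrix.mulVec_add]
    rw [hθs _ e0 _ e1]
  · right
    intro v
    have e0 := hmap 0 _ (hθ v)
    have e1 := hmap 1 _ (hθ' v)
    rw [h0] at e0
    rw [h1] at e1
    conv_lhs => rw [← hsum v, Matrix.mulVec_add, add_comm]
    rw [hθs _ e1 _ e0]

/-- in characteristic two a field that is not self-adjoint gives a quadratic form -/
theorem fld_quad [Fintype F] (hn : 0 < n) (h : SpF f) (h2 : (2 : F) = 0) (hG : Fx f G) (hr : r.Prime)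
    {K : Subalgebra F (Matrix (Fin n) (Fin n) F)}
    (hK : IsFieldSubalgebra r K) (hadj : IsAdjointClosedFor f K) (hns : ¬ IsSelfAdjointFor f K)
    (hle : G ≤ subalgebraNormalizer K) :
    ∃ Q : (Fin n → F) → F, IsNondegenerateQuadraticForm Q ∧ (∀ u v, QuadraticMap.polar Q u v = f u v) ∧
      G ≤ quadSimilarityGroup Q := by
  classical
  obtain ⟨-, k₀, hk₀, k₁, hk₁, hadj01, hne, ⟨a, ha⟩, ⟨b, hb⟩⟩ := fld_not_sa hn h hr hK hadj hns
  haveI : Nonempty (Fin n) := ⟨⟨0, hn⟩⟩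
  have hdouble : ∀ z : Matrix (Fin n) (Fin n) F, z + z = 0 := by
    intro z
    ext i j
    rw [Matrix.add_apply, Matrix.zero_apply]
    linear_combination (z i j) * h2
  have ha0 : a ≠ 0 := by
    rintro rfl
    apply hne
    rw [zero_smul] at ha
    have := hdouble k₁
    exact add_right_cancel (ha.trans this.symm)
  set t₀ : Matrix (Fin n) (Fin n) F := a⁻¹ • k₀ with ht₀
  set t₁ : Matrix (Fin n) (Fin n) F := a⁻¹ • k₁ with ht₁
  have ht₀K : t₀ ∈ K := K.smul_mem hk₀ _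
  have ht₁K : t₁ ∈ K := K.smul_mem hk₁ _
  have hsum : t₀ + t₁ = 1 := by
    rw [ht₀, ht₁, ← smul_add, ha, smul_smul, inv_mul_cancel₀ ha0, one_smul]
  have hprod : t₀ * t₁ = (a⁻¹ * a⁻¹ * b) • 1 := by
    rw [ht₀, ht₁, smul_mul_smul_comm, hb, smul_smul]
  have hsum' : ∀ v, Matrix.toLin' t₀ v + Matrix.toLin' t₁ v = v := by
    intro v
    rw [Matrix.toLin'_apply, Matrix.toLin'_apply, ← Matrix.add_mulVec, hsum, Matrix.one_mulVec]
  obtain ⟨h3, h4, h5⟩ := quad_theta h h2 (θ := Matrix.toLin' t₀) (θ' := Matrix.toLin' t₁) (by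
    intro u v
    rw [Matrix.toLin'_apply, Matrix.toLin'_apply, ht₀, ht₁, Matrix.smul_mulVec, Matrix.smul_mulVec, h.sfm.smul_left,
      h.smul_right, hadj01]) hsum'
  refine ⟨_, h3, h4, ?_⟩
  intro g hg
  apply h5 g (hG g hg)
  set x := ((g⁻¹ : GL (Fin n) F) : Matrix (Fin n) (Fin n) F) * t₀ * (g : Matrix (Fin n) (Fin n) F) with hx
  have hxK : x ∈ K := conj_mem_norm (hle hg) ht₀K
  have hgg : (g : Matrix (Fin n) (Fin n) F) * ((g⁻¹ : GL (Fin n) F) : Matrix (Fin n) (Fin n) F) = 1 := by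
    rw [← Units.val_mul, mul_inv_cancel, Units.val_one]
  have hgg' : ((g⁻¹ : GL (Fin n) F) : Matrix (Fin n) (Fin n) F) * (g : Matrix (Fin n) (Fin n) F) = 1 := by
    rw [← Units.val_mul, inv_mul_cancel, Units.val_one]
  -- `t₀ * t₀ = t₀ + c`
  set c := a⁻¹ * a⁻¹ * b with hc
  have hq : t₀ * t₀ + t₀ = c • 1 := by
    have e1 : t₀ * t₀ + t₀ * t₁ = t₀ := by rw [← mul_add, hsum, mul_one]
    rw [hprod] at e1
    calc t₀ * t₀ + t₀ = t₀ * t₀ + (t₀ * t₀ + c • 1) := by rw [e1]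
      _ = (t₀ * t₀ + t₀ * t₀) + c • 1 := by abel
      _ = c • 1 := by rw [hdouble, zero_add]
  have hxq : x * x + x = c • 1 := by
    have e1 : x * x = ((g⁻¹ : GL (Fin n) F) : Matrix (Fin n) (Fin n) F) * (t₀ * t₀) * (g : Matrix (Fin n) (Fin n) F) := by
      calc x * x = ((g⁻¹ : GL (Fin n) F) : Matrix (Fin n) (Fin n) F) * t₀ *
            ((g : Matrix (Fin n) (Fin n) F) * ((g⁻¹ : GL (Fin n) F) : Matrix (Fin n) (Fin n) F)) * t₀ *
            (g : Matrix (Fin n) (Fin n) F) := by rw [hx]; simp only [mul_assoc]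
        _ = _ := by rw [hgg, mul_one]; simp only [mul_assoc]
    rw [e1, hx, ← add_mul, ← mul_add, hq, Matrix.mul_smul, mul_one, Matrix.smul_mul, hgg']
  have hfac : (x + t₀) * (x + t₁) = 0 := by
    have e1 : (x + t₀) * (x + t₁) = x * x + x * t₁ + (t₀ * x + t₀ * t₁) := by
      rw [add_mul, mul_add, mul_add]
    have e2 : t₀ * x = x * t₀ := hK.comm _ ht₀K _ hxK
    rw [e1, e2, hprod]
    calc x * x + x * t₁ + (x * t₀ + c • 1) = x * x + x * (t₀ + t₁) + c • 1 := by rw [mul_add]; abel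
      _ = (x * x + x) + c • 1 := by rw [hsum, mul_one]
      _ = 0 := by rw [hxq, hdouble]
  have hcases : x + t₀ = 0 ∨ x + t₁ = 0 := by
    by_contra hcon
    push Not at hcon
    obtain ⟨y, hy, hxy⟩ := hK.inv (x + t₀) (K.add_mem hxK ht₀K) hcon.1
    have e1 : y * (x + t₀) = 1 := mul_eq_one_comm.1 hxy
    apply hcon.2
    calc x + t₁ = y * (x + t₀) * (x + t₁) := by rw [e1, one_mul]
      _ = 0 := by rw [mul_assoc, hfac, mul_zero]
  have hconj : ∀ v, t₀ *ᵥ ((g : Matrix (Fin n) (Fin n) F) *ᵥ v) = (g : Matrix (Fin n) (Fin n) F) *ᵥ (x *ᵥ v) :=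
    comm_conj t₀
  rcases hcases with h6 | h6
  · left
    intro v
    have e1 : x = t₀ := add_right_cancel (h6.trans (hdouble t₀).symm)
    rw [Matrix.toLin'_apply, Matrix.toLin'_apply, hconj, e1]
  · right
    intro v
    have e1 : x = t₁ := add_right_cancel (h6.trans (hdouble t₁).symm)
    rw [Matrix.toLin'_apply, Matrix.toLin'_apply, hconj, e1]

theorem NS.ng [Fintype F] (hn : 0 < n) (hG : NS f G) : NG (RingEquiv.refl F) (-1) f G where
  form := hG.sp.sfm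
  fix := hG.fix
  ts := hG.ts
  nd := hG.nd
  ndd := hG.ndd
  tsd := by
    intro k D hD hts hle
    by_cases h2 : (2 : F) = 0
    · obtain ⟨Q, h3, h4, h5⟩ := tsd_quad hG.sp h2 hG.fix hD hts hle
      exact hG.quad Q (not_odd_of_two h2) h3 h4 h5
    · exact hG.tsd (odd_card_of_two_ne h2) k D hD hts hle
  fld := by
    intro r K hr _ hK hadj hle
    by_cases hsa : IsSelfAdjointFor f K
    · exact hG.fsa r K hr hK hsa (sa_alt hn hG.sp hK hsa hG.fix hG.irr hle) hle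
    · by_cases h2 : (2 : F) = 0
      · obtain ⟨Q, h3, h4, h5⟩ := fld_quad hn hG.sp h2 hG.fix hr hK hadj hsa hle
        exact hG.quad Q (not_odd_of_two h2) h3 h4 h5
      · obtain ⟨h3, -⟩ := fld_not_sa hn hG.sp hr hK hadj hsa
        subst h3
        exact hG.fun2 K (odd_card_of_two_ne h2) hK hadj hsa hle

/-- commutative normalised adjoint-closed algebras are scalar -/
theorem NG.comm_scalar [Fintype F] {τ : F ≃+* F} {ε : F} (hn : 0 < n) (hG : NG τ ε f G)
    {C : Subalgebra F (Module.End F (Fin n → F))}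
    (hC : ∀ x ∈ C, ∀ y ∈ C, x * y = y * x) (hCl : AClosed f C) (hGC : ∀ g ∈ G, ∀ x ∈ C, cjA g x ∈ C) :
    ∀ z ∈ C, ∃ c : F, z = c • 1 := by
  rcases center_cases hn hG.form hG.fix hG.irr hC hCl hGC with ⟨t, k, D, h1, h2⟩ | ⟨k, D, h1, h2, h3⟩ | hCf
  · exact absurd h2 (hG.ndd t k D h1)
  · exact absurd h3 (hG.tsd k D h1 h2)
  rcases field_sub hn hG.form hC hCl hGC hCf with hsc | ⟨r, K, hr, hodd, hK, hKa, hKG⟩
  · exact hsc
  · exact absurd hKG (hG.fld r K hr hodd hK hKa)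

end Cfsg.Agent.H29.Fm
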