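import Mathlib
import Cfsg.Agent.H29_Un3
import Cfsg.Agent.H29_Max3

set_option autoImplicit false

/-! the special unitary group is in no geometric class, III -/

namespace Cfsg.Agent.H29.Fm

open Matrix Module Cfsg.Geo Cfsg.Agent.H29.Clifford Cfsg.Agent.H29.Asc Cfsg.Agent.H29.AscF Cfsg.Agent.H29.Trv
  Cfsg.Agent.H29.AscT
open scoped commutatorElement Kronecker

variable {F : Type*} [Field F] {n k m r t w : ℕ}
variable {τ : F ≃+* F} {ε : F} {f : (Fin n → F) → (Fin n → F) → F}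
variable {X : Subgroup (GL (Fin n) F)}

theorem frame_key (h : SFm τ ε f) (hX : TV f X) {D : Fin t → Submodule F (Fin n → F)}
    (hD : IsNondegenerateMDecomposition f 1 D) {b : Fin t → (Fin n → F)} (hb : ∀ i, b i ∈ D i)
    {i₀ i₁ i₂ : Fin t} (h01 : i₀ ≠ i₁) (h02 : i₀ ≠ i₂) (h12 : i₁ ≠ i₂)
    (hle : X ≤ decompositionStabilizer D) {v : Fin n → F} (hv : f v v = 0) (e0 : f (b i₀) v ≠ 0)
    (e1 : f v (b i₁) ≠ 0) (e2 : f v (b i₂) ≠ 0) : False := by
  have hv0 : v ≠ 0 := by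
    rintro rfl
    exact e0 (h.zero_right _)
  obtain ⟨a, ha, g, hg, hgx⟩ := hX v hv0 hv
  obtain ⟨σ, hσ⟩ := hle hg
  have h1 : (g : Matrix (Fin n) (Fin n) F) *ᵥ b i₀ ∈ D (σ i₀) := by
    rw [← hσ i₀]
    exact ⟨b i₀, hb i₀, rfl⟩
  have h2 : ∀ j, i₀ ≠ j → f v (b j) ≠ 0 → σ i₀ = j := by
    intro j h0j hj
    by_contra hne
    have h3 := hD.orthogonal _ _ hne _ h1 _ (hb j)
    rw [hgx, h.add_left, h.smul_left, hD.orthogonal _ _ h0j _ (hb i₀) _ (hb j), zero_add] at h3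
    exact mul_ne_zero (mul_ne_zero ha e0) hj h3
  exact h12 ((h2 i₁ h01 e1).symm.trans (h2 i₂ h02 e2))

theorem frame_basis [Fintype F] (h : SFm τ 1 f) (hτ : τ ≠ RingEquiv.refl F) {D : Fin t → Submodule F (Fin n → F)}
    (hD : IsNondegenerateMDecomposition f 1 D) : ∃ b : Fin t → (Fin n → F), (∀ i, b i ∈ D i) ∧ (∀ i, f (b i) (b i) = 1) ∧
      ∀ i j, i ≠ j → f (b i) (b j) = 0 := by
  have key : ∀ i, ∃ b ∈ D i, f b b = 1 := by
    intro i
    have hfr := hD.decomp.finrank_eq i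
    rw [finrank_eq_one_iff'] at hfr
    obtain ⟨u, hu0, hu⟩ := hfr
    have hu0' : (u : Fin n → F) ≠ 0 := fun h => hu0 (Subtype.ext h)
    obtain ⟨⟨x, hx, hxu⟩, -⟩ := hD.nondegenerate i u u.2 hu0'
    obtain ⟨c, hc⟩ := hu ⟨x, hx⟩
    have hc' : c • (u : Fin n → F) = x := congrArg Subtype.val hc
    have huu : f u u ≠ 0 := by
      intro h0
      rw [← hc', h.smul_left, h0, mul_zero] at hxu
      exact hxu rfl
    have hself : τ (f u u) = f u u := by
      conv_rhs => rw [h.herm, one_mul]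
    obtain ⟨d, hd, hdd⟩ := norm_surj hτ h.inv (c := (f u u)⁻¹) (inv_ne_zero huu) (by rw [map_inv₀, hself])
    refine ⟨d • (u : Fin n → F), (D i).smul_mem _ u.2, ?_⟩
    rw [h.smul_left, h.smul_right, ← mul_assoc, hdd, inv_mul_cancel₀ huu]
  choose b hb hbb using key
  exact ⟨b, hb, hbb, fun i j hij => hD.orthogonal i j hij _ (hb i) _ (hb j)⟩

theorem not_le_frame [Fintype F] (h : SFm τ 1 f) (hτ : τ ≠ RingEquiv.refl F) (hX : TV f X)
    {D : Fin t → Submodule F (Fin n → F)} (hD : IsNondegenerateMDecomposition f 1 D)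
    (hn : (3 ≤ n ∧ ∃ s : F, τ s = s ∧ s ≠ 0 ∧ s ≠ -1) ∨ (4 ≤ n ∧ (2 : F) = 0)) : ¬ X ≤ decompositionStabilizer D := by
  intro hle
  have ht : t = n := by
    have := dec_card hD.decomp
    omega
  obtain ⟨b, hb, hb1, hb0⟩ := frame_basis h hτ hD
  have ht3 : 3 ≤ t := by
    rcases hn with ⟨h1, -⟩ | ⟨h1, -⟩ <;> omega
  let i₀ : Fin t := ⟨0, by omega⟩
  let i₁ : Fin t := ⟨1, by omega⟩
  let i₂ : Fin t := ⟨2, by omega⟩
  have h01 : i₀ ≠ i₁ := by
    intro h; exact absurd (congrArg Fin.val h) (by simp [i₀, i₁])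
  have h02 : i₀ ≠ i₂ := by
    intro h; exact absurd (congrArg Fin.val h) (by simp [i₀, i₂])
  have h12 : i₁ ≠ i₂ := by
    intro h; exact absurd (congrArg Fin.val h) (by simp [i₁, i₂])
  rcases hn with ⟨hn, s, hs, hs0, hs1⟩ | ⟨hn, h2⟩
  · obtain ⟨c₁, hc₁, hcc₁⟩ := norm_surj hτ h.inv hs0 hs
    obtain ⟨c₂, hc₂, hcc₂⟩ := norm_surj hτ h.inv (c := -1 - s) (by
      intro h0
      apply hs1
      linear_combination -h0) (by rw [map_sub, map_neg, map_one, hs])
    refine frame_key h hX hD hb h01 h02 h12 hle (v := b i₀ + c₁ • b i₁ + c₂ • b i₂) ?_ ?_ ?_ ?_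
    · simp only [h.add_left, h.add_right, h.smul_left, h.smul_right, hb1, hb0 _ _ h01, hb0 _ _ h02, hb0 _ _ h12,
        hb0 _ _ (Ne.symm h01), hb0 _ _ (Ne.symm h02), hb0 _ _ (Ne.symm h12)]
      linear_combination hcc₁ + hcc₂
    · simp only [h.add_right, h.smul_right, hb1, hb0 _ _ h01, hb0 _ _ h02]
      simp
    · simp only [h.add_left, h.smul_left, hb1, hb0 _ _ h01, hb0 _ _ (Ne.symm h12)]
      simpa using hc₁
    · simp only [h.add_left, h.smul_left, hb1, hb0 _ _ h02, hb0 _ _ h12]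
      simpa using hc₂
  · let i₃ : Fin t := ⟨3, by omega⟩
    have h03 : i₀ ≠ i₃ := by
      intro h; exact absurd (congrArg Fin.val h) (by simp [i₀, i₃])
    have h13 : i₁ ≠ i₃ := by
      intro h; exact absurd (congrArg Fin.val h) (by simp [i₁, i₃])
    have h23 : i₂ ≠ i₃ := by
      intro h; exact absurd (congrArg Fin.val h) (by simp [i₂, i₃])
    refine frame_key h hX hD hb h01 h02 h12 hle (v := b i₀ + b i₁ + b i₂ + b i₃) ?_ ?_ ?_ ?_
    · simp only [h.add_left, h.add_right, hb1, hb0 _ _ h01, hb0 _ _ h02, hb0 _ _ h12,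
        hb0 _ _ (Ne.symm h01), hb0 _ _ (Ne.symm h02), hb0 _ _ (Ne.symm h12), hb0 _ _ h03, hb0 _ _ h13, hb0 _ _ h23,
        hb0 _ _ (Ne.symm h03), hb0 _ _ (Ne.symm h13), hb0 _ _ (Ne.symm h23)]
      linear_combination 2 * h2
    · simp only [h.add_right, hb1, hb0 _ _ h01, hb0 _ _ h02, hb0 _ _ h03]
      simp
    · simp only [h.add_left, hb1, hb0 _ _ h01, hb0 _ _ (Ne.symm h12), hb0 _ _ (Ne.symm h13)]
      simp
    · simp only [h.add_left, hb1, hb0 _ _ h02, hb0 _ _ h12, hb0 _ _ (Ne.symm h23)]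
      simp

/-- the Kronecker product in `GL` -/
noncomputable def kr (a : GL (Fin w) F) (b : GL (Fin t) F) : GL (Fin w × Fin t) F where
  val := (a : Matrix (Fin w) (Fin w) F) ⊗ₖ (b : Matrix (Fin t) (Fin t) F)
  inv := ((a⁻¹ : GL (Fin w) F) : Matrix (Fin w) (Fin w) F) ⊗ₖ ((b⁻¹ : GL (Fin t) F) : Matrix (Fin t) (Fin t) F)
  val_inv := by
    rw [← Matrix.mul_kronecker_mul, ← Units.val_mul, ← Units.val_mul, mul_inv_cancel, mul_inv_cancel,
      Units.val_one, Units.val_one, Matrix.one_kronecker_one]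
  inv_val := by
    rw [← Matrix.mul_kronecker_mul, ← Units.val_mul, ← Units.val_mul, inv_mul_cancel, inv_mul_cancel,
      Units.val_one, Units.val_one, Matrix.one_kronecker_one]

theorem kr_mem (a : GL (Fin w) F) (b : GL (Fin t) F) : kr a b ∈ kroneckerSubgroup w t F := ⟨a, b, rfl⟩

theorem tens_conj (e : Fin n ≃ Fin w × Fin t) (Q : GL (Fin n) F) (a : GL (Fin w) F) (b : GL (Fin t) F) :
    tensorProductSubgroup w t e Q ≤ tensorProductSubgroup w t e (Q * glReindex e.symm (kr a b)) := by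
  rintro _ ⟨_, ⟨x, hx, rfl⟩, rfl⟩
  refine ⟨glReindex e.symm ((kr a b)⁻¹ * x * kr a b), ⟨_, ?_, rfl⟩, ?_⟩
  · exact Subgroup.mul_mem _ (Subgroup.mul_mem _ (Subgroup.inv_mem _ (kr_mem a b)) hx) (kr_mem a b)
  · show (Q * glReindex e.symm (kr a b)) * glReindex e.symm ((kr a b)⁻¹ * x * kr a b) *
      (Q * glReindex e.symm (kr a b))⁻¹ = Q * glReindex e.symm x * Q⁻¹
    rw [map_mul, map_mul, map_inv]
    group

theorem upow_gram [Fintype F] {q : ℕ} (hF : Fintype.card F = q ^ 2) {g : (Fin w → F) → (Fin w → F) → F}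
    (hg : IsUnitaryFormPow q g) : HM (fq hF) 1 (gramMatrix g) ∧ (gramMatrix g).det ≠ 0 := by
  have hr : ∀ v x y, g v (x + y) = g v x + g v y := by
    intro v x y
    rw [hg.herm, hg.add_left, ← fq_apply hF, map_add, fq_apply, fq_apply, ← hg.herm, ← hg.herm]
  have hs : ∀ (c : F) v x, g v (c • x) = fq hF c * g v x := by
    intro c v x
    rw [hg.herm, hg.smul_left, ← fq_apply hF, map_mul, fq_apply _ (g x v), ← hg.herm]
  refine ⟨?_, ?_⟩
  · intro i j
    show g (Pi.single i 1) (Pi.single j 1) = 1 * fq hF (g (Pi.single j 1) (Pi.single i 1))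
    rw [one_mul, fq_apply, ← hg.herm]
  · have h1 := exists_matrix (fq hF : F →+* F) g hg.add_left hg.smul_left hr (fun c v x => hs c v x)
    refine det_ne_zero_of_nondeg (σ := fq hF) (M := Matrix.of fun i j => g (Pi.single i 1) (Pi.single j 1)) ?_
    intro v hv
    obtain ⟨⟨x, hx⟩, -⟩ := hg.nondegenerate v hv
    refine ⟨x, ?_⟩
    have h2 := h1 x v
    rw [h2] at hx
    exact hx

theorem tens_change {e : Fin n ≃ Fin w × Fin t} {Q : GL (Fin n) F} {Γ : Matrix (Fin w × Fin t) (Fin w × Fin t) F} {c : F}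
    (H : ∀ x y : Fin w × Fin t → F, f ((Q : Matrix (Fin n) (Fin n) F) *ᵥ (x ∘ e))
      ((Q : Matrix (Fin n) (Fin n) F) *ᵥ (y ∘ e)) = c * formOfGram τ Γ x y)
    (a : GL (Fin w) F) (b : GL (Fin t) F) (x y : Fin w × Fin t → F) :
    f (((Q * glReindex e.symm (kr a b) : GL (Fin n) F) : Matrix (Fin n) (Fin n) F) *ᵥ (x ∘ e))
      (((Q * glReindex e.symm (kr a b) : GL (Fin n) F) : Matrix (Fin n) (Fin n) F) *ᵥ (y ∘ e)) =
      c * formOfGram τ ((kr a b : Matrix (Fin w × Fin t) (Fin w × Fin t) F)ᵀ * Γ *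
        (kr a b : Matrix (Fin w × Fin t) (Fin w × Fin t) F).map τ) x y := by
  have key : ∀ x : Fin w × Fin t → F,
      ((Q * glReindex e.symm (kr a b) : GL (Fin n) F) : Matrix (Fin n) (Fin n) F) *ᵥ (x ∘ e) =
      (Q : Matrix (Fin n) (Fin n) F) *ᵥ (((kr a b : Matrix (Fin w × Fin t) (Fin w × Fin t) F) *ᵥ x) ∘ e) := by
    intro x
    rw [Units.val_mul, ← Matrix.mulVec_mulVec]
    congr 1
    funext i
    show ∑ j, (kr a b : Matrix (Fin w × Fin t) (Fin w × Fin t) F) (e i) (e j) * x (e j) =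
      ∑ p, (kr a b : Matrix (Fin w × Fin t) (Fin w × Fin t) F) (e i) p * x p
    exact Equiv.sum_comp e (fun p => (kr a b : Matrix (Fin w × Fin t) (Fin w × Fin t) F) (e i) p * x p)
  rw [key, key, H, conj_sum]

theorem tens_orth [Fintype F] (hτ : τ ≠ RingEquiv.refl F) (hinv : ∀ a, τ (τ a) = a) {e : Fin n ≃ Fin w × Fin t}
    {Q : GL (Fin n) F} {A : Matrix (Fin w) (Fin w) F} {B : Matrix (Fin t) (Fin t) F} (hA : HM τ 1 A) (hB : HM τ 1 B)
    (hdA : A.det ≠ 0) (hdB : B.det ≠ 0) {c : F}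
    (H : ∀ x y : Fin w × Fin t → F, f ((Q : Matrix (Fin n) (Fin n) F) *ᵥ (x ∘ e))
      ((Q : Matrix (Fin n) (Fin n) F) *ᵥ (y ∘ e)) = c * formOfGram τ (A ⊗ₖ B) x y) :
    ∃ Q' : GL (Fin n) F, tensorProductSubgroup w t e Q ≤ tensorProductSubgroup w t e Q' ∧
      ∀ x y : Fin w × Fin t → F, f ((Q' : Matrix (Fin n) (Fin n) F) *ᵥ (x ∘ e))
      ((Q' : Matrix (Fin n) (Fin n) F) *ᵥ (y ∘ e)) = c * formOfGram τ 1 x y := by
  obtain ⟨a, ha⟩ := orthonormalise (k := 1) hτ hinv (B := fun _ => A) (fun _ => hA) (fun _ => hdA)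
  obtain ⟨b, hb⟩ := orthonormalise (k := 1) hτ hinv (B := fun _ => B) (fun _ => hB) (fun _ => hdB)
  refine ⟨_, tens_conj e Q (a 0) (b 0), ?_⟩
  intro x y
  rw [tens_change H]
  congr 2
  have h1 : (kr (a 0) (b 0) : Matrix (Fin w × Fin t) (Fin w × Fin t) F)ᵀ * (A ⊗ₖ B) *
        (kr (a 0) (b 0) : Matrix (Fin w × Fin t) (Fin w × Fin t) F).map τ =
        (((a 0 : Matrix (Fin w) (Fin w) F))ᵀ * A * (a 0 : Matrix (Fin w) (Fin w) F).map τ) ⊗ₖ
        (((b 0 : Matrix (Fin t) (Fin t) F))ᵀ * B * (b 0 : Matrix (Fin t) (Fin t) F).map τ) := by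
    show ((a 0 : Matrix (Fin w) (Fin w) F) ⊗ₖ (b 0 : Matrix (Fin t) (Fin t) F))ᵀ * (A ⊗ₖ B) *
      ((a 0 : Matrix (Fin w) (Fin w) F) ⊗ₖ (b 0 : Matrix (Fin t) (Fin t) F)).map τ = _
    rw [Matrix.mul_kronecker_mul, Matrix.mul_kronecker_mul]
    congr 1
    ext i j
    show τ (_ * _) = τ _ * τ _
    rw [map_mul]
  rw [h1, ha 0, hb 0, Matrix.one_kronecker_one]

theorem not_le_tens [Fintype F] (h : SFm τ ε f) (hτ : τ ≠ RingEquiv.refl F) (hX : TV f X) (hw : 2 ≤ w) (ht : 2 ≤ t)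
    {e : Fin n ≃ Fin w × Fin t} {Q : GL (Fin n) F} {c : F} (hc : c ≠ 0)
    (H : ∀ x y : Fin w × Fin t → F, f ((Q : Matrix (Fin n) (Fin n) F) *ᵥ (x ∘ e))
      ((Q : Matrix (Fin n) (Fin n) F) *ᵥ (y ∘ e)) = c * formOfGram τ 1 x y) : ¬ X ≤ tensorProductSubgroup w t e Q := by
  intro hle
  obtain ⟨a, ha⟩ := exists_neg hτ h.inv
  let i₀ : Fin w := ⟨0, by omega⟩
  let i₁ : Fin w := ⟨1, by omega⟩
  let j₀ : Fin t := ⟨0, by omega⟩
  let j₁ : Fin t := ⟨1, by omega⟩
  have hi : i₀ ≠ i₁ := by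
    intro h; exact absurd (congrArg Fin.val h) (by simp [i₀, i₁])
  have hj : j₀ ≠ j₁ := by
    intro h; exact absurd (congrArg Fin.val h) (by simp [j₀, j₁])
  have hxy : (i₀, j₀) ≠ (i₁, j₁) := by
    intro h; exact hi (congrArg Prod.fst h)
  obtain ⟨b, hb, g, hg, hY⟩ := trv_coord h hX hc H hxy ha
  obtain ⟨_, ⟨x, hx, rfl⟩, hgx⟩ := hle hg
  have h1 := hY x hgx.symm
  obtain ⟨A, B, hAB⟩ := hx
  have h2 : ∀ p q, (x : Matrix (Fin w × Fin t) (Fin w × Fin t) F) p q =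
      (A : Matrix (Fin w) (Fin w) F) p.1 q.1 * (B : Matrix (Fin t) (Fin t) F) p.2 q.2 := by
    intro p q
    rw [hAB]; rfl
  have ha0 : a ≠ 0 := by
    rintro rfl
    rw [zero_mul] at ha
    exact one_ne_zero (neg_eq_zero.1 ha.symm)
  have e1 := h1 (i₀, j₁) (i₀, j₁)
  have e2 := h1 (i₁, j₁) (i₀, j₁)
  have e3 := h1 (i₁, j₁) (i₀, j₀)
  rw [h2] at e1 e2 e3
  simp only [Prod.mk.injEq, hi, Ne.symm hi, hj, Ne.symm hj, and_true, and_false, false_and, true_and, if_true, if_false,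
    mul_zero, add_zero, zero_add, mul_one, zero_mul] at e1 e2 e3
  have hB : (B : Matrix (Fin t) (Fin t) F) j₁ j₁ ≠ 0 := by
    intro h0
    rw [h0, mul_zero] at e1
    exact zero_ne_one e1
  have hA : (A : Matrix (Fin w) (Fin w) F) i₁ i₀ = 0 := (mul_eq_zero.1 e2).resolve_right hB
  rw [hA, zero_mul] at e3
  exact mul_ne_zero hb ha0 e3.symm

/-- powers -/
theorem not_le_wr [Fintype F] (h : SFm τ ε f) (hτ : τ ≠ RingEquiv.refl F) (hX : TV f X) (hm : 3 ≤ m) (hk : 2 ≤ k)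
    {e : Fin n ≃ (Fin k → Fin m)} {Q : GL (Fin n) F} {c : F} (hc : c ≠ 0)
    (H : ∀ x y : (Fin k → Fin m) → F, f ((Q : Matrix (Fin n) (Fin n) F) *ᵥ (x ∘ e))
      ((Q : Matrix (Fin n) (Fin n) F) *ᵥ (y ∘ e)) = c * formOfGram τ 1 x y) : ¬ X ≤ tensorWreathSubgroup m k e Q := by
  intro hle
  obtain ⟨a, ha⟩ := exists_neg hτ h.inv
  have ha0 : a ≠ 0 := by
    rintro rfl
    rw [zero_mul] at ha
    exact one_ne_zero (neg_eq_zero.1 ha.symm)
  have hta0 : τ a ≠ 0 := fun h => ha0 ((map_eq_zero τ).1 h)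
  let i₀ : Fin m := ⟨0, by omega⟩
  let i₁ : Fin m := ⟨1, by omega⟩
  let i₂ : Fin m := ⟨2, by omega⟩
  have h01 : i₀ ≠ i₁ := by
    intro h; exact absurd (congrArg Fin.val h) (by simp [i₀, i₁])
  have h02 : i₀ ≠ i₂ := by
    intro h; exact absurd (congrArg Fin.val h) (by simp [i₀, i₂])
  have h12 : i₁ ≠ i₂ := by
    intro h; exact absurd (congrArg Fin.val h) (by simp [i₁, i₂])
  let l₀ : Fin k := ⟨0, by omega⟩
  let l₁ : Fin k := ⟨1, by omega⟩
  have hl : l₀ ≠ l₁ := by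
    intro h; exact absurd (congrArg Fin.val h) (by simp [l₀, l₁])
  let x : Fin k → Fin m := fun _ => i₀
  let y : Fin k → Fin m := fun _ => i₁
  have hxy : x ≠ y := by
    intro h; exact h01 (congrFun h l₀)
  obtain ⟨b, hb, g, hg, hY⟩ := trv_coord h hX hc H hxy ha
  obtain ⟨_, ⟨Y, hYm, rfl⟩, hgx⟩ := hle hg
  have h1 := hY Y hgx.symm
  obtain ⟨σ, A, rfl⟩ := wreath_normal_form hYm
  have h2 : ∀ p q, ((gP m F σ * gK A : GL (Fin k → Fin m) F) : Matrix (Fin k → Fin m) (Fin k → Fin m) F) p q =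
      ∏ l, (A l : Matrix (Fin m) (Fin m) F) (p (σ l)) (q l) := by
    intro p q
    show (Pm m F σ * K (fun i => (A i : Matrix (Fin m) (Fin m) F)) : Matrix (Fin k → Fin m) (Fin k → Fin m) F) p q = _
    rw [Pm_mul]
    rfl
  -- unit columns
  have hcol : ∀ p q : Fin k → Fin m, q ≠ x → q ≠ y → ∏ l, (A l : Matrix (Fin m) (Fin m) F) (p (σ l)) (q l) =
      if p = q then 1 else 0 := by
    intro p q hqx hqy
    rw [← h2, h1 p q, if_neg hqx, if_neg hqy]
    ring
  have hxyv : ∏ l, (A l : Matrix (Fin m) (Fin m) F) i₀ i₁ ≠ 0 := by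
    have := h1 x y
    rw [h2] at this
    have h3 : ∏ l, (A l : Matrix (Fin m) (Fin m) F) (x (σ l)) (y l) = ∏ l, (A l : Matrix (Fin m) (Fin m) F) i₀ i₁ := rfl
    rw [← h3, this, if_neg hxy, if_neg (Ne.symm hxy), if_pos rfl, if_pos rfl]
    have e : (0 : F) + b * (0 + τ a * 1) * (1 + a * 0) = b * τ a := by ring
    rw [e]
    exact mul_ne_zero hb hta0
  rw [Finset.prod_ne_zero_iff] at hxyv
  -- the column with a single coordinate changed to 2
  have hup : ∀ i : Fin k, Function.update y i i₂ ≠ x ∧ Function.update y i i₂ ≠ y := by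
    intro i
    constructor
    · intro h0
      have := congrFun h0 i
      rw [Function.update_self] at this
      exact h02 this.symm
    · intro h0
      have := congrFun h0 i
      rw [Function.update_self] at this
      exact h12 this.symm
  have hσ : ∀ i, σ i = i := by
    intro i
    by_contra hne
    have hq := hup (σ i)
    have e1 := hcol (Function.update y (σ i) i₂) _ hq.1 hq.2
    have e2 := hcol (Function.update y (σ i) i₀) _ hq.1 hq.2
    rw [if_pos rfl] at e1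
    rw [if_neg (by
      intro h0
      have := congrFun h0 (σ i)
      rw [Function.update_self, Function.update_self] at this
      exact h02 this)] at e2
    have h3 : ∀ l, (A l : Matrix (Fin m) (Fin m) F) (Function.update y (σ i) i₂ (σ l)) (Function.update y (σ i) i₂ l) ≠ 0 := by
      intro l
      have h4 : ∏ l, (A l : Matrix (Fin m) (Fin m) F) (Function.update y (σ i) i₂ (σ l)) (Function.update y (σ i) i₂ l) ≠ 0 := by
        rw [e1]; exact one_ne_zero
      rw [Finset.prod_ne_zero_iff] at h4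
      exact h4 l (Finset.mem_univ _)
    rw [Finset.prod_eq_zero_iff] at e2
    obtain ⟨l, -, hl0⟩ := e2
    by_cases hli : l = i
    · subst hli
      rw [Function.update_self, Function.update_of_ne (fun h => hne h.symm)] at hl0
      exact hxyv l (Finset.mem_univ _) hl0
    · apply h3 l
      rw [Function.update_of_ne (fun h => hli (σ.injective h))] at hl0 ⊢
      exact hl0
  have h11 : ∀ i, (A i : Matrix (Fin m) (Fin m) F) i₁ i₁ ≠ 0 := by
    intro i
    obtain ⟨j, hj⟩ : ∃ j : Fin k, j ≠ i := by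
      haveI : Nontrivial (Fin k) := Fin.nontrivial_iff_two_le.2 hk
      exact exists_ne i
    have hq := hup j
    have e1 := hcol (Function.update y j i₂) _ hq.1 hq.2
    rw [if_pos rfl] at e1
    have h4 : ∏ l, (A l : Matrix (Fin m) (Fin m) F) (Function.update y j i₂ (σ l)) (Function.update y j i₂ l) ≠ 0 := by
        rw [e1]; exact one_ne_zero
    rw [Finset.prod_ne_zero_iff] at h4
    have h5 := h4 i (Finset.mem_univ _)
    rw [hσ, Function.update_of_ne (Ne.symm hj)] at h5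
    exact h5
  -- mixed entries of the column y
  let p : Fin k → Fin m := Function.update x l₀ i₁
  have hpx : p ≠ x := by
    intro h0
    have := congrFun h0 l₀
    simp only [p] at this
    rw [Function.update_self] at this
    exact h01 this.symm
  have hpy : p ≠ y := by
    intro h0
    have := congrFun h0 l₁
    simp only [p] at this
    rw [Function.update_of_ne (Ne.symm hl)] at this
    exact h01 this
  have e1 := h1 p y
  rw [h2, if_neg hpy, if_neg hpx] at e1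
  have e2 : ∏ l, (A l : Matrix (Fin m) (Fin m) F) (p (σ l)) (y l) = 0 := by
    rw [e1]; ring
  rw [Finset.prod_eq_zero_iff] at e2
  obtain ⟨l, -, hl0⟩ := e2
  rw [hσ] at hl0
  by_cases hll : l = l₀
  · subst hll
    simp only [p] at hl0
    rw [Function.update_self] at hl0
    exact h11 _ hl0
  · simp only [p] at hl0
    rw [Function.update_of_ne hll] at hl0
    exact hxyv l (Finset.mem_univ _) hl0

end Cfsg.Agent.H29.Fm
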