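import Mathlib
import Cfsg.Agent.H29_Un4

set_option autoImplicit false

/-! the field with four elements: refinements of decompositions -/

namespace Cfsg.Agent.H29.Fm

open Matrix Module Cfsg.Geo Cfsg.Agent.H29.Clifford Cfsg.Agent.H29.Asc Cfsg.Agent.H29.AscF Cfsg.Agent.H29.Trv
  Cfsg.Agent.H29.AscT
open scoped commutatorElement Kronecker

variable {F : Type*} [Field F] {n k m r t w : ℕ}
variable {τ : F ≃+* F} {ε : F} {f : (Fin n → F) → (Fin n → F) → F}
variable {X G : Subgroup (GL (Fin n) F)}

theorem onb_li (h : SFm τ ε f) {κ : Type} [Fintype κ] [DecidableEq κ] {v : κ → (Fin n → F)} {c : F} (hc : c ≠ 0)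
    (hv : ∀ p q, f (v p) (v q) = if p = q then c else 0) : LinearIndependent F v := by
  rw [Fintype.linearIndependent_iff]
  intro g hg i
  have h1 := congrArg (fun z => f z (v i)) hg
  simp only [h.zero_left] at h1
  rw [h.sum_left] at h1
  simp only [h.smul_left, hv] at h1
  rw [Finset.sum_eq_single i] at h1
  · rw [if_pos rfl] at h1
    exact (mul_eq_zero.1 h1).resolve_right hc
  · intro j _ hj
    rw [if_neg hj, mul_zero]
  · intro h; exact absurd (Finset.mem_univ _) h

/-- decompositions from orthogonal bases -/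
theorem dec_onb (h : SFm τ ε f) {v : Fin t × Fin m → (Fin n → F)} {c : F} (hc : c ≠ 0)
    (hv : ∀ p q, f (v p) (v q) = if p = q then c else 0) (htm : t * m = n) (ht : 2 ≤ t) (hm : 0 < m) :
    IsNondegenerateMDecomposition f m (fun i => Submodule.span F (Set.range (fun a => v (i, a)))) := by
  classical
  have hli := onb_li h hc hv
  have htop : Submodule.span F (Set.range v) = ⊤ := by
    apply hli.span_eq_top_of_card_eq_finrank'
    rw [Fintype.card_prod, Fintype.card_fin, Fintype.card_fin, Module.finrank_fintype_fun_eq_card, Fintype.card_fin, htm]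
  have hsup : (⨆ i, Submodule.span F (Set.range (fun a => v (i, a)))) = ⊤ := by
    rw [eq_top_iff, ← htop, Submodule.span_le]
    rintro _ ⟨⟨i, a⟩, rfl⟩
    exact Submodule.mem_iSup_of_mem i (Submodule.subset_span ⟨a, rfl⟩)
  have hort : ∀ i j, i ≠ j → AreOrthogonalFor f (Submodule.span F (Set.range (fun a => v (i, a))))
      (Submodule.span F (Set.range (fun a => v (j, a)))) := by
    intro i j hij u hu x hx
    induction hu using Submodule.span_induction with
    | mem u hu =>
      obtain ⟨a, rfl⟩ := hu
      induction hx using Submodule.span_induction with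
      | mem x hx =>
        obtain ⟨b, rfl⟩ := hx
        show f (v (i, a)) (v (j, b)) = 0
        rw [hv, if_neg (fun h => hij (congrArg Prod.fst h))]
      | zero => exact h.zero_right _
      | add x y _ _ hx hy => rw [h.add_right, hx, hy, add_zero]
      | smul c x _ hx => rw [h.smul_right, hx, mul_zero]
    | zero => exact h.zero_left _
    | add x y _ _ hx hy => rw [h.add_left, hx, hy, add_zero]
    | smul c x _ hx => rw [h.smul_left, hx, mul_zero]
  refine ⟨⟨ht, hm, ?_, ?_, hsup⟩, ?_, hort⟩
  · intro i
    have : LinearIndependent F (fun a => v (i, a)) := hli.comp (fun a : Fin m => (i, a)) (fun a b hab => congrArg Prod.snd hab)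
    rw [finrank_span_eq_card this, Fintype.card_fin]
  · intro i
    have h1 : Submodule.span F (Set.range (fun a => v (i, a))) = Submodule.span F (v '' {p | p.1 = i}) := by
      congr 1
      ext x
      constructor
      · rintro ⟨a, rfl⟩
        exact ⟨(i, a), rfl, rfl⟩
      · rintro ⟨⟨j, a⟩, hj, rfl⟩
        obtain rfl : j = i := hj
        exact ⟨a, rfl⟩
    have h2 : (⨆ j, ⨆ (_ : j ≠ i), Submodule.span F (Set.range (fun a => v (j, a)))) ≤
        Submodule.span F (v '' {p | p.1 ≠ i}) := by
      apply iSup_le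
      intro j
      apply iSup_le
      intro hj
      rw [Submodule.span_le]
      rintro _ ⟨a, rfl⟩
      exact Submodule.subset_span ⟨(j, a), hj, rfl⟩
    have h3 := hli.disjoint_span_image (s := {p : Fin t × Fin m | p.1 = i}) (t := {p | p.1 ≠ i}) (by
      rw [Set.disjoint_left]
      intro p hp hp'
      exact hp' hp)
    have h4 : Disjoint (Submodule.span F (Set.range (fun a => v (i, a))))
        (⨆ j, ⨆ (_ : j ≠ i), Submodule.span F (Set.range (fun a => v (j, a)))) := by
      rw [h1]
      exact h3.mono_right h2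
    exact h4
  · intro i u hu hu0
    have h1 : ∃ x ∈ Submodule.span F (Set.range (fun a => v (i, a))), f x u ≠ 0 := by
      by_contra hcon
      push Not at hcon
      obtain ⟨x, hx⟩ := h.nd u hu0
      apply hx
      have h2 : (⨆ j, Submodule.span F (Set.range (fun a => v (j, a)))) ≤ LinearMap.ker (fn h u) := by
        apply iSup_le
        intro j y hy
        rw [LinearMap.mem_ker, fn_apply]
        by_cases hj : j = i
        · subst hj
          exact hcon y hy
        · exact hort j i hj y hy u hu
      rw [hsup] at h2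
      exact h2 (Submodule.mem_top (x := x))
    refine ⟨h1, ?_⟩
    obtain ⟨x, hx, hxu⟩ := h1
    exact ⟨x, hx, fun h0 => hxu (h.comm_zero h0)⟩

/-- an element permuting lines stabilises the decomposition -/
theorem mem_frame [Fintype F] (h : SFm τ ε f) {v : Fin t × Fin 1 → (Fin n → F)} {c : F} (hc : c ≠ 0)
    (hv : ∀ p q, f (v p) (v q) = if p = q then c else 0) (htm : t * 1 = n) (ht : 2 ≤ t) {g : GL (Fin n) F}
    (hg : ∀ i, ∃ j, ∃ a : F, (g : Matrix (Fin n) (Fin n) F) *ᵥ v (i, 0) = a • v (j, 0)) :
    g ∈ decompositionStabilizer (fun i => Submodule.span F (Set.range (fun a => v (i, a)))) := by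
  classical
  have hli := onb_li h hc hv
  choose σ a ha using hg
  have ha0 : ∀ i, a i ≠ 0 := by
    intro i h0
    have h1 := ha i
    rw [h0, zero_smul] at h1
    have h2 : v (i, 0) = 0 := mulVec_inj (g := g) (by rw [h1, Matrix.mulVec_zero])
    exact hli.ne_zero _ h2
  have hσ : Function.Injective σ := by
    intro i j hij
    have h1 : (g : Matrix (Fin n) (Fin n) F) *ᵥ ((a j) • v (i, 0)) = (g : Matrix (Fin n) (Fin n) F) *ᵥ ((a i) • v (j, 0)) := by
      rw [Matrix.mulVec_smul, Matrix.mulVec_smul, ha, ha, hij, smul_smul, smul_smul, mul_comm]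
    have h2 := mulVec_inj (g := g) h1
    by_contra hne
    have h3 := congrArg (fun z => f z (v (i, 0))) h2
    simp only [h.smul_left, hv] at h3
    rw [if_pos trivial, if_neg (fun h => hne (congrArg Prod.fst h).symm), mul_zero] at h3
    exact mul_ne_zero (ha0 j) hc h3
  have hσ' : Function.Bijective σ := Finite.injective_iff_bijective.1 hσ
  have hrange : ∀ i, Submodule.span F (Set.range (fun a => v (i, a))) = Submodule.span F {v (i, 0)} := by
    intro i
    congr 1
    ext x
    constructor
    · rintro ⟨a, rfl⟩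
      rw [Subsingleton.elim a 0]
      rfl
    · intro hx
      exact ⟨0, hx.symm⟩
  refine ⟨Equiv.ofBijective σ hσ', fun i => ?_⟩
  show (Submodule.span F (Set.range (fun a => v (i, a)))).map _ = Submodule.span F (Set.range (fun a => v (σ i, a)))
  rw [hrange, hrange, Submodule.map_span, Set.image_singleton]
  have h1 : (Matrix.toLin' (g : Matrix (Fin n) (Fin n) F)) (v (i, 0)) = a i • v (σ i, 0) := ha i
  rw [h1]
  exact Submodule.span_singleton_smul_eq (IsUnit.mk0 _ (ha0 i)) _

/-- orthonormal bases of the members of a non-degenerate decomposition -/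
theorem dec_onb_exists [Fintype F] (h : SFm τ 1 f) (hτ : τ ≠ RingEquiv.refl F) {D : Fin t → Submodule F (Fin n → F)}
    (hD : IsNondegenerateMDecomposition f m D) : ∃ v : Fin t × Fin m → (Fin n → F), (∀ i a, v (i, a) ∈ D i) ∧
      (∀ p q, f (v p) (v q) = if p = q then 1 else 0) ∧ ∀ i, ∀ x ∈ D i, ∃ c : Fin m → F, x = ∑ a, c a • v (i, a) := by
  classical
  obtain ⟨b, hb, hb'⟩ := dec_basis hD.decomp
  let A : Fin t → Matrix (Fin m) (Fin m) F := fun i => Matrix.of fun a c => f (b (i, a)) (b (i, c))
  have hA : ∀ i, HM τ 1 (A i) := fun i a c => h.herm _ _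
  have hdet : ∀ i, (A i).det ≠ 0 := by
    intro i h0
    obtain ⟨x, hx0, hx⟩ := Matrix.exists_vecMul_eq_zero_iff.2 h0
    let u : Fin n → F := ∑ a, x a • b (i, a)
    have hu : u ∈ D i := Submodule.sum_mem _ (fun a _ => (D i).smul_mem _ (hb i a))
    have hu0 : u ≠ 0 := by
      intro h1
      apply hx0
      have h2 := (Fintype.linearIndependent_iff.1 (b.linearIndependent.comp (fun a : Fin m => (i, a))
        (fun a b hab => congrArg Prod.snd hab))) x h1
      funext a
      exact h2 a
    obtain ⟨-, y, hy, hyu⟩ := hD.nondegenerate i u hu hu0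
    apply hyu
    obtain ⟨c, rfl⟩ := hb' i y hy
    rw [h.sum_right]
    apply Finset.sum_eq_zero
    intro a _
    rw [h.smul_right]
    have h3 : f u (b (i, a)) = 0 := by
      have := congrFun hx a
      rw [h.sum_left]
      simp only [h.smul_left]
      exact this
    rw [h3, mul_zero]
  obtain ⟨P, hP⟩ := orthonormalise hτ h.inv hA hdet
  let v : Fin t × Fin m → (Fin n → F) := fun p => ∑ a, (P p.1 : Matrix (Fin m) (Fin m) F) a p.2 • b (p.1, a)
  have hvD : ∀ i a, v (i, a) ∈ D i := fun i a => Submodule.sum_mem _ (fun c _ => (D i).smul_mem _ (hb i c))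
  refine ⟨v, hvD, ?_, ?_⟩
  · rintro ⟨i, a⟩ ⟨j, c⟩
    by_cases hij : i = j
    · subst hij
      have h1 : f (v (i, a)) (v (i, c)) = (((P i : Matrix (Fin m) (Fin m) F))ᵀ * A i *
          (P i : Matrix (Fin m) (Fin m) F).map τ) a c := by
        show f (∑ x, (P i : Matrix (Fin m) (Fin m) F) x a • b (i, x)) (∑ y, (P i : Matrix (Fin m) (Fin m) F) y c • b (i, y)) = _
        rw [h.sum_right, Matrix.mul_apply]
        refine Finset.sum_congr rfl (fun y _ => ?_)
        rw [h.smul_right, h.sum_left, Matrix.mul_apply, Finset.mul_sum, Finset.sum_mul]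
        refine Finset.sum_congr rfl (fun x _ => ?_)
        rw [h.smul_left]
        show τ ((P i : Matrix (Fin m) (Fin m) F) y c) * ((P i : Matrix (Fin m) (Fin m) F) x a * f (b (i, x)) (b (i, y))) =
          (P i : Matrix (Fin m) (Fin m) F) x a * f (b (i, x)) (b (i, y)) * τ ((P i : Matrix (Fin m) (Fin m) F) y c)
        ring
      rw [h1, hP, Matrix.one_apply]
      by_cases hac : a = c
      · subst hac; simp
      · rw [if_neg hac, if_neg (fun h => hac (congrArg Prod.snd h))]
    · rw [if_neg (fun h => hij (congrArg Prod.fst h))]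
      exact hD.orthogonal i j hij _ (hvD i a) _ (hvD j c)
  · intro i x hx
    obtain ⟨c, rfl⟩ := hb' i x hx
    let Q : Matrix (Fin m) (Fin m) F := ((P i)⁻¹ : GL (Fin m) F)
    refine ⟨fun a => ∑ y, Q a y * c y, ?_⟩
    have hPQ : (P i : Matrix (Fin m) (Fin m) F) * Q = 1 := by
      rw [← Units.val_mul, mul_inv_cancel, Units.val_one]
    have h2 : ∀ a, (∑ y, Q a y * c y) • v (i, a) = ∑ y, ∑ z, (c y * ((P i : Matrix (Fin m) (Fin m) F) z a * Q a y)) • b (i, z) := by
      intro a
      show (∑ y, Q a y * c y) • (∑ z, (P i : Matrix (Fin m) (Fin m) F) z a • b (i, z)) = _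
      rw [Finset.sum_smul]
      refine Finset.sum_congr rfl (fun y _ => ?_)
      rw [Finset.smul_sum]
      refine Finset.sum_congr rfl (fun z _ => ?_)
      rw [smul_smul]
      congr 1
      ring
    rw [Finset.sum_congr rfl (fun a _ => h2 a), Finset.sum_comm]
    refine Finset.sum_congr rfl (fun y _ => ?_)
    rw [Finset.sum_comm]
    have h3 : ∀ z, ∑ a, (c y * ((P i : Matrix (Fin m) (Fin m) F) z a * Q a y)) • b (i, z) =
        (if z = y then c y else 0) • b (i, z) := by
      intro z
      rw [← Finset.sum_smul, ← Finset.mul_sum]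
      congr 1
      have : ∑ a, (P i : Matrix (Fin m) (Fin m) F) z a * Q a y = (1 : Matrix (Fin m) (Fin m) F) z y := by
        rw [← hPQ, Matrix.mul_apply]
      rw [this, Matrix.one_apply]
      split_ifs <;> simp
    rw [Finset.sum_congr rfl (fun z _ => h3 z)]
    simp

end Cfsg.Agent.H29.Fm
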