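import Mathlib
import Cfsg.Agent.H29_Un5

set_option autoImplicit false

/-! the field with four elements: refinements of decompositions, II -/

namespace Cfsg.Agent.H29.Fm

open Matrix Module Cfsg.Geo Cfsg.Agent.H29.Clifford Cfsg.Agent.H29.Asc Cfsg.Agent.H29.AscF Cfsg.Agent.H29.Trv
  Cfsg.Agent.H29.AscT
open scoped commutatorElement Kronecker

variable {F : Type*} [Field F] {n k m r t w : ℕ}
variable {τ : F ≃+* F} {ε : F} {f : (Fin n → F) → (Fin n → F) → F}
variable {X G : Subgroup (GL (Fin n) F)}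

theorem mem_dec_of_le {D : Fin t → Submodule F (Fin n → F)} (hD : IsMDecomposition m D) {g : GL (Fin n) F}
    (hg : ∀ i, ∃ j, ∀ x ∈ D i, (g : Matrix (Fin n) (Fin n) F) *ᵥ x ∈ D j) : g ∈ decompositionStabilizer D := by
  classical
  choose σ hσ using hg
  have hinj : Function.Injective (lin g) := fun a b hab => mulVec_inj (g := g) hab
  have heq : ∀ i, (D i).map (lin g) = D (σ i) := by
    intro i
    apply Submodule.eq_of_le_of_finrank_eq
    · rintro _ ⟨x, hx, rfl⟩
      exact hσ i x hx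
    · rw [(Submodule.equivMapOfInjective (lin g) hinj (D i)).finrank_eq.symm, hD.finrank_eq, hD.finrank_eq]
  have hinj2 : Function.Injective σ := by
    intro i j hij
    by_contra hne
    have h1 : (D i).map (lin g) = (D j).map (lin g) := by rw [heq, heq, hij]
    have h2 : D i = D j := Submodule.map_injective_of_injective hinj h1
    have h3 := disjoint_iff.1 (hD.indep.pairwiseDisjoint hne)
    rw [← h2, inf_idem] at h3
    have h4 := hD.finrank_eq i
    rw [h3, finrank_bot] at h4
    have := hD.pos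
    omega
  refine ⟨Equiv.ofBijective σ (Finite.injective_iff_bijective.1 hinj2), fun i => ?_⟩
  exact heq i

theorem two_zero_of_four [Fintype F] (hF : Fintype.card F = 4) : (2 : F) = 0 := by
  have h1 : ((Fintype.card F : ℕ) : F) = 0 := Nat.cast_card_eq_zero F
  rw [hF] at h1
  have h2 : (2 : F) * 2 = 0 := by
    have : ((4 : ℕ) : F) = 2 * 2 := by norm_num
    rw [← this, h1]
  rcases mul_eq_zero.1 h2 with h3 | h3 <;> exact h3

theorem norm_four [Fintype F] (hF : Fintype.card F = 4) (hτ2 : ∀ x, τ x = x ^ 2) {x : F} (hx : x ≠ 0) :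
    x * τ x = 1 := by
  rw [hτ2, ← pow_succ']
  have := FiniteField.pow_card_sub_one_eq_one x hx
  rwa [hF] at this

/-- planes over the field with four elements -/
theorem refine_two [Fintype F] (h : SFm τ 1 f) (hF : Fintype.card F = 4) (hτ2 : ∀ x, τ x = x ^ 2)
    (hτ : τ ≠ RingEquiv.refl F) {D : Fin t → Submodule F (Fin n → F)} (hD : IsNondegenerateMDecomposition f 2 D) :
    ∃ D' : Fin (t * 2) → Submodule F (Fin n → F), IsNondegenerateMDecomposition f 1 D' ∧
      ∀ G : Subgroup (GL (Fin n) F), Fx f G → G ≤ decompositionStabilizer D → G ≤ decompositionStabilizer D' := by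
  obtain ⟨v, hvD, hv, hspan⟩ := dec_onb_exists h hτ hD
  have htm := dec_card hD.decomp
  have ht := hD.decomp.two_le
  have h2 := two_zero_of_four hF
  let u : Fin (t * 2) × Fin 1 → (Fin n → F) := fun p => v (finProdFinEquiv.symm p.1)
  have hu : ∀ p q, f (u p) (u q) = if p = q then 1 else 0 := by
    intro p q
    show f (v (finProdFinEquiv.symm p.1)) (v (finProdFinEquiv.symm q.1)) = _
    rw [hv]
    congr 1
    apply propext
    rw [EmbeddingLike.apply_eq_iff_eq]
    constructor
    · intro h1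
      exact Prod.ext h1 (Subsingleton.elim _ _)
    · intro h1
      rw [h1]
  have hdec := dec_onb h one_ne_zero hu (by omega) (by omega) one_pos
  refine ⟨_, hdec, ?_⟩
  intro G hG hle g hg
  obtain ⟨σ, hσ⟩ := hle hg
  apply mem_frame h one_ne_zero hu (by omega) (by omega)
  intro i
  obtain ⟨⟨i', a⟩, rfl⟩ := finProdFinEquiv.surjective i
  have h1 : (g : Matrix (Fin n) (Fin n) F) *ᵥ v (i', a) ∈ D (σ i') := by
    rw [← hσ i']
    exact ⟨_, hvD i' a, rfl⟩
  obtain ⟨c, hc⟩ := hspan _ _ h1
  rw [Fin.sum_univ_two] at hc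
  have h3 : f ((g : Matrix (Fin n) (Fin n) F) *ᵥ v (i', a)) ((g : Matrix (Fin n) (Fin n) F) *ᵥ v (i', a)) = 1 := by
    rw [hG g hg, hv, if_pos rfl]
  rw [hc, h.add_left, h.add_right, h.add_right, h.smul_left, h.smul_left, h.smul_left, h.smul_left, h.smul_right,
    h.smul_right, h.smul_right, h.smul_right, hv, hv, hv, hv, if_pos rfl, if_pos rfl,
    if_neg (fun h => absurd (congrArg Prod.snd h) zero_ne_one),
    if_neg (fun h => absurd (congrArg Prod.snd h) one_ne_zero)] at h3
  have hu' : ∀ x : Fin t × Fin 2, u (finProdFinEquiv x, 0) = v x := by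
    intro x
    show v (finProdFinEquiv.symm (finProdFinEquiv x)) = v x
    rw [Equiv.symm_apply_apply]
  by_cases h0 : c 0 = 0
  · refine ⟨finProdFinEquiv (σ i', 1), c 1, ?_⟩
    rw [hu', hu', hc, h0, zero_smul, zero_add]
  · by_cases h1' : c 1 = 0
    · refine ⟨finProdFinEquiv (σ i', 0), c 0, ?_⟩
      rw [hu', hu', hc, h1', zero_smul, add_zero]
    · exfalso
      have e0 := norm_four (τ := τ) hF hτ2 h0
      have e1 := norm_four (τ := τ) hF hτ2 h1'
      have : (1 : F) = 0 := by linear_combination -h3 + e0 + e1 + h2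
      exact one_ne_zero this

/-- tensor products with a plane over the field with four elements -/
theorem tens_two [Fintype F] (h : SFm τ 1 f) (hF : Fintype.card F = 4) (hτ2 : ∀ x, τ x = x ^ 2)
    (hm : 0 < m) {e : Fin n ≃ Fin 2 × Fin m} {P : GL (Fin n) F} {c : F} (hc : c ≠ 0)
    (H : ∀ x y : Fin 2 × Fin m → F, f ((P : Matrix (Fin n) (Fin n) F) *ᵥ (x ∘ e))
      ((P : Matrix (Fin n) (Fin n) F) *ᵥ (y ∘ e)) = c * formOfGram τ 1 x y) :
    ∃ D : Fin 2 → Submodule F (Fin n → F), IsNondegenerateMDecomposition f m D ∧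
      ∀ G : Subgroup (GL (Fin n) F), Fx f G → G ≤ tensorProductSubgroup 2 m e P → G ≤ decompositionStabilizer D := by
  classical
  have h2 := two_zero_of_four hF
  have hf : ∀ x y : Fin 2 × Fin m → F, f ((P : Matrix (Fin n) (Fin n) F) *ᵥ (x ∘ e))
      ((P : Matrix (Fin n) (Fin n) F) *ᵥ (y ∘ e)) = c * ∑ i, x i * τ (y i) := by
    intro x y
    rw [H, formOfGram_eq, Matrix.one_mulVec]
    rfl
  let v : Fin 2 × Fin m → (Fin n → F) := fun p => (P : Matrix (Fin n) (Fin n) F) *ᵥ ((Pi.single p (1 : F) : Fin 2 × Fin m → F) ∘ e)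
  have hv : ∀ p q, f (v p) (v q) = if p = q then c else 0 := by
    intro p q
    rw [hf]
    by_cases hpq : p = q
    · subst hpq
      rw [if_pos rfl, Finset.sum_eq_single p]
      · rw [Pi.single_eq_same, map_one, mul_one, mul_one]
      · intro j _ hj
        rw [Pi.single_eq_of_ne hj, zero_mul]
      · intro h; exact absurd (Finset.mem_univ _) h
    · rw [if_neg hpq, Finset.sum_eq_zero, mul_zero]
      intro j _
      by_cases hj : j = p
      · subst hj
        rw [Pi.single_eq_of_ne hpq, map_zero, mul_zero]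
      · rw [Pi.single_eq_of_ne hj, zero_mul]
  have hcard : 2 * m = n := by
    have := Fintype.card_congr e
    rw [Fintype.card_prod, Fintype.card_fin, Fintype.card_fin, Fintype.card_fin] at this
    exact this.symm
  have hdec := dec_onb h hc hv hcard le_rfl hm
  refine ⟨_, hdec, ?_⟩
  intro G hG hle g hg
  obtain ⟨_, ⟨x, hx, rfl⟩, hgx⟩ := hle hg
  obtain ⟨a, b, hab⟩ := hx
  have hgx' : P * glReindex e.symm x * P⁻¹ = g := hgx
  -- the images of the basis vectors
  have himg : ∀ i l, (g : Matrix (Fin n) (Fin n) F) *ᵥ v (i, l) = (P : Matrix (Fin n) (Fin n) F) *ᵥ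
      ((fun p : Fin 2 × Fin m => (a : Matrix (Fin 2) (Fin 2) F) p.1 i * (b : Matrix (Fin m) (Fin m) F) p.2 l) ∘ e) := by
    intro i l
    rw [← hgx']
    show ((P * glReindex e.symm x * P⁻¹ : GL (Fin n) F) : Matrix (Fin n) (Fin n) F) *ᵥ
      ((P : Matrix (Fin n) (Fin n) F) *ᵥ ((Pi.single (i, l) (1 : F) : Fin 2 × Fin m → F) ∘ e)) = _
    rw [coord_mul, Matrix.mulVec_single_one]
    congr 2
    funext p
    show (x : Matrix (Fin 2 × Fin m) (Fin 2 × Fin m) F) p (i, l) = _
    rw [hab]
    rfl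
  have hnorm : ∀ i, (a : Matrix (Fin 2) (Fin 2) F) 0 i * τ ((a : Matrix (Fin 2) (Fin 2) F) 0 i) +
      (a : Matrix (Fin 2) (Fin 2) F) 1 i * τ ((a : Matrix (Fin 2) (Fin 2) F) 1 i) ≠ 0 := by
    intro i h0
    let l : Fin m := ⟨0, hm⟩
    have h3 := hG g hg (v (i, l)) (v (i, l))
    rw [himg, hf, hv, if_pos rfl] at h3
    have h4 : ∑ p : Fin 2 × Fin m, ((a : Matrix (Fin 2) (Fin 2) F) p.1 i * (b : Matrix (Fin m) (Fin m) F) p.2 l) *
        τ ((a : Matrix (Fin 2) (Fin 2) F) p.1 i * (b : Matrix (Fin m) (Fin m) F) p.2 l) = 0 := by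
      rw [Fintype.sum_prod_type, Fin.sum_univ_two, ← Finset.sum_add_distrib]
      apply Finset.sum_eq_zero
      intro j _
      rw [map_mul, map_mul]
      linear_combination ((b : Matrix (Fin m) (Fin m) F) j l * τ ((b : Matrix (Fin m) (Fin m) F) j l)) * h0
    rw [h4, mul_zero] at h3
    exact hc h3.symm
  have hone : ∀ i, ∃ j, ∀ j', j' ≠ j → (a : Matrix (Fin 2) (Fin 2) F) j' i = 0 := by
    intro i
    by_cases h0 : (a : Matrix (Fin 2) (Fin 2) F) 0 i = 0
    · refine ⟨1, fun j' hj' => ?_⟩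
      have : j' = 0 := by omega
      rw [this, h0]
    · refine ⟨0, fun j' hj' => ?_⟩
      have : j' = 1 := by omega
      rw [this]
      by_contra h1
      apply hnorm i
      rw [norm_four hF hτ2 h0, norm_four hF hτ2 h1]
      linear_combination h2
  apply mem_dec_of_le hdec.decomp
  intro i
  obtain ⟨j, hj⟩ := hone i
  refine ⟨j, ?_⟩
  intro y hy
  induction hy using Submodule.span_induction with
  | mem y hy =>
    obtain ⟨l, rfl⟩ := hy
    show (g : Matrix (Fin n) (Fin n) F) *ᵥ v (i, l) ∈ _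
    rw [himg]
    have h5 : (fun p : Fin 2 × Fin m => (a : Matrix (Fin 2) (Fin 2) F) p.1 i * (b : Matrix (Fin m) (Fin m) F) p.2 l) ∘ e =
        ∑ l', ((a : Matrix (Fin 2) (Fin 2) F) j i * (b : Matrix (Fin m) (Fin m) F) l' l) •
          ((Pi.single (j, l') (1 : F) : Fin 2 × Fin m → F) ∘ e) := by
      funext s
      rw [Finset.sum_apply, Finset.sum_eq_single (e s).2]
      · rw [Pi.smul_apply, smul_eq_mul, Function.comp_apply, Function.comp_apply]
        by_cases hs : (e s).1 = j
        · have : (j, (e s).2) = e s := by rw [← hs]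
          rw [this, Pi.single_eq_same, mul_one, hs]
        · rw [hj _ hs, Pi.single_eq_of_ne (fun h => hs (congrArg Prod.fst h)), mul_zero, zero_mul]
      · intro l' _ hl'
        rw [Pi.smul_apply, Function.comp_apply, Pi.single_eq_of_ne (fun h => hl' (congrArg Prod.snd h).symm), smul_zero]
      · intro h; exact absurd (Finset.mem_univ _) h
    rw [h5, Matrix.mulVec_sum]
    refine Submodule.sum_mem _ (fun l' _ => ?_)
    rw [Matrix.mulVec_smul]
    exact Submodule.smul_mem _ _ (Submodule.subset_span ⟨l', rfl⟩)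
  | zero => rw [Matrix.mulVec_zero]; exact Submodule.zero_mem _
  | add x y _ _ hx hy => rw [Matrix.mulVec_add]; exact Submodule.add_mem _ hx hy
  | smul c x _ hx => rw [Matrix.mulVec_smul]; exact Submodule.smul_mem _ _ hx

end Cfsg.Agent.H29.Fm
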