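import Mathlib
import Cfsg.Agent.H29_Un6

set_option autoImplicit false

/-! the group of order 27 normalised by the unitary group in dimension three over the field with four elements -/

namespace Cfsg.Agent.H29.Fm

open Matrix Module Cfsg.Geo Cfsg.Agent.H29.Clifford Cfsg.Agent.H29.Asc Cfsg.Agent.H29.AscF Cfsg.Agent.H29.Trv
  Cfsg.Agent.H29.AscT
open scoped commutatorElement Kronecker

variable {F : Type*} [Field F] {n k m r t w : ℕ}
variable {τ : F ≃+* F}

/-- cyclic monomial matrices of determinant one -/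
def H3 (F : Type*) [Field F] : Subgroup (GL (Fin 3) F) where
  carrier := {g | (g : Matrix (Fin 3) (Fin 3) F).det = 1 ∧ ∃ b : Fin 3, ∀ i j, i ≠ j + b → (g : Matrix (Fin 3) (Fin 3) F) i j = 0}
  mul_mem' := by
    rintro x y ⟨hx, b, hb⟩ ⟨hy, c, hc⟩
    refine ⟨by rw [Units.val_mul, Matrix.det_mul, hx, hy, one_mul], c + b, ?_⟩
    intro i j hij
    rw [Units.val_mul, Matrix.mul_apply]
    apply Finset.sum_eq_zero
    intro k _
    by_cases h1 : k = j + c
    · rw [hb i k (by rw [h1, add_assoc]; exact hij), zero_mul]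
    · rw [hc k j h1, mul_zero]
  one_mem' := by
    refine ⟨by rw [Units.val_one, Matrix.det_one], 0, ?_⟩
    intro i j hij
    rw [add_zero] at hij
    rw [Units.val_one, Matrix.one_apply_ne hij]
  inv_mem' := by
    rintro x ⟨hx, b, hb⟩
    have hdet : ((x⁻¹ : GL (Fin 3) F) : Matrix (Fin 3) (Fin 3) F).det = 1 := by
      have h1 : ((x * x⁻¹ : GL (Fin 3) F) : Matrix (Fin 3) (Fin 3) F).det = 1 := by
        rw [mul_inv_cancel, Units.val_one, Matrix.det_one]
      rw [Units.val_mul, Matrix.det_mul, hx, one_mul] at h1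
      exact h1
    refine ⟨hdet, -b, ?_⟩
    intro i j hij
    have h1 : ((x : Matrix (Fin 3) (Fin 3) F) * ((x⁻¹ : GL (Fin 3) F) : Matrix (Fin 3) (Fin 3) F)) (i + b) j = 0 := by
      rw [← Units.val_mul, mul_inv_cancel, Units.val_one, Matrix.one_apply_ne]
      intro h
      apply hij
      rw [← h]
      abel
    rw [Matrix.mul_apply, Finset.sum_eq_single i] at h1
    · refine (mul_eq_zero.1 h1).resolve_left ?_
      intro h0
      have h2 : (x : Matrix (Fin 3) (Fin 3) F).det = 0 := by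
        apply Matrix.det_eq_zero_of_column_eq_zero i
        intro k
        by_cases hk : k = i + b
        · rw [hk, h0]
        · exact hb k i hk
      rw [h2] at hx
      exact zero_ne_one hx
    · intro k _ hk
      rw [hb (i + b) k (fun h => hk (add_right_cancel h).symm), zero_mul]
    · intro h; exact absurd (Finset.mem_univ _) h

theorem mem_H3 {g : GL (Fin 3) F} : g ∈ H3 F ↔ (g : Matrix (Fin 3) (Fin 3) F).det = 1 ∧
    ∃ b : Fin 3, ∀ i j, i ≠ j + b → (g : Matrix (Fin 3) (Fin 3) F) i j = 0 := Iff.rfl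

/-- the unitary matrices -/
def Un {ι : Type} [Fintype ι] [DecidableEq ι] (τ : F ≃+* F) : Subgroup (GL ι F) where
  carrier := {g | (g : Matrix ι ι F)ᵀ * (g : Matrix ι ι F).map τ = 1}
  mul_mem' := by
    intro g h (hg : (g : Matrix ι ι F)ᵀ * (g : Matrix ι ι F).map τ = 1)
      (hh : (h : Matrix ι ι F)ᵀ * (h : Matrix ι ι F).map τ = 1)
    show ((g * h : GL ι F) : Matrix ι ι F)ᵀ * ((g * h : GL ι F) : Matrix ι ι F).map τ = 1
    rw [Units.val_mul, Matrix.transpose_mul, mmul, mul_assoc, ← mul_assoc _ _ ((h : Matrix ι ι F).map τ), hg,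
      one_mul, hh]
  one_mem' := by
    show ((1 : GL ι F) : Matrix ι ι F)ᵀ * ((1 : GL ι F) : Matrix ι ι F).map τ = 1
    rw [Units.val_one, Matrix.transpose_one, one_mul]
    ext i j
    by_cases hij : i = j
    · subst hij; rw [Matrix.map_apply, Matrix.one_apply_eq, map_one]
    · rw [Matrix.map_apply, Matrix.one_apply_ne hij, map_zero]
  inv_mem' := by
    intro g (hg : (g : Matrix ι ι F)ᵀ * (g : Matrix ι ι F).map τ = 1)
    show ((g⁻¹ : GL ι F) : Matrix ι ι F)ᵀ * ((g⁻¹ : GL ι F) : Matrix ι ι F).map τ = 1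
    have h1 : (g : Matrix ι ι F) * ((g⁻¹ : GL ι F) : Matrix ι ι F) = 1 := by
      rw [← Units.val_mul, mul_inv_cancel, Units.val_one]
    have h2 : (g : Matrix ι ι F).map τ * ((g⁻¹ : GL ι F) : Matrix ι ι F).map τ = 1 := by
      rw [← mmul, h1]
      ext i j
      by_cases hij : i = j
      · subst hij; rw [Matrix.map_apply, Matrix.one_apply_eq, map_one]
      · rw [Matrix.map_apply, Matrix.one_apply_ne hij, map_zero]
    have h3 : ((g⁻¹ : GL ι F) : Matrix ι ι F)ᵀ * (g : Matrix ι ι F)ᵀ = 1 := by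
      rw [← Matrix.transpose_mul, h1, Matrix.transpose_one]
    calc ((g⁻¹ : GL ι F) : Matrix ι ι F)ᵀ * ((g⁻¹ : GL ι F) : Matrix ι ι F).map τ
        = ((g⁻¹ : GL ι F) : Matrix ι ι F)ᵀ * ((g : Matrix ι ι F)ᵀ *
          (g : Matrix ι ι F).map τ) * ((g⁻¹ : GL ι F) : Matrix ι ι F).map τ := by
          rw [hg, mul_one]
      _ = (((g⁻¹ : GL ι F) : Matrix ι ι F)ᵀ * (g : Matrix ι ι F)ᵀ) *
          ((g : Matrix ι ι F).map τ * ((g⁻¹ : GL ι F) : Matrix ι ι F).map τ) := by
          simp only [mul_assoc]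
      _ = 1 := by rw [h3, h2, one_mul]

theorem mem_Un {ι : Type} [Fintype ι] [DecidableEq ι] {g : GL ι F} : g ∈ Un τ ↔
    (g : Matrix ι ι F)ᵀ * (g : Matrix ι ι F).map τ = 1 := Iff.rfl

theorem cube_one [Fintype F] (hF : Fintype.card F = 4) {x : F} (hx : x ≠ 0) : x ^ 3 = 1 := by
  have := FiniteField.pow_card_sub_one_eq_one x hx
  rwa [hF] at this

/-- determinants of cyclic monomial matrices -/
theorem H3_prod {g : GL (Fin 3) F} {b : Fin 3} (hb : ∀ i j, i ≠ j + b → (g : Matrix (Fin 3) (Fin 3) F) i j = 0) :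
    (g : Matrix (Fin 3) (Fin 3) F).det = (g : Matrix (Fin 3) (Fin 3) F) (0 + b) 0 *
      (g : Matrix (Fin 3) (Fin 3) F) (1 + b) 1 * (g : Matrix (Fin 3) (Fin 3) F) (2 + b) 2 := by
  rw [Matrix.det_fin_three]
  have h01 : (0 : Fin 3) + 1 = 1 := rfl
  have h11 : (1 : Fin 3) + 1 = 2 := rfl
  have h21 : (2 : Fin 3) + 1 = 0 := rfl
  have h02 : (0 : Fin 3) + 2 = 2 := rfl
  have h12 : (1 : Fin 3) + 2 = 0 := rfl
  have h22 : (2 : Fin 3) + 2 = 1 := rfl
  fin_cases b
  · simp only [Fin.zero_eta, Fin.isValue, add_zero] at hb ⊢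
    rw [hb 0 1 (by decide), hb 0 2 (by decide), hb 1 0 (by decide), hb 1 2 (by decide), hb 2 0 (by decide), hb 2 1 (by decide)]
    ring
  · simp only [Fin.mk_one, Fin.isValue] at hb ⊢
    rw [h01, h11, h21, hb 0 0 (by decide), hb 0 1 (by decide), hb 1 1 (by decide), hb 1 2 (by decide), hb 2 2 (by decide), hb 2 0 (by decide)]
    ring
  · simp only [Fin.reduceFinMk, Fin.isValue] at hb ⊢
    rw [h02, h12, h22, hb 0 0 (by decide), hb 0 2 (by decide), hb 1 1 (by decide), hb 1 0 (by decide), hb 2 2 (by decide), hb 2 1 (by decide)]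
    ring

/-- entries of elements of the group -/
theorem H3_entries [Fintype F] (hF : Fintype.card F = 4) {g : GL (Fin 3) F} (hg : g ∈ H3 F) :
    ∃ (b : Fin 3) (α ζ : F), α ≠ 0 ∧ ζ ≠ 0 ∧ ∀ i j, (g : Matrix (Fin 3) (Fin 3) F) i j =
      if i = j + b then α * ζ ^ (j : ℕ) else 0 := by
  obtain ⟨hdet, b, hb⟩ := hg
  rw [H3_prod hb] at hdet
  set c0 := (g : Matrix (Fin 3) (Fin 3) F) (0 + b) 0 with h0
  set c1 := (g : Matrix (Fin 3) (Fin 3) F) (1 + b) 1 with h1
  set c2 := (g : Matrix (Fin 3) (Fin 3) F) (2 + b) 2 with h2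
  have n0 : c0 ≠ 0 := by
    intro h; rw [h] at hdet; simp at hdet
  have n1 : c1 ≠ 0 := by
    intro h; rw [h] at hdet; simp at hdet
  have n2 : c2 ≠ 0 := by
    intro h; rw [h] at hdet; simp at hdet
  refine ⟨b, c0, c1 / c0, n0, div_ne_zero n1 n0, ?_⟩
  intro i j
  by_cases hij : i = j + b
  · rw [if_pos hij, hij]
    have hc : c0 ^ 3 = 1 := cube_one hF n0
    have hc1 : c1 ^ 3 = 1 := cube_one hF n1
    fin_cases j
    · show c0 = c0 * (c1 / c0) ^ 0
      rw [pow_zero, mul_one]
    · show c1 = c0 * (c1 / c0) ^ 1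
      rw [pow_one]
      field_simp
    · show c2 = c0 * (c1 / c0) ^ 2
      have h3 : c2 = c2 * (c0 ^ 3 * c1 ^ 3) := by rw [hc, hc1]; ring
      have h4 : c2 * (c0 ^ 3 * c1 ^ 3) = c0 ^ 2 * c1 ^ 2 * (c0 * c1 * c2) := by ring
      rw [h3, h4, hdet, mul_one, div_pow]
      have h5 : c0 * (c1 ^ 2 / c0 ^ 2) = c0 ^ 3 * (c0 * (c1 ^ 2 / c0 ^ 2)) := by rw [hc, one_mul]
      rw [h5]
      field_simp
  · rw [if_neg hij, hb i j hij]

theorem H3_unitary [Fintype F] (hF : Fintype.card F = 4) (hτ2 : ∀ x, τ x = x ^ 2) {g : GL (Fin 3) F} (hg : g ∈ H3 F) :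
    g ∈ Un τ := by
  obtain ⟨b, α, ζ, hα, hζ, he⟩ := H3_entries hF hg
  rw [mem_Un]
  ext j k
  rw [Matrix.mul_apply]
  simp only [Matrix.transpose_apply, Matrix.map_apply, he]
  rw [Finset.sum_eq_single (j + b)]
  · rw [if_pos rfl]
    by_cases hjk : j = k
    · subst hjk
      rw [if_pos rfl, Matrix.one_apply_eq]
      exact norm_four hF hτ2 (mul_ne_zero hα (pow_ne_zero _ hζ))
    · rw [if_neg (fun h => hjk (add_right_cancel h)), map_zero, mul_zero, Matrix.one_apply_ne hjk]
  · intro i _ hi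
    rw [if_neg hi, zero_mul]
  · intro h; exact absurd (Finset.mem_univ _) h

theorem quad_rel [Fintype F] (hF : Fintype.card F = 4) {x y : F} (hx : x ≠ 0) (hy : y ≠ 0) (hxy : x ≠ y) :
    x ^ 2 + x * y + y ^ 2 = 0 := by
  have h1 := cube_one hF hx
  have h2 := cube_one hF hy
  have h3 : (x - y) * (x ^ 2 + x * y + y ^ 2) = 0 := by linear_combination h1 - h2
  exact (mul_eq_zero.1 h3).resolve_left (sub_ne_zero.2 hxy)

theorem H3_trace [Fintype F] (hF : Fintype.card F = 4) {g : GL (Fin 3) F} (hg : g ∈ H3 F) :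
    g ∈ scalars (Fin 3) F ∨ (g : Matrix (Fin 3) (Fin 3) F).trace = 0 := by
  obtain ⟨b, α, ζ, hα, hζ, he⟩ := H3_entries hF hg
  rw [Matrix.trace_fin_three, he, he, he]
  by_cases hb : b = 0
  · subst hb
    simp only [add_zero, if_true]
    by_cases h1 : ζ = 1
    · left
      rw [mem_scalars_iff]
      refine ⟨Units.mk0 α hα, ?_⟩
      ext i j
      rw [he, h1, one_pow, mul_one, add_zero, Matrix.smul_apply, Matrix.one_apply, smul_eq_mul]
      by_cases hij : i = j
      · rw [if_pos hij, if_pos hij, mul_one]; rfl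
      · rw [if_neg hij, if_neg hij, mul_zero]
    · right
      have := quad_rel hF hζ one_ne_zero h1
      have e0 : ((0 : Fin 3) : ℕ) = 0 := rfl
      have e1 : ((1 : Fin 3) : ℕ) = 1 := rfl
      have e2 : ((2 : Fin 3) : ℕ) = 2 := rfl
      rw [e0, e1, e2]
      linear_combination α * this
  · right
    have : ∀ i : Fin 3, i ≠ i + b := by
      intro i h
      apply hb
      exact (left_eq_add.1 h)
    rw [if_neg (this 0), if_neg (this 1), if_neg (this 2)]
    ring

set_option maxRecDepth 100000 in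
theorem bool_key : ∀ z : Fin 3 → Fin 3 → Bool,
    (∀ j, (z 0 j ^^ z 1 j ^^ z 2 j) = true) → (∀ i, (z i 0 ^^ z i 1 ^^ z i 2) = true) →
    (∀ j k, j ≠ k → ∀ i, (z i j && z i k) = true → ∃ i', i' ≠ i ∧ (z i' j && z i' k) = true) →
    (∀ i j, z i j = true) ∨ (∃ b, ∀ i j, i ≠ j + b → z i j = false) ∨ (∃ i, z i i = true ∧ ∀ j, j ≠ i → z j j = false) := by
  decide

theorem odd_three [Fintype F] [DecidableEq F] (hF : Fintype.card F = 4) (hτ2 : ∀ x, τ x = x ^ 2) {a b c : F}
    (h : a * τ a + b * τ b + c * τ c = 1) : (decide (a ≠ 0) ^^ decide (b ≠ 0) ^^ decide (c ≠ 0)) = true := by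
  have h2 := two_zero_of_four hF
  have key : ∀ x : F, x * τ x = if x = 0 then 0 else 1 := by
    intro x
    by_cases hx : x = 0
    · rw [if_pos hx, hx, zero_mul]
    · rw [if_neg hx, norm_four hF hτ2 hx]
  rw [key, key, key] at h
  by_cases ha : a = 0
  · by_cases hb : b = 0
    · by_cases hc : c = 0
      · rw [if_pos ha, if_pos hb, if_pos hc] at h
        exfalso; apply one_ne_zero (α := F); linear_combination -h
      · simp [ha, hb, hc]
    · by_cases hc : c = 0
      · simp [ha, hb, hc]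
      · rw [if_pos ha, if_neg hb, if_neg hc] at h
        exfalso; apply one_ne_zero (α := F); linear_combination h2 - h
  · by_cases hb : b = 0
    · by_cases hc : c = 0
      · simp [ha, hb, hc]
      · rw [if_neg ha, if_pos hb, if_neg hc] at h
        exfalso; apply one_ne_zero (α := F); linear_combination h2 - h
    · by_cases hc : c = 0
      · rw [if_neg ha, if_neg hb, if_pos hc] at h
        exfalso; apply one_ne_zero (α := F); linear_combination h2 - h
      · simp [ha, hb, hc]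

/-- the unitary elements of trace zero and determinant one -/
theorem Un_mem_H3 [Fintype F] (hF : Fintype.card F = 4) (hτ2 : ∀ x, τ x = x ^ 2) {h : GL (Fin 3) F} (hu : h ∈ Un τ)
    (hdet : (h : Matrix (Fin 3) (Fin 3) F).det = 1)
    (htr : h ∈ scalars (Fin 3) F ∨ (h : Matrix (Fin 3) (Fin 3) F).trace = 0) : h ∈ H3 F := by
  classical
  rcases htr with hs | htr
  · rw [mem_scalars_iff] at hs
    obtain ⟨c, hc⟩ := hs
    refine ⟨hdet, 0, ?_⟩
    intro i j hij
    rw [add_zero] at hij
    rw [hc, Matrix.smul_apply, Matrix.one_apply_ne hij, smul_zero]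
  have h2 := two_zero_of_four hF
  rw [mem_Un] at hu
  have hcol : ∀ j k, ∑ i, (h : Matrix (Fin 3) (Fin 3) F) i j * τ ((h : Matrix (Fin 3) (Fin 3) F) i k) =
      (1 : Matrix (Fin 3) (Fin 3) F) j k := by
    intro j k
    rw [← hu, Matrix.mul_apply]
    rfl
  have hu' := mul_eq_one_comm.1 hu
  have hrow : ∀ i, ∑ j, τ ((h : Matrix (Fin 3) (Fin 3) F) i j) * (h : Matrix (Fin 3) (Fin 3) F) i j = 1 := by
    intro i
    have := congrFun (congrFun hu' i) i
    rw [Matrix.mul_apply, Matrix.one_apply_eq] at this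
    exact this
  rw [Matrix.trace_fin_three] at htr
  rcases bool_key (fun i j => decide ((h : Matrix (Fin 3) (Fin 3) F) i j ≠ 0)) (by
      intro j
      apply odd_three hF hτ2
      have := hcol j j
      rw [Fin.sum_univ_three, Matrix.one_apply_eq] at this
      exact this) (by
      intro i
      apply odd_three hF hτ2
      have := hrow i
      rw [Fin.sum_univ_three] at this
      linear_combination this) (by
      intro j k hjk i hi
      by_contra hcon
      push Not at hcon
      have h1 := hcol j k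
      rw [Matrix.one_apply_ne hjk, Finset.sum_eq_single i] at h1
      · simp only [Bool.and_eq_true, decide_eq_true_eq] at hi
        rcases mul_eq_zero.1 h1 with h3 | h3
        · exact hi.1 h3
        · exact hi.2 ((map_eq_zero τ).1 h3)
      · intro i' _ hi'
        have h4 := hcon i' hi'
        simp only [ne_eq, Bool.and_eq_true, decide_eq_true_eq, not_and, not_not] at h4
        by_cases h5 : (h : Matrix (Fin 3) (Fin 3) F) i' j = 0
        · rw [h5, zero_mul]
        · rw [h4 h5, map_zero, mul_zero]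
      · intro h; exact absurd (Finset.mem_univ _) h) with hall | ⟨b, hb⟩ | ⟨i, hi, hi'⟩
  · exfalso
    have hall' : ∀ i j, (h : Matrix (Fin 3) (Fin 3) F) i j ≠ 0 := fun i j => of_decide_eq_true (hall i j)
    -- the inverse
    have hinv : (h : Matrix (Fin 3) (Fin 3) F).adjugate = ((h : Matrix (Fin 3) (Fin 3) F).map τ)ᵀ := by
      have e1 : ((h : Matrix (Fin 3) (Fin 3) F).map τ)ᵀ * (h : Matrix (Fin 3) (Fin 3) F) = 1 := by
        have := congrArg Matrix.transpose hu
        rw [Matrix.transpose_mul, Matrix.transpose_transpose, Matrix.transpose_one] at this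
        exact this
      calc (h : Matrix (Fin 3) (Fin 3) F).adjugate = ((h : Matrix (Fin 3) (Fin 3) F).map τ)ᵀ * (h : Matrix (Fin 3) (Fin 3) F) *
            (h : Matrix (Fin 3) (Fin 3) F).adjugate := by rw [e1, one_mul]
        _ = _ := by rw [mul_assoc, Matrix.mul_adjugate, hdet, one_smul, mul_one]
    have h00 := congrFun (congrFun hinv 0) 0
    rw [Matrix.adjugate_fin_three] at h00
    simp only [Matrix.transpose_apply, Matrix.map_apply, Matrix.of_apply, Matrix.cons_val', Matrix.cons_val_zero,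
      Matrix.cons_val_fin_one, hτ2] at h00
    have hne : (h : Matrix (Fin 3) (Fin 3) F) 1 1 ≠ (h : Matrix (Fin 3) (Fin 3) F) 2 2 := by
      intro h3
      apply hall' 0 0
      rw [← h3] at htr
      linear_combination htr - (h : Matrix (Fin 3) (Fin 3) F) 1 1 * h2
    have hq := quad_rel hF (hall' 1 1) (hall' 2 2) hne
    have h4 : (h : Matrix (Fin 3) (Fin 3) F) 1 2 * (h : Matrix (Fin 3) (Fin 3) F) 2 1 = 0 := by
      have h5 : (h : Matrix (Fin 3) (Fin 3) F) 0 0 = - (h : Matrix (Fin 3) (Fin 3) F) 1 1 - (h : Matrix (Fin 3) (Fin 3) F) 2 2 := by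
        linear_combination htr
      rw [h5] at h00
      linear_combination -h00 - hq + ((h : Matrix (Fin 3) (Fin 3) F) 1 1 * (h : Matrix (Fin 3) (Fin 3) F) 2 2) * 0
    rcases mul_eq_zero.1 h4 with h5 | h5
    · exact hall' 1 2 h5
    · exact hall' 2 1 h5
  · refine ⟨hdet, b, fun i j hij => ?_⟩
    have := hb i j hij
    simpa using this
  · exfalso
    have hi1 : (h : Matrix (Fin 3) (Fin 3) F) i i ≠ 0 := of_decide_eq_true hi
    have hi2 : ∀ j, j ≠ i → (h : Matrix (Fin 3) (Fin 3) F) j j = 0 := by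
      intro j hj
      have := hi' j hj
      simpa using this
    apply hi1
    fin_cases i
    · rw [hi2 1 (by decide), hi2 2 (by decide), add_zero, add_zero] at htr
      exact htr
    · rw [hi2 0 (by decide), hi2 2 (by decide), zero_add, add_zero] at htr
      exact htr
    · rw [hi2 0 (by decide), hi2 1 (by decide), zero_add, zero_add] at htr
      exact htr

theorem H3_normal [Fintype F] (hF : Fintype.card F = 4) (hτ2 : ∀ x, τ x = x ^ 2) {A g : GL (Fin 3) F} (hA : A ∈ Un τ)
    (hg : g ∈ H3 F) : A * g * A⁻¹ ∈ H3 F := by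
  have hu := H3_unitary hF hτ2 hg
  apply Un_mem_H3 hF hτ2 ((Un τ).mul_mem ((Un τ).mul_mem hA hu) ((Un τ).inv_mem hA))
  · have h1 : ((A * A⁻¹ : GL (Fin 3) F) : Matrix (Fin 3) (Fin 3) F).det = 1 := by
      rw [mul_inv_cancel, Units.val_one, Matrix.det_one]
    rw [Units.val_mul, Matrix.det_mul] at h1
    rw [Units.val_mul, Units.val_mul, Matrix.det_mul, Matrix.det_mul, hg.1, mul_one, h1]
  · rcases H3_trace hF hg with h | h
    · left
      exact scalars_normal.conj_mem _ h _
    · right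
      rw [Units.val_mul, Matrix.trace_mul_comm, ← Units.val_mul, ← mul_assoc, inv_mul_cancel, one_mul, h]

end Cfsg.Agent.H29.Fm
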