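import Mathlib
import Cfsg.Agent.H29_Wr1

set_option autoImplicit false

/-! the group of order 27, II -/

namespace Cfsg.Agent.H29.Fm

open Matrix Module Cfsg.Geo Cfsg.Agent.H29.Clifford Cfsg.Agent.H29.Asc Cfsg.Agent.H29.AscF Cfsg.Agent.H29.Trv
  Cfsg.Agent.H29.AscT
open scoped commutatorElement Kronecker

variable {F : Type*} [Field F] {n k m r t w : ℕ}
variable {τ : F ≃+* F}

/-- the matrices with given shift and ratio -/
def Mz (b : Fin 3) (α ζ : F) : Matrix (Fin 3) (Fin 3) F :=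
  Matrix.of fun i j => if i = j + b then α * ζ ^ (j : ℕ) else 0

theorem Mz_apply (b : Fin 3) (α ζ : F) (i j : Fin 3) : Mz b α ζ i j = if i = j + b then α * ζ ^ (j : ℕ) else 0 := rfl

theorem pow_fin {ζ : F} (hζ : ζ ^ 3 = 1) (a b : Fin 3) : ζ ^ ((a + b : Fin 3) : ℕ) = ζ ^ (a : ℕ) * ζ ^ (b : ℕ) := by
  rw [← pow_add, Fin.val_add]
  conv_rhs => rw [← Nat.mod_add_div ((a : ℕ) + b) 3, pow_add, pow_mul, hζ, one_pow, mul_one]

theorem Mz_mul {b c : Fin 3} {α ζ β ξ : F} (hζ : ζ ^ 3 = 1) : Mz b α ζ * Mz c β ξ =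
    Mz (c + b) (α * β * ζ ^ (c : ℕ)) (ζ * ξ) := by
  ext i j
  rw [Matrix.mul_apply, Finset.sum_eq_single (j + c)]
  · rw [Mz_apply, Mz_apply, Mz_apply, if_pos rfl]
    by_cases h : i = j + c + b
    · rw [if_pos h, if_pos (by rw [h, add_assoc]), pow_fin hζ, mul_pow]
      ring
    · rw [if_neg h, if_neg (by rw [← add_assoc]; exact h), zero_mul]
  · intro l _ hl
    rw [Mz_apply c, if_neg hl, mul_zero]
  · intro h; exact absurd (Finset.mem_univ _) h

theorem H3_Mz [Fintype F] (hF : Fintype.card F = 4) {g : GL (Fin 3) F} (hg : g ∈ H3 F) :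
    ∃ (b : Fin 3) (α ζ : F), α ≠ 0 ∧ ζ ≠ 0 ∧ (g : Matrix (Fin 3) (Fin 3) F) = Mz b α ζ := by
  obtain ⟨b, α, ζ, h1, h2, h3⟩ := H3_entries hF hg
  exact ⟨b, α, ζ, h1, h2, by ext i j; exact h3 i j⟩

theorem H3_comm [Fintype F] (hF : Fintype.card F = 4) {g h : GL (Fin 3) F} (hg : g ∈ H3 F) (hh : h ∈ H3 F) :
    ∃ c : Fˣ, g * h = sc 3 F c * (h * g) := by
  obtain ⟨b, α, ζ, hα, hζ, hge⟩ := H3_Mz hF hg
  obtain ⟨c, β, ξ, hβ, hξ, hhe⟩ := H3_Mz hF hh
  have h1 := cube_one hF hζ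
  have h2 := cube_one hF hξ
  refine ⟨Units.mk0 (ζ ^ (c : ℕ) / ξ ^ (b : ℕ)) (div_ne_zero (pow_ne_zero _ hζ) (pow_ne_zero _ hξ)), ?_⟩
  apply Units.ext
  rw [Units.val_mul, Units.val_mul, sc_coe, Units.val_mul, hge, hhe, Mz_mul h1, Mz_mul h2, Matrix.smul_mul, one_mul]
  ext i j
  rw [Matrix.smul_apply, Mz_apply, Mz_apply, smul_eq_mul, Units.val_mk0]
  by_cases h : i = j + (c + b)
  · rw [if_pos h, if_pos (by rw [h, add_comm c b])]
    have h3 : ξ ^ (b : ℕ) ≠ 0 := pow_ne_zero _ hξ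
    field_simp
  · rw [if_neg h, if_neg (by rw [add_comm b c]; exact h), mul_zero]

theorem H3_cube [Fintype F] (hF : Fintype.card F = 4) {g : GL (Fin 3) F} (hg : g ∈ H3 F) : g ^ 3 = 1 := by
  obtain ⟨b, α, ζ, hα, hζ, hge⟩ := H3_Mz hF hg
  have h1 := cube_one hF hζ
  have h2 := cube_one hF hα
  apply Units.ext
  rw [pow_succ, pow_two, Units.val_mul, Units.val_mul, hge, Mz_mul h1, Mz_mul (by rw [mul_pow, h1, mul_one]), Units.val_one]
  ext i j
  rw [Mz_apply]
  have hb' : ∀ b : Fin 3, b + (b + b) = 0 := by decide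
  have hb := hb' b
  rw [hb, add_zero, Matrix.one_apply]
  by_cases hij : i = j
  · rw [if_pos hij, if_pos hij]
    have h3 : α * α * ζ ^ (b : ℕ) * α * (ζ * ζ) ^ (b : ℕ) * (ζ * ζ * ζ) ^ (j : ℕ) = α ^ 3 * (ζ ^ 3) ^ (b : ℕ) * (ζ ^ 3) ^ (j : ℕ) := by
      rw [mul_pow, mul_pow, mul_pow]
      ring
    rw [h3, h1, h2, one_pow, one_pow]
    ring
  · rw [if_neg hij, if_neg hij]

theorem Mz_det (b : Fin 3) {ζ : F} (hζ : ζ ^ 3 = 1) : (Mz b 1 ζ).det = 1 := by
  rw [Matrix.det_fin_three]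
  fin_cases b <;> simp [Mz_apply] <;> linear_combination hζ

/-- elements of the group with given shift and ratio -/
noncomputable def hz (b : Fin 3) {ζ : F} (hζ : ζ ^ 3 = 1) : GL (Fin 3) F :=
  Matrix.GeneralLinearGroup.mkOfDetNeZero (Mz b 1 ζ) (by rw [Mz_det b hζ]; exact one_ne_zero)

theorem hz_coe (b : Fin 3) {ζ : F} (hζ : ζ ^ 3 = 1) : (hz b hζ : Matrix (Fin 3) (Fin 3) F) = Mz b 1 ζ := rfl

theorem hz_mem (b : Fin 3) {ζ : F} (hζ : ζ ^ 3 = 1) : hz b hζ ∈ H3 F := by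
  refine ⟨by rw [hz_coe, Mz_det b hζ], b, ?_⟩
  intro i j hij
  rw [hz_coe, Mz_apply, if_neg hij]

/-- a primitive cube root of unity -/
theorem exists_omega [Fintype F] (hF : Fintype.card F = 4) : ∃ ω : F, ω ≠ 0 ∧ ω ≠ 1 ∧ ω ^ 3 = 1 ∧ ω ^ 2 + ω + 1 = 0 := by
  classical
  obtain ⟨ω, hω⟩ : ∃ ω : F, ω ∉ ({0, 1} : Finset F) := by
    by_contra hcon
    push Not at hcon
    have h1 : (Finset.univ : Finset F) ⊆ {0, 1} := fun x _ => hcon x
    have h2 := Finset.card_le_card h1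
    rw [Finset.card_univ, hF] at h2
    have h3 : ({0, 1} : Finset F).card ≤ 2 := Finset.card_le_two
    omega
  have h0 : ω ≠ 0 := fun h => hω (by rw [h]; simp)
  have h1 : ω ≠ 1 := fun h => hω (by rw [h]; simp)
  refine ⟨ω, h0, h1, cube_one hF h0, ?_⟩
  have := quad_rel hF h0 one_ne_zero h1
  linear_combination this

/-- elementary matrices are combinations of elements of the group -/
theorem single_eq [Fintype F] (hF : Fintype.card F = 4) {ω : F} (hω : ω ^ 2 + ω + 1 = 0) (i j : Fin 3) :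
    Matrix.single i j (1 : F) = ∑ c : Fin 3, ω ^ (2 * (c : ℕ) * (j : ℕ)) • Mz (i - j) 1 (ω ^ (c : ℕ)) := by
  have h2 := two_zero_of_four hF
  have h3 : ω ^ 3 = 1 := by linear_combination (ω - 1) * hω
  have h4 : ω ^ 4 = ω := by linear_combination ω * h3
  ext p l
  rw [Matrix.sum_apply, Fin.sum_univ_three]
  simp only [Matrix.smul_apply, Mz_apply, smul_eq_mul, Matrix.single_apply]
  have hval0 : ((0 : Fin 3) : ℕ) = 0 := rfl
  have hval1 : ((1 : Fin 3) : ℕ) = 1 := rfl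
  have hval2 : ((2 : Fin 3) : ℕ) = 2 := rfl
  by_cases hp : p = l + (i - j)
  · simp only [if_pos hp]
    by_cases hl : j = l
    · subst hl
      have hip : i = p := by rw [hp]; abel
      rw [if_pos ⟨hip, rfl⟩]
      have key : ∀ c : ℕ, ω ^ (2 * c * (j : ℕ)) * (1 * (ω ^ c) ^ (j : ℕ)) = 1 := by
        intro c
        rw [one_mul, ← pow_mul, ← pow_add]
        have : 2 * c * (j : ℕ) + c * (j : ℕ) = 3 * (c * (j : ℕ)) := by ring
        rw [this, pow_mul, h3, one_pow]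
      rw [key, key, key]
      linear_combination -h2
    · rw [if_neg (fun h => hl h.2), hval0, hval1, hval2]
      clear hp
      fin_cases j <;> fin_cases l <;>
        first
        | (exfalso; exact hl rfl)
        | (simp only [Fin.zero_eta, Fin.mk_one, Fin.reduceFinMk, Fin.isValue, hval0, hval1, hval2]; ring_nf;
           first
           | linear_combination -hω
           | linear_combination -hω - h4 + ω * 0
           | (simp only [h3, h4]; linear_combination -hω)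
           | (have h5 : ω ^ 5 = ω ^ 2 := by linear_combination ω ^ 2 * h3
              have h6 : ω ^ 6 = 1 := by linear_combination (ω ^ 3 + 1) * h3
              have h8 : ω ^ 8 = ω ^ 2 := by linear_combination (ω ^ 5 + ω ^ 2) * h3
              have h10 : ω ^ 10 = ω := by linear_combination (ω ^ 7 + ω ^ 4 + ω) * h3
              have h12 : ω ^ 12 = 1 := by linear_combination (ω ^ 9 + ω ^ 6 + ω ^ 3 + 1) * h3
              simp only [h3, h4, h5, h6, h8, h10, h12]; linear_combination -hω))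
  · simp only [if_neg hp, mul_zero, add_zero]
    rw [if_neg]
    rintro ⟨rfl, rfl⟩
    apply hp
    abel

end Cfsg.Agent.H29.Fm
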