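import Mathlib
import Cfsg.Agent.H29_Wr2

set_option autoImplicit false

/-! tensor powers of the group of order 27 -/

namespace Cfsg.Agent.H29.Fm

open Matrix Module Cfsg.Geo Cfsg.Agent.H29.Clifford Cfsg.Agent.H29.Asc Cfsg.Agent.H29.AscF Cfsg.Agent.H29.Trv
  Cfsg.Agent.H29.AscT
open scoped commutatorElement Kronecker

variable {F : Type*} [Field F] {n k m r t w : ℕ}
variable {τ : F ≃+* F}

theorem mem_scalars_mat {ι : Type} [Fintype ι] [DecidableEq ι] {g : GL ι F} {c : F} (hc : c ≠ 0)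
    (h : (g : Matrix ι ι F) = c • 1) : g ∈ scalars ι F := by
  rw [mem_scalars_iff]
  exact ⟨Units.mk0 c hc, h⟩

/-- the matrix of negation -/
def Jn (F : Type*) [Field F] : Matrix (Fin 3) (Fin 3) F := Matrix.of fun i j => if i = -j then 1 else 0

theorem Jn_mul_apply (M : Matrix (Fin 3) (Fin 3) F) (i j : Fin 3) : (Jn F * M) i j = M (-i) j := by
  rw [Matrix.mul_apply, Finset.sum_eq_single (-i)]
  · show (if i = - -i then (1 : F) else 0) * _ = _
    rw [if_pos (neg_neg i).symm, one_mul]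
  · intro l _ hl
    show (if i = -l then (1 : F) else 0) * _ = _
    rw [if_neg (fun h => hl (by rw [h, neg_neg])), zero_mul]
  · intro h; exact absurd (Finset.mem_univ _) h

theorem mul_Jn_apply (M : Matrix (Fin 3) (Fin 3) F) (i j : Fin 3) : (M * Jn F) i j = M i (-j) := by
  rw [Matrix.mul_apply, Finset.sum_eq_single (-j)]
  · show _ * (if -j = -j then (1 : F) else 0) = _
    rw [if_pos rfl, mul_one]
  · intro l _ hl
    show _ * (if l = -j then (1 : F) else 0) = _
    rw [if_neg hl, mul_zero]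
  · intro h; exact absurd (Finset.mem_univ _) h

theorem Jn_Jn : Jn F * Jn F = 1 := by
  ext i j
  rw [Jn_mul_apply]
  show (if -i = -j then (1 : F) else 0) = _
  rw [Matrix.one_apply]
  congr 1
  exact propext neg_inj

/-- negation as an element -/
def jn (F : Type*) [Field F] : GL (Fin 3) F := ⟨Jn F, Jn F, Jn_Jn, Jn_Jn⟩

theorem jn_Un : jn F ∈ Un τ := by
  rw [mem_Un]
  show (Jn F)ᵀ * (Jn F).map τ = 1
  have h1 : (Jn F)ᵀ = Jn F := by
    ext i j
    show (if j = -i then (1 : F) else 0) = if i = -j then 1 else 0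
    congr 1
    apply propext
    constructor
    · intro h; rw [h, neg_neg]
    · intro h; rw [h, neg_neg]
  have h2 : (Jn F).map τ = Jn F := by
    ext i j
    show τ (if i = -j then (1 : F) else 0) = if i = -j then 1 else 0
    split_ifs
    · exact map_one τ
    · exact map_zero τ
  rw [h1, h2, Jn_Jn]

theorem H3_jn [Fintype F] (hF : Fintype.card F = 4) {g : GL (Fin 3) F} (hg : g ∈ H3 F) (hs : g ∉ scalars (Fin 3) F) :
    g * (jn F * g⁻¹ * (jn F)⁻¹) ∉ scalars (Fin 3) F := by
  intro h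
  apply hs
  obtain ⟨b, α, ζ, hα, hζ, hge⟩ := H3_Mz hF hg
  rw [mem_scalars_iff] at h
  obtain ⟨c, hc⟩ := h
  have h1 : g * jn F = (g * (jn F * g⁻¹ * (jn F)⁻¹)) * (jn F * g) := by group
  have h2 : (g : Matrix (Fin 3) (Fin 3) F) * Jn F = (c : F) • (Jn F * (g : Matrix (Fin 3) (Fin 3) F)) := by
    have h3 := congrArg (fun x : GL (Fin 3) F => (x : Matrix (Fin 3) (Fin 3) F)) h1
    simp only [Units.val_mul] at h3
    simp only [Units.val_mul] at hc
    rw [hc, Matrix.smul_mul, one_mul] at h3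
    exact h3
  have h4 : ∀ i j, Mz b α ζ i (-j) = (c : F) * Mz b α ζ (-i) j := by
    intro i j
    have := congrFun (congrFun h2 i) j
    rw [mul_Jn_apply, Matrix.smul_apply, Jn_mul_apply, hge] at this
    exact this
  have hb : b = 0 := by
    have h5 := h4 b 0
    rw [neg_zero, Mz_apply, Mz_apply, zero_add, if_pos rfl] at h5
    by_contra hb
    have h6 : ∀ b : Fin 3, b ≠ 0 → -b ≠ b := by decide
    rw [if_neg (h6 b hb), mul_zero] at h5
    exact mul_ne_zero hα (pow_ne_zero _ hζ) h5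
  subst hb
  have e0 := h4 0 0
  have e1 := h4 1 2
  have en1 : (-1 : Fin 3) = 2 := by decide
  have en2 : (-2 : Fin 3) = 1 := by decide
  have v0 : ((0 : Fin 3) : ℕ) = 0 := rfl
  have v1 : ((1 : Fin 3) : ℕ) = 1 := rfl
  have v2 : ((2 : Fin 3) : ℕ) = 2 := rfl
  rw [neg_zero, Mz_apply, add_zero, if_pos rfl, v0, pow_zero, mul_one] at e0
  rw [en1, en2, Mz_apply, Mz_apply, add_zero, add_zero, if_pos rfl, if_pos rfl, v1, v2, pow_one] at e1
  have hc1 : (c : F) = 1 := by
    have : ((c : F) - 1) * α = 0 := by linear_combination -e0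
    exact sub_eq_zero.1 ((mul_eq_zero.1 this).resolve_right hα)
  have hζ1 : ζ = 1 := by
    rw [hc1, one_mul] at e1
    have : α * ζ * (1 - ζ) = 0 := by linear_combination e1
    exact (sub_eq_zero.1 ((mul_eq_zero.1 this).resolve_left (mul_ne_zero hα hζ))).symm
  apply mem_scalars_mat hα
  rw [hge]
  ext i j
  rw [Mz_apply, hζ1, one_pow, mul_one, add_zero, Matrix.smul_apply, Matrix.one_apply, smul_eq_mul]
  by_cases hij : i = j
  · rw [if_pos hij, if_pos hij, mul_one]
  · rw [if_neg hij, if_neg hij, mul_zero]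

theorem three_one [Fintype F] (hF : Fintype.card F = 4) : (3 : F) = 1 := by
  have := two_zero_of_four hF
  linear_combination this

/-- the Fourier matrix -/
def Wd (ω : F) : Matrix (Fin 3) (Fin 3) F := Matrix.of fun i j => ω ^ ((i : ℕ) * (j : ℕ))

theorem Wd_mul [Fintype F] (hF : Fintype.card F = 4) {ω : F} (hω : ω ^ 2 + ω + 1 = 0) :
    Wd ω * Wd (ω ^ 2) = 1 := by
  have h2 := two_zero_of_four hF
  have h3 : ω ^ 3 = 1 := by linear_combination (ω - 1) * hω
  have h4 : ω ^ 4 = ω := by linear_combination ω * h3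
  have h5 : ω ^ 5 = ω ^ 2 := by linear_combination ω ^ 2 * h3
  have h6 : ω ^ 6 = 1 := by linear_combination (ω ^ 3 + 1) * h3
  have h8 : ω ^ 8 = ω ^ 2 := by linear_combination (ω ^ 5 + ω ^ 2) * h3
  have h10 : ω ^ 10 = ω := by linear_combination (ω ^ 7 + ω ^ 4 + ω) * h3
  have h12 : ω ^ 12 = 1 := by linear_combination (ω ^ 9 + ω ^ 6 + ω ^ 3 + 1) * h3
  ext i j
  rw [Matrix.mul_apply, Fin.sum_univ_three]
  simp only [Wd, Matrix.of_apply]
  have v0 : ((0 : Fin 3) : ℕ) = 0 := rfl
  have v1 : ((1 : Fin 3) : ℕ) = 1 := rfl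
  have v2 : ((2 : Fin 3) : ℕ) = 2 := rfl
  rw [v0, v1, v2]
  fin_cases i <;> fin_cases j <;>
    simp only [Fin.zero_eta, Fin.mk_one, Fin.reduceFinMk, Fin.isValue, v0, v1, v2, Matrix.one_apply, if_true] <;>
    ring_nf <;>
    first
    | (simp only [h3, h4, h5, h6, h8, h10, h12]; first | done | linear_combination h2 | linear_combination hω | skip)
    | skip
  all_goals first
    | linear_combination h2
    | (simp; linear_combination h2)
    | (simp; linear_combination hω)

theorem Wd_Un [Fintype F] (hF : Fintype.card F = 4) (hτ2 : ∀ x, τ x = x ^ 2) {ω : F} (hω : ω ^ 2 + ω + 1 = 0) :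
    (Wd ω)ᵀ * (Wd ω).map τ = 1 := by
  have h1 : (Wd ω)ᵀ = Wd ω := by
    ext i j
    show ω ^ ((j : ℕ) * (i : ℕ)) = ω ^ ((i : ℕ) * (j : ℕ))
    rw [mul_comm]
  have h2 : (Wd ω).map τ = Wd (ω ^ 2) := by
    ext i j
    show τ (ω ^ ((i : ℕ) * (j : ℕ))) = (ω ^ 2) ^ ((i : ℕ) * (j : ℕ))
    rw [hτ2, ← pow_mul, ← pow_mul, mul_comm]
  rw [h1, h2, Wd_mul hF hω]

/-- conjugation of the diagonal element by the Fourier matrix -/
theorem Wd_conj [Fintype F] {ω : F} (h3 : ω ^ 3 = 1) :
    Wd ω * Mz 0 1 ω = Mz 2 1 1 * Wd ω := by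
  ext i j
  rw [Matrix.mul_apply, Matrix.mul_apply, Finset.sum_eq_single j, Finset.sum_eq_single (i + 1)]
  · rw [Mz_apply, Mz_apply, add_zero, if_pos rfl]
    have h1 : i = i + 1 + 2 := by
      have : ∀ i : Fin 3, i = i + 1 + 2 := by decide
      exact this i
    rw [if_pos h1, one_pow, one_mul, one_mul, one_mul]
    show ω ^ ((i : ℕ) * (j : ℕ)) * ω ^ (j : ℕ) = ω ^ (((i + 1 : Fin 3) : ℕ) * (j : ℕ))
    rw [pow_mul ω ((i + 1 : Fin 3) : ℕ), pow_fin h3, mul_pow, ← pow_mul]
    congr 1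
    have : ((1 : Fin 3) : ℕ) = 1 := rfl
    rw [this, pow_one]
  · intro l _ hl
    rw [Mz_apply, if_neg, zero_mul]
    intro h
    apply hl
    have : ∀ i l : Fin 3, i = l + 2 → l = i + 1 := by decide
    exact this i l h
  · intro h; exact absurd (Finset.mem_univ _) h
  · intro l _ hl
    rw [Mz_apply, add_zero, if_neg hl, mul_zero]
  · intro h; exact absurd (Finset.mem_univ _) h

/-- diagonal conjugation -/
def Dg (ω : F) : Matrix (Fin 3) (Fin 3) F := Matrix.diagonal ![1, 1, ω]

/-- normalised subgroups of the group of order 27 -/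
theorem H3_min [Fintype F] (hF : Fintype.card F = 4) (hτ2 : ∀ x, τ x = x ^ 2) {N : Subgroup (GL (Fin 3) F)}
    (hsc : scalars (Fin 3) F ≤ N) (hN : ∀ A ∈ (Un τ : Subgroup (GL (Fin 3) F)), ∀ x ∈ N, A * x * A⁻¹ ∈ N)
    {g : GL (Fin 3) F} (hg : g ∈ H3 F) (hgN : g ∈ N) (hs : g ∉ scalars (Fin 3) F) : H3 F ≤ N := by
  obtain ⟨ω, hω0, hω1, hω3, hω⟩ := exists_omega hF
  -- membership of matrices
  have hmat : ∀ x y : GL (Fin 3) F, ∀ c : F, c ≠ 0 → (x : Matrix (Fin 3) (Fin 3) F) = c • (y : Matrix (Fin 3) (Fin 3) F) →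
      y ∈ N → x ∈ N := by
    intro x y c hc hxy hy
    have h1 : x = sc 3 F (Units.mk0 c hc) * y := by
      apply Units.ext
      rw [Units.val_mul, sc_coe, hxy, Matrix.smul_mul, one_mul]
      rfl
    rw [h1]
    exact N.mul_mem (hsc ⟨_, rfl⟩) hy
  -- a diagonal element
  have hdiag : ∃ (ζ : F) (hζ : ζ ^ 3 = 1), ζ ≠ 1 ∧ hz 0 hζ ∈ N := by
    obtain ⟨b, α, ζ, hα, hζ, hge⟩ := H3_Mz hF hg
    have hζ3 := cube_one hF hζ
    by_cases hb : b = 0
    · subst hb
      refine ⟨ζ, hζ3, ?_, ?_⟩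
      · rintro rfl
        apply hs
        apply mem_scalars_mat hα
        rw [hge]
        ext i j
        rw [Mz_apply, one_pow, mul_one, add_zero, Matrix.smul_apply, Matrix.one_apply, smul_eq_mul]
        by_cases hij : i = j
        · rw [if_pos hij, if_pos hij, mul_one]
        · rw [if_neg hij, if_neg hij, mul_zero]
      · refine hmat _ g α⁻¹ (inv_ne_zero hα) ?_ hgN
        rw [hz_coe, hge]
        ext i j
        rw [Matrix.smul_apply, Mz_apply, Mz_apply, smul_eq_mul]
        by_cases hij : i = j + 0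
        · rw [if_pos hij, if_pos hij]; field_simp
        · rw [if_neg hij, if_neg hij, mul_zero]
    · -- use the diagonal matrix
      have hDdet : (Dg ω).det ≠ 0 := by
        rw [Dg, Matrix.det_diagonal, Fin.prod_univ_three]
        simpa using hω0
      let D : GL (Fin 3) F := Matrix.GeneralLinearGroup.mkOfDetNeZero (Dg ω) hDdet
      have hDU : D ∈ (Un τ : Subgroup (GL (Fin 3) F)) := by
        rw [mem_Un]
        show (Dg ω)ᵀ * (Dg ω).map τ = 1
        rw [Dg, Matrix.diagonal_transpose]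
        ext i j
        rw [Matrix.diagonal_mul, Matrix.map_apply, Matrix.diagonal_apply, Matrix.one_apply]
        by_cases hij : i = j
        · subst hij
          rw [if_pos rfl, if_pos rfl]
          apply norm_four hF hτ2
          fin_cases i
          · exact one_ne_zero
          · exact one_ne_zero
          · exact hω0
        · rw [if_neg hij, if_neg hij, map_zero, mul_zero]
      have h1 : D * g * D⁻¹ * g⁻¹ ∈ N := N.mul_mem (hN D hDU g hgN) (N.inv_mem hgN)
      -- the entries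
      have h2 : ∀ x : GL (Fin 3) F, (x : Matrix (Fin 3) (Fin 3) F) * ((g : Matrix (Fin 3) (Fin 3) F) * Dg ω) =
          Dg ω * (g : Matrix (Fin 3) (Fin 3) F) → x = D * g * D⁻¹ * g⁻¹ := by
        intro x hx
        have h3 : x * (g * D) = D * g := Units.ext hx
        rw [← mul_inv_eq_iff_eq_mul.2 h3.symm]
        group
      have hb' : b = 1 ∨ b = 2 := by
        have : ∀ b : Fin 3, b ≠ 0 → b = 1 ∨ b = 2 := by decide
        exact this b hb
      have key : ∀ (ζ' : F) (hζ' : ζ' ^ 3 = 1) (c : F), c ≠ 0 → (∀ i j : Fin 3, i = j + b →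
          c * ζ' ^ (i : ℕ) * (![1, 1, ω] : Fin 3 → F) j = (![1, 1, ω] : Fin 3 → F) i) → hz 0 hζ' ∈ N := by
        intro ζ' hζ' c hc hent
        refine hmat _ (sc 3 F (Units.mk0 c hc) * hz 0 hζ') c⁻¹ (inv_ne_zero hc) ?_ ?_
        · rw [Units.val_mul, sc_coe, Units.val_mk0, Matrix.smul_mul, one_mul, smul_smul, inv_mul_cancel₀ hc, one_smul]
        · rw [h2 (sc 3 F (Units.mk0 c hc) * hz 0 hζ')]
          · exact h1
          · rw [Units.val_mul, sc_coe, Units.val_mk0, Matrix.smul_mul, one_mul, Matrix.smul_mul, hz_coe, hge]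
            ext i j
            rw [Matrix.smul_apply, Dg, Matrix.diagonal_mul, Matrix.mul_apply, Finset.sum_eq_single i, Matrix.mul_diagonal,
              Mz_apply, Mz_apply, add_zero, if_pos rfl, smul_eq_mul, one_mul]
            · by_cases hij : i = j + b
              · rw [if_pos hij]
                have := hent i j hij
                linear_combination α * ζ ^ (j : ℕ) * this
              · rw [if_neg hij]; ring
            · intro l _ hl
              rw [Mz_apply, add_zero, if_neg (Ne.symm hl), zero_mul]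
            · intro h; exact absurd (Finset.mem_univ _) h
      rcases hb' with rfl | rfl
      · refine ⟨ω, hω3, hω1, key ω hω3 (ω ^ 2) (pow_ne_zero _ hω0) ?_⟩
        intro i j hij
        subst hij
        fin_cases j
        · show ω ^ 2 * ω ^ 1 * 1 = 1
          linear_combination hω3
        · show ω ^ 2 * ω ^ 2 * 1 = ω
          linear_combination ω * hω3
        · show ω ^ 2 * ω ^ 0 * ω = 1
          linear_combination hω3
      · refine ⟨ω ^ 2, by rw [← pow_mul, mul_comm, pow_mul, hω3, one_pow], ?_, key (ω ^ 2) _ 1 one_ne_zero ?_⟩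
        · intro h
          apply hω1
          linear_combination hω3 - ω * h
        · intro i j hij
          subst hij
          fin_cases j
          · show 1 * (ω ^ 2) ^ 2 * 1 = ω
            linear_combination ω * hω3
          · show 1 * (ω ^ 2) ^ 0 * 1 = 1
            ring
          · show 1 * (ω ^ 2) ^ 1 * ω = 1
            linear_combination hω3
  obtain ⟨ζ, hζ3, hζ1, hζN⟩ := hdiag
  have hζ : ζ ^ 2 + ζ + 1 = 0 := by
    have hζ0 : ζ ≠ 0 := by
      rintro rfl
      rw [zero_pow (by norm_num)] at hζ3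
      exact zero_ne_one hζ3
    have := quad_rel hF hζ0 one_ne_zero hζ1
    linear_combination this
  -- the shift
  have hWdet : (Wd ζ).det ≠ 0 := by
    intro h0
    have h1 := congrArg Matrix.det (Wd_mul hF hζ)
    rw [Matrix.det_mul, h0, zero_mul, Matrix.det_one] at h1
    exact zero_ne_one h1
  let W : GL (Fin 3) F := Matrix.GeneralLinearGroup.mkOfDetNeZero (Wd ζ) hWdet
  have hWU : W ∈ (Un τ : Subgroup (GL (Fin 3) F)) := Wd_Un hF hτ2 hζ
  have hshift : hz 2 (ζ := (1 : F)) (one_pow 3) ∈ N := by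
    have h1 := hN W hWU _ hζN
    have h2 : W * hz 0 hζ3 = hz 2 (ζ := (1 : F)) (one_pow 3) * W := Units.ext (Wd_conj hζ3)
    rwa [h2, mul_inv_cancel_right] at h1
  -- all elements
  have hdiagN : ∀ ξ : F, ∀ hξ : ξ ^ 3 = 1, hz 0 hξ ∈ N := by
    intro ξ hξ
    have h1 : ∃ k : ℕ, ξ = ζ ^ k := by
      by_cases e1 : ξ = 1
      · exact ⟨0, by rw [e1, pow_zero]⟩
      · by_cases e2 : ξ = ζ
        · exact ⟨1, by rw [e2, pow_one]⟩
        · refine ⟨2, ?_⟩
          have hζ0 : ζ ≠ 0 := by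
            rintro rfl
            rw [zero_pow (by norm_num)] at hζ3
            exact zero_ne_one hζ3
          have hξ0 : ξ ≠ 0 := by
            rintro rfl
            rw [zero_pow (by norm_num)] at hξ
            exact zero_ne_one hξ
          have h4 := quad_rel hF hξ0 hζ0 e2
          have h5 := quad_rel hF hξ0 one_ne_zero e1
          have h6 : (ζ - 1) * (ξ + ζ + 1) = 0 := by linear_combination h4 - h5
          have h7 := (mul_eq_zero.1 h6).resolve_left (sub_ne_zero.2 hζ1)
          have h2 := two_zero_of_four hF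
          linear_combination h7 - hζ + (ζ ^ 2) * 0
    obtain ⟨k, rfl⟩ := h1
    have h2 : ∀ k : ℕ, ((hz 0 hζ3 ^ k : GL (Fin 3) F) : Matrix (Fin 3) (Fin 3) F) = Mz 0 1 (ζ ^ k) := by
      intro k
      induction k with
      | zero =>
        rw [pow_zero, pow_zero, Units.val_one]
        ext i j
        rw [Mz_apply, one_pow, mul_one, add_zero, Matrix.one_apply]
      | succ k ih =>
        rw [pow_succ, Units.val_mul, ih, hz_coe, Mz_mul (by rw [← pow_mul, mul_comm, pow_mul, hζ3, one_pow]), pow_succ]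
        have v0 : ((0 : Fin 3) : ℕ) = 0 := rfl
        rw [v0, pow_zero, add_zero, mul_one, mul_one]
    have h3 : hz 0 hξ = hz 0 hζ3 ^ k := Units.ext (by rw [h2, hz_coe])
    rw [h3]
    exact N.pow_mem hζN k
  have hshiftN : ∀ b : Fin 3, hz b (ζ := (1 : F)) (one_pow 3) ∈ N := by
    intro b
    have h1 : hz 1 (ζ := (1 : F)) (one_pow 3) = hz 2 (ζ := (1 : F)) (one_pow 3) * hz 2 (ζ := (1 : F)) (one_pow 3) := by
      apply Units.ext
      rw [Units.val_mul, hz_coe, hz_coe, Mz_mul (one_pow 3), one_pow, mul_one, mul_one]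
      rfl
    have hb' : ∀ b : Fin 3, b = 0 ∨ b = 1 ∨ b = 2 := by decide
    rcases hb' b with rfl | rfl | rfl
    · exact hdiagN 1 (one_pow 3)
    · rw [h1]; exact N.mul_mem hshift hshift
    · exact hshift
  intro x hx
  obtain ⟨b, α, ξ, hα, hξ, hxe⟩ := H3_Mz hF hx
  have hξ3 := cube_one hF hξ
  refine hmat x (hz b (ζ := (1 : F)) (one_pow 3) * hz 0 hξ3) α hα ?_ (N.mul_mem (hshiftN b) (hdiagN ξ hξ3))
  rw [Units.val_mul, hz_coe, hz_coe, Mz_mul (one_pow 3), hxe]
  ext i j
  rw [Matrix.smul_apply, Mz_apply, Mz_apply, zero_add, smul_eq_mul, one_pow, one_mul, one_mul, one_mul]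
  by_cases hij : i = j + b
  · rw [if_pos hij, if_pos hij, one_mul]
  · rw [if_neg hij, if_neg hij, mul_zero]

end Cfsg.Agent.H29.Fm
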