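import Mathlib
import Cfsg.Agent.H29_Wr3

set_option autoImplicit false

/-! tensor powers of the group of order 27, II -/

namespace Cfsg.Agent.H29.Fm

open Matrix Module Cfsg.Geo Cfsg.Agent.H29.Clifford Cfsg.Agent.H29.Asc Cfsg.Agent.H29.AscF Cfsg.Agent.H29.Trv
  Cfsg.Agent.H29.AscT
open scoped commutatorElement Kronecker

variable {F : Type*} [Field F] {n k m r t w : ℕ}
variable {τ : F ≃+* F}

/-- pure tensors as a homomorphism -/
def gKh (k m : ℕ) (F : Type*) [Field F] : (Fin k → GL (Fin m) F) →* GL (Fin k → Fin m) F where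
  toFun := gK
  map_one' := by
    apply Units.ext
    exact K_one
  map_mul' A B := by
    apply Units.ext
    show K _ = K _ * K _
    rw [K_mul]
    rfl

theorem gKh_apply (A : Fin k → GL (Fin m) F) : gKh k m F A = gK A := rfl

theorem gK_mul (A B : Fin k → GL (Fin m) F) : gK (A * B) = gK A * gK B := (gKh k m F).map_mul A B

theorem gK_inv (A : Fin k → GL (Fin m) F) : gK (A⁻¹) = (gK A)⁻¹ := (gKh k m F).map_inv A

theorem gK_coe (A : Fin k → GL (Fin m) F) : ((gK A : GL (Fin k → Fin m) F) : Matrix (Fin k → Fin m) (Fin k → Fin m) F) =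
    K (fun i => (A i : Matrix (Fin m) (Fin m) F)) := rfl

theorem gP_conj (σ : Equiv.Perm (Fin k)) (A : Fin k → GL (Fin m) F) : gP m F σ * gK A * (gP m F σ)⁻¹ = gK (A ∘ σ.symm) := by
  rw [mul_inv_eq_iff_eq_mul]
  apply Units.ext
  show Pm m F σ * K _ = K _ * Pm m F σ
  rw [Pm_K]
  rfl

/-- the tensor power -/
def E3 (t : ℕ) (F : Type*) [Field F] : Subgroup (GL (Fin t → Fin 3) F) :=
  (Subgroup.pi Set.univ (fun _ => H3 F)).map (gKh t 3 F)

theorem mem_E3 {x : GL (Fin t → Fin 3) F} : x ∈ E3 t F ↔ ∃ A : Fin t → GL (Fin 3) F, (∀ i, A i ∈ H3 F) ∧ gK A = x := by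
  constructor
  · rintro ⟨A, hA, rfl⟩
    exact ⟨A, fun i => hA i (Set.mem_univ i), rfl⟩
  · rintro ⟨A, hA, rfl⟩
    exact ⟨A, fun i _ => hA i, rfl⟩

/-- the isometries in the wreath group -/
def G3 (τ : F ≃+* F) (t : ℕ) : Subgroup (GL (Fin t → Fin 3) F) := tensorWreathStandard 3 t F ⊓ Un τ

theorem K_map' (τ : F ≃+* F) (A : Fin k → Matrix (Fin m) (Fin m) F) : (K A).map τ = K (fun i => (A i).map τ) := by
  ext x y
  show τ (∏ i, A i (x i) (y i)) = ∏ i, τ (A i (x i) (y i))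
  rw [map_prod]

theorem gK_Un {A : Fin t → GL (Fin m) F} (hA : ∀ i, A i ∈ (Un τ : Subgroup (GL (Fin m) F))) : gK A ∈ (Un τ : Subgroup (GL (Fin t → Fin m) F)) := by
  rw [mem_Un, gK_coe, K_transpose, K_map', K_mul]
  have h1 : ((fun i => ((A i : Matrix (Fin m) (Fin m) F))ᵀ) * fun i => (A i : Matrix (Fin m) (Fin m) F).map τ) =
      (1 : Fin t → Matrix (Fin m) (Fin m) F) := by
    funext i
    exact hA i
  rw [h1, K_one]

theorem gP_Un (σ : Equiv.Perm (Fin t)) : gP m F σ ∈ (Un τ : Subgroup (GL (Fin t → Fin m) F)) := by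
  rw [mem_Un]
  show (Pm m F σ)ᵀ * (Pm m F σ).map τ = 1
  have h2 : (Pm m F σ).map τ = Pm m F σ := by
    ext x y
    show τ (if y = x ∘ σ then (1 : F) else 0) = if y = x ∘ σ then 1 else 0
    split_ifs
    · exact map_one τ
    · exact map_zero τ
  rw [h2, Pm_transpose, Pm_Pm, inv_mul_cancel, Pm_one]

theorem gK_G3 {A : Fin t → GL (Fin 3) F} (hA : ∀ i, A i ∈ (Un τ : Subgroup (GL (Fin 3) F))) : gK A ∈ G3 τ t :=
  ⟨Subgroup.subset_closure (Or.inl (gK_pure A)), gK_Un hA⟩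

theorem gP_G3 (σ : Equiv.Perm (Fin t)) : gP 3 F σ ∈ (G3 τ t) :=
  ⟨Subgroup.subset_closure (Or.inr (gP_perm σ)), gP_Un σ⟩

/-- pure tensors that are the identity -/
theorem K_eq_one {B : Fin t → Matrix (Fin 3) (Fin 3) F} (h : K B = 1) (i : Fin t) :
    B i 0 0 ≠ 0 ∧ B i = B i 0 0 • 1 := by
  have hne : ∀ j, B j 0 0 ≠ 0 := by
    intro j h0
    have h1 := congrFun (congrFun h (fun _ => 0)) (fun _ => 0)
    rw [K_apply, Matrix.one_apply_eq, Finset.prod_eq_zero (Finset.mem_univ j) h0] at h1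
    exact zero_ne_one h1
  refine ⟨hne i, ?_⟩
  have hval : ∀ a b : Fin 3, B i a b * ∏ j ∈ Finset.univ.erase i, B j 0 0 = (1 : Matrix (Fin 3) (Fin 3) F) a b := by
    intro a b
    have h1 := congrFun (congrFun h (Function.update (fun _ => 0) i a)) (Function.update (fun _ => 0) i b)
    rw [K_apply, ← Finset.mul_prod_erase _ _ (Finset.mem_univ i), Function.update_self, Function.update_self] at h1
    have h2 : ∏ j ∈ Finset.univ.erase i, B j (Function.update (fun _ => (0 : Fin 3)) i a j) (Function.update (fun _ => (0 : Fin 3)) i b j) =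
        ∏ j ∈ Finset.univ.erase i, B j 0 0 := by
      apply Finset.prod_congr rfl
      intro j hj
      rw [Function.update_of_ne (Finset.ne_of_mem_erase hj), Function.update_of_ne (Finset.ne_of_mem_erase hj)]
    rw [h2] at h1
    rw [h1, Matrix.one_apply, Matrix.one_apply]
    congr 1
    apply propext
    constructor
    · intro h3
      have := congrFun h3 i
      rwa [Function.update_self, Function.update_self] at this
    · rintro rfl; rfl
  have hP : ∏ j ∈ Finset.univ.erase i, B j 0 0 ≠ 0 := Finset.prod_ne_zero_iff.2 (fun j _ => hne j)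
  ext a b
  rw [Matrix.smul_apply, smul_eq_mul]
  apply mul_right_cancel₀ hP
  rw [hval a b]
  have h3 := hval 0 0
  rw [Matrix.one_apply_eq] at h3
  linear_combination -(1 : Matrix (Fin 3) (Fin 3) F) a b * h3

theorem G3_form [Fintype F] (hF : Fintype.card F = 4) (hτ2 : ∀ x, τ x = x ^ 2) (hinv : ∀ a, τ (τ a) = a)
    {g : GL (Fin t → Fin 3) F} (hg : g ∈ G3 τ t) : ∃ (σ : Equiv.Perm (Fin t)) (A : Fin t → GL (Fin 3) F),
      (∀ i, A i ∈ (Un τ : Subgroup (GL (Fin 3) F))) ∧ g = gP 3 F σ * gK A := by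
  obtain ⟨σ, A, rfl⟩ := wreath_normal_form hg.1
  refine ⟨σ, A, ?_, rfl⟩
  have h1 : gK A ∈ (Un τ : Subgroup (GL (Fin t → Fin 3) F)) := by
    have := (Un τ).mul_mem ((Un τ).inv_mem (gP_Un (τ := τ) (m := 3) (F := F) σ)) hg.2
    rwa [inv_mul_cancel_left] at this
  rw [mem_Un, gK_coe, K_transpose, K_map', K_mul] at h1
  intro i
  obtain ⟨h2, h3⟩ := K_eq_one h1 i
  simp only [Pi.mul_apply] at h2 h3
  set c := (((A i : Matrix (Fin 3) (Fin 3) F))ᵀ * (A i : Matrix (Fin 3) (Fin 3) F).map τ) 0 0 with hc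
  have h4 : τ c = c := by
    rw [hc, Matrix.mul_apply, map_sum]
    apply Finset.sum_congr rfl
    intro j _
    show τ ((A i : Matrix (Fin 3) (Fin 3) F) j 0 * τ ((A i : Matrix (Fin 3) (Fin 3) F) j 0)) = (A i : Matrix (Fin 3) (Fin 3) F) j 0 * τ ((A i : Matrix (Fin 3) (Fin 3) F) j 0)
    rw [map_mul, hinv, mul_comm]
  have h5 : c = 1 := by
    rw [hτ2] at h4
    have : c * (c - 1) = 0 := by linear_combination h4
    exact sub_eq_zero.1 ((mul_eq_zero.1 this).resolve_left h2)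
  rw [mem_Un, h3, h5, one_smul]

theorem E3_normal [Fintype F] (hF : Fintype.card F = 4) (hτ2 : ∀ x, τ x = x ^ 2) (hinv : ∀ a, τ (τ a) = a)
    {g x : GL (Fin t → Fin 3) F} (hg : g ∈ G3 τ t) (hx : x ∈ E3 t F) : g * x * g⁻¹ ∈ E3 t F := by
  obtain ⟨σ, A, hA, rfl⟩ := G3_form hF hτ2 hinv hg
  obtain ⟨B, hB, rfl⟩ := mem_E3.1 hx
  have h1 : gP 3 F σ * gK A * gK B * (gP 3 F σ * gK A)⁻¹ = gP 3 F σ * gK (A * B * A⁻¹) * (gP 3 F σ)⁻¹ := by
    rw [gK_mul, gK_mul, gK_inv]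
    group
  rw [h1, gP_conj, mem_E3]
  exact ⟨_, fun i => H3_normal hF hτ2 (hA _) (hB _), rfl⟩

theorem E3_Un [Fintype F] (hF : Fintype.card F = 4) (hτ2 : ∀ x, τ x = x ^ 2) {x : GL (Fin t → Fin 3) F}
    (hx : x ∈ E3 t F) : x ∈ (Un τ : Subgroup (GL (Fin t → Fin 3) F)) := by
  obtain ⟨B, hB, rfl⟩ := mem_E3.1 hx
  exact gK_Un (fun i => H3_unitary hF hτ2 (hB i))

theorem E3_cube [Fintype F] (hF : Fintype.card F = 4) {x : GL (Fin t → Fin 3) F}
    (hx : x ∈ E3 t F) : x ^ 3 = 1 := by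
  obtain ⟨B, hB, rfl⟩ := mem_E3.1 hx
  have h1 : (gKh t 3 F B) ^ 3 = 1 := by
    rw [← map_pow]
    have : B ^ 3 = 1 := by
      funext i
      exact H3_cube hF (hB i)
    rw [this, map_one]
  exact h1

theorem E3_comm [Fintype F] (hF : Fintype.card F = 4) {x y : GL (Fin t → Fin 3) F}
    (hx : x ∈ E3 t F) (hy : y ∈ E3 t F) : ∃ c : F, c ≠ 0 ∧ ((x * y : GL (Fin t → Fin 3) F) : Matrix (Fin t → Fin 3) (Fin t → Fin 3) F) =
      c • ((y * x : GL (Fin t → Fin 3) F) : Matrix (Fin t → Fin 3) (Fin t → Fin 3) F) := by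
  obtain ⟨A, hA, rfl⟩ := mem_E3.1 hx
  obtain ⟨B, hB, rfl⟩ := mem_E3.1 hy
  have h1 : ∀ i, ∃ c : Fˣ, A i * B i = sc 3 F c * (B i * A i) := fun i => H3_comm hF (hA i) (hB i)
  choose c hc using h1
  refine ⟨∏ i, (c i : F), Finset.prod_ne_zero_iff.2 (fun i _ => (c i).ne_zero), ?_⟩
  rw [← gK_mul, ← gK_mul, gK_coe, gK_coe, ← K_smul]
  congr 1
  funext i
  rw [Pi.mul_apply, hc i, Pi.mul_apply, Units.val_mul, sc_coe, Matrix.smul_mul, one_mul]

theorem E3_scalars [Fintype F] (hF : Fintype.card F = 4) (ht : 0 < t) : scalars (Fin t → Fin 3) F ≤ E3 t F := by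
  intro x hx
  rw [mem_scalars_iff] at hx
  obtain ⟨c, hc⟩ := hx
  let i₀ : Fin t := ⟨0, ht⟩
  rw [mem_E3]
  refine ⟨Pi.mulSingle i₀ (sc 3 F c), ?_, ?_⟩
  · intro i
    by_cases hi : i = i₀
    · subst hi
      rw [Pi.mulSingle_eq_same]
      refine ⟨?_, 0, ?_⟩
      · rw [sc_coe, Matrix.det_smul, Matrix.det_one, mul_one, Fintype.card_fin]
        exact cube_one hF c.ne_zero
      · intro a b hab
        rw [add_zero] at hab
        rw [sc_coe, Matrix.smul_apply, Matrix.one_apply_ne hab, smul_zero]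
    · rw [Pi.mulSingle_eq_of_ne hi]
      exact (H3 F).one_mem
  · apply Units.ext
    rw [gK_coe, hc]
    have h1 : (fun i => ((Pi.mulSingle i₀ (sc 3 F c) : Fin t → GL (Fin 3) F) i : Matrix (Fin 3) (Fin 3) F)) =
        fun i => (if i = i₀ then (c : F) else 1) • (1 : Fin t → Matrix (Fin 3) (Fin 3) F) i := by
      funext i
      by_cases hi : i = i₀
      · subst hi
        rw [Pi.mulSingle_eq_same, if_pos rfl, sc_coe, Pi.one_apply]
      · rw [Pi.mulSingle_eq_of_ne hi, if_neg hi, one_smul, Units.val_one, Pi.one_apply]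
    rw [h1, K_smul, K_one, Finset.prod_ite_eq' Finset.univ i₀ (fun _ => (c : F)), if_pos (Finset.mem_univ _)]

end Cfsg.Agent.H29.Fm
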