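import Mathlib
import Cfsg.Agent.H29_Sy6
import Cfsg.Agent.H29_Max2
import Cfsg.Agent.H29_Wr4

set_option autoImplicit false

/-! pure tensors and quadratic forms -/

namespace Cfsg.Agent.H29.Fm

open Matrix Module Cfsg.Geo Cfsg.Agent.H29.Clifford Cfsg.Agent.H29.Asc Cfsg.Agent.H29.AscF Cfsg.Agent.H29.Trv
  Cfsg.Agent.H29.AscT
open scoped Kronecker commutatorElement

variable {F : Type*} [Field F] {n k m r w t : ℕ}
variable {f : (Fin n → F) → (Fin n → F) → F}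
variable {G : Subgroup (GL (Fin n) F)}

section ce
variable {κ : Type} [Fintype κ] [DecidableEq κ]

/-- coordinates -/
noncomputable def ce (e : Fin n ≃ κ) (P : GL (Fin n) F) : (κ → F) ≃ₗ[F] (Fin n → F) where
  toFun x := (P : Matrix (Fin n) (Fin n) F) *ᵥ (x ∘ e)
  map_add' x y := by
    rw [← Matrix.mulVec_add]
    rfl
  map_smul' c x := by
    rw [RingHom.id_apply, ← Matrix.mulVec_smul]
    rfl
  invFun v := (((P⁻¹ : GL (Fin n) F) : Matrix (Fin n) (Fin n) F) *ᵥ v) ∘ e.symm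
  left_inv x := by
    show (((P⁻¹ : GL (Fin n) F) : Matrix (Fin n) (Fin n) F) *ᵥ ((P : Matrix (Fin n) (Fin n) F) *ᵥ (x ∘ e))) ∘ e.symm = x
    rw [Matrix.mulVec_mulVec, ← Units.val_mul, inv_mul_cancel, Units.val_one, Matrix.one_mulVec]
    funext i
    simp
  right_inv v := by
    show (P : Matrix (Fin n) (Fin n) F) *ᵥ (((((P⁻¹ : GL (Fin n) F) : Matrix (Fin n) (Fin n) F) *ᵥ v) ∘ e.symm) ∘ e) = v
    have h1 : ((((P⁻¹ : GL (Fin n) F) : Matrix (Fin n) (Fin n) F) *ᵥ v) ∘ e.symm) ∘ e =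
        ((P⁻¹ : GL (Fin n) F) : Matrix (Fin n) (Fin n) F) *ᵥ v := by
      funext i
      simp
    rw [h1, Matrix.mulVec_mulVec, ← Units.val_mul, mul_inv_cancel, Units.val_one, Matrix.one_mulVec]

theorem ce_apply (e : Fin n ≃ κ) (P : GL (Fin n) F) (x : κ → F) :
    ce e P x = (P : Matrix (Fin n) (Fin n) F) *ᵥ (x ∘ e) := rfl

theorem reindex_mulVec (e : Fin n ≃ κ) (M : GL κ F) (x : κ → F) :
    ((glReindex e.symm M : GL (Fin n) F) : Matrix (Fin n) (Fin n) F) *ᵥ (x ∘ e) = ((M : Matrix κ κ F) *ᵥ x) ∘ e := by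
  funext i
  show ∑ j, (M : Matrix κ κ F) (e.symm.symm i) (e.symm.symm j) * x (e j) = ∑ a, (M : Matrix κ κ F) (e i) a * x a
  rw [← Equiv.sum_comp e (fun a => (M : Matrix κ κ F) (e i) a * x a)]
  rfl

theorem ce_conj (e : Fin n ≃ κ) (P : GL (Fin n) F) (M : GL κ F) (x : κ → F) :
    ((P * glReindex e.symm M * P⁻¹ : GL (Fin n) F) : Matrix (Fin n) (Fin n) F) *ᵥ ce e P x =
      ce e P ((M : Matrix κ κ F) *ᵥ x) := by
  rw [ce_apply, ce_apply, Matrix.mulVec_mulVec, ← Units.val_mul, inv_mul_cancel_right, Units.val_mul,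
    ← Matrix.mulVec_mulVec, reindex_mulVec]

theorem span_ce (e : Fin n ≃ κ) (P : GL (Fin n) F) {S : Set (Fin n → F)} (hS : ∀ a, ce e P (Pi.single a 1) ∈ S) :
    Submodule.span F S = ⊤ := by
  rw [eq_top_iff]
  intro v _
  obtain ⟨x, rfl⟩ := (ce e P).surjective v
  have h1 : x = ∑ a, x a • (Pi.single a (1 : F) : κ → F) := by
    funext j
    rw [Finset.sum_apply, Finset.sum_eq_single j]
    · simp
    · intro b _ hb
      simp [Pi.single_eq_of_ne (Ne.symm hb)]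
    · intro h; exact absurd (Finset.mem_univ _) h
  rw [h1, map_sum]
  apply Submodule.sum_mem
  intro a _
  rw [map_smul]
  exact Submodule.smul_mem _ _ (Submodule.subset_span (hS a))

/-- quadratic forms from Gram matrices in characteristic two -/
theorem quad_gram (h : SpF f) (e : Fin n ≃ κ) (P : GL (Fin n) F) {Γ M : Matrix κ κ F}
    (H : ∀ x y : κ → F, f (ce e P x) (ce e P y) = x ⬝ᵥ (Γ *ᵥ y)) (hM : M + Mᵀ = Γ) :
    IsNondegenerateQuadraticForm (fun v => (ce e P).symm v ⬝ᵥ (M *ᵥ (ce e P).symm v)) ∧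
    ∀ u v, QuadraticMap.polar (fun v => (ce e P).symm v ⬝ᵥ (M *ᵥ (ce e P).symm v)) u v = f u v := by
  have hpol : ∀ u v, QuadraticMap.polar (fun v => (ce e P).symm v ⬝ᵥ (M *ᵥ (ce e P).symm v)) u v = f u v := by
    intro u v
    show (ce e P).symm (u + v) ⬝ᵥ (M *ᵥ (ce e P).symm (u + v)) - (ce e P).symm u ⬝ᵥ (M *ᵥ (ce e P).symm u) -
      (ce e P).symm v ⬝ᵥ (M *ᵥ (ce e P).symm v) = f u v
    obtain ⟨x, rfl⟩ := (ce e P).surjective u
    obtain ⟨y, rfl⟩ := (ce e P).surjective v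
    rw [H, ← map_add, LinearEquiv.symm_apply_apply, LinearEquiv.symm_apply_apply, LinearEquiv.symm_apply_apply,
      Matrix.mulVec_add, dotProduct_add, add_dotProduct, add_dotProduct, ← hM, Matrix.add_mulVec, dotProduct_add]
    have h1 : x ⬝ᵥ (Mᵀ *ᵥ y) = y ⬝ᵥ (M *ᵥ x) := by
      rw [Matrix.mulVec_transpose, dotProduct_comm, ← Matrix.dotProduct_mulVec]
    rw [h1]
    ring
  have hpe : QuadraticMap.polar (fun v => (ce e P).symm v ⬝ᵥ (M *ᵥ (ce e P).symm v)) = f := by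
    funext u v
    exact hpol u v
  refine ⟨⟨?_, ?_, ?_⟩, hpol⟩
  · intro c v
    show (ce e P).symm (c • v) ⬝ᵥ (M *ᵥ (ce e P).symm (c • v)) = c ^ 2 * ((ce e P).symm v ⬝ᵥ (M *ᵥ (ce e P).symm v))
    rw [map_smul, Matrix.mulVec_smul, dotProduct_smul, smul_dotProduct, smul_eq_mul, smul_eq_mul]
    ring
  · rw [hpe]; exact h.symp.bilinear
  · rw [hpe]; exact h.sfm.isNondeg

end ce

/-- isometries mapping a spanning set of singular vectors to singular vectors -/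
theorem quad_span {Q : (Fin n → F) → F} (hQ : IsNondegenerateQuadraticForm Q)
    (hpol : ∀ u v, QuadraticMap.polar Q u v = f u v) {S : Set (Fin n → F)} (hS : Submodule.span F S = ⊤)
    (h0 : ∀ s ∈ S, Q s = 0) {g : GL (Fin n) F} (hg : g ∈ isoG f)
    (hgS : ∀ s ∈ S, (g : Matrix (Fin n) (Fin n) F) *ᵥ s ∈ S) : g ∈ quadSimilarityGroup Q := by
  have hp : ∀ u v, Q (u + v) = Q u + Q v + f u v := by
    intro u v
    have := hpol u v
    have h2 : Q (u + v) - Q u - Q v = f u v := this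
    linear_combination h2
  let D : Submodule F (Fin n → F) :=
    { carrier := {v | Q ((g : Matrix (Fin n) (Fin n) F) *ᵥ v) = Q v}
      add_mem' := by
        intro a b ha hb
        show Q ((g : Matrix (Fin n) (Fin n) F) *ᵥ (a + b)) = Q (a + b)
        rw [Matrix.mulVec_add, hp, hp, ha, hb, mem_isoG.1 hg]
      zero_mem' := by
        show Q ((g : Matrix (Fin n) (Fin n) F) *ᵥ 0) = Q 0
        rw [Matrix.mulVec_zero]
      smul_mem' := by
        intro c a ha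
        show Q ((g : Matrix (Fin n) (Fin n) F) *ᵥ (c • a)) = Q (c • a)
        rw [Matrix.mulVec_smul, hQ.smul, hQ.smul, ha] }
  have hD : D = ⊤ := by
    rw [eq_top_iff, ← hS, Submodule.span_le]
    intro s hs
    show Q ((g : Matrix (Fin n) (Fin n) F) *ᵥ s) = Q s
    rw [h0 s hs, h0 _ (hgS s hs)]
  refine ⟨1, fun v => ?_⟩
  rw [Units.val_one, one_mul]
  have : v ∈ D := by rw [hD]; trivial
  exact this

/-! ### pure tensors -/

/-- pure tensors with two factors -/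
def pt (x : Fin w → F) (y : Fin t → F) : Fin w × Fin t → F := fun p => x p.1 * y p.2

theorem kron_pt (a : Matrix (Fin w) (Fin w) F) (b : Matrix (Fin t) (Fin t) F) (x : Fin w → F) (y : Fin t → F) :
    (a ⊗ₖ b) *ᵥ pt x y = pt (a *ᵥ x) (b *ᵥ y) := by
  funext p
  show ∑ q : Fin w × Fin t, (a p.1 q.1 * b p.2 q.2) * (x q.1 * y q.2) =
    (∑ i, a p.1 i * x i) * (∑ j, b p.2 j * y j)
  rw [Finset.sum_mul_sum, Fintype.sum_prod_type]
  apply Finset.sum_congr rfl
  intro i _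
  apply Finset.sum_congr rfl
  intro j _
  ring

theorem dot_pt (x x' : Fin w → F) (y y' : Fin t → F) : pt x y ⬝ᵥ pt x' y' = (x ⬝ᵥ x') * (y ⬝ᵥ y') := by
  show ∑ q : Fin w × Fin t, (x q.1 * y q.2) * (x' q.1 * y' q.2) = (∑ i, x i * x' i) * (∑ j, y j * y' j)
  rw [Finset.sum_mul_sum, Fintype.sum_prod_type]
  apply Finset.sum_congr rfl
  intro i _
  apply Finset.sum_congr rfl
  intro j _
  ring

theorem form_pt (A : Matrix (Fin w) (Fin w) F) (C : Matrix (Fin t) (Fin t) F) (x x' : Fin w → F) (y y' : Fin t → F) :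
    pt x y ⬝ᵥ ((A ⊗ₖ C) *ᵥ pt x' y') = (x ⬝ᵥ (A *ᵥ x')) * (y ⬝ᵥ (C *ᵥ y')) := by
  rw [kron_pt, dot_pt]

theorem single_pt (p : Fin w × Fin t) : (Pi.single p (1 : F) : Fin w × Fin t → F) =
    pt (Pi.single p.1 1) (Pi.single p.2 1) := by
  funext q
  by_cases h : q = p
  · subst h
    simp [pt]
  · rw [Pi.single_eq_of_ne h]
    show 0 = (Pi.single p.1 (1 : F) : Fin w → F) q.1 * (Pi.single p.2 (1 : F) : Fin t → F) q.2
    by_cases h1 : q.1 = p.1
    · have h2 : q.2 ≠ p.2 := fun h2 => h (Prod.ext h1 h2)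
      rw [Pi.single_eq_of_ne h2, mul_zero]
    · rw [Pi.single_eq_of_ne h1, zero_mul]

/-- pure tensors with several factors -/
def pp (x : Fin k → (Fin m → F)) : (Fin k → Fin m) → F := fun z => ∏ i, x i (z i)

theorem dot_pp (x y : Fin k → (Fin m → F)) : pp x ⬝ᵥ pp y = ∏ i, (x i ⬝ᵥ y i) := by
  show ∑ z : Fin k → Fin m, (∏ i, x i (z i)) * (∏ i, y i (z i)) = ∏ i, ∑ a, x i a * y i a
  rw [Finset.prod_univ_sum]
  simp only [← Finset.prod_mul_distrib]
  apply Finset.sum_congr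
  · ext z; simp
  · intro z _; rfl

theorem K_pp (A : Fin k → Matrix (Fin m) (Fin m) F) (x : Fin k → (Fin m → F)) :
    K A *ᵥ pp x = pp (fun i => A i *ᵥ x i) := by
  funext z
  exact dot_pp (fun i => A i (z i)) x

theorem Pm_pp (σ : Equiv.Perm (Fin k)) (x : Fin k → (Fin m → F)) : Pm m F σ *ᵥ pp x = pp (x ∘ σ.symm) := by
  funext z
  show ∑ y, (if y = z ∘ σ then (1 : F) else 0) * pp x y = ∏ i, x (σ.symm i) (z i)
  rw [Finset.sum_eq_single (z ∘ σ)]
  · rw [if_pos rfl, one_mul]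
    show ∏ i, x i (z (σ i)) = _
    rw [← Equiv.prod_comp σ (fun i => x (σ.symm i) (z i))]
    simp
  · intro y _ hy
    rw [if_neg hy, zero_mul]
  · intro h; exact absurd (Finset.mem_univ _) h

theorem form_pp (A : Fin k → Matrix (Fin m) (Fin m) F) (x y : Fin k → (Fin m → F)) :
    pp x ⬝ᵥ (K A *ᵥ pp y) = ∏ i, (x i ⬝ᵥ (A i *ᵥ y i)) := by
  rw [K_pp, dot_pp]

theorem single_pp (z : Fin k → Fin m) : (Pi.single z (1 : F) : (Fin k → Fin m) → F) = pp (fun i => Pi.single (z i) 1) := by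
  funext y
  by_cases h : y = z
  · subst h
    simp [pp]
  · rw [Pi.single_eq_of_ne h]
    symm
    have h1 : ∃ i, y i ≠ z i := by
      by_contra hcon
      push Not at hcon
      exact h (funext hcon)
    obtain ⟨i, hi⟩ := h1
    apply Finset.prod_eq_zero (Finset.mem_univ i)
    show (Pi.single (z i) (1 : F) : Fin m → F) (y i) = 0
    rw [Pi.single_eq_of_ne hi]

/-- the action of the tensor product group -/
theorem tp_act {e : Fin n ≃ Fin w × Fin t} {P g : GL (Fin n) F} (hg : g ∈ tensorProductSubgroup w t e P) :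
    ∃ (a : GL (Fin w) F) (b : GL (Fin t) F), ∀ x, (g : Matrix (Fin n) (Fin n) F) *ᵥ ce e P x =
      ce e P (((a : Matrix (Fin w) (Fin w) F) ⊗ₖ (b : Matrix (Fin t) (Fin t) F)) *ᵥ x) := by
  obtain ⟨_, ⟨M, ⟨a, b, hM⟩, rfl⟩, rfl⟩ := hg
  refine ⟨a, b, fun x => ?_⟩
  rw [← hM]
  exact ce_conj e P M x

/-- the action of the tensor wreath group -/
theorem tw_act {e : Fin n ≃ (Fin k → Fin m)} {P g : GL (Fin n) F} (hg : g ∈ tensorWreathSubgroup m k e P) :
    ∃ (σ : Equiv.Perm (Fin k)) (A : Fin k → GL (Fin m) F), ∀ x, (g : Matrix (Fin n) (Fin n) F) *ᵥ ce e P x =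
      ce e P (Pm m F σ *ᵥ (K (fun i => (A i : Matrix (Fin m) (Fin m) F)) *ᵥ x)) := by
  obtain ⟨_, ⟨M, hM, rfl⟩, rfl⟩ := hg
  obtain ⟨σ, A, rfl⟩ := wreath_normal_form hM
  refine ⟨σ, A, fun x => ?_⟩
  have h1 := ce_conj e P (gP m F σ * gK A) x
  have h2 : ((gP m F σ * gK A : GL (Fin k → Fin m) F) : Matrix (Fin k → Fin m) (Fin k → Fin m) F) *ᵥ x =
      Pm m F σ *ᵥ (K (fun i => (A i : Matrix (Fin m) (Fin m) F)) *ᵥ x) := (Matrix.mulVec_mulVec _ _ _).symm
  rw [h2] at h1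
  exact h1

end Cfsg.Agent.H29.Fm
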