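import Mathlib
import Cfsg.Agent.H29_Sy7

set_option autoImplicit false

/-! tensor decompositions of symplectic forms -/

namespace Cfsg.Agent.H29.Fm

open Matrix Module Cfsg.Geo Cfsg.Agent.H29.Clifford Cfsg.Agent.H29.Asc Cfsg.Agent.H29.AscF Cfsg.Agent.H29.Trv
  Cfsg.Agent.H29.AscT
open scoped Kronecker commutatorElement

variable {F : Type*} [Field F] {n k m r w t : ℕ}
variable {f : (Fin n → F) → (Fin n → F) → F}
variable {G : Subgroup (GL (Fin n) F)}

theorem single_dot {κ : Type} [Fintype κ] [DecidableEq κ] (A : Matrix κ κ F) (i j : κ) :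
    (Pi.single i (1 : F) : κ → F) ⬝ᵥ (A *ᵥ (Pi.single j (1 : F) : κ → F)) = A i j := by
  rw [single_one_dotProduct, Matrix.mulVec_single_one]
  rfl

theorem mat_ext {κ : Type} [Fintype κ] [DecidableEq κ] {A B : Matrix κ κ F}
    (h : ∀ x y, x ⬝ᵥ (A *ᵥ y) = x ⬝ᵥ (B *ᵥ y)) : A = B := by
  ext i j
  rw [← single_dot A, ← single_dot B, h]

/-- splitting alternating matrices in characteristic two -/
theorem alt_split (h2 : (2 : F) = 0) {A : Matrix (Fin w) (Fin w) F} (hsym : Aᵀ = A)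
    (halt : ∀ x, x ⬝ᵥ (A *ᵥ x) = 0) : ∃ U : Matrix (Fin w) (Fin w) F, U + Uᵀ = A := by
  refine ⟨Matrix.of fun i j => if i < j then A i j else 0, ?_⟩
  ext i j
  rw [Matrix.add_apply, Matrix.transpose_apply, Matrix.of_apply, Matrix.of_apply]
  rcases lt_trichotomy i j with h | h | h
  · rw [if_pos h, if_neg (lt_asymm h), add_zero]
  · subst h
    rw [if_neg (lt_irrefl _), add_zero, ← single_dot A, halt]
  · rw [if_neg (lt_asymm h), if_pos h, zero_add]
    conv_rhs => rw [← hsym]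
    rfl

theorem HM.symm_of_two {κ : Type*} (h2 : (2 : F) = 0) {δ : F} (hδ : δ = 1 ∨ δ = -1) {A : Matrix κ κ F}
    (h : HM (RingEquiv.refl F) δ A) : Aᵀ = A := by
  have hδ1 : δ = 1 := by
    rcases hδ with h1 | h1
    · exact h1
    · rw [h1]; linear_combination -h2
  subst hδ1
  ext i j
  rw [Matrix.transpose_apply]
  have := h j i
  rw [one_mul] at this
  exact this

theorem ts_ce {ε δ₁ δ₂ : F} {e : Fin n ≃ Fin w × Fin t} {P : GL (Fin n) F} {A : Matrix (Fin w) (Fin w) F}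
    {C : Matrix (Fin t) (Fin t) F} (h : TS (RingEquiv.refl F) ε f e P A C δ₁ δ₂) (x y : Fin w × Fin t → F) :
    f (ce e P x) (ce e P y) = x ⬝ᵥ ((A ⊗ₖ C) *ᵥ y) := by
  rw [ce_apply, ce_apply, h.form, formOfGram_eq]
  rfl

theorem ne_zero_of_det {κ : Type} [Fintype κ] [DecidableEq κ] [Nonempty κ] {A : Matrix κ κ F} (h : A.det ≠ 0) : A ≠ 0 := by
  rintro rfl
  exact h (Matrix.det_zero)

theorem exists_dot {κ : Type} [Fintype κ] [DecidableEq κ] {A : Matrix κ κ F} (h : A ≠ 0) :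
    ∃ u v, u ⬝ᵥ (A *ᵥ v) ≠ 0 := by
  by_contra hcon
  push Not at hcon
  apply h
  apply mat_ext
  intro x y
  rw [hcon, Matrix.zero_mulVec, dotProduct_zero]

/-- isometries in a tensor product group act by similitudes on the factors -/
theorem ts_simil {e : Fin n ≃ Fin w × Fin t} {P : GL (Fin n) F} {A : Matrix (Fin w) (Fin w) F}
    {C : Matrix (Fin t) (Fin t) F} (hform : ∀ x y, f (ce e P x) (ce e P y) = x ⬝ᵥ ((A ⊗ₖ C) *ᵥ y)) (hA : A ≠ 0)
    (hC : C ≠ 0) {g : GL (Fin n) F} (hg : g ∈ isoG f) {a : GL (Fin w) F} {b : GL (Fin t) F}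
    (hact : ∀ x, (g : Matrix (Fin n) (Fin n) F) *ᵥ ce e P x =
      ce e P (((a : Matrix (Fin w) (Fin w) F) ⊗ₖ (b : Matrix (Fin t) (Fin t) F)) *ᵥ x)) :
    ∃ μ : F, μ ≠ 0 ∧ ∀ y y', ((b : Matrix (Fin t) (Fin t) F) *ᵥ y) ⬝ᵥ (C *ᵥ ((b : Matrix (Fin t) (Fin t) F) *ᵥ y')) =
      μ * (y ⬝ᵥ (C *ᵥ y')) := by
  obtain ⟨u, u', hu⟩ := exists_dot hA
  have hinv : ∀ {s : ℕ} (c : GL (Fin s) F) (z : Fin s → F), (c : Matrix (Fin s) (Fin s) F) *ᵥ
      (((c⁻¹ : GL (Fin s) F) : Matrix (Fin s) (Fin s) F) *ᵥ z) = z := by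
    intro s c z
    rw [Matrix.mulVec_mulVec, ← Units.val_mul, mul_inv_cancel, Units.val_one, Matrix.one_mulVec]
  set x := ((a⁻¹ : GL (Fin w) F) : Matrix (Fin w) (Fin w) F) *ᵥ u with hx
  set x' := ((a⁻¹ : GL (Fin w) F) : Matrix (Fin w) (Fin w) F) *ᵥ u' with hx'
  have key : ∀ y y', (u ⬝ᵥ (A *ᵥ u')) * (((b : Matrix (Fin t) (Fin t) F) *ᵥ y) ⬝ᵥ (C *ᵥ ((b : Matrix (Fin t) (Fin t) F) *ᵥ y'))) =
      (x ⬝ᵥ (A *ᵥ x')) * (y ⬝ᵥ (C *ᵥ y')) := by
    intro y y'
    have h1 := mem_isoG.1 hg (ce e P (pt x y)) (ce e P (pt x' y'))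
    rw [hact, hact, hform, hform, kron_pt, kron_pt, form_pt, form_pt, hx, hx', hinv, hinv] at h1
    exact h1
  refine ⟨(x ⬝ᵥ (A *ᵥ x')) / (u ⬝ᵥ (A *ᵥ u')), ?_, ?_⟩
  · apply div_ne_zero _ hu
    intro h0
    obtain ⟨v, v', hv⟩ := exists_dot hC
    have h1 := key (((b⁻¹ : GL (Fin t) F) : Matrix (Fin t) (Fin t) F) *ᵥ v) (((b⁻¹ : GL (Fin t) F) : Matrix (Fin t) (Fin t) F) *ᵥ v')
    rw [hinv, hinv, h0, zero_mul] at h1
    exact (mul_ne_zero hu hv) h1
  · intro y y'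
    have h1 := key y y'
    field_simp
    linear_combination h1

/-- both factors alternating, characteristic two -/
theorem tens_quad (h : SpF f) (h2 : (2 : F) = 0) (hG : Fx f G) {e : Fin n ≃ Fin w × Fin t} {P : GL (Fin n) F}
    {A : Matrix (Fin w) (Fin w) F}
    {C : Matrix (Fin t) (Fin t) F} (hform : ∀ x y, f (ce e P x) (ce e P y) = x ⬝ᵥ ((A ⊗ₖ C) *ᵥ y))
    (hAs : Aᵀ = A) (hCs : Cᵀ = C) (hA : ∀ x, x ⬝ᵥ (A *ᵥ x) = 0) (hC : ∀ x, x ⬝ᵥ (C *ᵥ x) = 0)
    (hle : G ≤ tensorProductSubgroup w t e P) :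
    ∃ Q : (Fin n → F) → F, IsNondegenerateQuadraticForm Q ∧ (∀ u v, QuadraticMap.polar Q u v = f u v) ∧
      G ≤ quadSimilarityGroup Q := by
  obtain ⟨U, hU⟩ := alt_split h2 hCs hC
  obtain ⟨h3, h4⟩ := quad_gram h e P (M := A ⊗ₖ U) hform (by
    rw [← Matrix.kroneckerMap_transpose, hAs, ← Matrix.kronecker_add, hU])
  refine ⟨_, h3, h4, ?_⟩
  intro g hg
  apply quad_span h3 h4 (S := {v | ∃ x y, v = ce e P (pt x y)}) ?_ ?_ (hG g hg) ?_
  · apply span_ce e P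
    intro a
    exact ⟨_, _, congrArg _ (single_pt a)⟩
  · rintro _ ⟨x, y, rfl⟩
    show (ce e P).symm (ce e P (pt x y)) ⬝ᵥ ((A ⊗ₖ U) *ᵥ (ce e P).symm (ce e P (pt x y))) = 0
    rw [LinearEquiv.symm_apply_apply, form_pt, hA, zero_mul]
  · rintro _ ⟨x, y, rfl⟩
    obtain ⟨a, b, hab⟩ := tp_act (hle hg)
    exact ⟨_, _, by rw [hab, kron_pt]⟩

/-- exactly one factor alternating, characteristic two -/
theorem tens_red [Finite F] (h2 : (2 : F) = 0) (hG : Fx f G) (hw : 0 < w) (ht : 2 ≤ t)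
    {e : Fin n ≃ Fin w × Fin t} {P : GL (Fin n) F} {A : Matrix (Fin w) (Fin w) F}
    {C : Matrix (Fin t) (Fin t) F} (hform : ∀ x y, f (ce e P x) (ce e P y) = x ⬝ᵥ ((A ⊗ₖ C) *ᵥ y))
    (hA : A ≠ 0) (hCs : Cᵀ = C) {y₀ : Fin t → F} (hC : y₀ ⬝ᵥ (C *ᵥ y₀) ≠ 0)
    (hle : G ≤ tensorProductSubgroup w t e P) : ¬ ActsIrreducibly (matrixSet G) := by
  classical
  intro hirr
  have hC0 : C ≠ 0 := by
    rintro rfl
    exact hC (by rw [Matrix.zero_mulVec, dotProduct_zero])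
  have hcomm : ∀ x y, x ⬝ᵥ (C *ᵥ y) = y ⬝ᵥ (C *ᵥ x) := by
    intro x y
    conv_lhs => rw [← hCs, Matrix.mulVec_transpose, dotProduct_comm, ← Matrix.dotProduct_mulVec]
  have hqadd : ∀ x y, (x + y) ⬝ᵥ (C *ᵥ (x + y)) = x ⬝ᵥ (C *ᵥ x) + y ⬝ᵥ (C *ᵥ y) := by
    intro x y
    rw [Matrix.mulVec_add, dotProduct_add, add_dotProduct, add_dotProduct, hcomm y x]
    linear_combination (x ⬝ᵥ (C *ᵥ y)) * h2
  have hqsmul : ∀ (c : F) x, (c • x) ⬝ᵥ (C *ᵥ (c • x)) = c ^ 2 * (x ⬝ᵥ (C *ᵥ x)) := by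
    intro c x
    rw [Matrix.mulVec_smul, dotProduct_smul, smul_dotProduct, smul_eq_mul, smul_eq_mul]
    ring
  let L : Submodule F (Fin t → F) :=
    { carrier := {y | y ⬝ᵥ (C *ᵥ y) = 0}
      add_mem' := by
        intro a b ha hb
        show (a + b) ⬝ᵥ (C *ᵥ (a + b)) = 0
        rw [hqadd, ha, hb, add_zero]
      zero_mem' := zero_dotProduct _
      smul_mem' := by
        intro c a ha
        show (c • a) ⬝ᵥ (C *ᵥ (c • a)) = 0
        rw [hqsmul, ha, mul_zero] }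
  have hLm : ∀ y, y ∈ L ↔ y ⬝ᵥ (C *ᵥ y) = 0 := fun y => Iff.rfl
  obtain ⟨z, hz, hz0⟩ : ∃ z ∈ L, z ≠ 0 := by
    let i₀ : Fin t := ⟨0, by omega⟩
    let i₁ : Fin t := ⟨1, by omega⟩
    have h01 : i₀ ≠ i₁ := by intro h; exact absurd (congrArg Fin.val h) (by norm_num)
    by_cases ha : C i₀ i₀ = 0
    · refine ⟨Pi.single i₀ 1, ?_, ?_⟩
      · rw [hLm, single_dot]; exact ha
      · intro h0
        have := congrFun h0 i₀
        rw [Pi.single_eq_same] at this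
        exact one_ne_zero this
    · haveI : CharP F 2 := CharTwo.of_one_ne_zero_of_two_eq_zero one_ne_zero h2
      obtain ⟨s, hs⟩ := FiniteField.isSquare_of_char_two (ringChar.eq_iff.2 ‹_›) (C i₁ i₁ / C i₀ i₀)
      refine ⟨s • Pi.single i₀ 1 + Pi.single i₁ 1, ?_, ?_⟩
      · rw [hLm, hqadd, hqsmul, single_dot, single_dot, pow_two, ← hs]
        field_simp
        linear_combination (C i₁ i₁) * h2
      · intro h0
        have := congrFun h0 i₁
        rw [Pi.add_apply, Pi.smul_apply, Pi.single_eq_of_ne (Ne.symm h01), Pi.single_eq_same, smul_zero, zero_add] at this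
        exact one_ne_zero this
  let i₀ : Fin w := ⟨0, hw⟩
  let W : Submodule F (Fin n → F) :=
    { carrier := {v | ∀ i, (fun l => (ce e P).symm v (i, l)) ∈ L}
      add_mem' := by
        intro a b ha hb i
        have := L.add_mem (ha i) (hb i)
        rw [map_add]
        exact this
      zero_mem' := by
        intro i
        rw [map_zero]
        exact L.zero_mem
      smul_mem' := by
        intro c a ha i
        have := L.smul_mem c (ha i)
        rw [map_smul]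
        exact this }
  have hWm : ∀ x, ce e P x ∈ W ↔ ∀ i, (fun l => x (i, l)) ∈ L := by
    intro x
    show (∀ i, (fun l => (ce e P).symm (ce e P x) (i, l)) ∈ L) ↔ _
    rw [LinearEquiv.symm_apply_apply]
  rcases hirr W (by
    rintro _ ⟨g, hg, rfl⟩ _ ⟨v, hv, rfl⟩
    obtain ⟨x, rfl⟩ := (ce e P).surjective v
    obtain ⟨a, b, hab⟩ := tp_act (hle hg)
    obtain ⟨μ, hμ, hsim⟩ := ts_simil hform hA hC0 (hG g hg) hab
    rw [Matrix.toLin'_apply, hab]
    rw [SetLike.mem_coe, hWm] at hv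
    rw [hWm]
    intro i
    have h3 : (fun l => (((a : Matrix (Fin w) (Fin w) F) ⊗ₖ (b : Matrix (Fin t) (Fin t) F)) *ᵥ x) (i, l)) =
        ∑ j, (a : Matrix (Fin w) (Fin w) F) i j • ((b : Matrix (Fin t) (Fin t) F) *ᵥ (fun l => x (j, l))) := by
      funext l
      rw [Finset.sum_apply]
      show ∑ q : Fin w × Fin t, ((a : Matrix (Fin w) (Fin w) F) i q.1 * (b : Matrix (Fin t) (Fin t) F) l q.2) * x q =
        ∑ j, (a : Matrix (Fin w) (Fin w) F) i j * ∑ m, (b : Matrix (Fin t) (Fin t) F) l m * x (j, m)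
      rw [Fintype.sum_prod_type]
      apply Finset.sum_congr rfl
      intro j _
      rw [Finset.mul_sum]
      apply Finset.sum_congr rfl
      intro m _
      ring
    rw [h3]
    apply Submodule.sum_mem
    intro j _
    apply Submodule.smul_mem
    rw [hLm, hsim, (hLm _).1 (hv j), mul_zero]) with h1 | h1
  · have h3 : ce e P (pt (Pi.single i₀ 1) z) ∈ W := by
      rw [hWm]
      intro i
      have : (fun l => (pt (Pi.single i₀ (1 : F)) z : Fin w × Fin t → F) (i, l)) =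
          ((Pi.single i₀ (1 : F) : Fin w → F) i) • z := by
        funext l; rfl
      rw [this]
      exact L.smul_mem _ hz
    rw [h1, Submodule.mem_bot] at h3
    have h4 : pt (Pi.single i₀ (1 : F)) z = 0 := (ce e P).injective (by rw [h3, map_zero])
    apply hz0
    funext l
    have h5 := congrFun h4 (i₀, l)
    have h6 : (Pi.single i₀ (1 : F) : Fin w → F) i₀ * z l = 0 := h5
    rw [Pi.single_eq_same, one_mul] at h6
    exact h6
  · have h3 : ce e P (pt (Pi.single i₀ 1) y₀) ∈ W := by rw [h1]; trivial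
    rw [hWm] at h3
    have h4 := h3 i₀
    have : (fun l => (pt (Pi.single i₀ (1 : F)) y₀ : Fin w × Fin t → F) (i₀, l)) = y₀ := by
      funext l
      show (Pi.single i₀ (1 : F) : Fin w → F) i₀ * y₀ l = y₀ l
      rw [Pi.single_eq_same, one_mul]
    rw [this] at h4
    exact hC h4

theorem symp_of_HM (h2 : (2 : F) ≠ 0) {A : Matrix (Fin w) (Fin w) F} (hA : HM (RingEquiv.refl F) (-1) A)
    (hdet : A.det ≠ 0) : IsSymplecticForm (formOfGram (RingEquiv.refl F) A) := by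
  have h := SFm_gram (Or.inr rfl) (fun _ => rfl) hA hdet
  refine (⟨h, ?_⟩ : SpF _).symp
  intro v
  have h1 := h.herm v v
  rw [RingEquiv.refl_apply] at h1
  have h3 : (2 : F) * formOfGram (RingEquiv.refl F) A v v = 0 := by linear_combination h1
  exact (mul_eq_zero.1 h3).resolve_left h2

theorem symm_of_HM {A : Matrix (Fin w) (Fin w) F} (hA : HM (RingEquiv.refl F) 1 A)
    (hdet : A.det ≠ 0) : IsSymmetricForm (formOfGram (RingEquiv.refl F) A) := by
  have h := SFm_gram (Or.inl rfl) (fun _ => rfl) hA hdet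
  refine ⟨⟨h.add_left, h.smul_left, h.add_right, fun c v x => h.smul_right c v x⟩, ?_, h.isNondeg⟩
  intro u v
  have := h.herm u v
  rwa [one_mul, RingEquiv.refl_apply] at this

end Cfsg.Agent.H29.Fm
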