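import Mathlib
import Cfsg.Agent.H29_Sy8

set_option autoImplicit false

/-! tensor decompositions of symplectic forms, II -/

namespace Cfsg.Agent.H29.Fm

open Matrix Module Cfsg.Geo Cfsg.Agent.H29.Clifford Cfsg.Agent.H29.Asc Cfsg.Agent.H29.AscF Cfsg.Agent.H29.Trv
  Cfsg.Agent.H29.AscT
open scoped Kronecker commutatorElement

variable {F : Type*} [Field F] {n k m r w t : ℕ}
variable {f : (Fin n → F) → (Fin n → F) → F}
variable {G : Subgroup (GL (Fin n) F)}

/-- the standard skew matrix -/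
def J22 (F : Type*) [Field F] : Matrix (Fin 2) (Fin 2) F := !![0, 1; -1, 0]

/-- the torus element of a symmetric form in dimension two -/
def Th2 (C : Matrix (Fin 2) (Fin 2) F) : Matrix (Fin 2) (Fin 2) F := !![C 0 1, C 1 1; -C 0 0, -C 0 1]

theorem C_Th2 {C : Matrix (Fin 2) (Fin 2) F} (hC : Cᵀ = C) : C * Th2 C = C.det • J22 F := by
  have h1 : C 1 0 = C 0 1 := congrFun (congrFun hC 0) 1
  rw [Matrix.det_fin_two]
  ext i j
  fin_cases i <;> fin_cases j <;>
    simp [Th2, J22, Matrix.mul_apply, Fin.sum_univ_two, h1] <;> ring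

theorem Th2_sq (C : Matrix (Fin 2) (Fin 2) F) : Th2 C * Th2 C = (C 0 1 * C 0 1 - C 0 0 * C 1 1) • 1 := by
  ext i j
  fin_cases i <;> fin_cases j <;>
    simp [Th2, Matrix.mul_apply, Fin.sum_univ_two] <;> ring

theorem Th2_T {C : Matrix (Fin 2) (Fin 2) F} (hC : Cᵀ = C) : (Th2 C)ᵀ * C = -(C * Th2 C) := by
  have h1 : C 1 0 = C 0 1 := congrFun (congrFun hC 0) 1
  ext i j
  fin_cases i <;> fin_cases j <;>
    simp [Th2, Matrix.mul_apply, Fin.sum_univ_two, Matrix.vecHead, Matrix.vecTail, h1] <;> ring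

theorem J22_conj (b : Matrix (Fin 2) (Fin 2) F) : bᵀ * J22 F * b = b.det • J22 F := by
  rw [Matrix.det_fin_two]
  ext i j
  fin_cases i <;> fin_cases j <;>
    simp [J22, Matrix.mul_apply, Fin.sum_univ_two, Matrix.vecHead, Matrix.vecTail] <;> ring

/-- similitudes normalise the torus -/
theorem Th2_conj {C : Matrix (Fin 2) (Fin 2) F} (hC : Cᵀ = C) (hdet : C.det ≠ 0) {b : GL (Fin 2) F} {μ : F} (hμ : μ ≠ 0)
    (hb : (b : Matrix (Fin 2) (Fin 2) F)ᵀ * C * b = μ • C) :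
    Th2 C * (b : Matrix (Fin 2) (Fin 2) F) = (b : Matrix (Fin 2) (Fin 2) F) * Th2 C ∨
    Th2 C * (b : Matrix (Fin 2) (Fin 2) F) = -((b : Matrix (Fin 2) (Fin 2) F) * Th2 C) := by
  set B := (b : Matrix (Fin 2) (Fin 2) F) with hB
  have hBdet : B.det ≠ 0 := by
    have := (b.isUnit).map Matrix.detMonoidHom
    exact this.ne_zero
  have h1 : Bᵀ * C * (Th2 C * B) = (C.det * B.det) • J22 F := by
    calc Bᵀ * C * (Th2 C * B) = Bᵀ * (C * Th2 C) * B := by simp only [mul_assoc]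
      _ = C.det • (Bᵀ * J22 F * B) := by rw [C_Th2 hC, Matrix.mul_smul, Matrix.smul_mul]
      _ = _ := by rw [J22_conj, smul_smul]
  have h2 : Bᵀ * C * (B * Th2 C) = (μ * C.det) • J22 F := by
    calc Bᵀ * C * (B * Th2 C) = Bᵀ * C * B * Th2 C := by simp only [mul_assoc]
      _ = _ := by rw [hb, Matrix.smul_mul, C_Th2 hC, smul_smul]
  have hdd : (Bᵀ * C).det ≠ 0 := by
    rw [Matrix.det_mul, Matrix.det_transpose]
    exact mul_ne_zero hBdet hdet
  have hdet2 : B.det * B.det = μ * μ := by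
    have h3 := congrArg Matrix.det hb
    rw [Matrix.det_mul, Matrix.det_mul, Matrix.det_transpose, Matrix.det_smul, Fintype.card_fin] at h3
    have h4 : C.det * (B.det * B.det - μ * μ) = 0 := by linear_combination h3
    exact sub_eq_zero.1 ((mul_eq_zero.1 h4).resolve_left hdet)
  have hcan : ∀ X Y : Matrix (Fin 2) (Fin 2) F, Bᵀ * C * X = Bᵀ * C * Y → X = Y := by
    intro X Y h3
    have h5 : (Bᵀ * C)⁻¹ * (Bᵀ * C) = 1 := Matrix.nonsing_inv_mul _ (isUnit_iff_ne_zero.2 hdd)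
    have h6 : (Bᵀ * C)⁻¹ * (Bᵀ * C * X) = (Bᵀ * C)⁻¹ * (Bᵀ * C * Y) := by rw [h3]
    rw [← mul_assoc (Bᵀ * C)⁻¹ (Bᵀ * C) X, ← mul_assoc (Bᵀ * C)⁻¹ (Bᵀ * C) Y, h5, one_mul, one_mul] at h6
    exact h6
  rcases mul_self_eq_mul_self_iff.1 hdet2 with h3 | h3
  · left
    apply hcan
    rw [h1, h2, h3, mul_comm]
  · right
    apply hcan
    rw [h1, mul_neg, h2, h3, mul_neg, neg_smul, mul_comm]

theorem kron_neg (A : Matrix (Fin w) (Fin w) F) (B : Matrix (Fin t) (Fin t) F) : A ⊗ₖ (-B) = -(A ⊗ₖ B) := by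
  ext i j
  rw [Matrix.neg_apply, Matrix.kroneckerMap_apply, Matrix.kroneckerMap_apply, Matrix.neg_apply, mul_neg]

theorem NS.no_tensor_odd [Fintype F] (hn : 0 < n) (hG : NS f G) (hw : 2 ≤ w) (ht : 2 ≤ t) (h2 : (2 : F) ≠ 0)
    {e : Fin n ≃ Fin w × Fin t} {P : GL (Fin n) F} {A : Matrix (Fin w) (Fin w) F} {C : Matrix (Fin t) (Fin t) F}
    (h : TS (RingEquiv.refl F) (-1) f e P A C (-1) 1) (hle : G ≤ tensorProductSubgroup w t e P) : False := by
  classical
  rcases Nat.eq_or_lt_of_le ht with ht2 | ht3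
  swap
  · exact hG.ten w t e P _ _ (odd_card_of_two_ne h2) ht3 (symp_of_HM h2 h.hA h.detA) (symm_of_HM h.hC h.detC)
      (tensor_struct h) hle
  subst ht2
  haveI : Nonempty (Fin w) := ⟨⟨0, by omega⟩⟩
  have hform := ts_ce h
  have hA0 := ne_zero_of_det h.detA
  have hC0 := ne_zero_of_det h.detC
  have hCs : Cᵀ = C := by
    ext i j
    rw [Matrix.transpose_apply]
    have := h.hC j i
    rw [one_mul] at this
    exact this
  let θ : Module.End F (Fin n → F) := (ce e P).toLinearMap ∘ₗ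
    Matrix.toLin' ((1 : Matrix (Fin w) (Fin w) F) ⊗ₖ Th2 C) ∘ₗ (ce e P).symm.toLinearMap
  have hθ : ∀ x, θ (ce e P x) = ce e P (((1 : Matrix (Fin w) (Fin w) F) ⊗ₖ Th2 C) *ᵥ x) := by
    intro x
    show ce e P (((1 : Matrix (Fin w) (Fin w) F) ⊗ₖ Th2 C) *ᵥ (ce e P).symm (ce e P x)) = _
    rw [LinearEquiv.symm_apply_apply]
  set d : F := C 0 1 * C 0 1 - C 0 0 * C 1 1 with hd
  have hθθ : θ * θ = d • 1 := by
    apply LinearMap.ext
    intro v
    obtain ⟨x, rfl⟩ := (ce e P).surjective v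
    show θ (θ (ce e P x)) = d • ce e P x
    rw [hθ, hθ, Matrix.mulVec_mulVec, ← Matrix.mul_kronecker_mul, Th2_sq, mul_one, Matrix.kronecker_smul,
      Matrix.one_kronecker_one, Matrix.smul_mulVec, Matrix.one_mulVec, map_smul]
  have hadj : Adj f θ (-θ) := by
    intro u v
    obtain ⟨x, rfl⟩ := (ce e P).surjective u
    obtain ⟨y, rfl⟩ := (ce e P).surjective v
    rw [LinearMap.neg_apply, hθ, hθ, hG.sp.sfm.neg_right, hform, hform, Matrix.mulVec_mulVec,
      ← Matrix.mul_kronecker_mul, mul_one]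
    have e1 : (((1 : Matrix (Fin w) (Fin w) F) ⊗ₖ Th2 C) *ᵥ x) ⬝ᵥ ((A ⊗ₖ C) *ᵥ y) =
        x ⬝ᵥ ((((1 : Matrix (Fin w) (Fin w) F) ⊗ₖ Th2 C)ᵀ * (A ⊗ₖ C)) *ᵥ y) := by
      rw [← Matrix.mulVec_mulVec, Matrix.dotProduct_mulVec x, Matrix.vecMul_transpose]
    rw [e1, ← Matrix.kroneckerMap_transpose, Matrix.transpose_one, ← Matrix.mul_kronecker_mul, one_mul, Th2_T hCs,
      kron_neg, Matrix.neg_mulVec, dotProduct_neg]
  have hconj : ∀ g ∈ G, cjA g θ = θ ∨ cjA g θ = -θ := by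
    intro g hg
    obtain ⟨a, b, hab⟩ := tp_act (hle hg)
    obtain ⟨μ, hμ, hsim⟩ := ts_simil hform hA0 hC0 (hG.fix g hg) hab
    have hb : (b : Matrix (Fin 2) (Fin 2) F)ᵀ * C * b = μ • C := by
      apply mat_ext
      intro x y
      rw [Matrix.smul_mulVec, dotProduct_smul, smul_eq_mul, ← hsim, ← Matrix.mulVec_mulVec, ← Matrix.mulVec_mulVec,
        Matrix.dotProduct_mulVec x, Matrix.vecMul_transpose]
    have hcj : ∀ v, cjA g θ ((g : Matrix (Fin n) (Fin n) F) *ᵥ v) = (g : Matrix (Fin n) (Fin n) F) *ᵥ θ v := by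
      intro v
      show (g : Matrix (Fin n) (Fin n) F) *ᵥ (θ (((g⁻¹ : GL (Fin n) F) : Matrix (Fin n) (Fin n) F) *ᵥ
        ((g : Matrix (Fin n) (Fin n) F) *ᵥ v))) = _
      rw [Matrix.mulVec_mulVec, ← Units.val_mul, inv_mul_cancel, Units.val_one, Matrix.one_mulVec]
    have hsurj : ∀ v, ∃ x, v = (g : Matrix (Fin n) (Fin n) F) *ᵥ ce e P x := by
      intro v
      obtain ⟨x, hx⟩ := (ce e P).surjective (((g⁻¹ : GL (Fin n) F) : Matrix (Fin n) (Fin n) F) *ᵥ v)
      refine ⟨x, ?_⟩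
      rw [hx, Matrix.mulVec_mulVec, ← Units.val_mul, mul_inv_cancel, Units.val_one, Matrix.one_mulVec]
    rcases Th2_conj hCs h.detC hμ hb with h3 | h3
    · left
      apply LinearMap.ext
      intro v
      obtain ⟨x, rfl⟩ := hsurj v
      rw [hcj, hθ, hab, hab, hθ, Matrix.mulVec_mulVec, Matrix.mulVec_mulVec, ← Matrix.mul_kronecker_mul,
        ← Matrix.mul_kronecker_mul, h3, mul_one, one_mul]
    · right
      apply LinearMap.ext
      intro v
      obtain ⟨x, rfl⟩ := hsurj v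
      rw [LinearMap.neg_apply, hcj, hθ, hab, hab, hθ, Matrix.mulVec_mulVec, Matrix.mulVec_mulVec,
        ← Matrix.mul_kronecker_mul, ← Matrix.mul_kronecker_mul, h3, mul_one, one_mul, kron_neg,
        Matrix.neg_mulVec, map_neg, neg_neg]
  let S : Subalgebra F (Module.End F (Fin n → F)) :=
    { carrier := {z | ∃ a b : F, z = a • 1 + b • θ}
      mul_mem' := by
        rintro _ _ ⟨a, b, rfl⟩ ⟨a', b', rfl⟩
        refine ⟨a * a' + b * b' * d, a * b' + b * a', ?_⟩
        have e1 : (b • θ) * (b' • θ) = (b * b' * d) • (1 : Module.End F (Fin n → F)) := by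
          rw [smul_mul_smul_comm, hθθ, smul_smul]
        calc (a • (1 : Module.End F (Fin n → F)) + b • θ) * (a' • 1 + b' • θ) =
            (a * a') • (1 : Module.End F (Fin n → F)) + (a * b') • θ + ((b * a') • θ + (b • θ) * (b' • θ)) := by
              rw [add_mul, mul_add, mul_add, smul_mul_smul_comm, smul_mul_smul_comm, smul_mul_smul_comm b θ a' 1,
                one_mul, one_mul, mul_one]
          _ = _ := by
              rw [e1, add_smul, add_smul]
              abel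
      add_mem' := by
        rintro _ _ ⟨a, b, rfl⟩ ⟨a', b', rfl⟩
        refine ⟨a + a', b + b', ?_⟩
        rw [add_smul, add_smul]
        abel
      algebraMap_mem' := by
        intro c
        refine ⟨c, 0, ?_⟩
        rw [Algebra.algebraMap_eq_smul_one, zero_smul, add_zero] }
  have hcl : AClosed f S := by
    rintro _ ⟨a, b, rfl⟩
    refine ⟨a • 1 + b • (-θ), ⟨a, -b, by rw [smul_neg]; exact congrArg _ (neg_smul b θ).symm⟩, ?_⟩
    have h3 := Adj.smul hG.sp.sfm a (Adj.one (f := f))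
    have h4 := Adj.smul hG.sp.sfm b hadj
    exact Adj.add hG.sp.sfm h3 h4
  have hcomm : ∀ x ∈ S, ∀ y ∈ S, x * y = y * x := by
    rintro _ ⟨a, b, rfl⟩ _ ⟨a', b', rfl⟩
    rw [add_mul, mul_add, mul_add, add_mul, mul_add, mul_add, smul_mul_smul_comm, smul_mul_smul_comm,
      smul_mul_smul_comm, smul_mul_smul_comm, smul_mul_smul_comm, smul_mul_smul_comm, smul_mul_smul_comm,
      smul_mul_smul_comm, one_mul, one_mul, mul_one, mul_comm a a', mul_comm a b', mul_comm b a', mul_comm b b']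
    abel
  have hn' := (hG.ng hn).comm_scalar hn hcomm hcl (by
    rintro g hg _ ⟨a, b, rfl⟩
    rw [map_add, map_smul, map_smul, map_one]
    rcases hconj g hg with h3 | h3
    · rw [h3]; exact ⟨a, b, rfl⟩
    · rw [h3]; exact ⟨a, -b, by rw [smul_neg]; exact congrArg _ (neg_smul b θ).symm⟩)
  obtain ⟨c, hc⟩ := hn' θ ⟨0, 1, by rw [zero_smul, one_smul, zero_add]⟩
  have h3 : Adj f θ θ := by
    rw [hc]
    exact Adj.smul hG.sp.sfm c Adj.one
  have h4 := Adj.unique hG.sp.sfm h3 hadj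
  have h5 : (2 : F) • θ = 0 := by
    rw [two_smul]
    nth_rewrite 1 [h4]
    exact neg_add_cancel θ
  have h6 := (smul_eq_zero.1 h5).resolve_left h2
  rw [h6, zero_mul] at hθθ
  haveI : Nonempty (Fin n) := ⟨⟨0, hn⟩⟩
  haveI : Nontrivial (Fin n → F) := inferInstance
  haveI : Nontrivial (Module.End F (Fin n → F)) := inferInstance
  have h7 := (smul_eq_zero.1 hθθ.symm).resolve_right one_ne_zero
  apply h.detC
  rw [Matrix.det_fin_two]
  have h8 : C 1 0 = C 0 1 := congrFun (congrFun hCs 0) 1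
  rw [h8]
  linear_combination -h7

theorem NS.no_tensor [Fintype F] (hn : 0 < n) (hG : NS f G) (hw : 2 ≤ w) (ht : 2 ≤ t)
    {e : Fin n ≃ Fin w × Fin t} {P : GL (Fin n) F} {A : Matrix (Fin w) (Fin w) F} {C : Matrix (Fin t) (Fin t) F}
    {δ₁ δ₂ : F} (h : TS (RingEquiv.refl F) (-1) f e P A C δ₁ δ₂) (hle : G ≤ tensorProductSubgroup w t e P) : False := by
  classical
  haveI : Nonempty (Fin w) := ⟨⟨0, by omega⟩⟩
  haveI : Nonempty (Fin t) := ⟨⟨0, by omega⟩⟩
  by_cases h2 : (2 : F) = 0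
  · have hA0 := ne_zero_of_det h.detA
    have hC0 := ne_zero_of_det h.detC
    have hAs := h.hA.symm_of_two h2 h.d1
    have hCs := h.hC.symm_of_two h2 h.d2
    have hform := ts_ce h
    have hprod : ∀ x y, (x ⬝ᵥ (A *ᵥ x)) * (y ⬝ᵥ (C *ᵥ y)) = 0 := by
      intro x y
      rw [← form_pt, ← hform, hG.sp.alt]
    by_cases hA : ∀ x, x ⬝ᵥ (A *ᵥ x) = 0
    · by_cases hC : ∀ x, x ⬝ᵥ (C *ᵥ x) = 0
      · obtain ⟨Q, h3, h4, h5⟩ := tens_quad hG.sp h2 hG.fix hform hAs hCs hA hC hle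
        exact hG.quad Q (not_odd_of_two h2) h3 h4 h5
      · push Not at hC
        obtain ⟨y₀, hy₀⟩ := hC
        exact tens_red h2 hG.fix (by omega) ht hform hA0 hCs hy₀ hle hG.irr
    · push Not at hA
      obtain ⟨x₀, hx₀⟩ := hA
      have hform' := ts_ce h.swap
      exact tens_red h2 hG.fix (by omega) hw hform' hC0 hAs hx₀ (hle.trans (tensor_swap e P)) hG.irr
  · rcases h.d1 with h1 | h1
    · subst h1
      have h3 : δ₂ = -1 := by
        have := h.mul
        rwa [one_mul] at this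
      subst h3
      exact hG.no_tensor_odd hn ht hw h2 h.swap (hle.trans (tensor_swap e P))
    · subst h1
      have h3 : δ₂ = 1 := by
        have := h.mul
        rw [neg_one_mul] at this
        exact neg_injective this
      subst h3
      exact hG.no_tensor_odd hn hw ht h2 h hle

theorem NS.dichotomy [Fintype F] (hn : 0 < n) (hG : NS f G)
    {N : Subgroup (GL (Fin n) F)} (hNG : N ≤ G) (hN : ∀ g ∈ G, ∀ x ∈ N, g * x * g⁻¹ ∈ N) :
    N ≤ scalars (Fin n) F ∨ env N = ⊤ := by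
  rcases (hG.ng hn).dichotomy hn hNG hN with h | h | ⟨w, t, e, P, A, C, δ₁, δ₂, hw, ht, hts, hδ, hle⟩
  · exact Or.inl h
  · exact Or.inr h
  · exact (hG.no_tensor hn hw ht hts hle).elim

end Cfsg.Agent.H29.Fm
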