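import Mathlib
import Cfsg.Agent.H29_Sy9
import Cfsg.Agent.H3_Burnside

set_option autoImplicit false

/-! Aschbacher's theorem for symplectic groups -/

namespace Cfsg.Agent.H29.Fm

open Matrix Module Cfsg.Geo Cfsg.Agent.H29.Clifford Cfsg.Agent.H29.Asc Cfsg.Agent.H29.AscF Cfsg.Agent.H29.Trv
  Cfsg.Agent.H29.AscT
open scoped Kronecker commutatorElement

variable {F : Type*} [Field F] {n k m r w t : ℕ}
variable {f : (Fin n → F) → (Fin n → F) → F}
variable {G : Subgroup (GL (Fin n) F)}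

/-- dimension of the factors of a central product -/
theorem factor_dim [Fintype F] (hn : 0 < n) (hk : 0 < k)
    (P : Fin k → Subgroup (GL (Fin n) F))
    (hcomm : ∀ i j, i ≠ j → ∀ x ∈ P i, ∀ y ∈ P j, x * y = y * x)
    (henv : env (⨆ i, P i) = ⊤)
    (G : Subgroup (GL (Fin n) F))
    (htr : ∀ i j, ∃ g ∈ G, ∀ x ∈ P i, g * x * g⁻¹ ∈ P j) :
    ∃ m : ℕ, n = m ^ k ∧ ∀ i, Nonempty (env (P i) ≃ₐ[F] Matrix (Fin m) (Fin m) F) := by
  classical
  haveI : Nonempty (Fin n) := ⟨⟨0, hn⟩⟩
  haveI : Nontrivial (Fin n → F) := inferInstance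
  choose w hw0 hw using factor_matrix hn P hcomm henv
  have hww : ∀ i j, w i * w i ≤ w j * w j := by
    intro i j
    obtain ⟨g, -, hg⟩ := htr i j
    have := finrank_env_le hg
    rwa [finrank_of_equiv _ (hw i).some, finrank_of_equiv _ (hw j).some] at this
  have hweq : ∀ i j, w i = w j := fun i j => Nat.mul_self_inj.1 (le_antisymm (hww i j) (hww j i))
  obtain ⟨m, hm⟩ : ∃ m, ∀ i, w i = m := ⟨w ⟨0, hk⟩, fun i => hweq _ _⟩
  have hm0 : 0 < m := by rw [← hm ⟨0, hk⟩]; exact hw0 _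
  have he : ∀ i, Nonempty (env (P i) ≃ₐ[F] Matrix (Fin m) (Fin m) F) := by
    intro i; rw [← hm i]; exact hw i
  let e := fun i => (he i).some
  let φ : Fin k → (Matrix (Fin m) (Fin m) F →ₐ[F] Module.End F (Fin n → F)) :=
    fun i => (env (P i)).val.comp (e i).symm.toAlgHom
  have hφmem : ∀ i z, φ i z ∈ env (P i) := fun i z => ((e i).symm z).2
  have hφsurj : ∀ i, ∀ r ∈ env (P i), ∃ z, φ i z = r := by
    intro i r hr
    refine ⟨e i ⟨r, hr⟩, ?_⟩
    show ((e i).symm (e i ⟨r, hr⟩) : Module.End F (Fin n → F)) = r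
    rw [AlgEquiv.symm_apply_apply]
  have hc : ∀ i j, i ≠ j → ∀ x y v, φ i x (φ j y v) = φ j y (φ i x v) := by
    intro i j hij x y v
    exact LinearMap.congr_fun (env_commute (fun x hx y hy => hcomm i j hij x hx y hy) (hφmem i x) (hφmem j y)) v
  obtain ⟨b, hb⟩ := exists_tensor_basis φ hm0 hc (by
    intro W hW
    apply (absIrr_of_env_top henv).1
    rintro _ ⟨g, hg, rfl⟩ _ ⟨w, hw, rfl⟩
    have hst : ∀ w ∈ W, (g : Matrix (Fin n) (Fin n) F) *ᵥ w ∈ W := by
      refine Subgroup.iSup_induction P (C := fun g => ∀ w ∈ W, (g : Matrix (Fin n) (Fin n) F) *ᵥ w ∈ W) hg ?_ ?_ ?_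
      · intro j g hg w hw
        obtain ⟨z, hz⟩ := hφsurj j _ (mem_env hg)
        have := hW j z w hw
        rw [hz] at this
        exact this
      · intro w hw; rw [Units.val_one, Matrix.one_mulVec]; exact hw
      · intro a b ha hb w hw
        rw [Units.val_mul, ← Matrix.mulVec_mulVec]
        exact ha _ (hb w hw)
    exact hst w hw)
  have hcard : Fintype.card (Fin n) = Fintype.card (Fin k → Fin m) := by
    rw [card_eq_of_basis b, Fintype.card_fin]
  refine ⟨m, ?_, he⟩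
  rw [Fintype.card_fin] at hcard
  rw [hcard, Fintype.card_fun, Fintype.card_fin, Fintype.card_fin]

/-- perfect groups with enveloping algebra `M₂(3)` are trivial -/
theorem no_perfect_two_three [Fintype F] (hF : Fintype.card F = 3) {P : Subgroup (GL (Fin n) F)}
    (hperf : ⁅P, P⁆ = P) (e : env P ≃ₐ[F] Matrix (Fin 2) (Fin 2) F) : P = ⊥ := by
  classical
  let ψ : P →* GL (Fin 2) F :=
    { toFun := fun x =>
        { val := e ⟨tl n F ((x : GL (Fin n) F) : Matrix (Fin n) (Fin n) F), mem_env x.2⟩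
          inv := e ⟨tl n F (((x : GL (Fin n) F)⁻¹ : GL (Fin n) F) : Matrix (Fin n) (Fin n) F), mem_env (P.inv_mem x.2)⟩
          val_inv := by
            rw [← map_mul, ← map_one e]
            congr 1
            apply Subtype.ext
            show tl n F ((x : GL (Fin n) F) : Matrix (Fin n) (Fin n) F) * tl n F _ = 1
            rw [← map_mul, ← Units.val_mul, mul_inv_cancel, Units.val_one, map_one]
          inv_val := by
            rw [← map_mul, ← map_one e]
            congr 1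
            apply Subtype.ext
            show tl n F _ * tl n F ((x : GL (Fin n) F) : Matrix (Fin n) (Fin n) F) = 1
            rw [← map_mul, ← Units.val_mul, inv_mul_cancel, Units.val_one, map_one] }
      map_one' := by
        apply Units.ext
        show e _ = 1
        rw [← map_one e]
        congr 1
        apply Subtype.ext
        show tl n F (((1 : P) : GL (Fin n) F) : Matrix (Fin n) (Fin n) F) = 1
        rw [Subgroup.coe_one, Units.val_one, map_one]
      map_mul' := by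
        intro x y
        apply Units.ext
        show e _ = e _ * e _
        rw [← map_mul]
        congr 1
        apply Subtype.ext
        show tl n F (((x * y : P) : GL (Fin n) F) : Matrix (Fin n) (Fin n) F) = tl n F _ * tl n F _
        rw [← map_mul, ← Units.val_mul]
        rfl }
  have hinj : Function.Injective ψ := by
    intro x y hxy
    have h1 : e ⟨tl n F ((x : GL (Fin n) F) : Matrix (Fin n) (Fin n) F), mem_env x.2⟩ =
      e ⟨tl n F ((y : GL (Fin n) F) : Matrix (Fin n) (Fin n) F), mem_env y.2⟩ := congrArg Units.val hxy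
    have h2 := congrArg Subtype.val (e.injective h1)
    exact Subtype.ext (Units.ext ((tl n F).injective h2))
  have hcard : Nat.card (GL (Fin 2) F) = 2 ^ 4 * 3 ^ 1 := by
    rw [Matrix.card_GL_field, hF]
    simp [Fin.prod_univ_two]
  haveI : Group.IsSolvable (GL (Fin 2) F) :=
    H3.Burnside.burnside _ _ 2 3 4 1 Nat.prime_two Nat.prime_three rfl hcard
  haveI : Group.IsSolvable P := Group.isSolvable_of_isSolvable_injective hinj
  by_contra hne
  haveI : Nontrivial P := (Subgroup.nontrivial_iff_ne_bot _).2 hne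
  have h1 := Group.IsSolvable.commutator_lt_top_of_nontrivial P
  apply h1.ne
  apply (Subgroup.map_injective P.subtype_injective)
  have h2 : (commutator P).map P.subtype = ⁅P, P⁆ := by
    rw [commutator_def, Subgroup.map_commutator, ← MonoidHom.range_eq_map, P.range_subtype]
  rw [h2, hperf, ← MonoidHom.range_eq_map, P.range_subtype]

theorem tw_form {τ : F ≃+* F} (hτ : τ = RingEquiv.refl F) {e : Fin n ≃ (Fin k → Fin m)} {Q : GL (Fin n) F}
    {A : Matrix (Fin m) (Fin m) F} {c : F}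
    (H : ∀ x y : (Fin k → Fin m) → F, f ((Q : Matrix (Fin n) (Fin n) F) *ᵥ (x ∘ e))
      ((Q : Matrix (Fin n) (Fin n) F) *ᵥ (y ∘ e)) = c * formOfGram τ (K (fun _ => A)) x y)
    (x y : (Fin k → Fin m) → F) : f (ce e Q x) (ce e Q y) = x ⬝ᵥ ((c • K (fun _ => A)) *ᵥ y) := by
  subst hτ
  rw [ce_apply, ce_apply, H, formOfGram_eq, Matrix.smul_mulVec, dotProduct_smul, smul_eq_mul]
  rfl

/-- tensor powers in odd characteristic -/
theorem NS.no_wreath_odd [Fintype F] (hG : NS f G) (h2 : (2 : F) ≠ 0) (hk : 2 ≤ k)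
    {e : Fin n ≃ (Fin k → Fin m)} {Q : GL (Fin n) F} {A : Matrix (Fin m) (Fin m) F} {c δ : F} (hm : 0 < m)
    (hc : c ≠ 0) (hδ : δ = 1 ∨ δ = -1) (hA : HM (RingEquiv.refl F) δ A) (hdet : A.det ≠ 0)
    (H : ∀ x y : (Fin k → Fin m) → F, f ((Q : Matrix (Fin n) (Fin n) F) *ᵥ (x ∘ e))
      ((Q : Matrix (Fin n) (Fin n) F) *ᵥ (y ∘ e)) = c * formOfGram (RingEquiv.refl F) (K (fun _ => A)) x y)
    (h3 : ¬ (Fintype.card F = 3 ∧ m = 2)) (hle : G ≤ tensorWreathSubgroup m k e Q) : False := by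
  classical
  haveI : Nonempty (Fin m) := ⟨⟨0, hm⟩⟩
  have hδk : δ ^ k = -1 := by
    obtain ⟨u, v, huv⟩ := exists_dot (ne_zero_of_det hdet)
    have hsw : u ⬝ᵥ (A *ᵥ v) = δ * (v ⬝ᵥ (A *ᵥ u)) := by
      have hAT : A = δ • Aᵀ := by
        ext i j
        rw [Matrix.smul_apply, Matrix.transpose_apply, smul_eq_mul]
        exact hA i j
      conv_lhs => rw [hAT]
      rw [Matrix.smul_mulVec, dotProduct_smul, smul_eq_mul, Matrix.mulVec_transpose, dotProduct_comm,
        ← Matrix.dotProduct_mulVec]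
    have e1 := tw_form rfl H (pp (fun _ => u)) (pp (fun _ => v))
    have e2 := tw_form rfl H (pp (fun _ => v)) (pp (fun _ => u))
    rw [Matrix.smul_mulVec, dotProduct_smul, smul_eq_mul, form_pp, Finset.prod_const, Finset.card_univ,
      Fintype.card_fin] at e1 e2
    rw [hG.sp.skew, e2, hsw, mul_pow] at e1
    have hv : v ⬝ᵥ (A *ᵥ u) ≠ 0 := by
      intro h0
      apply huv
      rw [hsw, h0, mul_zero]
    have e3 : c * (v ⬝ᵥ (A *ᵥ u)) ^ k * (δ ^ k + 1) = 0 := by linear_combination -e1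
    exact eq_neg_of_add_eq_zero_left ((mul_eq_zero.1 e3).resolve_left (mul_ne_zero hc (pow_ne_zero _ hv)))
  have h11 : (1 : F) ≠ -1 := by
    intro h4
    apply h2
    linear_combination h4
  rcases hδ with h4 | h4
  · subst h4
    rw [one_pow] at hδk
    exact h11 hδk
  · subst h4
    have hodd : Odd k := by
      by_contra hev
      rw [Nat.not_odd_iff_even] at hev
      rw [hev.neg_one_pow] at hδk
      exact h11 hδk
    have hk3 : 3 ≤ k := by
      rcases Nat.eq_or_lt_of_le hk with h5 | h5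
      · subst h5
        exact absurd hodd (by decide)
      · exact h5
    exact hG.wr m k e Q _ (odd_card_of_two_ne h2) hodd hk3 h3 (symp_of_HM h2 hA hdet) (wreath_power hc H) hle

/-- tensor powers in characteristic two -/
theorem NS.no_wreath_two [Fintype F] (hG : NS f G) (h2 : (2 : F) = 0) (hk : 2 ≤ k)
    {e : Fin n ≃ (Fin k → Fin m)} {Q : GL (Fin n) F} {A : Matrix (Fin m) (Fin m) F} {c δ : F}
    (hc : c ≠ 0) (hδ : δ = 1 ∨ δ = -1) (hA : HM (RingEquiv.refl F) δ A)
    (H : ∀ x y : (Fin k → Fin m) → F, f ((Q : Matrix (Fin n) (Fin n) F) *ᵥ (x ∘ e))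
      ((Q : Matrix (Fin n) (Fin n) F) *ᵥ (y ∘ e)) = c * formOfGram (RingEquiv.refl F) (K (fun _ => A)) x y)
    (hle : G ≤ tensorWreathSubgroup m k e Q) : False := by
  classical
  have hform := tw_form rfl H
  have hAs := hA.symm_of_two h2 hδ
  have hAalt : ∀ x, x ⬝ᵥ (A *ᵥ x) = 0 := by
    intro x
    have e1 := hform (pp (fun _ => x)) (pp (fun _ => x))
    rw [hG.sp.alt, Matrix.smul_mulVec, dotProduct_smul, smul_eq_mul, form_pp, Finset.prod_const, Finset.card_univ,
      Fintype.card_fin] at e1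
    have e2 := (mul_eq_zero.1 e1.symm).resolve_left hc
    exact pow_eq_zero_iff (by omega) |>.1 e2
  obtain ⟨U, hU⟩ := alt_split h2 hAs hAalt
  let i₀ : Fin k := ⟨0, by omega⟩
  let i₁ : Fin k := ⟨1, by omega⟩
  have h01 : i₁ ≠ i₀ := by intro h; exact absurd (congrArg Fin.val h) (by norm_num)
  obtain ⟨h3, h4⟩ := quad_gram hG.sp e Q (M := c • K (Function.update (fun _ => A) i₀ U)) hform (by
    rw [Matrix.transpose_smul, ← smul_add]
    congr 1
    ext x y
    rw [Matrix.add_apply, Matrix.transpose_apply, K_update_apply, K_update_apply, K_apply,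
      ← Finset.mul_prod_erase _ _ (Finset.mem_univ i₀)]
    have e1 : ∏ j ∈ Finset.univ.erase i₀, A (y j) (x j) = ∏ j ∈ Finset.univ.erase i₀, A (x j) (y j) := by
      apply Finset.prod_congr rfl
      intro j _
      conv_lhs => rw [← hAs]
      rfl
    rw [e1, ← add_mul]
    congr 1
    conv_rhs => rw [← hU]
    rfl)
  refine hG.quad _ (not_odd_of_two h2) h3 h4 ?_
  intro g hg
  apply quad_span h3 h4 (S := {v | ∃ x, v = ce e Q (pp x)}) ?_ ?_ (hG.fix g hg) ?_
  · apply span_ce e Q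
    intro a
    exact ⟨_, congrArg _ (single_pp a)⟩
  · rintro _ ⟨x, rfl⟩
    show (ce e Q).symm (ce e Q (pp x)) ⬝ᵥ ((c • K (Function.update (fun _ => A) i₀ U)) *ᵥ (ce e Q).symm (ce e Q (pp x))) = 0
    rw [LinearEquiv.symm_apply_apply, Matrix.smul_mulVec, dotProduct_smul, form_pp,
      Finset.prod_eq_zero (Finset.mem_univ i₁), smul_zero]
    rw [Function.update_of_ne h01, hAalt]
  · rintro _ ⟨x, rfl⟩
    obtain ⟨σ, B, hB⟩ := tw_act (hle hg)
    exact ⟨_, by rw [hB, K_pp, Pm_pp]⟩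

/-- subfields are excluded -/
theorem NS.no_sub [Fintype F] (hn : 0 < n) (hG : NS f G) {P : Subgroup (GL (Fin n) F)}
    (henv : env P = ⊤) (hnorm : ∀ g ∈ G, ∀ x ∈ P, g * x * g⁻¹ ∈ P) (hP : P ≤ isoG f)
    {F₀ : Subfield F} (hF₀ : F₀ ≠ ⊤) (hreal : RealisableOver F₀ (matrixSet P)) : False := by
  obtain ⟨F₁, r, Q, ζ, hr, hcard, hζ, hrat, hmem⟩ := subfield_symp hn hG.sp henv hF₀ hreal (by
    intro s hs
    refine ⟨1, F₀.one_mem, one_ne_zero, ?_⟩
    intro u v
    rw [mem_isoG.1 (hP hs), one_mul])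
  exact hG.sub F₁ r Q ζ hr hcard hζ hrat (fun g hg => hmem g (hnorm g hg))

/-- the symplectic-type case -/
theorem NS.no_abelian [Fintype F] (hn : 3 ≤ n) (hG : NS f G) {N : Subgroup (GL (Fin n) F)} (hNG : N ≤ G)
    (hNn : ∀ g ∈ G, ∀ x ∈ N, g * x * g⁻¹ ∈ N) (hNs : ¬ N ≤ scalars (Fin n) F)
    (hmin : ∀ M : Subgroup (GL (Fin n) F), M ≤ N → (∀ g ∈ G, ∀ x ∈ M, g * x * g⁻¹ ∈ M) →
        M ≤ scalars (Fin n) F ∨ N ≤ M ⊔ scalars (Fin n) F)
    (hab : ∀ x ∈ N, ∀ y ∈ N, ⁅x, y⁆ ∈ scalars (Fin n) F) {r : ℕ} (hr : r.Prime)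
    (hpow : ∀ x ∈ N, x ^ r ∈ scalars (Fin n) F) : False := by
  classical
  have hn0 : 0 < n := by omega
  have henv : env N = ⊤ := (hG.dichotomy hn0 hNG hNn).resolve_left hNs
  have hST := ST.of_minimal hr hNn hab hpow henv hmin
  have hNiso : N ≤ isoG f := fun x hx => hG.fix x (hNG hx)
  have hNE : N ≤ N ⊔ scalars (Fin n) F := le_sup_left
  have hr2 : r = 2 := by
    by_contra hr2
    have hodd : Odd r := hr.eq_two_or_odd'.resolve_left hr2
    apply hNs
    intro x hx
    apply scalar_of_commute hn0 henv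
    intro y hy
    obtain ⟨c, hc, hcr⟩ := hST.exists_comm hn0 (hNE hx) (hNE hy)
    have h1 : sc n F c ∈ isoG f := by
      have : sc n F c = x * y * x⁻¹ * y⁻¹ := by rw [hc]; group
      rw [this]
      exact Subgroup.mul_mem _ (Subgroup.mul_mem _ (Subgroup.mul_mem _ (hNiso hx) (hNiso hy))
        (Subgroup.inv_mem _ (hNiso hx))) (Subgroup.inv_mem _ (hNiso hy))
    have h2 : sc n F c = 1 := by
      rcases hG.sp.scal hn0 h1 (sc_mem c) with h2 | h2
      · exact h2
      · have h3 : c = -1 := sc_injective hn0 (by rw [h2, sc_neg_one])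
        rw [h3, hodd.neg_one_pow] at hcr
        rw [h3, hcr, map_one]
    rw [hc, h2, one_mul]
  subst hr2
  have hX := XS.of_ST hST hG.sp (fun g hg => hG.fix g hg) (by
    intro x hx
    rw [Subgroup.mem_sup_of_normal_right] at hx
    obtain ⟨y, hy, _, ⟨c, rfl⟩, rfl⟩ := hx
    refine ⟨c⁻¹, ?_⟩
    have : sc n F c⁻¹ * (y * sc n F c) = y := by
      rw [← sc_comm, ← mul_assoc, ← map_mul, inv_mul_cancel, map_one, one_mul]
    show sc n F c⁻¹ * (y * sc n F c) ∈ isoG f
    rw [this]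
    exact hNiso hy)
  set R := (N ⊔ scalars (Fin n) F) ⊓ isoG f with hR
  have hRn : ∀ g ∈ G, ∀ x ∈ R, g * x * g⁻¹ ∈ R := fun g hg x hx => hX.normR hg hx
  obtain ⟨p, hch⟩ := CharP.exists F
  haveI := hch
  have hp : p.Prime := CharP.char_is_prime F p
  haveI : Fact p.Prime := ⟨hp⟩
  obtain ⟨e', -, hcard⟩ := FiniteField.card F p
  have h2 := hX.two (by omega)
  have hpo : Odd p := by
    rcases hp.eq_two_or_odd' with h3 | h3
    · exfalso
      subst h3
      exact h2 (CharP.cast_eq_zero F 2)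
    · exact h3
  by_cases he : (e' : ℕ) = 1
  · rw [he, pow_one] at hcard
    obtain ⟨k, hk, hkR⟩ := hX.dim' (by omega)
    exact hG.sty R p k ⟨Nat.prime_two, hX.pgroup hn0, fun A hA hab => hX.char_cyclic (by omega) A hA hab,
      hX.exponent (by omega)⟩ (absIrr_of_env_top hX.envR) (fun x hx => ⟨1, fun u v => by
        rw [Units.val_one, one_mul]; exact mem_isoG.1 (hX.iso hx) u v⟩) hp hpo hcard hkR (hX.card_center (by omega))
        (hX.minus (by omega) hk) hk hX.iso hX.envR (fun x hx y hy => hX.comm x (hX.le hx) y (hX.le hy))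
        (mem_normalizer hRn)
  · have he2 : 1 < (e' : ℕ) := by
      have := e'.pos
      omega
    obtain ⟨F₀, hF₀, -⟩ := frob_proper (F := F) hcard one_pos he2
    obtain ⟨F₁, r, hle, hr', hcard'⟩ := exists_max_subfield F₀ hF₀
    have hF₁ : F₁ ≠ ⊤ := by
      rintro rfl
      have h3 : Nat.card (⊤ : Subfield F) = Fintype.card F := by
        rw [← Nat.card_eq_fintype_card]
        exact Nat.card_congr Subfield.topEquiv.toEquiv
      rw [h3] at hcard'
      have h4 : (Fintype.card F) ^ 1 < (Fintype.card F) ^ r := Nat.pow_lt_pow_right Fintype.one_lt_card hr'.one_lt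
      rw [pow_one] at h4
      omega
    exact hG.no_sub hn0 hX.envR hRn hX.iso hF₁ (hX.realise (by omega) hr' hcard')

end Cfsg.Agent.H29.Fm
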