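import Mathlib
import Cfsg.Agent.H29_Sy10

set_option autoImplicit false

/-! Aschbacher's theorem for symplectic groups, II -/

namespace Cfsg.Agent.H29.Fm

open Matrix Module Cfsg.Geo Cfsg.Agent.H29.Clifford Cfsg.Agent.H29.Asc Cfsg.Agent.H29.AscF Cfsg.Agent.H29.Trv
  Cfsg.Agent.H29.AscT
open scoped Kronecker commutatorElement

variable {F : Type*} [Field F] {n k m r w t : ℕ}
variable {f : (Fin n → F) → (Fin n → F) → F}
variable {G : Subgroup (GL (Fin n) F)}

/-- invariant bilinear forms are proportional -/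
theorem form_prop (h : SpF f) {P : Subgroup (GL (Fin n) F)} (henv : env P = ⊤) (hn : 0 < n) (hP : P ≤ isoG f)
    {b : (Fin n → F) → (Fin n → F) → F} (hb : IsBilinearForm b)
    (hbP : ∀ x ∈ P, ∀ u v, b ((x : GL (Fin n) F) *ᵥ u) ((x : Matrix (Fin n) (Fin n) F) *ᵥ v) = b u v) :
    ∃ c : F, ∀ u v, b u v = c * f u v := by
  haveI : Nonempty (Fin n) := ⟨⟨0, hn⟩⟩
  have h1 := exists_matrix (RingHom.id F) f h.sfm.add_left h.sfm.smul_left h.sfm.add_right
    (fun c v x => h.smul_right c v x)
  have h2 := exists_matrix (RingHom.id F) b hb.add_left hb.smul_left hb.add_right (fun c v x => hb.smul_right c v x)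
  set M : Matrix (Fin n) (Fin n) F := Matrix.of fun i j => f (Pi.single i 1) (Pi.single j 1) with hM
  set N : Matrix (Fin n) (Fin n) F := Matrix.of fun i j => b (Pi.single i 1) (Pi.single j 1) with hN
  have hdet : M.det ≠ 0 := by
    apply det_ne_zero_of_nondeg (σ := RingEquiv.refl F)
    intro v hv
    obtain ⟨x, hx⟩ := h.sfm.nd v hv
    refine ⟨x, ?_⟩
    rw [h1] at hx
    exact hx
  obtain ⟨c, hc⟩ := form_unique (absIrr_of_env_top henv) (RingHom.id F) hdet
    (fun x hx => (fixes_iff (RingHom.id F) M _).1 (fun u v => by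
      rw [← h1, ← h1]; exact mem_isoG.1 (hP hx) u v))
    (fun x hx => (fixes_iff (RingHom.id F) N _).1 (fun u v => by
      rw [← h2, ← h2]; exact hbP x hx u v))
  refine ⟨c, fun u v => ?_⟩
  rw [h1, h2, hc]
  unfold sf
  rw [Matrix.smul_mulVec, dotProduct_smul, smul_eq_mul]

/-- quadratic forms invariant under a normal absolutely irreducible subgroup -/
theorem quad_of_normal [Fintype F] (hn : 2 ≤ n) (hG : Fx f G) {P : Subgroup (GL (Fin n) F)}
    (henv : env P = ⊤) (hnorm : ∀ g ∈ G, ∀ x ∈ P, g * x * g⁻¹ ∈ P) {Q : (Fin n → F) → F}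
    (hQ : IsNondegenerateQuadraticForm Q) (hpol : ∀ u v, QuadraticMap.polar Q u v = f u v)
    (hQP : ∀ x ∈ P, ∀ v, Q (((x : GL (Fin n) F) : Matrix (Fin n) (Fin n) F) *ᵥ v) = Q v) :
    G ≤ quadSimilarityGroup Q := by
  classical
  have hp : ∀ u v, Q (u + v) = Q u + Q v + f u v := by
    intro u v
    have := hpol u v
    have h2 : Q (u + v) - Q u - Q v = f u v := this
    linear_combination h2
  intro g hg
  have hgf := hG g hg
  let δ : (Fin n → F) → F := fun v => Q ((g : Matrix (Fin n) (Fin n) F) *ᵥ v) - Q v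
  have hδadd : ∀ u v, δ (u + v) = δ u + δ v := by
    intro u v
    show Q ((g : Matrix (Fin n) (Fin n) F) *ᵥ (u + v)) - Q (u + v) = (Q ((g : Matrix (Fin n) (Fin n) F) *ᵥ u) - Q u) +
      (Q ((g : Matrix (Fin n) (Fin n) F) *ᵥ v) - Q v)
    rw [Matrix.mulVec_add, hp, hp, hgf]
    ring
  have hδsmul : ∀ (c : F) v, δ (c • v) = c ^ 2 * δ v := by
    intro c v
    show Q ((g : Matrix (Fin n) (Fin n) F) *ᵥ (c • v)) - Q (c • v) = c ^ 2 * (Q ((g : Matrix (Fin n) (Fin n) F) *ᵥ v) - Q v)
    rw [Matrix.mulVec_smul, hQ.smul, hQ.smul]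
    ring
  have hδP : ∀ x ∈ P, ∀ v, δ ((x : Matrix (Fin n) (Fin n) F) *ᵥ v) = δ v := by
    intro x hx v
    show Q ((g : Matrix (Fin n) (Fin n) F) *ᵥ ((x : Matrix (Fin n) (Fin n) F) *ᵥ v)) - Q ((x : Matrix (Fin n) (Fin n) F) *ᵥ v) =
      Q ((g : Matrix (Fin n) (Fin n) F) *ᵥ v) - Q v
    rw [hQP x hx]
    have h1 : (g : Matrix (Fin n) (Fin n) F) *ᵥ ((x : Matrix (Fin n) (Fin n) F) *ᵥ v) =
        ((g * x * g⁻¹ : GL (Fin n) F) : Matrix (Fin n) (Fin n) F) *ᵥ ((g : Matrix (Fin n) (Fin n) F) *ᵥ v) := by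
      rw [Matrix.mulVec_mulVec, Matrix.mulVec_mulVec, ← Units.val_mul, ← Units.val_mul, inv_mul_cancel_right]
    rw [h1, hQP _ (hnorm g hg x hx)]
  let W : Submodule F (Fin n → F) :=
    { carrier := {v | δ v = 0}
      add_mem' := by
        intro a b ha hb
        show δ (a + b) = 0
        rw [hδadd, show δ a = 0 from ha, show δ b = 0 from hb, add_zero]
      zero_mem' := by
        show δ 0 = 0
        have := hδadd 0 0
        rw [add_zero] at this
        exact left_eq_add.1 this
      smul_mem' := by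
        intro c a ha
        show δ (c • a) = 0
        rw [hδsmul, show δ a = 0 from ha, mul_zero] }
  rcases (absIrr_of_env_top henv (n := n)).1 W (by
    rintro _ ⟨x, hx, rfl⟩ _ ⟨v, hv, rfl⟩
    show δ ((x : Matrix (Fin n) (Fin n) F) *ᵥ v) = 0
    rw [hδP x hx]
    exact hv) with h1 | h1
  · exfalso
    have hinj : Function.Injective δ := by
      intro u v huv
      have h2 : u - v ∈ W := by
        show δ (u - v) = 0
        have h3 := hδadd (u - v) v
        rw [sub_add_cancel, huv] at h3
        exact right_eq_add.1 h3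
      rw [h1, Submodule.mem_bot] at h2
      exact sub_eq_zero.1 h2
    have h2 := Fintype.card_le_of_injective δ hinj
    rw [Fintype.card_fun, Fintype.card_fin] at h2
    have h3 : (Fintype.card F) ^ 1 < (Fintype.card F) ^ n := Nat.pow_lt_pow_right Fintype.one_lt_card (by omega)
    rw [pow_one] at h3
    omega
  · refine ⟨1, fun v => ?_⟩
    rw [Units.val_one, one_mul]
    have h2 : v ∈ W := by rw [h1]; trivial
    exact sub_eq_zero.1 h2

/-- **Aschbacher's theorem** for symplectic groups, main part. -/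
theorem NS.residual [Fintype F] (hn : 3 ≤ n) (hG : NS f G) : InSymplecticResidualClass G := by
  classical
  have hn0 : 0 < n := by omega
  haveI : Nonempty (Fin n) := ⟨⟨0, hn0⟩⟩
  obtain ⟨N, hNG, hNn, hNs, hmin, hcase⟩ := gl_main G (not_scalar_of_irr (by omega) hG.irr)
  rcases hcase with ⟨hab, r, hr, hpow⟩ | ⟨k, P, hk, hPN, hPp, hPZ, hPs, hPc, hPg, hPt, hPt'⟩
  · exact (hG.no_abelian hn hNG hNn hNs hmin hab hr hpow).elim
  · have hnorm : ∀ g ∈ G, ∀ x ∈ (⨆ i, P i), g * x * g⁻¹ ∈ (⨆ i, P i) := by
      intro g hg x hx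
      obtain ⟨σ, hσ⟩ := hPg g hg
      refine Subgroup.iSup_induction P (C := fun x => g * x * g⁻¹ ∈ (⨆ i, P i)) hx ?_ ?_ ?_
      · intro i x hx
        exact Subgroup.mem_iSup_of_mem (σ i) (hσ i x hx)
      · rw [mul_one, mul_inv_cancel]; exact Subgroup.one_mem _
      · intro a b ha hb
        have : g * (a * b) * g⁻¹ = (g * a * g⁻¹) * (g * b * g⁻¹) := by group
        rw [this]; exact Subgroup.mul_mem _ ha hb
    have hPG : (⨆ i, P i) ≤ G := iSup_le (fun i => (hPN i).trans hNG)
    have henv : env (⨆ i, P i) = ⊤ := by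
      refine (hG.dichotomy hn0 hPG hnorm).resolve_left ?_
      intro h
      exact hPZ ⟨0, hk⟩ ((le_iSup P _).trans h)
    by_cases hk1 : k = 1
    · subst hk1
      have hP0 : (⨆ i, P i) = P 0 := by
        apply le_antisymm
        · apply iSup_le
          intro i
          rw [Subsingleton.elim i 0]
        · exact le_iSup P 0
      rw [hP0] at henv hnorm hPG
      have hPiso : P 0 ≤ isoG f := fun x hx => hG.fix x (hPG hx)
      have hnsub : ∀ F₀ : Subfield F, F₀ ≠ ⊤ → ¬ RealisableOver F₀ (matrixSet (P 0)) := fun F₀ hF₀ hreal =>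
        hG.no_sub hn0 henv hnorm hPiso hF₀ hreal
      refine ⟨P 0, core_of_simple' hn0 hPG hnorm (hPp 0) (hPs 0) (hPZ 0) henv hnsub, ?_, ?_⟩
      · rintro ⟨Q, hQ, hfix⟩
        obtain ⟨c, hc⟩ := form_prop hG.sp henv hn0 hPiso hQ.polar_bilinear (by
          intro x hx u v
          have h1 := hfix _ ⟨x, hx, rfl⟩
          unfold QuadraticMap.polar
          rw [← Matrix.mulVec_add, h1, h1, h1])
        have hc0 : c ≠ 0 := by
          rintro rfl
          have hv : (Pi.single ⟨0, hn0⟩ (1 : F) : Fin n → F) ≠ 0 := by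
            intro h0
            have := congrFun h0 ⟨0, hn0⟩
            rw [Pi.single_eq_same] at this
            exact one_ne_zero this
          obtain ⟨⟨x, hx⟩, -⟩ := hQ.nondegenerate _ hv
          rw [hc, zero_mul] at hx
          exact hx rfl
        by_cases h2 : (2 : F) = 0
        · -- the form `c⁻¹ Q`
          have hpol : ∀ u v, QuadraticMap.polar (fun v => c⁻¹ * Q v) u v = f u v := by
            intro u v
            have h1 := hc u v
            have h3 : Q (u + v) - Q u - Q v = c * f u v := h1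
            show c⁻¹ * Q (u + v) - c⁻¹ * Q u - c⁻¹ * Q v = f u v
            rw [← mul_sub, ← mul_sub, h3, ← mul_assoc, inv_mul_cancel₀ hc0, one_mul]
          have hpe : QuadraticMap.polar (fun v => c⁻¹ * Q v) = f := by
            funext u v
            exact hpol u v
          have hQ' : IsNondegenerateQuadraticForm (fun v => c⁻¹ * Q v) := by
            refine ⟨?_, ?_, ?_⟩
            · intro a v
              show c⁻¹ * Q (a • v) = a ^ 2 * (c⁻¹ * Q v)
              rw [hQ.smul]
              ring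
            · rw [hpe]; exact hG.sp.symp.bilinear
            · rw [hpe]; exact hG.sp.sfm.isNondeg
          exact hG.quad _ (not_odd_of_two h2) hQ' hpol (quad_of_normal (by omega) hG.fix henv hnorm hQ' hpol (by
            intro x hx v
            show c⁻¹ * Q _ = c⁻¹ * Q v
            rw [hfix _ ⟨x, hx, rfl⟩]))
        · -- symmetric and alternating
          have hv : (Pi.single ⟨0, hn0⟩ (1 : F) : Fin n → F) ≠ 0 := by
            intro h0
            have := congrFun h0 ⟨0, hn0⟩
            rw [Pi.single_eq_same] at this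
            exact one_ne_zero this
          obtain ⟨u, hu⟩ := hG.sp.sfm.nd _ hv
          set v := (Pi.single ⟨0, hn0⟩ (1 : F) : Fin n → F)
          have h1 := hc u v
          have h3 := hc v u
          have h4 : QuadraticMap.polar Q u v = QuadraticMap.polar Q v u := QuadraticMap.polar_comm Q u v
          rw [h1, h3, hG.sp.skew v u] at h4
          have h5 : (2 : F) * (c * f u v) = 0 := by linear_combination h4
          exact mul_ne_zero h2 (mul_ne_zero hc0 hu) h5
      · rintro ⟨σ, g, hg, hfix⟩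
        obtain ⟨H, hH, hfH⟩ := exists_mat hG.sp.sfm
        refine hnsub _ (FixF_ne_top hg.ne_refl) (bilinear_real hn0 (SFm.of_unitary hg) hg.ne_refl henv
          (fun x hx => hfix _ ⟨x, hx, rfl⟩) hH ?_)
        intro x hx
        have h3 := (fixes_iff (RingHom.id F) H (x : Matrix (Fin n) (Fin n) F)).1 (by
          intro u v
          have e1 := hfH u v
          have e2 := hfH ((x : Matrix (Fin n) (Fin n) F) *ᵥ u) ((x : Matrix (Fin n) (Fin n) F) *ᵥ v)
          have e3 := mem_isoG.1 (hPiso hx) u v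
          rw [e1, e2] at e3
          exact e3)
        have hid : ∀ A : Matrix (Fin n) (Fin n) F, A.map (RingHom.id F) = A := fun A => by ext i j; rfl
        rwa [hid] at h3
    · exfalso
      obtain ⟨m, e, Q, A, δ, c, hm, hle, hA, hc, hδ, hHM, -, hform⟩ := tensor_power_form hn0 hG.sp.sfm hk P hPc henv hPZ
        G hG.fix (fun i => (hPN i).trans hNG) hPg (fun i j => by
          obtain ⟨g, h1, hg⟩ := hPt i j
          exact ⟨g, h1, hg⟩)
      by_cases h2 : (2 : F) = 0
      · exact hG.no_wreath_two h2 (by omega) hc hδ hHM hform hle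
      · refine hG.no_wreath_odd h2 (by omega) (by omega) hc hδ hHM hA hform ?_ hle
        rintro ⟨h3, hm2⟩
        subst hm2
        obtain ⟨m', hm', he'⟩ := factor_dim hn0 hk P hPc henv G (fun i j => by
          obtain ⟨g, h1, hg⟩ := hPt i j
          exact ⟨g, h1, hg⟩)
        have hcard : n = 2 ^ k := by
          have := Fintype.card_congr e
          rw [Fintype.card_fin, Fintype.card_fun, Fintype.card_fin, Fintype.card_fin] at this
          exact this
        have hm2 : m' = 2 := by
          have h4 : m' ^ k = 2 ^ k := by rw [← hm', hcard]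
          exact Nat.pow_left_injective (n := k) (by omega) h4
        subst hm2
        have h5 := no_perfect_two_three h3 (hPp ⟨0, hk⟩) (he' ⟨0, hk⟩).some
        apply hPZ ⟨0, hk⟩
        rw [h5]
        exact bot_le

end Cfsg.Agent.H29.Fm
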