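import Mathlib
import Cfsg.Agent.H29_Sy11
import Cfsg.Agent.H29_Rx2
import Cfsg.Agent.H29_TrvSp

set_option autoImplicit false

/-! Aschbacher's theorem for symplectic groups, III: the standard form -/

namespace Cfsg.Agent.H29.Fm

open Matrix Module Cfsg.Geo Cfsg.Agent.H29.Clifford Cfsg.Agent.H29.Asc Cfsg.Agent.H29.AscF Cfsg.Agent.H29.Trv
  Cfsg.Agent.H29.AscT Cfsg.Agent.H29.Rx
open scoped Kronecker commutatorElement

variable {F : Type*} [Field F] {m : ℕ}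

theorem symp_std (m : ℕ) (F : Type*) [Field F] : IsSymplecticForm (Cfsg.sympForm m F) where
  bilinear := ⟨(altStd m F).add_left, (altStd m F).smul_left, (altStd m F).add_right, (altStd m F).smul_right⟩
  skew := (altStd m F).skew
  alternating := (altStd m F).self
  nondegenerate := by
    intro w hw
    obtain ⟨x, hx⟩ := (altStd m F).nondeg w hw
    refine ⟨⟨x, hx⟩, ⟨x, ?_⟩⟩
    rw [(altStd m F).skew]
    exact neg_ne_zero.2 hx

/-- the standard form on `Fin (m + m)` -/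
abbrev e2 (m : ℕ) : Fin m ⊕ Fin m ≃ Fin (m + m) := finSumFinEquiv

theorem sp_std (m : ℕ) (F : Type*) [Field F] : SpF (pf (e2 m).symm (Cfsg.sympForm m F)) :=
  SpF.of_symp (symp_pull _ (symp_std m F))

theorem le_of_pull {ι κ : Type} [Fintype ι] [DecidableEq ι] [Fintype κ] [DecidableEq κ] (e : ι ≃ κ)
    {H M : Subgroup (GL ι F)} {M' : Subgroup (GL κ F)}
    (hM : ∀ g, glReindex e g ∈ M' ↔ g ∈ M) (h : cR e.symm H ≤ M') : H ≤ M := by
  intro g hg
  rw [← hM]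
  apply h
  rw [mem_cR, r_r]
  exact hg

theorem NS_of [Fintype F] {H : Subgroup (GL (Fin m ⊕ Fin m) F)} (hH : H ≤ Cfsg.spGL m F)
    (hcls : ∀ M : Subgroup (GL (Fin m ⊕ Fin m) F), InSymplecticClass m F M → ¬ H ≤ M) :
    NS (pf (e2 m).symm (Cfsg.sympForm m F)) (cR (e2 m).symm H) := by
  have hff : pf (e2 m) (pf (e2 m).symm (Cfsg.sympForm m F)) = Cfsg.sympForm m F := pf_pf _ _
  have cls : ∀ (M' : Subgroup (GL (Fin (m + m)) F)) (M : Subgroup (GL (Fin m ⊕ Fin m) F)),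
      (∀ g, glReindex (e2 m) g ∈ M' ↔ g ∈ M) → InSymplecticClass m F (M ⊓ Cfsg.spGL m F) → ¬ cR (e2 m).symm H ≤ M' :=
    fun M' M hM hc hle => hcls _ hc (le_inf (le_of_pull _ hM hle) hH)
  refine ⟨sp_std m F, ?_, ?_, ?_, ?_, ?_, ?_, ?_, ?_, ?_, ?_, ?_, ?_⟩
  · intro g hg u v
    have hg' : glReindex (e2 m).symm g ∈ H := hg
    have h1 := hH hg'
    rw [mem_spGL_iff] at h1
    have h2 := h1 (L (e2 m).symm u) (L (e2 m).symm v)
    rw [act, act] at h2
    exact h2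
  · intro W' h1 h2
    refine cls _ _ (fun g => stab_iff _) (Or.inl (Or.inl ⟨cW (e2 m) W', cW_bot _ h1, ?_, rfl⟩))
    rw [← hff]; exact ts_pull _ h2
  · intro W' h1 h2 h3
    refine cls _ _ (fun g => stab_iff _) (Or.inl (Or.inr (Or.inl ⟨cW (e2 m) W', cW_bot _ h1, ?_, ?_, rfl⟩)))
    · rw [← hff]; exact nd_pull _ h2
    · rw [finrank_cW]; omega
  · intro t k D' hD'
    refine cls _ _ (fun g => decStab_iff _) (Or.inl (Or.inr (Or.inr (Or.inl ⟨t, k, fun i => cW (e2 m) (D' i), ?_, rfl⟩))))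
    rw [← hff]; exact ndec_pull _ hD'
  · intro hodd k D' hD' hts
    have hk : k = m := by
      have := dec_card hD'
      omega
    subst hk
    refine cls _ _ (fun g => decStab_iff _) (Or.inl (Or.inr (Or.inr (Or.inr (Or.inl
      ⟨fun i => cW (e2 k) (D' i), hodd, dec_pull _ hD', ?_, rfl⟩)))))
    intro i
    rw [← hff]; exact ts_pull _ (hts i)
  · intro r K' hr hK' hsa halt
    refine cls _ _ (fun g => norm_iff _) (Or.inr (Or.inl ⟨r, cK (e2 m) K', hr, fld_pull _ hK', ?_, ?_, rfl⟩))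
    · rw [← hff]; exact sa_pull _ hsa
    · rw [← hff]; exact alt_pull _ halt
  · intro K' hodd hK' hadj hns
    refine cls _ _ (fun g => norm_iff _) (Or.inr (Or.inr (Or.inl ⟨cK (e2 m) K', hodd, fld_pull _ hK', ?_, ?_, rfl⟩)))
    · rw [← hff]; exact adj_pull _ hadj
    · intro h
      rw [← hff] at h
      exact hns (sa_push _ h)
  · intro n₁ n₂ e' P' f₁ f₂ hodd h3 hf₁ hf₂ hst
    refine cls _ _ (fun g => tp_iff _) (Or.inr (Or.inr (Or.inr (Or.inl
      ⟨n₁, n₂, (e2 m).trans e', glReindex (e2 m).symm P', f₁, f₂, hodd, h3, hf₁, hf₂, ?_, rfl⟩))))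
    rw [← hff]; exact tpf_pull _ hst
  · intro F₀ r P' ζ hr hc hζ hst
    refine cls _ _ (fun g => sub_iff _) (Or.inl (Or.inr (Or.inr (Or.inr (Or.inr (Or.inl
      ⟨F₀, r, glReindex (e2 m).symm P', ζ, hr, hc, hζ, ?_, rfl⟩))))))
    rw [← hff]; exact subf_pull _ hst
  · intro R' p k h1 h2 h3 h4 h5 h6 h7 h8 h9 _ _ _ _
    refine cls _ _ (fun g => nmz_iff _) (Or.inl (Or.inr (Or.inr (Or.inr (Or.inr (Or.inr (Or.inl
      ⟨cR (e2 m) R', p, k, styp_pull _ h1, absIrr_pull _ (fun M => mset_pull _) h2, ?_, h4, h5, h6, ?_, ?_,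
        minus_pull _ h9, rfl⟩)))))))
    · intro g hg
      rw [← hff, ← sim_iff]
      exact h3 hg
    · rw [card_cR]; exact h7
    · rw [center_cR]; exact h8
  · intro k t e' P' f₁ hodd hot ht3 hne hf₁ hst
    refine cls _ _ (fun g => tw_iff _) (Or.inr (Or.inr (Or.inr (Or.inr
      ⟨k, t, (e2 m).trans e', glReindex (e2 m).symm P', f₁, hodd, hot, ht3, hne, hf₁, ?_, rfl⟩))))
    rw [← hff]; exact twf_pull _ hst
  · intro Q' hodd hQ' hpol
    refine cls _ _ (fun g => quadSim_iff _) (Or.inl (Or.inr (Or.inr (Or.inr (Or.inr (Or.inr (Or.inr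
      ⟨pq (e2 m) Q', hodd, nq_pull _ hQ', ?_, rfl⟩)))))))
    intro u v
    rw [← hff, polar_pq]
    exact hpol _ _

theorem SP_residual [Fintype F] (hm : 2 ≤ m) {H : Subgroup (GL (Fin m ⊕ Fin m) F)} (hH : H ≤ Cfsg.spGL m F)
    (hcls : ∀ M : Subgroup (GL (Fin m ⊕ Fin m) F), InSymplecticClass m F M → ¬ H ≤ M) :
    InSymplecticResidualClass H := by
  have h1 := NS.residual (by omega) (NS_of hH hcls)
  have h2 := res_symp_pull (e2 m) h1
  rwa [cR_cR] at h2

end Cfsg.Agent.H29.Fm
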