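import Mathlib
import Cfsg.Agent.H29_Max3

set_option autoImplicit false

/-! plane decompositions and two dimensional tensor factors over small fields -/

namespace Cfsg.Agent.H29.Asc

open Matrix Module Cfsg.Geo Cfsg.Agent.H29.Trv Cfsg.Agent.H29.AscT Cfsg.Agent.H29.AscF
open scoped Kronecker

variable {F : Type*} [Field F] {n : ℕ}

/-- transport of an alternating form along a change of basis -/
theorem symp_transport {κ : Type} [Fintype κ] [DecidableEq κ] (e : Fin n ≃ κ) (P : GL (Fin n) F)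
    {M : Matrix κ κ F} (h1 : Mᵀ = -M) (h2 : ∀ i, M i i = 0) (h3 : M.det ≠ 0) :
    ∃ f : (Fin n → F) → (Fin n → F) → F, IsSymplecticForm f ∧ ∀ (g : GL (Fin n) F) (Y : Matrix κ κ F),
      ((P⁻¹ * g * P : GL (Fin n) F) : Matrix (Fin n) (Fin n) F) = Y.submatrix e e →
      ∀ c : Fˣ, Yᵀ * M * Y = (c : F) • M → g ∈ similarityGroup f := by
  set L : Matrix (Fin n) (Fin n) F := ((P⁻¹ : GL (Fin n) F) : Matrix (Fin n) (Fin n) F) with hL
  set N : Matrix (Fin n) (Fin n) F := M.submatrix e e with hN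
  have hN1 : Nᵀ = -N := by
    rw [hN, Matrix.transpose_submatrix, h1]; rfl
  have hN2 : ∀ i, N i i = 0 := fun i => h2 _
  have hN3 : N.det ≠ 0 := by rw [hN, Matrix.det_submatrix_equiv_self]; exact h3
  have hnd : IsNondegenerateForm (sf (RingHom.id F) N) := nondeg_of_det (σ := RingEquiv.refl F) hN3
  have hskew : ∀ v w, sf (RingHom.id F) N v w = - sf (RingHom.id F) N w v := by
    intro v w
    have e1 : ∀ (M : Matrix (Fin n) (Fin n) F) (v w : Fin n → F), sf (RingHom.id F) M v w = v ⬝ᵥ (M *ᵥ w) := fun _ _ _ => rfl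
    rw [e1, e1, Matrix.dotProduct_mulVec, dotProduct_comm, ← Matrix.mulVec_transpose, hN1,
      Matrix.neg_mulVec, dotProduct_neg]
  have hinj : ∀ v, v ≠ 0 → L *ᵥ v ≠ 0 := by
    intro v hv h0
    apply hv
    have h4 := inv_mulVec_self P⁻¹ v
    rw [inv_inv] at h4
    rw [← h4]
    have : ((P⁻¹ : GL (Fin n) F) : Matrix (Fin n) (Fin n) F) *ᵥ v = 0 := h0
    rw [this, Matrix.mulVec_zero]
  have hsurj : ∀ x, L *ᵥ ((P : Matrix (Fin n) (Fin n) F) *ᵥ x) = x := fun x => inv_mulVec_self P x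
  refine ⟨fun u v => sf (RingHom.id F) N (L *ᵥ u) (L *ᵥ v), ⟨?_, ?_, ?_, ?_⟩, ?_⟩
  · exact
      { add_left := fun x y v => by rw [Matrix.mulVec_add, sf_add_left]
        smul_left := fun c x v => by rw [Matrix.mulVec_smul, sf_smul_left]
        add_right := fun v x y => by rw [Matrix.mulVec_add, sf_add_right]
        smul_right := fun c v x => by rw [Matrix.mulVec_smul, sf_smul_right]; rfl }
  · intro v w
    exact hskew _ _
  · intro v
    exact alt_of_skew hN1 hN2 _
  · intro v hv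
    obtain ⟨⟨x, hx⟩, ⟨y, hy⟩⟩ := hnd _ (hinj v hv)
    exact ⟨⟨(P : Matrix (Fin n) (Fin n) F) *ᵥ x, by
      show sf (RingHom.id F) N (L *ᵥ ((P : Matrix (Fin n) (Fin n) F) *ᵥ x)) (L *ᵥ v) ≠ 0
      rw [hsurj]; exact hx⟩, ⟨(P : Matrix (Fin n) (Fin n) F) *ᵥ y, by
      show sf (RingHom.id F) N (L *ᵥ v) (L *ᵥ ((P : Matrix (Fin n) (Fin n) F) *ᵥ y)) ≠ 0
      rw [hsurj]; exact hy⟩⟩
  · intro g Y hY c hc
    refine ⟨c, fun u v => ?_⟩
    show sf (RingHom.id F) N (L *ᵥ ((g : Matrix (Fin n) (Fin n) F) *ᵥ u)) (L *ᵥ ((g : Matrix (Fin n) (Fin n) F) *ᵥ v)) =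
      (c : F) * sf (RingHom.id F) N (L *ᵥ u) (L *ᵥ v)
    have h5 : L * (g : Matrix (Fin n) (Fin n) F) = Y.submatrix e e * L := by
      rw [← hY, hL, ← Units.val_mul, ← Units.val_mul, mul_inv_cancel_right]
    rw [Matrix.mulVec_mulVec, Matrix.mulVec_mulVec, h5, ← Matrix.mulVec_mulVec, ← Matrix.mulVec_mulVec]
    rw [sf_mulVec, ← sf_smul]
    have hid : ∀ A : Matrix (Fin n) (Fin n) F, A.map (RingHom.id F) = A := fun A => by
      ext i j; rfl
    rw [hid]
    have hsub : (Y.submatrix e e)ᵀ * N * Y.submatrix e e = (c : F) • N := by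
      rw [hN, Matrix.transpose_submatrix, Matrix.submatrix_mul_equiv, Matrix.submatrix_mul_equiv, hc]
      rfl
    rw [hsub]

theorem blk_mul {t m : ℕ} (σ τ : Equiv.Perm (Fin t)) (A B : Fin t → Matrix (Fin m) (Fin m) F) :
    blk σ A * blk τ B = blk (σ * τ) (fun i => A (τ i) * B i) := by
  ext x y
  rw [Matrix.mul_apply, Fintype.sum_prod_type, Finset.sum_eq_single (τ y.1)]
  · simp only [blk, Matrix.of_apply, if_true, Equiv.Perm.mul_apply]
    by_cases h : x.1 = σ (τ y.1)
    · simp only [h, if_true, Matrix.mul_apply]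
    · simp only [h, if_false, zero_mul, Finset.sum_const_zero]
  · intro j _ hj
    apply Finset.sum_eq_zero
    intro a _
    simp [blk, hj]
  · simp

theorem blk_transpose {t m : ℕ} (σ : Equiv.Perm (Fin t)) (A : Fin t → Matrix (Fin m) (Fin m) F) :
    (blk σ A)ᵀ = blk σ⁻¹ (fun i => (A (σ⁻¹ i))ᵀ) := by
  ext x y
  simp only [blk, Matrix.transpose_apply, Matrix.of_apply]
  by_cases h : y.1 = σ x.1
  · have h2 : x.1 = σ⁻¹ y.1 := by rw [h]; simp
    rw [if_pos h, if_pos h2, h2]
  · have h2 : ¬ x.1 = σ⁻¹ y.1 := by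
      intro h3
      apply h
      rw [h3]; simp
    rw [if_neg h, if_neg h2]

theorem blk_one_apply {t m : ℕ} (A : Fin t → Matrix (Fin m) (Fin m) F) (x y : Fin t × Fin m) :
    blk (1 : Equiv.Perm (Fin t)) A x y = if x.1 = y.1 then A y.1 x.2 y.2 else 0 := rfl

theorem blk_one_det {t m : ℕ} (A : Fin t → Matrix (Fin m) (Fin m) F) :
    (blk (1 : Equiv.Perm (Fin t)) A).det = ∏ i, (A i).det := by
  have h : blk (1 : Equiv.Perm (Fin t)) A = (Matrix.blockDiagonal A).submatrix (Equiv.prodComm _ _) (Equiv.prodComm _ _) := by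
    ext x y
    rw [blk_one_apply]
    simp only [Matrix.submatrix_apply, Equiv.prodComm_apply,
      Matrix.blockDiagonal_apply, Prod.fst_swap, Prod.snd_swap]
    by_cases h : x.1 = y.1
    · rw [if_pos h, if_pos h, h]
    · rw [if_neg h, if_neg h]
  rw [h, Matrix.det_submatrix_equiv_self, Matrix.det_blockDiagonal]

theorem blk_det {t m : ℕ} (σ : Equiv.Perm (Fin t)) (A : Fin t → Matrix (Fin m) (Fin m) F) :
    (blk σ A).det = ((Equiv.Perm.sign (σ.prodCongr (Equiv.refl (Fin m))) : ℤ) : F) * ∏ i, (A i).det := by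
  have h1 : blk σ A = blk σ (fun _ => 1) * blk 1 A := by
    rw [blk_mul, mul_one]
    congr 1
    funext i
    rw [one_mul]
  rw [h1, Matrix.det_mul, blk_one_det]
  congr 1
  have h2 : (blk σ (fun _ => (1 : Matrix (Fin m) (Fin m) F))) = (Equiv.Perm.permMatrix F (σ.prodCongr (Equiv.refl (Fin m))))ᵀ := by
    ext x y
    rw [Matrix.transpose_apply, Equiv.Perm.permMatrix, PEquiv.toMatrix_apply]
    simp only [blk, Matrix.of_apply, Equiv.toPEquiv_apply, Option.mem_some_iff, Matrix.one_apply]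
    obtain ⟨x1, x2⟩ := x
    obtain ⟨y1, y2⟩ := y
    simp only [Equiv.prodCongr_apply, Prod.map_apply, Equiv.refl_apply, Prod.mk.injEq]
    by_cases hx : x1 = σ y1
    · by_cases h3 : x2 = y2
      · simp [hx, h3]
      · have h4 : ¬ y2 = x2 := fun h => h3 h.symm
        simp [hx, h3, h4]
    · have h4 : ¬ σ y1 = x1 := fun h => hx h.symm
      simp [hx, h4]
  rw [h2, Matrix.det_transpose, Matrix.det_permutation]

/-- the standard alternating form on a sum of planes -/
theorem planes_form {t : ℕ} (σ : Equiv.Perm (Fin t)) (A : Fin t → Matrix (Fin 2) (Fin 2) F) (c : F)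
    (h : ∀ i, (A i).det = c) :
    (blk σ A)ᵀ * blk 1 (fun _ => J2 F) * blk σ A = c • blk 1 (fun _ => J2 F) := by
  rw [blk_transpose, blk_mul, blk_mul]
  have h1 : σ⁻¹ * 1 * σ = 1 := by simp
  rw [h1]
  ext x y
  rw [Matrix.smul_apply, blk_one_apply, blk_one_apply, smul_eq_mul]
  by_cases hx : x.1 = y.1
  · rw [if_pos hx, if_pos hx]
    have h2 : σ⁻¹ ((1 : Equiv.Perm (Fin t)) (σ y.1)) = y.1 := by simp
    rw [h2, J2_congr, h, Matrix.smul_apply, smul_eq_mul]
  · rw [if_neg hx, if_neg hx, mul_zero]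

theorem planes_symp {t : ℕ} {D : Fin t → Submodule F (Fin n → F)} (hD : IsMDecomposition 2 D) :
    ∃ f : (Fin n → F) → (Fin n → F) → F, IsSymplecticForm f ∧ ∀ g ∈ decompositionStabilizer D,
      ∃ (σ : Equiv.Perm (Fin t)) (A : Fin t → Matrix (Fin 2) (Fin 2) F),
        (g : Matrix (Fin n) (Fin n) F).det =
          ((Equiv.Perm.sign (σ.prodCongr (Equiv.refl (Fin 2))) : ℤ) : F) * ∏ i, (A i).det ∧
        (∀ c : Fˣ, (∀ i, (A i).det = c) → g ∈ similarityGroup f) := by
  classical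
  obtain ⟨e, P, hP⟩ := dec_conj hD
  have hsq : blk (1 : Equiv.Perm (Fin t)) (fun _ => J2 F) * blk (1 : Equiv.Perm (Fin t)) (fun _ => J2 F) = (-1 : F) • 1 := by
    rw [blk_mul, J2_sq]
    ext x y
    simp only [blk, Matrix.of_apply, Matrix.smul_apply, smul_eq_mul, Equiv.Perm.mul_apply, Equiv.Perm.one_apply,
      Matrix.one_apply]
    obtain ⟨x1, x2⟩ := x
    obtain ⟨y1, y2⟩ := y
    by_cases h1 : x1 = y1
    · by_cases h2 : x2 = y2
      · simp [h1, h2]
      · simp [h1, h2]
    · simp [h1]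
  obtain ⟨f, hf, hfg⟩ := symp_transport e P (M := blk 1 (fun _ => J2 F)) (by
      have h1 : ∀ a b, J2 F a b = - J2 F b a := by
        intro a b
        fin_cases a <;> fin_cases b <;> simp [J2]
      ext x y
      rw [Matrix.transpose_apply, Matrix.neg_apply, blk_one_apply, blk_one_apply]
      by_cases hx : x.1 = y.1
      · rw [if_pos hx, if_pos hx.symm, h1]
      · rw [if_neg hx, if_neg (fun h => hx h.symm), neg_zero])
    (by
      intro i
      have : ∀ a : Fin 2, J2 F a a = 0 := by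
        intro a; fin_cases a <;> simp [J2]
      simp only [blk, Matrix.of_apply, Equiv.Perm.one_apply, if_true]
      exact this _)
    (by
      intro h0
      have h2 := congrArg Matrix.det hsq
      rw [Matrix.det_mul, h0, mul_zero, Matrix.det_smul, Matrix.det_one, mul_one] at h2
      exact (pow_ne_zero _ (neg_ne_zero.2 one_ne_zero)) h2.symm)
  refine ⟨f, hf, fun g hg => ?_⟩
  obtain ⟨σ, A, h⟩ := hP g hg
  refine ⟨σ, A, ?_, fun c hc => hfg g _ h c (planes_form σ A c hc)⟩
  have h1 := congrArg Matrix.det h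
  rw [Matrix.det_submatrix_equiv_self, blk_det, Units.val_mul, Units.val_mul, Matrix.det_mul, Matrix.det_mul] at h1
  rw [← h1]
  have h2 : (((P⁻¹ : GL (Fin n) F) : Matrix (Fin n) (Fin n) F)).det * (P : Matrix (Fin n) (Fin n) F).det = 1 := by
    rw [← Matrix.det_mul, ← Units.val_mul, inv_mul_cancel, Units.val_one, Matrix.det_one]
  linear_combination (-(g : Matrix (Fin n) (Fin n) F).det) * h2

/-- plane decompositions over the field of two elements -/
theorem planes_two [Fintype F] (hq : Fintype.card F = 2) {t : ℕ} {D : Fin t → Submodule F (Fin n → F)}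
    (hD : IsMDecomposition 2 D) :
    ∃ f : (Fin n → F) → (Fin n → F) → F, IsSymplecticForm f ∧ decompositionStabilizer D ≤ similarityGroup f := by
  obtain ⟨f, hf, h⟩ := planes_symp hD
  refine ⟨f, hf, fun g hg => ?_⟩
  obtain ⟨σ, A, hdet, hA⟩ := h g hg
  apply hA 1
  intro i
  have h1 : (A i).det ≠ 0 := by
    intro h0
    rw [Finset.prod_eq_zero (Finset.mem_univ i) h0, mul_zero] at hdet
    exact ((Matrix.isUnit_iff_isUnit_det _).1 g.isUnit).ne_zero hdet
  have h2 := FiniteField.pow_card_sub_one_eq_one (A i).det h1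
  rw [hq] at h2
  simpa using h2

/-- two planes in a four dimensional space over the field of three elements -/
theorem planes_three [Fintype F] (hq : Fintype.card F = 3) {D : Fin 2 → Submodule F (Fin n → F)}
    (hD : IsMDecomposition 2 D) :
    ∃ f : (Fin n → F) → (Fin n → F) → F, IsSymplecticForm f ∧
      decompositionStabilizer D ⊓ specialLinear (Fin n) F ≤ similarityGroup f := by
  obtain ⟨f, hf, h⟩ := planes_symp hD
  refine ⟨f, hf, ?_⟩
  rintro g ⟨hg, hgs⟩
  obtain ⟨σ, A, hdet, hA⟩ := h g hg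
  have hg1 : (g : Matrix (Fin n) (Fin n) F).det = 1 := by
    have : Matrix.GeneralLinearGroup.det g = 1 := hgs
    have h2 := congrArg (Units.val) this
    simpa using h2
  have hs : ∀ σ : Equiv.Perm (Fin 2), Equiv.Perm.sign (σ.prodCongr (Equiv.refl (Fin 2))) = 1 := by decide
  rw [hg1, hs, Units.val_one, Int.cast_one, one_mul, Fin.prod_univ_two] at hdet
  have h0 : (A 0).det ≠ 0 := by
    intro h0; rw [h0, zero_mul] at hdet; exact one_ne_zero hdet
  have h2 := FiniteField.pow_card_sub_one_eq_one (A 0).det h0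
  rw [hq] at h2
  have h3 : (A 1).det = (A 0).det := by
    have : (A 0).det * (A 0).det = 1 := by rw [← pow_two]; exact h2
    have h4 : (A 0).det * (A 1).det = (A 0).det * (A 0).det := by rw [this]; exact hdet.symm
    exact mul_left_cancel₀ h0 h4
  apply hA (Units.mk0 _ h0)
  intro i
  fin_cases i
  · rfl
  · exact h3

end Cfsg.Agent.H29.Asc
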