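import Mathlib
import Cfsg.Agent.H29_Max4

set_option autoImplicit false

/-! two dimensional tensor factors over the field of two elements; maximal subgroups -/

namespace Cfsg.Agent.H29.Asc

open Matrix Module Cfsg.Geo Cfsg.Agent.H29.Trv Cfsg.Agent.H29.AscT Cfsg.Agent.H29.AscF
open scoped Kronecker

variable {F : Type*} [Field F] {n : ℕ}

theorem eq_zero_or_one [Fintype F] (hq : Fintype.card F = 2) (a : F) : a = 0 ∨ a = 1 := by
  by_cases h : a = 0
  · left; exact h
  · right
    have := FiniteField.pow_card_sub_one_eq_one a h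
    rw [hq] at this
    simpa using this

theorem two_eq_zero [Fintype F] (hq : Fintype.card F = 2) : (2 : F) = 0 := by
  have h : ((Fintype.card F : ℕ) : F) = 0 := FiniteField.cast_card_eq_zero F
  rw [hq] at h
  exact_mod_cast h

/-- the field of order four in the two by two matrices over the field of two elements -/
def om (F : Type*) [Field F] : Matrix (Fin 2) (Fin 2) F := !![0, 1; 1, 1]

theorem om_conj [Fintype F] (hq : Fintype.card F = 2) (a b : Matrix (Fin 2) (Fin 2) F) (hab : a * b = 1)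
    (hba : b * a = 1) : a * om F * b = om F ∨ a * om F * b = om F + 1 := by
  have h2 := two_eq_zero hq
  set x : Matrix (Fin 2) (Fin 2) F := a * om F * b with hx
  have h1 : om F * om F = om F + 1 := by
    ext i j
    fin_cases i <;> fin_cases j <;> simp [om, Matrix.mul_apply, Fin.sum_univ_two] <;> ring
  have hxx : x * x = x + 1 := by
    calc x * x = a * (om F * (b * a) * om F) * b := by rw [hx]; simp only [mul_assoc]
      _ = a * (om F + 1) * b := by rw [hba, mul_one, h1]
      _ = x + 1 := by rw [mul_add, add_mul, mul_one, hab]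
  have h00 := congrFun (congrFun hxx 0) 0
  have h01 := congrFun (congrFun hxx 0) 1
  have h10 := congrFun (congrFun hxx 1) 0
  have h11 := congrFun (congrFun hxx 1) 1
  simp only [Matrix.mul_apply, Fin.sum_univ_two, Matrix.add_apply, Matrix.one_apply] at h00 h01 h10 h11
  have key : ∀ p q r s : F, p * p + q * r = p + 1 → p * q + q * s = q → r * p + s * r = r → r * q + s * s = s + 1 →
      (p = 0 ∧ q = 1 ∧ r = 1 ∧ s = 1) ∨ (p = 1 ∧ q = 1 ∧ r = 1 ∧ s = 0) := by
    intro p q r s e1 e2 e3 e4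
    have z1 : (1 : F) + 1 = 0 := by rw [one_add_one_eq_two]; exact h2
    rcases eq_zero_or_one hq p with hp | hp <;> rcases eq_zero_or_one hq q with hq' | hq' <;>
      rcases eq_zero_or_one hq r with hr | hr <;> rcases eq_zero_or_one hq s with hs | hs <;>
      subst hp hq' hr hs <;> simp_all
  have hfin := key (x 0 0) (x 0 1) (x 1 0) (x 1 1) (by simpa using h00) (by simpa using h01) (by simpa using h10)
    (by simpa using h11)
  have z1 : (1 : F) + 1 = 0 := by rw [one_add_one_eq_two]; exact h2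
  rcases hfin with ⟨e1, e2, e3, e4⟩ | ⟨e1, e2, e3, e4⟩
  · left
    ext i j
    fin_cases i <;> fin_cases j <;> simp [om, e1, e2, e3, e4]
  · right
    ext i j
    fin_cases i <;> fin_cases j <;> simp [om, e1, e2, e3, e4, z1]

/-- the quadratic field subalgebra generated by a root of X² + X + 1 over the field of two elements -/
def quadSub [Fintype F] (hq : Fintype.card F = 2) (W : Matrix (Fin n) (Fin n) F) (hW : W * W = W + 1) :
    Subalgebra F (Matrix (Fin n) (Fin n) F) where
  carrier := {M | ∃ a b : F, M = a • 1 + b • W}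
  mul_mem' := by
    rintro _ _ ⟨a, b, rfl⟩ ⟨c, d, rfl⟩
    refine ⟨a * c + b * d, a * d + b * c + b * d, ?_⟩
    simp only [add_mul, mul_add, Matrix.smul_mul, Matrix.mul_smul, one_mul, mul_one, hW, smul_add, smul_smul, add_smul]
    module
  add_mem' := by
    rintro _ _ ⟨a, b, rfl⟩ ⟨c, d, rfl⟩
    exact ⟨a + c, b + d, by module⟩
  algebraMap_mem' := by
    intro r
    exact ⟨r, 0, by rw [Algebra.algebraMap_eq_smul_one, zero_smul, add_zero]⟩

theorem quadSub_field [Fintype F] [Nonempty (Fin n)] (hq : Fintype.card F = 2) (W : Matrix (Fin n) (Fin n) F) (hW : W * W = W + 1) :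
    IsFieldSubalgebra 2 (quadSub hq W hW) := by
  have h2 := two_eq_zero hq
  have z1 : (1 : F) + 1 = 0 := by rw [one_add_one_eq_two]; exact h2
  have hns : ∀ c : F, W ≠ c • 1 := by
    intro c hc
    have h3 : (c • (1 : Matrix (Fin n) (Fin n) F)) * (c • 1) = c • 1 + 1 := by rw [← hc]; exact hW
    rw [Matrix.smul_mul, one_mul, smul_smul] at h3
    have h4 := congrFun (congrFun h3 (Classical.arbitrary _)) (Classical.arbitrary _)
    simp only [Matrix.smul_apply, Matrix.add_apply, Matrix.one_apply_eq, smul_eq_mul, mul_one] at h4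
    rcases eq_zero_or_one hq c with h | h
    · subst h; simp at h4
    · subst h; rw [z1, mul_one] at h4; exact one_ne_zero h4
  refine ⟨?_, ?_, ?_⟩
  · rintro _ ⟨a, b, rfl⟩ _ ⟨c, d, rfl⟩
    simp only [add_mul, mul_add, Matrix.smul_mul, Matrix.mul_smul, one_mul, mul_one, smul_add, smul_smul]
    rw [mul_comm c a, mul_comm c b, mul_comm d a, mul_comm d b]
    abel
  · rintro _ ⟨a, b, rfl⟩ hne
    have hW2 : W * (W + 1) = 1 := by
      rw [mul_add, hW, mul_one]
      have : W + 1 + W = (1 + 1 : F) • W + 1 := by module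
      rw [this, z1, zero_smul, zero_add]
    rcases eq_zero_or_one hq a with ha | ha <;> rcases eq_zero_or_one hq b with hb | hb <;> subst ha hb
    · exfalso; apply hne; simp
    · refine ⟨W + 1, ⟨1, 1, by module⟩, ?_⟩
      rw [zero_smul, one_smul, zero_add]
      exact hW2
    · refine ⟨1, ⟨1, 0, by module⟩, ?_⟩
      simp
    · refine ⟨W, ⟨0, 1, by module⟩, ?_⟩
      rw [one_smul, one_smul, add_mul, one_mul, hW]
      have : W + (W + 1) = (1 + 1 : F) • W + 1 := by module
      rw [this, z1, zero_smul, zero_add]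
  · let φ : (F × F) →ₗ[F] (quadSub hq W hW) :=
      { toFun := fun x => ⟨x.1 • 1 + x.2 • W, ⟨x.1, x.2, rfl⟩⟩
        map_add' := fun x y => by
          apply Subtype.ext
          show (x.1 + y.1) • (1 : Matrix (Fin n) (Fin n) F) + (x.2 + y.2) • W = (x.1 • 1 + x.2 • W) + (y.1 • 1 + y.2 • W)
          module
        map_smul' := fun c x => by
          apply Subtype.ext
          show (c * x.1) • (1 : Matrix (Fin n) (Fin n) F) + (c * x.2) • W = c • (x.1 • 1 + x.2 • W)
          module }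
    have hbij : Function.Bijective φ := by
      constructor
      · rw [← LinearMap.ker_eq_bot, LinearMap.ker_eq_bot']
        rintro ⟨a, b⟩ hab
        have h3 : a • (1 : Matrix (Fin n) (Fin n) F) + b • W = 0 := congrArg Subtype.val hab
        by_cases hb : b = 0
        · subst hb
          rw [zero_smul, add_zero] at h3
          have h4 := congrFun (congrFun h3 (Classical.arbitrary _)) (Classical.arbitrary _)
          simp at h4
          rw [h4]; rfl
        · exfalso
          apply hns (-(b⁻¹ * a))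
          have h4 : b⁻¹ • (a • (1 : Matrix (Fin n) (Fin n) F) + b • W) = 0 := by rw [h3, smul_zero]
          rw [smul_add, smul_smul, smul_smul, inv_mul_cancel₀ hb, one_smul] at h4
          rw [neg_smul]
          exact (neg_eq_of_add_eq_zero_right h4).symm
      · rintro ⟨_, a, b, rfl⟩
        exact ⟨(a, b), rfl⟩
    have := (LinearEquiv.ofBijective φ hbij).finrank_eq
    rw [← this]
    simp

theorem quadSub_norm [Fintype F] (hq : Fintype.card F = 2) (W : Matrix (Fin n) (Fin n) F) (hW : W * W = W + 1)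
    {H : Subgroup (GL (Fin n) F)}
    (h : ∀ g ∈ H, (g : Matrix (Fin n) (Fin n) F) * W * ((g⁻¹ : GL (Fin n) F) : Matrix (Fin n) (Fin n) F) = W ∨
      (g : Matrix (Fin n) (Fin n) F) * W * ((g⁻¹ : GL (Fin n) F) : Matrix (Fin n) (Fin n) F) = W + 1) :
    H ≤ subalgebraNormalizer (quadSub hq W hW) := by
  have key : ∀ g ∈ H, ∀ k ∈ quadSub hq W hW,
      (g : Matrix (Fin n) (Fin n) F) * k * ((g⁻¹ : GL (Fin n) F) : Matrix (Fin n) (Fin n) F) ∈ quadSub hq W hW := by
    rintro g hg _ ⟨a, b, rfl⟩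
    have hgg : (g : Matrix (Fin n) (Fin n) F) * ((g⁻¹ : GL (Fin n) F) : Matrix (Fin n) (Fin n) F) = 1 := by
      rw [← Units.val_mul, mul_inv_cancel, Units.val_one]
    have e1 : (g : Matrix (Fin n) (Fin n) F) * (a • 1 + b • W) * ((g⁻¹ : GL (Fin n) F) : Matrix (Fin n) (Fin n) F) =
        a • 1 + b • ((g : Matrix (Fin n) (Fin n) F) * W * ((g⁻¹ : GL (Fin n) F) : Matrix (Fin n) (Fin n) F)) := by
      rw [mul_add, add_mul, Matrix.mul_smul, Matrix.smul_mul, mul_one, hgg, Matrix.mul_smul, Matrix.smul_mul]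
    rw [e1]
    rcases h g hg with h1 | h1
    · rw [h1]; exact ⟨a, b, rfl⟩
    · rw [h1]; exact ⟨a + b, b, by module⟩
  intro g hg k
  constructor
  · exact fun hk => key g hg k hk
  · intro hk
    have h1 := key g⁻¹ (H.inv_mem hg) _ hk
    rw [inv_inv] at h1
    have h2 : ((g⁻¹ : GL (Fin n) F) : Matrix (Fin n) (Fin n) F) * ((g : Matrix (Fin n) (Fin n) F) * k *
        ((g⁻¹ : GL (Fin n) F) : Matrix (Fin n) (Fin n) F)) * (g : Matrix (Fin n) (Fin n) F) = k := by
      have hgg : ((g⁻¹ : GL (Fin n) F) : Matrix (Fin n) (Fin n) F) * (g : Matrix (Fin n) (Fin n) F) = 1 := by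
        rw [← Units.val_mul, inv_mul_cancel, Units.val_one]
      calc _ = (((g⁻¹ : GL (Fin n) F) : Matrix (Fin n) (Fin n) F) * (g : Matrix (Fin n) (Fin n) F)) * k *
          (((g⁻¹ : GL (Fin n) F) : Matrix (Fin n) (Fin n) F) * (g : Matrix (Fin n) (Fin n) F)) := by simp only [mul_assoc]
        _ = k := by rw [hgg, one_mul, mul_one]
    rw [h2] at h1
    exact h1

/-- tensor decompositions with a two dimensional factor over the field of two elements -/
theorem ten_two [Fintype F] (hn : 0 < n) (hq : Fintype.card F = 2) {m : ℕ} (e : Fin n ≃ Fin 2 × Fin m) (P : GL (Fin n) F) :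
    ∃ K : Subalgebra F (Matrix (Fin n) (Fin n) F), IsFieldSubalgebra 2 K ∧
      tensorProductSubgroup 2 m e P ≤ subalgebraNormalizer K := by
  classical
  haveI : Nonempty (Fin n) := ⟨⟨0, hn⟩⟩
  set W : Matrix (Fin n) (Fin n) F := (P : Matrix (Fin n) (Fin n) F) *
    (om F ⊗ₖ (1 : Matrix (Fin m) (Fin m) F)).submatrix e e * ((P⁻¹ : GL (Fin n) F) : Matrix (Fin n) (Fin n) F) with hWdef
  have hPP : ((P⁻¹ : GL (Fin n) F) : Matrix (Fin n) (Fin n) F) * (P : Matrix (Fin n) (Fin n) F) = 1 := by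
    rw [← Units.val_mul, inv_mul_cancel, Units.val_one]
  have hPP' : (P : Matrix (Fin n) (Fin n) F) * ((P⁻¹ : GL (Fin n) F) : Matrix (Fin n) (Fin n) F) = 1 := by
    rw [← Units.val_mul, mul_inv_cancel, Units.val_one]
  have h1 : om F * om F = om F + 1 := by
    have h2 := two_eq_zero hq
    have z1 : (1 : F) + 1 = 0 := by rw [one_add_one_eq_two]; exact h2
    ext i j
    fin_cases i <;> fin_cases j <;> simp [om, Matrix.mul_apply, Fin.sum_univ_two]
  have hadd : ∀ x : Matrix (Fin 2) (Fin 2) F, ((x + 1) ⊗ₖ (1 : Matrix (Fin m) (Fin m) F)).submatrix e e =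
      (x ⊗ₖ (1 : Matrix (Fin m) (Fin m) F)).submatrix e e + 1 := by
    intro x
    rw [Matrix.add_kronecker, Matrix.one_kronecker_one]
    ext i j
    simp [Matrix.one_apply]
  have hconj : ∀ A B : Matrix (Fin n) (Fin n) F, ((P : Matrix (Fin n) (Fin n) F) * A *
      ((P⁻¹ : GL (Fin n) F) : Matrix (Fin n) (Fin n) F)) * ((P : Matrix (Fin n) (Fin n) F) * B *
      ((P⁻¹ : GL (Fin n) F) : Matrix (Fin n) (Fin n) F)) = (P : Matrix (Fin n) (Fin n) F) * (A * B) *
      ((P⁻¹ : GL (Fin n) F) : Matrix (Fin n) (Fin n) F) := by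
    intro A B
    calc _ = (P : Matrix (Fin n) (Fin n) F) * A * (((P⁻¹ : GL (Fin n) F) : Matrix (Fin n) (Fin n) F) *
        (P : Matrix (Fin n) (Fin n) F)) * B * ((P⁻¹ : GL (Fin n) F) : Matrix (Fin n) (Fin n) F) := by
          simp only [mul_assoc]
      _ = _ := by rw [hPP, mul_one]; simp only [mul_assoc]
  have hW : W * W = W + 1 := by
    rw [hWdef, hconj, Matrix.submatrix_mul_equiv, ← Matrix.mul_kronecker_mul, h1, one_mul, hadd, mul_add, add_mul,
      mul_one, hPP']
  refine ⟨quadSub hq W hW, quadSub_field hq W hW, quadSub_norm hq W hW ?_⟩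
  rintro _ ⟨_, ⟨X, ⟨a, b, hX⟩, rfl⟩, rfl⟩
  have hXi : ((X⁻¹ : GL (Fin 2 × Fin m) F) : Matrix (Fin 2 × Fin m) (Fin 2 × Fin m) F) =
      ((a⁻¹ : GL (Fin 2) F) : Matrix (Fin 2) (Fin 2) F) ⊗ₖ ((b⁻¹ : GL (Fin m) F) : Matrix (Fin m) (Fin m) F) := by
    have h3 : (X : Matrix (Fin 2 × Fin m) (Fin 2 × Fin m) F) * (((a⁻¹ : GL (Fin 2) F) : Matrix (Fin 2) (Fin 2) F) ⊗ₖ
        ((b⁻¹ : GL (Fin m) F) : Matrix (Fin m) (Fin m) F)) = 1 := by
      rw [hX, ← Matrix.mul_kronecker_mul, ← Units.val_mul, ← Units.val_mul, mul_inv_cancel, mul_inv_cancel,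
        Units.val_one, Units.val_one, Matrix.one_kronecker_one]
    calc _ = ((X⁻¹ : GL (Fin 2 × Fin m) F) : Matrix (Fin 2 × Fin m) (Fin 2 × Fin m) F) *
          ((X : Matrix (Fin 2 × Fin m) (Fin 2 × Fin m) F) * (((a⁻¹ : GL (Fin 2) F) : Matrix (Fin 2) (Fin 2) F) ⊗ₖ
        ((b⁻¹ : GL (Fin m) F) : Matrix (Fin m) (Fin m) F))) := by rw [h3, mul_one]
      _ = _ := by rw [← mul_assoc, ← Units.val_mul, inv_mul_cancel, Units.val_one, one_mul]
  have hval : (((MulAut.conj P).toMonoidHom ((glReindex e.symm).toMonoidHom X) : GL (Fin n) F) : Matrix (Fin n) (Fin n) F) =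
      (P : Matrix (Fin n) (Fin n) F) * (X : Matrix (Fin 2 × Fin m) (Fin 2 × Fin m) F).submatrix e e *
      ((P⁻¹ : GL (Fin n) F) : Matrix (Fin n) (Fin n) F) := rfl
  have hvali : (((((MulAut.conj P).toMonoidHom ((glReindex e.symm).toMonoidHom X))⁻¹ : GL (Fin n) F)) : Matrix (Fin n) (Fin n) F) =
      (P : Matrix (Fin n) (Fin n) F) * ((X⁻¹ : GL (Fin 2 × Fin m) F) : Matrix (Fin 2 × Fin m) (Fin 2 × Fin m) F).submatrix e e *
      ((P⁻¹ : GL (Fin n) F) : Matrix (Fin n) (Fin n) F) := by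
    rw [← map_inv, ← map_inv]
    rfl
  have hmain : (((MulAut.conj P).toMonoidHom ((glReindex e.symm).toMonoidHom X) : GL (Fin n) F) : Matrix (Fin n) (Fin n) F) * W *
      (((((MulAut.conj P).toMonoidHom ((glReindex e.symm).toMonoidHom X))⁻¹ : GL (Fin n) F)) : Matrix (Fin n) (Fin n) F) =
      (P : Matrix (Fin n) (Fin n) F) *
      (((a : Matrix (Fin 2) (Fin 2) F) * om F * ((a⁻¹ : GL (Fin 2) F) : Matrix (Fin 2) (Fin 2) F)) ⊗ₖ
        (1 : Matrix (Fin m) (Fin m) F)).submatrix e e *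
      ((P⁻¹ : GL (Fin n) F) : Matrix (Fin n) (Fin n) F) := by
    rw [hval, hvali, hWdef, hconj, hconj, Matrix.submatrix_mul_equiv, Matrix.submatrix_mul_equiv, hX, hXi,
      ← Matrix.mul_kronecker_mul, ← Matrix.mul_kronecker_mul, mul_one, ← Units.val_mul b, mul_inv_cancel, Units.val_one]
  rw [hmain]
  rcases om_conj hq (a : Matrix (Fin 2) (Fin 2) F) ((a⁻¹ : GL (Fin 2) F) : Matrix (Fin 2) (Fin 2) F)
    (by rw [← Units.val_mul, mul_inv_cancel, Units.val_one]) (by rw [← Units.val_mul, inv_mul_cancel, Units.val_one])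
    with h | h
  · left
    rw [h]
  · right
    rw [h, hadd, mul_add, add_mul, mul_one, hPP']

end Cfsg.Agent.H29.Asc
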