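import Mathlib
import Cfsg.Agent.H29_Max5
import Cfsg.Agent.H29_AscR
import Cfsg.Agent.H29_AscV

set_option autoImplicit false

/-! maximal subgroups of the special linear groups -/

namespace Cfsg.Agent.H29.Asc

open Matrix Module Cfsg.Geo Cfsg.Agent.H29.Trv Cfsg.Agent.H29.AscT Cfsg.Agent.H29.AscF
open scoped Kronecker

variable {F : Type*} [Field F] {n : ℕ}

theorem eq_of_max {H M : Subgroup (GL (Fin n) F)} (hH : IsMaximalIn (specialLinear (Fin n) F) H) (hle : H ≤ M)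
    (hM : ¬ specialLinear (Fin n) F ≤ M) : H = M ⊓ specialLinear (Fin n) F := by
  rcases hH.2 (M ⊓ specialLinear (Fin n) F) (le_inf hle hH.1.le) inf_le_right with h | h
  · exact h.symm
  · exact absurd (inf_eq_right.1 h) hM

theorem SLmax [Fintype F] (hn : 3 ≤ n) {H : Subgroup (GL (Fin n) F)}
    (hH : IsMaximalIn (specialLinear (Fin n) F) H) :
    (∃ W : Submodule F (Fin n → F), W ≠ ⊥ ∧ W ≠ ⊤ ∧ H = subspaceStabilizer W ⊓ specialLinear (Fin n) F) ∨
    (∃ (t m : ℕ) (D : Fin t → Submodule F (Fin n → F)), t * m = n ∧ 2 ≤ t ∧ ¬ (m = 1 ∧ Fintype.card F ≤ 4) ∧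
      ¬ (m = 2 ∧ Fintype.card F = 2) ∧ ¬ (m = 2 ∧ t = 2 ∧ Fintype.card F = 3) ∧ IsMDecomposition m D ∧
      H = decompositionStabilizer D ⊓ specialLinear (Fin n) F) ∨
    (∃ (r : ℕ) (K : Subalgebra F (Matrix (Fin n) (Fin n) F)), r.Prime ∧ r ∣ n ∧ IsFieldSubalgebra r K ∧
      H = subalgebraNormalizer K ⊓ specialLinear (Fin n) F) ∨
    (∃ (n₁ n₂ : ℕ) (e : Fin n ≃ Fin n₁ × Fin n₂) (P : GL (Fin n) F), 2 ≤ n₁ ∧ n₁ < n₂ ∧ n₁ * n₂ = n ∧
      ¬ (n₁ = 2 ∧ Fintype.card F = 2) ∧ H = tensorProductSubgroup n₁ n₂ e P ⊓ specialLinear (Fin n) F) ∨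
    (∃ (F₀ : Subfield F) (r : ℕ) (P : GL (Fin n) F), r.Prime ∧ Fintype.card F = Nat.card F₀ ^ r ∧
      H = subfieldSubgroup F₀ P ⊓ specialLinear (Fin n) F) ∨
    (∃ (r m : ℕ) (R : Subgroup (GL (Fin n) F)), r.Prime ∧ n = r ^ m ∧ IsLinearSymplecticTypeData r R ∧
      H = subgroupNormalizer R ⊓ specialLinear (Fin n) F) ∨
    (∃ (m t : ℕ) (e : Fin n ≃ (Fin t → Fin m)) (P : GL (Fin n) F), 3 ≤ m ∧ 2 ≤ t ∧ n = m ^ t ∧
      H = tensorWreathSubgroup m t e P ⊓ specialLinear (Fin n) F) ∨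
    (Odd (Fintype.card F) ∧ ∃ Q : (Fin n → F) → F, IsNondegenerateQuadraticForm Q ∧
      H = quadSimilarityGroup Q ⊓ specialLinear (Fin n) F) ∨
    (∃ f : (Fin n → F) → (Fin n → F) → F, IsSymplecticForm f ∧ Even n ∧
      H = similarityGroup f ⊓ specialLinear (Fin n) F) ∨
    (∃ (σ : F ≃+* F) (f : (Fin n → F) → (Fin n → F) → F), IsUnitaryForm σ f ∧
      H = similarityGroup f ⊓ specialLinear (Fin n) F) ∨
    InLinearResidualClass H := by
  classical
  by_contra hcon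
  push Not at hcon
  obtain ⟨c1, c2, c3, c4, c5, c6, c7, c8, c9, c10, c11⟩ := hcon
  have d1 : ∀ W : Submodule F (Fin n → F), W ≠ ⊥ → W ≠ ⊤ → ¬ H ≤ subspaceStabilizer W := fun W h0 h1 hle =>
    c1 W h0 h1 (eq_of_max hH hle (not_SL_le_stab h0 h1))
  have d3 : ∀ (r : ℕ) (K : Subalgebra F (Matrix (Fin n) (Fin n) F)), r.Prime → IsFieldSubalgebra r K →
      ¬ H ≤ subalgebraNormalizer K := fun r K hr hK hle =>
    c3 r K hr (fld_dvd (by omega) hK) hK (eq_of_max hH hle (not_SL_le_fld hn hr.one_lt hK))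
  have d8 : ∀ Q : (Fin n → F) → F, IsNondegenerateQuadraticForm Q → Odd (Fintype.card F) →
      ¬ H ≤ quadSimilarityGroup Q := fun Q hQ ho hle =>
    c8 ho Q hQ (eq_of_max hH hle (not_SL_le_quad hn hQ))
  have d9 : ∀ f : (Fin n → F) → (Fin n → F) → F, IsSymplecticForm f → ¬ H ≤ similarityGroup f := fun f hf hle =>
    c9 f hf (even_of_symp hf) (eq_of_max hH hle (not_SL_le_sim hn hf.bilinear.add_right
      (fun v hv => (hf.nondegenerate v hv).1)))
  have d10 : ∀ (σ : F ≃+* F) (f : (Fin n → F) → (Fin n → F) → F), IsUnitaryForm σ f → ¬ H ≤ similarityGroup f :=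
    fun σ f hf hle => c10 σ f hf (eq_of_max hH hle (not_SL_le_sim hn (fun v x y => by
      rw [hf.herm, hf.add_left, map_add, ← hf.herm, ← hf.herm]) (fun v hv => (hf.nondegenerate v hv).1)))
  apply c11
  apply NonGeom.residual hn
  refine ⟨?_, ?_, d3, ?_, ?_, ?_, ?_, d9, d10, d8⟩
  · intro W hW
    by_contra hcon
    push Not at hcon
    refine d1 W hcon.1 hcon.2 (fun g hg => ?_)
    rw [mem_stab_iff]
    intro w hw
    exact hW _ ⟨g, hg, rfl⟩ ⟨w, hw, rfl⟩
  · intro m t D ht hD hle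
    by_cases e1 : m = 1 ∧ Fintype.card F ≤ 4
    · obtain ⟨rfl, hq⟩ := e1
      rcases lines_small hn hq hD with ⟨W, h0, h1, h⟩ | ⟨Q, hQ, h2, h⟩ | ⟨σ, f, hf, h⟩
      · exact d1 W h0 h1 (hle.trans h)
      · exact d8 Q hQ (odd_card_of_two_ne h2) (hle.trans h)
      · exact d10 σ f hf (hle.trans h)
    by_cases e2 : m = 2 ∧ Fintype.card F = 2
    · obtain ⟨rfl, hq⟩ := e2
      obtain ⟨f, hf, h⟩ := planes_two hq hD
      exact d9 f hf (hle.trans h)
    by_cases e3 : m = 2 ∧ t = 2 ∧ Fintype.card F = 3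
    · obtain ⟨rfl, rfl, hq⟩ := e3
      obtain ⟨f, hf, h⟩ := planes_three hq hD
      exact d9 f hf ((le_inf hle hH.1.le).trans h)
    exact c2 t m D (dec_card hD) ht (fun h => not_le.1 (fun h' => e1 ⟨h, h'⟩)) (fun h h' => e2 ⟨h, h'⟩)
      (fun h h' h'' => e3 ⟨h, h', h''⟩) hD (eq_of_max hH hle (not_SL_le_dec hD))
  · intro n₁ n₂ e P h1 h2 hle
    by_cases e1 : n₁ = 2 ∧ Fintype.card F = 2
    · obtain ⟨rfl, hq⟩ := e1
      obtain ⟨K, hK, h⟩ := ten_two (by omega) hq e P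
      exact d3 2 K Nat.prime_two hK (hle.trans h)
    · refine c4 n₁ n₂ e P h1 h2 ?_ (fun h h' => e1 ⟨h, h'⟩) (eq_of_max hH hle (not_SL_le_ten h1 (by omega) e P))
      have := Fintype.card_congr e
      rw [Fintype.card_fin, Fintype.card_prod, Fintype.card_fin, Fintype.card_fin] at this
      exact this.symm
  · intro F₀ r P hr hcard hle
    refine c5 F₀ r P hr hcard (eq_of_max hH hle (not_SL_le_sub (by omega) ?_ P))
    rintro rfl
    have h1 : Nat.card (⊤ : Subfield F) = Fintype.card F := by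
      rw [← Nat.card_eq_fintype_card]
      exact Nat.card_congr (Subfield.topEquiv).toEquiv
    rw [h1] at hcard
    have h2 := Fintype.one_lt_card (α := F)
    have h3 : Fintype.card F ^ 1 < Fintype.card F ^ r := Nat.pow_lt_pow_right h2 hr.one_lt
    rw [pow_one, ← hcard] at h3
    exact lt_irrefl _ h3
  · intro r m R hnm hR hle
    obtain ⟨p, e, hrp, hmin, -⟩ := hR.field
    haveI := hmin.2.1
    haveI : Fact p.Prime := ⟨hmin.1⟩
    exact c6 r m R hR.symplecticType.prime hnm hR (eq_of_max hH hle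
      (not_SL_le_norm hn hR.symplecticType.prime hrp hR.symplecticType.pGroup hR.absIrred))
  · intro m t e P h1 h2 hle
    refine c7 m t e P h1 h2 ?_ (eq_of_max hH hle (not_SL_le_wr (by omega) h2 e P))
    have := Fintype.card_congr e
    rw [Fintype.card_fin, Fintype.card_fun, Fintype.card_fin, Fintype.card_fin] at this
    exact this

/-! ### the arithmetic of the sixth class -/

theorem sty_odd [Fintype F] {r : ℕ} {R : Subgroup (GL (Fin n) F)} (hr : r ≠ 2)
    (hR : IsLinearSymplecticTypeData r R) :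
    ∃ p e : ℕ, p.Prime ∧ CharP F p ∧ Fintype.card F = p ^ e ∧ Odd e ∧ e ∣ r - 1 ∧ 0 < e ∧ p ^ e % r = 1 ∧
      (∀ d, 0 < d → d < e → p ^ d % r ≠ 1) := by
  obtain ⟨p, e, hrp, ⟨hp, hch, hcard, hdvd, hmin⟩, h | h | h⟩ := hR.field
  · obtain ⟨ho, hoe, hc, -⟩ := h
    rw [hc] at hdvd hmin
    have hrprime := hR.symplecticType.prime
    haveI : Fact r.Prime := ⟨hrprime⟩
    have hcop : ¬ r ∣ p := fun h => hrp ((Nat.prime_dvd_prime_iff_eq hrprime hp).1 h)
    have hiff : ∀ d, r ∣ p ^ d - 1 ↔ p ^ d % r = 1 := by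
      intro d
      have h1 : 1 ≤ p ^ d := Nat.one_le_pow _ _ hp.pos
      constructor
      · intro h
        have h2 := (Nat.modEq_iff_dvd' h1).2 h
        have h3 : 1 % r = p ^ d % r := h2
        rw [← h3, Nat.mod_eq_of_lt hrprime.one_lt]
      · intro h
        apply (Nat.modEq_iff_dvd' h1).1
        show 1 % r = p ^ d % r
        rw [h, Nat.mod_eq_of_lt hrprime.one_lt]
    have hcard1 : 1 < Fintype.card F := Fintype.one_lt_card
    have he : 0 < e := by
      rcases Nat.eq_zero_or_pos e with h0 | h0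
      · subst h0; rw [pow_zero] at hcard; omega
      · exact h0
    refine ⟨p, e, hp, hch, hcard, hoe, ?_, he, (hiff e).1 hdvd, fun d hd hde h => hmin d hd hde ((hiff d).2 h)⟩
    -- e is the order of p modulo r
    have hz : ∀ d, r ∣ p ^ d - 1 ↔ ((p : ZMod r)) ^ d = 1 := by
      intro d
      rw [← CharP.cast_eq_zero_iff (ZMod r) r, Nat.cast_sub (Nat.one_le_pow _ _ hp.pos), sub_eq_zero]
      push_cast
      rfl
    have h1 : orderOf (p : ZMod r) = e := by
      rw [orderOf_eq_iff he]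
      refine ⟨(hz e).1 hdvd, fun d hde hd h => hmin d hd hde ((hz d).2 h)⟩
    rw [← h1]
    apply orderOf_dvd_of_pow_eq_one
    apply ZMod.pow_card_sub_one_eq_one
    intro h0
    exact hcop ((CharP.cast_eq_zero_iff (ZMod r) r p).1 h0)
  · exact absurd h.1 hr
  · exact absurd h.1 hr

theorem sty_two [Fintype F] (hn : 3 ≤ n) {R : Subgroup (GL (Fin n) F)}
    (hR : IsLinearSymplecticTypeData 2 R) :
    ∃ p : ℕ, p.Prime ∧ Fintype.card F = p ∧ p % 4 = 1 := by
  obtain ⟨p, e, hrp, ⟨hp, hch, hcard, hdvd, hmin⟩, h | h | h⟩ := hR.field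
  · exact absurd h.1 (by decide)
  · obtain ⟨-, rfl, hc, -⟩ := h
    rw [hc, pow_one] at hdvd
    rw [pow_one] at hcard
    have := hp.two_le
    exact ⟨p, hp, hcard, by omega⟩
  · have := h.2.2.1
    rw [Fintype.card_fin] at this
    omega

end Cfsg.Agent.H29.Asc
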