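import Mathlib
import Cfsg.Agent.H29_Max6

set_option autoImplicit false

/-! arithmetic for the lists of maximal subgroups -/

namespace Cfsg.Agent.H29.Asc

open Matrix Module Cfsg.Geo

variable {F : Type*} [Field F] {n : ℕ}

theorem prime_of_pow {N r m q : ℕ} (hr : r.Prime) (hq : q.Prime) (h : N = r ^ m) (hqn : q ∣ N) : q = r := by
  rw [h] at hqn
  exact (Nat.prime_dvd_prime_iff_eq hq hr).1 (hq.dvd_of_dvd_pow hqn)

theorem wr_small {N m t : ℕ} (h1 : 3 ≤ m) (h2 : 2 ≤ t) (h : N = m ^ t) (hN : N ≤ 12) : m = 3 ∧ t = 2 ∧ N = 9 := by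
  have h3 : m ^ 2 ≤ m ^ t := Nat.pow_le_pow_right (by omega) h2
  have h4 : m = 3 := by
    by_contra hne
    have h5 : 4 ≤ m := by omega
    nlinarith
  subst h4
  have h6 : t = 2 := by
    by_contra hne
    have h7 : 3 ^ 3 ≤ 3 ^ t := Nat.pow_le_pow_right (by omega) (by omega)
    omega
  subst h6
  exact ⟨rfl, rfl, by rw [h]; norm_num⟩

theorem sty_small [Fintype F] {r : ℕ} {R : Subgroup (GL (Fin n) F)} (hr : r = 3 ∨ r = 5)
    (hR : IsLinearSymplecticTypeData r R) :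
    ∃ p : ℕ, p.Prime ∧ Fintype.card F = p ∧ p % r = 1 := by
  obtain ⟨p, e, hp, hch, hcard, ho, hdvd, he, hmod, -⟩ := sty_odd (by omega) hR
  have he1 : e = 1 := by
    obtain ⟨k, rfl⟩ := ho
    rcases hr with rfl | rfl
    · have := Nat.le_of_dvd (by norm_num) hdvd
      omega
    · have := Nat.le_of_dvd (by norm_num) hdvd
      have h3 : ¬ (3 ∣ 4) := by norm_num
      by_contra hne
      have : k = 1 := by omega
      subst this
      exact h3 hdvd
  subst he1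
  rw [pow_one] at hcard hmod
  exact ⟨p, hp, hcard, hmod⟩

theorem sty_seven [Fintype F] {R : Subgroup (GL (Fin n) F)}
    (hR : IsLinearSymplecticTypeData 7 R) :
    ∃ p : ℕ, p.Prime ∧ CharP F p ∧ ((Fintype.card F = p ∧ p % 7 = 1) ∨
      (Fintype.card F = p ^ 3 ∧ (p % 7 = 2 ∨ p % 7 = 4))) := by
  obtain ⟨p, e, hp, hch, hcard, ho, hdvd, he, hmod, hmin⟩ := sty_odd (by omega) hR
  refine ⟨p, hp, hch, ?_⟩
  obtain ⟨k, rfl⟩ := ho
  have hle := Nat.le_of_dvd (by norm_num) hdvd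
  have hk : k = 0 ∨ k = 1 ∨ k = 2 := by omega
  rcases hk with rfl | rfl | rfl
  · left
    simp only [mul_zero, zero_add, pow_one] at hcard hmod
    exact ⟨hcard, hmod⟩
  · right
    refine ⟨hcard, ?_⟩
    have h1 := hmin 1 (by norm_num) (by norm_num)
    rw [pow_one] at h1
    have h2 : (p % 7) ^ 3 % 7 = 1 := by rw [← Nat.pow_mod]; exact hmod
    have h3 : p % 7 < 7 := Nat.mod_lt _ (by norm_num)
    generalize p % 7 = x at h1 h2 h3 ⊢
    interval_cases x <;> simp_all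
  · norm_num at hdvd

theorem sty_eleven [Fintype F] {R : Subgroup (GL (Fin n) F)}
    (hR : IsLinearSymplecticTypeData 11 R) :
    ∃ p : ℕ, p.Prime ∧ CharP F p ∧ ((Fintype.card F = p ∧ p % 11 = 1) ∨
      (Fintype.card F = p ^ 5 ∧ (p % 11 = 3 ∨ p % 11 = 4 ∨ p % 11 = 5 ∨ p % 11 = 9))) := by
  obtain ⟨p, e, hp, hch, hcard, ho, hdvd, he, hmod, hmin⟩ := sty_odd (by omega) hR
  refine ⟨p, hp, hch, ?_⟩
  obtain ⟨k, rfl⟩ := ho
  have hle := Nat.le_of_dvd (by norm_num) hdvd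
  have hk : k = 0 ∨ k = 1 ∨ k = 2 ∨ k = 3 ∨ k = 4 := by omega
  rcases hk with rfl | rfl | rfl | rfl | rfl
  · left
    simp only [mul_zero, zero_add, pow_one] at hcard hmod
    exact ⟨hcard, hmod⟩
  · norm_num at hdvd
  · right
    refine ⟨hcard, ?_⟩
    have h1 := hmin 1 (by norm_num) (by norm_num)
    rw [pow_one] at h1
    have h2 : (p % 11) ^ 5 % 11 = 1 := by rw [← Nat.pow_mod]; exact hmod
    have h3 : p % 11 < 11 := Nat.mod_lt _ (by norm_num)
    generalize p % 11 = x at h1 h2 h3 ⊢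
    interval_cases x <;> simp_all
  · norm_num at hdvd
  · norm_num at hdvd

end Cfsg.Agent.H29.Asc
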