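import Mathlib
import Cfsg.Agent.H29_Un7
import Cfsg.Agent.H29_Max7

set_option autoImplicit false

/-! arithmetic for the lists of maximal subgroups of the special unitary groups -/

namespace Cfsg.Agent.H29.Fm

open Matrix Module Cfsg.Geo Cfsg.Agent.H29.Clifford Cfsg.Agent.H29.Asc Cfsg.Agent.H29.AscF Cfsg.Agent.H29.Trv
  Cfsg.Agent.H29.AscT
open scoped commutatorElement Kronecker

variable {F : Type*} [Field F] {n k m r t w : ℕ}

theorem su_sty [Fintype F] {q z p e : ℕ} (hF : Fintype.card F = q ^ 2) (hmin : IsMinimalFieldFor z p e F) :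
    p.Prime ∧ CharP F p ∧ ∃ a, 0 < a ∧ q = p ^ a ∧ e = 2 * a ∧ z ∣ p ^ (2 * a) - 1 ∧
      ∀ d, 0 < d → d < 2 * a → ¬ z ∣ p ^ d - 1 := by
  obtain ⟨hp, hch, hcard, hdvd, hmin⟩ := hmin
  have hq1 := Cfsg.Agent.H5.Fld.one_lt_q hF
  have h1 : q ∣ p ^ e := ⟨q, by rw [← hcard, hF, pow_two]⟩
  obtain ⟨a, ha, rfl⟩ := (Nat.dvd_prime_pow hp).1 h1
  have ha0 : 0 < a := by
    rcases Nat.eq_zero_or_pos a with h0 | h0
    · subst h0
      rw [pow_zero] at hq1
      omega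
    · exact h0
  have he : e = 2 * a := by
    rw [hF, ← pow_mul] at hcard
    have := Nat.pow_right_injective hp.two_le hcard
    omega
  subst he
  exact ⟨hp, hch, a, ha0, rfl, rfl, hdvd, hmin⟩

theorem su_sty_odd [Fintype F] {q r p e : ℕ} (hF : Fintype.card F = q ^ 2) (hr : r.Prime) (hrp : r ≠ p)
    (hmin : IsMinimalFieldFor r p e F) :
    p.Prime ∧ CharP F p ∧ ∃ a, 0 < a ∧ q = p ^ a ∧ 2 * a ∣ r - 1 ∧ p ^ (2 * a) % r = 1 ∧
      ∀ d, 0 < d → d < 2 * a → p ^ d % r ≠ 1 := by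
  obtain ⟨hp, hch, a, ha, hq, -, hdvd, hm⟩ := su_sty hF hmin
  haveI : Fact r.Prime := ⟨hr⟩
  have hcop : ¬ r ∣ p := fun h => hrp ((Nat.prime_dvd_prime_iff_eq hr hp).1 h)
  have hiff : ∀ d, r ∣ p ^ d - 1 ↔ p ^ d % r = 1 := by
    intro d
    have h1 : 1 ≤ p ^ d := Nat.one_le_pow _ _ hp.pos
    constructor
    · intro h
      have h2 := (Nat.modEq_iff_dvd' h1).2 h
      have h3 : 1 % r = p ^ d % r := h2
      rw [← h3, Nat.mod_eq_of_lt hr.one_lt]
    · intro h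
      apply (Nat.modEq_iff_dvd' h1).1
      show 1 % r = p ^ d % r
      rw [h, Nat.mod_eq_of_lt hr.one_lt]
  refine ⟨hp, hch, a, ha, hq, ?_, (hiff _).1 hdvd, fun d hd hde h => hm d hd hde ((hiff d).2 h)⟩
  have hz : ∀ d, r ∣ p ^ d - 1 ↔ ((p : ZMod r)) ^ d = 1 := by
    intro d
    rw [← CharP.cast_eq_zero_iff (ZMod r) r, Nat.cast_sub (Nat.one_le_pow _ _ hp.pos), sub_eq_zero]
    push_cast
    rfl
  have h1 : orderOf (p : ZMod r) = 2 * a := by
    rw [orderOf_eq_iff (by omega)]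
    refine ⟨(hz _).1 hdvd, fun d hde hd h => hm d hd hde ((hz d).2 h)⟩
  rw [← h1]
  apply orderOf_dvd_of_pow_eq_one
  apply ZMod.pow_card_sub_one_eq_one
  intro h0
  exact hcop ((CharP.cast_eq_zero_iff (ZMod r) r p).1 h0)

theorem su_three [Fintype F] {q p e : ℕ} (hF : Fintype.card F = q ^ 2) (hrp : 3 ≠ p)
    (hmin : IsMinimalFieldFor 3 p e F) : p.Prime ∧ CharP F p ∧ q = p ∧ p % 3 = 2 := by
  obtain ⟨hp, hch, a, ha, hq, hdvd, h1, h2⟩ := su_sty_odd hF (by norm_num) hrp hmin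
  have := Nat.le_of_dvd (by norm_num) hdvd
  obtain rfl : a = 1 := by omega
  rw [pow_one] at hq
  refine ⟨hp, hch, hq, ?_⟩
  have h3 := h2 1 (by norm_num) (by norm_num)
  rw [pow_one] at h3
  have h4 : (p % 3) ^ 2 % 3 = 1 := by rw [← Nat.pow_mod]; exact h1
  have h5 : p % 3 < 3 := Nat.mod_lt _ (by norm_num)
  generalize p % 3 = x at h3 h4 h5 ⊢
  interval_cases x <;> simp_all

theorem su_five [Fintype F] {q p e : ℕ} (hF : Fintype.card F = q ^ 2) (hrp : 5 ≠ p)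
    (hmin : IsMinimalFieldFor 5 p e F) : p.Prime ∧ CharP F p ∧ ((q = p ∧ p % 5 = 4) ∨
      (q = p ^ 2 ∧ (p % 5 = 2 ∨ p % 5 = 3))) := by
  obtain ⟨hp, hch, a, ha, hq, hdvd, h1, h2⟩ := su_sty_odd hF (by norm_num) hrp hmin
  have := Nat.le_of_dvd (by norm_num) hdvd
  refine ⟨hp, hch, ?_⟩
  have h5 : p % 5 < 5 := Nat.mod_lt _ (by norm_num)
  have hc : a = 1 ∨ a = 2 := by omega
  rcases hc with rfl | rfl
  · left
    rw [pow_one] at hq
    refine ⟨hq, ?_⟩
    have h3 := h2 1 (by norm_num) (by norm_num)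
    rw [pow_one] at h3
    have h4 : (p % 5) ^ 2 % 5 = 1 := by rw [← Nat.pow_mod]; exact h1
    generalize p % 5 = x at h3 h4 h5 ⊢
    interval_cases x <;> simp_all
  · right
    refine ⟨hq, ?_⟩
    have h3 := h2 2 (by norm_num) (by norm_num)
    have h3' : (p % 5) ^ 2 % 5 ≠ 1 := by rw [← Nat.pow_mod]; exact h3
    have h4 : (p % 5) ^ 4 % 5 = 1 := by rw [← Nat.pow_mod]; exact h1
    generalize p % 5 = x at h3' h4 h5 ⊢
    interval_cases x <;> simp_all

theorem su_seven [Fintype F] {q p e : ℕ} (hF : Fintype.card F = q ^ 2) (hrp : 7 ≠ p)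
    (hmin : IsMinimalFieldFor 7 p e F) : p.Prime ∧ CharP F p ∧ ((q = p ∧ p % 7 = 6) ∨
      (q = p ^ 3 ∧ (p % 7 = 3 ∨ p % 7 = 5))) := by
  obtain ⟨hp, hch, a, ha, hq, hdvd, h1, h2⟩ := su_sty_odd hF (by norm_num) hrp hmin
  have := Nat.le_of_dvd (by norm_num) hdvd
  refine ⟨hp, hch, ?_⟩
  have h5 : p % 7 < 7 := Nat.mod_lt _ (by norm_num)
  have hc : a = 1 ∨ a = 2 ∨ a = 3 := by omega
  rcases hc with rfl | rfl | rfl
  · left
    rw [pow_one] at hq
    refine ⟨hq, ?_⟩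
    have h3 := h2 1 (by norm_num) (by norm_num)
    rw [pow_one] at h3
    have h4 : (p % 7) ^ 2 % 7 = 1 := by rw [← Nat.pow_mod]; exact h1
    generalize p % 7 = x at h3 h4 h5 ⊢
    interval_cases x <;> simp_all
  · norm_num at hdvd
  · right
    refine ⟨hq, ?_⟩
    have h3 := h2 2 (by norm_num) (by norm_num)
    have h3' : (p % 7) ^ 2 % 7 ≠ 1 := by rw [← Nat.pow_mod]; exact h3
    have h4 : (p % 7) ^ 6 % 7 = 1 := by rw [← Nat.pow_mod]; exact h1
    have h6 := h2 3 (by norm_num) (by norm_num)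
    have h6' : (p % 7) ^ 3 % 7 ≠ 1 := by rw [← Nat.pow_mod]; exact h6
    generalize p % 7 = x at h3' h4 h5 h6' ⊢
    interval_cases x <;> simp_all

theorem su_eleven [Fintype F] {q p e : ℕ} (hF : Fintype.card F = q ^ 2) (hrp : 11 ≠ p)
    (hmin : IsMinimalFieldFor 11 p e F) : p.Prime ∧ CharP F p ∧ Nat.Coprime 11 (q - 1) ∧ ((q = p ∧ p % 11 = 10) ∨
      (q = p ^ 5 ∧ (p % 11 = 2 ∨ p % 11 = 6 ∨ p % 11 = 7 ∨ p % 11 = 8))) := by
  obtain ⟨hp, hch, a, ha, hq, hdvd, h1, h2⟩ := su_sty_odd hF (by norm_num) hrp hmin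
  have := Nat.le_of_dvd (by norm_num) hdvd
  have hq1 := Cfsg.Agent.H5.Fld.one_lt_q hF
  have hcop : Nat.Coprime 11 (q - 1) := by
    rw [Nat.Prime.coprime_iff_not_dvd (by norm_num)]
    intro h
    apply h2 a ha (by omega)
    rw [← hq]
    omega
  refine ⟨hp, hch, hcop, ?_⟩
  have h5 : p % 11 < 11 := Nat.mod_lt _ (by norm_num)
  have hc : a = 1 ∨ a = 2 ∨ a = 3 ∨ a = 4 ∨ a = 5 := by omega
  rcases hc with rfl | rfl | rfl | rfl | rfl
  · left
    rw [pow_one] at hq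
    refine ⟨hq, ?_⟩
    have h3 := h2 1 (by norm_num) (by norm_num)
    rw [pow_one] at h3
    have h4 : (p % 11) ^ 2 % 11 = 1 := by rw [← Nat.pow_mod]; exact h1
    generalize p % 11 = x at h3 h4 h5 ⊢
    interval_cases x <;> simp_all
  · norm_num at hdvd
  · norm_num at hdvd
  · norm_num at hdvd
  · right
    refine ⟨hq, ?_⟩
    have h3 := h2 2 (by norm_num) (by norm_num)
    have h3' : (p % 11) ^ 2 % 11 ≠ 1 := by rw [← Nat.pow_mod]; exact h3
    have h4 : (p % 11) ^ 10 % 11 = 1 := by rw [← Nat.pow_mod]; exact h1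
    have h6 := h2 5 (by norm_num) (by norm_num)
    have h6' : (p % 11) ^ 5 % 11 ≠ 1 := by rw [← Nat.pow_mod]; exact h6
    generalize p % 11 = x at h3' h4 h5 h6' ⊢
    interval_cases x <;> simp_all

theorem su_two [Fintype F] {q p e : ℕ} (hF : Fintype.card F = q ^ 2) (he : e = 2)
    (hmin : IsMinimalFieldFor 4 p e F) : p.Prime ∧ CharP F p ∧ q = p ∧ p % 4 = 3 := by
  obtain ⟨hp, hch, a, ha, hq, he', hdvd, hm⟩ := su_sty hF hmin
  obtain rfl : a = 1 := by omega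
  rw [pow_one] at hq
  refine ⟨hp, hch, hq, ?_⟩
  have h1 := hm 1 (by norm_num) (by norm_num)
  rw [pow_one] at h1
  have hp2 := hp.two_le
  have hodd : p % 2 = 1 := by
    rcases hp.eq_two_or_odd with h | h
    · subst h
      norm_num at hdvd
    · exact h
  by_contra h3
  apply h1
  omega

/-- similarities of order prime to `q - 1` are isometries -/
theorem le_GU [Fintype F] {q r : ℕ} (hF : Fintype.card F = q ^ 2) (hn : 0 < n) {R : Subgroup (GL (Fin n) F)}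
    (hR : R ≤ similarityGroup (Cfsg.hermForm n F q)) (hexp : ∀ x ∈ R, x ^ r = 1) (hcop : Nat.Coprime r (q - 1)) :
    R ≤ Cfsg.GU n F q := by
  intro g hg
  obtain ⟨c, hc⟩ := hR hg
  have hf := sfm_herm (n := n) hF
  have hq1 := Cfsg.Agent.H5.Fld.one_lt_q hF
  let v : Fin n → F := Pi.single ⟨0, hn⟩ 1
  have hv : Cfsg.hermForm n F q v v = 1 := by
    show Cfsg.hermForm n F q (Pi.single ⟨0, hn⟩ 1) (Pi.single ⟨0, hn⟩ 1) = 1
    rw [herm_single hF, Pi.single_eq_same, map_one, mul_one]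
  have hpow : ∀ k : ℕ, ∀ u w, Cfsg.hermForm n F q (((g ^ k : GL (Fin n) F) : Matrix (Fin n) (Fin n) F) *ᵥ u)
      (((g ^ k : GL (Fin n) F) : Matrix (Fin n) (Fin n) F) *ᵥ w) = (c : F) ^ k * Cfsg.hermForm n F q u w := by
    intro k
    induction k with
    | zero => intro u w; simp
    | succ k ih =>
      intro u w
      rw [pow_succ, Units.val_mul, ← Matrix.mulVec_mulVec, ← Matrix.mulVec_mulVec, ih, hc, pow_succ]
      ring
  have h1 : (c : F) ^ r = 1 := by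
    have := hpow r v v
    rw [hexp g hg, Units.val_one, Matrix.one_mulVec, hv, mul_one] at this
    exact this.symm
  have h2 : (c : F) ^ (q - 1) = 1 := by
    have h3 : fq hF (c : F) = c := by
      have h4 := hf.herm ((g : Matrix (Fin n) (Fin n) F) *ᵥ v) ((g : Matrix (Fin n) (Fin n) F) *ᵥ v)
      rw [hc, hv, mul_one, one_mul] at h4
      exact h4.symm
    rw [fq_apply] at h3
    have h4 : (c : F) ^ (q - 1) * c = 1 * c := by
      rw [← pow_succ, Nat.sub_add_cancel hq1.le, one_mul, h3]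
    exact mul_right_cancel₀ c.ne_zero h4
  have h3 : (c : F) = 1 := by
    have h4 : (c : Fˣ) ^ r = 1 := Units.ext (by rw [Units.val_pow_eq_pow_val, h1, Units.val_one])
    have h5 : (c : Fˣ) ^ (q - 1) = 1 := Units.ext (by rw [Units.val_pow_eq_pow_val, h2, Units.val_one])
    have h6 := Nat.dvd_gcd (orderOf_dvd_of_pow_eq_one h4) (orderOf_dvd_of_pow_eq_one h5)
    rw [hcop] at h6
    have h7 := orderOf_eq_one_iff.1 (Nat.dvd_one.1 h6)
    rw [h7, Units.val_one]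
  intro u w
  show Cfsg.hermForm n F q ((g : Matrix (Fin n) (Fin n) F) *ᵥ u) ((g : Matrix (Fin n) (Fin n) F) *ᵥ w) = _
  rw [hc, h3, one_mul]

theorem exp_pow {r : ℕ} {R : Subgroup (GL (Fin n) F)} (hR : IsSymplecticTypeGroup r R) (hr : Odd r) :
    ∀ x ∈ R, x ^ r = 1 := by
  intro x hx
  have h1 := Monoid.pow_exponent_eq_one (⟨x, hx⟩ : R)
  rw [hR.exponent_eq, Nat.Coprime.gcd_eq_one hr.coprime_two_left, mul_one] at h1
  exact congrArg Subtype.val h1

end Cfsg.Agent.H29.Fm
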