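import Mathlib
import Cfsg.Agent.H29_Un8

set_option autoImplicit false

namespace Cfsg.Agent.H29.Fm

/-- small numbers that are not higher powers of three -/
theorem su_np {n t : ℕ} (h1 : n ≠ 9) (h2 : n < 27) (h3 : 0 < n) (ht : 2 ≤ t) : n ≠ 3 ^ t := by
  intro h
  rcases Nat.lt_or_ge t 3 with h4 | h4
  · obtain rfl : t = 2 := by omega
    omega
  · have : 3 ^ 3 ≤ 3 ^ t := Nat.pow_le_pow_right (by norm_num) h4
    omega

end Cfsg.Agent.H29.Fm
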