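import Mathlib
import Cfsg.Agent.H29_Sy12
import Cfsg.Agent.H29_Un9

set_option autoImplicit false

/-! transvections and geometric classes -/

namespace Cfsg.Agent.H29.Fm

open Matrix Module Cfsg.Geo Cfsg.Agent.H29.Clifford Cfsg.Agent.H29.Asc Cfsg.Agent.H29.AscF Cfsg.Agent.H29.Trv
  Cfsg.Agent.H29.AscT
open scoped Kronecker commutatorElement

variable {F : Type*} [Field F] {n k m r w t : ℕ}

theorem ker_one (φ : (Fin w → F) →ₗ[F] F) (hw : 2 ≤ w) : ∃ x, x ≠ 0 ∧ φ x = 0 := by
  have h2 := LinearMap.finrank_range_add_finrank_ker φ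
  rw [Module.finrank_fintype_fun_eq_card, Fintype.card_fin] at h2
  have h3 : finrank F (LinearMap.range φ) ≤ 1 := by
    have := Submodule.finrank_le (LinearMap.range φ)
    simpa using this
  have h4 : 0 < finrank F (LinearMap.ker φ) := by omega
  have h5 : LinearMap.ker φ ≠ ⊥ := by
    intro h5
    rw [h5, finrank_bot] at h4
    exact lt_irrefl _ h4
  obtain ⟨y, hy, hy0⟩ := (Submodule.ne_bot_iff _).1 h5
  exact ⟨y, hy0, hy⟩

/-- pure tensors are linear in each factor -/
def ptL (y : Fin t → F) : (Fin w → F) →ₗ[F] (Fin w × Fin t → F) where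
  toFun x := pt x y
  map_add' x x' := by funext p; exact add_mul _ _ _
  map_smul' c x := by funext p; exact mul_assoc _ _ _

def ptR (x : Fin w → F) : (Fin t → F) →ₗ[F] (Fin w × Fin t → F) where
  toFun y := pt x y
  map_add' y y' := by funext p; exact mul_add _ _ _
  map_smul' c y := by
    funext p
    show x p.1 * (c * y p.2) = c * (x p.1 * y p.2)
    ring

theorem pt_eq_right {x x' : Fin w → F} {y y' : Fin t → F} (hx : x ≠ 0) (h : pt x y = pt x' y') : ∃ c : F, y = c • y' := by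
  obtain ⟨i, hi⟩ := Function.ne_iff.1 hx
  refine ⟨x' i / x i, ?_⟩
  funext j
  have h1 : x i * y j = x' i * y' j := congrFun h (i, j)
  have hi' : x i ≠ 0 := hi
  show y j = x' i / x i * y' j
  field_simp
  linear_combination h1

theorem pt_eq_left {x x' : Fin w → F} {y y' : Fin t → F} (hy : y ≠ 0) (h : pt x y = pt x' y') : ∃ c : F, x = c • x' := by
  obtain ⟨j, hj⟩ := Function.ne_iff.1 hy
  refine ⟨y' j / y j, ?_⟩
  funext i
  have h1 : x i * y j = x' i * y' j := congrFun h (i, j)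
  have hj' : y j ≠ 0 := hj
  show x i = y' j / y j * x' i
  field_simp
  linear_combination h1

theorem pt_inj_left {x x' : Fin w → F} {y : Fin t → F} (hy : y ≠ 0) (h : pt x y = pt x' y) : x = x' := by
  obtain ⟨j, hj⟩ := Function.ne_iff.1 hy
  funext i
  exact mul_right_cancel₀ hj (congrFun h (i, j))

theorem pt_smul_left (c : F) (x : Fin w → F) (y : Fin t → F) : pt (c • x) y = c • pt x y := (ptL y).map_smul c x

theorem pt_smul_right (c : F) (x : Fin w → F) (y : Fin t → F) : pt x (c • y) = c • pt x y := (ptR x).map_smul c y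

theorem ptn_exists {φ : (Fin w × Fin t → F) →ₗ[F] F} (hφ : φ ≠ 0) : ∃ x y, φ (pt x y) ≠ 0 := by
  by_contra hcon
  push Not at hcon
  apply hφ
  apply LinearMap.pi_ext'
  intro p
  apply LinearMap.ext_ring
  show φ (Pi.single p 1) = 0
  rw [single_pt]
  exact hcon _ _

theorem GLv_ne {a : GL (Fin w) F} {x : Fin w → F} (hx : x ≠ 0) : (a : Matrix (Fin w) (Fin w) F) *ᵥ x ≠ 0 := by
  intro h0
  apply hx
  have h1 := congrArg (fun z => ((a⁻¹ : GL (Fin w) F) : Matrix (Fin w) (Fin w) F) *ᵥ z) h0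
  simp only [Matrix.mulVec_mulVec, ← Units.val_mul, inv_mul_cancel, Units.val_one, Matrix.one_mulVec,
    Matrix.mulVec_zero] at h1
  exact h1

theorem exists_indep (hw : 2 ≤ w) {x : Fin w → F} (hx : x ≠ 0) : ∃ x' : Fin w → F, ∀ c : F, x' ≠ c • x := by
  by_contra hcon
  push Not at hcon
  have h1 : (⊤ : Submodule F (Fin w → F)) ≤ Submodule.span F {x} := by
    intro v _
    obtain ⟨c, hc⟩ := hcon v
    rw [hc]
    exact Submodule.smul_mem _ _ (Submodule.mem_span_singleton_self x)
  have h2 := Submodule.finrank_mono h1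
  rw [finrank_top, Module.finrank_fintype_fun_eq_card, Fintype.card_fin, finrank_span_singleton hx] at h2
  omega

/-- tensor product groups contain no transvections -/
theorem no_trv_tens (hw : 2 ≤ w) (ht : 2 ≤ t) {e : Fin n ≃ Fin w × Fin t} {P g : GL (Fin n) F}
    {φ : (Fin n → F) →ₗ[F] F} (hφ : φ ≠ 0) {v : Fin n → F} (hv : v ≠ 0)
    (hg : ∀ x, (g : Matrix (Fin n) (Fin n) F) *ᵥ x = x + φ x • v) : g ∉ tensorProductSubgroup w t e P := by
  intro hmem
  obtain ⟨a, b, hab⟩ := tp_act hmem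
  obtain ⟨v', hv'⟩ := (ce e P).surjective v
  let φ' : (Fin w × Fin t → F) →ₗ[F] F := φ ∘ₗ ((ce e P : (Fin w × Fin t → F) ≃ₗ[F] (Fin n → F)) : _ →ₗ[F] _)
  have hφ'a : ∀ x, φ' x = φ (ce e P x) := fun _ => rfl
  have hφ' : φ' ≠ 0 := by
    intro h0
    apply hφ
    apply LinearMap.ext
    intro z
    obtain ⟨x, rfl⟩ := (ce e P).surjective z
    rw [← hφ'a, h0]
    rfl
  have hv'0 : v' ≠ 0 := by
    rintro rfl
    exact hv (by rw [← hv', map_zero])
  have key : ∀ x y, pt ((a : Matrix (Fin w) (Fin w) F) *ᵥ x) ((b : Matrix (Fin t) (Fin t) F) *ᵥ y) =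
      pt x y + φ' (pt x y) • v' := by
    intro x y
    apply (ce e P).injective
    rw [← kron_pt, ← hab, hg, map_add, map_smul, hv', hφ'a]
  have hb : ∀ y, ∃ c : F, (b : Matrix (Fin t) (Fin t) F) *ᵥ y = c • y := by
    intro y
    obtain ⟨x, hx, hx0⟩ := ker_one (φ' ∘ₗ ptL y) hw
    have h1 := key x y
    have h2 : φ' (pt x y) = 0 := hx0
    rw [h2, zero_smul, add_zero] at h1
    exact pt_eq_right (GLv_ne hx) h1
  have ha : ∀ x, ∃ c : F, (a : Matrix (Fin w) (Fin w) F) *ᵥ x = c • x := by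
    intro x
    obtain ⟨y, hy, hy0⟩ := ker_one (φ' ∘ₗ ptR x) ht
    have h1 := key x y
    have h2 : φ' (pt x y) = 0 := hy0
    rw [h2, zero_smul, add_zero] at h1
    exact pt_eq_left (GLv_ne hy) h1
  have hc : ∀ x y, ∃ c : F, φ' (pt x y) • v' = c • pt x y := by
    intro x y
    obtain ⟨c, hc⟩ := ha x
    obtain ⟨d, hd⟩ := hb y
    refine ⟨c * d - 1, ?_⟩
    have h1 := key x y
    rw [hc, hd, pt_smul_left, pt_smul_right, smul_smul] at h1
    rw [sub_smul, one_smul, h1, add_sub_cancel_left]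
  obtain ⟨x, y, hxy⟩ := ptn_exists hφ'
  have hx0 : x ≠ 0 := by
    rintro rfl
    apply hxy
    have : pt (0 : Fin w → F) y = 0 := (ptL y).map_zero
    rw [this, map_zero]
  have hy0 : y ≠ 0 := by
    rintro rfl
    apply hxy
    have : pt x (0 : Fin t → F) = 0 := (ptR x).map_zero
    rw [this, map_zero]
  obtain ⟨x', hx'⟩ := exists_indep hw hx0
  obtain ⟨x₁, hx₁, hx₁φ⟩ : ∃ x₁ : Fin w → F, (∀ c : F, x₁ ≠ c • x) ∧ φ' (pt x₁ y) ≠ 0 := by
    by_cases h : φ' (pt x' y) = 0
    · refine ⟨x' + x, ?_, ?_⟩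
      · intro c hc
        apply hx' (c - 1)
        rw [sub_smul, one_smul, ← hc, add_sub_cancel_right]
      · have : pt (x' + x) y = pt x' y + pt x y := (ptL y).map_add x' x
        rw [this, map_add, h, zero_add]
        exact hxy
    · exact ⟨x', hx', h⟩
  obtain ⟨c, hcx⟩ := hc x y
  obtain ⟨d, hdx⟩ := hc x₁ y
  have hd0 : d ≠ 0 := by
    rintro rfl
    rw [zero_smul] at hdx
    exact (smul_ne_zero hx₁φ hv'0) hdx
  have h1 : pt ((φ' (pt x y) * d) • x₁) y = pt ((φ' (pt x₁ y) * c) • x) y := by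
    rw [pt_smul_left, pt_smul_left, mul_smul, ← hdx, mul_smul, ← hcx, smul_comm]
  have h2 := pt_inj_left hy0 h1
  apply hx₁ ((φ' (pt x y) * d)⁻¹ * (φ' (pt x₁ y) * c))
  rw [mul_smul, ← h2, smul_smul, inv_mul_cancel₀ (mul_ne_zero hxy hd0), one_smul]

/-! several factors -/

theorem pp_update (x : Fin k → (Fin m → F)) (i : Fin k) (u : Fin m → F) (z : Fin k → Fin m) :
    pp (Function.update x i u) z = u (z i) * ∏ j ∈ Finset.univ.erase i, x j (z j) := by
  show ∏ j, Function.update x i u j (z j) = _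
  rw [← Finset.mul_prod_erase _ _ (Finset.mem_univ i), Function.update_self]
  congr 1
  apply Finset.prod_congr rfl
  intro j hj
  rw [Function.update_of_ne (Finset.ne_of_mem_erase hj)]

/-- pure tensors are linear in each factor -/
def ppL (x : Fin k → (Fin m → F)) (i : Fin k) : (Fin m → F) →ₗ[F] ((Fin k → Fin m) → F) where
  toFun u := pp (Function.update x i u)
  map_add' u u' := by
    funext z
    rw [pp_update]
    show _ = pp (Function.update x i u) z + pp (Function.update x i u') z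
    rw [pp_update, pp_update, Pi.add_apply, add_mul]
  map_smul' c u := by
    funext z
    rw [pp_update]
    show _ = c * pp (Function.update x i u) z
    rw [pp_update, Pi.smul_apply, smul_eq_mul, mul_assoc]

theorem pp_eq {x x' : Fin k → (Fin m → F)} (hx : ∀ j, x j ≠ 0) (h : pp x = pp x') (i : Fin k) :
    ∃ c : F, x i = c • x' i := by
  choose z hz using fun j => Function.ne_iff.1 (hx j)
  have hne : ∏ j ∈ Finset.univ.erase i, x j (z j) ≠ 0 := Finset.prod_ne_zero_iff.2 (fun j _ => hz j)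
  refine ⟨(∏ j ∈ Finset.univ.erase i, x' j (z j)) / (∏ j ∈ Finset.univ.erase i, x j (z j)), ?_⟩
  funext a
  have h1 := congrFun h (Function.update z i a)
  have e1 : ∀ y : Fin k → (Fin m → F), pp y (Function.update z i a) = y i a * ∏ j ∈ Finset.univ.erase i, y j (z j) := by
    intro y
    show ∏ j, y j (Function.update z i a j) = _
    rw [← Finset.mul_prod_erase _ _ (Finset.mem_univ i), Function.update_self]
    congr 1
    apply Finset.prod_congr rfl
    intro j hj
    rw [Function.update_of_ne (Finset.ne_of_mem_erase hj)]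
  rw [e1, e1] at h1
  show x i a = _ / _ * x' i a
  field_simp
  linear_combination h1

theorem pp_ne {x : Fin k → (Fin m → F)} (hx : ∀ j, x j ≠ 0) : pp x ≠ 0 := by
  choose z hz using fun j => Function.ne_iff.1 (hx j)
  intro h
  have h1 := congrFun h z
  exact (Finset.prod_ne_zero_iff.2 (fun j _ => hz j)) h1

theorem ppn_exists {φ : ((Fin k → Fin m) → F) →ₗ[F] F} (hφ : φ ≠ 0) : ∃ x, φ (pp x) ≠ 0 := by
  by_contra hcon
  push Not at hcon
  apply hφ
  apply LinearMap.pi_ext'
  intro p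
  apply LinearMap.ext_ring
  show φ (Pi.single p 1) = 0
  rw [single_pp]
  exact hcon _

/-- tensor wreath groups contain no transvections -/
theorem no_trv_wr (hm : 2 ≤ m) (hk : 3 ≤ k) {e : Fin n ≃ (Fin k → Fin m)} {P g : GL (Fin n) F}
    {φ : (Fin n → F) →ₗ[F] F} (hφ : φ ≠ 0) {v : Fin n → F} (hv : v ≠ 0)
    (hg : ∀ x, (g : Matrix (Fin n) (Fin n) F) *ᵥ x = x + φ x • v) : g ∉ tensorWreathSubgroup m k e P := by
  intro hmem
  obtain ⟨σ, A, hab⟩ := tw_act hmem
  obtain ⟨v', hv'⟩ := (ce e P).surjective v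
  let φ' : ((Fin k → Fin m) → F) →ₗ[F] F := φ ∘ₗ ((ce e P : ((Fin k → Fin m) → F) ≃ₗ[F] (Fin n → F)) : _ →ₗ[F] _)
  have hφ'a : ∀ x, φ' x = φ (ce e P x) := fun _ => rfl
  have hφ' : φ' ≠ 0 := by
    intro h0
    apply hφ
    apply LinearMap.ext
    intro z
    obtain ⟨x, rfl⟩ := (ce e P).surjective z
    rw [← hφ'a, h0]
    rfl
  have hv'0 : v' ≠ 0 := by
    rintro rfl
    exact hv (by rw [← hv', map_zero])
  have key : ∀ x : Fin k → (Fin m → F), pp (fun i => (A (σ.symm i) : Matrix (Fin m) (Fin m) F) *ᵥ x (σ.symm i)) =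
      pp x + φ' (pp x) • v' := by
    intro x
    apply (ce e P).injective
    have h1 : Pm m F σ *ᵥ (K (fun i => (A i : Matrix (Fin m) (Fin m) F)) *ᵥ pp x) =
        pp (fun i => (A (σ.symm i) : Matrix (Fin m) (Fin m) F) *ᵥ x (σ.symm i)) := by
      rw [K_pp, Pm_pp]
      rfl
    rw [← h1, ← hab, hg, map_add, map_smul, hv', hφ'a]
  let w₀ : Fin m → F := Pi.single ⟨0, by omega⟩ 1
  have hw₀ : w₀ ≠ 0 := by
    intro h0
    have h1 : w₀ ⟨0, by omega⟩ = 0 := by rw [h0]; rfl
    have h2 : w₀ ⟨0, by omega⟩ = 1 := Pi.single_eq_same _ _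
    rw [h2] at h1
    exact one_ne_zero h1
  -- choice of an element of the kernel
  have kerc : ∀ (i : Fin k) (u : Fin m → F), u ≠ 0 → ∃ c : F, u = c •
      ((A (σ.symm i) : Matrix (Fin m) (Fin m) F) *ᵥ (if σ.symm i = i then u else w₀)) := by
    intro i u hu
    obtain ⟨l, hl⟩ : ∃ l : Fin k, l ≠ i ∧ l ≠ σ.symm i := by
      by_contra hcon
      push Not at hcon
      have h1 : (Finset.univ : Finset (Fin k)) ⊆ {i, σ.symm i} := by
        intro l _
        rw [Finset.mem_insert, Finset.mem_singleton]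
        by_cases h : l = i
        · exact Or.inl h
        · exact Or.inr (hcon l h)
      have h2 := (Finset.card_le_card h1).trans Finset.card_le_two
      rw [Finset.card_univ, Fintype.card_fin] at h2
      omega
    let x₀ : Fin k → (Fin m → F) := Function.update (fun _ => w₀) i u
    obtain ⟨y, hy, hy0⟩ := ker_one (φ' ∘ₗ ppL x₀ l) hm
    have h2 : φ' (pp (Function.update x₀ l y)) = 0 := hy0
    have h1 := key (Function.update x₀ l y)
    rw [h2, zero_smul, add_zero] at h1
    have hne : ∀ j, Function.update x₀ l y j ≠ 0 := by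
      intro j
      by_cases hj : j = l
      · subst hj; rw [Function.update_self]; exact hy
      · rw [Function.update_of_ne hj]
        by_cases hj' : j = i
        · subst hj'
          show Function.update (fun _ => w₀) j u j ≠ 0
          rw [Function.update_self]; exact hu
        · show Function.update (fun _ => w₀) i u j ≠ 0
          rw [Function.update_of_ne hj']; exact hw₀
    obtain ⟨c, hc⟩ := pp_eq hne h1.symm i
    refine ⟨c, ?_⟩
    rw [Function.update_of_ne (Ne.symm hl.1)] at hc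
    have e1 : x₀ i = u := by
      show Function.update (fun _ => w₀) i u i = u
      rw [Function.update_self]
    have e2 : Function.update x₀ l y (σ.symm i) = if σ.symm i = i then u else w₀ := by
      rw [Function.update_of_ne (Ne.symm hl.2)]
      by_cases h : σ.symm i = i
      · rw [if_pos h, h, e1]
      · rw [if_neg h]
        show Function.update (fun _ => w₀) i u (σ.symm i) = w₀
        rw [Function.update_of_ne h]
    have h4 : x₀ i = c • ((A (σ.symm i) : Matrix (Fin m) (Fin m) F) *ᵥ Function.update x₀ l y (σ.symm i)) := hc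
    rwa [e1, e2] at h4
  have hσ : ∀ i, σ.symm i = i := by
    intro i
    by_contra hne
    obtain ⟨u, hu⟩ := exists_indep hm (x := (A (σ.symm i) : Matrix (Fin m) (Fin m) F) *ᵥ w₀) (GLv_ne hw₀)
    have hu0 : u ≠ 0 := by
      rintro rfl
      exact hu 0 (by rw [zero_smul])
    obtain ⟨c, hc⟩ := kerc i u hu0
    rw [if_neg hne] at hc
    exact hu c hc
  have heig : ∀ (i : Fin k) (u : Fin m → F), ∃ c : F, (A i : Matrix (Fin m) (Fin m) F) *ᵥ u = c • u := by
    intro i u
    by_cases hu : u = 0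
    · exact ⟨0, by rw [hu, Matrix.mulVec_zero, zero_smul]⟩
    obtain ⟨c, hc⟩ := kerc i u hu
    rw [if_pos (hσ i), hσ i] at hc
    have hc0 : c ≠ 0 := by
      rintro rfl
      rw [zero_smul] at hc
      exact hu hc
    refine ⟨c⁻¹, ?_⟩
    conv_rhs => rw [hc]
    rw [smul_smul, inv_mul_cancel₀ hc0, one_smul]
  have hc : ∀ x : Fin k → (Fin m → F), ∃ c : F, φ' (pp x) • v' = c • pp x := by
    intro x
    choose c hc using fun i => heig i (x i)
    refine ⟨∏ i, c i - 1, ?_⟩
    have h1 := key x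
    have h2 : pp (fun i => (A (σ.symm i) : Matrix (Fin m) (Fin m) F) *ᵥ x (σ.symm i)) = (∏ i, c i) • pp x := by
      funext z
      show ∏ i, ((A (σ.symm i) : Matrix (Fin m) (Fin m) F) *ᵥ x (σ.symm i)) (z i) = (∏ i, c i) * ∏ i, x i (z i)
      rw [← Finset.prod_mul_distrib]
      apply Finset.prod_congr rfl
      intro i _
      rw [hσ, hc]
      rfl
    rw [h2] at h1
    rw [sub_smul, one_smul, h1, add_sub_cancel_left]
  obtain ⟨x, hx⟩ := ppn_exists hφ'
  have hx0 : ∀ i, x i ≠ 0 := by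
    intro i h0
    apply hx
    have h1 : pp x = ppL x i 0 := by
      show pp x = pp (Function.update x i 0)
      rw [← h0, Function.update_eq_self]
    rw [h1, map_zero, map_zero]
  let i₀ : Fin k := ⟨0, by omega⟩
  have hself : pp x = ppL x i₀ (x i₀) := by
    show pp x = pp (Function.update x i₀ (x i₀))
    rw [Function.update_eq_self]
  obtain ⟨x', hx'⟩ := exists_indep hm (hx0 i₀)
  obtain ⟨x₁, hx₁, hx₁φ⟩ : ∃ x₁ : Fin m → F, (∀ c : F, x₁ ≠ c • x i₀) ∧ φ' (ppL x i₀ x₁) ≠ 0 := by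
    by_cases h : φ' (ppL x i₀ x') = 0
    · refine ⟨x' + x i₀, ?_, ?_⟩
      · intro c hc
        apply hx' (c - 1)
        rw [sub_smul, one_smul, ← hc, add_sub_cancel_right]
      · rw [map_add, map_add, h, zero_add, ← hself]
        exact hx
    · exact ⟨x', hx', h⟩
  obtain ⟨c, hcx⟩ := hc x
  obtain ⟨d, hdx⟩ := hc (Function.update x i₀ x₁)
  have hdx' : φ' (ppL x i₀ x₁) • v' = d • ppL x i₀ x₁ := hdx
  have hd0 : d ≠ 0 := by
    rintro rfl
    rw [zero_smul] at hdx'
    exact (smul_ne_zero hx₁φ hv'0) hdx'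
  have h1 : ppL x i₀ ((φ' (pp x) * d) • x₁) = ppL x i₀ ((φ' (ppL x i₀ x₁) * c) • x i₀) := by
    rw [map_smul, map_smul, ← hself, mul_smul, ← hdx', mul_smul, ← hcx, smul_comm]
  have hne : ∀ j, Function.update x i₀ ((φ' (pp x) * d) • x₁) j ≠ 0 := by
    intro j
    by_cases hj : j = i₀
    · subst hj
      rw [Function.update_self]
      exact smul_ne_zero (mul_ne_zero hx hd0) (fun h0 => hx₁ 0 (by rw [h0, zero_smul]))
    · rw [Function.update_of_ne hj]
      exact hx0 j
  obtain ⟨c', hc'⟩ := pp_eq hne h1 i₀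
  rw [Function.update_self, Function.update_self] at hc'
  apply hx₁ ((φ' (pp x) * d)⁻¹ * (c' * (φ' (ppL x i₀ x₁) * c)))
  have h3 : (φ' (pp x) * d)⁻¹ • ((φ' (pp x) * d) • x₁) = x₁ := by
    rw [smul_smul, inv_mul_cancel₀ (mul_ne_zero hx hd0), one_smul]
  rw [hc', smul_smul, smul_smul] at h3
  rw [← mul_assoc]
  exact h3.symm

end Cfsg.Agent.H29.Fm
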