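import Mathlib
import Cfsg.Agent.H29_Sq1

set_option autoImplicit false

/-! groups generated by all symplectic transvections are in no geometric class -/

namespace Cfsg.Agent.H29.Fm

open Matrix Module Cfsg.Geo Cfsg.Agent.H29.Clifford Cfsg.Agent.H29.Asc Cfsg.Agent.H29.AscF Cfsg.Agent.H29.Trv
  Cfsg.Agent.H29.AscT
open scoped Kronecker commutatorElement

variable {F : Type*} [Field F] {n k m r w t : ℕ}
variable {f : (Fin n → F) → (Fin n → F) → F} {X : Subgroup (GL (Fin n) F)}

/-- `X` contains all transvections -/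
def TVa (f : (Fin n → F) → (Fin n → F) → F) (X : Subgroup (GL (Fin n) F)) : Prop :=
  ∀ v, ∀ a : F, ∃ g ∈ X, ∀ x, (g : Matrix (Fin n) (Fin n) F) *ᵥ x = x + (a * f x v) • v

theorem TVa.tv (h : TVa f X) : TV f X := fun v _ _ => by
  obtain ⟨g, hg, hgx⟩ := h v 1
  exact ⟨1, one_ne_zero, g, hg, hgx⟩

theorem SpF.spn (h : SpF f) : SPN f := fun W hW => by
  rw [eq_top_iff]
  intro v _
  exact hW v (h.alt v)

theorem two_of_not_odd [Fintype F] (hodd : ¬ Odd (Fintype.card F)) : (2 : F) = 0 := by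
  by_contra h2
  exact hodd (odd_card_of_two_ne h2)

theorem SpF.even_nd (h : SpF f) {K : Subalgebra F (Matrix (Fin n) (Fin n) F)} (hK : IsFieldSubalgebra r K)
    (hsa : IsSelfAdjointFor f K) (halt : ∀ k ∈ K, ∀ v, f (k *ᵥ v) v = 0) :
    ∀ (d : ℕ) (W : Submodule F (Fin n → F)), finrank F W = d → (∀ k ∈ K, ∀ w ∈ W, k *ᵥ w ∈ W) →
      IsNondegenerateOn f W → 2 * r ∣ d := by
  intro d
  induction d using Nat.strong_induction_on with
  | _ d IH =>
    intro W hd hKW hnd
    by_cases hW : W = ⊥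
    · rw [hW, finrank_bot] at hd
      rw [← hd]
      exact dvd_zero _
    obtain ⟨v, hv, hv0⟩ := (Submodule.ne_bot_iff _).1 hW
    obtain ⟨⟨w, hw, hwv⟩, -⟩ := hnd v hv hv0
    have hw0 : w ≠ 0 := by
      rintro rfl
      exact hwv (h.sfm.zero_left v)
    have hvw : f v w ≠ 0 := by
      rw [h.skew]; exact neg_ne_zero.2 hwv
    let ev : (Fin n → F) → K →ₗ[F] (Fin n → F) := fun z =>
      { toFun := fun k => (k : Matrix (Fin n) (Fin n) F) *ᵥ z
        map_add' := fun a b => Matrix.add_mulVec _ _ _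
        map_smul' := fun c a => Matrix.smul_mulVec _ _ _ }
    have hev : ∀ z (k : K), ev z k = (k : Matrix (Fin n) (Fin n) F) *ᵥ z := fun _ _ => rfl
    have hker : ∀ z, z ≠ 0 → ∀ k ∈ K, k *ᵥ z = 0 → k = 0 := by
      intro z hz k hk hkz
      by_contra hk0
      obtain ⟨y, hy, hky⟩ := hK.inv k hk hk0
      apply hz
      have : (y * k) *ᵥ z = 0 := by rw [← Matrix.mulVec_mulVec, hkz, Matrix.mulVec_zero]
      rwa [hK.comm y hy k hk, hky, Matrix.one_mulVec] at this
    have hinj : ∀ z, z ≠ 0 → Function.Injective (ev z) := by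
      intro z hz
      rw [injective_iff_map_eq_zero]
      intro k hk
      exact Subtype.ext (hker z hz k k.2 hk)
    have hself : ∀ k ∈ K, ∀ x ∈ K, ∀ z, f (k *ᵥ z) (x *ᵥ z) = 0 := by
      intro k hk x hx z
      rw [← hsa x hx, Matrix.mulVec_mulVec]
      exact halt _ (K.mul_mem hx hk) z
    set U : Submodule F (Fin n → F) := LinearMap.range (ev v) ⊔ LinearMap.range (ev w) with hU
    have memU : ∀ k ∈ K, ∀ k' ∈ K, k *ᵥ v + k' *ᵥ w ∈ U := by
      intro k hk k' hk'
      exact Submodule.add_mem_sup ⟨⟨k, hk⟩, rfl⟩ ⟨⟨k', hk'⟩, rfl⟩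
    have exU : ∀ u ∈ U, ∃ k ∈ K, ∃ k' ∈ K, u = k *ᵥ v + k' *ᵥ w := by
      intro u hu
      obtain ⟨_, ⟨k, rfl⟩, _, ⟨k', rfl⟩, rfl⟩ := Submodule.mem_sup.1 hu
      exact ⟨k, k.2, k', k'.2, rfl⟩
    have hUW : U ≤ W := by
      intro u hu
      obtain ⟨k, hk, k', hk', rfl⟩ := exU u hu
      exact W.add_mem (hKW k hk v hv) (hKW k' hk' w hw)
    have hKU : ∀ k ∈ K, ∀ u ∈ U, k *ᵥ u ∈ U := by
      intro k hk u hu
      obtain ⟨a, ha, b, hb, rfl⟩ := exU u hu
      rw [Matrix.mulVec_add, Matrix.mulVec_mulVec, Matrix.mulVec_mulVec]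
      exact memU _ (K.mul_mem hk ha) _ (K.mul_mem hk hb)
    have hUnd : ∀ u ∈ U, (∀ x ∈ U, f u x = 0) → u = 0 := by
      intro u hu hux
      obtain ⟨k, hk, k', hk', rfl⟩ := exU u hu
      have hk'0 : k' = 0 := by
        by_contra hne
        obtain ⟨y, hy, hky⟩ := hK.inv k' hk' hne
        have h1 := hux (y *ᵥ v) (by
          have := memU y hy 0 K.zero_mem
          rwa [Matrix.zero_mulVec, add_zero] at this)
        rw [h.sfm.add_left, hself k hk y hy, zero_add, ← hsa y hy, Matrix.mulVec_mulVec, hK.comm y hy k' hk', hky,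
          Matrix.one_mulVec] at h1
        exact hwv h1
      subst hk'0
      rw [Matrix.zero_mulVec, add_zero] at hux ⊢
      have hk0 : k = 0 := by
        by_contra hne
        obtain ⟨y, hy, hky⟩ := hK.inv k hk hne
        have h1 := hux (y *ᵥ w) (by
          have := memU 0 K.zero_mem y hy
          rwa [Matrix.zero_mulVec, zero_add] at this)
        rw [← hsa y hy, Matrix.mulVec_mulVec, hK.comm y hy k hk, hky, Matrix.one_mulVec] at h1
        exact hvw h1
      rw [hk0, Matrix.zero_mulVec]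
    have hdisj : LinearMap.range (ev v) ⊓ LinearMap.range (ev w) = ⊥ := by
      rw [eq_bot_iff]
      rintro u ⟨⟨k, rfl⟩, ⟨k', hk'⟩⟩
      rw [Submodule.mem_bot]
      apply hUnd
      · exact Submodule.mem_sup_left ⟨k, rfl⟩
      · intro x hx
        obtain ⟨a, ha, b, hb, rfl⟩ := exU x hx
        rw [h.sfm.add_right]
        have e1 : f (ev v k) (a *ᵥ v) = 0 := hself k k.2 a ha v
        have e2 : f (ev v k) (b *ᵥ w) = 0 := by
          rw [← hk']
          exact hself k' k'.2 b hb w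
        rw [e1, e2, add_zero]
    have hfr : ∀ z, z ≠ 0 → finrank F (LinearMap.range (ev z)) = r := by
      intro z hz
      rw [LinearMap.finrank_range_of_inj (hinj z hz)]
      exact hK.finrank_eq
    have hUdim : finrank F U = 2 * r := by
      have h1 := Submodule.finrank_sup_add_finrank_inf_eq (LinearMap.range (ev v)) (LinearMap.range (ev w))
      rw [hdisj, finrank_bot, hfr v hv0, hfr w hw0] at h1
      rw [hU]
      omega
    -- the complement
    set W' : Submodule F (Fin n → F) := W ⊓ perp h.sfm U with hW'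
    have hUp : U ⊓ perp h.sfm U = ⊥ := by
      rw [eq_bot_iff]
      rintro u ⟨hu1, hu2⟩
      exact hUnd u hu1 hu2
    have hUtop : U ⊔ perp h.sfm U = ⊤ := by
      apply Submodule.eq_top_of_finrank_eq
      have h1 := Submodule.finrank_sup_add_finrank_inf_eq U (perp h.sfm U)
      have h2 := finrank_perp h.sfm U
      rw [hUp, finrank_bot] at h1
      rw [Module.finrank_fintype_fun_eq_card, Fintype.card_fin]
      omega
    have hdec : ∀ z ∈ W, ∃ u ∈ U, ∃ p ∈ W', z = u + p := by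
      intro z hz
      have h1 : z ∈ U ⊔ perp h.sfm U := by rw [hUtop]; trivial
      obtain ⟨u, hu, p, hp, hup⟩ := Submodule.mem_sup.1 h1
      refine ⟨u, hu, p, ⟨?_, hp⟩, hup.symm⟩
      have h2 : p = z - u := by rw [← hup, add_sub_cancel_left]
      rw [SetLike.mem_coe, h2]
      exact W.sub_mem hz (hUW hu)
    have hUW' : U ⊔ W' = W := by
      apply le_antisymm
      · exact sup_le hUW inf_le_left
      · intro z hz
        obtain ⟨u, hu, p, hp, rfl⟩ := hdec z hz
        exact Submodule.add_mem_sup hu hp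
    have hUiW' : U ⊓ W' = ⊥ := by
      rw [eq_bot_iff, ← hUp]
      exact inf_le_inf le_rfl inf_le_right
    have hdim := Submodule.finrank_sup_add_finrank_inf_eq U W'
    rw [hUiW', finrank_bot, hUW', hUdim, hd] at hdim
    have hr0 : 0 < r := by
      rcases Nat.eq_zero_or_pos r with h0 | h0
      · exfalso
        have h1 := hfr v hv0
        rw [h0] at h1
        have h2 : ev v 1 = 0 := by
          have h3 := Submodule.finrank_eq_zero.1 h1
          have h4 : ev v 1 ∈ LinearMap.range (ev v) := ⟨1, rfl⟩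
          rwa [h3, Submodule.mem_bot] at h4
        have h3 : ev v 1 = v := by
          show (1 : Matrix (Fin n) (Fin n) F) *ᵥ v = v
          exact Matrix.one_mulVec v
        exact hv0 (h3.symm.trans h2)
      · exact h0
    have h2 := IH (finrank F W') (by omega) W' rfl (by
      rintro k hk z ⟨hz1, hz2⟩
      refine ⟨hKW k hk z hz1, ?_⟩
      intro u hu
      rw [hsa k hk]
      exact hz2 _ (hKU k hk u hu)) (by
      intro z hz hz0
      obtain ⟨⟨x, hx, hxz⟩, -⟩ := hnd z hz.1 hz0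
      obtain ⟨u, hu, p, hp, rfl⟩ := hdec x hx
      have h3 : f u z = 0 := h.sfm.comm_zero (hz.2 u hu)
      rw [h.sfm.add_left, h3, zero_add] at hxz
      refine ⟨⟨p, hp, hxz⟩, ⟨p, hp, ?_⟩⟩
      rw [h.skew]
      exact neg_ne_zero.2 hxz)
    have h5 : d = finrank F W' + 2 * r := by omega
    rw [h5]
    exact (Nat.dvd_add_self_right).2 h2

/-- the scalar subalgebra -/
theorem bot_field (hn : 0 < n) : IsFieldSubalgebra 1 (⊥ : Subalgebra F (Matrix (Fin n) (Fin n) F)) where
  comm := by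
    intro x hx y hy
    obtain ⟨a, rfl⟩ := Algebra.mem_bot.1 hx
    obtain ⟨b, rfl⟩ := Algebra.mem_bot.1 hy
    rw [← map_mul, ← map_mul, mul_comm]
  inv := by
    intro x hx hx0
    obtain ⟨a, rfl⟩ := Algebra.mem_bot.1 hx
    have ha : a ≠ 0 := by
      rintro rfl
      exact hx0 (map_zero _)
    exact ⟨algebraMap F _ a⁻¹, Algebra.mem_bot.2 ⟨_, rfl⟩, by rw [← map_mul, mul_inv_cancel₀ ha, map_one]⟩
  finrank_eq := by
    haveI : Nonempty (Fin n) := ⟨⟨0, hn⟩⟩
    exact Subalgebra.finrank_bot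

theorem SpF.even_finrank (hn : 0 < n) (h : SpF f) {W : Submodule F (Fin n → F)} (hW : IsNondegenerateOn f W) :
    Even (finrank F W) := by
  have key : ∀ (a : F) (u : Fin n → F), (algebraMap F (Matrix (Fin n) (Fin n) F) a) *ᵥ u = a • u := by
    intro a u
    rw [Algebra.algebraMap_eq_smul_one, Matrix.smul_mulVec, Matrix.one_mulVec]
  have h1 := h.even_nd (bot_field hn) (by
    intro k hk u v
    obtain ⟨a, rfl⟩ := Algebra.mem_bot.1 hk
    rw [key, key, h.sfm.smul_left, h.smul_right]) (by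
    intro k hk v
    obtain ⟨a, rfl⟩ := Algebra.mem_bot.1 hk
    rw [key, h.sfm.smul_left, h.alt, mul_zero]) _ W rfl (by
    intro k hk w hw
    obtain ⟨a, rfl⟩ := Algebra.mem_bot.1 hk
    rw [key]
    exact W.smul_mem _ hw) hW
  rw [mul_one] at h1
  exact (even_iff_two_dvd).2 h1

theorem SpF.fsa_dvd (h : SpF f) {K : Subalgebra F (Matrix (Fin n) (Fin n) F)} (hK : IsFieldSubalgebra r K)
    (hsa : IsSelfAdjointFor f K) (halt : ∀ k ∈ K, ∀ v, f (k *ᵥ v) v = 0) : 2 * r ∣ n := by
  have h1 := h.even_nd hK hsa halt _ ⊤ rfl (fun _ _ _ _ => trivial) (by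
    intro w _ hw0
    obtain ⟨x, hx⟩ := h.sfm.nd w hw0
    refine ⟨⟨x, trivial, hx⟩, ⟨x, trivial, ?_⟩⟩
    rw [h.skew]
    exact neg_ne_zero.2 hx)
  rwa [finrank_top, Module.finrank_fintype_fun_eq_card, Fintype.card_fin] at h1

theorem fn_ne (h : SpF f) {v : Fin n → F} (hv : v ≠ 0) {a : F} (ha : a ≠ 0) : a • fn h.sfm v ≠ 0 := by
  intro h0
  obtain ⟨x, hx⟩ := h.sfm.nd v hv
  have h1 := LinearMap.congr_fun h0 x
  rw [LinearMap.smul_apply, fn_apply, smul_eq_mul, LinearMap.zero_apply] at h1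
  exact mul_ne_zero ha hx h1

theorem not_le_tp (h : SpF f) (hX : TV f X) (hw : 2 ≤ w) (ht : 2 ≤ t) {e : Fin n ≃ Fin w × Fin t} {P : GL (Fin n) F} :
    ¬ X ≤ tensorProductSubgroup w t e P := by
  intro hle
  have hn : 0 < n := by
    have := Fintype.card_congr e
    rw [Fintype.card_prod, Fintype.card_fin, Fintype.card_fin, Fintype.card_fin] at this
    rw [this]; positivity
  obtain ⟨v, hv, hvv⟩ := exists_iso hn h.spn
  obtain ⟨a, ha, g, hg, hgx⟩ := hX v hv hvv
  exact no_trv_tens hw ht (fn_ne h hv ha) hv (fun x => by rw [hgx]; rfl) (hle hg)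

theorem not_le_tw (h : SpF f) (hX : TV f X) (hm : 2 ≤ m) (hk : 3 ≤ k) {e : Fin n ≃ (Fin k → Fin m)} {P : GL (Fin n) F} :
    ¬ X ≤ tensorWreathSubgroup m k e P := by
  intro hle
  have hn : 0 < n := by
    have := Fintype.card_congr e
    rw [Fintype.card_fin, Fintype.card_fun, Fintype.card_fin, Fintype.card_fin] at this
    rw [this]; positivity
  obtain ⟨v, hv, hvv⟩ := exists_iso hn h.spn
  obtain ⟨a, ha, g, hg, hgx⟩ := hX v hv hvv
  exact no_trv_wr hm hk (fn_ne h hv ha) hv (fun x => by rw [hgx]; rfl) (hle hg)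

theorem not_le_sub (h : SpF f) (hn : 2 ≤ n) (hX : TVa f X) {F₀ : Subfield F} (hF₀ : F₀ ≠ ⊤) (P : GL (Fin n) F) :
    ¬ X ≤ subfieldSubgroup F₀ P := by
  intro hle
  apply hF₀
  let i₀ : Fin n := ⟨0, by omega⟩
  let i₁ : Fin n := ⟨1, by omega⟩
  have h01 : i₁ ≠ i₀ := by
    intro h; exact absurd (congrArg Fin.val h) (by simp [i₀, i₁])
  set v : Fin n → F := (P : Matrix (Fin n) (Fin n) F) *ᵥ Pi.single i₀ 1 with hv
  have hv0 : v ≠ 0 := by
    rw [hv]
    apply GLv_ne
    intro h0
    have h1 : (Pi.single i₀ (1 : F) : Fin n → F) i₀ = 0 := by rw [h0]; rfl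
    rw [Pi.single_eq_same] at h1
    exact one_ne_zero h1
  let w : Fin n → F := fun j => f ((P : Matrix (Fin n) (Fin n) F) *ᵥ Pi.single j 1) v
  have hw0 : w i₀ = 0 := h.alt v
  have hP : ((P⁻¹ : GL (Fin n) F) : Matrix (Fin n) (Fin n) F) *ᵥ v = Pi.single i₀ 1 := by
    rw [hv]; exact inv_mulVec_self P _
  have key : ∀ a : F, ∀ j, a * w j ∈ F₀ := by
    intro a j
    obtain ⟨g, hg, hgx⟩ := hX v a
    have hg' := hle hg
    rw [mem_subfieldSubgroup_iff] at hg'
    set T := P⁻¹ * g * P with hT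
    rw [Subgroup.mem_sup_of_normal_right] at hg'
    obtain ⟨_, ⟨y, rfl⟩, _, ⟨d, rfl⟩, hyd⟩ := hg'
    have h4 : ∀ i j, (T : Matrix (Fin n) (Fin n) F) i j = ((y : Matrix (Fin n) (Fin n) F₀) i j : F) * d := by
      intro i j
      rw [← hyd]
      have : (Matrix.GeneralLinearGroup.map (F₀.subtype : F₀ →+* F) y *
        (Units.map (Matrix.scalar (Fin n) : F →+* Matrix (Fin n) (Fin n) F).toMonoidHom d) : GL (Fin n) F) =
        Matrix.GeneralLinearGroup.map (F₀.subtype : F₀ →+* F) y * sc n F d := rfl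
      rw [this, Units.val_mul, sc_coe, Matrix.mul_smul, mul_one, Matrix.smul_apply, smul_eq_mul, mul_comm]
      rfl
    have hTe : ∀ i j, (T : Matrix (Fin n) (Fin n) F) i j = (Pi.single j (1 : F) : Fin n → F) i +
        (a * w j) * (Pi.single i₀ (1 : F) : Fin n → F) i := by
      intro i j
      have h5 : (T : Matrix (Fin n) (Fin n) F) i j = ((T : Matrix (Fin n) (Fin n) F) *ᵥ (Pi.single j 1)) i := by
        rw [Matrix.mulVec_single_one]; rfl
      rw [h5, hT, Units.val_mul, Units.val_mul, ← Matrix.mulVec_mulVec, ← Matrix.mulVec_mulVec, hgx, Matrix.mulVec_add,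
        inv_mulVec_self, Matrix.mulVec_smul, Pi.add_apply, Pi.smul_apply, smul_eq_mul, hP]
    have hd : (d : F) ∈ F₀ := by
      have h5 := hTe i₁ i₁
      rw [h4, Pi.single_eq_same, Pi.single_eq_of_ne h01, mul_zero, add_zero] at h5
      have h6 : (d : F) = ((y : Matrix (Fin n) (Fin n) F₀) i₁ i₁ : F)⁻¹ := eq_inv_of_mul_eq_one_right h5
      rw [h6]
      exact F₀.inv_mem (Subtype.mem _)
    have h5 := hTe i₀ j
    rw [h4, Pi.single_eq_same, mul_one] at h5
    have h6 : a * w j = ((y : Matrix (Fin n) (Fin n) F₀) i₀ j : F) * d - (Pi.single j (1 : F) : Fin n → F) i₀ := by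
      rw [h5]; ring
    rw [h6]
    apply F₀.sub_mem (F₀.mul_mem (Subtype.mem _) hd)
    rw [Pi.single_apply]
    split_ifs
    · exact F₀.one_mem
    · exact F₀.zero_mem
  have hw : ∃ j, w j ≠ 0 := by
    by_contra hcon
    push Not at hcon
    obtain ⟨x, hx⟩ := h.sfm.nd v hv0
    apply hx
    have h12 : (fn h.sfm v).comp (Matrix.mulVecLin (P : Matrix (Fin n) (Fin n) F)) = 0 := by
      apply (Pi.basisFun F (Fin n)).ext
      intro j
      rw [Pi.basisFun_apply]
      exact hcon j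
    have h13 := LinearMap.congr_fun h12 (((P⁻¹ : GL (Fin n) F) : Matrix (Fin n) (Fin n) F) *ᵥ x)
    rw [LinearMap.comp_apply, Matrix.mulVecLin_apply, self_inv_mulVec] at h13
    exact h13
  obtain ⟨j, hj⟩ := hw
  rw [eq_top_iff]
  intro c _
  have := key (c * (w j)⁻¹) j
  rwa [inv_mul_cancel_right₀ hj] at this

theorem not_le_quad [Fintype F] (h : SpF f) (hn : 3 ≤ n) (hX : TV f X) (hodd : ¬ Odd (Fintype.card F))
    {Q : (Fin n → F) → F} (hQ : IsNondegenerateQuadraticForm Q) (hpol : ∀ u v, QuadraticMap.polar Q u v = f u v) :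
    ¬ X ≤ quadSimilarityGroup Q := by
  intro hle
  have h2 := two_of_not_odd hodd
  have hp : ∀ u v, Q (u + v) = Q u + Q v + f u v := by
    intro u v
    have := hpol u v
    have h2 : Q (u + v) - Q u - Q v = f u v := this
    linear_combination h2
  have hsq : ∀ a : F, ∃ b : F, b ^ 2 = a := by
    intro a
    haveI : CharP F 2 := CharTwo.of_one_ne_zero_of_two_eq_zero one_ne_zero h2
    have hinj : Function.Injective (frobenius F 2) := frobenius_inj F 2
    obtain ⟨b, hb⟩ := (Finite.injective_iff_surjective.1 hinj) a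
    exact ⟨b, hb⟩
  -- a singular vector
  obtain ⟨v, hv0, hQv⟩ : ∃ v, v ≠ 0 ∧ Q v = 0 := by
    obtain ⟨w, hw0, -⟩ := exists_iso (f := f) (by omega) h.spn
    by_cases hQw : Q w = 0
    · exact ⟨w, hw0, hQw⟩
    obtain ⟨u, huw, hu⟩ : ∃ u, f u w = 0 ∧ u ∉ Submodule.span F {w} := by
      by_contra hcon
      push Not at hcon
      have h3 : LinearMap.ker (fn h.sfm w) ≤ Submodule.span F {w} := fun u hu => hcon u hu
      have h4 := Submodule.finrank_mono h3
      rw [finrank_span_singleton hw0] at h4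
      have h5 := LinearMap.finrank_range_add_finrank_ker (fn h.sfm w)
      have h6 : finrank F (LinearMap.range (fn h.sfm w)) ≤ 1 := by
        have := Submodule.finrank_le (LinearMap.range (fn h.sfm w))
        simpa using this
      rw [Module.finrank_fintype_fun_eq_card, Fintype.card_fin] at h5
      omega
    obtain ⟨b, hb⟩ := hsq (Q u / Q w)
    refine ⟨u + b • w, ?_, ?_⟩
    · intro h3
      apply hu
      rw [Submodule.mem_span_singleton]
      refine ⟨-b, ?_⟩
      rw [neg_smul]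
      exact (neg_eq_of_add_eq_zero_left h3)
    · rw [hp, hQ.smul, h.smul_right, huw, hb]
      field_simp
      linear_combination Q u * h2
  obtain ⟨a, ha, g, hg, hgx⟩ := hX v hv0 (h.alt v)
  obtain ⟨c, hc⟩ := hle hg
  obtain ⟨x, hxv, hQx⟩ : ∃ x, f x v = 0 ∧ Q x ≠ 0 := by
    by_contra hcon
    push Not at hcon
    have h3 : LinearMap.ker (fn h.sfm v) ≤ perp h.sfm (LinearMap.ker (fn h.sfm v)) := by
      intro x hx y hy
      have e1 := hcon x hx
      have e2 := hcon y hy
      have e3 := hcon (x + y) (by rw [h.sfm.add_left]; rw [show f x v = 0 from hx, show f y v = 0 from hy, add_zero])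
      rw [hp, e1, e2, add_zero, zero_add] at e3
      exact e3
    have h4 := Submodule.finrank_mono h3
    have h5 := LinearMap.finrank_range_add_finrank_ker (fn h.sfm v)
    have h6 : finrank F (LinearMap.range (fn h.sfm v)) ≤ 1 := by
      have := Submodule.finrank_le (LinearMap.range (fn h.sfm v))
      simpa using this
    have h7 := finrank_perp h.sfm (LinearMap.ker (fn h.sfm v))
    rw [Module.finrank_fintype_fun_eq_card, Fintype.card_fin] at h5
    omega
  have hc1 : (c : F) = 1 := by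
    have h3 := hc x
    rw [hgx, hxv, mul_zero, zero_smul, add_zero] at h3
    have h4 : ((c : F) - 1) * Q x = 0 := by linear_combination -h3
    exact sub_eq_zero.1 ((mul_eq_zero.1 h4).resolve_right hQx)
  obtain ⟨z, hz⟩ := h.sfm.nd v hv0
  have h3 := hc z
  rw [hgx, hp, hQ.smul, hQv, h.smul_right, hc1] at h3
  have h4 : a * (f z v * f z v) = 0 := by linear_combination h3
  rcases mul_eq_zero.1 h4 with h5 | h5
  · exact ha h5
  · exact mul_ne_zero hz hz h5

end Cfsg.Agent.H29.Fm
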