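import Mathlib
import Cfsg.Agent.H29_Sq2

set_option autoImplicit false

/-! small fields: planes over the field with two elements, tensor products with a three-dimensional space over the field
with three elements -/

namespace Cfsg.Agent.H29.Fm

open Matrix Module Cfsg.Geo Cfsg.Agent.H29.Clifford Cfsg.Agent.H29.Asc Cfsg.Agent.H29.AscF Cfsg.Agent.H29.Trv
  Cfsg.Agent.H29.AscT
open scoped Kronecker commutatorElement

variable {F : Type*} [Field F] {n k m r w t : ℕ}
variable {f : (Fin n → F) → (Fin n → F) → F} {X G : Subgroup (GL (Fin n) F)}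

/-- a quadratic form with prescribed values on a basis -/
theorem quad_exists (h : SpF f) (h2 : (2 : F) = 0) {κ : Type} [Fintype κ] [DecidableEq κ]
    (b : Module.Basis κ F (Fin n → F)) (z : κ → F) :
    ∃ Q : (Fin n → F) → F, IsNondegenerateQuadraticForm Q ∧ (∀ u v, QuadraticMap.polar Q u v = f u v) ∧
      ∀ a, Q (b a) = z a := by
  have hcard := card_eq_of_basis b
  let e : Fin n ≃ κ := (Fintype.equivFinOfCardEq hcard).symm
  obtain ⟨P, hP⟩ := exists_GL_basis b e
  let Γ : Matrix κ κ F := Matrix.of fun a c => f (b a) (b c)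
  let M : Matrix κ κ F := Matrix.of fun a c => if e.symm a < e.symm c then f (b a) (b c) else if a = c then z a else 0
  have hM : M + Mᵀ = Γ := by
    ext a c
    show (if e.symm a < e.symm c then f (b a) (b c) else if a = c then z a else 0) +
      (if e.symm c < e.symm a then f (b c) (b a) else if c = a then z c else 0) = f (b a) (b c)
    rcases lt_trichotomy (e.symm a) (e.symm c) with h1 | h1 | h1
    · rw [if_pos h1, if_neg (not_lt.2 h1.le), if_neg (fun h => by rw [h] at h1; exact lt_irrefl _ h1), add_zero]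
    · have hac : a = c := e.symm.injective h1
      subst hac
      rw [if_neg (lt_irrefl _), if_pos rfl, h.alt, ← two_mul, h2, zero_mul]
    · rw [if_neg (not_lt.2 h1.le), if_neg (fun h => by rw [h] at h1; exact lt_irrefl _ h1), if_pos h1, zero_add,
        h.skew]
      linear_combination -f (b a) (b c) * h2
  obtain ⟨h3, h4⟩ := quad_gram h e P (Γ := Γ) (M := M) (by
    intro x y
    show f ((P : Matrix (Fin n) (Fin n) F) *ᵥ (x ∘ e)) ((P : Matrix (Fin n) (Fin n) F) *ᵥ (y ∘ e)) = _
    rw [form_coord h.sfm b e P hP]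
    show _ = ∑ a, x a * ∑ c, f (b a) (b c) * y c
    apply Finset.sum_congr rfl
    intro a _
    rw [Finset.mul_sum]
    apply Finset.sum_congr rfl
    intro c _
    rw [RingEquiv.refl_apply]
    ring) hM
  refine ⟨_, h3, h4, ?_⟩
  intro a
  have hb : b a = ce e P (Pi.single a 1) := by
    rw [ce_apply]
    have h5 : (Pi.single a (1 : F) : κ → F) ∘ e = Pi.single (e.symm a) 1 := by
      funext i
      show (Pi.single a (1 : F) : κ → F) (e i) = _
      by_cases hi : i = e.symm a
      · subst hi
        rw [Equiv.apply_symm_apply, Pi.single_eq_same, Pi.single_eq_same]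
      · rw [Pi.single_eq_of_ne hi, Pi.single_eq_of_ne]
        intro h6
        apply hi
        rw [← h6, Equiv.symm_apply_apply]
    rw [h5, hP, Equiv.apply_symm_apply]
  show (ce e P).symm (b a) ⬝ᵥ (M *ᵥ (ce e P).symm (b a)) = z a
  rw [hb, LinearEquiv.symm_apply_apply, Matrix.mulVec_single_one, single_dotProduct, one_mul]
  show (if e.symm a < e.symm a then f (b a) (b a) else if a = a then z a else 0) = z a
  rw [if_neg (lt_irrefl _), if_pos rfl]

theorem quad_span' {Q : (Fin n → F) → F} (hQ : IsNondegenerateQuadraticForm Q)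
    (hpol : ∀ u v, QuadraticMap.polar Q u v = f u v) {S : Set (Fin n → F)} (hS : Submodule.span F S = ⊤)
    {g : GL (Fin n) F} (hg : g ∈ isoG f)
    (hgS : ∀ s ∈ S, Q ((g : Matrix (Fin n) (Fin n) F) *ᵥ s) = Q s) : g ∈ quadSimilarityGroup Q := by
  have hp : ∀ u v, Q (u + v) = Q u + Q v + f u v := by
    intro u v
    have := hpol u v
    have h2 : Q (u + v) - Q u - Q v = f u v := this
    linear_combination h2
  let D : Submodule F (Fin n → F) :=
    { carrier := {v | Q ((g : Matrix (Fin n) (Fin n) F) *ᵥ v) = Q v}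
      add_mem' := by
        intro a b ha hb
        show Q ((g : Matrix (Fin n) (Fin n) F) *ᵥ (a + b)) = Q (a + b)
        rw [Matrix.mulVec_add, hp, hp, ha, hb, mem_isoG.1 hg]
      zero_mem' := by
        show Q ((g : Matrix (Fin n) (Fin n) F) *ᵥ 0) = Q 0
        rw [Matrix.mulVec_zero]
      smul_mem' := by
        intro c a ha
        show Q ((g : Matrix (Fin n) (Fin n) F) *ᵥ (c • a)) = Q (c • a)
        rw [Matrix.mulVec_smul, hQ.smul, hQ.smul, ha] }
  have hD : D = ⊤ := by
    rw [eq_top_iff, ← hS, Submodule.span_le]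
    intro s hs
    exact hgS s hs
  refine ⟨1, fun v => ?_⟩
  rw [Units.val_one, one_mul]
  have : v ∈ D := by rw [hD]; trivial
  exact this

/-- planes over the field with two elements -/
theorem dec_two_quad [Fintype F] (h : SpF f) (hq : Fintype.card F = 2) {D : Fin t → Submodule F (Fin n → F)}
    (hD : IsNondegenerateMDecomposition f 2 D) :
    ∃ Q : (Fin n → F) → F, IsNondegenerateQuadraticForm Q ∧ (∀ u v, QuadraticMap.polar Q u v = f u v) ∧
      ∀ G : Subgroup (GL (Fin n) F), Fx f G → G ≤ decompositionStabilizer D → G ≤ quadSimilarityGroup Q := by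
  obtain ⟨b, hb, hb'⟩ := dec_basis hD.decomp
  obtain ⟨Q, hQ, hpol, hQb⟩ := quad_exists h (two_eq_zero hq) b (fun _ => 1)
  refine ⟨Q, hQ, hpol, ?_⟩
  have h2 := two_eq_zero hq
  have hp : ∀ u v, Q (u + v) = Q u + Q v + f u v := by
    intro u v
    have := hpol u v
    have h2 : Q (u + v) - Q u - Q v = f u v := this
    linear_combination h2
  have hQ1 : ∀ i, ∀ x ∈ D i, x ≠ 0 → Q x = 1 := by
    intro i x hx hx0
    obtain ⟨c, rfl⟩ := hb' i x hx
    rw [Fin.sum_univ_two] at hx0 ⊢
    rw [hp, hQ.smul, hQ.smul, hQb, hQb, h.sfm.smul_left, h.smul_right]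
    rcases eq_zero_or_one hq (c 0) with h0 | h0 <;> rcases eq_zero_or_one hq (c 1) with h1 | h1
    · exfalso
      apply hx0
      rw [h0, h1, zero_smul, zero_smul, add_zero]
    · rw [h0, h1]; ring
    · rw [h0, h1]; ring
    · rw [h0, h1]
      have h3 : f (b (i, 0)) (b (i, 1)) = 1 := by
        rcases eq_zero_or_one hq (f (b (i, 0)) (b (i, 1))) with h4 | h4
        · exfalso
          have hb0 : b (i, 1) ≠ 0 := b.ne_zero _
          obtain ⟨⟨x, hx, hxb⟩, -⟩ := hD.nondegenerate i _ (hb i 1) hb0
          obtain ⟨d, rfl⟩ := hb' i x hx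
          rw [Fin.sum_univ_two, h.sfm.add_left, h.sfm.smul_left, h.sfm.smul_left, h4, h.alt, mul_zero, mul_zero,
            add_zero] at hxb
          exact hxb rfl
        · exact h4
      rw [h3]
      linear_combination h2
  intro G hG hle g hg
  apply quad_span' hQ hpol (S := {x | ∃ i, x ∈ D i}) ?_ (mem_isoG.2 (hG g hg))
  · rintro s ⟨i, hs⟩
    by_cases hs0 : s = 0
    · rw [hs0, Matrix.mulVec_zero]
    obtain ⟨σ, hσ⟩ := hle hg
    have h3 : (g : Matrix (Fin n) (Fin n) F) *ᵥ s ∈ D (σ i) := by
      rw [← hσ i]; exact ⟨s, hs, rfl⟩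
    rw [hQ1 i s hs hs0, hQ1 _ _ h3 (GLv_ne hs0)]
  · rw [eq_top_iff, ← hD.decomp.iSup_eq_top]
    apply iSup_le
    intro i x hx
    exact Submodule.subset_span ⟨i, hx⟩

/-- decompositions from bases -/
theorem dec_of_basis (v : Module.Basis (Fin t × Fin m) F (Fin n → F)) (ht : 2 ≤ t) (hm : 0 < m) :
    IsMDecomposition m (fun i => Submodule.span F (Set.range (fun a => v (i, a)))) := by
  classical
  have hli := v.linearIndependent
  have htop : Submodule.span F (Set.range v) = ⊤ := v.span_eq
  have hsup : (⨆ i, Submodule.span F (Set.range (fun a => v (i, a)))) = ⊤ := by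
    rw [eq_top_iff, ← htop, Submodule.span_le]
    rintro _ ⟨⟨i, a⟩, rfl⟩
    exact Submodule.mem_iSup_of_mem i (Submodule.subset_span ⟨a, rfl⟩)
  refine ⟨ht, hm, ?_, ?_, hsup⟩
  · intro i
    have : LinearIndependent F (fun a => v (i, a)) := hli.comp (fun a : Fin m => (i, a)) (fun a b hab => congrArg Prod.snd hab)
    rw [finrank_span_eq_card this, Fintype.card_fin]
  · intro i
    have h1 : Submodule.span F (Set.range (fun a => v (i, a))) = Submodule.span F (v '' {p | p.1 = i}) := by
      congr 1
      ext x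
      constructor
      · rintro ⟨a, rfl⟩
        exact ⟨(i, a), rfl, rfl⟩
      · rintro ⟨⟨j, a⟩, hj, rfl⟩
        obtain rfl : j = i := hj
        exact ⟨a, rfl⟩
    have h2 : (⨆ j, ⨆ (_ : j ≠ i), Submodule.span F (Set.range (fun a => v (j, a)))) ≤
        Submodule.span F (v '' {p | p.1 ≠ i}) := by
      apply iSup_le
      intro j
      apply iSup_le
      intro hj
      rw [Submodule.span_le]
      rintro _ ⟨a, rfl⟩
      exact Submodule.subset_span ⟨(j, a), hj, rfl⟩
    have h3 := hli.disjoint_span_image (s := {p : Fin t × Fin m | p.1 = i}) (t := {p | p.1 ≠ i}) (by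
      rw [Set.disjoint_left]
      intro p hp hp'
      exact hp' hp)
    have h4 : Disjoint (Submodule.span F (Set.range (fun a => v (i, a))))
        (⨆ j, ⨆ (_ : j ≠ i), Submodule.span F (Set.range (fun a => v (j, a)))) := by
      rw [h1]
      exact h3.mono_right h2
    exact h4

theorem nd_of_orth {τ : F ≃+* F} {ε : F} (h : SFm τ ε f) {D : Fin t → Submodule F (Fin n → F)} (hD : IsMDecomposition m D)
    (hort : ∀ i j, i ≠ j → AreOrthogonalFor f (D i) (D j)) : IsNondegenerateMDecomposition f m D := by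
  have key : ∀ i, ∀ w ∈ D i, w ≠ 0 → ∃ x ∈ D i, f x w ≠ 0 := by
    intro i w hw hw0
    by_contra hcon
    push Not at hcon
    obtain ⟨x, hx⟩ := h.nd w hw0
    apply hx
    have hx' : x ∈ (⨆ j, D j : Submodule F (Fin n → F)) := by
      have := hD.iSup_eq_top
      rw [this]; trivial
    have hle : (⨆ j, D j : Submodule F (Fin n → F)) ≤ LinearMap.ker (fn h w) := by
      apply iSup_le
      intro j y hy
      by_cases hij : j = i
      · subst hij
        exact hcon y hy
      · exact hort j i hij y hy w hw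
    exact hle hx'
  refine ⟨hD, ?_, hort⟩
  intro i w hw hw0
  obtain ⟨x, hx, hxw⟩ := key i w hw hw0
  exact ⟨⟨x, hx, hxw⟩, ⟨x, hx, fun h0 => hxw (h.comm_zero h0)⟩⟩

end Cfsg.Agent.H29.Fm
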