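import Mathlib
import Cfsg.Agent.H29_Sq3

set_option autoImplicit false

/-! tensor products with a three-dimensional space over the field with three elements -/

namespace Cfsg.Agent.H29.Fm

open Matrix Module Cfsg.Geo Cfsg.Agent.H29.Clifford Cfsg.Agent.H29.Asc Cfsg.Agent.H29.AscF Cfsg.Agent.H29.Trv
  Cfsg.Agent.H29.AscT
open scoped Kronecker commutatorElement

variable {F : Type*} [Field F] {n k m r w t : ℕ}
variable {f : (Fin n → F) → (Fin n → F) → F} {X G : Subgroup (GL (Fin n) F)}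

/-- the gram matrix of vectors -/
theorem gram_conj (C : Matrix (Fin m) (Fin m) F) (b : Matrix (Fin m) (Fin m) F) (i j : Fin m) :
    (bᵀ * C * b) i j = (b *ᵥ Pi.single i 1) ⬝ᵥ (C *ᵥ (b *ᵥ Pi.single j 1)) := by
  rw [Matrix.mulVec_single_one, Matrix.mulVec_single_one, mul_assoc]
  show ∑ k, bᵀ i k * (C * b) k j = ∑ k, b k i * (C *ᵥ b.col j) k
  rfl

/-- diagonalisation of symmetric matrices -/
theorem sym_diag (h2 : (2 : F) ≠ 0) {C : Matrix (Fin m) (Fin m) F} (hC : Cᵀ = C) (hdet : C.det ≠ 0) :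
    ∃ (u : Fin m → (Fin m → F)) (d : Fin m → F), (∀ i, d i ≠ 0) ∧
      ∀ i j, u i ⬝ᵥ (C *ᵥ u j) = if i = j then d i else 0 := by
  haveI : Invertible (2 : F) := invertibleOfNonzero h2
  let B : LinearMap.BilinForm F (Fin m → F) := Matrix.toBilin' C
  have hB : ∀ x y, B x y = x ⬝ᵥ (C *ᵥ y) := fun x y => Matrix.toBilin'_apply' C x y
  have hsymm : B.IsSymm := ⟨fun x y => by
    rw [hB, hB]
    show x ⬝ᵥ (C *ᵥ y) = y ⬝ᵥ (C *ᵥ x)
    rw [Matrix.dotProduct_mulVec, ← Matrix.mulVec_transpose, hC, dotProduct_comm]⟩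
  obtain ⟨v, hv⟩ := LinearMap.BilinForm.exists_orthogonal_basis (LinearMap.BilinForm.isSymm_iff.1 hsymm)
  have hfin : finrank F (Fin m → F) = m := by rw [Module.finrank_fintype_fun_eq_card, Fintype.card_fin]
  let v' : Module.Basis (Fin m) F (Fin m → F) := v.reindex (finCongr hfin)
  have hv' : ∀ i j, i ≠ j → B (v' i) (v' j) = 0 := by
    intro i j hij
    simp only [v', Module.Basis.reindex_apply]
    exact hv (fun h => hij ((finCongr hfin).symm.injective h))
  obtain ⟨P, hP⟩ := exists_GL_basis v' (Equiv.refl _)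
  have hP' : ∀ i, (P : Matrix (Fin m) (Fin m) F) *ᵥ Pi.single i 1 = v' i := hP
  refine ⟨fun i => v' i, fun i => B (v' i) (v' i), ?_, ?_⟩
  · have h3 : ((P : Matrix (Fin m) (Fin m) F)ᵀ * C * (P : Matrix (Fin m) (Fin m) F)) =
        Matrix.diagonal (fun i => B (v' i) (v' i)) := by
      ext i j
      rw [gram_conj, hP', hP', ← hB, Matrix.diagonal_apply]
      by_cases hij : i = j
      · subst hij; rw [if_pos rfl]
      · rw [if_neg hij, hv' i j hij]
    have h4 := congrArg Matrix.det h3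
    rw [Matrix.det_mul, Matrix.det_mul, Matrix.det_transpose, Matrix.det_diagonal] at h4
    have h5 : (P : Matrix (Fin m) (Fin m) F).det ≠ 0 := by
      have := P.isUnit.map (Matrix.detMonoidHom (n := Fin m) (R := F))
      exact this.ne_zero
    have h6 : ∏ i, B (v' i) (v' i) ≠ 0 := by
      rw [← h4]
      exact mul_ne_zero (mul_ne_zero h5 hdet) h5
    intro i
    exact (Finset.prod_ne_zero_iff.1 h6) i (Finset.mem_univ i)
  · intro i j
    rw [← hB]
    by_cases hij : i = j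
    · subst hij; rw [if_pos rfl]
    · rw [if_neg hij, hv' i j hij]

theorem GL_of_orth {C : Matrix (Fin m) (Fin m) F} {u : Fin m → (Fin m → F)} {d : Fin m → F} (hd : ∀ i, d i ≠ 0)
    (hu : ∀ i j, u i ⬝ᵥ (C *ᵥ u j) = if i = j then d i else 0) :
    ∃ b : GL (Fin m) F, (b : Matrix (Fin m) (Fin m) F)ᵀ * C * (b : Matrix (Fin m) (Fin m) F) = Matrix.diagonal d ∧
      ∀ i, (b : Matrix (Fin m) (Fin m) F) *ᵥ Pi.single i 1 = u i := by
  let M : Matrix (Fin m) (Fin m) F := Matrix.of fun i j => u j i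
  have hM : ∀ i, M *ᵥ Pi.single i 1 = u i := by
    intro i
    rw [Matrix.mulVec_single_one]
    rfl
  have h1 : Mᵀ * C * M = Matrix.diagonal d := by
    ext i j
    rw [gram_conj, hM, hM, hu, Matrix.diagonal_apply]
  have h2 : M.det ≠ 0 := by
    intro h0
    have h3 := congrArg Matrix.det h1
    rw [Matrix.det_mul, h0, mul_zero, Matrix.det_diagonal] at h3
    exact (Finset.prod_ne_zero_iff.2 (fun i _ => hd i)) h3.symm
  refine ⟨Matrix.GeneralLinearGroup.mkOfDetNeZero M h2, h1, hM⟩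

theorem three_cases [Fintype F] (hF : Fintype.card F = 3) (x : F) : x = 0 ∨ x = 1 ∨ x = -1 := by
  have h1 := FiniteField.pow_card x
  rw [hF] at h1
  have h2 : x * ((x - 1) * (x + 1)) = 0 := by linear_combination h1
  rcases mul_eq_zero.1 h2 with h | h
  · exact Or.inl h
  · rcases mul_eq_zero.1 h with h | h
    · exact Or.inr (Or.inl (sub_eq_zero.1 h))
    · exact Or.inr (Or.inr (eq_neg_of_add_eq_zero_left h))

theorem three_zero [Fintype F] (hF : Fintype.card F = 3) : (3 : F) = 0 := by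
  have h1 : ((Fintype.card F : ℕ) : F) = 0 := FiniteField.cast_card_eq_zero F
  rw [hF] at h1
  exact_mod_cast h1

theorem two_ne_of_three [Fintype F] (hF : Fintype.card F = 3) : (2 : F) ≠ 0 := by
  intro h
  have := three_zero hF
  have h1 : (1 : F) = 0 := by linear_combination this - h
  exact one_ne_zero h1

/-- three-dimensional symmetric forms over the field with three elements -/
theorem sym_three [Fintype F] (hF : Fintype.card F = 3) {C : Matrix (Fin 3) (Fin 3) F} (hC : Cᵀ = C) (hdet : C.det ≠ 0) :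
    ∃ (b : GL (Fin 3) F) (ε : F), ε ≠ 0 ∧ (b : Matrix (Fin 3) (Fin 3) F)ᵀ * C * (b : Matrix (Fin 3) (Fin 3) F) =
      ε • (1 : Matrix (Fin 3) (Fin 3) F) := by
  obtain ⟨u, d, hd, hu⟩ := sym_diag (two_ne_of_three hF) hC hdet
  have h3 := three_zero hF
  have hsym : ∀ x y : Fin 3 → F, x ⬝ᵥ (C *ᵥ y) = y ⬝ᵥ (C *ᵥ x) := by
    intro x y
    rw [Matrix.dotProduct_mulVec, ← Matrix.mulVec_transpose, hC, dotProduct_comm]
  have hgoal : (∃ (v : Fin 3 → (Fin 3 → F)) (ε : F), ε ≠ 0 ∧ ∀ i j, v i ⬝ᵥ (C *ᵥ v j) = if i = j then ε else 0) →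
      ∃ (b : GL (Fin 3) F) (ε : F), ε ≠ 0 ∧ (b : Matrix (Fin 3) (Fin 3) F)ᵀ * C * (b : Matrix (Fin 3) (Fin 3) F) =
      ε • (1 : Matrix (Fin 3) (Fin 3) F) := by
    rintro ⟨v, ε, hε, hv⟩
    obtain ⟨b, hb, -⟩ := GL_of_orth (d := fun _ => ε) (fun _ => hε) hv
    refine ⟨b, ε, hε, ?_⟩
    rw [hb]
    ext i j
    rw [Matrix.diagonal_apply, Matrix.smul_apply, Matrix.one_apply, smul_eq_mul, mul_ite, mul_one, mul_zero]
  apply hgoal
  -- three vectors with norms ε, ε, -ε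
  have key : ∀ (p q s : Fin 3 → F) (ε : F), ε ≠ 0 → p ⬝ᵥ (C *ᵥ p) = ε → q ⬝ᵥ (C *ᵥ q) = ε → s ⬝ᵥ (C *ᵥ s) = -ε →
      p ⬝ᵥ (C *ᵥ q) = 0 → p ⬝ᵥ (C *ᵥ s) = 0 → q ⬝ᵥ (C *ᵥ s) = 0 →
      ∃ (v : Fin 3 → (Fin 3 → F)) (ε : F), ε ≠ 0 ∧ ∀ i j, v i ⬝ᵥ (C *ᵥ v j) = if i = j then ε else 0 := by
    intro p q s ε hε hp hq hs hpq hps hqs
    refine ⟨![p + q, p - q, s], -ε, neg_ne_zero.2 hε, ?_⟩
    have hqp : q ⬝ᵥ (C *ᵥ p) = 0 := by rw [hsym]; exact hpq
    have hsp : s ⬝ᵥ (C *ᵥ p) = 0 := by rw [hsym]; exact hps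
    have hsq : s ⬝ᵥ (C *ᵥ q) = 0 := by rw [hsym]; exact hqs
    have e00 : (p + q) ⬝ᵥ (C *ᵥ (p + q)) = -ε := by
      rw [Matrix.mulVec_add, dotProduct_add, add_dotProduct, add_dotProduct, hp, hq, hpq, hqp]
      linear_combination ε * h3
    have e11 : (p - q) ⬝ᵥ (C *ᵥ (p - q)) = -ε := by
      rw [Matrix.mulVec_sub, dotProduct_sub, sub_dotProduct, sub_dotProduct, hp, hq, hpq, hqp]
      linear_combination ε * h3
    have e01 : (p + q) ⬝ᵥ (C *ᵥ (p - q)) = 0 := by
      rw [Matrix.mulVec_sub, dotProduct_sub, add_dotProduct, add_dotProduct, hp, hq, hpq, hqp]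
      ring
    have e02 : (p + q) ⬝ᵥ (C *ᵥ s) = 0 := by rw [add_dotProduct, hps, hqs, add_zero]
    have e12 : (p - q) ⬝ᵥ (C *ᵥ s) = 0 := by rw [sub_dotProduct, hps, hqs, sub_zero]
    have e10 : (p - q) ⬝ᵥ (C *ᵥ (p + q)) = 0 := by rw [hsym]; exact e01
    have e20 : s ⬝ᵥ (C *ᵥ (p + q)) = 0 := by rw [hsym]; exact e02
    have e21 : s ⬝ᵥ (C *ᵥ (p - q)) = 0 := by rw [hsym]; exact e12
    intro i j
    fin_cases i <;> fin_cases j
    · exact e00
    · exact e01
    · exact e02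
    · exact e10
    · exact e11
    · exact e12
    · exact e20
    · exact e21
    · exact hs
  have n0 : u 0 ⬝ᵥ (C *ᵥ u 0) = d 0 := by rw [hu, if_pos rfl]
  have n1 : u 1 ⬝ᵥ (C *ᵥ u 1) = d 1 := by rw [hu, if_pos rfl]
  have n2 : u 2 ⬝ᵥ (C *ᵥ u 2) = d 2 := by rw [hu, if_pos rfl]
  have o01 : u 0 ⬝ᵥ (C *ᵥ u 1) = 0 := by rw [hu, if_neg (by decide)]
  have o02 : u 0 ⬝ᵥ (C *ᵥ u 2) = 0 := by rw [hu, if_neg (by decide)]
  have o12 : u 1 ⬝ᵥ (C *ᵥ u 2) = 0 := by rw [hu, if_neg (by decide)]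
  have o10 : u 1 ⬝ᵥ (C *ᵥ u 0) = 0 := by rw [hu, if_neg (by decide)]
  have o20 : u 2 ⬝ᵥ (C *ᵥ u 0) = 0 := by rw [hu, if_neg (by decide)]
  have o21 : u 2 ⬝ᵥ (C *ᵥ u 1) = 0 := by rw [hu, if_neg (by decide)]
  have hall : ∀ ε : F, ε ≠ 0 → d 0 = ε → d 1 = ε → d 2 = ε →
      ∃ (v : Fin 3 → (Fin 3 → F)) (ε : F), ε ≠ 0 ∧ ∀ i j, v i ⬝ᵥ (C *ᵥ v j) = if i = j then ε else 0 := by
    intro ε hε h0 h1 h2
    refine ⟨u, ε, hε, fun i j => ?_⟩
    rw [hu]
    by_cases hij : i = j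
    · rw [if_pos hij, if_pos hij]
      fin_cases i
      · exact h0
      · exact h1
      · exact h2
    · rw [if_neg hij, if_neg hij]
  have hm1 : (-1 : F) ≠ 0 := neg_ne_zero.2 one_ne_zero
  rcases three_cases hF (d 0) with h0 | h0 | h0
  · exact absurd h0 (hd 0)
  · rcases three_cases hF (d 1) with h1 | h1 | h1
    · exact absurd h1 (hd 1)
    · rcases three_cases hF (d 2) with h2 | h2 | h2
      · exact absurd h2 (hd 2)
      · exact hall 1 one_ne_zero h0 h1 h2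
      · exact key (u 0) (u 1) (u 2) 1 one_ne_zero (n0.trans h0) (n1.trans h1) (n2.trans h2) o01 o02 o12
    · rcases three_cases hF (d 2) with h2 | h2 | h2
      · exact absurd h2 (hd 2)
      · exact key (u 0) (u 2) (u 1) 1 one_ne_zero (n0.trans h0) (n2.trans h2) (n1.trans h1) o02 o01 o21
      · exact key (u 1) (u 2) (u 0) (-1) hm1 (n1.trans h1) (n2.trans h2) (by rw [neg_neg]; exact n0.trans h0) o12 o10 o20
  · rcases three_cases hF (d 1) with h1 | h1 | h1
    · exact absurd h1 (hd 1)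
    · rcases three_cases hF (d 2) with h2 | h2 | h2
      · exact absurd h2 (hd 2)
      · exact key (u 1) (u 2) (u 0) 1 one_ne_zero (n1.trans h1) (n2.trans h2) (n0.trans h0) o12 o10 o20
      · exact key (u 0) (u 2) (u 1) (-1) hm1 (n0.trans h0) (n2.trans h2) (by rw [neg_neg]; exact n1.trans h1) o02 o01 o21
    · rcases three_cases hF (d 2) with h2 | h2 | h2
      · exact absurd h2 (hd 2)
      · exact key (u 0) (u 1) (u 2) (-1) hm1 (n0.trans h0) (n1.trans h1) (by rw [neg_neg]; exact n2.trans h2) o01 o02 o12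
      · exact hall (-1) hm1 h0 h1 h2

theorem tens_change' {e : Fin n ≃ Fin w × Fin t} {P : GL (Fin n) F} {A : Matrix (Fin w) (Fin w) F}
    {C : Matrix (Fin t) (Fin t) F} {c : F}
    (H : ∀ x y : Fin w × Fin t → F, f (ce e P x) (ce e P y) = c * (x ⬝ᵥ ((A ⊗ₖ C) *ᵥ y)))
    (a : GL (Fin w) F) (b : GL (Fin t) F) (x y : Fin w × Fin t → F) :
    f (ce e (P * glReindex e.symm (kr a b)) x) (ce e (P * glReindex e.symm (kr a b)) y) =
      c * (x ⬝ᵥ ((((a : Matrix (Fin w) (Fin w) F)ᵀ * A * (a : Matrix (Fin w) (Fin w) F)) ⊗ₖ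
        ((b : Matrix (Fin t) (Fin t) F)ᵀ * C * (b : Matrix (Fin t) (Fin t) F))) *ᵥ y)) := by
  have key : ∀ x : Fin w × Fin t → F, ce e (P * glReindex e.symm (kr a b)) x =
      ce e P ((kr a b : Matrix (Fin w × Fin t) (Fin w × Fin t) F) *ᵥ x) := by
    intro x
    rw [ce_apply, ce_apply, Units.val_mul, ← Matrix.mulVec_mulVec, reindex_mulVec]
  rw [key, key, H]
  congr 1
  rw [Matrix.mulVec_mulVec, ← Matrix.vecMul_transpose, ← Matrix.dotProduct_mulVec, Matrix.mulVec_mulVec, ← mul_assoc]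
  have h1 : (kr a b : Matrix (Fin w × Fin t) (Fin w × Fin t) F)ᵀ * (A ⊗ₖ C) *
        (kr a b : Matrix (Fin w × Fin t) (Fin w × Fin t) F) =
        (((a : Matrix (Fin w) (Fin w) F))ᵀ * A * (a : Matrix (Fin w) (Fin w) F)) ⊗ₖ
        (((b : Matrix (Fin t) (Fin t) F))ᵀ * C * (b : Matrix (Fin t) (Fin t) F)) := by
    show ((a : Matrix (Fin w) (Fin w) F) ⊗ₖ (b : Matrix (Fin t) (Fin t) F))ᵀ * (A ⊗ₖ C) *
      ((a : Matrix (Fin w) (Fin w) F) ⊗ₖ (b : Matrix (Fin t) (Fin t) F)) = _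
    rw [Matrix.mul_kronecker_mul, Matrix.mul_kronecker_mul]
    rfl
  rw [h1]

/-- the basis attached to a tensor decomposition -/
noncomputable def tB (e : Fin n ≃ Fin w × Fin t) (P : GL (Fin n) F) : Module.Basis (Fin t × Fin w) F (Fin n → F) :=
  ((Pi.basisFun F (Fin w × Fin t)).map (ce e P)).reindex (Equiv.prodComm _ _)

theorem tB_apply (e : Fin n ≃ Fin w × Fin t) (P : GL (Fin n) F) (l : Fin t) (i : Fin w) :
    tB e P (l, i) = ce e P (pt (Pi.single i 1) (Pi.single l 1)) := by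
  have : tB e P (l, i) = ce e P (Pi.single (i, l) 1) := by
    simp [tB]
  rw [this, single_pt]

theorem mem_tB {e : Fin n ≃ Fin w × Fin t} {P : GL (Fin n) F} {l : Fin t} {v : Fin n → F} :
    v ∈ Submodule.span F (Set.range (fun i => tB e P (l, i))) ↔ ∃ x, v = ce e P (pt x (Pi.single l 1)) := by
  constructor
  · intro hv
    induction hv using Submodule.span_induction with
    | mem v hv =>
      obtain ⟨i, rfl⟩ := hv
      exact ⟨_, tB_apply e P l i⟩
    | zero =>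
      refine ⟨0, ?_⟩
      have : pt (0 : Fin w → F) (Pi.single l (1 : F)) = 0 := (ptL (Pi.single l (1 : F))).map_zero
      rw [this, map_zero]
    | add v v' _ _ hv hv' =>
      obtain ⟨x, rfl⟩ := hv
      obtain ⟨x', rfl⟩ := hv'
      refine ⟨x + x', ?_⟩
      have : pt (x + x') (Pi.single l (1 : F)) = pt x (Pi.single l 1) + pt x' (Pi.single l 1) :=
        (ptL (Pi.single l (1 : F))).map_add x x'
      rw [this, map_add]
    | smul c v _ hv =>
      obtain ⟨x, rfl⟩ := hv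
      refine ⟨c • x, ?_⟩
      rw [pt_smul_left, map_smul]
  · rintro ⟨x, rfl⟩
    have h1 : x = ∑ i, x i • (Pi.single i (1 : F) : Fin w → F) := by
      funext j
      rw [Finset.sum_apply, Finset.sum_eq_single j]
      · simp
      · intro b _ hb
        simp [Pi.single_eq_of_ne (Ne.symm hb)]
      · intro h; exact absurd (Finset.mem_univ _) h
    have h2 : pt x (Pi.single l (1 : F)) = ∑ i, x i • pt (Pi.single i (1 : F)) (Pi.single l (1 : F)) := by
      have h3 : pt x (Pi.single l (1 : F)) = ptL (Pi.single l (1 : F)) x := rfl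
      rw [h3]
      conv_lhs => rw [h1]
      rw [map_sum]
      apply Finset.sum_congr rfl
      intro i _
      rw [map_smul]
      rfl
    rw [h2, map_sum]
    apply Submodule.sum_mem
    intro i _
    rw [map_smul, ← tB_apply]
    exact Submodule.smul_mem _ _ (Submodule.subset_span ⟨i, rfl⟩)

/-- tensor products with a three-dimensional space over the field with three elements -/
theorem tens_three [Fintype F] {τ : F ≃+* F} {δ : F} (h : SFm τ δ f) (hF : Fintype.card F = 3) (hw : 0 < w)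
    {e : Fin n ≃ Fin w × Fin 3} {P : GL (Fin n) F} {A : Matrix (Fin w) (Fin w) F} {C : Matrix (Fin 3) (Fin 3) F}
    {c : F} (hc : c ≠ 0) (hA : A.det ≠ 0) (hC : Cᵀ = C) (hCd : C.det ≠ 0)
    (H : ∀ x y : Fin w × Fin 3 → F, f (ce e P x) (ce e P y) = c * (x ⬝ᵥ ((A ⊗ₖ C) *ᵥ y))) :
    ∃ D : Fin 3 → Submodule F (Fin n → F), IsNondegenerateMDecomposition f w D ∧
      ∀ G : Subgroup (GL (Fin n) F), Fx f G → G ≤ tensorProductSubgroup w 3 e P → G ≤ decompositionStabilizer D := by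
  obtain ⟨b, ε, hε, hb⟩ := sym_three hF hC hCd
  set P' := P * glReindex e.symm (kr (1 : GL (Fin w) F) b) with hP'
  have H' : ∀ x y : Fin w × Fin 3 → F, f (ce e P' x) (ce e P' y) =
      (c * ε) * (x ⬝ᵥ ((A ⊗ₖ (1 : Matrix (Fin 3) (Fin 3) F)) *ᵥ y)) := by
    intro x y
    rw [hP', tens_change' H, hb, Units.val_one, Matrix.transpose_one, one_mul, mul_one, Matrix.kronecker_smul,
      Matrix.smul_mulVec, dotProduct_smul, smul_eq_mul, mul_assoc]
  have H2 : ∀ x x' : Fin w → F, ∀ y y' : Fin 3 → F, f (ce e P' (pt x y)) (ce e P' (pt x' y')) =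
      (c * ε) * ((x ⬝ᵥ (A *ᵥ x')) * (y ⬝ᵥ y')) := by
    intro x x' y y'
    rw [H', form_pt, Matrix.one_mulVec]
  have hce : c * ε ≠ 0 := mul_ne_zero hc hε
  have hdec := dec_of_basis (tB e P') (by norm_num : 2 ≤ 3) hw
  have hnd : IsNondegenerateMDecomposition f w (fun l => Submodule.span F (Set.range (fun i => tB e P' (l, i)))) := by
    apply nd_of_orth h hdec
    intro l l' hll u hu v hv
    obtain ⟨x, rfl⟩ := mem_tB.1 hu
    obtain ⟨y, rfl⟩ := mem_tB.1 hv
    rw [H2, single_dotProduct, Pi.single_eq_of_ne hll, mul_zero, mul_zero, mul_zero]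
  refine ⟨_, hnd, ?_⟩
  intro G hG hle g hg
  have hle' := hle.trans (tens_conj e P (1 : GL (Fin w) F) b)
  obtain ⟨a, b', hab⟩ := tp_act (hle' hg)
  have hiso : ∀ x x' : Fin w → F, ∀ y y' : Fin 3 → F,
      (((a : Matrix (Fin w) (Fin w) F) *ᵥ x) ⬝ᵥ (A *ᵥ ((a : Matrix (Fin w) (Fin w) F) *ᵥ x'))) *
      (((b' : Matrix (Fin 3) (Fin 3) F) *ᵥ y) ⬝ᵥ ((b' : Matrix (Fin 3) (Fin 3) F) *ᵥ y')) =
      (x ⬝ᵥ (A *ᵥ x')) * (y ⬝ᵥ y') := by
    intro x x' y y'
    have h1 := hG g hg (ce e P' (pt x y)) (ce e P' (pt x' y'))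
    rw [hab, hab, kron_pt, kron_pt, H2, H2] at h1
    exact mul_left_cancel₀ hce h1
  -- a pair with non-zero value
  obtain ⟨x, x', hxx⟩ : ∃ x x' : Fin w → F, x ⬝ᵥ (A *ᵥ x') ≠ 0 := by
    by_contra hcon
    push Not at hcon
    apply hA
    have : A = 0 := by
      ext i j
      have h1 := hcon (Pi.single i 1) (Pi.single j 1)
      rw [Matrix.mulVec_single_one, single_dotProduct, one_mul] at h1
      exact h1
    rw [this]
    haveI : Nonempty (Fin w) := ⟨⟨0, hw⟩⟩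
    exact Matrix.det_zero
  set μ := (((a : Matrix (Fin w) (Fin w) F) *ᵥ x) ⬝ᵥ (A *ᵥ ((a : Matrix (Fin w) (Fin w) F) *ᵥ x'))) with hμ
  have hμ0 : μ ≠ 0 := by
    intro h0
    have h1 := hiso x x' (Pi.single 0 1) (Pi.single 0 1)
    rw [← hμ, h0, zero_mul, single_dotProduct, Pi.single_eq_same, mul_one, mul_one] at h1
    exact hxx h1.symm
  have hb1 : ∀ y y' : Fin 3 → F, (((b' : Matrix (Fin 3) (Fin 3) F) *ᵥ y) ⬝ᵥ ((b' : Matrix (Fin 3) (Fin 3) F) *ᵥ y')) =
      (μ⁻¹ * (x ⬝ᵥ (A *ᵥ x'))) * (y ⬝ᵥ y') := by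
    intro y y'
    rw [mul_assoc, ← hiso x x' y y', ← hμ, inv_mul_cancel_left₀ hμ0]
  set ν := μ⁻¹ * (x ⬝ᵥ (A *ᵥ x')) with hν
  have hν0 : ν ≠ 0 := mul_ne_zero (inv_ne_zero hμ0) hxx
  have hbb : (b' : Matrix (Fin 3) (Fin 3) F)ᵀ * (b' : Matrix (Fin 3) (Fin 3) F) = ν • (1 : Matrix (Fin 3) (Fin 3) F) := by
    ext i j
    have h1 := gram_conj (1 : Matrix (Fin 3) (Fin 3) F) (b' : Matrix (Fin 3) (Fin 3) F) i j
    rw [mul_one, Matrix.one_mulVec, hb1] at h1
    rw [h1, Matrix.smul_apply, Matrix.one_apply, single_dotProduct, Pi.single_apply, one_mul, smul_eq_mul]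
  have hν1 : ν = 1 := by
    have h1 := congrArg Matrix.det hbb
    rw [Matrix.det_mul, Matrix.det_transpose, Matrix.det_smul, Matrix.det_one, mul_one, Fintype.card_fin] at h1
    rcases three_cases hF ν with h2 | h2 | h2
    · exact absurd h2 hν0
    · exact h2
    · exfalso
      rw [h2] at h1
      rcases three_cases hF (b' : Matrix (Fin 3) (Fin 3) F).det with h3 | h3 | h3
      · rw [h3] at h1
        have : (1 : F) = 0 := by linear_combination h1
        exact one_ne_zero this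
      · rw [h3] at h1
        have : (2 : F) = 0 := by linear_combination h1
        exact two_ne_of_three hF this
      · rw [h3] at h1
        have : (2 : F) = 0 := by linear_combination h1
        exact two_ne_of_three hF this
  rw [hν1] at hb1
  -- each column has exactly one non-zero entry
  have hcol : ∀ l : Fin 3, ∃ (l' : Fin 3) (d : F), (b' : Matrix (Fin 3) (Fin 3) F) *ᵥ (Pi.single l 1) = d • Pi.single l' 1 := by
    intro l
    have h1 := hb1 (Pi.single l 1) (Pi.single l 1)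
    set y := (b' : Matrix (Fin 3) (Fin 3) F) *ᵥ (Pi.single l 1) with hy
    rw [single_dotProduct, Pi.single_eq_same, mul_one, mul_one] at h1
    have h2 : y 0 * y 0 + y 1 * y 1 + y 2 * y 2 = 1 := by
      rw [← h1]
      show _ = ∑ i, y i * y i
      rw [Fin.sum_univ_three]
    have hsq : ∀ z : F, z ≠ 0 → z * z = 1 := by
      intro z hz
      rcases three_cases hF z with h3 | h3 | h3
      · exact absurd h3 hz
      · rw [h3, one_mul]
      · rw [h3]; ring
    have h3 := three_zero hF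
    have n2 := two_ne_of_three hF
    have ext3 : ∀ z z' : Fin 3 → F, z 0 = z' 0 → z 1 = z' 1 → z 2 = z' 2 → z = z' := by
      intro z z' e0 e1 e2
      funext i
      fin_cases i
      · exact e0
      · exact e1
      · exact e2
    by_cases y0 : y 0 = 0 <;> by_cases y1 : y 1 = 0 <;> by_cases y2 : y 2 = 0
    · exfalso
      rw [y0, y1, y2] at h2
      have : (1 : F) = 0 := by linear_combination -h2
      exact one_ne_zero this
    · exact ⟨2, y 2, ext3 _ _ (by simp [y0]) (by simp [y1]) (by simp)⟩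
    · exact ⟨1, y 1, ext3 _ _ (by simp [y0]) (by simp) (by simp [y2])⟩
    · exfalso
      rw [y0, hsq _ y1, hsq _ y2] at h2
      have : (1 : F) = 0 := by linear_combination h2
      exact one_ne_zero this
    · exact ⟨0, y 0, ext3 _ _ (by simp) (by simp [y1]) (by simp [y2])⟩
    · exfalso
      rw [y1, hsq _ y0, hsq _ y2] at h2
      have : (1 : F) = 0 := by linear_combination h2
      exact one_ne_zero this
    · exfalso
      rw [y2, hsq _ y0, hsq _ y1] at h2
      have : (1 : F) = 0 := by linear_combination h2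
      exact one_ne_zero this
    · exfalso
      rw [hsq _ y0, hsq _ y1, hsq _ y2] at h2
      apply n2
      linear_combination h2
  apply mem_dec_of_le hdec
  intro l
  obtain ⟨l', d, hl⟩ := hcol l
  refine ⟨l', ?_⟩
  intro v hv
  obtain ⟨x, rfl⟩ := mem_tB.1 hv
  rw [hab, kron_pt, hl, pt_smul_right, ← pt_smul_left]
  exact mem_tB.2 ⟨_, rfl⟩

/-! gram matrices -/

theorem gram_facts {δ : F} {g : (Fin w → F) → (Fin w → F) → F} (h : SFm (RingEquiv.refl F) δ g) :
    (gramMatrix g).det ≠ 0 ∧ ∀ x y, g x y = x ⬝ᵥ ((gramMatrix g) *ᵥ y) := by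
  have h1 := exists_matrix (RingHom.id F) g h.add_left h.smul_left h.add_right (fun c v x => h.smul_right c v x)
  refine ⟨?_, ?_⟩
  · refine det_ne_zero_of_nondeg (σ := RingEquiv.refl F) (M := Matrix.of fun i j => g (Pi.single i 1) (Pi.single j 1)) ?_
    intro v hv
    obtain ⟨x, hx⟩ := h.nd v hv
    refine ⟨x, ?_⟩
    have h2 := h1 x v
    rw [h2] at hx
    exact hx
  · intro x y
    exact h1 x y

theorem symm_gram {g : (Fin w → F) → (Fin w → F) → F} (hg : IsSymmetricForm g) : (gramMatrix g)ᵀ = gramMatrix g := by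
  ext i j
  exact hg.symm _ _

theorem fog_id {κ : Type} [Fintype κ] (Γ : Matrix κ κ F) (x y : κ → F) : formOfGram id Γ x y = x ⬝ᵥ (Γ *ᵥ y) := by
  show ∑ i, ∑ j, x i * Γ i j * id (y j) = ∑ i, x i * ∑ j, Γ i j * y j
  apply Finset.sum_congr rfl
  intro i _
  rw [Finset.mul_sum]
  apply Finset.sum_congr rfl
  intro j _
  rw [mul_assoc]
  rfl

end Cfsg.Agent.H29.Fm
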