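import Mathlib
import Cfsg.Agent.H29_Sq4

set_option autoImplicit false

/-! maximal subgroups of symplectic groups -/

namespace Cfsg.Agent.H29.Fm

open Matrix Module Cfsg.Geo Cfsg.Agent.H29.Clifford Cfsg.Agent.H29.Asc Cfsg.Agent.H29.AscF Cfsg.Agent.H29.Trv
  Cfsg.Agent.H29.AscT
open scoped Kronecker commutatorElement

variable {F : Type*} [Field F] {n k m r w t : ℕ}
variable {f : (Fin n → F) → (Fin n → F) → F} {X G : Subgroup (GL (Fin n) F)}

/-- groups of symplectic type -/
theorem not_le_norm4 (hn : 4 ≤ n) (hs : SpF f) (hX : TV f X) {R : Subgroup (GL (Fin n) F)}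
    (hiso : R ≤ isoG f) (henv : env R = ⊤) (hcomm : ∀ x ∈ R, ∀ y ∈ R, ⁅x, y⁆ ∈ scalars (Fin n) F) : ¬ X ≤ subgroupNormalizer R := by
  intro hle
  have hn0 : 0 < n := by omega
  have h := hs.sfm
  have hS := hs.spn
  haveI : Nonempty (Fin n) := ⟨⟨0, hn0⟩⟩
  obtain ⟨v, hv, hvv⟩ := exists_iso hn0 hS
  obtain ⟨a, ha, g, hg, hgx⟩ := hX v hv hvv
  have hgfix : ∀ x, f x v = 0 → (g : Matrix (Fin n) (Fin n) F) *ᵥ x = x := by
    intro x hx
    rw [hgx, hx, mul_zero, zero_smul, add_zero]
  have hgfix' : ∀ x, f x v = 0 → ((g⁻¹ : GL (Fin n) F) : Matrix (Fin n) (Fin n) F) *ᵥ x = x := by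
    intro x hx
    conv_lhs => rw [← hgfix x hx]
    exact inv_mulVec_self g x
  have hgR : ∀ x ∈ R, g * x * g⁻¹ ∈ R := fun x hx => ((Subgroup.mem_normalizer_iff.1 (hle hg)) x).1 hx
  have hcen : ∀ x ∈ R, g * x = x * g := by
    intro x hx
    set y := g * x * g⁻¹ * x⁻¹ with hy
    have hyR : y ∈ R := R.mul_mem (hgR x hx) (R.inv_mem hx)
    let E : Submodule F (Fin n → F) := LinearMap.ker (fn h v) ⊓ LinearMap.ker ((fn h v).comp (lin x⁻¹))
    have hEfix : ∀ u ∈ E, (y : Matrix (Fin n) (Fin n) F) *ᵥ u = u := by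
      rintro u ⟨hu1, hu2⟩
      have e1 : f u v = 0 := hu1
      have e2 : f (((x⁻¹ : GL (Fin n) F) : Matrix (Fin n) (Fin n) F) *ᵥ u) v = 0 := hu2
      rw [hy, Units.val_mul, Units.val_mul, Units.val_mul, ← Matrix.mulVec_mulVec, ← Matrix.mulVec_mulVec,
        ← Matrix.mulVec_mulVec, hgfix' _ e2, self_inv_mulVec, hgfix _ e1]
    have hEdim : n ≤ finrank F E + 2 := by
      have h1 := Submodule.finrank_sup_add_finrank_inf_eq (LinearMap.ker (fn h v)) (LinearMap.ker ((fn h v).comp (lin x⁻¹)))
      have h2 : ∀ φ : (Fin n → F) →ₗ[F] F, n ≤ finrank F (LinearMap.ker φ) + 1 := by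
        intro φ
        have h3 := LinearMap.finrank_range_add_finrank_ker φ
        have h4 : finrank F (LinearMap.range φ) ≤ 1 := by
          have := Submodule.finrank_le (LinearMap.range φ)
          simpa using this
        rw [Module.finrank_fintype_fun_eq_card, Fintype.card_fin] at h3
        omega
      have h5 := h2 (fn h v)
      have h6 := h2 ((fn h v).comp (lin x⁻¹))
      have h7 : finrank F ↥(LinearMap.ker (fn h v) ⊔ LinearMap.ker ((fn h v).comp (lin x⁻¹))) ≤ n := by
        have := Submodule.finrank_le (LinearMap.ker (fn h v) ⊔ LinearMap.ker ((fn h v).comp (lin x⁻¹)))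
        rwa [Module.finrank_fintype_fun_eq_card, Fintype.card_fin] at this
      show n ≤ finrank F ↥(LinearMap.ker (fn h v) ⊓ LinearMap.ker ((fn h v).comp (lin x⁻¹))) + 2
      omega
    have hysc : y ∈ scalars (Fin n) F := by
      by_contra hys
      obtain ⟨w, hw, hwy⟩ : ∃ w ∈ R, y * w ≠ w * y := by
        by_contra hc
        push Not at hc
        exact hys (scalar_of_commute hn0 henv hc)
      obtain ⟨c, hc⟩ := mem_scalars.1 (hcomm y hyR w hw)
      have hc1 : c ≠ 1 := by
        rintro rfl
        rw [map_one] at hc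
        apply hwy
        have := hc.symm
        rwa [commutatorElement_eq_one_iff_mul_comm] at this
      have hyw : ∀ u ∈ E, (y : Matrix (Fin n) (Fin n) F) *ᵥ ((w : Matrix (Fin n) (Fin n) F) *ᵥ u) =
          (c : F) • ((w : Matrix (Fin n) (Fin n) F) *ᵥ u) := by
        intro u hu
        have h8 : y * w = sc n F c * (w * y) := by
          rw [hc, commutatorElement_def]; group
        rw [Matrix.mulVec_mulVec, ← Units.val_mul, h8, Units.val_mul, sc_coe, Matrix.smul_mul, one_mul,
          Matrix.smul_mulVec, Units.val_mul, ← Matrix.mulVec_mulVec, hEfix u hu]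
      let E' : Submodule F (Fin n → F) := E.map (lin w)
      have hdisj : E ⊓ E' = ⊥ := by
        rw [eq_bot_iff]
        rintro u ⟨hu1, ⟨u', hu', rfl⟩⟩
        rw [Submodule.mem_bot]
        have h9 := hEfix _ hu1
        rw [lin_apply, hyw u' hu'] at h9
        have h10 : ((c : F) - 1) • ((w : Matrix (Fin n) (Fin n) F) *ᵥ u') = 0 := by
          rw [sub_smul, one_smul, h9, sub_self]
        rw [lin_apply]
        refine (smul_eq_zero.1 h10).resolve_left ?_
        intro h11
        exact hc1 (Units.ext (sub_eq_zero.1 h11))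
      have hE'dim : finrank F E' = finrank F E := by
        have hinj : Function.Injective (lin w) := fun a b hab => mulVec_inj (g := w) hab
        exact (Submodule.equivMapOfInjective (lin w) hinj E).finrank_eq.symm
      have h12 := Submodule.finrank_sup_add_finrank_inf_eq E E'
      rw [hdisj, finrank_bot, hE'dim] at h12
      have h13 : finrank F ↥(E ⊔ E') ≤ n := by
        have := Submodule.finrank_le (E ⊔ E')
        rwa [Module.finrank_fintype_fun_eq_card, Fintype.card_fin] at this
      have htop : E ⊔ E' = ⊤ := by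
        apply Submodule.eq_top_of_finrank_eq
        rw [Module.finrank_fintype_fun_eq_card, Fintype.card_fin]
        omega
      have hyiso : ∀ z z', f ((y : Matrix (Fin n) (Fin n) F) *ᵥ z) ((y : Matrix (Fin n) (Fin n) F) *ᵥ z') = f z z' :=
        mem_isoG.1 (hiso hyR)
      -- the two subspaces are orthogonal
      have hort : ∀ z ∈ E, ∀ z' ∈ E', f z z' = 0 := by
        intro z hz z' hz'
        obtain ⟨z'', hz'', rfl⟩ := hz'
        have e1 := hyiso z (lin w z'')
        rw [hEfix z hz, lin_apply, hyw z'' hz'', hs.smul_right] at e1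
        have e2 : ((c : F) - 1) * f z ((w : Matrix (Fin n) (Fin n) F) *ᵥ z'') = 0 := by linear_combination e1
        exact (mul_eq_zero.1 e2).resolve_left (fun h11 => hc1 (Units.ext (sub_eq_zero.1 h11)))
      have hxiso := mem_isoG.1 (hiso hx)
      set u : Fin n → F := (x : Matrix (Fin n) (Fin n) F) *ᵥ v with hu
      have hEu : ∀ z ∈ E, f u z = 0 := by
        intro z hz
        have e1 : f (((x⁻¹ : GL (Fin n) F) : Matrix (Fin n) (Fin n) F) *ᵥ z) v = 0 := hz.2
        have e2 := hxiso (((x⁻¹ : GL (Fin n) F) : Matrix (Fin n) (Fin n) F) *ᵥ z) v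
        rw [self_inv_mulVec, e1] at e2
        rw [hs.skew, e2, neg_zero]
      have huE' : u ∈ E' := by
        have e1 : u ∈ E ⊔ E' := by rw [htop]; trivial
        obtain ⟨e, he, e', he', hee⟩ := Submodule.mem_sup.1 e1
        have he0 : e = 0 := by
          by_contra hne
          obtain ⟨z, hz⟩ := h.nd e hne
          apply hz
          have e2 : z ∈ E ⊔ E' := by rw [htop]; trivial
          obtain ⟨z₁, hz₁, z₂, hz₂, rfl⟩ := Submodule.mem_sup.1 e2
          rw [h.add_left]
          have e3 : f z₂ e = 0 := h.comm_zero (hort e he z₂ hz₂)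
          have e4 : f z₁ e = 0 := by
            have e5 := hEu z₁ hz₁
            rw [← hee, h.add_left] at e5
            have e6 : f e' z₁ = 0 := h.comm_zero (hort z₁ hz₁ e' he')
            rw [e6, add_zero] at e5
            exact h.comm_zero e5
          rw [e3, e4, add_zero]
        rw [← hee, he0, zero_add]
        exact he'
      obtain ⟨u', hu', huu⟩ := huE'
      have hyu : (y : Matrix (Fin n) (Fin n) F) *ᵥ u = (c : F) • u := by
        rw [← huu, lin_apply, hyw u' hu']
      have hyu2 : (y : Matrix (Fin n) (Fin n) F) *ᵥ u = u + (a * f u v) • v := by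
        rw [hy, Units.val_mul, Units.val_mul, Units.val_mul, ← Matrix.mulVec_mulVec, ← Matrix.mulVec_mulVec,
          ← Matrix.mulVec_mulVec, hu, inv_mulVec_self, hgfix' v hvv, hgx]
      have e7 : ((c : F) - 1) • u = (a * f u v) • v := by
        rw [sub_smul, one_smul, ← hyu, hyu2, add_sub_cancel_left]
      have hc1' : (c : F) - 1 ≠ 0 := fun h11 => hc1 (Units.ext (sub_eq_zero.1 h11))
      have e8 : u = (((c : F) - 1)⁻¹ * (a * f u v)) • v := by
        rw [← smul_smul, ← e7, smul_smul, inv_mul_cancel₀ hc1', one_smul]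
      have e9 : f u v = 0 := by
        have : f u v = f ((((c : F) - 1)⁻¹ * (a * f u v)) • v) v := by rw [← e8]
        rw [this, h.smul_left, hvv, mul_zero]
      rw [e9, mul_zero, mul_zero, zero_smul] at e8
      exact hv (mulVec_inj (g := x) (by rw [← hu, e8, Matrix.mulVec_zero]))
    obtain ⟨c, hc⟩ := mem_scalars.1 hysc
    have hE0 : 0 < finrank F E := by omega
    have hE1 : E ≠ ⊥ := by
      intro h5
      rw [h5, finrank_bot] at hE0
      exact lt_irrefl _ hE0
    obtain ⟨u, hu, hu0'⟩ := (Submodule.ne_bot_iff _).1 hE1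
    have h14 := hEfix u hu
    rw [← hc, sc_coe, Matrix.smul_mulVec, Matrix.one_mulVec] at h14
    have h15 : ((c : F) - 1) • u = 0 := by rw [sub_smul, one_smul, h14, sub_self]
    have hc1 : c = 1 := by
      apply Units.ext
      exact sub_eq_zero.1 ((smul_eq_zero.1 h15).resolve_right hu0')
    rw [hc1, map_one] at hc
    have h16 : g * x * g⁻¹ * x⁻¹ = 1 := by rw [← hy, ← hc]
    calc g * x = (g * x * g⁻¹ * x⁻¹) * (x * g) := by group
      _ = x * g := by rw [h16, one_mul]
  have hgs := scalar_of_commute hn0 henv hcen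
  obtain ⟨c, hc⟩ := mem_scalars.1 hgs
  have h1 := hgx v
  rw [hvv, mul_zero, zero_smul, add_zero, ← hc, sc_coe, Matrix.smul_mulVec, Matrix.one_mulVec] at h1
  have hc1 : c = 1 := by
    have h15 : ((c : F) - 1) • v = 0 := by rw [sub_smul, one_smul, h1, sub_self]
    apply Units.ext
    exact sub_eq_zero.1 ((smul_eq_zero.1 h15).resolve_right hv)
  obtain ⟨x, hx⟩ := h.nd v hv
  have h2 := hgx x
  rw [← hc, hc1, map_one, Units.val_one, Matrix.one_mulVec] at h2
  have h3 : (a * f x v) • v = 0 := by
    have := left_eq_add.1 h2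
    exact this
  rcases smul_eq_zero.1 h3 with h4 | h4
  · exact mul_ne_zero ha hx h4
  · exact hv h4

end Cfsg.Agent.H29.Fm
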