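import Mathlib
import Cfsg.Agent.H29_Sq5

set_option autoImplicit false

/-! maximal subgroups of symplectic groups, II -/

namespace Cfsg.Agent.H29.Fm

open Matrix Module Cfsg.Geo Cfsg.Agent.H29.Clifford Cfsg.Agent.H29.Asc Cfsg.Agent.H29.AscF Cfsg.Agent.H29.Trv
  Cfsg.Agent.H29.AscT Cfsg.Agent.H29.Rx
open scoped Kronecker commutatorElement

variable {F : Type*} [Field F] {m : ℕ}

theorem eq_of_maxI {ι : Type} [Fintype ι] [DecidableEq ι] {X H M : Subgroup (GL ι F)} (hH : IsMaximalIn X H) (hle : H ≤ M)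
    (hM : ¬ X ≤ M) : H = M ⊓ X := by
  rcases hH.2 (M ⊓ X) (le_inf hle hH.1.le) inf_le_right with h | h
  · exact h.symm
  · exact absurd (inf_eq_right.1 h) hM

theorem tva_sp (m : ℕ) (F : Type*) [Field F] :
    TVa (pf (e2 m).symm (Cfsg.sympForm m F)) (cR (e2 m).symm (Cfsg.spGL m F)) := by
  intro v' a
  set v := L (e2 m).symm v' with hv
  obtain ⟨-, g, hg, hgx⟩ := T_spGL (m := m) (F := F) v a
  refine ⟨glReindex (e2 m) g, ?_, ?_⟩
  · show glReindex (e2 m).symm (glReindex (e2 m) g) ∈ Cfsg.spGL m F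
    rw [r_r]
    exact hg
  · intro x'
    have h1 : x' = L (e2 m) (L (e2 m).symm x') := (L_L' (e2 m) x').symm
    conv_lhs => rw [h1]
    rw [act, hgx, map_add, map_smul, ← h1, hv, L_L']
    rfl

/-- the maximal subgroups of symplectic groups -/
theorem SPmax [Fintype F] (hm : 2 ≤ m) {H : Subgroup (GL (Fin m ⊕ Fin m) F)} (hH : IsMaximalIn (Cfsg.spGL m F) H) :
    (∃ W : Submodule F (Fin m ⊕ Fin m → F), W ≠ ⊥ ∧ IsTotallySingularFor (Cfsg.sympForm m F) W ∧
      H = subspaceStabilizer W ⊓ Cfsg.spGL m F) ∨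
    (∃ W : Submodule F (Fin m ⊕ Fin m → F), W ≠ ⊥ ∧ IsNondegenerateOn (Cfsg.sympForm m F) W ∧ finrank F W < m ∧
      Even (finrank F W) ∧ H = subspaceStabilizer W ⊓ Cfsg.spGL m F) ∨
    (∃ (t k : ℕ) (D : Fin t → Submodule F (Fin m ⊕ Fin m → F)), t * k = m + m ∧ 2 ≤ t ∧ Even k ∧ 0 < k ∧
      ¬ (k = 2 ∧ Fintype.card F = 2) ∧ IsNondegenerateMDecomposition (Cfsg.sympForm m F) k D ∧
      H = decompositionStabilizer D ⊓ Cfsg.spGL m F) ∨
    (Odd (Fintype.card F) ∧ ∃ D : Fin 2 → Submodule F (Fin m ⊕ Fin m → F), IsMDecomposition m D ∧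
      (∀ i, IsTotallySingularFor (Cfsg.sympForm m F) (D i)) ∧ H = decompositionStabilizer D ⊓ Cfsg.spGL m F) ∨
    (∃ (r : ℕ) (K : Subalgebra F (Matrix (Fin m ⊕ Fin m) (Fin m ⊕ Fin m) F)), r.Prime ∧ r ∣ m ∧ IsFieldSubalgebra r K ∧
      IsSelfAdjointFor (Cfsg.sympForm m F) K ∧ (∀ k ∈ K, ∀ v, Cfsg.sympForm m F (k *ᵥ v) v = 0) ∧
      H = subalgebraNormalizer K ⊓ Cfsg.spGL m F) ∨
    (Odd (Fintype.card F) ∧ ∃ K : Subalgebra F (Matrix (Fin m ⊕ Fin m) (Fin m ⊕ Fin m) F), IsFieldSubalgebra 2 K ∧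
      IsAdjointClosedFor (Cfsg.sympForm m F) K ∧ ¬ IsSelfAdjointFor (Cfsg.sympForm m F) K ∧
      H = subalgebraNormalizer K ⊓ Cfsg.spGL m F) ∨
    (Odd (Fintype.card F) ∧ ∃ (n₁ n₂ : ℕ) (e : (Fin m ⊕ Fin m) ≃ Fin n₁ × Fin n₂) (P : GL (Fin m ⊕ Fin m) F)
      (f₁ : (Fin n₁ → F) → (Fin n₁ → F) → F) (f₂ : (Fin n₂ → F) → (Fin n₂ → F) → F), Even n₁ ∧ 2 ≤ n₁ ∧ 3 ≤ n₂ ∧
      n₁ * n₂ = m + m ∧ ¬ (n₂ = 3 ∧ Fintype.card F = 3) ∧ IsSymplecticForm f₁ ∧ IsSymmetricForm f₂ ∧
      IsTensorFormStructure id (Cfsg.sympForm m F) f₁ f₂ e P ∧ H = tensorProductSubgroup n₁ n₂ e P ⊓ Cfsg.spGL m F) ∨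
    (∃ (F₀ : Subfield F) (r : ℕ) (P : GL (Fin m ⊕ Fin m) F) (ζ : F), r.Prime ∧ Fintype.card F = Nat.card F₀ ^ r ∧ ζ ≠ 0 ∧
      IsFormRationalStructure (Cfsg.sympForm m F) F₀ ζ P ∧ H = subfieldSubgroup F₀ P ⊓ Cfsg.spGL m F) ∨
    (∃ (p : ℕ) (R : Subgroup (GL (Fin m ⊕ Fin m) F)) (k : ℕ), p.Prime ∧ Odd p ∧ Fintype.card F = p ∧
      IsSymplecticTypeGroup 2 R ∧ ActsAbsolutelyIrreducibly (matrixSet R) ∧ R ≤ similarityGroup (Cfsg.sympForm m F) ∧
      Nat.card R = 2 ^ (1 + 2 * k) ∧ Nat.card (Subgroup.center R) = 2 ∧ IsOfMinusType k R ∧ m + m = 2 ^ k ∧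
      H = subgroupNormalizer R ⊓ Cfsg.spGL m F) ∨
    (Odd (Fintype.card F) ∧ ∃ (k t : ℕ) (e : (Fin m ⊕ Fin m) ≃ (Fin t → Fin k)) (P : GL (Fin m ⊕ Fin m) F)
      (f₁ : (Fin k → F) → (Fin k → F) → F), 2 ≤ k ∧ Odd t ∧ 3 ≤ t ∧ m + m = k ^ t ∧ ¬ (Fintype.card F = 3 ∧ k = 2) ∧
      IsSymplecticForm f₁ ∧ IsTensorPowerFormStructure id (Cfsg.sympForm m F) f₁ e P ∧
      H = tensorWreathSubgroup k t e P ⊓ Cfsg.spGL m F) ∨
    (¬ Odd (Fintype.card F) ∧ ∃ Q : (Fin m ⊕ Fin m → F) → F, IsNondegenerateQuadraticForm Q ∧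
      (∀ u v, QuadraticMap.polar Q u v = Cfsg.sympForm m F u v) ∧ H = quadSimilarityGroup Q ⊓ Cfsg.spGL m F) ∨
    InSymplecticResidualClass H := by
  classical
  by_contra hcon
  push Not at hcon
  obtain ⟨c1, c2, c3, c4, c5, c6, c7, c8, c9, c10, c11, c12⟩ := hcon
  set f := Cfsg.sympForm m F with hfdef
  set f' := pf (e2 m).symm f with hf'
  set X' := cR (e2 m).symm (Cfsg.spGL m F) with hX'
  set G := cR (e2 m).symm H with hG
  have hff : pf (e2 m) f' = f := pf_pf _ _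
  have hsp : SpF f' := sp_std m F
  have hTVa : TVa f' X' := tva_sp m F
  have hTV : TV f' X' := hTVa.tv
  have hSP : SPN f' := hsp.spn
  have hHX : H ≤ Cfsg.spGL m F := hH.1.le
  have hn0 : 0 < m + m := by omega
  have hfixX : Fx f' X' := by
    intro g hg u v
    have hg' : glReindex (e2 m).symm g ∈ Cfsg.spGL m F := hg
    rw [mem_spGL_iff] at hg'
    have h2 := hg' (L (e2 m).symm u) (L (e2 m).symm v)
    rw [act, act] at h2
    exact h2
  have hGX : G ≤ X' := fun g hg => hHX hg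
  have hfix : Fx f' G := hfixX.mono hGX
  have hmax : ∀ (M' : Subgroup (GL (Fin (m + m)) F)) (M : Subgroup (GL (Fin m ⊕ Fin m) F)),
      (∀ g, glReindex (e2 m) g ∈ M' ↔ g ∈ M) → G ≤ M' → ¬ X' ≤ M' → H = M ⊓ Cfsg.spGL m F := by
    intro M' M hM hle hno
    apply eq_of_maxI hH (le_of_pull _ hM hle)
    intro h
    apply hno
    intro g hg
    have h1 := h (show glReindex (e2 m).symm g ∈ Cfsg.spGL m F from hg)
    rw [← hM, r_r'] at h1
    exact h1
  -- decompositions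
  have d3 : ∀ (t k : ℕ) (D : Fin t → Submodule F (Fin (m + m) → F)), IsNondegenerateMDecomposition f' k D →
      ¬ (k = 2 ∧ Fintype.card F = 2) → ¬ G ≤ decompositionStabilizer D := by
    intro t k D hD hkq hle
    have hev : Even k := by
      have ht := hD.decomp.two_le
      have h1 := hsp.even_finrank hn0 (hD.nondegenerate ⟨0, by omega⟩)
      rwa [hD.decomp.finrank_eq] at h1
    have hk := hD.decomp.pos
    have hk2 : 2 ≤ k := by
      rcases hev with ⟨j, hj⟩
      omega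
    refine c3 t k (fun i => cW (e2 m) (D i)) (dec_card hD.decomp) hD.decomp.two_le hev hk
      (fun h1 h2 => hkq ⟨h1, h2⟩) ?_ (hmax _ _ (fun g => decStab_iff _) hle (not_le_dec hsp.sfm hTV hSP hD.decomp hk2))
    rw [← hff]
    exact ndec_pull _ hD
  have dquad : ∀ Q : (Fin (m + m) → F) → F, ¬ Odd (Fintype.card F) → IsNondegenerateQuadraticForm Q →
      (∀ u v, QuadraticMap.polar Q u v = f' u v) → ¬ G ≤ quadSimilarityGroup Q := by
    intro Q hodd hQ hpol hle
    refine c11 hodd (pq (e2 m) Q) (nq_pull _ hQ) ?_ (hmax _ _ (fun g => quadSim_iff _) hle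
      (not_le_quad hsp (by omega) hTV hodd hQ hpol))
    intro u v
    rw [← hff, polar_pq]
    exact hpol _ _
  have d3' : ∀ (t k : ℕ) (D : Fin t → Submodule F (Fin (m + m) → F)), IsNondegenerateMDecomposition f' k D →
      ¬ G ≤ decompositionStabilizer D := by
    intro t k D hD hle
    by_cases hkq : k = 2 ∧ Fintype.card F = 2
    · obtain ⟨rfl, hq⟩ := hkq
      obtain ⟨Q, hQ, hpol, h⟩ := dec_two_quad hsp hq hD
      refine dquad Q ?_ hQ hpol (h G hfix hle)
      rw [hq]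
      decide
    · exact d3 t k D hD hkq hle
  apply c12
  have hNS : NS f' G := by
    refine ⟨hsp, hfix, ?_, ?_, d3', ?_, ?_, ?_, ?_, ?_, ?_, ?_, dquad⟩
    · intro W h1 h2 hle
      refine c1 (cW (e2 m) W) (cW_bot _ h1) ?_ (hmax _ _ (fun g => stab_iff _) hle (not_le_stab hsp.sfm hTV hSP h1 ?_))
      · rw [← hff]; exact ts_pull _ h2
      · rintro rfl
        obtain ⟨v, hv, -⟩ := exists_iso (f := f') hn0 hSP
        obtain ⟨x, hx⟩ := hsp.sfm.nd v hv
        exact hx (h2 x trivial v trivial)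
    · intro W h1 h2 h3 hle
      refine c2 (cW (e2 m) W) (cW_bot _ h1) ?_ ?_ ?_ (hmax _ _ (fun g => stab_iff _) hle (not_le_stab hsp.sfm hTV hSP h1 ?_))
      · rw [← hff]; exact nd_pull _ h2
      · rw [finrank_cW]; omega
      · rw [finrank_cW]; exact hsp.even_finrank hn0 h2
      · rintro rfl
        rw [finrank_top, Module.finrank_fintype_fun_eq_card, Fintype.card_fin] at h3
        omega
    · intro hodd k D hD hts hle
      have hk : k = m := by
        have := dec_card hD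
        omega
      subst hk
      refine c4 hodd (fun i => cW (e2 k) (D i)) (dec_pull _ hD) ?_ (hmax _ _ (fun g => decStab_iff _) hle
        (not_le_dec hsp.sfm hTV hSP hD hm))
      intro i
      rw [← hff]; exact ts_pull _ (hts i)
    · intro r K hr hK hsa halt hle
      refine c5 r (cK (e2 m) K) hr ?_ (fld_pull _ hK) ?_ ?_ (hmax _ _ (fun g => norm_iff _) hle
        (not_le_fld (by omega) hsp.sfm hTV hSP hr.one_lt hK))
      · have h1 := hsp.fsa_dvd hK hsa halt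
        have h2 : 2 * r ∣ 2 * m := by rwa [two_mul m]
        exact Nat.dvd_of_mul_dvd_mul_left (by norm_num) h2
      · rw [← hff]; exact sa_pull _ hsa
      · rw [← hff]; exact alt_pull _ halt
    · intro K hodd hK hadj hns hle
      refine c6 hodd (cK (e2 m) K) (fld_pull _ hK) ?_ ?_ (hmax _ _ (fun g => norm_iff _) hle
        (not_le_fld (by omega) hsp.sfm hTV hSP one_lt_two hK))
      · rw [← hff]; exact adj_pull _ hadj
      · intro h
        rw [← hff] at h
        exact hns (sa_push _ h)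
    · intro n₁ n₂ e P f₁ f₂ hodd h3 hf₁ hf₂ hst hle
      have hcard : n₁ * n₂ = m + m := by
        have := Fintype.card_congr e
        rw [Fintype.card_prod, Fintype.card_fin, Fintype.card_fin, Fintype.card_fin] at this
        exact this.symm
      have hn1 : 0 < n₁ := by
        rcases Nat.eq_zero_or_pos n₁ with h | h
        · rw [h, zero_mul] at hcard; omega
        · exact h
      have hs1 := SpF.of_symp hf₁
      have hev : Even n₁ := by
        have h1 := hs1.even_finrank hn1 (W := ⊤) (fun w _ hw => by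
          obtain ⟨⟨x, hx⟩, ⟨y, hy⟩⟩ := hf₁.nondegenerate w hw
          exact ⟨⟨x, trivial, hx⟩, ⟨y, trivial, hy⟩⟩)
        rwa [finrank_top, Module.finrank_fintype_fun_eq_card, Fintype.card_fin] at h1
      have hn2 : 2 ≤ n₁ := by
        rcases hev with ⟨j, hj⟩
        omega
      by_cases hq : n₂ = 3 ∧ Fintype.card F = 3
      · obtain ⟨rfl, hq⟩ := hq
        obtain ⟨c, hc, hform⟩ := hst
        obtain ⟨hdA, hA⟩ := gram_facts hs1.sfm
        obtain ⟨hdB, hB⟩ := gram_facts (SFm.of_symm hf₂)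
        obtain ⟨D, hD, h⟩ := tens_three hsp.sfm hq hn1 (e := e) (P := P) (A := gramMatrix f₁) (C := gramMatrix f₂) hc hdA
          (symm_gram hf₂) hdB (by
            intro x y
            have h1 := hform x y
            rw [fog_id] at h1
            exact h1)
        exact d3' _ _ D hD (h G hfix hle)
      · refine c7 hodd n₁ n₂ ((e2 m).trans e) (glReindex (e2 m).symm P) f₁ f₂ hev hn2 h3 hcard (fun h h' => hq ⟨h, h'⟩)
          hf₁ hf₂ ?_ (hmax _ _ (fun g => tp_iff _) hle (not_le_tp hsp hTV hn2 (by omega)))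
        rw [← hff]; exact tpf_pull _ hst
    · intro F₀ r P ζ hr hc hζ hst hle
      refine c8 F₀ r (glReindex (e2 m).symm P) ζ hr hc hζ ?_ (hmax _ _ (fun g => sub_iff _) hle
        (not_le_sub hsp (by omega) hTVa (sub_ne_top hr.one_lt hc) P))
      rw [← hff]; exact subf_pull _ hst
    · intro R p k h1 h2 h3 h4 h5 h6 h7 h8 h9 h10 h11 h12 h13 hle
      refine c9 p (cR (e2 m) R) k h4 h5 h6 (styp_pull _ h1) (absIrr_pull _ (fun M => mset_pull _) h2) ?_ ?_ ?_
        (minus_pull _ h9) h10 (hmax _ _ (fun g => nmz_iff _) hle (not_le_norm4 (by omega) hsp hTV h11 h12 h13))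
      · intro g hg
        rw [← hff, ← sim_iff]
        exact h3 hg
      · rw [card_cR]; exact h7
      · rw [center_cR]; exact h8
    · intro k t e P f₁ hodd hot ht3 hne hf₁ hst hle
      have hcard : m + m = k ^ t := by
        have := Fintype.card_congr e
        rw [Fintype.card_fin, Fintype.card_fun, Fintype.card_fin, Fintype.card_fin] at this
        exact this
      have hk2 : 2 ≤ k := by
        by_contra hlt
        have h01 : k = 0 ∨ k = 1 := by omega
        rcases h01 with rfl | rfl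
        · rw [zero_pow (by omega)] at hcard; omega
        · rw [one_pow] at hcard; omega
      refine c10 hodd k t ((e2 m).trans e) (glReindex (e2 m).symm P) f₁ hk2 hot ht3 hcard (fun h h' => hne ⟨h, h'⟩) hf₁ ?_
        (hmax _ _ (fun g => tw_iff _) hle (not_le_tw hsp hTV hk2 ht3))
      rw [← hff]; exact twf_pull _ hst
  have h2 := res_symp_pull (e2 m) (NS.residual (by omega) hNS)
  rwa [hG, cR_cR] at h2

end Cfsg.Agent.H29.Fm
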