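import Mathlib
import Cfsg.Agent.H29_Wr8
import Cfsg.Agent.H29_Sq6

set_option autoImplicit false

/-! stabilisers that are not maximal -/

namespace Cfsg.Agent.H29.Fm

open Matrix Module Cfsg.Geo Cfsg.Agent.H29.Clifford Cfsg.Agent.H29.Asc Cfsg.Agent.H29.AscF Cfsg.Agent.H29.Trv
  Cfsg.Agent.H29.AscT
open scoped Kronecker commutatorElement

variable {F : Type*} [Field F] {n k m r w t : ℕ} {τ : F ≃+* F} {ε : F}
variable {f : (Fin n → F) → (Fin n → F) → F}

theorem nonmax_of {ι : Type} [Fintype ι] [DecidableEq ι] {X H M : Subgroup (GL ι F)} (hH : H ≤ X) (hHM : H ≤ M)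
    (hM : ¬ X ≤ M) (hg : ∃ g ∈ X, g ∈ M ∧ g ∉ H) : ∃ K : Subgroup (GL ι F), H < K ∧ K < X := by
  obtain ⟨g, hgX, hgM, hgH⟩ := hg
  refine ⟨M ⊓ X, lt_of_le_of_ne (le_inf hHM hH) ?_, lt_of_le_of_ne inf_le_right ?_⟩
  · rintro rfl
    exact hgH ⟨hgM, hgX⟩
  · intro h
    exact hM (inf_eq_right.1 h)

theorem dec_fix {ι : Type} [Fintype ι] [DecidableEq ι] {D : Fin t → Submodule F (ι → F)} {g : GL ι F}
    (h : ∀ i, ∀ v ∈ D i, (g : Matrix ι ι F) *ᵥ v ∈ D i) : g ∈ decompositionStabilizer D := by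
  refine ⟨1, fun i => ?_⟩
  have hinj : Function.Injective (Matrix.toLin' (g : Matrix ι ι F)) := by
    intro x y hxy
    rw [Matrix.toLin'_apply, Matrix.toLin'_apply] at hxy
    have := congrArg (fun z => ((g⁻¹ : GL ι F) : Matrix ι ι F) *ᵥ z) hxy
    simp only [Matrix.mulVec_mulVec, ← Units.val_mul, inv_mul_cancel, Units.val_one, Matrix.one_mulVec] at this
    exact this
  apply Submodule.eq_of_le_of_finrank_eq
  · rintro _ ⟨v, hv, rfl⟩
    exact h i v hv
  · exact (LinearEquiv.finrank_eq (Submodule.equivMapOfInjective _ hinj _)).symm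

/-- transvections in a block -/
theorem trv_dec (h : SFm τ ε f) {D : Fin t → Submodule F (Fin n → F)} (hD : IsNondegenerateMDecomposition f k D)
    {i : Fin t} {v : Fin n → F} (hv : v ∈ D i) {a : F} {g : GL (Fin n) F}
    (hg : ∀ x, (g : Matrix (Fin n) (Fin n) F) *ᵥ x = x + (a * f x v) • v) : g ∈ decompositionStabilizer D := by
  apply dec_fix
  intro j x hx
  rw [hg]
  by_cases hij : j = i
  · subst hij
    exact Submodule.add_mem _ hx (Submodule.smul_mem _ _ hv)
  · rw [hD.orthogonal j i hij x hx v hv, mul_zero, zero_smul, add_zero]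
    exact hx

/-- isotropic vectors in a block -/
theorem iso_block [Fintype F] (h : SFm τ 1 f) (hτ : τ ≠ RingEquiv.refl F) {D : Fin t → Submodule F (Fin n → F)}
    (hD : IsNondegenerateMDecomposition f m D) (hm : 2 ≤ m) (i : Fin t) : ∃ v ∈ D i, v ≠ 0 ∧ f v v = 0 := by
  obtain ⟨v, hvD, hv, -⟩ := dec_onb_exists h hτ hD
  obtain ⟨a, ha⟩ := exists_neg hτ h.inv
  let j₀ : Fin m := ⟨0, by omega⟩
  let j₁ : Fin m := ⟨1, by omega⟩
  have h01 : (i, j₀) ≠ (i, j₁) := by
    intro h; exact absurd (congrArg (fun z => (z.2 : ℕ)) h) (by simp [j₀, j₁])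
  refine ⟨v (i, j₀) + a • v (i, j₁), Submodule.add_mem _ (hvD _ _) (Submodule.smul_mem _ _ (hvD _ _)), ?_, ?_⟩
  · intro h0
    have h1 := congrArg (fun z => f z (v (i, j₀))) h0
    simp only [h.add_left, h.smul_left, hv, h.zero_left, if_true] at h1
    rw [if_neg h01.symm, mul_zero, add_zero] at h1
    exact one_ne_zero h1
  · rw [h.add_left, h.add_right, h.add_right, h.smul_left, h.smul_left, h.smul_right, h.smul_right, hv, hv, hv, hv,
      if_pos rfl, if_neg h01, if_neg h01.symm, if_pos rfl]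
    linear_combination ha

end Cfsg.Agent.H29.Fm
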