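import Mathlib
import Cfsg.Agent.H29_Or10
import Cfsg.Agent.H29_Sq6

set_option autoImplicit false

/-! maximal subgroups of odd-dimensional orthogonal groups -/

namespace Cfsg.Agent.H29.Fm

open Matrix Module Cfsg.Geo Cfsg.Agent.H29.Clifford Cfsg.Agent.H29.Asc Cfsg.Agent.H29.AscF Cfsg.Agent.H29.Trv
  Cfsg.Agent.H29.AscT Cfsg.Agent.H29.Rx
open scoped Kronecker commutatorElement

/-- isometries are invertible -/
theorem isoOf {F : Type*} [Field F] {n : ℕ} {f : (Fin n → F) → (Fin n → F) → F} (h : OrF f)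
    (T : (Fin n → F) →ₗ[F] (Fin n → F)) (hT : ∀ u v, f (T u) (T v) = f u v) :
    ∃ g : GL (Fin n) F, g ∈ isoG f ∧ ∀ v, (g : Matrix (Fin n) (Fin n) F) *ᵥ v = T v := by
  have hinj : Function.Injective T := by
    rw [← LinearMap.ker_eq_bot, LinearMap.ker_eq_bot']
    intro v hv
    apply h.sfm.ext_left
    intro u
    rw [← hT, hv, h.sfm.zero_left, h.sfm.zero_left]
  have hdet : (LinearMap.toMatrix' T).det ≠ 0 := by
    rw [LinearMap.det_toMatrix']
    have h1 : IsUnit (LinearMap.det T) := by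
      have h2 : Function.Bijective T := ⟨hinj, LinearMap.injective_iff_surjective.1 hinj⟩
      exact LinearEquiv.isUnit_det' (LinearEquiv.ofBijective T h2)
    exact h1.ne_zero
  have hact : ∀ v, (LinearMap.toMatrix' T) *ᵥ v = T v := fun v => LinearMap.toMatrix'_mulVec T v
  refine ⟨Matrix.GeneralLinearGroup.mkOfDetNeZero _ hdet, ?_, hact⟩
  rw [mem_isoG]
  intro u v
  show f ((LinearMap.toMatrix' T) *ᵥ u) ((LinearMap.toMatrix' T) *ᵥ v) = f u v
  rw [hact, hact, hT]

/-- Siegel transformations are commutators of isometries -/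
theorem siegel_comm {F : Type*} [Field F] [Fintype F] {n : ℕ} {f : (Fin n → F) → (Fin n → F) → F} (h : OrF f)
    (hn : 5 ≤ n) {e x : Fin n → F} (he : f e e = 0) (hx : f x x = 0) (hex : f e x = 0) (he0 : e ≠ 0)
    (hxe : ∀ c : F, x ≠ c • e) :
    ∃ g₁ ∈ isoG f, ∃ g₂ ∈ isoG f, ∀ v, ((⁅g₁, g₂⁆ : GL (Fin n) F) : Matrix (Fin n) (Fin n) F) *ᵥ v =
      v + (f v e • x - f v x • e) := by
  have hxe' : f x e = 0 := by rw [h.symm']; exact hex
  obtain ⟨x₀, hx₀, hex₀, hxx₀⟩ := sing_sep2 h hn he0 he hxe' hxe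
  obtain ⟨x', hx', hex', hxx'⟩ : ∃ x', f x' x' = 0 ∧ f e x' = 0 ∧ f x x' = 1 := by
    refine ⟨(f x x₀)⁻¹ • x₀, ?_, ?_, ?_⟩
    · rw [h.sfm.smul_left, h.smul_right, hx₀]; ring
    · rw [h.smul_right, hex₀, mul_zero]
    · rw [h.smul_right, inv_mul_cancel₀ hxx₀]
  have hx'x : f x' x = 1 := by rw [h.symm']; exact hxx'
  have hx'e : f x' e = 0 := by rw [h.symm']; exact hex'
  let R : (Fin n → F) →ₗ[F] (Fin n → F) :=
    { toFun := fun v => v - (2 : F) • (f v x' • x + f v x • x')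
      map_add' := by
        intro u v
        rw [h.sfm.add_left, h.sfm.add_left]
        simp only [add_smul, smul_add]
        abel
      map_smul' := by
        intro c v
        rw [h.sfm.smul_left, h.sfm.smul_left]
        simp only [RingHom.id_apply, smul_sub, smul_add, smul_smul]
        have e1 : 2 * (c * f v x') = c * (2 * f v x') := by ring
        have e2 : 2 * (c * f v x) = c * (2 * f v x) := by ring
        rw [e1, e2] }
  have hR : ∀ v, R v = v - (2 : F) • (f v x' • x + f v x • x') := fun _ => rfl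
  obtain ⟨y, hy⟩ : ∃ y : Fin n → F, y = (-(2 : F)⁻¹) • x := ⟨_, rfl⟩
  have hye : f y e = 0 := by rw [hy, h.sfm.smul_left, hxe', mul_zero]
  have hey : f e y = 0 := by rw [h.symm']; exact hye
  have hyy : f y y = 0 := by rw [hy, h.sfm.smul_left, h.smul_right, hx]; ring
  have hxy : x = (-(2 : F)) • y := by
    rw [hy, smul_smul, neg_mul_neg, mul_inv_cancel₀ h.two, one_smul]
  let T : (Fin n → F) →ₗ[F] (Fin n → F) :=
    { toFun := fun v => v + (f v e • y - f v y • e)
      map_add' := by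
        intro u v
        rw [h.sfm.add_left, h.sfm.add_left, add_smul, add_smul]
        abel
      map_smul' := by
        intro c v
        rw [h.sfm.smul_left, h.sfm.smul_left, RingHom.id_apply, smul_add, smul_sub, smul_smul, smul_smul] }
  have hT : ∀ v, T v = v + (f v e • y - f v y • e) := fun _ => rfl
  obtain ⟨g₁, hg₁, h1⟩ := isoOf h R (by
    intro u v
    rw [hR, hR]
    simp only [h.sfm.sub_left, h.sfm.sub_right, h.sfm.add_left, h.sfm.add_right, h.sfm.smul_left, h.smul_right, hx, hx',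
      hxx', hx'x, h.symm' x v, h.symm' x' v]
    ring)
  obtain ⟨g₂, hg₂, h2⟩ := isoOf h T (by
    intro u v
    rw [hT, hT]
    simp only [h.sfm.sub_left, h.sfm.sub_right, h.sfm.add_left, h.sfm.add_right, h.sfm.smul_left, h.smul_right, he, hye,
      hey, hyy, h.symm' e v, h.symm' y v]
    ring)
  refine ⟨g₁, hg₁, g₂, hg₂, ?_⟩
  intro v
  set w := (((g₂ * g₁)⁻¹ : GL (Fin n) F) : Matrix (Fin n) (Fin n) F) *ᵥ v with hw
  have hv : v = (g₂ : Matrix (Fin n) (Fin n) F) *ᵥ ((g₁ : Matrix (Fin n) (Fin n) F) *ᵥ w) := by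
    rw [hw, Matrix.mulVec_mulVec, ← Units.val_mul, Matrix.mulVec_mulVec, ← Units.val_mul, mul_inv_cancel, Units.val_one,
      Matrix.one_mulVec]
  have hg : ((⁅g₁, g₂⁆ : GL (Fin n) F) : Matrix (Fin n) (Fin n) F) *ᵥ v =
      (g₁ : Matrix (Fin n) (Fin n) F) *ᵥ ((g₂ : Matrix (Fin n) (Fin n) F) *ᵥ w) := by
    rw [hw, Matrix.mulVec_mulVec, ← Units.val_mul, Matrix.mulVec_mulVec, ← Units.val_mul]
    congr 2
    rw [commutatorElement_def, _root_.mul_inv_rev]
    group
  clear_value w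
  have r1 : R e = e := by rw [hR, hex', hex, zero_smul, zero_smul, add_zero, smul_zero, sub_zero]
  have r2 : R x = -x := by
    rw [hR, hxx', hx, one_smul, zero_smul, add_zero, two_smul]; abel
  have r3 : R y = -y := by
    have : y = (-(2 : F)⁻¹) • x := by
      rw [hxy, smul_smul, neg_mul_neg, inv_mul_cancel₀ h.two, one_smul]
    rw [this, map_smul, r2, smul_neg]
  set u := R w with hu
  have hue : f u e = f w e := by
    have h3 := mem_isoG.1 hg₁ w e
    rw [h1, h1, r1] at h3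
    exact h3
  have huy : f u y = - f w y := by
    have h3 := mem_isoG.1 hg₁ w y
    rw [h1, h1, r3, h.sfm.neg_right] at h3
    linear_combination -h3
  have a1 : (g₁ : Matrix (Fin n) (Fin n) F) *ᵥ ((g₂ : Matrix (Fin n) (Fin n) F) *ᵥ w) =
      u + (f w e • (-y) - f w y • e) := by
    rw [h2, h1, hT, map_add, map_sub, map_smul, map_smul, r1, r3]
  have a2 : v = u + (f w e • y + f w y • e) := by
    rw [hv, h2, h1, hT, ← hu, hue, huy, neg_smul, sub_neg_eq_add]
  have a3 : f v e = f w e := by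
    rw [a2, h.sfm.add_left, h.sfm.add_left, h.sfm.smul_left, h.sfm.smul_left, hye, he, hue]; ring
  have a4 : f v x = 2 * f w y := by
    rw [a2, hxy, h.smul_right, h.sfm.add_left, h.sfm.add_left, h.sfm.smul_left, h.sfm.smul_left, hyy, hey, huy]; ring
  rw [hg, a1, a3, a4, a2, hxy]
  simp only [smul_neg, neg_smul, smul_smul]
  have e1 : f w e * 2 = 2 * f w e := by ring
  rw [e1, mul_smul, mul_smul, two_smul, two_smul]
  abel

variable {F : Type*} [Field F] {m : ℕ}

theorem omega_comm {a b : GL (Io m) F} (ha : a ∈ Cfsg.isometryGroup F (Cfsg.quadFormOdd m F))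
    (hb : b ∈ Cfsg.isometryGroup F (Cfsg.quadFormOdd m F)) : ⁅a, b⁆ ∈ omegaGL (Cfsg.quadFormOdd m F) :=
  ⟨⁅(⟨a, ha⟩ : Cfsg.isometryGroup F (Cfsg.quadFormOdd m F)), ⟨b, hb⟩⁆,
    Subgroup.commutator_mem_commutator (Subgroup.mem_top _) (Subgroup.mem_top _), rfl⟩

theorem iso_pull (h2 : (2 : F) ≠ 0) {g : GL (Fin (1 + (m + m))) F} (hg : g ∈ isoG (pf (e3 m).symm (fo m F))) :
    glReindex (e3 m).symm g ∈ Cfsg.isometryGroup F (Cfsg.quadFormOdd m F) := by
  intro u v
  show Cfsg.quadFormOdd m F (((glReindex (e3 m).symm g : GL (Io m) F) : Matrix (Io m) (Io m) F) *ᵥ u) =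
    Cfsg.quadFormOdd m F u
  have h1 := mem_isoG.1 hg (L (e3 m) u) (L (e3 m) u)
  have h3 : ∀ x, pf (e3 m).symm (fo m F) x x = 2 * Cfsg.quadFormOdd m F (L (e3 m).symm x) := fun x => fo_self _
  rw [h3, h3] at h1
  have h4 := mul_left_cancel₀ h2 h1
  rw [L_L] at h4
  rw [← h4]
  congr 1
  have h5 := act (e3 m).symm g (L (e3 m) u)
  rw [L_L] at h5
  exact h5

theorem sg_std [Fintype F] (h2 : (2 : F) ≠ 0) (hm : 2 ≤ m) :
    SG (pf (e3 m).symm (fo m F)) (cR (e3 m).symm (omegaGL (Cfsg.quadFormOdd m F))) := by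
  intro e x he hx hex
  have h := or_std (m := m) h2
  by_cases he0 : e = 0
  · refine ⟨1, Subgroup.one_mem _, fun v => ?_⟩
    rw [he0, Units.val_one, Matrix.one_mulVec, h.sfm.zero_right, zero_smul, smul_zero, sub_zero, add_zero]
  by_cases hxe : ∀ c : F, x ≠ c • e
  · obtain ⟨g₁, hg₁, g₂, hg₂, hg⟩ := siegel_comm h (by omega) he hx hex he0 hxe
    refine ⟨⁅g₁, g₂⁆, ?_, hg⟩
    rw [mem_cR]
    have h1 : glReindex (e3 m).symm ⁅g₁, g₂⁆ = ⁅glReindex (e3 m).symm g₁, glReindex (e3 m).symm g₂⁆ :=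
      map_commutatorElement _ _ _
    rw [h1]
    exact omega_comm (iso_pull h2 hg₁) (iso_pull h2 hg₂)
  · push Not at hxe
    obtain ⟨c, hc⟩ := hxe
    refine ⟨1, Subgroup.one_mem _, fun v => ?_⟩
    rw [hc, Units.val_one, Matrix.one_mulVec, h.smul_right, smul_smul, mul_comm c, sub_self, add_zero]

end Cfsg.Agent.H29.Fm
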