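import Mathlib
import Cfsg.Agent.H29_Or11

set_option autoImplicit false

/-! maximal subgroups of odd-dimensional orthogonal groups, II -/

namespace Cfsg.Agent.H29.Fm

open Matrix Module Cfsg.Geo Cfsg.Agent.H29.Clifford Cfsg.Agent.H29.Asc Cfsg.Agent.H29.AscF Cfsg.Agent.H29.Trv
  Cfsg.Agent.H29.AscT Cfsg.Agent.H29.Rx
open scoped Kronecker commutatorElement

variable {F : Type*} [Field F] {m : ℕ}

theorem perp_nd {n : ℕ} {f : (Fin n → F) → (Fin n → F) → F} (h : OrF f) {W : Submodule F (Fin n → F)}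
    (hW : IsNondegenerateOn f W) : IsNondegenerateOn f (perp h.sfm W) := by
  intro w hw hw0
  have h1 : ∃ x ∈ perp h.sfm W, f x w ≠ 0 := by
    by_contra hcon
    push Not at hcon
    have h2 : w ∈ perp h.sfm (perp h.sfm W) := by
      intro x hx
      rw [h.symm']
      exact hcon x hx
    rw [perp_perp] at h2
    obtain ⟨⟨x, hx, hxw⟩, -⟩ := hW w h2 hw0
    apply hxw
    rw [h.symm']
    exact hw x hx
  obtain ⟨x, hx, hxw⟩ := h1
  exact ⟨⟨x, hx, hxw⟩, x, hx, by rw [h.symm']; exact hxw⟩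

/-- the maximal subgroups of odd-dimensional orthogonal groups in small dimension -/
theorem OOmax [Fintype F] (h2 : (2 : F) ≠ 0) (hm : 3 ≤ m) (hT : ∀ n₁ n₂, 3 ≤ n₁ → n₁ < n₂ → n₁ * n₂ ≠ 1 + (m + m))
    (hWR : ∀ k t : ℕ, 3 ≤ k → 2 ≤ t → k ^ t = 1 + (m + m) → t = 2)
    {H : Subgroup (GL (Io m) F)} (hH : IsMaximalIn (omegaGL (Cfsg.quadFormOdd m F)) H) :
    (∃ W : Submodule F (Io m → F), W ≠ ⊥ ∧ IsTotallySingularQuad (Cfsg.quadFormOdd m F) W ∧
      H = subspaceStabilizer W ⊓ omegaGL (Cfsg.quadFormOdd m F)) ∨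
    (∃ W : Submodule F (Io m → F), W ≠ ⊥ ∧ Even (finrank F W) ∧ IsNondegenerateOn (fo m F) W ∧
      ¬ (Fintype.card F = 3 ∧ finrank F W = 2 ∧ IsPlusTypeOn (Cfsg.quadFormOdd m F) W) ∧
      H = subspaceStabilizer W ⊓ omegaGL (Cfsg.quadFormOdd m F)) ∨
    ((Fintype.card F).Prime ∧ ∃ (t : ℕ) (D : Fin t → Submodule F (Io m → F)), t = 1 + (m + m) ∧
      IsOrthogonalMDecomposition (Cfsg.quadFormOdd m F) 1 D ∧
      H = decompositionStabilizer D ⊓ omegaGL (Cfsg.quadFormOdd m F)) ∨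
    (∃ (t k : ℕ) (D : Fin t → Submodule F (Io m → F)), t * k = 1 + (m + m) ∧ 2 ≤ t ∧ 1 < k ∧
      ¬ (k = 3 ∧ Fintype.card F = 3) ∧ IsOrthogonalMDecomposition (Cfsg.quadFormOdd m F) k D ∧
      H = decompositionStabilizer D ⊓ omegaGL (Cfsg.quadFormOdd m F)) ∨
    (∃ (r : ℕ) (K : Subalgebra F (Matrix (Io m) (Io m) F)), r.Prime ∧ r ∣ 1 + (m + m) ∧ 1 + (m + m) ≠ r ∧
      IsFieldSubalgebra r K ∧ IsSelfAdjointFor (fo m F) K ∧
      H = subalgebraNormalizer K ⊓ omegaGL (Cfsg.quadFormOdd m F)) ∨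
    (∃ (F₀ : Subfield F) (r : ℕ) (P : GL (Io m) F), r.Prime ∧ Fintype.card F = Nat.card F₀ ^ r ∧
      IsQuadFormRationalStructure (Cfsg.quadFormOdd m F) F₀ P ∧
      H = subfieldSubgroup F₀ P ⊓ omegaGL (Cfsg.quadFormOdd m F)) ∨
    (∃ (k t : ℕ) (e : Io m ≃ (Fin t → Fin k)) (P : GL (Io m) F) (f₁ : (Fin k → F) → (Fin k → F) → F), 3 ≤ k ∧
      t = 2 ∧ k ^ t = 1 + (m + m) ∧ ¬ (Fintype.card F = 3 ∧ k = 3) ∧ IsSymmetricForm f₁ ∧
      IsTensorPowerFormStructure id (fo m F) f₁ e P ∧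
      H = tensorWreathSubgroup k t e P ⊓ omegaGL (Cfsg.quadFormOdd m F)) ∨
    InOrthogonalResidualClass H := by
  classical
  by_contra hcon
  push Not at hcon
  obtain ⟨c1, c2, c3, c4, c5, c6, c7, c8⟩ := hcon
  set Q := Cfsg.quadFormOdd m F with hQ
  set f' := pf (e3 m).symm (fo m F) with hf'
  set X' := cR (e3 m).symm (omegaGL Q) with hX'
  set G := cR (e3 m).symm H with hG
  have hff : pf (e3 m) f' = fo m F := pf_pf _ _
  have hor : OrF f' := or_std h2
  have hSG : SG f' X' := sg_std h2 (by omega)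
  have hn5 : 5 ≤ 1 + (m + m) := by omega
  have hHX : H ≤ omegaGL Q := hH.1.le
  have hHI : H ≤ Cfsg.isometryGroup F Q := hHX.trans (omega_le _)
  have hGX : G ≤ X' := fun g hg => hHX hg
  have hfix : Fx f' G := by
    intro g hg u v
    have hg' : glReindex (e3 m).symm g ∈ H := hg
    have h1 : ∀ x, Cfsg.quadFormOdd m F (((glReindex (e3 m).symm g : GL (Io m) F) : Matrix (Io m) (Io m) F) *ᵥ x) =
        Cfsg.quadFormOdd m F x := fun x => (hHI hg') x x
    have h3 := h1 (L (e3 m).symm u + L (e3 m).symm v)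
    have h4 := h1 (L (e3 m).symm u)
    have h5 := h1 (L (e3 m).symm v)
    rw [Matrix.mulVec_add, act, act] at h3
    rw [act] at h4 h5
    show Cfsg.quadFormOdd m F (_ + _) - Cfsg.quadFormOdd m F _ - Cfsg.quadFormOdd m F _ =
      Cfsg.quadFormOdd m F (_ + _) - Cfsg.quadFormOdd m F _ - Cfsg.quadFormOdd m F _
    rw [h3, h4, h5]
  have hmax : ∀ (M' : Subgroup (GL (Fin (1 + (m + m))) F)) (M : Subgroup (GL (Io m) F)),
      (∀ g, glReindex (e3 m) g ∈ M' ↔ g ∈ M) → G ≤ M' → ¬ X' ≤ M' → H = M ⊓ omegaGL Q := by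
    intro M' M hM hle hno
    apply eq_of_maxI hH (le_of_pull _ hM hle)
    intro h
    apply hno
    intro g hg
    have h1 := h (show glReindex (e3 m).symm g ∈ omegaGL Q from hg)
    rw [← hM, r_r'] at h1
    exact h1
  -- singular subspaces
  have s1 : ∀ W' : Submodule F (Fin (1 + (m + m)) → F), W' ≠ ⊥ → IsTotallySingularFor f' W' →
      ¬ G ≤ subspaceStabilizer W' := by
    intro W' h1 h3 hle
    refine c1 (cW (e3 m) W') (cW_bot _ h1) ?_ (hmax _ _ (fun g => stab_iff _) hle (hSG.not_le_stab hor hn5 h1 ?_))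
    · intro w hw
      have h4 : fo m F w w = 0 := by
        have := ts_pull (e3 m) h3 w hw w hw
        rw [hff] at this
        exact this
      rw [fo_self] at h4
      exact (mul_eq_zero.1 h4).resolve_left h2
    · rintro rfl
      obtain ⟨x, hx⟩ := hor.sfm.nd _ (single_ne' (F := F) (n := 1 + (m + m)) (by omega))
      exact hx (h3 _ trivial _ trivial)
  -- nondegenerate subspaces of even dimension
  have s2e : ∀ W' : Submodule F (Fin (1 + (m + m)) → F), W' ≠ ⊥ → W' ≠ ⊤ → Even (finrank F W') →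
      ¬ (Fintype.card F = 3 ∧ finrank F W' = 2 ∧ ∃ z ∈ W', z ≠ 0 ∧ f' z z = 0) → IsNondegenerateOn f' W' →
      ¬ G ≤ subspaceStabilizer W' := by
    intro W' h1 h3 hev hpl h4 hle
    refine c2 (cW (e3 m) W') (cW_bot _ h1) (by rw [finrank_cW]; exact hev) ?_ ?_
      (hmax _ _ (fun g => stab_iff _) hle (hSG.not_le_stab hor hn5 h1 h3))
    · rw [← hff]; exact nd_pull _ h4
    · rintro hF hfr ⟨U, hU1, hU2, hU3⟩
      rw [finrank_cW] at hfr
      apply hpl
      refine ⟨hF, hfr, ?_⟩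
      have hUne : U ≠ ⊥ := by
        rintro rfl
        rw [finrank_bot, finrank_cW] at hU3
        omega
      obtain ⟨z, hz, hz0⟩ := Submodule.exists_mem_ne_zero_of_ne_bot hUne
      refine ⟨L (e3 m) z, hU1 hz, fun h0 => hz0 ((L (e3 m)).map_eq_zero_iff.1 h0), ?_⟩
      show fo m F (L (e3 m).symm (L (e3 m) z)) (L (e3 m).symm (L (e3 m) z)) = 0
      rw [L_L, fo_self, ← hQ, hU2 z hz, mul_zero]
  have s2' : ∀ W' : Submodule F (Fin (1 + (m + m)) → F), W' ≠ ⊥ → W' ≠ ⊤ → IsNondegenerateOn f' W' →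
      G ≤ subspaceStabilizer W' → ∃ W'' : Submodule F (Fin (1 + (m + m)) → F), W'' ≠ ⊥ ∧ W'' ≠ ⊤ ∧
        Even (finrank F W'') ∧ IsNondegenerateOn f' W'' ∧ G ≤ subspaceStabilizer W'' ∧
        (finrank F W' ≤ 1 → finrank F W'' = m + m) := by
    intro W' h1 h3 h4 hle
    rcases Nat.even_or_odd (finrank F W') with hev | hodd
    · refine ⟨W', h1, h3, hev, h4, hle, ?_⟩
      intro h5
      exfalso
      apply h1
      apply Submodule.finrank_eq_zero.1
      obtain ⟨a, ha⟩ := hev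
      omega
    · have h5 := finrank_perp hor.sfm W'
      refine ⟨perp hor.sfm W', ?_, ?_, ?_, perp_nd hor h4, perp_stable hor.sfm hfix hle, ?_⟩
      · intro h0
        rw [h0, finrank_bot, add_zero] at h5
        apply h3
        apply Submodule.eq_top_of_finrank_eq
        rw [h5, Module.finrank_fintype_fun_eq_card, Fintype.card_fin]
      · intro h0
        rw [h0, finrank_top, Module.finrank_fintype_fun_eq_card, Fintype.card_fin] at h5
        obtain ⟨a, ha⟩ := hodd
        omega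
      · obtain ⟨a, ha⟩ := hodd
        exact ⟨m - a, by omega⟩
      · intro h6
        obtain ⟨a, ha⟩ := hodd
        omega
  have s2 : ∀ W' : Submodule F (Fin (1 + (m + m)) → F), W' ≠ ⊥ → W' ≠ ⊤ → IsNondegenerateOn f' W' →
      ¬ G ≤ subspaceStabilizer W' := by
    intro W' h1 h3 h4 hle
    obtain ⟨W₁, a1, a2, a3, a4, a5, -⟩ := s2' W' h1 h3 h4 hle
    by_cases hpl : Fintype.card F = 3 ∧ finrank F W₁ = 2 ∧ ∃ z ∈ W₁, z ≠ 0 ∧ f' z z = 0
    · obtain ⟨hF, hfr, z, hz, hz0, hzz⟩ := hpl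
      obtain ⟨a, ha, hle'⟩ := plus_three hor hF hfix hfr a4 hz hz0 hzz a5
      have ha0 : a ≠ 0 := by
        rintro rfl
        exact ha (hor.sfm.zero_left _)
      have hfa := finrank_span_singleton (K := F) ha0
      obtain ⟨W₂, b1, b2, b3, b4, b5, b6⟩ := s2' (Submodule.span F {a}) (by
        rw [Ne, Submodule.span_singleton_eq_bot]; exact ha0) (by
        intro h0
        rw [h0, finrank_top, Module.finrank_fintype_fun_eq_card, Fintype.card_fin] at hfa
        omega) (by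
        intro w hw hw0
        obtain ⟨c, rfl⟩ := Submodule.mem_span_singleton.1 hw
        have hc : c ≠ 0 := by
          rintro rfl
          exact hw0 (zero_smul _ _)
        refine ⟨⟨a, Submodule.mem_span_singleton_self _, ?_⟩, a, Submodule.mem_span_singleton_self _, ?_⟩
        · rw [hor.smul_right]; exact mul_ne_zero hc ha
        · rw [hor.sfm.smul_left]; exact mul_ne_zero hc ha) hle'
      have b7 := b6 (by rw [hfa])
      exact s2e W₂ b1 b2 b3 (by rintro ⟨-, h6, -⟩; omega) b4 b5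
    · exact s2e W₁ a1 a2 a3 hpl a4 a5
  -- frames
  have s3 : ∀ (t : ℕ) (D : Fin t → Submodule F (Fin (1 + (m + m)) → F)), (Fintype.card F).Prime →
      IsNondegenerateMDecomposition f' 1 D → (∀ i j, AreIsometricFor (fun v => f' v v) (D i) (D j)) →
      ¬ G ≤ decompositionStabilizer D := by
    intro t D hF hD hiso hle
    refine c3 hF t (fun i => cW (e3 m) (D i)) ?_ ?_ (hmax _ _ (fun g => decStab_iff _) hle
      (hSG.not_le_dec hor hn5 hD.decomp))
    · have := dec_card hD.decomp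
      omega
    · refine ⟨?_, fun i j => isom_pull h2 (hiso i j)⟩
      show IsNondegenerateMDecomposition (fo m F) _ _
      rw [← hff]; exact ndec_pull _ hD
  have hNO : NO f' G := by
    refine ⟨hor, ⟨m, by omega⟩, hfix, ?_, s1, s2, ?_, ?_, ?_, ?_, ?_⟩
    · intro F₁ i j
      have hs : ∀ (i : Fin (1 + (m + m))) (a : Io m), L (e3 m).symm (Pi.single i (1 : F)) a ∈ F₁ := by
        intro i a
        rw [Rx.L_apply, Pi.single_apply]
        split_ifs
        · exact F₁.one_mem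
        · exact F₁.zero_mem
      show fo m F _ _ ∈ F₁
      rw [fo_apply]
      refine F₁.add_mem (F₁.mul_mem ?_ (F₁.mul_mem (hs _ _) (hs _ _))) (F₁.sum_mem fun a _ =>
        F₁.add_mem (F₁.mul_mem (hs _ _) (hs _ _)) (F₁.mul_mem (hs _ _) (hs _ _)))
      exact ofNat_mem F₁ 2
    · intro t k D hk hD hiso hle
      rcases hk with hk | ⟨rfl, hF⟩
      · by_cases hk3 : k = 3 ∧ Fintype.card F = 3
        · obtain ⟨rfl, hF⟩ := hk3
          obtain ⟨D', h1, h3, h4⟩ := refine_three hor hF hD hiso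
          exact s3 _ D' (by rw [hF]; decide) h1 h3 (h4 G hfix hle)
        · refine c4 t k (fun i => cW (e3 m) (D i)) (dec_card hD.decomp) hD.decomp.two_le hk
            (fun h1 h3 => hk3 ⟨h1, h3⟩) ?_ (hmax _ _ (fun g => decStab_iff _) hle (hSG.not_le_dec hor hn5 hD.decomp))
          refine ⟨?_, fun i j => isom_pull h2 (hiso i j)⟩
          show IsNondegenerateMDecomposition (fo m F) _ _
          rw [← hff]; exact ndec_pull _ hD
      · exact s3 t D hF hD hiso hle
    · intro r K' hr hne hK' hsa hle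
      refine c5 r (cK (e3 m) K') hr (fld_dvd (by omega) hK') hne (fld_pull _ hK') ?_
        (hmax _ _ (fun g => norm_iff _) hle (hSG.not_le_norm hor hn5 hr.two_le hK'))
      show IsSelfAdjointFor (fo m F) _
      rw [← hff]; exact sa_pull _ hsa
    · intro n₁ n₂ e' P' f₁ f₂ h1 h3 hf₁ hf₂ hst hle
      apply hT n₁ n₂ h1 h3
      have := Fintype.card_congr e'
      rw [Fintype.card_fin, Fintype.card_prod, Fintype.card_fin, Fintype.card_fin] at this
      exact this.symm
    · intro F₀ r P' hr hc hst hle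
      have hF₀ : F₀ ≠ ⊤ := by
        rintro rfl
        have h3 : Nat.card (⊤ : Subfield F) = Fintype.card F := by
          rw [← Nat.card_eq_fintype_card]
          exact Nat.card_congr Subfield.topEquiv.toEquiv
        rw [h3] at hc
        have h4 : (Fintype.card F) ^ 1 < (Fintype.card F) ^ r := Nat.pow_lt_pow_right Fintype.one_lt_card hr.one_lt
        rw [pow_one] at h4
        omega
      refine c6 F₀ r (glReindex (e3 m).symm P') hr hc ?_ (hmax _ _ (fun g => sub_iff _) hle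
        (hSG.not_le_sub hor hn5 hF₀ P'))
      intro u hu
      have h1 := (subf_pull (e3 m) hst) u u hu hu
      rw [hff, one_mul, fo_self] at h1
      have h3 : Cfsg.quadFormOdd m F (((glReindex (e3 m).symm P' : GL (Io m) F) : Matrix (Io m) (Io m) F) *ᵥ u) =
          2⁻¹ * (2 * Cfsg.quadFormOdd m F (((glReindex (e3 m).symm P' : GL (Io m) F) : Matrix (Io m) (Io m) F) *ᵥ u)) := by
        rw [← mul_assoc, inv_mul_cancel₀ h2, one_mul]
      rw [hQ, h3]
      exact F₀.mul_mem (F₀.inv_mem (ofNat_mem F₀ 2)) h1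
    · intro k t e' P' f₁ hk ht hne hf₁ hst hle
      have hcard : k ^ t = 1 + (m + m) := by
        have := Fintype.card_congr e'
        rw [Fintype.card_fin, Fintype.card_fun, Fintype.card_fin, Fintype.card_fin] at this
        exact this.symm
      have ht2 := hWR k t hk ht hcard
      subst ht2
      refine c7 k 2 ((e3 m).trans e') (glReindex (e3 m).symm P') f₁ hk rfl hcard (fun h1 h3 => hne ⟨h1, h3⟩) hf₁ ?_
        (hmax _ _ (fun g => tw_iff _) hle (hSG.not_le_wr hor hn5 hk))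
      show IsTensorPowerFormStructure id (fo m F) _ _ _
      rw [← hff]; exact twf_pull _ hst
  have h1 := NO.residual (by omega) hNO
  have h3 := res_orth_pull (e3 m) h1
  rw [cR_cR] at h3
  exact c8 h3

end Cfsg.Agent.H29.Fm
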