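import Mathlib
import Cfsg.Agent.H29_Nm1
import Cfsg.Agent.H29_Or12

set_option autoImplicit false

/-! stabilisers that are not maximal: orthogonal groups -/

namespace Cfsg.Agent.H29.Fm

open Matrix Module Cfsg.Geo Cfsg.Agent.H29.Clifford Cfsg.Agent.H29.Asc Cfsg.Agent.H29.AscF Cfsg.Agent.H29.Trv
  Cfsg.Agent.H29.AscT Cfsg.Agent.H29.Rx
open scoped Kronecker commutatorElement

variable {F : Type*} [Field F] {n k m r w t : ℕ} {τ : F ≃+* F} {ε : F}
variable {f : (Fin n → F) → (Fin n → F) → F}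

/-- transport of non-maximality -/
theorem nonmax_pull {ι κ : Type} [Fintype ι] [DecidableEq ι] [Fintype κ] [DecidableEq κ] (e : ι ≃ κ)
    {H X : Subgroup (GL κ F)} (h : ∃ K : Subgroup (GL ι F), cR e H < K ∧ K < cR e X) :
    ∃ K : Subgroup (GL κ F), H < K ∧ K < X := by
  obtain ⟨K, h1, h2⟩ := h
  have key : ∀ A B : Subgroup (GL ι F), A < B → cR e.symm A < cR e.symm B := by
    intro A B hAB
    refine lt_of_le_of_ne (Subgroup.comap_mono hAB.le) ?_
    intro heq
    apply hAB.ne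
    have h3 := congrArg (cR e) heq
    rwa [cR_cR, cR_cR] at h3
  have hc : ∀ R : Subgroup (GL κ F), cR e.symm (cR e R) = R := fun R => cR_cR e.symm R
  refine ⟨cR e.symm K, ?_, ?_⟩
  · have := key _ _ h1
    rwa [hc] at this
  · have := key _ _ h2
    rwa [hc] at this

/-- endomorphisms for which all vectors are eigenvectors -/
theorem scalar_of_eig {a : Matrix (Fin w) (Fin w) F} (h : ∀ x, ∃ c : F, a *ᵥ x = c • x) :
    ∃ c : F, ∀ x, a *ᵥ x = c • x := by
  by_cases hw : ∃ x : Fin w → F, x ≠ 0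
  · obtain ⟨x₀, hx₀⟩ := hw
    obtain ⟨c, hc⟩ := h x₀
    refine ⟨c, fun x => ?_⟩
    obtain ⟨d, hd⟩ := h x
    by_cases hx : ∃ e : F, x = e • x₀
    · obtain ⟨e, rfl⟩ := hx
      rw [Matrix.mulVec_smul, hc, smul_comm]
    · push Not at hx
      obtain ⟨e, he⟩ := h (x + x₀)
      rw [Matrix.mulVec_add, hc, hd, smul_add] at he
      have h1 : (d - e) • x = (e - c) • x₀ := by
        rw [sub_smul, sub_smul]
        have : d • x - e • x - (e • x₀ - c • x₀) = (d • x + c • x₀) - (e • x + e • x₀) := by abel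
        rw [← sub_eq_zero, this, he, sub_self]
      have h2 : d - e = 0 := by
        by_contra hne
        apply hx ((d - e)⁻¹ * (e - c))
        rw [mul_smul, ← h1, smul_smul, inv_mul_cancel₀ hne, one_smul]
      rw [h2, zero_smul] at h1
      have h3 : e - c = 0 := (smul_eq_zero.1 h1.symm).resolve_right hx₀
      rw [hd]
      congr 1
      linear_combination h2 + h3
  · push Not at hw
    exact ⟨1, fun x => by rw [hw x, Matrix.mulVec_zero, smul_zero]⟩

/-- tensor product groups contain no elements with small commutator space -/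
theorem no_sieg_tens (hw : 3 ≤ w) (ht : 3 ≤ t) {e : Fin n ≃ Fin w × Fin t} {P g : GL (Fin n) F}
    {φ ψ : (Fin n → F) →ₗ[F] F} {u v : Fin n → F}
    (hg : ∀ x, (g : Matrix (Fin n) (Fin n) F) *ᵥ x = x + (φ x • u - ψ x • v)) (hne : g ≠ 1) :
    g ∉ tensorProductSubgroup w t e P := by
  intro hmem
  obtain ⟨a, b, hab⟩ := tp_act hmem
  let φ' : (Fin w × Fin t → F) →ₗ[F] F := φ ∘ₗ ((ce e P : (Fin w × Fin t → F) ≃ₗ[F] (Fin n → F)) : _ →ₗ[F] _)
  let ψ' : (Fin w × Fin t → F) →ₗ[F] F := ψ ∘ₗ ((ce e P : (Fin w × Fin t → F) ≃ₗ[F] (Fin n → F)) : _ →ₗ[F] _)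
  have key : ∀ x y, φ' (pt x y) = 0 → ψ' (pt x y) = 0 →
      pt ((a : Matrix (Fin w) (Fin w) F) *ᵥ x) ((b : Matrix (Fin t) (Fin t) F) *ᵥ y) = pt x y := by
    intro x y h1 h2
    apply (ce e P).injective
    have h1' : φ (ce e P (pt x y)) = 0 := h1
    have h2' : ψ (ce e P (pt x y)) = 0 := h2
    rw [← kron_pt, ← hab, hg, h1', h2', zero_smul, zero_smul, sub_zero, add_zero]
  have hb : ∀ y, ∃ c : F, (b : Matrix (Fin t) (Fin t) F) *ᵥ y = c • y := by
    intro y
    obtain ⟨x, hx0, h1, h2⟩ := exists_ker2 hw (φ' ∘ₗ ptL y) (ψ' ∘ₗ ptL y)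
    exact pt_eq_right (GLv_ne hx0) (key x y h1 h2)
  have ha : ∀ x, ∃ c : F, (a : Matrix (Fin w) (Fin w) F) *ᵥ x = c • x := by
    intro x
    obtain ⟨y, hy0, h1, h2⟩ := exists_ker2 ht (φ' ∘ₗ ptR x) (ψ' ∘ₗ ptR x)
    exact pt_eq_left (GLv_ne hy0) (key x y h1 h2)
  obtain ⟨α, hα⟩ := scalar_of_eig ha
  obtain ⟨β, hβ⟩ := scalar_of_eig hb
  -- the product of the two scalars is one
  have hy : (Pi.single ⟨0, by omega⟩ (1 : F) : Fin t → F) ≠ 0 := single_ne' (by omega)
  set y : Fin t → F := Pi.single ⟨0, by omega⟩ (1 : F)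
  obtain ⟨x, hx0, h1, h2⟩ := exists_ker2 hw (φ' ∘ₗ ptL y) (ψ' ∘ₗ ptL y)
  have h3 := key x y h1 h2
  rw [hα, hβ, pt_smul_left, pt_smul_right, smul_smul] at h3
  have h4 : α * β = 1 := by
    have h5 : pt ((α * β) • x) y = pt x y := by rw [pt_smul_left]; exact h3
    have h6 := pt_inj_left hy h5
    have h7 : (α * β - 1) • x = 0 := by rw [sub_smul, one_smul, h6, sub_self]
    exact sub_eq_zero.1 ((smul_eq_zero.1 h7).resolve_right hx0)
  apply hne
  apply Units.ext
  apply Cfsg.Agent.H29.Trv.ext_mulVec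
  intro z
  rw [Units.val_one, Matrix.one_mulVec]
  obtain ⟨z', rfl⟩ := (ce e P).surjective z
  -- by linearity
  have h5 : ∀ x y, (g : Matrix (Fin n) (Fin n) F) *ᵥ (ce e P (pt x y)) = ce e P (pt x y) := by
    intro x y
    rw [hab, kron_pt, hα, hβ, pt_smul_left, pt_smul_right, smul_smul, h4, one_smul]
  have h6 : (Matrix.toLin' (g : Matrix (Fin n) (Fin n) F)) ∘ₗ
      ((ce e P : (Fin w × Fin t → F) ≃ₗ[F] (Fin n → F)) : (Fin w × Fin t → F) →ₗ[F] (Fin n → F)) =
      ((ce e P : (Fin w × Fin t → F) ≃ₗ[F] (Fin n → F)) : (Fin w × Fin t → F) →ₗ[F] (Fin n → F)) := by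
    apply LinearMap.pi_ext'
    intro p
    apply LinearMap.ext_ring
    show (g : Matrix (Fin n) (Fin n) F) *ᵥ (ce e P (Pi.single p 1)) = ce e P (Pi.single p 1)
    rw [single_pt]
    exact h5 _ _
  exact LinearMap.congr_fun h6 z'

/-- Siegel transformations in a block -/
theorem sieg_dec (h : OrF f) {D : Fin t → Submodule F (Fin n → F)} (hD : IsNondegenerateMDecomposition f k D)
    {i : Fin t} {e x : Fin n → F} (he : e ∈ D i) (hx : x ∈ D i) {g : GL (Fin n) F}
    (hg : ∀ v, (g : Matrix (Fin n) (Fin n) F) *ᵥ v = v + (f v e • x - f v x • e)) : g ∈ decompositionStabilizer D := by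
  apply dec_fix
  intro j v hv
  rw [hg]
  by_cases hij : j = i
  · subst hij
    exact Submodule.add_mem _ hv (Submodule.sub_mem _ (Submodule.smul_mem _ _ hx) (Submodule.smul_mem _ _ he))
  · rw [hD.orthogonal j i hij v hv e he, hD.orthogonal j i hij v hv x hx, zero_smul, zero_smul, sub_zero, add_zero]
    exact hv

/-- totally singular planes in non-degenerate spaces of dimension at least five -/
theorem sing_plane [Fintype F] (h : OrF f) {U : Submodule F (Fin n → F)} (hU : 5 ≤ finrank F U)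
    (hnd : IsNondegenerateOn f U) : ∃ e ∈ U, ∃ x ∈ U, e ≠ 0 ∧ (∀ c : F, x ≠ c • e) ∧ f e e = 0 ∧ f x x = 0 ∧ f e x = 0 := by
  obtain ⟨e, heU, he0, he⟩ := iso3 h (U := U) (by omega)
  obtain ⟨⟨p, hpU, hp⟩, -⟩ := hnd e heU he0
  have h1 := fr_inf h U (Submodule.span F (Set.range ![e, p]))
  have h2 := finrank_range_le_card (R := F) ![e, p]
  rw [Fintype.card_fin] at h2
  have h3 : finrank F (Submodule.span F (Set.range ![e, p])) ≤ 2 := h2
  obtain ⟨x, hxU, hx0, hx⟩ := iso3 h (U := U ⊓ perp h.sfm (Submodule.span F (Set.range ![e, p]))) (by omega)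
  have h4 := (mem_perp_span h).1 hxU.2
  have hxe : f x e = 0 := h4 0
  have hxp : f x p = 0 := h4 1
  refine ⟨e, heU, x, hxU.1, he0, ?_, he, hx, by rw [h.symm']; exact hxe⟩
  rintro c rfl
  rw [h.sfm.smul_left, h.symm'] at hxp
  rcases mul_eq_zero.1 hxp with h5 | h5
  · apply hx0
    rw [h5, zero_smul]
  · exact hp h5

theorem refine_three_onb [Fintype F] (h : OrF f) (hF : Fintype.card F = 3) {D : Fin t → Submodule F (Fin n → F)}
    (hD : IsNondegenerateMDecomposition f 3 D) (hiso : ∀ i j, AreIsometricFor (fun v => f v v) (D i) (D j)) :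
    ∃ (ε : F) (v : Fin t × Fin 3 → (Fin n → F)), ε ≠ 0 ∧ (∀ i a, v (i, a) ∈ D i) ∧
      (∀ p q, f (v p) (v q) = if p = q then ε else 0) ∧
    ∃ D' : Fin (t * 3) → Submodule F (Fin n → F), (∀ i, D' i = Submodule.span F {v (finProdFinEquiv.symm i)}) ∧
      IsNondegenerateMDecomposition f 1 D' ∧
      (∀ i j, AreIsometricFor (fun v => f v v) (D' i) (D' j)) ∧
      ∀ G : Subgroup (GL (Fin n) F), Fx f G → G ≤ decompositionStabilizer D → G ≤ decompositionStabilizer D' := by
  classical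
  have ht := hD.decomp.two_le
  have htm := dec_card hD.decomp
  let i₀ : Fin t := ⟨0, by omega⟩
  let b₀ := Module.finBasisOfFinrankEq F (D i₀) (hD.decomp.finrank_eq i₀)
  let L : (Fin 3 → F) ≃ₗ[F] D i₀ := b₀.equivFun.symm
  let A : Matrix (Fin 3) (Fin 3) F := Matrix.of fun a c => f (b₀ a : Fin n → F) (b₀ c)
  have hL : ∀ x, ((L x : D i₀) : Fin n → F) = ∑ a, x a • (b₀ a : Fin n → F) := by
    intro x
    have h1 : L x = ∑ a, x a • b₀ a := b₀.equivFun_symm_apply x
    rw [h1, AddSubmonoidClass.coe_finset_sum]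
    rfl
  have hform : ∀ x y, f (L x : Fin n → F) (L y) = x ⬝ᵥ (A *ᵥ y) := by
    intro x y
    rw [hL, hL, h.sfm.sum_left]
    show _ = ∑ a, x a * ∑ c, A a c * y c
    apply Finset.sum_congr rfl
    intro a _
    rw [h.sfm.smul_left, h.sfm.sum_right]
    congr 1
    apply Finset.sum_congr rfl
    intro c _
    rw [h.smul_right, mul_comm]
    rfl
  have hA : Aᵀ = A := by
    ext a c
    exact h.symm' _ _
  have hdet : A.det ≠ 0 := by
    intro h0
    obtain ⟨x, hx0, hx⟩ := Matrix.exists_vecMul_eq_zero_iff.2 h0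
    have hLx : ((L x : D i₀) : Fin n → F) ≠ 0 := by
      intro h1
      apply hx0
      have h2 : L x = 0 := Subtype.ext h1
      exact (L.map_eq_zero_iff).1 h2
    obtain ⟨-, y, hy, hyx⟩ := hD.nondegenerate i₀ _ (L x).2 hLx
    apply hyx
    obtain ⟨z, hz⟩ := L.surjective ⟨y, hy⟩
    have hz' : ((L z : D i₀) : Fin n → F) = y := congrArg Subtype.val hz
    rw [← hz', hform, Matrix.dotProduct_mulVec, hx, zero_dotProduct]
  obtain ⟨P, ε, hε, hP⟩ := sym_three hF hA hdet
  choose φ hφ using fun j => hiso i₀ j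
  have hbil : ∀ j (u v : D i₀), f ((φ j u : D j) : Fin n → F) (φ j v : D j) = f (u : Fin n → F) v :=
    fun j => isom_bil h (hφ j)
  let v : Fin t × Fin 3 → (Fin n → F) := fun p => ((φ p.1 (L ((P : Matrix (Fin 3) (Fin 3) F) *ᵥ Pi.single p.2 1)) : D p.1) : Fin n → F)
  have hvD : ∀ i a, v (i, a) ∈ D i := fun i a => (φ i _).2
  have hv : ∀ p q, f (v p) (v q) = if p = q then ε else 0 := by
    rintro ⟨i, a⟩ ⟨j, c⟩
    by_cases hij : i = j
    · subst hij
      have h1 : f (v (i, a)) (v (i, c)) = ((P : Matrix (Fin 3) (Fin 3) F)ᵀ * A * (P : Matrix (Fin 3) (Fin 3) F)) a c := by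
        show f ((φ i _ : D i) : Fin n → F) (φ i _ : D i) = _
        rw [hbil, hform, gram_conj]
      rw [h1, hP, Matrix.smul_apply, Matrix.one_apply, smul_eq_mul]
      by_cases hac : a = c
      · subst hac; simp
      · rw [if_neg hac, if_neg (fun h => hac (congrArg Prod.snd h)), mul_zero]
    · rw [if_neg (fun h => hij (congrArg Prod.fst h))]
      exact hD.orthogonal i j hij _ (hvD i a) _ (hvD j c)
  have hspan : ∀ i, ∀ x ∈ D i, ∃ c : Fin 3 → F, x = ∑ a, c a • v (i, a) := by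
    intro i x hx
    obtain ⟨y, hy⟩ := (φ i).surjective ⟨x, hx⟩
    obtain ⟨z, rfl⟩ := L.surjective y
    set c := ((P⁻¹ : GL (Fin 3) F) : Matrix (Fin 3) (Fin 3) F) *ᵥ z with hc
    have hz : z = ∑ a, c a • ((P : Matrix (Fin 3) (Fin 3) F) *ᵥ Pi.single a 1) := by
      have h1 : z = (P : Matrix (Fin 3) (Fin 3) F) *ᵥ c := by
        rw [hc, Matrix.mulVec_mulVec, ← Units.val_mul, mul_inv_cancel, Units.val_one, Matrix.one_mulVec]
      have h2 : c = ∑ a, c a • (Pi.single a (1 : F) : Fin 3 → F) := by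
        funext j
        rw [Finset.sum_apply, Finset.sum_eq_single j]
        · rw [Pi.smul_apply, Pi.single_eq_same, smul_eq_mul, mul_one]
        · intro l _ hl
          rw [Pi.smul_apply, Pi.single_eq_of_ne (Ne.symm hl), smul_zero]
        · intro h; exact absurd (Finset.mem_univ _) h
      conv_lhs => rw [h1, h2]
      rw [Matrix.mulVec_sum]
      apply Finset.sum_congr rfl
      intro a _
      rw [Matrix.mulVec_smul]
    refine ⟨c, ?_⟩
    have h3 : x = ((φ i (L z) : D i) : Fin n → F) := (congrArg Subtype.val hy).symm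
    rw [h3]
    conv_lhs => rw [hz]
    rw [map_sum, map_sum]
    have h4 : ∀ s : Fin 3 → D i, ((∑ a, s a : D i) : Fin n → F) = ∑ a, (s a : Fin n → F) :=
      fun s => AddSubmonoidClass.coe_finset_sum _ _
    rw [h4]
    apply Finset.sum_congr rfl
    intro a _
    rw [map_smul, map_smul]
    rfl
  let u : Fin (t * 3) × Fin 1 → (Fin n → F) := fun p => v (finProdFinEquiv.symm p.1)
  have hu : ∀ p q, f (u p) (u q) = if p = q then ε else 0 := by
    intro p q
    show f (v (finProdFinEquiv.symm p.1)) (v (finProdFinEquiv.symm q.1)) = _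
    rw [hv]
    congr 1
    apply propext
    rw [EmbeddingLike.apply_eq_iff_eq]
    constructor
    · intro h1
      exact Prod.ext h1 (Subsingleton.elim _ _)
    · intro h1
      rw [h1]
  have hrange : ∀ i, Submodule.span F (Set.range (fun a => u (i, a))) = Submodule.span F {u (i, 0)} := by
    intro i
    congr 1
    ext x
    constructor
    · rintro ⟨a, rfl⟩
      rw [Subsingleton.elim a 0]
      rfl
    · intro hx
      exact ⟨0, hx.symm⟩
  have hu0 : ∀ i, u (i, 0) ≠ 0 := by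
    intro i h0
    have h1 := hu (i, 0) (i, 0)
    rw [h0, h.sfm.zero_left, if_pos rfl] at h1
    exact hε h1.symm
  have hdec := dec_onb h.sfm hε hu (by omega) (by omega) one_pos
  refine ⟨ε, v, hε, hvD, hv, _, fun i => hrange i, hdec, ?_, ?_⟩
  · intro i j
    show AreIsometricFor _ (Submodule.span F (Set.range (fun a => u (i, a)))) (Submodule.span F (Set.range (fun a => u (j, a))))
    rw [hrange, hrange]
    apply isom_line h (hu0 i) (hu0 j)
    rw [hu, hu, if_pos rfl, if_pos rfl]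
  intro G hG hle g hg
  obtain ⟨σ, hσ⟩ := hle hg
  apply mem_frame h.sfm hε hu (by omega) (by omega)
  intro i
  obtain ⟨⟨i', a⟩, rfl⟩ := finProdFinEquiv.surjective i
  have h1 : (g : Matrix (Fin n) (Fin n) F) *ᵥ v (i', a) ∈ D (σ i') := by
    rw [← hσ i']
    exact ⟨_, hvD i' a, rfl⟩
  obtain ⟨c, hc⟩ := hspan _ _ h1
  have h3 : f ((g : Matrix (Fin n) (Fin n) F) *ᵥ v (i', a)) ((g : Matrix (Fin n) (Fin n) F) *ᵥ v (i', a)) = ε := by
    rw [hG g hg, hv, if_pos rfl]
  have h4 : f (∑ a, c a • v (σ i', a)) (∑ a, c a • v (σ i', a)) = ε * (c 0 * c 0 + c 1 * c 1 + c 2 * c 2) := by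
    have hvv : ∀ a b, f (v (σ i', a)) (v (σ i', b)) = if a = b then ε else 0 := by
      intro a b
      rw [hv]
      congr 1
      apply propext
      exact ⟨fun h => congrArg Prod.snd h, fun h => by rw [h]⟩
    rw [Fin.sum_univ_three]
    simp only [h.sfm.add_left, h.sfm.add_right, h.sfm.smul_left, h.smul_right, hvv, if_true]
    rw [if_neg (by decide : ¬ (0 : Fin 3) = 1), if_neg (by decide : ¬ (0 : Fin 3) = 2), if_neg (by decide : ¬ (1 : Fin 3) = 0),
      if_neg (by decide : ¬ (1 : Fin 3) = 2), if_neg (by decide : ¬ (2 : Fin 3) = 0), if_neg (by decide : ¬ (2 : Fin 3) = 1)]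
    ring
  rw [hc, h4] at h3
  have h5 : c 0 * c 0 + c 1 * c 1 + c 2 * c 2 = 1 := by
    have h6 : ε * (c 0 * c 0 + c 1 * c 1 + c 2 * c 2 - 1) = 0 := by linear_combination h3
    exact sub_eq_zero.1 ((mul_eq_zero.1 h6).resolve_left hε)
  have hsq : ∀ z : F, z ≠ 0 → z * z = 1 := by
    intro z hz
    rcases three_cases hF z with h3 | h3 | h3
    · exact absurd h3 hz
    · rw [h3, one_mul]
    · rw [h3]; ring
  have h30 := three_zero hF
  have hu' : ∀ x : Fin t × Fin 3, u (finProdFinEquiv x, 0) = v x := by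
    intro x
    show v (finProdFinEquiv.symm (finProdFinEquiv x)) = v x
    rw [Equiv.symm_apply_apply]
  rw [Fin.sum_univ_three] at hc
  by_cases y0 : c 0 = 0 <;> by_cases y1 : c 1 = 0 <;> by_cases y2 : c 2 = 0
  · exfalso
    rw [y0, y1, y2] at h5
    have : (1 : F) = 0 := by linear_combination -h5
    exact one_ne_zero this
  · refine ⟨finProdFinEquiv (σ i', 2), c 2, ?_⟩
    rw [hu', hu', hc, y0, y1, zero_smul, zero_smul, zero_add, zero_add]
  · refine ⟨finProdFinEquiv (σ i', 1), c 1, ?_⟩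
    rw [hu', hu', hc, y0, y2, zero_smul, zero_smul, zero_add, add_zero]
  · exfalso
    rw [y0, hsq _ y1, hsq _ y2] at h5
    have : (1 : F) = 0 := by linear_combination h5
    exact one_ne_zero this
  · refine ⟨finProdFinEquiv (σ i', 0), c 0, ?_⟩
    rw [hu', hu', hc, y1, y2, zero_smul, zero_smul, add_zero, add_zero]
  · exfalso
    rw [y1, hsq _ y0, hsq _ y2] at h5
    have : (1 : F) = 0 := by linear_combination h5
    exact one_ne_zero this
  · exfalso
    rw [y2, hsq _ y0, hsq _ y1] at h5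
    have : (1 : F) = 0 := by linear_combination h5
    exact one_ne_zero this
  · exfalso
    rw [hsq _ y0, hsq _ y1, hsq _ y2] at h5
    apply h.two
    linear_combination h5

end Cfsg.Agent.H29.Fm
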