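import Mathlib
import Cfsg.Agent.H29_Sq6
import Cfsg.Agent.H29_Nm2
import Cfsg.Agent.H16_Gen
import Cfsg.Agent.H16_Omega
import Cfsg.Agent.H16_Quad4

set_option autoImplicit false

/-! similarities of the determinant form in dimension four -/

namespace Cfsg.Agent.H29.Gq

open Matrix Module Cfsg.Geo Cfsg.Agent.H16.Quad
open QuadraticMap (polar)
open scoped Kronecker

variable {F : Type*} [Field F]

/-- the determinant form -/
noncomputable def dQ (F : Type*) [Field F] : QuadraticForm F (Fin 2 × Fin 2 → F) :=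
  QuadraticMap.linMulLin (LinearMap.proj (0, 0)) (LinearMap.proj (1, 1)) -
    QuadraticMap.linMulLin (LinearMap.proj (0, 1)) (LinearMap.proj (1, 0))

theorem dQ_apply (x : Fin 2 × Fin 2 → F) : dQ F x = x (0, 0) * x (1, 1) - x (0, 1) * x (1, 0) := rfl

theorem polar_dQ (x y : Fin 2 × Fin 2 → F) : polar (dQ F) x y =
    x (0, 0) * y (1, 1) + x (1, 1) * y (0, 0) - x (0, 1) * y (1, 0) - x (1, 0) * y (0, 1) := by
  rw [polar, dQ_apply, dQ_apply, dQ_apply]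
  simp only [Pi.add_apply]
  ring

theorem nd_dQ : (QuadraticMap.polarBilin (dQ F)).Nondegenerate := by
  apply nd_of
  intro x hx
  have h1 := hx (Pi.single (1, 1) 1)
  have h2 := hx (Pi.single (0, 0) 1)
  have h3 := hx (Pi.single (1, 0) 1)
  have h4 := hx (Pi.single (0, 1) 1)
  rw [polar_dQ] at h1 h2 h3 h4
  simp at h1 h2 h3 h4
  funext ⟨a, b⟩
  fin_cases a <;> fin_cases b
  · exact h1
  · exact h3
  · exact h4
  · exact h2

/-- the swap -/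
def Sw (F : Type*) [Field F] : Matrix (Fin 2 × Fin 2) (Fin 2 × Fin 2) F :=
  Matrix.of fun a b => if a.1 = b.2 ∧ a.2 = b.1 then 1 else 0

theorem Sw_mulVec (x : Fin 2 × Fin 2 → F) (a : Fin 2 × Fin 2) : (Sw F *ᵥ x) a = x (a.2, a.1) := by
  rw [Matrix.mulVec, dotProduct, Finset.sum_eq_single (a.2, a.1)]
  · simp [Sw]
  · rintro ⟨b1, b2⟩ _ hb
    have : ¬ (a.1 = b2 ∧ a.2 = b1) := by
      rintro ⟨rfl, rfl⟩; exact hb rfl
    simp [Sw, this]
  · intro h; exact absurd (Finset.mem_univ _) h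

theorem Sw_sq : Sw F * Sw F = 1 := by
  apply Matrix.ext_of_mulVec_single
  intro i
  rw [← Matrix.mulVec_mulVec, Matrix.one_mulVec]
  funext a
  rw [Sw_mulVec, Sw_mulVec]

theorem kr_mulVec (C D : Matrix (Fin 2) (Fin 2) F) (x : Fin 2 × Fin 2 → F) (a : Fin 2 × Fin 2) :
    ((C ⊗ₖ D) *ᵥ x) a = ∑ i, ∑ j, C a.1 i * D a.2 j * x (i, j) := by
  rw [Matrix.mulVec, dotProduct, Fintype.sum_prod_type]
  rfl

theorem Sw_kr (C D : Matrix (Fin 2) (Fin 2) F) : Sw F * (C ⊗ₖ D) = (D ⊗ₖ C) * Sw F := by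
  apply Matrix.ext_of_mulVec_single
  intro i
  rw [← Matrix.mulVec_mulVec, ← Matrix.mulVec_mulVec]
  funext a
  rw [Sw_mulVec, kr_mulVec, kr_mulVec, Finset.sum_comm]
  apply Finset.sum_congr rfl
  intro u _
  apply Finset.sum_congr rfl
  intro v _
  rw [Sw_mulVec]
  ring

/-- tensor products, possibly followed by the swap -/
def TT (M : Matrix (Fin 2 × Fin 2) (Fin 2 × Fin 2) F) : Prop :=
  ∃ C D : GL (Fin 2) F, M = (C : Matrix (Fin 2) (Fin 2) F) ⊗ₖ (D : Matrix (Fin 2) (Fin 2) F) ∨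
    M = ((C : Matrix (Fin 2) (Fin 2) F) ⊗ₖ (D : Matrix (Fin 2) (Fin 2) F)) * Sw F

theorem TT.one : TT (1 : Matrix (Fin 2 × Fin 2) (Fin 2 × Fin 2) F) :=
  ⟨1, 1, Or.inl (by rw [Units.val_one, Matrix.one_kronecker_one])⟩

theorem TT.mul {M N : Matrix (Fin 2 × Fin 2) (Fin 2 × Fin 2) F} (hM : TT M) (hN : TT N) : TT (M * N) := by
  obtain ⟨C, D, hM⟩ := hM
  obtain ⟨C', D', hN⟩ := hN
  rcases hM with rfl | rfl <;> rcases hN with rfl | rfl
  · exact ⟨C * C', D * D', Or.inl (by rw [← Matrix.mul_kronecker_mul, Units.val_mul, Units.val_mul])⟩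
  · exact ⟨C * C', D * D', Or.inr (by rw [← mul_assoc, ← Matrix.mul_kronecker_mul, Units.val_mul, Units.val_mul])⟩
  · exact ⟨C * D', D * C', Or.inr (by rw [mul_assoc, Sw_kr, ← mul_assoc, ← Matrix.mul_kronecker_mul, Units.val_mul, Units.val_mul])⟩
  · refine ⟨C * D', D * C', Or.inl ?_⟩
    rw [mul_assoc, ← mul_assoc (Sw F), Sw_kr, mul_assoc, Sw_sq, mul_one, ← Matrix.mul_kronecker_mul, Units.val_mul, Units.val_mul]

theorem TT_refl {v : Fin 2 × Fin 2 → F} (hv : dQ F v ≠ 0) : ∃ M, TT M ∧ ∀ x, refl (dQ F) v x = M *ᵥ x := by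
  let V : Matrix (Fin 2) (Fin 2) F := !![v (0, 0), v (0, 1); v (1, 0), v (1, 1)]
  let J : Matrix (Fin 2) (Fin 2) F := !![0, 1; -1, 0]
  have hV : V.det = dQ F v := by rw [Matrix.det_fin_two_of, dQ_apply]
  have hJ : J.det = 1 := by rw [Matrix.det_fin_two_of]; ring
  have h1 : ((-(dQ F v)⁻¹) • (V * J)).det ≠ 0 := by
    rw [Matrix.det_smul, Matrix.det_mul, hV, hJ]
    exact mul_ne_zero (pow_ne_zero _ (neg_ne_zero.2 (inv_ne_zero hv))) (mul_ne_zero hv one_ne_zero)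
  have h2 : (Vᵀ * J).det ≠ 0 := by
    rw [Matrix.det_mul, Matrix.det_transpose, hV, hJ]
    exact mul_ne_zero hv one_ne_zero
  refine ⟨_, ⟨Matrix.GeneralLinearGroup.mkOfDetNeZero _ h1, Matrix.GeneralLinearGroup.mkOfDetNeZero _ h2, Or.inr rfl⟩, ?_⟩
  intro x
  rw [← Matrix.mulVec_mulVec]
  funext ⟨a, b⟩
  rw [kr_mulVec, refl_apply, polar_dQ, Pi.sub_apply, Pi.smul_apply, smul_eq_mul]
  simp only [Fin.sum_univ_two, Sw_mulVec]
  rw [dQ_apply] at hv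
  show x (a, b) - (dQ F v)⁻¹ * _ * v (a, b) = ((-(dQ F v)⁻¹) • (V * J)) a 0 * (Vᵀ * J) b 0 * x (0, 0) +
    ((-(dQ F v)⁻¹) • (V * J)) a 0 * (Vᵀ * J) b 1 * x (1, 0) + (((-(dQ F v)⁻¹) • (V * J)) a 1 * (Vᵀ * J) b 0 * x (0, 1) +
    ((-(dQ F v)⁻¹) • (V * J)) a 1 * (Vᵀ * J) b 1 * x (1, 1))
  rw [dQ_apply]
  fin_cases a <;> fin_cases b <;> simp [V, J, Matrix.mul_apply, Fin.sum_univ_two] <;> field_simp <;> ring

end Cfsg.Agent.H29.Gq
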