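import Mathlib
import Cfsg.Agent.H29_Gq1
import Cfsg.Agent.H16_MatOm

set_option autoImplicit false

/-! similarities of the determinant form in dimension four, II -/

namespace Cfsg.Agent.H29.Gq

open Matrix Module Cfsg.Geo Cfsg.Agent.H16.Quad
open QuadraticMap (polar)
open scoped Kronecker

variable {F : Type*} [Field F]

theorem TT_rpr (vs : List (Fin 2 × Fin 2 → F)) (hvs : ∀ v ∈ vs, dQ F v ≠ 0) :
    ∃ M, TT M ∧ ∀ x, (rpr (dQ F) vs : (Fin 2 × Fin 2 → F) ≃ₗ[F] (Fin 2 × Fin 2 → F)) x = M *ᵥ x := by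
  induction vs with
  | nil => exact ⟨1, TT.one, fun x => by rw [Matrix.one_mulVec]; rfl⟩
  | cons v vs ih =>
    obtain ⟨M, hM, hMx⟩ := ih fun w hw => hvs w (List.mem_cons_of_mem _ hw)
    obtain ⟨N, hN, hNx⟩ := TT_refl (hvs v List.mem_cons_self)
    refine ⟨N * M, hN.mul hM, fun x => ?_⟩
    rw [rpr_cons, ← Matrix.mulVec_mulVec, ← hMx, ← hNx]
    rfl

theorem go4 [Finite F] (h2 : (2 : F) ≠ 0) {B : Matrix (Fin 2 × Fin 2) (Fin 2 × Fin 2) F} {μ : F} (hμ : μ ≠ 0)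
    (hB : ∀ x y, polar (dQ F) (B *ᵥ x) (B *ᵥ y) = μ * polar (dQ F) x y) : TT B := by
  have hE : (Matrix.diagonal ![1, μ⁻¹] : Matrix (Fin 2) (Fin 2) F).det ≠ 0 := by
    rw [Matrix.det_diagonal, Fin.prod_univ_two]
    simpa using hμ
  let E : GL (Fin 2) F := Matrix.GeneralLinearGroup.mkOfDetNeZero _ hE
  have hEv : (E : Matrix (Fin 2) (Fin 2) F) = Matrix.diagonal ![1, μ⁻¹] := rfl
  have hEx : ∀ x y : Fin 2 × Fin 2 → F, polar (dQ F) (((E : Matrix (Fin 2) (Fin 2) F) ⊗ₖ (1 : Matrix (Fin 2) (Fin 2) F)) *ᵥ x)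
      (((E : Matrix (Fin 2) (Fin 2) F) ⊗ₖ (1 : Matrix (Fin 2) (Fin 2) F)) *ᵥ y) = μ⁻¹ * polar (dQ F) x y := by
    intro x y
    rw [polar_dQ, polar_dQ]
    simp only [kr_mulVec, Fin.sum_univ_two, hEv]
    simp
    ring
  let B₁ := ((E : Matrix (Fin 2) (Fin 2) F) ⊗ₖ (1 : Matrix (Fin 2) (Fin 2) F)) * B
  have hB₁ : ∀ x y, polar (dQ F) (B₁ *ᵥ x) (B₁ *ᵥ y) = polar (dQ F) x y := by
    intro x y
    show polar (dQ F) ((((E : Matrix (Fin 2) (Fin 2) F) ⊗ₖ (1 : Matrix (Fin 2) (Fin 2) F)) * B) *ᵥ x)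
      ((((E : Matrix (Fin 2) (Fin 2) F) ⊗ₖ (1 : Matrix (Fin 2) (Fin 2) F)) * B) *ᵥ y) = _
    rw [← Matrix.mulVec_mulVec, ← Matrix.mulVec_mulVec, hEx, hB, ← mul_assoc, inv_mul_cancel₀ hμ, one_mul]
  have hQ : ∀ x, dQ F (B₁ *ᵥ x) = dQ F x := by
    intro x
    have := hB₁ x x
    rw [polar_self, polar_self] at this
    exact mul_left_cancel₀ h2 this
  have hinj : Function.Injective B₁.mulVecLin := by
    rw [← LinearMap.ker_eq_bot, eq_bot_iff]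
    intro v hv
    rw [Submodule.mem_bot]
    apply nd_eq_zero nd_dQ
    intro y
    have h3 : B₁ *ᵥ v = 0 := hv
    rw [← hB₁, h3, QuadraticMap.polar_zero_left]
  let T : OG (dQ F) := ⟨LinearEquiv.ofInjectiveEndo B₁.mulVecLin hinj, fun x => hQ x⟩
  obtain ⟨vs, hvs, hT⟩ := exists_rpr nd_dQ (Or.inl (card_ne_two_of h2)) T
  obtain ⟨M, hM, hMx⟩ := TT_rpr vs hvs
  have h3 : B₁ = M := by
    apply Matrix.ext_of_mulVec_single
    intro i
    rw [← hMx, ← hT]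
    rfl
  have h4 : TT B₁ := by rw [h3]; exact hM
  have h5 : B = (((E⁻¹ : GL (Fin 2) F) : Matrix (Fin 2) (Fin 2) F) ⊗ₖ (((1 : GL (Fin 2) F) : Matrix (Fin 2) (Fin 2) F))) * B₁ := by
    show B = _ * (((E : Matrix (Fin 2) (Fin 2) F) ⊗ₖ (1 : Matrix (Fin 2) (Fin 2) F)) * B)
    rw [← mul_assoc, ← Matrix.mul_kronecker_mul, ← Units.val_mul, inv_mul_cancel, Units.val_one, mul_one,
      Matrix.one_kronecker_one, one_mul]
  rw [h5]
  exact TT.mul ⟨E⁻¹, 1, Or.inl rfl⟩ h4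

theorem isPlus_dQ : IsPlus (dQ F) 2 := by
  refine ⟨by rw [Module.finrank_fintype_fun_eq_card]; rfl, ![Pi.single (0, 0) 1, Pi.single (0, 1) 1],
    ![Pi.single (1, 1) 1, -Pi.single (1, 0) 1], ?_, ?_, ?_, ?_, ?_⟩
  · intro i; fin_cases i <;> simp [dQ_apply]
  · intro i; fin_cases i <;> simp [dQ_apply]
  · intro i j; fin_cases i <;> fin_cases j <;> simp [polar_dQ]
  · intro i j; fin_cases i <;> fin_cases j <;> simp [polar_dQ, dQ_apply]
  · intro i j; fin_cases i <;> fin_cases j <;> simp [polar_dQ, dQ_apply]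

/-- the index bijection -/
def e4 : Fin 4 ≃ Fin 2 × Fin 2 := (finProdFinEquiv (m := 2) (n := 2)).symm

theorem plus_T [Finite F] (h2 : (2 : F) ≠ 0) {g : (Fin 4 → F) → (Fin 4 → F) → F} (hg : IsSymmetricForm g)
    (hp : IsPlusTypeOn (fun v => g v v) ⊤) : ∃ T : GL (Fin 4) F, ∀ u v : Fin 4 → F,
      2 * g ((T : Matrix (Fin 4) (Fin 4) F) *ᵥ u) ((T : Matrix (Fin 4) (Fin 4) F) *ᵥ v) =
        polar (dQ F) (u ∘ e4.symm) (v ∘ e4.symm) := by
  let Bg : LinearMap.BilinForm F (Fin 4 → F) := LinearMap.mk₂ F g hg.bilinear.add_left (fun c x v => hg.bilinear.smul_left c x v)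
    hg.bilinear.add_right (fun c v x => hg.bilinear.smul_right c v x)
  let Q₂ : QuadraticForm F (Fin 4 → F) := LinearMap.BilinMap.toQuadraticMap Bg
  have hQ₂ : ∀ v, Q₂ v = g v v := fun v => rfl
  have hpol : ∀ x y, polar Q₂ x y = 2 * g x y := by
    intro x y
    rw [polar, hQ₂, hQ₂, hQ₂, hg.bilinear.add_left, hg.bilinear.add_right, hg.bilinear.add_right, hg.symm y x]
    ring
  have hnd : (QuadraticMap.polarBilin Q₂).Nondegenerate := by
    apply nd_of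
    intro x hx
    by_contra h0
    obtain ⟨-, y, hy⟩ := hg.nondegenerate x h0
    have := hx y
    rw [hpol] at this
    exact hy ((mul_eq_zero.1 this).resolve_left h2)
  obtain ⟨U, -, hU, hUd⟩ := hp
  rw [finrank_top, Module.finrank_fintype_fun_eq_card, Fintype.card_fin] at hUd
  have hplus : IsPlus Q₂ 2 := isPlus_of_ts hnd (by rw [Module.finrank_fintype_fun_eq_card, Fintype.card_fin]) (U := U)
    (fun u hu => hU u hu) (by omega)
  obtain ⟨φ, hφ⟩ := IsPlus.isom isPlus_dQ hplus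
  let L : (Fin 4 → F) ≃ₗ[F] (Fin 4 → F) := (LinearEquiv.funCongrLeft F F e4.symm).trans φ
  have hL : ∀ u, L u = φ (u ∘ e4.symm) := fun u => rfl
  have hdet : (LinearMap.toMatrix' (L : (Fin 4 → F) →ₗ[F] (Fin 4 → F))).det ≠ 0 := by
    rw [LinearMap.det_toMatrix']
    exact (LinearEquiv.isUnit_det' L).ne_zero
  have hact : ∀ v, (LinearMap.toMatrix' (L : (Fin 4 → F) →ₗ[F] (Fin 4 → F))) *ᵥ v = L v :=
    fun v => LinearMap.toMatrix'_mulVec _ v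
  refine ⟨Matrix.GeneralLinearGroup.mkOfDetNeZero _ hdet, fun u v => ?_⟩
  show 2 * g ((LinearMap.toMatrix' (L : (Fin 4 → F) →ₗ[F] (Fin 4 → F))) *ᵥ u)
    ((LinearMap.toMatrix' (L : (Fin 4 → F) →ₗ[F] (Fin 4 → F))) *ᵥ v) = _
  rw [hact, hact, ← hpol, hL, hL]
  exact isom_polar (φ := (φ : (Fin 2 × Fin 2 → F) →ₗ[F] (Fin 4 → F))) hφ _ _

end Cfsg.Agent.H29.Gq
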