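import Mathlib
import Cfsg.Agent.H29_Gq2

set_option autoImplicit false

/-! tensor products of type Sp₂ ⊗ O₄⁺ -/

namespace Cfsg.Agent.H29.Gq

open Matrix Module Cfsg.Geo Cfsg.Agent.H29.Clifford Cfsg.Agent.H29.Asc Cfsg.Agent.H29.AscF Cfsg.Agent.H29.Trv
  Cfsg.Agent.H29.AscT Cfsg.Agent.H29.Rx Cfsg.Agent.H29.Fm
open scoped Kronecker commutatorElement
open QuadraticMap (polar)

variable {F : Type*} [Field F] {n : ℕ} {f : (Fin n → F) → (Fin n → F) → F}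

/-- the index bijection -/
def be : Fin 2 × Fin 4 ≃ (Fin 3 → Fin 2) where
  toFun p := ![p.1, (e4 p.2).1, (e4 p.2).2]
  invFun z := (z 0, e4.symm (z 1, z 2))
  left_inv p := by simp
  right_inv z := by funext i; fin_cases i <;> simp

theorem be_symm (z : Fin 3 → Fin 2) : be.symm z = (z 0, e4.symm (z 1, z 2)) := rfl

theorem be_apply (p : Fin 2 × Fin 4) : be p = ![p.1, (e4 p.2).1, (e4 p.2).2] := rfl

theorem coe_be (M : GL (Fin 2 × Fin 4) F) (x y : Fin 3 → Fin 2) :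
    ((glReindex be M : GL (Fin 3 → Fin 2) F) : Matrix (Fin 3 → Fin 2) (Fin 3 → Fin 2) F) x y =
      (M : Matrix (Fin 2 × Fin 4) (Fin 2 × Fin 4) F) (be.symm x) (be.symm y) := rfl

theorem mem_std {a : GL (Fin 2) F} {b : GL (Fin 4) F}
    (hb : TT ((b : Matrix (Fin 4) (Fin 4) F).submatrix e4.symm e4.symm)) :
    glReindex be (kr a b) ∈ tensorWreathStandard 2 3 F := by
  obtain ⟨C, D, h | h⟩ := hb
  · have h1 : glReindex be (kr a b) = gK ![a, C, D] := by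
      apply Units.ext
      ext x y
      rw [coe_be]
      have h2 := congrFun (congrFun h (x 1, x 2)) (y 1, y 2)
      show (a : Matrix (Fin 2) (Fin 2) F) (x 0) (y 0) * (b : Matrix (Fin 4) (Fin 4) F) (e4.symm (x 1, x 2)) (e4.symm (y 1, y 2)) =
        ∏ i, ((![a, C, D] i : GL (Fin 2) F) : Matrix (Fin 2) (Fin 2) F) (x i) (y i)
      rw [Fin.prod_univ_three]
      have h3 : (b : Matrix (Fin 4) (Fin 4) F) (e4.symm (x 1, x 2)) (e4.symm (y 1, y 2)) =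
        (C : Matrix (Fin 2) (Fin 2) F) (x 1) (y 1) * (D : Matrix (Fin 2) (Fin 2) F) (x 2) (y 2) := h2
      rw [h3]
      show _ = (a : Matrix (Fin 2) (Fin 2) F) (x 0) (y 0) * (C : Matrix (Fin 2) (Fin 2) F) (x 1) (y 1) *
        (D : Matrix (Fin 2) (Fin 2) F) (x 2) (y 2)
      ring
    rw [h1]
    exact Subgroup.subset_closure (Or.inl (gK_pure _))
  · have h1 : glReindex be (kr a b) = gK ![a, C, D] * gP 2 F (Equiv.swap 1 2) := by
      apply Units.ext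
      ext x y
      rw [coe_be, Units.val_mul, Matrix.mul_apply, Finset.sum_eq_single (y ∘ (Equiv.swap (1 : Fin 3) 2))]
      · have h2 := congrFun (congrFun h (x 1, x 2)) (y 1, y 2)
        have h4 : ((gP 2 F (Equiv.swap (1 : Fin 3) 2) : GL (Fin 3 → Fin 2) F) : Matrix (Fin 3 → Fin 2) (Fin 3 → Fin 2) F)
            (y ∘ (Equiv.swap (1 : Fin 3) 2)) y = 1 := by
          show (if y = (y ∘ (Equiv.swap (1 : Fin 3) 2)) ∘ (Equiv.swap (1 : Fin 3) 2) then (1 : F) else 0) = 1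
          rw [if_pos]
          funext i
          simp
        rw [h4, mul_one]
        show (a : Matrix (Fin 2) (Fin 2) F) (x 0) (y 0) * (b : Matrix (Fin 4) (Fin 4) F) (e4.symm (x 1, x 2)) (e4.symm (y 1, y 2)) =
          ∏ i, ((![a, C, D] i : GL (Fin 2) F) : Matrix (Fin 2) (Fin 2) F) (x i) ((y ∘ (Equiv.swap (1 : Fin 3) 2)) i)
        rw [Fin.prod_univ_three]
        have h3 : (b : Matrix (Fin 4) (Fin 4) F) (e4.symm (x 1, x 2)) (e4.symm (y 1, y 2)) =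
          (C : Matrix (Fin 2) (Fin 2) F) (x 1) (y 2) * (D : Matrix (Fin 2) (Fin 2) F) (x 2) (y 1) := by
          have h5 : (b : Matrix (Fin 4) (Fin 4) F) (e4.symm (x 1, x 2)) (e4.symm (y 1, y 2)) =
            (((C : Matrix (Fin 2) (Fin 2) F) ⊗ₖ (D : Matrix (Fin 2) (Fin 2) F)) * Sw F) (x 1, x 2) (y 1, y 2) := h2
          rw [h5, Matrix.mul_apply, Finset.sum_eq_single (y 2, y 1)]
          · have h6 : Sw F (y 2, y 1) (y 1, y 2) = 1 := by
              show (if y 2 = y 2 ∧ y 1 = y 1 then (1 : F) else 0) = 1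
              rw [if_pos ⟨rfl, rfl⟩]
            rw [h6, mul_one]
            rfl
          · rintro ⟨b1, b2⟩ _ hb
            have h6 : Sw F (b1, b2) (y 1, y 2) = 0 := by
              show (if b1 = y 2 ∧ b2 = y 1 then (1 : F) else 0) = 0
              rw [if_neg]
              rintro ⟨rfl, rfl⟩
              exact hb rfl
            rw [h6, mul_zero]
          · intro h; exact absurd (Finset.mem_univ _) h
        rw [h3]
        have e0 : (y ∘ (Equiv.swap (1 : Fin 3) 2)) 0 = y 0 := by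
          show y (Equiv.swap (1 : Fin 3) 2 0) = y 0
          rw [Equiv.swap_apply_of_ne_of_ne (by decide) (by decide)]
        have e1 : (y ∘ (Equiv.swap (1 : Fin 3) 2)) 1 = y 2 := by
          show y (Equiv.swap (1 : Fin 3) 2 1) = y 2
          rw [Equiv.swap_apply_left]
        have e2' : (y ∘ (Equiv.swap (1 : Fin 3) 2)) 2 = y 1 := by
          show y (Equiv.swap (1 : Fin 3) 2 2) = y 1
          rw [Equiv.swap_apply_right]
        rw [e0, e1, e2']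
        show _ = (a : Matrix (Fin 2) (Fin 2) F) (x 0) (y 0) * (C : Matrix (Fin 2) (Fin 2) F) (x 1) (y 2) *
          (D : Matrix (Fin 2) (Fin 2) F) (x 2) (y 1)
        ring
      · intro z _ hz
        have h4 : ((gP 2 F (Equiv.swap (1 : Fin 3) 2) : GL (Fin 3 → Fin 2) F) : Matrix (Fin 3 → Fin 2) (Fin 3 → Fin 2) F)
            z y = 0 := by
          show (if y = z ∘ (Equiv.swap (1 : Fin 3) 2) then (1 : F) else 0) = 0
          rw [if_neg]
          intro h5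
          apply hz
          rw [h5]
          funext i
          simp
        rw [h4, mul_zero]
      · intro h; exact absurd (Finset.mem_univ _) h
    rw [h1]
    exact Subgroup.mul_mem _ (Subgroup.subset_closure (Or.inl (gK_pure _))) (Subgroup.subset_closure (Or.inr (gP_perm _)))

theorem re_be (e : Fin n ≃ Fin 2 × Fin 4) (M : GL (Fin 2 × Fin 4) F) :
    glReindex (e.trans be).symm (glReindex be M) = glReindex e.symm M := by
  apply Units.ext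
  ext i j
  show (M : Matrix (Fin 2 × Fin 4) (Fin 2 × Fin 4) F) (be.symm (be (e i))) (be.symm (be (e j))) =
    (M : Matrix (Fin 2 × Fin 4) (Fin 2 × Fin 4) F) (e i) (e j)
  rw [Equiv.symm_apply_apply, Equiv.symm_apply_apply]

theorem tp_le_tw [Fintype F] (h2 : (2 : F) ≠ 0) {e : Fin n ≃ Fin 2 × Fin 4} {P : GL (Fin n) F}
    {A : Matrix (Fin 2) (Fin 2) F} {C : Matrix (Fin 4) (Fin 4) F} {c : F} (hc : c ≠ 0) (hA : ∃ u v, u ⬝ᵥ (A *ᵥ v) ≠ 0)
    (hC : ∀ u v, 2 * (u ⬝ᵥ (C *ᵥ v)) = polar (dQ F) (u ∘ e4.symm) (v ∘ e4.symm))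
    (H : ∀ x y : Fin 2 × Fin 4 → F, f (ce e P x) (ce e P y) = c * (x ⬝ᵥ ((A ⊗ₖ C) *ᵥ y))) {g : GL (Fin n) F}
    (hg : g ∈ tensorProductSubgroup 2 4 e P)
    (hfx : ∀ x y, f ((g : Matrix (Fin n) (Fin n) F) *ᵥ x) ((g : Matrix (Fin n) (Fin n) F) *ᵥ y) = f x y) :
    g ∈ tensorWreathSubgroup 2 3 (e.trans be) P := by
  obtain ⟨_, ⟨M, ⟨a, b, hM⟩, rfl⟩, rfl⟩ := hg
  obtain rfl : M = kr a b := Units.ext hM
  have hact : ∀ x, (((MulAut.conj P).toMonoidHom ((glReindex e.symm).toMonoidHom (kr a b)) : GL (Fin n) F) :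
      Matrix (Fin n) (Fin n) F) *ᵥ ce e P x = ce e P (((a : Matrix (Fin 2) (Fin 2) F) ⊗ₖ (b : Matrix (Fin 4) (Fin 4) F)) *ᵥ x) :=
    fun x => ce_conj e P (kr a b) x
  have hkey : ∀ x1 y1 x2 y2, (((a : Matrix (Fin 2) (Fin 2) F) *ᵥ x1) ⬝ᵥ (A *ᵥ ((a : Matrix (Fin 2) (Fin 2) F) *ᵥ y1))) *
      (((b : Matrix (Fin 4) (Fin 4) F) *ᵥ x2) ⬝ᵥ (C *ᵥ ((b : Matrix (Fin 4) (Fin 4) F) *ᵥ y2))) =
      (x1 ⬝ᵥ (A *ᵥ y1)) * (x2 ⬝ᵥ (C *ᵥ y2)) := by
    intro x1 y1 x2 y2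
    have h3 := hfx (ce e P (pt x1 x2)) (ce e P (pt y1 y2))
    rw [hact, hact, H, H, kron_pt, kron_pt, form_pt, form_pt] at h3
    exact mul_left_cancel₀ hc h3
  have hinva : ∀ u, (a : Matrix (Fin 2) (Fin 2) F) *ᵥ (((a⁻¹ : GL (Fin 2) F) : Matrix (Fin 2) (Fin 2) F) *ᵥ u) = u := by
    intro u
    rw [Matrix.mulVec_mulVec, ← Units.val_mul, mul_inv_cancel, Units.val_one, Matrix.one_mulVec]
  have hinvb : ∀ u, (b : Matrix (Fin 4) (Fin 4) F) *ᵥ (((b⁻¹ : GL (Fin 4) F) : Matrix (Fin 4) (Fin 4) F) *ᵥ u) = u := by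
    intro u
    rw [Matrix.mulVec_mulVec, ← Units.val_mul, mul_inv_cancel, Units.val_one, Matrix.one_mulVec]
  obtain ⟨u, v, huv⟩ := hA
  set κ := (((a⁻¹ : GL (Fin 2) F) : Matrix (Fin 2) (Fin 2) F) *ᵥ u) ⬝ᵥ (A *ᵥ (((a⁻¹ : GL (Fin 2) F) : Matrix (Fin 2) (Fin 2) F) *ᵥ v)) with hκ
  have hk2 : ∀ x2 y2, (((b : Matrix (Fin 4) (Fin 4) F) *ᵥ x2) ⬝ᵥ (C *ᵥ ((b : Matrix (Fin 4) (Fin 4) F) *ᵥ y2))) =
      (κ * (u ⬝ᵥ (A *ᵥ v))⁻¹) * (x2 ⬝ᵥ (C *ᵥ y2)) := by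
    intro x2 y2
    have h3 := hkey (((a⁻¹ : GL (Fin 2) F) : Matrix (Fin 2) (Fin 2) F) *ᵥ u) (((a⁻¹ : GL (Fin 2) F) : Matrix (Fin 2) (Fin 2) F) *ᵥ v) x2 y2
    rw [hinva, hinva, ← hκ] at h3
    rw [mul_comm κ, mul_assoc, ← h3, ← mul_assoc, inv_mul_cancel₀ huv, one_mul]
  have hμ : κ * (u ⬝ᵥ (A *ᵥ v))⁻¹ ≠ 0 := by
    intro h0
    have h3 := hk2 (((b⁻¹ : GL (Fin 4) F) : Matrix (Fin 4) (Fin 4) F) *ᵥ (fun i => (Pi.single ((0, 0) : Fin 2 × Fin 2) (1 : F) : Fin 2 × Fin 2 → F) (e4 i)))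
      (((b⁻¹ : GL (Fin 4) F) : Matrix (Fin 4) (Fin 4) F) *ᵥ (fun i => (Pi.single ((1, 1) : Fin 2 × Fin 2) (1 : F) : Fin 2 × Fin 2 → F) (e4 i)))
    rw [hinvb, hinvb, h0, zero_mul] at h3
    have h4 := hC (fun i => (Pi.single ((0, 0) : Fin 2 × Fin 2) (1 : F) : Fin 2 × Fin 2 → F) (e4 i))
      (fun i => (Pi.single ((1, 1) : Fin 2 × Fin 2) (1 : F) : Fin 2 × Fin 2 → F) (e4 i))
    rw [h3, polar_dQ] at h4
    simp at h4
  have hb : TT ((b : Matrix (Fin 4) (Fin 4) F).submatrix e4.symm e4.symm) := by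
    apply go4 h2 hμ
    intro x y
    have h3 : ∀ x : Fin 2 × Fin 2 → F, (b : Matrix (Fin 4) (Fin 4) F).submatrix e4.symm e4.symm *ᵥ x =
        ((b : Matrix (Fin 4) (Fin 4) F) *ᵥ (x ∘ e4)) ∘ e4.symm := by
      intro x
      rw [Matrix.submatrix_mulVec_equiv]
      rfl
    have h4 : ∀ x : Fin 2 × Fin 2 → F, (x ∘ e4) ∘ e4.symm = x := by
      intro x; funext i; simp
    rw [h3, h3, ← hC, hk2, mul_left_comm, hC, h4, h4]
  refine ⟨glReindex (e.trans be).symm (glReindex be (kr a b)), ⟨_, mem_std hb, rfl⟩, ?_⟩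
  congr 1
  exact re_be e (kr a b)

/-- the swap of the first two factors -/
noncomputable def tau (e : Fin n ≃ Fin 2 × Fin 4) (P : GL (Fin n) F) : GL (Fin n) F :=
  P * glReindex (e.trans be).symm (gP 2 F (Equiv.swap 0 1)) * P⁻¹

theorem tau_mem (e : Fin n ≃ Fin 2 × Fin 4) (P : GL (Fin n) F) : tau e P ∈ tensorWreathSubgroup 2 3 (e.trans be) P :=
  ⟨_, ⟨_, Subgroup.subset_closure (Or.inr (gP_perm (Equiv.swap 0 1))), rfl⟩, rfl⟩

/-- the permutation of the indices -/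
def pi2 : Equiv.Perm (Fin 2 × Fin 4) where
  toFun p := ((e4 p.2).1, e4.symm (p.1, (e4 p.2).2))
  invFun p := ((e4 p.2).1, e4.symm (p.1, (e4 p.2).2))
  left_inv p := by simp
  right_inv p := by simp

theorem be_pi2 : ∀ p q : Fin 2 × Fin 4, be q = be p ∘ (Equiv.swap (0 : Fin 3) 1) ↔ q = pi2 p := by
  intro p q
  have h1 : be (pi2 p) = be p ∘ (Equiv.swap (0 : Fin 3) 1) := by
    funext i
    fin_cases i
    · show (be (pi2 p)) 0 = be p (Equiv.swap 0 1 0)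
      rw [Equiv.swap_apply_left, be_apply, be_apply]
      rfl
    · show (be (pi2 p)) 1 = be p (Equiv.swap 0 1 1)
      rw [Equiv.swap_apply_right, be_apply, be_apply]
      simp [pi2]
    · show (be (pi2 p)) 2 = be p (Equiv.swap 0 1 2)
      rw [Equiv.swap_apply_of_ne_of_ne (by decide) (by decide), be_apply, be_apply]
      simp [pi2]
  rw [← h1]
  exact be.injective.eq_iff

theorem tau_ce (e : Fin n ≃ Fin 2 × Fin 4) (P : GL (Fin n) F) (x : Fin 2 × Fin 4 → F) :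
    (tau e P : Matrix (Fin n) (Fin n) F) *ᵥ ce e P x = ce e P (x ∘ pi2) := by
  have h1 : tau e P = P * glReindex e.symm (glReindex be.symm (gP 2 F (Equiv.swap 0 1))) * P⁻¹ := rfl
  rw [h1, ce_conj]
  congr 1
  funext p
  rw [Matrix.mulVec, dotProduct, Finset.sum_eq_single (pi2 p)]
  · have h4 : ((glReindex be.symm (gP 2 F (Equiv.swap (0 : Fin 3) 1)) : GL (Fin 2 × Fin 4) F) :
        Matrix (Fin 2 × Fin 4) (Fin 2 × Fin 4) F) p (pi2 p) = 1 := by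
      show (if be (pi2 p) = be p ∘ (Equiv.swap (0 : Fin 3) 1) then (1 : F) else 0) = 1
      rw [if_pos ((be_pi2 _ _).2 rfl)]
    rw [h4, one_mul]
    rfl
  · intro q _ hq
    have h4 : ((glReindex be.symm (gP 2 F (Equiv.swap (0 : Fin 3) 1)) : GL (Fin 2 × Fin 4) F) :
        Matrix (Fin 2 × Fin 4) (Fin 2 × Fin 4) F) p q = 0 := by
      show (if be q = be p ∘ (Equiv.swap (0 : Fin 3) 1) then (1 : F) else 0) = 0
      rw [if_neg (fun h => hq ((be_pi2 _ _).1 h))]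
    rw [h4, zero_mul]
  · intro h; exact absurd (Finset.mem_univ _) h

theorem tau_iso {e : Fin n ≃ Fin 2 × Fin 4} {P : GL (Fin n) F} {Γ : Matrix (Fin 2 × Fin 4) (Fin 2 × Fin 4) F} {c : F}
    (hΓ : ∀ p q, Γ (pi2 p) (pi2 q) = Γ p q)
    (H : ∀ x y : Fin 2 × Fin 4 → F, f (ce e P x) (ce e P y) = c * (x ⬝ᵥ (Γ *ᵥ y))) (u v : Fin n → F) :
    f ((tau e P : Matrix (Fin n) (Fin n) F) *ᵥ u) ((tau e P : Matrix (Fin n) (Fin n) F) *ᵥ v) = f u v := by
  obtain ⟨x, rfl⟩ := (ce e P).surjective u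
  obtain ⟨y, rfl⟩ := (ce e P).surjective v
  rw [tau_ce, tau_ce, H, H]
  congr 1
  show ∑ p, x (pi2 p) * ∑ q, Γ p q * y (pi2 q) = ∑ p, x p * ∑ q, Γ p q * y q
  rw [← Equiv.sum_comp pi2 (fun p => x p * ∑ q, Γ p q * y q)]
  apply Finset.sum_congr rfl
  intro p _
  congr 1
  rw [← Equiv.sum_comp pi2 (fun q => Γ (pi2 p) q * y q)]
  apply Finset.sum_congr rfl
  intro q _
  rw [hΓ]

theorem tau_not (e : Fin n ≃ Fin 2 × Fin 4) (P : GL (Fin n) F) : tau e P ∉ tensorProductSubgroup 2 4 e P := by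
  rintro ⟨_, ⟨M, ⟨a, b, hM⟩, rfl⟩, hE⟩
  have h1 : P * glReindex e.symm M * P⁻¹ = P * glReindex e.symm (glReindex be.symm (gP 2 F (Equiv.swap 0 1))) * P⁻¹ := hE
  have h2 := mul_left_cancel (mul_right_cancel h1)
  have h3 : M = glReindex be.symm (gP 2 F (Equiv.swap 0 1)) := (glReindex e.symm).injective h2
  have key : ∀ p q : Fin 2 × Fin 4, (a : Matrix (Fin 2) (Fin 2) F) p.1 q.1 * (b : Matrix (Fin 4) (Fin 4) F) p.2 q.2 =
      if q = pi2 p then 1 else 0 := by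
    intro p q
    have h4 : (M : Matrix (Fin 2 × Fin 4) (Fin 2 × Fin 4) F) p q =
        (if be q = be p ∘ (Equiv.swap (0 : Fin 3) 1) then (1 : F) else 0) := by rw [h3]; rfl
    rw [hM] at h4
    have h5 : (a : Matrix (Fin 2) (Fin 2) F) p.1 q.1 * (b : Matrix (Fin 4) (Fin 4) F) p.2 q.2 =
        (if be q = be p ∘ (Equiv.swap (0 : Fin 3) 1) then (1 : F) else 0) := h4
    rw [h5]
    by_cases h : q = pi2 p
    · rw [if_pos h, if_pos ((be_pi2 _ _).2 h)]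
    · rw [if_neg h, if_neg (fun h' => h ((be_pi2 _ _).1 h'))]
  have k1 := key (0, e4.symm (0, 0)) (0, e4.symm (0, 0))
  have k2 := key (1, e4.symm (1, 0)) (1, e4.symm (1, 0))
  have k3 := key (0, e4.symm (1, 0)) (0, e4.symm (1, 0))
  rw [if_pos (by simp [pi2])] at k1 k2
  rw [if_neg (by simp [pi2])] at k3
  rcases mul_eq_zero.1 k3 with h | h
  · simp only at k1 h
    rw [h, zero_mul] at k1
    exact zero_ne_one k1
  · simp only at k2 h
    rw [h, mul_zero] at k2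
    exact zero_ne_one k2

end Cfsg.Agent.H29.Gq
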