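import Mathlib
import Cfsg.Agent.H29_Gq3
import Cfsg.Agent.H29_Nm2

set_option autoImplicit false

/-! tensor products of type Sp₂ ⊗ O₄⁺ are not maximal -/

namespace Cfsg.Agent.H29.Gq

open Matrix Module Cfsg.Geo Cfsg.Agent.H29.Clifford Cfsg.Agent.H29.Asc Cfsg.Agent.H29.AscF Cfsg.Agent.H29.Trv
  Cfsg.Agent.H29.AscT Cfsg.Agent.H29.Rx Cfsg.Agent.H29.Fm
open scoped Kronecker commutatorElement
open QuadraticMap (polar)

variable {F : Type*} [Field F]

theorem sp8_plus [Fintype F] (h2 : (2 : F) ≠ 0) {e : (Fin 4 ⊕ Fin 4) ≃ Fin 2 × Fin 4} {P : GL (Fin 4 ⊕ Fin 4) F}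
    {f₁ : (Fin 2 → F) → (Fin 2 → F) → F} {f₂ : (Fin 4 → F) → (Fin 4 → F) → F} (hf₁ : IsSymplecticForm f₁)
    (hf₂ : IsSymmetricForm f₂) (hp : IsPlusTypeOn (fun v => f₂ v v) ⊤)
    (hst : IsTensorFormStructure id (Cfsg.sympForm 4 F) f₁ f₂ e P) :
    ∃ K : Subgroup (GL (Fin 4 ⊕ Fin 4) F), tensorProductSubgroup 2 4 e P ⊓ Cfsg.spGL 4 F < K ∧ K < Cfsg.spGL 4 F := by
  have hst' := tpf_pull (e := (e2 4).symm) hst
  set f' := pf (e2 4).symm (Cfsg.sympForm 4 F) with hf'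
  set E := (e2 4).symm.trans e with hE
  set P1 := glReindex (e2 4).symm.symm P with hP1
  obtain ⟨c, hc, hform⟩ := hst'
  have hs1 := SpF.of_symp hf₁
  obtain ⟨hdA, hA⟩ := gram_facts hs1.sfm
  obtain ⟨hdB, hB⟩ := gram_facts (SFm.of_symm hf₂)
  have hform2 : ∀ x y : Fin 2 × Fin 4 → F, f' (ce E P1 x) (ce E P1 y) = c * (x ⬝ᵥ ((gramMatrix f₁ ⊗ₖ gramMatrix f₂) *ᵥ y)) := by
    intro x y
    have h1 := hform x y
    rw [fog_id] at h1
    exact h1
  obtain ⟨T, hT⟩ := plus_T h2 hf₂ hp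
  set C := (T : Matrix (Fin 4) (Fin 4) F)ᵀ * gramMatrix f₂ * (T : Matrix (Fin 4) (Fin 4) F) with hCdef
  set A := ((1 : GL (Fin 2) F) : Matrix (Fin 2) (Fin 2) F)ᵀ * gramMatrix f₁ * ((1 : GL (Fin 2) F) : Matrix (Fin 2) (Fin 2) F) with hAdef
  have hAA : A = gramMatrix f₁ := by rw [hAdef, Units.val_one, Matrix.transpose_one, one_mul, mul_one]
  set P2 := P1 * glReindex E.symm (kr 1 T) with hP2
  have H2 : ∀ x y : Fin 2 × Fin 4 → F, f' (ce E P2 x) (ce E P2 y) = c * (x ⬝ᵥ ((A ⊗ₖ C) *ᵥ y)) :=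
    fun x y => tens_change' hform2 1 T x y
  have hC : ∀ u v : Fin 4 → F, 2 * (u ⬝ᵥ (C *ᵥ v)) = polar (dQ F) (u ∘ e4.symm) (v ∘ e4.symm) := by
    intro u v
    rw [← hT, hB]
    congr 1
    rw [hCdef, mul_assoc, ← Matrix.mulVec_mulVec, ← Matrix.mulVec_mulVec, Matrix.dotProduct_mulVec, Matrix.vecMul_transpose]
  have hCs : ∀ p q, 2 * C p q = polar (dQ F) (Pi.single (e4 p) 1) (Pi.single (e4 q) 1) := by
    intro p q
    have h1 := hC (Pi.single p 1) (Pi.single q 1)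
    rw [Matrix.mulVec_single_one, single_one_dotProduct] at h1
    have h3 : ∀ p : Fin 4, (Pi.single p (1 : F) : Fin 4 → F) ∘ e4.symm = Pi.single (e4 p) 1 := by
      intro p
      funext i
      by_cases h : i = e4 p
      · rw [h]; simp
      · rw [Pi.single_eq_of_ne h]
        show (Pi.single p (1 : F) : Fin 4 → F) (e4.symm i) = 0
        rw [Pi.single_eq_of_ne]
        intro h4; apply h; rw [← h4, Equiv.apply_symm_apply]
    rw [h3, h3] at h1
    exact h1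
  have hA0 : ∀ i, A i i = 0 := by
    intro i
    rw [hAA]
    exact hf₁.alternating _
  have hA1 : A 1 0 = - A 0 1 := by
    rw [hAA]
    exact hf₁.skew _ _
  have hΓ : ∀ p q : Fin 2 × Fin 4, (A ⊗ₖ C) (pi2 p) (pi2 q) = (A ⊗ₖ C) p q := by
    have key : ∀ (i i' : Fin 2) (u v : Fin 2 × Fin 2), A u.1 v.1 * C (e4.symm (i, u.2)) (e4.symm (i', v.2)) =
        A i i' * C (e4.symm u) (e4.symm v) := by
      rintro i i' ⟨u1, u2⟩ ⟨v1, v2⟩
      apply mul_left_cancel₀ h2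
      have h3 := hCs (e4.symm (i, u2)) (e4.symm (i', v2))
      have h4 := hCs (e4.symm (u1, u2)) (e4.symm (v1, v2))
      rw [Equiv.apply_symm_apply, Equiv.apply_symm_apply] at h3 h4
      simp only
      rw [mul_left_comm, h3, mul_left_comm, h4, polar_dQ, polar_dQ]
      have e0 := hA0 0
      have e1 := hA0 1
      fin_cases i <;> fin_cases i' <;> fin_cases u1 <;> fin_cases v1 <;> fin_cases u2 <;> fin_cases v2 <;>
        simp [e0, e1, hA1]
    rintro ⟨p1, p2⟩ ⟨q1, q2⟩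
    show A (e4 p2).1 (e4 q2).1 * C (e4.symm (p1, (e4 p2).2)) (e4.symm (q1, (e4 q2).2)) = A p1 q1 * C p2 q2
    have := key p1 q1 (e4 p2) (e4 q2)
    rwa [Equiv.symm_apply_apply, Equiv.symm_apply_apply] at this
  have hAne : ∃ u v, u ⬝ᵥ (A *ᵥ v) ≠ 0 := by
    have hs0 : (Pi.single (0 : Fin 2) (1 : F) : Fin 2 → F) ≠ 0 := by
      intro h
      have := congrFun h 0
      simp at this
    obtain ⟨-, x, hx⟩ := hf₁.nondegenerate _ hs0
    refine ⟨(Pi.single (0 : Fin 2) (1 : F) : Fin 2 → F), x, ?_⟩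
    rw [hAA, ← hA]
    exact hx
  have hsp := sp_std 4 F
  have hX : ∀ g : GL (Fin (4 + 4)) F, g ∈ cR (e2 4).symm (Cfsg.spGL 4 F) ↔
      ∀ u v, f' ((g : Matrix _ _ F) *ᵥ u) ((g : Matrix _ _ F) *ᵥ v) = f' u v := by
    intro g
    constructor
    · intro hg u v
      have hg' : glReindex (e2 4).symm g ∈ Cfsg.spGL 4 F := hg
      rw [mem_spGL_iff] at hg'
      have h2 := hg' (L (e2 4).symm u) (L (e2 4).symm v)
      rw [act, act] at h2
      exact h2
    · intro hg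
      show glReindex (e2 4).symm g ∈ Cfsg.spGL 4 F
      rw [mem_spGL_iff]
      intro x y
      have h2 := hg (L (e2 4) x) (L (e2 4) y)
      have h3 : ∀ x : Fin 4 ⊕ Fin 4 → F, x = L (e2 4).symm (L (e2 4) x) := fun x => (L_L (e2 4) x).symm
      conv_lhs => rw [h3 x, h3 y]
      conv_rhs => rw [h3 x, h3 y]
      rw [act, act]
      exact h2
  apply nonmax_pull (e2 4).symm
  apply nonmax_of (M := tensorWreathSubgroup 2 3 (E.trans be) P2)
  · exact fun g hg => (Subgroup.mem_inf.1 hg).2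
  · intro g hg
    have h3 : glReindex (e2 4).symm g ∈ tensorProductSubgroup 2 4 e P := (Subgroup.mem_inf.1 hg).1
    have h4 : g ∈ cR (e2 4).symm (Cfsg.spGL 4 F) := (Subgroup.mem_inf.1 hg).2
    rw [tp_iff] at h3
    exact tp_le_tw h2 hc hAne hC H2 (tens_conj E P1 1 T h3) ((hX g).1 h4)
  · exact not_le_tw hsp (tva_sp 4 F).tv (le_refl 2) (le_refl 3)
  · refine ⟨tau E P2, (hX _).2 (tau_iso hΓ H2), tau_mem E P2, ?_⟩
    intro hmem
    have h3 : glReindex (e2 4).symm (tau E P2) ∈ tensorProductSubgroup 2 4 e P := (Subgroup.mem_inf.1 hmem).1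
    rw [tp_iff] at h3
    exact tau_not E P2 (tens_conj E P1 1 T h3)

end Cfsg.Agent.H29.Gq
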