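import Mathlib
import Cfsg.Agent.H29_Sq4
import Cfsg.Agent.H29_Sy12

set_option autoImplicit false

/-! symmetric forms over finite fields of odd order in odd dimension -/

namespace Cfsg.Agent.H29.Fm

open Matrix Module Cfsg.Geo Cfsg.Agent.H29.Clifford Cfsg.Agent.H29.Asc Cfsg.Agent.H29.AscF Cfsg.Agent.H29.Trv
  Cfsg.Agent.H29.AscT
open scoped Kronecker commutatorElement

variable {F : Type*} [Field F] {n k m r w t : ℕ}
variable {f : (Fin n → F) → (Fin n → F) → F}
variable {G : Subgroup (GL (Fin n) F)}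

theorem card_mod_two [Fintype F] (h2 : (2 : F) ≠ 0) : Fintype.card F % 2 = 1 :=
  Nat.odd_iff.1 (odd_card_of_two_ne h2)

theorem one_rep [Fintype F] (h2 : (2 : F) ≠ 0) {a b : F} (ha : a ≠ 0) (hb : b ≠ 0) (c : F) :
    ∃ x y : F, a * (x * x) + b * (y * y) = c := by
  open Polynomial in
  obtain ⟨x, y, hxy⟩ := FiniteField.exists_root_sum_quadratic (R := F) (f := Polynomial.C a * Polynomial.X ^ 2 )
    (g := Polynomial.C b * Polynomial.X ^ 2 + Polynomial.C 0 * Polynomial.X + Polynomial.C (-c))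
    (Polynomial.degree_C_mul_X_pow 2 ha) (Polynomial.degree_quadratic hb) (card_mod_two h2)
  refine ⟨x, y, ?_⟩
  simp only [Polynomial.eval_add, Polynomial.eval_mul, Polynomial.eval_C, Polynomial.eval_pow, Polynomial.eval_X] at hxy
  linear_combination hxy

open Classical in
theorem orth_adjust [Fintype F] (h2 : (2 : F) ≠ 0) {C : Matrix (Fin m) (Fin m) F} (hC : Cᵀ = C) {c : F} (hc : c ≠ 0)
    (N : ℕ) : ∀ (u : Fin m → (Fin m → F)) (d : Fin m → F), (∀ i, d i ≠ 0) →
    (∀ i j, u i ⬝ᵥ (C *ᵥ u j) = if i = j then d i else 0) → (Finset.univ.filter (fun i => d i ≠ c)).card = N →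
    ∃ (u' : Fin m → (Fin m → F)) (d' : Fin m → F), (∀ i, d' i ≠ 0) ∧
      (∀ i j, u' i ⬝ᵥ (C *ᵥ u' j) = if i = j then d' i else 0) ∧ ∀ i j, d' i ≠ c → d' j ≠ c → i = j := by
  induction N using Nat.strong_induction_on with
  | _ N ih =>
  intro u d hd hu hN
  by_cases h : ∀ i j, d i ≠ c → d j ≠ c → i = j
  · exact ⟨u, d, hd, hu, h⟩
  push Not at h
  obtain ⟨i, j, hi, hj, hij⟩ := h
  obtain ⟨x, y, hxy⟩ := one_rep h2 (hd i) (hd j) c
  have hsym : ∀ x y : Fin m → F, x ⬝ᵥ (C *ᵥ y) = y ⬝ᵥ (C *ᵥ x) := by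
    intro x y
    rw [Matrix.dotProduct_mulVec, ← Matrix.mulVec_transpose, hC, dotProduct_comm]
  have hij' : u i ⬝ᵥ (C *ᵥ u j) = 0 := by rw [hu, if_neg hij]
  have hji' : u j ⬝ᵥ (C *ᵥ u i) = 0 := by rw [hu, if_neg (Ne.symm hij)]
  have hii' : u i ⬝ᵥ (C *ᵥ u i) = d i := by rw [hu, if_pos rfl]
  have hjj' : u j ⬝ᵥ (C *ᵥ u j) = d j := by rw [hu, if_pos rfl]
  have hlin : ∀ (a b : F) (z : Fin m → F), (a • u i + b • u j) ⬝ᵥ (C *ᵥ z) = a * (u i ⬝ᵥ (C *ᵥ z)) + b * (u j ⬝ᵥ (C *ᵥ z)) := by
    intro a b z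
    rw [add_dotProduct, smul_dotProduct, smul_dotProduct, smul_eq_mul, smul_eq_mul]
  have hlin' : ∀ (a b : F) (z : Fin m → F), z ⬝ᵥ (C *ᵥ (a • u i + b • u j)) = a * (z ⬝ᵥ (C *ᵥ u i)) + b * (z ⬝ᵥ (C *ᵥ u j)) := by
    intro a b z
    rw [hsym, hlin, hsym z, hsym z]
  have hlin2 : ∀ a b a' b' : F, (a • u i + b • u j) ⬝ᵥ (C *ᵥ (a' • u i + b' • u j)) = a * a' * d i + b * b' * d j := by
    intro a b a' b'
    rw [hlin, hlin', hlin', hii', hij', hji', hjj']
    ring
  set ui := x • u i + y • u j with hui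
  set uj := (-(d j * y)) • u i + (d i * x) • u j with huj
  have h1 : ui ⬝ᵥ (C *ᵥ ui) = c := by rw [hlin2]; linear_combination hxy
  have h3 : uj ⬝ᵥ (C *ᵥ uj) = d i * d j * c := by rw [hlin2]; linear_combination (d i * d j) * hxy
  have h4 : ui ⬝ᵥ (C *ᵥ uj) = 0 := by rw [hlin2]; ring
  have h5 : ∀ k, k ≠ i → k ≠ j → ui ⬝ᵥ (C *ᵥ u k) = 0 := by
    intro k hki hkj
    rw [hlin, hu, hu, if_neg (Ne.symm hki), if_neg (Ne.symm hkj)]
    ring
  have h6 : ∀ k, k ≠ i → k ≠ j → uj ⬝ᵥ (C *ᵥ u k) = 0 := by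
    intro k hki hkj
    rw [hlin, hu, hu, if_neg (Ne.symm hki), if_neg (Ne.symm hkj)]
    ring
  let u' : Fin m → (Fin m → F) := fun k => if k = i then ui else if k = j then uj else u k
  let d' : Fin m → F := fun k => if k = i then c else if k = j then d i * d j * c else d k
  have hu'i : u' i = ui := if_pos rfl
  have hu'j : u' j = uj := by
    show (if j = i then ui else if j = j then uj else u j) = uj
    rw [if_neg (Ne.symm hij), if_pos rfl]
  have hu'k : ∀ k, k ≠ i → k ≠ j → u' k = u k := by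
    intro k hki hkj
    show (if k = i then ui else if k = j then uj else u k) = u k
    rw [if_neg hki, if_neg hkj]
  have hd'i : d' i = c := if_pos rfl
  have hd'j : d' j = d i * d j * c := by
    show (if j = i then c else if j = j then _ else d j) = _
    rw [if_neg (Ne.symm hij), if_pos rfl]
  have hd'k : ∀ k, k ≠ i → k ≠ j → d' k = d k := by
    intro k hki hkj
    show (if k = i then c else if k = j then _ else d k) = d k
    rw [if_neg hki, if_neg hkj]
  refine ih ((Finset.univ.filter (fun i => d' i ≠ c)).card) ?_ u' d' ?_ ?_ rfl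
  · rw [← hN]
    apply Finset.card_lt_card
    rw [Finset.ssubset_iff_of_subset]
    · refine ⟨i, Finset.mem_filter.2 ⟨Finset.mem_univ _, hi⟩, ?_⟩
      rw [Finset.mem_filter]
      push Not
      intro _
      exact hd'i
    · intro a ha
      rw [Finset.mem_filter] at ha ⊢
      refine ⟨Finset.mem_univ _, ?_⟩
      by_cases hai : a = i
      · subst hai; exact hi
      · by_cases haj : a = j
        · subst haj; exact hj
        · rw [← hd'k a hai haj]; exact ha.2
  · intro a
    by_cases hai : a = i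
    · subst hai; rw [hd'i]; exact hc
    · by_cases haj : a = j
      · subst haj; rw [hd'j]; exact mul_ne_zero (mul_ne_zero (hd _) (hd _)) hc
      · rw [hd'k a hai haj]; exact hd a
  · intro a b
    by_cases hai : a = i
    · subst hai
      rw [hu'i, hd'i]
      by_cases hba : b = a
      · subst hba; rw [if_pos rfl, hu'i, h1]
      · rw [if_neg (Ne.symm hba)]
        by_cases hbj : b = j
        · subst hbj; rw [hu'j, h4]
        · rw [hu'k b hba hbj, h5 b hba hbj]
    · by_cases haj : a = j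
      · subst haj
        rw [hu'j, hd'j]
        by_cases hbi : b = i
        · subst hbi; rw [if_neg (Ne.symm hij), hu'i, hsym, h4]
        · by_cases hba : b = a
          · subst hba; rw [if_pos rfl, hu'j, h3]
          · rw [if_neg (Ne.symm hba), hu'k b hbi hba, h6 b hbi hba]
      · rw [hu'k a hai haj, hd'k a hai haj]
        by_cases hbi : b = i
        · subst hbi; rw [if_neg hai, hu'i, hsym, h5 a hai haj]
        · by_cases hbj : b = j
          · subst hbj; rw [if_neg haj, hu'j, hsym, h6 a hai haj]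
          · rw [hu'k b hbi hbj, hu]

/-- symmetric forms in odd dimension over a finite field are similar to the standard one -/
theorem sym_scalar [Fintype F] (h2 : (2 : F) ≠ 0) (hm : Odd m) {C : Matrix (Fin m) (Fin m) F} (hC : Cᵀ = C)
    (hdet : C.det ≠ 0) :
    ∃ (b : GL (Fin m) F) (ε : F), ε ≠ 0 ∧ (b : Matrix (Fin m) (Fin m) F)ᵀ * C * (b : Matrix (Fin m) (Fin m) F) =
      ε • (1 : Matrix (Fin m) (Fin m) F) := by
  classical
  obtain ⟨u₀, d₀, hd₀, hu₀⟩ := sym_diag h2 hC hdet
  obtain ⟨u, d, hd, hu, hone⟩ := orth_adjust h2 hC hdet _ u₀ d₀ hd₀ hu₀ rfl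
  have hgoal : ∀ (v : Fin m → (Fin m → F)) (ε : F), ε ≠ 0 → (∀ i j, v i ⬝ᵥ (C *ᵥ v j) = if i = j then ε else 0) →
      ∃ (b : GL (Fin m) F) (ε : F), ε ≠ 0 ∧ (b : Matrix (Fin m) (Fin m) F)ᵀ * C * (b : Matrix (Fin m) (Fin m) F) =
      ε • (1 : Matrix (Fin m) (Fin m) F) := by
    intro v ε hε hv
    obtain ⟨b, hb, -⟩ := GL_of_orth (d := fun _ => ε) (fun _ => hε) hv
    refine ⟨b, ε, hε, ?_⟩
    rw [hb]
    ext i j
    rw [Matrix.diagonal_apply, Matrix.smul_apply, Matrix.one_apply, smul_eq_mul, mul_ite, mul_one, mul_zero]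
  by_cases hall : ∀ i, d i = C.det
  · exact hgoal u C.det hdet (fun i j => by rw [hu, hall])
  push Not at hall
  obtain ⟨i₀, hi₀⟩ := hall
  have hoth : ∀ i, i ≠ i₀ → d i = C.det := by
    intro i hi
    by_contra hne
    exact hi (hone i i₀ hne hi₀)
  obtain ⟨b, hb, -⟩ := GL_of_orth hd hu
  have h3 := congrArg Matrix.det hb
  rw [Matrix.det_mul, Matrix.det_mul, Matrix.det_transpose, Matrix.det_diagonal,
    ← Finset.mul_prod_erase _ _ (Finset.mem_univ i₀)] at h3
  have h4 : ∏ i ∈ Finset.univ.erase i₀, d i = C.det ^ (m - 1) := by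
    rw [Finset.prod_congr rfl (fun i hi => hoth i (Finset.ne_of_mem_erase hi)), Finset.prod_const,
      Finset.card_erase_of_mem (Finset.mem_univ _), Finset.card_univ, Fintype.card_fin]
  obtain ⟨k, hk⟩ := hm
  have h5 : m - 1 = k + k := by omega
  rw [h4, h5, pow_add] at h3
  have hck : C.det ^ k ≠ 0 := pow_ne_zero _ hdet
  have hbdet : (b : Matrix (Fin m) (Fin m) F).det ≠ 0 := by
    have := (b.isUnit).map Matrix.detMonoidHom
    exact this.ne_zero
  set s := (b : Matrix (Fin m) (Fin m) F).det / C.det ^ k with hs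
  have hs0 : s ≠ 0 := div_ne_zero hbdet hck
  have hds : d i₀ = C.det * (s * s) := by
    have h6 : s * C.det ^ k = (b : Matrix (Fin m) (Fin m) F).det := div_mul_cancel₀ _ hck
    have h7 : (d i₀ - C.det * (s * s)) * (C.det ^ k * C.det ^ k) = 0 := by
      linear_combination -h3 - C.det * (s * C.det ^ k + (b : Matrix (Fin m) (Fin m) F).det) * h6
    exact sub_eq_zero.1 ((mul_eq_zero.1 h7).resolve_right (mul_ne_zero hck hck))
  have hsym : ∀ x y : Fin m → F, x ⬝ᵥ (C *ᵥ y) = y ⬝ᵥ (C *ᵥ x) := by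
    intro x y
    rw [Matrix.dotProduct_mulVec, ← Matrix.mulVec_transpose, hC, dotProduct_comm]
  refine hgoal (fun i => if i = i₀ then s⁻¹ • u i₀ else u i) C.det hdet ?_
  intro i j
  by_cases hi : i = i₀
  · subst hi
    simp only [if_pos rfl]
    rw [if_pos trivial]
    by_cases hj : j = i
    · subst hj
      rw [if_pos rfl, if_pos rfl, Matrix.mulVec_smul, dotProduct_smul, smul_dotProduct, hu, if_pos rfl, hds, smul_eq_mul,
        smul_eq_mul]
      field_simp
    · rw [if_neg hj, if_neg (Ne.symm hj), smul_dotProduct, hu, if_neg (Ne.symm hj), smul_zero]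
  · simp only [if_neg hi]
    by_cases hj : j = i₀
    · subst hj
      rw [if_pos rfl, if_neg hi, hsym, smul_dotProduct, hu, if_neg (Ne.symm hi), smul_zero]
    · rw [if_neg hj, hu]
      by_cases hij : i = j
      · rw [if_pos hij, if_pos hij, hoth i hi]
      · rw [if_neg hij, if_neg hij]

/-- skew matrices of odd size are singular -/
theorem skew_odd {δ : F} (h2 : (2 : F) ≠ 0) (hm : Odd m) {A : Matrix (Fin m) (Fin m) F}
    (hA : HM (RingEquiv.refl F) δ A) (hdet : A.det ≠ 0) (hδ : δ = 1 ∨ δ = -1) : δ = 1 := by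
  rcases hδ with h | h
  · exact h
  exfalso
  subst h
  have h1 : A = -Aᵀ := by
    ext i j
    rw [Matrix.neg_apply, Matrix.transpose_apply]
    have := hA i j
    rw [neg_one_mul] at this
    exact this
  have h3 := congrArg Matrix.det h1
  rw [Matrix.det_neg, Fintype.card_fin, hm.neg_one_pow, Matrix.det_transpose] at h3
  have h4 : (2 : F) * A.det = 0 := by linear_combination h3
  exact mul_ne_zero h2 hdet h4

/-- similitudes of the standard form in dimension three over the field with three elements are monomial -/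
theorem mono_three [Fintype F] (hF : Fintype.card F = 3) {B : Matrix (Fin 3) (Fin 3) F} {ν : F} (hν : ν ≠ 0)
    (hB : Bᵀ * B = ν • (1 : Matrix (Fin 3) (Fin 3) F)) (l : Fin 3) :
    ∃ (l' : Fin 3) (d : F), B *ᵥ (Pi.single l 1) = d • Pi.single l' 1 := by
  have hν1 : ν = 1 := by
    have h1 := congrArg Matrix.det hB
    rw [Matrix.det_mul, Matrix.det_transpose, Matrix.det_smul, Matrix.det_one, mul_one, Fintype.card_fin] at h1
    rcases three_cases hF ν with h2 | h2 | h2
    · exact absurd h2 hν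
    · exact h2
    · exfalso
      rw [h2] at h1
      rcases three_cases hF B.det with h3 | h3 | h3
      · rw [h3] at h1
        have : (1 : F) = 0 := by linear_combination h1
        exact one_ne_zero this
      · rw [h3] at h1
        have : (2 : F) = 0 := by linear_combination h1
        exact two_ne_of_three hF this
      · rw [h3] at h1
        have : (2 : F) = 0 := by linear_combination h1
        exact two_ne_of_three hF this
  rw [hν1, one_smul] at hB
  have h1 : (B *ᵥ (Pi.single l 1)) ⬝ᵥ (B *ᵥ (Pi.single l 1)) = 1 := by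
    have h3 := gram_conj (1 : Matrix (Fin 3) (Fin 3) F) B l l
    rw [mul_one, Matrix.one_mulVec, hB, Matrix.one_apply_eq] at h3
    exact h3.symm
  set y := B *ᵥ (Pi.single l 1) with hy
  have h2 : y 0 * y 0 + y 1 * y 1 + y 2 * y 2 = 1 := by
    rw [← h1]
    show _ = ∑ i, y i * y i
    rw [Fin.sum_univ_three]
  have hsq : ∀ z : F, z ≠ 0 → z * z = 1 := by
    intro z hz
    rcases three_cases hF z with h3 | h3 | h3
    · exact absurd h3 hz
    · rw [h3, one_mul]
    · rw [h3]; ring
  have h3 := three_zero hF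
  have n2 := two_ne_of_three hF
  have ext3 : ∀ z z' : Fin 3 → F, z 0 = z' 0 → z 1 = z' 1 → z 2 = z' 2 → z = z' := by
    intro z z' e0 e1 e2
    funext i
    fin_cases i
    · exact e0
    · exact e1
    · exact e2
  by_cases y0 : y 0 = 0 <;> by_cases y1 : y 1 = 0 <;> by_cases y2 : y 2 = 0
  · exfalso
    rw [y0, y1, y2] at h2
    have : (1 : F) = 0 := by linear_combination -h2
    exact one_ne_zero this
  · exact ⟨2, y 2, ext3 _ _ (by simp [y0]) (by simp [y1]) (by simp)⟩
  · exact ⟨1, y 1, ext3 _ _ (by simp [y0]) (by simp) (by simp [y2])⟩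
  · exfalso
    rw [y0, hsq _ y1, hsq _ y2] at h2
    have : (1 : F) = 0 := by linear_combination h2
    exact one_ne_zero this
  · exact ⟨0, y 0, ext3 _ _ (by simp) (by simp [y1]) (by simp [y2])⟩
  · exfalso
    rw [y1, hsq _ y0, hsq _ y2] at h2
    have : (1 : F) = 0 := by linear_combination h2
    exact one_ne_zero this
  · exfalso
    rw [y2, hsq _ y0, hsq _ y1] at h2
    have : (1 : F) = 0 := by linear_combination h2
    exact one_ne_zero this
  · exfalso
    rw [hsq _ y0, hsq _ y1, hsq _ y2] at h2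
    apply n2
    linear_combination h2

end Cfsg.Agent.H29.Fm
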