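import Mathlib
import Cfsg.Agent.H29_Or1

set_option autoImplicit false

/-! symmetric forms in odd dimension: extension fields -/

namespace Cfsg.Agent.H29.Fm

open Matrix Module Cfsg.Geo Cfsg.Agent.H29.Clifford Cfsg.Agent.H29.Asc Cfsg.Agent.H29.AscF Cfsg.Agent.H29.Trv
  Cfsg.Agent.H29.AscT
open scoped Kronecker commutatorElement

variable {F : Type*} [Field F] {n k m r w t : ℕ}
variable {f : (Fin n → F) → (Fin n → F) → F}
variable {G : Subgroup (GL (Fin n) F)}

/-- symmetric non-degenerate forms in odd characteristic -/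
structure OrF (f : (Fin n → F) → (Fin n → F) → F) : Prop where
  sfm : SFm (RingEquiv.refl F) 1 f
  two : (2 : F) ≠ 0

theorem OrF.symm' (h : OrF f) (u v : Fin n → F) : f u v = f v u := by
  have := h.sfm.herm u v
  rwa [RingEquiv.refl_apply, one_mul] at this

theorem OrF.smul_right (h : OrF f) (c : F) (u v : Fin n → F) : f u (c • v) = c * f u v := by
  have := h.sfm.smul_right c u v
  rwa [RingEquiv.refl_apply] at this

theorem fld_isField (hn : 0 < n) {K : Subalgebra F (Matrix (Fin n) (Fin n) F)} (hK : IsFieldSubalgebra r K) :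
    IsField K := by
  haveI : Nonempty (Fin n) := ⟨⟨0, hn⟩⟩
  refine ⟨⟨0, 1, fun h => ?_⟩, ?_, ?_⟩
  · have h1 : (0 : Matrix (Fin n) (Fin n) F) = 1 := congrArg Subtype.val h
    exact zero_ne_one h1
  · intro a b
    exact Subtype.ext (hK.comm _ a.2 _ b.2)
  · intro a ha
    obtain ⟨y, hy, h1⟩ := hK.inv a a.2 (fun h => ha (Subtype.ext h))
    exact ⟨⟨y, hy⟩, Subtype.ext h1⟩

theorem gal_card [Fintype F] (hn : 0 < n) {K : Subalgebra F (Matrix (Fin n) (Fin n) F)} (hK : IsFieldSubalgebra r K) :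
    Nat.card (K ≃ₐ[F] K) = r := by
  letI : Field K := (fld_isField hn hK).toField
  haveI : Finite K := Finite.of_injective _ Subtype.val_injective
  have h1 : Nat.card (K ≃ₐ[F] K) = Module.finrank F K := IsGalois.card_aut_eq_finrank F K
  rw [h1]
  exact hK.finrank_eq

/-- conjugation on a field -/
noncomputable def conjK (K : Subalgebra F (Matrix (Fin n) (Fin n) F)) : subalgebraNormalizer K →* (K ≃ₐ[F] K) where
  toFun g :=
    { toFun := fun x => ⟨((g : GL (Fin n) F) : Matrix (Fin n) (Fin n) F) * (x : Matrix (Fin n) (Fin n) F) *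
        (((g : GL (Fin n) F)⁻¹ : GL (Fin n) F) : Matrix (Fin n) (Fin n) F), (g.2 _).1 x.2⟩
      invFun := fun x => ⟨(((g : GL (Fin n) F)⁻¹ : GL (Fin n) F) : Matrix (Fin n) (Fin n) F) *
        (x : Matrix (Fin n) (Fin n) F) * ((g : GL (Fin n) F) : Matrix (Fin n) (Fin n) F), conj_mem_norm g.2 x.2⟩
      left_inv := by
        intro x
        apply Subtype.ext
        show (((g : GL (Fin n) F)⁻¹ : GL (Fin n) F) : Matrix (Fin n) (Fin n) F) * (((g : GL (Fin n) F) :
          Matrix (Fin n) (Fin n) F) * (x : Matrix (Fin n) (Fin n) F) *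
          (((g : GL (Fin n) F)⁻¹ : GL (Fin n) F) : Matrix (Fin n) (Fin n) F)) *
          ((g : GL (Fin n) F) : Matrix (Fin n) (Fin n) F) = x
        have h1 : (((g : GL (Fin n) F)⁻¹ : GL (Fin n) F) : Matrix (Fin n) (Fin n) F) *
          ((g : GL (Fin n) F) : Matrix (Fin n) (Fin n) F) = 1 := by
          rw [← Units.val_mul, inv_mul_cancel, Units.val_one]
        calc _ = ((((g : GL (Fin n) F)⁻¹ : GL (Fin n) F) : Matrix (Fin n) (Fin n) F) *
          ((g : GL (Fin n) F) : Matrix (Fin n) (Fin n) F)) * x * ((((g : GL (Fin n) F)⁻¹ : GL (Fin n) F) :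
          Matrix (Fin n) (Fin n) F) * ((g : GL (Fin n) F) : Matrix (Fin n) (Fin n) F)) := by simp only [mul_assoc]
          _ = x := by rw [h1, one_mul, mul_one]
      right_inv := by
        intro x
        apply Subtype.ext
        show ((g : GL (Fin n) F) : Matrix (Fin n) (Fin n) F) * ((((g : GL (Fin n) F)⁻¹ : GL (Fin n) F) :
          Matrix (Fin n) (Fin n) F) * (x : Matrix (Fin n) (Fin n) F) *
          ((g : GL (Fin n) F) : Matrix (Fin n) (Fin n) F)) *
          (((g : GL (Fin n) F)⁻¹ : GL (Fin n) F) : Matrix (Fin n) (Fin n) F) = x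
        have h1 : ((g : GL (Fin n) F) : Matrix (Fin n) (Fin n) F) * (((g : GL (Fin n) F)⁻¹ : GL (Fin n) F) :
          Matrix (Fin n) (Fin n) F) = 1 := by
          rw [← Units.val_mul, mul_inv_cancel, Units.val_one]
        calc _ = (((g : GL (Fin n) F) : Matrix (Fin n) (Fin n) F) * (((g : GL (Fin n) F)⁻¹ : GL (Fin n) F) :
          Matrix (Fin n) (Fin n) F)) * x * (((g : GL (Fin n) F) : Matrix (Fin n) (Fin n) F) *
          (((g : GL (Fin n) F)⁻¹ : GL (Fin n) F) : Matrix (Fin n) (Fin n) F)) := by simp only [mul_assoc]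
          _ = x := by rw [h1, one_mul, mul_one]
      map_mul' := by
        intro x y
        apply Subtype.ext
        show ((g : GL (Fin n) F) : Matrix (Fin n) (Fin n) F) * ((x : Matrix (Fin n) (Fin n) F) * (y : Matrix (Fin n) (Fin n) F)) *
          (((g : GL (Fin n) F)⁻¹ : GL (Fin n) F) : Matrix (Fin n) (Fin n) F) =
          (((g : GL (Fin n) F) : Matrix (Fin n) (Fin n) F) * (x : Matrix (Fin n) (Fin n) F) *
          (((g : GL (Fin n) F)⁻¹ : GL (Fin n) F) : Matrix (Fin n) (Fin n) F)) *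
          (((g : GL (Fin n) F) : Matrix (Fin n) (Fin n) F) * (y : Matrix (Fin n) (Fin n) F) *
          (((g : GL (Fin n) F)⁻¹ : GL (Fin n) F) : Matrix (Fin n) (Fin n) F))
        have h1 : (((g : GL (Fin n) F)⁻¹ : GL (Fin n) F) : Matrix (Fin n) (Fin n) F) *
          ((g : GL (Fin n) F) : Matrix (Fin n) (Fin n) F) = 1 := by
          rw [← Units.val_mul, inv_mul_cancel, Units.val_one]
        calc _ = ((g : GL (Fin n) F) : Matrix (Fin n) (Fin n) F) * (x : Matrix (Fin n) (Fin n) F) * 1 *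
              (y : Matrix (Fin n) (Fin n) F) * (((g : GL (Fin n) F)⁻¹ : GL (Fin n) F) : Matrix (Fin n) (Fin n) F) := by
              rw [mul_one, mul_assoc ((g : GL (Fin n) F) : Matrix (Fin n) (Fin n) F) (x : Matrix (Fin n) (Fin n) F)]
          _ = _ := by rw [← h1]; simp only [mul_assoc]
      map_add' := by
        intro x y
        apply Subtype.ext
        show ((g : GL (Fin n) F) : Matrix (Fin n) (Fin n) F) * ((x : Matrix (Fin n) (Fin n) F) + (y : Matrix (Fin n) (Fin n) F)) *
          (((g : GL (Fin n) F)⁻¹ : GL (Fin n) F) : Matrix (Fin n) (Fin n) F) = _ + _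
        rw [mul_add, add_mul]
      commutes' := by
        intro c
        apply Subtype.ext
        show ((g : GL (Fin n) F) : Matrix (Fin n) (Fin n) F) * (algebraMap F (Matrix (Fin n) (Fin n) F) c) *
          (((g : GL (Fin n) F)⁻¹ : GL (Fin n) F) : Matrix (Fin n) (Fin n) F) = algebraMap F (Matrix (Fin n) (Fin n) F) c
        rw [← Algebra.commutes, mul_assoc, ← Units.val_mul, mul_inv_cancel, Units.val_one, mul_one] }
  map_one' := by
    apply AlgEquiv.ext
    intro x
    apply Subtype.ext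
    show ((1 : GL (Fin n) F) : Matrix (Fin n) (Fin n) F) * (x : Matrix (Fin n) (Fin n) F) *
      (((1 : GL (Fin n) F)⁻¹ : GL (Fin n) F) : Matrix (Fin n) (Fin n) F) = x
    rw [inv_one, Units.val_one, one_mul, mul_one]
  map_mul' := by
    intro g h
    apply AlgEquiv.ext
    intro x
    apply Subtype.ext
    show ((g * h : GL (Fin n) F) : Matrix (Fin n) (Fin n) F) * (x : Matrix (Fin n) (Fin n) F) *
      (((g * h : GL (Fin n) F)⁻¹ : GL (Fin n) F) : Matrix (Fin n) (Fin n) F) =
      ((g : GL (Fin n) F) : Matrix (Fin n) (Fin n) F) * (((h : GL (Fin n) F) : Matrix (Fin n) (Fin n) F) *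
      (x : Matrix (Fin n) (Fin n) F) * (((h : GL (Fin n) F)⁻¹ : GL (Fin n) F) : Matrix (Fin n) (Fin n) F)) *
      (((g : GL (Fin n) F)⁻¹ : GL (Fin n) F) : Matrix (Fin n) (Fin n) F)
    rw [_root_.mul_inv_rev, Units.val_mul, Units.val_mul]
    simp only [mul_assoc]

theorem conjK_apply {K : Subalgebra F (Matrix (Fin n) (Fin n) F)} (g : subalgebraNormalizer K) (x : K) :
    ((conjK K g x : K) : Matrix (Fin n) (Fin n) F) = ((g : GL (Fin n) F) : Matrix (Fin n) (Fin n) F) * x *
      (((g : GL (Fin n) F)⁻¹ : GL (Fin n) F) : Matrix (Fin n) (Fin n) F) := rfl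

/-- fields of odd prime degree closed under adjoints are self-adjoint -/
theorem fld_sa [Fintype F] {ε : F} (hn : 0 < n) (h : SFm (RingEquiv.refl F) ε f) (hr : Odd r)
    {K : Subalgebra F (Matrix (Fin n) (Fin n) F)} (hK : IsFieldSubalgebra r K) (hadj : IsAdjointClosedFor f K) :
    IsSelfAdjointFor f K := by
  classical
  haveI : Nonempty (Fin n) := ⟨⟨0, hn⟩⟩
  have hsr : ∀ (c : F) u v, f u (c • v) = c * f u v := by
    intro c u v
    have := h.smul_right c u v
    rwa [RingEquiv.refl_apply] at this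
  have huniq : ∀ {x y z : Matrix (Fin n) (Fin n) F}, (∀ u v, f (x *ᵥ u) v = f u (y *ᵥ v)) →
      (∀ u v, f (x *ᵥ u) v = f u (z *ᵥ v)) → y = z := by
    intro x y z hy hz
    apply Cfsg.Agent.H29.Trv.ext_mulVec
    intro v
    apply h.ext_right
    intro u
    rw [← hy, hz]
  have h1 : ∀ k : K, ∃ k' : K, ∀ u v, f ((k : Matrix (Fin n) (Fin n) F) *ᵥ u) v = f u ((k' : Matrix (Fin n) (Fin n) F) *ᵥ v) := by
    intro k
    obtain ⟨k', hk', hkk⟩ := hadj k k.2
    exact ⟨⟨k', hk'⟩, hkk⟩
  choose s hs using h1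
  have hherm : ∀ u v, f u v = ε * f v u := by
    intro u v
    have := h.herm u v
    rwa [RingEquiv.refl_apply] at this
  have hs2 : ∀ k, s (s k) = k := by
    intro k
    apply Subtype.ext
    refine huniq (hs (s k)) ?_
    intro u v
    rw [hherm, ← hs, hherm ((k : Matrix (Fin n) (Fin n) F) *ᵥ v) u, ← mul_assoc, h.eps_sq, one_mul]
  have hsmul : ∀ k l, s (k * l) = s k * s l := by
    intro k l
    apply Subtype.ext
    refine huniq (hs (k * l)) ?_
    intro u v
    have e1 : ((s k * s l : K) : Matrix (Fin n) (Fin n) F) = (s l : Matrix (Fin n) (Fin n) F) * (s k : Matrix (Fin n) (Fin n) F) :=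
      hK.comm _ (s k).2 _ (s l).2
    rw [e1]
    show f (((k : Matrix (Fin n) (Fin n) F) * (l : Matrix (Fin n) (Fin n) F)) *ᵥ u) v = _
    rw [← Matrix.mulVec_mulVec, ← Matrix.mulVec_mulVec, hs, hs]
  have hsadd : ∀ k l, s (k + l) = s k + s l := by
    intro k l
    apply Subtype.ext
    refine huniq (hs (k + l)) ?_
    intro u v
    show f (((k : Matrix (Fin n) (Fin n) F) + (l : Matrix (Fin n) (Fin n) F)) *ᵥ u) v =
      f u (((s k : Matrix (Fin n) (Fin n) F) + (s l : Matrix (Fin n) (Fin n) F)) *ᵥ v)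
    rw [Matrix.add_mulVec, Matrix.add_mulVec, h.add_left, h.add_right, hs, hs]
  have hssc : ∀ c : F, s (algebraMap F K c) = algebraMap F K c := by
    intro c
    apply Subtype.ext
    refine huniq (hs (algebraMap F K c)) ?_
    intro u v
    show f ((algebraMap F (Matrix (Fin n) (Fin n) F) c) *ᵥ u) v = f u ((algebraMap F (Matrix (Fin n) (Fin n) F) c) *ᵥ v)
    rw [Algebra.algebraMap_eq_smul_one, Matrix.smul_mulVec, Matrix.smul_mulVec, Matrix.one_mulVec, Matrix.one_mulVec,
      h.smul_left, hsr]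
  let S : K ≃ₐ[F] K :=
    { toFun := s
      invFun := s
      left_inv := hs2
      right_inv := hs2
      map_mul' := hsmul
      map_add' := hsadd
      commutes' := hssc }
  have hS2 : S ^ 2 = 1 := by
    apply AlgEquiv.ext
    intro x
    rw [pow_two]
    exact hs2 x
  have hSr : S ^ r = 1 := by
    rw [← gal_card hn hK]
    exact pow_card_eq_one'
  have hS : S = 1 := by
    have h3 : Nat.Coprime 2 r := (Nat.coprime_two_left).2 hr
    have h4 := Nat.Coprime.eq_one_of_dvd (Nat.Coprime.coprime_dvd_left (orderOf_dvd_of_pow_eq_one hS2) h3)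
      (orderOf_dvd_of_pow_eq_one hSr)
    exact orderOf_eq_one_iff.1 h4
  intro k hk u v
  have h5 : s ⟨k, hk⟩ = ⟨k, hk⟩ := DFunLike.congr_fun hS ⟨k, hk⟩
  have h6 := hs ⟨k, hk⟩ u v
  rw [h5] at h6
  exact h6

end Cfsg.Agent.H29.Fm
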