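import Mathlib
import Cfsg.Agent.H29_Or2

set_option autoImplicit false

/-! symmetric forms in odd dimension: Singer cycles, transitivity -/

namespace Cfsg.Agent.H29.Fm

open Matrix Module Cfsg.Geo Cfsg.Agent.H29.Clifford Cfsg.Agent.H29.Asc Cfsg.Agent.H29.AscF Cfsg.Agent.H29.Trv
  Cfsg.Agent.H29.AscT
open scoped Kronecker commutatorElement

variable {F : Type*} [Field F] {n k m r w t : ℕ}
variable {f : (Fin n → F) → (Fin n → F) → F}
variable {G : Subgroup (GL (Fin n) F)}

theorem single_ne' (hn : 0 < n) : (Pi.single ⟨0, hn⟩ (1 : F) : Fin n → F) ≠ 0 := by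
  intro h0
  have := congrFun h0 ⟨0, hn⟩
  rw [Pi.single_eq_same] at this
  exact one_ne_zero this

/-- the kernel of conjugation on a Singer field -/
theorem singer_ker [Fintype F] (hn : 0 < n) (h : OrF f) {K : Subalgebra F (Matrix (Fin n) (Fin n) F)}
    (hK : IsFieldSubalgebra n K) (hsa : IsSelfAdjointFor f K) {g : GL (Fin n) F} (hg : g ∈ subalgebraNormalizer K)
    (hiso : ∀ u v, f ((g : Matrix (Fin n) (Fin n) F) *ᵥ u) ((g : Matrix (Fin n) (Fin n) F) *ᵥ v) = f u v)
    (h1 : conjK K ⟨g, hg⟩ = 1) : (g : Matrix (Fin n) (Fin n) F) = 1 ∨ (g : Matrix (Fin n) (Fin n) F) = -1 := by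
  classical
  have hcomm : ∀ x ∈ K, (g : Matrix (Fin n) (Fin n) F) * x = x * (g : Matrix (Fin n) (Fin n) F) := by
    intro x hx
    have h2 := congrArg Subtype.val (DFunLike.congr_fun h1 ⟨x, hx⟩)
    rw [conjK_apply] at h2
    have h3 : (g : Matrix (Fin n) (Fin n) F) * x * ((g⁻¹ : GL (Fin n) F) : Matrix (Fin n) (Fin n) F) = x := h2
    have h4 : ((g⁻¹ : GL (Fin n) F) : Matrix (Fin n) (Fin n) F) * (g : Matrix (Fin n) (Fin n) F) = 1 := by
      rw [← Units.val_mul, inv_mul_cancel, Units.val_one]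
    calc (g : Matrix (Fin n) (Fin n) F) * x = (g : Matrix (Fin n) (Fin n) F) * x *
          (((g⁻¹ : GL (Fin n) F) : Matrix (Fin n) (Fin n) F) * (g : Matrix (Fin n) (Fin n) F)) := by rw [h4, mul_one]
      _ = _ := by rw [← mul_assoc, h3]
  set v : Fin n → F := Pi.single ⟨0, hn⟩ (1 : F) with hv
  have hv0 : v ≠ 0 := single_ne' hn
  let ev : K →ₗ[F] (Fin n → F) :=
    { toFun := fun x => (x : Matrix (Fin n) (Fin n) F) *ᵥ v
      map_add' := by
        intro x y
        show ((x : Matrix (Fin n) (Fin n) F) + (y : Matrix (Fin n) (Fin n) F)) *ᵥ v = _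
        rw [Matrix.add_mulVec]
      map_smul' := by
        intro c x
        show (c • (x : Matrix (Fin n) (Fin n) F)) *ᵥ v = _
        rw [Matrix.smul_mulVec]
        rfl }
  have hinj : Function.Injective ev := by
    rw [← LinearMap.ker_eq_bot, LinearMap.ker_eq_bot']
    intro x hx
    by_contra hx0
    obtain ⟨y, hy, hxy⟩ := hK.inv x x.2 (fun h => hx0 (Subtype.ext h))
    have h2 : y * (x : Matrix (Fin n) (Fin n) F) = 1 := mul_eq_one_comm.1 hxy
    apply hv0
    have h3 : (x : Matrix (Fin n) (Fin n) F) *ᵥ v = 0 := hx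
    calc v = (y * (x : Matrix (Fin n) (Fin n) F)) *ᵥ v := by rw [h2, Matrix.one_mulVec]
      _ = 0 := by rw [← Matrix.mulVec_mulVec, h3, Matrix.mulVec_zero]
  have hsurj : Function.Surjective ev := by
    have h2 : finrank F K = finrank F (Fin n → F) := by
      rw [hK.finrank_eq, Module.finrank_fintype_fun_eq_card, Fintype.card_fin]
    haveI : FiniteDimensional F K := FiniteDimensional.finiteDimensional_submodule (Subalgebra.toSubmodule K)
    exact (LinearMap.injective_iff_surjective_of_finrank_eq_finrank h2).1 hinj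
  obtain ⟨κ, hκ⟩ := hsurj ((g : Matrix (Fin n) (Fin n) F) *ᵥ v)
  have hκ' : (κ : Matrix (Fin n) (Fin n) F) *ᵥ v = (g : Matrix (Fin n) (Fin n) F) *ᵥ v := hκ
  have hgκ : (g : Matrix (Fin n) (Fin n) F) = κ := by
    apply Cfsg.Agent.H29.Trv.ext_mulVec
    intro u
    obtain ⟨x, hx⟩ := hsurj u
    have hx' : (x : Matrix (Fin n) (Fin n) F) *ᵥ v = u := hx
    rw [← hx', Matrix.mulVec_mulVec, hcomm x x.2, ← Matrix.mulVec_mulVec, ← hκ', Matrix.mulVec_mulVec,
      Matrix.mulVec_mulVec, hK.comm _ x.2 _ κ.2]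
  have hsq : (κ : Matrix (Fin n) (Fin n) F) * κ = 1 := by
    apply Cfsg.Agent.H29.Trv.ext_mulVec
    intro u
    apply h.sfm.ext_right
    intro w
    rw [← Matrix.mulVec_mulVec, ← hsa κ κ.2, ← hgκ, hiso, Matrix.one_mulVec]
  have hfac : ((κ : Matrix (Fin n) (Fin n) F) - 1) * (κ + 1) = 0 := by
    rw [sub_mul, mul_add, mul_one, one_mul, hsq]
    abel
  by_cases h3 : (κ : Matrix (Fin n) (Fin n) F) - 1 = 0
  · left
    rw [hgκ]
    exact sub_eq_zero.1 h3
  · right
    obtain ⟨y, hy, hxy⟩ := hK.inv _ (K.sub_mem κ.2 K.one_mem) h3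
    have h2 : y * ((κ : Matrix (Fin n) (Fin n) F) - 1) = 1 := mul_eq_one_comm.1 hxy
    have h4 : (κ : Matrix (Fin n) (Fin n) F) + 1 = 0 := by
      calc (κ : Matrix (Fin n) (Fin n) F) + 1 = y * ((κ : Matrix (Fin n) (Fin n) F) - 1) * (κ + 1) := by
            rw [h2, one_mul]
        _ = 0 := by rw [mul_assoc, hfac, mul_zero]
    rw [hgκ]
    exact eq_neg_of_add_eq_zero_left h4

/-- a group generated by one element of order dividing the dimension is reducible -/
theorem cyclic_red (hn : 2 ≤ n) {M : Matrix (Fin n) (Fin n) F} (hM : M ^ n = 1)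
    (hG : ∀ g ∈ G, ∃ i : ℕ, (g : Matrix (Fin n) (Fin n) F) = M ^ i ∨ (g : Matrix (Fin n) (Fin n) F) = -(M ^ i)) :
    ¬ ActsIrreducibly (matrixSet G) := by
  classical
  intro hirr
  have hn0 : 0 < n := by omega
  have key : ∀ W : Submodule F (Fin n → F), (∀ v ∈ W, M *ᵥ v ∈ W) → W = ⊥ ∨ W = ⊤ := by
    intro W hW
    have hpow : ∀ i : ℕ, ∀ v ∈ W, M ^ i *ᵥ v ∈ W := by
      intro i
      induction i with
      | zero => intro v hv; rw [pow_zero, Matrix.one_mulVec]; exact hv
      | succ i ih =>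
        intro v hv
        rw [pow_succ', ← Matrix.mulVec_mulVec]
        exact hW _ (ih v hv)
    apply hirr
    rintro _ ⟨g, hg, rfl⟩ _ ⟨v, hv, rfl⟩
    show (g : Matrix (Fin n) (Fin n) F) *ᵥ v ∈ W
    obtain ⟨i, hi | hi⟩ := hG g hg
    · rw [hi]; exact hpow i v hv
    · rw [hi, Matrix.neg_mulVec]; exact W.neg_mem (hpow i v hv)
  set z := ∑ i ∈ Finset.range n, M ^ i with hz
  have hMz : M * z = z := by
    have h1 := Finset.sum_range_succ' (fun i => M ^ i) n
    have h2 := Finset.sum_range_succ (fun i => M ^ i) n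
    rw [hM] at h2
    rw [pow_zero] at h1
    have h3 : ∑ i ∈ Finset.range n, M ^ (i + 1) = z := by
      have h4 := h1.symm.trans h2
      exact add_right_cancel h4
    rw [hz, Finset.mul_sum, ← hz, ← h3]
    apply Finset.sum_congr rfl
    intro i _
    rw [pow_succ']
  by_cases hz0 : z = 0
  · set v : Fin n → F := Pi.single ⟨0, hn0⟩ (1 : F) with hv
    have hv0 : v ≠ 0 := single_ne' hn0
    let W : Submodule F (Fin n → F) := Submodule.span F (Set.range (fun i : Fin (n - 1) => M ^ (i : ℕ) *ᵥ v))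
    have hmem : ∀ i, i < n - 1 → M ^ i *ᵥ v ∈ W := fun i hi => Submodule.subset_span ⟨⟨i, hi⟩, rfl⟩
    have hlast : M ^ (n - 1) *ᵥ v ∈ W := by
      have h1 : n = (n - 1) + 1 := by omega
      have h2 : z *ᵥ v = 0 := by rw [hz0, Matrix.zero_mulVec]
      have h1' : z = ∑ i ∈ Finset.range (n - 1), M ^ i + M ^ (n - 1) := by
        rw [← Finset.sum_range_succ, ← h1]
      rw [h1', Matrix.add_mulVec, Matrix.sum_mulVec] at h2
      have h3 : M ^ (n - 1) *ᵥ v = -∑ i ∈ Finset.range (n - 1), M ^ i *ᵥ v := by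
        rw [eq_neg_iff_add_eq_zero, add_comm]
        exact h2
      rw [h3]
      apply W.neg_mem
      apply W.sum_mem
      intro i hi
      exact hmem i (Finset.mem_range.1 hi)
    rcases key W (by
      intro u hu
      induction hu using Submodule.span_induction with
      | mem x hx =>
        obtain ⟨i, rfl⟩ := hx
        show M *ᵥ (M ^ (i : ℕ) *ᵥ v) ∈ W
        rw [Matrix.mulVec_mulVec, ← pow_succ']
        rcases Nat.lt_or_ge ((i : ℕ) + 1) (n - 1) with h1 | h1
        · exact hmem _ h1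
        · have h2 : (i : ℕ) + 1 = n - 1 := by have := i.2; omega
          rw [h2]; exact hlast
      | zero => rw [Matrix.mulVec_zero]; exact W.zero_mem
      | add x y _ _ hx hy => rw [Matrix.mulVec_add]; exact W.add_mem hx hy
      | smul c x _ hx => rw [Matrix.mulVec_smul]; exact W.smul_mem _ hx) with h1 | h1
    · apply hv0
      have h2 := hmem 0 (by omega)
      rw [h1, Submodule.mem_bot, pow_zero, Matrix.one_mulVec] at h2
      exact h2
    · have h2 : finrank F W ≤ n - 1 := by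
        have := finrank_range_le_card (R := F) (fun i : Fin (n - 1) => M ^ (i : ℕ) *ᵥ v)
        rwa [Fintype.card_fin] at this
      rw [h1, finrank_top, Module.finrank_fintype_fun_eq_card, Fintype.card_fin] at h2
      omega
  · obtain ⟨v, hv⟩ : ∃ v, z *ᵥ v ≠ 0 := by
      by_contra hcon
      push Not at hcon
      apply hz0
      apply Cfsg.Agent.H29.Trv.ext_mulVec
      intro v
      rw [hcon, Matrix.zero_mulVec]
    rcases key (Submodule.span F {z *ᵥ v}) (by
      intro u hu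
      obtain ⟨c, rfl⟩ := Submodule.mem_span_singleton.1 hu
      rw [Matrix.mulVec_smul, Matrix.mulVec_mulVec, hMz]
      exact Submodule.smul_mem _ _ (Submodule.mem_span_singleton_self _)) with h1 | h1
    · rw [Submodule.span_singleton_eq_bot] at h1
      exact hv h1
    · have h2 := finrank_span_singleton (K := F) hv
      rw [h1, finrank_top, Module.finrank_fintype_fun_eq_card, Fintype.card_fin] at h2
      omega

/-- Singer normalisers are reducible or contain no irreducible group of isometries -/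
theorem fld_n [Fintype F] (hp : n.Prime) (hn : Odd n) (h : OrF f) {K : Subalgebra F (Matrix (Fin n) (Fin n) F)}
    (hK : IsFieldSubalgebra n K) (hsa : IsSelfAdjointFor f K) (hG : Fx f G) (hirr : ActsIrreducibly (matrixSet G))
    (hle : G ≤ subalgebraNormalizer K) : False := by
  classical
  have hn2 := hp.two_le
  have hn0 : 0 < n := by omega
  have hker : ∀ g (hg : g ∈ G), conjK K ⟨g, hle hg⟩ = 1 →
      (g : Matrix (Fin n) (Fin n) F) = 1 ∨ (g : Matrix (Fin n) (Fin n) F) = -1 :=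
    fun g hg h1 => singer_ker hn0 h hK hsa (hle hg) (hG g hg) h1
  by_cases hall : ∀ g (hg : g ∈ G), conjK K ⟨g, hle hg⟩ = 1
  · refine cyclic_red hn2 (M := 1) (one_pow _) ?_ hirr
    intro g hg
    refine ⟨0, ?_⟩
    rw [pow_zero]
    exact hker g hg (hall g hg)
  push Not at hall
  obtain ⟨g, hg, hg1⟩ := hall
  haveI : Fact (Nat.card (K ≃ₐ[F] K)).Prime := ⟨by rw [gal_card hn0 hK]; exact hp⟩
  haveI : Finite (K ≃ₐ[F] K) := Nat.finite_of_card_ne_zero (by rw [gal_card hn0 hK]; omega)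
  have hpow : ∀ x (hx : x ∈ G), ∃ i : ℕ, (x : Matrix (Fin n) (Fin n) F) = (g : Matrix (Fin n) (Fin n) F) ^ i ∨
      (x : Matrix (Fin n) (Fin n) F) = -((g : Matrix (Fin n) (Fin n) F) ^ i) := by
    intro x hx
    obtain ⟨i, hi⟩ := mem_powers_of_prime_card (p := Nat.card (K ≃ₐ[F] K)) (g' := conjK K ⟨x, hle hx⟩) rfl hg1
    have hi' : (conjK K ⟨g, hle hg⟩) ^ i = conjK K ⟨x, hle hx⟩ := hi
    have hxg : x * (g ^ i)⁻¹ ∈ G := G.mul_mem hx (G.inv_mem (G.pow_mem hg i))
    have h2 : conjK K ⟨x * (g ^ i)⁻¹, hle hxg⟩ = 1 := by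
      have e1 : (⟨x * (g ^ i)⁻¹, hle hxg⟩ : subalgebraNormalizer K) = ⟨x, hle hx⟩ * (⟨g, hle hg⟩ ^ i)⁻¹ := rfl
      rw [e1, map_mul, map_inv, map_pow, hi', mul_inv_cancel]
    refine ⟨i, ?_⟩
    have h3 : (x : Matrix (Fin n) (Fin n) F) = ((x * (g ^ i)⁻¹ : GL (Fin n) F) : Matrix (Fin n) (Fin n) F) *
        (g : Matrix (Fin n) (Fin n) F) ^ i := by
      rw [← Units.val_pow_eq_pow_val, ← Units.val_mul, inv_mul_cancel_right]
    rcases hker _ hxg h2 with h4 | h4
    · left; rw [h3, h4, one_mul]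
    · right; rw [h3, h4, neg_one_mul]
  have hgn : conjK K ⟨g ^ n, hle (G.pow_mem hg n)⟩ = 1 := by
    have e1 : (⟨g ^ n, hle (G.pow_mem hg n)⟩ : subalgebraNormalizer K) = ⟨g, hle hg⟩ ^ n := rfl
    have e2 : ∀ S : K ≃ₐ[F] K, S ^ n = 1 := by
      intro S
      have := pow_card_eq_one' (x := S)
      rwa [gal_card hn0 hK] at this
    rw [e1, map_pow, e2]
  rcases hker _ (G.pow_mem hg n) hgn with h4 | h4
  · rw [Units.val_pow_eq_pow_val] at h4
    exact cyclic_red hn2 h4 hpow hirr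
  · rw [Units.val_pow_eq_pow_val] at h4
    refine cyclic_red hn2 (M := -(g : Matrix (Fin n) (Fin n) F)) ?_ ?_ hirr
    · rw [hn.neg_pow, h4, neg_neg]
    · intro x hx
      obtain ⟨i, hi⟩ := hpow x hx
      refine ⟨i, ?_⟩
      rcases Nat.even_or_odd i with h5 | h5
      · rw [h5.neg_pow]; exact hi
      · rw [h5.neg_pow, neg_neg]; exact hi.symm

/-- irreducible groups permute the members of a decomposition transitively -/
theorem dec_trans {D : Fin t → Submodule F (Fin n → F)} (hD : IsMDecomposition m D)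
    (hirr : ActsIrreducibly (matrixSet G)) (hle : G ≤ decompositionStabilizer D) (i j : Fin t) :
    ∃ g ∈ G, (D i).map (Matrix.toLin' (g : Matrix (Fin n) (Fin n) F)) = D j := by
  classical
  by_contra hcon
  push Not at hcon
  let W : Submodule F (Fin n → F) := ⨆ g : G, (D i).map (Matrix.toLin' ((g : GL (Fin n) F) : Matrix (Fin n) (Fin n) F))
  have hW : W ≤ ⨆ l, ⨆ (_ : l ≠ j), D l := by
    apply iSup_le
    rintro ⟨g, hg⟩
    obtain ⟨σ, hσ⟩ := hle hg
    have h1 : (D i).map (Matrix.toLin' (g : Matrix (Fin n) (Fin n) F)) = D (σ i) := hσ i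
    show (D i).map (Matrix.toLin' (g : Matrix (Fin n) (Fin n) F)) ≤ _
    rw [h1]
    refine le_iSup₂ (f := fun l (_ : l ≠ j) => D l) (σ i) ?_
    intro h2
    apply hcon g hg
    rw [h1, h2]
  have hne : ∀ l, D l ≠ ⊥ := by
    intro l h0
    have h1 := hD.finrank_eq l
    rw [h0, finrank_bot] at h1
    have := hD.pos
    omega
  have hinv : ∀ s ∈ matrixSet G, W.map (Matrix.toLin' s) ≤ W := by
    rintro _ ⟨h, hh, rfl⟩
    show W.map (Matrix.toLin' (h : Matrix (Fin n) (Fin n) F)) ≤ W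
    rw [Submodule.map_iSup]
    apply iSup_le
    rintro ⟨g, hg⟩
    rw [← Submodule.map_comp, ← Matrix.toLin'_mul, ← Units.val_mul]
    exact le_iSup (fun g : G => (D i).map (Matrix.toLin' ((g : GL (Fin n) F) : Matrix (Fin n) (Fin n) F))) ⟨h * g, G.mul_mem hh hg⟩
  rcases hirr W hinv with h | h
  · apply hne i
    have h1 : (D i).map (Matrix.toLin' (((1 : G) : GL (Fin n) F) : Matrix (Fin n) (Fin n) F)) ≤ W :=
      le_iSup (fun g : G => (D i).map (Matrix.toLin' ((g : GL (Fin n) F) : Matrix (Fin n) (Fin n) F))) 1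
    rw [h, Subgroup.coe_one, Units.val_one, Matrix.toLin'_one, Submodule.map_id, le_bot_iff] at h1
    exact h1
  · apply hne j
    have h1 := (iSupIndep_def.1 hD.indep) j
    rw [h, top_le_iff] at hW
    rw [hW] at h1
    exact disjoint_top.1 h1

/-- isometric members -/
theorem isom_of_map {W W' : Submodule F (Fin n → F)} {g : GL (Fin n) F}
    (hiso : ∀ u v, f ((g : Matrix (Fin n) (Fin n) F) *ᵥ u) ((g : Matrix (Fin n) (Fin n) F) *ᵥ v) = f u v)
    (hg : W.map (Matrix.toLin' (g : Matrix (Fin n) (Fin n) F)) = W') : AreIsometricFor (fun v => f v v) W W' := by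
  subst hg
  have hinj : Function.Injective (Matrix.toLin' (g : Matrix (Fin n) (Fin n) F)) := fun a b hab => mulVec_inj (g := g) hab
  refine ⟨Submodule.equivMapOfInjective _ hinj W, ?_⟩
  intro w
  show f ((g : Matrix (Fin n) (Fin n) F) *ᵥ w) ((g : Matrix (Fin n) (Fin n) F) *ᵥ w) = f w w
  exact hiso _ _

end Cfsg.Agent.H29.Fm
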