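import Mathlib
import Cfsg.Agent.H29_Or3
import Cfsg.Agent.H29_Max7
import Cfsg.Agent.H29_AscE6

set_option autoImplicit false

/-! the normaliser of a Singer field in dimension three over the field of four elements -/

namespace Cfsg.Agent.H29.Fm

open Matrix Module Cfsg.Geo Cfsg.Agent.H29.Clifford Cfsg.Agent.H29.Asc Cfsg.Agent.H29.AscF Cfsg.Agent.H29.Trv
  Cfsg.Agent.H29.AscT
open scoped Kronecker commutatorElement

variable {F : Type*} [Field F] {n k m r w t : ℕ}

/-- elements commuting with a Singer field -/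
theorem comm_of_conjK {K : Subalgebra F (Matrix (Fin n) (Fin n) F)} {g : GL (Fin n) F}
    (hg : g ∈ subalgebraNormalizer K) (h1 : conjK K ⟨g, hg⟩ = 1) :
    ∀ x ∈ K, (g : Matrix (Fin n) (Fin n) F) * x = x * (g : Matrix (Fin n) (Fin n) F) := by
  intro x hx
  have h2 := congrArg Subtype.val (DFunLike.congr_fun h1 ⟨x, hx⟩)
  rw [conjK_apply] at h2
  have h3 : (g : Matrix (Fin n) (Fin n) F) * x * ((g⁻¹ : GL (Fin n) F) : Matrix (Fin n) (Fin n) F) = x := h2
  have h4 : ((g⁻¹ : GL (Fin n) F) : Matrix (Fin n) (Fin n) F) * (g : Matrix (Fin n) (Fin n) F) = 1 := by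
    rw [← Units.val_mul, inv_mul_cancel, Units.val_one]
  calc (g : Matrix (Fin n) (Fin n) F) * x = (g : Matrix (Fin n) (Fin n) F) * x *
        (((g⁻¹ : GL (Fin n) F) : Matrix (Fin n) (Fin n) F) * (g : Matrix (Fin n) (Fin n) F)) := by rw [h4, mul_one]
    _ = _ := by rw [← mul_assoc, h3]

/-- evaluation at a vector -/
noncomputable def evK (hn : 0 < n) {K : Subalgebra F (Matrix (Fin n) (Fin n) F)} (hK : IsFieldSubalgebra n K)
    {v : Fin n → F} (hv0 : v ≠ 0) : K ≃ₗ[F] (Fin n → F) :=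
  let ev : K →ₗ[F] (Fin n → F) :=
    { toFun := fun x => (x : Matrix (Fin n) (Fin n) F) *ᵥ v
      map_add' := by
        intro x y
        show ((x : Matrix (Fin n) (Fin n) F) + (y : Matrix (Fin n) (Fin n) F)) *ᵥ v = _
        rw [Matrix.add_mulVec]
      map_smul' := by
        intro c x
        show (c • (x : Matrix (Fin n) (Fin n) F)) *ᵥ v = _
        rw [Matrix.smul_mulVec]
        rfl }
  have hinj : Function.Injective ev := by
    rw [← LinearMap.ker_eq_bot, LinearMap.ker_eq_bot']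
    intro x hx
    by_contra hx0
    obtain ⟨y, hy, hxy⟩ := hK.inv x x.2 (fun h => hx0 (Subtype.ext h))
    have h2 : y * (x : Matrix (Fin n) (Fin n) F) = 1 := mul_eq_one_comm.1 hxy
    apply hv0
    have h3 : (x : Matrix (Fin n) (Fin n) F) *ᵥ v = 0 := hx
    calc v = (y * (x : Matrix (Fin n) (Fin n) F)) *ᵥ v := by rw [h2, Matrix.one_mulVec]
      _ = 0 := by rw [← Matrix.mulVec_mulVec, h3, Matrix.mulVec_zero]
  have hsurj : Function.Surjective ev := by
    have h2 : finrank F K = finrank F (Fin n → F) := by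
      rw [hK.finrank_eq, Module.finrank_fintype_fun_eq_card, Fintype.card_fin]
    haveI : FiniteDimensional F K := FiniteDimensional.finiteDimensional_submodule (Subalgebra.toSubmodule K)
    exact (LinearMap.injective_iff_surjective_of_finrank_eq_finrank h2).1 hinj
  LinearEquiv.ofBijective ev ⟨hinj, hsurj⟩

theorem evK_apply (hn : 0 < n) {K : Subalgebra F (Matrix (Fin n) (Fin n) F)} (hK : IsFieldSubalgebra n K)
    {v : Fin n → F} (hv0 : v ≠ 0) (x : K) : evK hn hK hv0 x = (x : Matrix (Fin n) (Fin n) F) *ᵥ v := rfl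

theorem mem_of_comm (hn : 0 < n) {K : Subalgebra F (Matrix (Fin n) (Fin n) F)} (hK : IsFieldSubalgebra n K)
    {M : Matrix (Fin n) (Fin n) F} (hcomm : ∀ x ∈ K, M * x = x * M) : M ∈ K := by
  have hv0 := single_ne' (F := F) hn
  set v : Fin n → F := Pi.single ⟨0, hn⟩ (1 : F) with hv
  obtain ⟨κ, hκ⟩ := (evK hn hK hv0).surjective (M *ᵥ v)
  rw [evK_apply] at hκ
  have hgκ : M = κ := by
    apply Cfsg.Agent.H29.Trv.ext_mulVec
    intro u
    obtain ⟨x, hx⟩ := (evK hn hK hv0).surjective u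
    rw [evK_apply] at hx
    rw [← hx, Matrix.mulVec_mulVec, hcomm x x.2, ← Matrix.mulVec_mulVec, ← hκ, Matrix.mulVec_mulVec,
      Matrix.mulVec_mulVec, hK.comm _ x.2 _ κ.2]
  rw [hgκ]
  exact κ.2

theorem card_K [Fintype F] {K : Subalgebra F (Matrix (Fin n) (Fin n) F)} (hK : IsFieldSubalgebra r K) :
    Nat.card K = Fintype.card F ^ r := by
  haveI : FiniteDimensional F K := FiniteDimensional.finiteDimensional_submodule (Subalgebra.toSubmodule K)
  rw [Module.natCard_eq_pow_finrank (K := F) (V := K), hK.finrank_eq, Nat.card_eq_fintype_card]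

/-- the determinant is the norm -/
theorem det_K [Fintype F] (hn : 0 < n) {K : Subalgebra F (Matrix (Fin n) (Fin n) F)} (hK : IsFieldSubalgebra n K)
    (x : K) : algebraMap F K (x : Matrix (Fin n) (Fin n) F).det =
      x ^ ((Fintype.card F ^ n - 1) / (Fintype.card F - 1)) := by
  letI : Field K := (fld_isField hn hK).toField
  haveI : Finite K := Finite.of_injective _ Subtype.val_injective
  have h1 := FiniteField.algebraMap_norm_eq_pow (K := F) (K' := K) (x := x)
  rw [card_K hK, Nat.card_eq_fintype_card] at h1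
  rw [← h1]
  congr 1
  rw [Algebra.norm_apply]
  have hv0 := single_ne' (F := F) hn
  have h2 := LinearMap.det_conj (Algebra.lmul F K x) (evK hn hK hv0)
  rw [← h2]
  have h3 : (((evK hn hK hv0) : K →ₗ[F] (Fin n → F)) ∘ₗ (Algebra.lmul F K x) ∘ₗ
      ((evK hn hK hv0).symm : (Fin n → F) →ₗ[F] K)) = Matrix.toLin' (x : Matrix (Fin n) (Fin n) F) := by
    apply LinearMap.ext
    intro u
    obtain ⟨y, rfl⟩ := (evK hn hK hv0).surjective u
    show evK hn hK hv0 (x * (evK hn hK hv0).symm (evK hn hK hv0 y)) = _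
    rw [LinearEquiv.symm_apply_apply, evK_apply, evK_apply, Matrix.toLin'_apply, Matrix.mulVec_mulVec]
    rfl
  rw [h3, LinearMap.det_toLin']

/-- elements fixed by the Frobenius are scalars -/
theorem mem_base [Fintype F] (hn : 0 < n) {K : Subalgebra F (Matrix (Fin n) (Fin n) F)} (hK : IsFieldSubalgebra r K)
    (x : K) (hx : x ^ Fintype.card F = x) : ∃ c : F, x = algebraMap F K c := by
  classical
  letI : Field K := (fld_isField hn hK).toField
  have h1 : (Polynomial.X ^ Fintype.card F - Polynomial.X : Polynomial F) = ∏ c : F, (Polynomial.X - Polynomial.C c) := by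
    have hcard : Multiset.card ((Polynomial.X ^ Fintype.card F - Polynomial.X : Polynomial F)).roots =
        ((Polynomial.X ^ Fintype.card F - Polynomial.X : Polynomial F)).natDegree := by
      rw [FiniteField.roots_X_pow_card_sub_X, FiniteField.X_pow_card_sub_X_natDegree_eq F Fintype.one_lt_card]
      rfl
    have hmon : (Polynomial.X ^ Fintype.card F - Polynomial.X : Polynomial F).Monic :=
      Polynomial.monic_X_pow_sub (by
        rw [Polynomial.degree_X]; exact_mod_cast Fintype.one_lt_card)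
    have := Polynomial.prod_multiset_X_sub_C_of_monic_of_roots_card_eq hmon hcard
    rw [FiniteField.roots_X_pow_card_sub_X] at this
    rw [← this]
    rfl
  have h2 := congrArg (Polynomial.aeval x) h1
  rw [map_sub, map_pow, Polynomial.aeval_X, hx, sub_self, map_prod] at h2
  obtain ⟨c, -, hc⟩ := Finset.prod_eq_zero_iff.1 h2.symm
  refine ⟨c, ?_⟩
  rw [map_sub, Polynomial.aeval_X, Polynomial.aeval_C] at hc
  exact sub_eq_zero.1 hc

theorem fixed_scalar [Fintype F] (hn : 0 < n) (hr : r.Prime) {K : Subalgebra F (Matrix (Fin n) (Fin n) F)}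
    (hK : IsFieldSubalgebra r K) {α : K ≃ₐ[F] K} (hα : α ≠ 1) (x : K) (hx : α x = x) :
    ∃ c : F, x = algebraMap F K c := by
  letI : Field K := (fld_isField hn hK).toField
  haveI : Finite K := Finite.of_injective _ Subtype.val_injective
  haveI : FiniteDimensional F K := FiniteDimensional.finiteDimensional_submodule (Subalgebra.toSubmodule K)
  haveI : Fact r.Prime := ⟨hr⟩
  have h1 : x ∈ Set.range (algebraMap F K) := by
    rw [IsGalois.mem_range_algebraMap_iff_fixed]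
    intro β
    have h2 : β ∈ Subgroup.zpowers α := mem_zpowers_of_prime_card (gal_card hn hK) hα
    have h3 : Subgroup.zpowers α ≤ MulAction.stabilizer (K ≃ₐ[F] K) x := by
      rw [Subgroup.zpowers_le]
      exact hx
    exact h3 h2
  obtain ⟨c, hc⟩ := h1
  exact ⟨c, hc.symm⟩

theorem irr_det {M : Matrix (Fin 3) (Fin 3) F} {c : F} (hc : M ^ 3 = c • (1 : Matrix (Fin 3) (Fin 3) F))
    (hb : ∀ b : F, b ^ 3 ≠ c) : M.det = c := by
  have hirr := X_pow_sub_C_irreducible_of_prime Nat.prime_three hb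
  have hmon : (Polynomial.X ^ 3 - Polynomial.C c : Polynomial F).Monic := Polynomial.monic_X_pow_sub_C c (by norm_num)
  have h1 : minpoly F M = Polynomial.X ^ 3 - Polynomial.C c := by
    symm
    apply minpoly.eq_of_irreducible_of_monic hirr _ hmon
    rw [map_sub, map_pow, Polynomial.aeval_X, Polynomial.aeval_C, hc, Algebra.algebraMap_eq_smul_one, sub_self]
  have h2 : M.charpoly = Polynomial.X ^ 3 - Polynomial.C c := by
    apply Polynomial.eq_of_monic_of_dvd_of_natDegree_le hmon (Matrix.charpoly_monic M)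
    · rw [← h1]
      exact Matrix.minpoly_dvd_charpoly M
    · rw [Matrix.charpoly_natDegree_eq_dim, Polynomial.natDegree_X_pow_sub_C, Fintype.card_fin]
  rw [Matrix.det_eq_sign_charpoly_coeff, h2, Fintype.card_fin]
  simp
  ring

theorem semilinear_cube [Fintype F] (hq : Fintype.card F = 4) {K : Subalgebra F (Matrix (Fin 3) (Fin 3) F)}
    (hK : IsFieldSubalgebra 3 K) {g : GL (Fin 3) F} (hg : g ∈ subalgebraNormalizer K)
    (hdet : (g : Matrix (Fin 3) (Fin 3) F).det = 1) (h1 : conjK K ⟨g, hg⟩ ≠ 1) :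
    (g : Matrix (Fin 3) (Fin 3) F) ^ 3 = 1 := by
  have hn : 0 < 3 := by norm_num
  have hg3 : g ^ 3 ∈ subalgebraNormalizer K := Subgroup.pow_mem _ hg 3
  have h2 : conjK K ⟨g ^ 3, hg3⟩ = 1 := by
    have e1 : (⟨g ^ 3, hg3⟩ : subalgebraNormalizer K) = ⟨g, hg⟩ ^ 3 := rfl
    rw [e1, map_pow]
    have h3 : orderOf (conjK K ⟨g, hg⟩) ∣ 3 := by
      have := orderOf_dvd_natCard (conjK K ⟨g, hg⟩)
      rwa [gal_card hn hK] at this
    exact orderOf_dvd_iff_pow_eq_one.1 h3
  have h3 := comm_of_conjK hg3 h2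
  have h4 := mem_of_comm hn hK h3
  rw [Units.val_pow_eq_pow_val] at h4
  obtain ⟨c, hc⟩ := fixed_scalar hn Nat.prime_three hK h1 ⟨_, h4⟩ (by
    apply Subtype.ext
    rw [conjK_apply]
    show (g : Matrix (Fin 3) (Fin 3) F) * (g : Matrix (Fin 3) (Fin 3) F) ^ 3 *
      ((g⁻¹ : GL (Fin 3) F) : Matrix (Fin 3) (Fin 3) F) = (g : Matrix (Fin 3) (Fin 3) F) ^ 3
    rw [← pow_succ', pow_succ, mul_assoc, ← Units.val_mul, mul_inv_cancel, Units.val_one, mul_one])
  have hc' : (g : Matrix (Fin 3) (Fin 3) F) ^ 3 = c • (1 : Matrix (Fin 3) (Fin 3) F) := by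
    have := congrArg Subtype.val hc
    rw [← Algebra.algebraMap_eq_smul_one]
    exact this
  clear hc h4 h3 h2 hg3
  by_cases hc1 : c = 1
  · rw [hc', hc1, one_smul]
  · exfalso
    apply hc1
    rw [← hdet]
    symm
    apply irr_det hc'
    intro b hb
    by_cases hb0 : b = 0
    · rw [hb0, zero_pow (by norm_num)] at hb
      have h6 := congrArg Matrix.det hc'
      rw [Matrix.det_pow, hdet, ← hb, zero_smul, Matrix.det_zero] at h6
      simp at h6
    · apply hc1
      rw [← hb]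
      have := FiniteField.pow_card_sub_one_eq_one b hb0
      rwa [hq] at this

theorem eigen_cube {M : Matrix (Fin n) (Fin n) F} (hn : 0 < n) {ω : F} (hω : ω ^ 2 + ω + 1 = 0) (hM : M ^ 3 = 1) :
    ∃ (v : Fin n → F) (c : F), v ≠ 0 ∧ c ≠ 0 ∧ M *ᵥ v = c • v := by
  have hω0 : ω ≠ 0 := by
    intro h; rw [h] at hω; norm_num at hω
  have hv0 := single_ne' (F := F) hn
  set v : Fin n → F := Pi.single ⟨0, hn⟩ (1 : F) with hv
  by_cases h1 : M *ᵥ v = v
  · exact ⟨v, 1, hv0, one_ne_zero, by rw [one_smul, h1]⟩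
  set v₂ := M *ᵥ v - v with hv₂
  have h2 : v₂ ≠ 0 := sub_ne_zero.2 h1
  by_cases h3 : M *ᵥ v₂ = ω • v₂
  · exact ⟨v₂, ω, h2, hω0, h3⟩
  set v₃ := M *ᵥ v₂ - ω • v₂ with hv₃
  have h4 : v₃ ≠ 0 := sub_ne_zero.2 h3
  refine ⟨v₃, ω ^ 2, h4, pow_ne_zero _ hω0, ?_⟩
  have h5 : M *ᵥ M *ᵥ M *ᵥ v = v := by
    rw [Matrix.mulVec_mulVec, Matrix.mulVec_mulVec]
    have : M * M * M = M ^ 3 := by rw [pow_succ, pow_two]
    rw [this, hM, Matrix.one_mulVec]
  rw [hv₃, hv₂]
  simp only [Matrix.mulVec_sub, Matrix.mulVec_smul]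
  rw [h5]
  have h6 : ω ^ 2 = -ω - 1 := by linear_combination hω
  have h7 : ω * ω = -ω - 1 := by linear_combination hω
  rw [h6]
  simp only [smul_sub, sub_smul, neg_smul, one_smul, smul_smul, h7]
  have h8 : (-ω - 1) * ω = 1 := by linear_combination -hω
  rw [h8]
  module

/-- the elements of norm one over the field of four elements -/
theorem norm_one_four [Fintype F] (hq : Fintype.card F = 4) {K : Subalgebra F (Matrix (Fin 3) (Fin 3) F)}
    (hK : IsFieldSubalgebra 3 K) (x : K) (hx : (x : Matrix (Fin 3) (Fin 3) F).det = 1) :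
    ∃ (c : F) (y : K), y ^ 8 = y ∧ x = c • y := by
  have hn : 0 < 3 := by norm_num
  have h1 : x ^ 21 = 1 := by
    have := det_K hn hK x
    rw [hx, map_one, hq] at this
    exact this.symm
  obtain ⟨c, hc⟩ := mem_base hn hK (x ^ 7) (by
    rw [hq, ← pow_mul]
    calc x ^ (7 * 4) = x ^ 21 * x ^ 7 := by rw [← pow_add]
      _ = x ^ 7 := by rw [h1, one_mul])
  refine ⟨c, x ^ 15, ?_, ?_⟩
  · rw [← pow_mul]
    calc x ^ (15 * 8) = (x ^ 21) ^ 5 * x ^ 15 := by rw [← pow_mul, ← pow_add]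
      _ = x ^ 15 := by rw [h1, one_pow, one_mul]
  · rw [Algebra.smul_def, ← hc, ← pow_add]
    calc x = x ^ 21 * x := by rw [h1, one_mul]
      _ = x ^ (7 + 15) := by rw [← pow_succ]

/-- the group elements act on an eigenvector like scalars times elements of norm one -/
theorem exists_special_vector [Fintype F] (hq : Fintype.card F = 4) {K : Subalgebra F (Matrix (Fin 3) (Fin 3) F)}
    (hK : IsFieldSubalgebra 3 K) : ∃ v : Fin 3 → F, v ≠ 0 ∧ ∀ g ∈ subalgebraNormalizer K ⊓ specialLinear (Fin 3) F,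
      ∃ (c : F) (y : K), c ≠ 0 ∧ y ^ 8 = y ∧ (g : Matrix (Fin 3) (Fin 3) F) *ᵥ v =
        c • ((y : Matrix (Fin 3) (Fin 3) F) *ᵥ v) := by
  classical
  have hn : 0 < 3 := by norm_num
  have hdet1 : ∀ g ∈ specialLinear (Fin 3) F, (g : Matrix (Fin 3) (Fin 3) F).det = 1 := by
    intro g hg
    have : Matrix.GeneralLinearGroup.det g = 1 := hg
    have h2 := congrArg (Units.val) this
    simpa using h2
  -- elements with trivial conjugation action
  have hker : ∀ (g : GL (Fin 3) F) (hg : g ∈ subalgebraNormalizer K), g ∈ specialLinear (Fin 3) F →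
      conjK K ⟨g, hg⟩ = 1 → ∃ (c : F) (y : K), c ≠ 0 ∧ y ^ 8 = y ∧ (g : Matrix (Fin 3) (Fin 3) F) =
        c • (y : Matrix (Fin 3) (Fin 3) F) := by
    intro g hg hgs h1
    have h2 := mem_of_comm hn hK (comm_of_conjK hg h1)
    obtain ⟨c, y, hy, hx⟩ := norm_one_four hq hK ⟨_, h2⟩ (hdet1 g hgs)
    refine ⟨c, y, ?_, hy, congrArg Subtype.val hx⟩
    intro hc
    rw [hc, zero_smul] at hx
    have h3 : (g : Matrix (Fin 3) (Fin 3) F) = 0 := congrArg Subtype.val hx
    have h4 := hdet1 g hgs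
    rw [h3, Matrix.det_zero] at h4
    · exact zero_ne_one h4
  by_cases hall : ∀ (g : GL (Fin 3) F) (hg : g ∈ subalgebraNormalizer K), g ∈ specialLinear (Fin 3) F →
      conjK K ⟨g, hg⟩ = 1
  · refine ⟨_, single_ne' hn, fun g hg => ?_⟩
    obtain ⟨c, y, hc, hy, h⟩ := hker g hg.1 hg.2 (hall g hg.1 hg.2)
    exact ⟨c, y, hc, hy, by rw [h, Matrix.smul_mulVec]⟩
  · push Not at hall
    obtain ⟨g₀, hg₀, hg₀s, h0⟩ := hall
    have h3 := semilinear_cube hq hK hg₀ (hdet1 _ hg₀s) h0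
    obtain ⟨ω, hω⟩ : ∃ ω : F, ω ^ 2 + ω + 1 = 0 := by
      obtain ⟨ζ, hζ⟩ := exists_prim (F := F) (s := 3) (by rw [hq])
      refine ⟨ζ, ?_⟩
      have h4 := hζ.pow_eq_one
      have h5 := hζ.ne_one (by norm_num)
      have h6 : (ζ - 1) * (ζ ^ 2 + ζ + 1) = 0 := by
        ring_nf
        rw [h4]
        ring
      exact (mul_eq_zero.1 h6).resolve_left (sub_ne_zero.2 h5)
    obtain ⟨v, c₀, hv, hc₀, hev⟩ := eigen_cube hn hω h3
    refine ⟨v, hv, ?_⟩
    rintro h ⟨hh, hhs⟩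
    haveI : Fact (Nat.Prime 3) := ⟨Nat.prime_three⟩
    obtain ⟨i, hi⟩ := mem_powers_of_prime_card (G := K ≃ₐ[F] K) (gal_card hn hK) h0 (g' := conjK K ⟨h, hh⟩)
    have hi' : conjK K ⟨g₀, hg₀⟩ ^ i = conjK K ⟨h, hh⟩ := hi
    have hmem : h * (g₀ ^ i)⁻¹ ∈ subalgebraNormalizer K := Subgroup.mul_mem _ hh (Subgroup.inv_mem _ (Subgroup.pow_mem _ hg₀ i))
    have hmems : h * (g₀ ^ i)⁻¹ ∈ specialLinear (Fin 3) F :=
      Subgroup.mul_mem _ hhs (Subgroup.inv_mem _ (Subgroup.pow_mem _ hg₀s i))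
    obtain ⟨c, y, hc, hy, hy'⟩ := hker _ hmem hmems (by
      have e1 : (⟨h * (g₀ ^ i)⁻¹, hmem⟩ : subalgebraNormalizer K) = ⟨h, hh⟩ * (⟨g₀, hg₀⟩ ^ i)⁻¹ := rfl
      rw [e1, map_mul, map_inv, map_pow, hi', mul_inv_cancel])
    have hpow : ∀ j : ℕ, ((g₀ ^ j : GL (Fin 3) F) : Matrix (Fin 3) (Fin 3) F) *ᵥ v = c₀ ^ j • v := by
      intro j
      induction j with
      | zero => rw [pow_zero, pow_zero, Units.val_one, Matrix.one_mulVec, one_smul]
      | succ j ih =>
        rw [pow_succ', Units.val_mul, ← Matrix.mulVec_mulVec, ih, Matrix.mulVec_smul, hev, smul_smul, pow_succ]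
    refine ⟨c * c₀ ^ i, y, mul_ne_zero hc (pow_ne_zero _ hc₀), hy, ?_⟩
    have e2 : h = h * (g₀ ^ i)⁻¹ * g₀ ^ i := by rw [inv_mul_cancel_right]
    calc (h : Matrix (Fin 3) (Fin 3) F) *ᵥ v = ((h * (g₀ ^ i)⁻¹ * g₀ ^ i : GL (Fin 3) F) : Matrix (Fin 3) (Fin 3) F) *ᵥ v := by
          rw [← e2]
      _ = (c • (y : Matrix (Fin 3) (Fin 3) F)) *ᵥ (c₀ ^ i • v) := by
          rw [Units.val_mul, ← Matrix.mulVec_mulVec, hpow, hy']
      _ = _ := by rw [Matrix.smul_mulVec, Matrix.mulVec_smul, smul_smul, mul_comm]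

end Cfsg.Agent.H29.Fm
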