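import Mathlib
import Cfsg.Agent.H29_Lc1

set_option autoImplicit false

/-! the normaliser of a Singer field in dimension three over the field of four elements -/

namespace Cfsg.Agent.H29.Fm

open Matrix Module Cfsg.Geo Cfsg.Agent.H29.Clifford Cfsg.Agent.H29.Asc Cfsg.Agent.H29.AscF Cfsg.Agent.H29.Trv
  Cfsg.Agent.H29.AscT
open scoped Kronecker commutatorElement

variable {F : Type*} [Field F] {n k m r w t : ℕ}

theorem charTwo_four [Fintype F] (hq : Fintype.card F = 4) : CharP F 2 := by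
  obtain ⟨p, hp⟩ := CharP.exists F
  haveI := hp
  obtain ⟨e, hpp, he⟩ := FiniteField.card F p
  rw [hq] at he
  have h1 : p ∣ 2 ^ 2 := by
    have : p ∣ p ^ (e : ℕ) := dvd_pow_self p e.pos.ne'
    rw [← he] at this
    exact this
  have h2 := (Nat.prime_dvd_prime_iff_eq hpp Nat.prime_two).1 (hpp.dvd_of_dvd_pow h1)
  subst h2
  exact hp

/-- an element of order seven generating the Singer field -/
theorem exists_seven [Fintype F] (hq : Fintype.card F = 4) {K : Subalgebra F (Matrix (Fin 3) (Fin 3) F)}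
    (hK : IsFieldSubalgebra 3 K) : ∃ l : K, l ^ 8 = l ∧ LinearIndependent F (fun j : Fin 3 => l ^ (j : ℕ)) := by
  classical
  have hn : 0 < 3 := by norm_num
  letI : Field K := (fld_isField hn hK).toField
  haveI : Finite K := Finite.of_injective _ Subtype.val_injective
  letI : Fintype K := Fintype.ofFinite K
  haveI : FiniteDimensional F K := FiniteDimensional.finiteDimensional_submodule (Subalgebra.toSubmodule K)
  obtain ⟨l, hl⟩ := exists_prim (F := K) (s := 7) (by
    rw [← Nat.card_eq_fintype_card, card_K hK, hq]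
    norm_num)
  have h7 := hl.pow_eq_one
  refine ⟨l, by rw [show (8 : ℕ) = 7 + 1 from rfl, pow_succ, h7, one_mul], ?_⟩
  have hint : IsIntegral F l := IsIntegral.of_finite F l
  have h1 : (minpoly F l).natDegree ∣ 3 := by
    have := minpoly.degree_dvd hint
    rwa [hK.finrank_eq] at this
  have h2 : (minpoly F l).natDegree ≠ 1 := by
    intro h
    rw [minpoly.natDegree_eq_one_iff] at h
    obtain ⟨c, hc⟩ := h
    have hc0 : c ≠ 0 := by
      intro h0
      rw [h0, map_zero] at hc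
      rw [← hc] at h7
      norm_num at h7
    have h3 := FiniteField.pow_card_sub_one_eq_one c hc0
    rw [hq] at h3
    have h4 : l ^ 3 = 1 := by rw [← hc, ← map_pow, h3, map_one]
    have h5 := hl.dvd_of_pow_eq_one 3 h4
    norm_num at h5
  have h3 : (minpoly F l).natDegree = 3 := ((Nat.dvd_prime Nat.prime_three).1 h1).resolve_left h2
  have h4 := linearIndependent_pow (K := F) l
  rw [h3] at h4
  exact h4

theorem singer_four [Fintype F] (hq : Fintype.card F = 4) {K : Subalgebra F (Matrix (Fin 3) (Fin 3) F)}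
    (hK : IsFieldSubalgebra 3 K) : ∃ (F₀ : Subfield F) (r : ℕ) (P : GL (Fin 3) F), r.Prime ∧
      Fintype.card F = Nat.card F₀ ^ r ∧
      subalgebraNormalizer K ⊓ specialLinear (Fin 3) F ≤ subfieldSubgroup F₀ P := by
  classical
  have hn : 0 < 3 := by norm_num
  haveI := charTwo_four hq
  haveI : Fact (Nat.Prime 2) := ⟨Nat.prime_two⟩
  obtain ⟨F₀, hF₀, hmem⟩ := frob_proper (F := F) (p := 2) (e := 2) (d := 1) (by rw [hq]; norm_num) (by norm_num) (by norm_num)
  obtain ⟨F₁, r, h01, hr, hcard⟩ := exists_max_subfield F₀ hF₀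
  obtain ⟨v, hv, hspec⟩ := exists_special_vector hq hK
  obtain ⟨l, hl8, hli⟩ := exists_seven hq hK
  -- the basis
  have hlv : LinearIndependent F (fun j : Fin 3 => evK hn hK hv (l ^ (j : ℕ))) :=
    hli.map' _ (LinearEquiv.ker _)
  let b := basisOfLinearIndependentOfCardEqFinrank hlv (by
    rw [Module.finrank_fintype_fun_eq_card])
  have hb : ∀ j, b j = evK hn hK hv (l ^ (j : ℕ)) := fun j => by
    simp [b]
  obtain ⟨P, hP⟩ := exists_GL_basis b (Equiv.refl _)
  have hP' : ∀ j, (P : Matrix (Fin 3) (Fin 3) F) *ᵥ Pi.single j 1 = ((l ^ (j : ℕ) : K) : Matrix (Fin 3) (Fin 3) F) *ᵥ v := by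
    intro j
    rw [hP, Equiv.refl_apply, hb, evK_apply]
  refine ⟨F₁, r, P, hr, hcard, fun g hg => ?_⟩
  have hcharK : CharP K 2 := charP_of_injective_algebraMap (R := F) (A := K) (by
    letI : Field K := (fld_isField hn hK).toField
    exact (algebraMap F K).injective) 2
  -- rational coordinates
  have hrat : ∀ x : K, x ^ 8 = x → ∀ i, (((P⁻¹ : GL (Fin 3) F) : Matrix (Fin 3) (Fin 3) F) *ᵥ
      ((x : Matrix (Fin 3) (Fin 3) F) *ᵥ v)) i ∈ F₀ := by
    intro x hx i
    letI : Field K := (fld_isField hn hK).toField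
    obtain ⟨a, ha⟩ : ∃ a : Fin 3 → F, x = ∑ j, a j • l ^ (j : ℕ) := by
      have h1 := b.sum_repr (evK hn hK hv x)
      refine ⟨fun j => b.repr (evK hn hK hv x) j, ?_⟩
      apply (evK hn hK hv).injective
      rw [map_sum, ← h1]
      apply Finset.sum_congr rfl
      intro j _
      rw [map_smul, hb, h1]
    have hx8 : x ^ 8 = ∑ j, (a j ^ 2) • l ^ (j : ℕ) := by
      have h1 : ∀ y : K, y ^ 8 = iterateFrobenius K 2 3 y := fun y => rfl
      rw [h1]
      conv_lhs => rw [ha]
      rw [map_sum]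
      apply Finset.sum_congr rfl
      intro j _
      rw [← h1, smul_pow, ← pow_mul, mul_comm, pow_mul, hl8]
      congr 1
      have := FiniteField.pow_card (a j)
      rw [hq] at this
      calc a j ^ 8 = (a j ^ 4) ^ 2 := by rw [← pow_mul]
        _ = a j ^ 2 := by rw [this]
    have haj : ∀ j, a j ^ 2 = a j := by
      rw [hx] at hx8
      have h1 : ∑ j, (a j ^ 2 - a j) • l ^ (j : ℕ) = 0 := by
        simp only [sub_smul, Finset.sum_sub_distrib]
        rw [← hx8, ← ha, sub_self]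
      have h2 := Fintype.linearIndependent_iff.1 hli _ h1
      exact fun j => sub_eq_zero.1 (h2 j)
    have h3 : (x : Matrix (Fin 3) (Fin 3) F) *ᵥ v = (P : Matrix (Fin 3) (Fin 3) F) *ᵥ a := by
      have h4 : a = ∑ j, a j • (Pi.single j 1 : Fin 3 → F) := by
        conv_lhs => rw [pi_eq_sum_univ' a]
      rw [h4, Matrix.mulVec_sum]
      simp only [Matrix.mulVec_smul, hP']
      have h5 : (x : Matrix (Fin 3) (Fin 3) F) = ∑ j, a j • ((l ^ (j : ℕ) : K) : Matrix (Fin 3) (Fin 3) F) := by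
        conv_lhs => rw [ha]
        rw [AddSubmonoidClass.coe_finset_sum]
        rfl
      rw [h5, Matrix.sum_mulVec]
      simp only [Matrix.smul_mulVec]
    rw [h3, Matrix.mulVec_mulVec, ← Units.val_mul, inv_mul_cancel, Units.val_one, Matrix.one_mulVec, hmem, pow_one]
    exact haj i
  -- the group element
  obtain ⟨c, y, hc, hy, hgv⟩ := hspec g hg
  have hg1 : g ∈ subalgebraNormalizer K := hg.1
  rw [mem_subfieldSubgroup_iff]
  apply mem_range_sup F₁ _ c⁻¹ (inv_ne_zero hc)
  intro i j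
  apply h01
  have hcol : ((P⁻¹ * g * P : GL (Fin 3) F) : Matrix (Fin 3) (Fin 3) F) i j =
      (((P⁻¹ : GL (Fin 3) F) : Matrix (Fin 3) (Fin 3) F) *ᵥ ((g : Matrix (Fin 3) (Fin 3) F) *ᵥ
        ((P : Matrix (Fin 3) (Fin 3) F) *ᵥ Pi.single j 1))) i := by
    rw [Matrix.mulVec_mulVec, Matrix.mulVec_mulVec, Units.val_mul, Units.val_mul, Matrix.mulVec_single_one]
    rfl
  have hgl : (g : Matrix (Fin 3) (Fin 3) F) *ᵥ (((l ^ (j : ℕ) : K) : Matrix (Fin 3) (Fin 3) F) *ᵥ v) =
      c • (((conjK K ⟨g, hg1⟩ (l ^ (j : ℕ)) * y : K) : Matrix (Fin 3) (Fin 3) F) *ᵥ v) := by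
    have h1 : ((conjK K ⟨g, hg1⟩ (l ^ (j : ℕ)) * y : K) : Matrix (Fin 3) (Fin 3) F) *ᵥ v =
      ((g : Matrix (Fin 3) (Fin 3) F) * ((l ^ (j : ℕ) : K) : Matrix (Fin 3) (Fin 3) F) *
        ((g⁻¹ : GL (Fin 3) F) : Matrix (Fin 3) (Fin 3) F)) *ᵥ ((y : Matrix (Fin 3) (Fin 3) F) *ᵥ v) := by
      rw [Matrix.mulVec_mulVec]
      rfl
    rw [h1, ← Matrix.mulVec_smul, ← hgv, Matrix.mulVec_mulVec, Matrix.mulVec_mulVec, mul_assoc _ _ (g : Matrix (Fin 3) (Fin 3) F), ← Units.val_mul,
      inv_mul_cancel, Units.val_one, mul_one]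
  rw [hcol, hP', hgl, Matrix.mulVec_smul, Pi.smul_apply, smul_eq_mul, inv_mul_cancel_left₀ hc]
  apply hrat
  letI : Field K := (fld_isField hn hK).toField
  rw [mul_pow, hy, ← map_pow, ← pow_mul, mul_comm (j : ℕ), pow_mul, hl8]

theorem sub_of_le [Fintype F] (hn : 2 ≤ n) {H : Subgroup (GL (Fin n) F)}
    (hH : IsMaximalIn (specialLinear (Fin n) F) H) {F₀ : Subfield F} {P : GL (Fin n) F}
    (hr : r.Prime) (hcard : Fintype.card F = Nat.card F₀ ^ r) (hle : H ≤ subfieldSubgroup F₀ P) :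
    H = subfieldSubgroup F₀ P ⊓ specialLinear (Fin n) F := by
  refine eq_of_max hH hle (not_SL_le_sub hn ?_ P)
  rintro rfl
  have h1 : Nat.card (⊤ : Subfield F) = Fintype.card F := by
    rw [← Nat.card_eq_fintype_card]
    exact Nat.card_congr (Subfield.topEquiv).toEquiv
  rw [h1] at hcard
  have h2 := Fintype.one_lt_card (α := F)
  have h3 : Fintype.card F ^ 1 < Fintype.card F ^ r := Nat.pow_lt_pow_right h2 hr.one_lt
  rw [pow_one, ← hcard] at h3
  exact lt_irrefl _ h3

end Cfsg.Agent.H29.Fm
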