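import Mathlib
import Cfsg.Agent.H29_Max7

set_option autoImplicit false

/-! the monomial group of dimension four over the field of five elements is not maximal -/

namespace Cfsg.Agent.H29.P4

open Matrix Module Cfsg.Geo Cfsg.Agent.H29.Asc

variable {F : Type*} [Field F]

/-- addition on the four-group -/
def xo (a j : Fin 4) : Fin 4 := ![![0, 1, 2, 3], ![1, 0, 3, 2], ![2, 3, 0, 1], ![3, 2, 1, 0]] a j

/-- the pairing on the four-group -/
def tt (a j : Fin 4) : Bool := ![![false, false, false, false], ![false, true, false, true],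
  ![false, false, true, true], ![false, true, true, false]] a j

/-- characters -/
def s (F : Type*) [Field F] (b j : Fin 4) : F := if tt b j then -1 else 1

theorem tt_symm : ∀ a b, tt a b = tt b a := by decide
theorem tt_xo : ∀ i a j, tt i (xo a j) = xor (tt i a) (tt i j) := by decide
theorem xo_inv : ∀ b i, xo b (xo b i) = i := by decide
theorem xo_iff : ∀ b i k, i = xo b k ↔ k = xo b i := by decide

theorem s_symm (a b : Fin 4) : s F a b = s F b a := by rw [s, s, tt_symm]

theorem s_xo (i a j : Fin 4) : s F i (xo a j) = s F i a * s F i j := by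
  rw [s, s, s, tt_xo]
  cases tt i a <;> cases tt i j <;> simp

theorem s_sq (i a : Fin 4) : s F i a ^ 2 = 1 := by
  rw [s]; split_ifs <;> simp

theorem s_ne (i a : Fin 4) : s F i a ≠ 0 := by
  rw [s]; split_ifs <;> simp

theorem s_prod (b : Fin 4) : ∏ j, s F b j = 1 := by
  fin_cases b <;> simp [Fin.prod_univ_four, s, tt]

/-- the Pauli matrices -/
def S (F : Type*) [Field F] : Set (Matrix (Fin 4) (Fin 4) F) :=
  {M | ∃ (a b : Fin 4) (c : F), c ≠ 0 ∧ ∀ i j, M i j = if i = xo a j then c * s F b j else 0}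

/-- the stabiliser of the set of Pauli matrices -/
def N (F : Type*) [Field F] : Subgroup (GL (Fin 4) F) where
  carrier := {g | ∀ M ∈ S F, (g : Matrix (Fin 4) (Fin 4) F) * M * ((g⁻¹ : GL (Fin 4) F) : Matrix (Fin 4) (Fin 4) F) ∈ S F ∧
    ((g⁻¹ : GL (Fin 4) F) : Matrix (Fin 4) (Fin 4) F) * M * (g : Matrix (Fin 4) (Fin 4) F) ∈ S F}
  one_mem' := by
    intro M hM
    simp only [inv_one, Units.val_one, one_mul, mul_one]
    exact ⟨hM, hM⟩
  mul_mem' := by
    intro g h hg hh M hM
    constructor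
    · have h1 := (hg _ (hh M hM).1).1
      rw [Units.val_mul, _root_.mul_inv_rev, Units.val_mul]
      simp only [mul_assoc] at h1 ⊢
      exact h1
    · have h1 := (hh _ (hg M hM).2).2
      rw [Units.val_mul, _root_.mul_inv_rev, Units.val_mul]
      simp only [mul_assoc] at h1 ⊢
      exact h1
  inv_mem' := by
    intro g hg M hM
    rw [inv_inv]
    exact ⟨(hg M hM).2, (hg M hM).1⟩

theorem two_ne (hq5 : (5 : F) = 0) : (2 : F) ≠ 0 := by
  intro h
  have : (1 : F) = 5 - 2 * 2 := by norm_num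
  rw [hq5, h] at this
  norm_num at this

/-- functions with constant squares and product one -/
theorem chars (hq5 : (5 : F) = 0) (h4 : ∀ x : F, x ≠ 0 → x ^ 4 = 1) (u : Fin 4 → F) (h2 : ∀ j k, u j ^ 2 = u k ^ 2)
    (hp : ∏ j, u j = 1) : ∃ (c : F) (b : Fin 4), c ≠ 0 ∧ ∀ j, u j = c * s F b j := by
  have h0 : u 0 ≠ 0 := by
    intro h0
    rw [Fin.prod_univ_four, h0] at hp
    simp at hp
  have h40 := h4 _ h0
  have hne : (-1 : F) ≠ 1 := by
    intro h
    apply two_ne hq5
    linear_combination -h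
  rw [Fin.prod_univ_four] at hp
  have k1 := sq_eq_sq_iff_eq_or_eq_neg.1 (h2 1 0)
  have k2 := sq_eq_sq_iff_eq_or_eq_neg.1 (h2 2 0)
  have k3 := sq_eq_sq_iff_eq_or_eq_neg.1 (h2 3 0)
  rcases k1 with h1 | h1 <;> rcases k2 with h2 | h2 <;> rcases k3 with h3 | h3 <;> rw [h1, h2, h3] at hp
  · exact ⟨u 0, 0, h0, fun j => by fin_cases j <;> simp [s, tt, h1, h2, h3]⟩
  · exact absurd (by linear_combination hp + h40) hne
  · exact absurd (by linear_combination hp + h40) hne
  · exact ⟨u 0, 2, h0, fun j => by fin_cases j <;> simp [s, tt, h1, h2, h3]⟩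
  · exact absurd (by linear_combination hp + h40) hne
  · exact ⟨u 0, 1, h0, fun j => by fin_cases j <;> simp [s, tt, h1, h2, h3]⟩
  · exact ⟨u 0, 3, h0, fun j => by fin_cases j <;> simp [s, tt, h1, h2, h3]⟩
  · exact absurd (by linear_combination hp + h40) hne

theorem sq_pair (hq5 : (5 : F) = 0) (h4 : ∀ x : F, x ≠ 0 → x ^ 4 = 1) (d : Fin 4 → F) (hd : ∀ j, d j ≠ 0)
    (hp : (∏ j, d j) ^ 2 = 1) (a j k : Fin 4) : (d (xo a j) * d j) ^ 2 = (d (xo a k) * d k) ^ 2 := by
  have h : ∀ x : Fin 4 → F, (∀ j, x j ^ 2 = 1) → (∏ j, x j) = 1 → ∀ a j k, x (xo a j) * x j = x (xo a k) * x k := by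
    intro x hx hpx a j k
    rw [Fin.prod_univ_four] at hpx
    have h0 := hx 0
    have h1 := hx 1
    have h2 := hx 2
    have h3 := hx 3
    have e1 : x 0 * x 1 = x 2 * x 3 := by
      linear_combination (x 2 * x 3) * hpx - x 0 * x 1 * (x 3) ^ 2 * h2 - x 0 * x 1 * h3
    have e2 : x 0 * x 2 = x 1 * x 3 := by
      linear_combination (x 1 * x 3) * hpx - x 0 * x 2 * (x 3) ^ 2 * h1 - x 0 * x 2 * h3
    have e3 : x 0 * x 3 = x 1 * x 2 := by
      linear_combination (x 1 * x 2) * hpx - x 0 * x 3 * (x 2) ^ 2 * h1 - x 0 * x 3 * h2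
    fin_cases a <;> fin_cases j <;> fin_cases k <;> simp only [xo] <;>
      simp <;> first | linear_combination e1 | linear_combination -e1 | linear_combination e2 |
        linear_combination -e2 | linear_combination e3 | linear_combination -e3 |
        linear_combination h0 - h1 | linear_combination h1 - h0 | linear_combination h0 - h2 | linear_combination h2 - h0 |
        linear_combination h0 - h3 | linear_combination h3 - h0 | linear_combination h1 - h2 | linear_combination h2 - h1 |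
        linear_combination h1 - h3 | linear_combination h3 - h1 | linear_combination h2 - h3 | linear_combination h3 - h2 | ring
  have h1 := h (fun j => d j ^ 2) (fun j => by
    show (d j ^ 2) ^ 2 = 1
    rw [← pow_mul]; exact h4 _ (hd j)) (by rw [Finset.prod_pow]; exact hp) a j k
  rw [mul_pow, mul_pow]
  exact h1

theorem xo_zero : ∀ a : Fin 4, ¬ a = 0 → xo a 0 ≠ 0 := by decide

theorem perm_xo : ∀ (π : Equiv.Perm (Fin 4)) (a : Fin 4), ∃ a' : Fin 4, ∀ j, π (xo a j) = xo a' (π j) := by
  decide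

/-- monomial matrices of determinant one normalise the Pauli matrices -/
theorem mono_conj (hq5 : (5 : F) = 0) (h4 : ∀ x : F, x ≠ 0 → x ^ 4 = 1) {g : GL (Fin 4) F} {π : Equiv.Perm (Fin 4)}
    {d : Fin 4 → F} (hd : ∀ j, d j ^ 4 = 1)
    (hg : ∀ i j, (g : Matrix (Fin 4) (Fin 4) F) i j = if i = π j then d j else 0)
    (hdet : (g : Matrix (Fin 4) (Fin 4) F).det = 1) {M : Matrix (Fin 4) (Fin 4) F} (hM : M ∈ S F) :
    (g : Matrix (Fin 4) (Fin 4) F) * M * ((g⁻¹ : GL (Fin 4) F) : Matrix (Fin 4) (Fin 4) F) ∈ S F := by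
  classical
  have hd0 : ∀ j, d j ≠ 0 := by
    intro j h0
    have := hd j
    rw [h0] at this
    norm_num at this
  have hprod : (∏ j, d j) ^ 2 = 1 := by
    have h1 : (g : Matrix (Fin 4) (Fin 4) F) = (Matrix.diagonal d).submatrix π.symm id := by
      ext i j
      rw [hg, Matrix.submatrix_apply, Matrix.diagonal_apply, id]
      by_cases h : i = π j
      · rw [if_pos h, if_pos (by rw [h, Equiv.symm_apply_apply]), h, Equiv.symm_apply_apply]
      · rw [if_neg h, if_neg (by rintro rfl; exact h (by rw [Equiv.apply_symm_apply]))]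
    have h2 := hdet
    rw [h1, Matrix.det_permute, Matrix.det_diagonal] at h2
    have h3 := congrArg (fun x => x ^ 2) h2
    simp only [mul_pow, one_pow] at h3
    rcases Int.units_eq_one_or (Equiv.Perm.sign π.symm) with h5 | h5 <;> rw [h5] at h3 <;> simpa using h3
  obtain ⟨a, b, c, hc, hMij⟩ := hM
  obtain ⟨a', ha'⟩ := perm_xo π a
  let u : Fin 4 → F := fun j => c * s F b j * d (xo a j) * (d j) ^ 3
  let v : Fin 4 → F := fun i => u (π.symm i)
  have hu2 : ∀ j k, u j ^ 2 = u k ^ 2 := by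
    intro j k
    have h1 : ∀ j, u j ^ 2 = c ^ 2 * (d (xo a j) * d j) ^ 2 := by
      intro j
      show (c * s F b j * d (xo a j) * (d j) ^ 3) ^ 2 = _
      have := s_sq (F := F) b j
      have h5 := hd j
      linear_combination (c ^ 2 * d (xo a j) ^ 2 * d j ^ 6) * this + (c ^ 2 * d (xo a j) ^ 2 * d j ^ 2) * h5
    rw [h1, h1, sq_pair hq5 h4 d hd0 hprod a j k]
  have hxo : ∏ j, d (xo a j) = ∏ j, d j := by
    exact Equiv.prod_comp ⟨xo a, xo a, xo_inv a, xo_inv a⟩ d
  have hup : ∏ j, u j = 1 := by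
    show ∏ j, (c * s F b j * d (xo a j) * (d j) ^ 3) = 1
    rw [Finset.prod_mul_distrib, Finset.prod_mul_distrib, Finset.prod_mul_distrib, s_prod, hxo, Finset.prod_pow,
      Finset.prod_const, Finset.card_univ, Fintype.card_fin, h4 c hc]
    calc 1 * 1 * (∏ j, d j) * (∏ j, d j) ^ 3 = ((∏ j, d j) ^ 2) ^ 2 := by ring
      _ = 1 := by rw [hprod, one_pow]
  obtain ⟨c', b', hc', hv⟩ := chars hq5 h4 v (fun j k => hu2 _ _) (by
    rw [← hup]
    exact Equiv.prod_comp π.symm u)
  have hkey : (g : Matrix (Fin 4) (Fin 4) F) * M =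
      (Matrix.of fun i j => if i = xo a' j then c' * s F b' j else 0) * (g : Matrix (Fin 4) (Fin 4) F) := by
    ext i j
    rw [Matrix.mul_apply, Matrix.mul_apply, Finset.sum_eq_single (xo a j), Finset.sum_eq_single (π j)]
    · rw [hg, hg, hMij, if_pos rfl, if_pos rfl, Matrix.of_apply, ha']
      by_cases h : i = xo a' (π j)
      · rw [if_pos h, if_pos h, ← hv]
        show _ = (c * s F b (π.symm (π j)) * d (xo a (π.symm (π j))) * (d (π.symm (π j))) ^ 3) * d j
        rw [Equiv.symm_apply_apply]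
        have h5 := hd j
        linear_combination (-(c * s F b j * d (xo a j))) * h5
      · rw [if_neg h, if_neg h, zero_mul, zero_mul]
    · intro k _ hk
      rw [hg, if_neg hk, mul_zero]
    · intro h; exact absurd (Finset.mem_univ _) h
    · intro k _ hk
      rw [hMij, if_neg hk, mul_zero]
    · intro h; exact absurd (Finset.mem_univ _) h
  rw [hkey, mul_assoc, ← Units.val_mul, mul_inv_cancel, Units.val_one, mul_one]
  exact ⟨a', b', c', hc', fun i j => rfl⟩

/-- the Hadamard matrix -/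
def W (F : Type*) [Field F] : Matrix (Fin 4) (Fin 4) F := Matrix.of fun i j => s F i j

theorem W_sq (hq5 : (5 : F) = 0) : W F * W F = -1 := by
  have h4 : (4 : F) = -1 := by linear_combination hq5
  ext i j
  rw [Matrix.mul_apply, Fin.sum_univ_four]
  fin_cases i <;> fin_cases j <;> simp [W, s, tt, Matrix.neg_apply, Matrix.one_apply] <;> linear_combination hq5

/-- the Hadamard matrix as an element -/
def w (hq5 : (5 : F) = 0) : GL (Fin 4) F := ⟨W F, -W F, by rw [mul_neg, W_sq hq5, neg_neg], by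
  rw [neg_mul, W_sq hq5, neg_neg]⟩

theorem W_det (hq5 : (5 : F) = 0) : (W F).det = 1 := by
  rw [Matrix.det_succ_row_zero, Fin.sum_univ_four]
  simp only [Matrix.det_fin_three]
  simp [W, s, tt, Fin.succAbove]
  linear_combination 3 * hq5

theorem w_mem (hq5 : (5 : F) = 0) : w hq5 ∈ N F := by
  have h1 : ∀ M ∈ S F, W F * M * (-W F) ∈ S F := by
    rintro M ⟨a, b, c, hc, hM⟩
    have hkey : W F * M = (Matrix.of fun i j => if i = xo b j then (c * s F a b) * s F a j else 0) * W F := by
      ext i j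
      rw [Matrix.mul_apply, Matrix.mul_apply, Finset.sum_eq_single (xo a j), Finset.sum_eq_single (xo b i)]
      · rw [hM, if_pos rfl, Matrix.of_apply, if_pos (by rw [xo_inv])]
        show s F i (xo a j) * (c * s F b j) = c * s F a b * s F a (xo b i) * s F (xo b i) j
        rw [s_xo, s_xo, s_symm (xo b i) j, s_xo, s_symm j b, s_symm j i, s_symm i a]
        have := s_sq (F := F) a b
        linear_combination (-(s F a i * s F i j * c * s F b j)) * this
      · intro k _ hk
        rw [Matrix.of_apply, if_neg (fun h => hk ((xo_iff _ _ _).1 h)), zero_mul]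
      · intro h; exact absurd (Finset.mem_univ _) h
      · intro k _ hk
        rw [hM, if_neg hk, mul_zero]
      · intro h; exact absurd (Finset.mem_univ _) h
    rw [hkey, mul_neg, mul_assoc, W_sq hq5, mul_neg, mul_one, neg_neg]
    exact ⟨b, a, c * s F a b, mul_ne_zero hc (s_ne a b), fun i j => rfl⟩
  intro M hM
  refine ⟨h1 M hM, ?_⟩
  show (-W F) * M * W F ∈ S F
  have := h1 M hM
  rwa [mul_neg, ← neg_mul, ← neg_mul] at this

/-- the special linear group does not normalise the Pauli matrices -/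
theorem not_SL (hq5 : (5 : F) = 0) (hle : ∀ g ∈ specialLinear (Fin 4) F, g ∈ N F) : False := by
  have hE : (Matrix.transvection (0 : Fin 4) 1 (1 : F)) * Matrix.transvection (0 : Fin 4) 1 (-1 : F) = 1 := by
    rw [Matrix.transvection_mul_transvection_same (i := (0 : Fin 4)) (j := 1) (by decide)]
    simp
  have hE' : (Matrix.transvection (0 : Fin 4) 1 (-1 : F)) * Matrix.transvection (0 : Fin 4) 1 (1 : F) = 1 := by
    rw [Matrix.transvection_mul_transvection_same (i := (0 : Fin 4)) (j := 1) (by decide)]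
    simp
  let t : GL (Fin 4) F := ⟨_, _, hE, hE'⟩
  have ht : t ∈ specialLinear (Fin 4) F := by
    show Matrix.GeneralLinearGroup.det t = 1
    apply Units.ext
    exact Matrix.det_transvection_of_ne 0 1 (by decide) 1
  have hZ : Matrix.diagonal (s F 1) ∈ S F := by
    refine ⟨0, 1, 1, one_ne_zero, fun i j => ?_⟩
    rw [one_mul, Matrix.diagonal_apply]
    have : xo 0 j = j := by fin_cases j <;> rfl
    rw [this]
    by_cases h : i = j
    · rw [if_pos h, if_pos h, h]
    · rw [if_neg h, if_neg h]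
  obtain ⟨a, b, c, hc, h⟩ := (hle t ht _ hZ).1
  have h00 := h 0 0
  have h01 := h 0 1
  have e1 : ((t : Matrix (Fin 4) (Fin 4) F) * Matrix.diagonal (s F 1) * ((t⁻¹ : GL (Fin 4) F) : Matrix (Fin 4) (Fin 4) F)) =
    Matrix.transvection (0 : Fin 4) 1 (1 : F) * Matrix.diagonal (s F 1) * Matrix.transvection (0 : Fin 4) 1 (-1 : F) := rfl
  rw [e1] at h00 h01
  simp only [Matrix.mul_apply, Fin.sum_univ_four, Matrix.transvection, Matrix.add_apply, Matrix.one_apply,
    Matrix.single_apply, Matrix.diagonal_apply] at h00 h01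
  simp [s, tt] at h00 h01
  have ha : a = 0 := by
    by_contra hne
    have : xo a 0 ≠ 0 := xo_zero a hne
    rw [if_neg (fun h => this h.symm)] at h00
    exact one_ne_zero h00
  subst ha
  have hne : (0 : Fin 4) ≠ xo 0 1 := by decide
  rw [if_neg hne] at h01
  apply two_ne hq5
  linear_combination -h01

/-- over the field of five elements the monomial group is not maximal -/
theorem lines_five [Fintype F] (hq : Fintype.card F = 5) {H : Subgroup (GL (Fin 4) F)}
    (hH : IsMaximalIn (specialLinear (Fin 4) F) H) {D : Fin 4 → Submodule F (Fin 4 → F)} (hD : IsMDecomposition 1 D)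
    (h : H = decompositionStabilizer D ⊓ specialLinear (Fin 4) F) : False := by
  classical
  have hq5 : (5 : F) = 0 := by
    have := FiniteField.cast_card_eq_zero F
    rw [hq] at this
    exact_mod_cast this
  have h4 : ∀ x : F, x ≠ 0 → x ^ 4 = 1 := by
    intro x hx
    have := FiniteField.pow_card_sub_one_eq_one x hx
    rwa [hq] at this
  have hsl : ∀ g ∈ specialLinear (Fin 4) F, (g : Matrix (Fin 4) (Fin 4) F).det = 1 := by
    intro g hg
    have : Matrix.GeneralLinearGroup.det g = 1 := hg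
    have h2 := congrArg (Units.val) this
    simpa using h2
  obtain ⟨B, hB⟩ := mono_of_lines hD
  rw [hq] at hB
  let N' : Subgroup (GL (Fin 4) F) := (N F).comap (MulAut.conj B⁻¹).toMonoidHom
  have hmem : ∀ g, g ∈ N' ↔ B⁻¹ * g * B ∈ N F := by
    intro g
    show (MulAut.conj B⁻¹) g ∈ N F ↔ _
    rw [MulAut.conj_apply, inv_inv]
  have hleN : H ≤ N' := by
    rw [h]
    rintro g ⟨hg1, hg2⟩
    rw [hmem]
    have key : ∀ x ∈ decompositionStabilizer D ⊓ specialLinear (Fin 4) F, ∀ M ∈ S F,
        ((B⁻¹ * x * B : GL (Fin 4) F) : Matrix (Fin 4) (Fin 4) F) * M *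
          (((B⁻¹ * x * B)⁻¹ : GL (Fin 4) F) : Matrix (Fin 4) (Fin 4) F) ∈ S F := by
      rintro x ⟨hx1, hx2⟩ M hM
      obtain ⟨π, d, hd, hij⟩ := hB x hx1
      refine mono_conj hq5 h4 hd hij (hsl _ ?_) hM
      have := SL_conj hx2 B⁻¹
      rwa [inv_inv] at this
    intro M hM
    refine ⟨key g ⟨hg1, hg2⟩ M hM, ?_⟩
    have := key g⁻¹ (Subgroup.inv_mem _ ⟨hg1, hg2⟩) M hM
    have e1 : B⁻¹ * g⁻¹ * B = (B⁻¹ * g * B)⁻¹ := by group
    rw [e1, inv_inv] at this
    exact this
  have hw : B * w hq5 * B⁻¹ ∈ N' ⊓ specialLinear (Fin 4) F := by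
    refine ⟨?_, ?_⟩
    · show B * w hq5 * B⁻¹ ∈ N'
      rw [hmem]
      have e1 : B⁻¹ * (B * w hq5 * B⁻¹) * B = w hq5 := by group
      rw [e1]
      exact w_mem hq5
    · apply SL_conj
      show Matrix.GeneralLinearGroup.det (w hq5) = 1
      apply Units.ext
      exact W_det hq5
  rcases hH.2 (N' ⊓ specialLinear (Fin 4) F) (le_inf hleN hH.1.le) inf_le_right with h5 | h5
  · rw [h5, h] at hw
    obtain ⟨π, d, hd, hij⟩ := hB _ hw.1
    have e1 : B⁻¹ * (B * w hq5 * B⁻¹) * B = w hq5 := by group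
    rw [e1] at hij
    obtain ⟨i, hi⟩ : ∃ i, i ≠ π 0 := ⟨π 1, fun h => by simpa using π.injective h⟩
    have h6 := hij i 0
    rw [if_neg hi] at h6
    exact s_ne i 0 h6
  · apply not_SL hq5
    intro g hg
    have h6 : B * g * B⁻¹ ∈ N' ⊓ specialLinear (Fin 4) F := by
      rw [h5]
      exact SL_conj hg B
    have h7 := (hmem _).1 h6.1
    have e1 : B⁻¹ * (B * g * B⁻¹) * B = g := by group
    rwa [e1] at h7

theorem card_ne_six [Fintype F] : Fintype.card F ≠ 6 := by
  intro h6
  obtain ⟨p, hp⟩ := CharP.exists F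
  haveI := hp
  obtain ⟨e, hpp, he⟩ := FiniteField.card F p
  rw [h6] at he
  have h2 : 2 ∣ p ^ (e : ℕ) := by rw [← he]; norm_num
  have h3 : 3 ∣ p ^ (e : ℕ) := by rw [← he]; norm_num
  have h4 := (Nat.prime_dvd_prime_iff_eq Nat.prime_two hpp).1 (Nat.prime_two.dvd_of_dvd_pow h2)
  have h5 := (Nat.prime_dvd_prime_iff_eq Nat.prime_three hpp).1 (Nat.prime_three.dvd_of_dvd_pow h3)
  omega

end Cfsg.Agent.H29.P4
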