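import Mathlib
import Cfsg.Agent.H29_Nm2

set_option autoImplicit false

/-! stabilisers that are not maximal: orthogonal groups, II -/

namespace Cfsg.Agent.H29.Fm

open Matrix Module Cfsg.Geo Cfsg.Agent.H29.Clifford Cfsg.Agent.H29.Asc Cfsg.Agent.H29.AscF Cfsg.Agent.H29.Trv
  Cfsg.Agent.H29.AscT Cfsg.Agent.H29.Rx
open scoped Kronecker commutatorElement

variable {F : Type*} [Field F] {n k m r w t : ℕ} {τ : F ≃+* F} {ε : F}
variable {f : (Fin n → F) → (Fin n → F) → F}

theorem form_swap {e : Fin n ≃ Fin w × Fin t} {P : GL (Fin n) F} {A : Matrix (Fin w) (Fin w) F}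
    {C : Matrix (Fin t) (Fin t) F} {c : F}
    (H : ∀ x y : Fin w × Fin t → F, f ((P : Matrix (Fin n) (Fin n) F) *ᵥ (x ∘ e))
      ((P : Matrix (Fin n) (Fin n) F) *ᵥ (y ∘ e)) = c * formOfGram id (A ⊗ₖ C) x y)
    (x y : Fin t × Fin w → F) : f (ce (e.trans (Equiv.prodComm _ _)) P x) (ce (e.trans (Equiv.prodComm _ _)) P y) =
      c * (x ⬝ᵥ ((C ⊗ₖ A) *ᵥ y)) := by
  have h1 := H (x ∘ Equiv.prodComm _ _) (y ∘ Equiv.prodComm _ _)
  have e1 : ∀ z : Fin t × Fin w → F, ce (e.trans (Equiv.prodComm _ _)) P z =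
      (P : Matrix (Fin n) (Fin n) F) *ᵥ ((z ∘ Equiv.prodComm _ _) ∘ e) := fun z => rfl
  rw [e1, e1, h1, ← fog_id]
  congr 1
  show ∑ a, ∑ b, x ((Equiv.prodComm _ _) a) * (A ⊗ₖ C) a b * id (y ((Equiv.prodComm _ _) b)) =
      ∑ a, ∑ b, x a * (C ⊗ₖ A) a b * id (y b)
  rw [← Equiv.sum_comp (Equiv.prodComm (Fin w) (Fin t)) (fun a => ∑ b, x a * (C ⊗ₖ A) a b * id (y b))]
  apply Finset.sum_congr rfl
  intro a _
  rw [← Equiv.sum_comp (Equiv.prodComm (Fin w) (Fin t)) (fun b => x ((Equiv.prodComm _ _) a) *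
      (C ⊗ₖ A) ((Equiv.prodComm _ _) a) b * id (y b))]
  apply Finset.sum_congr rfl
  intro b _
  have : (C ⊗ₖ A) ((Equiv.prodComm (Fin w) (Fin t)) a) ((Equiv.prodComm (Fin w) (Fin t)) b) = (A ⊗ₖ C) a b := by
    rw [Matrix.kroneckerMap_apply, Matrix.kroneckerMap_apply, mul_comm]
    rfl
  rw [this]

theorem fx_std : Fx (pf (e3 m).symm (fo m F)) (cR (e3 m).symm (omegaGL (Cfsg.quadFormOdd m F))) := by
  intro g hg u v
  have hg' : glReindex (e3 m).symm g ∈ omegaGL (Cfsg.quadFormOdd m F) := hg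
  have h1 : ∀ x, Cfsg.quadFormOdd m F (((glReindex (e3 m).symm g : GL (Io m) F) : Matrix (Io m) (Io m) F) *ᵥ x) =
      Cfsg.quadFormOdd m F x := fun x => (omega_le _ hg') x x
  have h3 := h1 (L (e3 m).symm u + L (e3 m).symm v)
  have h4 := h1 (L (e3 m).symm u)
  have h5 := h1 (L (e3 m).symm v)
  rw [Matrix.mulVec_add, act, act] at h3
  rw [act] at h4 h5
  show Cfsg.quadFormOdd m F (_ + _) - Cfsg.quadFormOdd m F _ - Cfsg.quadFormOdd m F _ =
    Cfsg.quadFormOdd m F (_ + _) - Cfsg.quadFormOdd m F _ - Cfsg.quadFormOdd m F _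
  rw [h3, h4, h5]

/-- isometries fixing a non-singular vector but no non-degenerate plane -/
theorem move_plane [Fintype F] (h : OrF f) (hn : 7 ≤ n) {X : Subgroup (GL (Fin n) F)} (hX : SG f X)
    {W : Submodule F (Fin n → F)} (hW : finrank F W = 2) (hnd : IsNondegenerateOn f W) {a : Fin n → F} (ha : f a a ≠ 0) :
    ∃ g ∈ X, g ∈ subspaceStabilizer (Submodule.span F {a}) ∧ g ∉ subspaceStabilizer W := by
  have h2 := h.two
  -- a vector of the plane outside the line
  obtain ⟨w, hwW, hwa⟩ : ∃ w ∈ W, ∀ c : F, w ≠ c • a := by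
    by_contra hcon
    push Not at hcon
    have h1 : W ≤ Submodule.span F {a} := by
      intro w hw
      obtain ⟨c, hc⟩ := hcon w hw
      rw [hc]
      exact Submodule.smul_mem _ _ (Submodule.mem_span_singleton_self a)
    have h3 := Submodule.finrank_mono h1
    have ha0 : a ≠ 0 := by
      rintro rfl
      exact ha (h.sfm.zero_left _)
    have h4 := finrank_span_singleton (K := F) ha0
    omega
  have hnw : ∃ p, f a p = 0 ∧ f w p ≠ 0 := by
    by_contra hcon
    push Not at hcon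
    apply hwa (f w a / f a a)
    apply h.sfm.ext_left
    intro p
    have h3 := hcon (p - (f a p / f a a) • a) (by
      rw [h.sfm.sub_right, h.smul_right]
      field_simp
      ring)
    rw [h.sfm.sub_right, h.smul_right] at h3
    rw [h.sfm.smul_left]
    field_simp at h3 ⊢
    linear_combination h3
  obtain ⟨p₁, hap₁, hwp₁⟩ := hnw
  obtain ⟨y, -, hy0, hyy, hya, hyw⟩ : ∃ y ∈ (⊤ : Submodule F (Fin n → F)), y ≠ 0 ∧ f y y = 0 ∧ f y a = 0 ∧ f y w = 0 := by
    have h1 := fr_inf h ⊤ (Submodule.span F (Set.range ![a, w]))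
    have h3 := finrank_range_le_card (R := F) ![a, w]
    rw [Fintype.card_fin] at h3
    have h4 : finrank F (Submodule.span F (Set.range ![a, w])) ≤ 2 := h3
    rw [finrank_top, Module.finrank_fintype_fun_eq_card, Fintype.card_fin] at h1
    obtain ⟨x, hxU, hx0, hx⟩ := iso3 h (U := ⊤ ⊓ perp h.sfm (Submodule.span F (Set.range ![a, w]))) (by omega)
    have h5 := (mem_perp_span h).1 hxU.2
    exact ⟨x, trivial, hx0, hx, h5 0, h5 1⟩
  obtain ⟨p₂, hap₂, hyp₂⟩ : ∃ p, f a p = 0 ∧ f y p ≠ 0 := by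
    obtain ⟨q, hq⟩ := h.sfm.nd y hy0
    rw [h.symm'] at hq
    refine ⟨q - (f a q / f a a) • a, ?_, ?_⟩
    · rw [h.sfm.sub_right, h.smul_right]
      field_simp
      ring
    · rw [h.sfm.sub_right, h.smul_right, hya, mul_zero, sub_zero]
      exact hq
  obtain ⟨p, hap, hwp, hyp⟩ : ∃ p, f a p = 0 ∧ f w p ≠ 0 ∧ f y p ≠ 0 := by
    by_cases h3 : f y p₁ = 0
    · by_cases h4 : f w p₂ = 0
      · refine ⟨p₁ + p₂, ?_, ?_, ?_⟩
        · rw [h.sfm.add_right, hap₁, hap₂, add_zero]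
        · rw [h.sfm.add_right, h4, add_zero]; exact hwp₁
        · rw [h.sfm.add_right, h3, zero_add]; exact hyp₂
      · exact ⟨p₂, hap₂, h4, hyp₂⟩
    · exact ⟨p₁, hap₁, hwp₁, h3⟩
  set e := p - (f p p / (2 * f y p)) • y with he
  have hpy : f p y = f y p := h.symm' _ _
  have hee : f e e = 0 := by
    rw [he, h.sfm.sub_left, h.sfm.sub_right, h.sfm.sub_right, h.sfm.smul_left, h.sfm.smul_left, h.smul_right, h.smul_right,
      hyy, hpy]
    field_simp
    ring
  have hae : f a e = 0 := by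
    rw [he, h.sfm.sub_right, h.smul_right, hap, h.symm' a y, hya]
    ring
  have hwe : f w e ≠ 0 := by
    rw [he, h.sfm.sub_right, h.smul_right, h.symm' w y, hyw, mul_zero, sub_zero]
    exact hwp
  clear_value e
  -- a singular vector orthogonal to everything
  obtain ⟨x, hxW, hx0, hxx, hxa, hxe⟩ : ∃ x ∈ perp h.sfm W, x ≠ 0 ∧ f x x = 0 ∧ f x a = 0 ∧ f x e = 0 := by
    have h1 := fr_inf h (perp h.sfm W) (Submodule.span F (Set.range ![a, e]))
    have h3 := finrank_range_le_card (R := F) ![a, e]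
    rw [Fintype.card_fin] at h3
    have h4 : finrank F (Submodule.span F (Set.range ![a, e])) ≤ 2 := h3
    have h5 := finrank_perp h.sfm W
    obtain ⟨x, hxU, hx0, hx⟩ := iso3 h (U := perp h.sfm W ⊓ perp h.sfm (Submodule.span F (Set.range ![a, e]))) (by omega)
    have h6 := (mem_perp_span h).1 hxU.2
    exact ⟨x, hxU.1, hx0, hx, h6 0, h6 1⟩
  obtain ⟨g, hg, hgv⟩ := hX e x hee hxx (by rw [h.symm']; exact hxe)
  refine ⟨g, hg, ?_, ?_⟩
  · rw [mem_stab_iff]
    intro v hv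
    obtain ⟨c, rfl⟩ := Submodule.mem_span_singleton.1 hv
    rw [hgv, h.sfm.smul_left, h.sfm.smul_left, hae, h.symm' a x, hxa, mul_zero, zero_smul, zero_smul, sub_zero, add_zero]
    exact hv
  · rw [mem_stab_iff]
    intro hst
    have h1 := hst w hwW
    have hwx : f w x = 0 := by rw [h.symm']; exact hxW w hwW
    rw [hgv, hwx, zero_smul, sub_zero] at h1
    have h3 : f w e • x ∈ W := by
      have := W.sub_mem h1 hwW
      rwa [add_sub_cancel_left] at this
    have h4 : x ∈ W := by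
      have := W.smul_mem (f w e)⁻¹ h3
      rwa [smul_smul, inv_mul_cancel₀ hwe, one_smul] at this
    obtain ⟨⟨z, hz, hzx⟩, -⟩ := hnd x h4 hx0
    apply hzx
    rw [h.symm']
    exact hxW z hz

end Cfsg.Agent.H29.Fm
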