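import Mathlib
import Cfsg.Agent.H29_Nm3

set_option autoImplicit false

/-! stabilisers that are not maximal: orthogonal groups, III -/

namespace Cfsg.Agent.H29.Fm

open Matrix Module Cfsg.Geo Cfsg.Agent.H29.Clifford Cfsg.Agent.H29.Asc Cfsg.Agent.H29.AscF Cfsg.Agent.H29.Trv
  Cfsg.Agent.H29.AscT Cfsg.Agent.H29.Rx
open scoped Kronecker commutatorElement

variable {F : Type*} [Field F] {n k m r w t : ℕ} {τ : F ≃+* F} {ε : F}
variable {f : (Fin n → F) → (Fin n → F) → F}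

/-- permutations of an orthogonal basis -/
theorem perm_iso (h : OrF f) {κ : Type} [Fintype κ] [DecidableEq κ] {v : κ → (Fin n → F)} {c : F} (hc : c ≠ 0)
    (hv : ∀ p q, f (v p) (v q) = if p = q then c else 0) (hcard : Fintype.card κ = n) (π : Equiv.Perm κ) :
    ∃ g ∈ isoG f, ∀ p, (g : Matrix (Fin n) (Fin n) F) *ᵥ v p = v (π p) := by
  have hli := onb_li h.sfm hc hv
  have hspan := hli.span_eq_top_of_card_eq_finrank' (by rw [hcard, Module.finrank_fintype_fun_eq_card, Fintype.card_fin])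
  let b : Module.Basis κ F (Fin n → F) := Module.Basis.mk hli hspan.ge
  have hb : ∀ p, b p = v p := fun p => by simp [b]
  let T : (Fin n → F) →ₗ[F] (Fin n → F) := b.constr F (fun p => v (π p))
  have hT : ∀ p, T (v p) = v (π p) := by
    intro p
    rw [← hb p]
    exact b.constr_basis F _ p
  have hiso : ∀ x y, f (T x) (T y) = f x y := by
    intro x y
    have hx := b.sum_repr x
    have hy := b.sum_repr y
    set cx := b.repr x
    set cy := b.repr y
    rw [← hx, ← hy]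
    simp only [hb, map_sum, map_smul, hT]
    rw [h.sfm.sum_left, h.sfm.sum_left]
    apply Finset.sum_congr rfl
    intro p _
    rw [h.sfm.sum_right, h.sfm.sum_right]
    apply Finset.sum_congr rfl
    intro q _
    rw [h.sfm.smul_left, h.sfm.smul_left, h.smul_right, h.smul_right, hv, hv]
    by_cases hpq : p = q
    · subst hpq; rw [if_pos rfl, if_pos rfl]
    · rw [if_neg hpq, if_neg (fun h => hpq (π.injective h))]
  obtain ⟨g, hg, hgT⟩ := isoOf h T hiso
  exact ⟨g, hg, fun p => by rw [hgT, hT]⟩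

theorem comm_std (h2 : (2 : F) ≠ 0) {g₁ g₂ : GL (Fin (1 + (m + m))) F} (hg₁ : g₁ ∈ isoG (pf (e3 m).symm (fo m F)))
    (hg₂ : g₂ ∈ isoG (pf (e3 m).symm (fo m F))) : ⁅g₁, g₂⁆ ∈ cR (e3 m).symm (omegaGL (Cfsg.quadFormOdd m F)) := by
  rw [mem_cR]
  have h1 : glReindex (e3 m).symm ⁅g₁, g₂⁆ = ⁅glReindex (e3 m).symm g₁, glReindex (e3 m).symm g₂⁆ :=
    map_commutatorElement _ _ _
  rw [h1]
  exact omega_comm (iso_pull h2 hg₁) (iso_pull h2 hg₂)

/-- isometries of subspaces, in the other direction -/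
theorem isom_push {W W' : Submodule F (Io m → F)} (h : AreIsometricFor (Cfsg.quadFormOdd m F) W W') :
    AreIsometricFor (fun v => pf (e3 m).symm (fo m F) v v) (cW (e3 m).symm W) (cW (e3 m).symm W') := by
  obtain ⟨φ, hφ⟩ := h
  let ψ : ∀ U : Submodule F (Io m → F), cW (e3 m).symm U ≃ₗ[F] U := fun U => (L (e3 m).symm).ofSubmodule' U
  have hψ : ∀ (U : Submodule F (Io m → F)) (x : cW (e3 m).symm U), ((ψ U x : U) : Io m → F) =
      L (e3 m).symm (x : Fin (1 + (m + m)) → F) := fun U x => rfl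
  have hψ' : ∀ (U : Submodule F (Io m → F)) (x : U), L (e3 m).symm (((ψ U).symm x : cW (e3 m).symm U) : Fin (1 + (m + m)) → F) =
      (x : Io m → F) := by
    intro U x
    rw [← hψ, LinearEquiv.apply_symm_apply]
  refine ⟨((ψ W).trans φ).trans (ψ W').symm, fun w => ?_⟩
  show fo m F (L (e3 m).symm _) (L (e3 m).symm _) = fo m F (L (e3 m).symm _) (L (e3 m).symm _)
  rw [fo_self, fo_self]
  congr 1
  have h1 := hψ' W' (φ (ψ W w))
  have h2 : ((((ψ W).trans φ).trans (ψ W').symm) w : cW (e3 m).symm W') = (ψ W').symm (φ (ψ W w)) := rfl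
  rw [h2, h1, hφ, hψ]

/-- a three-cycle on an orthogonal basis as a commutator of isometries -/
theorem three_cycle (h : OrF f) {κ : Type} [Fintype κ] [DecidableEq κ] {v : κ → (Fin n → F)} {c : F} (hc : c ≠ 0)
    (hv : ∀ p q, f (v p) (v q) = if p = q then c else 0) (hcard : Fintype.card κ = n) {p q r : κ} (hpq : p ≠ q)
    (hqr : q ≠ r) (hpr : p ≠ r) : ∃ g₁ ∈ isoG f, ∃ g₂ ∈ isoG f, ∃ π : Equiv.Perm κ, π p = r ∧
      (∀ x, x ≠ p → x ≠ q → x ≠ r → π x = x) ∧
      ∀ x, ((⁅g₁, g₂⁆ : GL (Fin n) F) : Matrix (Fin n) (Fin n) F) *ᵥ v x = v (π x) := by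
  obtain ⟨g₁, hg₁, h1⟩ := perm_iso h hc hv hcard (Equiv.swap p q)
  obtain ⟨g₂, hg₂, h2⟩ := perm_iso h hc hv hcard (Equiv.swap q r)
  have h1' : ∀ x, ((g₁⁻¹ : GL (Fin n) F) : Matrix (Fin n) (Fin n) F) *ᵥ v x = v (Equiv.swap p q x) := by
    intro x
    have h3 := h1 (Equiv.swap p q x)
    rw [Equiv.swap_apply_self] at h3
    rw [← h3, Matrix.mulVec_mulVec, ← Units.val_mul, inv_mul_cancel, Units.val_one, Matrix.one_mulVec]
  have h2' : ∀ x, ((g₂⁻¹ : GL (Fin n) F) : Matrix (Fin n) (Fin n) F) *ᵥ v x = v (Equiv.swap q r x) := by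
    intro x
    have h3 := h2 (Equiv.swap q r x)
    rw [Equiv.swap_apply_self] at h3
    rw [← h3, Matrix.mulVec_mulVec, ← Units.val_mul, inv_mul_cancel, Units.val_one, Matrix.one_mulVec]
  refine ⟨g₁, hg₁, g₂, hg₂, Equiv.swap p q * Equiv.swap q r * Equiv.swap p q * Equiv.swap q r, ?_, ?_, ?_⟩
  · show Equiv.swap p q (Equiv.swap q r (Equiv.swap p q (Equiv.swap q r p))) = r
    rw [Equiv.swap_apply_of_ne_of_ne hpq hpr, Equiv.swap_apply_left, Equiv.swap_apply_left,
      Equiv.swap_apply_of_ne_of_ne hpr.symm hqr.symm]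
  · intro x h3 h4 h5
    show Equiv.swap p q (Equiv.swap q r (Equiv.swap p q (Equiv.swap q r x))) = x
    rw [Equiv.swap_apply_of_ne_of_ne h4 h5, Equiv.swap_apply_of_ne_of_ne h3 h4, Equiv.swap_apply_of_ne_of_ne h4 h5,
      Equiv.swap_apply_of_ne_of_ne h3 h4]
  · intro x
    rw [commutatorElement_def, Units.val_mul, Units.val_mul, Units.val_mul, ← Matrix.mulVec_mulVec, h2',
      ← Matrix.mulVec_mulVec, h1', ← Matrix.mulVec_mulVec, h2, h1]
    rfl

/-- permutations of lines -/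
theorem perm_dec {κ : Type} [Fintype κ] [DecidableEq κ] {v : κ → (Fin n → F)} {t : ℕ} (e : κ ≃ Fin t)
    {D : Fin t → Submodule F (Fin n → F)} (hD : ∀ i, D i = Submodule.span F {v (e.symm i)}) {g : GL (Fin n) F}
    {π : Equiv.Perm κ} (hg : ∀ x, (g : Matrix (Fin n) (Fin n) F) *ᵥ v x = v (π x)) : g ∈ decompositionStabilizer D := by
  refine ⟨(e.symm.trans π).trans e, fun i => ?_⟩
  rw [hD, hD, Submodule.map_span, Set.image_singleton, Matrix.toLin'_apply, hg]
  congr 3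
  show π (e.symm i) = e.symm (e (π (e.symm i)))
  rw [Equiv.symm_apply_apply]

end Cfsg.Agent.H29.Fm
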