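import Mathlib
import Cfsg.Agent.H29_Nm1
import Cfsg.Agent.H29_Max7

set_option autoImplicit false

/-! stabilisers that are not maximal: linear groups -/

namespace Cfsg.Agent.H29.Fm

open Matrix Module Cfsg.Geo Cfsg.Agent.H29.Clifford Cfsg.Agent.H29.Asc Cfsg.Agent.H29.AscF Cfsg.Agent.H29.Trv
  Cfsg.Agent.H29.AscT
open scoped Kronecker commutatorElement

variable {F : Type*} [Field F] {n : ℕ}

theorem sum4 {R : Type*} [AddCommMonoid R] (g : Fin (n + 4) → R) :
    ∑ i : Fin (n + 4), (if (i : ℕ) < 4 then g i else 0) = g 0 + g 1 + g 2 + g 3 := by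
  rw [Fin.sum_univ_succ, Fin.sum_univ_succ, Fin.sum_univ_succ, Fin.sum_univ_succ, Finset.sum_eq_zero]
  · have h1 : (Fin.succ 0 : Fin (n + 4)) = 1 := rfl
    have h2 : (Fin.succ (Fin.succ 0) : Fin (n + 4)) = 2 := rfl
    have h3 : (Fin.succ (Fin.succ (Fin.succ 0)) : Fin (n + 4)) = 3 := rfl
    rw [h1, h2, h3, if_pos (by simp), add_zero, if_pos, if_pos, if_pos]
    · abel
    · exact (by norm_num : (3 : ℕ) < 4)
    · exact (by norm_num : (2 : ℕ) < 4)
    · exact (by norm_num : (1 : ℕ) < 4)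
  · intro i _
    rw [if_neg]
    simp

/-- the weight form -/
def Nw (q : ℕ) (v : Fin n → F) : F := ∑ i, v i ^ (q - 1)

/-- linear maps preserving the weight -/
def WG (n : ℕ) (F : Type*) [Field F] (q : ℕ) : Subgroup (GL (Fin n) F) where
  carrier := {g | ∀ v, Nw q ((g : Matrix (Fin n) (Fin n) F) *ᵥ v) = Nw q v}
  one_mem' := by
    intro v
    rw [Units.val_one, Matrix.one_mulVec]
  mul_mem' := by
    intro a b ha hb v
    rw [Units.val_mul, ← Matrix.mulVec_mulVec, ha, hb]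
  inv_mem' := by
    intro a ha v
    have h1 := ha (((a⁻¹ : GL (Fin n) F) : Matrix (Fin n) (Fin n) F) *ᵥ v)
    rw [Matrix.mulVec_mulVec, ← Units.val_mul, mul_inv_cancel, Units.val_one, Matrix.one_mulVec] at h1
    exact h1.symm

theorem mono_WG {q : ℕ} {y : GL (Fin n) F} {π : Equiv.Perm (Fin n)} {d : Fin n → F} (hd : ∀ i, d i ^ (q - 1) = 1)
    (hy : ∀ i j, (y : Matrix (Fin n) (Fin n) F) i j = if i = π j then d j else 0) : y ∈ WG n F q := by
  intro v
  have h1 : ∀ j, ((y : Matrix (Fin n) (Fin n) F) *ᵥ v) (π j) = d j * v j := by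
    intro j
    rw [Matrix.mulVec, dotProduct, Finset.sum_eq_single j]
    · rw [hy, if_pos rfl]
    · intro k _ hk
      rw [hy, if_neg (fun h => hk (π.injective h).symm), zero_mul]
    · intro h; exact absurd (Finset.mem_univ _) h
  show ∑ i, _ = ∑ i, _
  rw [← Equiv.sum_comp π]
  apply Finset.sum_congr rfl
  intro j _
  rw [h1, mul_pow, hd, one_mul]

theorem small_facts [Fintype F] (hq : Fintype.card F ≤ 4) : (25 : F) = 1 ∧ (5 : F) ^ (Fintype.card F - 1) = 1 ∧
    ∀ a b c d : F, (a + (a + b + c + d)) ^ (Fintype.card F - 1) + (b + (a + b + c + d)) ^ (Fintype.card F - 1) +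
      (c + (a + b + c + d)) ^ (Fintype.card F - 1) + (d + (a + b + c + d)) ^ (Fintype.card F - 1) =
      a ^ (Fintype.card F - 1) + b ^ (Fintype.card F - 1) + c ^ (Fintype.card F - 1) + d ^ (Fintype.card F - 1) := by
  have hq2 : 1 < Fintype.card F := Fintype.one_lt_card
  have h3 : Fintype.card F = 2 ∨ Fintype.card F = 3 ∨ Fintype.card F = 4 := by omega
  have h0 := FiniteField.cast_card_eq_zero F
  rcases h3 with h3 | h3 | h3
  · rw [h3] at h0 ⊢
    have h2 : (2 : F) = 0 := by exact_mod_cast h0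
    refine ⟨by linear_combination 12 * h2, by linear_combination 2 * h2, fun a b c d => ?_⟩
    simp only [Nat.add_one_sub_one, pow_one]
    linear_combination 2 * (a + b + c + d) * h2
  · rw [h3] at h0 ⊢
    have h2 : (3 : F) = 0 := by exact_mod_cast h0
    refine ⟨by linear_combination 8 * h2, ?_, fun a b c d => ?_⟩
    · show (5 : F) ^ 2 = 1
      linear_combination 8 * h2
    · show (a + (a + b + c + d)) ^ 2 + (b + (a + b + c + d)) ^ 2 + (c + (a + b + c + d)) ^ 2 +
        (d + (a + b + c + d)) ^ 2 = a ^ 2 + b ^ 2 + c ^ 2 + d ^ 2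
      linear_combination 2 * (a + b + c + d) ^ 2 * h2
  · rw [h3] at h0 ⊢
    have h4 : (2 : F) * 2 = 0 := by
      have : ((4 : ℕ) : F) = 2 * 2 := by norm_num
      rw [← this]
      exact h0
    have h2 : (2 : F) = 0 := by
      rcases mul_eq_zero.1 h4 with h | h <;> exact h
    refine ⟨by linear_combination 12 * h2, ?_, fun a b c d => ?_⟩
    · show (5 : F) ^ 3 = 1
      linear_combination 62 * h2
    · show (a + (a + b + c + d)) ^ 3 + (b + (a + b + c + d)) ^ 3 + (c + (a + b + c + d)) ^ 3 +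
        (d + (a + b + c + d)) ^ 3 = a ^ 3 + b ^ 3 + c ^ 3 + d ^ 3
      have e1 : (a + b + c + d) ^ 2 = a ^ 2 + b ^ 2 + c ^ 2 + d ^ 2 := by
        linear_combination (a * b + a * c + a * d + b * c + b * d + c * d) * h2
      have e2 : (a + (a + b + c + d)) ^ 3 + (b + (a + b + c + d)) ^ 3 + (c + (a + b + c + d)) ^ 3 +
        (d + (a + b + c + d)) ^ 3 - (a ^ 3 + b ^ 3 + c ^ 3 + d ^ 3) =
        3 * (a + b + c + d) * (a ^ 2 + b ^ 2 + c ^ 2 + d ^ 2) + 7 * (a + b + c + d) ^ 3 := by ring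
      have e3 : (a + (a + b + c + d)) ^ 3 + (b + (a + b + c + d)) ^ 3 + (c + (a + b + c + d)) ^ 3 +
        (d + (a + b + c + d)) ^ 3 - (a ^ 3 + b ^ 3 + c ^ 3 + d ^ 3) = 0 := by
        rw [e2, ← e1]
        linear_combination 5 * (a + b + c + d) ^ 3 * h2
      exact sub_eq_zero.1 e3

/-- the vector of weight four -/
def u4 (n : ℕ) (F : Type*) [Field F] : Fin (n + 5) → F := fun i => if (i : ℕ) < 4 then 1 else 0

def Y4 (n : ℕ) (F : Type*) [Field F] : Matrix (Fin (n + 5)) (Fin (n + 5)) F :=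
  (1 + Matrix.replicateCol Unit (u4 n F) * Matrix.replicateRow Unit (u4 n F)) *
    Matrix.diagonal (fun i : Fin (n + 5) => if (i : ℕ) = 4 then (5 : F) else 1)

theorem dot_u4 (v : Fin (n + 5) → F) : u4 n F ⬝ᵥ v = v 0 + v 1 + v 2 + v 3 := by
  have h1 := sum4 (n := n + 1) (fun i : Fin (n + 1 + 4) => v i)
  have h2 : u4 n F ⬝ᵥ v = ∑ i : Fin (n + 1 + 4), (if (i : ℕ) < 4 then v i else 0) := by
    apply Finset.sum_congr rfl
    intro i _
    show (if (i : ℕ) < 4 then (1 : F) else 0) * v i = _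
    split_ifs
    · rw [one_mul]
    · rw [zero_mul]
  rw [h2, h1]

theorem Y4_det (h25 : (25 : F) = 1) : (Y4 n F).det = 1 := by
  rw [Y4, Matrix.det_mul, Matrix.det_one_add_replicateCol_mul_replicateRow, Matrix.det_diagonal, dot_u4]
  have h1 : ∏ i : Fin (n + 5), (if (i : ℕ) = 4 then (5 : F) else 1) = 5 := by
    rw [Finset.prod_eq_single (4 : Fin (n + 5))]
    · rw [if_pos]
      rfl
    · intro i _ hi
      rw [if_neg]
      intro h
      apply hi
      apply Fin.ext
      rw [h]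
      rfl
    · intro h; exact absurd (Finset.mem_univ _) h
  rw [h1]
  have e0 : u4 n F 0 = 1 := if_pos (by norm_num : (0 : ℕ) < 4)
  have e1 : u4 n F 1 = 1 := if_pos (by norm_num : (1 : ℕ) < 4)
  have e2 : u4 n F 2 = 1 := if_pos (by norm_num : (2 : ℕ) < 4)
  have e3 : u4 n F 3 = 1 := if_pos (by norm_num : (3 : ℕ) < 4)
  rw [e0, e1, e2, e3]
  linear_combination h25

theorem Y4_mulVec (v : Fin (n + 5) → F) : Y4 n F *ᵥ v = (fun i : Fin (n + 5) => (if (i : ℕ) = 4 then (5 : F) else 1) * v i) +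
    (v 0 + v 1 + v 2 + v 3) • u4 n F := by
  rw [Y4, ← Matrix.mulVec_mulVec, Matrix.add_mulVec, Matrix.one_mulVec]
  have h1 : Matrix.diagonal (fun i : Fin (n + 5) => if (i : ℕ) = 4 then (5 : F) else 1) *ᵥ v =
    fun i : Fin (n + 5) => (if (i : ℕ) = 4 then (5 : F) else 1) * v i := by
    funext i
    rw [Matrix.mulVec_diagonal]
  rw [h1]
  congr 1
  rw [← Matrix.mulVec_mulVec]
  have h2 : Matrix.replicateRow Unit (u4 n F) *ᵥ (fun i : Fin (n + 5) => (if (i : ℕ) = 4 then (5 : F) else 1) * v i) =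
      fun _ => v 0 + v 1 + v 2 + v 3 := by
    funext x
    show u4 n F ⬝ᵥ _ = _
    rw [dot_u4]
    have e0 : (if ((0 : Fin (n + 5)) : ℕ) = 4 then (5 : F) else 1) = 1 := if_neg (by norm_num : ¬ (0 : ℕ) = 4)
    have e1 : (if ((1 : Fin (n + 5)) : ℕ) = 4 then (5 : F) else 1) = 1 := if_neg (by norm_num : ¬ (1 : ℕ) = 4)
    have e2 : (if ((2 : Fin (n + 5)) : ℕ) = 4 then (5 : F) else 1) = 1 := if_neg (by norm_num : ¬ (2 : ℕ) = 4)
    have e3 : (if ((3 : Fin (n + 5)) : ℕ) = 4 then (5 : F) else 1) = 1 := if_neg (by norm_num : ¬ (3 : ℕ) = 4)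
    rw [e0, e1, e2, e3, one_mul, one_mul, one_mul, one_mul]
  rw [h2]
  funext i
  show ∑ x : Unit, u4 n F i * _ = _ * u4 n F i
  rw [Finset.univ_unique, Finset.sum_singleton, mul_comm]

theorem Y4_WG [Fintype F] (hq : Fintype.card F ≤ 4) (v : Fin (n + 5) → F) :
    Nw (Fintype.card F) (Y4 n F *ᵥ v) = Nw (Fintype.card F) v := by
  obtain ⟨h25, h5, hs⟩ := small_facts hq
  have hq2 : 1 < Fintype.card F := Fintype.one_lt_card
  set q := Fintype.card F
  set s := v 0 + v 1 + v 2 + v 3 with hs'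
  have key : Nw q (Y4 n F *ᵥ v) - Nw q v =
      ∑ i : Fin (n + 1 + 4), (if (i : ℕ) < 4 then (v i + s) ^ (q - 1) - v i ^ (q - 1) else 0) := by
    rw [Nw, Nw, ← Finset.sum_sub_distrib]
    apply Finset.sum_congr rfl
    intro i _
    rw [Y4_mulVec]
    show ((if (i : ℕ) = 4 then (5 : F) else 1) * v i + s * (if (i : ℕ) < 4 then 1 else 0)) ^ (q - 1) - v i ^ (q - 1) = _
    by_cases h4 : (i : ℕ) < 4
    · rw [if_neg (by omega), if_pos h4, if_pos h4, one_mul, mul_one]
    · rw [if_neg h4, if_neg h4, mul_zero, add_zero, mul_pow]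
      by_cases h6 : (i : ℕ) = 4
      · rw [if_pos h6, h5, one_mul, sub_self]
      · rw [if_neg h6, one_pow, one_mul, sub_self]
  have h1 := sum4 (n := n + 1) (fun i : Fin (n + 1 + 4) => (v i + s) ^ (q - 1) - v i ^ (q - 1))
  rw [h1] at key
  have h2 := hs (v 0) (v 1) (v 2) (v 3)
  have h3 : (v 0 + s) ^ (q - 1) - v 0 ^ (q - 1) + ((v 1 + s) ^ (q - 1) - v 1 ^ (q - 1)) +
      ((v 2 + s) ^ (q - 1) - v 2 ^ (q - 1)) + ((v 3 + s) ^ (q - 1) - v 3 ^ (q - 1)) = 0 := by
    linear_combination h2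
  exact sub_eq_zero.1 (key.trans h3)

/-- the monomial group over a small field is not maximal -/
theorem lines_nonmax [Fintype F] (hn : 5 ≤ n) (hq : Fintype.card F ≤ 4) {t : ℕ} {D : Fin t → Submodule F (Fin n → F)}
    (hD : IsMDecomposition 1 D) : ∃ K : Subgroup (GL (Fin n) F),
      decompositionStabilizer D ⊓ specialLinear (Fin n) F < K ∧ K < specialLinear (Fin n) F := by
  classical
  obtain ⟨n, rfl⟩ : ∃ k, n = k + 5 := ⟨n - 5, by omega⟩
  obtain ⟨h25, h5, hs⟩ := small_facts hq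
  obtain ⟨B, hB⟩ := mono_of_lines hD
  let M : Subgroup (GL (Fin (n + 5)) F) := (WG (n + 5) F (Fintype.card F)).comap (MulAut.conj B⁻¹).toMonoidHom
  have hmem : ∀ g, g ∈ M ↔ B⁻¹ * g * B ∈ WG (n + 5) F (Fintype.card F) := by
    intro g
    show (MulAut.conj B⁻¹) g ∈ WG (n + 5) F (Fintype.card F) ↔ _
    rw [MulAut.conj_apply, inv_inv]
  have hle : decompositionStabilizer D ⊓ specialLinear (Fin (n + 5)) F ≤ M := by
    rintro g ⟨hg, -⟩
    obtain ⟨π, d, hd, hij⟩ := hB g hg
    rw [hmem]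
    exact mono_WG hd hij
  have hq2 : 1 < Fintype.card F := Fintype.one_lt_card
  refine nonmax_of (M := M) inf_le_right hle ?_ ?_
  · intro hSL
    have hE : (Matrix.transvection (0 : Fin (n + 5)) 1 (1 : F)) * Matrix.transvection (0 : Fin (n + 5)) 1 (-1 : F) = 1 := by
      rw [Matrix.transvection_mul_transvection_same (i := (0 : Fin (n + 5))) (j := 1) (by simp)]
      simp
    have hE' : (Matrix.transvection (0 : Fin (n + 5)) 1 (-1 : F)) * Matrix.transvection (0 : Fin (n + 5)) 1 (1 : F) = 1 := by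
      rw [Matrix.transvection_mul_transvection_same (i := (0 : Fin (n + 5))) (j := 1) (by simp)]
      simp
    let t : GL (Fin (n + 5)) F := ⟨_, _, hE, hE'⟩
    have ht : t ∈ specialLinear (Fin (n + 5)) F := by
      show Matrix.GeneralLinearGroup.det t = 1
      apply Units.ext
      exact Matrix.det_transvection_of_ne 0 1 (by simp) 1
    have h6 := (hmem _).1 (hSL (SL_conj ht B))
    have e1 : B⁻¹ * (B * t * B⁻¹) * B = t := by group
    rw [e1] at h6
    have h7 := h6 (Pi.single 1 1 : Fin (n + 5) → F)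
    have h8 : (t : Matrix (Fin (n + 5)) (Fin (n + 5)) F) *ᵥ (Pi.single 1 1 : Fin (n + 5) → F) = (Pi.single 1 1 : Fin (n + 5) → F) + (Pi.single 0 1 : Fin (n + 5) → F) := by
      show (1 + Matrix.single (0 : Fin (n + 5)) (1 : Fin (n + 5)) (1 : F)) *ᵥ (Pi.single 1 1 : Fin (n + 5) → F) = _
      rw [Matrix.add_mulVec, Matrix.one_mulVec]
      congr 1
      funext i
      rw [Matrix.mulVec_single_one]
      show Matrix.single (0 : Fin (n + 5)) (1 : Fin (n + 5)) (1 : F) i 1 = _
      rw [Matrix.single_apply, Pi.single_apply]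
      by_cases h : i = 0
      · rw [if_pos ⟨h.symm, rfl⟩, if_pos h]
      · rw [if_neg (fun h' => h h'.1.symm), if_neg h]
    have h10 : (1 : Fin (n + 5)) ≠ 0 := by simp
    have hq1 : Fintype.card F - 1 ≠ 0 := by omega
    have h9 : Nw (Fintype.card F) (Pi.single 1 1 : Fin (n + 5) → F) = 1 := by
      rw [Nw, Finset.sum_eq_single (1 : Fin (n + 5))]
      · rw [Pi.single_eq_same, one_pow]
      · intro i _ hi
        rw [Pi.single_eq_of_ne hi, zero_pow hq1]
      · intro h; exact absurd (Finset.mem_univ _) h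
    have h11 : Nw (Fintype.card F) ((Pi.single 1 1 : Fin (n + 5) → F) + (Pi.single 0 1 : Fin (n + 5) → F)) = 1 + 1 := by
      rw [Nw, Finset.sum_eq_add (1 : Fin (n + 5)) 0 h10]
      · rw [Pi.add_apply, Pi.add_apply, Pi.single_eq_same, Pi.single_eq_same, Pi.single_eq_of_ne h10,
          Pi.single_eq_of_ne h10.symm, add_zero, zero_add, one_pow]
      · intro i _ hi
        rw [Pi.add_apply, Pi.single_eq_of_ne hi.1, Pi.single_eq_of_ne hi.2, add_zero, zero_pow hq1]
      · intro h; exact absurd (Finset.mem_univ _) h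
      · intro h; exact absurd (Finset.mem_univ _) h
    rw [h8, h9, h11] at h7
    have h12 : (1 : F) = 0 := by linear_combination h7
    exact one_ne_zero h12
  · have hd1 : (Y4 n F).det ≠ 0 := by rw [Y4_det h25]; exact one_ne_zero
    let y : GL (Fin (n + 5)) F := Matrix.GeneralLinearGroup.mkOfDetNeZero _ hd1
    have hy : y ∈ specialLinear (Fin (n + 5)) F := by
      show Matrix.GeneralLinearGroup.det y = 1
      apply Units.ext
      exact Y4_det h25
    have e1 : B⁻¹ * (B * y * B⁻¹) * B = y := by group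
    refine ⟨B * y * B⁻¹, SL_conj hy B, ?_, fun hgH => ?_⟩
    · rw [hmem, e1]
      exact fun v => Y4_WG hq v
    · obtain ⟨π, d, hd, hij⟩ := hB _ hgH.1
      rw [e1] at hij
      have hcol : ∀ i : Fin (n + 5), 0 < (i : ℕ) → (i : ℕ) < 4 → (y : Matrix (Fin (n + 5)) (Fin (n + 5)) F) i 0 = 1 := by
        intro i hi0 hi4
        have h6 := congrFun (Y4_mulVec (n := n) (Pi.single 0 1 : Fin (n + 5) → F)) i
        rw [Matrix.mulVec_single_one] at h6
        have h7 : (y : Matrix (Fin (n + 5)) (Fin (n + 5)) F) i 0 = (Y4 n F).col 0 i := rfl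
        rw [h7, h6]
        have hi : i ≠ 0 := by
          rintro rfl
          exact lt_irrefl _ hi0
        have e2 : (Pi.single (0 : Fin (n + 5)) (1 : F) : Fin (n + 5) → F) 0 = 1 := Pi.single_eq_same _ _
        have e3 : (Pi.single (0 : Fin (n + 5)) (1 : F) : Fin (n + 5) → F) 1 = 0 := Pi.single_eq_of_ne (by simp) _
        have e4 : (Pi.single (0 : Fin (n + 5)) (1 : F) : Fin (n + 5) → F) 2 = 0 :=
          Pi.single_eq_of_ne (fun h => by have := congrArg Fin.val h; exact absurd this (by norm_num : ¬ (2 : ℕ) = 0)) _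
        have e5 : (Pi.single (0 : Fin (n + 5)) (1 : F) : Fin (n + 5) → F) 3 = 0 :=
          Pi.single_eq_of_ne (fun h => by have := congrArg Fin.val h; exact absurd this (by norm_num : ¬ (3 : ℕ) = 0)) _
        show (if (i : ℕ) = 4 then (5 : F) else 1) * (Pi.single (0 : Fin (n + 5)) (1 : F) : Fin (n + 5) → F) i +
          _ * (if (i : ℕ) < 4 then (1 : F) else 0) = 1
        rw [Pi.single_eq_of_ne hi, e2, e3, e4, e5, if_pos hi4]
        ring
      have h1 := hcol 1 (by norm_num) (by norm_num)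
      have h2 := hcol 2 (by show 0 < 2; norm_num) (by show 2 < 4; norm_num)
      rw [hij] at h1 h2
      have h3 : (1 : Fin (n + 5)) = π 0 := by
        by_contra h
        rw [if_neg h] at h1
        exact zero_ne_one h1
      have h4 : (2 : Fin (n + 5)) = π 0 := by
        by_contra h
        rw [if_neg h] at h2
        exact zero_ne_one h2
      have h5 := congrArg Fin.val (h3.trans h4.symm)
      exact absurd h5 (by norm_num : ¬ (1 : ℕ) = 2)

/-- tensor decompositions with a two dimensional factor over the field of two elements -/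
theorem ten_two_comm [Fintype F] (hn : 0 < n) (hq : Fintype.card F = 2) {m : ℕ} (e : Fin n ≃ Fin 2 × Fin m) (P : GL (Fin n) F) :
    ∃ K : Subalgebra F (Matrix (Fin n) (Fin n) F), IsFieldSubalgebra 2 K ∧
      tensorProductSubgroup 2 m e P ≤ subalgebraNormalizer K ∧
      ∀ g : GL (Fin n) F, (g : Matrix (Fin n) (Fin n) F) * ((P : Matrix (Fin n) (Fin n) F) *
    (om F ⊗ₖ (1 : Matrix (Fin m) (Fin m) F)).submatrix e e * ((P⁻¹ : GL (Fin n) F) : Matrix (Fin n) (Fin n) F)) =
      ((P : Matrix (Fin n) (Fin n) F) *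
    (om F ⊗ₖ (1 : Matrix (Fin m) (Fin m) F)).submatrix e e * ((P⁻¹ : GL (Fin n) F) : Matrix (Fin n) (Fin n) F)) *
      (g : Matrix (Fin n) (Fin n) F) → g ∈ subalgebraNormalizer K := by
  classical
  haveI : Nonempty (Fin n) := ⟨⟨0, hn⟩⟩
  set W : Matrix (Fin n) (Fin n) F := (P : Matrix (Fin n) (Fin n) F) *
    (om F ⊗ₖ (1 : Matrix (Fin m) (Fin m) F)).submatrix e e * ((P⁻¹ : GL (Fin n) F) : Matrix (Fin n) (Fin n) F) with hWdef
  have hPP : ((P⁻¹ : GL (Fin n) F) : Matrix (Fin n) (Fin n) F) * (P : Matrix (Fin n) (Fin n) F) = 1 := by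
    rw [← Units.val_mul, inv_mul_cancel, Units.val_one]
  have hPP' : (P : Matrix (Fin n) (Fin n) F) * ((P⁻¹ : GL (Fin n) F) : Matrix (Fin n) (Fin n) F) = 1 := by
    rw [← Units.val_mul, mul_inv_cancel, Units.val_one]
  have h1 : om F * om F = om F + 1 := by
    have h2 := two_eq_zero hq
    have z1 : (1 : F) + 1 = 0 := by rw [one_add_one_eq_two]; exact h2
    ext i j
    fin_cases i <;> fin_cases j <;> simp [om, Matrix.mul_apply, Fin.sum_univ_two]
  have hadd : ∀ x : Matrix (Fin 2) (Fin 2) F, ((x + 1) ⊗ₖ (1 : Matrix (Fin m) (Fin m) F)).submatrix e e =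
      (x ⊗ₖ (1 : Matrix (Fin m) (Fin m) F)).submatrix e e + 1 := by
    intro x
    rw [Matrix.add_kronecker, Matrix.one_kronecker_one]
    ext i j
    simp [Matrix.one_apply]
  have hconj : ∀ A B : Matrix (Fin n) (Fin n) F, ((P : Matrix (Fin n) (Fin n) F) * A *
      ((P⁻¹ : GL (Fin n) F) : Matrix (Fin n) (Fin n) F)) * ((P : Matrix (Fin n) (Fin n) F) * B *
      ((P⁻¹ : GL (Fin n) F) : Matrix (Fin n) (Fin n) F)) = (P : Matrix (Fin n) (Fin n) F) * (A * B) *
      ((P⁻¹ : GL (Fin n) F) : Matrix (Fin n) (Fin n) F) := by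
    intro A B
    calc _ = (P : Matrix (Fin n) (Fin n) F) * A * (((P⁻¹ : GL (Fin n) F) : Matrix (Fin n) (Fin n) F) *
        (P : Matrix (Fin n) (Fin n) F)) * B * ((P⁻¹ : GL (Fin n) F) : Matrix (Fin n) (Fin n) F) := by
          simp only [mul_assoc]
      _ = _ := by rw [hPP, mul_one]; simp only [mul_assoc]
  have hW : W * W = W + 1 := by
    rw [hWdef, hconj, Matrix.submatrix_mul_equiv, ← Matrix.mul_kronecker_mul, h1, one_mul, hadd, mul_add, add_mul,
      mul_one, hPP']
  refine ⟨quadSub hq W hW, quadSub_field hq W hW, quadSub_norm hq W hW ?_, fun g hg => ?_⟩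
  swap
  · let C : Subgroup (GL (Fin n) F) :=
      { carrier := {x | (x : Matrix (Fin n) (Fin n) F) * W = W * (x : Matrix (Fin n) (Fin n) F)}
        one_mem' := by
          show ((1 : GL (Fin n) F) : Matrix (Fin n) (Fin n) F) * W = W * ((1 : GL (Fin n) F) : Matrix (Fin n) (Fin n) F)
          rw [Units.val_one, one_mul, mul_one]
        mul_mem' := by
          intro a b ha hb
          show ((a * b : GL (Fin n) F) : Matrix (Fin n) (Fin n) F) * W = W * ((a * b : GL (Fin n) F) : Matrix (Fin n) (Fin n) F)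
          have ha' : (a : Matrix (Fin n) (Fin n) F) * W = W * (a : Matrix (Fin n) (Fin n) F) := ha
          have hb' : (b : Matrix (Fin n) (Fin n) F) * W = W * (b : Matrix (Fin n) (Fin n) F) := hb
          rw [Units.val_mul, mul_assoc, hb', ← mul_assoc, ha', mul_assoc]
        inv_mem' := by
          intro a ha
          have ha' : (a : Matrix (Fin n) (Fin n) F) * W = W * (a : Matrix (Fin n) (Fin n) F) := ha
          show ((a⁻¹ : GL (Fin n) F) : Matrix (Fin n) (Fin n) F) * W = W * ((a⁻¹ : GL (Fin n) F) : Matrix (Fin n) (Fin n) F)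
          have h3 : ((a⁻¹ : GL (Fin n) F) : Matrix (Fin n) (Fin n) F) * (a : Matrix (Fin n) (Fin n) F) = 1 := by
            rw [← Units.val_mul, inv_mul_cancel, Units.val_one]
          have h4 : (a : Matrix (Fin n) (Fin n) F) * ((a⁻¹ : GL (Fin n) F) : Matrix (Fin n) (Fin n) F) = 1 := by
            rw [← Units.val_mul, mul_inv_cancel, Units.val_one]
          calc ((a⁻¹ : GL (Fin n) F) : Matrix (Fin n) (Fin n) F) * W
              = ((a⁻¹ : GL (Fin n) F) : Matrix (Fin n) (Fin n) F) * (W * (a : Matrix (Fin n) (Fin n) F)) *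
                ((a⁻¹ : GL (Fin n) F) : Matrix (Fin n) (Fin n) F) := by rw [mul_assoc, mul_assoc, h4, mul_one]
            _ = W * ((a⁻¹ : GL (Fin n) F) : Matrix (Fin n) (Fin n) F) := by
                rw [← ha', ← mul_assoc, h3, one_mul] }
    refine quadSub_norm hq W hW (H := C) ?_ hg
    intro x hx
    left
    have hx' : (x : Matrix (Fin n) (Fin n) F) * W = W * (x : Matrix (Fin n) (Fin n) F) := hx
    rw [hx', mul_assoc, ← Units.val_mul, mul_inv_cancel, Units.val_one, mul_one]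
  rintro _ ⟨_, ⟨X, ⟨a, b, hX⟩, rfl⟩, rfl⟩
  have hXi : ((X⁻¹ : GL (Fin 2 × Fin m) F) : Matrix (Fin 2 × Fin m) (Fin 2 × Fin m) F) =
      ((a⁻¹ : GL (Fin 2) F) : Matrix (Fin 2) (Fin 2) F) ⊗ₖ ((b⁻¹ : GL (Fin m) F) : Matrix (Fin m) (Fin m) F) := by
    have h3 : (X : Matrix (Fin 2 × Fin m) (Fin 2 × Fin m) F) * (((a⁻¹ : GL (Fin 2) F) : Matrix (Fin 2) (Fin 2) F) ⊗ₖ
        ((b⁻¹ : GL (Fin m) F) : Matrix (Fin m) (Fin m) F)) = 1 := by
      rw [hX, ← Matrix.mul_kronecker_mul, ← Units.val_mul, ← Units.val_mul, mul_inv_cancel, mul_inv_cancel,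
        Units.val_one, Units.val_one, Matrix.one_kronecker_one]
    calc _ = ((X⁻¹ : GL (Fin 2 × Fin m) F) : Matrix (Fin 2 × Fin m) (Fin 2 × Fin m) F) *
          ((X : Matrix (Fin 2 × Fin m) (Fin 2 × Fin m) F) * (((a⁻¹ : GL (Fin 2) F) : Matrix (Fin 2) (Fin 2) F) ⊗ₖ
        ((b⁻¹ : GL (Fin m) F) : Matrix (Fin m) (Fin m) F))) := by rw [h3, mul_one]
      _ = _ := by rw [← mul_assoc, ← Units.val_mul, inv_mul_cancel, Units.val_one, one_mul]
  have hval : (((MulAut.conj P).toMonoidHom ((glReindex e.symm).toMonoidHom X) : GL (Fin n) F) : Matrix (Fin n) (Fin n) F) =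
      (P : Matrix (Fin n) (Fin n) F) * (X : Matrix (Fin 2 × Fin m) (Fin 2 × Fin m) F).submatrix e e *
      ((P⁻¹ : GL (Fin n) F) : Matrix (Fin n) (Fin n) F) := rfl
  have hvali : (((((MulAut.conj P).toMonoidHom ((glReindex e.symm).toMonoidHom X))⁻¹ : GL (Fin n) F)) : Matrix (Fin n) (Fin n) F) =
      (P : Matrix (Fin n) (Fin n) F) * ((X⁻¹ : GL (Fin 2 × Fin m) F) : Matrix (Fin 2 × Fin m) (Fin 2 × Fin m) F).submatrix e e *
      ((P⁻¹ : GL (Fin n) F) : Matrix (Fin n) (Fin n) F) := by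
    rw [← map_inv, ← map_inv]
    rfl
  have hmain : (((MulAut.conj P).toMonoidHom ((glReindex e.symm).toMonoidHom X) : GL (Fin n) F) : Matrix (Fin n) (Fin n) F) * W *
      (((((MulAut.conj P).toMonoidHom ((glReindex e.symm).toMonoidHom X))⁻¹ : GL (Fin n) F)) : Matrix (Fin n) (Fin n) F) =
      (P : Matrix (Fin n) (Fin n) F) *
      (((a : Matrix (Fin 2) (Fin 2) F) * om F * ((a⁻¹ : GL (Fin 2) F) : Matrix (Fin 2) (Fin 2) F)) ⊗ₖ
        (1 : Matrix (Fin m) (Fin m) F)).submatrix e e *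
      ((P⁻¹ : GL (Fin n) F) : Matrix (Fin n) (Fin n) F) := by
    rw [hval, hvali, hWdef, hconj, hconj, Matrix.submatrix_mul_equiv, Matrix.submatrix_mul_equiv, hX, hXi,
      ← Matrix.mul_kronecker_mul, ← Matrix.mul_kronecker_mul, mul_one, ← Units.val_mul b, mul_inv_cancel, Units.val_one]
  rw [hmain]
  rcases om_conj hq (a : Matrix (Fin 2) (Fin 2) F) ((a⁻¹ : GL (Fin 2) F) : Matrix (Fin 2) (Fin 2) F)
    (by rw [← Units.val_mul, mul_inv_cancel, Units.val_one]) (by rw [← Units.val_mul, inv_mul_cancel, Units.val_one])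
    with h | h
  · left
    rw [h]
  · right
    rw [h, hadd, mul_add, add_mul, mul_one, hPP']

/-- tensor products with a two-dimensional factor over the field of two elements are not maximal -/
theorem ten_two_nonmax [Fintype F] (hq : Fintype.card F = 2) {m : ℕ} (hm : 2 ≤ m) (e : Fin n ≃ Fin 2 × Fin m)
    (P : GL (Fin n) F) : ∃ K : Subgroup (GL (Fin n) F),
      tensorProductSubgroup 2 m e P ⊓ specialLinear (Fin n) F < K ∧ K < specialLinear (Fin n) F := by
  classical
  have hcard : 2 * m = n := by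
    have := Fintype.card_congr e
    rw [Fintype.card_prod, Fintype.card_fin, Fintype.card_fin, Fintype.card_fin] at this
    exact this.symm
  have h2 := two_eq_zero hq
  obtain ⟨K, hK, hle, hcomm⟩ := ten_two_comm (by omega) hq e P
  refine nonmax_of (M := subalgebraNormalizer K) inf_le_right (inf_le_left.trans hle)
    (not_SL_le_fld (by omega) one_lt_two hK) ?_
  let i₀ : Fin m := ⟨0, by omega⟩
  let i₁ : Fin m := ⟨1, by omega⟩
  have h01 : i₀ ≠ i₁ := by
    intro h; exact absurd (congrArg Fin.val h) (by simp [i₀, i₁])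
  let N : Matrix (Fin 2 × Fin m) (Fin 2 × Fin m) F := om F ⊗ₖ Matrix.single i₀ i₁ 1
  have hN : N * N = 0 := by
    show (om F ⊗ₖ Matrix.single i₀ i₁ 1) * (om F ⊗ₖ Matrix.single i₀ i₁ 1) = 0
    rw [← Matrix.mul_kronecker_mul, Matrix.single_mul_single_of_ne _ _ _ _ h01.symm, Matrix.kronecker_zero]
  have hinv : (1 + N) * (1 + N) = 1 := by
    have : (1 + N) * (1 + N) = 1 + (2 : F) • N + N * N := by
      rw [mul_add, add_mul, add_mul, one_mul, mul_one, one_mul, two_smul]
      abel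
    rw [this, hN, h2, zero_smul, add_zero, add_zero]
  let g₀ : GL (Fin 2 × Fin m) F := ⟨1 + N, 1 + N, hinv, hinv⟩
  let g : GL (Fin n) F := (MulAut.conj P) (glReindex e.symm g₀)
  have hgval : (g : Matrix (Fin n) (Fin n) F) = (P : Matrix (Fin n) (Fin n) F) * (1 + N).submatrix e e *
      ((P⁻¹ : GL (Fin n) F) : Matrix (Fin n) (Fin n) F) := rfl
  have hPP : ((P⁻¹ : GL (Fin n) F) : Matrix (Fin n) (Fin n) F) * (P : Matrix (Fin n) (Fin n) F) = 1 := by
    rw [← Units.val_mul, inv_mul_cancel, Units.val_one]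
  have hconj : ∀ A B : Matrix (Fin n) (Fin n) F, ((P : Matrix (Fin n) (Fin n) F) * A *
      ((P⁻¹ : GL (Fin n) F) : Matrix (Fin n) (Fin n) F)) * ((P : Matrix (Fin n) (Fin n) F) * B *
      ((P⁻¹ : GL (Fin n) F) : Matrix (Fin n) (Fin n) F)) = (P : Matrix (Fin n) (Fin n) F) * (A * B) *
      ((P⁻¹ : GL (Fin n) F) : Matrix (Fin n) (Fin n) F) := by
    intro A B
    calc _ = (P : Matrix (Fin n) (Fin n) F) * A * (((P⁻¹ : GL (Fin n) F) : Matrix (Fin n) (Fin n) F) *
        (P : Matrix (Fin n) (Fin n) F)) * B * ((P⁻¹ : GL (Fin n) F) : Matrix (Fin n) (Fin n) F) := by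
          simp only [mul_assoc]
      _ = _ := by rw [hPP, mul_one]; simp only [mul_assoc]
  refine ⟨g, ?_, hcomm g ?_, ?_⟩
  · -- every invertible matrix has determinant one
    show Matrix.GeneralLinearGroup.det g = 1
    apply Units.ext
    rcases eq_zero_or_one hq ((Matrix.GeneralLinearGroup.det g : Fˣ) : F) with h | h
    · exact absurd h (Units.ne_zero _)
    · exact h
  · rw [hgval, hconj, hconj, Matrix.submatrix_mul_equiv, Matrix.submatrix_mul_equiv]
    congr 3
    show (1 + om F ⊗ₖ Matrix.single i₀ i₁ 1) * (om F ⊗ₖ 1) = (om F ⊗ₖ 1) * (1 + om F ⊗ₖ Matrix.single i₀ i₁ 1)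
    rw [add_mul, mul_add, one_mul, mul_one, ← Matrix.mul_kronecker_mul, ← Matrix.mul_kronecker_mul, one_mul, mul_one]
  · rintro ⟨⟨_, ⟨X, ⟨a, b, hX⟩, rfl⟩, hXg⟩, -⟩
    have h3 : glReindex e.symm X = glReindex e.symm g₀ := (MulAut.conj P).injective hXg
    have h4 : X = g₀ := (glReindex e.symm).injective h3
    have h5 : (1 + N) = (a : Matrix (Fin 2) (Fin 2) F) ⊗ₖ (b : Matrix (Fin m) (Fin m) F) := by
      rw [← hX, h4]
    have hent : ∀ (i j : Fin 2) (k l : Fin m), (1 : Matrix (Fin 2 × Fin m) (Fin 2 × Fin m) F) (i, k) (j, l) +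
        om F i j * Matrix.single i₀ i₁ 1 k l = (a : Matrix (Fin 2) (Fin 2) F) i j * (b : Matrix (Fin m) (Fin m) F) k l := by
      intro i j k l
      have := congrFun (congrFun h5 (i, k)) (j, l)
      exact this
    -- entries of the first block
    have e1 := hent 0 0 i₀ i₀
    have e2 := hent 0 1 i₀ i₀
    have e3 := hent 0 1 i₀ i₁
    rw [Matrix.single_apply, Matrix.one_apply] at e1 e2 e3
    rw [if_pos rfl, if_neg (fun h => h01 h.2.symm)] at e1
    rw [if_neg (by intro h; exact absurd (congrArg Prod.fst h) (by simp)), if_neg (fun h => h01 h.2.symm)] at e2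
    rw [if_neg (by intro h; exact absurd (congrArg Prod.fst h) (by simp)), if_pos ⟨rfl, rfl⟩] at e3
    simp only [om, Matrix.of_apply, Matrix.cons_val', Matrix.cons_val_zero, Matrix.cons_val_one] at e1 e2 e3
    simp only [mul_zero, mul_one, add_zero, zero_add] at e1 e2 e3
    have hb : (b : Matrix (Fin m) (Fin m) F) i₀ i₀ ≠ 0 := by
      intro h
      rw [h, mul_zero] at e1
      exact one_ne_zero e1
    have ha : (a : Matrix (Fin 2) (Fin 2) F) 0 1 = 0 := (mul_eq_zero.1 e2.symm).resolve_right hb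
    rw [ha, zero_mul] at e3
    exact one_ne_zero e3

end Cfsg.Agent.H29.Fm
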