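import Mathlib
import Cfsg.Agent.H29_Nm4

set_option autoImplicit false

/-! stabilisers that are not maximal: orthogonal groups of a general quadratic form in odd characteristic -/

namespace Cfsg.Agent.H29.Fm

open Matrix Module Cfsg.Geo Cfsg.Agent.H29.Clifford Cfsg.Agent.H29.Asc Cfsg.Agent.H29.AscF Cfsg.Agent.H29.Trv
  Cfsg.Agent.H29.AscT Cfsg.Agent.H29.Rx
open scoped Kronecker commutatorElement

variable {F : Type*} [Field F] {n k m r w t : ℕ} {τ : F ≃+* F} {ε : F}
variable {f : (Fin n → F) → (Fin n → F) → F}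

section general

variable {Q : (Fin n → F) → F}

theorem polar_self' (hQ : IsNondegenerateQuadraticForm Q) (v : Fin n → F) : QuadraticMap.polar Q v v = 2 * Q v := by
  show Q (v + v) - Q v - Q v = _
  have h1 : v + v = (2 : F) • v := by rw [two_smul]
  rw [h1, hQ.smul]
  ring

theorem or_quad (hQ : IsNondegenerateQuadraticForm Q) (h2 : (2 : F) ≠ 0) : OrF (QuadraticMap.polar Q) where
  two := h2
  sfm :=
    { eps := Or.inl rfl
      inv := fun a => rfl
      add_left := fun x y v => hQ.polar_bilinear.add_left x y v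
      smul_left := fun c x v => hQ.polar_bilinear.smul_left c x v
      herm := by
        intro u v
        rw [RingEquiv.refl_apply, one_mul]
        exact QuadraticMap.polar_comm _ u v
      nd := by
        intro v hv
        obtain ⟨-, x, hx⟩ := hQ.nondegenerate v hv
        refine ⟨x, ?_⟩
        rw [QuadraticMap.polar_comm]
        exact hx }

theorem iso_quad (hQ : IsNondegenerateQuadraticForm Q) (h2 : (2 : F) ≠ 0) {g : GL (Fin n) F}
    (hg : g ∈ isoG (QuadraticMap.polar Q)) : g ∈ Cfsg.isometryGroup F Q := by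
  intro u v
  show Q ((g : Matrix (Fin n) (Fin n) F) *ᵥ u) = Q u
  have h1 := mem_isoG.1 hg u u
  rw [polar_self' hQ, polar_self' hQ] at h1
  exact mul_left_cancel₀ h2 h1

theorem comm_quad (hQ : IsNondegenerateQuadraticForm Q) (h2 : (2 : F) ≠ 0) {g₁ g₂ : GL (Fin n) F}
    (hg₁ : g₁ ∈ isoG (QuadraticMap.polar Q)) (hg₂ : g₂ ∈ isoG (QuadraticMap.polar Q)) : ⁅g₁, g₂⁆ ∈ omegaGL Q :=
  ⟨⁅(⟨g₁, iso_quad hQ h2 hg₁⟩ : Cfsg.isometryGroup F Q), ⟨g₂, iso_quad hQ h2 hg₂⟩⁆,
    Subgroup.commutator_mem_commutator (Subgroup.mem_top _) (Subgroup.mem_top _), rfl⟩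

theorem sg_quad [Fintype F] (hQ : IsNondegenerateQuadraticForm Q) (h2 : (2 : F) ≠ 0) (hn : 5 ≤ n) :
    SG (QuadraticMap.polar Q) (omegaGL Q) := by
  intro e x he hx hex
  have h := or_quad hQ h2
  by_cases he0 : e = 0
  · refine ⟨1, Subgroup.one_mem _, fun v => ?_⟩
    rw [he0, Units.val_one, Matrix.one_mulVec, h.sfm.zero_right, zero_smul, smul_zero, sub_zero, add_zero]
  by_cases hxe : ∀ c : F, x ≠ c • e
  · obtain ⟨g₁, hg₁, g₂, hg₂, hg⟩ := siegel_comm h hn he hx hex he0 hxe
    exact ⟨⁅g₁, g₂⁆, comm_quad hQ h2 hg₁ hg₂, hg⟩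
  · push Not at hxe
    obtain ⟨c, hc⟩ := hxe
    refine ⟨1, Subgroup.one_mem _, fun v => ?_⟩
    rw [hc, Units.val_one, Matrix.one_mulVec, h.smul_right, smul_smul, mul_comm c, sub_self, add_zero]

theorem omega_iso {g : GL (Fin n) F} (hg : g ∈ omegaGL Q) : g ∈ Cfsg.isometryGroup F Q := by
  obtain ⟨x, -, rfl⟩ := hg
  exact x.2

theorem fx_quad : Fx (QuadraticMap.polar Q) (omegaGL Q) := by
  intro g hg u v
  have h1 : ∀ x, Q ((g : Matrix (Fin n) (Fin n) F) *ᵥ x) = Q x := fun x => (omega_iso hg) x x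
  show Q (_ + _) - Q _ - Q _ = Q (_ + _) - Q _ - Q _
  rw [← Matrix.mulVec_add, h1, h1, h1]

theorem isom_quad (hQ : IsNondegenerateQuadraticForm Q) {W W' : Submodule F (Fin n → F)} (h : AreIsometricFor Q W W') :
    AreIsometricFor (fun v => QuadraticMap.polar Q v v) W W' := by
  obtain ⟨e, he⟩ := h
  refine ⟨e, fun w => ?_⟩
  show QuadraticMap.polar Q _ _ = QuadraticMap.polar Q _ _
  rw [polar_self' hQ, polar_self' hQ, he]

end general

/-- refinement of a decomposition to an orthogonal frame -/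
theorem refine_onb [Fintype F] (h : OrF f) (hk : 0 < k) {D : Fin t → Submodule F (Fin n → F)}
    (hD : IsNondegenerateMDecomposition f k D) (hiso : ∀ i j, AreIsometricFor (fun v => f v v) (D i) (D j))
    {i₀ : Fin t} {ε : F} (hε : ε ≠ 0) {b : Fin k → D i₀}
    (hb : ∀ a c, f (b a : Fin n → F) (b c) = if a = c then ε else 0)
    (hbs : ∀ x : D i₀, ∃ c : Fin k → F, x = ∑ a, c a • b a)
    (hsol : ∀ c : Fin k → F, ∑ a, c a * c a = 1 → ∃ a, ∀ b, b ≠ a → c b = 0) :
    ∃ (v : Fin t × Fin k → (Fin n → F)), (∀ i a, v (i, a) ∈ D i) ∧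
      (∀ p q, f (v p) (v q) = if p = q then ε else 0) ∧
    ∃ D' : Fin (t * k) → Submodule F (Fin n → F), (∀ i, D' i = Submodule.span F {v (finProdFinEquiv.symm i)}) ∧
      IsNondegenerateMDecomposition f 1 D' ∧
      ∀ G : Subgroup (GL (Fin n) F), Fx f G → G ≤ decompositionStabilizer D → G ≤ decompositionStabilizer D' := by
  classical
  have ht := hD.decomp.two_le
  have htm := dec_card hD.decomp
  have htk : 2 ≤ t * k := le_trans ht (Nat.le_mul_of_pos_right t hk)
  choose φ hφ using fun j => hiso i₀ j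
  have hbil : ∀ j (u v : D i₀), f ((φ j u : D j) : Fin n → F) (φ j v : D j) = f (u : Fin n → F) v :=
    fun j => isom_bil h (hφ j)
  let v : Fin t × Fin k → (Fin n → F) := fun p => ((φ p.1 (b p.2) : D p.1) : Fin n → F)
  have hvD : ∀ i a, v (i, a) ∈ D i := fun i a => (φ i _).2
  have hv : ∀ p q, f (v p) (v q) = if p = q then ε else 0 := by
    rintro ⟨i, a⟩ ⟨j, c⟩
    by_cases hij : i = j
    · subst hij
      show f ((φ i _ : D i) : Fin n → F) (φ i _ : D i) = _
      rw [hbil, hb]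
      congr 1
      apply propext
      exact ⟨fun h => Prod.ext rfl h, fun h => congrArg Prod.snd h⟩
    · rw [if_neg (fun h => hij (congrArg Prod.fst h))]
      exact hD.orthogonal i j hij _ (hvD i a) _ (hvD j c)
  have hspan : ∀ i, ∀ x ∈ D i, ∃ c : Fin k → F, x = ∑ a, c a • v (i, a) := by
    intro i x hx
    obtain ⟨y, hy⟩ := (φ i).surjective ⟨x, hx⟩
    obtain ⟨c, hc⟩ := hbs y
    refine ⟨c, ?_⟩
    have h3 : x = ((φ i y : D i) : Fin n → F) := (congrArg Subtype.val hy).symm
    rw [h3, hc, map_sum]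
    have h4 : ∀ s : Fin k → D i, ((∑ a, s a : D i) : Fin n → F) = ∑ a, (s a : Fin n → F) :=
      fun s => AddSubmonoidClass.coe_finset_sum _ _
    rw [h4]
    apply Finset.sum_congr rfl
    intro a _
    rw [map_smul]
    rfl
  let u : Fin (t * k) × Fin 1 → (Fin n → F) := fun p => v (finProdFinEquiv.symm p.1)
  have hu : ∀ p q, f (u p) (u q) = if p = q then ε else 0 := by
    intro p q
    show f (v (finProdFinEquiv.symm p.1)) (v (finProdFinEquiv.symm q.1)) = _
    rw [hv]
    congr 1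
    apply propext
    rw [EmbeddingLike.apply_eq_iff_eq]
    constructor
    · intro h1
      exact Prod.ext h1 (Subsingleton.elim _ _)
    · intro h1
      rw [h1]
  have hrange : ∀ i, Submodule.span F (Set.range (fun a => u (i, a))) = Submodule.span F {u (i, 0)} := by
    intro i
    congr 1
    ext x
    constructor
    · rintro ⟨a, rfl⟩
      rw [Subsingleton.elim a 0]
      rfl
    · intro hx
      exact ⟨0, hx.symm⟩
  have hdec := dec_onb h.sfm hε hu (by rw [mul_one]; exact htm) htk one_pos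
  refine ⟨v, hvD, hv, _, fun i => hrange i, hdec, ?_⟩
  intro G hG hle g hg
  obtain ⟨σ, hσ⟩ := hle hg
  apply mem_frame h.sfm hε hu (by rw [mul_one]; exact htm) htk
  intro i
  obtain ⟨⟨i', a⟩, rfl⟩ := finProdFinEquiv.surjective i
  have h1 : (g : Matrix (Fin n) (Fin n) F) *ᵥ v (i', a) ∈ D (σ i') := by
    rw [← hσ i']
    exact ⟨_, hvD i' a, rfl⟩
  obtain ⟨c, hc⟩ := hspan _ _ h1
  have h3 : f ((g : Matrix (Fin n) (Fin n) F) *ᵥ v (i', a)) ((g : Matrix (Fin n) (Fin n) F) *ᵥ v (i', a)) = ε := by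
    rw [hG g hg, hv, if_pos rfl]
  have h4 : f (∑ a, c a • v (σ i', a)) (∑ a, c a • v (σ i', a)) = ε * ∑ a, c a * c a := by
    have hvv : ∀ a b, f (v (σ i', a)) (v (σ i', b)) = if a = b then ε else 0 := by
      intro a b
      rw [hv]
      congr 1
      apply propext
      exact ⟨fun h => congrArg Prod.snd h, fun h => by rw [h]⟩
    rw [h.sfm.sum_left, Finset.mul_sum]
    apply Finset.sum_congr rfl
    intro x _
    rw [h.sfm.smul_left, h.sfm.sum_right, Finset.sum_eq_single x]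
    · rw [h.smul_right, hvv, if_pos rfl]
      ring
    · intro y _ hy
      rw [h.smul_right, hvv, if_neg (Ne.symm hy), mul_zero]
    · intro h; exact absurd (Finset.mem_univ _) h
  rw [hc, h4] at h3
  have h5 : ∑ a, c a * c a = 1 := by
    have h6 : ε * (∑ a, c a * c a - 1) = 0 := by linear_combination h3
    exact sub_eq_zero.1 ((mul_eq_zero.1 h6).resolve_left hε)
  obtain ⟨a₁, ha₁⟩ := hsol c h5
  have hu' : ∀ x : Fin t × Fin k, u (finProdFinEquiv x, 0) = v x := by
    intro x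
    show v (finProdFinEquiv.symm (finProdFinEquiv x)) = v x
    rw [Equiv.symm_apply_apply]
  refine ⟨finProdFinEquiv (σ i', a₁), c a₁, ?_⟩
  rw [hu', hu', hc, Finset.sum_eq_single a₁]
  · intro y _ hy
    rw [ha₁ y hy, zero_smul]
  · intro h; exact absurd (Finset.mem_univ _) h

/-- non-maximality when the decomposition can be refined -/
theorem onb_nonmax [Fintype F] {Q : (Fin n → F) → F} (hQ : IsNondegenerateQuadraticForm Q) (h2 : (2 : F) ≠ 0) (hn : 5 ≤ n)
    (hk : 2 ≤ k) (ht : 3 ≤ t) {D : Fin t → Submodule F (Fin n → F)} (hD : IsOrthogonalMDecomposition Q k D)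
    {ε : F} (hε : ε ≠ 0) {v : Fin t × Fin k → (Fin n → F)} (hvD : ∀ i a, v (i, a) ∈ D i)
    (hv : ∀ p q, QuadraticMap.polar Q (v p) (v q) = if p = q then ε else 0)
    {D₁ : Fin (t * k) → Submodule F (Fin n → F)} (hD₁ : ∀ i, D₁ i = Submodule.span F {v (finProdFinEquiv.symm i)})
    (hdec : IsNondegenerateMDecomposition (QuadraticMap.polar Q) 1 D₁)
    (hall : ∀ G : Subgroup (GL (Fin n) F), Fx (QuadraticMap.polar Q) G → G ≤ decompositionStabilizer D →
      G ≤ decompositionStabilizer D₁) :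
    ∃ K : Subgroup (GL (Fin n) F), decompositionStabilizer D ⊓ omegaGL Q < K ∧ K < omegaGL Q := by
  classical
  have hor := or_quad hQ h2
  have hSG := sg_quad hQ h2 hn
  have hfixX : Fx (QuadraticMap.polar Q) (omegaGL Q) := fx_quad
  have htm := dec_card hD.decomp.decomp
  have hle : decompositionStabilizer D ⊓ omegaGL Q ≤ decompositionStabilizer D := inf_le_left
  have hleX : decompositionStabilizer D ⊓ omegaGL Q ≤ omegaGL Q := inf_le_right
  let i₀ : Fin t := ⟨0, by omega⟩
  let i₁ : Fin t := ⟨1, by omega⟩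
  let i₂ : Fin t := ⟨2, by omega⟩
  let a₀ : Fin k := ⟨0, by omega⟩
  let a₁ : Fin k := ⟨1, by omega⟩
  have ha : a₁ ≠ a₀ := by intro h; exact absurd (congrArg Fin.val h) (by simp [a₀, a₁])
  have h01 : i₀ ≠ i₁ := by intro h; exact absurd (congrArg Fin.val h) (by simp [i₀, i₁])
  have h02 : i₀ ≠ i₂ := by intro h; exact absurd (congrArg Fin.val h) (by simp [i₀, i₂])
  have h12 : i₁ ≠ i₂ := by intro h; exact absurd (congrArg Fin.val h) (by simp [i₁, i₂])
  obtain ⟨g₁, hg₁, g₂, hg₂, π, hπ1, hπ2, hπ3⟩ := three_cycle hor hε hv (by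
    rw [Fintype.card_prod, Fintype.card_fin, Fintype.card_fin, htm]) (p := (i₀, a₀)) (q := (i₁, a₀)) (r := (i₂, a₀))
    (fun h => h01 (congrArg Prod.fst h)) (fun h => h12 (congrArg Prod.fst h)) (fun h => h02 (congrArg Prod.fst h))
  have hvne : ∀ p, v p ≠ 0 := by
    intro p h0
    have h1 := hv p p
    rw [h0, hor.sfm.zero_left, if_pos rfl] at h1
    exact hε h1.symm
  have hdisj : ∀ i j x, x ∈ D i → x ∈ D j → x ≠ 0 → i = j := by
    intro i j x hi hj hx
    by_contra hij
    have := disjoint_iff.1 (hD.decomp.decomp.indep.pairwiseDisjoint hij)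
    apply hx
    have h1 : x ∈ D i ⊓ D j := ⟨hi, hj⟩
    rwa [this] at h1
  refine nonmax_of (M := decompositionStabilizer D₁) hleX (hall _ (hfixX.mono hleX) hle)
    (hSG.not_le_dec hor hn hdec.decomp) ⟨⁅g₁, g₂⁆, comm_quad hQ h2 hg₁ hg₂,
      perm_dec finProdFinEquiv hD₁ hπ3, fun hgH => ?_⟩
  obtain ⟨σ, hσ⟩ := hle hgH
  have h3 : v (i₂, a₀) ∈ D (σ i₀) := by
    rw [← hσ i₀]
    refine ⟨v (i₀, a₀), hvD _ _, ?_⟩
    rw [Matrix.toLin'_apply, hπ3, hπ1]
  have h4 : v (i₀, a₁) ∈ D (σ i₀) := by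
    rw [← hσ i₀]
    refine ⟨v (i₀, a₁), hvD _ _, ?_⟩
    rw [Matrix.toLin'_apply, hπ3, hπ2]
    · intro h; exact ha (congrArg Prod.snd h)
    · intro h; exact ha (congrArg Prod.snd h)
    · intro h; exact ha (congrArg Prod.snd h)
  have h5 := hdisj _ _ _ h3 (hvD i₂ _) (hvne _)
  have h6 := hdisj _ _ _ h4 (hvD i₀ _) (hvne _)
  exact h02 (h6.symm.trans h5)

/-- anisotropic planes over the field of three elements -/
theorem plane_onb [Fintype F] (h : OrF f) (hF : Fintype.card F = 3) {W : Submodule F (Fin n → F)} (hW : finrank F W = 2)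
    (han : ∀ x ∈ W, f x x = 0 → x = 0) :
    ∃ (ε : F) (b : Fin 2 → W), ε ≠ 0 ∧ (∀ a c, f (b a : Fin n → F) (b c) = if a = c then ε else 0) ∧
      ∀ x : W, ∃ c : Fin 2 → F, x = ∑ a, c a • b a := by
  classical
  have hW0 : W ≠ ⊥ := by
    rintro rfl
    rw [finrank_bot] at hW
    omega
  obtain ⟨v, hvW, hv0⟩ := Submodule.exists_mem_ne_zero_of_ne_bot hW0
  have hvv : f v v ≠ 0 := fun h0 => hv0 (han v hvW h0)
  -- an orthogonal vector
  have hex : ∃ u ∈ W, u ∉ Submodule.span F {v} := by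
    by_contra hc
    push Not at hc
    have h1 : finrank F W ≤ finrank F (Submodule.span F {v}) := Submodule.finrank_mono hc
    rw [finrank_span_singleton hv0] at h1
    omega
  obtain ⟨u, huW, hu⟩ := hex
  obtain ⟨w, hw⟩ : ∃ w, w = u - (f u v / f v v) • v := ⟨_, rfl⟩
  have hwW : w ∈ W := by
    rw [hw]
    exact W.sub_mem huW (W.smul_mem _ hvW)
  have hw0 : w ≠ 0 := by
    rintro rfl
    apply hu
    rw [Submodule.mem_span_singleton]
    exact ⟨_, (sub_eq_zero.1 hw.symm).symm⟩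
  have hwv : f w v = 0 := by
    rw [hw, sub_eq_add_neg, ← neg_smul, h.sfm.add_left, h.sfm.smul_left]
    field_simp
    ring
  have hww : f w w ≠ 0 := fun h0 => hw0 (han w hwW h0)
  have hvw : f v w = 0 := by rw [h.symm']; exact hwv
  have heq : f w w = f v v := by
    have hvw0 : f (v + w) (v + w) ≠ 0 := by
      intro h0
      have h1 := han _ (W.add_mem hvW hwW) h0
      have h2 : f (v + w) v = 0 := by rw [h1, h.sfm.zero_left]
      rw [h.sfm.add_left, hwv, add_zero] at h2
      exact hvv h2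
    rw [h.sfm.add_left, h.sfm.add_right, h.sfm.add_right, hvw, hwv, add_zero, zero_add] at hvw0
    have h30 := three_zero hF
    rcases three_cases hF (f v v) with h1 | h1 | h1 <;> rcases three_cases hF (f w w) with h3 | h3 | h3 <;>
      first
      | exact absurd h1 hvv
      | exact absurd h3 hww
      | exact h3.trans h1.symm
      | (exfalso; apply hvw0; rw [h1, h3]; linear_combination h30)
      | (exfalso; apply hvw0; rw [h1, h3]; ring)
  refine ⟨f v v, ![⟨v, hvW⟩, ⟨w, hwW⟩], hvv, ?_, ?_⟩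
  · intro a c
    fin_cases a <;> fin_cases c
    · exact (if_pos rfl).symm
    · exact hvw.trans (if_neg (by decide)).symm
    · exact hwv.trans (if_neg (by decide)).symm
    · exact heq.trans (if_pos rfl).symm
  · intro x
    have hli : LinearIndependent F ![(⟨v, hvW⟩ : W), ⟨w, hwW⟩] := by
      rw [LinearIndependent.pair_iff]
      intro s t hst
      have h1 : s • v + t • w = 0 := congrArg Subtype.val hst
      have h2 : f (s • v + t • w) v = 0 := by rw [h1, h.sfm.zero_left]
      have h3 : f (s • v + t • w) w = 0 := by rw [h1, h.sfm.zero_left]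
      rw [h.sfm.add_left, h.sfm.smul_left, h.sfm.smul_left, hwv, mul_zero, add_zero] at h2
      rw [h.sfm.add_left, h.sfm.smul_left, h.sfm.smul_left, hvw, mul_zero, zero_add] at h3
      exact ⟨(mul_eq_zero.1 h2).resolve_right hvv, (mul_eq_zero.1 h3).resolve_right hww⟩
    have hsp := hli.span_eq_top_of_card_eq_finrank' (by rw [Fintype.card_fin, hW])
    have hx : x ∈ Submodule.span F (Set.range ![(⟨v, hvW⟩ : W), ⟨w, hwW⟩]) := by rw [hsp]; trivial
    obtain ⟨c, hc⟩ := (Submodule.mem_span_range_iff_exists_fun F).1 hx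
    exact ⟨c, hc.symm⟩

end Cfsg.Agent.H29.Fm
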