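import Mathlib
import Cfsg.Agent.H16_Sieg
import Cfsg.Agent.H16_Mat
import Cfsg.Agent.H16_Max
import Cfsg.Agent.H29_Trv2
import Cfsg.Prelude.Def_GeometricClasses

set_option autoImplicit false

/-! Siegel transformations as matrices; maximality of parabolic subgroups of `Ω`. -/

namespace Cfsg.Agent.H29.Sg

open Matrix Module Cfsg.Geo Cfsg.Agent.H16.Quad Cfsg.Agent.H29.Trv
open QuadraticMap (polar)

variable {F : Type*} [Field F] {ι : Type} [Fintype ι] [DecidableEq ι]

/-- a non-degenerate quadratic function is a quadratic form -/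
theorem exists_qf {Q : (ι → F) → F} (hQ : IsNondegenerateQuadraticForm Q) :
    ∃ Q' : QuadraticForm F (ι → F), ⇑Q' = Q ∧ (QuadraticMap.polarBilin Q').Nondegenerate := by
  refine ⟨QuadraticMap.ofPolar Q (fun a x => by rw [hQ.smul, pow_two]; rfl) (fun x x' y => ?_) (fun a x y => ?_), rfl, ?_⟩
  · exact hQ.polar_bilinear.add_left x x' y
  · exact hQ.polar_bilinear.smul_left a x y
  · refine nd_of fun x hx => ?_
    by_contra h0
    obtain ⟨-, y, hy⟩ := hQ.nondegenerate x h0
    exact hy (hx y)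

variable {Q : QuadraticForm F (ι → F)}

/-- Siegel transformation as a matrix -/
noncomputable def eg {u y : ι → F} (hu : Q u = 0) (hy : polar Q u y = 0) : GL ι F :=
  ((toOG Q).symm (sg hu hy) : Cfsg.isometryGroup F ⇑Q)

theorem eg_apply {u y : ι → F} (hu : Q u = 0) (hy : polar Q u y = 0) (x : ι → F) :
    (eg hu hy : Matrix ι ι F) *ᵥ x = x + polar Q x u • y - polar Q x y • u - (Q y * polar Q x u) • u :=
  toOG_symm_mulVec Q _ x

theorem eg_mem [Finite F] (hQ : (QuadraticMap.polarBilin Q).Nondegenerate) (h5 : 5 ≤ Fintype.card ι) {u y : ι → F}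
    (hu : Q u = 0) (hy : polar Q u y = 0) : eg hu hy ∈ omegaGL ⇑Q := by
  have h5' : 5 ≤ finrank F (ι → F) := by rwa [Module.finrank_fintype_fun_eq_card]
  refine ⟨(toOG Q).symm (sg hu hy), ?_, rfl⟩
  show _ ∈ Cfsg.Omega F ⇑Q
  rw [mem_Omega_iff, MulEquiv.apply_symm_apply, commutator_eq_siegS hQ h5']
  exact sg_mem_siegS' hQ h5' hu hy

theorem omega_iso {Q : (ι → F) → F} {g : GL ι F} (hg : g ∈ omegaGL Q) (x : ι → F) : Q ((g : Matrix ι ι F) *ᵥ x) = Q x := by
  obtain ⟨h, -, rfl⟩ := hg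
  exact mem_isometryGroup.1 h.2 x

theorem omega_le [Finite F] (hQ : (QuadraticMap.polarBilin Q).Nondegenerate) (h5 : 5 ≤ Fintype.card ι)
    {K : Subgroup (GL ι F)} (h : ∀ (u y : ι → F) (hu : Q u = 0) (_ : Q y = 0) (hy : polar Q u y = 0), eg hu hy ∈ K) :
    omegaGL ⇑Q ≤ K := by
  have h5' : 5 ≤ finrank F (ι → F) := by rwa [Module.finrank_fintype_fun_eq_card]
  rintro _ ⟨g, hg, rfl⟩
  have h1 : toOG Q g ∈ siegS Q := by
    rw [← commutator_eq_siegS hQ h5', ← mem_Omega_iff]; exact hg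
  have key : ∀ x ∈ siegS Q, (((toOG Q).symm x : Cfsg.isometryGroup F ⇑Q) : GL ι F) ∈ K := by
    intro x hx
    rw [siegS] at hx
    induction hx using Subgroup.closure_induction with
    | mem x hx =>
      obtain ⟨u, v, hu, hv, huv, rfl⟩ := hx
      exact h u v hu hv huv
    | one => rw [_root_.map_one]; exact K.one_mem
    | mul x y _ _ hx hy => rw [_root_.map_mul]; exact K.mul_mem hx hy
    | inv x _ hx => rw [_root_.map_inv]; exact K.inv_mem hx
  have h2 := key _ h1
  rwa [MulEquiv.symm_apply_apply] at h2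

/-- conjugation of a Siegel transformation -/
theorem eg_conj {g : GL ι F} (hg : ∀ x, Q ((g : Matrix ι ι F) *ᵥ x) = Q x) {u y : ι → F} (hu : Q u = 0)
    (hy : polar Q u y = 0) (hu' : Q ((g : Matrix ι ι F) *ᵥ u) = 0)
    (hy' : polar Q ((g : Matrix ι ι F) *ᵥ u) ((g : Matrix ι ι F) *ᵥ y) = 0) :
    g * eg hu hy * g⁻¹ = eg hu' hy' := by
  have hpol : ∀ x z, polar Q ((g : Matrix ι ι F) *ᵥ x) ((g : Matrix ι ι F) *ᵥ z) = polar Q x z := by
    intro x z
    rw [QuadraticMap.polar, QuadraticMap.polar, ← Matrix.mulVec_add, hg, hg, hg]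
  rw [mul_inv_eq_iff_eq_mul]
  apply Units.ext
  apply mat_ext
  intro x
  rw [Units.val_mul, Units.val_mul, ← Matrix.mulVec_mulVec, ← Matrix.mulVec_mulVec, eg_apply, eg_apply, hpol, hpol, hg]
  simp only [Matrix.mulVec_add, Matrix.mulVec_sub, Matrix.mulVec_smul]

theorem eg_congr {u u' y y' : ι → F} {hu : Q u = 0} {hy : polar Q u y = 0} {hu' : Q u' = 0} {hy' : polar Q u' y' = 0}
    (h1 : u = u') (h2 : y = y') : eg hu hy = eg hu' hy' := by
  subst h1; subst h2; rfl

/-- all Siegel transformations with centre `e` lie in `K` -/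
def SC (Q : QuadraticForm F (ι → F)) (K : Subgroup (GL ι F)) (e : ι → F) : Prop :=
  Q e = 0 ∧ ∀ (he : Q e = 0) (y : ι → F) (hy : polar Q e y = 0), eg he hy ∈ K

theorem SC.smul {K : Subgroup (GL ι F)} {e : ι → F} (h : SC Q K e) (a : F) : SC Q K (a • e) := by
  refine ⟨by rw [Cfsg.Agent.H16.Quad.map_smul, h.1, mul_zero], fun he y hy => ?_⟩
  by_cases ha : a = 0
  · subst ha
    have h1 : eg he hy = 1 := by
      apply Units.ext
      apply mat_ext
      intro x
      rw [eg_apply, Units.val_one, Matrix.one_mulVec, zero_smul, QuadraticMap.polar_zero_right, zero_smul, smul_zero,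
        smul_zero, add_zero, sub_zero, sub_zero]
    rw [h1]
    exact K.one_mem
  · have h2 : polar Q e (a • y) = 0 := by
      rw [polar_smul_left] at hy
      rw [polar_smul_right, hy]
    have h3 : eg he hy = eg h.1 h2 := by
      apply Units.ext
      apply mat_ext
      intro x
      rw [eg_apply, eg_apply, Cfsg.Agent.H16.Quad.map_smul, polar_smul_right, polar_smul_right]
      module
    rw [h3]
    exact h.2 _ _ _

theorem SC.conj {K : Subgroup (GL ι F)} {e : ι → F} (h : SC Q K e) {g : GL ι F} (hgK : g ∈ K)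
    (hg : ∀ x, Q ((g : Matrix ι ι F) *ᵥ x) = Q x) : SC Q K ((g : Matrix ι ι F) *ᵥ e) := by
  have hpol : ∀ x z, polar Q ((g : Matrix ι ι F) *ᵥ x) ((g : Matrix ι ι F) *ᵥ z) = polar Q x z := by
    intro x z
    rw [QuadraticMap.polar, QuadraticMap.polar, ← Matrix.mulVec_add, hg, hg, hg]
  refine ⟨by rw [hg, h.1], fun he y hy => ?_⟩
  have hyy : y = (g : Matrix ι ι F) *ᵥ (((g⁻¹ : GL ι F) : Matrix ι ι F) *ᵥ y) := by
    rw [Matrix.mulVec_mulVec, ← Units.val_mul, mul_inv_cancel, Units.val_one, Matrix.one_mulVec]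
  have h1 : polar Q e (((g⁻¹ : GL ι F) : Matrix ι ι F) *ᵥ y) = 0 := by
    rw [← hpol, ← hyy]; exact hy
  have h2 := eg_conj hg h.1 h1 he (by rw [← hyy]; exact hy)
  rw [eg_congr (hu' := he) (hy' := hy) rfl hyy.symm] at h2
  rw [← h2]
  exact K.mul_mem (K.mul_mem hgK (h.2 _ _ _)) (K.inv_mem hgK)

/-- the Siegel group with centre `e` is transitive on the singular vectors with a given polar value -/
theorem eg_move {e f h : ι → F} (he : Q e = 0) (hf : Q f = 0) (hh : Q h = 0) {c : F} (hc : c ≠ 0) (h1 : polar Q e f = c)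
    (h2 : polar Q e h = c) : ∃ (y : ι → F) (hy : polar Q e y = 0), (eg he hy : Matrix ι ι F) *ᵥ f = h := by
  have hy : polar Q e (c⁻¹ • (h - f)) = 0 := by
    rw [polar_smul_right, QuadraticMap.polar_sub_right, h1, h2, sub_self, mul_zero]
  refine ⟨_, hy, ?_⟩
  rw [eg_apply, polar_smul_right, QuadraticMap.polar_sub_right, Cfsg.Agent.H16.Quad.map_smul,
    Cfsg.Agent.H16.Quad.map_sub, hh, hf, polar_self, hf, polar_symm Q f e, h1, polar_symm Q h f, smul_smul,
    mul_inv_cancel₀ hc]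
  have : c⁻¹ * (polar Q f h - 2 * 0) + c⁻¹ * c⁻¹ * (0 + - polar Q f h) * c = 0 := by
    field_simp
    ring
  have h4 : f + (1 : F) • (h - f) - (c⁻¹ * (polar Q f h - 2 * 0)) • e - (c⁻¹ * c⁻¹ * (0 + 0 - polar Q f h) * c) • e =
      h - (c⁻¹ * (polar Q f h - 2 * 0) + c⁻¹ * c⁻¹ * (0 + - polar Q f h) * c) • e := by
    module
  rw [h4, this, zero_smul, sub_zero]

/-- two non-orthogonal centres suffice -/
theorem SC.all [Finite F] (hQ : (QuadraticMap.polarBilin Q).Nondegenerate) (h5 : 5 ≤ Fintype.card ι)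
    {K : Subgroup (GL ι F)} {e f : ι → F} (he : SC Q K e) (hf : SC Q K f) (hef : polar Q e f ≠ 0) :
    omegaGL ⇑Q ≤ K := by
  have step : ∀ e f : ι → F, SC Q K e → SC Q K f → polar Q e f ≠ 0 → ∀ h, Q h = 0 → polar Q e h ≠ 0 → SC Q K h := by
    intro e f he hf hef h hh heh
    have hf' := hf.smul (polar Q e h * (polar Q e f)⁻¹)
    have h1 : polar Q e ((polar Q e h * (polar Q e f)⁻¹) • f) = polar Q e h := by
      rw [polar_smul_right, mul_assoc, inv_mul_cancel₀ hef, mul_one]
    obtain ⟨y, hy, hmv⟩ := eg_move he.1 hf'.1 hh heh h1 rfl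
    rw [← hmv]
    exact hf'.conj (he.2 _ _ _) (omega_iso (eg_mem hQ h5 _ _))
  have hall : ∀ h, Q h = 0 → SC Q K h := by
    intro h hh
    by_cases h0 : h = 0
    · rw [h0, ← zero_smul F e]; exact he.smul 0
    have he0 : e ≠ 0 := by
      rintro rfl
      exact hef (QuadraticMap.polar_zero_left _ _)
    by_cases heh : polar Q e h = 0
    · by_cases hli : h ∈ Submodule.span F {e}
      · obtain ⟨a, rfl⟩ := Submodule.mem_span_singleton.1 hli
        exact he.smul a
      · obtain ⟨e', h', hyp⟩ := exists_hyp2 hQ he0 he.1 hh heh hli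
        have q1 := hyp.qf 0
        have q2 := hyp.qf 1
        have q3 := hyp.ff 0 1
        have q4 := hyp.ef 0 0
        have q5 := hyp.ef 0 1
        have q6 := hyp.ef 1 0
        have q7 := hyp.ef 1 1
        simp only [Matrix.cons_val_zero, Matrix.cons_val_one, if_true] at q1 q2 q3 q4 q5 q6 q7
        rw [if_neg (by decide)] at q5 q6
        have q8 : Q (e' + h') = 0 := by
          rw [Cfsg.Agent.H16.Quad.map_add, q1, q2, q3]; ring
        have q9 : polar Q e (e' + h') = 1 := by rw [QuadraticMap.polar_add_right, q4, q5, add_zero]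
        have q10 : polar Q h (e' + h') = 1 := by rw [QuadraticMap.polar_add_right, q6, q7, zero_add]
        have s1 := step e f he hf hef (e' + h') q8 (by rw [q9]; exact one_ne_zero)
        exact step (e' + h') e s1 he (by rw [polar_symm, q9]; exact one_ne_zero) h hh
          (by rw [polar_symm, q10]; exact one_ne_zero)
    · exact step e f he hf hef h hh heh
  exact omega_le hQ h5 fun u y hu _ hy => (hall u hu).2 _ _ _

end Cfsg.Agent.H29.Sg
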