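import Mathlib
import Cfsg.Agent.H29_Sg1

set_option autoImplicit false

/-! maximality of parabolic subgroups of `Ω`. -/

namespace Cfsg.Agent.H29.Sg

open Matrix Module Cfsg.Geo Cfsg.Agent.H16.Quad Cfsg.Agent.H29.Trv
open QuadraticMap (polar)

variable {F : Type*} [Field F] {ι : Type} [Fintype ι] [DecidableEq ι]
variable {Q : QuadraticForm F (ι → F)}

/-- the span of a set of pairwise orthogonal singular vectors -/
theorem ts_span_set {T : Set (ι → F)} (h1 : ∀ e ∈ T, Q e = 0) (h2 : ∀ e ∈ T, ∀ f ∈ T, polar Q e f = 0) :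
    ∀ u ∈ Submodule.span F T, Q u = 0 ∧ ∀ e ∈ T, polar Q u e = 0 := by
  intro u hu
  induction hu using Submodule.span_induction with
  | mem x hx => exact ⟨h1 x hx, fun e he => h2 x hx e he⟩
  | zero => exact ⟨QuadraticMap.map_zero Q, fun e _ => QuadraticMap.polar_zero_left _ _⟩
  | add x y hx hy ihx ihy =>
    refine ⟨?_, fun e he => by rw [QuadraticMap.polar_add_left, ihx.2 e he, ihy.2 e he, add_zero]⟩
    have h3 : polar Q x y = 0 := by
      have h4 : ∀ y ∈ Submodule.span F T, polar Q x y = 0 := by
        intro y hy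
        induction hy using Submodule.span_induction with
        | mem z hz => exact ihx.2 z hz
        | zero => exact QuadraticMap.polar_zero_right _ _
        | add a b _ _ ha hb => rw [QuadraticMap.polar_add_right, ha, hb, add_zero]
        | smul c a _ ha => rw [polar_smul_right, ha, mul_zero]
      exact h4 y hy
    rw [Cfsg.Agent.H16.Quad.map_add, ihx.1, ihy.1, h3]; ring
  | smul c x _ ih =>
    exact ⟨by rw [Cfsg.Agent.H16.Quad.map_smul, ih.1, mul_zero], fun e he => by rw [polar_smul_left, ih.2 e he, mul_zero]⟩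

variable [Finite F]

/-- a Siegel element fixing `W` and moving a totally singular `U > W` -/
theorem exists_move_ts (hQ : (QuadraticMap.polarBilin Q).Nondegenerate) {W U : Submodule F (ι → F)}
    (hU : ∀ u ∈ U, Q u = 0) (hWU : W < U) (hd : 2 * (finrank F W + 1) < Fintype.card ι) :
    ∃ (e y : ι → F) (he : Q e = 0) (hy : polar Q e y = 0), (∀ w ∈ W, (eg he hy : Matrix ι ι F) *ᵥ w ∈ W) ∧
      ∃ x ∈ U, (eg he hy : Matrix ι ι F) *ᵥ x ∉ U := by
  obtain ⟨x, hxU, hxW⟩ := SetLike.exists_of_lt hWU
  have hx' : ∃ y ∈ perp Q W, polar Q x y ≠ 0 := by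
    by_contra hcon
    push Not at hcon
    apply hxW
    rw [← perp_perp hQ W]
    rw [mem_perp']
    exact hcon
  obtain ⟨y, hyW, hxy⟩ := hx'
  obtain ⟨e, he, heW, hxe⟩ : ∃ e : ι → F, Q e = 0 ∧ e ∈ perp Q W ∧ polar Q x e ≠ 0 := by
    refine ⟨y - (Q y * (polar Q x y)⁻¹) • x, ?_, ?_, ?_⟩
    · rw [Cfsg.Agent.H16.Quad.map_sub, Cfsg.Agent.H16.Quad.map_smul, polar_smul_right, hU x hxU, polar_symm Q y x]
      field_simp
      ring
    · apply Submodule.sub_mem _ hyW
      apply Submodule.smul_mem
      rw [mem_perp]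
      intro w hw
      exact ts_polar hU (hWU.le hw) hxU
    · rw [QuadraticMap.polar_sub_right, polar_smul_right, polar_self, hU x hxU, mul_zero, mul_zero, sub_zero]
      exact hxy
  -- dimension count
  have hex : ∃ z, z ∈ perp Q W ⊓ perp Q (Submodule.span F {e}) ∧ z ∉ Submodule.span F {e} ⊔ U := by
    by_contra hcon
    push Not at hcon
    set A := perp Q W ⊓ perp Q (Submodule.span F {e}) with hA
    set B := Submodule.span F {e} ⊔ U with hB
    have hn := Module.finrank_fintype_fun_eq_card F (η := ι)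
    have h1 : A ≤ B := hcon
    have h2 : A < B := by
      refine lt_of_le_of_ne h1 fun h => ?_
      have h3 : x ∈ A := by rw [h]; exact Submodule.mem_sup_right hxU
      exact hxe (by rw [polar_symm]; exact mem_perp_span_singleton.1 h3.2)
    have h3 := Submodule.finrank_lt_finrank_of_lt h2
    have h4 := finrank_add_finrank_perp hQ W
    have h5 := finrank_add_finrank_perp hQ (Submodule.span F {e})
    have h6 : finrank F (perp Q W ⊔ perp Q (Submodule.span F {e}) : Submodule F (ι → F)) + finrank F A =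
        finrank F (perp Q W) + finrank F (perp Q (Submodule.span F {e})) :=
      Submodule.finrank_sup_add_finrank_inf_eq (perp Q W) (perp Q (Submodule.span F {e}))
    have h7 : finrank F (perp Q W ⊔ perp Q (Submodule.span F {e}) : Submodule F (ι → F)) ≤ Fintype.card ι := by
      rw [← hn]; exact Submodule.finrank_le _
    have h8 : finrank F (Submodule.span F {e}) ≤ 1 := by
      have := finrank_span_le_card (R := F) ({e} : Set (ι → F))
      simpa using this
    have h9 : finrank F B ≤ finrank F (Submodule.span F {e}) + finrank F U :=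
      Submodule.finrank_add_le_finrank_add_finrank (Submodule.span F {e}) U
    have h10 := ts_finrank_le hQ hU
    rw [hn] at h4 h5 h10
    omega
  obtain ⟨z, ⟨hz1, hz2⟩, hz3⟩ := hex
  have hez : polar Q e z = 0 := mem_perp_span_singleton.1 hz2
  refine ⟨e, z, he, hez, ?_, x, hxU, ?_⟩
  · intro w hw
    rw [eg_apply, mem_perp.1 heW w hw, mem_perp.1 hz1 w hw]
    simp only [zero_smul, mul_zero, sub_zero, add_zero]
    exact hw
  · intro h
    rw [eg_apply] at h
    apply hz3
    have h1 : polar Q x e • z ∈ Submodule.span F {e} ⊔ U := by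
      have h2 : polar Q x e • z = (polar Q x z + Q z * polar Q x e) • e +
          ((x + polar Q x e • z - polar Q x z • e - (Q z * polar Q x e) • e) - x) := by module
      rw [h2]
      exact Submodule.add_mem _ (Submodule.mem_sup_left (Submodule.smul_mem _ _ (Submodule.mem_span_singleton_self e)))
        (Submodule.mem_sup_right (Submodule.sub_mem _ h hxU))
    have h3 := Submodule.smul_mem _ (polar Q x e)⁻¹ h1
    rwa [smul_smul, inv_mul_cancel₀ hxe, one_smul] at h3

/-- Siegel transformations move non-zero totally singular subspaces -/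
theorem exists_move_ts' (hQ : (QuadraticMap.polarBilin Q).Nondegenerate) (h5 : 5 ≤ Fintype.card ι) {W : Submodule F (ι → F)}
    (hW : ∀ u ∈ W, Q u = 0) (hW0 : W ≠ ⊥) :
    ∃ (e y : ι → F) (he : Q e = 0) (hy : polar Q e y = 0), ∃ x ∈ W, (eg he hy : Matrix ι ι F) *ᵥ x ∉ W := by
  obtain ⟨x, hxW, hx0⟩ := Submodule.exists_mem_ne_zero_of_ne_bot hW0
  obtain ⟨e, he, hxe⟩ := exists_partner hQ hx0 (hW x hxW)
  have hex : ∃ z, z ∈ perp Q (Submodule.span F {e}) ∧ z ∉ Submodule.span F {e} ⊔ W := by
    by_contra hcon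
    push Not at hcon
    set A := perp Q (Submodule.span F {e}) with hA
    set B := Submodule.span F {e} ⊔ W with hB
    have hn := Module.finrank_fintype_fun_eq_card F (η := ι)
    have h1 : A ≤ B := hcon
    have h2 : A < B := by
      refine lt_of_le_of_ne h1 fun h => ?_
      have h3 : x ∈ A := by rw [h]; exact Submodule.mem_sup_right hxW
      have h4 := mem_perp_span_singleton.1 h3
      rw [polar_symm, hxe] at h4
      exact one_ne_zero h4
    have h3 := Submodule.finrank_lt_finrank_of_lt h2
    have h5 := finrank_add_finrank_perp hQ (Submodule.span F {e})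
    have h8 : finrank F (Submodule.span F {e}) ≤ 1 := by
      have := finrank_span_le_card (R := F) ({e} : Set (ι → F))
      simpa using this
    have h9 : finrank F B ≤ finrank F (Submodule.span F {e}) + finrank F W :=
      Submodule.finrank_add_le_finrank_add_finrank (Submodule.span F {e}) W
    have h10 := ts_finrank_le hQ hW
    rw [hn] at h5 h10
    rw [← hA] at h5
    omega
  obtain ⟨z, hz2, hz3⟩ := hex
  have hez : polar Q e z = 0 := mem_perp_span_singleton.1 hz2
  refine ⟨e, z, he, hez, x, hxW, ?_⟩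
  intro h
  rw [eg_apply] at h
  apply hz3
  have h1 : polar Q x e • z ∈ Submodule.span F {e} ⊔ W := by
    have h2 : polar Q x e • z = (polar Q x z + Q z * polar Q x e) • e +
        ((x + polar Q x e • z - polar Q x z • e - (Q z * polar Q x e) • e) - x) := by module
    rw [h2]
    exact Submodule.add_mem _ (Submodule.mem_sup_left (Submodule.smul_mem _ _ (Submodule.mem_span_singleton_self e)))
      (Submodule.mem_sup_right (Submodule.sub_mem _ h hxW))
  rwa [hxe, one_smul] at h1

theorem eg_stab {W : Submodule F (ι → F)} (hW : ∀ u ∈ W, Q u = 0) {e y : ι → F} (heW : e ∈ W) (he : Q e = 0)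
    (hy : polar Q e y = 0) : eg he hy ∈ subspaceStabilizer W := by
  rw [mem_stab_iff]
  intro w hw
  rw [eg_apply, ts_polar hW hw heW]
  simp only [zero_smul, mul_zero, sub_zero, add_zero]
  exact Submodule.sub_mem _ hw (Submodule.smul_mem _ _ heW)

/-- maximality of parabolic subgroups -/
theorem par_max (hQ : (QuadraticMap.polarBilin Q).Nondegenerate) (h5 : 5 ≤ Fintype.card ι) {W : Submodule F (ι → F)}
    (hW : ∀ u ∈ W, Q u = 0) (hW0 : W ≠ ⊥)
    (hd : ∀ U : Submodule F (ι → F), (∀ u ∈ U, Q u = 0) → W < U → 2 * (finrank F W + 1) < Fintype.card ι) :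
    IsMaximalIn (omegaGL ⇑Q) (subspaceStabilizer W ⊓ omegaGL ⇑Q) := by
  refine ⟨lt_of_le_of_ne inf_le_right ?_, ?_⟩
  · intro h
    obtain ⟨e, y, he, hy, x, hx, hno⟩ := exists_move_ts' hQ h5 hW hW0
    have h1 : eg he hy ∈ omegaGL ⇑Q := eg_mem hQ h5 he hy
    rw [← h] at h1
    exact hno ((mem_stab_iff _ _).1 h1.1 x hx)
  · intro M hM1 hM2
    by_cases hle : M ≤ subspaceStabilizer W
    · left
      exact le_antisymm (le_inf hle hM2) hM1
    right
    refine le_antisymm hM2 ?_
    have hMiso : ∀ g ∈ M, ∀ x, Q ((g : Matrix ι ι F) *ᵥ x) = Q x := fun g hg => omega_iso (hM2 hg)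
    have hWSC : ∀ e ∈ W, SC Q M e := fun e he => ⟨hW e he, fun he' y hy =>
      hM1 ⟨eg_stab hW he he' hy, eg_mem hQ h5 he' hy⟩⟩
    by_cases hex : ∃ e f, SC Q M e ∧ SC Q M f ∧ polar Q e f ≠ 0
    · obtain ⟨e, f, he, hf, hef⟩ := hex
      exact SC.all hQ h5 he hf hef
    · exfalso
      push Not at hex
      set T : Set (ι → F) := {e | SC Q M e} with hT
      set U := Submodule.span F T with hUdef
      have hU : ∀ u ∈ U, Q u = 0 := fun u hu => (ts_span_set (fun e he => he.1) (fun e he f hf => hex e f he hf) u hu).1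
      have hWU : W ≤ U := fun w hw => Submodule.subset_span (hWSC w hw)
      have hUM : ∀ g ∈ M, ∀ u ∈ U, (g : Matrix ι ι F) *ᵥ u ∈ U := by
        intro g hg u hu
        have h1 : U.map (Matrix.mulVecLin (g : Matrix ι ι F)) ≤ U := by
          rw [hUdef, Submodule.map_span, Submodule.span_le]
          rintro _ ⟨e, he, rfl⟩
          exact Submodule.subset_span (SC.conj he hg (hMiso g hg))
        exact h1 ⟨u, hu, rfl⟩
      have hne : W ≠ U := by
        rintro h
        apply hle
        intro g hg
        rw [mem_stab_iff]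
        intro w hw
        rw [h] at hw ⊢
        exact hUM g hg w hw
      have hlt : W < U := lt_of_le_of_ne hWU hne
      obtain ⟨e, y, he, hy, h1, x, hx, hno⟩ := exists_move_ts hQ hU hlt (hd U hU hlt)
      exact hno (hUM _ (hM1 ⟨(mem_stab_iff _ _).2 h1, eg_mem hQ h5 he hy⟩) x hx)

end Cfsg.Agent.H29.Sg
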