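import Mathlib
import Cfsg.Agent.H29_Sg2
import Cfsg.Agent.H16_MatOm
import Cfsg.Agent.H29_Nm1

set_option autoImplicit false

/-! non-maximal stabilisers in `Ω⁺` -/

namespace Cfsg.Agent.H29.Sg

open Matrix Module Cfsg.Geo Cfsg.Agent.H16.Quad Cfsg.Agent.H29.Trv
open QuadraticMap (polar)

variable {F : Type*} [Field F] {ι : Type} [Fintype ι] [DecidableEq ι]
variable {Q : QuadraticForm F (ι → F)} [Finite F]

theorem parity_omega (hQ : (QuadraticMap.polarBilin Q).Nondegenerate) (h5 : 5 ≤ Fintype.card ι)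
    {U W : Submodule F (ι → F)} (hU : IsMax Q U) (hW : IsMax Q W) {g : GL ι F} (hg : g ∈ omegaGL ⇑Q) :
    Even (finrank F (U ⊓ W : Submodule F (ι → F)) +
      finrank F (U ⊓ W.map (Matrix.toLin' (g : Matrix ι ι F)) : Submodule F (ι → F))) := by
  have h5' : 5 ≤ finrank F (ι → F) := by rwa [Module.finrank_fintype_fun_eq_card]
  obtain ⟨g, hg, rfl⟩ := hg
  obtain ⟨vs, hvs, h1⟩ := exists_rpr hQ (Or.inr (by omega)) (toOG Q g)
  have h2 := (mem_Omega_rpr_iff hQ (Or.inr (by omega)) hvs h1).1 hg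
  have h3 := parity_rprod hQ hU hW vs hvs
  have h4 : W.map (rprod Q vs).toLinearMap = W.map (Matrix.toLin' ((g : GL ι F) : Matrix ι ι F)) := by
    rw [← coe_rpr, ← h1]
    congr 1
  rw [h4] at h3
  rw [Nat.even_add] at h3
  exact h3.2 h2.1

theorem exists_max (hQ : (QuadraticMap.polarBilin Q).Nondegenerate) {U W : Submodule F (ι → F)} (hU : IsMax Q U)
    (hW : ∀ w ∈ W, Q w = 0) : ∃ U' : Submodule F (ι → F), IsMax Q U' ∧ W ≤ U' := by
  have h1 := ts_finrank_le hQ hW
  have h2 := hU.2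
  obtain ⟨g, hg, hle⟩ := ts_move hQ hW hU.1 (by omega)
  have hg' : g⁻¹ ∈ OG Q := (OG Q).inv_mem hg
  refine ⟨U.map (g⁻¹ : (ι → F) ≃ₗ[F] (ι → F)).toLinearMap, hU.map hg', ?_⟩
  intro w hw
  refine ⟨g w, hle ⟨w, hw, rfl⟩, ?_⟩
  show (g⁻¹ * g) w = w
  rw [inv_mul_cancel]
  rfl

theorem map_eq_of_stab {W : Submodule F (ι → F)} {g : GL ι F} (hg : g ∈ subspaceStabilizer W) :
    W.map (Matrix.toLin' (g : Matrix ι ι F)) = W := by
  have hinj : Function.Injective (Matrix.toLin' (g : Matrix ι ι F)) := by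
    intro x y hxy
    rw [Matrix.toLin'_apply, Matrix.toLin'_apply] at hxy
    have := congrArg (fun z => ((g⁻¹ : GL ι F) : Matrix ι ι F) *ᵥ z) hxy
    simp only [Matrix.mulVec_mulVec, ← Units.val_mul, inv_mul_cancel, Units.val_one, Matrix.one_mulVec] at this
    exact this
  apply Submodule.eq_of_le_of_finrank_eq
  · rintro _ ⟨v, hv, rfl⟩
    exact (mem_stab_iff W g).1 hg v hv
  · exact (LinearEquiv.finrank_eq (Submodule.equivMapOfInjective _ hinj _)).symm

theorem stab_of_map {W : Submodule F (ι → F)} {g : GL ι F} (hg : W.map (Matrix.toLin' (g : Matrix ι ι F)) = W) :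
    g ∈ subspaceStabilizer W := by
  rw [mem_stab_iff]
  intro w hw
  rw [← hg]
  exact ⟨w, hw, rfl⟩

theorem isMax_map {U : Submodule F (ι → F)} (hU : IsMax Q U) {g : GL ι F} (hg : g ∈ omegaGL ⇑Q) :
    IsMax Q (U.map (Matrix.toLin' (g : Matrix ι ι F))) := by
  refine ⟨?_, ?_⟩
  · rintro _ ⟨u, hu, rfl⟩
    rw [Matrix.toLin'_apply, omega_iso hg]
    exact hU.1 u hu
  · have hinj : Function.Injective (Matrix.toLin' (g : Matrix ι ι F)) := by
      intro x y hxy
      rw [Matrix.toLin'_apply, Matrix.toLin'_apply] at hxy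
      have := congrArg (fun z => ((g⁻¹ : GL ι F) : Matrix ι ι F) *ᵥ z) hxy
      simp only [Matrix.mulVec_mulVec, ← Units.val_mul, inv_mul_cancel, Units.val_one, Matrix.one_mulVec] at this
      exact this
    rw [← (LinearEquiv.finrank_eq (Submodule.equivMapOfInjective _ hinj U))]
    exact hU.2

theorem ts_co2_nonmax (hQ : (QuadraticMap.polarBilin Q).Nondegenerate) (h5 : 5 ≤ Fintype.card ι)
    {U₀ W : Submodule F (ι → F)} (hU₀ : IsMax Q U₀) (hW : ∀ w ∈ W, Q w = 0) (hd : 2 * (finrank F W + 1) = Fintype.card ι) :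
    ∃ K : Subgroup (GL ι F), subspaceStabilizer W ⊓ omegaGL ⇑Q < K ∧ K < omegaGL ⇑Q := by
  have hn := Module.finrank_fintype_fun_eq_card F (η := ι)
  obtain ⟨U, hU, hWU⟩ := exists_max hQ hU₀ hW
  have hUd := hU.2
  rw [hn] at hUd
  have hU0 : U ≠ ⊥ := by
    rintro rfl
    rw [finrank_bot] at hUd
    omega
  apply Cfsg.Agent.H29.Fm.nonmax_of (X := omegaGL ⇑Q) (M := subspaceStabilizer U) inf_le_right
  · intro g hg
    apply stab_of_map
    have h1 := parity_omega hQ h5 hU hU hg.2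
    rw [inf_idem] at h1
    have h2 : W ≤ U ⊓ U.map (Matrix.toLin' (g : Matrix ι ι F)) := by
      refine le_inf hWU ?_
      rw [← map_eq_of_stab hg.1]
      exact Submodule.map_mono hWU
    have h3 := Submodule.finrank_mono h2
    have h4 : finrank F (U ⊓ U.map (Matrix.toLin' (g : Matrix ι ι F)) : Submodule F (ι → F)) ≤ finrank F U :=
      Submodule.finrank_mono inf_le_left
    have h5 : finrank F (U ⊓ U.map (Matrix.toLin' (g : Matrix ι ι F)) : Submodule F (ι → F)) = finrank F U := by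
      rw [Nat.even_iff] at h1
      omega
    have h6 : U ⊓ U.map (Matrix.toLin' (g : Matrix ι ι F)) = U := Submodule.eq_of_le_of_finrank_eq inf_le_left h5
    have h7 : U ≤ U.map (Matrix.toLin' (g : Matrix ι ι F)) := inf_eq_left.1 h6
    symm
    apply Submodule.eq_of_le_of_finrank_eq h7
    have h8 := (isMax_map hU hg.2).2
    have h9 := hU.2
    omega
  · intro hle
    obtain ⟨e, y, he, hy, x, hx, hno⟩ := exists_move_ts' hQ h5 hU.1 hU0
    exact hno ((mem_stab_iff _ _).1 (hle (eg_mem hQ h5 he hy)) x hx)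
  · have hlt : W < U := lt_of_le_of_ne hWU (by rintro rfl; omega)
    obtain ⟨e, heU, heW⟩ := SetLike.exists_of_lt hlt
    have hW0 : W ≠ ⊥ := by
      rintro rfl
      rw [finrank_bot] at hd
      omega
    obtain ⟨x, hxW, hx0⟩ := Submodule.exists_mem_ne_zero_of_ne_bot hW0
    have he0 : e ≠ 0 := by rintro rfl; exact heW W.zero_mem
    have hy : ∃ y, polar Q e y = 0 ∧ polar Q x y ≠ 0 := by
      by_contra hcon
      push Not at hcon
      have h1 : x ∈ perp Q (perp Q (Submodule.span F {e})) := by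
        rw [mem_perp']
        intro y hy
        exact hcon y (mem_perp_span_singleton.1 hy)
      rw [perp_perp hQ] at h1
      obtain ⟨a, ha⟩ := Submodule.mem_span_singleton.1 h1
      have ha0 : a ≠ 0 := by rintro rfl; rw [zero_smul] at ha; exact hx0 ha.symm
      apply heW
      have h2 : e = a⁻¹ • x := by rw [← ha, smul_smul, inv_mul_cancel₀ ha0, one_smul]
      rw [h2]
      exact W.smul_mem _ hxW
    obtain ⟨y, hy1, hy2⟩ := hy
    refine ⟨eg (hU.1 e heU) hy1, eg_mem hQ h5 _ _, eg_stab hU.1 heU _ _, ?_⟩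
    intro h
    have h1 := (mem_stab_iff _ _).1 h.1 x hxW
    rw [eg_apply, ts_polar hU.1 (hWU hxW) heU, zero_smul, add_zero, mul_zero, zero_smul, sub_zero] at h1
    have h2 : polar Q x y • e ∈ W := by
      have h3 : polar Q x y • e = x - (x - polar Q x y • e) := by module
      rw [h3]
      exact W.sub_mem hxW h1
    apply heW
    have h3 := W.smul_mem (polar Q x y)⁻¹ h2
    rwa [smul_smul, inv_mul_cancel₀ hy2, one_smul] at h3

theorem ts_pair_nonmax (hQ : (QuadraticMap.polarBilin Q).Nondegenerate) (h5 : 5 ≤ Fintype.card ι) {k : ℕ}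
    (hk : 2 * k = Fintype.card ι) (hko : Odd k) {D : Fin 2 → Submodule F (ι → F)} (hD : IsMDecomposition k D)
    (hts : ∀ i, ∀ w ∈ D i, Q w = 0) :
    ∃ K : Subgroup (GL ι F), decompositionStabilizer D ⊓ omegaGL ⇑Q < K ∧ K < omegaGL ⇑Q := by
  have hn := Module.finrank_fintype_fun_eq_card F (η := ι)
  have hmax : ∀ i, IsMax Q (D i) := fun i => ⟨hts i, by rw [hD.finrank_eq, hn, hk]⟩
  have hdisj : Disjoint (D 0) (D 1) := by
    have := hD.indep.pairwiseDisjoint
    exact this (by decide)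
  have hsup : D 0 ⊔ D 1 = ⊤ := by
    have h := hD.iSup_eq_top
    rw [← h]
    apply le_antisymm
    · exact sup_le (le_iSup D 0) (le_iSup D 1)
    · apply iSup_le
      intro i
      fin_cases i
      · exact le_sup_left
      · exact le_sup_right
  have hD0 : D 0 ≠ ⊥ := by
    intro h
    have h1 := hD.finrank_eq 0
    rw [h, finrank_bot] at h1
    have := hD.pos
    omega
  apply Cfsg.Agent.H29.Fm.nonmax_of (X := omegaGL ⇑Q) (M := subspaceStabilizer (D 0)) inf_le_right
  · intro g hg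
    obtain ⟨σ, hσ⟩ := hg.1
    apply stab_of_map
    have h1 := parity_omega hQ h5 (hmax 0) (hmax 0) hg.2
    rw [inf_idem] at h1
    rw [hσ 0] at h1 ⊢
    rcases (show σ 0 = 0 ∨ σ 0 = 1 by omega) with h | h
    · rw [h]
    · exfalso
      rw [h, hdisj.eq_bot, finrank_bot, hD.finrank_eq, add_zero] at h1
      rw [Nat.even_iff] at h1
      rw [Nat.odd_iff] at hko
      omega
  · intro hle
    obtain ⟨e, y, he, hy, x, hx, hno⟩ := exists_move_ts' hQ h5 (hts 0) hD0
    exact hno ((mem_stab_iff _ _).1 (hle (eg_mem hQ h5 he hy)) x hx)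
  · -- two independent vectors of `D 0`
    obtain ⟨e, heD, he0⟩ := Submodule.exists_mem_ne_zero_of_ne_bot hD0
    obtain ⟨y, hyD, hye⟩ : ∃ y ∈ D 0, y ∉ Submodule.span F {e} := exists_mem_notMem_span (by
      rw [hD.finrank_eq]; omega) e
    obtain ⟨x, hxD, hxe⟩ : ∃ x ∈ D 1, polar Q x e ≠ 0 := by
      by_contra hcon
      push Not at hcon
      apply he0
      apply nd_eq_zero hQ
      intro z
      have hz : z ∈ D 0 ⊔ D 1 := by rw [hsup]; trivial
      obtain ⟨a, ha, b, hb, rfl⟩ := Submodule.mem_sup.1 hz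
      rw [QuadraticMap.polar_add_right, ts_polar (hts 0) heD ha, polar_symm, hcon b hb, add_zero]
    have hey : polar Q e y = 0 := ts_polar (hts 0) heD hyD
    refine ⟨eg (hts 0 e heD) hey, eg_mem hQ h5 _ _, eg_stab (hts 0) heD _ _, ?_⟩
    intro h
    obtain ⟨σ, hσ⟩ := h.1
    have h1 : (eg (hts 0 e heD) hey : Matrix ι ι F) *ᵥ x ∈ D (σ 1) := by
      rw [← hσ 1]
      exact ⟨x, hxD, rfl⟩
    rw [eg_apply, hts 0 y hyD, zero_mul, zero_smul, sub_zero, add_sub_assoc] at h1
    have hz : polar Q x e • y - polar Q x y • e ∈ D 0 :=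
      Submodule.sub_mem _ (Submodule.smul_mem _ _ hyD) (Submodule.smul_mem _ _ heD)
    have hx0 : x ≠ 0 := by
      rintro rfl
      exact hxe (QuadraticMap.polar_zero_left _ _)
    rcases (show σ 1 = 0 ∨ σ 1 = 1 by omega) with h2 | h2
    · rw [h2] at h1
      have h3 : x ∈ D 0 := by
        have := Submodule.sub_mem _ h1 hz
        rwa [add_sub_cancel_right] at this
      exact hx0 (Submodule.disjoint_def.1 hdisj x h3 hxD)
    · rw [h2] at h1
      have h3 : polar Q x e • y - polar Q x y • e ∈ D 1 := by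
        have := Submodule.sub_mem _ h1 hxD
        rwa [add_sub_cancel_left] at this
      have h4 := Submodule.disjoint_def.1 hdisj _ hz h3
      apply hye
      rw [Submodule.mem_span_singleton]
      refine ⟨(polar Q x e)⁻¹ * polar Q x y, ?_⟩
      rw [← smul_smul, ← sub_eq_zero.1 h4, smul_smul, inv_mul_cancel₀ hxe, one_smul]

end Cfsg.Agent.H29.Sg
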