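import Mathlib
import Cfsg.Agent.H29_Sg3

set_option autoImplicit false

/-! maximality of stabilisers of non-degenerate subspaces in `Ω`: the core. -/

namespace Cfsg.Agent.H29.Sg

open Matrix Module Cfsg.Geo Cfsg.Agent.H16.Quad Cfsg.Agent.H29.Trv
open QuadraticMap (polar)

section Abs

variable {F V : Type*} [Field F] [AddCommGroup V] [Module F V] [FiniteDimensional F V] [Finite F] {Q : QuadraticForm F V}

theorem pairs (hQ : (QuadraticMap.polarBilin Q).Nondegenerate) (h : 5 ≤ finrank F V) {u : V} (hu0 : u ≠ 0)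
    (hu : Q u = 0) : ∃ u' v v' : V, Q u' = 0 ∧ polar Q u u' = 1 ∧ Q v = 0 ∧ Q v' = 0 ∧ polar Q v v' = 1 ∧
      polar Q u v = 0 ∧ polar Q u v' = 0 ∧ polar Q u' v = 0 ∧ polar Q u' v' = 0 := by
  obtain ⟨u', hu', huu'⟩ := exists_partner hQ hu0 hu
  have hyp : HypFam Q (fun _ : Fin 1 => u) (fun _ : Fin 1 => u') := by
    refine ⟨fun _ => hu, fun _ => hu', fun i j => ?_, fun i j => ?_, fun i j => ?_⟩
    · rw [huu', if_pos (Subsingleton.elim _ _)]
    · rw [polar_self, hu, mul_zero]
    · rw [polar_self, hu', mul_zero]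
  have hfr := hyp.finrank_perp hQ
  rw [Fintype.card_fin] at hfr
  obtain ⟨e, f, hef⟩ := exists_hypFam (nd_perp hQ hyp.disjoint) 1 (by rw [hfr]; omega)
  have he := mem_perp_hspan.1 (e 0).2
  have hf := mem_perp_hspan.1 (f 0).2
  have h1 := hef.ef 0 0
  rw [if_pos rfl] at h1
  exact ⟨u', e 0, f 0, hu', huu', hef.qe 0, hef.qf 0, h1, he.1 0, hf.1 0, he.2 0, hf.2 0⟩

theorem exists_sing_sub {Z : Submodule F V} (h : 3 ≤ finrank F Z) : ∃ z ∈ Z, z ≠ 0 ∧ Q z = 0 := by
  by_cases hr : ∃ r ∈ Z, r ≠ 0 ∧ ∀ z ∈ Z, polar Q r z = 0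
  · obtain ⟨r, hrZ, hr0, hr⟩ := hr
    by_cases hQr : Q r = 0
    · exact ⟨r, hrZ, hr0, hQr⟩
    have h2 : (2 : F) = 0 := by
      have := hr r hrZ
      rw [polar_self] at this
      exact (mul_eq_zero.1 this).resolve_right hQr
    obtain ⟨z, hz, hzr⟩ := exists_mem_notMem_span (W := Z) (by omega) r
    obtain ⟨s, hs⟩ := isSquare_of_two_eq_zero h2 (Q z * (Q r)⁻¹)
    refine ⟨z + s • r, Z.add_mem hz (Z.smul_mem _ hrZ), ?_, ?_⟩
    · intro h0
      apply hzr
      rw [Submodule.mem_span_singleton]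
      exact ⟨-s, by rw [neg_smul, eq_comm, ← add_eq_zero_iff_eq_neg]; exact h0⟩
    · rw [Cfsg.Agent.H16.Quad.map_add, Cfsg.Agent.H16.Quad.map_smul, polar_smul_right, polar_symm Q z r, hr z hz, ← hs,
        mul_assoc, inv_mul_cancel₀ hQr]
      linear_combination (Q z) * h2
  · push Not at hr
    have hnd : (QuadraticMap.polarBilin (Q.comp Z.subtype)).Nondegenerate := by
      apply nd_of
      intro x hx
      by_contra h0
      obtain ⟨z, hz, hne⟩ := hr x x.2 (fun h => h0 (Subtype.ext h))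
      exact hne (hx ⟨z, hz⟩)
    obtain ⟨v, hv0, hv⟩ := exists_singular hnd h
    exact ⟨v, v.2, fun h => hv0 (Subtype.ext h), hv⟩

/-- two independent singular vectors -/
theorem exists_sing_sub2 {Z : Submodule F V} (h : 4 ≤ finrank F Z) :
    ∃ z ∈ Z, z ≠ 0 ∧ Q z = 0 ∧ ∃ w ∈ Z, w ∉ Submodule.span F {z} ∧ Q w = 0 := by
  obtain ⟨z, hz, hz0, hQz⟩ := exists_sing_sub (Q := Q) (Z := Z) (by omega)
  obtain ⟨C, hC⟩ := Submodule.exists_isCompl (Submodule.span F {(⟨z, hz⟩ : Z)})
  have h1 := Submodule.finrank_add_eq_of_isCompl hC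
  have h2 : finrank F (Submodule.span F {(⟨z, hz⟩ : Z)}) = 1 := finrank_span_singleton (fun h => hz0 (congrArg Subtype.val h))
  have h3 : finrank F (C.map Z.subtype) = finrank F C :=
    (LinearEquiv.finrank_eq (Submodule.equivMapOfInjective _ Z.injective_subtype _)).symm
  obtain ⟨w, hw, hw0, hQw⟩ := exists_sing_sub (Q := Q) (Z := C.map Z.subtype) (by omega)
  obtain ⟨c, hc, rfl⟩ := hw
  refine ⟨z, hz, hz0, hQz, c, c.2, ?_, hQw⟩
  intro hmem
  obtain ⟨a, ha⟩ := Submodule.mem_span_singleton.1 hmem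
  have h4 : c ∈ Submodule.span F {(⟨z, hz⟩ : Z)} := Submodule.mem_span_singleton.2 ⟨a, Subtype.ext ha⟩
  have h5 := Submodule.disjoint_def.1 hC.disjoint c h4 hc
  exact hw0 (by rw [h5]; rfl)

/-- orthogonal complements of singular vectors in a non-degenerate space are not totally isotropic -/
theorem exists_nonorth (hQ : (QuadraticMap.polarBilin Q).Nondegenerate) (h : 3 ≤ finrank F V) (u : V) :
    ∃ y y' : V, polar Q u y = 0 ∧ polar Q u y' = 0 ∧ polar Q y y' ≠ 0 := by
  by_contra hcon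
  push Not at hcon
  have h1 : perp Q (Submodule.span F {u}) ≤ perp Q (perp Q (Submodule.span F {u})) := by
    intro y hy
    rw [mem_perp']
    intro y' hy'
    exact hcon y y' (mem_perp_span_singleton.1 hy) (mem_perp_span_singleton.1 hy')
  rw [perp_perp hQ] at h1
  have h2 := Submodule.finrank_mono h1
  have h3 := finrank_add_finrank_perp hQ (Submodule.span F {u})
  have h4 : finrank F (Submodule.span F {u}) ≤ 1 := by
    have := finrank_span_le_card (R := F) ({u} : Set V)
    simpa using this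
  omega

end Abs

variable {F : Type*} [Field F] {ι : Type} [Fintype ι] [DecidableEq ι]
variable {Q : QuadraticForm F (ι → F)}

theorem eg_mul {u y y' : ι → F} (hu : Q u = 0) (hy : polar Q u y = 0) (hy' : polar Q u y' = 0)
    (hyy : polar Q u (y + y') = 0) : eg hu hy * eg hu hy' = eg hu hyy := by
  have h := sg_mul hu hy hy' hyy
  have h2 := congrArg (fun x => (((toOG Q).symm x : Cfsg.isometryGroup F ⇑Q) : GL ι F)) h
  simp only [_root_.map_mul] at h2
  exact h2

variable [Finite F]

/-- subspaces invariant under the Siegel elements of a non-degenerate subspace -/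
theorem lemG {M X : Submodule F (ι → F)} (hM : Disjoint M (perp Q M)) (hdim : 3 ≤ finrank F M)
    (hX : ∀ u ∈ M, ∀ hu : Q u = 0, ∀ y ∈ M, ∀ hy : polar Q u y = 0, ∀ x ∈ X, (eg hu hy : Matrix ι ι F) *ᵥ x ∈ X)
    (hx : ∃ x ∈ X, x ∉ perp Q M) : M ≤ X := by
  have hnd := nd_restrict hM
  have step : ∀ x ∈ X, ∀ u ∈ M, Q u = 0 → polar Q x u ≠ 0 → u ∈ X ∧ ∀ y ∈ M, polar Q u y = 0 → y ∈ X := by
    intro x hxX u huM hu hxu
    have hd : ∀ y ∈ M, polar Q u y = 0 → polar Q x u • y - polar Q x y • u - (Q y * polar Q x u) • u ∈ X := by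
      intro y hy huy
      have h1 := X.sub_mem (hX u huM hu y hy huy x hxX) hxX
      rw [eg_apply] at h1
      have h2 : x + polar Q x u • y - polar Q x y • u - (Q y * polar Q x u) • u - x =
          polar Q x u • y - polar Q x y • u - (Q y * polar Q x u) • u := by module
      rwa [h2] at h1
    have huX : u ∈ X := by
      obtain ⟨y, y', h1, h2, h3⟩ := exists_nonorth hnd hdim ⟨u, huM⟩
      have h1' : polar Q u (y : ι → F) = 0 := h1
      have h2' : polar Q u (y' : ι → F) = 0 := h2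
      have h3' : polar Q (y : ι → F) (y' : ι → F) ≠ 0 := h3
      have h4 := hd _ (M.add_mem y.2 y'.2) (by rw [QuadraticMap.polar_add_right, h1', h2', add_zero])
      have h5 := X.sub_mem (X.sub_mem h4 (hd _ y.2 h1')) (hd _ y'.2 h2')
      rw [Cfsg.Agent.H16.Quad.map_add, QuadraticMap.polar_add_right] at h5
      have h6 : polar Q x u • ((y : ι → F) + y') - (polar Q x y + polar Q x y') • u -
          ((Q y + Q y' + polar Q (y : ι → F) y') * polar Q x u) • u -
          (polar Q x u • (y : ι → F) - polar Q x y • u - (Q y * polar Q x u) • u) -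
          (polar Q x u • (y' : ι → F) - polar Q x y' • u - (Q y' * polar Q x u) • u) =
          (-(polar Q (y : ι → F) y' * polar Q x u)) • u := by module
      rw [h6] at h5
      have h7 : (-(polar Q (y : ι → F) y' * polar Q x u)) ≠ 0 := neg_ne_zero.2 (mul_ne_zero h3' hxu)
      have h8 := X.smul_mem (-(polar Q (y : ι → F) y' * polar Q x u))⁻¹ h5
      rwa [smul_smul, inv_mul_cancel₀ h7, one_smul] at h8
    refine ⟨huX, fun y hy huy => ?_⟩
    have h1 := X.add_mem (hd y hy huy) (X.smul_mem (polar Q x y + Q y * polar Q x u) huX)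
    have h2 : polar Q x u • y - polar Q x y • u - (Q y * polar Q x u) • u + (polar Q x y + Q y * polar Q x u) • u =
        polar Q x u • y := by module
    rw [h2] at h1
    have h3 := X.smul_mem (polar Q x u)⁻¹ h1
    rwa [smul_smul, inv_mul_cancel₀ hxu, one_smul] at h3
  obtain ⟨x, hxX, hxM⟩ := hx
  -- a singular vector not orthogonal to x
  obtain ⟨u, huM, hu, hxu⟩ : ∃ u ∈ M, Q u = 0 ∧ polar Q x u ≠ 0 := by
    by_contra hcon
    push Not at hcon
    apply hxM
    rw [mem_perp']
    intro m hm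
    have h1 : (⟨m, hm⟩ : M) ∈ Submodule.span F {v : M | (Q.comp M.subtype) v = 0} := by
      rw [span_singular hnd hdim]; trivial
    have h2 : ∀ z : M, z ∈ Submodule.span F {v : M | (Q.comp M.subtype) v = 0} → polar Q x (z : ι → F) = 0 := by
      intro z hz
      induction hz using Submodule.span_induction with
      | mem z hz => exact hcon z z.2 hz
      | zero => exact QuadraticMap.polar_zero_right _ _
      | add a b _ _ ha hb => rw [Submodule.coe_add, QuadraticMap.polar_add_right, ha, hb, add_zero]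
      | smul c a _ ha => rw [Submodule.coe_smul, polar_smul_right, ha, mul_zero]
    exact h2 _ h1
  obtain ⟨huX, hu2⟩ := step x hxX u huM hu hxu
  have hu0 : u ≠ 0 := by rintro rfl; exact hxu (QuadraticMap.polar_zero_right _ _)
  obtain ⟨w, hw, huw⟩ := exists_partner hnd (u := ⟨u, huM⟩) (fun h => hu0 (congrArg Subtype.val h)) hu
  have hw' : Q (w : ι → F) = 0 := hw
  have huw' : polar Q u (w : ι → F) = 1 := huw
  obtain ⟨hwX, -⟩ := step u huX w w.2 hw' (by rw [huw']; exact one_ne_zero)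
  intro z hz
  have h1 : polar Q u (z - polar Q u z • (w : ι → F)) = 0 := by
    rw [QuadraticMap.polar_sub_right, polar_smul_right, huw', mul_one, sub_self]
  have h2 := hu2 _ (M.sub_mem hz (M.smul_mem _ w.2)) h1
  have h3 := X.add_mem h2 (X.smul_mem (polar Q u z) hwX)
  rwa [sub_add_cancel] at h3

end Cfsg.Agent.H29.Sg
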