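import Mathlib
import Cfsg.Agent.H29_Sg4

set_option autoImplicit false

/-! maximality of stabilisers of non-degenerate subspaces in `Ω`: the core. -/

namespace Cfsg.Agent.H29.Sg

open Matrix Module Cfsg.Geo Cfsg.Agent.H16.Quad Cfsg.Agent.H29.Trv
open QuadraticMap (polar)

variable {F : Type*} [Field F] {ι : Type} [Fintype ι] [DecidableEq ι]
variable {Q : QuadraticForm F (ι → F)} [Finite F]

theorem eg_fix {u y b : ι → F} (hu : Q u = 0) (hy : polar Q u y = 0) (h1 : polar Q b u = 0) (h2 : polar Q b y = 0) :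
    (eg hu hy : Matrix ι ι F) *ᵥ b = b := by
  rw [eg_apply, h1, h2]
  simp

theorem eg_stab_of {X : Submodule F (ι → F)} {u y : ι → F} (huX : u ∈ X) (hyX : y ∈ X) (hu : Q u = 0)
    (hy : polar Q u y = 0) : eg hu hy ∈ subspaceStabilizer X := by
  rw [mem_stab_iff]
  intro x hx
  rw [eg_apply]
  exact X.sub_mem (X.sub_mem (X.add_mem hx (X.smul_mem _ hyX)) (X.smul_mem _ huX)) (X.smul_mem _ huX)

theorem eg_stab_perp {X : Submodule F (ι → F)} {u y : ι → F} (huX : u ∈ perp Q X) (hyX : y ∈ perp Q X) (hu : Q u = 0)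
    (hy : polar Q u y = 0) : eg hu hy ∈ subspaceStabilizer X := by
  rw [mem_stab_iff]
  intro x hx
  rw [eg_fix hu hy (mem_perp.1 huX x hx) (mem_perp.1 hyX x hx)]
  exact hx

theorem ex_refl2 (hQ : (QuadraticMap.polarBilin Q).Nondegenerate) (h5 : 5 ≤ Fintype.card ι) {x z : ι → F} (hx : Q x ≠ 0)
    (hz : Q z = Q x) : ∃ g ∈ omegaGL ⇑Q, ∀ v, (g : Matrix ι ι F) *ᵥ v = refl Q x (refl Q z v) := by
  have hgen : ∃ g : Cfsg.isometryGroup F ⇑Q, toOG Q g = rpr Q [x, z] := ⟨(toOG Q).symm (rpr Q [x, z]), by simp⟩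
  obtain ⟨g, hg⟩ := hgen
  refine ⟨g, ⟨g, ?_, rfl⟩, ?_⟩
  · have h1 := (mem_Omega_rpr_iff hQ (Or.inr (by rw [Module.finrank_fintype_fun_eq_card]; omega)) (vs := [x, z])
      (by intro v hv; simp only [List.mem_cons, List.not_mem_nil, or_false] at hv; rcases hv with rfl | rfl
          · exact hx
          · rw [hz]; exact hx) hg).2 ⟨by simp, by simp [hz]⟩
    exact h1
  · intro v
    rw [← toOG_apply, hg]
    rfl

/-- the core -/
theorem nd_core (hQ : (QuadraticMap.polarBilin Q).Nondegenerate) (h5 : 5 ≤ Fintype.card ι) {X : Submodule F (ι → F)}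
    (hX : Disjoint X (perp Q X)) (hd : 5 ≤ finrank F X) {K : Subgroup (GL ι F)}
    (hK : subspaceStabilizer X ⊓ omegaGL ⇑Q ≤ K)
    (hex : ¬ (Nat.card F ≤ 3 ∧ finrank F (perp Q X) = 2 ∧ ∃ w ∈ perp Q X, w ≠ 0 ∧ Q w = 0))
    {u a : ι → F} (huX : u ∈ X) (hu0 : u ≠ 0) (hu : Q u = 0) (haX : a ∈ perp Q X) (ha0 : a ≠ 0)
    (hua : polar Q u a = 0) (haK : eg hu hua ∈ K) : omegaGL ⇑Q ≤ K := by
  have hnd := nd_restrict hX
  obtain ⟨u', v, v', hu', huu', hv, hv', hvv', huv, huv', hu'v, hu'v'⟩ := pairs hnd hd (u := ⟨u, huX⟩)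
    (fun h => hu0 (congrArg Subtype.val h)) hu
  obtain ⟨u', hu'X⟩ := u'
  obtain ⟨v, hvX⟩ := v
  obtain ⟨v', hv'X⟩ := v'
  change Q u' = 0 at hu'
  change polar Q u u' = 1 at huu'
  change Q v = 0 at hv
  change Q v' = 0 at hv'
  change polar Q v v' = 1 at hvv'
  change polar Q u v = 0 at huv
  change polar Q u v' = 0 at huv'
  change polar Q u' v = 0 at hu'v
  change polar Q u' v' = 0 at hu'v'
  have horth : ∀ x ∈ X, ∀ b ∈ perp Q X, polar Q x b = 0 := fun x hx b hb => mem_perp.1 hb x hx
  have hgood : ∀ (e y : ι → F) (he : Q e = 0) (hy : polar Q e y = 0), e ∈ X → y ∈ X → eg he hy ∈ K :=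
    fun e y he hy heX hyX => hK ⟨eg_stab_of heX hyX he hy, eg_mem hQ h5 he hy⟩
  have hgood' : ∀ (e y : ι → F) (he : Q e = 0) (hy : polar Q e y = 0), e ∈ perp Q X → y ∈ perp Q X → eg he hy ∈ K :=
    fun e y he hy heX hyX => hK ⟨eg_stab_perp heX hyX he hy, eg_mem hQ h5 he hy⟩
  -- conjugation of eg u b by an element fixing u
  have hconj : ∀ g ∈ K, g ∈ omegaGL ⇑Q → ∀ c : F, (g : Matrix ι ι F) *ᵥ u = c • u → ∀ b ∈ perp Q X,
      (∀ h : polar Q u b = 0, eg hu h ∈ K) → ∀ h : polar Q u (c • ((g : Matrix ι ι F) *ᵥ b)) = 0,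
      eg hu h ∈ K := by
    intro g hg hgO c hgu b hb hbK h
    have hub : polar Q u b = 0 := horth u huX b hb
    have h1 : Q ((g : Matrix ι ι F) *ᵥ u) = 0 := by rw [omega_iso hgO, hu]
    have h2 : polar Q ((g : Matrix ι ι F) *ᵥ u) ((g : Matrix ι ι F) *ᵥ b) = 0 := by
      rw [QuadraticMap.polar, ← Matrix.mulVec_add, omega_iso hgO, omega_iso hgO, omega_iso hgO]
      exact hub
    have h3 := eg_conj (omega_iso hgO) hu hub h1 h2
    have h4 : eg h1 h2 = eg hu h := by
      apply Units.ext
      apply mat_ext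
      intro x
      rw [eg_apply, eg_apply, hgu, Cfsg.Agent.H16.Quad.map_smul, polar_smul_right, polar_smul_right]
      module
    rw [← h4, ← h3]
    exact K.mul_mem (K.mul_mem hg (hbK hub)) (K.inv_mem hg)
  -- the subspace A
  have hscale : ∀ c : F, c ≠ 0 → ∃ g ∈ K, g ∈ omegaGL ⇑Q ∧ (g : Matrix ι ι F) *ᵥ u = c • u ∧
      ∀ b ∈ perp Q X, (g : Matrix ι ι F) *ᵥ b = b := by
    intro c hc
    have e1 : Q (u' + v') = 0 := by rw [Cfsg.Agent.H16.Quad.map_add, hu', hv', hu'v']; ring
    have e2 : Q (u' + c • v') = 0 := by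
      rw [Cfsg.Agent.H16.Quad.map_add, Cfsg.Agent.H16.Quad.map_smul, polar_smul_right, hu', hv', hu'v']; ring
    have f1 : polar Q (u' + v') u = 1 := by
      rw [QuadraticMap.polar_add_left, polar_symm Q u' u, polar_symm Q v' u, huu', huv', add_zero]
    have f2 : polar Q (u' + v') v = 1 := by
      rw [QuadraticMap.polar_add_left, hu'v, polar_symm Q v' v, hvv', zero_add]
    have f3 : polar Q (u' + c • v') v = c := by
      rw [QuadraticMap.polar_add_left, polar_smul_left, hu'v, polar_symm Q v' v, hvv', zero_add, mul_one]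
    have f4 : polar Q (u' + c • v') (c • u) = c := by
      rw [polar_smul_right, QuadraticMap.polar_add_left, polar_smul_left, polar_symm Q u' u, polar_symm Q v' u, huu', huv',
        mul_zero, add_zero, mul_one]
    have g1 : polar Q (u' + v') ((1 : F)⁻¹ • (v - u)) = 0 := by
      rw [polar_smul_right, QuadraticMap.polar_sub_right, f1, f2]; ring
    have g2 : polar Q (u' + c • v') (c⁻¹ • (c • u - v)) = 0 := by
      rw [polar_smul_right, QuadraticMap.polar_sub_right, f3, f4]; ring
    have m1 : (eg e1 g1 : Matrix ι ι F) *ᵥ u = v := by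
      rw [eg_apply, polar_smul_right, QuadraticMap.polar_sub_right, Cfsg.Agent.H16.Quad.map_smul,
        Cfsg.Agent.H16.Quad.map_sub, hv, hu, polar_self, hu, polar_symm Q u (u' + v'), f1, huv, polar_symm Q v u, huv]
      simp
    have m2 : (eg e2 g2 : Matrix ι ι F) *ᵥ v = c • u := by
      rw [eg_apply, polar_smul_right, QuadraticMap.polar_sub_right, polar_smul_right, Cfsg.Agent.H16.Quad.map_smul,
        Cfsg.Agent.H16.Quad.map_sub, Cfsg.Agent.H16.Quad.map_smul, polar_smul_left, hv, hu, polar_self, hv,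
        polar_symm Q v (u' + c • v'), f3, polar_symm Q v u, huv, smul_smul, mul_inv_cancel₀ hc]
      simp
    have k1 : eg e1 g1 ∈ K := hgood _ _ _ _ (X.add_mem hu'X hv'X) (X.smul_mem _ (X.sub_mem hvX huX))
    have k2 : eg e2 g2 ∈ K := hgood _ _ _ _ (X.add_mem hu'X (X.smul_mem _ hv'X))
      (X.smul_mem _ (X.sub_mem (X.smul_mem _ huX) hvX))
    refine ⟨eg e2 g2 * eg e1 g1, K.mul_mem k2 k1, (omegaGL ⇑Q).mul_mem (eg_mem hQ h5 _ _) (eg_mem hQ h5 _ _), ?_, ?_⟩
    · rw [Units.val_mul, ← Matrix.mulVec_mulVec, m1, m2]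
    · intro b hb
      rw [Units.val_mul, ← Matrix.mulVec_mulVec, eg_fix e1 g1, eg_fix e2 g2]
      · rw [polar_symm]; exact horth _ (X.add_mem hu'X (X.smul_mem _ hv'X)) b hb
      · rw [polar_symm]; exact horth _ (X.smul_mem _ (X.sub_mem (X.smul_mem _ huX) hvX)) b hb
      · rw [polar_symm]; exact horth _ (X.add_mem hu'X hv'X) b hb
      · rw [polar_symm]; exact horth _ (X.smul_mem _ (X.sub_mem hvX huX)) b hb
  obtain ⟨A, hA⟩ : ∃ A : Submodule F (ι → F), ∀ b, b ∈ A ↔ b ∈ perp Q X ∧ ∀ h : polar Q u b = 0, eg hu h ∈ K := by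
    refine ⟨{ carrier := {b | b ∈ perp Q X ∧ ∀ h : polar Q u b = 0, eg hu h ∈ K}
              add_mem' := ?_, zero_mem' := ?_, smul_mem' := ?_ }, fun b => Iff.rfl⟩
    · rintro b c ⟨hb, hbK⟩ ⟨hc, hcK⟩
      refine ⟨Submodule.add_mem _ hb hc, fun h => ?_⟩
      have h1 := horth u huX b hb
      have h2 := horth u huX c hc
      rw [← eg_mul hu h1 h2 h]
      exact K.mul_mem (hbK h1) (hcK h2)
    · refine ⟨Submodule.zero_mem _, fun h => ?_⟩
      exact hgood _ _ _ _ huX X.zero_mem
    · rintro c b ⟨hb, hbK⟩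
      refine ⟨Submodule.smul_mem _ _ hb, fun h => ?_⟩
      by_cases hc : c = 0
      · have : eg hu h = eg hu (show polar Q u (0 : ι → F) = 0 from QuadraticMap.polar_zero_right _ _) :=
          eg_congr rfl (by rw [hc, zero_smul])
        rw [this]
        exact hgood _ _ _ _ huX X.zero_mem
      · obtain ⟨g, hg, hgO, hgu, hgb⟩ := hscale c hc
        have h1 := hconj g hg hgO c hgu b hb hbK (by rw [hgb b hb]; exact h)
        rwa [eg_congr (hu' := hu) (hy' := h) rfl (by rw [hgb b hb])] at h1
  have haA : a ∈ A := (hA a).2 ⟨haX, fun _ => haK⟩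
  have hPA : perp Q X ≤ A := by
    have hXp : perp Q (perp Q X) = X := perp_perp hQ X
    have hPd : Disjoint (perp Q X) (perp Q (perp Q X)) := by rw [hXp]; exact hX.symm
    by_cases h3 : 3 ≤ finrank F (perp Q X)
    · apply lemG hPd h3
      · intro e heP he y hyP hy x hxA
        have hxX := ((hA x).1 hxA).1
        have hfix : (eg he hy : Matrix ι ι F) *ᵥ u = (1 : F) • u := by
          rw [eg_fix he hy (horth u huX e heP) (horth u huX y hyP), one_smul]
        have hmem : (eg he hy : Matrix ι ι F) *ᵥ x ∈ perp Q X := by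
          rw [eg_apply]
          exact Submodule.sub_mem _ (Submodule.sub_mem _ (Submodule.add_mem _ hxX (Submodule.smul_mem _ _ hyP))
            (Submodule.smul_mem _ _ heP)) (Submodule.smul_mem _ _ heP)
        rw [hA]
        refine ⟨hmem, fun h => ?_⟩
        have h1 := hconj _ (hgood' e y he hy heP hyP) (eg_mem hQ h5 he hy) 1 hfix x hxX ((hA x).1 hxA).2
          (by rw [one_smul]; exact h)
        rwa [eg_congr (hu' := hu) (hy' := h) rfl (one_smul F _)] at h1
      · refine ⟨a, haA, ?_⟩
        intro h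
        exact ha0 (Submodule.disjoint_def.1 hPd a haX h)
    · by_contra hnot
      obtain ⟨z, hzP, hzA⟩ := SetLike.not_le_iff_exists.1 hnot
      have hAP : A < perp Q X := lt_of_le_of_ne (fun b hb => ((hA b).1 hb).1) (by rintro h; exact hzA (h ▸ hzP))
      have hA0 : 0 < finrank F A := by
        rw [Module.finrank_pos_iff_exists_ne_zero]
        exact ⟨⟨a, haA⟩, fun h => ha0 (congrArg Subtype.val h)⟩
      have hAd := Submodule.finrank_lt_finrank_of_lt hAP
      have hP2 : finrank F (perp Q X) = 2 := by omega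
      -- reflections
      have hrefl : ∀ x ∈ perp Q X, Q x ≠ 0 → ∀ b ∈ A, polar Q b x ≠ 0 → x ∈ A := by
        intro x hxP hx b hbA hbx
        have hz1 : Q (v + Q x • v') = Q x := by
          rw [Cfsg.Agent.H16.Quad.map_add, Cfsg.Agent.H16.Quad.map_smul, polar_smul_right, hv, hv', hvv']; ring
        have hzX : v + Q x • v' ∈ X := X.add_mem hvX (X.smul_mem _ hv'X)
        obtain ⟨g, hgO, hg⟩ := ex_refl2 hQ h5 hx hz1
        have hgX : g ∈ subspaceStabilizer X := by
          rw [mem_stab_iff]
          intro y hy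
          rw [hg, refl_apply Q (v + Q x • v') y]
          have h1 : y - ((Q (v + Q x • v'))⁻¹ * polar Q y (v + Q x • v')) • (v + Q x • v') ∈ X :=
            X.sub_mem hy (X.smul_mem _ hzX)
          rw [refl_fix (horth _ h1 x hxP)]
          exact h1
        have hgu : (g : Matrix ι ι F) *ᵥ u = (1 : F) • u := by
          have h1 : polar Q u (v + Q x • v') = 0 := by
            rw [QuadraticMap.polar_add_right, polar_smul_right, huv, huv', mul_zero, add_zero]
          rw [hg, refl_fix h1, refl_fix (horth u huX x hxP), one_smul]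
        have hbP := ((hA b).1 hbA).1
        have hgb : (g : Matrix ι ι F) *ᵥ b = refl Q x b := by
          have h1 : polar Q b (v + Q x • v') = 0 := by rw [polar_symm]; exact horth _ hzX b hbP
          rw [hg, refl_fix h1]
        have h2 : refl Q x b ∈ perp Q X := by
          rw [refl_apply]
          exact Submodule.sub_mem _ hbP (Submodule.smul_mem _ _ hxP)
        have h3 : refl Q x b ∈ A := by
          rw [hA]
          refine ⟨h2, fun h => ?_⟩
          have h1 := hconj g (hK ⟨hgX, hgO⟩) hgO 1 hgu b hbP ((hA b).1 hbA).2 (by rw [one_smul, hgb]; exact h)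
          rwa [eg_congr (hu' := hu) (hy' := h) rfl (by rw [one_smul, hgb])] at h1
        rw [refl_apply] at h3
        have h4 := A.sub_mem hbA h3
        rw [sub_sub_cancel] at h4
        have h5' := A.smul_mem ((Q x)⁻¹ * polar Q b x)⁻¹ h4
        rwa [smul_smul, inv_mul_cancel₀ (mul_ne_zero (inv_ne_zero hx) hbx), one_smul] at h5'
      -- choose x outside A, not orthogonal to a
      have hndP := nd_restrict hPd
      obtain ⟨x, hxP, hxA, hax⟩ : ∃ x ∈ perp Q X, x ∉ A ∧ polar Q a x ≠ 0 := by
        by_cases haz : polar Q a z = 0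
        · obtain ⟨y, hy⟩ := nd_exists_ne hndP (x := ⟨a, haX⟩) (fun h => ha0 (congrArg Subtype.val h))
          have hy' : polar Q a (y : ι → F) ≠ 0 := hy
          by_cases hyA : (y : ι → F) ∈ A
          · refine ⟨y + z, Submodule.add_mem _ y.2 hzP, ?_, ?_⟩
            · intro h
              apply hzA
              have := A.sub_mem h hyA
              rwa [add_sub_cancel_left] at this
            · rw [QuadraticMap.polar_add_right, haz, add_zero]; exact hy'
          · exact ⟨y, y.2, hyA, hy'⟩
        · exact ⟨z, hzP, hzA, haz⟩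
      have hkey : ∀ t : F, Q (x + t • a) = 0 ∨ polar Q a (x + t • a) = 0 := by
        intro t
        by_contra hcon
        push Not at hcon
        have h1 := hrefl (x + t • a) (Submodule.add_mem _ hxP (Submodule.smul_mem _ _ haX)) hcon.1 a haA hcon.2
        apply hxA
        have := A.sub_mem h1 (A.smul_mem t haA)
        rwa [add_sub_cancel_right] at this
      simp only [Cfsg.Agent.H16.Quad.map_add, Cfsg.Agent.H16.Quad.map_smul, QuadraticMap.polar_add_right,
        polar_smul_right, polar_self, polar_symm Q x a] at hkey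
      have hQx : Q x = 0 := by
        rcases hkey 0 with h | h
        · linear_combination h
        · exact absurd (by linear_combination h) hax
      have hx0 : x ≠ 0 := by rintro rfl; exact hax (QuadraticMap.polar_zero_right _ _)
      have hQa : Q a ≠ 0 := by
        intro hQa
        rcases hkey 1 with h | h
        · rw [hQx, hQa] at h
          exact hax (by linear_combination h)
        · rw [hQa] at h
          exact hax (by linear_combination h)
      apply hex
      refine ⟨?_, hP2, x, hxP, hx0, hQx⟩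
      classical
      haveI := Fintype.ofFinite F
      rw [Nat.card_eq_fintype_card, ← Finset.card_univ]
      have hsub : (Finset.univ : Finset F) ⊆ {0, -(polar Q a x) * (Q a)⁻¹, -(polar Q a x) * (2 * Q a)⁻¹} := by
        intro t _
        simp only [Finset.mem_insert, Finset.mem_singleton]
        by_cases ht : t = 0
        · exact Or.inl ht
        right
        rcases hkey t with h | h
        · left
          rw [hQx] at h
          have h6 : t * (t * Q a + polar Q a x) = 0 := by linear_combination h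
          have h7 := (mul_eq_zero.1 h6).resolve_left ht
          field_simp
          linear_combination h7
        · right
          by_cases h2 : (2 : F) = 0
          · exfalso
            rw [h2] at h
            exact hax (by linear_combination h)
          field_simp
          linear_combination h
      refine (Finset.card_le_card hsub).trans ?_
      exact Finset.card_le_three
  have hSC : SC Q K u := by
    refine ⟨hu, fun hu' y hy => ?_⟩
    have hc := isCompl_perp hX
    obtain ⟨b, hb, c, hc', rfl⟩ := Submodule.mem_sup.1 (show y ∈ X ⊔ perp Q X by rw [hc.sup_eq_top]; trivial)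
    have h2 : polar Q u c = 0 := horth u huX c hc'
    have h1 : polar Q u b = 0 := by
      rw [QuadraticMap.polar_add_right, h2, add_zero] at hy
      exact hy
    rw [← eg_mul hu' h1 h2 hy]
    exact K.mul_mem (hgood _ _ _ _ huX hb) (((hA c).1 (hPA hc')).2 h2)
  -- another centre
  have hy1 : polar Q u' (v + v') = 0 := by rw [QuadraticMap.polar_add_right, hu'v, hu'v', add_zero]
  have hk : eg hu' hy1 ∈ K := hgood _ _ _ _ hu'X (X.add_mem hvX hv'X)
  have hSC2 := hSC.conj hk (omega_iso (eg_mem hQ h5 _ _))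
  refine SC.all hQ h5 hSC hSC2 ?_
  rw [eg_apply, QuadraticMap.polar_sub_right, QuadraticMap.polar_sub_right, QuadraticMap.polar_add_right,
    polar_smul_right, polar_smul_right, polar_smul_right, huu', polar_self, hu, QuadraticMap.polar_add_right, huv, huv',
    Cfsg.Agent.H16.Quad.map_add, hv, hv', hvv']
  simp

end Cfsg.Agent.H29.Sg
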