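import Mathlib
import Cfsg.Agent.H29_Sg5

set_option autoImplicit false

/-! maximality of stabilisers of non-degenerate subspaces in `Ω`. -/

namespace Cfsg.Agent.H29.Sg

open Matrix Module Cfsg.Geo Cfsg.Agent.H16.Quad Cfsg.Agent.H29.Trv
open QuadraticMap (polar)

variable {F : Type*} [Field F] {ι : Type} [Fintype ι] [DecidableEq ι]
variable {Q : QuadraticForm F (ι → F)} [Finite F]

def Good (Q : QuadraticForm F (ι → F)) (K : Subgroup (GL ι F)) (Y : Submodule F (ι → F)) : Prop :=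
  ∀ u ∈ Y, ∀ y ∈ Y, ∀ (hu : Q u = 0) (hy : polar Q u y = 0), eg hu hy ∈ K

theorem iso_polar {g : GL ι F} (hg : ∀ x, Q ((g : Matrix ι ι F) *ᵥ x) = Q x) (x z : ι → F) :
    polar Q ((g : Matrix ι ι F) *ᵥ x) ((g : Matrix ι ι F) *ᵥ z) = polar Q x z := by
  rw [QuadraticMap.polar, QuadraticMap.polar, ← Matrix.mulVec_add, hg, hg, hg]

theorem Good.map {K : Subgroup (GL ι F)} {Y : Submodule F (ι → F)} (h : Good Q K Y) {g : GL ι F} (hgK : g ∈ K)
    (hg : ∀ x, Q ((g : Matrix ι ι F) *ᵥ x) = Q x) : Good Q K (Y.map (Matrix.toLin' (g : Matrix ι ι F))) := by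
  rintro _ ⟨u, huY, rfl⟩ _ ⟨y, hyY, rfl⟩ hu hy
  have hu1 : Q u = 0 := by rw [← hg]; exact hu
  have hy1 : polar Q u y = 0 := by rw [← iso_polar hg]; exact hy
  have h2 : eg (u := (g : Matrix ι ι F) *ᵥ u) (y := (g : Matrix ι ι F) *ᵥ y) hu hy ∈ K := by
    rw [← eg_conj hg hu1 hy1 hu hy]
    exact K.mul_mem (K.mul_mem hgK (h u huY y hyY hu1 hy1)) (K.inv_mem hgK)
  exact h2

theorem gl_inj (g : GL ι F) : Function.Injective (Matrix.toLin' (g : Matrix ι ι F)) := by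
  intro x y hxy
  rw [Matrix.toLin'_apply, Matrix.toLin'_apply] at hxy
  have := congrArg (fun z => ((g⁻¹ : GL ι F) : Matrix ι ι F) *ᵥ z) hxy
  simp only [Matrix.mulVec_mulVec, ← Units.val_mul, inv_mul_cancel, Units.val_one, Matrix.one_mulVec] at this
  exact this

theorem finrank_gl (g : GL ι F) (Y : Submodule F (ι → F)) :
    finrank F (Y.map (Matrix.toLin' (g : Matrix ι ι F))) = finrank F Y :=
  (LinearEquiv.finrank_eq (Submodule.equivMapOfInjective _ (gl_inj g) Y)).symm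

theorem exists_move_nd (hQ : (QuadraticMap.polarBilin Q).Nondegenerate) {X : Submodule F (ι → F)}
    (hX : Disjoint X (perp Q X)) (hXtop : X ≠ ⊤) (hd : 3 ≤ finrank F X) :
    ∃ (e y : ι → F) (he : Q e = 0) (hy : polar Q e y = 0), ∃ x ∈ X, (eg he hy : Matrix ι ι F) *ᵥ x ∉ X := by
  have hc := isCompl_perp hX
  obtain ⟨a, haP, ha0⟩ : ∃ a ∈ perp Q X, a ≠ 0 := by
    apply Submodule.exists_mem_ne_zero_of_ne_bot
    intro h
    apply hXtop
    have := hc.sup_eq_top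
    rwa [h, sup_bot_eq] at this
  have hnd := nd_restrict hX
  obtain ⟨u, hu0, hu⟩ := exists_singular hnd hd
  obtain ⟨u', hu', huu'⟩ := exists_partner hnd hu0 hu
  have hu1 : Q (u : ι → F) = 0 := hu
  have huu1 : polar Q (u : ι → F) (u' : ι → F) = 1 := huu'
  refine ⟨u, a, hu1, mem_perp.1 haP u u.2, u', u'.2, ?_⟩
  intro h
  rw [eg_apply, polar_symm Q (u' : ι → F) u, huu1, mem_perp.1 haP u' u'.2, one_smul, zero_smul, sub_zero, mul_one] at h
  apply ha0
  apply Submodule.disjoint_def.1 hX a _ haP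
  have h1 : a = ((u' : ι → F) + a - Q a • (u : ι → F)) - u' + Q a • (u : ι → F) := by module
  rw [h1]
  exact X.add_mem (X.sub_mem h u'.2) (X.smul_mem _ u.2)

theorem nd_max (hQ : (QuadraticMap.polarBilin Q).Nondegenerate) (hn : 13 ≤ Fintype.card ι) {X : Submodule F (ι → F)}
    (hX : Disjoint X (perp Q X)) (hd : Fintype.card ι ≤ 2 * finrank F X) (hXtop : X ≠ ⊤)
    (hswap : ∀ g ∈ omegaGL ⇑Q, X.map (Matrix.toLin' (g : Matrix ι ι F)) ≠ perp Q X)
    (hex : ¬ (Nat.card F ≤ 3 ∧ finrank F (perp Q X) = 2 ∧ ∃ w ∈ perp Q X, w ≠ 0 ∧ Q w = 0)) :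
    IsMaximalIn (omegaGL ⇑Q) (subspaceStabilizer X ⊓ omegaGL ⇑Q) := by
  have h5 : 5 ≤ Fintype.card ι := by omega
  have hfn := Module.finrank_fintype_fun_eq_card F (η := ι)
  refine ⟨lt_of_le_of_ne inf_le_right ?_, ?_⟩
  · intro h
    obtain ⟨e, y, he, hy, x, hx, hno⟩ := exists_move_nd hQ hX hXtop (by omega)
    have h1 : eg he hy ∈ omegaGL ⇑Q := eg_mem hQ h5 he hy
    rw [← h] at h1
    exact hno ((mem_stab_iff _ _).1 h1.1 x hx)
  intro M hM1 hM2
  by_cases hle : M ≤ subspaceStabilizer X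
  · left
    exact le_antisymm (le_inf hle hM2) hM1
  right
  refine le_antisymm hM2 ?_
  obtain ⟨k, hkM, hkX⟩ := SetLike.not_le_iff_exists.1 hle
  have hkO := hM2 hkM
  have hkiso := omega_iso (Q := ⇑Q) hkO
  have hGX : Good Q M X := fun u hu y hy hu' hy' => hM1 ⟨eg_stab_of hu hy hu' hy', eg_mem hQ h5 _ _⟩
  set X₁ := X.map (Matrix.toLin' (k : Matrix ι ι F)) with hX₁
  have hX1ne : X₁ ≠ X := fun h => hkX (stab_of_map h)
  have hX1d : finrank F X₁ = finrank F X := finrank_gl k X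
  have hG1 : Good Q M X₁ := hGX.map hkM hkiso
  -- a Siegel element moving X₁
  obtain ⟨u0, hu0X, y0, hy0X, hu0, hy0, x0, hx0, hno⟩ : ∃ u0 ∈ X, ∃ y0 ∈ X, ∃ (hu0 : Q u0 = 0) (hy0 : polar Q u0 y0 = 0),
      ∃ x0 ∈ X₁, (eg hu0 hy0 : Matrix ι ι F) *ᵥ x0 ∉ X₁ := by
    by_contra hcon
    push Not at hcon
    by_cases hx : ∃ x ∈ X₁, x ∉ perp Q X
    · have h1 := lemG hX (by omega) (fun u hu hu' y hy hy' x hx => hcon u hu y hy hu' hy' x hx) hx
      exact hX1ne (Submodule.eq_of_le_of_finrank_eq h1 hX1d.symm).symm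
    · push Not at hx
      apply hswap k hkO
      apply Submodule.eq_of_le_of_finrank_le hx
      have := finrank_add_finrank_perp hQ X
      rw [hfn] at this
      omega
  set h := eg hu0 hy0 with hh
  have hhM : h ∈ M := hGX u0 hu0X y0 hy0X hu0 hy0
  have hhiso := omega_iso (Q := ⇑Q) (hM2 hhM)
  set X₂ := X₁.map (Matrix.toLin' (h : Matrix ι ι F)) with hX₂
  have hG2 : Good Q M X₂ := hG1.map hhM hhiso
  have hX2d : finrank F X₂ = finrank F X₁ := finrank_gl h X₁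
  have hZ : 4 ≤ finrank F (X₁ ⊓ X₂ : Submodule F (ι → F)) := by
    set S := Submodule.span F ({u0, y0} : Set (ι → F)) with hS
    have h1 : X₁ ⊓ perp Q S ≤ X₁ ⊓ X₂ := by
      rintro x ⟨hx1, hx2⟩
      refine ⟨hx1, x, hx1, ?_⟩
      rw [Matrix.toLin'_apply, hh]
      rw [SetLike.mem_coe, hS, Cfsg.Agent.H16.Quad.mem_perp_span] at hx2
      apply eg_fix
      · rw [polar_symm]; exact hx2 u0 (by simp)
      · rw [polar_symm]; exact hx2 y0 (by simp)
    have h2 := Submodule.finrank_mono h1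
    have h3 := Submodule.finrank_sup_add_finrank_inf_eq X₁ (perp Q S)
    have h4 := Submodule.finrank_le (X₁ ⊔ perp Q S)
    have h6 := finrank_add_finrank_perp hQ S
    have h7 : finrank F S ≤ 2 := by
      classical
      have h8 := finrank_span_finset_le_card (R := F) ({u0, y0} : Finset (ι → F))
      rw [Finset.coe_pair] at h8
      exact h8.trans Finset.card_le_two
    rw [hfn] at h4 h6
    omega
  obtain ⟨z, hzZ, hz0, hz, w, hwZ, hwz, hw⟩ := exists_sing_sub2 (Q := Q) hZ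
  -- X₂ is non-degenerate
  have hnd2 : (QuadraticMap.polarBilin (Q.comp X₂.subtype)).Nondegenerate := by
    apply nd_restrict
    rw [Submodule.disjoint_def]
    rintro _ ⟨_, ⟨x, hxX, rfl⟩, rfl⟩ hp
    have h1 : x ∈ perp Q X := by
      rw [mem_perp]
      intro n hn
      have h2 := mem_perp.1 hp _ ⟨_, ⟨n, hn, rfl⟩, rfl⟩
      simp only [Matrix.toLin'_apply] at h2
      rwa [iso_polar hhiso, iso_polar hkiso] at h2
    rw [Submodule.disjoint_def.1 hX x hxX h1]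
    simp
  obtain ⟨s, hsZ, hs0, hs, y, hyX2, hsy, hyX1⟩ : ∃ s ∈ X₁ ⊓ X₂, s ≠ 0 ∧ Q s = 0 ∧ ∃ y ∈ X₂, polar Q s y = 0 ∧ y ∉ X₁ := by
    by_contra hcon
    push Not at hcon
    have hw0 : w ≠ 0 := by rintro rfl; exact hwz (Submodule.zero_mem _)
    have hzw : (⟨z, hzZ.2⟩ : X₂) ∉ Submodule.span F {(⟨w, hwZ.2⟩ : X₂)} := by
      intro hmem
      obtain ⟨c, hc⟩ := Submodule.mem_span_singleton.1 hmem
      have hc' : c • w = z := congrArg Subtype.val hc
      have hc0 : c ≠ 0 := by rintro rfl; rw [zero_smul] at hc'; exact hz0 hc'.symm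
      apply hwz
      rw [Submodule.mem_span_singleton]
      exact ⟨c⁻¹, by rw [← hc', smul_smul, inv_mul_cancel₀ hc0, one_smul]⟩
    obtain ⟨p, hp1, hp2⟩ := nd_exists_sep hnd2 _ hzw
    have h1 : X₂ ≤ X₁ := by
      intro y hy
      have hzp : polar Q z (p : ι → F) ≠ 0 := by
        have h2 : polar Q z (p : ι → F) = 1 := hp2
        rw [h2]; exact one_ne_zero
      have hwp : polar Q w (p : ι → F) = 0 := hp1 _ (Submodule.mem_span_singleton_self _)
      have h2 := hcon w hwZ hw0 hw p p.2 hwp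
      have h3 := hcon z hzZ hz0 hz (y - (polar Q z y * (polar Q z (p : ι → F))⁻¹) • (p : ι → F))
        (X₂.sub_mem hy (X₂.smul_mem _ p.2)) (by
          rw [QuadraticMap.polar_sub_right, polar_smul_right, mul_assoc, inv_mul_cancel₀ hzp, mul_one, sub_self])
      have h4 := X₁.add_mem h3 (X₁.smul_mem (polar Q z y * (polar Q z (p : ι → F))⁻¹) h2)
      rwa [sub_add_cancel] at h4
    have h2 := Submodule.eq_of_le_of_finrank_eq h1 hX2d
    apply hno
    rw [← h2]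
    exact ⟨x0, hx0, rfl⟩
  -- pull back
  have hk' : ∀ x, (k : Matrix ι ι F) *ᵥ (((k⁻¹ : GL ι F) : Matrix ι ι F) *ᵥ x) = x := by
    intro x
    rw [Matrix.mulVec_mulVec, ← Units.val_mul, mul_inv_cancel, Units.val_one, Matrix.one_mulVec]
  have hkiso' : ∀ x, Q (((k⁻¹ : GL ι F) : Matrix ι ι F) *ᵥ x) = Q x := by
    intro x
    rw [← hkiso, hk']
  have hG3 : Good Q M (X₂.map (Matrix.toLin' ((k⁻¹ : GL ι F) : Matrix ι ι F))) := hG2.map (M.inv_mem hkM) hkiso'
  set s' := ((k⁻¹ : GL ι F) : Matrix ι ι F) *ᵥ s with hs'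
  set y' := ((k⁻¹ : GL ι F) : Matrix ι ι F) *ᵥ y with hy'
  have hs'X : s' ∈ X := by
    obtain ⟨x, hx, hxs⟩ := hsZ.1
    have : s' = x := by
      rw [hs', ← hxs, Matrix.toLin'_apply, Matrix.mulVec_mulVec, ← Units.val_mul, inv_mul_cancel, Units.val_one,
        Matrix.one_mulVec]
    rw [this]; exact hx
  have hs'0 : s' ≠ 0 := by
    intro h0
    apply hs0
    rw [← hk' s, ← hs', h0, Matrix.mulVec_zero]
  have hs'Q : Q s' = 0 := by rw [hs', hkiso', hs]
  have hsy' : polar Q s' y' = 0 := by rw [hs', hy', iso_polar hkiso', hsy]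
  have hK1 : eg hs'Q hsy' ∈ M := hG3 s' ⟨s, hsZ.2, rfl⟩ y' ⟨y, hyX2, rfl⟩ _ _
  have hc := isCompl_perp hX
  obtain ⟨b, hb, a, ha, hba⟩ := Submodule.mem_sup.1 (show y' ∈ X ⊔ perp Q X by rw [hc.sup_eq_top]; trivial)
  have hsa : polar Q s' a = 0 := mem_perp.1 ha s' hs'X
  have hsb : polar Q s' b = 0 := by
    rw [← hba, QuadraticMap.polar_add_right, hsa, add_zero] at hsy'
    exact hsy'
  have ha0 : a ≠ 0 := by
    rintro rfl
    apply hyX1
    rw [add_zero] at hba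
    refine ⟨b, hb, ?_⟩
    rw [Matrix.toLin'_apply, hba, hy', hk']
  have hK2 : eg hs'Q hsa ∈ M := by
    have h1 := eg_mul hs'Q hsb hsa (by rw [hba]; exact hsy')
    rw [eg_congr (hu' := hs'Q) (hy' := hsy') rfl hba] at h1
    have h2 : eg hs'Q hsa = (eg hs'Q hsb)⁻¹ * eg hs'Q hsy' := by rw [← h1, inv_mul_cancel_left]
    rw [h2]
    exact M.mul_mem (M.inv_mem (hGX s' hs'X b hb _ _)) hK1
  exact nd_core hQ h5 hX (by omega) hM1 hex hs'X hs'0 hs'Q ha ha0 hsa hK2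

end Cfsg.Agent.H29.Sg
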