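import Mathlib
import Cfsg.Agent.H29_Sg6

set_option autoImplicit false

/-! maximality of stabilisers of non-degenerate subspaces in `Ω`: final form. -/

namespace Cfsg.Agent.H29.Sg

open Matrix Module Cfsg.Geo Cfsg.Agent.H16.Quad Cfsg.Agent.H29.Trv
open QuadraticMap (polar)

variable {F : Type*} [Field F] {ι : Type} [Fintype ι] [DecidableEq ι]
variable {Q : QuadraticForm F (ι → F)}

theorem disj_of {W : Submodule F (ι → F)} (h : IsNondegenerateOn (polar Q) W) : Disjoint W (perp Q W) := by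
  rw [Submodule.disjoint_def]
  intro x hx hp
  by_contra h0
  obtain ⟨⟨y, hy, hyx⟩, -⟩ := h x hx h0
  exact hyx (mem_perp.1 hp y hy)

variable [Finite F]

theorem stab_perp (hQ : (QuadraticMap.polarBilin Q).Nondegenerate) (X : Submodule F (ι → F)) :
    subspaceStabilizer (perp Q X) ⊓ omegaGL ⇑Q = subspaceStabilizer X ⊓ omegaGL ⇑Q := by
  have key : ∀ Y : Submodule F (ι → F), subspaceStabilizer Y ⊓ omegaGL ⇑Q ≤ subspaceStabilizer (perp Q Y) ⊓ omegaGL ⇑Q := by
    intro Y g hg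
    obtain ⟨h1, h2⟩ := Subgroup.mem_inf.1 hg
    refine Subgroup.mem_inf.2 ⟨?_, h2⟩
    rw [mem_stab_iff]
    intro w hw
    rw [mem_perp] at hw ⊢
    intro n hn
    have hiso := omega_iso (Q := ⇑Q) h2
    have h3 : ((g⁻¹ : GL ι F) : Matrix ι ι F) *ᵥ n ∈ Y := (mem_stab_iff _ _).1 ((subspaceStabilizer Y).inv_mem h1) n hn
    have h4 : n = (g : Matrix ι ι F) *ᵥ (((g⁻¹ : GL ι F) : Matrix ι ι F) *ᵥ n) := by
      rw [Matrix.mulVec_mulVec, ← Units.val_mul, mul_inv_cancel, Units.val_one, Matrix.one_mulVec]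
    rw [h4, iso_polar hiso]
    exact hw _ h3
  apply le_antisymm
  · have h := key (perp Q X)
    rwa [perp_perp hQ] at h
  · exact key X

theorem nd_max' (hQ : (QuadraticMap.polarBilin Q).Nondegenerate) (hn : 13 ≤ Fintype.card ι) {W : Submodule F (ι → F)}
    (hW : Disjoint W (perp Q W)) (hW0 : W ≠ ⊥) (hWtop : W ≠ ⊤)
    (hsw : 2 * finrank F W = Fintype.card ι → ∀ g ∈ omegaGL ⇑Q, W.map (Matrix.toLin' (g : Matrix ι ι F)) ≠ perp Q W)
    (hex : ∀ U, (U = W ∨ U = perp Q W) → ¬ (Nat.card F ≤ 3 ∧ finrank F U = 2 ∧ ∃ w ∈ U, w ≠ 0 ∧ Q w = 0)) :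
    IsMaximalIn (omegaGL ⇑Q) (subspaceStabilizer W ⊓ omegaGL ⇑Q) := by
  have hfn := Module.finrank_fintype_fun_eq_card F (η := ι)
  have h1 := finrank_add_finrank_perp hQ W
  rw [hfn] at h1
  by_cases hd : Fintype.card ι ≤ 2 * finrank F W
  · apply nd_max hQ hn hW hd hWtop _ (hex _ (Or.inr rfl))
    intro g hg hgW
    have h2 := finrank_gl g W
    rw [hgW] at h2
    exact hsw (by omega) g hg hgW
  · rw [← stab_perp hQ W]
    have hpp := perp_perp hQ W
    apply nd_max hQ hn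
    · rw [hpp]; exact hW.symm
    · omega
    · intro h
      apply hW0
      rw [← hpp, h]
      rw [eq_bot_iff]
      intro x hx
      rw [Submodule.mem_bot]
      exact nd_eq_zero hQ (fun y => mem_perp'.1 hx y trivial)
    · intro g hg hgW
      rw [hpp] at hgW
      have h2 := finrank_gl g (perp Q W)
      rw [hgW] at h2
      omega
    · rw [hpp]
      exact hex W (Or.inl rfl)

theorem swap_plus {W : Submodule F (ι → F)} (hW : Disjoint W (perp Q W)) {m : ℕ} (hm : finrank F W = 2 * m + 2)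
    (hd : 2 * finrank F W = Fintype.card ι) {g : GL ι F} (hg : g ∈ omegaGL ⇑Q)
    (hgW : W.map (Matrix.toLin' (g : Matrix ι ι F)) = perp Q W) :
    ∃ U : Submodule F (ι → F), (∀ u ∈ U, Q u = 0) ∧ 2 * finrank F U = Fintype.card ι := by
  obtain ⟨φ, hφ⟩ := exists_similarity (nd_restrict hW) hm (c := (-1 : F)) (neg_ne_zero.2 one_ne_zero)
  have hφ' : ∀ x : W, Q ((φ x : W) : ι → F) = - Q (x : ι → F) := by
    intro x
    have := hφ x
    rw [neg_one_mul] at this
    exact this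
  let L : W →ₗ[F] (ι → F) := W.subtype + (Matrix.toLin' (g : Matrix ι ι F)).comp (W.subtype.comp φ.toLinearMap)
  have hL : ∀ x : W, L x = (x : ι → F) + (g : Matrix ι ι F) *ᵥ ((φ x : W) : ι → F) := fun x => rfl
  have hmem : ∀ x : W, (g : Matrix ι ι F) *ᵥ ((φ x : W) : ι → F) ∈ perp Q W := by
    intro x
    rw [← hgW]
    exact ⟨_, (φ x).2, rfl⟩
  have hinj : Function.Injective L := by
    rw [← LinearMap.ker_eq_bot, LinearMap.ker_eq_bot']
    intro x hx
    rw [hL] at hx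
    have h1 : (x : ι → F) = -((g : Matrix ι ι F) *ᵥ ((φ x : W) : ι → F)) := eq_neg_of_add_eq_zero_left hx
    have h2 : (x : ι → F) ∈ perp Q W := by rw [h1]; exact Submodule.neg_mem _ (hmem x)
    exact Subtype.ext (Submodule.disjoint_def.1 hW x x.2 h2)
  refine ⟨LinearMap.range L, ?_, ?_⟩
  · rintro _ ⟨x, rfl⟩
    rw [hL, Cfsg.Agent.H16.Quad.map_add, omega_iso hg, hφ', mem_perp.1 (hmem x) x x.2]
    ring
  · rw [LinearMap.finrank_range_of_inj hinj, hd]

theorem plus_vec {U : Submodule F (ι → F)} (h2 : finrank F U = 2) {w : ι → F} (hw : w ∈ U) (hw0 : w ≠ 0) (hQw : Q w = 0) :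
    IsPlusTypeOn ⇑Q U := by
  refine ⟨Submodule.span F {w}, ?_, ?_, ?_⟩
  · rw [Submodule.span_singleton_le_iff_mem]; exact hw
  · intro x hx
    obtain ⟨c, rfl⟩ := Submodule.mem_span_singleton.1 hx
    rw [Cfsg.Agent.H16.Quad.map_smul, hQw, mul_zero]
  · rw [finrank_span_singleton hw0, h2]

theorem nd_on_of {W : Submodule F (ι → F)} (h : Disjoint W (perp Q W)) : IsNondegenerateOn (polar Q) W := by
  intro w hw hw0
  have h1 : ∃ x ∈ W, polar Q x w ≠ 0 := by
    by_contra hcon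
    push Not at hcon
    exact hw0 (Submodule.disjoint_def.1 h w hw (mem_perp.2 hcon))
  obtain ⟨x, hx, hxw⟩ := h1
  exact ⟨⟨x, hx, hxw⟩, x, hx, by rw [polar_symm]; exact hxw⟩

end Cfsg.Agent.H29.Sg
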