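import Mathlib
import Cfsg.Agent.H29_Sg7

set_option autoImplicit false

/-! stabilisers of non-singular points; plus-type planes over small fields. -/

namespace Cfsg.Agent.H29.Sg

open Matrix Module Cfsg.Geo Cfsg.Agent.H16.Quad Cfsg.Agent.H29.Trv
open QuadraticMap (polar)

variable {F : Type*} [Field F] {ι : Type} [Fintype ι] [DecidableEq ι]
variable {Q : QuadraticForm F (ι → F)} [Finite F]

theorem exists_sing_ne (hQ : (QuadraticMap.polarBilin Q).Nondegenerate) (h5 : 5 ≤ Fintype.card ι) {x : ι → F}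
    (hx : x ≠ 0) : ∃ u, Q u = 0 ∧ polar Q x u ≠ 0 := by
  by_contra hcon
  push Not at hcon
  apply hx
  apply nd_eq_zero hQ
  intro z
  have h1 : z ∈ Submodule.span F {v : ι → F | Q v = 0} := by
    rw [span_singular hQ (by rw [Module.finrank_fintype_fun_eq_card]; omega)]; trivial
  induction h1 using Submodule.span_induction with
  | mem z hz => exact hcon z hz
  | zero => exact QuadraticMap.polar_zero_right _ _
  | add a b _ _ ha hb => rw [QuadraticMap.polar_add_right, ha, hb, add_zero]
  | smul c a _ ha => rw [polar_smul_right, ha, mul_zero]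

theorem finrank_pair (x y : ι → F) : finrank F (Submodule.span F ({x, y} : Set (ι → F))) ≤ 2 := by
  classical
  have h8 := finrank_span_finset_le_card (R := F) ({x, y} : Finset (ι → F))
  rw [Finset.coe_pair] at h8
  exact h8.trans Finset.card_le_two

theorem exists_move_pt (hQ : (QuadraticMap.polarBilin Q).Nondegenerate) (h5 : 5 ≤ Fintype.card ι) {v : ι → F}
    (hv : v ≠ 0) : ¬ omegaGL ⇑Q ≤ subspaceStabilizer (Submodule.span F {v}) := by
  intro hle
  obtain ⟨u, hu, hvu⟩ := exists_sing_ne hQ h5 hv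
  have hex : ∃ y, y ∈ perp Q (Submodule.span F {u}) ∧ y ∉ Submodule.span F ({u, v} : Set (ι → F)) := by
    by_contra hcon
    push Not at hcon
    have h1 : perp Q (Submodule.span F {u}) ≤ Submodule.span F ({u, v} : Set (ι → F)) := hcon
    have h2 := Submodule.finrank_mono h1
    have h3 := finrank_pair u v
    have h4 := finrank_add_finrank_perp hQ (Submodule.span F {u})
    rw [Module.finrank_fintype_fun_eq_card] at h4
    have h6 : finrank F (Submodule.span F {u}) ≤ 1 := by
      have := finrank_span_le_card (R := F) ({u} : Set (ι → F))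
      simpa using this
    omega
  obtain ⟨y, hy, hyS⟩ := hex
  have huy : polar Q u y = 0 := mem_perp_span_singleton.1 hy
  have h1 := (mem_stab_iff _ _).1 (hle (eg_mem hQ h5 hu huy)) v (Submodule.mem_span_singleton_self v)
  rw [eg_apply] at h1
  obtain ⟨c, hc⟩ := Submodule.mem_span_singleton.1 h1
  apply hyS
  rw [Submodule.mem_span_pair]
  refine ⟨(polar Q v u)⁻¹ * (polar Q v y + Q y * polar Q v u), (polar Q v u)⁻¹ * (c - 1), ?_⟩
  have h2 : (polar Q v u) • y = (polar Q v y + Q y * polar Q v u) • u + (c - 1) • v := by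
    rw [sub_smul, hc]
    module
  rw [← smul_smul, ← smul_smul, ← smul_add, ← h2, smul_smul, inv_mul_cancel₀ hvu, one_smul]

/-- stabilisers of non-singular points are maximal -/
theorem ns_max (hQ : (QuadraticMap.polarBilin Q).Nondegenerate) (hn : 13 ≤ Fintype.card ι) {v : ι → F} (hv : Q v ≠ 0) :
    IsMaximalIn (omegaGL ⇑Q) (subspaceStabilizer (Submodule.span F {v}) ⊓ omegaGL ⇑Q) := by
  have h5 : 5 ≤ Fintype.card ι := by omega
  have hfn := Module.finrank_fintype_fun_eq_card F (η := ι)
  have hv0 : v ≠ 0 := by rintro rfl; exact hv (QuadraticMap.map_zero Q)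
  refine ⟨lt_of_le_of_ne inf_le_right ?_, ?_⟩
  · intro h
    exact exists_move_pt hQ h5 hv0 (inf_eq_right.1 h)
  intro M hM1 hM2
  by_cases hle : M ≤ subspaceStabilizer (Submodule.span F {v})
  · left
    exact le_antisymm (le_inf hle hM2) hM1
  right
  refine le_antisymm hM2 ?_
  obtain ⟨k, hkM, hkv⟩ := SetLike.not_le_iff_exists.1 hle
  have hkO := hM2 hkM
  have hkiso := omega_iso (Q := ⇑Q) hkO
  set v₁ := (k : Matrix ι ι F) *ᵥ v with hv₁
  have hv1 : v₁ ∉ Submodule.span F {v} := by
    intro h
    apply hkv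
    rw [mem_stab_iff]
    intro w hw
    obtain ⟨c, rfl⟩ := Submodule.mem_span_singleton.1 hw
    rw [Matrix.mulVec_smul]
    exact Submodule.smul_mem _ _ h
  have hG : Good Q M (perp Q (Submodule.span F {v})) := by
    intro u hu y hy hu' hy'
    refine hM1 (Subgroup.mem_inf.2 ⟨?_, eg_mem hQ h5 _ _⟩)
    rw [mem_stab_iff]
    intro w hw
    obtain ⟨c, rfl⟩ := Submodule.mem_span_singleton.1 hw
    rw [Matrix.mulVec_smul, eg_fix hu' hy' (mem_perp_span_singleton.1 hu) (mem_perp_span_singleton.1 hy)]
    exact hw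
  have hG1 : Good Q M (perp Q (Submodule.span F {v₁})) := by
    have h1 := hG.map hkM hkiso
    have h2 : perp Q (Submodule.span F {v₁}) ≤ (perp Q (Submodule.span F {v})).map (Matrix.toLin' (k : Matrix ι ι F)) := by
      intro x hx
      have hk' : (k : Matrix ι ι F) *ᵥ (((k⁻¹ : GL ι F) : Matrix ι ι F) *ᵥ x) = x := by
        rw [Matrix.mulVec_mulVec, ← Units.val_mul, mul_inv_cancel, Units.val_one, Matrix.one_mulVec]
      refine ⟨((k⁻¹ : GL ι F) : Matrix ι ι F) *ᵥ x, ?_, by rw [Matrix.toLin'_apply]; exact hk'⟩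
      rw [SetLike.mem_coe, mem_perp_span_singleton, ← iso_polar hkiso, hk']
      exact mem_perp_span_singleton.1 hx
    exact fun u hu y hy => h1 u (h2 hu) y (h2 hy)
  -- centres
  have hSC : ∀ u u' : ι → F, u ∈ perp Q (Submodule.span F {v}) → u ∈ perp Q (Submodule.span F {v₁}) →
      u' ∈ perp Q (Submodule.span F {v}) → u' ∈ perp Q (Submodule.span F {v₁}) → Q u = 0 → polar Q u u' ≠ 0 → SC Q M u := by
    intro u u' h1 h2 h3 h4 hu huu'
    refine ⟨hu, fun hu' y hy => ?_⟩
    have hnot : v ∉ Submodule.span F ({v₁, u} : Set (ι → F)) := by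
      intro h
      obtain ⟨α, β, hαβ⟩ := Submodule.mem_span_pair.1 h
      have h6 : polar Q (α • v₁ + β • u) u' = 0 := by rw [hαβ]; exact mem_perp_span_singleton.1 h3
      rw [QuadraticMap.polar_add_left, polar_smul_left, polar_smul_left, mem_perp_span_singleton.1 h4, mul_zero,
        zero_add] at h6
      have h7 := (mul_eq_zero.1 h6).resolve_right huu'
      rw [h7, zero_smul, add_zero] at hαβ
      have hα : α ≠ 0 := by rintro rfl; rw [zero_smul] at hαβ; exact hv0 hαβ.symm
      apply hv1
      rw [Submodule.mem_span_singleton]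
      exact ⟨α⁻¹, by rw [← hαβ, smul_smul, inv_mul_cancel₀ hα, one_smul]⟩
    obtain ⟨p, hp1, hp2⟩ := nd_exists_sep hQ _ hnot
    have hp3 : polar Q v₁ p = 0 := hp1 v₁ (Submodule.subset_span (by simp))
    have hp4 : polar Q u p = 0 := hp1 u (Submodule.subset_span (by simp))
    have h8 : polar Q u (y - polar Q v y • p) = 0 := by
      rw [QuadraticMap.polar_sub_right, polar_smul_right, hy, hp4, mul_zero, sub_zero]
    have h9 : polar Q u (polar Q v y • p) = 0 := by rw [polar_smul_right, hp4, mul_zero]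
    have h10 : (y - polar Q v y • p) + polar Q v y • p = y := sub_add_cancel _ _
    have h11 := eg_mul hu' h8 h9 (by rw [h10]; exact hy)
    rw [eg_congr (hu' := hu') (hy' := hy) rfl h10] at h11
    rw [← h11]
    refine M.mul_mem (hG u h1 _ ?_ _ _) (hG1 u h2 _ ?_ _ _)
    · rw [mem_perp_span_singleton, QuadraticMap.polar_sub_right, polar_smul_right, hp2, mul_one, sub_self]
    · rw [mem_perp_span_singleton, polar_smul_right, hp3, mul_zero]
  -- a non-orthogonal singular pair
  set S := Submodule.span F ({v, v₁} : Set (ι → F)) with hS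
  have hSd := finrank_pair v v₁
  have hSp := finrank_add_finrank_perp hQ S
  rw [hfn] at hSp
  obtain ⟨z, hz0, hz, hzP, hzS⟩ : ∃ z, z ≠ 0 ∧ Q z = 0 ∧ z ∈ perp Q S ∧ z ∉ S := by
    obtain ⟨C, hC⟩ := Submodule.exists_isCompl (S.comap (perp Q S).subtype)
    have h1 := Submodule.finrank_add_eq_of_isCompl hC
    have h2 : finrank F (S.comap (perp Q S).subtype) ≤ finrank F S := by
      have h3 : finrank F ((S.comap (perp Q S).subtype).map (perp Q S).subtype) = finrank F (S.comap (perp Q S).subtype) :=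
        (LinearEquiv.finrank_eq (Submodule.equivMapOfInjective _ (perp Q S).injective_subtype _)).symm
      rw [← h3]
      exact Submodule.finrank_mono (Submodule.map_comap_le _ _)
    have h3 : finrank F (C.map (perp Q S).subtype) = finrank F C :=
      (LinearEquiv.finrank_eq (Submodule.equivMapOfInjective _ (perp Q S).injective_subtype _)).symm
    have h4 : finrank F S ≤ 2 := hSd
    obtain ⟨w, hw, hw0, hQw⟩ := exists_sing_sub (Q := Q) (Z := C.map (perp Q S).subtype) (by omega)
    obtain ⟨c, hc, rfl⟩ := hw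
    refine ⟨_, hw0, hQw, c.2, ?_⟩
    intro hmem
    have h5 := Submodule.disjoint_def.1 hC.disjoint c hmem hc
    exact hw0 (by rw [h5]; rfl)
  obtain ⟨z', hz'P, hzz'⟩ : ∃ z' ∈ perp Q S, polar Q z z' ≠ 0 := by
    by_contra hcon
    push Not at hcon
    apply hzS
    rw [← perp_perp hQ S, mem_perp']
    exact hcon
  obtain ⟨z₁, hz1P, hzz1⟩ : ∃ z₁ ∈ perp Q S, polar Q z z₁ = 1 :=
    ⟨(polar Q z z')⁻¹ • z', Submodule.smul_mem _ _ hz'P, by rw [polar_smul_right, inv_mul_cancel₀ hzz']⟩
  have hw1 : Q (z₁ - Q z₁ • z) = 0 := by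
    rw [Cfsg.Agent.H16.Quad.map_sub, Cfsg.Agent.H16.Quad.map_smul, polar_smul_right, hz, polar_symm, hzz1]; ring
  have hw2 : polar Q z (z₁ - Q z₁ • z) = 1 := by
    rw [QuadraticMap.polar_sub_right, polar_smul_right, hzz1, polar_self, hz]; ring
  have hwP : z₁ - Q z₁ • z ∈ perp Q S := Submodule.sub_mem _ hz1P (Submodule.smul_mem _ _ hzP)
  have hin : ∀ x ∈ perp Q S, x ∈ perp Q (Submodule.span F {v}) ∧ x ∈ perp Q (Submodule.span F {v₁}) := by
    intro x hx
    rw [hS, Cfsg.Agent.H16.Quad.mem_perp_span] at hx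
    exact ⟨mem_perp_span_singleton.2 (hx v (by simp)), mem_perp_span_singleton.2 (hx v₁ (by simp))⟩
  obtain ⟨a1, a2⟩ := hin z hzP
  obtain ⟨b1, b2⟩ := hin _ hwP
  refine SC.all hQ h5 (hSC z _ a1 a2 b1 b2 hz (by rw [hw2]; exact one_ne_zero))
    (hSC _ z b1 b2 a1 a2 hw1 (by rw [polar_symm, hw2]; exact one_ne_zero)) (by rw [hw2]; exact one_ne_zero)

theorem plane_nonmax (hQ : (QuadraticMap.polarBilin Q).Nondegenerate) (hn : 13 ≤ Fintype.card ι) (hq : Nat.card F ≤ 3)
    {W : Submodule F (ι → F)} (hd : finrank F W = 2) (hW : Disjoint W (perp Q W)) {e : ι → F} (heW : e ∈ W) (he0 : e ≠ 0)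
    (he : Q e = 0) : ∃ K : Subgroup (GL ι F), subspaceStabilizer W ⊓ omegaGL ⇑Q < K ∧ K < omegaGL ⇑Q := by
  have h5 : 5 ≤ Fintype.card ι := by omega
  have hfn := Module.finrank_fintype_fun_eq_card F (η := ι)
  obtain ⟨f', hf', hef'⟩ := exists_partner (nd_restrict hW) (u := ⟨e, heW⟩) (fun h => he0 (congrArg Subtype.val h)) he
  obtain ⟨f, hfW⟩ := f'
  have hf : Q f = 0 := hf'
  have hef : polar Q e f = 1 := hef'
  have hspan : ∀ w ∈ W, ∃ x y : F, w = x • e + y • f := by
    have hle : Submodule.span F ({e, f} : Set (ι → F)) ≤ W := by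
      rw [Submodule.span_le]
      intro x hx
      rcases hx with rfl | rfl
      · exact heW
      · exact hfW
    have hli : LinearIndependent F ![e, f] := by
      rw [LinearIndependent.pair_iff]
      intro s t hst
      have h1 : polar Q (s • e + t • f) e = 0 := by rw [hst]; exact QuadraticMap.polar_zero_left _ _
      have h2 : polar Q (s • e + t • f) f = 0 := by rw [hst]; exact QuadraticMap.polar_zero_left _ _
      rw [QuadraticMap.polar_add_left, polar_smul_left, polar_smul_left, polar_self, he, polar_symm Q f e, hef] at h1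
      rw [QuadraticMap.polar_add_left, polar_smul_left, polar_smul_left, polar_self, hf, hef] at h2
      exact ⟨by linear_combination h2, by linear_combination h1⟩
    have h1 := finrank_span_eq_card hli
    rw [Matrix.range_cons, Matrix.range_cons, Matrix.range_empty, Set.union_empty, Fintype.card_fin] at h1
    have h2 : Submodule.span F ({e, f} : Set (ι → F)) = W := by
      apply Submodule.eq_of_le_of_finrank_eq hle
      rw [hd]
      exact h1
    intro w hw
    rw [← h2, Submodule.mem_span_pair] at hw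
    obtain ⟨x, y, h⟩ := hw
    exact ⟨x, y, h.symm⟩
  have ha0 : e + f ≠ 0 := by
    intro h
    have h1 : polar Q (e + f) e = 0 := by rw [h]; exact QuadraticMap.polar_zero_left _ _
    rw [QuadraticMap.polar_add_left, polar_self, he, polar_symm Q f e, hef] at h1
    exact one_ne_zero (by linear_combination h1)
  have hsq : ∀ x y : F, x * y = 1 → x = y := by
    intro x y hxy
    classical
    haveI := Fintype.ofFinite F
    rw [Nat.card_eq_fintype_card] at hq
    have hx0 : x ≠ 0 := by rintro rfl; rw [zero_mul] at hxy; exact zero_ne_one hxy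
    have h1 : x ^ (Fintype.card F - 1) = 1 := FiniteField.pow_card_sub_one_eq_one x hx0
    have h2 := Fintype.one_lt_card (α := F)
    have h3 : Fintype.card F = 2 ∨ Fintype.card F = 3 := by omega
    rcases h3 with h3 | h3
    · rw [h3] at h1
      have h4 : x = 1 := by simpa using h1
      rw [h4, one_mul] at hxy
      rw [h4, hxy]
    · rw [h3] at h1
      have h4 : x * x = 1 := by simpa [pow_two] using h1
      exact mul_left_cancel₀ hx0 (h4.trans hxy.symm)
  apply Cfsg.Agent.H29.Fm.nonmax_of (X := omegaGL ⇑Q) (M := subspaceStabilizer (Submodule.span F {e + f})) inf_le_right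
  · intro g hg
    obtain ⟨hg1, hg2⟩ := Subgroup.mem_inf.1 hg
    rw [mem_stab_iff]
    intro w hw
    obtain ⟨c, rfl⟩ := Submodule.mem_span_singleton.1 hw
    rw [Matrix.mulVec_smul]
    apply Submodule.smul_mem
    obtain ⟨x, y, hxy⟩ := hspan _ ((mem_stab_iff _ _).1 hg1 (e + f) (W.add_mem heW hfW))
    have h1 := omega_iso hg2 (e + f)
    rw [hxy] at h1
    simp only [Cfsg.Agent.H16.Quad.map_add, Cfsg.Agent.H16.Quad.map_smul, he, hf, hef, polar_smul_left, polar_smul_right] at h1
    have h2 := hsq x y (by linear_combination h1)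
    rw [hxy, h2, ← smul_add]
    exact Submodule.smul_mem _ _ (Submodule.mem_span_singleton_self _)
  · exact exists_move_pt hQ h5 ha0
  · -- hyperbolic pairs in the perp
    have hWp : Disjoint (perp Q W) (perp Q (perp Q W)) := by rw [perp_perp hQ]; exact hW.symm
    have hfr := finrank_add_finrank_perp hQ W
    rw [hfn] at hfr
    obtain ⟨p, hp0, hp⟩ := exists_singular (nd_restrict hWp) (by omega)
    obtain ⟨p', r, r', hp', hpp', hr, hr', hrr', hpr, hpr', hp'r, hp'r'⟩ := pairs (nd_restrict hWp) (by omega) hp0 hp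
    have q1 : Q (p : ι → F) = 0 := hp
    have q2 : Q (p' : ι → F) = 0 := hp'
    have q3 : polar Q (p : ι → F) (p' : ι → F) = 1 := hpp'
    have q4 : Q (r : ι → F) = 0 := hr
    have q5 : polar Q (p : ι → F) (r : ι → F) = 0 := hpr
    have q6 : polar Q (p' : ι → F) (r : ι → F) = 0 := hp'r
    have q7 : polar Q (r : ι → F) (r' : ι → F) = 1 := hrr'
    have hW1 : ∀ w ∈ W, ∀ x : perp Q W, polar Q w (x : ι → F) = 0 := fun w hw x => mem_perp.1 x.2 w hw
    have hu : Q ((e - f) + ((p : ι → F) + p')) = 0 := by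
      rw [Cfsg.Agent.H16.Quad.map_add, Cfsg.Agent.H16.Quad.map_sub, Cfsg.Agent.H16.Quad.map_add, he, hf, hef, q1, q2, q3,
        QuadraticMap.polar_add_right, hW1 _ (W.sub_mem heW hfW), hW1 _ (W.sub_mem heW hfW)]
      ring
    have hur : polar Q ((e - f) + ((p : ι → F) + p')) (r : ι → F) = 0 := by
      rw [QuadraticMap.polar_add_left, QuadraticMap.polar_add_left, hW1 _ (W.sub_mem heW hfW), q5, q6]; ring
    refine ⟨eg hu hur, eg_mem hQ h5 _ _, ?_, ?_⟩
    · rw [mem_stab_iff]
      intro w hw
      obtain ⟨c, rfl⟩ := Submodule.mem_span_singleton.1 hw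
      rw [Matrix.mulVec_smul, eg_fix]
      · exact hw
      · rw [QuadraticMap.polar_add_right, QuadraticMap.polar_add_right, hW1 _ (W.add_mem heW hfW), hW1 _ (W.add_mem heW hfW),
          QuadraticMap.polar_sub_right, QuadraticMap.polar_add_left, QuadraticMap.polar_add_left, polar_self, polar_self,
          he, hf, hef, polar_symm Q f e, hef]
        ring
      · exact hW1 _ (W.add_mem heW hfW) r
    · intro h
      obtain ⟨hg1, -⟩ := Subgroup.mem_inf.1 h
      have h1 := (mem_stab_iff _ _).1 hg1 e heW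
      rw [eg_apply, hW1 e heW r, q4, QuadraticMap.polar_add_right, QuadraticMap.polar_add_right, hW1 e heW, hW1 e heW,
        QuadraticMap.polar_sub_right, polar_self, he, hef] at h1
      have h2 : (r : ι → F) ∈ W := by
        have h3 := W.sub_mem h1 heW
        have h4 : e + (2 * 0 - 1 + (0 + 0) : F) • (r : ι → F) - (0 : F) • (e - f + ((p : ι → F) + p')) -
            (0 * (2 * 0 - 1 + (0 + 0)) : F) • (e - f + ((p : ι → F) + p')) - e = -(r : ι → F) := by
          module
        rw [h4] at h3
        exact W.neg_mem_iff.1 h3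
      have h3 := Submodule.disjoint_def.1 hW _ h2 r.2
      rw [h3, QuadraticMap.polar_zero_left] at q7
      exact zero_ne_one q7

end Cfsg.Agent.H29.Sg
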