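import Mathlib
import Cfsg.Agent.H29_Sg8

set_option autoImplicit false

/-! `GL_{n/2}(q).2` in `Ω⁺`. -/

namespace Cfsg.Agent.H29.Sg

open Matrix Module Cfsg.Geo Cfsg.Agent.H16.Quad Cfsg.Agent.H29.Trv
open QuadraticMap (polar)

variable {F : Type*} [Field F] {ι : Type} [Fintype ι] [DecidableEq ι]
variable {Q : QuadraticForm F (ι → F)}

def RM (Q : QuadraticForm F (ι → F)) (G : Subgroup (GL ι F)) (a y : ι → F) : Prop :=
  ∀ (ha : Q a = 0) (hy : polar Q a y = 0), eg ha hy ∈ G

section RM

variable {G : Subgroup (GL ι F)} {a y y' : ι → F}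

theorem RM.add (h : RM Q G a y) (h' : RM Q G a y') (hy : polar Q a y = 0) (hy' : polar Q a y' = 0) :
    RM Q G a (y + y') := by
  intro ha hyy
  rw [← eg_mul ha hy hy' hyy]
  exact G.mul_mem (h ha hy) (h' ha hy')

theorem RM.neg (h : RM Q G a y) : RM Q G a (-y) := by
  intro ha hy
  have hy1 : polar Q a y = 0 := by rw [QuadraticMap.polar_neg_right, neg_eq_zero] at hy; exact hy
  have h1 : polar Q a (y + -y) = 0 := by rw [add_neg_cancel]; exact QuadraticMap.polar_zero_right _ _
  have h2 := eg_mul ha hy1 hy h1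
  have h3 : eg ha h1 = 1 := by
    apply Units.ext
    apply mat_ext
    intro x
    rw [eg_apply, Units.val_one, Matrix.one_mulVec, add_neg_cancel, QuadraticMap.polar_zero_right, QuadraticMap.map_zero,
      smul_zero, zero_smul, zero_mul, zero_smul, add_zero, sub_zero, sub_zero]
  rw [h3] at h2
  rw [← inv_eq_of_mul_eq_one_right h2]
  exact G.inv_mem (h ha hy1)

theorem RM.sub (h : RM Q G a y) (h' : RM Q G a y') (hy : polar Q a y = 0) (hy' : polar Q a y' = 0) :
    RM Q G a (y - y') := by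
  rw [sub_eq_add_neg]
  exact h.add h'.neg hy (by rw [QuadraticMap.polar_neg_right, hy', neg_zero])

theorem RM.self (c : F) : RM Q G a (c • a) := by
  intro ha hy
  have : eg ha hy = 1 := by
    apply Units.ext
    apply mat_ext
    intro x
    rw [eg_apply, Units.val_one, Matrix.one_mulVec, Cfsg.Agent.H16.Quad.map_smul, ha, polar_smul_right]
    module
  rw [this]
  exact G.one_mem

theorem RM.symm (h : RM Q G a y) (ha : Q a = 0) (hay : polar Q a y = 0) : RM Q G y a := by
  intro hy hya
  have h1 : polar Q a (-y) = 0 := by rw [QuadraticMap.polar_neg_right, hay, neg_zero]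
  have h2 : eg hy hya = eg ha h1 := by
    apply Units.ext
    apply mat_ext
    intro x
    rw [eg_apply, eg_apply, QuadraticMap.map_neg, ha, hy, QuadraticMap.polar_neg_right]
    module
  rw [h2]
  exact h.neg ha h1

theorem RM.conj (h : RM Q G a y) {g : GL ι F} (hg : g ∈ G) (hiso : ∀ x, Q ((g : Matrix ι ι F) *ᵥ x) = Q x) :
    RM Q G ((g : Matrix ι ι F) *ᵥ a) ((g : Matrix ι ι F) *ᵥ y) := by
  intro ha hy
  have ha1 : Q a = 0 := by rw [← hiso]; exact ha
  have hpol : ∀ x z, polar Q ((g : Matrix ι ι F) *ᵥ x) ((g : Matrix ι ι F) *ᵥ z) = polar Q x z := by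
    intro x z
    rw [QuadraticMap.polar, QuadraticMap.polar, ← Matrix.mulVec_add, hiso, hiso, hiso]
  have hy1 : polar Q a y = 0 := by rw [← hpol]; exact hy
  rw [← eg_conj hiso ha1 hy1 ha hy]
  exact G.mul_mem (G.mul_mem hg (h ha1 hy1)) (G.inv_mem hg)

end RM

/-- a pair of complementary totally singular subspaces with its root elements in `G` -/
structure HP (Q : QuadraticForm F (ι → F)) (G : Subgroup (GL ι F)) (U U' : Submodule F (ι → F)) : Prop where
  nd : (QuadraticMap.polarBilin Q).Nondegenerate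
  ts : ∀ u ∈ U, Q u = 0
  ts' : ∀ u ∈ U', Q u = 0
  co : IsCompl U U'
  rm : ∀ c ∈ U, ∀ d ∈ U', polar Q c d = 0 → RM Q G c d
  om : G ≤ omegaGL ⇑Q
  big : 5 ≤ finrank F U'

namespace HP

variable [Finite F] {G : Subgroup (GL ι F)} {U U' : Submodule F (ι → F)}

theorem swap (h : HP Q G U U') (hb : 5 ≤ finrank F U) : HP Q G U' U where
  nd := h.nd
  ts := h.ts'
  ts' := h.ts
  co := h.co.symm
  rm := fun c hc d hd hcd => (h.rm d hd c hc (by rw [polar_symm]; exact hcd)).symm (h.ts d hd) (by rw [polar_symm]; exact hcd)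
  om := h.om
  big := hb

theorem dec (h : HP Q G U U') (x : ι → F) : ∃ a ∈ U, ∃ b ∈ U', a + b = x :=
  Submodule.mem_sup.1 (show x ∈ U ⊔ U' by rw [h.co.sup_eq_top]; trivial)

theorem rm' (h : HP Q G U U') {c d : ι → F} (hc : c ∈ U) (hd : d ∈ U') (hcd : polar Q d c = 0) : RM Q G d c :=
  (h.rm c hc d hd (by rw [polar_symm]; exact hcd)).symm (h.ts c hc) (by rw [polar_symm]; exact hcd)

/-- separation inside `U` -/
theorem sep (h : HP Q G U U') {S : Submodule F (ι → F)} (hS : S ≤ U') {a : ι → F} (ha : a ∈ U') (haS : a ∉ S) :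
    ∃ c ∈ U, (∀ s ∈ S, polar Q s c = 0) ∧ polar Q a c = 1 := by
  obtain ⟨y, hy1, hy2⟩ := nd_exists_sep h.nd S haS
  obtain ⟨c, hc, d, hd, rfl⟩ := h.dec y
  refine ⟨c, hc, fun s hs => ?_, ?_⟩
  · have h1 := hy1 s hs
    rwa [QuadraticMap.polar_add_right, ts_polar h.ts' (hS hs) hd, add_zero] at h1
  · rwa [QuadraticMap.polar_add_right, ts_polar h.ts' ha hd, add_zero] at hy2

theorem iso (h : HP Q G U U') {g : GL ι F} (hg : g ∈ G) (x : ι → F) : Q ((g : Matrix ι ι F) *ᵥ x) = Q x :=
  omega_iso (h.om hg) x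

/-- Claim A -/
theorem claimA (h : HP Q G U U') {d a : ι → F} (hd : d ∈ U') (ha : a ∈ U') (had : a ∉ Submodule.span F {d})
    (hda : RM Q G d a) : SC Q G d := by
  have hQd := h.ts' d hd
  have key : ∀ c' ∈ U', c' ∉ Submodule.span F ({d, a} : Set (ι → F)) → RM Q G d c' := by
    intro c' hc' hc'S
    have hnot : a ∉ Submodule.span F ({d, c'} : Set (ι → F)) := by
      intro hmem
      obtain ⟨α, β, hαβ⟩ := Submodule.mem_span_pair.1 hmem
      by_cases hβ : β = 0
      · rw [hβ, zero_smul, add_zero] at hαβ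
        exact had (Submodule.mem_span_singleton.2 ⟨α, hαβ⟩)
      · apply hc'S
        rw [Submodule.mem_span_pair]
        refine ⟨-(β⁻¹ * α), β⁻¹, ?_⟩
        rw [← hαβ, smul_add, smul_smul, smul_smul, inv_mul_cancel₀ hβ]
        module
    obtain ⟨c, hc, hc1, hc2⟩ := h.sep (S := Submodule.span F ({d, c'} : Set (ι → F)))
      (by rw [Submodule.span_le]; intro x hx; rcases hx with rfl | rfl
          · exact hd
          · exact hc') ha hnot
    have e1 : polar Q d c = 0 := hc1 d (Submodule.subset_span (by simp))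
    have e2 : polar Q c c' = 0 := by rw [polar_symm]; exact hc1 c' (Submodule.subset_span (by simp))
    have hg : eg (h.ts c hc) e2 ∈ G := h.rm c hc c' hc' e2 _ _
    have h1 := hda.conj hg (h.iso hg)
    rw [eg_fix _ _ e1 (ts_polar h.ts' hd hc'), eg_apply, hc2, ts_polar h.ts' ha hc', h.ts' c' hc', one_smul, zero_smul,
      sub_zero, zero_mul, zero_smul, sub_zero] at h1
    have h2 := h1.sub hda (ts_polar h.ts' hd (U'.add_mem ha hc')) (ts_polar h.ts' hd ha)
    rwa [add_sub_cancel_left] at h2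
  have key2 : ∀ c' ∈ U', RM Q G d c' := by
    intro c' hc'
    by_cases hc'S : c' ∈ Submodule.span F ({d, a} : Set (ι → F))
    · obtain ⟨w, hw, hwS⟩ : ∃ w ∈ U', w ∉ Submodule.span F ({d, a} : Set (ι → F)) := by
        by_contra hcon
        push Not at hcon
        have h1 := Submodule.finrank_mono (show U' ≤ Submodule.span F ({d, a} : Set (ι → F)) from hcon)
        have h2 : finrank F (Submodule.span F ({d, a} : Set (ι → F))) ≤ 2 := by
          classical
          have h8 := finrank_span_finset_le_card (R := F) ({d, a} : Finset (ι → F))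
          rw [Finset.coe_pair] at h8
          exact h8.trans Finset.card_le_two
        have := h.big
        omega
      have h1 := key (c' + w) (U'.add_mem hc' hw) (by
        intro hmem
        apply hwS
        have := Submodule.sub_mem _ hmem hc'S
        rwa [add_sub_cancel_left] at this)
      have h2 := h1.sub (key w hw hwS) (ts_polar h.ts' hd (U'.add_mem hc' hw)) (ts_polar h.ts' hd hw)
      rwa [add_sub_cancel_right] at h2
    · exact key c' hc' hc'S
  refine ⟨hQd, fun hd' y hy => ?_⟩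
  obtain ⟨c, hc, c', hc', rfl⟩ := h.dec y
  have h1 : polar Q d c' = 0 := ts_polar h.ts' hd hc'
  have h2 : polar Q d c = 0 := by
    rw [QuadraticMap.polar_add_right, h1, add_zero] at hy
    exact hy
  exact (h.rm' hc hd h2).add (key2 c' hc') h2 h1 hd' hy

/-- Claim C -/
theorem claimC (h : HP Q G U U') {a b a0 b0 a' b' : ι → F} (hab : RM Q G a b) (ha : Q a = 0) (hb : Q b = 0) (hpol : polar Q a b = 0)
    (ha0 : a0 ∈ U) (ha' : a' ∈ U') (haa : a0 + a' = a) (hb0 : b0 ∈ U) (hb' : b' ∈ U') (hbb : b0 + b' = b)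
    (ha'0 : a' ≠ 0) (hind : b' ∉ Submodule.span F {a'}) : ∃ d ∈ U', d ≠ 0 ∧ SC Q G d := by
  obtain ⟨c, hc, hc1, hc2⟩ := h.sep (S := Submodule.span F {a'})
    (by rw [Submodule.span_le, Set.singleton_subset_iff]; exact ha') hb' hind
  have hc1' : polar Q a' c = 0 := hc1 a' (Submodule.mem_span_singleton_self _)
  obtain ⟨d, hdU, hdP, hda⟩ : ∃ d ∈ U', d ∈ perp Q (Submodule.span F ({a0, b0, c} : Set (ι → F))) ∧
      d ∉ Submodule.span F {a'} := by
    by_contra hcon
    push Not at hcon
    set S := Submodule.span F ({a0, b0, c} : Set (ι → F)) with hS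
    have h1 : U' ⊓ perp Q S ≤ Submodule.span F {a'} := fun x hx => hcon x hx.1 hx.2
    have h2 := Submodule.finrank_mono h1
    have h3 := Submodule.finrank_sup_add_finrank_inf_eq U' (perp Q S)
    have h4 := Submodule.finrank_le (U' ⊔ perp Q S)
    have h6 := finrank_add_finrank_perp h.nd S
    have h7 : finrank F S ≤ 3 := by
      classical
      have h8 := finrank_span_finset_le_card (R := F) ({a0, b0, c} : Finset (ι → F))
      have h9 : ((({a0, b0, c} : Finset (ι → F))) : Set (ι → F)) = {a0, b0, c} := by simp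
      rw [h9] at h8
      exact h8.trans Finset.card_le_three
    have h8 : finrank F (Submodule.span F {a'}) = 1 := finrank_span_singleton ha'0
    have := h.big
    omega
  rw [Cfsg.Agent.H16.Quad.mem_perp_span] at hdP
  have d1 : polar Q a0 d = 0 := hdP a0 (by simp)
  have d2 : polar Q b0 d = 0 := hdP b0 (by simp)
  have d3 : polar Q c d = 0 := hdP c (by simp)
  have hd0 : d ≠ 0 := by rintro rfl; exact hda (Submodule.zero_mem _)
  have hg : eg (h.ts c hc) d3 ∈ G := h.rm c hc d hdU d3 _ _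
  have hac : polar Q a c = 0 := by
    rw [← haa, QuadraticMap.polar_add_left, ts_polar h.ts ha0 hc, hc1', add_zero]
  have had : polar Q a d = 0 := by
    rw [← haa, QuadraticMap.polar_add_left, d1, ts_polar h.ts' ha' hdU, add_zero]
  have hbc : polar Q b c = 1 := by
    rw [← hbb, QuadraticMap.polar_add_left, ts_polar h.ts hb0 hc, hc2, zero_add]
  have hbd : polar Q b d = 0 := by
    rw [← hbb, QuadraticMap.polar_add_left, d2, ts_polar h.ts' hb' hdU, add_zero]
  have h1 := hab.conj hg (h.iso hg)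
  rw [eg_fix _ _ hac had, eg_apply, hbc, hbd, h.ts' d hdU, one_smul, zero_smul, sub_zero, zero_mul, zero_smul,
    sub_zero] at h1
  have h2 := h1.sub hab (by rw [QuadraticMap.polar_add_right, hpol, had, add_zero]) hpol
  rw [add_sub_cancel_left] at h2
  have h3 := h2.symm ha had
  have hd1 : polar Q d a0 = 0 := by rw [polar_symm]; exact d1
  have h4 := h3.sub (h.rm' ha0 hdU hd1) (by rw [polar_symm]; exact had) hd1
  rw [← haa, add_sub_cancel_left] at h4
  refine ⟨d, hdU, hd0, h.claimA hdU ha' ?_ h4⟩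
  intro hmem
  obtain ⟨x, hx⟩ := Submodule.mem_span_singleton.1 hmem
  have hx0 : x ≠ 0 := by rintro rfl; rw [zero_smul] at hx; exact ha'0 hx.symm
  apply hda
  rw [Submodule.mem_span_singleton]
  exact ⟨x⁻¹, by rw [← hx, smul_smul, inv_mul_cancel₀ hx0, one_smul]⟩

/-- transitivity on `U'` -/
theorem allSC (h : HP Q G U U') {d d' : ι → F} (hd : d ∈ U') (hd0 : d ≠ 0) (hd' : d' ∈ U') (hSC : SC Q G d) :
    SC Q G d' := by
  by_cases hind : d' ∈ Submodule.span F {d}
  · obtain ⟨c, rfl⟩ := Submodule.mem_span_singleton.1 hind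
    exact hSC.smul c
  have hnot : d ∉ Submodule.span F {d' - d} := by
    intro hmem
    obtain ⟨x, hx⟩ := Submodule.mem_span_singleton.1 hmem
    have hx0 : x ≠ 0 := by rintro rfl; rw [zero_smul] at hx; exact hd0 hx.symm
    apply hind
    rw [Submodule.mem_span_singleton]
    refine ⟨x⁻¹ + 1, ?_⟩
    have h1 : x⁻¹ • d = d' - d := by
      calc x⁻¹ • d = x⁻¹ • (x • (d' - d)) := by rw [hx]
        _ = d' - d := by rw [smul_smul, inv_mul_cancel₀ hx0, one_smul]
    rw [add_smul, h1, one_smul, sub_add_cancel]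
  obtain ⟨c, hc, hc1, hc2⟩ := h.sep (S := Submodule.span F {d' - d})
    (by rw [Submodule.span_le, Set.singleton_subset_iff]; exact U'.sub_mem hd' hd) hd hnot
  have e1 : polar Q c (d' - d) = 0 := by rw [polar_symm]; exact hc1 _ (Submodule.mem_span_singleton_self _)
  have hg : eg (h.ts c hc) e1 ∈ G := h.rm c hc _ (U'.sub_mem hd' hd) e1 _ _
  have h1 := hSC.conj hg (h.iso hg)
  rw [eg_apply, hc2, ts_polar h.ts' hd (U'.sub_mem hd' hd), h.ts' _ (U'.sub_mem hd' hd), one_smul, zero_smul, sub_zero,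
    zero_mul, zero_smul, sub_zero, add_sub_cancel] at h1
  exact h1

end HP

end Cfsg.Agent.H29.Sg
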