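import Mathlib
import Cfsg.Agent.H29_Sg9

set_option autoImplicit false

/-! `GU_{n/2}(q).2` in `Ω^±_n`: quadratic extensions acting by similarities. -/

namespace Cfsg.Agent.H29.Sg

open Matrix Module Cfsg.Geo Cfsg.Agent.H16.Quad Cfsg.Agent.H29.Trv
open QuadraticMap (polar)

section Abs

variable {F V : Type*} [Field F] [AddCommGroup V] [Module F V] [FiniteDimensional F V] [Finite F] {Q : QuadraticForm F V}

/-- a hyperbolic pair in a subspace with a small radical -/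
theorem exists_hyp_in {P : Submodule F V} (h : finrank F (P ⊓ perp Q P : Submodule F V) + 3 ≤ finrank F P) :
    ∃ e ∈ P, ∃ f ∈ P, Q e = 0 ∧ Q f = 0 ∧ polar Q e f = 1 := by
  obtain ⟨C, hC⟩ := Submodule.exists_isCompl ((P ⊓ perp Q P : Submodule F V).comap P.subtype)
  have h1 := Submodule.finrank_add_eq_of_isCompl hC
  have h2 : finrank F ((P ⊓ perp Q P : Submodule F V).comap P.subtype) = finrank F (P ⊓ perp Q P : Submodule F V) :=
    LinearEquiv.finrank_eq (Submodule.comapSubtypeEquivOfLe inf_le_left)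
  have hnd : (QuadraticMap.polarBilin ((Q.comp P.subtype).comp C.subtype)).Nondegenerate := by
    apply nd_of
    intro x hx
    have hx' : ∀ y ∈ C, polar Q ((x : P) : V) (y : V) = 0 := fun y hy => hx ⟨y, hy⟩
    have h3 : ∀ y : P, polar Q ((x : P) : V) (y : V) = 0 := by
      intro y
      obtain ⟨r, hr, y', hy', rfl⟩ := Submodule.mem_sup.1
        (show y ∈ (P ⊓ perp Q P : Submodule F V).comap P.subtype ⊔ C by rw [hC.sup_eq_top]; trivial)
      have h4 : polar Q ((x : P) : V) (r : V) = 0 := mem_perp.1 (Submodule.mem_comap.1 hr).2 _ (x : P).2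
      rw [Submodule.coe_add, QuadraticMap.polar_add_right, h4, hx' y' hy', add_zero]
    have h5 : (x : P) ∈ (P ⊓ perp Q P : Submodule F V).comap P.subtype :=
      Submodule.mem_comap.2 ⟨(x : P).2, mem_perp'.2 fun y hy => h3 ⟨y, hy⟩⟩
    exact Subtype.ext (Submodule.disjoint_def.1 hC.disjoint _ h5 x.2)
  obtain ⟨e, he0, he⟩ := exists_singular hnd (by omega)
  obtain ⟨f, hf, hef⟩ := exists_partner hnd he0 he
  exact ⟨_, (e : P).2, _, (f : P).2, he, hf, hef⟩

/-- a hyperbolic pair in the orthogonal complement of a small subspace -/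
theorem exists_hyp_perp (hQ : (QuadraticMap.polarBilin Q).Nondegenerate) {S R : Submodule F V} (hR : S ⊓ perp Q S ≤ R)
    (h : finrank F S + finrank F R + 3 ≤ finrank F V) :
    ∃ e ∈ perp Q S, ∃ f ∈ perp Q S, Q e = 0 ∧ Q f = 0 ∧ polar Q e f = 1 := by
  apply exists_hyp_in
  rw [perp_perp hQ]
  have h1 := finrank_add_finrank_perp hQ S
  have h2 : finrank F (perp Q S ⊓ S : Submodule F V) ≤ finrank F R := Submodule.finrank_mono (by rw [inf_comm]; exact hR)
  omega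

end Abs

variable {F : Type*} [Field F] {ι : Type} [Fintype ι] [DecidableEq ι]
variable {Q : QuadraticForm F (ι → F)}

/-- elements of the root group, with the orthogonality condition -/
def RP (Q : QuadraticForm F (ι → F)) (G : Subgroup (GL ι F)) (a y : ι → F) : Prop := polar Q a y = 0 ∧ RM Q G a y

section RP

variable {G : Subgroup (GL ι F)} {a y y' : ι → F}

theorem RP.add (h : RP Q G a y) (h' : RP Q G a y') : RP Q G a (y + y') :=
  ⟨by rw [QuadraticMap.polar_add_right, h.1, h'.1, add_zero], h.2.add h'.2 h.1 h'.1⟩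

theorem RP.sub (h : RP Q G a y) (h' : RP Q G a y') : RP Q G a (y - y') :=
  ⟨by rw [QuadraticMap.polar_sub_right, h.1, h'.1, sub_zero], h.2.sub h'.2 h.1 h'.1⟩

theorem RP.zero : RP Q G a 0 := ⟨QuadraticMap.polar_zero_right _ _, by
  have h := RM.self (Q := Q) (G := G) (a := a) 0
  rwa [zero_smul] at h⟩

theorem RP.symm (h : RP Q G a y) (ha : Q a = 0) : RP Q G y a :=
  ⟨by rw [polar_symm]; exact h.1, h.2.symm ha h.1⟩

theorem RP.conj (h : RP Q G a y) {g : GL ι F} (hg : g ∈ G) (hiso : ∀ x, Q ((g : Matrix ι ι F) *ᵥ x) = Q x) :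
    RP Q G ((g : Matrix ι ι F) *ᵥ a) ((g : Matrix ι ι F) *ᵥ y) := by
  refine ⟨?_, h.2.conj hg hiso⟩
  rw [QuadraticMap.polar, ← Matrix.mulVec_add, hiso, hiso, hiso]
  exact h.1

end RP

/-- a quadratic extension acting by similarities -/
structure KF (Q : QuadraticForm F (ι → F)) (κ : Matrix ι ι F) (t c : F) : Prop where
  nd : (QuadraticMap.polarBilin Q).Nondegenerate
  c0 : c ≠ 0
  sq : ∀ x, κ *ᵥ (κ *ᵥ x) = t • (κ *ᵥ x) - c • x
  iso : ∀ x, Q (κ *ᵥ x) = c * Q x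
  adj : ∀ x y, polar Q (κ *ᵥ x) y = t * polar Q x y - polar Q x (κ *ᵥ y)
  self : ∀ x, polar Q x (κ *ᵥ x) = t * Q x
  noeig : ∀ x, x ≠ 0 → ∀ a : F, κ *ᵥ x ≠ a • x
  ne : t ≠ 0 ∨ (2 : F) ≠ 0

/-- the line over the extension -/
def kx (κ : Matrix ι ι F) (x : ι → F) : Submodule F (ι → F) := Submodule.span F {x, κ *ᵥ x}

theorem mem_kx {κ : Matrix ι ι F} {x y : ι → F} : y ∈ kx κ x ↔ ∃ a b : F, a • x + b • (κ *ᵥ x) = y :=
  Submodule.mem_span_pair

theorem self_mem_kx (κ : Matrix ι ι F) (x : ι → F) : x ∈ kx κ x := Submodule.subset_span (by simp)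

theorem k_mem_kx (κ : Matrix ι ι F) (x : ι → F) : κ *ᵥ x ∈ kx κ x := Submodule.subset_span (by simp)

theorem finrank_kx (κ : Matrix ι ι F) (x : ι → F) : finrank F (kx κ x) ≤ 2 := by
  classical
  have h8 := finrank_span_finset_le_card (R := F) ({x, κ *ᵥ x} : Finset (ι → F))
  rw [Finset.coe_pair] at h8
  exact h8.trans Finset.card_le_two

/-- orthogonality over the extension -/
def PK (Q : QuadraticForm F (ι → F)) (κ : Matrix ι ι F) (x y : ι → F) : Prop :=
  polar Q x y = 0 ∧ polar Q (κ *ᵥ x) y = 0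

namespace PK

variable {κ : Matrix ι ι F} {x y z : ι → F}

theorem add (h : PK Q κ x y) (h' : PK Q κ x z) : PK Q κ x (y + z) :=
  ⟨by rw [QuadraticMap.polar_add_right, h.1, h'.1, add_zero], by rw [QuadraticMap.polar_add_right, h.2, h'.2, add_zero]⟩

theorem sub (h : PK Q κ x y) (h' : PK Q κ x z) : PK Q κ x (y - z) :=
  ⟨by rw [QuadraticMap.polar_sub_right, h.1, h'.1, sub_zero], by rw [QuadraticMap.polar_sub_right, h.2, h'.2, sub_zero]⟩

theorem smul (h : PK Q κ x y) (a : F) : PK Q κ x (a • y) :=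
  ⟨by rw [polar_smul_right, h.1, mul_zero], by rw [polar_smul_right, h.2, mul_zero]⟩

theorem iff_mem : PK Q κ x y ↔ y ∈ perp Q (kx κ x) := by
  rw [kx, Cfsg.Agent.H16.Quad.mem_perp_span]
  simp only [Set.mem_insert_iff, Set.mem_singleton_iff, forall_eq_or_imp, forall_eq]
  exact Iff.rfl

end PK

namespace KF

variable {κ : Matrix ι ι F} {t c : F}

theorem pol (h : KF Q κ t c) (x y : ι → F) : polar Q (κ *ᵥ x) (κ *ᵥ y) = c * polar Q x y := by
  rw [QuadraticMap.polar, ← Matrix.mulVec_add, h.iso, h.iso, h.iso, QuadraticMap.polar]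
  ring

theorem adj' (h : KF Q κ t c) (x y : ι → F) : polar Q x (κ *ᵥ y) = t * polar Q x y - polar Q (κ *ᵥ x) y := by
  rw [h.adj]; ring

theorem symm (h : KF Q κ t c) {x y : ι → F} (hxy : PK Q κ x y) : PK Q κ y x := by
  refine ⟨by rw [polar_symm]; exact hxy.1, ?_⟩
  rw [h.adj, polar_symm Q y x, hxy.1, polar_symm Q y, hxy.2]
  ring

theorem kr (h : KF Q κ t c) {x y : ι → F} (hxy : PK Q κ x y) : PK Q κ x (κ *ᵥ y) := by
  refine ⟨?_, ?_⟩
  · rw [h.adj', hxy.1, hxy.2]; ring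
  · rw [h.pol, hxy.1, mul_zero]

theorem of_mem (h : KF Q κ t c) {x y z : ι → F} (hxy : PK Q κ x y) (hz : z ∈ kx κ y) : PK Q κ x z := by
  obtain ⟨a, b, rfl⟩ := mem_kx.1 hz
  exact (hxy.smul a).add ((h.kr hxy).smul b)

theorem kne (h : KF Q κ t c) {x : ι → F} (hx : x ≠ 0) : κ *ᵥ x ≠ 0 := by
  have := h.noeig x hx 0
  rwa [zero_smul] at this

theorem indep (h : KF Q κ t c) {x : ι → F} (hx : x ≠ 0) {a b : F} (hab : a • x + b • (κ *ᵥ x) = 0) : a = 0 ∧ b = 0 := by
  have hb : b = 0 := by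
    by_contra hb
    apply h.noeig x hx (-(b⁻¹ * a))
    have h1 : b⁻¹ • (a • x + b • (κ *ᵥ x)) = 0 := by rw [hab, smul_zero]
    rw [smul_add, smul_smul, smul_smul, inv_mul_cancel₀ hb, one_smul] at h1
    rw [neg_smul]
    exact eq_neg_of_add_eq_zero_right h1
  subst hb
  rw [zero_smul, add_zero] at hab
  exact ⟨(smul_eq_zero.1 hab).resolve_right hx, rfl⟩

theorem norm_id (h : KF Q κ t c) (a b : F) (x : ι → F) :
    (a + b * t) • (a • x + b • (κ *ᵥ x)) - b • (κ *ᵥ (a • x + b • (κ *ᵥ x))) = (a * a + a * b * t + b * b * c) • x := by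
  rw [Matrix.mulVec_add, Matrix.mulVec_smul, Matrix.mulVec_smul, h.sq]
  module

theorem norm_ne (h : KF Q κ t c) {x : ι → F} (hx : x ≠ 0) {a b : F} (hab : a ≠ 0 ∨ b ≠ 0) :
    a * a + a * b * t + b * b * c ≠ 0 := by
  intro h0
  have h1 := h.norm_id a b x
  rw [h0, zero_smul] at h1
  have hy : a • x + b • (κ *ᵥ x) ≠ 0 := by
    intro h2
    have := h.indep hx h2
    rcases hab with ha | hb
    · exact ha this.1
    · exact hb this.2
  have h3 : (a + b * t) • (a • x + b • (κ *ᵥ x)) + (-b) • (κ *ᵥ (a • x + b • (κ *ᵥ x))) = 0 := by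
    rw [neg_smul, ← sub_eq_add_neg]; exact h1
  have h4 := h.indep hy h3
  have hb : b = 0 := by rw [← neg_eq_zero]; exact h4.2
  have ha : a = 0 := by
    have := h4.1
    rwa [hb, zero_mul, add_zero] at this
  rcases hab with h5 | h5
  · exact h5 ha
  · exact h5 hb

theorem kx_inv (h : KF Q κ t c) {x y : ι → F} (hy : y ∈ kx κ x) (hy0 : y ≠ 0) : x ∈ kx κ y := by
  obtain ⟨a, b, rfl⟩ := mem_kx.1 hy
  have hx : x ≠ 0 := by
    rintro rfl
    apply hy0
    rw [Matrix.mulVec_zero, smul_zero, smul_zero, add_zero]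
  have hab : a ≠ 0 ∨ b ≠ 0 := by
    by_contra hcon
    push Not at hcon
    apply hy0
    rw [hcon.1, hcon.2, zero_smul, zero_smul, add_zero]
  have hN := h.norm_ne hx hab
  have h1 := h.norm_id a b x
  rw [mem_kx]
  refine ⟨(a * a + a * b * t + b * b * c)⁻¹ * (a + b * t), (a * a + a * b * t + b * b * c)⁻¹ * (-b), ?_⟩
  calc _ = (a * a + a * b * t + b * b * c)⁻¹ • ((a + b * t) • (a • x + b • (κ *ᵥ x)) - b • (κ *ᵥ (a • x + b • (κ *ᵥ x)))) := by
        module
    _ = x := by rw [h1, smul_smul, inv_mul_cancel₀ hN, one_smul]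

theorem kx_stable (h : KF Q κ t c) {x y : ι → F} (hy : y ∈ kx κ x) : κ *ᵥ y ∈ kx κ x := by
  obtain ⟨a, b, rfl⟩ := mem_kx.1 hy
  rw [Matrix.mulVec_add, Matrix.mulVec_smul, Matrix.mulVec_smul, h.sq, mem_kx]
  exact ⟨-(b * c), a + b * t, by module⟩

/-- solving `(a + b κ) w' = w` -/
theorem solve (h : KF Q κ t c) {w : ι → F} (hw : w ≠ 0) {a b : F} (hab : a ≠ 0 ∨ b ≠ 0) :
    ∃ w' ∈ kx κ w, a • w' + b • (κ *ᵥ w') = w := by
  have hN := h.norm_ne hw hab
  have h1 := h.norm_id a b w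
  refine ⟨(a * a + a * b * t + b * b * c)⁻¹ • ((a + b * t) • w + (-b) • (κ *ᵥ w)), ?_, ?_⟩
  · exact Submodule.smul_mem _ _ (mem_kx.2 ⟨_, _, rfl⟩)
  · have h2 : (a + b * t) • (a • w + b • (κ *ᵥ w)) - b • (κ *ᵥ (a • w + b • (κ *ᵥ w))) =
        a • ((a + b * t) • w + (-b) • (κ *ᵥ w)) + b • (κ *ᵥ ((a + b * t) • w + (-b) • (κ *ᵥ w))) := by
      simp only [Matrix.mulVec_add, Matrix.mulVec_smul]
      module
    rw [Matrix.mulVec_smul, smul_comm a, smul_comm b, ← smul_add, ← h2, h1, smul_smul, inv_mul_cancel₀ hN, one_smul]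

/-- singular vectors -/
theorem sing (h : KF Q κ t c) {x y : ι → F} (hx : Q x = 0) (hy : y ∈ kx κ x) : Q y = 0 ∧ PK Q κ x y := by
  have h1 : polar Q x (κ *ᵥ x) = 0 := by rw [h.self, hx, mul_zero]
  have h2 : PK Q κ x x := ⟨by rw [polar_self, hx, mul_zero], by rw [polar_symm]; exact h1⟩
  obtain ⟨a, b, rfl⟩ := mem_kx.1 hy
  refine ⟨?_, (h2.smul a).add ((h.kr h2).smul b)⟩
  rw [Cfsg.Agent.H16.Quad.map_add, Cfsg.Agent.H16.Quad.map_smul, Cfsg.Agent.H16.Quad.map_smul, h.iso, hx,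
    polar_smul_left, polar_smul_right, h1]
  ring

end KF

end Cfsg.Agent.H29.Sg
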