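import Mathlib
import Cfsg.Agent.H29_Sg11

set_option autoImplicit false

/-! `GU_{n/2}(q).2` in `Ω^±_n`: the root groups. -/

namespace Cfsg.Agent.H29.Sg

open Matrix Module Cfsg.Geo Cfsg.Agent.H16.Quad Cfsg.Agent.H29.Trv
open QuadraticMap (polar)

variable {F : Type*} [Field F] {ι : Type} [Fintype ι] [DecidableEq ι]
variable {Q : QuadraticForm F (ι → F)}

/-- a subgroup containing the unitary root elements -/
structure HK (Q : QuadraticForm F (ι → F)) (G : Subgroup (GL ι F)) (κ : Matrix ι ι F) (t c : F) : Prop extends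
    KF Q κ t c where
  rm : ∀ e, Q e = 0 → ∀ s : F, RP Q G e (s • (κ *ᵥ e))
  om : G ≤ omegaGL ⇑Q
  big : 14 ≤ Fintype.card ι

namespace KF

variable {κ : Matrix ι ι F} {t c : F}

/-- two vectors -/
theorem exists_sing_pair [Finite F] (h : KF Q κ t c) (hn : 14 ≤ Fintype.card ι) (v w : ι → F) :
    ∃ z, z ≠ 0 ∧ Q z = 0 ∧ PK Q κ v z ∧ PK Q κ w z ∧ z ∉ kx κ v ∧ z ∉ kx κ w := by
  have h1 : finrank F (kx κ v ⊔ kx κ w : Submodule F (ι → F)) ≤ 4 := by
    have h2 := Submodule.finrank_add_le_finrank_add_finrank (kx κ v) (kx κ w)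
    have h3 := finrank_kx κ v
    have h4 := finrank_kx κ w
    omega
  obtain ⟨e, he, f, hf, hQe, hQf, hef⟩ := exists_hyp_perp h.nd (S := kx κ v ⊔ kx κ w) (R := kx κ v ⊔ kx κ w) inf_le_left
    (by rw [Module.finrank_fintype_fun_eq_card]; omega)
  rw [mem_perp] at he hf
  refine ⟨e, ?_, hQe, ?_, ?_, ?_, ?_⟩
  · rintro rfl
    rw [QuadraticMap.polar_zero_left] at hef
    exact zero_ne_one hef
  · exact PK.iff_mem.2 (mem_perp.2 fun x hx => he x (Submodule.mem_sup_left hx))
  · exact PK.iff_mem.2 (mem_perp.2 fun x hx => he x (Submodule.mem_sup_right hx))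
  · intro hmem
    rw [hf e (Submodule.mem_sup_left hmem)] at hef
    exact zero_ne_one hef
  · intro hmem
    rw [hf e (Submodule.mem_sup_right hmem)] at hef
    exact zero_ne_one hef

theorem notMem_symm (h : KF Q κ t c) {x y : ι → F} (hx : x ≠ 0) (hxy : y ∉ kx κ x) : x ∉ kx κ y :=
  fun hmem => hxy (h.kx_inv hmem hx)

/-- K-independence -/
theorem indep2 (h : KF Q κ t c) {x y : ι → F} (hxy : y ∉ kx κ x) {a b : F} (hab : a • y + b • (κ *ᵥ y) ∈ kx κ x) :
    a = 0 ∧ b = 0 := by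
  by_contra hcon
  have hab' : a ≠ 0 ∨ b ≠ 0 := by
    by_contra h1
    push Not at h1
    exact hcon h1
  have hy0 : y ≠ 0 := by rintro rfl; exact hxy (Submodule.zero_mem _)
  have hN := h.norm_ne hy0 hab'
  apply hxy
  have h1 := (kx κ x).sub_mem ((kx κ x).smul_mem (a + b * t) hab) ((kx κ x).smul_mem b (h.kx_stable hab))
  rw [h.norm_id] at h1
  have h2 := (kx κ x).smul_mem (a * a + a * b * t + b * b * c)⁻¹ h1
  rwa [smul_smul, inv_mul_cancel₀ hN, one_smul] at h2

/-- a partner over the extension -/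
theorem exists_kpartner (h : KF Q κ t c) {a z : ι → F} (haz : PK Q κ a z) (hz : Q z = 0) (hza : z ∉ kx κ a) :
    ∃ p, Q p = 0 ∧ PK Q κ a p ∧ polar Q z p = 0 ∧ polar Q z (κ *ᵥ p) = -1 := by
  have hnot : κ *ᵥ z ∉ Submodule.span F {z} ⊔ kx κ a := by
    intro hmem
    obtain ⟨y, hy, x, hx, hxy⟩ := Submodule.mem_sup.1 hmem
    obtain ⟨s, rfl⟩ := Submodule.mem_span_singleton.1 hy
    have h1 : (-s) • z + (1 : F) • (κ *ᵥ z) ∈ kx κ a := by
      rw [← hxy]
      convert hx using 1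
      module
    exact one_ne_zero (h.indep2 hza h1).2
  obtain ⟨y, hy1, hy2⟩ := nd_exists_sep h.nd _ hnot
  have hzy : polar Q z y = 0 := hy1 z (Submodule.mem_sup_left (Submodule.mem_span_singleton_self z))
  have hay : PK Q κ a y := ⟨hy1 a (Submodule.mem_sup_right (self_mem_kx κ a)), hy1 _ (Submodule.mem_sup_right (k_mem_kx κ a))⟩
  have hzk : polar Q z (κ *ᵥ z) = 0 := by rw [h.self, hz, mul_zero]
  refine ⟨y - Q y • (κ *ᵥ z), ?_, hay.sub ((h.kr haz).smul _), ?_, ?_⟩
  · rw [Cfsg.Agent.H16.Quad.map_sub, Cfsg.Agent.H16.Quad.map_smul, h.iso, hz, polar_smul_right, polar_symm Q y, hy2]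
    ring
  · rw [QuadraticMap.polar_sub_right, polar_smul_right, hzy, hzk]; ring
  · rw [h.adj', QuadraticMap.polar_sub_right, QuadraticMap.polar_sub_right, polar_smul_right, polar_smul_right, hzy,
      hzk, hy2, h.pol, polar_self, hz]
    ring

end KF

namespace HK

variable [Finite F] {κ : Matrix ι ι F} {t c : F} {G : Subgroup (GL ι F)}

theorem isog (h : HK Q G κ t c) {g : GL ι F} (hg : g ∈ G) (x : ι → F) : Q ((g : Matrix ι ι F) *ᵥ x) = Q x :=
  omega_iso (h.om hg) x

/-- conjugating by a unitary root element -/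
theorem B0 (h : HK Q G κ t c) {a z e : ι → F} (hr : RP Q G a z) (he : Q e = 0) (hae : PK Q κ a e) (s : F) :
    RP Q G a (s • (polar Q z e • (κ *ᵥ e) - polar Q z (κ *ᵥ e) • e)) := by
  obtain ⟨h1, h2⟩ := h.rm e he s
  have h3 := hr.conj (h2 he h1) (h.isog (h2 he h1))
  have h4 : polar Q a (s • (κ *ᵥ e)) = 0 := by rw [polar_smul_right, (h.kr hae).1, mul_zero]
  rw [eg_fix _ _ hae.1 h4, eg_apply, polar_smul_right, Cfsg.Agent.H16.Quad.map_smul, h.iso, he] at h3
  have h5 := h3.sub hr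
  convert h5 using 1
  module

theorem B0' (h : HK Q G κ t c) {a z e : ι → F} (hr : RP Q G a z) (he : Q e = 0) (hae : PK Q κ a e)
    (h1 : polar Q z e = 0) (h2 : polar Q z (κ *ᵥ e) = -1) (s : F) : RP Q G a (s • e) := by
  have h3 := h.B0 hr he hae s
  rw [h1, h2] at h3
  convert h3 using 1
  module

/-- the core of step B -/
theorem B1 (h : HK Q G κ t c) {a z p : ι → F} (haz : PK Q κ a z) (hz : Q z = 0)
    (hr : RP Q G a z) (hp : Q p = 0) (hap : PK Q κ a p) (h1 : polar Q z p = 0)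
    (h2 : polar Q z (κ *ᵥ p) = -1) :
    (∀ s : F, RP Q G a (s • z)) ∧ (∀ s : F, RP Q G a (s • (κ *ᵥ z))) ∧ (∀ s : F, RP Q G a (s • p)) ∧
      ∀ w, PK Q κ a w → PK Q κ z w → PK Q κ p w → RP Q G a w := by
  have hpz : polar Q p z = 0 := by rw [polar_symm]; exact h1
  have hkzp : polar Q (κ *ᵥ z) p = 1 := by rw [h.adj, h1, h2]; ring
  have hzk : polar Q z (κ *ᵥ z) = 0 := by rw [h.self, hz, mul_zero]
  have hpkz : polar Q p (κ *ᵥ z) = 1 := by rw [polar_symm]; exact hkzp
  -- the basic elements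
  have hbase : ∀ w, PK Q κ a w → PK Q κ z w → PK Q κ p w → ∀ α s : F,
      RP Q G a (s • (w + α • z - Q w • (κ *ᵥ z))) := by
    intro w haw hzw hpw α s
    have hwz : PK Q κ w z := h.symm hzw
    have e1 : Q (p + w + α • z - Q w • (κ *ᵥ z)) = 0 := by
      have e2 : polar Q w (κ *ᵥ z) = 0 := (h.kr hwz).1
      rw [Cfsg.Agent.H16.Quad.map_sub, Cfsg.Agent.H16.Quad.map_add, Cfsg.Agent.H16.Quad.map_add,
        Cfsg.Agent.H16.Quad.map_smul, Cfsg.Agent.H16.Quad.map_smul, h.iso, hz, hp, hpw.1]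
      simp only [QuadraticMap.polar_add_left, polar_smul_left, polar_smul_right, hpz, hwz.1, hpkz, e2, hzk]
      ring
    have e2 : PK Q κ a (p + w + α • z - Q w • (κ *ᵥ z)) :=
      ((hap.add haw).add (haz.smul α)).sub ((h.kr haz).smul _)
    have e3 : polar Q z (p + w + α • z - Q w • (κ *ᵥ z)) = 0 := by
      rw [QuadraticMap.polar_sub_right, QuadraticMap.polar_add_right, QuadraticMap.polar_add_right, polar_smul_right,
        polar_smul_right, h1, hzw.1, polar_self, hz, hzk]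
      ring
    have e4 : polar Q z (κ *ᵥ (p + w + α • z - Q w • (κ *ᵥ z))) = -1 := by
      have e5 : polar Q (κ *ᵥ z) (κ *ᵥ z) = 0 := by rw [h.pol, polar_self, hz]; ring
      have e6 : polar Q (κ *ᵥ z) z = 0 := by rw [polar_symm]; exact hzk
      rw [h.adj', e3, QuadraticMap.polar_sub_right, QuadraticMap.polar_add_right, QuadraticMap.polar_add_right,
        polar_smul_right, polar_smul_right, hkzp, hzw.2, e5, e6]
      ring
    have e5 := (h.B0' hr e1 e2 e3 e4 s).sub (h.B0' hr hp hap h1 h2 s)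
    convert e5 using 1
    module
  have hz0 : ∀ s : F, RP Q G a (s • z) := by
    intro s
    have e0 : ∀ x, PK Q κ x (0 : ι → F) := fun x => ⟨QuadraticMap.polar_zero_right _ _, QuadraticMap.polar_zero_right _ _⟩
    have e1 := hbase 0 (e0 a) (e0 z) (e0 p) s 1
    rw [QuadraticMap.map_zero] at e1
    convert e1 using 1
    module
  have hw : ∀ w, PK Q κ a w → PK Q κ z w → PK Q κ p w → RP Q G a w := by
    intro w haw hzw hpw
    by_cases hw0 : w = 0
    · rw [hw0]; exact RP.zero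
    have hab : (-2 : F) ≠ 0 ∨ c⁻¹ * t ≠ 0 := by
      rcases h.ne with h3 | h3
      · exact Or.inr (mul_ne_zero (inv_ne_zero h.c0) h3)
      · exact Or.inl (neg_ne_zero.2 h3)
    obtain ⟨w', hw', hww⟩ := h.solve hw0 hab
    have f1 := h.of_mem haw hw'
    have f2 := h.of_mem hzw hw'
    have f3 := h.of_mem hpw hw'
    have g1 := hbase w' f1 f2 f3 0 1
    have g2 := hbase (c⁻¹ • (κ *ᵥ (κ *ᵥ w'))) ((h.kr (h.kr f1)).smul _) ((h.kr (h.kr f2)).smul _)
      ((h.kr (h.kr f3)).smul _) 0 1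
    have g3 : Q (c⁻¹ • (κ *ᵥ (κ *ᵥ w'))) = Q w' := by
      rw [Cfsg.Agent.H16.Quad.map_smul, h.iso, h.iso]
      have := h.c0
      field_simp
    rw [g3] at g2
    have g4 := g2.sub g1
    rw [← hww]
    convert g4 using 1
    have g5 : c⁻¹ • (t • (κ *ᵥ w') - c • w') = (c⁻¹ * t) • (κ *ᵥ w') - w' := by
      rw [smul_sub, smul_smul, smul_smul, inv_mul_cancel₀ h.c0, one_smul]
    rw [h.sq, g5]
    module
  refine ⟨hz0, ?_, fun s => h.B0' hr hp hap h1 h2 s, hw⟩
  intro s
  -- a vector w of norm s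
  obtain ⟨e, he, f, hf, hQe, hQf, hef⟩ := exists_hyp_perp h.nd (S := kx κ a ⊔ (kx κ z ⊔ kx κ p)) (R := kx κ a) (by
    intro x hx
    obtain ⟨hx1, hx2⟩ := Submodule.mem_inf.1 hx
    obtain ⟨x0, hx0, y, hy, rfl⟩ := Submodule.mem_sup.1 hx1
    obtain ⟨y1, hy1, y2, hy2, rfl⟩ := Submodule.mem_sup.1 hy
    obtain ⟨α, β, rfl⟩ := mem_kx.1 hy1
    obtain ⟨γ, δ, rfl⟩ := mem_kx.1 hy2
    rw [mem_perp] at hx2
    have q0 : PK Q κ z x0 := h.of_mem (h.symm haz) hx0
    have q0' : PK Q κ p x0 := h.of_mem (h.symm hap) hx0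
    have q1 := hx2 z (Submodule.mem_sup_right (Submodule.mem_sup_left (self_mem_kx κ z)))
    have q2 := hx2 _ (Submodule.mem_sup_right (Submodule.mem_sup_left (k_mem_kx κ z)))
    have q3 := hx2 p (Submodule.mem_sup_right (Submodule.mem_sup_right (self_mem_kx κ p)))
    have q4 := hx2 _ (Submodule.mem_sup_right (Submodule.mem_sup_right (k_mem_kx κ p)))
    have r1 : polar Q z z = 0 := by rw [polar_self, hz, mul_zero]
    have r2 : polar Q p p = 0 := by rw [polar_self, hp, mul_zero]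
    have r3 : polar Q p (κ *ᵥ p) = 0 := by rw [h.self, hp, mul_zero]
    have r4 : polar Q (κ *ᵥ z) z = 0 := by rw [polar_symm]; exact hzk
    have r5 : polar Q (κ *ᵥ p) p = 0 := by rw [polar_symm]; exact r3
    have r6 : polar Q (κ *ᵥ p) z = -1 := by rw [polar_symm]; exact h2
    simp only [QuadraticMap.polar_add_right, polar_smul_right, q0.1, q0.2, q0'.1, q0'.2, h.pol, h1, h2, hpz, hkzp,
      hzk, hpkz, r1, r2, r3, r4, r5, r6] at q1 q2 q3 q4
    have s1 : δ = 0 := by linear_combination -q1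
    have s2 : γ = 0 := by linear_combination q2
    have s3 : β = 0 := by linear_combination q3
    have s4 : α = 0 := by linear_combination -q4
    rw [s1, s2, s3, s4, zero_smul, zero_smul, zero_smul, zero_smul, add_zero, add_zero, add_zero]
    exact hx0) (by
    have n1 := Submodule.finrank_add_le_finrank_add_finrank (kx κ a) (kx κ z ⊔ kx κ p)
    have n2 := Submodule.finrank_add_le_finrank_add_finrank (kx κ z) (kx κ p)
    have n3 := finrank_kx κ a
    have n4 := finrank_kx κ z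
    have n5 := finrank_kx κ p
    have := h.big
    rw [Module.finrank_fintype_fun_eq_card]
    omega)
  have hef' : ∀ x ∈ perp Q (kx κ a ⊔ (kx κ z ⊔ kx κ p)), PK Q κ a x ∧ PK Q κ z x ∧ PK Q κ p x := by
    intro x hx
    rw [mem_perp] at hx
    exact ⟨PK.iff_mem.2 (mem_perp.2 fun y hy => hx y (Submodule.mem_sup_left hy)),
      PK.iff_mem.2 (mem_perp.2 fun y hy => hx y (Submodule.mem_sup_right (Submodule.mem_sup_left hy))),
      PK.iff_mem.2 (mem_perp.2 fun y hy => hx y (Submodule.mem_sup_right (Submodule.mem_sup_right hy)))⟩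
  obtain ⟨m1, m2, m3⟩ := hef' _ (Submodule.add_mem _ he (Submodule.smul_mem _ s hf))
  have hQw : Q (e + s • f) = s := by
    rw [Cfsg.Agent.H16.Quad.map_add, Cfsg.Agent.H16.Quad.map_smul, hQe, hQf, polar_smul_right, hef]
    ring
  have u1 := hbase _ m1 m2 m3 0 1
  have u2 := (hw _ m1 m2 m3).sub u1
  rw [hQw] at u2
  convert u2 using 1
  module

/-- Step B -/
theorem B2 (h : HK Q G κ t c) {a z : ι → F} (ha : Q a = 0) (haz : PK Q κ a z) (hz : Q z = 0) (hza : z ∉ kx κ a)
    (hr : RP Q G a z) {y : ι → F} (hy : PK Q κ a y) : RP Q G a y := by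
  obtain ⟨p, hp, hap, h1, h2⟩ := h.exists_kpartner haz hz hza
  obtain ⟨b1, b2, b3, b4⟩ := h.B1 haz hz hr hp hap h1 h2
  have hpa : p ∉ kx κ a := by
    intro hmem
    have h3 := h.kr (h.of_mem (h.symm haz) hmem)
    rw [h3.1] at h2
    exact (neg_ne_zero.2 one_ne_zero) h2.symm
  obtain ⟨p', hp', hap', h1', h2'⟩ := h.exists_kpartner hap hp hpa
  have hrp : RP Q G a p := by
    have := b3 1
    rwa [one_smul] at this
  obtain ⟨-, b5, -, -⟩ := h.B1 hap hp hrp hp' hap' h1' h2'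
  have hpz : polar Q p z = 0 := by rw [polar_symm]; exact h1
  have hkzp : polar Q (κ *ᵥ z) p = 1 := by rw [h.adj, h1, h2]; ring
  have hzk : polar Q z (κ *ᵥ z) = 0 := by rw [h.self, hz, mul_zero]
  have hpkz : polar Q p (κ *ᵥ z) = 1 := by rw [polar_symm]; exact hkzp
  have r1 : polar Q z z = 0 := by rw [polar_self, hz, mul_zero]
  have r2 : polar Q p p = 0 := by rw [polar_self, hp, mul_zero]
  have r3 : polar Q p (κ *ᵥ p) = 0 := by rw [h.self, hp, mul_zero]
  have r4 : polar Q (κ *ᵥ z) z = 0 := by rw [polar_symm]; exact hzk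
  have r5 : polar Q (κ *ᵥ p) p = 0 := by rw [polar_symm]; exact r3
  have r6 : polar Q (κ *ᵥ p) z = -1 := by rw [polar_symm]; exact h2
  -- decomposition
  have hdec := b4 (y + polar Q (κ *ᵥ p) y • z - polar Q p y • (κ *ᵥ z) - polar Q (κ *ᵥ z) y • p + polar Q z y • (κ *ᵥ p))
    ((((hy.add (haz.smul _)).sub ((h.kr haz).smul _)).sub (hap.smul _)).add ((h.kr hap).smul _))
    (by
      constructor
      · simp only [QuadraticMap.polar_add_right, QuadraticMap.polar_sub_right, polar_smul_right, r1, hzk, h1, h2]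
        ring
      · simp only [QuadraticMap.polar_add_right, QuadraticMap.polar_sub_right, polar_smul_right, r4, h.pol, r1, hkzp, h1]
        ring)
    (by
      constructor
      · simp only [QuadraticMap.polar_add_right, QuadraticMap.polar_sub_right, polar_smul_right, hpz, hpkz, r2, r3]
        ring
      · simp only [QuadraticMap.polar_add_right, QuadraticMap.polar_sub_right, polar_smul_right, r6, h.pol, hpz, r5, r2]
        ring)
  have hfin := (((hdec.sub (b1 (polar Q (κ *ᵥ p) y))).add (b2 (polar Q p y))).add (b3 (polar Q (κ *ᵥ z) y))).sub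
    (b5 (polar Q z y))
  convert hfin using 1
  module

/-- propagation -/
theorem B3 (h : HK Q G κ t c) {a z : ι → F} (ha0 : a ≠ 0) (ha : Q a = 0) (haz : PK Q κ a z) (hz : Q z = 0)
    (hza : z ∉ kx κ a) (hr : RP Q G a z) {e : ι → F} (he0 : e ≠ 0) (he : Q e = 0) {y : ι → F} (hy : PK Q κ e y) :
    RP Q G e y := by
  obtain ⟨z', hz'0, hz', haz', hez', hza', hze'⟩ := h.exists_sing_pair h.big a e
  have h1 : RP Q G a z' := h.B2 ha haz hz hza hr haz'
  have h2 : RP Q G z' e := h.B2 hz' (h.symm haz') ha (h.notMem_symm ha0 hza') (h1.symm ha) (h.symm hez')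
  exact h.B2 he hez' hz' hze' (h2.symm hz') hy

end HK

end Cfsg.Agent.H29.Sg
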