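import Mathlib
import Cfsg.Agent.H29_Sg12

set_option autoImplicit false

/-! `GU_{n/2}(q).2` in `Ω^±_n`: maximality. -/

namespace Cfsg.Agent.H29.Sg

open Matrix Module Cfsg.Geo Cfsg.Agent.H16.Quad Cfsg.Agent.H29.Trv
open QuadraticMap (polar)

variable {F : Type*} [Field F] {ι : Type} [Fintype ι] [DecidableEq ι]
variable {Q : QuadraticForm F (ι → F)}

theorem mat_of_vec {A B : Matrix ι ι F} (h : ∀ x, A *ᵥ x = B *ᵥ x) : A = B := mat_ext h

namespace KF

variable {κ : Matrix ι ι F} {t c : F}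

theorem kx_le (h : KF Q κ t c) {x y : ι → F} (hy : y ∈ kx κ x) : kx κ y ≤ kx κ x := by
  rw [kx, Submodule.span_le]
  intro z hz
  rcases hz with rfl | rfl
  · exact hy
  · exact h.kx_stable hy

/-- existence of the generator -/
theorem exists_of (hnd : (QuadraticMap.polarBilin Q).Nondegenerate) {K : Subalgebra F (Matrix ι ι F)}
    (hK : IsFieldSubalgebra 2 K) (hnsa : ¬ IsSelfAdjointFor (polar ⇑Q) K)
    (hsc : ∀ k ∈ K, ∃ c : F, ∀ v : (ι → F), Q (k *ᵥ v) = c * Q v) :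
    ∃ (κ : Matrix ι ι F) (t c : F), KF Q κ t c ∧ ∀ k, k ∈ K ↔ ∃ a b : F, k = a • (1 : Matrix ι ι F) + b • κ := by
  rw [IsSelfAdjointFor] at hnsa
  push Not at hnsa
  obtain ⟨κ, hκ, u, v, huv⟩ := hnsa
  obtain ⟨c, hc⟩ := hsc κ hκ
  obtain ⟨c1, hc1⟩ := hsc (1 + κ) (K.add_mem K.one_mem hκ)
  have hpol : ∀ x y, polar Q (κ *ᵥ x) (κ *ᵥ y) = c * polar Q x y := by
    intro x y
    rw [QuadraticMap.polar, ← Matrix.mulVec_add, hc, hc, hc, QuadraticMap.polar]
    ring
  have hpol1 : ∀ x y, polar Q ((1 + κ) *ᵥ x) ((1 + κ) *ᵥ y) = c1 * polar Q x y := by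
    intro x y
    rw [QuadraticMap.polar, ← Matrix.mulVec_add, hc1, hc1, hc1, QuadraticMap.polar]
    ring
  have hadj : ∀ x y, polar Q (κ *ᵥ x) y = (c1 - 1 - c) * polar Q x y - polar Q x (κ *ᵥ y) := by
    intro x y
    have h1 := hpol1 x y
    rw [Matrix.add_mulVec, Matrix.add_mulVec, Matrix.one_mulVec, Matrix.one_mulVec, QuadraticMap.polar_add_left,
      QuadraticMap.polar_add_right, QuadraticMap.polar_add_right, hpol] at h1
    linear_combination h1
  have hself : ∀ x, polar Q x (κ *ᵥ x) = (c1 - 1 - c) * Q x := by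
    intro x
    have h1 := hc1 x
    rw [Matrix.add_mulVec, Matrix.one_mulVec, Cfsg.Agent.H16.Quad.map_add, hc] at h1
    linear_combination h1
  have hsq : ∀ x, κ *ᵥ (κ *ᵥ x) = (c1 - 1 - c) • (κ *ᵥ x) - c • x := by
    intro y
    rw [← sub_eq_zero]
    apply nd_eq_zero hnd
    intro x
    rw [polar_symm, QuadraticMap.polar_sub_right, QuadraticMap.polar_sub_right, polar_smul_right, polar_smul_right]
    have h1 := hadj x (κ *ᵥ y)
    rw [hpol] at h1
    linear_combination h1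
  have hnsc : ∀ a : F, κ ≠ a • (1 : Matrix ι ι F) := by
    intro a ha
    apply huv
    rw [ha, Matrix.smul_mulVec, Matrix.smul_mulVec, Matrix.one_mulVec, Matrix.one_mulVec, polar_smul_left,
      polar_smul_right]
  have hnoeig : ∀ x, x ≠ 0 → ∀ a : F, κ *ᵥ x ≠ a • x := by
    intro x hx a hax
    have h1 : κ - a • (1 : Matrix ι ι F) ∈ K := K.sub_mem hκ (K.smul_mem K.one_mem a)
    obtain ⟨y, hy, hxy⟩ := hK.inv _ h1 (by rw [sub_ne_zero]; exact hnsc a)
    rw [hK.comm _ h1 _ hy] at hxy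
    apply hx
    calc x = (y * (κ - a • (1 : Matrix ι ι F))) *ᵥ x := by rw [hxy, Matrix.one_mulVec]
      _ = 0 := by
        rw [← Matrix.mulVec_mulVec, Matrix.sub_mulVec, Matrix.smul_mulVec, Matrix.one_mulVec, hax, sub_self,
          Matrix.mulVec_zero]
  refine ⟨κ, c1 - 1 - c, c, ⟨hnd, ?_, hsq, hc, hadj, hself, hnoeig, ?_⟩, ?_⟩
  · rintro rfl
    obtain ⟨y, hy, hxy⟩ := hK.inv κ hκ (by
      rintro rfl
      exact hnsc 0 (by rw [zero_smul]))
    have h1 : ∀ x z, polar Q x z = 0 := by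
      intro x z
      have h2 := hpol (y *ᵥ x) (y *ᵥ z)
      rwa [Matrix.mulVec_mulVec, Matrix.mulVec_mulVec, hxy, Matrix.one_mulVec, Matrix.one_mulVec, zero_mul] at h2
    apply huv
    rw [h1, h1]
  · by_contra hcon
    push Not at hcon
    obtain ⟨h1, h2⟩ := hcon
    apply huv
    rw [hadj, h1, zero_mul, zero_sub]
    linear_combination (- polar Q u (κ *ᵥ v)) * h2
  · have hle : Submodule.span F ({1, κ} : Set (Matrix ι ι F)) ≤ Subalgebra.toSubmodule K := by
      rw [Submodule.span_le]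
      intro z hz
      rcases hz with rfl | rfl
      · exact K.one_mem
      · exact hκ
    have hli : LinearIndependent F ![(1 : Matrix ι ι F), κ] := by
      rw [LinearIndependent.pair_iff]
      intro s r hsr
      have hr : r = 0 := by
        by_contra hr
        apply hnsc (-(r⁻¹ * s))
        have h1 : r⁻¹ • (s • (1 : Matrix ι ι F) + r • κ) = 0 := by rw [hsr, smul_zero]
        rw [smul_add, smul_smul, smul_smul, inv_mul_cancel₀ hr, one_smul] at h1
        rw [neg_smul]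
        exact eq_neg_of_add_eq_zero_right h1
      subst hr
      refine ⟨?_, rfl⟩
      rw [zero_smul, add_zero] at hsr
      by_contra hs
      have h2 : (1 : Matrix ι ι F) = 0 := (smul_eq_zero.1 hsr).resolve_left hs
      apply huv
      have h3 : κ = 0 := by rw [← one_mul κ, h2, zero_mul]
      rw [h3, Matrix.zero_mulVec, Matrix.zero_mulVec, QuadraticMap.polar_zero_left, QuadraticMap.polar_zero_right]
    have hfr : finrank F (Submodule.span F ({1, κ} : Set (Matrix ι ι F))) = 2 := by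
      have := finrank_span_eq_card hli
      rw [Matrix.range_cons_cons_empty, Fintype.card_fin] at this
      exact this
    have heq : Submodule.span F ({1, κ} : Set (Matrix ι ι F)) = Subalgebra.toSubmodule K := by
      apply Submodule.eq_of_le_of_finrank_eq hle
      rw [hfr]
      exact hK.finrank_eq.symm
    intro k
    rw [← Subalgebra.mem_toSubmodule, ← heq, Submodule.mem_span_pair]
    constructor
    · rintro ⟨a, b, rfl⟩; exact ⟨a, b, rfl⟩
    · rintro ⟨a, b, rfl⟩; exact ⟨a, b, rfl⟩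

/-- scalars on independent singular vectors agree -/
theorem same (h : KF Q κ t c) {T : Matrix ι ι F} (hT : ∀ u, Q u = 0 → T *ᵥ u ∈ kx κ u) {v z : ι → F}
    (hv0 : v ≠ 0) (hv : Q v = 0) (hz : Q z = 0) (hvz : PK Q κ v z) (hzv : z ∉ kx κ v) {a b a' b' : F}
    (h1 : T *ᵥ v = a • v + b • (κ *ᵥ v)) (h2 : T *ᵥ z = a' • z + b' • (κ *ᵥ z)) : a = a' ∧ b = b' := by
  have h3 : Q (v + z) = 0 := by rw [Cfsg.Agent.H16.Quad.map_add, hv, hz, hvz.1]; ring
  obtain ⟨a'', b'', h4⟩ := mem_kx.1 (hT _ h3)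
  rw [Matrix.mulVec_add, Matrix.mulVec_add, h1, h2] at h4
  have h5 : (a' - a'') • z + (b' - b'') • (κ *ᵥ z) = (a'' - a) • v + (b'' - b) • (κ *ᵥ v) := by
    have h6 : (a'' - a) • v + (b'' - b) • (κ *ᵥ v) = (a'' • (v + z) + b'' • (κ *ᵥ v + κ *ᵥ z)) -
      (a • v + b • (κ *ᵥ v) + (a' • z + b' • (κ *ᵥ z))) + ((a' - a'') • z + (b' - b'') • (κ *ᵥ z)) := by module
    rw [h6, h4, sub_self, zero_add]
  have h6 := h.indep2 hzv (a := a' - a'') (b := b' - b'') (by rw [h5]; exact mem_kx.2 ⟨_, _, rfl⟩)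
  rw [h6.1, h6.2, zero_smul, zero_smul, add_zero] at h5
  have h7 := h.indep hv0 h5.symm
  constructor
  · linear_combination -h7.1 - h6.1
  · linear_combination -h7.2 - h6.2

theorem claim1 [Finite F] (h : KF Q κ t c) (hn : 14 ≤ Fintype.card ι) {T : Matrix ι ι F}
    (hT : ∀ u, Q u = 0 → T *ᵥ u ∈ kx κ u) : ∃ a b : F, T = a • (1 : Matrix ι ι F) + b • κ := by
  obtain ⟨v, hv0, hv, -, -, -, -⟩ := h.exists_sing_pair hn 0 0
  obtain ⟨a, b, hab⟩ := mem_kx.1 (hT v hv)
  refine ⟨a, b, mat_ext fun x => ?_⟩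
  have hx : x ∈ Submodule.span F {v : ι → F | Q v = 0} := by
    rw [span_singular h.nd (by rw [Module.finrank_fintype_fun_eq_card]; omega)]; trivial
  induction hx using Submodule.span_induction with
  | mem w hw =>
    by_cases hw0 : w = 0
    · rw [hw0, Matrix.mulVec_zero, Matrix.mulVec_zero]
    have hw' : Q w = 0 := hw
    obtain ⟨z, hz0, hz, hvz, hwz, hzv, hzw⟩ := h.exists_sing_pair hn v w
    obtain ⟨a', b', hab'⟩ := mem_kx.1 (hT z hz)
    obtain ⟨a'', b'', hab''⟩ := mem_kx.1 (hT w hw')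
    obtain ⟨e1, e2⟩ := h.same hT hv0 hv hz hvz hzv hab.symm hab'.symm
    obtain ⟨e3, e4⟩ := h.same hT hw0 hw' hz hwz hzw hab''.symm hab'.symm
    rw [← hab'', Matrix.add_mulVec, Matrix.smul_mulVec, Matrix.smul_mulVec, Matrix.one_mulVec, e1, e2, e3, e4]
  | zero => rw [Matrix.mulVec_zero, Matrix.mulVec_zero]
  | add x y _ _ hx hy => rw [Matrix.mulVec_add, Matrix.mulVec_add, hx, hy]
  | smul s x _ hx => rw [Matrix.mulVec_smul, Matrix.mulVec_smul, hx]

/-- normalising elements -/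
theorem mem_norm [Finite F] (h : KF Q κ t c) (hn : 14 ≤ Fintype.card ι) {K : Subalgebra F (Matrix ι ι F)}
    (hKm : ∀ k, k ∈ K ↔ ∃ a b : F, k = a • (1 : Matrix ι ι F) + b • κ) {g : GL ι F}
    (hiso : ∀ x, Q ((g : Matrix ι ι F) *ᵥ x) = Q x)
    (hg : ∀ u, Q u = 0 → (g : Matrix ι ι F) *ᵥ (κ *ᵥ u) ∈ kx κ ((g : Matrix ι ι F) *ᵥ u)) :
    g ∈ subalgebraNormalizer K := by
  have hgi : ∀ x, (g : Matrix ι ι F) *ᵥ (((g⁻¹ : GL ι F) : Matrix ι ι F) *ᵥ x) = x := by
    intro x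
    rw [Matrix.mulVec_mulVec, ← Units.val_mul, mul_inv_cancel, Units.val_one, Matrix.one_mulVec]
  obtain ⟨a, b, hab⟩ := h.claim1 hn (T := (g : Matrix ι ι F) * κ * ((g⁻¹ : GL ι F) : Matrix ι ι F)) (by
    intro u hu
    rw [← Matrix.mulVec_mulVec, ← Matrix.mulVec_mulVec]
    have h1 := hg (((g⁻¹ : GL ι F) : Matrix ι ι F) *ᵥ u) (by rw [← hiso, hgi, hu])
    rwa [hgi] at h1)
  have hgg : (g : Matrix ι ι F) * ((g⁻¹ : GL ι F) : Matrix ι ι F) = 1 := by
    rw [← Units.val_mul, mul_inv_cancel, Units.val_one]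
  have hgg' : ((g⁻¹ : GL ι F) : Matrix ι ι F) * (g : Matrix ι ι F) = 1 := by
    rw [← Units.val_mul, inv_mul_cancel, Units.val_one]
  have hb : b ≠ 0 := by
    rintro rfl
    obtain ⟨v, hv0, hv, -, -, -, -⟩ := h.exists_sing_pair hn 0 0
    apply h.noeig v hv0 a
    have h1 : κ = ((g⁻¹ : GL ι F) : Matrix ι ι F) * ((g : Matrix ι ι F) * κ * ((g⁻¹ : GL ι F) : Matrix ι ι F)) *
        (g : Matrix ι ι F) := by
      calc κ = (((g⁻¹ : GL ι F) : Matrix ι ι F) * (g : Matrix ι ι F)) * κ * (((g⁻¹ : GL ι F) : Matrix ι ι F) *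
          (g : Matrix ι ι F)) := by rw [hgg', one_mul, mul_one]
        _ = _ := by simp only [mul_assoc]
    rw [hab, zero_smul, add_zero, mul_smul_comm, mul_one, smul_mul_assoc, hgg'] at h1
    rw [h1, Matrix.smul_mulVec, Matrix.one_mulVec]
  intro k
  rw [hKm, hKm]
  constructor
  · rintro ⟨α, β, rfl⟩
    refine ⟨α + β * a, β * b, ?_⟩
    rw [mul_add, add_mul, mul_smul_comm, mul_one, smul_mul_assoc, hgg, mul_smul_comm, smul_mul_assoc, hab]
    module
  · rintro ⟨α, β, hk⟩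
    refine ⟨α - β * b⁻¹ * a, β * b⁻¹, ?_⟩
    have h1 : k = ((g⁻¹ : GL ι F) : Matrix ι ι F) * ((g : Matrix ι ι F) * k * ((g⁻¹ : GL ι F) : Matrix ι ι F)) *
        (g : Matrix ι ι F) := by
      calc k = (((g⁻¹ : GL ι F) : Matrix ι ι F) * (g : Matrix ι ι F)) * k * (((g⁻¹ : GL ι F) : Matrix ι ι F) *
          (g : Matrix ι ι F)) := by rw [hgg', one_mul, mul_one]
        _ = _ := by simp only [mul_assoc]
    have h2 : κ = b⁻¹ • ((g : Matrix ι ι F) * κ * ((g⁻¹ : GL ι F) : Matrix ι ι F) - a • (1 : Matrix ι ι F)) := by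
      rw [hab, add_sub_cancel_left, smul_smul, inv_mul_cancel₀ hb, one_smul]
    have h3 : ((g⁻¹ : GL ι F) : Matrix ι ι F) * ((g : Matrix ι ι F) * κ * ((g⁻¹ : GL ι F) : Matrix ι ι F)) *
        (g : Matrix ι ι F) = κ := by
      calc _ = (((g⁻¹ : GL ι F) : Matrix ι ι F) * (g : Matrix ι ι F)) * κ * (((g⁻¹ : GL ι F) : Matrix ι ι F) *
          (g : Matrix ι ι F)) := by simp only [mul_assoc]
        _ = κ := by rw [hgg', one_mul, mul_one]
    rw [h1, hk]
    nth_rw 1 [h2]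
    rw [mul_add, add_mul, mul_smul_comm, mul_smul_comm, mul_smul_comm, smul_mul_assoc, smul_mul_assoc, smul_mul_assoc,
      mul_one, hgg', mul_sub, sub_mul, h3, mul_smul_comm, mul_one, smul_mul_assoc, hgg']
    module

end KF

namespace HK

variable [Finite F] {κ : Matrix ι ι F} {t c : F} {G : Subgroup (GL ι F)}

/-- Step A -/
theorem A1 (h : HK Q G κ t c) {a b : ι → F} (ha0 : a ≠ 0) (ha : Q a = 0) (hr : RP Q G a b) (hb : b ∉ kx κ a) :
    ∃ z, Q z = 0 ∧ PK Q κ a z ∧ z ∉ kx κ a ∧ RP Q G a z := by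
  obtain ⟨e, he, hae, hea, hne⟩ : ∃ e, Q e = 0 ∧ PK Q κ a e ∧ e ∉ kx κ a ∧
      (polar Q b e ≠ 0 ∨ polar Q b (κ *ᵥ e) ≠ 0) := by
    by_contra hcon
    have hcon' : ∀ e, Q e = 0 → PK Q κ a e → e ∉ kx κ a → polar Q b e = 0 := by
      intro e h1 h2 h3
      by_contra h4
      exact hcon ⟨e, h1, h2, h3, Or.inl h4⟩
    apply hb
    rw [← perp_perp h.nd (kx κ a), mem_perp']
    intro w hw
    have hw' := PK.iff_mem.2 hw
    have haS : ∀ x ∈ kx κ a, PK Q κ a x := fun x hx => (h.sing ha hx).2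
    obtain ⟨e, he, f, hf, hQe, hQf, hef⟩ := exists_hyp_perp h.nd (S := kx κ a ⊔ Submodule.span F {w})
      (R := kx κ a ⊔ Submodule.span F {w}) inf_le_left (by
        have n1 := Submodule.finrank_add_le_finrank_add_finrank (kx κ a) (Submodule.span F {w})
        have n2 := finrank_kx κ a
        have n3 : finrank F (Submodule.span F {w}) ≤ 1 := by
          have := finrank_span_le_card (R := F) ({w} : Set (ι → F))
          simpa using this
        have := h.big
        rw [Module.finrank_fintype_fun_eq_card]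
        omega)
    rw [mem_perp] at he hf
    have hwe : polar Q w e = 0 := he w (Submodule.mem_sup_right (Submodule.mem_span_singleton_self w))
    have hwf : polar Q w f = 0 := hf w (Submodule.mem_sup_right (Submodule.mem_span_singleton_self w))
    have hae : PK Q κ a e := PK.iff_mem.2 (mem_perp.2 fun x hx => he x (Submodule.mem_sup_left hx))
    have haf : PK Q κ a f := PK.iff_mem.2 (mem_perp.2 fun x hx => hf x (Submodule.mem_sup_left hx))
    have hek : e ∉ kx κ a := by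
      intro hmem
      rw [hf e (Submodule.mem_sup_left hmem)] at hef
      exact zero_ne_one hef
    have hfk : f ∉ kx κ a := by
      intro hmem
      have := he f (Submodule.mem_sup_left hmem)
      rw [polar_symm, hef] at this
      exact one_ne_zero this
    have hx : Q (w + e - Q w • f) = 0 := by
      rw [Cfsg.Agent.H16.Quad.map_sub, Cfsg.Agent.H16.Quad.map_add, Cfsg.Agent.H16.Quad.map_smul, polar_smul_right,
        QuadraticMap.polar_add_left, hQe, hQf, hwe, hwf, hef]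
      ring
    have hxk : w + e - Q w • f ∉ kx κ a := by
      intro hmem
      have h1 := hf _ (Submodule.mem_sup_left hmem)
      rw [QuadraticMap.polar_sub_left, QuadraticMap.polar_add_left, polar_smul_left, hwf, hef, polar_self, hQf] at h1
      apply one_ne_zero (α := F)
      linear_combination h1
    have r1 := hcon' _ hx ((hw'.add hae).sub (haf.smul _)) hxk
    rw [QuadraticMap.polar_sub_right, QuadraticMap.polar_add_right, polar_smul_right, hcon' e hQe hae hek,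
      hcon' f hQf haf hfk] at r1
    linear_combination r1
  have h1 := h.B0 hr he hae 1
  rw [one_smul] at h1
  have hz : polar Q b e • (κ *ᵥ e) - polar Q b (κ *ᵥ e) • e ∈ kx κ e :=
    mem_kx.2 ⟨- polar Q b (κ *ᵥ e), polar Q b e, by module⟩
  have he0 : e ≠ 0 := by rintro rfl; exact hea (Submodule.zero_mem _)
  have hz0 : polar Q b e • (κ *ᵥ e) - polar Q b (κ *ᵥ e) • e ≠ 0 := by
    intro h0
    have h2 := h.indep he0 (a := - polar Q b (κ *ᵥ e)) (b := polar Q b e) (by rw [← h0]; module)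
    rcases hne with h3 | h3
    · exact h3 h2.2
    · exact h3 (neg_eq_zero.1 h2.1)
  refine ⟨_, (h.sing he hz).1, h.of_mem hae hz, ?_, h1⟩
  intro hmem
  exact hea (h.kx_le hmem (h.kx_inv hz hz0))

/-- Steps C and D -/
theorem CD (h : HK Q G κ t c) (hP : ∀ e, e ≠ 0 → Q e = 0 → ∀ y, PK Q κ e y → RP Q G e y) {a z a₂ : ι → F}
    (ha : Q a = 0) (ha0 : a ≠ 0) (hz : Q z = 0) (haz : PK Q κ a z) (hza : z ∉ kx κ a) (ha₂ : Q a₂ = 0)
    (h1 : polar Q a a₂ = 1) (h2 : polar Q (κ *ᵥ a) a₂ = 0) (h3 : PK Q κ z a₂) : omegaGL ⇑Q ≤ G := by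
  have h5 : 5 ≤ Fintype.card ι := by have := h.big; omega
  have ha₂0 : a₂ ≠ 0 := by
    rintro rfl
    rw [QuadraticMap.polar_zero_right] at h1
    exact zero_ne_one h1
  have ha₂z : a₂ ∉ kx κ z := by
    intro hmem
    rw [(h.of_mem haz hmem).1] at h1
    exact zero_ne_one h1
  have haka : polar Q (κ *ᵥ a) a = 0 := by rw [polar_symm, h.self, ha, mul_zero]
  -- the auxiliary vector
  have hnot : κ *ᵥ z ∉ Submodule.span F ({a₂, κ *ᵥ a₂, a, z} : Set (ι → F)) := by
    intro hmem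
    rw [Submodule.mem_span_insert] at hmem
    obtain ⟨x1, y, hy, hx1⟩ := hmem
    rw [Submodule.mem_span_insert] at hy
    obtain ⟨x2, y, hy, rfl⟩ := hy
    obtain ⟨x3, x4, rfl⟩ := Submodule.mem_span_pair.1 hy
    have q1 : polar Q (κ *ᵥ a) (κ *ᵥ z) = 0 := (h.kr haz).2
    have q2 : polar Q a (κ *ᵥ z) = 0 := (h.kr haz).1
    rw [hx1] at q1 q2
    simp only [QuadraticMap.polar_add_right, polar_smul_right, h2, h.pol, h1, haka, haz.1, haz.2, polar_self, ha] at q1 q2
    have hx2 : x2 = 0 := by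
      have : x2 * c = 0 := by linear_combination q1
      exact (mul_eq_zero.1 this).resolve_right h.c0
    have hx1' : x1 = 0 := by rw [hx2] at q2; linear_combination q2
    subst hx2; subst hx1'
    have q3 := h.indep2 hza (a := -x4) (b := 1) (by rw [hx1]; exact mem_kx.2 ⟨x3, 0, by module⟩)
    exact one_ne_zero q3.2
  obtain ⟨z₀, hz₀, hkz⟩ := nd_exists_sep h.nd _ hnot
  have g1 : polar Q a₂ z₀ = 0 := hz₀ _ (Submodule.subset_span (by simp))
  have g2 : polar Q (κ *ᵥ a₂) z₀ = 0 := hz₀ _ (Submodule.subset_span (by simp))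
  have g3 : polar Q a z₀ = 0 := hz₀ _ (Submodule.subset_span (by simp))
  have g4 : polar Q z z₀ = 0 := hz₀ _ (Submodule.subset_span (by simp))
  have hρ := (hP a ha0 ha z haz).2 ha haz.1
  have hza₂ : polar Q a₂ z = 0 := by rw [polar_symm]; exact h3.1
  have hρa₂ : (eg ha haz.1 : Matrix ι ι F) *ᵥ a₂ = a₂ + z := by
    rw [eg_apply, polar_symm Q a₂ a, h1, hza₂, hz]
    module
  have hSC : SC Q G (a₂ + z) := by
    have e0 : Q (a₂ + z) = 0 := by rw [Cfsg.Agent.H16.Quad.map_add, ha₂, hz, hza₂]; ring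
    have e1 : a₂ + z ≠ 0 := by
      intro h0
      apply ha₂z
      rw [add_eq_zero_iff_eq_neg] at h0
      rw [h0]
      exact Submodule.neg_mem _ (self_mem_kx κ z)
    refine ⟨e0, fun he y hy => ?_⟩
    have k1 : ∀ s : F, RP Q G (a₂ + z) (s • z₀) := by
      intro s
      have k2 := (hP a₂ ha₂0 ha₂ (s • z₀) (PK.smul ⟨g1, g2⟩ s)).conj hρ (h.isog hρ)
      rw [hρa₂, eg_fix _ _ (by rw [polar_smul_left, polar_symm, g3, mul_zero])
        (by rw [polar_smul_left, polar_symm, g4, mul_zero])] at k2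
      exact k2
    have k2 : polar Q (κ *ᵥ (a₂ + z)) z₀ = 1 := by
      rw [Matrix.mulVec_add, QuadraticMap.polar_add_left, g2, hkz, zero_add]
    have k3 : polar Q (a₂ + z) z₀ = 0 := by rw [QuadraticMap.polar_add_left, g1, g4, add_zero]
    have k4 : PK Q κ (a₂ + z) (y - polar Q (κ *ᵥ (a₂ + z)) y • z₀) := by
      constructor
      · rw [QuadraticMap.polar_sub_right, polar_smul_right, hy, k3]; ring
      · rw [QuadraticMap.polar_sub_right, polar_smul_right, k2]; ring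
    have k5 := (hP _ e1 e0 _ k4).add (k1 (polar Q (κ *ᵥ (a₂ + z)) y))
    rw [sub_add_cancel] at k5
    exact k5.2 he hy
  have e1 : a₂ + z ≠ 0 := by
    intro h0
    apply ha₂z
    rw [add_eq_zero_iff_eq_neg] at h0
    rw [h0]
    exact Submodule.neg_mem _ (self_mem_kx κ z)
  obtain ⟨e, he, hee⟩ := exists_partner h.nd e1 hSC.1
  have he0 : e ≠ 0 := by
    rintro rfl
    rw [QuadraticMap.polar_zero_right] at hee
    exact zero_ne_one hee
  obtain ⟨u, hu, v, hv, hQu, hQv, huv⟩ := exists_hyp_perp h.nd (S := kx κ e) (R := kx κ e) inf_le_left (by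
    have n2 := finrank_kx κ e
    have := h.big
    rw [Module.finrank_fintype_fun_eq_card]
    omega)
  have hy := PK.iff_mem.2 (Submodule.add_mem _ hu hv)
  have hQy : Q (u + v) = 1 := by rw [Cfsg.Agent.H16.Quad.map_add, hQu, hQv, huv]; ring
  have hg := (hP e he0 he _ hy).2 he hy.1
  refine SC.all h.nd h5 hSC (hSC.conj hg (h.isog hg)) ?_
  rw [eg_apply, QuadraticMap.polar_sub_right, QuadraticMap.polar_sub_right, QuadraticMap.polar_add_right, polar_smul_right,
    polar_smul_right, polar_smul_right, hee, hQy, polar_self, hSC.1]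
  have : 2 * 0 + 1 * polar (⇑Q) (a₂ + z) (u + v) - polar (⇑Q) (a₂ + z) (u + v) * 1 - 1 * 1 * 1 = (-1 : F) := by ring
  rw [this]
  exact neg_ne_zero.2 one_ne_zero

end HK

/-- the standard configuration -/
theorem KF.config [Finite F] {κ : Matrix ι ι F} {t c : F} (h : KF Q κ t c) (hn : 14 ≤ Fintype.card ι) :
    ∃ a z a₂ : ι → F, Q a = 0 ∧ a ≠ 0 ∧ Q z = 0 ∧ PK Q κ a z ∧ z ∉ kx κ a ∧ Q a₂ = 0 ∧ polar Q a a₂ = 1 ∧
      polar Q (κ *ᵥ a) a₂ = 0 ∧ PK Q κ z a₂ := by
  obtain ⟨a, ha0, ha, -, -, -, -⟩ := h.exists_sing_pair hn 0 0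
  obtain ⟨z, hz0, hz, haz, -, hza, -⟩ := h.exists_sing_pair hn a a
  have hnot : a ∉ Submodule.span F {κ *ᵥ a} ⊔ kx κ z := by
    intro hmem
    obtain ⟨y, hy, x, hx, hxy⟩ := Submodule.mem_sup.1 hmem
    obtain ⟨s, rfl⟩ := Submodule.mem_span_singleton.1 hy
    have h1 : (1 : F) • a + (-s) • (κ *ᵥ a) ∈ kx κ z := by
      have : (1 : F) • a + (-s) • (κ *ᵥ a) = x := by
        calc (1 : F) • a + (-s) • (κ *ᵥ a) = a - s • (κ *ᵥ a) := by module
          _ = (s • (κ *ᵥ a) + x) - s • (κ *ᵥ a) := by rw [hxy]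
          _ = x := by module
      rw [this]; exact hx
    exact one_ne_zero (h.indep2 (h.notMem_symm ha0 hza) h1).1
  obtain ⟨y, hy1, hy2⟩ := nd_exists_sep h.nd _ hnot
  have haka : polar Q (κ *ᵥ a) a = 0 := by rw [polar_symm, h.self, ha, mul_zero]
  refine ⟨a, z, y - Q y • a, ha, ha0, hz, haz, hza, ?_, ?_, ?_, ?_⟩
  · rw [Cfsg.Agent.H16.Quad.map_sub, Cfsg.Agent.H16.Quad.map_smul, ha, polar_smul_right, polar_symm Q y, hy2]; ring
  · rw [QuadraticMap.polar_sub_right, polar_smul_right, hy2, polar_self, ha]; ring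
  · rw [QuadraticMap.polar_sub_right, polar_smul_right, haka,
      hy1 _ (Submodule.mem_sup_left (Submodule.mem_span_singleton_self _))]; ring
  · exact PK.sub ⟨hy1 _ (Submodule.mem_sup_right (self_mem_kx κ z)), hy1 _ (Submodule.mem_sup_right (k_mem_kx κ z))⟩
      ((h.symm haz).smul _)

/-- the unitary root elements normalise -/
theorem KF.root_norm {κ : Matrix ι ι F} {t c : F} (h : KF Q κ t c) {K : Subalgebra F (Matrix ι ι F)}
    (hKm : ∀ k, k ∈ K ↔ ∃ a b : F, k = a • (1 : Matrix ι ι F) + b • κ) {e : ι → F} (he : Q e = 0) (s : F)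
    (hy : polar Q e (s • (κ *ᵥ e)) = 0) : eg he hy ∈ subalgebraNormalizer K := by
  have hcomm : (eg he hy : Matrix ι ι F) * κ = κ * (eg he hy : Matrix ι ι F) := by
    apply mat_ext
    intro x
    rw [← Matrix.mulVec_mulVec, ← Matrix.mulVec_mulVec, eg_apply, eg_apply]
    simp only [Matrix.mulVec_add, Matrix.mulVec_sub, Matrix.mulVec_smul, h.sq e, polar_smul_right,
      Cfsg.Agent.H16.Quad.map_smul, h.iso, he, h.pol, h.adj x e]
    module
  have hgg : (eg he hy : Matrix ι ι F) * (((eg he hy)⁻¹ : GL ι F) : Matrix ι ι F) = 1 := by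
    rw [← Units.val_mul, mul_inv_cancel, Units.val_one]
  have hk : ∀ k ∈ K, (eg he hy : Matrix ι ι F) * k = k * (eg he hy : Matrix ι ι F) := by
    intro k hk
    obtain ⟨a, b, rfl⟩ := (hKm k).1 hk
    rw [mul_add, add_mul, mul_smul_comm, mul_one, smul_mul_assoc, one_mul, mul_smul_comm, hcomm, smul_mul_assoc]
  intro k
  constructor
  · intro hkK
    rw [hk k hkK, mul_assoc, hgg, mul_one]
    exact hkK
  · intro hkK
    have hgg' : (((eg he hy)⁻¹ : GL ι F) : Matrix ι ι F) * (eg he hy : Matrix ι ι F) = 1 := by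
      rw [← Units.val_mul, inv_mul_cancel, Units.val_one]
    have h1 := hk _ hkK
    have h2 : k = (eg he hy : Matrix ι ι F) * k * (((eg he hy)⁻¹ : GL ι F) : Matrix ι ι F) := by
      calc k = ((((eg he hy)⁻¹ : GL ι F) : Matrix ι ι F) * (eg he hy : Matrix ι ι F)) * k *
            ((((eg he hy)⁻¹ : GL ι F) : Matrix ι ι F) * (eg he hy : Matrix ι ι F)) := by
            rw [hgg', one_mul, mul_one]
        _ = (((eg he hy)⁻¹ : GL ι F) : Matrix ι ι F) * (((eg he hy : Matrix ι ι F) * k *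
            (((eg he hy)⁻¹ : GL ι F) : Matrix ι ι F)) * (eg he hy : Matrix ι ι F)) := by simp only [mul_assoc]
        _ = (((eg he hy)⁻¹ : GL ι F) : Matrix ι ι F) * ((eg he hy : Matrix ι ι F) * ((eg he hy : Matrix ι ι F) * k *
            (((eg he hy)⁻¹ : GL ι F) : Matrix ι ι F))) := by rw [h1]
        _ = ((((eg he hy)⁻¹ : GL ι F) : Matrix ι ι F) * (eg he hy : Matrix ι ι F)) * ((eg he hy : Matrix ι ι F) * k *
            (((eg he hy)⁻¹ : GL ι F) : Matrix ι ι F)) := by simp only [mul_assoc]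
        _ = _ := by rw [hgg', one_mul]
    rw [h2]
    exact hkK

theorem gu_max [Finite F] (hnd : (QuadraticMap.polarBilin Q).Nondegenerate) (hn : 14 ≤ Fintype.card ι)
    {K : Subalgebra F (Matrix ι ι F)}
    (hK : IsFieldSubalgebra 2 K) (hnsa : ¬ IsSelfAdjointFor (polar ⇑Q) K)
    (hsc : ∀ k ∈ K, ∃ c : F, ∀ v : (ι → F), Q (k *ᵥ v) = c * Q v) :
    IsMaximalIn (omegaGL ⇑Q) (subalgebraNormalizer K ⊓ omegaGL ⇑Q) := by
  obtain ⟨κ, t, c, h, hKm⟩ := KF.exists_of hnd hK hnsa hsc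
  have h5 : 5 ≤ Fintype.card ι := by omega
  obtain ⟨a, z, a₂, ha, ha0, hz, haz, hza, ha₂, h1, h2, h3⟩ := h.config hn
  refine ⟨lt_of_le_of_ne inf_le_right ?_, ?_⟩
  · intro heq
    have hρ : eg ha haz.1 ∈ subalgebraNormalizer K := by
      have : eg ha haz.1 ∈ subalgebraNormalizer K ⊓ omegaGL ⇑Q := by rw [heq]; exact eg_mem hnd h5 _ _
      exact this.1
    have hκ : κ ∈ K := (hKm κ).2 ⟨0, 1, by rw [zero_smul, one_smul, zero_add]⟩
    obtain ⟨α, β, hk⟩ := (hKm _).1 ((hρ κ).1 hκ)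
    have hgg' : (((eg ha haz.1)⁻¹ : GL ι F) : Matrix ι ι F) * (eg ha haz.1 : Matrix ι ι F) = 1 := by
      rw [← Units.val_mul, inv_mul_cancel, Units.val_one]
    have h4 : (eg ha haz.1 : Matrix ι ι F) * κ = (α • (1 : Matrix ι ι F) + β • κ) * (eg ha haz.1 : Matrix ι ι F) := by
      rw [← hk, mul_assoc, hgg', mul_one]
    have h5 : (eg ha haz.1 : Matrix ι ι F) *ᵥ (κ *ᵥ a₂) = (α • (1 : Matrix ι ι F) + β • κ) *ᵥ ((eg ha haz.1 : Matrix ι ι F) *ᵥ a₂) := by
      rw [Matrix.mulVec_mulVec, h4, ← Matrix.mulVec_mulVec]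
    have hza₂ : polar Q a₂ z = 0 := by rw [polar_symm]; exact h3.1
    have hρa₂ : (eg ha haz.1 : Matrix ι ι F) *ᵥ a₂ = a₂ + z := by
      rw [eg_apply, polar_symm Q a₂ a, h1, hza₂, hz]
      module
    have e1 : polar Q (κ *ᵥ a₂) a = t := by rw [h.adj, polar_symm Q a₂ a, h1, polar_symm Q a₂, h2]; ring
    have e2 : polar Q (κ *ᵥ a₂) z = 0 := (h.symm h3).2
    rw [hρa₂, eg_apply, e1, e2, hz, Matrix.add_mulVec, Matrix.smul_mulVec, Matrix.smul_mulVec, Matrix.one_mulVec,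
      Matrix.mulVec_add] at h5
    have ha₂z : a₂ ∉ kx κ z := by
      intro hmem
      rw [(h.of_mem haz hmem).1] at h1
      exact zero_ne_one h1
    have h6 : (-α) • a₂ + (1 - β) • (κ *ᵥ a₂) = (α - t) • z + β • (κ *ᵥ z) := by
      have h7 : (-α) • a₂ + (1 - β) • (κ *ᵥ a₂) = (κ *ᵥ a₂ + t • z - (0 : F) • a - (0 * t) • a) - (α • (a₂ + z) +
        β • (κ *ᵥ a₂ + κ *ᵥ z)) + ((α - t) • z + β • (κ *ᵥ z)) := by module
      rw [h7, h5, sub_self, zero_add]
    have h7 := h.indep2 ha₂z (a := -α) (b := 1 - β) (by rw [h6]; exact mem_kx.2 ⟨_, _, rfl⟩)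
    have hz0 : z ≠ 0 := by rintro rfl; exact hza (Submodule.zero_mem _)
    rw [h7.1, h7.2, zero_smul, zero_smul, add_zero] at h6
    have h8 := h.indep hz0 h6.symm
    apply one_ne_zero (α := F)
    linear_combination h7.2 + h8.2
  · intro M hM hMO
    by_cases hMN : M ≤ subalgebraNormalizer K
    · left
      exact le_antisymm (le_inf hMN hMO) hM
    · right
      apply le_antisymm hMO
      obtain ⟨g, hgM, hgN⟩ := SetLike.not_le_iff_exists.1 hMN
      have hH : HK Q M κ t c := by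
        refine { toKF := h, rm := ?_, om := hMO, big := hn }
        intro e he s
        have hy : polar Q e (s • (κ *ᵥ e)) = 0 := by rw [polar_smul_right, h.self, he]; ring
        exact ⟨hy, fun he' hy' => hM ⟨h.root_norm hKm he' s hy', eg_mem hnd h5 _ _⟩⟩
      have hiso := hH.isog hgM
      have hex : ∃ u, Q u = 0 ∧ (g : Matrix ι ι F) *ᵥ (κ *ᵥ u) ∉ kx κ ((g : Matrix ι ι F) *ᵥ u) := by
        by_contra hcon
        push Not at hcon
        exact hgN (h.mem_norm hn hKm hiso hcon)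
      obtain ⟨u, hu, hgu⟩ := hex
      have hu0 : u ≠ 0 := by
        rintro rfl
        apply hgu
        simp only [Matrix.mulVec_zero]
        exact (kx κ _).zero_mem
      have hr := (hH.rm u hu 1).conj hgM hiso
      rw [one_smul] at hr
      have hgu0 : (g : Matrix ι ι F) *ᵥ u ≠ 0 := by
        intro h0
        apply hu0
        have hgg' : ((g⁻¹ : GL ι F) : Matrix ι ι F) * (g : Matrix ι ι F) = 1 := by
          rw [← Units.val_mul, inv_mul_cancel, Units.val_one]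
        calc u = (((g⁻¹ : GL ι F) : Matrix ι ι F) * (g : Matrix ι ι F)) *ᵥ u := by rw [hgg', Matrix.one_mulVec]
          _ = 0 := by rw [← Matrix.mulVec_mulVec, h0, Matrix.mulVec_zero]
      have hQgu : Q ((g : Matrix ι ι F) *ᵥ u) = 0 := by rw [hiso, hu]
      obtain ⟨w, hw, haw, hwa, hrw⟩ := hH.A1 hgu0 hQgu hr hgu
      exact hH.CD (fun e he0 he y hy => hH.B3 hgu0 hQgu haw hw hwa hrw he0 he hy) ha ha0 hz haz hza ha₂ h1 h2 h3

end Cfsg.Agent.H29.Sg
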