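import Mathlib
import Cfsg.Agent.H29_Nm5
import Cfsg.Agent.H29_Sg13
import Cfsg.Agent.H29_Sq4

set_option autoImplicit false

/-! `Sp_2(2) ⊗ Sp_m(2)` in `Ω^+` -/

namespace Cfsg.Agent.H29.Fm

open Matrix Module Cfsg.Geo Cfsg.Agent.H29.Clifford Cfsg.Agent.H29.Asc Cfsg.Agent.H29.AscF Cfsg.Agent.H29.Trv
  Cfsg.Agent.H29.AscT
open scoped Kronecker commutatorElement

variable {F : Type*} [Field F] {n : ℕ}

/-- tensor decompositions with a two dimensional factor over the field of two elements -/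
theorem ten_two_W [Fintype F] (hn : 0 < n) (hq : Fintype.card F = 2) {m : ℕ} (e : Fin n ≃ Fin 2 × Fin m) (P : GL (Fin n) F) :
    ∃ hW : ((P : Matrix (Fin n) (Fin n) F) *
    (om F ⊗ₖ (1 : Matrix (Fin m) (Fin m) F)).submatrix e e * ((P⁻¹ : GL (Fin n) F) : Matrix (Fin n) (Fin n) F)) *
      ((P : Matrix (Fin n) (Fin n) F) *
    (om F ⊗ₖ (1 : Matrix (Fin m) (Fin m) F)).submatrix e e * ((P⁻¹ : GL (Fin n) F) : Matrix (Fin n) (Fin n) F)) =
      ((P : Matrix (Fin n) (Fin n) F) *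
    (om F ⊗ₖ (1 : Matrix (Fin m) (Fin m) F)).submatrix e e * ((P⁻¹ : GL (Fin n) F) : Matrix (Fin n) (Fin n) F)) + 1,
      IsFieldSubalgebra 2 (quadSub hq _ hW) ∧ tensorProductSubgroup 2 m e P ≤ subalgebraNormalizer (quadSub hq _ hW) := by
  classical
  haveI : Nonempty (Fin n) := ⟨⟨0, hn⟩⟩
  set W : Matrix (Fin n) (Fin n) F := (P : Matrix (Fin n) (Fin n) F) *
    (om F ⊗ₖ (1 : Matrix (Fin m) (Fin m) F)).submatrix e e * ((P⁻¹ : GL (Fin n) F) : Matrix (Fin n) (Fin n) F) with hWdef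
  have hPP : ((P⁻¹ : GL (Fin n) F) : Matrix (Fin n) (Fin n) F) * (P : Matrix (Fin n) (Fin n) F) = 1 := by
    rw [← Units.val_mul, inv_mul_cancel, Units.val_one]
  have hPP' : (P : Matrix (Fin n) (Fin n) F) * ((P⁻¹ : GL (Fin n) F) : Matrix (Fin n) (Fin n) F) = 1 := by
    rw [← Units.val_mul, mul_inv_cancel, Units.val_one]
  have h1 : om F * om F = om F + 1 := by
    have h2 := two_eq_zero hq
    have z1 : (1 : F) + 1 = 0 := by rw [one_add_one_eq_two]; exact h2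
    ext i j
    fin_cases i <;> fin_cases j <;> simp [om, Matrix.mul_apply, Fin.sum_univ_two]
  have hadd : ∀ x : Matrix (Fin 2) (Fin 2) F, ((x + 1) ⊗ₖ (1 : Matrix (Fin m) (Fin m) F)).submatrix e e =
      (x ⊗ₖ (1 : Matrix (Fin m) (Fin m) F)).submatrix e e + 1 := by
    intro x
    rw [Matrix.add_kronecker, Matrix.one_kronecker_one]
    ext i j
    simp [Matrix.one_apply]
  have hconj : ∀ A B : Matrix (Fin n) (Fin n) F, ((P : Matrix (Fin n) (Fin n) F) * A *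
      ((P⁻¹ : GL (Fin n) F) : Matrix (Fin n) (Fin n) F)) * ((P : Matrix (Fin n) (Fin n) F) * B *
      ((P⁻¹ : GL (Fin n) F) : Matrix (Fin n) (Fin n) F)) = (P : Matrix (Fin n) (Fin n) F) * (A * B) *
      ((P⁻¹ : GL (Fin n) F) : Matrix (Fin n) (Fin n) F) := by
    intro A B
    calc _ = (P : Matrix (Fin n) (Fin n) F) * A * (((P⁻¹ : GL (Fin n) F) : Matrix (Fin n) (Fin n) F) *
        (P : Matrix (Fin n) (Fin n) F)) * B * ((P⁻¹ : GL (Fin n) F) : Matrix (Fin n) (Fin n) F) := by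
          simp only [mul_assoc]
      _ = _ := by rw [hPP, mul_one]; simp only [mul_assoc]
  have hW : W * W = W + 1 := by
    rw [hWdef, hconj, Matrix.submatrix_mul_equiv, ← Matrix.mul_kronecker_mul, h1, one_mul, hadd, mul_add, add_mul,
      mul_one, hPP']
  refine ⟨hW, quadSub_field hq W hW, quadSub_norm hq W hW ?_⟩
  rintro _ ⟨_, ⟨X, ⟨a, b, hX⟩, rfl⟩, rfl⟩
  have hXi : ((X⁻¹ : GL (Fin 2 × Fin m) F) : Matrix (Fin 2 × Fin m) (Fin 2 × Fin m) F) =
      ((a⁻¹ : GL (Fin 2) F) : Matrix (Fin 2) (Fin 2) F) ⊗ₖ ((b⁻¹ : GL (Fin m) F) : Matrix (Fin m) (Fin m) F) := by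
    have h3 : (X : Matrix (Fin 2 × Fin m) (Fin 2 × Fin m) F) * (((a⁻¹ : GL (Fin 2) F) : Matrix (Fin 2) (Fin 2) F) ⊗ₖ
        ((b⁻¹ : GL (Fin m) F) : Matrix (Fin m) (Fin m) F)) = 1 := by
      rw [hX, ← Matrix.mul_kronecker_mul, ← Units.val_mul, ← Units.val_mul, mul_inv_cancel, mul_inv_cancel,
        Units.val_one, Units.val_one, Matrix.one_kronecker_one]
    calc _ = ((X⁻¹ : GL (Fin 2 × Fin m) F) : Matrix (Fin 2 × Fin m) (Fin 2 × Fin m) F) *
          ((X : Matrix (Fin 2 × Fin m) (Fin 2 × Fin m) F) * (((a⁻¹ : GL (Fin 2) F) : Matrix (Fin 2) (Fin 2) F) ⊗ₖ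
        ((b⁻¹ : GL (Fin m) F) : Matrix (Fin m) (Fin m) F))) := by rw [h3, mul_one]
      _ = _ := by rw [← mul_assoc, ← Units.val_mul, inv_mul_cancel, Units.val_one, one_mul]
  have hval : (((MulAut.conj P).toMonoidHom ((glReindex e.symm).toMonoidHom X) : GL (Fin n) F) : Matrix (Fin n) (Fin n) F) =
      (P : Matrix (Fin n) (Fin n) F) * (X : Matrix (Fin 2 × Fin m) (Fin 2 × Fin m) F).submatrix e e *
      ((P⁻¹ : GL (Fin n) F) : Matrix (Fin n) (Fin n) F) := rfl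
  have hvali : (((((MulAut.conj P).toMonoidHom ((glReindex e.symm).toMonoidHom X))⁻¹ : GL (Fin n) F)) : Matrix (Fin n) (Fin n) F) =
      (P : Matrix (Fin n) (Fin n) F) * ((X⁻¹ : GL (Fin 2 × Fin m) F) : Matrix (Fin 2 × Fin m) (Fin 2 × Fin m) F).submatrix e e *
      ((P⁻¹ : GL (Fin n) F) : Matrix (Fin n) (Fin n) F) := by
    rw [← map_inv, ← map_inv]
    rfl
  have hmain : (((MulAut.conj P).toMonoidHom ((glReindex e.symm).toMonoidHom X) : GL (Fin n) F) : Matrix (Fin n) (Fin n) F) * W *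
      (((((MulAut.conj P).toMonoidHom ((glReindex e.symm).toMonoidHom X))⁻¹ : GL (Fin n) F)) : Matrix (Fin n) (Fin n) F) =
      (P : Matrix (Fin n) (Fin n) F) *
      (((a : Matrix (Fin 2) (Fin 2) F) * om F * ((a⁻¹ : GL (Fin 2) F) : Matrix (Fin 2) (Fin 2) F)) ⊗ₖ
        (1 : Matrix (Fin m) (Fin m) F)).submatrix e e *
      ((P⁻¹ : GL (Fin n) F) : Matrix (Fin n) (Fin n) F) := by
    rw [hval, hvali, hWdef, hconj, hconj, Matrix.submatrix_mul_equiv, Matrix.submatrix_mul_equiv, hX, hXi,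
      ← Matrix.mul_kronecker_mul, ← Matrix.mul_kronecker_mul, mul_one, ← Units.val_mul b, mul_inv_cancel, Units.val_one]
  rw [hmain]
  rcases om_conj hq (a : Matrix (Fin 2) (Fin 2) F) ((a⁻¹ : GL (Fin 2) F) : Matrix (Fin 2) (Fin 2) F)
    (by rw [← Units.val_mul, mul_inv_cancel, Units.val_one]) (by rw [← Units.val_mul, inv_mul_cancel, Units.val_one])
    with h | h
  · left
    rw [h]
  · right
    rw [h, hadd, mul_add, add_mul, mul_one, hPP']


/-- arrays with two rows -/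
def T2 {m : ℕ} (s t : Fin m → F) : Fin 2 × Fin m → F := fun a => if a.1 = 0 then s a.2 else t a.2

theorem T2_add {m : ℕ} (s t s' t' : Fin m → F) : T2 s t + T2 s' t' = T2 (s + s') (t + t') := by
  funext a
  show (if a.1 = 0 then s a.2 else t a.2) + (if a.1 = 0 then s' a.2 else t' a.2) = if a.1 = 0 then (s + s') a.2 else (t + t') a.2
  split_ifs <;> rfl

theorem T2_smul {m : ℕ} (c : F) (s t : Fin m → F) : c • T2 s t = T2 (c • s) (c • t) := by
  funext a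
  show c * (if a.1 = 0 then s a.2 else t a.2) = if a.1 = 0 then (c • s) a.2 else (c • t) a.2
  split_ifs <;> rfl

theorem T2_surj {m : ℕ} (x : Fin 2 × Fin m → F) : x = T2 (fun j => x (0, j)) (fun j => x (1, j)) := by
  funext ⟨i, a⟩
  fin_cases i <;> rfl

theorem T2_inj {m : ℕ} {s t s' t' : Fin m → F} (h : T2 s t = T2 s' t') : s = s' ∧ t = t' :=
  ⟨funext fun j => congrFun h (0, j), funext fun j => congrFun h (1, j)⟩

theorem kron_T2 {m : ℕ} (a : Matrix (Fin 2) (Fin 2) F) (b : Matrix (Fin m) (Fin m) F) (s t : Fin m → F) :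
    (a ⊗ₖ b) *ᵥ T2 s t = T2 (a 0 0 • (b *ᵥ s) + a 0 1 • (b *ᵥ t)) (a 1 0 • (b *ᵥ s) + a 1 1 • (b *ᵥ t)) := by
  have key : ∀ (i : Fin 2) (j : Fin m), ∑ y : Fin 2 × Fin m, (a ⊗ₖ b) (i, j) y * T2 s t y =
      a i 0 * ∑ l, b j l * s l + a i 1 * ∑ l, b j l * t l := by
    intro i j
    rw [Fintype.sum_prod_type, Fin.sum_univ_two, Finset.mul_sum, Finset.mul_sum]
    congr 1
    · apply Finset.sum_congr rfl
      intro l _
      show a i 0 * b j l * s l = _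
      ring
    · apply Finset.sum_congr rfl
      intro l _
      show a i 1 * b j l * t l = _
      ring
  funext ⟨i, j⟩
  show ∑ y : Fin 2 × Fin m, (a ⊗ₖ b) (i, j) y * T2 s t y = _
  rw [key]
  fin_cases i <;> rfl

theorem om_T2 {m : ℕ} (s t : Fin m → F) : (om F ⊗ₖ (1 : Matrix (Fin m) (Fin m) F)) *ᵥ T2 s t = T2 t (s + t) := by
  rw [kron_T2, Matrix.one_mulVec, Matrix.one_mulVec]
  show T2 ((0 : F) • s + (1 : F) • t) ((1 : F) • s + (1 : F) • t) = _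
  rw [zero_smul, zero_add, one_smul, one_smul]

theorem fog_T2 {m : ℕ} (A : Matrix (Fin 2) (Fin 2) F) (B : Matrix (Fin m) (Fin m) F) (s t s' t' : Fin m → F) :
    formOfGram id (A ⊗ₖ B) (T2 s t) (T2 s' t') = A 0 0 * (s ⬝ᵥ (B *ᵥ s')) + A 0 1 * (s ⬝ᵥ (B *ᵥ t')) +
      A 1 0 * (t ⬝ᵥ (B *ᵥ s')) + A 1 1 * (t ⬝ᵥ (B *ᵥ t')) := by
  rw [fog_id, kron_T2]
  have h1 : ∀ x y x' y' : Fin m → F, T2 x y ⬝ᵥ T2 x' y' = x ⬝ᵥ x' + y ⬝ᵥ y' := by
    intro x y x' y'
    show ∑ z : Fin 2 × Fin m, T2 x y z * T2 x' y' z = _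
    rw [Fintype.sum_prod_type, Fin.sum_univ_two]
    rfl
  rw [h1, dotProduct_add, dotProduct_add, dotProduct_smul, dotProduct_smul, dotProduct_smul, dotProduct_smul]
  simp only [smul_eq_mul]
  ring

end Cfsg.Agent.H29.Fm
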