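import Mathlib
import Cfsg.Agent.H29_No2

set_option autoImplicit false

/-! `Sp_2(2) ⊗ Sp_m(2)` in `Ω^+`: not maximal -/

namespace Cfsg.Agent.H29.Fm

open Matrix Module Cfsg.Geo Cfsg.Agent.H29.Clifford Cfsg.Agent.H29.Asc Cfsg.Agent.H29.AscF Cfsg.Agent.H29.Trv
  Cfsg.Agent.H29.AscT
open scoped Kronecker commutatorElement
open QuadraticMap (polar)

variable {F : Type*} [Field F] {n m : ℕ}

theorem ten_two_omega [Fintype F] (hq : Fintype.card F = 2) (hn : 14 ≤ n) (hm : 3 ≤ m) {Q : QuadraticForm F (Fin n → F)}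
    (hnd : (QuadraticMap.polarBilin Q).Nondegenerate) (e : Fin n ≃ Fin 2 × Fin m) (P : GL (Fin n) F)
    {B : (Fin m → F) → (Fin m → F) → F} (hB : IsSymplecticForm B)
    (hpol : ∀ s t s' t', polar Q (ce e P (T2 s t)) (ce e P (T2 s' t')) = B s t' + B t s')
    (hQ : ∀ s t, Q (ce e P (T2 s t)) = B s t) :
    ∃ K : Subgroup (GL (Fin n) F), tensorProductSubgroup 2 m e P ⊓ omegaGL ⇑Q < K ∧ K < omegaGL ⇑Q := by
  classical
  have h2 := two_eq_zero hq
  have hneg : ∀ x : F, -x = x := by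
    intro x
    have : x + x = 0 := by rw [← two_mul, h2, zero_mul]
    exact neg_eq_of_add_eq_zero_left this
  have hBs : ∀ s t, B s t = B t s := fun s t => by rw [hB.skew, hneg]
  obtain ⟨hW, hfld, hle⟩ := ten_two_W (by omega) hq e P
  set W : Matrix (Fin n) (Fin n) F := (P : Matrix (Fin n) (Fin n) F) *
    (om F ⊗ₖ (1 : Matrix (Fin m) (Fin m) F)).submatrix e e * ((P⁻¹ : GL (Fin n) F) : Matrix (Fin n) (Fin n) F) with hWdef
  have hWV : ∀ s t, W *ᵥ ce e P (T2 s t) = ce e P (T2 t (s + t)) := by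
    intro s t
    rw [← om_T2, hWdef, ce_apply, ce_apply, Matrix.mulVec_mulVec, mul_assoc, ← Units.val_mul, inv_mul_cancel, Units.val_one,
      mul_one, ← Matrix.mulVec_mulVec]
    congr 1
    rw [Matrix.submatrix_mulVec_equiv]
    congr 1
    congr 1
    funext i
    show T2 s t (e (e.symm i)) = _
    rw [Equiv.apply_symm_apply]
  have hsurj : ∀ x : Fin n → F, ∃ s t, x = ce e P (T2 s t) := by
    intro x
    obtain ⟨y, rfl⟩ := (ce e P).surjective x
    exact ⟨_, _, congrArg _ (T2_surj y)⟩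
  have hKF : Cfsg.Agent.H29.Sg.KF Q W 1 1 := by
    refine ⟨hnd, one_ne_zero, ?_, ?_, ?_, ?_, ?_, Or.inl one_ne_zero⟩
    · intro x
      rw [Matrix.mulVec_mulVec, hW, Matrix.add_mulVec, Matrix.one_mulVec, one_smul, one_smul]
      have : -x = x := by
        funext i
        exact hneg _
      rw [sub_eq_add_neg, this]
    · intro x
      obtain ⟨s, t, rfl⟩ := hsurj x
      rw [hWV, hQ, hQ, one_mul, hB.bilinear.add_right, hB.alternating, add_zero, hBs]
    · intro x y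
      obtain ⟨s, t, rfl⟩ := hsurj x
      obtain ⟨s', t', rfl⟩ := hsurj y
      rw [hWV, hWV, hpol, hpol, hpol, hB.bilinear.add_left, hB.bilinear.add_right]
      linear_combination (-(B t t') - B s s' - B t s') * h2 + h2 * B t t' + h2 * B s s' + h2 * B t s' + (B s s' + B t t') * h2
    · intro x
      obtain ⟨s, t, rfl⟩ := hsurj x
      rw [hWV, hpol, hQ, hB.bilinear.add_right, hB.alternating, hB.alternating, one_mul]
      ring
    · intro x hx a ha
      have h3 : W *ᵥ (W *ᵥ x) = W *ᵥ x + x := by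
        rw [Matrix.mulVec_mulVec, hW, Matrix.add_mulVec, Matrix.one_mulVec]
      rw [ha, Matrix.mulVec_smul, ha] at h3
      rcases eq_zero_or_one hq a with rfl | rfl
      · rw [zero_smul, zero_smul, zero_add] at h3
        exact hx h3.symm
      · rw [one_smul, one_smul] at h3
        exact hx (left_eq_add.1 h3)
  have hKm : ∀ k, k ∈ quadSub hq W hW ↔ ∃ a b : F, k = a • (1 : Matrix (Fin n) (Fin n) F) + b • W := fun k => Iff.rfl
  have hself : ¬ IsSelfAdjointFor (polar ⇑Q) (quadSub hq W hW) := by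
    intro hsa
    -- a pair with non-zero polar value
    obtain ⟨s, hs0⟩ : ∃ s : Fin m → F, s ≠ 0 := by
      haveI : Nonempty (Fin m) := ⟨⟨0, by omega⟩⟩
      exact exists_ne 0
    obtain ⟨⟨r, hr⟩, -⟩ := hB.nondegenerate s hs0
    have h3 := hsa W ((hKm W).2 ⟨0, 1, by rw [zero_smul, one_smul, zero_add]⟩) (ce e P (T2 r 0)) (ce e P (T2 0 s))
    have h4 := hKF.adj (ce e P (T2 r 0)) (ce e P (T2 0 s))
    rw [h3] at h4
    have h5 : polar Q (ce e P (T2 r 0)) (ce e P (T2 0 s)) = B r s := by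
      rw [hpol]
      have : B 0 (0 : Fin m → F) = 0 := hB.alternating 0
      rw [this, add_zero]
    rw [h5] at h4
    apply hr
    linear_combination (polar Q (ce e P (T2 r 0)) (W *ᵥ ce e P (T2 0 s))) * h2 - h4
  have hsc : ∀ k ∈ quadSub hq W hW, ∃ c : F, ∀ v : (Fin n → F), Q (k *ᵥ v) = c * Q v := by
    rintro k ⟨a, b, rfl⟩
    refine ⟨a * a + b * b + a * b, fun v => ?_⟩
    have h3 := hKF.self v
    have h4 := hKF.iso v
    rw [Matrix.add_mulVec, Matrix.smul_mulVec, Matrix.smul_mulVec, Matrix.one_mulVec, QuadraticMap.map_add ⇑Q,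
      QuadraticMap.map_smul, QuadraticMap.map_smul, QuadraticMap.polar_smul_left, QuadraticMap.polar_smul_right, h3, h4]
    simp only [smul_eq_mul]
    ring
  have hmax := Cfsg.Agent.H29.Sg.gu_max hnd (by rw [Fintype.card_fin]; exact hn) hfld hself hsc
  refine ⟨subalgebraNormalizer (quadSub hq W hW) ⊓ omegaGL ⇑Q, ?_, hmax.1⟩
  refine lt_of_le_of_ne (inf_le_inf_right _ hle) ?_
  -- vectors
  obtain ⟨s, hs0⟩ : ∃ s : Fin m → F, s ≠ 0 := by
    haveI : Nonempty (Fin m) := ⟨⟨0, by omega⟩⟩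
    exact exists_ne 0
  obtain ⟨⟨r, hr⟩, -⟩ := hB.nondegenerate s hs0
  have hr1 : B r s = 1 := by
    rcases eq_zero_or_one hq (B r s) with h | h
    · exact absurd h hr
    · exact h
  obtain ⟨t, ht0, hst, hrt⟩ : ∃ t, t ≠ 0 ∧ B s t = 0 ∧ B r t = 0 := by
    let φ : (Fin m → F) →ₗ[F] (F × F) :=
      { toFun := fun x => (B s x, B r x)
        map_add' := fun x y => Prod.ext (hB.bilinear.add_right _ _ _) (hB.bilinear.add_right _ _ _)
        map_smul' := fun c x => Prod.ext (hB.bilinear.smul_right _ _ _) (hB.bilinear.smul_right _ _ _) }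
    have h3 : LinearMap.ker φ ≠ ⊥ := LinearMap.ker_ne_bot_of_finrank_lt (by
      rw [Module.finrank_prod, Module.finrank_self, Module.finrank_fintype_fun_eq_card, Fintype.card_fin]
      omega)
    obtain ⟨t, ht, ht0⟩ := Submodule.exists_mem_ne_zero_of_ne_bot h3
    have h4 : (B s t, B r t) = (0, 0) := ht
    exact ⟨t, ht0, congrArg Prod.fst h4, congrArg Prod.snd h4⟩
  have hu : Q (ce e P (T2 s t)) = 0 := by rw [hQ, hst]
  have hy : polar Q (ce e P (T2 s t)) ((1 : F) • (W *ᵥ ce e P (T2 s t))) = 0 := by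
    rw [one_smul, hKF.self, hu, mul_zero]
  have hg1 := hKF.root_norm hKm hu 1 hy
  have hg2 : Cfsg.Agent.H29.Sg.eg hu hy ∈ omegaGL ⇑Q :=
    Cfsg.Agent.H29.Sg.eg_mem hnd (by rw [Fintype.card_fin]; omega) hu hy
  intro heq
  have hg3 : Cfsg.Agent.H29.Sg.eg hu hy ∈ tensorProductSubgroup 2 m e P ⊓ omegaGL ⇑Q := by
    rw [heq]
    exact ⟨hg1, hg2⟩
  obtain ⟨_, ⟨X, ⟨a, b, hX⟩, rfl⟩, hXg⟩ := hg3.1
  have hXg' : (Cfsg.Agent.H29.Sg.eg hu hy : GL (Fin n) F) = P * glReindex e.symm X * P⁻¹ := hXg.symm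
  have h5 : (Cfsg.Agent.H29.Sg.eg hu hy : Matrix (Fin n) (Fin n) F) *ᵥ ce e P (T2 r 0) =
      ce e P (T2 ((a : Matrix (Fin 2) (Fin 2) F) 0 0 • ((b : Matrix (Fin m) (Fin m) F) *ᵥ r))
        ((a : Matrix (Fin 2) (Fin 2) F) 1 0 • ((b : Matrix (Fin m) (Fin m) F) *ᵥ r))) := by
    rw [hXg', ce_conj, hX, kron_T2, Matrix.mulVec_zero, smul_zero, smul_zero, add_zero, add_zero]
  have hB0 : ∀ x, B (0 : Fin m → F) x = 0 := by
    intro x
    have := hB.bilinear.smul_left 0 (0 : Fin m → F) x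
    rwa [zero_smul, zero_mul] at this
  have h6 : (Cfsg.Agent.H29.Sg.eg hu hy : Matrix (Fin n) (Fin n) F) *ᵥ ce e P (T2 r 0) = ce e P (T2 (r + s) t) := by
    rw [Cfsg.Agent.H29.Sg.eg_apply, one_smul, hKF.iso, hu, hWV, hpol, hpol, hB0, hB0, hrt, hB.bilinear.add_right, hrt, hr1]
    have h7 : T2 (r + s) t = T2 r 0 + T2 s t := by rw [T2_add, zero_add]
    rw [h7, map_add]
    have h8 : -(ce e P (T2 s t)) = ce e P (T2 s t) := by
      funext i
      exact hneg _
    simp only [add_zero, zero_add, zero_smul, mul_zero, zero_mul, sub_zero, one_smul]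
    rw [sub_eq_add_neg, h8]
  rw [h6] at h5
  obtain ⟨h9, h10⟩ := T2_inj ((ce e P).injective h5)
  have ha : (a : Matrix (Fin 2) (Fin 2) F) 1 0 ≠ 0 := by
    intro h
    rw [h, zero_smul] at h10
    exact ht0 h10
  have ha1 : (a : Matrix (Fin 2) (Fin 2) F) 1 0 = 1 := by
    rcases eq_zero_or_one hq ((a : Matrix (Fin 2) (Fin 2) F) 1 0) with h | h
    · exact absurd h ha
    · exact h
  rw [ha1, one_smul] at h10
  rw [← h10] at h9
  have h11 : B (r + s) s = B ((a : Matrix (Fin 2) (Fin 2) F) 0 0 • t) s := by rw [h9]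
  rw [hB.bilinear.add_left, hB.bilinear.smul_left, hr1, hB.alternating, hBs t s, hst, mul_zero, add_zero] at h11
  exact one_ne_zero h11

end Cfsg.Agent.H29.Fm
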