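import Mathlib
import Cfsg.Agent.H29_No1
import Cfsg.Agent.H29_Sg13

set_option autoImplicit false

/-! imprimitive subgroups of orthogonal groups over small fields: not maximal -/

namespace Cfsg.Agent.H29.Np

open Matrix Module Cfsg.Geo
open QuadraticMap (polar)
open Cfsg.Agent.H29.Sg (eg eg_apply eg_mem)

variable {F : Type*} [Field F] {n t k : ℕ}

/-- set stabilisers -/
def SS (S : Set (Fin n → F)) : Subgroup (GL (Fin n) F) where
  carrier := {g | ∀ v, (g : Matrix (Fin n) (Fin n) F) *ᵥ v ∈ S ↔ v ∈ S}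
  mul_mem' := by
    intro a b ha hb v
    rw [Units.val_mul, ← Matrix.mulVec_mulVec, ha, hb]
  one_mem' := by
    intro v
    rw [Units.val_one, Matrix.one_mulVec]
  inv_mem' := by
    intro a ha v
    rw [← ha, Matrix.mulVec_mulVec, ← Units.val_mul, mul_inv_cancel, Units.val_one, Matrix.one_mulVec]

theorem SS_of_maps [Finite F] {S : Set (Fin n → F)} {g : GL (Fin n) F}
    (h : ∀ v ∈ S, (g : Matrix (Fin n) (Fin n) F) *ᵥ v ∈ S) : g ∈ SS S := by
  have hinj : ∀ v w, (g : Matrix (Fin n) (Fin n) F) *ᵥ v = (g : Matrix (Fin n) (Fin n) F) *ᵥ w → v = w := by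
    intro v w hvw
    have h1 := congrArg (fun x => ((g⁻¹ : GL (Fin n) F) : Matrix (Fin n) (Fin n) F) *ᵥ x) hvw
    simp only [Matrix.mulVec_mulVec] at h1
    rwa [← Units.val_mul, inv_mul_cancel, Units.val_one, Matrix.one_mulVec, Matrix.one_mulVec] at h1
  let φ : S → S := fun v => ⟨_, h v v.2⟩
  have hφ : Function.Injective φ := fun v w hvw => Subtype.ext (hinj _ _ (congrArg Subtype.val hvw))
  have hφ' := Finite.injective_iff_surjective.1 hφ
  intro v
  refine ⟨fun hv => ?_, h v⟩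
  obtain ⟨w, hw⟩ := hφ' ⟨_, hv⟩
  have := hinj _ _ (congrArg Subtype.val hw)
  rw [← this]
  exact w.2

theorem nonmax_SS {S : Set (Fin n → F)} {X H : Subgroup (GL (Fin n) F)} (h : H ⊓ X ≤ SS S)
    {g₁ g₂ : GL (Fin n) F} (h1 : g₁ ∈ X) (h1' : g₁ ∈ SS S) (h1'' : g₁ ∉ H) (h2 : g₂ ∈ X)
    (h2' : g₂ ∉ SS S) : ∃ K : Subgroup (GL (Fin n) F), H ⊓ X < K ∧ K < X := by
  refine ⟨SS S ⊓ X, lt_of_le_of_ne (le_inf h inf_le_right) ?_, lt_of_le_of_ne inf_le_right ?_⟩
  · intro heq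
    have : g₁ ∈ H ⊓ X := by
      rw [heq]
      exact ⟨h1', h1⟩
    exact h1'' this.1
  · intro heq
    have : g₂ ∈ SS S ⊓ X := by
      rw [heq]
      exact h2
    exact h2' this.1

variable {Q : QuadraticForm F (Fin n → F)} {D : Fin t → Submodule F (Fin n → F)}

theorem not_dec (hD : IsNondegenerateMDecomposition (polar ⇑Q) k D) {g : GL (Fin n) F} {i : Fin t} {z : Fin n → F}
    (hz : z ∈ D i) {a b : Fin t} (hab : a ≠ b) {w w' : Fin n → F} (hw : w ∈ D a) (hw' : w' ∈ D b)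
    (h1 : polar ⇑Q ((g : Matrix (Fin n) (Fin n) F) *ᵥ z) w ≠ 0) (h2 : polar ⇑Q ((g : Matrix (Fin n) (Fin n) F) *ᵥ z) w' ≠ 0) :
    g ∉ decompositionStabilizer D := by
  rintro ⟨σ, hσ⟩
  have h3 : (g : Matrix (Fin n) (Fin n) F) *ᵥ z ∈ D (σ i) := by
    rw [← hσ i]
    exact ⟨z, hz, rfl⟩
  by_cases ha : σ i = a
  · have hb : σ i ≠ b := fun h => hab (ha.symm.trans h)
    exact h2 (hD.orthogonal _ _ hb _ h3 _ hw')
  · exact h1 (hD.orthogonal _ _ ha _ h3 _ hw)

/-- a hyperbolic partner -/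
theorem partner {W : Submodule F (Fin n → F)} (hW : IsNondegenerateOn (polar ⇑Q) W) {e : Fin n → F} (he : e ∈ W)
    (he0 : e ≠ 0) (hQe : Q e = 0) : ∃ f ∈ W, Q f = 0 ∧ polar ⇑Q e f = 1 := by
  obtain ⟨-, w, hw, hew⟩ := hW e he he0
  obtain ⟨w₁, hw₁⟩ : ∃ w₁, w₁ = (polar ⇑Q e w)⁻¹ • w := ⟨_, rfl⟩
  have h1 : polar ⇑Q e w₁ = 1 := by
    rw [hw₁, QuadraticMap.polar_smul_right, smul_eq_mul, inv_mul_cancel₀ hew]
  have h2 : w₁ ∈ W := by
    rw [hw₁]
    exact W.smul_mem _ hw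
  refine ⟨w₁ - Q w₁ • e, W.sub_mem h2 (W.smul_mem _ he), ?_, ?_⟩
  · rw [sub_eq_add_neg, ← neg_smul, QuadraticMap.map_add ⇑Q, QuadraticMap.map_smul, hQe, QuadraticMap.polar_smul_right,
      QuadraticMap.polar_comm ⇑Q w₁ e, h1]
    simp only [smul_eq_mul]
    ring
  · rw [sub_eq_add_neg, ← neg_smul, QuadraticMap.polar_add_right, QuadraticMap.polar_smul_right, h1]
    have h3 : polar ⇑Q e e = 0 := by rw [QuadraticMap.polar_self, hQe, smul_zero]
    rw [h3, smul_zero, add_zero]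

theorem hyp2 {W : Submodule F (Fin n → F)} (hW : IsNondegenerateOn (polar ⇑Q) W) (hd : finrank F W = 2)
    (hp : IsPlusTypeOn ⇑Q W) : ∃ e f, e ∈ W ∧ f ∈ W ∧ Q e = 0 ∧ Q f = 0 ∧ polar ⇑Q e f = 1 ∧
      ∀ v ∈ W, ∃ a b : F, v = a • e + b • f := by
  obtain ⟨U, hUW, hU, hUd⟩ := hp
  have hU0 : U ≠ ⊥ := by
    rintro rfl
    rw [finrank_bot, hd] at hUd
    omega
  obtain ⟨e, heU, he0⟩ := Submodule.exists_mem_ne_zero_of_ne_bot hU0
  obtain ⟨f, hf, hQf, hef⟩ := partner hW (hUW heU) he0 (hU e heU)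
  have hQe : Q e = 0 := hU e heU
  refine ⟨e, f, hUW heU, hf, hQe, hQf, hef, ?_⟩
  have hee : polar ⇑Q e e = 0 := by rw [QuadraticMap.polar_self, hQe, smul_zero]
  have hff : polar ⇑Q f f = 0 := by rw [QuadraticMap.polar_self, hQf, smul_zero]
  have hli : LinearIndependent F ![e, f] := by
    rw [LinearIndependent.pair_iff]
    intro s t hst
    have h1 : polar ⇑Q e (s • e + t • f) = 0 := by rw [hst, QuadraticMap.polar_zero_right]
    have h2 : polar ⇑Q f (s • e + t • f) = 0 := by rw [hst, QuadraticMap.polar_zero_right]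
    rw [QuadraticMap.polar_add_right, QuadraticMap.polar_smul_right, QuadraticMap.polar_smul_right, hee, hef, smul_zero,
      zero_add, smul_eq_mul, mul_one] at h1
    rw [QuadraticMap.polar_add_right, QuadraticMap.polar_smul_right, QuadraticMap.polar_smul_right, hff,
      QuadraticMap.polar_comm ⇑Q f e, hef, smul_zero, add_zero, smul_eq_mul, mul_one] at h2
    exact ⟨h2, h1⟩
  have hfin : finrank F (Submodule.span F (Set.range ![e, f])) = 2 := by
    rw [finrank_span_eq_card hli]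
    rfl
  have heq : Submodule.span F (Set.range ![e, f]) = W := by
    apply Submodule.eq_of_le_of_finrank_eq
    · rw [Submodule.span_le]
      rintro _ ⟨i, rfl⟩
      fin_cases i
      · exact hUW heU
      · exact hf
    · rw [hfin, hd]
  intro v hv
  rw [← heq] at hv
  obtain ⟨c, hc⟩ := (Submodule.mem_span_range_iff_exists_fun F).1 hv
  refine ⟨c 0, c 1, ?_⟩
  rw [← hc, Fin.sum_univ_two]
  rfl

/-- vectors of norm one in the members -/
def S1 (Q : QuadraticForm F (Fin n → F)) (D : Fin t → Submodule F (Fin n → F)) : Set (Fin n → F) :=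
  {v | ∃ i, v ∈ D i ∧ Q v = 1}

theorem S1_maps {g : GL (Fin n) F} (hg : g ∈ decompositionStabilizer D ⊓ omegaGL ⇑Q) {v : Fin n → F} (hv : v ∈ S1 Q D) :
    (g : Matrix (Fin n) (Fin n) F) *ᵥ v ∈ S1 Q D := by
  obtain ⟨i, hvi, hQv⟩ := hv
  obtain ⟨σ, hσ⟩ := hg.1
  refine ⟨σ i, ?_, ?_⟩
  · rw [← hσ i]
    exact ⟨v, hvi, rfl⟩
  · have h1 : Q ((g : Matrix (Fin n) (Fin n) F) *ᵥ v) = Q v := (Cfsg.Agent.H29.Fm.omega_iso hg.2) v v
    rw [h1, hQv]

theorem S1_SS [Finite F] : decompositionStabilizer D ⊓ omegaGL ⇑Q ≤ SS (S1 Q D) :=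
  fun _ hg => SS_of_maps fun _ hv => S1_maps hg hv

theorem S1_span [Finite F] : decompositionStabilizer D ⊓ omegaGL ⇑Q ≤ SS (Submodule.span F (S1 Q D) : Set (Fin n → F)) := by
  intro g hg
  apply SS_of_maps
  intro v hv
  have h1 : Submodule.span F (S1 Q D) ≤ (Submodule.span F (S1 Q D)).comap (Matrix.toLin' (g : Matrix (Fin n) (Fin n) F)) := by
    rw [Submodule.span_le]
    intro w hw
    exact Submodule.subset_span (S1_maps hg hw)
  exact h1 hv

theorem S1_closure [Finite F] : decompositionStabilizer D ⊓ omegaGL ⇑Q ≤ SS (AddSubgroup.closure (S1 Q D) : Set (Fin n → F)) := by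
  intro g hg
  apply SS_of_maps
  intro v hv
  have h1 : AddSubgroup.closure (S1 Q D) ≤ (AddSubgroup.closure (S1 Q D)).comap
      (Matrix.toLin' (g : Matrix (Fin n) (Fin n) F)).toAddMonoidHom := by
    rw [AddSubgroup.closure_le]
    intro w hw
    exact AddSubgroup.subset_closure (S1_maps hg hw)
  exact h1 hv

end Cfsg.Agent.H29.Np
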