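import Mathlib
import Cfsg.Agent.H29_Np1

set_option autoImplicit false

/-! imprimitive subgroups of orthogonal groups over small fields: hyperbolic planes -/

namespace Cfsg.Agent.H29.Np

open Matrix Module Cfsg.Geo
open QuadraticMap (polar)
open Cfsg.Agent.H29.Sg (eg eg_apply eg_mem)

variable {F : Type*} [Field F] {n t k : ℕ}
variable {Q : QuadraticForm F (Fin n → F)} {D : Fin t → Submodule F (Fin n → F)}

/-- hyperbolic bases of all members -/
structure HB (Q : QuadraticForm F (Fin n → F)) (D : Fin t → Submodule F (Fin n → F)) (e f : Fin t → (Fin n → F)) : Prop where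
  eD : ∀ i, e i ∈ D i
  fD : ∀ i, f i ∈ D i
  Qe : ∀ i, Q (e i) = 0
  Qf : ∀ i, Q (f i) = 0
  ef : ∀ i, polar ⇑Q (e i) (f i) = 1
  sp : ∀ i, ∀ v ∈ D i, ∃ a b : F, v = a • e i + b • f i

theorem exists_HB (hD : IsNondegenerateMDecomposition (polar ⇑Q) 2 D) (hp : ∀ i, IsPlusTypeOn ⇑Q (D i)) :
    ∃ e f, HB Q D e f := by
  choose e f h1 h2 h3 h4 h5 h6 using fun i => hyp2 (hD.nondegenerate i) (hD.decomp.finrank_eq i) (hp i)
  exact ⟨e, f, h1, h2, h3, h4, h5, h6⟩

section hb

variable {e f : Fin t → (Fin n → F)}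

theorem HB.ee (h : HB Q D e f) (hD : IsNondegenerateMDecomposition (polar ⇑Q) k D) (i j : Fin t) :
    polar ⇑Q (e i) (e j) = 0 := by
  by_cases hij : i = j
  · subst hij
    rw [QuadraticMap.polar_self, h.Qe, smul_zero]
  · exact hD.orthogonal i j hij _ (h.eD i) _ (h.eD j)

theorem HB.ff (h : HB Q D e f) (hD : IsNondegenerateMDecomposition (polar ⇑Q) k D) (i j : Fin t) :
    polar ⇑Q (f i) (f j) = 0 := by
  by_cases hij : i = j
  · subst hij
    rw [QuadraticMap.polar_self, h.Qf, smul_zero]
  · exact hD.orthogonal i j hij _ (h.fD i) _ (h.fD j)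

theorem HB.ef' (h : HB Q D e f) (hD : IsNondegenerateMDecomposition (polar ⇑Q) k D) (i j : Fin t) :
    polar ⇑Q (e i) (f j) = if i = j then 1 else 0 := by
  by_cases hij : i = j
  · subst hij
    rw [h.ef, if_pos rfl]
  · rw [if_neg hij]
    exact hD.orthogonal i j hij _ (h.eD i) _ (h.fD j)

theorem HB.fe' (h : HB Q D e f) (hD : IsNondegenerateMDecomposition (polar ⇑Q) k D) (i j : Fin t) :
    polar ⇑Q (f i) (e j) = if i = j then 1 else 0 := by
  rw [QuadraticMap.polar_comm, h.ef' hD]
  by_cases hij : i = j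
  · rw [if_pos hij, if_pos hij.symm]
  · rw [if_neg hij, if_neg (Ne.symm hij)]

theorem HB.Qv (h : HB Q D e f) (i : Fin t) (a b : F) : Q (a • e i + b • f i) = a * b := by
  rw [QuadraticMap.map_add ⇑Q, QuadraticMap.map_smul, QuadraticMap.map_smul, h.Qe, h.Qf, QuadraticMap.polar_smul_left,
    QuadraticMap.polar_smul_right, h.ef]
  simp only [smul_eq_mul]
  ring

end hb

theorem fin_ne {t : ℕ} {a b : ℕ} {ha : a < t} {hb : b < t} (h : a ≠ b) : (⟨a, ha⟩ : Fin t) ≠ ⟨b, hb⟩ :=
  fun h' => h (congrArg Fin.val h')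

theorem span_case [Finite F] (hnd : (QuadraticMap.polarBilin Q).Nondegenerate) (hn : 5 ≤ n) (ht : 6 ≤ t)
    (hD : IsNondegenerateMDecomposition (polar ⇑Q) 2 D)
    (hp : ∀ i, IsPlusTypeOn ⇑Q (D i)) (hab : ∀ a b : F, a * b = 1 → a = b) {c : F} (hc : 2 + c * c = 0) :
    ∃ K : Subgroup (GL (Fin n) F), decompositionStabilizer D ⊓ omegaGL ⇑Q < K ∧ K < omegaGL ⇑Q := by
  obtain ⟨e, f, h⟩ := exists_HB hD hp
  have hee := h.ee hD
  have hff := h.ff hD
  have hef := h.ef' hD
  have hfe := h.fe' hD
  have h5 : 5 ≤ Fintype.card (Fin n) := by rw [Fintype.card_fin]; exact hn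
  let i0 : Fin t := ⟨0, by omega⟩
  let i1 : Fin t := ⟨1, by omega⟩
  let i2 : Fin t := ⟨2, by omega⟩
  let i3 : Fin t := ⟨3, by omega⟩
  let i4 : Fin t := ⟨4, by omega⟩
  let i5 : Fin t := ⟨5, by omega⟩
  have hX : ∀ i, e i + f i ∈ S1 Q D := by
    intro i
    refine ⟨i, (D i).add_mem (h.eD i) (h.fD i), ?_⟩
    have := h.Qv i 1 1
    rwa [one_smul, one_smul, one_mul] at this
  -- polar values on the span
  have hspan : ∀ v ∈ Submodule.span F (S1 Q D), ∀ j, polar ⇑Q v (e j - f j) = 0 := by
    intro v hv j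
    induction hv using Submodule.span_induction with
    | mem v hv =>
      obtain ⟨i, hvi, hQv⟩ := hv
      obtain ⟨a, b, rfl⟩ := h.sp i v hvi
      rw [h.Qv] at hQv
      have h1 := hab a b hQv
      subst h1
      rw [QuadraticMap.polar_add_left, QuadraticMap.polar_smul_left, QuadraticMap.polar_smul_left, QuadraticMap.polar_sub_right,
        QuadraticMap.polar_sub_right, hee, hef, hfe, hff]
      simp only [smul_eq_mul]
      ring
    | zero => exact QuadraticMap.polar_zero_left Q _
    | add x y _ _ hx hy => rw [QuadraticMap.polar_add_left, hx, hy, add_zero]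
    | smul s x _ hx => rw [QuadraticMap.polar_smul_left, hx, smul_zero]
  have hXX : ∀ i j, polar ⇑Q (e i + f i) (e j + f j) = if i = j then 2 else 0 := by
    intro i j
    rw [QuadraticMap.polar_add_left, QuadraticMap.polar_add_right, QuadraticMap.polar_add_right, hee, hef, hfe, hff]
    split_ifs
    · ring
    · ring
  have hQX : ∀ i, Q (e i + f i) = 1 := fun i => (hX i).choose_spec.2
  have hU : ∀ i j l, i ≠ j → i ≠ l → j ≠ l → Q ((e i + f i) + (e j + f j) + c • (e l + f l)) = 0 := by
    intro i j l hij hil hjl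
    rw [QuadraticMap.map_add ⇑Q, QuadraticMap.map_smul, hQX, QuadraticMap.map_add ⇑Q (e i + f i), hQX, hQX]
    simp only [QuadraticMap.polar_add_left, QuadraticMap.polar_add_right, QuadraticMap.polar_smul_right, hee, hff, hef, hfe,
      if_neg hij, if_neg hil, if_neg hjl, smul_eq_mul]
    linear_combination hc
  have hu : Q ((e i0 + f i0) + (e i1 + f i1) + c • (e i2 + f i2)) = 0 :=
    hU _ _ _ (fin_ne (by norm_num)) (fin_ne (by norm_num)) (fin_ne (by norm_num))
  have hQy : Q ((e i3 + f i3) + (e i4 + f i4) + c • (e i5 + f i5)) = 0 :=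
    hU _ _ _ (fin_ne (by norm_num)) (fin_ne (by norm_num)) (fin_ne (by norm_num))
  have hy : polar ⇑Q ((e i0 + f i0) + (e i1 + f i1) + c • (e i2 + f i2)) ((e i3 + f i3) + (e i4 + f i4) + c • (e i5 + f i5)) = 0 := by
    simp only [QuadraticMap.polar_add_left, QuadraticMap.polar_add_right, QuadraticMap.polar_smul_left,
      QuadraticMap.polar_smul_right, hee, hff, hef, hfe]
    simp [i0, i1, i2, i3, i4, i5]
  have hmemu : (e i0 + f i0) + (e i1 + f i1) + c • (e i2 + f i2) ∈ Submodule.span F (S1 Q D) :=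
    add_mem (add_mem (Submodule.subset_span (hX _)) (Submodule.subset_span (hX _)))
      (Submodule.smul_mem _ _ (Submodule.subset_span (hX _)))
  have hmemy : (e i3 + f i3) + (e i4 + f i4) + c • (e i5 + f i5) ∈ Submodule.span F (S1 Q D) :=
    add_mem (add_mem (Submodule.subset_span (hX _)) (Submodule.subset_span (hX _)))
      (Submodule.smul_mem _ _ (Submodule.subset_span (hX _)))
  have he01 : polar ⇑Q (e i0) (e i1) = 0 := hee _ _
  refine nonmax_SS (S := (Submodule.span F (S1 Q D) : Set (Fin n → F))) (g₁ := eg hu hy) (g₂ := eg (h.Qe i0) he01)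
    S1_span (eg_mem hnd h5 _ _) ?_ ?_ (eg_mem hnd h5 _ _) ?_
  · apply SS_of_maps
    intro v hv
    rw [eg_apply]
    exact Submodule.sub_mem _ (Submodule.sub_mem _ (Submodule.add_mem _ hv (Submodule.smul_mem _ _ hmemy))
      (Submodule.smul_mem _ _ hmemu)) (Submodule.smul_mem _ _ hmemu)
  · refine not_dec hD (h.eD i0) (a := i0) (b := i3) (fin_ne (by norm_num)) (h.fD i0) (h.eD i3) ?_ ?_
    · rw [eg_apply, hQy]
      simp only [QuadraticMap.polar_add_left, QuadraticMap.polar_add_right, QuadraticMap.polar_smul_left,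
        QuadraticMap.polar_smul_right, QuadraticMap.polar_sub_left, hee, hff, hef, hfe]
      simp [i0, i1, i2, i3, i4, i5]
    · rw [eg_apply, hQy]
      simp only [QuadraticMap.polar_add_left, QuadraticMap.polar_add_right, QuadraticMap.polar_smul_left,
        QuadraticMap.polar_smul_right, QuadraticMap.polar_sub_left, hee, hff, hef, hfe]
      simp [i0, i1, i2, i3, i4, i5]
  · intro hg
    have h1 := (hg (e i0 + f i0)).2 (Submodule.subset_span (hX _))
    have h2 := hspan _ h1 i1
    rw [eg_apply, h.Qe] at h2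
    simp only [QuadraticMap.polar_add_left, QuadraticMap.polar_add_right, QuadraticMap.polar_smul_left,
        QuadraticMap.polar_smul_right, QuadraticMap.polar_sub_left, QuadraticMap.polar_sub_right, hee, hff, hef, hfe] at h2
    simp [i0, i1] at h2

/-- the case of four elements -/
theorem four_case [Fintype F] (hF : Fintype.card F = 4) (hnd : (QuadraticMap.polarBilin Q).Nondegenerate) (hn : 5 ≤ n) (ht : 6 ≤ t)
    (hD : IsNondegenerateMDecomposition (polar ⇑Q) 2 D) (hp : ∀ i, IsPlusTypeOn ⇑Q (D i)) {w : F} (hw : w * w + w + 1 = 0)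
    (h2 : (2 : F) = 0) (hF4 : ∀ x : F, x = 0 ∨ x = 1 ∨ x = w ∨ x = w + 1) :
    ∃ K : Subgroup (GL (Fin n) F), decompositionStabilizer D ⊓ omegaGL ⇑Q < K ∧ K < omegaGL ⇑Q := by
  obtain ⟨e, f, h⟩ := exists_HB hD hp
  have hee := h.ee hD
  have hff := h.ff hD
  have hef := h.ef' hD
  have hfe := h.fe' hD
  have h5 : 5 ≤ Fintype.card (Fin n) := by rw [Fintype.card_fin]; exact hn
  have hw0 : w ≠ 0 := by
    rintro rfl
    apply one_ne_zero (α := F)
    linear_combination hw
  have hw1 : w ≠ 1 := by
    rintro rfl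
    apply one_ne_zero (α := F)
    linear_combination hw - h2
  let i0 : Fin t := ⟨0, by omega⟩
  let i1 : Fin t := ⟨1, by omega⟩
  let i2 : Fin t := ⟨2, by omega⟩
  let i3 : Fin t := ⟨3, by omega⟩
  have hX : ∀ i, e i + f i ∈ S1 Q D := by
    intro i
    refine ⟨i, (D i).add_mem (h.eD i) (h.fD i), ?_⟩
    have := h.Qv i 1 1
    rwa [one_smul, one_smul, one_mul] at this
  have hww : w * (w + 1) = 1 := by linear_combination hw - h2
  have hY : ∀ i, w • e i + (w + 1) • f i ∈ S1 Q D := by
    intro i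
    refine ⟨i, (D i).add_mem ((D i).smul_mem _ (h.eD i)) ((D i).smul_mem _ (h.fD i)), ?_⟩
    rw [h.Qv, hww]
  -- polar values on generators
  have hgen : ∀ v ∈ S1 Q D, ∀ v' ∈ S1 Q D, polar ⇑Q v v' = 0 ∨ polar ⇑Q v v' = 1 := by
    rintro v ⟨i, hvi, hQv⟩ v' ⟨j, hvj, hQv'⟩
    by_cases hij : i = j
    · subst hij
      obtain ⟨a, b, rfl⟩ := h.sp i v hvi
      obtain ⟨a', b', rfl⟩ := h.sp i v' hvj
      rw [h.Qv] at hQv hQv'
      have h1 : polar ⇑Q (a • e i + b • f i) (a' • e i + b' • f i) = a * b' + b * a' := by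
        simp only [QuadraticMap.polar_add_left, QuadraticMap.polar_add_right, QuadraticMap.polar_smul_left,
          QuadraticMap.polar_smul_right, hee, hff, hef, hfe, smul_eq_mul]
        simp only [if_true]
        ring
      rw [h1]
      have key : ∀ a b : F, a * b = 1 → (a = 1 ∧ b = 1) ∨ (a = w ∧ b = w + 1) ∨ (a = w + 1 ∧ b = w) := by
        intro a b hab
        have ha0 : a ≠ 0 := left_ne_zero_of_mul_eq_one hab
        rcases hF4 a with h3 | h3 | h3 | h3
        · exact absurd h3 ha0
        · left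
          refine ⟨h3, ?_⟩
          rw [h3, one_mul] at hab
          exact hab
        · right; left
          refine ⟨h3, ?_⟩
          apply mul_left_cancel₀ hw0
          rw [← h3, hab, h3, hww]
        · right; right
          refine ⟨h3, ?_⟩
          have hw2 : w + 1 ≠ 0 := right_ne_zero_of_mul_eq_one hww
          apply mul_left_cancel₀ hw2
          rw [← h3, hab, h3, mul_comm, hww]
      rcases key a b hQv with ⟨ha, hb⟩ | ⟨ha, hb⟩ | ⟨ha, hb⟩ <;> rcases key a' b' hQv' with ⟨ha', hb'⟩ | ⟨ha', hb'⟩ | ⟨ha', hb'⟩ <;>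
        rw [ha, hb, ha', hb']
      · left; linear_combination h2
      · right; linear_combination w * h2
      · right; linear_combination w * h2
      · right; linear_combination w * h2
      · left; linear_combination w * (w + 1) * h2
      · right; linear_combination (w * w + w) * h2
      · right; linear_combination w * h2
      · right; linear_combination (w * w + w) * h2
      · left; linear_combination w * (w + 1) * h2
    · left
      exact hD.orthogonal i j hij _ hvi _ hvj
  have hcl : ∀ v ∈ AddSubgroup.closure (S1 Q D), ∀ v' ∈ S1 Q D, polar ⇑Q v v' = 0 ∨ polar ⇑Q v v' = 1 := by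
    intro v hv v' hv'
    induction hv using AddSubgroup.closure_induction with
    | mem v hv => exact hgen v hv v' hv'
    | zero => left; exact QuadraticMap.polar_zero_left Q _
    | add x y _ _ hx hy =>
      rw [QuadraticMap.polar_add_left]
      rcases hx with hx | hx <;> rcases hy with hy | hy <;> rw [hx, hy]
      · left; ring
      · right; ring
      · right; ring
      · left; linear_combination h2
    | neg x _ hx =>
      rw [QuadraticMap.polar_neg_left]
      rcases hx with hx | hx <;> rw [hx]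
      · left; ring
      · right; linear_combination -h2
  have hQX : ∀ i, Q (e i + f i) = 1 := fun i => (hX i).choose_spec.2
  have hU : ∀ i j, i ≠ j → Q ((e i + f i) + (e j + f j)) = 0 := by
    intro i j hij
    rw [QuadraticMap.map_add ⇑Q, hQX, hQX]
    simp only [QuadraticMap.polar_add_left, QuadraticMap.polar_add_right, hee, hff, hef, hfe, if_neg hij]
    linear_combination h2
  have hu : Q ((e i0 + f i0) + (e i1 + f i1)) = 0 := hU _ _ (fin_ne (by norm_num))
  have hQy : Q ((e i2 + f i2) + (e i3 + f i3)) = 0 := hU _ _ (fin_ne (by norm_num))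
  have hy : polar ⇑Q ((e i0 + f i0) + (e i1 + f i1)) ((e i2 + f i2) + (e i3 + f i3)) = 0 := by
    simp only [QuadraticMap.polar_add_left, QuadraticMap.polar_add_right, hee, hff, hef, hfe]
    simp [i0, i1, i2, i3]
  have hy' : polar ⇑Q ((e i0 + f i0) + (e i1 + f i1)) (w • ((e i2 + f i2) + (e i3 + f i3))) = 0 := by
    rw [QuadraticMap.polar_smul_right, hy, smul_zero]
  have hmemu : (e i0 + f i0) + (e i1 + f i1) ∈ AddSubgroup.closure (S1 Q D) :=
    add_mem (AddSubgroup.subset_closure (hX _)) (AddSubgroup.subset_closure (hX _))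
  have hmemy : (e i2 + f i2) + (e i3 + f i3) ∈ AddSubgroup.closure (S1 Q D) :=
    add_mem (AddSubgroup.subset_closure (hX _)) (AddSubgroup.subset_closure (hX _))
  have h01 : ∀ v ∈ AddSubgroup.closure (S1 Q D), ∀ i j : Fin t, ∃ c : F, (c = 0 ∨ c = 1) ∧
      polar ⇑Q v ((e i + f i) + (e j + f j)) = c := by
    intro v hv i j
    refine ⟨_, ?_, rfl⟩
    rw [QuadraticMap.polar_add_right]
    rcases hcl v hv _ (hX i) with h1 | h1 <;> rcases hcl v hv _ (hX j) with h3 | h3 <;> rw [h1, h3]
    · left; ring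
    · right; ring
    · right; ring
    · left; linear_combination h2
  refine nonmax_SS (S := (AddSubgroup.closure (S1 Q D) : Set (Fin n → F))) (g₁ := eg hu hy) (g₂ := eg hu hy')
    S1_closure (eg_mem hnd h5 _ _) ?_ ?_ (eg_mem hnd h5 _ _) ?_
  · apply SS_of_maps
    intro v hv
    rw [eg_apply, hQy, zero_mul, zero_smul, sub_zero]
    obtain ⟨c, hc, hc'⟩ := h01 v hv i0 i1
    obtain ⟨d, hd, hd'⟩ := h01 v hv i2 i3
    have hsm : ∀ (s : F) (x : Fin n → F), (s = 0 ∨ s = 1) → x ∈ AddSubgroup.closure (S1 Q D) →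
        s • x ∈ AddSubgroup.closure (S1 Q D) := by
      rintro s x (rfl | rfl) hx
      · rw [zero_smul]; exact zero_mem _
      · rw [one_smul]; exact hx
    rw [hc', hd']
    exact sub_mem (add_mem hv (hsm _ _ hc hmemy)) (hsm _ _ hd hmemu)
  · refine not_dec hD (h.eD i0) (a := i0) (b := i2) (fin_ne (by norm_num)) (h.fD i0) (h.eD i2) ?_ ?_
    · rw [eg_apply, hQy]
      simp only [QuadraticMap.polar_add_left, QuadraticMap.polar_add_right, QuadraticMap.polar_smul_left,
        QuadraticMap.polar_smul_right, QuadraticMap.polar_sub_left, hee, hff, hef, hfe]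
      simp [i0, i1, i2, i3]
    · rw [eg_apply, hQy]
      simp only [QuadraticMap.polar_add_left, QuadraticMap.polar_add_right, QuadraticMap.polar_smul_left,
        QuadraticMap.polar_smul_right, QuadraticMap.polar_sub_left, hee, hff, hef, hfe]
      simp [i0, i1, i2, i3]
  · intro hg
    have h1 := (hg (w • e i0 + (w + 1) • f i0)).2 (AddSubgroup.subset_closure (hY _))
    have h3 := hcl _ h1 _ (hY i2)
    have h4 : polar ⇑Q (w • e i0 + (w + 1) • f i0) ((e i0 + f i0) + (e i1 + f i1)) = 1 := by
      simp only [QuadraticMap.polar_add_left, QuadraticMap.polar_add_right, QuadraticMap.polar_smul_left,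
        QuadraticMap.polar_smul_right, hee, hff, hef, hfe, smul_eq_mul]
      simp [i0, i1]
      linear_combination w * h2
    have h6 : polar ⇑Q (w • e i0 + (w + 1) • f i0) (w • ((e i2 + f i2) + (e i3 + f i3))) = 0 := by
      simp only [QuadraticMap.polar_add_left, QuadraticMap.polar_add_right, QuadraticMap.polar_smul_left,
        QuadraticMap.polar_smul_right, hee, hff, hef, hfe, smul_eq_mul]
      simp [i0, i1, i2, i3]
    have h7 : polar ⇑Q ((eg hu hy' : Matrix (Fin n) (Fin n) F) *ᵥ (w • e i0 + (w + 1) • f i0))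
        (w • e i2 + (w + 1) • f i2) = w := by
      rw [eg_apply, h4, h6, QuadraticMap.map_smul, hQy, smul_zero, zero_mul, zero_smul, sub_zero, sub_zero, one_smul]
      simp only [QuadraticMap.polar_add_left, QuadraticMap.polar_add_right, QuadraticMap.polar_smul_left,
        QuadraticMap.polar_smul_right, hee, hff, hef, hfe, smul_eq_mul]
      simp [i0, i1, i2, i3]
      linear_combination w * w * h2
    rw [h7] at h3
    rcases h3 with h3 | h3
    · exact hw0 h3
    · exact hw1 h3

end Cfsg.Agent.H29.Np
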