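import Mathlib
import Cfsg.Agent.H29_Np2

set_option autoImplicit false

/-! imprimitive subgroups of orthogonal groups over small fields: `O_4^+(2)` -/

namespace Cfsg.Agent.H29.Np

open Matrix Module Cfsg.Geo
open QuadraticMap (polar)
open Cfsg.Agent.H29.Sg (eg eg_apply eg_mem)

variable {F : Type*} [Field F] {n t k : ℕ}
variable {Q : QuadraticForm F (Fin n → F)} {D : Fin t → Submodule F (Fin n → F)}

theorem hyp4 {W : Submodule F (Fin n → F)} (hW : IsNondegenerateOn (polar ⇑Q) W) (hd : finrank F W = 4)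
    (hp : IsPlusTypeOn ⇑Q W) : ∃ e f e' f', e ∈ W ∧ f ∈ W ∧ e' ∈ W ∧ f' ∈ W ∧ Q e = 0 ∧ Q f = 0 ∧ Q e' = 0 ∧ Q f' = 0 ∧
      polar ⇑Q e f = 1 ∧ polar ⇑Q e' f' = 1 ∧ polar ⇑Q e e' = 0 ∧ polar ⇑Q e f' = 0 ∧ polar ⇑Q f e' = 0 ∧ polar ⇑Q f f' = 0 ∧
      ∀ v ∈ W, ∃ a b c d : F, v = a • e + b • f + (c • e' + d • f') := by
  obtain ⟨U, hUW, hU, hUd⟩ := hp
  rw [hd] at hUd
  have hU2 : finrank F U = 2 := by omega
  have hU0 : U ≠ ⊥ := by
    rintro rfl
    rw [finrank_bot] at hU2
    omega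
  obtain ⟨e, heU, he0⟩ := Submodule.exists_mem_ne_zero_of_ne_bot hU0
  have hQe : Q e = 0 := hU e heU
  obtain ⟨f, hf, hQf, hef⟩ := partner hW (hUW heU) he0 hQe
  have hex : ∃ u ∈ U, u ∉ Submodule.span F {e} := by
    by_contra hc
    push Not at hc
    have h1 : finrank F U ≤ finrank F (Submodule.span F {e}) := Submodule.finrank_mono hc
    rw [finrank_span_singleton he0] at h1
    omega
  obtain ⟨u, huU, hu⟩ := hex
  obtain ⟨e', he'⟩ : ∃ e', e' = u - (polar ⇑Q u f) • e := ⟨_, rfl⟩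
  have he'U : e' ∈ U := by
    rw [he']
    exact U.sub_mem huU (U.smul_mem _ heU)
  have he'0 : e' ≠ 0 := by
    rintro rfl
    apply hu
    rw [Submodule.mem_span_singleton]
    exact ⟨_, (sub_eq_zero.1 he'.symm).symm⟩
  have hQe' : Q e' = 0 := hU e' he'U
  have hUU : ∀ x ∈ U, ∀ y ∈ U, polar ⇑Q x y = 0 := by
    intro x hx y hy
    rw [QuadraticMap.polar, hU _ (U.add_mem hx hy), hU x hx, hU y hy, sub_zero, sub_zero]
  have hee' : polar ⇑Q e e' = 0 := hUU _ heU _ he'U
  have hfe' : polar ⇑Q f e' = 0 := by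
    rw [he', QuadraticMap.polar_sub_right, QuadraticMap.polar_smul_right, QuadraticMap.polar_comm ⇑Q f e, hef,
      QuadraticMap.polar_comm ⇑Q f u, smul_eq_mul, mul_one, sub_self]
  have hee : polar ⇑Q e e = 0 := hUU _ heU _ heU
  have hff : polar ⇑Q f f = 0 := by rw [QuadraticMap.polar_self, hQf, smul_zero]
  have hfe : polar ⇑Q f e = 1 := by rw [QuadraticMap.polar_comm, hef]
  obtain ⟨w, hw, hQw, hew⟩ := partner hW (hUW he'U) he'0 hQe'
  obtain ⟨w₁, hw₁⟩ : ∃ w₁, w₁ = w - (polar ⇑Q w f) • e - (polar ⇑Q w e) • f := ⟨_, rfl⟩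
  have hw₁W : w₁ ∈ W := by
    rw [hw₁]
    exact W.sub_mem (W.sub_mem hw (W.smul_mem _ (hUW heU))) (W.smul_mem _ hf)
  have hw₁e : polar ⇑Q e w₁ = 0 := by
    rw [hw₁, QuadraticMap.polar_sub_right, QuadraticMap.polar_sub_right, QuadraticMap.polar_smul_right,
      QuadraticMap.polar_smul_right, hee, hef, QuadraticMap.polar_comm ⇑Q e w]
    simp only [smul_eq_mul]
    ring
  have hw₁f : polar ⇑Q f w₁ = 0 := by
    rw [hw₁, QuadraticMap.polar_sub_right, QuadraticMap.polar_sub_right, QuadraticMap.polar_smul_right,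
      QuadraticMap.polar_smul_right, hff, hfe, QuadraticMap.polar_comm ⇑Q f w]
    simp only [smul_eq_mul]
    ring
  have hw₁e' : polar ⇑Q e' w₁ = 1 := by
    rw [hw₁, QuadraticMap.polar_sub_right, QuadraticMap.polar_sub_right, QuadraticMap.polar_smul_right,
      QuadraticMap.polar_smul_right, hew, QuadraticMap.polar_comm ⇑Q e' e, hee', QuadraticMap.polar_comm ⇑Q e' f, hfe']
    simp only [smul_eq_mul]
    ring
  obtain ⟨f', hf'⟩ : ∃ f', f' = w₁ - Q w₁ • e' := ⟨_, rfl⟩
  have he'e' : polar ⇑Q e' e' = 0 := hUU _ he'U _ he'U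
  have hQf' : Q f' = 0 := by
    rw [hf', sub_eq_add_neg, ← neg_smul, QuadraticMap.map_add ⇑Q, QuadraticMap.map_smul, hQe', QuadraticMap.polar_smul_right,
      QuadraticMap.polar_comm ⇑Q w₁ e', hw₁e']
    simp only [smul_eq_mul]
    ring
  have he'f' : polar ⇑Q e' f' = 1 := by
    rw [hf', QuadraticMap.polar_sub_right, QuadraticMap.polar_smul_right, hw₁e', he'e', smul_zero, sub_zero]
  have hef' : polar ⇑Q e f' = 0 := by
    rw [hf', QuadraticMap.polar_sub_right, QuadraticMap.polar_smul_right, hw₁e, hee', smul_zero, sub_zero]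
  have hff' : polar ⇑Q f f' = 0 := by
    rw [hf', QuadraticMap.polar_sub_right, QuadraticMap.polar_smul_right, hw₁f, hfe', smul_zero, sub_zero]
  have hf'f' : polar ⇑Q f' f' = 0 := by rw [QuadraticMap.polar_self, hQf', smul_zero]
  have hf'W : f' ∈ W := by
    rw [hf']
    exact W.sub_mem hw₁W (W.smul_mem _ (hUW he'U))
  refine ⟨e, f, e', f', hUW heU, hf, hUW he'U, hf'W, hQe, hQf, hQe', hQf', hef, he'f', hee', hef', hfe', hff', ?_⟩
  have hsum : ∀ c : Fin 4 → F, ∑ i, c i • ![e, f, e', f'] i = c 0 • e + c 1 • f + (c 2 • e' + c 3 • f') := by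
    intro c
    rw [Fin.sum_univ_four, add_assoc (c 0 • _ + c 1 • _)]
    rfl
  have hli : LinearIndependent F ![e, f, e', f'] := by
    rw [Fintype.linearIndependent_iff]
    intro c hc
    rw [hsum] at hc
    have h1 : polar ⇑Q e (c 0 • e + c 1 • f + (c 2 • e' + c 3 • f')) = 0 := by rw [hc, QuadraticMap.polar_zero_right]
    have h2 : polar ⇑Q f (c 0 • e + c 1 • f + (c 2 • e' + c 3 • f')) = 0 := by rw [hc, QuadraticMap.polar_zero_right]
    have h3 : polar ⇑Q e' (c 0 • e + c 1 • f + (c 2 • e' + c 3 • f')) = 0 := by rw [hc, QuadraticMap.polar_zero_right]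
    have h4 : polar ⇑Q f' (c 0 • e + c 1 • f + (c 2 • e' + c 3 • f')) = 0 := by rw [hc, QuadraticMap.polar_zero_right]
    simp only [QuadraticMap.polar_add_right, QuadraticMap.polar_smul_right, hee, hff, hef, hfe, hee', hfe', hef', hff',
      he'e', hf'f', he'f', QuadraticMap.polar_comm ⇑Q e' e, QuadraticMap.polar_comm ⇑Q e' f, QuadraticMap.polar_comm ⇑Q f' e,
      QuadraticMap.polar_comm ⇑Q f' f, QuadraticMap.polar_comm ⇑Q f' e', smul_eq_mul, mul_zero, mul_one, add_zero,
      zero_add] at h1 h2 h3 h4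
    intro i
    fin_cases i
    · exact h2
    · exact h1
    · exact h4
    · exact h3
  have hfin : finrank F (Submodule.span F (Set.range ![e, f, e', f'])) = 4 := by
    rw [finrank_span_eq_card hli]
    rfl
  have heq : Submodule.span F (Set.range ![e, f, e', f']) = W := by
    apply Submodule.eq_of_le_of_finrank_eq
    · rw [Submodule.span_le]
      rintro _ ⟨i, rfl⟩
      fin_cases i
      · exact hUW heU
      · exact hf
      · exact hUW he'U
      · exact hf'W
    · rw [hfin, hd]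
  intro v hv
  rw [← heq] at hv
  obtain ⟨c, hc⟩ := (Submodule.mem_span_range_iff_exists_fun F).1 hv
  exact ⟨c 0, c 1, c 2, c 3, by rw [← hc, hsum]⟩

/-- good vectors in a member -/
structure GP (Q : QuadraticForm F (Fin n → F)) (W : Submodule F (Fin n → F)) (a a' c w s s' : Fin n → F) : Prop where
  aW : a ∈ W
  a'W : a' ∈ W
  cW : c ∈ W
  wW : w ∈ W
  sW : s ∈ W
  s'W : s' ∈ W
  Qa : Q a = 1
  Qa' : Q a' = 1
  aa' : polar ⇑Q a a' = 1
  ca : polar ⇑Q c a = 0
  ca' : polar ⇑Q c a' = 0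
  cw : polar ⇑Q c w = 1
  Qs : Q s = 0
  as : polar ⇑Q a s = 1
  ss' : polar ⇑Q s s' = 1
  an : ∀ v ∈ W, polar ⇑Q v a = 0 → polar ⇑Q v a' = 0 → Q v = 0 → v = 0

theorem exists_GP (hF : ∀ x : F, x = 0 ∨ x = 1) (h2 : (2 : F) = 0) {W : Submodule F (Fin n → F)}
    (hW : IsNondegenerateOn (polar ⇑Q) W) (hd : finrank F W = 4)
    (hp : IsPlusTypeOn ⇑Q W) : ∃ a a' c w s s', GP Q W a a' c w s s' := by
  obtain ⟨e, f, e', f', he, hf, he', hf', hQe, hQf, hQe', hQf', hef, he'f', hee', hef', hfe', hff', hsp⟩ := hyp4 hW hd hp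
  have hee : polar ⇑Q e e = 0 := by rw [QuadraticMap.polar_self, hQe, smul_zero]
  have hff : polar ⇑Q f f = 0 := by rw [QuadraticMap.polar_self, hQf, smul_zero]
  have he'e' : polar ⇑Q e' e' = 0 := by rw [QuadraticMap.polar_self, hQe', smul_zero]
  have hf'f' : polar ⇑Q f' f' = 0 := by rw [QuadraticMap.polar_self, hQf', smul_zero]
  have c1 : polar ⇑Q f e = 1 := by rw [QuadraticMap.polar_comm, hef]
  have c2 : polar ⇑Q f' e' = 1 := by rw [QuadraticMap.polar_comm, he'f']
  have c3 : polar ⇑Q e' e = 0 := by rw [QuadraticMap.polar_comm, hee']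
  have c4 : polar ⇑Q f' e = 0 := by rw [QuadraticMap.polar_comm, hef']
  have c5 : polar ⇑Q e' f = 0 := by rw [QuadraticMap.polar_comm, hfe']
  have c6 : polar ⇑Q f' f = 0 := by rw [QuadraticMap.polar_comm, hff']
  have hQ4 : ∀ a b c d : F, Q (a • e + b • f + (c • e' + d • f')) = a * b + c * d := by
    intro a b c d
    simp only [QuadraticMap.map_add ⇑Q, QuadraticMap.map_smul, QuadraticMap.polar_add_left, QuadraticMap.polar_add_right,
      QuadraticMap.polar_smul_left, QuadraticMap.polar_smul_right, hQe, hQf, hQe', hQf', hef, he'f', hee', hef', hfe', hff', smul_eq_mul]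
    ring
  refine ⟨e + f, e + (e' + f'), e' + f', e', e, f, W.add_mem he hf, W.add_mem he (W.add_mem he' hf'), W.add_mem he' hf',
    he', he, hf, ?_, ?_, ?_, ?_, ?_, ?_, hQe, ?_, hef, ?_⟩
  · have := hQ4 1 1 0 0
    simpa using this
  · have := hQ4 1 0 1 1
    simpa using this
  · simp only [QuadraticMap.polar_add_left, QuadraticMap.polar_add_right, hee, hff, hef, hee', hef', hfe', hff', c1]
    ring
  · simp only [QuadraticMap.polar_add_left, QuadraticMap.polar_add_right, c3, c4, c5, c6]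
    ring
  · simp only [QuadraticMap.polar_add_left, QuadraticMap.polar_add_right, c3, c4, he'e', he'f', hf'f', c2]
    linear_combination h2
  · simp only [QuadraticMap.polar_add_left, he'e', c2]
    ring
  · simp only [QuadraticMap.polar_add_left, hee, c1]
    ring
  · intro v hv h1 h3 h4
    obtain ⟨a, b, c, d, rfl⟩ := hsp v hv
    rw [hQ4] at h4
    simp only [QuadraticMap.polar_add_left, QuadraticMap.polar_add_right, QuadraticMap.polar_smul_left, hee, hff, hef, hee',
      hef', hfe', hff', c1, c2, c3, c4, c5, c6, he'e', hf'f', he'f', smul_eq_mul, mul_zero, mul_one, add_zero, zero_add] at h1 h3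
    rcases hF a with rfl | rfl <;> rcases hF b with rfl | rfl <;> rcases hF c with rfl | rfl <;> rcases hF d with rfl | rfl <;>
      first
      | (simp only [zero_smul, add_zero]; done)
      | (exfalso; apply one_ne_zero (α := F); linear_combination h1)
      | (exfalso; apply one_ne_zero (α := F); linear_combination h3)
      | (exfalso; apply one_ne_zero (α := F); linear_combination h4)
      | (exfalso; apply one_ne_zero (α := F); linear_combination h4 - h2)
      | (exfalso; apply one_ne_zero (α := F); linear_combination h3 - h2)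

/-- the swap maps the vectors of norm one to such vectors -/
theorem swap_maps (hF : ∀ x : F, x = 0 ∨ x = 1) (h2 : (2 : F) = 0) (hD : IsNondegenerateMDecomposition (polar ⇑Q) k D)
    {i j : Fin t} (hij : i ≠ j) {a a' c w s s' b b' c₁ w₁ s₁ s₁' : Fin n → F} (ha : GP Q (D i) a a' c w s s')
    (hb : GP Q (D j) b b' c₁ w₁ s₁ s₁') {z : Fin n → F} (hz : z ∈ D i) (hQz : Q z = 1) :
    z + polar ⇑Q z (a + b) • (a' + b') - polar ⇑Q z (a' + b') • (a + b) ∈ S1 Q D := by
  have hneg : ∀ x : F, -x = x := by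
    intro x
    have : x + x = 0 := by rw [← two_mul, h2, zero_mul]
    exact neg_eq_of_add_eq_zero_left this
  have hnegv : ∀ x : Fin n → F, -x = x := fun x => funext fun i => hneg _
  have hdbl : ∀ x : Fin n → F, x + x = 0 := by
    intro x
    conv_lhs => rw [← hnegv x]
    rw [hnegv x]
    funext i
    show x i + x i = 0
    rw [← two_mul, h2, zero_mul]
  have hzb : ∀ y ∈ D j, polar ⇑Q z y = 0 := fun y hy => hD.orthogonal i j hij _ hz _ hy
  have hsub : ∀ x y : Fin n → F, x - y = x + y := fun x y => by rw [sub_eq_add_neg, hnegv]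
  have paa : polar ⇑Q a a = 0 := by
    rw [QuadraticMap.polar_self, ha.Qa]
    show (2 : ℕ) • (1 : F) = 0
    rw [nsmul_eq_mul, mul_one]
    exact_mod_cast h2
  have pa'a' : polar ⇑Q a' a' = 0 := by
    rw [QuadraticMap.polar_self, ha.Qa']
    show (2 : ℕ) • (1 : F) = 0
    rw [nsmul_eq_mul, mul_one]
    exact_mod_cast h2
  have pa'a : polar ⇑Q a' a = 1 := by rw [QuadraticMap.polar_comm, ha.aa']
  rw [hsub, QuadraticMap.polar_add_right, QuadraticMap.polar_add_right, hzb b hb.aW, hzb b' hb.a'W, add_zero, add_zero]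
  rcases hF (polar ⇑Q z a) with h3 | h3 <;> rcases hF (polar ⇑Q z a') with h4 | h4
  · rw [h3, h4, zero_smul, zero_smul, add_zero, add_zero]
    exact ⟨i, hz, hQz⟩
  · -- z = a
    have h5 : z + a = 0 := by
      apply ha.an _ ((D i).add_mem hz ha.aW)
      · rw [QuadraticMap.polar_add_left, h3, paa, add_zero]
      · rw [QuadraticMap.polar_add_left, h4, ha.aa']
        linear_combination h2
      · rw [QuadraticMap.map_add ⇑Q, hQz, ha.Qa, h3]
        linear_combination h2
    have h6 : z = a := by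
      rw [add_eq_zero_iff_eq_neg, hnegv] at h5
      exact h5
    rw [h3, h4, zero_smul, add_zero, one_smul, h6, ← add_assoc, hdbl, zero_add]
    exact ⟨j, hb.aW, hb.Qa⟩
  · have h5 : z + a' = 0 := by
      apply ha.an _ ((D i).add_mem hz ha.a'W)
      · rw [QuadraticMap.polar_add_left, h3, pa'a]
        linear_combination h2
      · rw [QuadraticMap.polar_add_left, h4, pa'a', add_zero]
      · rw [QuadraticMap.map_add ⇑Q, hQz, ha.Qa', h4]
        linear_combination h2
    have h6 : z = a' := by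
      rw [add_eq_zero_iff_eq_neg, hnegv] at h5
      exact h5
    rw [h3, h4, zero_smul, add_zero, one_smul, h6, ← add_assoc, hdbl, zero_add]
    exact ⟨j, hb.a'W, hb.Qa'⟩
  · have h5 : z + (a + a') = 0 := by
      apply ha.an _ ((D i).add_mem hz ((D i).add_mem ha.aW ha.a'W))
      · rw [QuadraticMap.polar_add_left, QuadraticMap.polar_add_left, h3, paa, pa'a]
        linear_combination h2
      · rw [QuadraticMap.polar_add_left, QuadraticMap.polar_add_left, h4, pa'a', ha.aa']
        linear_combination h2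
      · rw [QuadraticMap.map_add ⇑Q, QuadraticMap.map_add ⇑Q, hQz, ha.Qa, ha.Qa', QuadraticMap.polar_add_right, h3, h4, ha.aa']
        linear_combination 3 * h2
    have h6 : z = a + a' := by
      rw [add_eq_zero_iff_eq_neg, hnegv] at h5
      exact h5
    have h7 : z + (1 : F) • (a' + b') + (1 : F) • (a + b) = b + b' := by
      rw [one_smul, one_smul, h6]
      calc a + a' + (a' + b') + (a + b) = (a + a) + (a' + a') + (b + b') := by abel
        _ = b + b' := by rw [hdbl, hdbl, zero_add, zero_add]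
    rw [h3, h4, h7]
    refine ⟨j, (D j).add_mem hb.aW hb.a'W, ?_⟩
    rw [QuadraticMap.map_add ⇑Q, hb.Qa, hb.Qa', hb.aa']
    linear_combination h2

/-- type `O_4^+(2)` -/
theorem four_two [Finite F] (hF : ∀ x : F, x = 0 ∨ x = 1) (h2 : (2 : F) = 0) (hnd : (QuadraticMap.polarBilin Q).Nondegenerate)
    (hn : 5 ≤ n) (hD : IsNondegenerateMDecomposition (polar ⇑Q) 4 D) (hp : ∀ i, IsPlusTypeOn ⇑Q (D i)) :
    ∃ K : Subgroup (GL (Fin n) F), decompositionStabilizer D ⊓ omegaGL ⇑Q < K ∧ K < omegaGL ⇑Q := by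
  have ht := hD.decomp.two_le
  have h5 : 5 ≤ Fintype.card (Fin n) := by rw [Fintype.card_fin]; exact hn
  let i : Fin t := ⟨0, by omega⟩
  let j : Fin t := ⟨1, by omega⟩
  have hij : i ≠ j := fin_ne (by norm_num)
  obtain ⟨a, a', c, w, s, s', ha⟩ := exists_GP hF h2 (hD.nondegenerate i) (hD.decomp.finrank_eq i) (hp i)
  obtain ⟨b, b', c₁, w₁, s₁, s₁', hb⟩ := exists_GP hF h2 (hD.nondegenerate j) (hD.decomp.finrank_eq j) (hp j)
  have o : ∀ x ∈ D i, ∀ y ∈ D j, polar ⇑Q x y = 0 := fun x hx y hy => hD.orthogonal i j hij _ hx _ hy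
  have o' : ∀ x ∈ D j, ∀ y ∈ D i, polar ⇑Q x y = 0 := fun x hx y hy => hD.orthogonal j i hij.symm _ hx _ hy
  have hu : Q (a + b) = 0 := by
    rw [QuadraticMap.map_add ⇑Q, ha.Qa, hb.Qa, o _ ha.aW _ hb.aW]
    linear_combination h2
  have hQy : Q (a' + b') = 0 := by
    rw [QuadraticMap.map_add ⇑Q, ha.Qa', hb.Qa', o _ ha.a'W _ hb.a'W]
    linear_combination h2
  have hy : polar ⇑Q (a + b) (a' + b') = 0 := by
    rw [QuadraticMap.polar_add_left, QuadraticMap.polar_add_right, QuadraticMap.polar_add_right, ha.aa', hb.aa',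
      o _ ha.aW _ hb.a'W, o' _ hb.aW _ ha.a'W]
    linear_combination h2
  have hss : polar ⇑Q s s₁ = 0 := o _ ha.sW _ hb.sW
  refine nonmax_SS (S := S1 Q D) (g₁ := eg hu hy) (g₂ := eg ha.Qs hss) S1_SS (eg_mem hnd h5 _ _) ?_ ?_ (eg_mem hnd h5 _ _) ?_
  · apply SS_of_maps
    rintro z ⟨l, hz, hQz⟩
    rw [eg_apply, hQy, zero_mul, zero_smul, sub_zero]
    by_cases hli : l = i
    · rw [hli] at hz
      exact swap_maps hF h2 hD hij ha hb hz hQz
    · by_cases hlj : l = j
      · rw [hlj] at hz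
        rw [add_comm a b, add_comm a' b']
        exact swap_maps hF h2 hD hij.symm hb ha hz hQz
      · have h3 : polar ⇑Q z (a + b) = 0 := by
          rw [QuadraticMap.polar_add_right, hD.orthogonal l i hli _ hz _ ha.aW, hD.orthogonal l j hlj _ hz _ hb.aW, add_zero]
        have h4 : polar ⇑Q z (a' + b') = 0 := by
          rw [QuadraticMap.polar_add_right, hD.orthogonal l i hli _ hz _ ha.a'W, hD.orthogonal l j hlj _ hz _ hb.a'W, add_zero]
        rw [h3, h4, zero_smul, zero_smul, add_zero, sub_zero]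
        exact ⟨l, hz, hQz⟩
  · have paa : polar ⇑Q a a = 0 := by
      rw [QuadraticMap.polar_self, ha.Qa]
      show (2 : ℕ) • (1 : F) = 0
      rw [nsmul_eq_mul, mul_one]
      exact_mod_cast h2
    have e1 : polar ⇑Q (a + c) (a + b) = 0 := by
      rw [QuadraticMap.polar_add_left, QuadraticMap.polar_add_right, QuadraticMap.polar_add_right, paa, ha.ca,
        o _ ha.aW _ hb.aW, o _ ha.cW _ hb.aW]
      ring
    have e2 : polar ⇑Q (a + c) (a' + b') = 1 := by
      rw [QuadraticMap.polar_add_left, QuadraticMap.polar_add_right, QuadraticMap.polar_add_right, ha.aa', ha.ca',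
        o _ ha.aW _ hb.a'W, o _ ha.cW _ hb.a'W]
      ring
    have e3 : (eg hu hy : Matrix (Fin n) (Fin n) F) *ᵥ (a + c) = c - b := by
      rw [eg_apply, hQy, e1, e2, zero_smul, zero_mul, zero_smul, one_smul, add_zero, sub_zero]
      abel
    refine not_dec hD (z := a + c) ((D i).add_mem ha.aW ha.cW) hij ha.wW hb.a'W ?_ ?_
    · rw [e3, QuadraticMap.polar_sub_left, ha.cw, o' _ hb.aW _ ha.wW, sub_zero]
      exact one_ne_zero
    · rw [e3, QuadraticMap.polar_sub_left, o _ ha.cW _ hb.a'W, hb.aa', zero_sub]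
      exact neg_ne_zero.2 one_ne_zero
  · intro hg
    have h1 := (hg a).2 ⟨i, ha.aW, ha.Qa⟩
    rw [eg_apply, hb.Qs, ha.as, o _ ha.aW _ hb.sW, zero_smul, sub_zero, zero_mul, zero_smul, sub_zero, one_smul] at h1
    obtain ⟨l, hl, -⟩ := h1
    by_cases hli : l = i
    · have h3 := hD.orthogonal l j (by rw [hli]; exact hij) _ hl _ hb.s'W
      rw [QuadraticMap.polar_add_left, o _ ha.aW _ hb.s'W, hb.ss', zero_add] at h3
      exact one_ne_zero h3
    · have h3 := hD.orthogonal l i hli _ hl _ ha.sW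
      rw [QuadraticMap.polar_add_left, ha.as, o' _ hb.sW _ ha.sW, add_zero] at h3
      exact one_ne_zero h3

end Cfsg.Agent.H29.Np
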