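import Mathlib
import Cfsg.Agent.H29_Or3

set_option autoImplicit false

/-! groups of isometries of symmetric forms in odd dimension outside the geometric classes -/

namespace Cfsg.Agent.H29.Fm

open Matrix Module Cfsg.Geo Cfsg.Agent.H29.Clifford Cfsg.Agent.H29.Asc Cfsg.Agent.H29.AscF Cfsg.Agent.H29.Trv
  Cfsg.Agent.H29.AscT
open scoped Kronecker commutatorElement

variable {F : Type*} [Field F] {n k m r w t : ℕ}
variable {f : (Fin n → F) → (Fin n → F) → F}
variable {G : Subgroup (GL (Fin n) F)}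

/-- groups of isometries of a symmetric form in odd dimension lying in no member of the geometric classes -/
structure NO [Fintype F] (f : (Fin n → F) → (Fin n → F) → F) (G : Subgroup (GL (Fin n) F)) : Prop where
  orf : OrF f
  odd : Odd n
  fix : Fx f G
  rat : ∀ (F₁ : Subfield F) (i j : Fin n), f (Pi.single i 1) (Pi.single j 1) ∈ F₁
  ts : ∀ W : Submodule F (Fin n → F), W ≠ ⊥ → IsTotallySingularFor f W → ¬ G ≤ subspaceStabilizer W
  nd : ∀ W : Submodule F (Fin n → F), W ≠ ⊥ → W ≠ ⊤ → IsNondegenerateOn f W → ¬ G ≤ subspaceStabilizer W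
  dec : ∀ (t k : ℕ) (D : Fin t → Submodule F (Fin n → F)), (1 < k ∨ (k = 1 ∧ (Fintype.card F).Prime)) →
    IsNondegenerateMDecomposition f k D → (∀ i j, AreIsometricFor (fun v => f v v) (D i) (D j)) →
    ¬ G ≤ decompositionStabilizer D
  fsa : ∀ (r : ℕ) (K : Subalgebra F (Matrix (Fin n) (Fin n) F)), r.Prime → n ≠ r → IsFieldSubalgebra r K →
    IsSelfAdjointFor f K → ¬ G ≤ subalgebraNormalizer K
  ten : ∀ (n₁ n₂ : ℕ) (e : Fin n ≃ Fin n₁ × Fin n₂) (P : GL (Fin n) F) (f₁ : (Fin n₁ → F) → (Fin n₁ → F) → F)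
    (f₂ : (Fin n₂ → F) → (Fin n₂ → F) → F), 3 ≤ n₁ → n₁ < n₂ → IsSymmetricForm f₁ → IsSymmetricForm f₂ →
    IsTensorFormStructure id f f₁ f₂ e P → ¬ G ≤ tensorProductSubgroup n₁ n₂ e P
  sub : ∀ (F₀ : Subfield F) (r : ℕ) (P : GL (Fin n) F), r.Prime → Fintype.card F = Nat.card F₀ ^ r →
    IsFormRationalStructure f F₀ 1 P → ¬ G ≤ subfieldSubgroup F₀ P
  wr : ∀ (k t : ℕ) (e : Fin n ≃ (Fin t → Fin k)) (P : GL (Fin n) F) (f₁ : (Fin k → F) → (Fin k → F) → F),
    3 ≤ k → 2 ≤ t → ¬ (Fintype.card F = 3 ∧ k = 3) → IsSymmetricForm f₁ →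
    IsTensorPowerFormStructure id f f₁ e P → ¬ G ≤ tensorWreathSubgroup k t e P

theorem NO.irr [Fintype F] (hG : NO f G) : ActsIrreducibly (matrixSet G) := by
  by_contra hirr
  rcases reducible_cases hG.orf.sfm hG.fix hirr with ⟨W, h1, h2, h3⟩ | ⟨W, h1, h2, h3, h4⟩ | ⟨k, D, h1, h2, h3⟩
  · exact hG.ts W h1 h2 h3
  · refine hG.nd W h1 ?_ h2 h4
    rintro rfl
    rw [finrank_top, Module.finrank_fintype_fun_eq_card, Fintype.card_fin] at h3
    omega
  · obtain ⟨a, ha⟩ := hG.odd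
    omega

theorem det_mem {F₁ : Subfield F} {M : Matrix (Fin n) (Fin n) F} (hM : ∀ i j, M i j ∈ F₁) : M.det ∈ F₁ := by
  rw [Matrix.det_apply]
  refine F₁.sum_mem (fun σ _ => ?_)
  rw [Units.smul_def, zsmul_eq_mul]
  exact F₁.mul_mem (intCast_mem F₁ _) (F₁.prod_mem fun i _ => hM _ _)

/-- in odd dimension the rational structure can be rescaled -/
theorem rat_one [Fintype F] (h : OrF f) (hn : Odd n) {F₁ : Subfield F}
    (hrat : ∀ i j : Fin n, f (Pi.single i 1) (Pi.single j 1) ∈ F₁) {P : GL (Fin n) F} {ζ : F} (hζ : ζ ≠ 0)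
    (hP : IsFormRationalStructure f F₁ ζ P) :
    ∃ P' : GL (Fin n) F, IsFormRationalStructure f F₁ 1 P' ∧ subfieldSubgroup F₁ P ≤ subfieldSubgroup F₁ P' := by
  classical
  obtain ⟨hdet, hform⟩ := gram_facts h.sfm
  set Γ := gramMatrix f with hΓ
  have hΓF : Γ.det ∈ F₁ := det_mem hrat
  set M : Matrix (Fin n) (Fin n) F := ζ • ((P : Matrix (Fin n) (Fin n) F)ᵀ * Γ * (P : Matrix (Fin n) (Fin n) F)) with hM
  have hMF : M.det ∈ F₁ := by
    apply det_mem
    intro i j
    rw [hM, Matrix.smul_apply, gram_conj, ← hform, smul_eq_mul]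
    apply hP
    · intro a
      rw [Pi.single_apply]
      split_ifs
      · exact F₁.one_mem
      · exact F₁.zero_mem
    · intro a
      rw [Pi.single_apply]
      split_ifs
      · exact F₁.one_mem
      · exact F₁.zero_mem
  have hPdet : (P : Matrix (Fin n) (Fin n) F).det ≠ 0 := by
    have := (P.isUnit).map Matrix.detMonoidHom
    exact this.ne_zero
  have hMdet : M.det = ζ ^ n * ((P : Matrix (Fin n) (Fin n) F).det * Γ.det * (P : Matrix (Fin n) (Fin n) F).det) := by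
    rw [hM, Matrix.det_smul, Matrix.det_mul, Matrix.det_mul, Matrix.det_transpose, Fintype.card_fin]
  obtain ⟨l, hl⟩ := hn
  set s := ζ ^ l * (P : Matrix (Fin n) (Fin n) F).det with hs
  have hs0 : s ≠ 0 := mul_ne_zero (pow_ne_zero _ hζ) hPdet
  set a := M.det / Γ.det with ha
  have haF : a ∈ F₁ := F₁.div_mem hMF hΓF
  have hζs : ζ * (s * s) = a := by
    have hpow : ζ ^ n = ζ ^ l * ζ ^ l * ζ := by
      rw [← pow_add, ← pow_succ]
      congr 1
      omega
    rw [ha, hMdet, eq_div_iff hdet, hs, hpow]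
    ring
  have ha0 : a ≠ 0 := by
    rw [← hζs]
    exact mul_ne_zero hζ (mul_ne_zero hs0 hs0)
  refine ⟨sc n F (Units.mk0 s⁻¹ (inv_ne_zero hs0)) * P, ?_, subfield_scale _⟩
  intro u v hu hv
  have h1 : ∀ x : Fin n → F, ((sc n F (Units.mk0 s⁻¹ (inv_ne_zero hs0)) * P : GL (Fin n) F) : Matrix (Fin n) (Fin n) F) *ᵥ x =
      s⁻¹ • ((P : Matrix (Fin n) (Fin n) F) *ᵥ x) := by
    intro x
    rw [Units.val_mul, sc_coe, Matrix.smul_mul, one_mul, Matrix.smul_mulVec]
    rfl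
  rw [h1, h1, h.sfm.smul_left, h.smul_right, one_mul]
  have h2 := hP u v hu hv
  have h3 : s⁻¹ * (s⁻¹ * f ((P : Matrix (Fin n) (Fin n) F) *ᵥ u) ((P : Matrix (Fin n) (Fin n) F) *ᵥ v)) =
      a⁻¹ * (ζ * f ((P : Matrix (Fin n) (Fin n) F) *ᵥ u) ((P : Matrix (Fin n) (Fin n) F) *ᵥ v)) := by
    rw [← hζs]
    field_simp
  rw [h3]
  exact F₁.mul_mem (F₁.inv_mem haF) h2

/-- a basis adapted to a decomposition into isometric lines -/
theorem line_basis (h : OrF f) {D : Fin t → Submodule F (Fin n → F)} (hD : IsNondegenerateMDecomposition f 1 D)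
    (hiso : ∀ i j, AreIsometricFor (fun v => f v v) (D i) (D j)) :
    ∃ (w : Fin t → (Fin n → F)) (c : F), c ≠ 0 ∧ (∀ i, w i ∈ D i) ∧ (∀ i j, f (w i) (w j) = if i = j then c else 0) ∧
      ∀ i, ∀ x ∈ D i, ∃ a : F, x = a • w i := by
  classical
  have ht := hD.decomp.two_le
  let i₀ : Fin t := ⟨0, by omega⟩
  obtain ⟨v₀, hv₀, hspan₀⟩ := finrank_eq_one_iff'.1 (hD.decomp.finrank_eq i₀)
  choose e he using fun j => hiso i₀ j
  have hw0 : ∀ j, e j v₀ ≠ 0 := fun j h0 => hv₀ ((e j).map_eq_zero_iff.1 h0)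
  have hspan : ∀ j, ∀ x ∈ D j, ∃ a : F, x = a • ((e j v₀ : D j) : Fin n → F) := by
    intro j x hx
    obtain ⟨a, ha⟩ := hspan₀ ((e j).symm ⟨x, hx⟩)
    refine ⟨a, ?_⟩
    have h1 : e j (a • v₀) = ⟨x, hx⟩ := by rw [ha, LinearEquiv.apply_symm_apply]
    rw [map_smul] at h1
    exact (congrArg Subtype.val h1).symm
  have hc : f ((v₀ : D i₀) : Fin n → F) v₀ ≠ 0 := by
    intro h0
    obtain ⟨⟨x, hx, hxv⟩, -⟩ := hD.nondegenerate i₀ v₀ v₀.2 (fun h1 => hv₀ (Subtype.ext h1))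
    obtain ⟨a, ha⟩ := hspan₀ ⟨x, hx⟩
    apply hxv
    have h1 : x = a • (v₀ : Fin n → F) := (congrArg Subtype.val ha).symm
    rw [h1, h.sfm.smul_left, h0, mul_zero]
  refine ⟨fun j => ((e j v₀ : D j) : Fin n → F), f ((v₀ : D i₀) : Fin n → F) v₀, hc, fun j => (e j v₀).2, ?_, hspan⟩
  intro i j
  by_cases hij : i = j
  · subst hij
    rw [if_pos rfl]
    exact he i v₀
  · rw [if_neg hij]
    exact hD.orthogonal i j hij _ (e i v₀).2 _ (e j v₀).2

/-- orthogonal frames over non-prime fields -/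
theorem frame_sub [Fintype F] (h : OrF f) (hn : Odd n) (hrat : ∀ (F₁ : Subfield F) (i j : Fin n), f (Pi.single i 1) (Pi.single j 1) ∈ F₁)
    (hG : Fx f G) {D : Fin t → Submodule F (Fin n → F)} (hD : IsNondegenerateMDecomposition f 1 D)
    (hiso : ∀ i j, AreIsometricFor (fun v => f v v) (D i) (D j)) (hle : G ≤ decompositionStabilizer D) (F₁ : Subfield F) :
    ∃ P : GL (Fin n) F, IsFormRationalStructure f F₁ 1 P ∧ G ≤ subfieldSubgroup F₁ P := by
  classical
  obtain ⟨w, c, hc, hwD, hw, hspan⟩ := line_basis h hD hiso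
  have htn : t = n := by
    have := dec_card hD.decomp
    omega
  subst htn
  have hn0 : 0 < t := by obtain ⟨a, ha⟩ := hn; omega
  haveI : Nonempty (Fin t) := ⟨⟨0, hn0⟩⟩
  have hli := onb_li h.sfm hc hw
  let b : Module.Basis (Fin t) F (Fin t → F) := basisOfLinearIndependentOfCardEqFinrank hli (by
    rw [Module.finrank_fintype_fun_eq_card])
  have hb : ∀ i, b i = w i := fun i => by
    show (basisOfLinearIndependentOfCardEqFinrank hli _) i = w i
    rw [coe_basisOfLinearIndependentOfCardEqFinrank]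
  obtain ⟨P, hP⟩ := exists_GL_basis b (Equiv.refl _)
  have hP' : ∀ i, (P : Matrix (Fin t) (Fin t) F) *ᵥ (Pi.single i 1) = w i := fun i => by
    rw [hP, ← hb]; rfl
  have hrat1 : IsFormRationalStructure f F₁ c⁻¹ P := by
    apply rational_of_entries h.sfm
    intro i j
    rw [hP', hP', hw]
    split_ifs
    · rw [inv_mul_cancel₀ hc]; exact F₁.one_mem
    · rw [mul_zero]; exact F₁.zero_mem
  obtain ⟨P', h1, h2⟩ := rat_one h hn (hrat F₁) (inv_ne_zero hc) hrat1
  refine ⟨P', h1, le_trans ?_ h2⟩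
  intro g hg
  rw [mem_subfieldSubgroup_iff]
  apply Subgroup.mem_sup_left
  obtain ⟨σ, hσ⟩ := hle hg
  have hgw : ∀ i, ∃ a : F, (a = 1 ∨ a = -1) ∧ (g : Matrix (Fin t) (Fin t) F) *ᵥ w i = a • w (σ i) := by
    intro i
    have h3 : (g : Matrix (Fin t) (Fin t) F) *ᵥ w i ∈ D (σ i) := by
      rw [← hσ i]
      exact ⟨_, hwD i, rfl⟩
    obtain ⟨a, ha⟩ := hspan _ _ h3
    refine ⟨a, ?_, ha⟩
    have h4 := hG g hg (w i) (w i)
    rw [ha, h.sfm.smul_left, h.smul_right, hw, hw, if_pos rfl, if_pos rfl] at h4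
    have h5 : (a - 1) * (a + 1) = 0 := by
      have h6 : ((a - 1) * (a + 1)) * c = 0 := by linear_combination h4
      exact (mul_eq_zero.1 h6).resolve_right hc
    rcases mul_eq_zero.1 h5 with h6 | h6
    · exact Or.inl (sub_eq_zero.1 h6)
    · exact Or.inr (eq_neg_of_add_eq_zero_left h6)
  have hent : ∀ i j, ((P⁻¹ * g * P : GL (Fin t) F) : Matrix (Fin t) (Fin t) F) i j ∈ F₁ := by
    intro i j
    obtain ⟨a, ha, hga⟩ := hgw j
    have h3 : ((P⁻¹ * g * P : GL (Fin t) F) : Matrix (Fin t) (Fin t) F) *ᵥ (Pi.single j 1) = a • Pi.single (σ j) 1 := by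
      rw [Units.val_mul, Units.val_mul, ← Matrix.mulVec_mulVec, ← Matrix.mulVec_mulVec, hP', hga, Matrix.mulVec_smul,
        ← hP', inv_mulVec_self]
    have h4 := congrFun h3 i
    rw [Matrix.mulVec_single_one] at h4
    have h5 : ((P⁻¹ * g * P : GL (Fin t) F) : Matrix (Fin t) (Fin t) F) i j = (a • Pi.single (σ j) (1 : F) : Fin t → F) i := h4
    rw [h5, Pi.smul_apply, smul_eq_mul, Pi.single_apply]
    split_ifs
    · rcases ha with rfl | rfl
      · rw [mul_one]; exact F₁.one_mem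
      · rw [mul_one]; exact F₁.neg_mem F₁.one_mem
    · rw [mul_zero]; exact F₁.zero_mem
  let M : Matrix (Fin t) (Fin t) F₁ := Matrix.of fun i j => ⟨_, hent i j⟩
  have hM : M.map F₁.subtype = ((P⁻¹ * g * P : GL (Fin t) F) : Matrix (Fin t) (Fin t) F) := by
    ext i j; rfl
  have hMdet : M.det ≠ 0 := by
    intro h0
    have h3 : F₁.subtype M.det = (M.map F₁.subtype).det := RingHom.map_det _ _
    rw [h0, map_zero, hM] at h3
    have h4 := ((P⁻¹ * g * P : GL (Fin t) F).isUnit).map Matrix.detMonoidHom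
    exact h4.ne_zero h3.symm
  refine ⟨Matrix.GeneralLinearGroup.mkOfDetNeZero M hMdet, ?_⟩
  apply Units.ext
  exact hM

theorem not_prime_sub [Fintype F] (hF : ¬ (Fintype.card F).Prime) :
    ∃ (F₁ : Subfield F) (r : ℕ), r.Prime ∧ Fintype.card F = Nat.card F₁ ^ r := by
  obtain ⟨p, hch⟩ := CharP.exists F
  haveI := hch
  have hp : p.Prime := CharP.char_is_prime F p
  haveI : Fact p.Prime := ⟨hp⟩
  obtain ⟨e', -, hcard⟩ := FiniteField.card F p
  have he2 : 1 < (e' : ℕ) := by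
    have := e'.pos
    by_contra hcon
    have he : (e' : ℕ) = 1 := by omega
    rw [he, pow_one] at hcard
    exact hF (by rw [hcard]; exact hp)
  obtain ⟨F₀, hF₀, -⟩ := frob_proper (F := F) hcard one_pos he2
  obtain ⟨F₁, r, hle, hr', hcard'⟩ := exists_max_subfield F₀ hF₀
  exact ⟨F₁, r, hr', hcard'⟩

/-- nondegenerate decompositions are excluded -/
theorem NO.ndd [Fintype F] (hG : NO f G) (D : Fin t → Submodule F (Fin n → F)) (hD : IsNondegenerateMDecomposition f k D) :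
    ¬ G ≤ decompositionStabilizer D := by
  intro hle
  have hiso : ∀ i j, AreIsometricFor (fun v => f v v) (D i) (D j) := by
    intro i j
    obtain ⟨g, hg, hgD⟩ := dec_trans hD.decomp hG.irr hle i j
    exact isom_of_map (hG.fix g hg) hgD
  rcases Nat.lt_or_ge 1 k with hk | hk
  · exact hG.dec t k D (Or.inl hk) hD hiso hle
  have hk1 : k = 1 := by
    have := hD.decomp.pos
    omega
  subst hk1
  by_cases hF : (Fintype.card F).Prime
  · exact hG.dec t 1 D (Or.inr ⟨rfl, hF⟩) hD hiso hle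
  obtain ⟨F₁, r, hr, hcard⟩ := not_prime_sub hF
  obtain ⟨P, h1, h2⟩ := frame_sub hG.orf hG.odd hG.rat hG.fix hD hiso hle F₁
  exact hG.sub F₁ r P hr hcard h1 h2

theorem NO.ng [Fintype F] (hG : NO f G) : NG (RingEquiv.refl F) 1 f G where
  form := hG.orf.sfm
  fix := hG.fix
  ts := hG.ts
  nd := by
    intro W h1 h2 h3
    refine hG.nd W h1 ?_ h2
    rintro rfl
    rw [finrank_top, Module.finrank_fintype_fun_eq_card, Fintype.card_fin] at h3
    omega
  ndd := fun t k D hD => hG.ndd D hD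
  tsd := by
    intro k D hD
    have h1 := dec_card hD
    obtain ⟨a, ha⟩ := hG.odd
    omega
  fld := by
    intro r K hr _ hK hadj hle
    have hn0 : 0 < n := by obtain ⟨a, ha⟩ := hG.odd; omega
    have hodd : Odd r := hG.odd.of_dvd_nat (fld_dvd hn0 hK)
    have hsa := fld_sa hn0 hG.orf.sfm hodd hK hadj
    by_cases hrn : n = r
    · subst hrn
      exact fld_n hr hG.odd hG.orf hK hsa hG.fix hG.irr hle
    · exact hG.fsa r K hr hrn hK hsa hle

end Cfsg.Agent.H29.Fm
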