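import Mathlib
import Cfsg.Agent.H29_Or4

set_option autoImplicit false

/-! Aschbacher's theorem for odd-dimensional orthogonal groups -/

namespace Cfsg.Agent.H29.Fm

open Matrix Module Cfsg.Geo Cfsg.Agent.H29.Clifford Cfsg.Agent.H29.Asc Cfsg.Agent.H29.AscF Cfsg.Agent.H29.Trv
  Cfsg.Agent.H29.AscT
open scoped Kronecker commutatorElement

variable {F : Type*} [Field F] {n k m r w t : ℕ}
variable {f : (Fin n → F) → (Fin n → F) → F}
variable {G : Subgroup (GL (Fin n) F)}

theorem HM.symmT {A : Matrix (Fin m) (Fin m) F} (hA : HM (RingEquiv.refl F) 1 A) : Aᵀ = A := by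
  ext i j
  rw [Matrix.transpose_apply]
  have := hA j i
  rwa [one_mul] at this

theorem K_scal (ε : Fin k → F) : K (fun i => ε i • (1 : Matrix (Fin m) (Fin m) F)) =
    (∏ i, ε i) • K (fun _ => (1 : Matrix (Fin m) (Fin m) F)) := by
  ext x y
  rw [K_apply, Matrix.smul_apply, K_apply, smul_eq_mul, ← Finset.prod_mul_distrib]
  rfl

theorem fog_smul {κ : Type} [Fintype κ] (c : F) (M : Matrix κ κ F) (x y : κ → F) :
    formOfGram (RingEquiv.refl F) (c • M) x y = c * formOfGram (RingEquiv.refl F) M x y := by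
  rw [formOfGram_eq, formOfGram_eq, Matrix.smul_mulVec, dotProduct_smul, smul_eq_mul]

/-- wreath structures in odd dimension can be standardised -/
theorem wreath_std [Fintype F] (h2 : (2 : F) ≠ 0) (hm : Odd m) {e : Fin n ≃ (Fin k → Fin m)} {Q : GL (Fin n) F}
    {B : Fin k → Matrix (Fin m) (Fin m) F} (hB : ∀ i, (B i)ᵀ = B i) (hdet : ∀ i, (B i).det ≠ 0) {c : F} (hc : c ≠ 0)
    (H : ∀ x y : (Fin k → Fin m) → F, f ((Q : Matrix (Fin n) (Fin n) F) *ᵥ (x ∘ e))
      ((Q : Matrix (Fin n) (Fin n) F) *ᵥ (y ∘ e)) = c * formOfGram (RingEquiv.refl F) (K B) x y) :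
    ∃ (Q' : GL (Fin n) F) (c' : F), c' ≠ 0 ∧ tensorWreathSubgroup m k e Q ≤ tensorWreathSubgroup m k e Q' ∧
      ∀ x y : (Fin k → Fin m) → F, f ((Q' : Matrix (Fin n) (Fin n) F) *ᵥ (x ∘ e))
      ((Q' : Matrix (Fin n) (Fin n) F) *ᵥ (y ∘ e)) =
        c' * formOfGram (RingEquiv.refl F) (K (fun _ => (1 : Matrix (Fin m) (Fin m) F))) x y := by
  choose b ε hε hb using fun i => sym_scalar h2 hm (hB i) (hdet i)
  refine ⟨Q * glReindex e.symm (gK b), c * ∏ i, ε i, mul_ne_zero hc (Finset.prod_ne_zero_iff.2 fun i _ => hε i),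
    wreath_conj e Q b, ?_⟩
  intro x y
  rw [pure_change H b]
  have h1 : (fun i => ((b i : Matrix (Fin m) (Fin m) F))ᵀ * B i * (b i : Matrix (Fin m) (Fin m) F).map (RingEquiv.refl F)) =
      fun i => ε i • (1 : Matrix (Fin m) (Fin m) F) := by
    funext i
    exact hb i
  rw [h1, K_scal, fog_smul, mul_assoc]

/-- the frame of a tensor power over the field with three elements -/
theorem wreath_three [Fintype F] (h : OrF f) (hF : Fintype.card F = 3) (hk : 2 ≤ k) {e : Fin n ≃ (Fin k → Fin 3)}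
    {Q : GL (Fin n) F} {c : F} (hc : c ≠ 0)
    (H : ∀ x y : (Fin k → Fin 3) → F, f ((Q : Matrix (Fin n) (Fin n) F) *ᵥ (x ∘ e))
      ((Q : Matrix (Fin n) (Fin n) F) *ᵥ (y ∘ e)) =
        c * formOfGram (RingEquiv.refl F) (K (fun _ => (1 : Matrix (Fin 3) (Fin 3) F))) x y) :
    ∃ D : Fin n → Submodule F (Fin n → F), IsNondegenerateMDecomposition f 1 D ∧
      ∀ G : Subgroup (GL (Fin n) F), Fx f G → G ≤ tensorWreathSubgroup 3 k e Q → G ≤ decompositionStabilizer D := by
  classical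
  have hf : ∀ x y : (Fin k → Fin 3) → F, f (ce e Q x) (ce e Q y) = c * (x ⬝ᵥ y) := by
    intro x y
    rw [tw_form rfl H]
    have h1 : K (fun _ => (1 : Matrix (Fin 3) (Fin 3) F) : Fin k → Matrix (Fin 3) (Fin 3) F) = 1 := K_one
    rw [h1, Matrix.smul_mulVec, Matrix.one_mulVec, dotProduct_smul, smul_eq_mul]
  let v : Fin n × Fin 1 → (Fin n → F) := fun p => ce e Q (Pi.single (e p.1) 1)
  have hv : ∀ p q, f (v p) (v q) = if p = q then c else 0 := by
    intro p q
    show f (ce e Q _) (ce e Q _) = _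
    rw [hf, single_dotProduct, one_mul, Pi.single_apply]
    have h1 : (e p.1 = e q.1) ↔ p = q := by
      rw [EmbeddingLike.apply_eq_iff_eq]
      constructor
      · intro h2
        exact Prod.ext h2 (Subsingleton.elim _ _)
      · intro h2
        rw [h2]
    by_cases hpq : p = q
    · rw [if_pos (h1.2 hpq), if_pos hpq, mul_one]
    · rw [if_neg (fun h2 => hpq (h1.1 h2)), if_neg hpq, mul_zero]
  have hcard : n = 3 ^ k := by
    have := Fintype.card_congr e
    rwa [Fintype.card_fin, Fintype.card_fun, Fintype.card_fin, Fintype.card_fin] at this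
  have hn2 : 2 ≤ n := by
    rw [hcard]
    calc 2 ≤ 3 ^ 1 := by norm_num
      _ ≤ 3 ^ k := Nat.pow_le_pow_right (by norm_num) (by omega)
  refine ⟨_, dec_onb h.sfm hc hv (by omega) hn2 one_pos, ?_⟩
  intro G hG hle g hg
  apply mem_frame h.sfm hc hv (by omega) hn2
  obtain ⟨σ, A, hA⟩ := tw_act (hle hg)
  have hiso : ∀ x y : Fin k → (Fin 3 → F), ∏ i, (((A i : Matrix (Fin 3) (Fin 3) F) *ᵥ x i) ⬝ᵥ
      ((A i : Matrix (Fin 3) (Fin 3) F) *ᵥ y i)) = ∏ i, (x i ⬝ᵥ y i) := by
    intro x y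
    have h1 := hG g hg (ce e Q (pp x)) (ce e Q (pp y))
    rw [hA, hA, K_pp, K_pp, Pm_pp, Pm_pp, hf, hf, dot_pp, dot_pp] at h1
    have h2 := mul_left_cancel₀ hc h1
    rw [← h2]
    exact (Equiv.prod_comp σ.symm (fun i => (((A i : Matrix (Fin 3) (Fin 3) F) *ᵥ x i) ⬝ᵥ
      ((A i : Matrix (Fin 3) (Fin 3) F) *ᵥ y i)))).symm
  have hsim : ∀ i, ∃ ν : F, ν ≠ 0 ∧ (A i : Matrix (Fin 3) (Fin 3) F)ᵀ * (A i : Matrix (Fin 3) (Fin 3) F) =
      ν • (1 : Matrix (Fin 3) (Fin 3) F) := by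
    intro i
    let s : Fin 3 → F := Pi.single 0 1
    have hs : s ⬝ᵥ s = 1 := by
      show (Pi.single 0 1 : Fin 3 → F) ⬝ᵥ (Pi.single 0 1) = 1
      rw [single_dotProduct, Pi.single_eq_same, one_mul]
    set π := ∏ j ∈ Finset.univ.erase i, (((A j : Matrix (Fin 3) (Fin 3) F) *ᵥ s) ⬝ᵥ
      ((A j : Matrix (Fin 3) (Fin 3) F) *ᵥ s)) with hπ
    have h1 : ∀ x y : Fin 3 → F, (((A i : Matrix (Fin 3) (Fin 3) F) *ᵥ x) ⬝ᵥ
      ((A i : Matrix (Fin 3) (Fin 3) F) *ᵥ y)) * π = x ⬝ᵥ y := by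
      intro x y
      have h3 := hiso (Function.update (fun _ => s) i x) (Function.update (fun _ => s) i y)
      rw [← Finset.mul_prod_erase _ _ (Finset.mem_univ i), ← Finset.mul_prod_erase _ _ (Finset.mem_univ i)] at h3
      have e1 : ∏ j ∈ Finset.univ.erase i, (((A j : Matrix (Fin 3) (Fin 3) F) *ᵥ (Function.update (fun _ => s) i x j)) ⬝ᵥ
          ((A j : Matrix (Fin 3) (Fin 3) F) *ᵥ (Function.update (fun _ => s) i y j))) = π := by
        apply Finset.prod_congr rfl
        intro j hj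
        rw [Function.update_of_ne (Finset.ne_of_mem_erase hj), Function.update_of_ne (Finset.ne_of_mem_erase hj)]
      have e2 : ∏ j ∈ Finset.univ.erase i, ((Function.update (fun _ => s) i x j) ⬝ᵥ
          (Function.update (fun _ => s) i y j)) = 1 := by
        apply Finset.prod_eq_one
        intro j hj
        rw [Function.update_of_ne (Finset.ne_of_mem_erase hj), Function.update_of_ne (Finset.ne_of_mem_erase hj), hs]
      rw [e1, e2, Function.update_self, Function.update_self, mul_one] at h3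
      exact h3
    have hπ0 : π ≠ 0 := by
      intro h0
      have h3 := h1 s s
      rw [h0, mul_zero, hs] at h3
      exact zero_ne_one h3
    refine ⟨π⁻¹, inv_ne_zero hπ0, ?_⟩
    ext a b
    have h3 := gram_conj (1 : Matrix (Fin 3) (Fin 3) F) (A i : Matrix (Fin 3) (Fin 3) F) a b
    rw [mul_one, Matrix.one_mulVec] at h3
    have h4 := h1 (Pi.single a 1) (Pi.single b 1)
    rw [h3, Matrix.smul_apply, Matrix.one_apply, smul_eq_mul]
    rw [single_dotProduct, Pi.single_apply, one_mul] at h4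
    rw [← h4, mul_comm, mul_assoc, mul_inv_cancel₀ hπ0, mul_one]
  choose ν hν hAν using hsim
  intro i
  set z := e i with hz
  choose l d hd using fun j => mono_three hF (hν j) (hAν j) (z j)
  refine ⟨e.symm (l ∘ σ.symm), ∏ j, d j, ?_⟩
  show (g : Matrix (Fin n) (Fin n) F) *ᵥ ce e Q (Pi.single (e i) 1) =
    (∏ j, d j) • ce e Q (Pi.single (e (e.symm (l ∘ σ.symm))) 1)
  rw [Equiv.apply_symm_apply, ← hz, single_pp, hA, K_pp, Pm_pp, single_pp, ← map_smul]
  congr 1
  funext y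
  show ∏ j, ((A (σ.symm j) : Matrix (Fin 3) (Fin 3) F) *ᵥ (Pi.single (z (σ.symm j)) 1)) (y j) =
    (∏ j, d j) * ∏ j, (Pi.single (l (σ.symm j)) 1 : Fin 3 → F) (y j)
  rw [← Equiv.prod_comp σ.symm d, ← Finset.prod_mul_distrib]
  apply Finset.prod_congr rfl
  intro j _
  rw [hd]
  rfl

theorem NO.pos [Fintype F] (hG : NO f G) : 0 < n := by
  obtain ⟨a, ha⟩ := hG.odd
  omega

theorem hm_one : HM (RingEquiv.refl F) 1 (1 : Matrix (Fin m) (Fin m) F) := by
  intro i j
  by_cases hij : i = j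
  · subst hij; rw [Matrix.one_apply_eq, map_one, one_mul]
  · rw [Matrix.one_apply_ne hij, Matrix.one_apply_ne (Ne.symm hij), map_zero, mul_zero]

theorem NO.no_wreath [Fintype F] (hG : NO f G) (hm : 3 ≤ m) (hmo : Odd m) (hk : 2 ≤ k) {e : Fin n ≃ (Fin k → Fin m)}
    {Q : GL (Fin n) F} {B : Fin k → Matrix (Fin m) (Fin m) F} (hB : ∀ i, (B i)ᵀ = B i) (hdet : ∀ i, (B i).det ≠ 0)
    {c : F} (hc : c ≠ 0)
    (H : ∀ x y : (Fin k → Fin m) → F, f ((Q : Matrix (Fin n) (Fin n) F) *ᵥ (x ∘ e))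
      ((Q : Matrix (Fin n) (Fin n) F) *ᵥ (y ∘ e)) = c * formOfGram (RingEquiv.refl F) (K B) x y)
    (hle : G ≤ tensorWreathSubgroup m k e Q) : False := by
  obtain ⟨Q', c', hc', hQ', H'⟩ := wreath_std hG.orf.two hmo hB hdet hc H
  by_cases h3 : Fintype.card F = 3 ∧ m = 3
  · obtain ⟨hF, hm3⟩ := h3
    subst hm3
    obtain ⟨D, hD, hDG⟩ := wreath_three hG.orf hF hk hc' H'
    exact hG.ndd D hD (hDG G hG.fix (hle.trans hQ'))
  · exact hG.wr m k e Q' _ hm hk h3 (symm_of_HM hm_one (by rw [Matrix.det_one]; exact one_ne_zero))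
      (wreath_power hc' H') (hle.trans hQ')

theorem NO.no_tensor [Fintype F] (hG : NO f G) (hw : 2 ≤ w) (ht : 2 ≤ t)
    {e : Fin n ≃ Fin w × Fin t} {P : GL (Fin n) F} {A : Matrix (Fin w) (Fin w) F} {C : Matrix (Fin t) (Fin t) F}
    {δ₁ δ₂ : F} (h : TS (RingEquiv.refl F) 1 f e P A C δ₁ δ₂) (hle : G ≤ tensorProductSubgroup w t e P) : False := by
  classical
  have hcard : n = w * t := by
    have := Fintype.card_congr e
    rwa [Fintype.card_fin, Fintype.card_prod, Fintype.card_fin, Fintype.card_fin] at this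
  have hodd := hG.odd
  rw [hcard] at hodd
  obtain ⟨hwo, hto⟩ := Nat.odd_mul.1 hodd
  have hw3 : 3 ≤ w := by obtain ⟨a, ha⟩ := hwo; omega
  have ht3 : 3 ≤ t := by obtain ⟨a, ha⟩ := hto; omega
  have h2 := hG.orf.two
  have hδ₁ : δ₁ = 1 := skew_odd h2 hwo h.hA h.detA h.d1
  have hδ₂ : δ₂ = 1 := skew_odd h2 hto h.hC h.detC h.d2
  subst hδ₁ hδ₂
  rcases Nat.lt_trichotomy w t with hwt | hwt | hwt
  · exact hG.ten w t e P _ _ hw3 hwt (symm_of_HM h.hA h.detA) (symm_of_HM h.hC h.detC) (tensor_struct h) hle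
  · subst hwt
    exact hG.no_wreath hw3 hwo le_rfl (B := ![A, C]) (by
      intro i
      fin_cases i
      · exact h.hA.symmT
      · exact h.hC.symmT) (by
      intro i
      fin_cases i
      · exact h.detA
      · exact h.detC) one_ne_zero (ts_wreath h) (hle.trans (tensor_le_wreath e P))
  · exact hG.ten t w _ P _ _ ht3 hwt (symm_of_HM h.hC h.detC) (symm_of_HM h.hA h.detA) (tensor_struct h.swap)
      (hle.trans (tensor_swap e P))

theorem NO.dichotomy [Fintype F] (hG : NO f G) {N : Subgroup (GL (Fin n) F)} (hNG : N ≤ G)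
    (hN : ∀ g ∈ G, ∀ x ∈ N, g * x * g⁻¹ ∈ N) : N ≤ scalars (Fin n) F ∨ env N = ⊤ := by
  rcases hG.ng.dichotomy hG.pos hNG hN with h | h | ⟨w, t, e, P, A, C, δ₁, δ₂, hw, ht, hts, hδ, hle⟩
  · exact Or.inl h
  · exact Or.inr h
  · exact (hG.no_tensor hw ht hts hle).elim

/-- there are no symplectic-type subgroups in odd dimension -/
theorem NO.no_abelian [Fintype F] (hG : NO f G) {N : Subgroup (GL (Fin n) F)} (hNG : N ≤ G)
    (hNn : ∀ g ∈ G, ∀ x ∈ N, g * x * g⁻¹ ∈ N) (hNs : ¬ N ≤ scalars (Fin n) F)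
    (hab : ∀ x ∈ N, ∀ y ∈ N, ⁅x, y⁆ ∈ scalars (Fin n) F) : False := by
  classical
  have hn0 := hG.pos
  have henv : env N = ⊤ := (hG.dichotomy hNG hNn).resolve_left hNs
  have hNiso : N ≤ isoG f := fun x hx => hG.fix x (hNG hx)
  apply hNs
  intro x hx
  apply scalar_of_commute hn0 henv
  intro y hy
  obtain ⟨c, hc⟩ := mem_scalars.1 (hab x hx y hy)
  have h1 : ⁅x, y⁆ ∈ isoG f := by
    rw [commutatorElement_def]
    exact Subgroup.mul_mem _ (Subgroup.mul_mem _ (Subgroup.mul_mem _ (hNiso hx) (hNiso hy))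
      (Subgroup.inv_mem _ (hNiso hx))) (Subgroup.inv_mem _ (hNiso hy))
  rw [← hc] at h1
  have hcc : (c : F) * c = 1 := by
    obtain ⟨u, hu⟩ := hG.orf.sfm.nd _ (single_ne' (F := F) hn0)
    have h3 := mem_isoG.1 h1 u (Pi.single ⟨0, hn0⟩ 1)
    rw [sc_coe, Matrix.smul_mulVec, Matrix.one_mulVec, Matrix.smul_mulVec, Matrix.one_mulVec, hG.orf.sfm.smul_left,
      hG.orf.smul_right] at h3
    have h4 : ((c : F) * c - 1) * f u (Pi.single ⟨0, hn0⟩ 1) = 0 := by linear_combination h3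
    exact sub_eq_zero.1 ((mul_eq_zero.1 h4).resolve_right hu)
  have hdet : (c : F) ^ n = 1 := by
    have h3 : Matrix.GeneralLinearGroup.det (⁅x, y⁆ : GL (Fin n) F) = 1 := by
      rw [map_commutatorElement, commutatorElement_eq_one_iff_mul_comm, mul_comm]
    rw [← hc] at h3
    have h4 := congrArg Units.val h3
    rw [Matrix.GeneralLinearGroup.val_det_apply, sc_coe, Matrix.det_smul, Matrix.det_one, mul_one, Fintype.card_fin,
      Units.val_one] at h4
    exact h4
  have hc1 : c = 1 := by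
    apply Units.ext
    rw [Units.val_one]
    obtain ⟨a, ha⟩ := hG.odd
    have h5 : (c : F) ^ n = ((c : F) * c) ^ a * c := by
      rw [mul_pow, ← pow_add, ← pow_succ]
      congr 1
      omega
    rw [hdet, hcc, one_pow, one_mul] at h5
    exact h5.symm
  rw [hc1, map_one] at hc
  rw [← commutatorElement_eq_one_iff_mul_comm]
  exact hc.symm

/-- **Aschbacher's theorem** for odd-dimensional orthogonal groups, main part. -/
theorem NO.residual [Fintype F] (hn : 3 ≤ n) (hG : NO f G) : InOrthogonalResidualClass G := by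
  classical
  have hn0 : 0 < n := by omega
  haveI : Nonempty (Fin n) := ⟨⟨0, hn0⟩⟩
  obtain ⟨N, hNG, hNn, hNs, hmin, hcase⟩ := gl_main G (not_scalar_of_irr (by omega) hG.irr)
  rcases hcase with ⟨hab, r, hr, hpow⟩ | ⟨k, P, hk, hPN, hPp, hPZ, hPs, hPc, hPg, hPt, hPt'⟩
  · exact (hG.no_abelian hNG hNn hNs hab).elim
  · have hnorm : ∀ g ∈ G, ∀ x ∈ (⨆ i, P i), g * x * g⁻¹ ∈ (⨆ i, P i) := by
      intro g hg x hx
      obtain ⟨σ, hσ⟩ := hPg g hg
      refine Subgroup.iSup_induction P (C := fun x => g * x * g⁻¹ ∈ (⨆ i, P i)) hx ?_ ?_ ?_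
      · intro i x hx
        exact Subgroup.mem_iSup_of_mem (σ i) (hσ i x hx)
      · rw [mul_one, mul_inv_cancel]; exact Subgroup.one_mem _
      · intro a b ha hb
        have : g * (a * b) * g⁻¹ = (g * a * g⁻¹) * (g * b * g⁻¹) := by group
        rw [this]; exact Subgroup.mul_mem _ ha hb
    have hPG : (⨆ i, P i) ≤ G := iSup_le (fun i => (hPN i).trans hNG)
    have henv : env (⨆ i, P i) = ⊤ := by
      refine (hG.dichotomy hPG hnorm).resolve_left ?_
      intro h
      exact hPZ ⟨0, hk⟩ ((le_iSup P _).trans h)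
    by_cases hk1 : k = 1
    · subst hk1
      have hP0 : (⨆ i, P i) = P 0 := by
        apply le_antisymm
        · apply iSup_le
          intro i
          rw [Subsingleton.elim i 0]
        · exact le_iSup P 0
      rw [hP0] at henv hnorm hPG
      have hPiso : P 0 ≤ isoG f := fun x hx => hG.fix x (hPG hx)
      have hnsub : ∀ F₀ : Subfield F, F₀ ≠ ⊤ → ¬ RealisableOver F₀ (matrixSet (P 0)) := by
        intro F₀ hF₀ hreal
        obtain ⟨F₁, r, hle, hr, hcard⟩ := exists_max_subfield F₀ hF₀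
        obtain ⟨B', hB'⟩ := hreal
        set B := B'⁻¹ with hBdef
        have hmem : ∀ g ∈ G, g ∈ subfieldSubgroup F₁ B :=
          fun g hg => subfield_mono hle _ (normaliser_le_subfield F₀ hn0 henv B' hB' (hnorm g hg))
        have hB : ∀ s ∈ P 0, ∀ i j, ((B⁻¹ * s * B : GL (Fin n) F) : Matrix (Fin n) (Fin n) F) i j ∈ F₁ := by
          intro s hs i j
          rw [hBdef, inv_inv, Units.val_mul, Units.val_mul]
          exact hle (hB' _ ⟨s, hs, rfl⟩ i j)
        obtain ⟨i₀, j₀, h0, hrat⟩ := rational_gram hn0 hG.orf.sfm henv F₁ B hB (fun s hs => by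
          refine ⟨1, F₁.one_mem, one_ne_zero, ?_⟩
          intro u v
          rw [mem_isoG.1 (hPiso hs), one_mul])
        obtain ⟨P', h1, h2⟩ := rat_one hG.orf hG.odd (hG.rat F₁) (inv_ne_zero h0)
          (rational_of_entries hG.orf.sfm hrat)
        exact hG.sub F₁ r P' hr hcard h1 (fun g hg => h2 (hmem g hg))
      refine ⟨P 0, core_of_simple' hn0 hPG hnorm (hPp 0) (hPs 0) (hPZ 0) henv hnsub, ?_⟩
      rintro ⟨σ, g, hg, hfix⟩
      obtain ⟨H, hH, hfH⟩ := exists_mat hG.orf.sfm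
      refine hnsub _ (FixF_ne_top hg.ne_refl) (bilinear_real hn0 (SFm.of_unitary hg) hg.ne_refl henv
        (fun x hx => hfix _ ⟨x, hx, rfl⟩) hH ?_)
      intro x hx
      have h3 := (fixes_iff (RingHom.id F) H (x : Matrix (Fin n) (Fin n) F)).1 (by
        intro u v
        have e1 := hfH u v
        have e2 := hfH ((x : Matrix (Fin n) (Fin n) F) *ᵥ u) ((x : Matrix (Fin n) (Fin n) F) *ᵥ v)
        have e3 := mem_isoG.1 (hPiso hx) u v
        rw [e1, e2] at e3
        exact e3)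
      have hid : ∀ A : Matrix (Fin n) (Fin n) F, A.map (RingHom.id F) = A := fun A => by ext i j; rfl
      rwa [hid] at h3
    · exfalso
      obtain ⟨m, e, Q, A, δ, c, hm, hle, hA, hc, hδ, hHM, -, hform⟩ := tensor_power_form hn0 hG.orf.sfm hk P hPc henv hPZ
        G hG.fix (fun i => (hPN i).trans hNG) hPg (fun i j => by
          obtain ⟨g, h1, hg⟩ := hPt i j
          exact ⟨g, h1, hg⟩)
      have hcard : n = m ^ k := by
        have := Fintype.card_congr e
        rwa [Fintype.card_fin, Fintype.card_fun, Fintype.card_fin, Fintype.card_fin] at this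
      have hmo : Odd m := by
        have h1 := hG.odd
        rw [hcard] at h1
        exact (Nat.odd_pow_iff (by omega)).1 h1
      have hδ1 := skew_odd hG.orf.two hmo hHM hA hδ
      subst hδ1
      exact hG.no_wreath (B := fun _ => A) (by obtain ⟨a, ha⟩ := hmo; omega) hmo (by omega) (fun _ => hHM.symmT)
        (fun _ => hA) hc hform hle

end Cfsg.Agent.H29.Fm
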