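import Mathlib
import Cfsg.Agent.H29_Or5

set_option autoImplicit false

/-! Aschbacher's theorem for odd-dimensional orthogonal groups: the standard form -/

namespace Cfsg.Agent.H29.Fm

open Matrix Module Cfsg.Geo Cfsg.Agent.H29.Clifford Cfsg.Agent.H29.Asc Cfsg.Agent.H29.AscF Cfsg.Agent.H29.Trv
  Cfsg.Agent.H29.AscT Cfsg.Agent.H29.Rx
open scoped Kronecker commutatorElement

variable {F : Type*} [Field F] {m : ℕ}

/-- the index set -/
abbrev Io (m : ℕ) : Type := Unit ⊕ (Fin m ⊕ Fin m)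

/-- the polar form -/
abbrev fo (m : ℕ) (F : Type*) [Field F] : (Io m → F) → (Io m → F) → F := QuadraticMap.polar (Cfsg.quadFormOdd m F)

theorem fo_apply (u v : Io m → F) : fo m F u v = 2 * (u (.inl ()) * v (.inl ())) +
    ∑ i : Fin m, (u (.inr (.inl i)) * v (.inr (.inr i)) + v (.inr (.inl i)) * u (.inr (.inr i))) := by
  have h1 : ∑ i : Fin m, (u (.inr (.inl i)) * v (.inr (.inr i)) + v (.inr (.inl i)) * u (.inr (.inr i))) =
      ∑ i : Fin m, (u (.inr (.inl i)) + v (.inr (.inl i))) * (u (.inr (.inr i)) + v (.inr (.inr i))) -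
      ∑ i : Fin m, u (.inr (.inl i)) * u (.inr (.inr i)) - ∑ i : Fin m, v (.inr (.inl i)) * v (.inr (.inr i)) := by
    rw [← Finset.sum_sub_distrib, ← Finset.sum_sub_distrib]
    apply Finset.sum_congr rfl
    intro i _
    ring
  rw [h1]
  show ((u (.inl ()) + v (.inl ())) ^ 2 + ∑ i : Fin m, (u (.inr (.inl i)) + v (.inr (.inl i))) * (u (.inr (.inr i)) + v (.inr (.inr i)))) -
    (u (.inl ()) ^ 2 + ∑ i : Fin m, u (.inr (.inl i)) * u (.inr (.inr i))) -
    (v (.inl ()) ^ 2 + ∑ i : Fin m, v (.inr (.inl i)) * v (.inr (.inr i))) = _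
  ring

theorem fo_symm (u v : Io m → F) : fo m F u v = fo m F v u := QuadraticMap.polar_comm _ u v

theorem fo_add_left (x y v : Io m → F) : fo m F (x + y) v = fo m F x v + fo m F y v := by
  rw [fo_apply, fo_apply, fo_apply]
  have h1 : ∀ i : Fin m, (x + y) (.inr (.inl i)) * v (.inr (.inr i)) + v (.inr (.inl i)) * (x + y) (.inr (.inr i)) =
      (x (.inr (.inl i)) * v (.inr (.inr i)) + v (.inr (.inl i)) * x (.inr (.inr i))) +
      (y (.inr (.inl i)) * v (.inr (.inr i)) + v (.inr (.inl i)) * y (.inr (.inr i))) := by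
    intro i
    rw [Pi.add_apply, Pi.add_apply]
    ring
  rw [Finset.sum_congr rfl (fun i _ => h1 i), Finset.sum_add_distrib, Pi.add_apply]
  ring

theorem fo_smul_left (c : F) (x v : Io m → F) : fo m F (c • x) v = c * fo m F x v := by
  rw [fo_apply, fo_apply, mul_add, Finset.mul_sum]
  congr 1
  · rw [Pi.smul_apply, smul_eq_mul]; ring
  · apply Finset.sum_congr rfl
    intro i _
    rw [Pi.smul_apply, Pi.smul_apply, smul_eq_mul, smul_eq_mul]
    ring

theorem fo_self (v : Io m → F) : fo m F v v = 2 * Cfsg.quadFormOdd m F v := by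
  rw [fo_apply]
  show _ = 2 * (v (.inl ()) ^ 2 + ∑ i : Fin m, v (.inr (.inl i)) * v (.inr (.inr i)))
  rw [mul_add, Finset.mul_sum]
  congr 1
  · ring
  · apply Finset.sum_congr rfl
    intro i _
    ring

theorem fo_nd (h2 : (2 : F) ≠ 0) (v : Io m → F) (hv : v ≠ 0) : ∃ x, fo m F x v ≠ 0 := by
  by_contra hcon
  push Not at hcon
  apply hv
  funext j
  rcases j with ⟨⟩ | j | j
  · have h1 := hcon (Pi.single (.inl ()) 1)
    rw [fo_apply, Pi.single_eq_same, Finset.sum_eq_zero, add_zero, one_mul] at h1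
    · exact (mul_eq_zero.1 h1).resolve_left h2
    · intro i _
      rw [Pi.single_eq_of_ne (by simp), Pi.single_eq_of_ne (by simp)]
      ring
  · have h1 := hcon (Pi.single (.inr (.inr j)) 1)
    rw [fo_apply, Pi.single_eq_of_ne (by simp), zero_mul, mul_zero, zero_add, Finset.sum_eq_single j] at h1
    · rw [Pi.single_eq_of_ne (by simp), zero_mul, zero_add, Pi.single_eq_same, mul_one] at h1
      exact h1
    · intro i _ hij
      rw [Pi.single_eq_of_ne (by simp), Pi.single_eq_of_ne (by simpa using hij)]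
      ring
    · intro h; exact absurd (Finset.mem_univ _) h
  · have h1 := hcon (Pi.single (.inr (.inl j)) 1)
    rw [fo_apply, Pi.single_eq_of_ne (by simp), zero_mul, mul_zero, zero_add, Finset.sum_eq_single j] at h1
    · rw [Pi.single_eq_of_ne (i := Sum.inr (Sum.inl j)) (i' := Sum.inr (Sum.inr j)) (by simp), mul_zero, add_zero, Pi.single_eq_same, one_mul] at h1
      exact h1
    · intro i _ hij
      rw [Pi.single_eq_of_ne (i := Sum.inr (Sum.inl j)) (i' := Sum.inr (Sum.inr i)) (by simp), Pi.single_eq_of_ne (by simpa using hij)]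
      ring
    · intro h; exact absurd (Finset.mem_univ _) h

/-- the index equivalence -/
def e3 (m : ℕ) : Io m ≃ Fin (1 + (m + m)) :=
  (Equiv.sumCongr (Equiv.ofUnique Unit (Fin 1)) (finSumFinEquiv : Fin m ⊕ Fin m ≃ Fin (m + m))).trans finSumFinEquiv

theorem or_std (h2 : (2 : F) ≠ 0) : OrF (pf (e3 m).symm (fo m F)) where
  two := h2
  sfm :=
    { eps := Or.inl rfl
      inv := fun a => rfl
      add_left := by
        intro x y v
        show fo m F (L (e3 m).symm (x + y)) _ = _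
        rw [map_add, fo_add_left]
        rfl
      smul_left := by
        intro c x v
        show fo m F (L (e3 m).symm (c • x)) _ = _
        rw [map_smul, fo_smul_left]
        rfl
      herm := by
        intro u v
        rw [RingEquiv.refl_apply, one_mul]
        exact fo_symm _ _
      nd := by
        intro v hv
        obtain ⟨x, hx⟩ := fo_nd h2 (L (e3 m).symm v) (fun h0 => hv ((L (e3 m).symm).map_eq_zero_iff.1 h0))
        refine ⟨L (e3 m) x, ?_⟩
        show fo m F (L (e3 m).symm (L (e3 m) x)) _ ≠ 0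
        rw [L_L]
        exact hx }

theorem isom_pull {e : Io m ≃ Fin (1 + (m + m))} (h2 : (2 : F) ≠ 0) {W W' : Submodule F (Fin (1 + (m + m)) → F)}
    (h : AreIsometricFor (fun v => pf e.symm (fo m F) v v) W W') :
    AreIsometricFor (Cfsg.quadFormOdd m F) (cW e W) (cW e W') := by
  obtain ⟨φ, hφ⟩ := h
  let ψ : ∀ U : Submodule F (Fin (1 + (m + m)) → F), cW e U ≃ₗ[F] U := fun U => (L e).ofSubmodule' U
  have hψ : ∀ (U : Submodule F (Fin (1 + (m + m)) → F)) (x : cW e U), ((ψ U x : U) : Fin (1 + (m + m)) → F) =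
      L e (x : Io m → F) := fun U x => rfl
  have hψ' : ∀ (U : Submodule F (Fin (1 + (m + m)) → F)) (x : U), (((ψ U).symm x : cW e U) : Io m → F) =
      L e.symm (x : Fin (1 + (m + m)) → F) := by
    intro U x
    apply (L e).injective
    rw [← hψ, LinearEquiv.apply_symm_apply, L_L']
  refine ⟨(ψ W).trans (φ.trans (ψ W').symm), ?_⟩
  intro w
  have h1 : (((((ψ W).trans (φ.trans (ψ W').symm)) w : cW e W')) : Io m → F) = L e.symm (φ (ψ W w)) := hψ' _ _
  rw [h1]
  have h3 := hφ (ψ W w)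
  have h4 : pf e.symm (fo m F) (φ (ψ W w) : Fin (1 + (m + m)) → F) (φ (ψ W w) : Fin (1 + (m + m)) → F) =
    pf e.symm (fo m F) (ψ W w : Fin (1 + (m + m)) → F) (ψ W w : Fin (1 + (m + m)) → F) := h3
  have h5 : ∀ x, pf e.symm (fo m F) x x = 2 * Cfsg.quadFormOdd m F (L e.symm x) := fun x => fo_self _
  rw [h5, h5] at h4
  have h6 := mul_left_cancel₀ h2 h4
  rw [h6, hψ, L_L]

theorem NO_of [Fintype F] (h2 : (2 : F) ≠ 0) {H : Subgroup (GL (Io m) F)}
    (hH : H ≤ Cfsg.isometryGroup F (Cfsg.quadFormOdd m F))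
    (hcls : ∀ M : Subgroup (GL (Io m) F), InOrthogonalOddClass m F M → ¬ H ≤ M) :
    NO (pf (e3 m).symm (fo m F)) (cR (e3 m).symm H) := by
  have hff : pf (e3 m) (pf (e3 m).symm (fo m F)) = fo m F := pf_pf _ _
  have cls : ∀ (M' : Subgroup (GL (Fin (1 + (m + m))) F)) (M : Subgroup (GL (Io m) F)),
      (∀ g, glReindex (e3 m) g ∈ M' ↔ g ∈ M) →
      InOrthogonalOddClass m F (M ⊓ Cfsg.isometryGroup F (Cfsg.quadFormOdd m F)) → ¬ cR (e3 m).symm H ≤ M' :=
    fun M' M hM hc hle => hcls _ hc (le_inf (le_of_pull _ hM hle) hH)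
  refine ⟨or_std h2, ⟨m, by omega⟩, ?_, ?_, ?_, ?_, ?_, ?_, ?_, ?_, ?_⟩
  · intro g hg u v
    have hg' : glReindex (e3 m).symm g ∈ H := hg
    have h1 : ∀ x, Cfsg.quadFormOdd m F (((glReindex (e3 m).symm g : GL (Io m) F) : Matrix (Io m) (Io m) F) *ᵥ x) =
        Cfsg.quadFormOdd m F x := fun x => (hH hg') x x
    have h3 := h1 (L (e3 m).symm u + L (e3 m).symm v)
    have h4 := h1 (L (e3 m).symm u)
    have h5 := h1 (L (e3 m).symm v)
    rw [Matrix.mulVec_add, act, act] at h3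
    rw [act] at h4 h5
    show Cfsg.quadFormOdd m F (_ + _) - Cfsg.quadFormOdd m F _ - Cfsg.quadFormOdd m F _ =
      Cfsg.quadFormOdd m F (_ + _) - Cfsg.quadFormOdd m F _ - Cfsg.quadFormOdd m F _
    rw [h3, h4, h5]
  · intro F₁ i j
    have hs : ∀ (i : Fin (1 + (m + m))) (a : Io m), L (e3 m).symm (Pi.single i (1 : F)) a ∈ F₁ := by
      intro i a
      rw [Rx.L_apply, Pi.single_apply]
      split_ifs
      · exact F₁.one_mem
      · exact F₁.zero_mem
    show fo m F _ _ ∈ F₁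
    rw [fo_apply]
    refine F₁.add_mem (F₁.mul_mem ?_ (F₁.mul_mem (hs _ _) (hs _ _))) (F₁.sum_mem fun a _ =>
      F₁.add_mem (F₁.mul_mem (hs _ _) (hs _ _)) (F₁.mul_mem (hs _ _) (hs _ _)))
    exact ofNat_mem F₁ 2
  · intro W' h1 h3
    refine cls _ _ (fun g => stab_iff _) (Or.inl ⟨cW (e3 m) W', cW_bot _ h1, ?_, rfl⟩)
    intro w hw
    have h4 : fo m F w w = 0 := by
      have := ts_pull (e3 m) h3 w hw w hw
      rw [hff] at this
      exact this
    rw [fo_self] at h4
    exact (mul_eq_zero.1 h4).resolve_left h2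
  · intro W' h1 h3 h4
    refine cls _ _ (fun g => stab_iff _) (Or.inr (Or.inl ⟨cW (e3 m) W', cW_bot _ h1, cW_top _ h3, ?_, rfl⟩))
    show IsNondegenerateOn (fo m F) _
    rw [← hff]; exact nd_pull _ h4
  · intro t k D' hk hD' hiso
    have hdec : IsOrthogonalMDecomposition (Cfsg.quadFormOdd m F) k (fun i => cW (e3 m) (D' i)) := by
      refine ⟨?_, fun i j => isom_pull h2 (hiso i j)⟩
      show IsNondegenerateMDecomposition (fo m F) _ _
      rw [← hff]; exact ndec_pull _ hD'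
    rcases hk with hk | ⟨rfl, hF⟩
    · exact cls _ _ (fun g => decStab_iff _) (Or.inr (Or.inr (Or.inl ⟨t, k, fun i => cW (e3 m) (D' i), hk, hdec, rfl⟩)))
    · exact cls _ _ (fun g => decStab_iff _) (Or.inr (Or.inr (Or.inr (Or.inl ⟨t, fun i => cW (e3 m) (D' i), hF, hdec, rfl⟩))))
  · intro r K' hr hne hK' hsa
    refine cls _ _ (fun g => norm_iff _) (Or.inr (Or.inr (Or.inr (Or.inr (Or.inl
      ⟨r, cK (e3 m) K', hr, by omega, fld_pull _ hK', ?_, rfl⟩)))))
    show IsSelfAdjointFor (fo m F) _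
    rw [← hff]; exact sa_pull _ hsa
  · intro n₁ n₂ e' P' f₁ f₂ h1 h3 hf₁ hf₂ hst
    refine cls _ _ (fun g => tp_iff _) (Or.inr (Or.inr (Or.inr (Or.inr (Or.inr (Or.inl
      ⟨n₁, n₂, (e3 m).trans e', glReindex (e3 m).symm P', f₁, f₂, h1, h3, hf₁, hf₂, ?_, rfl⟩))))))
    show IsTensorFormStructure id (fo m F) _ _ _ _
    rw [← hff]; exact tpf_pull _ hst
  · intro F₀ r P' hr hc hst
    refine cls _ _ (fun g => sub_iff _) (Or.inr (Or.inr (Or.inr (Or.inr (Or.inr (Or.inr (Or.inl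
      ⟨F₀, r, glReindex (e3 m).symm P', hr, hc, ?_, rfl⟩)))))))
    intro u hu
    have h1 := (subf_pull (e3 m) hst) u u hu hu
    rw [hff, one_mul, fo_self] at h1
    have h3 : Cfsg.quadFormOdd m F (((glReindex (e3 m).symm P' : GL (Io m) F) : Matrix (Io m) (Io m) F) *ᵥ u) =
        2⁻¹ * (2 * Cfsg.quadFormOdd m F (((glReindex (e3 m).symm P' : GL (Io m) F) : Matrix (Io m) (Io m) F) *ᵥ u)) := by
      rw [← mul_assoc, inv_mul_cancel₀ h2, one_mul]
    rw [h3]
    exact F₀.mul_mem (F₀.inv_mem (ofNat_mem F₀ 2)) h1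
  · intro k t e' P' f₁ hk ht hne hf₁ hst
    refine cls _ _ (fun g => tw_iff _) (Or.inr (Or.inr (Or.inr (Or.inr (Or.inr (Or.inr (Or.inr
      ⟨k, t, (e3 m).trans e', glReindex (e3 m).symm P', f₁, hk, ht, hne, hf₁, ?_, rfl⟩)))))))
    show IsTensorPowerFormStructure id (fo m F) _ _ _
    rw [← hff]; exact twf_pull _ hst

theorem omega_le (Q : (Io m → F) → F) : omegaGL Q ≤ Cfsg.isometryGroup F Q := by
  rintro _ ⟨x, -, rfl⟩
  exact x.2

theorem OO_residual [Fintype F] (h2 : (2 : F) ≠ 0) (hm : 1 ≤ m) {H : Subgroup (GL (Io m) F)}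
    (hH : H ≤ Cfsg.isometryGroup F (Cfsg.quadFormOdd m F))
    (hcls : ∀ M : Subgroup (GL (Io m) F), InOrthogonalOddClass m F M → ¬ H ≤ M) :
    InOrthogonalResidualClass H := by
  have h1 := NO.residual (by omega) (NO_of h2 hH hcls)
  have h3 := res_orth_pull (e3 m) h1
  rwa [cR_cR] at h3

theorem two_ne_of_odd [Fintype F] (h : Odd (Fintype.card F)) : (2 : F) ≠ 0 := fun h2 => not_odd_of_two h2 h

end Cfsg.Agent.H29.Fm
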