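import Mathlib
import Cfsg.Agent.H29_Or6

set_option autoImplicit false

/-! singular vectors of symmetric forms over finite fields of odd order; Siegel transformations -/

namespace Cfsg.Agent.H29.Fm

open Matrix Module Cfsg.Geo Cfsg.Agent.H29.Clifford Cfsg.Agent.H29.Asc Cfsg.Agent.H29.AscF Cfsg.Agent.H29.Trv
  Cfsg.Agent.H29.AscT
open scoped Kronecker commutatorElement

variable {F : Type*} [Field F] {n k m r w t : ℕ}
variable {f : (Fin n → F) → (Fin n → F) → F}
variable {G X : Subgroup (GL (Fin n) F)}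

theorem fr_inf (h : OrF f) (U S : Submodule F (Fin n → F)) :
    finrank F U ≤ finrank F ↥(U ⊓ perp h.sfm S) + finrank F S := by
  have h1 := Submodule.finrank_sup_add_finrank_inf_eq U (perp h.sfm S)
  have h2 := finrank_perp h.sfm S
  have h3 : finrank F ↥(U ⊔ perp h.sfm S) ≤ n := by
    have := Submodule.finrank_le (U ⊔ perp h.sfm S)
    rwa [Module.finrank_fintype_fun_eq_card, Fintype.card_fin] at this
  omega

theorem mem_perp_span (h : OrF f) {ι : Type*} {s : ι → (Fin n → F)} {v : Fin n → F} :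
    v ∈ perp h.sfm (Submodule.span F (Set.range s)) ↔ ∀ i, f v (s i) = 0 := by
  rw [mem_perp]
  constructor
  · intro h1 i
    exact h1 _ (Submodule.subset_span ⟨i, rfl⟩)
  · intro h1 w hw
    induction hw using Submodule.span_induction with
    | mem x hx => obtain ⟨i, rfl⟩ := hx; exact h1 i
    | zero => exact h.sfm.zero_right _
    | add x y _ _ hx hy => rw [h.sfm.add_right, hx, hy, add_zero]
    | smul c x _ hx => rw [h.smul_right, hx, mul_zero]

theorem exists_perp_vec (h : OrF f) (U : Submodule F (Fin n → F)) {t : ℕ} (s : Fin t → (Fin n → F))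
    (ht : t < finrank F U) : ∃ v ∈ U, v ≠ 0 ∧ ∀ i, f v (s i) = 0 := by
  have h1 := fr_inf h U (Submodule.span F (Set.range s))
  have h2 := finrank_range_le_card (R := F) s
  rw [Fintype.card_fin] at h2
  have h3 : finrank F (Submodule.span F (Set.range s)) ≤ t := h2
  have h4 : (U ⊓ perp h.sfm (Submodule.span F (Set.range s))) ≠ ⊥ := by
    intro h0
    rw [h0, finrank_bot] at h1
    omega
  obtain ⟨v, ⟨hvU, hv⟩, hv0⟩ := Submodule.exists_mem_ne_zero_of_ne_bot h4
  exact ⟨v, hvU, hv0, (mem_perp_span h).1 hv⟩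

/-- three-dimensional subspaces contain singular vectors -/
theorem iso3 [Fintype F] (h : OrF f) {U : Submodule F (Fin n → F)} (hU : 3 ≤ finrank F U) :
    ∃ z ∈ U, z ≠ 0 ∧ f z z = 0 := by
  by_contra hcon
  push Not at hcon
  obtain ⟨u₁, hu₁, h1, -⟩ := exists_perp_vec h U (t := 0) Fin.elim0 (by omega)
  obtain ⟨u₂, hu₂, h2, h21⟩ := exists_perp_vec h U (t := 1) ![u₁] (by omega)
  obtain ⟨u₃, hu₃, h3, h31⟩ := exists_perp_vec h U (t := 2) ![u₁, u₂] (by omega)
  have e21 : f u₂ u₁ = 0 := h21 0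
  have e31 : f u₃ u₁ = 0 := h31 0
  have e32 : f u₃ u₂ = 0 := h31 1
  have e12 : f u₁ u₂ = 0 := by rw [h.symm']; exact e21
  have e13 : f u₁ u₃ = 0 := by rw [h.symm']; exact e31
  have e23 : f u₂ u₃ = 0 := by rw [h.symm']; exact e32
  obtain ⟨x, y, hxy⟩ := one_rep h.two (hcon u₁ hu₁ h1) (hcon u₂ hu₂ h2) (-(f u₃ u₃))
  apply hcon (x • u₁ + y • u₂ + u₃) (U.add_mem (U.add_mem (U.smul_mem _ hu₁) (U.smul_mem _ hu₂)) hu₃)
  · intro h0
    apply hcon u₃ hu₃ h3
    have h4 := congrArg (fun z => f z u₃) h0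
    simp only [h.sfm.add_left, h.sfm.smul_left, h.sfm.zero_left, e13, e23] at h4
    rw [mul_zero, mul_zero, zero_add, zero_add] at h4
    exact h4
  · simp only [h.sfm.add_left, h.sfm.add_right, h.sfm.smul_left, h.smul_right, e12, e13, e21, e23, e31, e32]
    linear_combination hxy

/-- hyperbolic partners -/
theorem partner (h : OrF f) {z : Fin n → F} (hz : z ≠ 0) (hzz : f z z = 0) : ∃ z', f z' z' = 0 ∧ f z z' = 1 := by
  obtain ⟨u, hu⟩ := h.sfm.nd z hz
  rw [h.symm'] at hu
  set u' := (f z u)⁻¹ • u with hu'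
  have h1 : f z u' = 1 := by rw [hu', h.smul_right, inv_mul_cancel₀ hu]
  clear_value u'
  refine ⟨u' - (f u' u' / 2) • z, ?_, ?_⟩
  · have h3 : f u' z = 1 := by rw [h.symm']; exact h1
    rw [h.sfm.sub_left, h.sfm.sub_right, h.sfm.sub_right, h.sfm.smul_left, h.sfm.smul_left, h.smul_right, h.smul_right,
      hzz, h1, h3]
    have := h.two
    field_simp
    ring
  · rw [h.sfm.sub_right, h.smul_right, hzz, mul_zero, sub_zero, h1]

/-- partners orthogonal to a hyperbolic pair -/
theorem partner2 (h : OrF f) {e e' z : Fin n → F} (he : f e e = 0) (he' : f e' e' = 0) (hee : f e e' = 1) (hz : z ≠ 0)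
    (hzz : f z z = 0) (hze : f z e = 0) (hze' : f z e' = 0) :
    ∃ z', f z' z' = 0 ∧ f z z' = 1 ∧ f z' e = 0 ∧ f z' e' = 0 := by
  obtain ⟨u, hu⟩ := h.sfm.nd z hz
  rw [h.symm'] at hu
  have hee' : f e' e = 1 := by rw [h.symm']; exact hee
  set u₀ := (f z u)⁻¹ • u with hu₀
  have h1 : f z u₀ = 1 := by rw [hu₀, h.smul_right, inv_mul_cancel₀ hu]
  clear_value u₀
  set u₁ := u₀ - (f u₀ e') • e - (f u₀ e) • e' with hu₁
  have a1 : f z u₁ = 1 := by
    rw [hu₁, h.sfm.sub_right, h.sfm.sub_right, h.smul_right, h.smul_right, hze, hze', h1]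
    ring
  have a2 : f u₁ e = 0 := by
    rw [hu₁, h.sfm.sub_left, h.sfm.sub_left, h.sfm.smul_left, h.sfm.smul_left, he, hee']
    ring
  have a3 : f u₁ e' = 0 := by
    rw [hu₁, h.sfm.sub_left, h.sfm.sub_left, h.sfm.smul_left, h.sfm.smul_left, he', hee]
    ring
  have a4 : f u₁ z = 1 := by rw [h.symm']; exact a1
  clear_value u₁
  refine ⟨u₁ - (f u₁ u₁ / 2) • z, ?_, ?_, ?_, ?_⟩
  · rw [h.sfm.sub_left, h.sfm.sub_right, h.sfm.sub_right, h.sfm.smul_left, h.sfm.smul_left, h.smul_right, h.smul_right,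
      hzz, a1, a4]
    have := h.two
    field_simp
    ring
  · rw [h.sfm.sub_right, h.smul_right, hzz, mul_zero, sub_zero, a1]
  · rw [h.sfm.sub_left, h.sfm.smul_left, hze, mul_zero, sub_zero, a2]
  · rw [h.sfm.sub_left, h.sfm.smul_left, hze', mul_zero, sub_zero, a3]

/-- singular vectors separate -/
theorem sing_sep [Fintype F] (h : OrF f) (hn : 3 ≤ n) {v : Fin n → F} (hv : v ≠ 0) : ∃ e, f e e = 0 ∧ f v e ≠ 0 := by
  by_contra hcon
  push Not at hcon
  obtain ⟨z, -, hz, hzz⟩ := iso3 h (U := ⊤) (by rw [finrank_top, Module.finrank_fintype_fun_eq_card, Fintype.card_fin]; exact hn)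
  obtain ⟨z', hz', hzz'⟩ := partner h hz hzz
  have hz'z : f z' z = 1 := by rw [h.symm']; exact hzz'
  apply hv
  apply h.sfm.ext_left
  intro u
  rw [h.sfm.zero_left]
  set w := u - (f u z') • z - (f u z) • z' with hw
  have w1 : f w z = 0 := by
    rw [hw, h.sfm.sub_left, h.sfm.sub_left, h.sfm.smul_left, h.sfm.smul_left, hzz, hz'z]; ring
  have w2 : f w z' = 0 := by
    rw [hw, h.sfm.sub_left, h.sfm.sub_left, h.sfm.smul_left, h.sfm.smul_left, hz', hzz']; ring
  have w1' : f z w = 0 := by rw [h.symm']; exact w1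
  have w2' : f z' w = 0 := by rw [h.symm']; exact w2
  have h1 := hcon (z' + w - (f w w / 2) • z) (by
    simp only [h.sfm.add_left, h.sfm.add_right, h.sfm.sub_left, h.sfm.sub_right, h.sfm.smul_left, h.smul_right, hz',
      hzz, hzz', hz'z, w1, w2, w1', w2']
    have := h.two
    field_simp
    ring)
  have h2 : f v z = 0 := hcon z hzz
  have h3 : f v z' = 0 := hcon z' hz'
  rw [h.sfm.sub_right, h.sfm.add_right, h.smul_right, h2, h3, mul_zero, sub_zero, zero_add] at h1
  have h4 : u = w + (f u z') • z + (f u z) • z' := by rw [hw]; abel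
  rw [h4, h.sfm.add_right, h.sfm.add_right, h.smul_right, h.smul_right, h1, h2, h3]
  ring

/-- singular vectors separate in the residue of a singular point -/
theorem sing_sep2 [Fintype F] (h : OrF f) (hn : 5 ≤ n) {e y : Fin n → F} (he0 : e ≠ 0) (he : f e e = 0) (hye : f y e = 0)
    (hy : ∀ c : F, y ≠ c • e) : ∃ x, f x x = 0 ∧ f e x = 0 ∧ f y x ≠ 0 := by
  by_contra hcon
  push Not at hcon
  obtain ⟨e', he', hee⟩ := partner h he0 he
  have hee' : f e' e = 1 := by rw [h.symm']; exact hee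
  -- a singular vector orthogonal to both
  have hdim : 3 ≤ finrank F (perp h.sfm (Submodule.span F (Set.range ![e, e']))) := by
    have h1 := finrank_perp h.sfm (Submodule.span F (Set.range ![e, e']))
    have h2 := finrank_range_le_card (R := F) ![e, e']
    rw [Fintype.card_fin] at h2
    have h3 : finrank F (Submodule.span F (Set.range ![e, e'])) ≤ 2 := h2
    omega
  obtain ⟨z, hzU, hz, hzz⟩ := iso3 h hdim
  have hze : f z e = 0 := (mem_perp_span h).1 hzU 0
  have hze' : f z e' = 0 := (mem_perp_span h).1 hzU 1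
  obtain ⟨z', hz', hzz', hz'e, hz'e'⟩ := partner2 h he he' hee hz hzz hze hze'
  have hz'z : f z' z = 1 := by rw [h.symm']; exact hzz'
  have hez : f e z = 0 := by rw [h.symm']; exact hze
  have he'z : f e' z = 0 := by rw [h.symm']; exact hze'
  have hez' : f e z' = 0 := by rw [h.symm']; exact hz'e
  have he'z' : f e' z' = 0 := by rw [h.symm']; exact hz'e'
  apply hy (f y e')
  apply h.sfm.ext_left
  intro u
  set w := u - (f u e') • e - (f u e) • e' - (f u z') • z - (f u z) • z' with hw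
  have w1 : f w e = 0 := by
    rw [hw]
    simp only [h.sfm.sub_left, h.sfm.smul_left, he, hee', hze, hz'e]
    ring
  have w2 : f w e' = 0 := by
    rw [hw]
    simp only [h.sfm.sub_left, h.sfm.smul_left, he', hee, hze', hz'e']
    ring
  have w3 : f w z = 0 := by
    rw [hw]
    simp only [h.sfm.sub_left, h.sfm.smul_left, hez, he'z, hzz, hz'z]
    ring
  have w4 : f w z' = 0 := by
    rw [hw]
    simp only [h.sfm.sub_left, h.sfm.smul_left, hez', he'z', hzz', hz']
    ring
  have w1' : f e w = 0 := by rw [h.symm']; exact w1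
  have w3' : f z w = 0 := by rw [h.symm']; exact w3
  have w4' : f z' w = 0 := by rw [h.symm']; exact w4
  have h1 := hcon (z' + w - (f w w / 2) • z) (by
    simp only [h.sfm.add_left, h.sfm.add_right, h.sfm.sub_left, h.sfm.sub_right, h.sfm.smul_left, h.smul_right, hz',
      hzz, hzz', hz'z, w3, w4, w3', w4']
    have := h.two
    field_simp
    ring) (by
    simp only [h.sfm.add_right, h.sfm.sub_right, h.smul_right, hez, hez', w1']
    ring)
  have h2 : f y z = 0 := hcon z hzz hez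
  have h3 : f y z' = 0 := hcon z' hz' hez'
  rw [h.sfm.sub_right, h.sfm.add_right, h.smul_right, h2, h3, mul_zero, sub_zero, zero_add] at h1
  have h4 : u = w + (f u e') • e + (f u e) • e' + (f u z') • z + (f u z) • z' := by rw [hw]; abel
  rw [h4]
  simp only [h.sfm.add_right, h.smul_right, h.sfm.smul_left, h1, h2, h3, hye, w1', he, hee, hez, hez']
  ring

/-- singular vectors spanning the residue -/
theorem sing_pair [Fintype F] (h : OrF f) (hn : 5 ≤ n) {e : Fin n → F} (he0 : e ≠ 0) (he : f e e = 0) :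
    ∃ x₁ x₂, f x₁ x₁ = 0 ∧ f x₂ x₂ = 0 ∧ f e x₁ = 0 ∧ f e x₂ = 0 ∧ f x₁ x₂ ≠ 0 := by
  obtain ⟨y, -, hy0, hy⟩ : ∃ y ∈ (⊤ : Submodule F (Fin n → F)), y ≠ 0 ∧ ∀ i : Fin 2, f y (![e, (partner h he0 he).choose] i) = 0 :=
    exists_perp_vec h ⊤ _ (by rw [finrank_top, Module.finrank_fintype_fun_eq_card, Fintype.card_fin]; omega)
  obtain ⟨he', hee⟩ := (partner h he0 he).choose_spec
  set e' := (partner h he0 he).choose
  have hye : f y e = 0 := hy 0
  have hye' : f y e' = 0 := hy 1
  obtain ⟨x₁, h1, h2, h3⟩ := sing_sep2 h hn he0 he hye (by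
    intro c hc
    rw [hc, h.sfm.smul_left, hee, mul_one] at hye'
    rw [hc, hye', zero_smul] at hy0
    exact hy0 rfl)
  obtain ⟨x₂, h4, h5, h6⟩ := sing_sep2 h hn he0 he (y := x₁) (by rw [h.symm']; exact h2) (by
    intro c hc
    rw [hc, h.smul_right, hye, mul_zero] at h3
    exact h3 rfl)
  exact ⟨x₁, x₂, h1, h4, h2, h5, h6⟩

/-- the group contains the (long root) Siegel transformations -/
def SG (f : (Fin n → F) → (Fin n → F) → F) (X : Subgroup (GL (Fin n) F)) : Prop :=
  ∀ e x : Fin n → F, f e e = 0 → f x x = 0 → f e x = 0 → ∃ g ∈ X, ∀ v, (g : Matrix (Fin n) (Fin n) F) *ᵥ v =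
    v + (f v e • x - f v x • e)

theorem sg_stable [Fintype F] (h : OrF f) (hn : 5 ≤ n) {W : Submodule F (Fin n → F)}
    (hact : ∀ e x : Fin n → F, f e e = 0 → f x x = 0 → f e x = 0 → ∀ u ∈ W, f u e • x - f u x • e ∈ W) :
    W = ⊥ ∨ W = ⊤ := by
  by_cases hWb : W = ⊥
  · exact Or.inl hWb
  right
  obtain ⟨v, hvW, hv⟩ := Submodule.exists_mem_ne_zero_of_ne_bot hWb
  obtain ⟨e, he, hve⟩ := sing_sep h (by omega) hv
  have he0 : e ≠ 0 := by
    rintro rfl
    exact hve (h.sfm.zero_right _)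
  obtain ⟨x₁, x₂, h1, h2, h3, h4, h5⟩ := sing_pair h hn he0 he
  have hφ := hact e x₁ he h1 h3 v hvW
  have heW : e ∈ W := by
    have h6 := hact e x₂ he h2 h4 _ hφ
    have e1 : f (f v e • x₁ - f v x₁ • e) e = 0 := by
      rw [h.sfm.sub_left, h.sfm.smul_left, h.sfm.smul_left, he, h.symm' x₁, h3]; ring
    have e2 : f (f v e • x₁ - f v x₁ • e) x₂ = f v e * f x₁ x₂ := by
      rw [h.sfm.sub_left, h.sfm.smul_left, h.sfm.smul_left, h4]; ring
    rw [e1, e2, zero_smul, zero_sub] at h6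
    have h7 := W.smul_mem (-(f v e * f x₁ x₂)⁻¹) h6
    rw [smul_neg, neg_smul, neg_neg, smul_smul, inv_mul_cancel₀ (mul_ne_zero hve h5), one_smul] at h7
    exact h7
  have hperp : perp h.sfm W = ⊥ := by
    rw [eq_bot_iff]
    intro y hy
    rw [Submodule.mem_bot]
    have hye : f y e = 0 := hy e heW
    have hyv : f y v = 0 := hy v hvW
    by_contra hy0
    have hyc : ∃ c : F, y = c • e := by
      by_contra hc
      push Not at hc
      obtain ⟨x, hx1, hx2, hx3⟩ := sing_sep2 h hn he0 he hye hc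
      apply hx3
      have h6 := hy _ (hact e x he hx1 hx2 v hvW)
      rw [h.sfm.sub_right, h.smul_right, h.smul_right, hye, mul_zero, sub_zero] at h6
      exact (mul_eq_zero.1 h6).resolve_left hve
    obtain ⟨c, hc⟩ := hyc
    rw [hc, h.sfm.smul_left, h.symm'] at hyv
    have hc0 := (mul_eq_zero.1 hyv).resolve_right hve
    rw [hc, hc0, zero_smul] at hy0
    exact hy0 rfl
  have h6 := finrank_perp h.sfm W
  rw [hperp, finrank_bot, add_zero] at h6
  apply Submodule.eq_top_of_finrank_eq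
  rw [h6, Module.finrank_fintype_fun_eq_card, Fintype.card_fin]

theorem SG.irr [Fintype F] (h : OrF f) (hn : 5 ≤ n) (hX : SG f X) : ActsIrreducibly (matrixSet X) := by
  intro W hW
  apply sg_stable h hn
  intro e x he hx hex u hu
  obtain ⟨g, hg, hgv⟩ := hX e x he hx hex
  have h1 : (g : Matrix (Fin n) (Fin n) F) *ᵥ u ∈ W := hW _ ⟨g, hg, rfl⟩ ⟨u, hu, rfl⟩
  rw [hgv] at h1
  have h2 := W.sub_mem h1 hu
  rwa [add_sub_cancel_left] at h2

end Cfsg.Agent.H29.Fm
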