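import Mathlib
import Cfsg.Agent.H29_Or7

set_option autoImplicit false

/-! groups containing the Siegel transformations lie in no geometric class -/

namespace Cfsg.Agent.H29.Fm

open Matrix Module Cfsg.Geo Cfsg.Agent.H29.Clifford Cfsg.Agent.H29.Asc Cfsg.Agent.H29.AscF Cfsg.Agent.H29.Trv
  Cfsg.Agent.H29.AscT
open scoped Kronecker commutatorElement

variable {F : Type*} [Field F] {n k m r w t : ℕ}
variable {f : (Fin n → F) → (Fin n → F) → F}
variable {G X : Subgroup (GL (Fin n) F)}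

theorem SG.not_le_stab [Fintype F] (h : OrF f) (hn : 5 ≤ n) (hX : SG f X) {W : Submodule F (Fin n → F)} (h1 : W ≠ ⊥)
    (h2 : W ≠ ⊤) : ¬ X ≤ subspaceStabilizer W := by
  intro hle
  rcases hX.irr h hn W (by
    rintro _ ⟨g, hg, rfl⟩ _ ⟨v, hv, rfl⟩
    exact (hle hg v).1 hv) with h3 | h3
  · exact h1 h3
  · exact h2 h3

theorem SG.not_le_dec [Fintype F] (h : OrF f) (hn : 5 ≤ n) (hX : SG f X) {D : Fin t → Submodule F (Fin n → F)}
    (hD : IsMDecomposition k D) : ¬ X ≤ decompositionStabilizer D := by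
  intro hle
  have ht := hD.two_le
  have hst : ∀ i, ∀ e x : Fin n → F, f e e = 0 → f x x = 0 → f e x = 0 → ∀ u ∈ D i, f u e • x - f u x • e ∈ D i := by
    intro i e x he hx hex u hu
    obtain ⟨g, hg, hgv⟩ := hX e x he hx hex
    obtain ⟨σ, hσ⟩ := hle hg
    have hmap : ∀ i, ∀ w ∈ D i, (g : Matrix (Fin n) (Fin n) F) *ᵥ w ∈ D (σ i) := by
      intro i w hw
      rw [← hσ i]
      exact ⟨w, hw, rfl⟩
    by_cases hi : σ i = i
    · have h1 := hmap i u hu
      rw [hgv, hi] at h1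
      have h2 := (D i).sub_mem h1 hu
      rwa [add_sub_cancel_left] at h2
    · have h1 := hmap i u hu
      have h2 := hmap _ _ h1
      have hσσ : σ (σ i) ≠ σ i := fun h3 => hi (σ.injective h3)
      set y := (g : Matrix (Fin n) (Fin n) F) *ᵥ u with hy
      have h3 : u + (g : Matrix (Fin n) (Fin n) F) *ᵥ y = (2 : F) • y := by
        have hxe : f x e = 0 := by rw [h.symm']; exact hex
        have e1 : f y e = f u e := by
          rw [hy, hgv, h.sfm.add_left, h.sfm.sub_left, h.sfm.smul_left, h.sfm.smul_left, hxe, he]; ring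
        have e2 : f y x = f u x := by
          rw [hy, hgv, h.sfm.add_left, h.sfm.sub_left, h.sfm.smul_left, h.sfm.smul_left, hex, hx]; ring
        rw [hgv y, e1, e2, hy, hgv u, two_smul]
        abel
      have h4 := (iSupIndep_def.1 hD.indep) (σ i)
      have h5 : (2 : F) • y ∈ ⨆ j, ⨆ (_ : j ≠ σ i), D j := by
        rw [← h3]
        apply Submodule.add_mem
        · exact (le_iSup₂ (f := fun j (_ : j ≠ σ i) => D j) i (Ne.symm hi)) hu
        · exact (le_iSup₂ (f := fun j (_ : j ≠ σ i) => D j) (σ (σ i)) hσσ) h2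
      have h6 := Submodule.disjoint_def.1 h4 _ ((D (σ i)).smul_mem 2 h1) h5
      have h7 : y = 0 := (smul_eq_zero.1 h6).resolve_left h.two
      have h8 : u = 0 := mulVec_inj (g := g) (by rw [← hy, h7, Matrix.mulVec_zero])
      rw [h8, h.sfm.zero_left, h.sfm.zero_left, zero_smul, zero_smul, sub_zero]
      exact (D i).zero_mem
  let i₀ : Fin t := ⟨0, by omega⟩
  have h1 := hD.finrank_eq i₀
  rcases sg_stable h hn (hst i₀) with h2 | h2
  · rw [h2, finrank_bot] at h1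
    have := hD.pos
    omega
  · rw [h2, finrank_top, Module.finrank_fintype_fun_eq_card, Fintype.card_fin] at h1
    have h3 := dec_card hD
    rw [← h1] at h3
    nlinarith

/-- a singular vector with two singular neighbours -/
theorem sing_trip [Fintype F] (h : OrF f) (hn : 5 ≤ n) : ∃ e x₁ x₂ : Fin n → F, e ≠ 0 ∧ f e e = 0 ∧ f x₁ x₁ = 0 ∧
    f x₂ x₂ = 0 ∧ f e x₁ = 0 ∧ f e x₂ = 0 ∧ f x₁ x₂ ≠ 0 := by
  obtain ⟨e, -, he0, he⟩ := iso3 h (U := ⊤) (by
    rw [finrank_top, Module.finrank_fintype_fun_eq_card, Fintype.card_fin]; omega)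
  obtain ⟨x₁, x₂, h1, h2, h3, h4, h5⟩ := sing_pair h hn he0 he
  exact ⟨e, x₁, x₂, he0, he, h1, h2, h3, h4, h5⟩

theorem SG.not_le_norm [Fintype F] (h : OrF f) (hn : 5 ≤ n) (hX : SG f X) {K : Subalgebra F (Matrix (Fin n) (Fin n) F)}
    (hr : 2 ≤ r) (hK : IsFieldSubalgebra r K) : ¬ X ≤ subalgebraNormalizer K := by
  intro hle
  obtain ⟨e, x₁, x₂, he0, he, h1, h2, h3, h4, h5⟩ := sing_trip h hn
  have hcomm : ∀ x, f x x = 0 → f e x = 0 → ∀ θ ∈ K, ∀ v, f (θ *ᵥ v) e • x - f (θ *ᵥ v) x • e =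
      θ *ᵥ (f v e • x - f v x • e) := by
    intro x hx hex θ hθ v
    obtain ⟨g, hg, hgv⟩ := hX e x he hx hex
    set θ' := (g : Matrix (Fin n) (Fin n) F) * θ * ((g⁻¹ : GL (Fin n) F) : Matrix (Fin n) (Fin n) F) with hθ'
    have hθ'K : θ' ∈ K := ((hle hg) θ).1 hθ
    have hgθ : ∀ v, (g : Matrix (Fin n) (Fin n) F) *ᵥ (θ *ᵥ v) = θ' *ᵥ ((g : Matrix (Fin n) (Fin n) F) *ᵥ v) := by
      intro v
      rw [hθ', Matrix.mulVec_mulVec, Matrix.mulVec_mulVec, mul_assoc, ← Units.val_mul, inv_mul_cancel, Units.val_one,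
        mul_one]
    have hdiff : ∀ v, (θ' - θ) *ᵥ v = (f (θ *ᵥ v) e • x - f (θ *ᵥ v) x • e) - θ' *ᵥ (f v e • x - f v x • e) := by
      intro v
      have h6 := hgθ v
      rw [hgv, hgv, Matrix.mulVec_add] at h6
      rw [Matrix.sub_mulVec]
      rw [eq_sub_iff_add_eq, ← sub_eq_iff_eq_add'.2 h6.symm]
      abel
    have hκ : θ' = θ := by
      by_contra hne
      obtain ⟨y, hy, hκy⟩ := hK.inv _ (K.sub_mem hθ'K hθ) (sub_ne_zero.2 hne)
      have htop : (⊤ : Submodule F (Fin n → F)) ≤ Submodule.span F (Set.range ![x, e, θ' *ᵥ x, θ' *ᵥ e]) := by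
        intro v _
        have h6 : v = (θ' - θ) *ᵥ (y *ᵥ v) := by rw [Matrix.mulVec_mulVec, hκy, Matrix.one_mulVec]
        rw [h6, hdiff]
        have hm : ∀ i : Fin 4, (![x, e, θ' *ᵥ x, θ' *ᵥ e] : Fin 4 → (Fin n → F)) i ∈
            Submodule.span F (Set.range ![x, e, θ' *ᵥ x, θ' *ᵥ e]) := fun i => Submodule.subset_span ⟨i, rfl⟩
        rw [Matrix.mulVec_sub, Matrix.mulVec_smul, Matrix.mulVec_smul]
        exact Submodule.sub_mem _ (Submodule.sub_mem _ (Submodule.smul_mem _ _ (hm 0)) (Submodule.smul_mem _ _ (hm 1)))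
          (Submodule.sub_mem _ (Submodule.smul_mem _ _ (hm 2)) (Submodule.smul_mem _ _ (hm 3)))
      have h7 := finrank_range_le_card (R := F) ![x, e, θ' *ᵥ x, θ' *ᵥ e]
      rw [Set.finrank, top_le_iff.1 htop, finrank_top, Module.finrank_fintype_fun_eq_card, Fintype.card_fin,
        Fintype.card_fin] at h7
      omega
    have h6 := hdiff v
    rw [hκ, sub_self, Matrix.zero_mulVec] at h6
    exact (sub_eq_zero.1 h6.symm)
  have hx₂₁ : f x₂ x₁ ≠ 0 := by rw [h.symm']; exact h5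
  have hx₁e : f x₁ e = 0 := by rw [h.symm']; exact h3
  have hx₂e : f x₂ e = 0 := by rw [h.symm']; exact h4
  have hθe : ∀ θ ∈ K, ∃ c : F, θ *ᵥ e = c • e := by
    intro θ hθ
    have a1 := hcomm x₁ h1 h3 θ hθ x₂
    have a2 := hcomm x₂ h2 h4 θ hθ x₁
    rw [hx₂e, zero_smul, zero_sub, Matrix.mulVec_neg, Matrix.mulVec_smul] at a1
    rw [hx₁e, zero_smul, zero_sub, Matrix.mulVec_neg, Matrix.mulVec_smul] at a2
    -- pair both with `x₂`
    have b1 := congrArg (fun z => f z x₂) a1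
    have b2 := congrArg (fun z => f z x₂) a2
    simp only [h.sfm.sub_left, h.sfm.smul_left, h.sfm.neg_left, h2, h4] at b1 b2
    have hsym : f x₁ x₂ = f x₂ x₁ := h.symm' _ _
    have b3 : f (θ *ᵥ x₂) e * f x₁ x₂ = 0 := by
      linear_combination b1 - b2 + (f (θ *ᵥ e) x₂) * hsym
    have b4 := (mul_eq_zero.1 b3).resolve_right h5
    rw [b4, zero_smul, zero_sub] at a1
    have a3 := neg_injective a1
    refine ⟨(f x₂ x₁)⁻¹ * f (θ *ᵥ x₂) x₁, ?_⟩
    rw [mul_smul, a3, smul_smul, inv_mul_cancel₀ hx₂₁, one_smul]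
  haveI : Nonempty (Fin n) := ⟨⟨0, by omega⟩⟩
  have hKbot : K = ⊥ := by
    rw [eq_bot_iff]
    intro θ hθ
    obtain ⟨c, hc⟩ := hθe θ hθ
    rw [Algebra.mem_bot]
    refine ⟨c, ?_⟩
    by_contra hne
    have hmem : θ - algebraMap F (Matrix (Fin n) (Fin n) F) c ∈ K := K.sub_mem hθ (K.algebraMap_mem c)
    obtain ⟨y, hy, hκy⟩ := hK.inv _ hmem (sub_ne_zero.2 (Ne.symm hne))
    have h6 : y * (θ - algebraMap F (Matrix (Fin n) (Fin n) F) c) = 1 := mul_eq_one_comm.1 hκy
    apply he0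
    have h7 : (θ - algebraMap F (Matrix (Fin n) (Fin n) F) c) *ᵥ e = 0 := by
      rw [Matrix.sub_mulVec, Algebra.algebraMap_eq_smul_one, Matrix.smul_mulVec, Matrix.one_mulVec, hc, sub_self]
    calc e = (y * (θ - algebraMap F (Matrix (Fin n) (Fin n) F) c)) *ᵥ e := by rw [h6, Matrix.one_mulVec]
      _ = 0 := by rw [← Matrix.mulVec_mulVec, h7, Matrix.mulVec_zero]
  have h6 := hK.finrank_eq
  rw [hKbot] at h6
  haveI : Nontrivial (Matrix (Fin n) (Fin n) F) := inferInstance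
  have h7 : finrank F (⊥ : Subalgebra F (Matrix (Fin n) (Fin n) F)) = 1 := Subalgebra.finrank_bot
  omega

theorem SG.not_le_sub [Fintype F] (h : OrF f) (hn : 5 ≤ n) (hX : SG f X) {F₀ : Subfield F} (hF₀ : F₀ ≠ ⊤)
    (P : GL (Fin n) F) : ¬ X ≤ subfieldSubgroup F₀ P := by
  classical
  intro hle
  apply hF₀
  obtain ⟨e, x₁, x₂, he0, he, h1, h2, h3, h4, h5⟩ := sing_trip h hn
  have hx₂₁ : f x₂ x₁ ≠ 0 := by rw [h.symm']; exact h5
  have hx₁e : f x₁ e = 0 := by rw [h.symm']; exact h3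
  have hx₂e : f x₂ e = 0 := by rw [h.symm']; exact h4
  let N : (Fin n → F) →ₗ[F] (Fin n → F) :=
    { toFun := fun v => f v e • x₁ - f v x₁ • e
      map_add' := by
        intro u v
        rw [h.sfm.add_left, h.sfm.add_left, add_smul, add_smul]
        abel
      map_smul' := by
        intro c v
        rw [h.sfm.smul_left, h.sfm.smul_left, RingHom.id_apply, smul_sub, smul_smul, smul_smul] }
  have hNa : ∀ v, N v = f v e • x₁ - f v x₁ • e := fun _ => rfl
  have hNN : ∀ v, N (N v) = 0 := by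
    intro v
    rw [hNa, hNa]
    have e1 : f (f v e • x₁ - f v x₁ • e) e = 0 := by
      rw [h.sfm.sub_left, h.sfm.smul_left, h.sfm.smul_left, he, hx₁e]; ring
    have e2 : f (f v e • x₁ - f v x₁ • e) x₁ = 0 := by
      rw [h.sfm.sub_left, h.sfm.smul_left, h.sfm.smul_left, h3, h1]; ring
    rw [e1, e2, zero_smul, zero_smul, sub_zero]
  have hN0 : N ≠ 0 := by
    intro h0
    have h6 := LinearMap.congr_fun h0 x₂
    rw [hNa, hx₂e, zero_smul, zero_sub, LinearMap.zero_apply, neg_eq_zero] at h6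
    exact (smul_ne_zero hx₂₁ he0) h6
  let N' : Fin n → Fin n → F := fun i j =>
    (((P⁻¹ : GL (Fin n) F) : Matrix (Fin n) (Fin n) F) *ᵥ (N ((P : Matrix (Fin n) (Fin n) F) *ᵥ (Pi.single j 1)))) i
  have hkey : ∀ a : F, ∃ (g : GL (Fin n) F), g ∈ X ∧ ∀ i j, ((P⁻¹ * g * P : GL (Fin n) F) : Matrix (Fin n) (Fin n) F) i j =
      (Pi.single j (1 : F) : Fin n → F) i + a * N' i j := by
    intro a
    obtain ⟨g, hg, hgv⟩ := hX e (a • x₁) he (by rw [h.sfm.smul_left, h.smul_right, h1]; ring)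
      (by rw [h.smul_right, h3, mul_zero])
    refine ⟨g, hg, fun i j => ?_⟩
    have h6 : ((P⁻¹ * g * P : GL (Fin n) F) : Matrix (Fin n) (Fin n) F) i j =
        (((P⁻¹ * g * P : GL (Fin n) F) : Matrix (Fin n) (Fin n) F) *ᵥ (Pi.single j 1)) i := by
      rw [Matrix.mulVec_single_one]; rfl
    have h7 : ∀ v, (g : Matrix (Fin n) (Fin n) F) *ᵥ v = v + a • N v := by
      intro v
      rw [hgv, hNa, h.smul_right, smul_sub, smul_smul, smul_smul, smul_smul, mul_comm a (f v e)]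
    rw [h6, Units.val_mul, Units.val_mul, ← Matrix.mulVec_mulVec, ← Matrix.mulVec_mulVec, h7, Matrix.mulVec_add,
      inv_mulVec_self, Matrix.mulVec_smul, Pi.add_apply, Pi.smul_apply, smul_eq_mul]
  obtain ⟨i, j, hij, hb⟩ : ∃ i j, i ≠ j ∧ N' i j ≠ 0 := by
    by_contra hcon
    push Not at hcon
    apply hN0
    have h6 : ∀ j, N ((P : Matrix (Fin n) (Fin n) F) *ᵥ (Pi.single j 1)) =
        (N' j j) • ((P : Matrix (Fin n) (Fin n) F) *ᵥ (Pi.single j 1)) := by
      intro j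
      have h7 : ((P⁻¹ : GL (Fin n) F) : Matrix (Fin n) (Fin n) F) *ᵥ (N ((P : Matrix (Fin n) (Fin n) F) *ᵥ (Pi.single j 1))) =
          (N' j j) • Pi.single j 1 := by
        funext i
        rw [Pi.smul_apply, smul_eq_mul]
        by_cases hij : i = j
        · subst hij; rw [Pi.single_eq_same, mul_one]
        · rw [Pi.single_eq_of_ne hij, mul_zero]; exact hcon i j hij
      have h8 := congrArg (fun z => (P : Matrix (Fin n) (Fin n) F) *ᵥ z) h7
      simp only [Matrix.mulVec_mulVec, ← Units.val_mul, mul_inv_cancel, Units.val_one, Matrix.one_mulVec] at h8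
      rw [h8, Matrix.mulVec_smul]
    have h7 : ∀ j, N ((P : Matrix (Fin n) (Fin n) F) *ᵥ (Pi.single j 1)) = 0 := by
      intro j
      have h8 := hNN ((P : Matrix (Fin n) (Fin n) F) *ᵥ (Pi.single j 1))
      rw [h6, map_smul, h6, smul_smul] at h8
      have h9 : (P : Matrix (Fin n) (Fin n) F) *ᵥ (Pi.single j (1 : F)) ≠ 0 := by
        apply GLv_ne
        intro h0
        have h10 : (Pi.single j (1 : F) : Fin n → F) j = 0 := by rw [h0]; rfl
        rw [Pi.single_eq_same] at h10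
        exact one_ne_zero h10
      have h11 := mul_self_eq_zero.1 ((smul_eq_zero.1 h8).resolve_right h9)
      rw [h6, h11, zero_smul]
    have h12 : N.comp (Matrix.mulVecLin (P : Matrix (Fin n) (Fin n) F)) = 0 := by
      apply (Pi.basisFun F (Fin n)).ext
      intro j
      rw [Pi.basisFun_apply]
      exact h7 j
    apply LinearMap.ext
    intro v
    have h13 := LinearMap.congr_fun h12 (((P⁻¹ : GL (Fin n) F) : Matrix (Fin n) (Fin n) F) *ᵥ v)
    have h14 : N ((P : Matrix (Fin n) (Fin n) F) *ᵥ (((P⁻¹ : GL (Fin n) F) : Matrix (Fin n) (Fin n) F) *ᵥ v)) = 0 := h13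
    rw [Matrix.mulVec_mulVec, ← Units.val_mul, mul_inv_cancel, Units.val_one, Matrix.one_mulVec] at h14
    exact h14
  set b := N' i j with hbdef
  set c := N' j j with hcdef
  have hrho : ∀ u : F, u ≠ 0 → u * b⁻¹ + c * b⁻¹ ∈ F₀ := by
    intro u hu
    obtain ⟨g, hg, hge⟩ := hkey u⁻¹
    have hg' := hle hg
    rw [mem_subfieldSubgroup_iff] at hg'
    set T := P⁻¹ * g * P with hT
    rw [Subgroup.mem_sup_of_normal_right] at hg'
    obtain ⟨_, ⟨y, rfl⟩, _, ⟨d, rfl⟩, hyd⟩ := hg'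
    have h6 : ∀ i j, (T : Matrix (Fin n) (Fin n) F) i j = ((y : Matrix (Fin n) (Fin n) F₀) i j : F) * d := by
      intro i j
      rw [← hyd]
      have : (Matrix.GeneralLinearGroup.map (F₀.subtype : F₀ →+* F) y *
        (Units.map (Matrix.scalar (Fin n) : F →+* Matrix (Fin n) (Fin n) F).toMonoidHom d) : GL (Fin n) F) =
        Matrix.GeneralLinearGroup.map (F₀.subtype : F₀ →+* F) y * sc n F d := rfl
      rw [this, Units.val_mul, sc_coe, Matrix.mul_smul, mul_one, Matrix.smul_apply, smul_eq_mul, mul_comm]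
      rfl
    have a1 := hge i j
    have a2 := hge j j
    rw [h6, Pi.single_eq_of_ne hij, zero_add, ← hbdef] at a1
    rw [h6, Pi.single_eq_same, ← hcdef] at a2
    have hd : (d : F) ≠ 0 := d.ne_zero
    have hyij : ((y : Matrix (Fin n) (Fin n) F₀) i j : F) ≠ 0 := by
      intro h0
      rw [h0, zero_mul] at a1
      exact mul_ne_zero (inv_ne_zero hu) hb a1.symm
    have h7 : u * b⁻¹ + c * b⁻¹ = ((y : Matrix (Fin n) (Fin n) F₀) j j : F) * ((y : Matrix (Fin n) (Fin n) F₀) i j : F)⁻¹ := by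
      have h8 : (u + c) * ((y : Matrix (Fin n) (Fin n) F₀) i j : F) = b * ((y : Matrix (Fin n) (Fin n) F₀) j j : F) := by
        have h9 : ((u + c) * ((y : Matrix (Fin n) (Fin n) F₀) i j : F) - b * ((y : Matrix (Fin n) (Fin n) F₀) j j : F)) * d = 0 := by
          have e1 : u⁻¹ * u = 1 := inv_mul_cancel₀ hu
          linear_combination (u + c) * a1 - b * a2 + b * e1
        exact sub_eq_zero.1 ((mul_eq_zero.1 h9).resolve_right hd)
      field_simp
      linear_combination h8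
    rw [h7]
    exact F₀.mul_mem (Subtype.mem _) (F₀.inv_mem (Subtype.mem _))
  rw [eq_top_iff]
  intro s _
  obtain ⟨u, hu, hus⟩ : ∃ u : F, u ≠ 0 ∧ u + s * b ≠ 0 := by
    by_cases h6 : (1 : F) + s * b = 0
    · refine ⟨-1, neg_ne_zero.2 one_ne_zero, ?_⟩
      intro h7
      apply h.two
      linear_combination h6 - h7
    · exact ⟨1, one_ne_zero, h6⟩
  have h6 := F₀.sub_mem (hrho _ hus) (hrho _ hu)
  have h7 : (u + s * b) * b⁻¹ + c * b⁻¹ - (u * b⁻¹ + c * b⁻¹) = s := by field_simp; ring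
  rw [h7] at h6
  exact h6

end Cfsg.Agent.H29.Fm
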