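import Mathlib
import Cfsg.Agent.H29_Or8

set_option autoImplicit false

/-! groups containing the Siegel transformations, II; refinements over the field with three elements -/

namespace Cfsg.Agent.H29.Fm

open Matrix Module Cfsg.Geo Cfsg.Agent.H29.Clifford Cfsg.Agent.H29.Asc Cfsg.Agent.H29.AscF Cfsg.Agent.H29.Trv
  Cfsg.Agent.H29.AscT
open scoped Kronecker commutatorElement

variable {F : Type*} [Field F] {n k m r w t : ℕ}
variable {f : (Fin n → F) → (Fin n → F) → F}
variable {G X : Subgroup (GL (Fin n) F)}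

theorem perm_two (σ : Equiv.Perm (Fin 2)) (i : Fin 2) : σ.symm (σ.symm i) = i := by
  revert σ i
  decide

/-- tensor squares -/
theorem SG.not_le_wr [Fintype F] (h : OrF f) (hn : 5 ≤ n) (hX : SG f X) (hm : 3 ≤ m) {e : Fin n ≃ (Fin 2 → Fin m)}
    {P : GL (Fin n) F} : ¬ X ≤ tensorWreathSubgroup m 2 e P := by
  classical
  intro hle
  obtain ⟨z, x₁, x₂, hz0, hz, h1, h2, h3, h4, h5⟩ := sing_trip h hn
  have hx₂₁ : f x₂ x₁ ≠ 0 := by rw [h.symm']; exact h5
  have hx₁z : f x₁ z = 0 := by rw [h.symm']; exact h3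
  have hx₂z : f x₂ z = 0 := by rw [h.symm']; exact h4
  let N : (Fin n → F) →ₗ[F] (Fin n → F) :=
    { toFun := fun v => f v z • x₁ - f v x₁ • z
      map_add' := by
        intro u v
        rw [h.sfm.add_left, h.sfm.add_left, add_smul, add_smul]
        abel
      map_smul' := by
        intro c v
        rw [h.sfm.smul_left, h.sfm.smul_left, RingHom.id_apply, smul_sub, smul_smul, smul_smul] }
  have hNa : ∀ v, N v = f v z • x₁ - f v x₁ • z := fun _ => rfl
  have hNN : ∀ v, N (N v) = 0 := by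
    intro v
    rw [hNa, hNa]
    have e1 : f (f v z • x₁ - f v x₁ • z) z = 0 := by
      rw [h.sfm.sub_left, h.sfm.smul_left, h.sfm.smul_left, hz, hx₁z]; ring
    have e2 : f (f v z • x₁ - f v x₁ • z) x₁ = 0 := by
      rw [h.sfm.sub_left, h.sfm.smul_left, h.sfm.smul_left, h3, h1]; ring
    rw [e1, e2, zero_smul, zero_smul, sub_zero]
  have hN0 : N ≠ 0 := by
    intro h0
    have h6 := LinearMap.congr_fun h0 x₂
    rw [hNa, hx₂z, zero_smul, zero_sub, LinearMap.zero_apply, neg_eq_zero] at h6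
    exact (smul_ne_zero hx₂₁ hz0) h6
  have hrange : finrank F (LinearMap.range N) ≤ 2 := by
    have h6 : LinearMap.range N ≤ Submodule.span F (Set.range ![x₁, z]) := by
      rintro _ ⟨v, rfl⟩
      rw [hNa]
      have hm : ∀ i : Fin 2, (![x₁, z] : Fin 2 → (Fin n → F)) i ∈ Submodule.span F (Set.range ![x₁, z]) :=
        fun i => Submodule.subset_span ⟨i, rfl⟩
      exact Submodule.sub_mem _ (Submodule.smul_mem _ _ (hm 0)) (Submodule.smul_mem _ _ (hm 1))
    have h7 := finrank_range_le_card (R := F) ![x₁, z]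
    rw [Fintype.card_fin] at h7
    exact (Submodule.finrank_mono h6).trans h7
  obtain ⟨g, hg, hgv⟩ := hX z ((2 : F)⁻¹ • x₁) hz (by rw [h.sfm.smul_left, h.smul_right, h1]; ring)
    (by rw [h.smul_right, h3, mul_zero])
  have hgv' : ∀ v, (g : Matrix (Fin n) (Fin n) F) *ᵥ v = v + (2 : F)⁻¹ • N v := by
    intro v
    rw [hgv, hNa, h.smul_right, smul_sub, smul_smul, smul_smul, smul_smul, mul_comm (2 : F)⁻¹ (f v z)]
  have hgg : ∀ v, (g : Matrix (Fin n) (Fin n) F) *ᵥ ((g : Matrix (Fin n) (Fin n) F) *ᵥ v) = v + N v := by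
    intro v
    rw [hgv' ((g : Matrix (Fin n) (Fin n) F) *ᵥ v), hgv', map_add, map_smul, hNN, smul_zero, add_zero, add_assoc,
      ← two_smul F ((2 : F)⁻¹ • N v), smul_smul, mul_inv_cancel₀ h.two, one_smul]
  obtain ⟨σ, A, hA⟩ := tw_act (hle hg)
  let B : Fin 2 → GL (Fin m) F := fun i => A (σ.symm i) * A i
  have hB : ∀ x : Fin 2 → (Fin m → F), ce e P (pp x) + N (ce e P (pp x)) =
      ce e P (pp (fun i => (B i : Matrix (Fin m) (Fin m) F) *ᵥ x i)) := by
    intro x
    rw [← hgg, hA, hA, K_pp, Pm_pp, K_pp, Pm_pp]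
    congr 2
    funext i
    show (A (σ.symm i) : Matrix (Fin m) (Fin m) F) *ᵥ ((A (σ.symm (σ.symm i)) : Matrix (Fin m) (Fin m) F) *ᵥ
      x (σ.symm (σ.symm i))) = ((A (σ.symm i) * A i : GL (Fin m) F) : Matrix (Fin m) (Fin m) F) *ᵥ x i
    rw [perm_two, Matrix.mulVec_mulVec, Units.val_mul]
  -- kernels
  have hker : ∀ (x : Fin 2 → (Fin m → F)) (i : Fin 2), ∃ v : Fin m → F, v ≠ 0 ∧
      N (ce e P (pp (Function.update x i v))) = 0 := by
    intro x i
    let L : (Fin m → F) →ₗ[F] (Fin n → F) := N ∘ₗ ((ce e P : ((Fin 2 → Fin m) → F) ≃ₗ[F] (Fin n → F)) : ((Fin 2 → Fin m) → F) →ₗ[F] (Fin n → F)) ∘ₗ ppL x i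
    have h6 : LinearMap.ker L ≠ ⊥ := by
      intro h0
      have h7 := LinearMap.finrank_range_add_finrank_ker L
      rw [h0, finrank_bot, Module.finrank_fintype_fun_eq_card, Fintype.card_fin, add_zero] at h7
      have h8 : finrank F (LinearMap.range L) ≤ finrank F (LinearMap.range N) := by
        apply Submodule.finrank_mono
        rintro _ ⟨v, rfl⟩
        exact ⟨_, rfl⟩
      omega
    obtain ⟨v, hv, hv0⟩ := Submodule.exists_mem_ne_zero_of_ne_bot h6
    exact ⟨v, hv0, hv⟩
  have hscal : ∀ j : Fin 2, ∀ u : Fin m → F, ∃ c : F, (B j : Matrix (Fin m) (Fin m) F) *ᵥ u = c • u := by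
    intro j u
    by_cases hu : u = 0
    · exact ⟨0, by rw [hu, Matrix.mulVec_zero, smul_zero]⟩
    obtain ⟨i, hij⟩ : ∃ i : Fin 2, j ≠ i := ⟨j + 1, by revert j; decide⟩
    obtain ⟨v, hv, hNv⟩ := hker (fun _ => u) i
    have h6 := hB (Function.update (fun _ => u) i v)
    rw [hNv, add_zero] at h6
    have h7 := (ce e P).injective h6
    obtain ⟨c, hc⟩ := pp_eq (x := fun l => (B l : Matrix (Fin m) (Fin m) F) *ᵥ (Function.update (fun _ => u) i v : Fin 2 → (Fin m → F)) l) (by
      intro l
      apply GLv_ne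
      by_cases hl : l = i
      · rw [hl, Function.update_self]; exact hv
      · rw [Function.update_of_ne hl]; exact hu) h7.symm j
    rw [Function.update_of_ne hij] at hc
    exact ⟨c, hc⟩
  have hscal' : ∀ j : Fin 2, ∃ c : F, ∀ u : Fin m → F, (B j : Matrix (Fin m) (Fin m) F) *ᵥ u = c • u := by
    intro j
    obtain ⟨c, hc⟩ := LinearMap.exists_eq_smul_id_of_forall_notLinearIndependent
      (f := Matrix.mulVecLin (B j : Matrix (Fin m) (Fin m) F)) (by
      intro v hv
      obtain ⟨c, hc⟩ := hscal j v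
      rw [LinearIndependent.pair_iff] at hv
      have h6 := hv c (-1) (by
        rw [Matrix.mulVecLin_apply, hc, neg_smul, one_smul, add_neg_cancel])
      exact (neg_ne_zero.2 one_ne_zero) h6.2)
    refine ⟨c, fun u => ?_⟩
    have := LinearMap.congr_fun hc u
    exact this
  choose c hc using hscal'
  have hNpp : ∀ x : Fin 2 → (Fin m → F), N (ce e P (pp x)) = (c 0 * c 1 - 1) • ce e P (pp x) := by
    intro x
    have h6 := hB x
    have h7 : pp (fun i => (B i : Matrix (Fin m) (Fin m) F) *ᵥ x i) = (c 0 * c 1) • pp x := by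
      funext y
      show ∏ i, ((B i : Matrix (Fin m) (Fin m) F) *ᵥ x i) (y i) = (c 0 * c 1) * ∏ i, x i (y i)
      rw [Fin.prod_univ_two, Fin.prod_univ_two, hc, hc, Pi.smul_apply, Pi.smul_apply, smul_eq_mul, smul_eq_mul]
      ring
    rw [h7, map_smul] at h6
    rw [sub_smul, one_smul, ← h6, add_sub_cancel_left]
  have hNall : ∀ v, N v = (c 0 * c 1 - 1) • v := by
    have h6 : N ∘ₗ ((ce e P : ((Fin 2 → Fin m) → F) ≃ₗ[F] (Fin n → F)) : ((Fin 2 → Fin m) → F) →ₗ[F] (Fin n → F)) =
        (c 0 * c 1 - 1) • ((ce e P : ((Fin 2 → Fin m) → F) ≃ₗ[F] (Fin n → F)) : ((Fin 2 → Fin m) → F) →ₗ[F] (Fin n → F)) := by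
      apply LinearMap.pi_ext'
      intro p
      apply LinearMap.ext_ring
      show N (ce e P (Pi.single p 1)) = (c 0 * c 1 - 1) • ce e P (Pi.single p 1)
      rw [single_pp]
      exact hNpp _
    intro v
    obtain ⟨x, rfl⟩ := (ce e P).surjective v
    exact LinearMap.congr_fun h6 x
  apply hN0
  apply LinearMap.ext
  intro v
  have h6 := hNN v
  rw [hNall v, map_smul, hNall, smul_smul] at h6
  rw [hNall]
  rcases smul_eq_zero.1 h6 with h7 | h7
  · rw [mul_self_eq_zero.1 h7, zero_smul]; rfl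
  · rw [h7, smul_zero]; rfl

/-- planes of plus type over the field with three elements -/
theorem plus_three [Fintype F] (h : OrF f) (hF : Fintype.card F = 3) (hG : Fx f G) {W : Submodule F (Fin n → F)}
    (hW : finrank F W = 2) (hnd : IsNondegenerateOn f W) {z : Fin n → F} (hzW : z ∈ W) (hz0 : z ≠ 0) (hz : f z z = 0)
    (hle : G ≤ subspaceStabilizer W) :
    ∃ a : Fin n → F, f a a ≠ 0 ∧ G ≤ subspaceStabilizer (Submodule.span F {a}) := by
  classical
  obtain ⟨⟨u, huW, huz⟩, -⟩ := hnd z hzW hz0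
  have hzu : f z u ≠ 0 := by rw [h.symm']; exact huz
  obtain ⟨z', hz'W, hz', hzz'⟩ : ∃ z' ∈ W, f z' z' = 0 ∧ f z z' = 1 := by
    obtain ⟨u', hu'W, hu'⟩ : ∃ u' ∈ W, f z u' = 1 :=
      ⟨(f z u)⁻¹ • u, W.smul_mem _ huW, by rw [h.smul_right, inv_mul_cancel₀ hzu]⟩
    have h3 : f u' z = 1 := by rw [h.symm']; exact hu'
    refine ⟨u' - (f u' u' / 2) • z, W.sub_mem hu'W (W.smul_mem _ hzW), ?_, ?_⟩
    · rw [h.sfm.sub_left, h.sfm.sub_right, h.sfm.sub_right, h.sfm.smul_left, h.sfm.smul_left, h.smul_right, h.smul_right,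
        hz, hu', h3]
      have := h.two
      field_simp
      ring
    · rw [h.sfm.sub_right, h.smul_right, hz, mul_zero, sub_zero, hu']
  have hz'z : f z' z = 1 := by rw [h.symm']; exact hzz'
  have hspan : ∀ v ∈ W, ∃ α β : F, v = α • z + β • z' := by
    intro v hv
    refine ⟨f v z', f v z, ?_⟩
    by_contra hne
    have hv' : v - ((f v z') • z + (f v z) • z') ≠ 0 := sub_ne_zero.2 hne
    have hmem : v - ((f v z') • z + (f v z) • z') ∈ W :=
      W.sub_mem hv (W.add_mem (W.smul_mem _ hzW) (W.smul_mem _ hz'W))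
    set y := v - ((f v z') • z + (f v z) • z') with hy
    have y1 : f y z = 0 := by
      rw [hy, h.sfm.sub_left, h.sfm.add_left, h.sfm.smul_left, h.sfm.smul_left, hz, hz'z]; ring
    have y2 : f y z' = 0 := by
      rw [hy, h.sfm.sub_left, h.sfm.add_left, h.sfm.smul_left, h.sfm.smul_left, hz', hzz']; ring
    have hli : LinearIndependent F ![z, z', y] := by
      rw [Fintype.linearIndependent_iff]
      intro c hc
      rw [Fin.sum_univ_three] at hc
      have hc' : c 0 • z + c 1 • z' + c 2 • y = 0 := hc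
      have p1 := congrArg (fun x => f x z) hc'
      have p2 := congrArg (fun x => f x z') hc'
      simp only [h.sfm.add_left, h.sfm.smul_left, hz, hz'z, y1, h.sfm.zero_left, hz', hzz', y2, mul_zero, mul_one,
        zero_add, add_zero] at p1 p2
      rw [p1, p2, zero_smul, zero_smul, zero_add, zero_add] at hc'
      have p3 := (smul_eq_zero.1 hc').resolve_right hv'
      intro i
      fin_cases i
      · exact p2
      · exact p1
      · exact p3
    have h6 : Submodule.span F (Set.range ![z, z', y]) ≤ W := by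
      rw [Submodule.span_le]
      rintro _ ⟨i, rfl⟩
      fin_cases i
      · exact hzW
      · exact hz'W
      · exact hmem
    have h7 := Submodule.finrank_mono h6
    rw [finrank_span_eq_card hli, Fintype.card_fin, hW] at h7
    omega
  have h3 := three_zero hF
  refine ⟨z + z', ?_, ?_⟩
  · rw [h.sfm.add_left, h.sfm.add_right, h.sfm.add_right, hz, hz', hzz', hz'z]
    intro h0
    apply h.two
    linear_combination h0
  · have key : ∀ g ∈ G, (g : Matrix (Fin n) (Fin n) F) *ᵥ (z + z') = z + z' ∨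
        (g : Matrix (Fin n) (Fin n) F) *ᵥ (z + z') = -(z + z') := by
      intro g hg
      have h6 : (g : Matrix (Fin n) (Fin n) F) *ᵥ (z + z') ∈ W := (hle hg _).1 (W.add_mem hzW hz'W)
      obtain ⟨α, β, hαβ⟩ := hspan _ h6
      have h7 := hG g hg (z + z') (z + z')
      rw [hαβ] at h7
      simp only [h.sfm.add_left, h.sfm.add_right, h.sfm.smul_left, h.smul_right, hz, hz', hzz', hz'z] at h7
      have h8 : α * β = 1 := by
        have h9 : (2 : F) * (α * β - 1) = 0 := by linear_combination h7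
        exact sub_eq_zero.1 ((mul_eq_zero.1 h9).resolve_left h.two)
      rcases three_cases hF α with ha | ha | ha
      · rw [ha, zero_mul] at h8; exact absurd h8 zero_ne_one
      · left
        rw [ha, one_mul] at h8
        rw [hαβ, ha, h8, one_smul, one_smul]
      · right
        rw [ha] at h8
        have hb : β = -1 := by linear_combination -h8
        rw [hαβ, ha, hb, neg_smul, neg_smul, one_smul, one_smul, neg_add]
    intro g hg v
    constructor
    · intro hv
      obtain ⟨c, rfl⟩ := Submodule.mem_span_singleton.1 hv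
      show (g : Matrix (Fin n) (Fin n) F) *ᵥ (c • (z + z')) ∈ _
      rw [Matrix.mulVec_smul]
      apply Submodule.smul_mem
      rcases key g hg with h6 | h6
      · rw [h6]; exact Submodule.mem_span_singleton_self _
      · rw [h6]; exact Submodule.neg_mem _ (Submodule.mem_span_singleton_self _)
    · intro hv
      have hv' : (g : Matrix (Fin n) (Fin n) F) *ᵥ v ∈ Submodule.span F {z + z'} := hv
      obtain ⟨c, hc⟩ := Submodule.mem_span_singleton.1 hv'
      have h6 : v = ((g⁻¹ : GL (Fin n) F) : Matrix (Fin n) (Fin n) F) *ᵥ (c • (z + z')) := by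
        rw [hc, inv_mulVec_self]
      rw [h6, Matrix.mulVec_smul]
      apply Submodule.smul_mem
      rcases key g⁻¹ (G.inv_mem hg) with h7 | h7
      · rw [h7]; exact Submodule.mem_span_singleton_self _
      · rw [h7]; exact Submodule.neg_mem _ (Submodule.mem_span_singleton_self _)

/-- lines spanned by vectors with the same norm are isometric -/
theorem isom_line (h : OrF f) {a b : Fin n → F} (ha : a ≠ 0) (hb : b ≠ 0) (hab : f a a = f b b) :
    AreIsometricFor (fun v => f v v) (Submodule.span F {a}) (Submodule.span F {b}) := by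
  refine ⟨(LinearEquiv.toSpanNonzeroSingleton F _ a ha).symm.trans (LinearEquiv.toSpanNonzeroSingleton F _ b hb), ?_⟩
  intro x
  obtain ⟨c, rfl⟩ := (LinearEquiv.toSpanNonzeroSingleton F _ a ha).surjective x
  rw [LinearEquiv.trans_apply, LinearEquiv.symm_apply_apply]
  show f (c • b) (c • b) = f (c • a) (c • a)
  rw [h.sfm.smul_left, h.smul_right, h.sfm.smul_left, h.smul_right, hab]

end Cfsg.Agent.H29.Fm
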