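import Mathlib
import Cfsg.Agent.H29_Sq4
import Cfsg.Agent.H29_Nm1

set_option autoImplicit false

/-! symplectic groups of dimension four over the field of three elements: coordinates -/

namespace Cfsg.Agent.H29.Pq

open Matrix Module Cfsg.Geo Cfsg.Agent.H29.Fm

variable {F : Type*} [Field F] {ι : Type} [Fintype ι] [DecidableEq ι] {f : (ι → F) → (ι → F) → F}

/-- matrices over the prime field -/
abbrev M3 := Matrix (Fin 4) (Fin 4) (ZMod 3)

/-- the Gram matrix -/
def G0 : M3 := !![0, 1, 0, 0; -1, 0, 0, 0; 0, 0, 0, 1; 0, 0, -1, 0]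

theorem G0_sq : G0 * G0 = -1 := by decide +kernel

/-- coordinates -/
structure Th (f : (ι → F) → (ι → F) → F) (v : Fin 4 → (ι → F)) (θ : M3 ≃+* Matrix ι ι F) : Prop where
  adj : ∀ X Y : M3, (Xᵀ * G0 = G0 * Y) ↔ ∀ x y, f (θ X *ᵥ x) y = f x (θ Y *ᵥ y)
  ext : ∀ M N : Matrix ι ι F, (∀ k, M *ᵥ v k = N *ᵥ v k) → M = N
  act : ∀ X k, ∃ c : Fin 4 → F, θ X *ᵥ v k = ∑ l, c l • v l ∧ (∀ l, X l k = 0 → c l = 0) ∧ (∀ l, X l k = 1 → c l = 1) ∧
    (∀ l, X l k = -1 → c l = -1)

theorem gram_ex (hf : IsSymplecticForm f) : ∀ x y, f x y = x ⬝ᵥ ((gramMatrix f) *ᵥ y) := by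
  intro x y
  let Bf : LinearMap.BilinForm F (ι → F) := LinearMap.mk₂ F f hf.bilinear.add_left (fun c x v => hf.bilinear.smul_left c x v)
    hf.bilinear.add_right (fun c v x => hf.bilinear.smul_right c v x)
  have h2 : ∀ x : ι → F, x = ∑ i, x i • (Pi.single i (1 : F) : ι → F) := by
    intro x
    funext j
    rw [Finset.sum_apply, Finset.sum_eq_single j]
    · simp
    · intro b _ hb
      simp [Pi.single_eq_of_ne (Ne.symm hb)]
    · intro h; exact absurd (Finset.mem_univ _) h
  have hA : ∀ w, Bf x w = ∑ i, x i * Bf (Pi.single i 1) w := by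
    intro w
    conv_lhs => rw [h2 x]
    rw [map_sum, LinearMap.sum_apply]
    apply Finset.sum_congr rfl
    intro i _
    rw [map_smul, LinearMap.smul_apply, smul_eq_mul]
  have hB : ∀ w, Bf w y = ∑ j, y j * Bf w (Pi.single j 1) := by
    intro w
    conv_lhs => rw [h2 y]
    rw [map_sum]
    apply Finset.sum_congr rfl
    intro i _
    rw [map_smul, smul_eq_mul]
  have h4 : f x y = Bf x y := rfl
  rw [h4, hA]
  show _ = ∑ i, x i * ∑ j, f (Pi.single i 1) (Pi.single j 1) * y j
  apply Finset.sum_congr rfl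
  intro i _
  rw [hB]
  congr 1
  apply Finset.sum_congr rfl
  intro j _
  rw [mul_comm]
  rfl

theorem exists_theta [Fintype F] (hq : Fintype.card F = 3) (hι : Fintype.card ι = 4) (hf : IsSymplecticForm f)
    {v : Fin 4 → (ι → F)} (hv : ∀ (φ : ZMod 3 →+* F) i j, f (v i) (v j) = φ (G0 i j)) : ∃ θ, Th f v θ := by
  classical
  haveI : Fact (Nat.Prime 3) := ⟨Nat.prime_three⟩
  let φ : ZMod 3 ≃+* F := ZMod.ringEquivOfPrime F Nat.prime_three hq
  let Φ : M3 ≃+* Matrix (Fin 4) (Fin 4) F := φ.mapMatrix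
  have hΦ : ∀ X i j, Φ X i j = φ (X i j) := fun X i j => rfl
  have hΦt : ∀ X, (Φ X)ᵀ = Φ Xᵀ := fun X => rfl
  let B : Matrix ι (Fin 4) F := Matrix.of fun i k => v k i
  let G := gramMatrix f
  have hBGB : Bᵀ * G * B = Φ G0 := by
    ext i j
    have h3 : (Bᵀ * G * B) i j = f (v i) (v j) := by
      rw [Matrix.mul_assoc, gram_ex hf]
      rfl
    exact h3.trans (hv (φ : ZMod 3 →+* F) i j)
  obtain ⟨B', h1⟩ : ∃ B' : Matrix (Fin 4) ι F, B' * B = 1 := by
    refine ⟨-(Φ G0) * Bᵀ * G, ?_⟩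
    rw [Matrix.mul_assoc, Matrix.mul_assoc, ← Matrix.mul_assoc Bᵀ, hBGB, neg_mul, ← map_mul, G0_sq, map_neg, map_one, neg_neg]
  have h2 : B * B' = 1 :=
    (Matrix.mul_eq_one_comm_of_card_eq (Fin 4) ι F (by rw [hι, Fintype.card_fin])).1 h1
  let θ : M3 ≃+* Matrix ι ι F :=
    { toFun := fun X => B * Φ X * B'
      invFun := fun a => Φ.symm (B' * a * B)
      left_inv := by
        intro X
        show Φ.symm (B' * (B * Φ X * B') * B) = X
        rw [show B' * (B * Φ X * B') * B = (B' * B) * Φ X * (B' * B) by simp only [Matrix.mul_assoc], h1, Matrix.one_mul,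
          Matrix.mul_one, RingEquiv.symm_apply_apply]
      right_inv := by
        intro a
        show B * Φ (Φ.symm (B' * a * B)) * B' = a
        rw [RingEquiv.apply_symm_apply, show B * (B' * a * B) * B' = (B * B') * a * (B * B') by simp only [Matrix.mul_assoc],
          h2, Matrix.one_mul, Matrix.mul_one]
      map_mul' := by
        intro X Y
        rw [map_mul, show B * Φ X * B' * (B * Φ Y * B') = B * Φ X * (B' * B) * Φ Y * B' by simp only [Matrix.mul_assoc], h1,
          Matrix.mul_one]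
        simp only [Matrix.mul_assoc]
      map_add' := by
        intro X Y
        rw [map_add, Matrix.mul_add, Matrix.add_mul] }
  have hθ : ∀ X, θ X = B * Φ X * B' := fun X => rfl
  have hBv : ∀ k, B *ᵥ Pi.single k 1 = v k := by
    intro k
    rw [Matrix.mulVec_single_one]
    rfl
  have hB'v : ∀ k, B' *ᵥ v k = Pi.single k 1 := by
    intro k
    rw [← hBv, Matrix.mulVec_mulVec, h1, Matrix.one_mulVec]
  refine ⟨θ, ?_, ?_, ?_⟩
  · intro X Y
    have key : (∀ x y, f (θ X *ᵥ x) y = f x (θ Y *ᵥ y)) ↔ (θ X)ᵀ * G = G * θ Y := by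
      constructor
      · intro h
        apply Matrix.ext_of_mulVec_single
        intro i
        funext j
        have h3 := h (Pi.single j 1) (Pi.single i 1)
        rw [gram_ex hf, gram_ex hf, Matrix.mulVec_mulVec, ← Matrix.vecMul_transpose, ← Matrix.dotProduct_mulVec,
          Matrix.mulVec_mulVec, single_one_dotProduct, single_one_dotProduct] at h3
        exact h3
      · intro h x y
        rw [gram_ex hf, gram_ex hf, Matrix.mulVec_mulVec, ← Matrix.vecMul_transpose, ← Matrix.dotProduct_mulVec,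
          Matrix.mulVec_mulVec]
        congr 2
    rw [key]
    have h3 : (Xᵀ * G0 = G0 * Y) ↔ (Φ X)ᵀ * Φ G0 = Φ G0 * Φ Y := by
      rw [hΦt, ← map_mul, ← map_mul, Φ.injective.eq_iff]
    rw [h3, hθ, hθ]
    constructor
    · intro h
      have h4 : B'ᵀ * ((Φ X)ᵀ * Φ G0) * B' = B'ᵀ * (Φ G0 * Φ Y) * B' := by rw [h]
      rw [← hBGB] at h4
      have h5 : B'ᵀ * ((Φ X)ᵀ * (Bᵀ * G * B)) * B' = (B * Φ X * B')ᵀ * G * (B * B') := by
        rw [Matrix.transpose_mul, Matrix.transpose_mul]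
        simp only [Matrix.mul_assoc]
      have h6 : B'ᵀ * ((Bᵀ * G * B) * Φ Y) * B' = (B * B')ᵀ * (G * (B * Φ Y * B')) := by
        rw [Matrix.transpose_mul]
        simp only [Matrix.mul_assoc]
      rw [h5, h6, h2, Matrix.mul_one, Matrix.transpose_one, Matrix.one_mul] at h4
      exact h4
    · intro h
      have h4 : Bᵀ * ((B * Φ X * B')ᵀ * G) * B = Bᵀ * (G * (B * Φ Y * B')) * B := by rw [h]
      have h5 : Bᵀ * ((B * Φ X * B')ᵀ * G) * B = (B' * B)ᵀ * ((Φ X)ᵀ * (Bᵀ * G * B)) := by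
        rw [Matrix.transpose_mul, Matrix.transpose_mul, Matrix.transpose_mul]
        simp only [Matrix.mul_assoc]
      have h6 : Bᵀ * (G * (B * Φ Y * B')) * B = (Bᵀ * G * B) * Φ Y * (B' * B) := by
        simp only [Matrix.mul_assoc]
      rw [h5, h6, h1, Matrix.mul_one, Matrix.transpose_one, Matrix.one_mul, hBGB] at h4
      exact h4
  · intro M N h
    have h3 : M * B = N * B := by
      apply Matrix.ext_of_mulVec_single
      intro k
      rw [← Matrix.mulVec_mulVec, ← Matrix.mulVec_mulVec, hBv]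
      exact h k
    have h4 : M * B * B' = N * B * B' := by rw [h3]
    rwa [Matrix.mul_assoc, Matrix.mul_assoc, h2, Matrix.mul_one, Matrix.mul_one] at h4
  · intro X k
    refine ⟨fun l => Φ X l k, ?_, ?_, ?_, ?_⟩
    · rw [hθ, ← Matrix.mulVec_mulVec, ← Matrix.mulVec_mulVec, hB'v, Matrix.mulVec_single_one]
      funext i
      rw [Finset.sum_apply]
      show ∑ l, B i l * Φ X l k = _
      apply Finset.sum_congr rfl
      intro l _
      show v l i * Φ X l k = Φ X l k * v l i
      ring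
    · intro l hl
      show φ (X l k) = 0
      rw [hl, map_zero]
    · intro l hl
      show φ (X l k) = 1
      rw [hl, map_one]
    · intro l hl
      show φ (X l k) = -1
      rw [hl, map_neg, map_one]

end Cfsg.Agent.H29.Pq
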