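import Mathlib
import Cfsg.Agent.H29_Pq1

set_option autoImplicit false

/-! symplectic groups of dimension four over the field of three elements: finite computations -/

namespace Cfsg.Agent.H29.Pq

open Matrix Module Cfsg.Geo Cfsg.Agent.H29.Fm

/-- self-adjoint matrices -/
def mk6 (a d c0 c1 c2 c3 : ZMod 3) : M3 := !![a, 0, c3, -c1; 0, a, -c2, c0; c0, c1, d, 0; c2, c3, 0, d]

theorem z3 : ∀ a : ZMod 3, -a = a → a = 0 := by decide
theorem z3' : ∀ a : ZMod 3, a = -a → a = 0 := by decide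

theorem sa_form (X : M3) (h : Xᵀ * G0 = G0 * X) : X = mk6 (X 0 0) (X 2 2) (X 2 0) (X 2 1) (X 3 0) (X 3 1) := by
  have h00 := congrFun (congrFun h 0) 0
  have h01 := congrFun (congrFun h 0) 1
  have h02 := congrFun (congrFun h 0) 2
  have h03 := congrFun (congrFun h 0) 3
  have h11 := congrFun (congrFun h 1) 1
  have h12 := congrFun (congrFun h 1) 2
  have h13 := congrFun (congrFun h 1) 3
  have h22 := congrFun (congrFun h 2) 2
  have h23 := congrFun (congrFun h 2) 3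
  have h33 := congrFun (congrFun h 3) 3
  simp [Matrix.mul_apply, Fin.sum_univ_four, G0, Matrix.transpose_apply] at h00 h01 h02 h03 h11 h12 h13 h22 h23 h33
  have k00 := z3 _ h00
  have k11 := z3' _ h11
  have k22 := z3 _ h22
  have k33 := z3' _ h33
  ext i j
  fin_cases i <;> fin_cases j
  · rfl
  · exact k11
  · show X 0 2 = X 3 1
    exact h12.symm
  · show X 0 3 = - X 2 1
    rw [h13, neg_neg]
  · exact k00
  · exact h01.symm
  · show X 1 2 = - X 3 0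
    exact h02.symm
  · exact h03.symm
  · rfl
  · rfl
  · rfl
  · exact k33
  · rfl
  · rfl
  · exact k22
  · exact h23.symm

def I0 : M3 := !![0, -1, 0, 0; 1, 0, 0, 0; 0, 0, 0, -1; 0, 0, 1, 0]
def T1 : M3 := !![0, 0, 1, 1; 0, 0, 1, -1; -1, -1, 0, 0; -1, 1, 0, 0]
def T2 : M3 := !![0, 0, 1, -1; 0, 0, -1, -1; -1, 1, 0, 0; 1, 1, 0, 0]
def T3 : M3 := !![1, 0, 0, 0; 0, 1, 0, 0; 0, 0, -1, 0; 0, 0, 0, -1]
def T4 : M3 := !![0, 0, 1, 0; 0, 0, 0, 1; 1, 0, 0, 0; 0, 1, 0, 0]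
def T5 : M3 := !![0, 0, 0, -1; 0, 0, 1, 0; 0, 1, 0, 0; -1, 0, 0, 0]
def Y1 : M3 := !![-1, 1, 0, 1; 0, 1, 1, -1; 1, 1, 1, 0; 1, 0, -1, -1]
def Y1' : M3 := !![1, -1, 0, -1; 0, -1, -1, 1; -1, -1, -1, 0; -1, 0, 1, 1]
def Y2 : M3 := !![1, 0, 0, 0; 0, 1, 0, -1; -1, 0, -1, 0; 0, 0, 0, -1]
/-- `Y2 T1 Y2` -/
def Y3 : M3 := !![-1, 0, -1, -1; 0, -1, -1, -1; -1, 1, 1, 0; 1, -1, 0, 1]

/-- the frame -/
def S6 : Set M3 := {X | X = 1 ∨ X = T1 ∨ X = T2 ∨ X = T3 ∨ X = T4 ∨ X = T5 ∨ -X = 1 ∨ -X = T1 ∨ -X = T2 ∨ -X = T3 ∨ -X = T4 ∨ -X = T5}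

theorem mk6_sq {a d c0 c1 c2 c3 : ZMod 3} (h : mk6 a d c0 c1 c2 c3 * mk6 a d c0 c1 c2 c3 = 1) :
    a * a + c3 * c0 + -c1 * c2 = 1 ∧ c2 * c3 * 0 + c3 * c0 + -(c2 * c1) + d * d = 1 ∧ (a + d) * c0 = 0 ∧ (a + d) * c1 = 0 ∧
      (a + d) * c2 = 0 ∧ (a + d) * c3 = 0 := by
  have h00 := congrFun (congrFun h 0) 0
  have h33 := congrFun (congrFun h 3) 3
  have h20 := congrFun (congrFun h 2) 0
  have h21 := congrFun (congrFun h 2) 1
  have h30 := congrFun (congrFun h 3) 0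
  have h31 := congrFun (congrFun h 3) 1
  simp only [Matrix.mul_apply, Fin.sum_univ_four, mk6, Matrix.of_apply, Matrix.cons_val', Matrix.cons_val_zero,
    Matrix.cons_val_one, Matrix.cons_val, Matrix.one_apply] at h00 h33 h20 h21 h30 h31
  simp at h00 h33 h20 h21 h30 h31
  refine ⟨?_, ?_, ?_, ?_, ?_, ?_⟩
  · linear_combination h00
  · linear_combination h33
  · linear_combination h20
  · linear_combination h21
  · linear_combination h30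
  · linear_combination h31

theorem mk6_comm {a d c0 c1 c2 c3 : ZMod 3} (h : mk6 a d c0 c1 c2 c3 * I0 = I0 * mk6 a d c0 c1 c2 c3) :
    c2 = -c1 ∧ c3 = c0 := by
  have h20 := congrFun (congrFun h 2) 0
  have h21 := congrFun (congrFun h 2) 1
  simp [Matrix.mul_apply, Fin.sum_univ_four, mk6, I0] at h20 h21
  exact ⟨by rw [h20, neg_neg], h21.symm⟩

theorem mk6_anti {a d c0 c1 c2 c3 : ZMod 3} (h : mk6 a d c0 c1 c2 c3 * I0 = -(I0 * mk6 a d c0 c1 c2 c3)) :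
    a = 0 ∧ d = 0 ∧ c2 = c1 ∧ c3 = -c0 := by
  have h10 := congrFun (congrFun h 1) 0
  have h32 := congrFun (congrFun h 3) 2
  have h20 := congrFun (congrFun h 2) 0
  have h21 := congrFun (congrFun h 2) 1
  simp [Matrix.mul_apply, Fin.sum_univ_four, mk6, I0] at h10 h32 h20 h21
  exact ⟨z3' _ h10, z3' _ h32, h20.symm, by rw [← h21]⟩

theorem sc1 : ∀ a d c0 c1 : ZMod 3, (a * a + c0 * c0 + -c1 * -c1 = 1 ∧ c0 * c0 + -(-c1 * c1) + d * d = 1 ∧ (a + d) * c0 = 0 ∧ (a + d) * c1 = 0) →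
    (a, d, c0, c1) ∈ ([(1, 1, 0, 0), (-1, -1, 0, 0), (1, -1, 0, 0), (-1, 1, 0, 0), (0, 0, 1, 0), (0, 0, -1, 0), (0, 0, 0, 1), (0, 0, 0, -1)] : List (ZMod 3 × ZMod 3 × ZMod 3 × ZMod 3)) := by
  decide +kernel

theorem sc2 : ∀ c0 c1 : ZMod 3, (0 * 0 + -c0 * c0 + -c1 * c1 = 1) →
    (c0, c1) ∈ ([(1, 1), (1, -1), (-1, 1), (-1, -1)] : List (ZMod 3 × ZMod 3)) := by
  decide +kernel

theorem S6_cl {X : M3} (h1 : X * X = 1) (h2 : Xᵀ * G0 = G0 * X) (h3 : X * I0 = -(I0 * X) ∨ X * I0 = I0 * X) : X ∈ S6 := by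
  rw [sa_form X h2] at h1 h3 ⊢
  generalize X 0 0 = a at *
  generalize X 2 2 = d at *
  generalize X 2 0 = c0 at *
  generalize X 2 1 = c1 at *
  generalize X 3 0 = c2 at *
  generalize X 3 1 = c3 at *
  obtain ⟨e1, e2, e3, e4, e5, e6⟩ := mk6_sq h1
  rcases h3 with h3 | h3
  · obtain ⟨rfl, rfl, rfl, rfl⟩ := mk6_anti h3
    have h4 := sc2 c0 c2 e1
    simp only [List.mem_cons, Prod.mk.injEq, List.not_mem_nil, or_false] at h4
    rcases h4 with ⟨rfl, rfl⟩ | ⟨rfl, rfl⟩ | ⟨rfl, rfl⟩ | ⟨rfl, rfl⟩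
    · have h5 : -mk6 0 0 1 1 1 (-1) = T2 ∨ -mk6 0 0 1 1 1 (-1) = T1 ∨ mk6 0 0 1 1 1 (-1) = T1 ∨ mk6 0 0 1 1 1 (-1) = T2 := by decide +kernel
      rcases h5 with h | h | h | h <;> simp only [S6, Set.mem_setOf_eq, h, true_or, or_true]
    · have h5 : -mk6 0 0 1 (-1) (-1) (-1) = T2 ∨ -mk6 0 0 1 (-1) (-1) (-1) = T1 ∨ mk6 0 0 1 (-1) (-1) (-1) = T1 ∨ mk6 0 0 1 (-1) (-1) (-1) = T2 := by decide +kernel
      rcases h5 with h | h | h | h <;> simp only [S6, Set.mem_setOf_eq, h, true_or, or_true]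
    · have h5 : -mk6 0 0 (-1) 1 1 (-(-1)) = T2 ∨ -mk6 0 0 (-1) 1 1 (-(-1)) = T1 ∨ mk6 0 0 (-1) 1 1 (-(-1)) = T1 ∨ mk6 0 0 (-1) 1 1 (-(-1)) = T2 := by decide +kernel
      rcases h5 with h | h | h | h <;> simp only [S6, Set.mem_setOf_eq, h, true_or, or_true]
    · have h5 : -mk6 0 0 (-1) (-1) (-1) (-(-1)) = T2 ∨ -mk6 0 0 (-1) (-1) (-1) (-(-1)) = T1 ∨ mk6 0 0 (-1) (-1) (-1) (-(-1)) = T1 ∨ mk6 0 0 (-1) (-1) (-1) (-(-1)) = T2 := by decide +kernel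
      rcases h5 with h | h | h | h <;> simp only [S6, Set.mem_setOf_eq, h, true_or, or_true]
  · obtain ⟨rfl, rfl⟩ := mk6_comm h3
    have h4 := sc1 a d c3 c1 ⟨e1, by linear_combination e2, e3, e4⟩
    simp only [List.mem_cons, Prod.mk.injEq, List.not_mem_nil, or_false] at h4
    rcases h4 with ⟨rfl, rfl, rfl, rfl⟩ | ⟨rfl, rfl, rfl, rfl⟩ | ⟨rfl, rfl, rfl, rfl⟩ | ⟨rfl, rfl, rfl, rfl⟩ |
      ⟨rfl, rfl, rfl, rfl⟩ | ⟨rfl, rfl, rfl, rfl⟩ | ⟨rfl, rfl, rfl, rfl⟩ | ⟨rfl, rfl, rfl, rfl⟩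
    · have h : mk6 1 1 0 0 (-0) 0 = 1 := by decide +kernel
      simp only [S6, Set.mem_setOf_eq, h, true_or, or_true]
    · have h : -mk6 (-1) (-1) 0 0 (-0) 0 = 1 := by decide +kernel
      simp only [S6, Set.mem_setOf_eq, h, true_or, or_true]
    · have h : mk6 1 (-1) 0 0 (-0) 0 = T3 := by decide +kernel
      simp only [S6, Set.mem_setOf_eq, h, true_or, or_true]
    · have h : -mk6 (-1) 1 0 0 (-0) 0 = T3 := by decide +kernel
      simp only [S6, Set.mem_setOf_eq, h, true_or, or_true]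
    · have h : mk6 0 0 1 0 (-0) 1 = T4 := by decide +kernel
      simp only [S6, Set.mem_setOf_eq, h, true_or, or_true]
    · have h : -mk6 0 0 (-1) 0 (-0) (-1) = T4 := by decide +kernel
      simp only [S6, Set.mem_setOf_eq, h, true_or, or_true]
    · have h : mk6 0 0 0 1 (-1) 0 = T5 := by decide +kernel
      simp only [S6, Set.mem_setOf_eq, h, true_or, or_true]
    · have h : -mk6 0 0 0 (-1) (-(-1)) 0 = T5 := by decide +kernel
      simp only [S6, Set.mem_setOf_eq, h, true_or, or_true]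

end Cfsg.Agent.H29.Pq
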