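import Mathlib
import Cfsg.Agent.H29_Pq2

set_option autoImplicit false

/-! symplectic groups of dimension four over the field of three elements: stabilisers of frames -/

namespace Cfsg.Agent.H29.Pq

open Matrix Module Cfsg.Geo Cfsg.Agent.H29.Fm

variable {F : Type*} [Field F] {ι : Type} [Fintype ι] [DecidableEq ι] {f : (ι → F) → (ι → F) → F}

/-- the stabiliser of a set of matrices -/
def Ms (θ : M3 ≃+* Matrix ι ι F) (S : Set M3) : Subgroup (GL ι F) where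
  carrier := {g | ∀ X ∈ S, (∃ X' ∈ S, (g : Matrix ι ι F) * θ X * ((g⁻¹ : GL ι F) : Matrix ι ι F) = θ X') ∧
    (∃ X' ∈ S, ((g⁻¹ : GL ι F) : Matrix ι ι F) * θ X * (g : Matrix ι ι F) = θ X')}
  one_mem' := by
    intro X hX
    rw [inv_one, Units.val_one, one_mul, mul_one]
    exact ⟨⟨X, hX, rfl⟩, ⟨X, hX, rfl⟩⟩
  mul_mem' := by
    intro g h hg hh X hX
    constructor
    · obtain ⟨X', hX', h1⟩ := (hh X hX).1
      obtain ⟨X'', hX'', h2⟩ := (hg X' hX').1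
      refine ⟨X'', hX'', ?_⟩
      rw [← h2, ← h1, _root_.mul_inv_rev, Units.val_mul, Units.val_mul]
      simp only [mul_assoc]
    · obtain ⟨X', hX', h1⟩ := (hg X hX).2
      obtain ⟨X'', hX'', h2⟩ := (hh X' hX').2
      refine ⟨X'', hX'', ?_⟩
      rw [← h2, ← h1, _root_.mul_inv_rev, Units.val_mul, Units.val_mul]
      simp only [mul_assoc]
  inv_mem' := by
    intro g hg X hX
    rw [inv_inv]
    exact ⟨(hg X hX).2, (hg X hX).1⟩

/-- isometries from coordinates -/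
theorem iso_of {v : Fin 4 → (ι → F)} {θ : M3 ≃+* Matrix ι ι F} (hθ : Th f v θ) {Y Y' : M3} (h1 : Y * Y' = 1) (h2 : Y' * Y = 1)
    (h3 : Yᵀ * G0 = G0 * Y') : ∃ g : GL ι F, (g : Matrix ι ι F) = θ Y ∧ ((g⁻¹ : GL ι F) : Matrix ι ι F) = θ Y' ∧
      ∀ x y, f ((g : Matrix ι ι F) *ᵥ x) ((g : Matrix ι ι F) *ᵥ y) = f x y := by
  refine ⟨⟨θ Y, θ Y', by rw [← map_mul, h1, map_one], by rw [← map_mul, h2, map_one]⟩, rfl, rfl, fun x y => ?_⟩
  show f (θ Y *ᵥ x) (θ Y *ᵥ y) = f x y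
  rw [(hθ.adj Y Y').1 h3, Matrix.mulVec_mulVec, ← map_mul, h2, map_one, Matrix.one_mulVec]

theorem nonmax3 {v : Fin 4 → (ι → F)} {θ : M3 ≃+* Matrix ι ι F} (hθ : Th f v θ) {Sp H : Subgroup (GL ι F)}
    (hSp : ∀ g : GL ι F, g ∈ Sp ↔ ∀ x y, f ((g : Matrix ι ι F) *ᵥ x) ((g : Matrix ι ι F) *ᵥ y) = f x y) (hle : H ≤ Sp)
    {σ : M3} {b : Prop} {S : Set M3}
    (hH : ∀ g ∈ H, (g : Matrix ι ι F) * θ σ = θ σ * (g : Matrix ι ι F) ∨ (g : Matrix ι ι F) * θ σ = -(θ σ * (g : Matrix ι ι F)))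
    (hcl : ∀ X : M3, X * X = 1 → Xᵀ * G0 = G0 * X → (X * σ = -(σ * X) ∨ (b ∧ X * σ = σ * X)) → X ∈ S)
    (hpr : ∀ X ∈ S, X * X = 1 ∧ Xᵀ * G0 = G0 * X ∧ (X * σ = -(σ * X) ∨ (b ∧ X * σ = σ * X)))
    {Y Y' : M3} (hY : Y * Y' = 1) (hY2 : Y' * Y = 1) (hY3 : Yᵀ * G0 = G0 * Y')
    (hYS : ∀ X ∈ S, Y * X * Y' ∈ S ∧ Y' * X * Y ∈ S) (hYn : ¬ (Y * σ = σ * Y ∨ Y * σ = -(σ * Y)))
    {Z Z' : M3} (hZ : Z * Z' = 1) (hZ2 : Z' * Z = 1) (hZ3 : Zᵀ * G0 = G0 * Z') (hZS : ∃ X ∈ S, Z * X * Z' ∉ S) :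
    ∃ K : Subgroup (GL ι F), H < K ∧ K < Sp := by
  have key : ∀ g ∈ H, ∀ X ∈ S, ∃ X' ∈ S, (g : Matrix ι ι F) * θ X * ((g⁻¹ : GL ι F) : Matrix ι ι F) = θ X' := by
    intro g hg X hX
    have hgg : (g : Matrix ι ι F) * ((g⁻¹ : GL ι F) : Matrix ι ι F) = 1 := by rw [← Units.val_mul, mul_inv_cancel, Units.val_one]
    have hgg' : ((g⁻¹ : GL ι F) : Matrix ι ι F) * (g : Matrix ι ι F) = 1 := by rw [← Units.val_mul, inv_mul_cancel, Units.val_one]
    obtain ⟨p1, p2, p3⟩ := hpr X hX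
    set a := (g : Matrix ι ι F) * θ X * ((g⁻¹ : GL ι F) : Matrix ι ι F) with ha
    have haX : a = θ (θ.symm a) := (θ.apply_symm_apply a).symm
    have hiso := (hSp g).1 (hle hg)
    have hiso' := (hSp g⁻¹).1 (Sp.inv_mem (hle hg))
    refine ⟨θ.symm a, hcl _ ?_ ?_ ?_, haX⟩
    · apply θ.injective
      rw [map_mul, ← haX, map_one, ha]
      calc (g : Matrix ι ι F) * θ X * ((g⁻¹ : GL ι F) : Matrix ι ι F) * ((g : Matrix ι ι F) * θ X * ((g⁻¹ : GL ι F) : Matrix ι ι F))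
          = (g : Matrix ι ι F) * θ X * (((g⁻¹ : GL ι F) : Matrix ι ι F) * (g : Matrix ι ι F)) * θ X * ((g⁻¹ : GL ι F) : Matrix ι ι F) := by
            simp only [mul_assoc]
        _ = (g : Matrix ι ι F) * (θ X * θ X) * ((g⁻¹ : GL ι F) : Matrix ι ι F) := by rw [hgg', mul_one]; simp only [mul_assoc]
        _ = 1 := by rw [← map_mul, p1, map_one, mul_one, hgg]
    · rw [hθ.adj]
      intro x y
      rw [← haX, ha]
      have e1 : ∀ x : ι → F, ((g : Matrix ι ι F) * θ X * ((g⁻¹ : GL ι F) : Matrix ι ι F)) *ᵥ x =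
          (g : Matrix ι ι F) *ᵥ (θ X *ᵥ (((g⁻¹ : GL ι F) : Matrix ι ι F) *ᵥ x)) := by
        intro x
        rw [Matrix.mulVec_mulVec, Matrix.mulVec_mulVec, mul_assoc]
      have e2 : ∀ y : ι → F, y = (g : Matrix ι ι F) *ᵥ (((g⁻¹ : GL ι F) : Matrix ι ι F) *ᵥ y) := by
        intro y
        rw [Matrix.mulVec_mulVec, hgg, Matrix.one_mulVec]
      rw [e1, e1]
      conv_lhs => rw [e2 y]
      conv_rhs => rw [e2 x]
      rw [hiso, hiso]
      exact (hθ.adj X X).1 p2 _ _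
    · have h5 : ∀ s : Matrix ι ι F, (g : Matrix ι ι F) * θ σ = s * (g : Matrix ι ι F) →
          a * s = (g : Matrix ι ι F) * θ (X * σ) * ((g⁻¹ : GL ι F) : Matrix ι ι F) ∧
          s * a = (g : Matrix ι ι F) * θ (σ * X) * ((g⁻¹ : GL ι F) : Matrix ι ι F) := by
        intro s hs
        have h6 : s = (g : Matrix ι ι F) * θ σ * ((g⁻¹ : GL ι F) : Matrix ι ι F) := by
          rw [hs, mul_assoc, hgg, mul_one]
        rw [h6, ha, map_mul, map_mul]
        constructor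
        · calc _ = (g : Matrix ι ι F) * θ X * (((g⁻¹ : GL ι F) : Matrix ι ι F) * (g : Matrix ι ι F)) * θ σ * ((g⁻¹ : GL ι F) : Matrix ι ι F) := by
                simp only [mul_assoc]
            _ = _ := by rw [hgg', mul_one]; simp only [mul_assoc]
        · calc _ = (g : Matrix ι ι F) * θ σ * (((g⁻¹ : GL ι F) : Matrix ι ι F) * (g : Matrix ι ι F)) * θ X * ((g⁻¹ : GL ι F) : Matrix ι ι F) := by
                simp only [mul_assoc]
            _ = _ := by rw [hgg', mul_one]; simp only [mul_assoc]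
      have h7 : a * θ σ = -(θ σ * a) ∧ X * σ = -(σ * X) ∨ a * θ σ = θ σ * a ∧ b := by
        rcases hH g hg with h | h
        · obtain ⟨h8, h9⟩ := h5 (θ σ) h
          rcases p3 with h10 | ⟨hb, h10⟩
          · left; refine ⟨?_, h10⟩; rw [h8, h9, h10, map_neg, mul_neg, neg_mul]
          · right; refine ⟨?_, hb⟩; rw [h8, h9, h10]
        · obtain ⟨h8, h9⟩ := h5 (-θ σ) (by rw [h, neg_mul])
          rw [mul_neg] at h8
          rw [neg_mul] at h9
          rcases p3 with h10 | ⟨hb, h10⟩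
          · left; refine ⟨?_, h10⟩
            rw [← neg_neg (a * θ σ), h8, h9, h10, map_neg, mul_neg, neg_mul, neg_neg]
          · right; refine ⟨?_, hb⟩
            rw [← neg_neg (a * θ σ), h8, h10, ← h9, neg_neg]
      rcases h7 with ⟨h8, -⟩ | ⟨h8, hb⟩
      · left
        apply θ.injective
        rw [map_neg θ, map_mul θ, map_mul θ, ← haX]
        exact h8
      · right
        refine ⟨hb, ?_⟩
        apply θ.injective
        rw [map_mul θ, map_mul θ, ← haX]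
        exact h8
  apply nonmax_of (M := Ms θ S) hle
  · intro g hg X hX
    refine ⟨key g hg X hX, ?_⟩
    have h1 := key g⁻¹ (H.inv_mem hg) X hX
    rwa [inv_inv] at h1
  · intro hSpM
    obtain ⟨X, hX, hXn⟩ := hZS
    obtain ⟨g, h1, h2, h3⟩ := iso_of hθ hZ hZ2 hZ3
    obtain ⟨X', hX', h4⟩ := (hSpM ((hSp g).2 h3) X hX).1
    rw [h1, h2, ← map_mul, ← map_mul] at h4
    rw [θ.injective h4] at hXn
    exact hXn hX'
  · obtain ⟨g, h1, h2, h3⟩ := iso_of hθ hY hY2 hY3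
    refine ⟨g, (hSp g).2 h3, ?_, ?_⟩
    · intro X hX
      rw [h1, h2]
      exact ⟨⟨_, (hYS X hX).1, by rw [map_mul, map_mul]⟩, ⟨_, (hYS X hX).2, by rw [map_mul, map_mul]⟩⟩
    · intro hg
      apply hYn
      rcases hH g hg with h | h
      · left
        apply θ.injective
        rw [map_mul, map_mul, ← h1]
        exact h
      · right
        apply θ.injective
        rw [map_neg, map_mul, map_mul, ← h1]
        exact h

end Cfsg.Agent.H29.Pq
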