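import Mathlib
import Cfsg.Agent.H29_Pq3

set_option autoImplicit false

/-! symplectic groups of dimension four over the field of three elements: the two cases -/

namespace Cfsg.Agent.H29.Pq

open Matrix Module Cfsg.Geo Cfsg.Agent.H29.Fm

theorem S6_pr : ∀ X ∈ S6, X * X = 1 ∧ Xᵀ * G0 = G0 * X ∧ (X * I0 = -(I0 * X) ∨ (True ∧ X * I0 = I0 * X)) := by
  have hneg : ∀ T : M3, (T * T = 1 ∧ Tᵀ * G0 = G0 * T ∧ (T * I0 = -(I0 * T) ∨ (True ∧ T * I0 = I0 * T))) →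
      ∀ X : M3, -X = T → (X * X = 1 ∧ Xᵀ * G0 = G0 * X ∧ (X * I0 = -(I0 * X) ∨ (True ∧ X * I0 = I0 * X))) := by
    rintro T ⟨h1, h2, h3⟩ X rfl
    rw [neg_mul_neg] at h1
    rw [Matrix.transpose_neg, neg_mul, mul_neg, neg_inj] at h2
    refine ⟨h1, h2, ?_⟩
    rcases h3 with h3 | ⟨-, h3⟩
    · left; rw [neg_mul, mul_neg, neg_inj] at h3; exact h3
    · right; rw [neg_mul, mul_neg, neg_inj] at h3; exact ⟨trivial, h3⟩
  have e0 : (1 : M3) * 1 = 1 ∧ (1 : M3)ᵀ * G0 = G0 * 1 ∧ ((1 : M3) * I0 = -(I0 * 1) ∨ (True ∧ (1 : M3) * I0 = I0 * 1)) :=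
    ⟨by rw [one_mul], by rw [Matrix.transpose_one, one_mul, mul_one], Or.inr ⟨trivial, by rw [one_mul, mul_one]⟩⟩
  have e1 : T1 * T1 = 1 ∧ T1ᵀ * G0 = G0 * T1 ∧ (T1 * I0 = -(I0 * T1) ∨ (True ∧ T1 * I0 = I0 * T1)) :=
    ⟨by decide +kernel, by decide +kernel, Or.inl (by decide +kernel)⟩
  have e2 : T2 * T2 = 1 ∧ T2ᵀ * G0 = G0 * T2 ∧ (T2 * I0 = -(I0 * T2) ∨ (True ∧ T2 * I0 = I0 * T2)) :=
    ⟨by decide +kernel, by decide +kernel, Or.inl (by decide +kernel)⟩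
  have e3 : T3 * T3 = 1 ∧ T3ᵀ * G0 = G0 * T3 ∧ (T3 * I0 = -(I0 * T3) ∨ (True ∧ T3 * I0 = I0 * T3)) :=
    ⟨by decide +kernel, by decide +kernel, Or.inr ⟨trivial, by decide +kernel⟩⟩
  have e4 : T4 * T4 = 1 ∧ T4ᵀ * G0 = G0 * T4 ∧ (T4 * I0 = -(I0 * T4) ∨ (True ∧ T4 * I0 = I0 * T4)) :=
    ⟨by decide +kernel, by decide +kernel, Or.inr ⟨trivial, by decide +kernel⟩⟩
  have e5 : T5 * T5 = 1 ∧ T5ᵀ * G0 = G0 * T5 ∧ (T5 * I0 = -(I0 * T5) ∨ (True ∧ T5 * I0 = I0 * T5)) :=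
    ⟨by decide +kernel, by decide +kernel, Or.inr ⟨trivial, by decide +kernel⟩⟩
  rintro X (rfl | rfl | rfl | rfl | rfl | rfl | h | h | h | h | h | h)
  · exact e0
  · exact e1
  · exact e2
  · exact e3
  · exact e4
  · exact e5
  · exact hneg _ e0 X h
  · exact hneg _ e1 X h
  · exact hneg _ e2 X h
  · exact hneg _ e3 X h
  · exact hneg _ e4 X h
  · exact hneg _ e5 X h

theorem S6_Y : ∀ X ∈ S6, Y1 * X * Y1' ∈ S6 ∧ Y1' * X * Y1 ∈ S6 := by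
  have hy : Y1 * Y1' = 1 := by decide +kernel
  have hy' : Y1' * Y1 = 1 := by decide +kernel
  have k1 : Y1 * T1 * Y1' = T3 := by decide +kernel
  have k2 : Y1 * T2 * Y1' = T4 := by decide +kernel
  have k3 : Y1 * T3 * Y1' = T1 := by decide +kernel
  have k4 : Y1 * T4 * Y1' = T2 := by decide +kernel
  have k5 : Y1 * T5 * Y1' = T5 := by decide +kernel
  have inv : ∀ A B : M3, Y1 * A * Y1' = B → Y1' * B * Y1 = A := by
    rintro A B rfl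
    calc Y1' * (Y1 * A * Y1') * Y1 = (Y1' * Y1) * A * (Y1' * Y1) := by simp only [mul_assoc]
      _ = A := by rw [hy', one_mul, mul_one]
  have l1 := inv _ _ k1
  have l2 := inv _ _ k2
  have l3 := inv _ _ k3
  have l4 := inv _ _ k4
  have l5 := inv _ _ k5
  rintro X (rfl | rfl | rfl | rfl | rfl | rfl | h | h | h | h | h | h)
  · rw [mul_one, mul_one, hy, hy']; simp [S6]
  · rw [k1, l3]; simp only [S6, Set.mem_setOf_eq, true_or, or_true, and_self]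
  · rw [k2, l4]; simp only [S6, Set.mem_setOf_eq, true_or, or_true, and_self]
  · rw [k3, l1]; simp only [S6, Set.mem_setOf_eq, true_or, or_true, and_self]
  · rw [k4, l2]; simp only [S6, Set.mem_setOf_eq, true_or, or_true, and_self]
  · rw [k5, l5]; simp only [S6, Set.mem_setOf_eq, true_or, or_true, and_self]
  · obtain rfl : X = -1 := by rw [← h, neg_neg]
    rw [mul_neg, neg_mul, mul_neg, neg_mul, mul_one, mul_one, hy, hy']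
    simp only [S6, Set.mem_setOf_eq, neg_neg, true_or, or_true, and_self]
  · obtain rfl : X = -T1 := by rw [← h, neg_neg]
    rw [mul_neg, neg_mul, mul_neg, neg_mul, k1, l3]
    simp only [S6, Set.mem_setOf_eq, neg_neg, true_or, or_true, and_self]
  · obtain rfl : X = -T2 := by rw [← h, neg_neg]
    rw [mul_neg, neg_mul, mul_neg, neg_mul, k2, l4]
    simp only [S6, Set.mem_setOf_eq, neg_neg, true_or, or_true, and_self]
  · obtain rfl : X = -T3 := by rw [← h, neg_neg]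
    rw [mul_neg, neg_mul, mul_neg, neg_mul, k3, l1]
    simp only [S6, Set.mem_setOf_eq, neg_neg, true_or, or_true, and_self]
  · obtain rfl : X = -T4 := by rw [← h, neg_neg]
    rw [mul_neg, neg_mul, mul_neg, neg_mul, k4, l2]
    simp only [S6, Set.mem_setOf_eq, neg_neg, true_or, or_true, and_self]
  · obtain rfl : X = -T5 := by rw [← h, neg_neg]
    rw [mul_neg, neg_mul, mul_neg, neg_mul, k5, l5]
    simp only [S6, Set.mem_setOf_eq, neg_neg, true_or, or_true, and_self]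

theorem S6_Z : ∃ X ∈ S6, Y2 * X * Y2 ∉ S6 := by
  refine ⟨T1, by simp only [S6, Set.mem_setOf_eq, true_or, or_true], ?_⟩
  have h : Y2 * T1 * Y2 = Y3 := by decide +kernel
  rw [h]
  show ¬ (Y3 = 1 ∨ Y3 = T1 ∨ Y3 = T2 ∨ Y3 = T3 ∨ Y3 = T4 ∨ Y3 = T5 ∨ -Y3 = 1 ∨ -Y3 = T1 ∨ -Y3 = T2 ∨ -Y3 = T3 ∨ -Y3 = T4 ∨ -Y3 = T5)
  decide +kernel

theorem Y1_n : ¬ (Y1 * I0 = I0 * Y1 ∨ Y1 * I0 = -(I0 * Y1)) := by decide +kernel

/-! pairs of totally isotropic planes -/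

def Sg0 : M3 := !![1, 0, 0, 0; 0, -1, 0, 0; 0, 0, 1, 0; 0, 0, 0, -1]
def S4 : Set M3 := {X | X = T5 ∨ -X = T5}
def Z1 : M3 := !![1, 1, 1, 0; 0, 1, 0, 0; 0, 0, 1, 0; 0, -1, -1, 1]
def Z1' : M3 := !![1, -1, -1, 0; 0, 1, 0, 0; 0, 0, 1, 0; 0, 1, 1, 1]
def Z2 : M3 := !![1, 1, 0, 0; 0, 1, 0, 0; 0, 0, 1, 0; 0, 0, 0, 1]
def Z2' : M3 := !![1, -1, 0, 0; 0, 1, 0, 0; 0, 0, 1, 0; 0, 0, 0, 1]

theorem sc3 : ∀ c1 c2 : ZMod 3, (0 * 0 + 0 * 0 + -c1 * c2 = 1) → (c1, c2) ∈ ([(1, -1), (-1, 1)] : List (ZMod 3 × ZMod 3)) := by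
  decide +kernel

theorem mk6_antiS {a d c0 c1 c2 c3 : ZMod 3} (h : mk6 a d c0 c1 c2 c3 * Sg0 = -(Sg0 * mk6 a d c0 c1 c2 c3)) :
    a = 0 ∧ d = 0 ∧ c0 = 0 ∧ c3 = 0 := by
  have h00 := congrFun (congrFun h 0) 0
  have h22 := congrFun (congrFun h 2) 2
  have h20 := congrFun (congrFun h 2) 0
  have h31 := congrFun (congrFun h 3) 1
  simp [Matrix.mul_apply, Fin.sum_univ_four, mk6, Sg0] at h00 h22 h20 h31
  exact ⟨z3' _ h00, z3' _ h22, z3' _ h20, z3 _ h31⟩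

theorem S4_cl {X : M3} (h1 : X * X = 1) (h2 : Xᵀ * G0 = G0 * X) (h3 : X * Sg0 = -(Sg0 * X)) : X ∈ S4 := by
  rw [sa_form X h2] at h1 h3 ⊢
  generalize X 0 0 = a at *
  generalize X 2 2 = d at *
  generalize X 2 0 = c0 at *
  generalize X 2 1 = c1 at *
  generalize X 3 0 = c2 at *
  generalize X 3 1 = c3 at *
  obtain ⟨e1, -⟩ := mk6_sq h1
  obtain ⟨rfl, rfl, rfl, rfl⟩ := mk6_antiS h3
  have h4 := sc3 c1 c2 e1
  simp only [List.mem_cons, Prod.mk.injEq, List.not_mem_nil, or_false] at h4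
  rcases h4 with ⟨rfl, rfl⟩ | ⟨rfl, rfl⟩
  · left; decide +kernel
  · right; decide +kernel

theorem S4_pr : ∀ X ∈ S4, X * X = 1 ∧ Xᵀ * G0 = G0 * X ∧ (X * Sg0 = -(Sg0 * X) ∨ (False ∧ X * Sg0 = Sg0 * X)) := by
  have e : T5 * T5 = 1 ∧ T5ᵀ * G0 = G0 * T5 ∧ T5 * Sg0 = -(Sg0 * T5) := by decide +kernel
  rintro X (rfl | h)
  · exact ⟨e.1, e.2.1, Or.inl e.2.2⟩
  · obtain rfl : X = -T5 := by rw [← h, neg_neg]
    refine ⟨?_, ?_, Or.inl ?_⟩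
    · rw [neg_mul_neg]; exact e.1
    · rw [Matrix.transpose_neg, neg_mul, mul_neg, e.2.1]
    · rw [neg_mul, mul_neg, e.2.2]

theorem S4_Y : ∀ X ∈ S4, Z1 * X * Z1' ∈ S4 ∧ Z1' * X * Z1 ∈ S4 := by
  have h1 : Z1 * T5 * Z1' = T5 := by decide +kernel
  have h2 : Z1' * T5 * Z1 = T5 := by decide +kernel
  rintro X (rfl | h)
  · rw [h1, h2]; exact ⟨Or.inl rfl, Or.inl rfl⟩
  · obtain rfl : X = -T5 := by rw [← h, neg_neg]
    rw [mul_neg, neg_mul, mul_neg, neg_mul, h1, h2]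
    exact ⟨Or.inr (neg_neg _), Or.inr (neg_neg _)⟩

theorem S4_Z : ∃ X ∈ S4, Z2 * X * Z2' ∉ S4 := by
  refine ⟨T5, Or.inl rfl, ?_⟩
  show ¬ (Z2 * T5 * Z2' = T5 ∨ -(Z2 * T5 * Z2') = T5)
  decide +kernel

theorem Z1_n : ¬ (Z1 * Sg0 = Sg0 * Z1 ∨ Z1 * Sg0 = -(Sg0 * Z1)) := by decide +kernel

theorem Y_facts : Y1 * Y1' = 1 ∧ Y1' * Y1 = 1 ∧ Y1ᵀ * G0 = G0 * Y1' ∧ Y2 * Y2 = 1 ∧ Y2ᵀ * G0 = G0 * Y2 := by decide +kernel
theorem Z_facts : Z1 * Z1' = 1 ∧ Z1' * Z1 = 1 ∧ Z1ᵀ * G0 = G0 * Z1' ∧ Z2 * Z2' = 1 ∧ Z2' * Z2 = 1 ∧ Z2ᵀ * G0 = G0 * Z2' := by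
  decide +kernel

end Cfsg.Agent.H29.Pq
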