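import Mathlib
import Cfsg.Agent.H29_Pq4

set_option autoImplicit false

/-! symplectic groups of dimension four over the field of three elements: adapted bases -/

namespace Cfsg.Agent.H29.Pq

open Matrix Module Cfsg.Geo Cfsg.Agent.H29.Fm

variable {F : Type*} [Field F] {ι : Type} [Fintype ι] [DecidableEq ι] {f : (ι → F) → (ι → F) → F}

theorem gram_of (hf : IsSymplecticForm f) {v : Fin 4 → (ι → F)} (h01 : f (v 0) (v 1) = 1) (h23 : f (v 2) (v 3) = 1)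
    (h02 : f (v 0) (v 2) = 0) (h03 : f (v 0) (v 3) = 0) (h12 : f (v 1) (v 2) = 0) (h13 : f (v 1) (v 3) = 0) :
    ∀ (φ : ZMod 3 →+* F) i j, f (v i) (v j) = φ (G0 i j) := by
  intro φ i j
  have h10 : f (v 1) (v 0) = -1 := by rw [hf.skew, h01]
  have h32 : f (v 3) (v 2) = -1 := by rw [hf.skew, h23]
  have h20 : f (v 2) (v 0) = 0 := by rw [hf.skew, h02, neg_zero]
  have h30 : f (v 3) (v 0) = 0 := by rw [hf.skew, h03, neg_zero]
  have h21 : f (v 2) (v 1) = 0 := by rw [hf.skew, h12, neg_zero]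
  have h31 : f (v 3) (v 1) = 0 := by rw [hf.skew, h13, neg_zero]
  have a : ∀ x, f x x = 0 := hf.alternating
  fin_cases i <;> fin_cases j <;> simp [G0, h01, h23, h02, h03, h12, h13, h10, h32, h20, h30, h21, h31, a]

theorem exists_v6 [Fintype F] (hq : Fintype.card F = 3) (hι : Fintype.card ι = 4) (hf : IsSymplecticForm f)
    {J : Matrix ι ι F} (hJ : J * J = -1) (hadj : ∀ x y, f (J *ᵥ x) y = - f x (J *ᵥ y)) :
    ∃ v : Fin 4 → (ι → F), (∀ (φ : ZMod 3 →+* F) i j, f (v i) (v j) = φ (G0 i j)) ∧ v 1 = J *ᵥ v 0 ∧ v 3 = J *ᵥ v 2 := by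
  classical
  have h3 : (3 : F) = 0 := three_zero hq
  have h2 : (2 : F) ≠ 0 := two_ne_of_three hq
  have hb := hf.bilinear
  have hJJ : ∀ x, J *ᵥ (J *ᵥ x) = -x := by
    intro x
    rw [Matrix.mulVec_mulVec, hJ, Matrix.neg_mulVec, Matrix.one_mulVec]
  have hneg : ∀ x y, f x (-y) = - f x y := by
    intro x y
    rw [← neg_one_smul F y, hb.smul_right]; ring
  have hnegl : ∀ x y, f (-x) y = - f x y := by
    intro x y
    rw [← neg_one_smul F x, hb.smul_left]; ring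
  have hsym : ∀ x y, f x (J *ᵥ y) = f y (J *ᵥ x) := by
    intro x y
    rw [hf.skew y, hadj, neg_neg]
  have hiso : ∀ x y, f (J *ᵥ x) (J *ᵥ y) = f x y := by
    intro x y
    rw [hadj, hJJ, hneg, neg_neg]
  have hnd : ∀ x, x ≠ 0 → ∃ y, f x (J *ᵥ y) ≠ 0 := by
    intro x hx
    obtain ⟨-, z, hz⟩ := hf.nondegenerate x hx
    refine ⟨-(J *ᵥ z), ?_⟩
    rw [Matrix.mulVec_neg, hJJ, neg_neg]
    exact hz
  have hN : ∀ x, f x (J *ᵥ x) ≠ 0 → ∃ y, (y = x ∨ y = x + J *ᵥ x) ∧ f y (J *ᵥ y) = 1 := by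
    intro x hx
    rcases three_cases hq (f x (J *ᵥ x)) with h | h | h
    · exact absurd h hx
    · exact ⟨x, Or.inl rfl, h⟩
    · refine ⟨x + J *ᵥ x, Or.inr rfl, ?_⟩
      rw [Matrix.mulVec_add, hJJ, hb.add_left, hb.add_right, hb.add_right, hneg, hneg, hiso, hf.alternating, hadj x x, h]
      linear_combination -h3
  obtain ⟨x₀, hx₀⟩ : ∃ x, f x (J *ᵥ x) ≠ 0 := by
    by_contra hcon
    push Not at hcon
    haveI : Nonempty ι := Fintype.card_pos_iff.1 (by omega)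
    obtain ⟨x, hx⟩ := exists_ne (0 : ι → F)
    obtain ⟨y, hy⟩ := hnd x hx
    have h5 := hcon (x + y)
    rw [Matrix.mulVec_add, hb.add_left, hb.add_right, hb.add_right, hcon x, hcon y, hsym y x] at h5
    apply hy
    have h6 : 2 * f x (J *ᵥ y) = 0 := by linear_combination h5
    exact (mul_eq_zero.1 h6).resolve_left h2
  obtain ⟨e, -, he⟩ := hN x₀ hx₀
  let p : (ι → F) → (ι → F) := fun x => x - f x (J *ᵥ e) • e + f x e • (J *ᵥ e)
  have hsubl : ∀ x y z, f (x - y) z = f x z - f y z := by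
    intro x y z
    rw [sub_eq_add_neg, hb.add_left, hnegl]; ring
  have hp1 : ∀ x, f (p x) e = 0 := by
    intro x
    show f (x - f x (J *ᵥ e) • e + f x e • (J *ᵥ e)) e = 0
    rw [hb.add_left, hsubl, hb.smul_left, hb.smul_left, hf.alternating, hadj, he]
    ring
  have hp2 : ∀ x, f (p x) (J *ᵥ e) = 0 := by
    intro x
    show f (x - f x (J *ᵥ e) • e + f x e • (J *ᵥ e)) (J *ᵥ e) = 0
    rw [hb.add_left, hsubl, hb.smul_left, hb.smul_left, hf.alternating, he]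
    ring
  have hpJ : ∀ x, p (J *ᵥ x) = J *ᵥ (p x) := by
    intro x
    show J *ᵥ x - f (J *ᵥ x) (J *ᵥ e) • e + f (J *ᵥ x) e • (J *ᵥ e) = J *ᵥ (x - f x (J *ᵥ e) • e + f x e • (J *ᵥ e))
    rw [Matrix.mulVec_add, Matrix.mulVec_sub, Matrix.mulVec_smul, Matrix.mulVec_smul, hJJ, hiso, hadj]
    module
  have hpp : ∀ x y, f (p x) (p y) = f (p x) y := by
    intro x y
    show f (p x) (y - f y (J *ᵥ e) • e + f y e • (J *ᵥ e)) = _
    rw [hb.add_right, sub_eq_add_neg, hb.add_right, hneg, hb.smul_right, hb.smul_right, hp1, hp2]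
    ring
  have hpadd : ∀ x y, p (x + y) = p x + p y := by
    intro x y
    show x + y - f (x + y) (J *ᵥ e) • e + f (x + y) e • (J *ᵥ e) = _
    rw [hb.add_left, hb.add_left]
    show _ = x - f x (J *ᵥ e) • e + f x e • (J *ᵥ e) + (y - f y (J *ᵥ e) • e + f y e • (J *ᵥ e))
    module
  obtain ⟨x₁, hx₁⟩ : ∃ x, f (p x) (J *ᵥ (p x)) ≠ 0 := by
    by_contra hcon
    push Not at hcon
    have h5 : ∀ x y, f (p x) (J *ᵥ (p y)) = 0 := by
      intro x y
      have h5 := hcon (x + y)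
      rw [hpadd, Matrix.mulVec_add, hb.add_left, hb.add_right, hb.add_right, hcon x, hcon y, hsym (p y) (p x)] at h5
      have h6 : 2 * f (p x) (J *ᵥ (p y)) = 0 := by linear_combination h5
      exact (mul_eq_zero.1 h6).resolve_left h2
    have h6 : ∀ x, p x = 0 := by
      intro x
      by_contra h0
      obtain ⟨y, hy⟩ := hnd _ h0
      apply hy
      rw [← hpp, hpJ]
      exact h5 x y
    have h7 : (⊤ : Submodule F (ι → F)) ≤ Submodule.span F ((({e, J *ᵥ e} : Finset (ι → F)) : Set (ι → F))) := by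
      intro x _
      rw [Finset.coe_pair, Submodule.mem_span_pair]
      refine ⟨f x (J *ᵥ e), - f x e, ?_⟩
      have h8 : x - f x (J *ᵥ e) • e + f x e • (J *ᵥ e) = 0 := h6 x
      rw [← sub_eq_zero, ← neg_eq_zero, ← h8]
      module
    have h8 := Submodule.finrank_mono h7
    rw [finrank_top, Module.finrank_fintype_fun_eq_card, hι] at h8
    have h9 := finrank_span_finset_le_card (R := F) ({e, J *ᵥ e} : Finset (ι → F))
    have h10 : ({e, J *ᵥ e} : Finset (ι → F)).card ≤ 2 := Finset.card_le_two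
    have h11 := h8.trans (h9.trans h10)
    omega
  obtain ⟨e', he', hee'⟩ := hN (p x₁) hx₁
  obtain ⟨x₂, rfl⟩ : ∃ x, e' = p x := by
    rcases he' with h | h
    · exact ⟨x₁, h⟩
    · exact ⟨x₁ + J *ᵥ x₁, by rw [h, hpadd, hpJ]⟩
  have q1 : f e (p x₂) = 0 := by rw [hf.skew, hp1, neg_zero]
  have q2 : f (J *ᵥ e) (p x₂) = 0 := by rw [hf.skew, hp2, neg_zero]
  have q3 : f e (J *ᵥ p x₂) = 0 := by rw [hsym, hp2]
  have q4 : f (J *ᵥ e) (J *ᵥ p x₂) = 0 := by rw [hiso, q1]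
  exact ⟨![e, J *ᵥ e, p x₂, J *ᵥ p x₂], gram_of hf he hee' q1 q3 q2 q4, rfl, rfl⟩

theorem theta_I0 {v : Fin 4 → (ι → F)} {θ : M3 ≃+* Matrix ι ι F} (hθ : Th f v θ) {J : Matrix ι ι F} (hJ : J * J = -1)
    (h1 : v 1 = J *ᵥ v 0) (h3 : v 3 = J *ᵥ v 2) : θ I0 = J := by
  have hJJ : ∀ x, J *ᵥ (J *ᵥ x) = -x := by
    intro x
    rw [Matrix.mulVec_mulVec, hJ, Matrix.neg_mulVec, Matrix.one_mulVec]
  apply hθ.ext
  intro k
  obtain ⟨c, hc, c0, cp, cm⟩ := hθ.act I0 k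
  rw [hc, Fin.sum_univ_four]
  fin_cases k
  · show c 0 • v 0 + c 1 • v 1 + c 2 • v 2 + c 3 • v 3 = J *ᵥ v 0
    rw [c0 0 (by decide), cp 1 (by decide), c0 2 (by decide), c0 3 (by decide), h1]
    module
  · show c 0 • v 0 + c 1 • v 1 + c 2 • v 2 + c 3 • v 3 = J *ᵥ v 1
    rw [cm 0 (by decide), c0 1 (by decide), c0 2 (by decide), c0 3 (by decide), h1, hJJ]
    module
  · show c 0 • v 0 + c 1 • v 1 + c 2 • v 2 + c 3 • v 3 = J *ᵥ v 2
    rw [c0 0 (by decide), c0 1 (by decide), c0 2 (by decide), cp 3 (by decide), h3]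
    module
  · show c 0 • v 0 + c 1 • v 1 + c 2 • v 2 + c 3 • v 3 = J *ᵥ v 3
    rw [c0 0 (by decide), c0 1 (by decide), cm 2 (by decide), c0 3 (by decide), h3, hJJ]
    module

/-- the unitary case -/
theorem nonmaxJ [Fintype F] (hq : Fintype.card F = 3) (hι : Fintype.card ι = 4) (hf : IsSymplecticForm f)
    {J : Matrix ι ι F} (hJ : J * J = -1) (hadj : ∀ x y, f (J *ᵥ x) y = - f x (J *ᵥ y)) {Sp H : Subgroup (GL ι F)}
    (hSp : ∀ g : GL ι F, g ∈ Sp ↔ ∀ x y, f ((g : Matrix ι ι F) *ᵥ x) ((g : Matrix ι ι F) *ᵥ y) = f x y) (hle : H ≤ Sp)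
    (hH : ∀ g ∈ H, (g : Matrix ι ι F) * J = J * (g : Matrix ι ι F) ∨ (g : Matrix ι ι F) * J = -(J * (g : Matrix ι ι F))) :
    ∃ K : Subgroup (GL ι F), H < K ∧ K < Sp := by
  obtain ⟨v, hv, h1, h3⟩ := exists_v6 hq hι hf hJ hadj
  obtain ⟨θ, hθ⟩ := exists_theta hq hι hf hv
  obtain ⟨y1, y2, y3, y4, y5⟩ := Y_facts
  exact nonmax3 hθ hSp hle (σ := I0) (b := True) (S := S6) (by rw [theta_I0 hθ hJ h1 h3]; exact hH)
    (fun X a1 a2 a3 => S6_cl a1 a2 (a3.imp id (fun h => h.2))) S6_pr y1 y2 y3 S6_Y Y1_n y4 y4 y5 S6_Z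

end Cfsg.Agent.H29.Pq
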