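import Mathlib
import Cfsg.Agent.H29_Pq5

set_option autoImplicit false

/-! symplectic groups of dimension four over the field of three elements: non-maximal stabilisers -/

namespace Cfsg.Agent.H29.Pq

open Matrix Module Cfsg.Geo Cfsg.Agent.H29.Fm

variable {F : Type*} [Field F] {ι : Type} [Fintype ι] [DecidableEq ι] {f : (ι → F) → (ι → F) → F}

theorem exists_not_span {W : Submodule F (ι → F)} (h : 2 ≤ finrank F W) (e : ι → F) : ∃ z ∈ W, z ∉ Submodule.span F {e} := by
  classical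
  by_contra hcon
  push Not at hcon
  have h1 : W ≤ Submodule.span F ((({e} : Finset (ι → F)) : Set (ι → F))) := by
    rw [Finset.coe_singleton]; exact hcon
  have h2 := Submodule.finrank_mono h1
  have h3 := finrank_span_finset_le_card (R := F) ({e} : Finset (ι → F))
  rw [Finset.card_singleton] at h3
  have h4 := h2.trans h3
  omega

theorem span_two {W : Submodule F (ι → F)} (h : finrank F W = 2) {a b : ι → F} (ha : a ∈ W) (hb : b ∈ W)
    (hli : ∀ s t : F, s • a + t • b = 0 → s = 0 ∧ t = 0) : ∀ x ∈ W, ∃ s t : F, x = s • a + t • b := by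
  have h1 : Submodule.span F {a, b} ≤ W := by
    rw [Submodule.span_le]
    rintro x (rfl | hx)
    · exact ha
    · rw [Set.mem_singleton_iff.1 hx]; exact hb
  have hli' : LinearIndependent F ![a, b] := LinearIndependent.pair_iff.2 hli
  have h2 : finrank F (Submodule.span F {a, b}) = 2 := by
    have h3 := finrank_span_eq_card hli'
    rw [Matrix.range_cons, Matrix.range_cons, Matrix.range_empty, Set.union_empty, Fintype.card_fin] at h3
    exact h3
  have h4 := Submodule.eq_of_le_of_finrank_eq h1 (by rw [h2, h])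
  intro x hx
  rw [← h4, Submodule.mem_span_pair] at hx
  obtain ⟨s, t, h5⟩ := hx
  exact ⟨s, t, h5.symm⟩

theorem exists_v4 (hf : IsSymplecticForm f) {D₀ D₁ : Submodule F (ι → F)} (h0 : IsTotallySingularFor f D₀)
    (h1 : IsTotallySingularFor f D₁) (hsup : D₀ ⊔ D₁ = ⊤) (hr0 : finrank F D₀ = 2) (hr1 : finrank F D₁ = 2) :
    ∃ v : Fin 4 → (ι → F), (∀ (φ : ZMod 3 →+* F) i j, f (v i) (v j) = φ (G0 i j)) ∧
      (∀ x ∈ D₀, ∃ s t : F, x = s • v 0 + t • v 2) ∧ (∀ x ∈ D₁, ∃ s t : F, x = s • v 1 + t • v 3) := by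
  have hb := hf.bilinear
  have hneg : ∀ x y, f x (-y) = - f x y := by
    intro x y
    rw [← neg_one_smul F y, hb.smul_right]; ring
  have hnegl : ∀ x y, f (-x) y = - f x y := by
    intro x y
    rw [← neg_one_smul F x, hb.smul_left]; ring
  have hdual : ∀ e ∈ D₀, e ≠ 0 → ∃ y ∈ D₁, f e y = 1 := by
    intro e he he0
    obtain ⟨-, z, hz⟩ := hf.nondegenerate e he0
    have hzt : z ∈ D₀ ⊔ D₁ := by rw [hsup]; trivial
    obtain ⟨z0, hz0, z1, hz1, rfl⟩ := Submodule.mem_sup.1 hzt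
    rw [hb.add_right, h0 e he z0 hz0, zero_add] at hz
    exact ⟨(f e z1)⁻¹ • z1, D₁.smul_mem _ hz1, by rw [hb.smul_right, inv_mul_cancel₀ hz]⟩
  obtain ⟨e, he, he0⟩ : ∃ e ∈ D₀, e ≠ 0 := by
    obtain ⟨z, hz, hz'⟩ := exists_not_span (W := D₀) (by omega) 0
    exact ⟨z, hz, fun h => hz' (by rw [h]; exact Submodule.zero_mem _)⟩
  obtain ⟨f1, hf1, hef1⟩ := hdual e he he0
  obtain ⟨z, hz, hz'⟩ := exists_not_span (W := D₀) (by omega) e
  set e2 := z - f z f1 • e with he2def
  have he2 : e2 ∈ D₀ := D₀.sub_mem hz (D₀.smul_mem _ he)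
  have he20 : e2 ≠ 0 := by
    intro h
    apply hz'
    rw [Submodule.mem_span_singleton]
    exact ⟨f z f1, (sub_eq_zero.1 h).symm⟩
  have he2f1 : f e2 f1 = 0 := by
    rw [he2def, sub_eq_add_neg, hb.add_left, hnegl, hb.smul_left, hef1]; ring
  obtain ⟨f2', hf2', hf2''⟩ := hdual e2 he2 he20
  set f2 := f2' - f e f2' • f1 with hf2def
  have hf2 : f2 ∈ D₁ := D₁.sub_mem hf2' (D₁.smul_mem _ hf1)
  have hef2 : f e f2 = 0 := by
    rw [hf2def, sub_eq_add_neg, hb.add_right, hneg, hb.smul_right, hef1]; ring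
  have he2f2 : f e2 f2 = 1 := by
    rw [hf2def, sub_eq_add_neg, hb.add_right, hneg, hb.smul_right, he2f1, hf2'']; ring
  have hf1e2 : f f1 e2 = 0 := by rw [hf.skew, he2f1, neg_zero]
  refine ⟨![e, f1, e2, f2], gram_of hf hef1 he2f2 (h0 e he e2 he2) hef2 hf1e2 (h1 f1 hf1 f2 hf2), ?_, ?_⟩
  · apply span_two hr0 he he2
    intro s t hst
    constructor
    · have h5 := congrArg (fun x => f x f1) hst
      simp only [hb.add_left, hb.smul_left, hef1, he2f1] at h5
      have h6 : f 0 f1 = 0 := by rw [← zero_smul F (0 : ι → F), hb.smul_left, zero_mul]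
      rw [h6] at h5
      linear_combination h5
    · have h5 := congrArg (fun x => f x f2) hst
      simp only [hb.add_left, hb.smul_left, hef2, he2f2] at h5
      have h6 : f 0 f2 = 0 := by rw [← zero_smul F (0 : ι → F), hb.smul_left, zero_mul]
      rw [h6] at h5
      linear_combination h5
  · apply span_two hr1 hf1 hf2
    intro s t hst
    constructor
    · have h5 := congrArg (fun x => f e x) hst
      simp only [hb.add_right, hb.smul_right, hef1, hef2] at h5
      have h6 : f e 0 = 0 := by rw [← zero_smul F (0 : ι → F), hb.smul_right, zero_mul]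
      rw [h6] at h5
      linear_combination h5
    · have h5 := congrArg (fun x => f e2 x) hst
      simp only [hb.add_right, hb.smul_right, he2f1, he2f2] at h5
      have h6 : f e2 0 = 0 := by rw [← zero_smul F (0 : ι → F), hb.smul_right, zero_mul]
      rw [h6] at h5
      linear_combination h5

/-- the case of two totally isotropic planes -/
theorem nonmaxD [Fintype F] (hq : Fintype.card F = 3) (hι : Fintype.card ι = 4) (hf : IsSymplecticForm f)
    {D₀ D₁ : Submodule F (ι → F)} (h0 : IsTotallySingularFor f D₀)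
    (h1 : IsTotallySingularFor f D₁) (hsup : D₀ ⊔ D₁ = ⊤) (hr0 : finrank F D₀ = 2) (hr1 : finrank F D₁ = 2)
    {Sp H : Subgroup (GL ι F)}
    (hSp : ∀ g : GL ι F, g ∈ Sp ↔ ∀ x y, f ((g : Matrix ι ι F) *ᵥ x) ((g : Matrix ι ι F) *ᵥ y) = f x y) (hle : H ≤ Sp)
    (hH : ∀ g ∈ H, ((∀ x ∈ D₀, (g : Matrix ι ι F) *ᵥ x ∈ D₀) ∧ (∀ x ∈ D₁, (g : Matrix ι ι F) *ᵥ x ∈ D₁)) ∨
      ((∀ x ∈ D₀, (g : Matrix ι ι F) *ᵥ x ∈ D₁) ∧ (∀ x ∈ D₁, (g : Matrix ι ι F) *ᵥ x ∈ D₀))) :
    ∃ K : Subgroup (GL ι F), H < K ∧ K < Sp := by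
  obtain ⟨v, hv, hs0, hs1⟩ := exists_v4 hf h0 h1 hsup hr0 hr1
  obtain ⟨θ, hθ⟩ := exists_theta hq hι hf hv
  have hk : ∀ k, θ Sg0 *ᵥ v k = if k = 0 ∨ k = 2 then v k else -v k := by
    intro k
    obtain ⟨c, hc, c0, cp, cm⟩ := hθ.act Sg0 k
    rw [hc, Fin.sum_univ_four]
    fin_cases k
    · show c 0 • v 0 + c 1 • v 1 + c 2 • v 2 + c 3 • v 3 = _
      rw [cp 0 (by decide), c0 1 (by decide), c0 2 (by decide), c0 3 (by decide)]
      simp
    · show c 0 • v 0 + c 1 • v 1 + c 2 • v 2 + c 3 • v 3 = _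
      rw [c0 0 (by decide), cm 1 (by decide), c0 2 (by decide), c0 3 (by decide)]
      simp
    · show c 0 • v 0 + c 1 • v 1 + c 2 • v 2 + c 3 • v 3 = _
      rw [c0 0 (by decide), c0 1 (by decide), cp 2 (by decide), c0 3 (by decide)]
      simp
    · show c 0 • v 0 + c 1 • v 1 + c 2 • v 2 + c 3 • v 3 = _
      rw [c0 0 (by decide), c0 1 (by decide), c0 2 (by decide), cm 3 (by decide)]
      simp
  have k0 : θ Sg0 *ᵥ v 0 = v 0 := by rw [hk, if_pos (by decide)]
  have k1 : θ Sg0 *ᵥ v 1 = - v 1 := by rw [hk, if_neg (by decide)]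
  have k2 : θ Sg0 *ᵥ v 2 = v 2 := by rw [hk, if_pos (by decide)]
  have k3 : θ Sg0 *ᵥ v 3 = - v 3 := by rw [hk, if_neg (by decide)]
  have hD0 : ∀ x ∈ D₀, θ Sg0 *ᵥ x = x := by
    intro x hx
    obtain ⟨s, t, rfl⟩ := hs0 x hx
    rw [Matrix.mulVec_add, Matrix.mulVec_smul, Matrix.mulVec_smul, k0, k2]
  have hD1 : ∀ x ∈ D₁, θ Sg0 *ᵥ x = -x := by
    intro x hx
    obtain ⟨s, t, rfl⟩ := hs1 x hx
    rw [Matrix.mulVec_add, Matrix.mulVec_smul, Matrix.mulVec_smul, k1, k3]
    module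
  have hext : ∀ M N : Matrix ι ι F, (∀ x ∈ D₀, M *ᵥ x = N *ᵥ x) → (∀ x ∈ D₁, M *ᵥ x = N *ᵥ x) → M = N := by
    intro M N hM hN
    apply Matrix.ext_of_mulVec_single
    intro i
    have hx : (Pi.single i (1 : F) : ι → F) ∈ D₀ ⊔ D₁ := by rw [hsup]; trivial
    obtain ⟨z0, hz0, z1, hz1, hz⟩ := Submodule.mem_sup.1 hx
    rw [← hz, Matrix.mulVec_add, Matrix.mulVec_add, hM z0 hz0, hN z1 hz1]
  obtain ⟨z1, z2, z3, z4, z5, z6⟩ := Z_facts
  refine nonmax3 hθ hSp hle (σ := Sg0) (b := False) (S := S4) ?_ (fun X a1 a2 a3 => S4_cl a1 a2 (a3.resolve_right (fun h => h.1)))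
    S4_pr z1 z2 z3 S4_Y Z1_n z4 z5 z6 S4_Z
  intro g hg
  rcases hH g hg with ⟨h2, h3⟩ | ⟨h2, h3⟩
  · left
    apply hext
    · intro x hx
      rw [← Matrix.mulVec_mulVec, ← Matrix.mulVec_mulVec, hD0 x hx, hD0 _ (h2 x hx)]
    · intro x hx
      rw [← Matrix.mulVec_mulVec, ← Matrix.mulVec_mulVec, hD1 x hx, hD1 _ (h3 x hx), Matrix.mulVec_neg]
  · right
    apply hext
    · intro x hx
      rw [Matrix.neg_mulVec, ← Matrix.mulVec_mulVec, ← Matrix.mulVec_mulVec, hD0 x hx, hD1 _ (h2 x hx), neg_neg]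
    · intro x hx
      rw [Matrix.neg_mulVec, ← Matrix.mulVec_mulVec, ← Matrix.mulVec_mulVec, hD1 x hx, hD0 _ (h3 x hx), Matrix.mulVec_neg]

/-- the square root of `-1` in a quadratic extension -/
theorem exists_J [Fintype F] [Nonempty ι] (hq : Fintype.card F = 3) {K : Subalgebra F (Matrix ι ι F)} (hK : IsFieldSubalgebra 2 K) :
    ∃ J ∈ K, J * J = -1 ∧ ∀ k ∈ K, ∃ a b : F, k = a • (1 : Matrix ι ι F) + b • J := by
  classical
  have h3 : (3 : F) = 0 := three_zero hq
  have h2 : (2 : F) ≠ 0 := two_ne_of_three hq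
  have hfr : finrank F (Subalgebra.toSubmodule K) = 2 := hK.finrank_eq
  obtain ⟨κ, hκ, hκn⟩ : ∃ κ ∈ K, ∀ c : F, κ ≠ c • (1 : Matrix ι ι F) := by
    by_contra hcon
    push Not at hcon
    have h1 : Subalgebra.toSubmodule K ≤ Submodule.span F ((({1} : Finset (Matrix ι ι F)) : Set (Matrix ι ι F))) := by
      intro x hx
      rw [Finset.coe_singleton, Submodule.mem_span_singleton]
      obtain ⟨c, hc⟩ := hcon x hx
      exact ⟨c, hc.symm⟩
    have h4 := Submodule.finrank_mono h1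
    have h5 := finrank_span_finset_le_card (R := F) ({1} : Finset (Matrix ι ι F))
    rw [Finset.card_singleton] at h5
    have h6 := h4.trans h5
    omega
  have hli : LinearIndependent F ![(1 : Matrix ι ι F), κ] := by
    rw [LinearIndependent.pair_iff]
    intro s t hst
    have ht : t = 0 := by
      by_contra ht
      apply hκn (-(t⁻¹ * s))
      have h5 : t⁻¹ • (s • (1 : Matrix ι ι F) + t • κ) = 0 := by rw [hst, smul_zero]
      rw [smul_add, smul_smul, smul_smul, inv_mul_cancel₀ ht, one_smul] at h5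
      rw [neg_smul]
      exact eq_neg_of_add_eq_zero_right h5
    subst ht
    rw [zero_smul, add_zero] at hst
    exact ⟨(smul_eq_zero.1 hst).resolve_right one_ne_zero, rfl⟩
  have hspan : ∀ k ∈ K, ∃ a b : F, k = a • (1 : Matrix ι ι F) + b • κ := by
    have h1 : Submodule.span F {(1 : Matrix ι ι F), κ} ≤ Subalgebra.toSubmodule K := by
      rw [Submodule.span_le]
      rintro x (rfl | hx)
      · exact K.one_mem
      · rw [Set.mem_singleton_iff.1 hx]; exact hκ
    have h4 : finrank F (Submodule.span F {(1 : Matrix ι ι F), κ}) = 2 := by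
      have h5 := finrank_span_eq_card hli
      rw [Matrix.range_cons, Matrix.range_cons, Matrix.range_empty, Set.union_empty, Fintype.card_fin] at h5
      exact h5
    have h5 := Submodule.eq_of_le_of_finrank_eq h1 (by rw [h4, hfr])
    intro k hk
    have hk' : k ∈ Subalgebra.toSubmodule K := hk
    rw [← h5, Submodule.mem_span_pair] at hk'
    obtain ⟨s, t, h6⟩ := hk'
    exact ⟨s, t, h6.symm⟩
  obtain ⟨b, a, hab⟩ := hspan (κ * κ) (K.mul_mem hκ hκ)
  set J := κ + a • (1 : Matrix ι ι F) with hJdef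
  have hJK : J ∈ K := K.add_mem hκ (K.smul_mem K.one_mem a)
  have hJn : ∀ c : F, J ≠ c • (1 : Matrix ι ι F) := by
    intro c hc
    apply hκn (c - a)
    rw [sub_smul, ← hc, hJdef, add_sub_cancel_right]
  have hJJ : J * J = (b + a * a) • (1 : Matrix ι ι F) := by
    have e1 : J * J = κ * κ + (2 * a) • κ + (a * a) • (1 : Matrix ι ι F) := by
      rw [hJdef, add_mul, mul_add, mul_add, smul_mul_assoc, smul_mul_assoc, mul_smul_comm, mul_smul_comm, one_mul, mul_one,
        mul_one]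
      module
    have e2 : (b • (1 : Matrix ι ι F) + a • κ) + (2 * a) • κ + (a * a) • (1 : Matrix ι ι F) =
        (b + a * a) • (1 : Matrix ι ι F) + (3 * a) • κ := by module
    rw [e1, hab, e2, h3, zero_mul, zero_smul, add_zero]
  have hJ0 : J ≠ 0 := by
    have := hJn 0
    rwa [zero_smul] at this
  have hD : b + a * a = -1 := by
    rcases three_cases hq (b + a * a) with h | h | h
    · exfalso
      obtain ⟨y, -, hy⟩ := hK.inv J hJK hJ0
      rw [h, zero_smul] at hJJ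
      apply hJ0
      calc J = J * (J * y) := by rw [hy, mul_one]
        _ = 0 := by rw [← mul_assoc, hJJ, zero_mul]
    · exfalso
      rw [h, one_smul] at hJJ
      have h5 : J - 1 ≠ 0 := by
        intro h6
        apply hJn 1
        rw [one_smul]
        exact sub_eq_zero.1 h6
      obtain ⟨y, hyK, hy⟩ := hK.inv (J - 1) (K.sub_mem hJK K.one_mem) h5
      apply hJn (-1)
      rw [neg_smul, one_smul, eq_neg_iff_add_eq_zero]
      have h7 : (J + 1) * (J - 1) = 0 := by
        rw [add_mul, mul_sub, mul_sub, hJJ]; simp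
      calc J + 1 = (J + 1) * ((J - 1) * y) := by rw [hy, mul_one]
        _ = 0 := by rw [← mul_assoc, h7, zero_mul]
    · exact h
  refine ⟨J, hJK, by rw [hJJ, hD, neg_smul, one_smul], ?_⟩
  intro k hk
  obtain ⟨s, t, h5⟩ := hspan k hk
  refine ⟨s - t * a, t, ?_⟩
  rw [h5, hJdef]
  module

/-- square roots of `-1` in the field -/
theorem sqrt_uniq {K : Subalgebra F (Matrix ι ι F)} {r : ℕ} (hK : IsFieldSubalgebra r K) {J J' : Matrix ι ι F} (hJ : J ∈ K) (hJ' : J' ∈ K)
    (h : J * J = J' * J') : J' = J ∨ J' = -J := by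
  by_cases h1 : J' - J = 0
  · left; exact sub_eq_zero.1 h1
  · right
    obtain ⟨y, hy, hyy⟩ := hK.inv _ (K.sub_mem hJ' hJ) h1
    rw [eq_neg_iff_add_eq_zero]
    have h7 : (J' + J) * (J' - J) = 0 := by
      rw [add_mul, mul_sub, mul_sub, h, hK.comm J' hJ' J hJ]; simp
    calc J' + J = (J' + J) * ((J' - J) * y) := by rw [hyy, mul_one]
      _ = 0 := by rw [← mul_assoc, h7, zero_mul]

/-- the unitary case -/
theorem nonmaxK [Fintype F] (hq : Fintype.card F = 3) (hι : Fintype.card ι = 4) (hf : IsSymplecticForm f)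
    {K : Subalgebra F (Matrix ι ι F)} (hK : IsFieldSubalgebra 2 K) (hadj : IsAdjointClosedFor f K) (hns : ¬ IsSelfAdjointFor f K)
    {Sp : Subgroup (GL ι F)}
    (hSp : ∀ g : GL ι F, g ∈ Sp ↔ ∀ x y, f ((g : Matrix ι ι F) *ᵥ x) ((g : Matrix ι ι F) *ᵥ y) = f x y) :
    ∃ M : Subgroup (GL ι F), subalgebraNormalizer K ⊓ Sp < M ∧ M < Sp := by
  haveI : Nonempty ι := Fintype.card_pos_iff.1 (by omega)
  obtain ⟨J, hJK, hJJ, hspan⟩ := exists_J hq hK
  obtain ⟨J', hJ'K, hJ'⟩ := hadj J hJK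
  have hb := hf.bilinear
  have hneg : ∀ x y, f x (-y) = - f x y := by
    intro x y
    rw [← neg_one_smul F y, hb.smul_right]; ring
  have hnegl : ∀ x y, f (-x) y = - f x y := by
    intro x y
    rw [← neg_one_smul F x, hb.smul_left]; ring
  have hJ'J' : J * J = J' * J' := by
    rw [hJJ]
    apply Matrix.ext_of_mulVec_single
    intro i
    rw [Matrix.neg_mulVec, Matrix.one_mulVec, eq_comm, ← Matrix.mulVec_mulVec]
    set y := (Pi.single i (1 : F) : ι → F)
    rw [eq_neg_iff_add_eq_zero]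
    by_contra h0
    obtain ⟨⟨x, hx⟩, -⟩ := hf.nondegenerate _ h0
    apply hx
    rw [hb.add_right, ← hJ', ← hJ', Matrix.mulVec_mulVec, hJJ, Matrix.neg_mulVec, Matrix.one_mulVec, hnegl]
    ring
  have hJneg : J' = -J := by
    rcases sqrt_uniq hK hJK hJ'K hJ'J' with h | h
    · exfalso
      apply hns
      intro k hk u v
      obtain ⟨a, b, rfl⟩ := hspan k hk
      rw [Matrix.add_mulVec, Matrix.smul_mulVec, Matrix.smul_mulVec, Matrix.one_mulVec, Matrix.add_mulVec,
        Matrix.smul_mulVec, Matrix.smul_mulVec, Matrix.one_mulVec, hb.add_left, hb.add_right, hb.smul_left, hb.smul_left,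
        hb.smul_right, hb.smul_right, hJ', h]
    · exact h
  apply nonmaxJ hq hι hf hJJ (fun x y => by rw [hJ', hJneg, Matrix.neg_mulVec, hneg]) hSp inf_le_right
  intro g hg
  have h1 := ((Subgroup.mem_inf.1 hg).1 J).1 hJK
  have hgg : ((g⁻¹ : GL ι F) : Matrix ι ι F) * (g : Matrix ι ι F) = 1 := by rw [← Units.val_mul, inv_mul_cancel, Units.val_one]
  have hgg' : (g : Matrix ι ι F) * ((g⁻¹ : GL ι F) : Matrix ι ι F) = 1 := by rw [← Units.val_mul, mul_inv_cancel, Units.val_one]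
  have h2 : J * J = ((g : Matrix ι ι F) * J * ((g⁻¹ : GL ι F) : Matrix ι ι F)) * ((g : Matrix ι ι F) * J * ((g⁻¹ : GL ι F) : Matrix ι ι F)) := by
    calc J * J = -1 := hJJ
      _ = (g : Matrix ι ι F) * (J * J) * ((g⁻¹ : GL ι F) : Matrix ι ι F) := by rw [hJJ, mul_neg, mul_one, neg_mul, hgg']
      _ = (g : Matrix ι ι F) * J * (((g⁻¹ : GL ι F) : Matrix ι ι F) * (g : Matrix ι ι F)) * J * ((g⁻¹ : GL ι F) : Matrix ι ι F) := by
        rw [hgg, mul_one]; simp only [mul_assoc]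
      _ = _ := by simp only [mul_assoc]
  rcases sqrt_uniq hK hJK h1 h2 with h | h
  · left
    calc (g : Matrix ι ι F) * J = ((g : Matrix ι ι F) * J * ((g⁻¹ : GL ι F) : Matrix ι ι F)) * (g : Matrix ι ι F) := by
          rw [mul_assoc _ _ (g : Matrix ι ι F), hgg, mul_one]
      _ = J * (g : Matrix ι ι F) := by rw [h]
  · right
    calc (g : Matrix ι ι F) * J = ((g : Matrix ι ι F) * J * ((g⁻¹ : GL ι F) : Matrix ι ι F)) * (g : Matrix ι ι F) := by
          rw [mul_assoc _ _ (g : Matrix ι ι F), hgg, mul_one]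
      _ = -(J * (g : Matrix ι ι F)) := by rw [h, neg_mul]

end Cfsg.Agent.H29.Pq
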