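import Mathlib
import Cfsg.Agent.H29_Sg9

set_option autoImplicit false

/-! `GL_{n/2}(q).2` is maximal in `Ω⁺`, `n/2` even. -/

namespace Cfsg.Agent.H29.Sg

open Matrix Module Cfsg.Geo Cfsg.Agent.H16.Quad Cfsg.Agent.H29.Trv
open QuadraticMap (polar)

variable {F : Type*} [Field F] {ι : Type} [Fintype ι] [DecidableEq ι]
variable {Q : QuadraticForm F (ι → F)} [Finite F]

namespace HP

variable {G : Subgroup (GL ι F)} {U U' : Submodule F (ι → F)}

/-- dual basis -/
theorem dual (h : HP Q G U U') {k : ℕ} (hk : finrank F U = k) : ∃ e f : Fin k → (ι → F), (∀ i, e i ∈ U) ∧ (∀ i, f i ∈ U') ∧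
    (∀ i j, polar Q (e i) (f j) = if i = j then 1 else 0) ∧ Submodule.span F (Set.range e) = U := by
  let b : Basis (Fin k) F U := Module.finBasisOfFinrankEq F U hk
  have hf : ∀ j : Fin k, ∃ y ∈ U', ∀ i, polar Q ((b i : U) : ι → F) y = if i = j then 1 else 0 := by
    intro j
    have hnot : ((b j : U) : ι → F) ∉ Submodule.span F ((fun i => ((b i : U) : ι → F)) '' {i | i ≠ j}) := by
      have hli : LinearIndependent F (fun i => ((b i : U) : ι → F)) :=
        b.linearIndependent.map' U.subtype (Submodule.ker_subtype U)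
      exact hli.notMem_span_image (by simp)
    obtain ⟨y, hy1, hy2⟩ := nd_exists_sep h.nd _ hnot
    obtain ⟨c, hc, d, hd, rfl⟩ := h.dec y
    refine ⟨d, hd, fun i => ?_⟩
    by_cases hij : i = j
    · subst hij
      rw [if_pos rfl, ← hy2, QuadraticMap.polar_add_right, ts_polar h.ts (b i).2 hc, zero_add]
    · rw [if_neg hij]
      have h1 := hy1 _ (Submodule.subset_span ⟨i, hij, rfl⟩)
      rwa [QuadraticMap.polar_add_right, ts_polar h.ts (b i).2 hc, zero_add] at h1
  choose f hfU hf2 using hf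
  refine ⟨fun i => b i, f, fun i => (b i).2, hfU, fun i j => hf2 j i, ?_⟩
  have h1 : Set.range (fun i => ((b i : U) : ι → F)) = U.subtype '' Set.range b := by
    rw [← Set.range_comp]; rfl
  rw [h1, Submodule.span_image, b.span_eq, Submodule.map_top, Submodule.range_subtype]

theorem exists_swap (h : HP Q G U U') (h5 : 5 ≤ Fintype.card ι) {k : ℕ} (hk : finrank F U = k) (hke : Even k)
    (hd : 2 * k = Fintype.card ι) : ∃ s ∈ omegaGL ⇑Q, (∀ u ∈ U, (s : Matrix ι ι F) *ᵥ u ∈ U') ∧
      ∀ u ∈ U', (s : Matrix ι ι F) *ᵥ u ∈ U := by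
  have hfn := Module.finrank_fintype_fun_eq_card F (η := ι)
  obtain ⟨e, f, heU, hfU, hef, hspan⟩ := h.dual hk
  have hQv : ∀ i, Q (e i - f i) = -1 := by
    intro i
    rw [Cfsg.Agent.H16.Quad.map_sub, h.ts _ (heU i), h.ts' _ (hfU i), hef, if_pos rfl]; ring
  have hQv0 : ∀ i, Q (e i - f i) ≠ 0 := fun i => by rw [hQv]; exact neg_ne_zero.2 one_ne_zero
  have hrefl : ∀ i j, refl Q (e i - f i) (e j) = (if i = j then f j else e j) ∧
      refl Q (e i - f i) (f j) = (if i = j then e j else f j) := by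
    intro i j
    constructor
    · rw [refl_apply, hQv, QuadraticMap.polar_sub_right, ts_polar h.ts (heU j) (heU i), hef]
      by_cases hij : i = j
      · subst hij
        rw [if_pos rfl, if_pos rfl]
        have : ((-1 : F)⁻¹ * (0 - 1)) = 1 := by rw [inv_neg, inv_one]; ring
        rw [this]; module
      · rw [if_neg hij, if_neg (Ne.symm hij), sub_zero, mul_zero, zero_smul, sub_zero]
    · rw [refl_apply, hQv, QuadraticMap.polar_sub_right, ts_polar h.ts' (hfU j) (hfU i), polar_symm, hef]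
      by_cases hij : i = j
      · subst hij
        rw [if_pos rfl, if_pos rfl]
        have : ((-1 : F)⁻¹ * (1 - 0)) = -1 := by rw [inv_neg, inv_one]; ring
        rw [this]; module
      · rw [if_neg hij, if_neg hij, sub_zero, mul_zero, zero_smul, sub_zero]
  have hlist : ∀ L : List (Fin k), L.Nodup → ∀ j, (rprod Q (L.map fun i => e i - f i) (e j) = if j ∈ L then f j else e j) ∧
      (rprod Q (L.map fun i => e i - f i) (f j) = if j ∈ L then e j else f j) := by
    intro L
    induction L with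
    | nil => intro _ j; simp [rprod]
    | cons a L ih =>
      intro hnd j
      obtain ⟨ih1, ih2⟩ := ih (List.nodup_cons.1 hnd).2 j
      have haL := (List.nodup_cons.1 hnd).1
      have hcons : ∀ x, rprod Q ((a :: L).map fun i => e i - f i) x =
          refl Q (e a - f a) (rprod Q (L.map fun i => e i - f i) x) := by
        intro x
        rw [List.map_cons, rprod_cons]
        rfl
      rw [hcons, hcons, ih1, ih2]
      by_cases hj : j ∈ L
      · have haj : a ≠ j := by rintro rfl; exact haL hj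
        rw [if_pos hj, if_pos hj, if_pos (List.mem_cons_of_mem _ hj), if_pos (List.mem_cons_of_mem _ hj),
          (hrefl a j).2, (hrefl a j).1, if_neg haj, if_neg haj]
        exact ⟨rfl, rfl⟩
      · rw [if_neg hj, if_neg hj, (hrefl a j).2, (hrefl a j).1]
        by_cases haj : a = j
        · subst haj
          simp
        · have : j ∉ a :: L := by
            simp only [List.mem_cons, not_or]
            exact ⟨Ne.symm haj, hj⟩
          rw [if_neg haj, if_neg haj, if_neg this, if_neg this]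
          exact ⟨rfl, rfl⟩
  set vs := (List.finRange k).map fun i => e i - f i with hvs
  have hvs0 : ∀ v ∈ vs, Q v ≠ 0 := by
    intro v hv
    obtain ⟨i, -, rfl⟩ := List.mem_map.1 hv
    exact hQv0 i
  obtain ⟨g, hg⟩ : ∃ g : Cfsg.isometryGroup F ⇑Q, toOG Q g = rpr Q vs := ⟨(toOG Q).symm (rpr Q vs), by simp⟩
  have hgO : g ∈ Cfsg.Omega F ⇑Q := by
    rw [mem_Omega_rpr_iff h.nd (Or.inr (by rw [hfn]; omega)) hvs0 hg]
    refine ⟨by rw [hvs, List.length_map, List.length_finRange]; exact hke, ?_⟩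
    have h1 : vs.map Q = List.replicate k (-1 : F) := by
      rw [hvs, List.map_map, List.eq_replicate_iff]
      refine ⟨by rw [List.length_map, List.length_finRange], fun b hb => ?_⟩
      obtain ⟨i, -, rfl⟩ := List.mem_map.1 hb
      exact hQv i
    rw [h1, List.prod_replicate, hke.neg_one_pow]
    exact ⟨1, by ring⟩
  have hact : ∀ x, ((g : GL ι F) : Matrix ι ι F) *ᵥ x = rprod Q vs x := by
    intro x
    rw [← toOG_apply, hg, coe_rpr]
  have h1 : ∀ j, ((g : GL ι F) : Matrix ι ι F) *ᵥ e j = f j := by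
    intro j
    rw [hact, (hlist _ (List.nodup_finRange k) j).1, if_pos (List.mem_finRange j)]
  have h2 : ∀ j, ((g : GL ι F) : Matrix ι ι F) *ᵥ f j = e j := by
    intro j
    rw [hact, (hlist _ (List.nodup_finRange k) j).2, if_pos (List.mem_finRange j)]
  have hgO' : (g : GL ι F) ∈ omegaGL ⇑Q := ⟨g, hgO, rfl⟩
  refine ⟨g, hgO', ?_, ?_⟩
  · intro u hu
    rw [← hspan] at hu
    induction hu using Submodule.span_induction with
    | mem x hx => obtain ⟨j, rfl⟩ := hx; rw [h1]; exact hfU j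
    | zero => rw [Matrix.mulVec_zero]; exact U'.zero_mem
    | add x y _ _ hx hy => rw [Matrix.mulVec_add]; exact U'.add_mem hx hy
    | smul c x _ hx => rw [Matrix.mulVec_smul]; exact U'.smul_mem c hx
  · intro y hy
    have hmax : IsMax Q U := ⟨h.ts, by rw [hk, hfn]; exact hd⟩
    rw [← hmax.perp_eq h.nd, mem_perp]
    intro n hn
    rw [← hspan] at hn
    have hiso := omega_iso hgO'
    induction hn using Submodule.span_induction with
    | mem x hx =>
      obtain ⟨j, rfl⟩ := hx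
      rw [← h2, iso_polar hiso]
      exact ts_polar h.ts' (hfU j) hy
    | zero => exact QuadraticMap.polar_zero_left _ _
    | add x y _ _ hx hy => rw [QuadraticMap.polar_add_left, hx, hy, add_zero]
    | smul c x _ hx => rw [polar_smul_left, hx, mul_zero]

/-- from a moved vector of `U` to a Siegel centre -/
theorem exists_SC (h : HP Q G U U') (h' : HP Q G U' U) {g : GL ι F} (hg : g ∈ G) {c : ι → F} (hc : c ∈ U)
    (h1 : (g : Matrix ι ι F) *ᵥ c ∉ U) (h2 : (g : Matrix ι ι F) *ᵥ c ∉ U') :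
    (∃ d ∈ U', d ≠ 0 ∧ SC Q G d) ∨ (∃ d ∈ U, d ≠ 0 ∧ SC Q G d) := by
  obtain ⟨a0, ha0, a', ha', haa⟩ := h.dec ((g : Matrix ι ι F) *ᵥ c)
  have ha00 : a0 ≠ 0 := by rintro rfl; rw [zero_add] at haa; exact h2 (haa ▸ ha')
  have ha'0 : a' ≠ 0 := by rintro rfl; rw [add_zero] at haa; exact h1 (haa ▸ ha0)
  obtain ⟨d, hd, hcd, hdS⟩ : ∃ d ∈ U', polar Q c d = 0 ∧
      (g : Matrix ι ι F) *ᵥ d ∉ Submodule.span F ({a0, a'} : Set (ι → F)) := by
    by_contra hcon
    push Not at hcon
    have e1 : (U' ⊓ perp Q (Submodule.span F {c})).map (Matrix.toLin' (g : Matrix ι ι F)) ≤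
        Submodule.span F ({a0, a'} : Set (ι → F)) := by
      rintro _ ⟨x, hx, rfl⟩
      exact hcon x hx.1 (mem_perp_span_singleton.1 hx.2)
    have e2 := Submodule.finrank_mono e1
    rw [finrank_gl] at e2
    have e3 := Submodule.finrank_sup_add_finrank_inf_eq U' (perp Q (Submodule.span F {c}))
    have e4 := Submodule.finrank_le (U' ⊔ perp Q (Submodule.span F {c}))
    have e5 := finrank_add_finrank_perp h.nd (Submodule.span F {c})
    have e6 : finrank F (Submodule.span F {c}) ≤ 1 := by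
      have := finrank_span_le_card (R := F) ({c} : Set (ι → F))
      simpa using this
    have e7 := finrank_pair a0 a'
    have := h.big
    omega
  obtain ⟨b0, hb0, b', hb', hbb⟩ := h.dec ((g : Matrix ι ι F) *ᵥ d)
  have hab := (h.rm c hc d hd hcd).conj hg (h.iso hg)
  have hQa : Q ((g : Matrix ι ι F) *ᵥ c) = 0 := by rw [h.iso hg, h.ts c hc]
  have hQb : Q ((g : Matrix ι ι F) *ᵥ d) = 0 := by rw [h.iso hg, h.ts' d hd]
  have hpol : polar Q ((g : Matrix ι ι F) *ᵥ c) ((g : Matrix ι ι F) *ᵥ d) = 0 := by rw [iso_polar (h.iso hg), hcd]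
  by_cases hi' : b' ∈ Submodule.span F {a'}
  · by_cases hi : b0 ∈ Submodule.span F {a0}
    · exfalso
      obtain ⟨x, hx⟩ := Submodule.mem_span_singleton.1 hi
      obtain ⟨y, hy⟩ := Submodule.mem_span_singleton.1 hi'
      apply hdS
      rw [← hbb, ← hx, ← hy, Submodule.mem_span_pair]
      exact ⟨x, y, rfl⟩
    · right
      exact h'.claimC hab hQa hQb hpol ha' ha0 (by rw [add_comm]; exact haa) hb' hb0 (by rw [add_comm]; exact hbb) ha00 hi
  · left
    exact h.claimC hab hQa hQb hpol ha0 ha' haa hb0 hb' hbb ha'0 hi'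

end HP

theorem union_cases {U A B : Submodule F (ι → F)} {g : GL ι F} (h : ∀ u ∈ U, (g : Matrix ι ι F) *ᵥ u ∈ A ∨ (g : Matrix ι ι F) *ᵥ u ∈ B) :
    (∀ u ∈ U, (g : Matrix ι ι F) *ᵥ u ∈ A) ∨ (∀ u ∈ U, (g : Matrix ι ι F) *ᵥ u ∈ B) := by
  by_contra hcon
  push Not at hcon
  obtain ⟨⟨x, hx, hxA⟩, y, hy, hyB⟩ := hcon
  have hxB := (h x hx).resolve_left hxA
  have hyA := (h y hy).resolve_right hyB
  rcases h (x + y) (U.add_mem hx hy) with h1 | h1
  · rw [Matrix.mulVec_add] at h1
    exact hxA (by simpa using A.sub_mem h1 hyA)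
  · rw [Matrix.mulVec_add] at h1
    exact hyB (by simpa using B.sub_mem h1 hxB)

theorem ts_pair_max (hQ : (QuadraticMap.polarBilin Q).Nondegenerate) {k : ℕ}
    (hk : 2 * k = Fintype.card ι) (hke : Even k) (hk5 : 5 ≤ k) {D : Fin 2 → Submodule F (ι → F)} (hD : IsMDecomposition k D)
    (hts : ∀ i, ∀ w ∈ D i, Q w = 0) :
    IsMaximalIn (omegaGL ⇑Q) (decompositionStabilizer D ⊓ omegaGL ⇑Q) := by
  have h5 : 5 ≤ Fintype.card ι := by omega
  have hn := Module.finrank_fintype_fun_eq_card F (η := ι)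
  have hmax : ∀ i, IsMax Q (D i) := fun i => ⟨hts i, by rw [hD.finrank_eq, hn, hk]⟩
  have hdisj : Disjoint (D 0) (D 1) := by
    have := hD.indep.pairwiseDisjoint
    exact this (by decide)
  have hsup : D 0 ⊔ D 1 = ⊤ := by
    have h := hD.iSup_eq_top
    rw [← h]
    apply le_antisymm
    · exact sup_le (le_iSup D 0) (le_iSup D 1)
    · apply iSup_le
      intro i
      fin_cases i
      · exact le_sup_left
      · exact le_sup_right
  have hco : IsCompl (D 0) (D 1) := ⟨hdisj, codisjoint_iff.2 hsup⟩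
  have hD0 : D 0 ≠ ⊥ := by
    intro h
    have h1 := hD.finrank_eq 0
    rw [h, finrank_bot] at h1
    have := hD.pos
    omega
  refine ⟨lt_of_le_of_ne inf_le_right ?_, ?_⟩
  · intro heq
    have hle : omegaGL ⇑Q ≤ decompositionStabilizer D := inf_eq_right.1 heq
    obtain ⟨e, heD, he0⟩ := Submodule.exists_mem_ne_zero_of_ne_bot hD0
    obtain ⟨y, hyD, hye⟩ : ∃ y ∈ D 0, y ∉ Submodule.span F {e} := exists_mem_notMem_span (by
      rw [hD.finrank_eq]; omega) e
    obtain ⟨x, hxD, hxe⟩ : ∃ x ∈ D 1, polar Q x e ≠ 0 := by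
      by_contra hcon
      push Not at hcon
      apply he0
      apply nd_eq_zero hQ
      intro z
      have hz : z ∈ D 0 ⊔ D 1 := by rw [hsup]; trivial
      obtain ⟨a, ha, b, hb, rfl⟩ := Submodule.mem_sup.1 hz
      rw [QuadraticMap.polar_add_right, ts_polar (hts 0) heD ha, polar_symm, hcon b hb, add_zero]
    have hey : polar Q e y = 0 := ts_polar (hts 0) heD hyD
    obtain ⟨σ, hσ⟩ := hle (eg_mem hQ h5 (hts 0 e heD) hey)
    have h1 : (eg (hts 0 e heD) hey : Matrix ι ι F) *ᵥ x ∈ D (σ 1) := by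
      rw [← hσ 1]
      exact ⟨x, hxD, rfl⟩
    rw [eg_apply, hts 0 y hyD, zero_mul, zero_smul, sub_zero, add_sub_assoc] at h1
    have hz : polar Q x e • y - polar Q x y • e ∈ D 0 :=
      Submodule.sub_mem _ (Submodule.smul_mem _ _ hyD) (Submodule.smul_mem _ _ heD)
    have hx0 : x ≠ 0 := by
      rintro rfl
      exact hxe (QuadraticMap.polar_zero_left _ _)
    rcases (show σ 1 = 0 ∨ σ 1 = 1 by omega) with h2 | h2
    · rw [h2] at h1
      have h3 : x ∈ D 0 := by
        have := Submodule.sub_mem _ h1 hz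
        rwa [add_sub_cancel_right] at this
      exact hx0 (Submodule.disjoint_def.1 hdisj x h3 hxD)
    · rw [h2] at h1
      have h3 : polar Q x e • y - polar Q x y • e ∈ D 1 := by
        have := Submodule.sub_mem _ h1 hxD
        rwa [add_sub_cancel_left] at this
      have h4 := Submodule.disjoint_def.1 hdisj _ hz h3
      apply hye
      rw [Submodule.mem_span_singleton]
      refine ⟨(polar Q x e)⁻¹ * polar Q x y, ?_⟩
      rw [← smul_smul, ← sub_eq_zero.1 h4, smul_smul, inv_mul_cancel₀ hxe, one_smul]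
  intro M hM1 hM2
  by_cases hle : M ≤ decompositionStabilizer D
  · left
    exact le_antisymm (le_inf hle hM2) hM1
  right
  refine le_antisymm hM2 ?_
  have hHP : HP Q M (D 0) (D 1) := by
    refine ⟨hQ, hts 0, hts 1, hco, ?_, hM2, by rw [hD.finrank_eq]; exact hk5⟩
    intro c hc d hd hcd hc' hcd'
    refine hM1 (Subgroup.mem_inf.2 ⟨?_, eg_mem hQ h5 _ _⟩)
    apply Cfsg.Agent.H29.Fm.dec_fix
    intro i v hv
    rw [eg_apply, hts 1 d hd, zero_mul, zero_smul, sub_zero]
    rcases (show i = 0 ∨ i = 1 by omega) with rfl | rfl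
    · rw [ts_polar (hts 0) hv hc, zero_smul, add_zero]
      exact Submodule.sub_mem _ hv (Submodule.smul_mem _ _ hc)
    · rw [ts_polar (hts 1) hv hd, zero_smul, sub_zero]
      exact Submodule.add_mem _ hv (Submodule.smul_mem _ _ hd)
  have hHP' : HP Q M (D 1) (D 0) := hHP.swap (by rw [hD.finrank_eq]; exact hk5)
  -- the swap
  obtain ⟨s, hsO, hs1, hs2⟩ := hHP.exists_swap h5 (hD.finrank_eq 0) hke hk
  have hsmap : ∀ A B : Submodule F (ι → F), finrank F A = finrank F B → (∀ u ∈ A, (s : Matrix ι ι F) *ᵥ u ∈ B) →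
      A.map (Matrix.toLin' (s : Matrix ι ι F)) = B := by
    intro A B hAB h
    apply Submodule.eq_of_le_of_finrank_eq
    · rintro _ ⟨u, hu, rfl⟩
      exact h u hu
    · rw [finrank_gl, hAB]
  have hsM : s ∈ M := by
    refine hM1 (Subgroup.mem_inf.2 ⟨?_, hsO⟩)
    refine ⟨Equiv.swap 0 1, fun i => ?_⟩
    rcases (show i = 0 ∨ i = 1 by omega) with rfl | rfl
    · rw [Equiv.swap_apply_left]
      exact hsmap _ _ (by rw [hD.finrank_eq, hD.finrank_eq]) hs1
    · rw [Equiv.swap_apply_right]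
      exact hsmap _ _ (by rw [hD.finrank_eq, hD.finrank_eq]) hs2
  -- a centre
  obtain ⟨g, hgM, hgD⟩ := SetLike.not_le_iff_exists.1 hle
  have hcen : (∃ d ∈ D 1, d ≠ 0 ∧ SC Q M d) ∨ (∃ d ∈ D 0, d ≠ 0 ∧ SC Q M d) := by
    by_cases hc0 : ∃ c ∈ D 0, (g : Matrix ι ι F) *ᵥ c ∉ D 0 ∧ (g : Matrix ι ι F) *ᵥ c ∉ D 1
    · obtain ⟨c, hc, h1, h2⟩ := hc0
      exact hHP.exists_SC hHP' hgM hc h1 h2
    by_cases hc1 : ∃ c ∈ D 1, (g : Matrix ι ι F) *ᵥ c ∉ D 1 ∧ (g : Matrix ι ι F) *ᵥ c ∉ D 0
    · obtain ⟨c, hc, h1, h2⟩ := hc1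
      exact (hHP'.exists_SC hHP hgM hc h1 h2).symm
    exfalso
    push Not at hc0 hc1
    have hmap : ∀ A B : Submodule F (ι → F), finrank F A = finrank F B → (∀ u ∈ A, (g : Matrix ι ι F) *ᵥ u ∈ B) →
        A.map (Matrix.toLin' (g : Matrix ι ι F)) = B := by
      intro A B hAB h
      apply Submodule.eq_of_le_of_finrank_eq
      · rintro _ ⟨u, hu, rfl⟩
        exact h u hu
      · rw [finrank_gl, hAB]
    have hfr : ∀ i j, finrank F (D i) = finrank F (D j) := fun i j => by rw [hD.finrank_eq, hD.finrank_eq]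
    have u0 := union_cases (U := D 0) (A := D 0) (B := D 1) (g := g) (fun u hu => by
      by_contra hcon
      push Not at hcon
      exact hcon.2 (hc0 u hu hcon.1))
    have u1 := union_cases (U := D 1) (A := D 0) (B := D 1) (g := g) (fun u hu => by
      by_contra hcon
      push Not at hcon
      exact hcon.1 (hc1 u hu hcon.2))
    have hne : D 0 ≠ D 1 := by
      intro h
      rw [h, disjoint_self] at hdisj
      exact hD0 (h.trans hdisj)
    apply hgD
    rcases u0 with u0 | u0 <;> rcases u1 with u1 | u1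
    · exfalso
      have e1 := hmap _ _ (hfr 0 0) u0
      have e2 := hmap _ _ (hfr 1 0) u1
      have e3 := e1.trans e2.symm
      exact hne (Submodule.map_injective_of_injective (gl_inj g) e3)
    · refine ⟨1, fun i => ?_⟩
      rw [Equiv.Perm.one_apply]
      rcases (show i = 0 ∨ i = 1 by omega) with rfl | rfl
      · exact hmap _ _ (hfr 0 0) u0
      · exact hmap _ _ (hfr 1 1) u1
    · refine ⟨Equiv.swap 0 1, fun i => ?_⟩
      rcases (show i = 0 ∨ i = 1 by omega) with rfl | rfl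
      · rw [Equiv.swap_apply_left]
        exact hmap _ _ (hfr 0 1) u0
      · rw [Equiv.swap_apply_right]
        exact hmap _ _ (hfr 1 0) u1
    · exfalso
      have e1 := hmap _ _ (hfr 0 1) u0
      have e2 := hmap _ _ (hfr 1 1) u1
      have e3 := e1.trans e2.symm
      exact hne (Submodule.map_injective_of_injective (gl_inj g) e3)
  -- both sides
  have hiso := omega_iso hsO
  have hs0 : ∀ x, x ≠ 0 → (s : Matrix ι ι F) *ᵥ x ≠ 0 := by
    intro x hx h
    apply hx
    apply gl_inj s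
    rw [Matrix.toLin'_apply, h, map_zero]
  obtain ⟨d, hd, hd0, hdSC⟩ : ∃ d ∈ D 1, d ≠ 0 ∧ SC Q M d := by
    rcases hcen with h | ⟨d, hd, hd0, hdSC⟩
    · exact h
    · exact ⟨_, hs1 d hd, hs0 d hd0, hdSC.conj hsM hiso⟩
  have hc' : (s : Matrix ι ι F) *ᵥ d ∈ D 0 := hs2 d hd
  have hc'0 := hs0 d hd0
  obtain ⟨y, hy⟩ := nd_exists_ne hQ hc'0
  obtain ⟨a, ha, b, hb, rfl⟩ := hHP.dec y
  rw [QuadraticMap.polar_add_right, ts_polar (hts 0) hc' ha, zero_add] at hy
  exact SC.all hQ h5 (hdSC.conj hsM hiso) (hHP.allSC hd hd0 hb hdSC) hy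

end Cfsg.Agent.H29.Sg
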