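import Mathlib
import Cfsg.Agent.H29_Sg11

set_option autoImplicit false

/-! Rational structures over subfields: lattices `L ⊂ F^n` over `F₀`. -/

namespace Cfsg.Agent.H29.Sg

open Matrix Module Cfsg.Geo Cfsg.Agent.H16.Quad Cfsg.Agent.H29.Trv
open QuadraticMap (polar)

variable {F : Type*} [Field F] {ι : Type} [Fintype ι] [DecidableEq ι]
variable {Q : QuadraticForm F (ι → F)} {F₀ : Subfield F} {L : Submodule F₀ (ι → F)}

/-- a rational structure compatible with `Q` -/
structure LT (Q : QuadraticForm F (ι → F)) (F₀ : Subfield F) (L : Submodule F₀ (ι → F)) : Prop where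
  nd : (QuadraticMap.polarBilin Q).Nondegenerate
  q : ∀ x ∈ L, Q x ∈ F₀
  span : Submodule.span F (L : Set (ι → F)) = ⊤
  fr : finrank F₀ L = Fintype.card ι

theorem smul0 (s : F₀) (x : ι → F) : s • x = (s : F) • x := rfl

theorem LT.smul_mem (_ : LT Q F₀ L) {s : F} (hs : s ∈ F₀) {x : ι → F} (hx : x ∈ L) : s • x ∈ L :=
  L.smul_mem (⟨s, hs⟩ : F₀) hx

theorem LT.pol (h : LT Q F₀ L) {x y : ι → F} (hx : x ∈ L) (hy : y ∈ L) : polar Q x y ∈ F₀ :=
  F₀.sub_mem (F₀.sub_mem (h.q _ (L.add_mem hx hy)) (h.q _ hx)) (h.q _ hy)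

/-- the form over `F₀` -/
noncomputable def LT.qf (h : LT Q F₀ L) : QuadraticForm F₀ L :=
  QuadraticMap.ofPolar (fun x => (⟨Q x, h.q x x.2⟩ : F₀))
    (fun a x => Subtype.ext (by
      show Q ((a : F) • (x : ι → F)) = (a : F) * a * Q x
      rw [Cfsg.Agent.H16.Quad.map_smul]))
    (fun x x' y => Subtype.ext (by
      show polar Q ((x : ι → F) + x') y = polar Q (x : ι → F) y + polar Q (x' : ι → F) y
      rw [QuadraticMap.polar_add_left]))
    (fun a x y => Subtype.ext (by
      show polar Q ((a : F) • (x : ι → F)) y = (a : F) * polar Q (x : ι → F) y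
      rw [polar_smul_left]))

theorem LT.qf_coe (h : LT Q F₀ L) (x : L) : ((h.qf x : F₀) : F) = Q x := rfl

theorem LT.qf_polar (h : LT Q F₀ L) (x y : L) : ((polar h.qf x y : F₀) : F) = polar Q (x : ι → F) y := rfl

theorem LT.eq_zero (h : LT Q F₀ L) {x : ι → F} (hx : ∀ y ∈ L, polar Q x y = 0) : x = 0 := by
  apply nd_eq_zero h.nd
  intro y
  have hy : y ∈ Submodule.span F (L : Set (ι → F)) := by rw [h.span]; trivial
  induction hy using Submodule.span_induction with
  | mem y hy => exact hx y hy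
  | zero => exact QuadraticMap.polar_zero_right _ _
  | add a b _ _ ha hb => rw [QuadraticMap.polar_add_right, ha, hb, add_zero]
  | smul c a _ ha => rw [polar_smul_right, ha, mul_zero]

theorem LT.nd0 (h : LT Q F₀ L) : (QuadraticMap.polarBilin h.qf).Nondegenerate := by
  apply nd_of
  intro x hx
  apply Subtype.ext
  apply h.eq_zero
  intro y hy
  have := congrArg Subtype.val (hx ⟨y, hy⟩)
  exact this

variable [Finite F]

theorem LT.dual (h : LT Q F₀ L) {x : ι → F} (hx : ∀ y ∈ L, polar Q x y ∈ F₀) : x ∈ L := by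
  haveI : Module.Finite F₀ L := Module.Finite.of_finite
  let φ : L →ₗ[F₀] F₀ :=
    { toFun := fun y => ⟨polar Q x y, hx y y.2⟩
      map_add' := fun y z => Subtype.ext (QuadraticMap.polar_add_right _ _ _ _)
      map_smul' := fun a y => Subtype.ext (by
        show polar Q x ((a : F) • (y : ι → F)) = (a : F) * polar Q x y
        rw [polar_smul_right]) }
  obtain ⟨z, hz⟩ := nd_exists_functional h.nd0 φ
  have h1 : x - z = 0 := by
    apply h.eq_zero
    intro y hy
    have h2 := congrArg Subtype.val (hz ⟨y, hy⟩)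
    have h3 : polar Q (z : ι → F) y = polar Q x y := h2
    rw [QuadraticMap.polar_sub_left, h3, sub_self]
  rw [sub_eq_zero] at h1
  rw [h1]
  exact z.2

/-- separation in the lattice -/
theorem LT.sep (h : LT Q F₀ L) {x : ι → F} (hx : x ∈ L) {T : Set (ι → F)} (hT : ∀ t ∈ T, t ∈ L)
    (hxT : x ∉ Submodule.span F T) : ∃ w ∈ L, polar Q x w = 1 ∧ ∀ t ∈ T, polar Q t w = 0 := by
  haveI : Module.Finite F₀ L := Module.Finite.of_finite
  have h1 : (⟨x, hx⟩ : L) ∉ Submodule.span F₀ {y : L | (y : ι → F) ∈ T} := by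
    intro hmem
    apply hxT
    have key : ∀ z : L, z ∈ Submodule.span F₀ {y : L | (y : ι → F) ∈ T} → (z : ι → F) ∈ Submodule.span F T := by
      intro z hz
      induction hz using Submodule.span_induction with
      | mem z hz => exact Submodule.subset_span hz
      | zero => exact Submodule.zero_mem _
      | add a b _ _ ha hb => exact Submodule.add_mem _ ha hb
      | smul c a _ ha => exact Submodule.smul_mem _ (c : F) ha
    exact key _ hmem
  obtain ⟨w, hw1, hw2⟩ := nd_exists_sep h.nd0 _ h1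
  refine ⟨w, w.2, ?_, fun t ht => ?_⟩
  · have := congrArg Subtype.val hw2
    exact this
  · have := congrArg Subtype.val (hw1 ⟨t, hT t ht⟩ (Submodule.subset_span ht))
    exact this

/-- hyperbolic pairs in the lattice -/
theorem LT.hyp (h : LT Q F₀ L) (T : Finset (ι → F)) (hT : ∀ t ∈ T, t ∈ L) (hn : 2 * T.card + 3 ≤ Fintype.card ι) :
    ∃ e ∈ L, ∃ f ∈ L, Q e = 0 ∧ Q f = 0 ∧ polar Q e f = 1 ∧ (∀ t ∈ T, polar Q t e = 0) ∧ ∀ t ∈ T, polar Q t f = 0 := by
  classical
  haveI : Module.Finite F₀ L := Module.Finite.of_finite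
  set T' : Finset L := T.attach.image (fun t => (⟨t.1, hT t.1 t.2⟩ : L)) with hT'
  have hc : T'.card ≤ T.card := by
    rw [hT']
    exact Finset.card_image_le.trans (by rw [Finset.card_attach])
  have hmem : ∀ t (ht : t ∈ T), (⟨t, hT t ht⟩ : L) ∈ T' := by
    intro t ht
    rw [hT', Finset.mem_image]
    exact ⟨⟨t, ht⟩, Finset.mem_attach _ _, rfl⟩
  set S : Submodule F₀ L := Submodule.span F₀ (T' : Set L) with hS
  have hS1 : finrank F₀ S ≤ T'.card := finrank_span_finset_le_card T'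
  obtain ⟨e, he, f, hf, hQe, hQf, hef⟩ := exists_hyp_perp h.nd0 (S := S) (R := S) inf_le_left (by
    rw [h.fr]
    have h3 : finrank F₀ S ≤ T.card := hS1.trans hc
    omega)
  rw [hS, Cfsg.Agent.H16.Quad.mem_perp_span] at he hf
  refine ⟨e, e.2, f, f.2, ?_, ?_, ?_, fun t ht => ?_, fun t ht => ?_⟩
  · exact congrArg Subtype.val hQe
  · exact congrArg Subtype.val hQf
  · exact congrArg Subtype.val hef
  · exact congrArg Subtype.val (he _ (hmem t ht))
  · exact congrArg Subtype.val (hf _ (hmem t ht))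

/-- rationality from one functional -/
theorem LT.rat0 (h : LT Q F₀ L) {x : ι → F} {c : F} (hx : ∀ y ∈ L, ∃ s ∈ F₀, polar Q x y = s * c) :
    ∃ v ∈ L, x = c • v := by
  by_cases hc : c = 0
  · refine ⟨0, L.zero_mem, ?_⟩
    rw [smul_zero]
    apply h.eq_zero
    intro y hy
    obtain ⟨s, -, hs⟩ := hx y hy
    rw [hs, hc, mul_zero]
  · refine ⟨c⁻¹ • x, ?_, by rw [smul_smul, mul_inv_cancel₀ hc, one_smul]⟩
    apply h.dual
    intro y hy
    obtain ⟨s, hs, hs'⟩ := hx y hy
    rw [polar_smul_left, hs', mul_comm s c, ← mul_assoc, inv_mul_cancel₀ hc, one_mul]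
    exact hs

theorem LT.rat1 (h : LT Q F₀ L) {a : ι → F} (ha : a ∈ L) (ha0 : a ≠ 0) {x : ι → F} {c : F}
    (hx : ∀ y ∈ L, polar Q a y = 0 → ∃ s ∈ F₀, polar Q x y = s * c) : ∃ v ∈ L, ∃ s : F, x = c • v + s • a := by
  obtain ⟨a', ha', haa', -⟩ := h.sep ha (T := {0}) (by intro t ht; rw [Set.mem_singleton_iff.1 ht]; exact L.zero_mem)
    (by rw [Submodule.span_zero_singleton, Submodule.mem_bot]; exact ha0)
  obtain ⟨v, hv, hxv⟩ := h.rat0 (x := x - polar Q x a' • a) (c := c) (by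
    intro y hy
    obtain ⟨s, hs, hs'⟩ := hx (y - polar Q a y • a') (L.sub_mem hy (h.smul_mem (h.pol ha hy) ha')) (by
      rw [QuadraticMap.polar_sub_right, polar_smul_right, haa', mul_one, sub_self])
    refine ⟨s, hs, ?_⟩
    rw [← hs', QuadraticMap.polar_sub_left, QuadraticMap.polar_sub_right, polar_smul_left, polar_smul_right]
    ring)
  exact ⟨v, hv, polar Q x a', by rw [← hxv]; module⟩

theorem LT.rat2 (h : LT Q F₀ L) {a a' : ι → F} (ha : a ∈ L) (ha' : a' ∈ L) (ha0 : a ∉ Submodule.span F {a'})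
    (ha0' : a' ∉ Submodule.span F {a}) {x : ι → F} {c : F}
    (hx : ∀ y ∈ L, polar Q a y = 0 → polar Q a' y = 0 → ∃ s ∈ F₀, polar Q x y = s * c) :
    ∃ v ∈ L, ∃ s s' : F, x = c • v + s • a + s' • a' := by
  obtain ⟨e, he, hae, ha'e⟩ := h.sep ha (T := {a'}) (by intro t ht; rw [Set.mem_singleton_iff.1 ht]; exact ha') ha0
  obtain ⟨e', he', hae', ha'e'⟩ := h.sep ha' (T := {a}) (by intro t ht; rw [Set.mem_singleton_iff.1 ht]; exact ha) ha0'
  have h1 : polar Q a' e = 0 := ha'e a' rfl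
  have h2 : polar Q a e' = 0 := ha'e' a rfl
  obtain ⟨v, hv, hxv⟩ := h.rat0 (x := x - polar Q x e • a - polar Q x e' • a') (c := c) (by
    intro y hy
    obtain ⟨s, hs, hs'⟩ := hx (y - polar Q a y • e - polar Q a' y • e')
      (L.sub_mem (L.sub_mem hy (h.smul_mem (h.pol ha hy) he)) (h.smul_mem (h.pol ha' hy) he')) (by
      rw [QuadraticMap.polar_sub_right, QuadraticMap.polar_sub_right, polar_smul_right, polar_smul_right, hae, h2]
      ring) (by
      rw [QuadraticMap.polar_sub_right, QuadraticMap.polar_sub_right, polar_smul_right, polar_smul_right, hae', h1]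
      ring)
    refine ⟨s, hs, ?_⟩
    rw [← hs', QuadraticMap.polar_sub_left, QuadraticMap.polar_sub_left, QuadraticMap.polar_sub_right,
      QuadraticMap.polar_sub_right, polar_smul_left, polar_smul_left, polar_smul_right, polar_smul_right]
    ring)
  exact ⟨v, hv, polar Q x e, polar Q x e', by rw [← hxv]; module⟩

/-- uniform scaling factors -/
theorem unif {M : Submodule F₀ (ι → F)} (hL : LT Q F₀ L) (hM : LT Q F₀ M) (big : 13 ≤ Fintype.card ι) {a b : ι → F}
    (ha : a ∈ L) (hb : b ∈ M) (τ : (ι → F) →ₗ[F] (ι → F))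
    (hτ : ∀ x, polar Q a x = 0 → τ x ∈ Submodule.span F {b} → x ∈ Submodule.span F {a})
    (hτa : τ a ∈ Submodule.span F {b})
    (h1 : ∀ y ∈ L, polar Q a y = 0 → Q y = 0 → ∃ c : F, ∃ v ∈ M, ∃ s : F, τ y = c • v + s • b) :
    ∃ l : F, l ≠ 0 ∧ ∀ y ∈ L, polar Q a y = 0 → ∃ v ∈ M, ∃ s : F, τ y = l • v + s • b := by
  classical
  have hc0 : ∀ y ∈ L, polar Q a y = 0 → y ∉ Submodule.span F {a} → ∀ (c : F) (v : ι → F) (s : F), τ y = c • v + s • b → c ≠ 0 := by
    intro y _ hay hya c v s h2 hc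
    apply hya
    apply hτ y hay
    rw [h2, hc, zero_smul, zero_add]
    exact Submodule.smul_mem _ _ (Submodule.mem_span_singleton_self b)
  have half : ∀ y ∈ L, polar Q a y = 0 → Q y = 0 → ∀ y' ∈ L, polar Q a y' = 0 → Q y' = 0 → polar Q y y' = 0 →
      y ∉ Submodule.span F ({a, y'} : Set (ι → F)) → y' ∉ Submodule.span F {a} →
      ∀ (c : F) (v : ι → F) (s : F), v ∈ M → τ y = c • v + s • b →
      ∀ (c' : F) (v' : ι → F) (s' : F), v' ∈ M → τ y' = c' • v' + s' • b →
      ∀ (c'' : F) (v'' : ι → F) (s'' : F), v'' ∈ M → τ (y + y') = c'' • v'' + s'' • b → ∃ r ∈ F₀, c = c'' * r := by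
    intro y hy hay hQy y' hy' hay' hQy' hyy' hind hy'a c v s hv e1 c' v' s' hv' e2 c'' v'' s'' hv'' e3
    have hya : y ∉ Submodule.span F {a} := fun h => hind (Submodule.span_mono (by simp) h)
    have c0 := hc0 y hy hay hya c v s e1
    have c0' := hc0 y' hy' hay' hy'a c' v' s' e2
    have hvnot : v ∉ Submodule.span F ({v', b} : Set (ι → F)) := by
      intro hmem
      obtain ⟨x, z, hxz⟩ := Submodule.mem_span_pair.1 hmem
      have h2 : y - (c * x * c'⁻¹) • y' ∈ Submodule.span F {a} := by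
        apply hτ
        · rw [QuadraticMap.polar_sub_right, polar_smul_right, hay, hay', mul_zero, sub_zero]
        · rw [_root_.map_sub, LinearMap.map_smul, e1, e2, ← hxz, Submodule.mem_span_singleton]
          refine ⟨c * z + s - c * x * c'⁻¹ * s', ?_⟩
          have h3 : (c * x * c'⁻¹) • (c' • v' + s' • b) = (c * x) • v' + (c * x * c'⁻¹ * s') • b := by
            rw [smul_add, smul_smul, smul_smul, mul_assoc (c * x), inv_mul_cancel₀ c0', mul_one]
          rw [h3]
          module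
      obtain ⟨w, hw⟩ := Submodule.mem_span_singleton.1 h2
      apply hind
      rw [Submodule.mem_span_pair]
      exact ⟨w, c * x * c'⁻¹, by rw [hw]; module⟩
    obtain ⟨w, hw, hvw, hTw⟩ := hM.sep hv (T := {v', b}) (by
      intro t ht
      rcases ht with rfl | rfl
      · exact hv'
      · exact hb) hvnot
    have hv'w : polar Q v' w = 0 := hTw v' (by simp)
    have hbw : polar Q b w = 0 := hTw b (by simp)
    refine ⟨polar Q v'' w, hM.pol hv'' hw, ?_⟩
    have h4 := congrArg (fun t => polar Q t w) e3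
    simp only [_root_.map_add, e1, e2, QuadraticMap.polar_add_left, polar_smul_left, hvw, hv'w, hbw] at h4
    linear_combination h4
  have key : ∀ y ∈ L, polar Q a y = 0 → Q y = 0 → ∀ y' ∈ L, polar Q a y' = 0 → Q y' = 0 → polar Q y y' = 0 →
      y ∉ Submodule.span F ({a, y'} : Set (ι → F)) → y' ∉ Submodule.span F ({a, y} : Set (ι → F)) →
      ∀ (c : F) (v : ι → F) (s : F), v ∈ M → τ y = c • v + s • b →
      ∀ (c' : F) (v' : ι → F) (s' : F), v' ∈ M → τ y' = c' • v' + s' • b → ∃ r ∈ F₀, c' = c * r := by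
    intro y hy hay hQy y' hy' hay' hQy' hyy' hind hind' c v s hv e1 c' v' s' hv' e2
    have hya : y ∉ Submodule.span F {a} := fun h => hind (Submodule.span_mono (by simp) h)
    have hya' : y' ∉ Submodule.span F {a} := fun h => hind' (Submodule.span_mono (by simp) h)
    obtain ⟨c'', v'', hv'', s'', e3⟩ := h1 (y + y') (L.add_mem hy hy')
      (by rw [QuadraticMap.polar_add_right, hay, hay', add_zero])
      (by rw [Cfsg.Agent.H16.Quad.map_add, hQy, hQy', hyy']; ring)
    obtain ⟨r, hr, hr'⟩ := half y hy hay hQy y' hy' hay' hQy' hyy' hind hya' c v s hv e1 c' v' s' hv' e2 c'' v'' s'' hv'' e3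
    obtain ⟨r2, hr2, hr2'⟩ := half y' hy' hay' hQy' y hy hay hQy (by rw [polar_symm]; exact hyy') hind' hya c' v' s' hv' e2
      c v s hv e1 c'' v'' s'' hv'' (by rw [add_comm]; exact e3)
    have c0 := hc0 y hy hay hya c v s e1
    have hr0 : r ≠ 0 := by rintro rfl; rw [mul_zero] at hr'; exact c0 hr'
    refine ⟨r2 * r⁻¹, F₀.mul_mem hr2 (F₀.inv_mem hr), ?_⟩
    rw [hr2', hr']
    field_simp
  -- base vector
  obtain ⟨y₀, hy₀, f₀, -, hQy₀, -, hyf₀, hT₀, hT₀'⟩ := hL.hyp {a} (by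
    intro t ht; rw [Finset.mem_singleton.1 ht]; exact ha) (by rw [Finset.card_singleton]; omega)
  have hay₀ : polar Q a y₀ = 0 := hT₀ a (by simp)
  have haf₀ : polar Q a f₀ = 0 := hT₀' a (by simp)
  have hy₀a : y₀ ∉ Submodule.span F {a} := by
    intro hmem
    obtain ⟨w, hw⟩ := Submodule.mem_span_singleton.1 hmem
    rw [← hw, polar_smul_left, haf₀, mul_zero] at hyf₀
    exact zero_ne_one hyf₀
  obtain ⟨l, v₀, hv₀, s₀, e₀⟩ := h1 y₀ hy₀ hay₀ hQy₀
  have hl := hc0 y₀ hy₀ hay₀ hy₀a l v₀ s₀ e₀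
  have sing : ∀ y ∈ L, polar Q a y = 0 → Q y = 0 → ∃ v ∈ M, ∃ s : F, τ y = l • v + s • b := by
    intro y hy hay hQy
    by_cases hya : y ∈ Submodule.span F {a}
    · obtain ⟨w, rfl⟩ := Submodule.mem_span_singleton.1 hya
      obtain ⟨z, hz⟩ := Submodule.mem_span_singleton.1 hτa
      exact ⟨0, M.zero_mem, w * z, by rw [LinearMap.map_smul, ← hz]; module⟩
    obtain ⟨y₁, hy₁, f₁, -, hQy₁, -, hyf₁, hT₁, hT₁'⟩ := hL.hyp {a, y₀, y} (by
      intro t ht
      simp only [Finset.mem_insert, Finset.mem_singleton] at ht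
      rcases ht with rfl | rfl | rfl
      · exact ha
      · exact hy₀
      · exact hy) (by
      have : ({a, y₀, y} : Finset (ι → F)).card ≤ 3 := Finset.card_le_three
      omega)
    have ha1 : polar Q a y₁ = 0 := hT₁ a (by simp)
    have haf1 : polar Q a f₁ = 0 := hT₁' a (by simp)
    have h01 : polar Q y₀ y₁ = 0 := hT₁ y₀ (by simp)
    have h0f : polar Q y₀ f₁ = 0 := hT₁' y₀ (by simp)
    have hy1 : polar Q y y₁ = 0 := hT₁ y (by simp)
    have hyf : polar Q y f₁ = 0 := hT₁' y (by simp)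
    have hnot : ∀ z, polar Q z f₁ = 0 → y₁ ∉ Submodule.span F ({a, z} : Set (ι → F)) := by
      intro z hz hmem
      obtain ⟨p, q, hpq⟩ := Submodule.mem_span_pair.1 hmem
      rw [← hpq, QuadraticMap.polar_add_left, polar_smul_left, polar_smul_left, haf1, hz] at hyf₁
      apply zero_ne_one (α := F)
      rw [← hyf₁]; ring
    have hnot' : ∀ z, polar Q z f₁ = 0 → z ∉ Submodule.span F {a} → z ∉ Submodule.span F ({a, y₁} : Set (ι → F)) := by
      intro z hz hza hmem
      obtain ⟨p, q, hpq⟩ := Submodule.mem_span_pair.1 hmem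
      have hq : q = 0 := by
        rw [← hpq, QuadraticMap.polar_add_left, polar_smul_left, polar_smul_left, haf1, hyf₁] at hz
        linear_combination hz
      apply hza
      rw [← hpq, hq, zero_smul, add_zero]
      exact Submodule.smul_mem _ _ (Submodule.mem_span_singleton_self a)
    obtain ⟨c₁, v₁, hv₁, s₁, e₁⟩ := h1 y₁ hy₁ ha1 hQy₁
    obtain ⟨c, v, hv, s, e⟩ := h1 y hy hay hQy
    obtain ⟨r, hr, hr'⟩ := key y₀ hy₀ hay₀ hQy₀ y₁ hy₁ ha1 hQy₁ h01 (hnot' y₀ h0f hy₀a) (hnot y₀ h0f) l v₀ s₀ hv₀ e₀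
      c₁ v₁ s₁ hv₁ e₁
    obtain ⟨r2, hr2, hr2'⟩ := key y₁ hy₁ ha1 hQy₁ y hy hay hQy (by rw [polar_symm]; exact hy1) (hnot y hyf)
      (hnot' y hyf hya) c₁ v₁ s₁ hv₁ e₁ c v s hv e
    refine ⟨(r * r2) • v, hM.smul_mem (F₀.mul_mem hr hr2) hv, s, ?_⟩
    rw [e, hr2', hr', smul_smul, mul_assoc]
  refine ⟨l, hl, fun y hy hay => ?_⟩
  obtain ⟨e, he, f, hf, hQe, hQf, hef, hTe, hTf⟩ := hL.hyp {a, y} (by
    intro t ht
    simp only [Finset.mem_insert, Finset.mem_singleton] at ht
    rcases ht with rfl | rfl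
    · exact ha
    · exact hy) (by
    have : ({a, y} : Finset (ι → F)).card ≤ 2 := Finset.card_le_two
    omega)
  have hae : polar Q a e = 0 := hTe a (by simp)
  have haf : polar Q a f = 0 := hTf a (by simp)
  have hye : polar Q y e = 0 := hTe y (by simp)
  have hyf : polar Q y f = 0 := hTf y (by simp)
  obtain ⟨v1, hv1, s1, e1⟩ := sing e he hae hQe
  obtain ⟨v2, hv2, s2, e2⟩ := sing f hf haf hQf
  obtain ⟨v3, hv3, s3, e3⟩ := sing (y + e - Q y • f) (L.sub_mem (L.add_mem hy he) (hL.smul_mem (hL.q y hy) hf))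
    (by rw [QuadraticMap.polar_sub_right, QuadraticMap.polar_add_right, polar_smul_right, hay, hae, haf]; ring)
    (by rw [Cfsg.Agent.H16.Quad.map_sub, Cfsg.Agent.H16.Quad.map_add, Cfsg.Agent.H16.Quad.map_smul, polar_smul_right,
          QuadraticMap.polar_add_left, hQe, hQf, hye, hyf, hef]; ring)
  refine ⟨v3 - v1 + Q y • v2, M.add_mem (M.sub_mem hv3 hv1) (hM.smul_mem (hL.q y hy) hv2), s3 - s1 + Q y * s2, ?_⟩
  have h5 : τ y = τ (y + e - Q y • f) - τ e + Q y • τ f := by
    rw [← _root_.map_sub, ← LinearMap.map_smul, ← _root_.map_add]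
    congr 1
    module
  rw [h5, e3, e1, e2]
  module

end Cfsg.Agent.H29.Sg
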