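import Mathlib
import Cfsg.Agent.H5_Dk6

set_option autoImplicit false

/-! An application of Dickson's theorem: subgroups of `SL_2(F)` containing large unipotent subgroups
with a small torus. -/

namespace Cfsg.Agent.H29.SgD

open Cfsg.Agent.H5.SL2 Cfsg.Agent.H5.V4 Cfsg.Agent.H5.Dk
open scoped Pointwise

variable {F : Type*} [Field F]

theorem ul_aux {γ : S F} {c : F} (hc : c ≠ 0) (h : (γ * u c * γ⁻¹).1 1 0 = 0) : γ.1 1 0 = 0 := by
  simp only [mul10, mul11, mul00, mul01, inv00, inv01, inv10, inv11, u00, u01, u10, u11] at h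
  have h2 : γ.1 1 0 * γ.1 1 0 * c = 0 := by linear_combination -h
  rcases mul_eq_zero.1 h2 with h3 | h3
  · exact mul_self_eq_zero.1 h3
  · exact absurd h3 hc

theorem ll_aux {γ : S F} {c : F} (hc : c ≠ 0) (h : (γ * l c * γ⁻¹).1 1 0 = 0) : γ.1 1 1 = 0 := by
  simp only [mul10, mul11, mul00, mul01, inv00, inv01, inv10, inv11, l00, l01, l10, l11] at h
  have h2 : γ.1 1 1 * γ.1 1 1 * c = 0 := by linear_combination h
  rcases mul_eq_zero.1 h2 with h3 | h3
  · exact mul_self_eq_zero.1 h3
  · exact absurd h3 hc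

theorem dickson_line [Fintype F] (F₀ : Subfield F) (T : Subgroup (S F))
    (hup : ∀ s ∈ T, s.1 1 0 = 0 → (s.1 0 0) ^ 2 ∈ F₀) {c : F} (hc : c ≠ 0) (hl : l c ∈ T) {x1 x2 : F}
    (hind : ∀ s ∈ F₀, ∀ t ∈ F₀, s * x1 + t * x2 = 0 → s = 0 ∧ t = 0)
    (hu : ∀ s ∈ F₀, ∀ t ∈ F₀, u (s * x1 + t * x2) ∈ T) : False := by
  classical
  set p := ringChar F with hp
  haveI : CharP F p := ringChar.charP F
  haveI : Fact p.Prime := ⟨CharP.char_is_prime F p⟩
  have hpp : p.Prime := Fact.out
  set H : Subgroup (PS F) := T.map π with hH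
  have hπ : ∀ s, s ∈ T → π s ∈ H := fun s hs => Subgroup.mem_map_of_mem _ hs
  have hup' : ∀ s, π s ∈ H → s.1 1 0 = 0 → (s.1 0 0) ^ 2 ∈ F₀ := by
    intro s hs h10
    obtain ⟨t, ht, hts⟩ := Subgroup.mem_map.1 hs
    rcases π_eq.1 hts with h | h
    · rw [← h]; exact hup t ht (by rw [h]; exact h10)
    · have h1 := hup t ht (by rw [h, neg10, h10, neg_zero])
      rw [h, neg00, neg_sq] at h1
      exact h1
  have hx1 : x1 ≠ 0 := by
    rintro rfl
    have := hind 1 F₀.one_mem 0 F₀.zero_mem (by ring)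
    exact one_ne_zero this.1
  -- size of the unipotent part
  have hcard : Nat.card F₀ ^ 2 ≤ Nat.card (Ag H) := by
    have hinj : Function.Injective (fun st : F₀ × F₀ => (⟨st.1 * x1 + st.2 * x2, hπ _ (hu _ st.1.2 _ st.2.2)⟩ : Ag H)) := by
      rintro ⟨s, t⟩ ⟨s', t'⟩ h
      have h1 : (s : F) * x1 + t * x2 = s' * x1 + t' * x2 := congrArg Subtype.val h
      have h2 := hind (s - s') (F₀.sub_mem s.2 s'.2) (t - t') (F₀.sub_mem t.2 t'.2) (by linear_combination h1)
      exact Prod.ext (Subtype.ext (sub_eq_zero.1 h2.1)) (Subtype.ext (sub_eq_zero.1 h2.2))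
    have h1 := Nat.card_le_card_of_injective _ hinj
    rwa [Nat.card_prod, ← sq] at h1
  have hq0 : 2 ≤ Nat.card F₀ := by
    have : Nontrivial F₀ := inferInstance
    exact Finite.one_lt_card
  have hAH : Nat.card (Ag H) ∣ Nat.card H := by
    rw [card_Ag]
    exact Subgroup.card_dvd_of_le inf_le_left
  obtain ⟨m, hm⟩ : ∃ m, Nat.card (Ag H) = p ^ m := by
    have h1 : IsPGroup p ((Ub F).subgroupOf H) := (isPGroup_Ub (F := F) p).comap_subtype (K := H)
    obtain ⟨n, hn⟩ := h1.exists_card_eq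
    rw [card_subgroupOf, ← card_Ag] at hn
    exact ⟨n, hn⟩
  have h4A : 4 ≤ Nat.card (Ag H) := by nlinarith
  have hpH : p ∣ Nat.card H := by
    refine dvd_trans ?_ hAH
    rw [hm]
    apply dvd_pow_self
    rintro rfl
    rw [hm, pow_zero] at h4A
    omega
  obtain ⟨g, hcase⟩ := hub p H hpH
  rcases hcase with h1 | ⟨h2, k, hk, ⟨e⟩⟩ | ⟨h3, h60, -⟩ | ⟨e, K0, hS, hcH, hDg⟩
  · -- no common fixed point
    obtain ⟨γ, rfl⟩ := π_surj g
    have key : ∀ s ∈ T, (γ * s * γ⁻¹).1 1 0 = 0 := by
      intro s hs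
      apply h1
      rw [mem_conj, map_mul, map_mul, map_inv]
      have : (π γ)⁻¹ * (π γ * π s * (π γ)⁻¹) * π γ = π s := by group
      rw [this]
      exact hπ s hs
    have hux1 : u x1 ∈ T := by
      have := hu 1 F₀.one_mem 0 F₀.zero_mem
      rwa [one_mul, zero_mul, add_zero] at this
    have k1 := ul_aux hx1 (key _ hux1)
    have k2 := ll_aux hc (key _ hl)
    have := det_eq γ
    rw [k1, k2] at this
    simp at this
  · -- dihedral
    have hcH : Nat.card H = 2 * k := by
      rw [Nat.card_congr e.toEquiv, DihedralGroup.nat_card]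
    have hev : 2 ∣ Fintype.card F := by
      rw [← h2, hp]
      obtain ⟨n, -, hn⟩ := FiniteField.card F (ringChar F)
      rw [hn]
      exact dvd_pow_self _ n.ne_zero
    have hgcd : Nat.gcd 2 (Fintype.card F - 1) = 1 := by
      have h5 : Nat.gcd 2 (Fintype.card F - 1) ∣ 2 := Nat.gcd_dvd_left _ _
      rcases (Nat.dvd_prime Nat.prime_two).1 h5 with h6 | h6
      · exact h6
      · have h7 : 2 ∣ Fintype.card F - 1 := by rw [← h6]; exact Nat.gcd_dvd_right _ _
        have h8 : 0 < Fintype.card F := Fintype.card_pos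
        omega
    rw [hgcd, Nat.div_one, Nat.div_one] at hk
    have hkodd : ¬ 2 ∣ k := by
      intro h5
      have h8 : 0 < Fintype.card F := Fintype.card_pos
      rcases hk with h6 | h6
      · have := h5.trans h6; omega
      · have := h5.trans h6; omega
    have h4 : 4 ∣ Nat.card (Ag H) := by
      rw [hm, h2] at h4A ⊢
      have : 2 ≤ m := by
        by_contra hcon
        have : m ≤ 1 := by omega
        have := Nat.pow_le_pow_right (show 0 < 2 by norm_num) this
        omega
      exact pow_dvd_pow 2 this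
    have h5 := h4.trans hAH
    rw [hcH] at h5
    omega
  · -- order 60
    have h9 : 9 ∣ Nat.card (Ag H) := by
      rw [hm, h3] at h4A ⊢
      have : 2 ≤ m := by
        by_contra hcon
        have : m ≤ 1 := by omega
        have := Nat.pow_le_pow_right (show 0 < 3 by norm_num) this
        omega
      exact pow_dvd_pow 3 this
    have h5 := h9.trans hAH
    rw [h60] at h5
    omega
  · -- the main case
    set H' : Subgroup (PS F) := MulAut.conj g • H with hH'
    have hconj : ∀ x ∈ H, g * x * g⁻¹ ∈ H' := by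
      intro x hx
      rw [hH', mem_conj]
      have : g⁻¹ * (g * x * g⁻¹) * g = x := by group
      rwa [this]
    have hcH' : Nat.card H' = Nat.card H := card_conj g H
    -- p does not divide the index of the unipotent part
    have hcK : Nat.card (Ag H') = Nat.card K0 := hS.hcard
    obtain ⟨m', hm'⟩ : ∃ m', Nat.card (Ag H') = p ^ m' := by
      have h1 : IsPGroup p ((Ub F).subgroupOf H') := (isPGroup_Ub (F := F) p).comap_subtype (K := H')
      obtain ⟨n, hn⟩ := h1.exists_card_eq
      rw [card_subgroupOf, ← card_Ag] at hn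
      exact ⟨n, hn⟩
    have hK2 : 2 ≤ Nat.card K0 := by
      have : Nontrivial K0 := inferInstance
      exact Finite.one_lt_card
    have hpK : p ∣ Nat.card K0 := by
      rw [← hcK, hm']
      apply dvd_pow_self
      rintro rfl
      rw [← hcK, hm', pow_zero] at hK2
      omega
    have hindex : ¬ p ∣ ((Ub F).subgroupOf H').index := by
      intro hdiv
      have h5 := Subgroup.card_mul_index ((Ub F).subgroupOf H')
      rw [card_subgroupOf, ← card_Ag, hcK, hcH', hcH] at h5
      have h6 : ((Ub F).subgroupOf H').index = (1 + Nat.card K0) * Nat.card (Dg H') := by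
        have h7 : Nat.card K0 * ((Ub F).subgroupOf H').index = Nat.card K0 * ((1 + Nat.card K0) * Nat.card (Dg H')) := by
          rw [h5]; ring
        exact Nat.eq_of_mul_eq_mul_left (by omega) h7
      rw [h6] at hdiv
      have h8 : ∀ z, z ∣ Nat.card K0 - 1 → ¬ p ∣ z := by
        intro z hz hpz
        have h9 := hpz.trans hz
        have h10 : p ∣ 1 := by
          have h11 := Nat.dvd_sub hpK h9
          have h12 : Nat.card K0 - (Nat.card K0 - 1) = 1 := by omega
          rwa [h12] at h11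
        exact hpp.one_lt.ne' (Nat.dvd_one.1 h10)
      rcases (Nat.Prime.dvd_mul hpp).1 hdiv with h9 | h9
      · have h10 : p ∣ 1 := (Nat.dvd_add_left hpK).1 h9
        exact hpp.one_lt.ne' (Nat.dvd_one.1 h10)
      · rcases hDg with h10 | h10
        · exact h8 _ (by rw [h10]) h9
        · exact h8 _ (by rw [← h10]; exact Dvd.intro_left 2 rfl) h9
    have hPU : IsPGroup p ((Ub F).subgroupOf H') := (isPGroup_Ub (F := F) p).comap_subtype (K := H')
    let S1 : Sylow p H' := hPU.toSylow hindex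
    have hS1 : (S1 : Subgroup H') = (Ub F).subgroupOf H' := rfl
    -- conjugating the unipotent part of H
    have hB : IsPGroup p ((MulAut.conj g • (Ub F)).subgroupOf H') :=
      ((isPGroup_Ub (F := F) p).map (MulAut.conj g).toMonoidHom).comap_subtype (K := H')
    obtain ⟨S2, hS2⟩ := hB.exists_le_sylow
    obtain ⟨h, hh⟩ := MulAction.exists_smul_eq H' S2 S1
    set x : PS F := (h : PS F) * g with hx
    have hxU : ∀ y ∈ H, y ∈ Ub F → x * y * x⁻¹ ∈ Ub F ∧ x * y * x⁻¹ ∈ H' := by
      intro y hyH hyU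
      have e1 : (⟨g * y * g⁻¹, hconj y hyH⟩ : H') ∈ (S2 : Subgroup H') := by
        apply hS2
        rw [Subgroup.mem_subgroupOf, mem_conj]
        have : g⁻¹ * (g * y * g⁻¹) * g = y := by group
        show g⁻¹ * (g * y * g⁻¹) * g ∈ Ub F
        rwa [this]
      have e2 : h * ⟨g * y * g⁻¹, hconj y hyH⟩ * h⁻¹ ∈ (S1 : Subgroup H') := by
        rw [← hh]
        exact Subgroup.smul_mem_pointwise_smul _ (MulAut.conj h) _ e1
      rw [hS1, Subgroup.mem_subgroupOf] at e2
      have e3 : ((h * ⟨g * y * g⁻¹, hconj y hyH⟩ * h⁻¹ : H') : PS F) = x * y * x⁻¹ := by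
        rw [hx]
        show (h : PS F) * (g * y * g⁻¹) * (h : PS F)⁻¹ = _
        group
      rw [e3] at e2
      refine ⟨e2, ?_⟩
      rw [← e3]
      exact (h * ⟨g * y * g⁻¹, hconj y hyH⟩ * h⁻¹ : H').2
    obtain ⟨ξ, hξ⟩ := π_surj x
    have hux1 : u x1 ∈ T := by
      have := hu 1 F₀.one_mem 0 F₀.zero_mem
      rwa [one_mul, zero_mul, add_zero] at this
    have hξ10 : ξ.1 1 0 = 0 := by
      obtain ⟨h5, -⟩ := hxU (π (u x1)) (hπ _ hux1) (mem_Ub.2 ⟨x1, rfl⟩)
      obtain ⟨z, hz⟩ := mem_Ub.1 h5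
      rw [← hξ, ← map_inv, ← map_mul, ← map_mul] at hz
      apply ul_aux hx1
      rcases π_eq.1 hz with h6 | h6
      · rw [h6]; rfl
      · rw [h6, neg10]; simp
    -- sizes
    have hle : Nat.card (Ag H) ≤ Nat.card K0 := by
      rw [← hcK, card_Ag, card_Ag]
      refine Nat.card_le_card_of_injective (fun y => (⟨x * y.1 * x⁻¹, Subgroup.mem_inf.2
        ⟨(hxU y.1 (Subgroup.mem_inf.1 y.2).1 (Subgroup.mem_inf.1 y.2).2).2,
          (hxU y.1 (Subgroup.mem_inf.1 y.2).1 (Subgroup.mem_inf.1 y.2).2).1⟩⟩ : (H' ⊓ Ub F : Subgroup (PS F)))) ?_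
      intro y z hyz
      have h5 : x * y.1 * x⁻¹ = x * z.1 * x⁻¹ := congrArg Subtype.val hyz
      exact Subtype.ext (mul_left_cancel (mul_right_cancel h5))
    have hDF : ∀ z ∈ Dg H', (z : F) ∈ F₀ := by
      rintro z ⟨a, b, rfl, hab⟩
      have h5 : x⁻¹ * π (u b * d a) * x ∈ H := by
        have h6 : (h : PS F)⁻¹ * π (u b * d a) * (h : PS F) ∈ H' := H'.mul_mem (H'.mul_mem (H'.inv_mem h.2) hab) h.2
        have h7 := mem_conj.1 (show (h : PS F)⁻¹ * π (u b * d a) * (h : PS F) ∈ MulAut.conj g • H from h6)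
        rw [hx]
        convert h7 using 1
        group
      rw [← hξ, ← map_inv, ← map_mul, ← map_mul] at h5
      have hdet := det_eq ξ
      rw [hξ10, mul_zero, sub_zero] at hdet
      have h6 := hup' _ h5 (by
        simp only [mul10, mul11, mul00, mul01, inv00, inv01, inv10, inv11, hξ10, u00, u01, u10, u11, d00, d01, d10, d11]
        ring)
      have h7 : (ξ⁻¹ * (u b * d a) * ξ).1 0 0 = a := by
        simp only [mul10, mul11, mul00, mul01, inv00, inv01, inv10, inv11, hξ10, u00, u01, u10, u11, d00, d01, d10, d11]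
        linear_combination (a : F) * hdet
      rw [h7] at h6
      rwa [Units.val_pow_eq_pow_val]
    have hDc : Nat.card (Dg H') ≤ Nat.card F₀ - 1 := by
      have h5 : Nat.card (Dg H') ≤ Nat.card F₀ˣ := by
        refine Nat.card_le_card_of_injective (fun z => (Units.mk0 (⟨(z.1 : F), hDF z.1 z.2⟩ : F₀) (by
          intro h0
          exact z.1.ne_zero (congrArg Subtype.val h0)) : F₀ˣ)) ?_
        intro y z hyz
        have h6 := congrArg (fun t : F₀ˣ => ((t : F₀) : F)) hyz
        exact Subtype.ext (Units.ext h6)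
      have h6 : Nat.card F₀ˣ = Nat.card F₀ - 1 := by
        have := Fintype.ofFinite F₀
        rw [Nat.card_eq_fintype_card, Nat.card_eq_fintype_card, Fintype.card_units]
      rwa [h6] at h5
    have hfin : Nat.card K0 - 1 ≤ 2 * (Nat.card F₀ - 1) := by
      rcases hDg with h10 | h10
      · omega
      · omega
    have h11 : Nat.card F₀ ^ 2 ≤ Nat.card K0 := hcard.trans hle
    obtain ⟨w, hw⟩ : ∃ w, Nat.card F₀ = w + 2 := ⟨Nat.card F₀ - 2, by omega⟩
    rw [hw] at h11 hfin
    have h12 : (w + 2) ^ 2 ≤ 1 + 2 * (w + 1) := by omega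
    nlinarith

end Cfsg.Agent.H29.SgD
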