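import Mathlib
import Cfsg.Agent.H29_Sg14
import Cfsg.Agent.H29_SgD

set_option autoImplicit false

/-! Subfield groups in `Ω`: the ring of scalars and orthogonal pairs of centres. -/

namespace Cfsg.Agent.H29.Sg

open Matrix Module Cfsg.Geo Cfsg.Agent.H16.Quad Cfsg.Agent.H29.Trv
open QuadraticMap (polar)

variable {F : Type*} [Field F] {ι : Type} [Fintype ι] [DecidableEq ι]
variable {Q : QuadraticForm F (ι → F)} {F₀ : Subfield F} {L : Submodule F₀ (ι → F)} {G : Subgroup (GL ι F)}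

theorem RP.resc {a y : ι → F} {l : F} (h : RP Q G (l • a) y) (hl : l ≠ 0) : RP Q G a (l • y) := by
  have h0 : polar Q a y = 0 := by
    have := h.1
    rw [polar_smul_left] at this
    exact (mul_eq_zero.1 this).resolve_left hl
  refine ⟨by rw [polar_smul_right, h0, mul_zero], fun ha hy => ?_⟩
  have ha' : Q (l • a) = 0 := by rw [Cfsg.Agent.H16.Quad.map_smul, ha, mul_zero]
  have h1 := h.2 ha' h.1
  have h2 : eg ha hy = eg ha' h.1 := by
    apply Units.ext
    apply mat_ext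
    intro x
    rw [eg_apply, eg_apply, Cfsg.Agent.H16.Quad.map_smul, polar_smul_right, polar_smul_right]
    module
  rw [h2]
  exact h1

theorem RP.neg {a y : ι → F} (h : RP Q G a y) : RP Q G a (-y) := by
  have := RP.zero.sub h
  rwa [zero_sub] at this

theorem RP.self {a : ι → F} (ha : Q a = 0) (c : F) : RP Q G a (c • a) :=
  ⟨by rw [polar_smul_right, polar_self, ha]; ring, RM.self c⟩

/-- a group containing the rational Siegel elements -/
structure SG (Q : QuadraticForm F (ι → F)) (G : Subgroup (GL ι F)) (F₀ : Subfield F) (L : Submodule F₀ (ι → F)) : Prop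
    extends LT Q F₀ L where
  om : G ≤ omegaGL ⇑Q
  big : 13 ≤ Fintype.card ι
  rm : ∀ u ∈ L, Q u = 0 → ∀ y ∈ L, polar Q u y = 0 → RP Q G u y

namespace SG

variable [Finite F]

theorem iso (h : SG Q G F₀ L) {g : GL ι F} (hg : g ∈ G) (x : ι → F) : Q ((g : Matrix ι ι F) *ᵥ x) = Q x :=
  omega_iso (h.om hg) x

/-- spanning by singular vectors -/
theorem sing_dec (h : SG Q G F₀ L) {u : ι → F} (hu : u ∈ L) {x : ι → F} (hx : x ∈ L) (hux : polar Q u x = 0) :
    ∃ e ∈ L, ∃ f ∈ L, ∃ p ∈ L, Q e = 0 ∧ Q f = 0 ∧ Q p = 0 ∧ polar Q u e = 0 ∧ polar Q u f = 0 ∧ polar Q u p = 0 ∧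
      x = p - e + Q x • f := by
  classical
  obtain ⟨e, he, f, hf, hQe, hQf, hef, hTe, hTf⟩ := h.hyp {u, x} (by
    intro t ht
    simp only [Finset.mem_insert, Finset.mem_singleton] at ht
    rcases ht with rfl | rfl
    · exact hu
    · exact hx) (by
    have : ({u, x} : Finset (ι → F)).card ≤ 2 := Finset.card_le_two
    have := h.big
    omega)
  have hae : polar Q u e = 0 := hTe u (by simp)
  have haf : polar Q u f = 0 := hTf u (by simp)
  have hye : polar Q x e = 0 := hTe x (by simp)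
  have hyf : polar Q x f = 0 := hTf x (by simp)
  refine ⟨e, he, f, hf, x + e - Q x • f, L.sub_mem (L.add_mem hx he) (h.smul_mem (h.q x hx) hf), hQe, hQf, ?_, hae, haf,
    ?_, by module⟩
  · rw [Cfsg.Agent.H16.Quad.map_sub, Cfsg.Agent.H16.Quad.map_add, Cfsg.Agent.H16.Quad.map_smul, polar_smul_right,
      QuadraticMap.polar_add_left, hQe, hQf, hye, hyf, hef]; ring
  · rw [QuadraticMap.polar_sub_right, QuadraticMap.polar_add_right, polar_smul_right, hux, hae, haf]; ring

/-- (a) -/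
theorem fa (h : SG Q G F₀ L) {u v y : ι → F} (hu : u ∈ L) (hv : v ∈ L) (hQv : Q v = 0)
    (huv : polar Q u v = 0) (hr : RP Q G u y) {s : F} (hs : s ∈ F₀) : RP Q G u ((s * polar Q y v) • v) := by
  classical
  obtain ⟨e, he, f, hf, hQe, hQf, hef, hTe, hTf⟩ := h.hyp {u, v} (by
    intro t ht
    simp only [Finset.mem_insert, Finset.mem_singleton] at ht
    rcases ht with rfl | rfl
    · exact hu
    · exact hv) (by
    have : ({u, v} : Finset (ι → F)).card ≤ 2 := Finset.card_le_two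
    have := h.big
    omega)
  have hue : polar Q u e = 0 := hTe u (by simp)
  have huf : polar Q u f = 0 := hTf u (by simp)
  have hve : polar Q v e = 0 := hTe v (by simp)
  have hvf : polar Q v f = 0 := hTf v (by simp)
  have D : ∀ w ∈ L, polar Q v w = 0 → polar Q u w = 0 →
      RP Q G u (polar Q y v • w - polar Q y w • v - (Q w * polar Q y v) • v) := by
    intro w hw hvw huw
    obtain ⟨h1, h2⟩ := h.rm v hv hQv w hw hvw
    have hg := h2 hQv h1
    have h3 := hr.conj hg (h.iso hg)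
    rw [eg_fix _ _ huv huw, eg_apply] at h3
    have h4 := h3.sub hr
    convert h4 using 1
    module
  have d1 := D ((-s) • e) (h.smul_mem (F₀.neg_mem hs) he) (by rw [polar_smul_right, hve, mul_zero])
    (by rw [polar_smul_right, hue, mul_zero])
  have d2 := D f hf hvf huf
  have d3 := D ((-s) • e + f) (L.add_mem (h.smul_mem (F₀.neg_mem hs) he) hf)
    (by rw [QuadraticMap.polar_add_right, polar_smul_right, hve, hvf]; ring)
    (by rw [QuadraticMap.polar_add_right, polar_smul_right, hue, huf]; ring)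
  have d4 := (d3.sub d1).sub d2
  rw [Cfsg.Agent.H16.Quad.map_add, QuadraticMap.polar_add_right, polar_smul_left, hef] at d4
  convert d4 using 1
  module

/-- (c1) -/
theorem c1 (h : SG Q G F₀ L) {l : F} {u v : ι → F} (hu : u ∈ L) (hQu : Q u = 0) (hv : v ∈ L)
    (hQv : Q v = 0) (huv : polar Q u v = 0) (hvu : v ∉ Submodule.span F {u}) (hr : RP Q G u (l • v)) {w : ι → F}
    (hw : w ∈ L) (hQw : Q w = 0) (huw : polar Q u w = 0) : RP Q G u (l • w) := by
  have direct : ∀ v ∈ L, ∀ w ∈ L, Q w = 0 → polar Q u w = 0 → polar Q v w ≠ 0 → RP Q G u (l • v) → RP Q G u (l • w) := by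
    intro v hv w hw hQw huw hvw hr
    have h1 := h.fa hu hw hQw huw hr (F₀.inv_mem (h.pol hv hw))
    rw [polar_smul_left] at h1
    have h2 : (polar Q v w)⁻¹ * (l * polar Q v w) = l := by
      field_simp
    rwa [h2] at h1
  by_cases hwu : w ∈ Submodule.span F {u}
  · obtain ⟨z, rfl⟩ := Submodule.mem_span_singleton.1 hwu
    rw [smul_smul]
    exact RP.self hQu _
  by_cases hvw : polar Q v w = 0
  · obtain ⟨x, hx, hux, hvx, hwx⟩ : ∃ x ∈ L, polar Q u x = 0 ∧ polar Q v x = 1 ∧ polar Q w x ≠ 0 := by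
      by_cases hmem : w ∈ Submodule.span F ({u, v} : Set (ι → F))
      · obtain ⟨p, q, hpq⟩ := Submodule.mem_span_pair.1 hmem
        obtain ⟨x, hx, hvx, hTx⟩ := h.sep hv (T := {u}) (by intro t ht; rw [Set.mem_singleton_iff.1 ht]; exact hu) hvu
        have hux : polar Q u x = 0 := hTx u rfl
        refine ⟨x, hx, hux, hvx, ?_⟩
        rw [← hpq, QuadraticMap.polar_add_left, polar_smul_left, polar_smul_left, hux, hvx, mul_zero, zero_add, mul_one]
        rintro rfl
        apply hwu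
        rw [← hpq, zero_smul, add_zero]
        exact Submodule.smul_mem _ _ (Submodule.mem_span_singleton_self u)
      · have hmem' : v ∉ Submodule.span F ({u, w} : Set (ι → F)) := by
          intro hm
          obtain ⟨p, q, hpq⟩ := Submodule.mem_span_pair.1 hm
          have hq : q ≠ 0 := by
            rintro rfl
            apply hvu
            rw [← hpq, zero_smul, add_zero]
            exact Submodule.smul_mem _ _ (Submodule.mem_span_singleton_self u)
          apply hmem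
          rw [Submodule.mem_span_pair]
          refine ⟨-(q⁻¹ * p), q⁻¹, ?_⟩
          rw [← hpq, smul_add, smul_smul, smul_smul, inv_mul_cancel₀ hq]
          module
        obtain ⟨x₁, hx₁, hwx₁, hT₁⟩ := h.sep hw (T := {u, v}) (by
          intro t ht; rcases ht with rfl | rfl
          · exact hu
          · exact hv) hmem
        obtain ⟨x₂, hx₂, hvx₂, hT₂⟩ := h.sep hv (T := {u, w}) (by
          intro t ht; rcases ht with rfl | rfl
          · exact hu
          · exact hw) hmem'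
        refine ⟨x₁ + x₂, L.add_mem hx₁ hx₂, ?_, ?_, ?_⟩
        · rw [QuadraticMap.polar_add_right, hT₁ u (by simp), hT₂ u (by simp), add_zero]
        · rw [QuadraticMap.polar_add_right, hT₁ v (by simp), hvx₂, zero_add]
        · rw [QuadraticMap.polar_add_right, hwx₁, hT₂ w (by simp), add_zero]
          exact one_ne_zero
    have hv' : x - Q x • v ∈ L := L.sub_mem hx (h.smul_mem (h.q x hx) hv)
    have hQv' : Q (x - Q x • v) = 0 := by
      rw [Cfsg.Agent.H16.Quad.map_sub, Cfsg.Agent.H16.Quad.map_smul, polar_smul_right, hQv, polar_symm Q x, hvx]; ring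
    have huv' : polar Q u (x - Q x • v) = 0 := by
      rw [QuadraticMap.polar_sub_right, polar_smul_right, hux, huv]; ring
    have hvv' : polar Q v (x - Q x • v) ≠ 0 := by
      rw [QuadraticMap.polar_sub_right, polar_smul_right, hvx, polar_self, hQv]
      simp
    have hwv' : polar Q (x - Q x • v) w ≠ 0 := by
      rw [QuadraticMap.polar_sub_left, polar_smul_left, hvw, mul_zero, sub_zero, polar_symm]
      exact hwx
    exact direct _ hv' w hw hQw huw hwv' (direct v hv _ hv' hQv' huv' hvv' hr)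
  · exact direct v hv w hw hQw huw hvw hr

/-- the scalars -/
def PL (Q : QuadraticForm F (ι → F)) (G : Subgroup (GL ι F)) (L : Submodule F₀ (ι → F)) (l : F) : Prop :=
  ∀ u ∈ L, Q u = 0 → ∀ w ∈ L, Q w = 0 → polar Q u w = 0 → RP Q G u (l • w)

theorem zero_left {y : ι → F} : RP Q G 0 y := by
  refine ⟨QuadraticMap.polar_zero_left _ _, fun ha hy => ?_⟩
  have : eg ha hy = 1 := by
    apply Units.ext
    apply mat_ext
    intro x
    rw [eg_apply, Units.val_one, Matrix.one_mulVec, QuadraticMap.polar_zero_right]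
    module
  rw [this]
  exact G.one_mem

theorem PL_of (h : SG Q G F₀ L) {l : F} {u v : ι → F} (hu : u ∈ L) (hu0 : u ≠ 0) (hQu : Q u = 0) (hv : v ∈ L)
    (hQv : Q v = 0) (huv : polar Q u v = 0) (hvu : v ∉ Submodule.span F {u}) (hr : RP Q G u (l • v)) : PL Q G L l := by
  classical
  by_cases hl : l = 0
  · intro u _ _ w _ _ _
    rw [hl, zero_smul]
    exact RP.zero
  have c2 : ∀ u ∈ L, u ≠ 0 → Q u = 0 → (∀ w ∈ L, Q w = 0 → polar Q u w = 0 → RP Q G u (l • w)) →
      ∀ v ∈ L, Q v = 0 → polar Q u v = 0 → v ∉ Submodule.span F {u} →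
      (∀ w ∈ L, Q w = 0 → polar Q v w = 0 → RP Q G v (l • w)) := by
    intro u hu hu0 hQu hA v hv hQv huv hvu w hw hQw hvw
    have h1 := ((hA v hv hQv huv).symm hQu).resc hl
    refine h.c1 hv hQv hu hQu (by rw [polar_symm]; exact huv) ?_ h1 hw hQw hvw
    intro hmem
    obtain ⟨z, hz⟩ := Submodule.mem_span_singleton.1 hmem
    have hz0 : z ≠ 0 := by rintro rfl; rw [zero_smul] at hz; exact hu0 hz.symm
    apply hvu
    rw [Submodule.mem_span_singleton]
    exact ⟨z⁻¹, by rw [← hz, smul_smul, inv_mul_cancel₀ hz0, one_smul]⟩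
  have hA : ∀ w ∈ L, Q w = 0 → polar Q u w = 0 → RP Q G u (l • w) := fun w hw hQw huw =>
    h.c1 hu hQu hv hQv huv hvu hr hw hQw huw
  intro u₁ hu₁ hQu₁ w hw hQw huw
  by_cases hu₁0 : u₁ = 0
  · rw [hu₁0]; exact zero_left
  obtain ⟨e, he, f, hf, hQe, hQf, hef, hTe, hTf⟩ := h.hyp {u, u₁} (by
    intro t ht
    simp only [Finset.mem_insert, Finset.mem_singleton] at ht
    rcases ht with rfl | rfl
    · exact hu
    · exact hu₁) (by
    have : ({u, u₁} : Finset (ι → F)).card ≤ 2 := Finset.card_le_two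
    have := h.big
    omega)
  have he0 : e ≠ 0 := by
    rintro rfl
    rw [QuadraticMap.polar_zero_left] at hef
    exact zero_ne_one hef
  have hnot : ∀ z, polar Q z f = 0 → e ∉ Submodule.span F {z} := by
    intro z hz hmem
    obtain ⟨p, hp⟩ := Submodule.mem_span_singleton.1 hmem
    rw [← hp, polar_smul_left, hz, mul_zero] at hef
    exact zero_ne_one hef
  have hnot' : u₁ ∉ Submodule.span F {e} := by
    intro hmem
    obtain ⟨p, hp⟩ := Submodule.mem_span_singleton.1 hmem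
    have h1 : polar Q u₁ f = 0 := hTf u₁ (by simp)
    rw [← hp, polar_smul_left, hef, mul_one] at h1
    rw [h1, zero_smul] at hp
    exact hu₁0 hp.symm
  have h1 := c2 u hu hu0 hQu hA e he hQe (hTe u (by simp)) (hnot u (hTf u (by simp)))
  exact c2 e he he0 hQe h1 u₁ hu₁ hQu₁ (by rw [polar_symm]; exact hTe u₁ (by simp)) hnot' w hw hQw huw

/-- hyperbolic configuration -/
theorem conf (h : SG Q G F₀ L) : ∃ e₁ ∈ L, ∃ f₁ ∈ L, ∃ e₂ ∈ L, ∃ f₂ ∈ L, ∃ e₃ ∈ L, ∃ f₃ ∈ L,
    (Q e₁ = 0 ∧ Q f₁ = 0 ∧ polar Q e₁ f₁ = 1) ∧ (Q e₂ = 0 ∧ Q f₂ = 0 ∧ polar Q e₂ f₂ = 1) ∧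
    (Q e₃ = 0 ∧ Q f₃ = 0 ∧ polar Q e₃ f₃ = 1) ∧ (polar Q e₁ e₂ = 0 ∧ polar Q f₁ e₂ = 0 ∧ polar Q e₁ f₂ = 0 ∧
    polar Q f₁ f₂ = 0) ∧ (polar Q e₁ e₃ = 0 ∧ polar Q e₂ e₃ = 0 ∧ polar Q f₂ e₃ = 0) ∧
    (polar Q e₁ f₃ = 0 ∧ polar Q e₂ f₃ = 0 ∧ polar Q f₂ f₃ = 0) := by
  classical
  have hbig := h.big
  obtain ⟨e₁, he₁, f₁, hf₁, a1, a2, a3, -, -⟩ := h.hyp ∅ (by simp) (by rw [Finset.card_empty]; omega)
  obtain ⟨e₂, he₂, f₂, hf₂, b1, b2, b3, b4, b5⟩ := h.hyp {e₁, f₁} (by
    intro t ht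
    simp only [Finset.mem_insert, Finset.mem_singleton] at ht
    rcases ht with rfl | rfl
    · exact he₁
    · exact hf₁) (by
    have : ({e₁, f₁} : Finset (ι → F)).card ≤ 2 := Finset.card_le_two
    omega)
  obtain ⟨e₃, he₃, f₃, hf₃, c1, c2, c3, c4, c5⟩ := h.hyp {e₁, e₂, f₂} (by
    intro t ht
    simp only [Finset.mem_insert, Finset.mem_singleton] at ht
    rcases ht with rfl | rfl | rfl
    · exact he₁
    · exact he₂
    · exact hf₂) (by
    have : ({e₁, e₂, f₂} : Finset (ι → F)).card ≤ 3 := Finset.card_le_three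
    omega)
  exact ⟨e₁, he₁, f₁, hf₁, e₂, he₂, f₂, hf₂, e₃, he₃, f₃, hf₃, ⟨a1, a2, a3⟩, ⟨b1, b2, b3⟩, ⟨c1, c2, c3⟩,
    ⟨b4 e₁ (by simp), b4 f₁ (by simp), b5 e₁ (by simp), b5 f₁ (by simp)⟩,
    ⟨c4 e₁ (by simp), c4 e₂ (by simp), c4 f₂ (by simp)⟩, ⟨c5 e₁ (by simp), c5 e₂ (by simp), c5 f₂ (by simp)⟩⟩

theorem PL_mul (h : SG Q G F₀ L) {l m : F} (hl : PL Q G L l) (hm : PL Q G L m) : PL Q G L (l * m) := by
  obtain ⟨e₁, he₁, f₁, hf₁, e₂, he₂, f₂, hf₂, e₃, he₃, f₃, hf₃, ⟨a1, a2, a3⟩, ⟨b1, b2, b3⟩, ⟨c1, c2, c3⟩,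
    ⟨d1, d2, d3, d4⟩, ⟨g1, g2, g3⟩, ⟨k1, k2, k3⟩⟩ := h.conf
  have he₁0 : e₁ ≠ 0 := by
    rintro rfl
    rw [QuadraticMap.polar_zero_left] at a3
    exact zero_ne_one a3
  have hnot : e₃ ∉ Submodule.span F {e₁} := by
    intro hmem
    obtain ⟨p, hp⟩ := Submodule.mem_span_singleton.1 hmem
    rw [← hp, polar_smul_left, k1, mul_zero] at c3
    exact zero_ne_one c3
  apply h.PL_of he₁ he₁0 a1 he₃ c1 g1 hnot
  have r1 := hl e₁ he₁ a1 e₂ he₂ b1 d1
  obtain ⟨q1, q2⟩ := hm f₂ hf₂ b2 e₃ he₃ c1 g3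
  have hg := q2 b2 q1
  have r2 := r1.conj hg (h.iso hg)
  have e5 : polar Q e₁ (m • e₃) = 0 := by rw [polar_smul_right, g1, mul_zero]
  rw [eg_fix _ _ d3 e5, eg_apply] at r2
  have r3 := r2.sub r1
  rw [polar_smul_left, polar_smul_left, polar_smul_right, b3, g2, Cfsg.Agent.H16.Quad.map_smul, c1] at r3
  convert r3 using 1
  module

theorem PL_F0 (h : SG Q G F₀ L) {l : F} (hl : l ∈ F₀) : PL Q G L l := fun u hu hQu w hw _ huw =>
  h.rm u hu hQu _ (h.smul_mem hl hw) (by rw [polar_smul_right, huw, mul_zero])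

theorem PL_add {l m : F} (hl : PL Q G L l) (hm : PL Q G L m) : PL Q G L (l + m) := fun u hu hQu w hw hQw huw => by
  rw [add_smul]
  exact (hl u hu hQu w hw hQw huw).add (hm u hu hQu w hw hQw huw)

/-- (f) -/
theorem top (h : SG Q G F₀ L) (hPL : ∀ l, PL Q G L l) : omegaGL ⇑Q ≤ G := by
  have hbig := h.big
  have hSC : ∀ u ∈ L, ∀ u' ∈ L, Q u = 0 → polar Q u u' = 1 → SC Q G u := by
    intro u hu u' hu' hQu huu'
    refine ⟨hQu, fun hu1 y hy => ?_⟩
    have hy' : y ∈ Submodule.span F (L : Set (ι → F)) := by rw [h.span]; trivial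
    have key : ∀ y ∈ Submodule.span F (L : Set (ι → F)), ∀ c : F, RP Q G u (c • (y - polar Q u y • u')) := by
      intro y hy
      induction hy using Submodule.span_induction with
      | mem y hy =>
        intro c
        have hx : y - polar Q u y • u' ∈ L := L.sub_mem hy (h.smul_mem (h.pol hu hy) hu')
        obtain ⟨e, he, f, hf, p, hp, q1, q2, q3, q4, q5, q6, q7⟩ := h.sing_dec hu hx (by
          rw [QuadraticMap.polar_sub_right, polar_smul_right, huu', mul_one, sub_self])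
        have r1 := ((hPL c u hu hQu p hp q3 q6).sub (hPL c u hu hQu e he q1 q4)).add
          (hPL (c * Q (y - polar Q u y • u')) u hu hQu f hf q2 q5)
        convert r1 using 1
        calc c • (y - polar Q u y • u') = c • (p - e + Q (y - polar Q u y • u') • f) := by rw [← q7]
          _ = _ := by module
      | zero =>
        intro c
        rw [QuadraticMap.polar_zero_right, zero_smul, sub_zero, smul_zero]
        exact RP.zero
      | add a b _ _ ha hb =>
        intro c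
        have r1 := (ha c).add (hb c)
        rw [QuadraticMap.polar_add_right]
        convert r1 using 1
        module
      | smul a x _ hx =>
        intro c
        have r1 := hx (c * a)
        rw [polar_smul_right]
        convert r1 using 1
        module
    have r1 := key y hy' 1
    rw [hy, zero_smul, sub_zero, one_smul] at r1
    exact r1.2 hu1 hy
  obtain ⟨e₁, he₁, f₁, hf₁, e₂, he₂, f₂, hf₂, e₃, he₃, f₃, hf₃, ⟨a1, a2, a3⟩, ⟨b1, b2, b3⟩, ⟨c1, c2, c3⟩,
    ⟨d1, d2, d3, d4⟩, ⟨g1, g2, g3⟩, ⟨k1, k2, k3⟩⟩ := h.conf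
  exact SC.all h.nd (by omega) (hSC e₁ he₁ f₁ hf₁ a1 a3) (hSC f₁ hf₁ e₁ he₁ a2 (by rw [polar_symm]; exact a3))
    (by rw [a3]; exact one_ne_zero)

/-- the dichotomy -/
theorem dich (h : SG Q G F₀ L) (hr : (finrank F₀ F).Prime)
    (hex : ∃ u ∈ L, u ≠ 0 ∧ Q u = 0 ∧ ∃ y, RP Q G u y ∧ ∀ s : F, y - s • u ∉ L) : omegaGL ⇑Q ≤ G := by
  obtain ⟨u, hu, hu0, hQu, y, hy, hyL⟩ := hex
  -- a non-rational value
  obtain ⟨v, hv, hQv, huv, hl⟩ : ∃ v ∈ L, Q v = 0 ∧ polar Q u v = 0 ∧ polar Q y v ∉ F₀ := by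
    by_contra hcon
    push Not at hcon
    obtain ⟨v, hv, s, hs⟩ := h.rat1 hu hu0 (x := y) (c := 1) (by
      intro x hx hux
      refine ⟨polar Q y x, ?_, by rw [mul_one]⟩
      obtain ⟨e, he, f, hf, p, hp, q1, q2, q3, q4, q5, q6, q7⟩ := h.sing_dec hu hx hux
      have e1 : polar Q y x = polar Q y p - polar Q y e + Q x * polar Q y f := by
        calc polar Q y x = polar Q y (p - e + Q x • f) := by rw [← q7]
          _ = _ := by rw [QuadraticMap.polar_add_right, QuadraticMap.polar_sub_right, polar_smul_right]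
      rw [e1]
      exact F₀.add_mem (F₀.sub_mem (hcon p hp q3 q6) (hcon e he q1 q4)) (F₀.mul_mem (h.q x hx) (hcon f hf q2 q5)))
    apply hyL s
    rw [hs, one_smul, add_sub_cancel_right]
    exact hv
  have hvu : v ∉ Submodule.span F {u} := by
    intro hmem
    obtain ⟨p, hp⟩ := Submodule.mem_span_singleton.1 hmem
    apply hl
    rw [← hp, polar_smul_right, polar_symm, hy.1, mul_zero]
    exact F₀.zero_mem
  have hPL : PL Q G L (polar Q y v) := by
    apply h.PL_of hu hu0 hQu hv hQv huv hvu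
    have h1 := h.fa hu hv hQv huv hy F₀.one_mem
    rwa [one_mul] at h1
  -- the ring of scalars
  let Λ : Subalgebra F₀ F :=
    { carrier := {l | PL Q G L l}
      mul_mem' := fun ha hb => h.PL_mul ha hb
      add_mem' := fun ha hb => PL_add ha hb
      algebraMap_mem' := fun r => h.PL_F0 r.2 }
  haveI := Subalgebra.isSimpleOrder_of_finrank_prime F₀ F hr
  rcases eq_bot_or_eq_top Λ with h1 | h1
  · exfalso
    apply hl
    have h2 : polar Q y v ∈ Λ := hPL
    rw [h1, Algebra.mem_bot] at h2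
    obtain ⟨r, hr⟩ := h2
    rw [← hr]
    exact r.2
  · apply h.top
    intro l
    have h2 : l ∈ Λ := by rw [h1]; trivial
    exact h2

end SG

end Cfsg.Agent.H29.Sg
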