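import Mathlib
import Cfsg.Agent.H29_Sg15

set_option autoImplicit false

/-! Subfield groups in `Ω`: rationality. -/

namespace Cfsg.Agent.H29.Sg

open Matrix Module Cfsg.Geo Cfsg.Agent.H16.Quad Cfsg.Agent.H29.Trv
open QuadraticMap (polar)

variable {F : Type*} [Field F] {ι : Type} [Fintype ι] [DecidableEq ι]
variable {Q : QuadraticForm F (ι → F)} {F₀ : Subfield F} {L M : Submodule F₀ (ι → F)} {G : Subgroup (GL ι F)}

/-- a group whose root groups at the points of `L` are exactly the rational ones -/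
structure SF (Q : QuadraticForm F (ι → F)) (G : Subgroup (GL ι F)) (F₀ : Subfield F) (L : Submodule F₀ (ι → F)) : Prop
    extends SG Q G F₀ L where
  sm : ∀ u ∈ L, u ≠ 0 → Q u = 0 → ∀ y, RP Q G u y → ∃ s : F, y - s • u ∈ L

/-- action of a matrix, over the subfield -/
noncomputable def gL (F₀ : Subfield F) (g : GL ι F) : (ι → F) →ₗ[F₀] (ι → F) :=
  (Matrix.toLin' (g : Matrix ι ι F)).restrictScalars F₀

theorem gL_apply (g : GL ι F) (x : ι → F) : gL F₀ g x = (g : Matrix ι ι F) *ᵥ x := rfl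

theorem gL_inj (g : GL ι F) : Function.Injective (gL F₀ g) := by
  intro x y h
  rw [gL_apply, gL_apply] at h
  calc x = (((g⁻¹ : GL ι F) : Matrix ι ι F) * (g : Matrix ι ι F)) *ᵥ x := by
        rw [← Units.val_mul, inv_mul_cancel, Units.val_one, Matrix.one_mulVec]
    _ = (((g⁻¹ : GL ι F) : Matrix ι ι F) * (g : Matrix ι ι F)) *ᵥ y := by
        rw [← Matrix.mulVec_mulVec, h, Matrix.mulVec_mulVec]
    _ = y := by rw [← Units.val_mul, inv_mul_cancel, Units.val_one, Matrix.one_mulVec]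

theorem pol_iso {g : GL ι F} (hg : ∀ x, Q ((g : Matrix ι ι F) *ᵥ x) = Q x) (x y : ι → F) :
    polar Q ((g : Matrix ι ι F) *ᵥ x) ((g : Matrix ι ι F) *ᵥ y) = polar Q x y := by
  rw [QuadraticMap.polar, ← Matrix.mulVec_add, hg, hg, hg, QuadraticMap.polar]

theorem LT.map (h : LT Q F₀ L) {g : GL ι F} (hg : ∀ x, Q ((g : Matrix ι ι F) *ᵥ x) = Q x) : LT Q F₀ (L.map (gL F₀ g)) where
  nd := h.nd
  q := by
    rintro _ ⟨x, hx, rfl⟩
    rw [gL_apply, hg]
    exact h.q x hx
  span := by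
    rw [Submodule.eq_top_iff']
    intro x
    have h1 : ((g⁻¹ : GL ι F) : Matrix ι ι F) *ᵥ x ∈ Submodule.span F (L : Set (ι → F)) := by rw [h.span]; trivial
    have h2 : x = (g : Matrix ι ι F) *ᵥ (((g⁻¹ : GL ι F) : Matrix ι ι F) *ᵥ x) := by
      rw [Matrix.mulVec_mulVec, ← Units.val_mul, mul_inv_cancel, Units.val_one, Matrix.one_mulVec]
    rw [h2]
    generalize ((g⁻¹ : GL ι F) : Matrix ι ι F) *ᵥ x = z at h1
    induction h1 using Submodule.span_induction with
    | mem z hz => exact Submodule.subset_span ⟨z, hz, rfl⟩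
    | zero => rw [Matrix.mulVec_zero]; exact Submodule.zero_mem _
    | add a b _ _ ha hb => rw [Matrix.mulVec_add]; exact Submodule.add_mem _ ha hb
    | smul c a _ ha => rw [Matrix.mulVec_smul]; exact Submodule.smul_mem _ _ ha
  fr := by
    rw [← h.fr]
    exact (LinearEquiv.finrank_eq (Submodule.equivMapOfInjective _ (gL_inj g) L)).symm

namespace SF

variable [Finite F]

theorem map (h : SF Q G F₀ L) {g : GL ι F} (hg : g ∈ G) : SF Q G F₀ (L.map (gL F₀ g)) where
  toLT := h.toLT.map (h.iso hg)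
  om := h.om
  big := h.big
  rm := by
    rintro _ ⟨u, hu, rfl⟩ hQu _ ⟨y, hy, rfl⟩ huy
    rw [gL_apply] at hQu huy ⊢
    rw [gL_apply] at huy ⊢
    rw [h.iso hg] at hQu
    rw [pol_iso (h.iso hg)] at huy
    exact (h.rm u hu hQu y hy huy).conj hg (h.iso hg)
  sm := by
    rintro _ ⟨u, hu, rfl⟩ hu0 hQu y hy
    rw [gL_apply] at hu0 hQu hy ⊢
    rw [h.iso hg] at hQu
    have h1 := hy.conj (G.inv_mem hg) (h.iso (G.inv_mem hg))
    rw [Matrix.mulVec_mulVec, ← Units.val_mul, inv_mul_cancel, Units.val_one, Matrix.one_mulVec] at h1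
    obtain ⟨s, hs⟩ := h.sm u hu (by rintro rfl; exact hu0 (Matrix.mulVec_zero _)) hQu _ h1
    refine ⟨s, _, hs, ?_⟩
    rw [gL_apply, Matrix.mulVec_sub, Matrix.mulVec_mulVec, ← Units.val_mul, mul_inv_cancel, Units.val_one,
      Matrix.one_mulVec, Matrix.mulVec_smul]

open Cfsg.Agent.H5.SL2 in
/-- the action on a line -/
noncomputable def lineT (G : Subgroup (GL ι F)) (a b : ι → F) : Subgroup (S F) where
  carrier := {s | ∃ g ∈ G, (g : Matrix ι ι F) *ᵥ a = s.1 0 0 • a + s.1 1 0 • b ∧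
    (g : Matrix ι ι F) *ᵥ b = s.1 0 1 • a + s.1 1 1 • b}
  one_mem' := ⟨1, G.one_mem, by
    rw [Units.val_one, Matrix.one_mulVec, Matrix.one_mulVec, one00, one10, one01, one11]
    exact ⟨by module, by module⟩⟩
  mul_mem' := by
    rintro s t ⟨g, hg, g1, g2⟩ ⟨g', hg', g1', g2'⟩
    refine ⟨g * g', G.mul_mem hg hg', ?_, ?_⟩
    · rw [Units.val_mul, ← Matrix.mulVec_mulVec, g1', Matrix.mulVec_add, Matrix.mulVec_smul, Matrix.mulVec_smul, g1, g2,
        mul00, mul10]
      module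
    · rw [Units.val_mul, ← Matrix.mulVec_mulVec, g2', Matrix.mulVec_add, Matrix.mulVec_smul, Matrix.mulVec_smul, g1, g2,
        mul01, mul11]
      module
  inv_mem' := by
    rintro s ⟨g, hg, g1, g2⟩
    have hd := det_eq s
    have hgi : ∀ x, ((g⁻¹ : GL ι F) : Matrix ι ι F) *ᵥ ((g : Matrix ι ι F) *ᵥ x) = x := by
      intro x
      rw [Matrix.mulVec_mulVec, ← Units.val_mul, inv_mul_cancel, Units.val_one, Matrix.one_mulVec]
    refine ⟨g⁻¹, G.inv_mem hg, ?_, ?_⟩
    · have h1 : a = (g : Matrix ι ι F) *ᵥ ((s⁻¹).1 0 0 • a + (s⁻¹).1 1 0 • b) := by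
        rw [Matrix.mulVec_add, Matrix.mulVec_smul, Matrix.mulVec_smul, g1, g2, inv00, inv10]
        have : s.1 1 1 • (s.1 0 0 • a + s.1 1 0 • b) + -s.1 1 0 • (s.1 0 1 • a + s.1 1 1 • b) =
          (s.1 0 0 * s.1 1 1 - s.1 0 1 * s.1 1 0) • a := by module
        rw [this, hd, one_smul]
      calc _ = ((g⁻¹ : GL ι F) : Matrix ι ι F) *ᵥ ((g : Matrix ι ι F) *ᵥ ((s⁻¹).1 0 0 • a + (s⁻¹).1 1 0 • b)) := by
            rw [← h1]
        _ = _ := hgi _
    · have h1 : b = (g : Matrix ι ι F) *ᵥ ((s⁻¹).1 0 1 • a + (s⁻¹).1 1 1 • b) := by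
        rw [Matrix.mulVec_add, Matrix.mulVec_smul, Matrix.mulVec_smul, g1, g2, inv01, inv11]
        have : -s.1 0 1 • (s.1 0 0 • a + s.1 1 0 • b) + s.1 0 0 • (s.1 0 1 • a + s.1 1 1 • b) =
          (s.1 0 0 * s.1 1 1 - s.1 0 1 * s.1 1 0) • b := by module
        rw [this, hd, one_smul]
      calc _ = ((g⁻¹ : GL ι F) : Matrix ι ι F) *ᵥ ((g : Matrix ι ι F) *ᵥ ((s⁻¹).1 0 1 • a + (s⁻¹).1 1 1 • b)) := by
            rw [← h1]
        _ = _ := hgi _

open Cfsg.Agent.H5.SL2 in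
/-- the Dickson step -/
theorem rk1 (hL : SF Q G F₀ L) (hM : SF Q G F₀ M) {a b : ι → F} (ha : a ∈ L) (ha0 : a ≠ 0) (hQa : Q a = 0) (hb : b ∈ M)
    (hb0 : b ≠ 0) (hQb : Q b = 0) (hab : polar Q a b = 0) (hba : b ∉ Submodule.span F {a}) :
    ∃ c : F, ∀ y ∈ L, polar Q a y = 0 → ∃ s ∈ F₀, polar Q b y = s * c := by
  classical
  haveI : Fintype F := Fintype.ofFinite F
  by_contra hcon
  push Not at hcon
  obtain ⟨y₁, hy₁, hay₁, hx₁⟩ := hcon 0
  have hx1 : polar Q b y₁ ≠ 0 := by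
    have := hx₁ 0 F₀.zero_mem
    rwa [mul_zero] at this
  obtain ⟨y₂, hy₂, hay₂, hx₂⟩ := hcon (polar Q b y₁)
  have hbig := hL.big
  have hab' : a ∉ Submodule.span F {b} := by
    intro hmem
    obtain ⟨z, hz⟩ := Submodule.mem_span_singleton.1 hmem
    have hz0 : z ≠ 0 := by rintro rfl; rw [zero_smul] at hz; exact ha0 hz.symm
    apply hba
    rw [Submodule.mem_span_singleton]
    exact ⟨z⁻¹, by rw [← hz, smul_smul, inv_mul_cancel₀ hz0, one_smul]⟩
  -- an element of the root group of `b` moving `a`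
  obtain ⟨t, ht, hbt, hat⟩ : ∃ t ∈ M, polar Q b t = 0 ∧ polar Q a t ≠ 0 := by
    by_contra hcon
    push Not at hcon
    obtain ⟨v, hv, s, hs⟩ := hM.rat1 hb hb0 (x := a) (c := 0) (fun y hy hby => ⟨0, F₀.zero_mem, by
      rw [hcon y hy hby, mul_zero]⟩)
    apply hab'
    rw [hs, zero_smul, zero_add]
    exact Submodule.smul_mem _ _ (Submodule.mem_span_singleton_self b)
  have hba0 : polar Q b a = 0 := by rw [polar_symm]; exact hab
  refine Cfsg.Agent.H29.SgD.dickson_line F₀ (lineT G a b) ?_ (c := - polar Q a t) (neg_ne_zero.2 hat) ?_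
    (x1 := polar Q b y₁) (x2 := polar Q b y₂) ?_ ?_
  · -- upper triangular elements
    rintro s ⟨g, hg, g1, -⟩ hs
    rw [hs, zero_smul, add_zero] at g1
    obtain ⟨e, he, f, hf, hQe, hQf, hef, hTe, hTf⟩ := hL.hyp {a} (by
      intro t ht; rw [Finset.mem_singleton.1 ht]; exact ha) (by rw [Finset.card_singleton]; omega)
    have hae : polar Q a e = 0 := hTe a (by simp)
    have haf : polar Q a f = 0 := hTf a (by simp)
    have hy : polar Q a (e + f) = 0 := by rw [QuadraticMap.polar_add_right, hae, haf, add_zero]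
    have hQy : Q (e + f) = 1 := by rw [Cfsg.Agent.H16.Quad.map_add, hQe, hQf, hef]; ring
    have h1 := (hL.rm a ha hQa (e + f) (L.add_mem he hf) hy).conj hg (hL.iso hg)
    rw [g1] at h1
    have hs0 : s.1 0 0 ≠ 0 := by
      have hd := det_eq s
      rw [hs, mul_zero, sub_zero] at hd
      exact left_ne_zero_of_mul_eq_one hd
    obtain ⟨z, hz⟩ := hL.sm a ha ha0 hQa _ (h1.resc hs0)
    have h2 := hL.q _ hz
    have h3 : polar Q ((g : Matrix ι ι F) *ᵥ (e + f)) a = 0 := by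
      have h4 := pol_iso (hL.iso hg) (e + f) a
      rw [g1, polar_smul_right, polar_symm Q (e + f), hy] at h4
      exact (mul_eq_zero.1 h4).resolve_left hs0
    rw [Cfsg.Agent.H16.Quad.map_sub, Cfsg.Agent.H16.Quad.map_smul, Cfsg.Agent.H16.Quad.map_smul, polar_smul_right,
      polar_smul_left, h3, hL.iso hg, hQy, hQa] at h2
    have h4 : s.1 0 0 * s.1 0 0 * 1 + z * z * 0 - z * (s.1 0 0 * 0) = (s.1 0 0) ^ 2 := by ring
    rwa [h4] at h2
  · obtain ⟨q1, q2⟩ := hM.rm b hb hQb t ht hbt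
    refine ⟨eg hQb q1, q2 hQb q1, ?_, ?_⟩
    · rw [eg_apply, hab, l00, l10]
      module
    · rw [eg_fix _ _ (by rw [polar_self, hQb, mul_zero]) hbt, l01, l11]
      module
  · intro s hs r hr hsr
    have hr0 : r = 0 := by
      by_contra hr0
      apply hx₂ (-(r⁻¹ * s)) (F₀.neg_mem (F₀.mul_mem (F₀.inv_mem hr) hs))
      have h5 : r⁻¹ * (s * polar Q b y₁ + r * polar Q b y₂) = 0 := by rw [hsr, mul_zero]
      have h6 : r⁻¹ * (s * polar Q b y₁ + r * polar Q b y₂) = r⁻¹ * s * polar Q b y₁ + polar Q b y₂ := by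
        field_simp
      linear_combination h5 - h6
    subst hr0
    rw [zero_mul, add_zero] at hsr
    exact ⟨(mul_eq_zero.1 hsr).resolve_right hx1, rfl⟩
  · intro s hs r hr
    have hy : -(s • y₁ + r • y₂) ∈ L := L.neg_mem (L.add_mem (hL.smul_mem hs hy₁) (hL.smul_mem hr hy₂))
    have hay : polar Q a (-(s • y₁ + r • y₂)) = 0 := by
      rw [QuadraticMap.polar_neg_right, QuadraticMap.polar_add_right, polar_smul_right, polar_smul_right, hay₁, hay₂]
      ring
    obtain ⟨q1, q2⟩ := hL.rm a ha hQa _ hy hay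
    refine ⟨eg hQa q1, q2 hQa q1, ?_, ?_⟩
    · rw [eg_fix _ _ (by rw [polar_self, hQa, mul_zero]) hay, u00, u10]
      module
    · rw [eg_apply, hba0, u01, u11, QuadraticMap.polar_neg_right, QuadraticMap.polar_add_right, polar_smul_right,
        polar_smul_right]
      module

/-- orthogonal centres are rational relative to each other -/
theorem orr (hL : SF Q G F₀ L) (hM : SF Q G F₀ M) {a b : ι → F} (ha : a ∈ L) (ha0 : a ≠ 0) (hQa : Q a = 0) (hb : b ∈ M)
    (hQb : Q b = 0) (hab : polar Q a b = 0) : ∃ c : F, ∃ v ∈ L, ∃ s : F, b = c • v + s • a := by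
  by_cases hba : b ∈ Submodule.span F {a}
  · obtain ⟨z, hz⟩ := Submodule.mem_span_singleton.1 hba
    exact ⟨0, 0, L.zero_mem, z, by rw [hz]; module⟩
  have hb0 : b ≠ 0 := by rintro rfl; exact hba (Submodule.zero_mem _)
  obtain ⟨c, hc⟩ := hL.rk1 hM ha ha0 hQa hb hb0 hQb hab hba
  obtain ⟨v, hv, s, hs⟩ := hL.rat1 ha ha0 hc
  exact ⟨c, v, hv, s, hs⟩

/-- opposite centres -/
theorem opp (hL : SF Q G F₀ L) (hM : SF Q G F₀ M) {a b : ι → F} (ha : a ∈ L) (hQa : Q a = 0) (hb : b ∈ M)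
    (hb0 : b ≠ 0) (hQb : Q b = 0) (hab : polar Q b a ≠ 0) : ∃ l : F, l ≠ 0 ∧ ∀ y ∈ L, polar Q a y = 0 →
      ∃ v ∈ M, ∃ s : F, y - ((polar Q b a)⁻¹ * polar Q b y) • a = l • v + s • b := by
  let τ : (ι → F) →ₗ[F] (ι → F) := LinearMap.id -
    (LinearMap.toSpanSingleton F (ι → F) a).comp ((polar Q b a)⁻¹ • (QuadraticMap.polarBilin Q b))
  have hτ : ∀ x, τ x = x - ((polar Q b a)⁻¹ * polar Q b x) • a := fun x => rfl
  have haa : polar Q a a = 0 := by rw [polar_self, hQa, mul_zero]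
  obtain ⟨l, hl0, hl⟩ := unif hL.toLT hM.toLT hL.big ha hb τ (by
    intro x hax hx
    obtain ⟨s, hs⟩ := Submodule.mem_span_singleton.1 hx
    rw [hτ] at hs
    have h1 := congrArg (fun z => polar Q z a) hs
    simp only [QuadraticMap.polar_sub_left, polar_smul_left, haa, polar_symm Q x a, hax] at h1
    have hs0 : s = 0 := by
      have : s * polar Q b a = 0 := by linear_combination h1
      exact (mul_eq_zero.1 this).resolve_right hab
    rw [hs0, zero_smul, eq_comm, sub_eq_zero] at hs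
    rw [hs]
    exact Submodule.smul_mem _ _ (Submodule.mem_span_singleton_self a)) (by
    rw [hτ, inv_mul_cancel₀ hab, one_smul, sub_self]
    exact Submodule.zero_mem _) (by
    intro y hy hay hQy
    obtain ⟨q1, q2⟩ := hL.rm a ha hQa y hy hay
    have hg := q2 hQa q1
    have hbp : polar Q b ((eg hQa q1 : Matrix ι ι F) *ᵥ b) = 0 := by
      rw [eg_apply, QuadraticMap.polar_sub_right, QuadraticMap.polar_sub_right, QuadraticMap.polar_add_right,
        polar_smul_right, polar_smul_right, polar_smul_right, polar_self, hQb, hQy]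
      ring
    obtain ⟨c, v, hv, s, hs⟩ := hM.orr (hM.map hg) hb hb0 hQb (b := (eg hQa q1 : Matrix ι ι F) *ᵥ b) ⟨b, hb, rfl⟩
      (by rw [hL.iso hg, hQb]) hbp
    rw [eg_apply, hQy] at hs
    refine ⟨(polar Q b a)⁻¹ * c, v, hv, (polar Q b a)⁻¹ * (s - 1), ?_⟩
    rw [hτ]
    have h1 : polar Q b a • y - polar Q b y • a = c • v + (s - 1) • b := by
      have h2 : polar Q b a • y - polar Q b y • a = (b + polar Q b a • y - polar Q b y • a - (0 * polar Q b a) • a) - b := by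
        module
      rw [h2, hs]
      module
    calc y - ((polar Q b a)⁻¹ * polar Q b y) • a = (polar Q b a)⁻¹ • (polar Q b a • y - polar Q b y • a) := by
          rw [smul_sub, smul_smul, smul_smul, inv_mul_cancel₀ hab, one_smul]
      _ = _ := by rw [h1]; module)
  exact ⟨l, hl0, fun y hy hay => hl y hy hay⟩

end SF

end Cfsg.Agent.H29.Sg
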