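import Mathlib
import Cfsg.Agent.H29_Sg16

set_option autoImplicit false

/-! Subfield groups in `Ω`: maximality. -/

namespace Cfsg.Agent.H29.Sg

open Matrix Module Cfsg.Geo Cfsg.Agent.H16.Quad Cfsg.Agent.H29.Trv
open QuadraticMap (polar)

variable {F : Type*} [Field F] {ι : Type} [Fintype ι] [DecidableEq ι]
variable {Q : QuadraticForm F (ι → F)} {F₀ : Subfield F} {L M : Submodule F₀ (ι → F)} {G : Subgroup (GL ι F)}

namespace SF

variable [Finite F]

/-- bounded rank -/
theorem rk3 (hL : SF Q G F₀ L) (hM : SF Q G F₀ M) {b : ι → F} (hb : b ∈ M) (hb0 : b ≠ 0) (hQb : Q b = 0) :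
    ∃ v ∈ L, ∃ a ∈ L, ∃ a' ∈ L, ∃ c s s' : F, b = c • v + s • a + s' • a' := by
  classical
  have hbig := hL.big
  -- a singular vector of `L` not orthogonal to `b`
  obtain ⟨a, ha, hQa, hba⟩ : ∃ a ∈ L, Q a = 0 ∧ polar Q b a ≠ 0 := by
    by_contra hcon
    push Not at hcon
    apply hb0
    apply hL.eq_zero
    intro y hy
    obtain ⟨e, he, f, hf, p, hp, q1, q2, q3, -, -, -, q7⟩ := hL.sing_dec L.zero_mem hy (QuadraticMap.polar_zero_left _ _)
    calc polar Q b y = polar Q b (p - e + Q y • f) := by rw [← q7]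
      _ = 0 := by
        rw [QuadraticMap.polar_add_right, QuadraticMap.polar_sub_right, polar_smul_right, hcon p hp q3, hcon e he q1,
          hcon f hf q2]
        ring
  have ha0 : a ≠ 0 := by rintro rfl; exact hba (QuadraticMap.polar_zero_right _ _)
  obtain ⟨a', ha', hQa', haa', ha'a, hba'⟩ : ∃ a' ∈ L, Q a' = 0 ∧ polar Q a a' = 0 ∧ a' ∉ Submodule.span F {a} ∧
      polar Q b a' ≠ 0 := by
    obtain ⟨e, he, f, hf, hQe, hQf, hef, hTe, hTf⟩ := hL.hyp {a} (by
      intro t ht; rw [Finset.mem_singleton.1 ht]; exact ha) (by rw [Finset.card_singleton]; omega)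
    have hae : polar Q a e = 0 := hTe a (by simp)
    have haf : polar Q a f = 0 := hTf a (by simp)
    have hea : e ∉ Submodule.span F {a} := by
      intro hmem
      obtain ⟨w, hw⟩ := Submodule.mem_span_singleton.1 hmem
      rw [← hw, polar_smul_left, haf, mul_zero] at hef
      exact zero_ne_one hef
    by_cases hbe : polar Q b e = 0
    · refine ⟨a + e, L.add_mem ha he, ?_, ?_, ?_, ?_⟩
      · rw [Cfsg.Agent.H16.Quad.map_add, hQa, hQe, hae]; ring
      · rw [QuadraticMap.polar_add_right, hae, polar_self, hQa]; ring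
      · intro hmem
        apply hea
        have := Submodule.sub_mem _ hmem (Submodule.mem_span_singleton_self a)
        rwa [add_sub_cancel_left] at this
      · rw [QuadraticMap.polar_add_right, hbe, add_zero]; exact hba
    · exact ⟨e, he, hQe, hae, hea, hbe⟩
  have haa'' : a ∉ Submodule.span F {a'} := by
    intro hmem
    obtain ⟨z, hz⟩ := Submodule.mem_span_singleton.1 hmem
    have hz0 : z ≠ 0 := by rintro rfl; rw [zero_smul] at hz; exact ha0 hz.symm
    apply ha'a
    rw [Submodule.mem_span_singleton]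
    exact ⟨z⁻¹, by rw [← hz, smul_smul, inv_mul_cancel₀ hz0, one_smul]⟩
  have haa0 : polar Q a a = 0 := by rw [polar_self, hQa, mul_zero]
  have haa0' : polar Q a' a' = 0 := by rw [polar_self, hQa', mul_zero]
  have hbb : polar Q b b = 0 := by rw [polar_self, hQb, mul_zero]
  obtain ⟨l, hl0, hl⟩ := hL.opp hM ha hQa hb hb0 hQb hba
  obtain ⟨l', hl0', hl'⟩ := hL.opp hM ha' hQa' hb hb0 hQb hba'
  -- components orthogonal to `b`
  have hperp : ∀ (x : ι → F) (hx : polar Q b x ≠ 0) (y v : ι → F) (m s : F), m ≠ 0 →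
      y - ((polar Q b x)⁻¹ * polar Q b y) • x = m • v + s • b → polar Q v b = 0 := by
    intro x hx y v m s hm h
    have h1 := congrArg (fun z => polar Q b z) h
    simp only [QuadraticMap.polar_sub_right, QuadraticMap.polar_add_right, polar_smul_right, hbb] at h1
    have h2 : (polar Q b x)⁻¹ * polar Q b y * polar Q b x = polar Q b y := by field_simp
    rw [h2] at h1
    have h3 : m * polar Q b v = 0 := by linear_combination -h1
    rw [polar_symm]
    exact (mul_eq_zero.1 h3).resolve_left hm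
  -- the square of `l` is rational
  have hll : l * l ∈ F₀ := by
    obtain ⟨e, he, f, hf, hQe, hQf, hef, hTe, hTf⟩ := hL.hyp {a} (by
      intro t ht; rw [Finset.mem_singleton.1 ht]; exact ha) (by rw [Finset.card_singleton]; omega)
    have hae : polar Q a e = 0 := hTe a (by simp)
    have haf : polar Q a f = 0 := hTf a (by simp)
    have hay : polar Q a (e + f) = 0 := by rw [QuadraticMap.polar_add_right, hae, haf, add_zero]
    have hQy : Q (e + f) = 1 := by rw [Cfsg.Agent.H16.Quad.map_add, hQe, hQf, hef]; ring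
    obtain ⟨v, hv, s, hs⟩ := hl (e + f) (L.add_mem he hf) hay
    have hvb := hperp a hba (e + f) v l s hl0 hs
    have h1 := congrArg (fun z => Q z) hs
    simp only [Cfsg.Agent.H16.Quad.map_sub, Cfsg.Agent.H16.Quad.map_smul, Cfsg.Agent.H16.Quad.map_add l • v] at h1
    rw [Cfsg.Agent.H16.Quad.map_add Q (l • v), Cfsg.Agent.H16.Quad.map_smul, Cfsg.Agent.H16.Quad.map_smul, hQy, hQa,
      polar_smul_right, polar_symm Q (e + f), hay, hQb, polar_smul_left, polar_smul_right, hvb] at h1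
    have h2 : l * l * Q v = 1 := by linear_combination -h1
    have h3 : l * l = (Q v)⁻¹ := eq_inv_of_mul_eq_one_left h2
    rw [h3]
    exact F₀.inv_mem (hM.q v hv)
  have hll' : l * l' ∈ F₀ := by
    obtain ⟨e, he, f, hf, hQe, hQf, hef, hTe, hTf⟩ := hL.hyp {a, a'} (by
      intro t ht
      simp only [Finset.mem_insert, Finset.mem_singleton] at ht
      rcases ht with rfl | rfl
      · exact ha
      · exact ha') (by
      have : ({a, a'} : Finset (ι → F)).card ≤ 2 := Finset.card_le_two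
      omega)
    have hae : polar Q a e = 0 := hTe a (by simp)
    have haf : polar Q a f = 0 := hTf a (by simp)
    have hae' : polar Q a' e = 0 := hTe a' (by simp)
    have haf' : polar Q a' f = 0 := hTf a' (by simp)
    obtain ⟨v, hv, s, hs⟩ := hl e he hae
    obtain ⟨v', hv', s', hs'⟩ := hl' f hf haf'
    have hvb := hperp a hba e v l s hl0 hs
    have hvb' := hperp a' hba' f v' l' s' hl0' hs'
    have h1 : polar Q (e - ((polar Q b a)⁻¹ * polar Q b e) • a) (f - ((polar Q b a')⁻¹ * polar Q b f) • a') = 1 := by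
      rw [QuadraticMap.polar_sub_left, QuadraticMap.polar_sub_right, QuadraticMap.polar_sub_right, polar_smul_left,
        polar_smul_left, polar_smul_right, polar_smul_right, hef, polar_symm Q e a', hae', haf, haa']
      ring
    rw [hs, hs', QuadraticMap.polar_add_left, QuadraticMap.polar_add_right, QuadraticMap.polar_add_right, polar_smul_left,
      polar_smul_left, polar_smul_left, polar_smul_left, polar_smul_right, polar_smul_right, polar_smul_right,
      polar_smul_right, hvb, hbb, polar_symm Q b v', hvb'] at h1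
    have h2 : l * l' * polar Q v v' = 1 := by linear_combination h1
    have h3 : l * l' = (polar Q v v')⁻¹ := eq_inv_of_mul_eq_one_left h2
    rw [h3]
    exact F₀.inv_mem (hM.pol hv hv')
  have hr : ∃ r ∈ F₀, l' = l * r := ⟨l * l' * (l * l)⁻¹, F₀.mul_mem hll' (F₀.inv_mem hll), by field_simp⟩
  obtain ⟨r, hrF, hr⟩ := hr
  -- the comparison
  set e₀ : ι → F := (polar Q b a')⁻¹ • a' - (polar Q b a)⁻¹ • a with he₀
  have he₀b : e₀ ∉ Submodule.span F {b} := by
    intro hmem
    obtain ⟨z, hz⟩ := Submodule.mem_span_singleton.1 hmem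
    have h1 : z * polar Q b a = 0 := by
      rw [← polar_smul_left, hz, he₀, QuadraticMap.polar_sub_left, polar_smul_left, polar_smul_left, haa0,
        polar_symm Q a' a, haa']
      ring
    have hz0 : z = 0 := (mul_eq_zero.1 h1).resolve_right hba
    rw [hz0, zero_smul, he₀, eq_comm, sub_eq_zero] at hz
    apply ha'a
    have h2 : a' = polar Q b a' • ((polar Q b a)⁻¹ • a) := by
      rw [← hz, smul_smul, mul_inv_cancel₀ hba', one_smul]
    rw [h2]
    exact Submodule.smul_mem _ _ (Submodule.smul_mem _ _ (Submodule.mem_span_singleton_self a))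
  have hcmp : ∀ y ∈ L, polar Q a y = 0 → polar Q a' y = 0 → ∃ v ∈ M, ∃ s : F, polar Q b y • e₀ = l • v + s • b := by
    intro y hy hay hay'
    obtain ⟨v, hv, s, hs⟩ := hl y hy hay
    obtain ⟨v', hv', s', hs'⟩ := hl' y hy hay'
    refine ⟨v - r • v', M.sub_mem hv (hM.smul_mem hrF hv'), s - s', ?_⟩
    have h1 : polar Q b y • e₀ = (y - ((polar Q b a)⁻¹ * polar Q b y) • a) - (y - ((polar Q b a')⁻¹ * polar Q b y) • a') := by
      rw [he₀]; module
    rw [h1, hs, hs', hr]
    module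
  -- rank one
  obtain ⟨c, hc⟩ : ∃ c : F, ∀ y ∈ L, polar Q a y = 0 → polar Q a' y = 0 → ∃ s ∈ F₀, polar Q b y = s * c := by
    by_cases hall : ∀ y ∈ L, polar Q a y = 0 → polar Q a' y = 0 → polar Q b y = 0
    · exact ⟨0, fun y hy h1 h2 => ⟨0, F₀.zero_mem, by rw [hall y hy h1 h2, mul_zero]⟩⟩
    push Not at hall
    obtain ⟨y₁, hy₁, hay₁, hay₁', hby₁⟩ := hall
    obtain ⟨v₁, hv₁, s₁, hs₁⟩ := hcmp y₁ hy₁ hay₁ hay₁'
    have hv₁b : v₁ ∉ Submodule.span F {b} := by
      intro hmem
      obtain ⟨z, hz⟩ := Submodule.mem_span_singleton.1 hmem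
      apply he₀b
      rw [Submodule.mem_span_singleton]
      refine ⟨(polar Q b y₁)⁻¹ * (l * z + s₁), ?_⟩
      calc ((polar Q b y₁)⁻¹ * (l * z + s₁)) • b = (polar Q b y₁)⁻¹ • (l • (z • b) + s₁ • b) := by module
        _ = (polar Q b y₁)⁻¹ • (polar Q b y₁ • e₀) := by rw [hz, hs₁]
        _ = e₀ := by rw [smul_smul, inv_mul_cancel₀ hby₁, one_smul]
    obtain ⟨w, hw, hvw, hTw⟩ := hM.sep hv₁ (T := {b}) (by intro t ht; rw [Set.mem_singleton_iff.1 ht]; exact hb) hv₁b
    have hbw : polar Q b w = 0 := hTw b rfl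
    have h1 : polar Q b y₁ * polar Q e₀ w = l := by
      rw [← polar_smul_left, hs₁, QuadraticMap.polar_add_left, polar_smul_left, polar_smul_left, hvw, hbw]; ring
    have he₀w : polar Q e₀ w ≠ 0 := by
      intro h0
      rw [h0, mul_zero] at h1
      exact hl0 h1.symm
    refine ⟨polar Q b y₁, fun y hy hay hay' => ?_⟩
    obtain ⟨v, hv, s, hs⟩ := hcmp y hy hay hay'
    refine ⟨polar Q v w, hM.pol hv hw, ?_⟩
    have h2 : polar Q b y * polar Q e₀ w = l * polar Q v w := by
      rw [← polar_smul_left, hs, QuadraticMap.polar_add_left, polar_smul_left, polar_smul_left, hbw]; ring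
    apply mul_right_cancel₀ he₀w
    rw [h2, ← h1]; ring
  obtain ⟨v, hv, s, s', hs⟩ := hL.rat2 ha ha' haa'' ha'a hc
  exact ⟨v, hv, a, ha, a', ha', c, s, s', hs⟩

/-- every centre is rational -/
theorem single (hL : SF Q G F₀ L) (hM : SF Q G F₀ M) {b : ι → F} (hb : b ∈ M) (hQb : Q b = 0) :
    ∃ c : F, ∃ v ∈ L, b = c • v := by
  classical
  have hbig := hL.big
  by_cases hb0 : b = 0
  · exact ⟨0, 0, L.zero_mem, by rw [hb0, smul_zero]⟩
  obtain ⟨v, hv, a, ha, a', ha', c, s, s', hbv⟩ := hL.rk3 hM hb hb0 hQb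
  by_cases hall : ∃ c : F, ∀ y ∈ L, ∃ s ∈ F₀, polar Q b y = s * c
  · obtain ⟨c, hc⟩ := hall
    obtain ⟨v, hv, hbv⟩ := hL.rat0 hc
    exact ⟨c, v, hv, hbv⟩
  exfalso
  push Not at hall
  obtain ⟨y₁, hy₁, hx₁⟩ := hall 0
  have hx1 : polar Q b y₁ ≠ 0 := by
    have := hx₁ 0 F₀.zero_mem
    rwa [mul_zero] at this
  obtain ⟨y₂, hy₂, hx₂⟩ := hall (polar Q b y₁)
  obtain ⟨e, he, f, hf, hQe, hQf, hef, hTe, hTf⟩ := hL.hyp {v, a, a', y₁, y₂} (by
    intro t ht
    simp only [Finset.mem_insert, Finset.mem_singleton] at ht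
    rcases ht with rfl | rfl | rfl | rfl | rfl
    · exact hv
    · exact ha
    · exact ha'
    · exact hy₁
    · exact hy₂) (by
    have : ({v, a, a', y₁, y₂} : Finset (ι → F)).card ≤ 5 := Finset.card_le_five
    omega)
  have he0 : e ≠ 0 := by
    rintro rfl
    rw [QuadraticMap.polar_zero_left] at hef
    exact zero_ne_one hef
  have heb : polar Q e b = 0 := by
    rw [polar_symm, hbv, QuadraticMap.polar_add_left, QuadraticMap.polar_add_left, polar_smul_left, polar_smul_left,
      polar_smul_left, hTe v (by simp), hTe a (by simp), hTe a' (by simp)]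
    ring
  obtain ⟨c₂, v₂, hv₂, s₂, hs₂⟩ := hL.orr hM he he0 hQe hb hQb heb
  have g : ∀ y, polar Q y e = 0 → polar Q b y = c₂ * polar Q v₂ y := by
    intro y hy
    calc polar Q b y = polar Q (c₂ • v₂ + s₂ • e) y := by rw [← hs₂]
      _ = _ := by rw [QuadraticMap.polar_add_left, polar_smul_left, polar_smul_left, polar_symm Q e, hy]; ring
  have g1 := g y₁ (hTe y₁ (by simp))
  have g2 := g y₂ (hTe y₂ (by simp))
  have hc₂ : c₂ ≠ 0 := by rintro rfl; rw [zero_mul] at g1; exact hx1 g1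
  have hv1 : polar Q v₂ y₁ ≠ 0 := by
    intro h0; rw [h0, mul_zero] at g1; exact hx1 g1
  apply hx₂ (polar Q v₂ y₂ * (polar Q v₂ y₁)⁻¹) (F₀.mul_mem (hL.pol hv₂ hy₂) (F₀.inv_mem (hL.pol hv₂ hy₁)))
  rw [g1, g2]
  field_simp

/-- the two lattices are proportional -/
theorem prop (hL : SF Q G F₀ L) (hM : SF Q G F₀ M) : ∃ l : F, l ≠ 0 ∧ ∀ y ∈ M, ∃ v ∈ L, y = l • v := by
  obtain ⟨l, hl0, hl⟩ := unif hM.toLT hL.toLT hM.big M.zero_mem L.zero_mem LinearMap.id (by
    intro x _ hx
    rwa [LinearMap.id_apply] at hx) (by rw [LinearMap.id_apply]; exact Submodule.zero_mem _) (by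
    intro y hy _ hQy
    obtain ⟨c, v, hv, hcv⟩ := hL.single hM hy hQy
    exact ⟨c, v, hv, 0, by rw [LinearMap.id_apply, hcv]; module⟩)
  refine ⟨l, hl0, fun y hy => ?_⟩
  obtain ⟨v, hv, s, hs⟩ := hl y hy (QuadraticMap.polar_zero_left _ _)
  exact ⟨v, hv, by rw [LinearMap.id_apply, smul_zero, add_zero] at hs; exact hs⟩

end SF

/-- the main theorem, in terms of lattices -/
theorem sf_main [Finite F] (hS : SG Q G F₀ L) (hr : (finrank F₀ F).Prime) :
    omegaGL ⇑Q ≤ G ∨ ∀ g ∈ G, ∃ l : F, l ≠ 0 ∧ ∀ y ∈ L, ∃ v ∈ L, (g : Matrix ι ι F) *ᵥ y = l • v := by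
  by_cases hex : ∃ u ∈ L, u ≠ 0 ∧ Q u = 0 ∧ ∃ y, RP Q G u y ∧ ∀ s : F, y - s • u ∉ L
  · exact Or.inl (hS.dich hr hex)
  · right
    have hL : SF Q G F₀ L := by
      refine { toSG := hS, sm := ?_ }
      intro u hu hu0 hQu y hy
      by_contra hcon
      push Not at hcon
      exact hex ⟨u, hu, hu0, hQu, y, hy, hcon⟩
    intro g hg
    obtain ⟨l, hl0, hl⟩ := hL.prop (hL.map hg)
    exact ⟨l, hl0, fun y hy => hl _ ⟨y, hy, rfl⟩⟩

end Cfsg.Agent.H29.Sg
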