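import Mathlib
import Cfsg.Agent.H29_Sg17

set_option autoImplicit false

/-! Subfield groups in `Ω`: the frozen formulation. -/

namespace Cfsg.Agent.H29.Sg

open Matrix Module Cfsg.Geo Cfsg.Agent.H16.Quad Cfsg.Agent.H29.Trv
open QuadraticMap (polar)

variable {F : Type*} [Field F] {ι : Type} [Fintype ι] [DecidableEq ι]

/-- the map defining the lattice -/
noncomputable def latMap (F₀ : Subfield F) (P : GL ι F) : (ι → F₀) →ₗ[F₀] (ι → F) where
  toFun c := (P : Matrix ι ι F) *ᵥ (fun i => (c i : F))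
  map_add' c d := by rw [← Matrix.mulVec_add]; rfl
  map_smul' s c := by
    show (P : Matrix ι ι F) *ᵥ (fun i => ((s • c) i : F)) = (s : F) • ((P : Matrix ι ι F) *ᵥ (fun i => (c i : F)))
    rw [← Matrix.mulVec_smul]
    rfl

noncomputable def Lat (F₀ : Subfield F) (P : GL ι F) : Submodule F₀ (ι → F) := LinearMap.range (latMap F₀ P)

theorem inv_cancel (P : GL ι F) (x : ι → F) : ((P⁻¹ : GL ι F) : Matrix ι ι F) *ᵥ ((P : Matrix ι ι F) *ᵥ x) = x := by
  rw [Matrix.mulVec_mulVec, ← Units.val_mul, inv_mul_cancel, Units.val_one, Matrix.one_mulVec]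

theorem cancel_inv (P : GL ι F) (x : ι → F) : (P : Matrix ι ι F) *ᵥ (((P⁻¹ : GL ι F) : Matrix ι ι F) *ᵥ x) = x := by
  rw [Matrix.mulVec_mulVec, ← Units.val_mul, mul_inv_cancel, Units.val_one, Matrix.one_mulVec]

theorem mem_Lat {F₀ : Subfield F} {P : GL ι F} {x : ι → F} :
    x ∈ Lat F₀ P ↔ ∀ i, (((P⁻¹ : GL ι F) : Matrix ι ι F) *ᵥ x) i ∈ F₀ := by
  constructor
  · rintro ⟨c, rfl⟩ i
    show (((P⁻¹ : GL ι F) : Matrix ι ι F) *ᵥ ((P : Matrix ι ι F) *ᵥ (fun i => (c i : F)))) i ∈ F₀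
    rw [inv_cancel]
    exact (c i).2
  · intro h
    refine ⟨fun i => ⟨_, h i⟩, ?_⟩
    show (P : Matrix ι ι F) *ᵥ (((P⁻¹ : GL ι F) : Matrix ι ι F) *ᵥ x) = x
    exact cancel_inv P x

theorem Lat_LT {Q : QuadraticForm F (ι → F)} (hnd : (QuadraticMap.polarBilin Q).Nondegenerate) {F₀ : Subfield F}
    {P : GL ι F} (hP : ∀ u : ι → F, (∀ i, u i ∈ F₀) → Q ((P : Matrix ι ι F) *ᵥ u) ∈ F₀) : LT Q F₀ (Lat F₀ P) where
  nd := hnd
  q := by
    rintro _ ⟨c, rfl⟩
    exact hP _ (fun i => (c i).2)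
  span := by
    rw [Submodule.eq_top_iff']
    intro x
    have h1 : x = ∑ i, (((P⁻¹ : GL ι F) : Matrix ι ι F) *ᵥ x) i • ((P : Matrix ι ι F) *ᵥ (Pi.single i 1)) := by
      have h2 : (((P⁻¹ : GL ι F) : Matrix ι ι F) *ᵥ x) =
          ∑ i, (((P⁻¹ : GL ι F) : Matrix ι ι F) *ᵥ x) i • (Pi.single i (1 : F) : ι → F) := by
        ext j
        simp [Finset.sum_apply, Pi.single_apply]
      calc x = (P : Matrix ι ι F) *ᵥ (((P⁻¹ : GL ι F) : Matrix ι ι F) *ᵥ x) := (cancel_inv P x).symm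
        _ = (P : Matrix ι ι F) *ᵥ (∑ i, (((P⁻¹ : GL ι F) : Matrix ι ι F) *ᵥ x) i • (Pi.single i (1 : F) : ι → F)) := by
          rw [← h2]
        _ = _ := by
          rw [Matrix.mulVec_sum]
          simp only [Matrix.mulVec_smul]
    rw [h1]
    apply Submodule.sum_mem
    intro i _
    apply Submodule.smul_mem
    apply Submodule.subset_span
    rw [SetLike.mem_coe, mem_Lat]
    intro j
    rw [inv_cancel, Pi.single_apply]
    split_ifs
    · exact F₀.one_mem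
    · exact F₀.zero_mem
  fr := by
    have hinj : Function.Injective (latMap F₀ P) := by
      intro c d hcd
      have h1 : (P : Matrix ι ι F) *ᵥ (fun i => (c i : F)) = (P : Matrix ι ι F) *ᵥ (fun i => (d i : F)) := hcd
      have h2 := congrArg (fun x => ((P⁻¹ : GL ι F) : Matrix ι ι F) *ᵥ x) h1
      simp only [inv_cancel] at h2
      funext i
      exact Subtype.ext (congrFun h2 i)
    rw [Lat, LinearMap.finrank_range_of_inj hinj, Module.finrank_fintype_fun_eq_card]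

theorem scalars_normal : (scalars ι F).Normal := by
  refine ⟨?_⟩
  rintro _ ⟨c, rfl⟩ g
  refine ⟨c, ?_⟩
  apply Units.ext
  show Matrix.scalar ι (c : F) = (g : Matrix ι ι F) * Matrix.scalar ι (c : F) * ((g⁻¹ : GL ι F) : Matrix ι ι F)
  rw [Matrix.scalar_apply, ← Matrix.smul_one_eq_diagonal, Matrix.mul_smul, mul_one, Matrix.smul_mul, ← Units.val_mul,
    mul_inv_cancel, Units.val_one]

theorem mem_sub_iff {F₀ : Subfield F} {P g : GL ι F} :
    g ∈ subfieldSubgroup F₀ P ↔ ∃ l : F, l ≠ 0 ∧ ∀ y ∈ Lat F₀ P, ∃ v ∈ Lat F₀ P, (g : Matrix ι ι F) *ᵥ y = l • v := by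
  constructor
  · rintro ⟨x, hx, rfl⟩
    haveI := scalars_normal (F := F) (ι := ι)
    rw [SetLike.mem_coe, Subgroup.mem_sup_of_normal_right] at hx
    obtain ⟨_, ⟨y, rfl⟩, _, ⟨d, rfl⟩, rfl⟩ := hx
    refine ⟨d, d.ne_zero, ?_⟩
    rintro _ ⟨c, rfl⟩
    refine ⟨(P : Matrix ι ι F) *ᵥ (fun i => (((y : Matrix ι ι F₀) *ᵥ c) i : F)), ⟨_, rfl⟩, ?_⟩
    show ((P * (Matrix.GeneralLinearGroup.map (F₀.subtype : F₀ →+* F) y *
      (Units.map (Matrix.scalar ι : F →+* Matrix ι ι F).toMonoidHom d)) * P⁻¹ : GL ι F) : Matrix ι ι F) *ᵥ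
      ((P : Matrix ι ι F) *ᵥ (fun i => (c i : F))) = _
    rw [Units.val_mul, ← Matrix.mulVec_mulVec, inv_cancel, Units.val_mul, ← Matrix.mulVec_mulVec, Units.val_mul,
      ← Matrix.mulVec_mulVec, ← Matrix.mulVec_smul]
    congr 1
    show ((y : Matrix ι ι F₀).map (F₀.subtype : F₀ →+* F)) *ᵥ ((Matrix.scalar ι (d : F)) *ᵥ (fun i => (c i : F))) = _
    rw [Matrix.scalar_apply, ← Matrix.smul_one_eq_diagonal, Matrix.smul_mulVec, Matrix.one_mulVec, Matrix.mulVec_smul]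
    congr 1
    funext i
    simp only [Matrix.mulVec, dotProduct]
    push_cast
    rfl
  · rintro ⟨l, hl, h⟩
    -- the conjugated matrix
    set T : GL ι F := P⁻¹ * g * P with hT
    have hent : ∀ i j, l⁻¹ * (T : Matrix ι ι F) i j ∈ F₀ := by
      intro i j
      obtain ⟨v, hv, hgv⟩ := h ((P : Matrix ι ι F) *ᵥ (Pi.single j 1)) (by
        rw [mem_Lat]
        intro k
        rw [inv_cancel, Pi.single_apply]
        split_ifs
        · exact F₀.one_mem
        · exact F₀.zero_mem)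
      have h5 : (T : Matrix ι ι F) i j = ((T : Matrix ι ι F) *ᵥ (Pi.single j 1)) i := by
        rw [Matrix.mulVec_single_one]; rfl
      rw [h5, hT, Units.val_mul, Units.val_mul, ← Matrix.mulVec_mulVec, ← Matrix.mulVec_mulVec, hgv, Matrix.mulVec_smul,
        Pi.smul_apply, smul_eq_mul, ← mul_assoc, inv_mul_cancel₀ hl, one_mul]
      exact mem_Lat.1 hv i
    let M : Matrix ι ι F₀ := Matrix.of fun i j => ⟨l⁻¹ * (T : Matrix ι ι F) i j, hent i j⟩
    have hM : M.map (F₀.subtype : F₀ →+* F) = l⁻¹ • (T : Matrix ι ι F) := by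
      ext i j; rfl
    have hdet : M.det ≠ 0 := by
      intro h0
      have h1 : (F₀.subtype : F₀ →+* F) M.det = (l⁻¹ • (T : Matrix ι ι F)).det := by
        rw [RingHom.map_det, ← hM]; rfl
      rw [h0, map_zero, Matrix.det_smul] at h1
      have h2 : (T : Matrix ι ι F).det ≠ 0 :=
        ((Matrix.isUnit_iff_isUnit_det _).1 T.isUnit).ne_zero
      exact mul_ne_zero (pow_ne_zero _ (inv_ne_zero hl)) h2 h1.symm
    let m : GL ι F₀ := Matrix.GeneralLinearGroup.mkOfDetNeZero M hdet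
    have hg : T = Matrix.GeneralLinearGroup.map (F₀.subtype : F₀ →+* F) m *
        (Units.map (Matrix.scalar ι : F →+* Matrix ι ι F).toMonoidHom (Units.mk0 l hl)) := by
      apply Units.ext
      rw [Units.val_mul]
      show (T : Matrix ι ι F) = M.map (F₀.subtype : F₀ →+* F) * Matrix.scalar ι l
      rw [hM, Matrix.scalar_apply, ← Matrix.smul_one_eq_diagonal, Matrix.mul_smul, mul_one, smul_smul,
        mul_inv_cancel₀ hl, one_smul]
    refine ⟨T, ?_, ?_⟩
    · rw [SetLike.mem_coe, hg]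
      apply Subgroup.mul_mem
      · exact Subgroup.mem_sup_left ⟨m, rfl⟩
      · exact Subgroup.mem_sup_right ⟨_, rfl⟩
    · show P * (P⁻¹ * g * P) * P⁻¹ = g
      group

variable {Q : QuadraticForm F (ι → F)}

theorem subfield_max [Finite F] (hnd : (QuadraticMap.polarBilin Q).Nondegenerate) (hn : 13 ≤ Fintype.card ι)
    (F₀ : Subfield F) (hr : (finrank F₀ F).Prime) (P : GL ι F)
    (hP : ∀ u : ι → F, (∀ i, u i ∈ F₀) → Q ((P : Matrix ι ι F) *ᵥ u) ∈ F₀) :
    IsMaximalIn (omegaGL ⇑Q) (subfieldSubgroup F₀ P ⊓ omegaGL ⇑Q) := by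
  have hLT := Lat_LT hnd hP
  have h5 : 5 ≤ Fintype.card ι := by omega
  have hSG : ∀ M : Subgroup (GL ι F), subfieldSubgroup F₀ P ⊓ omegaGL ⇑Q ≤ M → M ≤ omegaGL ⇑Q → SG Q M F₀ (Lat F₀ P) := by
    intro M hM hMO
    refine { toLT := hLT, om := hMO, big := hn, rm := ?_ }
    intro u hu hQu y hy huy
    refine ⟨huy, fun hu' hy' => hM (Subgroup.mem_inf.2 ⟨?_, eg_mem hnd h5 _ _⟩)⟩
    rw [mem_sub_iff]
    refine ⟨1, one_ne_zero, fun x hx => ⟨_, ?_, (one_smul _ _).symm⟩⟩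
    rw [eg_apply]
    exact Submodule.sub_mem _ (Submodule.sub_mem _ (Submodule.add_mem _ hx (hLT.smul_mem (hLT.pol hx hu) hy))
      (hLT.smul_mem (hLT.pol hx hy) hu)) (hLT.smul_mem (F₀.mul_mem (hLT.q y hy) (hLT.pol hx hu)) hu)
  refine ⟨lt_of_le_of_ne inf_le_right ?_, ?_⟩
  · intro heq
    have hS := hSG _ le_rfl inf_le_right
    obtain ⟨e₁, he₁, f₁, hf₁, e₂, he₂, f₂, hf₂, e₃, he₃, f₃, hf₃, ⟨a1, a2, a3⟩, ⟨b1, b2, b3⟩, ⟨c1, c2, c3⟩,
      ⟨d1, d2, d3, d4⟩, ⟨g1, g2, g3⟩, ⟨k1, k2, k3⟩⟩ := hS.conf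
    -- a scalar outside the subfield
    obtain ⟨l, hl⟩ : ∃ l : F, l ∉ F₀ := by
      by_contra hcon
      push Not at hcon
      have h1 : finrank F₀ F ≤ 1 := by
        apply finrank_le_one (1 : F)
        intro w
        exact ⟨⟨w, hcon w⟩, by show w * 1 = w; rw [mul_one]⟩
      exact absurd hr.one_lt (by omega)
    have h1 : polar Q e₁ (l • e₂) = 0 := by rw [polar_smul_right, d1, mul_zero]
    have h2 : eg a1 h1 ∈ subfieldSubgroup F₀ P ⊓ omegaGL ⇑Q := by rw [heq]; exact eg_mem hnd h5 _ _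
    obtain ⟨m, hm0, hm⟩ := mem_sub_iff.1 h2.1
    obtain ⟨v, hv, hv'⟩ := hm e₁ he₁
    obtain ⟨w, hw, hw'⟩ := hm f₁ hf₁
    rw [eg_fix _ _ (by rw [polar_self, a1, mul_zero]) h1] at hv'
    have h3 : m * polar Q v f₁ = 1 := by rw [← polar_smul_left, ← hv', a3]
    have h4 : m = (polar Q v f₁)⁻¹ := eq_inv_of_mul_eq_one_left h3
    have hmF : m ∈ F₀ := by rw [h4]; exact F₀.inv_mem (hLT.pol hv hf₁)
    rw [eg_apply, polar_symm Q f₁ e₁, a3, Cfsg.Agent.H16.Quad.map_smul, b1, polar_smul_right, d2] at hw'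
    apply hl
    have h5 := congrArg (fun z => polar Q z f₂) hw'
    simp only [QuadraticMap.polar_sub_left, QuadraticMap.polar_add_left, polar_smul_left, d3, d4, b3] at h5
    have h6 : l = m * polar Q w f₂ := by linear_combination h5
    rw [h6]
    exact F₀.mul_mem hmF (hLT.pol hw hf₂)
  · intro M hM hMO
    rcases sf_main (hSG M hM hMO) hr with h1 | h1
    · exact Or.inr (le_antisymm hMO h1)
    · left
      refine le_antisymm (le_inf (fun g hg => mem_sub_iff.2 (h1 g hg)) hMO) hM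

theorem finrank_prime_of_card [Fintype F] {F₀ : Subfield F} {r : ℕ} (hr : r.Prime)
    (hcard : Fintype.card F = Nat.card F₀ ^ r) : (finrank F₀ F).Prime := by
  have h1 : Nat.card F = Nat.card F₀ ^ finrank F₀ F := Module.natCard_eq_pow_finrank
  rw [Nat.card_eq_fintype_card, hcard] at h1
  have h2 : 2 ≤ Nat.card F₀ := by
    have : Nontrivial F₀ := inferInstance
    exact Finite.one_lt_card
  have h3 := Nat.pow_right_injective h2 h1
  rw [← h3]
  exact hr

end Cfsg.Agent.H29.Sg
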