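import Mathlib
import Cfsg.Agent.H29_Sg11

set_option autoImplicit false

/-! Orthogonal decompositions: `O_k wr S_t` in `Ω`, `k ≥ 3`, `q` odd. Preliminaries. -/

namespace Cfsg.Agent.H29.Sg

open Matrix Module Cfsg.Geo Cfsg.Agent.H16.Quad Cfsg.Agent.H29.Trv
open QuadraticMap (polar)

section Abs

variable {F V : Type*} [Field F] [AddCommGroup V] [Module F V] [FiniteDimensional F V] [Finite F] {Q : QuadraticForm F V}

/-- a scalar avoiding finitely many values -/
theorem exists_avoid (h5 : 5 ≤ Nat.card F) (S : Finset F) (hS : S.card ≤ 4) : ∃ l : F, l ∉ S := by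
  classical
  haveI := Fintype.ofFinite F
  by_contra hcon
  push Not at hcon
  have h1 : (Finset.univ : Finset F) ⊆ S := fun x _ => hcon x
  have h2 := Finset.card_le_card h1
  rw [Finset.card_univ, ← Nat.card_eq_fintype_card] at h2
  omega

/-- roots of a quadratic polynomial -/
theorem quad_roots (a b c : F) (hc : c ≠ 0) : ∃ S : Finset F, S.card ≤ 2 ∧ ∀ l : F, c + b * l + a * (l * l) = 0 → l ∈ S := by
  classical
  haveI := Fintype.ofFinite F
  let p : Polynomial F := Polynomial.C a * Polynomial.X ^ 2 + Polynomial.C b * Polynomial.X + Polynomial.C c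
  have hp : p ≠ 0 := by
    intro h0
    have : p.eval 0 = c := by simp [p]
    rw [h0, Polynomial.eval_zero] at this
    exact hc this.symm
  refine ⟨p.roots.toFinset, ?_, fun l hl => ?_⟩
  · calc p.roots.toFinset.card ≤ Multiset.card p.roots := Multiset.toFinset_card_le _
      _ ≤ p.natDegree := Polynomial.card_roots' p
      _ ≤ 2 := by
        show (Polynomial.C a * Polynomial.X ^ 2 + Polynomial.C b * Polynomial.X + Polynomial.C c).natDegree ≤ 2
        exact Polynomial.natDegree_quadratic_le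
  · rw [Multiset.mem_toFinset, Polynomial.mem_roots hp, Polynomial.IsRoot.def]
    simp only [p, Polynomial.eval_add, Polynomial.eval_mul, Polynomial.eval_C, Polynomial.eval_pow, Polynomial.eval_X]
    rw [← hl]; ring

/-- nonsingular vectors orthogonal to a given vector -/
theorem exists_ns_perp (hQ : (QuadraticMap.polarBilin Q).Nondegenerate) (h : 3 ≤ finrank F V) (v : V) :
    ∃ w, polar Q v w = 0 ∧ Q w ≠ 0 := by
  obtain ⟨y, y', h1, h2, h3⟩ := exists_nonorth hQ h v
  by_cases hy : Q y = 0
  · by_cases hy' : Q y' = 0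
    · refine ⟨y + y', by rw [QuadraticMap.polar_add_right, h1, h2, add_zero], ?_⟩
      rw [Cfsg.Agent.H16.Quad.map_add, hy, hy', zero_add, zero_add]
      exact h3
    · exact ⟨y', h2, hy'⟩
  · exact ⟨y, h1, hy⟩

/-- independent vectors of a given norm, orthogonal to a nonsingular vector -/
theorem two_norm (hQ : (QuadraticMap.polarBilin Q).Nondegenerate) (h2 : (2 : F) ≠ 0) (h3 : 3 ≤ finrank F V)
    (hq : 5 ≤ Nat.card F ∨ 5 ≤ finrank F V) {b : V} (hb : Q b ≠ 0) {c : F} (hc : c ≠ 0) :
    ∃ x x' : V, polar Q b x = 0 ∧ polar Q b x' = 0 ∧ Q x = c ∧ Q x' = c ∧ x' ∉ Submodule.span F {x} := by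
  classical
  have hb0 : b ≠ 0 := by rintro rfl; exact hb (QuadraticMap.map_zero Q)
  have hdis := disjoint_span_singleton h2 hb
  have hPn := nd_perp hQ hdis
  have hPf := finrank_perp_singleton hQ hb0
  obtain ⟨x, hx⟩ := exists_norm hPn (by rw [hPf]; omega) hc
  have hx' : Q (x : V) = c := hx
  have hbx : polar Q b (x : V) = 0 := mem_perp_span_singleton.1 x.2
  have hx0 : x ≠ 0 := by rintro rfl; rw [QuadraticMap.map_zero] at hx; exact hc hx.symm
  have hPx : finrank F (perp (Q.comp (perp Q (Submodule.span F {b})).subtype) (Submodule.span F {x})) = finrank F V - 1 - 1 := by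
    rw [finrank_perp_singleton hPn hx0, hPf]
  rcases hq with hq | hq
  · obtain ⟨v, hv, hv0⟩ := exists_mem_ne_zero (F := F)
      (W := perp (Q.comp (perp Q (Submodule.span F {b})).subtype) (Submodule.span F {x})) (by rw [hPx]; omega)
    have hxv : polar Q (x : V) (v : V) = 0 := by
      have h := mem_perp_span_singleton.1 hv
      exact h
    have hbv : polar Q b (v : V) = 0 := mem_perp_span_singleton.1 v.2
    have hv0' : (v : V) ≠ 0 := fun h => hv0 (Subtype.ext h)
    obtain ⟨S, hS, hS'⟩ := quad_roots (Q (v : V)) 0 c hc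
    obtain ⟨l, hl⟩ := exists_avoid (F := F) hq (insert 0 S) ((Finset.card_insert_le _ _).trans (by omega))
    rw [Finset.mem_insert, not_or] at hl
    have hz : Q ((x : V) + l • (v : V)) ≠ 0 := by
      intro h0
      rw [Cfsg.Agent.H16.Quad.map_add, Cfsg.Agent.H16.Quad.map_smul, polar_smul_right, hxv, hx'] at h0
      exact hl.2 (hS' l (by linear_combination h0))
    have hxz : polar Q (x : V) ((x : V) + l • (v : V)) = 2 * c := by
      rw [QuadraticMap.polar_add_right, polar_self, polar_smul_right, hxv, hx']; ring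
    set z : V := (x : V) + l • (v : V) with hzdef
    have hκ : (Q z)⁻¹ * (2 * c) ≠ 0 := mul_ne_zero (inv_ne_zero hz) (mul_ne_zero h2 hc)
    have hbz : polar Q b z = 0 := by
      rw [hzdef, QuadraticMap.polar_add_right, polar_smul_right, hbx, hbv]; ring
    refine ⟨x, refl Q z x, hbx, ?_, hx', ?_, ?_⟩
    · rw [refl_apply, QuadraticMap.polar_sub_right, polar_smul_right, hbx, hbz]; ring
    · rw [refl_mem Q z, hx']
    · intro hmem
      obtain ⟨s, hs⟩ := Submodule.mem_span_singleton.1 hmem
      rw [refl_apply, hxz] at hs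
      have h5 := congrArg (fun t => polar Q (x : V) t) hs
      simp only [QuadraticMap.polar_sub_right, polar_smul_right, polar_self, hx', hxz] at h5
      have h6 : (1 - (Q z)⁻¹ * (2 * c) - s) * (2 * c) = 0 := by linear_combination -h5
      have h7 : 1 - (Q z)⁻¹ * (2 * c) - s = 0 := (mul_eq_zero.1 h6).resolve_right (mul_ne_zero h2 hc)
      have h8 : ((Q z)⁻¹ * (2 * c) * l) • (v : V) = (1 - (Q z)⁻¹ * (2 * c) - s) • (x : V) := by
        have h9 : ((Q z)⁻¹ * (2 * c) * l) • (v : V) = (1 - (Q z)⁻¹ * (2 * c) - s) • (x : V) + (s • (x : V) -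
          ((x : V) - ((Q z)⁻¹ * (2 * c)) • ((x : V) + l • (v : V)))) := by module
        rw [h9, hs, hzdef, sub_self, add_zero]
      rw [h7, zero_smul] at h8
      rcases smul_eq_zero.1 h8 with h9 | h9
      · exact mul_ne_zero hκ hl.1 h9
      · exact hv0' h9
  · have hdis2 : Disjoint (Submodule.span F {x}) (perp (Q.comp (perp Q (Submodule.span F {b})).subtype) (Submodule.span F {x})) :=
      disjoint_span_singleton (Q := Q.comp (perp Q (Submodule.span F {b})).subtype) h2 (by rw [hx]; exact hc)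
    obtain ⟨v, hv0, hv⟩ := exists_singular (nd_perp hPn hdis2) (by rw [hPx]; omega)
    have hxv : polar Q (x : V) ((v : perp Q (Submodule.span F {b})) : V) = 0 := by
      have h := mem_perp_span_singleton.1 v.2
      exact h
    have hbv : polar Q b ((v : perp Q (Submodule.span F {b})) : V) = 0 :=
      mem_perp_span_singleton.1 (v : perp Q (Submodule.span F {b})).2
    have hv' : Q ((v : perp Q (Submodule.span F {b})) : V) = 0 := hv
    refine ⟨x, (x : V) + ((v : perp Q (Submodule.span F {b})) : V), hbx, ?_, hx', ?_, ?_⟩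
    · rw [QuadraticMap.polar_add_right, hbx, hbv, add_zero]
    · rw [Cfsg.Agent.H16.Quad.map_add, hx', hv', hxv]; ring
    · intro hmem
      obtain ⟨s, hs⟩ := Submodule.mem_span_singleton.1 hmem
      have h5 := congrArg (fun t => polar Q (x : V) t) hs
      simp only [QuadraticMap.polar_add_right, polar_smul_right, polar_self, hx', hxv] at h5
      have h6 : (s - 1) * (2 * c) = 0 := by linear_combination h5
      have h7 : s - 1 = 0 := (mul_eq_zero.1 h6).resolve_right (mul_ne_zero h2 hc)
      have h8 : ((v : perp Q (Submodule.span F {b})) : V) = 0 := by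
        have h9 : ((v : perp Q (Submodule.span F {b})) : V) = (s - 1) • (x : V) := by
          rw [sub_smul, hs, one_smul, add_sub_cancel_left]
        rw [h9, h7, zero_smul]
      exact hv0 (Subtype.ext (Subtype.ext h8))

end Abs

variable {F : Type*} [Field F] {ι : Type} [Fintype ι] [DecidableEq ι]
variable {Q : QuadraticForm F (ι → F)} {G : Subgroup (GL ι F)} {t k : ℕ} {D : Fin t → Submodule F (ι → F)}

/-- the setting: an orthogonal decomposition -/
structure OD (Q : QuadraticForm F (ι → F)) (G : Subgroup (GL ι F)) {t : ℕ} (k : ℕ) (D : Fin t → Submodule F (ι → F)) :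
    Prop where
  nd : (QuadraticMap.polarBilin Q).Nondegenerate
  h2 : (2 : F) ≠ 0
  h5 : 5 ≤ Fintype.card ι
  hk : 3 ≤ k
  hq : 5 ≤ Nat.card F ∨ 5 ≤ k
  fr : ∀ i, finrank F (D i) = k
  dis : ∀ i, Disjoint (D i) (perp Q (D i))
  orth : ∀ i j, i ≠ j → ∀ x ∈ D i, ∀ y ∈ D j, polar Q x y = 0
  top : iSup D = ⊤
  iso : ∀ i j, AreIsometricFor ⇑Q (D i) (D j)
  om : G ≤ omegaGL ⇑Q
  sub : decompositionStabilizer D ⊓ omegaGL ⇑Q ≤ G

namespace OD

variable [Finite F]

/-- the projections -/
noncomputable def pr (h : OD Q G k D) (i : Fin t) : (ι → F) →ₗ[F] (ι → F) :=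
  (D i).projection (perp Q (D i)) (isCompl_perp (h.dis i))

theorem pr_mem (h : OD Q G k D) (i : Fin t) (x : ι → F) : h.pr i x ∈ D i := Submodule.projection_apply_mem _ _

theorem pr_polar (h : OD Q G k D) (i : Fin t) (x y : ι → F) (hy : y ∈ D i) : polar Q y (h.pr i x) = polar Q y x := by
  have h1 : x - h.pr i x ∈ perp Q (D i) := by
    rw [← Submodule.projection_apply_eq_zero_iff (isCompl_perp (h.dis i)), _root_.map_sub]
    have h2 : (D i).projection (perp Q (D i)) (isCompl_perp (h.dis i)) (h.pr i x) = h.pr i x :=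
      Submodule.projection_apply_of_mem_left _ (h.pr_mem i x)
    rw [h2]
    exact sub_self _
  have h2 := mem_perp.1 h1 y hy
  rw [QuadraticMap.polar_sub_right, sub_eq_zero] at h2
  exact h2.symm

theorem pr_polar' (h : OD Q G k D) (i : Fin t) (x y : ι → F) (hy : y ∈ D i) : polar Q (h.pr i x) y = polar Q x y := by
  rw [polar_symm, h.pr_polar i x y hy, polar_symm]

theorem pr_self (h : OD Q G k D) (i : Fin t) (x : ι → F) : polar Q x (h.pr i x) = 2 * Q (h.pr i x) := by
  rw [← h.pr_polar' i x _ (h.pr_mem i x), polar_self]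

/-- vectors orthogonal to all blocks vanish -/
theorem eq_zero (h : OD Q G k D) {x : ι → F} (hx : ∀ i, ∀ y ∈ D i, polar Q y x = 0) : x = 0 := by
  apply nd_eq_zero h.nd
  intro y
  rw [polar_symm]
  have hy : y ∈ iSup D := by rw [h.top]; trivial
  induction hy using Submodule.iSup_induction' with
  | mem i y hy => exact hx i y hy
  | zero => exact QuadraticMap.polar_zero_left _ _
  | add a b _ _ ha hb => rw [QuadraticMap.polar_add_left, ha, hb, add_zero]

theorem sum_pr (h : OD Q G k D) (x : ι → F) : ∑ i, h.pr i x = x := by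
  rw [eq_comm, ← sub_eq_zero]
  apply h.eq_zero
  intro i y hy
  rw [QuadraticMap.polar_sub_right, sub_eq_zero]
  have h1 : polar Q y (∑ j, h.pr j x) = ∑ j, polar Q y (h.pr j x) := by
    show (QuadraticMap.polarBilin Q) y _ = _
    rw [map_sum]
    rfl
  rw [h1, Finset.sum_eq_single i]
  · exact (h.pr_polar i x y hy).symm
  · intro j _ hji
    exact h.orth i j (Ne.symm hji) y hy _ (h.pr_mem j x)
  · intro h0; exact absurd (Finset.mem_univ i) h0

theorem Q_sum (h : OD Q G k D) (x : ι → F) : ∑ i, Q (h.pr i x) = Q x := by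
  apply mul_left_cancel₀ h.h2
  rw [Finset.mul_sum, ← polar_self]
  have h1 : polar Q x (∑ j, h.pr j x) = ∑ j, polar Q x (h.pr j x) := by
    show (QuadraticMap.polarBilin Q) x _ = _
    rw [map_sum]
    rfl
  rw [h.sum_pr] at h1
  rw [h1]
  exact Finset.sum_congr rfl fun i _ => (h.pr_self i x).symm

/-- another nonsingular component -/
theorem other (h : OD Q G k D) {b : ι → F} (hb : Q b = 0) {i : Fin t} (hi : Q (h.pr i b) ≠ 0) :
    ∃ l, l ≠ i ∧ Q (h.pr l b) ≠ 0 := by
  by_contra hcon
  push Not at hcon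
  have h1 := h.Q_sum b
  rw [Finset.sum_eq_single i (fun j _ hj => hcon j hj) (fun h0 => absurd (Finset.mem_univ i) h0), hb] at h1
  exact hi h1

theorem ndi (h : OD Q G k D) (i : Fin t) : (QuadraticMap.polarBilin (Q.comp (D i).subtype)).Nondegenerate :=
  nd_restrict (h.dis i)

theorem eq_block (h : OD Q G k D) {i j : Fin t} {x : ι → F} (hx0 : x ≠ 0) (hi : x ∈ D i) (hj : x ∈ D j) : i = j := by
  by_contra hij
  apply hx0
  have h1 : x ∈ perp Q (D i) := mem_perp.2 fun y hy => h.orth i j hij y hy x hj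
  exact Submodule.disjoint_def.1 (h.dis i) x hi h1

/-- mapping criterion -/
theorem mem_dec (h : OD Q G k D) {g : GL ι F} (σ : Equiv.Perm (Fin t))
    (hg : ∀ i, ∀ x ∈ D i, (g : Matrix ι ι F) *ᵥ x ∈ D (σ i)) : g ∈ decompositionStabilizer D := by
  refine ⟨σ, fun i => ?_⟩
  apply Submodule.eq_of_le_of_finrank_eq
  · rintro _ ⟨x, hx, rfl⟩
    rw [Matrix.toLin'_apply]
    exact hg i x hx
  · rw [finrank_gl, h.fr, h.fr]

end OD

end Cfsg.Agent.H29.Sg
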