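import Mathlib
import Cfsg.Agent.H29_Sg19

set_option autoImplicit false

/-! Orthogonal decompositions: no links imply that the group preserves the decomposition. -/

namespace Cfsg.Agent.H29.Sg

open Matrix Module Cfsg.Geo Cfsg.Agent.H16.Quad Cfsg.Agent.H29.Trv
open QuadraticMap (polar)

variable {F : Type*} [Field F] {ι : Type} [Fintype ι] [DecidableEq ι]
variable {Q : QuadraticForm F (ι → F)} {G : Subgroup (GL ι F)} {t k : ℕ} {D : Fin t → Submodule F (ι → F)}

namespace OD

variable [Finite F]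

theorem isog (h : OD Q G k D) {g : GL ι F} (hg : g ∈ G) (x : ι → F) : Q ((g : Matrix ι ι F) *ᵥ x) = Q x :=
  omega_iso (h.om hg) x

theorem rm (h : OD Q G k D) {i : Fin t} {u y : ι → F} (hu : u ∈ D i) (hy : y ∈ D i) (huy : polar Q u y = 0) :
    RP Q G u y := by
  refine ⟨huy, fun hQu hy' => h.sub (Subgroup.mem_inf.2 ⟨?_, eg_mem h.nd h.h5 _ _⟩)⟩
  apply h.mem_dec 1
  intro j x hx
  by_cases hij : j = i
  · subst hij
    have h1 := eg_stab_of hu hy hQu hy'
    rw [mem_stab_iff] at h1
    exact h1 x hx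
  · rw [eg_fix _ _ (h.orth j i hij x hx u hu) (h.orth j i hij x hx y hy)]
    exact hx

/-- pairs of reflections -/
theorem rfl2 (h : OD Q G k D) {i j : Fin t} {x z : ι → F} (hx : x ∈ D i) (hz : z ∈ D j) (hQx : Q x ≠ 0) (hQz : Q z = Q x) :
    ∃ g ∈ G, ∀ v, (g : Matrix ι ι F) *ᵥ v = refl Q x (refl Q z v) := by
  obtain ⟨g, hg, hgv⟩ := ex_refl2 h.nd h.h5 hQx hQz
  refine ⟨g, h.sub (Subgroup.mem_inf.2 ⟨?_, hg⟩), hgv⟩
  apply h.mem_dec 1
  have key : ∀ (j : Fin t) (z : ι → F), z ∈ D j → ∀ (l : Fin t), ∀ v ∈ D l, refl Q z v ∈ D l := by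
    intro j z hz l v hv
    by_cases hlj : l = j
    · subst hlj
      rw [refl_apply]
      exact (D l).sub_mem hv ((D l).smul_mem _ hz)
    · rw [refl_fix (h.orth l j hlj v hv z hz)]
      exact hv
  intro l v hv
  rw [hgv]
  exact key i x hx l _ (key j z hz l v hv)

/-- singular vectors of a block span it -/
theorem sing_ne (h : OD Q G k D) {i : Fin t} {b : ι → F} (hb : ∃ x ∈ D i, polar Q x b ≠ 0) :
    ∃ v ∈ D i, Q v = 0 ∧ v ≠ 0 ∧ polar Q v b ≠ 0 := by
  by_contra hcon
  push Not at hcon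
  obtain ⟨x, hx, hxb⟩ := hb
  apply hxb
  have h1 : (⟨x, hx⟩ : D i) ∈ Submodule.span F {v : D i | (Q.comp (D i).subtype) v = 0} := by
    rw [span_singular (h.ndi i) (by rw [h.fr]; exact h.hk)]; trivial
  have h2 : ∀ z : D i, z ∈ Submodule.span F {v : D i | (Q.comp (D i).subtype) v = 0} → polar Q (z : ι → F) b = 0 := by
    intro z hz
    induction hz using Submodule.span_induction with
    | mem z hz =>
      by_cases hz0 : (z : ι → F) = 0
      · rw [hz0]; exact QuadraticMap.polar_zero_left _ _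
      · exact hcon z z.2 hz hz0
    | zero => exact QuadraticMap.polar_zero_left _ _
    | add a b _ _ ha hb => rw [Submodule.coe_add, QuadraticMap.polar_add_left, ha, hb, add_zero]
    | smul c a _ ha => rw [Submodule.coe_smul, polar_smul_left, ha, mul_zero]
  exact h2 _ h1

/-- nonsingular vectors of a block orthogonal to a vector of the block -/
theorem ns_perp (h : OD Q G k D) {i : Fin t} {v : ι → F} (hv : v ∈ D i) : ∃ w ∈ D i, polar Q v w = 0 ∧ Q w ≠ 0 := by
  obtain ⟨w, hw1, hw2⟩ := exists_ns_perp (h.ndi i) (by rw [h.fr]; exact h.hk) ⟨v, hv⟩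
  exact ⟨w, w.2, hw1, hw2⟩

end OD

/-- the images of the blocks -/
def Bk (G : Subgroup (GL ι F)) (D : Fin t → Submodule F (ι → F)) (B : Submodule F (ι → F)) : Prop :=
  ∃ g ∈ G, ∃ j, B = (D j).map (Matrix.toLin' (g : Matrix ι ι F))

/-- no links -/
structure NL (Q : QuadraticForm F (ι → F)) (G : Subgroup (GL ι F)) {t : ℕ} (k : ℕ) (D : Fin t → Submodule F (ι → F)) :
    Prop extends OD Q G k D where
  nl : ∀ i, ∀ b ∈ D i, b ≠ 0 → Q b = 0 → ∀ y, RP Q G b y → y ∈ D i

namespace NL

variable [Finite F] {B : Submodule F (ι → F)}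

theorem block (i : Fin t) : Bk G D (D i) := ⟨1, G.one_mem, i, by rw [Units.val_one, Matrix.toLin'_one, Submodule.map_id]⟩

theorem map (hB : Bk G D B) {g : GL ι F} (hg : g ∈ G) : Bk G D (B.map (Matrix.toLin' (g : Matrix ι ι F))) := by
  obtain ⟨g', hg', j, rfl⟩ := hB
  exact ⟨g * g', G.mul_mem hg hg', j, by rw [Units.val_mul, Matrix.toLin'_mul, Submodule.map_comp]⟩

theorem frB (h : NL Q G k D) (hB : Bk G D B) : finrank F B = k := by
  obtain ⟨g', hg', j, rfl⟩ := hB
  rw [finrank_gl, h.fr]

theorem disB (h : NL Q G k D) (hB : Bk G D B) : Disjoint B (perp Q B) := by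
  obtain ⟨g, hg, j, rfl⟩ := hB
  rw [Submodule.disjoint_def]
  rintro _ ⟨x, hx, rfl⟩ hx2
  have h1 : x ∈ perp Q (D j) := by
    rw [mem_perp]
    intro y hy
    have := mem_perp.1 hx2 _ ⟨y, hy, rfl⟩
    rw [Matrix.toLin'_apply, Matrix.toLin'_apply] at this
    rwa [QuadraticMap.polar, ← Matrix.mulVec_add, h.isog hg, h.isog hg, h.isog hg] at this
  rw [Submodule.disjoint_def.1 (h.dis j) x hx h1, map_zero]

theorem ndB (h : NL Q G k D) (hB : Bk G D B) : (QuadraticMap.polarBilin (Q.comp B.subtype)).Nondegenerate :=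
  nd_restrict (h.disB hB)

/-- the root groups at the points of `B` -/
theorem iffB (h : NL Q G k D) (hB : Bk G D B) {b : ι → F} (hb : b ∈ B) (hb0 : b ≠ 0) (hQb : Q b = 0) (y : ι → F) :
    RP Q G b y ↔ y ∈ B ∧ polar Q b y = 0 := by
  obtain ⟨g, hg, j, rfl⟩ := hB
  obtain ⟨x, hx, rfl⟩ := hb
  rw [Matrix.toLin'_apply] at hb0 hQb ⊢
  have hx0 : x ≠ 0 := by rintro rfl; exact hb0 (Matrix.mulVec_zero _)
  have hQx : Q x = 0 := by rw [← h.isog hg]; exact hQb
  have hgi : ∀ x, (g : Matrix ι ι F) *ᵥ (((g⁻¹ : GL ι F) : Matrix ι ι F) *ᵥ x) = x := by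
    intro x
    rw [Matrix.mulVec_mulVec, ← Units.val_mul, mul_inv_cancel, Units.val_one, Matrix.one_mulVec]
  constructor
  · intro hr
    refine ⟨?_, hr.1⟩
    have h1 := hr.conj (G.inv_mem hg) (h.isog (G.inv_mem hg))
    rw [Matrix.mulVec_mulVec, ← Units.val_mul, inv_mul_cancel, Units.val_one, Matrix.one_mulVec] at h1
    have h2 := h.nl j x hx hx0 hQx _ h1
    refine ⟨_, h2, ?_⟩
    rw [Matrix.toLin'_apply, hgi]
  · rintro ⟨⟨z, hz, rfl⟩, hxz⟩
    rw [Matrix.toLin'_apply] at hxz ⊢
    have h1 : polar Q x z = 0 := by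
      rwa [QuadraticMap.polar, ← Matrix.mulVec_add, h.isog hg, h.isog hg, h.isog hg] at hxz
    exact (h.rm hx hz h1).conj hg (h.isog hg)

theorem smulR (h : NL Q G k D) (hB : Bk G D B) {b : ι → F} (hb : b ∈ B) (hb0 : b ≠ 0) (hQb : Q b = 0) {y : ι → F} {c : F}
    (hc : c ≠ 0) (hy : RP Q G b (c • y)) : RP Q G b y := by
  rw [h.iffB hB hb hb0 hQb] at hy ⊢
  refine ⟨?_, ?_⟩
  · have := B.smul_mem c⁻¹ hy.1
    rwa [smul_smul, inv_mul_cancel₀ hc, one_smul] at this
  · have := hy.2
    rw [polar_smul_right] at this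
    exact (mul_eq_zero.1 this).resolve_left hc

/-- P2 -/
theorem P2 (h : NL Q G k D) (hB : Bk G D B) {b : ι → F} (hQb : Q b = 0) {l : Fin t}
    (hbl : b ∉ D l) {y : ι → F} (hy : y ∈ D l) (hy0 : y ≠ 0) (hQy : Q y = 0) (hr : RP Q G b y) : False :=
  hbl (h.nl l y hy hy0 hQy b (hr.symm hQb))

/-- P3 -/
theorem P3 (h : NL Q G k D) (hB : Bk G D B) {b : ι → F} (hb : b ∈ B) (hb0 : b ≠ 0) (hQb : Q b = 0)
    (hbD : ∀ l, b ∉ D l) {l : Fin t} {y : ι → F} (hy : y ∈ D l) (hr : RP Q G b y) : y = 0 := by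
  classical
  by_contra hy0
  by_cases hQy : Q y = 0
  · exact h.P2 hB hQb (hbD l) hy hy0 hQy hr
  have hby : polar Q b y = 0 := hr.1
  by_cases hb1 : ∀ x ∈ D l, polar Q x b = 0
  · -- `b` orthogonal to the block
    obtain ⟨v, hv, hQv, hv0, hvy⟩ := h.sing_ne (i := l) (b := y) ⟨y, hy, by
      rw [polar_self]; exact mul_ne_zero h.h2 hQy⟩
    obtain ⟨w, hw, hvw, hQw⟩ := h.ns_perp hv
    have E : ∀ w ∈ D l, polar Q v w = 0 → RP Q G b (polar Q y v • w - polar Q y w • v - (Q w * polar Q y v) • v) := by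
      intro w hw hvw
      obtain ⟨q1, q2⟩ := h.rm hv hw hvw
      have hg := q2 hQv q1
      have h1 := hr.conj hg (h.isog hg)
      rw [eg_fix _ _ (by rw [polar_symm]; exact hb1 v hv) (by rw [polar_symm]; exact hb1 w hw), eg_apply] at h1
      have h2 := h1.sub hr
      convert h2 using 1
      module
    have e1 := (E w hw hvw).add (E (-w) ((D l).neg_mem hw) (by rw [QuadraticMap.polar_neg_right, hvw, neg_zero]))
    rw [QuadraticMap.map_neg, QuadraticMap.polar_neg_right] at e1
    have e2 : polar Q y v • w - polar Q y w • v - (Q w * polar Q y v) • v +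
        (polar Q y v • -w - -polar Q y w • v - (Q w * polar Q y v) • v) = (-(2 * Q w * polar Q y v)) • v := by module
    rw [e2] at e1
    have hne : -(2 * Q w * polar Q y v) ≠ 0 := neg_ne_zero.2 (mul_ne_zero (mul_ne_zero h.h2 hQw) (by rw [polar_symm]; exact hvy))
    exact h.P2 hB hQb (hbD l) hv hv0 hQv (h.smulR hB hb hb0 hQb hne e1)
  push Not at hb1
  have hbl0 : h.pr l b ≠ 0 := by
    obtain ⟨x, hx, hxb⟩ := hb1
    intro h0
    rw [← h.pr_polar l b x hx, h0] at hxb
    exact hxb (QuadraticMap.polar_zero_right _ _)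
  have hbb : polar Q b (h.pr l b) = 2 * Q (h.pr l b) := h.pr_self l b
  by_cases hQbl : Q (h.pr l b) = 0
  · -- singular component
    have e1 : polar Q (h.pr l b) y = 0 := by rw [h.pr_polar' l b y hy]; exact hby
    obtain ⟨q1, q2⟩ := h.rm (h.pr_mem l b) hy e1
    have hg := q2 hQbl q1
    have h1 := hr.conj hg (h.isog hg)
    rw [eg_fix _ _ (by rw [hbb, hQbl, mul_zero]) hby, eg_apply, polar_symm Q y, e1, polar_self] at h1
    have h2 := h1.sub hr
    have e2 : y + (0 : F) • y - (2 * Q y) • h.pr l b - (Q y * 0) • h.pr l b - y = (-(2 * Q y)) • h.pr l b := by module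
    rw [e2] at h2
    exact h.P2 hB hQb (hbD l) (h.pr_mem l b) hbl0 hQbl
      (h.smulR hB hb hb0 hQb (neg_ne_zero.2 (mul_ne_zero h.h2 hQy)) h2)
  · -- nonsingular component
    obtain ⟨m, hml, hQm⟩ := h.other hQb hQbl
    have star : ∀ x ∈ D l, polar Q b x = 0 → Q x ≠ 0 → polar Q y x ≠ 0 → RP Q G b x := by
      intro x hx hbx hQx hyx
      obtain ⟨x', -, e1, -, e2, -, -⟩ := two_norm (h.ndi m) h.h2 (by rw [h.fr]; exact h.hk)
        (by rw [h.fr]; exact h.hq) (b := ⟨h.pr m b, h.pr_mem m b⟩) hQm hQx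
      have e1' : polar Q b (x' : ι → F) = 0 := by
        rw [← h.pr_polar' m b x' x'.2]; exact e1
      obtain ⟨g, hg, hgv⟩ := h.rfl2 hx x'.2 hQx e2
      have h1 := hr.conj hg (h.isog hg)
      rw [hgv, hgv, refl_fix e1', refl_fix hbx, refl_fix (h.orth l m (Ne.symm hml) y hy x' x'.2), refl_apply] at h1
      have h2 := h1.sub hr
      have e3 : y - ((Q x)⁻¹ * polar Q y x) • x - y = (-((Q x)⁻¹ * polar Q y x)) • x := by module
      rw [e3] at h2
      exact h.smulR hB hb hb0 hQb (neg_ne_zero.2 (mul_ne_zero (inv_ne_zero hQx) hyx)) h2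
    rcases h.hq with hq | hq
    · -- all vectors
      have hall : ∀ x ∈ D l, polar Q b x = 0 → x ∈ B := by
        intro x hx hbx
        obtain ⟨S, hS, hS'⟩ := quad_roots (Q x) (polar Q y x) (Q y) hQy
        by_cases hyx : polar Q y x = 0
        · obtain ⟨c, hc⟩ := exists_avoid (F := F) hq (insert 0 S) ((Finset.card_insert_le _ _).trans (by omega))
          rw [Finset.mem_insert, not_or] at hc
          have h1 := star (y + c • x) ((D l).add_mem hy ((D l).smul_mem _ hx))
            (by rw [QuadraticMap.polar_add_right, polar_smul_right, hby, hbx]; ring)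
            (by
              intro h0
              rw [Cfsg.Agent.H16.Quad.map_add, Cfsg.Agent.H16.Quad.map_smul, polar_smul_right] at h0
              exact hc.2 (hS' c (by linear_combination h0)))
            (by
              rw [QuadraticMap.polar_add_right, polar_smul_right, hyx, mul_zero, add_zero, polar_self]
              exact mul_ne_zero h.h2 hQy)
          have h2 := h1.sub hr
          rw [add_sub_cancel_left] at h2
          exact ((h.iffB hB hb hb0 hQb _).1 (h.smulR hB hb hb0 hQb hc.1 h2)).1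
        · obtain ⟨c, hc⟩ := exists_avoid (F := F) hq (insert (-(2 * Q y) * (polar Q y x)⁻¹) (insert 0 S))
            ((Finset.card_insert_le _ _).trans (by
              have := Finset.card_insert_le (0 : F) S
              omega))
          rw [Finset.mem_insert, Finset.mem_insert, not_or, not_or] at hc
          have h1 := star (y + c • x) ((D l).add_mem hy ((D l).smul_mem _ hx))
            (by rw [QuadraticMap.polar_add_right, polar_smul_right, hby, hbx]; ring)
            (by
              intro h0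
              rw [Cfsg.Agent.H16.Quad.map_add, Cfsg.Agent.H16.Quad.map_smul, polar_smul_right] at h0
              exact hc.2.2 (hS' c (by linear_combination h0)))
            (by
              rw [QuadraticMap.polar_add_right, polar_smul_right, polar_self]
              intro h0
              apply hc.1
              field_simp
              linear_combination h0)
          have h2 := h1.sub hr
          rw [add_sub_cancel_left] at h2
          exact ((h.iffB hB hb hb0 hQb _).1 (h.smulR hB hb hb0 hQb hc.2.1 h2)).1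
      -- dimension count
      have h1 : D l ⊓ perp Q (Submodule.span F {b}) ≤ B ⊓ perp Q (Submodule.span F {b}) := by
        intro x hx
        obtain ⟨hx1, hx2⟩ := Submodule.mem_inf.1 hx
        exact Submodule.mem_inf.2 ⟨hall x hx1 (mem_perp_span_singleton.1 hx2), hx2⟩
      have h2 := Submodule.finrank_sup_add_finrank_inf_eq (D l) (perp Q (Submodule.span F {b}))
      have h3 := finrank_perp_singleton h.nd hb0
      have h4 := Submodule.finrank_le (D l ⊔ perp Q (Submodule.span F {b}))
      have h5 : finrank F (B ⊓ perp Q (Submodule.span F {b}) : Submodule F (ι → F)) < k := by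
        rw [← h.frB hB]
        apply Submodule.finrank_lt_finrank_of_lt
        refine lt_of_le_of_ne inf_le_left ?_
        intro heq
        obtain ⟨b', hb'⟩ : ∃ b' ∈ B, polar Q b b' ≠ 0 := by
          by_contra hcon
          push Not at hcon
          exact hb0 (Submodule.disjoint_def.1 (h.disB hB) b hb (mem_perp'.2 hcon))
        have h6 : b' ∈ B ⊓ perp Q (Submodule.span F {b}) := by rw [heq]; exact hb'.1
        exact hb'.2 (mem_perp_span_singleton.1 h6.2)
      have h6 : finrank F (D l ⊓ perp Q (Submodule.span F {b}) : Submodule F (ι → F)) + 1 ≥ k := by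
        rw [h.fr] at h2
        have : 1 ≤ finrank F (ι → F) := by rw [Module.finrank_fintype_fun_eq_card]; have := h.h5; omega
        omega
      have h7 := Submodule.eq_of_le_of_finrank_le h1 (by omega)
      have h8 : b ∈ B ⊓ perp Q (Submodule.span F {b}) :=
        Submodule.mem_inf.2 ⟨hb, mem_perp_span_singleton.2 (by rw [polar_self, hQb, mul_zero])⟩
      rw [← h7] at h8
      exact hbD l h8.1
    · -- a singular vector
      obtain ⟨x, x', e1, e2, e3, e4, e5⟩ : ∃ x x' : D l, polar (Q.comp (D l).subtype) ⟨h.pr l b, h.pr_mem l b⟩ x = 0 ∧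
          polar (Q.comp (D l).subtype) ⟨h.pr l b, h.pr_mem l b⟩ x' = 0 ∧ polar (Q.comp (D l).subtype) ⟨y, hy⟩ x = 0 ∧
          (Q.comp (D l).subtype) x = 0 ∧ x ≠ 0 := by
        -- the orthogonal complement of two vectors in the block
        set P : Submodule F (D l) := perp (Q.comp (D l).subtype)
          (Submodule.span F ({⟨h.pr l b, h.pr_mem l b⟩, ⟨y, hy⟩} : Set (D l))) with hP
        have hPf := finrank_add_finrank_perp (h.ndi l)
          (Submodule.span F ({⟨h.pr l b, h.pr_mem l b⟩, ⟨y, hy⟩} : Set (D l)))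
        have hsp : finrank F (Submodule.span F ({⟨h.pr l b, h.pr_mem l b⟩, ⟨y, hy⟩} : Set (D l))) ≤ 2 := by
          have h8 := finrank_span_finset_le_card (R := F) ({⟨h.pr l b, h.pr_mem l b⟩, ⟨y, hy⟩} : Finset (D l))
          rw [Finset.coe_pair] at h8
          exact h8.trans Finset.card_le_two
        rw [h.fr, ← hP] at hPf
        obtain ⟨z, hz, hz0, hQz⟩ := exists_sing_sub (Q := Q.comp (D l).subtype) (Z := P) (by omega)
        rw [hP, Cfsg.Agent.H16.Quad.mem_perp_span] at hz
        exact ⟨z, z, hz _ (by simp), hz _ (by simp), hz _ (by simp), hQz, hz0⟩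
      have e1' : polar Q b (x : ι → F) = 0 := by
        rw [← h.pr_polar' l b x x.2]; exact e1
      have e3' : polar Q y (x : ι → F) = 0 := e3
      have e4' : Q (x : ι → F) = 0 := e4
      have h1 := star (y + x) ((D l).add_mem hy x.2) (by rw [QuadraticMap.polar_add_right, hby, e1', add_zero])
        (by rw [Cfsg.Agent.H16.Quad.map_add, e4', e3', add_zero, add_zero]; exact hQy)
        (by rw [QuadraticMap.polar_add_right, e3', add_zero, polar_self]; exact mul_ne_zero h.h2 hQy)
      have h2 := h1.sub hr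
      rw [add_sub_cancel_left] at h2
      exact h.P2 hB hQb (hbD l) x.2 (fun h0 => e5 (Subtype.ext h0)) e4' h2

end NL

end Cfsg.Agent.H29.Sg
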