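import Mathlib
import Cfsg.Agent.H29_Sg20

set_option autoImplicit false

/-! Orthogonal decompositions: no links, conclusion. -/

namespace Cfsg.Agent.H29.Sg

open Matrix Module Cfsg.Geo Cfsg.Agent.H16.Quad Cfsg.Agent.H29.Trv
open QuadraticMap (polar)

variable {F : Type*} [Field F] {ι : Type} [Fintype ι] [DecidableEq ι]
variable {Q : QuadraticForm F (ι → F)} {G : Subgroup (GL ι F)} {t k : ℕ} {D : Fin t → Submodule F (ι → F)}

namespace NL

variable [Finite F] {B : Submodule F (ι → F)}

/-- the parallelism property -/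
theorem par (h : NL Q G k D) (hB : Bk G D B) {b : ι → F} (hb : b ∈ B) (hb0 : b ≠ 0) (hQb : Q b = 0)
    (hbD : ∀ l, b ∉ D l) {y : ι → F} (hr : RP Q G b y) (i : Fin t) :
    ∀ x ∈ D i, polar Q x b = 0 → polar Q x y = 0 := by
  classical
  have hby : polar Q b y = 0 := hr.1
  by_cases hb1 : ∀ x ∈ D i, polar Q x b = 0
  · intro x hx _
    by_contra hxy
    obtain ⟨v, hv, hQv, hv0, hvy⟩ := h.sing_ne (i := i) (b := y) ⟨x, hx, hxy⟩
    obtain ⟨w, hw, hvw, hQw⟩ := h.ns_perp hv
    obtain ⟨q1, q2⟩ := h.rm hv hw hvw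
    have hg := q2 hQv q1
    have h1 := hr.conj hg (h.isog hg)
    rw [eg_fix _ _ (by rw [polar_symm]; exact hb1 v hv) (by rw [polar_symm]; exact hb1 w hw), eg_apply] at h1
    have h2 := h1.sub hr
    have e1 : y + polar Q y v • w - polar Q y w • v - (Q w * polar Q y v) • v - y =
        polar Q y v • w - (polar Q y w + Q w * polar Q y v) • v := by module
    rw [e1] at h2
    have h3 := h.P3 hB hb hb0 hQb hbD ((D i).sub_mem ((D i).smul_mem _ hw) ((D i).smul_mem _ hv)) h2
    have h4 := congrArg (fun z => polar Q w z) h3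
    simp only [QuadraticMap.polar_sub_right, polar_smul_right, polar_self, polar_symm Q w v, hvw,
      QuadraticMap.polar_zero_right] at h4
    have h5 : polar Q y v * (2 * Q w) = 0 := by linear_combination h4
    rcases mul_eq_zero.1 h5 with h6 | h6
    · rw [polar_symm] at h6; exact hvy h6
    · exact mul_ne_zero h.h2 hQw h6
  push Not at hb1
  have hbl0 : h.pr i b ≠ 0 := by
    obtain ⟨x, hx, hxb⟩ := hb1
    intro h0
    rw [← h.pr_polar i b x hx, h0] at hxb
    exact hxb (QuadraticMap.polar_zero_right _ _)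
  have hbb : polar Q b (h.pr i b) = 2 * Q (h.pr i b) := h.pr_self i b
  by_cases hQbl : Q (h.pr i b) = 0
  · -- singular component
    have E : ∀ x ∈ D i, polar Q x b = 0 →
        polar Q y (h.pr i b) • x - (polar Q y x + Q x * polar Q y (h.pr i b)) • h.pr i b = 0 := by
      intro x hx hxb
      have e0 : polar Q (h.pr i b) x = 0 := by rw [h.pr_polar' i b x hx, polar_symm]; exact hxb
      obtain ⟨q1, q2⟩ := h.rm (h.pr_mem i b) hx e0
      have hg := q2 hQbl q1
      have h1 := hr.conj hg (h.isog hg)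
      rw [eg_fix _ _ (by rw [hbb, hQbl, mul_zero]) (by rw [polar_symm]; exact hxb), eg_apply] at h1
      have h2 := h1.sub hr
      have e1 : y + polar Q y (h.pr i b) • x - polar Q y x • h.pr i b - (Q x * polar Q y (h.pr i b)) • h.pr i b - y =
          polar Q y (h.pr i b) • x - (polar Q y x + Q x * polar Q y (h.pr i b)) • h.pr i b := by module
      rw [e1] at h2
      exact h.P3 hB hb hb0 hQb hbD ((D i).sub_mem ((D i).smul_mem _ hx) ((D i).smul_mem _ (h.pr_mem i b))) h2
    have hyb : polar Q y (h.pr i b) = 0 := by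
      obtain ⟨w, hw, hvw, hQw⟩ := h.ns_perp (h.pr_mem i b)
      have hwb : polar Q w b = 0 := by rw [← h.pr_polar i b w hw, polar_symm]; exact hvw
      have h4 := congrArg (fun z => polar Q w z) (E w hw hwb)
      simp only [QuadraticMap.polar_sub_right, polar_smul_right, polar_self, polar_symm Q w (h.pr i b), hvw,
        QuadraticMap.polar_zero_right] at h4
      have h5 : polar Q y (h.pr i b) * (2 * Q w) = 0 := by linear_combination h4
      exact (mul_eq_zero.1 h5).resolve_right (mul_ne_zero h.h2 hQw)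
    intro x hx hxb
    have h4 := E x hx hxb
    rw [hyb, zero_smul, mul_zero, add_zero, zero_sub, neg_eq_zero] at h4
    rw [polar_symm]
    exact (smul_eq_zero.1 h4).resolve_right hbl0
  · -- nonsingular component
    obtain ⟨m, hml, hQm⟩ := h.other hQb hQbl
    have ns : ∀ x ∈ D i, polar Q x b = 0 → Q x ≠ 0 → polar Q x y = 0 := by
      intro x hx hxb hQx
      obtain ⟨x₁, x₂, e1, e2, e3, e4, e5⟩ := two_norm (h.ndi m) h.h2 (by rw [h.fr]; exact h.hk)
        (by rw [h.fr]; exact h.hq) (b := ⟨h.pr m b, h.pr_mem m b⟩) hQm hQx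
      have e1' : polar Q b (x₁ : ι → F) = 0 := by rw [← h.pr_polar' m b x₁ x₁.2]; exact e1
      have e2' : polar Q b (x₂ : ι → F) = 0 := by rw [← h.pr_polar' m b x₂ x₂.2]; exact e2
      have e3' : Q (x₁ : ι → F) = Q x := e3
      have e4' : Q (x₂ : ι → F) = Q x := e4
      have hbx : polar Q b x = 0 := by rw [polar_symm]; exact hxb
      have R : ∀ x' ∈ D m, polar Q b x' = 0 → Q x' = Q x →
          RP Q G b ((-((Q x)⁻¹)) • (polar Q y x • x + polar Q y x' • x')) := by
        intro x' hx' hbx' hQx'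
        obtain ⟨g, hg, hgv⟩ := h.rfl2 hx hx' hQx hQx'
        have h1 := hr.conj hg (h.isog hg)
        rw [hgv, hgv, refl_fix hbx', refl_fix hbx, refl_apply Q x', refl_apply, QuadraticMap.polar_sub_left,
          polar_smul_left, polar_symm Q x' x, h.orth i m (Ne.symm hml) x hx x' hx', hQx'] at h1
        have h2 := h1.sub hr
        convert h2 using 1
        module
      have hs : -((Q x)⁻¹) ≠ 0 := neg_ne_zero.2 (inv_ne_zero hQx)
      have r1 := h.smulR hB hb hb0 hQb hs (R x₁ x₁.2 e1' e3')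
      have r2 := h.smulR hB hb hb0 hQb hs (R x₂ x₂.2 e2' e4')
      have r3 := r1.sub r2
      have e6 : polar Q y x • x + polar Q y (x₁ : ι → F) • (x₁ : ι → F) -
          (polar Q y x • x + polar Q y (x₂ : ι → F) • (x₂ : ι → F)) =
          polar Q y (x₁ : ι → F) • (x₁ : ι → F) - polar Q y (x₂ : ι → F) • (x₂ : ι → F) := by module
      rw [e6] at r3
      have h3 := h.P3 hB hb hb0 hQb hbD ((D m).sub_mem ((D m).smul_mem _ x₁.2) ((D m).smul_mem _ x₂.2)) r3
      have h4 : polar Q y (x₂ : ι → F) = 0 := by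
        by_contra hne
        apply e5
        rw [Submodule.mem_span_singleton]
        refine ⟨(polar Q y (x₂ : ι → F))⁻¹ * polar Q y (x₁ : ι → F), Subtype.ext ?_⟩
        rw [Submodule.coe_smul, mul_smul, sub_eq_zero.1 h3, smul_smul, inv_mul_cancel₀ hne, one_smul]
      rw [h4, zero_smul, add_zero] at r2
      have h5 := h.P3 hB hb hb0 hQb hbD ((D i).smul_mem _ hx) r2
      have hx0 : x ≠ 0 := by rintro rfl; exact hQx (QuadraticMap.map_zero Q)
      rw [polar_symm]
      exact (smul_eq_zero.1 h5).resolve_right hx0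
    intro x hx hxb
    by_cases hQx : Q x = 0
    · by_cases hx0 : x = 0
      · rw [hx0]; exact QuadraticMap.polar_zero_left _ _
      -- a partner in the block orthogonal to `b`
      have hdis : Disjoint (Submodule.span F {(⟨h.pr i b, h.pr_mem i b⟩ : D i)})
          (perp (Q.comp (D i).subtype) (Submodule.span F {(⟨h.pr i b, h.pr_mem i b⟩ : D i)})) :=
        disjoint_span_singleton (Q := Q.comp (D i).subtype) h.h2 hQbl
      have hPn := nd_perp (h.ndi i) hdis
      have hxP : (⟨x, hx⟩ : D i) ∈ perp (Q.comp (D i).subtype) (Submodule.span F {(⟨h.pr i b, h.pr_mem i b⟩ : D i)}) := by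
        rw [mem_perp_span_singleton]
        show polar Q (h.pr i b) x = 0
        rw [h.pr_polar' i b x hx, polar_symm]; exact hxb
      obtain ⟨z, hz, hxz⟩ := exists_partner hPn (u := ⟨⟨x, hx⟩, hxP⟩)
        (fun h0 => hx0 (congrArg (fun t => ((t : perp (Q.comp (D i).subtype) _) : D i).1) h0)) hQx
      have hz' : Q (((z : perp (Q.comp (D i).subtype) _) : D i) : ι → F) = 0 := hz
      have hxz' : polar Q x (((z : perp (Q.comp (D i).subtype) _) : D i) : ι → F) = 1 := hxz
      have hzb : polar Q (((z : perp (Q.comp (D i).subtype) _) : D i) : ι → F) b = 0 := by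
        have h6 := mem_perp_span_singleton.1 z.2
        have h7 : polar Q (h.pr i b) (((z : perp (Q.comp (D i).subtype) _) : D i) : ι → F) = 0 := h6
        rw [polar_symm, ← h.pr_polar' i b _ ((z : perp (Q.comp (D i).subtype) _) : D i).2]
        exact h7
      set z' : ι → F := (((z : perp (Q.comp (D i).subtype) _) : D i) : ι → F) with hz'def
      have hzD : z' ∈ D i := ((z : perp (Q.comp (D i).subtype) _) : D i).2
      have n1 := ns (x + z') ((D i).add_mem hx hzD) (by rw [QuadraticMap.polar_add_left, hxb, hzb, add_zero])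
        (by rw [Cfsg.Agent.H16.Quad.map_add, hQx, hz', hxz']; simp)
      have n2 := ns (x - z') ((D i).sub_mem hx hzD) (by rw [QuadraticMap.polar_sub_left, hxb, hzb, sub_zero])
        (by rw [Cfsg.Agent.H16.Quad.map_sub, hQx, hz', hxz']; simp)
      rw [QuadraticMap.polar_add_left] at n1
      rw [QuadraticMap.polar_sub_left] at n2
      have n3 : 2 * polar Q x y = 0 := by linear_combination n1 + n2
      exact (mul_eq_zero.1 n3).resolve_left h.h2
    · exact ns x hx hxb hQx

/-- a hyperbolic partner and a nonsingular vector in a block -/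
theorem hypB (h : NL Q G k D) (hB : Bk G D B) {b : ι → F} (hb : b ∈ B) (hb0 : b ≠ 0) (hQb : Q b = 0) :
    ∃ b' ∈ B, ∃ y ∈ B, Q b' = 0 ∧ polar Q b b' = 1 ∧ polar Q b y = 0 ∧ polar Q b' y = 0 ∧ Q y ≠ 0 := by
  obtain ⟨b', hb', hbb'⟩ := exists_partner (h.ndB hB) (u := ⟨b, hb⟩) (fun h0 => hb0 (congrArg Subtype.val h0)) hQb
  have hyp : HypFam (Q.comp B.subtype) (fun _ : Fin 1 => (⟨b, hb⟩ : B)) (fun _ : Fin 1 => b') := by
    refine ⟨fun _ => hQb, fun _ => hb', fun i j => ?_, fun i j => ?_, fun i j => ?_⟩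
    · rw [hbb', if_pos (Subsingleton.elim _ _)]
    · rw [polar_self]
      have : (Q.comp B.subtype) ⟨b, hb⟩ = 0 := hQb
      rw [this, mul_zero]
    · rw [polar_self, hb', mul_zero]
  have hfr := hyp.finrank_perp (h.ndB hB)
  rw [Fintype.card_fin, h.frB hB] at hfr
  obtain ⟨y, hy⟩ := exists_nonsing (nd_perp (h.ndB hB) hyp.disjoint) (by rw [hfr]; have := h.hk; omega)
  have hy2 := mem_perp_hspan.1 y.2
  exact ⟨b', b'.2, _, (y : perp (Q.comp B.subtype) _).1.2, hb', hbb', hy2.1 0, hy2.2 0, hy⟩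

/-- non-blocks contain no singular vectors of blocks -/
theorem alpha (h : NL Q G k D) (hB : Bk G D B) (hne : ∀ i, B ≠ D i) {b : ι → F} (hb : b ∈ B) (hb0 : b ≠ 0)
    (hQb : Q b = 0) (l : Fin t) : b ∉ D l := by
  intro hbl
  have hiff : ∀ y, (y ∈ B ∧ polar Q b y = 0) ↔ (y ∈ D l ∧ polar Q b y = 0) := fun y => by
    rw [← h.iffB hB hb hb0 hQb, ← h.iffB (block l) hbl hb0 hQb]
  obtain ⟨b', hb', y, hy, hQb', hbb', hby, hb'y, hQy⟩ := h.hypB hB hb hb0 hQb
  have hb'0 : b' ≠ 0 := by
    rintro rfl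
    rw [QuadraticMap.polar_zero_right] at hbb'
    exact zero_ne_one hbb'
  have hb'D : ∀ i, b' ∉ D i := by
    intro i hi
    by_cases hil : i = l
    · subst hil
      apply hne i
      apply Submodule.eq_of_le_of_finrank_eq
      · intro z hz
        have h1 : z - polar Q b z • b' ∈ B ∧ polar Q b (z - polar Q b z • b') = 0 :=
          ⟨B.sub_mem hz (B.smul_mem _ hb'), by rw [QuadraticMap.polar_sub_right, polar_smul_right, hbb']; ring⟩
        have h2 := ((hiff _).1 h1).1
        have h3 := (D i).add_mem h2 ((D i).smul_mem (polar Q b z) hi)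
        rwa [sub_add_cancel] at h3
      · rw [h.frB hB, h.fr]
    · rw [h.orth l i (Ne.symm hil) b hbl b' hi] at hbb'
      exact zero_ne_one hbb'
  have hyD : y ∈ D l := ((hiff y).1 ⟨hy, hby⟩).1
  have hr : RP Q G b' y := (h.iffB hB hb' hb'0 hQb' y).2 ⟨hy, hb'y⟩
  have h1 := h.par hB hb' hb'0 hQb' hb'D hr l y hyD (by rw [polar_symm]; exact hb'y)
  rw [polar_self] at h1
  exact mul_ne_zero h.h2 hQy h1

/-- rank one -/
theorem rank1 (h : NL Q G k D) (hB : Bk G D B) (hne : ∀ i, B ≠ D i) (i : Fin t) :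
    ∃ b₀ ∈ B, b₀ ≠ 0 ∧ ∀ x ∈ D i, polar Q x b₀ = 0 → ∀ z ∈ B, polar Q x z = 0 := by
  obtain ⟨b, hb0, hQb⟩ := exists_singular (h.ndB hB) (by rw [h.frB hB]; exact h.hk)
  obtain ⟨b, hb⟩ := b
  have hb0' : b ≠ 0 := fun h0 => hb0 (Subtype.ext h0)
  change Q b = 0 at hQb
  obtain ⟨b', hb', y, hy, hQb', hbb', hby, hb'y, hQy⟩ := h.hypB hB hb hb0' hQb
  have hb'0 : b' ≠ 0 := by
    rintro rfl
    rw [QuadraticMap.polar_zero_right] at hbb'
    exact zero_ne_one hbb'
  have hb'b : polar Q b' b = 1 := by rw [polar_symm]; exact hbb'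
  have g : ∀ c ∈ B, c ≠ 0 → Q c = 0 → ∀ z ∈ B, polar Q c z = 0 → ∀ x ∈ D i, polar Q x c = 0 → polar Q x z = 0 := by
    intro c hc hc0 hQc z hz hcz
    exact h.par hB hc hc0 hQc (h.alpha hB hne hc hc0 hQc) ((h.iffB hB hc hc0 hQc z).2 ⟨hz, hcz⟩) i
  by_cases h1 : ∀ x ∈ D i, polar Q x b = 0 → polar Q x b' = 0
  · refine ⟨b, hb, hb0', fun x hx hxb z hz => ?_⟩
    have h2 := g b hb hb0' hQb (z - polar Q b z • b') (B.sub_mem hz (B.smul_mem _ hb'))
      (by rw [QuadraticMap.polar_sub_right, polar_smul_right, hbb']; ring) x hx hxb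
    rw [QuadraticMap.polar_sub_right, polar_smul_right, h1 x hx hxb] at h2
    linear_combination h2
  by_cases h2 : ∀ x ∈ D i, polar Q x b' = 0 → polar Q x b = 0
  · refine ⟨b', hb', hb'0, fun x hx hxb z hz => ?_⟩
    have h3 := g b' hb' hb'0 hQb' (z - polar Q b' z • b) (B.sub_mem hz (B.smul_mem _ hb))
      (by rw [QuadraticMap.polar_sub_right, polar_smul_right, hb'b]; ring) x hx hxb
    rw [QuadraticMap.polar_sub_right, polar_smul_right, h2 x hx hxb] at h3
    linear_combination h3
  exfalso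
  push Not at h1 h2
  obtain ⟨x, hx, hxb, hxb'⟩ := h1
  obtain ⟨x', hx', hx'b', hx'b⟩ := h2
  have hxy := g b hb hb0' hQb y hy hby x hx hxb
  have hx'y := g b' hb' hb'0 hQb' y hy hb'y x' hx' hx'b'
  -- the third singular vector
  have hc : b + y - Q y • b' ∈ B := B.sub_mem (B.add_mem hb hy) (B.smul_mem _ hb')
  have hQc : Q (b + y - Q y • b') = 0 := by
    rw [Cfsg.Agent.H16.Quad.map_sub, Cfsg.Agent.H16.Quad.map_add, Cfsg.Agent.H16.Quad.map_smul, hQb, hQb', hby,
      polar_smul_right, QuadraticMap.polar_add_left, hbb', polar_symm Q y, hb'y]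
    ring
  have hc0 : b + y - Q y • b' ≠ 0 := by
    intro h0
    have h3 := congrArg (fun z => polar Q b' z) h0
    simp only [QuadraticMap.polar_sub_right, QuadraticMap.polar_add_right, polar_smul_right, hb'b, hb'y, polar_self, hQb',
      QuadraticMap.polar_zero_right] at h3
    apply one_ne_zero (α := F)
    linear_combination h3
  have hz : y - (2 * Q y) • b' ∈ B := B.sub_mem hy (B.smul_mem _ hb')
  have hcz : polar Q (b + y - Q y • b') (y - (2 * Q y) • b') = 0 := by
    simp only [QuadraticMap.polar_sub_right, QuadraticMap.polar_sub_left, QuadraticMap.polar_add_left, polar_smul_right,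
      polar_smul_left, hby, hbb', polar_self, hb'y, hQb', polar_symm Q y b']
    ring
  have h3 := g _ hc hc0 hQc _ hz hcz (polar Q x' b • x + (Q y * polar Q x b') • x')
    ((D i).add_mem ((D i).smul_mem _ hx) ((D i).smul_mem _ hx')) (by
      simp only [QuadraticMap.polar_sub_right, QuadraticMap.polar_add_right, QuadraticMap.polar_add_left,
        polar_smul_right, polar_smul_left, hxb, hx'b', hxy, hx'y]
      ring)
  simp only [QuadraticMap.polar_sub_right, QuadraticMap.polar_add_left, polar_smul_right, polar_smul_left, hx'b', hxy,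
    hx'y] at h3
  have h4 : polar Q x' b * (2 * Q y) * polar Q x b' = 0 := by linear_combination -h3
  exact mul_ne_zero (mul_ne_zero hx'b (mul_ne_zero h.h2 hQy)) hxb' h4

/-- every block image is a block -/
theorem all_blocks (h : NL Q G k D) (hB : Bk G D B) : ∃ i, B = D i := by
  by_contra hcon
  have hne : ∀ i, B ≠ D i := fun i hi => hcon ⟨i, hi⟩
  have hk := h.hk
  obtain ⟨u, hu0, -⟩ := exists_singular (h.ndB hB) (by rw [h.frB hB]; exact h.hk)
  -- a block not orthogonal to B
  obtain ⟨i, x₀, hx₀, z₀, hz₀, hxz⟩ : ∃ i, ∃ x ∈ D i, ∃ z ∈ B, polar Q x z ≠ 0 := by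
    by_contra hcon
    push Not at hcon
    apply hu0
    apply Subtype.ext
    exact h.eq_zero fun i y hy => hcon i y hy u u.2
  obtain ⟨b₀, hb₀, hb₀0, hb₀x⟩ := h.rank1 hB hne i
  -- a singular vector of B not orthogonal to D i
  obtain ⟨b, hb, hb0, hQb, v, hv, hvb⟩ : ∃ b ∈ B, b ≠ 0 ∧ Q b = 0 ∧ ∃ v ∈ D i, polar Q v b ≠ 0 := by
    by_contra hcon
    push Not at hcon
    apply hxz
    have h1 : (⟨z₀, hz₀⟩ : B) ∈ Submodule.span F {v : B | (Q.comp B.subtype) v = 0} := by
      rw [span_singular (h.ndB hB) (by rw [h.frB hB]; exact h.hk)]; trivial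
    have h2 : ∀ z : B, z ∈ Submodule.span F {v : B | (Q.comp B.subtype) v = 0} → polar Q x₀ (z : ι → F) = 0 := by
      intro z hz
      induction hz using Submodule.span_induction with
      | mem z hz =>
        by_cases hz0 : (z : ι → F) = 0
        · rw [hz0]; exact QuadraticMap.polar_zero_right _ _
        · exact hcon z z.2 hz0 hz x₀ hx₀
      | zero => exact QuadraticMap.polar_zero_right _ _
      | add a b _ _ ha hb => rw [Submodule.coe_add, QuadraticMap.polar_add_right, ha, hb, add_zero]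
      | smul c a _ ha => rw [Submodule.coe_smul, polar_smul_right, ha, mul_zero]
    exact h2 _ h1
  obtain ⟨b', hb', y, hy, hQb', hbb', hby, hb'y, hQy⟩ := h.hypB hB hb hb0 hQb
  -- Siegel elements of B preserve D i
  have key : ∀ y ∈ B, ∀ hby : polar Q b y = 0, (eg hQb hby : Matrix ι ι F) *ᵥ v ∈ D i := by
    intro y hy hby
    have hg : eg hQb hby ∈ G := ((h.iffB hB hb hb0 hQb y).2 ⟨hy, hby⟩).2 hQb hby
    have hB' := map (block (G := G) (D := D) i) hg
    -- common part
    have hcom : ∀ x ∈ D i, polar Q x b₀ = 0 → x ∈ (D i).map (Matrix.toLin' (eg hQb hby : Matrix ι ι F)) := by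
      intro x hx hxb
      refine ⟨x, hx, ?_⟩
      rw [Matrix.toLin'_apply]
      exact eg_fix hQb hby (hb₀x x hx hxb b hb) (hb₀x x hx hxb y hy)
    have hdim : ∀ c : ι → F, ∃ x ∈ D i, x ≠ 0 ∧ polar Q x b₀ = 0 ∧ polar Q x c = 0 := by
      intro c
      have h1 := Submodule.finrank_sup_add_finrank_inf_eq (D i) (perp Q (Submodule.span F ({b₀, c} : Set (ι → F))))
      have h2 := finrank_add_finrank_perp h.nd (Submodule.span F ({b₀, c} : Set (ι → F)))
      have h3 : finrank F (Submodule.span F ({b₀, c} : Set (ι → F))) ≤ 2 := by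
        classical
        have h8 := finrank_span_finset_le_card (R := F) ({b₀, c} : Finset (ι → F))
        rw [Finset.coe_pair] at h8
        exact h8.trans Finset.card_le_two
      have h4 := Submodule.finrank_le (D i ⊔ perp Q (Submodule.span F ({b₀, c} : Set (ι → F))))
      rw [h.fr] at h1
      obtain ⟨x, hx, hx0⟩ := exists_mem_ne_zero (F := F)
        (W := D i ⊓ perp Q (Submodule.span F ({b₀, c} : Set (ι → F)))) (by omega)
      obtain ⟨hx1, hx2⟩ := Submodule.mem_inf.1 hx
      rw [Cfsg.Agent.H16.Quad.mem_perp_span] at hx2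
      refine ⟨x, hx1, hx0, ?_, ?_⟩
      · rw [polar_symm]; exact hx2 b₀ (by simp)
      · rw [polar_symm]; exact hx2 c (by simp)
    have hblk : (D i).map (Matrix.toLin' (eg hQb hby : Matrix ι ι F)) = D i := by
      by_cases hex : ∃ l, (D i).map (Matrix.toLin' (eg hQb hby : Matrix ι ι F)) = D l
      · obtain ⟨l, hl⟩ := hex
        obtain ⟨x, hx, hx0, hxb, -⟩ := hdim 0
        have h1 := hcom x hx hxb
        rw [hl] at h1
        rw [hl, h.eq_block hx0 hx h1]
      · exfalso
        have hne' : ∀ l, (D i).map (Matrix.toLin' (eg hQb hby : Matrix ι ι F)) ≠ D l := fun l hl => hex ⟨l, hl⟩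
        obtain ⟨b₁, hb₁, hb₁0, hb₁x⟩ := h.rank1 hB' hne' i
        obtain ⟨x, hx, hx0, hxb, hxc⟩ := hdim b₁
        have h1 := hb₁x x hx hxc
        apply hx0
        exact Submodule.disjoint_def.1 (h.disB hB') x (hcom x hx hxb) (mem_perp'.2 h1)
    rw [← hblk]
    exact ⟨v, hv, by rw [Matrix.toLin'_apply]⟩
  have k1 := key y hy hby
  have k2 := key (-y) (B.neg_mem hy) (by rw [QuadraticMap.polar_neg_right, hby, neg_zero])
  rw [eg_apply] at k1 k2
  have k3 := (D i).sub_mem ((D i).sub_mem ((D i).add_mem k1 k2) hv) hv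
  rw [QuadraticMap.map_neg, QuadraticMap.polar_neg_right] at k3
  have e1 : v + polar Q v b • y - polar Q v y • b - (Q y * polar Q v b) • b +
      (v + polar Q v b • -y - -polar Q v y • b - (Q y * polar Q v b) • b) - v - v = (-(2 * Q y * polar Q v b)) • b := by
    module
  rw [e1] at k3
  have hne2 : -(2 * Q y * polar Q v b) ≠ 0 := neg_ne_zero.2 (mul_ne_zero (mul_ne_zero h.h2 hQy) hvb)
  have k4 := (D i).smul_mem (-(2 * Q y * polar Q v b))⁻¹ k3
  rw [smul_smul, inv_mul_cancel₀ hne2, one_smul] at k4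
  exact h.alpha hB hne hb hb0 hQb i k4

/-- conclusion of the case without links -/
theorem le_dec (h : NL Q G k D) : G ≤ decompositionStabilizer D := by
  intro g hg
  have h1 : ∀ i, ∃ j, (D i).map (Matrix.toLin' (g : Matrix ι ι F)) = D j := fun i =>
    h.all_blocks (map (block (G := G) (D := D) i) hg)
  choose f hf using h1
  have hinj : Function.Injective f := by
    intro i j hij
    have h2 : (D i).map (Matrix.toLin' (g : Matrix ι ι F)) = (D j).map (Matrix.toLin' (g : Matrix ι ι F)) := by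
      rw [hf, hf, hij]
    have h3 := Submodule.map_injective_of_injective (gl_inj g) h2
    obtain ⟨x, hx, hx0⟩ := exists_mem_ne_zero (F := F) (W := D i) (by rw [h.fr]; have := h.hk; omega)
    exact h.eq_block hx0 hx (by rw [← h3]; exact hx)
  exact ⟨Equiv.ofBijective f (Finite.injective_iff_bijective.1 hinj), hf⟩

end NL

end Cfsg.Agent.H29.Sg
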