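import Mathlib
import Cfsg.Agent.H29_Sg21
import Cfsg.Agent.H29_Sg15

set_option autoImplicit false

/-! Orthogonal decompositions: links. -/

namespace Cfsg.Agent.H29.Sg

open Matrix Module Cfsg.Geo Cfsg.Agent.H16.Quad Cfsg.Agent.H29.Trv
open QuadraticMap (polar)

variable {F : Type*} [Field F] [Finite F] {ι : Type} [Fintype ι] [DecidableEq ι]
variable {Q : QuadraticForm F (ι → F)} {G : Subgroup (GL ι F)} {t k : ℕ} {D : Fin t → Submodule F (ι → F)}

theorem RP.sum {α : Type*} (s : Finset α) {a : ι → F} (f : α → (ι → F)) (hf : ∀ i ∈ s, RP Q G a (f i)) :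
    RP Q G a (∑ i ∈ s, f i) := by
  classical
  induction s using Finset.induction_on with
  | empty => rw [Finset.sum_empty]; exact RP.zero
  | insert i s hi ih =>
    rw [Finset.sum_insert hi]
    exact (hf i (Finset.mem_insert_self _ _)).add (ih fun j hj => hf j (Finset.mem_insert_of_mem hj))

/-- links -/
def Lk (Q : QuadraticForm F (ι → F)) (G : Subgroup (GL ι F)) {t : ℕ} (D : Fin t → Submodule F (ι → F)) (i j : Fin t) :
    Prop := ∀ b ∈ D i, Q b = 0 → ∀ w ∈ D j, RP Q G b w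

namespace OD

theorem ex_ne (h : OD Q G k D) {i : Fin t} {v : ι → F} (hv : v ∈ D i) (hv0 : v ≠ 0) : ∃ x ∈ D i, polar Q x v ≠ 0 := by
  by_contra hcon
  push Not at hcon
  exact hv0 (Submodule.disjoint_def.1 (h.dis i) v hv (mem_perp.2 hcon))

theorem ex_sing (h : OD Q G k D) (i : Fin t) : ∃ v ∈ D i, Q v = 0 ∧ v ≠ 0 := by
  have hk := h.hk
  obtain ⟨v, hv, hv0⟩ := exists_mem_ne_zero (F := F) (W := D i) (by rw [h.fr]; omega)
  obtain ⟨w, hw, h1, h2, -⟩ := h.sing_ne (h.ex_ne hv hv0)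
  exact ⟨w, hw, h1, h2⟩

theorem lkA (h : OD Q G k D) {j : Fin t} {b y : ι → F} (hbD : ∀ x ∈ D j, polar Q x b = 0) (hRP : RP Q G b y)
    {v : ι → F} (hv : v ∈ D j) (hQv : Q v = 0) (hvy : polar Q v y ≠ 0) :
    (∀ μ : F, RP Q G b (μ • v)) ∧ ∀ w ∈ D j, polar Q v w = 0 → RP Q G b w := by
  have hE : ∀ w ∈ D j, polar Q v w = 0 → RP Q G b (polar Q v y • w - polar Q y w • v - (Q w * polar Q v y) • v) := by
    intro w hw hvw
    have hG : eg hQv hvw ∈ G := (h.rm hv hw hvw).2 hQv hvw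
    have h1 := hRP.conj hG (h.isog hG)
    rw [eg_fix hQv hvw (by rw [polar_symm]; exact hbD v hv) (by rw [polar_symm]; exact hbD w hw)] at h1
    have h2 := h1.sub hRP
    rw [eg_apply] at h2
    convert h2 using 1
    rw [polar_symm Q y v]
    module
  obtain ⟨w₀, hw₀, hvw₀, hQw₀⟩ := h.ns_perp hv
  have h2 := h.h2
  have hμ : ∀ μ : F, RP Q G b (μ • v) := by
    intro μ
    have hl : ∀ l : F, RP Q G b ((-(2 * l * Q w₀ * polar Q v y)) • v) := by
      intro l
      have h3 := hE (l • w₀ + w₀) ((D j).add_mem ((D j).smul_mem _ hw₀) hw₀)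
        (by rw [QuadraticMap.polar_add_right, polar_smul_right, hvw₀]; ring)
      have h4 := hE (l • w₀) ((D j).smul_mem _ hw₀) (by rw [polar_smul_right, hvw₀]; ring)
      have h5 := hE w₀ hw₀ hvw₀
      have h6 := (h3.sub h4).sub h5
      convert h6 using 1
      rw [Cfsg.Agent.H16.Quad.map_add, Cfsg.Agent.H16.Quad.map_smul, polar_smul_left, polar_self,
        QuadraticMap.polar_add_right, polar_smul_right]
      module
    have h7 := hl (-(μ * (2 * Q w₀ * polar Q v y)⁻¹))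
    have h8 : (-(2 * (-(μ * (2 * Q w₀ * polar Q v y)⁻¹)) * Q w₀ * polar Q v y)) = μ := by
      field_simp
    rwa [h8] at h7
  refine ⟨hμ, fun w hw hvw => ?_⟩
  have h3 := hE ((polar Q v y)⁻¹ • w) ((D j).smul_mem _ hw) (by rw [polar_smul_right, hvw, mul_zero])
  have h4 := (h3.add (hμ (polar Q y ((polar Q v y)⁻¹ • w)))).add (hμ (Q ((polar Q v y)⁻¹ • w) * polar Q v y))
  convert h4 using 1
  rw [smul_smul, mul_inv_cancel₀ hvy, one_smul]
  abel

theorem lk1 (h : OD Q G k D) {j : Fin t} {b y : ι → F} (hbD : ∀ x ∈ D j, polar Q x b = 0) (hRP : RP Q G b y)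
    (hne : ∃ x ∈ D j, polar Q x y ≠ 0) : ∀ w ∈ D j, RP Q G b w := by
  obtain ⟨v, hv, hQv, hv0, hvy⟩ := h.sing_ne hne
  obtain ⟨hA, hB⟩ := h.lkA hbD hRP hv hQv hvy
  obtain ⟨v', hv', hQv', hv0', hvv'⟩ := h.sing_ne (h.ex_ne hv hv0)
  have hRP' := hA 1
  rw [one_smul] at hRP'
  obtain ⟨hA', hB'⟩ := h.lkA hbD hRP' hv' hQv' hvv'
  intro w hw
  have h3 := hB (w - (polar Q v w * (polar Q v' v)⁻¹) • v') ((D j).sub_mem hw ((D j).smul_mem _ hv')) (by
    rw [QuadraticMap.polar_sub_right, polar_smul_right, polar_symm Q v v']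
    field_simp; ring)
  have h4 := h3.add (hA' (polar Q v w * (polar Q v' v)⁻¹))
  convert h4 using 1
  module

theorem orth' (h : OD Q G k D) {i j : Fin t} (hij : i ≠ j) {b : ι → F} (hb : b ∈ D i) : ∀ x ∈ D j, polar Q x b = 0 :=
  fun x hx => h.orth j i (Ne.symm hij) x hx b hb

theorem lk_of1 (h : OD Q G k D) {i j : Fin t} (hij : i ≠ j) {b : ι → F} (hb : b ∈ D i) (hb0 : b ≠ 0) (hQb : Q b = 0)
    (hall : ∀ w ∈ D j, RP Q G b w) : Lk Q G D j i := by
  intro w hw hQw x hx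
  exact h.lk1 (h.orth' (Ne.symm hij) hw) ((hall w hw).symm hQb) (h.ex_ne hb hb0) x hx

theorem lk_rev (h : OD Q G k D) {i j : Fin t} (hij : i ≠ j) (hL : Lk Q G D i j) : Lk Q G D j i := by
  obtain ⟨v, hv, hQv, hv0⟩ := h.ex_sing i
  exact h.lk_of1 hij hv hv0 hQv (hL v hv hQv)

theorem lk_of (h : OD Q G k D) {i j : Fin t} (hij : i ≠ j) {b y : ι → F} (hb : b ∈ D i) (hb0 : b ≠ 0) (hQb : Q b = 0)
    (hRP : RP Q G b y) (hj : h.pr j y ≠ 0) : Lk Q G D i j := by
  apply h.lk_rev (Ne.symm hij)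
  apply h.lk_of1 hij hb hb0 hQb
  apply h.lk1 (h.orth' hij hb) hRP
  obtain ⟨x, hx, hxy⟩ := h.ex_ne (h.pr_mem j y) hj
  exact ⟨x, hx, by rwa [h.pr_polar j y x hx] at hxy⟩

theorem pr_same (h : OD Q G k D) {i : Fin t} {x : ι → F} (hx : x ∈ D i) : h.pr i x = x :=
  Submodule.projection_apply_of_mem_left _ hx

theorem pr_ne (h : OD Q G k D) {i l : Fin t} (hil : i ≠ l) {x : ι → F} (hx : x ∈ D l) : h.pr i x = 0 := by
  rw [OD.pr, Submodule.projection_apply_eq_zero_iff (isCompl_perp (h.dis i)), mem_perp]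
  exact fun y hy => h.orth i l hil y hy x hx

/-- lists of vectors of a block -/
theorem rpr_block (h : OD Q G k D) {m : Fin t} (ws : List (ι → F)) (hws : ∀ w ∈ ws, w ∈ D m) (l : Fin t) :
    ∀ x ∈ D l, (rpr Q ws : (ι → F) ≃ₗ[F] (ι → F)) x ∈ D l := by
  induction ws with
  | nil => intro x hx; exact hx
  | cons z ws ih =>
    intro x hx
    rw [rpr_cons]
    have h1 := ih (fun w hw => hws w (List.mem_cons_of_mem _ hw)) x hx
    have hz := hws z List.mem_cons_self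
    show refl Q z _ ∈ D l
    set y := (rpr Q ws : (ι → F) ≃ₗ[F] (ι → F)) x
    by_cases hlm : l = m
    · subst hlm
      rw [refl_apply]
      exact (D l).sub_mem h1 ((D l).smul_mem _ hz)
    · have h2 : refl Q z y = y := refl_fix (h.orth l m hlm y h1 z hz)
      have h3 : refl Q z y ∈ D l := by rw [h2]; exact h1
      exact h3

end OD

end Cfsg.Agent.H29.Sg
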