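import Mathlib
import Cfsg.Agent.H29_Sg22

set_option autoImplicit false

/-! Orthogonal decompositions: swaps and the maximality theorem. -/

namespace Cfsg.Agent.H29.Sg

open Matrix Module Cfsg.Geo Cfsg.Agent.H16.Quad Cfsg.Agent.H29.Trv
open QuadraticMap (polar)

variable {F : Type*} [Field F] [Finite F] {ι : Type} [Fintype ι] [DecidableEq ι]
variable {Q : QuadraticForm F (ι → F)} {G : Subgroup (GL ι F)} {t k : ℕ} {D : Fin t → Submodule F (ι → F)}

namespace OD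

/-- a list of at most two vectors of a block correcting parity and spinor norm -/
theorem fix_list (h : OD Q G k D) (m : Fin t) (vs : List (ι → F)) (hvs : ∀ v ∈ vs, Q v ≠ 0) :
    ∃ ws : List (ι → F), (∀ w ∈ ws, w ∈ D m) ∧ (∀ w ∈ ws, Q w ≠ 0) ∧ Even (vs ++ ws).length ∧
      IsSquare ((vs ++ ws).map Q).prod := by
  have hk := h.hk
  have hP : (vs.map Q).prod ≠ 0 := by
    apply List.prod_ne_zero
    intro h0
    obtain ⟨v, hv, hv0⟩ := List.mem_map.1 h0
    exact hvs v hv hv0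
  obtain ⟨z, hz⟩ := exists_norm (h.ndi m) (by rw [h.fr]; omega) hP
  obtain ⟨z', hz'⟩ := exists_norm (h.ndi m) (by rw [h.fr]; omega) (one_ne_zero (α := F))
  have hz1 : Q (z : ι → F) = (vs.map Q).prod := hz
  have hz1' : Q (z' : ι → F) = 1 := hz'
  rcases Nat.even_or_odd vs.length with he | ho
  · refine ⟨[(z : ι → F), (z' : ι → F)], ?_, ?_, ?_, ?_⟩
    · intro w hw
      simp only [List.mem_cons, List.not_mem_nil, or_false] at hw
      rcases hw with rfl | rfl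
      · exact z.2
      · exact z'.2
    · intro w hw
      simp only [List.mem_cons, List.not_mem_nil, or_false] at hw
      rcases hw with rfl | rfl
      · rw [hz1]; exact hP
      · rw [hz1']; exact one_ne_zero
    · rw [List.length_append]
      exact he.add (by simp)
    · rw [List.map_append, List.prod_append]
      refine ⟨(vs.map Q).prod, ?_⟩
      simp [hz1, hz1']
  · refine ⟨[(z : ι → F)], ?_, ?_, ?_, ?_⟩
    · intro w hw
      simp only [List.mem_cons, List.not_mem_nil, or_false] at hw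
      rcases hw with rfl
      exact z.2
    · intro w hw
      simp only [List.mem_cons, List.not_mem_nil, or_false] at hw
      rcases hw with rfl
      rw [hz1]; exact hP
    · rw [List.length_append]
      exact ho.add_odd (by simp)
    · rw [List.map_append, List.prod_append]
      refine ⟨(vs.map Q).prod, ?_⟩
      simp [hz1]

/-- isometries permuting the blocks, corrected in a block -/
theorem realise (h : OD Q G k D) (T : OG Q) (σ : Equiv.Perm (Fin t)) (hT : ∀ l, ∀ x ∈ D l, (T : (ι → F) ≃ₗ[F] (ι → F)) x ∈ D (σ l))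
    (m : Fin t) : ∃ g ∈ G, ∀ l, ∀ x ∈ D l, (g : Matrix ι ι F) *ᵥ x ∈ D (σ l) := by
  have h5 := h.h5
  have hd : Nat.card F ≠ 2 ∨ finrank F (ι → F) ≠ 4 := Or.inr (by rw [Module.finrank_fintype_fun_eq_card]; omega)
  obtain ⟨vs, hvs, rfl⟩ := exists_rpr h.nd hd T
  obtain ⟨ws, hws, hws0, he, hs⟩ := h.fix_list m vs hvs
  have hgen : ∃ g : Cfsg.isometryGroup F ⇑Q, toOG Q g = rpr Q (vs ++ ws) := ⟨(toOG Q).symm (rpr Q (vs ++ ws)), by simp⟩
  obtain ⟨g, hg⟩ := hgen
  have hact : ∀ v, ((g : GL ι F) : Matrix ι ι F) *ᵥ v = (rpr Q vs : (ι → F) ≃ₗ[F] (ι → F)) ((rpr Q ws : (ι → F) ≃ₗ[F] (ι → F)) v) := by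
    intro v
    rw [← toOG_apply, hg]
    have h3 : rpr Q (vs ++ ws) = rpr Q vs * rpr Q ws := by simp [rpr]
    rw [h3]
    rfl
  have hact2 : ∀ l, ∀ x ∈ D l, ((g : GL ι F) : Matrix ι ι F) *ᵥ x ∈ D (σ l) := by
    intro l x hx
    rw [hact]
    exact hT l _ (h.rpr_block ws hws l x hx)
  refine ⟨g, h.sub (Subgroup.mem_inf.2 ⟨h.mem_dec σ hact2, ?_⟩), hact2⟩
  refine ⟨g, ?_, rfl⟩
  refine (mem_Omega_rpr_iff h.nd hd (vs := vs ++ ws) ?_ hg).2 ⟨he, hs⟩
  intro v hv
  rcases List.mem_append.1 hv with h | h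
  · exact hvs v h
  · exact hws0 v h

/-- the swap of two blocks -/
theorem swap (h : OD Q G k D) {i j : Fin t} (hij : i ≠ j) :
    ∃ T : OG Q, ∀ l, ∀ x ∈ D l, (T : (ι → F) ≃ₗ[F] (ι → F)) x ∈ D (Equiv.swap i j l) := by
  obtain ⟨φ, hφ⟩ := h.iso i j
  let S : (ι → F) →ₗ[F] (ι → F) := LinearMap.id - h.pr i - h.pr j +
    (D j).subtype ∘ₗ (φ : D i →ₗ[F] D j) ∘ₗ (h.pr i).codRestrict (D i) (h.pr_mem i) +
    (D i).subtype ∘ₗ (φ.symm : D j →ₗ[F] D i) ∘ₗ (h.pr j).codRestrict (D j) (h.pr_mem j)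
  have hS : ∀ v, S v = v - h.pr i v - h.pr j v + (φ ⟨h.pr i v, h.pr_mem i v⟩ : ι → F) +
      (φ.symm ⟨h.pr j v, h.pr_mem j v⟩ : ι → F) := fun v => rfl
  have hQφ : ∀ w : D j, Q (φ.symm w : ι → F) = Q (w : ι → F) := by
    intro w
    rw [← hφ (φ.symm w), LinearEquiv.apply_symm_apply]
  have hci : ∀ v, ∀ x ∈ D i, polar Q (v - h.pr i v - h.pr j v) x = 0 := by
    intro v x hx
    rw [QuadraticMap.polar_sub_left, QuadraticMap.polar_sub_left, h.pr_polar' i v x hx,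
      h.orth j i (Ne.symm hij) _ (h.pr_mem j v) x hx]
    ring
  have hcj : ∀ v, ∀ x ∈ D j, polar Q (v - h.pr i v - h.pr j v) x = 0 := by
    intro v x hx
    rw [QuadraticMap.polar_sub_left, QuadraticMap.polar_sub_left, h.pr_polar' j v x hx,
      h.orth i j hij _ (h.pr_mem i v) x hx]
    ring
  have hQ3 : ∀ c a b : ι → F, (∀ x ∈ D i, polar Q c x = 0) → (∀ x ∈ D j, polar Q c x = 0) → a ∈ D j → b ∈ D i →
      Q (c + a + b) = Q c + Q a + Q b := by
    intro c a b h1 h2 ha hb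
    rw [Cfsg.Agent.H16.Quad.map_add, Cfsg.Agent.H16.Quad.map_add, QuadraticMap.polar_add_left, h2 a ha, h1 b hb,
      h.orth j i (Ne.symm hij) a ha b hb]
    ring
  have hiso : ∀ v, Q (S v) = Q v := by
    intro v
    rw [hS, hQ3 _ _ _ (hci v) (hcj v) (Subtype.coe_prop _) (Subtype.coe_prop _), hφ, hQφ]
    have h1 := hQ3 _ _ _ (hci v) (hcj v) (h.pr_mem j v) (h.pr_mem i v)
    have h2 : v - h.pr i v - h.pr j v + h.pr j v + h.pr i v = v := by abel
    rw [h2] at h1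
    rw [h1]
    ring
  have hpol : ∀ v w, polar Q (S v) (S w) = polar Q v w := by
    intro v w
    rw [QuadraticMap.polar, QuadraticMap.polar, ← _root_.map_add, hiso, hiso, hiso]
  have hinj : Function.Injective S := by
    rw [← LinearMap.ker_eq_bot, eq_bot_iff]
    intro v hv
    rw [Submodule.mem_bot]
    apply nd_eq_zero h.nd
    intro y
    rw [← hpol, LinearMap.mem_ker.1 hv, QuadraticMap.polar_zero_left]
  refine ⟨⟨LinearEquiv.ofInjectiveEndo S hinj, fun x => hiso x⟩, ?_⟩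
  intro l x hx
  show S x ∈ _
  rw [hS]
  by_cases hli : l = i
  · subst hli
    have h1 : (⟨h.pr l x, h.pr_mem l x⟩ : D l) = ⟨x, hx⟩ := Subtype.ext (h.pr_same hx)
    have h2 : (⟨h.pr j x, h.pr_mem j x⟩ : D j) = 0 := Subtype.ext (h.pr_ne (Ne.symm hij) hx)
    rw [h1, h2, h.pr_same hx, h.pr_ne (Ne.symm hij) hx, _root_.map_zero, Equiv.swap_apply_left, sub_self, sub_zero, zero_add,
      Submodule.coe_zero, add_zero]
    exact Subtype.coe_prop _
  · by_cases hlj : l = j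
    · subst hlj
      have h1 : (⟨h.pr l x, h.pr_mem l x⟩ : D l) = ⟨x, hx⟩ := Subtype.ext (h.pr_same hx)
      have h2 : (⟨h.pr i x, h.pr_mem i x⟩ : D i) = 0 := Subtype.ext (h.pr_ne hij hx)
      rw [h1, h2, h.pr_same hx, h.pr_ne hij hx, _root_.map_zero, Equiv.swap_apply_right, sub_zero, sub_self, zero_add,
        Submodule.coe_zero, zero_add]
      exact Subtype.coe_prop _
    · have h1 : (⟨h.pr j x, h.pr_mem j x⟩ : D j) = 0 := Subtype.ext (h.pr_ne (Ne.symm hlj) hx)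
      have h2 : (⟨h.pr i x, h.pr_mem i x⟩ : D i) = 0 := Subtype.ext (h.pr_ne (Ne.symm hli) hx)
      rw [h1, h2, h.pr_ne (Ne.symm hlj) hx, h.pr_ne (Ne.symm hli) hx, _root_.map_zero, _root_.map_zero,
        Equiv.swap_apply_of_ne_of_ne hli hlj, sub_zero, sub_zero, Submodule.coe_zero, Submodule.coe_zero, add_zero, add_zero]
      exact hx

theorem lk_map (h : OD Q G k D) {g : GL ι F} (hg : g ∈ G) (σ : Equiv.Perm (Fin t))
    (hgσ : ∀ l, ∀ x ∈ D l, (g : Matrix ι ι F) *ᵥ x ∈ D (σ l)) {i j : Fin t} (hL : Lk Q G D i j) :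
    Lk Q G D (σ i) (σ j) := by
  have hmap : ∀ l, (D l).map (Matrix.toLin' (g : Matrix ι ι F)) = D (σ l) := by
    intro l
    apply Submodule.eq_of_le_of_finrank_eq
    · rintro _ ⟨x, hx, rfl⟩
      rw [Matrix.toLin'_apply]
      exact hgσ l x hx
    · rw [finrank_gl, h.fr, h.fr]
  intro b hb hQb w hw
  rw [← hmap] at hb hw
  obtain ⟨b, hb, rfl⟩ := hb
  obtain ⟨w, hw, rfl⟩ := hw
  rw [Matrix.toLin'_apply] at hQb ⊢
  rw [Matrix.toLin'_apply]
  rw [h.isog hg] at hQb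
  exact (hL b hb hQb w hw).conj hg (h.isog hg)

theorem lk_all (h : OD Q G k D) {i j : Fin t} (hij : i ≠ j) (hL : Lk Q G D i j) : ∀ l, i ≠ l → Lk Q G D i l := by
  intro l hil
  by_cases hjl : j = l
  · rwa [← hjl]
  obtain ⟨T, hT⟩ := h.swap hjl
  obtain ⟨g, hg, hgσ⟩ := h.realise T _ hT i
  have h1 := h.lk_map hg _ hgσ hL
  rwa [Equiv.swap_apply_left, Equiv.swap_apply_of_ne_of_ne hij hil] at h1

theorem lk_all2 (h : OD Q G k D) {i j : Fin t} (hij : i ≠ j) (hL : Lk Q G D i j) : ∀ a b, a ≠ b → Lk Q G D a b := by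
  intro a b hab
  by_cases hia : i = a
  · subst hia; exact h.lk_all hij hL b hab
  · exact h.lk_all (Ne.symm hia) (h.lk_rev hia (h.lk_all hij hL a hia)) b hab

theorem lk_top (h : OD Q G k D) {i j : Fin t} (hij : i ≠ j) (hL : Lk Q G D i j) : omegaGL ⇑Q ≤ G := by
  have hsc : ∀ b ∈ D i, Q b = 0 → SC Q G b := by
    intro b hb hQb
    refine ⟨hQb, fun hQb' y hy => ?_⟩
    have h1 : RP Q G b (∑ l, h.pr l y) := by
      apply RP.sum
      intro l _
      by_cases hil : i = l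
      · subst hil
        exact h.rm hb (h.pr_mem _ _) (by rw [h.pr_polar i y b hb, hy])
      · exact h.lk_all hij hL l hil b hb hQb _ (h.pr_mem _ _)
    rw [h.sum_pr] at h1
    exact h1.2 hQb' hy
  obtain ⟨v, hv, hQv, hv0⟩ := h.ex_sing i
  obtain ⟨w, hw, hQw, -, hwv⟩ := h.sing_ne (h.ex_ne hv hv0)
  exact SC.all h.nd h.h5 (hsc w hw hQw) (hsc v hv hQv) hwv

end OD

/-- maximality of the decomposition stabiliser -/
theorem od_max (hQ : (QuadraticMap.polarBilin Q).Nondegenerate) (h2 : (2 : F) ≠ 0) (h5 : 5 ≤ Fintype.card ι) (hk : 3 ≤ k)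
    (hq : 5 ≤ Nat.card F ∨ 5 ≤ k) (ht : 2 ≤ t)
    (fr : ∀ i, finrank F (D i) = k) (dis : ∀ i, Disjoint (D i) (perp Q (D i)))
    (orth : ∀ i j, i ≠ j → ∀ x ∈ D i, ∀ y ∈ D j, polar Q x y = 0) (top : iSup D = ⊤)
    (iso : ∀ i j, AreIsometricFor ⇑Q (D i) (D j)) :
    IsMaximalIn (omegaGL ⇑Q) (decompositionStabilizer D ⊓ omegaGL ⇑Q) := by
  have hOD : ∀ M : Subgroup (GL ι F), decompositionStabilizer D ⊓ omegaGL ⇑Q ≤ M → M ≤ omegaGL ⇑Q → OD Q M k D :=
    fun M h1 h3 => ⟨hQ, h2, h5, hk, hq, fr, dis, orth, top, iso, h3, h1⟩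
  have hH := hOD _ le_rfl inf_le_right
  refine ⟨⟨inf_le_right, fun hle => ?_⟩, fun M h1 h3 => ?_⟩
  · -- properness
    let i : Fin t := ⟨0, by omega⟩
    let j : Fin t := ⟨1, by omega⟩
    have hij : i ≠ j := by intro h; have := congrArg Fin.val h; simp [i, j] at this
    obtain ⟨b, hb, hQb, hb0⟩ := hH.ex_sing i
    obtain ⟨w, hw, hQw, hw0⟩ := hH.ex_sing j
    have hbw : polar Q b w = 0 := orth i j hij b hb w hw
    have hmem := hle (eg_mem hQ h5 hQb hbw)
    obtain ⟨σ, hσ⟩ := (Subgroup.mem_inf.1 hmem).1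
    obtain ⟨x, hx, hxb⟩ := hH.ex_ne hb hb0
    have h4 : (eg hQb hbw : Matrix ι ι F) *ᵥ b = b := eg_fix hQb hbw (by rw [polar_self, hQb, mul_zero]) hbw
    have h6 : b ∈ D (σ i) := by
      rw [← hσ]
      exact ⟨b, hb, by rw [Matrix.toLin'_apply, h4]⟩
    have h7 : i = σ i := hH.eq_block hb0 hb h6
    have h8 : (eg hQb hbw : Matrix ι ι F) *ᵥ x ∈ D i := by
      rw [h7, ← hσ]
      exact ⟨x, hx, by rw [Matrix.toLin'_apply]⟩
    rw [eg_apply, orth i j hij x hx w hw, hQw, zero_mul, zero_smul, sub_zero, sub_zero] at h8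
    have h9 : w ∈ D i := by
      have h10 := (D i).smul_mem (polar Q x b)⁻¹ ((D i).sub_mem h8 hx)
      rwa [add_sub_cancel_left, smul_smul, inv_mul_cancel₀ hxb, one_smul] at h10
    exact hij (hH.eq_block hw0 h9 hw)
  · have hM := hOD M h1 h3
    by_cases hnl : ∀ i, ∀ b ∈ D i, b ≠ 0 → Q b = 0 → ∀ y, RP Q M b y → y ∈ D i
    · left
      have hN : NL Q M k D := ⟨hM, hnl⟩
      exact le_antisymm (le_inf hN.le_dec h3) h1
    · right
      push Not at hnl
      obtain ⟨i, b, hb, hb0, hQb, y, hRP, hy⟩ := hnl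
      have h4 : ∃ j, i ≠ j ∧ hM.pr j y ≠ 0 := by
        by_contra hcon
        push Not at hcon
        apply hy
        rw [← hM.sum_pr y, Finset.sum_eq_single i (fun j _ hj => hcon j (Ne.symm hj))
          (fun h0 => absurd (Finset.mem_univ i) h0)]
        exact hM.pr_mem i y
      obtain ⟨j, hij, hj⟩ := h4
      exact le_antisymm h3 (hM.lk_top hij (hM.lk_of hij hb hb0 hQb hRP hj))

end Cfsg.Agent.H29.Sg
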