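import Mathlib
import Cfsg.Agent.H29_TrvSp2

set_option autoImplicit false

/-! swapping two isometric symplectic subspaces -/

namespace Cfsg.Agent.H29.Trv

open Matrix

variable {ι : Type} [Fintype ι] [DecidableEq ι] {F : Type*} [Field F]
variable {f : (ι → F) → (ι → F) → F}

theorem Alt.neg_left (hf : Alt f) (x y : ι → F) : f (-x) y = - f x y := by
  have := hf.smul_left (-1) x y
  simpa using this

theorem Alt.sub_left (hf : Alt f) (x y z : ι → F) : f (x - y) z = f x z - f y z := by
  rw [sub_eq_add_neg, hf.add_left, hf.neg_left, sub_eq_add_neg]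

theorem Alt.sub_right (hf : Alt f) (x y z : ι → F) : f x (y - z) = f x y - f x z := by
  rw [sub_eq_add_neg, hf.add_right, hf.neg_right, sub_eq_add_neg]

theorem Alt.zero_left (hf : Alt f) (x : ι → F) : f 0 x = 0 := by
  have := hf.smul_left 0 0 x
  simpa using this

/-- `x ↦ x - f(x,b) a + f(x,a) b` is an isometry if `f(a,b) = 2` -/
theorem Alt.isom3 (hf : Alt f) {a b : ι → F} (hab : f a b = 2) (p q : ι → F) :
    f (p - f p b • a + f p a • b) (q - f q b • a + f q a • b) = f p q := by
  have hba : f b a = -2 := by rw [hf.skew, hab]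
  simp only [hf.add_left, hf.add_right, hf.sub_left, hf.sub_right, hf.smul_left, hf.smul_right,
    hf.self, hab, hba]
  rw [hf.skew a q, hf.skew b q]
  ring

/-- nondegenerate subspace -/
def ND (f : (ι → F) → (ι → F) → F) (U : Submodule F (ι → F)) : Prop :=
  ∀ w ∈ U, w ≠ 0 → ∃ x ∈ U, f w x ≠ 0

/-- the two-dimensional complement inside `U` -/
def perp2 (hf : Alt f) (U : Submodule F (ι → F)) (e e' : ι → F) : Submodule F (ι → F) where
  carrier := {x | x ∈ U ∧ f x e = 0 ∧ f x e' = 0}
  zero_mem' := ⟨U.zero_mem, hf.zero_left _, hf.zero_left _⟩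
  add_mem' := by
    rintro a b ⟨h1, h2, h3⟩ ⟨h1', h2', h3'⟩
    exact ⟨U.add_mem h1 h1', by rw [hf.add_left, h2, h2', add_zero],
      by rw [hf.add_left, h3, h3', add_zero]⟩
  smul_mem' := by
    rintro c a ⟨h1, h2, h3⟩
    exact ⟨U.smul_mem c h1, by rw [hf.smul_left, h2, mul_zero], by rw [hf.smul_left, h3, mul_zero]⟩

theorem mem_perp2 (hf : Alt f) {U : Submodule F (ι → F)} {e e' x : ι → F} :
    x ∈ perp2 hf U e e' ↔ x ∈ U ∧ f x e = 0 ∧ f x e' = 0 := Iff.rfl

theorem perp2_decomp (hf : Alt f) {U : Submodule F (ι → F)} {e e' : ι → F} (he : e ∈ U)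
    (he' : e' ∈ U) (h : f e e' = 1) {x : ι → F} (hx : x ∈ U) :
    x - f x e' • e + f x e • e' ∈ perp2 hf U e e' := by
  have h' : f e' e = -1 := by rw [hf.skew, h]
  refine ⟨U.add_mem (U.sub_mem hx (U.smul_mem _ he)) (U.smul_mem _ he'), ?_, ?_⟩
  · rw [hf.add_left, hf.sub_left, hf.smul_left, hf.smul_left, hf.self, h']
    ring
  · rw [hf.add_left, hf.sub_left, hf.smul_left, hf.smul_left, hf.self, h]
    ring

theorem perp2_ND (hf : Alt f) {U : Submodule F (ι → F)} {e e' : ι → F} (hU : ND f U) (he : e ∈ U)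
    (he' : e' ∈ U) (h : f e e' = 1) : ND f (perp2 hf U e e') := by
  rintro w ⟨hw, hwe, hwe'⟩ hw0
  obtain ⟨x, hx, hwx⟩ := hU w hw hw0
  refine ⟨_, perp2_decomp hf he he' h hx, ?_⟩
  rw [hf.add_right, hf.sub_right, hf.smul_right, hf.smul_right, hwe, hwe']
  simpa using hwx

theorem perp2_finrank (hf : Alt f) {U : Submodule F (ι → F)} {e e' : ι → F} (he : e ∈ U)
    (he' : e' ∈ U) (h : f e e' = 1) :
    Module.finrank F (perp2 hf U e e') + 2 = Module.finrank F U := by
  have h' : f e' e = -1 := by rw [hf.skew, h]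
  -- U = perp2 ⊕ span {e, e'}
  let S : Submodule F (ι → F) := Submodule.span F {e, e'}
  have hS : S ≤ U := by
    rw [Submodule.span_le]
    rintro x (rfl | rfl)
    · exact he
    · exact he'
  have h1 : perp2 hf U e e' ⊔ S = U := by
    apply le_antisymm
    · exact sup_le (fun x hx => hx.1) hS
    · intro x hx
      rw [Submodule.mem_sup]
      refine ⟨_, perp2_decomp hf he he' h hx, f x e' • e - f x e • e', ?_, by abel⟩
      exact S.sub_mem (S.smul_mem _ (Submodule.subset_span (by simp)))
        (S.smul_mem _ (Submodule.subset_span (by simp)))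
  have h2 : perp2 hf U e e' ⊓ S = ⊥ := by
    rw [eq_bot_iff]
    rintro x ⟨⟨-, hx1, hx2⟩, hxS⟩
    obtain ⟨a, b, rfl⟩ := Submodule.mem_span_pair.1 hxS
    rw [hf.add_left, hf.smul_left, hf.smul_left, hf.self, h'] at hx1
    rw [hf.add_left, hf.smul_left, hf.smul_left, hf.self, h] at hx2
    have ha : a = 0 := by linear_combination hx2
    have hb : b = 0 := by linear_combination -hx1
    simp [ha, hb]
  have h3 := Submodule.finrank_sup_add_finrank_inf_eq (perp2 hf U e e') S
  rw [h1, h2, finrank_bot] at h3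
  have h4 : Module.finrank F S = 2 := by
    have hli : LinearIndependent F ![e, e'] := by
      rw [LinearIndependent.pair_iff]
      intro a b hab
      have h5 : f (a • e + b • e') e = 0 := by rw [hab, hf.zero_left]
      have h6 : f (a • e + b • e') e' = 0 := by rw [hab, hf.zero_left]
      rw [hf.add_left, hf.smul_left, hf.smul_left, hf.self, h'] at h5
      rw [hf.add_left, hf.smul_left, hf.smul_left, hf.self, h] at h6
      exact ⟨by linear_combination h6, by linear_combination -h5⟩
    have := finrank_span_eq_card hli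
    rw [Matrix.range_cons, Matrix.range_cons, Matrix.range_empty, Set.union_empty,
      Set.singleton_union] at this
    simpa using this
  omega

/-- There is an isometry swapping two orthogonal non-degenerate subspaces of equal dimension,
and fixing everything orthogonal to both. -/
theorem exists_swap (hf : Alt f) : ∀ (k : ℕ) (U U' : Submodule F (ι → F)),
    Module.finrank F U = k → Module.finrank F U' = k → ND f U → ND f U' →
    (∀ u ∈ U, ∀ u' ∈ U', f u u' = 0) →
    ∃ g : GL ι F, (∀ x y, f ((g : Matrix ι ι F) *ᵥ x) ((g : Matrix ι ι F) *ᵥ y) = f x y) ∧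
      (∀ u ∈ U, (g : Matrix ι ι F) *ᵥ u ∈ U') ∧ (∀ u ∈ U', (g : Matrix ι ι F) *ᵥ u ∈ U) ∧
      (∀ x, (∀ u ∈ U, f x u = 0) → (∀ u ∈ U', f x u = 0) → (g : Matrix ι ι F) *ᵥ x = x) := by
  intro k
  induction k using Nat.strong_induction_on with
  | _ k ih =>
    intro U U' hU hU' hUn hUn' horth
    rcases Nat.eq_zero_or_pos k with rfl | hk
    · have h1 := Submodule.finrank_eq_zero.1 hU
      have h2 := Submodule.finrank_eq_zero.1 hU'
      subst h1 h2
      refine ⟨1, fun x y => by simp, fun u hu => by simpa using hu, fun u hu => by simpa using hu,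
        fun x _ _ => by simp⟩
    have hne : U ≠ ⊥ := by
      rintro rfl
      rw [finrank_bot] at hU
      omega
    have hne' : U' ≠ ⊥ := by
      rintro rfl
      rw [finrank_bot] at hU'
      omega
    have pair : ∀ W : Submodule F (ι → F), W ≠ ⊥ → ND f W → ∃ e ∈ W, ∃ e' ∈ W, f e e' = 1 := by
      intro W hW hWn
      obtain ⟨e, he, he0⟩ := W.ne_bot_iff.1 hW
      obtain ⟨x, hx, hex⟩ := hWn e he he0
      exact ⟨e, he, (f e x)⁻¹ • x, W.smul_mem _ hx, by rw [hf.smul_right, inv_mul_cancel₀ hex]⟩
    obtain ⟨e, he, e', he', hee⟩ := pair U hne hUn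
    obtain ⟨d, hd, d', hd', hdd⟩ := pair U' hne' hUn'
    have k1 := perp2_finrank hf he he' hee
    have k2 := perp2_finrank hf hd hd' hdd
    obtain ⟨g, hg1, hg2, hg3, hg4⟩ := ih (k - 2) (by omega) (perp2 hf U e e') (perp2 hf U' d d')
      (by omega) (by omega) (perp2_ND hf hUn he he' hee) (perp2_ND hf hUn' hd hd' hdd)
      (fun u hu u' hu' => horth u hu.1 u' hu'.1)
    -- the swap of the two planes
    have hed : f e d = 0 := horth e he d hd
    have hed' : f e d' = 0 := horth e he d' hd'
    have he'd : f e' d = 0 := horth e' he' d hd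
    have he'd' : f e' d' = 0 := horth e' he' d' hd'
    have hde : f d e = 0 := by rw [hf.skew, hed, neg_zero]
    have hde' : f d e' = 0 := by rw [hf.skew, he'd, neg_zero]
    have hd'e : f d' e = 0 := by rw [hf.skew, hed', neg_zero]
    have hd'e' : f d' e' = 0 := by rw [hf.skew, he'd', neg_zero]
    have hab : f (e - d) (e' - d') = 2 := by
      rw [hf.sub_left, hf.sub_right, hf.sub_right, hee, hed', hde', hdd]
      ring
    obtain ⟨s, hs⟩ := hf.exists_GL
      (LinearMap.id - LinearMap.smulRight (fr hf.toLL (e' - d')) (e - d)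
        + LinearMap.smulRight (fr hf.toLL (e - d)) (e' - d'))
      (fun p q => by
        simp only [LinearMap.add_apply, LinearMap.sub_apply, LinearMap.id_apply,
          LinearMap.smulRight_apply, fr_apply]
        exact hf.isom3 hab p q)
    simp only [LinearMap.add_apply, LinearMap.sub_apply, LinearMap.id_apply,
      LinearMap.smulRight_apply, fr_apply] at hs
    have hsiso : ∀ p q, f ((s : Matrix _ _ F) *ᵥ p) ((s : Matrix _ _ F) *ᵥ q) = f p q := by
      intro p q
      rw [hs, hs]
      exact hf.isom3 hab p q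
    have he'e : f e' e = -1 := by rw [hf.skew, hee]
    have hd'd : f d' d = -1 := by rw [hf.skew, hdd]
    have hse : (s : Matrix _ _ F) *ᵥ e = d := by
      rw [hs, hf.sub_right, hf.sub_right, hee, hed', hf.self, hed]
      module
    have hse' : (s : Matrix _ _ F) *ᵥ e' = d' := by
      rw [hs, hf.sub_right, hf.sub_right, hf.self, he'd', he'e, he'd]
      module
    have hsd : (s : Matrix _ _ F) *ᵥ d = e := by
      rw [hs, hf.sub_right, hf.sub_right, hde', hdd, hde, hf.self]
      module
    have hsd' : (s : Matrix _ _ F) *ᵥ d' = e' := by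
      rw [hs, hf.sub_right, hf.sub_right, hd'e', hf.self, hd'e, hd'd]
      module
    have hsfix : ∀ x, f x e = 0 → f x e' = 0 → f x d = 0 → f x d' = 0 →
        (s : Matrix _ _ F) *ᵥ x = x := by
      intro x h1 h2 h3 h4
      rw [hs, hf.sub_right, hf.sub_right, h1, h2, h3, h4]
      module
    have hgfix : ∀ x, (∀ u ∈ perp2 hf U e e', f x u = 0) → (∀ u ∈ perp2 hf U' d d', f x u = 0) →
        (g : Matrix _ _ F) *ᵥ x = x := hg4
    have hgd : (g : Matrix _ _ F) *ᵥ d = d := hgfix d
      (fun u hu => by rw [hf.skew, horth u hu.1 d hd, neg_zero])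
      (fun u hu => by rw [hf.skew, hu.2.1, neg_zero])
    have hgd' : (g : Matrix _ _ F) *ᵥ d' = d' := hgfix d'
      (fun u hu => by rw [hf.skew, horth u hu.1 d' hd', neg_zero])
      (fun u hu => by rw [hf.skew, hu.2.2, neg_zero])
    have hge : (g : Matrix _ _ F) *ᵥ e = e := hgfix e
      (fun u hu => by rw [hf.skew, hu.2.1, neg_zero])
      (fun u hu => horth e he u hu.1)
    have hge' : (g : Matrix _ _ F) *ᵥ e' = e' := hgfix e'
      (fun u hu => by rw [hf.skew, hu.2.2, neg_zero])
      (fun u hu => horth e' he' u hu.1)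
    refine ⟨g * s, ?_, ?_, ?_, ?_⟩
    · intro x y
      rw [mul_apply, mul_apply, hg1, hsiso]
    · intro u hu
      have h1 := perp2_decomp hf he he' hee hu
      set w := u - f u e' • e + f u e • e' with hw
      have h2 : u = w + f u e' • e - f u e • e' := by rw [hw]; abel
      have h3 : (s : Matrix _ _ F) *ᵥ w = w := by
        apply hsfix w h1.2.1 h1.2.2 (horth w h1.1 d hd) (horth w h1.1 d' hd')
      rw [mul_apply, h2, mulVec_sub, mulVec_add, mulVec_smul, mulVec_smul, h3, hse, hse',
        mulVec_sub, mulVec_add, mulVec_smul, mulVec_smul, hgd, hgd']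
      exact U'.sub_mem (U'.add_mem (hg2 w h1).1 (U'.smul_mem _ hd)) (U'.smul_mem _ hd')
    · intro u hu
      have h1 := perp2_decomp hf hd hd' hdd hu
      set w := u - f u d' • d + f u d • d' with hw
      have h2 : u = w + f u d' • d - f u d • d' := by rw [hw]; abel
      have h3 : (s : Matrix _ _ F) *ᵥ w = w := by
        apply hsfix w _ _ h1.2.1 h1.2.2
        · rw [hf.skew, horth e he w h1.1, neg_zero]
        · rw [hf.skew, horth e' he' w h1.1, neg_zero]
      rw [mul_apply, h2, mulVec_sub, mulVec_add, mulVec_smul, mulVec_smul, h3, hsd, hsd',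
        mulVec_sub, mulVec_add, mulVec_smul, mulVec_smul, hge, hge']
      exact U.sub_mem (U.add_mem (hg3 w h1).1 (U.smul_mem _ he)) (U.smul_mem _ he')
    · intro x h1 h2
      rw [mul_apply, hsfix x (h1 e he) (h1 e' he') (h2 d hd) (h2 d' hd')]
      exact hgfix x (fun u hu => h1 u hu.1) (fun u hu => h2 u hu.1)

end Cfsg.Agent.H29.Trv
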