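import Mathlib
import Cfsg.Agent.H29_TrvSp3

set_option autoImplicit false

/-! transvections and orthogonal decompositions: the support argument -/

namespace Cfsg.Agent.H29.Trv

open Matrix

section
variable {ι : Type} [Fintype ι] [DecidableEq ι] {F : Type*} [Field F]
variable {f : (ι → F) → (ι → F) → F} {M : Subgroup (GL ι F)} {t : ℕ}

theorem exists_comp {D : Fin t → Submodule F (ι → F)} (htop : iSup D = ⊤) (x : ι → F) :
    ∃ c : Fin t → (ι → F), (∀ i, c i ∈ D i) ∧ x = ∑ i, c i := by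
  have hx : x ∈ ⨆ i ∈ (Finset.univ : Finset (Fin t)), D i := by
    simp [htop]
  rw [Submodule.mem_iSup_finset_iff_exists_sum] at hx
  obtain ⟨μ, hμ⟩ := hx
  exact ⟨fun i => μ i, fun i => (μ i).2, hμ.symm⟩

/-- all vectors with support `I` are full -/
def P (hf : Alt f) (M : Subgroup (GL ι F)) (D : Fin t → Submodule F (ι → F))
    (I : Finset (Fin t)) : Prop :=
  ∀ c : Fin t → (ι → F), (∀ i, c i ∈ D i) → (∀ i, c i ≠ 0 ↔ i ∈ I) → Full hf M (∑ i, c i)

theorem sum_left (hf : Alt f) (c : Fin t → (ι → F)) (s : Finset (Fin t)) (y : ι → F) :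
    f (∑ i ∈ s, c i) y = ∑ i ∈ s, f (c i) y := map_sum (fr hf.toLL y) c s

theorem orth_sum (hf : Alt f) {D : Fin t → Submodule F (ι → F)}
    (horth : ∀ i j, i ≠ j → ∀ u ∈ D i, ∀ v ∈ D j, f u v = 0) {c : Fin t → (ι → F)}
    (hc : ∀ i, c i ∈ D i) (j : Fin t) {v : ι → F} (hv : v ∈ D j) :
    f (∑ i, c i) v = f (c j) v := by
  rw [sum_left hf, Finset.sum_eq_single j]
  · intro i _ hij
    exact horth i j hij _ (hc i) _ hv
  · simp

theorem P_of_one (hf : Alt f) {D : Fin t → Submodule F (ι → F)}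
    (horth : ∀ i j, i ≠ j → ∀ u ∈ D i, ∀ v ∈ D j, f u v = 0) (hnd : ∀ i, ND f (D i))
    (hD : ∀ i, ∀ v ∈ D i, Full hf M v) {I : Finset (Fin t)} (S : Finset (Fin t)) :
    ∀ c0 : Fin t → (ι → F), (∀ i, c0 i ∈ D i) → (∀ i, c0 i ≠ 0 ↔ i ∈ I) →
      Full hf M (∑ i, c0 i) →
    ∀ c : Fin t → (ι → F), (∀ i, c i ∈ D i) → (∀ i, c i ≠ 0 ↔ i ∈ I) → (∀ i ∉ S, c i = c0 i) →
      Full hf M (∑ i, c i) := by
  induction S using Finset.induction_on with
  | empty =>
    intro c0 _ _ h0 c _ _ h
    have : c = c0 := funext fun i => h i (by simp)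
    rwa [this]
  | insert j S hj ih =>
    intro c0 hc0 hI0 h0 c hc hI h
    refine ih (Function.update c0 j (c j)) ?_ ?_ ?_ c hc hI ?_
    · intro i
      by_cases hij : i = j
      · subst hij; simpa using hc i
      · rw [Function.update_of_ne hij]; exact hc0 i
    · intro i
      by_cases hij : i = j
      · subst hij; simpa using hI i
      · rw [Function.update_of_ne hij]; exact hI0 i
    · have hsum : ∀ v, ∑ i, Function.update c0 j v i = v + ∑ i ∈ Finset.univ.erase j, c0 i := by
        intro v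
        rw [Finset.sum_update_of_mem (Finset.mem_univ j), Finset.sdiff_singleton_eq_erase]
      by_cases hjI : j ∈ I
      · rw [hsum]
        refine Full.replace hf (hD j) (hnd j) (w := c0 j) ?_ (hc0 j) ((hI0 j).2 hjI) (hc j)
          ((hI j).2 hjI) ?_
        · intro v hv
          rw [sum_left hf]
          apply Finset.sum_eq_zero
          intro i hi
          exact horth i j (Finset.ne_of_mem_erase hi) _ (hc0 i) _ hv
        · rw [← hsum, Function.update_eq_self]
          exact h0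
      · have h1 : c j = c0 j := by
          have a1 : c j = 0 := by
            by_contra h1; exact hjI ((hI j).1 h1)
          have a2 : c0 j = 0 := by
            by_contra h1; exact hjI ((hI0 j).1 h1)
          rw [a1, a2]
        rw [h1, Function.update_eq_self]
        exact h0
    · intro i hi
      by_cases hij : i = j
      · subst hij; simp
      · rw [Function.update_of_ne hij]
        exact h i (by simp [hij, hi])

theorem P_swap (hf : Alt f) {D : Fin t → Submodule F (ι → F)}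
    (horth : ∀ i j, i ≠ j → ∀ u ∈ D i, ∀ v ∈ D j, f u v = 0) (hnd : ∀ i, ND f (D i)) {k : ℕ}
    (hk : ∀ i, Module.finrank F (D i) = k)
    (hM : ∀ g : GL ι F, (∀ x y, f ((g : Matrix ι ι F) *ᵥ x) ((g : Matrix ι ι F) *ᵥ y) = f x y) →
      g ∈ Cfsg.Geo.decompositionStabilizer D → g ∈ M) {i j : Fin t} (hij : i ≠ j)
    {I J : Finset (Fin t)} (hP : P hf M D I) (hIJ : ∀ l, l ∈ J ↔ Equiv.swap i j l ∈ I) :
    P hf M D J := by
  obtain ⟨g, hg1, hg2, hg3, hg4⟩ := exists_swap hf k (D i) (D j) (hk i) (hk j) (hnd i) (hnd j)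
    (fun u hu v hv => horth i j hij u hu v hv)
  have hmap : ∀ l, ∀ x ∈ D l, (g : Matrix ι ι F) *ᵥ x ∈ D (Equiv.swap i j l) := by
    intro l x hx
    by_cases h1 : l = i
    · subst h1; rw [Equiv.swap_apply_left]; exact hg2 x hx
    by_cases h2 : l = j
    · subst h2; rw [Equiv.swap_apply_right]; exact hg3 x hx
    rw [Equiv.swap_apply_of_ne_of_ne h1 h2, hg4 x (fun u hu => horth l i h1 x hx u hu)
      (fun u hu => horth l j h2 x hx u hu)]
    exact hx
  have hgM : g ∈ M := by
    apply hM g hg1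
    refine ⟨Equiv.swap i j, fun l => ?_⟩
    apply Submodule.eq_of_le_of_finrank_eq
    · rintro _ ⟨x, hx, rfl⟩
      rw [Matrix.toLin'_apply]
      exact hmap l x hx
    · have : (D l).map (Matrix.toLin' (g : Matrix ι ι F)) = (D l).map (linE g : (ι → F) →ₗ[F] _) := by
        rfl
      rw [this, LinearEquiv.finrank_map_eq, hk, hk]
  intro c hc hcJ
  have h1 : Full hf M (∑ l, (g : Matrix ι ι F) *ᵥ (c (Equiv.swap i j l))) := by
    apply hP
    · intro l
      have := hmap _ _ (hc (Equiv.swap i j l))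
      rwa [Equiv.swap_apply_self] at this
    · intro l
      have h2 : (g : Matrix ι ι F) *ᵥ (c (Equiv.swap i j l)) ≠ 0 ↔ c (Equiv.swap i j l) ≠ 0 := by
        rw [not_iff_not]
        constructor
        · intro h
          apply mulVec_inj (g := g)
          rw [h, mulVec_zero]
        · intro h; rw [h, mulVec_zero]
      rw [h2, hcJ, hIJ, Equiv.swap_apply_self]
  have h3 : ∑ l, (g : Matrix ι ι F) *ᵥ (c (Equiv.swap i j l)) =
      (g : Matrix ι ι F) *ᵥ (∑ l, c l) := by
    have h4 : ∀ (s : Finset (Fin t)) (d : Fin t → (ι → F)), ∑ l ∈ s, (g : Matrix ι ι F) *ᵥ (d l) =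
        (g : Matrix ι ι F) *ᵥ (∑ l ∈ s, d l) := fun s d => (map_sum (lin g) d s).symm
    rw [h4, Equiv.sum_comp (Equiv.swap i j) c]
  rw [h3] at h1
  have h5 := h1.conj hf (M.inv_mem hgM) (fun x y => by
    rw [← hg1, self_inv_mulVec, self_inv_mulVec])
  rwa [inv_mulVec_self] at h5

theorem P_card (hf : Alt f) {D : Fin t → Submodule F (ι → F)}
    (horth : ∀ i j, i ≠ j → ∀ u ∈ D i, ∀ v ∈ D j, f u v = 0) (hnd : ∀ i, ND f (D i)) {k : ℕ}
    (hk : ∀ i, Module.finrank F (D i) = k)
    (hM : ∀ g : GL ι F, (∀ x y, f ((g : Matrix ι ι F) *ᵥ x) ((g : Matrix ι ι F) *ᵥ y) = f x y) →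
      g ∈ Cfsg.Geo.decompositionStabilizer D → g ∈ M) : ∀ (n : ℕ)
    (I J : Finset (Fin t)), (J \ I).card = n → I.card = J.card → P hf M D I → P hf M D J := by
  intro n
  induction n with
  | zero =>
    intro I J h1 h2 h3
    have h4 : J ⊆ I := Finset.sdiff_eq_empty_iff_subset.1 (Finset.card_eq_zero.1 h1)
    rwa [← Finset.eq_of_subset_of_card_le h4 h2.le] at h3
  | succ n ih =>
    intro I J h1 h2 h3
    obtain ⟨j, hj⟩ : (J \ I).Nonempty := Finset.card_pos.1 (by omega)
    have h4 : (I \ J).card = (J \ I).card := Finset.card_sdiff_comm h2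
    obtain ⟨i, hi⟩ : (I \ J).Nonempty := Finset.card_pos.1 (by omega)
    rw [Finset.mem_sdiff] at hi hj
    have hij : i ≠ j := fun h => hi.2 (h ▸ hj.1)
    let I' := insert j (I.erase i)
    have hI' : ∀ l, l ∈ I' ↔ Equiv.swap i j l ∈ I := by
      intro l
      by_cases h5 : l = i
      · subst h5
        rw [Equiv.swap_apply_left]
        simp [I', hij, hj.2]
      by_cases h6 : l = j
      · subst h6
        rw [Equiv.swap_apply_right]
        simp [I', hi.1]
      rw [Equiv.swap_apply_of_ne_of_ne h5 h6]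
      simp [I', h5, h6]
    refine ih I' J ?_ ?_ (P_swap hf horth hnd hk hM hij h3 hI')
    · have h7 : J \ I' = (J \ I).erase j := by
        ext l
        simp only [I', Finset.mem_sdiff, Finset.mem_insert, Finset.mem_erase, not_or, not_and]
        constructor
        · rintro ⟨a, b, c⟩
          exact ⟨b, a, fun h => c (fun h' => hi.2 (h' ▸ a)) h⟩
        · rintro ⟨a, b, c⟩
          exact ⟨b, a, fun _ => c⟩
      rw [h7, Finset.card_erase_of_mem (Finset.mem_sdiff.2 hj)]
      omega
    · rw [Finset.card_insert_of_notMem (by simp [hj.2]), Finset.card_erase_of_mem hi.1]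
      have := Finset.card_pos.2 ⟨i, hi.1⟩
      omega

/-- combining two supports -/
theorem P_combine (hf : Alt f) {D : Fin t → Submodule F (ι → F)}
    (horth : ∀ i j, i ≠ j → ∀ u ∈ D i, ∀ v ∈ D j, f u v = 0) (hnd : ∀ i, ND f (D i))
    (hE2 : ∀ i, ∀ c ∈ D i, c ≠ 0 → ∃ u ∈ D i, f u c = 0 ∧ u ≠ 0 ∧ u ≠ c)
    (hne : ∀ i, ∃ v ∈ D i, v ≠ 0)
    {I I' J : Finset (Fin t)} (hI : P hf M D I) (hI' : P hf M D I')
    (h1 : ∀ l, l ∈ I → l ∉ I' → l ∈ J) (h2 : ∀ l, l ∈ I' → l ∉ I → l ∈ J)
    (h3 : ∀ l ∈ J, l ∈ I ∨ l ∈ I') {i0 : Fin t} (hi0 : i0 ∈ J) (hi0I : i0 ∈ I) (hi0I' : i0 ∈ I') :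
    P hf M D J := by
  intro c hc hcJ
  -- choose the components
  have hchoice : ∀ i, ∃ u ∈ D i, (u ≠ 0 ↔ i ∈ I) ∧ (c i - u ≠ 0 ↔ i ∈ I') ∧
      (i ≠ i0 → f u (c i) = 0) ∧ (i = i0 → f u (c i) ≠ 0) := by
    intro i
    by_cases hi : i = i0
    · subst hi
      obtain ⟨x, hx, hcx⟩ := hnd i (c i) (hc i) ((hcJ i).2 hi0)
      have hxc : f x (c i) ≠ 0 := by rw [hf.skew]; exact neg_ne_zero.2 hcx
      refine ⟨x, hx, ⟨fun _ => hi0I, fun _ h => ?_⟩, ⟨fun _ => hi0I', fun _ h => ?_⟩,
        fun h => absurd rfl h, fun _ => hxc⟩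
      · rw [h, hf.zero_left] at hxc
        exact hxc rfl
      · rw [sub_eq_zero.1 h, hf.self] at hxc
        exact hxc rfl
    · by_cases hiI : i ∈ I
      · by_cases hiI' : i ∈ I'
        · by_cases hiJ : i ∈ J
          · obtain ⟨u, hu, hu1, hu2, hu3⟩ := hE2 i (c i) (hc i) ((hcJ i).2 hiJ)
            exact ⟨u, hu, ⟨fun _ => hiI, fun _ => hu2⟩,
              ⟨fun _ => hiI', fun _ h => hu3 (sub_eq_zero.1 h).symm⟩, fun _ => hu1,
              fun h => absurd h hi⟩
          · have hc0 : c i = 0 := by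
              by_contra h; exact hiJ ((hcJ i).1 h)
            obtain ⟨u, hu, hu0⟩ := hne i
            refine ⟨u, hu, ⟨fun _ => hiI, fun _ => hu0⟩,
              ⟨fun _ => hiI', fun _ h => ?_⟩, fun _ => ?_, fun h => absurd h hi⟩
            · rw [hc0, zero_sub, neg_eq_zero] at h
              exact hu0 h
            · rw [hc0, hf.zero_right]
        · have hiJ := h1 i hiI hiI'
          exact ⟨c i, hc i, ⟨fun _ => hiI, fun _ => (hcJ i).2 hiJ⟩,
            ⟨fun h => absurd (sub_self _) h, fun h => absurd h hiI'⟩, fun _ => hf.self _,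
            fun h => absurd h hi⟩
      · refine ⟨0, (D i).zero_mem, ⟨fun h => absurd rfl h, fun h => absurd h hiI⟩, ?_,
          fun _ => hf.zero_left _, fun h => absurd h hi⟩
        rw [sub_zero, hcJ]
        exact ⟨fun h => (h3 i h).resolve_left hiI, fun h => h2 i h hiI⟩
  choose u hu hu1 hu2 hu3 hu4 using hchoice
  have e1 : Full hf M (∑ i, u i) := hI u hu hu1
  have e2 : Full hf M (∑ i, (c i - u i)) := hI' _ (fun i => (D i).sub_mem (hc i) (hu i)) hu2
  have e3 : f (∑ i, u i) (∑ i, (c i - u i)) ≠ 0 := by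
    have h4 : f (∑ i, u i) (∑ i, (c i - u i)) = f (u i0) (c i0) := by
      rw [sum_left hf, Finset.sum_eq_single i0]
      · rw [hf.skew, orth_sum hf horth (fun i => (D i).sub_mem (hc i) (hu i)) i0 (hu i0),
          hf.sub_left, hf.self, sub_zero, hf.skew, neg_neg]
      · intro i _ hi
        rw [hf.skew, orth_sum hf horth (fun i => (D i).sub_mem (hc i) (hu i)) i (hu i),
          hf.sub_left, hf.self, sub_zero, hf.skew (c i), hu3 i hi, neg_zero, neg_zero]
      · simp
    rw [h4]
    exact hu4 i0 rfl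
  have e4 := Full.move hf e2 e1 1 e3
  have e5 : (∑ i, u i) + (1 : F) • (∑ i, (c i - u i)) = ∑ i, c i := by
    rw [one_smul, ← Finset.sum_add_distrib]
    apply Finset.sum_congr rfl
    intro i _
    abel
  rwa [e5] at e4

/-- main block theorem -/
theorem all_full (hf : Alt f) (ht : 0 < t) {D : Fin t → Submodule F (ι → F)} (htop : iSup D = ⊤)
    (horth : ∀ i j, i ≠ j → ∀ u ∈ D i, ∀ v ∈ D j, f u v = 0) (hnd : ∀ i, ND f (D i)) {k : ℕ}
    (hk : ∀ i, Module.finrank F (D i) = k)
    (hM : ∀ g : GL ι F, (∀ x y, f ((g : Matrix ι ι F) *ᵥ x) ((g : Matrix ι ι F) *ᵥ y) = f x y) →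
      g ∈ Cfsg.Geo.decompositionStabilizer D → g ∈ M)
    (hE2 : ∀ i, ∀ c ∈ D i, c ≠ 0 → ∃ u ∈ D i, f u c = 0 ∧ u ≠ 0 ∧ u ≠ c)
    (hne : ∀ i, ∃ v ∈ D i, v ≠ 0)
    (hD : ∀ i, ∀ v ∈ D i, Full hf M v) {x : ι → F} (hx : Full hf M x) (hxn : ∀ i, x ∉ D i)
    (y : ι → F) : Full hf M y := by
  classical
  obtain ⟨c, hc, rfl⟩ := exists_comp htop x
  let I : Finset (Fin t) := Finset.univ.filter fun i => c i ≠ 0
  have hcI : ∀ i, c i ≠ 0 ↔ i ∈ I := fun i => by simp [I]
  have hPI : P hf M D I := fun d hd hdI =>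
    P_of_one hf horth hnd hD Finset.univ c hc hcI hx d hd hdI (fun i hi => absurd (Finset.mem_univ i) hi)
  have hI2 : 2 ≤ I.card := by
    by_contra hlt
    have h1 : I.card = 0 ∨ I.card = 1 := by omega
    rcases h1 with h1 | h1
    · rw [Finset.card_eq_zero] at h1
      have h2 : ∑ i, c i = 0 := Finset.sum_eq_zero fun i _ => by
        by_contra h
        have := (hcI i).1 h
        rw [h1] at this
        simp at this
      exact hxn ⟨0, ht⟩ (h2 ▸ (D _).zero_mem)
    · obtain ⟨i, hi⟩ := Finset.card_eq_one.1 h1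
      apply hxn i
      rw [Finset.sum_eq_single i]
      · exact hc i
      · intro j _ hj
        by_contra h
        have := (hcI j).1 h
        rw [hi] at this
        exact hj (Finset.mem_singleton.1 this)
      · simp
  -- all supports of size between 2 and t
  have hup : ∀ n, I.card ≤ n → ∀ J : Finset (Fin t), J.card = n → P hf M D J := by
    intro n hn
    induction n, hn using Nat.le_induction with
    | base => exact fun J hJ => P_card hf horth hnd hk hM _ I J rfl hJ.symm hPI
    | succ n hn ih =>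
      intro J hJ
      obtain ⟨i0, hi0⟩ : J.Nonempty := Finset.card_pos.1 (by omega)
      obtain ⟨j1, hj1⟩ : (J.erase i0).Nonempty := Finset.card_pos.1 (by
        rw [Finset.card_erase_of_mem hi0]; omega)
      obtain ⟨j2, hj2⟩ : ((J.erase i0).erase j1).Nonempty := Finset.card_pos.1 (by
        rw [Finset.card_erase_of_mem hj1, Finset.card_erase_of_mem hi0]; omega)
      simp only [Finset.mem_erase] at hj1 hj2
      refine P_combine hf horth hnd hE2 hne (I := J.erase j1) (I' := J.erase j2)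
        (ih _ (by rw [Finset.card_erase_of_mem hj1.2, hJ]; omega))
        (ih _ (by rw [Finset.card_erase_of_mem hj2.2.2, hJ]; omega)) ?_ ?_ ?_ hi0 ?_ ?_
      · intro l hl _
        exact Finset.mem_of_mem_erase hl
      · intro l hl _
        exact Finset.mem_of_mem_erase hl
      · intro l hl
        by_cases h : l = j1
        · right
          rw [Finset.mem_erase]
          exact ⟨fun h' => hj2.1 (h' ▸ h), hl⟩
        · left
          exact Finset.mem_erase.2 ⟨h, hl⟩
      · exact Finset.mem_erase.2 ⟨fun h => hj1.1 h.symm, hi0⟩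
      · exact Finset.mem_erase.2 ⟨fun h => hj2.2.1 h.symm, hi0⟩
  have hdown : ∀ d, ∀ J : Finset (Fin t), 0 < J.card → J.card + d = I.card → P hf M D J := by
    intro d
    induction d with
    | zero =>
      intro J _ hJ
      exact hup _ le_rfl J (by omega)
    | succ d ih =>
      intro J hJ0 hJ
      obtain ⟨i0, hi0⟩ := Finset.card_pos.1 hJ0
      obtain ⟨j, hj⟩ : ∃ j, j ∉ J := by
        by_contra hcon
        push Not at hcon
        have : J = Finset.univ := Finset.eq_univ_iff_forall.2 hcon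
        have h5 := Finset.card_le_univ I
        rw [this, Finset.card_univ] at hJ
        omega
      have h6 : P hf M D (insert j J) := ih _ (by rw [Finset.card_insert_of_notMem hj]; omega)
        (by rw [Finset.card_insert_of_notMem hj]; omega)
      refine P_combine hf horth hnd hE2 hne h6 h6 ?_ ?_ ?_ hi0 (by simp [hi0]) (by simp [hi0])
      · intro l h1 h2; exact absurd h1 h2
      · intro l h1 h2; exact absurd h1 h2
      · intro l hl; left; simp [hl]
  obtain ⟨d, hd, rfl⟩ := exists_comp htop y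
  let J : Finset (Fin t) := Finset.univ.filter fun i => d i ≠ 0
  have hdJ : ∀ i, d i ≠ 0 ↔ i ∈ J := fun i => by simp [J]
  rcases Nat.eq_zero_or_pos J.card with h0 | h0
  · have h2 : ∑ i, d i = 0 := Finset.sum_eq_zero fun i _ => by
      by_contra h
      have := (hdJ i).1 h
      rw [Finset.card_eq_zero] at h0
      rw [h0] at this
      simp at this
    rw [h2]
    exact Full.zero hf
  · rcases le_total I.card J.card with h | h
    · exact hup _ h J rfl d hd hdJ
    · exact hdown (I.card - J.card) J h0 (by omega) d hd hdJ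

/-- if every vector of every block is sent into some block, the decomposition is permuted -/
theorem mem_decomp_of {D : Fin t → Submodule F (ι → F)} {k : ℕ}
    (hk : ∀ i, Module.finrank F (D i) = k) (hne : ∀ i, ∃ v ∈ D i, v ≠ 0)
    (hind : iSupIndep D) {g : GL ι F}
    (h : ∀ i, ∀ v ∈ D i, ∃ j, (g : Matrix ι ι F) *ᵥ v ∈ D j) :
    g ∈ Cfsg.Geo.decompositionStabilizer D := by
  have hdisj : ∀ i j, i ≠ j → ∀ x, x ∈ D i → x ∈ D j → x = 0 := by
    intro i j hij x hi hj
    have h1 := hind.pairwiseDisjoint hij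
    have h2 : x ∈ D i ⊓ D j := ⟨hi, hj⟩
    have h3 : D i ⊓ D j = ⊥ := h1.eq_bot
    rw [h3] at h2
    simpa using h2
  have hdisj3 : ∀ i j l, i ≠ j → ∀ x y, x ∈ D i → y ∈ D j → x ≠ 0 → y ≠ 0 → x + y ∉ D l := by
    intro i j l hij x y hx hy hx0 hy0 hxy
    by_cases hl : l = i
    · subst hl
      have := ((D l).add_mem_iff_right hx).1 hxy
      exact hy0 (hdisj l j hij y this hy)
    · have h1 : D i ⊓ (⨆ (m : Fin t) (_ : m ≠ i), D m) = ⊥ := (hind i).eq_bot
      have h2 : x ∈ (⨆ (m : Fin t) (_ : m ≠ i), D m) := by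
        have e1 : x = (x + y) - y := by abel
        rw [e1]
        apply Submodule.sub_mem
        · exact Submodule.mem_iSup_of_mem l (Submodule.mem_iSup_of_mem hl hxy)
        · exact Submodule.mem_iSup_of_mem j (Submodule.mem_iSup_of_mem hij.symm hy)
      have h3 : x ∈ D i ⊓ (⨆ (m : Fin t) (_ : m ≠ i), D m) := ⟨hx, h2⟩
      rw [h1] at h3
      exact hx0 (by simpa using h3)
  have hblock : ∀ i, ∃ j, ∀ v ∈ D i, (g : Matrix ι ι F) *ᵥ v ∈ D j := by
    intro i
    obtain ⟨v, hv, hv0⟩ := hne i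
    obtain ⟨j, hj⟩ := h i v hv
    refine ⟨j, fun w hw => ?_⟩
    obtain ⟨l, hl⟩ := h i w hw
    by_cases hjl : l = j
    · rwa [← hjl]
    by_cases hw0 : w = 0
    · rw [hw0, mulVec_zero]
      exact (D j).zero_mem
    have h0 : ∀ z, z ≠ 0 → (g : Matrix ι ι F) *ᵥ z ≠ 0 := fun z hz hgz => hz (mulVec_inj (g := g)
      (by rw [hgz, mulVec_zero]))
    obtain ⟨m, hm⟩ := h i (w + v) ((D i).add_mem hw hv)
    rw [mulVec_add] at hm
    exact absurd hm (hdisj3 l j m hjl _ _ hl hj (h0 w hw0) (h0 v hv0))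
  choose σ hσ using hblock
  have hmap : ∀ i, (D i).map (Matrix.toLin' (g : Matrix ι ι F)) = D (σ i) := by
    intro i
    apply Submodule.eq_of_le_of_finrank_eq
    · rintro _ ⟨x, hx, rfl⟩
      rw [Matrix.toLin'_apply]
      exact hσ i x hx
    · have : (D i).map (Matrix.toLin' (g : Matrix ι ι F)) = (D i).map (linE g : (ι → F) →ₗ[F] _) := by
        rfl
      rw [this, LinearEquiv.finrank_map_eq, hk, hk]
  have hinj : Function.Injective σ := by
    intro i j hij
    by_contra hne'
    obtain ⟨v, hv, hv0⟩ := hne i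
    have h1 : (D i).map (linE g).toLinearMap = (D j).map (linE g).toLinearMap := by
      have e1 : (D i).map (linE g).toLinearMap =
        (D i).map (Matrix.toLin' (g : Matrix ι ι F)) := rfl
      have e2 : (D j).map (linE g).toLinearMap =
        (D j).map (Matrix.toLin' (g : Matrix ι ι F)) := rfl
      rw [e1, e2, hmap, hmap, hij]
    have h2 : D i = D j := Submodule.map_injective_of_injective (linE g).injective h1
    exact hv0 (hdisj i j hne' v hv (h2 ▸ hv))
  exact ⟨Equiv.ofBijective σ (Finite.injective_iff_bijective.1 hinj), hmap⟩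

/-- transvections with centre and axis adapted to a block are in the stabiliser -/
theorem block_trv_mem (hf : Alt f) {D : Fin t → Submodule F (ι → F)}
    (horth : ∀ i j, i ≠ j → ∀ u ∈ D i, ∀ v ∈ D j, f u v = 0) {i : Fin t} {v : ι → F}
    (hv : v ∈ D i) (a : F) : T (Cfsg.Geo.decompositionStabilizer D) v (a • fr hf.toLL v) := by
  have h0 : (a • fr hf.toLL v) v = 0 := by simp [hf.self]
  rw [← trv_mem_iff h0]
  refine ⟨1, fun j => ?_⟩
  apply Submodule.eq_of_le_of_finrank_eq
  · rintro _ ⟨x, hx, rfl⟩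
    rw [Matrix.toLin'_apply, trv_apply]
    apply (D j).add_mem hx
    by_cases hj : j = i
    · subst hj
      exact (D j).smul_mem _ hv
    · have : (a • fr hf.toLL v) x = 0 := by simp [horth j i hj x hx v hv]
      rw [this, zero_smul]
      exact (D j).zero_mem
  · have : (D j).map (Matrix.toLin' (trv v _ h0 : Matrix ι ι F)) =
        (D j).map (linE (trv v _ h0)).toLinearMap := by
      rfl
    rw [this, LinearEquiv.finrank_map_eq]
    rfl

end

end Cfsg.Agent.H29.Trv
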