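import Mathlib
import Cfsg.Agent.H29_TrvSp3

set_option autoImplicit false

/-! quadratic forms in characteristic two polarising to a symplectic form, and transvections -/

namespace Cfsg.Agent.H29.Trv

open Matrix

variable {ι : Type} [Fintype ι] [DecidableEq ι] {F : Type*} [Field F]
variable {f : (ι → F) → (ι → F) → F}

/-- a small subspace has a vector in its complement, not in the subspace -/
theorem Alt.exists_perp_notMem (hf : Alt f) (W : Submodule F (ι → F))
    (hW : 2 * Module.finrank F W < Fintype.card ι) :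
    ∃ u, (∀ w ∈ W, f w u = 0) ∧ u ∉ W := by
  let L : (ι → F) →ₗ[F] Module.Dual F W :=
    { toFun := fun x => (fr hf.toLL x).comp W.subtype
      map_add' := by
        intro a b
        ext v
        simp [hf.add_right]
      map_smul' := by
        intro c a
        ext v
        simp [hf.smul_right] }
  have h1 := LinearMap.finrank_range_add_finrank_ker L
  have h2 : Module.finrank F (LinearMap.range L) ≤ Module.finrank F W := by
    have := Submodule.finrank_le (LinearMap.range L)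
    rwa [Subspace.dual_finrank_eq] at this
  rw [Module.finrank_fintype_fun_eq_card] at h1
  have h3 : ¬ LinearMap.ker L ≤ W := by
    intro hle
    have := Submodule.finrank_mono hle
    omega
  obtain ⟨u, hu, huW⟩ := SetLike.not_le_iff_exists.1 h3
  refine ⟨u, fun w hw => ?_, huW⟩
  have hu' : L u = 0 := hu
  exact LinearMap.congr_fun hu' ⟨w, hw⟩

/-- `Q` is quadratic with polar form `f`, characteristic two, finite field -/
structure QE (Q : (ι → F) → F) (f : (ι → F) → (ι → F) → F) : Prop where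
  alt : Alt f
  two : (2 : F) = 0
  smul : ∀ (c : F) v, Q (c • v) = c ^ 2 * Q v
  add : ∀ u v, Q (u + v) = Q u + Q v + f u v

variable {Q : (ι → F) → F}

theorem QE.symm (h : QE Q f) (x y : ι → F) : f x y = f y x := by
  rw [h.alt.skew x y]
  linear_combination (-(f y x)) * h.two

theorem QE.exists_sqrt [Finite F] (h : QE Q f) (c : F) : ∃ s : F, s ^ 2 = c := by
  haveI : CharP F 2 := CharTwo.of_one_ne_zero_of_two_eq_zero one_ne_zero h.two
  obtain ⟨s, hs⟩ := (frobeniusEquiv F 2).surjective c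
  exact ⟨s, by simpa [frobeniusEquiv_apply, frobenius_def] using hs⟩

theorem QE.zero (h : QE Q f) : Q 0 = 0 := by
  have := h.smul 0 0
  simpa using this

/-- universality on complements of small subspaces -/
theorem QE.univ [Finite F] (h : QE Q f) (W : Submodule F (ι → F))
    (hW : 2 * Module.finrank F W < Fintype.card ι) (c : F) :
    ∃ u, (∀ w ∈ W, f w u = 0) ∧ Q u = c := by
  obtain ⟨u1, hu1, hu1W⟩ := h.alt.exists_perp_notMem W hW
  obtain ⟨u2, hu2, hu2W⟩ := exists_sep' h.alt W hu1W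
  by_cases hQ : Q u1 = 0
  · refine ⟨(c - Q u2) • u1 + u2, fun w hw => ?_, ?_⟩
    · rw [h.alt.add_right, h.alt.smul_right, hu1 w hw, h.alt.skew, hu2W w hw]
      ring
    · rw [h.add, h.smul, hQ, h.alt.smul_left, h.symm, hu2]
      ring
  · obtain ⟨s, hs⟩ := h.exists_sqrt (c / Q u1)
    refine ⟨s • u1, fun w hw => ?_, ?_⟩
    · rw [h.alt.smul_right, hu1 w hw, mul_zero]
    · rw [h.smul, hs, div_mul_cancel₀ _ hQ]

theorem QE.Q_trans (h : QE Q f) (v x : ι → F) (a : F) :
    Q (x + (a * f x v) • v) = Q x + a * f x v ^ 2 * (a * Q v + 1) := by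
  rw [h.add, h.smul, h.alt.smul_right]
  ring

/-- conjugacy under a group of isometries of `f` -/
def Cj (M : Subgroup (GL ι F)) (x y : ι → F) : Prop := ∃ g ∈ M, (g : Matrix ι ι F) *ᵥ x = y

theorem Cj.refl (M : Subgroup (GL ι F)) (x : ι → F) : Cj M x x := ⟨1, M.one_mem, by simp⟩

theorem Cj.trans {M : Subgroup (GL ι F)} {x y z : ι → F} (h : Cj M x y) (h' : Cj M y z) :
    Cj M x z := by
  obtain ⟨g, hg, rfl⟩ := h
  obtain ⟨g', hg', rfl⟩ := h'
  exact ⟨g' * g, M.mul_mem hg' hg, mul_apply _ _ _⟩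

theorem Cj.symm {M : Subgroup (GL ι F)} {x y : ι → F} (h : Cj M x y) : Cj M y x := by
  obtain ⟨g, hg, rfl⟩ := h
  exact ⟨g⁻¹, M.inv_mem hg, inv_mulVec_self g x⟩

theorem T.cj {M : Subgroup (GL ι F)} (hf : Alt f) {v : ι → F} {a : F}
    (h : T M v (a • fr hf.toLL v)) (x : ι → F) : Cj M x (x + (a * f x v) • v) := by
  obtain ⟨-, g, hg, h2⟩ := h
  exact ⟨g, hg, by rw [h2]; rfl⟩

theorem Full.cj {M : Subgroup (GL ι F)} (hf : Alt f)
    (hiso : ∀ g ∈ M, ∀ x y, f ((g : Matrix ι ι F) *ᵥ x) ((g : Matrix ι ι F) *ᵥ y) = f x y)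
    {u v : ι → F} {a : F} (h : T M u (a • fr hf.toLL u)) (hc : Cj M u v) :
    T M v (a • fr hf.toLL v) := by
  obtain ⟨g, hg, rfl⟩ := hc
  rw [← fr_smul hf] at h ⊢
  have := h.conj_isom hf.toLL hg (hiso g hg)
  rwa [mulVec_smul] at this

/-- if `M` is a group of isometries of `f`, containing all transvections of `Q`, and an element
not preserving `Q`, then every vector is full for `M` -/
theorem QE.all_full [Finite F] (h : QE Q f) {M : Subgroup (GL ι F)} (hcard : 6 < Fintype.card ι)
    (hiso : ∀ g ∈ M, ∀ x y, f ((g : Matrix ι ι F) *ᵥ x) ((g : Matrix ι ι F) *ᵥ y) = f x y)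
    (hQM : ∀ v a, a * Q v = 1 → T M v (a • fr h.alt.toLL v))
    {g : GL ι F} (hg : g ∈ M) (hgQ : ∃ v, Q ((g : Matrix ι ι F) *ᵥ v) ≠ Q v) (v : ι → F) :
    Full h.alt M v := by
  have hf := h.alt
  -- Step 1
  obtain ⟨w0, hw0, hw1⟩ : ∃ w, Q w ≠ 0 ∧ Q ((g : Matrix ι ι F) *ᵥ w) ≠ Q w := by
    by_contra hcon
    push Not at hcon
    obtain ⟨w, hw⟩ := hgQ
    apply hw
    by_cases hQw : Q w = 0
    · have hdim : 2 * Module.finrank F (Submodule.span F {w}) < Fintype.card ι := by
        have := finrank_span_le_card (R := F) ({w} : Set (ι → F))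
        simp at this
        omega
      obtain ⟨y, hy, hQy⟩ := h.univ (Submodule.span F {w}) hdim 1
      have hwy : f w y = 0 := hy w (Submodule.mem_span_singleton_self w)
      have hQwy : Q (w + y) = 1 := by rw [h.add, hQw, hQy, hwy]; ring
      have e1 := hcon (w + y) (by rw [hQwy]; exact one_ne_zero)
      have e2 := hcon y (by rw [hQy]; exact one_ne_zero)
      rw [mulVec_add, h.add, hiso g hg, hwy, e2, hQwy, hQy] at e1
      rw [hQw]
      linear_combination e1
    · exact hcon w hQw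
  set x0 := (g : Matrix ι ι F) *ᵥ w0 with hx0
  set b := (Q w0)⁻¹ with hb
  have hTb : T M x0 (b • fr hf.toLL x0) :=
    Full.cj hf hiso (hQM w0 b (inv_mul_cancel₀ hw0)) ⟨g, hg, rfl⟩
  have hb0 : b ≠ 0 := inv_ne_zero hw0
  have hbQ : b * Q x0 + 1 ≠ 0 := by
    intro h0
    apply hw1
    have : b * Q x0 = 1 := by linear_combination h0 - h.two
    rw [hb] at this
    field_simp at this
    exact this
  have hx00 : x0 ≠ 0 := by
    intro h0
    have : w0 = 0 := mulVec_inj (g := g) (by rw [← hx0, h0, mulVec_zero])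
    rw [this, h.zero] at hw0
    exact hw0 rfl
  -- Step 2 (a)
  have ha : ∀ x y, Q x = Q y → f x y ≠ 0 → Cj M x y := by
    intro x y hxy hne
    have hQ : Q (x + y) = f x y := by
      rw [h.add, hxy]
      linear_combination (Q y) * h.two
    have h1 := (hQM (x + y) (f x y)⁻¹ (by rw [hQ, inv_mul_cancel₀ hne])).cj hf x
    have h2 : x + ((f x y)⁻¹ * f x (x + y)) • (x + y) = y := by
      rw [hf.add_right, hf.self, zero_add, inv_mul_cancel₀ hne, one_smul, ← add_assoc]
      have : x + x = (2 : F) • x := by rw [two_smul]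
      rw [this, h.two, zero_smul, zero_add]
    rwa [h2] at h1
  -- (b)
  have hbb : ∀ x y, x ≠ 0 → y ≠ 0 → Q x = Q y → Cj M x y := by
    intro x y hx hy hxy
    have hu : ∃ z ∈ (⊤ : Submodule F (ι → F)), f x z ≠ 0 := by
      obtain ⟨z, hz⟩ := hf.nondeg x hx
      exact ⟨z, trivial, by rw [h.symm]; exact hz⟩
    have hv : ∃ z ∈ (⊤ : Submodule F (ι → F)), f y z ≠ 0 := by
      obtain ⟨z, hz⟩ := hf.nondeg y hy
      exact ⟨z, trivial, by rw [h.symm]; exact hz⟩
    obtain ⟨z0, -, hz1, hz2⟩ := hf.exists_both ⊤ hu hv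
    have hdim : 2 * Module.finrank F (Submodule.span F (Set.range ![x, y, z0])) <
        Fintype.card ι := by
      have := finrank_range_le_card (R := F) ![x, y, z0]
      have h3 : Set.finrank F (Set.range ![x, y, z0]) ≤ 3 := by simpa using this
      unfold Set.finrank at h3
      omega
    obtain ⟨u, hu, hQu⟩ := h.univ _ hdim (Q x - Q z0)
    have hxu : f x u = 0 := hu x (Submodule.subset_span ⟨0, rfl⟩)
    have hyu : f y u = 0 := hu y (Submodule.subset_span ⟨1, rfl⟩)
    have hzu : f z0 u = 0 := hu z0 (Submodule.subset_span ⟨2, rfl⟩)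
    have hQz : Q (z0 + u) = Q x := by rw [h.add, hQu, hzu]; ring
    have h1 : Cj M x (z0 + u) := ha _ _ hQz.symm (by rw [hf.add_right, hxu, add_zero]; exact hz1)
    have h2 : Cj M y (z0 + u) := ha _ _ (by rw [hQz, hxy])
      (by rw [hf.add_right, hyu, add_zero]; exact hz2)
    exact h1.trans h2.symm
  -- (c)
  have hc : ∀ x, x ≠ 0 → ∀ c : F, ∃ y, Cj M x y ∧ y ≠ 0 ∧ Q y = c := by
    intro x hx c
    obtain ⟨s, hs⟩ := h.exists_sqrt ((c - Q x) / (b * (b * Q x0 + 1)))
    have hκ : b * (b * Q x0 + 1) ≠ 0 := mul_ne_zero hb0 hbQ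
    by_cases hs0 : s = 0
    · refine ⟨x, Cj.refl M x, hx, ?_⟩
      rw [hs0] at hs
      have h1 : (c - Q x) / (b * (b * Q x0 + 1)) = 0 := by rw [← hs]; ring
      rcases div_eq_zero_iff.1 h1 with h2 | h2
      · exact (sub_eq_zero.1 h2).symm
      · exact absurd h2 hκ
    obtain ⟨z, hz⟩ := hf.nondeg x0 hx00
    set z0 := (s / f z x0) • z with hz0
    have hz0x : f z0 x0 = s := by rw [hz0, hf.smul_left, div_mul_cancel₀ _ hz]
    have hdim : 2 * Module.finrank F (Submodule.span F (Set.range ![z0, x0])) <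
        Fintype.card ι := by
      have := finrank_range_le_card (R := F) ![z0, x0]
      have h3 : Set.finrank F (Set.range ![z0, x0]) ≤ 2 := by simpa using this
      unfold Set.finrank at h3
      omega
    obtain ⟨u, hu, hQu⟩ := h.univ _ hdim (Q x - Q z0)
    have hzu : f z0 u = 0 := hu z0 (Submodule.subset_span ⟨0, rfl⟩)
    have hxu : f x0 u = 0 := hu x0 (Submodule.subset_span ⟨1, rfl⟩)
    have hQz : Q (z0 + u) = Q x := by rw [h.add, hQu, hzu]; ring
    have hfz : f (z0 + u) x0 = s := by rw [hf.add_left, hz0x, h.symm u, hxu, add_zero]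
    have hzu0 : z0 + u ≠ 0 := by
      intro h0
      rw [h0, hf.zero_left] at hfz
      exact hs0 hfz.symm
    refine ⟨_, (hbb x (z0 + u) hx hzu0 hQz.symm).trans (hTb.cj hf _), ?_, ?_⟩
    · intro h0
      have h1 : f (z0 + u + (b * f (z0 + u) x0) • x0) x0 = 0 := by rw [h0, hf.zero_left]
      rw [hf.add_left, hf.smul_left, hf.self, mul_zero, add_zero, hfz] at h1
      exact hs0 h1
    · rw [h.Q_trans, hQz, hfz, hs]
      field_simp
      ring
  -- Step 3
  by_cases hv : v = 0
  · rw [hv]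
    exact fun a => T_zero_left _
  intro a
  by_cases ha0 : a = 0
  · rw [ha0, zero_smul]
    exact T_zero_right v
  obtain ⟨y, hvy, hy0, hQy⟩ := hc v hv a⁻¹
  exact Full.cj hf hiso (hQM y a (by rw [hQy, mul_inv_cancel₀ ha0])) hvy.symm

end Cfsg.Agent.H29.Trv
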