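import Mathlib
import Cfsg.Agent.H29_TrvBlk
import Cfsg.Agent.H29_TrvQ

set_option autoImplicit false

/-! orthogonal projections to non-degenerate subspaces -/

namespace Cfsg.Agent.H29.Trv

open Matrix

variable {ι : Type} [Fintype ι] [DecidableEq ι] {F : Type*} [Field F]
variable {f : (ι → F) → (ι → F) → F}

theorem ND.exists_proj (hf : Alt f) {W : Submodule F (ι → F)} (hW : ND f W) (x : ι → F) :
    ∃ w ∈ W, ∀ v ∈ W, f v (x - w) = 0 := by
  let L : W →ₗ[F] Module.Dual F W :=
    { toFun := fun w => (fr hf.toLL (w : ι → F)).comp W.subtype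
      map_add' := by
        intro a b
        ext v
        simp [hf.add_right]
      map_smul' := by
        intro c a
        ext v
        simp [hf.smul_right] }
  have hLinj : Function.Injective L := by
    rw [injective_iff_map_eq_zero]
    intro w hw
    by_contra h0
    have h0' : (w : ι → F) ≠ 0 := fun h => h0 (Subtype.ext h)
    obtain ⟨y, hy, hyw⟩ := hW w w.2 h0'
    apply hyw
    rw [hf.skew]
    have : f y w = 0 := LinearMap.congr_fun hw ⟨y, hy⟩
    rw [this, neg_zero]
  have hLsurj : Function.Surjective L :=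
    (LinearMap.injective_iff_surjective_of_finrank_eq_finrank
      (Subspace.dual_finrank_eq (K := F) (V := W)).symm).1 hLinj
  obtain ⟨w, hw⟩ := hLsurj ((fr hf.toLL x).comp W.subtype)
  refine ⟨w, w.2, fun v hv => ?_⟩
  have h1 : f v w = f v x := LinearMap.congr_fun hw ⟨v, hv⟩
  rw [hf.sub_right, h1, sub_self]

/-- the orthogonal projection -/
noncomputable def prj (hf : Alt f) {W : Submodule F (ι → F)} (hW : ND f W) (x : ι → F) : ι → F :=
  (hW.exists_proj hf x).choose

theorem prj_mem (hf : Alt f) {W : Submodule F (ι → F)} (hW : ND f W) (x : ι → F) :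
    prj hf hW x ∈ W := (hW.exists_proj hf x).choose_spec.1

theorem prj_spec (hf : Alt f) {W : Submodule F (ι → F)} (hW : ND f W) (x : ι → F) :
    ∀ v ∈ W, f v (prj hf hW x) = f v x := by
  intro v hv
  have := (hW.exists_proj hf x).choose_spec.2 v hv
  rw [hf.sub_right, sub_eq_zero] at this
  exact this.symm

theorem prj_unique (hf : Alt f) {W : Submodule F (ι → F)} (hW : ND f W) {x w : ι → F} (hw : w ∈ W)
    (h : ∀ v ∈ W, f v w = f v x) : prj hf hW x = w := by
  by_contra hne
  obtain ⟨y, hy, hy'⟩ := hW _ (W.sub_mem (prj_mem hf hW x) hw) (sub_ne_zero.2 hne)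
  apply hy'
  rw [hf.skew, hf.sub_right, prj_spec hf hW x y hy, h y hy, sub_self, neg_zero]

theorem prj_add (hf : Alt f) {W : Submodule F (ι → F)} (hW : ND f W) (x y : ι → F) :
    prj hf hW (x + y) = prj hf hW x + prj hf hW y :=
  prj_unique hf hW (W.add_mem (prj_mem hf hW x) (prj_mem hf hW y)) fun v hv => by
    rw [hf.add_right, hf.add_right, prj_spec hf hW x v hv, prj_spec hf hW y v hv]

theorem prj_zero (hf : Alt f) {W : Submodule F (ι → F)} (hW : ND f W) :
    prj hf hW 0 = 0 := prj_unique hf hW W.zero_mem fun v _ => rfl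

/-- if the blocks span, a lower bound for their number -/
theorem card_le_of_top {t : ℕ} {D : Fin t → Submodule F (ι → F)} (htop : iSup D = ⊤) {k : ℕ}
    (hk : ∀ i, Module.finrank F (D i) = k) : Fintype.card ι ≤ t * k := by
  let A : (∀ i, D i) →ₗ[F] (ι → F) :=
    { toFun := fun c => ∑ i, (c i : ι → F)
      map_add' := by intro a b; simp [Finset.sum_add_distrib]
      map_smul' := by intro c a; simp [Finset.smul_sum] }
  have hA : Function.Surjective A := by
    intro x
    obtain ⟨c, hc, rfl⟩ := exists_comp htop x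
    exact ⟨fun i => ⟨c i, hc i⟩, rfl⟩
  have h1 := LinearMap.finrank_le_finrank_of_surjective (f := A) hA
  rw [Module.finrank_fintype_fun_eq_card, Module.finrank_pi_fintype] at h1
  simpa [hk] using h1

end Cfsg.Agent.H29.Trv
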