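import Mathlib
import Cfsg.Agent.H29_Un3

set_option autoImplicit false

/-! small facts about the field of order four, set stabilisers in the special unitary group -/

namespace Cfsg.Agent.H29.Us

open Matrix Module Cfsg.Geo Cfsg.Agent.H29.Fm

variable {F : Type*} [Field F] {n : ℕ}

/-- overgroup defined by a set -/
def stS (X : Subgroup (GL (Fin n) F)) (S : Set (Fin n → F)) : Subgroup (GL (Fin n) F) where
  carrier := {g | g ∈ X ∧ ∀ x, (g : Matrix (Fin n) (Fin n) F) *ᵥ x ∈ S ↔ x ∈ S}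
  mul_mem' {a b} ha hb := ⟨X.mul_mem ha.1 hb.1, fun x => by
    rw [Units.val_mul, ← Matrix.mulVec_mulVec, ha.2, hb.2]⟩
  one_mem' := ⟨X.one_mem, fun x => by rw [Units.val_one, Matrix.one_mulVec]⟩
  inv_mem' {a} ha := ⟨X.inv_mem ha.1, fun x => by
    have h := ha.2 (((a⁻¹ : GL (Fin n) F) : Matrix (Fin n) (Fin n) F) *ᵥ x)
    rw [Matrix.mulVec_mulVec, ← Units.val_mul, mul_inv_cancel, Units.val_one, Matrix.one_mulVec] at h
    exact h.symm⟩

theorem nonmax_set {X H : Subgroup (GL (Fin n) F)} (S : Set (Fin n → F)) (hHX : H ≤ X)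
    (hH : ∀ g ∈ H, ∀ x ∈ S, (g : Matrix (Fin n) (Fin n) F) *ᵥ x ∈ S)
    {t : GL (Fin n) F} (ht : t ∈ X) (htH : t ∉ H) (htS : ∀ x ∈ S, (t : Matrix (Fin n) (Fin n) F) *ᵥ x ∈ S)
    (ht2 : ∀ x, (t : Matrix (Fin n) (Fin n) F) *ᵥ ((t : Matrix (Fin n) (Fin n) F) *ᵥ x) = x)
    {s : GL (Fin n) F} (hs : s ∈ X) {x : Fin n → F} (hx : x ∈ S) (hsx : (s : Matrix (Fin n) (Fin n) F) *ᵥ x ∉ S) :
    ∃ M : Subgroup (GL (Fin n) F), H < M ∧ M < X := by
  refine ⟨stS X S, ?_, ?_⟩
  · refine lt_of_le_of_ne ?_ ?_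
    · intro g hg
      refine ⟨hHX hg, fun x => ⟨fun h => ?_, hH g hg x⟩⟩
      have h2 := hH _ (H.inv_mem hg) _ h
      rwa [Matrix.mulVec_mulVec, ← Units.val_mul, inv_mul_cancel, Units.val_one, Matrix.one_mulVec] at h2
    · intro h
      apply htH
      rw [h]
      refine ⟨ht, fun x => ⟨fun h => ?_, htS x⟩⟩
      have h2 := htS _ h
      rwa [ht2] at h2
  · refine lt_of_le_of_ne (fun g hg => hg.1) ?_
    intro h
    have h2 : s ∈ stS X S := by rw [h]; exact hs
    exact hsx ((h2.2 x).2 hx)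

section four
variable [Fintype F] (hF : Fintype.card F = 2 ^ 2)
include hF

theorem char2 : (1 : F) + 1 = 0 := by
  have h1 : ((Fintype.card F : ℕ) : F) = 0 := FiniteField.cast_card_eq_zero F
  rw [hF] at h1
  push_cast at h1
  have h2 : (2 : F) = 0 := by
    have h3 : (2 : F) * 2 = 0 := by linear_combination h1
    rcases mul_eq_zero.1 h3 with h | h <;> exact h
  rw [← h2]; norm_num

theorem addself (x : F) : x + x = 0 := by
  have := char2 hF
  linear_combination x * this

theorem negEq (x : F) : -x = x := by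
  have := addself hF x
  linear_combination -this

theorem pow4 (x : F) : x ^ 4 = x := by
  have := FiniteField.pow_card x
  rw [hF] at this
  exact this

theorem cube {x : F} (hx : x ≠ 0) : x ^ 3 = 1 := by
  have h := pow4 hF x
  have h2 : x * (x ^ 3 - 1) = 0 := by linear_combination h
  rcases mul_eq_zero.1 h2 with h3 | h3
  · exact absurd h3 hx
  · exact sub_eq_zero.1 h3

theorem exists_om : ∃ w : F, w ^ 2 = w + 1 := by
  classical
  obtain ⟨w, hw⟩ : ∃ w : F, w ∉ ({0, 1} : Finset F) := by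
    by_contra hcon
    push Not at hcon
    have h1 : (Finset.univ : Finset F) ⊆ {0, 1} := fun x _ => hcon x
    have h2 := Finset.card_le_card h1
    have h3 : ({0, 1} : Finset F).card ≤ 2 := Finset.card_le_two
    rw [Finset.card_univ, hF] at h2
    omega
  simp only [Finset.mem_insert, Finset.mem_singleton, not_or] at hw
  refine ⟨w, ?_⟩
  have h3 := cube hF hw.1
  have h4 : (w - 1) * (w ^ 2 - (w + 1)) = 0 := by
    have h5 := addself hF (w ^ 2)
    have h6 := char2 hF
    linear_combination h3 - h5 + h6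
  rcases mul_eq_zero.1 h4 with h5 | h5
  · exact absurd (sub_eq_zero.1 h5) hw.2
  · exact sub_eq_zero.1 h5

theorem om_ne_zero {w : F} (hw : w ^ 2 = w + 1) : w ≠ 0 := by
  rintro rfl
  simp at hw

theorem om_ne_one {w : F} (hw : w ^ 2 = w + 1) : w ≠ 1 := by
  rintro rfl
  rw [char2 hF] at hw
  simp at hw

theorem four_cases {w : F} (hw : w ^ 2 = w + 1) (x : F) : x = 0 ∨ x = 1 ∨ x = w ∨ x = 1 + w := by
  have h4 := pow4 hF x
  have h2 := char2 hF
  have h : x * (x - 1) * (x - w) * (x - (1 + w)) = 0 := by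
    linear_combination h4 + (x ^ 2 - x) * hw + (-(1 + w) * x ^ 3 + (1 + 2 * w) * x ^ 2 - w * x) * h2
  rcases mul_eq_zero.1 h with h | h
  · rcases mul_eq_zero.1 h with h | h
    · rcases mul_eq_zero.1 h with h | h
      · exact Or.inl h
      · exact Or.inr (Or.inl (sub_eq_zero.1 h))
    · exact Or.inr (Or.inr (Or.inl (sub_eq_zero.1 h)))
  · exact Or.inr (Or.inr (Or.inr (sub_eq_zero.1 h)))

theorem fix_cases {x : F} (h : x ^ 2 = x) : x = 0 ∨ x = 1 := by
  have : x * (x - 1) = 0 := by linear_combination h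
  rcases mul_eq_zero.1 this with h | h
  · exact Or.inl h
  · exact Or.inr (sub_eq_zero.1 h)

theorem exists_tv {v : Fin n → F} (hv : v ≠ 0) (hvv : Cfsg.hermForm n F 2 v v = 0) :
    ∃ g ∈ SUg n F 2, ∀ x, (g : Matrix (Fin n) (Fin n) F) *ᵥ x = x + (Cfsg.hermForm n F 2 x v) • v := by
  have hdet := Cfsg.Agent.H5.Unit.det_T v 1 hvv
  refine ⟨Matrix.GeneralLinearGroup.mkOfDetNeZero (Cfsg.unitaryTransvection n 2 v 1)
    (by rw [hdet]; exact one_ne_zero), ⟨?_, ?_⟩, ?_⟩
  · exact (Cfsg.Agent.H5.Unit.T_isometry_iff hF v hv hvv 1).2 (by rw [one_pow]; exact char2 hF)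
  · exact mem_SL hdet
  · intro x
    have := Cfsg.Agent.H5.Unit.T_mulVec (q := 2) v 1 x
    rw [one_mul] at this
    exact this

theorem tv_tv {v : Fin n → F} (hvv : Cfsg.hermForm n F 2 v v = 0) {g : Matrix (Fin n) (Fin n) F}
    (hg : ∀ x, g *ᵥ x = x + (Cfsg.hermForm n F 2 x v) • v) (x : Fin n → F) : g *ᵥ (g *ᵥ x) = x := by
  have h := sfm_herm (n := n) hF
  rw [hg x, hg, h.add_left, h.smul_left, hvv, mul_zero, add_zero, add_assoc, ← add_smul, addself hF, zero_smul, add_zero]

end four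

/-! ### a table model -/

/-- elements of the field of order four as pairs of bits -/
def ph (w : F) (x : Bool × Bool) : F := (if x.1 then 1 else 0) + (if x.2 then w else 0)

/-- addition -/
def ad (x y : Bool × Bool) : Bool × Bool := (xor x.1 y.1, xor x.2 y.2)

/-- multiplication -/
def ml (x y : Bool × Bool) : Bool × Bool :=
  (xor (x.1 && y.1) (x.2 && y.2), xor (xor (x.1 && y.2) (x.2 && y.1)) (x.2 && y.2))

theorem ph_ad [Fintype F] (hF : Fintype.card F = 2 ^ 2) (w : F) (x y : Bool × Bool) : ph w (ad x y) = ph w x + ph w y := by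
  have h2 := char2 hF
  have h3 := addself hF w
  rcases x with ⟨_ | _, _ | _⟩ <;> rcases y with ⟨_ | _, _ | _⟩ <;> simp only [ph, ad, Bool.xor_false, Bool.xor_true, Bool.not_false, Bool.not_true, Bool.false_xor, if_true, if_false, Bool.false_eq_true, add_zero, zero_add] <;>
    first | rfl | ring1 | linear_combination -h2 | linear_combination -h3 | linear_combination -h2 - h3

theorem ph_ml [Fintype F] (hF : Fintype.card F = 2 ^ 2) {w : F} (hw : w ^ 2 = w + 1) (x y : Bool × Bool) :
    ph w (ml x y) = ph w x * ph w y := by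
  have h2 := char2 hF
  have h3 := addself hF w
  rcases x with ⟨_ | _, _ | _⟩ <;> rcases y with ⟨_ | _, _ | _⟩ <;> simp only [ph, ml, Bool.and_false, Bool.and_true, Bool.false_and, Bool.true_and, Bool.xor_false, Bool.xor_true, Bool.not_false, Bool.not_true, Bool.false_xor, if_true, if_false, Bool.false_eq_true, add_zero, zero_add] <;>
    first | rfl | ring1 | linear_combination -hw | linear_combination -hw - h2 | linear_combination -hw - h3 | linear_combination -hw - h2 - h3

theorem ph_surj [Fintype F] (hF : Fintype.card F = 2 ^ 2) {w : F} (hw : w ^ 2 = w + 1) (x : F) : ∃ c, ph w c = x := by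
  rcases four_cases hF hw x with rfl | rfl | rfl | rfl
  · exact ⟨(false, false), by simp [ph]⟩
  · exact ⟨(true, false), by simp [ph]⟩
  · exact ⟨(false, true), by simp [ph]⟩
  · exact ⟨(true, true), by simp [ph]⟩

theorem ph_inj [Fintype F] (hF : Fintype.card F = 2 ^ 2) {w : F} (hw : w ^ 2 = w + 1) {c d : Bool × Bool} (h : ph w c = ph w d) : c = d := by
  classical
  have hs : Function.Surjective (ph w) := fun x => ph_surj hF hw x
  have hb : Function.Bijective (ph w) := (Fintype.bijective_iff_surjective_and_card _).2 ⟨hs, by rw [hF]; rfl⟩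
  exact hb.1 h

end Cfsg.Agent.H29.Us
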