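import Mathlib
import Cfsg.Agent.H29_Us1

set_option autoImplicit false

/-! frames in the six-dimensional unitary space over the field of order four -/

namespace Cfsg.Agent.H29.Us

open Matrix Module Cfsg.Geo Cfsg.Agent.H29.Fm

variable {F : Type*} [Field F]

/-- all codes -/
def al (p : Bool × Bool → Bool) : Bool :=
  p (false, false) && p (false, true) && p (true, false) && p (true, true)

theorem of_al {p : Bool × Bool → Bool} (h : al p = true) (x : Bool × Bool) : p x = true := by
  unfold al at h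
  simp only [Bool.and_eq_true] at h
  obtain ⟨⟨⟨h1, h2⟩, h3⟩, h4⟩ := h
  rcases x with ⟨_ | _, _ | _⟩
  · exact h1
  · exact h2
  · exact h3
  · exact h4

/-- non zero code -/
def nz (x : Bool × Bool) : Bool := x.1 || x.2

/-- number of non zero codes -/
def wt (a b c d e f : Bool × Bool) : Nat :=
  (if nz a then 1 else 0) + (if nz b then 1 else 0) + (if nz c then 1 else 0) + (if nz d then 1 else 0) +
    (if nz e then 1 else 0) + (if nz f then 1 else 0)

/-- the membership test -/
def tst (a b c d e f : Bool × Bool) : Bool :=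
  (Nat.beq (wt a b c d e f) 2) || ((ml (ml (ml a b) (ml c d)) (ml e f)).1 && !(ml (ml (ml a b) (ml c d)) (ml e f)).2)

/-- the membership test after the transvection -/
def tst2 (a b c d e f : Bool × Bool) : Bool :=
  let s := ad (ad (ad a b) (ad c d)) (ad e f)
  tst (ad a s) (ad b s) (ad c s) (ad d s) (ad e s) (ad f s)

theorem tst_all : al (fun a => al (fun b => al (fun c => al (fun d => al (fun e => al (fun f =>
    !(tst a b c d e f) || tst2 a b c d e f)))))) = true := by
  decide +kernel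

theorem tst_imp {a b c d e f : Bool × Bool} (h : tst a b c d e f = true) : tst2 a b c d e f = true := by
  have h1 := of_al (of_al (of_al (of_al (of_al (of_al tst_all a) b) c) d) e) f
  simp only [h, Bool.not_true, Bool.false_or] at h1
  exact h1

theorem ph_zero_iff [Fintype F] (hF : Fintype.card F = 2 ^ 2) {w : F} (hw : w ^ 2 = w + 1) (x : Bool × Bool) :
    ph w x = 0 ↔ nz x = false := by
  have h0 : ph w (false, false) = 0 := by simp [ph]
  constructor
  · intro h
    rw [← h0] at h
    rw [ph_inj hF hw h]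
    rfl
  · intro h
    rcases x with ⟨_ | _, _ | _⟩
    · exact h0
    all_goals simp [nz] at h

open Classical in
/-- weight -/
noncomputable def wf (c : Fin 6 → F) : ℕ := ∑ i, if c i = 0 then 0 else 1

/-- the invariant set in coordinates -/
def PW (c : Fin 6 → F) : Prop := wf c = 2 ∨ ∏ i, c i = 1

open Classical in
theorem wf_eq [Fintype F] (hF : Fintype.card F = 2 ^ 2) {w : F} (hw : w ^ 2 = w + 1) (x : Fin 6 → Bool × Bool) :
    wf (fun i => ph w (x i)) = wt (x 0) (x 1) (x 2) (x 3) (x 4) (x 5) := by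
  have h : ∀ y, (if ph w y = 0 then 0 else 1) = (if nz y then 1 else 0) := by
    intro y
    by_cases hy : nz y = true
    · have : ph w y ≠ 0 := fun h => by
        rw [ph_zero_iff hF hw, hy] at h
        exact absurd h (by decide)
      rw [if_neg this, if_pos hy]
    · rw [Bool.not_eq_true] at hy
      rw [if_pos ((ph_zero_iff hF hw y).2 hy), hy]
      rfl
  unfold wf wt
  rw [Fin.sum_univ_six]
  simp only [h]

theorem prod_eq [Fintype F] (hF : Fintype.card F = 2 ^ 2) {w : F} (hw : w ^ 2 = w + 1) (x : Fin 6 → Bool × Bool) :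
    ∏ i, ph w (x i) = ph w (ml (ml (ml (x 0) (x 1)) (ml (x 2) (x 3))) (ml (x 4) (x 5))) := by
  rw [Fin.prod_univ_six]
  simp only [ph_ml hF hw]
  ring

theorem sum_eq [Fintype F] (hF : Fintype.card F = 2 ^ 2) {w : F} (x : Fin 6 → Bool × Bool) :
    ∑ i, ph w (x i) = ph w (ad (ad (ad (x 0) (x 1)) (ad (x 2) (x 3))) (ad (x 4) (x 5))) := by
  rw [Fin.sum_univ_six]
  simp only [ph_ad hF w]
  ring

theorem PW_iff [Fintype F] (hF : Fintype.card F = 2 ^ 2) {w : F} (hw : w ^ 2 = w + 1) (x : Fin 6 → Bool × Bool) :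
    PW (fun i => ph w (x i)) ↔ tst (x 0) (x 1) (x 2) (x 3) (x 4) (x 5) = true := by
  unfold PW tst
  rw [wf_eq hF hw, prod_eq hF hw]
  have h1 : ph w (true, false) = 1 := by simp [ph]
  set y := ml (ml (ml (x 0) (x 1)) (ml (x 2) (x 3))) (ml (x 4) (x 5)) with hy
  have h2 : ph w y = 1 ↔ (y.1 && !y.2) = true := by
    constructor
    · intro h
      rw [← h1] at h
      rw [ph_inj hF hw h]
      rfl
    · intro h
      have : y = (true, false) := by
        revert h
        generalize y = z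
        rcases z with ⟨_ | _, _ | _⟩ <;> simp
      rw [this, h1]
  rw [h2, Bool.or_eq_true, Nat.beq_eq]

theorem PW_shift [Fintype F] (hF : Fintype.card F = 2 ^ 2) {c : Fin 6 → F} (h : PW c) : PW (fun i => c i + ∑ j, c j) := by
  obtain ⟨w, hw⟩ := exists_om hF
  choose x hx using fun i => ph_surj hF hw (c i)
  have hc : c = fun i => ph w (x i) := funext fun i => (hx i).symm
  rw [hc] at h ⊢
  have h1 := tst_imp ((PW_iff hF hw x).1 h)
  set s := ad (ad (ad (x 0) (x 1)) (ad (x 2) (x 3))) (ad (x 4) (x 5)) with hs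
  have h2 : (fun i => ph w (x i) + ∑ j, ph w (x j)) = fun i => ph w ((fun k => ad (x k) s) i) := by
    funext i
    rw [sum_eq hF, ← ph_ad hF]
  rw [h2, PW_iff hF hw]
  exact h1

theorem PW_mono {σ : Equiv.Perm (Fin 6)} {l c c' : Fin 6 → F} (hl : ∀ i, l i ≠ 0) (hp : ∏ i, l i = 1)
    (h : ∀ i, c' (σ i) = l i * c i) (hc : PW c) : PW c' := by
  rcases hc with hc | hc
  · left
    rw [← hc]
    unfold wf
    rw [← Equiv.sum_comp σ]
    apply Finset.sum_congr rfl
    intro i _
    rw [h i]
    by_cases h0 : c i = 0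
    · rw [if_pos h0, if_pos (by rw [h0, mul_zero])]
    · rw [if_neg h0, if_neg (mul_ne_zero (hl i) h0)]
  · right
    rw [← Equiv.prod_comp σ]
    simp only [h]
    rw [Finset.prod_mul_distrib, hp, hc, one_mul]

/-- orthonormal -/
def ON (v : Fin 6 → (Fin 6 → F)) : Prop := ∀ i j, Cfsg.hermForm 6 F 2 (v i) (v j) = if i = j then 1 else 0

theorem det_mono [Fintype F] (hF : Fintype.card F = 2 ^ 2) {v : Fin 6 → (Fin 6 → F)} (hv : ON v) {g : Matrix (Fin 6) (Fin 6) F}
    {σ : Equiv.Perm (Fin 6)} {l : Fin 6 → F} (h : ∀ i, g *ᵥ v i = l i • v (σ i)) : g.det = ∏ i, l i := by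
  set V : Matrix (Fin 6) (Fin 6) F := Matrix.of fun a i => v i a with hV
  have h1 : Vᵀ * V.map (fun x => x ^ 2) = 1 := by
    ext i j
    rw [Matrix.mul_apply]
    have := hv i j
    rw [Matrix.one_apply]
    exact this
  have h2 : V.det ≠ 0 := by
    intro h0
    have h3 := congrArg Matrix.det h1
    rw [Matrix.det_mul, Matrix.det_transpose, h0, zero_mul, Matrix.det_one] at h3
    exact zero_ne_one h3
  have h3 : g * V = V.submatrix id σ * Matrix.diagonal l := by
    ext a i
    rw [Matrix.mul_diagonal]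
    have h4 := congrFun (h i) a
    rw [Matrix.submatrix_apply]
    show (g * V) a i = v (σ i) a * l i
    rw [Pi.smul_apply, smul_eq_mul] at h4
    rw [mul_comm, ← h4]
    rfl
  have h4 := congrArg Matrix.det h3
  rw [Matrix.det_mul, Matrix.det_mul, Matrix.det_permute', Matrix.det_diagonal] at h4
  have h5 : ((Equiv.Perm.sign σ : ℤ) : F) = 1 := by
    rcases Int.units_eq_one_or (Equiv.Perm.sign σ) with h6 | h6
    · rw [h6]; simp
    · rw [h6]
      simp only [Units.val_neg, Units.val_one, Int.cast_neg, Int.cast_one]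
      exact negEq hF 1
  rw [h5, one_mul] at h4
  have h6 : V.det * (g.det - ∏ i, l i) = 0 := by linear_combination h4
  rcases mul_eq_zero.1 h6 with h7 | h7
  · exact absurd h7 h2
  · exact sub_eq_zero.1 h7

theorem exists_on [Fintype F] (hF : Fintype.card F = 2 ^ 2) {D : Fin 6 → Submodule F (Fin 6 → F)}
    (hD : IsNondegenerateMDecomposition (Cfsg.hermForm 6 F 2) 1 D) :
    ∃ v : Fin 6 → (Fin 6 → F), ON v ∧ ∀ i, D i = Submodule.span F {v i} := by
  have hs := sfm_herm (n := 6) hF
  have h1 : ∀ i, ∃ v : Fin 6 → F, v ≠ 0 ∧ D i = Submodule.span F {v} := by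
    intro i
    obtain ⟨v, hv0, hv⟩ := finrank_eq_one_iff'.1 (hD.decomp.finrank_eq i)
    refine ⟨v, fun h => hv0 (Subtype.ext h), ?_⟩
    apply le_antisymm
    · intro x hx
      obtain ⟨c, hc⟩ := hv ⟨x, hx⟩
      rw [Submodule.mem_span_singleton]
      exact ⟨c, congrArg Subtype.val hc⟩
    · rw [Submodule.span_singleton_le_iff_mem]
      exact v.2
  choose v hv0 hv using h1
  have hvm : ∀ i, v i ∈ D i := fun i => by rw [hv i]; exact Submodule.mem_span_singleton_self _
  refine ⟨v, ?_, hv⟩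
  intro i j
  by_cases hij : i = j
  · subst hij
    rw [if_pos rfl]
    obtain ⟨x, hx, hx0⟩ := (hD.nondegenerate i (v i) (hvm i) (hv0 i)).1
    rw [hv i, Submodule.mem_span_singleton] at hx
    obtain ⟨c, rfl⟩ := hx
    rw [hs.smul_left] at hx0
    have h2 : Cfsg.hermForm 6 F 2 (v i) (v i) ≠ 0 := fun h => hx0 (by rw [h, mul_zero])
    have h3 := hs.herm (v i) (v i)
    rw [one_mul, fq_apply] at h3
    rcases fix_cases hF h3.symm with h4 | h4
    · exact absurd h4 h2
    · exact h4
  · rw [if_neg hij]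
    exact hD.orthogonal i j hij (v i) (hvm i) (v j) (hvm j)

theorem ON.expand [Fintype F] (hF : Fintype.card F = 2 ^ 2) {v : Fin 6 → (Fin 6 → F)} (hv : ON v) (i : Fin 6) (c : Fin 6 → F) :
    Cfsg.hermForm 6 F 2 (∑ j, c j • v j) (v i) = c i := by
  have hs := sfm_herm (n := 6) hF
  rw [hs.sum_left]
  simp only [hs.smul_left, hv _ i, mul_ite, mul_one, mul_zero, Finset.sum_ite_eq', Finset.mem_univ, if_true]

theorem det_of_SL {n : ℕ} {g : GL (Fin n) F} (h : g ∈ specialLinear (Fin n) F) : (g : Matrix (Fin n) (Fin n) F).det = 1 := by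
  have h1 : (Matrix.GeneralLinearGroup.det : GL (Fin n) F →* Fˣ) g = 1 := h
  exact congrArg Units.val h1

/-- a code -/
def x4 : Fin 6 → Bool × Bool := ![(true, false), (false, false), (false, false), (false, false), (true, false), (false, false)]

/-- a code -/
def x5 : Fin 6 → Bool × Bool := ![(false, false), (true, false), (true, false), (true, false), (true, false), (false, false)]

theorem nonmaxF [Fintype F] (hF : Fintype.card F = 2 ^ 2) {D : Fin 6 → Submodule F (Fin 6 → F)}
    (hD : IsNondegenerateMDecomposition (Cfsg.hermForm 6 F 2) 1 D) :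
    ∃ M : Subgroup (GL (Fin 6) F), decompositionStabilizer D ⊓ SUg 6 F 2 < M ∧ M < SUg 6 F 2 := by
  have hs := sfm_herm (n := 6) hF
  obtain ⟨w, hw⟩ := exists_om hF
  obtain ⟨v, hv, hDv⟩ := exists_on hF hD
  have hvm : ∀ i, v i ∈ D i := fun i => by rw [hDv i]; exact Submodule.mem_span_singleton_self _
  have hv0 : ∀ i, v i ≠ 0 := by
    intro i h0
    have := hv i i
    rw [if_pos rfl, h0, hs.zero_left] at this
    exact zero_ne_one this
  have h2 := char2 hF
  -- transvection along the sum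
  set u : Fin 6 → F := ∑ j, (fun _ => (1 : F)) j • v j with hu
  have huv : ∀ i, Cfsg.hermForm 6 F 2 u (v i) = 1 := fun i => hv.expand hF i _
  have hvu : ∀ i, Cfsg.hermForm 6 F 2 (v i) u = 1 := by
    intro i
    rw [hs.herm, huv, map_one, one_mul]
  have hxu : ∀ x, Cfsg.hermForm 6 F 2 x u = ∑ j, Cfsg.hermForm 6 F 2 x (v j) := by
    intro x
    rw [hu, hs.sum_right]
    simp only [one_smul]
  have huu : Cfsg.hermForm 6 F 2 u u = 0 := by
    rw [hxu]
    simp only [huv]
    rw [Fin.sum_univ_six]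
    linear_combination 3 * h2
  have hu0 : u ≠ 0 := by
    intro h0
    have := huv 0
    rw [h0, hs.zero_left] at this
    exact zero_ne_one this
  obtain ⟨t, ht, htx⟩ := exists_tv hF hu0 huu
  -- second transvection
  set c4 : Fin 6 → F := fun i => if i = 4 ∨ i = 5 then 0 else 1 with hc4
  set u' : Fin 6 → F := ∑ j, c4 j • v j with hu'
  have huv' : ∀ i, Cfsg.hermForm 6 F 2 u' (v i) = c4 i := fun i => hv.expand hF i _
  have hxu' : ∀ x, Cfsg.hermForm 6 F 2 x u' = ∑ j, c4 j * Cfsg.hermForm 6 F 2 x (v j) := by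
    intro x
    rw [hu', hs.sum_right]
    apply Finset.sum_congr rfl
    intro j _
    rw [hs.smul_right]
    congr 1
    rw [hc4]
    by_cases hj : j = 4 ∨ j = 5
    · simp only [if_pos hj, map_zero]
    · simp only [if_neg hj, map_one]
  have huu' : Cfsg.hermForm 6 F 2 u' u' = 0 := by
    rw [hxu']
    simp only [huv']
    rw [Fin.sum_univ_six]
    simp only [hc4]
    norm_num [Fin.ext_iff]
    linear_combination 2 * h2
  have hu0' : u' ≠ 0 := by
    intro h0
    have := huv' 0
    rw [h0, hs.zero_left] at this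
    simp [hc4] at this
  obtain ⟨s, hs', hsx⟩ := exists_tv hF hu0' huu'
  refine nonmax_set {x | PW (fun i => Cfsg.hermForm 6 F 2 x (v i))} inf_le_right ?_ ht ?_ ?_
    (tv_tv hF huu htx) hs' (x := v 0 + v 4) ?_ ?_
  · -- the frame stabiliser
    intro g hg x hx
    obtain ⟨⟨σ, hσ⟩, hgS⟩ := Subgroup.mem_inf.1 hg
    have hgv : ∀ i, ∃ l : F, (g : Matrix (Fin 6) (Fin 6) F) *ᵥ v i = l • v (σ i) := by
      intro i
      have h1 : (g : Matrix (Fin 6) (Fin 6) F) *ᵥ v i ∈ D (σ i) := by
        rw [← hσ i]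
        exact ⟨v i, hvm i, by rw [Matrix.toLin'_apply]⟩
      rw [hDv, Submodule.mem_span_singleton] at h1
      obtain ⟨l, hl⟩ := h1
      exact ⟨l, hl.symm⟩
    choose l hl using hgv
    have hiso : ∀ x y, Cfsg.hermForm 6 F 2 ((g : Matrix (Fin 6) (Fin 6) F) *ᵥ x) ((g : Matrix (Fin 6) (Fin 6) F) *ᵥ y) =
        Cfsg.hermForm 6 F 2 x y := fx_GU g (Subgroup.mem_inf.1 hgS).1
    have hl0 : ∀ i, l i ≠ 0 := by
      intro i h0
      have h1 := hiso (v i) (v i)
      rw [hl i, h0, zero_smul, hs.zero_left, hv i i, if_pos rfl] at h1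
      exact zero_ne_one h1
    have hdet : (g : Matrix (Fin 6) (Fin 6) F).det = 1 := det_of_SL (Subgroup.mem_inf.1 hgS).2
    have hprod : ∏ i, l i = 1 := by rw [← det_mono hF hv hl, hdet]
    refine PW_mono (σ := σ) (l := l) hl0 hprod ?_ hx
    intro i
    have h1 := hiso x (v i)
    rw [hl i, hs.smul_right, fq_apply] at h1
    have h3 := cube hF (hl0 i)
    show Cfsg.hermForm 6 F 2 ((g : Matrix (Fin 6) (Fin 6) F) *ᵥ x) (v (σ i)) = l i * Cfsg.hermForm 6 F 2 x (v i)
    linear_combination l i * h1 - Cfsg.hermForm 6 F 2 ((g : Matrix (Fin 6) (Fin 6) F) *ᵥ x) (v (σ i)) * h3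
  · -- the transvection does not stabilise the frame
    intro htH
    obtain ⟨⟨σ, hσ⟩, -⟩ := Subgroup.mem_inf.1 htH
    have h1 : (t : Matrix (Fin 6) (Fin 6) F) *ᵥ v 0 ∈ D (σ 0) := by
      rw [← hσ 0]
      exact ⟨v 0, hvm 0, by rw [Matrix.toLin'_apply]⟩
    rw [hDv, Submodule.mem_span_singleton, htx, hvu, one_smul] at h1
    obtain ⟨l, hl⟩ := h1
    have h3 : ∀ i, l * (if σ 0 = i then 1 else 0) = (if (0 : Fin 6) = i then 1 else 0) + 1 := by
      intro i
      have h4 := congrArg (fun z => Cfsg.hermForm 6 F 2 z (v i)) hl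
      simp only [hs.smul_left, hs.add_left, hv _ i, huv] at h4
      exact h4
    have h5 : l * (if σ 0 = 1 then 1 else 0) = 1 := by
      rw [h3 1, if_neg (by decide), zero_add]
    have h6 : l * (if σ 0 = 2 then 1 else 0) = 1 := by
      rw [h3 2, if_neg (by decide), zero_add]
    by_cases h7 : σ 0 = 1
    · rw [if_neg (by rw [h7]; decide), mul_zero] at h6
      exact zero_ne_one h6
    · rw [if_neg h7, mul_zero] at h5
      exact zero_ne_one h5
  · intro x hx
    have h1 := PW_shift hF hx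
    show PW _
    convert h1 using 1
    funext i
    rw [htx, hs.add_left, hs.smul_left, huv, mul_one, hxu]
  · have h1 : (fun i => Cfsg.hermForm 6 F 2 (v 0 + v 4) (v i)) = fun i => ph w (x4 i) := by
      funext i
      rw [hs.add_left, hv 0 i, hv 4 i]
      fin_cases i <;> simp [x4, ph, Fin.ext_iff]
    show PW _
    rw [h1, PW_iff hF hw]
    decide
  · intro hx
    have hc : ∀ i, Cfsg.hermForm 6 F 2 ((s : Matrix (Fin 6) (Fin 6) F) *ᵥ (v 0 + v 4)) (v i) =
        (if (0 : Fin 6) = i then 1 else 0) + (if (4 : Fin 6) = i then 1 else 0) + c4 i := by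
      intro i
      have h6 : Cfsg.hermForm 6 F 2 (v 0 + v 4) u' = 1 := by
        rw [hxu', Fin.sum_univ_six]
        simp only [hs.add_left, hv 0 _, hv 4 _, hc4]
        norm_num [Fin.ext_iff]
      rw [hsx, hs.add_left, hs.smul_left, huv', hs.add_left, hv 0 i, hv 4 i, h6, one_mul]
    have h1 : (fun i => Cfsg.hermForm 6 F 2 ((s : Matrix (Fin 6) (Fin 6) F) *ᵥ (v 0 + v 4)) (v i)) = fun i => ph w (x5 i) := by
      funext i
      rw [hc i]
      fin_cases i <;> simp [x5, ph, hc4, Fin.ext_iff, h2]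
    have hx' : PW _ := hx
    rw [h1, PW_iff hF hw] at hx'
    revert hx'
    decide

end Cfsg.Agent.H29.Us
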