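import Mathlib
import Cfsg.Agent.H29_Us2

set_option autoImplicit false

/-! cubic subfields of the algebra of six by six matrices over the field of order four -/

namespace Cfsg.Agent.H29.Us

open Matrix Module Cfsg.Geo Cfsg.Agent.H29.Fm

universe u

variable {F : Type u} [Field F]

theorem exists_L [Fintype F] (hF : Fintype.card F = 2 ^ 2) {K : Subalgebra F (Matrix (Fin 6) (Fin 6) F)}
    (hK : IsFieldSubalgebra 3 K) :
    ∃ (L : Type u) (_ : Field L) (_ : Fintype L) (ι : F →+* L) (ρ : L →+* Matrix (Fin 6) (Fin 6) F),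
      Fintype.card L = 64 ∧ (∀ x, x ∈ K ↔ ∃ l, ρ l = x) ∧ (∀ c, ρ (ι c) = c • (1 : Matrix (Fin 6) (Fin 6) F)) := by
  have hf : IsField K := by
    refine ⟨⟨0, 1, ?_⟩, ?_, ?_⟩
    · intro h
      have h0 : (0 : Matrix (Fin 6) (Fin 6) F) = 1 := congrArg Subtype.val h
      exact zero_ne_one h0
    · intro x y
      exact Subtype.ext (hK.comm x.1 x.2 y.1 y.2)
    · intro x hx
      obtain ⟨y, hy, hxy⟩ := hK.inv x.1 x.2 (fun h => hx (Subtype.ext h))
      exact ⟨⟨y, hy⟩, Subtype.ext hxy⟩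
  haveI : Finite K := Subtype.finite
  haveI : Fintype K := Fintype.ofFinite K
  refine ⟨K, hf.toField, inferInstance, ?_⟩
  refine ⟨(algebraMap F K : F →+* K), (K.val : K →ₐ[F] Matrix (Fin 6) (Fin 6) F).toRingHom, ?_, ?_, ?_⟩
  · have h1 := Module.card_eq_pow_finrank (K := F) (V := K)
    rw [hK.finrank_eq, hF] at h1
    rw [h1]; norm_num
  · intro x
    constructor
    · intro hx
      exact ⟨⟨x, hx⟩, rfl⟩
    · rintro ⟨l, rfl⟩
      exact l.2
  · intro c
    rw [← Algebra.algebraMap_eq_smul_one]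
    rfl

/-- the data of a cubic subfield -/
structure KD (f : (Fin 6 → F) → (Fin 6 → F) → F) {L : Type u} [Field L] (ι : F →+* L)
    (ρ : L →+* Matrix (Fin 6) (Fin 6) F) (w : F) (D : L) : Prop where
  om : w ^ 2 = w + 1
  D3 : D ^ 3 = ι w
  sc : ∀ c, ρ (ι c) = c • (1 : Matrix (Fin 6) (Fin 6) F)
  p64 : ∀ l : L, l ^ 64 = l
  ex : ∀ l : L, ∃ a b c : F, l = ι a + ι b * D + ι c * D ^ 2
  un : ∀ a b c : F, ι a + ι b * D + ι c * D ^ 2 = 0 → a = 0 ∧ b = 0 ∧ c = 0
  iso : ∀ x y, f (ρ D *ᵥ x) (ρ D *ᵥ y) = f x y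

section L
variable [Fintype F] (hF : Fintype.card F = 2 ^ 2) {L : Type u} [Field L] (ι : F →+* L)
include hF ι

theorem L2 : (1 : L) + 1 = 0 := by
  have := congrArg ι (char2 hF)
  simpa using this

theorem cube_root {w : F} (hw : w ^ 2 = w + 1) {z : L} (hz : z ^ 3 = 1) : z = 1 ∨ z = ι w ∨ z = ι (1 + w) := by
  have h2 := L2 hF ι
  have h3 : ι w ^ 2 = ι w + 1 := by rw [← map_pow, hw, map_add, map_one]
  have h4 : (z - 1) * ((z - ι w) * (z - (1 + ι w))) = 0 := by
    linear_combination hz + (z - 1) * (-(1 + ι w) * z + ι w) * h2 + (z - 1) * h3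
  rcases mul_eq_zero.1 h4 with h | h
  · exact Or.inl (sub_eq_zero.1 h)
  · rcases mul_eq_zero.1 h with h | h
    · exact Or.inr (Or.inl (sub_eq_zero.1 h))
    · right; right
      rw [map_add, map_one]
      exact sub_eq_zero.1 h

theorem un_aux {w : F} (hw : w ^ 2 = w + 1) {D : L} (hD : D ^ 3 = ι w) (a b c : F)
    (h : ι a + ι b * D + ι c * D ^ 2 = 0) : a = 0 ∧ b = 0 ∧ c = 0 := by
  have h2 := L2 hF ι
  have hc3 : ∀ x : F, x ^ 3 ≠ w := by
    intro x hx
    by_cases h0 : x = 0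
    · rw [h0] at hx
      exact om_ne_zero hF hw (by rw [← hx]; ring)
    · rw [cube hF h0] at hx
      exact om_ne_one hF hw hx.symm
  have hD1 : ∀ x : F, D ≠ ι x := by
    intro x hx
    rw [hx, ← map_pow] at hD
    exact hc3 x (ι.injective hD)
  have hc : c = 0 := by
    by_contra hc
    have hιc : ι c ≠ 0 := fun h => hc ((map_eq_zero ι).1 h)
    set p := b / c with hp
    set r := a / c with hr
    have hpb : ι b = ι p * ι c := by rw [← map_mul, hp, div_mul_cancel₀ _ hc]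
    have hra : ι a = ι r * ι c := by rw [← map_mul, hr, div_mul_cancel₀ _ hc]
    have h4 : D ^ 2 = ι p * D + ι r := by
      have h5 : ι c * (D ^ 2 - (ι p * D + ι r)) = 0 := by
        rw [hpb, hra] at h
        linear_combination h - (ι r * ι c + ι p * ι c * D) * h2
      rcases mul_eq_zero.1 h5 with h6 | h6
      · exact absurd h6 hιc
      · exact sub_eq_zero.1 h6
    have h5 : ι (p ^ 2 + r) * D = ι (w - p * r) := by
      rw [map_add, map_pow, map_sub, map_mul, ← hD]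
      linear_combination -(D + ι p) * h4
    by_cases h6 : p ^ 2 + r = 0
    · rw [h6, map_zero, zero_mul] at h5
      have h7 : w - p * r = 0 := (map_eq_zero ι).1 h5.symm
      apply hc3 p
      have h8 := char2 hF
      linear_combination -h7 + p * h6 - p * r * h8
    · apply hD1 ((w - p * r) / (p ^ 2 + r))
      rw [map_div₀, ← h5]
      have h7 : ι (p ^ 2 + r) ≠ 0 := fun h => h6 ((map_eq_zero ι).1 h)
      rw [mul_div_cancel_left₀ _ h7]
  subst hc
  rw [map_zero, zero_mul, add_zero] at h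
  have hb : b = 0 := by
    by_contra hb
    have hιb : ι b ≠ 0 := fun h => hb ((map_eq_zero ι).1 h)
    apply hD1 (a / b)
    rw [map_div₀, eq_div_iff hιb]
    linear_combination h - ι a * h2
  subst hb
  rw [map_zero, zero_mul, add_zero] at h
  exact ⟨(map_eq_zero ι).1 h, rfl, rfl⟩

theorem ex_aux [Fintype L] (hL : Fintype.card L = 64) {w : F} (hw : w ^ 2 = w + 1) {D : L} (hD : D ^ 3 = ι w) (l : L) :
    ∃ a b c : F, l = ι a + ι b * D + ι c * D ^ 2 := by
  let φ : F × F × F → L := fun x => ι x.1 + ι x.2.1 * D + ι x.2.2 * D ^ 2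
  have hinj : Function.Injective φ := by
    rintro ⟨a, b, c⟩ ⟨a', b', c'⟩ h
    have h1 : ι (a - a') + ι (b - b') * D + ι (c - c') * D ^ 2 = 0 := by
      have h2 : ι a + ι b * D + ι c * D ^ 2 = ι a' + ι b' * D + ι c' * D ^ 2 := h
      rw [map_sub, map_sub, map_sub]
      linear_combination h2
    obtain ⟨h3, h4, h5⟩ := un_aux hF ι hw hD _ _ _ h1
    rw [sub_eq_zero.1 h3, sub_eq_zero.1 h4, sub_eq_zero.1 h5]
  have hbij : Function.Bijective φ := by
    rw [Fintype.bijective_iff_injective_and_card]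
    refine ⟨hinj, ?_⟩
    rw [Fintype.card_prod, Fintype.card_prod, hF, hL]
    norm_num
  obtain ⟨x, hx⟩ := hbij.2 l
  exact ⟨x.1, x.2.1, x.2.2, hx.symm⟩

theorem exists_D [Fintype L] (hL : Fintype.card L = 64) : ∃ (w : F) (D : L), w ^ 2 = w + 1 ∧ D ^ 3 = ι w := by
  classical
  obtain ⟨g, hg⟩ := IsCyclic.exists_ofOrder_eq_natCard (α := Lˣ)
  have h63 : orderOf g = 63 := by
    rw [hg, Nat.card_eq_fintype_card, Fintype.card_units, hL]
  obtain ⟨w, hw⟩ := exists_om hF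
  have h3 : ((g : L) ^ 7) ^ 3 ≠ 1 := by
    intro h
    have h1 : g ^ 21 = 1 := by
      apply Units.ext
      rw [Units.val_pow_eq_pow_val, Units.val_one, ← h]
      ring
    have h4 := orderOf_dvd_of_pow_eq_one h1
    rw [h63] at h4
    exact absurd h4 (by norm_num)
  have h9 : (((g : L) ^ 7) ^ 3) ^ 3 = 1 := by
    have h1 : g ^ 63 = 1 := by rw [← h63]; exact pow_orderOf_eq_one g
    have h4 := congrArg Units.val h1
    rw [Units.val_pow_eq_pow_val, Units.val_one] at h4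
    rw [← h4]
    ring
  rcases cube_root hF ι hw h9 with h | h | h
  · exact absurd h h3
  · exact ⟨w, (g : L) ^ 7, hw, h⟩
  · refine ⟨1 + w, (g : L) ^ 7, ?_, h⟩
    have := char2 hF
    linear_combination hw + w * this

end L

theorem rho_inj {L : Type u} [Field L] {ρ : L →+* Matrix (Fin 6) (Fin 6) F} : Function.Injective ρ := RingHom.injective ρ

variable {f : (Fin 6 → F) → (Fin 6 → F) → F} {τ : F ≃+* F}

theorem exists_KD [Fintype F] (hF : Fintype.card F = 2 ^ 2) (hs : SFm τ 1 f) (hτ : ∀ x, τ x = x ^ 2)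
    (h1 : ∃ x, f x x = 1) {K : Subalgebra F (Matrix (Fin 6) (Fin 6) F)}
    (hK : IsFieldSubalgebra 3 K) (hadj : IsAdjointClosedFor f K) :
    ∃ (L : Type u) (_ : Field L) (_ : Fintype L) (ι : F →+* L) (ρ : L →+* Matrix (Fin 6) (Fin 6) F) (w : F) (D : L),
      Fintype.card L = 64 ∧ (∀ x, x ∈ K ↔ ∃ l, ρ l = x) ∧ KD f ι ρ w D := by
  obtain ⟨L, _, _, ι, ρ, hL, hKρ, hsc⟩ := exists_L hF hK
  obtain ⟨w, D, hw, hD⟩ := exists_D hF ι hL
  refine ⟨L, _, _, ι, ρ, w, D, hL, hKρ, ?_⟩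
  refine ⟨hw, hD, hsc, ?_, ex_aux hF ι hL hw hD, un_aux hF ι hw hD, ?_⟩
  · intro l
    have := FiniteField.pow_card l
    rwa [hL] at this
  · obtain ⟨D', hD', hadj'⟩ := hadj (ρ D) ((hKρ _).2 ⟨D, rfl⟩)
    obtain ⟨d, rfl⟩ := (hKρ _).1 hD'
    have hw3 : w ^ 3 = 1 := cube hF (om_ne_zero hF hw)
    have hp3 : ∀ y, ρ (d ^ 3) *ᵥ y = w ^ 2 • y := by
      intro y
      apply hs.ext_right
      intro x
      have e1 : ρ (d ^ 3) *ᵥ y = ρ d *ᵥ (ρ d *ᵥ (ρ d *ᵥ y)) := by
        rw [Matrix.mulVec_mulVec, Matrix.mulVec_mulVec, ← map_mul, ← map_mul]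
        congr 2
        ring
      have e2 : ρ D *ᵥ (ρ D *ᵥ (ρ D *ᵥ x)) = w • x := by
        rw [Matrix.mulVec_mulVec, Matrix.mulVec_mulVec, ← map_mul, ← map_mul]
        have : D * (D * D) = ι w := by rw [← hD]; ring
        rw [← mul_assoc] at this
        rw [mul_assoc, ← mul_assoc, this, hsc, Matrix.smul_mulVec, Matrix.one_mulVec]
      rw [e1, ← hadj', ← hadj', ← hadj', e2, hs.smul_left, hs.smul_right, hτ]
      have := pow4 hF w
      linear_combination -f x y * this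
    have hd3 : d ^ 3 = ι (w ^ 2) := by
      apply rho_inj (ρ := ρ)
      rw [hsc]
      apply Matrix.ext_of_mulVec_single
      intro i
      rw [hp3, Matrix.smul_mulVec, Matrix.one_mulVec]
    have hdD : (d * D) ^ 3 = 1 := by
      rw [mul_pow, hd3, hD, ← map_mul, ← pow_succ, hw3, map_one]
    obtain ⟨c, hc0, hc⟩ : ∃ c : F, c ≠ 0 ∧ d * D = ι c := by
      rcases cube_root hF ι hw hdD with h | h | h
      · exact ⟨1, one_ne_zero, by rw [h, map_one]⟩
      · exact ⟨w, om_ne_zero hF hw, h⟩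
      · refine ⟨1 + w, ?_, h⟩
        intro h0
        rw [h0, map_zero] at h
        rw [h] at hdD
        simp at hdD
    have hiso : ∀ x y, f (ρ D *ᵥ x) (ρ D *ᵥ y) = c ^ 2 * f x y := by
      intro x y
      rw [hadj', Matrix.mulVec_mulVec, ← map_mul, hc, hsc, Matrix.smul_mulVec, Matrix.one_mulVec, hs.smul_right, hτ]
    obtain ⟨x, hx⟩ := h1
    have h5 : f (ρ D *ᵥ x) (ρ D *ᵥ x) = c ^ 2 := by rw [hiso, hx, mul_one]
    have h6 := hs.herm (ρ D *ᵥ x) (ρ D *ᵥ x)
    rw [one_mul, hτ, h5] at h6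
    have h7 : c ^ 2 = 1 := by
      rcases fix_cases hF h6.symm with h8 | h8
      · exact absurd (pow_eq_zero_iff (by norm_num) |>.1 h8) hc0
      · exact h8
    intro x y
    rw [hiso, h7, one_mul]

end Cfsg.Agent.H29.Us
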