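import Mathlib
import Cfsg.Agent.H29_Us3

set_option autoImplicit false

/-! the form with values in the cubic field -/

namespace Cfsg.Agent.H29.Us

open Matrix Module Cfsg.Geo Cfsg.Agent.H29.Fm

universe u

variable {F : Type u} [Field F]

/-- the form with values in the field -/
def hk (f : (Fin 6 → F) → (Fin 6 → F) → F) {L : Type u} [Field L] (ι : F →+* L)
    (ρ : L →+* Matrix (Fin 6) (Fin 6) F) (D : L) (x y : Fin 6 → F) : L :=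
  ι (f x y) + ι (f (ρ D *ᵥ x) y) * D ^ 8 + ι (f (ρ D *ᵥ (ρ D *ᵥ x)) y) * D ^ 16

variable {f : (Fin 6 → F) → (Fin 6 → F) → F} {τ : F ≃+* F}
variable {L : Type u} [Field L] {ι : F →+* L} {ρ : L →+* Matrix (Fin 6) (Fin 6) F} {w : F} {D : L}

section basic
variable [Fintype F] (hF : Fintype.card F = 2 ^ 2) (hs : SFm τ 1 f) (hτ : ∀ x, τ x = x ^ 2) (hD : KD f ι ρ w D)
include hF hs hτ hD

theorem D9 : D ^ 9 = 1 := by
  have h1 : D ^ 9 = (D ^ 3) ^ 3 := by ring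
  rw [h1, hD.D3, ← map_pow, cube hF (om_ne_zero hF hD.om), map_one]

theorem D0 : D ≠ 0 := by
  intro h
  have := D9 hF hs hτ hD
  rw [h] at this
  simp at this

theorem DDD (x : Fin 6 → F) : ρ D *ᵥ (ρ D *ᵥ (ρ D *ᵥ x)) = w • x := by
  rw [Matrix.mulVec_mulVec, Matrix.mulVec_mulVec, ← map_mul, ← map_mul]
  have : D * (D * D) = ι w := by rw [← hD.D3]; ring
  rw [← mul_assoc] at this
  rw [this, hD.sc, Matrix.smul_mulVec, Matrix.one_mulVec]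

theorem hk_add (x x' y : Fin 6 → F) : hk f ι ρ D (x + x') y = hk f ι ρ D x y + hk f ι ρ D x' y := by
  unfold hk
  simp only [Matrix.mulVec_add, hs.add_left, map_add]
  ring

theorem hk_add_right (y x x' : Fin 6 → F) : hk f ι ρ D y (x + x') = hk f ι ρ D y x + hk f ι ρ D y x' := by
  unfold hk
  simp only [hs.add_right, map_add]
  ring

theorem hk_c (c : F) (x y : Fin 6 → F) : hk f ι ρ D (c • x) y = ι c * hk f ι ρ D x y := by
  unfold hk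
  simp only [Matrix.mulVec_smul, hs.smul_left, map_mul]
  ring

theorem hk_D (x y : Fin 6 → F) : hk f ι ρ D (ρ D *ᵥ x) y = D * hk f ι ρ D x y := by
  unfold hk
  rw [DDD hF hs hτ hD, hs.smul_left, map_mul]
  have h1 := D9 hF hs hτ hD
  have h2 : ι w = D ^ 3 := hD.D3.symm
  rw [h2]
  linear_combination (ι (f (ρ D *ᵥ x) y) * -1 + ι (f x y) * D ^ 10 + ι (f x y) * D + 0 - ι (f (ρ D *ᵥ (ρ D *ᵥ x)) y) * D ^ 8 ) * h1

theorem rho_exp (l : L) (x : Fin 6 → F) : ∃ a b c : F, l = ι a + ι b * D + ι c * D ^ 2 ∧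
    ρ l *ᵥ x = a • x + b • (ρ D *ᵥ x) + c • (ρ D *ᵥ (ρ D *ᵥ x)) := by
  obtain ⟨a, b, c, h⟩ := hD.ex l
  refine ⟨a, b, c, h, ?_⟩
  rw [h, map_add, map_add, map_mul, map_mul, map_pow, hD.sc, hD.sc, hD.sc, Matrix.add_mulVec, Matrix.add_mulVec,
    Matrix.smul_mulVec, Matrix.one_mulVec, smul_mul_assoc, one_mul, Matrix.smul_mulVec, smul_mul_assoc, one_mul,
    Matrix.smul_mulVec, pow_two, ← Matrix.mulVec_mulVec]

theorem hk_l (l : L) (x y : Fin 6 → F) : hk f ι ρ D (ρ l *ᵥ x) y = l * hk f ι ρ D x y := by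
  obtain ⟨a, b, c, h, h'⟩ := rho_exp hF hs hτ hD l x
  rw [h', hk_add hF hs hτ hD, hk_add hF hs hτ hD, hk_c hF hs hτ hD, hk_c hF hs hτ hD, hk_c hF hs hτ hD,
    hk_D hF hs hτ hD, hk_D hF hs hτ hD, hk_D hF hs hτ hD, h]
  ring

theorem pow8_add (a b : L) : (a + b) ^ 8 = a ^ 8 + b ^ 8 := by
  have h2 := L2 hF ι
  haveI : CharP L 2 := CharTwo.of_one_ne_zero_of_two_eq_zero one_ne_zero (by rw [← h2]; norm_num)
  have := add_pow_char_pow (p := 2) (n := 3) a b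
  norm_num at this
  exact this

theorem pow8_c (c : F) : (ι c) ^ 8 = ι (c ^ 2) := by
  rw [← map_pow]
  congr 1
  have := pow4 hF c
  linear_combination (c ^ 4 + c) * this

theorem adjD (x y : Fin 6 → F) : f (ρ D *ᵥ x) y = f x (ρ (D ^ 8) *ᵥ y) := by
  rw [← hD.iso x, Matrix.mulVec_mulVec, ← map_mul]
  have h1 : D * D ^ 8 = 1 := by rw [← D9 hF hs hτ hD]; ring
  rw [h1, map_one, Matrix.one_mulVec]

theorem adj (l : L) (x y : Fin 6 → F) : f (ρ l *ᵥ x) y = f x (ρ (l ^ 8) *ᵥ y) := by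
  obtain ⟨a, b, c, h⟩ := hD.ex l
  have h8 : l ^ 8 = ι (a ^ 2) + ι (b ^ 2) * D ^ 8 + ι (c ^ 2) * (D ^ 8) ^ 2 := by
    rw [h, pow8_add hF hs hτ hD, pow8_add hF hs hτ hD, mul_pow, mul_pow, pow8_c hF hs hτ hD, pow8_c hF hs hτ hD,
      pow8_c hF hs hτ hD]
    ring
  have hp : ∀ c : F, c = (c ^ 2) ^ 2 := by
    intro c
    have := pow4 hF c
    linear_combination -this
  rw [h8, h, map_add, map_add, map_mul, map_mul, map_pow, map_add, map_add, map_mul, map_mul, map_pow (n := 2) ρ, hD.sc, hD.sc, hD.sc, hD.sc,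
    hD.sc, hD.sc]
  simp only [Matrix.add_mulVec, Matrix.smul_mulVec, Matrix.one_mulVec, smul_mul_assoc, one_mul, pow_two (ρ _), ← Matrix.mulVec_mulVec]
  rw [hs.add_left, hs.add_left, hs.add_right, hs.add_right, hs.smul_left, hs.smul_left, hs.smul_left, hs.smul_right, hs.smul_right,
    hs.smul_right, hτ, hτ, hτ, ← hp, ← hp, ← hp, adjD hF hs hτ hD, adjD hF hs hτ hD (ρ D *ᵥ x) y, adjD hF hs hτ hD x]

theorem hk_r (l : L) (x y : Fin 6 → F) : hk f ι ρ D x (ρ l *ᵥ y) = l ^ 8 * hk f ι ρ D x y := by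
  rw [← hk_l hF hs hτ hD]
  unfold hk
  have h1 : (l ^ 8) ^ 8 = l := by rw [← pow_mul]; exact hD.p64 l
  have h2 : ∀ z, f (ρ (l ^ 8) *ᵥ z) y = f z (ρ l *ᵥ y) := by
    intro z
    rw [adj hF hs hτ hD, h1]
  have h3 : ∀ z, ρ D *ᵥ (ρ (l ^ 8) *ᵥ z) = ρ (l ^ 8) *ᵥ (ρ D *ᵥ z) := by
    intro z
    rw [Matrix.mulVec_mulVec, Matrix.mulVec_mulVec, ← map_mul, ← map_mul, mul_comm]
  rw [h3, h3, h2, h2, h2]

theorem hk_herm (x y : Fin 6 → F) : hk f ι ρ D y x = hk f ι ρ D x y ^ 8 := by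
  unfold hk
  rw [pow8_add hF hs hτ hD, pow8_add hF hs hτ hD, mul_pow, mul_pow, pow8_c hF hs hτ hD, pow8_c hF hs hτ hD,
    pow8_c hF hs hτ hD, ← hτ, ← hτ, ← hτ]
  have e : ∀ a b, τ (f a b) = f b a := by
    intro a b
    rw [hs.herm b a, one_mul]
  rw [e, e, e]
  have h1 := D9 hF hs hτ hD
  have e1 : f (ρ D *ᵥ (ρ D *ᵥ y)) x = w * f y (ρ D *ᵥ x) := by
    rw [← hD.iso, DDD hF hs hτ hD, hs.smul_left]
  have e2 : f (ρ D *ᵥ y) x = w * f y (ρ D *ᵥ (ρ D *ᵥ x)) := by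
    rw [← hD.iso, ← hD.iso, DDD hF hs hτ hD, hs.smul_left]
  rw [e1, e2, map_mul, map_mul, ← hD.D3]
  set A := ι (f y x)
  set B := ι (f y (ρ D *ᵥ x))
  set C := ι (f y (ρ D *ᵥ (ρ D *ᵥ x)))
  have e3 : (D ^ 8) ^ 8 = D := by rw [← pow_mul]; exact hD.p64 D
  have e4 : (D ^ 16) ^ 8 = D ^ 2 := by
    have : (D ^ 16) ^ 8 = ((D ^ 8) ^ 8) ^ 2 := by ring
    rw [this, e3]
  rw [e3, e4]
  linear_combination (B * D * (D ^ 9 + 1) + C * D ^ 2) * h1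

theorem f_of_hk {x y x' y' : Fin 6 → F} (h : hk f ι ρ D x y = hk f ι ρ D x' y') : f x y = f x' y' := by
  unfold hk at h
  have h1 := D9 hF hs hτ hD
  have h2 : ι (f (ρ D *ᵥ (ρ D *ᵥ x)) y - f (ρ D *ᵥ (ρ D *ᵥ x')) y') + ι (f (ρ D *ᵥ x) y - f (ρ D *ᵥ x') y') * D +
      ι (f x y - f x' y') * D ^ 2 = 0 := by
    rw [map_sub, map_sub, map_sub]
    linear_combination D ^ 2 * h - (ι (f (ρ D *ᵥ x) y) - ι (f (ρ D *ᵥ x') y')) * D * h1 -
      (ι (f (ρ D *ᵥ (ρ D *ᵥ x)) y) - ι (f (ρ D *ᵥ (ρ D *ᵥ x')) y')) * (D ^ 9 + 1) * h1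
  exact sub_eq_zero.1 (hD.un _ _ _ h2).2.2

theorem hk_zero_left (y : Fin 6 → F) : hk f ι ρ D 0 y = 0 := by
  unfold hk
  simp only [Matrix.mulVec_zero, hs.zero_left, map_zero, zero_mul, add_zero]

theorem f_zero {x y : Fin 6 → F} (h : hk f ι ρ D x y = 0) : f x y = 0 := by
  rw [← hk_zero_left hF hs hτ hD y] at h
  rw [f_of_hk hF hs hτ hD h, hs.zero_left]

theorem f_T {x y : Fin 6 → F} {a b c : F} (h : hk f ι ρ D x y = ι a + ι b * D + ι c * D ^ 2) : f x y = a := by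
  unfold hk at h
  have h1 := D9 hF hs hτ hD
  have h2 : ι (f (ρ D *ᵥ (ρ D *ᵥ x)) y - w * b) + ι (f (ρ D *ᵥ x) y - w * c) * D +
      ι (f x y - a) * D ^ 2 = 0 := by
    rw [map_sub, map_sub, map_sub, map_mul, map_mul, ← hD.D3]
    linear_combination D ^ 2 * h - ι (f (ρ D *ᵥ x) y) * D * h1 -
      ι (f (ρ D *ᵥ (ρ D *ᵥ x)) y) * (D ^ 9 + 1) * h1
  exact sub_eq_zero.1 (hD.un _ _ _ h2).2.2

end basic

end Cfsg.Agent.H29.Us
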