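import Mathlib
import Cfsg.Agent.H29_Us4

set_option autoImplicit false

/-! hyperbolic pairs over the cubic field, the semilinear involution -/

namespace Cfsg.Agent.H29.Us

open Matrix Module Cfsg.Geo Cfsg.Agent.H29.Fm

universe u

variable {F : Type u} [Field F]

variable {f : (Fin 6 → F) → (Fin 6 → F) → F} {τ : F ≃+* F}
variable {L : Type u} [Field L] {ι : F →+* L} {ρ : L →+* Matrix (Fin 6) (Fin 6) F} {w : F} {D : L}

/-- unitary two by two matrices are multiples of matrices over the fixed field -/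
theorem gu2 (h2 : (1 : L) + 1 = 0) (h64 : ∀ x : L, x ^ 64 = x) {a b c d : L} (h1 : a * b ^ 8 + b * a ^ 8 = 0)
    (h3 : c * d ^ 8 + d * c ^ 8 = 0) (h4 : a * d ^ 8 + b * c ^ 8 = 1) :
    ∃ t a0 b0 c0 d0 : L, t ≠ 0 ∧ a = t * a0 ∧ b = t * b0 ∧ c = t * c0 ∧ d = t * d0 ∧ a0 ^ 8 = a0 ∧ b0 ^ 8 = b0 ∧
      c0 ^ 8 = c0 ∧ d0 ^ 8 = d0 := by
  haveI : CharP L 2 := CharTwo.of_one_ne_zero_of_two_eq_zero one_ne_zero (by rw [← h2]; norm_num)
  have h5 : d * a ^ 8 + c * b ^ 8 = 1 := by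
    have h6 := congrArg (fun z => z ^ 8) h4
    have h7 := add_pow_char_pow (p := 2) (n := 3) (a * d ^ 8) (b * c ^ 8)
    norm_num at h7
    have h8 : (a * d ^ 8) ^ 8 = a ^ 8 * d := by
      rw [mul_pow, ← pow_mul]
      rw [show 8 * 8 = 64 from rfl, h64]
    have h9 : (b * c ^ 8) ^ 8 = b ^ 8 * c := by
      rw [mul_pow, ← pow_mul]
      rw [show 8 * 8 = 64 from rfl, h64]
    simp only [one_pow] at h6
    rw [h7, h8, h9] at h6
    linear_combination h6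
  set e := a * d + b * c with he
  have ha : e * a ^ 8 = a := by
    rw [he]; linear_combination a * h5 + c * h1 - a * b ^ 8 * c * h2
  have hb : e * b ^ 8 = b := by
    rw [he]; linear_combination b * h5 + d * h1 - b * d * a ^ 8 * h2
  have hc : e * c ^ 8 = c := by
    rw [he]; linear_combination c * h4 + a * h3 - a * c * d ^ 8 * h2
  have hd : e * d ^ 8 = d := by
    rw [he]; linear_combination d * h4 + b * h3 - b * d * c ^ 8 * h2
  obtain ⟨t, ht0, ht⟩ : ∃ t, t ≠ 0 ∧ e * t ^ 8 = t := by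
    by_cases h0 : a = 0
    · refine ⟨b, ?_, hb⟩
      intro hb0
      rw [h0, hb0] at h4
      simp at h4
    · exact ⟨a, h0, ha⟩
  have he0 : e ≠ 0 := by
    intro h
    rw [h, zero_mul] at ht
    exact ht0 ht.symm
  have key : ∀ x, e * x ^ 8 = x → (t⁻¹ * x) ^ 8 = t⁻¹ * x := by
    intro x hx
    have h6 : t ^ 8 ≠ 0 := pow_ne_zero _ ht0
    rw [mul_pow, inv_pow, inv_mul_eq_iff_eq_mul₀ h6]
    have h7 : e * (x ^ 8 * t) = e * (t ^ 8 * x) := by linear_combination t * hx - x * ht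
    have h8 := mul_left_cancel₀ he0 h7
    have h9 : x ^ 8 * t = (t ^ 8 * (t⁻¹ * x)) * t := by
      rw [h8]
      have : t⁻¹ * t = 1 := inv_mul_cancel₀ ht0
      linear_combination -(t ^ 8 * x) * this
    exact mul_right_cancel₀ ht0 h9
  refine ⟨t, t⁻¹ * a, t⁻¹ * b, t⁻¹ * c, t⁻¹ * d, ht0, ?_, ?_, ?_, ?_, key a ha, key b hb, key c hc, key d hd⟩ <;>
    rw [← mul_assoc, mul_inv_cancel₀ ht0, one_mul]

section basic
variable [Fintype F] [Fintype L] (hF : Fintype.card F = 2 ^ 2) (hL : Fintype.card L = 64) (hs : SFm τ 1 f)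
  (hτ : ∀ x, τ x = x ^ 2) (hD : KD f ι ρ w D)

theorem rinj {l : L} {x : Fin 6 → F} (hx : x ≠ 0) (h : ρ l *ᵥ x = 0) : l = 0 := by
  by_contra h0
  apply hx
  have h1 : ρ l⁻¹ *ᵥ (ρ l *ᵥ x) = 0 := by rw [h, Matrix.mulVec_zero]
  rwa [Matrix.mulVec_mulVec, ← map_mul, inv_mul_cancel₀ h0, map_one, Matrix.one_mulVec] at h1

include hF hL in
theorem span2 {e f' : Fin 6 → F} (h : ∀ l m : L, ρ l *ᵥ e + ρ m *ᵥ f' = 0 → l = 0 ∧ m = 0) :
    Function.Bijective (fun p : L × L => ρ p.1 *ᵥ e + ρ p.2 *ᵥ f') := by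
  classical
  rw [Fintype.bijective_iff_injective_and_card]
  constructor
  · rintro ⟨a, b⟩ ⟨a', b'⟩ hab
    have h1 : ρ (a - a') *ᵥ e + ρ (b - b') *ᵥ f' = 0 := by
      have h2 : ρ a *ᵥ e + ρ b *ᵥ f' = ρ a' *ᵥ e + ρ b' *ᵥ f' := hab
      rw [map_sub, map_sub, Matrix.sub_mulVec, Matrix.sub_mulVec]
      have h3 := sub_eq_zero.2 h2
      rw [← h3]
      abel
    obtain ⟨h3, h4⟩ := h _ _ h1
    rw [sub_eq_zero.1 h3, sub_eq_zero.1 h4]
  · rw [Fintype.card_prod, Fintype.card_fun, hL, hF, Fintype.card_fin]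
    norm_num

include hF hL hs hτ hD

theorem exists_on2 (h1 : ∃ x, f x x = 1) : ∃ v u : Fin 6 → F, hk f ι ρ D v v = 1 ∧ hk f ι ρ D u u = 1 ∧ hk f ι ρ D v u = 0 := by
  classical
  have hsc : ∀ x, hk f ι ρ D x x ≠ 0 → ∃ a : L, hk f ι ρ D (ρ a *ᵥ x) (ρ a *ᵥ x) = 1 := by
    intro x hx
    set q := hk f ι ρ D x x with hq
    have h8 : q ^ 8 = q := (hk_herm hF hs hτ hD x x).symm
    have h63 : q ^ 63 = 1 := by
      have := hD.p64 q
      have h2 : q * (q ^ 63 - 1) = 0 := by linear_combination this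
      rcases mul_eq_zero.1 h2 with h3 | h3
      · exact absurd h3 hx
      · exact sub_eq_zero.1 h3
    refine ⟨q ^ 31, ?_⟩
    rw [hk_l hF hs hτ hD, hk_r hF hs hτ hD, ← hq]
    have h3 : (q ^ 31) ^ 8 = q ^ 31 := by rw [← pow_mul, mul_comm, pow_mul, h8]
    rw [h3, ← h63]
    ring
  obtain ⟨x0, hx0⟩ := h1
  obtain ⟨v, ha⟩ : ∃ v, hk f ι ρ D v v = 1 := by
    obtain ⟨a, ha⟩ := hsc x0 (fun h => by
      have := f_zero hF hs hτ hD h
      rw [hx0] at this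
      exact one_ne_zero this)
    exact ⟨_, ha⟩
  have hv0 : v ≠ 0 := by
    intro h
    rw [h, hk_zero_left hF hs hτ hD] at ha
    exact zero_ne_one ha
  -- a vector outside the line
  obtain ⟨y, hy⟩ : ∃ y, ∀ l : L, ρ l *ᵥ v ≠ y := by
    by_contra hcon
    push Not at hcon
    have h2 : Function.Surjective (fun l : L => ρ l *ᵥ v) := hcon
    have h3 := Fintype.card_le_of_surjective _ h2
    rw [Fintype.card_fun, hL, hF, Fintype.card_fin] at h3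
    norm_num at h3
  set z := y + ρ (hk f ι ρ D y v) *ᵥ v with hz
  have h2 := L2 hF ι
  have hself : ∀ l : L, l + l = 0 := fun l => by linear_combination l * h2
  have hz0 : z ≠ 0 := by
    intro h
    apply hy (hk f ι ρ D y v)
    have h3 : y + ρ (hk f ι ρ D y v) *ᵥ v + ρ (hk f ι ρ D y v) *ᵥ v = ρ (hk f ι ρ D y v) *ᵥ v := by rw [← hz, h, zero_add]
    rw [add_assoc, ← Matrix.add_mulVec, ← map_add, hself, map_zero, Matrix.zero_mulVec, add_zero] at h3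
    exact h3.symm
  have hzv : hk f ι ρ D z v = 0 := by
    rw [hz, hk_add hF hs hτ hD, hk_l hF hs hτ hD, ha, mul_one, hself]
  have hvz : hk f ι ρ D v z = 0 := by
    rw [hk_herm hF hs hτ hD z v, hzv, zero_pow (by norm_num)]
  have hzz : hk f ι ρ D z z ≠ 0 := by
    intro hzz
    have hb := span2 (ρ := ρ) (e := v) (f' := z) hF hL (by
      intro l m hlm
      have h3 : hk f ι ρ D (ρ l *ᵥ v + ρ m *ᵥ z) v = 0 := by rw [hlm, hk_zero_left hF hs hτ hD]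
      rw [hk_add hF hs hτ hD, hk_l hF hs hτ hD, hk_l hF hs hτ hD, ha, hzv, mul_one, mul_zero, add_zero] at h3
      rw [h3, map_zero, Matrix.zero_mulVec, zero_add] at hlm
      exact ⟨h3, rinj hz0 hlm⟩)
    obtain ⟨x, hx⟩ := hs.nd z hz0
    obtain ⟨⟨l, m⟩, hlm⟩ := hb.2 x
    apply hx
    apply f_zero hF hs hτ hD
    rw [← hlm]
    show hk f ι ρ D (ρ l *ᵥ v + ρ m *ᵥ z) z = 0
    rw [hk_add hF hs hτ hD, hk_l hF hs hτ hD, hk_l hF hs hτ hD, hvz, hzz, mul_zero, mul_zero, add_zero]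
  obtain ⟨b, hb⟩ := hsc z hzz
  refine ⟨v, ρ b *ᵥ z, ha, hb, ?_⟩
  rw [hk_r hF hs hτ hD, hvz, mul_zero]

theorem det_D (h1 : ∃ x, f x x = 1) (hf : f = Cfsg.hermForm 6 F 2) : (ρ D).det = w ^ 2 := by
  obtain ⟨v, u, hvv, huu, hvu⟩ := exists_on2 hF hL hs hτ hD h1
  have huv : hk f ι ρ D u v = 0 := by rw [hk_herm hF hs hτ hD v u, hvu, zero_pow (by norm_num)]
  set b : Fin 6 → (Fin 6 → F) := ![v, ρ D *ᵥ v, ρ D *ᵥ (ρ D *ᵥ v), u, ρ D *ᵥ u, ρ D *ᵥ (ρ D *ᵥ u)] with hb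
  have h9 := D9 hF hs hτ hD
  have hw0 := om_ne_zero hF hD.om
  -- values of the form
  have hT : ∀ {x y : Fin 6 → F} , hk f ι ρ D x y = 1 → f x y = 1 := by
    intro x y h
    apply f_T hF hs hτ hD (b := 0) (c := 0)
    rw [h, map_one, map_zero]; ring
  have hT1 : ∀ {x y : Fin 6 → F} , hk f ι ρ D x y = D → f x y = 0 := by
    intro x y h
    apply f_T hF hs hτ hD (b := 1) (c := 0)
    rw [h, map_one, map_zero]; ring
  have hT2 : ∀ {x y : Fin 6 → F} , hk f ι ρ D x y = D ^ 2 → f x y = 0 := by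
    intro x y h
    apply f_T hF hs hτ hD (b := 0) (c := 1)
    rw [h, map_one, map_zero]; ring
  have hT0 : ∀ {x y : Fin 6 → F} , hk f ι ρ D x y = 0 → f x y = 0 := fun h => f_zero hF hs hτ hD h
  have e1 : ∀ x, hk f ι ρ D x x = 1 → f x x = 1 ∧ f (ρ D *ᵥ x) x = 0 ∧ f (ρ D *ᵥ (ρ D *ᵥ x)) x = 0 ∧
      f x (ρ D *ᵥ x) = 0 ∧ f x (ρ D *ᵥ (ρ D *ᵥ x)) = 0 := by
    intro x hx
    have a1 : f (ρ D *ᵥ x) x = 0 := hT1 (by rw [hk_D hF hs hτ hD, hx, mul_one])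
    have a2 : f (ρ D *ᵥ (ρ D *ᵥ x)) x = 0 := hT2 (by rw [hk_D hF hs hτ hD, hk_D hF hs hτ hD, hx, mul_one, pow_two])
    exact ⟨hT hx, a1, a2, hs.comm_zero a1, hs.comm_zero a2⟩
  have e0 : ∀ x y, hk f ι ρ D x y = 0 → f x y = 0 ∧ f (ρ D *ᵥ x) y = 0 ∧ f (ρ D *ᵥ (ρ D *ᵥ x)) y = 0 ∧
      f x (ρ D *ᵥ y) = 0 ∧ f x (ρ D *ᵥ (ρ D *ᵥ y)) = 0 := by
    intro x y hx
    refine ⟨hT0 hx, hT0 ?_, hT0 ?_, hT0 ?_, hT0 ?_⟩
    · rw [hk_D hF hs hτ hD, hx, mul_zero]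
    · rw [hk_D hF hs hτ hD, hk_D hF hs hτ hD, hx, mul_zero, mul_zero]
    · rw [hk_r hF hs hτ hD, hx, mul_zero]
    · rw [hk_r hF hs hτ hD, hk_r hF hs hτ hD, hx, mul_zero, mul_zero]
  have hon : ON b := by
    intro i j
    rw [← hf]
    obtain ⟨v0, v1, v2, v3, v4⟩ := e1 v hvv
    obtain ⟨u0, u1, u2, u3, u4⟩ := e1 u huu
    obtain ⟨p0, p1, p2, p3, p4⟩ := e0 v u hvu
    obtain ⟨q0, q1, q2, q3, q4⟩ := e0 u v huv
    fin_cases i <;> fin_cases j <;> simp only [hb, Matrix.cons_val, Fin.zero_eta, Fin.mk_one, Fin.reduceFinMk, Fin.reduceEq, if_true, if_false, reduceIte] <;>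
      first
      | assumption
      | (rw [hD.iso]; assumption)
      | (rw [hD.iso, hD.iso]; assumption)
  have hgb : ∀ i, ρ D *ᵥ b i = (![1, 1, w, 1, 1, w] : Fin 6 → F) i • b ((Equiv.swap 0 1 * Equiv.swap 1 2 * (Equiv.swap 3 4 * Equiv.swap 4 5) : Equiv.Perm (Fin 6)) i) := by
    intro i
    have ea : (Equiv.swap 0 1 * Equiv.swap 1 2 * (Equiv.swap 3 4 * Equiv.swap 4 5) : Equiv.Perm (Fin 6)) 0 = 1 := by decide
    have eb : (Equiv.swap 0 1 * Equiv.swap 1 2 * (Equiv.swap 3 4 * Equiv.swap 4 5) : Equiv.Perm (Fin 6)) 1 = 2 := by decide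
    have ec : (Equiv.swap 0 1 * Equiv.swap 1 2 * (Equiv.swap 3 4 * Equiv.swap 4 5) : Equiv.Perm (Fin 6)) 2 = 0 := by decide
    have ed : (Equiv.swap 0 1 * Equiv.swap 1 2 * (Equiv.swap 3 4 * Equiv.swap 4 5) : Equiv.Perm (Fin 6)) 3 = 4 := by decide
    have ee : (Equiv.swap 0 1 * Equiv.swap 1 2 * (Equiv.swap 3 4 * Equiv.swap 4 5) : Equiv.Perm (Fin 6)) 4 = 5 := by decide
    have ef : (Equiv.swap 0 1 * Equiv.swap 1 2 * (Equiv.swap 3 4 * Equiv.swap 4 5) : Equiv.Perm (Fin 6)) 5 = 3 := by decide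
    generalize (Equiv.swap 0 1 * Equiv.swap 1 2 * (Equiv.swap 3 4 * Equiv.swap 4 5) : Equiv.Perm (Fin 6)) = σ at ea eb ec ed ee ef
    fin_cases i
    · show ρ D *ᵥ v = (1 : F) • b (σ 0)
      rw [ea, one_smul]; rfl
    · show ρ D *ᵥ (ρ D *ᵥ v) = (1 : F) • b (σ 1)
      rw [eb, one_smul]; rfl
    · show ρ D *ᵥ (ρ D *ᵥ (ρ D *ᵥ v)) = w • b (σ 2)
      rw [ec, DDD hF hs hτ hD]; rfl
    · show ρ D *ᵥ u = (1 : F) • b (σ 3)
      rw [ed, one_smul]; rfl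
    · show ρ D *ᵥ (ρ D *ᵥ u) = (1 : F) • b (σ 4)
      rw [ee, one_smul]; rfl
    · show ρ D *ᵥ (ρ D *ᵥ (ρ D *ᵥ u)) = w • b (σ 5)
      rw [ef, DDD hF hs hτ hD]; rfl
  have h5 := det_mono hF hon hgb
  rw [h5, Fin.prod_univ_six]
  show 1 * 1 * w * 1 * 1 * w = w ^ 2
  ring

end basic

end Cfsg.Agent.H29.Us
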