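import Mathlib
import Cfsg.Agent.H29_Us5

set_option autoImplicit false

/-! the semilinear involution -/

namespace Cfsg.Agent.H29.Us

open Matrix Module Cfsg.Geo Cfsg.Agent.H29.Fm

universe u

variable {F : Type u} [Field F]

/-- semilinear operators over the field of order four -/
structure SJ (J : (Fin 6 → F) → (Fin 6 → F)) : Prop where
  add : ∀ x y, J (x + y) = J x + J y
  smul : ∀ (c : F) x, J (c • x) = c ^ 2 • J x
  inv : ∀ x, J (J x) = x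

theorem SJ.zero {J : (Fin 6 → F) → (Fin 6 → F)} (hJ : SJ J) : J 0 = 0 := by
  have := hJ.smul 0 0
  rw [zero_smul] at this
  rw [this]
  simp

theorem SJ.sum {J : (Fin 6 → F) → (Fin 6 → F)} (hJ : SJ J) {α : Type*} (s : Finset α) (g : α → (Fin 6 → F)) :
    J (∑ i ∈ s, g i) = ∑ i ∈ s, J (g i) := by
  classical
  induction s using Finset.induction_on with
  | empty => simp [hJ.zero]
  | insert a s ha ih => rw [Finset.sum_insert ha, Finset.sum_insert ha, hJ.add, ih]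

/-- the matrix -/
def mQ (J : (Fin 6 → F) → (Fin 6 → F)) : Matrix (Fin 6) (Fin 6) F := Matrix.of fun a i => J (Pi.single i 1) a

theorem mQ_apply {J : (Fin 6 → F) → (Fin 6 → F)} (hJ : SJ J) (x : Fin 6 → F) : J x = mQ J *ᵥ (fun i => x i ^ 2) := by
  have h1 : x = ∑ i, x i • (Pi.single i (1 : F) : Fin 6 → F) := by
    funext j
    simp [Finset.sum_apply, Pi.single_apply]
  conv_lhs => rw [h1]
  rw [hJ.sum]
  funext a
  rw [Finset.sum_apply, Matrix.mulVec, dotProduct]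
  apply Finset.sum_congr rfl
  intro i _
  rw [hJ.smul, Pi.smul_apply, smul_eq_mul, mul_comm]
  rfl

theorem det_fix {τ : F ≃+* F} (hτ : ∀ x, τ x = x ^ 2)
    {J : (Fin 6 → F) → (Fin 6 → F)} (hJ : SJ J) {G : Matrix (Fin 6) (Fin 6) F} (hG : ∀ x, G *ᵥ (J x) = J (G *ᵥ x))
    (h0 : G.det ≠ 0) : G.det = 1 := by
  have hmap : ∀ M : Matrix (Fin 6) (Fin 6) F, (M.map (fun x => x ^ 2)).det = M.det ^ 2 := by
    intro M
    rw [← hτ, RingEquiv.map_det]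
    congr 1
    ext i j
    simp [hτ]
  have hcol : ∀ M : Matrix (Fin 6) (Fin 6) F, ∀ i, J (M *ᵥ Pi.single i 1) = (mQ J * M.map (fun x => x ^ 2)) *ᵥ Pi.single i 1 := by
    intro M i
    rw [mQ_apply hJ, ← Matrix.mulVec_mulVec]
    congr 1
    funext a
    simp [Matrix.mulVec_single]
  have hQ : mQ J * (mQ J).map (fun x => x ^ 2) = 1 := by
    apply Matrix.ext_of_mulVec_single
    intro i
    rw [← hcol, Matrix.one_mulVec]
    have h1 : mQ J *ᵥ Pi.single i 1 = J (Pi.single i 1) := by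
      funext a
      simp [Matrix.mulVec_single, mQ]
    rw [h1, hJ.inv]
  have hQ0 : (mQ J).det ≠ 0 := by
    intro h
    have h1 := congrArg Matrix.det hQ
    rw [Matrix.det_mul, h, zero_mul, Matrix.det_one] at h1
    exact zero_ne_one h1
  have h2 : G * mQ J = mQ J * G.map (fun x => x ^ 2) := by
    apply Matrix.ext_of_mulVec_single
    intro i
    rw [← hcol, ← hG, ← Matrix.mulVec_mulVec]
    congr 1
    funext a
    simp [Matrix.mulVec_single, mQ]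
  have h3 := congrArg Matrix.det h2
  rw [Matrix.det_mul, Matrix.det_mul, hmap] at h3
  have h4 : (mQ J).det * G.det * (G.det - 1) = 0 := by linear_combination -h3
  rcases mul_eq_zero.1 h4 with h5 | h5
  · exact absurd h5 (mul_ne_zero hQ0 h0)
  · exact sub_eq_zero.1 h5

variable {f : (Fin 6 → F) → (Fin 6 → F) → F} {τ : F ≃+* F}
variable {L : Type u} [Field L] {ι : F →+* L} {ρ : L →+* Matrix (Fin 6) (Fin 6) F} {w : F} {D : L}

/-- hyperbolic pairs with the involution -/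
structure HJ (f : (Fin 6 → F) → (Fin 6 → F) → F) (ι : F →+* L) (ρ : L →+* Matrix (Fin 6) (Fin 6) F) (D : L)
    (e f' : Fin 6 → F) (J : (Fin 6 → F) → (Fin 6 → F)) : Prop where
  ee : hk f ι ρ D e e = 0
  ff : hk f ι ρ D f' f' = 0
  ef : hk f ι ρ D e f' = 1
  fe : hk f ι ρ D f' e = 1
  surj : ∀ x, ∃ l m : L, x = ρ l *ᵥ e + ρ m *ᵥ f'
  inj : ∀ l m l' m' : L, ρ l *ᵥ e + ρ m *ᵥ f' = ρ l' *ᵥ e + ρ m' *ᵥ f' → l = l' ∧ m = m'
  J_apply : ∀ l m : L, J (ρ l *ᵥ e + ρ m *ᵥ f') = ρ (l ^ 8) *ᵥ e + ρ (m ^ 8) *ᵥ f'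
  sj : SJ J

section basic
variable [Fintype F] [Fintype L] (hF : Fintype.card F = 2 ^ 2) (hL : Fintype.card L = 64) (hs : SFm τ 1 f)
  (hτ : ∀ x, τ x = x ^ 2) (hD : KD f ι ρ w D)
include hF hL hs hτ hD

theorem exists_HJ (h1 : ∃ x, f x x = 1) : ∃ e f' J, HJ f ι ρ D e f' J := by
  classical
  obtain ⟨v, u, hvv, huu, hvu⟩ := exists_on2 hF hL hs hτ hD h1
  have huv : hk f ι ρ D u v = 0 := by rw [hk_herm hF hs hτ hD v u, hvu, zero_pow (by norm_num)]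
  have h2 := L2 hF ι
  obtain ⟨e, he⟩ : ∃ e, e = v + u := ⟨_, rfl⟩
  obtain ⟨f', hf'⟩ : ∃ f', f' = ρ (ι w) *ᵥ v + ρ (ι (w ^ 2)) *ᵥ u := ⟨_, rfl⟩
  have hw3 := cube hF (om_ne_zero hF hD.om)
  have hw8 : (ι w) ^ 8 = ι (w ^ 2) := pow8_c hF hs hτ hD w
  have hw8' : (ι (w ^ 2)) ^ 8 = ι w := by
    rw [pow8_c hF hs hτ hD]
    congr 1
    linear_combination pow4 hF w
  have hww : ι w * ι (w ^ 2) = 1 := by rw [← map_mul, ← map_one ι]; congr 1; linear_combination hw3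
  have hw1 : ι (w ^ 2) + ι w = 1 := by
    rw [hD.om, map_add, map_one]
    linear_combination ι w * h2
  have ee : hk f ι ρ D e e = 0 := by
    rw [he, hk_add hF hs hτ hD, hk_add_right hF hs hτ hD, hk_add_right hF hs hτ hD, hvv, huu, hvu, huv]
    linear_combination h2
  have ff : hk f ι ρ D f' f' = 0 := by
    rw [hf', hk_add hF hs hτ hD, hk_add_right hF hs hτ hD, hk_add_right hF hs hτ hD]
    simp only [hk_l hF hs hτ hD, hk_r hF hs hτ hD, hvv, huu, hvu, huv, hw8, hw8']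
    linear_combination 2 * hww + h2
  have ef : hk f ι ρ D e f' = 1 := by
    rw [he, hf', hk_add hF hs hτ hD, hk_add_right hF hs hτ hD, hk_add_right hF hs hτ hD]
    simp only [hk_r hF hs hτ hD, hvv, huu, hvu, huv, hw8, hw8']
    linear_combination hw1
  have fe : hk f ι ρ D f' e = 1 := by rw [hk_herm hF hs hτ hD e f', ef, one_pow]
  have hb := span2 (ρ := ρ) (e := e) (f' := f') hF hL (by
    intro l m hlm
    have h3 : hk f ι ρ D (ρ l *ᵥ e + ρ m *ᵥ f') f' = 0 := by rw [hlm, hk_zero_left hF hs hτ hD]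
    have h4 : hk f ι ρ D (ρ l *ᵥ e + ρ m *ᵥ f') e = 0 := by rw [hlm, hk_zero_left hF hs hτ hD]
    rw [hk_add hF hs hτ hD, hk_l hF hs hτ hD, hk_l hF hs hτ hD, ef, ff, mul_one, mul_zero, add_zero] at h3
    rw [hk_add hF hs hτ hD, hk_l hF hs hτ hD, hk_l hF hs hτ hD, ee, fe, mul_one, mul_zero, zero_add] at h4
    exact ⟨h3, h4⟩)
  set φ : L × L ≃ (Fin 6 → F) := Equiv.ofBijective _ hb with hφ
  have hφa : ∀ l m, φ (l, m) = ρ l *ᵥ e + ρ m *ᵥ f' := fun _ _ => rfl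
  set J : (Fin 6 → F) → (Fin 6 → F) := fun x => φ ((φ.symm x).1 ^ 8, (φ.symm x).2 ^ 8) with hJ
  have hJa : ∀ l m, J (ρ l *ᵥ e + ρ m *ᵥ f') = ρ (l ^ 8) *ᵥ e + ρ (m ^ 8) *ᵥ f' := by
    intro l m
    rw [← hφa, hJ]
    simp only [Equiv.symm_apply_apply]
    rw [hφa]
  have hsu : ∀ x, ∃ l m : L, x = ρ l *ᵥ e + ρ m *ᵥ f' := by
    intro x
    obtain ⟨⟨l, m⟩, h⟩ := hb.2 x
    exact ⟨l, m, h.symm⟩
  refine ⟨e, f', J, ee, ff, ef, fe, hsu, ?_, hJa, ?_, ?_, ?_⟩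
  · intro l m l' m' h
    have := hb.1 (a₁ := (l, m)) (a₂ := (l', m')) h
    exact ⟨congrArg Prod.fst this, congrArg Prod.snd this⟩
  · intro x y
    obtain ⟨l, m, rfl⟩ := hsu x
    obtain ⟨l', m', rfl⟩ := hsu y
    have h3 : ρ l *ᵥ e + ρ m *ᵥ f' + (ρ l' *ᵥ e + ρ m' *ᵥ f') = ρ (l + l') *ᵥ e + ρ (m + m') *ᵥ f' := by
      rw [map_add, map_add, Matrix.add_mulVec, Matrix.add_mulVec]
      abel
    rw [h3, hJa, hJa, hJa, pow8_add hF hs hτ hD, pow8_add hF hs hτ hD, map_add, map_add, Matrix.add_mulVec, Matrix.add_mulVec]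
    abel
  · intro c x
    obtain ⟨l, m, rfl⟩ := hsu x
    have h3 : ∀ (c : F) (l : L) (y : Fin 6 → F), c • (ρ l *ᵥ y) = ρ (ι c * l) *ᵥ y := by
      intro c l y
      rw [map_mul, hD.sc, smul_mul_assoc, one_mul, Matrix.smul_mulVec]
    rw [smul_add, h3, h3, hJa, hJa, smul_add, h3, h3, mul_pow, mul_pow, pow8_c hF hs hτ hD]
  · intro x
    obtain ⟨l, m, rfl⟩ := hsu x
    rw [hJa, hJa, ← pow_mul, ← pow_mul]
    rw [show 8 * 8 = 64 from rfl, hD.p64, hD.p64]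

theorem HJ.rho {e f' : Fin 6 → F} {J : (Fin 6 → F) → (Fin 6 → F)} (h : HJ f ι ρ D e f' J) (l : L) (x : Fin 6 → F) :
    J (ρ l *ᵥ x) = ρ (l ^ 8) *ᵥ J x := by
  obtain ⟨a, b, rfl⟩ := h.surj x
  have h3 : ∀ (l a b : L), ρ l *ᵥ (ρ a *ᵥ e + ρ b *ᵥ f') = ρ (l * a) *ᵥ e + ρ (l * b) *ᵥ f' := by
    intro l a b
    rw [Matrix.mulVec_add, Matrix.mulVec_mulVec, Matrix.mulVec_mulVec, ← map_mul, ← map_mul]
  rw [h3, h.J_apply, h.J_apply, h3, mul_pow, mul_pow]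

theorem HJ.form {e f' : Fin 6 → F} {J : (Fin 6 → F) → (Fin 6 → F)} (h : HJ f ι ρ D e f' J) (x y : Fin 6 → F) :
    f (J x) (J y) = f y x := by
  apply f_of_hk hF hs hτ hD
  obtain ⟨a, b, rfl⟩ := h.surj x
  obtain ⟨c, d, rfl⟩ := h.surj y
  rw [h.J_apply, h.J_apply]
  have h3 : ∀ a b c d : L, hk f ι ρ D (ρ a *ᵥ e + ρ b *ᵥ f') (ρ c *ᵥ e + ρ d *ᵥ f') = a * d ^ 8 + b * c ^ 8 := by
    intro a b c d
    rw [hk_add hF hs hτ hD, hk_add_right hF hs hτ hD, hk_add_right hF hs hτ hD]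
    simp only [hk_l hF hs hτ hD, hk_r hF hs hτ hD, h.ee, h.ef, h.fe, h.ff]
    ring
  rw [h3, h3]
  have e1 : ∀ x : L, (x ^ 8) ^ 8 = x := fun x => by rw [← pow_mul]; exact hD.p64 x
  rw [e1, e1]
  ring

end basic

end Cfsg.Agent.H29.Us
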