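import Mathlib
import Cfsg.Agent.H29_Us6

set_option autoImplicit false

/-! the normaliser of a cubic field preserves a symplectic subfield structure up to scalars -/

namespace Cfsg.Agent.H29.Us

open Matrix Module Cfsg.Geo Cfsg.Agent.H29.Fm

universe u

variable {F : Type u} [Field F]

variable {f : (Fin 6 → F) → (Fin 6 → F) → F} {τ : F ≃+* F}
variable {L : Type u} [Field L] {ι : F →+* L} {ρ : L →+* Matrix (Fin 6) (Fin 6) F} {w : F} {D : L}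

/-- the automorphism of the field induced by a normalising matrix -/
theorem exists_sig {K : Subalgebra F (Matrix (Fin 6) (Fin 6) F)} (hK : ∀ x, x ∈ K ↔ ∃ l, ρ l = x)
    {g : GL (Fin 6) F} (hg : g ∈ subalgebraNormalizer K) :
    ∃ σ : L →+* L, ∀ l (x : Fin 6 → F), (g : Matrix (Fin 6) (Fin 6) F) *ᵥ (ρ l *ᵥ x) = ρ (σ l) *ᵥ ((g : Matrix (Fin 6) (Fin 6) F) *ᵥ x) := by
  have hgg : ((g⁻¹ : GL (Fin 6) F) : Matrix (Fin 6) (Fin 6) F) * (g : Matrix (Fin 6) (Fin 6) F) = 1 := by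
    rw [← Units.val_mul, inv_mul_cancel, Units.val_one]
  have hgg' : (g : Matrix (Fin 6) (Fin 6) F) * ((g⁻¹ : GL (Fin 6) F) : Matrix (Fin 6) (Fin 6) F) = 1 := by
    rw [← Units.val_mul, mul_inv_cancel, Units.val_one]
  have h1 : ∀ l : L, ∃ l' : L, ρ l' = (g : Matrix (Fin 6) (Fin 6) F) * ρ l * ((g⁻¹ : GL (Fin 6) F) : Matrix (Fin 6) (Fin 6) F) := by
    intro l
    exact (hK _).1 ((hg _).1 ((hK _).2 ⟨l, rfl⟩))
  choose s hs using h1
  refine ⟨{ toFun := s, map_one' := ?_, map_mul' := ?_, map_zero' := ?_, map_add' := ?_ }, ?_⟩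
  · apply rho_inj (ρ := ρ)
    rw [hs, map_one, mul_one, hgg']
  · intro x y
    apply rho_inj (ρ := ρ)
    rw [hs, map_mul, map_mul, hs, hs]
    calc (g : Matrix (Fin 6) (Fin 6) F) * (ρ x * ρ y) * ((g⁻¹ : GL (Fin 6) F) : Matrix (Fin 6) (Fin 6) F)
        = (g : Matrix (Fin 6) (Fin 6) F) * ρ x * 1 * ρ y * ((g⁻¹ : GL (Fin 6) F) : Matrix (Fin 6) (Fin 6) F) := by
          rw [mul_one, mul_assoc, mul_assoc, mul_assoc, mul_assoc]
      _ = _ := by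
          rw [← hgg]
          simp only [mul_assoc]
  · apply rho_inj (ρ := ρ)
    show ρ (s 0) = ρ 0
    rw [hs, map_zero, mul_zero, zero_mul]
  · intro x y
    apply rho_inj (ρ := ρ)
    show ρ (s (x + y)) = ρ (s x + s y)
    rw [hs, map_add, map_add, hs, hs, mul_add, add_mul]
  · intro l x
    show _ = ρ (s l) *ᵥ _
    rw [hs, Matrix.mulVec_mulVec, Matrix.mulVec_mulVec, mul_assoc, mul_assoc, hgg, mul_one]

section basic
variable [Fintype F] [Fintype L] (hF : Fintype.card F = 2 ^ 2) (hL : Fintype.card L = 64) (hs : SFm τ 1 f)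
  (hτ : ∀ x, τ x = x ^ 2) (hD : KD f ι ρ w D)
include hF hL hs hτ hD

theorem sig_c {G : Matrix (Fin 6) (Fin 6) F} {G' : Matrix (Fin 6) (Fin 6) F} (hGG : G * G' = 1) {σ : L →+* L}
    (hσ : ∀ l (x : Fin 6 → F), G *ᵥ (ρ l *ᵥ x) = ρ (σ l) *ᵥ (G *ᵥ x)) (c : F) : σ (ι c) = ι c := by
  apply rho_inj (ρ := ρ)
  apply Matrix.ext_of_mulVec_single
  intro i
  have h1 := hσ (ι c) (G' *ᵥ Pi.single i 1)
  rw [hD.sc, Matrix.smul_mulVec, Matrix.one_mulVec, Matrix.mulVec_smul, Matrix.mulVec_mulVec, hGG, Matrix.one_mulVec] at h1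
  rw [← h1, hD.sc, Matrix.smul_mulVec, Matrix.one_mulVec]

theorem sig_D {σ : L →+* L} (hc : ∀ c : F, σ (ι c) = ι c) : ∃ m : F, m ^ 3 = 1 ∧ σ D = ι m * D := by
  have hD0 := D0 hF hs hτ hD
  have h1 : (σ D / D) ^ 3 = 1 := by
    rw [div_pow, ← map_pow, hD.D3, hc, div_self]
    intro h
    have := (map_eq_zero ι).1 h
    exact om_ne_zero hF hD.om this
  have hw3 := cube hF (om_ne_zero hF hD.om)
  rcases cube_root hF ι hD.om h1 with h | h | h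
  · exact ⟨1, one_pow _, by rw [map_one, one_mul]; exact (div_eq_one_iff_eq hD0).1 h⟩
  · exact ⟨w, hw3, (div_eq_iff hD0).1 h⟩
  · refine ⟨1 + w, cube hF ?_, (div_eq_iff hD0).1 h⟩
    intro h0
    rw [h0, map_zero] at h
    rw [h] at h1
    simp at h1

theorem hk_g {G : Matrix (Fin 6) (Fin 6) F} {σ : L →+* L} (hiso : ∀ x y, f (G *ᵥ x) (G *ᵥ y) = f x y)
    (hσ : ∀ l (x : Fin 6 → F), G *ᵥ (ρ l *ᵥ x) = ρ (σ l) *ᵥ (G *ᵥ x)) (hc : ∀ c : F, σ (ι c) = ι c) (x y : Fin 6 → F) :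
    hk f ι ρ D (G *ᵥ x) (G *ᵥ y) = σ (hk f ι ρ D x y) := by
  obtain ⟨m, hm3, hm⟩ := sig_D hF hL hs hτ hD hc
  have h1 : ∀ x, ρ D *ᵥ (G *ᵥ x) = m ^ 2 • (G *ᵥ (ρ D *ᵥ x)) := by
    intro x
    rw [hσ, hm, map_mul, hD.sc, smul_mul_assoc, one_mul, Matrix.smul_mulVec, smul_smul, ← pow_succ, hm3, one_smul]
  unfold hk
  rw [h1, Matrix.mulVec_smul, h1, smul_smul, hs.smul_left, hs.smul_left, hiso, hiso, hiso]
  simp only [map_add, map_mul, map_pow, hc, hm]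
  have h3 : ι m ^ 3 = 1 := by rw [← map_pow, hm3, map_one]
  set A := ι (f x y)
  set B := ι (f (ρ D *ᵥ x) y)
  set C := ι (f (ρ D *ᵥ (ρ D *ᵥ x)) y)
  linear_combination -((ι m) ^ 2 * B * D ^ 8 * ((ι m) ^ 3 + 1) + (ι m) ^ 4 * C * D ^ 16 * ((ι m) ^ 9 + (ι m) ^ 6 + (ι m) ^ 3 + 1)) * h3

/-- unimodular norm one scalars lie in the small field -/
theorem det_root (h1 : ∃ x, f x x = 1) (hf : f = Cfsg.hermForm 6 F 2) {s : L} (hs9 : s ^ 9 = 1)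
    (hdet : (ρ s).det = 1) : ∃ c : F, c ≠ 0 ∧ s = ι c := by
  have hD0 := D0 hF hs hτ hD
  have hw0 := om_ne_zero hF hD.om
  have hw3 := cube hF hw0
  have hdD := det_D hF hL hs hτ hD h1 hf
  have hkey : ∀ s' : L, s' ^ 3 = 1 → ∃ c : F, c ≠ 0 ∧ s' = ι c := by
    intro s' hs'
    rcases cube_root hF ι hD.om hs' with h | h | h
    · exact ⟨1, one_ne_zero, by rw [map_one]; exact h⟩
    · exact ⟨w, hw0, h⟩
    · refine ⟨1 + w, ?_, h⟩
      intro h0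
      rw [h0, map_zero] at h
      rw [h] at hs'
      simp at hs'
  have hdc : ∀ c : F, c ≠ 0 → (ρ (ι c)).det = 1 := by
    intro c hc
    rw [hD.sc, Matrix.det_smul, Matrix.det_one, Fintype.card_fin, mul_one]
    have := cube hF hc
    have e : c ^ 6 = (c ^ 3) ^ 2 := by ring
    rw [e, this, one_pow]
  have hcase : ∀ j : ℕ, s ^ 3 = (D ^ j) ^ 3 → ∃ c : F, c ≠ 0 ∧ s = ι c * D ^ j := by
    intro j hj
    have hDj : D ^ j ≠ 0 := pow_ne_zero _ hD0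
    obtain ⟨c, hc0, hc⟩ := hkey (s / D ^ j) (by rw [div_pow, hj, div_self (pow_ne_zero _ hDj)])
    exact ⟨c, hc0, (div_eq_iff hDj).1 hc⟩
  have h3 : (s ^ 3) ^ 3 = 1 := by rw [← hs9]; ring
  rcases cube_root hF ι hD.om h3 with h | h | h
  · obtain ⟨c, hc0, hc⟩ := hcase 0 (by rw [h]; ring)
    exact ⟨c, hc0, by rw [hc]; ring⟩
  · exfalso
    obtain ⟨c, hc0, hc⟩ := hcase 1 (by rw [h, pow_one, hD.D3])
    rw [hc, map_mul, Matrix.det_mul, hdc c hc0, pow_one, hdD, one_mul] at hdet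
    exact om_ne_one hF hD.om (by linear_combination hw3 - w * hdet)
  · exfalso
    obtain ⟨c, hc0, hc⟩ := hcase 2 (by
      rw [h, ← pow_mul, mul_comm, pow_mul, hD.D3, ← map_pow, hD.om, add_comm])
    rw [hc, map_mul, Matrix.det_mul, hdc c hc0, map_pow, Matrix.det_pow, hdD, one_mul] at hdet
    exact om_ne_one hF hD.om (by linear_combination hdet - w * hw3)

/-- the main containment -/
theorem main_le (h1 : ∃ x, f x x = 1) (hf : f = Cfsg.hermForm 6 F 2) {e f' : Fin 6 → F} {J : (Fin 6 → F) → (Fin 6 → F)}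
    (h : HJ f ι ρ D e f' J) {G G' : Matrix (Fin 6) (Fin 6) F} (hGG : G * G' = 1) (hdet : G.det = 1) {σ : L →+* L}
    (hiso : ∀ x y, f (G *ᵥ x) (G *ᵥ y) = f x y)
    (hσ : ∀ l (x : Fin 6 → F), G *ᵥ (ρ l *ᵥ x) = ρ (σ l) *ᵥ (G *ᵥ x)) :
    ∃ c : F, c ≠ 0 ∧ ∀ x, J (G *ᵥ x) = c • (G *ᵥ (J x)) := by
  have hc := sig_c hF hL hs hτ hD hGG hσ
  have hg := hk_g hF hL hs hτ hD hiso hσ hc
  obtain ⟨a, b, hab⟩ := h.surj (G *ᵥ e)
  obtain ⟨c, d, hcd⟩ := h.surj (G *ᵥ f')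
  have h3 : ∀ a b c d : L, hk f ι ρ D (ρ a *ᵥ e + ρ b *ᵥ f') (ρ c *ᵥ e + ρ d *ᵥ f') = a * d ^ 8 + b * c ^ 8 := by
    intro a b c d
    rw [hk_add hF hs hτ hD, hk_add_right hF hs hτ hD, hk_add_right hF hs hτ hD]
    simp only [hk_l hF hs hτ hD, hk_r hF hs hτ hD, h.ee, h.ef, h.fe, h.ff]
    ring
  have r1 := hg e e
  have r2 := hg f' f'
  have r3 := hg e f'
  rw [hab, h3, h.ee, map_zero] at r1
  rw [hcd, h3, h.ff, map_zero] at r2
  rw [hab, hcd, h3, h.ef, map_one] at r3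
  obtain ⟨t, a0, b0, c0, d0, ht0, ha, hb, hcc, hd, ea, eb, ec, ed⟩ := gu2 (L2 hF ι) hD.p64 r1 r2 r3
  have ht64 := hD.p64 t
  have ht63 : t ^ 63 = 1 := by
    have h2 : t * (t ^ 63 - 1) = 0 := by linear_combination ht64
    rcases mul_eq_zero.1 h2 with h3 | h3
    · exact absurd h3 ht0
    · exact sub_eq_zero.1 h3
  -- the decomposition of `t`
  obtain ⟨s, hs'⟩ : ∃ s, s = t ^ 28 := ⟨_, rfl⟩
  obtain ⟨y, hy⟩ : ∃ y, y = t ^ 36 := ⟨_, rfl⟩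
  have hts : t = s * y := by
    rw [hs', hy, ← pow_add]
    exact ht64.symm
  have hs9 : s ^ 9 = 1 := by
    rw [hs', ← pow_mul, show 28 * 9 = 63 * 4 from rfl, pow_mul, ht63, one_pow]
  have hy8 : y ^ 8 = y := by
    rw [hy, ← pow_mul, show 36 * 8 = 63 * 4 + 36 from rfl, pow_add, pow_mul, ht63, one_pow, one_mul]
  have hy0 : y ≠ 0 := by rw [hy]; exact pow_ne_zero _ ht0
  have hs0 : s ≠ 0 := by rw [hs']; exact pow_ne_zero _ ht0
  -- `B` commutes with the involution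
  obtain ⟨B, hB⟩ : ∃ B : Matrix (Fin 6) (Fin 6) F, B = ρ t⁻¹ * G := ⟨_, rfl⟩
  have hrr : ∀ (a b : L) (x : Fin 6 → F), ρ a *ᵥ (ρ b *ᵥ x) = ρ (a * b) *ᵥ x := by
    intro a b x
    rw [Matrix.mulVec_mulVec, ← map_mul]
  have hBa : ∀ l m : L, B *ᵥ (ρ l *ᵥ e + ρ m *ᵥ f') = ρ (σ l * a0 + σ m * c0) *ᵥ e + ρ (σ l * b0 + σ m * d0) *ᵥ f' := by
    intro l m
    rw [hB, ← Matrix.mulVec_mulVec, Matrix.mulVec_add, hσ, hσ, hab, hcd, Matrix.mulVec_add, Matrix.mulVec_add, Matrix.mulVec_add,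
      Matrix.mulVec_add, Matrix.mulVec_add]
    simp only [hrr]
    rw [map_add, map_add, Matrix.add_mulVec, Matrix.add_mulVec]
    have q1 : t⁻¹ * (σ l * a) = σ l * a0 := by rw [ha]; field_simp
    have q2 : t⁻¹ * (σ l * b) = σ l * b0 := by rw [hb]; field_simp
    have q3 : t⁻¹ * (σ m * c) = σ m * c0 := by rw [hcc]; field_simp
    have q4 : t⁻¹ * (σ m * d) = σ m * d0 := by rw [hd]; field_simp
    rw [q1, q2, q3, q4]
    abel
  have hBJ : ∀ x, B *ᵥ (J x) = J (B *ᵥ x) := by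
    intro x
    obtain ⟨l, m, rfl⟩ := h.surj x
    rw [h.J_apply, hBa, hBa, h.J_apply, pow8_add hF hs hτ hD, pow8_add hF hs hτ hD, mul_pow, mul_pow, mul_pow, mul_pow, ea, eb, ec, ed,
      map_pow, map_pow]
  have hGB : G = ρ s * (ρ y * B) := by
    rw [hB, ← mul_assoc, ← mul_assoc, ← map_mul, ← map_mul, ← hts, mul_inv_cancel₀ ht0, map_one, one_mul]
  obtain ⟨C, hC⟩ : ∃ C : Matrix (Fin 6) (Fin 6) F, C = ρ y * B := ⟨_, rfl⟩
  rw [← hC] at hGB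
  have hCJ : ∀ x, C *ᵥ (J x) = J (C *ᵥ x) := by
    intro x
    rw [hC, ← Matrix.mulVec_mulVec, ← Matrix.mulVec_mulVec, hBJ, HJ.rho hF hL hs hτ hD h, hy8]
  have hCd : C.det = 1 := by
    apply det_fix hτ h.sj hCJ
    intro h0
    rw [hGB, Matrix.det_mul, h0, mul_zero] at hdet
    exact zero_ne_one hdet
  have hsd : (ρ s).det = 1 := by
    rw [hGB, Matrix.det_mul, hCd, mul_one] at hdet
    exact hdet
  obtain ⟨k, hk0, hk⟩ := det_root hF hL hs hτ hD h1 hf hs9 hsd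
  have hGC : ∀ x, G *ᵥ x = k • (C *ᵥ x) := by
    intro x
    rw [hGB, hk, hD.sc, smul_mul_assoc, one_mul, Matrix.smul_mulVec]
  refine ⟨k, hk0, fun x => ?_⟩
  rw [hGC, h.sj.smul, hGC, smul_smul, hCJ, pow_two]

end basic

end Cfsg.Agent.H29.Us
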