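import Mathlib
import Cfsg.Agent.H29_Us7

set_option autoImplicit false

/-! cubic fields at `q = 2` give non-maximal subgroups -/

namespace Cfsg.Agent.H29.Us

open Matrix Module Cfsg.Geo Cfsg.Agent.H29.Fm

universe u

variable {F : Type u} [Field F]

theorem nonmaxC [Fintype F] (hF : Fintype.card F = 2 ^ 2) {K : Subalgebra F (Matrix (Fin 6) (Fin 6) F)}
    (hK : IsFieldSubalgebra 3 K) (hadj : IsAdjointClosedFor (Cfsg.hermForm 6 F 2) K) :
    ∃ M : Subgroup (GL (Fin 6) F), subalgebraNormalizer K ⊓ SUg 6 F 2 < M ∧ M < SUg 6 F 2 := by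
  have hs := sfm_herm (n := 6) hF
  have hτ : ∀ x, fq hF x = x ^ 2 := fun x => fq_apply hF x
  have h1 : ∃ x, Cfsg.hermForm 6 F 2 x x = 1 := by
    refine ⟨Pi.single 0 1, ?_⟩
    rw [herm_single hF, Pi.single_eq_same, map_one, mul_one]
  obtain ⟨L, _, _, ι, ρ, w, D, hL, hKρ, hD⟩ := exists_KD hF hs hτ h1 hK hadj
  obtain ⟨f, hf⟩ : ∃ f, f = Cfsg.hermForm 6 F 2 := ⟨_, rfl⟩
  rw [← hf] at hs h1 hD
  obtain ⟨e, f', J, h⟩ := exists_HJ hF hL hs hτ hD h1
  have hD0 := D0 hF hs hτ hD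
  have hD9 := D9 hF hs hτ hD
  have hw0 := om_ne_zero hF hD.om
  have hw3 := cube hF hw0
  have hD8 : D ^ 8 ≠ D := by
    intro h8
    have h2 : D ^ 2 = 1 := by rw [← hD9]; linear_combination -D * h8
    have h3 : D ^ 3 = D := by linear_combination D * h2
    rw [hD.D3] at h3
    have h4 : ι (w ^ 2) = 1 := by rw [map_pow, h3, h2]
    have h5 : w ^ 2 = 1 := ι.injective (by rw [h4, map_one])
    exact om_ne_one hF hD.om (by linear_combination hw3 - w * h5)
  have he0 : e ≠ 0 := by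
    intro h0
    have := h.ef
    rw [h0, hk_zero_left hF hs hτ hD] at this
    exact zero_ne_one this
  have hee : f e e = 0 := f_zero hF hs hτ hD h.ee
  have hfe : f f' e = 1 := f_T hF hs hτ hD (b := 0) (c := 0) (by rw [h.fe, map_one, map_zero]; ring)
  have hJe : J e = e := by
    have := h.J_apply 1 0
    rw [map_one, map_zero, one_pow, zero_pow (by norm_num), map_one, map_zero, Matrix.one_mulVec, Matrix.zero_mulVec, add_zero] at this
    exact this
  have hJf : J f' = f' := by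
    have := h.J_apply 0 1
    rw [map_one, map_zero, one_pow, zero_pow (by norm_num), map_one, map_zero, Matrix.one_mulVec, Matrix.zero_mulVec, zero_add] at this
    exact this
  have hDe0 : ρ D *ᵥ e ≠ 0 := fun h0 => hD0 (rinj he0 h0)
  have huu : f (ρ D *ᵥ e) (ρ D *ᵥ e) = 0 := by rw [hD.iso]; exact hee
  obtain ⟨t, ht, htx⟩ := exists_tv hF he0 (hf ▸ hee)
  obtain ⟨s, hs', hsx⟩ := exists_tv hF hDe0 (hf ▸ huu)
  have htt := tv_tv hF (hf ▸ hee) htx
  rw [← hf] at htx hsx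
  set y : L := D + D ^ 8 with hy
  have hy8 : y ^ 8 = y := by
    rw [hy, pow8_add hF hs hτ hD, ← pow_mul, show 8 * 8 = 64 from rfl, hD.p64, add_comm]
  have hy0 : y ≠ 0 := by
    intro h0
    apply hD8
    have h2 := L2 hF ι
    rw [hy] at h0
    linear_combination h0 - D * h2
  refine nonmax_set {x | ∃ c : F, c ≠ 0 ∧ J x = c • x} inf_le_right ?_ ht ?_ ?_ htt hs' (x := ρ y *ᵥ f') ?_ ?_
  · intro g hg x hx
    obtain ⟨hgK, hgS⟩ := Subgroup.mem_inf.1 hg
    obtain ⟨σ, hσ⟩ := exists_sig hKρ hgK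
    have hiso : ∀ x y, f ((g : Matrix (Fin 6) (Fin 6) F) *ᵥ x) ((g : Matrix (Fin 6) (Fin 6) F) *ᵥ y) = f x y := by
      rw [hf]
      exact fx_GU g (Subgroup.mem_inf.1 hgS).1
    have hdet := det_of_SL (Subgroup.mem_inf.1 hgS).2
    have hgg : (g : Matrix (Fin 6) (Fin 6) F) * ((g⁻¹ : GL (Fin 6) F) : Matrix (Fin 6) (Fin 6) F) = 1 := by
      rw [← Units.val_mul, mul_inv_cancel, Units.val_one]
    obtain ⟨c, hc0, hc⟩ := main_le hF hL hs hτ hD h1 hf h hgg hdet hiso hσ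
    obtain ⟨k, hk0, hk⟩ := hx
    refine ⟨c * k, mul_ne_zero hc0 hk0, ?_⟩
    rw [hc, hk, Matrix.mulVec_smul, smul_smul]
  · intro htH
    obtain ⟨hgK, -⟩ := Subgroup.mem_inf.1 htH
    obtain ⟨σ, hσ⟩ := exists_sig hKρ hgK
    have hgg : (t : Matrix (Fin 6) (Fin 6) F) * ((t⁻¹ : GL (Fin 6) F) : Matrix (Fin 6) (Fin 6) F) = 1 := by
      rw [← Units.val_mul, mul_inv_cancel, Units.val_one]
    have hc := sig_c hF hL hs hτ hD hgg hσ
    obtain ⟨m, hm3, hm⟩ := sig_D hF hL hs hτ hD hc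
    have e1 : f (ρ D *ᵥ e) e = 0 := by
      apply f_zero hF hs hτ hD
      rw [hk_l hF hs hτ hD, h.ee, mul_zero]
    have e2 : f (ρ D *ᵥ f') e = 0 := by
      apply f_T hF hs hτ hD (b := 1) (c := 0)
      rw [hk_l hF hs hτ hD, h.fe, map_one, map_zero]
      ring
    have h3 : ∀ x, (t : Matrix (Fin 6) (Fin 6) F) *ᵥ (ρ D *ᵥ x) = m • (ρ D *ᵥ ((t : Matrix (Fin 6) (Fin 6) F) *ᵥ x)) := by
      intro x
      rw [hσ, hm, map_mul, hD.sc, smul_mul_assoc, one_mul, Matrix.smul_mulVec]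
    have h4 := h3 e
    rw [htx, htx, e1, hee, zero_smul, add_zero, add_zero] at h4
    have hm1 : m = 1 := by
      by_contra hne
      have h5 : (1 - m) • (ρ D *ᵥ e) = 0 := by rw [sub_smul, one_smul, ← h4, sub_self]
      rcases smul_eq_zero.1 h5 with h6 | h6
      · exact hne (sub_eq_zero.1 h6).symm
      · exact hDe0 h6
    have h5 := h3 f'
    rw [htx, htx, e2, hfe, zero_smul, add_zero, hm1, one_smul, one_smul, Matrix.mulVec_add] at h5
    exact hDe0 (add_left_cancel (a := ρ D *ᵥ f') (by rw [add_zero]; exact h5.symm))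
  · rintro x ⟨k, hk0, hk⟩
    refine ⟨k, hk0, ?_⟩
    have h3 := HJ.form hF hL hs hτ hD h x e
    rw [hJe, hk, hs.smul_left] at h3
    have h4 := hs.herm e x
    rw [one_mul, hτ] at h4
    rw [htx, h.sj.add, h.sj.smul, hJe, hk, smul_add, smul_smul, h3, h4]
  · refine ⟨1, one_ne_zero, ?_⟩
    rw [HJ.rho hF hL hs hτ hD h, hy8, hJf, one_smul]
  · rintro ⟨k, hk0, hk⟩
    have e1 : f (ρ y *ᵥ f') (ρ D *ᵥ e) = 1 := by
      apply f_T hF hs hτ hD (b := w ^ 2) (c := 0)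
      rw [hk_l hF hs hτ hD, hk_r hF hs hτ hD, h.fe, map_zero, map_one, map_pow, ← hD.D3, hy]
      linear_combination (1 + D ^ 7) * hD9
    rw [hsx, e1, one_smul, add_comm, h.J_apply] at hk
    have h3 : ∀ (c : F) (l : L) (y : Fin 6 → F), c • (ρ l *ᵥ y) = ρ (ι c * l) *ᵥ y := by
      intro c l y
      rw [map_mul, hD.sc, smul_mul_assoc, one_mul, Matrix.smul_mulVec]
    rw [smul_add, h3, h3] at hk
    obtain ⟨h4, h5⟩ := h.inj _ _ _ _ hk
    rw [hy8] at h5
    have h6 : ι k = 1 := by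
      have h7 : (ι k - 1) * y = 0 := by linear_combination -h5
      rcases mul_eq_zero.1 h7 with h8 | h8
      · exact sub_eq_zero.1 h8
      · exact absurd h8 hy0
    rw [h6, one_mul] at h4
    exact hD8 h4

end Cfsg.Agent.H29.Us
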