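import Mathlib
import Cfsg.Agent.H29_Us1

set_option autoImplicit false

/-! quintic subfields of the algebra of five by five matrices over the field of order four -/

namespace Cfsg.Agent.H29.Ut

open Matrix Module Cfsg.Geo Cfsg.Agent.H29.Fm Cfsg.Agent.H29.Us

universe u

variable {F : Type u} [Field F]

theorem exists_L5 [Fintype F] (hF : Fintype.card F = 2 ^ 2) {K : Subalgebra F (Matrix (Fin 5) (Fin 5) F)}
    (hK : IsFieldSubalgebra 5 K) :
    ∃ (L : Type u) (_ : Field L) (_ : Fintype L) (ι : F →+* L) (ρ : L →+* Matrix (Fin 5) (Fin 5) F),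
      Fintype.card L = 1024 ∧ (∀ x, x ∈ K ↔ ∃ l, ρ l = x) ∧ (∀ c, ρ (ι c) = c • (1 : Matrix (Fin 5) (Fin 5) F)) := by
  have hf : IsField K := by
    refine ⟨⟨0, 1, ?_⟩, ?_, ?_⟩
    · intro h
      have h0 : (0 : Matrix (Fin 5) (Fin 5) F) = 1 := congrArg Subtype.val h
      exact zero_ne_one h0
    · intro x y
      exact Subtype.ext (hK.comm x.1 x.2 y.1 y.2)
    · intro x hx
      obtain ⟨y, hy, hxy⟩ := hK.inv x.1 x.2 (fun h => hx (Subtype.ext h))
      exact ⟨⟨y, hy⟩, Subtype.ext hxy⟩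
  haveI : Finite K := Subtype.finite
  haveI : Fintype K := Fintype.ofFinite K
  refine ⟨K, hf.toField, inferInstance, ?_⟩
  refine ⟨(algebraMap F K : F →+* K), (K.val : K →ₐ[F] Matrix (Fin 5) (Fin 5) F).toRingHom, ?_, ?_, ?_⟩
  · have h1 := Module.card_eq_pow_finrank (K := F) (V := K)
    rw [hK.finrank_eq, hF] at h1
    rw [h1]; norm_num
  · intro x
    constructor
    · intro hx
      exact ⟨⟨x, hx⟩, rfl⟩
    · rintro ⟨l, rfl⟩
      exact l.2
  · intro c
    rw [← Algebra.algebraMap_eq_smul_one]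
    rfl

section L
variable [Fintype F] (hF : Fintype.card F = 2 ^ 2) {L : Type u} [Field L] (ι : F →+* L)
include hF ι

theorem Lc : CharP L 2 :=
  CharTwo.of_one_ne_zero_of_two_eq_zero one_ne_zero (by
    have := congrArg ι (char2 hF)
    rw [map_add, map_one, map_zero] at this
    rw [← this]; norm_num)

theorem L2' : (1 : L) + 1 = 0 := by
  have := congrArg ι (char2 hF)
  simpa using this

theorem fix4 {w : F} (hw : w ^ 2 = w + 1) {z : L} (hz : z ^ 4 = z) : z = 0 ∨ z = 1 ∨ z = ι w ∨ z = ι (1 + w) := by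
  have h2 := L2' hF ι
  have h3 : ι w ^ 2 = ι w + 1 := by rw [← map_pow, hw, map_add, map_one]
  have h4 : z * ((z - 1) * ((z - ι w) * (z - (1 + ι w)))) = 0 := by
    linear_combination hz + z * (z - 1) * (-(1 + ι w) * z + ι w) * h2 + z * (z - 1) * h3
  rcases mul_eq_zero.1 h4 with h | h
  · exact Or.inl h
  rcases mul_eq_zero.1 h with h | h
  · exact Or.inr (Or.inl (sub_eq_zero.1 h))
  · rcases mul_eq_zero.1 h with h | h
    · exact Or.inr (Or.inr (Or.inl (sub_eq_zero.1 h)))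
    · right; right; right
      rw [map_add, map_one]
      exact sub_eq_zero.1 h

/-- the trace of powers of an element of order eleven -/
def TT (D : L) (j : ℕ) : L := D ^ j + D ^ (3 * j) + D ^ (4 * j) + D ^ (5 * j) + D ^ (9 * j)

end L

section D
variable {L : Type u} [Field L]

theorem sum11 {D : L} (h1 : D ≠ 1) (h11 : D ^ 11 = 1) :
    1 + D + D ^ 2 + D ^ 3 + D ^ 4 + D ^ 5 + D ^ 6 + D ^ 7 + D ^ 8 + D ^ 9 + D ^ 10 = 0 := by
  have h : (D - 1) * (1 + D + D ^ 2 + D ^ 3 + D ^ 4 + D ^ 5 + D ^ 6 + D ^ 7 + D ^ 8 + D ^ 9 + D ^ 10) = 0 := by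
    linear_combination h11
  rcases mul_eq_zero.1 h with h | h
  · exact absurd (sub_eq_zero.1 h) h1
  · exact h

theorem prim {D : L} (h1 : D ≠ 1) (h11 : D ^ 11 = 1) : IsPrimitiveRoot D 11 := by
  have h := orderOf_dvd_of_pow_eq_one h11
  have h2 : orderOf D = 11 := by
    rcases (Nat.dvd_prime (by norm_num)).1 h with h | h
    · exact absurd (orderOf_eq_one_iff.1 h) h1
    · exact h
  rw [← h2]
  exact IsPrimitiveRoot.orderOf D

end D

/-- the field data -/
structure LD {L : Type u} [Field L] (ι : F →+* L) (w : F) (D : L) : Prop where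
  om : w ^ 2 = w + 1
  D1 : D ≠ 1
  D11 : D ^ 11 = 1
  th : D + D ^ 3 + D ^ 4 + D ^ 5 + D ^ 9 = ι w

theorem exists_LD [Fintype F] (hF : Fintype.card F = 2 ^ 2) {L : Type u} [Field L] [Fintype L] (ι : F →+* L)
    (hL : Fintype.card L = 1024) : ∃ (w : F) (D : L), LD ι w D := by
  classical
  haveI := Lc hF ι
  obtain ⟨g, hg⟩ := IsCyclic.exists_ofOrder_eq_natCard (α := Lˣ)
  have h63 : orderOf g = 1023 := by
    rw [hg, Nat.card_eq_fintype_card, Fintype.card_units, hL]
  obtain ⟨w, hw⟩ := exists_om hF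
  obtain ⟨D, hD⟩ : ∃ D : L, D = (g : L) ^ 93 := ⟨_, rfl⟩
  have h1 : D ≠ 1 := by
    intro h
    have h1 : g ^ 93 = 1 := by
      apply Units.ext
      rw [Units.val_pow_eq_pow_val, Units.val_one, ← h, hD]
    have h4 := orderOf_dvd_of_pow_eq_one h1
    rw [h63] at h4
    exact absurd h4 (by norm_num)
  have h11 : D ^ 11 = 1 := by
    have h1 : g ^ 1023 = 1 := by rw [← h63]; exact pow_orderOf_eq_one g
    have h4 := congrArg Units.val h1
    rw [Units.val_pow_eq_pow_val, Units.val_one] at h4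
    rw [← h4, hD, ← pow_mul]
  have hs := sum11 h1 h11
  have h2 := L2' hF ι
  obtain ⟨θ, hθ⟩ : ∃ θ, θ = D + D ^ 3 + D ^ 4 + D ^ 5 + D ^ 9 := ⟨_, rfl⟩
  have hθ2 : θ ^ 2 = 1 + θ := by
    have e1 : θ ^ 2 = D ^ 2 + D ^ 6 + D ^ 8 + D ^ 10 + D ^ 18 := by
      rw [hθ, CharTwo.add_sq, CharTwo.add_sq, CharTwo.add_sq, CharTwo.add_sq]
      ring
    rw [e1, hθ]
    linear_combination hs + (D ^ 7) * h11 - (1 + D + D ^ 3 + D ^ 4 + D ^ 5 + D ^ 9) * h2
  have hθ4 : θ ^ 4 = θ := by
    have : θ ^ 4 = (θ ^ 2) ^ 2 := by ring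
    rw [this, hθ2, CharTwo.add_sq, hθ2]
    linear_combination h2
  rcases fix4 hF ι hw hθ4 with h | h | h | h
  · rw [h] at hθ2; simp at hθ2
  · rw [h, h2] at hθ2; simp at hθ2
  · exact ⟨w, D, hw, h1, h11, by rw [← hθ]; exact h⟩
  · refine ⟨1 + w, D, ?_, h1, h11, by rw [← hθ]; exact h⟩
    have := char2 hF
    linear_combination hw + w * this

section LD
variable [Fintype F] (hF : Fintype.card F = 2 ^ 2) {L : Type u} [Field L] {ι : F →+* L} {w : F} {D : L} (hD : LD ι w D)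
include hF hD

theorem rel5 : D ^ 5 = 1 + ι (w ^ 2) * D + D ^ 2 + D ^ 3 + ι w * D ^ 4 := by
  have h2 := L2' hF ι
  have hs := sum11 hD.D1 hD.D11
  rw [hD.om, map_add, map_one, ← hD.th]
  have h11 := hD.D11
  linear_combination -hs - D ^ 2 * h2 - D ^ 2 * h11

omit hD in
/-- the conjugates of `D` are roots of the same polynomials over the ground field -/
theorem root4 {D : L} (a b c d e : F) (h : ι a + ι b * D + ι c * D ^ 2 + ι d * D ^ 3 + ι e * D ^ 4 = 0) :
    ι a + ι b * D ^ 4 + ι c * (D ^ 4) ^ 2 + ι d * (D ^ 4) ^ 3 + ι e * (D ^ 4) ^ 4 = 0 := by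
  haveI := Lc hF ι
  have h4 : ∀ x : F, ι x ^ 4 = ι x := fun x => by rw [← map_pow, pow4 hF]
  have h1 : (ι a + ι b * D + ι c * D ^ 2 + ι d * D ^ 3 + ι e * D ^ 4) ^ 4 =
      ι a + ι b * D ^ 4 + ι c * (D ^ 4) ^ 2 + ι d * (D ^ 4) ^ 3 + ι e * (D ^ 4) ^ 4 := by
    have e1 : ∀ x y : L, (x + y) ^ 4 = x ^ 4 + y ^ 4 := by
      intro x y
      have := add_pow_char_pow (p := 2) (n := 2) x y
      norm_num at this
      exact this
    rw [e1, e1, e1, e1, mul_pow, mul_pow, mul_pow, mul_pow, h4, h4, h4, h4, h4]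
    ring
  rw [← h1, h]
  ring

theorem un5 (a b c d e : F) (h : ι a + ι b * D + ι c * D ^ 2 + ι d * D ^ 3 + ι e * D ^ 4 = 0) :
    a = 0 ∧ b = 0 ∧ c = 0 ∧ d = 0 ∧ e = 0 := by
  classical
  have hp := prim hD.D1 hD.D11
  have h11 := hD.D11
  have k1 := root4 hF a b c d e h
  have k2 := root4 hF a b c d e k1
  have k3 := root4 hF a b c d e k2
  have k4 := root4 hF a b c d e k3
  obtain ⟨P, hP⟩ : ∃ P : Polynomial L, P = Polynomial.C (ι a) + Polynomial.C (ι b) * Polynomial.X + Polynomial.C (ι c) * Polynomial.X ^ 2 +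
    Polynomial.C (ι d) * Polynomial.X ^ 3 + Polynomial.C (ι e) * Polynomial.X ^ 4 := ⟨_, rfl⟩
  have hev : ∀ x, P.eval x = ι a + ι b * x + ι c * x ^ 2 + ι d * x ^ 3 + ι e * x ^ 4 := by
    intro x
    rw [hP]
    simp
  have hdeg : P.natDegree ≤ 4 := by
    rw [hP]
    compute_degree
  have hne : ∀ i j : ℕ, i < 11 → j < 11 → D ^ i = D ^ j → i = j := fun i j hi hj h => hp.pow_inj hi hj h
  have e2 : (D ^ 4) ^ 4 = D ^ 5 := by linear_combination D ^ 5 * h11
  have e3 : (D ^ 5) ^ 4 = D ^ 9 := by linear_combination D ^ 9 * h11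
  have e4 : (D ^ 9) ^ 4 = D ^ 3 := by linear_combination (D ^ 25 + D ^ 14 + D ^ 3) * h11
  rw [e2] at k2 k3 k4
  rw [e3] at k3 k4
  rw [e4] at k4
  have hP0 : P = 0 := by
    by_contra hP0
    have hsub : ({D, D ^ 4, D ^ 5, D ^ 9, D ^ 3} : Finset L) ⊆ P.roots.toFinset := by
      intro x hx
      rw [Multiset.mem_toFinset, Polynomial.mem_roots hP0, Polynomial.IsRoot.def, hev]
      simp only [Finset.mem_insert, Finset.mem_singleton] at hx
      rcases hx with rfl | rfl | rfl | rfl | rfl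
      · exact h
      · exact k1
      · exact k2
      · exact k3
      · exact k4
    have hcard : ({D, D ^ 4, D ^ 5, D ^ 9, D ^ 3} : Finset L).card = 5 := by
      have n1 : ∀ j : ℕ, j < 11 → j ≠ 1 → D ≠ D ^ j := by
        intro j hj h1 h2
        exact h1 (hne 1 j (by norm_num) hj (by rw [pow_one]; exact h2)).symm
      rw [Finset.card_insert_of_notMem, Finset.card_insert_of_notMem, Finset.card_insert_of_notMem,
        Finset.card_insert_of_notMem, Finset.card_singleton]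
      · simp only [Finset.mem_singleton]
        intro h
        exact absurd (hne 9 3 (by norm_num) (by norm_num) h) (by norm_num)
      · simp only [Finset.mem_singleton, Finset.mem_insert, not_or]
        exact ⟨fun h => absurd (hne 5 9 (by norm_num) (by norm_num) h) (by norm_num),
          fun h => absurd (hne 5 3 (by norm_num) (by norm_num) h) (by norm_num)⟩
      · simp only [Finset.mem_singleton, Finset.mem_insert, not_or]
        exact ⟨fun h => absurd (hne 4 5 (by norm_num) (by norm_num) h) (by norm_num),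
          fun h => absurd (hne 4 9 (by norm_num) (by norm_num) h) (by norm_num),
          fun h => absurd (hne 4 3 (by norm_num) (by norm_num) h) (by norm_num)⟩
      · simp only [Finset.mem_singleton, Finset.mem_insert, not_or]
        exact ⟨n1 4 (by norm_num) (by norm_num), n1 5 (by norm_num) (by norm_num), n1 9 (by norm_num) (by norm_num),
          n1 3 (by norm_num) (by norm_num)⟩
    have h1 := Finset.card_le_card hsub
    have h2 := Multiset.toFinset_card_le P.roots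
    have h3 := Polynomial.card_roots' P
    omega
  have hco : ∀ i, P.coeff i = 0 := fun i => by rw [hP0, Polynomial.coeff_zero]
  have c0 := hco 0
  have c1 := hco 1
  have c2 := hco 2
  have c3 := hco 3
  have c4 := hco 4
  rw [hP] at c0 c1 c2 c3 c4
  simp [Polynomial.coeff_X, Polynomial.coeff_C, Polynomial.coeff_X_pow, Polynomial.coeff_C_mul] at c0 c1 c2 c3 c4
  exact ⟨c0, c1, c2, c3, c4⟩

theorem ex5 [Fintype L] (hL : Fintype.card L = 1024) (l : L) :
    ∃ a b c d e : F, l = ι a + ι b * D + ι c * D ^ 2 + ι d * D ^ 3 + ι e * D ^ 4 := by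
  let φ : F × F × F × F × F → L := fun x => ι x.1 + ι x.2.1 * D + ι x.2.2.1 * D ^ 2 + ι x.2.2.2.1 * D ^ 3 + ι x.2.2.2.2 * D ^ 4
  have hinj : Function.Injective φ := by
    rintro ⟨a, b, c, d, e⟩ ⟨a', b', c', d', e'⟩ h
    have h1 : ι (a - a') + ι (b - b') * D + ι (c - c') * D ^ 2 + ι (d - d') * D ^ 3 + ι (e - e') * D ^ 4 = 0 := by
      have h2 : ι a + ι b * D + ι c * D ^ 2 + ι d * D ^ 3 + ι e * D ^ 4 = ι a' + ι b' * D + ι c' * D ^ 2 + ι d' * D ^ 3 + ι e' * D ^ 4 := h
      rw [map_sub, map_sub, map_sub, map_sub, map_sub]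
      linear_combination h2
    obtain ⟨h3, h4, h5, h6, h7⟩ := un5 hF hD _ _ _ _ _ h1
    rw [sub_eq_zero.1 h3, sub_eq_zero.1 h4, sub_eq_zero.1 h5, sub_eq_zero.1 h6, sub_eq_zero.1 h7]
  have hbij : Function.Bijective φ := by
    rw [Fintype.bijective_iff_injective_and_card]
    refine ⟨hinj, ?_⟩
    rw [Fintype.card_prod, Fintype.card_prod, Fintype.card_prod, Fintype.card_prod, hF, hL]
    norm_num
  obtain ⟨x, hx⟩ := hbij.2 l
  exact ⟨x.1, x.2.1, x.2.2.1, x.2.2.2.1, x.2.2.2.2, hx.symm⟩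

end LD

end Cfsg.Agent.H29.Ut
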