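import Mathlib
import Cfsg.Agent.H29_Ut1

set_option autoImplicit false

/-! quintic fields acting on the five-dimensional unitary space -/

namespace Cfsg.Agent.H29.Ut

open Matrix Module Cfsg.Geo Cfsg.Agent.H29.Fm Cfsg.Agent.H29.Us

universe u

variable {F : Type u} [Field F]

theorem rinj5 {L : Type u} [Field L] {ρ : L →+* Matrix (Fin 5) (Fin 5) F} {l : L} {x : Fin 5 → F} (hx : x ≠ 0)
    (h : ρ l *ᵥ x = 0) : l = 0 := by
  by_contra h0
  apply hx
  have h1 : ρ l⁻¹ *ᵥ (ρ l *ᵥ x) = 0 := by rw [h, Matrix.mulVec_zero]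
  rwa [Matrix.mulVec_mulVec, ← map_mul, inv_mul_cancel₀ h0, map_one, Matrix.one_mulVec] at h1

theorem rmul {L : Type u} [Field L] {ρ : L →+* Matrix (Fin 5) (Fin 5) F} (a b : L) (x : Fin 5 → F) :
    ρ a *ᵥ (ρ b *ᵥ x) = ρ (a * b) *ᵥ x := by
  rw [Matrix.mulVec_mulVec, ← map_mul]

/-- the operator data -/
structure OD (f : (Fin 5 → F) → (Fin 5 → F) → F) {L : Type u} [Field L] (ι : F →+* L)
    (ρ : L →+* Matrix (Fin 5) (Fin 5) F) (w : F) (D : L) : Prop where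
  ld : LD ι w D
  sc : ∀ c, ρ (ι c) = c • (1 : Matrix (Fin 5) (Fin 5) F)
  p : ∀ l : L, l ^ 1024 = l
  iso : ∀ x y, f (ρ D *ᵥ x) (ρ D *ᵥ y) = f x y

variable {f : (Fin 5 → F) → (Fin 5 → F) → F} {τ : F ≃+* F}

theorem exists_OD [Fintype F] (hF : Fintype.card F = 2 ^ 2) (hs : SFm τ 1 f) (hτ : ∀ x, τ x = x ^ 2)
    (h1 : ∃ x, f x x = 1) {K : Subalgebra F (Matrix (Fin 5) (Fin 5) F)}
    (hK : IsFieldSubalgebra 5 K) (hadj : IsAdjointClosedFor f K) :
    ∃ (L : Type u) (_ : Field L) (_ : Fintype L) (ι : F →+* L) (ρ : L →+* Matrix (Fin 5) (Fin 5) F) (w : F) (D : L),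
      Fintype.card L = 1024 ∧ (∀ x, x ∈ K ↔ ∃ l, ρ l = x) ∧ OD f ι ρ w D := by
  obtain ⟨L, _, _, ι, ρ, hL, hKρ, hsc⟩ := exists_L5 hF hK
  obtain ⟨w, D, hD⟩ := exists_LD hF ι hL
  refine ⟨L, _, _, ι, ρ, w, D, hL, hKρ, hD, hsc, ?_, ?_⟩
  · intro l
    have := FiniteField.pow_card l
    rwa [hL] at this
  · obtain ⟨D', hD', hadj'⟩ := hadj (ρ D) ((hKρ _).2 ⟨D, rfl⟩)
    obtain ⟨d, rfl⟩ := (hKρ _).1 hD'
    have hpow : ∀ (n : ℕ) x y, f (ρ (D ^ n) *ᵥ x) y = f x (ρ (d ^ n) *ᵥ y) := by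
      intro n
      induction n with
      | zero => intro x y; rw [pow_zero, pow_zero, map_one, Matrix.one_mulVec, Matrix.one_mulVec]
      | succ n ih =>
        intro x y
        rw [pow_succ, ← rmul, ih, hadj', rmul, pow_succ']
    have hinj : ∀ a b : L, (∀ x, ρ a *ᵥ x = ρ b *ᵥ x) → a = b := by
      intro a b hab
      apply RingHom.injective ρ
      apply Matrix.ext_of_mulVec_single
      intro i
      exact hab _
    have hd11 : d ^ 11 = 1 := by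
      apply hinj
      intro y
      apply hs.ext_right
      intro x
      rw [← hpow, hD.D11, map_one, Matrix.one_mulVec, Matrix.one_mulVec]
    have hp := prim hD.D1 hD.D11
    obtain ⟨j, hj, hjd⟩ := hp.eq_pow_of_pow_eq_one hd11
    have hadj2 : ∀ (n : ℕ) x y, f (ρ (d ^ n) *ᵥ x) y = f x (ρ (D ^ n) *ᵥ y) := by
      intro n x y
      rw [hs.herm (ρ (d ^ n) *ᵥ x) y, ← hpow, ← hs.herm]
    have hjj : D ^ (j * j) = D ^ 1 := by
      apply hinj
      intro x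
      apply hs.ext_left
      intro y
      rw [pow_mul, hjd, hadj2, hjd, pow_one, hadj']
    have hj2 : (j * j) % 11 = 1 := by
      have h2 : D ^ ((j * j) % 11) = D ^ 1 := by
        rw [← hjj]
        conv_rhs => rw [← Nat.mod_add_div (j * j) 11, pow_add, pow_mul, hD.D11, one_pow, mul_one]
      exact hp.pow_inj (Nat.mod_lt _ (by norm_num)) (by norm_num) h2
    have hjc : j = 1 ∨ j = 10 := by
      interval_cases j <;> omega
    rcases hjc with rfl | rfl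
    · exfalso
      rw [pow_one] at hjd
      obtain ⟨x, hx⟩ := h1
      have h3 : f (ρ (ι w) *ᵥ x) x = f x (ρ (ι w) *ᵥ x) := by
        rw [← hD.th]
        simp only [map_add, Matrix.add_mulVec, hs.add_left, hs.add_right, hpow, hadj', ← hjd]
      rw [hsc, Matrix.smul_mulVec, Matrix.one_mulVec, hs.smul_left, hs.smul_right, hx, hτ, mul_one, mul_one, hD.om] at h3
      exact one_ne_zero (by linear_combination -h3 : (1 : F) = 0)
    · intro x y
      rw [hadj', rmul, ← hjd, ← pow_succ, hD.D11, map_one, Matrix.one_mulVec]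

/-- values in the field -/
def hq (f : (Fin 5 → F) → (Fin 5 → F) → F) {L : Type u} [Field L] (ι : F →+* L)
    (ρ : L →+* Matrix (Fin 5) (Fin 5) F) (D : L) (x y : Fin 5 → F) : L :=
  ∑ i ∈ Finset.range 11, ι (f (ρ (D ^ i) *ᵥ x) y) * D ^ (10 * i)

variable {L : Type u} [Field L] {ι : F →+* L} {ρ : L →+* Matrix (Fin 5) (Fin 5) F} {w : F} {D : L}

section basic
variable [Fintype F] [Fintype L] (hF : Fintype.card F = 2 ^ 2) (hL : Fintype.card L = 1024) (hs : SFm τ 1 f)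
  (hτ : ∀ x, τ x = x ^ 2) (hD : OD f ι ρ w D)
include hF hL hs hτ hD

theorem hq_add (x x' y : Fin 5 → F) : hq f ι ρ D (x + x') y = hq f ι ρ D x y + hq f ι ρ D x' y := by
  unfold hq
  rw [← Finset.sum_add_distrib]
  apply Finset.sum_congr rfl
  intro i _
  rw [Matrix.mulVec_add, hs.add_left, map_add]
  ring

theorem hq_c (c : F) (x y : Fin 5 → F) : hq f ι ρ D (c • x) y = ι c * hq f ι ρ D x y := by
  unfold hq
  rw [Finset.mul_sum]
  apply Finset.sum_congr rfl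
  intro i _
  rw [Matrix.mulVec_smul, hs.smul_left, map_mul]
  ring

theorem hq_D (x y : Fin 5 → F) : hq f ι ρ D (ρ D *ᵥ x) y = D * hq f ι ρ D x y := by
  unfold hq
  have h11 := hD.ld.D11
  obtain ⟨g, hg⟩ : ∃ g : ℕ → L, g = fun n => ι (f (ρ (D ^ n) *ᵥ x) y) * D ^ (10 * n + 1) := ⟨_, rfl⟩
  have e1 : D * ∑ i ∈ Finset.range 11, ι (f (ρ (D ^ i) *ᵥ x) y) * D ^ (10 * i) = ∑ i ∈ Finset.range 11, g i := by
    rw [Finset.mul_sum, hg]
    apply Finset.sum_congr rfl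
    intro i _
    show _ = ι (f (ρ (D ^ i) *ᵥ x) y) * D ^ (10 * i + 1)
    rw [pow_succ]
    ring
  have e2 : ∑ i ∈ Finset.range 11, ι (f (ρ (D ^ i) *ᵥ (ρ D *ᵥ x)) y) * D ^ (10 * i) = ∑ i ∈ Finset.range 11, g (i + 1) := by
    rw [hg]
    apply Finset.sum_congr rfl
    intro i _
    rw [rmul, ← pow_succ]
    have : D ^ (10 * (i + 1) + 1) = D ^ (10 * i) := by
      rw [show 10 * (i + 1) + 1 = 10 * i + 11 by ring, pow_add, h11, mul_one]
    simp only [this]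
  have e3 : g 11 = g 0 := by
    rw [hg]
    simp only [h11]
    rw [show 10 * 11 + 1 = 11 * 10 + 1 from rfl, pow_add, pow_mul, h11, one_pow]
    simp
  rw [e1, e2]
  have h1 := Finset.sum_range_succ g 11
  have h2 := Finset.sum_range_succ' g 11
  rw [h1, e3] at h2
  exact (add_right_cancel h2).symm

theorem hq_pow (n : ℕ) (x y : Fin 5 → F) : hq f ι ρ D (ρ (D ^ n) *ᵥ x) y = D ^ n * hq f ι ρ D x y := by
  induction n with
  | zero => rw [pow_zero, map_one, Matrix.one_mulVec, one_mul]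
  | succ n ih => rw [pow_succ', ← rmul, hq_D hF hL hs hτ hD, ih]; ring

theorem hq_l (l : L) (x y : Fin 5 → F) : hq f ι ρ D (ρ l *ᵥ x) y = l * hq f ι ρ D x y := by
  obtain ⟨a, b, c, d, e, h⟩ := ex5 hF hD.ld hL l
  have h1 : ρ l *ᵥ x = a • x + b • (ρ D *ᵥ x) + c • (ρ (D ^ 2) *ᵥ x) + d • (ρ (D ^ 3) *ᵥ x) + e • (ρ (D ^ 4) *ᵥ x) := by
    rw [h]
    simp only [map_add, map_mul, Matrix.add_mulVec, hD.sc, smul_mul_assoc, one_mul, Matrix.smul_mulVec, Matrix.one_mulVec]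
  rw [h1]
  simp only [hq_add hF hL hs hτ hD, hq_c hF hL hs hτ hD, hq_pow hF hL hs hτ hD, hq_D hF hL hs hτ hD]
  rw [h]
  ring

theorem p32_add (a b : L) : (a + b) ^ 32 = a ^ 32 + b ^ 32 := by
  haveI := Lc hF ι
  have := add_pow_char_pow (p := 2) (n := 5) a b
  norm_num at this
  exact this

theorem p32_c (c : F) : (ι c) ^ 32 = ι (c ^ 2) := by
  rw [← map_pow]
  congr 1
  have h := pow4 hF c
  have e1 : c ^ 32 = (((c ^ 4) ^ 4)) ^ 2 := by ring
  rw [e1, h, h]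

theorem D32 : D ^ 32 = D ^ 10 := by
  have h := hD.ld.D11
  linear_combination (D ^ 21 + D ^ 10) * h

theorem adjD10 (x y : Fin 5 → F) : f (ρ D *ᵥ x) y = f x (ρ (D ^ 10) *ᵥ y) := by
  rw [← hD.iso x, rmul]
  have h1 : D * D ^ 10 = 1 := by rw [← hD.ld.D11]; ring
  rw [h1, map_one, Matrix.one_mulVec]

theorem adjpow (n : ℕ) (x y : Fin 5 → F) : f (ρ (D ^ n) *ᵥ x) y = f x (ρ ((D ^ 10) ^ n) *ᵥ y) := by
  induction n generalizing x y with
  | zero => rw [pow_zero, pow_zero, map_one, Matrix.one_mulVec, Matrix.one_mulVec]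
  | succ n ih => rw [pow_succ, ← rmul, ih, adjD10 hF hL hs hτ hD, rmul, pow_succ' (D ^ 10) n]

theorem adj5 (l : L) (x y : Fin 5 → F) : f (ρ l *ᵥ x) y = f x (ρ (l ^ 32) *ᵥ y) := by
  obtain ⟨a, b, c, d, e, h⟩ := ex5 hF hD.ld hL l
  have hp : ∀ c : F, c = (c ^ 2) ^ 2 := by
    intro c
    have := pow4 hF c
    linear_combination -this
  have h32 : l ^ 32 = ι (a ^ 2) + ι (b ^ 2) * D ^ 10 + ι (c ^ 2) * (D ^ 10) ^ 2 + ι (d ^ 2) * (D ^ 10) ^ 3 + ι (e ^ 2) * (D ^ 10) ^ 4 := by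
    have hh := D32 hF hL hs hτ hD
    rw [h]
    simp only [p32_add hF hL hs hτ hD, mul_pow, p32_c hF hL hs hτ hD]
    rw [hh, ← hh]
    ring
  rw [h32, h]
  simp only [map_add, map_mul, Matrix.add_mulVec, hD.sc, smul_mul_assoc, one_mul, Matrix.smul_mulVec, Matrix.one_mulVec,
    hs.add_left, hs.add_right, hs.smul_left, hs.smul_right, hτ, ← hp, adjpow hF hL hs hτ hD, adjD10 hF hL hs hτ hD]

theorem hq_r (l : L) (x y : Fin 5 → F) : hq f ι ρ D x (ρ l *ᵥ y) = l ^ 32 * hq f ι ρ D x y := by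
  rw [← hq_l hF hL hs hτ hD]
  unfold hq
  have h1 : (l ^ 32) ^ 32 = l := by rw [← pow_mul]; exact hD.p l
  apply Finset.sum_congr rfl
  intro i _
  have e : ρ (D ^ i) *ᵥ (ρ (l ^ 32) *ᵥ x) = ρ (l ^ 32) *ᵥ (ρ (D ^ i) *ᵥ x) := by
    rw [rmul, rmul, mul_comm]
  rw [e, adj5 hF hL hs hτ hD (l ^ 32), h1]

theorem hq_herm (x y : Fin 5 → F) : hq f ι ρ D y x = hq f ι ρ D x y ^ 32 := by
  haveI := Lc hF ι
  unfold hq
  have h11 := hD.ld.D11
  have e0 : (∑ i ∈ Finset.range 11, ι (f (ρ (D ^ i) *ᵥ x) y) * D ^ (10 * i)) ^ 32 =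
      ∑ i ∈ Finset.range 11, (ι (f (ρ (D ^ i) *ᵥ x) y) * D ^ (10 * i)) ^ 32 := by
    have := sum_pow_char_pow 2 5 (Finset.range 11) (fun i => ι (f (ρ (D ^ i) *ᵥ x) y) * D ^ (10 * i))
    simp only [show (2 : ℕ) ^ 5 = 32 from rfl] at this
    exact this
  obtain ⟨g, hg⟩ : ∃ g : ℕ → L, g = fun n => ι (f y (ρ (D ^ n) *ᵥ x)) * D ^ n := ⟨_, rfl⟩
  have e1 : ∑ i ∈ Finset.range 11, (ι (f (ρ (D ^ i) *ᵥ x) y) * D ^ (10 * i)) ^ 32 = ∑ i ∈ Finset.range 11, g i := by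
    rw [hg]
    apply Finset.sum_congr rfl
    intro i _
    show _ = ι (f y (ρ (D ^ i) *ᵥ x)) * D ^ i
    rw [mul_pow, p32_c hF hL hs hτ hD, ← hτ, hs.herm y, one_mul]
    congr 1
    rw [← pow_mul, show 10 * i * 32 = 11 * (29 * i) + i by ring, pow_add, pow_mul, h11, one_pow, one_mul]
  have e2 : ∑ i ∈ Finset.range 11, ι (f (ρ (D ^ i) *ᵥ y) x) * D ^ (10 * i) = ∑ i ∈ Finset.range 11, g (10 * i) := by
    rw [hg]
    apply Finset.sum_congr rfl
    intro i _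
    rw [adjpow hF hL hs hτ hD, ← pow_mul]
  have hper : ∀ n k, g (n + 11 * k) = g n := by
    intro n k
    rw [hg]
    simp only [pow_add, pow_mul, h11, one_pow, mul_one]
  rw [e0, e1, e2]
  simp only [Finset.sum_range_succ, Finset.sum_range_zero]
  rw [show g (10 * 2) = g 9 from hper 9 1, show g (10 * 3) = g 8 from hper 8 2, show g (10 * 4) = g 7 from hper 7 3,
    show g (10 * 5) = g 6 from hper 6 4, show g (10 * 6) = g 5 from hper 5 5, show g (10 * 7) = g 4 from hper 4 6,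
    show g (10 * 8) = g 3 from hper 3 7, show g (10 * 9) = g 2 from hper 2 8, show g (10 * 10) = g 1 from hper 1 9]
  norm_num
  ring

end basic

end Cfsg.Agent.H29.Ut
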