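import Mathlib
import Cfsg.Agent.H29_Ut2

set_option autoImplicit false

/-! traces -/

namespace Cfsg.Agent.H29.Ut

open Matrix Module Cfsg.Geo Cfsg.Agent.H29.Fm Cfsg.Agent.H29.Us

universe u

variable {F : Type u} [Field F]
variable {L : Type u} [Field L] {ι : F →+* L} {ρ : L →+* Matrix (Fin 5) (Fin 5) F} {w : F} {D : L}

/-- the trace -/
def Tr (l : L) : L := l + l ^ 4 + l ^ 16 + l ^ 64 + l ^ 256

theorem hmod (hD : LD ι w D) (n k : ℕ) : D ^ (n + 11 * k) = D ^ n := by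
  rw [pow_add, pow_mul, hD.D11, one_pow, mul_one]

section LD
variable [Fintype F] (hF : Fintype.card F = 2 ^ 2) (hD : LD ι w D)
include hF hD

omit hD in
theorem Tr_add (hι : Function.Injective ι) (a b : L) : Tr (a + b) = Tr a + Tr b := by
  haveI := Lc hF ι
  have e1 := add_pow_char_pow (p := 2) (n := 2) a b
  have e2 := add_pow_char_pow (p := 2) (n := 4) a b
  have e3 := add_pow_char_pow (p := 2) (n := 6) a b
  have e4 := add_pow_char_pow (p := 2) (n := 8) a b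
  norm_num at e1 e2 e3 e4
  unfold Tr
  rw [e1, e2, e3, e4]
  ring

omit hD in
theorem Tr_sum (hι : Function.Injective ι) {α : Type*} (s : Finset α) (g : α → L) : Tr (∑ i ∈ s, g i) = ∑ i ∈ s, Tr (g i) := by
  classical
  induction s using Finset.induction_on with
  | empty => simp [Tr]
  | insert a s ha ih => rw [Finset.sum_insert ha, Finset.sum_insert ha, Tr_add hF hι, ih]

omit hD in
theorem Tr_c (c : F) (l : L) : Tr (ι c * l) = ι c * Tr l := by
  have h := pow4 hF c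
  have h4 : ι c ^ 4 = ι c := by rw [← map_pow, h]
  have h16 : ι c ^ 16 = ι c := by rw [show (16 : ℕ) = 4 * 4 from rfl, pow_mul, h4, h4]
  have h64 : ι c ^ 64 = ι c := by rw [show (64 : ℕ) = 16 * 4 from rfl, pow_mul, h16, h4]
  have h256 : ι c ^ 256 = ι c := by rw [show (256 : ℕ) = 64 * 4 from rfl, pow_mul, h64, h4]
  unfold Tr
  rw [mul_pow, mul_pow, mul_pow, mul_pow, h4, h16, h64, h256]
  ring

omit hD in
theorem Tr_one (hD : LD ι w D) : Tr (1 : L) = 1 := by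
  have h2 := L2' hF ι
  unfold Tr
  simp only [one_pow]
  linear_combination 2 * h2

theorem TrD1 : Tr (D ^ 1) = ι w := by
  have hm := hmod hD
  have h2 := L2' hF ι
  have hs := sum11 hD.D1 hD.D11
  have ht := hD.th
  unfold Tr
  rw [show (D ^ 1) ^ 4 = D ^ 4 by (first | (rw [← pow_mul]; exact hm 4 0) | rw [← pow_mul]), show (D ^ 1) ^ 16 = D ^ 5 by (first | (rw [← pow_mul]; exact hm 5 1) | rw [← pow_mul]), show (D ^ 1) ^ 64 = D ^ 9 by (first | (rw [← pow_mul]; exact hm 9 5) | rw [← pow_mul]), show (D ^ 1) ^ 256 = D ^ 3 by (first | (rw [← pow_mul]; exact hm 3 23) | rw [← pow_mul])]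
  linear_combination ht

theorem TrD2 : Tr (D ^ 2) = ι (1 + w) := by
  have hm := hmod hD
  have h2 := L2' hF ι
  have hs := sum11 hD.D1 hD.D11
  have ht := hD.th
  unfold Tr
  rw [show (D ^ 2) ^ 4 = D ^ 8 by (first | (rw [← pow_mul]; exact hm 8 0) | rw [← pow_mul]), show (D ^ 2) ^ 16 = D ^ 10 by (first | (rw [← pow_mul]; exact hm 10 2) | rw [← pow_mul]), show (D ^ 2) ^ 64 = D ^ 7 by (first | (rw [← pow_mul]; exact hm 7 11) | rw [← pow_mul]), show (D ^ 2) ^ 256 = D ^ 6 by (first | (rw [← pow_mul]; exact hm 6 46) | rw [← pow_mul])]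
  rw [map_add, map_one, ← ht]
  linear_combination hs - (1 + D + D ^ 3 + D ^ 4 + D ^ 5 + D ^ 9) * h2

theorem TrD3 : Tr (D ^ 3) = ι w := by
  have hm := hmod hD
  have h2 := L2' hF ι
  have hs := sum11 hD.D1 hD.D11
  have ht := hD.th
  unfold Tr
  rw [show (D ^ 3) ^ 4 = D ^ 1 by (first | (rw [← pow_mul]; exact hm 1 1) | rw [← pow_mul]), show (D ^ 3) ^ 16 = D ^ 4 by (first | (rw [← pow_mul]; exact hm 4 4) | rw [← pow_mul]), show (D ^ 3) ^ 64 = D ^ 5 by (first | (rw [← pow_mul]; exact hm 5 17) | rw [← pow_mul]), show (D ^ 3) ^ 256 = D ^ 9 by (first | (rw [← pow_mul]; exact hm 9 69) | rw [← pow_mul])]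
  linear_combination ht

theorem TrD4 : Tr (D ^ 4) = ι w := by
  have hm := hmod hD
  have h2 := L2' hF ι
  have hs := sum11 hD.D1 hD.D11
  have ht := hD.th
  unfold Tr
  rw [show (D ^ 4) ^ 4 = D ^ 5 by (first | (rw [← pow_mul]; exact hm 5 1) | rw [← pow_mul]), show (D ^ 4) ^ 16 = D ^ 9 by (first | (rw [← pow_mul]; exact hm 9 5) | rw [← pow_mul]), show (D ^ 4) ^ 64 = D ^ 3 by (first | (rw [← pow_mul]; exact hm 3 23) | rw [← pow_mul]), show (D ^ 4) ^ 256 = D ^ 1 by (first | (rw [← pow_mul]; exact hm 1 93) | rw [← pow_mul])]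
  linear_combination ht

theorem TrD5 : Tr (D ^ 5) = ι w := by
  have hm := hmod hD
  have h2 := L2' hF ι
  have hs := sum11 hD.D1 hD.D11
  have ht := hD.th
  unfold Tr
  rw [show (D ^ 5) ^ 4 = D ^ 9 by (first | (rw [← pow_mul]; exact hm 9 1) | rw [← pow_mul]), show (D ^ 5) ^ 16 = D ^ 3 by (first | (rw [← pow_mul]; exact hm 3 7) | rw [← pow_mul]), show (D ^ 5) ^ 64 = D ^ 1 by (first | (rw [← pow_mul]; exact hm 1 29) | rw [← pow_mul]), show (D ^ 5) ^ 256 = D ^ 4 by (first | (rw [← pow_mul]; exact hm 4 116) | rw [← pow_mul])]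
  linear_combination ht

theorem TrD6 : Tr (D ^ 6) = ι (1 + w) := by
  have hm := hmod hD
  have h2 := L2' hF ι
  have hs := sum11 hD.D1 hD.D11
  have ht := hD.th
  unfold Tr
  rw [show (D ^ 6) ^ 4 = D ^ 2 by (first | (rw [← pow_mul]; exact hm 2 2) | rw [← pow_mul]), show (D ^ 6) ^ 16 = D ^ 8 by (first | (rw [← pow_mul]; exact hm 8 8) | rw [← pow_mul]), show (D ^ 6) ^ 64 = D ^ 10 by (first | (rw [← pow_mul]; exact hm 10 34) | rw [← pow_mul]), show (D ^ 6) ^ 256 = D ^ 7 by (first | (rw [← pow_mul]; exact hm 7 139) | rw [← pow_mul])]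
  rw [map_add, map_one, ← ht]
  linear_combination hs - (1 + D + D ^ 3 + D ^ 4 + D ^ 5 + D ^ 9) * h2

theorem TrD7 : Tr (D ^ 7) = ι (1 + w) := by
  have hm := hmod hD
  have h2 := L2' hF ι
  have hs := sum11 hD.D1 hD.D11
  have ht := hD.th
  unfold Tr
  rw [show (D ^ 7) ^ 4 = D ^ 6 by (first | (rw [← pow_mul]; exact hm 6 2) | rw [← pow_mul]), show (D ^ 7) ^ 16 = D ^ 2 by (first | (rw [← pow_mul]; exact hm 2 10) | rw [← pow_mul]), show (D ^ 7) ^ 64 = D ^ 8 by (first | (rw [← pow_mul]; exact hm 8 40) | rw [← pow_mul]), show (D ^ 7) ^ 256 = D ^ 10 by (first | (rw [← pow_mul]; exact hm 10 162) | rw [← pow_mul])]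
  rw [map_add, map_one, ← ht]
  linear_combination hs - (1 + D + D ^ 3 + D ^ 4 + D ^ 5 + D ^ 9) * h2

theorem TrD8 : Tr (D ^ 8) = ι (1 + w) := by
  have hm := hmod hD
  have h2 := L2' hF ι
  have hs := sum11 hD.D1 hD.D11
  have ht := hD.th
  unfold Tr
  rw [show (D ^ 8) ^ 4 = D ^ 10 by (first | (rw [← pow_mul]; exact hm 10 2) | rw [← pow_mul]), show (D ^ 8) ^ 16 = D ^ 7 by (first | (rw [← pow_mul]; exact hm 7 11) | rw [← pow_mul]), show (D ^ 8) ^ 64 = D ^ 6 by (first | (rw [← pow_mul]; exact hm 6 46) | rw [← pow_mul]), show (D ^ 8) ^ 256 = D ^ 2 by (first | (rw [← pow_mul]; exact hm 2 186) | rw [← pow_mul])]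
  rw [map_add, map_one, ← ht]
  linear_combination hs - (1 + D + D ^ 3 + D ^ 4 + D ^ 5 + D ^ 9) * h2

theorem TrD9 : Tr (D ^ 9) = ι w := by
  have hm := hmod hD
  have h2 := L2' hF ι
  have hs := sum11 hD.D1 hD.D11
  have ht := hD.th
  unfold Tr
  rw [show (D ^ 9) ^ 4 = D ^ 3 by (first | (rw [← pow_mul]; exact hm 3 3) | rw [← pow_mul]), show (D ^ 9) ^ 16 = D ^ 1 by (first | (rw [← pow_mul]; exact hm 1 13) | rw [← pow_mul]), show (D ^ 9) ^ 64 = D ^ 4 by (first | (rw [← pow_mul]; exact hm 4 52) | rw [← pow_mul]), show (D ^ 9) ^ 256 = D ^ 5 by (first | (rw [← pow_mul]; exact hm 5 209) | rw [← pow_mul])]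
  linear_combination ht

theorem TrD10 : Tr (D ^ 10) = ι (1 + w) := by
  have hm := hmod hD
  have h2 := L2' hF ι
  have hs := sum11 hD.D1 hD.D11
  have ht := hD.th
  unfold Tr
  rw [show (D ^ 10) ^ 4 = D ^ 7 by (first | (rw [← pow_mul]; exact hm 7 3) | rw [← pow_mul]), show (D ^ 10) ^ 16 = D ^ 6 by (first | (rw [← pow_mul]; exact hm 6 14) | rw [← pow_mul]), show (D ^ 10) ^ 64 = D ^ 2 by (first | (rw [← pow_mul]; exact hm 2 58) | rw [← pow_mul]), show (D ^ 10) ^ 256 = D ^ 8 by (first | (rw [← pow_mul]; exact hm 8 232) | rw [← pow_mul])]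
  rw [map_add, map_one, ← ht]
  linear_combination hs - (1 + D + D ^ 3 + D ^ 4 + D ^ 5 + D ^ 9) * h2

end LD

section basic
variable {f : (Fin 5 → F) → (Fin 5 → F) → F} {τ : F ≃+* F}
variable [Fintype F] [Fintype L] (hF : Fintype.card F = 2 ^ 2) (hL : Fintype.card L = 1024) (hs : SFm τ 1 f)
  (hτ : ∀ x, τ x = x ^ 2) (hD : OD f ι ρ w D)
include hF hL hs hτ hD

/-- trace of the field valued form -/
theorem Tr_hq (x y : Fin 5 → F) : Tr (hq f ι ρ D x y) = ι (f x y) := by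
  have hld := hD.ld
  have hm := hmod hld
  have hι : Function.Injective ι := ι.injective
  unfold hq
  rw [Tr_sum hF hι]
  simp only [Tr_c hF]
  simp only [Finset.sum_range_succ, Finset.sum_range_zero]
  rw [show D ^ (10 * 0) = 1 by rw [mul_zero, pow_zero], show D ^ (10 * 1) = D ^ 10 by rw [mul_one],
    show D ^ (10 * 2) = D ^ 9 from hm 9 1, show D ^ (10 * 3) = D ^ 8 from hm 8 2, show D ^ (10 * 4) = D ^ 7 from hm 7 3,
    show D ^ (10 * 5) = D ^ 6 from hm 6 4, show D ^ (10 * 6) = D ^ 5 from hm 5 5, show D ^ (10 * 7) = D ^ 4 from hm 4 6,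
    show D ^ (10 * 8) = D ^ 3 from hm 3 7, show D ^ (10 * 9) = D ^ 2 from hm 2 8, show D ^ (10 * 10) = D ^ 1 from hm 1 9]
  rw [Tr_one hF hld, TrD10 hF hld, TrD9 hF hld, TrD8 hF hld, TrD7 hF hld, TrD6 hF hld, TrD5 hF hld, TrD4 hF hld, TrD3 hF hld,
    TrD2 hF hld, TrD1 hF hld]
  have h2 := L2' hF ι
  have hss := sum11 hld.D1 hld.D11
  have ht := hld.th
  have hw := hld.om
  have h1 : (1 : L) + ι (1 + w) * (D + D ^ 3 + D ^ 4 + D ^ 5 + D ^ 9) + ι w * (D ^ 2 + D ^ 6 + D ^ 7 + D ^ 8 + D ^ 10) = 1 := by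
    rw [map_add, map_one, ← ht]
    linear_combination (D + D ^ 3 + D ^ 4 + D ^ 5 + D ^ 9) * hss
  have h3 : x = x + (1 + w) • (ρ D *ᵥ x + ρ (D ^ 3) *ᵥ x + ρ (D ^ 4) *ᵥ x + ρ (D ^ 5) *ᵥ x + ρ (D ^ 9) *ᵥ x) +
      w • (ρ (D ^ 2) *ᵥ x + ρ (D ^ 6) *ᵥ x + ρ (D ^ 7) *ᵥ x + ρ (D ^ 8) *ᵥ x + ρ (D ^ 10) *ᵥ x) := by
    have h4 := congrArg (fun l => ρ l *ᵥ x) h1
    simp only [map_add ρ, map_mul ρ, hD.sc, map_one, Matrix.add_mulVec, Matrix.one_mulVec, Matrix.smul_mulVec, smul_mul_assoc, one_mul] at h4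
    exact h4.symm
  have h5 : f x y = f x y + (1 + w) * (f (ρ D *ᵥ x) y + f (ρ (D ^ 3) *ᵥ x) y + f (ρ (D ^ 4) *ᵥ x) y + f (ρ (D ^ 5) *ᵥ x) y + f (ρ (D ^ 9) *ᵥ x) y) +
      w * (f (ρ (D ^ 2) *ᵥ x) y + f (ρ (D ^ 6) *ᵥ x) y + f (ρ (D ^ 7) *ᵥ x) y + f (ρ (D ^ 8) *ᵥ x) y + f (ρ (D ^ 10) *ᵥ x) y) := by
    conv_lhs => rw [h3]
    simp only [hs.add_left, hs.smul_left]
  rw [h5]
  simp only [pow_zero, map_one, Matrix.one_mulVec, pow_one, map_add, map_mul]
  ring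

theorem exists_v (h1 : ∃ x, f x x = 1) : ∃ v, hq f ι ρ D v v = 1 := by
  obtain ⟨x, hx⟩ := h1
  have hx0 : hq f ι ρ D x x ≠ 0 := by
    intro h0
    have := Tr_hq hF hL hs hτ hD x x
    rw [h0, hx, map_one] at this
    simp [Tr] at this
  set q := hq f ι ρ D x x with hq'
  have h32 : q ^ 32 = q := (hq_herm hF hL hs hτ hD x x).symm
  have h31 : q ^ 31 = 1 := by
    have h2 : q * (q ^ 31 - 1) = 0 := by linear_combination h32
    rcases mul_eq_zero.1 h2 with h3 | h3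
    · exact absurd h3 hx0
    · exact sub_eq_zero.1 h3
  refine ⟨ρ (q ^ 15) *ᵥ x, ?_⟩
  rw [hq_l hF hL hs hτ hD, hq_r hF hL hs hτ hD, ← hq']
  have h3 : q ^ 15 * ((q ^ 15) ^ 32 * q) = (q ^ 31) ^ 16 := by ring
  rw [h3, h31, one_pow]

/-- the span of a non-zero vector -/
theorem surj5 {v : Fin 5 → F} (hv : v ≠ 0) (x : Fin 5 → F) : ∃ l : L, x = ρ l *ᵥ v := by
  classical
  have hinj : Function.Injective (fun l : L => ρ l *ᵥ v) := by
    intro a b hab
    have h1 : ρ (a - b) *ᵥ v = 0 := by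
      rw [map_sub, Matrix.sub_mulVec]
      exact sub_eq_zero.2 hab
    exact sub_eq_zero.1 (rinj5 hv h1)
  have hbij : Function.Bijective (fun l : L => ρ l *ᵥ v) := by
    rw [Fintype.bijective_iff_injective_and_card]
    refine ⟨hinj, ?_⟩
    rw [hL, Fintype.card_fun, hF, Fintype.card_fin]
    norm_num
  obtain ⟨l, hl⟩ := hbij.2 x
  exact ⟨l, hl.symm⟩

theorem f_v {v : Fin 5 → F} (hv : hq f ι ρ D v v = 1) (l : L) : ι (f (ρ l *ᵥ v) v) = Tr l := by
  rw [← Tr_hq hF hL hs hτ hD, hq_l hF hL hs hτ hD, hv, mul_one]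

end basic

end Cfsg.Agent.H29.Ut
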