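import Mathlib
import Cfsg.Agent.H29_Ut4

set_option autoImplicit false

/-! the orbit inside the field -/

namespace Cfsg.Agent.H29.Ut

open Matrix Module Cfsg.Geo Cfsg.Agent.H29.Fm Cfsg.Agent.H29.Us

universe u

variable {F : Type u} [Field F]
variable {L : Type u} [Field L] {ι : F →+* L} {ρ : L →+* Matrix (Fin 5) (Fin 5) F} {w : F} {D : L}

/-- field elements from codes -/
def pL (ι : F →+* L) (w : F) (D : L) (a b c d e : Bool × Bool) : L :=
  ι (ph w a) + ι (ph w b) * D + ι (ph w c) * D ^ 2 + ι (ph w d) * D ^ 3 + ι (ph w e) * D ^ 4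

/-- the orbit -/
def PL (ι : F →+* L) (w : F) (D : L) (l : L) : Prop := ∃ a b c d e, l = pL ι w D a b c d e ∧ iS a b c d e = true

theorem ph_w1 (w : F) : ph w w1 = w := by simp [ph, w1]
theorem ph_w2 (w : F) : ph w w2 = 1 + w := by simp [ph, w2]
theorem ph_00 (w : F) : ph w (false, false) = 0 := by simp [ph]
theorem ph_10 (w : F) : ph w (true, false) = 1 := by simp [ph]

section LD
variable [Fintype F] (hF : Fintype.card F = 2 ^ 2) (hD : LD ι w D)
include hF hD

theorem pL_inj {a b c d e a' b' c' d' e' : Bool × Bool} (h : pL ι w D a b c d e = pL ι w D a' b' c' d' e') :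
    a = a' ∧ b = b' ∧ c = c' ∧ d = d' ∧ e = e' := by
  unfold pL at h
  have h1 : ι (ph w a - ph w a') + ι (ph w b - ph w b') * D + ι (ph w c - ph w c') * D ^ 2 + ι (ph w d - ph w d') * D ^ 3 +
      ι (ph w e - ph w e') * D ^ 4 = 0 := by
    rw [map_sub, map_sub, map_sub, map_sub, map_sub]
    linear_combination h
  obtain ⟨h2, h3, h4, h5, h6⟩ := un5 hF hD _ _ _ _ _ h1
  exact ⟨ph_inj hF hD.om (sub_eq_zero.1 h2), ph_inj hF hD.om (sub_eq_zero.1 h3), ph_inj hF hD.om (sub_eq_zero.1 h4),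
    ph_inj hF hD.om (sub_eq_zero.1 h5), ph_inj hF hD.om (sub_eq_zero.1 h6)⟩

theorem r8 : D ^ 8 = ι w * D + ι (1 + w) * D ^ 2 + ι w * D ^ 3 + ι (1 + w) * D ^ 4 := by
  have h2 := L2' hF ι
  have hs := sum11 hD.D1 hD.D11
  have h11 := hD.D11
  rw [map_add, map_one, ← hD.th]
  linear_combination -(1 + D + D ^ 2) * h11 - hs - (D ^ 2 + D ^ 4 + D ^ 5 + D ^ 6 + D ^ 7) * h2

theorem r5' : D ^ 5 = 1 + ι (1 + w) * D + D ^ 2 + D ^ 3 + ι w * D ^ 4 := by
  have h := rel5 hF hD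
  rw [hD.om, add_comm w 1] at h
  exact h

theorem PL_D {l : L} (h : PL ι w D l) : PL ι w D (D * l) := by
  obtain ⟨a, b, c, d, e, rfl, h⟩ := h
  refine ⟨_, _, _, _, _, ?_, sD h⟩
  unfold pL
  simp only [ph_ad hF, ph_ml hF hD.om, ph_w1, ph_w2, map_add ι, map_mul ι]
  have h5 := r5' hF hD
  rw [map_add, map_one] at h5
  rw [map_one]
  linear_combination ι (ph w e) * h5

theorem PL_w {l : L} (h : PL ι w D l) : PL ι w D (ι w * l) := by
  obtain ⟨a, b, c, d, e, rfl, h⟩ := h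
  refine ⟨_, _, _, _, _, ?_, sW h⟩
  unfold pL
  simp only [ph_ml hF hD.om, ph_w1, map_mul ι]
  ring

theorem p4_add (a b : L) : (a + b) ^ 4 = a ^ 4 + b ^ 4 := by
  haveI := Lc hF ι
  have := add_pow_char_pow (p := 2) (n := 2) a b
  norm_num at this
  exact this

theorem i4 (c : F) : ι c ^ 4 = ι c := by rw [← map_pow, pow4 hF]

theorem PL_4 {l : L} (h : PL ι w D l) : PL ι w D (l ^ 4) := by
  obtain ⟨a, b, c, d, e, rfl, h⟩ := h
  refine ⟨_, _, _, _, _, ?_, sF h⟩
  unfold pL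
  simp only [ph_ad hF, ph_ml hF hD.om, ph_w1, ph_w2, map_add ι, map_mul ι, p4_add hF hD, mul_pow, i4 hF hD]
  have h5 := r5' hF hD
  have h8 := r8 hF hD
  have h11 := hD.D11
  rw [map_add, map_one] at h5 h8
  rw [map_one]
  linear_combination ι (ph w c) * h8 + ι (ph w d) * D * h11 + ι (ph w e) * (D ^ 5 * h11 + h5)

theorem PL_Dn {l : L} (h : PL ι w D l) (n : ℕ) : PL ι w D (D ^ n * l) := by
  induction n with
  | zero => rw [pow_zero, one_mul]; exact h
  | succ n ih => rw [pow_succ', mul_assoc]; exact PL_D hF hD ih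

theorem PL_c {l : L} (h : PL ι w D l) {c : F} (hc : c ≠ 0) : PL ι w D (ι c * l) := by
  rcases four_cases hF hD.om c with rfl | rfl | rfl | rfl
  · exact absurd rfl hc
  · rw [map_one, one_mul]; exact h
  · exact PL_w hF hD h
  · have h1 := PL_w hF hD (PL_w hF hD h)
    have h2 : ι (1 + w) * l = ι w * (ι w * l) := by
      rw [add_comm 1 w, ← hD.om, map_pow]; ring
    rw [h2]; exact h1

/-- the Frobenius map -/
theorem exists_fr : ∃ fr : L →+* L, ∀ l, fr l = l ^ 4 := by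
  haveI := Lc hF ι
  refine ⟨iterateFrobenius L 2 2, fun l => ?_⟩
  rw [iterateFrobenius_def]
  norm_num

theorem hom_ext [Fintype L] (hL : Fintype.card L = 1024) {s1 s2 : L →+* L} (h1 : ∀ c : F, s1 (ι c) = ι c) (h2 : ∀ c : F, s2 (ι c) = ι c)
    (h : s1 D = s2 D) (l : L) : s1 l = s2 l := by
  obtain ⟨a, b, c, d, e, rfl⟩ := ex5 hF hD hL l
  simp only [map_add, map_mul, map_pow, h1, h2, h]

/-- automorphisms fixing the ground field -/
theorem sig_j {s : L →+* L} (h1 : ∀ c : F, s (ι c) = ι c) :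
    s D = D ∨ s D = D ^ 4 ∨ s D = D ^ 5 ∨ s D = D ^ 9 ∨ s D = D ^ 3 := by
  have hp := prim hD.D1 hD.D11
  have h11 : (s D) ^ 11 = 1 := by rw [← map_pow, hD.D11, map_one]
  obtain ⟨j, hj, hjd⟩ := hp.eq_pow_of_pow_eq_one h11
  have hT : Tr (s D) = ι w := by
    have h2 : s (Tr (D ^ 1)) = Tr (s D) := by
      unfold Tr
      simp only [map_add, map_pow, pow_one]
    rw [← h2, TrD1 hF hD, h1]
  have hne : ι (1 + w) ≠ ι w := by
    intro h
    have h2 := ι.injective h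
    exact one_ne_zero (by linear_combination h2 : (1 : F) = 0)
  have hne1 : (1 : L) ≠ ι w := by
    intro h
    rw [← map_one ι] at h
    exact om_ne_one hF hD.om (ι.injective h).symm
  rw [← hjd] at hT ⊢
  interval_cases j
  · rw [pow_zero, Tr_one hF hD] at hT; exact absurd hT hne1
  · left; rw [pow_one]
  · rw [TrD2 hF hD] at hT; exact absurd hT hne
  · right; right; right; right; rfl
  · right; left; rfl
  · right; right; left; rfl
  · rw [TrD6 hF hD] at hT; exact absurd hT hne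
  · rw [TrD7 hF hD] at hT; exact absurd hT hne
  · rw [TrD8 hF hD] at hT; exact absurd hT hne
  · right; right; right; left; rfl
  · rw [TrD10 hF hD] at hT; exact absurd hT hne

theorem PL_sig [Fintype L] (hL : Fintype.card L = 1024) {s : L →+* L} (h1 : ∀ c : F, s (ι c) = ι c) {l : L}
    (h : PL ι w D l) : PL ι w D (s l) := by
  obtain ⟨fr, hfr⟩ := exists_fr hF hD
  have hm := hmod hD
  have hfc : ∀ c : F, fr (ι c) = ι c := fun c => by rw [hfr, i4 hF hD]
  have q1 : ∀ l, PL ι w D l → PL ι w D (fr l) := fun l hl => by rw [hfr]; exact PL_4 hF hD hl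
  rcases sig_j hF hD h1 with h2 | h2 | h2 | h2 | h2
  · rw [hom_ext hF hD hL h1 (s2 := RingHom.id L) (fun _ => rfl) h2]
    exact h
  · rw [hom_ext hF hD hL h1 (s2 := fr) hfc (by rw [h2, hfr])]
    exact q1 _ h
  · rw [hom_ext hF hD hL h1 (s2 := fr.comp fr) (fun c => by rw [RingHom.comp_apply, hfc, hfc])
      (by rw [h2, RingHom.comp_apply, hfr, hfr, ← pow_mul]; exact (hm 5 1).symm)]
    exact q1 _ (q1 _ h)
  · rw [hom_ext hF hD hL h1 (s2 := (fr.comp fr).comp fr) (fun c => by rw [RingHom.comp_apply, RingHom.comp_apply, hfc, hfc, hfc])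
      (by rw [h2, RingHom.comp_apply, RingHom.comp_apply, hfr, hfr, hfr, ← pow_mul, ← pow_mul]; exact (hm 9 5).symm)]
    exact q1 _ (q1 _ (q1 _ h))
  · rw [hom_ext hF hD hL h1 (s2 := ((fr.comp fr).comp fr).comp fr)
      (fun c => by rw [RingHom.comp_apply, RingHom.comp_apply, RingHom.comp_apply, hfc, hfc, hfc, hfc])
      (by rw [h2, RingHom.comp_apply, RingHom.comp_apply, RingHom.comp_apply, hfr, hfr, hfr, hfr, ← pow_mul, ← pow_mul, ← pow_mul]
          exact (hm 3 23).symm)]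
    exact q1 _ (q1 _ (q1 _ (q1 _ h)))

theorem k33 {k : L} (hk : k ^ 33 = 1) : ∃ (c : F) (n : ℕ), c ≠ 0 ∧ k = ι c * D ^ n := by
  have hp := prim hD.D1 hD.D11
  have h3 : (k ^ 3) ^ 11 = 1 := by rw [← pow_mul]; exact hk
  obtain ⟨j, hj, hjd⟩ := hp.eq_pow_of_pow_eq_one h3
  have h4 : (k ^ 11) ^ 4 = k ^ 11 := by
    have : (k ^ 11) ^ 4 = k ^ 33 * k ^ 11 := by ring
    rw [this, hk, one_mul]
  have hk0 : k ≠ 0 := by
    rintro rfl
    simp at hk
  obtain ⟨c, hc⟩ : ∃ c : F, k ^ 11 = ι c := by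
    rcases fix4 hF ι hD.om h4 with h | h | h | h
    · exact ⟨0, by rw [h, map_zero]⟩
    · exact ⟨1, by rw [h, map_one]⟩
    · exact ⟨_, h⟩
    · exact ⟨_, h⟩
  refine ⟨c ^ 2, j * 4, ?_, ?_⟩
  · intro h0
    have h5 : c = 0 := by
      rcases pow_eq_zero_iff (n := 2) (by norm_num) |>.1 h0 with h
      exact h
    rw [h5, map_zero] at hc
    exact hk0 (pow_eq_zero_iff (by norm_num) |>.1 hc)
  · rw [map_pow, ← hc, pow_mul, hjd]
    have : (k ^ 11) ^ 2 * (k ^ 3) ^ 4 = k ^ 33 * k := by ring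
    rw [this, hk, one_mul]

end LD

end Cfsg.Agent.H29.Ut
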