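import Mathlib
import Cfsg.Agent.H29_Ut5

set_option autoImplicit false

/-! normalisers of quintic fields at `q = 2` are not maximal -/

namespace Cfsg.Agent.H29.Ut

open Matrix Module Cfsg.Geo Cfsg.Agent.H29.Fm Cfsg.Agent.H29.Us

universe u

variable {F : Type u} [Field F]
variable {f : (Fin 5 → F) → (Fin 5 → F) → F} {τ : F ≃+* F}
variable {L : Type u} [Field L] {ι : F →+* L} {ρ : L →+* Matrix (Fin 5) (Fin 5) F} {w : F} {D : L}

/-- the automorphism of the field induced by a normalising matrix -/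
theorem exists_sig5 {K : Subalgebra F (Matrix (Fin 5) (Fin 5) F)} (hK : ∀ x, x ∈ K ↔ ∃ l, ρ l = x)
    {g : GL (Fin 5) F} (hg : g ∈ subalgebraNormalizer K) :
    ∃ σ : L →+* L, ∀ l (x : Fin 5 → F), (g : Matrix (Fin 5) (Fin 5) F) *ᵥ (ρ l *ᵥ x) = ρ (σ l) *ᵥ ((g : Matrix (Fin 5) (Fin 5) F) *ᵥ x) := by
  have hgg : ((g⁻¹ : GL (Fin 5) F) : Matrix (Fin 5) (Fin 5) F) * (g : Matrix (Fin 5) (Fin 5) F) = 1 := by
    rw [← Units.val_mul, inv_mul_cancel, Units.val_one]
  have hgg' : (g : Matrix (Fin 5) (Fin 5) F) * ((g⁻¹ : GL (Fin 5) F) : Matrix (Fin 5) (Fin 5) F) = 1 := by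
    rw [← Units.val_mul, mul_inv_cancel, Units.val_one]
  have h1 : ∀ l : L, ∃ l' : L, ρ l' = (g : Matrix (Fin 5) (Fin 5) F) * ρ l * ((g⁻¹ : GL (Fin 5) F) : Matrix (Fin 5) (Fin 5) F) := by
    intro l
    exact (hK _).1 ((hg _).1 ((hK _).2 ⟨l, rfl⟩))
  choose s hs using h1
  have hinj : Function.Injective ρ := RingHom.injective ρ
  refine ⟨{ toFun := s, map_one' := ?_, map_mul' := ?_, map_zero' := ?_, map_add' := ?_ }, ?_⟩
  · apply hinj
    rw [hs, map_one, mul_one, hgg']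
  · intro x y
    apply hinj
    rw [hs, map_mul, map_mul, hs, hs]
    calc (g : Matrix (Fin 5) (Fin 5) F) * (ρ x * ρ y) * ((g⁻¹ : GL (Fin 5) F) : Matrix (Fin 5) (Fin 5) F)
        = (g : Matrix (Fin 5) (Fin 5) F) * ρ x * 1 * ρ y * ((g⁻¹ : GL (Fin 5) F) : Matrix (Fin 5) (Fin 5) F) := by
          rw [mul_one, mul_assoc, mul_assoc, mul_assoc, mul_assoc]
      _ = _ := by
          rw [← hgg]
          simp only [mul_assoc]
  · apply hinj
    show ρ (s 0) = ρ 0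
    rw [hs, map_zero, mul_zero, zero_mul]
  · intro x y
    apply hinj
    show ρ (s (x + y)) = ρ (s x + s y)
    rw [hs, map_add, map_add, hs, hs, mul_add, add_mul]
  · intro l x
    show _ = ρ (s l) *ᵥ _
    rw [hs, Matrix.mulVec_mulVec, Matrix.mulVec_mulVec, mul_assoc, mul_assoc, hgg, mul_one]

section basic
variable [Fintype F] [Fintype L] (hF : Fintype.card F = 2 ^ 2) (hL : Fintype.card L = 1024) (hs : SFm τ 1 f)
  (hτ : ∀ x, τ x = x ^ 2) (hD : OD f ι ρ w D)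
include hF hL hs hτ hD

theorem sig_c5 {G G' : Matrix (Fin 5) (Fin 5) F} (hGG : G * G' = 1) {σ : L →+* L}
    (hσ : ∀ l (x : Fin 5 → F), G *ᵥ (ρ l *ᵥ x) = ρ (σ l) *ᵥ (G *ᵥ x)) (c : F) : σ (ι c) = ι c := by
  apply RingHom.injective ρ
  apply Matrix.ext_of_mulVec_single
  intro i
  have h1 := hσ (ι c) (G' *ᵥ Pi.single i 1)
  rw [hD.sc, Matrix.smul_mulVec, Matrix.one_mulVec, Matrix.mulVec_smul, Matrix.mulVec_mulVec, hGG, Matrix.one_mulVec] at h1
  rw [← h1, hD.sc, Matrix.smul_mulVec, Matrix.one_mulVec]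

theorem k_eq {G : Matrix (Fin 5) (Fin 5) F} {σ : L →+* L} (hiso : ∀ x y, f (G *ᵥ x) (G *ᵥ y) = f x y)
    (hσ : ∀ l (x : Fin 5 → F), G *ᵥ (ρ l *ᵥ x) = ρ (σ l) *ᵥ (G *ᵥ x)) (hc : ∀ c : F, σ (ι c) = ι c)
    {v : Fin 5 → F} (hv : hq f ι ρ D v v = 1) {k : L} (hk : G *ᵥ v = ρ k *ᵥ v) : k ^ 33 = 1 := by
  have h1 : ∀ l : L, Tr (σ l * k ^ 33) = Tr (σ l) := by
    intro l
    have h2 : f (ρ (σ l) *ᵥ (G *ᵥ v)) (G *ᵥ v) = f (ρ l *ᵥ v) v := by rw [← hσ, hiso]
    have h3 : σ (Tr l) = Tr (σ l) := by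
      unfold Tr
      simp only [map_add, map_pow]
    have h4 := f_v hF hL hs hτ hD hv l
    have h5 : σ (Tr l) = Tr l := by rw [← h4, hc]
    have hk32 : (k ^ 32) ^ 32 = k := by rw [← pow_mul]; exact hD.p k
    have h6 : f (ρ (σ l) *ᵥ (G *ᵥ v)) (G *ᵥ v) = f (ρ (σ l * k ^ 33) *ᵥ v) v := by
      rw [hk, rmul]
      have h7 := adj5 hF hL hs hτ hD (k ^ 32) (ρ (σ l * k) *ᵥ v) v
      rw [hk32, rmul] at h7
      rw [← h7]
      congr 3
      ring
    rw [← f_v hF hL hs hτ hD hv, ← h6, h2, h4, ← h5, h3]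
  by_contra hne
  have hz : k ^ 33 - 1 ≠ 0 := sub_ne_zero.2 hne
  have hbij : Function.Bijective σ := Finite.injective_iff_bijective.1 σ.injective
  obtain ⟨l, hl⟩ := hbij.2 (k ^ 33 - 1)⁻¹
  have h2 := h1 l
  rw [hl] at h2
  have h3 : (k ^ 33 - 1)⁻¹ * k ^ 33 = 1 + (k ^ 33 - 1)⁻¹ := by
    field_simp
    ring
  rw [h3, Tr_add hF ι.injective, Tr_one hF hD.ld] at h2
  exact one_ne_zero (by linear_combination h2 : (1 : L) = 0)

theorem fvals {v : Fin 5 → F} (hv : hq f ι ρ D v v = 1) :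
    f v v = 1 ∧ f (ρ D *ᵥ v) v = w ∧ f (ρ (D ^ 2) *ᵥ v) v = 1 + w ∧ f (ρ (D ^ 3) *ᵥ v) v = w ∧ f (ρ (D ^ 4) *ᵥ v) v = w ∧
    f (ρ (D ^ 5) *ᵥ v) v = w ∧ f (ρ (D ^ 6) *ᵥ v) v = 1 + w ∧ f (ρ (D ^ 7) *ᵥ v) v = 1 + w ∧ f (ρ (D ^ 8) *ᵥ v) v = 1 + w ∧
    f (ρ (D ^ 9) *ᵥ v) v = w ∧ f (ρ (D ^ 10) *ᵥ v) v = 1 + w := by
  have h := f_v hF hL hs hτ hD hv
  have hι := ι.injective
  refine ⟨hι ?_, hι ?_, hι ?_, hι ?_, hι ?_, hι ?_, hι ?_, hι ?_, hι ?_, hι ?_, hι ?_⟩
  · have := h 1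
    rw [map_one, Matrix.one_mulVec, Tr_one hF hD.ld] at this
    rw [this, map_one]
  · have := h (D ^ 1)
    rw [TrD1 hF hD.ld, pow_one] at this
    exact this
  · rw [h, TrD2 hF hD.ld]
  · rw [h, TrD3 hF hD.ld]
  · rw [h, TrD4 hF hD.ld]
  · rw [h, TrD5 hF hD.ld]
  · rw [h, TrD6 hF hD.ld]
  · rw [h, TrD7 hF hD.ld]
  · rw [h, TrD8 hF hD.ld]
  · rw [h, TrD9 hF hD.ld]
  · rw [h, TrD10 hF hD.ld]

theorem move (j : ℕ) (x y : Fin 5 → F) : f x (ρ (D ^ j) *ᵥ y) = f (ρ (D ^ (10 * j)) *ᵥ x) y := by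
  rw [adjpow hF hL hs hτ hD, ← pow_mul]
  congr 3
  have : 10 * (10 * j) = j + 11 * (9 * j) := by ring
  rw [this, hmod hD.ld]

/-- the first centre -/
def u1 (ρ : L →+* Matrix (Fin 5) (Fin 5) F) (w : F) (D : L) (v : Fin 5 → F) : Fin 5 → F :=
  ρ (D ^ 3) *ᵥ v + (1 + w) • (ρ (D ^ 4) *ᵥ v)
/-- the second centre -/
def u2 (ρ : L →+* Matrix (Fin 5) (Fin 5) F) (w : F) (D : L) (v : Fin 5 → F) : Fin 5 → F :=
  v + (1 + w) • (ρ D *ᵥ v) + (1 + w) • (ρ (D ^ 4) *ᵥ v)

theorem f_u1 {v : Fin 5 → F} (hv : hq f ι ρ D v v = 1) (a b c d e : Bool × Bool) :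
    f (ρ (pL ι w D a b c d e) *ᵥ v) (u1 ρ w D v) = ph w (fa a b) := by
  obtain ⟨g0, g1, g2, g3, g4, g5, g6, g7, g8, g9, g10⟩ := fvals hF hL hs hτ hD hv
  have hw := hD.ld.om
  have h2 := char2 hF
  have hm := hmod hD.ld
  unfold u1 pL fa
  rw [hs.add_right, hs.smul_right, hτ, move hF hL hs hτ hD 3, move hF hL hs hτ hD 4, rmul, rmul]
  have e1 : D ^ (10 * 3) = D ^ 8 := hm 8 2
  have e2 : D ^ (10 * 4) = D ^ 7 := hm 7 3
  rw [e1, e2]
  have e3 : D ^ 8 * (ι (ph w a) + ι (ph w b) * D + ι (ph w c) * D ^ 2 + ι (ph w d) * D ^ 3 + ι (ph w e) * D ^ 4) =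
      ι (ph w a) * D ^ 8 + ι (ph w b) * D ^ 9 + ι (ph w c) * D ^ 10 + ι (ph w d) + ι (ph w e) * D := by
    have h11 := hD.ld.D11
    linear_combination (ι (ph w d) + ι (ph w e) * D) * h11
  have e4 : D ^ 7 * (ι (ph w a) + ι (ph w b) * D + ι (ph w c) * D ^ 2 + ι (ph w d) * D ^ 3 + ι (ph w e) * D ^ 4) =
      ι (ph w a) * D ^ 7 + ι (ph w b) * D ^ 8 + ι (ph w c) * D ^ 9 + ι (ph w d) * D ^ 10 + ι (ph w e) := by
    have h11 := hD.ld.D11
    linear_combination (ι (ph w e)) * h11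
  rw [e3, e4]
  simp only [map_add ρ, map_mul ρ, hD.sc, smul_mul_assoc, one_mul, Matrix.add_mulVec, Matrix.smul_mulVec, Matrix.one_mulVec,
    hs.add_left, hs.smul_left, g0, g1, g2, g3, g4, g5, g6, g7, g8, g9, g10, ph_ad hF, ph_ml hF hw, ph_w1, ph_w2]
  have w3 : w ^ 3 = 1 := cube hF (om_ne_zero hF hw)
  generalize ph w a = A
  generalize ph w b = B
  generalize ph w c = C
  generalize ph w d = E
  generalize ph w e = G
  have k1 : (1 + w) ^ 2 = w := by linear_combination hw + (1 + w) * h2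
  have k2 : w * w = 1 + w := by linear_combination hw
  have k3 : w * (1 + w) = 1 := by linear_combination hw + w * h2
  rw [k1]
  linear_combination (A + B * 1 + E) * k3 + (C) * k2 + (C + E + G * w + A + w * C) * h2

theorem f_u2 {v : Fin 5 → F} (hv : hq f ι ρ D v v = 1) (a b c d e : Bool × Bool) :
    f (ρ (pL ι w D a b c d e) *ᵥ v) (u2 ρ w D v) = ph w (fb a b c d e) := by
  obtain ⟨g0, g1, g2, g3, g4, g5, g6, g7, g8, g9, g10⟩ := fvals hF hL hs hτ hD hv
  have hw := hD.ld.om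
  have h2 := char2 hF
  have hm := hmod hD.ld
  unfold u2 pL fb
  have e0 : ρ D *ᵥ v = ρ (D ^ 1) *ᵥ v := by rw [pow_one]
  rw [e0, hs.add_right, hs.add_right, hs.smul_right, hs.smul_right, hτ, move hF hL hs hτ hD 1, move hF hL hs hτ hD 4, rmul, rmul]
  have e1 : D ^ (10 * 1) = D ^ 10 := rfl
  have e2 : D ^ (10 * 4) = D ^ 7 := hm 7 3
  rw [e1, e2]
  have e3 : D ^ 10 * (ι (ph w a) + ι (ph w b) * D + ι (ph w c) * D ^ 2 + ι (ph w d) * D ^ 3 + ι (ph w e) * D ^ 4) =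
      ι (ph w a) * D ^ 10 + ι (ph w b) + ι (ph w c) * D + ι (ph w d) * D ^ 2 + ι (ph w e) * D ^ 3 := by
    have h11 := hD.ld.D11
    linear_combination (ι (ph w b) + ι (ph w c) * D + ι (ph w d) * D ^ 2 + ι (ph w e) * D ^ 3) * h11
  have e4 : D ^ 7 * (ι (ph w a) + ι (ph w b) * D + ι (ph w c) * D ^ 2 + ι (ph w d) * D ^ 3 + ι (ph w e) * D ^ 4) =
      ι (ph w a) * D ^ 7 + ι (ph w b) * D ^ 8 + ι (ph w c) * D ^ 9 + ι (ph w d) * D ^ 10 + ι (ph w e) := by
    have h11 := hD.ld.D11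
    linear_combination (ι (ph w e)) * h11
  rw [e3, e4]
  simp only [map_add ρ, map_mul ρ, hD.sc, smul_mul_assoc, one_mul, Matrix.add_mulVec, Matrix.smul_mulVec, Matrix.one_mulVec,
    hs.add_left, hs.smul_left, g0, g1, g2, g3, g4, g5, g6, g7, g8, g9, g10, ph_ad hF, ph_ml hF hw, ph_w1, ph_w2]
  generalize ph w a = A
  generalize ph w b = B
  generalize ph w c = C
  generalize ph w d = E
  generalize ph w e = G
  have k1 : (1 + w) ^ 2 = w := by linear_combination hw + (1 + w) * h2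
  have k2 : w * w = 1 + w := by linear_combination hw
  have k3 : w * (1 + w) = 1 := by linear_combination hw + w * h2
  rw [k1]
  linear_combination (B + G) * hw + (2 * B * w + w * G + A * w + A * w ^ 2 + w * E + w ^ 2 * C + w ^ 2 * E) * h2

omit hL hs hτ in
theorem pL_u1 (v : Fin 5 → F) : u1 ρ w D v = ρ (pL ι w D (false, false) (false, false) (false, false) (true, false) w2) *ᵥ v := by
  unfold u1 pL
  simp only [ph_00, ph_10, ph_w2, map_zero, map_one, map_add ρ, map_mul ρ, hD.sc, smul_mul_assoc, one_mul, zero_mul, Matrix.add_mulVec,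
    Matrix.smul_mulVec, Matrix.zero_mulVec, zero_add]

omit hL hs hτ in
theorem pL_u2 (v : Fin 5 → F) : u2 ρ w D v = ρ (pL ι w D (true, false) w2 (false, false) (false, false) w2) *ᵥ v := by
  unfold u2 pL
  simp only [ph_00, ph_10, ph_w2, map_zero, map_one, map_add ρ, map_mul ρ, hD.sc, smul_mul_assoc, one_mul, zero_mul, Matrix.add_mulVec,
    Matrix.smul_mulVec, Matrix.zero_mulVec, Matrix.one_mulVec, add_zero]

end basic

theorem nonmax5 [Fintype F] (hF : Fintype.card F = 2 ^ 2) {K : Subalgebra F (Matrix (Fin 5) (Fin 5) F)}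
    (hK : IsFieldSubalgebra 5 K) (hadj : IsAdjointClosedFor (Cfsg.hermForm 5 F 2) K) :
    ∃ M : Subgroup (GL (Fin 5) F), subalgebraNormalizer K ⊓ SUg 5 F 2 < M ∧ M < SUg 5 F 2 := by
  have hs := sfm_herm (n := 5) hF
  have hτ : ∀ x, fq hF x = x ^ 2 := fun x => fq_apply hF x
  have h1 : ∃ x, Cfsg.hermForm 5 F 2 x x = 1 := by
    refine ⟨Pi.single 0 1, ?_⟩
    rw [herm_single hF, Pi.single_eq_same, map_one, mul_one]
  obtain ⟨L, _, _, ι, ρ, w, D, hL, hKρ, hD⟩ := exists_OD hF hs hτ h1 hK hadj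
  obtain ⟨f, hf⟩ : ∃ f, f = Cfsg.hermForm 5 F 2 := ⟨_, rfl⟩
  rw [← hf] at hs h1 hD
  obtain ⟨v, hv⟩ := exists_v hF hL hs hτ hD h1
  have hld := hD.ld
  have hw := hld.om
  have h2 := char2 hF
  have hv0 : v ≠ 0 := by
    rintro rfl
    have h3 := f_v hF hL hs hτ hD hv 1
    rw [hs.zero_right, map_zero, Tr_one hF hld] at h3
    exact zero_ne_one h3
  have hvinj : ∀ a b : L, ρ a *ᵥ v = ρ b *ᵥ v → a = b := by
    intro a b hab
    have h3 : ρ (a - b) *ᵥ v = 0 := by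
      rw [map_sub, Matrix.sub_mulVec]
      exact sub_eq_zero.2 hab
    exact sub_eq_zero.1 (rinj5 hv0 h3)
  have hU1 := pL_u1 hF hD v
  have hU2 := pL_u2 hF hD v
  -- values between the centres
  have f11 : f (u1 ρ w D v) (u1 ρ w D v) = 0 := by
    have h3 := f_u1 hF hL hs hτ hD hv (false, false) (false, false) (false, false) (true, false) w2
    rw [← hU1] at h3
    have : fa (false, false) (false, false) = (false, false) := by decide
    rw [h3, this, ph_00]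
  have f21 : f (u2 ρ w D v) (u1 ρ w D v) = 0 := by
    rw [hU2, f_u1 hF hL hs hτ hD hv]
    have : fa (true, false) w2 = (false, false) := by decide
    rw [this, ph_00]
  have f22 : f (u2 ρ w D v) (u2 ρ w D v) = 0 := by
    have h3 := f_u2 hF hL hs hτ hD hv (true, false) w2 (false, false) (false, false) w2
    rw [← hU2] at h3
    have : fb (true, false) w2 (false, false) (false, false) w2 = (false, false) := by decide
    rw [h3, this, ph_00]
  have f12 : f (u1 ρ w D v) (u2 ρ w D v) = 0 := hs.comm_zero f21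
  have n1 : u1 ρ w D v ≠ 0 := by
    intro h0
    rw [hU1] at h0
    have h3 := rinj5 hv0 h0
    have h4 : pL ι w D (false, false) (false, false) (false, false) (true, false) w2 =
        pL ι w D (false, false) (false, false) (false, false) (false, false) (false, false) := by
      rw [h3]; simp [pL, ph_00]
    exact absurd (pL_inj hF hld h4).2.2.2.1 (by decide)
  have n2 : u2 ρ w D v ≠ 0 := by
    intro h0
    rw [hU2] at h0
    have h3 := rinj5 hv0 h0
    have h4 : pL ι w D (true, false) w2 (false, false) (false, false) w2 =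
        pL ι w D (false, false) (false, false) (false, false) (false, false) (false, false) := by
      rw [h3]; simp [pL, ph_00]
    exact absurd (pL_inj hF hld h4).1 (by decide)
  obtain ⟨t1, ht1, ht1x⟩ := exists_tv hF n1 (hf ▸ f11)
  obtain ⟨t2, ht2, ht2x⟩ := exists_tv hF n2 (hf ▸ f22)
  rw [← hf] at ht1x ht2x
  have htx : ∀ x, ((t1 * t2 : GL (Fin 5) F) : Matrix (Fin 5) (Fin 5) F) *ᵥ x =
      x + f x (u1 ρ w D v) • u1 ρ w D v + f x (u2 ρ w D v) • u2 ρ w D v := by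
    intro x
    rw [Units.val_mul, ← Matrix.mulVec_mulVec, ht2x, ht1x, hs.add_left, hs.smul_left, f21, mul_zero, add_zero]
    abel
  have htt : ∀ x, ((t1 * t2 : GL (Fin 5) F) : Matrix (Fin 5) (Fin 5) F) *ᵥ
      (((t1 * t2 : GL (Fin 5) F) : Matrix (Fin 5) (Fin 5) F) *ᵥ x) = x := by
    intro x
    rw [htx x, htx, hs.add_left, hs.add_left, hs.add_left, hs.add_left, hs.smul_left, hs.smul_left, hs.smul_left, hs.smul_left,
      f11, f21, f12, f22, mul_zero, mul_zero, add_zero, add_zero]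
    have hc : ∀ z : Fin 5 → F, z + z = 0 := by
      intro z
      funext i
      exact addself hF (z i)
    have e1 := hc (f x (u1 ρ w D v) • u1 ρ w D v)
    have e2 := hc (f x (u2 ρ w D v) • u2 ρ w D v)
    calc x + f x (u1 ρ w D v) • u1 ρ w D v + f x (u2 ρ w D v) • u2 ρ w D v + _ + _
        = x + (f x (u1 ρ w D v) • u1 ρ w D v + f x (u1 ρ w D v) • u1 ρ w D v) +
          (f x (u2 ρ w D v) • u2 ρ w D v + f x (u2 ρ w D v) • u2 ρ w D v) := by
            simp only [mul_zero, add_zero]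
            abel
      _ = x := by rw [e1, e2, add_zero, add_zero]
  -- action of the involution on codes
  have htc : ∀ a b c d e, ((t1 * t2 : GL (Fin 5) F) : Matrix (Fin 5) (Fin 5) F) *ᵥ (ρ (pL ι w D a b c d e) *ᵥ v) =
      ρ (pL ι w D (ad a (fb a b c d e)) (ad b (ml w2 (fb a b c d e))) c (ad d (fa a b))
      (ad (ad e (ml w2 (fa a b))) (ml w2 (fb a b c d e)))) *ᵥ v := by
    intro a b c d e
    rw [htx, f_u1 hF hL hs hτ hD hv, f_u2 hF hL hs hτ hD hv, hU1, hU2]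
    have h3 : ∀ (c : F) (l : L) (y : Fin 5 → F), c • (ρ l *ᵥ y) = ρ (ι c * l) *ᵥ y := by
      intro c l y
      rw [map_mul, hD.sc, smul_mul_assoc, one_mul, Matrix.smul_mulVec]
    rw [h3, h3, ← Matrix.add_mulVec, ← Matrix.add_mulVec, ← map_add, ← map_add]
    congr 2
    unfold pL
    simp only [ph_00, ph_10, ph_ad hF, ph_ml hF hw, ph_w2, map_zero, map_one, map_add ι, map_mul ι]
    ring
  have ht : t1 * t2 ∈ SUg 5 F 2 := Subgroup.mul_mem _ ht1 ht2
  refine nonmax_set {x | ∃ l, PL ι w D l ∧ x = ρ l *ᵥ v} inf_le_right ?_ ht ?_ ?_ htt ht1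
    (x := ρ (pL ι w D (false, false) w1 (false, false) (false, false) (false, false)) *ᵥ v) ?_ ?_
  · rintro g hg x ⟨l, hl, rfl⟩
    obtain ⟨hgK, hgS⟩ := Subgroup.mem_inf.1 hg
    obtain ⟨σ, hσ⟩ := exists_sig5 hKρ hgK
    have hiso : ∀ x y, f ((g : Matrix (Fin 5) (Fin 5) F) *ᵥ x) ((g : Matrix (Fin 5) (Fin 5) F) *ᵥ y) = f x y := by
      rw [hf]
      exact fx_GU g (Subgroup.mem_inf.1 hgS).1
    have hgg : (g : Matrix (Fin 5) (Fin 5) F) * ((g⁻¹ : GL (Fin 5) F) : Matrix (Fin 5) (Fin 5) F) = 1 := by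
      rw [← Units.val_mul, mul_inv_cancel, Units.val_one]
    have hc := sig_c5 hF hL hs hτ hD hgg hσ
    obtain ⟨k, hk⟩ := surj5 hF hL hs hτ hD hv0 ((g : Matrix (Fin 5) (Fin 5) F) *ᵥ v)
    have hk33 := k_eq hF hL hs hτ hD hiso hσ hc hv hk
    obtain ⟨c, n, hc0, hkc⟩ := k33 hF hld hk33
    refine ⟨σ l * k, ?_, ?_⟩
    · have h3 : σ l * k = ι c * (D ^ n * σ l) := by rw [hkc]; ring
      rw [h3]
      exact PL_c hF hld (PL_Dn hF hld (PL_sig hF hld hL hc hl) n) hc0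
    · rw [hσ, hk, rmul]
  · intro htH
    obtain ⟨hgK, -⟩ := Subgroup.mem_inf.1 htH
    obtain ⟨σ, hσ⟩ := exists_sig5 hKρ hgK
    have hgg : ((t1 * t2 : GL (Fin 5) F) : Matrix (Fin 5) (Fin 5) F) * (((t1 * t2)⁻¹ : GL (Fin 5) F) : Matrix (Fin 5) (Fin 5) F) = 1 := by
      rw [← Units.val_mul, mul_inv_cancel, Units.val_one]
    have hc := sig_c5 hF hL hs hτ hD hgg hσ
    have hinj := RingHom.injective ρ
    have hσσ : ∀ l, σ (σ l) = l := by
      intro l
      have h3 := htt (ρ l *ᵥ v)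
      rw [hσ, hσ, htt v] at h3
      exact hvinj _ _ h3
    have hp := prim hld.D1 hld.D11
    have hm := hmod hld
    have hσD : σ D = D := by
      have h3 := hσσ D
      rcases sig_j hF hld hc with h4 | h4 | h4 | h4 | h4
      · exact h4
      all_goals
        exfalso
        rw [h4, map_pow, h4, ← pow_mul] at h3
        norm_num at h3
      · rw [show D ^ 16 = D ^ 5 from hm 5 1] at h3
        exact absurd (hp.pow_inj (i := 5) (j := 1) (by norm_num) (by norm_num) (by rw [pow_one]; exact h3)) (by norm_num)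
      · rw [show D ^ 25 = D ^ 3 from hm 3 2] at h3
        exact absurd (hp.pow_inj (i := 3) (j := 1) (by norm_num) (by norm_num) (by rw [pow_one]; exact h3)) (by norm_num)
      · rw [show D ^ 81 = D ^ 4 from hm 4 7] at h3
        exact absurd (hp.pow_inj (i := 4) (j := 1) (by norm_num) (by norm_num) (by rw [pow_one]; exact h3)) (by norm_num)
      · exact absurd (hp.pow_inj (i := 9) (j := 1) (by norm_num) (by norm_num) (by rw [pow_one]; exact h3)) (by norm_num)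
    have hid : ∀ l, σ l = l := fun l => hom_ext hF hld hL hc (s2 := RingHom.id L) (fun _ => rfl) hσD l
    obtain ⟨k, hk⟩ := surj5 hF hL hs hτ hD hv0 (((t1 * t2 : GL (Fin 5) F) : Matrix (Fin 5) (Fin 5) F) *ᵥ v)
    have hk2 : k * k = 1 := by
      apply hvinj
      rw [← rmul, ← hk, map_one, Matrix.one_mulVec]
      have h3 := hσ k v
      rw [hid] at h3
      rw [← h3, ← hk, htt]
    have hk1 : k = 1 := by
      have h3 := L2' hF ι
      have h4 : (k - 1) * (k - 1) = 0 := by linear_combination hk2 - (k - 1) * h3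
      rcases mul_eq_zero.1 h4 with h5 | h5 <;> exact sub_eq_zero.1 h5
    have h3 := htc (true, false) (false, false) (false, false) (false, false) (false, false)
    have h4 : pL ι w D (true, false) (false, false) (false, false) (false, false) (false, false) = 1 := by
      simp [pL, ph_00, ph_10]
    have h5 : ((t1 * t2 : GL (Fin 5) F) : Matrix (Fin 5) (Fin 5) F) *ᵥ v = v := by rw [hk, hk1, map_one, Matrix.one_mulVec]
    rw [h4, map_one, Matrix.one_mulVec, h5] at h3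
    have h6 := h4.trans (hvinj 1 _ ((by rw [map_one, Matrix.one_mulVec] : ρ (1 : L) *ᵥ v = v).trans h3))
    exact absurd (pL_inj hF hld h6).1 (by decide)
  · rintro x ⟨l, ⟨a, b, c, d, e, rfl, h⟩, rfl⟩
    exact ⟨_, ⟨_, _, _, _, _, rfl, sT h⟩, htc a b c d e⟩
  · exact ⟨_, ⟨_, _, _, _, _, rfl, sX⟩, rfl⟩
  · rintro ⟨l, ⟨a, b, c, d, e, rfl, h⟩, hl⟩
    rw [ht1x, f_u1 hF hL hs hτ hD hv, hU1] at hl
    have h3 : ∀ (c : F) (l : L) (y : Fin 5 → F), c • (ρ l *ᵥ y) = ρ (ι c * l) *ᵥ y := by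
      intro c l y
      rw [map_mul, hD.sc, smul_mul_assoc, one_mul, Matrix.smul_mulVec]
    have e1 : fa (false, false) w1 = (true, false) := by decide
    rw [e1, ph_10, one_smul, ← Matrix.add_mulVec, ← map_add] at hl
    have h4 := hvinj _ _ hl
    have h5 : pL ι w D (false, false) w1 (false, false) (false, false) (false, false) +
        pL ι w D (false, false) (false, false) (false, false) (true, false) w2 =
        pL ι w D (false, false) w1 (false, false) (true, false) w2 := by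
      unfold pL
      simp only [ph_00, map_zero, zero_mul, add_zero, zero_add]
      ring
    rw [h5] at h4
    obtain ⟨q1, q2, q3, q4, q5⟩ := pL_inj hF hld h4
    rw [← q1, ← q2, ← q3, ← q4, ← q5, sY] at h
    exact absurd h (by decide)

end Cfsg.Agent.H29.Ut
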