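import Mathlib
import Cfsg.Agent.H29_Wr8

set_option autoImplicit false

/-! maximal subgroups of four-dimensional special unitary groups: the general part -/

namespace Cfsg.Agent.H29.Fm

open Matrix Module Cfsg.Geo Cfsg.Agent.H29.Clifford Cfsg.Agent.H29.Asc Cfsg.Agent.H29.AscF Cfsg.Agent.H29.Trv
  Cfsg.Agent.H29.AscT
open scoped commutatorElement Kronecker

variable {F : Type*} [Field F] {n k m r t w : ℕ}

section nn
variable {τ : F ≃+* F} {ε : F} {f : (Fin n → F) → (Fin n → F) → F}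
variable {X : Subgroup (GL (Fin n) F)}

theorem finrank_span_singleton_le (v : Fin n → F) : finrank F (Submodule.span F ({v} : Set (Fin n → F))) ≤ 1 := by
  by_cases hv : v = 0
  · rw [hv, Submodule.span_singleton_eq_bot.2 rfl, finrank_bot]
    exact Nat.zero_le _
  · rw [finrank_span_singleton hv]

/-- groups of symplectic type -/
theorem not_le_norm' (hn : 4 ≤ n) (h : SFm τ ε f) (hX : TV f X) (hS : SPN f) {R : Subgroup (GL (Fin n) F)}
    (henv : env R = ⊤) (hcomm : ∀ x ∈ R, ∀ y ∈ R, ⁅x, y⁆ ∈ scalars (Fin n) F) : ¬ X ≤ subgroupNormalizer R := by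
  intro hle
  have hn0 : 0 < n := by omega
  haveI : Nonempty (Fin n) := ⟨⟨0, hn0⟩⟩
  obtain ⟨v, hv, hvv⟩ := exists_iso hn0 hS
  obtain ⟨a, ha, g, hg, hgx⟩ := hX v hv hvv
  have hgfix : ∀ x, f x v = 0 → (g : Matrix (Fin n) (Fin n) F) *ᵥ x = x := by
    intro x hx
    rw [hgx, hx, mul_zero, zero_smul, add_zero]
  have hgfix' : ∀ x, f x v = 0 → ((g⁻¹ : GL (Fin n) F) : Matrix (Fin n) (Fin n) F) *ᵥ x = x := by
    intro x hx
    conv_lhs => rw [← hgfix x hx]
    exact inv_mulVec_self g x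
  have hgR : ∀ x ∈ R, g * x * g⁻¹ ∈ R := fun x hx => ((Subgroup.mem_normalizer_iff.1 (hle hg)) x).1 hx
  have hcen : ∀ x ∈ R, g * x = x * g := by
    intro x hx
    set y := g * x * g⁻¹ * x⁻¹ with hy
    have hyR : y ∈ R := R.mul_mem (hgR x hx) (R.inv_mem hx)
    let E : Submodule F (Fin n → F) := LinearMap.ker (fn h v) ⊓ LinearMap.ker ((fn h v).comp (lin x⁻¹))
    have hEfix : ∀ u ∈ E, (y : Matrix (Fin n) (Fin n) F) *ᵥ u = u := by
      rintro u ⟨hu1, hu2⟩
      have e1 : f u v = 0 := hu1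
      have e2 : f (((x⁻¹ : GL (Fin n) F) : Matrix (Fin n) (Fin n) F) *ᵥ u) v = 0 := hu2
      rw [hy, Units.val_mul, Units.val_mul, Units.val_mul, ← Matrix.mulVec_mulVec, ← Matrix.mulVec_mulVec,
        ← Matrix.mulVec_mulVec, hgfix' _ e2, self_inv_mulVec, hgfix _ e1]
    have hEdim : n ≤ finrank F E + 2 := by
      have h1 := Submodule.finrank_sup_add_finrank_inf_eq (LinearMap.ker (fn h v)) (LinearMap.ker ((fn h v).comp (lin x⁻¹)))
      have h2 : ∀ φ : (Fin n → F) →ₗ[F] F, n ≤ finrank F (LinearMap.ker φ) + 1 := by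
        intro φ
        have h3 := LinearMap.finrank_range_add_finrank_ker φ
        have h4 : finrank F (LinearMap.range φ) ≤ 1 := by
          have := Submodule.finrank_le (LinearMap.range φ)
          simpa using this
        rw [Module.finrank_fintype_fun_eq_card, Fintype.card_fin] at h3
        omega
      have h5 := h2 (fn h v)
      have h6 := h2 ((fn h v).comp (lin x⁻¹))
      have h7 : finrank F ↥(LinearMap.ker (fn h v) ⊔ LinearMap.ker ((fn h v).comp (lin x⁻¹))) ≤ n := by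
        have := Submodule.finrank_le (LinearMap.ker (fn h v) ⊔ LinearMap.ker ((fn h v).comp (lin x⁻¹)))
        rwa [Module.finrank_fintype_fun_eq_card, Fintype.card_fin] at this
      show n ≤ finrank F ↥(LinearMap.ker (fn h v) ⊓ LinearMap.ker ((fn h v).comp (lin x⁻¹))) + 2
      omega
    have hysc : y ∈ scalars (Fin n) F := by
      by_contra hys
      obtain ⟨w, hw, hwy⟩ : ∃ w ∈ R, y * w ≠ w * y := by
        by_contra hc
        push Not at hc
        exact hys (scalar_of_commute hn0 henv hc)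
      obtain ⟨c, hc⟩ := mem_scalars.1 (hcomm y hyR w hw)
      have hc1 : c ≠ 1 := by
        rintro rfl
        rw [map_one] at hc
        apply hwy
        have := hc.symm
        rwa [commutatorElement_eq_one_iff_mul_comm] at this
      have hyw : ∀ u ∈ E, (y : Matrix (Fin n) (Fin n) F) *ᵥ ((w : Matrix (Fin n) (Fin n) F) *ᵥ u) =
          (c : F) • ((w : Matrix (Fin n) (Fin n) F) *ᵥ u) := by
        intro u hu
        have h8 : y * w = sc n F c * (w * y) := by
          rw [hc, commutatorElement_def]; group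
        rw [Matrix.mulVec_mulVec, ← Units.val_mul, h8, Units.val_mul, sc_coe, Matrix.smul_mul, one_mul,
          Matrix.smul_mulVec, Units.val_mul, ← Matrix.mulVec_mulVec, hEfix u hu]
      let E' : Submodule F (Fin n → F) := E.map (lin w)
      have hdisj : E ⊓ E' = ⊥ := by
        rw [eq_bot_iff]
        rintro u ⟨hu1, ⟨u', hu', rfl⟩⟩
        rw [Submodule.mem_bot]
        have h9 := hEfix _ hu1
        rw [lin_apply, hyw u' hu'] at h9
        have h10 : ((c : F) - 1) • ((w : Matrix (Fin n) (Fin n) F) *ᵥ u') = 0 := by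
          rw [sub_smul, one_smul, h9, sub_self]
        rw [lin_apply]
        refine (smul_eq_zero.1 h10).resolve_left ?_
        intro h11
        exact hc1 (Units.ext (sub_eq_zero.1 h11))
      have hE'dim : finrank F E' = finrank F E := by
        have hinj : Function.Injective (lin w) := fun a b hab => mulVec_inj (g := w) hab
        exact (Submodule.equivMapOfInjective (lin w) hinj E).finrank_eq.symm
      have h12 := Submodule.finrank_sup_add_finrank_inf_eq E E'
      rw [hdisj, finrank_bot, hE'dim] at h12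
      have h13 : finrank F ↥(E ⊔ E') ≤ n := by
        have := Submodule.finrank_le (E ⊔ E')
        rwa [Module.finrank_fintype_fun_eq_card, Fintype.card_fin] at this
      -- the image of `y - 1`
      set v' : Fin n → F := (x : Matrix (Fin n) (Fin n) F) *ᵥ v with hv'
      have hyv' : (y : Matrix (Fin n) (Fin n) F) *ᵥ v' = (g : Matrix (Fin n) (Fin n) F) *ᵥ v' := by
        rw [hy, Units.val_mul, Units.val_mul, Units.val_mul, ← Matrix.mulVec_mulVec, ← Matrix.mulVec_mulVec,
          ← Matrix.mulVec_mulVec, hv', inv_mulVec_self, hgfix' _ hvv]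
      have hginv : ∀ z, ∃ b : F, ((g⁻¹ : GL (Fin n) F) : Matrix (Fin n) (Fin n) F) *ᵥ z = z + b • v := by
        intro z
        refine ⟨-(a * f (((g⁻¹ : GL (Fin n) F) : Matrix (Fin n) (Fin n) F) *ᵥ z) v), ?_⟩
        have e1 := hgx (((g⁻¹ : GL (Fin n) F) : Matrix (Fin n) (Fin n) F) *ᵥ z)
        rw [self_inv_mulVec] at e1
        rw [neg_smul, ← sub_eq_add_neg, eq_sub_iff_add_eq]
        exact e1.symm
      have himg : ∀ z, ∃ b b' : F, (y : Matrix (Fin n) (Fin n) F) *ᵥ z = z + b • v + b' • v' := by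
        intro z
        obtain ⟨b, hb⟩ := hginv (((x⁻¹ : GL (Fin n) F) : Matrix (Fin n) (Fin n) F) *ᵥ z)
        refine ⟨a * f (z + b • v') v, b, ?_⟩
        rw [hy, Units.val_mul, Units.val_mul, Units.val_mul, ← Matrix.mulVec_mulVec, ← Matrix.mulVec_mulVec,
          ← Matrix.mulVec_mulVec, hb, Matrix.mulVec_add, Matrix.mulVec_smul, self_inv_mulVec, ← hv', hgx]
        abel
      have hE'sub : ∀ u ∈ E, ((w : Matrix (Fin n) (Fin n) F) *ᵥ u) ∈ Submodule.span F ({v, v'} : Set (Fin n → F)) := by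
        intro u hu
        obtain ⟨b, b', e1⟩ := himg ((w : Matrix (Fin n) (Fin n) F) *ᵥ u)
        rw [hyw u hu] at e1
        have e2 : ((c : F) - 1) • ((w : Matrix (Fin n) (Fin n) F) *ᵥ u) = b • v + b' • v' := by
          rw [sub_smul, one_smul, e1]
          abel
        have e3 : ((c : F) - 1) ≠ 0 := fun h => hc1 (Units.ext (sub_eq_zero.1 h))
        have e4 : (w : Matrix (Fin n) (Fin n) F) *ᵥ u = ((c : F) - 1)⁻¹ • (b • v + b' • v') := by
          rw [← e2, smul_smul, inv_mul_cancel₀ e3, one_smul]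
        rw [e4]
        refine Submodule.smul_mem _ _ (Submodule.add_mem _ (Submodule.smul_mem _ _ (Submodule.subset_span (by simp)))
          (Submodule.smul_mem _ _ (Submodule.subset_span (by simp))))
      have hle' : E' ≤ Submodule.span F ({v, v'} : Set (Fin n → F)) := by
        rintro _ ⟨u, hu, rfl⟩
        rw [lin_apply]
        exact hE'sub u hu
      have hspan : finrank F (Submodule.span F ({v, v'} : Set (Fin n → F))) ≤ 2 := by
        classical
        have e1 := finrank_span_finset_le_card (R := F) ({v, v'} : Finset (Fin n → F))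
        have e2 : ({v, v'} : Finset (Fin n → F)).card ≤ 2 := Finset.card_le_two
        rw [Set.finrank] at e1
        have e3 : ((({v, v'} : Finset (Fin n → F)) : Set (Fin n → F))) = {v, v'} := by simp
        rw [e3] at e1
        omega
      have hEq : E' = Submodule.span F ({v, v'} : Set (Fin n → F)) := by
        apply Submodule.eq_of_le_of_finrank_le hle'
        omega
      have hv'E : v' ∈ E' := by
        rw [hEq]
        exact Submodule.subset_span (by simp)
      obtain ⟨u, hu, huv⟩ := hv'E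
      have e5 := hyw u hu
      rw [lin_apply] at huv
      rw [huv, hyv', hgx] at e5
      -- `v'` is a multiple of `v`
      have e6 : ((c : F) - 1) • v' = (a * f v' v) • v := by
        rw [sub_smul, one_smul, ← e5]
        abel
      have e3 : ((c : F) - 1) ≠ 0 := fun h => hc1 (Units.ext (sub_eq_zero.1 h))
      have e7 : v' = (((c : F) - 1)⁻¹ * (a * f v' v)) • v := by
        rw [← smul_smul, ← e6, smul_smul, inv_mul_cancel₀ e3, one_smul]
      have hsub1 : Submodule.span F ({v, v'} : Set (Fin n → F)) ≤ Submodule.span F {v} := by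
        rw [Submodule.span_le]
        intro z hz
        simp only [Set.mem_insert_iff, Set.mem_singleton_iff] at hz
        rcases hz with rfl | rfl
        · exact Submodule.mem_span_singleton_self _
        · rw [e7]
          exact Submodule.smul_mem _ _ (Submodule.mem_span_singleton_self _)
      have e8 := Submodule.finrank_mono hsub1
      have e9 : finrank F (Submodule.span F ({v} : Set (Fin n → F))) ≤ 1 := finrank_span_singleton_le v
      rw [← hEq, hE'dim] at e8
      omega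
    obtain ⟨c, hc⟩ := mem_scalars.1 hysc
    have hE0 : 0 < finrank F E := by omega
    have hE1 : E ≠ ⊥ := by
      intro h5
      rw [h5, finrank_bot] at hE0
      exact lt_irrefl _ hE0
    obtain ⟨u, hu, hu0'⟩ := (Submodule.ne_bot_iff _).1 hE1
    have h14 := hEfix u hu
    rw [← hc, sc_coe, Matrix.smul_mulVec, Matrix.one_mulVec] at h14
    have h15 : ((c : F) - 1) • u = 0 := by rw [sub_smul, one_smul, h14, sub_self]
    have hc1 : c = 1 := by
      apply Units.ext
      exact sub_eq_zero.1 ((smul_eq_zero.1 h15).resolve_right hu0')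
    rw [hc1, map_one] at hc
    have h16 : g * x * g⁻¹ * x⁻¹ = 1 := by rw [← hy, ← hc]
    calc g * x = (g * x * g⁻¹ * x⁻¹) * (x * g) := by group
      _ = x * g := by rw [h16, one_mul]
  have hgs := scalar_of_commute hn0 henv hcen
  obtain ⟨c, hc⟩ := mem_scalars.1 hgs
  have h1 := hgx v
  rw [hvv, mul_zero, zero_smul, add_zero, ← hc, sc_coe, Matrix.smul_mulVec, Matrix.one_mulVec] at h1
  have hc1 : c = 1 := by
    have h15 : ((c : F) - 1) • v = 0 := by rw [sub_smul, one_smul, h1, sub_self]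
    apply Units.ext
    exact sub_eq_zero.1 ((smul_eq_zero.1 h15).resolve_right hv)
  obtain ⟨x, hx⟩ := h.nd v hv
  have h2 := hgx x
  rw [← hc, hc1, map_one, Units.val_one, Matrix.one_mulVec] at h2
  have h3 : (a * f x v) • v = 0 := by
    have := left_eq_add.1 h2
    exact this
  rcases smul_eq_zero.1 h3 with h4 | h4
  · exact mul_ne_zero ha hx h4
  · exact hv h4


end nn

theorem SUmax4 [Fintype F] {q : ℕ} (hF : Fintype.card F = q ^ 2) (hn : 4 ≤ n) {H : Subgroup (GL (Fin n) F)} (hH : IsMaximalIn (SUg n F q) H) :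
    (∃ W : Submodule F (Fin n → F), W ≠ ⊥ ∧ IsTotallySingularFor (Cfsg.hermForm n F q) W ∧
      H = subspaceStabilizer W ⊓ SUg n F q) ∨
    (∃ W : Submodule F (Fin n → F), W ≠ ⊥ ∧ IsNondegenerateOn (Cfsg.hermForm n F q) W ∧ 2 * finrank F W < n ∧
      H = subspaceStabilizer W ⊓ SUg n F q) ∨
    (∃ (t m : ℕ) (D : Fin t → Submodule F (Fin n → F)), t * m = n ∧ 2 ≤ t ∧ ¬ (m = 2 ∧ q = 2) ∧
      IsNondegenerateMDecomposition (Cfsg.hermForm n F q) m D ∧ H = decompositionStabilizer D ⊓ SUg n F q) ∨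
    (∃ (m : ℕ) (D : Fin 2 → Submodule F (Fin n → F)), 2 * m = n ∧ IsMDecomposition m D ∧
      (∀ i, IsTotallySingularFor (Cfsg.hermForm n F q) (D i)) ∧ H = decompositionStabilizer D ⊓ SUg n F q) ∨
    (∃ (r : ℕ) (K : Subalgebra F (Matrix (Fin n) (Fin n) F)), r.Prime ∧ Odd r ∧ r ∣ n ∧ IsFieldSubalgebra r K ∧
      IsAdjointClosedFor (Cfsg.hermForm n F q) K ∧ H = subalgebraNormalizer K ⊓ SUg n F q) ∨
    (∃ (n₁ n₂ : ℕ) (e : Fin n ≃ Fin n₁ × Fin n₂) (P : GL (Fin n) F) (f₁ : (Fin n₁ → F) → (Fin n₁ → F) → F)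
      (f₂ : (Fin n₂ → F) → (Fin n₂ → F) → F), 2 ≤ n₁ ∧ n₁ < n₂ ∧ n₁ * n₂ = n ∧ ¬ (n₁ = 2 ∧ q = 2) ∧
      IsUnitaryFormPow q f₁ ∧ IsUnitaryFormPow q f₂ ∧
      IsTensorFormStructure (fun x : F => x ^ q) (Cfsg.hermForm n F q) f₁ f₂ e P ∧
      H = tensorProductSubgroup n₁ n₂ e P ⊓ SUg n F q) ∨
    (∃ (F₀ : Subfield F) (r : ℕ) (P : GL (Fin n) F), r.Prime ∧ Odd r ∧ Fintype.card F = Nat.card F₀ ^ r ∧
      IsFormRationalStructure (Cfsg.hermForm n F q) F₀ 1 P ∧ H = subfieldSubgroup F₀ P ⊓ SUg n F q) ∨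
    (Odd q ∧ ∃ (F₀ : Subfield F) (P : GL (Fin n) F), Fintype.card F = Nat.card F₀ ^ 2 ∧
      IsFormRationalStructure (Cfsg.hermForm n F q) F₀ 1 P ∧ H = subfieldSubgroup F₀ P ⊓ SUg n F q) ∨
    (Even n ∧ ∃ (F₀ : Subfield F) (P : GL (Fin n) F) (ζ : F), Fintype.card F = Nat.card F₀ ^ 2 ∧ ζ ≠ 0 ∧
      ζ + ζ ^ q = 0 ∧ IsFormRationalStructure (Cfsg.hermForm n F q) F₀ ζ P ∧
      (∀ u : Fin n → F, (∀ i, u i ∈ F₀) → (Cfsg.hermForm n F q) ((P : Matrix (Fin n) (Fin n) F) *ᵥ u)
        ((P : Matrix (Fin n) (Fin n) F) *ᵥ u) = 0) ∧ H = subfieldSubgroup F₀ P ⊓ SUg n F q) ∨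
    (∃ (r : ℕ) (R : Subgroup (GL (Fin n) F)) (p e k : ℕ), IsSymplecticTypeGroup r R ∧
      ActsAbsolutelyIrreducibly (matrixSet R) ∧ R ≤ similarityGroup (Cfsg.hermForm n F q) ∧ r ≠ p ∧
      IsMinimalFieldFor (Nat.card (Subgroup.center R)) p e F ∧
      ((Odd r ∧ Nat.card (Subgroup.center R) = r ∧ 1 ≤ k ∧ Nat.card R = r ^ (1 + 2 * k)) ∨
       (r = 2 ∧ e = 2 ∧ Nat.card (Subgroup.center R) = 4 ∧ Nat.card R = 2 ^ (2 + 2 * k))) ∧ n = r ^ k ∧
      H = subgroupNormalizer R ⊓ SUg n F q) ∨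
    (∃ (k t : ℕ) (e : Fin n ≃ (Fin t → Fin k)) (P : GL (Fin n) F) (f₁ : (Fin k → F) → (Fin k → F) → F),
      3 ≤ k ∧ 2 ≤ t ∧ n = k ^ t ∧ ¬ (q = 2 ∧ k = 3) ∧ IsUnitaryFormPow q f₁ ∧
      IsTensorPowerFormStructure (fun x : F => x ^ q) (Cfsg.hermForm n F q) f₁ e P ∧
      H = tensorWreathSubgroup k t e P ⊓ SUg n F q) ∨
    InUnitaryResidualClass H := by
  classical
  by_contra hcon
  push Not at hcon
  obtain ⟨c1, c2, c3, c4, c5, c6, c7, c8, c9, c10, c11, c12⟩ := hcon
  have hn0 : 0 < n := by omega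
  set f := Cfsg.hermForm n F q with hfdef
  have hf : SFm (fq hF) 1 f := sfm_herm hF
  have hTV : TV f (SUg n F q) := tv_su hF
  have hSP : SPN f := spn_su hF (by omega)
  have hne := fq_ne hF
  have hfqe : (fun x : F => x ^ q) = (fq hF : F → F) := by
    funext x
    rw [fq_apply]
  rw [hfqe] at c6 c11
  have hHX : H ≤ SUg n F q := hH.1.le
  have hfix : Fx f H := fun g hg => fx_GU g (hHX hg).1
  have hq1 := Cfsg.Agent.H5.Fld.one_lt_q hF
  have hq4 : q = 2 → Fintype.card F = 4 := by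
    intro h
    rw [hF, h]
    norm_num
  have hmax : ∀ M : Subgroup (GL (Fin n) F), H ≤ M → ¬ SUg n F q ≤ M → H = M ⊓ SUg n F q := fun M h1 h2 =>
    eq_of_max' hH h1 h2
  have htop : ∀ {W : Submodule F (Fin n → F)}, 2 * finrank F W < n → W ≠ ⊤ := by
    intro W hW h
    rw [h, finrank_top, Module.finrank_fintype_fun_eq_card, Fintype.card_fin] at hW
    omega
  -- non-degenerate decompositions
  have d3 : ∀ (t k : ℕ) (D : Fin t → Submodule F (Fin n → F)), IsNondegenerateMDecomposition f k D →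
      ¬ H ≤ decompositionStabilizer D := by
    have key : ∀ (t k : ℕ) (D : Fin t → Submodule F (Fin n → F)), IsNondegenerateMDecomposition f k D →
        ¬ (k = 2 ∧ q = 2) → ¬ H ≤ decompositionStabilizer D := by
      intro t k D hD hkq hle
      refine c3 t k D (dec_card hD.decomp) hD.decomp.two_le (fun h1 h2 => hkq ⟨h1, h2⟩) hD (hmax _ hle ?_)
      have hk := hD.decomp.pos
      rcases Nat.lt_or_ge k 2 with h1 | h1
      · obtain rfl : k = 1 := by omega
        refine not_le_frame hf hne hTV hD ?_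
        by_cases h2 : (2 : F) = 0
        · exact Or.inr ⟨by omega, h2⟩
        · refine Or.inl ⟨by omega, 1, map_one _, one_ne_zero, ?_⟩
          intro h3
          apply h2
          linear_combination h3
      · exact not_le_dec hf hTV hSP hD.decomp h1
    intro t k D hD hle
    by_cases hkq : k = 2 ∧ q = 2
    · obtain ⟨rfl, hq⟩ := hkq
      subst hq
      obtain ⟨D', hD', h⟩ := refine_two hf (hq4 rfl) (fq_apply hF) hne hD
      exact key _ _ D' hD' (by omega) (h H hfix hle)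
    · exact key t k D hD hkq hle
  have d4 : ∀ (k : ℕ) (D : Fin 2 → Submodule F (Fin n → F)), IsMDecomposition k D →
      (∀ i, IsTotallySingularFor f (D i)) → ¬ H ≤ decompositionStabilizer D := by
    intro k D hD hts hle
    have h1 := dec_card hD
    exact c4 k D h1 hD hts (hmax _ hle (not_le_dec hf hTV hSP hD (by omega)))
  have hng : NG (fq hF) 1 f H := by
    refine ⟨hf, hfix, ?_, ?_, d3, d4, ?_⟩
    · intro W h1 h2 hle
      refine c1 W h1 h2 (hmax _ hle (not_le_stab hf hTV hSP h1 ?_))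
      rintro rfl
      obtain ⟨v, hv⟩ : ∃ v : Fin n → F, v ≠ 0 := by
        refine ⟨Pi.single ⟨0, hn0⟩ 1, fun h => ?_⟩
        have := congrFun h ⟨0, hn0⟩
        rw [Pi.single_eq_same] at this
        exact one_ne_zero this
      obtain ⟨x, hx⟩ := hf.nd v hv
      exact hx (h2 x trivial v trivial)
    · intro W h1 h2 h3 hle
      exact c2 W h1 h2 h3 (hmax _ hle (not_le_stab hf hTV hSP h1 (htop h3)))
    · intro r K hr hodd hK hadj hle
      exact c5 r K hr (hodd hne) (fld_dvd hn0 hK) hK hadj (hmax _ hle (not_le_fld (by omega) hf hTV hSP hr.one_lt hK))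
  apply c12
  have s1 : ∀ (F₀ : Subfield F) (r : ℕ) (P : GL (Fin n) F), r.Prime → Odd r → Fintype.card F = Nat.card F₀ ^ r →
      IsFormRationalStructure f F₀ 1 P → ¬ H ≤ subfieldSubgroup F₀ P := by
    intro F₀ r P hr hodd hcard hrat hle
    exact c7 F₀ r P hr hodd hcard hrat (hmax _ hle (su_not_sub hF (by omega) (sub_ne_top hr.one_lt hcard) P))
  have s2 : ∀ (F₀ : Subfield F) (P : GL (Fin n) F), Odd q → Fintype.card F = Nat.card F₀ ^ 2 →
      IsFormRationalStructure f F₀ 1 P → ¬ H ≤ subfieldSubgroup F₀ P := by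
    intro F₀ P hodd hcard hrat hle
    exact c8 hodd F₀ P hcard hrat (hmax _ hle (su_not_sub hF (by omega) (sub_ne_top one_lt_two hcard) P))
  have s3 : ∀ (F₀ : Subfield F) (P : GL (Fin n) F) (ζ : F), Even n → Fintype.card F = Nat.card F₀ ^ 2 → ζ ≠ 0 →
      ζ + ζ ^ q = 0 → IsFormRationalStructure f F₀ ζ P →
      (∀ u : Fin n → F, (∀ i, u i ∈ F₀) → f ((P : Matrix (Fin n) (Fin n) F) *ᵥ u)
        ((P : Matrix (Fin n) (Fin n) F) *ᵥ u) = 0) → ¬ H ≤ subfieldSubgroup F₀ P := by
    intro F₀ P ζ hev hcard h0 h1 hrat h2 hle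
    exact c9 hev F₀ P ζ hcard h0 h1 hrat h2 (hmax _ hle (su_not_sub hF (by omega) (sub_ne_top one_lt_two hcard) P))
  have s4 : ∀ (r : ℕ) (R : Subgroup (GL (Fin n) F)) (p e k : ℕ), IsSymplecticTypeGroup r R →
        ActsAbsolutelyIrreducibly (matrixSet R) → R ≤ similarityGroup f → r ≠ p →
        IsMinimalFieldFor (Nat.card (Subgroup.center R)) p e F →
        ((Odd r ∧ Nat.card (Subgroup.center R) = r ∧ 1 ≤ k ∧ Nat.card R = r ^ (1 + 2 * k)) ∨
         (r = 2 ∧ e = 2 ∧ Nat.card (Subgroup.center R) = 4 ∧ Nat.card R = 2 ^ (2 + 2 * k))) → n = r ^ k →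
        env R = ⊤ → (∀ x ∈ R, ∀ y ∈ R, ⁅x, y⁆ ∈ scalars (Fin n) F) → ¬ H ≤ subgroupNormalizer R := by
    intro r R p e k h1 h2 h3 h4 h5 h6 h7 h8 h9 hle
    exact c10 r R p e k h1 h2 h3 h4 h5 h6 h7 (hmax _ hle (not_le_norm' hn hf hTV hSP h8 h9))
  apply NU.residual (q := q) (τ := fq hF) (f := f) (by omega)
  refine ⟨hng, hF, fq_apply hF, hne, ?_, ?_, ?_, ?_, ?_, ?_, ?_⟩
  · intro n₁ n₂ e P f₁ f₂ h1 h2 hf₁ hf₂ hst hle
    obtain ⟨c, hc, hform⟩ := hst
    obtain ⟨hA, hdA⟩ := upow_gram hF hf₁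
    obtain ⟨hB, hdB⟩ := upow_gram hF hf₂
    obtain ⟨Q, hQ, hQf⟩ := tens_orth hne hf.inv hA hB hdA hdB hform
    have hcard : n₁ * n₂ = n := by
      have := Fintype.card_congr e
      rw [Fintype.card_prod, Fintype.card_fin, Fintype.card_fin, Fintype.card_fin] at this
      exact this.symm
    by_cases hq : n₁ = 2 ∧ q = 2
    · obtain ⟨rfl, hq⟩ := hq
      subst hq
      obtain ⟨D, hD, h⟩ := tens_two hf (hq4 rfl) (fq_apply hF) (by omega) hc hQf
      exact d3 _ _ D hD (h H hfix (hle.trans hQ))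
    · refine c6 n₁ n₂ e P f₁ f₂ h1 h2 hcard (fun h h' => hq ⟨h, h'⟩) hf₁ hf₂ ⟨c, hc, hform⟩ (hmax _ hle ?_)
      intro h
      exact not_le_tens hf hne hTV h1 (by omega) hc hQf (h.trans hQ)
  · exact s1
  · exact s2
  · exact s3
  · exact s4
  · intro k t e P f₁ h1 h2 h3 hf₁ hst hle
    have hcard : n = k ^ t := by
      have := Fintype.card_congr e
      rw [Fintype.card_fin, Fintype.card_fun, Fintype.card_fin, Fintype.card_fin] at this
      exact this
    refine c11 k t e P f₁ h1 h2 hcard (fun h h' => h3 ⟨h, h'⟩) hf₁ hst (hmax _ hle ?_)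
    intro h
    obtain ⟨c, hc, hform⟩ := hst
    obtain ⟨hA, hdA⟩ := upow_gram hF hf₁
    obtain ⟨Q, hQ, hQf⟩ := wreath_orth hne hf.inv (B := fun _ => gramMatrix f₁) (fun _ => hA) (fun _ => hdA) hform
    refine not_le_wr hf hne hTV h1 h2 hc ?_ (h.trans hQ)
    intro x y
    rw [hQf]
    have hK1 : K (fun _ => (1 : Matrix (Fin k) (Fin k) F) : Fin t → Matrix (Fin k) (Fin k) F) = 1 := K_one
    rw [hK1]
  · intro hq
    subst hq
    exact wr23_of (by omega) hf hne hF (fq_apply hF) hfix s1 s2 s3 s4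


end Cfsg.Agent.H29.Fm
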