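import Mathlib
import Cfsg.Agent.H29_Vf1
import Cfsg.Agent.H29_Pq6
import Cfsg.Agent.H29_Us1

set_option autoImplicit false

/-! two totally isotropic planes in the four-dimensional unitary space -/

namespace Cfsg.Agent.H29.Vf

open Matrix Module Cfsg.Geo Cfsg.Agent.H29.Fm Cfsg.Agent.H29.Pq

variable {F : Type*} [Field F] {f : (Fin 4 → F) → (Fin 4 → F) → F} {τ : F ≃+* F}

/-- hyperbolic bases adapted to two planes -/
structure HB (f : (Fin 4 → F) → (Fin 4 → F) → F) (D₀ D₁ : Submodule F (Fin 4 → F)) (a b c d : Fin 4 → F) : Prop where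
  aa : f a a = 0
  ab : f a b = 0
  ba : f b a = 0
  bb : f b b = 0
  cc : f c c = 0
  cd : f c d = 0
  dc : f d c = 0
  dd : f d d = 0
  ac : f a c = 1
  bd : f b d = 1
  ad : f a d = 0
  bc : f b c = 0
  ca : f c a = 1
  db : f d b = 1
  da : f d a = 0
  cb : f c b = 0
  ma : a ∈ D₀
  mb : b ∈ D₀
  mc : c ∈ D₁
  md : d ∈ D₁
  s0 : ∀ x ∈ D₀, ∃ s t : F, x = s • a + t • b
  s1 : ∀ x ∈ D₁, ∃ s t : F, x = s • c + t • d
  ex : ∀ z, ∃ s t u v : F, z = s • a + t • b + u • c + v • d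

theorem exists_HB (hs : SFm τ 1 f) {D₀ D₁ : Submodule F (Fin 4 → F)} (h0 : IsTotallySingularFor f D₀)
    (h1 : IsTotallySingularFor f D₁) (hsup : D₀ ⊔ D₁ = ⊤) (hr0 : finrank F D₀ = 2) (hr1 : finrank F D₁ = 2) :
    ∃ a b c d, HB f D₀ D₁ a b c d := by
  have hdual : ∀ e ∈ D₀, e ≠ 0 → ∃ y ∈ D₁, f e y = 1 := by
    intro e he he0
    obtain ⟨z, hz⟩ := hs.nd' e he0
    have hzt : z ∈ D₀ ⊔ D₁ := by rw [hsup]; trivial
    obtain ⟨z0, hz0, z1, hz1, rfl⟩ := Submodule.mem_sup.1 hzt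
    rw [hs.add_right, h0 e he z0 hz0, zero_add] at hz
    exact ⟨τ (f e z1)⁻¹ • z1, D₁.smul_mem _ hz1, by rw [hs.smul_right, hs.inv, inv_mul_cancel₀ hz]⟩
  obtain ⟨e, he, he0⟩ : ∃ e ∈ D₀, e ≠ 0 := by
    obtain ⟨z, hz, hz'⟩ := exists_not_span (W := D₀) (by omega) 0
    exact ⟨z, hz, fun h => hz' (by rw [h]; exact Submodule.zero_mem _)⟩
  obtain ⟨f1, hf1, hef1⟩ := hdual e he he0
  obtain ⟨z, hz, hz'⟩ := exists_not_span (W := D₀) (by omega) e
  obtain ⟨e2, he2def⟩ : ∃ e2, e2 = z - f z f1 • e := ⟨_, rfl⟩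
  have he2 : e2 ∈ D₀ := by rw [he2def]; exact D₀.sub_mem hz (D₀.smul_mem _ he)
  have he20 : e2 ≠ 0 := by
    intro h
    apply hz'
    rw [Submodule.mem_span_singleton]
    rw [he2def] at h
    exact ⟨f z f1, (sub_eq_zero.1 h).symm⟩
  have he2f1 : f e2 f1 = 0 := by
    rw [he2def, hs.sub_left, hs.smul_left, hef1]; ring
  obtain ⟨f2', hf2', hf2''⟩ := hdual e2 he2 he20
  obtain ⟨f2, hf2def⟩ : ∃ f2, f2 = f2' - τ (f e f2') • f1 := ⟨_, rfl⟩
  have hf2 : f2 ∈ D₁ := by rw [hf2def]; exact D₁.sub_mem hf2' (D₁.smul_mem _ hf1)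
  have hef2 : f e f2 = 0 := by
    rw [hf2def, hs.sub_right, hs.smul_right, hef1, hs.inv]; ring
  have he2f2 : f e2 f2 = 1 := by
    rw [hf2def, hs.sub_right, hs.smul_right, he2f1, hf2'']; ring
  have hone : ∀ {x y}, f x y = 1 → f y x = 1 := by
    intro x y h
    rw [hs.herm, h, map_one, one_mul]
  have c0 := h0 e he e he
  have c1 := h0 e he e2 he2
  have c2 := h0 e2 he2 e he
  have c3 := h0 e2 he2 e2 he2
  have g0 := h1 f1 hf1 f1 hf1
  have g1 := h1 f1 hf1 f2 hf2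
  have g2 := h1 f2 hf2 f1 hf1
  have g3 := h1 f2 hf2 f2 hf2
  have hs0 : ∀ x ∈ D₀, ∃ s t : F, x = s • e + t • e2 := by
    apply span_two hr0 he he2
    intro s t hst
    constructor
    · have h5 := congrArg (fun x => f x f1) hst
      simp only [hs.add_left, hs.smul_left, hef1, he2f1, hs.zero_left] at h5
      linear_combination h5
    · have h5 := congrArg (fun x => f x f2) hst
      simp only [hs.add_left, hs.smul_left, hef2, he2f2, hs.zero_left] at h5
      linear_combination h5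
  have hs1 : ∀ x ∈ D₁, ∃ s t : F, x = s • f1 + t • f2 := by
    apply span_two hr1 hf1 hf2
    intro s t hst
    constructor
    · have h5 := congrArg (fun x => f x e) hst
      simp only [hs.add_left, hs.smul_left, hone hef1, hs.comm_zero hef2, hs.zero_left] at h5
      linear_combination h5
    · have h5 := congrArg (fun x => f x e2) hst
      simp only [hs.add_left, hs.smul_left, hs.comm_zero he2f1, hone he2f2, hs.zero_left] at h5
      linear_combination h5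
  refine ⟨e, e2, f1, f2, c0, c1, c2, c3, g0, g1, g2, g3, hef1, he2f2, hef2, he2f1, hone hef1, hone he2f2, hs.comm_zero hef2,
    hs.comm_zero he2f1, he, he2, hf1, hf2, hs0, hs1, ?_⟩
  intro z
  have hzt : z ∈ D₀ ⊔ D₁ := by rw [hsup]; trivial
  obtain ⟨z0, hz0, z1, hz1, rfl⟩ := Submodule.mem_sup.1 hzt
  obtain ⟨s, t, rfl⟩ := hs0 z0 hz0
  obtain ⟨u, v, rfl⟩ := hs1 z1 hz1
  exact ⟨s, t, u, v, by abel⟩

/-- the semilinear map -/
def JJ (f : (Fin 4 → F) → (Fin 4 → F) → F) (τ : F ≃+* F) (a b c d z : Fin 4 → F) : Fin 4 → F :=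
  -(τ (f z b) • a) + τ (f z a) • b + τ (f z d) • c - τ (f z c) • d

variable {D₀ D₁ : Submodule F (Fin 4 → F)} {a b c d : Fin 4 → F}

theorem JJ_add (hs : SFm τ 1 f) (z z' : Fin 4 → F) : JJ f τ a b c d (z + z') = JJ f τ a b c d z + JJ f τ a b c d z' := by
  unfold JJ
  simp only [hs.add_left, map_add, add_smul]
  abel

theorem JJ_smul (hs : SFm τ 1 f) (s : F) (z : Fin 4 → F) : JJ f τ a b c d (s • z) = τ s • JJ f τ a b c d z := by
  unfold JJ
  simp only [hs.smul_left, map_mul, smul_add, smul_sub, smul_neg, smul_smul]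

theorem JJ_a (h : HB f D₀ D₁ a b c d) : JJ f τ a b c d a = -d := by
  unfold JJ
  rw [h.ab, h.aa, h.ad, h.ac, map_zero, map_one]
  simp

theorem JJ_b (h : HB f D₀ D₁ a b c d) : JJ f τ a b c d b = c := by
  unfold JJ
  rw [h.bb, h.ba, h.bd, h.bc, map_zero, map_one]
  simp

theorem JJ_c (h : HB f D₀ D₁ a b c d) : JJ f τ a b c d c = b := by
  unfold JJ
  rw [h.cb, h.ca, h.cd, h.cc, map_zero, map_one]
  simp

theorem JJ_d (h : HB f D₀ D₁ a b c d) : JJ f τ a b c d d = -a := by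
  unfold JJ
  rw [h.db, h.da, h.dd, h.dc, map_zero, map_one]
  simp

/-- determinant in coordinates -/
theorem det_coord [Fintype F] {q : ℕ} (hF : Fintype.card F = q ^ 2) (h : HB (Cfsg.hermForm 4 F q) D₀ D₁ a b c d)
    {g : Matrix (Fin 4) (Fin 4) F} {C : Matrix (Fin 4) (Fin 4) F}
    (hC : ∀ j, g *ᵥ (![a, b, c, d] j) = C 0 j • a + C 1 j • b + C 2 j • c + C 3 j • d) : g.det = C.det := by
  set P : Matrix (Fin 4) (Fin 4) F := Matrix.of fun i j => (![a, b, c, d] : Fin 4 → (Fin 4 → F)) j i with hP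
  have hgram : Pᵀ * P.map (fun x => x ^ q) = !![0, 0, 1, 0; 0, 0, 0, 1; 1, 0, 0, 0; 0, 1, 0, 0] := by
    ext i j
    rw [Matrix.mul_apply]
    have e1 : ∀ x y : Fin 4 → F, Cfsg.hermForm 4 F q x y = ∑ k, x k * y k ^ q := fun _ _ => rfl
    show ∑ k, (![a, b, c, d] : Fin 4 → (Fin 4 → F)) i k * ((![a, b, c, d] : Fin 4 → (Fin 4 → F)) j k) ^ q = _
    rw [← e1]
    fin_cases i <;> fin_cases j <;> simp [h.aa, h.ab, h.ba, h.bb, h.cc, h.cd, h.dc, h.dd, h.ac, h.bd, h.ad, h.bc, h.ca, h.db, h.da, h.cb]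
  have hdP : P.det ≠ 0 := by
    intro h0
    have h3 := congrArg Matrix.det hgram
    rw [Matrix.det_mul, Matrix.det_transpose, h0, zero_mul] at h3
    have h4 : (!![0, 0, 1, 0; 0, 0, 0, 1; 1, 0, 0, 0; 0, 1, 0, 0] : Matrix (Fin 4) (Fin 4) F).det = 1 := by
      simp [Matrix.det_succ_row_zero, Fin.sum_univ_succ, Fin.succAbove]
    rw [h4] at h3
    exact zero_ne_one h3
  have hgP : g * P = P * C := by
    ext i j
    have h5 := congrFun (hC j) i
    have e3 : (P * C) i j = P i 0 * C 0 j + P i 1 * C 1 j + P i 2 * C 2 j + P i 3 * C 3 j := by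
      rw [Matrix.mul_apply, Fin.sum_univ_four]
    rw [e3]
    show (g * P) i j = a i * C 0 j + b i * C 1 j + c i * C 2 j + d i * C 3 j
    have e2 : (g * P) i j = (g *ᵥ (![a, b, c, d] j)) i := rfl
    rw [e2, h5]
    simp only [Pi.add_apply, Pi.smul_apply, smul_eq_mul]
    ring
  have h6 := congrArg Matrix.det hgP
  rw [Matrix.det_mul, Matrix.det_mul] at h6
  have h7 : P.det * (g.det - C.det) = 0 := by linear_combination h6
  rcases mul_eq_zero.1 h7 with h8 | h8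
  · exact absurd h8 hdP
  · exact sub_eq_zero.1 h8

/-- the two by two identities -/
theorem two_two {x y z w x' y' z' w' : F} (hτ : ∀ s, τ (τ s) = s) (e1 : x * τ x' + z * τ z' = 1) (e2 : x * τ y' + z * τ w' = 0)
    (e3 : y * τ x' + w * τ z' = 0) (e4 : y * τ y' + w * τ w' = 1) :
    (x * w - y * z) * τ x' = w ∧ (x * w - y * z) * τ z' = -y ∧ (x * w - y * z) * τ y' = -z ∧ (x * w - y * z) * τ w' = x ∧
    τ (x * w - y * z) * (x' * w' - y' * z') = 1 := by
  have h1 : (x * w - y * z) * τ x' = w := by linear_combination w * e1 - z * e3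
  have h2 : (x * w - y * z) * τ z' = -y := by linear_combination x * e3 - y * e1
  have h3 : (x * w - y * z) * τ y' = -z := by linear_combination w * e2 - z * e4
  have h4 : (x * w - y * z) * τ w' = x := by linear_combination x * e4 - y * e2
  refine ⟨h1, h2, h3, h4, ?_⟩
  have h5 : (x * w - y * z) * τ (x' * w' - y' * z') = 1 := by
    have h6 : τ (x' * w' - y' * z') = τ x' * τ w' - τ y' * τ z' := by rw [map_sub, map_mul, map_mul]
    rw [h6]
    have h7 : (x * τ x' + z * τ z') * (y * τ y' + w * τ w') - (x * τ y' + z * τ w') * (y * τ x' + w * τ z') = 1 * 1 - 0 * 0 := by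
      rw [e1, e2, e3, e4]
    linear_combination h7
  have h7 := congrArg τ h5
  rw [map_mul, hτ, map_one] at h7
  exact h7

/-- elements of the stabiliser commute with the semilinear map up to sign -/
theorem comm_J [Fintype F] {q : ℕ} (hF : Fintype.card F = q ^ 2) (hq : q = 2 ∨ q = 3) (hs : SFm τ 1 (Cfsg.hermForm 4 F q))
    (hτ : ∀ x, τ x = x ^ q) (h : HB (Cfsg.hermForm 4 F q) D₀ D₁ a b c d) {g : Matrix (Fin 4) (Fin 4) F} (hdet : g.det = 1)
    (hiso : ∀ x y, Cfsg.hermForm 4 F q (g *ᵥ x) (g *ᵥ y) = Cfsg.hermForm 4 F q x y)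
    (hg : ((∀ x ∈ D₀, g *ᵥ x ∈ D₀) ∧ (∀ x ∈ D₁, g *ᵥ x ∈ D₁)) ∨ ((∀ x ∈ D₀, g *ᵥ x ∈ D₁) ∧ (∀ x ∈ D₁, g *ᵥ x ∈ D₀))) :
    ∃ k : F, k ≠ 0 ∧ ∀ z, JJ (Cfsg.hermForm 4 F q) τ a b c d (g *ᵥ z) = k • (g *ᵥ JJ (Cfsg.hermForm 4 F q) τ a b c d z) := by
  obtain ⟨f, hf⟩ : ∃ f, f = Cfsg.hermForm 4 F q := ⟨_, rfl⟩
  have hdc := fun C => det_coord (g := g) (C := C) hF h
  rw [← hf] at hs h hiso ⊢
  -- it is enough to check the basis
  have key : ∀ k : F, JJ f τ a b c d (g *ᵥ a) = k • (g *ᵥ (-d)) → JJ f τ a b c d (g *ᵥ b) = k • (g *ᵥ c) →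
      JJ f τ a b c d (g *ᵥ c) = k • (g *ᵥ b) → JJ f τ a b c d (g *ᵥ d) = k • (g *ᵥ (-a)) →
      ∀ z, JJ f τ a b c d (g *ᵥ z) = k • (g *ᵥ JJ f τ a b c d z) := by
    intro k ka kb kc kd z
    obtain ⟨s, t, u, v, rfl⟩ := h.ex z
    simp only [Matrix.mulVec_add, Matrix.mulVec_smul, JJ_add hs, JJ_smul hs, JJ_a h, JJ_b h, JJ_c h, JJ_d h, ka, kb, kc, kd, smul_add,
      smul_comm k]
  have hδ : ∀ x y z w x' y' z' w' : F, x * τ x' + z * τ z' = 1 → x * τ y' + z * τ w' = 0 → y * τ x' + w * τ z' = 0 →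
      y * τ y' + w * τ w' = 1 → (x * w - y * z) * (x' * w' - y' * z') = 1 →
      ∃ e : F, e * e = 1 ∧ τ x = e * w' ∧ τ z = -(e * y') ∧ τ y = -(e * z') ∧ τ w = e * x' ∧
        τ x' = e * w ∧ τ z' = -(e * y) ∧ τ y' = -(e * z) ∧ τ w' = e * x := by
    intro x y z w x' y' z' w' e1 e2 e3 e4 e5
    obtain ⟨h1, h2, h3, h4, h5⟩ := two_two hs.inv e1 e2 e3 e4
    obtain ⟨δ, hδ⟩ : ∃ δ, δ = x * w - y * z := ⟨_, rfl⟩
    rw [← hδ] at h1 h2 h3 h4 h5 e5
    have hδ0 : x' * w' - y' * z' ≠ 0 := by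
      intro h0
      rw [h0, mul_zero] at e5
      exact zero_ne_one e5
    have h6 : τ δ = δ := by
      have h7 : (τ δ - δ) * (x' * w' - y' * z') = 0 := by linear_combination h5 - e5
      rcases mul_eq_zero.1 h7 with h8 | h8
      · exact sub_eq_zero.1 h8
      · exact absurd h8 hδ0
    have hδn : δ ≠ 0 := by
      rintro h0
      rw [h0, zero_mul] at e5
      exact zero_ne_one e5
    have h7 : δ * δ = 1 := by
      rw [hτ] at h6
      rcases hq with rfl | rfl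
      · have h8 : δ * (δ - 1) = 0 := by linear_combination h6
        rcases mul_eq_zero.1 h8 with h9 | h9
        · exact absurd h9 hδn
        · rw [sub_eq_zero.1 h9, one_mul]
      · have h8 : δ * (δ * δ - 1) = 0 := by linear_combination h6
        rcases mul_eq_zero.1 h8 with h9 | h9
        · exact absurd h9 hδn
        · exact sub_eq_zero.1 h9
    have hh : ∀ {s t : F}, δ * τ s = t → τ t = δ * s := by
      intro s t hst
      rw [← hst, map_mul, hs.inv, h6]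
    have hh' : ∀ {s t : F}, δ * τ s = t → τ s = δ * t := by
      intro s t hst
      rw [← hst, ← mul_assoc, h7, one_mul]
    refine ⟨δ, h7, hh h4, ?_, ?_, hh h1, hh' h1, ?_, ?_, hh' h4⟩
    · have := hh h3
      rw [map_neg] at this
      linear_combination -this
    · have := hh h2
      rw [map_neg] at this
      linear_combination -this
    · rw [hh' h2]; ring
    · rw [hh' h3]; ring
  rcases hg with ⟨g0, g1⟩ | ⟨g0, g1⟩
  · obtain ⟨x, z, hx⟩ := h.s0 _ (g0 a h.ma)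
    obtain ⟨y, w, hy⟩ := h.s0 _ (g0 b h.mb)
    obtain ⟨x', z', hx'⟩ := h.s1 _ (g1 c h.mc)
    obtain ⟨y', w', hy'⟩ := h.s1 _ (g1 d h.md)
    have e1 := hiso a c
    have e2 := hiso a d
    have e3 := hiso b c
    have e4 := hiso b d
    rw [hx, hx', h.ac] at e1
    rw [hx, hy', h.ad] at e2
    rw [hy, hx', h.bc] at e3
    rw [hy, hy', h.bd] at e4
    simp only [hs.add_left, hs.add_right, hs.smul_left, hs.smul_right, h.ac, h.ad, h.bc, h.bd, mul_zero, mul_one, add_zero, zero_add] at e1 e2 e3 e4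
    have e5 := hdc !![x, y, 0, 0; z, w, 0, 0; 0, 0, x', y'; 0, 0, z', w'] (by
      intro j
      fin_cases j
      · show g *ᵥ a = x • a + z • b + (0 : F) • c + (0 : F) • d
        rw [hx]; simp
      · show g *ᵥ b = y • a + w • b + (0 : F) • c + (0 : F) • d
        rw [hy]; simp
      · show g *ᵥ c = (0 : F) • a + (0 : F) • b + x' • c + z' • d
        rw [hx']; simp
      · show g *ᵥ d = (0 : F) • a + (0 : F) • b + y' • c + w' • d
        rw [hy']; simp)
    have e6 : (!![x, y, 0, 0; z, w, 0, 0; 0, 0, x', y'; 0, 0, z', w'] : Matrix (Fin 4) (Fin 4) F).det = (x * w - y * z) * (x' * w' - y' * z') := by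
      simp [Matrix.det_succ_row_zero, Fin.sum_univ_succ, Fin.succAbove]
      ring
    rw [hdet, e6] at e5
    obtain ⟨e, he, r1, r2, r3, r4, r5, r6, r7, r8⟩ := hδ x y z w x' y' z' w' e1 e2 e3 e4 e5.symm
    refine ⟨e, left_ne_zero_of_mul_eq_one he, key e ?_ ?_ ?_ ?_⟩
    · rw [hx, Matrix.mulVec_neg, hy', JJ_add hs, JJ_smul hs, JJ_smul hs, JJ_a h, JJ_b h, r1, r2]
      module
    · rw [hy, hx', JJ_add hs, JJ_smul hs, JJ_smul hs, JJ_a h, JJ_b h, r3, r4]
      module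
    · rw [hx', hy, JJ_add hs, JJ_smul hs, JJ_smul hs, JJ_c h, JJ_d h, r5, r6]
      module
    · rw [hy', Matrix.mulVec_neg, hx, JJ_add hs, JJ_smul hs, JJ_smul hs, JJ_c h, JJ_d h, r7, r8]
      module
  · obtain ⟨x, z, hx⟩ := h.s1 _ (g0 a h.ma)
    obtain ⟨y, w, hy⟩ := h.s1 _ (g0 b h.mb)
    obtain ⟨x', z', hx'⟩ := h.s0 _ (g1 c h.mc)
    obtain ⟨y', w', hy'⟩ := h.s0 _ (g1 d h.md)
    have e1 := hiso a c
    have e2 := hiso a d
    have e3 := hiso b c
    have e4 := hiso b d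
    rw [hx, hx', h.ac] at e1
    rw [hx, hy', h.ad] at e2
    rw [hy, hx', h.bc] at e3
    rw [hy, hy', h.bd] at e4
    simp only [hs.add_left, hs.add_right, hs.smul_left, hs.smul_right, h.ca, h.cb, h.da, h.db, mul_zero, mul_one, add_zero, zero_add] at e1 e2 e3 e4
    have e5 := hdc !![0, 0, x', y'; 0, 0, z', w'; x, y, 0, 0; z, w, 0, 0] (by
      intro j
      fin_cases j
      · show g *ᵥ a = (0 : F) • a + (0 : F) • b + x • c + z • d
        rw [hx]; simp
      · show g *ᵥ b = (0 : F) • a + (0 : F) • b + y • c + w • d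
        rw [hy]; simp
      · show g *ᵥ c = x' • a + z' • b + (0 : F) • c + (0 : F) • d
        rw [hx']; simp
      · show g *ᵥ d = y' • a + w' • b + (0 : F) • c + (0 : F) • d
        rw [hy']; simp)
    have e6 : (!![0, 0, x', y'; 0, 0, z', w'; x, y, 0, 0; z, w, 0, 0] : Matrix (Fin 4) (Fin 4) F).det = (x * w - y * z) * (x' * w' - y' * z') := by
      simp [Matrix.det_succ_row_zero, Fin.sum_univ_succ, Fin.succAbove]
      ring
    rw [hdet, e6] at e5
    obtain ⟨e, he, r1, r2, r3, r4, r5, r6, r7, r8⟩ := hδ x y z w x' y' z' w' e1 e2 e3 e4 e5.symm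
    refine ⟨-e, neg_ne_zero.2 (left_ne_zero_of_mul_eq_one he), key (-e) ?_ ?_ ?_ ?_⟩
    · rw [hx, Matrix.mulVec_neg, hy', JJ_add hs, JJ_smul hs, JJ_smul hs, JJ_c h, JJ_d h, r1, r2]
      module
    · rw [hy, hx', JJ_add hs, JJ_smul hs, JJ_smul hs, JJ_c h, JJ_d h, r3, r4]
      module
    · rw [hx', hy, JJ_add hs, JJ_smul hs, JJ_smul hs, JJ_a h, JJ_b h, r5, r6]
      module
    · rw [hy', Matrix.mulVec_neg, hx, JJ_add hs, JJ_smul hs, JJ_smul hs, JJ_a h, JJ_b h, r7, r8]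
      module

end Cfsg.Agent.H29.Vf
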