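import Mathlib
import Cfsg.Agent.H29_Vf2

set_option autoImplicit false

/-! two totally isotropic planes at `q = 2, 3`: the stabiliser is not maximal -/

namespace Cfsg.Agent.H29.Vf

open Matrix Module Cfsg.Geo Cfsg.Agent.H29.Fm Cfsg.Agent.H29.Pq Cfsg.Agent.H29.Us

variable {F : Type*} [Field F] {n : ℕ}

theorem nonmax_set' {X H : Subgroup (GL (Fin n) F)} (S : Set (Fin n → F)) (hHX : H ≤ X)
    (hH : ∀ g ∈ H, ∀ x ∈ S, (g : Matrix (Fin n) (Fin n) F) *ᵥ x ∈ S)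
    {t : GL (Fin n) F} (ht : t ∈ X) (htH : t ∉ H) (htS : ∀ x, (t : Matrix (Fin n) (Fin n) F) *ᵥ x ∈ S ↔ x ∈ S)
    {s : GL (Fin n) F} (hs : s ∈ X) {x : Fin n → F} (hx : x ∈ S) (hsx : (s : Matrix (Fin n) (Fin n) F) *ᵥ x ∉ S) :
    ∃ M : Subgroup (GL (Fin n) F), H < M ∧ M < X := by
  refine ⟨stS X S, ?_, ?_⟩
  · refine lt_of_le_of_ne ?_ ?_
    · intro g hg
      refine ⟨hHX hg, fun x => ⟨fun h => ?_, hH g hg x⟩⟩
      have h2 := hH _ (H.inv_mem hg) _ h
      rwa [Matrix.mulVec_mulVec, ← Units.val_mul, inv_mul_cancel, Units.val_one, Matrix.one_mulVec] at h2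
    · intro h
      apply htH
      rw [h]
      exact ⟨ht, htS⟩
  · refine lt_of_le_of_ne (fun g hg => hg.1) ?_
    intro h
    have h2 : s ∈ stS X S := by rw [h]; exact hs
    exact hsx ((h2.2 x).2 hx)

theorem exists_tvc [Fintype F] {q : ℕ} (hF : Fintype.card F = q ^ 2) {v : Fin n → F} (hv : v ≠ 0)
    (hvv : Cfsg.hermForm n F q v v = 0) {c : F} (hc : c + c ^ q = 0) :
    ∃ g ∈ SUg n F q, ∀ x, (g : Matrix (Fin n) (Fin n) F) *ᵥ x = x + (c * Cfsg.hermForm n F q x v) • v := by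
  have hdet := Cfsg.Agent.H5.Unit.det_T v c hvv
  refine ⟨Matrix.GeneralLinearGroup.mkOfDetNeZero (Cfsg.unitaryTransvection n q v c)
    (by rw [hdet]; exact one_ne_zero), ⟨?_, ?_⟩, ?_⟩
  · exact (Cfsg.Agent.H5.Unit.T_isometry_iff hF v hv hvv c).2 hc
  · exact mem_SL hdet
  · intro x
    exact Cfsg.Agent.H5.Unit.T_mulVec (q := q) v c x

theorem det_of_SL' {g : GL (Fin n) F} (h : g ∈ specialLinear (Fin n) F) : (g : Matrix (Fin n) (Fin n) F).det = 1 := by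
  have h1 : (Matrix.GeneralLinearGroup.det : GL (Fin n) F →* Fˣ) g = 1 := h
  exact congrArg Units.val h1

theorem stab_cases {D : Fin 2 → Submodule F (Fin n → F)}
    {g : GL (Fin n) F} (hg : g ∈ decompositionStabilizer D) :
    ((∀ x ∈ D 0, (g : Matrix (Fin n) (Fin n) F) *ᵥ x ∈ D 0) ∧ (∀ x ∈ D 1, (g : Matrix (Fin n) (Fin n) F) *ᵥ x ∈ D 1)) ∨
    ((∀ x ∈ D 0, (g : Matrix (Fin n) (Fin n) F) *ᵥ x ∈ D 1) ∧ (∀ x ∈ D 1, (g : Matrix (Fin n) (Fin n) F) *ᵥ x ∈ D 0)) := by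
  obtain ⟨σ, hσ⟩ := hg
  have hmem : ∀ i, ∀ x ∈ D i, (g : Matrix (Fin n) (Fin n) F) *ᵥ x ∈ D (σ i) := by
    intro i x hx
    rw [← hσ i]
    exact ⟨x, hx, by rw [Matrix.toLin'_apply]⟩
  have hne : σ 0 ≠ σ 1 := fun h => absurd (σ.injective h) (by decide)
  have h01 : ∀ i : Fin 2, i = 0 ∨ i = 1 := by decide
  rcases h01 (σ 0) with h | h
  · left
    have h1 : σ 1 = 1 := by
      rcases h01 (σ 1) with h' | h'
      · exact absurd (h.trans h'.symm) hne
      · exact h'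
    exact ⟨fun x hx => h ▸ hmem 0 x hx, fun x hx => h1 ▸ hmem 1 x hx⟩
  · right
    have h1 : σ 1 = 0 := by
      rcases h01 (σ 1) with h' | h'
      · exact h'
      · exact absurd (h.trans h'.symm) hne
    exact ⟨fun x hx => h ▸ hmem 0 x hx, fun x hx => h1 ▸ hmem 1 x hx⟩

theorem nonmaxTI [Fintype F] {q : ℕ} (hF : Fintype.card F = q ^ 2) (hq : q = 2 ∨ q = 3) {D : Fin 2 → Submodule F (Fin 4 → F)}
    (hD : IsMDecomposition 2 D) (hts : ∀ i, IsTotallySingularFor (Cfsg.hermForm 4 F q) (D i)) :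
    ∃ M : Subgroup (GL (Fin 4) F), decompositionStabilizer D ⊓ SUg 4 F q < M ∧ M < SUg 4 F q := by
  have hs := sfm_herm (n := 4) hF
  have hτ : ∀ x, fq hF x = x ^ q := fun x => fq_apply hF x
  have hsup : D 0 ⊔ D 1 = ⊤ := by
    rw [eq_top_iff, ← hD.iSup_eq_top]
    apply iSup_le
    intro i
    have h01 : i = 0 ∨ i = 1 := by revert i; decide
    rcases h01 with rfl | rfl
    · exact le_sup_left
    · exact le_sup_right
  obtain ⟨a, b, c, d, h⟩ := exists_HB hs (hts 0) (hts 1) hsup (hD.finrank_eq 0) (hD.finrank_eq 1)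
  have hts0 := hts 0
  have hts1 := hts 1
  have hcomm : ∀ {g : Matrix (Fin 4) (Fin 4) F}, g.det = 1 →
    (∀ x y, Cfsg.hermForm 4 F q (g *ᵥ x) (g *ᵥ y) = Cfsg.hermForm 4 F q x y) → _ → _ := fun {g} hdet hiso hg =>
      comm_J hF hq hs hτ h hdet hiso hg
  obtain ⟨al, hal0, hal⟩ := Cfsg.Agent.H5.Unit.exists_ker_ne hF
  have hexi := fun (v : Fin 4 → F) hv hvv => exists_tvc (n := 4) hF (v := v) hv hvv hal
  obtain ⟨f, hf⟩ : ∃ f, f = Cfsg.hermForm 4 F q := ⟨_, rfl⟩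
  rw [← hf] at hs h hcomm hexi hts0 hts1
  have hταl : fq hF al = -al := by
    rw [hτ]
    linear_combination hal
  have h10 : ∀ {x y : Fin 4 → F}, f x y = 1 → x ≠ 0 := by
    rintro x y h1 rfl
    rw [hs.zero_left] at h1
    exact zero_ne_one h1
  have hvv : f (a - d) (a - d) = 0 := by
    rw [hs.sub_left, hs.sub_right, hs.sub_right, h.aa, h.ad, h.da, h.dd]; ring
  have hfv : ∀ z, f z (a - d) = f z a - f z d := fun z => hs.sub_right z a d
  have hv0 : a - d ≠ 0 := by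
    intro h0
    have h1 := hfv c
    rw [h0, hs.zero_right, h.ca, h.cd, sub_zero] at h1
    exact zero_ne_one h1
  obtain ⟨t, ht, htx⟩ := hexi (a - d) hv0 hvv
  obtain ⟨s, hs', hsx⟩ := hexi a (h10 h.ac) h.aa
  have hJv : JJ f (fq hF) a b c d (a - d) = a - d := by
    have e1 : a - d = a + (-1 : F) • d := by rw [neg_one_smul, sub_eq_add_neg]
    rw [e1, JJ_add hs, JJ_smul hs, JJ_a h, JJ_d h, map_neg, map_one]
    module
  have hJt : ∀ z, JJ f (fq hF) a b c d ((t : Matrix (Fin 4) (Fin 4) F) *ᵥ z) = (t : Matrix (Fin 4) (Fin 4) F) *ᵥ (JJ f (fq hF) a b c d z) := by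
    intro z
    rw [htx, htx, JJ_add hs, JJ_smul hs, hJv, map_mul, hταl, hfv, hfv, map_sub]
    have e1 : f (JJ f (fq hF) a b c d z) a = fq hF (f z d) := by
      unfold JJ
      rw [hs.sub_left, hs.add_left, hs.add_left, hs.neg_left, hs.smul_left, hs.smul_left, hs.smul_left, hs.smul_left, h.aa, h.ba, h.ca, h.da]
      ring
    have e2 : f (JJ f (fq hF) a b c d z) d = fq hF (f z a) := by
      unfold JJ
      rw [hs.sub_left, hs.add_left, hs.add_left, hs.neg_left, hs.smul_left, hs.smul_left, hs.smul_left, hs.smul_left, h.ad, h.bd, h.cd, h.dd]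
      ring
    rw [e1, e2]
    congr 2
    ring
  refine nonmax_set' {z | ∃ k : F, k ≠ 0 ∧ JJ f (fq hF) a b c d z = k • z} inf_le_right ?_ ht ?_ ?_ hs' (x := b + c) ?_ ?_
  · rintro g hg x ⟨k, hk0, hk⟩
    obtain ⟨hgD, hgS⟩ := Subgroup.mem_inf.1 hg
    have hiso : ∀ x y, f ((g : Matrix (Fin 4) (Fin 4) F) *ᵥ x) ((g : Matrix (Fin 4) (Fin 4) F) *ᵥ y) = f x y := by
      rw [hf]
      exact fx_GU g (Subgroup.mem_inf.1 hgS).1
    obtain ⟨k', hk0', hk'⟩ := hcomm (det_of_SL' (Subgroup.mem_inf.1 hgS).2) hiso (stab_cases hgD)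
    refine ⟨k' * k, mul_ne_zero hk0' hk0, ?_⟩
    rw [hk', hk, Matrix.mulVec_smul, smul_smul]
  · intro htH
    obtain ⟨hgD, -⟩ := Subgroup.mem_inf.1 htH
    have e1 : (t : Matrix (Fin 4) (Fin 4) F) *ᵥ b = b + (-al) • (a - d) := by
      rw [htx, hfv, h.ba, h.bd]
      congr 2
      ring
    have e2 : (t : Matrix (Fin 4) (Fin 4) F) *ᵥ b ∈ D 0 ∨ (t : Matrix (Fin 4) (Fin 4) F) *ᵥ b ∈ D 1 := by
      rcases stab_cases hgD with h1 | h1
      · exact Or.inl (h1.1 b h.mb)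
      · exact Or.inr (h1.1 b h.mb)
    rw [e1] at e2
    rcases e2 with h1 | h1
    · have h2 := hts0 _ h1 b h.mb
      rw [hs.add_left, hs.smul_left, hs.sub_left, h.bb, h.ab, h.db] at h2
      exact hal0 (by linear_combination h2)
    · have h2 := hts1 _ h1 d h.md
      rw [hs.add_left, hs.smul_left, hs.sub_left, h.bd, h.ad, h.dd] at h2
      exact one_ne_zero (by linear_combination h2 : (1 : F) = 0)
  · intro x
    constructor
    · rintro ⟨k, hk0, hk⟩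
      refine ⟨k, hk0, ?_⟩
      rw [hJt, ← Matrix.mulVec_smul] at hk
      have h1 := congrArg (fun y => ((t⁻¹ : GL (Fin 4) F) : Matrix (Fin 4) (Fin 4) F) *ᵥ y) hk
      simpa only [Matrix.mulVec_mulVec, ← Units.val_mul, inv_mul_cancel, Units.val_one, Matrix.one_mulVec] using h1
    · rintro ⟨k, hk0, hk⟩
      refine ⟨k, hk0, ?_⟩
      rw [hJt, hk, Matrix.mulVec_smul]
  · refine ⟨1, one_ne_zero, ?_⟩
    rw [JJ_add hs, JJ_b h, JJ_c h, one_smul, add_comm]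
  · rintro ⟨k, hk0, hk⟩
    have e1 : (s : Matrix (Fin 4) (Fin 4) F) *ᵥ (b + c) = b + c + al • a := by
      rw [hsx, hs.add_left, h.ba, h.ca]
      congr 2
      ring
    rw [e1, JJ_add hs, JJ_add hs, JJ_smul hs, JJ_a h, JJ_b h, JJ_c h] at hk
    have h1 := congrArg (fun z => f z d) hk
    have h2 := congrArg (fun z => f z c) hk
    simp only [hs.add_left, hs.smul_left, hs.neg_left, h.cd, h.bd, h.dd, h.ad] at h1
    simp only [hs.add_left, hs.smul_left, hs.neg_left, h.cc, h.bc, h.dc, h.ac] at h2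
    have hk1 : k = 1 := by linear_combination -h1
    rw [hk1] at h2
    exact hal0 (by linear_combination -h2)

end Cfsg.Agent.H29.Vf
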