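import Mathlib
import Cfsg.Agent.H29_Vf3

set_option autoImplicit false

/-! frames in the four-dimensional unitary space over the field of nine elements: tables -/

namespace Cfsg.Agent.H29.Vf

open Matrix Module Cfsg.Geo Cfsg.Agent.H29.Fm

/-- three values -/
def a3 (p : Nat → Bool) : Bool := p 0 && p 1 && p 2
/-- nine values -/
def a9 (p : Nat × Nat → Bool) : Bool := a3 fun x => a3 fun y => p (x, y)

theorem of_a3 {p : Nat → Bool} (h : a3 p = true) {x : Nat} (hx : x < 3) : p x = true := by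
  unfold a3 at h
  simp only [Bool.and_eq_true] at h
  obtain ⟨⟨h1, h2⟩, h3⟩ := h
  interval_cases x <;> assumption

theorem of_a9 {p : Nat × Nat → Bool} (h : a9 p = true) {x : Nat × Nat} (hx : x.1 < 3 ∧ x.2 < 3) : p x = true :=
  of_a3 (of_a3 h hx.1) hx.2

/-- addition -/
def d9 (x y : Nat × Nat) : Nat × Nat := ((x.1 + y.1) % 3, (x.2 + y.2) % 3)
/-- subtraction -/
def e9 (x y : Nat × Nat) : Nat × Nat := ((x.1 + 2 * y.1) % 3, (x.2 + 2 * y.2) % 3)
/-- multiplication -/
def m9 (x y : Nat × Nat) : Nat × Nat := ((x.1 * y.1 + 2 * (x.2 * y.2)) % 3, (x.1 * y.2 + x.2 * y.1) % 3)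
/-- norm -/
def n9 (x : Nat × Nat) : Nat := (x.1 * x.1 + x.2 * x.2) % 3

/-- number of entries with a given norm -/
def k9 (s : Nat) (a b c d : Nat × Nat) : Nat :=
  (if Nat.beq (n9 a) s then 1 else 0) + (if Nat.beq (n9 b) s then 1 else 0) + (if Nat.beq (n9 c) s then 1 else 0) +
    (if Nat.beq (n9 d) s then 1 else 0)

/-- the square of the product -/
def p9 (a b c d : Nat × Nat) : Nat × Nat := m9 (m9 (m9 a b) (m9 c d)) (m9 (m9 a b) (m9 c d))

/-- the membership test -/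
def t9 (a b c d : Nat × Nat) : Bool :=
  (Nat.beq (k9 1 a b c d) 0 || Nat.beq (k9 2 a b c d) 0) &&
    (Nat.beq (k9 1 a b c d + k9 2 a b c d) 1 || Nat.beq (k9 1 a b c d + k9 2 a b c d) 2 ||
      (Nat.beq (p9 a b c d).1 1 && Nat.beq (p9 a b c d).2 0))

theorem t9_all : a9 (fun a => a9 (fun b => a9 (fun c => a9 (fun d =>
    !(t9 a b c d) || t9 (m9 (1, 1) (d9 a b)) (m9 (2, 1) (e9 a b)) (m9 (1, 1) (d9 c d)) (m9 (2, 1) (e9 c d)))))) = true := by
  decide +kernel

theorem t9_imp {a b c d : Nat × Nat} (ha : a.1 < 3 ∧ a.2 < 3) (hb : b.1 < 3 ∧ b.2 < 3) (hc : c.1 < 3 ∧ c.2 < 3)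
    (hd : d.1 < 3 ∧ d.2 < 3) (h : t9 a b c d = true) :
    t9 (m9 (1, 1) (d9 a b)) (m9 (2, 1) (e9 a b)) (m9 (1, 1) (d9 c d)) (m9 (2, 1) (e9 c d)) = true := by
  have h1 := of_a9 (of_a9 (of_a9 (of_a9 t9_all ha) hb) hc) hd
  simp only [h, Bool.not_true, Bool.false_or] at h1
  exact h1

variable {F : Type*} [Field F]

/-- elements from codes -/
def q9 (w : F) (x : Nat × Nat) : F := (x.1 : F) + (x.2 : F) * w

section nine
variable [Fintype F] (hF : Fintype.card F = 3 ^ 2)
include hF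

theorem char3 : CharP F 3 := by
  obtain ⟨p, hp⟩ := CharP.exists F
  have hpp : p.Prime := CharP.char_is_prime F p
  have h1 : ((9 : ℕ) : F) = 0 := by
    have h2 : ((Fintype.card F : ℕ) : F) = 0 := FiniteField.cast_card_eq_zero F
    rw [hF] at h2
    exact h2
  have h3 : p ∣ 9 := (CharP.cast_eq_zero_iff F p 9).1 h1
  have h4 : p ∣ 3 := hpp.dvd_of_dvd_pow (show p ∣ 3 ^ 2 from h3)
  have h5 : p = 3 := (Nat.prime_dvd_prime_iff_eq hpp Nat.prime_three).1 h4
  rw [← h5]; exact hp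

theorem three0 : (3 : F) = 0 := by
  haveI := char3 hF
  have := CharP.cast_eq_zero F 3
  exact_mod_cast this

theorem cast_mod (n : ℕ) : ((n % 3 : ℕ) : F) = (n : F) := by
  haveI := char3 hF
  exact (CharP.cast_eq_mod F 3 n).symm

theorem q9_d (w : F) (x y : Nat × Nat) : q9 w (d9 x y) = q9 w x + q9 w y := by
  unfold q9 d9
  simp only [cast_mod hF]
  push_cast
  ring

theorem q9_e (w : F) (x y : Nat × Nat) : q9 w (e9 x y) = q9 w x - q9 w y := by
  unfold q9 e9
  simp only [cast_mod hF]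
  push_cast
  have := three0 hF
  linear_combination ((y.1 : F) + y.2 * w) * this

theorem q9_m {w : F} (hw : w ^ 2 = -1) (x y : Nat × Nat) : q9 w (m9 x y) = q9 w x * q9 w y := by
  unfold q9 m9
  simp only [cast_mod hF]
  push_cast
  have := three0 hF
  linear_combination ((x.2 : F) * y.2) * this - ((x.2 : F) * y.2) * hw

theorem q9_n {w : F} (hw : w ^ 2 = -1) {τ : F ≃+* F} (hτw : τ w = -w) (x : Nat × Nat) :
    q9 w x * τ (q9 w x) = (n9 x : F) := by
  unfold q9 n9
  rw [cast_mod hF, map_add, map_mul, map_natCast, map_natCast, hτw]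
  push_cast
  linear_combination -((x.2 : F) ^ 2) * hw

theorem cast_lt {n m : ℕ} (hn : n < 3) (hm : m < 3) (h : (n : F) = m) : n = m := by
  haveI := char3 hF
  have h1 := (CharP.cast_eq_iff_mod_eq F 3).1 h
  rwa [Nat.mod_eq_of_lt hn, Nat.mod_eq_of_lt hm] at h1

theorem q9_surj {w : F} (hw : w ^ 2 = -1) (z : F) : ∃ x : Nat × Nat, (x.1 < 3 ∧ x.2 < 3) ∧ q9 w x = z := by
  classical
  let φ : Fin 3 × Fin 3 → F := fun x => q9 w (x.1.1, x.2.1)
  have h3 := three0 hF
  haveI := char3 hF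
  have hcube : ∀ n : ℕ, (n : F) ^ 3 = n := by
    intro n
    haveI : Fact (Nat.Prime 3) := ⟨Nat.prime_three⟩
    haveI : ExpChar F 3 := inferInstance
    exact map_natCast (frobenius F 3) n
  have hw0 : w ≠ 0 := by
    rintro rfl
    have : (1 : F) = 0 := by linear_combination hw
    exact one_ne_zero this
  have hinj : Function.Injective φ := by
    rintro ⟨a, b⟩ ⟨a', b'⟩ h
    have h1 : ((a.1 : F) - a'.1) = ((b'.1 : F) - b.1) * w := by
      have h2 : (a.1 : F) + (b.1 : F) * w = (a'.1 : F) + (b'.1 : F) * w := h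
      linear_combination h2
    have h4 : ((a.1 : F) - a'.1) ^ 3 = ((a.1 : F) - a'.1) := by
      linear_combination hcube a.1 - hcube a'.1 + (-(a.1 : F) ^ 2 * a'.1 + (a.1 : F) * (a'.1 : F) ^ 2) * h3
    have h5 : ((b'.1 : F) - b.1) ^ 3 = ((b'.1 : F) - b.1) := by
      linear_combination hcube b'.1 - hcube b.1 + (-(b'.1 : F) ^ 2 * b.1 + (b'.1 : F) * (b.1 : F) ^ 2) * h3
    have h6 : ((b'.1 : F) - b.1) * w = 0 := by
      have h7 := congrArg (fun z => z ^ 3) h1
      simp only [mul_pow, h4, h5] at h7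
      -- a - a' = (b' - b) w ^ 3 = - (b' - b) w
      have h8 : w ^ 3 = -w := by linear_combination w * hw
      rw [h8, h1] at h7
      linear_combination -h7 + ((b'.1 : F) - b.1) * w * h3
    have h7 : (b'.1 : F) = b.1 := by
      rcases mul_eq_zero.1 h6 with h8 | h8
      · exact sub_eq_zero.1 h8
      · exact absurd h8 hw0
    have h8 : (a.1 : F) = a'.1 := by
      rw [h7, sub_self, zero_mul] at h1
      exact sub_eq_zero.1 h1
    exact Prod.ext (Fin.ext (cast_lt hF a.2 a'.2 h8)) (Fin.ext (cast_lt hF b'.2 b.2 h7).symm)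
  have hbij : Function.Bijective φ := by
    rw [Fintype.bijective_iff_injective_and_card]
    refine ⟨hinj, ?_⟩
    rw [Fintype.card_prod, Fintype.card_fin, hF]
    norm_num
  obtain ⟨⟨a, b⟩, hab⟩ := hbij.2 z
  exact ⟨(a.1, b.1), ⟨a.2, b.2⟩, hab⟩

end nine

end Cfsg.Agent.H29.Vf
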