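import Mathlib
import Cfsg.Agent.H29_Vf4

set_option autoImplicit false

/-! frames in the four-dimensional unitary space over the field of nine elements -/

namespace Cfsg.Agent.H29.Vf

open Matrix Module Cfsg.Geo Cfsg.Agent.H29.Fm

variable {F : Type*} [Field F] {τ : F ≃+* F}

open Classical in
/-- number of coordinates of norm `s` -/
noncomputable def kf (τ : F ≃+* F) (s : F) (c : Fin 4 → F) : ℕ := ∑ i, if c i * τ (c i) = s then 1 else 0

/-- the invariant set in coordinates -/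
def PW3 (τ : F ≃+* F) (c : Fin 4 → F) : Prop :=
  (kf τ 1 c = 0 ∨ kf τ 2 c = 0) ∧ (kf τ 1 c + kf τ 2 c = 1 ∨ kf τ 1 c + kf τ 2 c = 2 ∨ (∏ i, c i) * (∏ i, c i) = 1)

section nine
variable [Fintype F] (hF : Fintype.card F = 3 ^ 2)
include hF

open Classical in
theorem kf_eq {w : F} (hw : w ^ 2 = -1) (hτw : τ w = -w) {s : ℕ} (hs : s < 3) (x : Fin 4 → Nat × Nat) :
    kf τ (s : F) (fun i => q9 w (x i)) = k9 s (x 0) (x 1) (x 2) (x 3) := by
  have h : ∀ y, (if q9 w y * τ (q9 w y) = (s : F) then 1 else 0) = (if Nat.beq (n9 y) s then 1 else 0) := by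
    intro y
    have h1 : q9 w y * τ (q9 w y) = (s : F) ↔ Nat.beq (n9 y) s = true := by
      rw [q9_n hF hw hτw, Nat.beq_eq]
      constructor
      · intro h2
        exact cast_lt hF (Nat.mod_lt _ (by norm_num)) hs h2
      · intro h2
        rw [h2]
    by_cases h2 : Nat.beq (n9 y) s = true
    · rw [if_pos (h1.2 h2), if_pos h2]
    · rw [if_neg (fun h3 => h2 (h1.1 h3)), if_neg h2]
  unfold kf k9
  rw [Fin.sum_univ_four]
  simp only [h]

theorem PW3_iff {w : F} (hw : w ^ 2 = -1) (hτw : τ w = -w) (x : Fin 4 → Nat × Nat) :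
    PW3 τ (fun i => q9 w (x i)) ↔ t9 (x 0) (x 1) (x 2) (x 3) = true := by
  unfold PW3 t9
  have e1 := kf_eq (τ := τ) hF hw hτw (s := 1) (by norm_num) x
  have e2 := kf_eq (τ := τ) hF hw hτw (s := 2) (by norm_num) x
  rw [Nat.cast_one] at e1
  rw [show ((2 : ℕ) : F) = 2 from by norm_num] at e2
  rw [e1, e2]
  have e3 : (∏ i, q9 w (x i)) * (∏ i, q9 w (x i)) = q9 w (p9 (x 0) (x 1) (x 2) (x 3)) := by
    rw [Fin.prod_univ_four]
    unfold p9
    simp only [q9_m hF hw]
    ring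
  rw [e3]
  have e4 : q9 w (p9 (x 0) (x 1) (x 2) (x 3)) = 1 ↔ (Nat.beq (p9 (x 0) (x 1) (x 2) (x 3)).1 1 && Nat.beq (p9 (x 0) (x 1) (x 2) (x 3)).2 0) = true := by
    have hl1 : (p9 (x 0) (x 1) (x 2) (x 3)).1 < 3 := Nat.mod_lt _ (by norm_num)
    have hl2 : (p9 (x 0) (x 1) (x 2) (x 3)).2 < 3 := Nat.mod_lt _ (by norm_num)
    generalize p9 (x 0) (x 1) (x 2) (x 3) = y at hl1 hl2
    obtain ⟨y1, y2⟩ := y
    simp only at hl1 hl2
    rw [Bool.and_eq_true, Nat.beq_eq, Nat.beq_eq]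
    constructor
    · intro h
      have h5 : q9 w (y1, y2) * τ (q9 w (y1, y2)) = 1 := by rw [h, map_one, one_mul]
      have h6 : q9 w (y1, y2) - τ (q9 w (y1, y2)) = 0 := by rw [h, map_one, sub_self]
      have h7 : 2 * ((y2 : F) * w) = 0 := by
        unfold q9 at h6
        simp only [map_add, map_mul, map_natCast, hτw] at h6
        linear_combination h6
      have h3 := three0 hF
      have h8 : (y2 : F) * w = 0 := by linear_combination 2 * h7 - (y2 : F) * w * h3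
      have hw0 : w ≠ 0 := by
        rintro rfl
        have : (1 : F) = 0 := by linear_combination hw
        exact one_ne_zero this
      have h9 : (y2 : F) = 0 := by
        rcases mul_eq_zero.1 h8 with h | h
        · exact h
        · exact absurd h hw0
      have h10 : (y1 : F) = 1 := by
        unfold q9 at h
        simp only [h9, zero_mul, add_zero] at h
        exact h
      exact ⟨cast_lt hF hl1 (by norm_num) (by rw [h10, Nat.cast_one]), cast_lt hF hl2 (by norm_num) (by rw [h9, Nat.cast_zero])⟩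
    · rintro ⟨rfl, rfl⟩
      simp [q9]
  rw [e4]
  simp only [Bool.and_eq_true, Bool.or_eq_true, Nat.beq_eq, or_assoc]

theorem PW3_shift {w : F} (hw : w ^ 2 = -1) (hτw : τ w = -w) {c : Fin 4 → F} (h : PW3 τ c) :
    PW3 τ ![(1 + w) * (c 0 + c 1), (2 + w) * (c 0 - c 1), (1 + w) * (c 2 + c 3), (2 + w) * (c 2 - c 3)] := by
  choose x hx3 hx using fun i => q9_surj hF hw (c i)
  have hc : c = fun i => q9 w (x i) := funext fun i => (hx i).symm
  rw [hc] at h ⊢
  have h1 := t9_imp (hx3 0) (hx3 1) (hx3 2) (hx3 3) ((PW3_iff hF hw hτw x).1 h)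
  have e1 : q9 w (1, 1) = 1 + w := by simp [q9]
  have e2 : q9 w (2, 1) = 2 + w := by simp [q9]
  have h2 : ![(1 + w) * (q9 w (x 0) + q9 w (x 1)), (2 + w) * (q9 w (x 0) - q9 w (x 1)), (1 + w) * (q9 w (x 2) + q9 w (x 3)),
      (2 + w) * (q9 w (x 2) - q9 w (x 3))] = fun i => q9 w ((![m9 (1, 1) (d9 (x 0) (x 1)), m9 (2, 1) (e9 (x 0) (x 1)),
      m9 (1, 1) (d9 (x 2) (x 3)), m9 (2, 1) (e9 (x 2) (x 3))] : Fin 4 → Nat × Nat) i) := by
    funext i
    fin_cases i
    · show (1 + w) * (q9 w (x 0) + q9 w (x 1)) = q9 w (m9 (1, 1) (d9 (x 0) (x 1)))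
      rw [q9_m hF hw, q9_d hF, e1]
    · show (2 + w) * (q9 w (x 0) - q9 w (x 1)) = q9 w (m9 (2, 1) (e9 (x 0) (x 1)))
      rw [q9_m hF hw, q9_e hF, e2]
    · show (1 + w) * (q9 w (x 2) + q9 w (x 3)) = q9 w (m9 (1, 1) (d9 (x 2) (x 3)))
      rw [q9_m hF hw, q9_d hF, e1]
    · show (2 + w) * (q9 w (x 2) - q9 w (x 3)) = q9 w (m9 (2, 1) (e9 (x 2) (x 3)))
      rw [q9_m hF hw, q9_e hF, e2]
  rw [h2, PW3_iff hF hw hτw]
  exact h1

end nine

theorem PW3_mono {σ : Equiv.Perm (Fin 4)} {l c c' : Fin 4 → F} (hl : ∀ i, l i * τ (l i) = 1) (hp : (∏ i, l i) * (∏ i, l i) = 1)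
    (h : ∀ i, c' (σ i) = l i * c i) (hc : PW3 τ c) : PW3 τ c' := by
  classical
  have hk : ∀ s, kf τ s c' = kf τ s c := by
    intro s
    unfold kf
    rw [← Equiv.sum_comp σ]
    apply Finset.sum_congr rfl
    intro i _
    have h1 : c' (σ i) * τ (c' (σ i)) = c i * τ (c i) := by
      rw [h i, map_mul]
      linear_combination c i * τ (c i) * hl i
    rw [h1]
  have hpr : ∏ i, c' i = (∏ i, l i) * ∏ i, c i := by
    rw [← Equiv.prod_comp σ]
    simp only [h]
    rw [Finset.prod_mul_distrib]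
  unfold PW3
  rw [hk, hk, hpr]
  refine ⟨hc.1, ?_⟩
  rcases hc.2 with h1 | h1 | h1
  · exact Or.inl h1
  · exact Or.inr (Or.inl h1)
  · right; right
    linear_combination (∏ i, c i) * (∏ i, c i) * hp + h1

theorem det_mono4 {v : Fin 4 → (Fin 4 → F)} {q : ℕ} (hv : ∀ i j, Cfsg.hermForm 4 F q (v i) (v j) = if i = j then 1 else 0)
    {g : Matrix (Fin 4) (Fin 4) F} {σ : Equiv.Perm (Fin 4)} {l : Fin 4 → F} (h : ∀ i, g *ᵥ v i = l i • v (σ i)) :
    g.det * g.det = (∏ i, l i) * (∏ i, l i) := by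
  set V : Matrix (Fin 4) (Fin 4) F := Matrix.of fun a i => v i a with hV
  have h1 : Vᵀ * V.map (fun x => x ^ q) = 1 := by
    ext i j
    rw [Matrix.mul_apply]
    have := hv i j
    rw [Matrix.one_apply]
    exact this
  have h2 : V.det ≠ 0 := by
    intro h0
    have h3 := congrArg Matrix.det h1
    rw [Matrix.det_mul, Matrix.det_transpose, h0, zero_mul, Matrix.det_one] at h3
    exact zero_ne_one h3
  have h3 : g * V = V.submatrix id σ * Matrix.diagonal l := by
    ext a i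
    rw [Matrix.mul_diagonal]
    have h4 := congrFun (h i) a
    rw [Matrix.submatrix_apply]
    show (g * V) a i = v (σ i) a * l i
    rw [Pi.smul_apply, smul_eq_mul] at h4
    rw [mul_comm, ← h4]
    rfl
  have h4 := congrArg Matrix.det h3
  rw [Matrix.det_mul, Matrix.det_mul, Matrix.det_permute', Matrix.det_diagonal] at h4
  have h5 : ((Equiv.Perm.sign σ : ℤ) : F) * ((Equiv.Perm.sign σ : ℤ) : F) = 1 := by
    rcases Int.units_eq_one_or (Equiv.Perm.sign σ) with h6 | h6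
    · rw [h6]; simp
    · rw [h6]
      simp
  have h6 : V.det * (g.det - ((Equiv.Perm.sign σ : ℤ) : F) * ∏ i, l i) = 0 := by linear_combination h4
  rcases mul_eq_zero.1 h6 with h7 | h7
  · exact absurd h7 h2
  · rw [sub_eq_zero.1 h7]
    linear_combination (∏ i, l i) * (∏ i, l i) * h5

theorem PW3_of {x : Fin 4 → Nat × Nat} [Fintype F] (hF : Fintype.card F = 3 ^ 2) {w : F} (hw : w ^ 2 = -1) (hτw : τ w = -w)
    {c : Fin 4 → F} (hc : ∀ i, c i = q9 w (x i)) : PW3 τ c ↔ t9 (x 0) (x 1) (x 2) (x 3) = true := by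
  have : c = fun i => q9 w (x i) := funext hc
  rw [this, PW3_iff hF hw hτw]

theorem nonmaxF3 [Fintype F] (hF : Fintype.card F = 3 ^ 2) {D : Fin 4 → Submodule F (Fin 4 → F)}
    (hD : IsNondegenerateMDecomposition (Cfsg.hermForm 4 F 3) 1 D) :
    ∃ M : Subgroup (GL (Fin 4) F), decompositionStabilizer D ⊓ SUg 4 F 3 < M ∧ M < SUg 4 F 3 := by
  have hs := sfm_herm (n := 4) hF
  have hτ : ∀ x, fq hF x = x ^ 3 := fun x => fq_apply hF x
  obtain ⟨v, hvm, hv1, hv2⟩ := frame_basis hs (fq_ne hF) hD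
  have hv : ∀ i j, Cfsg.hermForm 4 F 3 (v i) (v j) = if i = j then 1 else 0 := by
    intro i j
    by_cases hij : i = j
    · subst hij; rw [if_pos rfl]; exact hv1 i
    · rw [if_neg hij]; exact hv2 i j hij
  have h3 := three0 hF
  -- the square root of minus one
  obtain ⟨w, hw0, hww⟩ := Cfsg.Agent.H5.Unit.exists_ker_ne hF
  have hw : w ^ 2 = -1 := by
    have h4 : w * (w ^ 2 + 1) = 0 := by linear_combination hww
    rcases mul_eq_zero.1 h4 with h5 | h5
    · exact absurd h5 hw0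
    · linear_combination h5
  have hτw : fq hF w = -w := by
    rw [hτ]; linear_combination hww
  have hexi := fun (v : Fin 4 → F) hv hvv => exists_tvc (n := 4) hF (v := v) hv hvv hww
  have hDv : ∀ i, ∀ z ∈ D i, ∃ l : F, z = l • v i := by
    intro i z hz
    obtain ⟨u, hu0, hu⟩ := finrank_eq_one_iff'.1 (hD.decomp.finrank_eq i)
    obtain ⟨c, hc⟩ := hu ⟨v i, hvm i⟩
    obtain ⟨c', hc'⟩ := hu ⟨z, hz⟩
    have hc1 : c • (u : Fin 4 → F) = v i := congrArg Subtype.val hc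
    have hc2 : c' • (u : Fin 4 → F) = z := congrArg Subtype.val hc'
    have hc0 : c ≠ 0 := by
      rintro rfl
      rw [zero_smul] at hc1
      have := hv1 i
      rw [← hc1, hs.zero_left] at this
      exact zero_ne_one this
    exact ⟨c' * c⁻¹, by rw [← hc1, smul_smul, mul_assoc, inv_mul_cancel₀ hc0, mul_one, hc2]⟩
  have hmono : ∀ {g : GL (Fin 4) F}, g ∈ decompositionStabilizer D → ∃ (σ : Equiv.Perm (Fin 4)) (l : Fin 4 → F),
      ∀ i, (g : Matrix (Fin 4) (Fin 4) F) *ᵥ v i = l i • v (σ i) := by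
    rintro g ⟨σ, hσ⟩
    have h5 : ∀ i, ∃ l : F, (g : Matrix (Fin 4) (Fin 4) F) *ᵥ v i = l • v (σ i) := by
      intro i
      apply hDv
      rw [← hσ i]
      exact ⟨v i, hvm i, by rw [Matrix.toLin'_apply]⟩
    choose l hl using h5
    exact ⟨σ, l, hl⟩
  have hdet4 := @det_mono4 F _ v 3 hv
  obtain ⟨f, hf⟩ : ∃ f, f = Cfsg.hermForm 4 F 3 := ⟨_, rfl⟩
  rw [← hf] at hs hv hexi
  have v00 := hv 0 0
  have v01 := hv 0 1
  have v02 := hv 0 2
  have v03 := hv 0 3
  have v10 := hv 1 0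
  have v11 := hv 1 1
  have v12 := hv 1 2
  have v13 := hv 1 3
  have v20 := hv 2 0
  have v21 := hv 2 1
  have v22 := hv 2 2
  have v23 := hv 2 3
  have v30 := hv 3 0
  have v31 := hv 3 1
  have v32 := hv 3 2
  have v33 := hv 3 3
  simp only [Fin.isValue, Fin.reduceEq, if_true, if_false, reduceIte] at v00 v01 v02 v03 v10 v11 v12 v13 v20 v21 v22 v23 v30 v31 v32 v33
  obtain ⟨u1, hu1⟩ : ∃ u1, u1 = v 0 + (1 + w) • v 1 := ⟨_, rfl⟩
  obtain ⟨u2, hu2⟩ : ∃ u2, u2 = v 2 + (1 + w) • v 3 := ⟨_, rfl⟩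
  have hτ1 : fq hF (1 + w) = 1 - w := by rw [map_add, map_one, hτw]; ring
  have fu1 : ∀ z, f z u1 = f z (v 0) + (1 - w) * f z (v 1) := by
    intro z
    rw [hu1, hs.add_right, hs.smul_right, hτ1]
  have fu2 : ∀ z, f z u2 = f z (v 2) + (1 - w) * f z (v 3) := by
    intro z
    rw [hu2, hs.add_right, hs.smul_right, hτ1]
  have g10 : f u1 (v 0) = 1 := by rw [hu1, hs.add_left, hs.smul_left, v00, v10]; ring
  have g11 : f u1 (v 1) = 1 + w := by rw [hu1, hs.add_left, hs.smul_left, v01, v11]; ring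
  have g12 : f u1 (v 2) = 0 := by rw [hu1, hs.add_left, hs.smul_left, v02, v12]; ring
  have g13 : f u1 (v 3) = 0 := by rw [hu1, hs.add_left, hs.smul_left, v03, v13]; ring
  have g20 : f u2 (v 0) = 0 := by rw [hu2, hs.add_left, hs.smul_left, v20, v30]; ring
  have g21 : f u2 (v 1) = 0 := by rw [hu2, hs.add_left, hs.smul_left, v21, v31]; ring
  have g22 : f u2 (v 2) = 1 := by rw [hu2, hs.add_left, hs.smul_left, v22, v32]; ring
  have g23 : f u2 (v 3) = 1 + w := by rw [hu2, hs.add_left, hs.smul_left, v23, v33]; ring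
  have f11 : f u1 u1 = 0 := by rw [fu1, g10, g11]; linear_combination -hw + h3
  have f22 : f u2 u2 = 0 := by rw [fu2, g22, g23]; linear_combination -hw + h3
  have f12 : f u1 u2 = 0 := by rw [fu2, g12, g13]; ring
  have f21 : f u2 u1 = 0 := by rw [fu1, g20, g21]; ring
  have h10 : ∀ {x y : Fin 4 → F}, f x y = 1 → x ≠ 0 := by
    rintro x y h1 rfl
    rw [hs.zero_left] at h1
    exact zero_ne_one h1
  obtain ⟨t1, ht1, ht1x⟩ := hexi u1 (h10 g10) f11
  obtain ⟨t2, ht2, ht2x⟩ := hexi u2 (h10 g22) f22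
  have htx : ∀ x, ((t1 * t2 : GL (Fin 4) F) : Matrix (Fin 4) (Fin 4) F) *ᵥ x = x + (w * f x u1) • u1 + (w * f x u2) • u2 := by
    intro x
    rw [Units.val_mul, ← Matrix.mulVec_mulVec, ht2x, ht1x, hs.add_left, hs.smul_left, f21, mul_zero, add_zero]
    abel
  -- coordinates of the image
  have hcoord : ∀ x, (fun i => f (((t1 * t2 : GL (Fin 4) F) : Matrix (Fin 4) (Fin 4) F) *ᵥ x) (v i)) =
      ![(1 + w) * (f x (v 0) + f x (v 1)), (2 + w) * (f x (v 0) - f x (v 1)), (1 + w) * (f x (v 2) + f x (v 3)),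
        (2 + w) * (f x (v 2) - f x (v 3))] := by
    intro x
    funext i
    have e1 : f (((t1 * t2 : GL (Fin 4) F) : Matrix (Fin 4) (Fin 4) F) *ᵥ x) (v i) =
        f x (v i) + w * f x u1 * f u1 (v i) + w * f x u2 * f u2 (v i) := by
      rw [htx, hs.add_left, hs.add_left, hs.smul_left, hs.smul_left]
    rw [e1, fu1, fu2]
    fin_cases i
    · show f x (v 0) + w * (f x (v 0) + (1 - w) * f x (v 1)) * f u1 (v 0) + w * (f x (v 2) + (1 - w) * f x (v 3)) * f u2 (v 0) =
        (1 + w) * (f x (v 0) + f x (v 1))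
      rw [g10, g20]
      linear_combination -(f x (v 1)) * hw
    · show f x (v 1) + w * (f x (v 0) + (1 - w) * f x (v 1)) * f u1 (v 1) + w * (f x (v 2) + (1 - w) * f x (v 3)) * f u2 (v 1) =
        (2 + w) * (f x (v 0) - f x (v 1))
      rw [g11, g21]
      linear_combination (f x (v 0) - w * f x (v 1)) * hw + (-(f x (v 0)) + (1 + w) * f x (v 1)) * h3
    · show f x (v 2) + w * (f x (v 0) + (1 - w) * f x (v 1)) * f u1 (v 2) + w * (f x (v 2) + (1 - w) * f x (v 3)) * f u2 (v 2) =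
        (1 + w) * (f x (v 2) + f x (v 3))
      rw [g12, g22]
      linear_combination -(f x (v 3)) * hw
    · show f x (v 3) + w * (f x (v 0) + (1 - w) * f x (v 1)) * f u1 (v 3) + w * (f x (v 2) + (1 - w) * f x (v 3)) * f u2 (v 3) =
        (2 + w) * (f x (v 2) - f x (v 3))
      rw [g13, g23]
      linear_combination (f x (v 2) - w * f x (v 3)) * hw + (-(f x (v 2)) + (1 + w) * f x (v 3)) * h3
  have htS : ∀ x, PW3 (fq hF) (fun i => f x (v i)) →
      PW3 (fq hF) (fun i => f (((t1 * t2 : GL (Fin 4) F) : Matrix (Fin 4) (Fin 4) F) *ᵥ x) (v i)) := by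
    intro x hx
    rw [hcoord]
    exact PW3_shift hF hw hτw hx
  have httt : ∀ x, ((t1 * t2 : GL (Fin 4) F) : Matrix (Fin 4) (Fin 4) F) *ᵥ (((t1 * t2 : GL (Fin 4) F) : Matrix (Fin 4) (Fin 4) F) *ᵥ
      (((t1 * t2 : GL (Fin 4) F) : Matrix (Fin 4) (Fin 4) F) *ᵥ x)) = x := by
    intro x
    have e1 : ∀ x, f (((t1 * t2 : GL (Fin 4) F) : Matrix (Fin 4) (Fin 4) F) *ᵥ x) u1 = f x u1 := by
      intro x
      rw [htx, hs.add_left, hs.add_left, hs.smul_left, hs.smul_left, f11, f21, mul_zero, mul_zero, add_zero, add_zero]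
    have e2 : ∀ x, f (((t1 * t2 : GL (Fin 4) F) : Matrix (Fin 4) (Fin 4) F) *ᵥ x) u2 = f x u2 := by
      intro x
      rw [htx, hs.add_left, hs.add_left, hs.smul_left, hs.smul_left, f12, f22, mul_zero, mul_zero, add_zero, add_zero]
    rw [htx (((t1 * t2 : GL (Fin 4) F) : Matrix (Fin 4) (Fin 4) F) *ᵥ (((t1 * t2 : GL (Fin 4) F) : Matrix (Fin 4) (Fin 4) F) *ᵥ x)),
      htx (((t1 * t2 : GL (Fin 4) F) : Matrix (Fin 4) (Fin 4) F) *ᵥ x), e1, e2]
    have e3 : f (((t1 * t2 : GL (Fin 4) F) : Matrix (Fin 4) (Fin 4) F) *ᵥ x + (w * f x u1) • u1 + (w * f x u2) • u2) u1 = f x u1 := by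
      rw [hs.add_left, hs.add_left, hs.smul_left, hs.smul_left, f11, f21, e1]; ring
    have e4 : f (((t1 * t2 : GL (Fin 4) F) : Matrix (Fin 4) (Fin 4) F) *ᵥ x + (w * f x u1) • u1 + (w * f x u2) • u2) u2 = f x u2 := by
      rw [hs.add_left, hs.add_left, hs.smul_left, hs.smul_left, f12, f22, e2]; ring
    rw [e3, e4, htx]
    funext i
    simp only [Pi.add_apply, Pi.smul_apply, smul_eq_mul]
    linear_combination (w * f x u1 * u1 i + w * f x u2 * u2 i) * h3
  have ht : t1 * t2 ∈ SUg 4 F 3 := Subgroup.mul_mem _ ht1 ht2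
  refine nonmax_set' {x | PW3 (fq hF) (fun i => f x (v i))} inf_le_right ?_ ht ?_ ?_ ht1 (x := v 0 + v 1 + v 2 + v 3) ?_ ?_
  · intro g hg x hx
    obtain ⟨hgD, hgS⟩ := Subgroup.mem_inf.1 hg
    obtain ⟨σ, l, hl⟩ := hmono hgD
    have hiso : ∀ x y, f ((g : Matrix (Fin 4) (Fin 4) F) *ᵥ x) ((g : Matrix (Fin 4) (Fin 4) F) *ᵥ y) = f x y := by
      rw [hf]
      exact fx_GU g (Subgroup.mem_inf.1 hgS).1
    have hdet := det_of_SL' (Subgroup.mem_inf.1 hgS).2
    have hl1 : ∀ i, l i * fq hF (l i) = 1 := by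
      intro i
      have h5 := hiso (v i) (v i)
      rw [hl i, hs.smul_left, hs.smul_right, hv, hv, if_pos rfl, if_pos rfl, mul_one] at h5
      exact h5
    have hpr := hdet4 hl
    rw [hdet, one_mul] at hpr
    refine PW3_mono (σ := σ) (l := l) hl1 hpr.symm ?_ hx
    intro i
    have h5 := hiso x (v i)
    rw [hl i, hs.smul_right] at h5
    show f ((g : Matrix (Fin 4) (Fin 4) F) *ᵥ x) (v (σ i)) = l i * f x (v i)
    linear_combination l i * h5 - f ((g : Matrix (Fin 4) (Fin 4) F) *ᵥ x) (v (σ i)) * hl1 i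
  · intro htH
    obtain ⟨σ, l, hl⟩ := hmono (Subgroup.mem_inf.1 htH).1
    have h5 := hcoord (v 0)
    rw [hl 0] at h5
    have h6 := congrFun h5 0
    have h7 := congrFun h5 1
    have e1 : (![(1 + w) * (f (v 0) (v 0) + f (v 0) (v 1)), (2 + w) * (f (v 0) (v 0) - f (v 0) (v 1)), (1 + w) * (f (v 0) (v 2) + f (v 0) (v 3)),
        (2 + w) * (f (v 0) (v 2) - f (v 0) (v 3))] : Fin 4 → F) 0 = 1 + w := by
      show (1 + w) * (f (v 0) (v 0) + f (v 0) (v 1)) = 1 + w
      rw [v00, v01]; ring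
    have e2 : (![(1 + w) * (f (v 0) (v 0) + f (v 0) (v 1)), (2 + w) * (f (v 0) (v 0) - f (v 0) (v 1)), (1 + w) * (f (v 0) (v 2) + f (v 0) (v 3)),
        (2 + w) * (f (v 0) (v 2) - f (v 0) (v 3))] : Fin 4 → F) 1 = 2 + w := by
      show (2 + w) * (f (v 0) (v 0) - f (v 0) (v 1)) = 2 + w
      rw [v00, v01]; ring
    rw [e1] at h6
    rw [e2] at h7
    simp only [hs.smul_left, hv] at h6 h7
    have n1 : (1 + w) ≠ 0 := by
      intro h0
      have : (1 : F) = 0 := by linear_combination (1 - w) * h0 * (-1) + 0 * hw + (h3) - (hw) * 1 + 0 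
      exact one_ne_zero this
    have n2 : (2 + w) ≠ 0 := by
      intro h0
      have : (1 : F) = 0 := by linear_combination (w - 2) * h0 - hw + 2 * h3
      exact one_ne_zero this
    by_cases hσ : σ 0 = 0
    · rw [hσ, if_neg (by decide), mul_zero] at h7
      exact n2 h7.symm
    · rw [if_neg hσ, mul_zero] at h6
      exact n1 h6.symm
  · intro x
    constructor
    · intro hx
      have h5 := htS _ (htS _ hx)
      rw [httt] at h5
      exact h5
    · intro hx
      exact htS x hx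
  · show PW3 _ _
    rw [PW3_of (x := fun _ => (1, 0)) hF hw hτw]
    · decide
    · intro i
      fin_cases i
      · show f (v 0 + v 1 + v 2 + v 3) (v 0) = q9 w (1, 0)
        rw [hs.add_left, hs.add_left, hs.add_left, v00, v10, v20, v30]; simp [q9]
      · show f (v 0 + v 1 + v 2 + v 3) (v 1) = q9 w (1, 0)
        rw [hs.add_left, hs.add_left, hs.add_left, v01, v11, v21, v31]; simp [q9]
      · show f (v 0 + v 1 + v 2 + v 3) (v 2) = q9 w (1, 0)
        rw [hs.add_left, hs.add_left, hs.add_left, v02, v12, v22, v32]; simp [q9]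
      · show f (v 0 + v 1 + v 2 + v 3) (v 3) = q9 w (1, 0)
        rw [hs.add_left, hs.add_left, hs.add_left, v03, v13, v23, v33]; simp [q9]
  · intro hx
    have hx' : PW3 (fq hF) (fun i => f ((t1 : Matrix (Fin 4) (Fin 4) F) *ᵥ (v 0 + v 1 + v 2 + v 3)) (v i)) := hx
    have e0 : f (v 0 + v 1 + v 2 + v 3) u1 = 2 - w := by
      rw [fu1]
      simp only [hs.add_left, v00, v10, v20, v30, v01, v11, v21, v31]
      ring
    have e1 : ∀ z, f ((t1 : Matrix (Fin 4) (Fin 4) F) *ᵥ (v 0 + v 1 + v 2 + v 3)) z = f (v 0) z + f (v 1) z + f (v 2) z + f (v 3) z + (w * (2 - w)) * f u1 z := by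
      intro z
      rw [ht1x, hs.add_left, hs.smul_left, e0]
      simp only [hs.add_left]
    rw [PW3_of (x := ![(2, 2), (0, 0), (1, 0), (1, 0)]) hF hw hτw] at hx'
    · revert hx'
      decide
    · intro i
      fin_cases i
      · show f ((t1 : Matrix (Fin 4) (Fin 4) F) *ᵥ (v 0 + v 1 + v 2 + v 3)) (v 0) = q9 w (2, 2)
        rw [e1, v00, v10, v20, v30, g10]
        unfold q9
        push_cast
        linear_combination -hw
      · show f ((t1 : Matrix (Fin 4) (Fin 4) F) *ᵥ (v 0 + v 1 + v 2 + v 3)) (v 1) = q9 w (0, 0)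
        rw [e1, v01, v11, v21, v31, g11]
        unfold q9
        push_cast
        linear_combination (1 - w) * hw + w * h3
      · show f ((t1 : Matrix (Fin 4) (Fin 4) F) *ᵥ (v 0 + v 1 + v 2 + v 3)) (v 2) = q9 w (1, 0)
        rw [e1, v02, v12, v22, v32, g12]
        simp [q9]
      · show f ((t1 : Matrix (Fin 4) (Fin 4) F) *ᵥ (v 0 + v 1 + v 2 + v 3)) (v 3) = q9 w (1, 0)
        rw [e1, v03, v13, v23, v33, g13]
        simp [q9]

end Cfsg.Agent.H29.Vf
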