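import Mathlib
import Cfsg.Agent.H29_Wr4

set_option autoImplicit false

/-! tensor powers of the group of order 27, III -/

namespace Cfsg.Agent.H29.Fm

open Matrix Module Cfsg.Geo Cfsg.Agent.H29.Clifford Cfsg.Agent.H29.Asc Cfsg.Agent.H29.AscF Cfsg.Agent.H29.Trv
  Cfsg.Agent.H29.AscT
open scoped commutatorElement Kronecker

variable {F : Type*} [Field F] {n k m r t w : ℕ}
variable {τ : F ≃+* F}

/-- minimality -/
theorem E3_min [Fintype F] (hF : Fintype.card F = 4) (hτ2 : ∀ x, τ x = x ^ 2)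
    {M : Subgroup (GL (Fin t → Fin 3) F)} (hsc : scalars (Fin t → Fin 3) F ≤ M) (hM : M ≤ E3 t F)
    (hn : ∀ g ∈ G3 τ t, ∀ x ∈ M, g * x * g⁻¹ ∈ M) : M ≤ scalars (Fin t → Fin 3) F ∨ E3 t F ≤ M := by
  classical
  by_cases hs : M ≤ scalars (Fin t → Fin 3) F
  · exact Or.inl hs
  right
  obtain ⟨x, hx, hxs⟩ := SetLike.not_le_iff_exists.1 hs
  obtain ⟨A, hA, rfl⟩ := mem_E3.1 (hM hx)
  -- a nonscalar component
  obtain ⟨i, hi⟩ : ∃ i, A i ∉ scalars (Fin 3) F := by
    by_contra hcon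
    push Not at hcon
    apply hxs
    have h1 : ∀ i, ∃ c : Fˣ, (A i : Matrix (Fin 3) (Fin 3) F) = (c : F) • (1 : Matrix (Fin 3) (Fin 3) F) := fun i =>
      (mem_scalars_iff _).1 (hcon i)
    choose c hc using h1
    apply mem_scalars_mat (c := ∏ i, (c i : F)) (Finset.prod_ne_zero_iff.2 (fun i _ => (c i).ne_zero))
    rw [gK_coe]
    have h2 : (fun i => (A i : Matrix (Fin 3) (Fin 3) F)) = fun i => (c i : F) • (1 : Fin t → Matrix (Fin 3) (Fin 3) F) i := by
      funext i
      rw [hc i, Pi.one_apply]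
    rw [h2, K_smul, K_one]
  let N : Fin t → Subgroup (GL (Fin 3) F) := fun j => (M.comap (gKh t 3 F)).comap (MonoidHom.mulSingle (fun _ => GL (Fin 3) F) j)
  have hNmem : ∀ j (g : GL (Fin 3) F), g ∈ N j ↔ gK (Pi.mulSingle j g) ∈ M := fun j g => Iff.rfl
  have hUsingle : ∀ j (B : GL (Fin 3) F), B ∈ (Un τ : Subgroup (GL (Fin 3) F)) →
      gK (Pi.mulSingle j B : Fin t → GL (Fin 3) F) ∈ G3 τ t := by
    intro j B hB
    apply gK_G3
    intro l
    by_cases hl : l = j
    · subst hl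
      rw [Pi.mulSingle_eq_same]
      exact hB
    · rw [Pi.mulSingle_eq_of_ne hl]
      exact (Un τ).one_mem
  -- scalars
  have hNsc : ∀ j, scalars (Fin 3) F ≤ N j := by
    intro j g hg
    rw [mem_scalars_iff] at hg
    obtain ⟨c, hc⟩ := hg
    rw [hNmem]
    apply hsc
    apply mem_scalars_mat c.ne_zero
    rw [gK_coe]
    have h1 : (fun i => ((Pi.mulSingle j g : Fin t → GL (Fin 3) F) i : Matrix (Fin 3) (Fin 3) F)) =
        fun i => (if i = j then (c : F) else 1) • (1 : Fin t → Matrix (Fin 3) (Fin 3) F) i := by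
      funext i
      by_cases hi : i = j
      · subst hi
        rw [Pi.mulSingle_eq_same, if_pos rfl, hc, Pi.one_apply]
      · rw [Pi.mulSingle_eq_of_ne hi, if_neg hi, one_smul, Units.val_one, Pi.one_apply]
    rw [h1, K_smul, K_one, Finset.prod_ite_eq' Finset.univ j (fun _ => (c : F)), if_pos (Finset.mem_univ _)]
  -- normality
  have hNn : ∀ j, ∀ B ∈ (Un τ : Subgroup (GL (Fin 3) F)), ∀ y ∈ N j, B * y * B⁻¹ ∈ N j := by
    intro j B hB y hy
    rw [hNmem] at hy ⊢
    have h1 := hn _ (hUsingle j B hB) _ hy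
    rw [← gK_inv, ← gK_mul, ← gK_mul, ← Pi.mulSingle_inv, ← Pi.mulSingle_mul, ← Pi.mulSingle_mul] at h1
    exact h1
  -- the component
  have hcomp : H3 F ≤ N i := by
    have h1 : A i * (jn F * (A i)⁻¹ * (jn F)⁻¹) ∈ N i := by
      rw [hNmem]
      have h2 := hn _ (hUsingle i (jn F) jn_Un) _ (M.inv_mem hx)
      have h3 := M.mul_mem hx h2
      rw [← gK_inv, ← gK_inv, ← gK_mul, ← gK_mul, ← gK_mul] at h3
      have h4 : A * (Pi.mulSingle i (jn F) * A⁻¹ * (Pi.mulSingle i (jn F))⁻¹) =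
          (Pi.mulSingle i (A i * (jn F * (A i)⁻¹ * (jn F)⁻¹)) : Fin t → GL (Fin 3) F) := by
        funext l
        by_cases hl : l = i
        · subst hl
          simp only [Pi.mul_apply, Pi.inv_apply, Pi.mulSingle_eq_same]
        · simp only [Pi.mul_apply, Pi.inv_apply, Pi.mulSingle_eq_of_ne hl]
          group
      rwa [h4] at h3
    refine H3_min hF hτ2 (hNsc i) (hNn i) (g := A i * (jn F * (A i)⁻¹ * (jn F)⁻¹)) ?_ h1 (H3_jn hF (hA i) hi)
    exact (H3 F).mul_mem (hA i) (H3_normal hF hτ2 jn_Un ((H3 F).inv_mem (hA i)))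
  have hall : ∀ j, H3 F ≤ N j := by
    intro j g hg
    have h1 := (hNmem i g).1 (hcomp hg)
    have h2 := hn _ (gP_G3 (τ := τ) (Equiv.swap i j)) _ h1
    rw [gP_conj] at h2
    rw [hNmem]
    have h3 : (Pi.mulSingle i g : Fin t → GL (Fin 3) F) ∘ (Equiv.swap i j).symm = Pi.mulSingle j g := by
      funext l
      rw [Function.comp_apply, Equiv.symm_swap]
      by_cases hl : l = j
      · subst hl
        rw [Equiv.swap_apply_right, Pi.mulSingle_eq_same, Pi.mulSingle_eq_same]
      · rw [Pi.mulSingle_eq_of_ne hl]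
        by_cases hl' : l = i
        · subst hl'
          rw [Equiv.swap_apply_left, Pi.mulSingle_eq_of_ne (Ne.symm hl)]
        · rw [Equiv.swap_apply_of_ne_of_ne hl' hl, Pi.mulSingle_eq_of_ne hl']
    rwa [h3] at h2
  intro y hy
  obtain ⟨B, hB, rfl⟩ := mem_E3.1 hy
  show B ∈ M.comap (gKh t 3 F)
  apply Subgroup.pi_mem_of_mulSingle_mem
  intro j
  exact hall j (hB j)

/-- the group spans all matrices -/
theorem E3_span [Fintype F] (hF : Fintype.card F = 4) (M : Matrix (Fin t → Fin 3) (Fin t → Fin 3) F) :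
    M ∈ Submodule.span F {A : Matrix (Fin t → Fin 3) (Fin t → Fin 3) F | ∃ x ∈ E3 t F, (x : Matrix (Fin t → Fin 3) (Fin t → Fin 3) F) = A} := by
  classical
  obtain ⟨ω, hω0, hω1, hω3, hω⟩ := exists_omega hF
  have key : ∀ x y : Fin t → Fin 3, Matrix.single x y (1 : F) ∈
      Submodule.span F {A : Matrix (Fin t → Fin 3) (Fin t → Fin 3) F | ∃ x ∈ E3 t F, (x : Matrix (Fin t → Fin 3) (Fin t → Fin 3) F) = A} := by
    intro x y
    have h1 : Matrix.single x y (1 : F) = ∑ φ : Fin t → Fin 3, (∏ i, ω ^ (2 * (φ i : ℕ) * (y i : ℕ))) •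
        K (fun i => Mz (x i - y i) 1 (ω ^ (φ i : ℕ))) := by
      ext p q
      rw [Matrix.sum_apply]
      have h2 : Matrix.single x y (1 : F) p q = ∏ i, (Matrix.single (x i) (y i) (1 : F) : Matrix (Fin 3) (Fin 3) F) (p i) (q i) := by
        rw [Matrix.single_apply]
        by_cases h : x = p ∧ y = q
        · obtain ⟨rfl, rfl⟩ := h
          rw [if_pos ⟨rfl, rfl⟩]
          symm
          apply Finset.prod_eq_one
          intro i _
          rw [Matrix.single_apply, if_pos ⟨rfl, rfl⟩]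
        · rw [if_neg h]
          symm
          have : ∃ i, ¬ (x i = p i ∧ y i = q i) := by
            by_contra hc
            push Not at hc
            exact h ⟨funext fun i => (hc i).1, funext fun i => (hc i).2⟩
          obtain ⟨i, hi⟩ := this
          apply Finset.prod_eq_zero (Finset.mem_univ i)
          rw [Matrix.single_apply, if_neg hi]
      rw [h2]
      have h3 : ∀ i, (Matrix.single (x i) (y i) (1 : F) : Matrix (Fin 3) (Fin 3) F) (p i) (q i) =
          ∑ c : Fin 3, ω ^ (2 * (c : ℕ) * (y i : ℕ)) * Mz (x i - y i) 1 (ω ^ (c : ℕ)) (p i) (q i) := by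
        intro i
        rw [single_eq hF hω, Matrix.sum_apply]
        rfl
      rw [Finset.prod_congr rfl (fun i _ => h3 i), Finset.prod_univ_sum]
      apply Finset.sum_congr
      · ext z; simp
      · intro φ _
        rw [Matrix.smul_apply, K_apply, smul_eq_mul, Finset.prod_mul_distrib]
    rw [h1]
    refine Submodule.sum_mem _ (fun φ _ => Submodule.smul_mem _ _ (Submodule.subset_span ?_))
    have hp : ∀ c : ℕ, (ω ^ c) ^ 3 = 1 := fun c => by rw [← pow_mul, mul_comm, pow_mul, hω3, one_pow]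
    exact ⟨gK (fun i => hz (x i - y i) (hp (φ i : ℕ))), mem_E3.2 ⟨_, fun i => hz_mem _ _, rfl⟩, rfl⟩
  rw [Matrix.matrix_eq_sum_single M]
  refine Submodule.sum_mem _ (fun x _ => Submodule.sum_mem _ (fun y _ => ?_))
  have : Matrix.single x y (M x y) = M x y • Matrix.single x y (1 : F) := by
    rw [Matrix.smul_single, smul_eq_mul, mul_one]
  rw [this]
  exact Submodule.smul_mem _ _ (key x y)

end Cfsg.Agent.H29.Fm
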