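import Mathlib
import Cfsg.Agent.H29_Wr5

set_option autoImplicit false

/-! tensor powers of the group of order 27, IV -/

namespace Cfsg.Agent.H29.Fm

open Matrix Module Cfsg.Geo Cfsg.Agent.H29.Clifford Cfsg.Agent.H29.Asc Cfsg.Agent.H29.AscF Cfsg.Agent.H29.Trv
  Cfsg.Agent.H29.AscT
open scoped commutatorElement Kronecker

variable {F : Type*} [Field F] {n k m r t w : ℕ}
variable {τ : F ≃+* F} {f : (Fin n → F) → (Fin n → F) → F}

/-- transport of coordinates -/
def Ph {κ : Type} [Fintype κ] [DecidableEq κ] (e : Fin n ≃ κ) (P : GL (Fin n) F) : GL κ F →* GL (Fin n) F :=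
  (MulAut.conj P).toMonoidHom.comp (glReindex e.symm).toMonoidHom

theorem Ph_apply {κ : Type} [Fintype κ] [DecidableEq κ] (e : Fin n ≃ κ) (P : GL (Fin n) F) (x : GL κ F) :
    Ph e P x = P * glReindex e.symm x * P⁻¹ := rfl

theorem Ph_inj {κ : Type} [Fintype κ] [DecidableEq κ] (e : Fin n ≃ κ) (P : GL (Fin n) F) : Function.Injective (Ph e P) :=
  (MulAut.conj P).injective.comp (glReindex e.symm).injective

theorem Ph_scalar {κ : Type} [Fintype κ] [DecidableEq κ] (e : Fin n ≃ κ) (P : GL (Fin n) F) {x : GL κ F} :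
    Ph e P x ∈ scalars (Fin n) F ↔ x ∈ scalars κ F := by
  rw [mem_scalars_iff, mem_scalars_iff]
  have key : ∀ c : Fˣ, (x : Matrix κ κ F) = (c : F) • (1 : Matrix κ κ F) →
      ((Ph e P x : GL (Fin n) F) : Matrix (Fin n) (Fin n) F) = (c : F) • (1 : Matrix (Fin n) (Fin n) F) := by
    intro c hc
    rw [Ph_apply, Units.val_mul, Units.val_mul]
    have h1 : ((glReindex e.symm x : GL (Fin n) F) : Matrix (Fin n) (Fin n) F) = (c : F) • 1 := by
      show (x : Matrix κ κ F).submatrix e e = _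
      rw [hc]
      ext i j
      rw [Matrix.submatrix_apply, Matrix.smul_apply, Matrix.smul_apply, Matrix.one_apply, Matrix.one_apply]
      congr 1
      by_cases hij : i = j
      · subst hij; rw [if_pos rfl, if_pos rfl]
      · rw [if_neg hij, if_neg (fun h => hij (e.injective h))]
    rw [h1, Matrix.mul_smul, mul_one, Matrix.smul_mul, ← Units.val_mul, mul_inv_cancel, Units.val_one]
  constructor
  · rintro ⟨c, hc⟩
    refine ⟨c, ?_⟩
    have h1 : glReindex e.symm x = P⁻¹ * Ph e P x * P := by rw [Ph_apply]; group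
    have h2 : ((glReindex e.symm x : GL (Fin n) F) : Matrix (Fin n) (Fin n) F) = (c : F) • 1 := by
      rw [h1, Units.val_mul, Units.val_mul, hc, Matrix.mul_smul, mul_one, Matrix.smul_mul, ← Units.val_mul, inv_mul_cancel,
        Units.val_one]
    have h3 : (x : Matrix κ κ F).submatrix e e = (c : F) • 1 := h2
    ext i j
    have h4 := congrFun (congrFun h3 (e.symm i)) (e.symm j)
    rw [Matrix.submatrix_apply, Equiv.apply_symm_apply, Equiv.apply_symm_apply] at h4
    rw [h4, Matrix.smul_apply, Matrix.smul_apply, Matrix.one_apply, Matrix.one_apply]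
    congr 1
    by_cases hij : i = j
    · subst hij; rw [if_pos rfl, if_pos rfl]
    · rw [if_neg hij, if_neg (fun h => hij (e.symm.injective h))]
  · rintro ⟨c, hc⟩
    exact ⟨c, key c hc⟩

theorem tensorWreath_eq (e : Fin n ≃ (Fin t → Fin m)) (P : GL (Fin n) F) :
    tensorWreathSubgroup m t e P = (tensorWreathStandard m t F).map (Ph e P) := by
  unfold tensorWreathSubgroup Ph
  rw [Subgroup.map_map]

/-- coordinates and unitary elements -/
theorem Ph_iso {κ : Type} [Fintype κ] [DecidableEq κ] {e : Fin n ≃ κ} {P : GL (Fin n) F} {c : F} (hc : c ≠ 0)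
    (H : ∀ x y : κ → F, f ((P : Matrix (Fin n) (Fin n) F) *ᵥ (x ∘ e))
      ((P : Matrix (Fin n) (Fin n) F) *ᵥ (y ∘ e)) = c * formOfGram τ 1 x y) {x : GL κ F} :
    (∀ u v, f (((Ph e P x : GL (Fin n) F) : Matrix (Fin n) (Fin n) F) *ᵥ u)
      (((Ph e P x : GL (Fin n) F) : Matrix (Fin n) (Fin n) F) *ᵥ v) = f u v) ↔ x ∈ (Un τ : Subgroup (GL κ F)) := by
  have h0 : ∀ u v : κ → F, f (((Ph e P x : GL (Fin n) F) : Matrix (Fin n) (Fin n) F) *ᵥ ((P : Matrix (Fin n) (Fin n) F) *ᵥ (u ∘ e)))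
      (((Ph e P x : GL (Fin n) F) : Matrix (Fin n) (Fin n) F) *ᵥ ((P : Matrix (Fin n) (Fin n) F) *ᵥ (v ∘ e))) =
      c * formOfGram τ ((x : Matrix κ κ F)ᵀ * (x : Matrix κ κ F).map τ) u v := by
    intro u v
    rw [Ph_apply, coord_mul, coord_mul, H, conj_sum, mul_one]
  constructor
  · intro h
    rw [mem_Un]
    have h1 : formOfGram τ ((x : Matrix κ κ F)ᵀ * (x : Matrix κ κ F).map τ) = formOfGram τ (1 : Matrix κ κ F) := by
      funext u v
      have h2 := h ((P : Matrix (Fin n) (Fin n) F) *ᵥ (u ∘ e)) ((P : Matrix (Fin n) (Fin n) F) *ᵥ (v ∘ e))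
      rw [h0, H] at h2
      exact mul_left_cancel₀ hc h2
    have h3 := congrArg gramMatrix h1
    rwa [gram_formOfGram, gram_formOfGram] at h3
  · intro h u v
    rw [mem_Un] at h
    have key : ∀ u : Fin n → F, u = (P : Matrix (Fin n) (Fin n) F) *ᵥ
        (((((P⁻¹ : GL (Fin n) F) : Matrix (Fin n) (Fin n) F) *ᵥ u) ∘ e.symm) ∘ e) := by
      intro u
      have : ((((P⁻¹ : GL (Fin n) F) : Matrix (Fin n) (Fin n) F) *ᵥ u) ∘ e.symm) ∘ e =
          (((P⁻¹ : GL (Fin n) F) : Matrix (Fin n) (Fin n) F) *ᵥ u) := by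
        funext i
        simp
      rw [this, self_inv_mulVec]
    rw [key u, key v, h0, h, H]

theorem ST_wr [Fintype F] (hF : Fintype.card F = 4) (hτ2 : ∀ x, τ x = x ^ 2) (hinv : ∀ a, τ (τ a) = a) (ht : 0 < t)
    (e : Fin n ≃ (Fin t → Fin 3)) (P : GL (Fin n) F) :
    ST 3 ((G3 τ t).map (Ph e P)) ((E3 t F).map (Ph e P)) := by
  have hsur : ∀ c : Fˣ, ∃ y ∈ scalars (Fin t → Fin 3) F, Ph e P y = sc n F c := by
    intro c
    refine ⟨Units.map (Matrix.scalar (Fin t → Fin 3) : F →+* Matrix (Fin t → Fin 3) (Fin t → Fin 3) F).toMonoidHom c, ⟨c, rfl⟩, ?_⟩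
    apply Units.ext
    rw [Ph_apply, Units.val_mul, Units.val_mul, sc_coe]
    have h1 : ((glReindex e.symm (Units.map (Matrix.scalar (Fin t → Fin 3) : F →+* Matrix (Fin t → Fin 3) (Fin t → Fin 3) F).toMonoidHom c) :
        GL (Fin n) F) : Matrix (Fin n) (Fin n) F) = (c : F) • 1 := by
      show (Matrix.scalar (Fin t → Fin 3) (c : F) : Matrix (Fin t → Fin 3) (Fin t → Fin 3) F).submatrix e e = _
      ext i j
      rw [Matrix.submatrix_apply, Matrix.scalar_apply, Matrix.diagonal_apply, Matrix.smul_apply, Matrix.one_apply, smul_eq_mul]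
      by_cases hij : i = j
      · subst hij; rw [if_pos rfl, if_pos rfl, mul_one]
      · rw [if_neg hij, if_neg (fun h => hij (e.injective h)), mul_zero]
    rw [h1, Matrix.mul_smul, mul_one, Matrix.smul_mul, ← Units.val_mul, mul_inv_cancel, Units.val_one]
  refine ⟨by norm_num, ?_, ?_, ?_, ?_, ?_, ?_⟩
  · rintro _ ⟨c, rfl⟩
    obtain ⟨y, hy, hyc⟩ := hsur c
    exact ⟨y, E3_scalars hF ht hy, hyc⟩
  · rintro _ ⟨g, hg, rfl⟩ _ ⟨x, hx, rfl⟩
    refine ⟨g * x * g⁻¹, E3_normal hF hτ2 hinv hg hx, ?_⟩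
    rw [map_mul, map_mul, map_inv]
  · rintro _ ⟨x, hx, rfl⟩ _ ⟨y, hy, rfl⟩
    rw [← map_commutatorElement, Ph_scalar]
    obtain ⟨c, hc, hxy⟩ := E3_comm hF hx hy
    apply mem_scalars_mat hc
    have h1 : ⁅x, y⁆ = (x * y) * (y * x)⁻¹ := by rw [commutatorElement_def]; group
    rw [h1, Units.val_mul, hxy, Matrix.smul_mul, ← Units.val_mul, mul_inv_cancel, Units.val_one]
  · rintro _ ⟨x, hx, rfl⟩
    rw [← map_pow, E3_cube hF hx, map_one]
    exact Subgroup.one_mem _
  · rw [eq_top_iff]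
    intro X _
    let Λ : Matrix (Fin t → Fin 3) (Fin t → Fin 3) F →ₗ[F] Module.End F (Fin n → F) :=
      { toFun := fun N => tl n F ((P : Matrix (Fin n) (Fin n) F) * N.submatrix e e * ((P⁻¹ : GL (Fin n) F) : Matrix (Fin n) (Fin n) F))
        map_add' := by
          intro A B
          rw [Matrix.submatrix_add, Pi.add_apply, Pi.add_apply, mul_add, add_mul, map_add]
        map_smul' := by
          intro c A
          rw [Matrix.submatrix_smul, Pi.smul_apply, Pi.smul_apply, Matrix.mul_smul, Matrix.smul_mul, map_smul]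
          rfl }
    obtain ⟨M, rfl⟩ := (tl n F).surjective X
    let N : Matrix (Fin t → Fin 3) (Fin t → Fin 3) F :=
      (((P⁻¹ : GL (Fin n) F) : Matrix (Fin n) (Fin n) F) * M * (P : Matrix (Fin n) (Fin n) F)).submatrix e.symm e.symm
    have hN : Λ N = tl n F M := by
      show tl n F ((P : Matrix (Fin n) (Fin n) F) * N.submatrix e e * ((P⁻¹ : GL (Fin n) F) : Matrix (Fin n) (Fin n) F)) = _
      congr 1
      have h1 : N.submatrix e e = ((P⁻¹ : GL (Fin n) F) : Matrix (Fin n) (Fin n) F) * M * (P : Matrix (Fin n) (Fin n) F) := by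
        ext i j
        simp [N]
      have h2 : (P : Matrix (Fin n) (Fin n) F) * ((P⁻¹ : GL (Fin n) F) : Matrix (Fin n) (Fin n) F) = 1 := by
        rw [← Units.val_mul, mul_inv_cancel, Units.val_one]
      rw [h1]
      calc (P : Matrix (Fin n) (Fin n) F) * (((P⁻¹ : GL (Fin n) F) : Matrix (Fin n) (Fin n) F) * M * (P : Matrix (Fin n) (Fin n) F)) *
            ((P⁻¹ : GL (Fin n) F) : Matrix (Fin n) (Fin n) F)
          = ((P : Matrix (Fin n) (Fin n) F) * ((P⁻¹ : GL (Fin n) F) : Matrix (Fin n) (Fin n) F)) * M *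
            ((P : Matrix (Fin n) (Fin n) F) * ((P⁻¹ : GL (Fin n) F) : Matrix (Fin n) (Fin n) F)) := by simp only [mul_assoc]
        _ = M := by rw [h2, one_mul, mul_one]
    rw [← hN]
    have h3 := E3_span hF N
    have h4 : Λ N ∈ Submodule.map Λ (Submodule.span F {A : Matrix (Fin t → Fin 3) (Fin t → Fin 3) F |
        ∃ x ∈ E3 t F, (x : Matrix (Fin t → Fin 3) (Fin t → Fin 3) F) = A}) := ⟨N, h3, rfl⟩
    rw [Submodule.map_span] at h4
    have h5 : Submodule.span F (Λ '' {A : Matrix (Fin t → Fin 3) (Fin t → Fin 3) F |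
        ∃ x ∈ E3 t F, (x : Matrix (Fin t → Fin 3) (Fin t → Fin 3) F) = A}) ≤
        Subalgebra.toSubmodule (Asc.env ((E3 t F).map (Ph e P))) := by
      rw [Submodule.span_le]
      rintro _ ⟨_, ⟨x, hx, rfl⟩, rfl⟩
      exact mem_env (x := Ph e P x) ⟨x, hx, rfl⟩
    exact h5 h4
  · intro M hM1 hM2 hM3
    have h1 := E3_min hF hτ2 (M := M.comap (Ph e P)) (by
      intro x hx
      exact hM1 ((Ph_scalar e P).2 hx)) (by
      intro x hx
      obtain ⟨y, hy, hyx⟩ := hM2 hx
      rwa [← Ph_inj e P hyx]) (by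
      intro g hg x hx
      rw [Subgroup.mem_comap, map_mul, map_mul, map_inv]
      exact hM3 _ ⟨g, hg, rfl⟩ _ hx)
    rcases h1 with h1 | h1
    · left
      intro x hx
      obtain ⟨y, hy, rfl⟩ := hM2 hx
      rw [Ph_scalar]
      exact h1 hx
    · right
      rintro _ ⟨y, hy, rfl⟩
      exact h1 hy

end Cfsg.Agent.H29.Fm
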