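import Mathlib
import Cfsg.Agent.H29_Wr6

set_option autoImplicit false

/-! tensor powers of dimension three over the field with four elements -/

namespace Cfsg.Agent.H29.Fm

open Matrix Module Cfsg.Geo Cfsg.Agent.H29.Clifford Cfsg.Agent.H29.Asc Cfsg.Agent.H29.AscF Cfsg.Agent.H29.Trv
  Cfsg.Agent.H29.AscT
open scoped commutatorElement Kronecker

variable {F : Type*} [Field F] {n k m r t w : ℕ}
variable {τ : F ≃+* F} {f : (Fin n → F) → (Fin n → F) → F} {G : Subgroup (GL (Fin n) F)}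

theorem wr23_of [Fintype F] (hn : 3 ≤ n) (h : SFm τ 1 f) (hne : τ ≠ RingEquiv.refl F) (hF : Fintype.card F = 2 ^ 2)
    (hτ2 : ∀ x, τ x = x ^ 2) (hfix : Fx f G)
    (sub1 : ∀ (F₀ : Subfield F) (r : ℕ) (P : GL (Fin n) F), r.Prime → Odd r → Fintype.card F = Nat.card F₀ ^ r →
      IsFormRationalStructure f F₀ 1 P → ¬ G ≤ subfieldSubgroup F₀ P)
    (sub2 : ∀ (F₀ : Subfield F) (P : GL (Fin n) F), Odd 2 → Fintype.card F = Nat.card F₀ ^ 2 →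
      IsFormRationalStructure f F₀ 1 P → ¬ G ≤ subfieldSubgroup F₀ P)
    (sub3 : ∀ (F₀ : Subfield F) (P : GL (Fin n) F) (ζ : F), Even n → Fintype.card F = Nat.card F₀ ^ 2 → ζ ≠ 0 →
      ζ + ζ ^ 2 = 0 → IsFormRationalStructure f F₀ ζ P →
      (∀ u : Fin n → F, (∀ i, u i ∈ F₀) → f ((P : Matrix (Fin n) (Fin n) F) *ᵥ u)
        ((P : Matrix (Fin n) (Fin n) F) *ᵥ u) = 0) → ¬ G ≤ subfieldSubgroup F₀ P)
    (sty : ∀ (r : ℕ) (R : Subgroup (GL (Fin n) F)) (p e k : ℕ), IsSymplecticTypeGroup r R →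
        ActsAbsolutelyIrreducibly (matrixSet R) → R ≤ similarityGroup f → r ≠ p →
        IsMinimalFieldFor (Nat.card (Subgroup.center R)) p e F →
        ((Odd r ∧ Nat.card (Subgroup.center R) = r ∧ 1 ≤ k ∧ Nat.card R = r ^ (1 + 2 * k)) ∨
         (r = 2 ∧ e = 2 ∧ Nat.card (Subgroup.center R) = 4 ∧ Nat.card R = 2 ^ (2 + 2 * k))) → n = r ^ k →
        env R = ⊤ → (∀ x ∈ R, ∀ y ∈ R, ⁅x, y⁆ ∈ scalars (Fin n) F) → ¬ G ≤ subgroupNormalizer R)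
    (t : ℕ) (e : Fin n ≃ (Fin t → Fin 3)) (P : GL (Fin n) F) (c : F) (ht : 2 ≤ t) (hc : c ≠ 0)
    (H : ∀ x y : (Fin t → Fin 3) → F, f ((P : Matrix (Fin n) (Fin n) F) *ᵥ (x ∘ e))
      ((P : Matrix (Fin n) (Fin n) F) *ᵥ (y ∘ e)) = c * formOfGram τ (K (fun _ => 1)) x y) :
    ¬ G ≤ tensorWreathSubgroup 3 t e P := by
  intro hle
  have h4 : Fintype.card F = 4 := by rw [hF]; norm_num
  have hK1 : K (fun _ => (1 : Matrix (Fin 3) (Fin 3) F) : Fin t → Matrix (Fin 3) (Fin 3) F) = 1 := K_one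
  rw [hK1] at H
  have hST := ST_wr h4 hτ2 h.inv (by omega) e P
  have hGG : ∀ g ∈ G, g ∈ (G3 τ t).map (Ph e P) := by
    intro g hg
    have h1 := hle hg
    rw [tensorWreath_eq] at h1
    obtain ⟨x, hx, rfl⟩ := h1
    exact ⟨x, ⟨hx, (Ph_iso hc H).1 (hfix _ hg)⟩, rfl⟩
  obtain ⟨R, hR⟩ := hST.exists_SR hn
  have hRn : ∀ g ∈ G, ∀ x ∈ R, g * x * g⁻¹ ∈ R := fun g hg x hx => hR.normR (hGG g hg) hx
  have hfixE : ∀ x ∈ (E3 t F).map (Ph e P), ∀ u v, f ((x : Matrix (Fin n) (Fin n) F) *ᵥ u) ((x : Matrix (Fin n) (Fin n) F) *ᵥ v) =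
      f u v := by
    rintro _ ⟨x, hx, rfl⟩
    exact (Ph_iso hc H).2 (E3_Un h4 hτ2 hx)
  have hE : (E3 t F).map (Ph e P) ≤ similarityGroup f := by
    intro x hx
    exact ⟨1, fun u v => by rw [hfixE x hx, Units.val_one, one_mul]⟩
  rcases symp_type_unitary hn hR h hF hE with ⟨F₀, hF₀, h1, h2⟩ | ⟨p, e, k, h1, h2, h3, h4, h5, h6, h7⟩
  · obtain ⟨F₁, Q, hQ, h⟩ := subfield_unitary (by omega) h hne hF hτ2 hR.envR hF₀ h1 h2
    have hle' : G ≤ subfieldSubgroup F₁ Q := fun g hg => hQ g (hRn g hg)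
    rcases h with ⟨r, hr, hodd, hcard, hrat⟩ | ⟨hodd, hcard, hrat⟩ | ⟨hev, hcard, ζ, h0, h1, h2, h3⟩
    · exact sub1 F₁ r Q hr hodd hcard hrat hle'
    · exact sub2 F₁ Q hodd hcard hrat hle'
    · exact sub3 F₁ Q ζ hev hcard h0 h1 h2 h3 hle'
  · exact sty 3 R p e k h1 h2 h3 h4 h5 h6 h7 hR.envR hR.comm' (mem_normalizer hRn)

end Cfsg.Agent.H29.Fm
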