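import Mathlib
import Cfsg.Prelude

/-! Baer–Suzuki for unipotent linear groups. -/

set_option autoImplicit false
set_option linter.unusedSectionVars false
set_option linter.style.haveILetI false

open Subgroup Cfsg
open scoped commutatorElement

namespace Cfsg.Agent.H2.BS

variable {k : Type*} [Field k] {M : Type*} [AddCommGroup M] [Module k M]

local notation "GL" => LinearMap.GeneralLinearGroup k M

theorem mul_app (g h : GL) (v : M) : ((g * h : GL) : M →ₗ[k] M) v = (g : M →ₗ[k] M) ((h : M →ₗ[k] M) v) := rfl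

theorem one_app (v : M) : ((1 : GL) : M →ₗ[k] M) v = v := rfl

theorem inv_app (g : GL) (v : M) : ((g⁻¹ : GL) : M →ₗ[k] M) ((g : M →ₗ[k] M) v) = v := by
  rw [← mul_app, inv_mul_cancel, one_app]

theorem app_inv (g : GL) (v : M) : (g : M →ₗ[k] M) (((g⁻¹ : GL) : M →ₗ[k] M) v) = v := by
  rw [← mul_app, mul_inv_cancel, one_app]

/-- the ascending fixed point series -/
def asc (H : Subgroup GL) : ℕ → Submodule k M
  | 0 => ⊥
  | n + 1 => ⨅ g ∈ H, (asc H n).comap ((g : M →ₗ[k] M) - 1)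

theorem mem_asc_succ {H : Subgroup GL} {n : ℕ} {v : M} :
    v ∈ asc H (n + 1) ↔ ∀ g ∈ H, (g : M →ₗ[k] M) v - v ∈ asc H n := by
  rw [asc]
  simp only [Submodule.mem_iInf, Submodule.mem_comap, LinearMap.sub_apply, Module.End.one_apply]

theorem asc_le_succ (H : Subgroup GL) (n : ℕ) : asc H n ≤ asc H (n + 1) := by
  induction n with
  | zero => exact bot_le
  | succ n ih =>
    intro v hv
    rw [mem_asc_succ] at hv ⊢
    exact fun g hg => ih (hv g hg)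

theorem asc_mono (H : Subgroup GL) : Monotone (asc H) := monotone_nat_of_le_succ (asc_le_succ H)

theorem asc_stable {H : Subgroup GL} {n : ℕ} {v : M} (hv : v ∈ asc H n) {g : GL} (hg : g ∈ H) :
    (g : M →ₗ[k] M) v ∈ asc H n := by
  have h1 := (mem_asc_succ.1 (asc_le_succ H n hv)) g hg
  have h2 : (g : M →ₗ[k] M) v = ((g : M →ₗ[k] M) v - v) + v := by abel
  rw [h2]; exact add_mem h1 hv

theorem mem_asc_iff {H : Subgroup GL} {n : ℕ} {v : M} :
    v ∈ asc H n ↔ ∀ l : List GL, (∀ g ∈ l, g ∈ H) → l.length = n →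
      (l.map fun g : GL => (g : M →ₗ[k] M) - 1).prod v = 0 := by
  induction n generalizing v with
  | zero =>
    constructor
    · intro h l _ hl
      have : v = 0 := h
      rw [this, map_zero]
    · intro h
      have := h [] (by simp) rfl
      have h2 : v = 0 := by simpa using this
      rw [h2]; exact zero_mem _
  | succ n ih =>
    rw [mem_asc_succ]
    constructor
    · intro h l hlH hl
      rcases List.eq_nil_or_concat l with rfl | ⟨l', g, rfl⟩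
      · simp at hl
      · have hl' : l'.length = n := by simpa using hl
        have h1 := (ih.1 (h g (hlH g (by simp)))) l' (fun x hx => hlH x (by simp [hx])) hl'
        rw [List.concat_eq_append, List.map_append, List.prod_append]
        simpa [Module.End.mul_apply] using h1
    · intro h g hg
      rw [ih]
      intro l hlH hl
      have h1 := h (l ++ [g]) (by
        intro x hx
        rcases List.mem_append.1 hx with h | h
        · exact hlH x h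
        · rw [List.mem_singleton.1 h]; exact hg) (by simp [hl])
      rw [List.map_append, List.prod_append] at h1
      simpa [Module.End.mul_apply] using h1

theorem list_eq (l : List GL) : (l.map fun g => (g : M →ₗ[k] M) - 1) = l.map (fun g : GL => (g : M →ₗ[k] M) - 1) := by
  induction l with
  | nil => rfl
  | cons a l ih =>
    rw [List.map_cons, ← ih]
    rfl

theorem unip_iff {H : Subgroup GL} : IsUnipotentOn H ↔ ∃ n, asc H n = ⊤ := by
  constructor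
  · rintro ⟨n, hn⟩
    refine ⟨n, ?_⟩
    rw [eq_top_iff]
    intro v _
    rw [mem_asc_iff]
    intro l hl hln
    rw [← list_eq, hn l hl hln]; rfl
  · rintro ⟨n, hn⟩
    refine ⟨n, fun l hl hln => ?_⟩
    rw [list_eq]
    ext v
    exact mem_asc_iff.1 (by rw [hn]; trivial) l hl hln

/-- the augmentation space -/
def aug (H : Subgroup GL) : Submodule k (Module.End k M) := Submodule.span k {f | ∃ g ∈ H, f = (g : M →ₗ[k] M) - 1}

theorem sub_mem_aug {H : Subgroup GL} {g : GL} (hg : g ∈ H) : (g : M →ₗ[k] M) - 1 ∈ aug H :=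
  Submodule.subset_span ⟨g, hg, rfl⟩

theorem aug_mono {H K : Subgroup GL} (h : H ≤ K) : aug H ≤ aug K :=
  Submodule.span_mono (by rintro _ ⟨g, hg, rfl⟩; exact ⟨g, h hg, rfl⟩)

theorem asc_le_of_aug {H K : Subgroup GL} (h : aug H ≤ aug K) (n : ℕ) : asc K n ≤ asc H n := by
  induction n with
  | zero => exact le_rfl
  | succ n ih =>
    intro v hv
    rw [mem_asc_succ] at hv ⊢
    have h1 : aug K ≤ (asc K n).comap (LinearMap.applyₗ v : (Module.End k M) →ₗ[k] M) := by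
      rw [aug, Submodule.span_le]
      rintro _ ⟨g, hg, rfl⟩
      have := hv g hg
      simpa using this
    intro g hg
    have h2 := h1 (h (sub_mem_aug hg))
    have h3 : (g : M →ₗ[k] M) v - v ∈ asc K n := by simpa using h2
    exact ih h3

theorem unip_of_aug {H K : Subgroup GL} (h : aug H ≤ aug K) (hK : IsUnipotentOn K) : IsUnipotentOn H := by
  rw [unip_iff] at hK ⊢
  obtain ⟨n, hn⟩ := hK
  exact ⟨n, top_le_iff.1 (hn ▸ asc_le_of_aug h n)⟩

theorem unip_mono {H K : Subgroup GL} (h : H ≤ K) (hK : IsUnipotentOn K) : IsUnipotentOn H := unip_of_aug (aug_mono h) hK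

theorem mul_mem_aug {H : Subgroup GL} {a b : Module.End k M} (ha : a ∈ aug H) (hb : b ∈ aug H) : a * b ∈ aug H := by
  refine Submodule.span_induction (p := fun a _ => a * b ∈ aug H) ?_ (by simp) ?_ ?_ ha
  · rintro _ ⟨g, hg, rfl⟩
    refine Submodule.span_induction (p := fun b _ => ((g : M →ₗ[k] M) - 1) * b ∈ aug H) ?_ (by simp) ?_ ?_ hb
    · rintro _ ⟨h, hh, rfl⟩
      have h1 : ((g : M →ₗ[k] M) - 1) * ((h : M →ₗ[k] M) - 1)
          = (((g * h : GL) : M →ₗ[k] M) - 1) - ((g : M →ₗ[k] M) - 1) - ((h : M →ₗ[k] M) - 1) := by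
        have : ((g * h : GL) : M →ₗ[k] M) = (g : M →ₗ[k] M) * (h : M →ₗ[k] M) := rfl
        rw [this]; noncomm_ring
      rw [h1]
      exact sub_mem (sub_mem (sub_mem_aug (mul_mem hg hh)) (sub_mem_aug hg)) (sub_mem_aug hh)
    · intro x y _ _ hx hy
      rw [mul_add]; exact add_mem hx hy
    · intro c x _ hx
      rw [mul_smul_comm]; exact Submodule.smul_mem _ _ hx
  · intro x y _ _ hx hy
    rw [add_mul]; exact add_mem hx hy
  · intro c x _ hx
    rw [smul_mul_assoc]; exact Submodule.smul_mem _ _ hx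

/-- the units congruent to `1` modulo the augmentation space -/
def cong (H : Subgroup GL) : Subgroup GL where
  carrier := {g | (g : M →ₗ[k] M) - 1 ∈ aug H ∧ ((g⁻¹ : GL) : M →ₗ[k] M) - 1 ∈ aug H}
  one_mem' := by
    have h1 : ((1 : GL) : M →ₗ[k] M) - 1 = 0 := sub_self _
    refine ⟨?_, ?_⟩
    · rw [h1]; exact zero_mem _
    · rw [inv_one, h1]; exact zero_mem _
  mul_mem' := by
    have key : ∀ g h : GL, (g : M →ₗ[k] M) - 1 ∈ aug H → (h : M →ₗ[k] M) - 1 ∈ aug H →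
        ((g * h : GL) : M →ₗ[k] M) - 1 ∈ aug H := by
      intro g h hg hh
      have h1 : ((g * h : GL) : M →ₗ[k] M) - 1
          = ((g : M →ₗ[k] M) - 1) * ((h : M →ₗ[k] M) - 1) + ((g : M →ₗ[k] M) - 1) + ((h : M →ₗ[k] M) - 1) := by
        have : ((g * h : GL) : M →ₗ[k] M) = (g : M →ₗ[k] M) * (h : M →ₗ[k] M) := rfl
        rw [this]; noncomm_ring
      rw [h1]
      exact add_mem (add_mem (mul_mem_aug hg hh) hg) hh
    rintro g h ⟨hg1, hg2⟩ ⟨hh1, hh2⟩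
    exact ⟨key g h hg1 hh1, by rw [mul_inv_rev]; exact key _ _ hh2 hg2⟩
  inv_mem' := by
    rintro g ⟨h1, h2⟩
    exact ⟨h2, by rwa [inv_inv]⟩

theorem aug_cong (H : Subgroup GL) : aug (cong H) ≤ aug H := by
  rw [aug, Submodule.span_le]
  rintro _ ⟨g, hg, rfl⟩
  exact hg.1

/-- fixed points in sections of unipotent groups -/
theorem exists_fix {H : Subgroup GL} (hH : IsUnipotentOn H) (N N' : Submodule k M) (hN' : ∀ g ∈ H, ∀ v ∈ N', (g : M →ₗ[k] M) v ∈ N')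
    (hne : ¬ N' ≤ N) : ∃ v ∈ N', v ∉ N ∧ ∀ g ∈ H, (g : M →ₗ[k] M) v - v ∈ N := by
  classical
  obtain ⟨n, hn⟩ := unip_iff.1 hH
  have hex : ∃ i, ¬ asc H i ⊓ N' ≤ N := ⟨n, by rw [hn, top_inf_eq]; exact hne⟩
  have h1 := Nat.find_spec hex
  have h2 := fun m => Nat.find_min hex (m := m)
  set i := Nat.find hex with hi
  rcases Nat.eq_zero_or_pos i with h0 | h0
  · exfalso; apply h1; rw [h0]; exact inf_le_left.trans bot_le
  obtain ⟨j, hj⟩ : ∃ j, i = j + 1 := ⟨i - 1, by omega⟩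
  rw [SetLike.not_le_iff_exists] at h1
  obtain ⟨v, hv, hvN⟩ := h1
  obtain ⟨hv1, hv2⟩ := Submodule.mem_inf.1 hv
  refine ⟨v, hv2, hvN, fun g hg => ?_⟩
  have h3 := not_not.1 (h2 j (by omega))
  apply h3
  rw [hj, mem_asc_succ] at hv1
  exact Submodule.mem_inf.2 ⟨hv1 g hg, sub_mem (hN' g hg v hv2) hv2⟩

theorem unip_of_fix [FiniteDimensional k M] {H : Subgroup GL}
    (h : ∀ N : Submodule k M, N ≠ ⊤ → (∀ g ∈ H, ∀ v ∈ N, (g : M →ₗ[k] M) v ∈ N) → ∃ v, v ∉ N ∧ ∀ g ∈ H, (g : M →ₗ[k] M) v - v ∈ N) :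
    IsUnipotentOn H := by
  rw [unip_iff]
  obtain ⟨n, hn⟩ := monotone_stabilizes_iff_noetherian.2 (inferInstance : IsNoetherian k M) ⟨asc H, asc_mono H⟩
  refine ⟨n, ?_⟩
  by_contra hne
  obtain ⟨v, hv, hv2⟩ := h (asc H n) hne (fun g hg v hv => asc_stable hv hg)
  have h1 : v ∈ asc H (n + 1) := mem_asc_succ.2 hv2
  have h2 : asc H n = asc H (n + 1) := hn (n + 1) (Nat.le_succ n)
  rw [← h2] at h1
  exact hv h1

/-- product of a unipotent group with a unipotent group normalizing it -/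
theorem unip_sup [FiniteDimensional k M] {V X : Subgroup GL} (hV : IsUnipotentOn V) (hX : IsUnipotentOn X)
    (hn : ∀ x ∈ X, ∀ v ∈ V, x⁻¹ * v * x ∈ V) : IsUnipotentOn (V ⊔ X) := by
  apply unip_of_fix
  intro N hN hNst
  let N' : Submodule k M := ⨅ g ∈ V, N.comap ((g : M →ₗ[k] M) - 1)
  have hN'mem : ∀ v, v ∈ N' ↔ ∀ g ∈ V, (g : M →ₗ[k] M) v - v ∈ N := by
    intro v
    simp only [N', Submodule.mem_iInf, Submodule.mem_comap, LinearMap.sub_apply, Module.End.one_apply]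
  have hN'st : ∀ x ∈ X, ∀ v ∈ N', (x : M →ₗ[k] M) v ∈ N' := by
    intro x hx v hv
    rw [hN'mem] at hv ⊢
    intro g hg
    have h1 := hv _ (hn x hx g hg)
    have h2 := hNst x ((le_sup_right : X ≤ V ⊔ X) hx) _ h1
    have e1 : x * (x⁻¹ * g * x) = g * x := by group
    rw [map_sub, ← mul_app, e1, mul_app] at h2
    exact h2
  have hne : ¬ N' ≤ N := by
    obtain ⟨v, _, hv1, hv2⟩ := exists_fix hV N ⊤ (fun _ _ _ _ => trivial) (by rwa [top_le_iff])
    intro hle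
    exact hv1 (hle ((hN'mem v).2 hv2))
  obtain ⟨v, hv1, hv2, hv3⟩ := exists_fix hX N N' hN'st hne
  refine ⟨v, hv2, ?_⟩
  let T : Subgroup GL :=
    { carrier := {g | g ∈ V ⊔ X ∧ (g : M →ₗ[k] M) v - v ∈ N}
      one_mem' := ⟨one_mem _, by rw [one_app, sub_self]; exact zero_mem _⟩
      mul_mem' := by
        rintro g h ⟨hg1, hg2⟩ ⟨hh1, hh2⟩
        refine ⟨mul_mem hg1 hh1, ?_⟩
        have h1 := hNst g hg1 _ hh2
        rw [map_sub, ← mul_app] at h1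
        have h2 : ((g * h : GL) : M →ₗ[k] M) v - v = (((g * h : GL) : M →ₗ[k] M) v - (g : M →ₗ[k] M) v) + ((g : M →ₗ[k] M) v - v) := by abel
        rw [h2]; exact add_mem h1 hg2
      inv_mem' := by
        rintro g ⟨hg1, hg2⟩
        refine ⟨inv_mem hg1, ?_⟩
        have h1 := hNst g⁻¹ (inv_mem hg1) _ hg2
        rw [map_sub, inv_app] at h1
        have h2 := neg_mem h1
        rwa [neg_sub] at h2 }
  have hT : V ⊔ X ≤ T := by
    refine sup_le ?_ ?_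
    · intro g hg; exact ⟨(le_sup_left : V ≤ V ⊔ X) hg, (hN'mem v).1 hv1 g hg⟩
    · intro g hg; exact ⟨(le_sup_right : X ≤ V ⊔ X) hg, hv3 g hg⟩
  intro g hg
  exact (hT hg).2

/-- a descending central series -/
def Kf (H : Subgroup GL) (i : ℕ) : Subgroup GL where
  carrier := {g | g ∈ H ∧ ∀ j, ∀ v ∈ asc H j, (g : M →ₗ[k] M) v - v ∈ asc H (j - (i + 1))}
  one_mem' := ⟨one_mem _, fun j v _ => by rw [one_app, sub_self]; exact zero_mem _⟩
  mul_mem' := by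
    rintro g h ⟨hg1, hg2⟩ ⟨hh1, hh2⟩
    refine ⟨mul_mem hg1 hh1, fun j v hv => ?_⟩
    have h1 := hh2 j v hv
    have h3 := asc_stable h1 hg1
    rw [map_sub, ← mul_app] at h3
    have h2 : ((g * h : GL) : M →ₗ[k] M) v - v = (((g * h : GL) : M →ₗ[k] M) v - (g : M →ₗ[k] M) v) + ((g : M →ₗ[k] M) v - v) := by abel
    rw [h2]; exact add_mem h3 (hg2 j v hv)
  inv_mem' := by
    rintro g ⟨hg1, hg2⟩
    refine ⟨inv_mem hg1, fun j v hv => ?_⟩
    have h1 := asc_stable (hg2 j v hv) (inv_mem hg1)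
    rw [map_sub, inv_app] at h1
    have h2 := neg_mem h1
    rwa [neg_sub] at h2

theorem comm_Kf (H : Subgroup GL) (i : ℕ) : ⁅Kf H i, H⁆ ≤ Kf H (i + 1) := by
  rw [Subgroup.commutator_le]
  rintro g ⟨hg1, hg2⟩ h hh
  refine ⟨?_, ?_⟩
  · rw [commutatorElement_def]
    exact mul_mem (mul_mem (mul_mem hg1 hh) (inv_mem hg1)) (inv_mem hh)
  · intro j v hv
    -- `v = h g w`
    set w := (((h * g)⁻¹ : GL) : M →ₗ[k] M) v with hw
    have hwj : w ∈ asc H j := asc_stable hv (inv_mem (mul_mem hh hg1))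
    have hvw : v = ((h * g : GL) : M →ₗ[k] M) w := by rw [hw, app_inv]
    have e1 : ((⁅g, h⁆ : GL) : M →ₗ[k] M) v = ((g * h : GL) : M →ₗ[k] M) w := by
      rw [hvw, ← mul_app]
      congr 2
      rw [commutatorElement_def]; group
    rw [e1, hvw]
    -- `g h w - h g w = (g - 1)(h - 1) w - (h - 1)(g - 1) w`
    have e2 : ((g * h : GL) : M →ₗ[k] M) w - ((h * g : GL) : M →ₗ[k] M) w
        = ((g : M →ₗ[k] M) ((h : M →ₗ[k] M) w - w) - ((h : M →ₗ[k] M) w - w))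
          - ((h : M →ₗ[k] M) ((g : M →ₗ[k] M) w - w) - ((g : M →ₗ[k] M) w - w)) := by
      rw [mul_app, mul_app, map_sub, map_sub]; abel
    rw [e2]
    have hj : ∀ j, ∀ v ∈ asc H j, (h : M →ₗ[k] M) v - v ∈ asc H (j - 1) := by
      intro j v hv
      cases j with
      | zero =>
        have : v = 0 := hv
        rw [this, map_zero, sub_zero]; exact zero_mem _
      | succ j => exact mem_asc_succ.1 hv h hh
    refine sub_mem ?_ ?_
    · have h1 := hg2 _ _ (hj j w hwj)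
      rwa [show j - 1 - (i + 1) = j - (i + 1 + 1) by omega] at h1
    · have h1 := hj _ _ (hg2 j w hwj)
      rwa [show j - (i + 1) - 1 = j - (i + 1 + 1) by omega] at h1

theorem Kf_zero (H : Subgroup GL) : Kf H 0 = H := by
  apply le_antisymm
  · intro g hg; exact hg.1
  · intro g hg
    refine ⟨hg, fun j v hv => ?_⟩
    cases j with
    | zero =>
      have : v = 0 := hv
      rw [this, map_zero, sub_zero]; exact zero_mem _
    | succ j => exact mem_asc_succ.1 hv g hg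

theorem Kf_eq_bot {H : Subgroup GL} {n : ℕ} (hn : asc H n = ⊤) : Kf H n = ⊥ := by
  rw [eq_bot_iff]
  rintro g ⟨hg1, hg2⟩
  rw [Subgroup.mem_bot]
  ext v
  have h1 := hg2 n v (by rw [hn]; trivial)
  rw [show n - (n + 1) = 0 by omega] at h1
  have h2 : (g : M →ₗ[k] M) v - v = 0 := h1
  exact sub_eq_zero.1 h2

theorem le_normalizer_of {G : Type*} [Group G] {K S : Subgroup G} (h : ∀ c ∈ K, ∀ x ∈ S, c * x * c⁻¹ ∈ S) :
    K ≤ normalizer (S : Set G) := by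
  intro c hc
  rw [Subgroup.mem_normalizer_iff]
  intro x
  refine ⟨h c hc x, fun hx => ?_⟩
  have := h c⁻¹ (inv_mem hc) _ hx
  simpa [mul_assoc] using this

theorem chain {G : Type*} [Group G] (U V : Subgroup G) (hVU : V ≤ U) (K : ℕ → Subgroup G) (hKU : ∀ i, K i ≤ U) (h0 : K 0 = U)
    (hc : ∀ i, ⁅K i, U⁆ ≤ K (i + 1)) {n : ℕ} (hn : K n = ⊥) (Δ : Set (Subgroup G)) (hΔU : ∀ A ∈ Δ, A ≤ U)
    (hΔ : ∀ A ∈ Δ, ∀ u ∈ U, conjBy A u ∈ Δ) (hex : ∃ A ∈ Δ, ¬ A ≤ V) :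
    ∃ A ∈ Δ, ¬ A ≤ V ∧ ∀ a ∈ A, ∀ B ∈ Δ, B ≤ V → conjBy B a ≤ V := by
  classical
  have hP : ∃ i, ∀ B ∈ Δ, B ≤ V ⊔ K i → B ≤ V := ⟨n, fun B _ h => by rwa [hn, sup_bot_eq] at h⟩
  have h1 := Nat.find_spec hP
  have h2 := fun m => Nat.find_min hP (m := m)
  set i := Nat.find hP with hi
  rcases Nat.eq_zero_or_pos i with h | h
  · exfalso
    rw [h, h0] at h1
    obtain ⟨A, hA, hAV⟩ := hex
    exact hAV (h1 A hA ((hΔU A hA).trans le_sup_right))
  obtain ⟨j, hj⟩ : ∃ j, i = j + 1 := ⟨i - 1, by omega⟩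
  have h3 := h2 j (by omega)
  push Not at h3
  obtain ⟨A, hA, hAj, hAV⟩ := h3
  refine ⟨A, hA, hAV, fun a ha B hB hBV => ?_⟩
  apply h1 _ (hΔ B hB a (hΔU A hA ha))
  rw [hj]
  have hnorm : V ⊔ K j ≤ normalizer ((V ⊔ K (j + 1) : Subgroup G) : Set G) := by
    refine sup_le (le_sup_left.trans le_normalizer) ?_
    apply le_normalizer_of
    intro c hcj x hx
    have h4 : ⁅c, x⁆ ∈ K (j + 1) := hc j (commutator_mem_commutator hcj ((sup_le hVU (hKU _)) hx))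
    have h5 : c * x * c⁻¹ = ⁅c, x⁆ * x := by rw [commutatorElement_def]; group
    rw [h5]
    exact mul_mem ((le_sup_right : K (j + 1) ≤ _) h4) hx
  rintro _ ⟨b, hb, rfl⟩
  exact ((Subgroup.mem_normalizer_iff.1 (hnorm (hAj ha))) b).1 ((le_sup_left : V ≤ _) (hBV hb))

section family

/-- the closure of a set of members -/
def cl (W Δ : Set (Subgroup GL)) : Set (Subgroup GL) := {A | A ∈ W ∧ ∀ a ∈ A, (a : M →ₗ[k] M) - 1 ∈ aug (sSup Δ)}

theorem subset_cl {W Δ : Set (Subgroup GL)} (h : Δ ⊆ W) : Δ ⊆ cl W Δ := fun A hA =>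
  ⟨h hA, fun a ha => sub_mem_aug ((le_sSup hA : A ≤ sSup Δ) ha)⟩

theorem aug_cl {W Δ : Set (Subgroup GL)} (h : Δ ⊆ W) : aug (sSup (cl W Δ)) = aug (sSup Δ) := by
  apply le_antisymm
  · refine (aug_mono ?_).trans (aug_cong (sSup Δ))
    refine sSup_le fun A hA => ?_
    intro a ha
    exact ⟨hA.2 a ha, hA.2 a⁻¹ (inv_mem ha)⟩
  · exact aug_mono (sSup_le_sSup (subset_cl h))

/-- maximal unipotent sets of members -/
def IsMaxU (W Δ : Set (Subgroup GL)) : Prop :=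
  Δ ⊆ W ∧ IsUnipotentOn (sSup Δ) ∧ ∀ Δ' ⊆ W, IsUnipotentOn (sSup Δ') → Δ ⊆ Δ' → Δ' = Δ

theorem cl_eq {W Δ : Set (Subgroup GL)} (h : IsMaxU W Δ) : cl W Δ = Δ :=
  h.2.2 _ (fun _ hA => hA.1) (unip_of_aug (aug_cl h.1).le h.2.1) (subset_cl h.1)

theorem exists_max [FiniteDimensional k M] {W Δ : Set (Subgroup GL)} (h : Δ ⊆ W) (hu : IsUnipotentOn (sSup Δ)) :
    ∃ Δ', IsMaxU W Δ' ∧ Δ ⊆ Δ' := by
  classical
  let S : Set (Submodule k (Module.End k M)) := {R | ∃ Δ', Δ' ⊆ W ∧ IsUnipotentOn (sSup Δ') ∧ Δ ⊆ Δ' ∧ R = aug (sSup Δ')}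
  have hS : S.Nonempty := ⟨_, Δ, h, hu, subset_rfl, rfl⟩
  obtain ⟨R, ⟨Δ', h1, h2, h3, rfl⟩, hmax⟩ := (wellFounded_gt (α := Submodule k (Module.End k M))).has_min S hS
  refine ⟨cl W Δ', ⟨fun _ hA => hA.1, unip_of_aug (aug_cl h1).le h2, ?_⟩, h3.trans (subset_cl h1)⟩
  intro Δ'' h4 h5 h6
  have h7 : aug (sSup Δ') ≤ aug (sSup Δ'') := aug_mono (sSup_le_sSup ((subset_cl h1).trans h6))
  have h8 : aug (sSup Δ'') = aug (sSup Δ') := by
    by_contra hne
    exact hmax _ ⟨Δ'', h4, h5, h3.trans ((subset_cl h1).trans h6), rfl⟩ (lt_of_le_of_ne h7 (Ne.symm hne))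
  apply Set.Subset.antisymm _ h6
  intro A hA
  refine ⟨h4 hA, fun a ha => ?_⟩
  rw [← h8]
  exact sub_mem_aug ((le_sSup hA : A ≤ sSup Δ'') ha)

theorem unip_main [FiniteDimensional k M] {G : Subgroup GL} {W : Set (Subgroup GL)} (hWG : ∀ A ∈ W, A ≤ G)
    (hWW : ∀ A ∈ W, ∀ B ∈ W, IsUnipotentOn (A ⊔ B)) (hWconj : ∀ A ∈ W, ∀ g ∈ G, conjBy A g ∈ W) :
    IsUnipotentOn (sSup W) := by
  classical
  by_contra hcon
  -- two distinct maximal sets
  have hone : ∀ A ∈ W, ∃ Δ, IsMaxU W Δ ∧ A ∈ Δ := by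
    intro A hA
    obtain ⟨Δ, h1, h2⟩ := exists_max (W := W) (Δ := {A}) (by simpa using hA) (by
      rw [sSup_singleton]
      have := hWW A hA A hA
      rwa [sup_idem] at this)
    exact ⟨Δ, h1, h2 (by simp)⟩
  have hWne : W.Nonempty := by
    by_contra hemp
    rw [Set.not_nonempty_iff_eq_empty] at hemp
    apply hcon
    rw [hemp, sSup_empty, unip_iff]
    refine ⟨1, ?_⟩
    rw [eq_top_iff]
    intro v _
    rw [mem_asc_succ]
    intro g hg
    rw [Subgroup.mem_bot] at hg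
    rw [hg, one_app, sub_self]
    exact zero_mem _
  obtain ⟨A₀, hA₀⟩ := hWne
  obtain ⟨D₁, hD₁, hA₀D⟩ := hone A₀ hA₀
  have hD₁W : ¬ W ⊆ D₁ := by
    intro h
    apply hcon
    rw [Set.Subset.antisymm h hD₁.1]
    exact hD₁.2.1
  obtain ⟨B₀, hB₀, hB₀D⟩ := Set.not_subset.1 hD₁W
  obtain ⟨D₂, hD₂, hB₀D₂⟩ := hone B₀ hB₀
  have hD₁₂ : D₁ ≠ D₂ := by rintro rfl; exact hB₀D hB₀D₂
  let S : Set (Submodule k (Module.End k M)) := {R | ∃ Δ₁ Δ₂, IsMaxU W Δ₁ ∧ IsMaxU W Δ₂ ∧ Δ₁ ≠ Δ₂ ∧ R = aug (sSup (Δ₁ ∩ Δ₂))}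
  have hS : S.Nonempty := ⟨_, D₁, D₂, hD₁, hD₂, hD₁₂, rfl⟩
  obtain ⟨R, ⟨Δ₁, Δ₂, h1, h2, h12, rfl⟩, hmax⟩ := (wellFounded_gt (α := Submodule k (Module.End k M))).has_min S hS
  set Δ := Δ₁ ∩ Δ₂ with hΔ
  set V := sSup Δ with hV
  have hV1 : V ≤ sSup Δ₁ := sSup_le_sSup Set.inter_subset_left
  have hV2 : V ≤ sSup Δ₂ := sSup_le_sSup Set.inter_subset_right
  have hVu : IsUnipotentOn V := unip_mono hV1 h1.2.1
  -- closedness
  have hcl : ∀ A ∈ W, (∀ a ∈ A, (a : M →ₗ[k] M) - 1 ∈ aug V) → A ∈ Δ := by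
    intro A hA h
    refine ⟨?_, ?_⟩
    · rw [← cl_eq h1]; exact ⟨hA, fun a ha => aug_mono hV1 (h a ha)⟩
    · rw [← cl_eq h2]; exact ⟨hA, fun a ha => aug_mono hV2 (h a ha)⟩
  have hcl' : ∀ A ∈ W, A ≤ V → A ∈ Δ := fun A hA h => hcl A hA (fun a ha => sub_mem_aug (h ha))
  -- normalizing members
  have key : ∀ Γ, IsMaxU W Γ → V ≤ sSup Γ → Δ ⊆ Γ → Γ ≠ Δ →
      ∃ A ∈ Γ, ¬ A ≤ V ∧ ∀ a ∈ A, ∀ x ∈ V, a * x * a⁻¹ ∈ V := by
    intro Γ hΓ hVΓ hΔΓ hne
    have hΓG : sSup Γ ≤ G := sSup_le fun A hA => hWG A (hΓ.1 hA)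
    have hex : ∃ A ∈ Γ, ¬ A ≤ V := by
      by_contra h
      push Not at h
      exact hne (Set.Subset.antisymm (fun A hA => hcl' A (hΓ.1 hA) (h A hA)) hΔΓ)
    obtain ⟨n, hn⟩ := unip_iff.1 hΓ.2.1
    obtain ⟨A, hA, hAV, h⟩ := chain (sSup Γ) V hVΓ (Kf (sSup Γ)) (fun i g hg => hg.1) (Kf_zero _) (comm_Kf _) (Kf_eq_bot hn) Γ
      (fun A hA => le_sSup hA) (fun A hA u hu => by
        rw [← cl_eq hΓ]
        refine ⟨hWconj A (hΓ.1 hA) u (hΓG hu), ?_⟩
        rintro _ ⟨a, ha, rfl⟩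
        apply sub_mem_aug
        exact mul_mem (mul_mem hu ((le_sSup hA : A ≤ sSup Γ) ha)) (inv_mem hu)) hex
    refine ⟨A, hA, hAV, fun a ha => ?_⟩
    have h3 : V ≤ V.comap (MulAut.conj a).toMonoidHom := by
      refine sSup_le fun B hB => ?_
      rw [← map_le_iff_le_comap]
      exact h a ha B (hΔΓ hB) (le_sSup hB)
    exact fun x hx => h3 hx
  have hne1 : Δ₁ ≠ Δ := by
    intro h
    have : Δ₁ ⊆ Δ₂ := by rw [h]; exact Set.inter_subset_right
    exact h12 (h1.2.2 Δ₂ h2.1 h2.2.1 this).symm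
  have hne2 : Δ₂ ≠ Δ := by
    intro h
    have : Δ₂ ⊆ Δ₁ := by rw [h]; exact Set.inter_subset_left
    exact h12 (h2.2.2 Δ₁ h1.1 h1.2.1 this)
  obtain ⟨A, hA, hAV, hAn⟩ := key Δ₁ h1 hV1 Set.inter_subset_left hne1
  obtain ⟨B, hB, hBV, hBn⟩ := key Δ₂ h2 hV2 Set.inter_subset_right hne2
  -- the third maximal set
  have hu : IsUnipotentOn (V ⊔ (A ⊔ B)) := by
    apply unip_sup hVu (hWW A (h1.1 hA) B (h2.1 hB))
    intro x hx v hv
    have hn : A ⊔ B ≤ normalizer (V : Set GL) := sup_le (le_normalizer_of hAn) (le_normalizer_of hBn)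
    exact ((Subgroup.mem_normalizer_iff''.1 (hn hx)) v).1 hv
  have hsS : sSup (insert A (insert B Δ)) = V ⊔ (A ⊔ B) := by
    rw [sSup_insert, sSup_insert, ← hV, ← sup_assoc, sup_comm]
  obtain ⟨Δ₃, h3, h3s⟩ := exists_max (W := W) (Δ := insert A (insert B Δ)) (by
      intro C hC
      rcases hC with rfl | rfl | hC
      · exact h1.1 hA
      · exact h2.1 hB
      · exact h1.1 hC.1) (by rw [hsS]; exact hu)
  have final : ∀ Γ, IsMaxU W Γ → Δ ⊆ Γ → ∀ C ∈ Γ, C ∈ Δ₃ → ¬ C ≤ V → Δ₃ = Γ := by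
    intro Γ hΓ hΔΓ C hC hC3 hCV
    by_contra hne
    have h4 : aug V ≤ aug (sSup (Δ₃ ∩ Γ)) := by
      apply aug_mono
      apply sSup_le_sSup
      exact fun X hX => ⟨h3s (Set.mem_insert_of_mem _ (Set.mem_insert_of_mem _ hX)), hΔΓ hX⟩
    have h5 : aug (sSup (Δ₃ ∩ Γ)) = aug V := by
      by_contra hne'
      exact hmax _ ⟨Δ₃, Γ, h3, hΓ, hne, rfl⟩ (lt_of_le_of_ne h4 (Ne.symm hne'))
    apply hCV
    apply le_sSup
    apply hcl C (hΓ.1 hC)
    intro c hc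
    rw [← h5]
    exact sub_mem_aug ((le_sSup (show C ∈ Δ₃ ∩ Γ from ⟨hC3, hC⟩) : C ≤ _) hc)
  have e1 := final Δ₁ h1 Set.inter_subset_left A hA (h3s (Set.mem_insert _ _)) hAV
  have e2 := final Δ₂ h2 Set.inter_subset_right B hB (h3s (Set.mem_insert_of_mem _ (Set.mem_insert _ _))) hBV
  exact h12 (e1.symm.trans e2)

theorem main [FiniteDimensional k M] {G : Subgroup GL} {W : Set (Subgroup GL)} (hWG : ∀ A ∈ W, A ≤ G)
    (hWW : ∀ A ∈ W, ∀ B ∈ W, IsUnipotentOn (A ⊔ B)) (hWconj : ∀ A ∈ W, ∀ g ∈ G, conjBy A g ∈ W) :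
    IsUnipotentOn (⨆ A ∈ W, A) ∧ ∀ g ∈ G, conjBy (⨆ A ∈ W, A) g = ⨆ A ∈ W, A := by
  have h1 := unip_main hWG hWW hWconj
  rw [sSup_eq_iSup] at h1
  refine ⟨h1, ?_⟩
  have key : ∀ g ∈ G, conjBy (⨆ A ∈ W, A) g ≤ ⨆ A ∈ W, A := by
    intro g hg
    rw [← sSup_eq_iSup]
    show (sSup W).map _ ≤ _
    rw [map_le_iff_le_comap]
    refine sSup_le fun A hA => ?_
    rw [← map_le_iff_le_comap]
    exact le_sSup (hWconj A hA g hg)
  intro g hg
  apply le_antisymm (key g hg)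
  intro x hx
  refine ⟨g⁻¹ * x * g, ?_, ?_⟩
  · apply key g⁻¹ (inv_mem hg)
    refine ⟨x, hx, ?_⟩
    show g⁻¹ * x * g⁻¹⁻¹ = _
    rw [inv_inv]
  · show g * (g⁻¹ * x * g) * g⁻¹ = x
    group

end family

end Cfsg.Agent.H2.BS
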