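import Mathlib
import Cfsg.Agent.H2_FF3
import Cfsg.Agent.H18_QPair4

/-! Failure of factorization IV: a minimal offender and a conjugate of it. -/

set_option autoImplicit false
set_option linter.style.haveILetI false
set_option linter.unusedSectionVars false

open Subgroup Cfsg
open scoped commutatorElement

namespace Cfsg.Agent.H2.FF

open Cfsg.Agent.H2.Basic Cfsg.Agent.H2.Quad Cfsg.Agent.H2.Replace

section NoComp

open Cfsg.Agent.H5.SL2

variable {p : ℕ} [hp : Fact p.Prime]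

theorem card_sl : Nat.card (S (ZMod p)) = p * (p - 1) * (p + 1) := by
  haveI : Fintype (ZMod p) := ZMod.fintype p
  have := card_SL2 (F := ZMod p)
  rwa [ZMod.card] at this

/-- `SL(2,p)` has no normal `p`-complement for `p ≥ 5` -/
theorem no_complement (h5 : 5 ≤ p) (N : Subgroup (S (ZMod p))) [hN : N.Normal] (hc : (Nat.card N).Coprime p)
    (hi : N.index = p) : False := by
  haveI : Fintype (ZMod p) := ZMod.fintype p
  have h2 : (2 : ZMod p) ≠ 0 := by
    intro h
    have h3 : ((2 : ℕ) : ZMod p) = 0 := by exact_mod_cast h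
    rw [ZMod.natCast_eq_zero_iff] at h3
    have := Nat.le_of_dvd (by norm_num) h3
    omega
  have h3 : (3 : ZMod p) ≠ 0 := by
    intro h
    have h3 : ((3 : ℕ) : ZMod p) = 0 := by exact_mod_cast h
    rw [ZMod.natCast_eq_zero_iff] at h3
    have := Nat.le_of_dvd (by norm_num) h3
    omega
  -- `p'`-elements lie in `N`
  have hmem : ∀ g : S (ZMod p), (orderOf g).Coprime p → g ∈ N := by
    intro g hg
    rw [← QuotientGroup.eq_one_iff]
    have h4 : (QuotientGroup.mk g : S (ZMod p) ⧸ N) ^ p = 1 := by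
      have := pow_card_eq_one' (x := (QuotientGroup.mk g : S (ZMod p) ⧸ N))
      rwa [← Subgroup.index_eq_card, hi] at this
    have h5 : orderOf (QuotientGroup.mk g : S (ZMod p) ⧸ N) ∣ orderOf g := orderOf_map_dvd (QuotientGroup.mk' N) g
    have h6 := orderOf_dvd_of_pow_eq_one h4
    rw [← orderOf_eq_one_iff]
    exact Nat.eq_one_of_dvd_coprimes hg h5 h6
  set t : (ZMod p)ˣ := Units.mk0 2 h2 with ht
  have hd : d t ∈ N := by
    apply hmem
    have h4 : orderOf (d t) ∣ p - 1 := by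
      apply orderOf_dvd_of_pow_eq_one
      have h5 : t ^ (p - 1) = 1 := by
        have := ZMod.units_pow_card_sub_one_eq_one p t
        exact this
      have h6 : d t ^ (p - 1) = d (t ^ (p - 1)) := (map_pow dHom t (p - 1)).symm
      rw [h6, h5, d_one]
    apply Nat.Coprime.coprime_dvd_left h4
    have := hp.out.two_le
    rw [Nat.coprime_comm, Nat.coprime_iff_gcd_eq_one]
    have h7 : (p : ℕ) = (p - 1) + 1 := by omega
    rw [Nat.gcd_comm]
    conv_lhs => rw [show Nat.gcd (p - 1) p = Nat.gcd (p - 1) ((p - 1) + 1) by rw [← h7]]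
    simp
  have hu : u (-3 : ZMod p) ∈ N := by
    have h4 : u 1 * d t * (u 1)⁻¹ * (d t)⁻¹ ∈ N := N.mul_mem (hN.conj_mem _ hd _) (N.inv_mem hd)
    have h5 : u 1 * d t * (u 1)⁻¹ * (d t)⁻¹ = u (-3 : ZMod p) := by
      rw [mul_inv_eq_iff_eq_mul, mul_inv_eq_iff_eq_mul]
      apply ext2 <;> simp only [mul00, mul01, mul10, mul11, u00, u01, u10, u11, d00, d01, d10, d11, ht, Units.val_mk0, Units.val_inv_eq_inv_val] <;> field_simp <;> ring
    rwa [h5] at h4
  have hup : orderOf (u (-3 : ZMod p)) ∣ p := by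
    apply orderOf_dvd_of_pow_eq_one
    have h6 : u (-3 : ZMod p) ^ p = (uHom (Multiplicative.ofAdd (-3 : ZMod p))) ^ p := rfl
    rw [h6, ← map_pow, ← ofAdd_nsmul]
    have : (p • (-3 : ZMod p)) = 0 := by simp
    rw [this]
    exact u_zero
  have h6 : orderOf (u (-3 : ZMod p)) ∣ Nat.card N := Subgroup.orderOf_dvd_natCard N hu
  have h7 := Nat.eq_one_of_dvd_coprimes hc h6 hup
  rw [orderOf_eq_one_iff] at h7
  have h8 : (-3 : ZMod p) = 0 := by
    have := congrArg (fun g : S (ZMod p) => g.1 0 1) h7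
    simpa [one01] using this
  exact h3 (by simpa using h8)

end NoComp

variable {G : Type*} [Group G] {p : ℕ} [Finite G] [hp : Fact p.Prime] {V H : Subgroup G}

theorem CV_map {A : Subgroup G} {x : G} (hx : x ∈ normalizer (V : Set G)) :
    CV V (A.map (MulAut.conj x).toMonoidHom) = (CV V A).map (MulAut.conj x).toMonoidHom := by
  ext v
  constructor
  · rintro ⟨h1, h2⟩
    refine ⟨x⁻¹ * v * x, ⟨?_, ?_⟩, ?_⟩
    · have := (mem_normalizer_iff.1 (inv_mem hx) v).1 h1
      rwa [inv_inv] at this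
    · refine mem_centralizer_iff.2 ?_
      intro a ha
      have h3 := mem_centralizer_iff.1 h2 (x * a * x⁻¹) ⟨a, ha, rfl⟩
      calc a * (x⁻¹ * v * x) = x⁻¹ * ((x * a * x⁻¹) * v) * x := by group
        _ = x⁻¹ * (v * (x * a * x⁻¹)) * x := by rw [h3]
        _ = x⁻¹ * v * x * a := by group
    · change x * (x⁻¹ * v * x) * x⁻¹ = v
      group
  · rintro ⟨w, ⟨h1, h2⟩, rfl⟩
    refine ⟨(mem_normalizer_iff.1 hx w).1 h1, mem_centralizer_iff.2 ?_⟩
    rintro _ ⟨a, ha, rfl⟩
    have h3 := mem_centralizer_iff.1 h2 a ha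
    change x * a * x⁻¹ * (x * w * x⁻¹) = x * w * x⁻¹ * (x * a * x⁻¹)
    calc x * a * x⁻¹ * (x * w * x⁻¹) = x * (a * w) * x⁻¹ := by group
      _ = x * (w * a) * x⁻¹ := by rw [h3]
      _ = _ := by group

theorem card_conj {A : Subgroup G} {x : G} : Nat.card (A.map (MulAut.conj x).toMonoidHom) = Nat.card A :=
  Subgroup.card_map_of_injective (MulAut.conj x).injective

namespace Setup

theorem conj_le {A : Subgroup G} (hAH : A ≤ H) {x : G} (hx : x ∈ H) : A.map (MulAut.conj x).toMonoidHom ≤ H := by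
  rintro _ ⟨a, ha, rfl⟩
  exact H.mul_mem (H.mul_mem hx (hAH ha)) (H.inv_mem hx)

theorem conj_min (S : Setup p V H) {A : Subgroup G} (hAC : p * Nat.card (CV V A) = Nat.card V) {x : G} (hx : x ∈ H) :
    p * Nat.card (CV V (A.map (MulAut.conj x).toMonoidHom)) = Nat.card V := by
  rw [CV_map (S.hHV hx), card_conj]; exact hAC

/-- the group generated by two minimal offenders inside `Q A` -/
structure Pair (p : ℕ) [Fact p.Prime] (V H A B : Subgroup G) : Prop where
  pd : PlaneData p V A B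
  np : ¬ IsPGroup p (A ⊔ B : Subgroup G)
  cardR : p * Nat.card ((A ⊔ B) ⊓ QQ p H : Subgroup G) = Nat.card (A ⊔ B : Subgroup G)
  eqR : (A ⊔ B) = ((A ⊔ B) ⊓ QQ p H) ⊔ A
  small : p = 2 ∨ p = 3

theorem pair (S : Setup p V H) {A B : Subgroup G} (hAH : A ≤ H) (hBH : B ≤ H) (hA : Nat.card A = p) (hB : Nat.card B = p)
    (hAC : p * Nat.card (CV V A) = Nat.card V) (hBC : p * Nat.card (CV V B) = Nat.card V)
    (hBQ : B ≤ QQ p H ⊔ A) (hAB : A ≠ B) : Pair p V H A B := by
  set E : Subgroup G := A ⊔ B with hE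
  have hEH : E ≤ H := sup_le hAH hBH
  have hAQ : A ≤ normalizer (QQ p H : Set G) := hAH.trans le_normalizer_QQ
  have hEQ : E ≤ QQ p H ⊔ A := sup_le le_sup_right hBQ
  have hf : E ⊓ centralizer (V : Set G) = ⊥ := by
    rw [eq_bot_iff, ← S.hf]; exact inf_le_inf_right _ hEH
  -- `E = R A`
  have hER : E = (E ⊓ QQ p H) ⊔ A := by
    apply le_antisymm
    · intro x hx
      have h1 := hEQ hx
      rw [sup_comm, Cfsg.Agent.H2.Card.mem_sup_iff hAQ] at h1
      obtain ⟨a, ha, q, hq, rfl⟩ := h1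
      have haE : a ∈ E := (le_sup_left : A ≤ E) ha
      have hqE : q ∈ E := by
        have := E.mul_mem (E.inv_mem haE) hx
        rwa [inv_mul_cancel_left] at this
      exact mul_mem ((le_sup_right : A ≤ (E ⊓ QQ p H) ⊔ A) ha) ((le_sup_left : (E ⊓ QQ p H) ≤ (E ⊓ QQ p H) ⊔ A) ⟨hqE, hq⟩)
    · exact sup_le inf_le_left le_sup_left
  have hRn : E ≤ normalizer ((E ⊓ QQ p H : Subgroup G) : Set G) := by
    intro e he
    have heQ := le_normalizer_QQ (p := p) (hEH he)
    apply mem_normalizer_fintype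
    rintro y ⟨hy1, hy2⟩
    exact ⟨E.mul_mem (E.mul_mem he hy1) (E.inv_mem he), (mem_normalizer_iff.1 heQ y).1 hy2⟩
  have hRc : (Nat.card (E ⊓ QQ p H : Subgroup G)).Coprime p :=
    Nat.Coprime.coprime_dvd_left (card_dvd_of_le inf_le_right) QQ_coprime
  have hRA : A ⊓ (E ⊓ QQ p H) = ⊥ := by
    rw [← disjoint_iff]
    apply Subgroup.disjoint_of_coprime_natCard
    rw [hA]; exact hRc.symm
  have hcard : p * Nat.card (E ⊓ QQ p H : Subgroup G) = Nat.card E := by
    have h1 := Cfsg.Agent.H2.Card.card_sup_mul_card_inf (H := A) (N := E ⊓ QQ p H) (le_sup_left.trans hRn)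
    rw [hRA, Subgroup.card_bot, mul_one, hA, sup_comm, ← hER] at h1
    exact h1.symm
  have hnp : ¬ IsPGroup p E := by
    intro h
    obtain ⟨n, hn⟩ := IsPGroup.iff_card.1 h
    have h1 : Nat.card (E ⊓ QQ p H : Subgroup G) = 1 := by
      apply Nat.eq_one_of_dvd_coprimes (hRc.pow_right n) (dvd_refl _)
      rw [← hn]; exact card_dvd_of_le inf_le_left
    rw [h1, mul_one] at hcard
    apply hAB
    have h2 := Cfsg.Agent.H2.Card.eq_of_le_of_card_eq (le_sup_left : A ≤ E) (by rw [hA, ← hcard])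
    have h3 := Cfsg.Agent.H2.Card.eq_of_le_of_card_eq (le_sup_right : B ≤ E) (by rw [hB, ← hcard])
    exact h2.trans h3.symm
  have hpd := plane S.hV (hAH.trans S.hHV) (hBH.trans S.hHV) hA hB hAC hBC hf hnp
  refine ⟨hpd, hnp, hcard, hER, ?_⟩
  by_contra hno
  push Not at hno
  have h5 : 5 ≤ p := by
    have h1 := hp.out.two_le
    have h4 : p ≠ 4 := by rintro rfl; exact absurd hp.out (by norm_num)
    omega
  obtain ⟨φ, -⟩ := hpd.sl2
  let R : Subgroup E := (E ⊓ QQ p H).subgroupOf E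
  haveI hRn' : R.Normal := (normal_subgroupOf_iff_le_normalizer inf_le_left).2 hRn
  let N : Subgroup (Matrix.SpecialLinearGroup (Fin 2) (ZMod p)) := R.map φ.toMonoidHom
  haveI hNn : N.Normal := hRn'.map φ.toMonoidHom φ.surjective
  have hNc : Nat.card N = Nat.card (E ⊓ QQ p H : Subgroup G) := by
    change Nat.card (R.map φ.toMonoidHom) = _
    rw [Subgroup.card_map_of_injective φ.injective]
    exact Cfsg.Agent.H2.Card.card_subgroupOf_of_le inf_le_left
  apply no_complement h5 N (by rw [hNc]; exact hRc)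
  have h6 := Subgroup.card_mul_index N
  have h7 : Nat.card (Matrix.SpecialLinearGroup (Fin 2) (ZMod p)) = Nat.card E := (Nat.card_congr φ.toEquiv).symm
  rw [hNc, h7, ← hcard, mul_comm p] at h6
  exact Nat.eq_of_mul_eq_mul_left Nat.card_pos h6

theorem pair_conj (S : Setup p V H) {A : Subgroup G} (hAH : A ≤ H) (hA : Nat.card A = p)
    (hAC : p * Nat.card (CV V A) = Nat.card V) {x : G} (hx : x ∈ QQ p H) (hxA : x ∉ centralizer (A : Set G)) :
    Pair p V H A (A.map (MulAut.conj x).toMonoidHom) := by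
  have hxH := QQ_le hx
  apply S.pair hAH (conj_le hAH hxH) hA (by rw [card_conj]; exact hA) hAC (S.conj_min hAC hxH)
  · rintro _ ⟨a, ha, rfl⟩
    change x * a * x⁻¹ ∈ _
    exact mul_mem (mul_mem ((le_sup_left : QQ p H ≤ QQ p H ⊔ A) hx) ((le_sup_right : A ≤ QQ p H ⊔ A) ha))
      (inv_mem ((le_sup_left : QQ p H ≤ QQ p H ⊔ A) hx))
  · intro h
    apply hxA
    rw [mem_centralizer_iff]
    intro a ha
    -- `[x, a] ∈ A ∩ Q = 1`
    have h1 : x * a * x⁻¹ ∈ A := by rw [h]; exact ⟨a, ha, rfl⟩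
    have h2 : x * a * x⁻¹ * a⁻¹ ∈ A ⊓ QQ p H := by
      refine ⟨A.mul_mem h1 (A.inv_mem ha), ?_⟩
      have h3 : a * x⁻¹ * a⁻¹ ∈ QQ p H := (mem_normalizer_iff.1 (le_normalizer_QQ (hAH ha)) _).1 (inv_mem hx)
      have h4 : x * a * x⁻¹ * a⁻¹ = x * (a * x⁻¹ * a⁻¹) := by group
      rw [h4]; exact mul_mem hx h3
    have h3 : A ⊓ QQ p H = ⊥ := by
      rw [← disjoint_iff]
      apply Subgroup.disjoint_of_coprime_natCard
      rw [hA]; exact (QQ_coprime (p := p) (H := H)).symm
    rw [h3, mem_bot] at h2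
    rw [mul_inv_eq_one, mul_inv_eq_iff_eq_mul] at h2
    exact h2.symm

end Setup

end Cfsg.Agent.H2.FF
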