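import Mathlib
import Cfsg.Agent.H2_FF4
import Cfsg.Agent.H1_Factor

/-! Failure of factorization V: the commutator of the `p'`-core with a minimal offender. -/

set_option autoImplicit false
set_option linter.style.haveILetI false
set_option linter.unusedSectionVars false

open Subgroup Cfsg
open scoped commutatorElement

namespace Cfsg.Agent.H2.FF

open Cfsg.Agent.H2.Basic Cfsg.Agent.H2.Quad Cfsg.Agent.H2.Replace

variable {G : Type*} [Group G] {p : ℕ} [Finite G] [hp : Fact p.Prime] {V H : Subgroup G}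

/-- a quadratic element commutes with the abelian `p'`-groups it normalizes (`p` odd) -/
theorem abelian_comm (hp2 : p ≠ 2) (hV : IsElementaryAbelian p V) {E N : Subgroup G} (hEV : E ≤ normalizer (V : Set G))
    (hf : E ⊓ centralizer (V : Set G) = ⊥) (hNE : N ≤ E) (hN : ∀ x ∈ N, ∀ y ∈ N, x * y = y * x)
    (hNp : (Nat.card N).Coprime p) {a : G} (haE : a ∈ E) (haN : a ∈ normalizer (N : Set G))
    (hq : ⁅⁅V, zpowers a⁆, zpowers a⁆ = ⊥) : ∀ x ∈ N, x * a = a * x := by
  letI : CommGroup V := { (inferInstance : Group V) with mul_comm := hV.1.is_comm.comm }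
  intro x hx
  have h1 := Cfsg.Agent.H2.Good.key_act (p := p) hp2 (fun v : V => Subtype.ext (hV.2 v v.2))
    (Cfsg.Agent.H18.QPair.conjAut V E hEV) (M := N.subgroupOf E) (H := ⊥) (a := ⟨a, haE⟩)
    (fun h hh => by rw [mem_bot] at hh; rw [hh, map_one]) (by
      rw [commutator_le]
      intro y hy z hz
      rw [mem_bot, commutatorElement_eq_one_iff_mul_comm]
      apply Subtype.ext
      exact hN _ hy _ hz) (by
      rw [relIndex_bot_left, Cfsg.Agent.H2.Card.card_subgroupOf_of_le hNE]; exact hNp) (by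
      intro m hm
      exact (mem_normalizer_iff.1 haN _).1 hm) (by
      intro v
      apply Subtype.ext
      change a * (a * (v : G) * a⁻¹ * (v : G)⁻¹) * a⁻¹ = a * (v : G) * a⁻¹ * (v : G)⁻¹
      exact Cfsg.Agent.H18.QPair.conj_fix_of_quad hq v.2) ⟨x, hNE hx⟩ hx
  have h2 : ⁅x, a⁆ ∈ E ⊓ centralizer (V : Set G) := by
    refine ⟨?_, mem_centralizer_iff.2 ?_⟩
    · rw [commutatorElement_def]
      exact E.mul_mem (E.mul_mem (E.mul_mem (hNE hx) haE) (E.inv_mem (hNE hx))) (E.inv_mem haE)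
    · intro v hv
      have h3 := congrArg Subtype.val (DFunLike.congr_fun h1 (⟨v, hv⟩ : V))
      have h4 : ⁅x, a⁆ * v * ⁅x, a⁆⁻¹ = v := h3
      rw [mul_inv_eq_iff_eq_mul] at h4
      exact h4.symm
  rw [hf, mem_bot, commutatorElement_eq_one_iff_mul_comm] at h2
  exact h2

namespace Setup

/-- the possible primes `q` such that `A` moves an `A`-invariant `q`-subgroup of `O_{p'}(H)` -/
theorem prime_of_moved (S : Setup p V H) {A : Subgroup G} (hAH : A ≤ H) (hA : Nat.card A = p)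
    (hAC : p * Nat.card (CV V A) = Nat.card V) {q : ℕ} (hq : q.Prime) {T : Subgroup G} (hT : IsPGroup q T)
    (hTQ : T ≤ QQ p H) (hAT : A ≤ normalizer (T : Set G)) (h : ¬ T ≤ centralizer (A : Set G)) :
    (p = 2 ∧ q = 3) ∨ (p = 3 ∧ q = 2) := by
  haveI : Fact q.Prime := ⟨hq⟩
  obtain ⟨x, hx, hxA⟩ := SetLike.not_le_iff_exists.1 h
  have P := S.pair_conj hAH hA hAC (hTQ hx) hxA
  set B : Subgroup G := A.map (MulAut.conj x).toMonoidHom with hB
  -- `E ∩ Q ≤ T`
  have hET : A ⊔ B ≤ A ⊔ T := by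
    apply sup_le le_sup_left
    rintro _ ⟨a, ha, rfl⟩
    change x * a * x⁻¹ ∈ _
    exact mul_mem (mul_mem ((le_sup_right : T ≤ A ⊔ T) hx) ((le_sup_left : A ≤ A ⊔ T) ha))
      (inv_mem ((le_sup_right : T ≤ A ⊔ T) hx))
  have hAQ : A ⊓ QQ p H = ⊥ := by
    rw [← disjoint_iff]
    apply Subgroup.disjoint_of_coprime_natCard
    rw [hA]; exact (QQ_coprime (p := p) (H := H)).symm
  have hR : (A ⊔ B) ⊓ QQ p H ≤ T := by
    rintro y ⟨hy1, hy2⟩
    have h1 := hET hy1
    rw [Cfsg.Agent.H2.Card.mem_sup_iff hAT] at h1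
    obtain ⟨a, ha, t, ht, rfl⟩ := h1
    have h2 : a ∈ A ⊓ QQ p H := by
      refine ⟨ha, ?_⟩
      have := (QQ p H).mul_mem hy2 ((QQ p H).inv_mem (hTQ ht))
      rwa [mul_inv_cancel_right] at this
    rw [hAQ, mem_bot] at h2
    rw [h2, one_mul]; exact ht
  obtain ⟨n, hn⟩ := IsPGroup.iff_card.1 (hT.to_le hR)
  obtain ⟨φ, -⟩ := P.pd.sl2
  have h3 : Nat.card (Matrix.SpecialLinearGroup (Fin 2) (ZMod p)) = Nat.card ↥(A ⊔ B) := (Nat.card_congr φ.toEquiv).symm
  have h4 : p * (p - 1) * (p + 1) = Nat.card ↥(A ⊔ B) := card_sl.symm.trans h3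
  rw [← P.cardR, mul_assoc] at h4
  have h5 := Nat.eq_of_mul_eq_mul_left hp.out.pos h4
  rw [hn] at h5
  rcases P.small with rfl | rfl
  · left
    refine ⟨rfl, ?_⟩
    have h6 : 3 = q ^ n := h5
    have h7 : q ∣ 3 := by
      rw [h6]
      apply dvd_pow_self
      rintro rfl
      norm_num at h6
    exact (Nat.prime_dvd_prime_iff_eq hq Nat.prime_three).1 h7
  · right
    refine ⟨rfl, ?_⟩
    have h6 : 8 = q ^ n := h5
    have h7 : q ∣ 8 := by
      rw [h6]
      apply dvd_pow_self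
      rintro rfl
      norm_num at h6
    have h8 : (8 : ℕ) = 2 ^ 3 := by norm_num
    rw [h8] at h7
    exact (Nat.prime_dvd_prime_iff_eq hq Nat.prime_two).1 (hq.dvd_of_dvd_pow h7)

/-- `[K, A]` is an `r`-group if `A` centralizes all invariant `q`-subgroups of `K` for `q ≠ r` -/
theorem comm_isPGroup {A K : Subgroup G} (hAK : A ≤ normalizer (K : Set G)) (hcop : (Nat.card A).Coprime (Nat.card K))
    (hsol : Group.IsSolvable A) {r : ℕ} [hr : Fact r.Prime]
    (h : ∀ (q : ℕ) (T : Subgroup G), q.Prime → q ≠ r → IsPGroup q T → T ≤ K → A ≤ normalizer (T : Set G) →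
      T ≤ centralizer (A : Set G)) : IsPGroup r (⁅K, A⁆ : Subgroup G) := by
  obtain ⟨P, hP⟩ := Cfsg.Agent.H1.Coprime.invariant_sylow_exists A K hAK hcop (Or.inl hsol) r
  have hPr : IsPGroup r ((P : Subgroup K).map K.subtype) := P.isPGroup'.map _
  apply hPr.to_le
  set L : Subgroup K := (centralizer (A : Set G)).subgroupOf K with hL
  have hco : ((P : Subgroup K).index).Coprime L.index := by
    rw [Nat.coprime_iff_gcd_eq_one]
    by_contra hne
    obtain ⟨q, hq, hqd⟩ := Nat.exists_prime_and_dvd hne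
    haveI : Fact q.Prime := ⟨hq⟩
    have h1 := hqd.trans (Nat.gcd_dvd_left _ _)
    have h2 := hqd.trans (Nat.gcd_dvd_right _ _)
    rcases eq_or_ne q r with rfl | hqr
    · exact P.not_dvd_index h1
    · obtain ⟨T, hT⟩ := Cfsg.Agent.H1.Coprime.invariant_sylow_exists A K hAK hcop (Or.inl hsol) q
      have h3 := h q _ hq hqr (T.isPGroup'.map K.subtype) (map_subtype_le _) hT
      have h4 : (T : Subgroup K) ≤ L := by
        intro x hx
        exact h3 ⟨x, hx, rfl⟩
      exact T.not_dvd_index (h2.trans (index_dvd_of_le h4))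
  have hfac := (Cfsg.Agent.H1.Factor.index_inf_of_coprime (P : Subgroup K) L hco).2
  rw [commutator_le]
  intro k hk a ha
  obtain ⟨x, hx, y, hy, hxy⟩ := hfac ⟨k, hk⟩
  have hk' : k = (x : G) * y := congrArg Subtype.val hxy
  have hyc : a * (y : G) = y * a := mem_centralizer_iff.1 hy a ha
  have hx' : (x : G) ∈ (P : Subgroup K).map K.subtype := ⟨x, hx, rfl⟩
  have e : ⁅k, a⁆ = x * (a * (x : G)⁻¹ * a⁻¹) := by
    rw [hk', commutatorElement_def]
    calc (x : G) * y * a * ((x : G) * y)⁻¹ * a⁻¹ = x * (y * a) * (y : G)⁻¹ * (x : G)⁻¹ * a⁻¹ := by group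
      _ = x * (a * y) * (y : G)⁻¹ * (x : G)⁻¹ * a⁻¹ := by rw [hyc]
      _ = _ := by group
  rw [e]
  exact mul_mem hx' ((mem_normalizer_iff.1 (hP ha) _).1 (inv_mem hx'))

theorem quad_of_min (S : Setup p V H) {A : Subgroup G} (hAH : A ≤ H) (hA : Nat.card A = p)
    (hAC : p * Nat.card (CV V A) = Nat.card V) : ⁅⁅V, A⁆, A⁆ = ⊥ := by
  have hAV := hAH.trans S.hHV
  have hAle : ⁅V, A⁆ ≤ V := commutator_le_left_of_normalizes hAV
  exact comm_bot_of_card S.hV hAV (ea_of_card hA) hAle (comm_card S.hV hAV hA hAC) (normalizes_of_comm_le S.hV hAle le_rfl)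

theorem min_ne_bot {A : Subgroup G} (hA : Nat.card A = p) : A ≠ ⊥ := by
  rintro rfl
  rw [Subgroup.card_bot] at hA
  exact hp.out.one_lt.ne hA

theorem comm_core (S : Setup p V H) {A : Subgroup G} (hAH : A ≤ H) (hA : Nat.card A = p)
    (hAC : p * Nat.card (CV V A) = Nat.card V) :
    (p = 2 ∧ IsPGroup 3 (⁅QQ p H, A⁆ : Subgroup G)) ∨
      (p = 3 ∧ IsPGroup 2 (⁅QQ p H, A⁆ : Subgroup G) ∧ ¬ IsMulCommutative (⁅QQ p H, A⁆ : Subgroup G)) := by
  have hea := ea_of_card hA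
  have hAQ : A ≤ normalizer (QQ p H : Set G) := hAH.trans le_normalizer_QQ
  have hcop : (Nat.card A).Coprime (Nat.card (QQ p H)) := card_coprime QQ_coprime hea
  have hsol : Group.IsSolvable A := by
    haveI := (ea_isPGroup hea).isNilpotent
    infer_instance
  obtain ⟨x, hx, hxA⟩ := SetLike.not_le_iff_exists.1 (S.not_le_cent hAH hea (min_ne_bot hA))
  have P := S.pair_conj hAH hA hAC hx hxA
  have key : ∀ r : ℕ, r.Prime → ((p = 2 ∧ r = 3) ∨ (p = 3 ∧ r = 2)) → IsPGroup r (⁅QQ p H, A⁆ : Subgroup G) := by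
    intro r hr hpr
    haveI : Fact r.Prime := ⟨hr⟩
    apply comm_isPGroup hAQ hcop hsol
    intro q T hq hqr hT hTQ hAT
    by_contra hno
    rcases S.prime_of_moved hAH hA hAC hq hT hTQ hAT hno with ⟨h1, h2⟩ | ⟨h1, h2⟩
    · rcases hpr with ⟨h3, h4⟩ | ⟨h3, h4⟩ <;> omega
    · rcases hpr with ⟨h3, h4⟩ | ⟨h3, h4⟩ <;> omega
  rcases P.small with h2 | h3
  · exact Or.inl ⟨h2, key 3 Nat.prime_three (Or.inl ⟨h2, rfl⟩)⟩
  · refine Or.inr ⟨h3, key 2 Nat.prime_two (Or.inr ⟨h3, rfl⟩), ?_⟩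
    intro hcomm
    apply hxA
    have hNle : ⁅QQ p H, A⁆ ≤ QQ p H := commutator_le_left_of_normalizes hAQ
    have hAN : A ≤ normalizer ((⁅QQ p H, A⁆ : Subgroup G) : Set G) :=
      Cfsg.Agent.H1.Coprime.le_normalizer_commutator_of hAQ le_normalizer
    have h1 : ⁅QQ p H, A⁆ ≤ centralizer (A : Set G) := by
      rw [le_centralizer_iff]
      intro a ha
      rw [mem_centralizer_iff]
      have hz : zpowers a ≤ A := by rwa [zpowers_le]
      exact abelian_comm (by omega) S.hV S.hHV S.hf (hNle.trans QQ_le)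
        (fun y hy z hz => congrArg Subtype.val (hcomm.is_comm.comm ⟨y, hy⟩ ⟨z, hz⟩))
        (Nat.Coprime.coprime_dvd_left (card_dvd_of_le hNle) QQ_coprime) (hAH ha) (hAN ha)
        (by
          rw [eq_bot_iff, ← S.quad_of_min hAH hA hAC]
          exact commutator_mono (commutator_mono le_rfl hz) hz)
    have h2 := Cfsg.Agent.H1.Coprime.commutator_commutator_eq A (QQ p H) hAQ hcop (Or.inl hsol)
    rw [commutator_eq_bot_iff_le_centralizer.2 h1] at h2
    exact (commutator_eq_bot_iff_le_centralizer.1 h2.symm) hx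

end Setup

end Cfsg.Agent.H2.FF
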