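import Mathlib
import Cfsg.Agent.H2_FF3
import Cfsg.Agent.H2_Subnormal
import Cfsg.Agent.H11_Cores

/-! Failure of factorization VI: two subnormal subgroups acting irreducibly on their commutators. -/

set_option autoImplicit false
set_option linter.style.haveILetI false
set_option linter.unusedSectionVars false

open Subgroup Cfsg
open scoped commutatorElement

namespace Cfsg.Agent.H2.FF

open Cfsg.Agent.H2.Basic Cfsg.Agent.H2.Quad Cfsg.Agent.H2.Replace

section Cj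

variable {G : Type*} [Group G]

/-- conjugate subgroup -/
abbrev cj (g : G) (X : Subgroup G) : Subgroup G := X.map (MulAut.conj g).toMonoidHom

theorem mem_cj {g : G} {X : Subgroup G} {y : G} : y ∈ cj g X ↔ g⁻¹ * y * g ∈ X := by
  constructor
  · rintro ⟨x, hx, rfl⟩
    change g⁻¹ * (g * x * g⁻¹) * g ∈ X
    have : g⁻¹ * (g * x * g⁻¹) * g = x := by group
    rw [this]; exact hx
  · intro h
    refine ⟨_, h, ?_⟩
    change g * (g⁻¹ * y * g) * g⁻¹ = y
    group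

theorem cj_mem {g : G} {X : Subgroup G} {x : G} (hx : x ∈ X) : g * x * g⁻¹ ∈ cj g X := ⟨x, hx, rfl⟩

theorem cj_mul (g h : G) (X : Subgroup G) : cj (g * h) X = cj g (cj h X) := by
  ext y
  rw [mem_cj, mem_cj, mem_cj]
  have : (g * h)⁻¹ * y * (g * h) = h⁻¹ * (g⁻¹ * y * g) * h := by group
  rw [this]

theorem cj_one (X : Subgroup G) : cj 1 X = X := by
  ext y; rw [mem_cj]; simp

theorem cj_inv_cj (g : G) (X : Subgroup G) : cj g⁻¹ (cj g X) = X := by
  rw [← cj_mul, inv_mul_cancel, cj_one]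

theorem cj_cj_inv (g : G) (X : Subgroup G) : cj g (cj g⁻¹ X) = X := by
  rw [← cj_mul, mul_inv_cancel, cj_one]

theorem cj_eq_iff {g : G} {X : Subgroup G} : cj g X = X ↔ g ∈ normalizer (X : Set G) := by
  constructor
  · intro h
    rw [mem_normalizer_iff]
    intro x
    constructor
    · intro hx
      have := cj_mem (g := g) hx
      rw [h] at this
      exact this
    · intro hx
      have h2 : g * x * g⁻¹ ∈ cj g X := by rw [h]; exact hx
      rw [mem_cj] at h2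
      have e : g⁻¹ * (g * x * g⁻¹) * g = x := by group
      rwa [e] at h2
  · intro h
    ext y
    rw [mem_cj]
    rw [mem_normalizer_iff] at h
    rw [h]
    have e : g * (g⁻¹ * y * g) * g⁻¹ = y := by group
    rw [e]

theorem cj_comm (g : G) (X Y : Subgroup G) : cj g ⁅X, Y⁆ = ⁅cj g X, cj g Y⁆ := map_commutator _ _ _

theorem cj_mono {g : G} {X Y : Subgroup G} (h : X ≤ Y) : cj g X ≤ cj g Y := map_mono h

theorem cj_le_iff {g : G} {X Y : Subgroup G} : cj g X ≤ Y ↔ X ≤ cj g⁻¹ Y := by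
  constructor
  · intro h
    have := cj_mono (g := g⁻¹) h
    rwa [cj_inv_cj] at this
  · intro h
    have := cj_mono (g := g) h
    rwa [cj_cj_inv] at this

theorem card_cj (g : G) (X : Subgroup G) : Nat.card (cj g X) = Nat.card X :=
  Subgroup.card_map_of_injective (MulAut.conj g).injective

theorem cj_normalizer {g : G} {X U : Subgroup G} (h : X ≤ normalizer (U : Set G)) : cj g X ≤ normalizer (cj g U : Set G) := by
  rintro _ ⟨x, hx, rfl⟩
  have h1 := cj_eq_iff.2 (h hx)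
  rw [← cj_eq_iff]
  change cj (g * x * g⁻¹) (cj g U) = cj g U
  rw [cj_mul, cj_inv_cj, cj_mul, h1]

end Cj

section SN

variable {G : Type*} [Group G] [Finite G] {p : ℕ} [hp : Fact p.Prime]

/-- `O_p(E) = 1` -/
def OpTriv (p : ℕ) (E : Subgroup G) : Prop := ∀ N : Subgroup G, N ≤ E → E ≤ normalizer (N : Set G) → IsPGroup p N → N = ⊥

theorem opTriv_of_pCore {E : Subgroup G} (h : pCore p E = ⊥) : OpTriv p E := by
  intro N hNE hEN hN
  haveI : (N.subgroupOf E).Normal := (normal_subgroupOf_iff_le_normalizer hNE).2 hEN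
  have h1 : N.subgroupOf E ≤ pCore p E :=
    Cfsg.Agent.H11.Cores.le_pCore p (IsPGroup.comap_of_injective hN E.subtype E.subtype_injective)
  rw [h, le_bot_iff, subgroupOf_eq_bot, disjoint_iff, inf_eq_left.2 hNE] at h1
  exact h1

theorem pCore_of_opTriv {E : Subgroup G} (h : OpTriv p E) : pCore p E = ⊥ := by
  have h1 := h ((pCore p E).map E.subtype) (map_subtype_le _) (by
    haveI := (inferInstance : (pCore p E).Normal)
    rw [← normal_subgroupOf_iff_le_normalizer (map_subtype_le _), subgroupOf, comap_map_eq_self_of_injective E.subtype_injective]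
    infer_instance) ((Cfsg.Agent.H11.Cores.pCore_isPGroup p).map _)
  rwa [map_eq_bot_iff_of_injective _ E.subtype_injective] at h1

theorem OpTriv.subnormal {E F : Subgroup G} (h : OpTriv p E) (hFE : F ≤ E) (hF : (F.subgroupOf E).IsSubnormal) : OpTriv p F := by
  intro N hNF hFN hN
  have h1 : (N.subgroupOf E).IsSubnormal := by
    apply IsSubnormal.trans (K := F.subgroupOf E) (comap_mono hNF) _ hF
    apply Subgroup.Normal.isSubnormal
    refine (normal_subgroupOf_iff_le_normalizer (H := N.subgroupOf E) (K := F.subgroupOf E) (comap_mono hNF)).2 ?_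
    intro x hx
    rw [mem_normalizer_iff]
    intro y
    exact mem_normalizer_iff.1 (hFN hx) y
  have h2 : N.subgroupOf E ≤ pCore p E :=
    Cfsg.Agent.H11.Cores.le_pCore_of_isSubnormal p h1 (IsPGroup.comap_of_injective hN E.subtype E.subtype_injective)
  rw [pCore_of_opTriv h, le_bot_iff, subgroupOf_eq_bot, disjoint_iff, inf_eq_left.2 (hNF.trans hFE)] at h2
  exact h2

theorem subnormal_of_le {E F X : Subgroup G} (hFE : F ≤ E) (hX : (X.subgroupOf E).IsSubnormal) : (X.subgroupOf F).IsSubnormal :=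
  hX.comap (inclusion hFE)

theorem subnormal_sup {E X Y : Subgroup G} (hXE : X ≤ E) (hYE : Y ≤ E) (hX : (X.subgroupOf E).IsSubnormal)
    (hY : (Y.subgroupOf E).IsSubnormal) : ((X ⊔ Y).subgroupOf E).IsSubnormal := by
  have h := Cfsg.Agent.H2.Subnormal.sup hX hY
  rwa [← subgroupOf_sup hXE hYE] at h

theorem subnormal_cj {E X : Subgroup G} (hX : (X.subgroupOf E).IsSubnormal) {g : G} (hg : g ∈ E) :
    ((cj g X).subgroupOf E).IsSubnormal := by
  have h := IsSubnormal.map (f := (MulAut.conj (⟨g, hg⟩ : E)).toMonoidHom) (MulAut.conj (⟨g, hg⟩ : E)).surjective hX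
  have e : (cj g X).subgroupOf E = (X.subgroupOf E).map (MulAut.conj (⟨g, hg⟩ : E)).toMonoidHom := by
    ext y
    have := mem_cj (g := (⟨g, hg⟩ : E)) (X := X.subgroupOf E) (y := y)
    rw [this, mem_subgroupOf, mem_subgroupOf, mem_cj]
    rfl
  rw [e]; exact h

end SN

section Main

variable {G : Type*} [Group G] [Finite G] {p : ℕ} [hp : Fact p.Prime] {V : Subgroup G}

/-- irreducibility of `E` on `[V, E]` -/
def Irr (V E : Subgroup G) : Prop := ∀ U : Subgroup G, U ≤ ⁅V, E⁆ → E ≤ normalizer (U : Set G) → U = ⊥ ∨ U = ⁅V, E⁆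

structure Concl (V E₁ E₂ : Subgroup G) : Prop where
  comm : ⁅E₁, E₂⁆ = ⊥
  inf : E₁ ⊓ E₂ = ⊥
  vinf : ⁅V, E₁⁆ ⊓ ⁅V, E₂⁆ = ⊥
  sup : ⁅V, E₁ ⊔ E₂⁆ = ⁅V, E₁⁆ ⊔ ⁅V, E₂⁆

theorem Concl.symm {E₁ E₂ : Subgroup G} (h : Concl V E₁ E₂) : Concl V E₂ E₁ :=
  ⟨by rw [commutator_comm]; exact h.comm, by rw [inf_comm]; exact h.inf, by rw [inf_comm]; exact h.vinf,
    by rw [sup_comm, h.sup, sup_comm]⟩

/-- normality of the set of elements acting trivially on `V/N` -/
theorem comm_quot_le {N A B : Subgroup G} (_hNV : N ≤ V) (hBV : B ≤ normalizer (V : Set G))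
    (hBN : B ≤ normalizer (N : Set G)) (hAV : A ≤ normalizer (V : Set G)) (hAN : A ≤ normalizer (N : Set G))
    (h : ⁅V, A⁆ ≤ N) : ⁅V, ⁅A, B⁆⁆ ≤ N := by
  let S : Subgroup G :=
    { carrier := {g | g ∈ normalizer (N : Set G) ∧ g ∈ normalizer (V : Set G) ∧ ∀ v ∈ V, ⁅v, g⁆ ∈ N}
      one_mem' := ⟨one_mem _, one_mem _, fun v _ => by simp⟩
      mul_mem' := by
        rintro g h ⟨g1, g2, g3⟩ ⟨h1, h2, h3⟩
        refine ⟨mul_mem g1 h1, mul_mem g2 h2, fun v hv => ?_⟩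
        have e : ⁅v, g * h⁆ = ⁅v, g⁆ * (g * ⁅v, h⁆ * g⁻¹) := by
          simp only [commutatorElement_def]; group
        rw [e]
        exact N.mul_mem (g3 v hv) ((mem_normalizer_iff.1 g1 _).1 (h3 v hv))
      inv_mem' := by
        rintro g ⟨g1, g2, g3⟩
        refine ⟨inv_mem g1, inv_mem g2, fun v hv => ?_⟩
        have e : ⁅v, g⁻¹⁆ = g⁻¹ * ⁅v, g⁆⁻¹ * g⁻¹⁻¹ := by
          simp only [commutatorElement_def]; group
        rw [e]
        exact (mem_normalizer_iff.1 (inv_mem g1) _).1 (N.inv_mem (g3 v hv)) }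
  have hAS : A ≤ S := fun a ha => ⟨hAN ha, hAV ha, fun v hv => h (commutator_mem_commutator hv ha)⟩
  have hBS : ∀ b ∈ B, ∀ a ∈ S, b * a * b⁻¹ ∈ S := by
    rintro b hb a ⟨a1, a2, a3⟩
    refine ⟨mul_mem (mul_mem (hBN hb) a1) (inv_mem (hBN hb)), mul_mem (mul_mem (hBV hb) a2) (inv_mem (hBV hb)), ?_⟩
    intro v hv
    have e : ⁅v, b * a * b⁻¹⁆ = b * ⁅b⁻¹ * v * b, a⁆ * b⁻¹ := by
      simp only [commutatorElement_def]; group
    rw [e]
    apply (mem_normalizer_iff.1 (hBN hb) _).1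
    apply a3
    have := (mem_normalizer_iff.1 (inv_mem (hBV hb)) v).1 hv
    rwa [inv_inv] at this
  have hABS : ⁅A, B⁆ ≤ S := by
    rw [commutator_le]
    intro a ha b hb
    have e : ⁅a, b⁆ = a * (b * a⁻¹ * b⁻¹) := by rw [commutatorElement_def]; group
    rw [e]
    exact S.mul_mem (hAS ha) (hBS b hb _ (S.inv_mem (hAS ha)))
  rw [commutator_le]
  intro v hv g hg
  exact (hABS hg).2.2 v hv

theorem centralizer_normalizer {X B : Subgroup G} (hB : B ≤ normalizer (X : Set G)) :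
    B ≤ normalizer ((centralizer (X : Set G) : Subgroup G) : Set G) := by
  intro b hb
  apply mem_normalizer_fintype
  intro c hc
  have hc' := mem_centralizer_iff.1 hc
  rw [SetLike.mem_coe, mem_centralizer_iff]
  intro x hx
  have h1 : b⁻¹ * x * b ∈ X := by
    have := (mem_normalizer_iff.1 (inv_mem (hB hb)) x).1 hx
    rwa [inv_inv] at this
  have h2 := hc' _ h1
  calc x * (b * c * b⁻¹) = b * ((b⁻¹ * x * b) * c) * b⁻¹ := by group
    _ = b * (c * (b⁻¹ * x * b)) * b⁻¹ := by rw [h2]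
    _ = _ := by group

theorem normalizer_inf {X Y B : Subgroup G} (hX : B ≤ normalizer (X : Set G)) (hY : B ≤ normalizer (Y : Set G)) :
    B ≤ normalizer ((X ⊓ Y : Subgroup G) : Set G) := by
  intro b hb
  rw [mem_normalizer_iff]
  intro x
  constructor
  · rintro ⟨h1, h2⟩
    exact ⟨(mem_normalizer_iff.1 (hX hb) x).1 h1, (mem_normalizer_iff.1 (hY hb) x).1 h2⟩
  · rintro ⟨h1, h2⟩
    exact ⟨(mem_normalizer_iff.1 (hX hb) x).2 h1, (mem_normalizer_iff.1 (hY hb) x).2 h2⟩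

/-- the case where `[V, E₁]` is invariant -/
theorem concl_of_inv (hV : IsElementaryAbelian p V) {E₁ E₂ : Subgroup G} (h1V : E₁ ≤ normalizer (V : Set G))
    (h2V : E₂ ≤ normalizer (V : Set G)) (hf : (E₁ ⊔ E₂) ⊓ centralizer (V : Set G) = ⊥) (hO : OpTriv p (E₁ ⊔ E₂))
    (hirr : Irr V E₂) (h21 : ¬ ⁅V, E₂⁆ ≤ ⁅V, E₁⁆) (hinv : E₂ ≤ normalizer ((⁅V, E₁⁆ : Subgroup G) : Set G)) :
    Concl V E₁ E₂ := by
  have hV1 : ⁅V, E₁⁆ ≤ V := commutator_le_left_of_normalizes h1V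
  have hV2 : ⁅V, E₂⁆ ≤ V := commutator_le_left_of_normalizes h2V
  have h11 : E₁ ≤ normalizer ((⁅V, E₁⁆ : Subgroup G) : Set G) := normalizes_of_comm_le hV hV1 le_rfl
  have h22 : E₂ ≤ normalizer ((⁅V, E₂⁆ : Subgroup G) : Set G) := normalizes_of_comm_le hV hV2 le_rfl
  have hinf : ⁅V, E₁⁆ ⊓ ⁅V, E₂⁆ = ⊥ := by
    rcases hirr (⁅V, E₁⁆ ⊓ ⁅V, E₂⁆) inf_le_right (normalizer_inf hinv h22) with h | h
    · exact h
    · exact absurd (inf_eq_right.1 h) h21
  have hc12 : ⁅⁅V, E₁⁆, E₂⁆ = ⊥ := by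
    rw [eq_bot_iff, ← hinf]
    exact le_inf (commutator_le_left_of_normalizes hinv) (commutator_mono hV1 le_rfl)
  have hE2C : E₂ ≤ centralizer ((⁅V, E₁⁆ : Subgroup G) : Set G) := by
    rw [le_centralizer_iff]; exact commutator_eq_bot_iff_le_centralizer.1 hc12
  set D : Subgroup G := ⁅E₁, E₂⁆ with hD
  have hDC : D ≤ centralizer ((⁅V, E₁⁆ : Subgroup G) : Set G) := by
    rw [hD, commutator_le]
    intro a ha b hb
    rw [commutatorElement_def]
    have hN := centralizer_normalizer (X := ⁅V, E₁⁆) h11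
    exact mul_mem ((mem_normalizer_iff.1 (hN ha) b).1 (hE2C hb)) (inv_mem (hE2C hb))
  have hDV : ⁅V, D⁆ ≤ ⁅V, E₁⁆ := comm_quot_le hV1 h2V hinv h1V h11 le_rfl
  have hDle : D ≤ E₁ ⊔ E₂ := by
    rw [hD, commutator_le]
    intro a ha b hb
    have ha' : a ∈ E₁ ⊔ E₂ := (le_sup_left : E₁ ≤ _) ha
    have hb' : b ∈ E₁ ⊔ E₂ := (le_sup_right : E₂ ≤ _) hb
    rw [commutatorElement_def]
    exact mul_mem (mul_mem (mul_mem ha' hb') (inv_mem ha')) (inv_mem hb')
  have hDp : IsPGroup p D := by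
    apply pgroup_of_chain (ea_isPGroup hV) (hDle.trans (sup_le h1V h2V))
    · rw [eq_bot_iff, ← hf]; exact inf_le_inf_right _ hDle
    · have : ⁅⁅V, D⁆, D⁆ = ⊥ := by
        rw [eq_bot_iff]
        refine (commutator_mono hDV le_rfl).trans ?_
        rw [le_bot_iff, commutator_eq_bot_iff_le_centralizer, le_centralizer_iff]
        exact hDC
      rw [this, commutator_bot_left]
  have hDbot : D = ⊥ := hO D hDle (sup_le (normalizer_commutator_ge_left ..) (normalizer_commutator_ge_right ..)) hDp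
  refine ⟨hDbot, ?_, hinf, ?_⟩
  · rw [eq_bot_iff, ← hf]
    refine le_inf (inf_le_left.trans le_sup_left) ?_
    rw [le_centralizer_iff, ← commutator_eq_bot_iff_le_centralizer, eq_bot_iff, ← hinf]
    exact le_inf (commutator_mono le_rfl inf_le_left) (commutator_mono le_rfl inf_le_right)
  · have h12 : E₁ ≤ normalizer ((⁅V, E₂⁆ : Subgroup G) : Set G) := by
      have hcE : E₁ ≤ centralizer (E₂ : Set G) := commutator_eq_bot_iff_le_centralizer.1 hDbot
      exact Cfsg.Agent.H1.Coprime.le_normalizer_commutator_of h1V (hcE.trans (centralizer_le_normalizer _))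
    apply le_antisymm
    · have hW : ⁅V, E₁⁆ ⊔ ⁅V, E₂⁆ ≤ V := sup_le hV1 hV2
      exact commutator_sup_le (normalizes_of_comm_le hV hW le_sup_left) (normalizes_of_comm_le hV hW le_sup_right) h1V h2V
        le_sup_left le_sup_right
    · exact sup_le (commutator_mono le_rfl le_sup_left) (commutator_mono le_rfl le_sup_right)

theorem Concl.cent (hV : IsElementaryAbelian p V) {E₁ E₂ : Subgroup G} (h1V : E₁ ≤ normalizer (V : Set G))
    (h2V : E₂ ≤ normalizer (V : Set G)) (h : Concl V E₁ E₂) : ⁅V, E₂⁆ ≤ centralizer (E₁ : Set G) := by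
  have h12 : E₁ ≤ normalizer ((⁅V, E₂⁆ : Subgroup G) : Set G) := by
    have hcE : E₁ ≤ centralizer (E₂ : Set G) := commutator_eq_bot_iff_le_centralizer.1 h.comm
    exact Cfsg.Agent.H1.Coprime.le_normalizer_commutator_of h1V (hcE.trans (centralizer_le_normalizer _))
  rw [← commutator_eq_bot_iff_le_centralizer, eq_bot_iff, ← h.vinf]
  exact le_inf (commutator_mono (commutator_le_left_of_normalizes h2V) le_rfl) (commutator_le_left_of_normalizes h12)

theorem cj_V {g : G} (hg : g ∈ normalizer (V : Set G)) (E : Subgroup G) : ⁅V, cj g E⁆ = cj g ⁅V, E⁆ := by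
  rw [cj_comm, cj_eq_iff.2 hg]

theorem Irr.cj {E : Subgroup G} (h : Irr V E) {g : G} (hg : g ∈ normalizer (V : Set G)) : Irr V (cj g E) := by
  intro U hU hEU
  rw [cj_V hg] at hU ⊢
  have h1 : FF.cj g⁻¹ U ≤ ⁅V, E⁆ := by
    have := cj_mono (g := g⁻¹) hU
    rwa [cj_inv_cj] at this
  have h2 : E ≤ normalizer ((FF.cj g⁻¹ U : Subgroup G) : Set G) := by
    have := cj_normalizer (g := g⁻¹) hEU
    rwa [cj_inv_cj] at this
  rcases h _ h1 h2 with h3 | h3
  · left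
    have h4 := congrArg (FF.cj g) h3
    rw [cj_cj_inv] at h4
    rw [h4]; exact map_bot _
  · right
    have h4 := congrArg (FF.cj g) h3
    rwa [cj_cj_inv] at h4

/-- the induction statement -/
def Stmt (p : ℕ) (V : Subgroup G) (n : ℕ) : Prop := ∀ E₁ E₂ : Subgroup G, Nat.card (E₁ ⊔ E₂ : Subgroup G) ≤ n →
  E₁ ≤ normalizer (V : Set G) → E₂ ≤ normalizer (V : Set G) → (E₁ ⊔ E₂) ⊓ centralizer (V : Set G) = ⊥ →
  (E₁.subgroupOf (E₁ ⊔ E₂)).IsSubnormal → (E₂.subgroupOf (E₁ ⊔ E₂)).IsSubnormal → OpTriv p (E₁ ⊔ E₂) →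
  Irr V E₁ → Irr V E₂ → ¬ ⁅V, E₁⁆ ≤ ⁅V, E₂⁆ → ¬ ⁅V, E₂⁆ ≤ ⁅V, E₁⁆ → 2 < Nat.card E₁ → 2 < Nat.card E₂ → Concl V E₁ E₂

theorem conj_concl {n : ℕ} (IH : Stmt p V n) {E E₁ : Subgroup G} (hE1 : E₁ ≤ E) (hcard : Nat.card E ≤ n + 1) (hne : E₁ ≠ E)
    (hEV : E ≤ normalizer (V : Set G)) (hf : E ⊓ centralizer (V : Set G) = ⊥) (hs : (E₁.subgroupOf E).IsSubnormal)
    (hO : OpTriv p E) (hirr : Irr V E₁) (hc : 2 < Nat.card E₁) {g : G} (hg : g ∈ E) (hgV : cj g ⁅V, E₁⁆ ≠ ⁅V, E₁⁆) :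
    Concl V E₁ (cj g E₁) := by
  have hgE : cj g E₁ ≤ E := by
    rintro _ ⟨x, hx, rfl⟩
    exact E.mul_mem (E.mul_mem hg (hE1 hx)) (E.inv_mem hg)
  have hF : E₁ ⊔ cj g E₁ ≤ E := sup_le hE1 hgE
  have hgN := hEV hg
  -- the join is proper
  obtain ⟨K, hKn, hK1, hK2⟩ := hs.exists_normal_and_le_and_lt_top_of_ne (by
    intro h
    rw [subgroupOf_eq_top] at h
    exact hne (le_antisymm hE1 h))
  have hFK : E₁ ⊔ cj g E₁ ≤ K.map E.subtype := by
    apply sup_le
    · intro x hx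
      exact ⟨⟨x, hE1 hx⟩, hK1 hx, rfl⟩
    · rintro _ ⟨x, hx, rfl⟩
      refine ⟨⟨g, hg⟩ * ⟨x, hE1 hx⟩ * ⟨g, hg⟩⁻¹, hKn.conj_mem _ (hK1 hx) _, rfl⟩
  have hlt : Nat.card (E₁ ⊔ cj g E₁ : Subgroup G) ≤ n := by
    have h1 := card_le_of_le hFK
    rw [Subgroup.card_map_of_injective E.subtype_injective] at h1
    have h2 := Cfsg.Agent.H2.Card.card_lt_of_ne_top hK2.ne
    omega
  have hcV : Nat.card (cj g ⁅V, E₁⁆) = Nat.card (⁅V, E₁⁆ : Subgroup G) := card_cj _ _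
  apply IH E₁ (cj g E₁) hlt (hE1.trans hEV) (hgE.trans hEV) _ (subnormal_of_le hF hs)
    (subnormal_of_le hF (subnormal_cj hs hg)) (hO.subnormal hF (subnormal_sup hE1 hgE hs (subnormal_cj hs hg))) hirr
    (hirr.cj hgN) _ _ hc (by rw [card_cj]; exact hc)
  · rw [eq_bot_iff, ← hf]; exact inf_le_inf_right _ hF
  · rw [cj_V hgN]
    intro h
    exact hgV (Cfsg.Agent.H2.Card.eq_of_le_of_card_eq h hcV.symm).symm
  · rw [cj_V hgN]
    intro h
    exact hgV (Cfsg.Agent.H2.Card.eq_of_le_of_card_eq h hcV)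

theorem inj_comm {X : Subgroup G} {g : G} (h : X ⊓ cj g X = ⊥) {v w : G} (hv : v ∈ X) (hw : w ∈ X) (he : ⁅v, g⁆ = ⁅w, g⁆) :
    v = w := by
  have h1 : w⁻¹ * v = g * (w⁻¹ * v) * g⁻¹ := by
    rw [commutatorElement_def, commutatorElement_def] at he
    calc w⁻¹ * v = w⁻¹ * (v * g * v⁻¹ * g⁻¹) * (g * v * g⁻¹) := by group
      _ = w⁻¹ * (w * g * w⁻¹ * g⁻¹) * (g * v * g⁻¹) := by rw [he]
      _ = _ := by group
  have h2 : w⁻¹ * v ∈ X ⊓ cj g X := by
    refine mem_inf.2 ⟨mul_mem (inv_mem hw) hv, ?_⟩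
    rw [h1]; exact cj_mem (mul_mem (inv_mem hw) hv)
  rw [h, mem_bot, inv_mul_eq_one] at h2
  exact h2.symm

theorem card_le_of_conj {X Y E : Subgroup G} {g : G} (h : X ⊓ cj g X = ⊥) (hY : ∀ v ∈ X, ⁅v, g⁆ ∈ Y) (_hE : g ∈ E) :
    Nat.card X ≤ Nat.card Y := by
  apply Nat.card_le_card_of_injective (fun v : X => (⟨⁅(v : G), g⁆, hY v v.2⟩ : Y))
  intro v w hvw
  exact Subtype.ext (inj_comm h v.2 w.2 (congrArg Subtype.val hvw))

theorem surj_of_conj {X Y : Subgroup G} {g : G} (h : X ⊓ cj g X = ⊥) (hY : ∀ v ∈ X, ⁅v, g⁆ ∈ Y)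
    (hc : Nat.card Y = Nat.card X) : ∀ y ∈ Y, ∃ v ∈ X, y = ⁅v, g⁆ := by
  have hinj : Function.Injective (fun v : X => (⟨⁅(v : G), g⁆, hY v v.2⟩ : Y)) := by
    intro v w hvw
    exact Subtype.ext (inj_comm h v.2 w.2 (congrArg Subtype.val hvw))
  have hs := (hinj.bijective_of_nat_card_le hc.le).2
  intro y hy
  obtain ⟨v, hv⟩ := hs ⟨y, hy⟩
  exact ⟨v, v.2, (congrArg Subtype.val hv).symm⟩

theorem concl_all (hV : IsElementaryAbelian p V) : ∀ n, Stmt p V n := by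
  intro n
  induction n with
  | zero =>
    intro E₁ E₂ h
    exact absurd (Nat.card_pos (α := (E₁ ⊔ E₂ : Subgroup G))) (by omega)
  | succ n ih =>
    intro E₁ E₂ hcard h1V h2V hf hs1 hs2 hO hirr1 hirr2 h12 h21 hc1 hc2
    by_cases hA : E₂ ≤ normalizer ((⁅V, E₁⁆ : Subgroup G) : Set G)
    · exact concl_of_inv hV h1V h2V hf hO hirr2 h21 hA
    by_cases hB : E₁ ≤ normalizer ((⁅V, E₂⁆ : Subgroup G) : Set G)
    · exact (concl_of_inv hV h2V h1V (by rwa [sup_comm]) (by rwa [sup_comm]) hirr1 h12 hB).symm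
    exfalso
    set E : Subgroup G := E₁ ⊔ E₂ with hE
    have hE1 : E₁ ≤ E := le_sup_left
    have hE2 : E₂ ≤ E := le_sup_right
    have hEV : E ≤ normalizer (V : Set G) := sup_le h1V h2V
    have hV1 : ⁅V, E₁⁆ ≤ V := commutator_le_left_of_normalizes h1V
    have hV2 : ⁅V, E₂⁆ ≤ V := commutator_le_left_of_normalizes h2V
    have h11 : E₁ ≤ normalizer ((⁅V, E₁⁆ : Subgroup G) : Set G) := normalizes_of_comm_le hV hV1 le_rfl
    have h22 : E₂ ≤ normalizer ((⁅V, E₂⁆ : Subgroup G) : Set G) := normalizes_of_comm_le hV hV2 le_rfl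
    have hne1 : E₁ ≠ E := by
      intro h
      apply hA
      exact (hE2.trans h.ge).trans h11
    have hne2 : E₂ ≠ E := by
      intro h
      apply hB
      exact (hE1.trans h.ge).trans h22
    obtain ⟨g₀, hg0, hg0N⟩ := SetLike.not_le_iff_exists.1 hA
    obtain ⟨h₀, hh0, hh0N⟩ := SetLike.not_le_iff_exists.1 hB
    have C1 : ∀ g ∈ E, cj g ⁅V, E₁⁆ ≠ ⁅V, E₁⁆ → Concl V E₁ (cj g E₁) := fun g hg hgV =>
      conj_concl ih hE1 hcard hne1 hEV hf hs1 hO hirr1 hc1 hg hgV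
    have C2 : ∀ g ∈ E, cj g ⁅V, E₂⁆ ≠ ⁅V, E₂⁆ → Concl V E₂ (cj g E₂) := fun g hg hgV =>
      conj_concl ih hE2 hcard hne2 hEV hf hs2 hO hirr2 hc2 hg hgV
    have D1 := C1 g₀ (hE2 hg0) (fun h => hg0N (cj_eq_iff.1 h))
    have D2 := C2 h₀ (hE1 hh0) (fun h => hh0N (cj_eq_iff.1 h))
    have i1 : ⁅V, E₁⁆ ⊓ cj g₀ ⁅V, E₁⁆ = ⊥ := by rw [← cj_V (h2V hg0)]; exact D1.vinf
    have i2 : ⁅V, E₂⁆ ⊓ cj h₀ ⁅V, E₂⁆ = ⊥ := by rw [← cj_V (h1V hh0)]; exact D2.vinf
    have m1 : ∀ v ∈ ⁅V, E₁⁆, ⁅v, g₀⁆ ∈ ⁅V, E₂⁆ := fun v hv => commutator_mem_commutator (hV1 hv) hg0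
    have m2 : ∀ v ∈ ⁅V, E₂⁆, ⁅v, h₀⁆ ∈ ⁅V, E₁⁆ := fun v hv => commutator_mem_commutator (hV2 hv) hh0
    have hcc : Nat.card (⁅V, E₂⁆ : Subgroup G) = Nat.card (⁅V, E₁⁆ : Subgroup G) :=
      le_antisymm (card_le_of_conj i2 m2 hh0) (card_le_of_conj i1 m1 hg0)
    have hsurj := surj_of_conj i1 m1 hcc
    set W : Subgroup G := cj g₀ ⁅V, E₁⁆ with hW
    have hWV : W ≤ V := by
      rw [hW, cj_le_iff, cj_eq_iff.2 (inv_mem (h2V hg0))]; exact hV1
    set U : Subgroup G := ⁅V, E₁⁆ ⊔ W with hU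
    have hUV : U ≤ V := sup_le hV1 hWV
    have hWinv : ∀ v ∈ ⁅V, E₁⁆, g₀ * v⁻¹ * g₀⁻¹ ∈ W := fun v hv => cj_mem (inv_mem hv)
    have hec : ∀ v, ⁅v, g₀⁆ = v * (g₀ * v⁻¹ * g₀⁻¹) := fun v => by rw [commutatorElement_def]; group
    have hV2U : ⁅V, E₂⁆ ≤ U := by
      intro y hy
      obtain ⟨v, hv, rfl⟩ := hsurj y hy
      rw [hec]
      exact mul_mem ((le_sup_left : ⁅V, E₁⁆ ≤ U) hv) ((le_sup_right : W ≤ U) (hWinv v hv))
    have i3 : ⁅V, E₁⁆ ⊓ ⁅V, E₂⁆ = ⊥ := by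
      rw [eq_bot_iff]
      rintro y ⟨hy1, hy2⟩
      obtain ⟨v, hv, rfl⟩ := hsurj y hy2
      rw [hec] at hy1
      have h1 : g₀ * v⁻¹ * g₀⁻¹ ∈ ⁅V, E₁⁆ := by
        have := mul_mem (inv_mem hv) hy1
        rwa [inv_mul_cancel_left] at this
      have h2 : g₀ * v⁻¹ * g₀⁻¹ ∈ ⁅V, E₁⁆ ⊓ W := ⟨h1, hWinv v hv⟩
      rw [i1, mem_bot] at h2
      have h3 : v = 1 := by
        calc v = g₀⁻¹ * (g₀ * v⁻¹ * g₀⁻¹)⁻¹ * g₀ := by group
          _ = 1 := by rw [h2]; group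
      rw [h3]; simp
    have i4 : W ⊓ ⁅V, E₂⁆ = ⊥ := by
      rw [eq_bot_iff]
      rintro y ⟨hy1, hy2⟩
      obtain ⟨v, hv, rfl⟩ := hsurj y hy2
      rw [hec] at hy1
      have h1 : v ∈ W := by
        have := W.mul_mem hy1 (W.inv_mem (hWinv v hv))
        rwa [mul_inv_cancel_right] at this
      have h2 : v ∈ ⁅V, E₁⁆ ⊓ W := ⟨hv, h1⟩
      rw [i1, mem_bot] at h2
      rw [h2]; simp
    have hEU : E ≤ normalizer (U : Set G) := by
      rw [hE]
      exact sup_le (normalizes_of_comm_le hV hUV le_sup_left) (normalizes_of_comm_le hV hUV hV2U)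
    have hO1 : OpTriv p E₁ := hO.subnormal hE1 hs1
    have hO2 : OpTriv p E₂ := hO.subnormal hE2 hs2
    -- `C_{V₁}(E₁) = 1`
    have hcV1 : ⁅V, E₁⁆ ⊓ centralizer (E₁ : Set G) = ⊥ := by
      rcases hirr1 (⁅V, E₁⁆ ⊓ centralizer (E₁ : Set G)) inf_le_left
        (normalizer_inf h11 (centralizer_normalizer le_normalizer)) with h | h
      · exact h
      · exfalso
        have h1 : ⁅V, E₁⁆ ≤ centralizer (E₁ : Set G) := inf_eq_left.1 h
        have h2 : IsPGroup p E₁ := by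
          apply pgroup_of_chain (ea_isPGroup hV) h1V
          · rw [eq_bot_iff, ← hf]; exact inf_le_inf_right _ hE1
          · rw [commutator_eq_bot_iff_le_centralizer.2 h1, commutator_bot_left]
        have h3 := hO1 E₁ le_rfl le_normalizer h2
        rw [h3, Subgroup.card_bot] at hc1
        omega
    have hcU : ∀ u ∈ U, u ∈ centralizer (E₁ : Set G) → u ∈ W := by
      intro u hu huc
      have hn : ⁅V, E₁⁆ ≤ normalizer (W : Set G) :=
        hV1.trans ((ea_le_centralizer hV).trans ((Subgroup.centralizer_le hWV).trans (centralizer_le_normalizer _)))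
      rw [hU, Cfsg.Agent.H2.Card.mem_sup_iff hn] at hu
      obtain ⟨v, hv, w, hw, rfl⟩ := hu
      have hwc : w ∈ centralizer (E₁ : Set G) := by
        have h1 := D1.cent hV h1V (by
          rw [cj_le_iff, cj_eq_iff.2]
          · exact h1V
          · exact (le_normalizer (inv_mem (h2V hg0)) : g₀⁻¹ ∈ normalizer ((normalizer (V : Set G) : Subgroup G) : Set G)))
        rw [cj_V (h2V hg0)] at h1
        exact h1 hw
      have hvc : v ∈ ⁅V, E₁⁆ ⊓ centralizer (E₁ : Set G) := by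
        refine mem_inf.2 ⟨hv, ?_⟩
        have := mul_mem huc (inv_mem hwc)
        rwa [mul_inv_cancel_right] at this
      rw [hcV1, mem_bot] at hvc
      rw [hvc, one_mul]; exact hw
    have htwo : ∀ g ∈ E₂, cj g ⁅V, E₁⁆ = ⁅V, E₁⁆ ∨ cj g ⁅V, E₁⁆ = W := by
      intro g hg
      by_cases hgV : cj g ⁅V, E₁⁆ = ⁅V, E₁⁆
      · exact Or.inl hgV
      · right
        have D := C1 g (hE2 hg) hgV
        have h1 := D.cent hV h1V (by
          rw [cj_le_iff, cj_eq_iff.2]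
          · exact h1V
          · exact (le_normalizer (inv_mem (h2V hg)) : g⁻¹ ∈ normalizer ((normalizer (V : Set G) : Subgroup G) : Set G)))
        rw [cj_V (h2V hg)] at h1
        have h2 : cj g ⁅V, E₁⁆ ≤ U := by
          have := cj_mono (g := g) (le_sup_left : ⁅V, E₁⁆ ≤ U)
          rwa [cj_eq_iff.2 (hEU (hE2 hg))] at this
        apply Cfsg.Agent.H2.Card.eq_of_le_of_card_eq (fun x hx => hcU x (h2 hx) (h1 hx))
        rw [card_cj, hW, card_cj]
    have hWne : W ≠ ⁅V, E₁⁆ := fun h => hg0N (cj_eq_iff.1 h)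
    set M : Subgroup G := E₂ ⊓ normalizer ((⁅V, E₁⁆ : Subgroup G) : Set G) with hM
    have hMW : M ≤ normalizer (W : Set G) := by
      rintro m ⟨hm, hmN⟩
      rw [← cj_eq_iff]
      rcases htwo (m * g₀) (mul_mem hm hg0) with h | h
      · exfalso; apply hWne
        rw [cj_mul] at h
        have h1 := congrArg (cj m⁻¹) h
        rw [cj_inv_cj, cj_eq_iff.2 (inv_mem hmN)] at h1
        exact h1
      · rw [cj_mul] at h; exact h
    have hMC : U ≤ centralizer (M : Set G) := by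
      apply sup_le
      · rw [← commutator_eq_bot_iff_le_centralizer, eq_bot_iff, ← i3]
        exact le_inf (commutator_le_left_of_normalizes inf_le_right) (commutator_mono hV1 inf_le_left)
      · rw [← commutator_eq_bot_iff_le_centralizer, eq_bot_iff, ← i4]
        exact le_inf (commutator_le_left_of_normalizes hMW) (commutator_mono hWV inf_le_left)
    have hMp : IsPGroup p M := by
      apply pgroup_of_chain (ea_isPGroup hV) (inf_le_left.trans h2V)
      · rw [eq_bot_iff, ← hf]; exact inf_le_inf_right _ (inf_le_left.trans hE2)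
      · have : ⁅⁅V, M⁆, M⁆ = ⊥ := by
          rw [commutator_eq_bot_iff_le_centralizer]
          exact ((commutator_mono le_rfl inf_le_left).trans hV2U).trans hMC
        rw [this, commutator_bot_left]
    have hMn : E₂ ≤ normalizer (M : Set G) := by
      intro g hg
      apply mem_normalizer_fintype
      rintro m ⟨hm, hmN⟩
      have hmM : m ∈ M := ⟨hm, hmN⟩
      refine mem_inf.2 ⟨E₂.mul_mem (E₂.mul_mem hg hm) (E₂.inv_mem hg), ?_⟩
      rw [← cj_eq_iff, cj_mul, cj_mul]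
      have h1 : cj m (cj g⁻¹ ⁅V, E₁⁆) = cj g⁻¹ ⁅V, E₁⁆ := by
        rcases htwo g⁻¹ (inv_mem hg) with h | h
        · rw [h]; exact cj_eq_iff.2 hmN
        · rw [h]; exact cj_eq_iff.2 (hMW hmM)
      rw [h1, cj_cj_inv]
    have hM1 : M = ⊥ := hO2 M inf_le_left hMn hMp
    have hfin : Nat.card E₂ ≤ Nat.card Bool := by
      classical
      apply Nat.card_le_card_of_injective (fun g : E₂ => decide (cj (g : G) ⁅V, E₁⁆ = ⁅V, E₁⁆))
      intro g h hgh
      have hgh' : (cj (g : G) ⁅V, E₁⁆ = ⁅V, E₁⁆) ↔ (cj (h : G) ⁅V, E₁⁆ = ⁅V, E₁⁆) := by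
        simpa using hgh
      have h1 : cj (g : G) ⁅V, E₁⁆ = cj (h : G) ⁅V, E₁⁆ := by
        rcases htwo g g.2 with h2 | h2
        · rw [h2, hgh'.1 h2]
        · rcases htwo h h.2 with h3 | h3
          · exact absurd ((hgh'.2 h3).symm.trans h2) hWne.symm
          · rw [h2, h3]
      have h2 : (g : G)⁻¹ * h ∈ M := by
        refine mem_inf.2 ⟨mul_mem (inv_mem g.2) h.2, ?_⟩
        rw [← cj_eq_iff, cj_mul, ← h1, cj_inv_cj]
      rw [hM1, mem_bot, inv_mul_eq_one] at h2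
      exact Subtype.ext h2
    have : Nat.card Bool = 2 := by simp
    omega

end Main

end Cfsg.Agent.H2.FF
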