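import Mathlib
import Cfsg.Agent.H2_FF5
import Cfsg.Agent.H2_FF6
import Cfsg.Agent.H24_Sub

/-! Failure of factorization VII: the components `[Q, A] A`. -/

set_option autoImplicit false
set_option linter.style.haveILetI false
set_option linter.unusedSectionVars false

open Subgroup Cfsg
open scoped commutatorElement

namespace Cfsg.Agent.H2.FF

open Cfsg.Agent.H2.Basic Cfsg.Agent.H2.Quad Cfsg.Agent.H2.Replace

variable {G : Type*} [Group G] {p : ℕ} [Finite G] [hp : Fact p.Prime] {V H : Subgroup G}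

/-- a group generated by elements of order `p` acting faithfully on a plane has order at most `|SL(2,p)|` -/
theorem card_le_sl {W X : Subgroup G} (hX : X ≤ normalizer (W : Set G)) (hW : IsElementaryAbelian p W)
    (hcard : Nat.card W = p ^ 2) (hf : X ⊓ centralizer (W : Set G) = ⊥)
    (hgen : X ≤ closure {g | g ∈ X ∧ g ^ p = 1}) :
    Nat.card X ≤ Nat.card (Matrix.SpecialLinearGroup (Fin 2) (ZMod p)) := by
  have hp1 := hp.out.one_lt
  have hp2 : p < p ^ 2 := by nlinarith
  obtain ⟨e₁, h1, h11⟩ : ∃ e₁ ∈ W, e₁ ≠ 1 := by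
    by_contra hno
    push Not at hno
    have : W = ⊥ := by rw [eq_bot_iff]; intro x hx; rw [mem_bot]; exact hno x hx
    rw [this, Subgroup.card_bot] at hcard
    omega
  obtain ⟨e₂, h2, h12⟩ : ∃ e₂ ∈ W, e₂ ∉ zpowers e₁ := by
    by_contra hno
    push Not at hno
    have h3 : W ≤ zpowers e₁ := hno
    have h4 := card_le_of_le h3
    have h5 : orderOf e₁ ≤ p := Nat.le_of_dvd hp.out.pos (orderOf_dvd_of_pow_eq_one (hW.2 _ h1))
    rw [Nat.card_zpowers, hcard] at h4
    omega
  obtain ⟨χ, hχ1, -⟩ := Cfsg.Agent.H2.Plane.exists_matrix_hom hX hW hcard h1 h2 h11 h12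
  have hdet : ∀ g : X, (χ g).det = 1 := by
    let δ : X →* ZMod p := (Matrix.detMonoidHom).comp χ
    have hle : X ≤ (δ.ker).map X.subtype := by
      refine hgen.trans ?_
      rw [closure_le]
      rintro g ⟨hg, hgp⟩
      refine ⟨⟨g, hg⟩, ?_, rfl⟩
      change δ ⟨g, hg⟩ = 1
      have h3 : (δ ⟨g, hg⟩) ^ p = 1 := by
        rw [← map_pow]
        have : (⟨g, hg⟩ : X) ^ p = 1 := Subtype.ext hgp
        rw [this, map_one]
      rwa [ZMod.pow_card] at h3
    intro g
    obtain ⟨g', hg', he⟩ := hle g.2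
    have : g' = g := Subtype.ext he
    rw [← this]; exact hg'
  let f : X → Matrix.SpecialLinearGroup (Fin 2) (ZMod p) := fun g => ⟨χ g, hdet g⟩
  have hinj : Function.Injective f := by
    intro g h hgh
    have h3 : χ g = χ h := congrArg Subtype.val hgh
    have h4 : χ (g⁻¹ * h) = 1 := by
      rw [map_mul, ← h3, ← map_mul, inv_mul_cancel, map_one]
    rw [hχ1] at h4
    have h5 : ((g⁻¹ * h : X) : G) ∈ X ⊓ centralizer (W : Set G) := ⟨(g⁻¹ * h).2, h4⟩
    rw [hf, mem_bot] at h5
    have h6 : g⁻¹ * h = 1 := Subtype.ext h5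
    exact inv_mul_eq_one.1 h6
  exact Nat.card_le_card_of_injective f hinj

/-- two elements normalizing a group of prime order commute in their action -/
theorem comm_acts {U : Subgroup G} (hU : Nat.card U = p) {r s : G} (hr : r ∈ normalizer (U : Set G))
    (hs : s ∈ normalizer (U : Set G)) {w : G} (hw : w ∈ U) : ⁅r, s⁆ * w = w * ⁅r, s⁆ := by
  obtain ⟨u, hu, rfl⟩ := exists_zpowers_of_card hU
  obtain ⟨i, hi⟩ := (mem_normalizer_iff.1 hr u).1 (mem_zpowers u)
  obtain ⟨j, hj⟩ := (mem_normalizer_iff.1 hs u).1 (mem_zpowers u)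
  have hi' : r * u * r⁻¹ = u ^ i := hi.symm
  have hj' : s * u * s⁻¹ = u ^ j := hj.symm
  have key : ∀ k : ℤ, r * s * u ^ k * (r * s)⁻¹ = s * r * u ^ k * (s * r)⁻¹ := by
    intro k
    have e1 : r * s * u ^ k * (r * s)⁻¹ = u ^ (i * (j * k)) := by
      calc r * s * u ^ k * (r * s)⁻¹ = r * (s * u ^ k * s⁻¹) * r⁻¹ := by group
        _ = r * (s * u * s⁻¹) ^ k * r⁻¹ := by rw [conj_zpow]
        _ = r * (u ^ (j * k)) * r⁻¹ := by rw [hj', ← zpow_mul]
        _ = (r * u * r⁻¹) ^ (j * k) := by rw [conj_zpow]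
        _ = _ := by rw [hi', ← zpow_mul]
    have e2 : s * r * u ^ k * (s * r)⁻¹ = u ^ (j * (i * k)) := by
      calc s * r * u ^ k * (s * r)⁻¹ = s * (r * u ^ k * r⁻¹) * s⁻¹ := by group
        _ = s * (r * u * r⁻¹) ^ k * s⁻¹ := by rw [conj_zpow]
        _ = s * (u ^ (i * k)) * s⁻¹ := by rw [hi', ← zpow_mul]
        _ = (s * u * s⁻¹) ^ (i * k) := by rw [conj_zpow]
        _ = _ := by rw [hj', ← zpow_mul]
    rw [e1, e2]; congr 1; ring
  have h1 : (s * r)⁻¹ * w * (s * r) ∈ zpowers u := by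
    have h2 : s * r ∈ normalizer ((zpowers u : Subgroup G) : Set G) := mul_mem hs hr
    have := (mem_normalizer_iff.1 (inv_mem h2) w).1 hw
    rwa [inv_inv] at this
  obtain ⟨k, hk⟩ := h1
  have hk' : u ^ k = (s * r)⁻¹ * w * (s * r) := hk
  have h3 := key k
  rw [hk'] at h3
  have h4 : ⁅r, s⁆ * w * ⁅r, s⁆⁻¹ = w := by
    calc ⁅r, s⁆ * w * ⁅r, s⁆⁻¹ = r * s * ((s * r)⁻¹ * w * (s * r)) * (r * s)⁻¹ := by
          rw [commutatorElement_def]; group
      _ = s * r * ((s * r)⁻¹ * w * (s * r)) * (s * r)⁻¹ := h3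
      _ = w := by group
  exact mul_inv_eq_iff_eq_mul.1 h4

theorem two_acts {U : Subgroup G} (hU : Nat.card U = 2) {r : G} (hr : r ∈ normalizer (U : Set G)) {w : G} (hw : w ∈ U) :
    r * w = w * r := by
  haveI : Fact (Nat.Prime 2) := ⟨Nat.prime_two⟩
  have h1 : r * w * r⁻¹ ∈ U := (mem_normalizer_iff.1 hr w).1 hw
  rcases eq_or_ne w 1 with rfl | hw1
  · simp
  have hr1 : r * w * r⁻¹ ≠ 1 := by
    intro h
    apply hw1
    calc w = r⁻¹ * (r * w * r⁻¹) * r := by group
      _ = 1 := by rw [h]; group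
  have h2 : r * w * r⁻¹ = w := by
    rw [Nat.card_eq_two_iff' (1 : U)] at hU
    obtain ⟨y, -, hy⟩ := hU
    have h3 := hy ⟨w, hw⟩ (fun h => hw1 (congrArg Subtype.val h))
    have h4 := hy ⟨r * w * r⁻¹, h1⟩ (fun h => hr1 (congrArg Subtype.val h))
    have h5 := h4.trans h3.symm
    exact congrArg Subtype.val h5
  exact mul_inv_eq_iff_eq_mul.1 h2

namespace Setup

theorem coprime_le {R : Subgroup G} (hR : R ≤ QQ p H) : (Nat.card R).Coprime p :=
  Nat.Coprime.coprime_dvd_left (card_dvd_of_le hR) QQ_coprime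

theorem opTriv_of_coprime {R : Subgroup G} (hR : (Nat.card R).Coprime p) : OpTriv p R := by
  intro N hN _ hNp
  obtain ⟨n, hn⟩ := IsPGroup.iff_card.1 hNp
  have h1 : Nat.card N = 1 := by
    apply Nat.eq_one_of_dvd_coprimes (hR.pow_right n) (card_dvd_of_le hN)
    rw [hn]
  exact Subgroup.card_eq_one.1 h1

/-- irreducibility of the `p'`-part on the plane -/
theorem Pair.irr (S : Setup p V H) {A B : Subgroup G} (hAH : A ≤ H) (hBH : B ≤ H) (hA : Nat.card A = p) (hB : Nat.card B = p)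
    (hAC : p * Nat.card (CV V A) = Nat.card V)
    (P : Pair p V H A B) {U : Subgroup G} (hU : U ≤ ⁅V, A ⊔ B⁆)
    (hRU : (A ⊔ B) ⊓ QQ p H ≤ normalizer (U : Set G)) : U = ⊥ ∨ U = ⁅V, A ⊔ B⁆ := by
  set E : Subgroup G := A ⊔ B with hE
  set R : Subgroup G := E ⊓ QQ p H with hR
  set W : Subgroup G := ⁅V, E⁆ with hW
  have hEH : E ≤ H := sup_le hAH hBH
  have hEV : E ≤ normalizer (V : Set G) := hEH.trans S.hHV
  have hWV : W ≤ V := commutator_le_left_of_normalizes hEV
  have hEW : E ≤ normalizer (W : Set G) := normalizes_of_comm_le S.hV hWV le_rfl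
  have hAE : A ≤ E := le_sup_left
  have hBE : B ≤ E := le_sup_right
  have hdvd : Nat.card U ∣ p ^ 2 := by rw [← P.pd.card]; exact card_dvd_of_le hU
  obtain ⟨k, hk, hkc⟩ := (Nat.dvd_prime_pow hp.out).1 hdvd
  have hk3 : k = 0 ∨ k = 1 ∨ k = 2 := by omega
  rcases hk3 with rfl | rfl | rfl
  · left
    rw [pow_zero] at hkc
    exact Subgroup.card_eq_one.1 hkc
  · exfalso
    rw [pow_one] at hkc
    -- general contradiction for an `E`-invariant subgroup of order `p`
    have hinvt : ∀ X : Subgroup G, X ≤ W → Nat.card X = p → E ≤ normalizer (X : Set G) → False := by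
      intro X hXW hXc hEX
      have h1 := comm_bot_of_card S.hV (hAE.trans hEV) (ea_of_card hA) (hXW.trans hWV) hXc (hAE.trans hEX)
      have h2 := comm_bot_of_card S.hV (hBE.trans hEV) (ea_of_card hB) (hXW.trans hWV) hXc (hBE.trans hEX)
      have h3 : X ≤ ⁅V, A⁆ := by
        rw [← P.pd.centA]; exact le_inf hXW (commutator_eq_bot_iff_le_centralizer.1 h1)
      have h4 : X ≤ ⁅V, B⁆ := by
        rw [← P.pd.centB]; exact le_inf hXW (commutator_eq_bot_iff_le_centralizer.1 h2)
      have h5 : X ≤ ⊥ := by rw [← P.pd.disj]; exact le_inf h3 h4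
      rw [le_bot_iff] at h5
      rw [h5, Subgroup.card_bot] at hXc
      exact hp.out.one_lt.ne hXc
    by_cases hAU : A ≤ normalizer (U : Set G)
    · apply hinvt U hU hkc
      have heR : E ≤ R ⊔ A := P.eqR.le
      exact heR.trans (sup_le hRU hAU)
    obtain ⟨a, ha, haU⟩ := SetLike.not_le_iff_exists.1 hAU
    have haE : a ∈ E := hAE ha
    set U' : Subgroup G := cj a U with hU'
    have hU'W : U' ≤ W := by
      have := cj_mono (g := a) hU
      rwa [cj_eq_iff.2 (hEW haE)] at this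
    have hU'c : Nat.card U' = p := by rw [hU', card_cj]; exact hkc
    have hne : U' ≠ U := fun h => haU (cj_eq_iff.1 h)
    have hRn : E ≤ normalizer (R : Set G) := normalizer_inf le_normalizer (hEH.trans le_normalizer_QQ)
    have hRU' : R ≤ normalizer (U' : Set G) := by
      have := cj_normalizer (g := a) hRU
      rwa [cj_eq_iff.2 (hRn haE)] at this
    have hinf : U ⊓ U' = ⊥ := by
      have h1 : Nat.card (U ⊓ U' : Subgroup G) ∣ p := by rw [← hkc]; exact card_dvd_of_le inf_le_left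
      rcases (Nat.dvd_prime hp.out).1 h1 with h2 | h2
      · exact Subgroup.card_eq_one.1 h2
      · exfalso; apply hne
        have h3 := Cfsg.Agent.H2.Card.eq_of_le_of_card_eq (inf_le_left : U ⊓ U' ≤ U) (by rw [h2, hkc])
        have h4 := Cfsg.Agent.H2.Card.eq_of_le_of_card_eq (inf_le_right : U ⊓ U' ≤ U') (by rw [h2, hU'c])
        exact h4.symm.trans h3
    have hsup : U ⊔ U' = W := by
      apply Cfsg.Agent.H2.Card.eq_of_le_of_card_eq (sup_le hU hU'W)
      have h1 := Cfsg.Agent.H2.Card.card_sup_mul_card_inf (H := U) (N := U')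
        ((hU.trans hWV).trans ((ea_le_centralizer S.hV).trans ((Subgroup.centralizer_le (hU'W.trans hWV)).trans
          (centralizer_le_normalizer _))))
      rw [hinf, Subgroup.card_bot, mul_one, hkc, hU'c] at h1
      rw [h1, P.pd.card, pow_two]
    -- elements of `R` acting trivially on `U` and `U'` are trivial
    have htriv : ∀ r ∈ R, (∀ w ∈ U, r * w = w * r) → (∀ w ∈ U', r * w = w * r) → r = 1 := by
      intro r hr h1 h2
      have h3 : W ≤ centralizer (zpowers r : Set G) := by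
        rw [← hsup]
        apply sup_le
        · rw [le_centralizer_iff, zpowers_le, mem_centralizer_iff]
          exact fun w hw => (h1 w hw).symm
        · rw [le_centralizer_iff, zpowers_le, mem_centralizer_iff]
          exact fun w hw => (h2 w hw).symm
      rw [le_centralizer_iff, zpowers_le] at h3
      have h4 : r ∈ E ⊓ centralizer (W : Set G) := ⟨hr.1, h3⟩
      rw [P.pd.faithful, mem_bot] at h4
      exact h4
    rcases P.small with h2 | h3
    · -- `p = 2`
      have hR1 : R = ⊥ := by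
        rw [eq_bot_iff]
        intro r hr
        rw [mem_bot]
        exact htriv r hr (fun w hw => two_acts (by rw [hkc, h2]) (hRU hr) hw)
          (fun w hw => two_acts (by rw [hU'c, h2]) (hRU' hr) hw)
      apply P.np
      apply IsPGroup.of_card (n := 1)
      have := P.cardR
      rw [← hE, ← hR, hR1, Subgroup.card_bot] at this
      rw [← this, mul_one, pow_one]
    · -- `p = 3`
      have hab : ∀ r ∈ R, ∀ s ∈ R, r * s = s * r := by
        intro r hr s hs
        have h4 : ⁅r, s⁆ = 1 := by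
          apply htriv
          · rw [commutatorElement_def]
            exact R.mul_mem (R.mul_mem (R.mul_mem hr hs) (R.inv_mem hr)) (R.inv_mem hs)
          · exact fun w hw => comm_acts hkc (hRU hr) (hRU hs) hw
          · exact fun w hw => comm_acts hU'c (hRU' hr) (hRU' hs) hw
        exact commutatorElement_eq_one_iff_mul_comm.1 h4
      have hRA : ∀ r ∈ R, ∀ b ∈ A, r * b = b * r := by
        intro r hr b hb
        have hz : zpowers b ≤ A := by rwa [zpowers_le]
        exact abelian_comm (by omega) S.hV S.hHV S.hf (inf_le_left.trans hEH) hab (coprime_le inf_le_right) (hAH hb)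
          (hRn (hAE hb)) (by
            rw [eq_bot_iff, ← S.quad_of_min hAH hA hAC]
            exact commutator_mono (commutator_mono le_rfl hz) hz) r hr
      apply hinvt ⁅V, A⁆ (commutator_mono le_rfl hAE) (comm_card S.hV (hAE.trans hEV) hA hAC)
      have heR : E ≤ R ⊔ A := P.eqR.le
      refine heR.trans ?_
      apply sup_le
      · rw [← P.pd.centA]
        apply normalizer_inf (inf_le_left.trans hEW)
        apply centralizer_normalizer
        have : R ≤ centralizer (A : Set G) := by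
          intro r hr
          rw [mem_centralizer_iff]
          exact fun b hb => (hRA r hr b hb).symm
        exact this.trans (centralizer_le_normalizer _)
      · exact normalizes_of_comm_le S.hV (commutator_le_left_of_normalizes (hAE.trans hEV)) le_rfl
  · right
    exact Cfsg.Agent.H2.Card.eq_of_le_of_card_eq hU (by rw [hkc, P.pd.card])

theorem Pair.comm_eq (S : Setup p V H) {A B : Subgroup G} (hAH : A ≤ H) (hBH : B ≤ H) (hA : Nat.card A = p)
    (hB : Nat.card B = p) (hAC : p * Nat.card (CV V A) = Nat.card V)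
    (P : Pair p V H A B) : ⁅V, (A ⊔ B) ⊓ QQ p H⁆ = ⁅V, A ⊔ B⁆ ∧ (A ⊔ B) ⊓ QQ p H ≠ ⊥ := by
  have hEH : A ⊔ B ≤ H := sup_le hAH hBH
  have hne : (A ⊔ B) ⊓ QQ p H ≠ ⊥ := by
    intro h
    apply P.np
    apply IsPGroup.of_card (n := 1)
    have := P.cardR
    rw [h, Subgroup.card_bot] at this
    rw [← this, mul_one, pow_one]
  refine ⟨?_, hne⟩
  have hRV : (A ⊔ B) ⊓ QQ p H ≤ normalizer (V : Set G) := inf_le_left.trans (hEH.trans S.hHV)
  rcases Pair.irr S hAH hBH hA hB hAC P (U := ⁅V, (A ⊔ B) ⊓ QQ p H⁆) (commutator_mono le_rfl inf_le_left)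
    (normalizes_of_comm_le S.hV (commutator_le_left_of_normalizes hRV) le_rfl) with h | h
  · exfalso; apply hne
    rw [commutator_comm, commutator_eq_bot_iff_le_centralizer] at h
    rw [eq_bot_iff, ← S.QQ_faithful]
    exact le_inf inf_le_right h
  · exact h

/-- data attached to a minimal offender -/
structure MinIn (p : ℕ) (V H A : Subgroup G) : Prop where
  le : A ≤ H
  card : Nat.card A = p
  fix : p * Nat.card (CV V A) = Nat.card V

variable {A B : Subgroup G}

theorem MinIn.cj (S : Setup p V H) (hA : MinIn p V H A) {h : G} (hh : h ∈ H) : MinIn p V H (cj h A) :=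
  ⟨conj_le hA.le hh, by rw [card_cj]; exact hA.card, S.conj_min hA.fix hh⟩

/-- the commutator group `[Q, A]` -/
abbrev NA (p : ℕ) (H A : Subgroup G) : Subgroup G := ⁅QQ p H, A⁆

/-- the component `[Q, A] A` -/
abbrev KA (p : ℕ) (H A : Subgroup G) : Subgroup G := ⁅QQ p H, A⁆ ⊔ A

theorem NA_le (hA : A ≤ H) : NA p H A ≤ QQ p H := commutator_le_left_of_normalizes (hA.trans le_normalizer_QQ)

theorem KA_le (hA : A ≤ H) : KA p H A ≤ H := sup_le ((NA_le hA).trans QQ_le) hA

theorem A_le_normalizer_NA (hA : A ≤ H) : A ≤ normalizer (NA p H A : Set G) :=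
  Cfsg.Agent.H1.Coprime.le_normalizer_commutator_of (hA.trans le_normalizer_QQ) le_normalizer

theorem A_inf_QQ (hA : Nat.card A = p) : A ⊓ QQ p H = ⊥ := by
  rw [← disjoint_iff]
  apply Subgroup.disjoint_of_coprime_natCard
  rw [hA]; exact (QQ_coprime (p := p) (H := H)).symm

theorem KA_inf_QQ (hA : MinIn p V H A) : KA p H A ⊓ QQ p H = NA p H A := by
  apply le_antisymm
  · rintro x ⟨hx, hxQ⟩
    rw [KA, sup_comm] at hx
    have h1 := (Cfsg.Agent.H2.Card.mem_sup_iff (A_le_normalizer_NA (p := p) hA.le)).1 hx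
    obtain ⟨a, ha, n, hn, rfl⟩ := h1
    have h2 : a ∈ A ⊓ QQ p H := by
      refine mem_inf.2 ⟨ha, ?_⟩
      have := (QQ p H).mul_mem hxQ ((QQ p H).inv_mem (NA_le hA.le hn))
      rwa [mul_inv_cancel_right] at this
    rw [A_inf_QQ hA.card, mem_bot] at h2
    rw [h2, one_mul]; exact hn
  · exact le_inf le_sup_left (NA_le hA.le)

theorem card_KA (hA : MinIn p V H A) : Nat.card (KA p H A) = p * Nat.card (NA p H A) := by
  have h1 := Cfsg.Agent.H2.Card.card_sup_mul_card_inf (H := A) (N := NA p H A) (A_le_normalizer_NA hA.le)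
  have h2 : A ⊓ NA p H A = ⊥ := by
    rw [eq_bot_iff, ← A_inf_QQ (H := H) hA.card]
    exact inf_le_inf_left _ (NA_le hA.le)
  rw [h2, Subgroup.card_bot, mul_one, hA.card, sup_comm] at h1
  exact h1

/-- `E_x ≤ K_A` -/
theorem pair_le_KA {x : G} (hx : x ∈ QQ p H) : A ⊔ FF.cj x A ≤ KA p H A := by
  apply sup_le le_sup_right
  rintro _ ⟨a, ha, rfl⟩
  change x * a * x⁻¹ ∈ _
  have h1 : x * a * x⁻¹ = ⁅x, a⁆ * a := by rw [commutatorElement_def]; group
  rw [h1]
  exact mul_mem ((le_sup_left : NA p H A ≤ KA p H A) (commutator_mem_commutator hx ha)) ((le_sup_right : A ≤ KA p H A) ha)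

theorem exists_moved (S : Setup p V H) (hA : MinIn p V H A) : ∃ x ∈ QQ p H, x ∉ centralizer (A : Set G) :=
  SetLike.not_le_iff_exists.1 (S.not_le_cent hA.le (ea_of_card hA.card) (min_ne_bot hA.card))

theorem irr_R (S : Setup p V H) (hA : MinIn p V H A) (hB : MinIn p V H B) (P : Pair p V H A B) :
    Irr V ((A ⊔ B) ⊓ QQ p H) := by
  intro U hU hRU
  rw [(P.comm_eq S hA.le hB.le hA.card hB.card hA.fix).1] at hU ⊢
  exact P.irr S hA.le hB.le hA.card hB.card hA.fix hU hRU

theorem two_lt_R (hA : MinIn p V H A) (P : Pair p V H A B) : 2 < Nat.card ((A ⊔ B) ⊓ QQ p H : Subgroup G) := by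
  obtain ⟨φ, -⟩ := P.pd.sl2
  have h3 : Nat.card (Matrix.SpecialLinearGroup (Fin 2) (ZMod p)) = Nat.card ↥(A ⊔ B) := (Nat.card_congr φ.toEquiv).symm
  have h4 : p * (p - 1) * (p + 1) = Nat.card ↥(A ⊔ B) := card_sl.symm.trans h3
  rw [← P.cardR, mul_assoc] at h4
  have h5 := Nat.eq_of_mul_eq_mul_left hp.out.pos h4
  rw [← h5]
  rcases P.small with rfl | rfl <;> norm_num

/-- subgroups of a `p'`-group which is an `r`-group: the planes of two pairs containing `A` coincide -/
theorem plane_eq (S : Setup p V H) (hA : MinIn p V H A) {x y : G} (hx : x ∈ QQ p H) (hy : y ∈ QQ p H)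
    (hxA : x ∉ centralizer (A : Set G)) (hyA : y ∉ centralizer (A : Set G)) :
    ⁅V, A ⊔ FF.cj x A⁆ = ⁅V, A ⊔ FF.cj y A⁆ := by
  have Px := S.pair_conj hA.le hA.card hA.fix hx hxA
  have Py := S.pair_conj hA.le hA.card hA.fix hy hyA
  have hAx := hA.cj S (QQ_le hx)
  have hAy := hA.cj S (QQ_le hy)
  set Rx : Subgroup G := (A ⊔ FF.cj x A) ⊓ QQ p H with hRx
  set Ry : Subgroup G := (A ⊔ FF.cj y A) ⊓ QQ p H with hRy
  have cx := Px.comm_eq S hA.le hAx.le hA.card hAx.card hA.fix
  have cy := Py.comm_eq S hA.le hAy.le hA.card hAy.card hA.fix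
  have hxN : Rx ≤ NA p H A := by
    rw [← KA_inf_QQ hA]; exact inf_le_inf_right _ (pair_le_KA hx)
  have hyN : Ry ≤ NA p H A := by
    rw [← KA_inf_QQ hA]; exact inf_le_inf_right _ (pair_le_KA hy)
  by_contra hne
  have hcard : Nat.card (⁅V, A ⊔ FF.cj x A⁆ : Subgroup G) = Nat.card (⁅V, A ⊔ FF.cj y A⁆ : Subgroup G) := by
    rw [Px.pd.card, Py.pd.card]
  have hnil : Group.IsNilpotent (Rx ⊔ Ry : Subgroup G) := by
    have hle : Rx ⊔ Ry ≤ NA p H A := sup_le hxN hyN
    rcases S.comm_core hA.le hA.card hA.fix with ⟨-, h⟩ | ⟨-, h, -⟩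
    · haveI : Fact (Nat.Prime 3) := ⟨Nat.prime_three⟩
      exact (h.to_le hle).isNilpotent
    · haveI : Fact (Nat.Prime 2) := ⟨Nat.prime_two⟩
      exact (h.to_le hle).isNilpotent
  have hsub : ∀ X : Subgroup (Rx ⊔ Ry : Subgroup G), X.IsSubnormal := fun X => by
    haveI := hnil
    exact Cfsg.Agent.H24.Sub.isSubnormal_of_nilpotent hnil X
  have hVN : Rx ⊔ Ry ≤ normalizer (V : Set G) := (sup_le (inf_le_right) (inf_le_right)).trans S.QQ_norm
  have hQ : Rx ⊔ Ry ≤ QQ p H := sup_le inf_le_right inf_le_right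
  have C := concl_all S.hV _ Rx Ry le_rfl (le_sup_left.trans hVN) (le_sup_right.trans hVN)
    (by rw [eq_bot_iff, ← S.QQ_faithful]; exact inf_le_inf_right _ hQ) (hsub _) (hsub _)
    (opTriv_of_coprime (coprime_le hQ)) (irr_R S hA hAx Px) (irr_R S hA hAy Py)
    (by
      rw [cx.1, cy.1]
      intro h
      exact hne (Cfsg.Agent.H2.Card.eq_of_le_of_card_eq h hcard))
    (by
      rw [cx.1, cy.1]
      intro h
      exact hne (Cfsg.Agent.H2.Card.eq_of_le_of_card_eq h hcard.symm).symm)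
    (two_lt_R hA Px) (two_lt_R hA Py)
  have h1 := C.vinf
  rw [cx.1, cy.1] at h1
  have h2 : ⁅V, A⁆ ≤ ⊥ := by
    rw [← h1]
    exact le_inf (commutator_mono le_rfl le_sup_left) (commutator_mono le_rfl le_sup_left)
  have h3 := comm_card S.hV (hA.le.trans S.hHV) hA.card hA.fix
  rw [le_bot_iff.1 h2, Subgroup.card_bot] at h3
  exact hp.out.one_lt.ne h3

end Setup

end Cfsg.Agent.H2.FF
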