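import Mathlib
import Cfsg.Agent.H2_FF7

/-! Failure of factorization VIII: the structure theorem. -/

set_option autoImplicit false
set_option linter.style.haveILetI false
set_option linter.unusedSectionVars false

open Subgroup Cfsg
open scoped commutatorElement

namespace Cfsg.Agent.H2.FF

open Cfsg.Agent.H2.Basic Cfsg.Agent.H2.Quad Cfsg.Agent.H2.Replace

variable {G : Type*} [Group G]

/-- elements normalizing `V` and `N` and acting trivially on `V/N` -/
def actOn (V N : Subgroup G) : Subgroup G where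
  carrier := {g | g ∈ normalizer (N : Set G) ∧ g ∈ normalizer (V : Set G) ∧ ∀ v ∈ V, ⁅v, g⁆ ∈ N}
  one_mem' := ⟨one_mem _, one_mem _, fun v _ => by simp⟩
  mul_mem' := by
    rintro g h ⟨g1, g2, g3⟩ ⟨h1, h2, h3⟩
    refine ⟨mul_mem g1 h1, mul_mem g2 h2, fun v hv => ?_⟩
    have e : ⁅v, g * h⁆ = ⁅v, g⁆ * (g * ⁅v, h⁆ * g⁻¹) := by
      simp only [commutatorElement_def]; group
    rw [e]
    exact N.mul_mem (g3 v hv) ((mem_normalizer_iff.1 g1 _).1 (h3 v hv))
  inv_mem' := by
    rintro g ⟨g1, g2, g3⟩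
    refine ⟨inv_mem g1, inv_mem g2, fun v hv => ?_⟩
    have e : ⁅v, g⁻¹⁆ = g⁻¹ * ⁅v, g⁆⁻¹ * g⁻¹⁻¹ := by
      simp only [commutatorElement_def]; group
    rw [e]
    exact (mem_normalizer_iff.1 (inv_mem g1) _).1 (N.inv_mem (g3 v hv))

theorem mem_actOn {V N : Subgroup G} {g : G} :
    g ∈ actOn V N ↔ g ∈ normalizer (N : Set G) ∧ g ∈ normalizer (V : Set G) ∧ ∀ v ∈ V, ⁅v, g⁆ ∈ N := Iff.rfl

theorem comm_le_of_le_actOn {V N X : Subgroup G} (h : X ≤ actOn V N) : ⁅V, X⁆ ≤ N := by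
  rw [commutator_le]
  intro v hv x hx
  exact (h hx).2.2 v hv

theorem actOn_normalized {V N X : Subgroup G} (hV : X ≤ normalizer (V : Set G)) (hN : X ≤ normalizer (N : Set G)) {x g : G}
    (hx : x ∈ X) (hg : g ∈ actOn V N) : x * g * x⁻¹ ∈ actOn V N := by
  obtain ⟨a1, a2, a3⟩ := hg
  refine ⟨mul_mem (mul_mem (hN hx) a1) (inv_mem (hN hx)), mul_mem (mul_mem (hV hx) a2) (inv_mem (hV hx)), ?_⟩
  intro v hv
  have e : ⁅v, x * g * x⁻¹⁆ = x * ⁅x⁻¹ * v * x, g⁆ * x⁻¹ := by
    simp only [commutatorElement_def]; group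
  rw [e]
  apply (mem_normalizer_iff.1 (hN hx) _).1
  apply a3
  have := (mem_normalizer_iff.1 (inv_mem (hV hx)) v).1 hv
  rwa [inv_inv] at this

variable {p : ℕ} [Finite G] [hp : Fact p.Prime] {V H : Subgroup G}

theorem le_actOn (hV : IsElementaryAbelian p V) {N X : Subgroup G} (hN : N ≤ V) (hX : X ≤ normalizer (V : Set G))
    (h : ⁅V, X⁆ ≤ N) : X ≤ actOn V N := by
  intro x hx
  exact ⟨normalizes_of_comm_le hV hN h hx, hX hx, fun v hv => h (commutator_mem_commutator hv hx)⟩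

namespace Setup

variable {A B : Subgroup G}

theorem KA_eq (S : Setup p V H) (hA : MinIn p V H A) {x : G} (hx : x ∈ QQ p H) (hxA : x ∉ centralizer (A : Set G)) :
    KA p H A = A ⊔ FF.cj x A := by
  have P := S.pair_conj hA.le hA.card hA.fix hx hxA
  have hAx := hA.cj S (QQ_le hx)
  set E : Subgroup G := A ⊔ FF.cj x A with hE
  set W : Subgroup G := ⁅V, E⁆ with hW
  have hEH : E ≤ H := sup_le hA.le hAx.le
  have hWV : W ≤ V := commutator_le_left_of_normalizes (hEH.trans S.hHV)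
  have hEK : E ≤ KA p H A := pair_le_KA hx
  have hKH := KA_le (p := p) hA.le
  have hKV : KA p H A ≤ normalizer (V : Set G) := hKH.trans S.hHV
  have hEact : ∀ y ∈ QQ p H, y ∉ centralizer (A : Set G) → A ⊔ FF.cj y A ≤ actOn V W := by
    intro y hy hyA
    have hAy := hA.cj S (QQ_le hy)
    apply le_actOn S.hV hWV ((sup_le hA.le hAy.le).trans S.hHV)
    rw [S.plane_eq hA hy hx hyA hxA]
  have hKact : KA p H A ≤ actOn V W := by
    apply sup_le
    · rw [commutator_le]
      intro q hq a ha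
      by_cases hqA : q ∈ centralizer (A : Set G)
      · have : ⁅q, a⁆ = 1 := by
          rw [commutatorElement_eq_one_iff_mul_comm]
          exact (mem_centralizer_iff.1 hqA a ha).symm
        rw [this]; exact one_mem _
      · apply hEact q hq hqA
        have e : ⁅q, a⁆ = (q * a * q⁻¹) * a⁻¹ := by rw [commutatorElement_def]
        rw [e]
        exact mul_mem ((le_sup_right : FF.cj q A ≤ A ⊔ FF.cj q A) (cj_mem ha))
          (inv_mem ((le_sup_left : A ≤ A ⊔ FF.cj q A) ha))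
    · exact le_sup_left.trans (hEact x hx hxA)
  have hKW : KA p H A ≤ normalizer (W : Set G) := fun g hg => (hKact hg).1
  have hAD : A ≤ KA p H A := le_sup_right
  set D : Subgroup G := KA p H A ⊓ centralizer (W : Set G) with hD
  have hDp : IsPGroup p D := by
    apply pgroup_of_chain (ea_isPGroup S.hV) (inf_le_left.trans hKV)
    · rw [eq_bot_iff, ← S.hf]; exact inf_le_inf_right _ (inf_le_left.trans hKH)
    · have : ⁅⁅V, D⁆, D⁆ = ⊥ := by
        rw [eq_bot_iff]
        refine (commutator_mono (comm_le_of_le_actOn (inf_le_left.trans hKact)) le_rfl).trans ?_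
        rw [le_bot_iff, commutator_eq_bot_iff_le_centralizer, le_centralizer_iff]
        exact inf_le_right
      rw [this, commutator_bot_left]
  have hDn : KA p H A ≤ normalizer (D : Set G) := normalizer_inf le_normalizer (centralizer_normalizer hKW)
  have hDA : D ≤ A := by
    have h1 : IsPGroup p (D ⊔ A : Subgroup G) :=
      hDp.to_sup_of_normal_left' (ea_isPGroup (ea_of_card hA.card)) (hAD.trans hDn)
    obtain ⟨n, hn⟩ := IsPGroup.iff_card.1 h1
    have h2 : D ⊔ A ≤ KA p H A := sup_le inf_le_left hAD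
    have h3 := card_dvd_of_le h2
    rw [card_KA hA] at h3
    have h4 : (Nat.card (D ⊔ A : Subgroup G)).Coprime (Nat.card (NA p H A)) := by
      rw [hn]
      exact ((coprime_le (NA_le hA.le)).symm).pow_left n
    have h5 : Nat.card (D ⊔ A : Subgroup G) ∣ p := h4.dvd_of_dvd_mul_right h3
    have h6 : A = D ⊔ A := by
      apply Cfsg.Agent.H2.Card.eq_of_le_of_card_eq le_sup_right
      rw [hA.card]
      exact Nat.dvd_antisymm (by rw [← hA.card]; exact card_dvd_of_le le_sup_right) h5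
    rw [h6]; exact le_sup_left
  have hDbot : D = ⊥ := by
    rw [eq_bot_iff, ← P.pd.faithful]
    exact le_inf (hDA.trans le_sup_left) inf_le_right
  have hcard : Nat.card (KA p H A) ≤ Nat.card (Matrix.SpecialLinearGroup (Fin 2) (ZMod p)) := by
    apply card_le_sl hKW (ea_of_le S.hV hWV) P.pd.card hDbot
    have hAp : ∀ a ∈ A, a ^ p = 1 := (ea_of_card hA.card).2
    apply sup_le
    · rw [commutator_le]
      intro q hq a ha
      have e : ⁅q, a⁆ = (q * a * q⁻¹) * a⁻¹ := by rw [commutatorElement_def]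
      rw [e]
      refine mul_mem (subset_closure ⟨?_, ?_⟩) (inv_mem (subset_closure ⟨hAD ha, hAp a ha⟩))
      · have := pair_le_KA (A := A) (H := H) hq
        exact this ((le_sup_right : FF.cj q A ≤ A ⊔ FF.cj q A) (cj_mem ha))
      · rw [conj_pow, hAp a ha]; group
    · intro a ha
      exact subset_closure ⟨hAD ha, hAp a ha⟩
  obtain ⟨φ, -⟩ := P.pd.sl2
  have h3 : Nat.card (Matrix.SpecialLinearGroup (Fin 2) (ZMod p)) = Nat.card E := (Nat.card_congr φ.toEquiv).symm
  symm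
  apply Cfsg.Agent.H2.Card.eq_of_le_of_card_eq hEK
  exact le_antisymm (card_le_of_le hEK) (hcard.trans h3.le)

theorem exists_pair (S : Setup p V H) (hA : MinIn p V H A) :
    ∃ B, MinIn p V H B ∧ Pair p V H A B ∧ KA p H A = A ⊔ B := by
  obtain ⟨x, hx, hxA⟩ := exists_moved S hA
  exact ⟨_, hA.cj S (QQ_le hx), S.pair_conj hA.le hA.card hA.fix hx hxA, S.KA_eq hA hx hxA⟩

/-- the collected properties of `K_A` -/
structure Comp (p : ℕ) [Fact p.Prime] (V H A : Subgroup G) : Prop where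
  small : p = 2 ∨ p = 3
  card : Nat.card (⁅V, KA p H A⁆ : Subgroup G) = p ^ 2
  faithful : KA p H A ⊓ centralizer ((⁅V, KA p H A⁆ : Subgroup G) : Set G) = ⊥
  sl2 : Nonempty (KA p H A ≃* Matrix.SpecialLinearGroup (Fin 2) (ZMod p))
  inf_bot : ⁅V, KA p H A⁆ ⊓ CV V (KA p H A) = ⊥
  sup_top : ⁅V, KA p H A⁆ ⊔ CV V (KA p H A) = V
  commN : ⁅V, NA p H A⁆ = ⁅V, KA p H A⁆
  irr : Irr V (NA p H A)
  two_lt : 2 < Nat.card (NA p H A)

theorem comp (S : Setup p V H) (hA : MinIn p V H A) : Comp p V H A := by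
  obtain ⟨B, hB, P, hK⟩ := S.exists_pair hA
  have hN : NA p H A = (A ⊔ B) ⊓ QQ p H := by rw [← hK]; exact (KA_inf_QQ hA).symm
  obtain ⟨φ, -⟩ := P.pd.sl2
  refine ⟨P.small, ?_, ?_, ?_, ?_, ?_, ?_, ?_, ?_⟩
  · rw [hK]; exact P.pd.card
  · rw [hK]; exact P.pd.faithful
  · rw [hK]; exact ⟨φ⟩
  · rw [hK]; exact P.pd.inf_bot
  · rw [hK]; exact P.pd.sup_top
  · rw [hK, hN]; exact (P.comm_eq S hA.le hB.le hA.card hB.card hA.fix).1
  · rw [hN]; exact irr_R S hA hB P
  · rw [hN]; exact two_lt_R hA P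

theorem pair_concl (S : Setup p V H) (hA : MinIn p V H A) (hB : MinIn p V H B) (hne : ⁅V, KA p H A⁆ ≠ ⁅V, KA p H B⁆) :
    Concl V (NA p H A) (NA p H B) := by
  have CA := S.comp hA
  have CB := S.comp hB
  have hcard : Nat.card (⁅V, KA p H A⁆ : Subgroup G) = Nat.card (⁅V, KA p H B⁆ : Subgroup G) := by rw [CA.card, CB.card]
  have hQ : NA p H A ⊔ NA p H B ≤ QQ p H := sup_le (NA_le hA.le) (NA_le hB.le)
  have hVN : NA p H A ⊔ NA p H B ≤ normalizer (V : Set G) := hQ.trans S.QQ_norm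
  have hsub : ∀ X : Subgroup G, X ≤ H → (NA p H X) ≤ NA p H A ⊔ NA p H B →
      ((NA p H X).subgroupOf (NA p H A ⊔ NA p H B)).IsSubnormal := by
    intro X _ hX'
    apply Subgroup.Normal.isSubnormal
    rw [normal_subgroupOf_iff_le_normalizer hX']
    exact hQ.trans (normalizer_commutator_ge_left ..)
  apply concl_all S.hV _ (NA p H A) (NA p H B) le_rfl (le_sup_left.trans hVN) (le_sup_right.trans hVN)
    (by rw [eq_bot_iff, ← S.QQ_faithful]; exact inf_le_inf_right _ hQ) (hsub A hA.le le_sup_left) (hsub B hB.le le_sup_right)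
    (opTriv_of_coprime (coprime_le hQ)) CA.irr CB.irr
    (by
      rw [CA.commN, CB.commN]
      intro h
      exact hne (Cfsg.Agent.H2.Card.eq_of_le_of_card_eq h hcard))
    (by
      rw [CA.commN, CB.commN]
      intro h
      exact hne (Cfsg.Agent.H2.Card.eq_of_le_of_card_eq h hcard.symm).symm)
    CA.two_lt CB.two_lt

theorem cj_NA {h : G} (hh : h ∈ H) : FF.cj h (NA p H A) = NA p H (FF.cj h A) := by
  rw [NA, cj_comm, cj_eq_iff.2 (le_normalizer_QQ hh)]

theorem cj_KA {h : G} (hh : h ∈ H) : FF.cj h (KA p H A) = KA p H (FF.cj h A) := by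
  have : FF.cj h (NA p H A ⊔ A) = FF.cj h (NA p H A) ⊔ FF.cj h A := map_sup _ _ _
  rw [KA, this, cj_NA hh]

theorem cj_W (S : Setup p V H) {h : G} (hh : h ∈ H) : FF.cj h ⁅V, KA p H A⁆ = ⁅V, KA p H (FF.cj h A)⁆ := by
  rw [← cj_V (S.hHV hh), cj_KA hh]

theorem vinf (S : Setup p V H) (hA : MinIn p V H A) (hB : MinIn p V H B) (hne : ⁅V, KA p H A⁆ ≠ ⁅V, KA p H B⁆) :
    ⁅V, KA p H A⁆ ⊓ ⁅V, KA p H B⁆ = ⊥ := by
  have := (S.pair_concl hA hB hne).vinf
  rwa [(S.comp hA).commN, (S.comp hB).commN] at this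

/-- the generation hypothesis -/
def Gen (p : ℕ) (V H : Subgroup G) : Prop := H ≤ ⨆ B : {B : Subgroup G // MinIn p V H B}, (B : Subgroup G)

theorem gen_of (S : Setup p V H)
    (h : H = ⨆ A : {A : Subgroup G // A ≤ H ∧ IsBestOffenderOn p V A}, (A : Subgroup G)) : Gen p V H := by
  have key : ∀ A : {A : Subgroup G // A ≤ H ∧ IsBestOffenderOn p V A}, (A : Subgroup G) ≤
      ⨆ B : {B : Subgroup G // MinIn p V H B}, (B : Subgroup G) := by
    rintro ⟨A, hAH, hA⟩
    refine (S.gen_min _ A le_rfl hAH hA).trans ?_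
    apply iSup_le
    rintro ⟨B, hBA, hB⟩
    have h1 := (S.min_iff (hBA.trans hAH)).1 hB
    exact le_iSup_of_le (⟨B, hBA.trans hAH, h1.1, h1.2⟩ : {B : Subgroup G // MinIn p V H B}) le_rfl
  have h2 : (⨆ A : {A : Subgroup G // A ≤ H ∧ IsBestOffenderOn p V A}, (A : Subgroup G)) ≤
      ⨆ B : {B : Subgroup G // MinIn p V H B}, (B : Subgroup G) := iSup_le key
  exact h.le.trans h2

theorem W_inv (S : Setup p V H) (hG : Gen p V H) (hA : MinIn p V H A) : H ≤ normalizer ((⁅V, KA p H A⁆ : Subgroup G) : Set G) := by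
  refine hG.trans (iSup_le ?_)
  rintro ⟨B, hB⟩
  by_contra hno
  obtain ⟨b, hb, hbN⟩ := SetLike.not_le_iff_exists.1 hno
  have hbH := hB.le hb
  have hKV : KA p H A ≤ normalizer (V : Set G) := (KA_le hA.le).trans S.hHV
  have hWV : ⁅V, KA p H A⁆ ≤ V := commutator_le_left_of_normalizes hKV
  have h1 := S.vinf hA (hA.cj S hbH) (by
    rw [← S.cj_W hbH]
    intro h
    exact hbN (cj_eq_iff.1 h.symm))
  rw [← S.cj_W hbH] at h1
  have h2 := card_le_of_conj (Y := ⁅V, B⁆) (E := B) h1 (fun v hv => commutator_mem_commutator (hWV hv) hb) hb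
  rw [(S.comp hA).card, comm_card S.hV (hB.le.trans S.hHV) hB.card hB.fix] at h2
  have := hp.out.one_lt
  nlinarith

theorem opTriv (S : Setup p V H) : OpTriv p H := by
  intro N hN hHN hNp
  obtain ⟨n, hn⟩ := IsPGroup.iff_card.1 hNp
  have h0 : N ⊓ QQ p H = ⊥ := by
    rw [← disjoint_iff]
    apply Subgroup.disjoint_of_coprime_natCard
    rw [hn]; exact (QQ_coprime (p := p) (H := H)).symm.pow_left n
  have h1 : ⁅N, QQ p H⁆ = ⊥ := by
    rw [eq_bot_iff, ← h0]
    refine le_inf (commutator_le_left_of_normalizes (QQ_le.trans hHN)) ?_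
    rw [commutator_comm]
    exact commutator_le_left_of_normalizes (hN.trans le_normalizer_QQ)
  have h2 : N ≤ QQ p H := by
    refine le_trans ?_ S.centralizer_le
    exact le_inf hN (commutator_eq_bot_iff_le_centralizer.1 h1)
  rw [inf_eq_left.2 h2] at h0
  exact h0

theorem KA_eq_of_W (S : Setup p V H) (hG : Gen p V H) (hA : MinIn p V H A) (hB : MinIn p V H B)
    (h : ⁅V, KA p H A⁆ = ⁅V, KA p H B⁆) : KA p H A = KA p H B := by
  set W : Subgroup G := ⁅V, KA p H A⁆ with hW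
  have hKV : ∀ {X : Subgroup G}, MinIn p V H X → KA p H X ≤ normalizer (V : Set G) := fun hX => (KA_le hX.le).trans S.hHV
  have hWV : W ≤ V := commutator_le_left_of_normalizes (hKV hA)
  have hHW := S.W_inv hG hA
  rw [← hW] at hHW
  set L : Subgroup G := KA p H A ⊔ KA p H B with hL
  have hLH : L ≤ H := sup_le (KA_le hA.le) (KA_le hB.le)
  have hLact : L ≤ actOn V W := sup_le (le_actOn S.hV hWV (hKV hA) le_rfl) (le_actOn S.hV hWV (hKV hB) h.ge)
  have hF : H ⊓ centralizer (W : Set G) ⊓ actOn V W = ⊥ := by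
    apply S.opTriv _ (inf_le_left.trans inf_le_left)
    · apply normalizer_inf (normalizer_inf le_normalizer (centralizer_normalizer hHW))
      intro x hx
      apply mem_normalizer_fintype
      intro g hg
      exact actOn_normalized S.hHV hHW hx hg
    · apply pgroup_of_chain (ea_isPGroup S.hV) ((inf_le_left.trans inf_le_left).trans S.hHV)
      · rw [eq_bot_iff, ← S.hf]; exact inf_le_inf_right _ (inf_le_left.trans inf_le_left)
      · have : ⁅⁅V, H ⊓ centralizer (W : Set G) ⊓ actOn V W⁆, H ⊓ centralizer (W : Set G) ⊓ actOn V W⁆ = ⊥ := by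
          rw [eq_bot_iff]
          refine (commutator_mono (comm_le_of_le_actOn inf_le_right) le_rfl).trans ?_
          rw [le_bot_iff, commutator_eq_bot_iff_le_centralizer, le_centralizer_iff]
          exact inf_le_left.trans inf_le_right
        rw [this, commutator_bot_left]
  have hLf : L ⊓ centralizer (W : Set G) = ⊥ := by
    rw [eq_bot_iff, ← hF]
    exact le_inf (inf_le_inf_right _ hLH) (inf_le_left.trans hLact)
  have hgen : ∀ {X : Subgroup G}, MinIn p V H X → KA p H X ≤ L → KA p H X ≤ closure {g | g ∈ L ∧ g ^ p = 1} := by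
    intro X hX hXL
    have hAp : ∀ a ∈ X, a ^ p = 1 := (ea_of_card hX.card).2
    have hAD : X ≤ KA p H X := le_sup_right
    apply sup_le
    · rw [commutator_le]
      intro q hq a ha
      have e : ⁅q, a⁆ = (q * a * q⁻¹) * a⁻¹ := by rw [commutatorElement_def]
      rw [e]
      refine mul_mem (subset_closure ⟨?_, ?_⟩) (inv_mem (subset_closure ⟨hXL (hAD ha), hAp a ha⟩))
      · have := pair_le_KA (A := X) (H := H) hq
        exact hXL (this ((le_sup_right : FF.cj q X ≤ X ⊔ FF.cj q X) (cj_mem ha)))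
      · rw [conj_pow, hAp a ha]; group
    · intro a ha
      exact subset_closure ⟨hXL (hAD ha), hAp a ha⟩
  have hcard : Nat.card L ≤ Nat.card (Matrix.SpecialLinearGroup (Fin 2) (ZMod p)) :=
    card_le_sl (hLH.trans hHW) (ea_of_le S.hV hWV) (S.comp hA).card hLf (sup_le (hgen hA le_sup_left) (hgen hB le_sup_right))
  have key : ∀ {X : Subgroup G}, MinIn p V H X → KA p H X ≤ L → KA p H X = L := by
    intro X hX hXL
    obtain ⟨φ⟩ := (S.comp hX).sl2
    have h3 : Nat.card (Matrix.SpecialLinearGroup (Fin 2) (ZMod p)) = Nat.card (KA p H X) := (Nat.card_congr φ.toEquiv).symm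
    apply Cfsg.Agent.H2.Card.eq_of_le_of_card_eq hXL
    exact le_antisymm (card_le_of_le hXL) (hcard.trans h3.le)
  rw [key hA le_sup_left, key hB le_sup_right]

theorem KA_normal (S : Setup p V H) (hG : Gen p V H) (hA : MinIn p V H A) : H ≤ normalizer (KA p H A : Set G) := by
  intro h hh
  rw [← cj_eq_iff, cj_KA hh]
  apply S.KA_eq_of_W hG (hA.cj S hh) hA
  rw [← S.cj_W hh]
  exact cj_eq_iff.2 (S.W_inv hG hA hh)

theorem le_cent (S : Setup p V H) (hG : Gen p V H) (hA : MinIn p V H A) (hB : MinIn p V H B)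
    (hne : ⁅V, KA p H A⁆ ≠ ⁅V, KA p H B⁆) : B ≤ centralizer ((⁅V, KA p H A⁆ : Subgroup G) : Set G) := by
  have hKV : KA p H A ≤ normalizer (V : Set G) := (KA_le hA.le).trans S.hHV
  have hWV : ⁅V, KA p H A⁆ ≤ V := commutator_le_left_of_normalizes hKV
  rw [le_centralizer_iff, ← commutator_eq_bot_iff_le_centralizer, eq_bot_iff, ← S.vinf hA hB hne]
  exact le_inf (commutator_le_left_of_normalizes (hB.le.trans (S.W_inv hG hA)))
    (commutator_mono hWV le_sup_right)

/-- the complement `C_H(W_A)` -/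
structure Split (p : ℕ) (V H A : Subgroup G) : Prop where
  comm : ⁅KA p H A, H ⊓ centralizer ((⁅V, KA p H A⁆ : Subgroup G) : Set G)⁆ = ⊥
  inf : KA p H A ⊓ (H ⊓ centralizer ((⁅V, KA p H A⁆ : Subgroup G) : Set G)) = ⊥
  sup : KA p H A ⊔ (H ⊓ centralizer ((⁅V, KA p H A⁆ : Subgroup G) : Set G)) = H
  act : ⁅V, H ⊓ centralizer ((⁅V, KA p H A⁆ : Subgroup G) : Set G)⁆ ≤ CV V (KA p H A)

theorem split (S : Setup p V H) (hG : Gen p V H) (hA : MinIn p V H A) : Split p V H A := by
  have CA := S.comp hA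
  have hKH := KA_le (p := p) hA.le
  have hKV : KA p H A ≤ normalizer (V : Set G) := hKH.trans S.hHV
  set W : Subgroup G := ⁅V, KA p H A⁆ with hW
  have hWV : W ≤ V := commutator_le_left_of_normalizes hKV
  have hHW : H ≤ normalizer (W : Set G) := S.W_inv hG hA
  have hHK := S.KA_normal hG hA
  have hinf : KA p H A ⊓ (H ⊓ centralizer (W : Set G)) = ⊥ := by
    rw [eq_bot_iff, ← CA.faithful]; exact inf_le_inf_left _ inf_le_right
  have hcomm : ⁅KA p H A, H ⊓ centralizer (W : Set G)⁆ = ⊥ := by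
    rw [eq_bot_iff, ← hinf]
    refine le_inf (commutator_le_left_of_normalizes (inf_le_left.trans hHK)) ?_
    rw [commutator_comm]
    exact commutator_le_left_of_normalizes (hKH.trans (normalizer_inf le_normalizer (centralizer_normalizer hHW)))
  refine ⟨hcomm, hinf, ?_, ?_⟩
  · apply le_antisymm (sup_le hKH inf_le_left)
    refine hG.trans (iSup_le ?_)
    rintro ⟨B, hB⟩
    by_cases hne : W = ⁅V, KA p H B⁆
    · have h1 := S.KA_eq_of_W hG hA hB hne
      exact (((le_sup_right : B ≤ KA p H B).trans h1.ge)).trans le_sup_left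
    · exact (le_inf hB.le (S.le_cent hG hA hB hne)).trans le_sup_right
  · rw [commutator_le]
    intro v hv c hc
    have hcN : c ∈ normalizer (V : Set G) := S.hHV hc.1
    have hcC : c ∈ centralizer (W : Set G) := hc.2
    have hcK : c ∈ centralizer (KA p H A : Set G) := by
      rw [commutator_comm, commutator_eq_bot_iff_le_centralizer] at hcomm
      exact hcomm hc
    have hCVle : CV V (KA p H A) ≤ V := inf_le_left
    have hn : W ≤ normalizer (CV V (KA p H A) : Set G) :=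
      hWV.trans ((ea_le_centralizer S.hV).trans ((Subgroup.centralizer_le hCVle).trans (centralizer_le_normalizer _)))
    have hv' : v ∈ W ⊔ CV V (KA p H A) := by rw [CA.sup_top]; exact hv
    rw [Cfsg.Agent.H2.Card.mem_sup_iff hn] at hv'
    obtain ⟨w, hw, u, hu, rfl⟩ := hv'
    have huc : ⁅u, c⁆ ∈ CV V (KA p H A) := by
      refine mem_inf.2 ⟨comm_mem (H := zpowers c) (by rwa [zpowers_le]) (mem_zpowers c) hu.1, ?_⟩
      rw [commutatorElement_def]
      have hu2 : u ∈ centralizer (KA p H A : Set G) := hu.2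
      exact mul_mem (mul_mem (mul_mem hu2 hcK) (inv_mem hu2)) (inv_mem hcK)
    have hwc : c * w⁻¹ = w⁻¹ * c := (mem_centralizer_iff.1 hcC w⁻¹ (W.inv_mem hw)).symm
    have e : ⁅w * u, c⁆ = w * ⁅u, c⁆ * w⁻¹ := by
      simp only [commutatorElement_def]
      calc w * u * c * (w * u)⁻¹ * c⁻¹ = w * (u * c * u⁻¹) * (w⁻¹ * c⁻¹) := by group
        _ = w * (u * c * u⁻¹) * (c⁻¹ * (c * w⁻¹) * c⁻¹) := by group
        _ = w * (u * c * u⁻¹) * (c⁻¹ * (w⁻¹ * c) * c⁻¹) := by rw [hwc]
        _ = w * (u * c * u⁻¹ * c⁻¹) * w⁻¹ := by group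
    rw [e]
    exact (mem_normalizer_iff.1 (hn hw) _).1 huc

end Setup

end Cfsg.Agent.H2.FF
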