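import Mathlib
import Cfsg.Agent.H2_FF8

/-! Failure of factorization IX: direct products. -/

set_option autoImplicit false
set_option linter.style.haveILetI false
set_option linter.unusedSectionVars false

open Subgroup Cfsg
open scoped commutatorElement

namespace Cfsg.Agent.H2.FF

open Cfsg.Agent.H2.Basic Cfsg.Agent.H2.Quad Cfsg.Agent.H2.Replace

variable {G : Type*} [Group G] {p : ℕ} [Finite G] [hp : Fact p.Prime] {V H : Subgroup G}

namespace Setup

variable {A B : Subgroup G}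

theorem W_ne_of_KA_ne (S : Setup p V H) (hG : Gen p V H) (hA : MinIn p V H A) (hB : MinIn p V H B)
    (h : KA p H A ≠ KA p H B) : ⁅V, KA p H A⁆ ≠ ⁅V, KA p H B⁆ := fun h' => h (S.KA_eq_of_W hG hA hB h')

theorem KA_le_cent (S : Setup p V H) (hG : Gen p V H) (hA : MinIn p V H A) (hB : MinIn p V H B)
    (hne : ⁅V, KA p H A⁆ ≠ ⁅V, KA p H B⁆) : KA p H B ≤ centralizer ((⁅V, KA p H A⁆ : Subgroup G) : Set G) := by
  apply sup_le
  · rw [le_centralizer_iff, ← (S.comp hA).commN]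
    exact (S.pair_concl hB hA hne.symm).cent S.hV ((NA_le hB.le).trans S.QQ_norm) ((NA_le hA.le).trans S.QQ_norm)
  · exact S.le_cent hG hA hB hne

/-- the family of components -/
def Comps (p : ℕ) (V H : Subgroup G) : Set (Subgroup G) := {E | ∃ A, MinIn p V H A ∧ E = KA p H A}

theorem comps_indep (S : Setup p V H) (hG : Gen p V H) : ∀ E ∈ Comps p V H,
    Disjoint E (⨆ E' : {E' : Subgroup G // E' ∈ Comps p V H ∧ E' ≠ E}, (E' : Subgroup G)) := by
  rintro E ⟨A, hA, rfl⟩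
  rw [disjoint_iff, eq_bot_iff, ← (S.comp hA).faithful]
  refine inf_le_inf_left _ (iSup_le ?_)
  rintro ⟨_, ⟨B, hB, rfl⟩, hne⟩
  exact S.KA_le_cent hG hA hB (S.W_ne_of_KA_ne hG hA hB (Ne.symm hne))

theorem comps_sup (_S : Setup p V H) (hG : Gen p V H) : (⨆ E : {E : Subgroup G // E ∈ Comps p V H}, (E : Subgroup G)) = H := by
  apply le_antisymm
  · apply iSup_le
    rintro ⟨_, A, hA, rfl⟩
    exact KA_le hA.le
  · refine hG.trans (iSup_le ?_)
    rintro ⟨B, hB⟩
    exact (le_sup_right : B ≤ KA p H B).trans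
      (le_iSup_of_le (⟨_, B, hB, rfl⟩ : {E : Subgroup G // E ∈ Comps p V H}) le_rfl)

theorem planes_le_comm (S : Setup p V H) : (⨆ E : {E : Subgroup G // E ∈ Comps p V H}, ⁅V, (E : Subgroup G)⁆) ≤ ⁅V, QQ p H⁆ := by
  apply iSup_le
  rintro ⟨_, A, hA, rfl⟩
  change ⁅V, KA p H A⁆ ≤ _
  rw [← (S.comp hA).commN]
  exact commutator_mono le_rfl (NA_le hA.le)

theorem planes_fix_disj (S : Setup p V H) :
    CV V H ⊓ (⨆ E : {E : Subgroup G // E ∈ Comps p V H}, ⁅V, (E : Subgroup G)⁆) = ⊥ := by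
  haveI := S.hV.1
  obtain ⟨n, hn⟩ := IsPGroup.iff_card.1 (ea_isPGroup S.hV)
  have h1 := Cfsg.Agent.H1.Coprime.inf_commutator_eq_bot_of_abelian (QQ p H) V S.QQ_norm (by
    rw [hn]; exact (QQ_coprime (p := p) (H := H)).pow_right n)
  rw [eq_bot_iff, ← h1]
  exact inf_le_inf (inf_le_inf_left _ (Subgroup.centralizer_le QQ_le)) S.planes_le_comm

theorem plane_disj (S : Setup p V H) (hG : Gen p V H) : ∀ E ∈ Comps p V H,
    Disjoint ⁅V, E⁆ (CV V H ⊔ ⨆ E' : {E' : Subgroup G // E' ∈ Comps p V H ∧ E' ≠ E}, ⁅V, (E' : Subgroup G)⁆) := by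
  rintro E ⟨A, hA, rfl⟩
  rw [disjoint_iff, eq_bot_iff, ← (S.comp hA).inf_bot]
  refine inf_le_inf_left _ (sup_le ?_ (iSup_le ?_))
  · exact CV_anti V (KA_le hA.le)
  · rintro ⟨_, ⟨B, hB, rfl⟩, hne⟩
    change ⁅V, KA p H B⁆ ≤ _
    refine le_inf (commutator_le_left_of_normalizes ((KA_le hB.le).trans S.hHV)) ?_
    rw [le_centralizer_iff]
    exact S.KA_le_cent hG hB hA (S.W_ne_of_KA_ne hG hB hA hne)

theorem planes_sup (S : Setup p V H) (hG : Gen p V H) :
    CV V H ⊔ (⨆ E : {E : Subgroup G // E ∈ Comps p V H}, ⁅V, (E : Subgroup G)⁆) = V := by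
  classical
  set T : Subgroup G := ⨆ E : {E : Subgroup G // E ∈ Comps p V H}, ⁅V, (E : Subgroup G)⁆ with hT
  have hTV : T ≤ V := by
    apply iSup_le
    rintro ⟨_, A, hA, rfl⟩
    exact commutator_le_left_of_normalizes ((KA_le hA.le).trans S.hHV)
  apply le_antisymm (sup_le inf_le_left hTV)
  have key : ∀ s : Finset {E : Subgroup G // E ∈ Comps p V H}, ∀ v ∈ V, ∃ u ∈ T, ∀ E ∈ s,
      v * u⁻¹ ∈ centralizer ((E : Subgroup G) : Set G) := by
    intro s
    induction s using Finset.induction_on with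
    | empty =>
      intro v _
      exact ⟨1, one_mem _, fun E hE => absurd hE (Finset.notMem_empty E)⟩
    | insert E₀ s _ ih =>
      intro v hv
      obtain ⟨u, hu, h1⟩ := ih v hv
      obtain ⟨A, hA, hE0⟩ := E₀.2
      have hv' : v * u⁻¹ ∈ V := V.mul_mem hv (V.inv_mem (hTV hu))
      have hWV : ⁅V, KA p H A⁆ ≤ V := commutator_le_left_of_normalizes ((KA_le hA.le).trans S.hHV)
      have hCVle : CV V (KA p H A) ≤ V := inf_le_left
      have hn : ⁅V, KA p H A⁆ ≤ normalizer (CV V (KA p H A) : Set G) :=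
        hWV.trans ((ea_le_centralizer S.hV).trans ((Subgroup.centralizer_le hCVle).trans (centralizer_le_normalizer _)))
      have hv'' := hv'
      rw [← (S.comp hA).sup_top, Cfsg.Agent.H2.Card.mem_sup_iff hn] at hv''
      obtain ⟨w, hw, c, hc, hwc⟩ := hv''
      have hwT : w ∈ T := by
        have h3 : ⁅V, (E₀ : Subgroup G)⁆ ≤ T := le_iSup (fun E : {E : Subgroup G // E ∈ Comps p V H} => ⁅V, (E : Subgroup G)⁆) E₀
        rw [hE0] at h3
        exact h3 hw
      have he : v * (w * u)⁻¹ = c := by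
        have h4 : v * u⁻¹ * w⁻¹ = w⁻¹ * (v * u⁻¹) := comm_of_ea S.hV hv' (V.inv_mem (hWV hw))
        calc v * (w * u)⁻¹ = v * u⁻¹ * w⁻¹ := by group
          _ = w⁻¹ * (v * u⁻¹) := h4
          _ = c := by rw [← hwc]; group
      refine ⟨w * u, T.mul_mem hwT hu, ?_⟩
      intro E hE
      by_cases hEE : E = E₀
      · rw [he, hEE, hE0]; exact hc.2
      · have hEs : E ∈ s := (Finset.mem_insert.1 hE).resolve_left hEE
        obtain ⟨B, hB, hEB⟩ := E.2
        have h5 : w ∈ centralizer ((E : Subgroup G) : Set G) := by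
          have h6 := S.KA_le_cent hG hA hB (S.W_ne_of_KA_ne hG hA hB (fun h => hEE (Subtype.ext (by rw [hEB, hE0, h]))))
          rw [le_centralizer_iff] at h6
          rw [hEB]
          exact h6 hw
        have h7 : v * (w * u)⁻¹ = (v * u⁻¹) * w⁻¹ := by group
        rw [h7]
        exact mul_mem (h1 E hEs) (inv_mem h5)
  haveI : Fintype {E : Subgroup G // E ∈ Comps p V H} := Fintype.ofFinite _
  intro v hv
  obtain ⟨u, hu, h1⟩ := key Finset.univ v hv
  have h2 : v * u⁻¹ ∈ CV V H := by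
    refine mem_inf.2 ⟨V.mul_mem hv (V.inv_mem (hTV hu)), ?_⟩
    have h3 : H ≤ centralizer (zpowers (v * u⁻¹) : Set G) := by
      rw [← S.comps_sup hG]
      apply iSup_le
      intro E
      rw [le_centralizer_iff, zpowers_le]
      exact h1 E (Finset.mem_univ E)
    rw [le_centralizer_iff, zpowers_le] at h3
    exact h3
  have h4 : v = v * u⁻¹ * u := by group
  rw [h4]
  exact mul_mem ((le_sup_left : CV V H ≤ _) h2) ((le_sup_right : T ≤ _) hu)

theorem exists_min (_S : Setup p V H) (hG : Gen p V H) (hH : H ≠ ⊥) : ∃ A, MinIn p V H A := by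
  by_contra hno
  push Not at hno
  apply hH
  rw [eq_bot_iff]
  refine hG.trans (iSup_le ?_)
  rintro ⟨B, hB⟩
  exact absurd hB (hno B)

end Setup

end Cfsg.Agent.H2.FF
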