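import Cfsg.Statements.S0606
import Mathlib
import Cfsg.Agent.H2_Thompson

set_option autoImplicit false
open Cfsg

namespace Cfsg.Agent.S0606

open Subgroup

/-- Elementary abelian p-subgroups of maximal order are best offenders on any normal elementary abelian p-subgroup. -/
theorem result {G : Type*} [Group G] [Finite G] {p : ℕ} [Fact p.Prime] (V : Subgroup G) [V.Normal] (hV : Cfsg.IsElementaryAbelian p V) (A : Subgroup G) (hA : A ∈ Cfsg.maxElementaryAbelianSubgroups p G) : Cfsg.IsBestOffenderOn p V A := by
  refine ⟨fun B hB => ?_, ?_, fun a ha => ?_⟩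
  · have hBe := Cfsg.Agent.H2.Quad.ea_of_le hA.1 hB
    have hCe := Cfsg.Agent.H2.Quad.ea_of_le (W := V ⊓ centralizer (B : Set G)) hV inf_le_left
    have hsup := Cfsg.Agent.H2.Quad.ea_sup hBe hCe inf_le_right
    have h1 := hA.2 _ hsup
    have hn : B ≤ normalizer ((V ⊓ centralizer (B : Set G) : Subgroup G) : Set G) := by
      refine le_trans ?_ (centralizer_le_normalizer _)
      rw [le_centralizer_iff]; exact inf_le_right
    have h2 := Cfsg.Agent.H2.Card.card_sup_mul_card_inf hn
    rw [← h2]
    apply Nat.mul_le_mul h1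
    apply Subgroup.card_le_of_le
    refine le_inf (inf_le_right.trans inf_le_left) ?_
    exact (inf_le_left.trans hB).trans (Cfsg.Agent.H2.Quad.ea_le_centralizer hA.1)
  · have : ⁅A, A⁆ = ⊥ := by
      rw [commutator_eq_bot_iff_le_centralizer]
      exact Cfsg.Agent.H2.Quad.ea_le_centralizer hA.1
    rw [this]; exact bot_le
  · rw [hA.1.2 a ha]; exact one_mem _

end Cfsg.Agent.S0606
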