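import Mathlib
import Cfsg.Agent.H2_FF9
import Cfsg.Agent.H2_ThompFact
import Cfsg.Agent.H22_PSolv
import Cfsg.Agent.H26_HH
import Cfsg.Agent.S0606

/-! Failure of factorization X: passing to the semidirect product with the automorphism group. -/

set_option autoImplicit false
set_option linter.style.haveILetI false
set_option linter.unusedSectionVars false

open Subgroup Cfsg
open scoped commutatorElement

namespace Cfsg.Agent.H2.FFA

open Cfsg.Agent.H2.Basic Cfsg.Agent.H2.Quad Cfsg.Agent.H2.Replace Cfsg.Agent.H2.FF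

variable {G : Type*} [Group G] [Finite G] {p : ℕ} [hp : Fact p.Prime] (V : Subgroup G) [hVn : V.Normal]

/-- the holomorph of `V` -/
abbrev Hol : Type _ := SemidirectProduct V (MulAut V) (MonoidHom.id (MulAut V))

/-- the embedding of `V` -/
def ι : V →* Hol V := SemidirectProduct.inl

/-- the action map -/
def θ : G →* Hol V := (SemidirectProduct.inr).comp (MulAut.conjNormal (H := V))

/-- the image of `V` -/
def VV : Subgroup (Hol V) := (ι V).range

instance : Finite (Hol V) := by
  haveI : Finite (MulAut V) := inferInstance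
  exact Finite.of_equiv _ (SemidirectProduct.equivProd (φ := MonoidHom.id (MulAut V))).symm

theorem ι_injective : Function.Injective (ι V) := SemidirectProduct.inl_injective

theorem θ_conj (g : G) (v : V) : θ V g * ι V v * (θ V g)⁻¹ = ι V ⟨g * v * g⁻¹, hVn.conj_mem _ v.2 g⟩ := by
  change SemidirectProduct.inr (MulAut.conjNormal g) * SemidirectProduct.inl v * (SemidirectProduct.inr (MulAut.conjNormal g))⁻¹ = _
  rw [← map_inv, ← SemidirectProduct.inl_aut]
  rfl

theorem θ_ker : (θ V).ker = centralizer (V : Set G) := by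
  ext g
  rw [MonoidHom.mem_ker]
  change SemidirectProduct.inr (MulAut.conjNormal g) = 1 ↔ _
  rw [map_eq_one_iff _ SemidirectProduct.inr_injective, mem_centralizer_iff]
  constructor
  · intro h v hv
    have h2 := congrArg Subtype.val (DFunLike.congr_fun h (⟨v, hv⟩ : V))
    have h3 : g * v * g⁻¹ = v := h2
    exact (mul_inv_eq_iff_eq_mul.1 h3).symm
  · intro h
    ext v
    change g * (v : G) * g⁻¹ = v
    rw [mul_inv_eq_iff_eq_mul]
    exact (h v v.2).symm

theorem VV_ea (hV : IsElementaryAbelian p V) : IsElementaryAbelian p (VV V) := by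
  constructor
  · apply isMulCommutative_of_forall
    rintro _ ⟨v, rfl⟩ _ ⟨w, rfl⟩
    rw [← map_mul, ← map_mul]
    congr 1
    exact hV.1.is_comm.comm v w
  · rintro _ ⟨v, rfl⟩
    rw [← map_pow]
    have : v ^ p = 1 := Subtype.ext (hV.2 v v.2)
    rw [this, map_one]

theorem map_le_normalizer (X : Subgroup G) : X.map (θ V) ≤ normalizer (VV V : Set (Hol V)) := by
  rintro _ ⟨g, -, rfl⟩
  apply mem_normalizer_fintype
  rintro _ ⟨v, rfl⟩
  rw [θ_conj]
  exact ⟨_, rfl⟩

theorem map_inf_centralizer (X : Subgroup G) : X.map (θ V) ⊓ centralizer (VV V : Set (Hol V)) = ⊥ := by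
  rw [eq_bot_iff]
  rintro _ ⟨⟨g, -, rfl⟩, hc⟩
  rw [mem_bot, ← MonoidHom.mem_ker, θ_ker, mem_centralizer_iff]
  intro v hv
  have h1 := mem_centralizer_iff.1 hc (ι V ⟨v, hv⟩) ⟨_, rfl⟩
  have h2 := θ_conj V g ⟨v, hv⟩
  rw [← h1, mul_inv_cancel_right] at h2
  have h3 := congrArg Subtype.val (ι_injective V h2)
  have h4 : v = g * v * g⁻¹ := h3
  nth_rewrite 1 [h4]; group

theorem CV_VV (X : Subgroup G) : CV (VV V) (X.map (θ V)) = ((CV V X).subgroupOf V).map (ι V) := by
  ext y
  constructor
  · rintro ⟨⟨v, rfl⟩, hc⟩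
    refine ⟨v, mem_subgroupOf.2 (mem_inf.2 ⟨v.2, mem_centralizer_iff.2 ?_⟩), rfl⟩
    intro g hg
    have h1 := mem_centralizer_iff.1 hc (θ V g) ⟨g, hg, rfl⟩
    have h2 := θ_conj V g v
    rw [h1, mul_inv_cancel_right] at h2
    have h3 : (v : G) = g * v * g⁻¹ := congrArg Subtype.val (ι_injective V h2)
    nth_rewrite 2 [h3]; group
  · rintro ⟨v, hv, rfl⟩
    refine mem_inf.2 ⟨⟨v, rfl⟩, mem_centralizer_iff.2 ?_⟩
    rintro _ ⟨g, hg, rfl⟩
    have h1 : g * (v : G) = v * g := mem_centralizer_iff.1 (mem_subgroupOf.1 hv).2 g hg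
    have h2 := θ_conj V g v
    have h3 : (⟨g * v * g⁻¹, hVn.conj_mem _ v.2 g⟩ : V) = v := by
      apply Subtype.ext
      change g * (v : G) * g⁻¹ = v
      rw [h1, mul_inv_cancel_right]
    rw [h3] at h2
    exact mul_inv_eq_iff_eq_mul.1 h2

theorem card_CV (X : Subgroup G) : Nat.card (CV (VV V) (X.map (θ V))) = Nat.card (CV V X) := by
  rw [CV_VV, Subgroup.card_map_of_injective (ι_injective V), Cfsg.Agent.H2.Card.card_subgroupOf_of_le inf_le_left]

theorem card_VV : Nat.card (VV V) = Nat.card V := by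
  have h : VV V = (⊤ : Subgroup V).map (ι V) := by rw [VV, MonoidHom.range_eq_map]
  rw [h, Subgroup.card_map_of_injective (ι_injective V), Subgroup.card_top]

theorem card_map (X : Subgroup G) : Nat.card (X.map (θ V)) * Nat.card (X ⊓ centralizer (V : Set G) : Subgroup G) = Nat.card X := by
  have h1 := Subgroup.card_eq_card_quotient_mul_card_subgroup ((θ V).comp X.subtype).ker
  have h2 : Nat.card (X ⧸ ((θ V).comp X.subtype).ker) = Nat.card (X.map (θ V)) := by
    have h3 := Nat.card_congr (QuotientGroup.quotientKerEquivRange ((θ V).comp X.subtype)).toEquiv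
    rw [h3, MonoidHom.range_comp, range_subtype]
  have h4 : Nat.card ((θ V).comp X.subtype).ker = Nat.card (X ⊓ centralizer (V : Set G) : Subgroup G) := by
    have h5 : ((θ V).comp X.subtype).ker = (X ⊓ centralizer (V : Set G)).subgroupOf X := by
      ext x
      rw [MonoidHom.mem_ker, mem_subgroupOf]
      change θ V (x : G) = 1 ↔ _
      rw [← MonoidHom.mem_ker, θ_ker]
      exact ⟨fun h => ⟨x.2, h⟩, fun h => h.2⟩
    rw [h5, Cfsg.Agent.H2.Card.card_subgroupOf_of_le inf_le_left]
  rw [h2, h4] at h1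
  exact h1.symm

/-- best offenders map to best offenders -/
theorem off_map {A : Subgroup G} (hA : IsBestOffenderOn p V A) : IsBestOffenderOn p (VV V) (A.map (θ V)) := by
  refine ⟨?_, ?_, ?_⟩
  · intro B' hB'
    change Nat.card B' * Nat.card (CV (VV V) B') ≤ Nat.card (A.map (θ V)) * Nat.card (CV (VV V) (A.map (θ V)))
    set B : Subgroup G := A ⊓ B'.comap (θ V) with hB
    have hBB : B.map (θ V) = B' := by
      apply le_antisymm
      · rintro _ ⟨b, hb, rfl⟩; exact hb.2
      · intro x hx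
        obtain ⟨a, ha, rfl⟩ := hB' hx
        exact ⟨a, ⟨ha, hx⟩, rfl⟩
    have hBC : B ⊓ centralizer (V : Set G) = A ⊓ centralizer (V : Set G) := by
      apply le_antisymm (inf_le_inf_right _ inf_le_left)
      rintro x ⟨hx, hxc⟩
      refine ⟨⟨hx, ?_⟩, hxc⟩
      have hxc' : x ∈ centralizer (V : Set G) := hxc
      rw [← θ_ker, MonoidHom.mem_ker] at hxc'
      change θ V x ∈ B'
      rw [hxc']; exact one_mem _
    have h1 := hA.1 B inf_le_left
    change Nat.card B * Nat.card (CV V B) ≤ Nat.card A * Nat.card (CV V A) at h1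
    rw [← card_map V B, ← card_map V A, hBC, hBB, ← card_CV V B, ← card_CV V A, hBB] at h1
    have h2 : 0 < Nat.card (A ⊓ centralizer (V : Set G) : Subgroup G) := Nat.card_pos
    apply Nat.le_of_mul_le_mul_right _ h2
    calc _ = Nat.card B' * Nat.card (A ⊓ centralizer (V : Set G) : Subgroup G) * Nat.card (CV (VV V) B') := by ring
      _ ≤ _ := h1
      _ = _ := by ring
  · rw [← Subgroup.map_commutator]
    have h1 := hA.2.1
    intro x hx
    obtain ⟨y, hy, rfl⟩ := hx
    have h2 := h1 hy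
    rw [← θ_ker, MonoidHom.mem_ker] at h2
    rw [h2]; exact one_mem _
  · rintro _ ⟨a, ha, rfl⟩
    have h2 := hA.2.2 a ha
    rw [← θ_ker, MonoidHom.mem_ker, map_pow] at h2
    rw [h2]; exact one_mem _

/-- the `p`-core of a normal subgroup of `G` modulo the kernel -/
theorem opTriv_map (hO : pCore p (G ⧸ centralizer (V : Set G)) = ⊥) (X : Subgroup G) [hX : X.Normal] : OpTriv p (X.map (θ V)) := by
  -- first the whole image
  have h1 : OpTriv p ((⊤ : Subgroup G).map (θ V)) := by
    intro N hN hNn hNp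
    have hM : (N.comap (θ V)).Normal := by
      refine ⟨fun x hx g => ?_⟩
      change θ V (g * x * g⁻¹) ∈ N
      rw [map_mul, map_mul, map_inv]
      exact (mem_normalizer_iff.1 (hNn ⟨g, trivial, rfl⟩) _).1 hx
    have hle : (N.comap (θ V)).map (QuotientGroup.mk' (centralizer (V : Set G))) ≤ pCore p (G ⧸ centralizer (V : Set G)) := by
      haveI := hM.map (QuotientGroup.mk' (centralizer (V : Set G))) (QuotientGroup.mk'_surjective _)
      apply Cfsg.Agent.H11.Cores.le_pCore
      rintro ⟨_, x, hx, rfl⟩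
      obtain ⟨k, hk⟩ := hNp ⟨θ V x, hx⟩
      refine ⟨k, Subtype.ext ?_⟩
      have h2 : θ V (x ^ p ^ k) = 1 := by rw [map_pow]; exact congrArg Subtype.val hk
      rw [← MonoidHom.mem_ker, θ_ker] at h2
      change (QuotientGroup.mk' (centralizer (V : Set G)) x) ^ p ^ k = 1
      rw [← map_pow]
      exact (QuotientGroup.eq_one_iff _).2 h2
    rw [hO, le_bot_iff] at hle
    rw [eq_bot_iff]
    intro y hy
    obtain ⟨g, -, rfl⟩ := hN hy
    have h3 : QuotientGroup.mk' (centralizer (V : Set G)) g ∈ (⊥ : Subgroup (G ⧸ centralizer (V : Set G))) := by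
      rw [← hle]; exact ⟨g, hy, rfl⟩
    rw [mem_bot] at h3
    have h4 : g ∈ centralizer (V : Set G) := (QuotientGroup.eq_one_iff g).1 h3
    rw [← θ_ker, MonoidHom.mem_ker] at h4
    rw [mem_bot]; exact h4
  apply h1.subnormal (map_mono le_top)
  apply Subgroup.Normal.isSubnormal
  rw [normal_subgroupOf_iff_le_normalizer (map_mono le_top)]
  rintro _ ⟨g, -, rfl⟩
  apply mem_normalizer_fintype
  rintro _ ⟨x, hx, rfl⟩
  rw [← map_mul, ← map_inv, ← map_mul]
  exact ⟨_, hX.conj_mem _ hx _, rfl⟩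

/-- the set-up -/
theorem setup (hV : IsElementaryAbelian p V) (hsep : IsPSolvable p G) (hO : pCore p (G ⧸ centralizer (V : Set G)) = ⊥)
    (X : Subgroup G) [hX : X.Normal] : Setup p (VV V) (X.map (θ V)) := by
  refine ⟨VV_ea V hV, map_le_normalizer V X, map_inf_centralizer V X, ?_⟩
  apply Cfsg.Agent.H26.HH.centralizer_pPrimeCore_le
  · exact Cfsg.Agent.H22.PSolv.isPSolvable_of_surjective ((θ V).subgroupMap X) ((θ V).subgroupMap_surjective X)
      (Cfsg.Agent.H22.PSolv.isPSolvable_subgroup X hsep)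
  · exact pCore_of_opTriv (opTriv_map V hO X)

theorem gen_of_sup {V H : Subgroup G} (S : Setup p V H) {ι' : Type*} (f : ι' → Subgroup G) (hf : ∀ i, f i ≤ H)
    (ho : ∀ i, IsBestOffenderOn p V (f i)) (hH : H ≤ ⨆ i, f i) : Setup.Gen p V H := by
  refine hH.trans (iSup_le fun i => ?_)
  refine (S.gen_min _ (f i) le_rfl (hf i) (ho i)).trans (iSup_le ?_)
  rintro ⟨B, hBA, hB⟩
  have h1 := (S.min_iff (hBA.trans (hf i))).1 hB
  exact le_iSup_of_le (⟨B, hBA.trans (hf i), h1.1, h1.2⟩ : {B : Subgroup G // Setup.MinIn p V H B}) le_rfl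

theorem thompson_gen (hV : IsElementaryAbelian p V) [_hJ : (thompsonSubgroup p G).Normal]
    (S : Setup p (VV V) ((thompsonSubgroup p G).map (θ V))) :
    Setup.Gen p (VV V) ((thompsonSubgroup p G).map (θ V)) := by
  apply gen_of_sup S (fun A : {A : Subgroup G // A ∈ maxElementaryAbelianSubgroups p G} => (A : Subgroup G).map (θ V))
  · rintro ⟨A, hA⟩
    exact map_mono (le_sSup hA)
  · rintro ⟨A, hA⟩
    exact off_map V (Cfsg.Agent.S0606.result V hV A hA)
  · rw [map_le_iff_le_comap, thompsonSubgroup]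
    apply sSup_le
    intro A hA
    rw [← map_le_iff_le_comap]
    exact le_iSup_of_le (⟨A, hA⟩ : {A : Subgroup G // A ∈ maxElementaryAbelianSubgroups p G}) le_rfl

/-- pulling back a subgroup of the image isomorphic to `K` -/
theorem pullback {X : Subgroup G} {E' : Subgroup (Hol V)} (hE : E' ≤ X.map (θ V))
    (hn : X.map (θ V) ≤ normalizer (E' : Set (Hol V))) {K : Type*} [Group K] (hK : Nonempty (E' ≃* K)) :
    centralizer (V : Set G) ≤ E'.comap (θ V) ∧ E'.comap (θ V) ≤ X ⊔ centralizer (V : Set G) ∧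
      X ⊔ centralizer (V : Set G) ≤ normalizer ((E'.comap (θ V) : Subgroup G) : Set G) ∧
      ∃ _hn : ((centralizer (V : Set G)).subgroupOf (E'.comap (θ V))).Normal,
        Nonempty ((E'.comap (θ V) ⧸ (centralizer (V : Set G)).subgroupOf (E'.comap (θ V))) ≃* K) := by
  have hC : centralizer (V : Set G) ≤ E'.comap (θ V) := by
    rw [← θ_ker]; exact (θ V).ker_le_comap E'
  refine ⟨hC, ?_, ?_, ?_⟩
  · intro x hx
    obtain ⟨j, hj, hjx⟩ := hE hx
    have h1 : j⁻¹ * x ∈ centralizer (V : Set G) := by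
      rw [← θ_ker, MonoidHom.mem_ker, map_mul, map_inv, hjx, inv_mul_cancel]
    have h2 : x = j * (j⁻¹ * x) := by group
    rw [h2]
    exact mul_mem ((le_sup_left : X ≤ _) hj) ((le_sup_right : centralizer (V : Set G) ≤ _) h1)
  · apply sup_le _ (hC.trans le_normalizer)
    intro x hx
    apply mem_normalizer_fintype
    intro y hy
    change θ V (x * y * x⁻¹) ∈ E'
    rw [map_mul, map_mul, map_inv]
    exact (mem_normalizer_iff.1 (hn ⟨x, hx, rfl⟩) _).1 hy
  · have hker : ((θ V).subgroupComap E').ker = (centralizer (V : Set G)).subgroupOf (E'.comap (θ V)) := by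
      ext x
      rw [MonoidHom.mem_ker, mem_subgroupOf, ← θ_ker, MonoidHom.mem_ker]
      constructor
      · intro h; exact congrArg Subtype.val h
      · intro h; exact Subtype.ext h
    have hsurj : Function.Surjective ((θ V).subgroupComap E') := by
      rintro ⟨y, hy⟩
      obtain ⟨x, -, rfl⟩ := hE hy
      exact ⟨⟨x, hy⟩, rfl⟩
    have hnn : ((centralizer (V : Set G)).subgroupOf (E'.comap (θ V))).Normal := by rw [← hker]; infer_instance
    refine ⟨hnn, ?_⟩
    obtain ⟨e⟩ := hK
    exact ⟨(QuotientGroup.quotientMulEquivOfEq hker.symm).trans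
      ((QuotientGroup.quotientKerEquivOfSurjective _ hsurj).trans e)⟩

theorem fail (hsep : IsPSolvable p G) (hV : IsElementaryAbelian p V) (hO : pCore p (G ⧸ centralizer (V : Set G)) = ⊥)
    [hJ : (thompsonSubgroup p G).Normal] (hne : ¬ thompsonSubgroup p G ≤ centralizer (V : Set G)) :
    (p = 2 ∨ p = 3) ∧ ∃ A, Setup.MinIn p (VV V) ((thompsonSubgroup p G).map (θ V)) A := by
  have S := setup V hV hsep hO (thompsonSubgroup p G)
  have hG := thompson_gen V hV S
  have h1 : (thompsonSubgroup p G).map (θ V) ≠ ⊥ := by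
    intro h
    apply hne
    rw [← θ_ker]
    exact (Subgroup.map_eq_bot_iff _).1 h
  obtain ⟨A, hA⟩ := S.exists_min hG h1
  exact ⟨(S.comp hA).small, A, hA⟩

end Cfsg.Agent.H2.FFA
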