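import Mathlib
import Cfsg.Agent.H2_FFA
import Cfsg.Agent.H2_Thompson

/-! Failure of factorization XI: `Ω₁(Z(J(C)))`. -/

set_option autoImplicit false
set_option linter.style.haveILetI false
set_option linter.unusedSectionVars false

open Subgroup Cfsg
open scoped commutatorElement Pointwise

namespace Cfsg.Agent.H2.FFA

open Cfsg.Agent.H2.Basic Cfsg.Agent.H2.Quad Cfsg.Agent.H2.Replace Cfsg.Agent.H2.FF Cfsg.Agent.H2.ThompFact
  Cfsg.Agent.H2.Thompson

variable {G : Type*} [Group G] [Finite G] {p : ℕ} [hp : Fact p.Prime] (V : Subgroup G) [hVn : V.Normal]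

/-- the extremal equality for elements of `𝒜(G)` -/
theorem card_eq (hsep : IsPSolvable p G) (hV : IsElementaryAbelian p V) (hO : pCore p (G ⧸ centralizer (V : Set G)) = ⊥)
    {A : Subgroup G} (hA : A ∈ maxElementaryAbelianSubgroups p G) :
    Nat.card A * Nat.card (CV V A) = Nat.card V * Nat.card (A ⊓ centralizer (V : Set G) : Subgroup G) := by
  have S := setup V hV hsep hO (⊤ : Subgroup G)
  have h1 := (S.off_iff (map_mono le_top)).1 (off_map V (Cfsg.Agent.S0606.result V hV A hA))
  rw [card_CV, card_VV] at h1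
  have h2 := card_map V A
  calc Nat.card A * Nat.card (CV V A) = (Nat.card (A.map (θ V)) * Nat.card (CV V A)) *
      Nat.card (A ⊓ centralizer (V : Set G) : Subgroup G) := by rw [← h2]; ring
    _ = _ := by rw [h1.2]

/-- `C_V(A) ≤ A` for `A ∈ 𝒜(G)` -/
theorem CV_le (hV : IsElementaryAbelian p V) {A : Subgroup G} (hA : A ∈ maxElementaryAbelianSubgroups p G) : CV V A ≤ A := by
  have h1 : IsElementaryAbelian p (A ⊔ CV V A : Subgroup G) :=
    ea_sup hA.1 (ea_of_le hV inf_le_left) inf_le_right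
  have h2 := eq_of_le_of_max hA h1 le_sup_left
  calc CV V A ≤ A ⊔ CV V A := le_sup_right
    _ = A := h2.symm

/-- `C_A(V) V ∈ 𝒜(G)` -/
theorem max_replace (hsep : IsPSolvable p G) (hV : IsElementaryAbelian p V) (hO : pCore p (G ⧸ centralizer (V : Set G)) = ⊥)
    {A : Subgroup G} (hA : A ∈ maxElementaryAbelianSubgroups p G) :
    (A ⊓ centralizer (V : Set G)) ⊔ V ∈ maxElementaryAbelianSubgroups p G := by
  have hea : IsElementaryAbelian p ((A ⊓ centralizer (V : Set G)) ⊔ V : Subgroup G) := by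
    apply ea_sup (ea_of_le hA.1 inf_le_left) hV
    rw [le_centralizer_iff]; exact inf_le_right
  refine ⟨hea, fun B hB => (hA.2 B hB).trans ?_⟩
  have h1 := Cfsg.Agent.H2.Card.card_sup_mul_card_inf (H := A ⊓ centralizer (V : Set G)) (N := V)
    (by rw [Subgroup.normalizer_eq_top]; exact le_top)
  have h2 : (A ⊓ centralizer (V : Set G)) ⊓ V = CV V A := by
    apply le_antisymm
    · exact le_inf inf_le_right ((inf_le_left.trans inf_le_left).trans (ea_le_centralizer hA.1))
    · exact le_inf (le_inf (CV_le V hV hA) (inf_le_left.trans (ea_le_centralizer hV))) inf_le_left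
  have h3 := card_eq V hsep hV hO hA
  rw [h2, mul_comm (Nat.card (A ⊓ centralizer (V : Set G) : Subgroup G)), ← h3] at h1
  have h4 : 0 < Nat.card (CV V A) := Nat.card_pos
  exact (Nat.eq_of_mul_eq_mul_right h4 h1).ge

theorem omega_comm (hsep : IsPSolvable p G) (hV : IsElementaryAbelian p V)
    (hO : pCore p (G ⧸ centralizer (V : Set G)) = ⊥) :
    ⁅omegaOne p (centerThompsonOf p (centralizer (V : Set G))), thompsonSubgroup p G⁆ ≤ V := by
  set C : Subgroup G := centralizer (V : Set G) with hC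
  set J : Subgroup G := thompsonSubgroupOf p C with hJ
  have hcomm : ∀ x ∈ centerThompsonOf p C, ∀ y ∈ centerThompsonOf p C, x * y = y * x := comm_center J
  set W : Subgroup G := omegaOne p (centerThompsonOf p C) with hW
  have hWn : ∀ g : G, MulAut.conj g • W = W := by
    intro g
    have hCn : MulAut.conj g • C = C := by
      rw [hC, ← centralizer_conj]
      have : MulAut.conj g • V = V := (Cfsg.Agent.H1.Basic.conj_eq_iff_mem_normalizer).2 (by
        rw [Subgroup.normalizer_eq_top]; trivial)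
      rw [this]
    have hJn : MulAut.conj g • J = J := by rw [hJ, ← thompsonOf_conj, hCn]
    rw [hW, ← omegaOne_conj]
    congr 1
    change MulAut.conj g • (J ⊓ centralizer (J : Set G)) = J ⊓ centralizer (J : Set G)
    rw [conj_inf, ← centralizer_conj, hJn]
  have hWJ : W ≤ centralizer (J : Set G) := (omegaOne_le _).trans inf_le_right
  have hWJ' : W ≤ J := (omegaOne_le _).trans inf_le_left
  have hWea : IsElementaryAbelian p W := omegaOne_ea hcomm
  have hJC : J ≤ C := thompsonOf_le C
  -- elementary abelian subgroups of `C` of largest order lie in `J`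
  have hmaxJ : ∀ B ∈ maxElementaryAbelianSubgroups p G, B ≤ C → B ≤ J := by
    intro B hB hBC
    have h1 := mem_max_subgroupOf hBC hB.1 (fun D _ hD => hB.2 D hD)
    have h2 := le_thompson h1
    intro b hb
    exact ⟨⟨b, hBC hb⟩, h2 hb, rfl⟩
  have hle : thompsonSubgroup p G ≤ actOn W V := by
    apply sSup_le
    intro A hA a ha
    refine ⟨by rw [Subgroup.normalizer_eq_top]; trivial, (Cfsg.Agent.H1.Basic.conj_eq_iff_mem_normalizer).1 (hWn a), ?_⟩
    intro w hw
    -- `W ≤ C_A(V) V`
    have hB := max_replace V hsep hV hO hA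
    have hBC : (A ⊓ centralizer (V : Set G)) ⊔ V ≤ C := sup_le inf_le_right (ea_le_centralizer hV)
    have hBJ := hmaxJ _ hB hBC
    have hWB : W ≤ centralizer (((A ⊓ centralizer (V : Set G)) ⊔ V : Subgroup G) : Set G) :=
      hWJ.trans (Subgroup.centralizer_le hBJ)
    have h3 : IsElementaryAbelian p (((A ⊓ centralizer (V : Set G)) ⊔ V) ⊔ W : Subgroup G) := ea_sup hB.1 hWea hWB
    have h4 := eq_of_le_of_max hB h3 le_sup_left
    have hw' : w ∈ (A ⊓ centralizer (V : Set G)) ⊔ V := h4.ge ((le_sup_right : W ≤ _) hw)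
    rw [Cfsg.Agent.H2.Card.mem_sup_iff (by rw [Subgroup.normalizer_eq_top]; exact le_top)] at hw'
    obtain ⟨b, hb, v, hv, rfl⟩ := hw'
    have hba : b * a = a * b := comm_of_ea hA.1 hb.1 ha
    have e : ⁅b * v, a⁆ = b * ⁅v, a⁆ * b⁻¹ := by
      have h5 : a * b⁻¹ = b⁻¹ * a := by
        rw [eq_inv_mul_iff_mul_eq, ← mul_assoc, hba, mul_inv_cancel_right]
      simp only [commutatorElement_def]
      calc b * v * a * (b * v)⁻¹ * a⁻¹ = b * (v * a * v⁻¹) * (b⁻¹ * a⁻¹) := by group
        _ = b * (v * a * v⁻¹) * (a⁻¹ * (a * b⁻¹) * a⁻¹) := by group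
        _ = b * (v * a * v⁻¹) * (a⁻¹ * (b⁻¹ * a) * a⁻¹) := by rw [h5]
        _ = _ := by group
    rw [e]
    apply hVn.conj_mem
    rw [commutatorElement_def]
    have h6 := hVn.conj_mem _ (V.inv_mem hv) a
    have h7 : v * a * v⁻¹ * a⁻¹ = v * (a * v⁻¹ * a⁻¹) := by group
    rw [h7]; exact V.mul_mem hv h6
  exact comm_le_of_le_actOn hle

end Cfsg.Agent.H2.FFA
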