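import Mathlib
import Cfsg.Agent.H2_FFB
import Cfsg.Agent.H18_QPair4

/-! Failure of factorization XII: coprime operators. -/

set_option autoImplicit false
set_option linter.style.haveILetI false
set_option linter.unusedSectionVars false

open Subgroup Cfsg
open scoped commutatorElement

namespace Cfsg.Agent.H2.FFC

open Cfsg.Agent.H2.Basic Cfsg.Agent.H2.Quad Cfsg.Agent.H2.Replace Cfsg.Agent.H2.FF

/-- products over conjugates -/
theorem norm_lemma {Γ : Type*} [Group Γ] [Finite Γ] (X N M : Subgroup Γ) (e : Γ)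
    (hcomm : ∀ x ∈ X, ∀ y ∈ X, (x * e * x⁻¹) * (y * e * y⁻¹) = (y * e * y⁻¹) * (x * e * x⁻¹))
    (h1 : ∀ x ∈ X, x ∈ N → x * e * x⁻¹ = e) (h2 : ∀ x ∈ X, x ∉ N → x * e * x⁻¹ ∈ M)
    (hcop : (Nat.card (X ⊓ N : Subgroup Γ)).Coprime (orderOf e)) :
    ∃ d ∈ closure {y | ∃ x ∈ X, y = x * e * x⁻¹}, d ∈ centralizer (X : Set Γ) ∧ ∃ c ∈ M, d = e * c := by
  classical
  obtain ⟨m, hm⟩ := exists_pow_eq_self_of_coprime (x := e) (n := Nat.card (X ⊓ N : Subgroup Γ)) hcop
  set T : Set Γ := {y | ∃ x ∈ X, y = x * e * x⁻¹} with hT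
  have hTc : ∀ x ∈ T, ∀ y ∈ T, x * y = y * x := by
    rintro _ ⟨x, hx, rfl⟩ _ ⟨y, hy, rfl⟩
    exact hcomm x hx y hy
  letI : CommGroup (closure T) :=
    { (inferInstance : Group (closure T)) with mul_comm := (isMulCommutative_closure hTc).is_comm.comm }
  haveI : Fintype X := Fintype.ofFinite X
  have hmem : ∀ x ∈ X, x * e * x⁻¹ ∈ closure T := fun x hx => subset_closure ⟨x, hx, rfl⟩
  have hmem' : ∀ x ∈ X, x * e ^ m * x⁻¹ ∈ closure T := fun x hx => by
    rw [← conj_pow]; exact pow_mem (hmem x hx) m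
  let f : X → closure T := fun x => ⟨(x : Γ) * e ^ m * (x : Γ)⁻¹, hmem' x x.2⟩
  refine ⟨((∏ x : X, f x : closure T) : Γ), (∏ x : X, f x : closure T).2, ?_, ?_⟩
  · rw [mem_centralizer_iff]
    intro y hy
    have hinv : ∀ b ∈ closure T, y * b * y⁻¹ ∈ closure T := by
      intro b hb
      have h3 : closure T ≤ (closure T).comap (MulAut.conj y).toMonoidHom := by
        rw [closure_le]
        rintro _ ⟨x, hx, rfl⟩
        change y * (x * e * x⁻¹) * y⁻¹ ∈ closure T
        have : y * (x * e * x⁻¹) * y⁻¹ = (y * x) * e * (y * x)⁻¹ := by group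
        rw [this]
        exact hmem _ (mul_mem hy hx)
      exact h3 hb
    let ψ : closure T →* closure T :=
      { toFun := fun b => ⟨y * b * y⁻¹, hinv b b.2⟩
        map_one' := by apply Subtype.ext; change y * 1 * y⁻¹ = 1; group
        map_mul' := fun a b => by
          apply Subtype.ext
          change y * ((a : Γ) * b) * y⁻¹ = (y * a * y⁻¹) * (y * b * y⁻¹)
          group }
    have h3 : ψ (∏ x : X, f x) = ∏ x : X, f x := by
      rw [map_prod, ← Equiv.prod_comp (Equiv.mulLeft (⟨y, hy⟩ : X)) f]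
      apply Finset.prod_congr rfl
      intro x _
      apply Subtype.ext
      change y * ((x : Γ) * e ^ m * (x : Γ)⁻¹) * y⁻¹ = (y * x) * e ^ m * (y * x)⁻¹
      group
    have h4 : y * ((∏ x : X, f x : closure T) : Γ) * y⁻¹ = ((∏ x : X, f x : closure T) : Γ) := congrArg Subtype.val h3
    exact mul_inv_eq_iff_eq_mul.1 h4
  · rw [← Finset.prod_filter_mul_prod_filter_not Finset.univ (fun x : X => (x : Γ) ∈ N) f]
    have h3 : ∏ x ∈ Finset.univ.filter (fun x : X => (x : Γ) ∈ N), f x = ⟨e, by simpa using hmem 1 (one_mem X)⟩ := by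
      have h4 : ∀ x ∈ Finset.univ.filter (fun x : X => (x : Γ) ∈ N), f x = ⟨e ^ m, by simpa using hmem' 1 (one_mem X)⟩ := by
        intro x hx
        apply Subtype.ext
        change (x : Γ) * e ^ m * (x : Γ)⁻¹ = e ^ m
        rw [← conj_pow, h1 x x.2 (Finset.mem_filter.1 hx).2]
      rw [Finset.prod_congr rfl h4, Finset.prod_const]
      apply Subtype.ext
      change (e ^ m) ^ (Finset.univ.filter (fun x : X => (x : Γ) ∈ N)).card = e
      have h5 : (Finset.univ.filter (fun x : X => (x : Γ) ∈ N)).card = Nat.card (X ⊓ N : Subgroup Γ) := by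
        rw [← Cfsg.Agent.H2.Card.card_subgroupOf_of_le (inf_le_left : X ⊓ N ≤ X), ← Fintype.card_subtype,
          ← Nat.card_eq_fintype_card]
        apply Nat.card_congr
        exact Equiv.subtypeEquivRight fun x => ⟨fun h => mem_subgroupOf.2 ⟨x.2, h⟩, fun h => (mem_subgroupOf.1 h).2⟩
      rw [h5, ← pow_mul, mul_comm, pow_mul]
      exact hm
    have h4 : ((∏ x ∈ Finset.univ.filter (fun x : X => ¬ (x : Γ) ∈ N), f x : closure T) : Γ) ∈ M := by
      have h5 : ∏ x ∈ Finset.univ.filter (fun x : X => ¬ (x : Γ) ∈ N), f x ∈ M.subgroupOf (closure T) := by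
        apply Subgroup.prod_mem
        intro x hx
        rw [mem_subgroupOf]
        change (x : Γ) * e ^ m * (x : Γ)⁻¹ ∈ M
        rw [← conj_pow]
        exact pow_mem (h2 x x.2 (Finset.mem_filter.1 hx).2) m
      exact h5
    exact ⟨_, h4, by rw [h3]; rfl⟩

/-- a `q`-element (`q ≥ 5`) normalizing a plane over `F_2` or `F_3` centralizes it -/
theorem cent_plane {Γ : Type*} [Group Γ] [Finite Γ] {p q : ℕ} [hp : Fact p.Prime] [hq : Fact q.Prime] (hp23 : p = 2 ∨ p = 3)
    (hq2 : q ≠ 2) (hq3 : q ≠ 3) {W : Subgroup Γ} (hW : Nat.card W = p ^ 2) {x : Γ} (hx : x ∈ normalizer (W : Set Γ))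
    (hxq : x ^ q = 1) : x ∈ centralizer (W : Set Γ) := by
  have hz : zpowers x ≤ normalizer (W : Set Γ) := by rwa [zpowers_le]
  letI : MulAction (zpowers x) W := MulAction.compHom W (Cfsg.Agent.H18.QPair.conjAut W (zpowers x) hz)
  have hsm : ∀ (y : zpowers x) (w : W), ((y • w : W) : Γ) = y * w * (y : Γ)⁻¹ := fun y w => rfl
  have hP : IsPGroup q (zpowers x) := by
    intro y
    refine ⟨1, Subtype.ext ?_⟩
    obtain ⟨k, hk⟩ := y.2
    have hk' : x ^ k = (y : Γ) := hk
    change (y : Γ) ^ q ^ 1 = 1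
    rw [pow_one, ← hk', ← zpow_natCast, ← zpow_mul, mul_comm, zpow_mul, zpow_natCast, hxq, one_zpow]
  have h1 := hP.card_modEq_card_fixedPoints W
  have h2 : Nat.card (MulAction.fixedPoints (zpowers x) W) = Nat.card (W ⊓ centralizer (zpowers x : Set Γ) : Subgroup Γ) := by
    rw [← Cfsg.Agent.H2.Card.card_subgroupOf_of_le (inf_le_left : W ⊓ centralizer (zpowers x : Set Γ) ≤ W)]
    apply Nat.card_congr
    refine Equiv.subtypeEquivRight fun w => ?_
    rw [MulAction.mem_fixedPoints]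
    constructor
    · intro h
      refine mem_subgroupOf.2 (mem_inf.2 ⟨w.2, mem_centralizer_iff.2 fun y hy => ?_⟩)
      have h3 := congrArg Subtype.val (h ⟨y, hy⟩)
      rw [hsm] at h3
      exact mul_inv_eq_iff_eq_mul.1 h3
    · intro h y
      have h3 := mem_centralizer_iff.1 (mem_subgroupOf.1 h).2 y y.2
      apply Subtype.ext
      rw [hsm, h3, mul_inv_cancel_right]
  rw [h2, hW] at h1
  have hdvd : Nat.card (W ⊓ centralizer (zpowers x : Set Γ) : Subgroup Γ) ∣ p ^ 2 := by
    rw [← hW]; exact card_dvd_of_le inf_le_left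
  obtain ⟨k, hk, hkc⟩ := (Nat.dvd_prime_pow hp.out).1 hdvd
  have hk2 : k = 2 := by
    rw [hkc] at h1
    have h3 := (Nat.modEq_iff_dvd' (Nat.pow_le_pow_right hp.out.pos hk)).1 h1.symm
    have hq5 : 5 ≤ q := by
      have := hq.out.two_le
      have h4 : q ≠ 4 := by rintro rfl; exact absurd hq.out (by norm_num)
      omega
    by_contra hk2
    have hk3 : k = 0 ∨ k = 1 := by omega
    have hbad : ∀ n : ℕ, 0 < n → q ∣ n → n < 5 → False := by
      intro n hn hd hlt
      have := Nat.le_of_dvd hn hd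
      omega
    rcases hp23 with rfl | rfl
    · rcases hk3 with rfl | rfl
      · exact hbad 3 (by norm_num) (by simpa using h3) (by norm_num)
      · exact hbad 2 (by norm_num) (by simpa using h3) (by norm_num)
    · rcases hk3 with rfl | rfl
      · have h5 : q ∣ 2 ^ 3 := by simpa using h3
        have h6 := (Nat.prime_dvd_prime_iff_eq hq.out Nat.prime_two).1 (hq.out.dvd_of_dvd_pow h5)
        exact hq2 h6
      · have h5 : q ∣ 2 * 3 := by simpa using h3
        rcases (hq.out.dvd_mul).1 h5 with h6 | h6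
        · exact hq2 ((Nat.prime_dvd_prime_iff_eq hq.out Nat.prime_two).1 h6)
        · exact hq3 ((Nat.prime_dvd_prime_iff_eq hq.out Nat.prime_three).1 h6)
  have h4 := Cfsg.Agent.H2.Card.eq_of_le_of_card_eq (inf_le_left : W ⊓ centralizer (zpowers x : Set Γ) ≤ W) (by
    rw [hkc, hk2, hW])
  have h5 : W ≤ centralizer (zpowers x : Set Γ) := inf_eq_left.1 h4
  rw [le_centralizer_iff, zpowers_le] at h5
  exact h5

end Cfsg.Agent.H2.FFC
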