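import Mathlib
import Cfsg.Agent.H2_FFC

/-! Failure of factorization XIII: coprime operators on the components. -/

set_option autoImplicit false
set_option linter.style.haveILetI false
set_option linter.unusedSectionVars false

open Subgroup Cfsg
open scoped commutatorElement

namespace Cfsg.Agent.H2.FFC

open Cfsg.Agent.H2.Basic Cfsg.Agent.H2.Quad Cfsg.Agent.H2.Replace Cfsg.Agent.H2.FF Cfsg.Agent.H2.FF.Setup

variable {Γ : Type*} [Group Γ] [Finite Γ] {p : ℕ} [hp : Fact p.Prime] {V H X : Subgroup Γ}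

theorem le_QQ {N : Subgroup Γ} (hNH : N ≤ H) (hHN : H ≤ normalizer (N : Set Γ)) (hc : (Nat.card N).Coprime p) :
    N ≤ QQ p H := by
  haveI : (N.subgroupOf H).Normal := (normal_subgroupOf_iff_le_normalizer hNH).2 hHN
  have h1 : N.subgroupOf H ≤ pPrimeCore p H := by
    apply Cfsg.Agent.H11.Cores.le_pPrimeCore
    rw [Cfsg.Agent.H2.Card.card_subgroupOf_of_le hNH]; exact hc
  intro x hx
  exact ⟨⟨x, hNH hx⟩, h1 hx, rfl⟩

theorem cj_QQ {x : Γ} (hx : x ∈ normalizer (H : Set Γ)) : cj x (QQ p H) = QQ p H := by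
  have key : ∀ y ∈ normalizer (H : Set Γ), cj y (QQ p H) ≤ QQ p H := by
    intro y hy
    have h1 : cj y (QQ p H) ≤ H := by
      have := cj_mono (g := y) (QQ_le (p := p) (H := H))
      rwa [cj_eq_iff.2 hy] at this
    apply le_QQ h1
    · have := cj_normalizer (g := y) (le_normalizer_QQ (p := p) (H := H))
      rwa [cj_eq_iff.2 hy] at this
    · rw [card_cj]; exact QQ_coprime
  apply le_antisymm (key x hx)
  have h2 := cj_mono (g := x) (key x⁻¹ (inv_mem hx))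
  rwa [cj_cj_inv] at h2

/-- operators on the set-up -/
structure Op (p q : ℕ) (V H X : Subgroup Γ) : Prop where
  oS : Setup p V H
  oG : Gen p V H
  oV : X ≤ normalizer (V : Set Γ)
  oH : X ≤ normalizer (H : Set Γ)
  oq : ∀ x ∈ X, x ^ q = 1
  nd : ¬ q ∣ Nat.card H

variable {q : ℕ} [hq : Fact q.Prime] {A B : Subgroup Γ}

theorem Op.cj_min (O : Op p q V H X) (hA : MinIn p V H A) {x : Γ} (hx : x ∈ X) : MinIn p V H (cj x A) := by
  refine ⟨?_, by rw [card_cj]; exact hA.card, ?_⟩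
  · have := cj_mono (g := x) hA.le
    rwa [cj_eq_iff.2 (O.oH hx)] at this
  · rw [CV_map (O.oV hx)]
    change p * Nat.card (cj x (CV V A)) = _
    rw [card_cj]; exact hA.fix

theorem Op.cj_KA (O : Op p q V H X) {x : Γ} (hx : x ∈ X) : cj x (KA p H A) = KA p H (cj x A) := by
  have : cj x (NA p H A ⊔ A) = cj x (NA p H A) ⊔ cj x A := map_sup _ _ _
  rw [KA, this, NA, cj_comm, cj_QQ (O.oH hx)]

theorem Op.cj_W (O : Op p q V H X) {x : Γ} (hx : x ∈ X) : cj x ⁅V, KA p H A⁆ = ⁅V, KA p H (cj x A)⁆ := by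
  rw [← cj_V (O.oV hx), O.cj_KA hx]

theorem Op.q_ne (O : Op p q V H X) (hA : MinIn p V H A) : q ≠ 2 ∧ q ≠ 3 := by
  obtain ⟨φ⟩ := (O.oS.comp hA).sl2
  have h3 : Nat.card (Matrix.SpecialLinearGroup (Fin 2) (ZMod p)) = Nat.card (KA p H A) := (Nat.card_congr φ.toEquiv).symm
  have h4 : p * (p - 1) * (p + 1) = Nat.card (KA p H A) := card_sl.symm.trans h3
  have h5 : Nat.card (KA p H A) ∣ Nat.card H := card_dvd_of_le (KA_le hA.le)
  rw [← h4] at h5
  have h6 : 6 ∣ Nat.card H := by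
    refine dvd_trans ?_ h5
    rcases (O.oS.comp hA).small with rfl | rfl <;> norm_num
  constructor
  · rintro rfl; exact O.nd (dvd_trans (by norm_num) h6)
  · rintro rfl; exact O.nd (dvd_trans (by norm_num) h6)

theorem Op.cent_W (O : Op p q V H X) (hA : MinIn p V H A) {x : Γ} (hx : x ∈ X) (hxN : x ∈ normalizer (KA p H A : Set Γ)) :
    x ∈ centralizer ((⁅V, KA p H A⁆ : Subgroup Γ) : Set Γ) := by
  have h1 := O.q_ne hA
  apply cent_plane (O.oS.comp hA).small h1.1 h1.2 (O.oS.comp hA).card _ (O.oq x hx)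
  rw [← cj_eq_iff, ← cj_V (O.oV hx), cj_eq_iff.2 hxN]

theorem Op.cent_K (O : Op p q V H X) (hA : MinIn p V H A) {x : Γ} (hx : x ∈ X) (hxN : x ∈ normalizer (KA p H A : Set Γ))
    {e : Γ} (he : e ∈ KA p H A) : x * e * x⁻¹ = e := by
  have hxW := O.cent_W hA hx hxN
  have hKV : KA p H A ≤ normalizer (V : Set Γ) := (KA_le hA.le).trans O.oS.hHV
  have hWV : ⁅V, KA p H A⁆ ≤ V := commutator_le_left_of_normalizes hKV
  have hKW : KA p H A ≤ normalizer ((⁅V, KA p H A⁆ : Subgroup Γ) : Set Γ) := normalizes_of_comm_le O.oS.hV hWV le_rfl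
  have h1 : x * e * x⁻¹ * e⁻¹ ∈ KA p H A ⊓ centralizer ((⁅V, KA p H A⁆ : Subgroup Γ) : Set Γ) := by
    refine mem_inf.2 ⟨mul_mem ((mem_normalizer_iff.1 hxN e).1 he) (inv_mem he), mem_centralizer_iff.2 ?_⟩
    intro w hw
    have c1 : ∀ w ∈ ⁅V, KA p H A⁆, w * x = x * w := fun w hw => mem_centralizer_iff.1 hxW w hw
    have hw2 : e⁻¹ * w * e ∈ ⁅V, KA p H A⁆ := by
      have := (mem_normalizer_iff.1 (inv_mem (hKW he)) w).1 hw
      rwa [inv_inv] at this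
    have d1 := c1 w hw
    have d2 := c1 _ hw2
    have d3 : w * e = e * (e⁻¹ * w * e) := by group
    have d4 : (e⁻¹ * w * e) * x⁻¹ = x⁻¹ * (e⁻¹ * w * e) := by
      rw [eq_inv_mul_iff_mul_eq, ← mul_assoc, ← d2, mul_inv_cancel_right]
    calc w * (x * e * x⁻¹ * e⁻¹) = (w * x) * e * x⁻¹ * e⁻¹ := by group
      _ = x * (w * e) * x⁻¹ * e⁻¹ := by rw [d1]; group
      _ = x * e * ((e⁻¹ * w * e) * x⁻¹) * e⁻¹ := by rw [d3]; group
      _ = x * e * x⁻¹ * e⁻¹ * w := by rw [d4]; group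
  rw [(O.oS.comp hA).faithful, mem_bot, mul_inv_eq_one] at h1
  exact h1

/-- a component moved by `x` -/
theorem Op.other (O : Op p q V H X) (hA : MinIn p V H A) {x : Γ} (hx : x ∈ X) (hxN : x ∉ normalizer (KA p H A : Set Γ)) :
    cj x (KA p H A) ≤ H ⊓ centralizer ((⁅V, KA p H A⁆ : Subgroup Γ) : Set Γ) ∧
      cj x ⁅V, KA p H A⁆ ≤ CV V (KA p H A) := by
  have hB := O.cj_min hA hx
  have hne : KA p H A ≠ KA p H (cj x A) := by
    rw [← O.cj_KA hx]
    intro h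
    exact hxN (cj_eq_iff.1 h.symm)
  rw [O.cj_KA hx, O.cj_W hx]
  refine ⟨le_inf (KA_le hB.le) (O.oS.KA_le_cent O.oG hA hB (O.oS.W_ne_of_KA_ne O.oG hA hB hne)), ?_⟩
  refine le_inf (commutator_le_left_of_normalizes ((KA_le hB.le).trans O.oS.hHV)) ?_
  rw [le_centralizer_iff]
  exact O.oS.KA_le_cent O.oG hB hA (O.oS.W_ne_of_KA_ne O.oG hB hA hne.symm)

theorem Op.coprime (O : Op p q V H X) {N : Subgroup Γ} {e : Γ} (he : e ∈ H) :
    (Nat.card (X ⊓ N : Subgroup Γ)).Coprime (orderOf e) := by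
  have h1 : IsPGroup q (X ⊓ N : Subgroup Γ) := fun x => ⟨1, by rw [pow_one]; exact Subtype.ext (O.oq x x.2.1)⟩
  obtain ⟨n, hn⟩ := IsPGroup.iff_card.1 h1
  rw [hn]
  apply Nat.Coprime.pow_left
  rw [Nat.Prime.coprime_iff_not_dvd hq.out]
  intro h
  exact O.nd (h.trans (Subgroup.orderOf_dvd_natCard H he))

/-- fixed points project onto the component -/
theorem Op.norm_E (O : Op p q V H X) (hA : MinIn p V H A) {e : Γ} (he : e ∈ KA p H A) :
    ∃ d ∈ H, d ∈ centralizer (X : Set Γ) ∧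
      ∃ c ∈ H ⊓ centralizer ((⁅V, KA p H A⁆ : Subgroup Γ) : Set Γ), d = e * c := by
  have heH := KA_le hA.le he
  have hcomm : ∀ z ∈ X, (z * e * z⁻¹) * e = e * (z * e * z⁻¹) := by
    intro z hz
    by_cases hzN : z ∈ normalizer (KA p H A : Set Γ)
    · rw [O.cent_K hA hz hzN he]
    · have h1 := (O.other hA hz hzN).1 (cj_mem he)
      have h2 := (O.oS.split O.oG hA).comm
      rw [commutator_comm, commutator_eq_bot_iff_le_centralizer] at h2
      exact (mem_centralizer_iff.1 (h2 h1) e he).symm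
  obtain ⟨d, hd, hdX, c, hc, hdc⟩ := norm_lemma X (normalizer (KA p H A : Set Γ))
    (H ⊓ centralizer ((⁅V, KA p H A⁆ : Subgroup Γ) : Set Γ)) e (by
      intro x hx y hy
      have h1 := hcomm (y⁻¹ * x) (mul_mem (inv_mem hy) hx)
      calc (x * e * x⁻¹) * (y * e * y⁻¹) = y * (((y⁻¹ * x) * e * (y⁻¹ * x)⁻¹) * e) * y⁻¹ := by group
        _ = y * (e * ((y⁻¹ * x) * e * (y⁻¹ * x)⁻¹)) * y⁻¹ := by rw [h1]
        _ = _ := by group) (fun x hx hxN => O.cent_K hA hx hxN he)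
    (fun x hx hxN => (O.other hA hx hxN).1 (cj_mem he)) (O.coprime heH)
  refine ⟨d, ?_, hdX, c, hc, hdc⟩
  rw [hdc]; exact mul_mem heH hc.1

theorem Op.norm_W (O : Op p q V H X) (hqp : q ≠ p) (hA : MinIn p V H A) {w : Γ} (hw : w ∈ ⁅V, KA p H A⁆) :
    ∃ d ∈ ⨆ x : X, cj (x : Γ) ⁅V, KA p H A⁆, d ∈ centralizer (X : Set Γ) ∧
      ∃ c ∈ CV V (KA p H A), d = w * c := by
  have hKV : KA p H A ≤ normalizer (V : Set Γ) := (KA_le hA.le).trans O.oS.hHV
  have hWV : ⁅V, KA p H A⁆ ≤ V := commutator_le_left_of_normalizes hKV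
  have hwV := hWV hw
  have hxV : ∀ x ∈ X, x * w * x⁻¹ ∈ V := fun x hx => (mem_normalizer_iff.1 (O.oV hx) w).1 hwV
  have hcop : (Nat.card (X ⊓ normalizer (KA p H A : Set Γ) : Subgroup Γ)).Coprime (orderOf w) := by
    have h1 : IsPGroup q (X ⊓ normalizer (KA p H A : Set Γ) : Subgroup Γ) := fun x => ⟨1, by
      rw [pow_one]; exact Subtype.ext (O.oq x x.2.1)⟩
    obtain ⟨n, hn⟩ := IsPGroup.iff_card.1 h1
    rw [hn]
    apply Nat.Coprime.pow_left
    exact Nat.Coprime.coprime_dvd_right (orderOf_dvd_of_pow_eq_one (O.oS.hV.2 w hwV)) ((Nat.coprime_primes hq.out hp.out).2 hqp)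
  obtain ⟨d, hd, hdX, c, hc, hdc⟩ := norm_lemma X (normalizer (KA p H A : Set Γ))
    (CV V (KA p H A)) w (by
      intro x hx y hy
      exact comm_of_ea O.oS.hV (hxV x hx) (hxV y hy))
    (fun x hx hxN => by
      have := mem_centralizer_iff.1 (O.cent_W hA hx hxN) w hw
      rw [← this, mul_inv_cancel_right])
    (fun x hx hxN => (O.other hA hx hxN).2 (cj_mem hw)) hcop
  refine ⟨d, ?_, hdX, c, hc, hdc⟩
  have hle : closure {y | ∃ x ∈ X, y = x * w * x⁻¹} ≤ ⨆ x : X, cj (x : Γ) ⁅V, KA p H A⁆ := by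
    rw [closure_le]
    rintro _ ⟨x, hx, rfl⟩
    exact (le_iSup (fun x : X => cj (x : Γ) ⁅V, KA p H A⁆) ⟨x, hx⟩) (cj_mem hw)
  exact hle hd

/-- the plane of fixed points -/
def FW (p : ℕ) (V H X A : Subgroup Γ) : Subgroup Γ := (⨆ x : X, cj (x : Γ) ⁅V, KA p H A⁆) ⊓ centralizer (X : Set Γ)

theorem Op.FW_le (O : Op p q V H X) (hA : MinIn p V H A) : FW p V H X A ≤ V := by
  refine inf_le_left.trans (iSup_le fun x => ?_)
  have hKV : KA p H A ≤ normalizer (V : Set Γ) := (KA_le hA.le).trans O.oS.hHV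
  have hWV : ⁅V, KA p H A⁆ ≤ V := commutator_le_left_of_normalizes hKV
  have := cj_mono (g := (x : Γ)) hWV
  rwa [cj_eq_iff.2 (O.oV x.2)] at this

theorem Op.fix_inj (O : Op p q V H X) (hA : MinIn p V H A) : FW p V H X A ⊓ centralizer (KA p H A : Set Γ) = ⊥ := by
  haveI := O.oS.hV.1
  set N : Subgroup Γ := ⨆ x : X, cj (x : Γ) (NA p H A) with hN
  have hNx : ∀ x ∈ X, cj x (NA p H A) ≤ N := fun x hx => le_iSup (fun x : X => cj (x : Γ) (NA p H A)) ⟨x, hx⟩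
  have hNQ : N ≤ QQ p H := by
    apply iSup_le
    intro x
    have := cj_mono (g := (x : Γ)) (NA_le (p := p) hA.le)
    rwa [cj_QQ (O.oH x.2)] at this
  obtain ⟨n, hn⟩ := IsPGroup.iff_card.1 (ea_isPGroup O.oS.hV)
  have h1 := Cfsg.Agent.H1.Coprime.inf_commutator_eq_bot_of_abelian N V (hNQ.trans O.oS.QQ_norm) (by
    rw [hn]; exact (coprime_le hNQ).pow_right n)
  rw [eq_bot_iff, ← h1]
  rintro w ⟨⟨hw1, hw2⟩, hw3⟩
  have hwV : w ∈ V := O.FW_le hA ⟨hw1, hw2⟩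
  refine mem_inf.2 ⟨mem_inf.2 ⟨hwV, ?_⟩, ?_⟩
  · have h2 : N ≤ centralizer (zpowers w : Set Γ) := by
      apply iSup_le
      rintro ⟨x, hx⟩
      rintro _ ⟨y, hy, rfl⟩
      rw [← zpowers_le, le_centralizer_iff, zpowers_le, mem_centralizer_iff]
      have h3 : y * w = w * y := mem_centralizer_iff.1 hw3 y ((le_sup_left : NA p H A ≤ KA p H A) hy)
      have h4 : x * w = w * x := mem_centralizer_iff.1 hw2 x hx
      have h5 : x⁻¹ * w = w * x⁻¹ := by
        rw [inv_mul_eq_iff_eq_mul, ← mul_assoc, h4, mul_inv_cancel_right]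
      rintro _ ⟨k, rfl⟩
      have h6 : Commute (x * y * x⁻¹) w := by
        change x * y * x⁻¹ * w = w * (x * y * x⁻¹)
        calc x * y * x⁻¹ * w = x * y * (x⁻¹ * w) := by group
          _ = x * (y * w) * x⁻¹ := by rw [h5]; group
          _ = (x * w) * y * x⁻¹ := by rw [h3]; group
          _ = _ := by rw [h4]; group
      exact (h6.zpow_left k).eq
    rw [le_centralizer_iff, zpowers_le] at h2
    exact h2
  · have h3 : (⨆ x : X, cj (x : Γ) ⁅V, KA p H A⁆) ≤ ⁅V, N⁆ := by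
      apply iSup_le
      rintro ⟨x, hx⟩
      rw [← (O.oS.comp hA).commN, ← cj_V (O.oV hx)]
      exact commutator_mono le_rfl (hNx x hx)
    exact h3 hw1

theorem Op.fix_card (O : Op p q V H X) (hqp : q ≠ p) (hA : MinIn p V H A) : Nat.card (FW p V H X A) = p ^ 2 := by
  have hinj := O.fix_inj hA
  have C := O.oS.comp hA
  have hKV : KA p H A ≤ normalizer (V : Set Γ) := (KA_le hA.le).trans O.oS.hHV
  have hWV : ⁅V, KA p H A⁆ ≤ V := commutator_le_left_of_normalizes hKV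
  have hCVle : CV V (KA p H A) ≤ V := inf_le_left
  rw [← C.card]
  choose f hf1 hf2 hf3 using fun w : (⁅V, KA p H A⁆ : Subgroup Γ) => O.norm_W hqp hA w.2
  symm
  apply Nat.card_eq_of_bijective (fun w => (⟨f w, hf1 w, hf2 w⟩ : FW p V H X A))
  constructor
  · intro a b hab
    have h1 : f a = f b := congrArg Subtype.val hab
    obtain ⟨c, hc, hca⟩ := hf3 a
    obtain ⟨d, hd, hdb⟩ := hf3 b
    have h2 : (b : Γ)⁻¹ * a ∈ ⁅V, KA p H A⁆ ⊓ CV V (KA p H A) := by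
      refine mem_inf.2 ⟨mul_mem (inv_mem b.2) a.2, ?_⟩
      have h3 : (a : Γ) * c = b * d := by rw [← hca, ← hdb, h1]
      have h4 : (b : Γ)⁻¹ * a = d * c⁻¹ := by
        rw [inv_mul_eq_iff_eq_mul, ← mul_assoc, ← h3, mul_inv_cancel_right]
      rw [h4]
      exact mul_mem hd (inv_mem hc)
    rw [C.inf_bot, mem_bot, inv_mul_eq_one] at h2
    exact Subtype.ext h2.symm
  · rintro ⟨w', hw'⟩
    have hw'V := O.FW_le hA hw'
    have hn : ⁅V, KA p H A⁆ ≤ normalizer (CV V (KA p H A) : Set Γ) :=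
      hWV.trans ((ea_le_centralizer O.oS.hV).trans ((Subgroup.centralizer_le hCVle).trans (centralizer_le_normalizer _)))
    have h1 := hw'V
    rw [← C.sup_top, Cfsg.Agent.H2.Card.mem_sup_iff hn] at h1
    obtain ⟨w, hw, u, hu, hwu⟩ := h1
    refine ⟨⟨w, hw⟩, Subtype.ext ?_⟩
    change f ⟨w, hw⟩ = w'
    obtain ⟨c, hc, hca⟩ := hf3 ⟨w, hw⟩
    have h2 : (f ⟨w, hw⟩)⁻¹ * w' ∈ FW p V H X A ⊓ centralizer (KA p H A : Set Γ) := by
      refine mem_inf.2 ⟨mul_mem (inv_mem ⟨hf1 _, hf2 _⟩) hw', ?_⟩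
      have h3 : (f ⟨w, hw⟩)⁻¹ * w' = c⁻¹ * u := by
        rw [hca, ← hwu]
        change ((w : Γ) * c)⁻¹ * (w * u) = c⁻¹ * u
        group
      rw [h3]
      exact mul_mem (inv_mem hc.2) hu.2
    rw [hinj, mem_bot, inv_mul_eq_one] at h2
    exact h2

theorem Op.H_le_W (O : Op p q V H X) (hA : MinIn p V H A) {x : Γ} (hx : x ∈ X) :
    H ≤ normalizer ((cj x ⁅V, KA p H A⁆ : Subgroup Γ) : Set Γ) := by
  rw [O.cj_W hx]
  exact O.oS.W_inv O.oG (O.cj_min hA hx)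

theorem Op.fix_norm (O : Op p q V H X) (hA : MinIn p V H A) :
    H ⊓ centralizer (X : Set Γ) ≤ normalizer (FW p V H X A : Set Γ) := by
  apply normalizer_inf _ (inf_le_right.trans le_normalizer)
  intro d hd
  have h1 : (⨆ x : X, cj (x : Γ) ⁅V, KA p H A⁆) ≤ (⨆ x : X, cj (x : Γ) ⁅V, KA p H A⁆).comap (MulAut.conj d).toMonoidHom := by
    apply iSup_le
    rintro ⟨x, hx⟩ w hw
    change d * w * d⁻¹ ∈ (⨆ x : X, cj (x : Γ) ⁅V, KA p H A⁆)
    exact (le_iSup (fun x : X => cj (x : Γ) ⁅V, KA p H A⁆) ⟨x, hx⟩) ((mem_normalizer_iff.1 (O.H_le_W hA hx hd.1) w).1 hw)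
  apply mem_normalizer_fintype
  intro w hw
  exact h1 hw

/-- an element of `H` fixed by `X` centralizes the fixed plane iff it centralizes the plane -/
theorem Op.fix_cent (O : Op p q V H X) (hqp : q ≠ p) (hA : MinIn p V H A) {d : Γ} (hd : d ∈ H) (hdX : d ∈ centralizer (X : Set Γ)) :
    d ∈ centralizer (FW p V H X A : Set Γ) ↔ d ∈ centralizer ((⁅V, KA p H A⁆ : Subgroup Γ) : Set Γ) := by
  have C := O.oS.comp hA
  have hKV : KA p H A ≤ normalizer (V : Set Γ) := (KA_le hA.le).trans O.oS.hHV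
  have hWV : ⁅V, KA p H A⁆ ≤ V := commutator_le_left_of_normalizes hKV
  have hCVle : CV V (KA p H A) ≤ V := inf_le_left
  have hHW := O.oS.W_inv O.oG hA
  have hHC : H ≤ normalizer (CV V (KA p H A) : Set Γ) :=
    normalizer_inf O.oS.hHV (centralizer_normalizer (O.oS.KA_normal O.oG hA))
  constructor
  · intro h
    rw [mem_centralizer_iff]
    intro w hw
    obtain ⟨w', hw'1, hw'2, u, hu, hwu⟩ := O.norm_W hqp hA hw
    have h1 : w' * d = d * w' := mem_centralizer_iff.1 h w' ⟨hw'1, hw'2⟩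
    have h2 : d * w * d⁻¹ ∈ ⁅V, KA p H A⁆ := (mem_normalizer_iff.1 (hHW hd) w).1 hw
    have h3 : d * u * d⁻¹ ∈ CV V (KA p H A) := (mem_normalizer_iff.1 (hHC hd) u).1 hu
    have h4 : w⁻¹ * (d * w * d⁻¹) ∈ ⁅V, KA p H A⁆ ⊓ CV V (KA p H A) := by
      refine mem_inf.2 ⟨mul_mem (inv_mem hw) h2, ?_⟩
      have h5 : w⁻¹ * (d * w * d⁻¹) = u * (d * u * d⁻¹)⁻¹ := by
        rw [hwu] at h1
        calc w⁻¹ * (d * w * d⁻¹) = w⁻¹ * (d * (w * u)) * u⁻¹ * d⁻¹ := by group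
          _ = w⁻¹ * (w * u * d) * u⁻¹ * d⁻¹ := by rw [h1]
          _ = _ := by group
      rw [h5]
      exact mul_mem hu (inv_mem h3)
    rw [C.inf_bot, mem_bot, inv_mul_eq_one] at h4
    rw [eq_mul_inv_iff_mul_eq] at h4
    exact h4
  · intro h
    rw [mem_centralizer_iff]
    intro w' hw'
    have hn : ⁅V, KA p H A⁆ ≤ normalizer (CV V (KA p H A) : Set Γ) :=
      hWV.trans ((ea_le_centralizer O.oS.hV).trans ((Subgroup.centralizer_le hCVle).trans (centralizer_le_normalizer _)))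
    have h1 := O.FW_le hA hw'
    rw [← C.sup_top, Cfsg.Agent.H2.Card.mem_sup_iff hn] at h1
    obtain ⟨w, hw, u, hu, hwu⟩ := h1
    have h2 : w * d = d * w := mem_centralizer_iff.1 h w hw
    have h3 : d * u * d⁻¹ ∈ CV V (KA p H A) := (mem_normalizer_iff.1 (hHC hd) u).1 hu
    have h4 : w'⁻¹ * (d * w' * d⁻¹) ∈ FW p V H X A ⊓ centralizer (KA p H A : Set Γ) := by
      refine mem_inf.2 ⟨mul_mem (inv_mem hw') ((mem_normalizer_iff.1 (O.fix_norm hA ⟨hd, hdX⟩) w').1 hw'), ?_⟩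
      have h5 : w'⁻¹ * (d * w' * d⁻¹) = u⁻¹ * (d * u * d⁻¹) := by
        rw [← hwu]
        calc (w * u)⁻¹ * (d * (w * u) * d⁻¹) = u⁻¹ * w⁻¹ * (d * w) * u * d⁻¹ := by group
          _ = u⁻¹ * w⁻¹ * (w * d) * u * d⁻¹ := by rw [h2]
          _ = _ := by group
      rw [h5]
      exact mul_mem (inv_mem hu.2) h3.2
    rw [O.fix_inj hA, mem_bot, inv_mul_eq_one] at h4
    rw [eq_mul_inv_iff_mul_eq] at h4
    exact h4

/-- projection to a component -/
theorem exists_hom {Γ : Type*} [Group Γ] (D K C : Subgroup Γ) (hKC : K ≤ normalizer (C : Set Γ)) (hb : K ⊓ C = ⊥)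
    (h : ∀ d ∈ D, ∃ e ∈ K, e⁻¹ * d ∈ C) (hs : ∀ e ∈ K, ∃ d ∈ D, e⁻¹ * d ∈ C) :
    ∃ φ : D →* K, Function.Surjective φ ∧ ∀ d : D, φ d = 1 ↔ (d : Γ) ∈ C := by
  choose f hfK hfC using fun d : D => h d d.2
  have huniq : ∀ (d : Γ) (e₁ e₂ : Γ), e₁ ∈ K → e₂ ∈ K → e₁⁻¹ * d ∈ C → e₂⁻¹ * d ∈ C → e₁ = e₂ := by
    intro d e₁ e₂ h1 h2 h3 h4
    have h5 : e₁⁻¹ * e₂ ∈ K ⊓ C := by
      refine mem_inf.2 ⟨mul_mem (inv_mem h1) h2, ?_⟩
      have : e₁⁻¹ * e₂ = (e₁⁻¹ * d) * (e₂⁻¹ * d)⁻¹ := by group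
      rw [this]; exact mul_mem h3 (inv_mem h4)
    rw [hb, mem_bot, inv_mul_eq_one] at h5
    exact h5
  let φ : D →* K :=
    { toFun := fun d => ⟨f d, hfK d⟩
      map_one' := Subtype.ext (huniq 1 _ _ (hfK 1) (one_mem K) (hfC 1) (by simp))
      map_mul' := fun a b => Subtype.ext (huniq (a * b) _ _ (hfK _) (mul_mem (hfK a) (hfK b)) (hfC _) (by
        have h1 := (mem_normalizer_iff.1 (inv_mem (hKC (hfK b))) _).1 (hfC a)
        have h2 : (f a * f b)⁻¹ * ((a : Γ) * b) = ((f b)⁻¹ * ((f a)⁻¹ * a) * (f b)⁻¹⁻¹) * ((f b)⁻¹ * b) := by group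
        change (f a * f b)⁻¹ * ((a : Γ) * b) ∈ C
        rw [h2]
        exact mul_mem h1 (hfC b))) }
  refine ⟨φ, ?_, ?_⟩
  · rintro ⟨e, he⟩
    obtain ⟨d, hd, hde⟩ := hs e he
    exact ⟨⟨d, hd⟩, Subtype.ext (huniq d _ _ (hfK _) he (hfC _) hde)⟩
  · intro d
    constructor
    · intro h1
      have h2 : f d = 1 := congrArg Subtype.val h1
      have h3 := hfC d
      rw [h2, inv_one, one_mul] at h3
      exact h3
    · intro h1
      exact Subtype.ext (huniq d _ _ (hfK _) (one_mem K) (hfC _) (by simpa using h1))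

theorem Op.exists_proj (O : Op p q V H X) (hA : MinIn p V H A) :
    ∃ φ : (H ⊓ centralizer (X : Set Γ) : Subgroup Γ) →* KA p H A, Function.Surjective φ ∧
      ∀ d, φ d = 1 ↔ (d : Γ) ∈ centralizer ((⁅V, KA p H A⁆ : Subgroup Γ) : Set Γ) := by
  have C := O.oS.comp hA
  have hKV : KA p H A ≤ normalizer (V : Set Γ) := (KA_le hA.le).trans O.oS.hHV
  have hWV : ⁅V, KA p H A⁆ ≤ V := commutator_le_left_of_normalizes hKV
  have hKW : KA p H A ≤ normalizer ((⁅V, KA p H A⁆ : Subgroup Γ) : Set Γ) := normalizes_of_comm_le O.oS.hV hWV le_rfl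
  apply exists_hom _ _ _ (centralizer_normalizer hKW) C.faithful
  · rintro d ⟨hd, -⟩
    have h1 := (O.oS.split O.oG hA).sup.ge hd
    rw [Cfsg.Agent.H2.Card.mem_sup_iff ((O.oS.split O.oG hA).comm |> fun h => by
      rw [commutator_eq_bot_iff_le_centralizer] at h
      exact h.trans (centralizer_le_normalizer _))] at h1
    obtain ⟨e, he, c, hc, rfl⟩ := h1
    exact ⟨e, he, by rw [inv_mul_cancel_left]; exact hc.2⟩
  · intro e he
    obtain ⟨d, hd, hdX, c, hc, rfl⟩ := O.norm_E hA he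
    exact ⟨_, ⟨hd, hdX⟩, by rw [inv_mul_cancel_left]; exact hc.2⟩

end Cfsg.Agent.H2.FFC
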