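import Cfsg.Statements.S0600
import Mathlib
import Cfsg.Agent.H2_Act
import Cfsg.Agent.H1_Nilp

set_option autoImplicit false
open Cfsg

namespace Cfsg.Agent.S0600

open Subgroup

/-- A normal elementary abelian p-subgroup generated by the fixed points of the Sylow p-subgroups admits no nontrivial normal p-subgroup of G modulo its centralizer. -/
theorem result {G : Type*} [Group G] [Finite G] {p : ℕ} [Fact p.Prime] (V : Subgroup G) [V.Normal] (hV : Cfsg.IsElementaryAbelian p V) (hgen : V = ⨆ S : Sylow p G, V ⊓ Subgroup.centralizer ((S : Subgroup G) : Set G)) : Cfsg.pCore p (G ⧸ Subgroup.centralizer (V : Set G)) = ⊥ := by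
  set C := Subgroup.centralizer (V : Set G) with hC
  have hCn : C.Normal := inferInstance
  set D := (Cfsg.pCore p (G ⧸ C)).comap (QuotientGroup.mk' C) with hD
  have hOn : (Cfsg.pCore p (G ⧸ C)).Normal := Cfsg.Agent.H1.Nilp.pCore_normal p
  have hDn : D.Normal := hOn.comap _
  have hCD : C ≤ D := by
    have h := MonoidHom.ker_le_comap (QuotientGroup.mk' C) (Cfsg.pCore p (G ⧸ C))
    rwa [QuotientGroup.ker_mk'] at h
  obtain ⟨k, hk⟩ := IsPGroup.iff_card.1 (Cfsg.Agent.H1.Nilp.pCore_isPGroup (G := G ⧸ C) p)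
  have hmap : D.map (QuotientGroup.mk' C) = Cfsg.pCore p (G ⧸ C) :=
    map_comap_eq_self_of_surjective (QuotientGroup.mk'_surjective C) _
  have hrel : C.relIndex D = p ^ k := by
    have h := Subgroup.relIndex_ker D (QuotientGroup.mk' C)
    rw [QuotientGroup.ker_mk'] at h
    rw [h, hmap, hk]
  have h1 := Cfsg.Agent.H2.Act.le_centralizer_of_gen D C hCD hrel
    (fun S : Sylow p G => V ⊓ Subgroup.centralizer ((S : Subgroup G) : Set G)) (fun S => inf_le_right)
    (by rw [← hgen])
  rw [← hgen] at h1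
  rw [← hmap, eq_bot_iff, map_le_iff_le_comap]
  refine h1.trans ?_
  intro x hx
  rw [mem_comap, mem_bot]
  exact (QuotientGroup.eq_one_iff x).2 hx

end Cfsg.Agent.S0600
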