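import Cfsg.Statements.S0601
import Mathlib
import Cfsg.Agent.H2_ThompFact

set_option autoImplicit false
open Cfsg

namespace Cfsg.Agent.S0601

open Subgroup

/-- When O_p(G) contains its centralizer, the normal closure of Ω₁(Z(S)) is elementary abelian and G has no nontrivial normal p-subgroup modulo its centralizer. -/
theorem result {G : Type*} [Group G] [Finite G] {p : ℕ} [Fact p.Prime] (hc : Subgroup.centralizer (Cfsg.pCore p G : Set G) ≤ Cfsg.pCore p G) : (⨆ S : Sylow p G, Cfsg.omegaOne p (((S : Subgroup G)) ⊓ Subgroup.centralizer ((S : Subgroup G) : Set G))).Normal ∧ Cfsg.IsElementaryAbelian p (⨆ S : Sylow p G, Cfsg.omegaOne p (((S : Subgroup G)) ⊓ Subgroup.centralizer ((S : Subgroup G) : Set G))) ∧ ∀ D : Subgroup G, D.Normal → Subgroup.centralizer ((⨆ S : Sylow p G, Cfsg.omegaOne p (((S : Subgroup G)) ⊓ Subgroup.centralizer ((S : Subgroup G) : Set G)) : Subgroup G) : Set G) ≤ D → (∃ k : ℕ, (Subgroup.centralizer ((⨆ S : Sylow p G, Cfsg.omegaOne p (((S : Subgroup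 G)) ⊓ Subgroup.centralizer ((S : Subgroup G) : Set G)) : Subgroup G) : Set G)).relIndex D = p ^ k) → D = Subgroup.centralizer ((⨆ S : Sylow p G, Cfsg.omegaOne p (((S : Subgroup G)) ⊓ Subgroup.centralizer ((S : Subgroup G) : Set G)) : Subgroup G) : Set G) := by
  have hWn := Cfsg.Agent.H2.ThompFact.iSup_OZ_normal (G := G) (p := p)
  refine ⟨hWn, ?_, ?_⟩
  · have hle : (⨆ S : Sylow p G, Cfsg.omegaOne p (((S : Subgroup G)) ⊓ Subgroup.centralizer ((S : Subgroup G) : Set G))) ≤
        Cfsg.omegaOne p (Cfsg.pCore p G ⊓ centralizer (Cfsg.pCore p G : Set G)) := by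
      apply iSup_le
      intro S
      apply Cfsg.Agent.H2.ThompFact.omegaOne_mono
      have h1 : (S : Subgroup G) ⊓ centralizer ((S : Subgroup G) : Set G) ≤ centralizer (Cfsg.pCore p G : Set G) :=
        inf_le_right.trans (centralizer_le (SetLike.coe_subset_coe.2 (Cfsg.Agent.H2.ThompFact.pCore_le_sylow S)))
      exact le_inf (h1.trans hc) h1
    exact Cfsg.Agent.H2.Quad.ea_of_le (Cfsg.Agent.H2.ThompFact.omegaOne_ea
      (Cfsg.Agent.H2.ThompFact.comm_center _)) hle
  · intro D hD hCD hk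
    obtain ⟨k, hk⟩ := hk
    apply le_antisymm _ hCD
    exact Cfsg.Agent.H2.Act.le_centralizer_of_gen D _ hCD hk
      (fun S : Sylow p G => Cfsg.omegaOne p (((S : Subgroup G)) ⊓ Subgroup.centralizer ((S : Subgroup G) : Set G)))
      (fun S => Cfsg.Agent.H2.ThompFact.OZ_le_centralizer _) le_rfl

end Cfsg.Agent.S0601
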