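import Mathlib
import Cfsg.Agent.H2_FFD
import Cfsg.Agent.H2_FFA
import Cfsg.Agent.H2_FFB
import Cfsg.Agent.S0600
import Cfsg.Agent.S0601

/-! Failure of factorization XIV: coprime operators on `p`-separable groups. -/

set_option autoImplicit false
set_option linter.style.haveILetI false
set_option linter.unusedSectionVars false

open Subgroup Cfsg
open scoped commutatorElement Pointwise

namespace Cfsg.Agent.H2.FFE

open Cfsg.Agent.H2.Basic Cfsg.Agent.H2.Quad Cfsg.Agent.H2.Replace Cfsg.Agent.H2.FF Cfsg.Agent.H2.FF.Setup Cfsg.Agent.H2.FFA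
  Cfsg.Agent.H2.FFC Cfsg.Agent.H2.ThompFact

/-! ### `V` is characteristic -/

theorem centralizer_map_equiv {G G' : Type*} [Group G] [Group G'] (φ : G ≃* G') (S : Subgroup G) :
    centralizer ((S.map φ.toMonoidHom : Subgroup G') : Set G') = (centralizer (S : Set G)).map φ.toMonoidHom := by
  ext y
  constructor
  · intro h
    refine ⟨φ.symm y, mem_centralizer_iff.2 ?_, φ.apply_symm_apply y⟩
    intro s hs
    apply φ.injective
    rw [map_mul, map_mul, φ.apply_symm_apply]
    exact mem_centralizer_iff.1 h _ ⟨s, hs, rfl⟩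
  · rintro ⟨x, hx, rfl⟩
    rw [mem_centralizer_iff]
    rintro _ ⟨s, hs, rfl⟩
    change φ s * φ x = φ x * φ s
    rw [← map_mul, ← map_mul, mem_centralizer_iff.1 hx s hs]

theorem OZ_map_equiv {G G' : Type*} [Group G] [Group G'] {p : ℕ} (φ : G ≃* G') (S : Subgroup G) :
    OZ p (S.map φ.toMonoidHom) = (OZ p S).map φ.toMonoidHom := by
  rw [OZ, OZ, centralizer_map_equiv, ← map_inf _ _ _ φ.injective]
  exact omegaOne_map _ _ (φ.injective.comp (Subtype.val_injective))

theorem iSup_OZ_char {G : Type*} [Group G] {p : ℕ} : (⨆ S : Sylow p G, OZ p (S : Subgroup G)).Characteristic := by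
  rw [characteristic_iff_map_le]
  intro φ
  rw [Subgroup.map_iSup]
  apply iSup_le
  intro S
  rw [← OZ_map_equiv]
  exact le_iSup (fun S : Sylow p G => OZ p (S : Subgroup G)) ((φ : MulAut G) • S)

/-! ### restriction of automorphisms -/

section Res

variable {K : Type*} [Group K] (V : Subgroup K) [hV : V.Characteristic]

theorem char_mem (φ : MulAut K) {v : K} (hv : v ∈ V) : φ v ∈ V :=
  (characteristic_iff_map_le.1 hV φ) ⟨v, hv, rfl⟩

/-- restriction of automorphisms to a characteristic subgroup -/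
def res : MulAut K →* MulAut V where
  toFun φ :=
    { toFun := fun v => ⟨φ v, char_mem V φ v.2⟩
      invFun := fun v => ⟨φ⁻¹ v, char_mem V φ⁻¹ v.2⟩
      left_inv := fun v => Subtype.ext (by change φ⁻¹ (φ v) = v; simp)
      right_inv := fun v => Subtype.ext (by change φ (φ⁻¹ v) = v; simp)
      map_mul' := fun v w => Subtype.ext (map_mul φ _ _) }
  map_one' := rfl
  map_mul' _ _ := rfl

theorem res_apply (φ : MulAut K) (v : V) : (res V φ v : K) = φ v := rfl

/-- automorphisms in the holomorph -/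
def τ : MulAut K →* Hol V := (SemidirectProduct.inr).comp (res V)

theorem τ_ι (φ : MulAut K) (v : V) : τ V φ * ι V v * (τ V φ)⁻¹ = ι V (res V φ v) := by
  change SemidirectProduct.inr (res V φ) * SemidirectProduct.inl v * (SemidirectProduct.inr (res V φ))⁻¹ = _
  rw [← map_inv, ← SemidirectProduct.inl_aut]
  rfl

theorem τ_θ (φ : MulAut K) (k : K) : τ V φ * θ V k * (τ V φ)⁻¹ = θ V (φ k) := by
  change SemidirectProduct.inr (res V φ) * SemidirectProduct.inr (MulAut.conjNormal k) * (SemidirectProduct.inr (res V φ))⁻¹ =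
    SemidirectProduct.inr (MulAut.conjNormal (φ k))
  rw [← map_mul, ← map_inv, ← map_mul]
  congr 1
  ext v
  change φ (k * φ⁻¹ v * k⁻¹) = φ k * v * (φ k)⁻¹
  rw [map_mul, map_mul, map_inv]
  congr 2
  exact φ.apply_symm_apply v

end Res

section Main

variable {G : Type*} [Group G] [Finite G] {p : ℕ} [hp : Fact p.Prime] {q : ℕ} [hq : Fact q.Prime] {K X : Subgroup G}
  (hXK : X ≤ normalizer (K : Set G))

/-- the action on `K` -/
def α : X →* MulAut K := (K.normalizerMonoidHom).comp (inclusion hXK)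

theorem α_apply (x : X) (k : K) : ((α hXK x k : K) : G) = x * k * (x : G)⁻¹ := rfl

/-- the canonical module -/
abbrev VK (p : ℕ) (K : Subgroup G) : Subgroup K := ⨆ S : Sylow p K, OZ p (S : Subgroup K)

instance : (VK p K).Characteristic := iSup_OZ_char

/-- the operator group in the holomorph -/
def XX (p : ℕ) {K X : Subgroup G} (hXK : X ≤ normalizer (K : Set G)) : Subgroup (Hol (VK p K)) := ((τ (VK p K)).comp (α hXK)).range

theorem VK_ea (hsep : IsPSolvable p ↥K) (hO : pPrimeCore p ↥K = ⊥) :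
    IsElementaryAbelian p (VK p K) ∧ pCore p (K ⧸ centralizer (VK p K : Set K)) = ⊥ := by
  have hc := Cfsg.Agent.H22.PSolv.centralizer_pCore_le hsep hO
  obtain ⟨hVn, hVea, -⟩ := Cfsg.Agent.S0601.result (p := p) (G := K) hc
  refine ⟨hVea, ?_⟩
  have hgen : VK p K = ⨆ S : Sylow p K, VK p K ⊓ Subgroup.centralizer ((S : Subgroup K) : Set K) := by
    apply le_antisymm
    · apply iSup_le
      intro S
      refine le_iSup_of_le S (le_inf (le_iSup_of_le S le_rfl) ?_)
      exact Cfsg.Agent.H2.ThompFact.OZ_le_centralizer (S : Subgroup K)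
    · exact iSup_le fun S => inf_le_left
  exact Cfsg.Agent.S0600.result (VK p K) hVea hgen

instance : (thompsonSubgroup p K).Characteristic := Cfsg.Agent.H2.Thompson.thompson_char K

/-- the image of the Thompson subgroup -/
abbrev HH (p : ℕ) (K : Subgroup G) : Subgroup (Hol (VK p K)) := (thompsonSubgroup p K).map (θ (VK p K))

theorem op (hX : IsElementaryAbelian q X) (hqK : ¬ q ∣ Nat.card K) (hsep : IsPSolvable p ↥K) (hO : pPrimeCore p ↥K = ⊥) :
    Op p q (VV (VK p K)) (HH p K) (XX p hXK) := by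
  obtain ⟨hVea, hOp⟩ := VK_ea hsep hO
  have S := setup (VK p K) hVea hsep hOp (thompsonSubgroup p K)
  refine ⟨S, thompson_gen (VK p K) hVea S, ?_, ?_, ?_, ?_⟩
  · rintro _ ⟨x, rfl⟩
    apply mem_normalizer_fintype
    rintro _ ⟨v, rfl⟩
    exact ⟨_, (τ_ι (VK p K) (α hXK x) v).symm⟩
  · rintro _ ⟨x, rfl⟩
    apply mem_normalizer_fintype
    rintro _ ⟨k, hk, rfl⟩
    exact ⟨_, char_mem _ (α hXK x) hk, (τ_θ (VK p K) (α hXK x) k).symm⟩
  · rintro _ ⟨x, rfl⟩
    rw [← map_pow]
    have : x ^ q = 1 := Subtype.ext (hX.2 x x.2)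
    rw [this, map_one]
  · intro h
    apply hqK
    refine h.trans (dvd_trans ?_ (Subgroup.card_subgroup_dvd_card (thompsonSubgroup p K)))
    exact Subgroup.card_map_dvd _ _

theorem commute_of_fix {k : K} (hk : (k : G) ∈ centralizer (X : Set G)) :
    θ (VK p K) k ∈ centralizer (XX p hXK : Set (Hol (VK p K))) := by
  rw [mem_centralizer_iff]
  rintro _ ⟨x, rfl⟩
  have h1 := τ_θ (VK p K) (α hXK x) k
  have h2 : α hXK x k = k := by
    apply Subtype.ext
    rw [α_apply, mem_centralizer_iff.1 hk x x.2, mul_inv_cancel_right]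
  rw [h2] at h1
  exact mul_inv_eq_iff_eq_mul.1 h1

theorem exists_lift (hX : IsElementaryAbelian q X) (hqK : ¬ q ∣ Nat.card K) {k : K}
    (hk : θ (VK p K) k ∈ centralizer (XX p hXK : Set (Hol (VK p K)))) :
    ∃ c : K, (c : G) ∈ centralizer (X : Set G) ∧ θ (VK p K) c = θ (VK p K) k := by
  have hXq : IsPGroup q X := fun x => ⟨1, by rw [pow_one]; exact Subtype.ext (hX.2 x x.2)⟩
  obtain ⟨n, hn⟩ := IsPGroup.iff_card.1 hXq
  have hcop : (Nat.card X).Coprime (Nat.card K) := by
    rw [hn]; exact Nat.Coprime.pow_left _ ((Nat.Prime.coprime_iff_not_dvd hq.out).2 hqK)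
  haveI := hX.1
  have hsolv : Group.IsSolvable X ∨ Group.IsSolvable K := Or.inl (by
    have := hXq.isNilpotent
    infer_instance)
  set N : Subgroup G := (centralizer (VK p K : Set K)).map K.subtype with hN
  have hNK : N ≤ K := map_subtype_le _
  have hchar : (centralizer (VK p K : Set K)).Characteristic := inferInstance
  have hnor : (centralizer (VK p K : Set K)).Normal := inferInstance
  have hKN : K ≤ normalizer (N : Set G) := by
    rw [← normal_subgroupOf_iff_le_normalizer hNK, hN, subgroupOf, comap_map_eq_self_of_injective K.subtype_injective]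
    exact hnor
  have hXN : X ≤ normalizer (N : Set G) := by
    intro x hx
    apply mem_normalizer_fintype
    rintro _ ⟨c, hc, rfl⟩
    exact ⟨_, char_mem _ (α hXK ⟨x, hx⟩) hc, rfl⟩
  obtain ⟨c, hc, hkc⟩ := Cfsg.Agent.H1.Coprime.fixed_points_quotient X K hXK hcop hsolv N hNK hKN hXN k k.2 (by
    intro x hx
    have h1 := τ_θ (VK p K) (α hXK ⟨x, hx⟩) k
    have h0 : τ (VK p K) (α hXK ⟨x, hx⟩) * θ (VK p K) k = θ (VK p K) k * τ (VK p K) (α hXK ⟨x, hx⟩) :=
      mem_centralizer_iff.1 hk _ ⟨⟨x, hx⟩, rfl⟩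
    rw [h0, mul_inv_cancel_right] at h1
    have h2 : α hXK ⟨x, hx⟩ k * k⁻¹ ∈ centralizer (VK p K : Set K) := by
      rw [← θ_ker, MonoidHom.mem_ker, map_mul, map_inv, ← h1, mul_inv_cancel]
    exact ⟨_, h2, rfl⟩)
  refine ⟨⟨c, hc.1⟩, hc.2, ?_⟩
  obtain ⟨y, hy, hyc⟩ := hkc
  rw [SetLike.mem_coe, ← θ_ker, MonoidHom.mem_ker] at hy
  have h1 : (⟨c, hc.1⟩ : K) = k * y := by
    apply Subtype.ext
    change c = k * y
    rw [show (y : G) = (k : G)⁻¹ * c from hyc, mul_inv_cancel_left]
  rw [h1, map_mul, hy, mul_one]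

theorem exists_conj_le (S : Sylow p K) {A : Subgroup (Hol (VK p K))} (hA : A ≤ HH p K) (hAp : IsPGroup p A) :
    ∃ h ∈ HH p K, cj h A ≤ (S : Subgroup K).map (θ (VK p K)) := by
  set J : Subgroup K := thompsonSubgroup p K with hJ
  haveI : J.Normal := inferInstance
  have hp1 : IsPGroup p ((S : Subgroup K).subgroupOf J) := S.isPGroup'.comap_of_injective J.subtype J.subtype_injective
  have hidx : ¬ p ∣ ((S : Subgroup K).subgroupOf J).index := by
    have := Cfsg.Agent.H2.Fusion.not_dvd_relIndex_inf S J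
    rwa [inf_relIndex_right] at this
  let P : Sylow p J := hp1.toSylow hidx
  have hf := (θ (VK p K)).subgroupMap_surjective J
  let P' := P.mapSurjective hf
  have hA' : IsPGroup p (A.subgroupOf (HH p K)) := hAp.comap_of_injective (HH p K).subtype (HH p K).subtype_injective
  obtain ⟨Q, hQ⟩ := hA'.exists_le_sylow
  obtain ⟨⟨h, hh⟩, hhQ⟩ := MulAction.exists_smul_eq (HH p K) Q P'
  refine ⟨h, hh, ?_⟩
  rintro _ ⟨a, ha, rfl⟩
  have h1 : (⟨a, hA ha⟩ : HH p K) ∈ (Q : Subgroup (HH p K)) := hQ ha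
  have h2 : (⟨h, hh⟩ : HH p K) * ⟨a, hA ha⟩ * (⟨h, hh⟩ : HH p K)⁻¹ ∈ (P' : Subgroup (HH p K)) := by
    rw [← hhQ, coe_smul_sylow]
    exact ⟨_, h1, rfl⟩
  obtain ⟨s, hs, hsh⟩ := h2
  exact ⟨s, hs, congrArg Subtype.val hsh⟩

include hXK in
/-- Kurzweil–Stellmacher 9.3.? -/
theorem generation (hX : IsElementaryAbelian q X) (hqK : ¬ q ∣ Nat.card K) (hsep : IsPSolvable p ↥K) (hO : pPrimeCore p ↥K = ⊥)
    (S : Sylow p K) :
    (normalizer (thompsonSubgroupOf p (S : Subgroup K) : Set K) ⊔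
      centralizer (omegaOne p ((S : Subgroup K) ⊓ centralizer ((S : Subgroup K) : Set K)) : Set K) ⊔
      (centralizer (X : Set G)).subgroupOf K) = ⊤ := by
  set L : Subgroup K := (normalizer (thompsonSubgroupOf p (S : Subgroup K) : Set K) ⊔
      centralizer (omegaOne p ((S : Subgroup K) ⊓ centralizer ((S : Subgroup K) : Set K)) : Set K) ⊔
      (centralizer (X : Set G)).subgroupOf K) with hL
  have hLN : normalizer (thompsonSubgroupOf p (S : Subgroup K) : Set K) ≤ L := le_sup_left.trans le_sup_left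
  have hLC : centralizer (VK p K : Set K) ≤ L := by
    refine le_trans ?_ (le_sup_right.trans le_sup_left)
    exact centralizer_le (SetLike.coe_subset_coe.2 (le_iSup (fun S : Sylow p K => OZ p (S : Subgroup K)) S))
  have hLX : (centralizer (X : Set G)).subgroupOf K ≤ L := le_sup_right
  have hSN : (S : Subgroup K) ≤ L := le_normalizer.trans ((Cfsg.Agent.H2.Thompson.normalizer_le_normalizer_thompsonOf (p := p) (S : Subgroup K)).trans hLN)
  have O := op (p := p) hXK hX hqK hsep hO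
  have hJS : thompsonSubgroupOf p (S : Subgroup K) ≤ thompsonSubgroup p K := by
    rw [Cfsg.Agent.H2.Thompson.thompson_eq_iSup_sylow]
    exact le_iSup (fun S : Sylow p K => thompsonSubgroupOf p (S : Subgroup K)) S
  have key : thompsonSubgroup p K ≤ L := by
    suffices h : HH p K ≤ L.map (θ (VK p K)) by
      intro j hj
      obtain ⟨l, hl, hlj⟩ := h ⟨j, hj, rfl⟩
      have h1 : l⁻¹ * j ∈ centralizer (VK p K : Set K) := by
        rw [← θ_ker, MonoidHom.mem_ker, map_mul, map_inv, hlj, inv_mul_cancel]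
      have h2 : j = l * (l⁻¹ * j) := by group
      rw [h2]
      exact mul_mem hl (hLC h1)
    refine (show HH p K ≤ _ from O.oG).trans (iSup_le ?_)
    rintro ⟨A, hA⟩
    change A ≤ _
    -- move `A` into the image of `S`
    obtain ⟨h, hh, hhA⟩ : ∃ h ∈ HH p K, cj h A ≤ L.map (θ (VK p K)) := by
      obtain ⟨h, hh, h1⟩ := exists_conj_le S hA.le (IsPGroup.of_card (n := 1) (by rw [pow_one]; exact hA.card))
      exact ⟨h, hh, h1.trans (map_mono hSN)⟩
    have hA' := hA.cj O.oS hh
    have hKA : KA p (HH p K) (cj h A) = KA p (HH p K) A := by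
      rw [← cj_KA hh, cj_eq_iff]
      exact O.oS.KA_normal O.oG hA hh
    suffices h2 : KA p (HH p K) (cj h A) ≤ L.map (θ (VK p K)) by
      rw [hKA] at h2
      exact (le_sup_right : A ≤ KA p (HH p K) A).trans h2
    apply sup_le _ hhA
    have hcop : (Nat.card (cj h A)).Coprime (Nat.card (QQ p (HH p K))) := by
      rw [hA'.card]; exact QQ_coprime.symm
    have h3 := Cfsg.Agent.H1.Coprime.commutator_commutator_eq (cj h A) (QQ p (HH p K)) (hA'.le.trans le_normalizer_QQ) hcop
      (Or.inl (by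
        have h4 : IsPGroup p (cj h A) := IsPGroup.of_card (n := 1) (by rw [pow_one]; exact hA'.card)
        have := h4.isNilpotent
        infer_instance))
    rw [← h3, commutator_le]
    intro n hn a ha
    obtain ⟨d, hd, hdX, c, hc, hdc⟩ := O.norm_E hA' ((le_sup_left : NA p (HH p K) (cj h A) ≤ KA p (HH p K) (cj h A)) hn)
    have h5 := (O.oS.split O.oG hA').comm
    rw [commutator_comm, commutator_eq_bot_iff_le_centralizer] at h5
    have h6 : a * c = c * a := mem_centralizer_iff.1 (h5 hc) a ((le_sup_right : cj h A ≤ KA p (HH p K) (cj h A)) ha)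
    have h7 : ⁅n, a⁆ = ⁅d, a⁆ := by
      rw [hdc, commutatorElement_def, commutatorElement_def]
      calc n * a * n⁻¹ * a⁻¹ = n * (a * c) * c⁻¹ * n⁻¹ * a⁻¹ := by group
        _ = n * (c * a) * c⁻¹ * n⁻¹ * a⁻¹ := by rw [h6]
        _ = _ := by group
    rw [h7]
    have h8 : d ∈ L.map (θ (VK p K)) := by
      obtain ⟨k, hk, rfl⟩ := hd
      obtain ⟨c', hc', hc'k⟩ := exists_lift (p := p) hXK hX hqK hdX
      exact ⟨c', hLX hc', hc'k⟩
    have h9 := hhA ha
    rw [commutatorElement_def]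
    exact mul_mem (mul_mem (mul_mem h8 h9) (inv_mem h8)) (inv_mem h9)
  rw [eq_top_iff]
  intro g _
  obtain ⟨k, hk, n, hn, rfl⟩ := frattini_inf S (thompsonSubgroup p K ⊔ centralizer (VK p K : Set K)) g
  apply mul_mem (sup_le key hLC hk)
  apply hLN
  have h1 := Cfsg.Agent.H2.Thompson.normalizer_le_normalizer_thompsonOf (p := p) _ hn
  rw [Cfsg.Agent.H2.Thompson.thompsonOf_eq_of_le (H := (S : Subgroup K)) inf_le_left] at h1
  · exact h1
  · exact le_inf (Cfsg.Agent.H2.Thompson.thompsonOf_le _) (hJS.trans le_sup_left)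

include hXK in
theorem fixed_plane (hX : IsElementaryAbelian q X) (hqK : ¬ q ∣ Nat.card K) (hsep : IsPSolvable p ↥K) (hO : pPrimeCore p ↥K = ⊥)
    (hnf : ¬ IsThompsonFactorizable p ↥K) : (p = 2 ∨ p = 3) ∧ ∃ W D : Subgroup G, W ≤ K ⊓ centralizer (X : Set G) ∧
    D ≤ K ⊓ centralizer (X : Set G) ∧ IsElementaryAbelian p W ∧ Nat.card W = p ^ 2 ∧ D ≤ normalizer (W : Set G) ∧
    ∃ _hn : ((centralizer (W : Set G)).subgroupOf D).Normal,
      Nonempty ((D ⧸ (centralizer (W : Set G)).subgroupOf D) ≃* Matrix.SpecialLinearGroup (Fin 2) (ZMod p)) := by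
  obtain ⟨hVea, hOp⟩ := VK_ea hsep hO
  have O := op (p := p) hXK hX hqK hsep hO
  have hne : ¬ thompsonSubgroup p K ≤ centralizer (VK p K : Set K) := by
    intro h
    exact hnf ((factorizable_iff hO).2 h)
  obtain ⟨hp23, A, hA⟩ := fail (VK p K) hsep hVea hOp hne
  refine ⟨hp23, ?_⟩
  have hqp : q ≠ p := by
    rintro rfl
    apply O.nd
    have h1 := card_dvd_of_le hA.le
    rw [hA.card] at h1
    exact h1
  set F : Subgroup (Hol (VK p K)) := FW p (VV (VK p K)) (HH p K) (XX p hXK) A with hF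
  have hFV : F ≤ VV (VK p K) := O.FW_le hA
  set W : Subgroup G := ((F.comap (ι (VK p K))).map (VK p K).subtype).map K.subtype with hW
  set D : Subgroup G := ((HH p K).comap (θ (VK p K))).map K.subtype ⊓ centralizer (X : Set G) with hD
  have memW : ∀ g : G, g ∈ W ↔ ∃ v : VK p K, ι (VK p K) v ∈ F ∧ ((v : K) : G) = g := by
    intro g
    constructor
    · rintro ⟨_, ⟨v, hv, rfl⟩, rfl⟩; exact ⟨v, hv, rfl⟩
    · rintro ⟨v, hv, rfl⟩; exact ⟨_, ⟨v, hv, rfl⟩, rfl⟩
  have memD : ∀ g : G, g ∈ D ↔ ∃ k : K, θ (VK p K) k ∈ HH p K ∧ (k : G) ∈ centralizer (X : Set G) ∧ (k : G) = g := by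
    intro g
    constructor
    · rintro ⟨⟨k, hk, rfl⟩, hc⟩; exact ⟨k, hk, hc, rfl⟩
    · rintro ⟨k, hk, hc, rfl⟩; exact ⟨⟨k, hk, rfl⟩, hc⟩
  have hWK : W ≤ K := map_subtype_le _
  have hDN : D ≤ normalizer (W : Set G) := by
    intro g hg
    obtain ⟨k, hk, hkX, rfl⟩ := (memD g).1 hg
    apply mem_normalizer_fintype
    intro w hw
    obtain ⟨v, hv, rfl⟩ := (memW w).1 hw
    have h1 := O.fix_norm hA ⟨hk, commute_of_fix hXK hkX⟩
    have h2 := (mem_normalizer_iff.1 h1 _).1 hv
    rw [θ_conj] at h2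
    exact (memW _).2 ⟨_, h2, rfl⟩
  refine ⟨W, D, ?_, ?_, ?_, ?_, hDN, ?_⟩
  · refine le_inf hWK ?_
    intro g hg
    obtain ⟨v, hv, rfl⟩ := (memW g).1 hg
    rw [mem_centralizer_iff]
    intro x hx
    have h1 := mem_centralizer_iff.1 hv.2 _ ⟨⟨x, hx⟩, rfl⟩
    have h2 := τ_ι (VK p K) (α hXK ⟨x, hx⟩) v
    have h3 : τ (VK p K) (α hXK ⟨x, hx⟩) * ι (VK p K) v = ι (VK p K) v * τ (VK p K) (α hXK ⟨x, hx⟩) := h1
    rw [h3, mul_inv_cancel_right] at h2
    have h4 := congrArg (fun z : VK p K => ((z : K) : G)) (ι_injective _ h2)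
    have h5 : ((v : K) : G) = x * ((v : K) : G) * x⁻¹ := h4
    nth_rewrite 2 [h5]; group
  · refine le_inf (inf_le_left.trans (map_subtype_le _)) inf_le_right
  · constructor
    · apply isMulCommutative_of_forall
      intro a ha b hb
      obtain ⟨v, -, rfl⟩ := (memW a).1 ha
      obtain ⟨w, -, rfl⟩ := (memW b).1 hb
      have := comm_of_ea hVea v.2 w.2
      exact congrArg Subtype.val this
    · intro a ha
      obtain ⟨v, -, rfl⟩ := (memW a).1 ha
      exact congrArg Subtype.val (hVea.2 v v.2)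
  · rw [hW, Subgroup.card_map_of_injective K.subtype_injective, Subgroup.card_map_of_injective (VK p K).subtype_injective,
      ← O.fix_card hqp hA]
    have h1 : (F.comap (ι (VK p K))).map (ι (VK p K)) = F := by
      rw [map_comap_eq]; exact inf_eq_right.2 hFV
    conv_rhs => rw [← hF, ← h1]
    exact (Subgroup.card_map_of_injective (ι_injective _)).symm
  · obtain ⟨φ, hφs, hφk⟩ := O.exists_proj hA
    have hlift : ∀ d : D, ∃ k : K, (k : G) = d ∧ θ (VK p K) k ∈ HH p K ⊓ centralizer (XX p hXK : Set (Hol (VK p K))) := by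
      rintro ⟨d, hd⟩
      obtain ⟨k, hk, hkX, rfl⟩ := (memD d).1 hd
      exact ⟨k, rfl, hk, commute_of_fix hXK hkX⟩
    have hDK : D ≤ K := inf_le_left.trans (map_subtype_le _)
    let ψ : D →* (HH p K ⊓ centralizer (XX p hXK : Set (Hol (VK p K))) : Subgroup (Hol (VK p K))) :=
      ((θ (VK p K)).comp (inclusion hDK)).codRestrict _ (by
        intro d
        obtain ⟨k, hk, hk'⟩ := hlift d
        have : k = inclusion hDK d := Subtype.ext hk
        rw [this] at hk'
        exact hk')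
    have hψs : Function.Surjective ψ := by
      rintro ⟨y, hy1, hy2⟩
      obtain ⟨k, hk, rfl⟩ := hy1
      obtain ⟨c, hc, hck⟩ := exists_lift (p := p) hXK hX hqK hy2
      refine ⟨⟨c, (memD _).2 ⟨c, ?_, hc, rfl⟩⟩, Subtype.ext hck⟩
      rw [hck]; exact ⟨k, hk, rfl⟩
    have hker : (φ.comp ψ).ker = (centralizer (W : Set G)).subgroupOf D := by
      ext d
      obtain ⟨k, hk, hk'⟩ := hlift d
      have hkd : k = inclusion hDK d := Subtype.ext hk
      have hψ : (ψ d : Hol (VK p K)) = θ (VK p K) k := by rw [hkd]; rfl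
      rw [MonoidHom.mem_ker, MonoidHom.comp_apply, hφk, ← O.fix_cent hqp hA (ψ d).2.1 (ψ d).2.2, mem_subgroupOf, hψ,
        mem_centralizer_iff, mem_centralizer_iff]
      constructor
      · intro h w hw
        obtain ⟨v, hv, rfl⟩ := (memW w).1 hw
        have h1 := h _ hv
        have h2 := θ_conj (VK p K) k v
        rw [← h1, mul_inv_cancel_right] at h2
        have h4 := congrArg (fun z : VK p K => ((z : K) : G)) (ι_injective _ h2)
        have h5 : ((v : K) : G) = (k : G) * ((v : K) : G) * (k : G)⁻¹ := h4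
        rw [← hk]
        nth_rewrite 1 [h5]; group
      · intro h w hw
        obtain ⟨v, rfl⟩ := hFV hw
        have h1 := h _ ((memW _).2 ⟨v, hw, rfl⟩)
        have h2 := θ_conj (VK p K) k v
        have h3 : (⟨(k : K) * (v : K) * (k : K)⁻¹, (inferInstance : (VK p K).Normal).conj_mem _ v.2 k⟩ : VK p K) = v := by
          apply Subtype.ext
          apply Subtype.ext
          change (k : G) * ((v : K) : G) * (k : G)⁻¹ = v
          rw [hk, ← h1, mul_inv_cancel_right]
        rw [h3] at h2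
        exact (mul_inv_eq_iff_eq_mul.1 h2).symm
    have hnn : ((centralizer (W : Set G)).subgroupOf D).Normal := by rw [← hker]; infer_instance
    refine ⟨hnn, ?_⟩
    obtain ⟨e⟩ := (O.oS.comp hA).sl2
    have hcs : Function.Surjective (φ.comp ψ) := by
      rw [MonoidHom.coe_comp]; exact hφs.comp hψs
    exact ⟨(QuotientGroup.quotientMulEquivOfEq hker.symm).trans
      ((QuotientGroup.quotientKerEquivOfSurjective _ hcs).trans e)⟩

end Main

end Cfsg.Agent.H2.FFE
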