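import Mathlib
import Cfsg.Agent.H2_QuatSec

set_option autoImplicit false
set_option linter.style.haveILetI false

open Subgroup Cfsg
open scoped commutatorElement

namespace Cfsg.Agent.H2.QuatSec

open Cfsg.Agent.H2.Basic Cfsg.Agent.H10.Q8

variable {G : Type*} [Group G] [Finite G]

theorem section_sl (T : Sylow 2 G) {n : ℕ} (e : (T : Subgroup G) ≃* QuaternionGroup (2 ^ n))
    (hnpc : ¬ HasNormalPComplement 2 G) :
    ∃ (H K : Subgroup G) (hK : (K.subgroupOf H).Normal), Nonempty ((H ⧸ K.subgroupOf H) ≃* Matrix.SpecialLinearGroup (Fin 2) (ZMod 3)) := by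
  haveI : Fact (Nat.Prime 2) := ⟨Nat.prime_two⟩
  obtain ⟨Q, g, q, hQ, hg, hq, hq2, ⟨k, hk⟩, hgC⟩ := Cfsg.Agent.H2.Ito.exists_bad hnpc
  have hgo : (orderOf g).Coprime 2 := by
    have h1 : orderOf g ∣ q ^ k := orderOf_dvd_of_pow_eq_one hk
    exact Nat.Coprime.coprime_dvd_left h1 (((Nat.coprime_primes hq Nat.prime_two).2 hq2).pow_left k)
  obtain ⟨f⟩ := is_q8 T e hQ hg hgo hgC
  obtain ⟨t, h⟩ := QD.of_equiv f
  obtain ⟨i, hi, hii, h1, h2, h3⟩ := exists_data h hg hgo hgC
  set j := g * i * g⁻¹ with hj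
  have hjQ : j ∈ Q := (mem_normalizer_iff.1 hg _).1 hi
  have hgt : Commute g t := h.comm_t le_rfl hg h.ht
  have hit : Commute i t := h.tc i hi
  -- `g ^ 3` centralizes `Q`
  have hg3i : Commute (g ^ 3) i := by
    have : g ^ 3 * i * (g ^ 3)⁻¹ = i := by
      calc g ^ 3 * i * (g ^ 3)⁻¹ = g * (g * (g * i * g⁻¹) * g⁻¹) * g⁻¹ := by
            rw [show g ^ 3 = g * g * g by rw [pow_succ, pow_two]]; group
        _ = g * (i * j) * g⁻¹ := by rw [← hj, h1]
        _ = (g * i * g⁻¹) * (g * j * g⁻¹) := by group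
        _ = j * (i * j) := by rw [← hj, h1]
        _ = (j * i * j⁻¹) * (j * j) := by group
        _ = i * t * t := by rw [h3, h2]
        _ = i := by rw [mul_assoc, h.tt, mul_one]
    exact mul_inv_eq_iff_eq_mul.1 this
  have hg3j : Commute (g ^ 3) j := by
    have : g ^ 3 * j * (g ^ 3)⁻¹ = j := by
      calc g ^ 3 * j * (g ^ 3)⁻¹ = g * (g ^ 3 * i * (g ^ 3)⁻¹) * g⁻¹ := by rw [hj]; group
        _ = j := by rw [hg3i.eq, hj]; group
    exact mul_inv_eq_iff_eq_mul.1 this
  have hji : j ≠ i ∧ j ≠ i * t := by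
    have h4 : i ≠ i * t := fun h4 => h.t1 (mul_eq_left.1 h4.symm)
    constructor
    · intro h5
      rw [h5] at h3
      apply h4
      calc i = i * i * i⁻¹ := by group
        _ = i * t := h3
    · intro h5
      apply h4
      rw [h5] at h3
      calc i = i * (i * t) * (i * t)⁻¹ := by group
        _ = (i * t) * i * (i * t)⁻¹ := by rw [mul_assoc i t i, ← hit.eq]
        _ = i * t := h3
  have hg3C : ∀ w ∈ Q, Commute (g ^ 3) w := by
    intro w hw
    have hg3t : Commute (g ^ 3) t := hgt.pow_left 3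
    rcases h.cs w hw with h4 | h4 | h4
    · rw [h4]; exact Commute.one_right _
    · rw [h4]; exact hg3t
    · rcases h.f3 i hi j hjQ w hw hii h2 h4 with h5 | h5 | h5 | h5 | h5 | h5 | h5 | h5
      · exact absurd h5 hji.1
      · exact absurd h5 hji.2
      · rw [h5]; exact hg3i
      · rw [h5]; exact hg3i.mul_right hg3t
      · rw [h5]; exact hg3j
      · rw [h5]; exact hg3j.mul_right hg3t
      · rw [h5]; exact hg3i.mul_right hg3j
      · rw [h5]; exact (hg3i.mul_right hg3j).mul_right hg3t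
  have hd3 : 3 ∣ orderOf g := by
    by_contra hno
    apply hgC
    have hcop : (orderOf g).Coprime 3 := (Nat.coprime_comm.1 ((Nat.Prime.coprime_iff_not_dvd Nat.prime_three).2 hno))
    obtain ⟨m, hm⟩ := exists_pow_eq_self_of_coprime (x := g) (n := 3) hcop.symm
    rw [← hm, mem_centralizer_iff]
    intro w hw
    exact ((hg3C w hw).pow_left m).eq.symm
  have hNz : zpowers g ≤ normalizer (Q : Set G) := by rwa [zpowers_le]
  set H : Subgroup G := zpowers g ⊔ Q with hH
  set K : Subgroup G := zpowers (g ^ 3) with hK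
  have hKg : K ≤ zpowers g := by rw [hK, zpowers_le]; exact pow_mem (mem_zpowers g) 3
  have hKH : K ≤ H := hKg.trans le_sup_left
  have hHC : H ≤ centralizer (K : Set G) := by
    rw [hH, sup_le_iff]
    constructor
    · rw [zpowers_le, mem_centralizer_iff]
      rintro _ ⟨m, rfl⟩
      exact (((Commute.refl g).pow_left 3).zpow_left m).eq
    · intro w hw
      rw [mem_centralizer_iff]
      rintro _ ⟨m, rfl⟩
      exact ((hg3C w hw).zpow_left m).eq
  have hKn : (K.subgroupOf H).Normal := by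
    rw [normal_subgroupOf_iff_le_normalizer hKH]
    exact hHC.trans (centralizer_le_normalizer _)
  have hcardQ : Nat.card Q = 8 := h.card
  have hcardH : Nat.card H = orderOf g * 8 := by
    have h4 := Cfsg.Agent.H2.Card.card_sup_mul_card_inf hNz
    have h5 : zpowers g ⊓ Q = ⊥ := by
      rw [← disjoint_iff]
      apply Subgroup.disjoint_of_coprime_natCard
      rw [Nat.card_zpowers, hcardQ]
      exact hgo.pow_right 3
    rw [h5, Subgroup.card_bot, mul_one, Nat.card_zpowers, hcardQ] at h4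
    exact h4
  have hcardK : Nat.card K * 3 = orderOf g := by
    rw [hK, Nat.card_zpowers, orderOf_pow_of_dvd (by norm_num) hd3]
    exact Nat.div_mul_cancel hd3
  have hcard : Nat.card (H ⧸ K.subgroupOf H) = 24 := by
    have h4 := Subgroup.card_eq_card_quotient_mul_card_subgroup (K.subgroupOf H)
    rw [Cfsg.Agent.H2.Card.card_subgroupOf_of_le hKH, hcardH, ← hcardK] at h4
    have h5 : 0 < Nat.card K := Nat.card_pos
    have h6 : Nat.card K * 24 = Nat.card K * Nat.card (H ⧸ K.subgroupOf H) := by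
      rw [mul_comm (Nat.card K) (Nat.card (H ⧸ _)), ← h4]; ring
    exact (Nat.eq_of_mul_eq_mul_left h5 h6).symm
  refine ⟨H, K, hKn, ?_⟩
  have hiH : i ∈ H := (le_sup_right : Q ≤ H) hi
  have hjH : j ∈ H := (le_sup_right : Q ≤ H) hjQ
  have hgH : g ∈ H := (le_sup_left : zpowers g ≤ H) (mem_zpowers g)
  have htK : t ∉ K := by
    intro h4
    have h5 : t ∈ zpowers g ⊓ Q := ⟨hKg h4, h.ht⟩
    have h6 : zpowers g ⊓ Q = ⊥ := by
      rw [← disjoint_iff]
      apply Subgroup.disjoint_of_coprime_natCard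
      rw [Nat.card_zpowers, hcardQ]
      exact hgo.pow_right 3
    rw [h6, mem_bot] at h5
    exact h.t1 h5
  set π := QuotientGroup.mk' (K.subgroupOf H) with hπ
  have hone : ∀ x : H, π x = 1 ↔ (x : G) ∈ K := by
    intro x
    rw [hπ, QuotientGroup.mk'_apply, QuotientGroup.eq_one_iff, mem_subgroupOf]
  apply Cfsg.Agent.H2.SL23.nonempty_sl (i := π ⟨i, hiH⟩) (j := π ⟨j, hjH⟩) (g := π ⟨g, hgH⟩) _ hcard
  refine ⟨?_, ?_, ?_, ?_, ?_, ?_⟩
  · apply orderOf_eq_prime_pow (p := 2) (n := 1)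
    · rw [← map_pow, hone]
      change ¬ (i ^ 2 ^ 1 ∈ K)
      rw [pow_one, pow_two, hii]; exact htK
    · rw [← map_pow, hone]
      change i ^ 2 ^ (1 + 1) ∈ K
      rw [show (2 : ℕ) ^ (1 + 1) = 2 * 2 by norm_num, pow_mul, pow_two i, hii, pow_two, h.tt]
      exact one_mem _
  · haveI : Fact (Nat.Prime 3) := ⟨Nat.prime_three⟩
    apply orderOf_eq_prime
    · rw [← map_pow, hone]
      change g ^ 3 ∈ K
      exact mem_zpowers _
    · rw [Ne, hone]
      change ¬ (g ∈ K)
      intro h4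
      have h5 : zpowers g ≤ K := by rwa [zpowers_le]
      have h6 := card_le_of_le h5
      rw [Nat.card_zpowers, ← hcardK] at h6
      have h7 : 0 < Nat.card K := Nat.card_pos
      omega
  · rw [← map_mul, ← map_pow]
    congr 1
    apply Subtype.ext
    change j * j = i ^ 2
    rw [h2, pow_two, hii]
  · rw [← map_mul, ← map_inv, ← map_mul, ← map_inv]
    congr 1
    apply Subtype.ext
    change j * i * j⁻¹ = i⁻¹
    rw [h3, eq_inv_iff_mul_eq_one]
    calc i * t * i = i * (t * i) := mul_assoc _ _ _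
      _ = i * i * t := by rw [hit.symm.eq, mul_assoc]
      _ = 1 := by rw [hii, h.tt]
  · rw [← map_mul, ← map_inv, ← map_mul]
    rfl
  · rw [← map_mul, ← map_inv, ← map_mul, ← map_mul]
    congr 1
    apply Subtype.ext
    exact h1

end Cfsg.Agent.H2.QuatSec
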