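import Mathlib
import Cfsg.Prelude
import Cfsg.Agent.H13_Syl
import Cfsg.Agent.H2_ThompFact

/-! Strong embedding and straddling subgroups. -/

set_option autoImplicit false
set_option linter.unusedSectionVars false
set_option linter.style.haveILetI false

open Subgroup Cfsg
open scoped Pointwise

universe u

namespace Cfsg.Agent.H2.Strad

open Cfsg.Agent.H13.Syl

variable {G : Type u} [Group G] [Finite G]

theorem even_of_ne_bot {T : Subgroup G} (hT : IsPGroup 2 T) (hT1 : T ≠ ⊥) : 2 ∣ Nat.card T := by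
  obtain ⟨k, hk⟩ := IsPGroup.iff_card.1 hT
  rcases k with _ | k
  · exact absurd (card_eq_one.1 hk) hT1
  · rw [hk]; exact dvd_pow_self 2 (by omega)

theorem norm_le_J (S : Subgroup G) : normalizer (S : Set G) ≤ normalizer (thompsonSubgroupOf 2 S : Set G) := by
  intro g hg
  rw [← Cfsg.Agent.H1.Basic.conj_eq_iff_mem_normalizer] at hg ⊢
  rw [← Cfsg.Agent.H2.Thompson.thompsonOf_conj, hg]

theorem main (hO : Cfsg.pCore 2 G = ⊥) (S : Sylow 2 G) (M : Subgroup G) (hM : Cfsg.IsTwoLocal M)
    (hMJ : Subgroup.normalizer (Cfsg.thompsonSubgroupOf 2 (S : Subgroup G) : Set G) ≤ M) :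
    Cfsg.IsStronglyEmbedded M ↔ Cfsg.straddlingTwoSubgroups M = ∅ := by
  haveI : Fact (Nat.Prime 2) := ⟨Nat.prime_two⟩
  constructor
  · rintro ⟨h1, h2, h3⟩
    rw [Set.eq_empty_iff_forall_notMem]
    rintro T ⟨hT, hT1, hTM, L, ⟨U, hU, hU1, rfl⟩, hTL, hLM⟩
    apply hLM
    have hloc : ∀ X : Subgroup G, IsPGroup 2 X → X ≠ ⊥ → X ≤ M → normalizer (X : Set G) ≤ M := by
      intro X hX hX1 hXM g hg
      by_contra hgM
      have h4 := h3 g hgM
      have h5 : X ≤ M ⊓ M.map (MulAut.conj g).toMonoidHom := by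
        refine le_inf hXM ?_
        rw [← cj_eq_of_mem_normalizer hg]
        exact map_mono hXM
      have h6 := (even_of_ne_bot hX hX1).trans (Subgroup.card_dvd_of_le h5)
      exact (Nat.not_even_iff_odd.2 h4) (even_iff_two_dvd.2 h6)
    set L := normalizer (U : Set G) with hL
    obtain ⟨S₀, hTS, hS₀⟩ := exists_isSylIn_ge (p := 2) (A := T) (H := L ⊓ M) hT (le_inf hTL hTM)
    have hS₀1 : S₀ ≠ ⊥ := fun hb => hT1 (le_bot_iff.1 (hb ▸ hTS))
    have hN := hloc S₀ hS₀.2.1 hS₀1 (hS₀.1.trans inf_le_right)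
    have hS₀L : IsSylIn 2 S₀ L := by
      apply isSylIn_of_isSylIn_normalizer
      exact hS₀.mono (le_inf (hS₀.1.trans inf_le_left) le_normalizer) (inf_le_inf_left _ hN)
    obtain ⟨x, hx, hxU⟩ := hS₀L.exists_conj_le hU le_normalizer
    rw [cj_eq_of_mem_normalizer hx] at hxU
    exact hloc U hU hU1 (hxU.trans (hS₀.1.trans inf_le_right))
  · intro hempty
    obtain ⟨U, hU, hU1, hMU⟩ := hM
    have hUM : U ≤ M := by rw [hMU]; exact le_normalizer
    have h2M := even_of_ne_bot hU hU1
    refine ⟨?_, ?_, ?_⟩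
    · rintro rfl
      have hUn : U.Normal := normalizer_eq_top_iff.1 hMU.symm
      have := Cfsg.Agent.H1.Nilp.le_pCore hUn hU
      rw [hO, le_bot_iff] at this
      exact hU1 this
    · exact even_iff_two_dvd.2 (h2M.trans (Subgroup.card_dvd_of_le hUM))
    · intro g hg
      by_contra hodd
      rw [Nat.not_odd_iff_even, even_iff_two_dvd] at hodd
      obtain ⟨t, ht⟩ := exists_prime_orderOf_dvd_card' 2 hodd
      have ht' : orderOf (t : G) = 2 := by rw [Subgroup.orderOf_coe]; exact ht
      obtain ⟨ht1, ht2⟩ := mem_inf.1 t.2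
      have hTp : IsPGroup 2 (zpowers (t : G)) := by
        apply IsPGroup.of_card (n := 1); rw [Nat.card_zpowers, ht', pow_one]
      have hT1 : zpowers (t : G) ≠ ⊥ := by
        rw [Ne, zpowers_eq_bot]
        rintro h
        rw [h, orderOf_one] at ht'
        norm_num at ht'
      have hle : cj g M ≤ M := by
        by_contra hnot
        have : zpowers (t : G) ∈ straddlingTwoSubgroups M := by
          refine ⟨hTp, hT1, zpowers_le.2 ht1, cj g M, ⟨cj g U, isPGroup_cj hU, ?_, ?_⟩, zpowers_le.2 ht2, hnot⟩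
          · rw [Ne, cj_eq_bot_iff]; exact hU1
          · rw [hMU, cj_normalizer]
        rw [hempty] at this
        exact this
      have heq : cj g M = M := Subgroup.eq_of_le_of_card_ge hle (by rw [card_cj])
      apply hg
      have hSM : (S : Subgroup G) ≤ M := le_normalizer.trans ((norm_le_J _).trans hMJ)
      have hS := (isSylIn_sylow_top S).mono hSM le_top
      have hS' : IsSylIn 2 (cj g S) M := by
        have := hS.cj g
        rwa [heq] at this
      obtain ⟨m, hm, hmS⟩ := hS.exists_conj_eq hS'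
      rw [← cj_mul, ← mem_normalizer_iff_cj] at hmS
      have h3 : m * g ∈ M := hMJ (norm_le_J _ hmS)
      exact (mul_mem_cancel_left hm).1 h3

end Cfsg.Agent.H2.Strad
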