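import Mathlib
import Cfsg.Agent.H13_Alp

/-! Alperin's fusion theorem with tame intersections. -/

set_option autoImplicit false

open Subgroup Cfsg

namespace Cfsg.Agent.H2.Tame

open Cfsg.Agent.H13.Syl Cfsg.Agent.H13.Alp

variable {G : Type*} [Group G] [Finite G] {p : ℕ} [hp : Fact p.Prime]

/-- tame intersections with `P` -/
def TameFam (p : ℕ) {G : Type*} [Group G] (P : Subgroup G) : Set (Subgroup G) :=
  {T | ∃ Q : Sylow p G, P ⊓ Q = T ∧ ¬ p ∣ (P ⊓ normalizer (T : Set G)).relIndex (normalizer (T : Set G)) ∧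
    ¬ p ∣ ((Q : Subgroup G) ⊓ normalizer (T : Set G)).relIndex (normalizer (T : Set G))}

theorem tame_family (P : Sylow p G) : IsConjugationFamily (TameFam p (P : Subgroup G)) (P : Subgroup G) := by
  have hS : IsSylIn p (P : Subgroup G) ⊤ := isSylIn_sylow_top P
  apply isConjugationFamily_of_seq
  · rintro T ⟨Q, rfl, -, -⟩
    exact inf_le_left
  refine alperin_abstract hS ⊥ inferInstance bot_le
    (fun A g => ∃ l, Seq (TameFam p (P : Subgroup G)) (A : Set G) l ∧ (l.map Prod.snd).prod = g⁻¹) ?_ ?_ ?_ ?_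
  · rintro A g k hA hgA hkA ⟨l₁, h₁, h₁'⟩ ⟨l₂, h₂, h₂'⟩
    refine ⟨l₁ ++ l₂, seq_append h₁ ?_, ?_⟩
    · rw [h₁', rc_inv_cj]; exact h₂
    · rw [List.map_append, List.prod_append, h₁', h₂', mul_inv_rev]
  · rintro A g hA hgA ⟨l, h₁, h₁'⟩
    refine ⟨revSeq l, ?_, ?_⟩
    · have := seq_rev h₁
      rwa [h₁', rc_inv_cj] at this
    · rw [revSeq_prod, h₁']
  · rintro A B g hAB hB hgB ⟨l, h₁, h₁'⟩
    exact ⟨l, seq_mono hAB h₁, h₁'⟩
  · intro T _ hTS
    obtain ⟨g, hFN, -⟩ := exists_fullyNorm hS hTS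
    refine ⟨cj g T, hFN.1, ⟨g, rfl⟩, hFN.2, ?_⟩
    set U := cj g T with hU
    intro hbig n hn
    -- `Q = n⁻¹ P n`
    obtain ⟨Q, hQ⟩ : ∃ Q : Sylow p G, (Q : Subgroup G) = cj n⁻¹ (P : Subgroup G) := by
      have h1 : IsSylIn p (cj n⁻¹ (P : Subgroup G)) ⊤ := by
        have := hS.cj n⁻¹
        rwa [cj_top] at this
      exact h1.exists_sylow_top
    have hnU : cj n U = U := cj_eq_of_mem_normalizer hn
    have hniU : cj n⁻¹ U = U := cj_eq_of_mem_normalizer (inv_mem hn)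
    have hUQ : U ≤ (Q : Subgroup G) := by
      rw [hQ, ← hniU]; exact cj_mono hFN.1
    have hUA : U ≤ (P : Subgroup G) ⊓ Q := le_inf hFN.1 hUQ
    rcases eq_or_lt_of_le hUA with heq | hlt
    · -- tame
      have hmem : U ∈ TameFam p (P : Subgroup G) := by
        refine ⟨Q, heq.symm, hFN.2.2.2, ?_⟩
        have h1 := (hFN.2.cj n⁻¹).2.2
        rw [cj_inf, cj_normalizer, hniU, ← hQ] at h1
        exact h1
      exact ⟨[(U, n⁻¹)], ⟨hmem, inv_mem hn, le_rfl, trivial⟩, by simp⟩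
    · obtain ⟨l, hl, hl'⟩ := hbig ((P : Subgroup G) ⊓ Q) inf_le_left (by
        have hle : U ≤ (P : Subgroup G) ⊓ Q := hlt.le
        by_contra hc
        push Not at hc
        exact hlt.ne (eq_of_le_of_card_ge hle hc)) n (by
        rw [cj_inf, hQ, cj_cj_inv]; exact inf_le_right)
      exact ⟨l, seq_mono (SetLike.coe_subset_coe.2 hlt.le) hl, hl'⟩

end Cfsg.Agent.H2.Tame
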