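import Cfsg.Statements.S0947
import Cfsg.Agent.H10_BlockPrin

set_option autoImplicit false
open Cfsg

namespace Cfsg.Agent.S0947

/-- Let z ≠ 1 be a p-element of the finite group G with centralizer H, and fix a maximal ideal M of the algebraic integers containing p. (i) For every y ∈ H of order prime to p, the sum over ζ in the principal block of G of |ζ (z * y)|² equals the sum over χ in the principal block of H of |χ y|². (ii) If moreover H has a normal p-complement (its largest normal subgroup of order prime to p has p-power index), that common value is the largest power of p dividing the order of H. -/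
theorem result {G : Type*} [Group G] [Finite G] (p : ℕ) [Fact p.Prime] (M : Ideal Cfsg.AlgInt) (hM : Cfsg.IsPModular p M) (z : G) (hz : ∃ k : ℕ, orderOf z = p ^ k) (hz1 : z ≠ 1) (y : Subgroup.centralizer ({z} : Set G)) (hy : ¬ p ∣ orderOf y) : (∑ᶠ ζ ∈ Cfsg.principalBlock M G, ‖(ζ : G → ℂ) (z * (y : G))‖ ^ 2 = ∑ᶠ χ ∈ Cfsg.principalBlock M (Subgroup.centralizer ({z} : Set G)), ‖(χ : Subgroup.centralizer ({z} : Set G) → ℂ) y‖ ^ 2) ∧ ((∃ k : ℕ, (Cfsg.pPrimeCore p (Subgroup.centralizer ({z} : Set G))).index = p ^ k) → ∑ᶠ ζ ∈ Cfsg.principalBlock M G, ‖(ζ : G → ℂ) (z * (y : G))‖ ^ 2 = ((p ^ (Nat.card (Subgroup.centralizer ({z} : Set G))).factorization p : ℕ) : ℝ)) := by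
  classical
  haveI := Fintype.ofFinite G
  haveI := hM.2.1
  haveI : Fintype (Subgroup.centralizer ({z} : Set G)) := Fintype.ofFinite _
  haveI : Fintype (IrrCharacter G) := Fintype.ofFinite _
  haveI : Fintype (IrrCharacter (Subgroup.centralizer ({z} : Set G))) := Fintype.ofFinite _
  have h1 := Cfsg.Agent.H10.BlockPrin.principal_norm hM hz y hy
  have e1 : ((∑ᶠ ζ ∈ principalBlock M G, ‖(ζ : G → ℂ) (z * (y : G))‖ ^ 2 : ℝ) : ℂ) =
      ∑ χ : IrrCharacter G, (if χ ∈ principalBlock M G then
        (χ : G → ℂ) (z * y) * (starRingEnd ℂ) ((χ : G → ℂ) (z * y)) else 0) := by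
    rw [Cfsg.Agent.H10.BlockOrth.finsum_mem_irr]
    push_cast
    refine Finset.sum_congr rfl fun χ _ => ?_
    by_cases h : χ ∈ principalBlock M G
    · rw [if_pos h, if_pos h, Complex.mul_conj']; push_cast; rfl
    · rw [if_neg h, if_neg h]; push_cast; rfl
  have e2 : ((∑ᶠ χ ∈ principalBlock M (Subgroup.centralizer ({z} : Set G)),
      ‖(χ : Subgroup.centralizer ({z} : Set G) → ℂ) y‖ ^ 2 : ℝ) : ℂ) =
      ∑ ψ : IrrCharacter (Subgroup.centralizer ({z} : Set G)),
        (if ψ ∈ principalBlock M (Subgroup.centralizer ({z} : Set G)) then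
          (ψ : Subgroup.centralizer ({z} : Set G) → ℂ) y *
            (starRingEnd ℂ) ((ψ : Subgroup.centralizer ({z} : Set G) → ℂ) y) else 0) := by
    rw [Cfsg.Agent.H10.BlockOrth.finsum_mem_irr]
    push_cast
    refine Finset.sum_congr rfl fun χ _ => ?_
    by_cases h : χ ∈ principalBlock M (Subgroup.centralizer ({z} : Set G))
    · rw [if_pos h, if_pos h, Complex.mul_conj']; push_cast; rfl
    · rw [if_neg h, if_neg h]; push_cast; rfl
  have h2 : (∑ᶠ ζ ∈ principalBlock M G, ‖(ζ : G → ℂ) (z * (y : G))‖ ^ 2 : ℝ) =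
      ∑ᶠ χ ∈ principalBlock M (Subgroup.centralizer ({z} : Set G)),
      ‖(χ : Subgroup.centralizer ({z} : Set G) → ℂ) y‖ ^ 2 := by
    apply Complex.ofReal_injective
    rw [e1, e2, h1]
  refine ⟨h2, fun hidx => ?_⟩
  have hcop : ¬ p ∣ Nat.card (pPrimeCore p (Subgroup.centralizer ({z} : Set G))) := by
    intro h
    have := Cfsg.Agent.H11.Cores.pPrimeCore_coprime (G := Subgroup.centralizer ({z} : Set G)) p
    exact (Nat.Prime.coprime_iff_not_dvd hM.1).1 this.symm h
  haveI hnor : (pPrimeCore p (Subgroup.centralizer ({z} : Set G))).Normal := inferInstance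
  apply Complex.ofReal_injective
  rw [e1, h1]
  have h3 := Cfsg.Agent.H10.BlockPrin.sum_sq_ker (pPrimeCore p (Subgroup.centralizer ({z} : Set G)))
  have h4 : ∑ ψ : IrrCharacter (Subgroup.centralizer ({z} : Set G)),
        (if ψ ∈ principalBlock M (Subgroup.centralizer ({z} : Set G)) then
          (ψ : Subgroup.centralizer ({z} : Set G) → ℂ) y *
            (starRingEnd ℂ) ((ψ : Subgroup.centralizer ({z} : Set G) → ℂ) y) else 0) =
      ((pPrimeCore p (Subgroup.centralizer ({z} : Set G))).index : ℂ) := by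
    rw [← h3]
    refine Finset.sum_congr rfl fun ψ _ => ?_
    by_cases h : ψ ∈ principalBlock M (Subgroup.centralizer ({z} : Set G))
    · have h5 := Cfsg.Agent.H10.BlockKer.principal_ker hM _ hcop h
      have h6 := h5 y (Cfsg.Agent.H10.BlockKer.regular_mem hM.1 hidx hy)
      rw [if_pos h, if_pos h5, h6]
    · rw [if_neg h, if_neg]
      intro h5
      exact h (Cfsg.Agent.H10.BlockKer.principal_of_complement hM _ hcop hidx h5)
  rw [h4]
  have h7 : (pPrimeCore p (Subgroup.centralizer ({z} : Set G))).index =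
      p ^ (Nat.card (Subgroup.centralizer ({z} : Set G))).factorization p := by
    obtain ⟨k, hk⟩ := hidx
    have h8 := (pPrimeCore p (Subgroup.centralizer ({z} : Set G))).card_mul_index
    rw [hk] at h8 ⊢
    rw [← h8, Nat.factorization_mul Nat.card_pos.ne' (pow_pos hM.1.pos k).ne', Finsupp.add_apply,
      Nat.factorization_pow, Finsupp.smul_apply, Nat.Prime.factorization_self hM.1,
      Nat.factorization_eq_zero_of_not_dvd hcop]
    simp
  rw [h7]
  push_cast
  rfl

end Cfsg.Agent.S0947
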