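import Mathlib
import Cfsg.Prelude.Def_Characters
import Cfsg.Prelude.Def_Blocks
import Cfsg.Prelude.Def_Local
import Cfsg.Agent.H3_BF3
import Cfsg.Agent.H1_Nilp
import Cfsg.Agent.S0942
import Cfsg.Agent.S0947

/-!
# The principal block
-/

set_option autoImplicit false

open scoped ComplexConjugate

namespace Cfsg.Agent.H3.BF

open Cfsg Cfsg.Agent.H3.CharBasic Cfsg.Agent.H3.CharIrr Cfsg.Agent.H3.CharInt Cfsg.Agent.H3.CharCalc
  Cfsg.Agent.H3.CharComplete Cfsg.Agent.H3.CharInd Cfsg.Agent.H3.CharMult Cfsg.Agent.H3.CharQuot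

section Char

variable {G : Type*} [Group G] [Fintype G] {P M V : Subgroup G} {k : ℕ} (D : Dat P M V k)
  {p n : ℕ} [hp : Fact p.Prime] (hPn : Nat.card P = p ^ n) (hV : ¬ p ∣ Nat.card V)
  {I : Ideal AlgInt} (hI : IsPModular p I)

include D in
theorem cent_eq {x : G} (hx : x ∈ P) (hx1 : x ≠ 1) : Subgroup.centralizer ({x} : Set G) = M := by
  ext g
  rw [Subgroup.mem_centralizer_singleton_iff, D.cent x hx hx1]

include D in
theorem card_Vsub {x : G} (hx : x ∈ P) (hx1 : x ≠ 1) :
    Nat.card (V.subgroupOf (Subgroup.centralizer ({x} : Set G))) = Nat.card V := by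
  have hc := cent_eq D hx hx1
  apply Nat.card_congr
  exact (Subgroup.subgroupOfEquivOfLe (by rw [hc]; exact D.VM)).toEquiv

include D hV in
theorem V_le_core {x : G} (hx : x ∈ P) (hx1 : x ≠ 1) :
    V.subgroupOf (Subgroup.centralizer ({x} : Set G)) ≤ pPrimeCore p (Subgroup.centralizer ({x} : Set G)) := by
  have hc := cent_eq D hx hx1
  apply Cfsg.Agent.H1.Nilp.le_pPrimeCore
  · refine ⟨fun v hv g => ?_⟩
    rw [Subgroup.mem_subgroupOf] at hv ⊢
    have hg : (g : G) ∈ M := by rw [← hc]; exact g.2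
    have := V_conj D (M_le_NN D (inv_mem hg)) hv
    simpa using this
  · rw [card_Vsub D hx hx1]
    exact ((Nat.Prime.coprime_iff_not_dvd hp.out).mpr hV).symm

include hPn in
theorem order_pow {x : G} (hx : x ∈ P) : ∃ j, orderOf x = p ^ j := by
  have h1 : orderOf x ∣ p ^ n := by
    rw [← hPn]
    have := orderOf_dvd_natCard (⟨x, hx⟩ : P)
    rwa [Subgroup.orderOf_mk] at this
  obtain ⟨j, -, hj⟩ := (Nat.dvd_prime_pow hp.out).mp h1
  exact ⟨j, hj⟩

include D hPn hV hI in
theorem B0_const {ζ : IrrCharacter G} (hζ : ζ ∈ principalBlock I G) {x v : G} (hx : x ∈ P) (hx1 : x ≠ 1) (hv : v ∈ V) :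
    (ζ : G → ℂ) (x * v) = (ζ : G → ℂ) x := by
  have hc := cent_eq D hx hx1
  refine Cfsg.Agent.S0942.result p I hI x (order_pow hPn hx) v ?_ ζ hζ
  refine ⟨⟨v, by rw [hc]; exact D.VM hv⟩, ?_, rfl⟩
  exact V_le_core D hV hx hx1 (by rw [Subgroup.mem_subgroupOf]; exact hv)

include D hPn hV hI in
theorem B0_norm {x : G} (hx : x ∈ P) (hx1 : x ≠ 1) : ∑ᶠ ζ ∈ principalBlock I G, ‖(ζ : G → ℂ) x‖ ^ 2 = (Nat.card P : ℝ) := by
  have hc := cent_eq D hx hx1
  have h1 := (Cfsg.Agent.S0947.result p I hI x (order_pow hPn hx) hx1 1 (by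
    rw [orderOf_one]; exact hp.out.one_lt.ne' ∘ Nat.dvd_one.mp)).2 (by
    have h2 : (pPrimeCore p (Subgroup.centralizer ({x} : Set G))).index ∣ p ^ n := by
      refine (Subgroup.index_dvd_of_le (V_le_core D hV hx hx1)).trans ?_
      have h3 : (V.subgroupOf (Subgroup.centralizer ({x} : Set G))).index = Nat.card P := by
        have h5 := Subgroup.index_mul_card (V.subgroupOf (Subgroup.centralizer ({x} : Set G)))
        rw [card_Vsub D hx hx1, hc, card_M D] at h5
        rw [hc]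
        exact Nat.eq_of_mul_eq_mul_right Nat.card_pos h5
      rw [h3, hPn]
    obtain ⟨j, -, hj⟩ := (Nat.dvd_prime_pow hp.out).mp h2
    exact ⟨j, hj⟩)
  have h2 : (Nat.card (Subgroup.centralizer ({x} : Set G))).factorization p = n := by
    rw [hc, card_M D, hPn, Nat.factorization_mul (pow_ne_zero _ hp.out.ne_zero) Nat.card_pos.ne', Finsupp.add_apply,
      hp.out.factorization_pow, Finsupp.single_eq_same, Nat.factorization_eq_zero_of_not_dvd hV, add_zero]
  rw [h2, ← hPn] at h1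
  rw [← h1]
  simp

/-- averages over `V` -/
noncomputable def sV (V : Subgroup G) [Fintype V] (χ : G → ℂ) (x : G) : ℂ := (Nat.card V : ℂ)⁻¹ * ∑ v : V, χ (x * v)

/-- the detecting function -/
noncomputable def bb (M P : Subgroup G) (k : ℕ) (x : G) : M → ℂ := by
  classical
  exact fun y => if (y : G) ^ k = x then (Nat.card P : ℂ) else 0

theorem bb_pos {x : G} {y : M} (h : (y : G) ^ k = x) : bb M P k x y = Nat.card P := by
  classical
  rw [bb, if_pos h]

theorem bb_neg {x : G} {y : M} (h : (y : G) ^ k ≠ x) : bb M P k x y = 0 := by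
  classical
  rw [bb, if_neg h]

include D in
theorem ci_bb' [Fintype M] [Fintype P] [Fintype V] {f : M → ℂ} {x : G} (hx : x ∈ P) :
    classInner f (bb M P k x) = (Nat.card V : ℂ)⁻¹ * ∑ v : V, f ⟨x * v, mul_mem (D.PM hx) (D.VM v.2)⟩ := by
  classical
  rw [classInner]
  have h1 : ∑ y : M, f y * conj (bb M P k x y) = (Nat.card P : ℂ) * ∑ v : V, f ⟨x * v, mul_mem (D.PM hx) (D.VM v.2)⟩ := by
    have h2 := sum_M D (fun y : G => extendByZero M f y * extendByZero M (fun y => conj (bb M P k x y)) y)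
    have h3 : ∑ y : M, f y * conj (bb M P k x y) = ∑ y : M, (fun y : G => extendByZero M f y * extendByZero M (fun y => conj (bb M P k x y)) y) y := by
      refine Finset.sum_congr rfl (fun y _ => ?_)
      change _ = extendByZero M f y * extendByZero M (fun y => conj (bb M P k x y)) y
      rw [ext_coe, ext_coe]
    rw [h3, h2, Finset.sum_eq_single ⟨x, hx⟩]
    · rw [Finset.mul_sum]
      refine Finset.sum_congr rfl (fun v _ => ?_)
      rw [ext_mem M f (mul_mem (D.PM hx) (D.VM v.2)), ext_mem M _ (mul_mem (D.PM hx) (D.VM v.2)), bb_pos (pow_xv D hx v.2), map_natCast, mul_comm]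
    · intro z _ hz
      refine Finset.sum_eq_zero (fun v _ => ?_)
      rw [ext_mem M (fun y => conj (bb M P k x y)) (mul_mem (D.PM z.2) (D.VM v.2)), bb_neg, map_zero, mul_zero]
      change ((z : G) * v) ^ k ≠ x
      rw [pow_xv D z.2 v.2]
      exact fun h => hz (Subtype.ext h)
    · intro h; exact absurd (Finset.mem_univ _) h
  rw [h1, card_M D]
  have hP0 : (Nat.card P : ℂ) ≠ 0 := cardH_ne_zero P
  have hV0 : (Nat.card V : ℂ) ≠ 0 := cardH_ne_zero V
  push_cast
  field_simp

include D in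
theorem ci_bb [Fintype M] [Fintype P] [Fintype V] {χ : G → ℂ} {x : G} (hx : x ∈ P) :
    classInner (fun y : M => χ y) (bb M P k x) = sV V χ x := ci_bb' D hx

include D in
theorem parseval [Fintype M] [Fintype P] [Fintype V] [Fintype (IrrCharacter G)] {x : G} (hx : x ∈ P) (hx1 : x ≠ 1) :
    ∑ ζ : IrrCharacter G, ‖sV V (ζ : G → ℂ) x‖ ^ 2 = (Nat.card P : ℝ) := by
  classical
  have hMN := M_le_NN D
  have h0 : ∀ v : M, (v : G) ∈ V → bb M P k x v = 0 := by
    intro v hv
    apply bb_neg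
    rw [D.kV v hv]; exact hx1.symm
  have hcj : ∀ (y : M) (g : G), (g⁻¹ * (y : G) * g) ^ k = g⁻¹ * (y : G) ^ k * g := by
    intro y g
    have := conj_pow (i := k) (a := g⁻¹) (b := (y : G))
    rw [inv_inv] at this; exact this
  have hbc : IsClassFunction M (bb M P k x) := by
    intro g y
    have h1 : ((y * g * y⁻¹ : M) : G) ^ k = (g : G) ^ k := by
      have h2 := hcj g (y : G)⁻¹
      rw [inv_inv] at h2
      change ((y : G) * g * (y : G)⁻¹) ^ k = (g : G) ^ k
      rw [h2, ← D.comm _ (pow_mem D g.2) y y.2]; group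
    by_cases h3 : (g : G) ^ k = x
    · rw [bb_pos h3, bb_pos (h1.trans h3)]
    · rw [bb_neg h3, bb_neg (by rw [h1]; exact h3)]
  have h1 : classInner (indFun M (bb M P k x)) (indFun M (bb M P k x)) = Nat.card P := by
    rw [mackey' D h0, cc]
    have h2 : ∀ g ∈ Finset.univ.filter (· ∈ NN M), classInner (bb M P k x) (cg M (bb M P k x) g) = if g ∈ M then (Nat.card P : ℂ) else 0 := by
      intro g hg
      rw [Finset.mem_filter] at hg
      split_ifs with hgM
      · rw [cg_of_mem hMN hbc hgM, ci_bb' D hx]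
        rw [Finset.sum_congr rfl (fun v _ => bb_pos (pow_xv D hx v.2)), Finset.sum_const, Finset.card_univ, nsmul_eq_mul,
          ← Nat.card_eq_fintype_card, ← mul_assoc, inv_mul_cancel₀ (cardH_ne_zero V), one_mul]
      · rw [classInner, Finset.sum_eq_zero, mul_zero]
        intro y _
        rw [cg_apply hg.2]
        by_cases h3 : (y : G) ^ k = x
        · rw [bb_neg (y := ⟨g⁻¹ * y * g, _⟩), map_zero, mul_zero]
          rw [hcj, h3]
          intro h4
          apply hgM
          rw [D.cent x hx hx1]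
          calc g * x = g * (g⁻¹ * x * g) := by rw [h4]
            _ = x * g := by group
        · rw [bb_neg h3, zero_mul]
    rw [Finset.sum_congr rfl h2, Finset.sum_ite, Finset.sum_const_zero, add_zero, Finset.sum_const]
    have h3 : ((Finset.univ.filter (fun g : G => g ∈ NN M)).filter (fun g => g ∈ M)).card = Nat.card M := by
      rw [Nat.card_eq_fintype_card, ← Fintype.card_coe]
      apply Fintype.card_congr
      exact ⟨fun g => ⟨g.1, (Finset.mem_filter.mp g.2).2⟩, fun m => ⟨m, by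
        rw [Finset.mem_filter, Finset.mem_filter]; exact ⟨⟨Finset.mem_univ _, hMN m.2⟩, m.2⟩⟩, fun g => rfl, fun m => rfl⟩
    rw [h3, nsmul_eq_mul, ← mul_assoc, inv_mul_cancel₀ (cardH_ne_zero M), one_mul]
  have h2 := ci_eq_sum (indFun M (bb M P k x)) (indFun M (bb M P k x)) (ind_isClass M _)
  rw [h1] at h2
  have h3 : ∀ ζ : IrrCharacter G, classInner (indFun M (bb M P k x)) (ζ : G → ℂ) * conj (classInner (indFun M (bb M P k x)) (ζ : G → ℂ)) =
      ((‖sV V (ζ : G → ℂ) x‖ ^ 2 : ℝ) : ℂ) := by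
    intro ζ
    have h4 : conj (classInner (indFun M (bb M P k x)) (ζ : G → ℂ)) = sV V (ζ : G → ℂ) x := by
      rw [ci_conj_symm, frobenius' M _ _ (IsIrr.isClass ζ.2), ci_bb D hx]
    rw [← h4, Complex.mul_conj', RCLike.norm_conj]
    push_cast
    rfl
  rw [Finset.sum_congr rfl (fun ζ _ => h3 ζ), ← Complex.ofReal_sum] at h2
  exact_mod_cast h2.symm

include D hPn hV hI in
/-- characters outside the principal block -/
theorem notB0 [Fintype M] [Fintype P] [Fintype V] {ζ : IrrCharacter G} (hζ : ζ ∉ principalBlock I G) {x : G} (hx : x ∈ P) (hx1 : x ≠ 1) :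
    sV V (ζ : G → ℂ) x = 0 := by
  classical
  have : Fintype (IrrCharacter G) := Fintype.ofFinite _
  have h1 := B0_norm D hPn hV hI hx hx1
  rw [Cfsg.Agent.H10.BlockOrth.finsum_mem_irr] at h1
  have h2 := parseval D hx hx1
  have h3 : ∀ ψ : IrrCharacter G, ψ ∈ principalBlock I G → sV V (ψ : G → ℂ) x = (ψ : G → ℂ) x := by
    intro ψ hψ
    rw [sV, Finset.sum_congr rfl (fun v _ => B0_const D hPn hV hI hψ hx hx1 v.2), Finset.sum_const, Finset.card_univ, nsmul_eq_mul,
      ← Nat.card_eq_fintype_card, ← mul_assoc, inv_mul_cancel₀ (cardH_ne_zero V), one_mul]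
  have h4 : ∑ ψ : IrrCharacter G, (if ψ ∈ principalBlock I G then 0 else ‖sV V (ψ : G → ℂ) x‖ ^ 2) = 0 := by
    have h5 : ∑ ψ : IrrCharacter G, (if ψ ∈ principalBlock I G then 0 else ‖sV V (ψ : G → ℂ) x‖ ^ 2) =
        ∑ ψ : IrrCharacter G, ‖sV V (ψ : G → ℂ) x‖ ^ 2 - ∑ ψ : IrrCharacter G, (if ψ ∈ principalBlock I G then ‖(ψ : G → ℂ) x‖ ^ 2 else 0) := by
      rw [← Finset.sum_sub_distrib]
      refine Finset.sum_congr rfl (fun ψ _ => ?_)
      by_cases h6 : ψ ∈ principalBlock I G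
      · rw [if_pos h6, if_pos h6, h3 ψ h6, sub_self]
      · rw [if_neg h6, if_neg h6, sub_zero]
    rw [h5, h1, h2, sub_self]
  have h5 := (Finset.sum_eq_zero_iff_of_nonneg (fun ψ _ => by split_ifs; exact le_refl _; positivity)).mp h4 ζ (Finset.mem_univ _)
  rw [if_neg hζ] at h5
  exact norm_eq_zero.mp (pow_eq_zero_iff (by norm_num) |>.mp h5)

include D in
/-- the multiplicity of the trivial character of `M` -/
theorem ci_M_one [Fintype M] [Fintype P] [Fintype V] (χ : G → ℂ) :
    classInner (fun y : M => χ y) (fun _ => 1) = (Nat.card P : ℂ)⁻¹ * ∑ x : P, sV V χ x := by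
  rw [classInner]
  simp only [map_one, mul_one]
  rw [sum_M D χ, card_M D]
  simp only [sV]
  rw [← Finset.mul_sum]
  push_cast
  rw [mul_inv]; ring

omit [Fintype G] in
theorem ci_V_one [Finite G] [Fintype V] (χ : G → ℂ) : classInner (fun y : V => χ y) (fun _ => 1) = sV V χ 1 := by
  rw [classInner, sV]
  simp only [map_one, mul_one, one_mul]

include D hPn hV hI in
theorem F2 [Fintype M] [Fintype P] [Fintype V] {ζ : IrrCharacter G} (hζ : ζ ∉ principalBlock I G) {d : ℕ} (hd : (ζ : G → ℂ) 1 = d)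
    (hlt : d < Nat.card P) : classInner (fun y : V => (ζ : G → ℂ) y) (fun _ => 1) = 0 ∧
      classInner (fun y : M => (ζ : G → ℂ) y) (fun _ => 1) = 0 := by
  classical
  have hζc := IsIrr.isCharacter ζ.2
  obtain ⟨t, ht⟩ := ci_char_nat (IsChar.res hζc V) (IsChar.one (G := V))
  obtain ⟨s, hs⟩ := ci_char_nat (IsChar.res hζc M) (IsChar.one (G := M))
  have h1 := ci_M_one D (ζ : G → ℂ)
  rw [Finset.sum_eq_single (1 : P)] at h1
  rotate_left
  · intro x _ hx
    exact notB0 D hPn hV hI hζ x.2 (fun h => hx (Subtype.ext h))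
  · intro h; exact absurd (Finset.mem_univ _) h
  have h2 : sV V (ζ : G → ℂ) ((1 : P) : G) = t := by
    rw [Subgroup.coe_one, ← ci_V_one, ht]
  rw [h2, hs] at h1
  have hP0 : (Nat.card P : ℂ) ≠ 0 := cardH_ne_zero P
  have h3 : Nat.card P * s = t := by
    have : (Nat.card P : ℂ) * s = t := by rw [h1]; field_simp
    exact_mod_cast this
  have h4 : t ≤ d := by
    have h5 := IsChar.degree_le (IsChar.res hζc V) (isIrr_one (G := V)) ht (a := d) (b := 1) hd (by simp)
    omega
  have h5 : s = 0 := by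
    rcases Nat.eq_zero_or_pos s with h6 | h6
    · exact h6
    · exfalso
      have : Nat.card P * 1 ≤ Nat.card P * s := Nat.mul_le_mul_left _ h6
      omega
  rw [h5, mul_zero] at h3
  rw [ht, hs, h5, ← h3]; simp

include D hPn hV hI in
theorem F1 [Fintype M] [Fintype P] [Fintype V] {ζ : IrrCharacter G} (hζ : ζ ∈ principalBlock I G) {d : ℕ} (hd : (ζ : G → ℂ) 1 = d)
    (hlt : d < Nat.card P) : ∀ v ∈ V, (ζ : G → ℂ) v = (ζ : G → ℂ) 1 := by
  classical
  have hζc := IsIrr.isCharacter ζ.2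
  obtain ⟨t, ht⟩ := ci_char_nat (IsChar.res hζc V) (IsChar.one (G := V))
  obtain ⟨s, hs⟩ := ci_char_nat (IsChar.res hζc M) (IsChar.one (G := M))
  obtain ⟨r, hr⟩ := ci_char_nat (IsChar.res hζc P) (IsChar.one (G := P))
  have hP0 : (Nat.card P : ℂ) ≠ 0 := cardH_ne_zero P
  have h1 : (Nat.card P : ℂ) * s = ∑ x : P, sV V (ζ : G → ℂ) x := by
    have := ci_M_one D (ζ : G → ℂ)
    rw [hs] at this
    rw [this]; field_simp
  have h2 : (Nat.card P : ℂ) * r = ∑ x : P, (ζ : G → ℂ) x := by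
    rw [← hr, classInner]
    simp only [map_one, mul_one]
    field_simp
  have h3 : ∀ x : P, x ≠ 1 → sV V (ζ : G → ℂ) x = (ζ : G → ℂ) x := by
    intro x hx
    have hx1 : (x : G) ≠ 1 := fun h => hx (Subtype.ext h)
    rw [sV, Finset.sum_congr rfl (fun v _ => B0_const D hPn hV hI hζ x.2 hx1 v.2), Finset.sum_const, Finset.card_univ, nsmul_eq_mul,
      ← Nat.card_eq_fintype_card, ← mul_assoc, inv_mul_cancel₀ (cardH_ne_zero V), one_mul]
  have h4 : (Nat.card P : ℂ) * r + t = (Nat.card P : ℂ) * s + d := by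
    rw [h1, h2, ← Finset.add_sum_erase _ _ (Finset.mem_univ (1 : P)), ← Finset.add_sum_erase _ (fun x : P => sV V (ζ : G → ℂ) x) (Finset.mem_univ (1 : P)),
      Finset.sum_congr rfl (fun x hx => h3 x (Finset.ne_of_mem_erase hx)), Subgroup.coe_one, ← ci_V_one, ht, hd]
    ring
  have h5 : Nat.card P * r + t = Nat.card P * s + d := by exact_mod_cast h4
  have h6 : t ≤ d := by
    have h5 := IsChar.degree_le (IsChar.res hζc V) (isIrr_one (G := V)) ht (a := d) (b := 1) hd (by simp)
    omega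
  have h7 : t = d := by
    rcases le_or_gt r s with h8 | h8
    · have : Nat.card P * r ≤ Nat.card P * s := Nat.mul_le_mul_left _ h8
      omega
    · have : Nat.card P * (s + 1) ≤ Nat.card P * r := Nat.mul_le_mul_left _ h8
      rw [mul_add, mul_one] at this
      omega
  have h8 := IsChar.sub_constituent (IsChar.res hζc V) (isIrr_one (G := V)) ht le_rfl
  have h9 := IsChar.eq_zero_of_one h8 (by
    rw [Pi.sub_apply, Pi.smul_apply, smul_eq_mul, mul_one, h7]
    change (ζ : G → ℂ) ((1 : V) : G) - d = 0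
    rw [Subgroup.coe_one, hd, sub_self])
  intro v hv
  have h10 := congrFun h9 ⟨v, hv⟩
  rw [Pi.sub_apply, Pi.smul_apply, smul_eq_mul, mul_one, h7] at h10
  rw [hd]
  exact sub_eq_zero.mp h10

end Char

end Cfsg.Agent.H3.BF
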