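import Mathlib
import Cfsg.Prelude.Def_Characters
import Cfsg.Agent.H3_BF4
import Cfsg.Agent.H3_Extraspecial

/-!
# Characters of small degree
-/

set_option autoImplicit false

open scoped ComplexConjugate

namespace Cfsg.Agent.H3.BF

open Cfsg Cfsg.Agent.H3.CharBasic Cfsg.Agent.H3.CharIrr Cfsg.Agent.H3.CharInt Cfsg.Agent.H3.CharCalc
  Cfsg.Agent.H3.CharComplete Cfsg.Agent.H3.CharInd Cfsg.Agent.H3.CharMult Cfsg.Agent.H3.CharQuot

/-- the trivial character -/
noncomputable def tr (G : Type*) [Group G] [Fintype G] : IrrCharacter G := ⟨fun _ => 1, isIrr_one⟩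

theorem tr_mem {G : Type*} [Group G] [Fintype G] {I : Ideal AlgInt} {p : ℕ} (hI : IsPModular p I) : tr G ∈ principalBlock I G := by
  have := hI.2.1
  exact Cfsg.Agent.H10.BlockIdem.mem_blockOf_self (tr G)

section Char

variable {G : Type*} [Group G] [Fintype G] {P M V : Subgroup G} {k : ℕ} (D : Dat P M V k)
  {p n : ℕ} [hp : Fact p.Prime] (hPn : Nat.card P = p ^ n) (hV : ¬ p ∣ Nat.card V)
  {I : Ideal AlgInt} (hI : IsPModular p I) (hM : ∀ K : Subgroup G, K.Normal → P ≤ K → K = ⊤)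

include hM in
theorem nker {ξ : G → ℂ} (hξ : IsIrrCharacter G ξ) (h1 : ξ ≠ fun _ => 1) : ∃ x ∈ P, ξ x ≠ ξ 1 := by
  classical
  by_contra hcon
  push Not at hcon
  have h2 := hM (chKer ξ (IsIrr.isCharacter hξ)) (chKer_normal _) (fun x hx => hcon x hx)
  have h3 : ∀ x, ξ x = ξ 1 := fun x => by
    have : x ∈ chKer ξ (IsIrr.isCharacter hξ) := by rw [h2]; trivial
    exact this
  have h4 := ci_irr_ne hξ (isIrr_one (G := G)) h1
  have h5 : ξ = ξ 1 • (fun _ : G => (1 : ℂ)) := by funext x; rw [h3 x]; simp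
  rw [h5, ci_smul_left, ci_irr_self isIrr_one, mul_one] at h4
  exact IsIrr.one_ne_zero hξ h4

include D in
/-- induced functions vanishing on `V` -/
theorem ind_V {f : M → ℂ} (hf : ∀ v : M, (v : G) ∈ V → f v = 0) {v : G} (hv : v ∈ V) : indFun M f v = 0 := by
  rw [indFun, Finset.sum_eq_zero, mul_zero]
  intro g _
  by_cases h : g⁻¹ * v * g ∈ M
  · rw [ext_mem M f h]
    apply hf
    rw [mem_V_iff D h]
    have := conj_pow (i := k) (a := g⁻¹) (b := v)
    rw [inv_inv] at this
    rw [this, D.kV v hv]; group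
  · exact ext_not_mem M f h

/-- inner products of restrictions -/
theorem ci_expand [Fintype (IrrCharacter G)] {F : G → ℂ} (hF : IsClassFunction G F) (H : Subgroup G) [Fintype H] :
    classInner (fun y : H => F y) (fun _ => 1) = ∑ ξ : IrrCharacter G, classInner F ξ *
      classInner (fun y : H => (ξ : G → ℂ) y) (fun _ => 1) := by
  have h1 : (fun y : H => F y) = ∑ ξ : IrrCharacter G, classInner F ξ • (fun y : H => (ξ : G → ℂ) y) := by
    funext y
    rw [Finset.sum_apply, expand_apply F hF]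
    rfl
  rw [h1, ci_sum_left]
  exact Finset.sum_congr rfl (fun ξ _ => ci_smul_left _ _ _)

include hM in
/-- if `P` acts by scalars then the character is linear -/
theorem linear_of_scalar {χ : G → ℂ} (hχ : IsIrrCharacter G χ) (h : ∀ x ∈ P, ‖χ x‖ = ‖χ 1‖) : χ 1 = 1 := by
  have hχc := IsIrr.isCharacter hχ
  have hn := chKer_normal hχc
  have h1 := hM ((Subgroup.center (G ⧸ chKer χ hχc)).comap (QuotientGroup.mk' (chKer χ hχc))) inferInstance (by
    intro x hx
    rw [Subgroup.mem_comap, Subgroup.mem_center_iff]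
    intro y
    obtain ⟨g, rfl⟩ := QuotientGroup.mk_surjective y
    have h2 : x * g * x⁻¹ * g⁻¹ ∈ chKer χ hχc := IsChar.comm_of_norm hχc (h x hx) g
    change ((g * x : G) : G ⧸ chKer χ hχc) = ((x * g : G) : G ⧸ chKer χ hχc)
    rw [QuotientGroup.eq]
    have h3 : (g * x)⁻¹ * (x * g) = (g * x)⁻¹ * (x * g * x⁻¹ * g⁻¹) * (g * x)⁻¹⁻¹ := by group
    rw [h3]
    exact hn.conj_mem _ h2 _)
  apply Cfsg.Agent.H3.Extraspecial.one_of_commutator hχ
  intro z hz
  have hle : commutator G ≤ chKer χ hχc := by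
    rw [commutator_def, Subgroup.commutator_le]
    intro a _ b _
    have hb : a ∈ (Subgroup.center (G ⧸ chKer χ hχc)).comap (QuotientGroup.mk' (chKer χ hχc)) := by rw [h1]; trivial
    rw [Subgroup.mem_comap, Subgroup.mem_center_iff] at hb
    have h2 := hb (b : G ⧸ chKer χ hχc)
    have h3 : ((b * a : G) : G ⧸ chKer χ hχc) = ((a * b : G) : G ⧸ chKer χ hχc) := h2
    rw [QuotientGroup.eq] at h3
    have h4 : a * b * a⁻¹ * b⁻¹ = (b * a) * ((b * a)⁻¹ * (a * b)) * (b * a)⁻¹ := by group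
    rw [commutatorElement_def, h4]
    exact hn.conj_mem _ h3 _
  exact hle hz

include D hPn hV hI hM in
theorem deg_one [Fintype M] [Fintype P] [Fintype V] {χ : G → ℂ} (hχ : IsIrrCharacter G χ) (hχ1 : χ ≠ fun _ => 1) {d : ℕ} (hd : χ 1 = d)
    (hlt : d ^ 2 + 1 < Nat.card P) : d = 1 := by
  classical
  have : Fintype (IrrCharacter G) := Fintype.ofFinite _
  have hd0 : 0 < d := by
    obtain ⟨t, ht, ht'⟩ := IsIrr.one_eq_nat hχ
    have : d = t := by exact_mod_cast hd.symm.trans ht'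
    omega
  have hdd : d ≤ d ^ 2 := by nlinarith
  obtain ⟨θ, l, hθ, hη, hnt, hnt', hm, hm0, b, hb, hbne, hdiff⟩ := exc D hχ hd (by omega) (nker hM hχ hχ1)
  obtain ⟨e, he⟩ := common D
  have hvan : ∀ v ∈ V, χ v = b v := by
    intro v hv
    have h1 := congrFun hdiff v
    rw [ind_V D (fun v hv => by rw [Pi.sub_apply, Pi.mul_apply, al_V D l v hv, mul_one, sub_self]) hv] at h1
    exact (sub_eq_zero.mp h1.symm)
  have hb1 : b 1 = d := by rw [← hvan 1 (one_mem V), hd]
  -- the two products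
  obtain ⟨F, hF⟩ : ∃ F : G → ℂ, F = χ * (fun g => conj (χ g)) := ⟨_, rfl⟩
  obtain ⟨F', hF'⟩ : ∃ F' : G → ℂ, F' = b * (fun g => conj (χ g)) := ⟨_, rfl⟩
  have hFc : IsCharacter G F := by rw [hF]; exact IsChar.mul (IsIrr.isCharacter hχ) (IsChar.conj (IsIrr.isCharacter hχ))
  have hFc' : IsCharacter G F' := by rw [hF']; exact IsChar.mul (IsIrr.isCharacter hb) (IsChar.conj (IsIrr.isCharacter hχ))
  have hF1 : F 1 = (d ^ 2 : ℕ) := by rw [hF, Pi.mul_apply, hd, map_natCast]; push_cast; ring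
  have hF1' : F' 1 = (d ^ 2 : ℕ) := by rw [hF', Pi.mul_apply, hd, hb1, map_natCast]; push_cast; ring
  have hg1 : ∀ a : G → ℂ, classInner (a * (fun g => conj (χ g))) (fun _ => 1) = classInner a χ := by
    intro a
    rw [classInner, classInner]
    simp only [Pi.mul_apply, map_one, mul_one]
  have ht : classInner F (tr G : G → ℂ) = 1 := by rw [hF]; exact (hg1 χ).trans (ci_irr_self hχ)
  have ht' : classInner F' (tr G : G → ℂ) = 0 := by rw [hF']; exact (hg1 b).trans (ci_irr_ne hb hχ hbne.symm)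
  have hFV : classInner (fun y : V => F y) (fun _ => 1) = classInner (fun y : V => F' y) (fun _ => 1) := by
    congr 1
    funext y
    rw [hF, hF', Pi.mul_apply, Pi.mul_apply, hvan y y.2]
  -- the weights
  obtain ⟨w, hw⟩ : ∃ w : IrrCharacter G → ℕ, ∀ ξ, w ξ = if ξ ∈ principalBlock I G then (if ξ = tr G then 1 else e) else 0 := ⟨_, fun _ => rfl⟩
  have hwt : w (tr G) = 1 := by rw [hw, if_pos (tr_mem hI), if_pos rfl]
  have hkey : ∀ (A : G → ℂ), IsCharacter G A → A 1 = (d ^ 2 : ℕ) → ∀ (ξ : IrrCharacter G), classInner A ξ ≠ 0 →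
      ((ξ : G → ℂ) 1 = w ξ ∨ ξ ∉ principalBlock I G) ∧ classInner (fun y : V => (ξ : G → ℂ) y) (fun _ => 1) = w ξ ∧
      (ξ ∉ principalBlock I G → classInner (fun y : M => (ξ : G → ℂ) y) (fun _ => 1) = 0) := by
    intro A hA hA1 ξ hξ
    obtain ⟨t, ht0, ht⟩ := IsIrr.one_eq_nat ξ.2
    have hle : t ≤ d ^ 2 := IsChar.degree_le' hA ξ.2 hξ hA1 ht
    by_cases hB : ξ ∈ principalBlock I G
    · have h1 := F1 D hPn hV hI hB ht (by omega)
      have h2 : classInner (fun y : V => (ξ : G → ℂ) y) (fun _ => 1) = (ξ : G → ℂ) 1 := by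
        have h3 : (fun y : V => (ξ : G → ℂ) y) = (ξ : G → ℂ) 1 • (fun _ : V => (1 : ℂ)) := by
          funext y; rw [h1 y y.2]; simp
        rw [h3, ci_smul_left, ci_irr_self isIrr_one, mul_one]
      have h3 : (ξ : G → ℂ) 1 = w ξ := by
        rw [hw, if_pos hB]
        by_cases h4 : ξ = tr G
        · rw [if_pos h4, h4]; simp [tr]
        · rw [if_neg h4, ht]
          have := he ξ ξ.2 h1 (nker hM ξ.2 (fun h5 => h4 (Subtype.ext h5))) t ht (by omega)
          rw [this]
      exact ⟨Or.inl h3, by rw [h2, h3], fun h => absurd hB h⟩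
    · have h1 := F2 D hPn hV hI hB ht (by omega)
      refine ⟨Or.inr hB, ?_, fun _ => h1.2⟩
      rw [h1.1, hw, if_neg hB]; simp
  obtain ⟨m, hm', -⟩ := IsChar.eq_sum_nat hFc
  obtain ⟨m', hm'', -⟩ := IsChar.eq_sum_nat hFc'
  have hsum : ∀ (A : G → ℂ) (μ : IrrCharacter G → ℕ), IsCharacter G A → A 1 = (d ^ 2 : ℕ) → (∀ ξ : IrrCharacter G, classInner A ξ = μ ξ) →
      classInner (fun y : V => A y) (fun _ => 1) = ((∑ ξ, μ ξ * w ξ : ℕ) : ℂ) := by
    intro A μ hA hA1 hμ
    rw [ci_expand (IsChar.isClass hA) V]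
    push_cast
    refine Finset.sum_congr rfl (fun ξ _ => ?_)
    by_cases h1 : classInner A ξ = 0
    · have h2 : (μ ξ : ℂ) = 0 := by rw [← hμ, h1]
      rw [h1, h2]; simp
    · rw [(hkey A hA hA1 ξ h1).2.1, hμ]
  have h1 : ∑ ξ, m ξ * w ξ = ∑ ξ, m' ξ * w ξ := by
    have h2 := hsum F m hFc hF1 hm'
    have h3 := hsum F' m' hFc' hF1' hm''
    rw [hFV, h3] at h2
    exact_mod_cast h2.symm
  have hmt : m (tr G) = 1 := by
    have := hm' (tr G); rw [ht] at this; exact_mod_cast this.symm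
  have hmt' : m' (tr G) = 0 := by
    have := hm'' (tr G); rw [ht'] at this; exact_mod_cast this.symm
  have he1 : e ∣ 1 := by
    rw [← Finset.add_sum_erase _ _ (Finset.mem_univ (tr G)), ← Finset.add_sum_erase _ (fun ξ => m' ξ * w ξ) (Finset.mem_univ (tr G)),
      hmt, hmt', hwt, one_mul, zero_mul, zero_add] at h1
    have h2 : ∀ μ : IrrCharacter G → ℕ, e ∣ ∑ ξ ∈ Finset.univ.erase (tr G), μ ξ * w ξ := by
      intro μ
      apply Finset.dvd_sum
      intro ξ hξ
      rw [hw, if_neg (Finset.ne_of_mem_erase hξ)]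
      split_ifs
      · exact Dvd.intro_left _ rfl
      · simp
    have h3 := h2 m'
    rw [← h1] at h3
    exact (Nat.dvd_add_left (h2 m)).mp h3
  have he2 : e = 1 := Nat.dvd_one.mp he1
  -- the restriction to `M` is irreducible
  have hMF : classInner (fun y : M => F y) (fun _ => 1) = 1 := by
    rw [ci_expand (IsChar.isClass hFc) M, Finset.sum_eq_single (tr G), ht, one_mul]
    · exact ci_irr_self isIrr_one
    · intro ξ _ hξ
      by_cases h2 : classInner F ξ = 0
      · rw [h2, zero_mul]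
      · have h3 := hkey F hFc hF1 ξ h2
        by_cases hB : ξ ∈ principalBlock I G
        · have h4 : (ξ : G → ℂ) 1 = 1 := by
            rcases h3.1 with h5 | h5
            · rw [h5, hw, if_pos hB, if_neg hξ, he2]; simp
            · exact absurd hB h5
          have h5 : IsIrrCharacter M (fun y : M => (ξ : G → ℂ) y) :=
            IsChar.isIrr_of_one (IsChar.res (IsIrr.isCharacter ξ.2) M) h4
          rw [ci_irr_ne h5 isIrr_one, mul_zero]
          intro h6
          obtain ⟨x, hx, hne⟩ := nker hM ξ.2 (fun h7 => hξ (Subtype.ext h7))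
          apply hne
          rw [h4]
          exact congrFun h6 ⟨x, D.PM hx⟩
        · rw [h3.2.2 hB, mul_zero]
    · intro h; exact absurd (Finset.mem_univ _) h
  have hMirr : IsIrrCharacter M (fun y : M => χ y) := by
    apply IsChar.isIrr_of_norm (IsChar.res (IsIrr.isCharacter hχ) M)
    rw [← hMF, classInner, classInner, hF]
    simp only [Pi.mul_apply, map_one, mul_one]
  have h2 := linear_of_scalar hM hχ (by
    intro x hx
    obtain ⟨l, hl⟩ := exists_central D hMirr
    have h3 := hl ⟨x, D.PM hx⟩ hx 1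
    rw [mul_one] at h3
    have h4 : χ x = l ⟨x, hx⟩ * χ 1 := h3
    rw [h4, norm_mul]
    have h5 : ‖((l ⟨x, hx⟩ : ℂˣ) : ℂ)‖ = 1 := by
      apply norm_eq_one_of_pow (n := Nat.card P) Nat.card_pos.ne'
      rw [← Units.val_pow_eq_pow_val, ← map_pow, pow_card_eq_one', map_one, Units.val_one]
    rw [h5, one_mul])
  rw [hd] at h2
  exact_mod_cast h2

end Char

end Cfsg.Agent.H3.BF
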