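import Mathlib
import Cfsg.Prelude.Def_Characters
import Cfsg.Agent.H3_BF5
import Cfsg.Agent.H26_Kernel

/-!
# Characters of small degree: the two theorems
-/

set_option autoImplicit false

open scoped ComplexConjugate

namespace Cfsg.Agent.H3.BF

open Cfsg Cfsg.Agent.H3.CharBasic Cfsg.Agent.H3.CharIrr Cfsg.Agent.H3.CharInt Cfsg.Agent.H3.CharCalc
  Cfsg.Agent.H3.CharComplete Cfsg.Agent.H3.CharInd Cfsg.Agent.H3.CharMult Cfsg.Agent.H3.CharQuot

section Setup

variable {G : Type*} [Group G] [Fintype G] {p : ℕ} [hp : Fact p.Prime] (P : Sylow p G)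
  (hstar : ∀ x ∈ (P : Subgroup G), x ≠ 1 → Subgroup.centralizer ({x} : Set G) = Subgroup.centralizer ((P : Subgroup G) : Set G))

include hstar in
theorem exists_dat : ∃ (V : Subgroup G) (k : ℕ), Dat (P : Subgroup G) (Subgroup.centralizer ((P : Subgroup G) : Set G)) V k ∧
    ¬ p ∣ Nat.card V := by
  classical
  obtain ⟨M, hM⟩ : ∃ M : Subgroup G, M = Subgroup.centralizer ((P : Subgroup G) : Set G) := ⟨_, rfl⟩
  rw [← hM] at hstar ⊢
  have hmemM : ∀ y, y ∈ M ↔ ∀ x ∈ (P : Subgroup G), x * y = y * x := by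
    intro y; rw [hM, Subgroup.mem_centralizer_iff]; rfl
  have hPM : (P : Subgroup G) ≤ M := by
    intro y hy
    rw [hmemM]
    intro x hx
    by_cases hy1 : y = 1
    · rw [hy1]; simp
    · have h1 : y ∈ Subgroup.centralizer ({y} : Set G) := by
        rw [Subgroup.mem_centralizer_singleton_iff]
      rw [hstar y hy hy1, hmemM] at h1
      exact h1 x hx
  obtain ⟨P', hP'⟩ : ∃ P' : Subgroup M, P' = (P : Subgroup G).subgroupOf M := ⟨_, rfl⟩
  have hP'mem : ∀ y : M, y ∈ P' ↔ (y : G) ∈ (P : Subgroup G) := fun y => by rw [hP', Subgroup.mem_subgroupOf]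
  have hn : P'.Normal := by
    refine ⟨fun x hx g => ?_⟩
    rw [hP'mem] at hx ⊢
    have h1 := (hmemM g).mp g.2 x hx
    have h2 : ((g * x * g⁻¹ : M) : G) = x := by
      push_cast
      rw [← h1]; group
    rw [h2]; exact hx
  have hPc : Nat.card P' = Nat.card (P : Subgroup G) := by
    rw [hP']
    exact Nat.card_congr (Subgroup.subgroupOfEquivOfLe hPM).toEquiv
  obtain ⟨n, hn'⟩ := IsPGroup.iff_card.mp P.2
  have hPidx : ¬ p ∣ P'.index := by
    intro h
    apply P.not_dvd_index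
    have h1 : P'.index = (P : Subgroup G).relIndex M := by rw [hP']; rfl
    rw [h1] at h
    exact h.trans (Subgroup.relIndex_dvd_index_of_le hPM)
  have hcop : Nat.Coprime (Nat.card P') P'.index := by
    rw [hPc, hn']
    exact Nat.Coprime.pow_left n ((Nat.Prime.coprime_iff_not_dvd hp.out).mpr hPidx)
  obtain ⟨V', hV'⟩ := Subgroup.exists_right_complement'_of_coprime hcop
  obtain ⟨V, hV⟩ : ∃ V : Subgroup G, V = V'.map M.subtype := ⟨_, rfl⟩
  have hVM : V ≤ M := by rw [hV]; rintro _ ⟨y, -, rfl⟩; exact y.2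
  have hVc : Nat.card V = P'.index := by
    rw [hV, Subgroup.card_map_of_injective M.subtype_injective]
    exact hV'.symm.index_eq_card.symm
  have hpV : ¬ p ∣ Nat.card V := by rw [hVc]; exact hPidx
  have hcop' : (p ^ n).Coprime (Nat.card V) := Nat.Coprime.pow_left n ((Nat.Prime.coprime_iff_not_dvd hp.out).mpr hpV)
  obtain ⟨k, hk1, hk2⟩ := Nat.chineseRemainder hcop' 1 0
  refine ⟨V, k, ⟨?_, hPM, hVM, ?_, ?_, ?_, ?_⟩, hpV⟩
  · intro x hx hx1 g
    rw [← hstar x hx hx1, Subgroup.mem_centralizer_singleton_iff]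
  · intro x hx y hy
    exact (hmemM y).mp hy x hx
  · intro x hx
    have h1 : orderOf x ∣ p ^ n := by
      rw [← hn']
      have := orderOf_dvd_natCard (⟨x, hx⟩ : (P : Subgroup G))
      rwa [Subgroup.orderOf_mk] at this
    have h2 : x ^ k = x ^ 1 := pow_eq_pow_iff_modEq.mpr (hk1.of_dvd h1)
    rw [h2, pow_one]
  · intro v hv
    have h1 : orderOf v ∣ Nat.card V := by
      have := orderOf_dvd_natCard (⟨v, hv⟩ : V)
      rwa [Subgroup.orderOf_mk] at this
    have h2 : v ^ k = v ^ 0 := pow_eq_pow_iff_modEq.mpr (hk2.of_dvd h1)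
    rw [h2, pow_zero]
  · intro y hy
    obtain ⟨⟨x, v⟩, hxv, -⟩ := hV'.existsUnique ⟨y, hy⟩
    refine ⟨x.1, (hP'mem _).mp x.2, v.1, by rw [hV]; exact ⟨v.1, v.2, rfl⟩, ?_⟩
    exact (congrArg Subtype.val hxv).symm

include hstar in
/-- a normal complement -/
theorem exists_compl (hne : (P : Subgroup G) ≠ ⊥) {χ : G → ℂ} (hχ : IsIrrCharacter G χ) (h1 : χ 1 = 1) (hker : ∃ x ∈ (P : Subgroup G), χ x ≠ χ 1) :
    ∃ N : Subgroup G, N.Normal ∧ N.index = Nat.card P := by
  obtain ⟨V, k, D, hV⟩ := exists_dat P hstar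
  have hnorm : Subgroup.normalizer ((P : Subgroup G) : Set G) ≤ Subgroup.centralizer ((P : Subgroup G) : Set G) := by
    intro g hg
    obtain ⟨x, hx, hx1⟩ : ∃ x : G, x ∈ (P : Subgroup G) ∧ x ≠ 1 := by
      by_contra hcon
      push Not at hcon
      exact hne ((Subgroup.eq_bot_iff_forall _).mpr hcon)
    have hg' := Subgroup.mem_normalizer_iff''.mp hg
    have hgN : g ∈ NN (Subgroup.centralizer ((P : Subgroup G) : Set G)) := by
      have hw : g⁻¹ * x * g ∈ (P : Subgroup G) := (hg' x).mp hx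
      have hw1 : g⁻¹ * x * g ≠ 1 := by
        intro h
        apply hx1
        calc x = g * (g⁻¹ * x * g) * g⁻¹ := by group
          _ = 1 := by rw [h]; group
      intro h
      rw [D.cent _ hx hx1, D.cent _ hw hw1]
      constructor
      · intro h1
        calc g⁻¹ * h * g * (g⁻¹ * x * g) = g⁻¹ * (h * x) * g := by group
          _ = g⁻¹ * (x * h) * g := by rw [h1]
          _ = _ := by group
      · intro h1
        calc h * x = g * (g⁻¹ * h * g * (g⁻¹ * x * g)) * g⁻¹ := by group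
          _ = g * (g⁻¹ * x * g * (g⁻¹ * h * g)) * g⁻¹ := by rw [h1]
          _ = _ := by group
    have hMirr : IsIrrCharacter (Subgroup.centralizer ((P : Subgroup G) : Set G)) (fun y => χ y) :=
      IsChar.isIrr_of_one (IsChar.res (IsIrr.isCharacter hχ) _) h1
    apply stab D hMirr _ hgN (cg_res (IsIrr.isClass hχ) hgN)
    obtain ⟨x, hx, hne⟩ := hker
    exact ⟨⟨x, D.PM hx⟩, hx, hne⟩
  refine ⟨(MonoidHom.transferSylow P hnorm).ker, inferInstance, ?_⟩
  exact (MonoidHom.ker_transferSylow_isComplement' P hnorm).symm.index_eq_card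

include hstar in
theorem main4486 {χ : G → ℂ} (hχ : IsIrrCharacter G χ) (hχ1 : χ ≠ fun _ => 1) {d : ℕ} (hd : χ 1 = d)
    (hlt : d ^ 2 + 1 < Nat.card P) : (∃ K : Subgroup G, K.Normal ∧ K ≠ ⊤ ∧ (P : Subgroup G) ≤ K) ∨
    ((∃ N : Subgroup G, N.Normal ∧ N.index = Nat.card P) ∧ d = 1) := by
  classical
  by_cases hex : ∃ K : Subgroup G, K.Normal ∧ K ≠ ⊤ ∧ (P : Subgroup G) ≤ K
  · exact Or.inl hex
  · right
    push Not at hex
    have hM : ∀ K : Subgroup G, K.Normal → (P : Subgroup G) ≤ K → K = ⊤ := by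
      intro K hK hPK
      by_contra hne
      exact hex K hK hne hPK
    obtain ⟨V, k, D, hV⟩ := exists_dat P hstar
    obtain ⟨I, hI⟩ := Cfsg.Agent.H26.Kernel.exists_isPModular p hp.out
    obtain ⟨n, hn⟩ := IsPGroup.iff_card.mp P.2
    have := Fintype.ofFinite (Subgroup.centralizer ((P : Subgroup G) : Set G))
    have := Fintype.ofFinite (P : Subgroup G)
    have := Fintype.ofFinite V
    have h1 := deg_one D hn hV hI hM hχ hχ1 hd hlt
    refine ⟨?_, h1⟩
    apply exists_compl P hstar _ hχ (by rw [hd, h1]; simp) (nker hM hχ hχ1)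
    intro h2
    have h3 : Nat.card P = 1 := by
      change Nat.card (P : Subgroup G) = 1
      rw [h2, Subgroup.card_bot]
    omega

end Setup

end Cfsg.Agent.H3.BF
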