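import Mathlib
import Cfsg.Prelude.Def_Characters
import Cfsg.Agent.H3_BF6
import Cfsg.Agent.H3_SmallRep2

/-!
# Faithful characters of small degree
-/

set_option autoImplicit false

open scoped ComplexConjugate

namespace Cfsg.Agent.H3.BF

open Cfsg Cfsg.Agent.H3.CharBasic Cfsg.Agent.H3.CharIrr Cfsg.Agent.H3.CharInt Cfsg.Agent.H3.CharCalc
  Cfsg.Agent.H3.CharComplete Cfsg.Agent.H3.CharInd Cfsg.Agent.H3.CharMult Cfsg.Agent.H3.CharQuot Cfsg.Agent.H3.SmallRep

universe u

theorem main4485 {p : ℕ} [hp : Fact p.Prime] : ∀ (m : ℕ) (G : Type u) [Group G] [Fintype G], Nat.card G = m → ∀ (P : Sylow p G)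
    (_ : ∀ x ∈ (P : Subgroup G), x ≠ 1 → Subgroup.centralizer ({x} : Set G) = Subgroup.centralizer ((P : Subgroup G) : Set G))
    (χ : G → ℂ) (_ : IsCharacter G χ) (_ : ∀ g, χ g = χ 1 → g = 1) (d : ℕ) (_ : χ 1 = d) (_ : d ^ 2 + 1 < Nat.card P),
    (P : Subgroup G).Normal := by
  intro m
  induction m using Nat.strong_induction_on with
  | _ m ih =>
  intro G _ _ hm P hstar χ hχ hf d hd hlt
  classical
  have : Fintype (IrrCharacter G) := Fintype.ofFinite _
  by_cases hex : ∃ K : Subgroup G, K.Normal ∧ K ≠ ⊤ ∧ (P : Subgroup G) ≤ K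
  · obtain ⟨K, hK, hKt, hPK⟩ := hex
    have : Fintype K := Fintype.ofFinite _
    have hlt' : Nat.card K < m := by
      rw [← hm]
      exact lt_of_le_of_ne (Nat.card_le_card_of_injective _ K.subtype_injective)
        (fun h => hKt (Subgroup.card_eq_iff_eq_top K |>.mp h))
    have hmem : ∀ x : K, x ∈ (P.subtype hPK : Subgroup K) ↔ (x : G) ∈ (P : Subgroup G) := fun x => Iff.rfl
    have hc : Nat.card (P.subtype hPK) = Nat.card P := by
      exact Nat.card_congr (Subgroup.subgroupOfEquivOfLe hPK).toEquiv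
    have h1 := ih _ hlt' K rfl (P.subtype hPK) (by
      intro x hx hx1
      have hx1' : (x : G) ≠ 1 := fun h => hx1 (Subtype.ext h)
      have h2 := hstar x ((hmem x).mp hx) hx1'
      ext g
      rw [Subgroup.mem_centralizer_singleton_iff, Subgroup.mem_centralizer_iff]
      have h3 : (g : G) ∈ Subgroup.centralizer ({(x : G)} : Set G) ↔ (g : G) ∈ Subgroup.centralizer ((P : Subgroup G) : Set G) := by rw [h2]
      rw [Subgroup.mem_centralizer_singleton_iff, Subgroup.mem_centralizer_iff] at h3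
      constructor
      · intro h4 y hy
        exact Subtype.ext (h3.mp (congrArg Subtype.val h4) y ((hmem y).mp hy))
      · intro h4
        apply Subtype.ext
        apply h3.mpr
        intro y hy
        exact congrArg Subtype.val (h4 ⟨y, hPK hy⟩ hy))
      (fun y => χ y) (IsChar.res hχ K) (fun g hg => Subtype.ext (hf g hg)) d hd (by rw [hc]; exact hlt)
    have h2 := NS_top_of_normal (P.subtype hPK) h1
    have h3 : NS p K := by
      intro x hx y hy ⟨a, ha⟩ ⟨b, hb⟩
      obtain ⟨c, hc⟩ := h2 ⟨x, hx⟩ (Subgroup.mem_top _) ⟨y, hy⟩ (Subgroup.mem_top _) ⟨a, Subtype.ext (by push_cast; exact ha)⟩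
        ⟨b, Subtype.ext (by push_cast; exact hb)⟩
      exact ⟨c, congrArg Subtype.val hc⟩
    refine ⟨fun x hx g => ?_⟩
    exact h3.mem_sylow P hPK (hK.conj_mem x (hPK hx) g) (pel_conj (pel_of_mem P hx) g)
  · obtain ⟨μ, hμ, hχμ⟩ := IsChar.eq_sum_nat hχ
    have hval : ∀ g, χ g = ∑ ξ : IrrCharacter G, (μ ξ : ℂ) * (ξ : G → ℂ) g := by
      intro g
      have := congrFun hχμ g
      rw [Finset.sum_apply] at this
      exact this
    have hlin : ∀ ξ : IrrCharacter G, μ ξ ≠ 0 → (ξ : G → ℂ) 1 = 1 := by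
      intro ξ hξ
      by_cases h1 : (ξ : G → ℂ) = fun _ => 1
      · rw [h1]
      · obtain ⟨t, ht0, ht⟩ := IsIrr.one_eq_nat ξ.2
        have hle : t ≤ d := IsChar.degree_le' hχ ξ.2 (by rw [hμ]; exact_mod_cast hξ) hd ht
        have hlt2 : t ^ 2 ≤ d ^ 2 := Nat.pow_le_pow_left hle 2
        rcases main4486 P hstar ξ.2 h1 ht (by omega) with h2 | h2
        · exact absurd h2 hex
        · rw [ht, h2.2]; simp
    refine ⟨fun x hx g => ?_⟩
    have h1 : g * x * g⁻¹ * x⁻¹ = 1 := by
      apply hf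
      rw [hval, hval 1]
      apply Finset.sum_congr rfl
      intro ξ _
      by_cases h1 : μ ξ = 0
      · rw [h1]; simp
      · rw [Cfsg.Agent.H3.Extraspecial.commutator_of_one (IsIrr.isCharacter ξ.2) (hlin ξ h1) (g * x * g⁻¹ * x⁻¹)
          (Subgroup.commutator_mem_commutator (Subgroup.mem_top g) (Subgroup.mem_top x)), hlin ξ h1]
    rw [mul_inv_eq_one.mp h1]
    exact hx

end Cfsg.Agent.H3.BF
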