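import Mathlib
import Cfsg.Prelude.Def_Characters
import Cfsg.Agent.H3_Clifford2
import Cfsg.Agent.H3_CharQuot
import Cfsg.Agent.H3_CharCalc
import Cfsg.Agent.H3_Lift
import Cfsg.Agent.H3_CycExt
import Cfsg.Agent.H3_GlCyc

/-!
# Fully ramified sections and Frobenius groups
-/

set_option autoImplicit false

open scoped ComplexConjugate

namespace Cfsg.Agent.H3.FrobRam

open Cfsg Cfsg.Agent.H3.CharBasic Cfsg.Agent.H3.CharIrr Cfsg.Agent.H3.CharComplete
  Cfsg.Agent.H3.CharMult Cfsg.Agent.H3.CharInd Cfsg.Agent.H3.CharInt Cfsg.Agent.H3.Clifford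
  Cfsg.Agent.H3.CharQuot Cfsg.Agent.H3.CharCalc Cfsg.Agent.H3.GlCyc

theorem arith {m s : ℕ} (h : m * s + 1 = s ^ 2 + m) : s = 1 ∨ s + 1 = m := by
  have h1 : ((s : ℤ) - 1) * ((s : ℤ) - (m - 1)) = 0 := by
    have : (m : ℤ) * s + 1 = s ^ 2 + m := by exact_mod_cast h
    linear_combination -this
  rcases mul_eq_zero.mp h1 with h2 | h2
  · left; omega
  · right; omega

/-- combinatorial core -/
theorem core {ι : Type*} [Fintype ι] [Nonempty ι] (a : ι → ℕ) (e : ℕ)
    (h1 : ∑ i, a i = e) (h2 : Fintype.card ι * ∑ i, a i ^ 2 + 1 = e ^ 2 + Fintype.card ι)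
    (h3 : ∀ i j, a i ≤ a j + 1) :
    ((Fintype.card ι : ℤ) ∣ (e : ℤ) - 1) ∨ ((Fintype.card ι : ℤ) ∣ (e : ℤ) + 1) := by
  classical
  obtain ⟨i0, hi0⟩ := Finite.exists_min a
  set c := a i0 with hc
  let S : Finset ι := Finset.univ.filter fun i => a i = c + 1
  have hval : ∀ i, a i = c + if i ∈ S then 1 else 0 := by
    intro i
    have := hi0 i
    have h4 := h3 i i0
    by_cases hi : a i = c + 1
    · rw [if_pos (by simp [S, hi]), hi]
    · rw [if_neg (by simp [S, hi])]
      omega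
  set m := Fintype.card ι with hm
  set s := S.card with hs
  have he : e = c * m + s := by
    rw [← h1, Finset.sum_congr rfl fun i _ => hval i, Finset.sum_add_distrib, Finset.sum_const,
      Finset.card_univ, smul_eq_mul, Finset.sum_ite_mem, Finset.univ_inter, Finset.sum_const, smul_eq_mul, mul_one,
      mul_comm]
  have hsq : ∑ i, a i ^ 2 = c ^ 2 * m + (2 * c + 1) * s := by
    have : ∀ i, a i ^ 2 = c ^ 2 + if i ∈ S then (2 * c + 1) else 0 := by
      intro i
      rw [hval i]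
      split_ifs <;> ring
    rw [Finset.sum_congr rfl fun i _ => this i, Finset.sum_add_distrib, Finset.sum_const,
      Finset.card_univ, smul_eq_mul, Finset.sum_ite_mem, Finset.univ_inter, Finset.sum_const, smul_eq_mul]
    ring
  have hfin : m * s + 1 = s ^ 2 + m := by
    rw [hsq, he] at h2
    nlinarith
  rcases arith hfin with h | h
  · left
    refine ⟨c, ?_⟩
    rw [he, h]; push_cast; ring
  · right
    refine ⟨c + 1, ?_⟩
    rw [he]
    have : (s : ℤ) = m - 1 := by omega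
    push_cast
    rw [this]; ring

/-- characters of abelian groups of absolute value one off the identity -/
theorem abelian_case {C : Type*} [Group C] [Fintype C] (hC : ∀ a b : C, a * b = b * a)
    {b : C → ℂ} (hb : IsCharacter C b) {e : ℕ} (hb1 : b 1 = e)
    (hn : ∀ c : C, c ≠ 1 → b c * conj (b c) = 1) :
    ((Nat.card C : ℤ) ∣ (e : ℤ) - 1) ∨ ((Nat.card C : ℤ) ∣ (e : ℤ) + 1) := by
  classical
  have := Fintype.ofFinite (IrrCharacter C)
  have hlin : ∀ χ : IrrCharacter C, (χ : C → ℂ) 1 = 1 := fun χ => IsIrr.one_of_comm hC χ.2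
  have hcard : Fintype.card (IrrCharacter C) = Nat.card C := by
    have h := sum_sq (G := C)
    simp only [hlin, one_pow, Finset.sum_const, Finset.card_univ, nsmul_eq_mul, mul_one] at h
    exact_mod_cast h
  have hnat : ∀ χ : IrrCharacter C, ∃ n : ℕ, classInner b χ = n := fun χ =>
    ci_char_nat hb (IsIrr.isCharacter χ.2)
  choose a ha using hnat
  have hcl := IsChar.isClass hb
  have hm0 : (Nat.card C : ℂ) ≠ 0 := card_cast_ne_zero
  -- sum of squares
  have hbb : (Nat.card C : ℂ) * classInner b b + 1 = (e : ℂ) ^ 2 + Nat.card C := by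
    rw [classInner, ← mul_assoc, mul_inv_cancel₀ hm0, one_mul,
      ← Finset.add_sum_erase _ _ (Finset.mem_univ (1 : C)),
      Finset.sum_congr rfl (g := fun _ => (1 : ℂ)) (fun c hc => hn c (Finset.ne_of_mem_erase hc)),
      Finset.sum_const, Finset.card_erase_of_mem (Finset.mem_univ _), Finset.card_univ, hb1,
      Nat.card_eq_fintype_card, nsmul_eq_mul, Nat.cast_sub Fintype.card_pos]
    simp
    ring
  have hbb' : classInner b b = ((∑ χ, a χ ^ 2 : ℕ) : ℂ) := by
    rw [ci_eq_sum b b hcl]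
    push_cast
    refine Finset.sum_congr rfl fun χ _ => ?_
    rw [ha, Complex.conj_natCast, sq]
  have hsum : ∑ χ, a χ = e := by
    have h := congrFun (expand b hcl) 1
    rw [hb1, Finset.sum_apply] at h
    simp only [Pi.smul_apply, hlin, ha, smul_eq_mul, mul_one] at h
    exact_mod_cast h.symm
  rw [← hcard]
  have : Nonempty (IrrCharacter C) := ⟨⟨_, isIrr_one⟩⟩
  refine core a e hsum ?_ ?_
  · rw [hbb'] at hbb
    rw [hcard]
    exact_mod_cast hbb
  · intro χ χ'
    by_cases heq : χ = χ'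
    · subst heq; omega
    have hnχ : ∀ (ψ : IrrCharacter C) (x : C), (ψ : C → ℂ) x * conj ((ψ : C → ℂ) x) = 1 := by
      intro ψ x
      obtain ⟨f, hf⟩ := IsChar.hom_units_of_one (IsIrr.isCharacter ψ.2) (hlin ψ)
      rw [hf]
      have h1 : ((f x : ℂˣ) : ℂ) ^ Nat.card C = 1 := by
        rw [← Units.val_pow_eq_pow_val, ← map_pow, pow_card_eq_one', map_one, Units.val_one]
      have h2 : ((f x : ℂˣ) : ℂ)⁻¹ = conj ((f x : ℂˣ) : ℂ) := inv_eq_conj_of_pow Nat.card_pos.ne' h1
      rw [← h2, mul_inv_cancel₀ (Units.ne_zero _)]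
    let μ : C → ℂ := fun x => (χ : C → ℂ) x * conj ((χ' : C → ℂ) x)
    have hμn : ∀ x, μ x * conj (μ x) = 1 := by
      intro x
      simp only [μ, map_mul, Complex.conj_conj]
      calc (χ : C → ℂ) x * conj ((χ' : C → ℂ) x) * (conj ((χ : C → ℂ) x) * (χ' : C → ℂ) x)
          = ((χ : C → ℂ) x * conj ((χ : C → ℂ) x)) * ((χ' : C → ℂ) x * conj ((χ' : C → ℂ) x)) := by ring
        _ = 1 := by rw [hnχ, hnχ, one_mul]
    have hμ1 : μ 1 = 1 := by
      simp only [μ, hlin, map_one, mul_one]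
    let f : C → ℂ := fun x => b x - b x * μ x
    have hfc : IsClassFunction C f := by
      intro g h
      have hh : h * g * h⁻¹ = g := by rw [hC h g, mul_assoc, mul_inv_cancel, mul_one]
      rw [hh]
    have hff : classInner f f = 2 := by
      have h1 : ∀ x, f x * conj (f x) = 2 - (χ : C → ℂ) x * conj ((χ' : C → ℂ) x) -
          (χ' : C → ℂ) x * conj ((χ : C → ℂ) x) := by
        intro x
        have h2 : f x * conj (f x) = (b x * conj (b x)) * ((1 - μ x) * (1 - conj (μ x))) := by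
          simp only [f, map_sub, map_mul]; ring
        have h3 : (1 - μ x) * (1 - conj (μ x)) = 2 - (χ : C → ℂ) x * conj ((χ' : C → ℂ) x) -
          (χ' : C → ℂ) x * conj ((χ : C → ℂ) x) := by
          have : (1 - μ x) * (1 - conj (μ x)) = 1 - μ x - conj (μ x) + μ x * conj (μ x) := by ring
          rw [this, hμn]
          simp only [μ, map_mul, Complex.conj_conj]
          ring
        rw [h2, ← h3]
        by_cases hx : x = 1
        · subst hx
          rw [hμ1]; simp
        · rw [hn x hx, one_mul]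
      rw [classInner, Finset.sum_congr rfl fun x _ => h1 x, Finset.sum_sub_distrib,
        Finset.sum_sub_distrib, mul_sub, mul_sub]
      have h4 := ci_irr_ne χ.2 χ'.2 (fun h => heq (Subtype.ext h))
      have h5 := ci_irr_ne χ'.2 χ.2 (fun h => heq (Subtype.ext h.symm))
      rw [classInner] at h4 h5
      rw [h4, h5, Finset.sum_const, Finset.card_univ, nsmul_eq_mul, ← Nat.card_eq_fintype_card]
      field_simp
      ring
    have hfχ : classInner f χ = (a χ : ℂ) - a χ' := by
      rw [← ha, ← ha, classInner, classInner, classInner, ← mul_sub, ← Finset.sum_sub_distrib]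
      congr 1
      refine Finset.sum_congr rfl fun x _ => ?_
      simp only [f, μ]
      have := hnχ χ x
      linear_combination (- b x * conj ((χ' : C → ℂ) x)) * this
    have hpar := ci_eq_sum f f hfc
    rw [hff] at hpar
    have h6 : ((a χ : ℝ) - a χ') ^ 2 ≤ 2 := by
      have h7 : (2 : ℝ) = ∑ ζ : IrrCharacter C, Complex.normSq (classInner f ζ) := by
        have h8 : (2 : ℂ) = ((∑ ζ : IrrCharacter C, Complex.normSq (classInner f ζ) : ℝ) : ℂ) := by
          rw [hpar]
          push_cast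
          refine Finset.sum_congr rfl fun ζ _ => ?_
          rw [Complex.mul_conj]
        exact_mod_cast h8
      rw [h7]
      have h9 := Finset.single_le_sum (f := fun ζ : IrrCharacter C => Complex.normSq (classInner f ζ))
        (fun ζ _ => Complex.normSq_nonneg _) (Finset.mem_univ χ)
      refine le_trans (le_of_eq ?_) h9
      rw [hfχ]
      have : ((a χ : ℂ) - a χ') = (((a χ : ℝ) - a χ' : ℝ) : ℂ) := by push_cast; ring
      rw [this, Complex.normSq_ofReal, sq]
    have h10 : ((a χ : ℤ) - a χ') ^ 2 ≤ 2 := by exact_mod_cast h6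
    by_contra hcon
    push Not at hcon
    have : (2 : ℤ) ≤ (a χ : ℤ) - a χ' := by omega
    nlinarith

theorem ci_ne_zero {G : Type*} [Group G] [Fintype G] {A B ζ : G → ℂ} (hA : IsCharacter G A)
    (hB : IsCharacter G B) (hζ : IsIrrCharacter G ζ) (h1 : classInner A ζ ≠ 0)
    (h2 : classInner B ζ ≠ 0) : classInner A B ≠ 0 := by
  classical
  have := Fintype.ofFinite (IrrCharacter G)
  have hn : ∀ χ : IrrCharacter G, ∃ n : ℕ, classInner A χ = n := fun χ => ci_char_nat hA (IsIrr.isCharacter χ.2)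
  have hm : ∀ χ : IrrCharacter G, ∃ n : ℕ, classInner B χ = n := fun χ => ci_char_nat hB (IsIrr.isCharacter χ.2)
  choose a ha using hn
  choose b hb using hm
  have h : classInner A B = ((∑ χ, a χ * b χ : ℕ) : ℂ) := by
    rw [ci_eq_sum A B (IsChar.isClass hA)]
    push_cast
    refine Finset.sum_congr rfl fun χ _ => ?_
    rw [ha, hb, Complex.conj_natCast]
  rw [h]
  have h3 : 0 < a ⟨ζ, hζ⟩ * b ⟨ζ, hζ⟩ := by
    apply Nat.mul_pos
    · apply Nat.pos_of_ne_zero
      intro h0
      apply h1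
      have := ha ⟨ζ, hζ⟩
      rw [h0] at this
      simpa using this
    · apply Nat.pos_of_ne_zero
      intro h0
      apply h2
      have := hb ⟨ζ, hζ⟩
      rw [h0] at this
      simpa using this
  have h4 : 0 < ∑ χ, a χ * b χ :=
    lt_of_lt_of_le h3 (Finset.single_le_sum (f := fun χ => a χ * b χ) (fun χ _ => Nat.zero_le _)
      (Finset.mem_univ (⟨ζ, hζ⟩ : IrrCharacter G)))
  exact_mod_cast h4.ne'

section A

variable {H : Type*} [Group H] [Fintype H] {N : Subgroup H} [hN : N.Normal] [Fintype N]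

/-- a character whose restriction to `N` is a multiple of `ψ_N` is a product `b ψ` -/
theorem factor {D ψ : H → ℂ} (hD : IsCharacter H D) (hψ : IsIrrCharacter H ψ)
    (hψN : IsIrrCharacter N (fun n : N => ψ n)) {e : ℂ} (hDN : ∀ n : N, D n = e * ψ n) :
    IsCharacter H (avg N (D * fun g => conj (ψ g))) ∧ InKer N (avg N (D * fun g => conj (ψ g))) ∧
      avg N (D * fun g => conj (ψ g)) 1 = e ∧ D = avg N (D * fun g => conj (ψ g)) * ψ := by
  classical
  have := Fintype.ofFinite (IrrCharacter H)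
  refine ⟨avg_isChar hN (IsChar.mul hD (IsChar.conj (IsIrr.isCharacter hψ))), avg_inKer _, ?_, ?_⟩
  · have h1 : avg N (D * fun g => conj (ψ g)) 1 = e * classInner (fun n : N => ψ n) (fun n : N => ψ n) := by
      simp only [avg, classInner, Pi.mul_apply, mul_one]
      rw [Finset.sum_congr rfl fun n _ => by rw [hDN n, mul_assoc], ← Finset.mul_sum]
      ring
    rw [h1, ci_irr_self hψN, mul_one]
  · have hterm : ∀ ζ : IrrCharacter H, classInner D ζ ≠ 0 →
        avg N ((ζ : H → ℂ) * fun g => conj (ψ g)) * ψ = ζ := by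
      intro ζ hζ
      obtain ⟨θ, hθ, hθ0⟩ := exists_constituent_res (H := N) ζ.2
      have h2 : classInner (fun n : N => D n) θ ≠ 0 := by
        rw [← frobenius' N θ D (IsChar.isClass hD)]
        refine ci_ne_zero hD (IsChar.ind (IsIrr.isCharacter hθ)) ζ.2 hζ ?_
        intro h0
        apply hθ0
        rw [← frobenius' N θ ζ (IsIrr.isClass ζ.2), ← ci_conj_symm, h0, map_zero]
      have h3 : (fun n : N => ψ n) = θ := by
        by_contra hne
        apply h2
        have h4 : (fun n : N => D n) = e • fun n : N => ψ n := funext fun n => hDN n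
        rw [h4, ci_smul_left, ci_irr_ne hψN hθ hne, mul_zero]
      rw [← h3] at hθ0
      obtain ⟨β, hβ, hβk, hβe⟩ := Cfsg.Agent.H3.Lift.gallagher_exists hN hψ hψN ζ.2 hθ0
      have h5 : avg N ((ζ : H → ℂ) * fun g => conj (ψ g)) = β := by
        funext g
        have h6 := congrFun (avg_norm_sq hN hψ hψN) g
        simp only [avg, Pi.mul_apply] at h6 ⊢
        rw [hβe]
        have h7 : ∀ n : N, (β * ψ) (n * g) * conj (ψ (n * g)) = β g * (ψ (n * g) * conj (ψ (n * g))) := by
          intro n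
          rw [Pi.mul_apply, hβk n n.2 g, mul_assoc]
        rw [Finset.sum_congr rfl fun n _ => h7 n, ← Finset.mul_sum, mul_left_comm, h6, mul_one]
      rw [h5, hβe]
    have hexp := expand D (IsChar.isClass hD)
    have hD' : ∀ x, D x = ∑ ζ : IrrCharacter H, classInner D ζ * (ζ : H → ℂ) x := by
      intro x
      conv_lhs => rw [hexp]
      rw [Finset.sum_apply]
      exact Finset.sum_congr rfl fun ζ _ => rfl
    funext g
    have h8 : (avg N (D * fun g => conj (ψ g)) * ψ) g =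
        ∑ ζ : IrrCharacter H, classInner D ζ * (avg N ((ζ : H → ℂ) * fun g => conj (ψ g)) * ψ) g := by
      simp only [avg, Pi.mul_apply]
      have h9 : ∀ n : N, D (n * g) * conj (ψ (n * g)) =
          ∑ ζ : IrrCharacter H, classInner D ζ * ((ζ : H → ℂ) (n * g) * conj (ψ (n * g))) := by
        intro n
        rw [hD', Finset.sum_mul]
        exact Finset.sum_congr rfl fun ζ _ => by ring
      rw [Finset.sum_congr rfl fun n _ => h9 n, Finset.sum_comm, Finset.mul_sum, Finset.sum_mul]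
      refine Finset.sum_congr rfl fun ζ _ => ?_
      rw [← Finset.mul_sum]
      ring
    rw [h8]
    conv_lhs => rw [hD' g]
    refine Finset.sum_congr rfl fun ζ _ => ?_
    by_cases hz : classInner D ζ = 0
    · rw [hz, zero_mul, zero_mul]
    · rw [hterm ζ hz]

theorem lemA (hcyc : IsCyclic (H ⧸ N)) {D ψ : H → ℂ} (hD : IsCharacter H D)
    (hψ : IsIrrCharacter H ψ) (hψN : IsIrrCharacter N (fun n : N => ψ n)) {e : ℕ}
    (hDN : ∀ n : N, D n = e * ψ n)
    (hn : ∀ h : H, h ∉ N → ∑ n : N, D (n * h) * conj (D (n * h)) = Nat.card N) :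
    ((N.index : ℤ) ∣ (e : ℤ) - 1) ∨ ((N.index : ℤ) ∣ (e : ℤ) + 1) := by
  classical
  obtain ⟨hb, hbk, hb1, hbe⟩ := factor hD hψ hψN hDN
  set b := avg N (D * fun g => conj (ψ g)) with hbdef
  obtain ⟨c, hc, hbc⟩ := IsChar.descend hb N (fun n hn => by
    have := hbk n hn 1
    rwa [mul_one] at this)
  have := Fintype.ofFinite (H ⧸ N)
  have hcomm : ∀ x y : H ⧸ N, x * y = y * x := by
    let _ := hcyc.commGroup
    intro x y
    exact mul_comm x y
  rw [Subgroup.index]
  refine abelian_case hcomm hc (e := e) ?_ ?_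
  · have := hbc 1
    rw [hb1] at this
    exact this
  · intro x hx
    obtain ⟨h, rfl⟩ := QuotientGroup.mk'_surjective N x
    have hh : h ∉ N := fun h0 => hx ((QuotientGroup.eq_one_iff h).mpr h0)
    have h1 := hn h hh
    have h2 : ∀ n : N, D (n * h) * conj (D (n * h)) = (b h * conj (b h)) * (ψ (n * h) * conj (ψ (n * h))) := by
      intro n
      rw [hbe, Pi.mul_apply, hbk n n.2 h, map_mul]
      ring
    rw [Finset.sum_congr rfl fun n _ => h2 n, ← Finset.mul_sum, coset_self hψ hψN h] at h1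
    have h3 : (Nat.card N : ℂ) ≠ 0 := by exact_mod_cast Nat.card_pos.ne'
    have h4 : c (QuotientGroup.mk' N h) = b h := hbc h
    rw [h4]
    exact mul_right_cancel₀ h3 (by rw [h1, one_mul])

end A

section Main

variable {Γ : Type*} [Group Γ] [Fintype Γ]

theorem transfer {G N : Subgroup Γ} [hG : G.Normal] [hN : N.Normal] [Fintype G] [Fintype N]
    (hNG : N ≤ G) {s : Γ} (hs : ∀ g : Γ, g ∈ G → s * g * s⁻¹ * g⁻¹ ∈ N → g ∈ N) (F : Γ → ℂ)
    (hF : ∀ g y, F (g * y * g⁻¹) = F y) :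
    (Nat.card G : ℂ) * ∑ c : N, F (c * s) = (Nat.card N : ℂ) * ∑ g : G, F (g * s) := by
  classical
  have hPhi : ∀ (g : G) (c : N), (g : Γ) * c * s * (g : Γ)⁻¹ * s⁻¹ ∈ G := by
    intro g c
    have : (g : Γ) * c * s * (g : Γ)⁻¹ * s⁻¹ = (g : Γ) * c * (s * (g : Γ)⁻¹ * s⁻¹) := by group
    rw [this]
    exact G.mul_mem (G.mul_mem g.2 (hNG c.2)) (hG.conj_mem _ (G.inv_mem g.2) s)
  let Φ : G × N → G := fun x => ⟨(x.1 : Γ) * x.2 * s * (x.1 : Γ)⁻¹ * s⁻¹, hPhi x.1 x.2⟩
  have hΦs : ∀ x : G × N, (Φ x : Γ) * s = (x.1 : Γ) * (x.2 * s) * (x.1 : Γ)⁻¹ := by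
    intro x
    show (x.1 : Γ) * x.2 * s * (x.1 : Γ)⁻¹ * s⁻¹ * s = _
    group
  have hfib : ∀ y : G, (Finset.univ.filter (fun x : G × N => Φ x = y)).card ≤ Fintype.card N := by
    intro y
    rcases (Finset.univ.filter (fun x : G × N => Φ x = y)).eq_empty_or_nonempty with h0 | ⟨x0, hx0⟩
    · rw [h0]; simp
    · rw [Finset.mem_filter] at hx0
      have hx0 := hx0.2
      rw [← Finset.card_univ]
      have hmem : ∀ x : G × N, Φ x = y → (x0.1 : Γ)⁻¹ * x.1 ∈ N := by
        intro x hx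
        have h1 : (x.1 : Γ) * (x.2 * s) * (x.1 : Γ)⁻¹ = (x0.1 : Γ) * (x0.2 * s) * (x0.1 : Γ)⁻¹ := by
          rw [← hΦs, ← hΦs, hx, hx0]
        set u : Γ := (x0.1 : Γ)⁻¹ * x.1 with hu
        have hu' : u * x.2 * s * u⁻¹ = x0.2 * s := by
          have : u * x.2 * s * u⁻¹ = (x0.1 : Γ)⁻¹ * ((x.1 : Γ) * (x.2 * s) * (x.1 : Γ)⁻¹) * x0.1 := by
            rw [hu]; group
          rw [this, h1]; group
        have h2 : s * u⁻¹ * s⁻¹ * u⁻¹⁻¹ = (x.2 : Γ)⁻¹ * (u⁻¹ * x0.2 * u⁻¹⁻¹) := by
          have h3 : s * u⁻¹ = (x.2 : Γ)⁻¹ * u⁻¹ * (x0.2 * s) := by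
            rw [← hu']; group
          rw [h3]; group
        have h4 : u⁻¹ ∈ N := by
          apply hs
          · exact G.inv_mem (G.mul_mem (G.inv_mem x0.1.2) x.1.2)
          · rw [h2]
            exact N.mul_mem (N.inv_mem x.2.2) (hN.conj_mem _ x0.2.2 _)
        exact (N.inv_mem_iff).mp h4
      apply Finset.card_le_card_of_injOn (fun x => if h : (x0.1 : Γ)⁻¹ * x.1 ∈ N then ⟨_, h⟩ else 1) (fun x _ => Finset.mem_univ _)
      intro x hx x' hx' hxx
      simp only [Finset.coe_filter, Finset.mem_univ, true_and, Set.mem_ofPred_eq] at hx hx'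
      simp only [hmem x hx, hmem x' hx', dif_pos] at hxx
      have h1 : x.1 = x'.1 := Subtype.ext (mul_left_cancel (congrArg Subtype.val hxx))
      have h2 : (x.1 : Γ) * (x.2 * s) * (x.1 : Γ)⁻¹ = (x'.1 : Γ) * (x'.2 * s) * (x'.1 : Γ)⁻¹ := by
        rw [← hΦs, ← hΦs, hx, hx']
      rw [h1] at h2
      have h3 : (x.2 : Γ) = x'.2 := by
        have := mul_right_cancel h2
        have := mul_left_cancel this
        exact mul_right_cancel this
      exact Prod.ext h1 (Subtype.ext h3)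
  have htot : ∑ y : G, (Finset.univ.filter (fun x : G × N => Φ x = y)).card = Fintype.card G * Fintype.card N := by
    rw [← Fintype.card_prod, ← Finset.card_univ]
    exact (Finset.card_eq_sum_card_fiberwise (fun x _ => Finset.mem_univ (Φ x))).symm
  have hfib' : ∀ y : G, (Finset.univ.filter (fun x : G × N => Φ x = y)).card = Fintype.card N := by
    have h1 : ∑ y : G, (Finset.univ.filter (fun x : G × N => Φ x = y)).card = ∑ y : G, Fintype.card N := by
      rw [htot]; simp
    have h2 := (Finset.sum_eq_sum_iff_of_le (fun y _ => hfib y)).mp h1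
    exact fun y => h2 y (Finset.mem_univ _)
  have h1 : ∑ x : G × N, F ((Φ x : Γ) * s) = (Nat.card G : ℂ) * ∑ c : N, F (c * s) := by
    rw [Fintype.sum_prod_type]
    have h2 : ∀ g : G, ∑ c : N, F ((Φ (g, c) : Γ) * s) = ∑ c : N, F (c * s) := by
      intro g
      refine Finset.sum_congr rfl fun c _ => ?_
      rw [hΦs, hF]
    rw [Finset.sum_congr rfl fun g _ => h2 g, Finset.sum_const, Finset.card_univ, ← Nat.card_eq_fintype_card, nsmul_eq_mul]
  rw [← h1]
  have h2 := Finset.sum_fiberwise (Finset.univ : Finset (G × N)) Φ (fun x => F ((Φ x : Γ) * s))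
  rw [← h2, Finset.mul_sum]
  refine Finset.sum_congr rfl fun y _ => ?_
  rw [Finset.sum_congr rfl (g := fun _ => F ((y : Γ) * s)) (fun x hx => by
    rw [Finset.mem_filter] at hx
    rw [hx.2]), Finset.sum_const, hfib' y, Nat.card_eq_fintype_card, nsmul_eq_mul]

theorem main (G N : Subgroup Γ) [hG : G.Normal] [hN : N.Normal] [Fintype G] [Fintype N]
    (hNG : N ≤ G) (hGlt : G ≠ ⊤) (hcyc : IsCyclic (Γ ⧸ G))
    (hfrob : ∀ x : Γ, x ∉ G → ∀ g : Γ, g ∈ G → x * g * x⁻¹ * g⁻¹ ∈ N → g ∈ N)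
    {θ : N → ℂ} (hθ : IsIrrCharacter N θ)
    (hinv : ∀ (x : Γ) (n : N), θ ⟨x * n * x⁻¹, hN.conj_mem n n.2 x⟩ = θ n)
    {χ : G → ℂ} (hχ : IsIrrCharacter G χ) (e : ℕ)
    (hram : indFun (N.subgroupOf G) (fun n : N.subgroupOf G => θ ⟨(n : G), n.2⟩) =
      fun g => (e : ℂ) * χ g) :
    (G.index : ℤ) ∣ (e : ℤ) - 1 ∨ (G.index : ℤ) ∣ (e : ℤ) + 1 := by
  classical
  -- values of χ
  have hNG' : (N.subgroupOf G).Normal := inferInstance
  have hcN : Nat.card (N.subgroupOf G) = Nat.card N := Nat.card_congr (Subgroup.subgroupOfEquivOfLe hNG).toEquiv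
  have hθ' : IsIrrCharacter (N.subgroupOf G) (fun n : N.subgroupOf G => θ ⟨(n : G), n.2⟩) :=
    (isIrr_comp_iff (Subgroup.subgroupOfEquivOfLe hNG)).mpr hθ
  have := Fintype.ofFinite (N.subgroupOf G)
  have he0 : (e : ℂ) ≠ 0 := by
    intro h0
    have h1 := congrFun hram 1
    rw [ind_one, h0, zero_mul] at h1
    rcases mul_eq_zero.mp h1 with h2 | h2
    · have : (N.subgroupOf G).index ≠ 0 := Subgroup.FiniteIndex.index_ne_zero
      exact this (by exact_mod_cast h2)
    · exact IsIrr.one_ne_zero hθ' h2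
  have hval : ∀ n : N.subgroupOf G, (e : ℂ) * χ (n : G) =
      ((N.subgroupOf G).index : ℂ) * θ ⟨(n : G), n.2⟩ := by
    intro n
    have h1 := congrFun hram (n : G)
    rw [ind_res hNG' _ n] at h1
    have h2 : ∀ x : G, cj hNG' x (fun n : N.subgroupOf G => θ ⟨(n : G), n.2⟩) n = θ ⟨(n : G), n.2⟩ := by
      intro x
      rw [cj_apply]
      exact hinv (x : Γ) ⟨(n : G), n.2⟩
    rw [Finset.sum_congr rfl fun x _ => h2 x, Finset.sum_const, Finset.card_univ, nsmul_eq_mul,
      ← Nat.card_eq_fintype_card, ← (N.subgroupOf G).card_mul_index] at h1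
    rw [← h1]
    have h3 : (Nat.card (N.subgroupOf G) : ℂ) ≠ 0 := by exact_mod_cast Nat.card_pos.ne'
    push_cast
    field_simp
  have hidx : ((N.subgroupOf G).index : ℂ) = e ^ 2 := by
    have h1 : (fun n : N.subgroupOf G => χ n) = (((N.subgroupOf G).index : ℂ) / e) •
        (fun n : N.subgroupOf G => θ ⟨(n : G), n.2⟩) := by
      funext n
      rw [Pi.smul_apply, smul_eq_mul, div_mul_eq_mul_div, eq_div_iff he0, mul_comm, hval n]
    have h2 : classInner (fun n : N.subgroupOf G => χ n) (fun n : N.subgroupOf G => θ ⟨(n : G), n.2⟩) = e := by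
      rw [← frobenius' (N.subgroupOf G) _ χ (IsIrr.isClass hχ), hram]
      have : (fun g => (e : ℂ) * χ g) = (e : ℂ) • χ := rfl
      rw [this, ci_smul_right, ci_irr_self hχ, Complex.conj_natCast, mul_one]
    rw [h1, ci_smul_left, ci_irr_self hθ', mul_one, div_eq_iff he0] at h2
    rw [h2, sq]
  have hres : ∀ (g : G) (hg : (g : Γ) ∈ N), χ g = e * θ ⟨g, hg⟩ := by
    intro g hg
    have h1 := hval ⟨g, hg⟩
    rw [hidx, sq, mul_assoc] at h1
    exact mul_left_cancel₀ he0 h1
  have hoff : ∀ g : G, (g : Γ) ∉ N → χ g = 0 := by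
    intro g hg
    have h1 := congrFun hram g
    rw [ind_of_not_mem hNG' _ (by rwa [Subgroup.mem_subgroupOf])] at h1
    exact (mul_eq_zero.mp h1.symm).resolve_left he0
  have hχinv : ∀ (x : Γ) (g : G), χ ⟨x * g * x⁻¹, hG.conj_mem (g : Γ) g.2 x⟩ = χ g := by
    intro x g
    by_cases hg : (g : Γ) ∈ N
    · have hg' : x * g * x⁻¹ ∈ N := hN.conj_mem _ hg x
      rw [hres _ hg', hres _ hg]
      congr 1
      exact hinv x ⟨g, hg⟩
    · have hg' : x * g * x⁻¹ ∉ N := fun h => hg (by
        have := hN.conj_mem _ h x⁻¹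
        have h2 : x⁻¹ * (x * g * x⁻¹) * x⁻¹⁻¹ = g := by group
        rwa [h2] at this)
      rw [hoff _ hg', hoff _ hg]
  obtain ⟨X, hX, hXr⟩ := Cfsg.Agent.H3.CycExt.exists_extension G hcyc χ hχ hχinv
  have hXG : IsIrrCharacter G (fun g : G => X g) := by
    have : (fun g : G => X g) = χ := funext hXr
    rw [this]; exact hχ
  -- the complement
  obtain ⟨xb, hxb⟩ := hcyc.exists_generator
  obtain ⟨x, rfl⟩ := QuotientGroup.mk'_surjective G xb
  have hgen : ∀ y : Γ, ∃ k : ℤ, y * x ^ (-k) ∈ G := by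
    intro y
    obtain ⟨k, hk⟩ := Subgroup.mem_zpowers_iff.mp (hxb (QuotientGroup.mk' G y))
    refine ⟨k, ?_⟩
    rw [← QuotientGroup.eq_one_iff]
    change (QuotientGroup.mk' G) (y * x ^ (-k)) = 1
    rw [map_mul, map_zpow, ← hk, zpow_neg, mul_inv_cancel]
  have hxG : x ∉ G := by
    intro hx
    apply hGlt
    rw [eq_top_iff]
    intro y _
    obtain ⟨k, hk⟩ := hgen y
    have := G.mul_mem hk (G.zpow_mem hx k)
    rwa [mul_assoc, zpow_neg, inv_mul_cancel, mul_one] at this
  let H : Subgroup Γ := N ⊔ Subgroup.zpowers x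
  have hNH : N ≤ H := le_sup_left
  have hHmem : ∀ h ∈ H, ∃ n ∈ N, ∃ k : ℤ, h = n * x ^ k := by
    intro h hh
    obtain ⟨n, hn, z, hz, rfl⟩ := Subgroup.mem_sup_of_normal_left.mp hh
    obtain ⟨k, rfl⟩ := Subgroup.mem_zpowers_iff.mp hz
    exact ⟨n, hn, k, rfl⟩
  have hHG : ∀ h ∈ H, h ∈ G → h ∈ N := by
    intro h hh hg
    obtain ⟨n, hn, k, rfl⟩ := hHmem h hh
    have h1 : x ^ k ∈ G := (G.mul_mem_cancel_left (hNG hn)).mp hg
    apply N.mul_mem hn
    apply hfrob x hxG _ h1
    have : x * x ^ k * x⁻¹ * (x ^ k)⁻¹ = 1 := by group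
    rw [this]; exact N.one_mem
  have hNHn : (N.subgroupOf H).Normal := inferInstance
  have hxH : x ∈ H := (le_sup_right : _ ≤ H) (Subgroup.mem_zpowers x)
  have hcycH : IsCyclic (H ⧸ N.subgroupOf H) := by
    refine ⟨QuotientGroup.mk' (N.subgroupOf H) ⟨x, hxH⟩, ?_⟩
    intro y
    obtain ⟨h, rfl⟩ := QuotientGroup.mk'_surjective (N.subgroupOf H) y
    obtain ⟨n, hn, k, hk⟩ := hHmem h h.2
    refine Subgroup.mem_zpowers_iff.mpr ⟨k, ?_⟩
    rw [← map_zpow]
    symm
    have h1 : h = ⟨n, hNH hn⟩ * (⟨x, hxH⟩ : H) ^ k := Subtype.ext (by simpa using hk)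
    rw [h1, map_mul]
    have h2 : (QuotientGroup.mk' (N.subgroupOf H)) ⟨n, hNH hn⟩ = 1 :=
      (QuotientGroup.eq_one_iff _).mpr (by rwa [Subgroup.mem_subgroupOf])
    rw [h2, one_mul]
  have hθH : IsIrrCharacter (N.subgroupOf H) (fun n : N.subgroupOf H => θ ⟨(n : H), n.2⟩) :=
    (isIrr_comp_iff (Subgroup.subgroupOfEquivOfLe hNH)).mpr hθ
  obtain ⟨ψ, hψ, hψr⟩ := Cfsg.Agent.H3.CycExt.exists_extension (N.subgroupOf H) hcycH
    (fun n : N.subgroupOf H => θ ⟨(n : H), n.2⟩) hθH (fun h n => hinv (h : Γ) ⟨(n : H), n.2⟩)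
  have hψN : IsIrrCharacter (N.subgroupOf H) (fun n : N.subgroupOf H => ψ n) := by
    have : (fun n : N.subgroupOf H => ψ n) = fun n : N.subgroupOf H => θ ⟨(n : H), n.2⟩ := funext hψr
    rw [this]; exact hθH
  have := Fintype.ofFinite (N.subgroupOf H)
  have := Fintype.ofFinite H
  have hD : IsCharacter H (fun h : H => X h) := IsChar.res (IsIrr.isCharacter hX) H
  have hidxH : (N.subgroupOf H).index = G.index := by
    have h1 : N.relIndex H = G.relIndex H := by
      rw [← Subgroup.inf_relIndex_right G H]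
      have : G ⊓ H = N := le_antisymm (fun y hy => hHG y hy.2 hy.1) (le_inf hNG hNH)
      rw [this]
    have h2 : G.relIndex H = G.index := by
      rw [← Subgroup.relIndex_sup_right]
      have : H ⊔ G = ⊤ := by
        rw [eq_top_iff]
        intro y _
        obtain ⟨k, hk⟩ := hgen y
        have h3 : y = (y * x ^ (-k)) * x ^ k := by group
        rw [h3]
        exact mul_mem ((le_sup_right : G ≤ H ⊔ G) hk) ((le_sup_left : H ≤ H ⊔ G) (H.zpow_mem hxH k))
      rw [this, Subgroup.relIndex_top_right]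
    exact h1.trans h2
  rw [← hidxH]
  refine lemA hcycH hD hψ hψN (e := e) ?_ ?_
  · intro n
    rw [hψr]
    have h1 := hXr ⟨(n : H), hNG n.2⟩
    have h2 := hres ⟨(n : H), hNG n.2⟩ n.2
    rw [h2] at h1
    exact h1
  · intro h hh
    have hhG : (h : Γ) ∉ G := fun hg => hh (by
      rw [Subgroup.mem_subgroupOf]; exact hHG h h.2 hg)
    have h1 := transfer hNG (hfrob h hhG) (fun y => X y * conj (X y)) (fun g y => by
      rw [IsIrr.isClass hX])
    have h2 := coset_self hX hXG (h : Γ)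
    rw [h2] at h1
    have h3 : (Nat.card G : ℂ) ≠ 0 := by exact_mod_cast Nat.card_pos.ne'
    have h4 : ∑ c : N, X (c * h) * conj (X (c * h)) = (Nat.card N : ℂ) := by
      rw [mul_comm (Nat.card N : ℂ)] at h1
      exact mul_left_cancel₀ h3 h1
    rw [Nat.card_congr (Subgroup.subgroupOfEquivOfLe hNH).toEquiv, ← h4]
    exact Fintype.sum_equiv (Subgroup.subgroupOfEquivOfLe hNH).toEquiv _ _ fun n => rfl

end Main

end Cfsg.Agent.H3.FrobRam
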