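import Mathlib
import Cfsg.Prelude.Def_Characters
import Cfsg.Agent.H3_FrobRam
import Cfsg.Agent.H3_Triple
import Cfsg.Agent.H1_Prim
import Cfsg.Agent.H1_Hall

/-!
# Characters induced from maximal subgroups and quasi-primitivity
-/

set_option autoImplicit false

open scoped ComplexConjugate

namespace Cfsg.Agent.H3.QPrim

open Cfsg Cfsg.Agent.H3.CharBasic Cfsg.Agent.H3.CharIrr Cfsg.Agent.H3.CharComplete
  Cfsg.Agent.H3.CharMult Cfsg.Agent.H3.CharInd Cfsg.Agent.H3.CharInt Cfsg.Agent.H3.Clifford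
  Cfsg.Agent.H3.CharQuot Cfsg.Agent.H3.CharCalc Cfsg.Agent.H3.GlCyc Cfsg.Agent.H1.Prim
  Cfsg.Agent.H1.Hall

/-- structure of primitive solvable groups -/
theorem gt {Q : Type*} [Group Q] [Finite Q] [Group.IsSolvable Q] {U : Subgroup Q} (hU : IsCoatom U)
    (hcore : U.normalCore = ⊥) :
    U = ⊥ ∨ ∃ (q r : ℕ) (M R : Subgroup Q), q.Prime ∧ r.Prime ∧ q ≠ r ∧
      M.Normal ∧ M ⊔ U = ⊤ ∧ M ⊓ U = ⊥ ∧ IsPGroup q M ∧ IsPGroup r R ∧ R ≠ ⊥ ∧ R ≤ U ∧
      (M ⊔ R).Normal := by
  classical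
  have hnt : Nontrivial Q := by
    by_contra h
    rw [not_nontrivial_iff_subsingleton] at h
    exact hU.1 (Subsingleton.elim _ _)
  obtain ⟨M, hMn, hMb, hmin⟩ := exists_minimal_normal_of_nontrivial Q
  obtain ⟨hMc, q, hq, hMq⟩ := minimal_normal_elementary M hMb hmin
  have hMU : M ⊔ U = ⊤ := sup_eq_top_of_core hU hcore hMb
  have hcomm : ∀ x ∈ M, ∀ y ∈ M, x * y = y * x := by
    intro x hx y hy
    exact congrArg Subtype.val (hMc.is_comm.comm ⟨x, hx⟩ ⟨y, hy⟩)
  have hMC : M ≤ Subgroup.centralizer (M : Set Q) := fun x hx y hy => hcomm y hy x hx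
  have hCU : Subgroup.centralizer (M : Set Q) ⊓ U = ⊥ := centralizer_inf_eq_bot hU hcore hMb
  have hMinf : M ⊓ U = ⊥ := le_bot_iff.mp (hCU ▸ inf_le_inf_right U hMC)
  have : Fact q.Prime := ⟨hq⟩
  have hMp : IsPGroup q M := fun x => ⟨1, by
    rw [pow_one]; exact Subtype.ext (hMq x x.2)⟩
  by_cases hU0 : U = ⊥
  · exact Or.inl hU0
  right
  have hntU : Nontrivial U := (Subgroup.nontrivial_iff_ne_bot U).mpr hU0
  obtain ⟨R', hR'n, hR'b, hR'min⟩ := exists_minimal_normal_of_nontrivial U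
  obtain ⟨hRc, r, hr, hRr⟩ := minimal_normal_elementary R' hR'b hR'min
  let R : Subgroup Q := R'.map U.subtype
  have hRU : R ≤ U := by rintro _ ⟨x, _, rfl⟩; exact x.2
  have hRb : R ≠ ⊥ := by
    intro h
    rw [Subgroup.map_eq_bot_iff_of_injective _ U.subtype_injective] at h
    exact hR'b h
  have hRp : IsPGroup r R := by
    have : IsPGroup r R' := fun x => ⟨1, by rw [pow_one]; exact Subtype.ext (hRr x x.2)⟩
    exact this.map U.subtype
  have hRn : ∀ u ∈ U, ∀ x ∈ R, u * x * u⁻¹ ∈ R := by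
    rintro u hu _ ⟨x, hx, rfl⟩
    exact ⟨⟨u, hu⟩ * x * ⟨u, hu⟩⁻¹, hR'n.conj_mem x hx _, rfl⟩
  have hgen : ∀ g : Q, ∃ m ∈ M, ∃ u ∈ U, g = m * u := by
    intro g
    have : g ∈ M ⊔ U := by rw [hMU]; trivial
    obtain ⟨m, hm, u, hu, rfl⟩ := Subgroup.mem_sup_of_normal_left.mp this
    exact ⟨m, hm, u, hu, rfl⟩
  have hMR : (M ⊔ R).Normal := by
    constructor
    intro n hn g
    obtain ⟨m, hm, u, hu, rfl⟩ := hgen g
    obtain ⟨m', hm', x, hx, rfl⟩ := Subgroup.mem_sup_of_normal_left.mp hn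
    have h1 : u * (m' * x) * u⁻¹ ∈ M ⊔ R := by
      have : u * (m' * x) * u⁻¹ = (u * m' * u⁻¹) * (u * x * u⁻¹) := by group
      rw [this]
      exact mul_mem ((le_sup_left : M ≤ M ⊔ R) (hMn.conj_mem _ hm' u)) ((le_sup_right : R ≤ M ⊔ R) (hRn u hu x hx))
    have h2 : m * u * (m' * x) * (m * u)⁻¹ = m * (u * (m' * x) * u⁻¹) * m⁻¹ := by group
    rw [h2]
    exact mul_mem (mul_mem ((le_sup_left : M ≤ M ⊔ R) hm) h1) (inv_mem ((le_sup_left : M ≤ M ⊔ R) hm))
  refine ⟨q, r, M, R, hq, hr, ?_, hMn, hMU, hMinf, hMp, hRp, hRb, hRU, hMR⟩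
  rintro rfl
  -- fixed points of `R` on `M`
  let φ : R →* MulAut M := (MulAut.conjNormal (H := M)).comp R.subtype
  let _ : MulAction R M := MulAction.compHom M φ
  have hact : ∀ (x : R) (m : M), ((x • m : M) : Q) = x * m * (x : Q)⁻¹ := fun x m =>
    MulAut.conjNormal_apply (x : Q) m
  have hdvd : q ∣ Nat.card M := by
    have hntM : Nontrivial M := (Subgroup.nontrivial_iff_ne_bot M).mpr hMb
    obtain ⟨n, hn0, hn⟩ := hMp.nontrivial_iff_card.mp inferInstance
    exact hn.symm ▸ dvd_pow_self _ (ne_of_gt hn0)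
  obtain ⟨m, hm, hm1⟩ := hRp.exists_fixed_point_of_prime_dvd_card_of_fixed_point (α := M) hdvd
    (a := 1) (fun x => Subtype.ext (by rw [hact]; simp))
  let D : Subgroup Q := M ⊓ Subgroup.centralizer (R : Set Q)
  have hDn : D.Normal := by
    constructor
    intro d hd g
    obtain ⟨m, hm, u, hu, rfl⟩ := hgen g
    have h0 : u * d * u⁻¹ ∈ D := by
      refine ⟨hMn.conj_mem _ hd.1 u, ?_⟩
      intro x hx
      have h1 : u⁻¹ * x * u ∈ R := by
        have := hRn u⁻¹ (inv_mem hu) x hx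
        rwa [inv_inv] at this
      have h2 : (u⁻¹ * x * u) * d = d * (u⁻¹ * x * u) := hd.2 _ h1
      calc x * (u * d * u⁻¹) = u * ((u⁻¹ * x * u) * d) * u⁻¹ := by group
        _ = u * (d * (u⁻¹ * x * u)) * u⁻¹ := by rw [h2]
        _ = u * d * u⁻¹ * x := by group
    have h3 : m * u * d * (m * u)⁻¹ = u * d * u⁻¹ := by
      have : m * u * d * (m * u)⁻¹ = m * (u * d * u⁻¹) * m⁻¹ := by group
      rw [this, hcomm m hm _ h0.1, mul_inv_cancel_right]
    rw [h3]; exact h0
  rcases hmin D hDn inf_le_left with h | h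
  · have : (m : Q) ∈ D := by
      refine ⟨m.2, ?_⟩
      intro x hx
      have h1 := congrArg Subtype.val (hm ⟨x, hx⟩)
      rw [hact] at h1
      exact mul_inv_eq_iff_eq_mul.mp h1
    rw [h, Subgroup.mem_bot] at this
    exact hm1 (Subtype.ext this.symm)
  · apply hRb
    rw [eq_bot_iff, ← hCU]
    refine le_inf ?_ hRU
    intro x hx y hy
    have : y ∈ D := by rw [h]; exact hy
    exact (this.2 x hx).symm

/-- the same, pulled back -/
theorem gt2 {G : Type*} [Group G] [Finite G] {L H : Subgroup G} [hL : L.Normal] (hLH : L ≤ H)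
    (hmax : IsCoatom H) (hsolv : Group.IsSolvable (G ⧸ L)) (N : Subgroup G) [hNn : N.Normal]
    (hN : N = H.normalCore) :
    N = H ∨ ∃ (q r k l : ℕ) (M R : Subgroup G), q.Prime ∧ r.Prime ∧ q ≠ r ∧
      M.Normal ∧ M ⊔ H = ⊤ ∧ M ⊓ H = N ∧ N.relIndex M = q ^ k ∧
      N.relIndex R = r ^ l ∧ N < R ∧ R ≤ H ∧ (M ⊔ R).Normal := by
  classical
  have hNH : N ≤ H := hN ▸ Subgroup.normalCore_le H
  have hLN : L ≤ N := hN ▸ Subgroup.normal_le_normalCore.mpr hLH
  have hsurj := QuotientGroup.mk'_surjective N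
  have : Group.IsSolvable (G ⧸ N) := by
    have hs : Function.Surjective (QuotientGroup.map L N (MonoidHom.id G) (by
        intro x hx; exact hLN hx)) := by
      intro y
      obtain ⟨g, rfl⟩ := QuotientGroup.mk'_surjective N y
      exact ⟨(g : G ⧸ L), rfl⟩
    exact Group.isSolvable_of_surjective hs
  let U := H.map (QuotientGroup.mk' N)
  have hker : (QuotientGroup.mk' N).ker = N := QuotientGroup.ker_mk' N
  have hcomapU : U.comap (QuotientGroup.mk' N) = H := by
    rw [Subgroup.comap_map_eq, hker, sup_eq_left.mpr hNH]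
  have hU : IsCoatom U := by
    constructor
    · intro h
      apply hmax.1
      rw [← hcomapU, h, Subgroup.comap_top]
    · intro V hV
      have h1 : U.comap (QuotientGroup.mk' N) < V.comap (QuotientGroup.mk' N) :=
        (Subgroup.comap_lt_comap_of_surjective hsurj).mpr hV
      have h2 := hmax.2 _ (lt_of_eq_of_lt hcomapU.symm h1)
      rw [← Subgroup.map_comap_eq_self_of_surjective hsurj V, h2, Subgroup.map_top_of_surjective _ hsurj]
  have hcore : U.normalCore = ⊥ := by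
    have hn : (U.normalCore.comap (QuotientGroup.mk' N)).Normal := inferInstance
    have h1 : U.normalCore.comap (QuotientGroup.mk' N) ≤ N := by
      have h2 : U.normalCore.comap (QuotientGroup.mk' N) ≤ H.normalCore := by
        apply Subgroup.normal_le_normalCore.mpr
        exact le_trans (Subgroup.comap_mono (Subgroup.normalCore_le U)) (le_of_eq hcomapU)
      exact le_trans h2 (le_of_eq hN.symm)
    rw [eq_bot_iff]
    intro y hy
    obtain ⟨g, rfl⟩ := hsurj y
    rw [Subgroup.mem_bot]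
    exact (QuotientGroup.eq_one_iff g).mpr (h1 hy)
  rcases gt hU hcore with h | ⟨q, r, M, R, hq, hr, hqr, hMn, hMU, hMinf, hMp, hRp, hRb, hRU, hMR⟩
  · left
    apply le_antisymm hNH
    intro x hx
    have : QuotientGroup.mk' N x ∈ U := ⟨x, hx, rfl⟩
    rw [h, Subgroup.mem_bot] at this
    exact (QuotientGroup.eq_one_iff x).mp this
  · right
    have : Fact q.Prime := ⟨hq⟩
    have : Fact r.Prime := ⟨hr⟩
    obtain ⟨k, hk⟩ := (IsPGroup.iff_card (p := q) (G := M)).mp hMp
    obtain ⟨l, hl⟩ := (IsPGroup.iff_card (p := r) (G := R)).mp hRp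
    refine ⟨q, r, k, l, M.comap (QuotientGroup.mk' N), R.comap (QuotientGroup.mk' N), hq, hr, hqr,
      inferInstance, ?_, ?_, ?_, ?_, ?_, ?_, ?_⟩
    · rw [← hcomapU, Subgroup.comap_sup_eq_of_le_range, hMU, Subgroup.comap_top]
      · rw [MonoidHom.range_eq_top.mpr hsurj]; exact le_top
      · rw [MonoidHom.range_eq_top.mpr hsurj]; exact le_top
    · rw [← hcomapU, ← Subgroup.comap_inf, hMinf, MonoidHom.comap_bot, hker]
    · rw [relIndex_comap_mk, hk]
    · rw [relIndex_comap_mk, hl]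
    · apply lt_of_le_of_ne (le_comap_mk N R)
      intro h
      apply hRb
      rw [eq_bot_iff]
      intro y hy
      obtain ⟨g, rfl⟩ := hsurj y
      rw [Subgroup.mem_bot]
      apply (QuotientGroup.eq_one_iff g).mpr
      have : g ∈ R.comap (QuotientGroup.mk' N) := hy
      exact (le_of_eq h.symm) this
    · rw [← hcomapU]; exact Subgroup.comap_mono hRU
    · rw [Subgroup.comap_sup_eq_of_le_range]
      · infer_instance
      · rw [MonoidHom.range_eq_top.mpr hsurj]; exact le_top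
      · rw [MonoidHom.range_eq_top.mpr hsurj]; exact le_top

section Chars

variable {G : Type*} [Group G] [Fintype G]

theorem sum_conj_sub {H K : Subgroup G} [Fintype K] (hKH : K ⊔ H = ⊤) [hK : K.Normal] (f : G → ℂ)
    (hf : ∀ x, ∀ h ∈ H, f (x * h) = f x) :
    (Nat.card K : ℂ) * ∑ x : G, f x = (Nat.card G : ℂ) * ∑ y : K, f y := by
  have h1 : ∀ y : K, ∑ x : G, f x = ∑ x : G, f (y * x) := fun y =>
    (Equiv.sum_comp (Equiv.mulLeft (y : G)) f).symm
  have h2 : (Nat.card K : ℂ) * ∑ x : G, f x = ∑ y : K, ∑ x : G, f (y * x) := by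
    rw [← Finset.sum_congr rfl fun y _ => h1 y, Finset.sum_const, Finset.card_univ, nsmul_eq_mul,
      Nat.card_eq_fintype_card]
  rw [h2, Finset.sum_comm]
  have h3 : ∀ x : G, ∑ y : K, f (y * x) = ∑ y : K, f y := by
    intro x
    have : x ∈ K ⊔ H := by rw [hKH]; trivial
    obtain ⟨z, hz, h, hh, rfl⟩ := Subgroup.mem_sup_of_normal_left.mp this
    rw [← Equiv.sum_comp (Equiv.mulRight (⟨z, hz⟩ : K)) (fun y : K => f y)]
    refine Finset.sum_congr rfl fun y _ => ?_
    rw [← mul_assoc, hf _ h hh]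
    rfl
  rw [Finset.sum_congr rfl fun x _ => h3 x, Finset.sum_const, Finset.card_univ, nsmul_eq_mul,
    Nat.card_eq_fintype_card]

theorem mk {H K R : Subgroup G} [Fintype H] [Fintype K] [Fintype R] (hKH : K ⊔ H = ⊤) [hK : K.Normal]
    (hR : K ⊓ H = R) (hRH : R ≤ H) {ϑ : H → ℂ} (hϑ : IsClassFunction H ϑ) {F : G → ℂ}
    (hF : IsClassFunction G F) :
    classInner (fun k : K => indFun H ϑ k) (fun k : K => F k) =
      classInner (fun r : R => ϑ ⟨r, hRH r.2⟩) (fun r : R => F r) := by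
  classical
  have hK0 : (Nat.card K : ℂ) ≠ 0 := by exact_mod_cast Nat.card_pos.ne'
  have hH0 : (Nat.card H : ℂ) ≠ 0 := by exact_mod_cast Nat.card_pos.ne'
  have hR0 : (Nat.card R : ℂ) ≠ 0 := by exact_mod_cast Nat.card_pos.ne'
  have hinv : ∀ (h : G) (hh : h ∈ H) (x : G), extendByZero H ϑ (h * x * h⁻¹) = extendByZero H ϑ x := by
    intro h hh x
    by_cases hx : x ∈ H
    · have hx' : h * x * h⁻¹ ∈ H := mul_mem (mul_mem hh hx) (inv_mem hh)
      rw [ext_mem H ϑ hx, ext_mem H ϑ hx']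
      exact hϑ ⟨x, hx⟩ ⟨h, hh⟩
    · have hx' : h * x * h⁻¹ ∉ H := fun h' => hx (by
        have := mul_mem (mul_mem (inv_mem hh) h') hh
        have h2 : h⁻¹ * (h * x * h⁻¹) * h = x := by group
        rwa [h2] at this)
      rw [ext_not_mem H ϑ hx, ext_not_mem H ϑ hx']
  have h1 : ∀ k : K, (Nat.card K : ℂ) * ((Nat.card H : ℂ) * indFun H ϑ k) =
      (Nat.card G : ℂ) * ∑ y : K, extendByZero H ϑ ((y : G)⁻¹ * k * y) := by
    intro k
    rw [indFun, ← mul_assoc (Nat.card H : ℂ), mul_inv_cancel₀ hH0, one_mul]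
    apply sum_conj_sub hKH (fun x => extendByZero H ϑ (x⁻¹ * k * x))
    intro x h hh
    have : (x * h)⁻¹ * k * (x * h) = h⁻¹ * (x⁻¹ * k * x) * h⁻¹⁻¹ := by group
    rw [this, hinv _ (inv_mem hh)]
  have h2 : ∑ k : K, ((Nat.card G : ℂ) * ∑ y : K, extendByZero H ϑ ((y : G)⁻¹ * k * y)) * conj (F k) =
      (Nat.card G : ℂ) * ((Nat.card K : ℂ) * ∑ k : K, extendByZero H ϑ k * conj (F k)) := by
    have h0 : ∑ k : K, ((Nat.card G : ℂ) * ∑ y : K, extendByZero H ϑ ((y : G)⁻¹ * k * y)) * conj (F k) =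
        (Nat.card G : ℂ) * ∑ y : K, ∑ k : K, extendByZero H ϑ ((y : G)⁻¹ * k * y) * conj (F k) := by
      rw [Finset.sum_comm, Finset.mul_sum]
      refine Finset.sum_congr rfl fun k _ => ?_
      rw [mul_assoc (Nat.card G : ℂ), Finset.sum_mul]
    rw [h0]
    congr 1
    have h3 : ∀ y : K, ∑ k : K, extendByZero H ϑ ((y : G)⁻¹ * k * y) * conj (F k) =
        ∑ k : K, extendByZero H ϑ k * conj (F k) := by
      intro y
      rw [← Equiv.sum_comp (MulAut.conj y).toEquiv (fun k : K => extendByZero H ϑ ((y : G)⁻¹ * k * y) * conj (F k))]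
      refine Finset.sum_congr rfl fun k _ => ?_
      have e1 : (((MulAut.conj y).toEquiv k : K) : G) = y * k * (y : G)⁻¹ := rfl
      rw [e1, hF k y]
      congr 2
      group
    rw [Finset.sum_congr rfl fun y _ => h3 y, Finset.sum_const, Finset.card_univ, nsmul_eq_mul,
      Nat.card_eq_fintype_card]
  have hRK : R ≤ K := hR ▸ inf_le_left
  have h4 : ∑ k : K, extendByZero H ϑ k * conj (F k) =
      ∑ r : R, ϑ ⟨r, hRH r.2⟩ * conj (F r) := by
    symm
    apply Finset.sum_of_injOn (fun r : R => (⟨r, hRK r.2⟩ : K))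
    · intro a _ b _ hab
      have h := congrArg (fun z : K => (z : G)) hab
      exact Subtype.ext h
    · intro a _; exact Finset.mem_coe.mpr (Finset.mem_univ _)
    · intro k _ hk
      have : (k : G) ∉ H := by
        intro hkH
        apply hk
        have hkR : (k : G) ∈ R := by rw [← hR]; exact ⟨k.2, hkH⟩
        exact ⟨⟨k, hkR⟩, Finset.mem_coe.mpr (Finset.mem_univ _), rfl⟩
      rw [ext_not_mem H ϑ this, zero_mul]
    · intro r _
      rw [ext_mem H ϑ (hRH r.2)]
  have hcard : (Nat.card G : ℂ) * Nat.card R = Nat.card H * Nat.card K := by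
    have e1 : K.index * Nat.card K = Nat.card G := K.index_mul_card
    have e2 : K.index = R.relIndex H := by
      rw [← Subgroup.relIndex_top_right, ← hKH, sup_comm, Subgroup.relIndex_sup_right, ← hR,
        Subgroup.inf_relIndex_right]
    have e3 : Nat.card R * R.relIndex H = Nat.card H := by
      have e4 := Subgroup.relIndex_mul_relIndex ⊥ R H bot_le hRH
      rwa [Subgroup.relIndex_bot_left, Subgroup.relIndex_bot_left] at e4
    rw [← e1, ← e3, e2]
    push_cast
    ring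
  rw [classInner, classInner, ← h4]
  have h5 : (Nat.card K : ℂ) * (Nat.card H : ℂ) * ∑ k : K, indFun H ϑ k * conj (F k) =
      (Nat.card G : ℂ) * ((Nat.card K : ℂ) * ∑ k : K, extendByZero H ϑ k * conj (F k)) := by
    rw [← h2, Finset.mul_sum]
    refine Finset.sum_congr rfl fun k _ => ?_
    rw [← h1 k]
    ring
  have h6 : (Nat.card H : ℂ) * ∑ k : K, indFun H ϑ k * conj (F k) =
      (Nat.card G : ℂ) * ∑ k : K, extendByZero H ϑ k * conj (F k) := by
    apply mul_left_cancel₀ hK0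
    rw [← mul_assoc, h5]
    ring
  have h7 : (Nat.card H : ℂ) * ((Nat.card R : ℂ) * ∑ k : K, indFun H ϑ k * conj (F k)) =
      (Nat.card H : ℂ) * ((Nat.card K : ℂ) * ∑ k : K, extendByZero H ϑ k * conj (F k)) := by
    calc (Nat.card H : ℂ) * ((Nat.card R : ℂ) * ∑ k : K, indFun H ϑ k * conj (F k))
        = (Nat.card R : ℂ) * ((Nat.card H : ℂ) * ∑ k : K, indFun H ϑ k * conj (F k)) := by ring
      _ = ((Nat.card G : ℂ) * Nat.card R) * ∑ k : K, extendByZero H ϑ k * conj (F k) := by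
        rw [h6]; ring
      _ = _ := by rw [hcard]; ring
  have h8 := mul_left_cancel₀ hH0 h7
  field_simp
  rw [mul_comm, h8, mul_comm]

theorem index_eq {G : Type*} [Group G] [Finite G] {H K R : Subgroup G} (hKH : K ⊔ H = ⊤) [hK : K.Normal]
    (hR : K ⊓ H = R) : H.index = R.relIndex K := by
  have e2 : K.index = R.relIndex H := by
    rw [← Subgroup.relIndex_top_right, ← hKH, sup_comm, Subgroup.relIndex_sup_right, ← hR,
      Subgroup.inf_relIndex_right]
  have e3 : R.relIndex H * H.index = R.index := Subgroup.relIndex_mul_index (hR ▸ inf_le_right)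
  have e4 : R.relIndex K * K.index = R.index := Subgroup.relIndex_mul_index (hR ▸ inf_le_left)
  rw [← e3, e2, mul_comm] at e4
  exact (Nat.eq_of_mul_eq_mul_left (Nat.pos_of_ne_zero Subgroup.index_ne_zero_of_finite) e4).symm

theorem irr_mid {L K H : Subgroup G} (hLK : L ≤ K) (hKH : K ≤ H) {ϑ : H → ℂ} (hϑ : IsCharacter H ϑ)
    (h : IsIrrCharacter L (fun x : L => ϑ ⟨x, hKH (hLK x.2)⟩)) :
    IsIrrCharacter K (fun x : K => ϑ ⟨x, hKH x.2⟩) := by
  have := Fintype.ofFinite K
  have := Fintype.ofFinite (L.subgroupOf K)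
  apply Triple.irr_of_res (B := L.subgroupOf K) (IsChar.comp hϑ (Subgroup.inclusion hKH))
  have := (isIrr_comp_iff (Subgroup.subgroupOfEquivOfLe hLK)).mpr h
  exact this

theorem eq_smul {A : Type*} [Group A] [Fintype A] {χ ϑ : A → ℂ} (hχ : IsCharacter A χ) (hϑ : IsIrrCharacter A ϑ)
    (c : ℂ) (h1 : classInner ϑ χ = c) (h2 : χ 1 = c * ϑ 1) : χ = c • ϑ := by
  classical
  have hc : conj c = c := by
    obtain ⟨n, hn⟩ := ci_char_nat (IsIrr.isCharacter hϑ) hχ
    rw [← h1, hn]; simp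
  have h3 : IsCharacter A (χ - c • ϑ) := by
    rw [isCharacter_iff]
    refine ⟨isClass_sub _ _ (IsChar.isClass hχ) (isClass_smul _ _ (IsIrr.isClass hϑ)), ?_⟩
    intro ψ hψ
    rw [ci_sub_left, ci_smul_left]
    by_cases he : ϑ = ψ
    · subst he
      refine ⟨0, ?_⟩
      rw [ci_irr_self hϑ, ← ci_conj_symm, h1, hc]
      simp
    · obtain ⟨n, hn⟩ := ci_char_nat hχ (IsIrr.isCharacter hψ)
      exact ⟨n, by rw [hn, ci_irr_ne hϑ hψ he]; simp⟩
  have h4 := IsChar.eq_zero_of_one h3 (by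
    simp only [Pi.sub_apply, Pi.smul_apply, smul_eq_mul, h2, sub_self])
  exact sub_eq_zero.mp h4

theorem main {L H : Subgroup G} [hLn : L.Normal] (hLH : L ≤ H) (hmax : IsCoatom H)
    (hsolv : Group.IsSolvable (G ⧸ L)) {ϑ : H → ℂ} (hϑ : IsIrrCharacter H ϑ)
    (hϑL : IsIrrCharacter L (fun x : L => ϑ ⟨(x : G), hLH x.2⟩))
    (hind : IsIrrCharacter G (indFun H ϑ))
    (hom : ∀ M : Subgroup G, M.Normal → L ≤ M → ∃ (φ : M → ℂ) (e : ℕ), IsIrrCharacter M φ ∧
      (fun m : M => indFun H ϑ m) = (e : ℂ) • φ) : False := by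
  classical
  have iH := Fintype.ofFinite H
  obtain ⟨N, hN⟩ : ∃ N, N = H.normalCore := ⟨_, rfl⟩
  have hNn : N.Normal := hN ▸ inferInstance
  have iN := Fintype.ofFinite N
  have hNH : N ≤ H := hN ▸ Subgroup.normalCore_le H
  have hLN : L ≤ N := hN ▸ Subgroup.normal_le_normalCore.mpr hLH
  have hidx : H.index ≠ 1 := fun h => hmax.1 (Subgroup.index_eq_one.mp h)
  have hχ1 : indFun H ϑ 1 = (H.index : ℂ) * ϑ 1 := ind_one H ϑ
  have hϑ1 := IsIrr.one_ne_zero hϑ
  have hχ10 := IsIrr.one_ne_zero hind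
  rcases gt2 hLH hmax hsolv N hN with h | ⟨q, r, k, l, M, R, hq, hr, hqr, hMn, hMH, hMi, hk, hl, hNR, hRH, hMR⟩
  · -- `H` normal
    have hHn : H.Normal := h ▸ hNn
    obtain ⟨φ, e, hφ, he⟩ := hom H hHn hLH
    have h1 : classInner (fun h : H => indFun H ϑ h) ϑ = 1 := by
      rw [← frobenius' H ϑ _ (IsIrr.isClass hind), ci_irr_self hind]
    rw [he, ci_smul_left] at h1
    by_cases hne : φ = ϑ
    · rw [hne, ci_irr_self hϑ, mul_one] at h1
      have h2 := congrFun he 1
      simp only [Pi.smul_apply, h1, one_smul, hne, OneMemClass.coe_one] at h2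
      rw [hχ1] at h2
      apply hidx
      have h3 : (H.index : ℂ) = 1 := mul_right_cancel₀ hϑ1 (by rw [h2, one_mul])
      exact_mod_cast h3
    · rw [ci_irr_ne hφ hϑ hne, mul_zero] at h1
      exact zero_ne_one h1
  · -- the main case
    have iM := Fintype.ofFinite M
    have iR := Fintype.ofFinite R
    have hNM : N ≤ M := hMi ▸ inf_le_left
    have hNR' : N ≤ R := le_of_lt hNR
    obtain ⟨K, hK⟩ : ∃ K, K = M ⊔ R := ⟨_, rfl⟩
    have hKn : K.Normal := hK ▸ hMR
    have iK := Fintype.ofFinite K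
    have hMK : M ≤ K := hK ▸ le_sup_left
    have hRK : R ≤ K := hK ▸ le_sup_right
    have hKH : K ⊔ H = ⊤ := by
      rw [eq_top_iff, ← hMH]; exact sup_le_sup_right hMK H
    have hKi : K ⊓ H = R := by
      apply le_antisymm _ (le_inf hRK hRH)
      rintro x ⟨hx, hxH⟩
      rw [hK] at hx
      obtain ⟨m, hm, y, hy, rfl⟩ := Subgroup.mem_sup_of_normal_left.mp hx
      have hmH : m ∈ H := by
        have : m * y * y⁻¹ ∈ H := H.mul_mem hxH (H.inv_mem (hRH hy))
        rwa [mul_inv_cancel_right] at this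
      have : m ∈ N := by rw [← hMi]; exact ⟨hm, hmH⟩
      exact mul_mem (hNR' this) hy
    have hϑN := irr_mid hLN hNH (IsIrr.isCharacter hϑ) hϑL
    have hϑR := irr_mid (le_trans hLN hNR') hRH (IsIrr.isCharacter hϑ) hϑL
    obtain ⟨φ, e, hφ, he⟩ := hom M hMn (le_trans hLN hNM)
    obtain ⟨φN, eN, hφN, heN⟩ := hom N hNn hLN
    obtain ⟨ξ, f, hξ, hf⟩ := hom K hKn (le_trans hLN (le_trans hNR' hRK))
    have hcl := IsIrr.isClass hind
    have m1 := mk hMH hMi hNH (IsIrr.isClass hϑ) hcl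
    have m2 := mk hKH hKi hRH (IsIrr.isClass hϑ) hcl
    rw [he, heN, ci_smul_left, ci_smul_right, ci_smul_right, ci_irr_self hφ] at m1
    rw [hf, ci_smul_left, ci_smul_right, ci_irr_self hξ] at m2
    simp only [mul_one, Complex.conj_natCast] at m1 m2
    have he0 : (e : ℂ) ≠ 0 := by
      intro h
      have h2 := congrFun he 1
      simp only [h, zero_smul, Pi.zero_apply, OneMemClass.coe_one] at h2
      exact hχ10 h2
    have hNe : (fun x : N => ϑ ⟨x, hNH x.2⟩) = φN := by
      by_contra hne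
      rw [ci_irr_ne hϑN hφN hne, mul_zero] at m1
      exact he0 (mul_self_eq_zero.mp m1)
    rw [hNe, ci_irr_self hφN, mul_one] at m1
    -- `e² = |G : H|`
    have he2 : e * e = H.index := by
      have h2 := congrFun heN 1
      simp only [Pi.smul_apply, OneMemClass.coe_one, smul_eq_mul, ← hNe, ← m1] at h2
      rw [hχ1] at h2
      have h3 : (H.index : ℂ) = e * e := mul_right_cancel₀ hϑ1 h2
      exact_mod_cast h3.symm
    have he3 : e * e = q ^ k := by rw [he2, index_eq hMH hMi, hk]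
    -- `ξ` over `M`
    have iMK := Fintype.ofFinite (M.subgroupOf K)
    have hnMK : (M.subgroupOf K).Normal := hMn.subgroupOf K
    let φ' : M.subgroupOf K → ℂ := fun x => φ (Subgroup.subgroupOfEquivOfLe hMK x)
    have hφ' : IsIrrCharacter (M.subgroupOf K) φ' := (isIrr_comp_iff (Subgroup.subgroupOfEquivOfLe hMK)).mpr hφ
    have hfξ : (f : ℂ) • (fun x : M.subgroupOf K => ξ x) = (e : ℂ) • φ' := by
      ext x
      have h1 := congrFun hf (x : K)
      have h2 := congrFun he (Subgroup.subgroupOfEquivOfLe hMK x)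
      simp only [Pi.smul_apply] at h1 h2 ⊢
      rw [← h1]
      exact h2
    have hξφ : classInner (fun x : M.subgroupOf K => ξ x) φ' ≠ 0 := by
      intro h
      have h1 := congrArg (fun g => classInner g φ') hfξ
      simp only [ci_smul_left, h, mul_zero, ci_irr_self hφ', mul_one] at h1
      exact he0 h1.symm
    obtain ⟨b, hb, hbd⟩ := Lift.degree_dvd (M.subgroupOf K) hξ hφ' hξφ
    have hMRN : M ⊓ R = N := by
      apply le_antisymm
      · rw [← hMi]; exact inf_le_inf_left M hRH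
      · exact le_inf hNM hNR'
    have hbr : b ∣ r ^ l := by
      have : (M.subgroupOf K).index = r ^ l := by
        show M.relIndex K = _
        rw [hK, Subgroup.relIndex_sup_left, ← hl, ← hMRN, Subgroup.inf_relIndex_right]
      rwa [this] at hbd
    have hfb : f * b = e := by
      have h1 := congrFun hfξ 1
      simp only [Pi.smul_apply, smul_eq_mul, OneMemClass.coe_one] at h1
      rw [hb, ← mul_assoc] at h1
      have h2 := mul_right_cancel₀ (IsIrr.one_ne_zero hφ') h1
      exact_mod_cast h2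
    have hb1 : b = 1 := by
      have h1 : b ∣ q ^ k := by
        rw [← he3, ← hfb]
        exact ⟨f * (f * b), by ring⟩
      have h2 : Nat.Coprime (q ^ k) (r ^ l) := Nat.Coprime.pow _ _ ((Nat.coprime_primes hq hr).mpr hqr)
      exact Nat.eq_one_of_dvd_coprimes h2 h1 hbr
    rw [hb1, mul_one] at hfb
    rw [hfb] at m2
    have m3 : classInner (fun r : R => ϑ ⟨r, hRH r.2⟩) (fun r : R => indFun H ϑ r) = H.index := by
      rw [← m2, ← he2]; push_cast; rfl
    have hRes := eq_smul (IsChar.res (IsIrr.isCharacter hind) R) hϑR _ m3 (by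
      exact hχ1)
    -- conclusion
    obtain ⟨r0, hr0R, hr0N⟩ := Set.exists_of_ssubset hNR
    have hnNR : (N.subgroupOf R).Normal := hNn.subgroupOf R
    have iNR := Fintype.ofFinite (N.subgroupOf R)
    have hcs := coset_self (G := N.subgroupOf R) hϑR (by
      have := (isIrr_comp_iff (Subgroup.subgroupOfEquivOfLe hNR')).mpr hϑN
      exact this) ⟨r0, hr0R⟩
    have hex : ∃ x : R, (x : G) ∉ N ∧ ϑ ⟨x, hRH x.2⟩ ≠ 0 := by
      by_contra hcon
      push Not at hcon
      rw [Finset.sum_eq_zero] at hcs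
      · have : (Nat.card (N.subgroupOf R) : ℂ) ≠ 0 := by exact_mod_cast Nat.card_pos.ne'
        exact this hcs.symm
      · intro g _
        rw [hcon ((g : R) * ⟨r0, hr0R⟩) (by
          intro h
          apply hr0N
          have h1 : ((g : R) : G) ∈ N := g.2
          have h2 := mul_mem (inv_mem h1) h
          simpa using h2), zero_mul]
    obtain ⟨x, hxN, hx0⟩ := hex
    have hval : ∀ y : R, indFun H ϑ y = (H.index : ℂ) * ϑ ⟨y, hRH y.2⟩ := fun y => by
      have := congrFun hRes y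
      simpa using this
    have hall : ∀ g : G, extendByZero H ϑ (g⁻¹ * x * g) = if g⁻¹ * x * g ∈ H then ϑ ⟨x, hRH x.2⟩ else 0 := by
      intro g
      split_ifs with hg
      · have hy : g⁻¹ * x * g ∈ R := by
          have h0 := hKn.conj_mem (x : G) (hRK x.2) g⁻¹
          rw [inv_inv] at h0
          exact (le_of_eq hKi) ⟨h0, hg⟩
        have h1 := hval ⟨_, hy⟩
        have h2 : indFun H ϑ (g⁻¹ * x * g) = indFun H ϑ x := by
          have := hcl (x : G) g⁻¹
          rwa [inv_inv] at this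
        rw [ext_mem H ϑ hg]
        simp only at h1
        rw [h2, hval x] at h1
        have hi0 : (H.index : ℂ) ≠ 0 := by exact_mod_cast Subgroup.index_ne_zero_of_finite
        exact (mul_left_cancel₀ hi0 h1).symm
      · exact ext_not_mem H ϑ hg
    have hx1 := hval x
    rw [indFun, Finset.sum_congr rfl fun g _ => hall g, ← Finset.sum_filter, Finset.sum_const, nsmul_eq_mul,
      ← mul_assoc] at hx1
    have hx2 := mul_right_cancel₀ hx0 hx1
    have hH0 : (Nat.card H : ℂ) ≠ 0 := by exact_mod_cast Nat.card_pos.ne'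
    rw [inv_mul_eq_iff_eq_mul₀ hH0] at hx2
    have hx3 : (Finset.univ.filter fun g : G => g⁻¹ * x * g ∈ H).card = (Finset.univ : Finset G).card := by
      rw [Finset.card_univ, ← Nat.card_eq_fintype_card, ← H.card_mul_index]
      exact_mod_cast hx2
    have hx4 := (Finset.card_filter_eq_iff).mp hx3
    apply hxN
    rw [hN]
    intro g
    have := hx4 g⁻¹ (Finset.mem_univ _)
    rwa [inv_inv] at this

end Chars

end Cfsg.Agent.H3.QPrim
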