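import Mathlib
import Cfsg.Prelude.Def_Characters
import Cfsg.Agent.H3_QPrim
import Cfsg.Agent.H3_GalP
import Cfsg.Agent.H3_Lift
import Cfsg.Agent.H3_Monomial

/-!
# Berger's theorem: quasi-primitive characters of solvable groups are primitive
-/

set_option autoImplicit false

open scoped ComplexConjugate commutatorElement

namespace Cfsg.Agent.H3.Berger

open Cfsg Cfsg.Agent.H3.CharBasic Cfsg.Agent.H3.CharIrr Cfsg.Agent.H3.CharComplete
  Cfsg.Agent.H3.CharMult Cfsg.Agent.H3.CharInd Cfsg.Agent.H3.CharInt Cfsg.Agent.H3.Clifford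
  Cfsg.Agent.H3.CharQuot Cfsg.Agent.H3.QPrim

universe u

/-- homogeneous restriction -/
def Hom {G : Type*} [Group G] (χ : G → ℂ) (N : Subgroup G) : Prop :=
  ∃ (φ : N → ℂ) (e : ℕ), IsIrrCharacter N φ ∧ (fun n : N => χ n) = (e : ℂ) • φ

theorem cent_le {G : Type*} [Group G] {M H N : Subgroup G} (hN : N = H.normalCore) [hNn : N.Normal] [hM : M.Normal]
    (hMH : M ⊔ H = ⊤) {x : G} (hx : x ∈ H) (h : ∀ m ∈ M, x * m * x⁻¹ * m⁻¹ ∈ N) : x ∈ N := by
  have hNH : N ≤ H := hN ▸ Subgroup.normalCore_le H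
  rw [hN]
  intro g
  have hg : g ∈ M ⊔ H := by rw [hMH]; trivial
  obtain ⟨m, hm, y, hy, rfl⟩ := Subgroup.mem_sup_of_normal_left.mp hg
  have h1 : y * x * y⁻¹ ∈ H := mul_mem (mul_mem hy hx) (inv_mem hy)
  have h2 : m * (y * x * y⁻¹) * m⁻¹ * (y * x * y⁻¹)⁻¹ ∈ N := by
    have h3 : y⁻¹ * m * y ∈ M := by
      have := hM.conj_mem m hm y⁻¹
      rwa [inv_inv] at this
    have h4 := hNn.conj_mem _ (inv_mem (h _ h3)) y
    have h5 : y * (x * (y⁻¹ * m * y) * x⁻¹ * (y⁻¹ * m * y)⁻¹)⁻¹ * y⁻¹ =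
        m * (y * x * y⁻¹) * m⁻¹ * (y * x * y⁻¹)⁻¹ := by group
    rwa [h5] at h4
  have h6 : m * y * x * (m * y)⁻¹ = (m * (y * x * y⁻¹) * m⁻¹ * (y * x * y⁻¹)⁻¹) * (y * x * y⁻¹) := by group
  rw [h6]
  exact mul_mem (hNH h2) h1

/-- irreducibility from an additive map -/
theorem irr_of_map {A B : Type*} [Group A] [Group B] [Fintype A] [Fintype B] (F : (A → ℂ) → (B → ℂ))
    (hadd : ∀ x y, F (x + y) = F x + F y) (hchar : ∀ x, IsCharacter A x → IsCharacter B (F x))
    (c : ℂ) (hc : c ≠ 0) (hdeg : ∀ x, F x 1 = c * x 1) {x : A → ℂ} (hx : IsCharacter A x)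
    (h : IsIrrCharacter B (F x)) : IsIrrCharacter A x := by
  classical
  have hx0 : x ≠ 0 := by
    rintro rfl
    apply IsIrr.one_ne_zero h
    rw [hdeg]; simp
  obtain ⟨x₀, hx₀, hxc⟩ := exists_constituent hx hx0
  obtain ⟨n, hn⟩ := ci_char_nat hx (IsIrr.isCharacter hx₀)
  have hn1 : 1 ≤ n := by
    rcases Nat.eq_zero_or_pos n with h0 | h0
    · rw [h0, Nat.cast_zero] at hn; exact absurd hn hxc
    · exact h0
  have hy := IsChar.sub_constituent hx hx₀ hn hn1
  set y := x - ((1 : ℕ) : ℂ) • x₀ with hydef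
  have hxy : x = x₀ + y := by
    rw [hydef]; ext a; simp
  have hFx₀ := hchar x₀ (IsIrr.isCharacter hx₀)
  have hFy := hchar y hy
  have h1 := ci_irr_self h
  rw [hxy, hadd, ci_add_left, ci_add_right, ci_add_right] at h1
  obtain ⟨a, ha⟩ := ci_char_nat hFx₀ hFx₀
  obtain ⟨b, hb⟩ := ci_char_nat hFx₀ hFy
  obtain ⟨b', hb'⟩ := ci_char_nat hFy hFx₀
  obtain ⟨d, hd⟩ := ci_char_nat hFy hFy
  rw [ha, hb, hb', hd] at h1
  have h2 : a + b + (b' + d) = 1 := by exact_mod_cast h1
  have ha0 : a ≠ 0 := by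
    rintro rfl
    have h3 := ci_self_eq_zero (ha.trans Nat.cast_zero)
    have h4 := hdeg x₀
    rw [h3, Pi.zero_apply] at h4
    exact (mul_ne_zero hc (IsIrr.one_ne_zero hx₀)) h4.symm
  have hd0 : d = 0 := by omega
  have h3 := ci_self_eq_zero (hd.trans (by rw [hd0, Nat.cast_zero]))
  have h4 := hdeg y
  rw [h3, Pi.zero_apply] at h4
  have h5 : y 1 = 0 := (mul_eq_zero.mp h4.symm).resolve_left hc
  have h6 := IsChar.eq_zero_of_one hy h5
  rw [hxy, h6, add_zero]
  exact hx₀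

theorem ker_left {A : Type*} [Group A] [Finite A] {χ ψ : A → ℂ} (hχ : IsCharacter A χ) (hψ : IsCharacter A ψ) {a : A}
    (h : χ a + ψ a = χ 1 + ψ 1) : χ a = χ 1 := by
  have e1 := IsChar.norm_le hχ a
  have e2 := IsChar.norm_le hψ a
  obtain ⟨m, hm⟩ := IsChar.one_eq_nat hχ
  have e3 := Complex.re_le_norm (χ a)
  have e4 := Complex.re_le_norm (ψ a)
  have e5 := congrArg Complex.re h
  simp only [Complex.add_re] at e5
  have e6 : (χ a).re = (χ 1).re := by linarith
  have e7 : ‖χ a‖ = (χ a).re := by linarith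
  have e8 : (χ a).im = 0 := by
    have h1 := Complex.sq_norm (χ a)
    rw [Complex.normSq_apply, e7] at h1
    have h2 : (χ a).im * (χ a).im = 0 := by nlinarith
    exact mul_self_eq_zero.mp h2
  apply Complex.ext e6
  rw [e8, hm]; simp

theorem split {A : Type*} [Group A] [Fintype A] {χ ψ : A → ℂ} (hχ : IsCharacter A χ) (hψ : IsIrrCharacter A ψ)
    (h : classInner χ ψ ≠ 0) : ∃ η : A → ℂ, IsCharacter A η ∧ χ = ψ + η := by
  obtain ⟨n, hn⟩ := ci_char_nat hχ (IsIrr.isCharacter hψ)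
  have hn1 : 1 ≤ n := by
    rcases Nat.eq_zero_or_pos n with h0 | h0
    · rw [h0, Nat.cast_zero] at hn; exact absurd hn h
    · exact h0
  refine ⟨_, IsChar.sub_constituent hχ hψ hn hn1, ?_⟩
  ext a; simp

theorem ker_of_ci {A : Type*} [Group A] [Fintype A] {χ ψ : A → ℂ} (hχ : IsCharacter A χ) (hψ : IsIrrCharacter A ψ)
    (h : classInner χ ψ ≠ 0) {a : A} (ha : χ a = χ 1) : ψ a = ψ 1 := by
  obtain ⟨η, hη, rfl⟩ := split hχ hψ h
  exact ker_left (IsIrr.isCharacter hψ) hη ha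

/-- descent of induced characters -/
theorem descent {A B : Type*} [Group A] [Fintype A] [Group B] [Fintype B] (f : A →* B)
    (hf : Function.Surjective f) (S : Subgroup B) {γ : S.comap f → ℂ} (hγ : IsIrrCharacter (S.comap f) γ)
    {b : B → ℂ} (hb : IsIrrCharacter B b) (h : (fun a => b (f a)) = indFun (S.comap f) γ) :
    ∃ δ : S → ℂ, IsIrrCharacter S δ ∧ b = indFun S δ := by
  classical
  have iT := Fintype.ofFinite (S.comap f)
  have hbf : IsIrrCharacter A (fun a => b (f a)) := IsIrr.comp hb f hf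
  -- `γ` is a constituent of the restriction
  have h1 : classInner (fun t : S.comap f => b (f t)) γ ≠ 0 := by
    have := frobenius' (S.comap f) γ _ (IsIrr.isClass hbf)
    rw [← h, ci_irr_self hbf] at this
    rw [← this]
    exact one_ne_zero
  let g : S.comap f →* S := (f.comp (S.comap f).subtype).codRestrict S (fun t => t.2)
  have hg : Function.Surjective g := by
    rintro ⟨s, hs⟩
    obtain ⟨a, rfl⟩ := hf s
    exact ⟨⟨a, hs⟩, rfl⟩
  have hker : ∀ a ∈ g.ker, γ a = γ 1 := by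
    intro a ha
    have hfa : f a = 1 := congrArg Subtype.val (show g a = 1 from ha)
    have hres : IsCharacter (S.comap f) (fun t : S.comap f => b (f t)) := IsChar.res (IsIrr.isCharacter hbf) _
    apply ker_of_ci hres hγ h1
    show b (f a) = b (f ((1 : S.comap f) : A))
    rw [hfa, OneMemClass.coe_one, map_one]
  obtain ⟨δ, hδ, hδ'⟩ := Triple.IsIrr.descend_surj hg hγ hker
  refine ⟨δ, hδ, ?_⟩
  funext x
  obtain ⟨a, rfl⟩ := hf x
  rw [← Monomial.ind_comap f hf S δ a]
  have h3 : (fun x : S.comap f => δ ⟨f x, x.2⟩) = γ := by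
    funext t; exact hδ' t
  rw [h3, ← h]

/-- homogeneous products -/
theorem hom_of_mul {Γ : Type*} [Group Γ] [Fintype Γ] {Y J : Subgroup Γ} [hY : Y.Normal] (hYJ : Y ≤ J)
    {α β : Γ → ℂ} (hα : IsIrrCharacter Γ α) (hαY : IsIrrCharacter Y (fun y : Y => α y)) (hβ : IsIrrCharacter Γ β)
    (hk : InKer Y β) (h : Hom (β * α) J) : Hom β J := by
  classical
  have iJ := Fintype.ofFinite J
  have iY := Fintype.ofFinite (Y.subgroupOf J)
  have hn : (Y.subgroupOf J).Normal := hY.subgroupOf J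
  have hαY' : IsIrrCharacter (Y.subgroupOf J) (fun y : Y.subgroupOf J => α y) := by
    have := (isIrr_comp_iff (Subgroup.subgroupOfEquivOfLe hYJ)).mpr hαY
    exact this
  have hαJ : IsIrrCharacter J (fun x : J => α x) :=
    Triple.irr_of_res (B := Y.subgroupOf J) (IsChar.res (IsIrr.isCharacter hα) J) hαY'
  have hβJ := IsChar.res (IsIrr.isCharacter hβ) J
  have hkJ : InKer (Y.subgroupOf J) (fun x : J => β x) := fun n hn g => hk n hn g
  obtain ⟨θ, e, hθ, he⟩ := h
  have key : ∀ β₁ : J → ℂ, IsIrrCharacter J β₁ → classInner (fun x : J => β x) β₁ ≠ 0 →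
      InKer (Y.subgroupOf J) β₁ ∧ θ = β₁ * fun x : J => α x := by
    intro β₁ hβ₁ hc
    have hk1 : InKer (Y.subgroupOf J) β₁ := by
      intro n hn g
      apply IsChar.mul_ker (IsIrr.isCharacter hβ₁)
      apply ker_of_ci hβJ hβ₁ hc
      have := hk (n : Γ) hn 1
      rw [mul_one] at this
      exact this
    refine ⟨hk1, ?_⟩
    have h1 := gallagher_irr hn hαJ hαY' hβ₁ hk1
    have h2 := gallagher_inner hn hαJ hαY' hkJ hk1
    have h3 : (fun x : J => β x) * (fun x : J => α x) = (e : ℂ) • θ := he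
    rw [h3, ci_smul_left] at h2
    by_contra hne
    rw [ci_irr_ne hθ h1 hne, mul_zero] at h2
    exact hc h2.symm
  obtain ⟨β₁, hβ₁, hc⟩ := exists_constituent hβJ (fun h0 => IsIrr.one_ne_zero hβ (congrFun h0 1))
  obtain ⟨n, hn'⟩ := ci_char_nat hβJ (IsIrr.isCharacter hβ₁)
  obtain ⟨hk1, hθ1⟩ := key β₁ hβ₁ hc
  refine ⟨β₁, n, hβ₁, ?_⟩
  apply ext_inner (IsChar.isClass hβJ) (isClass_smul _ _ (IsIrr.isClass hβ₁))
  intro ψ hψ
  rw [ci_smul_left]
  by_cases hne : β₁ = ψ
  · rw [← hne, hn', ci_irr_self hβ₁, mul_one]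
  · rw [ci_irr_ne hβ₁ hψ hne, mul_zero]
    by_contra hcψ
    obtain ⟨hk2, hθ2⟩ := key ψ hψ hcψ
    have h3 := gallagher_inner hn hαJ hαY' hk1 hk2
    rw [← hθ1, ← hθ2, ci_irr_self hθ, ci_irr_ne hβ₁ hψ hne] at h3
    exact one_ne_zero h3

/-- the central extension attached to a homogeneous restriction -/
theorem lift_data {G : Type u} [Group G] [Fintype G] (N : Subgroup G) [hN : N.Normal] {χ : G → ℂ}
    (hχ : IsIrrCharacter G χ) {θ : N → ℂ} (hθ : IsIrrCharacter N θ) {e : ℕ}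
    (he : (fun n : N => χ n) = (e : ℂ) • θ) :
    ∃ (Γ : Type u) (_ : Group Γ) (_ : Fintype Γ) (π : Γ →* G) (Y : Subgroup Γ) (α β : Γ → ℂ),
      Function.Surjective π ∧ Y.Normal ∧ (∀ y ∈ Y, π y ∈ N) ∧ (∀ n ∈ N, ∃ y ∈ Y, π y = n) ∧
      π.ker ≤ Subgroup.center Γ ∧ IsIrrCharacter Γ α ∧ IsIrrCharacter Y (fun y : Y => α y) ∧
      IsIrrCharacter Γ β ∧ InKer Y β ∧ (fun x => χ (π x)) = β * α ∧ α 1 = θ 1 ∧
      (∀ y ∈ Y, χ (π y) = e * α y) := by
  classical
  have he0 : (e : ℂ) ≠ 0 := by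
    intro h
    have h2 := congrFun he 1
    simp only [h, zero_smul, Pi.zero_apply, OneMemClass.coe_one] at h2
    exact IsIrr.one_ne_zero hχ h2
  have hval : ∀ n : N, χ n = e * θ n := fun n => congrFun he n
  have hinv : ∀ (g : G) (n : N), θ ⟨g * n * g⁻¹, hN.conj_mem (n : G) n.2 g⟩ = θ n := by
    intro g n
    apply mul_left_cancel₀ he0
    rw [← hval, ← hval]
    exact IsIrr.isClass hχ n g
  obtain ⟨Γ, iΓ, iΓf, π, j, α, hsurj, hπj, hjn, hkc, hα, hext⟩ := Lift.exists_lift N θ hθ hinv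
  have iΓ' := Fintype.ofFinite Γ
  have hjinj : Function.Injective j := by
    intro a b hab
    have := congrArg π hab
    rw [hπj, hπj] at this
    exact Subtype.ext this
  have iY := Fintype.ofFinite j.range
  have hαY : IsIrrCharacter j.range (fun y : j.range => α y) := by
    rw [← isIrr_comp_iff (MonoidHom.ofInjective hjinj)]
    have : (fun n : N => α ((MonoidHom.ofInjective hjinj n : j.range) : Γ)) = θ := by
      funext n
      rw [← hext n]; rfl
    rw [this]; exact hθ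
  have hχ' : IsIrrCharacter Γ (fun x => χ (π x)) := IsIrr.comp hχ π hsurj
  have hres : (fun y : j.range => χ (π y)) = (e : ℂ) • fun y : j.range => α y := by
    funext y
    obtain ⟨_, n, rfl⟩ := y
    simp only [Pi.smul_apply, smul_eq_mul]
    rw [hπj, hval, hext]
  have h0 : classInner (fun y : j.range => χ (π y)) (fun y : j.range => α y) ≠ 0 := by
    rw [hres, ci_smul_left, ci_irr_self hαY, mul_one]; exact he0
  obtain ⟨β, hβ, hk, hmul⟩ := Lift.gallagher_exists hjn hα hαY hχ' h0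
  refine ⟨Γ, iΓ, iΓ', π, j.range, α, β, hsurj, hjn, ?_, ?_, hkc, hα, hαY, hβ, hk, hmul, ?_, ?_⟩
  · rintro _ ⟨n, rfl⟩
    rw [hπj]; exact n.2
  · intro n hn
    exact ⟨j ⟨n, hn⟩, ⟨_, rfl⟩, hπj _⟩
  · rw [← hext 1, map_one]
  · intro y hy
    exact congrFun hres ⟨y, hy⟩

theorem scal {Γ G : Type*} [Group Γ] [Fintype Γ] [Group G] {π : Γ →* G} {Y : Subgroup Γ} {N : Subgroup G}
    (hex : ∀ n ∈ N, ∃ y ∈ Y, π y = n) (hc : π.ker ≤ Subgroup.center Γ) {β : Γ → ℂ} (hβ : IsIrrCharacter Γ β)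
    (hk : InKer Y β) : ∀ v ∈ N.comap π, ‖β v‖ = ‖β 1‖ := by
  intro v hv
  obtain ⟨y, hy, hyv⟩ := hex (π v) hv
  have h1 : y⁻¹ * v ∈ π.ker := by
    rw [MonoidHom.mem_ker, map_mul, map_inv, hyv, inv_mul_cancel]
  have h2 : v = y * (y⁻¹ * v) := by group
  rw [h2, hk y hy]
  exact GalP.norm_central hβ (hc h1)

theorem hom_comap {Γ G : Type*} [Group Γ] [Group G] (π : Γ →* G) {χ : G → ℂ} {J : Subgroup Γ} [Finite G]
    (h : Hom χ (J.map π)) : Hom (fun x => χ (π x)) J := by
  obtain ⟨φ, e, hφ, he⟩ := h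
  refine ⟨fun x => φ (π.subgroupMap J x), e, IsIrr.comp hφ (π.subgroupMap J) (π.subgroupMap_surjective J), ?_⟩
  funext x
  exact congrFun he (π.subgroupMap J x)

/-- the induction statement -/
def PP (n : ℕ) : Prop := ∀ (G : Type u) [Group G] [Fintype G] (V : Subgroup G) [V.Normal] (χ : G → ℂ),
  V.index = n → Group.IsSolvable (G ⧸ V) → IsIrrCharacter G χ → (∀ v ∈ V, ‖χ v‖ = ‖χ 1‖) →
  (∀ J : Subgroup G, J.Normal → V ≤ J → Hom χ J) → ∀ H : Subgroup G, V ≤ H → H ≠ ⊤ →
  ∀ ψ : H → ℂ, IsCharacter H ψ → indFun H ψ ≠ χ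

theorem lift_ih {n : ℕ} (ih : ∀ m < n, PP.{u} m) {G : Type u} [Group G] [Fintype G] {V : Subgroup G} [hV : V.Normal]
    {χ : G → ℂ} (hsolv : Group.IsSolvable (G ⧸ V)) (hχ : IsIrrCharacter G χ)
    (hqp : ∀ J : Subgroup G, J.Normal → V ≤ J → Hom χ J) (N : Subgroup G) [hN : N.Normal] (hVN : V ≤ N)
    (hlt : N.index < n) {θ : N → ℂ} (hθ : IsIrrCharacter N θ) {e : ℕ}
    (he : (fun n : N => χ n) = (e : ℂ) • θ) :
    ∃ (Γ : Type u) (_ : Group Γ) (_ : Fintype Γ) (π : Γ →* G) (Y : Subgroup Γ) (α β : Γ → ℂ),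
      Function.Surjective π ∧ Y.Normal ∧ (∀ y ∈ Y, π y ∈ N) ∧ (∀ n ∈ N, ∃ y ∈ Y, π y = n) ∧
      π.ker ≤ Subgroup.center Γ ∧ IsIrrCharacter Γ α ∧ IsIrrCharacter Y (fun y : Y => α y) ∧
      IsIrrCharacter Γ β ∧ InKer Y β ∧ (fun x => χ (π x)) = β * α ∧ α 1 = θ 1 ∧
      (∀ y ∈ Y, χ (π y) = e * α y) ∧
      (∀ H' : Subgroup Γ, N.comap π ≤ H' → H' ≠ ⊤ → ∀ γ : H' → ℂ, IsCharacter H' γ → indFun H' γ ≠ β) := by
  obtain ⟨Γ, iΓ, iΓ', π, Y, α, β, hsurj, hYn, hYN, hNY, hkc, hα, hαY, hβ, hk, hmul, hα1, hval⟩ :=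
    lift_data N hχ hθ he
  refine ⟨Γ, iΓ, iΓ', π, Y, α, β, hsurj, hYn, hYN, hNY, hkc, hα, hαY, hβ, hk, hmul, hα1, hval, ?_⟩
  have hidx : (N.comap π).index = N.index := Subgroup.index_comap_of_surjective N hsurj
  have hs1 : Group.IsSolvable (G ⧸ N) := by
    have hs : Function.Surjective (QuotientGroup.map V N (MonoidHom.id G) (by
        intro x hx; exact hVN hx)) := by
      intro y
      obtain ⟨g, rfl⟩ := QuotientGroup.mk'_surjective N y
      exact ⟨(g : G ⧸ V), rfl⟩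
    exact Group.isSolvable_of_surjective hs
  have hs2 : Group.IsSolvable (Γ ⧸ N.comap π) := by
    have hinj : Function.Injective (QuotientGroup.map (N.comap π) N π le_rfl) := by
      rw [← MonoidHom.ker_eq_bot_iff, eq_bot_iff]
      intro y hy
      obtain ⟨g, rfl⟩ := QuotientGroup.mk'_surjective (N.comap π) y
      have h1 : ((π g : G) : G ⧸ N) = 1 := hy
      rw [Subgroup.mem_bot]
      exact (QuotientGroup.eq_one_iff g).mpr ((QuotientGroup.eq_one_iff (π g)).mp h1)
    exact Group.isSolvable_of_isSolvable_injective hinj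
  apply ih N.index hlt Γ (N.comap π) β hidx hs2 hβ (scal hNY hkc hβ hk)
  intro J hJn hJ
  have hYJ : Y ≤ J := le_trans (fun y hy => hYN y hy) hJ
  apply hom_of_mul hYJ hα hαY hβ hk
  rw [← hmul]
  apply hom_comap π
  apply hqp (J.map π) (hJn.map π hsurj)
  apply le_trans hVN
  intro n hn
  obtain ⟨y, hy, rfl⟩ := hNY n hn
  exact ⟨y, hYJ hy, rfl⟩

/-- transfer of imprimitivity from the product -/
theorem step1_core {Γ : Type*} [Group Γ] [Fintype Γ] {Y H : Subgroup Γ} [hY : Y.Normal] (hYH : Y ≤ H)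
    {α β χ : Γ → ℂ} (hα : IsIrrCharacter Γ α) (hαY : IsIrrCharacter Y (fun y : Y => α y))
    (hβ : IsIrrCharacter Γ β) (hk : InKer Y β) (hχ : IsIrrCharacter Γ χ) (hmul : χ = β * α) {e : ℂ}
    (he : ∀ y ∈ Y, χ y = e * α y) {ψ : H → ℂ} (hψ : IsIrrCharacter H ψ) (hind : indFun H ψ = χ) :
    ∃ γ : H → ℂ, IsCharacter H γ ∧ indFun H γ = β := by
  classical
  have iH := Fintype.ofFinite H
  have iY := Fintype.ofFinite (Y.subgroupOf H)
  have hn : (Y.subgroupOf H).Normal := hY.subgroupOf H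
  have hαY' : IsIrrCharacter (Y.subgroupOf H) (fun y : Y.subgroupOf H => α y) := by
    have := (isIrr_comp_iff (Subgroup.subgroupOfEquivOfLe hYH)).mpr hαY
    exact this
  have hαH : IsIrrCharacter H (fun x : H => α x) :=
    Triple.irr_of_res (B := Y.subgroupOf H) (IsChar.res (IsIrr.isCharacter hα) H) hαY'
  have hc1 : classInner (fun x : H => χ x) ψ ≠ 0 := by
    rw [← frobenius' H ψ χ (IsIrr.isClass hχ), hind, ci_irr_self hχ]
    exact one_ne_zero
  obtain ⟨η, hη, hsplit⟩ := split (IsChar.res (IsIrr.isCharacter hχ) H) hψ hc1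
  have hψY : IsCharacter (Y.subgroupOf H) (fun y : Y.subgroupOf H => ψ y) := IsChar.res (IsIrr.isCharacter hψ) _
  have hηY : IsCharacter (Y.subgroupOf H) (fun y : Y.subgroupOf H => η y) := IsChar.res hη _
  obtain ⟨τ, hτ, hτc⟩ := exists_constituent hψY (fun h0 => IsIrr.one_ne_zero hψ (congrFun h0 1))
  have hτα : τ = fun y : Y.subgroupOf H => α y := by
    by_contra hne
    have e1 : (e • fun y : Y.subgroupOf H => α y) = (fun y : Y.subgroupOf H => ψ y) + fun y : Y.subgroupOf H => η y := by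
      funext y
      have h1 := congrFun hsplit (y : H)
      have h2 := he ((y : H) : Γ) y.2
      simp only [Pi.smul_apply, smul_eq_mul, Pi.add_apply] at h1 ⊢
      rw [← h2]; exact h1
    have e2 := congrArg (fun f => classInner f τ) e1
    rw [ci_smul_left, ci_irr_ne hαY' hτ (fun h => hne h.symm), mul_zero, ci_add_left] at e2
    obtain ⟨a, ha⟩ := ci_char_nat hψY (IsIrr.isCharacter hτ)
    obtain ⟨b, hb⟩ := ci_char_nat hηY (IsIrr.isCharacter hτ)
    rw [ha, hb] at e2
    have e3 : 0 = a + b := by exact_mod_cast e2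
    apply hτc
    rw [ha]
    have : a = 0 := by omega
    rw [this, Nat.cast_zero]
  rw [hτα] at hτc
  obtain ⟨γ, hγ, hkγ, hγm⟩ := Lift.gallagher_exists hn hαH hαY' hψ hτc
  refine ⟨γ, IsIrr.isCharacter hγ, ?_⟩
  have h3 : indFun H γ * α = β * α := by
    rw [← hmul, ← hind, hγm, ind_mul_res H γ α (IsIrr.isClass hα)]
  have hkind : InKer Y (indFun H γ) := by
    intro y hy g
    simp only [indFun]
    congr 1
    refine Finset.sum_congr rfl fun x _ => ?_
    have e1 : x⁻¹ * (y * g) * x = (x⁻¹ * y * x) * (x⁻¹ * g * x) := by group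
    have e2 : x⁻¹ * y * x ∈ Y := by
      have := hY.conj_mem y hy x⁻¹
      rwa [inv_inv] at this
    rw [e1]
    by_cases hg : x⁻¹ * g * x ∈ H
    · rw [ext_mem H γ hg, ext_mem H γ (mul_mem (hYH e2) hg)]
      exact hkγ ⟨x⁻¹ * y * x, hYH e2⟩ e2 ⟨x⁻¹ * g * x, hg⟩
    · rw [ext_not_mem H γ hg, ext_not_mem H γ]
      intro h
      apply hg
      have := mul_mem (inv_mem (hYH e2)) h
      rwa [inv_mul_cancel_left] at this
  have iYf := Fintype.ofFinite Y
  have h4 := gallagher_inner hY hα hαY hkind hk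
  rw [h3, ← hmul, ci_irr_self hχ] at h4
  have h5 : indFun H γ 1 = β 1 := by
    have := congrFun h3 1
    exact mul_right_cancel₀ (IsIrr.one_ne_zero hα) this
  exact IsChar.eq_of_degree (IsChar.ind (IsIrr.isCharacter hγ)) hβ (by rw [← h4]; exact one_ne_zero) h5

theorem scalar_left {A : Type*} [Group A] [Finite A] {χ ψ : A → ℂ} (hχ : IsCharacter A χ) (hψ : IsCharacter A ψ) {a : A}
    {ω : ℂ} (hω : ‖ω‖ = 1) (h : χ a + ψ a = ω * (χ 1 + ψ 1)) : χ a = ω * χ 1 := by
  have hω1 : conj ω * ω = 1 := by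
    rw [mul_comm, Complex.mul_conj, Complex.normSq_eq_norm_sq, hω]; simp
  have hωn : ‖conj ω‖ = 1 := by rw [Complex.norm_conj, hω]
  have h' : conj ω * χ a + conj ω * ψ a = χ 1 + ψ 1 := by
    rw [← mul_add, h, ← mul_assoc, hω1, one_mul]
  have e1 : ‖conj ω * χ a‖ ≤ (χ 1).re := by rw [norm_mul, hωn, one_mul]; exact IsChar.norm_le hχ a
  have e2 : ‖conj ω * ψ a‖ ≤ (ψ 1).re := by rw [norm_mul, hωn, one_mul]; exact IsChar.norm_le hψ a
  obtain ⟨m, hm⟩ := IsChar.one_eq_nat hχ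
  have e3 := Complex.re_le_norm (conj ω * χ a)
  have e4 := Complex.re_le_norm (conj ω * ψ a)
  have e5 := congrArg Complex.re h'
  simp only [Complex.add_re] at e5
  have e6 : (conj ω * χ a).re = (χ 1).re := by linarith
  have e7 : ‖conj ω * χ a‖ = (conj ω * χ a).re := by linarith
  have e8 : (conj ω * χ a).im = 0 := by
    have h1 := Complex.sq_norm (conj ω * χ a)
    rw [Complex.normSq_apply, e7] at h1
    have h2 : (conj ω * χ a).im * (conj ω * χ a).im = 0 := by nlinarith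
    exact mul_self_eq_zero.mp h2
  have e9 : conj ω * χ a = χ 1 := by
    apply Complex.ext e6
    rw [e8, hm]; simp
  rw [← e9, ← mul_assoc, mul_comm ω, hω1, one_mul]

theorem full_van {M : Type*} [Group M] [Fintype M] {φ : M → ℂ} (hφ : IsIrrCharacter M φ) (S : Subgroup M)
    (hS : ∀ s ∈ S, ‖φ s‖ = ‖φ 1‖) {f : ℕ} (hf : φ 1 = f) (hff : f * f = S.index) {x : M} (hx : x ∉ S) : φ x = 0 := by
  classical
  have h1 := GalP.sum_norm hφ
  have h2 : ∑ g ∈ Finset.univ.filter (· ∈ S), ‖φ g‖ ^ 2 = (Nat.card M : ℝ) := by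
    rw [Finset.sum_congr rfl (g := fun _ => (f : ℝ) ^ 2)]
    · rw [Finset.sum_const, nsmul_eq_mul, ← S.card_mul_index, ← hff]
      have : (Finset.univ.filter (· ∈ S)).card = Nat.card S := by
        rw [Nat.card_eq_fintype_card, Fintype.card_subtype]
      rw [this]
      push_cast; ring
    · intro g hg
      rw [hS g (Finset.mem_filter.mp hg).2, hf, Complex.norm_natCast]
  rw [← Finset.sum_filter_add_sum_filter_not Finset.univ (· ∈ S), h2] at h1
  have h3 : ∑ g ∈ Finset.univ.filter (fun g => ¬ g ∈ S), ‖φ g‖ ^ 2 = 0 := by linarith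
  rw [Finset.sum_eq_zero_iff_of_nonneg (fun _ _ => by positivity)] at h3
  have h4 := h3 x (Finset.mem_filter.mpr ⟨Finset.mem_univ _, hx⟩)
  exact norm_eq_zero.mp (pow_eq_zero_iff (two_ne_zero) |>.mp h4)

theorem tau_case {A : Type*} [Group A] [Fintype A] {R' : Subgroup A} (hn : R'.Normal) [Fintype R'] {z : A → ℂ}
    (hz : IsIrrCharacter A z) {τ : R' → ℂ} (hτ : IsIrrCharacter R' τ) (hc : classInner (fun x : R' => z x) τ ≠ 0)
    (hinv : inertia hn τ = ⊤) (W : Subgroup R') {q r k l : ℕ} (hq : q.Prime) (hr : r.Prime) (hqr : q ≠ r)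
    (hW : W.index = r ^ l) (hWs : ∀ w ∈ W, ‖z (w : A)‖ = ‖z 1‖) {f : ℕ} (hf : z 1 = f) (hfq : f * f = q ^ k) :
    ∀ x : R', ‖z (x : A)‖ = ‖z 1‖ := by
  have h1 := clifford_invariant hn hz hτ hc (fun g => by
    have : g ∈ inertia hn τ := by rw [hinv]; trivial
    exact this)
  obtain ⟨n, hn'⟩ := ci_char_nat (IsChar.res (IsIrr.isCharacter hz) R') (IsIrr.isCharacter hτ)
  rw [hn'] at h1
  have hval : ∀ x : R', z x = n * τ x := fun x => congrFun h1 x
  have hn0 : n ≠ 0 := by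
    rintro rfl
    rw [hn', Nat.cast_zero] at hc
    exact hc rfl
  have hn0' : (0 : ℝ) < n := by exact_mod_cast Nat.pos_of_ne_zero hn0
  obtain ⟨d, hd0, hd⟩ := IsIrr.one_eq_nat hτ
  have hfd : f = n * d := by
    have := hval 1
    rw [OneMemClass.coe_one, hf, hd] at this
    exact_mod_cast this
  have hdr : d ∣ r ^ l := by
    rw [← hW]
    obtain ⟨N, ρ, hρ, rfl⟩ := hτ
    have h3 := finrank_dvd_index ρ hρ W (fun w hw => by
      have h4 := hWs w hw
      have h5 := hval w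
      have h6 := hval 1
      rw [OneMemClass.coe_one] at h6
      rw [h5, h6, norm_mul, norm_mul] at h4
      have h7 := mul_left_cancel₀ (by rw [Complex.norm_natCast]; exact hn0'.ne') h4
      rw [Representation.char_one, Complex.norm_natCast] at h7
      exact (norm_char_eq_iff ρ w).mp h7)
    rw [Representation.char_one] at hd
    have h4 : Module.finrank ℂ (Fin N → ℂ) = d := by exact_mod_cast hd
    rwa [h4] at h3
  have hdq : d ∣ q ^ k := by
    rw [← hfq, hfd]; exact ⟨n * (n * d), by ring⟩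
  have hcop : Nat.Coprime (q ^ k) (r ^ l) := Nat.Coprime.pow _ _ ((Nat.coprime_primes hq hr).mpr hqr)
  have hd1 : d = 1 := Nat.eq_one_of_dvd_coprimes hcop hdq hdr
  have hτ1 : τ 1 = 1 := by rw [hd, hd1, Nat.cast_one]
  obtain ⟨h, hh⟩ := IsChar.hom_units_of_one (IsIrr.isCharacter hτ) hτ1
  intro x
  have h2 : ‖τ x‖ = 1 := by
    rw [hh x]
    apply norm_eq_one_of_pow (n := orderOf x) (orderOf_pos x).ne'
    rw [← Units.val_pow_eq_pow_val, ← map_pow, pow_orderOf_eq_one, map_one, Units.val_one]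
  rw [hval x, norm_mul, h2, hf, hfd, hd1, mul_one, mul_one]

theorem ind_case {Γ : Type*} [Group Γ] [Fintype Γ] {Y H : Subgroup Γ} [hY : Y.Normal] (hYH : ∀ g : Γ, ∃ y ∈ Y, y⁻¹ * g ∈ H)
    {β : Γ → ℂ} (hβ : IsIrrCharacter Γ β) (hk : InKer Y β) {R' : Subgroup H} (hn : R'.Normal)
    (hYR : ∀ x : H, (x : Γ) ∈ Y → x ∈ R') {ψ z : H → ℂ} (hψ : IsCharacter H ψ) (hz : IsIrrCharacter H z)
    (hβH : IsIrrCharacter H (fun x : H => β x)) [Fintype H] [Fintype R']
    (hmul : (fun x : H => β x) = z * ψ) {τ : R' → ℂ} (hτ : IsIrrCharacter R' τ)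
    (hc : classInner (fun x : R' => z x) τ ≠ 0) (hT : inertia hn τ ≠ ⊤) :
    ∃ U : Subgroup Γ, U ≠ ⊤ ∧ (∀ x : H, x ∈ R' → (x : Γ) ∈ U) ∧ Y ≤ U ∧
      ∃ γ : U → ℂ, IsCharacter U γ ∧ indFun U γ = β := by
  classical
  let f : H →* Γ ⧸ Y := (QuotientGroup.mk' Y).comp H.subtype
  have hf : Function.Surjective f := by
    intro g
    obtain ⟨g, rfl⟩ := QuotientGroup.mk'_surjective Y g
    obtain ⟨y, hy, hyg⟩ := hYH g
    refine ⟨⟨y⁻¹ * g, hyg⟩, ?_⟩
    show ((y⁻¹ * g : Γ) : Γ ⧸ Y) = (g : Γ ⧸ Y)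
    rw [QuotientGroup.eq]
    have h1 : (y⁻¹ * g)⁻¹ * g = g⁻¹ * y * g⁻¹⁻¹ := by group
    rw [h1]
    exact hY.conj_mem y hy g⁻¹
  obtain ⟨T, hTdef⟩ : ∃ T : Subgroup H, T = inertia hn τ := ⟨_, rfl⟩
  have hRT : R' ≤ T := by rw [hTdef]; exact le_inertia hn (IsIrr.isClass hτ)
  have hkerT : f.ker ≤ T := by
    intro x hx
    apply hRT
    apply hYR
    exact (QuotientGroup.eq_one_iff (x : Γ)).mp hx
  obtain ⟨S, hS⟩ : ∃ S : Subgroup (Γ ⧸ Y), T = S.comap f := ⟨T.map f, by
    rw [Subgroup.comap_map_eq, sup_eq_left.mpr hkerT]⟩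
  subst hS
  have iT := Fintype.ofFinite (S.comap f)
  obtain ⟨η, hη, hηz, -⟩ := clifford_corr hn hz hτ hc (S.comap f) hTdef hRT
  have hind : indFun (S.comap f) (η * fun h : S.comap f => ψ h) = fun x : H => β x := by
    rw [ind_mul_res _ _ _ (IsChar.isClass hψ), hηz, hmul]
  have hγc : IsCharacter (S.comap f) (η * fun h : S.comap f => ψ h) :=
    IsChar.mul (IsIrr.isCharacter hη) (IsChar.res hψ _)
  have hγ : IsIrrCharacter (S.comap f) (η * fun h : S.comap f => ψ h) := by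
    apply irr_of_map (fun x => indFun (S.comap f) x) (fun x y => ind_add _ x y) (fun x hx => IsChar.ind hx)
      ((S.comap f).index : ℂ) (by exact_mod_cast Subgroup.index_ne_zero_of_finite) (fun x => ind_one _ x) hγc
    rw [hind]; exact hβH
  obtain ⟨b, hb, hbβ⟩ := IsIrr.descend hβ Y (fun y hy => by
    have := hk y hy 1
    rwa [mul_one] at this)
  have iQ := Fintype.ofFinite (Γ ⧸ Y)
  obtain ⟨δ, hδ, hδb⟩ := descent f hf S hγ hb (by
    rw [hind]
    funext x
    exact hbβ x)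
  refine ⟨S.comap (QuotientGroup.mk' Y), ?_, ?_, ?_, fun x => δ ⟨QuotientGroup.mk' Y x, x.2⟩, ?_, ?_⟩
  · intro h
    apply hT
    rw [← hTdef, eq_top_iff]
    intro x _
    have : (x : Γ) ∈ S.comap (QuotientGroup.mk' Y) := by rw [h]; trivial
    exact this
  · intro x hx
    exact hRT hx
  · intro y hy
    show (y : Γ ⧸ Y) ∈ S
    rw [(QuotientGroup.eq_one_iff y).mpr hy]
    exact one_mem S
  · exact IsChar.comp (IsIrr.isCharacter hδ)
      ((QuotientGroup.mk' Y).subgroupComap S)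
  · funext g
    rw [Monomial.ind_comap (QuotientGroup.mk' Y) (QuotientGroup.mk'_surjective Y) S δ g, ← hδb]
    exact hbβ g

theorem max_case {n : ℕ} (ih : ∀ m < n, PP.{u} m) {G : Type u} [Group G] [Fintype G] {V : Subgroup G} [hV : V.Normal]
    {χ : G → ℂ} (hVn : V.index = n) (hsolv : Group.IsSolvable (G ⧸ V)) (hχ : IsIrrCharacter G χ)
    (hVs : ∀ v ∈ V, ‖χ v‖ = ‖χ 1‖)
    (hqp : ∀ J : Subgroup G, J.Normal → V ≤ J → Hom χ J) {H : Subgroup G} (hVH : V ≤ H) (hmax : IsCoatom H)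
    {ψ : H → ℂ} (hψ : IsIrrCharacter H ψ) (hind : indFun H ψ = χ) : False := by
  classical
  have iH := Fintype.ofFinite H
  obtain ⟨N, hN⟩ : ∃ N, N = H.normalCore := ⟨_, rfl⟩
  have hNn : N.Normal := hN ▸ inferInstance
  have hNH : N ≤ H := hN ▸ Subgroup.normalCore_le H
  have hVN : V ≤ N := hN ▸ Subgroup.normal_le_normalCore.mpr hVH
  have hidx : H.index ≠ 1 := fun h => hmax.1 (Subgroup.index_eq_one.mp h)
  have hi0 : V.index ≠ 0 := Subgroup.index_ne_zero_of_finite
  have hltidx : ∀ M : Subgroup G, V ≤ M → V ≠ M → M.index < n := by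
    intro M hVM hne
    rw [← hVn, ← Subgroup.relIndex_mul_index hVM]
    have h1 : V.relIndex M ≠ 1 := fun h => hne (le_antisymm hVM (Subgroup.relIndex_eq_one.mp h))
    have h2 : V.relIndex M ≠ 0 := Subgroup.index_ne_zero_of_finite
    have h3 : 0 < M.index := Nat.pos_of_ne_zero Subgroup.index_ne_zero_of_finite
    nlinarith [Nat.pos_of_ne_zero h2, (by omega : 2 ≤ V.relIndex M)]
  by_cases hVN' : V = N
  swap
  · -- the core is bigger than `V`
    obtain ⟨θ, e, hθ, he⟩ := hqp N hNn hVN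
    obtain ⟨Γ, iΓ, iΓ', π, Y, α, β, hsurj, hYn, hYN, hNY, hkc, hα, hαY, hβ, hk, hmul, hα1, hval, hIH⟩ :=
      lift_ih ih hsolv hχ hqp N hVN (hltidx N hVN hVN') hθ he
    have hsH : Function.Surjective (π.subgroupComap H) := by
      rintro ⟨x, hx⟩
      obtain ⟨g, rfl⟩ := hsurj x
      exact ⟨⟨g, hx⟩, rfl⟩
    have hψ' : IsIrrCharacter (H.comap π) (fun x : H.comap π => ψ ⟨π x, x.2⟩) :=
      IsIrr.comp hψ (π.subgroupComap H) hsH
    have hind' : indFun (H.comap π) (fun x : H.comap π => ψ ⟨π x, x.2⟩) = fun x => χ (π x) := by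
      funext g
      rw [Monomial.ind_comap π hsurj H ψ g, hind]
    obtain ⟨γ, hγ, hγβ⟩ := step1_core (Y := Y) (H := H.comap π) (fun y hy => hNH (hYN y hy)) hα hαY hβ hk
      (IsIrr.comp hχ π hsurj) hmul hval hψ' hind'
    refine hIH (H.comap π) (Subgroup.comap_mono hNH) ?_ γ hγ hγβ
    intro h
    apply hmax.1
    rw [eq_top_iff]
    intro x _
    obtain ⟨g, rfl⟩ := hsurj x
    have : g ∈ H.comap π := by rw [h]; trivial
    exact this
  · -- the core is `V`
    rcases gt2 hVH hmax hsolv V (hVN'.trans hN) with h | ⟨q, r, k, l, M, R, hq, hr, hqr, hMn, hMH, hMi, hk, hl, hVR, hRH, hMR⟩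
    · have hHn : H.Normal := h ▸ hV
      obtain ⟨φ, e, hφ, he⟩ := hqp H hHn hVH
      have h1 : classInner (fun h : H => χ h) ψ = 1 := by
        rw [← frobenius' H ψ _ (IsIrr.isClass hχ), hind, ci_irr_self hχ]
      rw [he, ci_smul_left] at h1
      by_cases hne : φ = ψ
      · rw [hne, ci_irr_self hψ, mul_one] at h1
        have h2 := congrFun he 1
        simp only [Pi.smul_apply, h1, one_smul, hne, OneMemClass.coe_one] at h2
        rw [← hind, ind_one] at h2
        apply hidx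
        have h3 : (H.index : ℂ) = 1 := mul_right_cancel₀ (IsIrr.one_ne_zero hψ) (by rw [h2, one_mul])
        exact_mod_cast h3
      · rw [ci_irr_ne hφ hψ hne, mul_zero] at h1
        exact zero_ne_one h1
    have iV := Fintype.ofFinite V
    have iM := Fintype.ofFinite M
    have hVM : V ≤ M := hMi ▸ inf_le_left
    have hVR' : V ≤ R := le_of_lt hVR
    have hVM' : V ≠ M := by
      rintro rfl
      rw [sup_eq_right.mpr hVH] at hMH
      exact hmax.1 hMH
    obtain ⟨φ, e, hφ, he⟩ := hqp M hMn hVM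
    obtain ⟨φV, eV, hφV, heV⟩ := hqp V hV le_rfl
    obtain ⟨x, hx0, hx⟩ := IsIrr.one_eq_nat hχ
    obtain ⟨a, ha0, ha⟩ := IsIrr.one_eq_nat hψ
    obtain ⟨f, hf0, hf⟩ := IsIrr.one_eq_nat hφ
    obtain ⟨d, hd0, hd⟩ := IsIrr.one_eq_nat hφV
    -- `φV` is linear
    have hvalV : ∀ v : V, χ v = eV * φV v := fun v => congrFun heV v
    have heV0 : eV ≠ 0 := by
      rintro rfl
      have := hvalV 1
      rw [OneMemClass.coe_one, Nat.cast_zero, zero_mul, hx] at this
      exact hx0.ne' (by exact_mod_cast this)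
    have hnφV : ∀ v : V, ‖φV v‖ = ‖φV 1‖ := by
      intro v
      have h1 := hVs v v.2
      have h2 := hvalV 1
      rw [OneMemClass.coe_one] at h2
      rw [hvalV v, h2, norm_mul, norm_mul] at h1
      have : (0 : ℝ) < eV := by exact_mod_cast Nat.pos_of_ne_zero heV0
      exact mul_left_cancel₀ (by rw [Complex.norm_natCast]; exact this.ne') h1
    have hd1 : d = 1 := by
      have h1 := GalP.sum_norm hφV
      rw [Finset.sum_congr rfl fun v _ => by rw [hnφV v], Finset.sum_const, Finset.card_univ, hd,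
        Complex.norm_natCast, nsmul_eq_mul, ← Nat.card_eq_fintype_card] at h1
      have h2 : (Nat.card V : ℝ) ≠ 0 := by exact_mod_cast Nat.card_pos.ne'
      have h3 : (d : ℝ) ^ 2 = 1 := mul_left_cancel₀ h2 (by rw [h1, mul_one])
      have h4 : d ^ 2 = 1 := by exact_mod_cast h3
      exact (Nat.pow_eq_one.mp h4).resolve_right (by norm_num)
    have hφV1 : φV 1 = 1 := by rw [hd, hd1, Nat.cast_one]
    have heVx : (eV : ℂ) = x := by
      have h2 := hvalV 1
      rw [OneMemClass.coe_one, hφV1, mul_one, hx] at h2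
      exact h2.symm
    -- `ψ` on `V`
    have hc1 : classInner (fun x : H => χ x) ψ ≠ 0 := by
      rw [← frobenius' H ψ χ (IsIrr.isClass hχ), hind, ci_irr_self hχ]
      exact one_ne_zero
    obtain ⟨η, hη, hsplit⟩ := split (IsChar.res (IsIrr.isCharacter hχ) H) hψ hc1
    have hψV : (fun v : V => ψ ⟨v, hVH v.2⟩) = (a : ℂ) • φV := by
      funext v
      have h1 : ‖φV v‖ = 1 := by rw [hnφV v, hφV1, norm_one]
      have h2 := congrFun hsplit ⟨v, hVH v.2⟩
      have h3 := congrFun hsplit 1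
      simp only [Pi.add_apply, OneMemClass.coe_one] at h2 h3
      have h4 := scalar_left (IsIrr.isCharacter hψ) hη h1 (a := ⟨v, hVH v.2⟩) (by
        rw [← h2, ← h3, hvalV v, heVx, hx, mul_comm])
      rw [h4, ha, Pi.smul_apply, smul_eq_mul, mul_comm]
    have m1 := mk hMH hMi hVH (IsIrr.isClass hψ) (IsIrr.isClass hχ)
    rw [hind, he, heV, hψV, ci_smul_left, ci_smul_right, ci_smul_left, ci_smul_right, ci_irr_self hφ,
      ci_irr_self hφV] at m1
    simp only [mul_one, Complex.conj_natCast] at m1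
    rw [heVx] at m1
    have m2 : e * e = a * x := by exact_mod_cast m1
    have m3 : x = e * f := by
      have := congrFun he 1
      simp only [Pi.smul_apply, smul_eq_mul, OneMemClass.coe_one] at this
      rw [hx, hf] at this
      exact_mod_cast this
    have m4 : x = H.index * a := by
      have h1 := ind_one H ψ
      rw [hind, hx, ha] at h1
      exact_mod_cast h1
    have m5 : f * f = H.index := by
      have h1 : a * x * (f * f) = x * x := by rw [← m2, m3]; ring
      have h2 : a * (f * f) = x := by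
        apply Nat.eq_of_mul_eq_mul_left hx0
        rw [← h1]; ring
      apply Nat.eq_of_mul_eq_mul_left ha0
      rw [h2, m4, mul_comm]
    have m6 : f * f = q ^ k := by rw [m5, index_eq hMH hMi, hk]
    have m7 : f * f = V.relIndex M := by rw [m6, hk]
    obtain ⟨Γ, iΓ, iΓ', π, Y, α, β, hsurj, hYn, hYM, hMY, hkc, hα, hαY, hβ, hkβ, hmul, hα1, hval, hIH⟩ :=
      lift_ih ih hsolv hχ hqp M hVM (hltidx M hVM hVM') hφ he
    have hsH : Function.Surjective (π.subgroupComap H) := by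
      rintro ⟨x, hx⟩
      obtain ⟨g, rfl⟩ := hsurj x
      exact ⟨⟨g, hx⟩, rfl⟩
    let ψ' : H.comap π → ℂ := fun x => ψ ⟨π x, x.2⟩
    have hψ' : IsIrrCharacter (H.comap π) ψ' := IsIrr.comp hψ (π.subgroupComap H) hsH
    have hind' : indFun (H.comap π) ψ' = fun x => χ (π x) := by
      funext g
      show indFun (H.comap π) (fun x : H.comap π => ψ ⟨π x, x.2⟩) g = _
      rw [Monomial.ind_comap π hsurj H ψ g, hind]
    have hχ' : IsIrrCharacter Γ (fun x => χ (π x)) := IsIrr.comp hχ π hsurj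
    have iH' := Fintype.ofFinite (H.comap π)
    have hψ'1 : ψ' 1 = a := by
      rw [← ha]
      show ψ ⟨π 1, _⟩ = ψ 1
      congr 1
      exact Subtype.ext (map_one π)
    have hα1' : α 1 = f := by rw [hα1, hf]
    have hf0' : (f : ℂ) ≠ 0 := by exact_mod_cast hf0.ne'
    have hβ1 : β 1 = a * f := by
      have h1 := congrFun hmul 1
      rw [Pi.mul_apply, map_one, hx, hα1'] at h1
      have h2 : (x : ℂ) = a * f * f := by
        have : x = a * f * f := by rw [m4, ← m5]; ring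
        exact_mod_cast this
      rw [h2] at h1
      exact (mul_right_cancel₀ hf0' h1).symm
    have hYH : ∀ g : Γ, ∃ y ∈ Y, y⁻¹ * g ∈ H.comap π := by
      intro g
      have h1 : π g ∈ M ⊔ H := by rw [hMH]; trivial
      obtain ⟨m, hm, h, hh, hmh⟩ := Subgroup.mem_sup_of_normal_left.mp h1
      obtain ⟨y, hy, rfl⟩ := hMY m hm
      refine ⟨y, hy, ?_⟩
      show π (y⁻¹ * g) ∈ H
      rw [map_mul, map_inv, ← hmh, inv_mul_cancel_left]
      exact hh
    -- the restriction of `β`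
    have hβH : IsIrrCharacter (H.comap π) (fun x : H.comap π => β x) := by
      obtain ⟨b, hb, hbβ⟩ := IsIrr.descend hβ Y (fun y hy => by
        have := hkβ y hy 1
        rwa [mul_one] at this)
      have hs : Function.Surjective ((QuotientGroup.mk' Y).comp (H.comap π).subtype) := by
        intro g
        obtain ⟨g, rfl⟩ := QuotientGroup.mk'_surjective Y g
        obtain ⟨y, hy, hyg⟩ := hYH g
        refine ⟨⟨y⁻¹ * g, hyg⟩, ?_⟩
        show ((y⁻¹ * g : Γ) : Γ ⧸ Y) = (g : Γ ⧸ Y)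
        rw [QuotientGroup.eq]
        have h1 : (y⁻¹ * g)⁻¹ * g = g⁻¹ * y * g⁻¹⁻¹ := by group
        rw [h1]
        exact hYn.conj_mem y hy g⁻¹
      have h1 := IsIrr.comp hb _ hs
      have h2 : (fun x : H.comap π => b (((QuotientGroup.mk' Y).comp (H.comap π).subtype) x)) =
          fun x : H.comap π => β x := by
        funext x; exact hbβ x
      rw [← h2]; exact h1
    let z : H.comap π → ℂ := fun x => conj (α x)
    have hzc : IsCharacter (H.comap π) z := IsChar.conj (IsChar.res (IsIrr.isCharacter hα) _)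
    have hz1 : z 1 = f := by
      show conj (α ((1 : H.comap π) : Γ)) = f
      rw [OneMemClass.coe_one, hα1', Complex.conj_natCast]
    have hprod : ψ' * z = fun x : H.comap π => β x := by
      apply IsChar.eq_of_degree (IsChar.mul (IsIrr.isCharacter hψ') hzc) hβH
      · have h1 : classInner (ψ' * z) (fun x : H.comap π => β x) =
            classInner ψ' (fun x : H.comap π => χ (π x)) := by
          rw [classInner, classInner]
          congr 1
          refine Finset.sum_congr rfl fun y _ => ?_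
          have h2 := congrFun hmul (y : Γ)
          simp only [Pi.mul_apply] at h2
          simp only [Pi.mul_apply, h2, map_mul, z]
          ring
        rw [h1, ← frobenius (H.comap π) ψ' _ (IsIrr.isClass hχ'), hind', ci_irr_self hχ']
        exact one_ne_zero
      · show ψ' 1 * z 1 = β ((1 : H.comap π) : Γ)
        rw [OneMemClass.coe_one, hβ1, hψ'1, hz1]
    have hz : IsIrrCharacter (H.comap π) z := by
      apply irr_of_map (fun y => ψ' * y) (fun x y => mul_add _ _ _)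
        (fun y hy => IsChar.mul (IsIrr.isCharacter hψ') hy) (a : ℂ) (by exact_mod_cast ha0.ne')
        (fun y => by show ψ' 1 * y 1 = _; rw [hψ'1]) hzc
      show IsIrrCharacter _ (ψ' * z)
      rw [hprod]; exact hβH
    -- the normal subgroup
    have hRnorm : ∀ h ∈ H, ∀ y ∈ R, h * y * h⁻¹ ∈ R := by
      intro h hh y hy
      have h1 : h * y * h⁻¹ ∈ M ⊔ R := hMR.conj_mem y ((le_sup_right : R ≤ M ⊔ R) hy) h
      have h2 : h * y * h⁻¹ ∈ H := mul_mem (mul_mem hh (hRH hy)) (inv_mem hh)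
      obtain ⟨m, hm, y', hy', heq⟩ := Subgroup.mem_sup_of_normal_left.mp h1
      rw [← heq] at h2 ⊢
      have hmH : m ∈ H := by
        have : m * y' * y'⁻¹ ∈ H := H.mul_mem h2 (H.inv_mem (hRH hy'))
        rwa [mul_inv_cancel_right] at this
      have : m ∈ V := by rw [← hMi]; exact ⟨hm, hmH⟩
      exact mul_mem (hVR' this) hy'
    let R' : Subgroup (H.comap π) := (R.comap π).subgroupOf (H.comap π)
    have hR'n : R'.Normal := by
      constructor
      intro y hy h
      have h1 : π y ∈ R := hy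
      show π ((h : Γ) * (y : Γ) * (h : Γ)⁻¹) ∈ R
      rw [map_mul, map_mul, map_inv]
      exact hRnorm (π h) h.2 (π y) h1
    have iR' := Fintype.ofFinite R'
    obtain ⟨τ, hτ, hτc⟩ := exists_constituent (IsChar.res hzc R') (fun h0 => IsIrr.one_ne_zero hz (congrFun h0 1))
    by_cases hT : inertia hR'n τ = ⊤
    · -- `R` acts by scalars
      have hnormα : ∀ v : Γ, π v ∈ V → ‖α v‖ = ‖α 1‖ := by
        intro v hv
        have h1 := hVs (π v) hv
        have h2 := congrFun hmul v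
        have h3 := congrFun hmul 1
        simp only [Pi.mul_apply, map_one] at h2 h3
        rw [h2, h3, norm_mul, norm_mul] at h1
        have h4 := IsChar.norm_le (IsIrr.isCharacter hα) v
        have h5 := IsChar.norm_le (IsIrr.isCharacter hβ) v
        rw [hα1', Complex.natCast_re] at h4
        have h6 : β 1 = ((a * f : ℕ) : ℂ) := by rw [hβ1]; push_cast; rfl
        rw [h6, Complex.natCast_re] at h5
        rw [h6, hα1', Complex.norm_natCast, Complex.norm_natCast] at h1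
        rw [hα1', Complex.norm_natCast]
        have h7 : (0 : ℝ) < (a * f : ℕ) := by exact_mod_cast Nat.mul_pos ha0 hf0
        apply le_antisymm h4
        by_contra hlt
        push Not at hlt
        have h8 : ‖β v‖ * ‖α v‖ ≤ (a * f : ℕ) * ‖α v‖ := mul_le_mul_of_nonneg_right h5 (norm_nonneg _)
        have h9 : ((a * f : ℕ) : ℝ) * ‖α v‖ < (a * f : ℕ) * f := mul_lt_mul_of_pos_left hlt h7
        linarith
      let g : R' →* G := (π.comp (H.comap π).subtype).comp R'.subtype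
      have hgr : g.range = R := by
        ext y
        constructor
        · rintro ⟨t, rfl⟩
          exact t.2
        · intro hy
          obtain ⟨t, rfl⟩ := hsurj y
          exact ⟨⟨⟨t, hRH hy⟩, hy⟩, rfl⟩
      have hWi : (V.comap g).index = r ^ l := by
        rw [Subgroup.index_comap, hgr, hl]
      have hall := tau_case hR'n hz hτ hτc hT (V.comap g) hq hr hqr hWi (by
        intro w hw
        have h0 := hnormα _ hw
        rw [hz1, ← hα1', ← h0]
        exact Complex.norm_conj _) hz1 m6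
      -- `R` centralizes `M` modulo `V`
      apply absurd hVR
      apply not_lt_of_ge
      intro y hy
      apply cent_le (hVN'.trans hN) hMH (hRH hy)
      intro m hm
      obtain ⟨t, rfl⟩ := hsurj y
      obtain ⟨s, hs, rfl⟩ := hMY m hm
      have h1 := hall ⟨⟨t, hRH hy⟩, hy⟩
      rw [hz1] at h1
      have h2 : ‖α t‖ = ‖α 1‖ := by
        rw [hα1']
        have : ‖conj (α t)‖ = ‖(f : ℂ)‖ := h1
        rwa [Complex.norm_conj] at this
      have h3 := IsChar.comm_of_norm (IsIrr.isCharacter hα) h2 s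
      have hw : t * s * t⁻¹ * s⁻¹ ∈ Y := mul_mem (hYn.conj_mem s hs t) (inv_mem hs)
      have h4 := hval _ hw
      rw [h3, hα1'] at h4
      have hwM := hYM _ hw
      have h5 := congrFun he ⟨π (t * s * t⁻¹ * s⁻¹), hwM⟩
      simp only [Pi.smul_apply, smul_eq_mul] at h5
      rw [h4] at h5
      have he0 : (e : ℂ) ≠ 0 := by
        intro h
        have : (x : ℂ) = e * f := by exact_mod_cast m3
        rw [h, zero_mul] at this
        exact hx0.ne' (by exact_mod_cast this)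
      have h6 : φ ⟨π (t * s * t⁻¹ * s⁻¹), hwM⟩ = f := (mul_left_cancel₀ he0 h5).symm
      have h7 : (⟨π (t * s * t⁻¹ * s⁻¹), hwM⟩ : M) ∈ V.subgroupOf M := by
        by_contra hno
        have h8 := full_van hφ (V.subgroupOf M) (by
          intro v hv
          have h9 := hVs (v : G) hv
          have h10 := congrFun he v
          have h11 := congrFun he 1
          simp only [Pi.smul_apply, smul_eq_mul, OneMemClass.coe_one] at h10 h11
          rw [h10, h11, norm_mul, norm_mul] at h9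
          exact mul_left_cancel₀ (norm_ne_zero_iff.mpr he0) h9) hf m7 hno
        rw [h6] at h8
        exact hf0' h8
      have h8 : π (t * s * t⁻¹ * s⁻¹) ∈ V := h7
      simpa only [map_mul, map_inv] using h8
    · obtain ⟨U, hU, hRU, hYU, γ, hγ, hγβ⟩ := ind_case hYH hβ hkβ hR'n (by
        intro y hy
        show π y ∈ R
        apply hVR'
        rw [← hMi]
        exact ⟨hYM _ hy, y.2⟩) (IsIrr.isCharacter hψ') hz hβH (by rw [← hprod, mul_comm]) hτ hτc hT
      refine hIH U ?_ hU γ hγ hγβ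
      intro v hv
      obtain ⟨y, hy, hyv⟩ := hMY (π v) hv
      have h1 : π (y⁻¹ * v) = 1 := by rw [map_mul, map_inv, hyv, inv_mul_cancel]
      have h2 : y⁻¹ * v ∈ U := by
        have hH1 : y⁻¹ * v ∈ H.comap π := by
          show π (y⁻¹ * v) ∈ H
          rw [h1]; exact one_mem H
        apply hRU ⟨y⁻¹ * v, hH1⟩
        show π (y⁻¹ * v) ∈ R
        rw [h1]; exact one_mem R
      have h3 : v = y * (y⁻¹ * v) := by group
      rw [h3]
      exact mul_mem (hYU hy) h2

theorem main (n : ℕ) : PP.{u} n := by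
  induction n using Nat.strong_induction_on with
  | _ n ih =>
    intro G _ _ V hV χ hVn hsolv hχ hVs hqp H hVH hH ψ hψ hind
    classical
    obtain ⟨H₁, hH₁, hle⟩ := (eq_top_or_exists_le_coatom H).resolve_left hH
    have iH₁ := Fintype.ofFinite H₁
    have h1 := ind_trans H H₁ hle ψ
    have hψ1 : IsCharacter H₁ (indFun (H.subgroupOf H₁)
      (fun x => ψ ⟨(x : H₁), Subgroup.mem_subgroupOf.mp x.2⟩)) := by
      apply IsChar.ind
      exact IsChar.comp hψ (Subgroup.subgroupOfEquivOfLe hle).toMonoidHom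
    rw [hind] at h1
    apply max_case ih hVn hsolv hχ hVs hqp (le_trans hVH hle) hH₁ _ h1
    apply irr_of_map (fun x => indFun H₁ x) (fun x y => ind_add _ x y) (fun x hx => IsChar.ind hx)
      (H₁.index : ℂ) (by exact_mod_cast Subgroup.index_ne_zero_of_finite) (fun x => ind_one _ x) hψ1
    rw [h1]; exact hχ

/-- Berger's theorem -/
theorem berger {G : Type u} [Group G] [Fintype G] [hs : Group.IsSolvable G] (χ : G → ℂ) (hχ : IsIrrCharacter G χ)
    (hqp : ∀ (N : Subgroup G), N.Normal → ∃ (ϑ : N → ℂ) (e : ℕ), IsIrrCharacter N ϑ ∧ (fun n : N => χ n) = (e : ℂ) • ϑ)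
    (K : Subgroup G) (hK : K ≠ ⊤) (ψ : K → ℂ) (hψ : IsCharacter K ψ) : indFun K ψ ≠ χ := by
  apply main _ G ⊥ χ rfl ?_ hχ ?_ (fun J hJ _ => hqp J hJ) K bot_le hK ψ hψ
  · exact Group.isSolvable_of_surjective (QuotientGroup.mk'_surjective (⊥ : Subgroup G))
  · intro v hv
    rw [Subgroup.mem_bot] at hv
    rw [hv]

end Cfsg.Agent.H3.Berger
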