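import Mathlib
import Cfsg.Prelude.Def_Local
import Cfsg.Agent.H3_Arc
import Cfsg.Agent.H3_Unit
import Cfsg.Agent.H3_CharIrr

/-!
# Blichfeldt's 60 degree theorem for simple groups
-/

set_option autoImplicit false

namespace Cfsg.Agent.H3.BrB

open Module Cfsg.Agent.H3.Arc

section Arc

variable {E : Type*} [NormedAddCommGroup E] [InnerProductSpace ℂ E] [FiniteDimensional ℂ E]
variable {G : Type*} [Group G] (ρ : G →* (E →L[ℂ] E))
variable (hu : ∀ (g : G) (v w : E), inner ℂ (ρ g v) (ρ g w) = inner ℂ v w)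

include hu in
/-- the operator norm from the eigenvalues -/
theorem spec_norm' {a : G} {c : ℂ} {r : ℝ} (hr : 0 < r) (h : ∀ (μ : ℂ) (v : E), v ≠ 0 → ρ a v = μ • v → ‖μ - c‖ < r) :
    ‖ρ a - c • (1 : E →L[ℂ] E)‖ < r := by
  have hcomp : CompleteSpace E := FiniteDimensional.complete ℂ E
  rcases subsingleton_or_nontrivial E with hE | hE
  · have : ρ a - c • (1 : E →L[ℂ] E) = 0 := by
      ext v; exact Subsingleton.elim _ _
    rw [this, norm_zero]; exact hr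
  obtain ⟨T, hT⟩ : ∃ T : E →L[ℂ] E, T = ρ a - c • (1 : E →L[ℂ] E) := ⟨_, rfl⟩
  have hadj : star (ρ a) = ρ a⁻¹ := by
    rw [ContinuousLinearMap.star_eq_adjoint]
    symm
    rw [ContinuousLinearMap.eq_adjoint_iff]
    intro x y
    have h1 : x = ρ a (ρ a⁻¹ x) := by
      rw [← mul_apply_eq_comp, ← map_mul, mul_inv_cancel, map_one]; rfl
    conv_rhs => rw [h1]
    rw [hu]
  have hcomm : ρ a⁻¹ * ρ a = ρ a * ρ a⁻¹ := by rw [← map_mul, ← map_mul, inv_mul_cancel, mul_inv_cancel]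
  have hTn : IsStarNormal T := by
    refine ⟨?_⟩
    rw [hT, star_sub, star_smul, star_one, hadj]
    have : Commute (ρ a⁻¹) (ρ a) := hcomm
    refine Commute.sub_left (Commute.sub_right this ?_) (Commute.sub_right ?_ ?_)
    · exact (Commute.one_right _).smul_right _
    · exact (Commute.one_left _).smul_left _
    · exact ((Commute.one_left _).smul_left _)
  rw [← hT]
  have h1 := IsStarNormal.spectralRadius_eq_nnnorm T
  obtain ⟨z, hz, hz'⟩ := spectrum.exists_nnnorm_eq_spectralRadius T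
  rw [h1] at hz'
  have h2 : ‖z‖ = ‖T‖ := by
    have : ‖z‖₊ = ‖T‖₊ := by exact_mod_cast hz'
    exact congrArg NNReal.toReal this
  rw [← h2]
  -- `z` is an eigenvalue
  have h3 : ∃ v : E, v ≠ 0 ∧ T v = z • v := by
    by_contra hcon
    push Not at hcon
    apply hz
    have hinj : Function.Injective ((algebraMap ℂ (E →L[ℂ] E) z - T : E →L[ℂ] E) : E →ₗ[ℂ] E) := by
      rw [← LinearMap.ker_eq_bot, LinearMap.ker_eq_bot']
      intro v hv
      by_contra hv0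
      apply hcon v hv0
      have h4 : z • v - T v = 0 := by
        have h5 : (algebraMap ℂ (E →L[ℂ] E) z - T) v = 0 := hv
        rw [sub_apply, Algebra.algebraMap_eq_smul_one] at h5
        exact h5
      exact (sub_eq_zero.mp h4).symm
    have h5 := (ContinuousLinearEquiv.toUnit (LinearEquiv.ofInjectiveEndo _ hinj).toContinuousLinearEquiv).isUnit
    have h6 : ((ContinuousLinearEquiv.toUnit (LinearEquiv.ofInjectiveEndo _ hinj).toContinuousLinearEquiv : (E →L[ℂ] E)ˣ) : E →L[ℂ] E)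
        = algebraMap ℂ (E →L[ℂ] E) z - T := by
      ext v; rfl
    rw [h6] at h5
    exact h5
  obtain ⟨v, hv, hTv⟩ := h3
  have h4 : ρ a v = (z + c) • v := by
    rw [hT, sub_apply] at hTv
    have h5 : ρ a v - c • v = z • v := hTv
    rw [add_smul, ← h5]; abel
  have h5 := h (z + c) v hv h4
  rwa [add_sub_cancel_right] at h5


omit [FiniteDimensional ℂ E] in
theorem hmul (x y : G) (v : E) : ρ x (ρ y v) = ρ (x * y) v := by rw [map_mul]; rfl

include hu in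
/-- all conjugates of `a` stabilise the eigenspace -/
theorem stab [Finite G] {a : G} {ε : ℂ} (hε : ‖ε‖ = 1)
    (h : ∀ (μ : ℂ) (v : E), v ≠ 0 → ρ a v = μ • v → ‖μ - ε‖ < 1) (x : G) (w : E) (hw : ρ a w = ε • w) :
    ρ a (ρ (x * a * x⁻¹) w) = ε • ρ (x * a * x⁻¹) w := by
  have hε0 : ε ≠ 0 := by rintro rfl; simp at hε
  obtain ⟨W, hW⟩ : ∃ W : Submodule ℂ E, ∀ w, w ∈ W ↔ ρ a w = ε • w := by
    refine ⟨LinearMap.ker ((ρ a - ε • (1 : E →L[ℂ] E) : E →L[ℂ] E) : E →ₗ[ℂ] E), fun w => ?_⟩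
    rw [LinearMap.mem_ker]
    constructor
    · intro h'
      exact sub_eq_zero.mp h'
    · intro h'
      exact sub_eq_zero.mpr h'
  -- conjugates
  have hc : ∀ x : G, ∀ (μ : ℂ) (v : E), v ≠ 0 → ρ (x * a * x⁻¹) v = μ • v → ‖μ - ε‖ < 1 := by
    intro x μ v hv hμ
    apply h μ (ρ x⁻¹ v)
    · intro h0
      apply hv
      have : v = ρ x (ρ x⁻¹ v) := by rw [hmul, mul_inv_cancel, map_one]; rfl
      rw [this, h0, map_zero]
    · rw [hmul, ← map_smul, ← hμ, hmul]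
      congr 2
      group
  have hn : ∀ x : G, ‖ρ (x * a * x⁻¹) - ε • (1 : E →L[ℂ] E)‖ < 1 := fun x => spec_norm' ρ hu one_pos (hc x)
  have hna : ‖ρ a - ε • (1 : E →L[ℂ] E)‖ < 1 := spec_norm' ρ hu one_pos h
  obtain ⟨N, hN⟩ : ∃ N : G → ℝ, N = fun c => ‖(ρ c - ε • (1 : E →L[ℂ] E)).comp W.subtypeL‖ := ⟨_, rfl⟩
  suffices hgood : ∀ x : G, ∀ w ∈ W, ρ (x * a * x⁻¹) w ∈ W from (hW _).mp (hgood x w ((hW w).mpr hw))
  by_contra hcon
  push Not at hcon
  obtain ⟨x₁, hx₁⟩ := hcon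
  obtain ⟨c, ⟨⟨x₀, hx₀⟩, hcb⟩, hmin⟩ := Set.exists_min_image {c : G | (∃ x, c = x * a * x⁻¹) ∧ ∃ w ∈ W, ρ c w ∉ W} N
    (Set.toFinite _) ⟨x₁ * a * x₁⁻¹, ⟨x₁, rfl⟩, hx₁⟩
  have hcn : ‖ρ c - ε • (1 : E →L[ℂ] E)‖ < 1 := by rw [hx₀]; exact hn x₀
  have hNc : 0 < N c := by
    rw [hN]
    beta_reduce
    refine lt_of_le_of_ne (ContinuousLinearMap.opNorm_nonneg _) (fun h0 => ?_)
    obtain ⟨w, hw, hwn⟩ := hcb
    apply hwn
    have h2 := ((ρ c - ε • (1 : E →L[ℂ] E)).comp W.subtypeL).le_opNorm ⟨w, hw⟩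
    rw [← h0, zero_mul] at h2
    have h3 : ρ c w - ε • w = 0 := norm_le_zero_iff.mp h2
    rw [sub_eq_zero.mp h3]
    exact W.smul_mem _ hw
  have hNc' : N (c * a * c⁻¹) < N c := by
    refine lt_of_le_of_lt ?_ (mul_lt_of_lt_one_left hNc hna)
    rw [hN]
    beta_reduce
    refine ContinuousLinearMap.opNorm_le_bound _ (by positivity) (fun w => ?_)
    have h1 : (((ρ (c * a * c⁻¹) - ε • (1 : E →L[ℂ] E)).comp W.subtypeL) w : E) =
        ρ c ((ρ a - ε • (1 : E →L[ℂ] E)) (ρ c⁻¹ (w : E) - ε⁻¹ • (w : E))) := by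
      have h2 : ρ a (w : E) = ε • (w : E) := (hW _).mp w.2
      have h3 : ρ c (ρ c⁻¹ (w : E)) = (w : E) := by rw [hmul, mul_inv_cancel, map_one]; rfl
      have h4 : ρ (c * a * c⁻¹) (w : E) = ρ c (ρ a (ρ c⁻¹ (w : E))) := by
        rw [hmul, hmul]
      show ρ (c * a * c⁻¹) (w : E) - ε • (w : E) = ρ c (ρ a (ρ c⁻¹ (w : E) - ε⁻¹ • (w : E)) - ε • (ρ c⁻¹ (w : E) - ε⁻¹ • (w : E)))
      simp only [map_sub, map_smul, smul_sub, h2, h3, h4]
      module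
    have h5 : ‖ρ c⁻¹ (w : E) - ε⁻¹ • (w : E)‖ = ‖ρ c (w : E) - ε • (w : E)‖ := by
      have h6 : ρ c⁻¹ (w : E) - ε⁻¹ • (w : E) = -(ε⁻¹ • ρ c⁻¹ (ρ c (w : E) - ε • (w : E))) := by
        have h3 : ρ c⁻¹ (ρ c (w : E)) = (w : E) := by rw [hmul, inv_mul_cancel, map_one]; rfl
        rw [map_sub, map_smul, h3, smul_sub, smul_smul, inv_mul_cancel₀ hε0]
        module
      rw [h6, norm_neg, norm_smul, norm_inv, hε, inv_one, one_mul, norm_apply ρ hu]
    rw [h1, norm_apply ρ hu]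
    refine (ContinuousLinearMap.le_opNorm _ _).trans ?_
    rw [h5, mul_assoc]
    refine mul_le_mul_of_nonneg_left ?_ (norm_nonneg _)
    exact ((ρ c - ε • (1 : E →L[ℂ] E)).comp W.subtypeL).le_opNorm w
  -- so `c a c⁻¹` stabilises `W`
  have hst : ∀ w ∈ W, ρ (c * a * c⁻¹) w ∈ W := by
    by_contra hcon
    push Not at hcon
    exact absurd (hmin (c * a * c⁻¹) ⟨⟨c, rfl⟩, hcon⟩) (not_le.mpr hNc')
  -- `ρ c⁻¹ W ≤ W`
  have hle : ∀ w ∈ W, ρ c⁻¹ w ∈ W := by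
    intro w hw
    rw [hW]
    by_contra hne
    obtain ⟨u, hudef⟩ : ∃ u, u = ρ c⁻¹ w := ⟨_, rfl⟩
    rw [← hudef] at hne
    obtain ⟨r, hr⟩ : ∃ r, r = ρ a u - ε • u := ⟨_, rfl⟩
    have hr0 : r ≠ 0 := by rw [hr]; exact sub_ne_zero.mpr hne
    have hcr : ρ c r ∈ W := by
      have h1 : ρ c r = ρ (c * a * c⁻¹) w - ε • w := by
        rw [hr, map_sub, map_smul, hudef, hmul, hmul, hmul, mul_inv_cancel, map_one]; rfl
      rw [h1]
      exact W.sub_mem (hst w hw) (W.smul_mem _ hw)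
    have horth : inner ℂ (ρ c r) r = 0 := by
      obtain ⟨z, hz⟩ : ∃ z, z = ρ c r := ⟨_, rfl⟩
      rw [← hz] at hcr ⊢
      have h1 := (hW z).mp hcr
      have h2 := hu a z u
      rw [h1, inner_smul_left] at h2
      rw [hr, inner_sub_right, inner_smul_right, ← h2, ← mul_assoc, Complex.mul_conj, Complex.normSq_eq_norm_sq, hε]
      simp
    have h1 : ‖ρ c r - ε • r‖ ^ 2 = 2 * ‖r‖ ^ 2 := by
      rw [norm_sub_sq (𝕜 := ℂ), inner_smul_right, horth, norm_apply ρ hu, norm_smul, hε]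
      simp; ring
    have h2 : ‖ρ c r - ε • r‖ ≤ ‖ρ c - ε • (1 : E →L[ℂ] E)‖ * ‖r‖ := (ρ c - ε • (1 : E →L[ℂ] E)).le_opNorm r
    have h3 : 0 < ‖r‖ := norm_pos_iff.mpr hr0
    have h4 : ‖ρ c r - ε • r‖ < ‖r‖ := lt_of_le_of_lt h2 (mul_lt_of_lt_one_left h3 hcn)
    have h5 : ‖ρ c r - ε • r‖ ^ 2 < ‖r‖ ^ 2 := pow_lt_pow_left₀ h4 (norm_nonneg _) (by norm_num)
    nlinarith
  -- so `ρ c W ≤ W`
  obtain ⟨w, hw, hwn⟩ := hcb
  apply hwn
  have hpow : ∀ k : ℕ, ∀ w ∈ W, ρ (c⁻¹ ^ k) w ∈ W := by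
    intro k
    induction k with
    | zero => intro w hw; rw [pow_zero, map_one]; exact hw
    | succ k ih =>
      intro w hw
      rw [pow_succ, ← hmul]
      exact ih _ (hle w hw)
  have h1 : c = c⁻¹ ^ (orderOf c - 1) := by
    have h2 : c⁻¹ ^ (orderOf c - 1) * c⁻¹ = 1 := by
      rw [← pow_succ, Nat.sub_add_cancel (orderOf_pos c), inv_pow, pow_orderOf_eq_one, inv_one]
    exact (mul_inv_eq_one.mp h2).symm
  rw [h1]
  exact hpow _ w hw

end Arc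

end Cfsg.Agent.H3.BrB
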