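import Mathlib
import Cfsg.Prelude.Def_Local
import Cfsg.Prelude.Def_Blocks
import Cfsg.Agent.H3_BrB
import Cfsg.Agent.H10_BlockHZ
import Cfsg.Agent.S0925
import Cfsg.Agent.H3_CharInt

/-!
# Brauer's refinement of Burnside's theorem
-/

set_option autoImplicit false

open scoped ComplexConjugate

namespace Cfsg.Agent.H3.BrB

open Cfsg Cfsg.Agent.H3.CharBasic Cfsg.Agent.H3.CharIrr Cfsg.Agent.H3.CharComplete Cfsg.Agent.H3.CharInd
  Cfsg.Agent.H3.CharInt Cfsg.Agent.H10.BlockLoc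

section Simple

open Cfsg.Agent.H3.Unit

variable {G : Type*} [Group G] [Fintype G] {n : ℕ} (ρ : Representation ℂ G (Fin n → ℂ))

theorem exists_unitary' : ∃ (E : Submodule ℂ (EuclideanSpace ℂ (G × Fin n)))
    (σ : G →* (E →L[ℂ] E)) (e : (Fin n → ℂ) ≃ₗ[ℂ] E), (∀ g v w, inner ℂ (σ g v) (σ g w) = inner ℂ v w) ∧
      ∀ g v, σ g v = e (ρ g (e.symm v)) := by
  obtain ⟨e, he⟩ : ∃ e : (Fin n → ℂ) ≃ₗ[ℂ] (LinearMap.range (Phi ρ)), ∀ v, (e v : EuclideanSpace ℂ (G × Fin n)) = Phi ρ v :=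
    ⟨LinearEquiv.ofInjective (Phi ρ) (Phi_injective ρ), fun v => rfl⟩
  obtain ⟨σ, hσ⟩ : ∃ σ : G →* ((LinearMap.range (Phi ρ)) →L[ℂ] (LinearMap.range (Phi ρ))), ∀ g v, σ g v = e (ρ g (e.symm v)) := by
    refine ⟨{ toFun := fun g => LinearMap.toContinuousLinearMap (e.toLinearMap ∘ₗ (ρ g) ∘ₗ e.symm.toLinearMap)
              map_one' := ?_
              map_mul' := ?_ }, fun g v => rfl⟩
    · ext v
      change ((e (ρ 1 (e.symm v)) : LinearMap.range (Phi ρ)) : EuclideanSpace ℂ (G × Fin n)) _ = _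
      rw [map_one]
      change ((e (e.symm v) : LinearMap.range (Phi ρ)) : EuclideanSpace ℂ (G × Fin n)) _ = _
      rw [LinearEquiv.apply_symm_apply]
      rfl
    · intro x y
      ext v
      change ((e (ρ (x * y) (e.symm v)) : LinearMap.range (Phi ρ)) : EuclideanSpace ℂ (G × Fin n)) _ =
        ((e (ρ x (e.symm (e (ρ y (e.symm v))))) : LinearMap.range (Phi ρ)) : EuclideanSpace ℂ (G × Fin n)) _
      rw [LinearEquiv.symm_apply_apply, map_mul]
      rfl
  refine ⟨LinearMap.range (Phi ρ), σ, e, ?_, hσ⟩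
  intro g v w
  rw [hσ, hσ, Submodule.coe_inner, he, he, inner_Phi_rho, ← he, ← he, LinearEquiv.apply_symm_apply,
    LinearEquiv.apply_symm_apply, Submodule.coe_inner]

theorem blich [hs : IsSimpleGroup G] (hirr : ρ.IsIrreducible) {a : G} {ε : ℂ} (hε : ‖ε‖ = 1)
    (hev : ∃ v, v ≠ 0 ∧ ρ a v = ε • v) (h : ∀ (μ : ℂ) (v : Fin n → ℂ), v ≠ 0 → ρ a v = μ • v → ‖μ - ε‖ < 1) :
    ∀ v, ρ a v = ε • v := by
  by_cases ha : a = 1
  · obtain ⟨v, hv, hav⟩ := hev
    rw [ha, map_one] at hav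
    have h1 : (1 - ε) • v = 0 := by
      rw [sub_smul, one_smul, ← hav]; simp
    rcases smul_eq_zero.mp h1 with h2 | h2
    · intro w
      rw [ha, map_one, ← sub_eq_zero.mp h2, one_smul]; rfl
    · exact absurd h2 hv
  obtain ⟨E, σ, e, hσu, hσ⟩ := exists_unitary' ρ
  have hσ' : ∀ g v, σ g (e v) = e (ρ g v) := fun g v => by rw [hσ, LinearEquiv.symm_apply_apply]
  have hst : ∀ (x : G) (w : Fin n → ℂ), ρ a w = ε • w → ρ a (ρ (x * a * x⁻¹) w) = ε • ρ (x * a * x⁻¹) w := by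
    intro x w hw
    have h1 := stab σ hσu hε (a := a) (fun μ v hv hμ => by
      apply h μ (e.symm v)
      · intro h0
        exact hv ((LinearEquiv.map_eq_zero_iff e.symm).mp h0)
      · rw [hσ] at hμ
        rw [← map_smul, ← hμ, LinearEquiv.symm_apply_apply]) x (e w) (by rw [hσ', hw, map_smul])
    rw [hσ', hσ', ← map_smul] at h1
    exact e.injective h1
  obtain ⟨W, hW⟩ : ∃ W : Submodule ℂ (Fin n → ℂ), ∀ w, w ∈ W ↔ ρ a w = ε • w := by
    refine ⟨LinearMap.ker (ρ a - ε • LinearMap.id), fun w => ?_⟩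
    rw [LinearMap.mem_ker]
    constructor
    · intro h'
      exact sub_eq_zero.mp h'
    · intro h'
      exact sub_eq_zero.mpr h'
  obtain ⟨S, hS⟩ : ∃ S : Subgroup G, ∀ g, g ∈ S ↔ ∀ w ∈ W, ρ g w ∈ W := by
    refine ⟨{ carrier := {g | ∀ w ∈ W, ρ g w ∈ W}
              mul_mem' := ?_
              one_mem' := ?_
              inv_mem' := ?_ }, fun g => Iff.rfl⟩
    · intro x y hx hy w hw
      rw [map_mul]
      exact hx _ (hy w hw)
    · intro w hw
      rw [map_one]; exact hw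
    · intro x hx w hw
      have hpow : ∀ k : ℕ, ∀ w ∈ W, ρ (x ^ k) w ∈ W := by
        intro k
        induction k with
        | zero => intro w hw; rw [pow_zero, map_one]; exact hw
        | succ k ih =>
          intro w hw
          rw [pow_succ, map_mul]
          exact ih _ (hx w hw)
      have h1 : x⁻¹ = x ^ (orderOf x - 1) := by
        rw [inv_eq_iff_mul_eq_one, ← pow_succ', Nat.sub_add_cancel (orderOf_pos x), pow_orderOf_eq_one]
      rw [h1]
      exact hpow _ w hw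
  have htop : Subgroup.normalClosure ({a} : Set G) = ⊤ := by
    rcases hs.eq_bot_or_eq_top_of_normal _ (Subgroup.normalClosure_normal (s := ({a} : Set G))) with h1 | h1
    · exfalso
      have h2 : a ∈ Subgroup.normalClosure ({a} : Set G) := Subgroup.subset_normalClosure (Set.mem_singleton a)
      rw [h1, Subgroup.mem_bot] at h2
      exact ha h2
    · exact h1
  have hle : Subgroup.normalClosure ({a} : Set G) ≤ S := by
    rw [Subgroup.normalClosure, Subgroup.closure_le]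
    intro y hy
    rw [Group.conjugatesOfSet, Set.mem_iUnion₂] at hy
    obtain ⟨b, hb, hby⟩ := hy
    rw [Set.mem_singleton_iff.mp hb] at hby
    have hby' : IsConj a y := hby
    obtain ⟨x, hx⟩ := isConj_iff.mp hby'
    rw [SetLike.mem_coe, hS]
    intro w hw
    rw [hW] at hw ⊢
    rw [← hx]
    exact hst x w hw
  rcases ((irrep_iff ρ).mp hirr).2 W (fun g v hv => (hS g).mp (hle (by rw [htop]; trivial)) v hv) with h1 | h1
  · exfalso
    obtain ⟨v, hv, hav⟩ := hev
    have h2 := (hW v).mpr hav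
    rw [h1, Submodule.mem_bot] at h2
    exact hv h2
  · intro v
    exact (hW v).mp (by rw [h1]; trivial)

end Simple

section Block

variable {G : Type*} [Group G] [Fintype G] {p : ℕ} {M : Ideal AlgInt}

theorem exists_chi (hM : IsPModular p M) {q : ℕ} (hq : q.Prime) {x : G} (hx : ∃ k : ℕ, orderOf x = p ^ k) (hx1 : x ≠ 1) :
    ∃ χ : IrrCharacter G, χ ∈ principalBlock M G ∧ (χ : G → ℂ) ≠ (fun _ => 1) ∧ ∀ d : ℕ, (χ : G → ℂ) 1 = d → ¬ q ∣ d := by
  classical
  have hp : Fact p.Prime := ⟨hM.1⟩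
  have := Fintype.ofFinite (IrrCharacter G)
  by_contra hcon
  push Not at hcon
  have h1 := (S0925.result p M hM (G := G)).2 x 1 x 1 ⟨1, by simp, Commute.one_right _, hx, by
      rw [orderOf_one]; exact hM.1.one_lt.ne' ∘ fun h => Nat.dvd_one.mp h⟩ ⟨1, by simp, Commute.one_right _, ⟨0, by simp⟩, by
      rw [orderOf_one]; exact hM.1.one_lt.ne' ∘ fun h => Nat.dvd_one.mp h⟩ (fun h => hx1 (isConj_one_left.mp h))
    (principalBlock M G) ⟨⟨fun _ => 1, isIrr_one⟩, rfl⟩
  rw [Cfsg.Agent.H10.BlockOrth.finsum_mem_irr] at h1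
  obtain ⟨e, he⟩ : ∃ e : IrrCharacter G, e = ⟨fun _ => 1, isIrr_one⟩ := ⟨_, rfl⟩
  have heB : e ∈ principalBlock M G := by
    rw [he]
    intro g
    rw [sub_self]
    have := hM.2.1
    exact ideal_zero
  rw [← Finset.add_sum_erase _ _ (Finset.mem_univ e), if_pos heB] at h1
  have he1 : (e : G → ℂ) x * (e : G → ℂ) 1⁻¹ = 1 := by rw [he]; simp
  rw [he1] at h1
  -- the remaining terms
  have key : ∀ χ ∈ Finset.univ.erase e, ∃ s : ℂ, IsIntegral ℤ s ∧
      (if χ ∈ principalBlock M G then (χ : G → ℂ) x * (χ : G → ℂ) 1⁻¹ else 0) = q * s := by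
    intro χ hχ
    by_cases hB : χ ∈ principalBlock M G
    · have hne : (χ : G → ℂ) ≠ (fun _ => 1) := by
        intro h
        apply (Finset.mem_erase.mp hχ).1
        rw [he]
        exact Subtype.ext h
      obtain ⟨d, hd, k, hk⟩ := hcon χ hB hne
      refine ⟨(χ : G → ℂ) x * k, (IsChar.isIntegral (IsIrr.isCharacter χ.2) x).mul (isIntegral_algebraMap (R := ℤ) (x := (k : ℤ))), ?_⟩
      rw [if_pos hB, inv_one, hd, hk]
      push_cast
      ring
    · exact ⟨0, isIntegral_zero, by rw [if_neg hB, mul_zero]⟩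
  choose! s hs1 hs2 using key
  rw [Finset.sum_congr rfl hs2, ← Finset.mul_sum] at h1
  have hint : IsIntegral ℤ (∑ χ ∈ Finset.univ.erase e, s χ) := IsIntegral.sum _ (fun χ hχ => hs1 χ hχ)
  have hq0 : (q : ℂ) ≠ 0 := by exact_mod_cast hq.ne_zero
  have h2 : (∑ χ ∈ Finset.univ.erase e, s χ) = ((-1 / q : ℚ) : ℂ) := by
    push_cast
    rw [eq_div_iff hq0]
    linear_combination h1
  rw [h2] at hint
  obtain ⟨m, hm⟩ := exists_int_of_isIntegral hint
  have hq0' : (q : ℚ) ≠ 0 := by exact_mod_cast hq.ne_zero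
  rw [div_eq_iff hq0'] at hm
  have h3 : (-1 : ℤ) = m * q := by exact_mod_cast hm
  have h4 : (q : ℤ) ∣ 1 := ⟨-m, by linear_combination -h3⟩
  have h5 : q ∣ 1 := by exact_mod_cast h4
  exact hq.one_lt.ne' (Nat.dvd_one.mp h5)

/-- congruences for the normalized values -/
theorem beta (hM : IsPModular p M) {q : ℕ} (hq : q.Prime) (hpq : p ≠ q) {χ : IrrCharacter G} (hχ : χ ∈ principalBlock M G)
    {n : ℕ} (hn : (χ : G → ℂ) 1 = n) (hn0 : n ≠ 0) (hqn : ¬ q ∣ n) {y : G} {c g' : ℕ} (hc : (Subgroup.centralizer ({y} : Set G)).index = q ^ c * g') :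
    IsIntegral ℤ ((g' : ℂ) * (χ : G → ℂ) y / n) ∧ MemLocalIdeal M ((g' : ℂ) * (χ : G → ℂ) y / n - g') := by
  have := hM.2.1
  have hn0' : (n : ℂ) ≠ 0 := by exact_mod_cast hn0
  have hw := Cfsg.Agent.H10.BlockAlg.isIntegral_centralChar χ y
  rw [centralChar, hc, hn] at hw
  have hcop : IsCoprime ((q ^ c : ℕ) : ℤ) (n : ℤ) := by
    rw [Nat.isCoprime_iff_coprime]
    exact Nat.Coprime.pow_left c ((Nat.Prime.coprime_iff_not_dvd hq).mpr hqn)
  obtain ⟨u, v, huv⟩ := hcop
  have huv' : (u : ℂ) * q ^ c + v * n = 1 := by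
    have := congrArg (fun t : ℤ => (t : ℂ)) huv
    push_cast at this
    exact this
  constructor
  · have h1 : (g' : ℂ) * (χ : G → ℂ) y / n = (u : ℂ) * (((q ^ c * g' : ℕ) : ℂ) * (χ : G → ℂ) y / n) + (v * g' : ℤ) * (χ : G → ℂ) y := by
      push_cast
      field_simp
      linear_combination (-((g' : ℂ) * (χ : G → ℂ) y)) * huv'
    rw [h1]
    exact ((isIntegral_algebraMap (R := ℤ) (x := u)).mul hw).add ((isIntegral_algebraMap (R := ℤ) (x := v * g')).mul
      (IsChar.isIntegral (IsIrr.isCharacter χ.2) y))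
  · have h2 := hχ y
    have h3 : centralChar (fun _ : G => (1 : ℂ)) y - centralChar (χ : G → ℂ) y = ((q ^ c : ℕ) : ℂ) * ((g' : ℂ) - (g' : ℂ) * (χ : G → ℂ) y / n) := by
      rw [centralChar, centralChar, hc, hn]
      push_cast
      field_simp
    rw [h3] at h2
    have hint : IsIntegral ℤ ((g' : ℂ) * (χ : G → ℂ) y / n) := by
      have h1 : (g' : ℂ) * (χ : G → ℂ) y / n = (u : ℂ) * (((q ^ c * g' : ℕ) : ℂ) * (χ : G → ℂ) y / n) + (v * g' : ℤ) * (χ : G → ℂ) y := by
        push_cast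
        field_simp
        linear_combination (-((g' : ℂ) * (χ : G → ℂ) y)) * huv'
      rw [h1]
      exact ((isIntegral_algebraMap (R := ℤ) (x := u)).mul hw).add ((isIntegral_algebraMap (R := ℤ) (x := v * g')).mul
        (IsChar.isIntegral (IsIrr.isCharacter χ.2) y))
    rcases ideal_of_mul (ring_natCast _) (ring_sub (ring_natCast g') (memLocalRing_of_integral this.ne_top hint)) h2 with h4 | h4
    · exfalso
      have h5 := (ideal_natCast_iff hM _).mp h4
      exact hpq ((Nat.prime_dvd_prime_iff_eq hM.1 hq).mp (hM.1.dvd_of_dvd_pow h5))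
    · exact ideal_sub_comm h4

end Block

end Cfsg.Agent.H3.BrB
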