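import Mathlib
import Cfsg.Prelude.Def_Local
import Cfsg.Prelude.Def_Blocks
import Cfsg.Agent.H3_BrB2
import Cfsg.Agent.H3_Extraspecial

/-!
# Brauer's refinement of Burnside's theorem: counting
-/

set_option autoImplicit false

open scoped ComplexConjugate

namespace Cfsg.Agent.H3.BrB

open Cfsg Cfsg.Agent.H3.CharBasic Cfsg.Agent.H3.CharIrr Cfsg.Agent.H3.CharComplete Cfsg.Agent.H3.CharInd
  Cfsg.Agent.H3.CharInt Cfsg.Agent.H10.BlockLoc

section Count

theorem geom {p : ℕ} {w : ℂ} (hw : w ^ p = 1) [Decidable (w = 1)] : ∑ j ∈ Finset.range p, w ^ j = if w = 1 then (p : ℂ) else 0 := by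
  split_ifs with h
  · rw [h]; simp
  · rw [geom_sum_eq h, hw, sub_self, zero_div]

theorem count {p : ℕ} {M : Ideal AlgInt} (hM : IsPModular p M) {ι : Type*} [Fintype ι] {n g' : ℕ} (hn : n ≠ 0) (z : ι → ℂ)
    (hz : ∀ l, z l ^ p = 1) (hβ : ∀ j : ℕ, IsIntegral ℤ ((g' : ℂ) * (∑ l, z l ^ j) / n) ∧
      MemLocalIdeal M ((g' : ℂ) * (∑ l, z l ^ j) / n - g')) {ξ : ℂ} (hξ : ξ ^ p = 1) [DecidablePred fun l => z l = ξ] :
    n ∣ g' * (Finset.univ.filter fun l => z l = ξ).card := by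
  classical
  have := hM.2.1
  have hp0 : p ≠ 0 := hM.1.ne_zero
  have hξ0 : ξ ≠ 0 := by rintro rfl; rw [zero_pow hp0] at hξ; exact zero_ne_one hξ
  have hn' : (n : ℂ) ≠ 0 := by exact_mod_cast hn
  have hξi : ∀ j : ℕ, (ξ⁻¹ ^ j) ^ p = 1 := fun j => by rw [← pow_mul, mul_comm, pow_mul, inv_pow, hξ, inv_one, one_pow]
  have hξint : ∀ j : ℕ, IsIntegral ℤ (ξ⁻¹ ^ j) := fun j => by
    refine ⟨Polynomial.X ^ p - 1, Polynomial.monic_X_pow_sub_C (1 : ℤ) hp0, ?_⟩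
    simp only [Polynomial.eval₂_sub, Polynomial.eval₂_X_pow, Polynomial.eval₂_one, hξi j, sub_self]
  obtain ⟨S, hS⟩ : ∃ S : ℂ, S = ∑ j ∈ Finset.range p, ((g' : ℂ) * (∑ l, z l ^ j) / n) * ξ⁻¹ ^ j := ⟨_, rfl⟩
  have hSint : IsIntegral ℤ S := by
    rw [hS]
    exact IsIntegral.sum _ (fun j _ => (hβ j).1.mul (hξint j))
  have hSval : S = ((g' * p * (Finset.univ.filter fun l => z l = ξ).card / n : ℚ) : ℂ) := by
    have h1 : S = (g' : ℂ) / n * ∑ l, ∑ j ∈ Finset.range p, (z l * ξ⁻¹) ^ j := by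
      rw [hS, Finset.sum_comm, Finset.mul_sum]
      refine Finset.sum_congr rfl fun j _ => ?_
      rw [Finset.mul_sum, Finset.mul_sum, Finset.sum_div, Finset.sum_mul]
      refine Finset.sum_congr rfl fun l _ => ?_
      rw [mul_pow]; ring
    have h2 : ∀ l, ∑ j ∈ Finset.range p, (z l * ξ⁻¹) ^ j = if z l = ξ then (p : ℂ) else 0 := by
      intro l
      rw [geom (by rw [mul_pow, hz, inv_pow, hξ, inv_one, one_mul])]
      have h3 : z l * ξ⁻¹ = 1 ↔ z l = ξ := by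
        rw [← div_eq_mul_inv, div_eq_one_iff_eq hξ0]
      simp only [h3]
    rw [h1, Finset.sum_congr rfl (fun l _ => h2 l), ← Finset.sum_filter, Finset.sum_const, nsmul_eq_mul]
    push_cast
    ring
  have hSmem : MemLocalIdeal M S := by
    have h1 : MemLocalIdeal M (∑ j ∈ Finset.range p, (((g' : ℂ) * (∑ l, z l ^ j) / n) * ξ⁻¹ ^ j - g')) := by
      refine ideal_sum _ _ (fun j _ => ?_)
      have h2 : ((g' : ℂ) * (∑ l, z l ^ j) / n) * ξ⁻¹ ^ j - g' =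
          ((g' : ℂ) * (∑ l, z l ^ j) / n - g') * ξ⁻¹ ^ j + g' * (ξ⁻¹ ^ j - 1) := by ring
      rw [h2]
      refine ideal_add (ideal_mul_right (hβ j).2 (memLocalRing_of_integral this.ne_top (hξint j))) ?_
      exact ideal_mul_left (ring_natCast g') (Cfsg.Agent.H10.BlockHZ.root_sub_one_mem hM (k := 1) (by rw [pow_one]; exact hξi j))
    rw [Finset.sum_sub_distrib, ← hS, Finset.sum_const, Finset.card_range, nsmul_eq_mul] at h1
    have h2 : MemLocalIdeal M ((p : ℂ) * g') :=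
      ideal_mul_right ((ideal_natCast_iff hM p).mpr dvd_rfl) (ring_natCast g')
    have h3 := ideal_add h1 h2
    rwa [sub_add_cancel] at h3
  rw [hSval] at hSint
  obtain ⟨N, hN⟩ := exists_int_of_isIntegral hSint
  rw [hSval, hN] at hSmem
  have hpN : (p : ℤ) ∣ N := (ideal_intCast_iff hM N).mp (by exact_mod_cast hSmem)
  obtain ⟨N', rfl⟩ := hpN
  have hn'' : (n : ℚ) ≠ 0 := by exact_mod_cast hn
  have hp'' : (p : ℚ) ≠ 0 := by exact_mod_cast hp0
  rw [div_eq_iff hn''] at hN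
  push_cast at hN
  have h3 : (g' : ℚ) * (Finset.univ.filter fun l => z l = ξ).card = N' * n := by
    apply mul_left_cancel₀ hp''
    linear_combination hN
  have h4 : ((g' * (Finset.univ.filter fun l => z l = ξ).card : ℕ) : ℤ) = N' * n := by
    have : (((g' * (Finset.univ.filter fun l => z l = ξ).card : ℕ) : ℤ) : ℚ) = ((N' * n : ℤ) : ℚ) := by
      push_cast; exact h3
    exact_mod_cast this
  have h5 : (n : ℤ) ∣ ((g' * (Finset.univ.filter fun l => z l = ξ).card : ℕ) : ℤ) := ⟨N', by rw [h4, mul_comm]⟩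
  exact_mod_cast h5

/-- the number of distinct eigenvalues -/
theorem card_image_le' {ι : Type*} [Fintype ι] [DecidableEq ℂ] {n g' : ℕ} (hn : 0 < n) (hι : Fintype.card ι = n) (z : ι → ℂ)
    (h : ∀ ξ ∈ Finset.univ.image z, n ∣ g' * (Finset.univ.filter fun l => z l = ξ).card) (hg' : 0 < g') :
    (Finset.univ.image z).card ≤ g' := by
  have h1 : ∑ ξ ∈ Finset.univ.image z, (Finset.univ.filter fun l => z l = ξ).card = n := by
    rw [← hι, ← Finset.card_univ]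
    exact (Finset.card_eq_sum_card_image z Finset.univ).symm
  have h2 : (Finset.univ.image z).card * n ≤ g' * n := by
    calc (Finset.univ.image z).card * n = ∑ ξ ∈ Finset.univ.image z, n := by rw [Finset.sum_const, smul_eq_mul]
      _ ≤ ∑ ξ ∈ Finset.univ.image z, g' * (Finset.univ.filter fun l => z l = ξ).card := by
          refine Finset.sum_le_sum fun ξ hξ => Nat.le_of_dvd ?_ (h ξ hξ)
          obtain ⟨l, _, hl⟩ := Finset.mem_image.mp hξ
          exact Nat.mul_pos hg' (Finset.card_pos.mpr ⟨l, by simp [hl]⟩)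
      _ = g' * n := by rw [← Finset.mul_sum, h1]
  exact Nat.le_of_mul_le_mul_right h2 hn

theorem pigeon {p : ℕ} (hp : 0 < p) (I : Finset ℕ) (hI : ∀ i ∈ I, i < p) {i₀ : ℕ} (hi₀ : i₀ ∈ I) (hcard : 6 ^ (I.card - 1) < p) :
    ∃ k : ℕ, 0 < k ∧ k < p ∧ ∀ i ∈ I, ∃ a b : ℤ, (k : ℤ) * (i - i₀) = a + p * b ∧ 6 * |a| < p := by
  classical
  let J := {i : ℕ // i ∈ I.erase i₀}
  let r : Fin p → ℕ → ℕ := fun k i => (k.1 * (i + p - i₀)) % p
  have hr : ∀ k i, r k i < p := fun k i => Nat.mod_lt _ hp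
  let f : Fin p → (J → Fin 6) := fun k i => ⟨6 * r k i.1 / p, by
    rw [Nat.div_lt_iff_lt_mul hp]
    have := hr k i.1
    omega⟩
  have hJ : Fintype.card (J → Fin 6) < Fintype.card (Fin p) := by
    rw [Fintype.card_fun, Fintype.card_fin, Fintype.card_fin, Fintype.card_coe, Finset.card_erase_of_mem hi₀]
    exact hcard
  obtain ⟨k₁, k₂, hne, hf⟩ := Fintype.exists_ne_map_eq_of_card_lt f hJ
  wlog hlt : k₂ < k₁ generalizing k₁ k₂
  · exact this k₂ k₁ hne.symm hf.symm (lt_of_le_of_ne (not_lt.mp hlt) hne)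
  have hlt' : k₂.1 < k₁.1 := hlt
  refine ⟨k₁.1 - k₂.1, by omega, by have := k₁.2; omega, fun i hi => ?_⟩
  by_cases hii : i = i₀
  · subst hii
    exact ⟨0, 0, by simp, by simpa using hp⟩
  have h1 := congrFun hf ⟨i, Finset.mem_erase.mpr ⟨hii, hi⟩⟩
  have h2 : 6 * r k₁ i / p = 6 * r k₂ i / p := congrArg Fin.val h1
  have hi0 := hI i₀ hi₀
  have e1 := Nat.mod_add_div (k₁.1 * (i + p - i₀)) p
  have e2 := Nat.mod_add_div (k₂.1 * (i + p - i₀)) p
  refine ⟨(r k₁ i : ℤ) - r k₂ i, ((k₁.1 * (i + p - i₀)) / p : ℕ) - ((k₂.1 * (i + p - i₀)) / p : ℕ) - (k₁.1 - k₂.1 : ℕ), ?_, ?_⟩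
  · have e3 : ((i + p - i₀ : ℕ) : ℤ) = i + p - i₀ := by
      rw [Nat.cast_sub (by omega)]; push_cast; ring
    have e4 : ((k₁.1 - k₂.1 : ℕ) : ℤ) = k₁.1 - k₂.1 := by rw [Nat.cast_sub hlt'.le]
    have e1' : (r k₁ i : ℤ) + p * ((k₁.1 * (i + p - i₀)) / p : ℕ) = k₁.1 * (i + p - i₀) := by
      rw [← e3]; exact_mod_cast e1
    have e2' : (r k₂ i : ℤ) + p * ((k₂.1 * (i + p - i₀)) / p : ℕ) = k₂.1 * (i + p - i₀) := by
      rw [← e3]; exact_mod_cast e2
    rw [e4]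
    linear_combination e2' - e1'
  · have d1 := Nat.div_add_mod (6 * r k₁ i) p
    have d2 := Nat.div_add_mod (6 * r k₂ i) p
    have m1 := Nat.mod_lt (6 * r k₁ i) hp
    have m2 := Nat.mod_lt (6 * r k₂ i) hp
    rw [h2] at d1
    have h3 : |(6 * r k₁ i : ℤ) - 6 * r k₂ i| < p := by
      rw [abs_lt]
      constructor <;> omega
    calc 6 * |(r k₁ i : ℤ) - r k₂ i| = |(6 * r k₁ i : ℤ) - 6 * r k₂ i| := by
          rw [← mul_sub, abs_mul]; norm_num
      _ < p := h3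

theorem norm_exp_lt {p : ℕ} (hp : 0 < p) {a : ℤ} (ha : 6 * |a| < p) :
    ‖Complex.exp (2 * Real.pi * Complex.I * a / p) - 1‖ < 1 := by
  have hp' : (0 : ℝ) < p := by exact_mod_cast hp
  have hpi := Real.pi_pos
  obtain ⟨θ, hθ⟩ : ∃ θ : ℝ, θ = 2 * Real.pi * a / p := ⟨_, rfl⟩
  have h1 : Complex.exp (2 * Real.pi * Complex.I * a / p) = Complex.exp (θ * Complex.I) := by
    rw [hθ]; congr 1; push_cast; ring
  have h2 : |θ| < Real.pi / 3 := by
    rw [hθ, abs_div, abs_mul, abs_of_pos (by positivity : (0 : ℝ) < 2 * Real.pi), abs_of_pos hp', div_lt_iff₀ hp']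
    have h3 : (6 : ℝ) * |(a : ℝ)| < p := by exact_mod_cast ha
    nlinarith
  have h3 : 1 / 2 < Real.cos θ := by
    rw [← Real.cos_abs, ← Real.cos_pi_div_three]
    apply Real.cos_lt_cos_of_nonneg_of_le_pi_div_two (abs_nonneg _) _ h2
    linarith
  rw [h1]
  have h4 : ‖Complex.exp (θ * Complex.I) - 1‖ ^ 2 < 1 ^ 2 := by
    have h5 := Cfsg.Agent.H3.Arc.re_of_norm (Complex.norm_exp_ofReal_mul_I θ) 1
    rw [Complex.ofReal_one] at h5
    rw [h5, Complex.exp_ofReal_mul_I_re]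
    linarith
  exact lt_of_pow_lt_pow_left₀ 2 (by norm_num) h4

end Count

end Cfsg.Agent.H3.BrB
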