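import Mathlib
import Cfsg.Prelude.Def_Local
import Cfsg.Prelude.Def_Blocks
import Cfsg.Agent.H3_BrB3
import Cfsg.Agent.H10_BlockKn

/-!
# Brauer's refinement of Burnside's theorem: main
-/

set_option autoImplicit false

open scoped ComplexConjugate

namespace Cfsg.Agent.H3.BrB

open Cfsg Cfsg.Agent.H3.CharBasic Cfsg.Agent.H3.CharIrr Cfsg.Agent.H3.CharComplete Cfsg.Agent.H3.CharInd
  Cfsg.Agent.H3.CharInt Cfsg.Agent.H10.BlockLoc

theorem six_pow_ne {p m : ℕ} (hp : p.Prime) : 6 ^ m ≠ p := by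
  intro h
  rcases Nat.eq_zero_or_pos m with rfl | hm
  · rw [pow_zero] at h
    exact hp.one_lt.ne h
  · have h2 : 2 ∣ p := by rw [← h]; exact (show 2 ∣ 6 by norm_num).trans (dvd_pow_self 6 hm.ne')
    have h3 : 3 ∣ p := by rw [← h]; exact (show 3 ∣ 6 by norm_num).trans (dvd_pow_self 6 hm.ne')
    have h4 := (Nat.prime_dvd_prime_iff_eq Nat.prime_two hp).mp h2
    have h5 := (Nat.prime_dvd_prime_iff_eq Nat.prime_three hp).mp h3
    omega

/-- The analytic core: a representation with few eigenvalues. -/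
theorem core {G : Type*} [Group G] [Fintype G] [hs : IsSimpleGroup G] (hZ : Subgroup.center G = ⊥) {n : ℕ}
    (ρ : Representation ℂ G (Fin n → ℂ)) (hirr : ρ.IsIrreducible) (hf : Function.Injective ρ)
    {p : ℕ} (hp : p.Prime) {x : G} (hx : orderOf x = p) {ι : Type*} [Fintype ι] [DecidableEq ℂ] (b : Module.Basis ι ℂ (Fin n → ℂ)) (z : ι → ℂ)
    (hb : ∀ (k : ℕ) (i : ι), ρ (x ^ k) (b i) = z i ^ k • b i) (hz : ∀ i, z i ^ p = 1)
    (hcard : 6 ^ ((Finset.univ.image z).card - 1) < p) : False := by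
  have hp0 : 0 < p := hp.pos
  have hNZ : NeZero p := ⟨hp.ne_zero⟩
  obtain ⟨ζ, hζdef⟩ : ∃ ζ : ℂ, ζ = Complex.exp (2 * Real.pi * Complex.I / p) := ⟨_, rfl⟩
  have hζ : IsPrimitiveRoot ζ p := by rw [hζdef]; exact Complex.isPrimitiveRoot_exp p hp.ne_zero
  have hidx : ∀ i : ι, ∃ j < p, ζ ^ j = z i := fun i => hζ.eq_pow_of_pow_eq_one (hz i)
  have hidx' : ∀ w : ℂ, ∃ j : ℕ, j < p ∧ (w ^ p = 1 → ζ ^ j = w) := by
    intro w
    by_cases hw : w ^ p = 1
    · obtain ⟨j, hj, h⟩ := hζ.eq_pow_of_pow_eq_one hw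
      exact ⟨j, hj, fun _ => h⟩
    · exact ⟨0, hp0, fun h => absurd h hw⟩
  choose idx hidx1 hidx2 using hidx'
  have hnt := ((irrep_iff ρ).mp hirr).1
  have hne : Nonempty ι := by
    by_contra hcon
    rw [not_nonempty_iff] at hcon
    have : Subsingleton (Fin n → ℂ) := (b.repr.toEquiv.subsingleton)
    exact not_subsingleton _ this
  obtain ⟨l₀⟩ := hne
  obtain ⟨I, hI⟩ : ∃ I : Finset ℕ, I = (Finset.univ.image z).image idx := ⟨_, rfl⟩
  have hIc : I.card ≤ (Finset.univ.image z).card := by rw [hI]; exact Finset.card_image_le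
  have hmemI : ∀ l, idx (z l) ∈ I := fun l => by
    rw [hI]; exact Finset.mem_image_of_mem _ (Finset.mem_image_of_mem _ (Finset.mem_univ l))
  have hIp : ∀ i ∈ I, i < p := by
    intro i hi
    rw [hI] at hi
    obtain ⟨w, _, rfl⟩ := Finset.mem_image.mp hi
    exact hidx1 w
  obtain ⟨k, hk0, hkp, hk⟩ := pigeon hp0 I hIp (hmemI l₀)
    (lt_of_le_of_lt (Nat.pow_le_pow_right (by norm_num) (by omega)) hcard)
  have hζn : ‖ζ‖ = 1 := by
    exact hζ.norm'_eq_one hp.ne_zero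
  have hzζ : ∀ l, z l = ζ ^ idx (z l) := fun l => (hidx2 (z l) (hz l)).symm
  have hε : ‖z l₀ ^ k‖ = 1 := by rw [hzζ, norm_pow, norm_pow, hζn, one_pow, one_pow]
  have hclose : ∀ l, ‖z l ^ k - z l₀ ^ k‖ < 1 := by
    intro l
    obtain ⟨a, c, hac, ha⟩ := hk (idx (z l)) (hmemI l)
    have h1 : z l ^ k = z l₀ ^ k * Complex.exp (2 * Real.pi * Complex.I * a / p) := by
      have h2 : Complex.exp (2 * Real.pi * Complex.I * a / p) = ζ ^ a := by
        rw [hζdef, ← Complex.exp_int_mul]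
        congr 1; ring
      have hζ0 : ζ ≠ 0 := hζ.ne_zero hp.ne_zero
      rw [h2, hzζ l, hzζ l₀]
      have e1 : (ζ ^ idx (z l)) ^ k = ζ ^ ((k : ℤ) * idx (z l)) := by
        rw [← pow_mul, mul_comm, ← zpow_natCast]; push_cast; rfl
      have e2 : (ζ ^ idx (z l₀)) ^ k = ζ ^ ((k : ℤ) * idx (z l₀)) := by
        rw [← pow_mul, mul_comm, ← zpow_natCast]; push_cast; rfl
      have e3 : (k : ℤ) * idx (z l) = (k : ℤ) * idx (z l₀) + a + p * c := by linear_combination hac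
      have e4 : ζ ^ ((p : ℤ) * c) = 1 := by
        rw [zpow_mul, zpow_natCast, hζ.pow_eq_one, one_zpow]
      rw [← hzζ l, ← hzζ l₀] at *
      rw [e1, e2, e3, zpow_add₀ hζ0, zpow_add₀ hζ0, e4, mul_one]
    rw [h1]
    have h3 : z l₀ ^ k * Complex.exp (2 * Real.pi * Complex.I * a / p) - z l₀ ^ k =
        z l₀ ^ k * (Complex.exp (2 * Real.pi * Complex.I * a / p) - 1) := by ring
    rw [h3, norm_mul, hε, one_mul]
    exact norm_exp_lt hp0 ha
  have hev : ∀ (μ : ℂ) (v : Fin n → ℂ), v ≠ 0 → ρ (x ^ k) v = μ • v → ∃ l, z l ^ k = μ := by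
    intro μ v hv hμ
    by_contra hcon
    push Not at hcon
    apply hv
    have h1 : ∀ l, b.repr v l = 0 := by
      intro l
      have h2 : ρ (x ^ k) v = ∑ i, (b.repr v i * z i ^ k) • b i := by
        conv_lhs => rw [← b.sum_repr v]
        rw [map_sum]
        refine Finset.sum_congr rfl fun i _ => ?_
        rw [map_smul, hb, smul_smul]
      have h3 := congrArg (fun w => b.repr w l) (h2.symm.trans hμ)
      simp only [map_smul, Finsupp.smul_apply, smul_eq_mul] at h3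
      rw [b.repr_sum_self] at h3
      have h4 : b.repr v l * (z l ^ k - μ) = 0 := by linear_combination h3
      rcases mul_eq_zero.mp h4 with h5 | h5
      · exact h5
      · exact absurd (sub_eq_zero.mp h5) (hcon l)
    rw [← b.sum_repr v]
    exact Finset.sum_eq_zero fun l _ => by rw [h1 l, zero_smul]
  have hbl := blich ρ hirr hε ⟨b l₀, b.ne_zero l₀, hb k l₀⟩ (fun μ v hv hμ => by
    obtain ⟨l, rfl⟩ := hev μ v hv hμ
    exact hclose l)
  have hcen : x ^ k ∈ Subgroup.center G := by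
    rw [Subgroup.mem_center_iff]
    intro y
    apply hf
    apply LinearMap.ext
    intro v
    rw [map_mul, map_mul]
    show ρ y (ρ (x ^ k) v) = ρ (x ^ k) (ρ y v)
    rw [hbl, hbl, map_smul]
  rw [hZ, Subgroup.mem_bot] at hcen
  have h1 := orderOf_dvd_of_pow_eq_one hcen
  rw [hx] at h1
  exact absurd (Nat.le_of_dvd hk0 h1) (not_le.mpr hkp)

end Cfsg.Agent.H3.BrB
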