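import Mathlib
import Cfsg.Prelude.Def_Local
import Cfsg.Prelude.Def_Blocks
import Cfsg.Agent.H3_BrB4

/-!
# Brauer's refinement of Burnside's theorem: assembling
-/

set_option autoImplicit false

open scoped ComplexConjugate

namespace Cfsg.Agent.H3.BrB

open Cfsg Cfsg.Agent.H3.CharBasic Cfsg.Agent.H3.CharIrr Cfsg.Agent.H3.CharComplete Cfsg.Agent.H3.CharInd
  Cfsg.Agent.H3.CharInt Cfsg.Agent.H10.BlockLoc

theorem cent_pow {G : Type*} [Group G] {p : ℕ} (hp : p.Prime) {x : G} (hx : orderOf x = p) {j : ℕ} (hj : ¬ p ∣ j) :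
    Subgroup.centralizer ({x ^ j} : Set G) = Subgroup.centralizer ({x} : Set G) := by
  have hcop : (orderOf x).Coprime j := by rw [hx]; exact (Nat.Prime.coprime_iff_not_dvd hp).mpr hj
  ext y
  rw [Subgroup.mem_centralizer_singleton_iff, Subgroup.mem_centralizer_singleton_iff]
  constructor
  · intro h
    obtain ⟨m, hm⟩ := exists_pow_eq_self_of_coprime hcop.symm
    have h1 : Commute y ((x ^ j) ^ m) := (show Commute y (x ^ j) from h).pow_right m
    rw [hm] at h1
    exact h1
  · intro h
    exact (show Commute y x from h).pow_right j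

theorem main {G : Type*} [Group G] [Finite G] [hs : IsSimpleGroup G] (p q a b g₀ : ℕ) (hp : p.Prime) (hq : q.Prime)
    (hpq : p ≠ q) (ha : 0 < a) (hg : Nat.card G = p ^ a * q ^ b * g₀) (hcop : ¬ p ∣ g₀) (hcoq : ¬ q ∣ g₀)
    (hne : Nat.card G ≠ p) : p < 6 ^ (g₀ - 1) := by
  classical
  have := Fintype.ofFinite G
  have hpf : Fact p.Prime := ⟨hp⟩
  by_contra hcon
  push Not at hcon
  have hcard0 : Nat.card G ≠ 0 := Nat.card_pos.ne'
  have hg0 : 0 < g₀ := Nat.pos_of_ne_zero (by rintro rfl; rw [mul_zero] at hg; exact hcard0 hg)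
  have hpG : p ∣ Nat.card G := by
    rw [hg]; exact Dvd.dvd.mul_right (Dvd.dvd.mul_right (dvd_pow_self p ha.ne') _) _
  have hna : ¬ ∀ x y : G, x * y = y * x := by
    intro hc
    obtain ⟨x, hx⟩ := exists_prime_orderOf_dvd_card' p hpG
    have hN : (Subgroup.zpowers x).Normal := ⟨fun n hn g => by
      rw [hc g n, mul_assoc, mul_inv_cancel, mul_one]; exact hn⟩
    rcases hs.eq_bot_or_eq_top_of_normal _ hN with h | h
    · rw [Subgroup.zpowers_eq_bot] at h
      rw [h, orderOf_one] at hx
      exact hp.one_lt.ne hx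
    · apply hne
      rw [← hx, ← Nat.card_zpowers, h, Subgroup.card_top]
  have hZ : Subgroup.center G = ⊥ := by
    rcases hs.eq_bot_or_eq_top_of_normal _ (inferInstance : (Subgroup.center G).Normal) with h | h
    · exact h
    · exfalso
      apply hna
      intro x y
      have hx : x ∈ Subgroup.center G := by rw [h]; trivial
      exact (Subgroup.mem_center_iff.mp hx y).symm
  -- the central element
  obtain ⟨P⟩ : Nonempty (Sylow p G) := inferInstance
  obtain ⟨x, hx, hxP⟩ : ∃ x : G, orderOf x = p ∧ ∀ y ∈ (P : Subgroup G), y * x = x * y := by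
    have hPb : (P : Subgroup G) ≠ ⊥ := P.ne_bot_of_dvd_card hpG
    have hPn : Nontrivial (P : Subgroup G) := (Subgroup.nontrivial_iff_ne_bot _).mpr hPb
    have hcn : Nontrivial (Subgroup.center (P : Subgroup G)) := IsPGroup.center_nontrivial P.isPGroup'
    have hdvd : p ∣ Nat.card (Subgroup.center (P : Subgroup G)) := by
      rcases (P.isPGroup'.to_subgroup (Subgroup.center (P : Subgroup G))).card_eq_or_dvd with h | h
      · exfalso
        have h2 := Finite.one_lt_card_iff_nontrivial.mpr hcn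
        omega
      · exact h
    obtain ⟨w, hw⟩ := exists_prime_orderOf_dvd_card' p hdvd
    refine ⟨((w : (P : Subgroup G)) : G), by rw [Subgroup.orderOf_coe, Subgroup.orderOf_coe]; exact hw, ?_⟩
    intro y hy
    exact congrArg Subtype.val (Subgroup.mem_center_iff.mp w.2 ⟨y, hy⟩)
  have hx1 : x ≠ 1 := by
    rintro rfl
    rw [orderOf_one] at hx
    exact hp.one_lt.ne hx
  have hPC : (P : Subgroup G) ≤ Subgroup.centralizer ({x} : Set G) := fun y hy => by
    rw [Subgroup.mem_centralizer_singleton_iff]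
    exact hxP y hy
  have hidx : ¬ p ∣ (Subgroup.centralizer ({x} : Set G)).index := fun h =>
    P.not_dvd_index (h.trans (Subgroup.index_dvd_of_le hPC))
  obtain ⟨c, g', hqg', hcg'⟩ := Nat.exists_eq_pow_mul_and_not_dvd
    (Subgroup.index_ne_zero_of_finite (H := Subgroup.centralizer ({x} : Set G))) q hq.ne_one
  have hg'd : g' ∣ g₀ := by
    have h1 : g' ∣ p ^ a * q ^ b * g₀ := by
      rw [← hg]
      exact (Dvd.intro_left _ hcg'.symm).trans (Subgroup.index_dvd_card _)
    have h2 : g'.Coprime (p ^ a * q ^ b) := by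
      apply Nat.Coprime.mul_right
      · apply Nat.Coprime.pow_right
        rw [Nat.coprime_comm, Nat.Prime.coprime_iff_not_dvd hp]
        intro h
        apply hidx
        rw [hcg']
        exact h.mul_left _
      · apply Nat.Coprime.pow_right
        rw [Nat.coprime_comm, Nat.Prime.coprime_iff_not_dvd hq]
        exact hqg'
    exact h2.dvd_of_dvd_mul_left h1
  have hg'0 : 0 < g' := Nat.pos_of_dvd_of_pos hg'd hg0
  obtain ⟨M, hM⟩ := Cfsg.Agent.H10.BlockKn.exists_modular hp
  obtain ⟨χ, hχB, hχ1, hχq⟩ := exists_chi hM hq (x := x) ⟨1, by rw [pow_one]; exact hx⟩ hx1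
  obtain ⟨n, ρ, hρ, hρχ⟩ := id χ.2
  have hn : (χ : G → ℂ) 1 = n := by
    rw [← hρχ, Representation.char_one]; simp
  have hn0 : n ≠ 0 := by
    rintro rfl
    exact IsIrr.one_ne_zero χ.2 (by rw [hn]; simp)
  have hf : Function.Injective ρ := by
    rcases hs.eq_bot_or_eq_top_of_normal _ (MonoidHom.normal_ker ρ) with h | h
    · exact (MonoidHom.ker_eq_bot_iff ρ).mp h
    · exfalso
      have h1 : ∀ g : G, (χ : G → ℂ) g = (χ : G → ℂ) 1 := by
        intro g
        have h2 : g ∈ MonoidHom.ker ρ := by rw [h]; trivial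
        rw [MonoidHom.mem_ker] at h2
        have h3 : ρ.character g = ρ.character 1 := by
          show LinearMap.trace ℂ _ (ρ g) = LinearMap.trace ℂ _ (ρ 1)
          rw [h2, map_one ρ]
        rw [← hρχ]
        exact h3
      have h2 := Extraspecial.one_of_commutator χ.2 (fun z _ => h1 z)
      apply hχ1
      funext g
      rw [h1 g, h2]
  obtain ⟨bb, z, hb, hz, hc⟩ := exists_eigenbasis_rep ρ x p hp.ne_zero (by rw [← hx, pow_orderOf_eq_one])
  have hchar : ∀ j : ℕ, (χ : G → ℂ) (x ^ j) = ∑ l, z l ^ j := by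
    intro j
    have h1 := hc (j : ℤ)
    rw [← hρχ]
    simpa using h1
  have hβ : ∀ j : ℕ, IsIntegral ℤ ((g' : ℂ) * (∑ l, z l ^ j) / n) ∧
      MemLocalIdeal M ((g' : ℂ) * (∑ l, z l ^ j) / n - g') := by
    intro j
    rw [← hchar j]
    by_cases hj : p ∣ j
    · have h1 : x ^ j = 1 := by
        rw [← hx] at hj
        exact orderOf_dvd_iff_pow_eq_one.mp hj
      have hn' : (n : ℂ) ≠ 0 := by exact_mod_cast hn0
      rw [h1, hn, mul_div_assoc, div_self hn', mul_one, sub_self]
      have := hM.2.1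
      exact ⟨isIntegral_algebraMap (R := ℤ) (x := (g' : ℤ)), ideal_zero⟩
    · exact beta hM hq hpq hχB hn hn0 (hχq n hn) (y := x ^ j) (c := c) (g' := g') (by rw [cent_pow hp hx hj]; exact hcg')
  have hcount : ∀ ξ ∈ Finset.univ.image z, n ∣ g' * (Finset.univ.filter fun l => z l = ξ).card := by
    intro ξ hξ
    obtain ⟨l, _, rfl⟩ := Finset.mem_image.mp hξ
    exact count hM hn0 z hz hβ (hz l)
  have hle := card_image_le' (Nat.pos_of_ne_zero hn0) (by rw [Fintype.card_fin]; simp) z hcount hg'0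
  have hle2 : (Finset.univ.image z).card - 1 ≤ g₀ - 1 := by
    have := Nat.le_of_dvd hg0 hg'd
    omega
  refine core hZ ρ hρ hf hp hx bb z (fun k i => by simpa using hb (k : ℤ) i) hz ?_
  have h6 : 6 ^ ((Finset.univ.image z).card - 1) ≤ p := (Nat.pow_le_pow_right (by norm_num) hle2).trans hcon
  exact lt_of_le_of_ne h6 (six_pow_ne hp)

end Cfsg.Agent.H3.BrB
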