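import Mathlib
import Cfsg.Prelude.Def_Characters
import Cfsg.Agent.H3_Isom
import Cfsg.Agent.H3_CharTI
import Cfsg.Agent.H3_CharMult
import Cfsg.Agent.S0161

/-!
# Odd CN-groups: induced differences from a Frobenius TI subgroup
-/

set_option autoImplicit false

open scoped ComplexConjugate

namespace Cfsg.Agent.H3.CNc

open Cfsg Cfsg.Agent.H3.CharBasic Cfsg.Agent.H3.CharIrr Cfsg.Agent.H3.CharComplete Cfsg.Agent.H3.CharInd
  Cfsg.Agent.H3.CharMult

/-- `H` is a TI subgroup with Frobenius normalizer `M` -/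
structure FT {G : Type*} [Group G] (H M : Subgroup G) : Prop where
  le : H ≤ M
  norm : ∀ m ∈ M, ∀ h ∈ H, m * h * m⁻¹ ∈ H
  ti : ∀ g, g ∉ M → ∀ h ∈ H, g * h * g⁻¹ ∈ H → h = 1
  frob : ∀ m ∈ M, m ∉ H → ∀ h ∈ H, m * h * m⁻¹ = h → h = 1

section Single

variable {G : Type*} [Group G] {H M : Subgroup G} (D : FT H M)

/-- conjugation by an element of the normalizer -/
def cH (m : M) : H →* H where
  toFun x := ⟨m * x * (m : G)⁻¹, D.norm m m.2 x x.2⟩
  map_one' := Subtype.ext (by simp)
  map_mul' a b := Subtype.ext (by simp)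

theorem cH_apply (m : M) (x : H) : (cH D m x : G) = m * x * (m : G)⁻¹ := rfl

theorem cH_mul (m n : M) (x : H) : cH D (m * n) x = cH D m (cH D n x) := by
  apply Subtype.ext
  simp only [cH_apply]
  push_cast
  group

theorem cH_one (x : H) : cH D 1 x = x := by
  apply Subtype.ext
  simp only [cH_apply]
  push_cast
  group

/-- linear characters conjugate under `M` -/
def Rel (l k : H →* ℂˣ) : Prop := ∃ m : M, k.comp (cH D m) = l

theorem Rel.refl (l : H →* ℂˣ) : Rel D l l := ⟨1, by
  apply MonoidHom.ext; intro x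
  rw [MonoidHom.comp_apply, cH_one]⟩

theorem Rel.symm {l k : H →* ℂˣ} (h : Rel D l k) : Rel D k l := by
  obtain ⟨m, rfl⟩ := h
  refine ⟨m⁻¹, ?_⟩
  apply MonoidHom.ext; intro x
  rw [MonoidHom.comp_apply, MonoidHom.comp_apply, ← cH_mul, mul_inv_cancel, cH_one]

theorem Rel.trans {l k j : H →* ℂˣ} (h : Rel D l k) (h' : Rel D k j) : Rel D l j := by
  obtain ⟨m, rfl⟩ := h
  obtain ⟨n, rfl⟩ := h'
  refine ⟨n * m, ?_⟩
  apply MonoidHom.ext; intro x
  rw [MonoidHom.comp_apply, MonoidHom.comp_apply, MonoidHom.comp_apply, ← cH_mul]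

theorem Rel.ne_one {l k : H →* ℂˣ} (h : Rel D l k) (hl : l ≠ 1) : k ≠ 1 := by
  rintro rfl
  obtain ⟨m, rfl⟩ := h
  exact hl (by apply MonoidHom.ext; intro x; rfl)

/-- the stabilizer of a nonprincipal linear character is `H` -/
theorem stab [Finite H] {l : H →* ℂˣ} (hl : l ≠ 1) {m : M} (hm : l.comp (cH D m) = l) : (m : G) ∈ H := by
  by_contra hmH
  apply hl
  have hinj : Function.Injective (fun x : H => cH D m x * x⁻¹) := by
    intro x y hxy
    have h1 : (m : G) * x * (m : G)⁻¹ * (x : G)⁻¹ = m * y * (m : G)⁻¹ * (y : G)⁻¹ := congrArg (fun z : H => (z : G)) hxy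
    have h2 : (m : G) * ((y : G)⁻¹ * x) * (m : G)⁻¹ = (y : G)⁻¹ * x := by
      have h3 : (m : G) * ((y : G)⁻¹ * x) * (m : G)⁻¹ = ((m : G) * y * (m : G)⁻¹)⁻¹ * ((m : G) * x * (m : G)⁻¹ * (x : G)⁻¹) * x := by group
      rw [h3, h1]; group
    have h3 := D.frob m m.2 hmH ((y : G)⁻¹ * x) (H.mul_mem (H.inv_mem y.2) x.2) h2
    exact Subtype.ext (inv_mul_eq_one.mp h3).symm
  have hsurj := Finite.surjective_of_injective hinj
  apply MonoidHom.ext
  intro y
  obtain ⟨x, rfl⟩ := hsurj y
  show l (cH D m x * x⁻¹) = 1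
  rw [map_mul, map_inv]
  have := DFunLike.congr_fun hm x
  rw [MonoidHom.comp_apply] at this
  rw [this, mul_inv_cancel]

theorem stab_of_mem (l : H →* ℂˣ) {m : M} (hm : (m : G) ∈ H) : l.comp (cH D m) = l := by
  apply MonoidHom.ext
  intro x
  rw [MonoidHom.comp_apply]
  have h1 : cH D m x = ⟨m, hm⟩ * x * (⟨m, hm⟩ : H)⁻¹ := rfl
  rw [h1, map_mul, map_mul, map_inv]
  rw [mul_comm (l ⟨m, hm⟩), mul_assoc, mul_inv_cancel, mul_one]

/-- the number of elements of `M` carrying one linear character to another -/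
theorem count_rel [Fintype M] [Finite H] {l k : H →* ℂˣ} (hk : k ≠ 1) [DecidablePred fun m : M => k.comp (cH D m) = l]
    [Decidable (Rel D l k)] :
    (Finset.univ.filter (fun m : M => k.comp (cH D m) = l)).card = if Rel D l k then Nat.card H else 0 := by
  have : Fintype H := Fintype.ofFinite _
  split_ifs with h
  · obtain ⟨m0, hm0⟩ := h
    rw [Nat.card_eq_fintype_card, ← Finset.card_univ]
    symm
    refine Finset.card_bij (fun x _ => (⟨x, D.le x.2⟩ : M) * m0) ?_ ?_ ?_
    · intro x _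
      rw [Finset.mem_filter]
      refine ⟨Finset.mem_univ _, ?_⟩
      rw [← hm0]
      apply MonoidHom.ext
      intro y
      rw [MonoidHom.comp_apply, MonoidHom.comp_apply, cH_mul]
      exact DFunLike.congr_fun (stab_of_mem D k (m := ⟨x, D.le x.2⟩) x.2) _
    · intro x _ y _ hxy
      have := mul_right_cancel hxy
      exact Subtype.ext (congrArg (fun z : M => (z : G)) this)
    · intro m hm
      rw [Finset.mem_filter] at hm
      have h1 : ((m * m0⁻¹ : M) : G) ∈ H := by
        apply stab D hk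
        apply MonoidHom.ext
        intro y
        have h2 : k.comp (cH D m) = k.comp (cH D m0) := hm.2.trans hm0.symm
        have h3 := DFunLike.congr_fun h2 (cH D m0⁻¹ y)
        rw [MonoidHom.comp_apply, MonoidHom.comp_apply, ← cH_mul, ← cH_mul, mul_inv_cancel, cH_one] at h3
        exact h3
      refine ⟨⟨_, h1⟩, Finset.mem_univ _, ?_⟩
      apply Subtype.ext
      push_cast
      group
  · rw [Finset.card_eq_zero, Finset.filter_eq_empty_iff]
    intro m _ hm
    exact h ⟨m, hm⟩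

end Single

section Alpha

variable {G : Type*} [Group G] [Fintype G] {H M : Subgroup G} (D : FT H M)

/-- the induced generalized character `(1 - l)^G` -/
noncomputable def al (H : Subgroup G) (l : H →* ℂˣ) : G → ℂ := indFun H (fun x => 1 - (l x : ℂ))

theorem one_sub_gen (l : H →* ℂˣ) : IsGeneralizedCharacter H (fun x => 1 - (l x : ℂ)) :=
  ⟨_, _, IsIrr.isCharacter isIrr_one, IsIrr.isCharacter (isIrr_of_hom_units l), rfl⟩

theorem al_gen (l : H →* ℂˣ) : IsGeneralizedCharacter G (al H l) := IsGen.ind (one_sub_gen l)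

theorem al_class (l : H →* ℂˣ) : IsClassFunction G (al H l) := ind_isClass H _

theorem al_at_one (l : H →* ℂˣ) : al H l 1 = 0 := by
  rw [al, ind_one]; simp

include D in
theorem al_res [Fintype M] (l : H →* ℂˣ) (x : H) :
    al H l x = (Nat.card H : ℂ)⁻¹ * ∑ m : M, (1 - (l (cH D m x) : ℂ)) := by
  classical
  rw [al, indFun]
  congr 1
  rw [← Equiv.sum_comp (Equiv.inv G)]
  simp only [Equiv.inv_apply, inv_inv]
  have h1 : ∀ g : G, g ∉ M → extendByZero H (fun x => 1 - (l x : ℂ)) (g * x * g⁻¹) = 0 := by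
    intro g hg
    by_cases hmem : g * x * g⁻¹ ∈ H
    · have h2 := D.ti g hg x x.2 hmem
      have h3 : g * (x : G) * g⁻¹ = 1 := by rw [h2]; group
      rw [h3, ext_mem H _ H.one_mem]
      have h4 : (⟨1, H.one_mem⟩ : H) = 1 := rfl
      rw [h4, map_one]; simp
    · exact ext_not_mem H _ hmem
  rw [← Finset.sum_subset (Finset.subset_univ (Finset.univ.filter (· ∈ M)))]
  · rw [Finset.sum_subtype (p := (· ∈ M)) (Finset.univ.filter (· ∈ M)) (by simp)]
    refine Finset.sum_congr rfl fun m _ => ?_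
    rw [ext_mem H _ (D.norm m m.2 x x.2)]
    rfl
  · intro g _ hg
    exact h1 g (fun h => hg (by simp [h]))

theorem ci_one_sub [Fintype H] {l k : H →* ℂˣ} [Decidable (l = k)] (hl : l ≠ 1) (hk : k ≠ 1) :
    classInner (fun x : H => 1 - (l x : ℂ)) (fun x : H => 1 - (k x : ℂ)) = 1 + if l = k then 1 else 0 := by
  classical
  have h1 : (fun x : H => 1 - (l x : ℂ)) = (fun _ => 1) - fun x => (l x : ℂ) := rfl
  have h2 : (fun x : H => 1 - (k x : ℂ)) = (fun _ => 1) - fun x => (k x : ℂ) := rfl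
  have hne : ∀ {j : H →* ℂˣ}, j ≠ 1 → (fun _ : H => (1 : ℂ)) ≠ fun x => (j x : ℂ) := by
    intro j hj h
    apply hj
    apply MonoidHom.ext
    intro x
    apply Units.ext
    have := congrFun h x
    rw [← this]; rfl
  rw [h1, h2, ci_sub_left, ci_sub_right, ci_sub_right, ci_irr_self isIrr_one,
    ci_irr_ne isIrr_one (isIrr_of_hom_units k) (hne hk), ci_irr_ne (isIrr_of_hom_units l) isIrr_one (hne hl).symm]
  by_cases h : l = k
  · subst h
    rw [if_pos rfl, ci_irr_self (isIrr_of_hom_units l)]; ring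
  · rw [if_neg h, ci_irr_ne (isIrr_of_hom_units l) (isIrr_of_hom_units k)]
    · ring
    · intro h3
      apply h
      apply MonoidHom.ext
      intro x
      exact Units.ext (congrFun h3 x)

/-- the Gram matrix -/
theorem gram [Fintype M] {e : ℕ} (he : Nat.card M = e * Nat.card H) {l k : H →* ℂˣ} [Decidable (Rel D l k)] (hl : l ≠ 1) (hk : k ≠ 1) :
    classInner (al H l) (al H k) = e + if Rel D l k then 1 else 0 := by
  classical
  have : Fintype H := Fintype.ofFinite _
  rw [al, frobenius H _ _ (al_class k)]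
  have hH : (Nat.card H : ℂ) ≠ 0 := cardH_ne_zero H
  have h1 : (fun x : H => al H k x) = (Nat.card H : ℂ)⁻¹ • ∑ m : M, (fun x : H => 1 - ((k.comp (cH D m)) x : ℂ)) := by
    funext x
    rw [al_res D, Pi.smul_apply, Finset.sum_apply, smul_eq_mul]
    rfl
  have hk' : ∀ m : M, k.comp (cH D m) ≠ 1 := fun m => Rel.ne_one D (Rel.symm D ⟨m, rfl⟩) hk
  rw [h1, ci_smul_right, ci_sum_right, Finset.sum_congr rfl fun m _ => ci_one_sub hl (hk' m), Finset.sum_add_distrib]
  have h2 : ∑ m : M, (if l = k.comp (cH D m) then (1 : ℂ) else 0) = if Rel D l k then (Nat.card H : ℂ) else 0 := by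
    rw [← Finset.sum_filter, Finset.sum_const, nsmul_eq_mul, mul_one]
    have h3 := count_rel D (l := l) hk
    have h4 : (Finset.univ.filter (fun m : M => l = k.comp (cH D m))) = Finset.univ.filter (fun m : M => k.comp (cH D m) = l) := by
      ext m; simp [eq_comm]
    rw [h4]
    split_ifs at h3 ⊢ with h5
    · rw [h3]
    · rw [h3, Nat.cast_zero]
  rw [h2, Finset.sum_const, Finset.card_univ, ← Nat.card_eq_fintype_card, he, nsmul_eq_mul, mul_one]
  push_cast
  rw [map_inv₀, map_natCast]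
  split_ifs
  · field_simp
  · rw [add_zero, add_zero]; field_simp

theorem ci_al_one (l : H →* ℂˣ) (hl : l ≠ 1) : classInner (al H l) (fun _ => 1) = 1 := by
  classical
  have : Fintype H := Fintype.ofFinite _
  rw [al, frobenius H _ _ (fun _ _ => rfl)]
  have h1 : (fun x : H => 1 - (l x : ℂ)) = (fun _ => 1) - fun x => (l x : ℂ) := rfl
  rw [h1, ci_sub_left, ci_irr_self isIrr_one, ci_irr_ne (isIrr_of_hom_units l) isIrr_one, sub_zero]
  intro h
  apply hl
  apply MonoidHom.ext
  intro x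
  exact Units.ext (congrFun h x)

theorem al_conj (l : H →* ℂˣ) : (fun g => conj (al H l g)) = al H l⁻¹ := by
  classical
  have : Fintype H := Fintype.ofFinite _
  funext g
  rw [al, al, indFun, indFun, map_mul, map_inv₀, map_natCast, map_sum]
  congr 1
  refine Finset.sum_congr rfl fun x _ => ?_
  by_cases hx : x⁻¹ * g * x ∈ H
  · rw [ext_mem H _ hx, ext_mem H _ hx, map_sub, map_one, MonoidHom.inv_apply]
    congr 1
    have h1 : ‖((l ⟨x⁻¹ * g * x, hx⟩ : ℂˣ) : ℂ)‖ = 1 := by
      apply norm_eq_one_of_pow (n := Nat.card H) Nat.card_pos.ne'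
      rw [← Units.val_pow_eq_pow_val, ← map_pow, pow_card_eq_one', map_one, Units.val_one]
    rw [Units.val_inv_eq_inv_val, Complex.inv_def, Complex.normSq_eq_norm_sq, h1]
    simp
  · rw [ext_not_mem H _ hx, ext_not_mem H _ hx, map_zero]

end Alpha

end Cfsg.Agent.H3.CNc
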