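import Mathlib
import Cfsg.Agent.H3_CNa

/-!
# Odd CN-groups: exceptional characters attached to linear characters
-/

set_option autoImplicit false

open scoped ComplexConjugate

namespace Cfsg.Agent.H3.CNc

open Cfsg Cfsg.Agent.H3.CharBasic Cfsg.Agent.H3.CharIrr Cfsg.Agent.H3.CharComplete Cfsg.Agent.H3.CharInd
  Cfsg.Agent.H3.CharMult

section Exc

variable {G : Type*} [Group G] [Fintype G] {H M : Subgroup G} (D : FT H M)

/-- the equivalence relation on linear characters -/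
def relSetoid : Setoid (H →* ℂˣ) where
  r l k := Rel D l k
  iseqv := ⟨Rel.refl D, Rel.symm D, Rel.trans D⟩

theorem exists_rep : ∃ rep : (H →* ℂˣ) → (H →* ℂˣ), (∀ l, Rel D (rep l) l) ∧ ∀ l k, rep l = rep k ↔ Rel D l k := by
  refine ⟨fun l => (Quotient.mk (relSetoid D) l).out, fun l => ?_, fun l k => ?_⟩
  · exact Quotient.mk_out (s := relSetoid D) l
  · show (Quotient.mk (relSetoid D) l).out = (Quotient.mk (relSetoid D) k).out ↔ _
    constructor
    · intro h
      have h1 : Rel D (Quotient.mk (relSetoid D) l).out l := Quotient.mk_out (s := relSetoid D) l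
      have h2 : Rel D (Quotient.mk (relSetoid D) k).out k := Quotient.mk_out (s := relSetoid D) k
      exact Rel.trans D (Rel.symm D h1) (by rw [h]; exact h2)
    · intro h
      have : Quotient.mk (relSetoid D) l = Quotient.mk (relSetoid D) k := Quotient.sound h
      rw [this]

include D in
theorem al_eq_of_rel {e : ℕ} (he : Nat.card M = e * Nat.card H) {l k : H →* ℂˣ} (hl : l ≠ 1) (hk : k ≠ 1) (h : Rel D l k) :
    al H l = al H k := by
  classical
  have : Fintype M := Fintype.ofFinite _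
  rw [← sub_eq_zero]
  apply ci_self_eq_zero
  rw [ci_sub_left, ci_sub_right, ci_sub_right, gram D he hl hl, gram D he hl hk, gram D he hk hl, gram D he hk hk,
    if_pos (Rel.refl D l), if_pos h, if_pos (Rel.symm D h), if_pos (Rel.refl D k)]
  ring

include D in
/-- equal degree coherence -/
theorem exc {e : ℕ} (he : Nat.card M = e * Nat.card H) (hex : ∃ l : H →* ℂˣ, l ≠ 1) :
    ∃ (ε : ℤ) (f : (H →* ℂˣ) → G → ℂ), (ε = 1 ∨ ε = -1) ∧ (∀ l, l ≠ 1 → IsIrrCharacter G (f l)) ∧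
      (∀ l k, l ≠ 1 → k ≠ 1 → (f l = f k ↔ Rel D l k)) ∧
      ∀ l k, l ≠ 1 → k ≠ 1 → al H l - al H k = (ε : ℂ) • (f k - f l) := by
  classical
  have : Fintype M := Fintype.ofFinite _
  obtain ⟨rep, hrep, hrep'⟩ := exists_rep D
  obtain ⟨l0, hl0⟩ := hex
  have hrr : ∀ l, rep (rep l) = rep l := fun l => (hrep' _ _).mpr (hrep l)
  have hr1 : ∀ l, l ≠ 1 → rep l ≠ 1 := fun l hl => Rel.ne_one D (Rel.symm D (hrep l)) hl
  let ι := {l : H →* ℂˣ // l ≠ 1 ∧ rep l = l}
  let i₀ : ι := ⟨rep l0, hr1 l0 hl0, hrr l0⟩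
  have hnr : ∀ i j : ι, i ≠ j → ¬ Rel D i.1 j.1 := by
    intro i j hij h
    apply hij
    apply Subtype.ext
    rw [← i.2.2, ← j.2.2]
    exact (hrep' _ _).mpr h
  have hg : ∀ i j : ι, classInner (al H i.1) (al H j.1) = e + if i = j then 1 else 0 := by
    intro i j
    rw [gram D he i.2.1 j.2.1]
    by_cases h : i = j
    · rw [if_pos h, if_pos (by rw [h]; exact Rel.refl D _)]
    · rw [if_neg h, if_neg (hnr i j h)]
  obtain ⟨ε, hε, μ, hμ, hinj, hτ⟩ := Isom.isometry_lemma i₀ (fun i : ι => al H i₀.1 - al H i.1) (sub_self _)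
    (fun i => IsGen.sub (al_gen _) (al_gen _)) (fun i => by simp [al_at_one])
    (by
      intro i hi
      rw [ci_sub_left, ci_sub_right, ci_sub_right, hg, hg, hg, hg, if_pos rfl, if_neg (Ne.symm hi), if_neg hi, if_pos rfl]
      ring)
    (by
      intro i j hi hj hij
      rw [ci_sub_left, ci_sub_right, ci_sub_right, hg, hg, hg, hg, if_pos rfl, if_neg (Ne.symm hj), if_neg hi, if_neg hij]
      ring)
  obtain ⟨ε', hε', hε''⟩ : ∃ ε' : ℤ, (ε' = 1 ∨ ε' = -1) ∧ ε = (ε' : ℂ) := by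
    rcases hε with h | h
    · exact ⟨1, Or.inl rfl, by rw [h]; simp⟩
    · exact ⟨-1, Or.inr rfl, by rw [h]; simp⟩
  let f : (H →* ℂˣ) → G → ℂ := fun l => if h : l ≠ 1 then μ ⟨rep l, hr1 l h, hrr l⟩ else fun _ => 1
  have hf : ∀ l (h : l ≠ 1), f l = μ ⟨rep l, hr1 l h, hrr l⟩ := fun l h => dif_pos h
  refine ⟨ε', f, hε', ?_, ?_, ?_⟩
  · intro l hl
    rw [hf l hl]; exact hμ _
  · intro l k hl hk
    rw [hf l hl, hf k hk, hinj.eq_iff, Subtype.mk.injEq, hrep']
  · intro l k hl hk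
    have h1 := hτ ⟨rep l, hr1 l hl, hrr l⟩
    have h2 := hτ ⟨rep k, hr1 k hk, hrr k⟩
    dsimp only at h1 h2
    rw [hf l hl, hf k hk, ← al_eq_of_rel D he (hr1 l hl) hl (hrep l), ← al_eq_of_rel D he (hr1 k hk) hk (hrep k), ← hε'']
    have h3 : al H (rep l) - al H (rep k) = (al H i₀.1 - al H (rep k)) - (al H i₀.1 - al H (rep l)) := by abel
    rw [h3, h1, h2, ← smul_sub]
    congr 1
    abel

/-- the data of the exceptional characters -/
structure ED (D : FT H M) (e : ℕ) (ε : ℤ) (f : (H →* ℂˣ) → G → ℂ) : Prop where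
  he : Nat.card M = e * Nat.card H
  hε : ε = 1 ∨ ε = -1
  irr : ∀ l, l ≠ 1 → IsIrrCharacter G (f l)
  inj : ∀ l k, l ≠ 1 → k ≠ 1 → (f l = f k ↔ Rel D l k)
  diff : ∀ l k, l ≠ 1 → k ≠ 1 → al H l - al H k = (ε : ℂ) • (f k - f l)
  two : ∀ l : H →* ℂˣ, l ≠ 1 → ∃ k, k ≠ 1 ∧ ¬ Rel D l k

variable {D} {e : ℕ} {ε : ℤ} {f : (H →* ℂˣ) → G → ℂ} (E : ED D e ε f)

include E in
theorem ε_sq : (ε : ℂ) * ε = 1 := by
  rcases E.hε with h | h <;> rw [h] <;> norm_num

include E in
theorem f_eq_iff_ci {l k : H →* ℂˣ} (hl : l ≠ 1) (hk : k ≠ 1) [Decidable (Rel D l k)] :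
    classInner (f l) (f k) = if Rel D l k then 1 else 0 := by
  classical
  rw [ci_irr (E.irr l hl) (E.irr k hk)]
  by_cases h : Rel D l k
  · rw [if_pos h, if_pos ((E.inj l k hl hk).mpr h)]
  · rw [if_neg h, if_neg (fun h' => h ((E.inj l k hl hk).mp h'))]

include E in
/-- inner products with characters outside the family do not depend on the linear character -/
theorem const_out {χ : G → ℂ} (hχ : IsIrrCharacter G χ) (hout : ∀ l, l ≠ 1 → χ ≠ f l) {l k : H →* ℂˣ} (hl : l ≠ 1) (hk : k ≠ 1) :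
    classInner (al H l) χ = classInner (al H k) χ := by
  have h := E.diff l k hl hk
  rw [← sub_eq_zero, ← ci_sub_left, h, ci_smul_left, ci_sub_left,
    ci_irr_ne (E.irr k hk) hχ (fun h => hout k hk h.symm), ci_irr_ne (E.irr l hl) hχ (fun h => hout l hl h.symm)]
  ring

include E in
theorem one_out {l : H →* ℂˣ} (hl : l ≠ 1) : (fun _ => (1 : ℂ)) ≠ f l := by
  intro h
  obtain ⟨k, hk, hlk⟩ := E.two l hl
  have h1 := E.diff l k hl hk
  have h2 : classInner (al H l - al H k) (fun _ => 1) = 0 := by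
    rw [ci_sub_left, ci_al_one l hl, ci_al_one k hk, sub_self]
  rw [h1, ci_smul_left, ci_sub_left, ← h, ci_irr_self isIrr_one, ci_irr_ne (E.irr k hk) isIrr_one] at h2
  · rcases E.hε with h | h <;> rw [h] at h2 <;> norm_num at h2
  · intro h3
    exact hlk ((E.inj l k hl hk).mp (h.symm.trans h3.symm))

include E in
/-- inner products with the family -/
theorem exists_a (hex : ∃ l : H →* ℂˣ, l ≠ 1) : ∃ a : ℤ, ∀ (l k : H →* ℂˣ) [Decidable (Rel D l k)], l ≠ 1 → k ≠ 1 →
    (ε : ℂ) * classInner (al H l) (f k) = a - if Rel D l k then 1 else 0 := by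
  classical
  have : Fintype M := Fintype.ofFinite _
  obtain ⟨l0, hl0⟩ := hex
  obtain ⟨n0, hn0⟩ : ∃ n : ℤ, classInner (al H l0) (f l0) = n := ci_gen_int (al_gen l0) (IsGen.of_irr (E.irr l0 hl0))
  refine ⟨ε * n0 + 1, ?_⟩
  intro l k _ hl hk
  -- vary the first argument
  have r2 : ∀ l l' k : H →* ℂˣ, l ≠ 1 → l' ≠ 1 → k ≠ 1 → (ε : ℂ) * classInner (al H l) (f k) + (if Rel D l k then 1 else 0) =
      (ε : ℂ) * classInner (al H l') (f k) + if Rel D l' k then 1 else 0 := by
    intro l l' k hl hl' hk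
    have h1 : classInner (al H l) (f k) - classInner (al H l') (f k) = (ε : ℂ) * ((if Rel D l' k then 1 else 0) - if Rel D l k then 1 else 0) := by
      rw [← ci_sub_left, E.diff l l' hl hl', ci_smul_left, ci_sub_left, f_eq_iff_ci E hl' hk, f_eq_iff_ci E hl hk]
    have h2 := ε_sq E
    linear_combination (ε : ℂ) * h1 + ((if Rel D l' k then 1 else 0) - if Rel D l k then 1 else 0) * h2
  have r1 : ∀ l k k' : H →* ℂˣ, l ≠ 1 → k ≠ 1 → k' ≠ 1 → (ε : ℂ) * classInner (al H l) (f k) + (if Rel D l k then 1 else 0) =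
      (ε : ℂ) * classInner (al H l) (f k') + if Rel D l k' then 1 else 0 := by
    intro l k k' hl hk hk'
    have h1 : (ε : ℂ) * (classInner (al H l) (f k') - classInner (al H l) (f k)) = (if Rel D l k then 1 else 0) - if Rel D l k' then 1 else 0 := by
      have h2 : classInner (al H l) (al H k - al H k') = (if Rel D l k then 1 else 0) - if Rel D l k' then 1 else 0 := by
        rw [ci_sub_right, gram D E.he hl hk, gram D E.he hl hk']; ring
      rw [E.diff k k' hk hk', ci_smul_right, ci_sub_right] at h2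
      have h3 : conj (ε : ℂ) = ε := map_intCast _ _
      rw [h3] at h2
      exact h2
    linear_combination -h1
  have h1 := r2 l l0 k hl hl0 hk
  have h2 := r1 l0 k l0 hl0 hk hl0
  rw [if_pos (Rel.refl D l0), hn0] at h2
  have h3 := h1.trans h2
  push_cast
  have h4 : (if Rel D l k then (1 : ℂ) else 0) = if Rel D l k then (1 : ℂ) else 0 := rfl
  rw [eq_sub_iff_add_eq]
  convert h3

end Exc

end Cfsg.Agent.H3.CNc
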