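import Mathlib
import Cfsg.Agent.H3_FS2

/-!
# The Frobenius-Schur indicator and real representations
-/

set_option autoImplicit false

open scoped ComplexConjugate Matrix

namespace Cfsg.Agent.H3.FS

open Cfsg Cfsg.Agent.H3.CharBasic Cfsg.Agent.H3.CharIrr Cfsg.Agent.H3.CharComplete
  Cfsg.Agent.H3.CharInd

theorem exists_cpx {G : Type*} [Group G] {m : ℕ} (σ : Representation ℝ G (Fin m → ℝ)) :
    ∃ ρ : Representation ℂ G (Fin m → ℂ), ∀ g, mat ρ g = (LinearMap.toMatrix' (σ g)).map (Complex.ofRealHom : ℝ →+* ℂ) := by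
  refine ⟨{ toFun := fun g => Matrix.toLin' ((LinearMap.toMatrix' (σ g)).map (Complex.ofRealHom : ℝ →+* ℂ))
            map_one' := by
              rw [map_one, Module.End.one_eq_id, LinearMap.toMatrix'_id, Matrix.map_one _ (map_zero _) (map_one _)]
              exact Matrix.toLin'_one
            map_mul' := fun g h => by
              rw [map_mul, LinearMap.toMatrix'_mul, Matrix.map_mul]
              exact Matrix.toLin'_mul _ _ }, fun g => LinearMap.toMatrix'_toLin' _⟩

theorem real_iff {G : Type*} [Group G] [Fintype G] {χ : G → ℂ} (hχ : IsIrrCharacter G χ) :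
    ((Nat.card G : ℂ)⁻¹ * ∑ s : G, χ (s * s)) = 1 ↔
      ∃ (n : ℕ) (ρ : Representation ℝ G (Fin n → ℝ)), ∀ g : G, ((LinearMap.trace ℝ (Fin n → ℝ) (ρ g) : ℝ) : ℂ) = χ g := by
  classical
  constructor
  · intro h
    obtain ⟨n, ρ, hirr, rfl⟩ := hχ
    have hχ : IsIrrCharacter G ρ.character := ⟨n, ρ, hirr, rfl⟩
    have hreal : ∀ g : G, (ρ.character g).im = 0 := by
      rcases indicator ρ hχ with h1 | ⟨h1, -⟩
      · rw [h1.1] at h
        exact absurd h zero_ne_one
      · intro g
        exact Complex.conj_eq_iff_im.mp (congrFun h1 g).symm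
    obtain ⟨c, B, hc, hB0, hBT, hB, hν, -⟩ := form ρ hχ hreal
    rw [hν] at h
    rw [h, one_smul] at hBT
    obtain ⟨K, hK, hKρ⟩ := exists_conj ρ hirr hB0 hBT hB
    obtain ⟨b, hb⟩ := real_form K hK
    obtain ⟨σ, hσ⟩ := real_rep ρ b K hb hKρ
    exact ⟨_, σ, hσ⟩
  · rintro ⟨m, σ, hσ⟩
    obtain ⟨ρ, hρ⟩ := exists_cpx σ
    have hch : ρ.character = χ := by
      funext g
      rw [← hσ, ← mat_trace, hρ, LinearMap.trace_eq_matrix_trace ℝ (Pi.basisFun ℝ (Fin m)), Matrix.trace, Matrix.trace]
      simp only [Matrix.diag_apply, Matrix.map_apply]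
      push_cast
      rfl
    subst hch
    have hreal : ∀ g : G, (ρ.character g).im = 0 := fun g => by rw [← hσ, Complex.ofReal_im]
    obtain ⟨c, B, hc, hB0, hBT, hB, hν, huniq⟩ := form ρ hχ hreal
    rw [hν]
    let R : G → Matrix (Fin m) (Fin m) ℝ := fun g => LinearMap.toMatrix' (σ g)
    have hRm : ∀ g h, R (g * h) = R g * R h := fun g h => by
      show LinearMap.toMatrix' (σ (g * h)) = _
      rw [map_mul, LinearMap.toMatrix'_mul]
    obtain ⟨S, hS⟩ : ∃ S : Matrix (Fin m) (Fin m) ℝ, S = ∑ h : G, (R h)ᵀ * R h := ⟨_, rfl⟩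
    have hST : Sᵀ = S := by
      rw [hS, Matrix.transpose_sum]
      exact Finset.sum_congr rfl fun h _ => by rw [Matrix.transpose_mul, Matrix.transpose_transpose]
    have hSinv : ∀ g, (R g)ᵀ * S * R g = S := by
      intro g
      rw [hS, Finset.mul_sum, Finset.sum_mul]
      refine Fintype.sum_equiv (Equiv.mulRight g) _ _ fun h => ?_
      rw [Equiv.coe_mulRight, hRm, Matrix.transpose_mul, Matrix.mul_assoc, Matrix.mul_assoc, Matrix.mul_assoc]
    have hm : 0 < m := by
      rcases Nat.eq_zero_or_pos m with h | h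
      · subst h
        exact absurd (Subsingleton.elim B 0) hB0
      · exact h
    have hS0 : S ≠ 0 := by
      intro h0
      have h1 : 0 < Matrix.trace S := by
        rw [hS, Matrix.trace_sum]
        refine Finset.sum_pos' (fun h _ => ?_) ⟨1, Finset.mem_univ _, ?_⟩
        · rw [Matrix.trace]
          refine Finset.sum_nonneg fun i _ => ?_
          rw [Matrix.diag_apply, Matrix.mul_apply]
          exact Finset.sum_nonneg fun j _ => by rw [Matrix.transpose_apply]; exact mul_self_nonneg _
        · have : R 1 = 1 := by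
            show LinearMap.toMatrix' (σ 1) = 1
            rw [map_one, Module.End.one_eq_id, LinearMap.toMatrix'_id]
          rw [this, Matrix.transpose_one, Matrix.one_mul, Matrix.trace_one, Fintype.card_fin]
          exact_mod_cast hm
      rw [h0, Matrix.trace_zero] at h1
      exact lt_irrefl _ h1
    obtain ⟨a, ha⟩ := huniq (S.map (Complex.ofRealHom : ℝ →+* ℂ)) (fun g => by
      rw [hρ, ← Matrix.transpose_map, ← Matrix.map_mul, ← Matrix.map_mul]
      exact congrArg (fun X : Matrix (Fin m) (Fin m) ℝ => X.map (Complex.ofRealHom : ℝ →+* ℂ)) (hSinv g))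
    have hinj : Function.Injective (fun X : Matrix (Fin m) (Fin m) ℝ => X.map (Complex.ofRealHom : ℝ →+* ℂ)) :=
      Matrix.map_injective Complex.ofReal_injective
    have ha0 : a ≠ 0 := by
      rintro rfl
      rw [zero_smul] at ha
      apply hS0
      apply hinj
      show S.map (Complex.ofRealHom : ℝ →+* ℂ) = (0 : Matrix (Fin m) (Fin m) ℝ).map (Complex.ofRealHom : ℝ →+* ℂ)
      rw [ha, Matrix.map_zero _ (map_zero _)]
    have h2 := congrArg Matrix.transpose ha
    rw [Matrix.transpose_smul, hBT, ← Matrix.transpose_map, hST, ha, smul_comm] at h2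
    have h3 : a • B ≠ 0 := smul_ne_zero ha0 hB0
    refine (smul_left_injective ℂ h3 (?_ : (1 : ℂ) • (a • B) = c • (a • B))).symm
    rw [one_smul]
    exact h2

end Cfsg.Agent.H3.FS
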