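import Mathlib
import Cfsg.Prelude.Def_Characters
import Cfsg.Agent.H3_GalP
import Cfsg.Agent.H3_DegLt
import Cfsg.Agent.H3_Monomial
import Cfsg.Agent.H26_Cliff
import Cfsg.Agent.S4456
import Cfsg.Agent.H3_NilpSplit
import Cfsg.Agent.H3_CharCalc

/-!
# Groups with two irreducible character degrees
-/

set_option autoImplicit false

open scoped ComplexConjugate commutatorElement

namespace Cfsg.Agent.H3.TwoDeg

open Cfsg Cfsg.Agent.H3.CharBasic Cfsg.Agent.H3.CharIrr Cfsg.Agent.H3.CharComplete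
  Cfsg.Agent.H3.CharMult Cfsg.Agent.H3.CharInd Cfsg.Agent.H3.CharInt Cfsg.Agent.H3.CharQuot
  Cfsg.Agent.H3.Clifford

section Act

variable {H Λ : Type*} [Group H] [Finite H] [CommGroup Λ] [Finite Λ] [MulDistribMulAction H Λ]

theorem coprime_fix (hcop : (Nat.card H).Coprime (Nat.card Λ)) {g : H} {l c : Λ} (h1 : g • l = c * l)
    (h2 : g • c = c) : c = 1 := by
  have h3 : ∀ n : ℕ, g ^ n • l = c ^ n * l := by
    intro n
    induction n with
    | zero => simp
    | succ n ih =>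
      rw [pow_succ', mul_smul, ih, smul_mul', smul_pow', h2, h1, ← mul_assoc, ← pow_succ]
  have h4 := h3 (Nat.card H)
  rw [pow_card_eq_one', one_smul] at h4
  have h5 : c ^ Nat.card H = 1 := mul_eq_right.mp h4.symm
  have h6 : c ^ Nat.card Λ = 1 := pow_card_eq_one'
  have h7 : orderOf c ∣ Nat.gcd (Nat.card H) (Nat.card Λ) :=
    Nat.dvd_gcd (orderOf_dvd_of_pow_eq_one h5) (orderOf_dvd_of_pow_eq_one h6)
  rw [hcop, Nat.dvd_one] at h7
  exact orderOf_eq_one_iff.mp h7

/-- the kernel of the action on an invariant subgroup -/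
def ker (L : Subgroup Λ) : Subgroup H where
  carrier := {h | ∀ l ∈ L, h • l = l}
  one_mem' := fun l _ => one_smul H l
  mul_mem' {a b} ha hb := fun l hl => by rw [mul_smul, hb l hl, ha l hl]
  inv_mem' {a} ha := fun l hl => by rw [inv_smul_eq_iff, ha l hl]

theorem mem_ker {L : Subgroup Λ} {h : H} : h ∈ ker (H := H) L ↔ ∀ l ∈ L, h • l = l := Iff.rfl

theorem ker_normal {L : Subgroup Λ} (hL : ∀ (h : H), ∀ l ∈ L, h • l ∈ L) : (ker (H := H) L).Normal := by
  constructor
  intro n hn g l hl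
  rw [mul_smul, mul_smul, hn _ (hL g⁻¹ l hl), smul_inv_smul]

variable (hcop : (Nat.card H).Coprime (Nat.card Λ))

include hcop in
/-- the purely group theoretic part -/
theorem act_main (hnil : Group.IsNilpotent H) {m : ℕ} (hm1 : 1 < m)
    (hcdH : ∀ χ : H → ℂ, IsIrrCharacter H χ → χ 1 = 1 ∨ χ 1 = m)
    (hst : ∀ l : Λ, (∀ h : H, h • l = l) ∨ ((MulAction.stabilizer H l).index = m ∧
      ∀ a ∈ MulAction.stabilizer H l, ∀ b ∈ MulAction.stabilizer H l, a * b = b * a))
    (hnt : ∃ (l : Λ) (h : H), h • l ≠ l) :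
    ∃ D : Subgroup H, D.Normal ∧ D.index = m ∧ (∀ a ∈ D, ∀ b ∈ D, a * b = b * a) ∧
      ∀ d ∈ D, ∀ l : Λ, d • l = l := by
  classical
  -- minimal non-centralized invariant subgroup
  obtain ⟨L, ⟨hLinv, l₀, hl₀, h₀, hnf₀⟩, hLmin⟩ : ∃ L : Subgroup Λ,
      ((∀ (h : H), ∀ l ∈ L, h • l ∈ L) ∧ ∃ l ∈ L, ∃ h : H, h • l ≠ l) ∧
      ∀ L' : Subgroup Λ, ((∀ (h : H), ∀ l ∈ L', h • l ∈ L') ∧ ∃ l ∈ L', ∃ h : H, h • l ≠ l) → L' ≤ L → L' = L := by
    have hfin : Set.Finite {L : Subgroup Λ | (∀ (h : H), ∀ l ∈ L, h • l ∈ L) ∧ ∃ l ∈ L, ∃ h : H, h • l ≠ l} :=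
      Set.toFinite _
    obtain ⟨l, h, hl⟩ := hnt
    obtain ⟨L, hL⟩ := hfin.exists_minimal ⟨⊤, fun _ _ _ => Subgroup.mem_top _, l, Subgroup.mem_top _, h, hl⟩
    exact ⟨L, hL.1, fun L' h1 h2 => le_antisymm h2 (hL.2 h1 h2)⟩
  obtain ⟨D, hD⟩ : ∃ D : Subgroup H, D = ker L := ⟨_, rfl⟩
  have hDn : D.Normal := hD ▸ ker_normal hLinv
  have memD : ∀ {h : H}, h ∈ D ↔ ∀ l ∈ L, h • l = l := by
    intro h; rw [hD]; exact mem_ker
  -- (i)
  have hcen : ∀ z : H, (∀ h : H, z⁻¹ * h⁻¹ * z * h ∈ D) → ∀ l ∈ L, (∃ h : H, h • l ≠ l) → z • l = l → z ∈ D := by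
    intro z hz l hl hlnf hzl
    have hL' := hLmin
      { carrier := {l | l ∈ L ∧ z • l = l}
        one_mem' := ⟨one_mem _, smul_one z⟩
        mul_mem' := fun {a b} ha hb => ⟨mul_mem ha.1 hb.1, by rw [smul_mul', ha.2, hb.2]⟩
        inv_mem' := fun {a} ha => ⟨inv_mem ha.1, by rw [smul_inv', ha.2]⟩ }
      ⟨by
        rintro h k ⟨hk1, hk2⟩
        refine ⟨hLinv h k hk1, ?_⟩
        have h1 : z * h = h * z * (z⁻¹ * h⁻¹ * z * h) := by group
        rw [← mul_smul, h1, mul_smul, memD.mp (hz h) k hk1, mul_smul, hk2], l, ⟨hl, hzl⟩, hlnf⟩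
      (fun k hk => hk.1)
    rw [memD]
    intro k hk
    rw [← hL'] at hk
    exact hk.2
  -- (ii)
  have hcomm : ∀ a b : H, a⁻¹ * b⁻¹ * a * b ∈ D := by
    by_contra hcon
    push Not at hcon
    obtain ⟨a₀, b₀, hab⟩ := hcon
    have hna : ¬ ∀ a b : H ⧸ D, a * b = b * a := by
      intro h
      apply hab
      have h1 := h (a₀ : H ⧸ D) (b₀ : H ⧸ D)
      rw [← QuotientGroup.eq_one_iff]
      rw [QuotientGroup.mk_mul, QuotientGroup.mk_mul, QuotientGroup.mk_mul, mul_assoc, h1, QuotientGroup.mk_inv,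
        QuotientGroup.mk_inv]
      group
    have iQ : Fintype (H ⧸ D) := Fintype.ofFinite _
    obtain ⟨χ, hχ, hχ1⟩ := GalP.exists_nonlinear hna
    have hχm : χ 1 = m := (hcdH _ (IsIrr.inflate hχ)).resolve_left hχ1
    obtain ⟨S, hS⟩ : ∃ S : Subgroup H, S = MulAction.stabilizer H l₀ := ⟨_, rfl⟩
    obtain ⟨hSi, hSab⟩ := (hst l₀).resolve_left (fun h => hnf₀ (h h₀))
    rw [← hS] at hSi hSab
    have hDS : D ≤ S := by
      intro d hd
      rw [hS, MulAction.mem_stabilizer_iff]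
      exact memD.mp hd l₀ hl₀
    have hnilq : Group.IsNilpotent (H ⧸ D) := inferInstance
    have hnt : Nontrivial (H ⧸ D) := by
      by_contra h
      rw [not_nontrivial_iff_subsingleton] at h
      exact hna fun a b => Subsingleton.elim _ _
    have hcn : Nontrivial (Subgroup.center (H ⧸ D)) :=
      (Subgroup.nontrivial_iff_ne_bot _).mpr (Group.IsNilpotent.center_ne_bot _)
    have hSbi : (S.map (QuotientGroup.mk' D)).index = m := by
      have h1 := Subgroup.index_map_eq (f := QuotientGroup.mk' D) S (QuotientGroup.mk'_surjective D)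
        (by rw [QuotientGroup.ker_mk']; exact hDS)
      rw [h1, hSi]
    have hdisj : ∀ z ∈ Subgroup.center (H ⧸ D), z ∈ S.map (QuotientGroup.mk' D) → z = 1 := by
      rintro z hz ⟨s, hs, rfl⟩
      have h1 : s ∈ D := by
        apply hcen s _ l₀ hl₀ ⟨h₀, hnf₀⟩
        · rw [SetLike.mem_coe, hS, MulAction.mem_stabilizer_iff] at hs
          exact hs
        · intro h
          rw [← QuotientGroup.eq_one_iff]
          have h2 := Subgroup.mem_center_iff.mp hz (h : H ⧸ D)
          have h3 : ((s⁻¹ * h⁻¹ * s * h : H) : H ⧸ D) = (s : H ⧸ D)⁻¹ * (h : H ⧸ D)⁻¹ * ((s : H ⧸ D) * (h : H ⧸ D)) := by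
            rw [QuotientGroup.mk_mul, QuotientGroup.mk_mul, QuotientGroup.mk_mul, mul_assoc, QuotientGroup.mk_inv,
              QuotientGroup.mk_inv]
          rw [h3]
          have h4 : (h : H ⧸ D) * (s : H ⧸ D) = (s : H ⧸ D) * (h : H ⧸ D) := h2
          rw [← h4]; group
      exact (QuotientGroup.eq_one_iff _).mpr h1
    have hBab : ∀ a ∈ S.map (QuotientGroup.mk' D) ⊔ Subgroup.center (H ⧸ D),
        ∀ b ∈ S.map (QuotientGroup.mk' D) ⊔ Subgroup.center (H ⧸ D), a * b = b * a := by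
      intro a ha b hb
      obtain ⟨a1, ha1, a2, ha2, rfl⟩ := Subgroup.mem_sup_of_normal_right.mp ha
      obtain ⟨b1, hb1, b2, hb2, rfl⟩ := Subgroup.mem_sup_of_normal_right.mp hb
      have e1 : a1 * b1 = b1 * a1 := by
        obtain ⟨s, hs, rfl⟩ := ha1
        obtain ⟨t, ht, rfl⟩ := hb1
        rw [← map_mul, hSab s hs t ht, map_mul]
      have e2 := Subgroup.mem_center_iff.mp ha2
      have e3 := Subgroup.mem_center_iff.mp hb2
      calc a1 * a2 * (b1 * b2) = a1 * (a2 * b1) * b2 := by group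
        _ = a1 * (b1 * a2) * b2 := by rw [e2 b1]
        _ = (a1 * b1) * (a2 * b2) := by group
        _ = (b1 * a1) * (b2 * a2) := by rw [e1, e3 a2]
        _ = b1 * (a1 * b2) * a2 := by group
        _ = b1 * (b2 * a1) * a2 := by rw [e3 a1]
        _ = b1 * b2 * (a1 * a2) := by group
    have hle := GalP.degree_le_index hBab hχ hχm
    have h1 : (S.map (QuotientGroup.mk' D) ⊔ Subgroup.center (H ⧸ D)).index ∣ m := by
      rw [← hSbi]; exact Subgroup.index_dvd_of_le le_sup_left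
    have h2 : (S.map (QuotientGroup.mk' D) ⊔ Subgroup.center (H ⧸ D)).index = m :=
      le_antisymm (Nat.le_of_dvd (by omega) h1) hle
    have h3 : S.map (QuotientGroup.mk' D) = S.map (QuotientGroup.mk' D) ⊔ Subgroup.center (H ⧸ D) := by
      apply Subgroup.eq_of_le_of_card_ge le_sup_left
      have h4 := (S.map (QuotientGroup.mk' D)).index_mul_card
      have h5 := (S.map (QuotientGroup.mk' D) ⊔ Subgroup.center (H ⧸ D)).index_mul_card
      rw [h2] at h5; rw [hSbi] at h4
      have h6 := h5.trans h4.symm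
      exact (Nat.eq_of_mul_eq_mul_left (by omega) h6).le
    obtain ⟨z, hz⟩ := exists_ne (1 : Subgroup.center (H ⧸ D))
    apply hz
    apply Subtype.ext
    apply hdisj z z.2
    rw [h3]
    exact Subgroup.mem_sup_right z.2
  -- (iii)
  have hstD : ∀ l ∈ L, (∃ h : H, h • l ≠ l) → MulAction.stabilizer H l = D := by
    intro l hl hlnf
    apply le_antisymm
    · intro z hz
      exact hcen z (fun h => hcomm z h) l hl hlnf (MulAction.mem_stabilizer_iff.mp hz)
    · intro d hd
      rw [MulAction.mem_stabilizer_iff]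
      exact memD.mp hd l hl
  obtain ⟨hDi, hDab⟩ : D.index = m ∧ ∀ a ∈ D, ∀ b ∈ D, a * b = b * a := by
    have h1 := (hst l₀).resolve_left (fun h => hnf₀ (h h₀))
    rwa [hstD l₀ hl₀ ⟨h₀, hnf₀⟩] at h1
  refine ⟨D, hDn, hDi, hDab, ?_⟩
  -- (iv)
  by_contra hcon
  push Not at hcon
  obtain ⟨d₀, hd₀, μ, hμ⟩ := hcon
  have iO : Fintype (MulAction.orbit H l₀) := Fintype.ofFinite _
  obtain ⟨T, hT⟩ : ∃ T : Finset Λ, T = insert 1 (MulAction.orbit H l₀).toFinset := ⟨_, rfl⟩
  have hTL : ∀ l ∈ T, l ∈ L := by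
    intro l hl
    rw [hT, Finset.mem_insert, Set.mem_toFinset] at hl
    rcases hl with rfl | ⟨h, rfl⟩
    · exact one_mem L
    · exact hLinv h l₀ hl₀
  have h1orb : (1 : Λ) ∉ (MulAction.orbit H l₀).toFinset := by
    rw [Set.mem_toFinset]
    rintro ⟨h, hh⟩
    have h2 : l₀ = 1 := by
      have : h • l₀ = h • 1 := by rw [smul_one]; exact hh
      exact (MulAction.injective h) this
    apply hnf₀
    rw [h2, smul_one]
  have hTcard : T.card = m + 1 := by
    rw [hT, Finset.card_insert_of_notMem h1orb, ← Set.ncard_eq_toFinset_card', ← MulAction.index_stabilizer,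
      hstD l₀ hl₀ ⟨h₀, hnf₀⟩, hDi]
  have hTdiff : ∀ a ∈ T, ∀ b ∈ T, a ≠ b → ∃ h : H, h • (a * b⁻¹) ≠ a * b⁻¹ := by
    intro a ha b hb hab
    by_contra hcon
    push Not at hcon
    rw [hT, Finset.mem_insert, Set.mem_toFinset] at ha hb
    have key : ∀ h : H, (∀ k : H, k • (h • l₀) = h • l₀) → False := by
      intro h hk
      apply hnf₀
      have h1 := hk h⁻¹
      rw [inv_smul_smul] at h1
      rw [← h1] at hk
      exact hk h₀
    rcases ha with rfl | ⟨h, rfl⟩
    · rcases hb with rfl | ⟨k, rfl⟩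
      · exact hab rfl
      · apply key k
        intro x
        have h1 := hcon x
        rw [one_mul, smul_inv', inv_inj] at h1
        exact h1
    · rcases hb with rfl | ⟨k, rfl⟩
      · apply key h
        intro x
        have h1 := hcon x
        rw [inv_one, mul_one] at h1
        exact h1
      · have h1 : (k⁻¹ * h) • l₀ = ((h • l₀) * (k • l₀)⁻¹) * l₀ := by
          have h2 := hcon k⁻¹
          rw [← h2, smul_mul', smul_inv', inv_smul_smul, inv_mul_cancel_right, mul_smul]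
        have h2 := coprime_fix hcop h1 (hcon _)
        apply hab
        exact mul_inv_eq_one.mp h2
  -- the group `Q`
  obtain ⟨Dμ, hDμ⟩ : ∃ Dμ : Subgroup H, Dμ = D ⊓ MulAction.stabilizer H μ := ⟨_, rfl⟩
  obtain ⟨Q, hQ⟩ : ∃ Q : Subgroup H, ∀ h : H, h ∈ Q ↔ (h • μ) * μ⁻¹ ∈ L := by
    refine ⟨{ carrier := {h | (h • μ) * μ⁻¹ ∈ L}
              one_mem' := by rw [Set.mem_ofPred_eq, one_smul, mul_inv_cancel]; exact one_mem L
              mul_mem' := fun {a b} ha hb => by
                rw [Set.mem_ofPred_eq] at ha hb ⊢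
                have h1 : ((a * b) • μ) * μ⁻¹ = (a • ((b • μ) * μ⁻¹)) * ((a • μ) * μ⁻¹) := by
                  rw [smul_mul', smul_inv', mul_smul]; group
                rw [h1]
                exact mul_mem (hLinv a _ hb) ha
              inv_mem' := fun {a} ha => by
                rw [Set.mem_ofPred_eq] at ha ⊢
                have h1 : (a⁻¹ • μ) * μ⁻¹ = (a⁻¹ • ((a • μ) * μ⁻¹))⁻¹ := by
                  rw [smul_mul', smul_inv', inv_smul_smul, mul_inv_rev, inv_inv]
                rw [h1]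
                exact inv_mem (hLinv a⁻¹ _ ha) }, fun h => Iff.rfl⟩
  have hQD : Q ⊓ D = Dμ := by
    rw [hDμ]
    ext h
    rw [Subgroup.mem_inf, Subgroup.mem_inf, MulAction.mem_stabilizer_iff, hQ]
    constructor
    · rintro ⟨h1, h2⟩
      refine ⟨h2, ?_⟩
      have h3 : h • μ = ((h • μ) * μ⁻¹) * μ := by rw [inv_mul_cancel_right]
      have h4 := coprime_fix hcop h3 (memD.mp h2 _ h1)
      exact mul_inv_eq_one.mp h4
    · rintro ⟨h1, h2⟩
      refine ⟨?_, h1⟩
      rw [h2, mul_inv_cancel]; exact one_mem L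
  have hQcard : Nat.card Q ≤ m * Nat.card Dμ := by
    have h1 : D.relIndex Q ≤ m := by
      have h2 := Subgroup.relIndex_dvd_index_of_normal D Q
      rw [hDi] at h2
      exact Nat.le_of_dvd (by omega) h2
    have h3 : Nat.card Q = D.relIndex Q * Nat.card Dμ := by
      have h4 := Subgroup.relIndex_mul_relIndex ⊥ (Q ⊓ D) Q bot_le inf_le_left
      rw [Subgroup.relIndex_bot_left, Subgroup.relIndex_bot_left, Subgroup.inf_relIndex_left, hQD] at h4
      rw [← h4, mul_comm]
    rw [h3]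
    exact Nat.mul_le_mul_right _ h1
  have hDμlt : 2 * Nat.card Dμ ≤ Nat.card D := by
    have h1 : Dμ ≤ D := by rw [hDμ]; exact inf_le_left
    have h2 : Dμ ≠ D := by
      intro h
      apply hμ
      have h3 : d₀ ∈ Dμ := by rw [h]; exact hd₀
      rw [hDμ] at h3
      exact MulAction.mem_stabilizer_iff.mp h3.2
    have h4 := Subgroup.relIndex_mul_relIndex ⊥ Dμ D bot_le h1
    rw [Subgroup.relIndex_bot_left, Subgroup.relIndex_bot_left] at h4
    have h5 : Dμ.relIndex D ≠ 1 := by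
      rw [Ne, Subgroup.relIndex_eq_one]
      exact fun h => h2 (le_antisymm h1 h)
    have h6 : Dμ.relIndex D ≠ 0 := by
      intro h
      rw [h, mul_zero] at h4
      exact Nat.card_pos.ne h4
    rw [← h4, mul_comm]
    exact Nat.mul_le_mul_left _ (by omega)
  -- stabilizers of the translates
  have iH : Fintype H := Fintype.ofFinite H
  have hstab : ∀ l ∈ T, Nat.card (MulAction.stabilizer H (l * μ)) = Nat.card D ∧
      MulAction.stabilizer H (l * μ) ⊓ D = Dμ ∧ MulAction.stabilizer H (l * μ) ≤ Q := by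
    intro l hl
    have hlL := hTL l hl
    have e1 : MulAction.stabilizer H (l * μ) ⊓ D = Dμ := by
      rw [hDμ]
      ext h
      rw [Subgroup.mem_inf, Subgroup.mem_inf, MulAction.mem_stabilizer_iff, MulAction.mem_stabilizer_iff]
      constructor
      · rintro ⟨h1, h2⟩
        refine ⟨h2, ?_⟩
        rw [smul_mul', memD.mp h2 l hlL] at h1
        exact mul_left_cancel h1
      · rintro ⟨h1, h2⟩
        refine ⟨?_, h1⟩
        rw [smul_mul', memD.mp h1 l hlL, h2]
    refine ⟨?_, e1, ?_⟩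
    · have h1 := (hst (l * μ)).resolve_left (fun h => by
        have h2 : d₀ ∈ MulAction.stabilizer H (l * μ) ⊓ D := ⟨h d₀, hd₀⟩
        rw [e1, hDμ] at h2
        exact hμ (MulAction.mem_stabilizer_iff.mp h2.2))
      have h2 := (MulAction.stabilizer H (l * μ)).index_mul_card
      have h3 := D.index_mul_card
      rw [h1.1] at h2; rw [hDi] at h3
      exact Nat.eq_of_mul_eq_mul_left (by omega) (h2.trans h3.symm)
    · intro h hh
      rw [MulAction.mem_stabilizer_iff, smul_mul'] at hh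
      rw [hQ]
      have h1 : (h • μ) * μ⁻¹ = (h • l)⁻¹ * l := by
        rw [mul_inv_eq_iff_eq_mul, mul_assoc, ← hh, inv_mul_cancel_left]
      rw [h1]
      exact mul_mem (inv_mem (hLinv h l hlL)) hlL
  -- counting
  obtain ⟨E, hE⟩ : ∃ E : Λ → Finset H, E = fun l =>
      Finset.univ.filter (fun h => h ∈ MulAction.stabilizer H (l * μ) ∧ h ∉ D) := ⟨_, rfl⟩
  have hEcard : ∀ l ∈ T, Nat.card Dμ ≤ (E l).card := by
    intro l hl
    obtain ⟨e1, e2, e3⟩ := hstab l hl
    have h1 : (Finset.univ.filter (fun h => h ∈ MulAction.stabilizer H (l * μ))).card = Nat.card D := by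
      rw [← e1, Nat.card_eq_fintype_card, Fintype.card_subtype]
    have h2 : (Finset.univ.filter (fun h => h ∈ Dμ)).card = Nat.card Dμ := by
      rw [Nat.card_eq_fintype_card, Fintype.card_subtype]
    have h3 : Finset.univ.filter (fun h => h ∈ MulAction.stabilizer H (l * μ)) =
        (Finset.univ.filter (fun h => h ∈ Dμ)) ∪ E l := by
      ext h
      rw [hE, Finset.mem_union, Finset.mem_filter, Finset.mem_filter, Finset.mem_filter, ← e2, Subgroup.mem_inf]
      have := Finset.mem_univ h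
      tauto
    have h4 := Finset.card_union_le (Finset.univ.filter (fun h => h ∈ Dμ)) (E l)
    rw [← h3, h1, h2] at h4
    omega
  have hdisjE : ∀ a ∈ T, ∀ b ∈ T, a ≠ b → Disjoint (E a) (E b) := by
    intro a ha b hb hab
    rw [Finset.disjoint_left]
    intro h h1 h2
    rw [hE, Finset.mem_filter] at h1 h2
    apply h1.2.2
    obtain ⟨k, hk⟩ := hTdiff a ha b hb hab
    rw [← hstD (a * b⁻¹) (mul_mem (hTL a ha) (inv_mem (hTL b hb))) ⟨k, hk⟩, MulAction.mem_stabilizer_iff]
    have h3 := MulAction.mem_stabilizer_iff.mp h1.2.1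
    have h4 := MulAction.mem_stabilizer_iff.mp h2.2.1
    have h5 : a * b⁻¹ = (a * μ) * (b * μ)⁻¹ := by rw [mul_inv_rev, mul_assoc, mul_inv_cancel_left]
    rw [h5, smul_mul', smul_inv', h3, h4]
  have hsub : T.biUnion E ⊆ Finset.univ.filter (fun h => h ∈ Q ∧ h ∉ D) := by
    intro h hh
    rw [Finset.mem_biUnion] at hh
    obtain ⟨l, hl, hh⟩ := hh
    rw [hE, Finset.mem_filter] at hh
    rw [Finset.mem_filter]
    exact ⟨Finset.mem_univ _, (hstab l hl).2.2 hh.2.1, hh.2.2⟩
  have hc1 := Finset.card_le_card hsub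
  rw [Finset.card_biUnion hdisjE] at hc1
  have hc2 : T.card * Nat.card Dμ ≤ ∑ l ∈ T, (E l).card := by
    rw [← smul_eq_mul]
    exact Finset.card_nsmul_le_sum _ _ _ hEcard
  have hc3 : (Finset.univ.filter (fun h => h ∈ Q ∧ h ∉ D)).card + Nat.card Dμ = Nat.card Q := by
    have h1 : (Finset.univ.filter (fun h => h ∈ Q)).card = Nat.card Q := by
      rw [Nat.card_eq_fintype_card, Fintype.card_subtype]
    have h2 : (Finset.univ.filter (fun h => h ∈ Dμ)).card = Nat.card Dμ := by
      rw [Nat.card_eq_fintype_card, Fintype.card_subtype]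
    rw [← h1, ← h2, ← Finset.card_union_of_disjoint]
    · congr 1
      ext h
      rw [Finset.mem_union, Finset.mem_filter, Finset.mem_filter, Finset.mem_filter, ← hQD, Subgroup.mem_inf]
      have := Finset.mem_univ h
      tauto
    · rw [Finset.disjoint_left]
      intro h h1 h2
      rw [Finset.mem_filter] at h1 h2
      rw [← hQD] at h2
      exact h1.2.2 h2.2.2
  rw [hTcard] at hc2
  have hpos : 0 < Nat.card Dμ := Nat.card_pos
  nlinarith

end Act

section Dual

theorem dual_sep {M : Type*} [Group M] [Finite M] (hM : ∀ a b : M, a * b = b * a) {n : M}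
    (hn : ∀ l : M →* ℂˣ, l n = 1) : n = 1 := by
  let _ : CommGroup M := { (inferInstance : Group M) with mul_comm := hM }
  by_contra h
  obtain ⟨l, hl⟩ := CommGroup.exists_apply_ne_one_of_hasEnoughRootsOfUnity M ℂ h
  exact hl (hn l)

theorem dual_card {M : Type*} [Group M] [Finite M] (hM : ∀ a b : M, a * b = b * a) :
    Nat.card (M →* ℂˣ) = Nat.card M := by
  let _ : CommGroup M := { (inferInstance : Group M) with mul_comm := hM }
  obtain ⟨e⟩ := CommGroup.monoidHom_mulEquiv_of_hasEnoughRootsOfUnity M ℂ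
  exact Nat.card_congr e.toEquiv

variable {G : Type*} [Group G] {M : Subgroup G} [hM : M.Normal]

/-- action of a subgroup on the dual of a normal subgroup -/
@[reducible] def dualAct (M : Subgroup G) [hM : M.Normal] (K : Subgroup G) : MulDistribMulAction K (M →* ℂˣ) where
  smul h l := l.comp (MulAut.conjNormal ((h : G)⁻¹)).toMonoidHom
  one_smul l := by
    show l.comp (MulAut.conjNormal (((1 : K) : G)⁻¹)).toMonoidHom = l
    rw [OneMemClass.coe_one, inv_one, map_one]; rfl
  mul_smul a b l := by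
    show l.comp (MulAut.conjNormal (((a * b : K) : G)⁻¹)).toMonoidHom =
      (l.comp (MulAut.conjNormal ((b : G)⁻¹)).toMonoidHom).comp (MulAut.conjNormal ((a : G)⁻¹)).toMonoidHom
    rw [Subgroup.coe_mul, mul_inv_rev, map_mul]; rfl
  smul_mul a l k := rfl
  smul_one a := rfl

end Dual

section Sd

variable {G : Type*} [Group G] [Finite G] {M K : Subgroup G} [hM : M.Normal]

theorem exists_proj (hc : M.IsComplement' K) : ∃ pr : G →* K, (∀ m ∈ M, pr m = 1) ∧ (∀ k : K, pr k = k) ∧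
    (∀ g : G, g * ((pr g : K) : G)⁻¹ ∈ M) ∧ Function.Surjective pr := by
  obtain ⟨e, he⟩ : ∃ e : G ⧸ M ≃* K, ∀ k : K, e.symm k = ((k : G) : G ⧸ M) :=
    ⟨hc.symm.QuotientMulEquiv, fun k => rfl⟩
  have h2 : ∀ k : K, e ((k : G) : G ⧸ M) = k := by
    intro k
    rw [← he, MulEquiv.apply_symm_apply]
  refine ⟨e.toMonoidHom.comp (QuotientGroup.mk' M), ?_, h2, ?_, ?_⟩
  · intro m hm
    show e ((m : G) : G ⧸ M) = 1
    rw [(QuotientGroup.eq_one_iff m).mpr hm, map_one]
  · intro g
    show g * ((e ((g : G) : G ⧸ M) : K) : G)⁻¹ ∈ M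
    rw [← QuotientGroup.eq_one_iff, QuotientGroup.mk_mul, QuotientGroup.mk_inv, ← he, MulEquiv.symm_apply_apply,
      mul_inv_cancel]
  · intro k
    exact ⟨(k : G), h2 k⟩

/-- characters over a linear character of an abelian normal subgroup with a complement -/
theorem exists_deg (hMab : ∀ a ∈ M, ∀ b ∈ M, a * b = b * a) (hc : M.IsComplement' K) (l : M →* ℂˣ) (S : Subgroup K)
    (hS : ∀ k : K, k ∈ S ↔ ∀ n : M, l (MulAut.conjNormal (k : G) n) = l n) {β : S → ℂ} (hβ : IsIrrCharacter S β) :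
    ∃ χ : G → ℂ, IsIrrCharacter G χ ∧ χ 1 = S.index * β 1 := by
  classical
  have iG := Fintype.ofFinite G
  have iM := Fintype.ofFinite M
  obtain ⟨pr, hpr1, hpr2, hpr3, hprs⟩ := exists_proj hc
  obtain ⟨T, hT⟩ : ∃ T : Subgroup G, T = S.comap pr := ⟨_, rfl⟩
  have iT := Fintype.ofFinite T
  have hconj : ∀ (g : G) (n : M), l (MulAut.conjNormal g n) = l (MulAut.conjNormal ((pr g : K) : G) n) := by
    intro g n
    have h1 : MulAut.conjNormal g n = MulAut.conjNormal ((pr g : K) : G) n := by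
      apply Subtype.ext
      rw [MulAut.conjNormal_apply, MulAut.conjNormal_apply]
      have h2 := hMab _ (hpr3 g) _ (hM.conj_mem n n.2 ((pr g : K) : G))
      have h3 : g * n * g⁻¹ = (g * ((pr g : K) : G)⁻¹) * (((pr g : K) : G) * n * ((pr g : K) : G)⁻¹) *
          (g * ((pr g : K) : G)⁻¹)⁻¹ := by group
      rw [h3, h2, mul_inv_cancel_right]
    rw [h1]
  have memT : ∀ g : G, g ∈ T ↔ ∀ n : M, l (MulAut.conjNormal g n) = l n := by
    intro g
    rw [hT, Subgroup.mem_comap, hS]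
    exact forall_congr' fun n => by rw [hconj g n]
  have hMT : M ≤ T := by
    intro m hm
    rw [hT, Subgroup.mem_comap, hpr1 m hm]
    exact one_mem S
  have hTS : ∀ g ∈ T, pr g ∈ S := fun g hg => by rw [hT, Subgroup.mem_comap] at hg; exact hg
  have hTi : T.index = S.index := by rw [hT]; exact Subgroup.index_comap_of_surjective S hprs
  have hθ : IsIrrCharacter M (fun n : M => (l n : ℂ)) := isIrr_of_hom_units l
  have hTin : T = inertia hM (fun n : M => (l n : ℂ)) := by
    ext g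
    rw [memT, mem_inertia]
    constructor
    · intro h
      funext n
      rw [cj_apply]
      exact congrArg Units.val (h n)
    · intro h n
      exact Units.ext (congrFun h n)
  -- the extension
  let lh : T →* ℂˣ :=
    { toFun := fun t => l ⟨(t : G) * ((pr t : K) : G)⁻¹, hpr3 t⟩
      map_one' := by
        rw [← map_one l]
        congr 1
        apply Subtype.ext
        show ((1 : T) : G) * ((pr ((1 : T) : G) : K) : G)⁻¹ = 1
        rw [OneMemClass.coe_one, map_one, OneMemClass.coe_one, inv_one, mul_one]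
      map_mul' := fun s t => by
        have h1 : (⟨((s * t : T) : G) * ((pr ((s * t : T) : G) : K) : G)⁻¹, hpr3 _⟩ : M) =
            ⟨(s : G) * ((pr s : K) : G)⁻¹, hpr3 s⟩ * MulAut.conjNormal ((pr s : K) : G)
              ⟨(t : G) * ((pr t : K) : G)⁻¹, hpr3 t⟩ := by
          apply Subtype.ext
          show (s : G) * (t : G) * ((pr ((s : G) * (t : G)) : K) : G)⁻¹ = ((s : G) * ((pr s : K) : G)⁻¹) *
            (((pr s : K) : G) * ((t : G) * ((pr t : K) : G)⁻¹) * ((pr s : K) : G)⁻¹)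
          rw [map_mul, Subgroup.coe_mul]
          group
        rw [h1, map_mul, ← hconj, (memT s).mp s.2] }
  let π : T →* S :=
    { toFun := fun t => ⟨pr t, hTS t t.2⟩
      map_one' := Subtype.ext (by show pr ((1 : T) : G) = _; rw [OneMemClass.coe_one, map_one]; rfl)
      map_mul' := fun s t => Subtype.ext (by
        show pr ((s * t : T) : G) = _
        rw [Subgroup.coe_mul, map_mul]; rfl) }
  have hπ : Function.Surjective π := by
    intro s
    refine ⟨⟨((s : K) : G), ?_⟩, ?_⟩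
    · rw [hT, Subgroup.mem_comap, hpr2]; exact s.2
    · exact Subtype.ext (hpr2 s)
  have hψ : IsIrrCharacter T ((fun t : T => (lh t : ℂ)) * (fun t : T => β (π t))) := by
    apply IsIrr.mul_linear (IsIrr.comp hβ π hπ) (IsIrr.isCharacter (isIrr_of_hom_units lh))
    show ((lh 1 : ℂˣ) : ℂ) = 1
    rw [map_one]; rfl
  have hres : (fun n : M => ((fun t : T => (lh t : ℂ)) * (fun t : T => β (π t))) ⟨(n : G), hMT n.2⟩) =
      β 1 • (fun n : M => (l n : ℂ)) := by
    funext n
    show ((l ⟨(n : G) * ((pr (n : G) : K) : G)⁻¹, _⟩ : ℂˣ) : ℂ) * β (π ⟨(n : G), hMT n.2⟩) = β 1 * (l n : ℂ)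
    have h1 : π ⟨(n : G), hMT n.2⟩ = 1 := Subtype.ext (hpr1 n n.2)
    have h2 : (⟨(n : G) * ((pr (n : G) : K) : G)⁻¹, hpr3 _⟩ : M) = n := by
      apply Subtype.ext
      show (n : G) * ((pr (n : G) : K) : G)⁻¹ = n
      rw [hpr1 n n.2, OneMemClass.coe_one, inv_one, mul_one]
    rw [h1, h2, mul_comm]
  refine ⟨_, H26.Cliff.ind_irr hθ T hTin hMT hψ ?_, ?_⟩
  · rw [hres, ci_smul_left, ci_irr_self hθ, mul_one]
    exact IsIrr.one_ne_zero hβ
  · rw [ind_one, hTi]
    congr 1
    show ((lh 1 : ℂˣ) : ℂ) * β (π 1) = β 1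
    rw [map_one, map_one, Units.val_one, one_mul]

end Sd

section Main

variable {G : Type*} [Group G] [Finite G]

theorem comp_case {M K : Subgroup G} [hM : M.Normal] (hMab : ∀ a ∈ M, ∀ b ∈ M, a * b = b * a) (hc : M.IsComplement' K)
    (hcop : (Nat.card K).Coprime (Nat.card M)) (hnil : Group.IsNilpotent K) {m : ℕ} (hm1 : 1 < m)
    (hcd : ∀ χ : G → ℂ, IsIrrCharacter G χ → χ 1 = 1 ∨ χ 1 = m) :
    (∃ A : Subgroup G, A.Normal ∧ (∀ a ∈ A, ∀ b ∈ A, a * b = b * a) ∧ A.index = m) ∨ M ≤ Subgroup.center G := by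
  classical
  obtain ⟨pr, hpr1, hpr2, hpr3, hprs⟩ := exists_proj hc
  let _ : MulDistribMulAction K (M →* ℂˣ) := dualAct M K
  have hMab' : ∀ a b : M, a * b = b * a := fun a b => Subtype.ext (hMab a a.2 b b.2)
  have hsm : ∀ (k : K) (l : M →* ℂˣ) (n : M), (k • l) n = l (MulAut.conjNormal ((k : G)⁻¹) n) := fun _ _ _ => rfl
  have hS : ∀ (l : M →* ℂˣ) (k : K), k ∈ MulAction.stabilizer K l ↔
      ∀ n : M, l (MulAut.conjNormal (k : G) n) = l n := by
    intro l k
    rw [MulAction.mem_stabilizer_iff]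
    constructor
    · intro h n
      have h1 := DFunLike.congr_fun h (MulAut.conjNormal (k : G) n)
      rw [hsm, map_inv, MulAut.inv_apply_self] at h1
      exact h1.symm
    · intro h
      apply MonoidHom.ext
      intro n
      rw [hsm, ← h (MulAut.conjNormal ((k : G)⁻¹) n), map_inv, MulAut.apply_inv_self]
  have hcent : ∀ k : K, (∀ l : M →* ℂˣ, k • l = l) → ∀ n ∈ M, (k : G) * n = n * k := by
    intro k hk n hn
    have h1 : MulAut.conjNormal (k : G) (⟨n, hn⟩ : M) * (⟨n, hn⟩ : M)⁻¹ = 1 := by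
      apply dual_sep hMab'
      intro l
      have h2 := (hS l k).mp (MulAction.mem_stabilizer_iff.mpr (hk l)) ⟨n, hn⟩
      rw [map_mul, map_inv, h2, mul_inv_cancel]
    have h2 := mul_inv_eq_one.mp h1
    have h3 : (k : G) * n * (k : G)⁻¹ = n := congrArg Subtype.val h2
    rw [mul_inv_eq_iff_eq_mul] at h3
    exact h3
  have hst : ∀ l : M →* ℂˣ, (∀ h : K, h • l = l) ∨ ((MulAction.stabilizer K l).index = m ∧
      ∀ a ∈ MulAction.stabilizer K l, ∀ b ∈ MulAction.stabilizer K l, a * b = b * a) := by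
    intro l
    obtain ⟨χ, hχ, hχ1⟩ := exists_deg hMab hc l (MulAction.stabilizer K l) (hS l) isIrr_one
    rw [mul_one] at hχ1
    rcases hcd χ hχ with h | h
    · left
      have h1 : (MulAction.stabilizer K l).index = 1 := by
        have : ((MulAction.stabilizer K l).index : ℂ) = 1 := by rw [← hχ1, h]
        exact_mod_cast this
      rw [Subgroup.index_eq_one] at h1
      intro k
      rw [← MulAction.mem_stabilizer_iff, h1]; trivial
    · right
      have h1 : (MulAction.stabilizer K l).index = m := by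
        have : ((MulAction.stabilizer K l).index : ℂ) = m := by rw [← hχ1, h]
        exact_mod_cast this
      refine ⟨h1, ?_⟩
      by_contra hcon
      have hna : ¬ ∀ a b : MulAction.stabilizer K l, a * b = b * a := by
        intro h2
        apply hcon
        intro a ha b hb
        exact congrArg Subtype.val (h2 ⟨a, ha⟩ ⟨b, hb⟩)
      have iS : Fintype (MulAction.stabilizer K l) := Fintype.ofFinite _
      obtain ⟨β, hβ, hβ1⟩ := GalP.exists_nonlinear hna
      obtain ⟨ψ, hψ, hψ1⟩ := exists_deg hMab hc l (MulAction.stabilizer K l) (hS l) hβ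
      obtain ⟨b, hb0, hb⟩ := IsIrr.one_eq_nat hβ
      have hb1 : b ≠ 1 := by rintro rfl; exact hβ1 (by rw [hb]; simp)
      rw [h1, hb] at hψ1
      rcases hcd ψ hψ with h2 | h2
      · rw [h2] at hψ1
        have h3 : 1 = m * b := by exact_mod_cast hψ1
        have := Nat.eq_one_of_mul_eq_one_left h3.symm
        exact hb1 this
      · rw [h2] at hψ1
        have h3 : m = m * b := by exact_mod_cast hψ1
        have h4 : 2 ≤ b := by omega
        nlinarith
  have hcdK : ∀ χ : K → ℂ, IsIrrCharacter K χ → χ 1 = 1 ∨ χ 1 = m := by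
    intro χ hχ
    have h1 := hcd _ (IsIrr.comp hχ pr hprs)
    rwa [map_one] at h1
  have hcop' : (Nat.card K).Coprime (Nat.card (M →* ℂˣ)) := by rwa [dual_card hMab']
  by_cases hnt : ∃ (l : M →* ℂˣ) (h : K), h • l ≠ l
  · left
    obtain ⟨D, hDn, hDi, hDab, hDf⟩ := act_main hcop' hnil hm1 hcdK hst hnt
    refine ⟨D.comap pr, hDn.comap pr, ?_, ?_⟩
    · intro a ha b hb
      rw [Subgroup.mem_comap] at ha hb
      have e1 : ((pr a : K) : G) * ((pr b : K) : G) = ((pr b : K) : G) * ((pr a : K) : G) :=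
        congrArg Subtype.val (hDab _ ha _ hb)
      have e2 := hcent (pr a) (hDf _ ha) _ (hpr3 b)
      have e3 := hcent (pr b) (hDf _ hb) _ (hpr3 a)
      have e4 := hMab _ (hpr3 a) _ (hpr3 b)
      obtain ⟨n, hn⟩ : ∃ n, n = a * ((pr a : K) : G)⁻¹ := ⟨_, rfl⟩
      obtain ⟨n', hn'⟩ : ∃ n', n' = b * ((pr b : K) : G)⁻¹ := ⟨_, rfl⟩
      have ea : a = n * ((pr a : K) : G) := by rw [hn, inv_mul_cancel_right]
      have eb : b = n' * ((pr b : K) : G) := by rw [hn', inv_mul_cancel_right]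
      rw [← hn] at e3 e4
      rw [← hn'] at e2 e4
      generalize ((pr a : K) : G) = x at e1 e2 e3 ea
      generalize ((pr b : K) : G) = y at e1 e2 e3 eb
      rw [ea, eb]
      calc n * x * (n' * y) = n * (x * n') * y := by group
        _ = n * (n' * x) * y := by rw [e2]
        _ = (n * n') * (x * y) := by group
        _ = (n' * n) * (y * x) := by rw [e4, e1]
        _ = n' * (n * y) * x := by group
        _ = n' * (y * n) * x := by rw [e3]
        _ = n' * y * (n * x) := by group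
    · rw [Subgroup.index_comap_of_surjective D hprs, hDi]
  · right
    push Not at hnt
    intro n hn
    rw [Subgroup.mem_center_iff]
    intro g
    have e1 := hcent (pr g) (fun l => hnt l _) n hn
    have e2 := hMab _ (hpr3 g) n hn
    have eg : g = (g * ((pr g : K) : G)⁻¹) * ((pr g : K) : G) := by rw [inv_mul_cancel_right]
    calc g * n = (g * ((pr g : K) : G)⁻¹) * (((pr g : K) : G) * n) := by group
      _ = ((g * ((pr g : K) : G)⁻¹) * n) * ((pr g : K) : G) := by rw [e1]; group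
      _ = n * g := by rw [e2]; group

theorem exists_M {m : ℕ} (hm0 : m ≠ 0) (hcd : ∀ χ : IrrCharacter G, charDegree (χ : G → ℂ) = 1 ∨ charDegree (χ : G → ℂ) = m) :
    ∃ (M : Subgroup G) (_ : M.Normal), (Nat.card M).Coprime m ∧ (Nat.card M).Coprime M.index ∧
      Group.IsNilpotent (G ⧸ M) := by
  classical
  have key : ∀ r : m.primeFactors, ∃ (N : Subgroup G) (_ : N.Normal), (Nat.card N).Coprime r ∧
      ∃ k : ℕ, N.index = (r : ℕ) ^ k := by
    intro r
    have hr := Nat.prime_of_mem_primeFactors r.2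
    obtain ⟨N, h1, h2, h3⟩ := Cfsg.Agent.S4456.result (G := G) (r : ℕ) hr (fun χ h => by
      rw [(hcd χ).resolve_left h]; exact Nat.dvd_of_mem_primeFactors r.2)
    exact ⟨N, h1, h2, h3⟩
  choose N hN hNc k hk using key
  let f : G →* ((r : m.primeFactors) → G ⧸ N r) := MonoidHom.pi fun r => QuotientGroup.mk' (N r)
  have hf : ∀ g : G, g ∈ f.ker ↔ ∀ r, g ∈ N r := by
    intro g
    rw [MonoidHom.mem_ker]
    constructor
    · intro h r
      rw [← QuotientGroup.eq_one_iff]
      exact congrFun h r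
    · intro h
      funext r
      exact (QuotientGroup.eq_one_iff g).mpr (h r)
  have hc1 : (Nat.card f.ker).Coprime m := by
    apply Nat.Coprime.symm
    apply Nat.Coprime.symm
    rw [Nat.coprime_iff_gcd_eq_one]
    by_contra hne
    obtain ⟨r, hr, hrd⟩ := Nat.exists_prime_and_dvd hne
    have h1 := hrd.trans (Nat.gcd_dvd_left _ _)
    have h2 := hrd.trans (Nat.gcd_dvd_right _ _)
    have h3 : r ∈ m.primeFactors := Nat.mem_primeFactors.mpr ⟨hr, h2, hm0⟩
    have h4 : f.ker ≤ N ⟨r, h3⟩ := fun g hg => (hf g).mp hg _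
    have h5 := h1.trans (Subgroup.card_dvd_of_le h4)
    have h6 := Nat.dvd_gcd h5 (dvd_refl r)
    rw [hNc ⟨r, h3⟩] at h6
    exact hr.one_lt.ne' (Nat.dvd_one.mp h6)
  refine ⟨f.ker, MonoidHom.normal_ker f, hc1, ?_, ?_⟩
  · rw [Nat.coprime_iff_gcd_eq_one]
    by_contra hne
    obtain ⟨s, hs, hsd⟩ := Nat.exists_prime_and_dvd hne
    have h1 := hsd.trans (Nat.gcd_dvd_left _ _)
    have h2 := hsd.trans (Nat.gcd_dvd_right _ _)
    rw [Subgroup.index_ker] at h2
    have h3 := h2.trans (Subgroup.card_subgroup_dvd_card f.range)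
    rw [Nat.card_pi, (hs.prime).dvd_finsetProd_iff] at h3
    obtain ⟨r, -, hr⟩ := h3
    rw [← Subgroup.index_eq_card, hk] at hr
    have h4 := (Nat.prime_dvd_prime_iff_eq hs (Nat.prime_of_mem_primeFactors r.2)).mp (hs.dvd_of_dvd_pow hr)
    have h5 := Nat.dvd_gcd h1 (h4 ▸ Nat.dvd_of_mem_primeFactors r.2 : s ∣ m)
    rw [hc1] at h5
    exact hs.one_lt.ne' (Nat.dvd_one.mp h5)
  · have hnil : ∀ r, Group.IsNilpotent (G ⧸ N r) := by
      intro r
      have := Fact.mk (Nat.prime_of_mem_primeFactors r.2)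
      have h1 : IsPGroup (r : ℕ) (G ⧸ N r) := IsPGroup.of_card (n := k r) (by
        rw [← Subgroup.index_eq_card, hk])
      exact h1.isNilpotent
    apply Subgroup.isNilpotent_of_ker_le_center (QuotientGroup.kerLift f)
    rw [(MonoidHom.ker_eq_bot_iff _).mpr (QuotientGroup.kerLift_injective f)]
    exact bot_le

theorem nil_case (hnil : Group.IsNilpotent G) {m : ℕ} (hm1 : 1 < m)
    (hcd : ∀ χ : G → ℂ, IsIrrCharacter G χ → χ 1 = 1 ∨ χ 1 = m)
    (hna : ¬ ∀ a b : G, a * b = b * a) :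
    ∃ p e : ℕ, p.Prime ∧ m = p ^ e ∧ ∃ P A : Subgroup G, P.Normal ∧ A.Normal ∧ IsPGroup p P ∧
      (∀ a ∈ A, ∀ b ∈ A, a * b = b * a) ∧ P ⊓ A = ⊥ ∧ P ⊔ A = ⊤ := by
  classical
  obtain ⟨p, hp, P, hP⟩ : ∃ (p : ℕ) (_ : Fact p.Prime) (P : Sylow p G), ¬ ∀ a b : P, a * b = b * a := by
    by_contra hcon
    push Not at hcon
    apply hna
    intro a b
    let e := Sylow.directProductOfNormal (G := G) (fun {p} _ P => inferInstance)
    have h1 : e.symm a * e.symm b = e.symm b * e.symm a := by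
      funext q Q
      have hq := Fact.mk (Nat.prime_of_mem_primeFactors q.2)
      exact hcon q hq Q _ _
    have h2 := congrArg e h1
    rwa [map_mul, map_mul, MulEquiv.apply_symm_apply, MulEquiv.apply_symm_apply] at h2
  obtain ⟨A, B, hAn, hBn, hAc, hBc, hAm, hBm, hcomm, hcard, hbij⟩ :=
    Cfsg.Agent.H3.NilpSplit.split (E := G) (m := p ^ (Nat.card G).factorization p)
      (n := Nat.card G / p ^ (Nat.card G).factorization p)
      (by rw [Nat.ordProj_mul_ordCompl_eq_self]) (Nat.Coprime.pow_left _ (Nat.coprime_ordCompl hp.out Nat.card_pos.ne'))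
  have hApg : IsPGroup p A := by
    obtain ⟨j, -, hj⟩ := (Nat.dvd_prime_pow hp.out).mp hAc
    exact IsPGroup.of_card hj
  have hPA : (P : Subgroup G) ≤ A := by
    intro x hx
    rw [hAm]
    obtain ⟨j, hj⟩ := P.isPGroup' ⟨x, hx⟩
    have h1 : x ^ p ^ j = 1 := congrArg Subtype.val hj
    exact Nat.Coprime.coprime_dvd_left (orderOf_dvd_of_pow_eq_one h1)
      (Nat.Coprime.pow_left _ (Nat.coprime_ordCompl hp.out Nat.card_pos.ne'))
  have hAna : ¬ ∀ a b : A, a * b = b * a := by
    intro h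
    apply hP
    intro a b
    apply Subtype.ext
    exact congrArg (fun x : A => (x : G)) (h ⟨a, hPA a.2⟩ ⟨b, hPA b.2⟩)
  let e : A × B ≃* G := MulEquiv.ofBijective
    ({ toFun := fun x : A × B => (x.1 : G) * x.2
       map_one' := by simp
       map_mul' := fun x y => by
        show ((x.1 * y.1 : A) : G) * ((x.2 * y.2 : B) : G) = (x.1 : G) * x.2 * ((y.1 : G) * y.2)
        have h1 : (y.1 : G) * (x.2 : G) = (x.2 : G) * y.1 := hcomm y.1 y.1.2 x.2 x.2.2
        rw [Subgroup.coe_mul, Subgroup.coe_mul, mul_assoc, mul_assoc, ← mul_assoc (y.1 : G), h1, mul_assoc] } :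
      A × B →* G) hbij
  have iA := Fintype.ofFinite A
  have iB := Fintype.ofFinite B
  obtain ⟨α, hα, hα1⟩ := GalP.exists_nonlinear hAna
  have hdeg : ∀ (a : A → ℂ) (b : B → ℂ), IsIrrCharacter A a → IsIrrCharacter B b → a 1 * b 1 = 1 ∨ a 1 * b 1 = m := by
    intro a b ha hb
    have h1 := hcd _ (IsIrr.comp (CharCalc.isIrr_prod ha hb) e.symm.toMonoidHom e.symm.surjective)
    rwa [map_one] at h1
  have hαm : α 1 = m := by
    have h1 := hdeg α _ hα isIrr_one
    rw [mul_one] at h1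
    exact h1.resolve_left hα1
  have hBab : ∀ a b : B, a * b = b * a := by
    by_contra hBna
    obtain ⟨β, hβ, hβ1⟩ := GalP.exists_nonlinear hBna
    have h1 := hdeg _ β isIrr_one hβ
    rw [one_mul] at h1
    have hβm := h1.resolve_left hβ1
    have h2 := hdeg α β hα hβ
    rw [hαm, hβm] at h2
    rcases h2 with h2 | h2
    · have : m * m = 1 := by exact_mod_cast h2
      nlinarith
    · have : m * m = m := by exact_mod_cast h2
      nlinarith
  obtain ⟨d, hd0, hd, hdd⟩ := IsIrr.dvd_card hα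
  have hdm : d = m := by
    rw [hαm] at hd; exact_mod_cast hd.symm
  rw [hdm] at hdd
  obtain ⟨j, -, hj⟩ := (Nat.dvd_prime_pow hp.out).mp (hdd.trans hAc)
  refine ⟨p, j, hp.out, hj, A, B, hAn, hBn, hApg, fun a ha b hb => congrArg Subtype.val (hBab ⟨a, ha⟩ ⟨b, hb⟩), ?_, ?_⟩
  · apply Subgroup.inf_eq_bot_of_coprime
    exact Nat.Coprime.coprime_dvd_left hAc (Nat.Coprime.coprime_dvd_right hBc
      (Nat.Coprime.pow_left _ (Nat.coprime_ordCompl hp.out Nat.card_pos.ne')))
  · rw [eq_top_iff]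
    intro g _
    obtain ⟨x, hx⟩ := hbij.2 g
    rw [← hx]
    exact Subgroup.mul_mem_sup x.1.2 x.2.2

/-- S4457 -/
theorem main {m : ℕ} (hcd : ∀ χ : IrrCharacter G, charDegree (χ : G → ℂ) = 1 ∨ charDegree (χ : G → ℂ) = m)
    (hm : ∃ χ : IrrCharacter G, charDegree (χ : G → ℂ) = m) (hm1 : m ≠ 1) :
    (∃ A : Subgroup G, A.Normal ∧ (∀ a ∈ A, ∀ b ∈ A, a * b = b * a) ∧ A.index = m) ∨
    (∃ p e : ℕ, p.Prime ∧ m = p ^ e ∧ ∃ P A : Subgroup G, P.Normal ∧ A.Normal ∧ IsPGroup p P ∧
      (∀ a ∈ A, ∀ b ∈ A, a * b = b * a) ∧ P ⊓ A = ⊥ ∧ P ⊔ A = ⊤) := by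
  classical
  have iG := Fintype.ofFinite G
  obtain ⟨χ₀, hχ₀⟩ := hm
  have hm0 : 0 < m := by rw [← hχ₀]; exact H10.Char.charDegree_pos χ₀.2
  have hcd' : ∀ χ : G → ℂ, IsIrrCharacter G χ → χ 1 = 1 ∨ χ 1 = m := by
    intro χ hχ
    rw [DegLt.charDegree_cast hχ]
    rcases hcd ⟨χ, hχ⟩ with h | h
    · left; rw [show charDegree χ = 1 from h]; simp
    · right; rw [show charDegree χ = m from h]
  have hna : ¬ ∀ a b : G, a * b = b * a := by
    intro h
    have h1 := IsIrr.one_of_comm h χ₀.2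
    rw [DegLt.charDegree_cast χ₀.2, hχ₀] at h1
    exact hm1 (by exact_mod_cast h1)
  obtain ⟨M, hMn, hMm, hMi, hMnil⟩ := exists_M (by omega) hcd
  have iM := Fintype.ofFinite M
  have hMab' : ∀ a b : M, a * b = b * a := by
    by_contra hcon
    obtain ⟨θ, hθ, hθ1⟩ := GalP.exists_nonlinear hcon
    obtain ⟨d, hd0, hd, hdd⟩ := IsIrr.dvd_card hθ
    obtain ⟨χ, hχ, hne⟩ := exists_constituent_ind (G := G) hθ
    have h1 := (constituent_ind_iff (IsIrr.isCharacter hχ)).mp hne
    have h2 := clifford_degree hMn hχ hθ h1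
    obtain ⟨c, hc⟩ := ci_char_nat (IsChar.res (IsIrr.isCharacter hχ) M) (IsIrr.isCharacter hθ)
    rw [hc, hd] at h2
    have hd1 : d ≠ 1 := by rintro rfl; exact hθ1 (by rw [hd]; simp)
    rcases hcd' χ hχ with h3 | h3
    · rw [h3] at h2
      have h4 : 1 = c * (inertia hMn θ).index * d := by exact_mod_cast h2
      exact hd1 (Nat.eq_one_of_mul_eq_one_left h4.symm)
    · rw [h3] at h2
      have h4 : m = c * (inertia hMn θ).index * d := by exact_mod_cast h2
      have h5 : d ∣ m := Dvd.intro_left _ h4.symm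
      have h6 := Nat.dvd_gcd hdd h5
      rw [hMm] at h6
      exact hd1 (Nat.dvd_one.mp h6)
  have hMab : ∀ a ∈ M, ∀ b ∈ M, a * b = b * a := fun a ha b hb => congrArg Subtype.val (hMab' ⟨a, ha⟩ ⟨b, hb⟩)
  obtain ⟨K, hK⟩ := Subgroup.exists_right_complement'_of_coprime hMi
  have hKnil : Group.IsNilpotent K := by
    have e := hK.symm.QuotientMulEquiv
    apply Subgroup.isNilpotent_of_ker_le_center e.symm.toMonoidHom
    rw [(MonoidHom.ker_eq_bot_iff _).mpr e.symm.injective]
    exact bot_le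
  have hKc : (Nat.card K).Coprime (Nat.card M) := by
    rw [← hK.symm.index_eq_card] 
    exact hMi.symm
  rcases comp_case hMab hK hKc hKnil (by omega) hcd' with h | h
  · exact Or.inl h
  · right
    apply nil_case _ (by omega) hcd' hna
    apply Subgroup.isNilpotent_of_ker_le_center (QuotientGroup.mk' M)
    rw [QuotientGroup.ker_mk']; exact h

end Main

end Cfsg.Agent.H3.TwoDeg
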