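import Mathlib
import Cfsg.Prelude.Def_Characters
import Cfsg.Agent.H3_TwoDeg

/-!
# Groups with two irreducible character degrees: the derived subgroup, degrees `1` and `p`
-/

set_option autoImplicit false

open scoped ComplexConjugate commutatorElement

namespace Cfsg.Agent.H3.TwoDeg2

open Cfsg Cfsg.Agent.H3.CharBasic Cfsg.Agent.H3.CharIrr Cfsg.Agent.H3.CharComplete
  Cfsg.Agent.H3.CharMult Cfsg.Agent.H3.CharInd Cfsg.Agent.H3.CharInt Cfsg.Agent.H3.CharQuot
  Cfsg.Agent.H3.Clifford Cfsg.Agent.H3.Monomial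

section Taketa

variable {G : Type*} [Group G] [Fintype G]

/-- Taketa's argument with a rank function on degrees -/
theorem taketa_rank (hM : ∀ χ : G → ℂ, IsIrrCharacter G χ → IsMon χ) (rk : ℕ → ℕ)
    (hrk0 : ∀ χ : G → ℂ, IsIrrCharacter G χ → ∀ m : ℕ, χ 1 = m → rk m ≠ 0)
    (hrk : ∀ χ : G → ℂ, IsIrrCharacter G χ → ∀ m : ℕ, χ 1 = m → ∀ ψ : G → ℂ, IsIrrCharacter G ψ → ∀ b : ℕ,
      ψ 1 = b → b < m → rk b < rk m) (n : ℕ) :
    ∀ χ : G → ℂ, IsIrrCharacter G χ → ∀ m : ℕ, χ 1 = m → m ≤ n →
      ∀ g ∈ derivedSeries G (rk m), χ g = χ 1 := by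
  classical
  induction n with
  | zero =>
    intro χ hχ m hm hmn
    exfalso
    apply IsIrr.one_ne_zero hχ
    rw [hm]; simp; omega
  | succ n ih =>
    intro χ hχ m hm hmn
    obtain ⟨H, lam, hχH⟩ := hM χ hχ
    have hfH : Fintype H := Fintype.ofFinite _
    have hm0 : m ≠ 0 := by rintro rfl; exact IsIrr.one_ne_zero hχ (by rw [hm]; simp)
    obtain ⟨k, hk⟩ : ∃ k, rk m = k + 1 := ⟨rk m - 1, by have := hrk0 χ hχ m hm; omega⟩
    have hidx : H.index = m := by
      rw [hχH, ind_one] at hm
      simp only [map_one, Units.val_one, mul_one] at hm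
      exact_mod_cast hm
    -- the derived subgroup is contained in `H`
    have hD : derivedSeries G k ≤ H := by
      rcases Nat.lt_or_ge 1 m with hk1 | hk1
      swap
      · have : H = ⊤ := Subgroup.index_eq_one.mp (by omega)
        rw [this]; exact le_top
      · have := Fintype.ofFinite (IrrCharacter G)
        have hone := isIrr_one (G := H)
        have hchar := IsChar.ind (IsIrr.isCharacter hone)
        obtain ⟨a, ha, hsum⟩ := IsChar.eq_sum_nat hchar
        have hval : indFun H (fun _ => 1) 1 = (m : ℂ) := by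
          rw [ind_one, hidx]; simp
        intro g hg
        have h1 : indFun H (fun _ => 1) g = indFun H (fun _ => 1) 1 := by
          rw [hsum]
          simp only [Finset.sum_apply, Pi.smul_apply, smul_eq_mul]
          refine Finset.sum_congr rfl fun ψ _ => ?_
          by_cases h0 : a ψ = 0
          · rw [h0]; simp
          · congr 1
            obtain ⟨b, -, hb⟩ := IsIrr.one_eq_nat ψ.2
            have hne : classInner (indFun H (fun _ => 1)) (ψ : G → ℂ) ≠ 0 := by
              rw [ha]; exact_mod_cast h0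
            have hle := IsChar.degree_le' hchar ψ.2 hne hval hb
            have hbk : b < m := by
              by_contra hbk
              have hbk' : b = m := by omega
              have heq := IsChar.eq_of_degree hchar ψ.2 hne (by rw [hval, hb, hbk'])
              have h3 : classInner (indFun H (fun _ => 1)) (fun _ => 1 : G → ℂ) = 1 := by
                rw [frobenius H _ _ (IsIrr.isClass isIrr_one)]
                exact ci_irr_self hone
              have h4 : (ψ : G → ℂ) = fun _ => 1 := by
                by_contra hne'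
                rw [heq, ci_irr_ne ψ.2 isIrr_one hne'] at h3
                exact zero_ne_one h3
              rw [h4] at hb
              have hb' : (b : ℂ) = ((1 : ℕ) : ℂ) := by rw [← hb]; simp
              have : b = 1 := Nat.cast_injective hb'
              omega
            have hbr := hrk χ hχ m hm ψ ψ.2 b hb hbk
            exact ih ψ ψ.2 b hb (by omega) g (derivedSeries_antitone G (by omega) hg)
        have := mem_of_ind_triv h1 1
        simpa using this
    intro g hg
    have h5 : ∀ x : G, extendByZero H (fun h => (lam h : ℂ)) (x⁻¹ * g * x) = 1 := by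
      intro x
      have h6 : x⁻¹ * g * x ∈ derivedSeries G (k + 1) := by
        rw [hk] at hg
        have := (derivedSeries_normal G (k + 1)).conj_mem g hg x⁻¹
        simpa using this
      rw [derivedSeries_succ] at h6
      obtain ⟨y, hy, hyx⟩ := commutator_le_map_ker H lam (Subgroup.commutator_mono hD hD h6)
      rw [← hyx]
      have := ext_coe H (fun h => (lam h : ℂ)) y
      rw [Subgroup.coe_subtype, this, (show lam y = 1 from hy)]
      rfl
    have h7 : ∀ x : G, extendByZero H (fun h => (lam h : ℂ)) (x⁻¹ * 1 * x) = 1 := by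
      intro x
      have := ext_coe H (fun h => (lam h : ℂ)) 1
      simpa using this
    rw [hχH]
    simp only [indFun]
    rw [Finset.sum_congr rfl fun x _ => h5 x, Finset.sum_congr rfl fun x _ => h7 x]

theorem dl_two (hM : ∀ χ : G → ℂ, IsIrrCharacter G χ → IsMon χ) {m : ℕ} (hm1 : 1 < m)
    (hcd : ∀ χ : G → ℂ, IsIrrCharacter G χ → χ 1 = 1 ∨ χ 1 = m) : derivedSeries G 2 = ⊥ := by
  classical
  have key : ∀ (χ : G → ℂ), IsIrrCharacter G χ → ∀ b : ℕ, χ 1 = b → b = 1 ∨ b = m := by
    intro χ hχ b hb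
    rcases hcd χ hχ with h | h
    · left; rw [h] at hb; exact_mod_cast hb.symm
    · right; rw [h] at hb; exact_mod_cast hb.symm
  have h1 := taketa_rank hM (fun a => if a = 1 then 1 else 2) (fun χ hχ b hb => by
      show (if b = 1 then 1 else 2) ≠ 0
      split_ifs <;> omega)
    (fun χ hχ a ha ψ hψ b hb hba => by
      show (if b = 1 then 1 else 2) < (if a = 1 then 1 else 2)
      rcases key χ hχ a ha with h | h <;> rcases key ψ hψ b hb with h' | h' <;> split_ifs <;> omega) m
  rw [eq_bot_iff]
  intro g hg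
  rw [Subgroup.mem_bot]
  by_contra hne
  obtain ⟨χ, hχ, hχg⟩ := GalP.exists_irr_ne hne
  obtain ⟨b, hb0, hb⟩ := IsIrr.one_eq_nat hχ
  apply hχg
  rcases key χ hχ b hb with h | h
  · exact h1 χ hχ b hb (by omega) g (derivedSeries_antitone G (by
      show (if b = 1 then 1 else 2) ≤ 2
      split_ifs <;> omega) hg)
  · exact h1 χ hχ b hb (by omega) g (derivedSeries_antitone G (by
      show (if b = 1 then 1 else 2) ≤ 2
      split_ifs <;> omega) hg)

end Taketa

section Main

variable {G : Type*} [Group G] [Finite G]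

/-- consequences of the second alternative -/
theorem prod_case {p : ℕ} {P A : Subgroup G} (hPn : P.Normal) (hAn : A.Normal) (hP : IsPGroup p P)
    (hA : ∀ a ∈ A, ∀ b ∈ A, a * b = b * a) (hi : P ⊓ A = ⊥) (hs : P ⊔ A = ⊤) :
    IsPGroup p (G ⧸ A) ∧ commutator G ≤ P := by
  constructor
  · have h1 : IsPGroup p (P.map (QuotientGroup.mk' A)) := hP.map _
    have h2 : P.map (QuotientGroup.mk' A) = ⊤ := by
      have h5 := congrArg (Subgroup.map (QuotientGroup.mk' A)) hs
      rw [Subgroup.map_sup, QuotientGroup.map_mk'_self, sup_bot_eq,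
        Subgroup.map_top_of_surjective _ (QuotientGroup.mk'_surjective A)] at h5
      exact h5
    rw [h2] at h1
    exact h1.of_equiv Subgroup.topEquiv
  · rw [commutator_def, Subgroup.commutator_le]
    intro x _ y _
    have hx : x ∈ P ⊔ A := by rw [hs]; trivial
    have hy : y ∈ P ⊔ A := by rw [hs]; trivial
    obtain ⟨p1, hp1, a1, ha1, rfl⟩ := Subgroup.mem_sup_of_normal_left.mp hx
    obtain ⟨p2, hp2, a2, ha2, rfl⟩ := Subgroup.mem_sup_of_normal_left.mp hy
    rw [← QuotientGroup.eq_one_iff]
    have h1 : ((⁅p1 * a1, p2 * a2⁆ : G) : G ⧸ P) = ((⁅a1, a2⁆ : G) : G ⧸ P) := by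
      show (QuotientGroup.mk' P) ⁅p1 * a1, p2 * a2⁆ = (QuotientGroup.mk' P) ⁅a1, a2⁆
      rw [map_commutatorElement, map_commutatorElement, map_mul, map_mul]
      have e1 : (QuotientGroup.mk' P) p1 = 1 := (QuotientGroup.eq_one_iff p1).mpr hp1
      have e2 : (QuotientGroup.mk' P) p2 = 1 := (QuotientGroup.eq_one_iff p2).mpr hp2
      rw [e1, e2, one_mul, one_mul]
    rw [h1, commutatorElement_eq_one_iff_mul_comm.mpr (hA a1 ha1 a2 ha2)]
    rfl

/-- S4458 -/
theorem derived_comm {m : ℕ} (hcd : ∀ χ : IrrCharacter G, charDegree (χ : G → ℂ) = 1 ∨ charDegree (χ : G → ℂ) = m)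
    (hm : ∃ χ : IrrCharacter G, charDegree (χ : G → ℂ) = m) (hm1 : m ≠ 1) :
    ∀ a ∈ commutator G, ∀ b ∈ commutator G, a * b = b * a := by
  classical
  have hcd' : ∀ χ : G → ℂ, IsIrrCharacter G χ → χ 1 = 1 ∨ χ 1 = m := by
    intro χ hχ
    rw [DegLt.charDegree_cast hχ]
    rcases hcd ⟨χ, hχ⟩ with h | h
    · left; rw [show charDegree χ = 1 from h]; simp
    · right; rw [show charDegree χ = m from h]
  have hm0 : 0 < m := by
    obtain ⟨χ₀, hχ₀⟩ := hm
    rw [← hχ₀]; exact H10.Char.charDegree_pos χ₀.2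
  rcases TwoDeg.main hcd hm hm1 with ⟨A, hAn, hAab, hAi⟩ | ⟨p, e, hp, hpe, P, A, hPn, hAn, hPp, hAab, hi, hs⟩
  · have hle : commutator G ≤ A := by
      have hq : ∀ a b : G ⧸ A, a * b = b * a := by
        by_contra hcon
        have iQ := Fintype.ofFinite (G ⧸ A)
        obtain ⟨χ, hχ, hχ1⟩ := GalP.exists_nonlinear hcon
        have h1 : χ 1 = m := (hcd' _ (IsIrr.inflate hχ)).resolve_left hχ1
        have h2 := GalP.degree_le hχ h1
        rw [← Subgroup.index_eq_card, hAi] at h2
        have h3 : 0 < Nat.card (Subgroup.center (G ⧸ A)) := Nat.card_pos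
        have h4 : 2 ≤ m := by omega
        nlinarith
      rw [commutator_def, Subgroup.commutator_le]
      intro x _ y _
      rw [← QuotientGroup.eq_one_iff]
      show (QuotientGroup.mk' A) ⁅x, y⁆ = 1
      rw [map_commutatorElement, commutatorElement_eq_one_iff_mul_comm]
      exact hq _ _
    exact fun a ha b hb => hAab a (hle ha) b (hle hb)
  · obtain ⟨h1, h2⟩ := prod_case hPn hAn hPp hAab hi hs
    have hpF := Fact.mk hp
    have iQ := Fintype.ofFinite (G ⧸ A)
    have hnil : Group.IsNilpotent (G ⧸ A) := h1.isNilpotent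
    have h3 := dl_two (G := G ⧸ A) (fun χ hχ => mon_of_nilpotent hχ) (by omega : 1 < m)
      (fun χ hχ => hcd' _ (IsIrr.inflate hχ))
    intro a ha b hb
    have h4 : ⁅a, b⁆ ∈ derivedSeries G 2 := by
      rw [derivedSeries_succ, derivedSeries_one]
      exact Subgroup.commutator_mem_commutator ha hb
    have h5 : (QuotientGroup.mk' A) ⁅a, b⁆ ∈ derivedSeries (G ⧸ A) 2 := by
      rw [← map_derivedSeries_eq (QuotientGroup.mk'_surjective A)]
      exact Subgroup.mem_map_of_mem _ h4
    rw [h3, Subgroup.mem_bot] at h5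
    have h6 : ⁅a, b⁆ ∈ P ⊓ A := ⟨h2 (Subgroup.commutator_mem_commutator (Subgroup.mem_top a) (Subgroup.mem_top b)),
      (QuotientGroup.eq_one_iff _).mp h5⟩
    rw [hi, Subgroup.mem_bot] at h6
    exact commutatorElement_eq_one_iff_mul_comm.mp h6

end Main

end Cfsg.Agent.H3.TwoDeg2
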