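import Mathlib
import Cfsg.Prelude.Def_Characters
import Cfsg.Prelude.Def_Solvable
import Cfsg.Agent.H3_TwoDeg2
import Cfsg.Agent.H3_Berger
import Cfsg.Agent.H1_Hall
import Cfsg.Agent.H1_Nilp

/-!
# Kernels and degrees of irreducible characters (Garrison)
-/

set_option autoImplicit false

open scoped ComplexConjugate commutatorElement

namespace Cfsg.Agent.H3.Garr

open Cfsg Cfsg.Agent.H3.CharBasic Cfsg.Agent.H3.CharIrr Cfsg.Agent.H3.CharComplete
  Cfsg.Agent.H3.CharMult Cfsg.Agent.H3.CharInd Cfsg.Agent.H3.CharInt Cfsg.Agent.H3.CharQuot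
  Cfsg.Agent.H3.Clifford Cfsg.Agent.H3.Monomial

theorem res_irr {G : Type*} [Group G] [Finite G] {χ : G → ℂ} (hχ : IsIrrCharacter G χ) {K M : Subgroup G} [K.Normal]
    (hK : ∀ k ∈ K, χ k = χ 1) (hKM : K ⊔ M = ⊤) : IsIrrCharacter M (fun m : M => χ m) := by
  obtain ⟨n, ρ, hρ, rfl⟩ := hχ
  refine ⟨n, ρ.comp M.subtype, ?_, rfl⟩
  rw [irrep_iff] at hρ ⊢
  refine ⟨hρ.1, fun U hU => hρ.2 U ?_⟩
  intro g v hv
  have hg : g ∈ K ⊔ M := by rw [hKM]; trivial
  obtain ⟨k, hk, m, hm, rfl⟩ := Subgroup.mem_sup_of_normal_left.mp hg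
  have h1 := (rep_eq_one_iff ρ k).mpr (hK k hk)
  rw [map_mul, h1, one_mul]
  exact hU ⟨m, hm⟩ v hv

theorem key {G : Type*} [Group G] [Fintype G] {χ : G → ℂ} (hχ : IsIrrCharacter G χ) {K M : Subgroup G} [K.Normal]
    (hK : ∀ g, g ∈ K ↔ χ g = χ 1) (hM : IsCoatom M) (hKM : K ⊔ M = ⊤) :
    (∃ ψ : G → ℂ, IsIrrCharacter G ψ ∧ charDegree χ < charDegree ψ ∧ ∃ L : Subgroup G,
      (∀ g, g ∈ L ↔ ψ g = ψ 1) ∧ L < K) ∨
    ∀ m ∈ M, χ m ≠ 0 → ∀ x, x⁻¹ * m * x ∈ M := by
  classical
  have iM := Fintype.ofFinite M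
  have iI := Fintype.ofFinite (IrrCharacter G)
  have hθ : IsIrrCharacter M (fun m : M => χ m) := res_irr hχ (fun k hk => (hK k).mp hk) hKM
  by_cases hex : ∃ ψ : G → ℂ, IsIrrCharacter G ψ ∧ classInner (indFun M (fun m : M => χ m)) ψ ≠ 0 ∧
      charDegree χ < charDegree ψ
  · left
    obtain ⟨ψ, hψ, hne, hdeg⟩ := hex
    have hne' := (constituent_ind_iff (IsIrr.isCharacter hψ)).mp hne
    have hres := IsChar.res (IsIrr.isCharacter hψ) M
    refine ⟨ψ, hψ, hdeg, chKer ψ (IsIrr.isCharacter hψ), fun g => mem_chKer _ g, ?_⟩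
    have hLn := chKer_normal (IsIrr.isCharacter hψ)
    have hLM : chKer ψ (IsIrr.isCharacter hψ) ≤ M := by
      by_contra hcon
      have h1 : chKer ψ (IsIrr.isCharacter hψ) ⊔ M = ⊤ := by
        apply hM.2
        exact lt_of_le_of_ne le_sup_right fun h => hcon (by rw [h]; exact le_sup_left)
      have h2 := res_irr hψ (K := chKer ψ (IsIrr.isCharacter hψ)) (fun k hk => hk) h1
      have h3 : (fun m : M => ψ m) = fun m : M => χ m := by
        by_contra h
        exact hne' (ci_irr_ne h2 hθ h)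
      have h4 : ψ 1 = χ 1 := congrFun h3 1
      rw [DegLt.charDegree_cast hψ, DegLt.charDegree_cast hχ] at h4
      have h5 : charDegree ψ = charDegree χ := by exact_mod_cast h4
      omega
    have hLK : chKer ψ (IsIrr.isCharacter hψ) ≤ K := by
      intro g hg
      rw [hK]
      exact Berger.ker_of_ci hres hθ hne' (a := (⟨g, hLM hg⟩ : M)) hg
    refine lt_of_le_of_ne hLK fun h => ?_
    rw [h] at hLM
    rw [sup_eq_right.mpr hLM] at hKM
    exact hM.1 hKM
  · right
    push Not at hex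
    have hchar := IsChar.ind (IsIrr.isCharacter hθ)
    obtain ⟨n, hn, hsum⟩ := IsChar.eq_sum_nat hchar
    have hval : ∀ m : M, indFun M (fun m : M => χ m) m = (∑ ψ : IrrCharacter G, (n ψ : ℂ)) * χ m := by
      intro m
      rw [hsum]
      simp only [Finset.sum_apply, Pi.smul_apply, smul_eq_mul]
      rw [Finset.sum_mul]
      refine Finset.sum_congr rfl fun ψ _ => ?_
      by_cases h0 : n ψ = 0
      · rw [h0]; simp
      · have hne : classInner (indFun M (fun m : M => χ m)) (ψ : G → ℂ) ≠ 0 := by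
          rw [hn]; exact_mod_cast h0
        have hne' := (constituent_ind_iff (IsIrr.isCharacter ψ.2)).mp hne
        have hres := IsChar.res (IsIrr.isCharacter ψ.2) M
        have h1 := hex ψ ψ.2 hne
        have h2 := IsChar.degree_le' hres hθ hne' (DegLt.charDegree_cast ψ.2) (DegLt.charDegree_cast hχ)
        have h3 := IsChar.eq_of_degree hres hθ hne' (by
          show (ψ : G → ℂ) 1 = χ 1
          rw [DegLt.charDegree_cast ψ.2, DegLt.charDegree_cast hχ]
          congr 1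
          exact le_antisymm h1 h2)
        have h4 : (ψ : G → ℂ) m = χ m := congrFun h3 m
        rw [h4]
    have hsumn : (∑ ψ : IrrCharacter G, (n ψ : ℂ)) = (M.index : ℂ) := by
      have h1 := hval 1
      rw [OneMemClass.coe_one, ind_one] at h1
      exact mul_right_cancel₀ (IsIrr.one_ne_zero hχ) h1.symm
    have hprod : indFun M (fun m : M => χ m) = indFun M (fun _ => 1) * χ := by
      rw [← ind_mul_res M (fun _ => 1) χ (IsIrr.isClass hχ)]
      congr 1
      funext m
      rw [Pi.mul_apply, one_mul]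
    intro m hm hm0 x
    apply mem_of_ind_triv
    have h1 := hval ⟨m, hm⟩
    rw [hprod, hsumn, Pi.mul_apply] at h1
    have h2 := mul_right_cancel₀ hm0 h1
    rw [ind_one, mul_one]
    exact h2

theorem frattini {G : Type*} [Group G] [Finite G] {p : ℕ} [hp : Fact p.Prime] {P D : Subgroup G} [D.Normal]
    (hP : IsPGroup p P) (hPD : P ≤ D) (hi : ¬ p ∣ P.relIndex D) :
    Subgroup.normalizer (P : Set G) ⊔ D = ⊤ := by
  have h1 : IsPGroup p (P.subgroupOf D) := hP.of_equiv (Subgroup.subgroupOfEquivOfLe hPD).symm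
  have h2 := Sylow.normalizer_sup_eq_top (h1.toSylow hi)
  have h3 : ((h1.toSylow hi : Sylow p D) : Subgroup D).map D.subtype = P := by
    show (P.subgroupOf D).map D.subtype = P
    rw [Subgroup.subgroupOf_map_subtype, inf_eq_left.mpr hPD]
  rw [h3] at h2
  exact h2

/-- consequences of the second alternative -/
theorem inf_normal {G : Type*} [Group G] {χ : G → ℂ} {K M : Subgroup G} [hKn : K.Normal]
    (hK : ∀ g, g ∈ K ↔ χ g = χ 1) (h1 : χ 1 ≠ 0) (h : ∀ m ∈ M, χ m ≠ 0 → ∀ x, x⁻¹ * m * x ∈ M) : (K ⊓ M).Normal := by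
  constructor
  intro m hm g
  have h2 : χ m ≠ 0 := by rw [(hK m).mp hm.1]; exact h1
  have h3 := h m hm.2 h2 g⁻¹
  rw [inv_inv] at h3
  exact ⟨hKn.conj_mem m hm.1 g, h3⟩

theorem case1 {G : Type*} [Group G] [Fintype G] {χ : G → ℂ} (hχ : IsIrrCharacter G χ) {K : Subgroup G} [hKn : K.Normal]
    (hK : ∀ g, g ∈ K ↔ χ g = χ 1) (hnil : ¬ Group.IsNilpotent K) :
    ∃ ψ : G → ℂ, IsIrrCharacter G ψ ∧ charDegree χ < charDegree ψ ∧ ∃ L : Subgroup G,
      (∀ g, g ∈ L ↔ ψ g = ψ 1) ∧ L < K := by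
  classical
  obtain ⟨p, hp, P, hP⟩ : ∃ (p : ℕ) (_ : Fact p.Prime) (P : Sylow p K), ¬ (P : Subgroup K).Normal := by
    by_contra hcon
    push Not at hcon
    apply hnil
    exact (Group.isNilpotent_of_finite_tfae.out 0 3 rfl rfl).mpr (fun p hp P => hcon p hp P)
  obtain ⟨R, hR⟩ : ∃ R : Subgroup G, R = (P : Subgroup K).map K.subtype := ⟨_, rfl⟩
  have hRK : R ≤ K := by rw [hR]; exact Subgroup.map_subtype_le _
  have hRp : IsPGroup p R := by rw [hR]; exact P.isPGroup'.map _
  have hRs : R.subgroupOf K = P := by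
    rw [hR, ← Subgroup.comap_subtype]
    exact Subgroup.comap_map_eq_self_of_injective K.subtype_injective _
  have hNt : Subgroup.normalizer (R : Set G) ≠ ⊤ := by
    intro h
    have h1 : R.Normal := Subgroup.normalizer_eq_top_iff.mp h
    apply hP
    rw [← hRs]
    infer_instance
  obtain ⟨M, hM, hNM⟩ := (eq_top_or_exists_le_coatom (Subgroup.normalizer (R : Set G))).resolve_left hNt
  have hRi : ¬ p ∣ R.relIndex K := by
    rw [Subgroup.relIndex, hRs]; exact P.not_dvd_index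
  have hfr := frattini hRp hRK hRi
  have hKM : K ⊔ M = ⊤ := by
    rw [eq_top_iff, ← hfr]
    exact sup_le (hNM.trans le_sup_right) le_sup_left
  rcases key hχ hK hM hKM with h | h
  · exact h
  · exfalso
    have hD := inf_normal hK (IsIrr.one_ne_zero hχ) h
    have hRD : R ≤ K ⊓ M := le_inf hRK (Subgroup.le_normalizer.trans hNM)
    have h1 : ¬ p ∣ R.relIndex (K ⊓ M) := by
      intro h2
      apply hRi
      rw [← Subgroup.relIndex_mul_relIndex R (K ⊓ M) K hRD inf_le_left]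
      exact h2.mul_right _
    have h3 := frattini hRp hRD h1
    apply hM.1
    rw [eq_top_iff, ← h3]
    exact sup_le hNM inf_le_right

theorem case2 {G : Type*} [Group G] [Fintype G] {χ : G → ℂ} (hχ : IsIrrCharacter G χ) {K : Subgroup G} [hKn : K.Normal]
    (hK : ∀ g, g ∈ K ↔ χ g = χ 1) (hKF : K = fittingSubgroup G) (hs : Group.IsSolvable (G ⧸ K)) (hKt : K ≠ ⊤) :
    ∃ ψ : G → ℂ, IsIrrCharacter G ψ ∧ charDegree χ < charDegree ψ ∧ ∃ L : Subgroup G,
      (∀ g, g ∈ L ↔ ψ g = ψ 1) ∧ L < K := by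
  classical
  have hnt : Nontrivial (G ⧸ K) := QuotientGroup.nontrivial_iff.mpr hKt
  obtain ⟨Ub, hUbn, hUb, hUbmin⟩ := H1.Hall.exists_minimal_normal_of_nontrivial (G ⧸ K)
  obtain ⟨-, r, hr, hpow⟩ := H1.Hall.minimal_normal_elementary Ub hUb hUbmin
  have hrF := Fact.mk hr
  have hUbp : IsPGroup r Ub := H1.Hall.isPGroup_of_pow_eq_one hpow
  obtain ⟨k, hk⟩ := IsPGroup.iff_card.mp hUbp
  obtain ⟨U, hU⟩ : ∃ U : Subgroup G, U = Ub.comap (QuotientGroup.mk' K) := ⟨_, rfl⟩
  have hUn : U.Normal := by rw [hU]; exact hUbn.comap _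
  have hKU : K ≤ U := by rw [hU]; exact H1.Hall.le_comap_mk K Ub
  have hKUi : K.relIndex U = r ^ k := by rw [hU, H1.Hall.relIndex_comap_mk, hk]
  have hk0 : k ≠ 0 := by
    rintro rfl
    rw [pow_zero] at hk
    exact hUb (Subgroup.card_eq_one.mp hk)
  have hUK : ¬ U ≤ K := by
    intro h
    rw [Subgroup.relIndex_eq_one.mpr h] at hKUi
    exact (Nat.one_lt_pow hk0 hr.one_lt).ne hKUi
  obtain ⟨P⟩ : Nonempty (Sylow r U) := inferInstance
  obtain ⟨R, hR⟩ : ∃ R : Subgroup G, R = (P : Subgroup U).map U.subtype := ⟨_, rfl⟩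
  have hRU : R ≤ U := by rw [hR]; exact Subgroup.map_subtype_le _
  have hRp : IsPGroup r R := by rw [hR]; exact P.isPGroup'.map _
  have hRi : ¬ r ∣ R.relIndex U := by
    have hRs : R.subgroupOf U = P := by
      rw [hR, ← Subgroup.comap_subtype]
      exact Subgroup.comap_map_eq_self_of_injective U.subtype_injective _
    rw [Subgroup.relIndex, hRs]; exact P.not_dvd_index
  have hRK : ¬ R ≤ K := by
    intro h
    apply hRi
    rw [← Subgroup.relIndex_mul_relIndex R K U h hKU, hKUi]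
    exact (dvd_pow_self r hk0).mul_left _
  have hNt : Subgroup.normalizer (R : Set G) ≠ ⊤ := by
    intro h
    have h1 : R.Normal := Subgroup.normalizer_eq_top_iff.mp h
    apply hRK
    rw [hKF]
    exact (H1.Nilp.le_fitting_iff h1).mpr hRp.isNilpotent
  obtain ⟨M, hM, hNM⟩ := (eq_top_or_exists_le_coatom (Subgroup.normalizer (R : Set G))).resolve_left hNt
  have hRM : R ≤ M := Subgroup.le_normalizer.trans hNM
  have hUKR : U ≤ K ⊔ R := by
    rw [← Subgroup.relIndex_eq_one]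
    have h1 : (K ⊔ R).relIndex U ∣ r ^ k := by
      rw [← hKUi]; exact Subgroup.relIndex_dvd_of_le_left U le_sup_left
    have h2 : (K ⊔ R).relIndex U ∣ R.relIndex U := Subgroup.relIndex_dvd_of_le_left U le_sup_right
    obtain ⟨j, -, hj⟩ := (Nat.dvd_prime_pow hr).mp h1
    rcases Nat.eq_zero_or_pos j with rfl | hj0
    · rw [hj, pow_zero]
    · exfalso
      apply hRi
      rw [hj] at h2
      exact (dvd_pow_self r (by omega)).trans h2
  have hfr := frattini hRp hRU hRi
  have hKM : K ⊔ M = ⊤ := by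
    rw [eq_top_iff, ← hfr]
    exact sup_le (hNM.trans le_sup_right) (hUKR.trans (sup_le_sup_left hRM K))
  rcases key hχ hK hM hKM with h | h
  · exact h
  exfalso
  have hD := inf_normal hK (IsIrr.one_ne_zero hχ) h
  obtain ⟨U₀, hU₀⟩ : ∃ U₀ : Subgroup G, U₀ = U ⊓ M.normalCore := ⟨_, rfl⟩
  have hU₀n : U₀.Normal := by rw [hU₀]; infer_instance
  have hU₀U : U₀ ≤ U := by rw [hU₀]; exact inf_le_left
  rcases hUbmin (U₀.map (QuotientGroup.mk' K)) (hU₀n.map _ (QuotientGroup.mk'_surjective K)) (by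
    rw [Subgroup.map_le_iff_le_comap, ← hU]; exact hU₀U) with h0 | h0
  · -- `U₀ ≤ K`
    have hU₀K : U₀ ≤ K := by
      rw [Subgroup.map_eq_bot_iff, QuotientGroup.ker_mk'] at h0
      exact h0
    have hvan : ∀ u ∈ U, u ∉ K → χ u = 0 := by
      intro u hu huK
      have h1 : u ∈ K ⊔ M := by rw [hKM]; trivial
      obtain ⟨a, ha, m, hm, rfl⟩ := Subgroup.mem_sup_of_normal_left.mp h1
      rw [IsChar.mul_ker (IsIrr.isCharacter hχ) ((hK a).mp ha)]
      by_contra hne
      apply huK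
      apply mul_mem ha
      apply hU₀K
      rw [hU₀]
      refine ⟨?_, ?_⟩
      · have := mul_mem (inv_mem (hKU ha)) hu
        rwa [inv_mul_cancel_left] at this
      · intro b
        have := h m hm hne b⁻¹
        rwa [inv_inv] at this
    have iU := Fintype.ofFinite U
    have hin : InKer U χ := by
      rw [inKer_iff_inner hUn hχ]
      simp only [classInner, map_one, mul_one]
      apply mul_ne_zero (inv_ne_zero (by exact_mod_cast Nat.card_pos.ne'))
      have h1 : ∀ u : U, χ u = if (u : G) ∈ K then χ 1 else 0 := by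
        intro u
        split_ifs with h2
        · exact (hK u).mp h2
        · exact hvan u u.2 h2
      rw [Finset.sum_congr rfl (fun u _ => h1 u), ← Finset.sum_filter, Finset.sum_const, nsmul_eq_mul]
      apply mul_ne_zero _ (IsIrr.one_ne_zero hχ)
      have h2 : (1 : U) ∈ Finset.univ.filter (fun u : U => (u : G) ∈ K) := by
        rw [Finset.mem_filter]; exact ⟨Finset.mem_univ _, one_mem K⟩
      exact_mod_cast (Finset.card_pos.mpr ⟨_, h2⟩).ne'
    apply hUK
    intro u hu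
    rw [hK]
    have := hin u hu 1
    rwa [mul_one] at this
  · -- `K U₀ = U`
    have hU2 : ∀ u ∈ U, ∃ a ∈ K, ∃ b ∈ U₀, u = a * b := by
      intro u hu
      have h1 : (QuotientGroup.mk' K) u ∈ U₀.map (QuotientGroup.mk' K) := by
        rw [h0]
        rw [hU] at hu
        exact hu
      obtain ⟨b, hb, hbu⟩ := h1
      refine ⟨u * b⁻¹, ?_, b, hb, by rw [inv_mul_cancel_right]⟩
      rw [← QuotientGroup.eq_one_iff]
      show (QuotientGroup.mk' K) (u * b⁻¹) = 1
      rw [map_mul, map_inv, hbu, mul_inv_cancel]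
    have hDU₀ : K ⊓ M ≤ U₀ := by
      rw [hU₀]
      refine le_inf (inf_le_left.trans hKU) ?_
      rw [Subgroup.normal_le_normalCore]
      exact inf_le_right
    have hRU₀ : R ≤ U₀ := by
      intro y hy
      obtain ⟨a, ha, b, hb, rfl⟩ := hU2 y (hRU hy)
      apply mul_mem _ hb
      apply hDU₀
      refine ⟨ha, ?_⟩
      have hbM : b ∈ M := by
        rw [hU₀] at hb
        exact M.normalCore_le hb.2
      have := mul_mem (hRM hy) (inv_mem hbM)
      rwa [mul_inv_cancel_right] at this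
    have h1 : ¬ r ∣ R.relIndex U₀ := by
      intro h2
      apply hRi
      rw [← Subgroup.relIndex_mul_relIndex R U₀ U hRU₀ hU₀U]
      exact h2.mul_right _
    have h3 := frattini hRp hRU₀ h1
    apply hM.1
    rw [eq_top_iff, ← h3]
    refine sup_le hNM ?_
    rw [hU₀]
    exact inf_le_right.trans M.normalCore_le

/-- S4461 -/
theorem main {G : Type*} [Group G] [Finite G] {χ : G → ℂ} (hχ : IsIrrCharacter G χ) (K : Subgroup G) [hKn : K.Normal]
    (hK : ∀ g, g ∈ K ↔ χ g = χ 1)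
    (h : ¬ K ≤ fittingSubgroup G ∨ (K = fittingSubgroup G ∧ Group.IsSolvable (G ⧸ K) ∧ K ≠ ⊤)) :
    ∃ ψ : G → ℂ, IsIrrCharacter G ψ ∧ charDegree χ < charDegree ψ ∧ ∃ L : Subgroup G,
      (∀ g, g ∈ L ↔ ψ g = ψ 1) ∧ L < K := by
  have iG := Fintype.ofFinite G
  rcases h with h | ⟨h1, h2, h3⟩
  · exact case1 hχ hK fun hn => h ((H1.Nilp.le_fitting_iff hKn).mpr hn)
  · exact case2 hχ hK h1 h2 h3

end Cfsg.Agent.H3.Garr
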