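import Mathlib
import Cfsg.Prelude.Def_Characters
import Cfsg.Prelude.Def_Solvable
import Cfsg.Agent.H3_Garr

/-!
# The nilpotent length is bounded by the number of irreducible character degrees
-/

set_option autoImplicit false

open scoped ComplexConjugate commutatorElement

namespace Cfsg.Agent.H3.Garr2

open Cfsg Cfsg.Agent.H3.CharBasic Cfsg.Agent.H3.CharIrr Cfsg.Agent.H3.CharComplete
  Cfsg.Agent.H3.CharMult Cfsg.Agent.H3.CharInd Cfsg.Agent.H3.CharInt Cfsg.Agent.H3.CharQuot

universe u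

def cdS (G : Type u) [Group G] : Set ℕ := {d | ∃ χ : IrrCharacter G, charDegree (χ : G → ℂ) = d}

theorem cd_finite (G : Type u) [Group G] [Finite G] : (cdS G).Finite :=
  Set.finite_range (fun χ : IrrCharacter G => charDegree (χ : G → ℂ))

theorem one_mem_cd (G : Type u) [Group G] : 1 ∈ cdS G := by
  refine ⟨⟨fun _ => 1, isIrr_one⟩, ?_⟩
  show charDegree (fun _ : G => (1 : ℂ)) = 1
  simp [charDegree]

/-- chains with nilpotent factors -/
def NL (G : Type u) [Group G] (n : ℕ) : Prop :=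
  ∃ N : ℕ → Subgroup G, N 0 = ⊥ ∧ N n = ⊤ ∧ Monotone N ∧ (∀ i, (N i).Normal) ∧
    ∀ i, ∀ _h : ((N i).subgroupOf (N (i + 1))).Normal, Group.IsNilpotent (↥(N (i + 1)) ⧸ (N i).subgroupOf (N (i + 1)))

theorem nilp_of_ker {X Y : Type*} [Group X] [Group Y] (φ : X →* Y) (S : Subgroup X) [hSn : S.Normal]
    (hS : ∀ x, x ∈ S ↔ φ x = 1) (hY : Group.IsNilpotent Y) : Group.IsNilpotent (X ⧸ S) := by
  let ψ : X ⧸ S →* Y := QuotientGroup.lift S φ (fun x hx => (hS x).mp hx)
  apply Subgroup.isNilpotent_of_ker_le_center ψ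
  intro q hq
  obtain ⟨x, rfl⟩ := QuotientGroup.mk'_surjective S q
  have h1 : φ x = 1 := hq
  have h2 : (QuotientGroup.mk' S) x = 1 := (QuotientGroup.eq_one_iff x).mpr ((hS x).mpr h1)
  rw [h2]; exact one_mem _

theorem NL_of_nilpotent {G : Type u} [Group G] (h : Group.IsNilpotent G) {n : ℕ} (hn : n ≠ 0) : NL G n := by
  refine ⟨fun i => if i = 0 then ⊥ else ⊤, by simp, by simp [hn], ?_, ?_, ?_⟩
  · intro i j hij
    show (if i = 0 then (⊥ : Subgroup G) else ⊤) ≤ (if j = 0 then ⊥ else ⊤)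
    split_ifs with h1 h2
    · exact le_rfl
    · exact bot_le
    · omega
    · exact le_rfl
  · intro i
    show (if i = 0 then (⊥ : Subgroup G) else ⊤).Normal
    split_ifs <;> infer_instance
  · intro i _
    have h1 : ∀ H : Subgroup G, Group.IsNilpotent H := fun H => inferInstance
    exact Group.nilpotent_quotient_of_nilpotent _

theorem NL_succ {G : Type u} [Group G] {F : Subgroup G} [hF : F.Normal] (hFn : Group.IsNilpotent F) {n : ℕ}
    (h : NL (G ⧸ F) n) {m : ℕ} (hm : n + 1 ≤ m) : NL G m := by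
  obtain ⟨N, h0, hn, hmono, hnorm, hnil⟩ := h
  have hNt : ∀ i, n ≤ i → N i = ⊤ := fun i hi => top_le_iff.mp (hn ▸ hmono hi)
  refine ⟨fun i => match i with
    | 0 => ⊥
    | i + 1 => (N i).comap (QuotientGroup.mk' F), rfl, ?_, ?_, ?_, ?_⟩
  · obtain ⟨j, rfl⟩ : ∃ j, m = j + 1 := ⟨m - 1, by omega⟩
    show (N j).comap (QuotientGroup.mk' F) = ⊤
    rw [hNt j (by omega), Subgroup.comap_top]
  · apply monotone_nat_of_le_succ
    intro i
    cases i with
    | zero => exact bot_le
    | succ i => exact Subgroup.comap_mono (hmono (Nat.le_succ i))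
  · intro i
    cases i with
    | zero => exact Subgroup.normal_bot
    | succ i => exact (hnorm i).comap _
  · intro i hi
    cases i with
    | zero =>
      have e : (N 0).comap (QuotientGroup.mk' F) = F := by
        rw [h0]
        exact (QuotientGroup.ker_mk' F)
      have h1 : Group.IsNilpotent ↥((N 0).comap (QuotientGroup.mk' F)) := by rw [e]; exact hFn
      exact Group.nilpotent_quotient_of_nilpotent _
    | succ i =>
      have hN1 := hnorm i
      have h1 := hnil i inferInstance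
      let φ : ↥((N (i + 1)).comap (QuotientGroup.mk' F)) →* ↥(N (i + 1)) ⧸ (N i).subgroupOf (N (i + 1)) :=
        (QuotientGroup.mk' _).comp ((QuotientGroup.mk' F).subgroupComap (N (i + 1)))
      refine nilp_of_ker φ _ ?_ h1
      intro x
      show x ∈ ((N i).comap (QuotientGroup.mk' F)).subgroupOf ((N (i + 1)).comap (QuotientGroup.mk' F)) ↔ _
      rw [Subgroup.mem_subgroupOf, Subgroup.mem_comap]
      constructor
      · intro hx
        exact (QuotientGroup.eq_one_iff _).mpr hx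
      · intro hx
        exact (QuotientGroup.eq_one_iff (N := (N i).subgroupOf (N (i + 1)))
          ((QuotientGroup.mk' F).subgroupComap (N (i + 1)) x)).mp hx

theorem main_aux (k : ℕ) : ∀ (G : Type u) [Group G] [Finite G], Nat.card G = k → Group.IsSolvable G →
    NL G (cdS G).ncard := by
  induction k using Nat.strong_induction_on with
  | _ k ih =>
  intro G _ _ hk hs
  classical
  have hn0 : (cdS G).ncard ≠ 0 := ((Set.ncard_pos (cd_finite G)).mpr ⟨1, one_mem_cd G⟩).ne'
  by_cases hnil : Group.IsNilpotent G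
  · exact NL_of_nilpotent hnil hn0
  obtain ⟨F, hF⟩ : ∃ F : Subgroup G, F = fittingSubgroup G := ⟨_, rfl⟩
  have hFn : F.Normal := by rw [hF]; infer_instance
  have hFnil : Group.IsNilpotent F := by rw [hF]; exact H1.Nilp.fitting_nilpotent
  have hFt : F ≠ ⊤ := by
    intro h
    apply hnil
    rw [h] at hFnil
    exact Group.nilpotent_of_mulEquiv Subgroup.topEquiv
  have hFb : F ≠ ⊥ := by
    intro h
    have hnt : Nontrivial G := by
      by_contra h1
      rw [not_nontrivial_iff_subsingleton] at h1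
      exact hnil inferInstance
    obtain ⟨N, hN, hNb, hNmin⟩ := H1.Hall.exists_minimal_normal_of_nontrivial G
    obtain ⟨-, r, hr, hpow⟩ := H1.Hall.minimal_normal_elementary N hNb hNmin
    have hrF := Fact.mk hr
    have h1 : IsPGroup r N := H1.Hall.isPGroup_of_pow_eq_one hpow
    have h2 := (H1.Nilp.le_fitting_iff hN).mpr h1.isNilpotent
    rw [← hF, h, le_bot_iff] at h2
    exact hNb h2
  have hsq : Group.IsSolvable (G ⧸ F) := Group.isSolvable_of_surjective (QuotientGroup.mk'_surjective F)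
  have hlt : Nat.card (G ⧸ F) < k := by
    rw [← hk, ← Subgroup.index_eq_card, ← F.index_mul_card]
    have h1 : 1 < Nat.card F := (Subgroup.one_lt_card_iff_ne_bot F).mpr hFb
    have h2 : 0 < F.index := Nat.pos_of_ne_zero Subgroup.FiniteIndex.index_ne_zero
    nlinarith
  have hI := ih _ hlt (G ⧸ F) rfl hsq
  apply NL_succ hFnil hI
  -- a new degree
  have hfin := cd_finite (G ⧸ F)
  obtain ⟨b, hb, hbmax⟩ := Set.exists_max_image (cdS (G ⧸ F)) id hfin ⟨1, one_mem_cd _⟩
  obtain ⟨χ', hχ'⟩ := hb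
  have hχ : IsIrrCharacter G (fun g => (χ' : G ⧸ F → ℂ) (g : G ⧸ F)) := IsIrr.inflate χ'.2
  obtain ⟨K, hK⟩ : ∃ K : Subgroup G, K = chKer _ (IsIrr.isCharacter hχ) := ⟨_, rfl⟩
  have hKn : K.Normal := by rw [hK]; exact chKer_normal _
  have hKm : ∀ g, g ∈ K ↔ (χ' : G ⧸ F → ℂ) (g : G ⧸ F) = (χ' : G ⧸ F → ℂ) ((1 : G) : G ⧸ F) := by
    intro g; rw [hK]; exact mem_chKer _ g
  have hFK : F ≤ K := by
    intro g hg
    rw [hKm, (QuotientGroup.eq_one_iff g).mpr hg]; rfl
  obtain ⟨ψ, hψ, hdeg, -⟩ := Garr.main hχ K hKm (by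
    by_cases h : K ≤ F
    · right
      have h1 : K = F := le_antisymm h hFK
      refine ⟨h1.trans hF, ?_, by rw [h1]; exact hFt⟩
      exact Group.isSolvable_of_surjective (QuotientGroup.mk'_surjective K)
    · left
      rw [← hF]; exact h)
  have hdeg' : b < charDegree ψ := by
    rw [← hχ']; exact hdeg
  have hsub : insert (charDegree ψ) (cdS (G ⧸ F)) ⊆ cdS G := by
    intro d hd
    rcases hd with rfl | ⟨θ, hθ⟩
    · exact ⟨⟨ψ, hψ⟩, rfl⟩
    · exact ⟨⟨_, IsIrr.inflate θ.2⟩, hθ⟩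
  have hnot : charDegree ψ ∉ cdS (G ⧸ F) := by
    intro h
    have := hbmax _ h
    simp only [id] at this
    omega
  have h1 := Set.ncard_le_ncard hsub (cd_finite G)
  rwa [Set.ncard_insert_of_notMem hnot hfin] at h1

/-- S4462 -/
theorem main {G : Type u} [Group G] [Finite G] (hsolv : Group.IsSolvable G) (n : ℕ)
    (hcd : Nat.card {d : ℕ // ∃ χ : IrrCharacter G, charDegree (χ : G → ℂ) = d} = n) :
    ∃ N : Fin (n + 1) → Subgroup G, N 0 = ⊥ ∧ N (Fin.last n) = ⊤ ∧ Monotone N ∧ (∀ i, (N i).Normal) ∧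
      ∀ i : Fin n, ∀ _h : ((N i.castSucc).subgroupOf (N i.succ)).Normal,
        Group.IsNilpotent (↥(N i.succ) ⧸ (N i.castSucc).subgroupOf (N i.succ)) := by
  have h1 : (cdS G).ncard = n := by
    rw [← hcd]; rfl
  obtain ⟨N, h0, hn, hmono, hnorm, hnil⟩ := main_aux (Nat.card G) G rfl hsolv
  rw [h1] at hn
  refine ⟨fun i => N i, h0, hn, fun i j hij => hmono hij, fun i => hnorm i, ?_⟩
  intro i hi
  exact hnil i hi

end Cfsg.Agent.H3.Garr2
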