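import Mathlib
import Cfsg.Agent.H3_GlCyc

/-!
# The Glauberman correspondence for cyclic operator groups, II
-/

set_option autoImplicit false

open scoped ComplexConjugate

namespace Cfsg.Agent.H3.GlCyc

open Cfsg Cfsg.Agent.H3.CharBasic Cfsg.Agent.H3.CharIrr Cfsg.Agent.H3.CharInt
  Cfsg.Agent.H3.CharComplete Cfsg.Agent.H3.CharInd Cfsg.Agent.H3.Clifford Cfsg.Agent.H3.Lift
  Cfsg.Agent.H26.Ext2 Cfsg.Agent.H3.CharGal Cfsg.Agent.H3.GalProd Cfsg.Agent.H3.CharCalc
  Cfsg.Agent.H3.CharMult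

section Coeff

variable {Γ : Type*} [Group Γ] [Fintype Γ] {S C : Subgroup Γ} [Fintype C]

/-- the coefficient of `β` in `c ↦ χ (c x)` -/
noncomputable def aa (S : Subgroup Γ) (χ : Γ → ℂ) (β : C → ℂ) (x : S) : ℂ := classInner (fun c : C => χ (c * x)) β

theorem aa_char (hcomm : ∀ c ∈ C, ∀ s ∈ S, c * s = s * c) {χ : Γ → ℂ} (hχ : IsCharacter Γ χ) {β : C → ℂ} (hβ : IsIrrCharacter C β) :
    IsCharacter S (aa S χ β) := by
  classical
  have : Fintype S := Fintype.ofFinite _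
  have : Fintype (IrrCharacter (C × S)) := Fintype.ofFinite _
  let j : C × S →* Γ :=
    { toFun := fun x => x.1 * x.2
      map_one' := by simp
      map_mul' := fun a b => by
        show ((a.1 : Γ) * b.1) * (a.2 * b.2) = (a.1 * a.2) * (b.1 * b.2)
        have := hcomm _ b.1.2 _ a.2.2
        rw [mul_assoc, ← mul_assoc (b.1 : Γ), this]; group }
  have hΘ : IsCharacter (C × S) (fun x => χ (j x)) := by
    obtain ⟨n, ρ, rfl⟩ := hχ
    exact ⟨n, ρ.comp j, rfl⟩
  obtain ⟨n, -, hn⟩ := IsChar.eq_sum_nat hΘ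
  have h1 : aa S χ β = ∑ ξ : IrrCharacter (C × S), (n ξ) • (fun x : S => classInner (fun c : C => (ξ : C × S → ℂ) (c, x)) β) := by
    funext x
    have h2 : (fun c : C => χ (c * x)) = ∑ ξ : IrrCharacter (C × S), (n ξ : ℂ) • (fun c : C => (ξ : C × S → ℂ) (c, x)) := by
      funext c
      have h3 := congrFun hn (c, x)
      rw [Finset.sum_apply] at h3 ⊢
      exact h3
    rw [aa, h2, ci_sum_left, Finset.sum_apply]
    refine Finset.sum_congr rfl fun ξ _ => ?_
    rw [ci_smul_left, Pi.smul_apply, nsmul_eq_mul]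
  rw [h1]
  refine IsChar.sum _ _ fun ξ _ => IsChar.nsmul ?_ _
  obtain ⟨φ, ψ, hφ, hψ, hξ⟩ := (isIrr_prod_iff (ξ : C × S → ℂ)).mp ξ.2
  have h2 : (fun x : S => classInner (fun c : C => (ξ : C × S → ℂ) (c, x)) β) = fun x => ψ x * classInner φ β := by
    funext x
    have h3 : (fun c : C => (ξ : C × S → ℂ) (c, x)) = ψ x • φ := by
      funext c
      rw [hξ, Pi.smul_apply, smul_eq_mul, mul_comm]
    rw [h3, ci_smul_left]
  rw [h2]
  by_cases h : φ = β
  · have h3 : (fun x => ψ x * classInner φ β) = ψ := by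
      funext x; rw [h, ci_irr_self hβ, mul_one]
    rw [h3]; exact IsIrr.isCharacter hψ
  · have h3 : (fun x => ψ x * classInner φ β) = 0 := by
      funext x; rw [ci_irr_ne hφ hβ h, mul_zero]; rfl
    rw [h3]; exact IsChar.zero

theorem aa_one {χ : Γ → ℂ} {β : C → ℂ} : aa S χ β 1 = classInner (fun c : C => χ c) β := by
  rw [aa]; simp

end Coeff

theorem int_of_gal {S : Type*} [Group S] [Finite S] {a : S → ℂ} (ha : IsCharacter S a)
    (h : ∀ m : ℕ, m.Coprime (Nat.card S) → ∀ x, a (x ^ m) = a x) (x : S) : ∃ n : ℤ, a x = n := by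
  have : NeZero (Nat.card S) := ⟨Nat.card_pos.ne'⟩
  have hx : x ^ Nat.card S = 1 := pow_card_eq_one'
  obtain ⟨q, hq⟩ := rat_of_fixed (⟨a x, IsChar.mem_cyc ha x hx⟩ : Cyc (Nat.card S)) (fun σ => by
    obtain ⟨m, hm, hσ⟩ := gal_actsAs (Nat.card S) σ
    apply Subtype.ext
    rw [IsChar.gal ha x hx hσ _ rfl]
    exact h m hm x)
  have hq : a x = q := hq
  have h1 := IsChar.isIntegral ha x
  rw [hq] at h1
  obtain ⟨n, hn⟩ := exists_int_of_isIntegral h1
  exact ⟨n, by rw [hq, hn]; simp⟩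

section Main

variable {Γ : Type*} [Group Γ] [Fintype Γ] {G S C : Subgroup Γ} [hG : G.Normal] [Fintype G] [Fintype C]

theorem power_CS (hidx : G.index = Nat.card S) (hCG : C ≤ G) (hcomm : ∀ c ∈ C, ∀ s ∈ S, c * s = s * c)
    (hcop : (Nat.card G).Coprime (Nat.card S)) {χ : Γ → ℂ} (hχ : IsIrrCharacter Γ χ) (hr : IsIrrCharacter G (fun g : G => χ g))
    (hd : (detOrder χ).Coprime (Nat.card S)) {m : ℕ} (hm : m.Coprime (Nat.card S)) (c : C) (x : S) :
    χ (c * (x : Γ) ^ m) = χ (c * x) := by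
  obtain ⟨k, hk1, hk2⟩ := Nat.chineseRemainder hcop 1 m
  have hkS : (Nat.card S).Coprime k := by
    have h1 := Nat.ModEq.gcd_eq hk2
    rw [Nat.coprime_comm]
    show Nat.gcd k (Nat.card S) = 1
    rw [h1]
    exact hm
  have h1 := power (by rw [hidx]; exact hcop) hχ hr (by rw [hidx]; exact hd) hk1 (by rw [hidx]; exact hkS) ((c : Γ) * x)
  have hcx : Commute (c : Γ) x := hcomm c c.2 x x.2
  rw [hcx.mul_pow] at h1
  have h2 : (c : Γ) ^ k = c := by
    have h3 : (⟨c, hCG c.2⟩ : G) ^ k = ⟨c, hCG c.2⟩ := by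
      conv_rhs => rw [← pow_one (⟨c, hCG c.2⟩ : G)]
      rw [← pow_mod_natCard _ k, ← pow_mod_natCard _ 1, hk1]
    have h4 := congrArg (fun z : G => (z : Γ)) h3
    simpa using h4
  have h3 : (x : Γ) ^ k = (x : Γ) ^ m := by
    have h3 : x ^ k = x ^ m := by
      rw [← pow_mod_natCard _ k, ← pow_mod_natCard _ m, hk2]
    have h4 := congrArg (fun z : S => (z : Γ)) h3
    simpa using h4
  rw [h2, h3] at h1
  exact h1

theorem aa_int (hidx : G.index = Nat.card S) (hCG : C ≤ G) (hcomm : ∀ c ∈ C, ∀ s ∈ S, c * s = s * c)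
    (hcop : (Nat.card G).Coprime (Nat.card S)) {χ : Γ → ℂ} (hχ : IsIrrCharacter Γ χ) (hr : IsIrrCharacter G (fun g : G => χ g))
    (hd : (detOrder χ).Coprime (Nat.card S)) {β : C → ℂ} (hβ : IsIrrCharacter C β) (x : S) : ∃ n : ℤ, aa S χ β x = n := by
  apply int_of_gal (aa_char hcomm (IsIrr.isCharacter hχ) hβ)
  intro m hm x
  simp only [aa]
  congr 1
  funext c
  have := power_CS hidx hCG hcomm hcop hχ hr hd hm c x
  push_cast
  exact this

theorem isClass_CS (hcomm : ∀ c ∈ C, ∀ s ∈ S, c * s = s * c) {χ : Γ → ℂ} (hχ : IsIrrCharacter Γ χ) {s : Γ} (hs : s ∈ S) :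
    IsClassFunction C (fun c : C => χ (c * s)) := by
  intro c d
  have h1 := IsChar.isClass (IsIrr.isCharacter hχ) ((c : Γ) * s) (d : Γ)
  have h2 : (d : Γ) * (c * s) * (d : Γ)⁻¹ = (d * c * (d : Γ)⁻¹) * s := by
    have := hcomm _ (C.inv_mem d.2) s hs
    rw [mul_assoc, mul_assoc (c : Γ), ← this]; group
  rw [h2] at h1
  exact h1

theorem inner_eq (hcop : (Nat.card G).Coprime (Nat.card S)) {χ χ' : Γ → ℂ} (hχ : IsIrrCharacter Γ χ)
    (hχ' : IsIrrCharacter Γ χ') {s : Γ} (hs : s ∈ S) (hC : C = G ⊓ Subgroup.centralizer ({s} : Set Γ)) :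
    classInner (fun c : C => χ (c * s)) (fun c : C => χ' (c * s)) = (Nat.card G : ℂ)⁻¹ * ∑ g : G, χ (g * s) * conj (χ' (g * s)) := by
  have hord : (Nat.card G).Coprime (orderOf s) := by
    refine Nat.Coprime.coprime_dvd_right ?_ hcop
    have := orderOf_dvd_natCard (⟨s, hs⟩ : S)
    rwa [Subgroup.orderOf_mk] at this
  have h1 := transfer (C := C) hord hC (fun x => χ x * conj (χ' x)) (fun g _ y => by
    rw [IsChar.isClass (IsIrr.isCharacter hχ) y g, IsChar.isClass (IsIrr.isCharacter hχ') y g])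
  have h2 : (Nat.card G : ℂ) ≠ 0 := by exact_mod_cast Nat.card_pos.ne'
  have h3 : (Nat.card C : ℂ) ≠ 0 := by exact_mod_cast Nat.card_pos.ne'
  rw [classInner]
  rw [inv_mul_eq_iff_eq_mul₀ h3, ← mul_assoc, mul_comm (Nat.card C : ℂ), mul_assoc, eq_inv_mul_iff_mul_eq₀ h2]
  exact h1

theorem inner_self (hcop : (Nat.card G).Coprime (Nat.card S)) {χ : Γ → ℂ} (hχ : IsIrrCharacter Γ χ) (hr : IsIrrCharacter G (fun g : G => χ g))
    {s : Γ} (hs : s ∈ S) (hC : C = G ⊓ Subgroup.centralizer ({s} : Set Γ)) :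
    classInner (fun c : C => χ (c * s)) (fun c : C => χ (c * s)) = 1 := by
  rw [inner_eq hcop hχ hχ hs hC, coset_self hχ hr, inv_mul_cancel₀]
  exact_mod_cast Nat.card_pos.ne'

theorem inner_ne (hcop : (Nat.card G).Coprime (Nat.card S)) {χ χ' : Γ → ℂ} (hχ : IsIrrCharacter Γ χ) (hχ' : IsIrrCharacter Γ χ')
    (hr : IsIrrCharacter G (fun g : G => χ g)) (hr' : IsIrrCharacter G (fun g : G => χ' g))
    (hne : (fun g : G => χ g) ≠ fun g : G => χ' g)
    {s : Γ} (hs : s ∈ S) (hC : C = G ⊓ Subgroup.centralizer ({s} : Set Γ)) :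
    classInner (fun c : C => χ (c * s)) (fun c : C => χ' (c * s)) = 0 := by
  rw [inner_eq hcop hχ hχ' hs hC, coset_ne hχ hχ' hr hr' hne, mul_zero]

/-- the key statement: `c ↦ χ (c s)` is `± β` -/
theorem exists_beta (hidx : G.index = Nat.card S) (hCG : C ≤ G) (hcomm : ∀ c ∈ C, ∀ s ∈ S, c * s = s * c)
    (hcop : (Nat.card G).Coprime (Nat.card S)) {χ : Γ → ℂ} (hχ : IsIrrCharacter Γ χ) (hr : IsIrrCharacter G (fun g : G => χ g))
    (hd : (detOrder χ).Coprime (Nat.card S)) {s : Γ} (hs : s ∈ S) (hC : C = G ⊓ Subgroup.centralizer ({s} : Set Γ)) :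
    ∃ (β : IrrCharacter C) (ε : ℤ), (ε = 1 ∨ ε = -1) ∧ ∀ c : C, χ (c * s) = (ε : ℂ) * (β : C → ℂ) c := by
  classical
  have : Fintype (IrrCharacter C) := Fintype.ofFinite _
  have hcl := isClass_CS hcomm hχ hs
  choose n hn using fun β : IrrCharacter C => aa_int hidx hCG hcomm hcop hχ hr hd β.2 ⟨s, hs⟩
  have hn' : ∀ β : IrrCharacter C, classInner (fun c : C => χ (c * s)) (β : C → ℂ) = n β := hn
  have h1 := ci_eq_sum (fun c : C => χ (c * s)) (fun c : C => χ (c * s)) hcl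
  rw [inner_self hcop hχ hr hs hC] at h1
  have h2 : ∑ β : IrrCharacter C, n β * n β = 1 := by
    have h3 : (1 : ℂ) = ∑ β : IrrCharacter C, (n β : ℂ) * (n β : ℂ) := by
      rw [h1]
      refine Finset.sum_congr rfl fun β _ => ?_
      rw [hn', map_intCast]
    exact_mod_cast h3.symm
  obtain ⟨β, hβ⟩ : ∃ β, n β ≠ 0 := by
    by_contra hcon
    push Not at hcon
    rw [Finset.sum_eq_zero (fun β _ => by rw [hcon β]; ring)] at h2
    exact zero_ne_one h2
  rw [← Finset.add_sum_erase _ _ (Finset.mem_univ β)] at h2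
  have h3 : 0 ≤ ∑ β' ∈ Finset.univ.erase β, n β' * n β' := Finset.sum_nonneg fun _ _ => mul_self_nonneg _
  have h4 : 1 ≤ n β * n β := by
    have : 0 < n β * n β := mul_self_pos.mpr hβ
    omega
  have h5 : ∑ β' ∈ Finset.univ.erase β, n β' * n β' = 0 := by omega
  have h6 : n β * n β = 1 := by omega
  have h7 : ∀ β', β' ≠ β → n β' = 0 := by
    intro β' hne
    have := (Finset.sum_eq_zero_iff_of_nonneg (fun _ _ => mul_self_nonneg _)).mp h5 β' (Finset.mem_erase.mpr ⟨hne, Finset.mem_univ _⟩)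
    exact mul_self_eq_zero.mp this
  refine ⟨β, n β, ?_, ?_⟩
  · exact mul_self_eq_one_iff.mp h6
  · intro c
    have h8 := expand_apply (fun c : C => χ (c * s)) hcl c
    rw [Finset.sum_eq_single β] at h8
    · rw [hn'] at h8
      exact h8
    · intro β' _ hne
      rw [hn', h7 β' hne]; simp
    · intro h; exact absurd (Finset.mem_univ _) h

end Main

end Cfsg.Agent.H3.GlCyc
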