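import Mathlib
import Cfsg.Agent.H3_GlCyc2
import Cfsg.Agent.H25_Glaub3

/-!
# The Glauberman correspondence for cyclic operator groups, III
-/

set_option autoImplicit false

open scoped ComplexConjugate Pointwise

namespace Cfsg.Agent.H3.GlCyc

open Cfsg Cfsg.Agent.H3.CharBasic Cfsg.Agent.H3.CharIrr Cfsg.Agent.H3.CharInt
  Cfsg.Agent.H3.CharComplete Cfsg.Agent.H3.CharInd Cfsg.Agent.H25.Glaub Cfsg.Agent.H25.Glaub2

variable {Γ : Type*} [Group Γ] [Fintype Γ] {G S C : Subgroup Γ}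

theorem normal_of (hnorm : ∀ s ∈ S, ∀ g ∈ G, s * g * s⁻¹ ∈ G) (htop : G ⊔ S = ⊤) : G.Normal := by
  rw [← Subgroup.normalizer_eq_top_iff, eq_top_iff, ← htop]
  exact sup_le Subgroup.le_normalizer (Cfsg.Agent.H25.Glaub3.le_normalizer_of_nrm hnorm)

theorem index_of (hnorm : ∀ s ∈ S, ∀ g ∈ G, s * g * s⁻¹ ∈ G) (htop : G ⊔ S = ⊤) (hcop : (Nat.card G).Coprime (Nat.card S)) :
    G.index = Nat.card S := by
  have : G.Normal := normal_of hnorm htop
  have hc : Subgroup.IsComplement' G S := by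
    apply Subgroup.isComplement'_of_disjoint_and_mul_eq_univ
    · exact Subgroup.disjoint_of_coprime_natCard hcop
    · rw [← Subgroup.normal_mul, htop]; rfl
  exact hc.symm.index_eq_card

theorem centralizer_of {s : Γ} (hs : Subgroup.zpowers s = S) : Subgroup.centralizer ({s} : Set Γ) = Subgroup.centralizer (S : Set Γ) := by
  ext x
  rw [Subgroup.mem_centralizer_singleton_iff, Subgroup.mem_centralizer_iff, ← hs]
  constructor
  · rintro h y ⟨k, rfl⟩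
    exact (Commute.zpow_right h k).symm.eq
  · intro h
    exact (h s (Subgroup.mem_zpowers s)).symm

theorem comm_of (hC : C = G ⊓ Subgroup.centralizer (S : Set Γ)) : ∀ c ∈ C, ∀ s ∈ S, c * s = s * c := by
  intro c hc s hs
  rw [hC] at hc
  exact (Subgroup.mem_centralizer_iff.mp hc.2 s hs).symm

theorem gen_pow {s s' : Γ} (hs : Subgroup.zpowers s = S) (hs' : Subgroup.zpowers s' = S) : ∃ m : ℕ, m.Coprime (Nat.card S) ∧ s' = s ^ m := by
  have h1 : s' ∈ Subgroup.zpowers s := by rw [hs, ← hs']; exact Subgroup.mem_zpowers s'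
  rw [← mem_powers_iff_mem_zpowers] at h1
  obtain ⟨m, rfl⟩ := h1
  refine ⟨m, ?_, rfl⟩
  have h2 : orderOf s = Nat.card S := by rw [← hs, Nat.card_zpowers]
  have h3 : orderOf (s ^ m) = Nat.card S := by rw [← hs', Nat.card_zpowers]
  rw [orderOf_pow, h2] at h3
  have h4 : 0 < Nat.card S := Nat.card_pos
  have h5 : Nat.gcd (Nat.card S) m ∣ Nat.card S := Nat.gcd_dvd_left _ _
  have h6 := Nat.div_mul_cancel h5
  rw [h3] at h6
  rw [Nat.coprime_comm]
  exact Nat.eq_of_mul_eq_mul_left h4 (by rw [h6, mul_one])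

theorem inv_of_TInv [Fintype G] [hG : G.Normal] (htop : G ⊔ S = ⊤) {θ : G → ℂ} (hθ : IsIrrCharacter G θ) (h : TInv S θ) :
    ∀ (g : Γ) (n : G), θ ⟨g * n * g⁻¹, hG.conj_mem (n : Γ) n.2 g⟩ = θ n := by
  intro g n
  have h5 : g ∈ (G : Set Γ) * (S : Set Γ) := by
    rw [← Subgroup.normal_mul, htop]; trivial
  obtain ⟨k, hk, s, hs, hks⟩ := h5
  have hks : k * s = g := hks
  have h6 : s * n * s⁻¹ ∈ G := hG.conj_mem _ n.2 s
  have h7 : (⟨g * n * g⁻¹, hG.conj_mem (n : Γ) n.2 g⟩ : G) = ⟨k, hk⟩ * ⟨s * n * s⁻¹, h6⟩ * (⟨k, hk⟩ : G)⁻¹ := by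
    apply Subtype.ext
    show g * n * g⁻¹ = k * (s * n * s⁻¹) * k⁻¹
    rw [← hks]; group
  rw [h7, IsChar.isClass (IsIrr.isCharacter hθ)]
  exact h s hs n _ rfl

theorem sign_unique {C : Type*} [Group C] {β β' : C → ℂ} (hβ : IsIrrCharacter C β) (hβ' : IsIrrCharacter C β') {ε ε' : ℤ}
    (hε : ε = 1 ∨ ε = -1) (hε' : ε' = 1 ∨ ε' = -1) (h : ∀ c, (ε : ℂ) * β c = (ε' : ℂ) * β' c) : β = β' ∧ ε = ε' := by
  obtain ⟨a, ha, ha'⟩ := IsIrr.one_eq_nat hβ
  obtain ⟨b, hb, hb'⟩ := IsIrr.one_eq_nat hβ'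
  have h1 := h 1
  rw [ha', hb'] at h1
  have h2 : ε * a = ε' * b := by exact_mod_cast h1
  have h3 : ε = ε' := by
    rcases hε with rfl | rfl <;> rcases hε' with rfl | rfl <;> omega
  subst h3
  refine ⟨?_, rfl⟩
  funext c
  have h4 : (ε : ℂ) ≠ 0 := by
    rcases hε with rfl | rfl <;> norm_num
  exact mul_left_cancel₀ h4 (h c)

section Main

variable [Fintype G] [Fintype C] (hnorm : ∀ s ∈ S, ∀ g ∈ G, s * g * s⁻¹ ∈ G) (hcop : (Nat.card G).Coprime (Nat.card S))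
  (htop : G ⊔ S = ⊤) (hC : C = G ⊓ Subgroup.centralizer (S : Set Γ))

include hnorm hcop htop hC in
theorem exists_main {s0 : Γ} (hs0 : Subgroup.zpowers s0 = S) {χh : Γ → ℂ} (hχh : IsIrrCharacter Γ χh)
    (hr : IsIrrCharacter G (fun g : G => χh g)) (hd : (detOrder χh).Coprime (Nat.card S)) :
    ∃ (β : IrrCharacter C) (ε : ℤ), (ε = 1 ∨ ε = -1) ∧ ∀ c : C, ∀ s : Γ, Subgroup.zpowers s = S → χh (c * s) = (ε : ℂ) * (β : C → ℂ) c := by
  have hG : G.Normal := normal_of hnorm htop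
  have hidx := index_of hnorm htop hcop
  have hCG : C ≤ G := by rw [hC]; exact inf_le_left
  have hs0S : s0 ∈ S := by rw [← hs0]; exact Subgroup.mem_zpowers s0
  obtain ⟨β, ε, hε, h⟩ := exists_beta hidx hCG (comm_of hC) hcop hχh hr hd hs0S (by rw [hC, centralizer_of hs0])
  refine ⟨β, ε, hε, fun c s hs => ?_⟩
  obtain ⟨m, hm, rfl⟩ := gen_pow hs0 hs
  rw [← h c]
  exact power_CS hidx hCG (comm_of hC) hcop hχh hr hd hm c ⟨s0, hs0S⟩

include hC in
theorem constituent {s0 : Γ} (hs0 : s0 ∈ S) {χh : Γ → ℂ} (hχh : IsIrrCharacter Γ χh)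
    {β : C → ℂ} (hβ : IsIrrCharacter C β) {ε : ℤ} (hε : ε = 1 ∨ ε = -1) (h : ∀ c : C, χh (c * s0) = (ε : ℂ) * β c) :
    classInner (fun c : C => χh c) β ≠ 0 := by
  intro h0
  have h1 := aa_char (comm_of hC) (IsIrr.isCharacter hχh) hβ
  have h2 : aa S χh β = 0 := IsChar.zero_of_one h1 (by rw [aa_one, h0])
  have h3 := congrFun h2 ⟨s0, hs0⟩
  have h4 : aa S χh β ⟨s0, hs0⟩ = (ε : ℂ) := by
    show classInner (fun c : C => χh (c * s0)) β = ε
    have h5 : (fun c : C => χh (c * s0)) = (ε : ℂ) • β := funext h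
    rw [h5, ci_smul_left, ci_irr_self hβ, mul_one]
  rw [h4] at h3
  rcases hε with rfl | rfl <;> simp at h3

include hnorm hcop htop hC in
theorem injective {s0 : Γ} (hs0 : Subgroup.zpowers s0 = S) {χ χ' : Γ → ℂ} (hχ : IsIrrCharacter Γ χ) (hχ' : IsIrrCharacter Γ χ')
    (hr : IsIrrCharacter G (fun g : G => χ g)) (hr' : IsIrrCharacter G (fun g : G => χ' g)) {β : C → ℂ} (hβ : IsIrrCharacter C β)
    {ε ε' : ℤ} (hε : ε = 1 ∨ ε = -1) (hε' : ε' = 1 ∨ ε' = -1) (h : ∀ c : C, χ (c * s0) = (ε : ℂ) * β c)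
    (h' : ∀ c : C, χ' (c * s0) = (ε' : ℂ) * β c) : (fun g : G => χ g) = fun g : G => χ' g := by
  have hG : G.Normal := normal_of hnorm htop
  by_contra hne
  have hs0S : s0 ∈ S := by rw [← hs0]; exact Subgroup.mem_zpowers s0
  have h1 := inner_ne hcop hχ hχ' hr hr' hne hs0S (C := C) (by rw [hC, centralizer_of hs0])
  have h5 : (fun c : C => χ (c * s0)) = (ε : ℂ) • β := funext h
  have h6 : (fun c : C => χ' (c * s0)) = (ε' : ℂ) • β := funext h'
  rw [h5, h6, ci_smul_left, ci_smul_right, ci_irr_self hβ] at h1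
  rcases hε with rfl | rfl <;> rcases hε' with rfl | rfl <;> simp at h1

include hnorm hcop htop hC in
theorem surjective (hcyc : IsCyclic S) (β : IrrCharacter C) :
    ∃ (χ : IrrCharacter G) (χh : IrrCharacter Γ) (ε : ℤ), TInv S (χ : G → ℂ) ∧ (∀ g : G, (χh : Γ → ℂ) g = (χ : G → ℂ) g) ∧
      (detOrder (χh : Γ → ℂ)).Coprime (Nat.card S) ∧ (ε = 1 ∨ ε = -1) ∧
      ∀ c : C, ∀ s : Γ, Subgroup.zpowers s = S → (χh : Γ → ℂ) ((c : Γ) * s) = (ε : ℂ) * (β : C → ℂ) c := by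
  classical
  have hG : G.Normal := normal_of hnorm htop
  have hidx := index_of hnorm htop hcop
  obtain ⟨g, hg⟩ := hcyc.exists_generator
  have hs0 : Subgroup.zpowers (g : Γ) = S := by
    ext x
    constructor
    · rintro ⟨k, rfl⟩; exact S.zpow_mem g.2 k
    · intro hx
      obtain ⟨k, hk⟩ := hg ⟨x, hx⟩
      exact ⟨k, by simpa using congrArg (fun z : S => (z : Γ)) hk⟩
  have hsolv : Group.IsSolvable S := by
    have : IsCyclic S := hcyc
    have hcomm : ∀ a b : S, a * b = b * a := (IsCyclic.commGroup (α := S)).mul_comm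
    exact Group.isSolvable_of_comm hcomm
  have hcan : ∀ χ : {χ : IrrCharacter G // TInv S (χ : G → ℂ)}, ∃ χh : IrrCharacter Γ, (∀ g : G, (χh : Γ → ℂ) g = (χ.1 : G → ℂ) g) ∧
      (detOrder (χh : Γ → ℂ)).Coprime (Nat.card S) := by
    intro χ
    obtain ⟨χh, ⟨h1, h2, h3⟩, -⟩ := Cfsg.Agent.H3.GK.canon G (by rw [hidx]; exact hcop) χ.1.2 (inv_of_TInv htop χ.1.2 χ.2)
    refine ⟨⟨χh, h1⟩, h2, ?_⟩
    show (detOrder χh).Coprime (Nat.card S)
    rw [h3]
    exact Nat.Coprime.coprime_dvd_left (Cfsg.Agent.H3.GK.detOrder_dvd (IsIrr.isCharacter χ.1.2)) hcop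
  choose E hE hEd using hcan
  have hres : ∀ χ, (fun g : G => (E χ : Γ → ℂ) g) = (χ.1 : G → ℂ) := fun χ => funext (hE χ)
  have hbet : ∀ χ, ∃ (β : IrrCharacter C) (ε : ℤ), (ε = 1 ∨ ε = -1) ∧ ∀ c : C, ∀ s : Γ, Subgroup.zpowers s = S →
      (E χ : Γ → ℂ) (c * s) = (ε : ℂ) * (β : C → ℂ) c := fun χ =>
    exists_main hnorm hcop htop hC hs0 (E χ).2 (by rw [hres χ]; exact χ.1.2) (hEd χ)
  choose B e he hB using hbet
  have hinj : Function.Injective B := by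
    intro χ χ' h
    apply Subtype.ext
    apply Subtype.ext
    rw [← hres χ, ← hres χ']
    exact injective hnorm hcop htop hC hs0 (E χ).2 (E χ').2 (by rw [hres χ]; exact χ.1.2) (by rw [hres χ']; exact χ'.1.2)
      (B χ).2 (he χ) (he χ') (fun c => hB χ c _ hs0) (fun c => by rw [h]; exact hB χ' c _ hs0)
  have hcard := Cfsg.Agent.H25.Glaub3.card_inv_irr (G := G) (S := S) (C := C) hnorm hsolv hcop hC
  have hbij : Function.Bijective B := (Nat.bijective_iff_injective_and_card B).mpr ⟨hinj, hcard⟩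
  obtain ⟨χ, hχ⟩ := hbij.2 β
  exact ⟨χ.1, E χ, e χ, χ.2, hE χ, hEd χ, he χ, fun c s hs => by rw [← hχ]; exact hB χ c s hs⟩

end Main

end Cfsg.Agent.H3.GlCyc
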