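import Mathlib
import Cfsg.Agent.H3_GlCyc3

/-!
# Characters of abelian groups with small values
-/

set_option autoImplicit false

open scoped ComplexConjugate

namespace Cfsg.Agent.H3.GlCyc

open Cfsg Cfsg.Agent.H3.CharBasic Cfsg.Agent.H3.CharIrr Cfsg.Agent.H3.CharInt
  Cfsg.Agent.H3.CharComplete Cfsg.Agent.H3.CharInd Cfsg.Agent.H3.CharMult

section Abelian

variable {S : Type*} [Group S] [Fintype S] [Fintype (IrrCharacter S)] (hcomm : ∀ a b : S, a * b = b * a)

include hcomm in
theorem irr_one (χ : IrrCharacter S) : (χ : S → ℂ) 1 = 1 := by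
  obtain ⟨n, hn0, hn⟩ := IsIrr.one_eq_nat χ.2
  have h := IsIrr.dvd_index_center χ.2 hn
  have hc : Subgroup.center S = ⊤ := by
    rw [eq_top_iff]; intro x _; rw [Subgroup.mem_center_iff]; intro y; exact hcomm y x
  rw [hc, Subgroup.index_top, Nat.dvd_one] at h
  rw [hn, h, Nat.cast_one]

include hcomm in
theorem irr_norm (χ : IrrCharacter S) (x : S) : ‖(χ : S → ℂ) x‖ = 1 := by
  obtain ⟨f, hf⟩ := IsChar.hom_units_of_one (IsIrr.isCharacter χ.2) (irr_one hcomm χ)
  rw [hf]
  apply norm_eq_one_of_pow (n := Nat.card S) Nat.card_pos.ne'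
  rw [← Units.val_pow_eq_pow_val, ← map_pow, pow_card_eq_one', map_one, Units.val_one]

include hcomm in
theorem sum_irr (x : S) [Decidable (x = 1)] : ∑ χ : IrrCharacter S, (χ : S → ℂ) x = if x = 1 then (Nat.card S : ℂ) else 0 := by
  classical
  have h := sum_one_mul x
  rw [← h]
  refine Finset.sum_congr rfl fun χ _ => ?_
  rw [irr_one hcomm χ]; simp

include hcomm in
theorem card_irr' : Fintype.card (IrrCharacter S) = Nat.card S := by
  classical
  have h := sum_irr hcomm (1 : S)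
  rw [if_pos rfl, Finset.sum_congr rfl (fun χ _ => irr_one hcomm χ)] at h
  simp only [Finset.sum_const, Finset.card_univ, nsmul_eq_mul, mul_one] at h
  exact_mod_cast h

include hcomm in
/-- a character of an abelian group taking only the values `0, ±1` off the identity -/
theorem small_values {a : S → ℂ} (ha : IsCharacter S a) (hv : ∀ x, x ≠ 1 → a x = 0 ∨ a x = 1 ∨ a x = -1) :
    (∃ k : ℕ, (∀ x, x ≠ 1 → a x = 0) ∧ a 1 = (Nat.card S : ℂ) * k) ∨
      ∃ (k : ℕ) (ε : ℤ) (μ : IrrCharacter S), (ε = 1 ∨ ε = -1) ∧ (∀ x, x ≠ 1 → a x = ε * (μ : S → ℂ) x) ∧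
        a 1 = (Nat.card S : ℂ) * k + ε := by
  classical
  obtain ⟨m, hm, hsum⟩ := IsChar.eq_sum_nat ha
  have hval : ∀ x, a x = ∑ χ : IrrCharacter S, (m χ : ℂ) * (χ : S → ℂ) x := by
    intro x
    conv_lhs => rw [hsum]
    rw [Finset.sum_apply]; rfl
  obtain ⟨n, hn⟩ : ∃ n : ℕ, n = Nat.card S := ⟨_, rfl⟩
  have hn0 : 0 < n := by rw [hn]; exact Nat.card_pos
  have hnC : (n : ℂ) ≠ 0 := by exact_mod_cast hn0.ne'
  rw [← hn]
  have hcS : Fintype.card S = n := by rw [hn, Nat.card_eq_fintype_card]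
  -- differences of multiplicities
  have hdiff : ∀ χ ψ : IrrCharacter S, m χ ≤ m ψ + 1 := by
    intro χ ψ
    have h1 : (n : ℂ) * ((m χ : ℂ) - m ψ) = ∑ x : S, a x * (conj ((χ : S → ℂ) x) - conj ((ψ : S → ℂ) x)) := by
      rw [← hm χ, ← hm ψ, classInner, classInner, ← hn, ← mul_sub, ← mul_assoc, mul_inv_cancel₀ hnC, one_mul,
        ← Finset.sum_sub_distrib]
      refine Finset.sum_congr rfl fun x _ => ?_
      ring
    have h2 : ‖(n : ℂ) * ((m χ : ℂ) - m ψ)‖ ≤ 2 * (n - 1 : ℝ) := by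
      rw [h1, ← Finset.add_sum_erase _ _ (Finset.mem_univ (1 : S)), irr_one hcomm χ, irr_one hcomm ψ, sub_self, mul_zero, zero_add]
      refine (norm_sum_le _ _).trans ?_
      have h3 : ∀ x ∈ Finset.univ.erase (1 : S), ‖a x * (conj ((χ : S → ℂ) x) - conj ((ψ : S → ℂ) x))‖ ≤ 2 := by
        intro x hx
        rw [norm_mul]
        have h4 : ‖a x‖ ≤ 1 := by
          rcases hv x (Finset.ne_of_mem_erase hx) with h | h | h <;> rw [h] <;> simp
        have h5 : ‖conj ((χ : S → ℂ) x) - conj ((ψ : S → ℂ) x)‖ ≤ 2 := by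
          refine (norm_sub_le _ _).trans ?_
          rw [RCLike.norm_conj, RCLike.norm_conj, irr_norm hcomm, irr_norm hcomm]; norm_num
        calc ‖a x‖ * ‖conj ((χ : S → ℂ) x) - conj ((ψ : S → ℂ) x)‖ ≤ 1 * 2 := by
              apply mul_le_mul h4 h5 (norm_nonneg _) zero_le_one
          _ = 2 := by norm_num
      refine (Finset.sum_le_sum h3).trans ?_
      rw [Finset.sum_const, Finset.card_erase_of_mem (Finset.mem_univ _), Finset.card_univ, hcS, nsmul_eq_mul,
        Nat.cast_sub hn0]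
      push_cast
      linarith
    have h3 : ‖(n : ℂ) * ((m χ : ℂ) - m ψ)‖ = n * |(m χ : ℝ) - m ψ| := by
      have : (n : ℂ) * ((m χ : ℂ) - m ψ) = ((n * ((m χ : ℝ) - m ψ) : ℝ) : ℂ) := by push_cast; ring
      rw [this, Complex.norm_real, Real.norm_eq_abs, abs_mul, abs_of_nonneg (Nat.cast_nonneg n)]
    rw [h3] at h2
    by_contra hcon
    push Not at hcon
    have h4 : (2 : ℝ) ≤ (m χ : ℝ) - m ψ := by
      have : m ψ + 2 ≤ m χ := by omega
      have h5 : ((m ψ + 2 : ℕ) : ℝ) ≤ m χ := by exact_mod_cast this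
      push_cast at h5; linarith
    have h5 : (2 : ℝ) ≤ |(m χ : ℝ) - m ψ| := h4.trans (le_abs_self _)
    have hn1 : (0 : ℝ) < n := by exact_mod_cast hn0
    nlinarith
  obtain ⟨χ0, -, hmin⟩ := Finset.exists_min_image (Finset.univ : Finset (IrrCharacter S)) m ⟨⟨fun _ => 1, isIrr_one⟩, Finset.mem_univ _⟩
  obtain ⟨k, hk⟩ : ∃ k : ℕ, k = m χ0 := ⟨_, rfl⟩
  have hmk : ∀ χ, m χ = k ∨ m χ = k + 1 := by
    intro χ
    have h1 := hmin χ (Finset.mem_univ _)
    have h2 := hdiff χ χ0
    omega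
  let A : Finset (IrrCharacter S) := Finset.univ.filter (fun χ => m χ = k + 1)
  have hmA : ∀ χ, m χ = k + if χ ∈ A then 1 else 0 := by
    intro χ
    rcases hmk χ with h | h
    · rw [if_neg (by simp [A, h])]; omega
    · rw [if_pos (by simp [A, h])]; omega
  have hcI : Fintype.card (IrrCharacter S) = n := by rw [card_irr' hcomm, hn]
  have hAn : A.card < n := by
    rw [← hcI, ← Finset.card_univ]
    apply Finset.card_lt_card
    refine ⟨Finset.subset_univ _, fun h => ?_⟩
    have := h (Finset.mem_univ χ0)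
    simp only [A, Finset.mem_filter] at this
    omega
  -- degree
  have hsm : ∑ χ : IrrCharacter S, m χ = n * k + A.card := by
    rw [Finset.sum_congr rfl (fun χ _ => hmA χ), Finset.sum_add_distrib, Finset.sum_const, Finset.card_univ, hcI,
      Finset.sum_ite_mem, Finset.univ_inter, Finset.sum_const]
    simp
  have hsm2 : ∑ χ : IrrCharacter S, m χ * m χ = n * (k * k) + (2 * k + 1) * A.card := by
    have h1 : ∀ χ, m χ * m χ = k * k + if χ ∈ A then 2 * k + 1 else 0 := by
      intro χ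
      rw [hmA χ]
      split_ifs
      · ring
      · ring
    rw [Finset.sum_congr rfl (fun χ _ => h1 χ), Finset.sum_add_distrib, Finset.sum_const, Finset.card_univ, hcI,
      Finset.sum_ite_mem, Finset.univ_inter, Finset.sum_const]
    simp; ring
  have ha1 : a 1 = ((n * k + A.card : ℕ) : ℂ) := by
    rw [hval 1, ← hsm]
    push_cast
    exact Finset.sum_congr rfl fun χ _ => by rw [irr_one hcomm χ, mul_one]
  -- the support
  obtain ⟨t, ht⟩ : ∃ t : ℕ, t = ((Finset.univ.erase (1 : S)).filter (fun x => a x ≠ 0)).card := ⟨_, rfl⟩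
  have htn : t + 1 ≤ n := by
    have : t ≤ n - 1 := by
      rw [ht, ← hcS, ← Finset.card_univ, ← Finset.card_erase_of_mem (Finset.mem_univ (1 : S))]
      exact Finset.card_le_card (Finset.filter_subset _ _)
    omega
  have hnorm : (n : ℂ) * (∑ χ : IrrCharacter S, m χ * m χ : ℕ) = (a 1) * (a 1) + t := by
    have h1 := ci_eq_sum a a (IsChar.isClass ha)
    have h2 : classInner a a = ((∑ χ : IrrCharacter S, m χ * m χ : ℕ) : ℂ) := by
      rw [h1]
      push_cast
      refine Finset.sum_congr rfl fun χ _ => ?_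
      rw [hm χ, map_natCast]
    rw [← h2, classInner, ← hn, ← mul_assoc, mul_inv_cancel₀ hnC, one_mul,
      ← Finset.add_sum_erase _ _ (Finset.mem_univ (1 : S))]
    congr 1
    · rw [ha1, map_natCast]
    · have h3 : ∀ x ∈ Finset.univ.erase (1 : S), a x * conj (a x) = if a x ≠ 0 then 1 else 0 := by
        intro x hx
        rcases hv x (Finset.ne_of_mem_erase hx) with h | h | h <;> rw [h] <;> simp
      rw [Finset.sum_congr rfl h3, ← Finset.sum_filter, Finset.sum_const, ht]
      simp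
  rw [ha1, hsm2] at hnorm
  have hkey : n * (n * (k * k) + (2 * k + 1) * A.card) = (n * k + A.card) * (n * k + A.card) + t := by exact_mod_cast hnorm
  have hkey2 : n * A.card = A.card * A.card + t := by nlinarith
  have hcases : A.card = 0 ∨ A.card = 1 ∨ A.card + 1 = n := by
    by_contra hcon
    push Not at hcon
    obtain ⟨h1, h2, h3⟩ := hcon
    obtain ⟨b, hb⟩ : ∃ b, A.card = b + 2 := ⟨A.card - 2, by omega⟩
    obtain ⟨c, hc⟩ : ∃ c, n = A.card + c + 2 := ⟨n - A.card - 2, by omega⟩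
    rw [hb] at hkey2 hc
    rw [hc] at hkey2 htn
    nlinarith
  have hs0 : ∀ x, x ≠ 1 → ∑ χ : IrrCharacter S, (χ : S → ℂ) x = 0 := fun x hx => by rw [sum_irr hcomm x, if_neg hx]
  rcases hcases with h | h | h
  · left
    refine ⟨k, fun x hx => ?_, by rw [ha1, h]; push_cast; ring⟩
    rw [hval x]
    have h1 : ∀ χ, m χ = k := by
      intro χ
      rw [hmA χ, if_neg (by rw [Finset.card_eq_zero.mp h]; simp), add_zero]
    rw [Finset.sum_congr rfl (fun χ _ => by rw [h1 χ]), ← Finset.mul_sum, hs0 x hx, mul_zero]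
  · right
    obtain ⟨μ, hμ⟩ := Finset.card_eq_one.mp h
    refine ⟨k, 1, μ, Or.inl rfl, fun x hx => ?_, by rw [ha1, h]; push_cast; ring⟩
    rw [hval x]
    have h1 : ∀ χ : IrrCharacter S, (m χ : ℂ) * (χ : S → ℂ) x = k * (χ : S → ℂ) x + if χ = μ then (χ : S → ℂ) x else 0 := by
      intro χ
      rw [hmA χ, hμ]
      by_cases h2 : χ = μ
      · rw [if_pos (by simp [h2]), if_pos h2]; push_cast; ring
      · rw [if_neg (by simp [h2]), if_neg h2]; push_cast; ring
    rw [Finset.sum_congr rfl (fun χ _ => h1 χ), Finset.sum_add_distrib, ← Finset.mul_sum, hs0 x hx, mul_zero, zero_add]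
    simp
  · right
    have hcompl : (Finset.univ \ A).card = 1 := by
      rw [Finset.card_sdiff_of_subset (Finset.subset_univ _), Finset.card_univ, hcI]; omega
    obtain ⟨μ, hμ⟩ := Finset.card_eq_one.mp hcompl
    refine ⟨k + 1, -1, μ, Or.inr rfl, fun x hx => ?_, ?_⟩
    · rw [hval x]
      have h1 : ∀ χ : IrrCharacter S, (m χ : ℂ) * (χ : S → ℂ) x = ((k + 1 : ℕ) : ℂ) * (χ : S → ℂ) x - if χ = μ then (χ : S → ℂ) x else 0 := by
        intro χ
        have h3 : χ ∈ A ↔ χ ≠ μ := by
          have h4 : χ ∈ Finset.univ \ A ↔ χ = μ := by rw [hμ, Finset.mem_singleton]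
          rw [Finset.mem_sdiff] at h4
          constructor
          · intro h5 h6; exact (h4.mpr h6).2 h5
          · intro h5
            by_contra h6
            exact h5 (h4.mp ⟨Finset.mem_univ _, h6⟩)
        rw [hmA χ]
        by_cases h2 : χ = μ
        · rw [if_neg (by rw [h3]; simp [h2]), if_pos h2]; push_cast; ring
        · rw [if_pos (by rw [h3]; exact h2), if_neg h2]; push_cast; ring
      rw [Finset.sum_congr rfl (fun χ _ => h1 χ), Finset.sum_sub_distrib, ← Finset.mul_sum, hs0 x hx, mul_zero, zero_sub]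
      simp
    · rw [ha1]
      have : n * k + A.card + 1 = n * (k + 1) := by rw [← h]; ring
      have h2 : ((n * k + A.card : ℕ) : ℂ) + 1 = (n : ℂ) * ((k + 1 : ℕ) : ℂ) := by exact_mod_cast this
      rw [← h2]; push_cast; ring

end Abelian

end Cfsg.Agent.H3.GlCyc
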