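import Mathlib
import Cfsg.Prelude.Def_Characters
import Cfsg.Prelude.Def_Blocks
import Cfsg.Agent.H3_Isom
import Cfsg.Agent.H3_CharMult
import Cfsg.Agent.H3_CharInd
import Cfsg.Agent.H3_TwoDeg
import Cfsg.Agent.H3_InvSum

/-!
# Coherence in the principal block for an abelian Sylow subgroup
-/

set_option autoImplicit false

open scoped ComplexConjugate

namespace Cfsg.Agent.H3.PBC

open Cfsg Cfsg.Agent.H3.CharBasic Cfsg.Agent.H3.CharIrr Cfsg.Agent.H3.CharComplete Cfsg.Agent.H3.CharInd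
  Cfsg.Agent.H3.CharMult

/-- the data -/
structure PB {G : Type*} [Group G] (P N C : Subgroup G) (p m : ℕ) (B : Set (IrrCharacter G)) : Prop where
  ab : ∀ a b : P, a * b = b * a
  norm : ∀ n ∈ N, ∀ x ∈ P, n * x * n⁻¹ ∈ P
  cen : ∀ c ∈ C, ∀ x ∈ P, c * x * c⁻¹ = x
  CN : C ≤ N
  frob : ∀ n ∈ N, ∀ x ∈ P, x ≠ 1 → n * x * n⁻¹ = x → n ∈ C
  card : Nat.card N = m * Nat.card C
  big : m + 1 < Nat.card P
  m0 : 0 < m
  val : ∀ χ ∈ B, ∀ (x y : G), x ∈ P → x ≠ 1 → IsPPart p y x → (χ : G → ℂ) y = (χ : G → ℂ) x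
  orth1 : ∀ x ∈ P, x ≠ 1 → ∀ g : G, ¬ p ∣ orderOf g →
    ∑ᶠ χ : IrrCharacter G, (open Classical in if χ ∈ B then (χ : G → ℂ) g * conj ((χ : G → ℂ) x) else 0) = 0
  orth2 : ∀ x ∈ P, x ≠ 1 → ∀ y ∈ P, y ≠ 1 → (∀ n ∈ N, n * y * n⁻¹ ≠ x) →
    ∑ᶠ χ : IrrCharacter G, (open Classical in if χ ∈ B then (χ : G → ℂ) y * conj ((χ : G → ℂ) x) else 0) = 0
  nrm : ∀ x ∈ P, x ≠ 1 →
    ∑ᶠ χ : IrrCharacter G, (open Classical in if χ ∈ B then (χ : G → ℂ) x * conj ((χ : G → ℂ) x) else 0) = Nat.card P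
  nonv : ∀ χ ∈ B, (∀ g, p ∣ orderOf g → (χ : G → ℂ) g = 0) → (χ : G → ℂ) = fun _ => 1
  sing : ∀ g : G, p ∣ orderOf g → ∃ a x : G, x ∈ P ∧ x ≠ 1 ∧ IsPPart p (a * g * a⁻¹) x
  triv : (⟨fun _ => 1, isIrr_one⟩ : IrrCharacter G) ∈ B

section Single

variable {G : Type*} [Group G] {P N C : Subgroup G} {p m : ℕ} {B : Set (IrrCharacter G)} (D : PB P N C p m B)

/-- conjugation by an element of the normalizer -/
def cH (n : N) : P →* P where
  toFun x := ⟨n * x * (n : G)⁻¹, D.norm n n.2 x x.2⟩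
  map_one' := Subtype.ext (by simp)
  map_mul' a b := Subtype.ext (by simp)

theorem cH_apply (m : N) (x : P) : (cH D m x : G) = m * x * (m : G)⁻¹ := rfl

theorem cH_mul (m n : N) (x : P) : cH D (m * n) x = cH D m (cH D n x) := by
  apply Subtype.ext
  simp only [cH_apply]
  push_cast
  group

theorem cH_one (x : P) : cH D 1 x = x := by
  apply Subtype.ext
  simp only [cH_apply]
  push_cast
  group

/-- linear characters conjugate under `N` -/
def Rel (l k : P →* ℂˣ) : Prop := ∃ n : N, k.comp (cH D n) = l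

theorem Rel.refl (l : P →* ℂˣ) : Rel D l l := ⟨1, by
  apply MonoidHom.ext; intro x
  rw [MonoidHom.comp_apply, cH_one]⟩

theorem Rel.symm {l k : P →* ℂˣ} (h : Rel D l k) : Rel D k l := by
  obtain ⟨m, rfl⟩ := h
  refine ⟨m⁻¹, ?_⟩
  apply MonoidHom.ext; intro x
  rw [MonoidHom.comp_apply, MonoidHom.comp_apply, ← cH_mul, mul_inv_cancel, cH_one]

theorem Rel.trans {l k j : P →* ℂˣ} (h : Rel D l k) (h' : Rel D k j) : Rel D l j := by
  obtain ⟨m, rfl⟩ := h
  obtain ⟨n, rfl⟩ := h'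
  refine ⟨n * m, ?_⟩
  apply MonoidHom.ext; intro x
  rw [MonoidHom.comp_apply, MonoidHom.comp_apply, MonoidHom.comp_apply, ← cH_mul]

theorem Rel.ne_one {l k : P →* ℂˣ} (h : Rel D l k) (hl : l ≠ 1) : k ≠ 1 := by
  rintro rfl
  obtain ⟨m, rfl⟩ := h
  exact hl (by apply MonoidHom.ext; intro x; rfl)

/-- the stabilizer of a nonprincipal linear character is `C` -/
theorem stab [Finite P] {l : P →* ℂˣ} (hl : l ≠ 1) {m : N} (hm : l.comp (cH D m) = l) : (m : G) ∈ C := by
  by_contra hmH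
  apply hl
  have hinj : Function.Injective (fun x : P => cH D m x * x⁻¹) := by
    intro x y hxy
    have h1 : (m : G) * x * (m : G)⁻¹ * (x : G)⁻¹ = m * y * (m : G)⁻¹ * (y : G)⁻¹ := congrArg (fun z : P => (z : G)) hxy
    have h2 : (m : G) * ((y : G)⁻¹ * x) * (m : G)⁻¹ = (y : G)⁻¹ * x := by
      have h3 : (m : G) * ((y : G)⁻¹ * x) * (m : G)⁻¹ = ((m : G) * y * (m : G)⁻¹)⁻¹ * ((m : G) * x * (m : G)⁻¹ * (x : G)⁻¹) * x := by group
      rw [h3, h1]; group
    by_contra hne
    apply hmH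
    refine D.frob m m.2 ((y : G)⁻¹ * x) (P.mul_mem (P.inv_mem y.2) x.2) ?_ h2
    intro h4
    exact hne (Subtype.ext (inv_mul_eq_one.mp h4).symm)
  have hsurj := Finite.surjective_of_injective hinj
  apply MonoidHom.ext
  intro y
  obtain ⟨x, rfl⟩ := hsurj y
  show l (cH D m x * x⁻¹) = 1
  rw [map_mul, map_inv]
  have := DFunLike.congr_fun hm x
  rw [MonoidHom.comp_apply] at this
  rw [this, mul_inv_cancel]

theorem cH_of_mem {n' : N} (hm : (n' : G) ∈ C) (x : P) : cH D n' x = x := Subtype.ext (D.cen n' hm x x.2)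

/-- the number of elements carrying one linear character to another -/
theorem count_rel [Fintype N] [Finite P] {l k : P →* ℂˣ} (hk : k ≠ 1) [DecidablePred fun m : N => k.comp (cH D m) = l]
    [Decidable (Rel D l k)] :
    (Finset.univ.filter (fun m : N => k.comp (cH D m) = l)).card = if Rel D l k then Nat.card C else 0 := by
  have : Finite C := Finite.of_injective (Subgroup.inclusion D.CN) (Subgroup.inclusion_injective D.CN)
  have : Fintype C := Fintype.ofFinite _
  split_ifs with h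
  · obtain ⟨m0, hm0⟩ := h
    rw [Nat.card_eq_fintype_card, ← Finset.card_univ]
    symm
    refine Finset.card_bij (fun x _ => (⟨x, D.CN x.2⟩ : N) * m0) ?_ ?_ ?_
    · intro x _
      rw [Finset.mem_filter]
      refine ⟨Finset.mem_univ _, ?_⟩
      rw [← hm0]
      apply MonoidHom.ext
      intro y
      rw [MonoidHom.comp_apply, MonoidHom.comp_apply, cH_mul, cH_of_mem D (n' := ⟨x, D.CN x.2⟩) x.2]
    · intro x _ y _ hxy
      have := mul_right_cancel hxy
      exact Subtype.ext (congrArg (fun z : N => (z : G)) this)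
    · intro m hm
      rw [Finset.mem_filter] at hm
      have h1 : ((m * m0⁻¹ : N) : G) ∈ C := by
        apply stab D hk
        apply MonoidHom.ext
        intro y
        have h2 : k.comp (cH D m) = k.comp (cH D m0) := hm.2.trans hm0.symm
        have h3 := DFunLike.congr_fun h2 (cH D m0⁻¹ y)
        rw [MonoidHom.comp_apply, MonoidHom.comp_apply, ← cH_mul, ← cH_mul, mul_inv_cancel, cH_one] at h3
        exact h3
      refine ⟨⟨_, h1⟩, Finset.mem_univ _, ?_⟩
      apply Subtype.ext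
      push_cast
      group
  · rw [Finset.card_eq_zero, Finset.filter_eq_empty_iff]
    intro m _ hm
    exact h ⟨m, hm⟩

/-- the number of elements carrying one element of `P` to another -/
theorem count_el [Fintype N] {x y : P} (hy : y ≠ 1) [DecidablePred fun m : N => cH D m y = x]
    [Decidable (∃ n : N, cH D n y = x)] :
    (Finset.univ.filter (fun m : N => cH D m y = x)).card = if (∃ n : N, cH D n y = x) then Nat.card C else 0 := by
  have : Finite C := Finite.of_injective (Subgroup.inclusion D.CN) (Subgroup.inclusion_injective D.CN)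
  have : Fintype C := Fintype.ofFinite _
  split_ifs with h
  · obtain ⟨m0, hm0⟩ := h
    rw [Nat.card_eq_fintype_card, ← Finset.card_univ]
    symm
    refine Finset.card_bij (fun x _ => m0 * (⟨x, D.CN x.2⟩ : N)) ?_ ?_ ?_
    · intro x _
      rw [Finset.mem_filter]
      refine ⟨Finset.mem_univ _, ?_⟩
      rw [cH_mul, cH_of_mem D (n' := ⟨x, D.CN x.2⟩) x.2, hm0]
    · intro x _ y _ hxy
      have := mul_left_cancel hxy
      exact Subtype.ext (congrArg (fun z : N => (z : G)) this)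
    · intro m hm
      rw [Finset.mem_filter] at hm
      have h1 : ((m0⁻¹ * m : N) : G) ∈ C := by
        refine D.frob _ (m0⁻¹ * m).2 y y.2 (fun h => hy (Subtype.ext h)) ?_
        have h2 : cH D (m0⁻¹ * m) y = y := by
          rw [cH_mul, hm.2, ← hm0, ← cH_mul, inv_mul_cancel, cH_one]
        exact congrArg Subtype.val h2
      refine ⟨⟨_, h1⟩, Finset.mem_univ _, ?_⟩
      apply Subtype.ext
      push_cast
      group
  · rw [Finset.card_eq_zero, Finset.filter_eq_empty_iff]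
    intro m _ hm
    exact h ⟨m, hm⟩

end Single

section Lin

variable {P : Type*} [Group P] [Fintype P]

theorem ci_lin (l k : P →* ℂˣ) [Decidable (l = k)] :
    classInner (fun x : P => (l x : ℂ)) (fun x : P => (k x : ℂ)) = if l = k then 1 else 0 := by
  classical
  by_cases h : l = k
  · subst h
    rw [if_pos rfl, ci_irr_self (isIrr_of_hom_units l)]
  · rw [if_neg h, ci_irr_ne (isIrr_of_hom_units l) (isIrr_of_hom_units k)]
    intro h3
    apply h
    apply MonoidHom.ext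
    intro x
    exact Units.ext (congrFun h3 x)

/-- sum over the dual group -/
theorem sum_dual (hP : ∀ a b : P, a * b = b * a) [Fintype (P →* ℂˣ)] {x : P} (hx : x ≠ 1) :
    ∑ l : P →* ℂˣ, (l x : ℂ) = 0 := by
  obtain ⟨k, hk⟩ : ∃ k : P →* ℂˣ, k x ≠ 1 := by
    by_contra hcon
    push Not at hcon
    exact hx (Cfsg.Agent.H3.TwoDeg.dual_sep hP hcon)
  have h1 : ∑ l : P →* ℂˣ, (l x : ℂ) = (k x : ℂ) * ∑ l : P →* ℂˣ, (l x : ℂ) := by
    rw [Finset.mul_sum, ← Equiv.sum_comp (Equiv.mulLeft k)]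
    refine Finset.sum_congr rfl (fun l _ => ?_)
    simp
  have h2 : ((k x : ℂ) - 1) * ∑ l : P →* ℂˣ, (l x : ℂ) = 0 := by
    rw [sub_mul, one_mul, ← h1, sub_self]
  rcases mul_eq_zero.mp h2 with h3 | h3
  · exfalso
    apply hk
    apply Units.ext
    rw [Units.val_one]
    exact sub_eq_zero.mp h3
  · exact h3

theorem sum_dual' (hP : ∀ a b : P, a * b = b * a) [Fintype (P →* ℂˣ)] [DecidableEq (P →* ℂˣ)] {x : P} (hx : x ≠ 1) :
    ∑ l ∈ Finset.univ.erase (1 : P →* ℂˣ), (l x : ℂ) = -1 := by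
  have h1 := sum_dual hP hx
  rw [← Finset.add_sum_erase _ _ (Finset.mem_univ (1 : P →* ℂˣ))] at h1
  have h2 : (((1 : P →* ℂˣ) x : ℂˣ) : ℂ) = 1 := by simp
  rw [h2] at h1
  linear_combination h1

/-- Fourier expansion -/
theorem fourier (hP : ∀ a b : P, a * b = b * a) [Fintype (P →* ℂˣ)] (f : P → ℂ) (x : P) :
    f x = ∑ l : P →* ℂˣ, classInner f (fun y => (l y : ℂ)) * l x := by
  classical
  simp only [classInner]
  have h1 : ∀ l : P →* ℂˣ, (Nat.card P : ℂ)⁻¹ * (∑ y, f y * conj ((l y : ℂ))) * (l x : ℂ) =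
      ∑ y, (Nat.card P : ℂ)⁻¹ * f y * ((l (x * y⁻¹) : ℂ)) := by
    intro l
    rw [Finset.mul_sum, Finset.sum_mul]
    refine Finset.sum_congr rfl (fun y _ => ?_)
    have h2 : conj ((l y : ℂ)) = (l y⁻¹ : ℂ) := (IsChar.inv_eq_conj (IsIrr.isCharacter (isIrr_of_hom_units l)) y).symm
    rw [h2, map_mul, Units.val_mul]
    ring
  rw [Finset.sum_congr rfl (fun l _ => h1 l), Finset.sum_comm]
  have h3 : ∀ y : P, ∑ l : P →* ℂˣ, (Nat.card P : ℂ)⁻¹ * f y * ((l (x * y⁻¹) : ℂ)) = if y = x then f y else 0 := by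
    intro y
    rw [← Finset.mul_sum]
    split_ifs with h
    · rw [h, mul_inv_cancel]
      have h4 : ∑ l : P →* ℂˣ, ((l (1 : P) : ℂˣ) : ℂ) = Nat.card P := by
        simp only [map_one, Units.val_one, Finset.sum_const, Finset.card_univ, nsmul_eq_mul, mul_one]
        rw [← Nat.card_eq_fintype_card, Cfsg.Agent.H3.TwoDeg.dual_card hP]
      rw [h4]
      have h5 : (Nat.card P : ℂ) ≠ 0 := Nat.cast_ne_zero.mpr Nat.card_pos.ne'
      field_simp
    · rw [sum_dual hP (fun h6 => h (mul_inv_eq_one.mp h6).symm), mul_zero]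
  rw [Finset.sum_congr rfl (fun y _ => h3 y), Finset.sum_ite_eq' Finset.univ x f, if_pos (Finset.mem_univ _)]

end Lin

end Cfsg.Agent.H3.PBC
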