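import Mathlib
import Cfsg.Agent.H3_PBC1

/-!
# Coherence in the principal block for an abelian Sylow subgroup, II
-/

set_option autoImplicit false

open scoped ComplexConjugate

namespace Cfsg.Agent.H3.PBC

open Cfsg Cfsg.Agent.H3.CharBasic Cfsg.Agent.H3.CharIrr Cfsg.Agent.H3.CharComplete Cfsg.Agent.H3.CharInd
  Cfsg.Agent.H3.CharMult

section Main

variable {G : Type*} [Group G] [Fintype G] {P N C : Subgroup G} {p m : ℕ} {B : Set (IrrCharacter G)} (D : PB P N C p m B)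
  [Fintype P] [Fintype N] [Fintype (IrrCharacter G)]

open Classical in
/-- the kernel -/
noncomputable def KK (B : Set (IrrCharacter G)) (g x : G) : ℂ :=
  ∑ χ : IrrCharacter G, if χ ∈ B then (χ : G → ℂ) g * conj ((χ : G → ℂ) x) else 0

/-- multiplicities -/
noncomputable def mu (χ : G → ℂ) (l : P →* ℂˣ) : ℂ := classInner (fun x : P => χ x) (fun x => (l x : ℂ))

open Classical in
noncomputable def cB (B : Set (IrrCharacter G)) (l : P →* ℂˣ) (χ : IrrCharacter G) : ℂ :=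
  if χ ∈ B then mu (χ : G → ℂ) l else 0

noncomputable def bb (B : Set (IrrCharacter G)) (l : P →* ℂˣ) : G → ℂ := ∑ χ : IrrCharacter G, cB B l χ • (χ : G → ℂ)

omit [Fintype G] in
theorem mu_nat [Finite G] {χ : G → ℂ} (hχ : IsIrrCharacter G χ) (l : P →* ℂˣ) : ∃ n : ℕ, mu χ l = n :=
  ci_char_nat (IsChar.res (IsIrr.isCharacter hχ) P) (IsIrr.isCharacter (isIrr_of_hom_units l))

omit [Fintype G] in
theorem mu_conj [Finite G] {χ : G → ℂ} (hχ : IsIrrCharacter G χ) (l : P →* ℂˣ) : conj (mu χ l) = mu χ l := by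
  obtain ⟨n, hn⟩ := mu_nat hχ l
  rw [hn, map_natCast]

theorem ci_bb (l : P →* ℂˣ) (χ : IrrCharacter G) : classInner (bb B l) (χ : G → ℂ) = cB B l χ := ci_sum_irr _ _

theorem cB_nat (l : P →* ℂˣ) (χ : IrrCharacter G) : ∃ n : ℕ, cB B l χ = n := by
  rw [cB]
  split_ifs
  · exact mu_nat χ.2 l
  · exact ⟨0, by simp⟩

theorem bb_gen (l : P →* ℂˣ) : IsGeneralizedCharacter G (bb B l) := by
  rw [bb]
  apply IsGen.sum
  intro χ _
  obtain ⟨n, hn⟩ := cB_nat (B := B) l χ
  rw [hn]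
  have := IsGen.intsmul (IsGen.of_irr χ.2) (n : ℤ)
  rwa [Int.cast_natCast] at this

theorem bb_eq (l : P →* ℂˣ) (g : G) : bb B l g = (Nat.card P : ℂ)⁻¹ * ∑ x : P, (l x : ℂ) * KK B g x := by
  classical
  rw [bb, Finset.sum_apply]
  have h1 : ∀ χ : IrrCharacter G, (cB B l χ • (χ : G → ℂ)) g =
      ∑ x : P, (Nat.card P : ℂ)⁻¹ * ((l x : ℂ) * (if χ ∈ B then (χ : G → ℂ) g * conj ((χ : G → ℂ) x) else 0)) := by
    intro χ
    rw [Pi.smul_apply, smul_eq_mul, cB]
    split_ifs with h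
    · rw [← mu_conj χ.2 l, mu, ci_conj_symm, classInner, Finset.mul_sum, Finset.sum_mul]
      refine Finset.sum_congr rfl (fun x _ => ?_)
      ring
    · simp
  rw [Finset.sum_congr rfl (fun χ _ => h1 χ), Finset.sum_comm, Finset.mul_sum]
  refine Finset.sum_congr rfl (fun x _ => ?_)
  rw [KK, Finset.mul_sum, Finset.mul_sum]

include D in
theorem KK_reg {x : P} (hx : x ≠ 1) {g : G} (hg : ¬ p ∣ orderOf g) : KK B g x = 0 := by
  classical
  have h := D.orth1 x x.2 (fun h => hx (Subtype.ext h)) g hg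
  rw [finsum_eq_sum_of_fintype] at h
  rw [KK]
  convert h

theorem KK_el [DecidableEq P] {x y : P} (hx : x ≠ 1) (hy : y ≠ 1) :
    KK B y x = (Nat.card P : ℂ) * (Nat.card C : ℂ)⁻¹ * ((Finset.univ.filter (fun n : N => cH D n y = x)).card : ℂ) := by
  classical
  have hx' : (x : G) ≠ 1 := fun h => hx (Subtype.ext h)
  have hy' : (y : G) ≠ 1 := fun h => hy (Subtype.ext h)
  have hC0 : (Nat.card C : ℂ) ≠ 0 := Nat.cast_ne_zero.mpr (by
    have : Finite C := inferInstance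
    exact Nat.card_pos.ne')
  rw [count_el D hy]
  split_ifs with h
  · obtain ⟨n, hn⟩ := h
    have h1 := D.nrm x x.2 hx'
    rw [finsum_eq_sum_of_fintype] at h1
    have h2 : KK B y x = (Nat.card P : ℂ) := by
      rw [← h1, KK]
      refine Finset.sum_congr rfl (fun χ _ => ?_)
      have h3 : (χ : G → ℂ) x = (χ : G → ℂ) y := by
        rw [← hn, cH_apply, IsIrr.isClass χ.2]
      rw [h3]
    rw [h2]; field_simp
  · have h1 := D.orth2 x x.2 hx' y y.2 hy' (fun n hn h2 => h ⟨⟨n, hn⟩, Subtype.ext h2⟩)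
    rw [finsum_eq_sum_of_fintype] at h1
    rw [KK, Nat.cast_zero, mul_zero]
    convert h1

include D in
theorem bb_reg (l k : P →* ℂˣ) {g : G} (hg : ¬ p ∣ orderOf g) : bb B l g = bb B k g := by
  rw [bb_eq, bb_eq]
  congr 1
  refine Finset.sum_congr rfl (fun x _ => ?_)
  by_cases hx : x = 1
  · rw [hx, map_one, map_one]
  · rw [KK_reg D hx hg, mul_zero, mul_zero]

/-- orbit sums -/
noncomputable def bet (l : P →* ℂˣ) : P → ℂ := fun x => (Nat.card C : ℂ)⁻¹ * ∑ n : N, (l (cH D n x) : ℂ)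

omit [Fintype P] [Fintype (IrrCharacter G)] in
theorem bet_one (l : P →* ℂˣ) : bet D l 1 = m := by
  have hC0 : (Nat.card C : ℂ) ≠ 0 := Nat.cast_ne_zero.mpr Nat.card_pos.ne'
  rw [bet]
  simp only [map_one, Units.val_one, Finset.sum_const, Finset.card_univ, nsmul_eq_mul, mul_one]
  rw [← Nat.card_eq_fintype_card, D.card]
  push_cast
  field_simp

include D in
theorem one_reg : ¬ p ∣ orderOf (1 : G) := by
  intro h
  rw [orderOf_one] at h
  have hp1 : p = 1 := Nat.dvd_one.mp h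
  -- every element would be singular
  obtain ⟨a, x, hx, hx1, hp⟩ := D.sing 1 (by rw [orderOf_one]; exact h)
  obtain ⟨y, hy1, hy2, ⟨k, hk⟩, hy4⟩ := hp
  apply hx1
  rw [hp1, one_pow, orderOf_eq_one_iff] at hk
  exact hk

theorem bb_P (l k : P →* ℂˣ) (y : P) : bb B l y - bb B k y = bet D l y - bet D k y := by
  classical
  by_cases hy : y = 1
  · rw [hy, bet_one, bet_one, sub_self, sub_eq_zero]
    exact bb_reg D l k (one_reg D)
  · rw [bb_eq, bb_eq, ← mul_sub, ← Finset.sum_sub_distrib, bet, bet, ← mul_sub, ← Finset.sum_sub_distrib]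
    have hP0 : (Nat.card P : ℂ) ≠ 0 := Nat.cast_ne_zero.mpr Nat.card_pos.ne'
    have h1 : ∀ x : P, (l x : ℂ) * KK B y x - (k x : ℂ) * KK B y x =
        (Nat.card P : ℂ) * (Nat.card C : ℂ)⁻¹ * ∑ n : N, if cH D n y = x then ((l x : ℂ) - k x) else 0 := by
      intro x
      by_cases hx : x = 1
      · rw [hx, map_one, map_one]; simp
      · rw [KK_el D hx hy, ← Finset.sum_filter, Finset.sum_const, nsmul_eq_mul]
        ring
    rw [Finset.sum_congr rfl (fun x _ => h1 x), ← Finset.mul_sum, Finset.sum_comm, ← mul_assoc, ← mul_assoc, inv_mul_cancel₀ hP0,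
      one_mul]
    congr 1
    refine Finset.sum_congr rfl (fun n _ => ?_)
    rw [Finset.sum_ite_eq Finset.univ (cH D n y) (fun x => ((l x : ℂ) - k x)), if_pos (Finset.mem_univ _)]

omit [Fintype (IrrCharacter G)] in
theorem ci_bet {l k : P →* ℂˣ} (hl : l ≠ 1) [Decidable (Rel D k l)] :
    classInner (bet D l) (fun x => (k x : ℂ)) = if Rel D k l then 1 else 0 := by
  classical
  have hC0 : (Nat.card C : ℂ) ≠ 0 := Nat.cast_ne_zero.mpr Nat.card_pos.ne'
  have h1 : bet D l = (Nat.card C : ℂ)⁻¹ • ∑ n : N, (fun x : P => ((l.comp (cH D n)) x : ℂ)) := by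
    funext x
    rw [bet, Pi.smul_apply, Finset.sum_apply, smul_eq_mul]
    rfl
  rw [h1, ci_smul_left, ci_sum_left, Finset.sum_congr rfl (fun n _ => ci_lin (l.comp (cH D n)) k), ← Finset.sum_filter,
    Finset.sum_const, nsmul_eq_mul, mul_one, count_rel D hl]
  split_ifs
  · field_simp
  · simp

omit [Fintype (IrrCharacter G)] in
theorem bet_eq [Fintype (P →* ℂˣ)] {l : P →* ℂˣ} (hl : l ≠ 1) [DecidablePred fun k => Rel D k l] (x : P) :
    bet D l x = ∑ k : P →* ℂˣ, if Rel D k l then (k x : ℂ) else 0 := by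
  rw [fourier D.ab (bet D l) x]
  refine Finset.sum_congr rfl (fun k _ => ?_)
  rw [ci_bet D hl]
  split_ifs <;> simp

omit [Fintype (IrrCharacter G)] in
theorem card_rel [Fintype (P →* ℂˣ)] {l : P →* ℂˣ} (hl : l ≠ 1) [DecidablePred fun k => Rel D k l] :
    (Finset.univ.filter (fun k => Rel D k l)).card = m := by
  have h1 := bet_eq D hl 1
  rw [bet_one] at h1
  simp only [map_one, Units.val_one] at h1
  rw [← Finset.sum_filter, Finset.sum_const, nsmul_eq_mul, mul_one] at h1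
  exact_mod_cast h1.symm

include D in
omit [Fintype (IrrCharacter G)] in
theorem two {l : P →* ℂˣ} (hl : l ≠ 1) : ∃ k : P →* ℂˣ, k ≠ 1 ∧ ¬ Rel D l k := by
  classical
  have : Fintype (P →* ℂˣ) := Fintype.ofFinite _
  by_contra hcon
  push Not at hcon
  have h1 := card_rel D hl
  have h2 : Finset.univ.filter (fun k => Rel D k l) = Finset.univ.erase 1 := by
    ext k
    rw [Finset.mem_filter, Finset.mem_erase]
    constructor
    · rintro ⟨-, h⟩
      exact ⟨Rel.ne_one D (Rel.symm D h) hl, Finset.mem_univ _⟩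
    · rintro ⟨h, -⟩
      exact ⟨Finset.mem_univ _, Rel.symm D (hcon k h)⟩
  rw [h2, Finset.card_erase_of_mem (Finset.mem_univ _), Finset.card_univ, ← Nat.card_eq_fintype_card,
    Cfsg.Agent.H3.TwoDeg.dual_card D.ab] at h1
  have := D.big
  omega

open Classical in
theorem gram {l k : P →* ℂˣ} (hl : l ≠ 1) (hk : k ≠ 1) (j : P →* ℂˣ) :
    classInner (bb B l - bb B k) (bb B j) = (if Rel D j l then 1 else 0) - if Rel D j k then 1 else 0 := by
  have hcl : IsClassFunction G (bb B l - bb B k) := isClass_sub _ _ (IsGen.isClass (bb_gen l)) (IsGen.isClass (bb_gen k))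
  rw [ci_eq_sum _ _ hcl]
  have h1 : ∀ χ : IrrCharacter G, classInner (bb B l - bb B k) (χ : G → ℂ) * conj (classInner (bb B j) (χ : G → ℂ)) =
      (cB B l χ - cB B k χ) * mu (χ : G → ℂ) j := by
    intro χ
    rw [ci_sub_left, ci_bb, ci_bb, ci_bb]
    by_cases h : χ ∈ B
    · have h2 : cB B j χ = mu (χ : G → ℂ) j := if_pos h
      rw [h2, mu_conj χ.2]
    · have h2 : cB B l χ = 0 := if_neg h
      have h3 : cB B k χ = 0 := if_neg h
      rw [h2, h3, sub_self, zero_mul, zero_mul]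
  rw [Finset.sum_congr rfl (fun χ _ => h1 χ), ← ci_bet D hl, ← ci_bet D hk, ← ci_sub_left]
  have h2 : bet D l - bet D k = ∑ χ : IrrCharacter G, (cB B l χ - cB B k χ) • (fun x : P => (χ : G → ℂ) x) := by
    funext y
    rw [Pi.sub_apply, ← bb_P D l k y, bb, bb, Finset.sum_apply, Finset.sum_apply, Finset.sum_apply, ← Finset.sum_sub_distrib]
    refine Finset.sum_congr rfl (fun χ _ => ?_)
    simp only [Pi.smul_apply, smul_eq_mul]
    ring
  rw [h2, ci_sum_left]
  refine Finset.sum_congr rfl (fun χ _ => ?_)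
  rw [ci_smul_left]
  rfl

theorem bb_rel {l k : P →* ℂˣ} (hl : l ≠ 1) (hk : k ≠ 1) (h : Rel D l k) : bb B l = bb B k := by
  classical
  rw [← sub_eq_zero]
  apply ci_self_eq_zero
  rw [ci_sub_right, gram D hl hk, gram D hl hk, if_pos (Rel.refl D l), if_pos h, if_pos (Rel.symm D h), if_pos (Rel.refl D k)]
  ring

/-- the equivalence relation on linear characters -/
def relSetoid : Setoid (P →* ℂˣ) where
  r l k := Rel D l k
  iseqv := ⟨Rel.refl D, Rel.symm D, Rel.trans D⟩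

omit [Fintype G] [Fintype P] [Fintype N] [Fintype (IrrCharacter G)] in
theorem exists_rep : ∃ rep : (P →* ℂˣ) → (P →* ℂˣ), (∀ l, Rel D (rep l) l) ∧ ∀ l k, rep l = rep k ↔ Rel D l k := by
  refine ⟨fun l => (Quotient.mk (relSetoid D) l).out, fun l => ?_, fun l k => ?_⟩
  · exact Quotient.mk_out (s := relSetoid D) l
  · show (Quotient.mk (relSetoid D) l).out = (Quotient.mk (relSetoid D) k).out ↔ _
    constructor
    · intro h
      have h1 : Rel D (Quotient.mk (relSetoid D) l).out l := Quotient.mk_out (s := relSetoid D) l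
      have h2 : Rel D (Quotient.mk (relSetoid D) k).out k := Quotient.mk_out (s := relSetoid D) k
      exact Rel.trans D (Rel.symm D h1) (by rw [h]; exact h2)
    · intro h
      have : Quotient.mk (relSetoid D) l = Quotient.mk (relSetoid D) k := Quotient.sound h
      rw [this]

omit [Fintype (IrrCharacter G)] [Fintype N] in
include D in
theorem exists_ne_one : ∃ l : P →* ℂˣ, l ≠ 1 := by
  by_contra hcon
  push Not at hcon
  have h1 : Nat.card (P →* ℂˣ) = 1 := by
    rw [Nat.card_eq_one_iff_unique]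
    exact ⟨⟨fun a b => (hcon a).trans (hcon b).symm⟩, ⟨1⟩⟩
  rw [Cfsg.Agent.H3.TwoDeg.dual_card D.ab] at h1
  have := D.big
  omega

/-- coherence -/
theorem coh : ∃ (δ : ℤ) (ζ : (P →* ℂˣ) → IrrCharacter G), (δ = 1 ∨ δ = -1) ∧
      (∀ l k, l ≠ 1 → k ≠ 1 → (ζ l = ζ k ↔ Rel D l k)) ∧
      ∀ l k, l ≠ 1 → k ≠ 1 → bb B l - bb B k = (δ : ℂ) • ((ζ l : G → ℂ) - (ζ k : G → ℂ)) := by
  classical
  obtain ⟨rep, hrep, hrep'⟩ := exists_rep D
  obtain ⟨l0, hl0⟩ := exists_ne_one D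
  have hrr : ∀ l, rep (rep l) = rep l := fun l => (hrep' _ _).mpr (hrep l)
  have hr1 : ∀ l, l ≠ 1 → rep l ≠ 1 := fun l hl => Rel.ne_one D (Rel.symm D (hrep l)) hl
  let ι := {l : P →* ℂˣ // l ≠ 1 ∧ rep l = l}
  let i₀ : ι := ⟨rep l0, hr1 l0 hl0, hrr l0⟩
  have hnr : ∀ i j : ι, i ≠ j → ¬ Rel D i.1 j.1 := by
    intro i j hij h
    apply hij
    apply Subtype.ext
    rw [← i.2.2, ← j.2.2]
    exact (hrep' _ _).mpr h
  have hg : ∀ i j : ι, (if Rel D j.1 i.1 then (1 : ℂ) else 0) = if i = j then 1 else 0 := by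
    intro i j
    by_cases h : i = j
    · rw [if_pos h, if_pos (by rw [h]; exact Rel.refl D _)]
    · rw [if_neg h, if_neg (hnr j i (Ne.symm h))]
  obtain ⟨ε, hε, μ, hμ, hinj, hτ⟩ := Isom.isometry_lemma i₀ (fun i : ι => bb B i.1 - bb B i₀.1) (sub_self _)
    (fun i => IsGen.sub (bb_gen _) (bb_gen _)) (fun i => by
      rw [Pi.sub_apply, bb_reg D i.1 i₀.1 (one_reg D), sub_self])
    (by
      intro i hi
      rw [ci_sub_right, gram D i.2.1 i₀.2.1, gram D i.2.1 i₀.2.1, hg, hg, hg, hg, if_pos rfl, if_neg (Ne.symm hi), if_neg hi, if_pos rfl]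
      ring)
    (by
      intro i j hi hj hij
      rw [ci_sub_right, gram D i.2.1 i₀.2.1, gram D i.2.1 i₀.2.1, hg, hg, hg, hg, if_pos rfl, if_neg (Ne.symm hj), if_neg hi, if_neg hij]
      ring)
  obtain ⟨ε', hε', hε''⟩ : ∃ ε' : ℤ, (ε' = 1 ∨ ε' = -1) ∧ ε = (ε' : ℂ) := by
    rcases hε with h | h
    · exact ⟨1, Or.inl rfl, by rw [h]; simp⟩
    · exact ⟨-1, Or.inr rfl, by rw [h]; simp⟩
  let f : (P →* ℂˣ) → IrrCharacter G := fun l => if h : l ≠ 1 then ⟨μ ⟨rep l, hr1 l h, hrr l⟩, hμ _⟩ else ⟨fun _ => 1, isIrr_one⟩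
  have hf : ∀ l (h : l ≠ 1), f l = ⟨μ ⟨rep l, hr1 l h, hrr l⟩, hμ _⟩ := fun l h => dif_pos h
  refine ⟨ε', f, hε', ?_, ?_⟩
  · intro l k hl hk
    rw [hf l hl, hf k hk, Subtype.mk.injEq, hinj.eq_iff, Subtype.mk.injEq, hrep']
  · intro l k hl hk
    have h1 := hτ ⟨rep l, hr1 l hl, hrr l⟩
    have h2 := hτ ⟨rep k, hr1 k hk, hrr k⟩
    dsimp only at h1 h2
    rw [hf l hl, hf k hk, ← bb_rel D (hr1 l hl) hl (hrep l), ← bb_rel D (hr1 k hk) hk (hrep k), ← hε'']
    have h3 : bb B (rep l) - bb B (rep k) = (bb B (rep l) - bb B i₀.1) - (bb B (rep k) - bb B i₀.1) := by abel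
    rw [h3, h1, h2, ← smul_sub]
    congr 1
    abel

end Main

end Cfsg.Agent.H3.PBC
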