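import Mathlib
import Cfsg.Agent.H3_PBC2

/-!
# Coherence in the principal block for an abelian Sylow subgroup, III
-/

set_option autoImplicit false

open scoped ComplexConjugate

namespace Cfsg.Agent.H3.PBC

open Cfsg Cfsg.Agent.H3.CharBasic Cfsg.Agent.H3.CharIrr Cfsg.Agent.H3.CharComplete Cfsg.Agent.H3.CharInd
  Cfsg.Agent.H3.CharMult

section Fin

variable {G : Type*} [Group G] [Fintype G] {P N C : Subgroup G} {p m : ℕ} {B : Set (IrrCharacter G)} (D : PB P N C p m B)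
  [Fintype P] [Fintype N] [Fintype (IrrCharacter G)] {δ : ℤ} {ζ : (P →* ℂˣ) → IrrCharacter G}
  (hδ : δ = 1 ∨ δ = -1) (hζ : ∀ l k, l ≠ 1 → k ≠ 1 → (ζ l = ζ k ↔ Rel D l k))
  (hc : ∀ l k, l ≠ 1 → k ≠ 1 → bb B l - bb B k = (δ : ℂ) • ((ζ l : G → ℂ) - (ζ k : G → ℂ)))

open Classical in
include hc in
theorem cB_diff {l k : P →* ℂˣ} (hl : l ≠ 1) (hk : k ≠ 1) (χ : IrrCharacter G) :
    cB B l χ - cB B k χ = δ * ((if ζ l = χ then 1 else 0) - if ζ k = χ then 1 else 0) := by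
  rw [← ci_bb, ← ci_bb, ← ci_sub_left, hc l k hl hk, ci_smul_left, ci_sub_left, ci_irr (ζ l).2 χ.2, ci_irr (ζ k).2 χ.2]
  have h1 : ∀ j : P →* ℂˣ, ((ζ j : G → ℂ) = (χ : G → ℂ)) ↔ ζ j = χ := fun j => ⟨fun h => Subtype.ext h, fun h => by rw [h]⟩
  simp only [h1]

include hδ in
theorem δ_sq : (δ : ℂ) * δ = 1 := by
  rcases hδ with h | h <;> rw [h] <;> norm_num

include D hδ hζ hc in
theorem ζ_mem {l : P →* ℂˣ} (hl : l ≠ 1) : ζ l ∈ B := by
  classical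
  by_contra h
  obtain ⟨k, hk, hlk⟩ := two D hl
  have h1 := cB_diff hc hl hk (ζ l)
  have h2 : cB B l (ζ l) = 0 := if_neg h
  have h3 : cB B k (ζ l) = 0 := if_neg h
  rw [h2, h3, if_pos rfl, if_neg (fun h4 => hlk ((hζ l k hl hk).mp h4.symm))] at h1
  rcases hδ with h5 | h5 <;> rw [h5] at h1 <;> norm_num at h1

include hδ hζ hc in
theorem ζ_ne {l : P →* ℂˣ} (hl : l ≠ 1) : (ζ l : G → ℂ) ≠ fun _ => 1 := by
  classical
  intro h
  obtain ⟨k, hk, hlk⟩ := two D hl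
  have h1 := cB_diff hc hl hk (ζ l)
  have hmem := ζ_mem D hδ hζ hc hl
  have h0 : ∀ j : P →* ℂˣ, j ≠ 1 → cB B j (ζ l) = 0 := by
    intro j hj
    rw [cB, if_pos hmem, mu, h]
    have h2 := ci_lin (1 : P →* ℂˣ) j
    rw [if_neg (Ne.symm hj)] at h2
    have h3 : (fun x : P => ((((1 : P →* ℂˣ) x : ℂˣ)) : ℂ)) = fun _ => 1 := by funext x; simp
    rw [h3] at h2
    exact h2
  rw [h0 l hl, h0 k hk, if_pos rfl, if_neg (fun h4 => hlk ((hζ l k hl hk).mp h4.symm))] at h1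
  rcases hδ with h5 | h5 <;> rw [h5] at h1 <;> norm_num at h1

open Classical in
/-- the exceptional part -/
noncomputable def SS (ζ : (P →* ℂˣ) → IrrCharacter G) (χ : IrrCharacter G) (x : P) : ℂ :=
  letI := Fintype.ofFinite (P →* ℂˣ)
  ∑ l ∈ Finset.univ.erase (1 : P →* ℂˣ), if ζ l = χ then (l x : ℂ) else 0

include D hc in
/-- the values -/
theorem exists_a : ∃ a : IrrCharacter G → ℤ, ∀ χ ∈ B, ∀ x : P, x ≠ 1 → (χ : G → ℂ) x = a χ + δ * SS ζ χ x := by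
  classical
  letI := Fintype.ofFinite (P →* ℂˣ)
  obtain ⟨l0, hl0⟩ := exists_ne_one D
  choose n0 hn0 using fun χ : IrrCharacter G => mu_nat χ.2 (1 : P →* ℂˣ)
  choose n1 hn1 using fun χ : IrrCharacter G => mu_nat χ.2 l0
  refine ⟨fun χ => n0 χ - n1 χ + δ * (if ζ l0 = χ then 1 else 0), fun χ hχ x hx => ?_⟩
  have h1 := fourier D.ab (fun x : P => (χ : G → ℂ) x) x
  rw [h1, ← Finset.add_sum_erase _ _ (Finset.mem_univ (1 : P →* ℂˣ))]
  have h2 : classInner (fun x : P => (χ : G → ℂ) x) (fun y : P => (((1 : P →* ℂˣ) y : ℂˣ) : ℂ)) = n0 χ := hn0 χ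
  have h3 : (((1 : P →* ℂˣ) x : ℂˣ) : ℂ) = 1 := by simp
  rw [h2, h3, mul_one]
  have h4 : ∀ l ∈ Finset.univ.erase (1 : P →* ℂˣ), classInner (fun x : P => (χ : G → ℂ) x) (fun y : P => (l y : ℂ)) * (l x : ℂ) =
      ((n1 χ : ℂ) - δ * (if ζ l0 = χ then 1 else 0)) * l x + δ * (if ζ l = χ then (l x : ℂ) else 0) := by
    intro l hl
    have hl1 := Finset.ne_of_mem_erase hl
    have h5 := cB_diff hc hl1 hl0 χ
    have h6 : cB B l χ = classInner (fun x : P => (χ : G → ℂ) x) (fun y : P => (l y : ℂ)) := if_pos hχ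
    have h7 : cB B l0 χ = n1 χ := (if_pos hχ).trans (hn1 χ)
    rw [h6, h7] at h5
    have h8 : (if ζ l = χ then (l x : ℂ) else 0) = (if ζ l = χ then 1 else 0) * (l x : ℂ) := by split_ifs <;> simp
    rw [h8]
    linear_combination (l x : ℂ) * h5
  rw [Finset.sum_congr rfl h4, Finset.sum_add_distrib, ← Finset.mul_sum, ← Finset.mul_sum, sum_dual' D.ab hx, SS]
  push_cast
  split_ifs <;> ring

include hζ in
theorem SS_eq {l : P →* ℂˣ} (hl : l ≠ 1) (x : P) : SS ζ (ζ l) x = bet D l x := by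
  classical
  letI := Fintype.ofFinite (P →* ℂˣ)
  rw [SS, bet_eq D hl, ← Finset.add_sum_erase _ _ (Finset.mem_univ (1 : P →* ℂˣ)), if_neg, zero_add]
  · refine Finset.sum_congr rfl (fun k hk => ?_)
    have hk1 := Finset.ne_of_mem_erase hk
    rw [if_congr (hζ k l hk1 hl) rfl rfl]
  · intro h
    exact Rel.ne_one D (Rel.symm D h) hl rfl

theorem SS_zero {χ : IrrCharacter G} (h : ∀ l : P →* ℂˣ, l ≠ 1 → ζ l ≠ χ) (x : P) : SS ζ χ x = 0 := by
  classical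
  letI := Fintype.ofFinite (P →* ℂˣ)
  rw [SS]
  exact Finset.sum_eq_zero (fun l hl => if_neg (h l (Finset.ne_of_mem_erase hl)))

include D in
theorem exists_el : ∃ x : P, x ≠ 1 := by
  by_contra hcon
  push Not at hcon
  have h1 : Nat.card P = 1 := by
    rw [Nat.card_eq_one_iff_unique]
    exact ⟨⟨fun a b => (hcon a).trans (hcon b).symm⟩, ⟨1⟩⟩
  have := D.big
  omega

section A

variable {a : IrrCharacter G → ℤ} (ha : ∀ χ ∈ B, ∀ x : P, x ≠ 1 → (χ : G → ℂ) x = a χ + δ * SS ζ χ x)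

include D hδ hζ hc ha in
theorem a_const {l k : P →* ℂˣ} (hl : l ≠ 1) (hk : k ≠ 1) : a (ζ l) = a (ζ k) := by
  obtain ⟨x, hx⟩ := exists_el D
  have h1 := bb_P D l k x
  have h2 := congrFun (hc l k hl hk) (x : G)
  rw [Pi.sub_apply, h1, Pi.smul_apply, Pi.sub_apply, smul_eq_mul, ha _ (ζ_mem D hδ hζ hc hl) x hx, ha _ (ζ_mem D hδ hζ hc hk) x hx,
    SS_eq D hζ hl, SS_eq D hζ hk] at h2
  have h3 := δ_sq hδ
  have h4 : (δ : ℂ) * ((a (ζ l) : ℂ) - a (ζ k)) = 0 := by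
    linear_combination -h2 - (bet D l x - bet D k x) * h3
  rcases mul_eq_zero.mp h4 with h5 | h5
  · rcases hδ with h6 | h6 <;> rw [h6] at h5 <;> norm_num at h5
  · have h6 : (a (ζ l) : ℂ) = a (ζ k) := sub_eq_zero.mp h5
    exact_mod_cast h6

include D ha in
theorem a_ne {χ : IrrCharacter G} (hχ : χ ∈ B) (h : ∀ l : P →* ℂˣ, l ≠ 1 → ζ l ≠ χ) : a χ ≠ 0 := by
  intro h0
  have h1 : ∀ x : P, x ≠ 1 → (χ : G → ℂ) x = 0 := by
    intro x hx
    rw [ha χ hχ x hx, h0, SS_zero h]; simp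
  have h2 : ∀ g, p ∣ orderOf g → (χ : G → ℂ) g = 0 := by
    intro g hg
    obtain ⟨b, x, hx, hx1, hp⟩ := D.sing g hg
    rw [← IsIrr.isClass χ.2 g b, D.val χ hχ x _ hx hx1 hp]
    exact h1 ⟨x, hx⟩ (fun h3 => hx1 (congrArg Subtype.val h3))
  have h3 := D.nonv χ hχ h2
  obtain ⟨x, hx⟩ := exists_el D
  have h4 := h1 x hx
  rw [h3] at h4
  exact one_ne_zero h4

/-- Parseval for combinations of linear characters -/
theorem ci_comb [Fintype (P →* ℂˣ)] (w : (P →* ℂˣ) → ℂ) :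
    classInner (fun x : P => ∑ l : P →* ℂˣ, w l * (l x : ℂ)) (fun x : P => ∑ l : P →* ℂˣ, w l * (l x : ℂ)) = ∑ l, w l * conj (w l) := by
  classical
  have h1 : (fun x : P => ∑ l : P →* ℂˣ, w l * (l x : ℂ)) = ∑ l : P →* ℂˣ, w l • (fun x : P => (l x : ℂ)) := by
    funext x; simp
  rw [h1, ci_sum_left]
  refine Finset.sum_congr rfl (fun l _ => ?_)
  rw [ci_smul_left, ci_sum_right, Finset.sum_eq_single l]
  · rw [ci_smul_right, ci_lin, if_pos rfl, mul_one]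
  · intro k _ hk
    rw [ci_smul_right, ci_lin, if_neg (Ne.symm hk), mul_zero]
  · intro h; exact absurd (Finset.mem_univ _) h

open Classical in
/-- the number of linear characters with given image -/
noncomputable def nn (ζ : (P →* ℂˣ) → IrrCharacter G) (χ : IrrCharacter G) : ℕ :=
  letI := Fintype.ofFinite (P →* ℂˣ)
  ((Finset.univ.erase (1 : P →* ℂˣ)).filter (fun l => ζ l = χ)).card

theorem nn_zero {χ : IrrCharacter G} (h : ∀ l : P →* ℂˣ, l ≠ 1 → ζ l ≠ χ) : nn ζ χ = 0 := by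
  classical
  letI := Fintype.ofFinite (P →* ℂˣ)
  rw [nn, Finset.card_eq_zero, Finset.filter_eq_empty_iff]
  intro l hl
  exact h l (Finset.ne_of_mem_erase hl)

include D hζ in
theorem nn_eq {l : P →* ℂˣ} (hl : l ≠ 1) : nn ζ (ζ l) = m := by
  classical
  letI := Fintype.ofFinite (P →* ℂˣ)
  rw [nn, ← card_rel D hl]
  congr 1
  ext k
  rw [Finset.mem_filter, Finset.mem_filter, Finset.mem_erase]
  constructor
  · rintro ⟨⟨h1, -⟩, h2⟩
    exact ⟨Finset.mem_univ _, (hζ k l h1 hl).mp h2⟩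
  · rintro ⟨-, h1⟩
    have h2 : k ≠ 1 := Rel.ne_one D (Rel.symm D h1) hl
    exact ⟨⟨h2, Finset.mem_univ _⟩, (hζ k l h2 hl).mpr h1⟩

open Classical in
include hδ ha in
theorem T_eq {χ : IrrCharacter G} (hχ : χ ∈ B) :
    ∑ x ∈ Finset.univ.erase (1 : P), (χ : G → ℂ) x * conj ((χ : G → ℂ) x) =
      (Nat.card P : ℂ) * ((a χ : ℂ) ^ 2 + nn ζ χ) - ((a χ : ℂ) + δ * nn ζ χ) ^ 2 := by
  letI := Fintype.ofFinite (P →* ℂˣ)
  let w : (P →* ℂˣ) → ℂ := fun l => if l = 1 then (a χ : ℂ) else if ζ l = χ then (δ : ℂ) else 0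
  let f : P → ℂ := fun x => ∑ l : P →* ℂˣ, w l * (l x : ℂ)
  have hf : ∀ x, f x = a χ + δ * SS ζ χ x := by
    intro x
    show ∑ l : P →* ℂˣ, w l * (l x : ℂ) = _
    rw [← Finset.add_sum_erase _ _ (Finset.mem_univ (1 : P →* ℂˣ))]
    have h1 : w 1 = a χ := if_pos rfl
    rw [h1, SS, Finset.mul_sum]
    congr 1
    · simp
    · refine Finset.sum_congr rfl (fun l hl => ?_)
      have h2 : w l = if ζ l = χ then (δ : ℂ) else 0 := if_neg (Finset.ne_of_mem_erase hl)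
      rw [h2]
      split_ifs <;> simp
  have h1 := ci_comb w
  have h2 : ∑ l, w l * conj (w l) = (a χ : ℂ) ^ 2 + nn ζ χ := by
    rw [← Finset.add_sum_erase _ _ (Finset.mem_univ (1 : P →* ℂˣ))]
    have h1 : w 1 = a χ := if_pos rfl
    rw [h1, map_intCast, ← sq, nn, Finset.card_filter]
    push_cast
    congr 1
    refine Finset.sum_congr rfl (fun l hl => ?_)
    have h2 : w l = if ζ l = χ then (δ : ℂ) else 0 := if_neg (Finset.ne_of_mem_erase hl)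
    rw [h2]
    split_ifs
    · rw [map_intCast, δ_sq hδ]
    · simp
  have h3 : (Nat.card P : ℂ) * classInner f f = ∑ x, f x * conj (f x) := by
    have h5 : (Nat.card P : ℂ) ≠ 0 := Nat.cast_ne_zero.mpr Nat.card_pos.ne'
    rw [classInner]; field_simp
  have h4 : classInner f f = (a χ : ℂ) ^ 2 + nn ζ χ := h1.trans h2
  rw [h4, ← Finset.add_sum_erase _ _ (Finset.mem_univ (1 : P))] at h3
  have h5 : SS ζ χ 1 = nn ζ χ := by
    rw [SS, nn, Finset.card_filter]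
    push_cast
    refine Finset.sum_congr rfl (fun l _ => ?_)
    simp
  have h6 : f 1 * conj (f 1) = ((a χ : ℂ) + δ * nn ζ χ) ^ 2 := by
    rw [hf, h5]
    simp only [map_add, map_mul, map_intCast, map_natCast]
    ring
  rw [h6] at h3
  have h7 : ∑ x ∈ Finset.univ.erase (1 : P), f x * conj (f x) = ∑ x ∈ Finset.univ.erase (1 : P), (χ : G → ℂ) x * conj ((χ : G → ℂ) x) := by
    refine Finset.sum_congr rfl (fun x hx => ?_)
    rw [hf, ha χ hχ x (Finset.ne_of_mem_erase hx)]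
  rw [h7] at h3
  linear_combination -h3

open Classical in
/-- exceptional characters -/
noncomputable def YY (ζ : (P →* ℂˣ) → IrrCharacter G) : Finset (IrrCharacter G) :=
  letI := Fintype.ofFinite (P →* ℂˣ)
  (Finset.univ.erase (1 : P →* ℂˣ)).image ζ

open Classical in
/-- nonexceptional characters of the block -/
noncomputable def XX (B : Set (IrrCharacter G)) (ζ : (P →* ℂˣ) → IrrCharacter G) : Finset (IrrCharacter G) :=
  Finset.univ.filter (fun χ => χ ∈ B ∧ χ ∉ YY ζ)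

theorem mem_YY {χ : IrrCharacter G} : χ ∈ YY ζ ↔ ∃ l : P →* ℂˣ, l ≠ 1 ∧ ζ l = χ := by
  classical
  letI := Fintype.ofFinite (P →* ℂˣ)
  rw [YY, Finset.mem_image]
  simp

theorem mem_XX {χ : IrrCharacter G} : χ ∈ XX B ζ ↔ χ ∈ B ∧ ∀ l : P →* ℂˣ, l ≠ 1 → ζ l ≠ χ := by
  classical
  rw [XX, Finset.mem_filter, mem_YY]
  push Not
  exact ⟨fun h => h.2, fun h => ⟨Finset.mem_univ _, h⟩⟩

include D hζ in
theorem card_YY : (YY ζ).card * m = Nat.card P - 1 := by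
  classical
  letI := Fintype.ofFinite (P →* ℂˣ)
  have h1 := Finset.card_eq_sum_card_image ζ (Finset.univ.erase (1 : P →* ℂˣ))
  rw [Finset.card_erase_of_mem (Finset.mem_univ _), Finset.card_univ, ← Nat.card_eq_fintype_card,
    Cfsg.Agent.H3.TwoDeg.dual_card D.ab] at h1
  rw [h1]
  have h2 : ∀ χ ∈ (Finset.univ.erase (1 : P →* ℂˣ)).image ζ, ((Finset.univ.erase (1 : P →* ℂˣ)).filter (fun l => ζ l = χ)).card = m := by
    intro χ hχ
    obtain ⟨l, hl, rfl⟩ := Finset.mem_image.mp hχ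
    exact nn_eq D hζ (Finset.ne_of_mem_erase hl)
  rw [Finset.sum_congr rfl h2, Finset.sum_const, smul_eq_mul]
  rfl

open Classical in
include D hδ hζ hc in
theorem sum_B (F : IrrCharacter G → ℂ) :
    ∑ χ : IrrCharacter G, (if χ ∈ B then F χ else 0) = ∑ χ ∈ XX B ζ, F χ + ∑ χ ∈ YY ζ, F χ := by
  rw [← Finset.sum_filter]
  have h1 : Finset.univ.filter (fun χ => χ ∈ B) = XX B ζ ∪ YY ζ := by
    ext χ
    rw [Finset.mem_filter, Finset.mem_union, mem_XX, mem_YY]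
    constructor
    · rintro ⟨-, h⟩
      by_cases h2 : ∃ l : P →* ℂˣ, l ≠ 1 ∧ ζ l = χ
      · exact Or.inr h2
      · push Not at h2
        exact Or.inl ⟨h, h2⟩
    · rintro (h | ⟨l, hl, rfl⟩)
      · exact ⟨Finset.mem_univ _, h.1⟩
      · exact ⟨Finset.mem_univ _, ζ_mem D hδ hζ hc hl⟩
  rw [h1, Finset.sum_union]
  rw [Finset.disjoint_left]
  intro χ hX hY
  obtain ⟨l, hl, h2⟩ := mem_YY.mp hY
  exact (mem_XX.mp hX).2 l hl h2

include D hδ hζ hc ha in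
/-- the norm relation -/
theorem norm_rel {d : ℤ} (hd : ∀ l : P →* ℂˣ, l ≠ 1 → a (ζ l) = d) {r : ℕ} (hr : (YY ζ).card = r) :
    (d - δ) ^ 2 + ((r : ℤ) - 1) * d ^ 2 + ∑ χ ∈ XX B ζ, a χ ^ 2 = m + 1 := by
  classical
  have h1 : ∑ x ∈ Finset.univ.erase (1 : P), ∑ χ : IrrCharacter G, (if χ ∈ B then (χ : G → ℂ) x * conj ((χ : G → ℂ) x) else 0) =
      ((Nat.card P : ℂ) - 1) * Nat.card P := by
    have h2 : ∀ x ∈ Finset.univ.erase (1 : P), ∑ χ : IrrCharacter G, (if χ ∈ B then (χ : G → ℂ) x * conj ((χ : G → ℂ) x) else 0) = Nat.card P := by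
      intro x hx
      have h3 := D.nrm x x.2 (fun h => Finset.ne_of_mem_erase hx (Subtype.ext h))
      rw [finsum_eq_sum_of_fintype] at h3
      convert h3
    rw [Finset.sum_congr rfl h2, Finset.sum_const, Finset.card_erase_of_mem (Finset.mem_univ _), Finset.card_univ,
      ← Nat.card_eq_fintype_card, nsmul_eq_mul, Nat.cast_sub Nat.card_pos, Nat.cast_one]
  rw [Finset.sum_comm] at h1
  have h2 : ∀ χ : IrrCharacter G, ∑ x ∈ Finset.univ.erase (1 : P), (if χ ∈ B then (χ : G → ℂ) x * conj ((χ : G → ℂ) x) else 0) =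
      if χ ∈ B then ∑ x ∈ Finset.univ.erase (1 : P), (χ : G → ℂ) x * conj ((χ : G → ℂ) x) else 0 := by
    intro χ
    split_ifs
    · rfl
    · exact Finset.sum_const_zero
  rw [Finset.sum_congr rfl (fun χ _ => h2 χ), sum_B D hδ hζ hc] at h1
  have hX : ∀ χ ∈ XX B ζ, ∑ x ∈ Finset.univ.erase (1 : P), (χ : G → ℂ) x * conj ((χ : G → ℂ) x) = ((Nat.card P : ℂ) - 1) * (a χ : ℂ) ^ 2 := by
    intro χ hχ
    have h3 := mem_XX.mp hχ
    rw [T_eq hδ ha h3.1, nn_zero h3.2]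
    push_cast
    ring
  have hY : ∀ χ ∈ YY ζ, ∑ x ∈ Finset.univ.erase (1 : P), (χ : G → ℂ) x * conj ((χ : G → ℂ) x) =
      (Nat.card P : ℂ) * ((d : ℂ) ^ 2 + m) - ((d : ℂ) + δ * m) ^ 2 := by
    intro χ hχ
    obtain ⟨l, hl, rfl⟩ := mem_YY.mp hχ
    rw [T_eq hδ ha (ζ_mem D hδ hζ hc hl), nn_eq D hζ hl, hd l hl]
  rw [Finset.sum_congr rfl hX, Finset.sum_congr rfl hY, Finset.sum_const, hr, nsmul_eq_mul, ← Finset.mul_sum] at h1
  have h4 := card_YY D hζ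
  rw [hr] at h4
  have h5 : (r : ℂ) * m = Nat.card P - 1 := by
    have h6 : ((r * m : ℕ) : ℂ) = ((Nat.card P - 1 : ℕ) : ℂ) := by rw [h4]
    rw [Nat.cast_sub Nat.card_pos] at h6
    push_cast at h6
    exact h6
  have hq0 : ((Nat.card P : ℂ) - 1) ≠ 0 := by
    have := D.big
    have h6 : ((Nat.card P : ℕ) : ℂ) ≠ ((1 : ℕ) : ℂ) := by
      intro h7
      have : Nat.card P = 1 := Nat.cast_injective h7
      omega
    rw [sub_ne_zero]
    simpa using h6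
  have h7 := δ_sq hδ
  have h8 : ((Nat.card P : ℂ) - 1) * (((d : ℂ) - δ) ^ 2 + ((r : ℂ) - 1) * d ^ 2 + ∑ χ ∈ XX B ζ, (a χ : ℂ) ^ 2 - (m + 1)) = 0 := by
    have h9 : (r : ℂ) * ((Nat.card P : ℂ) * ((d : ℂ) ^ 2 + m) - ((d : ℂ) + δ * m) ^ 2) =
        ((Nat.card P : ℂ) - 1) * ((r : ℂ) * d ^ 2 + Nat.card P - 2 * d * δ - m) := by
      linear_combination ((Nat.card P : ℂ) - 2 * d * δ - m) * h5 - r * m ^ 2 * h7
    rw [h9] at h1
    linear_combination h1 + ((Nat.card P : ℂ) - 1) * h7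
  have h9 := (mul_eq_zero.mp h8).resolve_left hq0
  have h10 : (((d - δ) ^ 2 + ((r : ℤ) - 1) * d ^ 2 + ∑ χ ∈ XX B ζ, a χ ^ 2 : ℤ) : ℂ) = (((m : ℤ) + 1 : ℤ) : ℂ) := by
    push_cast
    linear_combination h9
  exact_mod_cast h10

include D hδ hζ hc in
theorem Y_reg {η η' : IrrCharacter G} (h : η ∈ YY ζ) (h' : η' ∈ YY ζ) {g : G} (hg : ¬ p ∣ orderOf g) :
    (η : G → ℂ) g = (η' : G → ℂ) g := by
  obtain ⟨l, hl, rfl⟩ := mem_YY.mp h
  obtain ⟨k, hk, rfl⟩ := mem_YY.mp h'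
  have h1 := congrFun (hc l k hl hk) g
  rw [Pi.sub_apply, bb_reg D l k hg, sub_self, Pi.smul_apply, Pi.sub_apply, smul_eq_mul] at h1
  rcases mul_eq_zero.mp h1.symm with h5 | h5
  · rcases hδ with h6 | h6 <;> rw [h6] at h5 <;> norm_num at h5
  · exact sub_eq_zero.mp h5

include D hδ hζ hc ha in
/-- the relation on regular elements -/
theorem reg_rel {d : ℤ} (hd : ∀ l : P →* ℂˣ, l ≠ 1 → a (ζ l) = d) {r : ℕ} (hr : (YY ζ).card = r)
    {η : IrrCharacter G} (hη : η ∈ YY ζ) {g : G} (hg : ¬ p ∣ orderOf g) :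
    ((r : ℂ) * d - δ) * (η : G → ℂ) g + ∑ χ ∈ XX B ζ, (a χ : ℂ) * (χ : G → ℂ) g = 0 := by
  classical
  letI := Fintype.ofFinite (P →* ℂˣ)
  obtain ⟨x, hx⟩ := exists_el D
  have h1 := KK_reg D hx hg
  rw [KK, sum_B D hδ hζ hc] at h1
  have hX : ∀ χ ∈ XX B ζ, (χ : G → ℂ) g * conj ((χ : G → ℂ) x) = (a χ : ℂ) * (χ : G → ℂ) g := by
    intro χ hχ
    have h3 := mem_XX.mp hχ
    rw [ha χ h3.1 x hx, SS_zero h3.2, mul_zero, add_zero, map_intCast, mul_comm]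
  have hY : ∀ χ ∈ YY ζ, (χ : G → ℂ) g * conj ((χ : G → ℂ) x) = (η : G → ℂ) g * (d + δ * conj (SS ζ χ x)) := by
    intro χ hχ
    rw [Y_reg D hδ hζ hc hχ hη hg]
    obtain ⟨l, hl, rfl⟩ := mem_YY.mp hχ
    rw [ha _ (ζ_mem D hδ hζ hc hl) x hx, hd l hl]
    simp only [map_add, map_mul, map_intCast]
  rw [Finset.sum_congr rfl hX, Finset.sum_congr rfl hY, ← Finset.mul_sum, Finset.sum_add_distrib, Finset.sum_const, hr,
    nsmul_eq_mul, ← Finset.mul_sum, ← map_sum] at h1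
  have h2 : ∑ χ ∈ YY ζ, SS ζ χ x = -1 := by
    rw [← sum_dual' D.ab hx]
    simp only [SS]
    rw [Finset.sum_comm]
    refine Finset.sum_congr rfl (fun l hl => ?_)
    rw [Finset.sum_ite_eq, if_pos]
    exact mem_YY.mpr ⟨l, Finset.ne_of_mem_erase hl, rfl⟩
  rw [h2] at h1
  simp only [map_neg, map_one] at h1
  linear_combination h1

end A

end Fin

end Cfsg.Agent.H3.PBC
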