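import Mathlib
import Cfsg.Prelude.Def_Local
import Cfsg.Agent.H3_PBC3
import Cfsg.Agent.H10_BlockV4
import Cfsg.Agent.S0942
import Cfsg.Agent.S0947
import Cfsg.Agent.S0925

/-!
# The data for the principal block
-/

set_option autoImplicit false

open scoped ComplexConjugate

namespace Cfsg.Agent.H3.PBC

open Cfsg Cfsg.Agent.H3.CharBasic Cfsg.Agent.H3.CharIrr Cfsg.Agent.H3.CharComplete Cfsg.Agent.H3.CharInd
  Cfsg.Agent.H3.CharMult

section Cent

variable {G : Type*} [Group G] [Finite G] {p : ℕ} [hp : Fact p.Prime] (P : Sylow p G)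
  (hab : IsMulCommutative P)
  (hfrob : ∀ y : G, y ∈ (P : Subgroup G) → y ≠ 1 → Subgroup.centralizer ({y} : Set G) ⊓ Subgroup.normalizer ((P : Subgroup G) : Set G) =
    Subgroup.centralizer ((P : Subgroup G) : Set G))

include hab in
theorem ab' : ∀ a b : (P : Subgroup G), a * b = b * a := fun a b => hab.is_comm.comm a b

include hab hfrob in
/-- the centralizer of an element of `P` has a normal `p`-complement -/
theorem exists_ker {x : G} (hx : x ∈ P) (hx1 : x ≠ 1) : ∃ K : Subgroup (Subgroup.centralizer ({x} : Set G)), K.Normal ∧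
    ¬ p ∣ Nat.card K ∧ (∃ k, K.index = p ^ k) ∧ (∀ u : Subgroup.centralizer ({x} : Set G), ¬ p ∣ orderOf u → u ∈ K) ∧
      p ^ (Nat.card (Subgroup.centralizer ({x} : Set G))).factorization p = Nat.card P := by
  obtain ⟨H, hH⟩ : ∃ H : Subgroup G, H = Subgroup.centralizer ({x} : Set G) := ⟨_, rfl⟩
  have hmem : ∀ y, y ∈ H ↔ y * x = x * y := by
    intro y; rw [hH, Subgroup.mem_centralizer_singleton_iff]
  have hPH : (P : Subgroup G) ≤ H := by
    intro y hy
    rw [hmem]
    exact congrArg Subtype.val (ab' P hab ⟨y, hy⟩ ⟨x, hx⟩)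
  rw [← hH]
  let Q : Sylow p H := P.subtype hPH
  have hQ : (Q : Subgroup H) = (P : Subgroup G).subgroupOf H := rfl
  have hQmem : ∀ y : H, y ∈ Q ↔ (y : G) ∈ (P : Subgroup G) := fun y => Iff.rfl
  have hNC : Subgroup.normalizer ((Q : Subgroup H) : Set H) ≤ Subgroup.centralizer ((Q : Subgroup H) : Set H) := by
    intro h hh
    have h1 : (h : G) ∈ Subgroup.normalizer ((P : Subgroup G) : Set G) := by
      rw [Subgroup.mem_normalizer_iff]
      intro y
      rw [Subgroup.mem_normalizer_iff] at hh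
      constructor
      · intro hy
        have := (hh ⟨y, hPH hy⟩).mp hy
        exact this
      · intro hy
        have hy' : y ∈ H := by
          have h2 := hPH hy
          have h3 : y = (h : G)⁻¹ * (h * y * (h : G)⁻¹) * h := by group
          rw [h3]
          exact H.mul_mem (H.mul_mem (H.inv_mem h.2) h2) h.2
        exact (hh ⟨y, hy'⟩).mpr hy
    have h2 : (h : G) ∈ Subgroup.centralizer ({x} : Set G) ⊓ Subgroup.normalizer ((P : Subgroup G) : Set G) :=
      ⟨by rw [← hH]; exact h.2, h1⟩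
    rw [hfrob x hx hx1, Subgroup.mem_centralizer_iff] at h2
    rw [Subgroup.mem_centralizer_iff]
    intro y hy
    exact Subtype.ext (h2 y hy)
  have hcQ : Nat.card Q = Nat.card P := Nat.card_congr (Subgroup.subgroupOfEquivOfLe hPH).toEquiv
  refine ⟨(MonoidHom.transferSylow Q hNC).ker, inferInstance, MonoidHom.not_dvd_card_ker_transferSylow Q hNC, ?_, ?_, ?_⟩
  · have h1 := (MonoidHom.ker_transferSylow_isComplement' Q hNC).symm.index_eq_card
    rw [h1]
    exact IsPGroup.iff_card.mp Q.2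
  · intro u hu
    rw [MonoidHom.mem_ker]
    obtain ⟨k, hk⟩ := Q.2 (MonoidHom.transferSylow Q hNC u)
    have h1 : orderOf (MonoidHom.transferSylow Q hNC u) ∣ p ^ k := orderOf_dvd_of_pow_eq_one hk
    have h2 : orderOf (MonoidHom.transferSylow Q hNC u) ∣ orderOf u := orderOf_map_dvd _ _
    have h3 : Nat.Coprime (p ^ k) (orderOf u) := Nat.Coprime.pow_left k ((Nat.Prime.coprime_iff_not_dvd hp.out).mpr hu)
    have h4 := Nat.Coprime.eq_one_of_dvd (h3.coprime_dvd_left h1) h2
    exact orderOf_eq_one_iff.mp h4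
  · rw [← hcQ, Sylow.card_eq_multiplicity Q]

end Cent

section Data

variable {G : Type*} [Group G] [Fintype G] {p : ℕ} [hp : Fact p.Prime] {I : Ideal AlgInt} (hI : IsPModular p I) (P : Sylow p G)
  (hab : IsMulCommutative P) {m : ℕ} (hm1 : 1 < m) (hm2 : m + 1 < Nat.card P)
  (hCN : (Subgroup.centralizer ((P : Subgroup G) : Set G)).relIndex (Subgroup.normalizer ((P : Subgroup G) : Set G)) = m)
  (hfrob : ∀ y : G, y ∈ (P : Subgroup G) → y ≠ 1 → Subgroup.centralizer ({y} : Set G) ⊓ Subgroup.normalizer ((P : Subgroup G) : Set G) =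
    Subgroup.centralizer ((P : Subgroup G) : Set G))

include hp in
theorem order_pow (P : Sylow p G) {x : G} (hx : x ∈ (P : Subgroup G)) : ∃ k : ℕ, orderOf x = p ^ k := by
  have h1 := IsPGroup.iff_orderOf.mp P.2 ⟨x, hx⟩
  obtain ⟨k, hk⟩ := h1
  rw [Subgroup.orderOf_mk] at hk
  exact ⟨k, hk⟩

include hI hab hm1 hm2 hCN hfrob in
theorem data : PB (P : Subgroup G) (Subgroup.normalizer ((P : Subgroup G) : Set G)) (Subgroup.centralizer ((P : Subgroup G) : Set G)) p m
    (principalBlock I G) := by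
  classical
  haveI := hI.2.1
  have : Fintype (IrrCharacter G) := Fintype.ofFinite _
  have hCle : Subgroup.centralizer ((P : Subgroup G) : Set G) ≤ Subgroup.normalizer ((P : Subgroup G) : Set G) := by
    intro c hc
    rw [Subgroup.mem_centralizer_iff] at hc
    rw [Subgroup.mem_normalizer_iff]
    intro y
    constructor
    · intro hy
      have h1 : c * y * c⁻¹ = y := by rw [← hc y hy]; group
      rw [h1]; exact hy
    · intro hy
      have h1 := hc _ hy
      have h2 : c * y * c⁻¹ = y := by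
        have h3 : c⁻¹ * (c * y * c⁻¹ * c) = c⁻¹ * (c * (c * y * c⁻¹)) := by rw [h1]
        have h4 : c⁻¹ * (c * y * c⁻¹ * c) = y := by group
        have h5 : c⁻¹ * (c * (c * y * c⁻¹)) = c * y * c⁻¹ := by group
        rw [h4, h5] at h3; exact h3.symm
      rw [h2] at hy; exact hy
  have hpreg : ¬ p ∣ orderOf (1 : G) := by
    rw [orderOf_one]; exact fun h => hp.out.one_lt.ne' (Nat.dvd_one.mp h)
  have hpp : ∀ x ∈ (P : Subgroup G), IsPPart p x x := fun x hx => ⟨1, mul_one x, Commute.one_right x, order_pow P hx, hpreg⟩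
  have horth := (Cfsg.Agent.S0925.result (G := G) p I hI).2
  have hPB : IsPBlock I (principalBlock I G) := Cfsg.Agent.H10.BlockKer.principal_isPBlock
  have horth' : ∀ g h x y : G, IsPPart p g x → IsPPart p h y → ¬ IsConj x y →
      ∑ᶠ χ : IrrCharacter G, (if χ ∈ principalBlock I G then (χ : G → ℂ) g * conj ((χ : G → ℂ) h) else 0) = 0 := by
    intro g h x y h1 h2 h3
    have h4 := horth g h x y h1 h2 h3 _ hPB
    rw [Cfsg.Agent.H10.BlockOrth.finsum_mem_irr] at h4
    rw [finsum_eq_sum_of_fintype]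
    refine Eq.trans (Finset.sum_congr rfl (fun χ _ => ?_)) h4
    rw [IsChar.inv_eq_conj (IsIrr.isCharacter χ.2)]
  refine ⟨ab' P hab, ?_, ?_, hCle, ?_, ?_, hm2, by omega, ?_, ?_, ?_, ?_, ?_, ?_, ?_⟩
  · intro n hn x hx
    exact (Subgroup.mem_normalizer_iff.mp hn x).mp hx
  · intro c hc x hx
    rw [Subgroup.mem_centralizer_iff] at hc
    rw [← hc x hx]; group
  · intro n hn x hx hx1 h
    rw [← hfrob x hx hx1]
    refine Subgroup.mem_inf.mpr ⟨?_, hn⟩
    rw [Subgroup.mem_centralizer_singleton_iff]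
    calc n * x = n * x * n⁻¹ * n := by group
      _ = x * n := by rw [h]
  · have h1 := Subgroup.index_mul_card ((Subgroup.centralizer ((P : Subgroup G) : Set G)).subgroupOf (Subgroup.normalizer ((P : Subgroup G) : Set G)))
    have h2 : Nat.card ((Subgroup.centralizer ((P : Subgroup G) : Set G)).subgroupOf (Subgroup.normalizer ((P : Subgroup G) : Set G))) =
        Nat.card (Subgroup.centralizer ((P : Subgroup G) : Set G)) := Nat.card_congr (Subgroup.subgroupOfEquivOfLe hCle).toEquiv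
    rw [h2] at h1
    rw [← h1, ← hCN]
    rfl
  · -- constancy on sections
    intro χ hχ x y hx hx1 hpy
    obtain ⟨K, hKn, hKc, hKi, hKu, -⟩ := exists_ker P hab hfrob hx hx1
    obtain ⟨u, hu1, hu2, hu3, hu4⟩ := hpy
    rw [← hu1]
    refine Cfsg.Agent.S0942.result p I hI x hu3 u ?_ χ hχ
    have huC : u ∈ Subgroup.centralizer ({x} : Set G) := by
      rw [Subgroup.mem_centralizer_singleton_iff]
      exact hu2.symm
    refine ⟨⟨u, huC⟩, ?_, rfl⟩
    have h1 : K ≤ pPrimeCore p (Subgroup.centralizer ({x} : Set G)) :=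
      Cfsg.Agent.H1.Nilp.le_pPrimeCore hKn ((Nat.Prime.coprime_iff_not_dvd hp.out).mpr hKc).symm
    apply h1
    apply hKu
    rw [Subgroup.orderOf_mk]
    exact hu4
  · -- orth1
    intro x hx hx1 g hg
    obtain ⟨y, hy⟩ := Cfsg.Agent.H10.PPart.ppart_exists (p := p) g
    have hy1 : y = 1 := (Cfsg.Agent.H10.PPart.ppart_regular_iff hy).mpr hg
    have h1 := horth' g x y x hy (hpp x hx) (by
      rw [hy1]
      intro h
      exact hx1 (isConj_one_right.mp h))
    convert h1
  · -- orth2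
    intro x hx hx1 y hy hy1 hn
    have h1 := horth' y x y x (hpp y hy) (hpp x hx) (by
      intro h
      obtain ⟨c, hc⟩ := isConj_iff.mp h
      have h2 : (c⁻¹)⁻¹ * y * c⁻¹ ∈ P := by rw [inv_inv, hc]; exact hx
      obtain ⟨n, hn', hn2⟩ := P.conj_eq_normalizer_conj_of_mem y c⁻¹ hy h2
      apply hn n⁻¹ (inv_mem hn')
      rw [inv_inv, ← hn2, inv_inv, hc])
    convert h1
  · -- norm
    intro x hx hx1
    obtain ⟨K, hKn, hKc, hKi, hKu, hcard⟩ := exists_ker P hab hfrob hx hx1
    have h1 := (Cfsg.Agent.S0947.result p I hI x (order_pow P hx) hx1 1 (by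
      rw [orderOf_one]; exact fun h => hp.out.one_lt.ne' (Nat.dvd_one.mp h))).2 (by
      have h2 : K ≤ pPrimeCore p (Subgroup.centralizer ({x} : Set G)) :=
        Cfsg.Agent.H1.Nilp.le_pPrimeCore hKn ((Nat.Prime.coprime_iff_not_dvd hp.out).mpr hKc).symm
      obtain ⟨k, hk⟩ := hKi
      have h3 := Subgroup.index_dvd_of_le h2
      rw [hk] at h3
      obtain ⟨j, -, hj⟩ := (Nat.dvd_prime_pow hp.out).mp h3
      exact ⟨j, hj⟩)
    rw [hcard, Cfsg.Agent.H10.BlockOrth.finsum_mem_irr] at h1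
    rw [finsum_eq_sum_of_fintype]
    have h2 : ((∑ χ : IrrCharacter G, (if χ ∈ principalBlock I G then ‖(χ : G → ℂ) (x * ((1 : Subgroup.centralizer ({x} : Set G)) : G))‖ ^ 2 else 0) : ℝ) : ℂ)
        = ((Nat.card P : ℝ) : ℂ) := by rw [h1]
    rw [Complex.ofReal_sum, Complex.ofReal_natCast] at h2
    rw [← h2]
    refine Finset.sum_congr rfl (fun χ _ => ?_)
    rw [Subgroup.coe_one, mul_one]
    split_ifs
    · rw [Complex.mul_conj']; push_cast; rfl
    · simp
  · -- nonvanishing
    intro χ hχ h0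
    by_contra hne
    have h1 : χ ≠ Cfsg.Agent.H10.BlockKer.triv G := by
      intro h
      apply hne
      rw [h]; rfl
    obtain ⟨g, hg1, hg2⟩ := Cfsg.Agent.H10.BlockV4.principal_nonvanish hI hχ h1
    exact hg2 (h0 g hg1)
  · -- singular elements
    intro g hg
    obtain ⟨y, hy⟩ := Cfsg.Agent.H10.PPart.ppart_exists (p := p) g
    have hy1 : y ≠ 1 := fun h => (Cfsg.Agent.H10.PPart.ppart_regular_iff hy).mp h hg
    obtain ⟨u, hu1, hu2, ⟨k, hk⟩, hu4⟩ := id hy
    have hpg : IsPGroup p (Subgroup.zpowers y) := by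
      rw [IsPGroup.iff_card, Nat.card_zpowers]
      exact ⟨k, hk⟩
    obtain ⟨Q, hQ⟩ := hpg.exists_le_sylow
    obtain ⟨a, ha⟩ := MulAction.exists_smul_eq G Q P
    refine ⟨a, a * y * a⁻¹, ?_, ?_, Cfsg.Agent.H10.PPart.conj_ppart hy a⟩
    · rw [← ha]
      have h1 : y ∈ Q := hQ (Subgroup.mem_zpowers y)
      have h2 := Subgroup.smul_mem_pointwise_smul y (MulAut.conj a) (Q : Subgroup G) h1
      exact h2
    · intro h
      apply hy1
      have h3 : y = a⁻¹ * (a * y * a⁻¹) * a := by group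
      rw [h3, h]; group
  · exact Cfsg.Agent.H10.BlockKer.triv_mem

end Data

end Cfsg.Agent.H3.PBC
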