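import Mathlib
import Cfsg.Agent.H3_PBC4

/-!
# The structure of the principal block for an abelian Sylow subgroup with a Frobenius normalizer action
-/

set_option autoImplicit false

open scoped ComplexConjugate

namespace Cfsg.Agent.H3.PBC

open Cfsg Cfsg.Agent.H3.CharBasic Cfsg.Agent.H3.CharIrr Cfsg.Agent.H3.CharComplete Cfsg.Agent.H3.CharInd
  Cfsg.Agent.H3.CharMult

theorem main {G : Type*} [Group G] [Finite G] (p : ℕ) [Fact p.Prime] (M : Ideal Cfsg.AlgInt) (hM : Cfsg.IsPModular p M) (P : Sylow p G) (hab : IsMulCommutative P) (m : ℕ) (hm1 : 1 < m) (hm2 : m + 1 < Nat.card P) (hCN : (Subgroup.centralizer ((P : Subgroup G) : Set G)).relIndex (Subgroup.normalizer ((P : Subgroup G) : Set G)) = m) (hfrob : ∀ y : G, y ∈ (P : Subgroup G) → y ≠ 1 → Subgroup.centralizer ({y} : Set G) ⊓ Subgroup.normalizer ((P : Subgroup G) : Set G) = Subgroup.centralizer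 ((P : Subgroup G) : Set G)) : ∃ (s : ℕ) (X Y : Set (Cfsg.IrrCharacter G)), s ≤ m ∧ Cfsg.principalBlock M G = X ∪ Y ∧ Disjoint X Y ∧ Nat.card X = s ∧ Nat.card Y = (Nat.card P - 1) / m ∧ (∃ χ₁ ∈ X, (χ₁ : G → ℂ) = fun _ => 1) ∧ ∃ (a : Cfsg.IrrCharacter G → ℤ) (d δ : ℤ) (ζ : (↥(P : Subgroup G) →* ℂˣ) → Cfsg.IrrCharacter G), (δ = 1 ∨ δ = -1) ∧ (∀ χ ∈ X, a χ ≠ 0 ∧ ∀ z y : G, Cfsg.IsPPart p z y → y ∈ (P : Subgroup G) → y ≠ 1 → (χ : G → ℂ) z = (a χ : ℂ)) ∧ (∀ ψ : ↥(P : Subgroup G) →* ℂˣ, ψ ≠ 1 → ζ ψ ∈ Y) ∧ (∀ η ∈ Y, ∃ ψ : ↥(P : Subgroup G) →* ℂˣ, ψ ≠ 1 ∧ ζ ψ = η) ∧ (∀ ψ ψ' : ↥(P : Subgroup G) →* ℂˣ, ψ ≠ 1 → (∃ n : G, n ∈ Subgroup.normalizer ((P : Subgroup G) : Set G) ∧ ∀ w w' : ↥(P : Subgroup G), (w' : G) = n * w * n⁻¹ → ψ' w' = ψ w) → ζ ψ' = ζ ψ) ∧ (∀ ψ : ↥(P : Subgroup G) →* ℂˣ, ψ ≠ 1 → ∀ (z : G) (y : ↥(P : Subgroup G)), Cfsg.IsPPart p z (y : G) → (y : G)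 ≠ 1 → (ζ ψ : G → ℂ) z = (d : ℂ) + (δ : ℂ) * ∑ᶠ ψ' ∈ {ψ' : ↥(P : Subgroup G) →* ℂˣ | ∃ n : G, n ∈ Subgroup.normalizer ((P : Subgroup G) : Set G) ∧ ∀ w w' : ↥(P : Subgroup G), (w' : G) = n * w * n⁻¹ → ψ' w' = ψ w}, ((ψ' y : ℂˣ) : ℂ)) ∧ ((d - δ) ^ 2 + ((Nat.card P - 1) / m - 1 : ℤ) * d ^ 2 + ∑ᶠ χ ∈ X, a χ ^ 2 = (m : ℤ) + 1) ∧ (∀ η ∈ Y, ∀ η' ∈ Y, ∀ g : G, ¬ p ∣ orderOf g → (η : G → ℂ) g = (η' : G → ℂ) g) ∧ (∀ η ∈ Y, ∀ g : G, ¬ p ∣ orderOf g → ((((Nat.card P - 1) / m : ℕ) : ℂ) * d - δ) * (η : G → ℂ) g + ∑ᶠ χ ∈ X, (a χ : ℂ) * (χ : G → ℂ) g = 0) := by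
  classical
  have : Fintype G := Fintype.ofFinite _
  have : Fintype (IrrCharacter G) := Fintype.ofFinite _
  have : Fintype (P : Subgroup G) := Fintype.ofFinite _
  have : Fintype (Subgroup.normalizer ((P : Subgroup G) : Set G)) := Fintype.ofFinite _
  have D := data hM P hab hm1 hm2 hCN hfrob
  obtain ⟨δ, ζ, hδ, hζ, hc⟩ := coh D
  obtain ⟨a, ha⟩ := exists_a D hc
  obtain ⟨l0, hl0⟩ := exists_ne_one D
  obtain ⟨d, hd0⟩ : ∃ d, d = a (ζ l0) := ⟨_, rfl⟩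
  have hd : ∀ l : (P : Subgroup G) →* ℂˣ, l ≠ 1 → a (ζ l) = d := fun l hl => by rw [hd0]; exact a_const D hδ hζ hc ha hl hl0
  have hrm := card_YY D hζ
  have hm0 : 0 < m := by omega
  obtain ⟨r, hr⟩ : ∃ r, (YY ζ).card = r := ⟨_, rfl⟩
  rw [hr] at hrm
  have hr' : (Nat.card P - 1) / m = r := Nat.div_eq_of_eq_mul_left hm0 hrm.symm
  have hnr := norm_rel D hδ hζ hc ha hd hr
  have hPc : 1 ≤ Nat.card P := Nat.card_pos
  have hrZ : ((Nat.card P : ℤ) - 1) / (m : ℤ) = r := by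
    apply Int.ediv_eq_of_eq_mul_left (by omega)
    have h1 : ((r * m : ℕ) : ℤ) = ((Nat.card P - 1 : ℕ) : ℤ) := by rw [hrm]
    rw [Nat.cast_sub hPc] at h1
    push_cast at h1
    exact h1.symm
  have hXB : ∀ χ ∈ XX (principalBlock M G) ζ, χ ∈ principalBlock M G := fun χ hχ => (mem_XX.mp hχ).1
  have ha0 : ∀ χ ∈ XX (principalBlock M G) ζ, a χ ≠ 0 := fun χ hχ => a_ne D ha (mem_XX.mp hχ).1 (mem_XX.mp hχ).2
  refine ⟨(XX (principalBlock M G) ζ).card, ↑(XX (principalBlock M G) ζ), ↑(YY ζ), ?_, ?_, ?_, ?_, ?_, ?_, a, d, δ, ζ, hδ, ?_, ?_, ?_, ?_, ?_, ?_, ?_, ?_⟩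
  · -- s ≤ m
    have h1 : ((XX (principalBlock M G) ζ).card : ℤ) ≤ ∑ χ ∈ XX (principalBlock M G) ζ, a χ ^ 2 := by
      rw [Finset.card_eq_sum_ones]
      push_cast
      refine Finset.sum_le_sum (fun χ hχ => ?_)
      have h2 := ha0 χ hχ
      have h3 : 0 < a χ ^ 2 := by positivity
      omega
    have h2 : 2 ≤ r := by
      by_contra hcon
      have h3 : r * m ≤ 1 * m := Nat.mul_le_mul_right m (by omega)
      omega
    have h3 : 1 ≤ (d - δ) ^ 2 + ((r : ℤ) - 1) * d ^ 2 := by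
      have h4 : (2 : ℤ) ≤ r := by exact_mod_cast h2
      by_cases h5 : d = δ
      · have h6 : d ^ 2 = 1 := by
          rw [h5]; rcases hδ with h | h <;> rw [h] <;> norm_num
        rw [h6, h5]; nlinarith
      · have h6 : 0 < (d - δ) ^ 2 := by
          have : d - δ ≠ 0 := sub_ne_zero.mpr h5
          positivity
        have h7 : 0 ≤ ((r : ℤ) - 1) * d ^ 2 := mul_nonneg (by omega) (sq_nonneg _)
        omega
    have h4 : ((XX (principalBlock M G) ζ).card : ℤ) ≤ m := by linarith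
    exact_mod_cast h4
  · ext χ
    rw [Set.mem_union, Finset.mem_coe, Finset.mem_coe, mem_XX, mem_YY]
    constructor
    · intro h
      by_cases h2 : ∃ l : (P : Subgroup G) →* ℂˣ, l ≠ 1 ∧ ζ l = χ
      · exact Or.inr h2
      · push Not at h2
        exact Or.inl ⟨h, h2⟩
    · rintro (h | ⟨l, hl, rfl⟩)
      · exact h.1
      · exact ζ_mem D hδ hζ hc hl
  · rw [Set.disjoint_left]
    intro χ hX hY
    obtain ⟨l, hl, h2⟩ := mem_YY.mp (Finset.mem_coe.mp hY)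
    exact (mem_XX.mp (Finset.mem_coe.mp hX)).2 l hl h2
  · rw [Nat.card_coe_set_eq, Set.ncard_coe_finset]
  · rw [Nat.card_coe_set_eq, Set.ncard_coe_finset, hr, hr']
  · exact ⟨⟨fun _ => 1, isIrr_one⟩, Finset.mem_coe.mpr (mem_XX.mpr ⟨D.triv, fun l hl h => ζ_ne D hδ hζ hc hl (congrArg Subtype.val h)⟩), rfl⟩
  · intro χ hχ
    have hχ' := Finset.mem_coe.mp hχ
    refine ⟨ha0 χ hχ', fun z y hz hy hy1 => ?_⟩
    rw [D.val χ (hXB χ hχ') y z hy hy1 hz]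
    have h1 := ha χ (hXB χ hχ') ⟨y, hy⟩ (fun h => hy1 (congrArg Subtype.val h))
    rw [SS_zero (mem_XX.mp hχ').2, mul_zero, add_zero] at h1
    exact h1
  · intro ψ hψ
    exact Finset.mem_coe.mpr (mem_YY.mpr ⟨ψ, hψ, rfl⟩)
  · intro η hη
    exact mem_YY.mp (Finset.mem_coe.mp hη)
  · rintro ψ ψ' hψ ⟨n, hn, hnw⟩
    have hrel : Rel D ψ ψ' := ⟨⟨n, hn⟩, by
      apply MonoidHom.ext
      intro w
      exact hnw w _ rfl⟩
    exact ((hζ ψ ψ' hψ (Rel.ne_one D hrel hψ)).mpr hrel).symm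
  · intro ψ hψ z y hz hy1
    have hmem := ζ_mem D hδ hζ hc hψ
    rw [D.val (ζ ψ) hmem y z y.2 hy1 hz, ha _ hmem y (fun h => hy1 (congrArg Subtype.val h)), hd ψ hψ, SS_eq D hζ hψ]
    congr 2
    have : Fintype ((P : Subgroup G) →* ℂˣ) := Fintype.ofFinite _
    rw [bet_eq D hψ, ← Finset.sum_filter, finsum_mem_eq_finite_toFinset_sum _ (Set.toFinite _)]
    refine Finset.sum_congr ?_ (fun _ _ => rfl)
    ext k
    rw [Finset.mem_filter, Set.Finite.mem_toFinset, Set.mem_setOf_eq]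
    constructor
    · rintro ⟨-, h⟩
      obtain ⟨⟨n, hn⟩, hk⟩ := Rel.symm D h
      refine ⟨n, hn, fun w w' hw => ?_⟩
      have h1 := DFunLike.congr_fun hk w
      rw [MonoidHom.comp_apply] at h1
      rw [← h1]
      congr 1
      exact Subtype.ext hw
    · rintro ⟨n, hn, hnw⟩
      refine ⟨Finset.mem_univ _, Rel.symm D ⟨⟨n, hn⟩, ?_⟩⟩
      apply MonoidHom.ext
      intro w
      exact hnw w _ rfl
  · rw [finsum_mem_coe_finset, hrZ]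
    exact hnr
  · intro η hη η' hη' g hg
    exact Y_reg D hδ hζ hc (Finset.mem_coe.mp hη) (Finset.mem_coe.mp hη') hg
  · intro η hη g hg
    rw [finsum_mem_coe_finset, hr']
    exact reg_rel D hδ hζ hc ha hd hr (Finset.mem_coe.mp hη) hg

end Cfsg.Agent.H3.PBC
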