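import Mathlib
import Cfsg.Prelude.Def_Characters
import Cfsg.Agent.H3_CharGal
import Cfsg.Agent.H3_GalProd
import Cfsg.Agent.H3_Monomial
import Cfsg.Agent.H3_PRes

/-!
# Schur's bound for the order of a p-group with a faithful irreducible character
-/

set_option autoImplicit false

open scoped ComplexConjugate

namespace Cfsg.Agent.H3.Schur

open Cfsg Cfsg.Agent.H3.CharBasic Cfsg.Agent.H3.CharIrr Cfsg.Agent.H3.CharComplete
  Cfsg.Agent.H3.CharMult Cfsg.Agent.H3.CharInd Cfsg.Agent.H3.CharInt Cfsg.Agent.H3.CharGal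
  Cfsg.Agent.H3.Monomial

section Gal

variable {G : Type*} [Group G] [Finite G]

/-- power by a residue -/
noncomputable def pw (g : G) (u : (ZMod (Nat.card G))ˣ) : G := g ^ ((u : ZMod (Nat.card G)).val)

theorem pw_mul (g : G) (u v : (ZMod (Nat.card G))ˣ) : pw g (u * v) = pw (pw g u) v := by
  rw [pw, pw, pw, Units.val_mul, ZMod.val_mul, pow_mod_natCard, pow_mul]

theorem pw_one (g : G) : pw g 1 = g := by
  have hN : NeZero (Nat.card G) := ⟨Nat.card_pos.ne'⟩
  rw [pw, Units.val_one]
  rcases Nat.lt_or_ge 1 (Nat.card G) with h | h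
  · have := Fact.mk h
    rw [ZMod.val_one, pow_one]
  · have h1 : Nat.card G = 1 := le_antisymm h Nat.card_pos
    have : Subsingleton G := (Nat.card_eq_one_iff_unique.mp h1).1
    exact Subsingleton.elim _ _

/-- the stabilizer of the character under power maps -/
noncomputable def SS [NeZero (Nat.card G)] (χ : G → ℂ) : Finset (ZMod (Nat.card G))ˣ := by
  classical
  exact Finset.univ.filter (fun u => ∀ g, χ (pw g u) = χ g)

theorem mem_SS [NeZero (Nat.card G)] {χ : G → ℂ} {u : (ZMod (Nat.card G))ˣ} :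
    u ∈ SS χ ↔ ∀ g, χ (pw g u) = χ g := by
  classical
  simp [SS]

theorem totient_le [NeZero (Nat.card G)] {χ : G → ℂ} (hχ : IsCharacter G χ) :
    (Nat.card G).totient ≤
      (SS χ).card * Module.finrank ℚ (IntermediateField.adjoin ℚ (Set.range χ)) := by
  classical
  set N := Nat.card G with hN
  set L := IntermediateField.adjoin ℚ (Set.range χ) with hL
  have hLC : L ≤ Cyc N := by
    rw [hL, IntermediateField.adjoin_le_iff]
    rintro _ ⟨g, rfl⟩
    exact IsChar.mem_cyc hχ g (pow_card_eq_one')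
  have hfd : FiniteDimensional ℚ L :=
    FiniteDimensional.of_injective (IntermediateField.inclusion hLC).toLinearMap
      (IntermediateField.inclusion_injective hLC)
  let F : (ZMod N)ˣ → (G → ℂ) := fun u g => χ (pw g u)
  have hmemL : ∀ g, χ g ∈ L := fun g => IntermediateField.subset_adjoin ℚ _ ⟨g, rfl⟩
  -- the number of conjugates is at most the degree
  have h1 : (Finset.univ.image F).card ≤ Module.finrank ℚ L := by
    rw [← AlgHom.card ℚ L ℂ, ← Finset.card_univ]
    let Φ : (L →ₐ[ℚ] ℂ) → (G → ℂ) := fun τ g => τ ⟨χ g, hmemL g⟩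
    have h2 : Finset.univ.image F ⊆ Finset.univ.image Φ := by
      intro f hf
      obtain ⟨u, -, rfl⟩ := Finset.mem_image.mp hf
      obtain ⟨σ, hσ⟩ := exists_gal N (u : ZMod N).val (ZMod.val_coe_unit_coprime u)
      refine Finset.mem_image.mpr ⟨(Cyc N).val.comp (σ.toAlgHom.comp (IntermediateField.inclusion hLC)),
        Finset.mem_univ _, ?_⟩
      funext g
      exact IsChar.gal hχ g (pow_card_eq_one') hσ (IntermediateField.inclusion hLC ⟨χ g, hmemL g⟩) rfl
    exact (Finset.card_le_card h2).trans Finset.card_image_le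
  have h3 : (Finset.univ : Finset (ZMod N)ˣ).card ≤ (SS χ).card * (Finset.univ.image F).card := by
    rw [mul_comm]
    have h4 := Finset.card_le_mul_card_image (s := (Finset.univ : Finset (ZMod N)ˣ)) (f := F)
      (SS χ).card ?_
    · rwa [mul_comm]
    · intro f hf
      obtain ⟨u0, -, rfl⟩ := Finset.mem_image.mp hf
      refine Finset.card_le_card_of_injOn (fun u => u0⁻¹ * u) ?_ ?_
      · intro u hu
        have hu' : F u = F u0 := (Finset.mem_filter.mp hu).2
        rw [Finset.mem_coe, mem_SS]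
        intro g
        rw [pw_mul]
        have h5 : χ (pw (pw g u0⁻¹) u) = χ (pw (pw g u0⁻¹) u0) := congrFun hu' (pw g u0⁻¹)
        rw [h5, ← pw_mul, inv_mul_cancel, pw_one]
      · intro u _ v _ huv
        exact mul_left_cancel huv
  rw [Finset.card_univ, ZMod.card_units_eq_totient] at h3
  exact h3.trans (Nat.mul_le_mul_left _ h1)

end Gal

section Core

variable {P : Type*} [Group P] [Fintype P] {H : Subgroup P} (lam : H →* ℂˣ)

omit [Fintype P] in
theorem conj_mem_core (x : P) (d : H.normalCore) : x⁻¹ * (d : P) * x ∈ H := by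
  have h1 : x⁻¹ * (d : P) * (x⁻¹)⁻¹ ∈ H.normalCore := (inferInstance : H.normalCore.Normal).conj_mem d d.2 x⁻¹
  rw [inv_inv] at h1
  exact H.normalCore_le h1

/-- conjugate of the linear character restricted to the core -/
def lx (x : P) : H.normalCore →* ℂˣ where
  toFun d := lam ⟨x⁻¹ * (d : P) * x, conj_mem_core x d⟩
  map_one' := by
    have : (⟨x⁻¹ * ((1 : H.normalCore) : P) * x, conj_mem_core x 1⟩ : H) = 1 := by
      ext; simp
    rw [this, map_one]
  map_mul' a b := by
    rw [← map_mul]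
    congr 1
    ext
    simp only [Subgroup.coe_mul]
    group

omit [Fintype P] in
theorem lx_apply (x : P) (d : H.normalCore) :
    lx lam x d = lam ⟨x⁻¹ * (d : P) * x, conj_mem_core x d⟩ := rfl

omit [Fintype P] in
theorem lx_mul (x : P) (h : H) : lx lam (x * h) = lx lam x := by
  ext d
  rw [lx_apply, lx_apply]
  have : (⟨(x * h)⁻¹ * (d : P) * (x * h), conj_mem_core _ d⟩ : H) =
      h⁻¹ * ⟨x⁻¹ * (d : P) * x, conj_mem_core x d⟩ * h := by
    ext
    simp only [Subgroup.coe_mul, Subgroup.coe_inv]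
    group
  rw [this, map_mul, map_mul, map_inv, mul_comm, ← mul_assoc, mul_inv_cancel, one_mul]

omit [Fintype P] in
theorem lx_conj (x : P) (d : H.normalCore) : lx lam x d =
    lx lam 1 ⟨x⁻¹ * (d : P) * x, by
      have h1 := (inferInstance : H.normalCore.Normal).conj_mem d d.2 x⁻¹
      rwa [inv_inv] at h1⟩ := by
  rw [lx_apply, lx_apply]
  congr 1
  ext
  simp

/-- the set of constituents -/
noncomputable def LL : Finset (H.normalCore →* ℂˣ) := by
  classical
  exact Finset.univ.image (lx lam)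

theorem mem_LL {μ : H.normalCore →* ℂˣ} : μ ∈ LL lam ↔ ∃ x, lx lam x = μ := by
  classical
  simp [LL]

theorem card_LL : (LL lam).card ≤ H.index := by
  classical
  have hf : Fintype (P ⧸ H) := Fintype.ofFinite _
  have h1 : LL lam ⊆ Finset.univ.image (fun q : P ⧸ H => lx lam q.out) := by
    intro μ hμ
    obtain ⟨x, rfl⟩ := (mem_LL lam).mp hμ
    refine Finset.mem_image.mpr ⟨(x : P ⧸ H), Finset.mem_univ _, ?_⟩
    obtain ⟨h, hh⟩ := QuotientGroup.mk_out_eq_mul H x
    rw [hh, lx_mul]
  refine (Finset.card_le_card h1).trans (Finset.card_image_le.trans ?_)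
  rw [Finset.card_univ, ← Nat.card_eq_fintype_card]; rfl

theorem res_core : (fun d : H.normalCore => indFun H (fun h => (lam h : ℂ)) d) =
    (Nat.card H : ℂ)⁻¹ • ∑ x : P, (fun d : H.normalCore => (lx lam x d : ℂ)) := by
  ext d
  rw [indFun, Pi.smul_apply, smul_eq_mul, Finset.sum_apply]
  congr 1
  refine Finset.sum_congr rfl fun x _ => ?_
  rw [ext_mem H _ (conj_mem_core x d)]
  rfl

theorem core_eq_one (hf : ∀ g : P, indFun H (fun h => (lam h : ℂ)) g =
    indFun H (fun h => (lam h : ℂ)) 1 → g = 1) {d : H.normalCore}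
    (h : ∀ μ ∈ LL lam, μ d = 1) : d = 1 := by
  have h1 := congrFun (res_core lam) d
  have h2 := congrFun (res_core lam) 1
  have h3 : indFun H (fun h => (lam h : ℂ)) (d : P) = indFun H (fun h => (lam h : ℂ)) 1 := by
    have h4 : ((1 : H.normalCore) : P) = 1 := rfl
    rw [← h4]
    refine h1.trans (Eq.trans ?_ h2.symm)
    simp only [Pi.smul_apply, Finset.sum_apply]
    congr 1
    refine Finset.sum_congr rfl fun x _ => ?_
    rw [h _ ((mem_LL lam).mpr ⟨x, rfl⟩), map_one]
  exact Subtype.ext (hf d h3)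

theorem pow_mem_LL {χ : P → ℂ} (hχ : χ = indFun H (fun h => (lam h : ℂ)))
    [NeZero (Nat.card P)] {u : (ZMod (Nat.card P))ˣ} (hu : u ∈ SS χ) {μ : H.normalCore →* ℂˣ}
    (hμ : μ ∈ LL lam) : μ ^ ((u : ZMod (Nat.card P)).val) ∈ LL lam := by
  classical
  have hfD : Fintype H.normalCore := Fintype.ofFinite _
  set k := (u : ZMod (Nat.card P)).val with hk
  have hcop : (Nat.card P).Coprime k := (ZMod.val_coe_unit_coprime u).symm
  have hcopD : (Nat.card H.normalCore).Coprime k :=
    Nat.Coprime.coprime_dvd_left (Subgroup.card_subgroup_dvd_card _) hcop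
  have hres := res_core lam
  rw [← hχ] at hres
  have hci : ∀ ν : H.normalCore →* ℂˣ, classInner (fun d : H.normalCore => χ d) (fun d => (ν d : ℂ)) =
      (Nat.card H : ℂ)⁻¹ * ∑ x : P, if lx lam x = ν then 1 else 0 := by
    intro ν
    rw [hres, ci_smul_left, ci_sum_left]
    congr 1
    refine Finset.sum_congr rfl fun x _ => ?_
    rw [ci_irr (isIrr_of_hom_units _) (isIrr_of_hom_units _)]
    by_cases h : lx lam x = ν
    · rw [if_pos h, if_pos (by rw [h])]
    · rw [if_neg h, if_neg]
      intro h2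
      apply h
      ext d
      exact congrFun h2 d
  have hH : (Nat.card H : ℂ) ≠ 0 := by exact_mod_cast Nat.card_pos.ne'
  have hne : ∀ ν : H.normalCore →* ℂˣ, ν ∈ LL lam ↔
      classInner (fun d : H.normalCore => χ d) (fun d => (ν d : ℂ)) ≠ 0 := by
    intro ν
    rw [hci, Finset.sum_boole, mem_LL]
    constructor
    · rintro ⟨x, hx⟩
      refine mul_ne_zero (inv_ne_zero hH) ?_
      have : 0 < (Finset.univ.filter fun x => lx lam x = ν).card :=
        Finset.card_pos.mpr ⟨x, Finset.mem_filter.mpr ⟨Finset.mem_univ _, hx⟩⟩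
      exact_mod_cast this.ne'
    · intro h
      by_contra hno
      apply h
      rw [Finset.filter_false_of_mem, Finset.card_empty, Nat.cast_zero, mul_zero]
      intro x _ hx
      exact hno ⟨x, hx⟩
  rw [hne] at hμ ⊢
  have h1 := Cfsg.Agent.H3.GalProd.ci_pow hcopD (fun d : H.normalCore => χ d) (fun d => (μ d : ℂ))
  have h2 : (fun d : H.normalCore => χ ((d ^ k : H.normalCore) : P)) = fun d : H.normalCore => χ d := by
    funext d
    have := (mem_SS.mp hu) (d : P)
    rw [pw] at this
    rw [Subgroup.coe_pow]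
    exact this
  have h3 : (fun d : H.normalCore => ((μ (d ^ k) : ℂˣ) : ℂ)) = fun d => (((μ ^ k) d : ℂˣ) : ℂ) := by
    funext d
    rw [map_pow, MonoidHom.pow_apply]
  rw [h2, h3] at h1
  rw [h1]
  exact hμ

end Core

section Bound

theorem hpow_add {D : Type*} [Group D] (μ : D →* ℂˣ) (m n : ℕ) : μ ^ (m + n) = μ ^ m * μ ^ n := by
  refine MonoidHom.ext fun d => ?_
  rw [MonoidHom.pow_apply, MonoidHom.mul_apply, MonoidHom.pow_apply, MonoidHom.pow_apply, pow_add]

theorem hpow_mul {D : Type*} [Group D] (μ : D →* ℂˣ) (m n : ℕ) : μ ^ (m * n) = (μ ^ m) ^ n := by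
  refine MonoidHom.ext fun d => ?_
  rw [MonoidHom.pow_apply, MonoidHom.pow_apply, MonoidHom.pow_apply, pow_mul]

theorem hpow_one {D : Type*} [Group D] (μ : D →* ℂˣ) : μ ^ 1 = μ := by
  refine MonoidHom.ext fun d => ?_
  rw [MonoidHom.pow_apply, pow_one]

theorem hone_pow {D : Type*} [Group D] (n : ℕ) : (1 : D →* ℂˣ) ^ n = 1 := by
  refine MonoidHom.ext fun d => ?_
  rw [MonoidHom.pow_apply, MonoidHom.one_apply, one_pow]

variable {P : Type*} [Group P] [Fintype P]

theorem arith {m t c p : ℕ} (hp : 2 ≤ p) (hm : 1 ≤ m) (h : p ^ (m - 1) ≤ c * p ^ t) : m ≤ (t + 1) * c := by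
  have hc : 1 ≤ c := by
    rcases Nat.eq_zero_or_pos c with h0 | h0
    · rw [h0, zero_mul] at h
      have := pow_pos (by omega : 0 < p) (m - 1)
      omega
    · exact h0
  rcases Nat.lt_or_ge m (t + 2) with hlt | hge
  · have : (t + 1) * 1 ≤ (t + 1) * c := Nat.mul_le_mul_left _ hc
    omega
  · obtain ⟨j, rfl⟩ : ∃ j, m = t + 1 + j := ⟨m - (t + 1), by omega⟩
    have h1 : p ^ (t + 1 + j - 1) = p ^ j * p ^ t := by
      rw [← pow_add]; congr 1; omega
    rw [h1] at h
    have h2 : p ^ j ≤ c := Nat.le_of_mul_le_mul_right h (pow_pos (by omega) _)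
    have h3 : j + 1 ≤ 2 ^ j := Nat.lt_two_pow_self
    have h4 : 2 ^ j ≤ p ^ j := Nat.pow_le_pow_left hp j
    have h5 : j + 1 ≤ c := by omega
    nlinarith

theorem core_bound' {p a t : ℕ} [hp : Fact p.Prime] [hNZ : NeZero (Nat.card P)] (hP : Nat.card P = p ^ a) (ha : 0 < a)
    {H : Subgroup P} (lam : H →* ℂˣ) {χ : P → ℂ}
    (hχ : χ = indFun H (fun h => (lam h : ℂ)))
    (hf : ∀ g : P, χ g = χ 1 → g = 1)
    (h4 : (Nat.card P).totient ≤ (SS χ).card * ((p - 1) * p ^ t))
    {e : ℕ} (he : Nat.card H.normalCore = p ^ e) : e ≤ (t + 1) * H.index := by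
  classical
  have hfD : Fintype H.normalCore := Fintype.ofFinite _
  have hpow : ∀ μ : H.normalCore →* ℂˣ, μ ^ (p ^ a) = 1 := by
    intro μ
    ext d
    rw [MonoidHom.pow_apply, ← map_pow, ← hP]
    have : d ^ (Nat.card P) = 1 := by
      apply Subtype.ext
      rw [Subgroup.coe_pow, pow_card_eq_one', Subgroup.coe_one]
    rw [this, map_one]
    rfl
  obtain ⟨m, hma, hm⟩ := (Nat.dvd_prime_pow hp.out).mp (orderOf_dvd_of_pow_eq_one (x := lx lam 1) (n := p ^ a) (hpow (lx lam 1)))
  have hord : ∀ μ ∈ LL lam, orderOf μ = p ^ m := by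
    intro μ hμ
    obtain ⟨x, rfl⟩ := (mem_LL lam).mp hμ
    rw [← hm, orderOf_eq_orderOf_iff]
    intro n
    constructor
    · intro h
      ext d
      have h2 := congrArg (fun ν : H.normalCore →* ℂˣ => ν ⟨x * (d : P) * x⁻¹,
        (inferInstance : H.normalCore.Normal).conj_mem d d.2 x⟩) h
      simp only [MonoidHom.pow_apply, MonoidHom.one_apply] at h2 ⊢
      rw [lx_conj] at h2
      have h3 : (⟨x⁻¹ * (x * (d : P) * x⁻¹) * x, by
        have : x⁻¹ * (x * (d : P) * x⁻¹) * x = d := by group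
        rw [this]; exact d.2⟩ : H.normalCore) = d := by
        ext
        group
      rw [h3] at h2
      rw [h2]
    · intro h
      ext d
      rw [MonoidHom.pow_apply, lx_conj, ← MonoidHom.pow_apply, h]
      rfl
  have hf' : ∀ g : P, indFun H (fun h => (lam h : ℂ)) g = indFun H (fun h => (lam h : ℂ)) 1 → g = 1 := by
    intro g; rw [← hχ]; exact hf g
  rcases Nat.eq_zero_or_pos m with h0 | hm1
  · -- trivial core
    have h1 : ∀ d : H.normalCore, d = 1 := by
      intro d
      apply core_eq_one lam hf'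
      intro μ hμ
      have h2 := hord μ hμ
      rw [h0, pow_zero, orderOf_eq_one_iff] at h2
      rw [h2]; rfl
    have h2 : Nat.card H.normalCore = 1 := by
      rw [Nat.card_eq_one_iff_unique]
      exact ⟨⟨fun a b => (h1 a).trans (h1 b).symm⟩, ⟨1⟩⟩
    rw [h2] at he
    have h3 : e = 0 := by
      by_contra hne
      have := Nat.one_lt_pow hne hp.out.one_lt
      omega
    omega
  -- sizes of the classes
  have hval : ∀ (μ : H.normalCore →* ℂˣ) (k : ℕ), μ ^ (k % Nat.card P) = μ ^ k := by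
    intro μ k
    refine MonoidHom.ext fun d => ?_
    rw [MonoidHom.pow_apply, MonoidHom.pow_apply]
    have h : (μ d) ^ (Nat.card P) = 1 := by
      rw [← MonoidHom.pow_apply, hP, hpow, MonoidHom.one_apply]
    conv_rhs => rw [← Nat.mod_add_div k (Nat.card P), pow_add, pow_mul, h, one_pow, mul_one]
  have hfib : ∀ μ ∈ LL lam, m ≤ (t + 1) *
      ((LL lam).filter fun ν => Subgroup.zpowers ν = Subgroup.zpowers μ).card := by
    intro μ hμ
    apply arith hp.out.two_le hm1
    set C := (LL lam).filter fun ν => Subgroup.zpowers ν = Subgroup.zpowers μ with hC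
    let g : (ZMod (Nat.card P))ˣ → (H.normalCore →* ℂˣ) := fun u => μ ^ ((u : ZMod (Nat.card P)).val)
    let T : Finset (ZMod (Nat.card P))ˣ := Finset.univ.filter fun u => g u = μ
    have hgmul : ∀ u v, g (u * v) = (g u) ^ ((v : ZMod (Nat.card P)).val) := by
      intro u v
      show μ ^ _ = (μ ^ _) ^ _
      rw [Units.val_mul, ZMod.val_mul, hval, hpow_mul]
    have hg1 : g 1 = μ := by
      show μ ^ _ = μ
      have : Fact (1 < Nat.card P) := ⟨by rw [hP]; exact Nat.one_lt_pow ha.ne' hp.out.one_lt⟩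
      rw [Units.val_one, ZMod.val_one, hpow_one]
    have h1 : (SS χ).card ≤ T.card * C.card := by
      have h2 : (SS χ).image g ⊆ C := by
        intro ν hν
        obtain ⟨u, hu, rfl⟩ := Finset.mem_image.mp hν
        refine Finset.mem_filter.mpr ⟨pow_mem_LL lam hχ hu hμ, ?_⟩
        apply le_antisymm
        · rw [Subgroup.zpowers_le]
          exact Subgroup.pow_mem _ (Subgroup.mem_zpowers μ) _
        · rw [Subgroup.zpowers_le]
          have h3 : (g u) ^ (((u⁻¹ : (ZMod (Nat.card P))ˣ) : ZMod (Nat.card P)).val) = μ := by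
            rw [← hgmul, mul_inv_cancel, hg1]
          have h4 : (g u) ^ (((u⁻¹ : (ZMod (Nat.card P))ˣ) : ZMod (Nat.card P)).val) ∈
              Subgroup.zpowers (g u) := Subgroup.pow_mem _ (Subgroup.mem_zpowers _) _
          rwa [h3] at h4
      have h3 := Finset.card_le_mul_card_image (s := SS χ) (f := g) T.card ?_
      · exact h3.trans (Nat.mul_le_mul_left _ (Finset.card_le_card h2))
      · intro ν hν
        obtain ⟨v, -, rfl⟩ := Finset.mem_image.mp hν
        refine Finset.card_le_card_of_injOn (fun u => u * v⁻¹) ?_ ?_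
        · intro u hu
          have hu' : g u = g v := (Finset.mem_filter.mp hu).2
          rw [Finset.mem_coe, Finset.mem_filter]
          refine ⟨Finset.mem_univ _, ?_⟩
          rw [hgmul, hu', ← hgmul, mul_inv_cancel, hg1]
        · intro u _ w _ huw
          exact mul_right_cancel huw
    have hT : T.card ≤ p ^ (a - m) := by
      rw [← Finset.card_range (p ^ (a - m))]
      refine Finset.card_le_card_of_injOn (fun u => (u : ZMod (Nat.card P)).val / p ^ m) ?_ ?_
      · intro u _
        rw [Finset.mem_coe, Finset.mem_range, Nat.div_lt_iff_lt_mul (pow_pos hp.out.pos _), ← pow_add,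
          Nat.sub_add_cancel hma]
        exact lt_of_lt_of_eq (ZMod.val_lt (u : ZMod (Nat.card P))) hP
      · intro u hu v hv huv
        have hmod : ∀ w ∈ T, (w : ZMod (Nat.card P)).val % p ^ m = 1 % p ^ m := by
          intro w hw
          have h2 : μ ^ ((w : ZMod (Nat.card P)).val) = μ ^ 1 := by
            rw [hpow_one]; exact (Finset.mem_filter.mp hw).2
          have h3 := (pow_eq_pow_iff_modEq (x := μ)).mp (by exact h2)
          rw [hord μ hμ] at h3
          exact h3
        have h2 : (u : ZMod (Nat.card P)).val = (v : ZMod (Nat.card P)).val := by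
          rw [← Nat.mod_add_div (u : ZMod (Nat.card P)).val (p ^ m),
            ← Nat.mod_add_div (v : ZMod (Nat.card P)).val (p ^ m), hmod u hu, hmod v hv]
          have : (u : ZMod (Nat.card P)).val / p ^ m = (v : ZMod (Nat.card P)).val / p ^ m := huv
          rw [this]
        exact Units.ext (ZMod.val_injective _ h2)
    have h4' : (Nat.card P).totient = p ^ (a - 1) * (p - 1) := by
      rw [hP, Nat.totient_prime_pow hp.out ha]
    rw [h4'] at h4
    have hp1 : 0 < p - 1 := by have := hp.out.two_le; omega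
    have h5 : p ^ (a - 1) * (p - 1) ≤ (p ^ (a - m) * (C.card * p ^ t)) * (p - 1) := by
      refine h4.trans ?_
      calc (SS χ).card * ((p - 1) * p ^ t) ≤ (T.card * C.card) * ((p - 1) * p ^ t) :=
            Nat.mul_le_mul_right _ h1
        _ ≤ (p ^ (a - m) * C.card) * ((p - 1) * p ^ t) :=
            Nat.mul_le_mul_right _ (Nat.mul_le_mul_right _ hT)
        _ = (p ^ (a - m) * (C.card * p ^ t)) * (p - 1) := by ring
    have h6 := Nat.le_of_mul_le_mul_right h5 hp1
    have h7 : p ^ (a - 1) = p ^ (a - m) * p ^ (m - 1) := by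
      rw [← pow_add]; congr 1; omega
    rw [h7] at h6
    exact Nat.le_of_mul_le_mul_left h6 (pow_pos hp.out.pos _)
  -- embedding
  set Z : Finset (Subgroup (H.normalCore →* ℂˣ)) := (LL lam).image Subgroup.zpowers with hZ
  have hrep : ∀ z : Z, ∃ μ ∈ LL lam, Subgroup.zpowers μ = z := by
    intro z
    obtain ⟨μ, hμ, h⟩ := Finset.mem_image.mp z.2
    exact ⟨μ, hμ, h⟩
  choose rep hrep1 hrep2 using hrep
  have hNZm : NeZero (p ^ m) := ⟨(pow_pos hp.out.pos _).ne'⟩
  let Ψ : H.normalCore → (Z → rootsOfUnity (p ^ m) ℂ) := fun d z => ⟨rep z d, by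
    rw [mem_rootsOfUnity, ← MonoidHom.pow_apply, ← hord _ (hrep1 z), pow_orderOf_eq_one]
    rfl⟩
  have hΨ : Function.Injective Ψ := by
    intro d d' h
    have h1 : ∀ z, rep z d = rep z d' := fun z => congrArg Subtype.val (congrFun h z)
    have h2 : d⁻¹ * d' = 1 := by
      apply core_eq_one lam hf'
      intro μ hμ
      have h3 : μ ∈ Subgroup.zpowers (rep ⟨Subgroup.zpowers μ, Finset.mem_image_of_mem _ hμ⟩) := by
        rw [hrep2]; exact Subgroup.mem_zpowers μ
      obtain ⟨k, hk⟩ := Subgroup.mem_zpowers_iff.mp h3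
      have h4 : ∀ y : H.normalCore, μ y = (rep ⟨Subgroup.zpowers μ, Finset.mem_image_of_mem _ hμ⟩ y) ^ k := by
        intro y
        exact (DFunLike.congr_fun hk y).symm
      rw [map_mul, map_inv, h4 d, h4 d', h1, inv_mul_cancel]
    exact (inv_mul_eq_one.mp h2)
  have hcard : p ^ e ≤ (p ^ m) ^ Z.card := by
    rw [← he]
    have h1 := Nat.card_le_card_of_injective Ψ hΨ
    rw [Nat.card_fun, HasEnoughRootsOfUnity.natCard_rootsOfUnity, Nat.card_eq_fintype_card (α := Z),
      Fintype.card_coe] at h1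
    exact h1
  rw [← pow_mul] at hcard
  have he1 : e ≤ m * Z.card := (Nat.pow_le_pow_iff_right hp.out.one_lt).mp hcard
  have hsum : (LL lam).card = ∑ z ∈ Z, ((LL lam).filter fun ν => Subgroup.zpowers ν = z).card :=
    Finset.card_eq_sum_card_image _ _
  have h8 : m * Z.card ≤ (t + 1) * (LL lam).card := by
    rw [hsum, Finset.mul_sum, mul_comm, ← smul_eq_mul, ← Finset.sum_const]
    refine Finset.sum_le_sum fun z hz => ?_
    obtain ⟨μ, hμ, rfl⟩ := Finset.mem_image.mp hz
    exact hfib μ hμ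
  exact he1.trans (h8.trans (Nat.mul_le_mul_left _ (card_LL lam)))

theorem core_bound {p a t : ℕ} [hp : Fact p.Prime] (hP : Nat.card P = p ^ a) (ha : 0 < a)
    {H : Subgroup P} (lam : H →* ℂˣ) {χ : P → ℂ} (hχc : IsCharacter P χ)
    (hχ : χ = indFun H (fun h => (lam h : ℂ)))
    (hf : ∀ g : P, χ g = χ 1 → g = 1)
    (hfield : Module.finrank ℚ (IntermediateField.adjoin ℚ (Set.range χ)) = (p - 1) * p ^ t)
    {e : ℕ} (he : Nat.card H.normalCore = p ^ e) : e ≤ (t + 1) * H.index := by
  have hNZ : NeZero (Nat.card P) := ⟨Nat.card_pos.ne'⟩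
  have h4 := totient_le hχc
  rw [hfield] at h4
  exact core_bound' hP ha lam hχ hf h4 he

/-- Schur's bound, general form -/
theorem main' {p a t : ℕ} [hp : Fact p.Prime] [hNZ : NeZero (Nat.card P)] (hP : Nat.card P = p ^ a) (ha : 0 < a)
    {χ : P → ℂ} (hχ : IsIrrCharacter P χ) (hf : ∀ g : P, χ g = χ 1 → g = 1) {f : ℕ} (hfd : χ 1 = f)
    (h4 : (Nat.card P).totient ≤ (SS χ).card * ((p - 1) * p ^ t)) :
    0 < f ∧ a ≤ padicValNat p f.factorial + (t + 1) * f := by
  have hPg : IsPGroup p P := IsPGroup.of_card hP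
  have hnil : Group.IsNilpotent P := hPg.isNilpotent
  obtain ⟨H, lam, hχe⟩ := mon_of_nilpotent hχ
  have hidx : H.index = f := by
    have h1 : χ 1 = (H.index : ℂ) := by
      rw [hχe, ind_one, map_one, Units.val_one, mul_one]
    have : (H.index : ℂ) = f := by rw [← h1, hfd]
    exact_mod_cast this
  have hf0 : 0 < f := by rw [← hidx]; exact Nat.pos_of_ne_zero Subgroup.index_ne_zero_of_finite
  refine ⟨hf0, ?_⟩
  obtain ⟨e, -, he⟩ := (Nat.dvd_prime_pow hp.out).mp (show Nat.card H.normalCore ∣ p ^ a by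
    rw [← hP]; exact Subgroup.card_subgroup_dvd_card H.normalCore)
  obtain ⟨b, -, hb⟩ := (Nat.dvd_prime_pow hp.out).mp (show H.normalCore.index ∣ p ^ a by
    rw [← hP]; exact Subgroup.index_dvd_card H.normalCore)
  have hab : a = e + b := by
    have h1 := H.normalCore.card_mul_index
    rw [he, hb, hP, ← pow_add] at h1
    exact (Nat.pow_right_injective hp.out.two_le h1).symm
  have h1 := core_bound' hP ha lam hχe hf h4 he
  have h2 : p ^ b ∣ f.factorial := by
    rw [← hb, Subgroup.normalCore_eq_ker, Subgroup.index_ker, ← hidx]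
    have h3 : Nat.card (Equiv.Perm (P ⧸ H)) = (H.index).factorial := by
      rw [Nat.card_perm]; rfl
    rw [← h3]
    exact Subgroup.card_subgroup_dvd_card _
  have h3 : b ≤ padicValNat p f.factorial :=
    (padicValNat_dvd_iff_le f.factorial_ne_zero).mp h2
  rw [hidx] at h1
  omega

/-- Schur's bound -/
theorem main {p a t : ℕ} [hp : Fact p.Prime] (hP : Nat.card P = p ^ a) (ha : 0 < a)
    {χ : P → ℂ} (hχ : IsIrrCharacter P χ) (hf : ∀ g : P, χ g = χ 1 → g = 1) {f : ℕ} (hfd : χ 1 = f)
    (hfield : Module.finrank ℚ (IntermediateField.adjoin ℚ (Set.range χ)) = (p - 1) * p ^ t) :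
    (p - 1) * a ≤ (f - 1) + (p - 1) * (t + 1) * f := by
  have hNZ : NeZero (Nat.card P) := ⟨Nat.card_pos.ne'⟩
  have h0 := totient_le (IsIrr.isCharacter hχ)
  rw [hfield] at h0
  obtain ⟨hf0, h1⟩ := main' hP ha hχ hf hfd h0
  have h4 := sub_one_mul_padicValNat_factorial (p := p) f
  have h5 : 1 ≤ (p.digits f).sum := by
    by_contra hcon
    have h6 : (p.digits f).sum = 0 := by omega
    rw [List.sum_eq_zero_iff] at h6
    have h7 := Nat.getLast_digit_ne_zero p hf0.ne'
    exact h7 (h6 _ (List.getLast_mem _))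
  have h7 : (p - 1) * a ≤ (p - 1) * (padicValNat p f.factorial + (t + 1) * f) := Nat.mul_le_mul_left _ h1
  rw [mul_add] at h7
  have h8 : (p - 1) * (t + 1) * f = (p - 1) * ((t + 1) * f) := by ring
  rw [h8]
  omega

end Bound

end Cfsg.Agent.H3.Schur
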