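import Mathlib
import Cfsg.Prelude.Def_Characters
import Cfsg.Agent.H3_Schur
import Cfsg.Agent.H3_CharQuot

/-!
# Schur's bound for rational valued characters of p-groups
-/

set_option autoImplicit false

open scoped ComplexConjugate

namespace Cfsg.Agent.H3.Schur

open Cfsg Cfsg.Agent.H3.CharBasic Cfsg.Agent.H3.CharIrr Cfsg.Agent.H3.CharComplete
  Cfsg.Agent.H3.CharMult Cfsg.Agent.H3.CharInd Cfsg.Agent.H3.CharInt Cfsg.Agent.H3.CharGal
  Cfsg.Agent.H3.Monomial Cfsg.Agent.H3.CharQuot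

section Arith

/-- Schur's function -/
def FF (p n : ℕ) : ℕ := ∑ i ∈ Finset.range (n + 1), n / ((p - 1) * p ^ i)

theorem ff_range {p n M : ℕ} (hp : 2 ≤ p) (hM : n + 1 ≤ M) :
    ∑ i ∈ Finset.range M, n / ((p - 1) * p ^ i) = FF p n := by
  rw [FF]
  symm
  refine Finset.sum_subset (Finset.range_mono hM) ?_
  intro i _ hi
  rw [Finset.mem_range, not_lt] at hi
  apply Nat.div_eq_of_lt
  have h1 : i < p ^ i := Nat.lt_pow_self (by omega)
  have h2 : 1 * p ^ i ≤ (p - 1) * p ^ i := Nat.mul_le_mul_right _ (by omega)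
  omega

theorem ff_mono {p m n : ℕ} (hp : 2 ≤ p) (h : m ≤ n) : FF p m ≤ FF p n := by
  rw [← ff_range hp (Nat.add_le_add_right h 1), FF]
  exact Finset.sum_le_sum fun i _ => Nat.div_le_div_right h

theorem ff_add {p m n : ℕ} (hp : 2 ≤ p) : FF p m + FF p n ≤ FF p (m + n) := by
  rw [← ff_range (n := m) (M := m + n + 1) hp (by omega), ← ff_range (n := n) (M := m + n + 1) hp (by omega), FF,
    ← Finset.sum_add_distrib]
  exact Finset.sum_le_sum fun i _ => Nat.div_add_div_le_add_div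

theorem ff_ge {p t f n : ℕ} [hp : Fact p.Prime] (hf : 0 < f) (hn : (p - 1) * p ^ t * f ≤ n) :
    padicValNat p f.factorial + (t + 1) * f ≤ FF p n := by
  have hp2 := hp.out.two_le
  have hp1 : 0 < p - 1 := by omega
  have hn' : p ^ t * f ≤ n / (p - 1) := by
    rw [Nat.le_div_iff_mul_le hp1]
    calc p ^ t * f * (p - 1) = (p - 1) * p ^ t * f := by ring
      _ ≤ n := hn
  have h1 : ∀ i, (p ^ t * f) / p ^ i ≤ n / ((p - 1) * p ^ i) := by
    intro i
    rw [← Nat.div_div_eq_div_mul]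
    exact Nat.div_le_div_right hn'
  have hlog : t + 1 + Nat.log p f ≤ n + 1 := by
    have h2 : t < p ^ t := Nat.lt_pow_self hp.out.one_lt
    have h3 : Nat.log p f < f := Nat.log_lt_self p hf.ne'
    have h4 : p ^ t * f ≤ n := hn'.trans (Nat.div_le_self _ _)
    have h5 : (t + 1) * f ≤ p ^ t * f := Nat.mul_le_mul_right _ h2
    have h6 : t * 1 ≤ t * f := Nat.mul_le_mul_left _ hf
    have h7 : (t + 1) * f = t * f + f := by ring
    omega
  calc padicValNat p f.factorial + (t + 1) * f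
      ≤ ∑ i ∈ Finset.range (t + 1 + Nat.log p f), (p ^ t * f) / p ^ i := by
        rw [Finset.sum_range_add, add_comm]
        apply add_le_add
        · have h2 : ∑ i ∈ Finset.range (t + 1), f = (t + 1) * f := by
            rw [Finset.sum_const, Finset.card_range, smul_eq_mul]
          rw [← h2]
          refine Finset.sum_le_sum fun i hi => ?_
          have hi' : i ≤ t := by have := Finset.mem_range.mp hi; omega
          have h3 : p ^ t * f = p ^ i * (p ^ (t - i) * f) := by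
            rw [← mul_assoc, ← pow_add, Nat.add_sub_cancel' hi']
          rw [h3, Nat.mul_div_cancel_left _ (pow_pos hp.out.pos _)]
          exact Nat.le_mul_of_pos_left _ (pow_pos hp.out.pos _)
        · rw [padicValNat_factorial (Nat.lt_succ_self (Nat.log p f)), Finset.sum_Ico_eq_sum_range]
          refine le_of_eq (Finset.sum_congr (by simp) fun j _ => ?_)
          rw [show t + 1 + j = t + (1 + j) by ring, pow_add p t, Nat.mul_div_mul_left _ _ (pow_pos hp.out.pos _)]
    _ ≤ ∑ i ∈ Finset.range (n + 1), (p ^ t * f) / p ^ i :=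
        Finset.sum_le_sum_of_subset (Finset.range_mono hlog)
    _ ≤ FF p n := Finset.sum_le_sum fun i _ => h1 i

end Arith

section Orb

variable {P : Type*} [Group P] [Fintype P]

/-- Galois conjugacy -/
def GC (θ ψ : IrrCharacter P) : Prop :=
  ∃ k : ℕ, (Nat.card P).Coprime k ∧ ∀ g, (θ : P → ℂ) g = (ψ : P → ℂ) (g ^ k)

theorem GC.refl (ψ : IrrCharacter P) : GC ψ ψ := ⟨1, Nat.coprime_one_right _, fun g => by rw [pow_one]⟩

theorem GC.trans {a b c : IrrCharacter P} (h1 : GC a b) (h2 : GC b c) : GC a c := by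
  obtain ⟨k, hk, h⟩ := h1
  obtain ⟨l, hl, h'⟩ := h2
  exact ⟨k * l, hk.mul_right hl, fun g => by rw [h, h', pow_mul]⟩

theorem exists_inv {k : ℕ} (hk : (Nat.card P).Coprime k) : ∃ l : ℕ, (Nat.card P).Coprime l ∧
    ∀ g : P, g ^ (k * l) = g := by
  refine ⟨k ^ ((Nat.card P).totient - 1), Nat.Coprime.pow_right _ hk, fun g => ?_⟩
  have h1 : k * k ^ ((Nat.card P).totient - 1) = k ^ (Nat.card P).totient := by
    rw [← pow_succ']
    congr 1
    have := Nat.totient_pos.mpr (Nat.card_pos (α := P))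
    omega
  rw [h1]
  have h2 := Nat.ModEq.pow_totient hk.symm
  have h3 : g ^ (k ^ (Nat.card P).totient) = g ^ 1 :=
    pow_eq_pow_iff_modEq.mpr (h2.of_dvd (orderOf_dvd_natCard g))
  rw [h3, pow_one]

theorem GC.symm {a b : IrrCharacter P} (h1 : GC a b) : GC b a := by
  obtain ⟨k, hk, h⟩ := h1
  obtain ⟨l, hl, h'⟩ := exists_inv hk
  exact ⟨l, hl, fun g => by rw [h, ← pow_mul, mul_comm, h']⟩

/-- rational multiplicities -/
def RM (χ : P → ℂ) : Prop := ∀ θ ψ : IrrCharacter P, GC θ ψ → classInner χ (θ : P → ℂ) = classInner χ (ψ : P → ℂ)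

theorem rm_of_pow {χ : P → ℂ} (h : ∀ k : ℕ, (Nat.card P).Coprime k → ∀ g, χ (g ^ k) = χ g) : RM χ := by
  rintro θ ψ ⟨k, hk, hθ⟩
  have h1 := Cfsg.Agent.H3.GalProd.ci_pow hk χ (ψ : P → ℂ)
  rw [← h1]
  congr 1
  · funext g; exact (h k hk g).symm
  · funext g; exact hθ g

/-- the orbit -/
noncomputable def orbG [Fintype (IrrCharacter P)] (ψ : IrrCharacter P) : Finset (IrrCharacter P) := by
  classical
  exact Finset.univ.filter fun θ => GC θ ψ

theorem mem_orbG [Fintype (IrrCharacter P)] {θ ψ : IrrCharacter P} : θ ∈ orbG ψ ↔ GC θ ψ := by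
  classical
  simp [orbG]

theorem ci_orbG [Fintype (IrrCharacter P)] (ψ θ : IrrCharacter P) [Decidable (θ ∈ orbG ψ)] :
    classInner (∑ φ ∈ orbG ψ, (φ : P → ℂ)) (θ : P → ℂ) = if θ ∈ orbG ψ then 1 else 0 := by
  classical
  rw [ci_sum_left]
  rw [Finset.sum_congr rfl fun (φ : IrrCharacter P) _ => ci_irr φ.2 θ.2]
  have h1 : ∀ φ : IrrCharacter P, ((φ : P → ℂ) = (θ : P → ℂ)) = (φ = θ) := fun φ =>
    propext ⟨fun h => Subtype.ext h, fun h => by rw [h]⟩
  simp only [h1]
  rw [Finset.sum_ite_eq']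
  congr

theorem sub_orb [Fintype (IrrCharacter P)] {χ : P → ℂ} (hχ : IsCharacter P χ) (hR : RM χ)
    {ψ : IrrCharacter P} (h0 : classInner χ (ψ : P → ℂ) ≠ 0) :
    IsCharacter P (χ - ∑ φ ∈ orbG ψ, (φ : P → ℂ)) ∧ RM (χ - ∑ φ ∈ orbG ψ, (φ : P → ℂ)) := by
  classical
  have hci : ∀ θ : IrrCharacter P, classInner (χ - ∑ φ ∈ orbG ψ, (φ : P → ℂ)) (θ : P → ℂ) =
      classInner χ (θ : P → ℂ) - if θ ∈ orbG ψ then 1 else 0 := by
    intro θ
    rw [← ci_orbG ψ θ, ci_sub_left]
  constructor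
  · rw [isCharacter_iff]
    refine ⟨isClass_sub _ _ (IsChar.isClass hχ) (isClass_sum _ _ fun φ _ => IsIrr.isClass φ.2), ?_⟩
    intro θ hθ
    have h1 := hci ⟨θ, hθ⟩
    obtain ⟨n, hn⟩ := ci_char_nat hχ (IsIrr.isCharacter hθ)
    by_cases hmem : (⟨θ, hθ⟩ : IrrCharacter P) ∈ orbG ψ
    · rw [if_pos hmem] at h1
      have h2 : classInner χ θ ≠ 0 := by
        rw [show classInner χ θ = classInner χ ((⟨θ, hθ⟩ : IrrCharacter P) : P → ℂ) from rfl,
          hR _ _ (mem_orbG.mp hmem)]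
        exact h0
      have h3 : n ≠ 0 := by rintro rfl; exact h2 (by rw [hn]; simp)
      refine ⟨n - 1, ?_⟩
      have h4 : classInner (χ - ∑ φ ∈ orbG ψ, (φ : P → ℂ)) θ = classInner χ θ - 1 := h1
      rw [h4, hn, Nat.cast_sub (Nat.one_le_iff_ne_zero.mpr h3), Nat.cast_one]
    · rw [if_neg hmem] at h1
      refine ⟨n, ?_⟩
      have h4 : classInner (χ - ∑ φ ∈ orbG ψ, (φ : P → ℂ)) θ = classInner χ θ - 0 := h1
      rw [h4, hn, sub_zero]
  · intro θ φ h
    rw [hci, hci, hR _ _ h]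
    congr 1
    have : θ ∈ orbG ψ ↔ φ ∈ orbG ψ := by
      rw [mem_orbG, mem_orbG]
      exact ⟨fun h' => h.symm.trans h', fun h' => h.trans h'⟩
    by_cases h' : θ ∈ orbG ψ
    · rw [if_pos h', if_pos (this.mp h')]
    · rw [if_neg h', if_neg (fun h'' => h' (this.mpr h''))]

end Orb

section LemmaQ

variable {P : Type*} [Group P] [Fintype P]

/-- central character -/
theorem central_val {χ : P → ℂ} (hχ : IsIrrCharacter P χ) :
    ∃ f : Subgroup.center P →* ℂˣ, ∀ z : Subgroup.center P, χ z = χ 1 * f z := by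
  classical
  have hf : Fintype (Subgroup.center P) := Fintype.ofFinite _
  obtain ⟨θ, hθ, h1⟩ := exists_constituent_res (H := Subgroup.center P) hχ
  have hn : (Subgroup.center P).Normal := inferInstance
  have hθ1 : θ 1 = 1 := IsIrr.one_of_comm (fun a b => Subtype.ext (Subgroup.mem_center_iff.mp b.2 a)) hθ
  have h2 := Cfsg.Agent.H3.Clifford.clifford_invariant hn hχ hθ h1 (by
    intro g
    ext n
    rw [Cfsg.Agent.H3.Clifford.cj_apply]
    congr 1
    ext
    have := Subgroup.mem_center_iff.mp n.2 g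
    show g * (n : P) * g⁻¹ = n
    rw [this]; group)
  obtain ⟨f, hf'⟩ := IsChar.hom_units_of_one (IsIrr.isCharacter hθ) hθ1
  have h3 := congrFun h2 1
  simp only [Pi.smul_apply, smul_eq_mul, Subgroup.coe_one] at h3
  rw [hθ1, mul_one] at h3
  refine ⟨f, fun z => ?_⟩
  have h4 := congrFun h2 z
  simp only [Pi.smul_apply, smul_eq_mul] at h4
  rw [h4, ← h3, hf']

/-- the stabilizer as a subgroup -/
noncomputable def SSg [NeZero (Nat.card P)] (χ : P → ℂ) : Subgroup (ZMod (Nat.card P))ˣ where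
  carrier := {u | ∀ g, χ (pw g u) = χ g}
  one_mem' := fun g => by rw [pw_one]
  mul_mem' := by
    intro u v hu hv g
    rw [pw_mul, hv, hu]
  inv_mem' := by
    intro u hu g
    have h1 := hu (pw g u⁻¹)
    rw [← pw_mul, inv_mul_cancel, pw_one] at h1
    exact h1.symm

theorem card_SSg [NeZero (Nat.card P)] (χ : P → ℂ) : Nat.card (SSg χ) = (SS χ).card := by
  classical
  rw [Nat.card_eq_fintype_card, Fintype.card_of_subtype (SS χ)]
  intro u
  rw [mem_SS]
  rfl

/-- The stabilizer of a faithful irreducible character of a `p`-group under power maps consists of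
residues `≡ 1` mod `p`. -/
theorem exists_t {p a : ℕ} [hp : Fact p.Prime] [hNZ : NeZero (Nat.card P)] (hP : Nat.card P = p ^ a) (ha : 0 < a)
    {χ : P → ℂ} (hχ : IsIrrCharacter P χ) (hf : ∀ g : P, χ g = χ 1 → g = 1) :
    ∃ t : ℕ, (Nat.card P).totient = (SS χ).card * ((p - 1) * p ^ t) := by
  classical
  have hPg : IsPGroup p P := IsPGroup.of_card hP
  have hnt : Nontrivial P := by
    rw [← Finite.one_lt_card_iff_nontrivial, hP]
    exact Nat.one_lt_pow ha.ne' hp.out.one_lt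
  have hZ : Nontrivial (Subgroup.center P) := hPg.center_nontrivial
  have hdvd : p ∣ Nat.card (Subgroup.center P) := by
    obtain ⟨k, hk⟩ := (IsPGroup.iff_card).mp (hPg.to_subgroup (Subgroup.center P))
    rw [hk]
    apply dvd_pow_self
    rintro rfl
    have := Finite.one_lt_card_iff_nontrivial.mpr hZ
    rw [hk, pow_zero] at this
    exact lt_irrefl _ this
  obtain ⟨z, hz⟩ := exists_prime_orderOf_dvd_card' p hdvd
  obtain ⟨f, hfz⟩ := central_val hχ
  have h10 := IsIrr.one_ne_zero hχ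
  have hfz1 : f z ≠ 1 := by
    intro h
    have h1 := hfz z
    rw [h, Units.val_one, mul_one] at h1
    have h2 : z = 1 := Subtype.ext (hf z h1)
    rw [h2, orderOf_one] at hz
    exact hp.out.one_lt.ne hz
  have hfo : orderOf (f z) = p := by
    apply orderOf_eq_prime _ hfz1
    rw [← map_pow, ← hz, pow_orderOf_eq_one, map_one]
  have hmod : ∀ u ∈ SSg χ, (u : ZMod (Nat.card P)).val ≡ 1 [MOD p] := by
    intro u hu
    have h1 : χ (pw (z : P) u) = χ z := hu z
    have h2 : pw (z : P) u = ((z ^ (u : ZMod (Nat.card P)).val : Subgroup.center P) : P) := by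
      rw [pw, Subgroup.coe_pow]
    rw [h2, hfz, hfz] at h1
    have h3 := mul_left_cancel₀ h10 h1
    have h4 : f z ^ (u : ZMod (Nat.card P)).val = f z ^ 1 := by
      rw [pow_one, ← map_pow]; exact Units.ext h3
    rw [← hfo]
    exact pow_eq_pow_iff_modEq.mp h4
  have hSp : IsPGroup p (SSg χ) := by
    intro u
    refine ⟨a - 1, ?_⟩
    apply Subtype.ext
    apply Units.ext
    rw [Subgroup.coe_pow, Units.val_pow_eq_pow_val, Subgroup.coe_one, Units.val_one]
    set v := ((u : (ZMod (Nat.card P))ˣ) : ZMod (Nat.card P)).val with hv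
    have h1 : (p : ℤ) ∣ (v : ℤ) - 1 := by
      have := Nat.modEq_iff_dvd.mp (hmod u u.2).symm
      rw [Nat.cast_one] at this
      exact this
    have h2 := dvd_sub_pow_of_dvd_sub h1 (a - 1)
    rw [one_pow, Nat.sub_add_cancel ha] at h2
    have h3 : ((v ^ p ^ (a - 1) : ℕ) : ZMod (Nat.card P)) = ((1 : ℕ) : ZMod (Nat.card P)) := by
      rw [ZMod.natCast_eq_natCast_iff]
      apply Nat.ModEq.symm
      rw [Nat.modEq_iff_dvd, hP]
      push_cast
      exact h2
    have h4 : ((v : ℕ) : ZMod (Nat.card P)) = ((u : (ZMod (Nat.card P))ˣ) : ZMod (Nat.card P)) :=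
      ZMod.natCast_zmod_val _
    rw [← h4]
    push_cast at h3
    exact h3
  obtain ⟨s, hs⟩ := (IsPGroup.iff_card).mp hSp
  have hφ : (Nat.card P).totient = p ^ (a - 1) * (p - 1) := by
    rw [hP, Nat.totient_prime_pow hp.out ha]
  have hdv : p ^ s ∣ p ^ (a - 1) * (p - 1) := by
    rw [← hφ, ← hs, ← ZMod.card_units_eq_totient, ← Nat.card_eq_fintype_card]
    exact Subgroup.card_subgroup_dvd_card _
  have hcop : Nat.Coprime (p ^ s) (p - 1) := by
    apply Nat.Coprime.pow_left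
    rw [Nat.Prime.coprime_iff_not_dvd hp.out]
    intro h
    have h2 := Nat.le_of_dvd (by have := hp.out.two_le; omega) h
    have := hp.out.two_le
    omega
  have hsa : s ≤ a - 1 := (Nat.pow_dvd_pow_iff_le_right hp.out.one_lt).mp (hcop.dvd_of_dvd_mul_right hdv)
  refine ⟨a - 1 - s, ?_⟩
  rw [hφ, ← card_SSg, hs]
  have : p ^ (a - 1) = p ^ s * p ^ (a - 1 - s) := by rw [← pow_add, Nat.add_sub_cancel' hsa]
  rw [this]
  ring

theorem card_image_le [NeZero (Nat.card P)] [Fintype (IrrCharacter P)] (ψ : IrrCharacter P) :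
    (Nat.card P).totient ≤ (SS (ψ : P → ℂ)).card * (orbG ψ).card := by
  classical
  let g : (ZMod (Nat.card P))ˣ → IrrCharacter P := fun u =>
    ⟨fun x => (ψ : P → ℂ) (pw x u), Cfsg.Agent.H3.GalProd.isIrr_pow (ZMod.val_coe_unit_coprime u).symm ψ.2⟩
  have h1 : Finset.univ.image g ⊆ orbG ψ := by
    intro θ hθ
    obtain ⟨u, -, rfl⟩ := Finset.mem_image.mp hθ
    rw [mem_orbG]
    exact ⟨_, (ZMod.val_coe_unit_coprime u).symm, fun x => rfl⟩
  have h4 := Finset.card_le_mul_card_image (s := (Finset.univ : Finset (ZMod (Nat.card P))ˣ)) (f := g)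
      (SS (ψ : P → ℂ)).card ?_
  · rw [Finset.card_univ, ZMod.card_units_eq_totient] at h4
    exact h4.trans (Nat.mul_le_mul_left _ (Finset.card_le_card h1))
  · intro f hf
    obtain ⟨u0, -, rfl⟩ := Finset.mem_image.mp hf
    refine Finset.card_le_card_of_injOn (fun u => u0⁻¹ * u) ?_ ?_
    · intro u hu
      have hu' : g u = g u0 := (Finset.mem_filter.mp hu).2
      rw [Finset.mem_coe, mem_SS]
      intro x
      rw [pw_mul]
      have h5 : (ψ : P → ℂ) (pw (pw x u0⁻¹) u) = (ψ : P → ℂ) (pw (pw x u0⁻¹) u0) :=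
        congrFun (congrArg Subtype.val hu') (pw x u0⁻¹)
      rw [h5, ← pw_mul, inv_mul_cancel, pw_one]
    · intro u _ v _ huv
      exact mul_left_cancel huv

/-- faithful case -/
theorem bound_faithful {p a : ℕ} [hp : Fact p.Prime] [Fintype (IrrCharacter P)] (hP : Nat.card P = p ^ a)
    {ψ : IrrCharacter P} (hf : ∀ g : P, (ψ : P → ℂ) g = (ψ : P → ℂ) 1 → g = 1) {f : ℕ}
    (hfd : (ψ : P → ℂ) 1 = f) : a ≤ FF p ((orbG ψ).card * f) := by
  rcases Nat.eq_zero_or_pos a with h0 | ha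
  · omega
  have hNZ : NeZero (Nat.card P) := ⟨Nat.card_pos.ne'⟩
  obtain ⟨t, ht⟩ := exists_t hP ha ψ.2 hf
  obtain ⟨hf0, h1⟩ := main' hP ha ψ.2 hf hfd ht.le
  refine h1.trans (ff_ge hf0 ?_)
  apply Nat.mul_le_mul_right
  have h2 := card_image_le ψ
  rw [ht] at h2
  have h3 : 0 < (SS (ψ : P → ℂ)).card := by
    apply Finset.card_pos.mpr
    exact ⟨1, mem_SS.mpr fun g => by rw [pw_one]⟩
  exact Nat.le_of_mul_le_mul_left h2 h3

theorem bound_irr {p A b : ℕ} [hp : Fact p.Prime] [Fintype (IrrCharacter P)] (hP : Nat.card P = p ^ A)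
    (ψ : IrrCharacter P) {f : ℕ} (hfd : (ψ : P → ℂ) 1 = f)
    (hb : (chKer (ψ : P → ℂ) (IsIrr.isCharacter ψ.2)).index = p ^ b) :
    b ≤ FF p ((orbG ψ).card * f) := by
  classical
  set K := chKer (ψ : P → ℂ) (IsIrr.isCharacter ψ.2) with hK
  have hKn : K.Normal := chKer_normal (IsIrr.isCharacter ψ.2)
  obtain ⟨ψ', hψ', h2⟩ := IsIrr.descend ψ.2 K (fun n hn => hn)
  have hfQ : Fintype (P ⧸ K) := Fintype.ofFinite _
  have := Fintype.ofFinite (IrrCharacter (P ⧸ K))
  have h3 := bound_faithful (P := P ⧸ K) (a := b) hb (ψ := ⟨ψ', hψ'⟩) (by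
    intro g hg
    induction g using QuotientGroup.induction_on with | H g => ?_
    rw [QuotientGroup.eq_one_iff]
    show (ψ : P → ℂ) g = (ψ : P → ℂ) 1
    rw [← h2 g, ← h2 1]
    exact hg) (f := f) (by rw [← hfd, ← h2 1]; rfl)
  refine h3.trans (ff_mono hp.out.two_le (Nat.mul_le_mul_right _ ?_))
  let inf : IrrCharacter (P ⧸ K) → IrrCharacter P := fun θ => ⟨fun g => (θ : P ⧸ K → ℂ) (g : P ⧸ K),
    IsIrr.comp θ.2 (QuotientGroup.mk' K) (QuotientGroup.mk'_surjective K)⟩
  refine Finset.card_le_card_of_injOn inf ?_ ?_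
  · intro θ hθ
    obtain ⟨k, hk, h⟩ := mem_orbG.mp (Finset.mem_coe.mp hθ)
    rw [Finset.mem_coe, mem_orbG]
    rcases Nat.eq_zero_or_pos b with hb0 | hb0
    · -- trivial quotient
      refine ⟨1, Nat.coprime_one_right _, fun g => ?_⟩
      have hsub : Subsingleton (P ⧸ K) := by
        rw [← Finite.card_le_one_iff_subsingleton]
        have : Nat.card (P ⧸ K) = p ^ b := hb
        rw [this, hb0, pow_zero]
      show (θ : P ⧸ K → ℂ) (g : P ⧸ K) = (ψ : P → ℂ) (g ^ 1)
      rw [pow_one, ← h2 g, h]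
      show ψ' ((g : P ⧸ K) ^ k) = ψ' (g : P ⧸ K)
      rw [Subsingleton.elim ((g : P ⧸ K) ^ k) (g : P ⧸ K)]
    · refine ⟨k, ?_, fun g => ?_⟩
      · have hk' : (p ^ b).Coprime k := by
          have : Nat.card (P ⧸ K) = p ^ b := hb
          rwa [this] at hk
        rw [hP]
        exact Nat.Coprime.pow_left _ ((Nat.coprime_pow_left_iff hb0 _ _).mp hk')
      · show (θ : P ⧸ K → ℂ) (g : P ⧸ K) = (ψ : P → ℂ) (g ^ k)
        rw [h, ← h2 (g ^ k)]
        rfl
  · intro θ _ φ _ h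
    apply Subtype.ext
    funext q
    induction q using QuotientGroup.induction_on with | H g => ?_
    exact congrFun (congrArg Subtype.val h) g

end LemmaQ

section Final

variable {P : Type*} [Group P] [Fintype P]

theorem rational_bound {p A : ℕ} [hp : Fact p.Prime] [Fintype (IrrCharacter P)] (hP : Nat.card P = p ^ A) (N : ℕ) :
    ∀ (n : ℕ), n ≤ N → ∀ (χ : P → ℂ) (hχ : IsCharacter P χ), RM χ → χ 1 = n →
      ∀ b, (chKer χ hχ).index = p ^ b → b ≤ FF p n := by
  classical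
  induction N with
  | zero =>
    intro n hn χ hχ hR h1 b hb
    have hn0 : n = 0 := by omega
    rw [hn0, Nat.cast_zero] at h1
    have h2 := IsChar.eq_zero_of_one hχ h1
    have h3 : chKer χ hχ = ⊤ := by
      rw [eq_top_iff]
      intro g _
      rw [mem_chKer, h2]; rfl
    rw [h3, Subgroup.index_top] at hb
    have h4 : b = 0 := by
      by_contra hne
      have := Nat.one_lt_pow hne hp.out.one_lt
      omega
    omega
  | succ N ih =>
    intro n hn χ hχ hR h1 b hb
    by_cases h0 : χ = 0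
    · have h3 : chKer χ hχ = ⊤ := by
        rw [eq_top_iff]
        intro g _
        rw [mem_chKer, h0]; rfl
      rw [h3, Subgroup.index_top] at hb
      have h4 : b = 0 := by
        by_contra hne
        have := Nat.one_lt_pow hne hp.out.one_lt
        omega
      omega
    · obtain ⟨ψ', hψ', hne⟩ := exists_constituent hχ h0
      set ψ : IrrCharacter P := ⟨ψ', hψ'⟩ with hψ
      obtain ⟨hsub, hRsub⟩ := sub_orb hχ hR (ψ := ψ) hne
      obtain ⟨f, hf0, hf⟩ := IsIrr.one_eq_nat ψ.2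
      obtain ⟨m, hm⟩ := IsChar.one_eq_nat hsub
      have horb1 : ∀ φ ∈ orbG ψ, (φ : P → ℂ) 1 = f := by
        intro φ hφ
        obtain ⟨k, -, h⟩ := mem_orbG.mp hφ
        rw [h, one_pow, hf]
      have hdeg : n = m + (orbG ψ).card * f := by
        have h5 : (χ - ∑ φ ∈ orbG ψ, (φ : P → ℂ)) 1 = χ 1 - ∑ φ ∈ orbG ψ, (φ : P → ℂ) 1 := by
          rw [Pi.sub_apply, Finset.sum_apply]
        rw [hm, h1, Finset.sum_congr rfl horb1, Finset.sum_const, nsmul_eq_mul] at h5
        have h6 : (n : ℂ) = ((m + (orbG ψ).card * f : ℕ) : ℂ) := by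
          push_cast
          linear_combination -h5
        exact_mod_cast h6
      have horbpos : 0 < (orbG ψ).card := Finset.card_pos.mpr ⟨ψ, mem_orbG.mpr (GC.refl ψ)⟩
      have hmn : m ≤ N := by
        have : 0 < (orbG ψ).card * f := Nat.mul_pos horbpos hf0
        omega
      obtain ⟨b1, -, hb1⟩ := (Nat.dvd_prime_pow hp.out).mp (show
        (chKer (ψ : P → ℂ) (IsIrr.isCharacter ψ.2)).index ∣ p ^ A by
          rw [← hP]; exact Subgroup.index_dvd_card _)
      obtain ⟨b2, -, hb2⟩ := (Nat.dvd_prime_pow hp.out).mp (show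
        (chKer _ hsub).index ∣ p ^ A by
          rw [← hP]; exact Subgroup.index_dvd_card _)
      have h7 := bound_irr hP ψ hf hb1
      have h8 := ih m hmn _ hsub hRsub hm b2 hb2
      have hle : chKer (ψ : P → ℂ) (IsIrr.isCharacter ψ.2) ⊓ chKer _ hsub ≤ chKer χ hχ := by
        intro g hg
        have hg1 := (Subgroup.mem_inf.mp hg).1
        have hg2 := (Subgroup.mem_inf.mp hg).2
        rw [mem_chKer] at hg2
        rw [mem_chKer]
        have h9 : ∀ φ ∈ orbG ψ, (φ : P → ℂ) g = (φ : P → ℂ) 1 := by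
          intro φ hφ
          obtain ⟨k, -, h⟩ := mem_orbG.mp hφ
          rw [h, h, one_pow]
          have : g ^ k ∈ chKer (ψ : P → ℂ) (IsIrr.isCharacter ψ.2) := Subgroup.pow_mem _ hg1 k
          exact this
        rw [Pi.sub_apply, Pi.sub_apply, Finset.sum_apply, Finset.sum_apply,
          Finset.sum_congr rfl h9] at hg2
        linear_combination hg2
      have h10 : p ^ b ≤ p ^ (b1 + b2) := by
        rw [← hb, pow_add, ← hb1, ← hb2]
        refine le_trans ?_ Subgroup.index_inf_le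
        exact Nat.le_of_dvd (Nat.pos_of_ne_zero Subgroup.index_ne_zero_of_finite)
          (Subgroup.index_dvd_of_le hle)
      have h11 : b ≤ b1 + b2 := (Nat.pow_le_pow_iff_right hp.out.one_lt).mp h10
      have h12 := ff_add (p := p) (m := m) (n := (orbG ψ).card * f) hp.out.two_le
      rw [← hdeg] at h12
      omega

end Final

section G

variable {G : Type*} [Group G] [Fintype G]

/-- a `p`-rational character is invariant under powers on `p`-elements -/
theorem pow_of_rational {p r N : ℕ} [hp : Fact p.Prime] (hr0 : 0 < r) (hr : ¬ p ∣ r) {χ : G → ℂ}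
    (hχ : IsCharacter G χ) (hrat : ∀ g, χ g ∈ IntermediateField.adjoin ℚ ({zet r} : Set ℂ))
    {g : G} (hg : g ^ (p ^ N) = 1) {k : ℕ} (hk : (p ^ N).Coprime k) : χ (g ^ k) = χ g := by
  classical
  have hcop : (p ^ N).Coprime r := Nat.Coprime.pow_left _ ((Nat.Prime.coprime_iff_not_dvd hp.out).mpr hr)
  obtain ⟨m, hm1, hm2⟩ := Nat.chineseRemainder hcop k 1
  set n := r * p ^ N with hn
  have hn0 : n ≠ 0 := Nat.mul_ne_zero hr0.ne' (pow_pos hp.out.pos _).ne'
  have : NeZero n := ⟨hn0⟩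
  have : NeZero r := ⟨hr0.ne'⟩
  have hmc : m.Coprime n := by
    apply Nat.Coprime.mul_right
    · have := hm2.gcd_eq
      rw [Nat.Coprime, this]; simp
    · have := hm1.gcd_eq
      rw [Nat.Coprime, this]
      exact hk.symm
  obtain ⟨σ, hσ⟩ := exists_gal n m hmc
  have hzn : zet r ∈ Cyc n := root_mem (by
    rw [hn, pow_mul, (zet_prim r).pow_eq_one, one_pow])
  have hσz : (σ ⟨zet r, hzn⟩ : ℂ) = zet r := by
    rw [hσ ⟨zet r, hzn⟩ (by
      show (zet r) ^ n = 1
      rw [hn, pow_mul, (zet_prim r).pow_eq_one, one_pow])]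
    show (zet r) ^ m = zet r
    have h1 : (zet r) ^ m = (zet r) ^ 1 := by
      rw [pow_eq_pow_mod m (zet_prim r).pow_eq_one, pow_eq_pow_mod 1 (zet_prim r).pow_eq_one]
      congr 1
    rw [h1, pow_one]
  -- fixed field
  have hfix : ∀ z : ℂ, z ∈ IntermediateField.adjoin ℚ ({zet r} : Set ℂ) → ∃ x : Cyc n, (x : ℂ) = z ∧ σ x = x := by
    intro z hz
    have hle : IntermediateField.adjoin ℚ ({zet r} : Set ℂ) ≤
        (IntermediateField.fixedField (Subgroup.zpowers σ)).map (Cyc n).val := by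
      rw [IntermediateField.adjoin_le_iff, Set.singleton_subset_iff]
      refine ⟨⟨zet r, hzn⟩, ?_, rfl⟩
      intro τ
      obtain ⟨τ, hτ⟩ := τ
      obtain ⟨j, rfl⟩ := Subgroup.mem_zpowers_iff.mp hτ
      have h2 : σ ⟨zet r, hzn⟩ = ⟨zet r, hzn⟩ := Subtype.ext hσz
      have h3 : ∀ j : ℤ, (σ ^ j) ⟨zet r, hzn⟩ = ⟨zet r, hzn⟩ := by
        intro j
        have h4 : σ ∈ MulAction.stabilizer (Cyc n ≃ₐ[ℚ] Cyc n) (⟨zet r, hzn⟩ : Cyc n) := h2
        exact Subgroup.zpow_mem _ h4 j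
      exact h3 j
    obtain ⟨x, hx, hxz⟩ := hle hz
    refine ⟨x, hxz, ?_⟩
    exact hx ⟨σ, Subgroup.mem_zpowers σ⟩
  obtain ⟨x, hx, hσx⟩ := hfix _ (hrat g)
  have hgn : g ^ n = 1 := by rw [hn, mul_comm, pow_mul, hg, one_pow]
  have h1 := IsChar.gal hχ g hgn hσ x hx
  rw [hσx, hx] at h1
  rw [h1]
  congr 1
  apply pow_eq_pow_iff_modEq.mpr
  exact (hm1.of_dvd (orderOf_dvd_of_pow_eq_one hg)).symm

theorem rational_main {p : ℕ} [hp : Fact p.Prime] {χ : G → ℂ} (hχ : IsCharacter G χ)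
    (hfaith : ∀ g : G, χ g = χ 1 → g = 1) {r : ℕ} (hr0 : 0 < r) (hr : ¬ p ∣ r)
    (hrat : ∀ g, χ g ∈ IntermediateField.adjoin ℚ ({zet r} : Set ℂ)) {n : ℕ} (hn : χ 1 = n) :
    (Nat.card G).factorization p ≤ FF p n := by
  classical
  obtain ⟨P⟩ : Nonempty (Sylow p G) := inferInstance
  have hfP : Fintype (P : Subgroup G) := Fintype.ofFinite _
  have := Fintype.ofFinite (IrrCharacter (P : Subgroup G))
  have hPc : Nat.card (P : Subgroup G) = p ^ (Nat.card G).factorization p := P.card_eq_multiplicity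
  set A := (Nat.card G).factorization p with hA
  have hχP : IsCharacter (P : Subgroup G) (fun x => χ x) := IsChar.res hχ _
  have hRM : RM (fun x : (P : Subgroup G) => χ x) := by
    apply rm_of_pow
    intro k hk g
    rw [hPc] at hk
    show χ ((g ^ k : (P : Subgroup G)) : G) = χ g
    rw [Subgroup.coe_pow]
    refine pow_of_rational (N := A) hr0 hr hχ hrat ?_ hk
    rw [← Subgroup.coe_pow, ← hPc, pow_card_eq_one', Subgroup.coe_one]
  refine rational_bound hPc n n le_rfl (fun x : (P : Subgroup G) => χ x) hχP hRM (by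
    show χ ((1 : (P : Subgroup G)) : G) = n
    rw [Subgroup.coe_one, hn]) A ?_
  have : chKer (fun x : (P : Subgroup G) => χ x) hχP = ⊥ := by
    rw [eq_bot_iff]
    intro g hg
    rw [mem_chKer] at hg
    rw [Subgroup.mem_bot]
    apply Subtype.ext
    exact hfaith g hg
  rw [this, Subgroup.index_bot, hPc]

end G

end Cfsg.Agent.H3.Schur
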