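import Mathlib
import Cfsg.Prelude.Def_Characters
import Cfsg.Agent.H3_Clifford
import Cfsg.Agent.H3_GlCyc
import Cfsg.Agent.H3_GK
import Cfsg.Agent.H3_Schur2

/-!
# Extending characters of a normal `p'`-subgroup to `p`-rational characters
-/

set_option autoImplicit false

open scoped ComplexConjugate

namespace Cfsg.Agent.H3.PIdx

open Cfsg Cfsg.Agent.H3.CharBasic Cfsg.Agent.H3.CharIrr Cfsg.Agent.H3.CharInt Cfsg.Agent.H3.CharCalc
  Cfsg.Agent.H3.CharComplete Cfsg.Agent.H3.CharInd Cfsg.Agent.H3.CharMult Cfsg.Agent.H3.CharQuot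
  Cfsg.Agent.H3.Clifford

section Ext

variable {Γ : Type*} [Group Γ] [Fintype Γ] {K : Subgroup Γ} (hK : K.Normal) [Fintype K] {p a : ℕ} [hp : Fact p.Prime]
  (hcop : ¬ p ∣ Nat.card K) (hidx : K.index = p ^ a)

/-- power invariance -/
def PInv (K : Subgroup Γ) (f : Γ → ℂ) : Prop :=
  ∀ m : ℕ, m ≡ 1 [MOD Nat.card K] → (Nat.card Γ).Coprime m → ∀ g, f (g ^ m) = f g

open Classical in
include hcop hidx in
theorem exists_eta {θ : K → ℂ} (hθ : IsIrrCharacter K θ) : ∃ η : Γ → ℂ, IsCharacter Γ η ∧ PInv K η ∧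
    ∀ θ' : K → ℂ, IsIrrCharacter K θ' → classInner (fun k : K => η k) θ' = if (∃ x : Γ, cj hK x θ = θ') then 1 else 0 := by
  have hTmem := mem_inertia hK θ
  have hKT : K ≤ inertia hK θ := le_inertia hK (IsIrr.isClass hθ)
  obtain ⟨T, hT⟩ : ∃ T, T = inertia hK θ := ⟨_, rfl⟩
  rw [← hT] at hTmem hKT
  have : Fintype T := Fintype.ofFinite _
  have hK' : (K.subgroupOf T).Normal := hK.subgroupOf T
  have : Fintype (K.subgroupOf T) := Fintype.ofFinite _
  let f : K.subgroupOf T →* K :=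
    { toFun := fun k => ⟨((k : T) : Γ), Subgroup.mem_subgroupOf.mp k.2⟩
      map_one' := rfl
      map_mul' := fun _ _ => rfl }
  have hf : Function.Surjective f := fun k => ⟨⟨⟨k, hKT k.2⟩, Subgroup.mem_subgroupOf.mpr k.2⟩, rfl⟩
  have hθ' : IsIrrCharacter (K.subgroupOf T) (fun k => θ (f k)) := IsIrr.comp hθ f hf
  have hcard : Nat.card (K.subgroupOf T) = Nat.card K := Nat.card_congr (Subgroup.subgroupOfEquivOfLe hKT).toEquiv
  have hid : (K.subgroupOf T).index ∣ p ^ a := by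
    rw [← hidx]
    exact Subgroup.relIndex_dvd_index_of_normal K T
  obtain ⟨b, -, hb⟩ := (Nat.dvd_prime_pow hp.out).mp hid
  have hco : (Nat.card (K.subgroupOf T)).Coprime (K.subgroupOf T).index := by
    rw [hcard, hb]
    exact (Nat.Coprime.pow_left b ((Nat.Prime.coprime_iff_not_dvd hp.out).mpr hcop)).symm
  obtain ⟨τ, ⟨hτ, hτr, hτd⟩, -⟩ := GK.canon (K.subgroupOf T) hco hθ' (by
    intro g n
    have h1 := (hTmem (g : Γ)).mp g.2
    exact congrFun h1 (f n))
  have hr : IsIrrCharacter (K.subgroupOf T) (fun g : K.subgroupOf T => τ g) := by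
    have : (fun g : K.subgroupOf T => τ g) = fun k => θ (f k) := funext hτr
    rw [this]; exact hθ'
  have hd : (detOrder τ).Coprime (K.subgroupOf T).index := by
    rw [hτd]
    exact Nat.Coprime.coprime_dvd_left (GK.detOrder_dvd (IsIrr.isCharacter hθ')) hco
  have hpow : ∀ m, m ≡ 1 [MOD Nat.card K] → (Nat.card Γ).Coprime m → ∀ x : T, τ (x ^ m) = τ x := by
    intro m hm1 hm2 x
    refine GlCyc.power hco hτ hr hd (by rw [hcard]; exact hm1) ?_ x
    refine Nat.Coprime.coprime_dvd_left ?_ hm2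
    refine (Subgroup.relIndex_dvd_index_of_normal K T).trans ?_
    exact Subgroup.index_dvd_card K
  have hT0 : (Nat.card T : ℂ) ≠ 0 := Nat.cast_ne_zero.mpr Nat.card_pos.ne'
  refine ⟨indFun T τ, IsChar.ind (IsIrr.isCharacter hτ), ?_, ?_⟩
  · intro m hm1 hm2 g
    rw [indFun, indFun]
    congr 1
    refine Finset.sum_congr rfl (fun x _ => ?_)
    have h1 : x⁻¹ * g ^ m * x = (x⁻¹ * g * x) ^ m := by
      have := conj_pow (i := m) (a := x⁻¹) (b := g)
      rw [inv_inv] at this; exact this.symm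
    rw [h1]
    by_cases hx : x⁻¹ * g * x ∈ T
    · rw [ext_mem T τ hx, ext_mem T τ (pow_mem hx m)]
      exact hpow m hm1 hm2 ⟨_, hx⟩
    · rw [ext_not_mem T τ hx, ext_not_mem T τ]
      intro h2
      apply hx
      have h3 : Nat.Coprime m (orderOf (x⁻¹ * g * x)) := (Nat.Coprime.coprime_dvd_left (orderOf_dvd_natCard _) hm2).symm
      obtain ⟨j, hj⟩ := exists_pow_eq_self_of_coprime h3
      rw [← hj]
      exact pow_mem h2 j
  · intro θ₁ hθ₁
    have h1 : (fun k : K => indFun T τ k) = (Nat.card T : ℂ)⁻¹ • ∑ x : Γ, cj hK x θ := by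
      funext k
      rw [indFun, Pi.smul_apply, Finset.sum_apply, smul_eq_mul]
      congr 1
      rw [← Equiv.sum_comp (Equiv.inv Γ)]
      refine Finset.sum_congr rfl (fun x _ => ?_)
      have h2 : (Equiv.inv Γ x)⁻¹ * (k : Γ) * (Equiv.inv Γ x) = x * k * x⁻¹ := by simp [Equiv.inv_apply]
      have h3 : x * (k : Γ) * x⁻¹ ∈ K := hK.conj_mem k k.2 x
      rw [h2, ext_mem T τ (hKT h3)]
      exact hτr ⟨⟨_, hKT h3⟩, Subgroup.mem_subgroupOf.mpr h3⟩
    rw [h1, ci_smul_left, ci_sum_left]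
    have h2 : ∀ x : Γ, classInner (cj hK x θ) θ₁ = if cj hK x θ = θ₁ then 1 else 0 := fun x =>
      ci_irr ((cj_isIrr hK x).mpr hθ) hθ₁
    rw [Finset.sum_congr rfl (fun x _ => h2 x), Finset.sum_boole]
    split_ifs with h3
    · obtain ⟨g₀, hg₀⟩ := h3
      have h4 : (Finset.univ.filter (fun x : Γ => cj hK x θ = θ₁)).card = Nat.card T := by
        rw [Nat.card_eq_fintype_card, ← Finset.card_univ]
        refine Finset.card_bij' (fun g hg => (⟨g * g₀⁻¹, ?_⟩ : T)) (fun x _ => (x : Γ) * g₀) ?_ ?_ ?_ ?_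
        · simp only [Finset.mem_filter, Finset.mem_univ, true_and] at hg
          rw [hTmem, ← cj_cj, hg, ← hg₀, cj_cj, mul_inv_cancel, cj_one]
        · intro _ _; exact Finset.mem_univ _
        · intro x _
          simp only [Finset.mem_filter, Finset.mem_univ, true_and]
          rw [← cj_cj, (hTmem _).mp x.2]; exact hg₀
        · intro x _; simp
        · intro x _; ext; simp
      rw [h4]; field_simp
    · rw [Finset.card_eq_zero.mpr, Nat.cast_zero, mul_zero]
      rw [Finset.filter_eq_empty_iff]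
      intro x _ hx
      exact h3 ⟨x, hx⟩

include hcop hidx in
theorem ext_char : ∀ (n : ℕ) (ψ : K → ℂ), IsCharacter K ψ → ψ 1 = n → (∀ x, cj hK x ψ = ψ) →
    ∃ Ψ : Γ → ℂ, IsCharacter Γ Ψ ∧ PInv K Ψ ∧ ∀ k : K, Ψ k = ψ k := by
  classical
  intro n
  induction n using Nat.strong_induction_on with
  | _ n ih =>
  intro ψ hψ hn hinv
  by_cases h0 : ψ = 0
  · exact ⟨0, IsChar.zero, fun _ _ _ _ => rfl, fun k => by rw [h0]; rfl⟩
  obtain ⟨θ, hθ, hne⟩ := exists_constituent hψ h0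
  obtain ⟨η, hη, hηp, hηc⟩ := exists_eta hK hcop hidx hθ
  have hηK : IsCharacter K (fun k : K => η k) := IsChar.res hη K
  have hψ' : IsCharacter K (ψ - fun k : K => η k) := by
    apply isCharacter_of_nat (isClass_sub _ _ (IsChar.isClass hψ) (IsChar.isClass hηK))
    intro θ' hθ'
    rw [ci_sub_left, hηc θ' hθ']
    obtain ⟨c, hc⟩ := ci_char_nat hψ (IsIrr.isCharacter hθ')
    split_ifs with h1
    · obtain ⟨x, rfl⟩ := h1
      have h2 : classInner ψ (cj hK x θ) = classInner ψ θ := by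
        conv_lhs => rw [← hinv x]
        exact cj_ci hK x _ _
      rw [hc] at h2
      have h3 : c ≠ 0 := by
        rintro rfl
        apply hne
        rw [← h2]; simp
      refine ⟨c - 1, ?_⟩
      rw [hc, Nat.cast_sub (by omega)]; simp
    · exact ⟨c, by rw [hc, sub_zero]⟩
  obtain ⟨e, he⟩ := IsChar.one_eq_nat hη
  obtain ⟨n', hn'⟩ := IsChar.one_eq_nat hψ'
  have he0 : e ≠ 0 := by
    rintro rfl
    have h1 := IsChar.eq_zero_of_one hη (by rw [he]; simp)
    have h2 := hηc θ hθ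
    rw [if_pos ⟨1, cj_one hK θ⟩, h1] at h2
    have h3 : (fun k : K => (0 : Γ → ℂ) k) = 0 := rfl
    rw [h3, ci_zero_left] at h2
    exact zero_ne_one h2
  have hsum : n = n' + e := by
    have h1 : (n : ℂ) = n' + e := by
      rw [← hn', ← hn, ← he]
      simp
    exact_mod_cast h1
  obtain ⟨Ψ, h1, h2, h3⟩ := ih n' (by omega) _ hψ' hn' (by
    intro x
    funext k
    have h4 := congrFun (hinv x) k
    have h5 := congrFun (cj_res hK (IsChar.isClass hη) x) k
    rw [cj_apply] at h4 h5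
    rw [cj_apply, Pi.sub_apply, Pi.sub_apply, h4]
    congr 1)
  refine ⟨Ψ + η, IsChar.add h1 hη, ?_, ?_⟩
  · intro m hm1 hm2 g
    rw [Pi.add_apply, Pi.add_apply, h2 m hm1 hm2 g, hηp m hm1 hm2 g]
  · intro k
    rw [Pi.add_apply, h3, Pi.sub_apply, sub_add_cancel]

include hK hcop hidx in
theorem bound {χ : Γ → ℂ} (hχ : IsCharacter Γ χ) {n : ℕ} (hn : χ 1 = n) (hf : ∀ k : K, χ k = χ 1 → k = 1) (P : Sylow p Γ) :
    ∃ (E : Subgroup Γ) (b : ℕ), E ≤ P ∧ Nat.card P = Nat.card E * p ^ b ∧ b ≤ Schur.FF p n ∧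
      ∀ x ∈ E, ∀ k ∈ K, x * k = k * x := by
  classical
  obtain ⟨Ψ, h1, h2, h3⟩ := ext_char hK hcop hidx n (fun k : K => χ k) (IsChar.res hχ K) hn (cj_res hK (IsChar.isClass hχ))
  have : Fintype (P : Subgroup Γ) := Fintype.ofFinite _
  have : Fintype (IrrCharacter (P : Subgroup Γ)) := Fintype.ofFinite _
  have hΨ1 : Ψ 1 = n := by
    have := h3 1
    rw [Subgroup.coe_one] at this
    rw [this, hn]
  have hΨP : IsCharacter (P : Subgroup Γ) (fun x => Ψ x) := IsChar.res h1 _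
  obtain ⟨A, hA⟩ := IsPGroup.iff_card.mp P.2
  obtain ⟨b, -, hb⟩ := (Nat.dvd_prime_pow hp.out).mp (show (chKer _ hΨP).index ∣ p ^ A by rw [← hA]; exact Subgroup.index_dvd_card _)
  have hAK : (Nat.card (P : Subgroup Γ)).Coprime (Nat.card K) := by
    rw [hA]; exact Nat.Coprime.pow_left _ ((Nat.Prime.coprime_iff_not_dvd hp.out).mpr hcop)
  have hcardΓ : Nat.card Γ = Nat.card K * p ^ a := by rw [← hidx, Subgroup.card_mul_index]
  have hRM : Schur.RM (fun x : (P : Subgroup Γ) => Ψ x) := by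
    apply Schur.rm_of_pow
    intro k hk g
    obtain ⟨m, hm1, hm2⟩ := Nat.chineseRemainder hAK k 1
    have h4 : (g : Γ) ^ m = (g : Γ) ^ k := by
      have h5 : g ^ m = g ^ k := by
        rw [pow_eq_pow_iff_modEq]
        exact hm1.of_dvd (orderOf_dvd_natCard g)
      exact_mod_cast congrArg Subtype.val h5
    have h6 : (Nat.card Γ).Coprime m := by
      rw [hcardΓ]
      apply Nat.Coprime.mul_left
      · have h7 := Nat.ModEq.gcd_eq hm2
        rw [Nat.gcd_one_left] at h7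
        exact Nat.coprime_comm.mp h7
      · have h8 : p ^ a ∣ Nat.card (P : Subgroup Γ) := by
          apply P.pow_dvd_card_of_pow_dvd_card
          rw [hcardΓ]; exact dvd_mul_left _ _
        have h9 : (Nat.card (P : Subgroup Γ)).Coprime m := by
          have h10 := Nat.ModEq.gcd_eq hm1
          rw [Nat.Coprime, Nat.gcd_comm, h10, Nat.gcd_comm]
          exact hk
        exact Nat.Coprime.coprime_dvd_left h8 h9
    have h7 := h2 m hm2 h6 (g : Γ)
    show Ψ ((g ^ k : (P : Subgroup Γ)) : Γ) = Ψ g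
    rw [Subgroup.coe_pow, ← h4, h7]
  have hbd := Schur.rational_bound hA n n le_rfl _ hΨP hRM hΨ1 b hb
  refine ⟨(chKer _ hΨP).map (P : Subgroup Γ).subtype, b, ?_, ?_, hbd, ?_⟩
  · rintro _ ⟨x, -, rfl⟩
    exact x.2
  · rw [Subgroup.card_map_of_injective (P : Subgroup Γ).subtype_injective, ← hb, Subgroup.card_mul_index]
  · rintro _ ⟨x, hx, rfl⟩ k hk
    have hxk : (x : Γ) ∈ chKer Ψ h1 := hx
    have hdis : Disjoint (chKer Ψ h1) K := by
      rw [Subgroup.disjoint_def]
      intro y hy hyK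
      have h4 : Ψ y = Ψ 1 := hy
      have h5 := h3 ⟨y, hyK⟩
      have h6 := h3 1
      rw [Subgroup.coe_one] at h6
      have h7 : χ y = χ 1 := by
        have h8 : Ψ y = χ y := h5
        have h9 : Ψ 1 = χ 1 := h6
        rw [← h8, ← h9, h4]
      exact congrArg Subtype.val (hf ⟨y, hyK⟩ h7)
    exact Subgroup.commute_of_normal_of_disjoint _ _ (chKer_normal h1) hK hdis _ _ hxk hk

end Ext

end Cfsg.Agent.H3.PIdx
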