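import Mathlib
import Cfsg.Prelude.Def_Local
import Cfsg.Agent.H3_PIdx
import Cfsg.Agent.H22_PComp
import Cfsg.Agent.H26_HH

/-!
# The `p`-part of the index of `O_p(G)` in a `p`-solvable linear group
-/

set_option autoImplicit false

open scoped ComplexConjugate Pointwise

namespace Cfsg.Agent.H3.PIdx

open Cfsg Cfsg.Agent.H3.CharBasic Cfsg.Agent.H3.CharIrr Cfsg.Agent.H3.CharInt Cfsg.Agent.H3.CharCalc
  Cfsg.Agent.H3.CharComplete Cfsg.Agent.H3.CharInd Cfsg.Agent.H3.CharMult Cfsg.Agent.H3.CharQuot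
  Cfsg.Agent.H3.Clifford

section Sub

variable {N : Type*} [Group N] [Fintype N] {K : Subgroup N} (hK : K.Normal) {p : ℕ} [hp : Fact p.Prime]
  (hcop : ¬ p ∣ Nat.card K)

include hK hcop in
theorem bound' {χ : N → ℂ} (hχ : IsCharacter N χ) {n : ℕ} (hn : χ 1 = n) (hf : ∀ g, χ g = χ 1 → g = 1) (P : Sylow p N) :
    ∃ (E : Subgroup N) (b : ℕ), E ≤ P ∧ Nat.card P = Nat.card E * p ^ b ∧ b ≤ Schur.FF p n ∧
      ∀ x ∈ E, ∀ k ∈ K, x * k = k * x := by
  classical
  obtain ⟨Γ, hΓ⟩ : ∃ Γ : Subgroup N, Γ = K ⊔ P := ⟨_, rfl⟩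
  have hKΓ : K ≤ Γ := by rw [hΓ]; exact le_sup_left
  have hPΓ : (P : Subgroup N) ≤ Γ := by rw [hΓ]; exact le_sup_right
  have : Fintype Γ := Fintype.ofFinite _
  have : Fintype (K.subgroupOf Γ) := Fintype.ofFinite _
  have hK' : (K.subgroupOf Γ).Normal := hK.subgroupOf Γ
  have hcard : Nat.card (K.subgroupOf Γ) = Nat.card K := Nat.card_congr (Subgroup.subgroupOfEquivOfLe hKΓ).toEquiv
  have hidx : ∃ a, (K.subgroupOf Γ).index = p ^ a := by
    have h1 : (K.subgroupOf Γ).index = K.relIndex (P : Subgroup N) := by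
      show K.relIndex Γ = _
      rw [hΓ, Subgroup.relIndex_sup_left]
    obtain ⟨A, hA⟩ := IsPGroup.iff_card.mp P.2
    have h2 : K.relIndex (P : Subgroup N) ∣ p ^ A := by
      rw [← hA]; exact Subgroup.relIndex_dvd_card _ _
    obtain ⟨a, -, ha⟩ := (Nat.dvd_prime_pow hp.out).mp h2
    exact ⟨a, by rw [h1, ha]⟩
  obtain ⟨a, ha⟩ := hidx
  obtain ⟨E, b, hE1, hE2, hE3, hE4⟩ := bound hK' (by rw [hcard]; exact hcop) ha (IsChar.res hχ Γ) hn
    (fun k hk => Subtype.ext (Subtype.ext (hf _ hk))) (P.subtype hPΓ)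
  have hPc : Nat.card (P.subtype hPΓ) = Nat.card P := Nat.card_congr (Subgroup.subgroupOfEquivOfLe hPΓ).toEquiv
  refine ⟨E.map Γ.subtype, b, ?_, ?_, hE3, ?_⟩
  · rintro _ ⟨x, hx, rfl⟩
    exact hE1 hx
  · rw [Subgroup.card_map_of_injective Γ.subtype_injective, ← hPc, hE2]
  · rintro _ ⟨x, hx, rfl⟩ k hk
    exact congrArg Subtype.val (hE4 x hx ⟨k, hKΓ hk⟩ (Subgroup.mem_subgroupOf.mpr hk))

end Sub

section Main

open Cfsg.Agent.H22.PComp

variable {G : Type*} [Group G] [Fintype G] {p : ℕ} [hp : Fact p.Prime]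

theorem main (hG : IsPSolvable p G) {χ : G → ℂ} (hχ : IsCharacter G χ) (hf : ∀ g, χ g = χ 1 → g = 1) {n : ℕ} (hn : χ 1 = n) :
    ((pCore p G).index).factorization p ≤ Schur.FF p n := by
  classical
  have hOn : (pCore p G).Normal := H1.Nilp.pCore_normal p
  have hOp : IsPGroup p (pCore p G) := H1.Nilp.pCore_isPGroup p
  have hQs : IsPSolvable p (G ⧸ pCore p G) := H22.PSolv.isPSolvable_quotient _ hG
  have hQc := H26.HH.centralizer_pPrimeCore_le hQs H22.PSolv.pCore_quotient
  obtain ⟨O, hO⟩ : ∃ O, O = pCore p G := ⟨_, rfl⟩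
  obtain ⟨L, hL⟩ : ∃ L : Subgroup G, L = (pPrimeCore p (G ⧸ pCore p G)).comap (QuotientGroup.mk' (pCore p G)) := ⟨_, rfl⟩
  have hTn : (pPrimeCore p (G ⧸ pCore p G)).Normal := H1.Nilp.pPrimeCore_normal p
  have hTc : (Nat.card (pPrimeCore p (G ⧸ pCore p G))).Coprime p := H1.Nilp.pPrimeCore_coprime p
  have hLn : L.Normal := by rw [hL]; infer_instance
  have hOL : pCore p G ≤ L := by
    intro x hx
    rw [hL, Subgroup.mem_comap]
    have : QuotientGroup.mk' (pCore p G) x = 1 := (QuotientGroup.eq_one_iff x).mpr hx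
    rw [this]; exact one_mem _
  obtain ⟨H, hH⟩ := exists_pComp (H22.PSolv.isPSolvable_subgroup L hG)
  obtain ⟨K₁, hK₁⟩ : ∃ K₁ : Subgroup G, K₁ = H.map L.subtype := ⟨_, rfl⟩
  have hK₁L : K₁ ≤ L := by rw [hK₁]; rintro _ ⟨x, -, rfl⟩; exact x.2
  have hK₁c : Nat.card K₁ = Nat.card H := by rw [hK₁, Subgroup.card_map_of_injective L.subtype_injective]
  have hcop : ¬ p ∣ Nat.card K₁ := by
    rw [hK₁c]
    exact (Nat.Prime.coprime_iff_not_dvd hp.out).mp hH.1.symm
  -- L = O K₁
  have hLOK : pCore p G ⊔ K₁ = L := by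
    apply le_antisymm (sup_le hOL hK₁L)
    rw [← Subgroup.relIndex_eq_one]
    have h1 : (pCore p G ⊔ K₁).relIndex L ∣ (pCore p G).relIndex L := Subgroup.relIndex_dvd_of_le_left _ le_sup_left
    have h2 : (pCore p G ⊔ K₁).relIndex L ∣ K₁.relIndex L := Subgroup.relIndex_dvd_of_le_left _ le_sup_right
    have h3 : K₁.relIndex L = H.index := by
      show (K₁.subgroupOf L).index = H.index
      rw [hK₁, Subgroup.subgroupOf, Subgroup.comap_map_eq_self_of_injective L.subtype_injective]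
    obtain ⟨-, j, hj⟩ := hH
    rw [h3, hj] at h2
    have h4 : (pCore p G).relIndex L = Nat.card (pPrimeCore p (G ⧸ pCore p G)) := by
      have h5 := H22.PSolv.relIndex_comap_comap (QuotientGroup.mk'_surjective (pCore p G)) ⊥ (pPrimeCore p (G ⧸ pCore p G))
      rw [MonoidHom.comap_bot, QuotientGroup.ker_mk', ← hL, Subgroup.relIndex_bot_left] at h5
      exact h5
    rw [h4] at h1
    exact Nat.Coprime.eq_one_of_dvd (Nat.Coprime.coprime_dvd_left h2 (Nat.Coprime.pow_left j hTc.symm)) h1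
  -- Frattini
  have hfrat : ∀ g : G, ∃ o ∈ pCore p G, ∃ m ∈ Subgroup.normalizer (K₁ : Set G), g = o * m := by
    intro g
    have hH' : IsPComp p (H.map (MulAut.conjNormal g : MulAut L).toMonoidHom) := by
      refine ⟨?_, ?_⟩
      · have h1 : Nat.card (H.map (MulAut.conjNormal g : MulAut L).toMonoidHom) = Nat.card H :=
          Subgroup.card_map_of_injective (f := (MulAut.conjNormal g : MulAut L).toMonoidHom) (MulAut.conjNormal g : MulAut L).injective
        rw [h1]
        exact hH.1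
      · obtain ⟨-, j, hj⟩ := hH
        refine ⟨j, ?_⟩
        rw [← hj]
        exact Subgroup.index_map_equiv H (MulAut.conjNormal g : MulAut L)
    obtain ⟨l, hl⟩ := Cfsg.Agent.H22.PComp.conj (H22.PSolv.isPSolvable_subgroup L hG) hH hH'
    have hlg : (l : G)⁻¹ * g ∈ Subgroup.normalizer (K₁ : Set G) := by
      rw [Subgroup.mem_normalizer_iff]
      have hmem : ∀ y : L, (y : G) ∈ K₁ ↔ y ∈ H := by
        intro y
        rw [hK₁]
        constructor
        · rintro ⟨z, hz, hzy⟩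
          have : z = y := Subtype.ext hzy
          rw [← this]; exact hz
        · intro hy; exact ⟨y, hy, rfl⟩
      intro x
      constructor
      · intro hx
        have hx' : (⟨x, hK₁L hx⟩ : L) ∈ H := (hmem ⟨x, hK₁L hx⟩).mp hx
        have h1 : (MulAut.conjNormal g : MulAut L) ⟨x, hK₁L hx⟩ ∈ H.map (MulAut.conjNormal g : MulAut L).toMonoidHom :=
          ⟨_, hx', rfl⟩
        rw [← hl, Subgroup.mem_smul_pointwise_iff_exists] at h1
        obtain ⟨h', hh', h2⟩ := h1
        have h3 : (l : G) * h' * (l : G)⁻¹ = g * x * g⁻¹ := by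
          have := congrArg Subtype.val h2
          simpa [MulAut.smul_def] using this
        have h4 : (l : G)⁻¹ * g * x * ((l : G)⁻¹ * g)⁻¹ = h' := by
          calc (l : G)⁻¹ * g * x * ((l : G)⁻¹ * g)⁻¹ = (l : G)⁻¹ * (g * x * g⁻¹) * l := by group
            _ = (l : G)⁻¹ * ((l : G) * h' * (l : G)⁻¹) * l := by rw [h3]
            _ = h' := by group
        rw [h4]
        exact (hmem h').mpr hh'
      · intro hx
        obtain ⟨k', hk'⟩ : ∃ k', k' = (l : G)⁻¹ * g * x * ((l : G)⁻¹ * g)⁻¹ := ⟨_, rfl⟩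
        rw [← hk'] at hx
        have hx' : (⟨k', hK₁L hx⟩ : L) ∈ H := (hmem ⟨k', hK₁L hx⟩).mp hx
        have h1 : MulAut.conj l • (⟨k', hK₁L hx⟩ : L) ∈ MulAut.conj l • H := Subgroup.smul_mem_pointwise_smul _ _ _ hx'
        rw [hl] at h1
        obtain ⟨h', hh', h2⟩ := h1
        have h3 : g * h' * g⁻¹ = (l : G) * k' * (l : G)⁻¹ := by
          have := congrArg Subtype.val h2
          simpa [MulAut.smul_def] using this
        have h4 : x = h' := by
          have h5 : g * x * g⁻¹ = (l : G) * k' * (l : G)⁻¹ := by rw [hk']; group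
          rw [← h3] at h5
          exact mul_left_cancel (mul_right_cancel h5)
        rw [h4]
        exact (hmem h').mpr hh'
    have h1 : (l : G) ∈ pCore p G ⊔ K₁ := by rw [hLOK]; exact l.2
    rw [← SetLike.mem_coe, Subgroup.normal_mul] at h1
    obtain ⟨o, ho, k, hk, hok⟩ := h1
    refine ⟨o, ho, k * ((l : G)⁻¹ * g), mul_mem (Subgroup.le_normalizer hk) hlg, ?_⟩
    have h2 : o * k = (l : G) := hok
    rw [← mul_assoc, h2]; group
  -- the normalizer
  obtain ⟨N, hN⟩ : ∃ N : Subgroup G, N = Subgroup.normalizer (K₁ : Set G) := ⟨_, rfl⟩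
  rw [← hN] at hfrat
  have hK₁N : K₁ ≤ N := by rw [hN]; exact Subgroup.le_normalizer
  have : Fintype N := Fintype.ofFinite _
  have hKn : (K₁.subgroupOf N).Normal := by
    rw [hN]; exact Subgroup.normal_in_normalizer
  obtain ⟨P⟩ : Nonempty (Sylow p N) := inferInstance
  have hcK : Nat.card (K₁.subgroupOf N) = Nat.card K₁ := Nat.card_congr (Subgroup.subgroupOfEquivOfLe hK₁N).toEquiv
  obtain ⟨E, b, hE1, hE2, hE3, hE4⟩ := bound' hKn (by rw [hcK]; exact hcop) (IsChar.res hχ N) hn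
    (fun g hg => Subtype.ext (hf _ hg)) P
  -- E is in O
  have hEO : E ≤ (pCore p G).subgroupOf N := by
    intro x hx
    rw [Subgroup.mem_subgroupOf]
    have h1 : QuotientGroup.mk' (pCore p G) (x : G) ∈ Subgroup.centralizer (pPrimeCore p (G ⧸ pCore p G) : Set (G ⧸ pCore p G)) := by
      rw [Subgroup.mem_centralizer_iff]
      intro y hy
      obtain ⟨y', rfl⟩ := QuotientGroup.mk'_surjective (pCore p G) y
      have h2 : y' ∈ L := by rw [hL]; exact hy
      rw [← hLOK, ← SetLike.mem_coe, Subgroup.normal_mul] at h2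
      obtain ⟨o, ho, k, hk, hok⟩ := h2
      have h3 : QuotientGroup.mk' (pCore p G) y' = QuotientGroup.mk' (pCore p G) k := by
        have h4 : o * k = y' := hok
        rw [← h4, map_mul]
        have h5 : QuotientGroup.mk' (pCore p G) o = 1 := (QuotientGroup.eq_one_iff o).mpr ho
        rw [h5, one_mul]
      have h4 := congrArg Subtype.val (hE4 x hx ⟨k, hK₁N hk⟩ (Subgroup.mem_subgroupOf.mpr hk))
      have h5 : (x : G) * k = k * x := h4
      rw [h3, ← map_mul, ← map_mul, h5]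
    have h2 := hQc h1
    have h3 : orderOf (QuotientGroup.mk' (pCore p G) (x : G)) ∣ Nat.card (pPrimeCore p (G ⧸ pCore p G)) := by
      have := orderOf_dvd_natCard (⟨_, h2⟩ : pPrimeCore p (G ⧸ pCore p G))
      rwa [Subgroup.orderOf_mk] at this
    obtain ⟨k, hk⟩ := IsPGroup.iff_orderOf.mp P.2 ⟨x, hE1 hx⟩
    rw [Subgroup.orderOf_mk] at hk
    have h4 : orderOf (QuotientGroup.mk' (pCore p G) (x : G)) ∣ p ^ k := by
      rw [← hk, ← Subgroup.orderOf_coe]
      exact orderOf_map_dvd _ _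
    have h5 : orderOf (QuotientGroup.mk' (pCore p G) (x : G)) = 1 :=
      Nat.Coprime.eq_one_of_dvd (Nat.Coprime.coprime_dvd_left h4 (Nat.Coprime.pow_left k hTc.symm)) h3
    exact (QuotientGroup.eq_one_iff _).mp (orderOf_eq_one_iff.mp h5)
  have htop : pCore p G ⊔ N = ⊤ := by
    rw [eq_top_iff]
    intro g _
    obtain ⟨o, ho, m, hm, rfl⟩ := hfrat g
    exact mul_mem (Subgroup.mem_sup_left ho) (Subgroup.mem_sup_right hm)
  have hidx : ((pCore p G).subgroupOf N).index = (pCore p G).index := by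
    show (pCore p G).relIndex N = _
    rw [← Subgroup.relIndex_sup_left, htop, Subgroup.relIndex_top_right]
  have h1 := Subgroup.card_mul_index ((pCore p G).subgroupOf N)
  rw [hidx] at h1
  have hN0 : Nat.card N ≠ 0 := Nat.card_pos.ne'
  have h2 : (Nat.card N).factorization p = (Nat.card E).factorization p + b := by
    have h3 : (Nat.card P).factorization p = (Nat.card N).factorization p := by
      rw [P.card_eq_multiplicity, hp.out.factorization_pow, Finsupp.single_eq_same]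
    rw [← h3, hE2, Nat.factorization_mul Nat.card_pos.ne' (pow_ne_zero _ hp.out.ne_zero), Finsupp.add_apply,
      hp.out.factorization_pow, Finsupp.single_eq_same]
  have h3 : (Nat.card E).factorization p ≤ (Nat.card ((pCore p G).subgroupOf N)).factorization p := by
    have h4 := Subgroup.card_dvd_of_le hEO
    exact (Nat.factorization_le_iff_dvd Nat.card_pos.ne' Nat.card_pos.ne').mpr h4 p
  rw [← h1, Nat.factorization_mul Nat.card_pos.ne' Subgroup.index_ne_zero_of_finite, Finsupp.add_apply] at h2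
  omega

end Main

end Cfsg.Agent.H3.PIdx
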