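import Mathlib
import Cfsg.Prelude.Def_Blocks
import Cfsg.Agent.H26_B0
import Cfsg.Agent.H10_BlockPS
import Cfsg.Agent.S4713

/-!
# p-solvable groups: abelian Sylow subgroups and heights in the principal block
-/

set_option autoImplicit false

namespace Cfsg.Agent.H3.PSAb

open Cfsg Cfsg.Agent.H10.BlockAlg Cfsg.Agent.H10.BlockKer Cfsg.Agent.H10.BlockQuot
  Cfsg.Agent.H26.B0

variable {G : Type*} [Group G] [Fintype G] {p : ℕ} {M : Ideal AlgInt}

theorem charDegree_triv : charDegree ((triv G : IrrCharacter G) : G → ℂ) = 1 := by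
  unfold charDegree
  rw [triv_coe]
  simp

theorem height_iff [M.IsMaximal] [hp : Fact p.Prime] (χ : IrrCharacter G) :
    blockHeight p (principalBlock M G) (χ : G → ℂ) = 0 ↔ ¬ p ∣ charDegree (χ : G → ℂ) := by
  have h0 : sInf ((fun ψ : IrrCharacter G => (charDegree (ψ : G → ℂ)).factorization p) ''
      (principalBlock M G)) = 0 := by
    apply Nat.sInf_eq_zero.mpr
    left
    refine ⟨triv G, triv_mem, ?_⟩
    simp only [charDegree_triv, Nat.factorization_one]
    rfl
  rw [blockHeight, h0, Nat.sub_zero, Nat.factorization_eq_zero_iff]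
  constructor
  · rintro (h | h | h)
    · exact absurd hp.out h
    · exact h
    · obtain ⟨n, hn, h1⟩ := Cfsg.Agent.H3.CharIrr.IsIrr.one_eq_nat χ.2
      rw [charDegree, h1] at h
      simp at h
      omega
  · exact fun h => Or.inr (Or.inl h)

theorem main (hM : IsPModular p M) [hp : Fact p.Prime] (hsolv : IsPSolvable p G) (P : Sylow p G) :
    IsMulCommutative P ↔ ∀ χ ∈ principalBlock M G,
      blockHeight p (principalBlock M G) (χ : G → ℂ) = 0 := by
  classical
  haveI := hM.2.1
  let K := pPrimeCore p G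
  let _ : Fintype (G ⧸ K) := Fintype.ofFinite _
  have hcore : pPrimeCore p (G ⧸ K) = ⊥ := Cfsg.Agent.H11.Cores.pPrimeCore_quotient p
  have hs' : IsPSolvable p (G ⧸ K) := Cfsg.Agent.H22.PSolv.isPSolvable_quotient K hsolv
  have hcop : Nat.Coprime (Nat.card K) p := Cfsg.Agent.H11.Cores.pPrimeCore_coprime (G := G) p
  let Pb : Sylow p (G ⧸ K) := P.mapSurjective (QuotientGroup.mk'_surjective K)
  have hPb : (Pb : Subgroup (G ⧸ K)) = (P : Subgroup G).map (QuotientGroup.mk' K) := rfl
  have hbij := bijOn_infl (G := G) hM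
  have hcomm : IsMulCommutative P ↔ IsMulCommutative Pb := by
    constructor
    · intro h
      refine ⟨⟨?_⟩⟩
      rintro ⟨_, x, hx, rfl⟩ ⟨_, y, hy, rfl⟩
      apply Subtype.ext
      change (QuotientGroup.mk' K) x * (QuotientGroup.mk' K) y = (QuotientGroup.mk' K) y * (QuotientGroup.mk' K) x
      have := h.is_comm.comm ⟨x, hx⟩ ⟨y, hy⟩
      have h2 : x * y = y * x := congrArg Subtype.val this
      rw [← map_mul, ← map_mul, h2]
    · intro h
      refine ⟨⟨?_⟩⟩
      rintro ⟨x, hx⟩ ⟨y, hy⟩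
      apply Subtype.ext
      change x * y = y * x
      have h1 := h.is_comm.comm ⟨QuotientGroup.mk' K x, x, hx, rfl⟩ ⟨QuotientGroup.mk' K y, y, hy, rfl⟩
      have h2 : QuotientGroup.mk' K x * QuotientGroup.mk' K y =
        QuotientGroup.mk' K y * QuotientGroup.mk' K x := congrArg Subtype.val h1
      rw [← map_mul, ← map_mul] at h2
      have h3 : (y * x)⁻¹ * (x * y) ∈ K := by
        have := (QuotientGroup.eq (s := K)).mp h2.symm
        exact this
      have h4 : (y * x)⁻¹ * (x * y) ∈ (P : Subgroup G) :=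
        mul_mem (inv_mem (mul_mem hy hx)) (mul_mem hx hy)
      have h5 : (y * x)⁻¹ * (x * y) = 1 := by
        obtain ⟨k, hk⟩ := P.isPGroup' ⟨_, h4⟩
        have hk' : ((y * x)⁻¹ * (x * y)) ^ p ^ k = 1 := congrArg Subtype.val hk
        have h6 : ((y * x)⁻¹ * (x * y)) ^ Nat.card K = 1 := by
          have := pow_card_eq_one' (x := (⟨_, h3⟩ : K))
          exact congrArg Subtype.val this
        have h7 : orderOf ((y * x)⁻¹ * (x * y)) ∣ Nat.gcd (Nat.card K) (p ^ k) :=
          Nat.dvd_gcd (orderOf_dvd_of_pow_eq_one h6) (orderOf_dvd_of_pow_eq_one hk')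
        rw [Nat.Coprime.gcd_eq_one (hcop.pow_right k), Nat.dvd_one] at h7
        exact orderOf_eq_one_iff.mp h7
      exact (inv_mul_eq_one.mp h5).symm
  have hiff := Cfsg.Agent.S4713.result p hs' Pb
  have hdeg : ∀ φ : IrrCharacter (G ⧸ K), charDegree ((infl K φ : IrrCharacter G) : G → ℂ) =
      charDegree (φ : G ⧸ K → ℂ) := by
    intro φ
    rw [charDegree, charDegree, infl_apply]
    rfl
  have hall : (∀ χ ∈ principalBlock M G, blockHeight p (principalBlock M G) (χ : G → ℂ) = 0) ↔
      ∀ φ : IrrCharacter (G ⧸ K), ¬ p ∣ charDegree (φ : G ⧸ K → ℂ) := by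
    constructor
    · intro h φ
      have hφ : φ ∈ principalBlock M (G ⧸ K) := by
        rw [principal_eq]
        exact Cfsg.Agent.H10.BlockPS.one_block hM hs' hcore _ _
      have := (height_iff _).mp (h _ (hbij.mapsTo hφ))
      rwa [hdeg] at this
    · intro h χ hχ
      obtain ⟨φ, hφ, rfl⟩ := hbij.surjOn hχ
      rw [height_iff, hdeg]
      exact h φ
  rw [hall, ← hiff, hcomm]
  constructor
  · intro h
    refine ⟨?_, h⟩
    have hC := Cfsg.Agent.H22.PSolv.centralizer_pCore_le hs' hcore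
    have h1 : (Pb : Subgroup (G ⧸ K)) ≤ pCore p (G ⧸ K) := by
      refine le_trans ?_ hC
      intro x hx y hy
      have hy' : y ∈ (Pb : Subgroup (G ⧸ K)) := by
        have hpg : IsPGroup p (pCore p (G ⧸ K)) := Cfsg.Agent.H11.Cores.pCore_isPGroup p
        haveI : (pCore p (G ⧸ K)).Normal := inferInstance
        exact IsPGroup.le_sylow_of_normal hpg Pb hy
      have := h.is_comm.comm ⟨y, hy'⟩ ⟨x, hx⟩
      exact congrArg Subtype.val this
    have h2 : (Pb : Subgroup (G ⧸ K)) = pCore p (G ⧸ K) := by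
      apply le_antisymm h1
      have hpg : IsPGroup p (pCore p (G ⧸ K)) := Cfsg.Agent.H11.Cores.pCore_isPGroup p
      haveI : (pCore p (G ⧸ K)).Normal := inferInstance
      exact IsPGroup.le_sylow_of_normal hpg Pb
    rw [h2]
    infer_instance
  · exact fun h => h.2

end Cfsg.Agent.H3.PSAb
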