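import Mathlib
import Cfsg.Prelude.Def_Characters
import Cfsg.Prelude.Def_Local
import Cfsg.Agent.H3_SmallRep4
import Cfsg.Agent.H3_DegLt
import Cfsg.Agent.H3_Triple
import Cfsg.Agent.H22_PSolv2
import Cfsg.Agent.H11_Cores

/-!
# `p`-solvable groups with a faithful character of degree at most `p - 1`
-/

set_option autoImplicit false

open scoped ComplexConjugate

namespace Cfsg.Agent.H3.PSolvDeg

open Cfsg Cfsg.Agent.H3.CharBasic Cfsg.Agent.H3.CharIrr Cfsg.Agent.H3.CharInt Cfsg.Agent.H3.CharCalc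
  Cfsg.Agent.H3.CharComplete Cfsg.Agent.H3.CharInd Cfsg.Agent.H3.CharMult Cfsg.Agent.H3.CharQuot
  Cfsg.Agent.H3.Clifford Cfsg.Agent.H3.CentTI Cfsg.Agent.H3.SmallRep

section Fin

variable {G : Type*} [Group G] [Fintype G] {p : ℕ} (hp : p.Prime) {n : ℕ} (hn : n + 1 ≤ p)
  {χ : G → ℂ} (hχ : IsCharacter G χ) (hχn : χ 1 = n) (hf : ∀ g, χ g = χ 1 → g = 1)
  (P : Subgroup G) (hP : IsPGroup p P)
  (K : Subgroup G) (hK : K.Normal) (hpK : ¬ p ∣ Nat.card K)

include hp hn hχ hχn hf hP hK hpK in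
theorem fin_eq (hKi : ∃ j, K.index = p ^ j) (hKcomm : ⁅K, K⁆ ≠ K)
    (hprop : ∀ L : Subgroup G, L < K → (∀ x ∈ P, ∀ l ∈ L, x * l * x⁻¹ ∈ L) → ∀ x ∈ P, ∀ l ∈ L, x * l = l * x)
    (hnc : ∃ x ∈ P, ∃ k ∈ K, x * k ≠ k * x) :
    n + 1 = p ∧ IsIrrCharacter G χ ∧ n ∣ Nat.card K := by
  classical
  have : Fact p.Prime := ⟨hp⟩
  have : Fintype K := Fintype.ofFinite _
  have : Fintype (IrrCharacter G) := Fintype.ofFinite _
  have hKinv : ∀ x k : G, k ∈ K → x * k * x⁻¹ ∈ K := fun x k hk => hK.conj_mem k hk x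
  obtain ⟨C, hC⟩ : ∃ C : Subgroup G, ∀ c, c ∈ C ↔ c ∈ K ∧ ∀ x ∈ P, x * c = c * x :=
    ⟨K ⊓ Subgroup.centralizer (P : Set G), fun c => by
      rw [Subgroup.mem_inf, Subgroup.mem_centralizer_iff]; rfl⟩
  -- (b)
  have hKKn : (⁅K, K⁆ : Subgroup G).Normal := Subgroup.commutator_normal K K
  have hKKle : ⁅K, K⁆ ≤ K := Cfsg.Agent.H3.Feit.comm_le K
  have hKKC : ⁅K, K⁆ ≤ C := by
    intro c hc
    rw [hC]
    exact ⟨hKKle hc, fun x hx => hprop ⁅K, K⁆ (lt_of_le_of_ne hKKle hKcomm)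
      (fun x _ l hl => hKKn.conj_mem l hl x) x hx c hc⟩
  have hkk : ∀ x ∈ P, ∀ k ∈ K, x * k * x⁻¹ * k⁻¹ ∈ C → x * k = k * x := fun x hx k hk h =>
    kk hp P hP K hpK hk hx (hKinv x k hk) (((hC _).mp h).2 x hx)
  have hcomm : ∀ k ∈ K, ∀ l ∈ K, k * l * k⁻¹ * l⁻¹ ∈ C := fun k hk l hl =>
    hKKC (Subgroup.commutator_mem_commutator hk hl)
  -- (d)
  have hCc : ∀ c ∈ C, ∀ k ∈ K, c * k = k * c := by
    obtain ⟨E, hE⟩ : ∃ E : Subgroup G, ∀ k, k ∈ E ↔ k ∈ K ∧ ∀ c ∈ C, c * k = k * c :=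
      ⟨K ⊓ Subgroup.centralizer (C : Set G), fun c => by
        rw [Subgroup.mem_inf, Subgroup.mem_centralizer_iff]; rfl⟩
    have hin : ∀ x ∈ P, ∀ k ∈ K, x * k * x⁻¹ * k⁻¹ ∈ E := by
      intro x hx k hk
      rw [hE]
      refine ⟨K.mul_mem (hKinv x k hk) (K.inv_mem hk), fun c hc => ?_⟩
      have hcK := ((hC c).mp hc).1
      have h1 : k⁻¹ * c * k ∈ C := by
        have h2 := C.mul_mem hc (hcomm c⁻¹ (K.inv_mem hcK) k⁻¹ (K.inv_mem hk))
        have h3 : c * (c⁻¹ * k⁻¹ * c⁻¹⁻¹ * k⁻¹⁻¹) = k⁻¹ * c * k := by group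
        rwa [h3] at h2
      have h2 := ((hC _).mp h1).2 x hx
      have h3 := ((hC _).mp hc).2 x hx
      have h4 : (x * k * x⁻¹)⁻¹ * c * (x * k * x⁻¹) = k⁻¹ * c * k := by
        calc (x * k * x⁻¹)⁻¹ * c * (x * k * x⁻¹) = x * k⁻¹ * (x⁻¹ * (c * x)) * k * x⁻¹ := by group
          _ = x * k⁻¹ * (x⁻¹ * (x * c)) * k * x⁻¹ := by rw [h3]
          _ = (x * (k⁻¹ * c * k)) * x⁻¹ := by group
          _ = ((k⁻¹ * c * k) * x) * x⁻¹ := by rw [h2]
          _ = k⁻¹ * c * k := by group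
      calc c * (x * k * x⁻¹ * k⁻¹) = (x * k * x⁻¹) * ((x * k * x⁻¹)⁻¹ * c * (x * k * x⁻¹)) * k⁻¹ := by group
        _ = (x * k * x⁻¹) * (k⁻¹ * c * k) * k⁻¹ := by rw [h4]
        _ = x * k * x⁻¹ * k⁻¹ * c := by group
    have hEK : E ≤ K := fun k hk => ((hE k).mp hk).1
    by_contra hcon
    have hEne : E ≠ K := by
      intro h1
      apply hcon
      intro c hc k hk
      rw [← h1] at hk
      exact ((hE k).mp hk).2 c hc
    have h2 := hprop E (lt_of_le_of_ne hEK hEne) (fun x hx l hl => by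
      rw [hE] at hl ⊢
      refine ⟨hKinv x l hl.1, fun c hc => ?_⟩
      have h3 := ((hC _).mp hc).2 x hx
      have h4 := hl.2 c hc
      calc c * (x * l * x⁻¹) = (c * x) * l * x⁻¹ := by group
        _ = x * (c * l) * x⁻¹ := by rw [← h3]; group
        _ = x * l * (x⁻¹ * (x * c)) * x⁻¹ := by rw [h4]; group
        _ = x * l * x⁻¹ * c := by rw [h3]; group)
    obtain ⟨x, hx, k, hk, hne⟩ := hnc
    apply hne
    apply hkk x hx k hk
    rw [hC]
    have h3 := hin x hx k hk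
    exact ⟨hEK h3, fun y hy => h2 y hy _ h3⟩
  -- (e)
  obtain ⟨m, hm, hχm⟩ := IsChar.eq_sum_nat hχ
  have hdeg : ∀ ξ : IrrCharacter G, ∃ d : ℕ, 0 < d ∧ (ξ : G → ℂ) 1 = d := fun ξ => IsIrr.one_eq_nat ξ.2
  choose dd hdd0 hdd using hdeg
  have hval : ∀ g, χ g = ∑ ξ : IrrCharacter G, (m ξ : ℂ) * (ξ : G → ℂ) g := by
    intro g
    have := congrFun hχm g
    rw [Finset.sum_apply] at this
    exact this
  obtain ⟨ξ, hξm, k₀, hk₀, hξk⟩ : ∃ ξ : IrrCharacter G, m ξ ≠ 0 ∧ ∃ k ∈ K, (ξ : G → ℂ) k ≠ (ξ : G → ℂ) 1 := by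
    by_contra hcon
    push Not at hcon
    obtain ⟨x, hx, k, hk, hne⟩ := hnc
    apply hne
    have : k = 1 := by
      apply hf
      rw [hval, hval 1]
      apply Finset.sum_congr rfl
      intro ξ _
      by_cases h1 : m ξ = 0
      · rw [h1]; simp
      · rw [hcon ξ h1 k hk]
    rw [this]; group
  have hξn : dd ξ ≤ n := by
    have h1 : n = ∑ ξ : IrrCharacter G, m ξ * dd ξ := by
      have h2 := hval 1
      rw [hχn] at h2
      have h3 : (n : ℂ) = ((∑ ξ : IrrCharacter G, m ξ * dd ξ : ℕ) : ℂ) := by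
        rw [h2]; push_cast
        exact Finset.sum_congr rfl (fun ψ _ => by rw [hdd])
      exact_mod_cast h3
    have h2 : m ξ * dd ξ ≤ ∑ ψ : IrrCharacter G, m ψ * dd ψ :=
      Finset.single_le_sum (f := fun ψ : IrrCharacter G => m ψ * dd ψ) (fun _ _ => Nat.zero_le _) (Finset.mem_univ ξ)
    have h3 : 1 * dd ξ ≤ m ξ * dd ξ := Nat.mul_le_mul_right _ (Nat.one_le_iff_ne_zero.mpr hξm)
    omega
  -- (f)
  obtain ⟨θ, hθ, hθne⟩ := exists_constituent_res (H := K) ξ.2
  obtain ⟨e, he⟩ := ci_char_nat (IsChar.res (IsIrr.isCharacter ξ.2) K) (IsIrr.isCharacter hθ)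
  obtain ⟨d, hd0, hd⟩ := IsIrr.one_eq_nat hθ
  have hcd := clifford_degree hK ξ.2 hθ hθne
  rw [hdd, he, hd] at hcd
  have hcd' : dd ξ = e * (inertia hK θ).index * d := by exact_mod_cast hcd
  have hle : d ≤ n := by
    have h1 : 0 < e * (inertia hK θ).index := by
      rcases Nat.eq_zero_or_pos (e * (inertia hK θ).index) with h2 | h2
      · rw [h2, zero_mul] at hcd'
        have := hdd0 ξ
        omega
      · exact h2
    have h2 : 1 * d ≤ e * (inertia hK θ).index * d := Nat.mul_le_mul_right _ h1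
    omega
  have hI : (inertia hK θ).index = 1 := by
    obtain ⟨j, hj⟩ := hKi
    have h1 : (inertia hK θ).index ∣ p ^ j := by
      rw [← hj]; exact Subgroup.index_dvd_of_le (le_inertia hK (IsIrr.isClass hθ))
    obtain ⟨i, -, hi⟩ := (Nat.dvd_prime_pow hp).mp h1
    rcases Nat.eq_zero_or_pos i with h2 | h2
    · rw [hi, h2, pow_zero]
    · exfalso
      have h3 : p ∣ (inertia hK θ).index := by rw [hi]; exact dvd_pow_self p h2.ne'
      have h4 : p ∣ dd ξ := by rw [hcd']; exact (h3.mul_left e).mul_right d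
      have := Nat.le_of_dvd (hdd0 ξ) h4
      omega
  have hIt : inertia hK θ = ⊤ := Subgroup.index_eq_one.mp hI
  have hinv : ∀ g : G, cj hK g θ = θ := fun g => by
    have : g ∈ inertia hK θ := by rw [hIt]; trivial
    exact this
  have hθinv : ∀ (g : G) (k : K), θ ⟨g * k * g⁻¹, hK.conj_mem k k.2 g⟩ = θ k := fun g k => congrFun (hinv g) k
  have hres := clifford_invariant hK ξ.2 hθ hθne hinv
  have hθk : θ ⟨k₀, hk₀⟩ ≠ θ 1 := by
    intro h1
    apply hξk
    have h2 := congrFun hres ⟨k₀, hk₀⟩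
    have h3 := congrFun hres 1
    simp only [Pi.smul_apply, smul_eq_mul] at h2 h3
    rw [h1, ← h3] at h2
    exact h2
  -- (g)
  have hθc := IsIrr.isCharacter hθ
  have hkern := chKer_normal hθc
  have hzero : ∀ k : K, (k : G) ∉ C → θ k = 0 := by
    intro k hkC
    obtain ⟨l, hl⟩ : ∃ l : K, θ (l * k * l⁻¹ * k⁻¹) ≠ θ 1 := by
      by_contra hcon
      push Not at hcon
      obtain ⟨Y, hY⟩ : ∃ Y : Subgroup K, ∀ y, y ∈ Y ↔ ∀ l : K, l * y * l⁻¹ * y⁻¹ ∈ chKer θ hθc := by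
        refine ⟨{ carrier := {y | ∀ l : K, l * y * l⁻¹ * y⁻¹ ∈ chKer θ hθc}
                  mul_mem' := ?_
                  one_mem' := ?_
                  inv_mem' := ?_ }, fun y => Iff.rfl⟩
        · intro a b ha hb l
          have h1 := hkern.conj_mem _ (hb l) a
          have h2 := (chKer θ hθc).mul_mem (ha l) h1
          have h3 : l * a * l⁻¹ * a⁻¹ * (a * (l * b * l⁻¹ * b⁻¹) * a⁻¹) = l * (a * b) * l⁻¹ * (a * b)⁻¹ := by group
          rwa [h3] at h2
        · intro l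
          have : l * 1 * l⁻¹ * 1⁻¹ = 1 := by group
          rw [this]; exact (chKer θ hθc).one_mem
        · intro a ha l
          have h1 := hkern.conj_mem _ ((chKer θ hθc).inv_mem (ha l)) a⁻¹
          have h3 : a⁻¹ * (l * a * l⁻¹ * a⁻¹)⁻¹ * a⁻¹⁻¹ = l * a⁻¹ * l⁻¹ * a⁻¹⁻¹ := by group
          rwa [h3] at h1
      have hkY : k ∈ Y := (hY k).mpr (fun l => hcon l)
      -- `Y` mapped to `G`
      obtain ⟨Y', hY'⟩ : ∃ Y' : Subgroup G, Y' = Y.map K.subtype := ⟨_, rfl⟩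
      have hY'K : Y' ≤ K := by rw [hY']; rintro _ ⟨y, -, rfl⟩; exact y.2
      have hmemY' : ∀ y : K, (y : G) ∈ Y' ↔ y ∈ Y := by
        intro y
        rw [hY']
        constructor
        · rintro ⟨z, hz, hzy⟩
          have : z = y := Subtype.ext hzy
          rw [← this]; exact hz
        · intro h; exact ⟨y, h, rfl⟩
      have hY'inv : ∀ x ∈ P, ∀ l ∈ Y', x * l * x⁻¹ ∈ Y' := by
        intro x hx y hy
        have hyK := hY'K hy
        have hy' := (hmemY' ⟨y, hyK⟩).mp hy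
        rw [hY] at hy'
        apply (hmemY' ⟨x * y * x⁻¹, hKinv x y hyK⟩).mpr
        rw [hY]
        intro l
        have h1 := hy' ⟨x⁻¹ * l * x⁻¹⁻¹, hKinv x⁻¹ l l.2⟩
        rw [mem_chKer] at h1 ⊢
        have h2 := hθinv x (⟨x⁻¹ * l * x⁻¹⁻¹, hKinv x⁻¹ l l.2⟩ * ⟨y, hyK⟩ * ⟨x⁻¹ * l * x⁻¹⁻¹, hKinv x⁻¹ l l.2⟩⁻¹ * ⟨y, hyK⟩⁻¹)
        rw [h1] at h2
        rw [← h2]
        congr 1
        apply Subtype.ext
        simp only [Subgroup.coe_mul, Subgroup.coe_inv]
        group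
      by_cases hYK : Y' = K
      · -- `θ` is linear
        have hlin : θ 1 = 1 := by
          apply Cfsg.Agent.H3.Extraspecial.one_of_commutator hθ
          intro z hz
          have hle : commutator K ≤ chKer θ hθc := by
            rw [commutator_def, Subgroup.commutator_le]
            intro a _ b _
            have hb : b ∈ Y := (hmemY' b).mp (by rw [hYK]; exact b.2)
            exact (hY b).mp hb a
          exact hle hz
        obtain ⟨f, hf'⟩ := IsChar.hom_units_of_one hθc hlin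
        obtain ⟨L, hL⟩ : ∃ L : Subgroup G, L = (chKer θ hθc).map K.subtype := ⟨_, rfl⟩
        have hLK : L ≤ K := by rw [hL]; rintro _ ⟨y, -, rfl⟩; exact y.2
        have hmemL : ∀ y : K, (y : G) ∈ L ↔ θ y = θ 1 := by
          intro y
          rw [hL]
          constructor
          · rintro ⟨z, hz, hzy⟩
            have : z = y := Subtype.ext hzy
            rw [← this]; exact hz
          · intro h; exact ⟨y, h, rfl⟩
        have hLne : L ≠ K := by
          intro h1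
          apply hθk
          rw [← hmemL, h1]
          exact hk₀
        have h2 := hprop L (lt_of_le_of_ne hLK hLne) (fun x hx l hl => by
          have hlK := hLK hl
          have h3 := (hmemL ⟨l, hlK⟩).mp hl
          apply (hmemL ⟨x * l * x⁻¹, hKinv x l hlK⟩).mpr
          rw [← h3]
          exact hθinv x ⟨l, hlK⟩)
        obtain ⟨x, hx, k', hk', hne⟩ := hnc
        apply hne
        apply hkk x hx k' hk'
        rw [hC]
        have h3 : x * k' * x⁻¹ * k'⁻¹ ∈ L := by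
          apply (hmemL ⟨x * k' * x⁻¹ * k'⁻¹, K.mul_mem (hKinv x k' hk') (K.inv_mem hk')⟩).mpr
          have h4 : (⟨x * k' * x⁻¹ * k'⁻¹, K.mul_mem (hKinv x k' hk') (K.inv_mem hk')⟩ : K) =
              ⟨x * k' * x⁻¹, hKinv x k' hk'⟩ * (⟨k', hk'⟩ : K)⁻¹ := rfl
          have h5 := hθinv x ⟨k', hk'⟩
          have h6 : f ⟨x * k' * x⁻¹, hKinv x k' hk'⟩ = f ⟨k', hk'⟩ := by
            apply Units.ext
            rw [← hf', ← hf']
            exact h5
          rw [h4, hf', map_mul, map_inv, h6, mul_inv_cancel, hf', map_one]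
        exact ⟨hLK h3, fun y hy => h2 y hy _ h3⟩
      · have h2 := hprop Y' (lt_of_le_of_ne hY'K hYK) hY'inv
        apply hkC
        rw [hC]
        exact ⟨k.2, fun x hx => h2 x hx k ((hmemY' k).mpr hkY)⟩
    -- the commutator is central
    obtain ⟨z, hz⟩ : ∃ z : K, z = l * k * l⁻¹ * k⁻¹ := ⟨_, rfl⟩
    have hzC : (z : G) ∈ C := by
      rw [hz]
      exact hcomm l l.2 k k.2
    have hzcen : z ∈ Subgroup.center K := by
      rw [Subgroup.mem_center_iff]
      intro g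
      exact Subtype.ext (hCc z hzC g g.2).symm
    obtain ⟨c, -, hc⟩ := IsIrr.central hθ hzcen
    have h1 : θ (k * z) = θ k := by
      have h2 : k * z = z * k := (Subgroup.mem_center_iff.mp hzcen k)
      rw [h2, hz]
      have h3 : l * k * l⁻¹ * k⁻¹ * k = l * k * l⁻¹ := by group
      rw [h3]
      exact IsIrr.isClass hθ k l
    have h2 : θ z = c * θ 1 := by
      have := hc 1
      rwa [one_mul] at this
    rw [hc k] at h1
    have h3 : (c - 1) * θ k = 0 := by linear_combination h1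
    rcases mul_eq_zero.mp h3 with h4 | h4
    · exfalso
      apply hl
      rw [← hz, h2, sub_eq_zero.mp h4, one_mul]
    · exact h4
  -- (i)
  have hCcard : Nat.card C * d ^ 2 = Nat.card K := by
    have h1 := nsq_irr hθ
    rw [← Finset.sum_filter_add_sum_filter_not Finset.univ (fun k : K => (k : G) ∈ C)] at h1
    rw [Finset.sum_eq_zero (s := Finset.univ.filter (fun k : K => ¬ (k : G) ∈ C)) (fun k hk => by
      rw [hzero k (Finset.mem_filter.mp hk).2]; simp), add_zero] at h1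
    have h2 : ∀ k ∈ Finset.univ.filter (fun k : K => (k : G) ∈ C), ‖θ k‖ ^ 2 = (d : ℝ) ^ 2 := by
      intro k hk
      have hkC := (Finset.mem_filter.mp hk).2
      have hkcen : k ∈ Subgroup.center K := by
        rw [Subgroup.mem_center_iff]
        intro g
        exact Subtype.ext (hCc k hkC g g.2).symm
      have := central_norm hθ hkcen 1
      rw [one_mul, hd, Complex.norm_natCast] at this
      rw [this]
    rw [Finset.sum_congr rfl h2, Finset.sum_const, nsmul_eq_mul] at h1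
    have h3 : (Finset.univ.filter (fun k : K => (k : G) ∈ C)).card = Nat.card C := by
      have hCK : C ≤ K := fun c hc => ((hC c).mp hc).1
      rw [← Nat.card_congr (Subgroup.subgroupOfEquivOfLe hCK).toEquiv, Nat.card_eq_fintype_card, Fintype.card_subtype]
      rfl
    rw [h3] at h1
    exact_mod_cast h1
  -- (j)
  have hmod : Nat.card K ≡ Nat.card C [MOD p] := by
    let _ : MulAction P K :=
      { smul := fun x k => ⟨(x : G) * k * (x : G)⁻¹, hKinv x k k.2⟩
        one_smul := fun k => by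
          apply Subtype.ext
          change ((1 : P) : G) * k * ((1 : P) : G)⁻¹ = k
          simp
        mul_smul := fun a b k => by
          apply Subtype.ext
          change ((a * b : P) : G) * k * ((a * b : P) : G)⁻¹ = (a : G) * ((b : G) * k * (b : G)⁻¹) * (a : G)⁻¹
          rw [Subgroup.coe_mul]; group }
    have h1 := hP.card_modEq_card_fixedPoints K
    have h2 : Nat.card (MulAction.fixedPoints P K) = Nat.card C := by
      apply Nat.card_congr
      refine ⟨fun k => ⟨k.1, (hC _).mpr ⟨k.1.2, fun x hx => ?_⟩⟩, fun c => ⟨⟨c, ((hC _).mp c.2).1⟩, fun x => ?_⟩,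
        fun _ => rfl, fun _ => rfl⟩
      · have h3 : (x : G) * k.1 * (x : G)⁻¹ = k.1 := congrArg Subtype.val (k.2 ⟨x, hx⟩)
        exact mul_inv_eq_iff_eq_mul.mp h3
      · apply Subtype.ext
        change (x : G) * c * (x : G)⁻¹ = c
        rw [((hC _).mp c.2).2 x x.2, mul_inv_cancel_right]
    rwa [h2] at h1
  -- (k)
  rw [← hCcard] at hmod
  have hpC : ¬ p ∣ Nat.card C := by
    intro h1
    apply hpK
    rw [← hCcard]
    exact h1.mul_right _
  have h1 : (p : ℤ) ∣ (d : ℤ) ^ 2 - 1 := by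
    have h2 := (Nat.modEq_iff_dvd.mp hmod)
    push_cast at h2
    have h3 : (p : ℤ) ∣ (Nat.card C : ℤ) * ((d : ℤ) ^ 2 - 1) := by
      have h4 : (Nat.card C : ℤ) * ((d : ℤ) ^ 2 - 1) = -((Nat.card C : ℤ) - Nat.card C * (d : ℤ) ^ 2) := by ring
      rw [h4]
      exact (dvd_neg).mpr h2
    rcases (Nat.prime_iff_prime_int.mp hp).dvd_or_dvd h3 with h4 | h4
    · exact absurd (by exact_mod_cast h4) hpC
    · exact h4
  have h2 : (d : ℤ) ^ 2 - 1 = ((d : ℤ) - 1) * (d + 1) := by ring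
  rw [h2] at h1
  have hd1 : d ≠ 1 := by
    rintro rfl
    rw [one_pow, mul_one] at hCcard
    have hCK : C ≤ K := fun c hc => ((hC c).mp hc).1
    have h3 : C = K := Subgroup.eq_of_le_of_card_ge hCK hCcard.ge
    obtain ⟨x, hx, k, hk, hne⟩ := hnc
    rw [← h3] at hk
    exact hne (((hC k).mp hk).2 x hx)
  have hdp : d + 1 = p := by
    rcases (Nat.prime_iff_prime_int.mp hp).dvd_or_dvd h1 with h3 | h3
    · have := Int.le_of_dvd (by omega) h3
      omega
    · have := Int.le_of_dvd (by omega) h3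
      omega
  have hdn : d = n := by omega
  have hξd : dd ξ = n := by
    have h3 : d ≤ dd ξ := by
      have h5 : 0 < e * (inertia hK θ).index := by
        rcases Nat.eq_zero_or_pos (e * (inertia hK θ).index) with h2 | h2
        · rw [h2, zero_mul] at hcd'
          have := hdd0 ξ
          omega
        · exact h2
      have h6 : 1 * d ≤ e * (inertia hK θ).index * d := Nat.mul_le_mul_right _ h5
      omega
    omega
  refine ⟨by omega, ?_, ?_⟩
  · have h3 : classInner χ (ξ : G → ℂ) ≠ 0 := by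
      rw [hm]; exact_mod_cast hξm
    have h4 := IsChar.eq_of_degree hχ ξ.2 h3 (by rw [hχn, hdd, hξd])
    rw [h4]; exact ξ.2
  · obtain ⟨d', _, hd', hd'd⟩ := IsIrr.dvd_card hθ
    rw [hd] at hd'
    have h3 : d = d' := by exact_mod_cast hd'
    rw [← hdn, h3]; exact hd'd

end Fin

section Struct

variable {G : Type*} [Group G] [Fintype G] {p : ℕ} [hp : Fact p.Prime] (P : Sylow p G)
  (hab : ∀ a ∈ P, ∀ b ∈ P, a * b = b * a) (hNS : ∀ K : Subgroup G, K ≠ ⊤ → NS p K)
  (hnn : ¬ (P : Subgroup G).Normal)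

include hab in
theorem sup_normal (hsolv : IsPSolvable p G) : ((P : Subgroup G) ⊔ pPrimeCore p G).Normal := by
  obtain ⟨K, hK⟩ : ∃ K : Subgroup G, K = pPrimeCore p G := ⟨_, rfl⟩
  have hKn : K.Normal := by rw [hK]; exact H1.Nilp.pPrimeCore_normal p
  have hq0 : pPrimeCore p (G ⧸ K) = ⊥ := by subst hK; exact H11.Cores.pPrimeCore_quotient p
  have hqs : IsPSolvable p (G ⧸ K) := H22.PSolv.isPSolvable_quotient K hsolv
  have h1 := H22.PSolv.centralizer_pCore_le hqs hq0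
  have hQp : IsPGroup p (pCore p (G ⧸ K)) := H1.Nilp.pCore_isPGroup p
  have hQn : (pCore p (G ⧸ K)).Normal := H1.Nilp.pCore_normal p
  have h2 := DegLt.le_sylow_of_normal hQp (P.mapSurjective (QuotientGroup.mk'_surjective K))
  rw [Sylow.coe_mapSurjective] at h2
  have h3 : (P : Subgroup G).map (QuotientGroup.mk' K) ≤ pCore p (G ⧸ K) := by
    refine le_trans ?_ h1
    rintro _ ⟨x, hx, rfl⟩
    rw [Subgroup.mem_centralizer_iff]
    intro y hy
    obtain ⟨z, hz, rfl⟩ := h2 hy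
    rw [← map_mul, hab z hz x hx, map_mul]
  have h4 : (P : Subgroup G).map (QuotientGroup.mk' K) = pCore p (G ⧸ K) := le_antisymm h3 h2
  have h5 := hQn.comap (QuotientGroup.mk' K)
  rw [← h4, Subgroup.comap_map_eq, QuotientGroup.ker_mk'] at h5
  rw [← hK]; exact h5

include hab hNS hnn in
theorem struct (hsolv : IsPSolvable p G) : ∃ (K : Subgroup G) (q : ℕ), q.Prime ∧ IsPGroup q K ∧ K.Normal ∧
    ¬ p ∣ Nat.card K ∧ (∃ j, K.index = p ^ j) ∧ ⁅K, K⁆ ≠ K ∧
    (∀ L : Subgroup G, L < K → (∀ x ∈ (P : Subgroup G), ∀ l ∈ L, x * l * x⁻¹ ∈ L) → ∀ x ∈ (P : Subgroup G), ∀ l ∈ L, x * l = l * x) ∧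
    (∃ x ∈ (P : Subgroup G), ∃ k ∈ K, x * k ≠ k * x) := by
  classical
  have hsup := sup_normal P hab hsolv
  obtain ⟨K, hK⟩ : ∃ K : Subgroup G, K = pPrimeCore p G := ⟨_, rfl⟩
  have hKn : K.Normal := by rw [hK]; exact H1.Nilp.pPrimeCore_normal p
  have hKc : (Nat.card K).Coprime p := by rw [hK]; exact H1.Nilp.pPrimeCore_coprime p
  have hpK : ¬ p ∣ Nat.card K := hp.out.coprime_iff_not_dvd.mp hKc.symm
  rw [← hK] at hsup
  have hPK : (P : Subgroup G) ⊔ K = ⊤ := step3 P hNS hnn _ hsup le_sup_left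
  have hmem : ∀ g : G, ∃ x ∈ (P : Subgroup G), ∃ k ∈ K, x * k = g := by
    intro g
    have : g ∈ (P : Subgroup G) ⊔ K := by rw [hPK]; trivial
    exact Subgroup.mem_sup_of_normal_right.mp this
  have hpel : ∀ x ∈ P, x ∈ K → x = 1 := by
    intro x hx hxK
    obtain ⟨a, ha⟩ := pel_of_mem P hx
    have h3 : (p ^ a).Coprime (Nat.card K) := Nat.Coprime.pow_left a hKc.symm
    have h4 : orderOf x ∣ Nat.card K := by
      have := orderOf_dvd_natCard (⟨x, hxK⟩ : K)
      rwa [Subgroup.orderOf_mk] at this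
    exact orderOf_eq_one_iff.mp (Nat.eq_one_of_dvd_coprimes h3 (orderOf_dvd_of_pow_eq_one ha) h4)
  have hindex : ∃ j, K.index = p ^ j := by
    have h1 : IsPGroup p (G ⧸ K) := by
      intro y
      obtain ⟨g, rfl⟩ := QuotientGroup.mk'_surjective K y
      obtain ⟨x, hx, k, hk, rfl⟩ := hmem g
      obtain ⟨a, ha⟩ := pel_of_mem P hx
      refine ⟨a, ?_⟩
      have h2 : (QuotientGroup.mk' K) k = 1 := (QuotientGroup.eq_one_iff k).mpr hk
      rw [map_mul, h2, mul_one, ← map_pow, ha, map_one]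
    obtain ⟨j, hj⟩ := IsPGroup.iff_card.mp h1
    exact ⟨j, by rw [Subgroup.index_eq_card, hj]⟩
  have hprop : ∀ L : Subgroup G, L < K → (∀ x ∈ (P : Subgroup G), ∀ l ∈ L, x * l * x⁻¹ ∈ L) →
      ∀ x ∈ (P : Subgroup G), ∀ l ∈ L, x * l = l * x := by
    intro L hLK hinv x hx l hl
    obtain ⟨T, hT⟩ : ∃ T : Subgroup G, ∀ g, g ∈ T ↔ ∃ x ∈ (P : Subgroup G), ∃ l ∈ L, x * l = g := by
      refine ⟨{ carrier := {g | ∃ x ∈ (P : Subgroup G), ∃ l ∈ L, x * l = g}
                mul_mem' := ?_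
                one_mem' := ⟨1, one_mem _, 1, one_mem _, by simp⟩
                inv_mem' := ?_ }, fun g => Iff.rfl⟩
      · rintro _ _ ⟨x, hx, l, hl, rfl⟩ ⟨y, hy, m, hm, rfl⟩
        refine ⟨x * y, mul_mem hx hy, y⁻¹ * l * y⁻¹⁻¹ * m, mul_mem (hinv y⁻¹ (inv_mem hy) l hl) hm, ?_⟩
        group
      · rintro _ ⟨x, hx, l, hl, rfl⟩
        refine ⟨x⁻¹, inv_mem hx, x * l⁻¹ * x⁻¹, hinv x hx l⁻¹ (inv_mem hl), ?_⟩
        group
    have hTt : T ≠ ⊤ := by
      intro h1
      apply hLK.not_ge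
      intro k hk
      obtain ⟨y, hy, m, hm, hym⟩ := (hT k).mp (by rw [h1]; trivial)
      have h2 : y = 1 := by
        apply hpel y hy
        have : y = k * m⁻¹ := by rw [← hym]; group
        rw [this]
        exact mul_mem hk (inv_mem (hLK.le hm))
      rw [← hym, h2, one_mul]
      exact hm
    have hPT : (P : Subgroup G) ≤ T := fun y hy => (hT y).mpr ⟨y, hy, 1, one_mem _, mul_one y⟩
    have hlT : l ∈ T := (hT l).mpr ⟨1, one_mem _, l, hl, one_mul l⟩
    have h2 : l * x⁻¹ * l⁻¹ ∈ P := (hNS T hTt).mem_sylow P hPT (mul_mem (mul_mem hlT (inv_mem (hPT hx))) (inv_mem hlT))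
      (pel_conj (pel_of_mem P (inv_mem hx)) l)
    have h3 : x * l * x⁻¹ * l⁻¹ ∈ P := by
      have : x * l * x⁻¹ * l⁻¹ = x * (l * x⁻¹ * l⁻¹) := by group
      rw [this]; exact mul_mem hx h2
    have h4 : x * l * x⁻¹ * l⁻¹ ∈ K := mul_mem (hLK.le (hinv x hx l hl)) (inv_mem (hLK.le hl))
    have h5 := hpel _ h3 h4
    have h6 : x * l * x⁻¹ = l := mul_inv_eq_one.mp h5
    calc x * l = x * l * x⁻¹ * x := by group
      _ = l * x := by rw [h6]
  have hnc : ∃ x ∈ (P : Subgroup G), ∃ k ∈ K, x * k ≠ k * x := by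
    by_contra hcon
    push Not at hcon
    apply hnn
    refine ⟨fun y hy g => ?_⟩
    obtain ⟨x, hx, k, hk, rfl⟩ := hmem g
    have h1 : x * k * y * (x * k)⁻¹ = y := by
      have e1 := hcon y hy k hk
      have e2 := hab x hx y hy
      calc x * k * y * (x * k)⁻¹ = x * (k * y) * k⁻¹ * x⁻¹ := by group
        _ = x * (y * k) * k⁻¹ * x⁻¹ := by rw [e1]
        _ = (x * y) * x⁻¹ := by group
        _ = (y * x) * x⁻¹ := by rw [e2]
        _ = y := by group
    rw [h1]; exact hy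
  have hindex' := hindex
  obtain ⟨j, hj⟩ := hindex
  obtain ⟨x₀, hx₀, k₀, hk₀, hne₀⟩ := hnc
  have hKb : K ≠ ⊥ := by
    intro h1
    rw [h1, Subgroup.mem_bot] at hk₀
    rw [hk₀] at hne₀
    simp at hne₀
  obtain ⟨C, hC⟩ : ∃ C : Subgroup G, ∀ c, c ∈ C ↔ c ∈ K ∧ ∀ x ∈ P, x * c = c * x :=
    ⟨K ⊓ Subgroup.centralizer (P : Set G), fun c => by
      rw [Subgroup.mem_inf, Subgroup.mem_centralizer_iff]; rfl⟩
  have hCK : C ≤ K := fun c hc => ((hC c).mp hc).1
  obtain ⟨q, hq, hqK⟩ : ∃ q : ℕ, q.Prime ∧ IsPGroup q K := by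
    by_contra hcon
    push Not at hcon
    have hall : Nat.card K ∣ Nat.card C := by
      rw [← Nat.factorization_prime_le_iff_dvd Nat.card_pos.ne' Nat.card_pos.ne']
      intro q hq
      obtain ⟨L, hLK, hLinv, hLq, hLc⟩ := exists_inv_sylow P hKn hpK hj hq
      have hlt : L < K := by
        rcases hLK.lt_or_eq with h1 | h1
        · exact h1
        · exact absurd (h1 ▸ hLq) (hcon q hq)
      have hLC : L ≤ C := fun l hl => (hC l).mpr ⟨hLK hl, fun x hx => hprop L hlt hLinv x hx l hl⟩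
      rw [← hq.pow_dvd_iff_le_factorization Nat.card_pos.ne', ← hLc]
      exact Subgroup.card_dvd_of_le hLC
    have hCKe : C = K := Subgroup.eq_of_le_of_card_ge hCK (Nat.le_of_dvd Nat.card_pos hall)
    apply hne₀
    rw [← hCKe] at hk₀
    exact ((hC k₀).mp hk₀).2 x₀ hx₀
  exact ⟨K, q, hq, hqK, hKn, hpK, hindex', comm_ne_of_qgroup hq hqK hKb, hprop, x₀, hx₀, k₀, hk₀, hne₀⟩

end Struct

universe u

theorem main {p n : ℕ} [hp : Fact p.Prime] (hn : n + 1 ≤ p) : ∀ (m : ℕ) (G : Type u) [Group G] [Fintype G], Nat.card G = m →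
    ∀ (χ : G → ℂ), IsCharacter G χ → χ 1 = n → (∀ g, χ g = χ 1 → g = 1) → IsPSolvable p G →
    ¬ NS p (⊤ : Subgroup G) → n + 1 = p ∧ (∃ k, n = 2 ^ k) ∧ IsIrrCharacter G χ := by
  intro m
  induction m using Nat.strong_induction_on with
  | _ m ih =>
  intro G _ _ hm χ hχ hχn hf hsolv hnot
  classical
  have : Fintype (IrrCharacter G) := Fintype.ofFinite _
  obtain ⟨P⟩ : Nonempty (Sylow p G) := inferInstance
  have hnn : ¬ (P : Subgroup G).Normal := fun h => hnot (NS_top_of_normal P h)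
  by_cases hNS : ∀ K : Subgroup G, K ≠ ⊤ → NS p K
  swap
  · push Not at hNS
    obtain ⟨K, hK, hKNS⟩ := hNS
    have : Fintype K := Fintype.ofFinite _
    have hlt : Nat.card K < m := by
      rw [← hm]
      exact lt_of_le_of_ne (Nat.card_le_card_of_injective _ K.subtype_injective)
        (fun h => hK (Subgroup.card_eq_iff_eq_top K |>.mp h))
    have hnotK : ¬ NS p (⊤ : Subgroup K) := by
      intro h1
      apply hKNS
      intro x hx y hy ⟨a, ha⟩ ⟨b, hb⟩
      obtain ⟨c, hc⟩ := h1 ⟨x, hx⟩ (Subgroup.mem_top _) ⟨y, hy⟩ (Subgroup.mem_top _) ⟨a, Subtype.ext (by push_cast; exact ha)⟩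
        ⟨b, Subtype.ext (by push_cast; exact hb)⟩
      exact ⟨c, congrArg Subtype.val hc⟩
    obtain ⟨h1, h2, h3⟩ := ih _ hlt K rfl (fun k : K => χ k) (IsChar.res hχ K) hχn
      (fun k hk => Subtype.ext (hf k hk)) (H22.PSolv.isPSolvable_subgroup K hsolv) hnotK
    refine ⟨h1, h2, ?_⟩
    exact Cfsg.Agent.H3.Triple.irr_of_res (B := K) hχ h3
  have hab : ∀ a ∈ P, ∀ b ∈ P, a * b = b * a := by
    intro a ha b hb
    have h1 := Cfsg.Agent.H3.SmallDeg.sylow_small P hχ hχn (by omega) ha hb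
    have h2 := hf _ h1
    have h3 : a * b * a⁻¹ = b := mul_inv_eq_one.mp h2
    calc a * b = a * b * a⁻¹ * a := by group
      _ = b * a := by rw [h3]
  obtain ⟨K, q, hq, hqK, hKn, hpK, hindex, hcomm, hprop, hnc⟩ := struct P hab hNS hnn hsolv
  obtain ⟨h1, h2, h3⟩ := fin_eq hp.out hn hχ hχn hf (P : Subgroup G) P.2 K hKn hpK hindex hcomm hprop hnc
  refine ⟨h1, ?_, h2⟩
  have hqF := Fact.mk hq
  obtain ⟨a, ha⟩ := IsPGroup.iff_card.mp hqK
  rw [ha] at h3
  obtain ⟨k, -, hk⟩ := (Nat.dvd_prime_pow hq).mp h3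
  rcases Nat.eq_zero_or_pos k with rfl | hk0
  · exact ⟨0, by rw [hk]; simp⟩
  · rcases hq.eq_two_or_odd' with h4 | h4
    · rw [h4] at hk; exact ⟨k, hk⟩
    · exfalso
      have h5 : Odd n := by rw [hk]; exact h4.pow
      have h6 : Even p := by rw [← h1]; exact h5.add_one
      have h7 : p = 2 := (hp.out.even_iff).mp h6
      have h8 : n = 1 := by omega
      have h9 : 1 < q ^ k := Nat.one_lt_pow (by omega) hq.one_lt
      omega

end Cfsg.Agent.H3.PSolvDeg
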