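import Mathlib
import Cfsg.Prelude.Def_Characters
import Cfsg.Agent.H3_Feit8
import Cfsg.Agent.H3_NilpSplit
import Cfsg.Agent.S0169

/-!
# Groups all of whose irreducible degrees are powers of `p`
-/

set_option autoImplicit false

open scoped ComplexConjugate

namespace Cfsg.Agent.H3.PowDeg

open Cfsg Cfsg.Agent.H3.CharBasic Cfsg.Agent.H3.CharIrr Cfsg.Agent.H3.CharInt Cfsg.Agent.H3.CharCalc
  Cfsg.Agent.H3.CharComplete Cfsg.Agent.H3.CharInd Cfsg.Agent.H3.CharMult Cfsg.Agent.H3.CharQuot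
  Cfsg.Agent.H3.Clifford Cfsg.Agent.H3.Feit

universe u

/-- degrees of characters of normal subgroups -/
theorem normal_degree {G : Type*} [Group G] [Fintype G] (N : Subgroup G) (hN : N.Normal) {θ : N → ℂ}
    (hθ : IsIrrCharacter N θ) : ∃ (χ : G → ℂ) (n d : ℕ), IsIrrCharacter G χ ∧ χ 1 = n ∧ θ 1 = d ∧ d ∣ n := by
  classical
  have : Fintype N := Fintype.ofFinite _
  obtain ⟨χ, hχ, hne⟩ := exists_constituent_ind (H := N) hθ
  rw [frobenius N _ _ (IsIrr.isClass hχ)] at hne
  have hne' : classInner (fun n : N => χ n) θ ≠ 0 := by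
    rw [← ci_conj_symm]
    intro h
    exact hne ((map_eq_zero _).mp h)
  obtain ⟨n, hn, hn'⟩ := IsIrr.one_eq_nat hχ
  obtain ⟨d, hd, hd'⟩ := IsIrr.one_eq_nat hθ
  obtain ⟨m, hm⟩ := ci_char_nat (IsChar.res (IsIrr.isCharacter hχ) N) (IsIrr.isCharacter hθ)
  refine ⟨χ, n, d, hχ, hn', hd', ?_⟩
  have h1 := clifford_degree hN hχ hθ hne'
  rw [hn', hm, hd'] at h1
  exact ⟨m * (inertia hN θ).index, by rw [mul_comm]; exact_mod_cast h1⟩

theorem exists_compl {p : ℕ} (hp : p.Prime) : ∀ (n : ℕ) (G : Type u) [Group G] [Finite G], Nat.card G = n →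
    (∀ χ : IrrCharacter G, ∃ k : ℕ, (χ : G → ℂ) 1 = (p : ℂ) ^ k) →
    ∃ A : Subgroup G, A.Normal ∧ (∀ a ∈ A, ∀ b ∈ A, a * b = b * a) ∧ Nat.Coprime (Nat.card A) p ∧
      ∃ k : ℕ, A.index = p ^ k := by
  intro n
  induction n using Nat.strong_induction_on with
  | _ n ih =>
  intro G _ _ hn hdeg
  classical
  have : Fintype G := Fintype.ofFinite _
  have : Fintype (IrrCharacter G) := Fintype.ofFinite _
  have hp1 : (p : ℂ) ≠ 0 := by exact_mod_cast hp.ne_zero
  by_cases hpG : p ∣ (commutator G).index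
  · -- reduction
    obtain ⟨j, m, hpm, hjm⟩ := Nat.exists_eq_pow_mul_and_not_dvd (n := (commutator G).index)
      (Subgroup.FiniteIndex.index_ne_zero) p hp.ne_one
    have hj : j ≠ 0 := by
      rintro rfl
      rw [pow_zero, one_mul] at hjm
      rw [hjm] at hpG
      exact hpm hpG
    have hcop : m.Coprime (p ^ j) := (Nat.Coprime.pow_left j ((Nat.Prime.coprime_iff_not_dvd hp).mpr hpm)).symm
    have hnil : Group.IsNilpotent (Abelianization G) := inferInstance
    have hcA : Nat.card (Abelianization G) = m * p ^ j := by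
      change (commutator G).index = _
      rw [hjm, mul_comm]
    obtain ⟨A', -, hA'c, -⟩ := Cfsg.Agent.H3.NilpSplit.nilp_hall (E := Abelianization G) m (p ^ j) hcA hcop
    obtain ⟨N, hN⟩ : ∃ N : Subgroup G, N = A'.comap (Abelianization.of) := ⟨_, rfl⟩
    have hNn : N.Normal := by
      rw [hN]
      have : A'.Normal := inferInstance
      exact this.comap _
    have hNi : N.index = p ^ j := by
      have hs : Function.Surjective (Abelianization.of (G := G)) := QuotientGroup.mk'_surjective _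
      rw [hN, Subgroup.index_comap_of_surjective _ hs]
      have h1 := A'.card_mul_index
      rw [hA'c, hcA] at h1
      have hm0 : 0 < m := by
        rcases Nat.eq_zero_or_pos m with h2 | h2
        · exfalso
          rw [h2] at hpm
          exact hpm (dvd_zero p)
        · exact h2
      exact Nat.eq_of_mul_eq_mul_left hm0 h1
    have hlt : Nat.card N < n := by
      have h1 := N.card_mul_index
      rw [hNi, hn] at h1
      have h2 : 1 < p ^ j := Nat.one_lt_pow hj hp.one_lt
      have h3 : 0 < Nat.card N := Nat.card_pos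
      nlinarith
    have : Fintype N := Fintype.ofFinite _
    have hNd : ∀ θ : IrrCharacter N, ∃ k : ℕ, (θ : N → ℂ) 1 = (p : ℂ) ^ k := by
      intro θ
      obtain ⟨χ, a, d, hχ, ha, hd, hda⟩ := normal_degree N hNn θ.2
      obtain ⟨k, hk⟩ := hdeg ⟨χ, hχ⟩
      have hk' : χ 1 = (p : ℂ) ^ k := hk
      rw [ha] at hk'
      have h1 : a = p ^ k := by exact_mod_cast hk'
      rw [h1] at hda
      obtain ⟨i, -, hi⟩ := (Nat.dvd_prime_pow hp).mp hda
      exact ⟨i, by rw [hd, hi]; push_cast; rfl⟩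
    obtain ⟨A, hAn, hAc, hAp, k, hk⟩ := ih _ hlt N rfl hNd
    -- elements of `A`
    have hAmem : ∀ x : N, x ∈ A ↔ (orderOf x).Coprime p := by
      intro x
      constructor
      · intro hx
        have h1 : orderOf (⟨x, hx⟩ : A) ∣ Nat.card A := orderOf_dvd_natCard _
        rw [Subgroup.orderOf_mk] at h1
        exact Nat.Coprime.coprime_dvd_left h1 hAp
      · intro hx
        have h1 : x ^ (p ^ k) ∈ A := by rw [← hk]; exact A.pow_index_mem x
        have h2 : (orderOf x).Coprime (p ^ k) := Nat.Coprime.pow_right k hx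
        obtain ⟨u, hu⟩ := exists_pow_eq_self_of_coprime h2.symm
        rw [← hu]
        exact A.pow_mem h1 u
    refine ⟨A.map N.subtype, ⟨?_⟩, ?_, ?_, k + j, ?_⟩
    · rintro _ ⟨x, hx, rfl⟩ g
      refine ⟨⟨g * x * g⁻¹, hNn.conj_mem x x.2 g⟩, (hAmem _).mpr ?_, rfl⟩
      have h1 := (hAmem x).mp hx
      have h2 : orderOf (⟨g * x * g⁻¹, hNn.conj_mem x x.2 g⟩ : N) = orderOf x := by
        rw [← Subgroup.orderOf_coe, ← Subgroup.orderOf_coe x]
        exact orderOf_injective (MulAut.conj g).toMonoidHom (MulAut.conj g).injective (x : G)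
      rw [h2]; exact h1
    · rintro _ ⟨x, hx, rfl⟩ _ ⟨y, hy, rfl⟩
      exact congrArg Subtype.val (hAc x hx y hy)
    · rw [Subgroup.card_map_of_injective N.subtype_injective]; exact hAp
    · rw [Subgroup.index_map_subtype, hk, hNi, pow_add]
  · -- `p` does not divide the order
    have hlin : ∀ χ : IrrCharacter G, (∀ z ∈ commutator G, (χ : G → ℂ) z = (χ : G → ℂ) 1) ∨
        ∃ k : ℕ, (χ : G → ℂ) 1 ^ 2 = (p : ℂ) * k := by
      intro χ
      obtain ⟨k, hk⟩ := hdeg χ
      rcases Nat.eq_zero_or_pos k with h0 | h0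
      · left
        rw [h0, pow_zero] at hk
        exact Cfsg.Agent.H3.Extraspecial.commutator_of_one (IsIrr.isCharacter χ.2) hk
      · right
        obtain ⟨i, rfl⟩ : ∃ i, k = i + 1 := ⟨k - 1, by omega⟩
        exact ⟨p ^ i * p ^ (i + 1), by rw [hk]; push_cast; ring⟩
    have h1 := sum_sq (G := G)
    have h2 := sum_sq_ker (commutator G) inferInstance
    rw [← Finset.sum_filter_add_sum_filter_not Finset.univ (fun χ : IrrCharacter G => ∀ n ∈ commutator G,
      (χ : G → ℂ) n = (χ : G → ℂ) 1), h2] at h1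
    have h3 : ∃ K : ℕ, ∑ χ ∈ Finset.univ.filter (fun χ : IrrCharacter G => ¬ ∀ n ∈ commutator G,
        (χ : G → ℂ) n = (χ : G → ℂ) 1), (χ : G → ℂ) 1 ^ 2 = (p : ℂ) * K := by
      choose! f hf using fun (χ : IrrCharacter G) (h : ¬ ∀ n ∈ commutator G, (χ : G → ℂ) n = (χ : G → ℂ) 1) =>
        (hlin χ).resolve_left h
      refine ⟨∑ χ ∈ Finset.univ.filter (fun χ : IrrCharacter G => ¬ ∀ n ∈ commutator G,
        (χ : G → ℂ) n = (χ : G → ℂ) 1), f χ, ?_⟩
      push_cast
      rw [Finset.mul_sum]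
      exact Finset.sum_congr rfl (fun χ hχ => hf χ (Finset.mem_filter.mp hχ).2)
    obtain ⟨K, hK⟩ := h3
    rw [hK] at h1
    have h4 : (commutator G).index + p * K = Nat.card G := by exact_mod_cast h1
    have hpn : ¬ p ∣ Nat.card G := by
      intro h5
      rw [← h4] at h5
      exact hpG ((Nat.dvd_add_left (dvd_mul_right p K)).mp h5)
    have hone : ∀ χ : IrrCharacter G, (χ : G → ℂ) 1 = 1 := by
      intro χ
      obtain ⟨k, hk⟩ := hdeg χ
      obtain ⟨d, hd, hd1, hd2⟩ := IsIrr.dvd_card χ.2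
      rw [hk] at hd1
      have h5 : p ^ k = d := by exact_mod_cast hd1
      rcases Nat.eq_zero_or_pos k with h0 | h0
      · rw [hk, h0, pow_zero]
      · exfalso
        apply hpn
        rw [← h5] at hd2
        exact (dvd_pow_self p h0.ne').trans hd2
    have htriv : ∀ z ∈ commutator G, z = 1 := by
      intro z hz
      by_contra hz1
      have h5 := sum_one_mul z
      rw [if_neg hz1] at h5
      have h6 : ∀ χ : IrrCharacter G, (χ : G → ℂ) 1 * (χ : G → ℂ) z = 1 := by
        intro χ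
        rw [Cfsg.Agent.H3.Extraspecial.commutator_of_one (IsIrr.isCharacter χ.2) (hone χ) z hz, hone, one_mul]
      rw [Finset.sum_congr rfl (fun χ _ => h6 χ), Finset.sum_const, nsmul_eq_mul, mul_one] at h5
      have h7 : (Finset.univ : Finset (IrrCharacter G)).card = 0 := by exact_mod_cast h5
      rw [Finset.card_eq_zero] at h7
      have : (⟨fun _ => 1, isIrr_one⟩ : IrrCharacter G) ∈ (Finset.univ : Finset (IrrCharacter G)) := Finset.mem_univ _
      rw [h7] at this
      exact absurd this (Finset.notMem_empty _)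
    refine ⟨⊤, inferInstance, ?_, ?_, 0, by rw [Subgroup.index_top, pow_zero]⟩
    · intro a _ b _
      have h5 := htriv (a * b * a⁻¹ * b⁻¹) (Subgroup.commutator_mem_commutator (Subgroup.mem_top a) (Subgroup.mem_top b))
      calc a * b = (a * b * a⁻¹ * b⁻¹) * (b * a) := by group
        _ = b * a := by rw [h5, one_mul]
    · rw [Subgroup.card_top]
      exact ((Nat.Prime.coprime_iff_not_dvd hp).mpr hpn).symm

/-- Itô -/
theorem degree_pow {p : ℕ} (hp : p.Prime) {G : Type*} [Group G] [Finite G] (A : Subgroup G) (hA : A.Normal)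
    (hAc : ∀ a ∈ A, ∀ b ∈ A, a * b = b * a) {k : ℕ} (hk : A.index = p ^ k) (χ : IrrCharacter G) :
    ∃ k : ℕ, (χ : G → ℂ) 1 = (p : ℂ) ^ k := by
  obtain ⟨χ, n, ρ, hρ, rfl⟩ := χ
  have h1 := Cfsg.Agent.S0169.result ρ A hAc
  rw [hk] at h1
  obtain ⟨i, -, hi⟩ := (Nat.dvd_prime_pow hp).mp h1
  refine ⟨i, ?_⟩
  change ρ.character 1 = _
  rw [Representation.char_one, hi]
  push_cast; rfl

end Cfsg.Agent.H3.PowDeg
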