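import Mathlib
import Cfsg.Prelude.Def_Characters
import Cfsg.Prelude.Def_Blocks
import Cfsg.Agent.H3_CharMult
import Cfsg.Agent.H3_CharInt
import Cfsg.Agent.H3_CharQuot
import Cfsg.Agent.H5_Dk1

/-!
# Primitive linear groups of degree two
-/

set_option autoImplicit false

open scoped ComplexConjugate

namespace Cfsg.Agent.H3.PrimTwo

open Cfsg Cfsg.Agent.H3.CharBasic Cfsg.Agent.H3.CharIrr Cfsg.Agent.H3.CharComplete
  Cfsg.Agent.H3.CharMult Cfsg.Agent.H3.CharInd Cfsg.Agent.H3.CharInt Cfsg.Agent.H3.CharQuot Submodule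

section Lines

variable {G : Type*} [Group G] [Finite G] {V : Type*} [AddCommGroup V] [Module ℂ V] [FiniteDimensional ℂ V]
  (ρ : Representation ℂ G V)

/-- being a line -/
def IsLine (L : Submodule ℂ V) : Prop := ∃ u : V, u ≠ 0 ∧ L = ℂ ∙ u

omit [Finite G] [FiniteDimensional ℂ V] in
theorem rho_inj (g : G) : Function.Injective (ρ g) := by
  intro a b h
  have h1 : ρ g⁻¹ (ρ g a) = ρ g⁻¹ (ρ g b) := by rw [h]
  rwa [← Module.End.mul_apply, ← Module.End.mul_apply, ← map_mul, inv_mul_cancel, map_one] at h1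

omit [Finite G] [FiniteDimensional ℂ V] in
theorem isLine_map {L : Submodule ℂ V} (hL : IsLine L) (g : G) : IsLine (L.map (ρ g)) := by
  obtain ⟨u, hu, rfl⟩ := hL
  refine ⟨ρ g u, fun h => hu (rho_inj ρ g (by rw [h, map_zero])), ?_⟩
  rw [Submodule.map_span, Set.image_singleton]

omit [Finite G] [FiniteDimensional ℂ V] in
theorem map_line_iff {u : V} (hu : u ≠ 0) (g : G) : (ℂ ∙ u).map (ρ g) = ℂ ∙ u ↔ ∃ γ : ℂ, ρ g u = γ • u := by
  constructor
  · intro h
    have h1 : ρ g u ∈ (ℂ ∙ u).map (ρ g) := ⟨u, mem_span_singleton_self u, rfl⟩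
    rw [h, mem_span_singleton] at h1
    obtain ⟨γ, hγ⟩ := h1
    exact ⟨γ, hγ.symm⟩
  · rintro ⟨γ, hγ⟩
    have hγ0 : γ ≠ 0 := by
      rintro rfl
      rw [zero_smul] at hγ
      exact hu (rho_inj ρ g (by rw [hγ, map_zero]))
    rw [Submodule.map_span, Set.image_singleton, hγ]
    exact span_singleton_smul_eq (IsUnit.mk0 _ hγ0) u

theorem line_eq {u v : V} (hu : u ≠ 0) (h : ∃ a : ℂ, u = a • v) : ℂ ∙ u = ℂ ∙ v := by
  obtain ⟨a, rfl⟩ := h
  have ha : a ≠ 0 := by rintro rfl; exact hu (zero_smul _ _)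
  exact span_singleton_smul_eq (IsUnit.mk0 _ ha) v

theorem two_lines (h2 : Module.finrank ℂ V = 2) (hf : Function.Injective ρ) {g : G} (hg : g ∉ Subgroup.center G) :
    ∃ A B : Submodule ℂ V, A ≠ B ∧ IsLine A ∧ IsLine B ∧ A.map (ρ g) = A ∧ B.map (ρ g) = B ∧
      ∀ L : Submodule ℂ V, IsLine L → L.map (ρ g) = L → L = A ∨ L = B := by
  obtain ⟨b, ζ, hb, -, -⟩ := exists_eigenbasis_rep ρ g (orderOf g) (orderOf_pos g).ne' (pow_orderOf_eq_one g)
  let e := finCongr h2
  let b' := b.reindex e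
  have hb' : ∀ i, ρ g (b' i) = ζ (e.symm i) • b' i := by
    intro i
    have := hb 1 (e.symm i)
    rw [zpow_one, zpow_one] at this
    simpa [b'] using this
  have hne : ζ (e.symm 0) ≠ ζ (e.symm 1) := by
    intro heq
    apply hg
    have h1 : ρ g = ζ (e.symm 0) • LinearMap.id := by
      apply b'.ext
      intro i
      fin_cases i
      · exact hb' 0
      · have := hb' 1
        rw [← heq] at this
        exact this
    rw [Subgroup.mem_center_iff]
    intro x
    apply hf
    rw [map_mul, map_mul, h1]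
    ext v
    simp
  have h0 : b' 0 ≠ 0 := b'.ne_zero 0
  have h1 : b' 1 ≠ 0 := b'.ne_zero 1
  refine ⟨ℂ ∙ b' 0, ℂ ∙ b' 1, ?_, ⟨_, h0, rfl⟩, ⟨_, h1, rfl⟩, (map_line_iff ρ h0 g).mpr ⟨_, hb' 0⟩,
    (map_line_iff ρ h1 g).mpr ⟨_, hb' 1⟩, ?_⟩
  · intro h
    have h3 : b' 0 ∈ ℂ ∙ b' 1 := by rw [← h]; exact mem_span_singleton_self _
    rw [mem_span_singleton] at h3
    obtain ⟨a, ha⟩ := h3
    have h4 := congrArg (fun v => b'.repr v 0) ha
    simp at h4
  · rintro L ⟨u, hu, rfl⟩ hL
    obtain ⟨γ, hγ⟩ := (map_line_iff ρ hu g).mp hL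
    have hsum : u = b'.repr u 0 • b' 0 + b'.repr u 1 • b' 1 := by
      have := b'.sum_repr u
      rw [Fin.sum_univ_two] at this
      exact this.symm
    have h5 : ∀ i, (b'.repr u i) * ζ (e.symm i) = γ * b'.repr u i := by
      intro i
      have h6 : ρ g u = b'.repr u 0 • ζ (e.symm 0) • b' 0 + b'.repr u 1 • ζ (e.symm 1) • b' 1 := by
        conv_lhs => rw [hsum]
        rw [map_add, map_smul, map_smul, hb' 0, hb' 1]
      rw [hγ] at h6
      have h7 := congrArg (fun v => b'.repr v i) h6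
      fin_cases i <;> simpa using h7.symm
    by_cases hz : b'.repr u 0 = 0
    · right
      apply line_eq hu
      exact ⟨b'.repr u 1, by conv_lhs => rw [hsum, hz, zero_smul, zero_add]⟩
    · left
      have e0 : ζ (e.symm 0) = γ := by
        have := h5 0
        rw [mul_comm] at this
        exact mul_right_cancel₀ hz this
      have hz1 : b'.repr u 1 = 0 := by
        by_contra hz1
        have e1 : ζ (e.symm 1) = γ := by
          have := h5 1
          rw [mul_comm] at this
          exact mul_right_cancel₀ hz1 this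
        exact hne (e0.trans e1.symm)
      apply line_eq hu
      exact ⟨b'.repr u 0, by conv_lhs => rw [hsum, hz1, zero_smul, add_zero]⟩

/-- the set of lines fixed by a noncentral element -/
def X : Type _ := {L : Submodule ℂ V // IsLine L ∧ ∃ g : G, g ∉ Subgroup.center G ∧ L.map (ρ g) = L}

omit [Finite G] [FiniteDimensional ℂ V] in
theorem map_map_mul (L : Submodule ℂ V) (g h : G) : (L.map (ρ h)).map (ρ g) = L.map (ρ (g * h)) := by
  rw [← Submodule.map_comp, map_mul]; rfl

/-- the action on lines -/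
def act (g : G) (x : X ρ) : X ρ := ⟨x.1.map (ρ g), isLine_map ρ x.2.1 g, by
  obtain ⟨h, hh, hL⟩ := x.2.2
  refine ⟨g * h * g⁻¹, ?_, ?_⟩
  · intro hc
    apply hh
    have := (inferInstance : (Subgroup.center G).Normal).conj_mem _ hc g⁻¹
    have h3 : g⁻¹ * (g * h * g⁻¹) * g⁻¹⁻¹ = h := by group
    rwa [h3] at this
  · rw [map_map_mul, inv_mul_cancel_right, ← map_map_mul, hL]⟩

instance instX : MulAction G (X ρ) where
  smul g x := act ρ g x
  one_smul x := by
    apply Subtype.ext
    show x.1.map (ρ 1) = x.1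
    rw [map_one]
    exact Submodule.map_id _
  mul_smul g h x := by
    apply Subtype.ext
    show x.1.map (ρ (g * h)) = (x.1.map (ρ h)).map (ρ g)
    rw [map_map_mul]

omit [Finite G] [FiniteDimensional ℂ V] in
theorem smul_val (g : G) (x : X ρ) : (g • x).1 = x.1.map (ρ g) := rfl

theorem finite_X (h2 : Module.finrank ℂ V = 2) (hf : Function.Injective ρ) : Finite (X ρ) := by
  classical
  choose! A B hAB using fun g : G => two_lines ρ h2 hf (g := g)
  have hfin : (Set.range A ∪ Set.range B).Finite := (Set.finite_range A).union (Set.finite_range B)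
  have h1 : ({L : Submodule ℂ V | IsLine L ∧ ∃ g : G, g ∉ Subgroup.center G ∧ L.map (ρ g) = L}).Finite := by
    apply hfin.subset
    rintro L ⟨hL, g, hg, hLg⟩
    obtain ⟨-, -, -, -, -, h⟩ := hAB g hg
    rcases h L hL hLg with h3 | h3
    · left; exact ⟨g, h3.symm⟩
    · right; exact ⟨g, h3.symm⟩
  exact h1.to_subtype

theorem central_smul (hρ : ρ.IsIrreducible) {z : G} (hz : z ∈ Subgroup.center G) (x : X ρ) : z • x = x := by
  apply Subtype.ext
  rw [smul_val]
  obtain ⟨L, ⟨u, hu, rfl⟩, h⟩ := x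
  obtain ⟨c, hc⟩ := central_scalar ρ hρ hz
  exact (map_line_iff ρ hu z).mpr ⟨c, by rw [hc]; rfl⟩

/-- the homomorphism from the central quotient -/
def qhom (hρ : ρ.IsIrreducible) : G ⧸ Subgroup.center G →* Equiv.Perm (X ρ) :=
  QuotientGroup.lift (Subgroup.center G) (MulAction.toPermHom G (X ρ)) (by
    intro z hz
    ext x : 1
    exact central_smul ρ hρ hz x)

open H5.Dk MulAction in
theorem trich (h2 : Module.finrank ℂ V = 2) (hf : Function.Injective ρ) (hρ : ρ.IsIrreducible)
    (hG : 2 ≤ Nat.card (G ⧸ Subgroup.center G)) :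
    (∃ H : Subgroup G, H.index = 2 ∧ ∃ L : Submodule ℂ V, IsLine L ∧ ∀ h ∈ H, L.map (ρ h) = L) ∨
      Nat.card (G ⧸ Subgroup.center G) = 12 ∨ Nat.card (G ⧸ Subgroup.center G) = 24 ∨
      Nat.card (G ⧸ Subgroup.center G) = 60 := by
  classical
  have := finite_X ρ h2 hf
  have iX := Fintype.ofFinite (X ρ)
  have iQ := Fintype.ofFinite (G ⧸ Subgroup.center G)
  let iA : MulAction (G ⧸ Subgroup.center G) (X ρ) := MulAction.compHom _ (qhom ρ hρ)
  have hact : ∀ (g : G) (x : X ρ), (g : G ⧸ Subgroup.center G) • x = g • x := fun g x => rfl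
  have hfx : ∀ g : G ⧸ Subgroup.center G, g ≠ 1 → fx (X ρ) g = 2 := by
    intro g hg
    obtain ⟨g, rfl⟩ := QuotientGroup.mk'_surjective _ g
    have hg' : g ∉ Subgroup.center G := fun h => hg ((QuotientGroup.eq_one_iff g).mpr h)
    obtain ⟨A, B, hne, hA, hB, hAg, hBg, hall⟩ := two_lines ρ h2 hf hg'
    rw [fx, Finset.card_eq_two]
    let xA : X ρ := ⟨A, hA, g, hg', hAg⟩
    let xB : X ρ := ⟨B, hB, g, hg', hBg⟩
    refine ⟨xA, xB, fun h => hne (congrArg Subtype.val h), ?_⟩
    ext x
    rw [Finset.mem_insert, Finset.mem_singleton, Finset.mem_filter]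
    simp only [Finset.mem_univ, true_and]
    constructor
    · intro hx
      have h1 : x.1.map (ρ g) = x.1 := congrArg Subtype.val hx
      rcases hall x.1 x.2.1 h1 with h3 | h3
      · left; exact Subtype.ext h3
      · right; exact Subtype.ext h3
    · rintro (rfl | rfl)
      · exact Subtype.ext hAg
      · exact Subtype.ext hBg
  rcases dichotomy hG hfx with ⟨x, hx⟩ | ⟨x, y, z, hT⟩
  · -- a global fixed line
    exfalso
    obtain ⟨u, hu, hL⟩ := x.2.1
    have h3 := ((irrep_iff ρ).mp hρ).2 (ℂ ∙ u) (by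
      intro g v hv
      have h4 : (g : G ⧸ Subgroup.center G) ∈ stabilizer (G ⧸ Subgroup.center G) x := by
        rw [hx]; trivial
      have h5 : x.1.map (ρ g) = x.1 := congrArg Subtype.val h4
      rw [hL] at h5
      rw [← h5]
      exact ⟨v, hv, rfl⟩)
    rcases h3 with h3 | h3
    · rw [span_singleton_eq_bot] at h3; exact hu h3
    · have h4 := finrank_span_singleton (K := ℂ) hu
      rw [h3, finrank_top, h2] at h4
      omega
  · obtain ⟨x, y, z, hT, h3, h4⟩ := hT.sorted
    rcases arith (card_O (G := G ⧸ Subgroup.center G) x) (card_O (G := G ⧸ Subgroup.center G) y)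
      (card_O (G := G ⧸ Subgroup.center G) z) (a_pos_iff.mp hT.ax) (a_pos_iff.mp hT.ay)
      (a_pos_iff.mp hT.az) h3 h4 (O_card_pos z) hT.sum with h | ⟨hn, -⟩ | ⟨hn, -⟩ | ⟨hn, -⟩
    · left
      refine ⟨(stabilizer (G ⧸ Subgroup.center G) z).comap (QuotientGroup.mk' _), ?_, z.1, z.2.1, ?_⟩
      · rw [Subgroup.index_comap_of_surjective _ (QuotientGroup.mk'_surjective _)]
        have h5 := card_O (G := G ⧸ Subgroup.center G) z
        rw [h] at h5
        have h6 := Subgroup.index_mul_card (stabilizer (G ⧸ Subgroup.center G) z)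
        rw [← h5] at h6
        exact Nat.eq_of_mul_eq_mul_right Nat.card_pos h6
      · intro g hg
        have h5 : (g : G ⧸ Subgroup.center G) • z = z := hg
        exact congrArg Subtype.val h5
    · right; left; exact hn
    · right; right; left; exact hn
    · right; right; right; exact hn

end Lines

/-- characters of representations with an invariant line under a subgroup of index two are induced -/
theorem induced {G : Type*} [Group G] [Fintype G] {n : ℕ} (ρ : Representation ℂ G (Fin n → ℂ)) (hn : n = 2)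
    (hρ : ρ.IsIrreducible) {H : Subgroup G} (hH : H.index = 2) {L : Submodule ℂ (Fin n → ℂ)} (hL : IsLine L)
    (hLH : ∀ h ∈ H, L.map (ρ h) = L) : ∃ θ : H → ℂ, IsCharacter H θ ∧ ρ.character = indFun H θ := by
  classical
  have := Fintype.ofFinite H
  let σ : Representation ℂ H (Fin n → ℂ) := ρ.comp H.subtype
  have hσ : ∀ (g : H), ∀ v ∈ L, σ g v ∈ L := by
    intro g v hv
    have := hLH g g.2
    rw [← this]
    exact ⟨v, hv, rfl⟩
  obtain ⟨L', hL', hc⟩ := exists_compl σ L hσ
  obtain ⟨e⟩ := equiv_prod_of_isCompl σ L L' hσ hL' hc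
  have h1 := Representation.char_iso e
  rw [character_prod] at h1
  obtain ⟨u, hu, rfl⟩ := hL
  have hχ : IsIrrCharacter G ρ.character := isIrr_of_rep ρ hρ
  have hθc : IsCharacter H (subRep σ (ℂ ∙ u) hσ).character := isCharacter_of_rep _
  have hθ1 : (subRep σ (ℂ ∙ u) hσ).character 1 = 1 := by
    rw [Representation.char_one, finrank_span_singleton hu, Nat.cast_one]
  have hθ := IsChar.isIrr_of_one hθc hθ1
  refine ⟨_, hθc, ?_⟩
  symm
  have hσc : σ.character = fun h : H => ρ.character h := rfl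
  have h3 : classInner (fun h : H => ρ.character h) (subRep σ (ℂ ∙ u) hσ).character ≠ 0 := by
    rw [← hσc, ← h1, ci_add_left, ci_irr_self hθ]
    obtain ⟨m, hm⟩ := ci_char_nat (isCharacter_of_rep (subRep σ L' hL')) hθc
    rw [hm]
    exact_mod_cast (by omega : (1 : ℕ) + m ≠ 0)
  apply IsChar.eq_of_degree (IsChar.ind hθc) hχ
  · exact (constituent_ind_iff (IsIrr.isCharacter hχ)).mpr h3
  · rw [ind_one, hθ1, hH, Representation.char_one, Module.finrank_fin_fun, hn]
    norm_num

theorem main {G : Type*} [Group G] [Fintype G] (χ : IrrCharacter G) (hfaith : ∀ g : G, (χ : G → ℂ) g = (χ : G → ℂ) 1 → g = 1)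
    (h2 : charDegree (χ : G → ℂ) = 2)
    (hprim : ∀ H : Subgroup G, H ≠ ⊤ → ∀ θ : H → ℂ, IsCharacter H θ → (χ : G → ℂ) ≠ indFun H θ) :
    (Subgroup.center G).index = 12 ∨ (Subgroup.center G).index = 24 ∨ (Subgroup.center G).index = 60 := by
  obtain ⟨χ, n, ρ, hρ, rfl⟩ := χ
  simp only at *
  have hdeg : ρ.character 1 = (n : ℂ) := by
    rw [Representation.char_one, Module.finrank_fin_fun]
  have hn : n = 2 := by
    rw [charDegree, hdeg, Complex.natCast_re, Nat.floor_natCast] at h2
    exact h2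
  have hf : Function.Injective ρ := by
    intro a b hab
    have h1 : ρ (a * b⁻¹) = 1 := by
      rw [map_mul, hab, ← map_mul, mul_inv_cancel, map_one]
    have h3 : ρ.character (a * b⁻¹) = ρ.character 1 :=
      congrArg (LinearMap.trace ℂ (Fin n → ℂ)) (h1.trans (map_one ρ).symm)
    exact mul_inv_eq_one.mp (hfaith _ h3)
  have hG : 2 ≤ Nat.card (G ⧸ Subgroup.center G) := by
    have h0 : 0 < Nat.card (G ⧸ Subgroup.center G) := Nat.card_pos
    by_contra hlt
    have h1 : (Subgroup.center G).index = 1 := by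
      show Nat.card (G ⧸ Subgroup.center G) = 1
      omega
    rw [Subgroup.index_eq_one] at h1
    have h3 := IsIrr.one_of_comm (fun a b : G => by
      have : b ∈ Subgroup.center G := by rw [h1]; trivial
      exact Subgroup.mem_center_iff.mp this a) (isIrr_of_rep ρ hρ)
    rw [hdeg, hn] at h3
    norm_num at h3
  rcases trich ρ (by rw [Module.finrank_fin_fun, hn]) hf hρ hG with ⟨H, hH, L, hL, hLH⟩ | h
  · exfalso
    obtain ⟨θ, hθ, h3⟩ := induced ρ hn hρ hH hL hLH
    refine hprim H ?_ θ hθ h3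
    rintro rfl
    rw [Subgroup.index_top] at hH
    omega
  · exact h

end Cfsg.Agent.H3.PrimTwo
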