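import Mathlib
import Cfsg.Prelude.Def_Characters
import Cfsg.Agent.H3_CharMult
import Cfsg.Agent.H3_CharCalc
import Cfsg.Agent.H3_CharQuot
import Cfsg.Agent.H3_Clifford2
import Cfsg.Agent.H3_Monomial

/-!
# Relative M-groups
-/

set_option autoImplicit false

open scoped ComplexConjugate

namespace Cfsg.Agent.H3.RelM

open Cfsg Cfsg.Agent.H3.CharBasic Cfsg.Agent.H3.CharIrr Cfsg.Agent.H3.CharComplete
  Cfsg.Agent.H3.CharMult Cfsg.Agent.H3.CharInd Cfsg.Agent.H3.CharInt Cfsg.Agent.H3.CharCalc
  Cfsg.Agent.H3.Clifford Cfsg.Agent.H3.CharQuot Cfsg.Agent.H3.Monomial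

theorem closure_normal {H : Type*} [Group H] {s : Set H} (hs : ∀ x ∈ s, ∀ g : H, g * x * g⁻¹ ∈ s) :
    (Subgroup.closure s).Normal := by
  constructor
  intro n hn g
  induction hn using Subgroup.closure_induction with
  | mem x hx => exact Subgroup.subset_closure (hs x hx g)
  | one => simp
  | mul x y _ _ hx hy =>
    have : g * (x * y) * g⁻¹ = (g * x * g⁻¹) * (g * y * g⁻¹) := by group
    rw [this]
    exact mul_mem hx hy
  | inv x _ hx =>
    have : g * x⁻¹ * g⁻¹ = (g * x * g⁻¹)⁻¹ := by group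
    rw [this]
    exact inv_mem hx

section Down

variable {H : Type*} [Group H] [Fintype H]

/-- Norm of the restriction to a normal subgroup with abelian quotient. -/
theorem norm_res {K : Subgroup H} (hK : K.Normal) [Fintype K]
    (hab : ∀ a b : H, a * b * a⁻¹ * b⁻¹ ∈ K) [Fintype (IrrCharacter (H ⧸ K))] {θ : H → ℂ}
    (hθ : IsIrrCharacter H θ) [DecidablePred fun β : IrrCharacter (H ⧸ K) =>
      ∀ x : H, (β : H ⧸ K → ℂ) (x : H ⧸ K) * θ x = θ x] :
    classInner (fun x : K => θ x) (fun x : K => θ x) =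
      ((Finset.univ.filter fun β : IrrCharacter (H ⧸ K) =>
        ∀ x : H, (β : H ⧸ K → ℂ) (x : H ⧸ K) * θ x = θ x).card : ℂ) := by
  classical
  have := Fintype.ofFinite (H ⧸ K)
  have hcomm : ∀ a b : H ⧸ K, a * b = b * a := by
    intro a b
    induction a using QuotientGroup.induction_on with | H a => ?_
    induction b using QuotientGroup.induction_on with | H b => ?_
    rw [← QuotientGroup.mk_mul, ← QuotientGroup.mk_mul, QuotientGroup.eq]
    have h5 := hab b⁻¹ a⁻¹
    have h6 : b⁻¹ * a⁻¹ * (b⁻¹)⁻¹ * (a⁻¹)⁻¹ = (a * b)⁻¹ * (b * a) := by group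
    rwa [h6] at h5
  have h1 : ∀ β : IrrCharacter (H ⧸ K), (β : H ⧸ K → ℂ) 1 = 1 := fun β =>
    IsIrr.one_of_comm hcomm β.2
  have h2 : ∀ q : H ⧸ K, ∑ β : IrrCharacter (H ⧸ K), (β : H ⧸ K → ℂ) q =
      if q = 1 then (Nat.card (H ⧸ K) : ℂ) else 0 := by
    intro q
    rw [← sum_one_mul q]
    refine Finset.sum_congr rfl fun β _ => ?_
    rw [h1, one_mul]
  have hinf : ∀ β : IrrCharacter (H ⧸ K), IsCharacter H (fun x : H => (β : H ⧸ K → ℂ) (x : H ⧸ K)) :=
    fun β => IsChar.comp (IsIrr.isCharacter β.2) (QuotientGroup.mk' K)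
  have h3 : ∀ β : IrrCharacter (H ⧸ K),
      classInner ((fun x : H => (β : H ⧸ K → ℂ) (x : H ⧸ K)) * θ) θ =
      if (∀ x : H, (β : H ⧸ K → ℂ) (x : H ⧸ K) * θ x = θ x) then 1 else 0 := by
    intro β
    have hi : IsIrrCharacter H ((fun x : H => (β : H ⧸ K → ℂ) (x : H ⧸ K)) * θ) :=
      IsIrr.mul_linear hθ (hinf β) (by show (β : H ⧸ K → ℂ) ((1 : H) : H ⧸ K) = 1; exact h1 β)
    rw [ci_irr hi hθ]
    congr 1
    rw [funext_iff]
    rfl
  have h4 : classInner (fun x : K => θ x) (fun x : K => θ x) =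
      ∑ β : IrrCharacter (H ⧸ K), classInner ((fun x : H => (β : H ⧸ K → ℂ) (x : H ⧸ K)) * θ) θ := by
    simp only [classInner]
    rw [← Finset.mul_sum, Finset.sum_comm]
    have h5 : ∀ x : H, ∑ β : IrrCharacter (H ⧸ K),
        ((fun x : H => (β : H ⧸ K → ℂ) (x : H ⧸ K)) * θ) x * conj (θ x) =
        (Nat.card (H ⧸ K) : ℂ) * (extendByZero K (fun _ => 1) x * (θ x * conj (θ x))) := by
      intro x
      simp only [Pi.mul_apply]
      simp_rw [mul_assoc]
      rw [← Finset.sum_mul, h2]
      by_cases hx : x ∈ K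
      · rw [if_pos ((QuotientGroup.eq_one_iff x).mpr hx), ext_mem K _ hx, one_mul]
      · rw [if_neg (fun h => hx ((QuotientGroup.eq_one_iff x).mp h)), ext_not_mem K _ hx]
        ring
    rw [Finset.sum_congr rfl fun x _ => h5 x, ← Finset.mul_sum, sum_ext_mul K]
    have h6 : (Nat.card H : ℂ) = Nat.card K * Nat.card (H ⧸ K) := by
      rw [← K.card_mul_index]; push_cast; rfl
    have h7 : (Nat.card K : ℂ) ≠ 0 := by exact_mod_cast Nat.card_pos.ne'
    have h8 : (Nat.card (H ⧸ K) : ℂ) ≠ 0 := by exact_mod_cast Nat.card_pos.ne'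
    rw [h6]
    simp only [one_mul]
    field_simp
  rw [h4, Finset.sum_congr rfl fun β _ => h3 β, Finset.sum_boole]

theorem going_down_top {K : Subgroup H} (hK : K.Normal) [Fintype K]
    (hab : ∀ a b : H, a * b * a⁻¹ * b⁻¹ ∈ K) {θ : H → ℂ} (hθ : IsIrrCharacter H θ)
    {φ : K → ℂ} (hφ : IsIrrCharacter K φ) {e : ℕ} (he : (fun x : K => θ x) = (e : ℂ) • φ)
    (hchief : (∀ x : H, x ∉ K → θ x = 0) ∨ K ⊔ Subgroup.closure {x | θ x ≠ 0} = ⊤)
    (hsq : ¬ IsSquare K.index) : IsIrrCharacter K (fun x : K => θ x) := by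
  classical
  have := Fintype.ofFinite (IrrCharacter (H ⧸ K))
  have h1 := norm_res hK hab hθ
  rw [he, ci_smul_left, ci_smul_right, ci_irr_self hφ] at h1
  simp only [map_natCast, mul_one] at h1
  set S := (Finset.univ.filter fun β : IrrCharacter (H ⧸ K) =>
        ∀ x : H, (β : H ⧸ K → ℂ) (x : H ⧸ K) * θ x = θ x) with hS
  have h1' : e * e = S.card := by exact_mod_cast h1
  have hcomm : ∀ a b : H ⧸ K, a * b = b * a := by
    intro a b
    induction a using QuotientGroup.induction_on with | H a => ?_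
    induction b using QuotientGroup.induction_on with | H b => ?_
    rw [← QuotientGroup.mk_mul, ← QuotientGroup.mk_mul, QuotientGroup.eq]
    have h5 := hab b⁻¹ a⁻¹
    have h6 : b⁻¹ * a⁻¹ * (b⁻¹)⁻¹ * (a⁻¹)⁻¹ = (a * b)⁻¹ * (b * a) := by group
    rwa [h6] at h5
  have hone : ∀ β : IrrCharacter (H ⧸ K), (β : H ⧸ K → ℂ) 1 = 1 := fun β =>
    IsIrr.one_of_comm hcomm β.2
  rcases hchief with hc | hc
  · exfalso
    apply hsq
    refine ⟨e, ?_⟩
    rw [h1']
    have h2 : S = Finset.univ := by
      rw [hS, Finset.filter_true_of_mem]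
      intro β _ x
      by_cases hx : x ∈ K
      · rw [(QuotientGroup.eq_one_iff x).mpr hx, hone, one_mul]
      · rw [hc x hx, mul_zero]
    rw [h2, Finset.card_univ]
    have h3 := sum_one_mul (G := H ⧸ K) 1
    simp only [hone, if_true, Finset.sum_const, Finset.card_univ, nsmul_eq_mul, mul_one] at h3
    have : (Fintype.card (IrrCharacter (H ⧸ K)) : ℂ) = Nat.card (H ⧸ K) := h3
    have h4 : Fintype.card (IrrCharacter (H ⧸ K)) = Nat.card (H ⧸ K) := by exact_mod_cast this
    rw [h4]; rfl
  · have h2 : S.card ≤ 1 := by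
      rw [Finset.card_le_one]
      intro β hβ γ hγ
      have key : ∀ β ∈ S, ∀ x : H, (β : H ⧸ K → ℂ) (x : H ⧸ K) = 1 := by
        intro β hβ x
        have hβ' := (Finset.mem_filter.mp hβ).2
        obtain ⟨f, hf⟩ := IsChar.hom_units_of_one (IsIrr.isCharacter β.2) (hone β)
        have h3 : K ⊔ Subgroup.closure {x | θ x ≠ 0} ≤ (f.comp (QuotientGroup.mk' K)).ker := by
          refine sup_le ?_ ?_
          · intro k hk
            rw [MonoidHom.mem_ker, MonoidHom.comp_apply, QuotientGroup.mk'_apply,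
              (QuotientGroup.eq_one_iff k).mpr hk, map_one]
          · rw [Subgroup.closure_le]
            intro y hy
            rw [SetLike.mem_coe, MonoidHom.mem_ker, MonoidHom.comp_apply, QuotientGroup.mk'_apply]
            have h4 := hβ' y
            have h5 : (β : H ⧸ K → ℂ) (y : H ⧸ K) = 1 := by
              have h6 : ((β : H ⧸ K → ℂ) (y : H ⧸ K) - 1) * θ y = 0 := by rw [sub_mul, h4, one_mul, sub_self]
              rcases mul_eq_zero.mp h6 with h | h
              · exact sub_eq_zero.mp h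
              · exact absurd h hy
            rw [hf] at h5
            exact Units.val_eq_one.mp h5
        rw [hc] at h3
        have h4 := h3 (Subgroup.mem_top x)
        rw [MonoidHom.mem_ker, MonoidHom.comp_apply, QuotientGroup.mk'_apply] at h4
        rw [hf, h4, Units.val_one]
      apply Subtype.ext
      funext q
      induction q using QuotientGroup.induction_on with | H x => ?_
      exact (key β hβ x).trans (key γ hγ x).symm
    have h3 : e = 1 := by
      rcases Nat.eq_zero_or_pos e with h | h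
      · exfalso
        rw [h] at he
        have h4 := congrFun he 1
        simp only [Nat.cast_zero, zero_smul, Pi.zero_apply, Subgroup.coe_one] at h4
        exact IsIrr.one_ne_zero hθ h4
      · nlinarith
    rw [he, h3]
    simpa using hφ

/-- going down in a chief factor -/
theorem going_down {ψ : H → ℂ} (hψ : IsIrrCharacter H ψ)
    {L K : Subgroup H} [Fintype L] [Fintype K] (hL : L.Normal) (hK : K.Normal) (hKL : K ≤ L)
    (hab : ∀ a ∈ L, ∀ b ∈ L, a * b * a⁻¹ * b⁻¹ ∈ K)
    (hLirr : IsIrrCharacter L (fun x : L => ψ x))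
    {φ : K → ℂ} (hφ : IsIrrCharacter K φ) {e : ℕ} (he : (fun x : K => ψ x) = (e : ℂ) • φ)
    (hchief : ∀ M : Subgroup H, M.Normal → K ≤ M → M ≤ L → M = K ∨ M = L)
    (hsq : ¬ IsSquare (K.relIndex L)) : IsIrrCharacter K (fun x : K => ψ x) := by
  classical
  have hfK : Fintype (K.subgroupOf L) := Fintype.ofFinite _
  have hKn : (K.subgroupOf L).Normal := hK.subgroupOf L
  let ee := Subgroup.subgroupOfEquivOfLe hKL
  have hφ' : IsIrrCharacter (K.subgroupOf L) (fun x => φ (ee x)) := (isIrr_comp_iff ee).mpr hφ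
  have h1 := going_down_top (K := K.subgroupOf L) hKn (fun a b => by
    rw [Subgroup.mem_subgroupOf]; exact hab a a.2 b b.2) hLirr hφ' (e := e) (by
      ext x
      exact congrFun he (ee x)) ?_ hsq
  · exact (isIrr_comp_iff ee).mp h1
  · set W : Subgroup H := K ⊔ Subgroup.closure {x | x ∈ L ∧ ψ x ≠ 0} with hW
    have hcn : (Subgroup.closure {x | x ∈ L ∧ ψ x ≠ 0}).Normal := by
      apply closure_normal
      rintro x ⟨hx, hx'⟩ g
      refine ⟨hL.conj_mem x hx g, ?_⟩
      rwa [IsIrr.isClass hψ x g]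
    have hWn : W.Normal := by rw [hW]; infer_instance
    have hWL : W ≤ L := sup_le hKL ((Subgroup.closure_le _).mpr fun x hx => hx.1)
    rcases hchief W hWn le_sup_left hWL with h | h
    · left
      intro x hx
      by_contra hne
      apply hx
      rw [Subgroup.mem_subgroupOf, ← h]
      exact Subgroup.mem_sup_right (Subgroup.subset_closure ⟨x.2, hne⟩)
    · right
      rw [eq_top_iff]
      intro x _
      have hx : (x : H) ∈ W := by rw [h]; exact x.2
      have h2 : W ≤ (K.subgroupOf L ⊔ Subgroup.closure {x : L | ψ x ≠ 0}).map L.subtype := by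
        rw [hW]
        refine sup_le ?_ ((Subgroup.closure_le _).mpr ?_)
        · intro k hk
          exact ⟨⟨k, hKL hk⟩, Subgroup.mem_sup_left (Subgroup.mem_subgroupOf.mpr hk), rfl⟩
        · rintro y ⟨hy, hy'⟩
          exact ⟨⟨y, hy⟩, Subgroup.mem_sup_right (Subgroup.subset_closure hy'), rfl⟩
      obtain ⟨y, hy, hyx⟩ := h2 hx
      have : y = x := Subtype.ext hyx
      rwa [this] at hy

theorem commutator_mem_of_chief {N K L : Subgroup H} (hs : ∃ k, derivedSeries H k ≤ N) (hNK : N ≤ K)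
    (hK : K.Normal) (hL : L.Normal) (hKL : K < L)
    (hchief : ∀ M : Subgroup H, M.Normal → K ≤ M → M ≤ L → M = K ∨ M = L) :
    ∀ a ∈ L, ∀ b ∈ L, a * b * a⁻¹ * b⁻¹ ∈ K := by
  obtain ⟨k, hk⟩ := hs
  have hsol : Group.IsSolvable (H ⧸ K) := by
    refine ⟨k, ?_⟩
    rw [← map_derivedSeries_eq (f := QuotientGroup.mk' K) (QuotientGroup.mk'_surjective K), eq_bot_iff]
    rintro _ ⟨x, hx, rfl⟩
    rw [Subgroup.mem_bot]
    exact (QuotientGroup.eq_one_iff x).mpr (hNK (hk hx))
  have hne : L.map (QuotientGroup.mk' K) ≠ ⊥ := by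
    intro h
    rw [Subgroup.map_eq_bot_iff, QuotientGroup.ker_mk'] at h
    exact absurd h hKL.not_ge
  have hlt := Group.IsSolvable.commutator_lt_of_ne_bot hne
  rcases hchief (⁅L, L⁆ ⊔ K) inferInstance le_sup_right (sup_le (Subgroup.commutator_le_left L L) hKL.le) with h | h
  · intro a ha b hb
    rw [← h]
    exact Subgroup.mem_sup_left (Subgroup.commutator_mem_commutator ha hb)
  · exfalso
    rw [← Subgroup.map_commutator] at hlt
    have h2 : L.map (QuotientGroup.mk' K) ≤ (⁅L, L⁆).map (QuotientGroup.mk' K) := by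
      conv_lhs => rw [← h]
      rw [Subgroup.map_sup]
      refine sup_le le_rfl ?_
      have : K.map (QuotientGroup.mk' K) = ⊥ := by
        rw [Subgroup.map_eq_bot_iff, QuotientGroup.ker_mk']
      rw [this]; exact bot_le
    exact absurd h2 hlt.not_ge

/-- Under the non-square condition, quasi-primitive characters restrict irreducibly. -/
theorem res_irr {N : Subgroup H} (hs : ∃ k, derivedSeries H k ≤ N) (hN : N.Normal) {ψ : H → ℂ} (hψ : IsIrrCharacter H ψ)
    (hhom : ∀ L : Subgroup H, L.Normal → N ≤ L → ∃ φ : L → ℂ, IsIrrCharacter L φ ∧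
      ∃ e : ℕ, (fun x : L => ψ x) = (e : ℂ) • φ)
    (hsq : ∀ K L : Subgroup H, K.Normal → L.Normal → N ≤ K → K < L →
      (∀ M : Subgroup H, M.Normal → K ≤ M → M ≤ L → M = K ∨ M = L) → ¬ IsSquare (K.relIndex L)) :
    IsIrrCharacter N (fun x : N => ψ x) := by
  classical
  have key : ∀ n : ℕ, ∀ L : Subgroup H, Nat.card L ≤ n → L.Normal → N ≤ L →
      IsIrrCharacter L (fun x : L => ψ x) → IsIrrCharacter N (fun x : N => ψ x) := by
    intro n
    induction n with
    | zero =>
      intro L hc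
      have : 0 < Nat.card L := Nat.card_pos
      omega
    | succ n ih =>
      intro L hc hL hNL hirr
      rcases hNL.eq_or_lt with h | h
      · subst h; exact hirr
      · have hfin : {K : Subgroup H | K.Normal ∧ N ≤ K ∧ K < L}.Finite := Set.toFinite _
        obtain ⟨K, hK⟩ := hfin.exists_maximal ⟨N, hN, le_rfl, h⟩
        obtain ⟨⟨hKn, hNK, hKL⟩, hmax⟩ := hK
        have hch : ∀ M : Subgroup H, M.Normal → K ≤ M → M ≤ L → M = K ∨ M = L := by
          intro M hM hKM hML
          rcases hML.eq_or_lt with h | h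
          · right; exact h
          · left
            exact le_antisymm (hmax ⟨hM, hNK.trans hKM, h⟩ hKM) hKM
        have hfK : Fintype K := Fintype.ofFinite _
        have hfL : Fintype L := Fintype.ofFinite _
        obtain ⟨φ, hφ, e, he⟩ := hhom K hKn hNK
        have h2 := going_down hψ hL hKn hKL.le
          (commutator_mem_of_chief hs hNK hKn hL hKL hch) hirr hφ he hch
          (hsq K L hKn hL hNK hKL hch)
        refine ih K ?_ hKn hNK h2
        have := Subgroup.card_le_of_le hKL.le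
        have h3 : Nat.card K ≠ Nat.card L := by
          intro h4
          exact hKL.ne (Subgroup.eq_of_le_of_card_ge hKL.le h4.ge)
        omega
  refine key (Nat.card (⊤ : Subgroup H)) ⊤ le_rfl inferInstance le_top ?_
  exact (isIrr_comp_iff (Subgroup.topEquiv (G := H))).mpr hψ

end Down

section Main

variable {G : Type*} [Group G] [Fintype G]

theorem exists_ind_of_inertia {H : Subgroup G} [Fintype H] {ψ : H → ℂ} (hψ : IsIrrCharacter H ψ)
    {L : Subgroup H} [Fintype L] (hL : L.Normal) {θ : L → ℂ} (hθ : IsIrrCharacter L θ)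
    (h1 : classInner (fun x : L => ψ x) θ ≠ 0) (hT : inertia hL θ ≠ ⊤) {N : Subgroup G}
    (hNH : N ≤ H) (hN : N.subgroupOf H ≤ L) :
    ∃ (U : Subgroup G) (η : U → ℂ), N ≤ U ∧ U < H ∧ IsIrrCharacter U η ∧ indFun U η = indFun H ψ := by
  classical
  set T := inertia hL θ with hTdef
  have hfT : Fintype T := Fintype.ofFinite _
  have hLT : L ≤ T := le_inertia hL (IsIrr.isClass hθ)
  obtain ⟨ψ1, hψ1, h2, -⟩ := clifford_corr hL hψ hθ h1 T rfl hLT
  let ee := T.equivMapOfInjective H.subtype H.subtype_injective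
  have hle : T.map H.subtype ≤ H := by
    rintro _ ⟨x, _, rfl⟩; exact x.2
  refine ⟨T.map H.subtype, fun x => ψ1 (ee.symm x), ?_, ?_, (isIrr_comp_iff ee.symm).mpr hψ1, ?_⟩
  · intro x hx
    exact ⟨⟨x, hNH hx⟩, hLT (hN (Subgroup.mem_subgroupOf.mpr hx)), rfl⟩
  · refine lt_of_le_of_ne hle ?_
    intro h
    apply hT
    rw [eq_top_iff]
    intro x _
    have : (x : G) ∈ T.map H.subtype := by rw [h]; exact x.2
    obtain ⟨y, hy, hyx⟩ := this
    have : y = x := Subtype.ext hyx
    rwa [this] at hy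
  · rw [← ind_trans (T.map H.subtype) H hle, ← h2]
    congr 1
    have hTe : T = (T.map H.subtype).subgroupOf H := by
      ext x
      simp [Subgroup.mem_subgroupOf]
    refine (ind_congr hTe ?_).symm
    intro x hx hx'
    congr 1
    rw [MulEquiv.eq_symm_apply]
    ext
    rfl

theorem main (N : Subgroup G) (hNn : N.Normal) (hsolv : Group.IsSolvable (G ⧸ N))
    (hchief : ∀ (H K L : Subgroup G), N ≤ L → L < K → K ≤ H →
      (∀ h ∈ H, ∀ k ∈ K, h * k * h⁻¹ ∈ K) → (∀ h ∈ H, ∀ l ∈ L, h * l * h⁻¹ ∈ L) →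
      (∀ M : Subgroup G, L ≤ M → M ≤ K → (∀ h ∈ H, ∀ m ∈ M, h * m * h⁻¹ ∈ M) → M = L ∨ M = K) →
      ¬ IsSquare (L.relIndex K)) (χ : G → ℂ) (n : ℕ) :
    ∀ (H : Subgroup G) (ψ : H → ℂ), Nat.card H ≤ n → N ≤ H → IsIrrCharacter H ψ → indFun H ψ = χ →
      ∃ (H : Subgroup G) (hNH : N ≤ H) (ψ : H → ℂ), IsIrrCharacter H ψ ∧ indFun H ψ = χ ∧
        IsIrrCharacter N (fun n : N => ψ ⟨(n : G), hNH n.2⟩) := by
  classical
  induction n with
  | zero =>
    intro H ψ hc
    have : 0 < Nat.card H := Nat.card_pos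
    omega
  | succ n ih =>
    intro H ψ hc hNH hψ hind
    have hfH : Fintype H := Fintype.ofFinite _
    by_cases hhom : ∀ L : Subgroup H, L.Normal → N.subgroupOf H ≤ L →
      ∃ φ : L → ℂ, IsIrrCharacter L φ ∧ ∃ e : ℕ, (fun x : L => ψ x) = (e : ℂ) • φ
    · refine ⟨H, hNH, ψ, hψ, hind, ?_⟩
      have hs : ∃ k, derivedSeries H k ≤ N.subgroupOf H := by
        obtain ⟨k, hk⟩ := hsolv
        refine ⟨k, ?_⟩
        intro x hx
        rw [Subgroup.mem_subgroupOf, ← QuotientGroup.eq_one_iff]
        have h1 : ((x : G) : G ⧸ N) ∈ derivedSeries (G ⧸ N) k := by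
          have h2 := map_derivedSeries_le_derivedSeries ((QuotientGroup.mk' N).comp H.subtype) k
          exact h2 ⟨x, hx, rfl⟩
        rw [hk] at h1
        exact h1
      have h2 := res_irr hs (hNn.subgroupOf H) hψ hhom (by
        intro K L hK hL hNK hKL hch
        have h3 := hchief H (L.map H.subtype) (K.map H.subtype) ?_ ?_ ?_ ?_ ?_ ?_
        · intro h4
          apply h3
          rw [Subgroup.relIndex, Subgroup.index] at h4 ⊢
          rw [show Nat.card ((L.map H.subtype) ⧸ (K.map H.subtype).subgroupOf (L.map H.subtype)) =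
            Nat.card (L ⧸ K.subgroupOf L) from ?_]
          · exact h4
          · have h5 := Subgroup.relIndex_map_map_of_injective (f := H.subtype) K L H.subtype_injective
            exact h5
        · intro x hx
          exact ⟨⟨x, hNH hx⟩, hNK (Subgroup.mem_subgroupOf.mpr hx), rfl⟩
        · refine lt_of_le_of_ne (Subgroup.map_mono hKL.le) ?_
          intro h
          exact hKL.ne (Subgroup.map_injective H.subtype_injective h)
        · rintro _ ⟨x, _, rfl⟩; exact x.2
        · rintro h hh _ ⟨x, hx, rfl⟩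
          exact ⟨⟨h, hh⟩ * x * ⟨h, hh⟩⁻¹, hL.conj_mem x hx _, rfl⟩
        · rintro h hh _ ⟨x, hx, rfl⟩
          exact ⟨⟨h, hh⟩ * x * ⟨h, hh⟩⁻¹, hK.conj_mem x hx _, rfl⟩
        · intro M hKM hML hM
          have hMH : M ≤ H := hML.trans (by rintro _ ⟨x, _, rfl⟩; exact x.2)
          have h6 : (M.subgroupOf H).map H.subtype = M := by
            rw [Subgroup.subgroupOf_map_subtype, inf_eq_left.mpr hMH]
          have h7 := hch (M.subgroupOf H) ⟨by
              intro x hx g
              rw [Subgroup.mem_subgroupOf] at hx ⊢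
              exact hM g g.2 x hx⟩ (by
              intro x hx
              exact hKM ⟨x, hx, rfl⟩) (by
              intro x hx
              rw [Subgroup.mem_subgroupOf] at hx
              obtain ⟨y, hy, hyx⟩ := hML hx
              have : y = x := Subtype.ext hyx
              rwa [this] at hy)
          rcases h7 with h | h
          · left; rw [← h6, h]
          · right; rw [← h6, h])
      exact (isIrr_comp_iff (Subgroup.subgroupOfEquivOfLe hNH)).mp h2
    · push Not at hhom
      obtain ⟨L, hL, hNL, hnot⟩ := hhom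
      have hfL : Fintype L := Fintype.ofFinite _
      obtain ⟨θ, hθ, h1⟩ := exists_constituent_res (H := L) hψ
      have hT : inertia hL θ ≠ ⊤ := by
        intro hT
        have hinv : ∀ g : H, cj hL g θ = θ := fun g => by
          rw [← mem_inertia, hT]; trivial
        have h2 := clifford_invariant hL hψ hθ h1 hinv
        obtain ⟨e, he⟩ := ci_char_nat (IsChar.res (IsIrr.isCharacter hψ) L) (IsIrr.isCharacter hθ)
        rw [he] at h2
        exact hnot θ hθ e h2
      obtain ⟨U, η, hNU, hUH, hη, hind'⟩ := exists_ind_of_inertia hψ hL hθ h1 hT hNH hNL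
      refine ih U η ?_ hNU hη (hind'.trans hind)
      have := Subgroup.card_le_of_le hUH.le
      have h3 : Nat.card U ≠ Nat.card H := by
        intro h4
        exact hUH.ne (Subgroup.eq_of_le_of_card_ge hUH.le h4.ge)
      omega

end Main

end Cfsg.Agent.H3.RelM
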