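import Mathlib
import Cfsg.Prelude.Def_Characters
import Cfsg.Agent.H3_RelM
import Cfsg.Agent.H3_Wreath

/-!
# Relative M-groups, abelian Sylow subgroups
-/

set_option autoImplicit false

open scoped ComplexConjugate

namespace Cfsg.Agent.H3.RelM

open Cfsg Cfsg.Agent.H3.CharBasic Cfsg.Agent.H3.CharIrr Cfsg.Agent.H3.CharComplete
  Cfsg.Agent.H3.CharMult Cfsg.Agent.H3.CharInd Cfsg.Agent.H3.CharInt Cfsg.Agent.H3.CharCalc
  Cfsg.Agent.H3.Clifford Cfsg.Agent.H3.CharQuot Cfsg.Agent.H3.Monomial Cfsg.Agent.H3.Wreath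

universe u

/-- all `p`-subgroups of `N` are abelian -/
def AbSyl {H : Type*} [Group H] (N : Subgroup H) : Prop :=
  ∀ (p : ℕ), p.Prime → ∀ Q : Subgroup H, Q ≤ N → IsPGroup p Q → ∀ a ∈ Q, ∀ b ∈ Q, a * b = b * a

theorem AbSyl.mono {H : Type*} [Group H] {N M : Subgroup H} (h : AbSyl N) (hM : M ≤ N) : AbSyl M :=
  fun p hp Q hQ => h p hp Q (hQ.trans hM)

theorem AbSyl.subgroupOf {H : Type*} [Group H] {N : Subgroup H} (h : AbSyl N) (T : Subgroup H) :
    AbSyl (N.subgroupOf T) := by
  intro p hp Q hQ hQp a ha b hb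
  have h1 := h p hp (Q.map T.subtype) (by
    rintro _ ⟨x, hx, rfl⟩
    exact Subgroup.mem_subgroupOf.mp (hQ hx)) (hQp.map T.subtype) a ⟨a, ha, rfl⟩ b ⟨b, hb, rfl⟩
  exact Subtype.ext h1

theorem AbSyl.map {H K : Type*} [Group H] [Group K] [Finite H] {N : Subgroup H} (h : AbSyl N)
    (f : H →* K) : AbSyl (N.map f) := by
  intro p hp Q hQ hQp
  have := Fact.mk hp
  set X : Subgroup H := Q.comap f ⊓ N with hX
  let g : X →* Q := (f.comp X.subtype).codRestrict Q (fun x => x.2.1)
  have hg : Function.Surjective g := by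
    rintro ⟨q, hq⟩
    obtain ⟨n, hn, hnq⟩ := hQ hq
    exact ⟨⟨n, show f n ∈ Q by rw [hnq]; exact hq, hn⟩, Subtype.ext hnq⟩
  have : Finite Q := Finite.of_surjective g hg
  obtain ⟨P⟩ : Nonempty (Sylow p X) := inferInstance
  have h1 : (P.mapSurjective hg : Subgroup Q) = ⊤ := by
    have h2 : IsPGroup p (⊤ : Subgroup Q) := hQp.to_subgroup _
    exact ((P.mapSurjective hg).3 h2 le_top).symm
  rw [Sylow.coe_mapSurjective] at h1
  have h3 := h p hp ((P : Subgroup X).map X.subtype) (by
    rintro _ ⟨x, _, rfl⟩; exact x.2.2) (P.2.map X.subtype)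
  intro a ha b hb
  obtain ⟨x, hx, hxa⟩ : (⟨a, ha⟩ : Q) ∈ (P : Subgroup X).map g := by rw [h1]; trivial
  obtain ⟨y, hy, hyb⟩ : (⟨b, hb⟩ : Q) ∈ (P : Subgroup X).map g := by rw [h1]; trivial
  have h4 := h3 x ⟨x, hx, rfl⟩ y ⟨y, hy, rfl⟩
  have hxa' : f x = a := congrArg Subtype.val hxa
  have hyb' : f y = b := congrArg Subtype.val hyb
  rw [← hxa', ← hyb', ← map_mul, h4, map_mul]

theorem comm_of_nilpotent {B : Type*} [Group B] [Finite B] (hB : Group.IsNilpotent B)
    (h : AbSyl (⊤ : Subgroup B)) (a b : B) : a * b = b * a := by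
  obtain ⟨e⟩ := (Group.isNilpotent_of_finite_tfae (G := B)).out 0 4 rfl rfl |>.mp hB
  obtain ⟨x, rfl⟩ := e.surjective a
  obtain ⟨y, rfl⟩ := e.surjective b
  rw [← map_mul, ← map_mul]
  congr 1
  ext p P
  simp only [Pi.mul_apply, Subgroup.coe_mul]
  exact h p (Nat.prime_of_mem_primeFactors p.2) P le_top P.2 _ (x p P).2 _ (y p P).2

theorem isNilpotent_of_comm {B : Type*} [Group B] (h : ∀ a b : B, a * b = b * a) :
    Group.IsNilpotent B := by
  have : Group.IsNilpotent (Unit) := inferInstance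
  exact Subgroup.isNilpotent_of_ker_le_center (1 : B →* Unit) (fun x _ => by
    rw [Subgroup.mem_center_iff]; exact fun g => h g x)

/-- A maximal abelian normal subgroup of `H` inside `N` is self-centralizing in `N`. -/
theorem exists_self_centralizing {H : Type*} [Group H] [Finite H] (hsol : Group.IsSolvable H)
    {N : Subgroup H} (hN : N.Normal) (hab : AbSyl N) :
    ∃ A : Subgroup H, A.Normal ∧ A ≤ N ∧ (∀ a ∈ A, ∀ b ∈ A, a * b = b * a) ∧
      ∀ x ∈ N, (∀ a ∈ A, x * a = a * x) → x ∈ A := by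
  have := Fintype.ofFinite H
  have hfin : {A : Subgroup H | A.Normal ∧ A ≤ N ∧ ∀ a ∈ A, ∀ b ∈ A, a * b = b * a}.Finite :=
    Set.toFinite _
  obtain ⟨A, ⟨hAn, hAN, hAc⟩, hmax⟩ := hfin.exists_maximal ⟨⊥, inferInstance, bot_le, by
    intro a ha b hb
    rw [Subgroup.mem_bot] at ha hb
    rw [ha, hb]⟩
  refine ⟨A, hAn, hAN, hAc, ?_⟩
  set C : Subgroup H := Subgroup.centralizer (A : Set H) ⊓ N with hC
  have hAC : A ≤ C := fun a ha => ⟨Subgroup.mem_centralizer_iff.mpr fun b hb => hAc b hb a ha, hAN ha⟩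
  have hCn : C.Normal := by
    rw [hC]
    have : (Subgroup.centralizer (A : Set H)).Normal := inferInstance
    infer_instance
  suffices hCA : C = A by
    intro x hx hxA
    rw [← hCA]
    exact ⟨Subgroup.mem_centralizer_iff.mpr fun a ha => (hxA a ha).symm, hx⟩
  by_contra hne
  have hlt : A < C := lt_of_le_of_ne hAC (Ne.symm hne)
  have hfin2 : {B : Subgroup H | B.Normal ∧ A < B ∧ B ≤ C}.Finite := Set.toFinite _
  obtain ⟨B, ⟨hBn, hAB, hBC⟩, hmin⟩ := hfin2.exists_minimal ⟨C, hCn, hlt, le_rfl⟩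
  have hch : ∀ M : Subgroup H, M.Normal → A ≤ M → M ≤ B → M = A ∨ M = B := by
    intro M hM hAM hMB
    rcases hAM.eq_or_lt with h | h
    · left; exact h.symm
    · right
      exact le_antisymm hMB (hmin ⟨hM, h, hMB.trans hBC⟩ hMB)
  have hcomm := commutator_mem_of_chief (N := ⊥) (by
    obtain ⟨k, hk⟩ := hsol
    exact ⟨k, hk.le⟩) bot_le hAn hBn hAB hch
  have hAn' : (A.subgroupOf B).Normal := hAn.subgroupOf B
  have hnil : Group.IsNilpotent B := by
    have h1 : Group.IsNilpotent (B ⧸ A.subgroupOf B) := by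
      apply isNilpotent_of_comm
      intro a b
      induction a using QuotientGroup.induction_on with | H a => ?_
      induction b using QuotientGroup.induction_on with | H b => ?_
      rw [← QuotientGroup.mk_mul, ← QuotientGroup.mk_mul, QuotientGroup.eq]
      have h5 := hcomm (b⁻¹ : B) (b⁻¹ : B).2 (a⁻¹ : B) (a⁻¹ : B).2
      rw [Subgroup.mem_subgroupOf]
      have h6 : ((b⁻¹ : B) : H) * (a⁻¹ : B) * ((b⁻¹ : B) : H)⁻¹ * ((a⁻¹ : B) : H)⁻¹ =
        (((a * b)⁻¹ * (b * a) : B) : H) := by
        push_cast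
        group
      rwa [h6] at h5
    refine Subgroup.isNilpotent_of_ker_le_center (QuotientGroup.mk' (A.subgroupOf B)) ?_
    rw [QuotientGroup.ker_mk']
    intro x hx
    rw [Subgroup.mem_center_iff]
    intro g
    have h2 : (g : H) ∈ Subgroup.centralizer (A : Set H) := (hBC g.2).1
    exact Subtype.ext ((Subgroup.mem_centralizer_iff.mp h2 x (Subgroup.mem_subgroupOf.mp hx)).symm)
  have hBab : AbSyl (⊤ : Subgroup B) := by
    have h1 := (hab.mono (hBC.trans inf_le_right)).subgroupOf B
    rwa [Subgroup.subgroupOf_self] at h1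
  have hBc := comm_of_nilpotent hnil hBab
  have h3 := hmax ⟨hBn, hBC.trans inf_le_right, fun a ha b hb => congrArg Subtype.val (hBc ⟨a, ha⟩ ⟨b, hb⟩)⟩ hAB.le
  exact absurd h3 hAB.not_ge

theorem isIrr_of_comp {H Q : Type*} [Group H] [Group Q] [Fintype H] [Fintype Q] (f : H →* Q)
    (hf : Function.Surjective f) {χ : Q → ℂ} (hc : IsCharacter Q χ)
    (h : IsIrrCharacter H (fun x => χ (f x))) : IsIrrCharacter Q χ := by
  rw [isIrr_iff_norm] at h ⊢
  refine ⟨hc, ?_⟩
  rw [← h.2]
  simp only [classInner]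
  rw [sum_comp_surj f hf (fun q => χ q * conj (χ q))]
  have h1 : (Nat.card H : ℂ) = Nat.card f.ker * Nat.card Q := by
    rw [← f.ker.card_mul_index, Subgroup.index_ker, MonoidHom.range_eq_top.mpr hf,
      Nat.card_congr (Subgroup.topEquiv (G := Q)).toEquiv]
    push_cast; rfl
  have h2 : (Nat.card f.ker : ℂ) ≠ 0 := by exact_mod_cast Nat.card_pos.ne'
  have h3 : (Nat.card Q : ℂ) ≠ 0 := by exact_mod_cast Nat.card_pos.ne'
  rw [h1]
  field_simp

/-- the Clifford correspondent restricts irreducibly -/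
theorem res_irr_of_corr {H : Type*} [Group H] [Fintype H] {N T : Subgroup H} [Fintype T]
    (hN : N.Normal) {ψ : H → ℂ} (hψ : IsIrrCharacter H ψ)
    (hψN : IsIrrCharacter N (fun x : N => ψ x)) {ψ1 : T → ℂ} (hψ1 : IsIrrCharacter T ψ1)
    (hind : indFun T ψ1 = ψ) : IsIrrCharacter (N.subgroupOf T) (fun x => ψ1 x) := by
  classical
  have hfN : Fintype N := Fintype.ofFinite _
  have hfS : Fintype (N.subgroupOf T) := Fintype.ofFinite _
  have hfS' : Fintype (N ⊓ T : Subgroup H) := Fintype.ofFinite _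
  have hfS2 : Fintype ((N ⊓ T).subgroupOf N) := Fintype.ofFinite _
  -- restrict to `S = N ⊓ T`
  let e1 : (N ⊓ T : Subgroup H) ≃* N.subgroupOf T :=
    { toFun := fun x => ⟨⟨x, x.2.2⟩, Subgroup.mem_subgroupOf.mpr x.2.1⟩
      invFun := fun x => ⟨(x : T), Subgroup.mem_subgroupOf.mp x.2, (x : T).2⟩
      left_inv := fun x => rfl
      right_inv := fun x => rfl
      map_mul' := fun x y => rfl }
  obtain ⟨η, hη, h1⟩ := exists_constituent_res (H := N.subgroupOf T) hψ1
  have hη' : IsIrrCharacter (N ⊓ T : Subgroup H) (fun x => η (e1 x)) := (isIrr_comp_iff e1).mpr hη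
  have h1' : classInner (fun k : (N ⊓ T : Subgroup H) => ψ1 ⟨k, (inf_le_right : N ⊓ T ≤ T) k.2⟩) (fun x => η (e1 x)) ≠ 0 := by
    intro h0
    apply h1
    rw [← h0]
    simp only [classInner]
    rw [Nat.card_congr e1.toEquiv]
    congr 1
    exact (Equiv.sum_comp e1.toEquiv (fun x : N.subgroupOf T => ψ1 x * conj (η x))).symm
  have h2 : classInner (fun b : T => ψ b) ψ1 ≠ 0 := by
    rw [← constituent_ind_iff (IsIrr.isCharacter hψ), hind, ci_irr_self hψ]
    exact one_ne_zero
  have h3 := ci_chain (K := N ⊓ T) (B := T) inf_le_right (IsIrr.isCharacter hψ) hψ1 h2 hη' h1'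
  -- as a subgroup of N
  have hle : N ⊓ T ≤ N := inf_le_left
  let e2 := Subgroup.subgroupOfEquivOfLe hle
  have hη2 : IsIrrCharacter ((N ⊓ T).subgroupOf N) (fun x => η (e1 (e2 x))) :=
    (isIrr_comp_iff e2).mpr hη'
  have h4 : classInner (fun x : (N ⊓ T).subgroupOf N => ψ x) (fun x => η (e1 (e2 x))) ≠ 0 := by
    intro h0
    apply h3
    rw [← h0]
    simp only [classInner]
    rw [Nat.card_congr e2.toEquiv]
    congr 1
    exact (Equiv.sum_comp e2.toEquiv (fun x : (N ⊓ T : Subgroup H) => ψ x * conj (η (e1 x)))).symm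
  have h5 : classInner (indFun ((N ⊓ T).subgroupOf N) (fun x => η (e1 (e2 x)))) (fun x : N => ψ x) ≠ 0 :=
    (constituent_ind_iff (IsIrr.isCharacter hψN)).mpr h4
  obtain ⟨d, -, hd⟩ := IsIrr.one_eq_nat hψ
  obtain ⟨d1, hd1p, hd1⟩ := IsIrr.one_eq_nat hψ1
  obtain ⟨d2, hd2p, hd2⟩ := IsIrr.one_eq_nat hη
  have h6 : indFun ((N ⊓ T).subgroupOf N) (fun x => η (e1 (e2 x))) 1 =
      (((N ⊓ T).relIndex N * d2 : ℕ) : ℂ) := by
    rw [ind_one, map_one, map_one, hd2]
    push_cast; rfl
  have h7 := IsChar.degree_le' (IsChar.ind (IsIrr.isCharacter hη2)) hψN h5 h6 (b := d) hd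
  have h8 : d = T.index * d1 := by
    have : (d : ℂ) = ((T.index * d1 : ℕ) : ℂ) := by
      rw [← hd, ← hind, ind_one, hd1]; push_cast; ring
    exact_mod_cast this
  have h9 : (N ⊓ T).relIndex N ≤ T.index := by
    rw [Subgroup.inf_relIndex_left]
    have := Subgroup.relIndex_le_of_le_right (H := T) (K := N) (L := ⊤) le_top (by
      rw [Subgroup.relIndex_top_right]; exact Subgroup.index_ne_zero_of_finite)
    rwa [Subgroup.relIndex_top_right] at this
  have h10 : d2 ≤ d1 := IsChar.degree_le' (IsChar.res (IsIrr.isCharacter hψ1) _) hη h1 (a := d1) (b := d2) hd1 hd2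
  have h11 : d1 = d2 := by
    refine le_antisymm ?_ h10
    have hT : 0 < T.index := Nat.pos_of_ne_zero Subgroup.index_ne_zero_of_finite
    have h12 : T.index * d1 ≤ T.index * d2 := by
      rw [← h8]
      exact h7.trans (Nat.mul_le_mul_right _ h9)
    exact Nat.le_of_mul_le_mul_left h12 hT
  have h12 := IsChar.eq_of_degree (IsChar.res (IsIrr.isCharacter hψ1) (N.subgroupOf T)) hη h1 (by
    rw [hd2, ← h11]; exact hd1)
  rw [h12]
  exact hη

theorem mon_of_abSyl (n : ℕ) : ∀ (H : Type u) [Group H] [Fintype H], Nat.card H ≤ n →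
    Group.IsSolvable H → ∀ N : Subgroup H, N.Normal → AbSyl N → ∀ ψ : H → ℂ, IsIrrCharacter H ψ →
    IsIrrCharacter N (fun x : N => ψ x) → IsMon ψ := by
  classical
  induction n with
  | zero =>
    intro H _ _ hc
    have : 0 < Nat.card H := Nat.card_pos
    omega
  | succ n ih =>
    intro H _ _ hc hsol N hN hab ψ hψ hψN
    by_cases hK : chKer ψ (IsIrr.isCharacter hψ) = ⊥
    · obtain ⟨A, hA, hAN, hAc, hself⟩ := exists_self_centralizing hsol hN hab
      by_cases hAZ : A ≤ Subgroup.center H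
      · have hNc : ∀ a b : N, a * b = b * a := by
          intro a b
          have hNA : ∀ x ∈ N, x ∈ A := fun x hx => hself x hx fun y hy =>
            Subgroup.mem_center_iff.mp (hAZ hy) x
          exact Subtype.ext (hAc a (hNA a a.2) b (hNA b b.2))
        exact IsMon.of_one hψ (IsIrr.one_of_comm hNc hψN)
      · have hfA : Fintype A := Fintype.ofFinite _
        obtain ⟨θ, hθ, h1⟩ := exists_constituent_res (H := A) hψ
        have hθ1 : θ 1 = 1 := IsIrr.one_of_comm (fun a b => Subtype.ext (hAc a a.2 b b.2)) hθ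
        have hfT : Fintype (inertia hA θ) := Fintype.ofFinite _
        have hT : inertia hA θ ≠ ⊤ := by
          intro hT
          apply hAZ
          intro a ha
          have hinv : ∀ g : H, cj hA g θ = θ := fun g => by
            rw [← mem_inertia, hT]; trivial
          have h2 := clifford_invariant hA hψ hθ h1 hinv
          have h3 := congrFun h2 ⟨a, ha⟩
          have h4 := congrFun h2 1
          simp only [Pi.smul_apply, smul_eq_mul, Subgroup.coe_one] at h3 h4
          rw [hθ1, mul_one] at h4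
          rw [← h4] at h3
          obtain ⟨f, hf⟩ := IsChar.hom_units_of_one (IsIrr.isCharacter hθ) hθ1
          have h5 : ‖θ ⟨a, ha⟩‖ = 1 := by
            have : (f ⟨a, ha⟩) ^ (Nat.card A) = 1 := by rw [← map_pow, pow_card_eq_one', map_one]
            rw [hf]
            refine Complex.norm_eq_one_of_pow_eq_one (n := Nat.card A) ?_ Nat.card_pos.ne'
            rw [← Units.val_pow_eq_pow_val, this, Units.val_one]
          have h6 : ‖ψ a‖ = ‖ψ 1‖ := by rw [h3, norm_mul, h5, mul_one]
          rw [Subgroup.mem_center_iff]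
          intro g
          have h7 : a * g * a⁻¹ * g⁻¹ ∈ chKer ψ (IsIrr.isCharacter hψ) :=
            IsChar.comm_of_norm (IsIrr.isCharacter hψ) h6 g
          rw [hK, Subgroup.mem_bot] at h7
          have h8 : a * g = g * a := by
            have : a * g = (a * g * a⁻¹ * g⁻¹) * (g * a) := by group
            rw [this, h7, one_mul]
          exact h8.symm
        obtain ⟨ψ1, hψ1, h2, -⟩ := clifford_corr hA hψ hθ h1 (inertia hA θ) rfl
          (le_inertia hA (IsIrr.isClass hθ))
        have h3 := res_irr_of_corr hN hψ hψN hψ1 h2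
        rw [← h2]
        apply IsMon.ind
        refine ih (inertia hA θ) ?_ inferInstance (N.subgroupOf _) (hN.subgroupOf _)
          (hab.subgroupOf _) ψ1 hψ1 h3
        have h4 := (inertia hA θ).card_mul_index
        have h5 : (inertia hA θ).index ≠ 1 := fun h => hT (Subgroup.index_eq_one.mp h)
        have h6 : (inertia hA θ).index ≠ 0 := Subgroup.index_ne_zero_of_finite
        have h7 : 2 ≤ (inertia hA θ).index := by omega
        have h8 : 0 < Nat.card (inertia hA θ) := Nat.card_pos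
        nlinarith
    · set K := chKer ψ (IsIrr.isCharacter hψ) with hKdef
      have hKn : K.Normal := chKer_normal (IsIrr.isCharacter hψ)
      obtain ⟨ψ', hψ', h2⟩ := IsIrr.descend hψ K (fun n hn => hn)
      have hfQ : Fintype (H ⧸ K) := Fintype.ofFinite _
      have hfN : Fintype N := Fintype.ofFinite _
      have hfN' : Fintype (N.map (QuotientGroup.mk' K)) := Fintype.ofFinite _
      let g : N →* N.map (QuotientGroup.mk' K) := ((QuotientGroup.mk' K).comp N.subtype).codRestrict _
        (fun x => ⟨x, x.2, rfl⟩)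
      have hg : Function.Surjective g := by
        rintro ⟨_, x, hx, rfl⟩
        exact ⟨⟨x, hx⟩, rfl⟩
      have h3 := ih (H ⧸ K) (by
        have h4 := K.card_mul_index
        have h5 : 1 < Nat.card K := by
          rw [← not_le]
          intro h
          exact hK (Subgroup.eq_bot_of_card_le K h)
        have h6 : 0 < K.index := Nat.pos_of_ne_zero K.index_ne_zero_of_finite
        have h7 : Nat.card (H ⧸ K) = K.index := rfl
        nlinarith) inferInstance (N.map (QuotientGroup.mk' K))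
        (hN.map _ (QuotientGroup.mk'_surjective K)) (hab.map _) ψ' hψ' (by
          apply isIrr_of_comp g hg (IsChar.res (IsIrr.isCharacter hψ') _)
          have h4 : (fun x : N => (fun y : N.map (QuotientGroup.mk' K) => ψ' y) (g x)) =
              fun x : N => ψ x := by
            ext x
            exact h2 x
          rw [h4]
          exact hψN)
      have h4 := IsMon.comp_surj (QuotientGroup.mk' K) (QuotientGroup.mk'_surjective K) h3
      have h5 : ψ = fun g => ψ' (QuotientGroup.mk' K g) := by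
        ext g; exact (h2 g).symm
      rw [h5]; exact h4

end Cfsg.Agent.H3.RelM
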