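import Mathlib
import Cfsg.Prelude

/-!
# An element of prime order which is its own centralizer
-/

set_option autoImplicit false

open scoped commutatorElement Pointwise

namespace Cfsg.Agent.H3.SelfC

open Subgroup

variable {G : Type*} [Group G] [Finite G] {p : ℕ} {x : G}

theorem card_zpowers' (hx : orderOf x = p) : Nat.card (zpowers x) = p := by rw [Nat.card_zpowers, hx]

theorem mem_zp (hC : centralizer ({x} : Set G) = zpowers x) {g : G} (h : g * x = x * g) : g ∈ zpowers x := by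
  rw [← hC, mem_centralizer_singleton_iff]
  exact h

/-- the subgroup generated by `x` is a Sylow subgroup -/
theorem exists_sylow (hp : p.Prime) (hx : orderOf x = p) (hC : centralizer ({x} : Set G) = zpowers x) :
    ∃ P : Sylow p G, (P : Subgroup G) = zpowers x := by
  have : Fact p.Prime := ⟨hp⟩
  have hPp : IsPGroup p (zpowers x) := IsPGroup.of_card (n := 1) (by rw [card_zpowers' hx, pow_one])
  obtain ⟨Q, hQ⟩ := hPp.exists_le_sylow
  refine ⟨Q, le_antisymm ?_ hQ⟩
  have hxQ : x ∈ Q := hQ (mem_zpowers x)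
  have hnt : Nontrivial Q := by
    refine ⟨⟨⟨x, hxQ⟩, 1, fun h => ?_⟩⟩
    have h1 : x = 1 := congrArg Subtype.val h
    rw [h1, orderOf_one] at hx
    exact hp.one_lt.ne hx
  have := Q.2.center_nontrivial
  obtain ⟨z, hz⟩ := exists_ne (1 : center Q)
  have hz1 : ((z : Q) : G) ≠ 1 := fun h => hz (Subtype.ext (Subtype.ext h))
  have hzc : ∀ g ∈ Q, g * ((z : Q) : G) = ((z : Q) : G) * g := fun g hg => congrArg Subtype.val (mem_center_iff.mp z.2 ⟨g, hg⟩)
  have hzx : ((z : Q) : G) ∈ zpowers x := mem_zp hC (hzc x hxQ).symm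
  have hzz : zpowers ((z : Q) : G) = zpowers x := by
    apply eq_of_le_of_card_ge (zpowers_le.mpr hzx)
    have h2 : orderOf ((z : Q) : G) ∣ p := (orderOf_dvd_of_mem_zpowers hzx).trans (dvd_of_eq hx)
    rcases (Nat.dvd_prime hp).mp h2 with h3 | h3
    · exact absurd (orderOf_eq_one_iff.mp h3) hz1
    · rw [Nat.card_zpowers, Nat.card_zpowers, h3, hx]
  intro g hg
  apply mem_zp hC
  have hxz : x ∈ zpowers ((z : Q) : G) := by rw [hzz]; exact mem_zpowers x
  obtain ⟨k, hk⟩ := mem_zpowers_iff.mp hxz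
  rw [← hk]
  exact ((show Commute g ((z : Q) : G) from hzc g hg).zpow_right k).eq

theorem not_dvd_index (hp : p.Prime) (hx : orderOf x = p) (hC : centralizer ({x} : Set G) = zpowers x) :
    ¬ p ∣ (zpowers x).index := by
  have : Fact p.Prime := ⟨hp⟩
  obtain ⟨P, hP⟩ := exists_sylow hp hx hC
  rw [← hP]
  exact P.not_dvd_index

/-- Subgroups of order `p` are the Sylow subgroups -/
theorem card_subgroups (hp : p.Prime) (hx : orderOf x = p) (hC : centralizer ({x} : Set G) = zpowers x) :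
    Nat.card {H : Subgroup G // Nat.card H = p} = (normalizer ((zpowers x : Subgroup G) : Set G)).index := by
  have : Fact p.Prime := ⟨hp⟩
  obtain ⟨P, hP⟩ := exists_sylow hp hx hC
  have hidx : Nat.card (Sylow p G) = (normalizer ((P : Subgroup G) : Set G)).index := Sylow.card_eq_index_normalizer P
  rw [← hP, ← hidx]
  have hcard : ∀ Q : Sylow p G, Nat.card Q = p := by
    intro Q
    rw [Nat.card_congr (Q.equiv P).toEquiv]
    show Nat.card (P : Subgroup G) = p
    rw [hP, card_zpowers' hx]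
  refine (Nat.card_congr (Equiv.ofBijective (fun Q : Sylow p G => (⟨(Q : Subgroup G), hcard Q⟩ : {H : Subgroup G // Nat.card H = p})) ⟨?_, ?_⟩)).symm
  · intro Q R h
    exact Sylow.ext (congrArg Subtype.val h)
  · rintro ⟨H, hH⟩
    have hHp : IsPGroup p H := IsPGroup.of_card (n := 1) (by rw [hH, pow_one])
    obtain ⟨Q, hQ⟩ := hHp.exists_le_sylow
    refine ⟨Q, Subtype.ext (eq_of_le_of_card_ge hQ ?_).symm⟩
    rw [hH]
    exact (hcard Q).le

section Sec

variable (hp : p.Prime) (hx : orderOf x = p) (hC : centralizer ({x} : Set G) = zpowers x)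

include hp hx hC

/-- any subgroup of order divisible by `p`, if normal, contains `x` -/
theorem mem_of_dvd (S : Subgroup G) [S.Normal] (hS : p ∣ Nat.card S) : x ∈ S := by
  have : Fact p.Prime := ⟨hp⟩
  obtain ⟨P, hP⟩ := exists_sylow hp hx hC
  obtain ⟨y, hy⟩ := exists_prime_orderOf_dvd_card' (G := S) p hS
  have hy2 : orderOf (y : G) = p := by rw [orderOf_coe, hy]
  have hyp : IsPGroup p (zpowers (y : G)) := IsPGroup.of_card (n := 1) (by rw [Nat.card_zpowers, hy2, pow_one])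
  obtain ⟨Q, hQ⟩ := hyp.exists_le_sylow
  obtain ⟨g, hg⟩ := MulAction.exists_smul_eq G Q P
  have h1 : g * (y : G) * g⁻¹ ∈ zpowers x := by
    rw [← hP, ← hg]
    exact Subgroup.smul_mem_pointwise_smul (y : G) (MulAut.conj g) (Q : Subgroup G) (hQ (mem_zpowers _))
  have h2 : g * (y : G) * g⁻¹ ∈ S := ‹S.Normal›.conj_mem _ y.2 g
  have h3 : orderOf (g * (y : G) * g⁻¹) = p := by
    rw [← hy2]
    exact MulEquiv.orderOf_eq (MulAut.conj g) (y : G)
  have h4 : zpowers (g * (y : G) * g⁻¹) = zpowers x := by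
    apply eq_of_le_of_card_ge (zpowers_le.mpr h1)
    rw [Nat.card_zpowers, Nat.card_zpowers, h3, hx]
  have h5 : x ∈ zpowers (g * (y : G) * g⁻¹) := by rw [h4]; exact mem_zpowers x
  exact zpowers_le.mpr h2 h5

omit hC in
theorem inf_eq_bot (S : Subgroup G) (hS : ¬ p ∣ Nat.card S) : S ⊓ zpowers x = ⊥ := by
  rw [← card_eq_one]
  have h1 : Nat.card (S ⊓ zpowers x : Subgroup G) ∣ p := by
    rw [← card_zpowers' hx]
    exact card_dvd_of_le inf_le_right
  rcases (Nat.dvd_prime hp).mp h1 with h2 | h2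
  · exact h2
  · exact absurd (h2 ▸ card_dvd_of_le (inf_le_left : S ⊓ zpowers x ≤ S)) hS

/-- `x` acts without fixed points on a normal `p'`-subgroup -/
theorem fpf (S : Subgroup G) (hS : ¬ p ∣ Nat.card S) {s : G} (hs : s ∈ S) (h : s * x = x * s) : s = 1 := by
  have h1 : s ∈ S ⊓ zpowers x := ⟨hs, mem_zp hC h⟩
  rw [inf_eq_bot hp hx S hS] at h1
  exact h1

theorem card_mod (S : Subgroup G) [hSn : S.Normal] (hS : ¬ p ∣ Nat.card S) : Nat.card S % p = 1 := by
  classical
  have : Fact p.Prime := ⟨hp⟩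
  have hPp : IsPGroup p (zpowers x) := IsPGroup.of_card (n := 1) (by rw [card_zpowers' hx, pow_one])
  let _ : MulAction (zpowers x) S := MulAction.compHom S ((MulAut.conjNormal (H := S)).comp (zpowers x).subtype)
  have h1 := hPp.card_modEq_card_fixedPoints S
  have h2 : Nat.card (MulAction.fixedPoints (zpowers x) S) = 1 := by
    rw [Nat.card_eq_one_iff_unique]
    refine ⟨⟨fun a b => ?_⟩, ⟨⟨1, fun g => ?_⟩⟩⟩
    · have key : ∀ a : MulAction.fixedPoints (zpowers x) S, ((a : S) : G) = 1 := by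
        intro a
        apply fpf hp hx hC S hS (a : S).2
        have h3 := congrArg Subtype.val (a.2 ⟨x, mem_zpowers x⟩)
        have h4 : x * ((a : S) : G) * x⁻¹ = ((a : S) : G) := h3
        exact (mul_inv_eq_iff_eq_mul.mp h4).symm
      exact Subtype.ext (Subtype.ext ((key a).trans (key b).symm))
    · exact map_one (MulAut.conjNormal (H := S) (g : G))
  rw [h2] at h1
  have h3 : Nat.card S % p = 1 % p := h1
  rw [h3, Nat.mod_eq_of_lt hp.one_lt]

theorem inf_norm (S : Subgroup G) [hSn : S.Normal] (hS : ¬ p ∣ Nat.card S) :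
    S ⊓ normalizer ((zpowers x : Subgroup G) : Set G) = ⊥ := by
  rw [eq_bot_iff]
  rintro s ⟨hs, hsn⟩
  rw [mem_bot]
  apply fpf hp hx hC S hS hs
  have h1 : s * x * s⁻¹ ∈ zpowers x := (mem_normalizer_iff.mp hsn x).mp (mem_zpowers x)
  have h2 : s * x * s⁻¹ * x⁻¹ ∈ S ⊓ zpowers x := by
    refine ⟨?_, (zpowers x).mul_mem h1 ((zpowers x).inv_mem (mem_zpowers x))⟩
    have h3 : s * x * s⁻¹ * x⁻¹ = s * (x * s⁻¹ * x⁻¹) := by group
    rw [h3]
    exact S.mul_mem hs (hSn.conj_mem _ (S.inv_mem hs) x)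
  rw [inf_eq_bot hp hx S hS, mem_bot] at h2
  have h3 := mul_inv_eq_one.mp h2
  exact mul_inv_eq_iff_eq_mul.mp h3

theorem card_sup (S : Subgroup G) [hSn : S.Normal] (hS : ¬ p ∣ Nat.card S) :
    Nat.card (S ⊔ normalizer ((zpowers x : Subgroup G) : Set G) : Subgroup G) =
      Nat.card S * Nat.card (normalizer ((zpowers x : Subgroup G) : Set G)) := by
  have h1 : S.relIndex (normalizer ((zpowers x : Subgroup G) : Set G)) = Nat.card (normalizer ((zpowers x : Subgroup G) : Set G)) := by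
    rw [← inf_relIndex_right, inf_norm hp hx hC S hS, relIndex_bot_left]
  have h2 : S.relIndex (S ⊔ normalizer ((zpowers x : Subgroup G) : Set G)) = S.relIndex (normalizer ((zpowers x : Subgroup G) : Set G)) :=
    relIndex_sup_left _ _
  have h3 := relIndex_mul_relIndex ⊥ S (S ⊔ normalizer ((zpowers x : Subgroup G) : Set G)) bot_le le_sup_left
  rw [h2, h1, relIndex_bot_left, relIndex_bot_left] at h3
  exact h3.symm

theorem card_dvd (S : Subgroup G) [hSn : S.Normal] (hS : ¬ p ∣ Nat.card S) :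
    Nat.card S ∣ (normalizer ((zpowers x : Subgroup G) : Set G)).index := by
  have h1 := card_sup hp hx hC S hS
  have h2 : Nat.card (S ⊔ normalizer ((zpowers x : Subgroup G) : Set G) : Subgroup G) ∣ Nat.card G := card_subgroup_dvd_card _
  rw [h1, ← (normalizer ((zpowers x : Subgroup G) : Set G)).card_mul_index, mul_comm] at h2
  exact Nat.dvd_of_mul_dvd_mul_left Nat.card_pos h2

/-- if `S` is a normal subgroup of order divisible by `p`, then `G = S N(⟨x⟩)` -/
theorem frattini (S : Subgroup G) [hSn : S.Normal] (hS : p ∣ Nat.card S) (g : G) :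
    ∃ s ∈ S, s * g ∈ normalizer ((zpowers x : Subgroup G) : Set G) := by
  have : Fact p.Prime := ⟨hp⟩
  have hxS := mem_of_dvd hp hx hC S hS
  obtain ⟨P, hP⟩ := exists_sylow hp hx hC
  have hPS : (P : Subgroup G) ≤ S := by rw [hP, zpowers_le]; exact hxS
  have hPn : zpowers x ≤ S := zpowers_le.mpr hxS
  -- two Sylow subgroups of `S`
  let P1 : Sylow p S := P.subtype hPS
  have hgP : ((g • P : Sylow p G) : Subgroup G) ≤ S := by
    rw [Sylow.coe_subgroup_smul]
    intro y hy
    rw [mem_pointwise_smul_iff_inv_smul_mem, ← map_inv, MulAut.smul_def, MulAut.conj_apply, inv_inv] at hy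
    have h1 := hSn.conj_mem _ (hPS hy) g
    have h2 : g * (g⁻¹ * y * g) * g⁻¹ = y := by group
    rwa [h2] at h1
  let P2 : Sylow p S := (g • P).subtype hgP
  obtain ⟨s, hs⟩ := MulAction.exists_smul_eq S P2 P1
  refine ⟨s, s.2, ?_⟩
  rw [mem_normalizer_iff]
  have key : ∀ y : G, y ∈ zpowers x → (s * g) * y * (s * g)⁻¹ ∈ zpowers x := by
    intro y hy
    have hy2 : g * y * g⁻¹ ∈ (g • P : Sylow p G) := by
      show g * y * g⁻¹ ∈ ((g • P : Sylow p G) : Subgroup G)
      rw [Sylow.coe_subgroup_smul]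
      exact Subgroup.smul_mem_pointwise_smul y (MulAut.conj g) (P : Subgroup G) (by rw [hP]; exact hy)
    have hy3 : (⟨g * y * g⁻¹, hgP hy2⟩ : S) ∈ (P2 : Subgroup S) := by
      rw [Sylow.coe_subtype]
      exact hy2
    have hy4 : s * (⟨g * y * g⁻¹, hgP hy2⟩ : S) * s⁻¹ ∈ ((s • P2 : Sylow p S) : Subgroup S) := by
      rw [Sylow.coe_subgroup_smul]
      exact Subgroup.smul_mem_pointwise_smul _ (MulAut.conj s) (P2 : Subgroup S) hy3
    rw [hs, Sylow.coe_subtype, mem_subgroupOf, hP] at hy4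
    have hy5 : ((s * (⟨g * y * g⁻¹, hgP hy2⟩ : S) * s⁻¹ : S) : G) = (s * g) * y * (s * g)⁻¹ := by
      show (s : G) * (g * y * g⁻¹) * (s : G)⁻¹ = _
      group
    rw [hy5] at hy4
    exact hy4
  intro y
  refine ⟨key y, fun hy => ?_⟩
  have hle : (zpowers x).map (MulAut.conj ((s : G) * g)).toMonoidHom ≤ zpowers x := by
    rintro _ ⟨y, hy, rfl⟩
    exact key y hy
  have heq : (zpowers x).map (MulAut.conj ((s : G) * g)).toMonoidHom = zpowers x := by
    apply eq_of_le_of_card_ge hle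
    rw [card_map_of_injective (MulAut.conj ((s : G) * g)).injective]
  rw [← heq] at hy
  obtain ⟨y', hy', hyy⟩ := hy
  have : y' = y := (MulAut.conj ((s : G) * g)).injective hyy
  rw [← this]
  exact hy'

/-- `N(⟨x⟩)` is abelian modulo `⟨x⟩` -/
theorem comm_mem {a b : G} (ha : a ∈ normalizer ((zpowers x : Subgroup G) : Set G)) (hb : b ∈ normalizer ((zpowers x : Subgroup G) : Set G)) :
    ⁅a, b⁆ ∈ zpowers x := by
  have key : ∀ g ∈ normalizer ((zpowers x : Subgroup G) : Set G), ∃ k : ℤ, g * x * g⁻¹ = x ^ k := by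
    intro g hg
    obtain ⟨k, hk⟩ := mem_zpowers_iff.mp ((mem_normalizer_iff.mp hg x).mp (mem_zpowers x))
    exact ⟨k, hk.symm⟩
  obtain ⟨k, hk⟩ := key a ha
  obtain ⟨l, hl⟩ := key b hb
  have conj_zpow' : ∀ (g : G) (m : ℤ), g * x ^ m * g⁻¹ = (g * x * g⁻¹) ^ m := fun g m => by
    rw [conj_zpow]
  apply mem_zp hC
  have h1 : a * b * x * (a * b)⁻¹ = b * a * x * (b * a)⁻¹ := by
    calc a * b * x * (a * b)⁻¹ = a * (b * x * b⁻¹) * a⁻¹ := by group
      _ = (x ^ k) ^ l := by rw [hl, conj_zpow', hk]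
      _ = (x ^ l) ^ k := by rw [← zpow_mul, ← zpow_mul, mul_comm]
      _ = b * (a * x * a⁻¹) * b⁻¹ := by rw [hk, conj_zpow', hl]
      _ = _ := by group
  have h2 : ⁅a, b⁆ * (b * a * x * (b * a)⁻¹) * ⁅a, b⁆⁻¹ = a * b * x * (a * b)⁻¹ := by
    rw [commutatorElement_def]
    group
  -- conjugation by the commutator fixes `x ^ (l k)`, hence `x`
  have h3 : ⁅a, b⁆ * x * ⁅a, b⁆⁻¹ = x := by
    have h4 : ∀ g ∈ normalizer ((zpowers x : Subgroup G) : Set G), g * x * g⁻¹ ≠ 1 := by
      intro g _ h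
      have h5 : x = 1 := by
        rw [mul_inv_eq_one] at h
        exact mul_left_cancel (h.trans (mul_one g).symm)
      rw [h5, orderOf_one] at hx
      exact hp.one_lt.ne hx
    have hba : b * a ∈ normalizer ((zpowers x : Subgroup G) : Set G) := mul_mem hb ha
    have hcomm : ⁅a, b⁆ ∈ normalizer ((zpowers x : Subgroup G) : Set G) := by
      rw [commutatorElement_def]
      exact mul_mem (mul_mem (mul_mem ha hb) (inv_mem ha)) (inv_mem hb)
    obtain ⟨m, hm⟩ := key _ hcomm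
    obtain ⟨r, hr⟩ := key _ hba
    rw [hr, conj_zpow', hm, h1, hr, ← zpow_mul] at h2
    have hgen : zpowers (x ^ r) = zpowers x := by
      have h6 : orderOf (x ^ r) = p := by
        rw [← hr, ← hx]
        exact MulEquiv.orderOf_eq (MulAut.conj (b * a)) x
      apply eq_of_le_of_card_ge (zpowers_le.mpr (zpow_mem (mem_zpowers x) r))
      rw [Nat.card_zpowers, Nat.card_zpowers, h6, hx]
    obtain ⟨q, hq⟩ := mem_zpowers_iff.mp (show x ∈ zpowers (x ^ r) by rw [hgen]; exact mem_zpowers x)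
    rw [hm]
    calc x ^ m = ((x ^ r) ^ q) ^ m := by rw [hq]
      _ = (x ^ (m * r)) ^ q := by rw [← zpow_mul, ← zpow_mul, ← zpow_mul]; congr 1; ring
      _ = (x ^ r) ^ q := by rw [h2]
      _ = x := hq
  exact mul_inv_eq_iff_eq_mul.mp h3

theorem commutator_le (S : Subgroup G) [hSn : S.Normal] (hS : p ∣ Nat.card S) : commutator G ≤ S := by
  rw [commutator_def, Subgroup.commutator_le]
  intro a _ b _
  obtain ⟨s, hs, hsa⟩ := frattini hp hx hC S hS a
  obtain ⟨t, ht, htb⟩ := frattini hp hx hC S hS b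
  have h1 := zpowers_le.mpr (mem_of_dvd hp hx hC S hS) (comm_mem hp hx hC hsa htb)
  rw [← QuotientGroup.eq_one_iff] at h1 hs ht ⊢
  have hs' : ((s * a : G) : G ⧸ S) = (a : G ⧸ S) := by rw [QuotientGroup.mk_mul, hs, one_mul]
  have ht' : ((t * b : G) : G ⧸ S) = (b : G ⧸ S) := by rw [QuotientGroup.mk_mul, ht, one_mul]
  rw [← QuotientGroup.mk'_apply, map_commutatorElement, QuotientGroup.mk'_apply, QuotientGroup.mk'_apply] at h1 ⊢
  rw [hs', ht'] at h1
  exact h1

theorem comm_inj (S : Subgroup G) [hSn : S.Normal] (hS : ¬ p ∣ Nat.card S) {s : G} (hs : s ∈ S) :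
    ∃ r ∈ S, x⁻¹ * r⁻¹ * x * r = s := by
  have hinj : Function.Injective (fun r : S => (⟨x⁻¹ * (r : G)⁻¹ * x * r, S.mul_mem (by
      have := hSn.conj_mem _ (S.inv_mem r.2) x⁻¹
      rwa [inv_inv] at this) r.2⟩ : S)) := by
    intro r t h
    have h1 : x⁻¹ * (r : G)⁻¹ * x * r = x⁻¹ * (t : G)⁻¹ * x * t := congrArg Subtype.val h
    have h2 : ((t : G) * (r : G)⁻¹) * x = x * ((t : G) * (r : G)⁻¹) := by
      calc ((t : G) * (r : G)⁻¹) * x = t * x * (x⁻¹ * (r : G)⁻¹ * x * r) * (r : G)⁻¹ := by group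
        _ = t * x * (x⁻¹ * (t : G)⁻¹ * x * t) * (r : G)⁻¹ := by rw [h1]
        _ = _ := by group
    have h3 := fpf hp hx hC S hS (S.mul_mem t.2 (S.inv_mem r.2)) h2
    exact Subtype.ext (mul_inv_eq_one.mp h3).symm
  obtain ⟨r, hr⟩ := Finite.surjective_of_injective hinj ⟨s, hs⟩
  exact ⟨r, r.2, congrArg Subtype.val hr⟩

theorem mk_order (S : Subgroup G) [hSn : S.Normal] (hS : ¬ p ∣ Nat.card S) : orderOf (QuotientGroup.mk x : G ⧸ S) = p := by
  have : Fact p.Prime := ⟨hp⟩
  apply orderOf_eq_prime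
  · rw [← QuotientGroup.mk_pow, ← hx, pow_orderOf_eq_one, QuotientGroup.mk_one]
  · intro h
    rw [QuotientGroup.eq_one_iff] at h
    apply hS
    rw [← hx, ← Nat.card_zpowers]
    exact card_dvd_of_le (zpowers_le.mpr h)

theorem mk_centralizer (S : Subgroup G) [hSn : S.Normal] (hS : ¬ p ∣ Nat.card S) :
    centralizer ({(QuotientGroup.mk x : G ⧸ S)} : Set (G ⧸ S)) = zpowers (QuotientGroup.mk x : G ⧸ S) := by
  have : Fact p.Prime := ⟨hp⟩
  apply le_antisymm
  · intro g hg
    induction g using QuotientGroup.induction_on with | H g => ?_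
    rw [mem_centralizer_singleton_iff] at hg
    rw [← QuotientGroup.mk_mul, ← QuotientGroup.mk_mul, QuotientGroup.eq] at hg
    obtain ⟨r, hrS, hr'⟩ := comm_inj hp hx hC S hS hg
    have h3 : (g * r⁻¹) * x = x * (g * r⁻¹) := by
      calc (g * r⁻¹) * x = g * x * (x⁻¹ * r⁻¹ * x * r) * r⁻¹ := by group
        _ = g * x * ((g * x)⁻¹ * (x * g)) * r⁻¹ := by rw [hr']
        _ = _ := by group
    obtain ⟨k, hk⟩ := mem_zpowers_iff.mp (mem_zp hC h3)
    refine mem_zpowers_iff.mpr ⟨k, ?_⟩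
    rw [← QuotientGroup.mk_zpow, hk, QuotientGroup.eq]
    have h4 : (g * r⁻¹)⁻¹ * g = r := by group
    rw [h4]
    exact hrS
  · rw [zpowers_le, mem_centralizer_singleton_iff]

end Sec

end Cfsg.Agent.H3.SelfC
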