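import Mathlib
import Cfsg.Agent.H3_SelfC
import Cfsg.Agent.H11_Cores
import Cfsg.Agent.H3_CharComplete

/-!
# An element of prime order which is its own centralizer, continued
-/

set_option autoImplicit false

open scoped commutatorElement Pointwise

namespace Cfsg.Agent.H3.SelfC

open Subgroup Cfsg

variable {G : Type*} [Group G] [Finite G] {p : ℕ} {x : G}

theorem conj_hyp (hx : orderOf x = p) (hC : centralizer ({x} : Set G) = zpowers x) (g : G) :
    orderOf (g * x * g⁻¹) = p ∧ centralizer ({g * x * g⁻¹} : Set G) = zpowers (g * x * g⁻¹) := by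
  refine ⟨by rw [← hx]; exact MulEquiv.orderOf_eq (MulAut.conj g) x, le_antisymm ?_ ?_⟩
  · intro h hh
    rw [mem_centralizer_singleton_iff] at hh
    have h1 : (g⁻¹ * h * g) * x = x * (g⁻¹ * h * g) := by
      calc (g⁻¹ * h * g) * x = g⁻¹ * (h * (g * x * g⁻¹)) * g := by group
        _ = g⁻¹ * ((g * x * g⁻¹) * h) * g := by rw [hh]
        _ = _ := by group
    obtain ⟨k, hk⟩ := mem_zpowers_iff.mp (mem_zp hC h1)
    refine mem_zpowers_iff.mpr ⟨k, ?_⟩
    rw [conj_zpow, hk]
    group
  · rw [zpowers_le, mem_centralizer_singleton_iff]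

/-- an element of order `p` is conjugate to a power of `x` -/
theorem exists_conj_mem (hp : p.Prime) (hx : orderOf x = p) (hC : centralizer ({x} : Set G) = zpowers x) {y : G} (hy : orderOf y = p) :
    ∃ g : G, g * y * g⁻¹ ∈ zpowers x := by
  have : Fact p.Prime := ⟨hp⟩
  obtain ⟨P, hP⟩ := exists_sylow hp hx hC
  have hyp : IsPGroup p (zpowers y) := IsPGroup.of_card (n := 1) (by rw [Nat.card_zpowers, hy, pow_one])
  obtain ⟨Q, hQ⟩ := hyp.exists_le_sylow
  obtain ⟨g, hg⟩ := MulAction.exists_smul_eq G Q P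
  refine ⟨g, ?_⟩
  rw [← hP, ← hg]
  exact Subgroup.smul_mem_pointwise_smul y (MulAut.conj g) (Q : Subgroup G) (hQ (mem_zpowers _))

theorem centralizer_card (hp : p.Prime) (hx : orderOf x = p) (hC : centralizer ({x} : Set G) = zpowers x) {y : G} (hy : orderOf y = p) :
    Nat.card (centralizer ({y} : Set G)) = p := by
  obtain ⟨g, hg⟩ := exists_conj_mem hp hx hC hy
  obtain ⟨h1, -⟩ := conj_hyp (G := G) (x := x) (p := p) hx hC g⁻¹
  have h2 : zpowers (g * y * g⁻¹) = zpowers x := by
    apply eq_of_le_of_card_ge (zpowers_le.mpr hg)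
    rw [Nat.card_zpowers, Nat.card_zpowers, hx, ← hy]
    exact (MulEquiv.orderOf_eq (MulAut.conj g) y).ge
  have h3 : centralizer ({g * y * g⁻¹} : Set G) = zpowers x := by
    apply le_antisymm
    · intro h hh
      rw [mem_centralizer_singleton_iff] at hh
      obtain ⟨k, hk⟩ := mem_zpowers_iff.mp (show x ∈ zpowers (g * y * g⁻¹) by rw [h2]; exact mem_zpowers x)
      apply mem_zp hC
      rw [← hk]
      exact ((show Commute h (g * y * g⁻¹) from hh).zpow_right k).eq
    · rw [← h2, zpowers_le, mem_centralizer_singleton_iff]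
  have h4 : Nat.card (centralizer ({g * y * g⁻¹} : Set G)) = Nat.card (centralizer ({y} : Set G)) := by
    refine Nat.card_congr ⟨fun h => ⟨g⁻¹ * h * g, ?_⟩, fun h => ⟨g * h * g⁻¹, ?_⟩, fun h => Subtype.ext ?_, fun h => Subtype.ext ?_⟩
    · have := mem_centralizer_singleton_iff.mp h.2
      rw [mem_centralizer_singleton_iff]
      calc (g⁻¹ * (h : G) * g) * y = g⁻¹ * ((h : G) * (g * y * g⁻¹)) * g := by group
        _ = g⁻¹ * ((g * y * g⁻¹) * h) * g := by rw [this]
        _ = _ := by group
    · have := mem_centralizer_singleton_iff.mp h.2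
      rw [mem_centralizer_singleton_iff]
      calc (g * (h : G) * g⁻¹) * (g * y * g⁻¹) = g * ((h : G) * y) * g⁻¹ := by group
        _ = g * (y * h) * g⁻¹ := by rw [this]
        _ = _ := by group
    · show g * (g⁻¹ * (h : G) * g) * g⁻¹ = h
      group
    · show g⁻¹ * (g * (h : G) * g⁻¹) * g = h
      group
  rw [← h4, h3, card_zpowers' hx]

theorem count1 (hp : p.Prime) : Nat.card {g : G // orderOf g = p} = Nat.card {H : Subgroup G // Nat.card H = p} * (p - 1) := by
  classical
  have : Fact p.Prime := ⟨hp⟩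
  have e : {g : G // orderOf g = p} ≃ (H : {H : Subgroup G // Nat.card H = p}) × {h : H.1 // h ≠ 1} :=
    { toFun := fun g => ⟨⟨zpowers g.1, by rw [Nat.card_zpowers, g.2]⟩, ⟨⟨g.1, mem_zpowers g.1⟩, fun h => by
        have h1 : g.1 = 1 := congrArg Subtype.val h
        have h2 := g.2
        rw [h1, orderOf_one] at h2
        exact hp.one_lt.ne h2⟩⟩
      invFun := fun q => ⟨((q.2.1 : q.1.1) : G), by
        have h1 : orderOf (q.2.1 : q.1.1) ∣ p := (_root_.orderOf_dvd_natCard _).trans (dvd_of_eq q.1.2)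
        rw [Subgroup.orderOf_coe]
        rcases (Nat.dvd_prime hp).mp h1 with h2 | h2
        · exact absurd (orderOf_eq_one_iff.mp h2) q.2.2
        · exact h2⟩
      left_inv := fun g => rfl
      right_inv := fun q => by
        obtain ⟨⟨H, hH⟩, ⟨⟨h, hhH⟩, hh⟩⟩ := q
        have h1 : zpowers h = H := by
          have h2 : orderOf h ∣ p := by
            rw [← hH, ← Subgroup.orderOf_mk h hhH]
            exact _root_.orderOf_dvd_natCard _
          apply eq_of_le_of_card_ge (zpowers_le.mpr hhH)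
          rw [Nat.card_zpowers, hH]
          rcases (Nat.dvd_prime hp).mp h2 with h3 | h3
          · exact absurd (Subtype.ext (orderOf_eq_one_iff.mp h3)) hh
          · exact h3.ge
        subst h1
        rfl }
  have h2 : ∀ H : {H : Subgroup G // Nat.card H = p}, Nat.card {h : H.1 // h ≠ 1} = p - 1 := by
    intro H
    have := Fintype.ofFinite H.1
    rw [Nat.card_eq_fintype_card, Fintype.card_subtype_compl, Fintype.card_subtype_eq, ← Nat.card_eq_fintype_card, H.2]
  have hf := Fintype.ofFinite {H : Subgroup G // Nat.card H = p}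
  rw [Nat.card_congr e, Nat.card_sigma, Finset.sum_congr rfl fun H _ => h2 H, Finset.sum_const, Finset.card_univ, smul_eq_mul,
    Nat.card_eq_fintype_card]

theorem count2 (hp : p.Prime) (hx : orderOf x = p) (hC : centralizer ({x} : Set G) = zpowers x) (t : ℕ)
    (ht : Nat.card {C : ConjClasses G // ∃ g ∈ C.carrier, orderOf g = p} = t) :
    p * Nat.card {g : G // orderOf g = p} = t * Nat.card G := by
  classical
  have := Fintype.ofFinite G
  have hord : ∀ C : {C : ConjClasses G // ∃ g ∈ C.carrier, orderOf g = p}, ∀ g ∈ C.1.carrier, orderOf g = p := by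
    rintro ⟨C, h, hh, ho⟩ g hg
    rw [ConjClasses.mem_carrier_iff_mk_eq] at hg hh
    obtain ⟨c, rfl⟩ := isConj_iff.mp (ConjClasses.mk_eq_mk_iff_isConj.mp (hh.trans hg.symm))
    rw [← ho]
    exact MulEquiv.orderOf_eq (MulAut.conj c) h
  have e : {g : G // orderOf g = p} ≃ (C : {C : ConjClasses G // ∃ g ∈ C.carrier, orderOf g = p}) × C.1.carrier :=
    { toFun := fun g => ⟨⟨ConjClasses.mk g.1, g.1, ConjClasses.mem_carrier_mk, g.2⟩, ⟨g.1, ConjClasses.mem_carrier_mk⟩⟩
      invFun := fun q => ⟨q.2.1, hord q.1 _ q.2.2⟩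
      left_inv := fun g => rfl
      right_inv := fun q => by
        obtain ⟨⟨C, hC⟩, ⟨g, hg⟩⟩ := q
        have h1 : ConjClasses.mk g = C := ConjClasses.mem_carrier_iff_mk_eq.mp hg
        subst h1
        rfl }
  have h2 : ∀ C : {C : ConjClasses G // ∃ g ∈ C.carrier, orderOf g = p}, p * Nat.card C.1.carrier = Nat.card G := by
    intro C
    obtain ⟨g, hg, ho⟩ := C.2
    have h3 := centralizer_card hp hx hC ho
    have h4 : C.1.carrier = MulAction.orbit (ConjAct G) g := by
      rw [ConjAct.orbit_eq_carrier_conjClasses, ConjClasses.mem_carrier_iff_mk_eq.mp hg]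
    have h5 := H3.CharComplete.card_class_eq_index g
    have h6 : Nat.card C.1.carrier = (Finset.univ.filter (IsConj g)).card := by
      rw [Nat.card_coe_set_eq, ← Set.ncard_coe_finset]
      congr 1
      ext y
      rw [Finset.coe_filter, ConjClasses.mem_carrier_iff_mk_eq, ← ConjClasses.mem_carrier_iff_mk_eq.mp hg, ConjClasses.mk_eq_mk_iff_isConj]
      exact ⟨fun h => ⟨Finset.mem_univ _, h.symm⟩, fun h => h.2.symm⟩
    rw [h6, h5, ← (centralizer ({g} : Set G)).card_mul_index, h3]
  have hf := Fintype.ofFinite {C : ConjClasses G // ∃ g ∈ C.carrier, orderOf g = p}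
  rw [Nat.card_congr e, Nat.card_sigma, Finset.mul_sum, Finset.sum_congr rfl fun C _ => h2 C, Finset.sum_const, Finset.card_univ, smul_eq_mul,
    ← ht, ← Nat.card_eq_fintype_card]

/-- `t |N| = p (p - 1)` -/
theorem t_mul (hp : p.Prime) (hx : orderOf x = p) (hC : centralizer ({x} : Set G) = zpowers x) (t : ℕ)
    (ht : Nat.card {C : ConjClasses G // ∃ g ∈ C.carrier, orderOf g = p} = t) :
    t * Nat.card (normalizer ((zpowers x : Subgroup G) : Set G)) = p * (p - 1) := by
  have h1 := count2 hp hx hC t ht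
  rw [count1 hp, card_subgroups hp hx hC, ← (normalizer ((zpowers x : Subgroup G) : Set G)).card_mul_index] at h1
  have h2 : 0 < (normalizer ((zpowers x : Subgroup G) : Set G)).index := Nat.pos_of_ne_zero index_ne_zero_of_finite
  apply Nat.eq_of_mul_eq_mul_right h2
  linarith

theorem p_dvd_N (hx : orderOf x = p) : p ∣ Nat.card (normalizer ((zpowers x : Subgroup G) : Set G)) := by
  have := card_dvd_of_le (le_normalizer : zpowers x ≤ normalizer ((zpowers x : Subgroup G) : Set G))
  rwa [card_zpowers' hx] at this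

theorem t_le (hp : p.Prime) (hx : orderOf x = p) (hC : centralizer ({x} : Set G) = zpowers x) (t : ℕ)
    (ht : Nat.card {C : ConjClasses G // ∃ g ∈ C.carrier, orderOf g = p} = t) : t ≤ p - 1 := by
  have h1 := t_mul hp hx hC t ht
  have h2 := Nat.le_of_dvd Nat.card_pos (p_dvd_N (G := G) hx)
  have h3 : t * p ≤ (p - 1) * p := by
    calc t * p ≤ t * Nat.card (normalizer ((zpowers x : Subgroup G) : Set G)) := Nat.mul_le_mul_left _ h2
      _ = p * (p - 1) := h1
      _ = _ := mul_comm _ _
  exact Nat.le_of_mul_le_mul_right h3 hp.pos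

theorem t_eq_iff (hp : p.Prime) (hx : orderOf x = p) (hC : centralizer ({x} : Set G) = zpowers x) (t : ℕ)
    (ht : Nat.card {C : ConjClasses G // ∃ g ∈ C.carrier, orderOf g = p} = t) :
    t = p - 1 ↔ Nat.card (normalizer ((zpowers x : Subgroup G) : Set G)) = p := by
  have h1 := t_mul hp hx hC t ht
  have hp1 := hp.one_lt
  constructor
  · intro h
    rw [h, mul_comm] at h1
    exact Nat.eq_of_mul_eq_mul_right (by omega) h1
  · intro h
    rw [h, mul_comm] at h1
    exact Nat.eq_of_mul_eq_mul_left hp.pos h1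

end Cfsg.Agent.H3.SelfC
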