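import Mathlib
import Cfsg.Agent.H3_SelfC2

/-!
# An element of prime order which is its own centralizer: structure
-/

set_option autoImplicit false

open scoped commutatorElement Pointwise

namespace Cfsg.Agent.H3.SelfC

open Subgroup Cfsg

variable {G : Type*} [Group G] [Finite G] {p : ℕ} {x : G}

theorem not_dvd_core (hp : p.Prime) : ¬ p ∣ Nat.card (pPrimeCore p G) := fun h =>
  ((Nat.Prime.coprime_iff_not_dvd hp).mp (Nat.Coprime.symm (H11.Cores.pPrimeCore_coprime (G := G) p))) h

theorem core_le (hp : p.Prime) (hx : orderOf x = p) (hC : centralizer ({x} : Set G) = zpowers x) :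
    pPrimeCore p G ≤ commutator G := by
  intro s hs
  obtain ⟨r, -, hr⟩ := comm_inj hp hx hC (pPrimeCore p G) (not_dvd_core hp) hs
  rw [← hr]
  have : x⁻¹ * r⁻¹ * x * r = ⁅x⁻¹, r⁻¹⁆ := by
    rw [commutatorElement_def, inv_inv, inv_inv]
  rw [this]
  exact commutator_mem_commutator (mem_top _) (mem_top _)

/-- a normal complement if `N(⟨x⟩) = ⟨x⟩` -/
theorem complement (hp : p.Prime) (hx : orderOf x = p) (hC : centralizer ({x} : Set G) = zpowers x)
    (hN : Nat.card (normalizer ((zpowers x : Subgroup G) : Set G)) = p) :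
    commutator G = pPrimeCore p G ∧ (commutator G).index = p ∧
      Nat.card (commutator G) = (normalizer ((zpowers x : Subgroup G) : Set G)).index := by
  have : Fact p.Prime := ⟨hp⟩
  obtain ⟨P, hP⟩ := exists_sylow hp hx hC
  have hNP : normalizer ((zpowers x : Subgroup G) : Set G) = zpowers x := by
    symm
    apply eq_of_le_of_card_ge le_normalizer
    rw [hN, card_zpowers' hx]
  have hcomm : ∀ a ∈ zpowers x, ∀ b ∈ zpowers x, a * b = b * a := by
    intro a ha b hb
    obtain ⟨k, rfl⟩ := mem_zpowers_iff.mp ha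
    obtain ⟨l, rfl⟩ := mem_zpowers_iff.mp hb
    exact ((Commute.refl x).zpow_zpow k l).eq
  have hNC : normalizer ((P : Subgroup G) : Set G) ≤ centralizer ((P : Subgroup G) : Set G) := by
    rw [hP, hNP]
    intro a ha
    rw [mem_centralizer_iff]
    intro b hb
    exact hcomm b hb a ha
  have hcompl := MonoidHom.ker_transferSylow_isComplement' P hNC
  set K := (MonoidHom.transferSylow P hNC).ker with hK
  have hKG : commutator G ≤ K := by
    rw [commutator_def, Subgroup.commutator_le]
    intro a _ b _
    rw [hK, MonoidHom.mem_ker, map_commutatorElement, commutatorElement_eq_one_iff_mul_comm]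
    apply Subtype.ext
    have h1 : ∀ y : (P : Subgroup G), (y : G) ∈ zpowers x := fun y => by rw [← hP]; exact y.2
    exact hcomm _ (h1 _) _ (h1 _)
  have hcard : Nat.card K = (zpowers x).index := by
    rw [← hP]
    exact hcompl.index_eq_card.symm
  have hidx : K.index = p := by
    rw [hcompl.symm.index_eq_card, hP, card_zpowers' hx]
  have hKp : ¬ p ∣ Nat.card K := by
    rw [hcard]
    exact not_dvd_index hp hx hC
  have hKS : K ≤ pPrimeCore p G := H11.Cores.le_pPrimeCore p ((Nat.Coprime.symm ((Nat.Prime.coprime_iff_not_dvd hp).mpr hKp)))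
  have h1 : K = pPrimeCore p G := le_antisymm hKS ((core_le hp hx hC).trans hKG)
  have h2 : commutator G = K := le_antisymm hKG (h1 ▸ core_le hp hx hC)
  refine ⟨h2.trans h1, by rw [h2, hidx], ?_⟩
  rw [h2, hcard, hNP]

theorem dvd_commutator (hp : p.Prime) (hx : orderOf x = p) (hC : centralizer ({x} : Set G) = zpowers x)
    (hN : Nat.card (normalizer ((zpowers x : Subgroup G) : Set G)) ≠ p) : p ∣ Nat.card (commutator G) := by
  by_contra hcon
  apply hN
  have h1 := mk_centralizer hp hx hC (commutator G) hcon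
  have h2 : centralizer ({(QuotientGroup.mk x : G ⧸ commutator G)} : Set (G ⧸ commutator G)) = ⊤ := by
    rw [eq_top_iff]
    intro g _
    rw [mem_centralizer_singleton_iff]
    exact mul_comm (G := Abelianization G) g _
  have h3 : (commutator G).index = p := by
    rw [index_eq_card, ← card_top, ← h2, h1, Nat.card_zpowers, mk_order hp hx hC (commutator G) hcon]
  have h4 := card_sup hp hx hC (commutator G) hcon
  have h5 : Nat.card (commutator G ⊔ normalizer ((zpowers x : Subgroup G) : Set G) : Subgroup G) ∣ Nat.card G := card_subgroup_dvd_card _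
  rw [h4, ← (commutator G).card_mul_index, h3] at h5
  have h6 := Nat.dvd_of_mul_dvd_mul_left Nat.card_pos h5
  exact Nat.dvd_antisymm h6 (p_dvd_N hx)

/-- a normal subgroup of `G'` of order divisible by `p` is `G'` -/
theorem eq_of_dvd (hp : p.Prime) (hx : orderOf x = p) (hC : centralizer ({x} : Set G) = zpowers x)
    (hL : p ∣ Nat.card (commutator G)) (M : Subgroup (commutator G)) [hMn : M.Normal] (hM : p ∣ Nat.card M) : M = ⊤ := by
  have hgen : ∀ g : G, (⟨g * x * g⁻¹, (inferInstance : (commutator G).Normal).conj_mem _ (mem_of_dvd hp hx hC _ hL) g⟩ : commutator G) ∈ M := by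
    intro g
    obtain ⟨h1, h2⟩ := conj_hyp (p := p) hx hC g
    have hmem := (inferInstance : (commutator G).Normal).conj_mem _ (mem_of_dvd hp hx hC _ hL) g
    refine mem_of_dvd (G := commutator G) (x := ⟨g * x * g⁻¹, hmem⟩) hp (by rw [Subgroup.orderOf_mk]; exact h1) ?_ M hM
    ext a
    rw [mem_centralizer_singleton_iff]
    constructor
    · intro h
      have h3 : (a : G) ∈ zpowers (g * x * g⁻¹) := mem_zp h2 (congrArg Subtype.val h)
      obtain ⟨k, hk⟩ := mem_zpowers_iff.mp h3
      exact mem_zpowers_iff.mpr ⟨k, Subtype.ext hk⟩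
    · intro h
      obtain ⟨k, hk⟩ := mem_zpowers_iff.mp h
      rw [← hk]
      exact ((Commute.refl _).zpow_left k).eq
  have hle : normalClosure ({x} : Set G) ≤ M.map (commutator G).subtype := by
    rw [normalClosure, closure_le]
    intro y hy
    rw [Group.mem_conjugatesOfSet_iff] at hy
    obtain ⟨z, hz, hzy⟩ := hy
    rw [Set.mem_singleton_iff] at hz
    subst hz
    obtain ⟨c, rfl⟩ := isConj_iff.mp hzy
    exact ⟨_, hgen c, rfl⟩
  have hxn : x ∈ normalClosure ({x} : Set G) := subset_normalClosure (Set.mem_singleton x)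
  have hdvd : p ∣ Nat.card (normalClosure ({x} : Set G)) := by
    rw [← hx, ← Nat.card_zpowers]
    exact card_dvd_of_le (zpowers_le.mpr hxn)
  have h1 := (commutator_le hp hx hC (normalClosure ({x} : Set G)) hdvd).trans hle
  rw [eq_top_iff]
  intro a _
  obtain ⟨b, hb, hba⟩ := h1 a.2
  have : b = a := Subtype.ext hba
  rwa [← this]

theorem simple (hp : p.Prime) (hx : orderOf x = p) (hC : centralizer ({x} : Set G) = zpowers x)
    (hN : Nat.card (normalizer ((zpowers x : Subgroup G) : Set G)) ≠ p)
    (h : ((pPrimeCore p G).subgroupOf (commutator G)).Normal) :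
    IsSimpleGroup (commutator G ⧸ (pPrimeCore p G).subgroupOf (commutator G)) := by
  have hL := dvd_commutator hp hx hC hN
  have hcore := not_dvd_core (G := G) hp
  have hSc : Nat.card ((pPrimeCore p G).subgroupOf (commutator G)) = Nat.card (pPrimeCore p G) :=
    Nat.card_congr (subgroupOfEquivOfLe (core_le hp hx hC)).toEquiv
  have hnt : Nontrivial (commutator G ⧸ (pPrimeCore p G).subgroupOf (commutator G)) := by
    rw [← Finite.one_lt_card_iff_nontrivial]
    have h1 := ((pPrimeCore p G).subgroupOf (commutator G)).card_mul_index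
    rw [index_eq_card, hSc] at h1
    by_contra hcon
    have h2 : Nat.card (commutator G ⧸ (pPrimeCore p G).subgroupOf (commutator G)) = 1 := by
      have : 0 < Nat.card (commutator G ⧸ (pPrimeCore p G).subgroupOf (commutator G)) := Nat.card_pos
      omega
    rw [h2, mul_one] at h1
    rw [h1] at hcore
    exact hcore hL
  refine { exists_pair_ne := hnt.exists_pair_ne, eq_bot_or_eq_top_of_normal := fun M hM => ?_ }
  set π := QuotientGroup.mk' ((pPrimeCore p G).subgroupOf (commutator G)) with hπ
  have hsurj : Function.Surjective π := QuotientGroup.mk'_surjective _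
  by_cases hd : p ∣ Nat.card (M.comap π)
  · right
    have := eq_of_dvd hp hx hC hL (M.comap π) hd
    rw [← map_comap_eq_self_of_surjective hsurj M, this, map_top_of_surjective _ hsurj]
  · left
    have h1 : ((M.comap π).map (commutator G).subtype).IsSubnormal :=
      IsSubnormal.trans' (Normal.isSubnormal inferInstance) (Normal.isSubnormal inferInstance)
    have h2 : (Nat.card ((M.comap π).map (commutator G).subtype)).Coprime p := by
      rw [card_map_of_injective (commutator G).subtype_injective]
      exact (Nat.Coprime.symm ((Nat.Prime.coprime_iff_not_dvd hp).mpr hd))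
    have h3 := H11.Cores.le_pPrimeCore_of_isSubnormal p h1 h2
    rw [eq_bot_iff]
    intro y hy
    obtain ⟨a, rfl⟩ := hsurj y
    rw [mem_bot, hπ, QuotientGroup.mk'_apply, QuotientGroup.eq_one_iff, mem_subgroupOf]
    exact h3 ⟨a, hy, rfl⟩

theorem main4497 (hp : p.Prime) (hx : orderOf x = p) (hC : centralizer ({x} : Set G) = zpowers x) (t : ℕ)
    (ht : Nat.card {C : ConjClasses G // ∃ g ∈ C.carrier, orderOf g = p} = t) :
    pPrimeCore p G ≤ commutator G ∧ (t ≠ p - 1 → ∀ h : ((pPrimeCore p G).subgroupOf (commutator G)).Normal,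
      IsSimpleGroup (commutator G ⧸ (pPrimeCore p G).subgroupOf (commutator G))) ∧ (t = p - 1 → commutator G = pPrimeCore p G) := by
  have h1 := t_eq_iff hp hx hC t ht
  exact ⟨core_le hp hx hC, fun hne h => simple hp hx hC (fun h2 => hne (h1.mpr h2)) h, fun he => (complement hp hx hC (h1.mp he)).1⟩

theorem main4509 (hp : p.Prime) (hx : orderOf x = p) (hC : centralizer ({x} : Set G) = zpowers x) (t : ℕ)
    (ht : Nat.card {C : ConjClasses G // ∃ g ∈ C.carrier, orderOf g = p} = t) (n : ℕ)
    (hn : Nat.card {H : Subgroup G // Nat.card H = p} = 1 + n * p) :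
    ((∃ S : Subgroup G, S.Normal ∧ Nat.card S = 1 + n * p) ↔ (t = p - 1 ∨ (t < p - 1 ∧ derivedSeries G 2 ≠ derivedSeries G 1))) ∧
      (t = p - 1 → Nat.card (commutator G) = 1 + n * p ∧ IsCyclic (G ⧸ commutator G) ∧ (commutator G).index = p) ∧
      (t < p - 1 → derivedSeries G 2 ≠ derivedSeries G 1 → Nat.card (derivedSeries G 2) = 1 + n * p ∧
        Nat.card (commutator G) = p * (1 + n * p)) := by
  have : Fact p.Prime := ⟨hp⟩
  have h1 := t_eq_iff hp hx hC t ht
  have h2 := t_le hp hx hC t ht
  rw [card_subgroups hp hx hC] at hn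
  have hd1 : derivedSeries G 1 = commutator G := by rw [derivedSeries_one]
  have hd2 : derivedSeries G 2 = ⁅commutator G, commutator G⁆ := by rw [derivedSeries_succ, hd1]
  have hA : t = p - 1 → Nat.card (commutator G) = 1 + n * p ∧ IsCyclic (G ⧸ commutator G) ∧ (commutator G).index = p := by
    intro he
    obtain ⟨h3, h4, h5⟩ := complement hp hx hC (h1.mp he)
    refine ⟨by rw [h5, hn], ?_, h4⟩
    apply isCyclic_of_prime_card (p := p)
    rw [← index_eq_card, h4]
  have hB : t < p - 1 → derivedSeries G 2 ≠ derivedSeries G 1 → Nat.card (derivedSeries G 2) = 1 + n * p ∧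
      Nat.card (commutator G) = p * (1 + n * p) := by
    intro hlt hne
    have hN : Nat.card (normalizer ((zpowers x : Subgroup G) : Set G)) ≠ p := fun h => by
      have := h1.mpr h
      omega
    have hL := dvd_commutator hp hx hC hN
    have hxL := mem_of_dvd hp hx hC (commutator G) hL
    have hnd : ¬ p ∣ Nat.card (derivedSeries G 2) := by
      intro hd
      apply hne
      apply le_antisymm (derivedSeries_antitone G (by norm_num))
      rw [hd1]
      exact commutator_le hp hx hC _ hd
    have hle1 : derivedSeries G 2 ≤ pPrimeCore p G := H11.Cores.le_pPrimeCore p (Nat.Coprime.symm ((Nat.Prime.coprime_iff_not_dvd hp).mpr hnd))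
    have hle2 : pPrimeCore p G ≤ derivedSeries G 2 := by
      intro s hs
      obtain ⟨r, hr, hrs⟩ := comm_inj hp hx hC (pPrimeCore p G) (not_dvd_core hp) hs
      rw [← hrs, hd2]
      have : x⁻¹ * r⁻¹ * x * r = ⁅x⁻¹, r⁻¹⁆ := by
        rw [commutatorElement_def, inv_inv, inv_inv]
      rw [this]
      exact commutator_mem_commutator (Subgroup.inv_mem _ hxL) (Subgroup.inv_mem _ (core_le hp hx hC hr))
    have heq : derivedSeries G 2 = pPrimeCore p G := le_antisymm hle1 hle2
    -- `G' = S ⟨x⟩`
    have hS := not_dvd_core (G := G) hp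
    have hL2 : commutator G = pPrimeCore p G ⊔ zpowers x := by
      apply le_antisymm
      · intro g hg
        have h3 : (g : G ⧸ pPrimeCore p G) ∈ centralizer ({(QuotientGroup.mk x : G ⧸ pPrimeCore p G)} : Set _) := by
          rw [mem_centralizer_singleton_iff, ← QuotientGroup.mk_mul, ← QuotientGroup.mk_mul, QuotientGroup.eq, ← heq, hd2]
          have h4 : (g * x)⁻¹ * (x * g) = ⁅x⁻¹, g⁻¹⁆ := by
            rw [commutatorElement_def]
            group
          rw [h4]
          exact commutator_mem_commutator (Subgroup.inv_mem _ hxL) (Subgroup.inv_mem _ hg)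
        rw [mk_centralizer hp hx hC _ hS] at h3
        obtain ⟨k, hk⟩ := mem_zpowers_iff.mp h3
        rw [← QuotientGroup.mk_zpow, QuotientGroup.eq] at hk
        have h4 : g = x ^ k * ((x ^ k)⁻¹ * g) := by group
        rw [h4]
        exact mul_mem (mem_sup_right (zpow_mem (mem_zpowers x) k)) (mem_sup_left hk)
      · exact sup_le (core_le hp hx hC) (zpowers_le.mpr hxL)
    have hSN := card_sup hp hx hC (pPrimeCore p G) hS
    have htop : pPrimeCore p G ⊔ normalizer ((zpowers x : Subgroup G) : Set G) = ⊤ := by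
      rw [eq_top_iff]
      intro g _
      obtain ⟨s, hs, hsg⟩ := frattini hp hx hC (commutator G) hL g
      have h3 : g = s⁻¹ * (s * g) := by group
      rw [h3]
      refine mul_mem ?_ (mem_sup_right hsg)
      have h4 : commutator G ≤ pPrimeCore p G ⊔ normalizer ((zpowers x : Subgroup G) : Set G) := by
        rw [hL2]
        exact sup_le_sup_left le_normalizer _
      exact h4 (Subgroup.inv_mem _ hs)
    rw [htop, card_top, ← (normalizer ((zpowers x : Subgroup G) : Set G)).card_mul_index, mul_comm] at hSN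
    have hSc : Nat.card (pPrimeCore p G) = 1 + n * p := by
      rw [← hn]
      exact (Nat.eq_of_mul_eq_mul_right Nat.card_pos hSN).symm
    refine ⟨by rw [heq, hSc], ?_⟩
    have h5 : Nat.card (pPrimeCore p G ⊔ zpowers x : Subgroup G) = Nat.card (pPrimeCore p G) * Nat.card (zpowers x) := by
      have h6 : (pPrimeCore p G).relIndex (zpowers x) = Nat.card (zpowers x) := by
        rw [← inf_relIndex_right, inf_eq_bot hp hx _ hS, relIndex_bot_left]
      have h7 : (pPrimeCore p G).relIndex (pPrimeCore p G ⊔ zpowers x) = (pPrimeCore p G).relIndex (zpowers x) := relIndex_sup_left _ _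
      have h8 := relIndex_mul_relIndex ⊥ (pPrimeCore p G) (pPrimeCore p G ⊔ zpowers x) bot_le le_sup_left
      rw [h7, h6, relIndex_bot_left, relIndex_bot_left] at h8
      exact h8.symm
    rw [hL2, h5, hSc, card_zpowers' hx, mul_comm]
  refine ⟨⟨?_, ?_⟩, hA, hB⟩
  · rintro ⟨S, hSn, hS⟩
    by_cases he : t = p - 1
    · exact Or.inl he
    right
    refine ⟨lt_of_le_of_ne h2 he, fun heq => ?_⟩
    have hN : Nat.card (normalizer ((zpowers x : Subgroup G) : Set G)) ≠ p := fun h => he (h1.mpr h)
    have hL := dvd_commutator hp hx hC hN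
    have hSd : ¬ p ∣ Nat.card S := by
      rw [hS]
      intro hd
      have h3 : p ∣ 1 := (Nat.dvd_add_left (Dvd.intro_left n rfl)).mp hd
      exact hp.one_lt.ne' (Nat.dvd_one.mp h3)
    have hSN := card_sup hp hx hC S hSd
    have htop : S ⊔ normalizer ((zpowers x : Subgroup G) : Set G) = ⊤ := by
      apply eq_top_of_card_eq
      rw [hSN, hS, ← hn, mul_comm]
      exact card_mul_index _
    have hmk : ∀ s ∈ S, ∀ m : G, QuotientGroup.mk' S (s * m) = QuotientGroup.mk' S m := by
      intro s hs m
      rw [map_mul, QuotientGroup.mk'_apply, QuotientGroup.mk'_apply, (QuotientGroup.eq_one_iff s).mpr hs, one_mul]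
    -- commutators lie in `S ⟨x⟩`
    have hSx : commutator G ≤ S ⊔ zpowers x := by
      rw [commutator_def, Subgroup.commutator_le]
      intro a _ b _
      have key : ∀ a : G, ∃ s ∈ S, ∃ m ∈ normalizer ((zpowers x : Subgroup G) : Set G), s * m = a := by
        intro a
        have ha : a ∈ S ⊔ normalizer ((zpowers x : Subgroup G) : Set G) := by rw [htop]; trivial
        exact mem_sup_of_normal_left.mp ha
      obtain ⟨s, hs, m, hm, rfl⟩ := key a
      obtain ⟨s', hs', m', hm', rfl⟩ := key b
      have h3 := comm_mem hp hx hC hm hm'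
      have h4 : QuotientGroup.mk' S ⁅s * m, s' * m'⁆ = QuotientGroup.mk' S ⁅m, m'⁆ := by
        rw [map_commutatorElement, map_commutatorElement, hmk s hs, hmk s' hs']
      rw [QuotientGroup.mk'_apply, QuotientGroup.mk'_apply, eq_comm, QuotientGroup.eq] at h4
      have h5 : ⁅s * m, s' * m'⁆ = ⁅m, m'⁆ * (⁅m, m'⁆⁻¹ * ⁅s * m, s' * m'⁆) := by group
      rw [h5]
      exact mul_mem (mem_sup_right h3) (mem_sup_left h4)
    have hSS : derivedSeries G 2 ≤ S := by
      rw [hd2, Subgroup.commutator_le]
      intro a ha b hb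
      obtain ⟨s, hs, m, hm, rfl⟩ := mem_sup_of_normal_left.mp (hSx ha)
      obtain ⟨s', hs', m', hm', rfl⟩ := mem_sup_of_normal_left.mp (hSx hb)
      rw [← QuotientGroup.eq_one_iff, ← QuotientGroup.mk'_apply, map_commutatorElement, commutatorElement_eq_one_iff_mul_comm, hmk s hs, hmk s' hs',
        ← map_mul, ← map_mul]
      obtain ⟨k, rfl⟩ := mem_zpowers_iff.mp hm
      obtain ⟨l, rfl⟩ := mem_zpowers_iff.mp hm'
      rw [((Commute.refl x).zpow_zpow k l).eq]
    rw [heq, hd1] at hSS
    exact hSd (hL.trans (card_dvd_of_le hSS))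
  · rintro (he | ⟨hlt, hne⟩)
    · exact ⟨commutator G, inferInstance, (hA he).1⟩
    · exact ⟨derivedSeries G 2, inferInstance, (hB hlt hne).1⟩

end Cfsg.Agent.H3.SelfC
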