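import Mathlib
import Cfsg.Agent.H3_SelfC3
import Cfsg.Agent.H3_PRes
import Cfsg.Agent.H3_CharMult

/-!
# An element of prime order which is its own centralizer: characters of degree `p - 1`
-/

set_option autoImplicit false

open scoped commutatorElement Pointwise ComplexConjugate

namespace Cfsg.Agent.H3.SelfC

open Subgroup Cfsg Cfsg.Agent.H3.CharBasic Cfsg.Agent.H3.CharIrr Cfsg.Agent.H3.CharComplete Cfsg.Agent.H3.CharInd Cfsg.Agent.H3.CharMult

theorem prod_roots {n : ℕ} (hn : 0 < n) (he : Even n) : ∏ ω ∈ Polynomial.nthRootsFinset n (1 : ℂ), ω = -1 := by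
  have h1 := Polynomial.X_pow_sub_one_eq_prod hn (Complex.isPrimitiveRoot_exp n hn.ne')
  have h2 := congrArg (Polynomial.eval 0) h1
  rw [Polynomial.eval_prod, Polynomial.eval_sub, Polynomial.eval_pow, Polynomial.eval_X, Polynomial.eval_one, zero_pow hn.ne'] at h2
  simp only [Polynomial.eval_sub, Polynomial.eval_X, Polynomial.eval_C, zero_sub] at h2
  rw [Finset.prod_neg] at h2
  have h3 : (Polynomial.nthRootsFinset n (1 : ℂ)).card = n := (Complex.isPrimitiveRoot_exp n hn.ne').card_nthRootsFinset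
  rw [h3, he.neg_one_pow, one_mul] at h2
  exact h2.symm

theorem det_regular {G V : Type*} [Group G] [AddCommGroup V] [Module ℂ V] [FiniteDimensional ℂ V] (ρ : Representation ℂ G V)
    (y : G) {n m : ℕ} (hn : 0 < n) (he : Even n) (hy : y ^ n = 1) (h0 : ∀ j, 0 < j → j < n → ρ.character (y ^ j) = 0)
    (h1 : Module.finrank ℂ V = n * m) : LinearMap.det (ρ y) = (-1) ^ m := by
  classical
  obtain ⟨b, ζ, hb, hζ, hc⟩ := exists_eigenbasis_rep ρ y n hn.ne' hy
  have hdet : LinearMap.det (ρ y) = ∏ i, ζ i := by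
    rw [← LinearMap.det_toMatrix b]
    have : LinearMap.toMatrix b b (ρ y) = Matrix.diagonal ζ := by
      ext i j
      rw [LinearMap.toMatrix_apply]
      have h2 := hb 1 j
      rw [zpow_one, zpow_one] at h2
      rw [h2, map_smul, Finsupp.smul_apply, Module.Basis.repr_self, Matrix.diagonal_apply, Finsupp.single_apply]
      by_cases hij : i = j
      · rw [if_pos hij, if_pos hij.symm, hij, smul_eq_mul, mul_one]
      · rw [if_neg hij, if_neg (fun h => hij h.symm), smul_zero]
    rw [this, Matrix.det_diagonal]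
  have hmem : ∀ i, ζ i ∈ Polynomial.nthRootsFinset n (1 : ℂ) := fun i => (Polynomial.mem_nthRootsFinset hn _).mpr (hζ i)
  have hcount : ∀ ω ∈ Polynomial.nthRootsFinset n (1 : ℂ), (Finset.univ.filter (fun i => ζ i = ω)).card = m := by
    intro ω hω
    have hωn : ω ^ n = 1 := (Polynomial.mem_nthRootsFinset hn _).mp hω
    have hω0 : ω ≠ 0 := by rintro rfl; rw [zero_pow hn.ne'] at hωn; exact zero_ne_one hωn
    have h2 : ∑ j ∈ Finset.range n, ω⁻¹ ^ j * ρ.character (y ^ j) = (n : ℂ) * (n * m : ℕ) / n := by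
      rw [Finset.sum_eq_single 0]
      · have hn0 : (n : ℂ) ≠ 0 := by exact_mod_cast hn.ne'
        rw [pow_zero, pow_zero, one_mul, Representation.char_one, h1]
        field_simp
      · intro j hj hj0
        rw [h0 j (Nat.pos_of_ne_zero hj0) (Finset.mem_range.mp hj), mul_zero]
      · intro h
        exact absurd (Finset.mem_range.mpr hn) h
    have h3 : ∑ j ∈ Finset.range n, ω⁻¹ ^ j * ρ.character (y ^ j) = ∑ i, if ζ i = ω then (n : ℂ) else 0 := by
      have h4 : ∀ j ∈ Finset.range n, ω⁻¹ ^ j * ρ.character (y ^ j) = ∑ i, (ω⁻¹ * ζ i) ^ j := by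
        intro j _
        have := hc j
        simp only [zpow_natCast] at this
        rw [this, Finset.mul_sum]
        exact Finset.sum_congr rfl fun i _ => by rw [mul_pow]
      rw [Finset.sum_congr rfl h4, Finset.sum_comm]
      refine Finset.sum_congr rfl fun i _ => ?_
      by_cases hi : ζ i = ω
      · rw [if_pos hi, hi, inv_mul_cancel₀ hω0]
        simp
      · rw [if_neg hi]
        have h5 : ω⁻¹ * ζ i ≠ 1 := fun h => hi (by
          rw [inv_mul_eq_one₀ hω0] at h
          exact h.symm)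
        have h6 : (ω⁻¹ * ζ i) ^ n = 1 := by rw [mul_pow, hζ, inv_pow, hωn, inv_one, one_mul]
        have h7 := geom_sum_mul (ω⁻¹ * ζ i) n
        rw [h6, sub_self] at h7
        exact (mul_eq_zero.mp h7).resolve_right (sub_ne_zero.mpr h5)
    rw [h3, ← Finset.sum_filter, Finset.sum_const, nsmul_eq_mul] at h2
    have hn0 : (n : ℂ) ≠ 0 := by exact_mod_cast hn.ne'
    have h8 : ((Finset.univ.filter (fun i => ζ i = ω)).card : ℂ) * n = m * n := by
      rw [h2]
      push_cast
      field_simp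
    exact_mod_cast mul_right_cancel₀ hn0 h8
  rw [hdet, ← Finset.prod_fiberwise_of_maps_to (t := Polynomial.nthRootsFinset n (1 : ℂ)) (fun i _ => hmem i)]
  rw [Finset.prod_congr rfl (g := fun ω => ω ^ m) (fun ω hω => by
    rw [Finset.prod_congr rfl (g := fun _ => ω) (fun i hi => (Finset.mem_filter.mp hi).2), Finset.prod_const, hcount ω hω]),
    Finset.prod_pow, prod_roots hn he]

theorem orbit_sum {N X : Type*} [Group N] [MulAction N X] [Fintype X] (k : ℕ)
    (h : ∀ x : X, Nat.card (MulAction.orbit N x) = k) (f : X → ℂ) (hf : ∀ (n : N) x, f (n • x) = f x)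
    (hint : ∀ x, IsIntegral ℤ (f x)) : ∃ z : ℂ, IsIntegral ℤ z ∧ ∑ x, f x = k * z := by
  classical
  have hfin : Finite (MulAction.orbitRel.Quotient N X) := Quotient.finite _
  have := Fintype.ofFinite (MulAction.orbitRel.Quotient N X)
  have : ∀ ω : MulAction.orbitRel.Quotient N X, Fintype (MulAction.orbit N ω.out) := fun ω => Fintype.ofFinite _
  refine ⟨∑ ω : MulAction.orbitRel.Quotient N X, f ω.out, IsIntegral.sum _ fun ω _ => hint _, ?_⟩
  rw [← Equiv.sum_comp (MulAction.selfEquivSigmaOrbits N X).symm f, Fintype.sum_sigma, Finset.mul_sum]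
  refine Finset.sum_congr rfl fun ω _ => ?_
  have h1 : ∀ y : MulAction.orbit N ω.out, f ((MulAction.selfEquivSigmaOrbits N X).symm ⟨ω, y⟩) = f ω.out := by
    intro y
    have h2 : (MulAction.selfEquivSigmaOrbits N X).symm ⟨ω, y⟩ = (y : X) := rfl
    rw [h2]
    obtain ⟨n, hn⟩ := y.2
    rw [← hn]
    exact hf n _
  rw [Finset.sum_congr rfl fun y _ => h1 y, Finset.sum_const, Finset.card_univ, ← Nat.card_eq_fintype_card, h, nsmul_eq_mul]

variable {G : Type*} [Group G] [Fintype G] {p : ℕ} {x : G}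

omit [Fintype G] in
theorem mem_N [Finite G] {g : G} (h : g * x * g⁻¹ ∈ zpowers x) : g ∈ normalizer ((zpowers x : Subgroup G) : Set G) := by
  rw [mem_normalizer_iff_map_conj_eq]
  apply eq_of_le_of_card_ge
  · rw [MonoidHom.map_zpowers, zpowers_le]
    exact h
  · rw [card_map_of_injective (MulAut.conj g).injective]

omit [Fintype G] in
theorem conj_mem_of_N {g y : G} (h : g ∈ normalizer ((zpowers x : Subgroup G) : Set G)) (hy : y ∈ zpowers x) : g * y * g⁻¹ ∈ zpowers x :=
  (mem_normalizer_iff.mp h y).mp hy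

theorem card_conj (hp : p.Prime) (hx : orderOf x = p) (hC : centralizer ({x} : Set G) = zpowers x) {g : G} (hg : orderOf g = p) :
    Nat.card {c : G // c⁻¹ * g * c ∈ zpowers x} = Nat.card (normalizer ((zpowers x : Subgroup G) : Set G)) := by
  obtain ⟨d, hd⟩ := exists_conj_mem hp hx hC hg
  have hz : zpowers (d * g * d⁻¹) = zpowers x := by
    apply eq_of_le_of_card_ge (zpowers_le.mpr hd)
    rw [Nat.card_zpowers, Nat.card_zpowers, hx, ← hg]
    exact (MulEquiv.orderOf_eq (MulAut.conj d) g).ge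
  obtain ⟨k, hk⟩ := mem_zpowers_iff.mp (show x ∈ zpowers (d * g * d⁻¹) by rw [hz]; exact mem_zpowers x)
  have key : ∀ c : G, (d * c)⁻¹ * x * (d * c)⁻¹⁻¹ = (c⁻¹ * g * c) ^ k := by
    intro c
    have h3 : c⁻¹ * g * c = (d * c)⁻¹ * (d * g * d⁻¹) * (d * c)⁻¹⁻¹ := by group
    rw [h3, conj_zpow, hk]
  refine Nat.card_congr ⟨fun c => ⟨d * c, ?_⟩, fun n => ⟨d⁻¹ * n, ?_⟩, fun c => Subtype.ext (by simp), fun n => Subtype.ext (by simp)⟩
  · have h1 : (d * c.1)⁻¹ ∈ normalizer ((zpowers x : Subgroup G) : Set G) := by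
      apply mem_N
      rw [key]
      exact (zpowers x).zpow_mem c.2 k
    have := inv_mem h1
    rwa [inv_inv] at this
  · have h1 : (d⁻¹ * n.1)⁻¹ * g * (d⁻¹ * n.1) = n.1⁻¹ * (d * g * d⁻¹) * n.1⁻¹⁻¹ := by group
    rw [h1]
    exact conj_mem_of_N (inv_mem n.2) hd

/-- the `p`-singular part of the norm -/
theorem sum_lt (hp : p.Prime) (hx : orderOf x = p) (hC : centralizer ({x} : Set G) = zpowers x) {χ : G → ℂ} (hχ : IsIrrCharacter G χ)
    [Fintype (zpowers x)] [DecidableEq (zpowers x)] :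
    ∑ u ∈ (Finset.univ : Finset (zpowers x)).erase 1, ‖χ (u : G)‖ ^ 2 < (Nat.card (normalizer ((zpowers x : Subgroup G) : Set G)) : ℝ) := by
  classical
  obtain ⟨F, hFd⟩ : ∃ F : G → ℝ, ∀ g, F g = if orderOf g = p then ‖χ g‖ ^ 2 else 0 := ⟨_, fun _ => rfl⟩
  have hcl := IsChar.isClass (IsIrr.isCharacter hχ)
  have hF : ∀ c g, F (c * g * c⁻¹) = F g := by
    intro c g
    have h1 : orderOf (c * g * c⁻¹) = orderOf g := MulEquiv.orderOf_eq (MulAut.conj c) g
    rw [hFd, hFd, h1, hcl g c]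
  have h1 : ∑ u : zpowers x, F u = ∑ u ∈ (Finset.univ : Finset (zpowers x)).erase 1, ‖χ (u : G)‖ ^ 2 := by
    rw [← Finset.add_sum_erase _ _ (Finset.mem_univ (1 : zpowers x))]
    have h2 : F ((1 : zpowers x) : G) = 0 := by
      rw [hFd, if_neg]
      rw [coe_one, orderOf_one]
      exact hp.one_lt.ne
    rw [h2, zero_add]
    refine Finset.sum_congr rfl fun u hu => ?_
    rw [hFd, if_pos]
    have h3 : orderOf (u : G) ∣ p := (orderOf_dvd_of_mem_zpowers u.2).trans (dvd_of_eq hx)
    rcases (Nat.dvd_prime hp).mp h3 with h4 | h4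
    · exact absurd (Subtype.ext (orderOf_eq_one_iff.mp h4)) (Finset.mem_erase.mp hu).1
    · exact h4
  have h2 : ∑ c : G, ∑ u : zpowers x, F (c * (u : G) * c⁻¹) = Nat.card G * ∑ u : zpowers x, F u := by
    rw [Finset.sum_congr rfl (g := fun _ => ∑ u : zpowers x, F (u : G)) (fun c _ => Finset.sum_congr rfl fun u _ => hF c (u : G)), Finset.sum_const, Finset.card_univ, nsmul_eq_mul,
      Nat.card_eq_fintype_card]
  have h3 : ∑ c : G, ∑ u : zpowers x, F (c * (u : G) * c⁻¹) =
      (Nat.card (normalizer ((zpowers x : Subgroup G) : Set G)) : ℝ) * ∑ g : G, F g := by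
    have h4 : ∀ c : G, ∑ u : zpowers x, F (c * (u : G) * c⁻¹) = ∑ g : G, if c⁻¹ * g * c ∈ zpowers x then F g else 0 := by
      intro c
      rw [← Finset.sum_filter]
      refine Finset.sum_bij (fun (u : zpowers x) _ => c * (u : G) * c⁻¹) ?_ ?_ ?_ ?_
      · intro u _
        rw [Finset.mem_filter]
        refine ⟨Finset.mem_univ _, ?_⟩
        have : c⁻¹ * (c * (u : G) * c⁻¹) * c = u := by group
        rw [this]
        exact u.2
      · intro u _ v _ h
        apply Subtype.ext
        exact mul_left_cancel (mul_right_cancel h)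
      · intro g hg
        refine ⟨⟨c⁻¹ * g * c, (Finset.mem_filter.mp hg).2⟩, Finset.mem_univ _, ?_⟩
        show c * (c⁻¹ * g * c) * c⁻¹ = g
        group
      · intro u _
        rfl
    rw [Finset.sum_congr rfl fun c _ => h4 c, Finset.sum_comm, Finset.mul_sum]
    refine Finset.sum_congr rfl fun g _ => ?_
    rw [← Finset.sum_filter, Finset.sum_const, nsmul_eq_mul]
    by_cases hg : orderOf g = p
    · congr 1
      rw [← card_conj hp hx hC hg, Nat.card_eq_fintype_card, Fintype.card_subtype]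
    · have : F g = 0 := by rw [hFd, if_neg hg]
      rw [this, mul_zero, mul_zero]
  have h5 : ∑ g : G, F g < Nat.card G := by
    have h6 : ∑ g : G, ‖χ g‖ ^ 2 = Nat.card G := by
      have h7 := ci_irr_self hχ
      rw [classInner, inv_mul_eq_one₀ card_cast_ne_zero] at h7
      have h8 : (((∑ g : G, ‖χ g‖ ^ 2 : ℝ)) : ℂ) = ((Nat.card G : ℝ) : ℂ) := by
        push_cast
        rw [h7]
        exact Finset.sum_congr rfl fun g _ => by rw [Complex.mul_conj, Complex.normSq_eq_norm_sq]; push_cast; rfl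
      exact_mod_cast h8
    rw [← h6]
    refine Finset.sum_lt_sum (fun g _ => ?_) ⟨1, Finset.mem_univ _, ?_⟩
    · rw [hFd]
      split_ifs
      · exact le_rfl
      · positivity
    · rw [hFd, if_neg (by rw [orderOf_one]; exact hp.one_lt.ne)]
      have := IsIrr.one_ne_zero hχ
      positivity
  rw [← h1]
  have h6 : (0 : ℝ) < Nat.card G := by exact_mod_cast Nat.card_pos
  have h7 : (0 : ℝ) < Nat.card (normalizer ((zpowers x : Subgroup G) : Set G)) := by exact_mod_cast Nat.card_pos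
  have h8 : (Nat.card G : ℝ) * ∑ u : zpowers x, F u < Nat.card G * Nat.card (normalizer ((zpowers x : Subgroup G) : Set G)) := by
    rw [← h2, h3, mul_comm]
    exact mul_lt_mul_of_pos_right h5 h7
  exact lt_of_mul_lt_mul_left h8 h6.le

/-- if `Σ_{z ∈ P} ρ(z) = 0` then the character vanishes on `N ∖ P` -/
theorem vanish_N (hp : p.Prime) (hx : orderOf x = p) (hC : centralizer ({x} : Set G) = zpowers x) [Fintype (zpowers x)]
    {n : ℕ} (ρ : Representation ℂ G (Fin n → ℂ)) (h0 : ∑ z : zpowers x, ρ (z : G) = 0) {u : G}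
    (hu : u ∈ normalizer ((zpowers x : Subgroup G) : Set G)) (hux : u ∉ zpowers x) : ρ.character u = 0 := by
  classical
  have hmem : ∀ r : zpowers x, u⁻¹ * (r : G) * u * (r : G)⁻¹ ∈ zpowers x := by
    intro r
    have h1 := conj_mem_of_N (inv_mem hu) r.2
    rw [inv_inv] at h1
    exact (zpowers x).mul_mem h1 ((zpowers x).inv_mem r.2)
  have hinj : Function.Injective (fun r : zpowers x => (⟨_, hmem r⟩ : zpowers x)) := by
    intro r s h
    have h1 : u⁻¹ * (r : G) * u * (r : G)⁻¹ = u⁻¹ * (s : G) * u * (s : G)⁻¹ := congrArg Subtype.val h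
    have h2 : ((s : G)⁻¹ * r) * u = u * ((s : G)⁻¹ * r) := by
      calc ((s : G)⁻¹ * r) * u = (s : G)⁻¹ * u * (u⁻¹ * (r : G) * u * (r : G)⁻¹) * r := by group
        _ = (s : G)⁻¹ * u * (u⁻¹ * (s : G) * u * (s : G)⁻¹) * r := by rw [h1]
        _ = _ := by group
    by_contra hne
    have hw1 : ((s : G)⁻¹ * r) ≠ 1 := fun h3 => hne (Subtype.ext (inv_mul_eq_one.mp h3).symm)
    have hw : ((s : G)⁻¹ * r) ∈ zpowers x := (zpowers x).mul_mem ((zpowers x).inv_mem s.2) r.2
    have hz : zpowers ((s : G)⁻¹ * r) = zpowers x := by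
      apply eq_of_le_of_card_ge (zpowers_le.mpr hw)
      rw [Nat.card_zpowers, Nat.card_zpowers, hx]
      have h3 : orderOf ((s : G)⁻¹ * r) ∣ p := (orderOf_dvd_of_mem_zpowers hw).trans (dvd_of_eq hx)
      rcases (Nat.dvd_prime hp).mp h3 with h4 | h4
      · exact absurd (orderOf_eq_one_iff.mp h4) hw1
      · exact h4.ge
    obtain ⟨k, hk⟩ := mem_zpowers_iff.mp (show x ∈ zpowers ((s : G)⁻¹ * r) by rw [hz]; exact mem_zpowers x)
    apply hux
    apply mem_zp hC
    rw [← hk]
    exact ((show Commute ((s : G)⁻¹ * r) u from h2).zpow_left k).symm.eq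
  have hsurj := Finite.surjective_of_injective hinj
  have hχu : ∀ z : zpowers x, ρ.character (u * z) = ρ.character u := by
    intro z
    obtain ⟨r, hr⟩ := hsurj z
    have hr' : u⁻¹ * (r : G) * u * (r : G)⁻¹ = z := congrArg Subtype.val hr
    rw [← hr']
    have h1 : u * (u⁻¹ * (r : G) * u * (r : G)⁻¹) = r * u * (r : G)⁻¹ := by group
    rw [h1]
    exact Representation.char_conj ρ u r
  have h1 : ∑ z : zpowers x, ρ.character (u * z) = 0 := by
    have h2 : ∀ z : zpowers x, ρ.character (u * z) = LinearMap.trace ℂ (Fin n → ℂ) (ρ u * ρ (z : G)) := fun z => by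
      rw [Representation.character, map_mul]
    rw [Finset.sum_congr rfl fun z _ => h2 z, ← map_sum, ← Finset.mul_sum, h0, mul_zero, map_zero]
  rw [Finset.sum_congr rfl fun z _ => hχu z, Finset.sum_const, nsmul_eq_mul] at h1
  refine (mul_eq_zero.mp h1).resolve_left ?_
  rw [Finset.card_univ]
  exact_mod_cast Fintype.card_ne_zero

theorem sum_zero_of_trace {H : Type*} [Group H] [Fintype H] {V : Type*} [AddCommGroup V] [Module ℂ V] [FiniteDimensional ℂ V]
    (ρ : Representation ℂ H V) (h0 : ∑ z : H, ρ.character z = 0) : ∑ z : H, ρ z = 0 := by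
  classical
  obtain ⟨A, hA⟩ : ∃ A : V →ₗ[ℂ] V, A = (Nat.card H : ℂ)⁻¹ • ∑ z : H, ρ z := ⟨_, rfl⟩
  have hmul : ∀ h : H, ρ h ∘ₗ A = A := by
    intro h
    rw [hA, LinearMap.comp_smul]
    congr 1
    ext v
    rw [LinearMap.comp_apply, LinearMap.sum_apply, map_sum]
    refine Fintype.sum_equiv (Equiv.mulLeft h) _ _ fun z => ?_
    rw [Equiv.coe_mulLeft, map_mul, Module.End.mul_apply]
  have hid : A ∘ₗ A = A := by
    have hA' : A ∘ₗ A = (Nat.card H : ℂ)⁻¹ • ((∑ z : H, ρ z) ∘ₗ A) := by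
      conv_lhs => enter [1]; rw [hA]
      rw [LinearMap.smul_comp]
    rw [hA']
    have : (∑ z : H, ρ z) ∘ₗ A = (Nat.card H : ℂ) • A := by
      ext v
      have h5 : ∀ z : H, (ρ z) (A v) = A v := fun z => congrArg (fun f : V →ₗ[ℂ] V => f v) (hmul z)
      rw [LinearMap.comp_apply, LinearMap.sum_apply, Finset.sum_congr rfl (fun z _ => h5 z),
        Finset.sum_const, Finset.card_univ, ← Nat.cast_smul_eq_nsmul ℂ, Nat.card_eq_fintype_card, LinearMap.smul_apply]
    rw [this, smul_smul, inv_mul_cancel₀ card_cast_ne_zero, one_smul]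
  have hproj : LinearMap.IsProj (LinearMap.range A) A := by
    refine ⟨fun x => ⟨x, rfl⟩, ?_⟩
    rintro _ ⟨x, rfl⟩
    exact congrArg (fun f : V →ₗ[ℂ] V => f x) hid
  have htr := hproj.trace
  have h1 : LinearMap.trace ℂ V A = 0 := by
    rw [hA, map_smul, map_sum, smul_eq_mul]
    rw [show ∑ z : H, LinearMap.trace ℂ V (ρ z) = 0 from h0, mul_zero]
  rw [h1] at htr
  have h2 : Module.finrank ℂ (LinearMap.range A) = 0 := by exact_mod_cast htr.symm
  have h3 : A = 0 := LinearMap.range_eq_bot.mp (Submodule.finrank_eq_zero.mp h2)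
  rw [hA] at h3
  exact (smul_eq_zero.mp h3).resolve_left (inv_ne_zero card_cast_ne_zero)

end Cfsg.Agent.H3.SelfC
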