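import Mathlib
import Cfsg.Agent.H3_SelfC4

/-!
# An element of prime order which is its own centralizer: characters of degree `p - 1`
-/

set_option autoImplicit false

open scoped commutatorElement Pointwise ComplexConjugate

namespace Cfsg.Agent.H3.SelfC

open Subgroup Cfsg Cfsg.Agent.H3.CharBasic Cfsg.Agent.H3.CharIrr Cfsg.Agent.H3.CharComplete Cfsg.Agent.H3.CharInd Cfsg.Agent.H3.CharMult

variable {G : Type*} [Group G] [Fintype G] {p : ℕ} {x : G}

theorem exists_gen (hp : p.Prime) (hx : orderOf x = p) (hC : centralizer ({x} : Set G) = zpowers x) {e : ℕ}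
    (he : Nat.card (normalizer ((zpowers x : Subgroup G) : Set G)) = p * e) :
    ∃ g ∈ normalizer ((zpowers x : Subgroup G) : Set G), e ∣ orderOf g := by
  have : Fact p.Prime := ⟨hp⟩
  have hcyc : IsCyclic (MulAut (zpowers x)) := by
    have h1 : IsCyclic (ZMod (Nat.card (zpowers x)))ˣ := by
      rw [card_zpowers' hx]
      infer_instance
    exact isCyclic_of_surjective (IsCyclic.mulAutMulEquiv (zpowers x)).symm (IsCyclic.mulAutMulEquiv (zpowers x)).symm.surjective
  have hr : IsCyclic (normalizerMonoidHom (zpowers x)).range := inferInstance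
  obtain ⟨r, hgen⟩ := hr.exists_generator
  obtain ⟨g, hg⟩ := r.2
  refine ⟨g, g.2, ?_⟩
  have hord : orderOf (r : MulAut (zpowers x)) = Nat.card (normalizerMonoidHom (zpowers x)).range := by
    rw [Subgroup.orderOf_coe]
    exact orderOf_eq_card_of_forall_mem_zpowers hgen
  have hker : Nat.card (normalizerMonoidHom (zpowers x)).ker = p := by
    rw [normalizerMonoidHom_ker]
    have h1 : centralizer ((zpowers x : Subgroup G) : Set G) = zpowers x := by
      rw [← hC]
      ext a
      rw [mem_centralizer_singleton_iff, mem_centralizer_iff, hC]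
      constructor
      · intro h
        exact (h x (mem_zpowers x)).symm
      · intro h b hb
        obtain ⟨k, rfl⟩ := mem_zpowers_iff.mp hb
        exact ((show Commute a x from h).zpow_right k).symm.eq
    rw [h1, Nat.card_congr (subgroupOfEquivOfLe (le_normalizer : zpowers x ≤ _)).toEquiv, card_zpowers' hx]
  have hcard : Nat.card (normalizerMonoidHom (zpowers x)).range = e := by
    have h1 := (normalizerMonoidHom (zpowers x)).ker.card_mul_index
    rw [hker, index_ker, he] at h1
    exact Nat.eq_of_mul_eq_mul_left hp.pos h1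
  rw [← hcard, ← hord, ← hg, Subgroup.orderOf_coe]
  exact orderOf_map_dvd _ g

omit [Fintype G] in
theorem zp_comm (a b : zpowers x) : a * b = b * a := by
  obtain ⟨a, ha⟩ := a
  obtain ⟨b, hb⟩ := b
  apply Subtype.ext
  obtain ⟨k, rfl⟩ := mem_zpowers_iff.mp ha
  obtain ⟨l, rfl⟩ := mem_zpowers_iff.mp hb
  exact ((Commute.refl x).zpow_zpow k l).eq

theorem mult_zero (hp : p.Prime) (hx : orderOf x = p) (hC : centralizer ({x} : Set G) = zpowers x) {e : ℕ} (he2 : 2 ≤ e)
    (he : Nat.card (normalizer ((zpowers x : Subgroup G) : Set G)) = p * e) (hed : e ∣ p - 1) {χ : G → ℂ} (hχ : IsIrrCharacter G χ)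
    (hdeg : charDegree χ + 1 = p) [Fintype (zpowers x)] : ∑ u : zpowers x, χ (u : G) = 0 := by
  classical
  have : Fact p.Prime := ⟨hp⟩
  have hcl := IsChar.isClass (IsIrr.isCharacter hχ)
  have : Fintype (IrrCharacter (zpowers x)) := Fintype.ofFinite _
  have hres := IsChar.res (IsIrr.isCharacter hχ) (zpowers x)
  obtain ⟨m, hm1, hm2⟩ := IsChar.eq_sum_nat hres
  let o : IrrCharacter (zpowers x) := ⟨fun _ => 1, isIrr_one⟩
  have hcp : (Nat.card (zpowers x) : ℂ) = p := by rw [card_zpowers' hx]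
  have hcp0 : (p : ℂ) ≠ 0 := by exact_mod_cast hp.ne_zero
  have hχ1 : χ 1 = ((p - 1 : ℕ) : ℂ) := by
    rw [PRes.charDegree_cast (IsIrr.isCharacter hχ)]
    congr 1
    omega
  -- degrees
  have hsum1 : ∑ ψ, m ψ = p - 1 := by
    have h1 := congrFun hm2 1
    have h2 : ∀ ψ : IrrCharacter (zpowers x), (ψ : zpowers x → ℂ) 1 = 1 := fun ψ =>
      IsIrr.one_of_comm zp_comm ψ.2
    rw [Finset.sum_apply, Finset.sum_congr rfl fun ψ _ => by rw [Pi.smul_apply, h2 ψ, smul_eq_mul, mul_one]] at h1
    have h3 : χ ((1 : zpowers x) : G) = ((p - 1 : ℕ) : ℂ) := by rw [coe_one, hχ1]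
    rw [h3] at h1
    exact_mod_cast h1.symm
  have hsumχ : ∑ u : zpowers x, χ (u : G) = p * m o := by
    have h1 := hm1 o
    rw [classInner, hcp, inv_mul_eq_iff_eq_mul₀ hcp0] at h1
    rw [← h1]
    exact Finset.sum_congr rfl fun u _ => by
      show χ (u : G) = χ (u : G) * conj (1 : ℂ)
      rw [map_one, mul_one]
  have hnorm : ∑ u : zpowers x, ‖χ (u : G)‖ ^ 2 = (p : ℝ) * (∑ ψ, m ψ ^ 2 : ℕ) := by
    have h1 := IsChar.norm_eq_sum_sq hm1 hres
    rw [classInner, hcp, inv_mul_eq_iff_eq_mul₀ hcp0] at h1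
    have h2 : (((∑ u : zpowers x, ‖χ (u : G)‖ ^ 2 : ℝ)) : ℂ) = (((p : ℝ) * (∑ ψ, m ψ ^ 2 : ℕ) : ℝ) : ℂ) := by
      push_cast at h1 ⊢
      rw [← h1]
      exact Finset.sum_congr rfl fun g _ => by rw [Complex.mul_conj, Complex.normSq_eq_norm_sq]; push_cast; rfl
    exact_mod_cast h2
  have hlt := sum_lt hp hx hC hχ
  rw [← Finset.add_sum_erase _ _ (Finset.mem_univ (1 : zpowers x))] at hnorm
  have hn1 : ‖χ ((1 : zpowers x) : G)‖ = ((p - 1 : ℕ) : ℝ) := by
    rw [coe_one, hχ1, Complex.norm_natCast]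
  rw [hn1] at hnorm
  rw [he] at hlt
  have hineq : p * (∑ ψ, m ψ ^ 2) < (p - 1) ^ 2 + p * e := by
    have : (p : ℝ) * (∑ ψ, m ψ ^ 2 : ℕ) < ((p - 1 : ℕ) : ℝ) ^ 2 + ((p * e : ℕ) : ℝ) := by
      rw [← hnorm]
      linarith
    exact_mod_cast this
  -- divisibility
  have hdvd : e ∣ m o := by
    let N := normalizer ((zpowers x : Subgroup G) : Set G)
    let X := {u : zpowers x // u ≠ 1}
    let act : MulAction N X :=
      { smul := fun n u => ⟨⟨(n : G) * (u.1 : G) * (n : G)⁻¹, conj_mem_of_N n.2 u.1.2⟩, fun h => u.2 (Subtype.ext (by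
          have h1 : (n : G) * (u.1 : G) * (n : G)⁻¹ = 1 := congrArg Subtype.val h
          rw [mul_inv_eq_one] at h1
          exact mul_left_cancel (h1.trans (mul_one _).symm)))⟩
        one_smul := fun u => Subtype.ext (Subtype.ext (by
          show ((1 : N) : G) * (u.1 : G) * ((1 : N) : G)⁻¹ = u.1
          rw [coe_one, inv_one, one_mul, mul_one]))
        mul_smul := fun a b u => Subtype.ext (Subtype.ext (by
          show ((a * b : N) : G) * (u.1 : G) * ((a * b : N) : G)⁻¹ = a * (b * (u.1 : G) * (b : G)⁻¹) * (a : G)⁻¹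
          rw [coe_mul]
          group)) }
    have hsm : ∀ (n : N) (u : X), (((n • u : X).1 : zpowers x) : G) = (n : G) * (u.1 : G) * (n : G)⁻¹ := fun n u => rfl
    have horb : ∀ u : X, Nat.card (MulAction.orbit N u) = e := by
      intro u
      rw [Nat.card_coe_set_eq, ← MulAction.index_stabilizer]
      have h1 := (MulAction.stabilizer N u).card_mul_index
      have hux : orderOf (u.1 : G) = p := by
        have h3 : orderOf (u.1 : G) ∣ p := (orderOf_dvd_of_mem_zpowers u.1.2).trans (dvd_of_eq hx)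
        rcases (Nat.dvd_prime hp).mp h3 with h4 | h4
        · exact absurd (Subtype.ext (orderOf_eq_one_iff.mp h4)) u.2
        · exact h4
      have h2 : Nat.card (MulAction.stabilizer N u) = p := by
        rw [← centralizer_card hp hx hC hux]
        refine Nat.card_congr ⟨fun n => ⟨(n.1 : G), ?_⟩, fun c => ⟨⟨c, ?_⟩, ?_⟩, fun _ => rfl, fun _ => rfl⟩
        · have h3 : n.1 • u = u := n.2
          have h4 := congrArg (fun w : X => ((w.1 : zpowers x) : G)) h3
          rw [mem_centralizer_singleton_iff]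
          exact mul_inv_eq_iff_eq_mul.mp h4
        · have hz : zpowers (u.1 : G) = zpowers x := by
            apply eq_of_le_of_card_ge (zpowers_le.mpr u.1.2)
            rw [Nat.card_zpowers, Nat.card_zpowers, hx, hux]
          obtain ⟨k, hk⟩ := mem_zpowers_iff.mp (show x ∈ zpowers (u.1 : G) by rw [hz]; exact mem_zpowers x)
          have h3 := mem_centralizer_singleton_iff.mp c.2
          apply mem_N
          have h4 : (c : G) * x * (c : G)⁻¹ = x := by
            have h5 := ((show Commute (c : G) (u.1 : G) from h3).zpow_right k).eq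
            rw [hk] at h5
            exact mul_inv_eq_iff_eq_mul.mpr h5
          rw [h4]
          exact mem_zpowers x
        · rw [MulAction.mem_stabilizer_iff]
          apply Subtype.ext
          apply Subtype.ext
          have h3 := mem_centralizer_singleton_iff.mp c.2
          rw [hsm]
          exact mul_inv_eq_iff_eq_mul.mpr h3
      rw [h2, he] at h1
      exact Nat.eq_of_mul_eq_mul_left hp.pos h1
    obtain ⟨z, hz, hzs⟩ := orbit_sum e horb (fun u : X => χ (u.1 : G)) (fun n u => by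
      show χ (((n • u : X).1 : zpowers x) : G) = χ (u.1 : G)
      rw [hsm, hcl]) (fun u => IsChar.isIntegral (IsIrr.isCharacter hχ) _)
    have h1 : ∑ u : X, χ (u.1 : G) = p * m o - ((p - 1 : ℕ) : ℂ) := by
      rw [← hsumχ, ← Finset.add_sum_erase _ _ (Finset.mem_univ (1 : zpowers x)), coe_one, hχ1]
      have h2 : ∑ u : X, χ (u.1 : G) = ∑ u ∈ Finset.univ.erase (1 : zpowers x), χ (u : G) := by
        symm
        apply Finset.sum_subtype
        intro u
        rw [Finset.mem_erase]
        exact ⟨fun h => h.1, fun h => ⟨h, Finset.mem_univ _⟩⟩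
      rw [h2]
      ring
    obtain ⟨d, hd⟩ := hed
    have he0 : (e : ℂ) ≠ 0 := by
      have : e ≠ 0 := by omega
      exact_mod_cast this
    have h2 : ((p * m o : ℕ) : ℂ) / (e : ℕ) = z + d := by
      rw [hzs, hd] at h1
      push_cast at h1 ⊢
      rw [div_eq_iff he0]
      linear_combination -h1
    have h3 : e ∣ p * m o := by
      apply CharInt.dvd_of_isIntegral_div (by omega)
      rw [h2]
      have hdI : IsIntegral ℤ (d : ℂ) := by
        have := isIntegral_algebraMap (R := ℤ) (A := ℂ) (x := (d : ℤ))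
        simpa using this
      exact hz.add hdI
    have hcop : Nat.Coprime e p := by
      have h4 : Nat.Coprime (p - 1) p := by
        have := Nat.coprime_self_sub_left (m := 1) (n := p) hp.one_lt.le
        rw [this]
        exact Nat.coprime_one_left p
      exact Nat.Coprime.coprime_dvd_left (hd ▸ Dvd.intro d rfl) h4
    exact hcop.dvd_of_dvd_mul_left h3
  -- conclusion
  have ha : m o = 0 := by
    by_contra hne
    have hae : e ≤ m o := Nat.le_of_dvd (Nat.pos_of_ne_zero hne) hdvd
    rw [← Finset.add_sum_erase _ _ (Finset.mem_univ o)] at hsum1 hineq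
    have h1 : ∑ ψ ∈ Finset.univ.erase o, m ψ ≤ ∑ ψ ∈ Finset.univ.erase o, m ψ ^ 2 :=
      Finset.sum_le_sum fun ψ _ => Nat.le_self_pow two_ne_zero _
    obtain ⟨q, hq⟩ : ∃ q, p = q + 1 := ⟨p - 1, by have := hp.one_lt; omega⟩
    rw [hq, Nat.add_sub_cancel] at hsum1 hineq
    have hA2 : 2 ≤ m o := he2.trans hae
    have h3 : (q + 1) * (2 * m o) ≤ (q + 1) * m o ^ 2 := by
      apply Nat.mul_le_mul_left
      rw [sq]
      exact Nat.mul_le_mul_right _ hA2
    have h4 := Nat.mul_le_mul_left (q + 1) h1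
    have h5 := Nat.mul_le_mul_left (q + 1) hae
    have h6 : (q + 1) * (m o + ∑ ψ ∈ Finset.univ.erase o, m ψ) = (q + 1) * q := by rw [hsum1]
    nlinarith
  rw [hsumχ, ha, Nat.cast_zero, mul_zero]

theorem main4508 (hp : p.Prime) (hx : orderOf x = p) (hC : centralizer ({x} : Set G) = zpowers x) (t : ℕ)
    (ht : Nat.card {C : ConjClasses G // ∃ g ∈ C.carrier, orderOf g = p} = t) {χ : G → ℂ} (hχ : IsIrrCharacter G χ)
    (hdeg : charDegree χ + 1 = p) : Even t ∨ Even (commutator G).index := by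
  classical
  have : Fact p.Prime := ⟨hp⟩
  by_contra hcon
  rw [not_or, Nat.not_even_iff_odd, Nat.not_even_iff_odd] at hcon
  obtain ⟨hto, hio⟩ := hcon
  have hp2 : p ≠ 2 := by
    intro h2
    have h3 := t_le hp hx hC t ht
    have h4 : t = p - 1 := by
      obtain ⟨c, hc⟩ := hto
      omega
    obtain ⟨-, h, -⟩ := complement hp hx hC ((t_eq_iff hp hx hC t ht).mp h4)
    rw [h, h2] at hio
    exact absurd hio (by decide)
  have hpo : Odd p := hp.odd_of_ne_two hp2
  obtain ⟨e, he⟩ := p_dvd_N (G := G) hx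
  have hte : t * e = p - 1 := by
    have h1 := t_mul hp hx hC t ht
    rw [he] at h1
    apply Nat.eq_of_mul_eq_mul_left hp.pos
    linarith
  have hp1 : p - 1 ≠ 0 := by have := hp.one_lt; omega
  have he0 : e ≠ 0 := by rintro rfl; rw [mul_zero] at hte; exact hp1 hte.symm
  have hee : Even e := by
    have h1 : Even (t * e) := by
      rw [hte]
      obtain ⟨c, hc⟩ := hpo
      exact ⟨c, by omega⟩
    rcases Nat.even_mul.mp h1 with h2 | h2
    · exact absurd h2 (Nat.not_even_iff_odd.mpr hto)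
    · exact h2
  have he2 : 2 ≤ e := by
    obtain ⟨c, hc⟩ := hee
    omega
  have hcard : Fintype (zpowers x) := Fintype.ofFinite _
  have hzero := mult_zero hp hx hC he2 he (hte ▸ Dvd.intro_left t rfl) hχ hdeg
  -- powers of two
  obtain ⟨k, m, hm, hkm⟩ := Nat.exists_eq_two_pow_mul_odd hp1
  have hn : 0 < 2 ^ k := by positivity
  have hke : 2 ^ k ∣ e := by
    have h1 : 2 ^ k ∣ t * e := by rw [hte, hkm]; exact Dvd.intro m rfl
    have h2 : Nat.Coprime (2 ^ k) t := Nat.Coprime.pow_left k (Nat.coprime_two_left.mpr hto)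
    exact h2.dvd_of_dvd_mul_left h1
  have hneven : Even (2 ^ k) := by
    rw [Nat.even_pow]
    refine ⟨even_two, ?_⟩
    rintro rfl
    rw [pow_zero, one_mul] at hkm
    obtain ⟨c, hc⟩ := hpo
    obtain ⟨d, hd⟩ := hm
    omega
  obtain ⟨g, hgN, hge⟩ := exists_gen hp hx hC he
  have hy : orderOf (g ^ (orderOf g / 2 ^ k)) = 2 ^ k := orderOf_pow_orderOf_div (orderOf_pos g).ne' (hke.trans hge)
  obtain ⟨y, hyN, hyo⟩ : ∃ y ∈ normalizer ((zpowers x : Subgroup G) : Set G), orderOf y = 2 ^ k := ⟨_, pow_mem hgN _, hy⟩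
  obtain ⟨n, ρ, hirr, rfl⟩ := hχ
  have hsum0 : ∑ z : zpowers x, ρ (z : G) = 0 := by
    have h1 := sum_zero_of_trace (ρ.comp (zpowers x).subtype) (by
      rw [← hzero]
      rfl)
    exact h1
  have hvan : ∀ j, 0 < j → j < 2 ^ k → ρ.character (y ^ j) = 0 := by
    intro j hj hjn
    apply vanish_N hp hx hC ρ hsum0 (pow_mem hyN j)
    intro hmem
    have h1 : orderOf (y ^ j) ∣ p := (orderOf_dvd_of_mem_zpowers hmem).trans (dvd_of_eq hx)
    have h2 : orderOf (y ^ j) ∣ 2 ^ k := hyo ▸ orderOf_pow_dvd j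
    have h3 : Nat.Coprime p (2 ^ k) := Nat.Coprime.pow_right k (Nat.coprime_two_right.mpr hpo)
    have h4 : orderOf (y ^ j) = 1 := Nat.dvd_one.mp (h3 ▸ Nat.dvd_gcd h1 h2)
    rw [orderOf_eq_one_iff] at h4
    have h5 := Nat.le_of_dvd hj (orderOf_dvd_of_pow_eq_one h4)
    omega
  have hfr : Module.finrank ℂ (Fin n → ℂ) = 2 ^ k * m := by
    have h1 := PRes.charDegree_cast (χ := ρ.character) (IsIrr.isCharacter ⟨n, ρ, hirr, rfl⟩)
    rw [Representation.char_one] at h1
    have h2 : Module.finrank ℂ (Fin n → ℂ) = charDegree ρ.character := by exact_mod_cast h1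
    rw [h2, ← hkm]
    omega
  have hdet := det_regular ρ y hn hneven (hyo ▸ pow_orderOf_eq_one y) hvan hfr
  rw [hm.neg_one_pow] at hdet
  -- the determinant is a linear character
  let f : G →* ℂˣ := MonoidHom.toHomUnits (LinearMap.det.comp ρ)
  have hf : ∀ g, ((f g : ℂˣ) : ℂ) = LinearMap.det (ρ g) := fun g => rfl
  have h1 : f (y ^ (commutator G).index) = 1 :=
    Abelianization.commutator_subset_ker f ((commutator G).pow_index_mem y)
  have h2 : ((f y : ℂˣ) : ℂ) ^ (commutator G).index = 1 := by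
    rw [← Units.val_pow_eq_pow_val, ← map_pow, h1, Units.val_one]
  rw [hf, hdet, hio.neg_one_pow] at h2
  norm_num at h2

end Cfsg.Agent.H3.SelfC
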