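import Mathlib

/-!
# A double cover of the alternating group via a Clifford algebra over `ZMod 3`
-/

set_option autoImplicit false
set_option linter.unusedSimpArgs false

open scoped commutatorElement

namespace Cfsg.Agent.H3.Spin

section Ops

variable {ι : Type} [Fintype ι] [LinearOrder ι]

abbrev F := ZMod 3

abbrev V (ι : Type) [LinearOrder ι] := Finset ι → F

/-- product of signs -/
def sg (g : ι → F) (S : Finset ι) : F := ∏ j ∈ S, g j

omit [Fintype ι] in
theorem sg_symmDiff {g : ι → F} (hg : ∀ j, g j * g j = 1) (S : Finset ι) (i : ι) :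
    sg g (symmDiff S {i}) = sg g S * g i := by
  classical
  unfold sg
  by_cases h : i ∈ S
  · have h1 : symmDiff S {i} = S.erase i := by
      ext x
      rw [Finset.mem_symmDiff, Finset.mem_singleton, Finset.mem_erase]
      constructor
      · rintro (⟨h1, h2⟩ | ⟨h1, h2⟩)
        · exact ⟨h2, h1⟩
        · subst h1; exact absurd h h2
      · rintro ⟨h1, h2⟩; exact Or.inl ⟨h2, h1⟩
    rw [h1, ← Finset.prod_erase_mul S g h, mul_assoc, hg, mul_one]
  · have h1 : symmDiff S {i} = insert i S := by
      ext x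
      rw [Finset.mem_symmDiff, Finset.mem_singleton, Finset.mem_insert]
      constructor
      · rintro (⟨h1, h2⟩ | ⟨h1, h2⟩)
        · exact Or.inr h1
        · exact Or.inl h1
      · rintro (h1 | h1)
        · right; subst h1; exact ⟨rfl, h⟩
        · left; exact ⟨h1, fun h2 => h (h2 ▸ h1)⟩
    rw [h1, Finset.prod_insert h, mul_comm]

def gL (i : ι) : ι → F := fun j => if j < i then -1 else 1
def gR (i : ι) : ι → F := fun j => if i < j then -1 else 1

omit [Fintype ι] in
theorem gL_sq (i j : ι) : gL i j * gL i j = 1 := by unfold gL; split <;> simp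
omit [Fintype ι] in
theorem gR_sq (i j : ι) : gR i j * gR i j = 1 := by unfold gR; split <;> simp

/-- multiplication by a generator with signs -/
def op (g : ι → F) (i : ι) : Module.End F (V ι) where
  toFun f := fun S => sg g S * f (symmDiff S {i})
  map_add' f f' := by ext S; simp [mul_add]
  map_smul' c f := by ext S; simp only [Pi.smul_apply, smul_eq_mul, RingHom.id_apply]; ring

omit [Fintype ι] in
theorem op_apply (g : ι → F) (i : ι) (f : V ι) (S : Finset ι) :
    op g i f S = sg g S * f (symmDiff S {i}) := rfl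

def L (i : ι) : Module.End F (V ι) := op (gL i) i
def R (i : ι) : Module.End F (V ι) := op (gR i) i

omit [Fintype ι] in
theorem sg_sq {g : ι → F} (hg : ∀ j, g j * g j = 1) (S : Finset ι) : sg g S * sg g S = 1 := by
  unfold sg
  rw [← Finset.prod_mul_distrib]
  exact Finset.prod_eq_one fun j _ => hg j

omit [Fintype ι] in
theorem op_mul_op {g g' : ι → F} (hg' : ∀ j, g' j * g' j = 1) (i i' : ι) (f : V ι) (S : Finset ι) :
    (op g i * op g' i') f S = sg g S * sg g' S * g' i * f (symmDiff (symmDiff S {i}) {i'}) := by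
  show sg g S * (sg g' (symmDiff S {i}) * f _) = _
  rw [sg_symmDiff hg']
  ring

omit [Fintype ι] in
theorem L_sq (i : ι) : L i * L i = 1 := by
  refine LinearMap.ext fun f => funext fun S => ?_
  rw [L, op_mul_op (gL_sq i), sg_sq (gL_sq i), symmDiff_assoc, symmDiff_self,
    (symmDiff_bot S : symmDiff S ⊥ = S)]
  simp [gL]

omit [Fintype ι] in
theorem L_anti {i j : ι} (h : i ≠ j) : L i * L j = -(L j * L i) := by
  refine LinearMap.ext fun f => funext fun S => ?_
  rw [LinearMap.neg_apply, Pi.neg_apply, L, L, op_mul_op (gL_sq j), op_mul_op (gL_sq i),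
    symmDiff_right_comm]
  have : gL j i = - gL i j := by
    unfold gL
    rcases lt_or_gt_of_ne h with h' | h'
    · rw [if_pos h', if_neg h'.not_gt]
    · rw [if_neg h'.not_gt, if_pos h', neg_neg]
  rw [this]
  ring

omit [Fintype ι] in
theorem LR_comm (i j : ι) : L i * R j = R j * L i := by
  refine LinearMap.ext fun f => funext fun S => ?_
  rw [L, R, op_mul_op (gR_sq j), op_mul_op (gL_sq i), symmDiff_right_comm]
  have : gR j i = gL i j := rfl
  rw [this]
  ring

omit [Fintype ι] in
theorem R_single (j : ι) (S : Finset ι) :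
    R j (Pi.single S 1) = sg (gR j) S • (Pi.single (symmDiff S {j}) 1 : V ι) := by
  classical
  funext T
  rw [R, op_apply, Pi.smul_apply, smul_eq_mul]
  by_cases h : T = symmDiff S {j}
  · subst h
    rw [Pi.single_eq_same, symmDiff_assoc, symmDiff_self]
    have : symmDiff S ⊥ = S := symmDiff_bot S
    rw [this, Pi.single_eq_same, sg_symmDiff (gR_sq j)]
    simp [gR]
  · rw [Pi.single_eq_of_ne h, mul_zero, Pi.single_eq_of_ne, mul_zero]
    intro h'
    apply h
    rw [← h', symmDiff_assoc, symmDiff_self]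
    exact (symmDiff_bot T).symm

omit [Fintype ι] in
theorem symmDiff_insert' {S : Finset ι} {j : ι} (h : j ∉ S) : symmDiff S {j} = insert j S := by
  classical
  ext x
  rw [Finset.mem_symmDiff, Finset.mem_singleton, Finset.mem_insert]
  constructor
  · rintro (⟨h1, h2⟩ | ⟨h1, h2⟩)
    · exact Or.inr h1
    · exact Or.inl h1
  · rintro (h1 | h1)
    · right; subst h1; exact ⟨rfl, h⟩
    · left; exact ⟨h1, fun h2 => h (h2 ▸ h1)⟩

theorem scalar_of_comm (hι : Even (Fintype.card ι)) (w : Module.End F (V ι))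
    (hR : ∀ j : ι, w * R j = R j * w) (hL : ∀ j : ι, w * L j = L j * w) : ∃ c : F, w = c • 1 := by
  classical
  set δ : V ι := Pi.single ∅ 1 with hδ
  set f := w δ with hf
  have h1 : ∀ i : ι, (L i * R i : Module.End F (V ι)) δ = δ := by
    intro i
    funext S
    rw [L, R, op_mul_op (gR_sq i), symmDiff_assoc, symmDiff_self, (symmDiff_bot S : symmDiff S ⊥ = S)]
    by_cases h : S = ∅
    · subst h
      simp [sg, gR]
    · rw [hδ, Pi.single_eq_of_ne h, mul_zero]
  have h2 : ∀ i : ι, (L i * R i : Module.End F (V ι)) f = f := by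
    intro i
    rw [hf]
    have h3 : (L i * R i) * w = w * (L i * R i) := by
      rw [mul_assoc, ← hR, ← mul_assoc, ← hL, mul_assoc]
    have h4 := congrArg (fun t : Module.End F (V ι) => t δ) h3
    have h5 : (L i * R i : Module.End F (V ι)) (w δ) = w ((L i * R i : Module.End F (V ι)) δ) := h4
    rw [h5, h1]
  have hsign : ∀ (i : ι) (S : Finset ι), sg (gL i) S * sg (gR i) S = (-1) ^ (S.erase i).card := by
    intro i S
    unfold sg
    rw [← Finset.prod_mul_distrib]
    by_cases hi : i ∈ S
    · rw [← Finset.prod_erase_mul S _ hi, ← Finset.prod_const]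
      have : gL i i * gR i i = 1 := by simp [gL, gR]
      rw [this, mul_one]
      refine Finset.prod_congr rfl fun j hj => ?_
      have hne := Finset.ne_of_mem_erase hj
      unfold gL gR
      rcases lt_or_gt_of_ne hne with h | h
      · rw [if_pos h, if_neg h.not_gt, mul_one]
      · rw [if_neg h.not_gt, if_pos h, one_mul]
    · rw [Finset.erase_eq_of_notMem hi, ← Finset.prod_const]
      refine Finset.prod_congr rfl fun j hj => ?_
      have hne : j ≠ i := fun h => hi (h ▸ hj)
      unfold gL gR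
      rcases lt_or_gt_of_ne hne with h | h
      · rw [if_pos h, if_neg h.not_gt, mul_one]
      · rw [if_neg h.not_gt, if_pos h, one_mul]
  have h3 : ∀ (i : ι) (S : Finset ι), f S = (-1) ^ (S.erase i).card * f S := by
    intro i S
    have h4 := congrFun (h2 i) S
    rw [L, R, op_mul_op (gR_sq i), symmDiff_assoc, symmDiff_self,
      (symmDiff_bot S : symmDiff S ⊥ = S), hsign] at h4
    have : gR i i = 1 := by simp [gR]
    rw [this, mul_one] at h4
    exact h4.symm
  have h4 : ∀ S : Finset ι, S ≠ ∅ → f S = 0 := by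
    intro S hS
    have key : ∀ i, Odd (S.erase i).card → f S = 0 := by
      intro i hi
      have h5 := h3 i S
      rw [hi.neg_one_pow] at h5
      have h6 : (2 : F) * f S = 0 := by linear_combination h5
      have h7 : (2 : F) ≠ 0 := by decide
      exact (mul_eq_zero.mp h6).resolve_left h7
    rcases Nat.even_or_odd S.card with hev | hodd
    · obtain ⟨i, hi⟩ := Finset.nonempty_of_ne_empty hS
      apply key i
      rw [Finset.card_erase_of_mem hi]
      have : 0 < S.card := Finset.card_pos.mpr ⟨i, hi⟩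
      obtain ⟨m, hm⟩ := hev
      exact ⟨m - 1, by omega⟩
    · have hne : S ≠ Finset.univ := by
        rintro rfl
        rw [Finset.card_univ] at hodd
        exact (Nat.not_even_iff_odd.mpr hodd) hι
      obtain ⟨i, hi⟩ : ∃ i, i ∉ S := by
        by_contra hall
        push Not at hall
        exact hne (Finset.eq_univ_iff_forall.mpr hall)
      apply key i
      rw [Finset.erase_eq_of_notMem hi]
      exact hodd
  refine ⟨f ∅, ?_⟩
  have h5 : ∀ S : Finset ι, w (Pi.single S 1) = f ∅ • (Pi.single S 1 : V ι) := by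
    intro S
    induction S using Finset.induction_on with
    | empty =>
      show f = _
      funext T
      by_cases hT : T = ∅
      · subst hT; simp
      · rw [h4 T hT, Pi.smul_apply, Pi.single_eq_of_ne hT, smul_zero]
    | insert j S hj ih =>
      have h6 := R_single j S
      rw [symmDiff_insert' hj] at h6
      have h7 : (Pi.single (insert j S) 1 : V ι) = sg (gR j) S • R j (Pi.single S 1) := by
        rw [h6, smul_smul, sg_sq (gR_sq j), one_smul]
      rw [h7, map_smul]
      have h8 : w (R j (Pi.single S 1)) = R j (w (Pi.single S 1)) := by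
        have := congrArg (fun t : Module.End F (V ι) => t (Pi.single S 1)) (hR j)
        exact this
      rw [h8, ih, map_smul, smul_comm]
  refine LinearMap.pi_ext' fun S => ?_
  refine LinearMap.ext_ring ?_
  exact h5 S

end Ops

theorem anti4 {A : Type*} [Ring A] {a b c d : A} (haa : a * a = 1) (hbb : b * b = 1)
    (hcc : c * c = 1) (hdd : d * d = 1) (hab : b * a = -(a * b)) (hac : c * a = -(a * c))
    (had : d * a = -(a * d)) (hbc : c * b = -(b * c)) (hbd : d * b = -(b * d))
    (hcd : d * c = -(c * d)) :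
    ((a - b) * (c - d)) * ((a - c) * (b - d)) = -(((a - c) * (b - d)) * ((a - b) * (c - d))) := by
  have haa' : ∀ x, a * (a * x) = x := fun x => by rw [← mul_assoc, haa, one_mul]
  have hbb' : ∀ x, b * (b * x) = x := fun x => by rw [← mul_assoc, hbb, one_mul]
  have hcc' : ∀ x, c * (c * x) = x := fun x => by rw [← mul_assoc, hcc, one_mul]
  have hdd' : ∀ x, d * (d * x) = x := fun x => by rw [← mul_assoc, hdd, one_mul]
  have hab' : ∀ x, b * (a * x) = -(a * (b * x)) := fun x => by rw [← mul_assoc, hab, neg_mul, mul_assoc]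
  have hac' : ∀ x, c * (a * x) = -(a * (c * x)) := fun x => by rw [← mul_assoc, hac, neg_mul, mul_assoc]
  have had' : ∀ x, d * (a * x) = -(a * (d * x)) := fun x => by rw [← mul_assoc, had, neg_mul, mul_assoc]
  have hbc' : ∀ x, c * (b * x) = -(b * (c * x)) := fun x => by rw [← mul_assoc, hbc, neg_mul, mul_assoc]
  have hbd' : ∀ x, d * (b * x) = -(b * (d * x)) := fun x => by rw [← mul_assoc, hbd, neg_mul, mul_assoc]
  have hcd' : ∀ x, d * (c * x) = -(c * (d * x)) := fun x => by rw [← mul_assoc, hcd, neg_mul, mul_assoc]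
  simp only [mul_sub, sub_mul, mul_assoc, haa, hbb, hcc, hdd, hab, hac, had, hbc, hbd, hcd,
    haa', hbb', hcc', hdd', hab', hac', had', hbc', hbd', hcd', mul_neg, neg_mul, mul_one, neg_neg]
  abel

section Abs

variable {ι : Type} [DecidableEq ι] {A : Type} [Ring A] {L R : ι → A}

theorem sub_mul_L (hsq : ∀ i, L i * L i = 1) (hanti : ∀ i j, i ≠ j → L i * L j = -(L j * L i))
    {x y : ι} (i : ι) :
    (L x - L y) * L i = -(L (Equiv.swap x y i) * (L x - L y)) := by
  by_cases hx : i = x
  · subst hx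
    rw [Equiv.swap_apply_left, sub_mul, mul_sub, hsq, hsq]
    abel
  · by_cases hy : i = y
    · subst hy
      rw [Equiv.swap_apply_right, sub_mul, mul_sub, hsq, hsq]
      abel
    · rw [Equiv.swap_apply_of_ne_of_ne hx hy, sub_mul, mul_sub, hanti _ _ (Ne.symm hx),
        hanti _ _ (Ne.symm hy)]
      abel

omit [DecidableEq ι] in
theorem sub_sq (hsq : ∀ i, L i * L i = 1) (hanti : ∀ i j, i ≠ j → L i * L j = -(L j * L i))
    (h3 : (3 : A) = 0) {x y : ι} (hxy : x ≠ y) : (L x - L y) * (L x - L y) = -1 := by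
  rw [sub_mul, mul_sub, mul_sub, hsq, hsq, hanti _ _ hxy]
  have : (1 : A) - -(L y * L x) - (L y * L x - 1) = -1 + 3 := by
    have : (3 : A) = 1 + 1 + 1 := by norm_num
    rw [this]; abel
  rw [this, h3, add_zero]

/-- unit -/
def uu (hsq : ∀ i, L i * L i = 1) (hanti : ∀ i j, i ≠ j → L i * L j = -(L j * L i))
    (h3 : (3 : A) = 0) {x y : ι} (hxy : x ≠ y) : Aˣ where
  val := L x - L y
  inv := -(L x - L y)
  val_inv := by rw [mul_neg, sub_sq hsq hanti h3 hxy, neg_neg]
  inv_val := by rw [neg_mul, sub_sq hsq hanti h3 hxy, neg_neg]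

theorem exists_lift [Fintype ι] (hsq : ∀ i, L i * L i = 1) (hanti : ∀ i j, i ≠ j → L i * L j = -(L j * L i))
    (hLR : ∀ i j, L i * R j = R j * L i)
    (h3 : (3 : A) = 0) (τ : Equiv.Perm ι) : ∃ w : Aˣ,
    (∀ j, (w : A) * R j = R j * w) ∧
    ∀ i, (w : A) * L i = ((Equiv.Perm.sign τ : ℤ) : A) * (L (τ i) * w) := by
  induction τ using Equiv.Perm.swap_induction_on with
  | one => exact ⟨1, fun j => by simp, fun i => by simp⟩
  | swap_mul f x y hxy ih =>
    obtain ⟨w, hw1, hw2⟩ := ih
    refine ⟨uu hsq hanti h3 hxy * w, fun j => ?_, fun i => ?_⟩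
    · rw [Units.val_mul]
      have h1 : (uu hsq hanti h3 hxy : A) * R j = R j * (uu hsq hanti h3 hxy : A) := by
        show (L x - L y) * R j = R j * (L x - L y)
        rw [sub_mul, mul_sub, hLR, hLR]
      rw [mul_assoc, hw1, ← mul_assoc, h1, mul_assoc]
    · rw [Units.val_mul, mul_assoc, hw2]
      have h1 : (uu hsq hanti h3 hxy : A) * (L (f i) * w) =
          -(L (Equiv.swap x y (f i)) * ((uu hsq hanti h3 hxy : A) * w)) := by
        rw [← mul_assoc]
        show (L x - L y) * L (f i) * w = _
        rw [sub_mul_L hsq hanti, neg_mul, mul_assoc]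
        rfl
      have h2 : (uu hsq hanti h3 hxy : A) * (((Equiv.Perm.sign f : ℤ) : A) * (L (f i) * w)) =
          ((Equiv.Perm.sign f : ℤ) : A) * ((uu hsq hanti h3 hxy : A) * (L (f i) * w)) := by
        rw [← mul_assoc, ← (Int.cast_commute _ _).eq, mul_assoc]
      rw [h2, h1, Equiv.Perm.sign_mul, Equiv.Perm.sign_swap hxy, Equiv.Perm.mul_apply]
      push_cast
      simp

end Abs

section Cover

variable {n : ℕ} {A : Type} [Ring A]

/-- the double cover -/
def Gam (L R : Fin n ⊕ Fin n → A) : Subgroup (alternatingGroup (Fin n) × Aˣ) where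
  carrier := {x | (∀ j, (x.2 : A) * R j = R j * x.2) ∧
    ∀ i, (x.2 : A) * L i = L (Equiv.Perm.sumCongr (x.1 : Equiv.Perm (Fin n)) 1 i) * x.2}
  one_mem' := ⟨fun j => by simp, fun i => by simp⟩
  mul_mem' := by
    rintro x y ⟨hx1, hx2⟩ ⟨hy1, hy2⟩
    refine ⟨fun j => ?_, fun i => ?_⟩
    · rw [Prod.snd_mul, Units.val_mul, mul_assoc, hy1, ← mul_assoc, hx1, mul_assoc]
    · rw [Prod.snd_mul, Units.val_mul, mul_assoc, hy2, ← mul_assoc, hx2, mul_assoc]
      congr 2
      cases i <;> simp
  inv_mem' := by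
    rintro x ⟨hx1, hx2⟩
    refine ⟨fun j => ?_, fun i => ?_⟩
    · rw [Prod.snd_inv, Units.inv_mul_eq_iff_eq_mul, ← mul_assoc, hx1, mul_assoc, Units.mul_inv, mul_one]
    · rw [Prod.snd_inv, Units.inv_mul_eq_iff_eq_mul, ← mul_assoc, hx2, mul_assoc, Units.mul_inv, mul_one]
      congr 1
      cases i <;> simp

theorem cover (hn : 4 ≤ n) [Finite A] (L R : Fin n ⊕ Fin n → A) (hsq : ∀ i, L i * L i = 1)
    (hanti : ∀ i j, i ≠ j → L i * L j = -(L j * L i)) (hLR : ∀ i j, L i * R j = R j * L i)
    (h3 : (3 : A) = 0)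
    (hsc : ∀ w : Aˣ, (∀ j, (w : A) * R j = R j * w) → (∀ j, (w : A) * L j = L j * w) → w = 1 ∨ w = -1)
    (hne : (1 : A) ≠ -1) :
    ∃ (Γ : Type) (_ : Group Γ) (_ : Finite Γ) (z : Γ) (hz : z ∈ Subgroup.center Γ), orderOf z = 2 ∧
      z ∈ commutator Γ ∧ ∃ _ : (Subgroup.zpowers z).Normal,
        Nonempty (Γ ⧸ Subgroup.zpowers z ≃* alternatingGroup (Fin n)) := by
  have hFA : Finite Aˣ := inferInstance
  have hFP : Finite (alternatingGroup (Fin n) × Aˣ) := inferInstance
  let z : Gam L R := ⟨(1, -1), fun j => by simp, fun i => by simp⟩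
  have hzc : z ∈ Subgroup.center (Gam L R) := by
    rw [Subgroup.mem_center_iff]
    intro g
    apply Subtype.ext
    apply Prod.ext
    · show g.1.1 * 1 = 1 * g.1.1
      rw [mul_one, one_mul]
    · show g.1.2 * -1 = -1 * g.1.2
      rw [mul_neg, neg_mul, mul_one, one_mul]
  have hz2 : z ^ 2 = 1 := by
    apply Subtype.ext
    apply Prod.ext
    · show (1 : alternatingGroup (Fin n)) ^ 2 = 1
      simp
    · show (-1 : Aˣ) ^ 2 = 1
      simp
  have hz1 : z ≠ 1 := by
    intro h
    have h1 : (-1 : Aˣ) = 1 := congrArg (fun t : Gam L R => t.1.2) h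
    have h2 : (-1 : A) = 1 := congrArg Units.val h1
    exact hne h2.symm
  have hzo : orderOf z = 2 := by
    have := Fact.mk Nat.prime_two
    exact orderOf_eq_prime hz2 hz1
  let π : Gam L R →* alternatingGroup (Fin n) := (MonoidHom.fst _ _).comp (Gam L R).subtype
  have hπ : Function.Surjective π := by
    intro σ
    obtain ⟨w, hw1, hw2⟩ := exists_lift hsq hanti hLR h3 (Equiv.Perm.sumCongr (σ : Equiv.Perm (Fin n)) 1)
    have hs : Equiv.Perm.sign (Equiv.Perm.sumCongr (σ : Equiv.Perm (Fin n)) (1 : Equiv.Perm (Fin n))) = 1 := by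
      rw [Equiv.Perm.sign_sumCongr, Equiv.Perm.sign_one, mul_one]
      exact Equiv.Perm.mem_alternatingGroup.mp σ.2
    exact ⟨⟨(σ, w), hw1, fun i => by rw [hw2, hs]; simp⟩, rfl⟩
  have hker : π.ker = Subgroup.zpowers z := by
    ext g
    rw [MonoidHom.mem_ker]
    constructor
    · intro hg
      obtain ⟨⟨σ, w⟩, hw1, hw2⟩ := g
      obtain rfl : σ = 1 := hg
      have h1 : ∀ j, (w : A) * L j = L j * w := by
        intro j
        have := hw2 j
        simpa using this
      rcases hsc w hw1 h1 with rfl | rfl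
      · exact Subgroup.one_mem _
      · exact Subgroup.mem_zpowers z
    · intro hg
      rw [Subgroup.mem_zpowers_iff] at hg
      obtain ⟨k, rfl⟩ := hg
      rw [map_zpow]
      have : π z = 1 := rfl
      rw [this, one_zpow]
  refine ⟨Gam L R, inferInstance, inferInstance, z, hzc, hzo, ?_, ?_⟩
  · -- commutator
    let x0 : Fin n := ⟨0, by omega⟩
    let x1 : Fin n := ⟨1, by omega⟩
    let x2 : Fin n := ⟨2, by omega⟩
    let x3 : Fin n := ⟨3, by omega⟩
    have h01 : x0 ≠ x1 := by simp [x0, x1]
    have h02 : x0 ≠ x2 := by simp [x0, x2]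
    have h03 : x0 ≠ x3 := by simp [x0, x3]
    have h12 : x1 ≠ x2 := by simp [x1, x2]
    have h13 : x1 ≠ x3 := by simp [x1, x3]
    have h23 : x2 ≠ x3 := by simp [x2, x3]
    have hinl : ∀ {x y : Fin n}, x ≠ y → (Sum.inl x : Fin n ⊕ Fin n) ≠ Sum.inl y :=
      fun h h' => h (Sum.inl_injective h')
    have hswap : ∀ {x y : Fin n}, Equiv.Perm.sumCongr (Equiv.swap x y) (1 : Equiv.Perm (Fin n)) =
        Equiv.swap (Sum.inl x) (Sum.inl y) := fun {x y} => Equiv.Perm.sumCongr_swap_one x y
    -- the two lifts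
    have hmk : ∀ {a b c d : Fin n} (hab : a ≠ b) (hcd : c ≠ d), ∃ g : Gam L R,
        (g.1.2 : A) = (L (Sum.inl a) - L (Sum.inl b)) * (L (Sum.inl c) - L (Sum.inl d)) ∧
        (g.1.1 : Equiv.Perm (Fin n)) = Equiv.swap a b * Equiv.swap c d := by
      intro a b c d hab hcd
      refine ⟨⟨(⟨Equiv.swap a b * Equiv.swap c d, ?_⟩, uu hsq hanti h3 (hinl hab) * uu hsq hanti h3 (hinl hcd)),
        fun j => ?_, fun i => ?_⟩, rfl, rfl⟩
      · rw [Equiv.Perm.mem_alternatingGroup, Equiv.Perm.sign_mul, Equiv.Perm.sign_swap hab,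
          Equiv.Perm.sign_swap hcd]
        simp
      · show (L (Sum.inl a) - L (Sum.inl b)) * (L (Sum.inl c) - L (Sum.inl d)) * R j =
          R j * ((L (Sum.inl a) - L (Sum.inl b)) * (L (Sum.inl c) - L (Sum.inl d)))
        have h1 : ∀ x y, (L x - L y) * R j = R j * (L x - L y) := by
          intro x y
          rw [sub_mul, mul_sub, hLR, hLR]
        rw [mul_assoc, h1, ← mul_assoc, h1, mul_assoc]
      · show (L (Sum.inl a) - L (Sum.inl b)) * (L (Sum.inl c) - L (Sum.inl d)) * L i =
          L (Equiv.Perm.sumCongr (Equiv.swap a b * Equiv.swap c d) 1 i) *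
            ((L (Sum.inl a) - L (Sum.inl b)) * (L (Sum.inl c) - L (Sum.inl d)))
        rw [mul_assoc, sub_mul_L hsq hanti, mul_neg, ← mul_assoc, sub_mul_L hsq hanti, neg_mul,
          neg_neg, mul_assoc]
        congr 2
        rw [← hswap, ← hswap, ← Equiv.Perm.mul_apply, Equiv.Perm.sumCongr_mul, one_mul]
    obtain ⟨g1, h1a, h1b⟩ := hmk h01 h23
    obtain ⟨g2, h2a, h2b⟩ := hmk h02 h13
    have hrel := anti4 (hsq (Sum.inl x0)) (hsq (Sum.inl x1)) (hsq (Sum.inl x2)) (hsq (Sum.inl x3))
      (hanti _ _ (hinl h01.symm)) (hanti _ _ (hinl h02.symm)) (hanti _ _ (hinl h03.symm))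
      (hanti _ _ (hinl h12.symm)) (hanti _ _ (hinl h13.symm)) (hanti _ _ (hinl h23.symm))
    rw [← h1a, ← h2a] at hrel
    have hg : g1 * g2 = z * (g2 * g1) := by
      apply Subtype.ext
      apply Prod.ext
      · apply Subtype.ext
        show (g1.1.1 : Equiv.Perm (Fin n)) * g2.1.1 = 1 * (g2.1.1 * g1.1.1)
        rw [h1b, h2b, one_mul]
        ext t
        have key : ∀ t : Fin n, (Equiv.swap x0 x1 * Equiv.swap x2 x3 * (Equiv.swap x0 x2 * Equiv.swap x1 x3)) t =
            (Equiv.swap x0 x2 * Equiv.swap x1 x3 * (Equiv.swap x0 x1 * Equiv.swap x2 x3)) t := by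
          intro t
          simp only [Equiv.Perm.mul_apply]
          by_cases ht0 : t = x0
          · subst ht0
            simp [Equiv.swap_apply_def, h01, h02, h03, h12, h13, h23, h01.symm, h02.symm, h03.symm, h12.symm, h13.symm, h23.symm]
          by_cases ht1 : t = x1
          · subst ht1
            simp [Equiv.swap_apply_def, h01, h02, h03, h12, h13, h23, h01.symm, h02.symm, h03.symm, h12.symm, h13.symm, h23.symm]
          by_cases ht2 : t = x2
          · subst ht2
            simp [Equiv.swap_apply_def, h01, h02, h03, h12, h13, h23, h01.symm, h02.symm, h03.symm, h12.symm, h13.symm, h23.symm]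
          by_cases ht3 : t = x3
          · subst ht3
            simp [Equiv.swap_apply_def, h01, h02, h03, h12, h13, h23, h01.symm, h02.symm, h03.symm, h12.symm, h13.symm, h23.symm]
          simp [Equiv.swap_apply_def, ht0, ht1, ht2, ht3]
        rw [key t]
      · apply Units.ext
        show (g1.1.2 : A) * g2.1.2 = ((-1 : Aˣ) : A) * ((g2.1.2 : A) * g1.1.2)
        rw [hrel, Units.val_neg, Units.val_one, neg_one_mul]
    have hz : z = ⁅g1, g2⁆ := by
      rw [commutatorElement_def]
      rw [hg]
      group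
    rw [hz]
    exact Subgroup.commutator_mem_commutator (Subgroup.mem_top g1) (Subgroup.mem_top g2)
  · have hnorm : (Subgroup.zpowers z).Normal := by rw [← hker]; infer_instance
    refine ⟨hnorm, ⟨?_⟩⟩
    have hkn : π.ker.Normal := inferInstance
    exact (QuotientGroup.quotientMulEquivOfEq hker.symm).trans
      (QuotientGroup.quotientKerEquivOfSurjective π hπ)

end Cover

theorem main (n : ℕ) (hn : 4 ≤ n) :
    ∃ (Γ : Type) (_ : Group Γ) (_ : Finite Γ) (z : Γ) (hz : z ∈ Subgroup.center Γ), orderOf z = 2 ∧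
      z ∈ commutator Γ ∧ ∃ _ : (Subgroup.zpowers z).Normal,
        Nonempty (Γ ⧸ Subgroup.zpowers z ≃* alternatingGroup (Fin n)) := by
  let e : Fin n ⊕ Fin n ≃ Fin (n + n) := finSumFinEquiv
  have hF : Finite (Module.End F (V (Fin (n + n)))) :=
    Finite.of_injective (fun w : Module.End F (V (Fin (n + n))) => (w : V (Fin (n + n)) → V (Fin (n + n))))
      DFunLike.coe_injective
  refine cover (A := Module.End F (V (Fin (n + n)))) hn (fun i => L (e i)) (fun i => R (e i))
    (fun i => L_sq (e i)) (fun i j h => L_anti (fun h' => h (e.injective h')))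
    (fun i j => LR_comm (e i) (e j)) ?_ ?_ ?_
  · refine LinearMap.ext fun f => funext fun S => ?_
    have h : ∀ x : F, x + x + x = 0 := by decide
    have h2 : (3 : Module.End F (V (Fin (n + n)))) = 1 + 1 + 1 := by norm_num
    rw [h2]
    exact h (f S)
  · intro w hR hL
    obtain ⟨c, hc⟩ := scalar_of_comm (by rw [Fintype.card_fin]; exact ⟨n, rfl⟩) (w : Module.End F (V (Fin (n + n))))
      (fun j => by have := hR (e.symm j); simpa using this)
      (fun j => by have := hL (e.symm j); simpa using this)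
    have h : ∀ c : F, c = 0 ∨ c = 1 ∨ c = -1 := by decide
    rcases h c with rfl | rfl | rfl
    · exfalso
      have h1 : (w : Module.End F (V (Fin (n + n)))) * ((w⁻¹ : (Module.End F (V (Fin (n + n))))ˣ) : Module.End F (V (Fin (n + n)))) = 1 := Units.mul_inv w
      rw [hc, zero_smul, zero_mul] at h1
      have h2 := congrArg (fun t : Module.End F (V (Fin (n + n))) => t (fun _ => 1) ∅) h1
      have h3 : (0 : F) = 1 := h2
      exact absurd h3 (by decide)
    · left
      apply Units.ext
      rw [hc, one_smul]; rfl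
    · right
      apply Units.ext
      rw [hc]
      refine LinearMap.ext fun f => funext fun S => ?_
      show (-1 : F) * f S = - f S
      ring
  · intro h
    have h2 := congrArg (fun t : Module.End F (V (Fin (n + n))) => t (fun _ => 1) ∅) h
    have h3 : (1 : F) = -1 := h2
    exact absurd h3 (by decide)

end Cfsg.Agent.H3.Spin
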