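import Cfsg.Statements.S0163
import Cfsg.Agent.H25_Elem

set_option autoImplicit false
open Cfsg

namespace Cfsg.Agent.S0163


/-- Brauer's induction Theorem: every character of a finite group is a ℤ-linear combination of functions induced from linear characters (homomorphisms to ℂˣ) of elementary subgroups. -/
theorem result {G : Type*} [Group G] [Fintype G] (χ : G → ℂ) (hχ : Cfsg.IsCharacter G χ) : ∃ l : List ((E : Subgroup G) × ((E →* ℂˣ) × ℤ)), (∀ t ∈ l, ∃ p : ℕ, p.Prime ∧ Cfsg.IsElementary p t.1) ∧ χ = (l.map fun t => (t.2.2 : ℂ) • Cfsg.indFun t.1 (fun e => (t.2.1 e : ℂ))).sum := by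
  exact Cfsg.Agent.H25.BrauerP.VHom_list (Cfsg.Agent.H25.Elem.brauer_induction χ hχ)

end Cfsg.Agent.S0163
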