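import Mathlib
import Cfsg.Prelude.Def_Characters
import Cfsg.Agent.H3_CharInd
import Cfsg.Agent.H3_CharInt
import Cfsg.Agent.H3_CharCalc
import Cfsg.Agent.S0163
import Cfsg.Agent.S0153

/-!
# Brauer's splitting field theorem
-/

set_option autoImplicit false

open scoped ComplexConjugate

namespace Cfsg.Agent.H3.Split

open Cfsg Cfsg.Agent.H3.CharBasic Cfsg.Agent.H3.CharIrr Cfsg.Agent.H3.CharComplete
  Cfsg.Agent.H3.CharMult Cfsg.Agent.H3.CharInd Cfsg.Agent.H3.CharInt

universe v

section Mods

/-- character of a `K[G]`-module -/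
noncomputable def ch (K : Type*) {G : Type*} (M : Type*) [Field K] [Group G] [AddCommGroup M]
    [Module K M] [Module (MonoidAlgebra K G) M] [IsScalarTower K (MonoidAlgebra K G) M]
    (g : G) : K :=
  LinearMap.trace K M (Algebra.lsmul K K M (MonoidAlgebra.single g (1 : K)))

variable {K G V W : Type*} [Field K] [Group G] [AddCommGroup V]
    [Module K V] [Module (MonoidAlgebra K G) V] [IsScalarTower K (MonoidAlgebra K G) V]
    [AddCommGroup W]
    [Module K W] [Module (MonoidAlgebra K G) W] [IsScalarTower K (MonoidAlgebra K G) W]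

theorem ch_equiv (e : V ≃ₗ[MonoidAlgebra K G] W) (g : G) : ch K V g = ch K W g := by
  rw [ch, ← LinearMap.trace_conj' _ (e.restrictScalars K)]
  congr 1
  ext x
  simp [LinearEquiv.conj_apply]

theorem ch_prod [FiniteDimensional K V] [FiniteDimensional K W] (g : G) :
    ch K (V × W) g = ch K V g + ch K W g := by
  have h := LinearMap.trace_prodMap' (Algebra.lsmul K K V (MonoidAlgebra.single g (1 : K)))
    (Algebra.lsmul K K W (MonoidAlgebra.single g (1 : K)))
  rw [ch, ch, ch, ← h]
  congr 1

theorem fd_sub [FiniteDimensional K V] (p : Submodule (MonoidAlgebra K G) V) :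
    FiniteDimensional K p :=
  Module.Finite.of_injective (p.subtype.restrictScalars K) p.injective_subtype

theorem ch_compl [FiniteDimensional K V] {p q : Submodule (MonoidAlgebra K G) V}
    (h : IsCompl p q) (g : G) : ch K V g = ch K p g + ch K q g := by
  have := fd_sub p
  have := fd_sub q
  rw [← ch_prod, ch_equiv (Submodule.prodEquivOfIsCompl p q h)]

theorem ch_coord {ι : Type*} [Fintype ι] [DecidableEq ι] (b : Module.Basis ι K V) (g : G) :
    ch K V g = ∑ i, b.repr (MonoidAlgebra.single g (1 : K) • b i) i := by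
  rw [ch, LinearMap.trace_eq_matrix_trace K b, Matrix.trace]
  refine Finset.sum_congr rfl fun i _ => ?_
  simp [LinearMap.toMatrix_apply]

theorem exists_hom [FiniteDimensional K V] [FiniteDimensional K W] [Fintype G]
    (h : ∑ g : G, ch K V g⁻¹ * ch K W g ≠ 0) :
    ∃ f : W →ₗ[MonoidAlgebra K G] V, f ≠ 0 := by
  by_contra hall
  push Not at hall
  apply h
  let b := Module.finBasis K V
  let c := Module.finBasis K W
  have key : ∀ i j, ∑ g : G, b.repr (MonoidAlgebra.single g⁻¹ (1 : K) • b i) i *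
      c.repr (MonoidAlgebra.single g (1 : K) • c j) j = 0 := by
    intro i j
    have h1 := hall (((c.coord j).smulRight (b i)).sumOfConjugatesEquivariant G)
    have h2 := LinearMap.congr_fun h1 (c j)
    rw [LinearMap.sumOfConjugatesEquivariant_apply, LinearMap.zero_apply] at h2
    have h3 := congrArg (fun v => b.repr v i) h2
    simp only [LinearMap.sumOfConjugates_apply, LinearMap.conjugate_apply, map_sum,
      Finsupp.coe_finsetSum, Finset.sum_apply, map_zero, Finsupp.coe_zero, Pi.zero_apply] at h3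
    rw [← h3]
    refine Finset.sum_congr rfl fun g _ => ?_
    rw [LinearMap.smulRight_apply, Module.Basis.coord_apply, smul_comm,
      LinearEquiv.map_smul, Finsupp.smul_apply, smul_eq_mul, mul_comm]
  calc ∑ g : G, ch K V g⁻¹ * ch K W g
      = ∑ g : G, ∑ i, ∑ j, b.repr (MonoidAlgebra.single g⁻¹ (1 : K) • b i) i *
        c.repr (MonoidAlgebra.single g (1 : K) • c j) j := by
        refine Finset.sum_congr rfl fun g _ => ?_
        rw [ch_coord b, ch_coord c, Finset.sum_mul_sum]
    _ = 0 := by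
        rw [Finset.sum_comm]
        refine Finset.sum_eq_zero fun i _ => ?_
        rw [Finset.sum_comm]
        exact Finset.sum_eq_zero fun j _ => key i j

end Mods

section Real

/-- `χ` is afforded by a matrix representation over `K` -/
def RK {K : Type*} [Field K] (φ : K →+* ℂ) {G : Type*} [Group G] (χ : G → ℂ) : Prop :=
  ∃ (n : ℕ) (A : G →* Matrix (Fin n) (Fin n) K), ∀ g, φ (A g).trace = χ g

variable {K G : Type*} [Field K] [Group G] (φ : K →+* ℂ)

theorem RK.isChar {χ : G → ℂ} (h : RK φ χ) : IsCharacter G χ := by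
  obtain ⟨n, A, hA⟩ := h
  refine ⟨n, (Matrix.toLinAlgEquiv' : Matrix (Fin n) (Fin n) ℂ ≃ₐ[ℂ] _).toRingEquiv.toRingHom.toMonoidHom.comp
    ((φ.mapMatrix.toMonoidHom).comp A), ?_⟩
  ext g
  rw [← hA g]
  change LinearMap.trace ℂ _ (Matrix.toLin' ((A g).map φ)) = _
  rw [Matrix.trace_toLin'_eq]
  simp [Matrix.trace]

theorem rk_of_matrix {ι : Type*} [Fintype ι] [DecidableEq ι] (A : G →* Matrix ι ι K) {χ : G → ℂ}
    (h : ∀ g, φ (A g).trace = χ g) : RK φ χ := by
  let e := Fintype.equivFin ι
  refine ⟨Fintype.card ι, (Matrix.reindexAlgEquiv K K e).toRingEquiv.toRingHom.toMonoidHom.comp A, ?_⟩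
  intro g
  rw [← h g]
  congr 1
  change (Matrix.reindex e e (A g)).trace = _
  rw [Matrix.trace, Matrix.trace]
  exact Fintype.sum_equiv e.symm _ _ fun x => rfl

theorem rk_of_mod {V : Type*} [AddCommGroup V]
    [Module K V] [Module (MonoidAlgebra K G) V] [IsScalarTower K (MonoidAlgebra K G) V]
    [FiniteDimensional K V] {χ : G → ℂ} (h : ∀ g, φ (ch K V g) = χ g) : RK φ χ := by
  let b := Module.finBasis K V
  refine rk_of_matrix φ ((LinearMap.toMatrixAlgEquiv b).toRingEquiv.toRingHom.toMonoidHom.comp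
    ((Algebra.lsmul K K V).toRingHom.toMonoidHom.comp (MonoidAlgebra.of K G))) ?_
  intro g
  rw [← h g, ch, LinearMap.trace_eq_matrix_trace K b]
  rfl

theorem ch_asModule {V : Type*} [AddCommGroup V] [Module K V] (ρ : Representation K G V) (g : G) :
    ch K ρ.asModule g = LinearMap.trace K V (ρ g) := by
  have h : Algebra.lsmul K K ρ.asModule (MonoidAlgebra.single g (1 : K)) =
      ρ.asModuleEquiv.symm.conj (ρ g) := by
    ext x
    change MonoidAlgebra.single g (1 : K) • x = _
    rw [Representation.single_smul, one_smul]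
    rfl
  rw [ch, h, LinearMap.trace_conj']

theorem RK.exists_mod {χ : G → ℂ} (h : RK φ χ) : ∃ (n : ℕ) (ρ : Representation K G (Fin n → K)),
    ∀ g, φ (ch K ρ.asModule g) = χ g := by
  obtain ⟨n, A, hA⟩ := h
  refine ⟨n, (Matrix.toLinAlgEquiv' : Matrix (Fin n) (Fin n) K ≃ₐ[K] _).toRingEquiv.toRingHom.toMonoidHom.comp A, ?_⟩
  intro g
  rw [← hA g]
  congr 1
  rw [ch_asModule, ← Matrix.trace_toLin'_eq]
  rfl

theorem RK.add {χ ψ : G → ℂ} (h : RK φ χ) (h' : RK φ ψ) : RK φ (χ + ψ) := by
  obtain ⟨n, ρ, hρ⟩ := h.exists_mod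
  obtain ⟨m, σ, hσ⟩ := h'.exists_mod
  refine rk_of_mod φ (V := ρ.asModule × σ.asModule) (χ := χ + ψ) ?_
  intro g
  rw [ch_prod, map_add, hρ, hσ]
  rfl

theorem RK.zero : RK φ (0 : G → ℂ) :=
  ⟨0, 1, fun g => by simp⟩

/-- cancellation -/
theorem cancel [Fintype G] {χ : G → ℂ} (hχ : IsCharacter G χ) (d : ℕ) :
    ∀ {V W : Type v} [AddCommGroup V]
    [Module K V] [Module (MonoidAlgebra K G) V] [IsScalarTower K (MonoidAlgebra K G) V]
    [FiniteDimensional K V] [AddCommGroup W]
    [Module K W] [Module (MonoidAlgebra K G) W] [IsScalarTower K (MonoidAlgebra K G) W]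
    [FiniteDimensional K W], Module.finrank K W = d →
    (∀ g, φ (ch K V g) = φ (ch K W g) + χ g) → RK φ χ := by
  have hcz : CharZero K := charZero_of_injective_algebraMap (R := ℕ) (by
    intro a b hab
    have h1 : φ (algebraMap ℕ K a) = φ (algebraMap ℕ K b) := by rw [hab]
    simpa using h1)
  induction d using Nat.strong_induction_on with
  | _ d ih =>
  intro V W _ _ _ _ _ _ _ _ _ _ hd hVW
  rcases Nat.eq_zero_or_pos d with h0 | hpos
  · have hs : Subsingleton W := Module.finrank_zero_iff.mp (hd.trans h0)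
    refine rk_of_mod φ (V := V) fun g => ?_
    rw [hVW g]
    have : ch K W g = 0 := by
      rw [ch, Subsingleton.elim (Algebra.lsmul K K W (MonoidAlgebra.single g (1 : K))) 0, map_zero]
    rw [this, map_zero, zero_add]
  have hW1 : RK φ (fun g : G => φ (ch K W g)) := rk_of_mod φ fun g => rfl
  have hW : IsCharacter G (fun g : G => φ (ch K W g)) := hW1.isChar
  have hV : IsCharacter G (fun g : G => φ (ch K V g)) := (rk_of_mod φ fun g => rfl : RK φ _).isChar
  have h1 : classInner (fun g : G => φ (ch K V g)) (fun g : G => φ (ch K W g)) ≠ 0 := by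
    have he : (fun g : G => φ (ch K V g)) = (fun g : G => φ (ch K W g)) + χ := by
      funext g
      exact hVW g
    rw [he, ci_add_left]
    obtain ⟨a, ha⟩ := ci_char_nat hW hW
    obtain ⟨b, hb⟩ := ci_char_nat hχ hW
    have ha0 : a ≠ 0 := by
      rintro rfl
      rw [Nat.cast_zero] at ha
      have h2 := congrFun (ci_self_eq_zero ha) 1
      have h3 : ch K W (1 : G) = Module.finrank K W := by
        rw [ch, ← MonoidAlgebra.one_def, map_one]
        exact LinearMap.trace_one K W
      simp only [h3, map_natCast, Pi.zero_apply] at h2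
      rw [hd] at h2
      exact hpos.ne' (by exact_mod_cast h2)
    rw [ha, hb]
    have : a + b ≠ 0 := by omega
    exact_mod_cast this
  have h2 : ∑ g : G, ch K W g⁻¹ * ch K V g ≠ 0 := by
    intro h0
    apply h1
    rw [ci_eq_sum_inv _ hW]
    have h3 := congrArg φ h0
    rw [map_sum, map_zero] at h3
    have h4 : ∑ g : G, φ (ch K V g) * φ (ch K W g⁻¹) = 0 := by
      rw [← h3]
      exact Finset.sum_congr rfl fun g _ => by rw [map_mul, mul_comm]
    rw [h4, mul_zero]
  obtain ⟨f, hf⟩ := exists_hom h2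
  have : NeZero (Nat.card G : K) := ⟨by
    have : Nat.card G ≠ 0 := Nat.card_pos.ne'
    exact_mod_cast this⟩
  obtain ⟨D, hD⟩ := MonoidAlgebra.Submodule.exists_isCompl (LinearMap.ker f)
  obtain ⟨C, hC⟩ := MonoidAlgebra.Submodule.exists_isCompl (LinearMap.range f)
  have := fd_sub D
  have := fd_sub C
  have := fd_sub (LinearMap.ker f)
  have := fd_sub (LinearMap.range f)
  have e : D ≃ₗ[MonoidAlgebra K G] LinearMap.range f :=
    (Submodule.quotientEquivOfIsCompl _ D hD).symm.trans f.quotKerEquivRange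
  have hrk : Module.finrank K W =
      Module.finrank K (LinearMap.range f) + Module.finrank K C := by
    rw [← Module.finrank_prod]
    exact ((Submodule.prodEquivOfIsCompl _ C hC).restrictScalars K).finrank_eq.symm
  have hpos2 : 0 < Module.finrank K (LinearMap.range f) := by
    rw [Module.finrank_pos_iff]
    obtain ⟨v, hv⟩ : ∃ v, f v ≠ 0 := by
      by_contra hall
      push Not at hall
      exact hf (LinearMap.ext hall)
    exact ⟨⟨⟨f v, ⟨v, rfl⟩⟩, 0, fun h => hv (congrArg Subtype.val h)⟩⟩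
  refine ih (Module.finrank K C) (by omega) (V := LinearMap.ker f) (W := C) rfl ?_
  intro g
  have h5 := hVW g
  rw [ch_compl hD, ch_compl hC, ch_equiv e, map_add, map_add] at h5
  linear_combination h5

theorem RK.of_sub [Fintype G] {χ ψ₁ ψ₂ : G → ℂ} (hχ : IsCharacter G χ) (h1 : RK φ ψ₁)
    (h2 : RK φ ψ₂) (h : ψ₁ = ψ₂ + χ) : RK φ χ := by
  obtain ⟨n, ρ, hρ⟩ := h1.exists_mod
  obtain ⟨m, σ, hσ⟩ := h2.exists_mod
  refine cancel φ hχ _ (V := ρ.asModule) (W := σ.asModule) rfl ?_
  intro g
  rw [hρ, hσ, h]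
  rfl

/-- induction from a linear character with values in `K` -/
theorem rk_ind [Fintype G] (H : Subgroup G) [Fintype H] (lam : H →* K) :
    RK φ (indFun H (fun h => φ (lam h))) := by
  classical
  have hcz : CharZero K := charZero_of_injective_algebraMap (R := ℕ) (by
    intro a b hab
    have h1 : φ (algebraMap ℕ K a) = φ (algebraMap ℕ K b) := by rw [hab]
    simpa using h1)
  have hH0 : (Nat.card H : K) ≠ 0 := by
    have : Nat.card H ≠ 0 := Nat.card_pos.ne'
    exact_mod_cast this
  let L : Representation K G (G → K) :=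
    { toFun := fun g => LinearMap.funLeft K K (fun x => g⁻¹ * x)
      map_one' := by ext; simp [LinearMap.funLeft_apply]
      map_mul' := fun a b => by
        refine LinearMap.ext fun f => funext fun x => ?_
        simp [LinearMap.funLeft_apply, mul_assoc] }
  let R : (G → K) →ₗ[K] (G → K) :=
    (Nat.card H : K)⁻¹ • ∑ h : H, lam h • LinearMap.funLeft K K (fun x => x * (h : G))
  have hR : ∀ f x, R f x = (Nat.card H : K)⁻¹ * ∑ h : H, lam h * f (x * h) := by
    intro f x
    simp [R, LinearMap.funLeft_apply, LinearMap.sum_apply, Finset.sum_apply]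
  have hL : ∀ g f x, L g f x = f (g⁻¹ * x) := fun g f x => rfl
  have hRR : ∀ f, R (R f) = R f := by
    intro f
    funext x
    rw [hR, hR]
    have : ∀ h : H, lam h * R f (x * h) = (Nat.card H : K)⁻¹ * ∑ h' : H, lam h' * f (x * h') := by
      intro h
      rw [hR, mul_left_comm]
      congr 1
      rw [Finset.mul_sum]
      refine Fintype.sum_equiv (Equiv.mulLeft h) _ _ fun h' => ?_
      simp [mul_assoc]
    rw [Finset.sum_congr rfl fun h _ => this h, Finset.sum_const, Finset.card_univ,
      ← Nat.card_eq_fintype_card, nsmul_eq_mul, ← mul_assoc, inv_mul_cancel₀ hH0, one_mul]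
  have hRL : ∀ g f, R (L g f) = L g (R f) := by
    intro g f
    funext x
    rw [hR, hL, hR]
    simp only [hL, mul_assoc]
  let p : Submodule K (G → K) := LinearMap.range R
  have hp : ∀ f ∈ p, R f = f := by
    rintro _ ⟨f, rfl⟩
    exact hRR f
  let σ : Representation K G p := L.subrepresentation p (by
    rintro g _ ⟨f, rfl⟩
    exact ⟨L g f, hRL g f⟩)
  refine rk_of_mod φ (V := σ.asModule) (χ := indFun H (fun h => φ (lam h))) ?_
  intro g
  rw [ch_asModule]
  have h1 : LinearMap.trace K p (σ g) = LinearMap.trace K (G → K) (L g ∘ₗ R) := by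
    have hf : ∀ x, (L g ∘ₗ R) x ∈ p := fun f => ⟨L g f, hRL g f⟩
    rw [← LinearMap.trace_restrict_eq_of_forall_mem p (L g ∘ₗ R) hf]
    congr 1
    ext f : 2
    change L g f = L g (R f)
    rw [hp f f.2]
  rw [h1, LinearMap.trace_eq_matrix_trace K (Pi.basisFun K G), Matrix.trace, map_sum, indFun,
    Finset.mul_sum]
  refine Finset.sum_congr rfl fun x _ => ?_
  rw [Matrix.diag_apply, LinearMap.toMatrix_apply, Pi.basisFun_repr, Pi.basisFun_apply,
    LinearMap.comp_apply, hL, hR]
  by_cases hx : x⁻¹ * g * x ∈ H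
  · rw [ext_mem H _ hx, map_mul, map_inv₀, map_natCast]
    congr 1
    rw [map_sum, Finset.sum_eq_single (⟨x⁻¹ * g * x, hx⟩ : H)]
    · simp [mul_assoc]
    · intro h _ hne
      have : g⁻¹ * x * h ≠ x := by
        intro he
        apply hne
        apply Subtype.ext
        change (h : G) = x⁻¹ * g * x
        rw [eq_inv_mul_of_mul_eq he]
        group
      rw [Pi.single_eq_of_ne this, mul_zero, map_zero]
    · intro h; exact absurd (Finset.mem_univ _) h
  · rw [ext_not_mem H _ hx, mul_zero]
    rw [Finset.sum_eq_zero, mul_zero, map_zero]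
    intro h _
    have : g⁻¹ * x * h ≠ x := by
      intro he
      apply hx
      have hh : x⁻¹ * g * x = (h : G) := by
        rw [eq_inv_mul_of_mul_eq he]
        group
      rw [hh]
      exact h.2
    rw [Pi.single_eq_of_ne this, mul_zero]

theorem RK.nsmul {χ : G → ℂ} (h : RK φ χ) (n : ℕ) : RK φ ((n : ℂ) • χ) := by
  induction n with
  | zero => simpa using RK.zero φ (G := G)
  | succ n ih =>
    have := ih.add φ h
    convert this using 1
    push_cast
    rw [add_smul, one_smul]

/-- a list combination -/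
theorem rk_list [Fintype G] (hlam : ∀ (E : Subgroup G) (lam : E →* ℂˣ),
      RK φ (indFun E (fun e => (lam e : ℂ))))
    (l : List ((E : Subgroup G) × ((E →* ℂˣ) × ℤ))) :
    ∃ ψ₁ ψ₂ : G → ℂ, RK φ ψ₁ ∧ RK φ ψ₂ ∧ 
      (l.map fun t => (t.2.2 : ℂ) • Cfsg.indFun t.1 (fun e => (t.2.1 e : ℂ))).sum + ψ₂ = ψ₁ := by
  induction l with
  | nil => exact ⟨0, 0, RK.zero φ, RK.zero φ, by simp⟩
  | cons t l ih =>
    obtain ⟨ψ₁, ψ₂, h1, h2, h3⟩ := ih
    have ht := hlam t.1 t.2.1
    rw [List.map_cons, List.sum_cons]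
    obtain ⟨n, hn | hn⟩ := Int.eq_nat_or_neg t.2.2
    · refine ⟨ψ₁ + (n : ℂ) • Cfsg.indFun t.1 (fun e => (t.2.1 e : ℂ)), ψ₂,
        h1.add φ (ht.nsmul φ n), h2, ?_⟩
      rw [← h3, hn]
      push_cast
      abel
    · refine ⟨ψ₁, ψ₂ + (n : ℂ) • Cfsg.indFun t.1 (fun e => (t.2.1 e : ℂ)),
        h1, h2.add φ (ht.nsmul φ n), ?_⟩
      rw [← h3, hn]
      push_cast
      rw [neg_smul]
      abel

/-- every character is realizable over a field containing the roots of unity -/
theorem rk_of_char [Fintype G] (hz : ∀ z : ℂ, z ^ Monoid.exponent G = 1 → z ∈ φ.range)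
    {χ : G → ℂ} (hχ : IsCharacter G χ) : RK φ χ := by
  classical
  obtain ⟨l, _, hl⟩ := Cfsg.Agent.S0163.result χ hχ
  obtain ⟨ψ₁, ψ₂, h1, h2, h3⟩ := rk_list φ (fun E lam => by
    have hmem : ∀ e : E, (lam e : ℂ) ∈ φ.range := by
      intro e
      apply hz
      have h0 : e ^ Monoid.exponent G = 1 := by
        apply Subtype.ext
        rw [Subgroup.coe_pow, Monoid.pow_exponent_eq_one]
        rfl
      rw [← Units.val_pow_eq_pow_val, ← map_pow, h0, map_one, Units.val_one]
    choose f hf using hmem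
    let lam' : E →* K :=
      { toFun := f
        map_one' := φ.injective (by rw [hf, map_one, map_one, Units.val_one])
        map_mul' := fun a b => φ.injective (by
          rw [hf, map_mul, map_mul, hf, hf, Units.val_mul]) }
    have h := rk_ind φ E lam'
    have he : (fun h => φ (lam' h)) = fun e => (lam e : ℂ) := funext fun e => hf e
    rw [he] at h
    exact h) l
  rw [← hl] at h3
  exact RK.of_sub φ hχ h1 h2 (by rw [← h3, add_comm])

end Real

/-- Brauer's splitting field theorem -/
theorem brauer {G : Type*} [Group G] [Finite G] (n : ℕ) (ρ : Representation ℂ G (Fin n → ℂ)) :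
    ∃ σ : Representation ℂ G (Fin n → ℂ), Nonempty (ρ.Equiv σ) ∧
      ∀ g : G, ∀ i j : Fin n, LinearMap.toMatrix' (σ g) i j ∈
        Algebra.adjoin ℚ ({Complex.exp (2 * Real.pi * Complex.I / (Monoid.exponent G : ℂ))} : Set ℂ) := by
  let _ := Fintype.ofFinite G
  set ζ := Complex.exp (2 * Real.pi * Complex.I / (Monoid.exponent G : ℂ)) with hζ
  have he : Monoid.exponent G ≠ 0 := Monoid.exponent_ne_zero_of_finite
  have hprim : IsPrimitiveRoot ζ (Monoid.exponent G) := Complex.isPrimitiveRoot_exp _ he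
  let K := IntermediateField.adjoin ℚ ({ζ} : Set ℂ)
  let φ : K →+* ℂ := algebraMap K ℂ
  have hz : ∀ z : ℂ, z ^ Monoid.exponent G = 1 → z ∈ φ.range := by
    intro z hz
    have : NeZero (Monoid.exponent G) := ⟨he⟩
    obtain ⟨i, _, rfl⟩ := hprim.eq_pow_of_pow_eq_one hz
    exact ⟨⟨ζ ^ i, pow_mem (IntermediateField.mem_adjoin_simple_self ℚ ζ) i⟩, rfl⟩
  obtain ⟨m, A, hA⟩ := rk_of_char φ hz (χ := ρ.character) ⟨n, ρ, rfl⟩
  let σ : Representation ℂ G (Fin m → ℂ) :=
    (Matrix.toLinAlgEquiv' : Matrix (Fin m) (Fin m) ℂ ≃ₐ[ℂ] _).toRingEquiv.toRingHom.toMonoidHom.comp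
    ((φ.mapMatrix.toMonoidHom).comp A)
  have hσ : ∀ g, σ g = Matrix.toLin' ((A g).map φ) := fun g => rfl
  have hchar : ρ.character = σ.character := by
    ext g
    rw [← hA g]
    change _ = LinearMap.trace ℂ _ (Matrix.toLin' ((A g).map φ))
    rw [Matrix.trace_toLin'_eq]
    simp [Matrix.trace]
  have hmn : n = m := by
    have := congrFun hchar 1
    rw [Representation.char_one, Representation.char_one] at this
    simpa using this
  clear_value σ
  subst hmn
  refine ⟨σ, Cfsg.Agent.S0153.result ρ σ hchar, ?_⟩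
  intro g i j
  rw [hσ, LinearMap.toMatrix'_toLin', Matrix.map_apply]
  have halg : IsAlgebraic ℚ ζ :=
    ((hprim.isIntegral (Nat.pos_of_ne_zero he)).tower_top : IsIntegral ℚ ζ).isAlgebraic
  have := (A g i j).2
  rw [← IntermediateField.mem_toSubalgebra,
    IntermediateField.adjoin_simple_toSubalgebra_of_isAlgebraic halg] at this
  exact this

end Cfsg.Agent.H3.Split
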