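import Mathlib
import Cfsg.Prelude.Def_Blocks
import Cfsg.Agent.H25_BlockReg2
import Cfsg.Agent.H10_BlockKn
import Cfsg.Agent.H10_BlockCen
import Cfsg.Agent.H3_CharInt
import Cfsg.Agent.H3_Burnside
import Cfsg.Agent.H3_AFT
import Cfsg.Agent.H26_Basic
import Cfsg.Agent.H25_Orbit
import Cfsg.Agent.H10_BlockKer

/-!
# Characters of degree prime to two primes in the principal block
-/

set_option autoImplicit false

open scoped ComplexConjugate

namespace Cfsg.Agent.H3.ThreeP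

open Cfsg Cfsg.Agent.H3 Cfsg.Agent.H3.CharBasic Cfsg.Agent.H3.CharIrr Cfsg.Agent.H3.CharComplete
  Cfsg.Agent.H3.CharInt Cfsg.Agent.H10.Char Cfsg.Agent.H25.BlockReg
  Cfsg.Agent.H10.BlockLoc Cfsg.Agent.H10.BlockAlg Cfsg.Agent.H10.BlockIdem Cfsg.Agent.H10.BlockOrth
  Cfsg.Agent.H10.BlockHZ Cfsg.Agent.H10.BlockCen Cfsg.Agent.H10.BlockKer

variable {G : Type*} [Group G] [Fintype G]

/-- the principal character -/
def one (G : Type*) [Group G] : IrrCharacter G := ⟨fun _ => 1, CharInd.isIrr_one⟩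

theorem charDegree_one : charDegree ((one G : IrrCharacter G) : G → ℂ) = 1 := by
  show ⌊((1 : ℂ)).re⌋₊ = 1
  simp

theorem exists_char {p r : ℕ} [hp : Fact p.Prime] (hr : r.Prime) (hdvd : p ∣ Nat.card G)
    (h2 : (Nat.card G).factorization p ≤ 2) :
    ∃ χ : IrrCharacter G, (χ : G → ℂ) ≠ (fun _ => 1) ∧ ¬ p ∣ charDegree (χ : G → ℂ) ∧
      ¬ r ∣ charDegree (χ : G → ℂ) := by
  classical
  have : Fintype (IrrCharacter G) := Fintype.ofFinite _
  obtain ⟨M, hM⟩ := Cfsg.Agent.H25.Orbit.exists_modular hp.out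
  have := hM.2.1
  have hB : IsPBlock M (principalBlock M G) := principal_isPBlock
  have h1B : one G ∈ principalBlock M G := mem_blockOf_self (one G)
  -- degrees in the principal block are prime to `p`
  have hpd : ∀ χ ∈ principalBlock M G, ¬ p ∣ charDegree (χ : G → ℂ) := by
    intro χ hχ hpχ
    have hmB : mB p (principalBlock M G) = 0 := by
      have := mB_le (p := p) h1B
      rw [charDegree_one] at this
      simpa using this
    have hh : blockHeight p (principalBlock M G) (χ : G → ℂ) = (charDegree (χ : G → ℂ)).factorization p := by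
      rw [height_eq, hmB]; simp
    have hpos : 0 < (charDegree (χ : G → ℂ)).factorization p :=
      hp.out.factorization_pos_of_dvd (charDegree_pos χ.2).ne' hpχ
    have h3 := (Cfsg.Agent.H25.BlockReg2.pos_height hM hB hχ (by rw [hh]; exact hpos)).1
    have h4 : blockDefect p (principalBlock M G) ≤ (Nat.card G).factorization p := by
      rw [defect_eq]; omega
    rw [hh] at h3
    omega
  obtain ⟨y, hy⟩ := exists_prime_orderOf_dvd_card' (G := G) p hdvd
  have horth := weak_orth' hM hB (1 : G) y (by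
    rw [orderOf_one, Nat.dvd_one]; exact hp.out.one_lt.ne') (by rw [hy])
  by_contra hne
  push Not at hne
  have hdv : ∀ χ ∈ principalBlock M G, χ ≠ one G → r ∣ charDegree (χ : G → ℂ) := by
    intro χ hχ h
    exact hne χ (fun h' => h (Subtype.ext h')) (hpd χ hχ)
  have h5 : ∀ χ : IrrCharacter G, ∃ c : ℂ, IsIntegral ℤ c ∧
      (if χ ∈ principalBlock M G then (χ : G → ℂ) y * (χ : G → ℂ) 1 else 0) =
        (if χ = one G then 1 else 0) + (r : ℂ) * c := by
    intro χ
    by_cases h1 : χ = one G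
    · refine ⟨0, isIntegral_zero, ?_⟩
      rw [if_pos (by rw [h1]; exact h1B), if_pos h1, h1]
      show (1 : ℂ) * 1 = 1 + r * 0
      ring
    · by_cases h2 : χ ∈ principalBlock M G
      · obtain ⟨m, hm⟩ := hdv χ h2 h1
        refine ⟨(m : ℂ) * (χ : G → ℂ) y, IsIntegral.mul (isIntegral_natCast m) (IsChar.isIntegral (IsIrr.isCharacter χ.2) y), ?_⟩
        rw [if_pos h2, if_neg h1, ← charDegree_eq χ.2, hm]
        push_cast
        ring
      · exact ⟨0, isIntegral_zero, by rw [if_neg h2, if_neg h1]; ring⟩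
  choose c hc1 hc2 using h5
  rw [Finset.sum_congr rfl fun χ _ => hc2 χ, Finset.sum_add_distrib, Finset.sum_ite_eq' Finset.univ (one G),
    if_pos (Finset.mem_univ _), ← Finset.mul_sum] at horth
  have hint : IsIntegral ℤ (∑ χ, c χ) := IsIntegral.sum _ fun χ _ => hc1 χ
  have hr0 : (r : ℂ) ≠ 0 := by exact_mod_cast hr.ne_zero
  have h6 : (((-1 / r : ℚ) : ℚ) : ℂ) = ∑ χ, c χ := by
    push_cast
    rw [div_eq_iff hr0]
    linear_combination -horth
  rw [← h6] at hint
  obtain ⟨n, hn⟩ := exists_int_of_isIntegral hint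
  have hr0' : (r : ℚ) ≠ 0 := by exact_mod_cast hr.ne_zero
  rw [div_eq_iff hr0'] at hn
  have h7 : (-1 : ℤ) = n * r := by exact_mod_cast hn
  have h8 : (r : ℤ) ∣ 1 := ⟨-n, by linarith⟩
  have h9 : r ∣ 1 := by exact_mod_cast h8
  exact hr.one_lt.ne' (Nat.dvd_one.mp h9)

theorem exists_linear [Nontrivial G] (hs : Group.IsSolvable G) :
    ∃ χ : IrrCharacter G, (χ : G → ℂ) ≠ (fun _ => 1) ∧ charDegree (χ : G → ℂ) = 1 := by
  have h1 : (commutator G).index ≠ 1 := by
    intro h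
    rw [Subgroup.index_eq_one] at h
    exact (Group.IsSolvable.commutator_lt_top_of_nontrivial G).ne h
  rw [← Cfsg.Agent.H3.AFT.card_hom] at h1
  have h2 : ∃ f : G →* ℂˣ, f ≠ 1 := by
    by_contra hne
    push Not at hne
    apply h1
    have : Unique (G →* ℂˣ) := ⟨⟨1⟩, hne⟩
    exact Nat.card_unique
  obtain ⟨f, hf⟩ := h2
  refine ⟨⟨fun g => (f g : ℂ), CharInd.isIrr_of_hom_units f⟩, ?_, ?_⟩
  · intro h
    apply hf
    ext g
    exact congrFun h g
  · show ⌊((f 1 : ℂˣ) : ℂ).re⌋₊ = 1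
    simp

theorem pow_of_dvd {p q r a b c d : ℕ} (hp : p.Prime) (hq : q.Prime) (hr : r.Prime)
    (hd : d ∣ p ^ a * q ^ b * r ^ c) (h1 : ¬ p ∣ d) (h2 : ¬ r ∣ d) : ∃ k, d = q ^ k := by
  have h3 : Nat.Coprime d (p ^ a) := ((Nat.Prime.coprime_iff_not_dvd hp).mpr h1).symm.pow_right a
  have h4 : Nat.Coprime d (r ^ c) := ((Nat.Prime.coprime_iff_not_dvd hr).mpr h2).symm.pow_right c
  have h5 : d ∣ p ^ a * q ^ b := h4.dvd_of_dvd_mul_right hd
  have h6 : d ∣ q ^ b := h3.dvd_of_dvd_mul_left h5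
  obtain ⟨k, -, hk⟩ := (Nat.dvd_prime_pow hq).mp h6
  exact ⟨k, hk⟩

theorem main [Nontrivial G] {p q r a b c : ℕ} (hp : p.Prime) (hq : q.Prime) (hr : r.Prime)
    (hpq : p ≠ q) (hpr : p ≠ r) (ha : a ≤ 2)
    (hG : Nat.card G = p ^ a * q ^ b * r ^ c) :
    ∃ χ : IrrCharacter G, (χ : G → ℂ) ≠ (fun _ => 1) ∧ ∃ k : ℕ, charDegree (χ : G → ℂ) = q ^ k := by
  rcases Nat.eq_zero_or_pos a with h0 | hpos
  · subst h0
    have hs : Group.IsSolvable G := Cfsg.Agent.H3.Burnside.burnside _ G q r b c hq hr rfl (by rw [hG]; ring)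
    obtain ⟨χ, h1, h2⟩ := exists_linear hs
    exact ⟨χ, h1, 0, by rw [h2, pow_zero]⟩
  · have := Fact.mk hp
    have hdvd : p ∣ Nat.card G := by
      rw [hG]
      exact dvd_mul_of_dvd_left (dvd_mul_of_dvd_left (dvd_pow_self p hpos.ne') _) _
    have hfac : (Nat.card G).factorization p ≤ 2 := by
      have h1 : ¬ p ∣ q ^ b * r ^ c := by
        intro h
        rcases hp.dvd_mul.mp h with h | h
        · exact hpq ((Nat.prime_dvd_prime_iff_eq hp hq).mp (hp.dvd_of_dvd_pow h))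
        · exact hpr ((Nat.prime_dvd_prime_iff_eq hp hr).mp (hp.dvd_of_dvd_pow h))
      rw [hG, mul_assoc, Nat.factorization_mul (pow_pos hp.pos a).ne'
        (Nat.mul_pos (pow_pos hq.pos b) (pow_pos hr.pos c)).ne', Finsupp.add_apply,
        Nat.factorization_eq_zero_of_not_dvd h1, hp.factorization_pow, Finsupp.single_eq_same]
      omega
    obtain ⟨χ, h1, h2, h3⟩ := exists_char hr hdvd hfac
    have h4 : charDegree (χ : G → ℂ) ∣ Nat.card G := Cfsg.Agent.H26.Basic.cd_dvd_card χ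
    rw [hG] at h4
    exact ⟨χ, h1, pow_of_dvd hp hq hr h4 h2 h3⟩

end Cfsg.Agent.H3.ThreeP
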