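import Mathlib
import Cfsg.Prelude.Def_Characters
import Cfsg.Agent.H3_TwoDeg2
import Cfsg.Agent.H3_Lift

/-!
# Groups with irreducible character degrees `1` and `p`
-/

set_option autoImplicit false

open scoped ComplexConjugate commutatorElement

namespace Cfsg.Agent.H3.TwoDeg3

open Cfsg Cfsg.Agent.H3.CharBasic Cfsg.Agent.H3.CharIrr Cfsg.Agent.H3.CharComplete
  Cfsg.Agent.H3.CharMult Cfsg.Agent.H3.CharInd Cfsg.Agent.H3.CharInt Cfsg.Agent.H3.CharQuot
  Cfsg.Agent.H3.Clifford

section PG

variable {G : Type*} [Group G] [Finite G] {p : ℕ} [hp : Fact p.Prime]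

/-- centralizers of noncentral elements are abelian -/
theorem cent_comm (hG : IsPGroup p G) (hcd : ∀ χ : G → ℂ, IsIrrCharacter G χ → χ 1 = 1 ∨ χ 1 = p) {x : G}
    (hx : x ∉ Subgroup.center G) : ∀ a ∈ Subgroup.centralizer ({x} : Set G), ∀ b ∈ Subgroup.centralizer ({x} : Set G),
      a * b = b * a := by
  classical
  by_contra hcon
  obtain ⟨C, hC⟩ : ∃ C : Subgroup G, C = Subgroup.centralizer ({x} : Set G) := ⟨_, rfl⟩
  rw [← hC] at hcon
  have hna : ¬ ∀ a b : C, a * b = b * a := by
    intro h
    apply hcon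
    intro a ha b hb
    exact congrArg Subtype.val (h ⟨a, ha⟩ ⟨b, hb⟩)
  have iG := Fintype.ofFinite G
  have iC := Fintype.ofFinite C
  have iI := Fintype.ofFinite (IrrCharacter G)
  have memC : ∀ {y : G}, y ∈ C ↔ y * x = x * y := by
    intro y; rw [hC, Subgroup.mem_centralizer_singleton_iff]
  have hxC : x ∈ C := memC.mpr rfl
  have hxcen : (⟨x, hxC⟩ : C) ∈ Subgroup.center C := by
    rw [Subgroup.mem_center_iff]
    intro y
    exact Subtype.ext (memC.mp y.2)
  have claim : ∀ η : G → ℂ, IsIrrCharacter G η → ∀ ζ : C → ℂ, IsIrrCharacter C ζ → ζ 1 ≠ 1 →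
      classInner (fun c : C => η c) ζ ≠ 0 → (∀ c : C, η c = ζ c) ∧ ∀ g, η (x * g * x⁻¹ * g⁻¹) = η 1 := by
    intro η hη ζ hζ hζ1 hne
    obtain ⟨b, hb0, hb, hbd⟩ := IsIrr.dvd_card hζ
    have hb1 : b ≠ 1 := by rintro rfl; exact hζ1 (by rw [hb]; simp)
    have hpb : p ∣ b := by
      obtain ⟨n, hn⟩ := IsPGroup.iff_card.mp hG
      have h1 := hbd.trans (Subgroup.card_subgroup_dvd_card C)
      rw [hn] at h1
      obtain ⟨j, -, hj⟩ := (Nat.dvd_prime_pow hp.out).mp h1
      rw [hj]
      apply dvd_pow_self
      rintro rfl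
      exact hb1 (by rw [hj, pow_zero])
    have hch := IsChar.res (IsIrr.isCharacter hη) C
    have hη1 : η 1 = p := by
      rcases hcd η hη with h | h
      · exfalso
        have h1 := IsChar.degree_le' hch hζ hne (a := 1) (by
          show η 1 = _
          rw [h]; simp) hb
        have := Nat.le_of_dvd hb0 hpb
        have := hp.out.one_lt
        omega
      · exact h
    have hbp : b = p := by
      have h1 := IsChar.degree_le' hch hζ hne (a := p) hη1 hb
      exact le_antisymm h1 (Nat.le_of_dvd hb0 hpb)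
    have heq := IsChar.eq_of_degree hch hζ hne (by
      show η 1 = _
      rw [hη1, hb, hbp])
    refine ⟨fun c => congrFun heq c, ?_⟩
    have hn : ‖η x‖ = ‖η 1‖ := by
      have h1 := GalP.norm_central hζ hxcen
      have e1 := congrFun heq ⟨x, hxC⟩
      have e2 : η 1 = ζ 1 := congrFun heq 1
      rw [← e1, ← e2] at h1
      exact h1
    exact IsChar.comm_of_norm (IsIrr.isCharacter hη) hn
  obtain ⟨θ, hθ, hθ1⟩ := GalP.exists_nonlinear hna
  obtain ⟨χ, hχ, hχθ⟩ := exists_constituent_ind (G := G) hθ
  have hχθ' := (constituent_ind_iff (IsIrr.isCharacter hχ)).mp hχθ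
  obtain ⟨hχC, hχx⟩ := claim χ hχ θ hθ hθ1 hχθ'
  apply hx
  rw [Subgroup.mem_center_iff]
  intro g
  suffices h : x * g * x⁻¹ * g⁻¹ = 1 by
    rw [mul_inv_eq_one, mul_inv_eq_iff_eq_mul] at h
    exact h.symm
  by_contra hgne
  obtain ⟨ψ, hψ, hψg⟩ := GalP.exists_irr_ne hgne
  apply hψg
  by_cases hex : ∃ ζ : C → ℂ, IsIrrCharacter C ζ ∧ ζ 1 ≠ 1 ∧ classInner (fun c : C => ψ c) ζ ≠ 0
  · obtain ⟨ζ, hζ, hζ1, hne⟩ := hex
    exact (claim ψ hψ ζ hζ hζ1 hne).2 g
  push Not at hex
  -- the product
  have hprod : IsCharacter G (ψ * χ) := IsChar.mul (IsIrr.isCharacter hψ) (IsIrr.isCharacter hχ)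
  have key : ∀ η : G → ℂ, IsIrrCharacter G η → classInner (ψ * χ) η ≠ 0 → η (x * g * x⁻¹ * g⁻¹) = η 1 := by
    intro η hη hne
    obtain ⟨ζ, hζ, hζne⟩ := exists_constituent_res (H := C) hη
    have hζ1 : ζ 1 ≠ 1 := by
      intro hζ1
      -- `ζ` is a constituent of the restriction of `ψ χ`
      have h1 : classInner (fun c : C => (ψ * χ) c) ζ ≠ 0 := by
        obtain ⟨n, hn⟩ := ci_char_nat hprod (IsIrr.isCharacter hη)
        have hn0 : 1 ≤ n := by
          rcases Nat.eq_zero_or_pos n with h | h
          · rw [h] at hn; exact absurd (by rw [hn]; simp) hne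
          · exact h
        have hsub := IsChar.sub_constituent hprod hη hn hn0
        obtain ⟨a, ha⟩ := ci_char_nat (IsChar.res hsub C) (IsIrr.isCharacter hζ)
        obtain ⟨b, hb⟩ := ci_char_nat (IsChar.res (IsIrr.isCharacter hη) C) (IsIrr.isCharacter hζ)
        have h2 : (fun c : C => (ψ * χ) c) = (fun c : C => (ψ * χ - ((1 : ℕ) : ℂ) • η) c) + (fun c : C => η c) := by
          funext c
          show (ψ * χ) c = ((ψ * χ) c - ((1 : ℕ) : ℂ) • η c) + η c
          simp
        rw [h2, ci_add_left, ha, hb]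
        rw [hb] at hζne
        have hb0 : b ≠ 0 := by rintro rfl; exact hζne (by simp)
        have : ((a + b : ℕ) : ℂ) ≠ 0 := by
          have : a + b ≠ 0 := by omega
          exact_mod_cast this
        exact_mod_cast this
      -- move `θ` to the other side
      have hζθ : IsIrrCharacter C (ζ * fun c => conj (θ c)) :=
        IsIrr.mul_linear (IsIrr.conj hθ) (IsIrr.isCharacter hζ) hζ1
      have h3 : classInner (fun c : C => ψ c) (ζ * fun c => conj (θ c)) ≠ 0 := by
        have h4 : classInner (fun c : C => ψ c) (ζ * fun c => conj (θ c)) = classInner (fun c : C => (ψ * χ) c) ζ := by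
          simp only [classInner]
          congr 1
          refine Finset.sum_congr rfl fun c _ => ?_
          rw [Pi.mul_apply, Pi.mul_apply, hχC c, map_mul, Complex.conj_conj]
          ring
        rw [h4]; exact h1
      apply h3
      apply hex _ hζθ
      rw [Pi.mul_apply, hζ1, one_mul]
      intro h5
      apply hθ1
      have h6 := congrArg conj h5
      rw [Complex.conj_conj, map_one] at h6
      exact h6
    exact (claim η hη ζ hζ hζ1 hζne).2 g
  have hval : (ψ * χ) (x * g * x⁻¹ * g⁻¹) = (ψ * χ) 1 := by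
    obtain ⟨n, hn, hsum⟩ := IsChar.eq_sum_nat hprod
    rw [hsum]
    simp only [Finset.sum_apply, Pi.smul_apply, smul_eq_mul]
    refine Finset.sum_congr rfl fun η _ => ?_
    by_cases h0 : n η = 0
    · rw [h0]; simp
    · rw [key η η.2 (by rw [hn]; exact_mod_cast h0)]
  rw [Pi.mul_apply, Pi.mul_apply, hχx g] at hval
  exact mul_right_cancel₀ (IsIrr.one_ne_zero hχ) hval

/-- there is a small noncentral class -/
theorem exists_small (hG : IsPGroup p G) (hcd : ∀ χ : G → ℂ, IsIrrCharacter G χ → χ 1 = 1 ∨ χ 1 = p)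
    (hna : ¬ ∀ a b : G, a * b = b * a) : ∃ x : G, x ∉ Subgroup.center G ∧
      (Subgroup.centralizer ({x} : Set G)).index ≤ p ^ 2 := by
  classical
  by_contra hcon
  push Not at hcon
  have iG := Fintype.ofFinite G
  have iI := Fintype.ofFinite (IrrCharacter G)
  obtain ⟨n, hn⟩ := IsPGroup.iff_card.mp hG
  have hpp := hp.out.one_lt
  have hbig : ∀ x ∉ Subgroup.center G, p ^ 3 ≤ (Subgroup.centralizer ({x} : Set G)).index := by
    intro x hx
    have h1 := hcon x hx
    have h2 : (Subgroup.centralizer ({x} : Set G)).index ∣ p ^ n := by rw [← hn]; exact Subgroup.index_dvd_card _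
    obtain ⟨j, -, hj⟩ := (Nat.dvd_prime_pow hp.out).mp h2
    rw [hj] at h1 ⊢
    have h3 := (Nat.pow_lt_pow_iff_right hpp).mp h1
    exact Nat.pow_le_pow_right (by omega) h3
  -- class equation
  have hsum : ∑ g : G, (Nat.card (Subgroup.centralizer ({g} : Set G)) : ℝ) = (Fintype.card (IrrCharacter G) : ℝ) * Nat.card G := by
    have h1 : ∑ g : G, ∑ χ : IrrCharacter G, ‖(χ : G → ℂ) g‖ ^ 2 = (Fintype.card (IrrCharacter G) : ℝ) * Nat.card G := by
      rw [Finset.sum_comm, Finset.sum_congr rfl (fun χ _ => GalP.sum_norm χ.2), Finset.sum_const, Finset.card_univ,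
        nsmul_eq_mul]
    rw [← h1]
    refine Finset.sum_congr rfl fun g _ => ?_
    have h2 := orth2 (G := G) g g
    rw [if_pos (IsConj.refl _)] at h2
    have h3 : ((∑ χ : IrrCharacter G, ‖(χ : G → ℂ) g‖ ^ 2 : ℝ) : ℂ) =
        (Nat.card (Subgroup.centralizer ({g} : Set G)) : ℂ) := by
      rw [← h2]
      push_cast
      refine Finset.sum_congr rfl fun χ _ => ?_
      rw [Complex.mul_conj, Complex.normSq_eq_norm_sq]
      push_cast; rfl
    have h4 : (∑ χ : IrrCharacter G, ‖(χ : G → ℂ) g‖ ^ 2 : ℝ) = (Nat.card (Subgroup.centralizer ({g} : Set G)) : ℝ) := by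
      exact_mod_cast h3
    exact h4.symm
  have hcard : (Nat.card G : ℝ) ≤ p ^ 2 * Fintype.card (IrrCharacter G) := by
    have h1 : ∑ χ : IrrCharacter G, ‖(χ : G → ℂ) 1‖ ^ 2 = (Nat.card G : ℝ) := by
      have h2 := sum_sq (G := G)
      have h3 : ((∑ χ : IrrCharacter G, ‖(χ : G → ℂ) 1‖ ^ 2 : ℝ) : ℂ) = (Nat.card G : ℂ) := by
        rw [← h2]
        push_cast
        refine Finset.sum_congr rfl fun χ _ => ?_
        rcases hcd χ χ.2 with h | h
        · rw [h]; simp
        · rw [h]; simp
      exact_mod_cast h3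
    rw [← h1, mul_comm, ← nsmul_eq_mul, ← Finset.card_univ]
    apply Finset.sum_le_card_nsmul
    intro χ _
    have hp1 : (1 : ℝ) ≤ p := by exact_mod_cast hp.out.one_lt.le
    rcases hcd χ χ.2 with h | h
    · rw [h]; simp; nlinarith
    · rw [h]; simp
  have hub : (p ^ 3 : ℝ) * ∑ g : G, (Nat.card (Subgroup.centralizer ({g} : Set G)) : ℝ) ≤
      (p ^ 3 : ℝ) * (Nat.card (Subgroup.center G) * Nat.card G) + (Nat.card G - Nat.card (Subgroup.center G)) * Nat.card G := by
    rw [← Finset.sum_filter_add_sum_filter_not Finset.univ (fun g => g ∈ Subgroup.center G), mul_add]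
    have hcz : (Finset.univ.filter (fun g => g ∈ Subgroup.center G)).card = Nat.card (Subgroup.center G) := by
      rw [Nat.card_eq_fintype_card, Fintype.card_subtype]
    have hcz' : (Finset.univ.filter (fun g => g ∉ Subgroup.center G)).card + Nat.card (Subgroup.center G) = Nat.card G := by
      rw [← hcz, add_comm, Finset.card_filter_add_card_filter_not, Finset.card_univ, Nat.card_eq_fintype_card]
    apply add_le_add
    · apply mul_le_mul_of_nonneg_left _ (by positivity)
      rw [← hcz, ← nsmul_eq_mul]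
      apply Finset.sum_le_card_nsmul
      intro g _
      exact_mod_cast Nat.le_of_dvd Nat.card_pos (Subgroup.card_subgroup_dvd_card _)
    · have : ((Nat.card G : ℝ) - Nat.card (Subgroup.center G)) =
          ((Finset.univ.filter (fun g => g ∉ Subgroup.center G)).card : ℝ) := by
        have : ((Finset.univ.filter (fun g => g ∉ Subgroup.center G)).card : ℝ) + Nat.card (Subgroup.center G) = Nat.card G := by
          exact_mod_cast hcz'
        linarith
      rw [this, ← nsmul_eq_mul, Finset.mul_sum]
      apply Finset.sum_le_card_nsmul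
      intro g hg
      have h1 := hbig g (Finset.mem_filter.mp hg).2
      have h2 := (Subgroup.centralizer ({g} : Set G)).index_mul_card
      have h3 : p ^ 3 * Nat.card (Subgroup.centralizer ({g} : Set G)) ≤ Nat.card G := by
        rw [← h2]; exact Nat.mul_le_mul_right _ h1
      exact_mod_cast h3
  -- the index of the center
  obtain ⟨x, hx⟩ : ∃ x : G, x ∉ Subgroup.center G := by
    by_contra h
    push Not at h
    exact hna fun a b => (Subgroup.mem_center_iff.mp (h b) a)
  have hZ : p ^ 3 * Nat.card (Subgroup.center G) ≤ Nat.card G := by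
    have h1 : Subgroup.center G ≤ Subgroup.centralizer ({x} : Set G) := Subgroup.center_le_centralizer _
    have h2 := Subgroup.index_dvd_of_le h1
    have h3 : 0 < (Subgroup.center G).index := Nat.pos_of_ne_zero Subgroup.FiniteIndex.index_ne_zero
    have h4 := (hbig x hx).trans (Nat.le_of_dvd h3 h2)
    rw [← (Subgroup.center G).index_mul_card]
    exact Nat.mul_le_mul_right _ h4
  rw [hsum] at hub
  have hg0 : (0 : ℝ) < Nat.card G := by exact_mod_cast Nat.card_pos
  have hz0 : (0 : ℝ) < Nat.card (Subgroup.center G) := by exact_mod_cast Nat.card_pos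
  have hZ' : (p : ℝ) ^ 3 * Nat.card (Subgroup.center G) ≤ Nat.card G := by exact_mod_cast hZ
  have hub2 : (p : ℝ) ^ 3 * Fintype.card (IrrCharacter G) ≤
      (p : ℝ) ^ 3 * Nat.card (Subgroup.center G) + (Nat.card G - Nat.card (Subgroup.center G)) := by
    apply le_of_mul_le_mul_right _ hg0
    linarith
  have hp2 : (2 : ℝ) ≤ p := by exact_mod_cast hp.out.two_le
  have h5 : (p : ℝ) * Nat.card G ≤ p ^ 3 * Fintype.card (IrrCharacter G) := by
    have := mul_le_mul_of_nonneg_left hcard (show (0 : ℝ) ≤ p by linarith)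
    nlinarith
  nlinarith

end PG

section Fix

/-- fixed linear characters of an abelian group -/
theorem card_fix_le {A : Type*} [Group A] [Finite A] (hA : ∀ a b : A, a * b = b * a) (φ : A ≃* A) :
    Nat.card {l : A →* ℂˣ // ∀ a, l (φ a) = l a} ≤ Nat.card {a : A // φ a = a} := by
  let _ : CommGroup A := { (inferInstance : Group A) with mul_comm := hA }
  let δ : A →* A := φ.toMonoidHom / MonoidHom.id A
  have hδ : ∀ a, δ a = φ a / a := fun a => rfl
  have h1 : Nat.card {l : A →* ℂˣ // ∀ a, l (φ a) = l a} ≤ Nat.card (A ⧸ δ.range →* ℂˣ) := by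
    have hle : ∀ l : {l : A →* ℂˣ // ∀ a, l (φ a) = l a}, δ.range ≤ l.1.ker := by
      rintro l _ ⟨a, rfl⟩
      rw [MonoidHom.mem_ker, hδ, map_div, l.2, div_self']
    apply Nat.card_le_card_of_injective (fun l => QuotientGroup.lift δ.range l.1 (hle l))
    intro l k hlk
    apply Subtype.ext
    apply MonoidHom.ext
    intro a
    have := DFunLike.congr_fun hlk (a : A ⧸ δ.range)
    exact this
  have h2 : Nat.card (A ⧸ δ.range →* ℂˣ) = Nat.card (A ⧸ δ.range) :=
    TwoDeg.dual_card (fun a b => mul_comm a b)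
  have h3 : Nat.card (A ⧸ δ.range) = Nat.card δ.ker := by
    have e1 := δ.range.index_mul_card
    have e2 := δ.ker.index_mul_card
    rw [Subgroup.index_ker] at e2
    rw [← Subgroup.index_eq_card]
    have e3 := e1.trans e2.symm
    rw [mul_comm] at e3
    exact Nat.eq_of_mul_eq_mul_left Nat.card_pos e3
  have h4 : Nat.card δ.ker = Nat.card {a : A // φ a = a} := by
    apply Nat.card_congr
    exact Equiv.subtypeEquivRight fun a => by
      rw [MonoidHom.mem_ker, hδ, div_eq_one]
  rw [h2, h3, h4] at h1
  exact h1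

end Fix

section PG2

variable {G : Type*} [Group G] [Finite G] {p : ℕ} [hp : Fact p.Prime]

theorem normal_of_index (hG : IsPGroup p G) {A : Subgroup G} (hA : A.index = p) : A.Normal := by
  apply Subgroup.normal_of_index_eq_minFac_card
  obtain ⟨n, hn⟩ := IsPGroup.iff_card.mp hG
  have hn0 : n ≠ 0 := by
    rintro rfl
    have h1 := A.index_mul_card
    rw [hn, pow_zero, hA] at h1
    have := Nat.eq_one_of_mul_eq_one_right h1
    exact hp.out.one_lt.ne' this
  rw [hA, hn, hp.out.pow_minFac hn0]

/-- the main case distinction for `p`-groups -/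
theorem pgroup_case (hG : IsPGroup p G) (hcd : ∀ χ : G → ℂ, IsIrrCharacter G χ → χ 1 = 1 ∨ χ 1 = p)
    (hna : ¬ ∀ a b : G, a * b = b * a) :
    (∃ A : Subgroup G, A.Normal ∧ (∀ a ∈ A, ∀ b ∈ A, a * b = b * a) ∧ A.index = p) ∨
      (Subgroup.center G).index = p ^ 3 := by
  classical
  have iG := Fintype.ofFinite G
  obtain ⟨n, hn⟩ := IsPGroup.iff_card.mp hG
  have hpp := hp.out.one_lt
  obtain ⟨x, hx, hxi⟩ := exists_small hG hcd hna
  obtain ⟨A, hA⟩ : ∃ A : Subgroup G, A = Subgroup.centralizer ({x} : Set G) := ⟨_, rfl⟩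
  rw [← hA] at hxi
  have hAab : ∀ a ∈ A, ∀ b ∈ A, a * b = b * a := by rw [hA]; exact cent_comm hG hcd hx
  have memA : ∀ {y : G}, y ∈ A ↔ y * x = x * y := by
    intro y; rw [hA, Subgroup.mem_centralizer_singleton_iff]
  have hxA : x ∈ A := memA.mpr rfl
  have hZA : Subgroup.center G ≤ A := by rw [hA]; exact Subgroup.center_le_centralizer _
  have hpow : ∀ H : Subgroup G, ∃ j, H.index = p ^ j := by
    intro H
    have h2 : H.index ∣ p ^ n := by rw [← hn]; exact Subgroup.index_dvd_card _
    obtain ⟨j, -, hj⟩ := (Nat.dvd_prime_pow hp.out).mp h2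
    exact ⟨j, hj⟩
  obtain ⟨j, hj⟩ := hpow A
  have hj2 : j ≤ 2 := by
    rw [hj] at hxi
    exact (Nat.pow_le_pow_iff_right hpp).mp hxi
  have hj0 : j ≠ 0 := by
    rintro rfl
    rw [pow_zero, Subgroup.index_eq_one] at hj
    apply hna
    intro a b
    exact hAab a (by rw [hj]; trivial) b (by rw [hj]; trivial)
  rcases Nat.lt_or_ge j 2 with hj1 | hj1
  · left
    have : j = 1 := by omega
    rw [this, pow_one] at hj
    exact ⟨A, normal_of_index hG hj, hAab, hj⟩
  have hj' : A.index = p ^ 2 := by rw [hj]; congr 1; omega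
  right
  -- elements commuting with a noncentral element of `A`
  have hcentA : ∀ y ∈ A, y ∉ Subgroup.center G → ∀ v : G, v * y = y * v → v ∈ A := by
    intro y hy hyc v hv
    have h1 := cent_comm hG hcd hyc v (Subgroup.mem_centralizer_singleton_iff.mpr hv) x
      (Subgroup.mem_centralizer_singleton_iff.mpr (hAab x hxA y hy))
    exact memA.mpr h1
  suffices hAZ : Nat.card A ≤ p * Nat.card (Subgroup.center G) by
    have h1 := Subgroup.relIndex_mul_index hZA
    have h2 : (Subgroup.center G).relIndex A ≤ p := by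
      have h3 := Subgroup.relIndex_mul_relIndex ⊥ (Subgroup.center G) A bot_le hZA
      rw [Subgroup.relIndex_bot_left, Subgroup.relIndex_bot_left] at h3
      rw [← h3, mul_comm] at hAZ
      exact Nat.le_of_mul_le_mul_right hAZ Nat.card_pos
    have h3 : (Subgroup.center G).relIndex A ≠ 1 := by
      rw [Ne, Subgroup.relIndex_eq_one]
      exact fun h => hx (h hxA)
    obtain ⟨i, hi⟩ := hpow (Subgroup.center G)
    have h4 : (Subgroup.center G).relIndex A ∣ p ^ i := by rw [← hi, ← h1]; exact Dvd.intro _ rfl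
    obtain ⟨k, -, hk⟩ := (Nat.dvd_prime_pow hp.out).mp h4
    rw [hk] at h2 h3
    have hk0 : k ≠ 0 := by rintro rfl; exact h3 (pow_zero p)
    have hk1 : k ≤ 1 := by
      apply (Nat.pow_le_pow_iff_right hpp).mp
      rw [pow_one]; exact h2
    have hk2 : k = 1 := by omega
    rw [← h1, hk, hk2, hj']; ring
  by_cases hAn : A.Normal
  · -- normal case: count fixed characters
    have iA := Fintype.ofFinite A
    have hAab' : ∀ a b : A, a * b = b * a := fun a b => Subtype.ext (hAab a a.2 b b.2)
    have iL : Fintype (A →* ℂˣ) := Fintype.ofFinite _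
    have hcardL : Fintype.card (A →* ℂˣ) = Nat.card A := by
      rw [← Nat.card_eq_fintype_card, TwoDeg.dual_card hAab']
    have hGA : Nat.card G = p ^ 2 * Nat.card A := by rw [← A.index_mul_card, hj']
    have hA0 : 0 < Nat.card A := Nat.card_pos
    obtain ⟨R, hR⟩ : ∃ R : G → (A →* ℂˣ) → Prop, ∀ v l, R v l ↔ ∀ a : A, l (MulAut.conjNormal v a) = l a :=
      ⟨fun v l => ∀ a : A, l (MulAut.conjNormal v a) = l a, fun _ _ => Iff.rfl⟩
    have hdouble : ∑ v ∈ Finset.univ.filter (fun v => v ∉ A), (Finset.univ.filter (fun l => R v l)).card =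
        ∑ l : A →* ℂˣ, (Finset.univ.filter (fun v => v ∉ A ∧ R v l)).card := by
      simp only [Finset.card_filter]
      rw [Finset.sum_comm]
      refine Finset.sum_congr rfl fun l _ => ?_
      rw [Finset.sum_filter]
      refine Finset.sum_congr rfl fun v _ => ?_
      by_cases h1 : v ∉ A <;> by_cases h2 : R v l <;> simp [h1, h2]
    have hfix : ∀ v ∉ A, (Finset.univ.filter (fun l => R v l)).card ≤ Nat.card (Subgroup.center G) := by
      intro v hv
      have h1 : (Finset.univ.filter (fun l => R v l)).card = Nat.card {l : A →* ℂˣ // ∀ a, l (MulAut.conjNormal v a) = l a} := by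
        rw [Nat.card_eq_fintype_card, Fintype.card_subtype]
        congr 1
        ext l
        simp only [Finset.mem_filter, Finset.mem_univ, true_and]
        exact hR v l
      rw [h1]
      refine (card_fix_le hAab' (MulAut.conjNormal v)).trans ?_
      have h2 : ∀ a : {a : A // MulAut.conjNormal v a = a}, (a.1 : G) ∈ Subgroup.center G := by
        intro a
        by_contra hc
        apply hv
        apply hcentA a.1 a.1.2 hc v
        have h3 : v * (a.1 : G) * v⁻¹ = a.1 := congrArg Subtype.val a.2
        rw [mul_inv_eq_iff_eq_mul] at h3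
        exact h3
      apply Nat.card_le_card_of_injective (fun a => (⟨(a.1 : G), h2 a⟩ : Subgroup.center G))
      intro a b hab
      apply Subtype.ext
      apply Subtype.ext
      exact congrArg (fun z : Subgroup.center G => (z : G)) hab
    have hTcard : ∀ l : A →* ℂˣ, (Finset.univ.filter (fun v => R v l)).card ≥ p * Nat.card A := by
      intro l
      have hθ : IsIrrCharacter A (fun n : A => (l n : ℂ)) := isIrr_of_hom_units l
      obtain ⟨χ, hχ, hne⟩ := exists_constituent_ind (G := G) hθ
      have h1 := (constituent_ind_iff (IsIrr.isCharacter hχ)).mp hne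
      have h2 := clifford_degree hAn hχ hθ h1
      obtain ⟨c, hc⟩ := ci_char_nat (IsChar.res (IsIrr.isCharacter hχ) A) (IsIrr.isCharacter hθ)
      have hl1 : ((l 1 : ℂˣ) : ℂ) = 1 := by rw [map_one]; rfl
      rw [hc, hl1, mul_one] at h2
      have hT0 : 0 < (inertia hAn (fun n : A => (l n : ℂ))).index := Nat.pos_of_ne_zero Subgroup.FiniteIndex.index_ne_zero
      have hTi : (inertia hAn (fun n : A => (l n : ℂ))).index ≤ p := by
        rcases hcd χ hχ with h | h
        · rw [h] at h2
          have h3 : 1 = c * (inertia hAn (fun n : A => (l n : ℂ))).index := by exact_mod_cast h2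
          have := Nat.eq_one_of_mul_eq_one_left h3.symm
          omega
        · rw [h] at h2
          have h3 : p = c * (inertia hAn (fun n : A => (l n : ℂ))).index := by exact_mod_cast h2
          exact Nat.le_of_dvd hp.out.pos (Dvd.intro_left _ h3.symm)
      have h4 := (inertia hAn (fun n : A => (l n : ℂ))).index_mul_card
      have h5 : (Finset.univ.filter (fun v => R v l)).card = Nat.card (inertia hAn (fun n : A => (l n : ℂ))) := by
        rw [Nat.card_eq_fintype_card, Fintype.card_subtype]
        congr 1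
        ext v
        simp only [Finset.mem_filter, Finset.mem_univ, true_and]
        rw [hR, mem_inertia]
        constructor
        · intro h
          funext n
          rw [cj_apply]
          exact congrArg Units.val (h n)
        · intro h n
          exact Units.ext (congrFun h n)
      rw [h5]
      rw [hGA] at h4
      by_contra hlt
      push Not at hlt
      have : (inertia hAn (fun n : A => (l n : ℂ))).index * Nat.card (inertia hAn (fun n : A => (l n : ℂ))) <
          p * (p * Nat.card A) := by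
        calc _ ≤ p * Nat.card (inertia hAn (fun n : A => (l n : ℂ))) := Nat.mul_le_mul_right _ hTi
          _ < _ := (Nat.mul_lt_mul_left hp.out.pos).mpr hlt
      rw [h4] at this
      have h6 : p ^ 2 * Nat.card A = p * (p * Nat.card A) := by ring
      omega
    have hRA : ∀ v ∈ A, ∀ l, R v l := by
      intro v hv l
      rw [hR]
      intro a
      congr 1
      apply Subtype.ext
      rw [MulAut.conjNormal_apply, hAab v hv a a.2, mul_inv_cancel_right]
    have hcA : (Finset.univ.filter (fun v : G => v ∈ A)).card = Nat.card A := by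
      rw [Nat.card_eq_fintype_card, Fintype.card_subtype]
    have hlow : ∀ l : A →* ℂˣ, (p - 1) * Nat.card A ≤ (Finset.univ.filter (fun v => v ∉ A ∧ R v l)).card := by
      intro l
      have h1 := hTcard l
      have h2 : Finset.univ.filter (fun v => R v l) = Finset.univ.filter (fun v : G => v ∈ A) ∪
          Finset.univ.filter (fun v => v ∉ A ∧ R v l) := by
        ext v
        simp only [Finset.mem_filter, Finset.mem_univ, true_and, Finset.mem_union]
        have := hRA v
        tauto
      have h3 := Finset.card_union_le (Finset.univ.filter (fun v : G => v ∈ A)) (Finset.univ.filter (fun v => v ∉ A ∧ R v l))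
      rw [← h2, hcA] at h3
      have h4 : (p - 1) * Nat.card A + Nat.card A = p * Nat.card A := by
        rw [← Nat.succ_mul]; congr 1; omega
      omega
    have hlow1 : (p ^ 2 - 1) * Nat.card A ≤ (Finset.univ.filter (fun v => v ∉ A ∧ R v 1)).card := by
      have h2 : (Finset.univ : Finset G) = Finset.univ.filter (fun v : G => v ∈ A) ∪
          Finset.univ.filter (fun v => v ∉ A ∧ R v 1) := by
        ext v
        simp only [Finset.mem_filter, Finset.mem_univ, true_and, Finset.mem_union, true_iff]
        have : R v 1 := by rw [hR]; intro a; rfl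
        tauto
      have h3 := Finset.card_union_le (Finset.univ.filter (fun v : G => v ∈ A)) (Finset.univ.filter (fun v => v ∉ A ∧ R v 1))
      rw [← h2, hcA, Finset.card_univ, ← Nat.card_eq_fintype_card, hGA] at h3
      have h4 : (p ^ 2 - 1) * Nat.card A + Nat.card A = p ^ 2 * Nat.card A := by
        rw [← Nat.succ_mul]; congr 1
        have : 1 ≤ p ^ 2 := Nat.one_le_pow _ _ hp.out.pos
        omega
      omega
    have hupper : ∑ v ∈ Finset.univ.filter (fun v => v ∉ A), (Finset.univ.filter (fun l => R v l)).card ≤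
        ((p ^ 2 - 1) * Nat.card A) * Nat.card (Subgroup.center G) := by
      have h1 : (Finset.univ.filter (fun v : G => v ∉ A)).card = (p ^ 2 - 1) * Nat.card A := by
        have h2 := Finset.card_filter_add_card_filter_not (s := (Finset.univ : Finset G)) (fun v => v ∈ A)
        rw [hcA, Finset.card_univ, ← Nat.card_eq_fintype_card, hGA] at h2
        have h4 : (p ^ 2 - 1) * Nat.card A + Nat.card A = p ^ 2 * Nat.card A := by
          rw [← Nat.succ_mul]; congr 1
          have : 1 ≤ p ^ 2 := Nat.one_le_pow _ _ hp.out.pos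
          omega
        omega
      rw [← h1, ← smul_eq_mul]
      apply Finset.sum_le_card_nsmul
      intro v hv
      exact hfix v (Finset.mem_filter.mp hv).2
    have hlower : (Nat.card A - 1) * ((p - 1) * Nat.card A) + (p ^ 2 - 1) * Nat.card A ≤
        ∑ l : A →* ℂˣ, (Finset.univ.filter (fun v => v ∉ A ∧ R v l)).card := by
      rw [← Finset.sum_erase_add _ _ (Finset.mem_univ (1 : A →* ℂˣ))]
      apply add_le_add _ hlow1
      have h1 : (Finset.univ.erase (1 : A →* ℂˣ)).card = Nat.card A - 1 := by
        rw [Finset.card_erase_of_mem (Finset.mem_univ _), Finset.card_univ, hcardL]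
      rw [← h1, ← smul_eq_mul]
      exact Finset.card_nsmul_le_sum _ _ _ (fun l _ => hlow l)
    rw [← hdouble] at hlower
    have hfin := hlower.trans hupper
    obtain ⟨q, hq⟩ : ∃ q, p = q + 1 := ⟨p - 1, by omega⟩
    obtain ⟨a, ha⟩ : ∃ a, Nat.card A = a + 1 := ⟨Nat.card A - 1, by omega⟩
    have hk := Subgroup.relIndex_mul_relIndex ⊥ (Subgroup.center G) A bot_le hZA
    rw [Subgroup.relIndex_bot_left, Subgroup.relIndex_bot_left] at hk
    have hq1 : 1 ≤ q := by omega
    generalize Nat.card (Subgroup.center G) = z at hfin hk ⊢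
    generalize (Subgroup.center G).relIndex A = k at hk
    have hp2 : p ^ 2 - 1 = q * (q + 2) := by
      rw [hq]
      have : (q + 1) ^ 2 = q * (q + 2) + 1 := by ring
      omega
    have hp1 : p - 1 = q := by omega
    rw [hp2, hp1, ha, Nat.add_sub_cancel] at hfin
    have e1 : a * (q * (a + 1)) + q * (q + 2) * (a + 1) = (q * (a + 1)) * (a + (q + 2)) := by ring
    have e2 : q * (q + 2) * (a + 1) * z = (q * (a + 1)) * ((q + 2) * z) := by ring
    rw [e1, e2] at hfin
    have hfin2 := Nat.le_of_mul_le_mul_left hfin (by positivity)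
    -- a + 1 = z k, a + q + 2 ≤ (q+2) z
    rw [ha] at hk
    rw [ha, hq]
    by_contra hcon
    push Not at hcon
    have h1 : q + 1 < k := by
      by_contra h
      push Not at h
      have : z * k ≤ z * (q + 1) := Nat.mul_le_mul_left _ h
      rw [mul_comm (q + 1) z] at hcon
      omega
    have h2 : z * (q + 2) ≤ z * k := Nat.mul_le_mul_left _ h1
    have h3 : (q + 2) * z = z * (q + 2) := mul_comm _ _
    omega
  · -- not normal
    obtain ⟨N, hN⟩ : ∃ N : Subgroup G, N = Subgroup.normalizer (A : Set G) := ⟨_, rfl⟩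
    have hAN : A ≤ N := by rw [hN]; exact Subgroup.le_normalizer
    have hnil : Group.IsNilpotent G := hG.isNilpotent
    have hAt : A < ⊤ := by
      rw [lt_top_iff_ne_top]
      rintro h
      apply hAn
      rw [h]; infer_instance
    have hAN' : A < N := by
      rw [hN]
      exact Group.normalizerCondition_of_isNilpotent A hAt
    have hNt : N ≠ ⊤ := by
      intro h
      apply hAn
      rw [hN] at h
      exact Subgroup.normalizer_eq_top_iff.mp h
    have h1 := Subgroup.relIndex_mul_index hAN
    rw [hj'] at h1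
    have h2 : A.relIndex N ≠ 1 := by
      rw [Ne, Subgroup.relIndex_eq_one]
      exact fun h => hAN'.ne (le_antisymm hAN h)
    have h3 : N.index ≠ 1 := by rw [Ne, Subgroup.index_eq_one]; exact hNt
    have h4 : A.relIndex N = p ∧ N.index = p := by
      obtain ⟨i, hi⟩ := hpow N
      have h5 : A.relIndex N ∣ p ^ 2 := Dvd.intro _ h1
      obtain ⟨k, hk2, hk⟩ := (Nat.dvd_prime_pow hp.out).mp h5
      rw [hk, hi, ← pow_add] at h1
      have h6 := Nat.pow_right_injective hp.out.two_le h1
      have hk0 : k ≠ 0 := by rintro rfl; exact h2 (by rw [hk, pow_zero])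
      have hi0 : i ≠ 0 := by rintro rfl; exact h3 (by rw [hi, pow_zero])
      have e1 : k = 1 := by omega
      have e2 : i = 1 := by omega
      rw [hk, hi, e1, e2, pow_one]; exact ⟨rfl, rfl⟩
    have hNn : N.Normal := normal_of_index hG h4.2
    obtain ⟨g, hg⟩ : ∃ g : G, g ∉ N := by
      by_contra h
      push Not at h
      exact hNt ((Subgroup.eq_top_iff' N).mpr h)
    obtain ⟨B, hB⟩ : ∃ B : Subgroup G, B = A.map (MulAut.conj g).toMonoidHom := ⟨_, rfl⟩
    have hBc : Nat.card B = Nat.card A := by
      rw [hB]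
      exact (Nat.card_congr (A.equivMapOfInjective _ (MulAut.conj g).injective).toEquiv).symm
    have hBN : B ≤ N := by
      rw [hB]
      rintro _ ⟨a, ha, rfl⟩
      exact hNn.conj_mem a (hAN ha) g
    have hBab : ∀ a ∈ B, ∀ b ∈ B, a * b = b * a := by
      rw [hB]
      rintro _ ⟨a, ha, rfl⟩ _ ⟨b, hb, rfl⟩
      rw [← map_mul, hAab a ha b hb, map_mul]
    have hAB : A ⊓ B ≤ Subgroup.center G := by
      intro y hy
      by_contra hyc
      have hBA : B ≤ A := by
        intro b hb
        exact hcentA y hy.1 hyc b (hBab b hb y hy.2)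
      have hBA' : B = A := Subgroup.eq_of_le_of_card_ge hBA hBc.ge
      apply hg
      rw [hN, Subgroup.mem_normalizer_iff]
      intro a
      constructor
      · intro ha
        have : (MulAut.conj g).toMonoidHom a ∈ B := by rw [hB]; exact Subgroup.mem_map_of_mem _ ha
        rw [hBA'] at this
        exact this
      · intro ha
        rw [← hBA', hB] at ha
        obtain ⟨c, hc, hce⟩ := ha
        have : c = a := (MulAut.conj g).injective hce
        rw [← this]; exact hc
    have h5 : A.relIndex B ≤ p := by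
      rw [← h4.1]
      apply Subgroup.relIndex_le_of_le_right hBN
      rw [h4.1]; exact hp.out.ne_zero
    have h6 := Subgroup.relIndex_mul_relIndex ⊥ (A ⊓ B) B bot_le inf_le_right
    rw [Subgroup.relIndex_bot_left, Subgroup.relIndex_bot_left, Subgroup.inf_relIndex_right] at h6
    rw [← hBc, ← h6, mul_comm]
    apply Nat.mul_le_mul h5
    exact Nat.le_of_dvd Nat.card_pos (Subgroup.card_dvd_of_le hAB)

end PG2

section Main

variable {G : Type*} [Group G] [Finite G]

/-- the degree divides the index of a normal abelian subgroup -/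
theorem degree_dvd_index {A : Subgroup G} (hA : A.Normal) (hAab : ∀ a ∈ A, ∀ b ∈ A, a * b = b * a) {χ : G → ℂ}
    (hχ : IsIrrCharacter G χ) : charDegree χ ∣ A.index := by
  classical
  have iG := Fintype.ofFinite G
  have iA := Fintype.ofFinite A
  obtain ⟨θ, hθ, hne⟩ := exists_constituent_res (H := A) hχ
  have h1 := IsIrr.one_of_comm (fun a b : A => Subtype.ext (hAab a a.2 b b.2)) hθ
  obtain ⟨b, hb, hbd⟩ := Lift.degree_dvd A hχ hθ hne
  rw [h1, mul_one, DegLt.charDegree_cast hχ] at hb
  have : charDegree χ = b := by exact_mod_cast hb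
  rw [this]; exact hbd

theorem main (hG : ∃ a b : G, a * b ≠ b * a) (p : ℕ) (hp : p.Prime) :
    ((∀ χ : IrrCharacter G, charDegree (χ : G → ℂ) = 1 ∨ charDegree (χ : G → ℂ) = p) ∧
      ∃ χ : IrrCharacter G, charDegree (χ : G → ℂ) = p) ↔
    ((∃ A : Subgroup G, A.Normal ∧ (∀ a ∈ A, ∀ b ∈ A, a * b = b * a) ∧ A.index = p) ∨
      (Subgroup.center G).index = p ^ 3) := by
  classical
  have hpF := Fact.mk hp
  have iG := Fintype.ofFinite G
  have hna : ¬ ∀ a b : G, a * b = b * a := by
    obtain ⟨a, b, hab⟩ := hG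
    exact fun h => hab (h a b)
  constructor
  · rintro ⟨hcd, hm⟩
    have hcd' : ∀ χ : G → ℂ, IsIrrCharacter G χ → χ 1 = 1 ∨ χ 1 = p := by
      intro χ hχ
      rw [DegLt.charDegree_cast hχ]
      rcases hcd ⟨χ, hχ⟩ with h | h
      · left; rw [show charDegree χ = 1 from h]; simp
      · right; rw [show charDegree χ = p from h]
    rcases TwoDeg.main hcd hm hp.one_lt.ne' with h | ⟨q, e, hq, hqe, P, A, hPn, hAn, hPp, hAab, hi, hs⟩
    · exact Or.inl h
    · have hqp : q = p := by
        have : q ∣ p := by
          rw [hqe]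
          apply dvd_pow_self
          rintro rfl
          rw [pow_zero] at hqe
          exact hp.one_lt.ne' hqe
        exact (Nat.prime_dvd_prime_iff_eq hq hp).mp this
      subst hqp
      obtain ⟨h1, h2⟩ := TwoDeg2.prod_case hPn hAn hPp hAab hi hs
      have hcom : ∀ g h : G, ((⁅g, h⁆ : G) : G ⧸ A) = 1 → g * h = h * g := by
        intro g h hgh
        have h6 : ⁅g, h⁆ ∈ P ⊓ A := ⟨h2 (Subgroup.commutator_mem_commutator (Subgroup.mem_top g) (Subgroup.mem_top h)),
          (QuotientGroup.eq_one_iff _).mp hgh⟩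
        rw [hi, Subgroup.mem_bot] at h6
        exact commutatorElement_eq_one_iff_mul_comm.mp h6
      have hcom' : ∀ g h : G, (g : G ⧸ A) * (h : G ⧸ A) = (h : G ⧸ A) * (g : G ⧸ A) → g * h = h * g := by
        intro g h hgh
        apply hcom
        show (QuotientGroup.mk' A) ⁅g, h⁆ = 1
        rw [map_commutatorElement, commutatorElement_eq_one_iff_mul_comm]
        exact hgh
      have hqna : ¬ ∀ a b : G ⧸ A, a * b = b * a := by
        intro h
        exact hna fun a b => hcom' a b (h _ _)
      rcases pgroup_case h1 (fun χ hχ => hcd' _ (IsIrr.inflate hχ)) hqna with ⟨B, hBn, hBab, hBi⟩ | hZ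
      · left
        refine ⟨B.comap (QuotientGroup.mk' A), hBn.comap _, ?_, ?_⟩
        · intro a ha b hb
          exact hcom' a b (hBab _ ha _ hb)
        · rw [Subgroup.index_comap_of_surjective B (QuotientGroup.mk'_surjective A), hBi]
      · right
        have h3 : (Subgroup.center (G ⧸ A)).comap (QuotientGroup.mk' A) = Subgroup.center G := by
          ext g
          rw [Subgroup.mem_comap, Subgroup.mem_center_iff, Subgroup.mem_center_iff]
          constructor
          · intro h x
            exact hcom' x g (h (x : G ⧸ A))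
          · intro h x
            obtain ⟨y, rfl⟩ := QuotientGroup.mk'_surjective A x
            rw [← map_mul, h y, map_mul]
        rw [← h3, Subgroup.index_comap_of_surjective _ (QuotientGroup.mk'_surjective A), hZ]
  · intro h
    have hall : ∀ χ : IrrCharacter G, charDegree (χ : G → ℂ) = 1 ∨ charDegree (χ : G → ℂ) = p := by
      intro χ
      rcases h with ⟨A, hAn, hAab, hAi⟩ | hZ
      · have h1 := degree_dvd_index hAn hAab χ.2
        rw [hAi] at h1
        exact (Nat.dvd_prime hp).mp h1
      · have h1 := degree_dvd_index (A := Subgroup.center G) inferInstance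
          (fun a ha b _ => (Subgroup.mem_center_iff.mp ha b).symm) χ.2
        rw [hZ] at h1
        obtain ⟨j, -, hj⟩ := (Nat.dvd_prime_pow hp).mp h1
        have h2 := GalP.degree_le χ.2 (DegLt.charDegree_cast χ.2)
        rw [← (Subgroup.center G).index_mul_card, hZ] at h2
        have h3 := Nat.le_of_mul_le_mul_right h2 Nat.card_pos
        rw [hj, ← pow_mul] at h3
        have h4 := (Nat.pow_le_pow_iff_right hp.one_lt).mp h3
        have h5 : j = 0 ∨ j = 1 := by omega
        rcases h5 with rfl | rfl
        · left; rw [hj, pow_zero]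
        · right; rw [hj, pow_one]
    refine ⟨hall, ?_⟩
    obtain ⟨χ, hχ, hχ1⟩ := GalP.exists_nonlinear hna
    refine ⟨⟨χ, hχ⟩, (hall ⟨χ, hχ⟩).resolve_left ?_⟩
    intro h1
    apply hχ1
    rw [DegLt.charDegree_cast hχ, show charDegree χ = 1 from h1]; simp

end Main

end Cfsg.Agent.H3.TwoDeg3
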