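import Cfsg.Agent.H20_Carm2

/-!
Permutations used for the multiplier of the alternating groups.
-/

set_option autoImplicit false

namespace Cfsg.Agent.H4.AnA

open Cfsg.Agent.H20.Carm Equiv

section
variable (n : ℕ)

/-- `(0, i+1)(1, i+2)` -/
def q (i : ℕ) : Perm (Fin n) :=
  if h : i + 2 < n then swap ⟨0, by omega⟩ ⟨i + 1, by omega⟩ * swap ⟨1, by omega⟩ ⟨i + 2, h⟩ else 1

theorem q_eq {i : ℕ} (h : i + 2 < n) :
    q n i = swap ⟨0, by omega⟩ ⟨i + 1, by omega⟩ * swap ⟨1, by omega⟩ ⟨i + 2, h⟩ := by rw [q, dif_pos h]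

theorem q_mem {i : ℕ} (h1 : 1 ≤ i) (h : i + 2 < n) : q n i ∈ alternatingGroup (Fin n) := by
  rw [Perm.mem_alternatingGroup, q_eq n h, map_mul, Perm.sign_swap, Perm.sign_swap]
  · rfl
  · simp only [ne_eq, Fin.mk.injEq]; omega
  · simp only [ne_eq, Fin.mk.injEq]; omega

theorem q0 {i : ℕ} (h1 : 1 ≤ i) (h : i + 2 < n) : q n i ⟨0, by omega⟩ = ⟨i + 1, by omega⟩ := by
  have e : swap (⟨1, by omega⟩ : Fin n) ⟨i + 2, h⟩ ⟨0, by omega⟩ = ⟨0, by omega⟩ :=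
    swap_apply_of_ne_of_ne (by simp only [ne_eq, Fin.mk.injEq]; omega) (by simp only [ne_eq, Fin.mk.injEq]; omega)
  rw [q_eq n h, Perm.mul_apply, e, swap_apply_left]

theorem q1 {i : ℕ} (h1 : 1 ≤ i) (h : i + 2 < n) : q n i ⟨1, by omega⟩ = ⟨i + 2, by omega⟩ := by
  rw [q_eq n h, Perm.mul_apply, swap_apply_left, swap_apply_of_ne_of_ne]
  · simp only [ne_eq, Fin.mk.injEq]; omega
  · simp only [ne_eq, Fin.mk.injEq]; omega

theorem q2 {i : ℕ} (h1 : 1 ≤ i) (h : i + 2 < n) : q n i ⟨i + 1, by omega⟩ = ⟨0, by omega⟩ := by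
  have e : swap (⟨1, by omega⟩ : Fin n) ⟨i + 2, h⟩ ⟨i + 1, by omega⟩ = ⟨i + 1, by omega⟩ :=
    swap_apply_of_ne_of_ne (by simp only [ne_eq, Fin.mk.injEq]; omega) (by simp only [ne_eq, Fin.mk.injEq]; omega)
  rw [q_eq n h, Perm.mul_apply, e, swap_apply_right]

theorem q3 {i : ℕ} (h1 : 1 ≤ i) (h : i + 2 < n) : q n i ⟨i + 2, by omega⟩ = ⟨1, by omega⟩ := by
  rw [q_eq n h, Perm.mul_apply, swap_apply_right, swap_apply_of_ne_of_ne]
  · simp only [ne_eq, Fin.mk.injEq]; omega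
  · simp only [ne_eq, Fin.mk.injEq]; omega

theorem q4 {i k : ℕ} (h1 : 1 ≤ i) (h : i + 2 < n) (hk : k < n) (k0 : k ≠ 0) (k1 : k ≠ 1) (k2 : k ≠ i + 1)
    (k3 : k ≠ i + 2) : q n i ⟨k, hk⟩ = ⟨k, hk⟩ := by
  have e : swap (⟨1, by omega⟩ : Fin n) ⟨i + 2, h⟩ ⟨k, hk⟩ = ⟨k, hk⟩ :=
    swap_apply_of_ne_of_ne (by simp only [ne_eq, Fin.mk.injEq]; omega) (by simp only [ne_eq, Fin.mk.injEq]; omega)
  rw [q_eq n h, Perm.mul_apply, e]
  exact swap_apply_of_ne_of_ne (by simp only [ne_eq, Fin.mk.injEq]; omega) (by simp only [ne_eq, Fin.mk.injEq]; omega)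

theorem q_s {i : ℕ} (h1 : 1 ≤ i) (h : i + 2 < n) : q n i * a n 0 = a n (i + 1) * q n i := by
  rw [a_eq n (by omega : 0 + 1 < n), a_eq n (by omega : i + 1 + 1 < n), mul_swap_eq_swap_mul]
  have e0 := q0 n h1 h
  have e1 := q1 n h1 h
  simp only [Nat.zero_add] at *
  rw [e0, e1]

theorem q_t {i : ℕ} (h1 : 1 ≤ i) (h : i + 2 < n) : q n i * a n (i + 1) = a n 0 * q n i := by
  rw [a_eq n (by omega : 0 + 1 < n), a_eq n (by omega : i + 1 + 1 < n), mul_swap_eq_swap_mul]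
  have e0 := q2 n h1 h
  have e1 := q3 n h1 h
  simp only [Nat.zero_add] at *
  rw [e0, e1]

theorem q_f {i j : ℕ} (h1 : 1 ≤ i) (h : i + 2 < n) (j1 : 1 ≤ j) (hj : j + 2 < n) (hij : i + 1 < j ∨ j + 1 < i) :
    q n i * a n (j + 1) = a n (j + 1) * q n i := by
  rw [a_eq n (by omega : j + 1 + 1 < n), mul_swap_eq_swap_mul, q4 n h1 h, q4 n h1 h]
  all_goals omega

theorem q_sq {i : ℕ} (h1 : 1 ≤ i) (h : i + 2 < n) : q n i * q n i = 1 := by
  have hc : swap (⟨1, by omega⟩ : Fin n) ⟨i + 2, h⟩ * swap ⟨0, by omega⟩ ⟨i + 1, by omega⟩ =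
      swap ⟨0, by omega⟩ ⟨i + 1, by omega⟩ * swap ⟨1, by omega⟩ ⟨i + 2, h⟩ := by
    apply Perm.Disjoint.commute
    apply Perm.disjoint_swap_swap
    simp only [List.nodup_cons, List.mem_cons, List.not_mem_nil, or_false, not_or, Fin.mk.injEq,
        not_false_eq_true, List.nodup_nil, and_true]
    omega
  rw [q_eq n h]
  calc _ = swap (⟨0, by omega⟩ : Fin n) ⟨i + 1, by omega⟩ * (swap (⟨1, by omega⟩ : Fin n) ⟨i + 2, h⟩ *
        swap ⟨0, by omega⟩ ⟨i + 1, by omega⟩) * swap ⟨1, by omega⟩ ⟨i + 2, h⟩ := by group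
    _ = (swap (⟨0, by omega⟩ : Fin n) ⟨i + 1, by omega⟩ * swap ⟨0, by omega⟩ ⟨i + 1, by omega⟩) *
        (swap (⟨1, by omega⟩ : Fin n) ⟨i + 2, h⟩ * swap ⟨1, by omega⟩ ⟨i + 2, h⟩) := by rw [hc]; group
    _ = 1 := by rw [swap_mul_self, swap_mul_self, one_mul]

/-- `(q_i y_j)² = y_i` -/
theorem qy_sq {i j : ℕ} (h1 : 1 ≤ i) (h : i + 2 < n) (j1 : 1 ≤ j) (hj : j + 2 < n) (hij : i + 1 < j ∨ j + 1 < i) :
    (q n i * y n j) * (q n i * y n j) = y n i := by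
  have f1 := q_s n h1 h
  have f3 := q_f n h1 h j1 hj hij
  have f4 : a n 0 * a n (j + 1) = a n (j + 1) * a n 0 := a_comm n (by omega)
  have f5 := q_sq n h1 h
  have f6 := a_sq n (j + 1)
  have f7 := a_sq n 0
  have f8 : a n 0 * a n (i + 1) = a n (i + 1) * a n 0 := a_comm n (by omega)
  simp only [y]
  calc q n i * (a n 0 * a n (j + 1)) * (q n i * (a n 0 * a n (j + 1)))
      = q n i * a n 0 * (a n (j + 1) * q n i) * (a n 0 * a n (j + 1)) := by group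
    _ = (q n i * a n 0) * q n i * (a n (j + 1) * a n 0) * a n (j + 1) := by rw [← f3]; group
    _ = a n (i + 1) * (q n i * q n i) * a n 0 * (a n (j + 1) * a n (j + 1)) := by rw [← f4, f1]; group
    _ = a n 0 * a n (i + 1) := by rw [f5, f6, mul_one, mul_one, f8]

theorem qy_comm {i : ℕ} (h1 : 1 ≤ i) (h : i + 2 < n) : q n i * y n i = y n i * q n i := by
  have f1 := q_s n h1 h
  have f2 := q_t n h1 h
  have f8 : a n 0 * a n (i + 1) = a n (i + 1) * a n 0 := a_comm n (by omega)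
  simp only [y]
  calc q n i * (a n 0 * a n (i + 1)) = a n (i + 1) * (q n i * a n (i + 1)) := by rw [← mul_assoc, f1, mul_assoc]
    _ = a n (i + 1) * a n 0 * q n i := by rw [f2, mul_assoc]
    _ = _ := by rw [← f8]

theorem y_conj (hn : 4 ≤ n) : y n 0 * y n 1 * (y n 0)⁻¹ = y n 1 * q n 1 := by
  have e0 := q0 n (i := 1) le_rfl (by omega)
  rw [mul_inv_eq_iff_eq_mul]
  rw [y, y, q_eq n (by omega : 1 + 2 < n), a_eq n (by omega : 0 + 1 < n), a_eq n (by omega : 0 + 1 + 1 < n),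
    a_eq n (by omega : 1 + 1 + 1 < n)]
  ext k
  by_cases k0 : k = ⟨0, by omega⟩
  · subst k0; simp [Perm.mul_apply, swap_apply_def]
  by_cases k1 : k = ⟨1, by omega⟩
  · subst k1; simp [Perm.mul_apply, swap_apply_def]
  by_cases k2 : k = ⟨2, by omega⟩
  · subst k2; simp [Perm.mul_apply, swap_apply_def]
  by_cases k3 : k = ⟨3, by omega⟩
  · subst k3; simp [Perm.mul_apply, swap_apply_def]
  simp [Perm.mul_apply, swap_apply_def, k0, k1, k2, k3]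

end

end Cfsg.Agent.H4.AnA
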