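import Cfsg.Agent.H4_AnA

/-!
Central extensions of the alternating groups: splitting from a presentation.
-/

set_option autoImplicit false

namespace Cfsg.Agent.H4.AnA

open Cfsg.Agent.H20 Cfsg.Agent.H20.Carm Equiv
open scoped commutatorElement

universe u

/-- a central stem extension of the alternating group -/
structure Dat {Γ : Type u} [Group Γ] (n : ℕ) (Z : Subgroup Γ) (π : Γ →* Perm (Fin n)) : Prop where
  ker : ∀ g, π g = 1 ↔ g ∈ Z
  cen : ∀ z ∈ Z, ∀ g, g * z = z * g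
  com : Z ≤ commutator Γ
  surj : ∀ σ ∈ alternatingGroup (Fin n), ∃ g, π g = σ
  rng : ∀ g, π g ∈ alternatingGroup (Fin n)

section
variable {Γ : Type u} [Group Γ] {n : ℕ} {Z : Subgroup Γ} {π : Γ →* Perm (Fin n)}

theorem Dat.df (D : Dat n Z π) {a b : Γ} (h : π a = π b) : ∃ z ∈ Z, a = b * z := by
  refine ⟨b⁻¹ * a, ?_, by group⟩
  rw [← D.ker, map_mul, map_inv, h, inv_mul_cancel]

/-- commutators of lifts do not depend on the lifts -/
theorem com_cen {k k' z z' : Γ} (hz : ∀ g, g * z = z * g) (hz' : ∀ g, g * z' = z' * g) :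
    ⁅k * z, k' * z'⁆ = ⁅k, k'⁆ := by
  rw [commutatorElement_def, commutatorElement_def, mul_inv_rev, mul_inv_rev]
  have h1 : k * z * (k' * z') * (z⁻¹ * k⁻¹) * (z'⁻¹ * k'⁻¹) = k * ((k' * z') * z) * z⁻¹ * k⁻¹ * z'⁻¹ * k'⁻¹ := by
    rw [hz (k' * z')]; group
  rw [h1]
  have h2 : k * (k' * z' * z) * z⁻¹ * k⁻¹ * z'⁻¹ * k'⁻¹ = k * k' * (z' * k⁻¹) * z'⁻¹ * k'⁻¹ := by group
  rw [h2, ← hz' k⁻¹]
  group

theorem com_le (D : Dat n Z π) {K : Subgroup Γ} (h : ∀ g, ∃ k ∈ K, ∃ z ∈ Z, g = k * z) : commutator Γ ≤ K := by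
  rw [commutator_eq_closure, Subgroup.closure_le]
  rintro _ ⟨a, b, rfl⟩
  obtain ⟨k, hk, z, hz, rfl⟩ := h a
  obtain ⟨k', hk', z', hz', rfl⟩ := h b
  rw [com_cen (D.cen z hz) (D.cen z' hz'), commutatorElement_def]
  exact mul_mem (mul_mem (mul_mem hk hk') (inv_mem hk)) (inv_mem hk')

theorem fin_pres (D : Dat n Z π) (hn : 4 ≤ n) (g : ℕ → Γ) (hg : ∀ i, i + 2 < n → π (g i) = y n i)
    (h0 : g 0 ^ 3 = 1) (h2 : ∀ i, 1 ≤ i → i + 2 < n → g i ^ 2 = 1)
    (h3 : ∀ i, i + 3 < n → (g i * g (i + 1)) ^ 3 = 1)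
    (h4 : ∀ i j, i + 1 < j → j + 2 < n → (g i * g j) ^ 2 = 1) : Z = ⊥ := by
  obtain ⟨hfin, hc⟩ := bound g (n - 2) h0 (fun i h1 h => h2 i h1 (by omega)) (fun i h => h3 i (by omega))
    (fun i j h1 h => h4 i j h1 (by omega)) (n - 2) le_rfl
  have e : n - 2 + 2 = n := by omega
  rw [e] at hc
  have hA : alternatingGroup (Fin n) ≤ (Carm.K g (n - 2)).map π := by
    intro σ hσ
    have hKy : ∀ i, i + 2 < n → y n i ∈ (Carm.K g (n - 2)).map π := fun i hi =>
      ⟨g i, mem_K g (by omega), hg i hi⟩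
    rcases Carm.cover n (by omega) _ hKy σ with h | h
    · exact h
    · exfalso
      obtain ⟨z, -, hz⟩ := h
      have h5 := D.rng z
      rw [hz, Perm.mem_alternatingGroup, map_mul, sign_a n (by omega), Perm.mem_alternatingGroup.mp hσ] at h5
      exact absurd h5 (by decide)
  have hcA : 2 * Nat.card (alternatingGroup (Fin n)) = n.factorial := by
    haveI : Nontrivial (Fin n) := ⟨⟨⟨0, by omega⟩, ⟨1, by omega⟩, by simp⟩⟩
    have h5 := two_mul_nat_card_alternatingGroup (α := Fin n)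
    rwa [Nat.card_perm, Nat.card_fin] at h5
  have hinj : Function.Injective (π.subgroupMap (Carm.K g (n - 2))) := by
    have h1 : Nat.card (alternatingGroup (Fin n)) ≤ Nat.card ((Carm.K g (n - 2)).map π) :=
      Nat.card_le_card_of_injective _ (Subgroup.inclusion_injective hA)
    have hs := π.subgroupMap_surjective (Carm.K g (n - 2))
    have h2 : Nat.card ((Carm.K g (n - 2)).map π) ≤ Nat.card (Carm.K g (n - 2)) := Nat.card_le_card_of_surjective _ hs
    have h3 : Nat.card (Carm.K g (n - 2)) = Nat.card ((Carm.K g (n - 2)).map π) := by omega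
    exact ((Nat.bijective_iff_surjective_and_card _).2 ⟨hs, h3⟩).1
  have hcov : ∀ x : Γ, ∃ k ∈ Carm.K g (n - 2), ∃ z ∈ Z, x = k * z := by
    intro x
    obtain ⟨k, hk, hkx⟩ := hA (D.rng x)
    obtain ⟨z, hz, e⟩ := D.df hkx.symm
    exact ⟨k, hk, z, hz, e⟩
  have hle := com_le D hcov
  rw [eq_bot_iff]
  intro z hz
  have hzK : z ∈ Carm.K g (n - 2) := hle (D.com hz)
  have h1 : π.subgroupMap (Carm.K g (n - 2)) ⟨z, hzK⟩ = π.subgroupMap (Carm.K g (n - 2)) 1 := by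
    apply Subtype.ext
    rw [map_one]
    exact (D.ker z).2 hz
  have h2 := congrArg Subtype.val (hinj h1)
  exact h2

end

end Cfsg.Agent.H4.AnA
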