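import Cfsg.Agent.H4_AnB

/-!
Central extensions of the alternating groups: normalising the lifts.
-/

set_option autoImplicit false

namespace Cfsg.Agent.H4.AnA

open Cfsg.Agent.H20 Cfsg.Agent.H20.Carm Equiv
open scoped commutatorElement

universe u

section
variable {Γ : Type u} [Group Γ]

theorem braid3 {a b : Γ} (ha : a * a = 1) (hb : b * b = 1) (h : (a * b) ^ 3 = 1) :
    a * b * a = b * a * b := by
  have h1 : (a * b * a) * (b * a * b) = 1 := by rw [← h, pow_succ, pow_succ, pow_one]; simp only [mul_assoc]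
  have h2 : (b * a * b) * (b * a * b) = 1 := by
    calc (b * a * b) * (b * a * b) = b * a * (b * b) * a * b := by group
      _ = b * (a * a) * b := by rw [hb]; group
      _ = 1 := by rw [ha, mul_one, hb]
  exact mul_right_cancel (h1.trans h2.symm)

theorem fcube {Y0 Yj t f : Γ} (ht : Y0 ^ 3 = t) (hf : Yj * Y0 * Yj⁻¹ * Y0 = f) (cf : ∀ g, g * f = f * g)
    (ct : ∀ g, g * t = t * g) : f ^ 3 = t ^ 2 := by
  have e : Yj * Y0 * Yj⁻¹ = f * Y0⁻¹ := by rw [← hf]; group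
  have h1 : (Yj * Y0 * Yj⁻¹) ^ 3 = t := by
    rw [conj_pow, ht, ct, mul_assoc, mul_inv_cancel, mul_one]
  have hc : Commute f Y0⁻¹ := (cf _).symm
  rw [e, hc.mul_pow, inv_pow, ht, mul_inv_eq_iff_eq_mul] at h1
  rw [h1, pow_two]

theorem feq {Y0 Yi Yj t fi fj : Γ} (hi : Yi * Y0 * Yi⁻¹ * Y0 = fi) (hj : Yj * Y0 * Yj⁻¹ * Y0 = fj)
    (ci : ∀ g, g * fi = fi * g) (cj : ∀ g, g * fj = fj * g) (h3i : fi ^ 3 = t) (h3j : fj ^ 3 = t)
    (hW : (Yi * Yj) * (Yi * Yj) * Y0 = Y0 * ((Yi * Yj) * (Yi * Yj))) : fj = fi := by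
  have ei : Yi * Y0 * Yi⁻¹ = fi * Y0⁻¹ := by rw [← hi]; group
  have ej : Yj * Y0 * Yj⁻¹ = fj * Y0⁻¹ := by rw [← hj]; group
  set e := fj * fi⁻¹ with he
  have ci' : ∀ g, g * fi⁻¹ = fi⁻¹ * g := fun g => by
    have := ci g
    calc g * fi⁻¹ = fi⁻¹ * (fi * g) * fi⁻¹ := by group
      _ = _ := by rw [← this]; group
  have ce : ∀ g, g * e = e * g := fun g => by
    rw [he, ← mul_assoc, cj g, mul_assoc, ci' g, mul_assoc]
  have h1 : (Yi * Yj) * Y0 * (Yi * Yj)⁻¹ = e * Y0 := by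
    calc (Yi * Yj) * Y0 * (Yi * Yj)⁻¹ = Yi * (Yj * Y0 * Yj⁻¹) * Yi⁻¹ := by group
      _ = (Yi * fj) * Y0⁻¹ * Yi⁻¹ := by rw [ej]; group
      _ = fj * (Yi * Y0 * Yi⁻¹)⁻¹ := by rw [cj Yi]; group
      _ = fj * (Y0 * fi⁻¹) := by rw [ei, mul_inv_rev, inv_inv]
      _ = e * Y0 := by rw [ci' Y0, he, mul_assoc]
  have h2 : (Yi * Yj) * (e * Y0) * (Yi * Yj)⁻¹ = e * (e * Y0) := by
    calc (Yi * Yj) * (e * Y0) * (Yi * Yj)⁻¹ = ((Yi * Yj) * e) * Y0 * (Yi * Yj)⁻¹ := by group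
      _ = e * ((Yi * Yj) * Y0 * (Yi * Yj)⁻¹) := by rw [ce]; group
      _ = _ := by rw [h1]
  have h3 : (Yi * Yj) * (e * Y0) * (Yi * Yj)⁻¹ = Y0 := by
    rw [← h1]
    calc (Yi * Yj) * ((Yi * Yj) * Y0 * (Yi * Yj)⁻¹) * (Yi * Yj)⁻¹
        = ((Yi * Yj) * (Yi * Yj) * Y0) * ((Yi * Yj) * (Yi * Yj))⁻¹ := by group
      _ = Y0 := by rw [hW]; group
  have h4 : e * e = 1 := by
    have := h2.symm.trans h3
    rw [← mul_assoc] at this
    exact mul_eq_right.1 this
  have h5 : fj = e * fi := by rw [he]; group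
  have h6 : e ^ 3 = 1 := by
    have hc : Commute e fi := ci e
    rw [h5, hc.mul_pow, h3i] at h3j
    exact mul_eq_right.1 h3j
  have h7 : e = 1 := by
    have : e ^ 3 = (e * e) * e := by rw [pow_succ, pow_two]
    rw [h6, h4, one_mul] at this
    exact this.symm
  rw [h5, h7, one_mul]

theorem normx {g0 x w z : Γ} (hz : x * x = z) (hw : (g0 * x * g0⁻¹) * (g0 * (g0 * x * g0⁻¹) * g0⁻¹) * x = w)
    (cz : ∀ g, g * z = z * g) (cw : ∀ g, g * w = w * g) (hxa : x * (g0 * x * g0⁻¹) = (g0 * x * g0⁻¹) * x) :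
    (x * (w⁻¹ * z)) * (x * (w⁻¹ * z)) = 1 ∧
    (g0 * (x * (w⁻¹ * z)) * g0⁻¹) * (g0 * (g0 * (x * (w⁻¹ * z)) * g0⁻¹) * g0⁻¹) * (x * (w⁻¹ * z)) = 1 := by
  set a := g0 * x * g0⁻¹ with ha
  set b := g0 * a * g0⁻¹ with hb
  have haa : a * a = z := by
    calc a * a = g0 * (x * x) * g0⁻¹ := by rw [ha]; group
      _ = z := by rw [hz, cz]; group
  have hbb : b * b = z := by
    calc b * b = g0 * (a * a) * g0⁻¹ := by rw [hb]; group
      _ = z := by rw [haa, cz]; group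
  have hb' : b = w * (a⁻¹ * x⁻¹) := by
    calc b = a⁻¹ * (a * b * x) * x⁻¹ := by group
      _ = (a⁻¹ * w) * x⁻¹ := by rw [hw]
      _ = _ := by rw [cw, mul_assoc]
  have h3 : z * (z * z) = w * w := by
    have c1 : Commute w (a⁻¹ * x⁻¹) := (cw _).symm
    have c2 : Commute a x := hxa.symm
    have e1 : b * b = w ^ 2 * (a⁻¹ * x⁻¹) ^ 2 := by rw [← pow_two, hb', c1.mul_pow]
    have e2 : (a⁻¹ * x⁻¹) ^ 2 = z⁻¹ * z⁻¹ := by
      rw [c2.inv_inv.mul_pow, inv_pow, inv_pow, pow_two, pow_two, haa, hz]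
    rw [hbb, e2] at e1
    calc z * (z * z) = (w ^ 2 * (z⁻¹ * z⁻¹)) * (z * z) := by rw [← e1]
      _ = w * w := by rw [pow_two]; group
  have cv : ∀ g, g * (w⁻¹ * z) = (w⁻¹ * z) * g := by
    intro g
    have := cw g
    calc g * (w⁻¹ * z) = w⁻¹ * (w * g) * w⁻¹ * z := by group
      _ = w⁻¹ * g * z := by rw [← this]; group
      _ = _ := by rw [mul_assoc, cz g]; group
  set v := w⁻¹ * z with hv
  have hvv : z * (v * v) = 1 := by
    calc z * (v * v) = z * (w⁻¹ * (z * w⁻¹) * z) := by rw [hv]; group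
      _ = z * (w⁻¹ * (w⁻¹ * z) * z) := by rw [← cz w⁻¹]
      _ = (z * (w⁻¹ * w⁻¹)) * (z * z) := by group
      _ = (w⁻¹ * w⁻¹) * (z * (z * z)) := by rw [← cz]; group
      _ = 1 := by rw [h3]; group
  constructor
  · calc (x * v) * (x * v) = x * (v * x) * v := by group
      _ = (x * x) * (v * v) := by rw [← cv x]; group
      _ = 1 := by rw [hz, hvv]
  · have e1 : g0 * (x * v) * g0⁻¹ = a * v := by
      calc g0 * (x * v) * g0⁻¹ = g0 * x * (v * g0⁻¹) := by group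
        _ = _ := by rw [← cv g0⁻¹, ha]; group
    have e2 : g0 * (a * v) * g0⁻¹ = b * v := by
      calc g0 * (a * v) * g0⁻¹ = g0 * a * (v * g0⁻¹) := by group
        _ = _ := by rw [← cv g0⁻¹, hb]; group
    rw [e1, e2]
    calc a * v * (b * v) * (x * v) = a * (v * b) * (v * x) * v := by group
      _ = (a * b) * (v * x) * (v * v) := by
        rw [← cv b, ← cv x]
        calc a * (b * v) * (x * v) * v = a * b * (v * x) * (v * v) := by group
          _ = _ := by rw [← cv x]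
      _ = (a * b * x) * v * (v * v) := by rw [← cv x]; group
      _ = w * (w⁻¹ * z) * (v * v) := by rw [hw]
      _ = 1 := by rw [mul_inv_cancel_left, hvv]

theorem three {g0 x : Γ} (h : g0 ^ 3 = 1) (hx : (g0 * x * g0⁻¹) * (g0 * (g0 * x * g0⁻¹) * g0⁻¹) * x = 1) :
    (g0 * x) ^ 3 = 1 := by
  have e : (g0 * x) ^ 3 = (g0 * x * g0⁻¹) * (g0 * (g0 * x * g0⁻¹) * g0⁻¹) * (g0 ^ 3) * x := by
    simp only [pow_succ, pow_zero, one_mul]; group
  rw [e, h, mul_one, hx]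

/-- the normalised lifts -/
def gs (Y : ℕ → Γ) (g0 x1 : Γ) : ℕ → Γ
  | 0 => g0
  | 1 => x1
  | (k + 2) => Y (k + 2) * ((Y (k + 2) * gs Y g0 x1 (k + 1) * Y (k + 2))⁻¹ *
      (gs Y g0 x1 (k + 1) * Y (k + 2) * gs Y g0 x1 (k + 1)))

variable {n : ℕ} {Z : Subgroup Γ} {π : Γ →* Perm (Fin n)}

theorem y_br {i : ℕ} (h1 : 1 ≤ i) (hi : i + 3 < n) : y n i * y n (i + 1) * y n i = y n (i + 1) * y n i * y n (i + 1) :=
  braid3 (by rw [← pow_two]; exact y_sq n h1) (by rw [← pow_two]; exact y_sq n (by omega)) (y_braid n hi)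

theorem gs_pi {Y : ℕ → Γ} (hY : ∀ i, i + 2 < n → π (Y i) = y n i) {g0 x1 : Γ} (hg0 : π g0 = y n 0)
    (hx1 : π x1 = y n 1) : ∀ i, i + 2 < n → π (gs Y g0 x1 i) = y n i
  | 0, _ => hg0
  | 1, _ => hx1
  | (k + 2), h => by
    have ih := gs_pi hY hg0 hx1 (k + 1) (by omega)
    have hb := y_br (n := n) (i := k + 1) (by omega) (by omega)
    have e : k + 1 + 1 = k + 2 := rfl
    rw [e] at hb
    rw [gs]
    simp only [map_mul, map_inv]
    rw [ih, hY (k + 2) h, hb]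
    group

theorem gs_cen (D : Dat n Z π) {Y : ℕ → Γ} (hY : ∀ i, i + 2 < n → π (Y i) = y n i) {g0 x1 : Γ} (hg0 : π g0 = y n 0)
    (hx1 : π x1 = y n 1) (k : ℕ) (h : k + 4 < n) : ((Y (k + 2) * gs Y g0 x1 (k + 1) * Y (k + 2))⁻¹ *
      (gs Y g0 x1 (k + 1) * Y (k + 2) * gs Y g0 x1 (k + 1))) ∈ Z := by
  rw [← D.ker]
  have ih := gs_pi hY hg0 hx1 (k + 1) (by omega)
  have hb := y_br (n := n) (i := k + 1) (by omega) (by omega)
  have e : k + 1 + 1 = k + 2 := rfl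
  rw [e] at hb
  simp only [map_mul, map_inv]
  rw [ih, hY (k + 2) h, hb]
  group

theorem gs_br (D : Dat n Z π) {Y : ℕ → Γ} (hY : ∀ i, i + 2 < n → π (Y i) = y n i) {g0 x1 : Γ} (hg0 : π g0 = y n 0)
    (hx1 : π x1 = y n 1) (k : ℕ) (h : k + 4 < n) :
    gs Y g0 x1 (k + 1) * gs Y g0 x1 (k + 2) * gs Y g0 x1 (k + 1) =
      gs Y g0 x1 (k + 2) * gs Y g0 x1 (k + 1) * gs Y g0 x1 (k + 2) := by
  have ce := D.cen _ (gs_cen D hY hg0 hx1 k h)
  have e2 : gs Y g0 x1 (k + 2) = Y (k + 2) * ((Y (k + 2) * gs Y g0 x1 (k + 1) * Y (k + 2))⁻¹ *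
      (gs Y g0 x1 (k + 1) * Y (k + 2) * gs Y g0 x1 (k + 1))) := by rw [gs]
  set g := gs Y g0 x1 (k + 1) with hg
  set t := Y (k + 2) with ht
  rw [e2]
  set e := ((t * g * t)⁻¹ * (g * t * g)) with he
  have h1 : t * g * t * e = g * t * g := by rw [he]; group
  calc g * (t * e) * g = (g * t) * (e * g) := by group
    _ = (g * t * g) * e := by rw [← ce g]; group
    _ = t * g * (t * e) * e := by rw [← h1]; group
    _ = t * (g * e) * (t * e) := by
      rw [ce t, ce g]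
      calc t * g * (e * t) * e = t * (g * e) * (t * e) := by group
        _ = t * (e * g) * (t * e) := by rw [ce g]
        _ = t * (e * g) * (e * t) := by rw [ce t]
    _ = t * (e * g) * (t * e) := by rw [ce g]
    _ = _ := by group

theorem L2 (D : Dat n Z π) (hn : 4 ≤ n) {Y : ℕ → Γ} (hY : ∀ i, i + 2 < n → π (Y i) = y n i)
    (hc : ∀ i j, 1 ≤ i → i + 1 < j → j + 2 < n → Y i * Y j = Y j * Y i) {g0 x1 : Γ} (hg0 : π g0 = y n 0)
    (hx1 : π x1 = y n 1) (h03 : g0 ^ 3 = 1) (hx : x1 * x1 = 1) (h01 : (g0 * x1) ^ 3 = 1)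
    (hf : ∀ j, 2 ≤ j → j + 2 < n → Y j * g0 * (Y j)⁻¹ * g0 = 1) : Z = ⊥ := by
  have hpi := gs_pi hY hg0 hx1
  have hsq : ∀ i, 1 ≤ i → i + 2 < n → gs Y g0 x1 i * gs Y g0 x1 i = 1 := by
    intro i hi
    induction i, hi using Nat.le_induction with
    | base => intro _; exact hx
    | succ i hi ih =>
      intro h
      obtain ⟨k, rfl⟩ : ∃ k, i = k + 1 := ⟨i - 1, by omega⟩
      have ih' := ih (by omega)
      have hb := gs_br D hY hg0 hx1 k (by omega)
      have e : k + 1 + 1 = k + 2 := rfl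
      rw [e]
      set g := gs Y g0 x1 (k + 1) with hg
      set g' := gs Y g0 x1 (k + 2) with hg'
      have e3 : g' = (g * g') * g * (g * g')⁻¹ := by
        rw [hb]; group
      rw [e3]
      calc (g * g') * g * (g * g')⁻¹ * ((g * g') * g * (g * g')⁻¹) = (g * g') * (g * g) * (g * g')⁻¹ := by group
        _ = 1 := by rw [ih', mul_one, mul_inv_cancel]
  refine fin_pres D hn (gs Y g0 x1) hpi h03 (fun i h1 h => by rw [pow_two]; exact hsq i h1 h) ?_ ?_
  · intro i hi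
    rcases Nat.eq_zero_or_pos i with rfl | h0
    · exact h01
    · obtain ⟨k, rfl⟩ : ∃ k, i = k + 1 := ⟨i - 1, by omega⟩
      have hb := gs_br D hY hg0 hx1 k (by omega)
      have s1 := hsq (k + 1) (by omega) (by omega)
      have s2 := hsq (k + 2) (by omega) (by omega)
      have e : k + 1 + 1 = k + 2 := rfl
      rw [e]
      set g := gs Y g0 x1 (k + 1) with hg
      set g' := gs Y g0 x1 (k + 2) with hg'
      calc (g * g') ^ 3 = (g * g' * g) * (g' * g * g') := by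
            simp only [pow_succ, pow_zero, one_mul]; group
        _ = (g * g' * g) * (g * g' * g) := by rw [hb]
        _ = g * g' * (g * g) * g' * g := by group
        _ = g * (g' * g') * g := by rw [s1]; group
        _ = 1 := by rw [s2, mul_one, s1]
  · intro i j hij hj
    have hdf : ∀ k, k + 2 < n → ∃ z ∈ Z, gs Y g0 x1 k = Y k * z := fun k hk =>
      D.df ((hpi k hk).trans (hY k hk).symm)
    obtain ⟨zj, hzj, ej⟩ := hdf j hj
    have sj := hsq j (by omega) hj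
    rcases Nat.eq_zero_or_pos i with rfl | h0
    · have h1 := hf j (by omega) hj
      have h2 : gs Y g0 x1 j * g0 * (gs Y g0 x1 j)⁻¹ * g0 = 1 := by
        rw [← h1, ej, mul_inv_rev]
        have := D.cen zj hzj g0
        calc Y j * zj * g0 * (zj⁻¹ * (Y j)⁻¹) * g0 = Y j * (zj * g0) * zj⁻¹ * (Y j)⁻¹ * g0 := by group
          _ = _ := by rw [← this]; group
      have e0 : gs Y g0 x1 0 = g0 := by rw [gs]
      rw [e0]
      set g := gs Y g0 x1 j with hg
      have hgi : g⁻¹ = g := inv_eq_of_mul_eq_one_right sj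
      rw [hgi] at h2
      calc (g0 * g) ^ 2 = g⁻¹ * (g * g0 * g * g0) * g := by rw [pow_two]; group
        _ = 1 := by rw [h2]; group
    · obtain ⟨zi, hzi, ei⟩ := hdf i (by omega)
      have si := hsq i h0 (by omega)
      have hcc : gs Y g0 x1 i * gs Y g0 x1 j = gs Y g0 x1 j * gs Y g0 x1 i := by
        rw [ei, ej]
        have c1 := D.cen zi hzi
        have c2 := D.cen zj hzj
        have h := hc i j h0 hij hj
        calc Y i * zi * (Y j * zj) = Y i * (zi * Y j) * zj := by group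
          _ = (Y i * Y j) * (zi * zj) := by rw [← c1]; group
          _ = Y j * (Y i * zi * zj) := by rw [h]; group
          _ = Y j * (zj * (Y i * zi)) := by rw [c2]
          _ = _ := by group
      have hC : Commute (gs Y g0 x1 i) (gs Y g0 x1 j) := hcc
      rw [hC.mul_pow, pow_two, pow_two, si, sj, one_mul]

end

end Cfsg.Agent.H4.AnA
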