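import Cfsg.Agent.H4_AnC

/-!
Central extensions of the alternating groups: the split case.
-/

set_option autoImplicit false

namespace Cfsg.Agent.H4.AnA

open Cfsg.Agent.H20 Cfsg.Agent.H20.Carm Equiv
open scoped commutatorElement

universe u

section
variable {Γ : Type u} [Group Γ] {n : ℕ} {Z : Subgroup Γ} {π : Γ →* Perm (Fin n)}

/-- normalising the second generator -/
theorem xnorm (D : Dat n Z π) (hn : 4 ≤ n) {g0 x : Γ} (hg0 : π g0 = y n 0) (hx : π x = y n 1)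
    (hxa : x * (g0 * x * g0⁻¹) = (g0 * x * g0⁻¹) * x) :
    ∃ v ∈ Z, (x * v) * (x * v) = 1 ∧
      (g0 * (x * v) * g0⁻¹) * (g0 * (g0 * (x * v) * g0⁻¹) * g0⁻¹) * (x * v) = 1 := by
  have hz : x * x ∈ Z := by
    rw [← D.ker, map_mul, hx, ← pow_two]; exact y_sq n le_rfl
  have hw : (g0 * x * g0⁻¹) * (g0 * (g0 * x * g0⁻¹) * g0⁻¹) * x ∈ Z := by
    rw [← D.ker]
    simp only [map_mul, map_inv, hg0, hx]
    have h3 := y_braid n (i := 0) (by omega)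
    have h0 := y_zero n (by omega)
    have h1 : (y n 0)⁻¹ * (y n 0)⁻¹ = y n 0 := by
      rw [← mul_inv_rev, inv_eq_iff_mul_eq_one, ← h0]
      simp only [pow_succ, pow_zero, one_mul]
    calc _ = y n 0 * y n 1 * y n 0 * y n 1 * ((y n 0)⁻¹ * (y n 0)⁻¹) * y n 1 := by group
      _ = (y n 0 * y n (0 + 1)) ^ 3 := by rw [h1]; simp only [pow_succ, pow_zero, one_mul]; group
      _ = 1 := h3
  have h := normx (g0 := g0) (x := x) rfl rfl (D.cen _ hz) (D.cen _ hw) hxa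
  exact ⟨_, mul_mem (inv_mem hw) hz, h.1, h.2⟩

theorem L5 (D : Dat n Z π) (hn : 5 ≤ n) (h6 : n ≠ 6) (h7 : n ≠ 7) {Y : ℕ → Γ}
    (hY : ∀ i, i + 2 < n → π (Y i) = y n i)
    (hc : ∀ i j, 1 ≤ i → i + 1 < j → j + 2 < n → Y i * Y j = Y j * Y i)
    (hV : Y 1 * (Y 0 * Y 1 * (Y 0)⁻¹) = (Y 0 * Y 1 * (Y 0)⁻¹) * Y 1) : Z = ⊥ := by
  have y0 : y n 0 ^ 3 = 1 := y_zero n (by omega)
  have ht : Y 0 ^ 3 ∈ Z := by rw [← D.ker, map_pow, hY 0 (by omega), y0]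
  have hfm : ∀ j, 2 ≤ j → j + 2 < n → Y j * Y 0 * (Y j)⁻¹ * Y 0 ∈ Z := by
    intro j hj h
    rw [← D.ker]
    simp only [map_mul, map_inv]
    rw [hY j h, hY 0 (by omega)]
    have h1 := y_far n (i := 0) (j := j) (by omega)
    have h2 := y_sq n (i := j) (by omega)
    have h3 : (y n j)⁻¹ = y n j := by rw [inv_eq_iff_mul_eq_one, ← pow_two]; exact h2
    rw [h3]
    calc y n j * y n 0 * y n j * y n 0 = y n j * (y n 0 * y n j) ^ 2 * (y n j)⁻¹ := by rw [pow_two]; group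
      _ = 1 := by rw [h1]; group
  obtain ⟨t, et⟩ : ∃ t, Y 0 ^ 3 = t := ⟨_, rfl⟩
  rw [et] at ht
  have ct := D.cen t ht
  have hcu : ∀ j, 2 ≤ j → j + 2 < n → (Y j * Y 0 * (Y j)⁻¹ * Y 0) ^ 3 = t ^ 2 := fun j hj h =>
    fcube et rfl (D.cen _ (hfm j hj h)) ct
  have hpair : ∀ i j, 2 ≤ i → i + 1 < j → j + 2 < n →
      Y j * Y 0 * (Y j)⁻¹ * Y 0 = Y i * Y 0 * (Y i)⁻¹ * Y 0 := by
    intro i j hi hij hj
    refine feq rfl rfl (D.cen _ (hfm i hi (by omega))) (D.cen _ (hfm j (by omega) hj)) (hcu i hi (by omega))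
      (hcu j (by omega) hj) ?_
    have hz : (Y i * Y j) * (Y i * Y j) ∈ Z := by
      rw [← D.ker, map_mul, map_mul, hY i (by omega), hY j hj, ← pow_two]
      exact y_far n hij
    exact (D.cen _ hz (Y 0)).symm
  have hall : ∀ j, 2 ≤ j → j + 2 < n → Y j * Y 0 * (Y j)⁻¹ * Y 0 = Y 2 * Y 0 * (Y 2)⁻¹ * Y 0 := by
    intro j hj h
    rcases (by omega : j = 2 ∨ j = 3 ∨ 4 ≤ j) with rfl | rfl | h4
    · rfl
    · have e1 := hpair 3 5 (by omega) (by omega) (by omega)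
      have e2 := hpair 2 5 (by omega) (by omega) (by omega)
      exact e1.symm.trans e2
    · exact hpair 2 j le_rfl (by omega) h
  have hf2 := hfm 2 le_rfl (by omega)
  have hc2 := hcu 2 le_rfl (by omega)
  obtain ⟨f, ef⟩ : ∃ f, Y 2 * Y 0 * (Y 2)⁻¹ * Y 0 = f := ⟨_, rfl⟩
  rw [ef] at hf2 hc2
  have cf := D.cen f hf2
  have huZ : t * (f ^ 2)⁻¹ ∈ Z := mul_mem ht (inv_mem (pow_mem hf2 2))
  have ctf : Commute t f := cf t
  obtain ⟨u, eu⟩ : ∃ u, t * (f ^ 2)⁻¹ = u := ⟨_, rfl⟩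
  rw [eu] at huZ
  have cu := D.cen u huZ
  have u2 : f * (u * u) = 1 := by
    have c1 : Commute t (f ^ 2)⁻¹ := (ctf.pow_right 2).inv_right
    rw [← pow_two, ← eu, c1.mul_pow, ← hc2]
    rw [inv_pow, ← pow_mul, ← mul_assoc, ← pow_succ']
    exact mul_inv_cancel _
  have u3 : t * u ^ 3 = 1 := by
    have c1 : Commute t (f ^ 2)⁻¹ := (ctf.pow_right 2).inv_right
    rw [← eu, c1.mul_pow, inv_pow, ← pow_mul, mul_comm 2 3, pow_mul, hc2, ← mul_assoc, ← pow_succ', ← pow_mul]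
    exact mul_inv_cancel _
  have hg0 : π (Y 0 * u) = y n 0 := by
    rw [map_mul, hY 0 (by omega), (D.ker u).2 huZ, mul_one]
  have h03 : (Y 0 * u) ^ 3 = 1 := by
    have c1 : Commute (Y 0) u := cu (Y 0)
    rw [c1.mul_pow, et, u3]
  have hcon : (Y 0 * u) * Y 1 * (Y 0 * u)⁻¹ = Y 0 * Y 1 * (Y 0)⁻¹ := by
    calc (Y 0 * u) * Y 1 * (Y 0 * u)⁻¹ = Y 0 * (u * Y 1) * u⁻¹ * (Y 0)⁻¹ := by group
      _ = _ := by rw [← cu (Y 1)]; group
  have hxa : Y 1 * ((Y 0 * u) * Y 1 * (Y 0 * u)⁻¹) = ((Y 0 * u) * Y 1 * (Y 0 * u)⁻¹) * Y 1 := by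
    rw [hcon]; exact hV
  obtain ⟨v, hv, hx1, hx2⟩ := xnorm D (by omega) hg0 (hY 1 (by omega)) hxa
  refine L2 D (by omega) hY hc hg0 (x1 := Y 1 * v) ?_ h03 hx1 (three h03 hx2) ?_
  · rw [map_mul, hY 1 (by omega), (D.ker v).2 hv, mul_one]
  · intro j hj h
    calc Y j * (Y 0 * u) * (Y j)⁻¹ * (Y 0 * u) = Y j * Y 0 * (u * (Y j)⁻¹) * Y 0 * u := by group
      _ = Y j * Y 0 * (Y j)⁻¹ * (u * Y 0) * u := by rw [← cu (Y j)⁻¹]; group
      _ = (Y j * Y 0 * (Y j)⁻¹ * Y 0) * (u * u) := by rw [← cu (Y 0)]; group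
      _ = 1 := by rw [hall j hj h, ef, u2]

/-- the four-group -/
def V4 {x a : Γ} (hx : x * x = 1) (ha : a * a = 1) (hc : x * a = a * x) : Subgroup Γ where
  carrier := {g | g = 1 ∨ g = x ∨ g = a ∨ g = a * x}
  one_mem' := Or.inl rfl
  mul_mem' := by
    have p1 : x * (a * x) = a := by rw [← mul_assoc, hc, mul_assoc, hx, mul_one]
    have p2 : a * (a * x) = x := by rw [← mul_assoc, ha, one_mul]
    have p3 : a * x * x = a := by rw [mul_assoc, hx, mul_one]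
    have p4 : a * x * a = x := by rw [mul_assoc, hc, p2]
    have p5 : a * x * (a * x) = 1 := by rw [mul_assoc, p1, ha]
    intro g h hg hh
    simp only [Set.mem_setOf_eq] at hg hh ⊢
    rcases hg with rfl | rfl | rfl | rfl <;> rcases hh with rfl | rfl | rfl | rfl <;>
      simp [*]
  inv_mem' := by
    have p1 : x * (a * x) = a := by rw [← mul_assoc, hc, mul_assoc, hx, mul_one]
    have p5 : a * x * (a * x) = 1 := by rw [mul_assoc, p1, ha]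
    intro g hg
    simp only [Set.mem_setOf_eq] at hg ⊢
    rcases hg with rfl | rfl | rfl | rfl
    · left; exact inv_one
    · right; left; exact inv_eq_of_mul_eq_one_right hx
    · right; right; left; exact inv_eq_of_mul_eq_one_right ha
    · right; right; right; exact inv_eq_of_mul_eq_one_right p5

theorem A4cov : ∀ σ : Perm (Fin 4), Perm.sign σ = 1 → ∃ k : Fin 3, σ = y 4 0 ^ (k : ℕ) ∨
    σ = y 4 0 ^ (k : ℕ) * y 4 1 ∨ σ = y 4 0 ^ (k : ℕ) * (y 4 0 * y 4 1 * (y 4 0)⁻¹) ∨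
    σ = y 4 0 ^ (k : ℕ) * (y 4 0 * y 4 1 * (y 4 0)⁻¹ * y 4 1) := by decide +kernel

theorem y41 : y 4 1 ≠ 1 := by decide +kernel

end

section
variable {Γ : Type u} [Group Γ] {Z : Subgroup Γ} {π : Γ →* Perm (Fin 4)}

theorem L4 (D : Dat 4 Z π) {Y : ℕ → Γ}
    (hY : ∀ i, i + 2 < 4 → π (Y i) = y 4 i)
    (hV : Y 1 * (Y 0 * Y 1 * (Y 0)⁻¹) = (Y 0 * Y 1 * (Y 0)⁻¹) * Y 1) : Z = ⊥ := by
  have hg0 := hY 0 (by omega)
  obtain ⟨v, hv, hx1, hx2⟩ := xnorm D le_rfl hg0 (hY 1 (by omega)) hV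
  have hpx : π (Y 1 * v) = y 4 1 := by rw [map_mul, hY 1 (by omega), (D.ker v).2 hv, mul_one]
  have cv := D.cen v hv
  have hcon : Y 0 * (Y 1 * v) * (Y 0)⁻¹ = Y 0 * Y 1 * (Y 0)⁻¹ * v := by
    calc Y 0 * (Y 1 * v) * (Y 0)⁻¹ = Y 0 * Y 1 * (v * (Y 0)⁻¹) := by group
      _ = _ := by rw [← cv (Y 0)⁻¹]; group
  obtain ⟨x, ex⟩ : ∃ x, Y 1 * v = x := ⟨_, rfl⟩
  have hxa : x * (Y 0 * x * (Y 0)⁻¹) = (Y 0 * x * (Y 0)⁻¹) * x := by
    rw [← ex, hcon]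
    calc Y 1 * v * (Y 0 * Y 1 * (Y 0)⁻¹ * v) = Y 1 * (v * (Y 0 * Y 1 * (Y 0)⁻¹)) * v := by group
      _ = (Y 1 * (Y 0 * Y 1 * (Y 0)⁻¹)) * (v * v) := by rw [← cv]; group
      _ = (Y 0 * Y 1 * (Y 0)⁻¹) * (Y 1 * v) * v := by rw [hV]; group
      _ = (Y 0 * Y 1 * (Y 0)⁻¹) * (v * Y 1) * v := by rw [cv (Y 1)]
      _ = _ := by group
  rw [ex] at hx1 hx2 hpx
  obtain ⟨a, ea⟩ : ∃ a, Y 0 * x * (Y 0)⁻¹ = a := ⟨_, rfl⟩
  rw [ea] at hx2 hxa
  have haa : a * a = 1 := by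
    rw [← ea]
    calc Y 0 * x * (Y 0)⁻¹ * (Y 0 * x * (Y 0)⁻¹) = Y 0 * (x * x) * (Y 0)⁻¹ := by group
      _ = 1 := by rw [hx1]; group
  have hb : Y 0 * a * (Y 0)⁻¹ = a * x := by
    have h1 : Y 0 * a * (Y 0)⁻¹ = a⁻¹ * (a * (Y 0 * a * (Y 0)⁻¹) * x) * x⁻¹ := by group
    rw [h1, hx2, mul_one, inv_eq_of_mul_eq_one_right haa, inv_eq_of_mul_eq_one_right hx1]
  have hbx : Y 0 * (a * x) * (Y 0)⁻¹ = x := by
    calc Y 0 * (a * x) * (Y 0)⁻¹ = (Y 0 * a * (Y 0)⁻¹) * (Y 0 * x * (Y 0)⁻¹) := by group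
      _ = a * (x * a) := by rw [hb, ea, mul_assoc]
      _ = x := by rw [hxa, ← mul_assoc, haa, one_mul]
  let V := V4 hx1 haa hxa
  have hVn : ∀ m : ℕ, ∀ w ∈ V, Y 0 ^ m * w * (Y 0 ^ m)⁻¹ ∈ V := by
    intro m
    induction m with
    | zero => intro w hw; simpa using hw
    | succ m ih =>
      intro w hw
      have h1 : Y 0 * w * (Y 0)⁻¹ ∈ V := by
        rcases hw with rfl | rfl | rfl | rfl
        · left; group
        · right; right; left; exact ea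
        · right; right; right; exact hb
        · right; left; exact hbx
      have h2 := ih _ h1
      have e : Y 0 ^ (m + 1) * w * (Y 0 ^ (m + 1))⁻¹ = Y 0 ^ m * (Y 0 * w * (Y 0)⁻¹) * (Y 0 ^ m)⁻¹ := by
        rw [pow_succ]; group
      rw [e]; exact h2
  have hpa : π a = y 4 0 * y 4 1 * (y 4 0)⁻¹ := by rw [← ea, map_mul, map_mul, map_inv, hg0, hpx]
  have hcov : ∀ g : Γ, ∃ k : ℕ, ∃ w ∈ V, ∃ z ∈ Z, g = Y 0 ^ k * w * z := by
    intro g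
    obtain ⟨k, h⟩ := A4cov (π g) (Perm.mem_alternatingGroup.1 (D.rng g))
    have key : ∀ w ∈ V, π g = y 4 0 ^ (k : ℕ) * π w → ∃ k : ℕ, ∃ w ∈ V, ∃ z ∈ Z, g = Y 0 ^ k * w * z := by
      intro w hw hh
      obtain ⟨z, hz, e⟩ := D.df (a := g) (b := Y 0 ^ (k : ℕ) * w) (by rw [hh, map_mul, map_pow, hg0])
      exact ⟨k, w, hw, z, hz, e⟩
    rcases h with h | h | h | h
    · exact key 1 (Or.inl rfl) (by rw [h, map_one, mul_one])
    · exact key x (Or.inr (Or.inl rfl)) (by rw [h, hpx])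
    · exact key a (Or.inr (Or.inr (Or.inl rfl))) (by rw [h, hpa])
    · exact key (a * x) (Or.inr (Or.inr (Or.inr rfl))) (by rw [h, map_mul, hpa, hpx])
  have hle : commutator Γ ≤ V := by
    rw [commutator_eq_closure, Subgroup.closure_le]
    rintro _ ⟨g, h, rfl⟩
    obtain ⟨k, w, hw, z, hz, rfl⟩ := hcov g
    obtain ⟨l, w', hw', z', hz', rfl⟩ := hcov h
    rw [com_cen (D.cen z hz) (D.cen z' hz'), commutatorElement_def]
    have e : Y 0 ^ k * w * (Y 0 ^ l * w') * (Y 0 ^ k * w)⁻¹ * (Y 0 ^ l * w')⁻¹ =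
        (Y 0 ^ k * w * (Y 0 ^ k)⁻¹) * (Y 0 ^ (k + l) * (w' * w⁻¹) * (Y 0 ^ (k + l))⁻¹) *
          (Y 0 ^ l * w'⁻¹ * (Y 0 ^ l)⁻¹) := by
      have e1 : (Y 0 ^ (k + l))⁻¹ = (Y 0 ^ k)⁻¹ * (Y 0 ^ l)⁻¹ := by rw [add_comm, pow_add, mul_inv_rev]
      rw [e1, pow_add]
      group
    rw [e]
    exact mul_mem (mul_mem (hVn k w hw) (hVn (k + l) _ (mul_mem hw' (inv_mem hw)))) (hVn l _ (inv_mem hw'))
  rw [eq_bot_iff]
  intro z hz
  have hpz := (D.ker z).2 hz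
  have hna : π a ≠ 1 := by
    intro h
    rw [hpa] at h
    exact y41 (conj_eq_one_iff.1 h)
  rcases hle (D.com hz) with rfl | rfl | rfl | rfl
  · exact one_mem _
  · exact absurd (hpx.symm.trans hpz) y41
  · exact absurd hpz hna
  · exfalso
    rw [← hb, map_mul, map_mul, map_inv] at hpz
    exact hna (conj_eq_one_iff.1 hpz)

end

end Cfsg.Agent.H4.AnA
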