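import Cfsg.Agent.H4_AnD

/-!
Central extensions of the alternating groups: the kernel has order at most two.
-/

set_option autoImplicit false

namespace Cfsg.Agent.H4.AnA

open Cfsg.Agent.H20 Cfsg.Agent.H20.Carm Equiv
open scoped commutatorElement

universe u

section
variable {Γ : Type u} [Group Γ] {n : ℕ} {Z : Subgroup Γ} {π : Γ →* Perm (Fin n)}

/-- commuting images: the commutator is central -/
theorem cmem (D : Dat n Z π) {g h : Γ} (e : π g * π h = π h * π g) : ⁅g, h⁆ ∈ Z := by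
  rw [← D.ker, commutatorElement_def]
  simp only [map_mul, map_inv]
  rw [e]
  group

theorem pr (D : Dat n Z π) {Y Q : ℕ → Γ} (hY : ∀ i, i + 2 < n → π (Y i) = y n i)
    (hQ : ∀ i, 1 ≤ i → i + 2 < n → π (Q i) = q n i) {i j : ℕ} (h1 : 1 ≤ i) (h : i + 2 < n) (j1 : 1 ≤ j)
    (hj : j + 2 < n) (hij : i + 1 < j ∨ j + 1 < i) : ⁅Y i, Q i⁆ * ⁅Y i, Y j⁆ = 1 := by
  have hcq : ⁅Y i, Q i⁆ ∈ Z := cmem D (by rw [hY i h, hQ i h1 h]; exact (qy_comm n h1 h).symm)
  have hyy : y n i * y n j = y n j * y n i := by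
    have e1 : y n i * y n i = 1 := by rw [← pow_two]; exact y_sq n h1
    have e2 : y n j * y n j = 1 := by rw [← pow_two]; exact y_sq n j1
    have key : ∀ a b : Perm (Fin n), a * a = 1 → b * b = 1 → (a * b) ^ 2 = 1 → a * b = b * a := by
      intro a b ha hb hab
      have h1 : a * b = (a * b)⁻¹ := by rw [eq_inv_iff_mul_eq_one, ← pow_two]; exact hab
      rw [mul_inv_rev, inv_eq_of_mul_eq_one_right ha, inv_eq_of_mul_eq_one_right hb] at h1
      exact h1
    rcases hij with h' | h'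
    · exact key _ _ e1 e2 (y_far n h')
    · exact (key _ _ e2 e1 (y_far n h')).symm
  have hcy : ⁅Y i, Y j⁆ ∈ Z := cmem D (by rw [hY i h, hY j hj]; exact hyy)
  have cq := D.cen _ hcq
  have cy := D.cen _ hcy
  obtain ⟨z, hz, ez⟩ := D.df (a := Y i) (b := (Q i * Y j) * (Q i * Y j)) (by
    rw [map_mul, map_mul, hY i h, hQ i h1 h, hY j hj]; exact (qy_sq n h1 h j1 hj hij).symm)
  have e1 : Y i * Q i = ⁅Y i, Q i⁆ * (Q i * Y i) := by rw [commutatorElement_def]; group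
  have e2 : Y i * Y j = ⁅Y i, Y j⁆ * (Y j * Y i) := by rw [commutatorElement_def]; group
  have e3 : Y i * (Q i * Y j) = (Q i * Y j) * Y i := by
    rw [ez]
    have := D.cen z hz (Q i * Y j)
    calc Q i * Y j * (Q i * Y j) * z * (Q i * Y j) = Q i * Y j * (Q i * Y j) * (z * (Q i * Y j)) := by group
      _ = _ := by rw [← this]; group
  have e4 : Y i * (Q i * Y j) = (⁅Y i, Q i⁆ * ⁅Y i, Y j⁆) * ((Q i * Y j) * Y i) := by
    calc Y i * (Q i * Y j) = (Y i * Q i) * Y j := by group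
      _ = ⁅Y i, Q i⁆ * (Q i * (Y i * Y j)) := by rw [e1]; group
      _ = ⁅Y i, Q i⁆ * ((Q i * ⁅Y i, Y j⁆) * (Y j * Y i)) := by rw [e2]; group
      _ = _ := by rw [cy (Q i)]; group
  rw [e3] at e4
  exact (mul_eq_right.1 e4.symm)

theorem sq1 (D : Dat n Z π) {g h : Γ} (hz : g * g ∈ Z) (e : π g * π h = π h * π g) : ⁅g, h⁆ * ⁅g, h⁆ = 1 := by
  have hc := D.cen _ (cmem D e)
  have hg := D.cen _ hz h
  have e1 : g * h = ⁅g, h⁆ * (h * g) := by rw [commutatorElement_def]; group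
  have e4 : g * g * h = (⁅g, h⁆ * ⁅g, h⁆) * (h * (g * g)) := by
    calc g * g * h = g * (g * h) := by group
      _ = (g * ⁅g, h⁆) * (h * g) := by rw [e1]; group
      _ = ⁅g, h⁆ * (g * h) * g := by rw [hc g]; group
      _ = _ := by rw [e1]; group
  rw [← hg] at e4
  have e5 : (⁅g, h⁆ * ⁅g, h⁆) * (h * (g * g)) = h * (g * g) := e4.symm
  exact mul_eq_right.1 e5

theorem main (D : Dat n Z π) (hn : 4 ≤ n) (h6 : n ≠ 6) (h7 : n ≠ 7) : Nat.card Z ≤ 2 := by
  classical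
  have hYe : ∀ i, ∃ g, i + 2 < n → π g = y n i := by
    intro i
    by_cases h : i + 2 < n
    · obtain ⟨g, hg⟩ := D.surj _ (y_mem n h)
      exact ⟨g, fun _ => hg⟩
    · exact ⟨1, fun h' => absurd h' h⟩
  have hQe : ∀ i, ∃ g, 1 ≤ i → i + 2 < n → π g = q n i := by
    intro i
    by_cases h : 1 ≤ i ∧ i + 2 < n
    · obtain ⟨g, hg⟩ := D.surj _ (q_mem n h.1 h.2)
      exact ⟨g, fun _ _ => hg⟩
    · exact ⟨1, fun h1 h2 => absurd ⟨h1, h2⟩ h⟩
  choose Y hY using hYe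
  choose Q hQ using hQe
  have hs2 : ∀ i, 1 ≤ i → i + 2 < n → ⁅Y i, Q i⁆ * ⁅Y i, Q i⁆ = 1 := by
    intro i h1 h
    refine sq1 D ?_ (by rw [hY i h, hQ i h1 h]; exact (qy_comm n h1 h).symm)
    rw [← D.ker, map_mul, hY i h, ← pow_two]; exact y_sq n h1
  have hcom : ∀ i j, 1 ≤ i → i + 2 < n → 1 ≤ j → j + 2 < n → (i + 1 < j ∨ j + 1 < i) → ⁅Y i, Y j⁆ = ⁅Y i, Q i⁆ := by
    intro i j h1 h j1 hj hij
    have e1 := pr D hY hQ h1 h j1 hj hij
    have e2 := hs2 i h1 h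
    exact mul_left_cancel (e1.trans e2.symm)
  have hss : ∀ i j, 1 ≤ i → i + 2 < n → 1 ≤ j → j + 2 < n → (i + 1 < j ∨ j + 1 < i) → ⁅Y i, Q i⁆ = ⁅Y j, Q j⁆ := by
    intro i j h1 h j1 hj hij
    have e1 := hcom i j h1 h j1 hj hij
    have e2 := hcom j i j1 hj h1 h hij.symm
    rw [← commutatorElement_inv, e1] at e2
    rw [← e2, eq_comm]
    exact inv_eq_of_mul_eq_one_right (hs2 i h1 h)
  have hs1 : ∀ i, 1 ≤ i → i + 2 < n → n = 4 ∨ n = 5 ∨ ⁅Y i, Q i⁆ = ⁅Y 1, Q 1⁆ := by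
    intro i h1 h
    rcases (by omega : n = 4 ∨ n = 5 ∨ 8 ≤ n) with h4 | h5 | h8
    · exact Or.inl h4
    · exact Or.inr (Or.inl h5)
    · right; right
      rcases (by omega : i = 1 ∨ i = 2 ∨ 3 ≤ i) with rfl | rfl | h3
      · rfl
      · exact (hss 2 4 (by omega) h (by omega) (by omega) (by omega)).trans
          (hss 4 1 (by omega) (by omega) (by omega) (by omega) (by omega))
      · exact hss i 1 h1 h (by omega) (by omega) (by omega)
  have hcomY : ∀ i j, 1 ≤ i → i + 1 < j → j + 2 < n → ⁅Y i, Y j⁆ = ⁅Y 1, Q 1⁆ := by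
    intro i j h1 hij hj
    rw [hcom i j h1 (by omega) (by omega) hj (Or.inl hij)]
    rcases hs1 i h1 (by omega) with h | h | h
    · omega
    · omega
    · exact h
  have hcZ : ⁅Y 1, Q 1⁆ ∈ Z := cmem D (by rw [hY 1 (by omega), hQ 1 le_rfl (by omega)]; exact (qy_comm n le_rfl (by omega)).symm)
  obtain ⟨c, ec⟩ : ∃ c, ⁅Y 1, Q 1⁆ = c := ⟨_, rfl⟩
  have c2 : c * c = 1 := by rw [← ec]; exact hs2 1 le_rfl (by omega)
  rw [ec] at hcZ
  have hCZ : Subgroup.zpowers c ≤ Z := by rw [Subgroup.zpowers_le]; exact hcZ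
  have hcc : Nat.card (Subgroup.zpowers c) ≤ 2 := by
    rw [Nat.card_zpowers]
    exact Nat.le_of_dvd (by norm_num) (orderOf_dvd_of_pow_eq_one (by rw [pow_two]; exact c2))
  have hfinC : Finite (Subgroup.zpowers c) := Nat.finite_of_card_ne_zero (by
    rw [Nat.card_zpowers]
    exact (orderOf_pos_iff.2 (isOfFinOrder_iff_pow_eq_one.2 ⟨2, by norm_num, by rw [pow_two]; exact c2⟩)).ne')
  haveI hnorm : (Subgroup.zpowers c).Normal := by
    refine ⟨fun z hz g => ?_⟩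
    have := D.cen z (hCZ hz) g
    rw [this, mul_assoc, mul_inv_cancel, mul_one]
    exact hz
  let mk := QuotientGroup.mk' (Subgroup.zpowers c)
  have hms : Function.Surjective mk := QuotientGroup.mk'_surjective _
  have hker : Subgroup.zpowers c ≤ π.ker := fun z hz => (D.ker z).2 (hCZ hz)
  let πb : (Γ ⧸ Subgroup.zpowers c) →* Perm (Fin n) := QuotientGroup.lift _ π hker
  have hπ : ∀ g, πb (mk g) = π g := fun g => rfl
  have Db : Dat n (Z.map mk) πb :=
  { ker := by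
      intro g
      obtain ⟨g, rfl⟩ := hms g
      rw [hπ]
      constructor
      · intro h; exact ⟨g, (D.ker g).1 h, rfl⟩
      · rintro ⟨z, hz, e⟩
        rw [← hπ, ← e, hπ]; exact (D.ker z).2 hz
    cen := by
      rintro _ ⟨z, hz, rfl⟩ g
      obtain ⟨g, rfl⟩ := hms g
      rw [← map_mul, ← map_mul, D.cen z hz]
    com := by
      have h1 : (commutator Γ).map mk ≤ commutator (Γ ⧸ Subgroup.zpowers c) := by
        rw [commutator_def, Subgroup.map_commutator, commutator_def]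
        exact Subgroup.commutator_mono le_top le_top
      exact (Subgroup.map_mono D.com).trans h1
    surj := by
      intro σ hσ
      obtain ⟨g, hg⟩ := D.surj σ hσ
      exact ⟨mk g, by rw [hπ, hg]⟩
    rng := by
      intro g
      obtain ⟨g, rfl⟩ := hms g
      rw [hπ]; exact D.rng g }
  have hYb : ∀ i, i + 2 < n → πb (mk (Y i)) = y n i := fun i h => by rw [hπ]; exact hY i h
  have hmc : mk c = 1 := (QuotientGroup.eq_one_iff c).2 (Subgroup.mem_zpowers c)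
  have hcb : ∀ i j, 1 ≤ i → i + 1 < j → j + 2 < n → mk (Y i) * mk (Y j) = mk (Y j) * mk (Y i) := by
    intro i j h1 hij hj
    have e1 : Y i * Y j = ⁅Y i, Y j⁆ * (Y j * Y i) := by rw [commutatorElement_def]; group
    rw [← map_mul, e1, hcomY i j h1 hij hj, ec, map_mul, hmc, one_mul, map_mul]
  have hVb : mk (Y 1) * (mk (Y 0) * mk (Y 1) * (mk (Y 0))⁻¹) = (mk (Y 0) * mk (Y 1) * (mk (Y 0))⁻¹) * mk (Y 1) := by
    obtain ⟨z, hz, ez⟩ := D.df (a := Y 0 * Y 1 * (Y 0)⁻¹) (b := Y 1 * Q 1) (by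
      rw [map_mul, map_mul, map_mul, map_inv, hY 0 (by omega), hY 1 (by omega), hQ 1 le_rfl (by omega)]
      exact y_conj n hn)
    have e0 : mk (Y 0) * mk (Y 1) * (mk (Y 0))⁻¹ = mk (Y 0 * Y 1 * (Y 0)⁻¹) := by
      rw [map_mul, map_mul, map_inv]
    rw [e0, ez, ← map_mul, ← map_mul]
    have cz := D.cen z hz
    have e1 : Y 1 * Q 1 = c * (Q 1 * Y 1) := by rw [← ec, commutatorElement_def]; group
    have e2 : Y 1 * (Y 1 * Q 1 * z) = c * (Y 1 * Q 1 * z * Y 1) := by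
      calc Y 1 * (Y 1 * Q 1 * z) = Y 1 * (Y 1 * Q 1) * z := by group
        _ = (Y 1 * c) * (Q 1 * Y 1) * z := by rw [e1]; group
        _ = c * (Y 1 * Q 1) * (Y 1 * z) := by rw [D.cen c hcZ]; group
        _ = _ := by rw [cz (Y 1)]; group
    rw [e2, map_mul, hmc, one_mul]
  have hbot : Z.map mk = ⊥ := by
    rcases (by omega : n = 4 ∨ 5 ≤ n) with h | h
    · subst h
      exact L4 Db (Y := fun i => mk (Y i)) hYb hVb
    · exact L5 Db h h6 h7 (Y := fun i => mk (Y i)) hYb hcb hVb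
  have hle : Z ≤ Subgroup.zpowers c := by
    intro z hz
    have h1 : mk z ∈ Z.map mk := ⟨z, hz, rfl⟩
    rw [hbot, Subgroup.mem_bot] at h1
    exact (QuotientGroup.eq_one_iff z).1 h1
  exact (Nat.card_le_card_of_injective _ (Subgroup.inclusion_injective hle)).trans hcc

end

end Cfsg.Agent.H4.AnA
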