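import Mathlib
import Cfsg.Prelude.Def_TwoFusion
import Cfsg.Agent.HL_QD1
import Cfsg.Agent.H5_V4c
import Cfsg.Agent.H2_Fusion3
import Cfsg.Agent.H19_Transfer
import Cfsg.Agent.H12_Core

/-! Dihedral Sylow 2-subgroups: Klein four-subgroups and fusion. -/

set_option autoImplicit false

namespace Cfsg.Agent.H4.DihF

open Cfsg Cfsg.Agent.H5.V4 Cfsg.Agent.HL.QD

/-- coordinates on a dihedral 2-subgroup -/
structure DS {G : Type*} [Group G] (S : Subgroup G) (n : ℕ) (ρ σ : ZMod (2 ^ n) → G) : Prop where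
  hn : 1 ≤ n
  mr : ∀ i, ρ i ∈ S
  ms : ∀ i, σ i ∈ S
  cases : ∀ s ∈ S, (∃ i, s = ρ i) ∨ ∃ i, s = σ i
  rr : ∀ i j, ρ i * ρ j = ρ (i + j)
  rs : ∀ i j, ρ i * σ j = σ (j - i)
  sr : ∀ i j, σ i * ρ j = σ (i + j)
  ss : ∀ i j, σ i * σ j = ρ (j - i)
  ir : Function.Injective ρ
  is : Function.Injective σ
  ne : ∀ i j, ρ i ≠ σ j

theorem exists_DS {G : Type*} [Group G] {S : Subgroup G} (hS : IsPGroup 2 S) {m : ℕ} (hm : 2 ≤ m)
    (e : S ≃* DihedralGroup m) : ∃ (n : ℕ) (ρ σ : ZMod (2 ^ n) → G), DS S n ρ σ ∧ Nat.card S = 2 ^ (n + 1) := by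
  haveI : Fact (Nat.Prime 2) := ⟨Nat.prime_two⟩
  have hc : Nat.card S = 2 * m := by
    rw [Nat.card_congr e.toEquiv, DihedralGroup.nat_card]
  haveI : Finite S := Nat.finite_of_card_ne_zero (by omega)
  obtain ⟨k, hk⟩ := IsPGroup.iff_card.mp hS
  have hk0 : k ≠ 0 := by
    rintro rfl
    rw [pow_zero] at hk
    omega
  obtain ⟨n, rfl⟩ := Nat.exists_eq_succ_of_ne_zero hk0
  have hmn : m = 2 ^ n := by
    rw [hk, Nat.succ_eq_add_one, pow_succ'] at hc
    omega
  subst hmn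
  have hn : 1 ≤ n := by
    by_contra h
    have : n = 0 := by omega
    subst this
    simp at hm
  refine ⟨n, fun i => (e.symm (DihedralGroup.r i) : S), fun i => (e.symm (DihedralGroup.sr i) : S), ?_, hk⟩
  refine ⟨hn, fun i => (e.symm _).2, fun i => (e.symm _).2, ?_, ?_, ?_, ?_, ?_, ?_, ?_, ?_⟩
  · intro s hs
    rcases h : e ⟨s, hs⟩ with i | i
    · left
      refine ⟨i, ?_⟩
      show s = ((e.symm (DihedralGroup.r i) : S) : G)
      rw [← h, MulEquiv.symm_apply_apply]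
    · right
      refine ⟨i, ?_⟩
      show s = ((e.symm (DihedralGroup.sr i) : S) : G)
      rw [← h, MulEquiv.symm_apply_apply]
  · intro i j
    show ((e.symm (DihedralGroup.r i) : S) : G) * ((e.symm (DihedralGroup.r j) : S) : G) = _
    rw [← Subgroup.coe_mul, ← map_mul, DihedralGroup.r_mul_r]
  · intro i j
    show ((e.symm (DihedralGroup.r i) : S) : G) * ((e.symm (DihedralGroup.sr j) : S) : G) = _
    rw [← Subgroup.coe_mul, ← map_mul, DihedralGroup.r_mul_sr]
  · intro i j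
    show ((e.symm (DihedralGroup.sr i) : S) : G) * ((e.symm (DihedralGroup.r j) : S) : G) = _
    rw [← Subgroup.coe_mul, ← map_mul, DihedralGroup.sr_mul_r]
  · intro i j
    show ((e.symm (DihedralGroup.sr i) : S) : G) * ((e.symm (DihedralGroup.sr j) : S) : G) = _
    rw [← Subgroup.coe_mul, ← map_mul, DihedralGroup.sr_mul_sr]
  · intro i j hij
    have h1 := e.symm.injective (Subtype.ext hij)
    exact DihedralGroup.r.inj h1
  · intro i j hij
    have h1 := e.symm.injective (Subtype.ext hij)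
    exact DihedralGroup.sr.inj h1
  · intro i j hij
    have h1 := e.symm.injective (Subtype.ext hij)
    cases h1

/-- an element of odd order normalizing a cyclic 2-group centralizes it -/
theorem comm_of_zpowers {G : Type*} [Group G] {x g : G} {k : ℕ} (hx : orderOf x = 2 ^ k)
    (h : g * x * g⁻¹ ∈ Subgroup.zpowers x) (ho : (orderOf g).Coprime 2) : Commute g x := by
  obtain ⟨u, hu⟩ := h
  have hu : x ^ u = g * x * g⁻¹ := hu
  rcases Nat.eq_zero_or_pos k with hk | hk
  · rw [hk, pow_zero, orderOf_eq_one_iff] at hx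
    rw [hx]; exact Commute.one_right g
  have hpow : ∀ n : ℕ, g ^ n * x * (g ^ n)⁻¹ = x ^ (u ^ n) := by
    intro n
    induction n with
    | zero => simp
    | succ n ih =>
      calc g ^ (n + 1) * x * (g ^ (n + 1))⁻¹ = g * (g ^ n * x * (g ^ n)⁻¹) * g⁻¹ := by
            rw [pow_succ']; group
        _ = g * x ^ (u ^ n) * g⁻¹ := by rw [ih]
        _ = (g * x * g⁻¹) ^ (u ^ n) := by rw [conj_zpow]
        _ = x ^ (u ^ (n + 1)) := by rw [← hu, ← zpow_mul, pow_succ']
  have h1 := hpow (orderOf g)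
  rw [pow_orderOf_eq_one, one_mul, inv_one, mul_one] at h1
  have h2 : ((2 ^ k : ℕ) : ℤ) ∣ u ^ orderOf g - 1 := by
    rw [← hx, orderOf_dvd_iff_zpow_eq_one, zpow_sub, zpow_one, ← h1, mul_inv_cancel]
  -- units of ZMod
  have h3 : ((u : ZMod (2 ^ k))) ^ orderOf g = 1 := by
    have := (ZMod.intCast_zmod_eq_zero_iff_dvd (u ^ orderOf g - 1) (2 ^ k)).mpr (by exact_mod_cast h2)
    push_cast at this
    exact sub_eq_zero.mp this
  have ho0 : orderOf g ≠ 0 := by
    intro h0
    rw [h0, Nat.coprime_zero_left] at ho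
    omega
  have hunit : IsUnit (u : ZMod (2 ^ k)) := IsUnit.of_pow_eq_one h3 ho0
  obtain ⟨U, hU⟩ := hunit
  have h4 : U ^ orderOf g = 1 := by
    apply Units.ext
    rw [Units.val_pow_eq_pow_val, hU, h3, Units.val_one]
  have h5 : U ^ (2 ^ k).totient = 1 := ZMod.pow_totient U
  have h6 : (orderOf g).Coprime (2 ^ k).totient := by
    rw [Nat.totient_prime_pow Nat.prime_two hk]
    simpa using Nat.Coprime.pow_right (k - 1) ho
  have h7 : orderOf U = 1 := Nat.eq_one_of_dvd_coprimes h6 (orderOf_dvd_of_pow_eq_one h4)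
    (orderOf_dvd_of_pow_eq_one h5)
  rw [orderOf_eq_one_iff] at h7
  have h8 : (u : ZMod (2 ^ k)) = 1 := by rw [← hU, h7, Units.val_one]
  have h9 : ((2 ^ k : ℕ) : ℤ) ∣ u - 1 := by
    have := (ZMod.intCast_zmod_eq_zero_iff_dvd (u - 1) (2 ^ k)).mp (by push_cast; rw [h8, sub_self])
    exact_mod_cast this
  have h10 : x ^ u = x := by
    have := orderOf_dvd_iff_zpow_eq_one.mp (by rw [hx]; exact h9 : (orderOf x : ℤ) ∣ u - 1)
    rw [zpow_sub, zpow_one] at this
    exact mul_inv_eq_one.mp this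
  rw [h10] at hu
  show g * x = x * g
  rw [← mul_inv_eq_iff_eq_mul]
  exact hu.symm

section

variable {G : Type*} [Group G] {S : Subgroup G} {n : ℕ} {ρ σ : ZMod (2 ^ n) → G}

theorem DS.r0 (D : DS S n ρ σ) : ρ 0 = 1 := by
  have := D.rr 0 0
  rw [add_zero] at this
  exact mul_eq_left.mp this

theorem DS.rinv (D : DS S n ρ σ) (i : ZMod (2 ^ n)) : (ρ i)⁻¹ = ρ (-i) := by
  apply inv_eq_of_mul_eq_one_right
  rw [D.rr, add_neg_cancel, D.r0]

theorem DS.s2 (D : DS S n ρ σ) (i : ZMod (2 ^ n)) : σ i * σ i = 1 := by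
  rw [D.ss, sub_self, D.r0]

theorem DS.sinv (D : DS S n ρ σ) (i : ZMod (2 ^ n)) : (σ i)⁻¹ = σ i :=
  inv_eq_of_mul_eq_one_left (D.s2 i)

theorem DS.s1 (D : DS S n ρ σ) (i : ZMod (2 ^ n)) : σ i ≠ 1 := by
  intro h
  rw [← D.r0] at h
  exact D.ne _ _ h.symm

theorem DS.z2 (D : DS S n ρ σ) : ρ (h n) * ρ (h n) = 1 := by
  rw [D.rr, hh D.hn, D.r0]

theorem DS.z1 (D : DS S n ρ σ) : ρ (h n) ≠ 1 := by
  rw [← D.r0]
  intro h0
  exact h_ne D.hn (D.ir h0)

theorem neg_h (hn : 1 ≤ n) : - h n = h n := by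
  rw [neg_eq_iff_add_eq_zero]; exact hh hn

theorem DS.rz (D : DS S n ρ σ) (i : ZMod (2 ^ n)) : ρ i * ρ (h n) = ρ (h n) * ρ i := by
  rw [D.rr, D.rr, add_comm]

theorem DS.sz (D : DS S n ρ σ) (i : ZMod (2 ^ n)) : σ i * ρ (h n) = ρ (h n) * σ i := by
  rw [D.sr, D.rs, sub_eq_add_neg, neg_h D.hn]

theorem DS.zS (D : DS S n ρ σ) {s : G} (hs : s ∈ S) : s * ρ (h n) = ρ (h n) * s := by
  rcases D.cases s hs with ⟨i, rfl⟩ | ⟨i, rfl⟩
  · exact D.rz i
  · exact D.sz i

theorem DS.conj_rs (D : DS S n ρ σ) (k i : ZMod (2 ^ n)) : ρ k * σ i * (ρ k)⁻¹ = σ (i - k - k) := by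
  rw [D.rs, D.rinv, D.sr, sub_eq_add_neg (i - k) k]

theorem DS.conj_ss (D : DS S n ρ σ) (k i : ZMod (2 ^ n)) : σ k * σ i * (σ k)⁻¹ = σ (k + k - i) := by
  rw [D.sinv, D.ss, D.rs]; congr 1; ring

theorem DS.conj_rr (D : DS S n ρ σ) (k i : ZMod (2 ^ n)) : ρ k * ρ i * (ρ k)⁻¹ = ρ i := by
  rw [D.rinv, D.rr, D.rr]; congr 1; ring

theorem DS.sq_one (D : DS S n ρ σ) {i : ZMod (2 ^ n)} (hi : ρ i * ρ i = 1) : i = 0 ∨ i = h n := by
  rw [D.rr, ← D.r0] at hi
  exact two_mul_eq_zero D.hn (D.ir hi)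

theorem DS.cpair (D : DS S n ρ σ) (i : ZMod (2 ^ n)) : IsCPair (ρ (h n)) (σ i) :=
  ⟨D.z2, D.s2 i, (D.sz i).symm, D.z1, D.s1 i, D.ne _ _⟩

/-- the standard four-groups -/
def DS.V (D : DS S n ρ σ) (i : ZMod (2 ^ n)) : Subgroup G := klein (D.cpair i)

theorem DS.mem_V (D : DS S n ρ σ) (i : ZMod (2 ^ n)) (x : G) :
    x ∈ D.V i ↔ x = 1 ∨ x = ρ (h n) ∨ x = σ i ∨ x = σ (i + h n) := by
  rw [DS.V, mem_klein, D.rs, sub_eq_add_neg, neg_h D.hn]

theorem DS.V_klein (D : DS S n ρ σ) (i : ZMod (2 ^ n)) : IsKleinFour (D.V i) := isKleinFour_klein _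

theorem DS.V_le (D : DS S n ρ σ) (i : ZMod (2 ^ n)) : D.V i ≤ S := by
  intro x hx
  rcases (D.mem_V i x).mp hx with rfl | rfl | rfl | rfl
  · exact S.one_mem
  · exact D.mr _
  · exact D.ms _
  · exact D.ms _

theorem klein_sq {U : Subgroup G} (hU : IsKleinFour U) {x : G} (hx : x ∈ U) : x * x = 1 :=
  congrArg Subtype.val (IsKleinFour.mul_self (⟨x, hx⟩ : U))

theorem DS.eq_V [Finite G] (D : DS S n ρ σ) {U : Subgroup G} (hUS : U ≤ S) (hU : IsKleinFour U) :
    ∃ i, U = D.V i := by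
  have key : ∀ x ∈ U, x ≠ 1 → x = ρ (h n) ∨ ∃ i, x = σ i := by
    intro x hx hx1
    rcases D.cases x (hUS hx) with ⟨i, rfl⟩ | ⟨i, rfl⟩
    · left
      rcases D.sq_one (klein_sq hU hx) with rfl | rfl
      · exact absurd D.r0 hx1
      · rfl
    · right; exact ⟨i, rfl⟩
  obtain ⟨a, b, ha, hb, hab⟩ := exists_cpair hU
  rcases key a ha hab.a1 with rfl | ⟨i, rfl⟩
  · rcases key b hb hab.b1 with rfl | ⟨j, rfl⟩
    · exact absurd rfl hab.ne
    · exact ⟨j, eq_klein hU ha hb _⟩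
  · rcases key b hb hab.b1 with rfl | ⟨j, rfl⟩
    · exact ⟨i, eq_klein hU hb ha _⟩
    · have h1 := U.mul_mem ha hb
      rcases key _ h1 (ab_ne_one hab) with h2 | ⟨k, hk⟩
      · rw [h2] at h1
        exact ⟨i, eq_klein hU h1 ha _⟩
      · rw [D.ss] at hk
        exact absurd hk (D.ne _ _)

theorem DS.rpow (D : DS S n ρ σ) (i : ZMod (2 ^ n)) (k : ℕ) : ρ i ^ k = ρ (k * i) := by
  induction k with
  | zero => simp [D.r0]
  | succ k ih => rw [pow_succ, ih, D.rr]; congr 1; push_cast; ring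

theorem DS.r_two_pow (D : DS S n ρ σ) (i : ZMod (2 ^ n)) : ρ i ^ 2 ^ n = 1 := by
  rw [D.rpow, ← D.r0]
  congr 1
  rw [ZMod.natCast_self, zero_mul]

theorem DS.mem_zp (D : DS S n ρ σ) (i : ZMod (2 ^ n)) : ρ i ∈ Subgroup.zpowers (ρ 1) := by
  refine ⟨(i.val : ℤ), ?_⟩
  show ρ 1 ^ ((i.val : ℕ) : ℤ) = ρ i
  rw [zpow_natCast, D.rpow, mul_one, ZMod.natCast_zmod_val]

theorem DS.zp_le (D : DS S n ρ σ) {x : G} (hx : x ∈ Subgroup.zpowers (ρ 1)) : ∃ i, x = ρ i := by
  obtain ⟨k, rfl⟩ := hx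
  have h1 : IsOfFinOrder (ρ 1) := isOfFinOrder_iff_pow_eq_one.mpr ⟨2 ^ n, by positivity, D.r_two_pow 1⟩
  obtain ⟨j, hj⟩ := h1.mem_powers_iff_mem_zpowers.mpr (⟨k, rfl⟩ : ρ 1 ^ k ∈ Subgroup.zpowers (ρ 1))
  refine ⟨j * 1, ?_⟩
  rw [← D.rpow]
  exact hj.symm

/-- two rotations of the same order generate the same subgroup -/
theorem DS.zp_eq [Finite G] (D : DS S n ρ σ) {i j : ZMod (2 ^ n)} (ho : orderOf (ρ i) = orderOf (ρ j)) :
    ρ j ∈ Subgroup.zpowers (ρ i) := by
  have h1 : Subgroup.zpowers (ρ i) = Subgroup.zpowers (ρ j) := by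
    apply H12.Core.cyclic_eq_of_card_eq' (C := Subgroup.zpowers (ρ 1)) inferInstance
    · rw [Subgroup.zpowers_le]; exact D.mem_zp i
    · rw [Subgroup.zpowers_le]; exact D.mem_zp j
    · rw [Nat.card_zpowers, Nat.card_zpowers, ho]
  rw [h1]
  exact Subgroup.mem_zpowers _

theorem conj_order {G : Type*} [Group G] (g x : G) : orderOf (g * x * g⁻¹) = orderOf x := by
  have := orderOf_injective (MulAut.conj g).toMonoidHom (MulAut.conj g).injective x
  simpa using this

/-- an element of odd order normalizing a subgroup `Q ≤ S` which is not a four-group centralizes it -/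
theorem DS.cent [Finite G] (D : DS S n ρ σ) {Q : Subgroup G} (hQS : Q ≤ S) {g : G}
    (hg : g ∈ Subgroup.normalizer (Q : Set G)) (ho : (orderOf g).Coprime 2) (hK : ¬ IsKleinFour Q) :
    g ∈ Subgroup.centralizer (Q : Set G) := by
  have hmem : ∀ x ∈ Q, g * x * g⁻¹ ∈ Q := fun x hx => (Subgroup.mem_normalizer_iff.mp hg x).mp hx
  -- rotations of order larger than two
  have h1 : ∀ i, ρ i ∈ Q → ρ i * ρ i ≠ 1 → Commute g (ρ i) := by
    intro i hi hi2
    rcases D.cases _ (hQS (hmem _ hi)) with ⟨j, hj⟩ | ⟨j, hj⟩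
    · have h2 : orderOf (ρ i) = orderOf (ρ j) := by rw [← hj, conj_order]
      obtain ⟨k, -, hk⟩ := (Nat.dvd_prime_pow Nat.prime_two).mp (orderOf_dvd_of_pow_eq_one (D.r_two_pow i))
      exact comm_of_zpowers hk (by rw [hj]; exact D.zp_eq h2) ho
    · exfalso
      apply hi2
      have h3 : g * (ρ i * ρ i) * g⁻¹ = 1 := by
        calc g * (ρ i * ρ i) * g⁻¹ = (g * ρ i * g⁻¹) * (g * ρ i * g⁻¹) := by group
          _ = 1 := by rw [hj, D.s2]
      rw [mul_inv_eq_one] at h3
      exact mul_eq_left.mp h3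
  have hcomm_iff : ∀ x, g * x * g⁻¹ = x → Commute g x := by
    intro x hx
    show g * x = x * g
    rw [← mul_inv_eq_iff_eq_mul]; exact hx
  have hcj1 : ∀ x, g * x * g⁻¹ = 1 → x = 1 := by
    intro x hx
    rw [mul_inv_eq_one] at hx
    exact mul_eq_left.mp hx
  by_cases hA : ∃ i, ρ i ∈ Q ∧ ρ i * ρ i ≠ 1
  · obtain ⟨i, hi, hi2⟩ := hA
    have hgi := h1 i hi hi2
    obtain ⟨k, -, hk⟩ := (Nat.dvd_prime_pow Nat.prime_two).mp (orderOf_dvd_of_pow_eq_one (D.r_two_pow i))
    have hk0 : k ≠ 0 := by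
      rintro rfl
      rw [pow_zero, orderOf_eq_one_iff] at hk
      apply hi2; rw [hk, one_mul]
    have hz : ρ i ^ 2 ^ (k - 1) = ρ (h n) := by
      have h2 : ρ i ^ 2 ^ (k - 1) ≠ 1 := by
        intro h3
        have h4 := orderOf_dvd_of_pow_eq_one h3
        rw [hk] at h4
        have h5 := (Nat.pow_dvd_pow_iff_le_right (by norm_num)).mp h4
        omega
      have h3 : ρ i ^ 2 ^ (k - 1) * ρ i ^ 2 ^ (k - 1) = 1 := by
        rw [← pow_add, ← two_mul, ← pow_succ', Nat.sub_add_cancel (Nat.pos_of_ne_zero hk0), ← hk,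
          pow_orderOf_eq_one]
      rw [D.rpow] at h2 h3 ⊢
      rcases D.sq_one h3 with h4 | h4
      · exact absurd (by rw [h4, D.r0]) h2
      · rw [h4]
    have hgz : Commute g (ρ (h n)) := by rw [← hz]; exact hgi.pow_right _
    have hall : ∀ j, ρ j ∈ Q → Commute g (ρ j) := by
      intro j hj
      by_cases hj2 : ρ j * ρ j = 1
      · rcases D.sq_one hj2 with rfl | rfl
        · rw [D.r0]; exact Commute.one_right g
        · exact hgz
      · exact h1 j hj hj2
    rw [Subgroup.mem_centralizer_iff]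
    intro x hx
    rcases D.cases x (hQS hx) with ⟨j, rfl⟩ | ⟨j, rfl⟩
    · exact (hall j hx).symm
    · rcases D.cases _ (hQS (hmem _ hx)) with ⟨l, hl⟩ | ⟨l, hl⟩
      · exfalso
        have h2 : ρ l * ρ l = 1 := by
          rw [← hl]
          calc g * σ j * g⁻¹ * (g * σ j * g⁻¹) = g * (σ j * σ j) * g⁻¹ := by group
            _ = 1 := by rw [D.s2]; group
        rcases D.sq_one h2 with rfl | rfl
        · rw [D.r0] at hl
          exact D.s1 j (hcj1 _ hl)
        · have h3 : g * ρ (h n) * g⁻¹ = ρ (h n) := by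
            rw [hgz.eq, mul_assoc, mul_inv_cancel, mul_one]
          have h4 : σ j = ρ (h n) := by
            have h5 : g * σ j * g⁻¹ = g * ρ (h n) * g⁻¹ := by rw [hl, h3]
            exact mul_left_cancel (mul_right_cancel h5)
          exact D.ne _ _ h4.symm
      · have hc : ρ (j - l) ∈ Q := by
          rw [← D.ss, ← hl]
          exact Q.mul_mem (hmem _ hx) hx
        have hgc := hall _ hc
        have h2 : g * σ j * g⁻¹ = ρ (j - l) * σ j := by
          rw [hl, D.rs]; congr 1; ring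
        have h3 : ∀ m : ℕ, g ^ m * σ j * (g ^ m)⁻¹ = ρ (j - l) ^ m * σ j := by
          intro m
          induction m with
          | zero => simp
          | succ m ih =>
            calc g ^ (m + 1) * σ j * (g ^ (m + 1))⁻¹ = g * (g ^ m * σ j * (g ^ m)⁻¹) * g⁻¹ := by
                  rw [pow_succ']; group
              _ = g * ρ (j - l) ^ m * σ j * g⁻¹ := by rw [ih]; group
              _ = ρ (j - l) ^ m * g * σ j * g⁻¹ := by rw [(hgc.pow_right m).eq]
              _ = ρ (j - l) ^ m * (g * σ j * g⁻¹) := by group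
              _ = ρ (j - l) ^ (m + 1) * σ j := by rw [h2, pow_succ]; group
        have h4 := h3 (orderOf g)
        rw [pow_orderOf_eq_one, one_mul, inv_one, mul_one] at h4
        have h5 : ρ (j - l) ^ orderOf g = 1 := (mul_eq_right.mp h4.symm)
        have h6 : orderOf (ρ (j - l)) = 1 := Nat.eq_one_of_dvd_coprimes
          (Nat.Coprime.pow_right n ho) (orderOf_dvd_of_pow_eq_one h5)
          (orderOf_dvd_of_pow_eq_one (D.r_two_pow _))
        rw [orderOf_eq_one_iff] at h6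
        rw [h6, one_mul] at h2
        exact (hcomm_iff _ h2).symm
  · push Not at hA
    have hB : ∀ i, ρ i ∈ Q → i = 0 ∨ i = h n := fun i hi => D.sq_one (hA i hi)
    rw [Subgroup.mem_centralizer_iff]
    by_cases hzQ : ρ (h n) ∈ Q
    · have hns : ∀ i, σ i ∉ Q := by
        intro i hi
        apply hK
        have h2 : Q = D.V i := by
          apply le_antisymm
          · intro x hx
            rw [D.mem_V]
            rcases D.cases x (hQS hx) with ⟨j, rfl⟩ | ⟨j, rfl⟩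
            · rcases hB j hx with rfl | rfl
              · left; exact D.r0
              · right; left; rfl
            · have h3 := Q.mul_mem hx hi
              rw [D.ss] at h3
              rcases hB _ h3 with h4 | h4
              · right; right; left
                rw [sub_eq_zero.mp h4]
              · right; right; right
                have h5 : j = i - h n := by rw [← h4]; ring
                rw [h5, sub_eq_add_neg, neg_h D.hn]
          · intro x hx
            rcases (mem_klein _ x).mp hx with rfl | rfl | rfl | rfl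
            · exact Q.one_mem
            · exact hzQ
            · exact hi
            · exact Q.mul_mem hzQ hi
        rw [h2]; exact D.V_klein i
      intro x hx
      have h2 : ∀ y ∈ Q, y = 1 ∨ y = ρ (h n) := by
        intro y hy
        rcases D.cases y (hQS hy) with ⟨j, rfl⟩ | ⟨j, rfl⟩
        · rcases hB j hy with rfl | rfl
          · left; exact D.r0
          · right; rfl
        · exact absurd hy (hns j)
      rcases h2 x hx with rfl | rfl
      · rw [one_mul, mul_one]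
      · rcases h2 _ (hmem _ hx) with h3 | h3
        · exact absurd (hcj1 _ h3) D.z1
        · exact (hcomm_iff _ h3).symm
    · have h2 : ∀ j, ρ j ∈ Q → j = 0 := by
        intro j hj
        rcases hB j hj with rfl | rfl
        · rfl
        · exact absurd hj hzQ
      intro x hx
      rcases D.cases x (hQS hx) with ⟨j, rfl⟩ | ⟨j, rfl⟩
      · rw [h2 j hx, D.r0, one_mul, mul_one]
      · rcases D.cases _ (hQS (hmem _ hx)) with ⟨l, hl⟩ | ⟨l, hl⟩
        · exfalso
          have h3 : l = 0 := h2 l (by rw [← hl]; exact hmem _ hx)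
          rw [h3, D.r0] at hl
          exact D.s1 j (hcj1 _ hl)
        · have h3 := Q.mul_mem (hmem _ hx) hx
          rw [hl, D.ss] at h3
          have h4 := sub_eq_zero.mp (h2 _ h3)
          rw [← h4] at hl
          exact (hcomm_iff _ hl).symm

end

end Cfsg.Agent.H4.DihF
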