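import Mathlib
import Cfsg.Prelude.Def_TwoFusion
import Cfsg.Agent.H4_DihF
import Cfsg.Agent.H4_Util
import Cfsg.Agent.H4_Inv

/-! Dihedral Sylow 2-subgroups: Klein four-subgroups and fusion, part 2. -/

set_option autoImplicit false

namespace Cfsg.Agent.H4.DihF

open Cfsg Cfsg.Agent.H5.V4 Cfsg.Agent.HL.QD

section

variable {G : Type*} [Group G]

theorem mem_norm [Finite G] {U : Subgroup G} {g : G} (h : ∀ u ∈ U, g * u * g⁻¹ ∈ U) :
    g ∈ Subgroup.normalizer (U : Set G) := by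
  have h1 : U.map (MulAut.conj g).toMonoidHom ≤ U := by
    rintro _ ⟨u, hu, rfl⟩
    exact h u hu
  have h2 : U.map (MulAut.conj g).toMonoidHom = U := by
    apply Subgroup.eq_of_le_of_card_ge h1
    rw [Nat.card_congr (U.equivMapOfInjective _ (MulAut.conj g).injective).toEquiv.symm]
  rw [Subgroup.mem_normalizer_iff]
  intro x
  constructor
  · exact h x
  · intro hx
    rw [← h2] at hx
    obtain ⟨u, hu, hux⟩ := hx
    have : g * u * g⁻¹ = g * x * g⁻¹ := hux
    rw [← mul_left_cancel (mul_right_cancel this)]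
    exact hu

theorem cent_le_norm (U : Subgroup G) :
    Subgroup.centralizer (U : Set G) ≤ Subgroup.normalizer (U : Set G) := by
  intro g hg
  rw [Subgroup.mem_centralizer_iff] at hg
  rw [Subgroup.mem_normalizer_iff]
  intro x
  constructor
  · intro hx
    rw [← hg x hx, mul_assoc, mul_inv_cancel, mul_one]; exact hx
  · intro hx
    have h1 := hg _ hx
    have h2 : g * x * g⁻¹ = x := by
      have h3 : g * x = g * (g * x * g⁻¹) := by rw [← h1]; group
      exact (mul_left_cancel h3).symm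
    rw [← h2]; exact hx

theorem norm_le_norm_cent (U : Subgroup G) : Subgroup.normalizer (U : Set G) ≤
    Subgroup.normalizer ((Subgroup.centralizer (U : Set G) : Subgroup G) : Set G) := by
  rw [Subgroup.le_normalizer_iff]
  intro g hg c hc
  rw [Subgroup.mem_centralizer_iff] at hc ⊢
  intro u hu
  have h1 : g⁻¹ * u * g ∈ U := by
    have := (Subgroup.mem_normalizer_iff.mp ((Subgroup.normalizer (U : Set G)).inv_mem hg) u).mp hu
    rwa [inv_inv] at this
  have h2 := hc _ h1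
  calc u * (g * c * g⁻¹) = g * (g⁻¹ * u * g * c) * g⁻¹ := by group
    _ = g * (c * (g⁻¹ * u * g)) * g⁻¹ := by rw [h2]
    _ = g * c * g⁻¹ * u := by group

/-- if `N(Q) = C(Q) (S ∩ N(Q))` then odd order elements of `N(Q)` lie in `C(Q)` -/
theorem cent_of_sup [Finite G] {S Q : Subgroup G} (hS : IsPGroup 2 S)
    (hsup : Subgroup.normalizer (Q : Set G) = Subgroup.centralizer (Q : Set G) ⊔ (S ⊓ Subgroup.normalizer (Q : Set G)))
    {g : G} (hg : g ∈ Subgroup.normalizer (Q : Set G)) (ho : (orderOf g).Coprime 2) :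
    g ∈ Subgroup.centralizer (Q : Set G) := by
  have hle : S ⊓ Subgroup.normalizer (Q : Set G) ≤
      Subgroup.normalizer ((Subgroup.centralizer (Q : Set G) : Subgroup G) : Set G) :=
    le_trans inf_le_right (norm_le_norm_cent Q)
  rw [hsup] at hg
  have hg' : g ∈ ((Subgroup.centralizer (Q : Set G) ⊔ (S ⊓ Subgroup.normalizer (Q : Set G)) : Subgroup G) : Set G) := hg
  rw [Subgroup.coe_mul_of_right_le_normalizer_left _ _ hle] at hg'
  obtain ⟨c, hc, s, hs, rfl⟩ := hg'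
  have hsN := hle hs
  -- powers
  have key : ∀ m : ℕ, ∃ c' ∈ Subgroup.centralizer (Q : Set G), (c * s) ^ m = c' * s ^ m := by
    intro m
    induction m with
    | zero => exact ⟨1, Subgroup.one_mem _, by simp⟩
    | succ m ih =>
      obtain ⟨c', hc', h1⟩ := ih
      refine ⟨c' * (s ^ m * c * (s ^ m)⁻¹), Subgroup.mul_mem _ hc' ?_, ?_⟩
      · exact (Subgroup.mem_normalizer_iff.mp (Subgroup.pow_mem _ hsN m) c).mp hc
      · rw [pow_succ, h1]
        show c' * s ^ m * (c * s) = _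
        rw [pow_succ]; group
  obtain ⟨k, hk⟩ := hS ⟨s, (Subgroup.mem_inf.mp hs).1⟩
  have hk' : s ^ 2 ^ k = 1 := congrArg Subtype.val hk
  obtain ⟨c', hc', h1⟩ := key (2 ^ k)
  rw [hk', mul_one] at h1
  have h2 : (orderOf (c * s)).Coprime (2 ^ k) := Nat.Coprime.pow_right k ho
  have h3 : c * s ∈ Subgroup.zpowers ((c * s) ^ 2 ^ k) := by
    have := (Nat.Coprime.orderOf_pow h2)
    obtain ⟨m, hm⟩ := exists_pow_eq_self_of_coprime h2.symm
    exact ⟨m, by simpa using hm⟩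
  have h4 : Subgroup.zpowers ((c * s) ^ 2 ^ k) ≤ Subgroup.centralizer (Q : Set G) := by
    rw [Subgroup.zpowers_le, h1]; exact hc'
  exact h4 h3

end

section

variable {G : Type*} [Group G] [Finite G] {n : ℕ} {ρ σ : ZMod (2 ^ n) → G}

theorem DS.zo {S : Subgroup G} (D : DS S n ρ σ) : orderOf (ρ (h n)) = 2 :=
  H4.Inv.orderOf_eq_two_of D.z1 D.z2

theorem DS.so {S : Subgroup G} (D : DS S n ρ σ) (i : ZMod (2 ^ n)) : orderOf (σ i) = 2 :=
  H4.Inv.orderOf_eq_two_of (D.s1 i) (D.s2 i)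

theorem DS.inv_cases {S : Subgroup G} (D : DS S n ρ σ) {s : G} (hs : s ∈ S) (ho : orderOf s = 2) :
    s = ρ (h n) ∨ ∃ i, s = σ i := by
  rcases D.cases s hs with ⟨i, rfl⟩ | ⟨i, rfl⟩
  · left
    rcases D.sq_one (H4.Inv.mul_self ho) with rfl | rfl
    · exact absurd D.r0 (H4.Inv.ne_one ho)
    · rfl
  · right; exact ⟨i, rfl⟩

theorem DS.conj_even {S : Subgroup G} (D : DS S n ρ σ) (i a : ZMod (2 ^ n)) :
    IsConj (σ i) (σ (i + a + a)) := by
  rw [isConj_iff]
  refine ⟨ρ (-a), ?_⟩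
  rw [D.conj_rs]; congr 1; ring

theorem conj_into (S : Sylow 2 G) {a : G} (ha : orderOf a = 2) : ∃ g : G, g * a * g⁻¹ ∈ (S : Subgroup G) := by
  haveI : Fact (Nat.Prime 2) := ⟨Nat.prime_two⟩
  obtain ⟨g, hg⟩ := H4.Util.exists_conj_le S (Subgroup.zpowers a)
    (H4.Util.zpowers_isPGroup (k := 1) (by rw [pow_one]; exact ha))
  exact ⟨g, hg a (Subgroup.mem_zpowers a)⟩

theorem DS.all_conj {S : Sylow 2 G} (D : DS (S : Subgroup G) n ρ σ) (H : ∀ i, IsConj (ρ (h n)) (σ i))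
    (a b : G) (ha : orderOf a = 2) (hb : orderOf b = 2) : IsConj a b := by
  have key : ∀ a : G, orderOf a = 2 → IsConj (ρ (h n)) a := by
    intro a ha
    obtain ⟨g, hg⟩ := conj_into S ha
    have h1 : IsConj a (g * a * g⁻¹) := isConj_iff.mpr ⟨g, rfl⟩
    rcases D.inv_cases hg (by rw [conj_order]; exact ha) with h2 | ⟨i, h2⟩
    · rw [h2] at h1; exact h1.symm
    · rw [h2] at h1; exact (H i).trans h1.symm
  exact (key a ha).symm.trans (key b hb)

theorem DS.exists_conj_of_not_isolated {S : Sylow 2 G} (D : DS (S : Subgroup G) n ρ σ)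
    (hz : ¬ IsIsolatedInvolution (ρ (h n))) : ∃ i, IsConj (ρ (h n)) (σ i) := by
  haveI : Fact (Nat.Prime 2) := ⟨Nat.prime_two⟩
  rw [IsIsolatedInvolution, not_and] at hz
  have h1 := hz D.zo
  push Not at h1
  obtain ⟨g, hg, hgz⟩ := h1
  set t := g * ρ (h n) * g⁻¹ with ht
  have hto : orderOf t = 2 := by rw [ht, conj_order]; exact D.zo
  have hSC : (S : Subgroup G) ≤ Subgroup.centralizer {ρ (h n)} := by
    intro s hs
    rw [Subgroup.mem_centralizer_singleton_iff]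
    exact D.zS hs
  have htC : t ∈ Subgroup.centralizer {ρ (h n)} := by
    rw [Subgroup.mem_centralizer_singleton_iff]
    exact hg.symm.eq
  have hto' : orderOf (⟨t, htC⟩ : Subgroup.centralizer {ρ (h n)}) = 2 := by
    rw [Subgroup.orderOf_mk]; exact hto
  obtain ⟨c, hc⟩ := H4.Util.exists_conj_le (S.subtype hSC) (Subgroup.zpowers ⟨t, htC⟩)
    (H4.Util.zpowers_isPGroup (k := 1) (by rw [pow_one]; exact hto'))
  have h2 : (c : G) * t * (c : G)⁻¹ ∈ (S : Subgroup G) := hc _ (Subgroup.mem_zpowers _)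
  have hcC := Subgroup.mem_centralizer_singleton_iff.mp c.2
  have h3 : IsConj (ρ (h n)) ((c : G) * t * (c : G)⁻¹) :=
    isConj_iff.mpr ⟨c * g, by rw [ht]; group⟩
  rcases D.inv_cases h2 (by rw [conj_order]; exact hto) with h4 | ⟨i, h4⟩
  · exfalso
    apply hgz
    obtain ⟨c, hcm⟩ := c
    change c * t * c⁻¹ = ρ (h n) at h4
    change c * ρ (h n) = ρ (h n) * c at hcC
    have h5 : c * t * c⁻¹ = c * ρ (h n) * c⁻¹ := by
      rw [h4, hcC, mul_assoc, mul_inv_cancel, mul_one]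
    exact mul_left_cancel (mul_right_cancel h5)
  · rw [h4] at h3
    exact ⟨i, h3⟩

/-- the index two subgroup of the dihedral group containing `σ i` -/
def DS.M {S : Subgroup G} (D : DS S n ρ σ) (i : ZMod (2 ^ n)) : Subgroup G where
  carrier := {x | (∃ k, x = ρ (k + k)) ∨ ∃ k, x = σ (i + (k + k))}
  one_mem' := Or.inl ⟨0, by rw [add_zero, D.r0]⟩
  mul_mem' := by
    rintro _ _ (⟨k, rfl⟩ | ⟨k, rfl⟩) (⟨l, rfl⟩ | ⟨l, rfl⟩)
    · left; exact ⟨k + l, by rw [D.rr]; congr 1; ring⟩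
    · right; exact ⟨l - k, by rw [D.rs]; congr 1; ring⟩
    · right; exact ⟨k + l, by rw [D.sr]; congr 1; ring⟩
    · left; exact ⟨l - k, by rw [D.ss]; congr 1; ring⟩
  inv_mem' := by
    rintro _ (⟨k, rfl⟩ | ⟨k, rfl⟩)
    · left; exact ⟨-k, by rw [D.rinv]; congr 1; ring⟩
    · right; exact ⟨k, by rw [D.sinv]⟩

theorem DS.mem_M {S : Subgroup G} (D : DS S n ρ σ) (i : ZMod (2 ^ n)) (x : G) :
    x ∈ D.M i ↔ (∃ k, x = ρ (k + k)) ∨ ∃ k, x = σ (i + (k + k)) := Iff.rfl

theorem DS.relIndex_M {S : Subgroup G} (D : DS S n ρ σ) (i : ZMod (2 ^ n)) : (D.M i).relIndex S = 2 := by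
  rw [Subgroup.relIndex, Subgroup.index_eq_two_iff]
  refine ⟨⟨ρ 1, D.mr 1⟩, ?_⟩
  rintro ⟨b, hb⟩
  simp only [Subgroup.mem_subgroupOf]
  change Xor' (b * ρ 1 ∈ D.M i) (b ∈ D.M i)
  rcases D.cases b hb with ⟨j, rfl⟩ | ⟨j, rfl⟩
  · rw [D.rr, D.mem_M, D.mem_M]
    rcases par j with ⟨a, ha⟩ | ⟨a, ha⟩
    · right
      refine ⟨Or.inl ⟨a, by rw [ha]⟩, ?_⟩
      rintro (⟨k, hk⟩ | ⟨k, hk⟩)
      · have := D.ir hk
        rw [ha] at this
        exact par_ne D.hn (a := k) (b := a) (by rw [← this])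
      · exact D.ne _ _ hk
    · left
      refine ⟨Or.inl ⟨a + 1, by rw [ha]; congr 1; ring⟩, ?_⟩
      rintro (⟨k, hk⟩ | ⟨k, hk⟩)
      · have := D.ir hk
        rw [ha] at this
        exact par_ne D.hn (a := k) (b := a) (by rw [← this])
      · exact D.ne _ _ hk
  · rw [D.sr, D.mem_M, D.mem_M]
    rcases par (j - i) with ⟨a, ha⟩ | ⟨a, ha⟩
    · right
      refine ⟨Or.inr ⟨a, by rw [← ha]; congr 1; ring⟩, ?_⟩
      rintro (⟨k, hk⟩ | ⟨k, hk⟩)
      · exact D.ne _ _ hk.symm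
      · have := D.is hk
        exact par_ne D.hn (a := k) (b := a) (by rw [← ha]; linear_combination -this)
    · left
      refine ⟨Or.inr ⟨a + 1, by congr 1; linear_combination ha⟩, ?_⟩
      rintro (⟨k, hk⟩ | ⟨k, hk⟩)
      · exact D.ne _ _ hk.symm
      · have := D.is hk
        exact par_ne D.hn (a := k) (b := a) (by rw [← ha]; linear_combination -this)

theorem DS.thompson {S : Sylow 2 G} (D : DS (S : Subgroup G) n ρ σ) (hno : ∀ H : Subgroup G, H.index ≠ 2)
    (i : ZMod (2 ^ n)) (hi : IsConj (ρ (h n)) (σ i)) : IsConj (ρ (h n)) (σ (i + 1)) := by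
  haveI : Fact (Nat.Prime 2) := ⟨Nat.prime_two⟩
  by_contra hcon
  have hodd : Odd (S : Subgroup G).index := by
    rw [← Nat.not_even_iff_odd, even_iff_two_dvd]
    exact S.not_dvd_index
  have H1 : ∀ g : G, g⁻¹ * σ (i + 1) * g ∈ (S : Subgroup G) → g⁻¹ * σ (i + 1) * g ∉ D.M i := by
    intro g _ hg
    apply hcon
    have h1 : IsConj (σ (i + 1)) (g⁻¹ * σ (i + 1) * g) := isConj_iff.mpr ⟨g⁻¹, by rw [inv_inv]⟩
    have h2 : orderOf (g⁻¹ * σ (i + 1) * g) = 2 := by
      have := conj_order g⁻¹ (σ (i + 1))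
      rw [inv_inv] at this
      rw [this]; exact D.so _
    rcases (D.mem_M i _).mp hg with ⟨k, hk⟩ | ⟨k, hk⟩
    · rw [hk] at h1 h2
      rcases D.sq_one (H4.Inv.mul_self h2) with h3 | h3
      · rw [h3, D.r0] at h2
        exact absurd rfl (H4.Inv.ne_one h2)
      · rw [h3] at h1
        exact h1.symm
    · rw [hk, ← add_assoc] at h1
      exact hi.trans ((D.conj_even i k).trans h1.symm)
  have H2 : ∀ (g : G) (j : ℕ), g⁻¹ * σ (i + 1) ^ (2 ^ (j + 1)) * g ∈ (S : Subgroup G) →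
      g⁻¹ * σ (i + 1) ^ (2 ^ (j + 1)) * g ∈ D.M i := by
    intro g j _
    have : σ (i + 1) ^ (2 ^ (j + 1)) = 1 := by
      rw [pow_succ', pow_mul, pow_two, D.s2, one_pow]
    rw [this]
    have : g⁻¹ * 1 * g = 1 := by group
    rw [this]
    exact Subgroup.one_mem _
  obtain ⟨K, -, hK, -⟩ := H19.Transfer.thompson hodd (D.relIndex_M i) (σ (i + 1))
    ⟨1, by rw [pow_one]; exact D.so _⟩ H1 H2
  exact hno K hK

/-- no subgroup of index two and no isolated involution: all involutions are conjugate -/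
theorem DS.all_conj_of {S : Sylow 2 G} (D : DS (S : Subgroup G) n ρ σ) (hno : ∀ H : Subgroup G, H.index ≠ 2)
    (hz : ∀ z : G, ¬ IsIsolatedInvolution z) (a b : G) (ha : orderOf a = 2) (hb : orderOf b = 2) : IsConj a b := by
  apply D.all_conj ?_ a b ha hb
  obtain ⟨i, hi⟩ := D.exists_conj_of_not_isolated (hz _)
  have hi1 := D.thompson hno i hi
  intro j
  rcases par (j - i) with ⟨k, hk⟩ | ⟨k, hk⟩
  · have : j = i + k + k := by linear_combination hk
    rw [this]
    exact hi.trans (D.conj_even i k)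
  · have : j = i + 1 + k + k := by linear_combination hk
    rw [this]
    exact hi1.trans (D.conj_even (i + 1) k)

theorem DS.of_all_conj {S : Sylow 2 G} (D : DS (S : Subgroup G) n ρ σ)
    (H : ∀ a b : G, orderOf a = 2 → orderOf b = 2 → IsConj a b) :
    (∀ K : Subgroup G, K.index ≠ 2) ∧ ∀ z : G, ¬ IsIsolatedInvolution z := by
  haveI : Fact (Nat.Prime 2) := ⟨Nat.prime_two⟩
  constructor
  · intro K hK
    haveI : K.Normal := Subgroup.normal_of_index_eq_two hK
    have hall : ∀ a : G, orderOf a = 2 → a ∈ K := by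
      have h1 : ∃ a : G, orderOf a = 2 ∧ a ∈ K := by
        by_cases h2 : ρ (h n) ∈ K
        · exact ⟨_, D.zo, h2⟩
        · by_cases h3 : σ 0 ∈ K
          · exact ⟨_, D.so 0, h3⟩
          · refine ⟨σ (0 + h n), D.so _, ?_⟩
            rw [← D.sr]
            exact (Subgroup.mul_mem_iff_of_index_two hK).mpr (iff_of_false h3 h2)
      obtain ⟨a, ha, haK⟩ := h1
      intro b hb
      obtain ⟨c, hc⟩ := isConj_iff.mp (H a b ha hb)
      rw [← hc]
      exact Subgroup.Normal.conj_mem inferInstance a haK c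
    have hSK : (S : Subgroup G) ≤ K := by
      intro s hs
      rcases D.cases s hs with ⟨i, rfl⟩ | ⟨i, rfl⟩
      · have h1 : ρ i = σ 0 * σ i := by rw [D.ss, sub_zero]
        rw [h1]
        exact K.mul_mem (hall _ (D.so 0)) (hall _ (D.so i))
      · exact hall _ (D.so i)
    have h1 := Subgroup.index_dvd_of_le hSK
    rw [hK] at h1
    exact S.not_dvd_index h1
  · intro z hz
    obtain ⟨g, hg⟩ := isConj_iff.mp (H z (ρ (h n)) hz.1 D.zo)
    obtain ⟨k, hk⟩ := isConj_iff.mp (H z (σ 0) hz.1 (D.so 0))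
    have h1 := hz.2 (g⁻¹ * k)
    have h2 : g⁻¹ * k * z * (g⁻¹ * k)⁻¹ = g⁻¹ * σ 0 * g := by rw [← hk]; group
    have h3 : z = g⁻¹ * ρ (h n) * g := by rw [← hg]; group
    rw [h2] at h1
    have h4 : Commute z (g⁻¹ * σ 0 * g) := by
      show z * (g⁻¹ * σ 0 * g) = g⁻¹ * σ 0 * g * z
      rw [h3]
      calc g⁻¹ * ρ (h n) * g * (g⁻¹ * σ 0 * g) = g⁻¹ * (ρ (h n) * σ 0) * g := by group
        _ = g⁻¹ * (σ 0 * ρ (h n)) * g := by rw [D.sz]
        _ = _ := by group
    have h5 := h1 h4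
    rw [h3] at h5
    exact D.ne _ _ (mul_left_cancel (mul_right_cancel h5)).symm

/-- a 3-cycle on a four-group -/
theorem three_cycle {U : Subgroup G} (hU : IsKleinFour U) {a b : G} (ha : a ∈ U) (hb : b ∈ U) (hab : IsCPair a b)
    (h3 : 3 ∣ (Subgroup.centralizer (U : Set G)).relIndex (Subgroup.normalizer (U : Set G))) : IsConj a b := by
  haveI : Fact (Nat.Prime 3) := ⟨Nat.prime_three⟩
  set N := Subgroup.normalizer (U : Set G) with hN
  set C := Subgroup.centralizer (U : Set G) with hC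
  haveI hnorm : (C.subgroupOf N).Normal := by
    apply Subgroup.normal_subgroupOf_of_le_normalizer
    exact norm_le_norm_cent U
  have h4 : 3 ∣ Nat.card (N ⧸ C.subgroupOf N) := h3
  obtain ⟨q, hq⟩ := exists_prime_orderOf_dvd_card' 3 h4
  obtain ⟨g, rfl⟩ := QuotientGroup.mk'_surjective (C.subgroupOf N) q
  have hg3 : (g : G) ^ 3 ∈ C := by
    have h5 : QuotientGroup.mk' (C.subgroupOf N) (g ^ 3) = 1 := by
      rw [map_pow, ← hq, pow_orderOf_eq_one]
    rw [QuotientGroup.mk'_apply, QuotientGroup.eq_one_iff, Subgroup.mem_subgroupOf] at h5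
    exact h5
  have hg1 : (g : G) ∉ C := by
    intro h5
    have h6 : QuotientGroup.mk' (C.subgroupOf N) g = 1 := by
      rw [QuotientGroup.mk'_apply, QuotientGroup.eq_one_iff, Subgroup.mem_subgroupOf]; exact h5
    rw [h6, orderOf_one] at hq
    omega
  obtain ⟨g, hgN⟩ := g
  change g ^ 3 ∈ C at hg3
  change g ∉ C at hg1
  have hmem : ∀ x ∈ U, g * x * g⁻¹ ∈ U := fun x hx => (Subgroup.mem_normalizer_iff.mp hgN x).mp hx
  have hUk : U = klein hab := eq_klein hU ha hb hab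
  have hmem' : ∀ x, x ∈ U ↔ x = 1 ∨ x = a ∨ x = b ∨ x = a * b := by
    intro x; rw [hUk]; exact mem_klein hab x
  have hne : ∀ x, x ≠ 1 → g * x * g⁻¹ ≠ 1 := by
    intro x hx h5
    apply hx
    rw [mul_inv_eq_one] at h5
    exact mul_eq_left.mp h5
  -- centralizer criterion
  have hcrit : ∀ x : G, x ∈ C ↔ x * a * x⁻¹ = a ∧ x * b * x⁻¹ = b := by
    intro x
    rw [hC, Subgroup.mem_centralizer_iff]
    constructor
    · intro h5
      constructor
      · rw [← h5 a ha, mul_assoc, mul_inv_cancel, mul_one]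
      · rw [← h5 b hb, mul_assoc, mul_inv_cancel, mul_one]
    · rintro ⟨h5, h6⟩ u hu
      rw [mul_inv_eq_iff_eq_mul] at h5 h6
      rcases (hmem' u).mp hu with rfl | rfl | rfl | rfl
      · rw [one_mul, mul_one]
      · exact h5.symm
      · exact h6.symm
      · rw [mul_assoc, ← h6, ← mul_assoc, ← h5, mul_assoc]
  obtain ⟨h3a, h3b⟩ := (hcrit _).mp hg3
  have e3 : ∀ x, g ^ 3 * x * (g ^ 3)⁻¹ = g * (g * (g * x * g⁻¹) * g⁻¹) * g⁻¹ := by
    intro x; rw [pow_succ, pow_two]; group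
  rw [e3] at h3a h3b
  have hinj : ∀ x y, g * x * g⁻¹ = g * y * g⁻¹ → x = y := fun x y h5 => mul_left_cancel (mul_right_cancel h5)
  have hmulc : ∀ x y, g * (x * y) * g⁻¹ = (g * x * g⁻¹) * (g * y * g⁻¹) := by intro x y; group
  have haa := hab.aa
  have hbb := hab.bb
  -- images
  rcases (hmem' _).mp (hmem a ha) with h5 | h5 | h5 | h5
  · exact absurd h5 (hne a hab.a1)
  · -- a fixed
    exfalso
    rcases (hmem' _).mp (hmem b hb) with h6 | h6 | h6 | h6
    · exact absurd h6 (hne b hab.b1)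
    · exact hab.ne (hinj a b (by rw [h5, h6]))
    · exact hg1 ((hcrit g).mpr ⟨h5, h6⟩)
    · have h7 : g * (a * b) * g⁻¹ = b := by rw [hmulc, h5, h6, ← mul_assoc, haa, one_mul]
      rw [h6, h7, h6] at h3b
      exact hab.a1 (mul_eq_right.mp h3b)
  · exact isConj_iff.mpr ⟨g, h5⟩
  · -- a ↦ ab
    rcases (hmem' _).mp (hmem b hb) with h6 | h6 | h6 | h6
    · exact absurd h6 (hne b hab.b1)
    · exact (isConj_iff.mpr ⟨g, h6⟩).symm
    · exfalso
      have h7 : g * (a * b) * g⁻¹ = a := by rw [hmulc, h5, h6, mul_assoc, hbb, mul_one]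
      rw [h5, h7, h5] at h3a
      exact hab.b1 (mul_eq_left.mp h3a)
    · exact absurd (hinj a b (by rw [h5, h6])) hab.ne

theorem DS.all_conj_of_relIndex {S : Sylow 2 G} (D : DS (S : Subgroup G) n ρ σ)
    (H : ∀ U : Subgroup G, U ≤ S → IsKleinFour U →
      3 ∣ (Subgroup.centralizer (U : Set G)).relIndex (Subgroup.normalizer (U : Set G))) (a b : G)
    (ha : orderOf a = 2) (hb : orderOf b = 2) : IsConj a b := by
  apply D.all_conj ?_ a b ha hb
  intro i
  exact three_cycle (D.V_klein i) ((D.mem_V i _).mpr (Or.inr (Or.inl rfl)))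
    ((D.mem_V i _).mpr (Or.inr (Or.inr (Or.inl rfl)))) (D.cpair i) (H _ (D.V_le i) (D.V_klein i))

end

section

variable {G : Type*} [Group G] [Finite G] {n : ℕ} {ρ σ : ZMod (2 ^ n) → G}

theorem DS.S_le {S : Subgroup G} (D : DS S n ρ σ) : S ≤ Subgroup.centralizer {ρ (h n)} := by
  intro s hs
  rw [Subgroup.mem_centralizer_singleton_iff]
  exact D.zS hs

theorem odd_swap {g a b : G} (ho : (orderOf g).Coprime 2) (h1 : g * a * g⁻¹ = b) (h2 : g * b * g⁻¹ = a) : a = b := by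
  have key : ∀ m : ℕ, (g ^ (2 * m)) * a * (g ^ (2 * m))⁻¹ = a := by
    intro m
    induction m with
    | zero => simp
    | succ m ih =>
      calc g ^ (2 * (m + 1)) * a * (g ^ (2 * (m + 1)))⁻¹ = g * (g * (g ^ (2 * m) * a * (g ^ (2 * m))⁻¹) * g⁻¹) * g⁻¹ := by
            rw [mul_add, mul_one, pow_add, pow_mul_comm, pow_two]; group
        _ = a := by rw [ih, h1, h2]
  have hodd : ¬ 2 ∣ orderOf g := by
    intro h3
    have := Nat.dvd_gcd h3 (dvd_refl 2)
    rw [Nat.Coprime] at ho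
    rw [ho] at this
    norm_num at this
  obtain ⟨m, hm⟩ : ∃ m, orderOf g = 2 * m + 1 := ⟨orderOf g / 2, by omega⟩
  have h3 := key (m + 1)
  have h4 : g ^ (2 * (m + 1)) = g := by
    have : 2 * (m + 1) = orderOf g + 1 := by omega
    rw [this, pow_succ, pow_orderOf_eq_one, one_mul]
  rw [h4, h1] at h3
  exact h3.symm

theorem DS.npc_cent {S : Sylow 2 G} (D : DS (S : Subgroup G) n ρ σ) :
    HasNormalPComplement 2 (Subgroup.centralizer {ρ (h n)} : Subgroup G) := by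
  haveI : Fact (Nat.Prime 2) := ⟨Nat.prime_two⟩
  have hSC := D.S_le
  set C := Subgroup.centralizer {ρ (h n)} with hC
  apply H2.Fusion3.npc_of_frobenius_sylow (S.subtype hSC)
  intro Q hQS g hg ho
  have hQS' : Q.map C.subtype ≤ (S : Subgroup G) := by
    rintro _ ⟨q, hq, rfl⟩
    exact hQS hq
  have ho' : (orderOf (g : G)).Coprime 2 := by rw [Subgroup.orderOf_coe]; exact ho
  have hg' : (g : G) ∈ Subgroup.normalizer ((Q.map C.subtype : Subgroup G) : Set G) := by
    apply mem_norm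
    rintro _ ⟨q, hq, rfl⟩
    exact ⟨g * q * g⁻¹, (Subgroup.mem_normalizer_iff.mp hg q).mp hq, rfl⟩
  have hgz : (g : G) * ρ (h n) * (g : G)⁻¹ = ρ (h n) := by
    have := Subgroup.mem_centralizer_singleton_iff.mp g.2
    obtain ⟨g, hg⟩ := g
    change g * ρ (h n) = ρ (h n) * g at this
    change g * ρ (h n) * g⁻¹ = _
    rw [this, mul_assoc, mul_inv_cancel, mul_one]
  have key : (g : G) ∈ Subgroup.centralizer ((Q.map C.subtype : Subgroup G) : Set G) := by
    by_cases hK : IsKleinFour (Q.map C.subtype)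
    · obtain ⟨i, hi⟩ := D.eq_V hQS' hK
      rw [hi] at hg' ⊢
      have hmem : ∀ x ∈ D.V i, (g : G) * x * (g : G)⁻¹ ∈ D.V i := fun x hx => (Subgroup.mem_normalizer_iff.mp hg' x).mp hx
      have hinj : ∀ x y, (g : G) * x * (g : G)⁻¹ = (g : G) * y * (g : G)⁻¹ → x = y := fun x y h5 => mul_left_cancel (mul_right_cancel h5)
      have hcases : ∀ x ∈ D.V i, x ≠ 1 → x ≠ ρ (h n) → x = σ i ∨ x = σ (i + h n) := by
        intro x hx h1 h2
        rcases (D.mem_V i x).mp hx with h3 | h3 | h3 | h3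
        · exact absurd h3 h1
        · exact absurd h3 h2
        · exact Or.inl h3
        · exact Or.inr h3
      have hs : ∀ j, σ j ∈ D.V i → (g : G) * σ j * (g : G)⁻¹ = σ i ∨ (g : G) * σ j * (g : G)⁻¹ = σ (i + h n) := by
        intro j hj
        apply hcases _ (hmem _ hj)
        · intro h1
          rw [mul_inv_eq_one] at h1
          exact D.s1 j (mul_eq_left.mp h1)
        · intro h1
          rw [← hgz] at h1
          exact D.ne _ _ (hinj _ _ h1).symm
      have hm1 : σ i ∈ D.V i := (D.mem_V i _).mpr (Or.inr (Or.inr (Or.inl rfl)))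
      have hm2 : σ (i + h n) ∈ D.V i := (D.mem_V i _).mpr (Or.inr (Or.inr (Or.inr rfl)))
      have hne : σ i ≠ σ (i + h n) := by
        intro h1
        have h2 := D.is h1
        exact h_ne D.hn (left_eq_add.mp h2)
      have hfix : (g : G) * σ i * (g : G)⁻¹ = σ i ∧ (g : G) * σ (i + h n) * (g : G)⁻¹ = σ (i + h n) := by
        rcases hs i hm1 with h1 | h1
        · refine ⟨h1, ?_⟩
          rcases hs _ hm2 with h2 | h2
          · exact absurd (hinj _ _ (h1.trans h2.symm)) hne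
          · exact h2
        · rcases hs _ hm2 with h2 | h2
          · exact absurd (odd_swap ho' h1 h2) hne
          · exact absurd (hinj _ _ (h1.trans h2.symm)) hne
      rw [Subgroup.mem_centralizer_iff]
      intro x hx
      have h1 : (g : G) * x * (g : G)⁻¹ = x := by
        rcases (D.mem_V i x).mp hx with rfl | rfl | rfl | rfl
        · rw [mul_one, mul_inv_cancel]
        · exact hgz
        · exact hfix.1
        · exact hfix.2
      rw [mul_inv_eq_iff_eq_mul] at h1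
      exact h1.symm
    · exact D.cent hQS' hg' ho' hK
  rw [Subgroup.mem_centralizer_iff] at key ⊢
  intro q hq
  exact Subtype.ext (key q ⟨q, hq, rfl⟩)

/-- an element `x` of a group with a normal complement to `S` acts on `{u}` like an element of `S` -/
theorem npc_conj {p : ℕ} [Fact p.Prime] (S : Sylow p G) (hnpc : HasNormalPComplement p G) (x : G) :
    ∃ s ∈ (S : Subgroup G), ∀ u ∈ (S : Subgroup G), x * u * x⁻¹ ∈ (S : Subgroup G) → x * u * x⁻¹ = s * u * s⁻¹ := by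
  obtain ⟨N, hN, hc⟩ := (Cfsg.Agent.H2.Basic.npc_iff_sylow S).mp hnpc
  obtain ⟨⟨⟨a, ha⟩, ⟨s, hs⟩⟩, has⟩ := hc.2 x
  have has : a * s = x := has
  refine ⟨s, hs, ?_⟩
  intro u hu h1
  have h2 : s * u * s⁻¹ ∈ (S : Subgroup G) := (S : Subgroup G).mul_mem ((S : Subgroup G).mul_mem hs hu) ((S : Subgroup G).inv_mem hs)
  have h3 : x * u * x⁻¹ * (s * u * s⁻¹)⁻¹ ∈ (S : Subgroup G) := (S : Subgroup G).mul_mem h1 ((S : Subgroup G).inv_mem h2)
  have h4 : x * u * x⁻¹ * (s * u * s⁻¹)⁻¹ ∈ N := by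
    have h5 : x * u * x⁻¹ * (s * u * s⁻¹)⁻¹ = a * ((s * u * s⁻¹) * a⁻¹ * (s * u * s⁻¹)⁻¹) := by
      rw [← has]; group
    rw [h5]
    exact N.mul_mem ha (hN.conj_mem _ (N.inv_mem ha) _)
  have h5 : x * u * x⁻¹ * (s * u * s⁻¹)⁻¹ = 1 := by
    have := hc.disjoint.le_bot (Subgroup.mem_inf.mpr ⟨h4, h3⟩)
    exact Subgroup.mem_bot.mp this
  exact mul_inv_eq_one.mp h5

theorem DS.conj_in_C {S : Sylow 2 G} (D : DS (S : Subgroup G) n ρ σ) {x : G} (hx : x * ρ (h n) = ρ (h n) * x) :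
    ∃ s ∈ (S : Subgroup G), ∀ u ∈ (S : Subgroup G), x * u * x⁻¹ ∈ (S : Subgroup G) → x * u * x⁻¹ = s * u * s⁻¹ := by
  haveI : Fact (Nat.Prime 2) := ⟨Nat.prime_two⟩
  have hxC : x ∈ Subgroup.centralizer {ρ (h n)} := Subgroup.mem_centralizer_singleton_iff.mpr hx
  obtain ⟨s, hs, H⟩ := npc_conj (S.subtype D.S_le) D.npc_cent ⟨x, hxC⟩
  refine ⟨s, hs, ?_⟩
  intro u hu hxu
  exact congrArg Subtype.val (H ⟨u, D.S_le hu⟩ hu hxu)

theorem DS.not_conj {S : Sylow 2 G} (D : DS (S : Subgroup G) n ρ σ) (hn2 : 2 ≤ n) {x : G}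
    (hx : (D.V 0).map (MulAut.conj x).toMonoidHom = D.V 1) : False := by
  have hmem : ∀ u ∈ D.V 0, x * u * x⁻¹ ∈ D.V 1 := by
    intro u hu
    rw [← hx]; exact ⟨u, hu, rfl⟩
  -- reduce to the case of an element of the centralizer of `z`
  have key : ∀ x : G, (∀ u ∈ D.V 0, x * u * x⁻¹ ∈ D.V 1) → x * ρ (h n) * x⁻¹ = ρ (h n) → False := by
    intro x hm hxz
    rw [mul_inv_eq_iff_eq_mul] at hxz
    obtain ⟨s, hs, H⟩ := D.conj_in_C hxz
    have h0 : σ 0 ∈ D.V 0 := (D.mem_V 0 _).mpr (Or.inr (Or.inr (Or.inl rfl)))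
    have h1 := H (σ 0) (D.ms 0) (D.V_le 1 (hm _ h0))
    have h2 := hm _ h0
    rw [h1] at h2
    have h3 : ∃ k, s * σ 0 * s⁻¹ = σ (k + k) := by
      rcases D.cases s hs with ⟨i, rfl⟩ | ⟨i, rfl⟩
      · exact ⟨-i, by rw [D.conj_rs]; congr 1; ring⟩
      · exact ⟨i, by rw [D.conj_ss]; congr 1; ring⟩
    obtain ⟨k, hk⟩ := h3
    rw [hk] at h2
    rcases (D.mem_V 1 _).mp h2 with h4 | h4 | h4 | h4
    · exact D.s1 _ h4
    · exact D.ne _ _ h4.symm
    · have h5 := D.is h4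
      exact par_ne D.hn (a := k) (b := 0) (by rw [h5]; ring)
    · have h5 := D.is h4
      exact par_ne D.hn (a := k) (b := q n) (by rw [h5, qq hn2]; ring)
  have hz0 : ρ (h n) ∈ D.V 0 := (D.mem_V 0 _).mpr (Or.inr (Or.inl rfl))
  have hqV : ∀ i j, ρ (q n) * σ (i + j) * (ρ (q n))⁻¹ = σ (i + (j + h n)) := by
    intro i j
    rw [D.conj_rs]; congr 1
    have := qq hn2
    have h1 := hh D.hn
    linear_combination (-1 : ZMod (2 ^ n)) * this - h1
  have hqz : ρ (q n) * ρ (h n) * (ρ (q n))⁻¹ = ρ (h n) := D.conj_rr _ _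
  have hqm : ∀ i, ∀ u ∈ D.V i, ρ (q n) * u * (ρ (q n))⁻¹ ∈ D.V i := by
    intro i u hu
    rcases (D.mem_V i u).mp hu with rfl | rfl | rfl | rfl
    · rw [mul_one, mul_inv_cancel]; exact Subgroup.one_mem _
    · rw [hqz]; exact hu
    · have := hqV i 0
      rw [add_zero, zero_add] at this
      rw [this]
      exact (D.mem_V i _).mpr (Or.inr (Or.inr (Or.inr rfl)))
    · rw [hqV, hh D.hn, add_zero]
      exact (D.mem_V i _).mpr (Or.inr (Or.inr (Or.inl rfl)))
  -- `q' = x ρ(q) x⁻¹` acts on `V 1`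
  have hqm' : ∀ u ∈ D.V 1, (x * ρ (q n) * x⁻¹) * u * (x * ρ (q n) * x⁻¹)⁻¹ ∈ D.V 1 := by
    intro u hu
    rw [← hx] at hu
    obtain ⟨v, hv, rfl⟩ := hu
    change (x * ρ (q n) * x⁻¹) * (x * v * x⁻¹) * (x * ρ (q n) * x⁻¹)⁻¹ ∈ D.V 1
    have : (x * ρ (q n) * x⁻¹) * (x * v * x⁻¹) * (x * ρ (q n) * x⁻¹)⁻¹ = x * (ρ (q n) * v * (ρ (q n))⁻¹) * x⁻¹ := by group
    rw [this]
    exact hmem _ (hqm 0 v hv)
  by_cases hzz : x * ρ (h n) * x⁻¹ = ρ (h n)
  · exact key x hmem hzz
  · -- x z x⁻¹ = σ a where a = 1 or 1 + h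
    have hw := hmem _ hz0
    have hne1 : x * ρ (h n) * x⁻¹ ≠ 1 := by
      intro h1
      rw [mul_inv_eq_one] at h1
      exact D.z1 (mul_eq_left.mp h1)
    have ha : ∃ a, x * ρ (h n) * x⁻¹ = σ a ∧ (a = 1 ∨ a = 1 + h n) := by
      rcases (D.mem_V 1 _).mp hw with h1 | h1 | h1 | h1
      · exact absurd h1 hne1
      · exact absurd h1 hzz
      · exact ⟨_, h1, Or.inl rfl⟩
      · exact ⟨_, h1, Or.inr rfl⟩
    obtain ⟨a, ha, ha'⟩ := ha
    have hbV : σ (a + h n) ∈ D.V 1 := by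
      rcases ha' with rfl | rfl
      · exact (D.mem_V 1 _).mpr (Or.inr (Or.inr (Or.inr rfl)))
      · rw [add_assoc, hh D.hn, add_zero]
        exact (D.mem_V 1 _).mpr (Or.inr (Or.inr (Or.inl rfl)))
    have hVcases : ∀ u ∈ D.V 1, u = 1 ∨ u = ρ (h n) ∨ u = σ a ∨ u = σ (a + h n) := by
      intro u hu
      rcases (D.mem_V 1 _).mp hu with h1 | h1 | h1 | h1
      · exact Or.inl h1
      · exact Or.inr (Or.inl h1)
      · rcases ha' with rfl | rfl
        · exact Or.inr (Or.inr (Or.inl h1))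
        · rw [add_assoc, hh D.hn, add_zero]; exact Or.inr (Or.inr (Or.inr h1))
      · rcases ha' with rfl | rfl
        · exact Or.inr (Or.inr (Or.inr h1))
        · exact Or.inr (Or.inr (Or.inl h1))
    set y := x * ρ (q n) * x⁻¹ with hy
    have hya : y * σ a * y⁻¹ = σ a := by
      rw [← ha, hy]
      calc x * ρ (q n) * x⁻¹ * (x * ρ (h n) * x⁻¹) * (x * ρ (q n) * x⁻¹)⁻¹
          = x * (ρ (q n) * ρ (h n) * (ρ (q n))⁻¹) * x⁻¹ := by group
        _ = _ := by rw [hqz]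
    have hinj : ∀ u v, y * u * y⁻¹ = y * v * y⁻¹ → u = v := fun u v h5 => mul_left_cancel (mul_right_cancel h5)
    have hyb : y * σ (a + h n) * y⁻¹ = ρ (h n) := by
      rcases hVcases _ (hqm' _ hbV) with h1 | h1 | h1 | h1
      · exfalso
        rw [mul_inv_eq_one] at h1
        exact D.s1 _ (mul_eq_left.mp h1)
      · exact h1
      · exfalso
        have h2 := D.is (hinj _ _ (h1.trans hya.symm))
        exact h_ne D.hn (add_eq_left.mp h2)
      · -- then `y` centralizes `V 1`, so `ρ q` centralizes `V 0`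
        exfalso
        -- transport back
        have h0 : σ 0 ∈ D.V 0 := (D.mem_V 0 _).mpr (Or.inr (Or.inr (Or.inl rfl)))
        have h2 := hmem _ h0
        have h3 : y * (x * σ 0 * x⁻¹) * y⁻¹ = x * σ 0 * x⁻¹ := by
          rcases hVcases _ h2 with h4 | h4 | h4 | h4
          · rw [h4, mul_one, mul_inv_cancel]
          · rw [h4]
            have h6 : ρ (h n) = σ a * σ (a + h n) := by rw [D.ss]; congr 1; ring
            rw [h6]
            calc y * (σ a * σ (a + h n)) * y⁻¹ = (y * σ a * y⁻¹) * (y * σ (a + h n) * y⁻¹) := by group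
              _ = _ := by rw [hya, h1]
          · rw [h4, hya]
          · rw [h4, h1]
        have h4 : x * (ρ (q n) * σ 0 * (ρ (q n))⁻¹) * x⁻¹ = x * σ 0 * x⁻¹ := by
          rw [← h3, hy]; group
        have h5 := mul_left_cancel (mul_right_cancel h4)
        have h6 := hqV 0 0
        rw [add_zero, zero_add, zero_add] at h6
        rw [h6] at h5
        exact h_ne D.hn (D.is h5)
    have hqa : ρ (q n) * σ a * (ρ (q n))⁻¹ = σ (a + h n) := by
      have := hqV a 0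
      rwa [add_zero, zero_add] at this
    apply key (y * ρ (q n) * x)
    · intro u hu
      have h1 : y * ρ (q n) * x * u * (y * ρ (q n) * x)⁻¹ = y * (ρ (q n) * (x * u * x⁻¹) * (ρ (q n))⁻¹) * y⁻¹ := by group
      rw [h1]
      exact hqm' _ (hqm 1 _ (hmem u hu))
    · have h1 : y * ρ (q n) * x * ρ (h n) * (y * ρ (q n) * x)⁻¹ = y * (ρ (q n) * (x * ρ (h n) * x⁻¹) * (ρ (q n))⁻¹) * y⁻¹ := by group
      rw [h1, ha, hqa, hyb]

theorem DS.conj_V {S : Subgroup G} (D : DS S n ρ σ) (i : ZMod (2 ^ n)) :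
    (∃ x : G, (D.V i).map (MulAut.conj x).toMonoidHom = D.V 0) ∨
      ∃ x : G, (D.V i).map (MulAut.conj x).toMonoidHom = D.V 1 := by
  have key : ∀ i k, (D.V (i + k + k)).map (MulAut.conj (ρ k)).toMonoidHom = D.V i := by
    intro i k
    apply Subgroup.eq_of_le_of_card_ge
    · rintro _ ⟨u, hu, rfl⟩
      change ρ k * u * (ρ k)⁻¹ ∈ D.V i
      rcases (D.mem_V _ u).mp hu with rfl | rfl | rfl | rfl
      · rw [mul_one, mul_inv_cancel]; exact Subgroup.one_mem _
      · rw [D.conj_rr]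
        exact (D.mem_V i _).mpr (Or.inr (Or.inl rfl))
      · rw [D.conj_rs]
        refine (D.mem_V i _).mpr (Or.inr (Or.inr (Or.inl ?_)))
        congr 1; ring
      · rw [D.conj_rs]
        refine (D.mem_V i _).mpr (Or.inr (Or.inr (Or.inr ?_)))
        congr 1; ring
    · rw [Subgroup.card_map_of_injective (MulAut.conj (ρ k)).injective]
      haveI := D.V_klein i
      haveI := D.V_klein (i + k + k)
      rw [IsKleinFour.card_four, IsKleinFour.card_four]
  rcases par i with ⟨k, hk⟩ | ⟨k, hk⟩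
  · left
    refine ⟨ρ k, ?_⟩
    have := key 0 k
    rwa [zero_add, ← hk] at this
  · right
    refine ⟨ρ k, ?_⟩
    have h1 := key 1 k
    have h2 : (1 : ZMod (2 ^ n)) + k + k = i := by rw [hk]; ring
    rwa [h2] at h1

end

end Cfsg.Agent.H4.DihF
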