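import Mathlib
import Cfsg.Agent.H3_FS

/-!
# The exterior square of a character
-/

set_option autoImplicit false

open scoped ComplexConjugate Matrix

namespace Cfsg.Agent.H4.Ext2

open Cfsg Cfsg.Agent.H3.CharIrr Cfsg.Agent.H3.FS

variable {G : Type*} [Group G] [Fintype G]

/-- skew matrices -/
def W (n : ℕ) : Submodule ℂ (M n) := LinearMap.ker (LinearMap.id + (T : M n →ₗ[ℂ] M n))

theorem mem_W {n : ℕ} (X : M n) : X ∈ W n ↔ X + Xᵀ = 0 := by
  rw [W, LinearMap.mem_ker]; rfl

theorem L_one {n : ℕ} : L (1 : M n) = LinearMap.id := by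
  apply LinearMap.ext; intro X
  rw [L_apply, one_mul, Matrix.transpose_one, mul_one]; rfl

theorem L_mem {n : ℕ} (A : M n) {X : M n} (hX : X ∈ W n) : L A X ∈ W n := by
  rw [mem_W] at *
  rw [L_apply, Matrix.transpose_mul, Matrix.transpose_mul, Matrix.transpose_transpose, ← mul_assoc, ← add_mul,
    ← mul_add, hX, mul_zero, zero_mul]

/-- the exterior square as a representation on skew matrices -/
noncomputable def extRep {n : ℕ} (ρ : Representation ℂ G (Fin n → ℂ)) : Representation ℂ G (W n) where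
  toFun g := (L (mat ρ g)).restrict (fun X hX => L_mem _ hX)
  map_one' := by
    apply LinearMap.ext; intro X
    apply Subtype.ext
    rw [LinearMap.restrict_apply]
    show L (mat ρ 1) (X : M n) = X
    rw [mat_one, L_one]; rfl
  map_mul' g h := by
    apply LinearMap.ext; intro X
    apply Subtype.ext
    show L (mat ρ (g * h)) (X : M n) = L (mat ρ g) (L (mat ρ h) X)
    rw [mat_mul, H3.FS.L_mul]; rfl

theorem extRep_char {n : ℕ} (ρ : Representation ℂ G (Fin n → ℂ)) (g : G) :
    (extRep ρ).character g = (ρ.character g ^ 2 - ρ.character (g * g)) / 2 := by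
  have hf : ∀ X : M n, (L (mat ρ g) ∘ₗ ((1 / 2 : ℂ) • (LinearMap.id - (T : M n →ₗ[ℂ] M n)))) X ∈ W n := by
    intro X
    rw [LinearMap.comp_apply]
    apply L_mem
    rw [mem_W, LinearMap.smul_apply, LinearMap.sub_apply, LinearMap.id_apply, T_apply, Matrix.transpose_smul,
      Matrix.transpose_sub, Matrix.transpose_transpose, ← smul_add]
    simp
  have h1 := LinearMap.trace_restrict_eq_of_forall_mem (W n) _ hf
  have h2 : (L (mat ρ g) ∘ₗ ((1 / 2 : ℂ) • (LinearMap.id - (T : M n →ₗ[ℂ] M n)))).restrict (fun X (_ : X ∈ W n) => hf X) =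
      (L (mat ρ g)).restrict (fun X hX => L_mem (mat ρ g) hX) := by
    apply LinearMap.ext; intro X
    apply Subtype.ext
    rw [LinearMap.restrict_apply, LinearMap.restrict_apply]
    show (L (mat ρ g) ((1 / 2 : ℂ) • ((X : M n) - (X : M n)ᵀ))) = L (mat ρ g) X
    have h3 := (mem_W (X : M n)).mp X.2
    have h4 : (X : M n)ᵀ = -(X : M n) := (neg_eq_of_add_eq_zero_right h3).symm
    rw [h4, sub_neg_eq_add, ← two_smul ℂ (X : M n), smul_smul]
    norm_num
  rw [h2] at h1
  show LinearMap.trace ℂ (W n) ((L (mat ρ g)).restrict (fun X hX => L_mem (mat ρ g) hX)) = _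
  rw [h1, LinearMap.comp_smul, LinearMap.comp_sub, LinearMap.comp_id, map_smul, map_sub, trace_L, trace_LT,
    mat_trace, ← mat_mul, mat_trace, smul_eq_mul]
  ring

/-- the exterior square of a character is a character -/
theorem isCharacter {χ : G → ℂ} (h : IsCharacter G χ) :
    IsCharacter G (fun g => (χ g ^ 2 - χ (g * g)) / 2) := by
  obtain ⟨n, ρ, rfl⟩ := h
  have : (fun g => (ρ.character g ^ 2 - ρ.character (g * g)) / 2) = (extRep ρ).character := by
    funext g
    exact (extRep_char ρ g).symm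
  rw [this]
  exact isCharacter_of_rep (extRep ρ)

end Cfsg.Agent.H4.Ext2
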