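import Mathlib
import Cfsg.Agent.H4_Inv
import Cfsg.Agent.H4_Util

set_option autoImplicit false

/-!
Klein four Sylow 2-subgroups: fusion.
-/

namespace Cfsg.Agent.H4.Klein

open Cfsg.Agent.H4.Inv Cfsg.Agent.H4.Util

variable {G : Type*} [Group G]

/-- an element of the normalizer of an abelian Sylow subgroup swapping `a` and `b` -/
theorem eq_of_swap [Finite G] {p : ℕ} [Fact p.Prime] (P : Sylow p G)
    (hc : ∀ a ∈ (P : Subgroup G), ∀ b ∈ (P : Subgroup G), a * b = b * a)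
    {n a b : G} (hn : n ∈ Subgroup.normalizer ((P : Subgroup G) : Set G)) (ha : a ∈ (P : Subgroup G))
    (hab : n * a * n⁻¹ = b) (hba : n ^ p * a * (n ^ p)⁻¹ = a) : b = a := by
  obtain ⟨k, m, hm, hkm⟩ := Nat.exists_eq_pow_mul_and_not_dvd (n := orderOf n) (orderOf_pos n).ne' p
    (Fact.out : p.Prime).ne_one
  -- n ^ m is in P
  have h1 : n ^ m ∈ (P : Subgroup G) := by
    have h2 : orderOf (n ^ m) ∣ p ^ k := by
      apply orderOf_dvd_of_pow_eq_one
      rw [← pow_mul, mul_comm, ← hkm, pow_orderOf_eq_one]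
    obtain ⟨j, -, hj⟩ := (Nat.dvd_prime_pow Fact.out).mp h2
    have h3 : IsPGroup p (Subgroup.zpowers (n ^ m)) := zpowers_isPGroup hj
    have h4 := h3.inf_normalizer_sylow P
    have h5 : n ^ m ∈ Subgroup.zpowers (n ^ m) ⊓ Subgroup.normalizer ((P : Subgroup G) : Set G) :=
      ⟨Subgroup.mem_zpowers _, Subgroup.pow_mem _ hn m⟩
    have h6 : n ^ m ∈ Subgroup.zpowers (n ^ m) ⊓ (P : Subgroup G) := h4 ▸ h5
    exact h6.2
  have h2 : n ^ m * a * (n ^ m)⁻¹ = a := by rw [hc _ h1 a ha, mul_inv_cancel_right]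
  -- the set of exponents fixing a
  have hcop : Nat.Coprime p m := (Nat.Prime.coprime_iff_not_dvd Fact.out).mpr hm
  have hz : ∀ i : ℤ, n ^ ((p : ℤ) * i) * a * (n ^ ((p : ℤ) * i))⁻¹ = a := by
    intro i
    have hcm : Commute (n ^ p) a := mul_inv_eq_iff_eq_mul.mp hba
    have := (hcm.zpow_left i)
    rw [zpow_mul, zpow_natCast, this.eq, mul_inv_cancel_right]
  have hz2 : ∀ i : ℤ, n ^ ((m : ℤ) * i) * a * (n ^ ((m : ℤ) * i))⁻¹ = a := by
    intro i
    have hcm : Commute (n ^ m) a := mul_inv_eq_iff_eq_mul.mp h2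
    have := (hcm.zpow_left i)
    rw [zpow_mul, zpow_natCast, this.eq, mul_inv_cancel_right]
  have hb := Nat.gcd_eq_gcd_ab p m
  rw [hcop.gcd_eq_one] at hb
  rw [← hab]
  have e : n = n ^ ((p : ℤ) * Nat.gcdA p m) * n ^ ((m : ℤ) * Nat.gcdB p m) := by
    rw [← zpow_add, ← hb]
    simp
  calc n * a * n⁻¹ = n ^ ((p : ℤ) * Nat.gcdA p m) * (n ^ ((m : ℤ) * Nat.gcdB p m) * a *
      (n ^ ((m : ℤ) * Nat.gcdB p m))⁻¹) * (n ^ ((p : ℤ) * Nat.gcdA p m))⁻¹ := by
        conv_lhs => rw [e]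
        group
    _ = a := by rw [hz2, hz]

theorem comm (P : Sylow 2 G) (hP : IsKleinFour (P : Subgroup G)) :
    ∀ a ∈ (P : Subgroup G), ∀ b ∈ (P : Subgroup G), a * b = b * a := by
  intro a ha b hb
  haveI := hP
  exact congrArg Subtype.val (IsKleinFour.isMulCommutative (G := (P : Subgroup G)) |>.1.1 ⟨a, ha⟩ ⟨b, hb⟩)

theorem sq (P : Sylow 2 G) (hP : IsKleinFour (P : Subgroup G)) :
    ∀ a ∈ (P : Subgroup G), a * a = 1 := by
  intro a ha
  haveI := hP
  exact congrArg Subtype.val (IsKleinFour.mul_self (G := (P : Subgroup G)) ⟨a, ha⟩)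

theorem third (P : Sylow 2 G) (hP : IsKleinFour (P : Subgroup G)) {a b c : G}
    (ha : a ∈ (P : Subgroup G)) (hb : b ∈ (P : Subgroup G)) (hc : c ∈ (P : Subgroup G))
    (ha1 : a ≠ 1) (hb1 : b ≠ 1) (hab : a ≠ b) (hc1 : c ≠ 1) (hca : c ≠ a) (hcb : c ≠ b) : c = a * b := by
  haveI := hP
  have h : ∀ x y : (P : Subgroup G), (x : G) ≠ y → x ≠ y := fun x y h h' => h (congrArg Subtype.val h')
  have := IsKleinFour.eq_mul_of_ne_all (G := (P : Subgroup G)) (x := ⟨a, ha⟩) (y := ⟨b, hb⟩) (z := ⟨c, hc⟩)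
    (h _ _ ha1) (h _ _ hb1) (h _ _ hab) (h _ _ hc1) (h _ _ hca) (h _ _ hcb)
  exact congrArg Subtype.val this

/-- conjugate elements of an abelian Sylow subgroup are conjugate in the normalizer -/
theorem conj_in_normalizer [Finite G] {p : ℕ} [Fact p.Prime] (P : Sylow p G)
    (hc : ∀ a ∈ (P : Subgroup G), ∀ b ∈ (P : Subgroup G), a * b = b * a)
    {a b : G} (ha : a ∈ (P : Subgroup G)) (hb : b ∈ (P : Subgroup G)) (h : IsConj a b) :
    ∃ n ∈ Subgroup.normalizer ((P : Subgroup G) : Set G), n * a * n⁻¹ = b := by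
  haveI : IsMulCommutative (P : Subgroup G) := ⟨⟨fun x y => Subtype.ext (hc x x.2 y y.2)⟩⟩
  obtain ⟨g, hg⟩ := isConj_iff.mp h
  obtain ⟨n, hn, hn2⟩ := P.conj_eq_normalizer_conj_of_mem a g⁻¹ ha (by rw [inv_inv, hg]; exact hb)
  refine ⟨n⁻¹, Subgroup.inv_mem _ hn, ?_⟩
  rw [inv_inv, ← hn2, inv_inv, hg]

theorem dichotomy [Finite G] (P : Sylow 2 G) (hP : IsKleinFour (P : Subgroup G)) :
    (∀ x ∈ (P : Subgroup G), ∀ y ∈ (P : Subgroup G), x ≠ 1 → y ≠ 1 → IsConj x y) ∨
    (∀ x ∈ (P : Subgroup G), ∀ y ∈ (P : Subgroup G), IsConj x y → x = y) := by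
  by_cases h : ∀ x ∈ (P : Subgroup G), ∀ y ∈ (P : Subgroup G), IsConj x y → x = y
  · right; exact h
  · left
    push Not at h
    obtain ⟨a, ha, b, hb, hab, hne⟩ := h
    have hcm := comm P hP
    obtain ⟨n, hn, hnab⟩ := conj_in_normalizer P hcm ha hb hab
    have ha1 : a ≠ 1 := by
      rintro rfl
      apply hne
      rw [← hnab]; simp
    have hb1 : b ≠ 1 := by
      rintro rfl
      apply hne
      have : a = n⁻¹ * (n * a * n⁻¹) * n := by group
      rw [this, hnab]; simp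
    set c := n * b * n⁻¹ with hc
    have hcP : c ∈ (P : Subgroup G) := (Subgroup.mem_normalizer_iff.mp hn b).mp hb
    have hc1 : c ≠ 1 := by
      intro h
      apply hb1
      have : b = n⁻¹ * c * n := by rw [hc]; group
      rw [this, h]; simp
    have hcb : c ≠ b := by
      intro h
      apply hne
      have e1 : a = n⁻¹ * b * n := by rw [← hnab]; group
      have e2 : b = n⁻¹ * b * n := by nth_rewrite 2 [← h]; rw [hc]; group
      rw [e1, ← e2]
    have hca : c ≠ a := by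
      intro h
      apply hne
      symm
      apply eq_of_swap P hcm hn ha hnab
      rw [pow_two]
      calc n * n * a * (n * n)⁻¹ = n * (n * a * n⁻¹) * n⁻¹ := by group
        _ = a := by rw [hnab, ← hc, h]
    have hbc : IsConj b c := isConj_iff.mpr ⟨n, rfl⟩
    have hcab := third P hP ha hb hcP ha1 hb1 hne hc1 hca hcb
    intro x hx y hy hx1 hy1
    have hall : ∀ x ∈ (P : Subgroup G), x ≠ 1 → IsConj a x := by
      intro x hx hx1
      by_cases h1 : x = a
      · subst h1; exact IsConj.refl x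
      by_cases h2 : x = b
      · subst h2; exact hab
      have := third P hP ha hb hx ha1 hb1 hne hx1 h1 h2
      rw [this, ← hcab]
      exact hab.trans hbc
    exact (hall x hx hx1).symm.trans (hall y hy hy1)

theorem orderOf_eq (P : Sylow 2 G) (hP : IsKleinFour (P : Subgroup G)) {a : G}
    (ha : a ∈ (P : Subgroup G)) (ha1 : a ≠ 1) : orderOf a = 2 :=
  orderOf_eq_two_of ha1 (sq P hP a ha)

theorem exists_mem [Finite G] (P : Sylow 2 G) {t : G} (ht : orderOf t = 2) :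
    ∃ x ∈ (P : Subgroup G), IsConj t x := by
  obtain ⟨a, ha⟩ := exists_conj_le P (Subgroup.zpowers t) (zpowers_isPGroup (k := 1) (by simpa using ht))
  exact ⟨_, ha t (Subgroup.mem_zpowers t), isConj_iff.mpr ⟨a, rfl⟩⟩

theorem card_of_all [Finite G] (P : Sylow 2 G) (hP : IsKleinFour (P : Subgroup G))
    (h : ∀ x ∈ (P : Subgroup G), ∀ y ∈ (P : Subgroup G), x ≠ 1 → y ≠ 1 → IsConj x y) :
    Nat.card {C : ConjClasses G // ∃ t : G, orderOf t = 2 ∧ ConjClasses.mk t = C} = 1 := by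
  haveI := hP
  rw [Nat.card_eq_one_iff_unique]
  constructor
  · refine ⟨?_⟩
    rintro ⟨_, s, hs, rfl⟩ ⟨_, t, ht, rfl⟩
    apply Subtype.ext
    simp only
    rw [ConjClasses.mk_eq_mk_iff_isConj]
    obtain ⟨x, hx, hsx⟩ := exists_mem P hs
    obtain ⟨y, hy, hty⟩ := exists_mem P ht
    have hx1 : x ≠ 1 := by
      rintro rfl
      exact ne_one hs (by simpa using hsx)
    have hy1 : y ≠ 1 := by
      rintro rfl
      exact ne_one ht (by simpa using hty)
    exact (hsx.trans (h x hx y hy hx1 hy1)).trans hty.symm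
  · have h4 : Nat.card (P : Subgroup G) = 4 := IsKleinFour.card_four
    haveI : Nontrivial (P : Subgroup G) := by
      rw [← Finite.one_lt_card_iff_nontrivial, h4]; norm_num
    obtain ⟨⟨a, ha⟩, ha1⟩ := exists_ne (1 : (P : Subgroup G))
    exact ⟨⟨_, a, orderOf_eq P hP ha (fun h => ha1 (Subtype.ext h)), rfl⟩⟩

theorem card_of_none [Finite G] (P : Sylow 2 G) (hP : IsKleinFour (P : Subgroup G))
    (h : ∀ x ∈ (P : Subgroup G), ∀ y ∈ (P : Subgroup G), IsConj x y → x = y) :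
    Nat.card {C : ConjClasses G // ∃ t : G, orderOf t = 2 ∧ ConjClasses.mk t = C} = 3 := by
  classical
  haveI := hP
  have h4 : Nat.card (P : Subgroup G) = 4 := IsKleinFour.card_four
  haveI : Fintype (P : Subgroup G) := Fintype.ofFinite _
  have h3 : Nat.card {x : (P : Subgroup G) // x ≠ 1} = 3 := by
    rw [Nat.card_eq_fintype_card, Fintype.card_subtype_compl, Fintype.card_subtype_eq,
      ← Nat.card_eq_fintype_card, h4]
  rw [← h3]
  symm
  refine Nat.card_eq_of_bijective (fun x : {x : (P : Subgroup G) // x ≠ 1} =>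
    (⟨ConjClasses.mk (x.1 : G), x.1, orderOf_eq P hP x.1.2 (fun h => x.2 (Subtype.ext h)), rfl⟩ :
      {C : ConjClasses G // ∃ t : G, orderOf t = 2 ∧ ConjClasses.mk t = C})) ⟨?_, ?_⟩
  · rintro ⟨⟨x, hx⟩, hx1⟩ ⟨⟨y, hy⟩, hy1⟩ hxy
    have h5 := congrArg Subtype.val hxy
    simp only at h5
    rw [ConjClasses.mk_eq_mk_iff_isConj] at h5
    apply Subtype.ext
    apply Subtype.ext
    exact h x hx y hy h5
  · rintro ⟨_, t, ht, rfl⟩
    obtain ⟨x, hx, htx⟩ := exists_mem P ht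
    have hx1 : x ≠ 1 := by
      rintro rfl
      exact ne_one ht (by simpa using htx)
    refine ⟨⟨⟨x, hx⟩, fun h => hx1 (congrArg Subtype.val h)⟩, ?_⟩
    apply Subtype.ext
    simp only
    rw [ConjClasses.mk_eq_mk_iff_isConj]
    exact htx.symm

end Cfsg.Agent.H4.Klein
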