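import Cfsg.Agent.H8_Cox
import Cfsg.Agent.H8_Act5

/-!
Groups presented on letters `1, …, k` (all other letters killed): generic lemmas.
-/

set_option autoImplicit false
set_option maxRecDepth 100000

namespace Cfsg.Agent.H4.Ltr

open Cfsg.Agent.H8 Cfsg.Agent.H8.CE Cfsg.Agent.H8.CS Cfsg.Agent.H8.Net Cfsg.Agent.H8.Act Cfsg.Agent.H8.Cox
open Cfsg.Agent.H8.Act2

universe u

/-- the relations on the letters -/
structure Ok (ic k : ℕ) (rels : List (List ℕ)) {G : Type u} [Group G] (x : ℕ → G) : Prop where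
  hic : ∀ y, y < 16 → x (il ic y) = (x y)⁻¹
  hk : ∀ y, (y = 0 ∨ k < y) → x y = 1
  hrels : ∀ w ∈ rels, ev x w = 1

theorem Ok.h0 {ic k : ℕ} {rels : List (List ℕ)} {G : Type u} [Group G] {x : ℕ → G} (h : Ok ic k rels x) : x 0 = 1 :=
  h.hk 0 (Or.inl rfl)

/-- the universal relators -/
def RR (ic k : ℕ) (rels : List (List ℕ)) : Set (FreeGroup ℕ) :=
  {r | (∃ y, y < 16 ∧ r = FreeGroup.of (il ic y) * FreeGroup.of y) ∨ (∃ y, (y = 0 ∨ k < y) ∧ r = FreeGroup.of y) ∨
    ∃ w ∈ rels, r = ev FreeGroup.of w}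

/-- the universal group -/
abbrev P (ic k : ℕ) (rels : List (List ℕ)) : Type := PresentedGroup (RR ic k rels)

/-- its letters -/
def xg (ic k : ℕ) (rels : List (List ℕ)) (y : ℕ) : P ic k rels := PresentedGroup.of y

theorem ev_map {G K : Type*} [Group G] [Group K] (φ : G →* K) (x : ℕ → G) (w : List ℕ) :
    φ (ev x w) = ev (fun y => φ (x y)) w := by
  induction w with
  | nil => simp
  | cons y w ih => rw [ev_cons, map_mul, ih, ev_cons]

variable {ic k : ℕ} {rels : List (List ℕ)}

theorem mk_rel {r : FreeGroup ℕ} (hr : r ∈ RR ic k rels) : PresentedGroup.mk (RR ic k rels) r = 1 :=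
  PresentedGroup.mk_eq_one_iff.2 (Subgroup.subset_normalClosure hr)

theorem xg_ok : Ok ic k rels (xg ic k rels) where
  hic := by
    intro y hy
    have h := mk_rel (ic := ic) (k := k) (rels := rels) (r := FreeGroup.of (il ic y) * FreeGroup.of y) (Or.inl ⟨y, hy, rfl⟩)
    rw [map_mul] at h
    exact eq_inv_of_mul_eq_one_left h
  hk := fun y hy => mk_rel (r := FreeGroup.of y) (Or.inr (Or.inl ⟨y, hy, rfl⟩))
  hrels := by
    intro w hw
    have h := mk_rel (ic := ic) (k := k) (rels := rels) (r := ev FreeGroup.of w) (Or.inr (Or.inr ⟨w, hw, rfl⟩))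
    rw [ev_map] at h
    exact h

/-- universal property -/
theorem lift_ok {G : Type u} [Group G] {x : ℕ → G} (h : Ok ic k rels x) :
    ∃ Φ : P ic k rels →* G, ∀ y, Φ (xg ic k rels y) = x y := by
  have hr : ∀ r ∈ RR ic k rels, FreeGroup.lift x r = 1 := by
    rintro r (⟨y, hy, rfl⟩ | ⟨y, hy, rfl⟩ | ⟨w, hw, rfl⟩)
    · rw [map_mul, FreeGroup.lift_apply_of, FreeGroup.lift_apply_of, h.hic y hy]
      simp
    · rw [FreeGroup.lift_apply_of]; exact h.hk y hy
    · rw [ev_map]
      have e : (fun y => FreeGroup.lift x (FreeGroup.of y)) = x := by funext y; simp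
      rw [e]
      exact h.hrels w hw
  exact ⟨PresentedGroup.toGroup hr, fun y => by simp [xg]⟩

/-- subgroups generated by lists of letters -/
def Hl {G : Type u} [Group G] (x : ℕ → G) (l : List ℕ) : Subgroup G := Subgroup.closure (x '' {y | y ∈ l})

theorem Hl_mono {G : Type u} [Group G] (x : ℕ → G) {l l' : List ℕ} (h : (l.all fun y => l'.contains y) = true) :
    Hl x l ≤ Hl x l' := by
  apply Subgroup.closure_mono
  apply Set.image_mono
  intro y hy
  rw [List.all_eq_true] at h
  have := h y hy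
  rwa [List.contains_iff_mem] at this

theorem mem_Hl {G : Type u} [Group G] (x : ℕ → G) {l : List ℕ} {y : ℕ} (h : l.contains y = true) : x y ∈ Hl x l :=
  Subgroup.subset_closure ⟨y, by rwa [List.contains_iff_mem] at h, rfl⟩

theorem Hl_map {G K : Type*} [Group G] [Group K] (φ : G →* K) (x : ℕ → G) (l : List ℕ) :
    (Hl x l).map φ = Hl (fun y => φ (x y)) l := by
  unfold Hl
  rw [MonoidHom.map_closure, ← Set.image_comp]
  rfl

/-- the letters generate -/
theorem top_eq {l : List ℕ} (hl : ((List.range k).all fun i => l.contains (i + 1)) = true) :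
    Hl (xg ic k rels) l = ⊤ := by
  rw [← top_le_iff, ← PresentedGroup.closure_range_of (RR ic k rels), Subgroup.closure_le]
  rintro _ ⟨a, rfl⟩
  by_cases ha : a = 0 ∨ k < a
  · have h : PresentedGroup.of (rels := RR ic k rels) a = 1 := (xg_ok (ic := ic) (k := k) (rels := rels)).hk a ha
    rw [h]
    exact (Hl (xg ic k rels) l).one_mem
  · push Not at ha
    rw [List.all_eq_true] at hl
    have h1 := hl (a - 1) (List.mem_range.2 (by omega))
    have e : a - 1 + 1 = a := by omega
    rw [e] at h1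
    exact mem_Hl (xg ic k rels) h1

theorem sub_rels {G : Type u} [Group G] {x : ℕ → G} (h : ∀ w ∈ rels, ev x w = 1) {rs : List (List ℕ)}
    (hs : (rs.all fun w => rels.contains w) = true) : ∀ w ∈ rs, ev x w = 1 := by
  intro w hw
  rw [List.all_eq_true] at hs
  have := hs w hw
  rw [List.contains_iff_mem] at this
  exact h w this

/-- the Coxeter relations of a diagram on the letters `l`, in both orders -/
def coxR (lab : ℕ → ℕ → ℕ) (l : List ℕ) : List (List ℕ) :=
  (l.flatMap fun i => (l.filter fun j => i != j).map fun j => (i, j)).map fun p => coxW p.1 p.2 (lab p.1 p.2)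

theorem xP_ok {L : List Nt} {n kk : ℕ}
    (hs : sysOk L n = true) (hn : n ≤ 2 ^ kk) (hi : invOk L n kk ic = true)
    (hk : ∀ y, y < 16 → (y = 0 ∨ k < y) → net L y = .nil)
    (hr : eqAll L n kk (rels.map fun w => (w, [])) = true) (hlt : ltOk rels = true) :
    Ok ic k rels (xP hs hn hi) where
  hic := fun y hy => xP_il _ _ _ y hy
  hk := by
    intro y hy
    by_cases h16 : y < 16
    · exact xP_eq_one _ _ _ _ (hk y h16 hy)
    · unfold xP
      rw [dif_neg h16]
  hrels := relP_of hs hn hi hr hlt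

theorem compat_of {L : List Nt} {n kk : ℕ}
    (hs : sysOk L n = true) (hn : n ≤ 2 ^ kk) (hi : invOk L n kk ic = true)
    (h : Ok ic k rels (xP hs hn hi)) :
    ∃ φ : P ic k rels →* Equiv.Perm (Fin n), Compat φ (xg ic k rels) L := by
  obtain ⟨φ, hφ⟩ := lift_ok h
  refine ⟨φ, ?_⟩
  intro y hy i
  rw [hφ y]
  exact xP_inv_apply hs hn hi y hy i

end Cfsg.Agent.H4.Ltr
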