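import Cfsg.Agent.H4_MfA
import Cfsg.Agent.H4_MfB
import Cfsg.Agent.H4_MfT
import Cfsg.Agent.H8_Fi22eT
import Cfsg.Agent.H8_Fi22fT
import Cfsg.Agent.H8_Fi22gT
import Cfsg.Agent.H8_Fi23dT

/-!
The Weyl group of type E₇ and its quotient by the centre.
-/

set_option autoImplicit false
set_option maxRecDepth 100000

namespace Cfsg.Agent.H4.MfC

open Cfsg.Agent.H8 Cfsg.Agent.H8.CE Cfsg.Agent.H8.CS Cfsg.Agent.H8.Net Cfsg.Agent.H8.Act Cfsg.Agent.H8.Cox
open Cfsg.Agent.H8.Act2 Cfsg.Agent.H4.Ltr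

universe u

section
variable {G : Type u} [Group G] {x : ℕ → G} (hic : ∀ y, y < 16 → x (il MfR.ic y) = (x y)⁻¹) (h0 : x 0 = 1)
  (hrels : ∀ w ∈ MfR.rels, ev x w = 1)
include hic h0 hrels

theorem b5 : (Hl x [3, 4, 5, 6, 7]).relIndex (Hl x [2, 3, 4, 5, 6, 7]) ≤ 27 ∧
    (Hl x [3, 4, 5, 6, 7]).relIndex (Hl x [2, 3, 4, 5, 6, 7]) ≠ 0 := by
  have h := Fi22eT.bound (x := ren x [0, 2, 3, 4, 5, 6, 7]) (H := (Hl x [3, 4, 5, 6, 7]))
    (ren_hic hic (by decide +kernel)) h0 (ren_rels hrels (by decide +kernel)) (by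
      intro s hs
      simp only [Fi22eT.L, List.mem_cons, List.not_mem_nil, or_false] at hs
      rcases hs with rfl | rfl | rfl | rfl | rfl <;> exact mem_Hl x (by decide))
  rw [ren_image [0, 2, 3, 4, 5, 6, 7] 6 [2, 3, 4, 5, 6, 7] (by decide) (by decide)] at h
  exact h

theorem b6 : (Hl x [3, 4, 5, 6]).relIndex (Hl x [3, 4, 5, 6, 7]) ≤ 16 ∧
    (Hl x [3, 4, 5, 6]).relIndex (Hl x [3, 4, 5, 6, 7]) ≠ 0 := by
  have h := Fi22fT.bound (x := ren x [0, 3, 4, 5, 6, 7]) (H := (Hl x [3, 4, 5, 6]))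
    (ren_hic hic (by decide +kernel)) h0 (ren_rels hrels (by decide +kernel)) (by
      intro s hs
      simp only [Fi22fT.L, List.mem_cons, List.not_mem_nil, or_false] at hs
      rcases hs with rfl | rfl | rfl | rfl <;> exact mem_Hl x (by decide))
  rw [ren_image [0, 3, 4, 5, 6, 7] 5 [3, 4, 5, 6, 7] (by decide) (by decide)] at h
  exact h

theorem b7 : (⊥ : Subgroup G).relIndex (Hl x [3, 4, 5, 6]) ≤ 120 ∧
    (⊥ : Subgroup G).relIndex (Hl x [3, 4, 5, 6]) ≠ 0 := by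
  have h := Fi22gT.bound (x := ren x [0, 3, 4, 5, 6]) (H := (⊥ : Subgroup G))
    (ren_hic hic (by decide +kernel)) h0 (ren_rels hrels (by decide +kernel)) (by
      intro s hs
      simp [Fi22gT.L] at hs)
  rw [ren_image [0, 3, 4, 5, 6] 4 [3, 4, 5, 6] (by decide) (by decide)] at h
  exact h

theorem c5 : Nat.card (Hl x [2, 3, 4, 5, 6, 7]) ≤ 27 * (16 * (120)) ∧ Nat.card (Hl x [2, 3, 4, 5, 6, 7]) ≠ 0 := by
  have h := b7 hic h0 hrels
  rw [Subgroup.relIndex_bot_left] at h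
  exact card_le_of_relIndex (Hl_mono x (by decide)) (b5 hic h0 hrels)
    (card_le_of_relIndex (Hl_mono x (by decide)) (b6 hic h0 hrels) h)

theorem c4 : Nat.card (Hl x [1, 2, 3, 4, 5, 6, 7]) ≤ 56 * (27 * (16 * (120))) ∧
    Nat.card (Hl x [1, 2, 3, 4, 5, 6, 7]) ≠ 0 := by
  have h := Fi23dT.bound (x := ren x [0, 6, 5, 4, 3, 2, 1, 7]) (H := (Hl x [2, 3, 4, 5, 6, 7]))
    (ren_hic hic (by decide +kernel)) h0 (ren_rels hrels (by decide +kernel)) (by
      intro s hs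
      simp only [Fi23dT.L, List.mem_cons, List.not_mem_nil, or_false] at hs
      rcases hs with rfl | rfl | rfl | rfl | rfl | rfl <;> exact mem_Hl x (by decide))
  rw [ren_image [0, 6, 5, 4, 3, 2, 1, 7] 7 [1, 2, 3, 4, 5, 6, 7] (by decide) (by decide)] at h
  exact card_le_of_relIndex (Hl_mono x (by decide)) h (c5 hic h0 hrels)

end

/-! ### W(E₇) -/

abbrev E : Type := P MfR.ic 7 MfR.rels
noncomputable abbrev xe : ℕ → E := xg MfR.ic 7 MfR.rels

theorem xe_ok : Ok MfR.ic 7 MfR.rels xe := xg_ok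

theorem xe_top : Hl xe [1, 2, 3, 4, 5, 6, 7] = ⊤ := top_eq (by decide)

theorem cardE : Nat.card E ≤ 2903040 ∧ Nat.card E ≠ 0 := by
  have h := c4 xe_ok.hic xe_ok.h0 xe_ok.hrels
  rw [xe_top, Subgroup.card_top] at h
  exact h

instance : Finite E := Nat.finite_of_card_ne_zero cardE.2

theorem netA : ∀ y, y < 16 → (y = 0 ∨ 7 < y) → net MfA.L y = .nil := by
  intro y h16 hy
  interval_cases y <;> first | rfl | omega

theorem hnA : 56 ≤ 2 ^ 6 := by decide

theorem phiE : ∃ φ : E →* Equiv.Perm (Fin 56), Compat φ xe MfA.L :=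
  compat_of MfA.sys hnA MfA.inv_ok (xP_ok MfA.sys hnA MfA.inv_ok netA MfA.rel_ok (by decide +kernel))

/-- words acting in the same way on 56 points are equal in W(E₇) -/
theorem eqE {u w : List ℕ} (hu : ∀ y ∈ u, y < 16) (hw : ∀ y ∈ w, y < 16)
    (he : eqW MfA.L 56 6 u w = true) : ev xe u = ev xe w := by
  obtain ⟨φ, hc⟩ := phiE
  have h := order_eq (φ := φ) MfA.sys (exists_g MfA.sys hnA hc MfA.sg_ok (by decide)) MfA.levs MfA.chain
    (by rw [MfA.prodM_levs]; exact cardE.1)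
  exact ev_eq_of_inj hc h.2 MfA.sys hnA hu hw he

theorem cox18 : ev xe [1, 2, 3, 4, 5, 6, 7] ^ 18 = 1 := by
  rw [← ev_powW, eqE (by decide) (by simp) MfA.cox18, ev_nil]

theorem cen (y : ℕ) (hy : y < 8) : ev xe [1, 2, 3, 4, 5, 6, 7] ^ 9 * xe y = xe y * ev xe [1, 2, 3, 4, 5, 6, 7] ^ 9 := by
  have h := MfA.cen
  rw [List.all_eq_true] at h
  have h1 := eqE (u := powW [1, 2, 3, 4, 5, 6, 7] 9 ++ [y]) (w := y :: powW [1, 2, 3, 4, 5, 6, 7] 9) ?_ ?_
    (h y (List.mem_range.2 hy))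
  · rwa [ev_append, ev_cons, ev_cons, ev_nil, mul_one, ev_powW] at h1
  · intro z hz
    rw [List.mem_append, List.mem_singleton] at hz
    rcases hz with hz | rfl
    · exact powW_lt (by decide) 9 z hz
    · omega
  · intro z hz
    rw [List.mem_cons] at hz
    rcases hz with rfl | hz
    · omega
    · exact powW_lt (by decide) 9 z hz

/-! ### The quotient by the centre -/

abbrev S : Type := P MfS.ic 7 MfS.rels
noncomputable abbrev xs : ℕ → S := xg MfS.ic 7 MfS.rels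

theorem xs_ok : Ok MfS.ic 7 MfS.rels xs := xg_ok

theorem xs_top : Hl xs [1, 2, 3, 4, 5, 6, 7] = ⊤ := top_eq (by decide)

theorem cardS : Nat.card S ≤ 1451520 ∧ Nat.card S ≠ 0 := by
  have h := MfT.bound (x := xs) (H := (Hl xs [2, 3, 4, 5, 6, 7]))
    xs_ok.hic xs_ok.h0 (sub_rels xs_ok.hrels (by decide +kernel)) (by
      intro s hs
      simp only [MfT.L, List.mem_cons, List.not_mem_nil, or_false] at hs
      rcases hs with rfl | rfl | rfl | rfl | rfl | rfl <;> exact mem_Hl xs (by decide))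
  have e : (xs '' {y | 1 ≤ y ∧ y ≤ 7}) = xs '' {y | y ∈ ([1, 2, 3, 4, 5, 6, 7] : List ℕ)} := by
    congr 1
    ext y
    simp only [Set.mem_ofPred_eq, List.mem_cons, List.not_mem_nil, or_false]
    omega
  rw [e] at h
  have h2 := card_le_of_relIndex (H := Hl xs [2, 3, 4, 5, 6, 7]) (K := Hl xs [1, 2, 3, 4, 5, 6, 7])
    (Hl_mono xs (by decide)) h
    (c5 (x := xs) xs_ok.hic xs_ok.h0 (sub_rels xs_ok.hrels (by decide +kernel)))
  rw [xs_top, Subgroup.card_top] at h2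
  exact h2

instance : Finite S := Nat.finite_of_card_ne_zero cardS.2

theorem netB : ∀ y, y < 16 → (y = 0 ∨ 7 < y) → net MfB.L y = .nil := by
  intro y h16 hy
  interval_cases y <;> first | rfl | omega

theorem hnB : 28 ≤ 2 ^ 5 := by decide

theorem phiS : ∃ φ : S →* Equiv.Perm (Fin 28), Compat φ xs MfB.L :=
  compat_of MfB.sys hnB MfB.inv_ok (xP_ok MfB.sys hnB MfB.inv_ok netB MfB.rel_ok (by decide +kernel))

theorem simpleS : IsSimpleGroup S := by
  obtain ⟨φ, hc⟩ := phiS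
  have h := order_eq (φ := φ) MfB.sys (exists_g MfB.sys hnB hc MfB.sg_ok (by decide)) MfB.levs MfB.chain
    (by rw [MfB.prodM_levs]; exact cardS.1)
  rw [MfB.prodM_levs] at h
  refine simple_of_data (p := 7) (e := 1) MfB.sys hnB hc h.2 xs_ok.hic (by decide) (by decide) (by decide) MfB.trans
    MfB.hfix MfB.orbs (by decide) (by decide) (by decide) (by decide) ?_ MfB.pw_ok ?_
  · rw [h.1]; decide
  · have e : xs '' {y | y ∈ MfB.pws.map Prod.fst} = xs '' {y | y ∈ ([1, 2, 3, 4, 5, 6, 7] : List ℕ)} := rfl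
    rw [e]
    exact xs_top

end Cfsg.Agent.H4.MfC
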