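import Cfsg.Agent.H4_MfC

/-!
Lifting Coxeter generators to a central extension.
-/

set_option autoImplicit false
set_option maxRecDepth 100000

namespace Cfsg.Agent.H4.MfD

open Cfsg.Agent.H8 Cfsg.Agent.H8.CE Cfsg.Agent.H8.CS Cfsg.Agent.H8.Net Cfsg.Agent.H8.Act Cfsg.Agent.H8.Cox
open Cfsg.Agent.H8.Act2 Cfsg.Agent.H4.Ltr

universe u v

section
variable {Γ : Type u} {G : Type v} [Group Γ] [Group G] {σ : Γ →* G}

theorem braid_lift (hs : Function.Surjective σ) (hz : σ.ker ≤ Subgroup.center Γ) {p : Γ} {a : G}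
    (hb : a * σ p * a = σ p * a * σ p) : ∃ q, σ q = a ∧ q * p * q = p * q * p ∧ ∃ g, q = g * p * g⁻¹ := by
  obtain ⟨l, hl⟩ := hs a
  let q := (p * l) * p * (p * l)⁻¹
  have hq : σ q = a := by
    simp only [q, map_mul, map_inv, hl]
    rw [← hb]
    group
  have hz1 : q⁻¹ * l ∈ σ.ker := by
    rw [MonoidHom.mem_ker, map_mul, map_inv, hq, hl, inv_mul_cancel]
  have hz2 := Subgroup.mem_center_iff.1 (hz hz1)
  refine ⟨q, hq, ?_, p * l, rfl⟩
  have e : l = q * (q⁻¹ * l) := by group
  generalize q⁻¹ * l = z at hz2 e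
  have e1 : q = (p * l) * p * (p * l)⁻¹ := rfl
  have e2 : q * (p * l) = (p * l) * p := by
    nth_rewrite 1 [e1]; group
  have e3 : q * (p * (q * z)) = p * (q * z) * p := by
    have := e2
    rw [e] at this
    exact this
  have e4 : p * (q * z) * p = p * q * p * z := by
    have := hz2 p
    calc p * (q * z) * p = p * q * (z * p) := by group
      _ = p * q * (p * z) := by rw [this]
      _ = p * q * p * z := by group
  rw [e4] at e3
  have e5 : q * p * q * z = p * q * p * z := by rw [← e3]; group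
  exact mul_right_cancel e5

theorem comm_step {x p q : Γ} (hpq : p * q * p = q * p * q) {z1 z2 : Γ}
    (h1 : z1 ∈ Subgroup.center Γ) (h2 : z2 ∈ Subgroup.center Γ) (hxp : x * p = z1 * (p * x))
    (hxq : x * q = z2 * (q * x)) : z1 = z2 := by
  have c1 := Subgroup.mem_center_iff.1 h1
  have c2 := Subgroup.mem_center_iff.1 h2
  have e1 : x * (p * q * p) = z1 * z1 * z2 * (p * q * p * x) := by
    calc x * (p * q * p) = x * p * q * p := by group
      _ = z1 * (p * x) * q * p := by rw [hxp]
      _ = z1 * p * (x * q) * p := by group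
      _ = z1 * p * (z2 * (q * x)) * p := by rw [hxq]
      _ = z1 * (p * z2) * q * (x * p) := by group
      _ = z1 * (z2 * p) * q * (z1 * (p * x)) := by rw [hxp, c2 p]
      _ = z1 * z2 * (p * q * z1) * p * x := by group
      _ = z1 * z2 * (z1 * (p * q)) * p * x := by rw [c1 (p * q)]
      _ = z1 * (z2 * z1) * p * q * p * x := by group
      _ = z1 * (z1 * z2) * p * q * p * x := by rw [c1 z2]
      _ = z1 * z1 * z2 * (p * q * p * x) := by group
  have e2 : x * (q * p * q) = z2 * z2 * z1 * (q * p * q * x) := by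
    calc x * (q * p * q) = x * q * p * q := by group
      _ = z2 * (q * x) * p * q := by rw [hxq]
      _ = z2 * q * (x * p) * q := by group
      _ = z2 * q * (z1 * (p * x)) * q := by rw [hxp]
      _ = z2 * (q * z1) * p * (x * q) := by group
      _ = z2 * (z1 * q) * p * (z2 * (q * x)) := by rw [hxq, c1 q]
      _ = z2 * z1 * (q * p * z2) * q * x := by group
      _ = z2 * z1 * (z2 * (q * p)) * q * x := by rw [c2 (q * p)]
      _ = z2 * (z1 * z2) * q * p * q * x := by group
      _ = z2 * (z2 * z1) * q * p * q * x := by rw [c2 z1]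
      _ = z2 * z2 * z1 * (q * p * q * x) := by group
  rw [← hpq] at e2
  have e3 := e1.symm.trans e2
  have e4 := mul_right_cancel e3
  have e5 : z2 * z2 * z1 = z2 * z1 * z2 := by rw [mul_assoc, mul_assoc, c2 z1]
  have e6 : z1 * z1 * z2 = z2 * z1 * z1 := by
    rw [mul_assoc, mul_assoc, ← c2 (z1 * z1), mul_assoc]
  rw [e5, e6] at e4
  exact mul_left_cancel e4

theorem comm_step' {x p q : Γ} (hpq : p * q * p = q * p * q) {z2 : Γ}
    (h2 : z2 ∈ Subgroup.center Γ) (hxp : x * p = p * x)
    (hxq : x * q = z2 * (q * x)) : x * q = q * x := by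
  have h := comm_step hpq (Subgroup.one_mem _) h2 (by rw [hxp, one_mul]) hxq
  rw [hxq, ← h, one_mul]

/-- commuting elements have lifts commuting up to a central element -/
theorem comm_cen (hz : σ.ker ≤ Subgroup.center Γ) {x q : Γ} (h : σ x * σ q = σ q * σ x) :
    ∃ z ∈ Subgroup.center Γ, x * q = z * (q * x) := by
  refine ⟨x * q * (q * x)⁻¹, hz ?_, by group⟩
  rw [MonoidHom.mem_ker, map_mul, map_inv, map_mul, map_mul, h, mul_inv_cancel]

theorem sq_lemma {x q z u : Γ} (hz : z ∈ Subgroup.center Γ) (hu : u ∈ Subgroup.center Γ) (hx : x * x = u)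
    (h : x * q = z * (q * x)) : z * z = 1 := by
  have c1 := Subgroup.mem_center_iff.1 hz
  have c2 := Subgroup.mem_center_iff.1 hu
  have e : u * q = z * z * (u * q) := by
    calc u * q = x * (x * q) := by rw [← hx]; group
      _ = x * (z * (q * x)) := by rw [h]
      _ = (x * z) * q * x := by group
      _ = z * x * q * x := by rw [c1 x]
      _ = z * (x * q) * x := by group
      _ = z * (z * (q * x)) * x := by rw [h]
      _ = z * z * (q * (x * x)) := by group
      _ = z * z * (u * q) := by rw [hx, c2 q]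
  have e2 : 1 * (u * q) = z * z * (u * q) := by rw [one_mul]; exact e
  exact (mul_right_cancel e2).symm

end

/-- relations of a diagram from relations of pairs -/
theorem coxR_ok {G : Type u} [Group G] {x : ℕ → G} {lab : ℕ → ℕ → ℕ} {l : List ℕ}
    (h : ∀ i ∈ l, ∀ j ∈ l, i ≠ j → (x i * x j) ^ lab i j = 1) : ∀ w ∈ coxR lab l, ev x w = 1 := by
  intro w hw
  unfold coxR at hw
  rw [List.mem_map] at hw
  obtain ⟨⟨i, j⟩, hp, rfl⟩ := hw
  rw [List.mem_flatMap] at hp
  obtain ⟨i', hi', hp⟩ := hp
  rw [List.mem_map] at hp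
  obtain ⟨j', hj', hp⟩ := hp
  rw [List.mem_filter] at hj'
  simp only [Prod.mk.injEq] at hp
  obtain ⟨rfl, rfl⟩ := hp
  rw [ev_coxW]
  exact h _ hi' _ hj'.1 (by simpa using hj'.2)

theorem pow3_of_braid {G : Type u} [Group G] {a b u : G} (hb : a * b * a = b * a * b) (ha : a * a = u) (hbb : b * b = u)
    (hu : ∀ g, g * u = u * g) : (a * b) ^ 3 = u ^ 3 := by
  calc (a * b) ^ 3 = (a * b * a) * (b * a * b) := by rw [pow_succ, pow_succ, pow_one]; simp only [mul_assoc]
    _ = (a * b * a) * (a * b * a) := by rw [hb]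
    _ = a * b * (a * a) * b * a := by group
    _ = a * b * u * b * a := by rw [ha]
    _ = a * (b * u) * b * a := by group
    _ = a * (u * b) * b * a := by rw [hu b]
    _ = a * u * (b * b) * a := by group
    _ = a * u * u * a := by rw [hbb]
    _ = a * (u * u) * a := by group
    _ = (u * u) * a * a := by
        have : a * (u * u) = u * u * a := by
          calc a * (u * u) = (a * u) * u := by group
            _ = u * a * u := by rw [hu a]
            _ = u * (a * u) := by group
            _ = u * (u * a) := by rw [hu a]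
            _ = u * u * a := by group
        rw [this]
    _ = (u * u) * (a * a) := by group
    _ = u ^ 3 := by rw [ha, pow_succ, pow_succ, pow_one]

theorem pow2_of_comm {G : Type u} [Group G] {a b u : G} (hb : a * b = b * a) (ha : a * a = u) (hbb : b * b = u) :
    (a * b) ^ 2 = u ^ 2 := by
  calc (a * b) ^ 2 = a * (b * a) * b := by rw [pow_succ, pow_one]; simp only [mul_assoc]
    _ = a * (a * b) * b := by rw [hb]
    _ = (a * a) * (b * b) := by group
    _ = u ^ 2 := by rw [ha, hbb, pow_succ, pow_one]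

/-- the Coxeter element of E₇ with generators squaring to a central element -/
theorem root7 {Γ : Type u} [Group Γ] {y : ℕ → Γ} {u : Γ} (hu : u ∈ Subgroup.center Γ)
    (hsq : ∀ i ∈ ([1, 2, 3, 4, 5, 6, 7] : List ℕ), y i * y i = u)
    (hb : ∀ i ∈ ([1, 2, 3, 4, 5, 6, 7] : List ℕ), ∀ j ∈ ([1, 2, 3, 4, 5, 6, 7] : List ℕ), i ≠ j →
      (MfR.lab7 i j = 3 → y i * y j * y i = y j * y i * y j) ∧ (MfR.lab7 i j ≠ 3 → y i * y j = y j * y i)) :
    ev y [1, 2, 3, 4, 5, 6, 7] ^ 18 = u ^ 63 := by
  have c := Subgroup.mem_center_iff.1 hu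
  let t : Γ × Multiplicative ℤ := (u, Multiplicative.ofAdd 2)
  have ht : t ∈ Subgroup.center (Γ × Multiplicative ℤ) := by
    rw [Subgroup.mem_center_iff]
    rintro ⟨g, n⟩
    exact Prod.ext (c g) (mul_comm _ _)
  have hN : (Subgroup.zpowers t).Normal := by
    constructor
    intro n hn g
    obtain ⟨k, rfl⟩ := Subgroup.mem_zpowers_iff.1 hn
    have h1 := Subgroup.mem_center_iff.1 ((Subgroup.center _).zpow_mem ht k) g
    rw [h1]
    simpa using hn
  let Q := (Γ × Multiplicative ℤ) ⧸ Subgroup.zpowers t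
  let π : (Γ × Multiplicative ℤ) →* Q := QuotientGroup.mk' (Subgroup.zpowers t)
  have hπ : π t = 1 := (QuotientGroup.eq_one_iff t).2 (Subgroup.mem_zpowers t)
  let a : ℕ → Γ × Multiplicative ℤ := fun i => if 1 ≤ i ∧ i ≤ 7 then (y i, Multiplicative.ofAdd 1) else 1
  have ha : ∀ i ∈ ([1, 2, 3, 4, 5, 6, 7] : List ℕ), a i = (y i, Multiplicative.ofAdd 1) := by
    intro i hi
    simp only [List.mem_cons, List.not_mem_nil, or_false] at hi
    have : 1 ≤ i ∧ i ≤ 7 := by omega
    simp only [a, if_pos this]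
  let x : ℕ → Q := fun i => π (a i)
  have hx2 : ∀ i, x i * x i = 1 := by
    intro i
    by_cases hi : 1 ≤ i ∧ i ≤ 7
    · have hm : i ∈ ([1, 2, 3, 4, 5, 6, 7] : List ℕ) := by
        simp only [List.mem_cons, List.not_mem_nil, or_false]; omega
      have e : a i * a i = t := by
        rw [ha i hm]
        exact Prod.ext (hsq i hm) rfl
      show π (a i) * π (a i) = 1
      rw [← map_mul, e, hπ]
    · have e : a i = 1 := by simp only [a, if_neg hi]
      show π (a i) * π (a i) = 1
      rw [e, map_one, one_mul]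
  have hok : Ok MfR.ic 7 MfR.rels x := by
    refine ⟨?_, ?_, ?_⟩
    · intro i hi
      have e : x (il MfR.ic i) = x i := by
        by_cases h7 : i < 8
        · have : il MfR.ic i = i := by interval_cases i <;> decide
          rw [this]
        · have h1 : il MfR.ic i = 0 := by interval_cases i <;> first | decide | omega
          have h2 : a 0 = 1 := by simp [a]
          have h3 : a i = 1 := by simp only [a]; rw [if_neg]; omega
          rw [h1]
          show π (a 0) = π (a i)
          rw [h2, h3]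
      rw [e]
      exact eq_inv_of_mul_eq_one_left (hx2 i)
    · intro i hi
      have h3 : a i = 1 := by simp only [a]; rw [if_neg]; omega
      show π (a i) = 1
      rw [h3, map_one]
    · refine coxR_ok ?_
      intro i hi j hj hij
      obtain ⟨h1, h2⟩ := hb i hi j hj hij
      have e : (x i * x j) = π (a i * a j) := by rw [map_mul]
      rw [e, ← map_pow]
      by_cases h3 : MfR.lab7 i j = 3
      · rw [h3]
        have e2 : (a i * a j) ^ 3 = t ^ 3 := by
          rw [ha i hi, ha j hj]
          exact Prod.ext (pow3_of_braid (h1 h3) (hsq i hi) (hsq j hj) c) rfl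
        rw [e2, map_pow, hπ, one_pow]
      · have h4 : MfR.lab7 i j = 2 := by
          have : MfR.lab7 i j = if _ then 3 else 2 := rfl
          rw [this] at h3 ⊢
          split_ifs at h3 ⊢ <;> simp_all
        rw [h4]
        have e2 : (a i * a j) ^ 2 = t ^ 2 := by
          rw [ha i hi, ha j hj]
          exact Prod.ext (pow2_of_comm (h2 h3) (hsq i hi) (hsq j hj)) rfl
        rw [e2, map_pow, hπ, one_pow]
  obtain ⟨Φ, hΦ⟩ := lift_ok hok
  have h1 := congrArg Φ MfC.cox18
  rw [map_pow, map_one, ev_map] at h1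
  have e1 : (fun i => Φ (MfC.xe i)) = x := by funext i; exact hΦ i
  rw [e1] at h1
  have e2 : ev x [1, 2, 3, 4, 5, 6, 7] = π (ev a [1, 2, 3, 4, 5, 6, 7]) := (ev_map π a _).symm
  have e3 : ev a [1, 2, 3, 4, 5, 6, 7] = (ev y [1, 2, 3, 4, 5, 6, 7], Multiplicative.ofAdd 7) := by
    simp only [ev_cons, ev_nil, mul_one]
    rw [ha 1 (by simp), ha 2 (by simp), ha 3 (by simp), ha 4 (by simp), ha 5 (by simp), ha 6 (by simp), ha 7 (by simp)]
    rfl
  rw [e2, ← map_pow, e3] at h1
  have h2 := (QuotientGroup.eq_one_iff _).1 h1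
  obtain ⟨k, hk⟩ := Subgroup.mem_zpowers_iff.1 h2
  have hk1 := congrArg Prod.fst hk
  have hk2 := congrArg Prod.snd hk
  have hk3 : k = 63 := by
    have h4 : (Multiplicative.ofAdd (2 : ℤ)) ^ k = (Multiplicative.ofAdd (7 : ℤ)) ^ 18 := hk2
    have h5 := congrArg Multiplicative.toAdd h4
    simp only [toAdd_zpow, toAdd_pow, toAdd_ofAdd, smul_eq_mul, nsmul_eq_mul] at h5
    omega
  rw [hk3] at hk1
  have h6 : u ^ (63 : ℤ) = ev y [1, 2, 3, 4, 5, 6, 7] ^ 18 := hk1
  rw [← h6]
  exact (zpow_natCast u 63)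

end Cfsg.Agent.H4.MfD
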