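import Cfsg.Agent.H8_Fi23M

/-!
Some relations in Fi₂₃ (checked in the action on 31671 points).
-/

set_option autoImplicit false
set_option maxRecDepth 100000

namespace Cfsg.Agent.H4.MfP

open Cfsg.Agent.H8 Cfsg.Agent.H8.CE Cfsg.Agent.H8.Net Cfsg.Agent.H8.Act Cfsg.Agent.H8.Cox Cfsg.Agent.H8.Fi23M

/-- the word of the transposition `t` -/
def tw : List ℕ := powW [7, 6, 5, 4, 3, 2, 9] 9

theorem k1 : eqW Fi23A.L (nat_lit 31671) (nat_lit 15) (tw ++ [1]) (1 :: tw) = true := by decide +kernel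
theorem k2 : eqW Fi23A.L (nat_lit 31671) (nat_lit 15) (tw ++ [10]) (10 :: tw) = true := by decide +kernel
theorem k3 : eqW Fi23A.L (nat_lit 31671) (nat_lit 15) (powW (tw ++ [8]) 3) [] = true := by decide +kernel

theorem r1 : ev x tw * x 1 = x 1 * ev x tw := by
  have h := ev_eq_of_inj compat main.2 Fi23A.sys hn (u := tw ++ [1]) (w := 1 :: tw) (by decide) (by decide) k1
  rwa [ev_append, ev_cons, ev_cons, ev_nil, mul_one] at h

theorem r2 : ev x tw * x 10 = x 10 * ev x tw := by
  have h := ev_eq_of_inj compat main.2 Fi23A.sys hn (u := tw ++ [10]) (w := 10 :: tw) (by decide) (by decide) k2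
  rwa [ev_append, ev_cons, ev_cons, ev_nil, mul_one] at h

theorem r3 : (ev x tw * x 8) ^ 3 = 1 := by
  have h := ev_eq_of_inj compat main.2 Fi23A.sys hn (u := powW (tw ++ [8]) 3) (w := []) (by decide) (by decide) k3
  rwa [ev_powW, ev_append, ev_cons, ev_nil, mul_one] at h

theorem m1 : (net Fi23A.L 1).pos 2 ≠ 2 := by decide +kernel

theorem x1_ne : x 1 ≠ 1 := by
  intro h
  have h1 := compat 1 (by decide) ⟨2, by decide⟩
  rw [h, map_one, inv_one] at h1
  exact m1 h1.symm

end Cfsg.Agent.H4.MfP
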