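import Cfsg.Agent.H4_MfD
import Cfsg.Agent.H4_MfP
import Cfsg.Agent.H4_MfQa
import Cfsg.Agent.H4_MfQb
import Cfsg.Agent.H4_SpM
import Cfsg.Prelude.Def_KGroupFacts

/-!
The Schur multiplier of Fi₂₃ is trivial.
-/

set_option autoImplicit false
set_option maxRecDepth 100000
set_option linter.constructorNameAsVariable false

namespace Cfsg.Agent.H4.MfE

open Cfsg.Agent.H8 Cfsg.Agent.H8.CE Cfsg.Agent.H8.CS Cfsg.Agent.H8.Net Cfsg.Agent.H8.Act Cfsg.Agent.H8.Cox
open Cfsg.Agent.H8.Act2 Cfsg.Agent.H4.Ltr Cfsg.Agent.H4.MfD Cfsg.Spor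
open Cfsg.Agent.H8.Fi23M (x)

/-- the edges -/
def es : List (ℕ × ℕ) := [(1, 2), (2, 3), (3, 4), (4, 5), (5, 6), (6, 7), (7, 8), (4, 9), (9, 10)]

/-- labels -/
def lab : ℕ → ℕ → ℕ := MfR.labOf es

/-- the letters -/
def l10 : List ℕ := [1, 2, 3, 4, 5, 6, 7, 8, 9, 10]

theorem xsq (i : ℕ) (hi : i ∈ l10) : x i * x i = 1 := by
  have h := Fi23M.hic i (by simp only [l10, List.mem_cons, List.not_mem_nil, or_false] at hi; omega)
  have e : il Fi23R.ic i = i := by
    simp only [l10, List.mem_cons, List.not_mem_nil, or_false] at hi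
    rcases hi with rfl | rfl | rfl | rfl | rfl | rfl | rfl | rfl | rfl | rfl <;> decide
  rw [e] at h
  exact mul_eq_one_iff_eq_inv.2 h

theorem xpair (i j : ℕ) (hi : i ∈ l10) (hj : j ∈ l10) (hij : i ≠ j) : (x i * x j) ^ lab i j = 1 := by
  have h : (l10.all fun i => l10.all fun j => i == j || Fi23R.rels.contains (coxW i j (lab i j)) ||
    Fi23R.rels.contains (coxW j i (lab i j))) = true := by decide +kernel
  rw [List.all_eq_true] at h
  have h1 := h i hi
  rw [List.all_eq_true] at h1
  have h2 := h1 j hj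
  simp only [Bool.or_eq_true, beq_iff_eq, List.contains_iff_mem] at h2
  rcases h2 with (h2 | h2) | h2
  · exact absurd h2 hij
  · rw [← ev_coxW]; exact Fi23M.hrels0 _ h2
  · exact pow_swap _ _ _ (by rw [← ev_coxW]; exact Fi23M.hrels0 _ h2)

theorem braid_of_pow3 {G : Type*} [Group G] {a b : G} (ha : a * a = 1) (hb : b * b = 1) (h : (a * b) ^ 3 = 1) :
    a * b * a = b * a * b := by
  have h1 : (a * b * a) * (b * a * b) = 1 := by rw [← h, pow_succ, pow_succ, pow_one]; simp only [mul_assoc]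
  have h2 : (b * a * b) * (b * a * b) = 1 := by
    calc (b * a * b) * (b * a * b) = b * a * (b * b) * a * b := by group
      _ = b * (a * a) * b := by rw [hb]; group
      _ = 1 := by rw [ha, mul_one, hb]
  exact mul_right_cancel (h1.trans h2.symm)

theorem comm_of_pow2 {G : Type*} [Group G] {a b : G} (ha : a * a = 1) (hb : b * b = 1) (h : (a * b) ^ 2 = 1) :
    a * b = b * a := by
  have h1 : (a * b) * (a * b) = 1 := by rw [← h, pow_succ, pow_one]
  have h2 : (b * a) * (a * b) = 1 := by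
    calc (b * a) * (a * b) = b * (a * a) * b := by group
      _ = 1 := by rw [ha, mul_one, hb]
  exact mul_right_cancel (h1.trans h2.symm)

theorem lab_cases (i j : ℕ) : lab i j = 3 ∨ lab i j = 2 := by
  unfold lab MfR.labOf
  split_ifs <;> simp

theorem xbraid (i j : ℕ) (hi : i ∈ l10) (hj : j ∈ l10) (hij : i ≠ j) (h3 : lab i j = 3) :
    x i * x j * x i = x j * x i * x j :=
  braid_of_pow3 (xsq i hi) (xsq j hj) (by rw [← h3]; exact xpair i j hi hj hij)

theorem xcomm (i j : ℕ) (hi : i ∈ l10) (hj : j ∈ l10) (hij : i ≠ j) (h3 : lab i j ≠ 3) :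
    x i * x j = x j * x i :=
  comm_of_pow2 (xsq i hi) (xsq j hj) (by
    have := (lab_cases i j).resolve_left h3
    rw [← this]; exact xpair i j hi hj hij)

/-! ### Deriving commutation of all the pairs -/

/-- closure of a list of commuting pairs -/
def chk : List (ℕ × ℕ) → List (ℕ × ℕ × ℕ) → List (ℕ × ℕ)
  | der, [] => der
  | der, (x, p, q) :: t =>
    if der.contains (x, p) && l10.contains x && l10.contains p && l10.contains q && lab p q == 3 && p != q &&
      lab x q != 3 && x != q then chk ((x, q) :: (q, x) :: der) t else chk der t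

theorem chk_sound {C : ℕ → ℕ → Prop} (hsym : ∀ a b, C a b → C b a)
    (hst : ∀ x p q, x ∈ l10 → p ∈ l10 → q ∈ l10 → lab p q = 3 → p ≠ q → lab x q ≠ 3 → x ≠ q → C x p → C x q)
    (st : List (ℕ × ℕ × ℕ)) : ∀ der : List (ℕ × ℕ), (∀ ab ∈ der, C ab.1 ab.2) → ∀ ab ∈ chk der st, C ab.1 ab.2 := by
  induction st with
  | nil => intro der h; exact h
  | cons s t ih =>
    obtain ⟨x, p, q⟩ := s
    intro der h
    unfold chk
    split_ifs with hc
    · simp only [Bool.and_eq_true, List.contains_iff_mem, beq_iff_eq, bne_iff_ne, ne_eq] at hc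
      obtain ⟨⟨⟨⟨⟨⟨⟨h1, h2⟩, h3⟩, h4⟩, h5⟩, h6⟩, h7⟩, h8⟩ := hc
      have h9 := hst x p q h2 h3 h4 h5 h6 h7 h8 (h _ h1)
      apply ih
      intro ab hab
      rw [List.mem_cons, List.mem_cons] at hab
      rcases hab with rfl | rfl | hab
      · exact h9
      · exact hsym _ _ h9
      · exact h _ hab
    · exact ih der h

/-- the derivation -/
def steps : List (ℕ × ℕ × ℕ) := [(1, 8, 7), (2, 8, 7), (3, 8, 7), (4, 8, 7), (5, 8, 7), (7, 4, 9), (7, 9, 10), (9, 7, 6), (10, 7, 6), (1, 7, 6), (2, 7, 6), (3, 7, 6), (4, 7, 6), (9, 6, 5), (10, 6, 5), (1, 6, 5), (2, 6, 5), (3, 6, 5), (10, 5, 4), (1, 5, 4), (2, 5, 4), (10, 4, 3), (1, 4, 3), (1, 4, 9), (1, 9, 10), (2, 4, 9), (2, 9, 10), (3, 10, 9)]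

/-- all the commuting pairs are reached from the pairs with `8` -/
theorem steps_ok : (l10.all fun i => l10.all fun j => i == j || lab i j == 3 ||
    (chk ([1, 2, 3, 4, 5, 6, 9, 10].flatMap fun n => [(8, n), (n, 8)]) steps).contains (i, j)) = true := by
  decide +kernel

theorem ev_comm {G : Type*} [Group G] {y : ℕ → G} {a z : G} (hz : z ∈ Subgroup.center G) (l : List ℕ)
    (h : ∀ i ∈ l, a * y i = z * (y i * a)) : a * ev y l = z ^ l.length * (ev y l * a) := by
  induction l with
  | nil => simp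
  | cons i l ih =>
    have c := Subgroup.mem_center_iff.1 ((Subgroup.center G).pow_mem hz l.length)
    rw [ev_cons, List.length_cons]
    calc a * (y i * ev y l) = (a * y i) * ev y l := by group
      _ = z * y i * (a * ev y l) := by rw [h i (by simp)]; group
      _ = z * y i * (z ^ l.length * (ev y l * a)) := by rw [ih (fun j hj => h j (by simp [hj]))]
      _ = z * (y i * z ^ l.length) * ev y l * a := by group
      _ = z * (z ^ l.length * y i) * ev y l * a := by rw [c (y i)]
      _ = z ^ (l.length + 1) * (y i * ev y l * a) := by rw [pow_succ']; group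

/-- **lifting all the Coxeter generators** -/
theorem exists_lift {Γ : Type} [Group Γ] {σ : Γ →* Fi23} (hs : Function.Surjective σ)
    (hz : σ.ker ≤ Subgroup.center Γ) : ∃ (y : ℕ → Γ) (u : Γ), u ∈ Subgroup.center Γ ∧
      (∀ i ∈ l10, σ (y i) = x i ∧ y i * y i = u) ∧
      (∀ i ∈ l10, ∀ j ∈ l10, i ≠ j → (lab i j = 3 → y i * y j * y i = y j * y i * y j) ∧
        (lab i j ≠ 3 → y i * y j = y j * y i)) := by
  obtain ⟨y1, s1⟩ := hs (x 1)
  have br : ∀ i j, i ∈ l10 → j ∈ l10 → i ≠ j → lab i j = 3 → ∀ p : Γ, σ p = x j → x i * σ p * x i = σ p * x i * σ p := by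
    intro i j hi hj hij h3 p hp
    rw [hp]
    exact xbraid i j hi hj hij h3
  obtain ⟨y2, s2, b2, g2, e2⟩ := braid_lift hs hz (br 2 1 (by decide) (by decide) (by decide) (by decide) y1 s1)
  obtain ⟨y3, s3, b3, g3, e3⟩ := braid_lift hs hz (br 3 2 (by decide) (by decide) (by decide) (by decide) y2 s2)
  obtain ⟨y4, s4, b4, g4, e4⟩ := braid_lift hs hz (br 4 3 (by decide) (by decide) (by decide) (by decide) y3 s3)
  obtain ⟨y5, s5, b5, g5, e5⟩ := braid_lift hs hz (br 5 4 (by decide) (by decide) (by decide) (by decide) y4 s4)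
  obtain ⟨y6, s6, b6, g6, e6⟩ := braid_lift hs hz (br 6 5 (by decide) (by decide) (by decide) (by decide) y5 s5)
  obtain ⟨y7, s7, b7, g7, e7⟩ := braid_lift hs hz (br 7 6 (by decide) (by decide) (by decide) (by decide) y6 s6)
  obtain ⟨y8, s8, b8, g8, e8⟩ := braid_lift hs hz (br 8 7 (by decide) (by decide) (by decide) (by decide) y7 s7)
  obtain ⟨y9, s9, b9, g9, e9⟩ := braid_lift hs hz (br 9 4 (by decide) (by decide) (by decide) (by decide) y4 s4)
  obtain ⟨y10, s10, b10, g10, e10⟩ := braid_lift hs hz (br 10 9 (by decide) (by decide) (by decide) (by decide) y9 s9)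
  let y : ℕ → Γ := fun i => [1, y1, y2, y3, y4, y5, y6, y7, y8, y9, y10].getD i 1
  let u : Γ := y1 * y1
  have hu : u ∈ Subgroup.center Γ := hz (by
    rw [MonoidHom.mem_ker, map_mul, s1]; exact xsq 1 (by decide))
  have cu := Subgroup.mem_center_iff.1 hu
  have q1 : y1 * y1 = u := rfl
  have sq : ∀ p g q : Γ, p * p = u → q = g * p * g⁻¹ → q * q = u := by
    intro p g q hp hq
    rw [hq]
    calc g * p * g⁻¹ * (g * p * g⁻¹) = g * (p * p) * g⁻¹ := by group
      _ = g * u * g⁻¹ := by rw [hp]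
      _ = u * g * g⁻¹ := by rw [cu g]
      _ = u := by group
  have q2 := sq y1 g2 y2 q1 e2
  have q3 := sq y2 g3 y3 q2 e3
  have q4 := sq y3 g4 y4 q3 e4
  have q5 := sq y4 g5 y5 q4 e5
  have q6 := sq y5 g6 y6 q5 e6
  have q7 := sq y6 g7 y7 q6 e7
  have q8 := sq y7 g8 y8 q7 e8
  have q9 := sq y4 g9 y9 q4 e9
  have q10 := sq y9 g10 y10 q9 e10
  have hσ : ∀ i ∈ l10, σ (y i) = x i := by
    intro i hi
    simp only [l10, List.mem_cons, List.not_mem_nil, or_false] at hi
    rcases hi with rfl | rfl | rfl | rfl | rfl | rfl | rfl | rfl | rfl | rfl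
    exacts [s1, s2, s3, s4, s5, s6, s7, s8, s9, s10]
  have hsq : ∀ i ∈ l10, y i * y i = u := by
    intro i hi
    simp only [l10, List.mem_cons, List.not_mem_nil, or_false] at hi
    rcases hi with rfl | rfl | rfl | rfl | rfl | rfl | rfl | rfl | rfl | rfl
    exacts [q1, q2, q3, q4, q5, q6, q7, q8, q9, q10]
  have hbe : ∀ p ∈ es, y p.2 * y p.1 * y p.2 = y p.1 * y p.2 * y p.1 := by
    intro p hp
    simp only [es, List.mem_cons, List.not_mem_nil, or_false] at hp
    rcases hp with rfl | rfl | rfl | rfl | rfl | rfl | rfl | rfl | rfl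
    exacts [b2, b3, b4, b5, b6, b7, b8, b9, b10]
  have hb : ∀ i j, lab i j = 3 → y i * y j * y i = y j * y i * y j := by
    intro i j h
    unfold lab MfR.labOf at h
    split_ifs at h with hc
    swap
    · omega
    rw [Bool.or_eq_true, List.contains_iff_mem, List.contains_iff_mem] at hc
    rcases hc with hc | hc
    · exact (hbe _ hc).symm
    · exact hbe _ hc
  -- commuting pairs with `8`
  have cc : ∀ i j, i ∈ l10 → j ∈ l10 → i ≠ j → lab i j ≠ 3 → ∃ z ∈ Subgroup.center Γ, y i * y j = z * (y j * y i) := by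
    intro i j hi hj hij h3
    exact comm_cen hz (by rw [hσ i hi, hσ j hj]; exact xcomm i j hi hj hij h3)
  obtain ⟨z, hzz, z1⟩ := cc 8 1 (by decide) (by decide) (by decide) (by decide)
  have nxt : ∀ p q, q ∈ l10 → lab p q = 3 → 8 ≠ q → lab 8 q ≠ 3 → y 8 * y p = z * (y p * y 8) →
      y 8 * y q = z * (y q * y 8) := by
    intro p q hq h3 hne hn3 hp
    obtain ⟨z', hz', e'⟩ := cc 8 q (by decide) hq hne hn3
    have := comm_step (hb p q h3) hzz hz' hp e'
    rw [this]; exact e'
  have z2 := nxt 1 2 (by decide) (by decide) (by decide) (by decide) z1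
  have z3 := nxt 2 3 (by decide) (by decide) (by decide) (by decide) z2
  have z4 := nxt 3 4 (by decide) (by decide) (by decide) (by decide) z3
  have z5 := nxt 4 5 (by decide) (by decide) (by decide) (by decide) z4
  have z6 := nxt 5 6 (by decide) (by decide) (by decide) (by decide) z5
  have z9 := nxt 4 9 (by decide) (by decide) (by decide) (by decide) z4
  have z10 := nxt 9 10 (by decide) (by decide) (by decide) (by decide) z9
  have hz2 : z * z = 1 := sq_lemma hzz hu (hsq 8 (by decide)) z1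
  have hz63 : z ^ 63 = 1 := by
    have h1 := ev_comm (y := y) (a := y 8) hzz (powW [1, 2, 3, 4, 5, 6, 9] 9) (by
      have h0 : ∀ i ∈ ([1, 2, 3, 4, 5, 6, 9] : List ℕ), y 8 * y i = z * (y i * y 8) := by
        intro i hi
        simp only [List.mem_cons, List.not_mem_nil, or_false] at hi
        rcases hi with rfl | rfl | rfl | rfl | rfl | rfl | rfl
        exacts [z1, z2, z3, z4, z5, z6, z9]
      intro i hi
      apply h0
      have h2 : ((powW [1, 2, 3, 4, 5, 6, 9] 9).all fun i => ([1, 2, 3, 4, 5, 6, 9] : List ℕ).contains i) = true := by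
        decide
      rw [List.all_eq_true] at h2
      simpa using h2 i hi)
    have hv : ev y (powW [1, 2, 3, 4, 5, 6, 9] 9) ∈ Subgroup.center Γ := hz (by
      rw [MonoidHom.mem_ker, ev_map]
      have h3 : ev (fun i => σ (y i)) (powW [1, 2, 3, 4, 5, 6, 9] 9) = ev x (powW [1, 2, 3, 4, 5, 6, 9] 9) := by
        rw [ev_powW, ev_powW]
        simp only [ev_cons, ev_nil]
        rw [hσ 1 (by decide), hσ 2 (by decide), hσ 3 (by decide), hσ 4 (by decide), hσ 5 (by decide),
          hσ 6 (by decide), hσ 9 (by decide)]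
      rw [h3]
      exact Fi23M.hrels0 _ (by decide))
    have h4 := Subgroup.mem_center_iff.1 hv (y 8)
    have h5 : (powW [1, 2, 3, 4, 5, 6, 9] 9).length = 63 := by decide
    rw [h5, h4] at h1
    exact (mul_eq_right.1 h1.symm)
  have hz1 : z = 1 := by
    have h1 : z ^ 63 = z := by
      calc z ^ 63 = (z ^ 2) ^ 31 * z := by rw [← pow_mul, ← pow_succ]
        _ = z := by rw [pow_two, hz2, one_pow, one_mul]
    rw [← h1, hz63]
  have hcom : ∀ i ∈ l10, ∀ j ∈ l10, i ≠ j → lab i j ≠ 3 → y i * y j = y j * y i := by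
    have h1 := chk_sound (C := fun i j => y i * y j = y j * y i) (fun a b h => h.symm) (by
      intro a p q ha hp hq hpq _ haq hne hC
      obtain ⟨z', hz', e'⟩ := cc a q ha hq hne haq
      exact comm_step' (hb p q hpq) hz' hC e') steps
      ([1, 2, 3, 4, 5, 6, 9, 10].flatMap fun n => [(8, n), (n, 8)]) (by
        rw [hz1] at z1 z2 z3 z4 z5 z6 z9 z10
        simp only [one_mul] at z1 z2 z3 z4 z5 z6 z9 z10
        intro ab hab
        simp only [List.flatMap_cons, List.flatMap_nil, List.append_nil, List.cons_append, List.nil_append,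
          List.mem_cons, List.not_mem_nil, or_false] at hab
        rcases hab with rfl | rfl | rfl | rfl | rfl | rfl | rfl | rfl | rfl | rfl | rfl | rfl | rfl | rfl | rfl | rfl
        exacts [z1, z1.symm, z2, z2.symm, z3, z3.symm, z4, z4.symm, z5, z5.symm, z6, z6.symm, z9, z9.symm,
          z10, z10.symm])
    intro i hi j hj hij h3
    have h2 := steps_ok
    rw [List.all_eq_true] at h2
    have h4 := h2 i hi
    rw [List.all_eq_true] at h4
    have h5 := h4 j hj
    simp only [Bool.or_eq_true, beq_iff_eq, List.contains_iff_mem] at h5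
    rcases h5 with (h5 | h5) | h5
    · exact absurd h5 hij
    · exact absurd h5 h3
    · exact h1 _ h5
  exact ⟨y, u, hu, fun i hi => ⟨hσ i hi, hsq i hi⟩, fun i hi j hj hij => ⟨fun h => hb i j h, hcom i hi j hj hij⟩⟩

end Cfsg.Agent.H4.MfE
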