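import Cfsg.Agent.H4_MfE

/-!
The Schur multiplier of Fi₂₃ is trivial: end of the proof.
-/

set_option autoImplicit false
set_option maxRecDepth 100000
set_option linter.constructorNameAsVariable false

namespace Cfsg.Agent.H4.MfE

open Cfsg.Agent.H8 Cfsg.Agent.H8.CE Cfsg.Agent.H8.CS Cfsg.Agent.H8.Net Cfsg.Agent.H8.Act Cfsg.Agent.H8.Cox
open Cfsg.Agent.H8.Act2 Cfsg.Agent.H4.Ltr Cfsg.Agent.H4.MfD Cfsg.Spor
open Cfsg.Agent.H8.Fi23M (x)

/-- normalised lifts -/
structure Good {Γ : Type} [Group Γ] (σ : Γ →* Fi23) (y : ℕ → Γ) : Prop where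
  one : ∀ i, i ∉ l10 → y i = 1
  map : ∀ i ∈ l10, σ (y i) = x i
  sq : ∀ i ∈ l10, y i * y i = 1
  braid : ∀ i ∈ l10, ∀ j ∈ l10, i ≠ j → lab i j = 3 → y i * y j * y i = y j * y i * y j
  comm : ∀ i ∈ l10, ∀ j ∈ l10, i ≠ j → lab i j ≠ 3 → y i * y j = y j * y i
  cox : ev y (powW [1, 2, 3, 4, 5, 6, 9] 9) = 1

theorem ev_mul_cen {G : Type*} [Group G] {y y' : ℕ → G} {z : G} (hz : z ∈ Subgroup.center G) (l : List ℕ)
    (h : ∀ i ∈ l, y' i = y i * z) : ev y' l = ev y l * z ^ l.length := by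
  induction l with
  | nil => simp
  | cons i l ih =>
    have c := Subgroup.mem_center_iff.1 hz
    rw [ev_cons, ev_cons, List.length_cons, h i (by simp), ih (fun j hj => h j (by simp [hj]))]
    calc y i * z * (ev y l * z ^ l.length) = y i * (z * ev y l) * z ^ l.length := by group
      _ = y i * (ev y l * z) * z ^ l.length := by rw [c (ev y l)]
      _ = y i * ev y l * z ^ (l.length + 1) := by rw [pow_succ']; group

theorem exists_good {Γ : Type} [Group Γ] {σ : Γ →* Fi23} (hs : Function.Surjective σ)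
    (hz : σ.ker ≤ Subgroup.center Γ) : ∃ y : ℕ → Γ, Good σ y := by
  obtain ⟨y, u, hu, h1, h2⟩ := exists_lift hs hz
  have h7 : ev (ren y [0, 1, 2, 3, 4, 5, 6, 9]) [1, 2, 3, 4, 5, 6, 7] ^ 18 = u ^ 63 := by
    refine root7 hu ?_ ?_
    · intro i hi
      simp only [List.mem_cons, List.not_mem_nil, or_false] at hi
      rcases hi with rfl | rfl | rfl | rfl | rfl | rfl | rfl
      exacts [(h1 1 (by decide)).2, (h1 2 (by decide)).2, (h1 3 (by decide)).2, (h1 4 (by decide)).2,
        (h1 5 (by decide)).2, (h1 6 (by decide)).2, (h1 9 (by decide)).2]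
    · intro i hi j hj hij
      have h3 : (([1, 2, 3, 4, 5, 6, 7] : List ℕ).all fun i => ([1, 2, 3, 4, 5, 6, 7] : List ℕ).all fun j =>
        i == j || (MfR.lab7 i j == lab (([0, 1, 2, 3, 4, 5, 6, 9] : List ℕ).getD i 0)
          (([0, 1, 2, 3, 4, 5, 6, 9] : List ℕ).getD j 0) && l10.contains (([0, 1, 2, 3, 4, 5, 6, 9] : List ℕ).getD i 0) &&
          l10.contains (([0, 1, 2, 3, 4, 5, 6, 9] : List ℕ).getD j 0) &&
          (([0, 1, 2, 3, 4, 5, 6, 9] : List ℕ).getD i 0) != (([0, 1, 2, 3, 4, 5, 6, 9] : List ℕ).getD j 0))) = true := by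
        decide
      rw [List.all_eq_true] at h3
      have h4 := h3 i hi
      rw [List.all_eq_true] at h4
      have h5 := h4 j hj
      simp only [Bool.or_eq_true, Bool.and_eq_true, beq_iff_eq, List.contains_iff_mem, bne_iff_ne, ne_eq] at h5
      rcases h5 with h5 | ⟨⟨⟨h5, h6⟩, h7⟩, h8⟩
      · exact absurd h5 hij
      · have h9 := h2 _ h6 _ h7 h8
        rw [← h5] at h9
        exact h9
  have hP : ev (ren y [0, 1, 2, 3, 4, 5, 6, 9]) [1, 2, 3, 4, 5, 6, 7] = ev y [1, 2, 3, 4, 5, 6, 9] := by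
    rw [ev_ren]; rfl
  rw [hP] at h7
  let v : Γ := ev y [1, 2, 3, 4, 5, 6, 9] ^ 9
  have hv : v ∈ Subgroup.center Γ := hz (by
    rw [MonoidHom.mem_ker, map_pow, ev_map]
    have h3 : ev (fun i => σ (y i)) [1, 2, 3, 4, 5, 6, 9] = ev x [1, 2, 3, 4, 5, 6, 9] := by
      simp only [ev_cons, ev_nil]
      rw [(h1 1 (by decide)).1, (h1 2 (by decide)).1, (h1 3 (by decide)).1, (h1 4 (by decide)).1,
        (h1 5 (by decide)).1, (h1 6 (by decide)).1, (h1 9 (by decide)).1]
    rw [h3, ← ev_powW]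
    exact Fi23M.hrels0 _ (by decide))
  have hvv : v * v = u ^ 63 := by
    rw [← h7]
    show ev y [1, 2, 3, 4, 5, 6, 9] ^ 9 * ev y [1, 2, 3, 4, 5, 6, 9] ^ 9 = _
    rw [← pow_add]
  have cu := Subgroup.mem_center_iff.1 hu
  have huv : Commute u v := (cu v).symm
  let ζ : Γ := u ^ 31 * v⁻¹
  have hζ : ζ ∈ Subgroup.center Γ := (Subgroup.center Γ).mul_mem ((Subgroup.center Γ).pow_mem hu 31)
    ((Subgroup.center Γ).inv_mem hv)
  have cζ := Subgroup.mem_center_iff.1 hζ
  have hζ2 : u * (ζ * ζ) = 1 := by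
    have hc : Commute (u ^ 31) v⁻¹ := (huv.pow_left 31).inv_right
    have e1 : ζ * ζ = u ^ 62 * (v * v)⁻¹ := by
      show u ^ 31 * v⁻¹ * (u ^ 31 * v⁻¹) = _
      calc u ^ 31 * v⁻¹ * (u ^ 31 * v⁻¹) = u ^ 31 * (v⁻¹ * u ^ 31) * v⁻¹ := by group
        _ = u ^ 31 * (u ^ 31 * v⁻¹) * v⁻¹ := by rw [hc.eq]
        _ = u ^ 62 * (v * v)⁻¹ := by rw [mul_inv_rev]; group
    rw [e1, hvv]
    group
  have hζv : v * ζ ^ 63 = 1 := by
    have e1 : ζ ^ 63 = (ζ * ζ) ^ 31 * ζ := by
      rw [← pow_two, ← pow_mul, ← pow_succ]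
    have e2 : ζ * ζ = u⁻¹ := by
      have := hζ2
      exact eq_inv_of_mul_eq_one_right this
    rw [e1, e2]
    show v * ((u⁻¹) ^ 31 * (u ^ 31 * v⁻¹)) = 1
    rw [inv_pow]
    group
  let y' : ℕ → Γ := fun i => if i ∈ l10 then y i * ζ else 1
  have hy' : ∀ i ∈ l10, y' i = y i * ζ := fun i hi => if_pos hi
  have sw : ∀ g : Γ, ζ * g = g * ζ := fun g => (cζ g).symm
  refine ⟨y', ⟨fun i hi => if_neg hi, ?_, ?_, ?_, ?_, ?_⟩⟩
  · intro i hi
    rw [hy' i hi, map_mul, (h1 i hi).1]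
    have h3 : σ ζ = 1 := by
      show σ (u ^ 31 * v⁻¹) = 1
      have hu' : σ u = 1 := by
        have := (h1 1 (by decide)).2
        rw [← this, map_mul, (h1 1 (by decide)).1]
        exact xsq 1 (by decide)
      have hv' : σ v = 1 := by
        show σ (ev y [1, 2, 3, 4, 5, 6, 9] ^ 9) = 1
        rw [map_pow, ev_map]
        have h3 : ev (fun i => σ (y i)) [1, 2, 3, 4, 5, 6, 9] = ev x [1, 2, 3, 4, 5, 6, 9] := by
          simp only [ev_cons, ev_nil]
          rw [(h1 1 (by decide)).1, (h1 2 (by decide)).1, (h1 3 (by decide)).1, (h1 4 (by decide)).1,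
            (h1 5 (by decide)).1, (h1 6 (by decide)).1, (h1 9 (by decide)).1]
        rw [h3, ← ev_powW]
        exact Fi23M.hrels0 _ (by decide)
      rw [map_mul, map_pow, map_inv, hu', hv', one_pow, inv_one, mul_one]
    rw [h3, mul_one]
  · intro i hi
    rw [hy' i hi]
    calc y i * ζ * (y i * ζ) = y i * (ζ * y i) * ζ := by group
      _ = (y i * y i) * (ζ * ζ) := by rw [sw]; group
      _ = 1 := by rw [(h1 i hi).2, hζ2]
  · intro i hi j hj hij h3
    rw [hy' i hi, hy' j hj]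
    have hb := (h2 i hi j hj hij).1 h3
    calc y i * ζ * (y j * ζ) * (y i * ζ) = y i * (ζ * y j) * (ζ * y i) * ζ := by group
      _ = y i * (y j * ζ) * (y i * ζ) * ζ := by rw [sw, sw]
      _ = y i * y j * (ζ * y i) * ζ * ζ := by group
      _ = y i * y j * y i * (ζ * ζ * ζ) := by rw [sw]; group
      _ = y j * y i * y j * (ζ * ζ * ζ) := by rw [hb]
      _ = y j * y i * (y j * ζ) * ζ * ζ := by group
      _ = y j * y i * (ζ * y j) * ζ * ζ := by rw [sw]
      _ = y j * (y i * ζ) * (y j * ζ) * ζ := by group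
      _ = y j * (ζ * y i) * (ζ * y j) * ζ := by rw [sw, sw]
      _ = y j * ζ * (y i * ζ) * (y j * ζ) := by group
  · intro i hi j hj hij h3
    rw [hy' i hi, hy' j hj]
    have hb := (h2 i hi j hj hij).2 h3
    calc y i * ζ * (y j * ζ) = y i * (ζ * y j) * ζ := by group
      _ = y i * y j * (ζ * ζ) := by rw [sw]; group
      _ = y j * y i * (ζ * ζ) := by rw [hb]
      _ = y j * (y i * ζ) * ζ := by group
      _ = y j * (ζ * y i) * ζ := by rw [sw]
      _ = y j * ζ * (y i * ζ) := by group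
  · rw [ev_mul_cen hζ (powW [1, 2, 3, 4, 5, 6, 9] 9) (y := y) (y' := y') (by
      intro i hi
      apply hy'
      have h2 : ((powW [1, 2, 3, 4, 5, 6, 9] 9).all fun i => l10.contains i) = true := by decide
      rw [List.all_eq_true] at h2
      simpa using h2 i hi)]
    have h5 : (powW [1, 2, 3, 4, 5, 6, 9] 9).length = 63 := by decide
    rw [h5, ev_powW]
    exact hζv

section
variable {Γ : Type} [Group Γ] {σ : Γ →* Fi23} {y : ℕ → Γ} (h : Good σ y)
include h

theorem g0 : y 0 = 1 := h.one 0 (by decide)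

theorem ghic (i : ℕ) (hi : i < 16) : y (il Fi23R.ic i) = (y i)⁻¹ := by
  by_cases hm : i ∈ l10
  · have e : il Fi23R.ic i = i := by
      simp only [l10, List.mem_cons, List.not_mem_nil, or_false] at hm
      rcases hm with rfl | rfl | rfl | rfl | rfl | rfl | rfl | rfl | rfl | rfl <;> decide
    rw [e]
    exact eq_inv_of_mul_eq_one_left (h.sq i hm)
  · have e : il Fi23R.ic i = 0 := by
      simp only [l10, List.mem_cons, List.not_mem_nil, or_false] at hm
      have : i = 0 ∨ i = 11 ∨ i = 12 ∨ i = 13 ∨ i = 14 ∨ i = 15 := by omega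
      rcases this with rfl | rfl | rfl | rfl | rfl | rfl <;> decide
    rw [e, g0 h, h.one i hm, inv_one]

/-- all the Coxeter relators, in both orders, and `(abcdefh)^9` -/
def big : List (List ℕ) := coxR lab l10 ++ [powW [1, 2, 3, 4, 5, 6, 9] 9]

theorem gbig_pair (i : ℕ) (hi : i ∈ l10) (j : ℕ) (hj : j ∈ l10) (hij : i ≠ j) : (y i * y j) ^ lab i j = 1 := by
  by_cases h3 : lab i j = 3
  · rw [h3, pow3_of_braid (u := 1) (h.braid i hi j hj hij h3) (h.sq i hi) (h.sq j hj) (by simp), one_pow]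
  · rw [(lab_cases i j).resolve_left h3, pow2_of_comm (u := 1) (h.comm i hi j hj hij h3) (h.sq i hi) (h.sq j hj),
      one_pow]

theorem gbig : ∀ w ∈ big, ev y w = 1 := by
  intro w hw
  rw [big, List.mem_append, List.mem_singleton] at hw
  rcases hw with hw | rfl
  · refine coxR_ok ?_ w hw
    intro i hi j hj hij
    by_cases h3 : lab i j = 3
    · rw [h3, pow3_of_braid (u := 1) (h.braid i hi j hj hij h3) (h.sq i hi) (h.sq j hj) (by simp), one_pow]
    · rw [(lab_cases i j).resolve_left h3, pow2_of_comm (u := 1) (h.comm i hi j hj hij h3) (h.sq i hi) (h.sq j hj),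
        one_pow]
  · exact h.cox

/-- elements of the E₇-subgroup mapping to `1` are trivial -/
theorem gker {q : Γ} (hq : q ∈ Hl y [1, 2, 3, 4, 5, 6, 9]) (h1 : σ q = 1) : q = 1 := by
  have hok : Ok MfS.ic 7 MfS.rels (ren y [0, 1, 2, 3, 4, 5, 6, 9]) := by
    refine ⟨?_, ?_, ?_⟩
    · exact ren_hic (ic := Fi23R.ic) (ic' := MfS.ic) (ghic h) (by decide +kernel)
    · intro i hi
      unfold ren
      have e : ([0, 1, 2, 3, 4, 5, 6, 9] : List ℕ).getD i 0 = 0 := by
        rcases hi with rfl | hi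
        · rfl
        · exact List.getD_eq_default _ _ (by simp only [List.length_cons, List.length_nil]; omega)
      rw [e]
      exact g0 h
    · exact ren_rels (gbig h) (by decide +kernel)
  obtain ⟨Φ, hΦ⟩ := lift_ok hok
  have h2 : Hl y [1, 2, 3, 4, 5, 6, 9] ≤ Φ.range := by
    unfold Hl
    rw [Subgroup.closure_le]
    rintro _ ⟨i, hi, rfl⟩
    simp only [Set.mem_ofPred_eq, List.mem_cons, List.not_mem_nil, or_false] at hi
    rcases hi with rfl | rfl | rfl | rfl | rfl | rfl | rfl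
    exacts [⟨MfC.xs 1, hΦ 1⟩, ⟨MfC.xs 2, hΦ 2⟩, ⟨MfC.xs 3, hΦ 3⟩, ⟨MfC.xs 4, hΦ 4⟩, ⟨MfC.xs 5, hΦ 5⟩,
      ⟨MfC.xs 6, hΦ 6⟩, ⟨MfC.xs 7, hΦ 7⟩]
  obtain ⟨w, rfl⟩ := h2 hq
  haveI := MfC.simpleS
  have h3 : (σ.comp Φ).ker = ⊥ ∨ (σ.comp Φ).ker = ⊤ := IsSimpleGroup.eq_bot_or_eq_top_of_normal _ inferInstance
  rcases h3 with h3 | h3
  · have h4 : w ∈ (σ.comp Φ).ker := h1
    rw [h3] at h4
    rw [Subgroup.mem_bot.1 h4, map_one]
  · exfalso
    have h4 : MfC.xs 1 ∈ (σ.comp Φ).ker := by rw [h3]; trivial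
    rw [MonoidHom.mem_ker, MonoidHom.comp_apply, hΦ 1] at h4
    have h5 : σ (y 1) = 1 := h4
    rw [h.map 1 (by decide)] at h5
    exact MfP.x1_ne h5

theorem gmap (w : List ℕ) (hw : (w.all fun i => l10.contains i) = true) : σ (ev y w) = ev x w := by
  rw [ev_map]
  induction w with
  | nil => rfl
  | cons i w ih =>
    rw [List.all_cons, Bool.and_eq_true, List.contains_iff_mem] at hw
    rw [ev_cons, ev_cons, ih hw.2, h.map i hw.1]

/-- the extra transposition -/
theorem gt2 : ev y MfP.tw * ev y MfP.tw = 1 ∧ ∀ i ∈ ([2, 3, 4, 5, 6, 7, 9] : List ℕ), ev y MfP.tw * y i = y i * ev y MfP.tw := by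
  have hok : Ok MfR.ic 7 MfR.rels (ren y [0, 7, 6, 5, 4, 3, 2, 9]) := by
    refine ⟨?_, ?_, ?_⟩
    · exact ren_hic (ic := Fi23R.ic) (ic' := MfR.ic) (ghic h) (by decide +kernel)
    · intro i hi
      unfold ren
      have e : ([0, 7, 6, 5, 4, 3, 2, 9] : List ℕ).getD i 0 = 0 := by
        rcases hi with rfl | hi
        · rfl
        · exact List.getD_eq_default _ _ (by simp only [List.length_cons, List.length_nil]; omega)
      rw [e]
      exact g0 h
    · exact ren_rels (gbig h) (by decide +kernel)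
  obtain ⟨Φ, hΦ⟩ := lift_ok hok
  have e1 : (fun i => Φ (MfC.xe i)) = ren y [0, 7, 6, 5, 4, 3, 2, 9] := by funext i; exact hΦ i
  have e2 : Φ (ev MfC.xe [1, 2, 3, 4, 5, 6, 7] ^ 9) = ev y MfP.tw := by
    rw [map_pow, ev_map, e1, ev_ren, MfP.tw, ev_powW]
    rfl
  constructor
  · have h1 := congrArg Φ MfC.cox18
    rw [← e2, ← map_mul, ← pow_add]
    rw [map_one] at h1
    exact h1
  · intro i hi
    have key : ∀ j, j < 8 → ev y MfP.tw * ren y [0, 7, 6, 5, 4, 3, 2, 9] j =
        ren y [0, 7, 6, 5, 4, 3, 2, 9] j * ev y MfP.tw := by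
      intro j hj
      have h1 := congrArg Φ (MfC.cen j hj)
      rw [map_mul, map_mul, e2, hΦ j] at h1
      exact h1
    simp only [List.mem_cons, List.not_mem_nil, or_false] at hi
    rcases hi with rfl | rfl | rfl | rfl | rfl | rfl | rfl
    exacts [key 6 (by decide), key 5 (by decide), key 4 (by decide), key 3 (by decide), key 2 (by decide),
      key 1 (by decide), key 7 (by decide)]


theorem gt_comm (i : ℕ) (hi : i ∈ ([1, 2, 3, 4, 5, 6, 7, 9, 10] : List ℕ)) (hz : σ.ker ≤ Subgroup.center Γ) :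
    ev y MfP.tw * y i = y i * ev y MfP.tw := by
  obtain ⟨_, h2⟩ := gt2 h
  have hm : σ (ev y MfP.tw) = ev x MfP.tw := gmap h _ (by decide)
  have k1 : ev y MfP.tw * y 1 = y 1 * ev y MfP.tw := by
    obtain ⟨z, hzz, e⟩ := comm_cen (σ := σ) hz (x := ev y MfP.tw) (q := y 1)
      (by rw [hm, h.map 1 (by decide)]; exact MfP.r1)
    exact comm_step' (h.braid 2 (by decide) 1 (by decide) (by decide) (by decide)) hzz (h2 2 (by decide)) e
  have k10 : ev y MfP.tw * y 10 = y 10 * ev y MfP.tw := by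
    obtain ⟨z, hzz, e⟩ := comm_cen (σ := σ) hz (x := ev y MfP.tw) (q := y 10)
      (by rw [hm, h.map 10 (by decide)]; exact MfP.r2)
    exact comm_step' (h.braid 9 (by decide) 10 (by decide) (by decide) (by decide)) hzz (h2 9 (by decide)) e
  simp only [List.mem_cons, List.not_mem_nil, or_false] at hi
  rcases hi with rfl | rfl | rfl | rfl | rfl | rfl | rfl | rfl | rfl
  exacts [k1, h2 2 (by decide), h2 3 (by decide), h2 4 (by decide), h2 5 (by decide), h2 6 (by decide),
    h2 7 (by decide), h2 9 (by decide), k10]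

theorem gt8 : (ev y MfP.tw * y 8) ^ 3 = 1 := by
  have h1 := MfQa.word0 (x := ren y [0, 1, 2, 3, 4, 5, 6, 7, 8, 9]) (H := Hl y [1, 2, 3, 4, 5, 6, 9])
    (ren_hic (x := y) (ic := Fi23R.ic) (ic' := MfQa.ic) (σ := [0, 1, 2, 3, 4, 5, 6, 7, 8, 9]) (ghic h)
        (by decide +kernel)) (show y 0 = 1 from g0 h) (ren_rels (gbig h) (by decide +kernel)) (by
      intro s hs
      simp only [MfQa.L, List.mem_cons, List.not_mem_nil, or_false] at hs
      rcases hs with rfl | rfl | rfl | rfl | rfl | rfl | rfl <;> exact mem_Hl y (by decide))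
  have h2 : σ ((ev y MfP.tw * y 8) ^ 3) = 1 := by
    rw [map_pow, map_mul, gmap h _ (by decide), h.map 8 (by decide)]
    exact MfP.r3
  refine gker h ?_ h2
  have e : (ev y MfP.tw * y 8) ^ 3 = ev y (powW (MfP.tw ++ [8]) 3) := by
    rw [ev_powW, ev_append, ev_cons, ev_nil, mul_one]
  rw [e]
  rw [ev_ren] at h1
  exact h1

/-- the letters of the spider lemma -/
theorem gspider (hz : σ.ker ≤ Subgroup.center Γ) :
    (y 4 * y 5 * y 6 * y 4 * y 3 * y 2 * y 4 * y 9 * y 10) ^ 10 = 1 := by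
  obtain ⟨tt, _⟩ := gt2 h
  have tc := fun i hi => gt_comm h i hi hz
  have t8 := gt8 h
  generalize ht : ev y MfP.tw = t at tt tc t8
  let x' : ℕ → Γ := fun i => [1, t, y 8, y 7, y 6, y 5, y 4, y 3, y 2, y 9, y 10].getD i 1
  let τ : List ℕ := [0, 0, 8, 7, 6, 5, 4, 3, 2, 9, 10]
  have hx : ∀ i, 2 ≤ i → i ≤ 10 → x' i = y (τ.getD i 0) := by
    intro i h1 h2
    interval_cases i <;> rfl
  have hok : Spider.Ok x' := by
    refine ⟨?_, rfl, ?_⟩
    · intro i hi
      by_cases h1 : i = 1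
      · subst h1
        exact eq_inv_of_mul_eq_one_left tt
      · by_cases h2 : 2 ≤ i ∧ i ≤ 10
        · have e : il SpR.ic i = i := by
            obtain ⟨h3, h4⟩ := h2
            interval_cases i <;> decide
          rw [e]
          refine eq_inv_of_mul_eq_one_left ?_
          rw [hx i h2.1 h2.2]
          refine h.sq _ ?_
          obtain ⟨h3, h4⟩ := h2
          interval_cases i <;> decide
        · have h3 : i = 0 ∨ i = 11 ∨ i = 12 ∨ i = 13 ∨ i = 14 ∨ i = 15 := by omega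
          have e : il SpR.ic i = 0 := by rcases h3 with rfl | rfl | rfl | rfl | rfl | rfl <;> decide
          have e1 : x' i = 1 := by rcases h3 with rfl | rfl | rfl | rfl | rfl | rfl <;> rfl
          rw [e, e1, inv_one]
          rfl
    · intro w hw
      rw [SpR.rels, List.mem_append, List.mem_map, List.mem_singleton] at hw
      rcases hw with ⟨⟨i, j⟩, hp, rfl⟩ | rfl
      · have hc : (SpR.prs.all fun p => (p.1 == 1 && p.2 == 2 && SpR.lab p.1 p.2 == 3) ||
            (p.1 == 2 && p.2 == 1 && SpR.lab p.1 p.2 == 3) ||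
            (p.1 == 1 && Nat.ble 3 p.2 && Nat.ble p.2 10 && SpR.lab p.1 p.2 == 2) ||
            (p.2 == 1 && Nat.ble 3 p.1 && Nat.ble p.1 10 && SpR.lab p.1 p.2 == 2) ||
            (Nat.ble 2 p.1 && Nat.ble p.1 10 && Nat.ble 2 p.2 && Nat.ble p.2 10 &&
              SpR.lab p.1 p.2 == lab (τ.getD p.1 0) (τ.getD p.2 0) && l10.contains (τ.getD p.1 0) &&
              l10.contains (τ.getD p.2 0) && (τ.getD p.1 0) != (τ.getD p.2 0))) = true := by decide
        rw [List.all_eq_true] at hc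
        have h1 := hc _ hp
        simp only [Bool.or_eq_true, Bool.and_eq_true, beq_iff_eq, List.contains_iff_mem, bne_iff_ne, ne_eq,
          Nat.ble_eq] at h1
        rw [ev_coxW]
        rcases h1 with (((h1 | h1) | h1) | h1) | h1
        · obtain ⟨⟨rfl, rfl⟩, h3⟩ := h1
          rw [h3]
          exact t8
        · obtain ⟨⟨rfl, rfl⟩, h3⟩ := h1
          rw [h3]
          exact pow_swap _ _ _ t8
        · obtain ⟨⟨⟨rfl, h4⟩, h5⟩, h3⟩ := h1
          rw [h3]
          have e1 : x' 1 = t := rfl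
          rw [hx j (by omega) h5, e1]
          have hm : τ.getD j 0 ∈ ([1, 2, 3, 4, 5, 6, 7, 9, 10] : List ℕ) := by interval_cases j <;> decide
          have hm2 : τ.getD j 0 ∈ l10 := by interval_cases j <;> decide
          rw [pow2_of_comm (u := 1) (tc _ hm) tt (h.sq _ hm2), one_pow]
        · obtain ⟨⟨⟨rfl, h4⟩, h5⟩, h3⟩ := h1
          rw [h3]
          have e1 : x' 1 = t := rfl
          rw [hx i (by omega) h5, e1]
          have hm : τ.getD i 0 ∈ ([1, 2, 3, 4, 5, 6, 7, 9, 10] : List ℕ) := by interval_cases i <;> decide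
          have hm2 : τ.getD i 0 ∈ l10 := by interval_cases i <;> decide
          rw [pow2_of_comm (u := 1) (tc _ hm).symm (h.sq _ hm2) tt, one_pow]
        · obtain ⟨⟨⟨⟨⟨⟨⟨h2, h3⟩, h4⟩, h5⟩, h6⟩, h7⟩, h8⟩, h9⟩ := h1
          rw [hx i h2 h3, hx j h4 h5, h6]
          exact gbig_pair h _ h7 _ h8 h9
      · rw [ev_cons, ev_powW]
        have e1 : ev x' [3, 4, 5, 6, 7, 8, 9] = ev y [7, 6, 5, 4, 3, 2, 9] := by
          simp only [ev_cons, ev_nil]
          rfl
        have e2 : x' 1 = t := rfl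
        rw [e1, e2, ← ev_powW, show powW [7, 6, 5, 4, 3, 2, 9] 9 = MfP.tw from rfl, ht]
        exact tt
  have := Spider.spider_x hok
  exact this

theorem gspider' (hz : σ.ker ≤ Subgroup.center Γ) : ev y (powW [4, 3, 2, 4, 5, 6, 4, 9, 10] 10) = 1 := by
  have h1 := MfQb.word0 (x := ren y [0, 2, 3, 4, 5, 6, 9, 10]) (H := Hl y [1, 2, 3, 4, 5, 6, 9])
    (ren_hic (x := y) (ic := Fi23R.ic) (ic' := MfQb.ic) (σ := [0, 2, 3, 4, 5, 6, 9, 10]) (ghic h)
        (by decide +kernel)) (show y 0 = 1 from g0 h) (by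
      have h3 : ∀ w ∈ (big ++ [powW [4, 5, 6, 4, 3, 2, 4, 9, 10] 10]), ev y w = 1 := by
        intro w hw
        rw [List.mem_append, List.mem_singleton] at hw
        rcases hw with hw | rfl
        · exact gbig h w hw
        · rw [ev_powW]
          simp only [ev_cons, ev_nil, mul_one]
          have := gspider h hz
          simpa only [mul_assoc] using this
      exact ren_rels h3 (by decide +kernel)) (by
      intro s hs
      simp only [MfQb.L, List.mem_cons, List.not_mem_nil, or_false] at hs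
      rcases hs with rfl | rfl | rfl | rfl | rfl | rfl <;> exact mem_Hl y (by decide))
  rw [ev_ren] at h1
  refine gker h h1 ?_
  rw [gmap h _ (by decide)]
  exact Fi23M.hrels0 _ (by decide)

theorem grels (hz : σ.ker ≤ Subgroup.center Γ) : ∀ w ∈ Fi23R.rels, ev y w = 1 := by
  have h3 : ∀ w ∈ (big ++ [powW [4, 3, 2, 4, 5, 6, 4, 9, 10] 10]), ev y w = 1 := by
    intro w hw
    rw [List.mem_append, List.mem_singleton] at hw
    rcases hw with hw | rfl
    · exact gbig h w hw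
    · exact gspider' h hz
  exact sub_rels h3 (by decide +kernel)

end

/-- names of the generators -/
def idx : Fi23.Gen → ℕ
  | .a => 1
  | .b => 2
  | .c => 3
  | .d => 4
  | .e => 5
  | .f => 6
  | .g => 7
  | .j => 8
  | .h => 9
  | .i => 10

theorem section_exists {Γ : Type} [Group Γ] {σ : Γ →* Fi23} (hs : Function.Surjective σ)
    (hz : σ.ker ≤ Subgroup.center Γ) : ∃ θ : Fi23 →* Γ, σ.comp θ = MonoidHom.id Fi23 := by
  obtain ⟨y, h⟩ := exists_good hs hz
  let f : Fi23.Gen → Γ := fun g => y (idx g)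
  have hx : xF f Fi23R.lm = y := by
    funext i
    by_cases h10 : i < 11
    · interval_cases i
      · rw [g0 h]; simp [xF, Fi23R.lm]
      · exact Fi23R.x1 f
      · exact Fi23R.x2 f
      · exact Fi23R.x3 f
      · exact Fi23R.x4 f
      · exact Fi23R.x5 f
      · exact Fi23R.x6 f
      · exact Fi23R.x7 f
      · exact Fi23R.x8 f
      · exact Fi23R.x9 f
      · exact Fi23R.x10 f
    · have h1 : i ∉ l10 := by
        simp only [l10, List.mem_cons, List.not_mem_nil, or_false]; omega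
      rw [h.one i h1]
      unfold xF
      rw [List.getD_eq_default _ _ (by simp only [Fi23R.lm, List.length_cons, List.length_nil]; omega), map_one]
  have hl := Fi23R.lifts f (by rw [hx]; exact ghic h) (by rw [hx]; exact grels h hz)
  refine ⟨PresentedGroup.toGroup hl, ?_⟩
  apply PresentedGroup.ext
  intro g
  rw [MonoidHom.comp_apply, PresentedGroup.toGroup.of, MonoidHom.id_apply]
  cases g
  exacts [h.map 1 (by decide), h.map 2 (by decide), h.map 3 (by decide), h.map 4 (by decide), h.map 5 (by decide),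
    h.map 6 (by decide), h.map 7 (by decide), h.map 8 (by decide), h.map 9 (by decide), h.map 10 (by decide)]

/-- a stem extension with a section is trivial -/
theorem stem_trivial {Γ G : Type*} [Group Γ] [Group G] {σ : Γ →* G} (h : Cfsg.IsStemExtension σ) {θ : G →* Γ}
    (hθ : σ.comp θ = MonoidHom.id G) : σ.ker = ⊥ := by
  obtain ⟨_, hz, hc⟩ := h
  have hst : ∀ g : G, σ (θ g) = g := fun g => DFunLike.congr_fun hθ g
  have h1 : commutator Γ ≤ θ.range := by
    rw [commutator_eq_closure, Subgroup.closure_le]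
    rintro _ ⟨a, b, rfl⟩
    have ha : a * (θ (σ a))⁻¹ ∈ σ.ker := by
      rw [MonoidHom.mem_ker, map_mul, map_inv, hst, mul_inv_cancel]
    have hb : b * (θ (σ b))⁻¹ ∈ σ.ker := by
      rw [MonoidHom.mem_ker, map_mul, map_inv, hst, mul_inv_cancel]
    have ca := Subgroup.mem_center_iff.1 (hz ha)
    have cb := Subgroup.mem_center_iff.1 (hz hb)
    refine ⟨σ a * σ b * (σ a)⁻¹ * (σ b)⁻¹, ?_⟩
    rw [map_mul, map_mul, map_mul, map_inv, map_inv]
    generalize hza : a * (θ (σ a))⁻¹ = za at ca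
    generalize hzb : b * (θ (σ b))⁻¹ = zb at cb
    have ea : a = za * θ (σ a) := by rw [← hza]; group
    have eb : b = zb * θ (σ b) := by rw [← hzb]; group
    generalize θ (σ a) = a' at ea
    generalize θ (σ b) = b' at eb
    subst ea eb
    rw [commutatorElement_def]
    have hcc : ∀ g, za * g = g * za := fun g => (ca g).symm
    have hcd : ∀ g, zb * g = g * zb := fun g => (cb g).symm
    calc a' * b' * a'⁻¹ * b'⁻¹ = (a' * b' * a'⁻¹ * b'⁻¹) * (za * (zb * (za⁻¹ * zb⁻¹))) := by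
          have : za * (zb * (za⁻¹ * zb⁻¹)) = 1 := by
            rw [← mul_assoc za zb, hcc zb]; group
          rw [this, mul_one]
      _ = za * a' * (zb * b') * (za * a')⁻¹ * (zb * b')⁻¹ := by
          have e1 : za * a' * (zb * b') * (za * a')⁻¹ * (zb * b')⁻¹ = za * (a' * zb) * b' * a'⁻¹ * za⁻¹ * b'⁻¹ * zb⁻¹ := by
            group
          rw [e1, ← hcd a']
          have e2 : za * (zb * a') * b' * a'⁻¹ * za⁻¹ * b'⁻¹ * zb⁻¹ = za * (zb * (a' * b' * a'⁻¹ * (za⁻¹ * b'⁻¹))) * zb⁻¹ := by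
            group
          have e3 : za⁻¹ * b'⁻¹ = b'⁻¹ * za⁻¹ := by
            rw [← mul_inv_rev, ← mul_inv_rev, hcc b']
          rw [e2, e3]
          have e4 : za * (zb * (a' * b' * a'⁻¹ * (b'⁻¹ * za⁻¹))) * zb⁻¹ = (za * (zb * (a' * b' * a'⁻¹ * b'⁻¹))) * za⁻¹ * zb⁻¹ := by
            group
          have e5 : za * ((a' * b' * a'⁻¹ * b'⁻¹) * zb) * za⁻¹ * zb⁻¹ =
              (za * (a' * b' * a'⁻¹ * b'⁻¹)) * (zb * za⁻¹ * zb⁻¹) := by group
          rw [e4, hcd (a' * b' * a'⁻¹ * b'⁻¹), e5, hcc (a' * b' * a'⁻¹ * b'⁻¹)]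
          group
  rw [eq_bot_iff]
  intro z hzk
  obtain ⟨g, rfl⟩ := h1 (hc hzk)
  have h2 : σ (θ g) = 1 := hzk
  rw [hst g] at h2
  rw [h2, map_one]
  exact Subgroup.one_mem _

theorem trivial_mult {G : Type} [Group G] [Finite G]
    (h : ∀ (Γ : Type) [Group Γ] [Finite Γ] (σ : Γ →* G), Cfsg.IsStemExtension σ → σ.ker = ⊥) :
    Cfsg.HasCyclicSchurMultiplier G 1 := by
  refine ⟨⟨G, inferInstance, inferInstance, MonoidHom.id G, ?_, ?_⟩, ?_⟩
  · refine ⟨Function.surjective_id, ?_, ?_⟩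
    · intro g hg
      have : g = 1 := hg
      rw [this]; exact Subgroup.one_mem _
    · intro g hg
      have : g = 1 := hg
      rw [this]; exact Subgroup.one_mem _
  · have e : (MonoidHom.id G).ker = ⊥ := by
      rw [eq_bot_iff]
      intro g hg
      exact Subgroup.mem_bot.2 hg
    have : Unique (MonoidHom.id G).ker := by
      rw [e]; infer_instance
    have : Unique (Multiplicative (ZMod 1)) := inferInstanceAs (Unique (ZMod 1))
    exact ⟨MulEquiv.ofUnique⟩
  · intro Γ _ _ σ hσ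
    have e := h Γ σ hσ
    refine ⟨1, ?_⟩
    intro g
    refine ⟨1, ?_⟩
    apply Subtype.ext
    have h1 : (g : Γ) ∈ (⊥ : Subgroup Γ) := by rw [← e]; exact g.2
    rw [Subgroup.mem_bot.1 h1]
    rfl

theorem mult_Fi23 : Cfsg.HasCyclicSchurMultiplier Cfsg.Spor.Fi23 1 := by
  apply trivial_mult
  intro Γ _ _ σ hσ
  obtain ⟨θ, hθ⟩ := section_exists hσ.1 hσ.2.1
  exact stem_trivial hσ hθ

end Cfsg.Agent.H4.MfE
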