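import Cfsg.Agent.H4_Ltr

/-!
Relators for the groups used in the computation of the Schur multiplier of Fi₂₃.
-/

set_option autoImplicit false
set_option maxRecDepth 100000

namespace Cfsg.Agent.H4.MfR

open Cfsg.Agent.H8 Cfsg.Agent.H8.CE Cfsg.Agent.H8.Net Cfsg.Agent.H8.Act Cfsg.Agent.H8.Cox

/-- labels of a diagram with simple edges -/
def labOf (es : List (ℕ × ℕ)) (i j : ℕ) : ℕ := if es.contains (i, j) || es.contains (j, i) then 3 else 2

/-- E₇ on `a, b, c, d, e, f, h = 1, …, 7` -/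
def lab7 : ℕ → ℕ → ℕ := labOf [(1, 2), (2, 3), (3, 4), (4, 5), (5, 6), (4, 7)]

/-- inverse letters (seven involutions) -/
def ic : ℕ := 0x76543210

/-- W(E₇) -/
def rels : List (List ℕ) := Ltr.coxR lab7 [1, 2, 3, 4, 5, 6, 7]

/-- the quotient by the centre -/
def rels' : List (List ℕ) := rels ++ [powW [1, 2, 3, 4, 5, 6, 7] 9]

end Cfsg.Agent.H4.MfR

namespace Cfsg.Agent.H4.MfS

/-- inverse letters (seven involutions) -/
def ic : ℕ := MfR.ic

/-- the quotient of W(E₇) by its centre -/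
def rels : List (List ℕ) := MfR.rels'

end Cfsg.Agent.H4.MfS
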