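import Cfsg.Agent.H4_MsA
import Cfsg.Agent.H4_MfD
import Cfsg.Prelude.Def_KGroupFacts

/-!
The double cover of the group `S` (= Sp₆(2)) presented on the E₇ diagram.
-/

set_option autoImplicit false
set_option maxRecDepth 100000

namespace Cfsg.Agent.H4.MsB

open Cfsg.Agent.H8 Cfsg.Agent.H8.CE Cfsg.Agent.H8.CS Cfsg.Agent.H8.Net Cfsg.Agent.H8.Act Cfsg.Agent.H8.Cox
open Cfsg.Agent.H8.Act2 Cfsg.Agent.H4.Ltr Cfsg.Agent.H4.MfD

universe u v w

/-- the letters -/
def l7 : List ℕ := [1, 2, 3, 4, 5, 6, 7]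

/-! ### The cover -/

abbrev T : Type := P MsR.ic 15 MsR.rels
noncomputable abbrev xt : ℕ → T := xg MsR.ic 15 MsR.rels

theorem xt_ok : Ok MsR.ic 15 MsR.rels xt := xg_ok

theorem netA : ∀ y, y < 16 → (y = 0 ∨ 15 < y) → net MsA.L y = .nil := by
  intro y h16 hy
  have : y = 0 := by omega
  subst this
  rfl

theorem hnA : 240 ≤ 2 ^ 8 := by decide

theorem phiT : ∃ φ : T →* Equiv.Perm (Fin 240), Compat φ xt MsA.L :=
  compat_of MsA.sys hnA MsA.inv_ok (xP_ok MsA.sys hnA MsA.inv_ok netA MsA.rel_ok (by decide +kernel))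

/-- the central involution -/
noncomputable abbrev zt : T := xt 15

theorem zt_ne : zt ≠ 1 := by
  obtain ⟨φ, hc⟩ := phiT
  intro h
  have h1 := hc 15 (by decide) ⟨0, by decide⟩
  have h2 : φ (xt 15) = 1 := by rw [show xt 15 = 1 from h, map_one]
  rw [h2, inv_one] at h1
  exact MsA.mv h1.symm

theorem inv_lt (i : ℕ) (hi : i ∈ l7) : xt (i + 7) = (xt i)⁻¹ := by
  have h := xt_ok.hic i (by simp only [l7, List.mem_cons, List.not_mem_nil, or_false] at hi; omega)
  have e : il MsR.ic i = i + 7 := by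
    simp only [l7, List.mem_cons, List.not_mem_nil, or_false] at hi
    rcases hi with rfl | rfl | rfl | rfl | rfl | rfl | rfl <;> decide
  rw [e] at h
  exact h

theorem zt_inv : zt⁻¹ = zt := by
  have h := xt_ok.hic 15 (by decide)
  have e : il MsR.ic 15 = 15 := by decide
  rw [e] at h
  exact h.symm

theorem zt_sq : zt * zt = 1 := by
  nth_rewrite 1 [← zt_inv]
  exact inv_mul_cancel _

theorem rel1 (i : ℕ) (hi : i ∈ l7) : xt i * xt i = zt := by
  have h := xt_ok.hrels [i, i, 15] (by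
    have h0 : (l7.all fun i => MsR.rels.contains [i, i, 15]) = true := by decide +kernel
    rw [List.all_eq_true] at h0
    have := h0 i hi
    rwa [List.contains_iff_mem] at this)
  simp only [ev_cons, ev_nil, mul_one] at h
  rw [← mul_assoc] at h
  have h2 := eq_inv_of_mul_eq_one_left h
  rw [h2]
  exact zt_inv

theorem rel2 (i : ℕ) (hi : i ∈ l7) : zt * xt i = xt i * zt := by
  have h := xt_ok.hrels [15, i, 15, i + 7] (by
    have h0 : (l7.all fun i => MsR.rels.contains [15, i, 15, i + 7]) = true := by decide +kernel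
    rw [List.all_eq_true] at h0
    have := h0 i hi
    rwa [List.contains_iff_mem] at this)
  simp only [ev_cons, ev_nil, mul_one] at h
  rw [inv_lt i hi] at h
  have h2 : zt * xt i * (zt * (xt i)⁻¹) = 1 := by rw [← h]; group
  have h3 := eq_inv_of_mul_eq_one_left h2
  rw [h3, mul_inv_rev, inv_inv, zt_inv]

theorem rel3 (i j : ℕ) (hi : i ∈ l7) (hj : j ∈ l7) (hij : i ≠ j) :
    (MfR.lab7 i j = 3 → xt i * xt j * xt i = xt j * xt i * xt j) ∧
    (MfR.lab7 i j ≠ 3 → xt i * xt j * (xt i)⁻¹ * (xt j)⁻¹ * zt = 1) := by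
  have h := xt_ok.hrels (MsR.prel (i, j)) (by
    have h0 : (l7.all fun i => l7.all fun j => i == j || MsR.rels.contains (MsR.prel (i, j))) = true := by decide +kernel
    rw [List.all_eq_true] at h0
    have h1 := h0 i hi
    rw [List.all_eq_true] at h1
    have h2 := h1 j hj
    simp only [Bool.or_eq_true, beq_iff_eq, List.contains_iff_mem] at h2
    exact h2.resolve_left hij)
  constructor
  · intro h3
    unfold MsR.prel at h
    rw [if_pos h3] at h
    simp only [ev_cons, ev_nil, mul_one] at h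
    rw [inv_lt i hi, inv_lt j hj] at h
    have h4 : xt i * xt j * xt i * (xt j * xt i * xt j)⁻¹ = 1 := by rw [← h]; group
    exact mul_inv_eq_one.1 h4
  · intro h3
    unfold MsR.prel at h
    rw [if_neg h3] at h
    simp only [ev_cons, ev_nil, mul_one] at h
    rw [inv_lt i hi, inv_lt j hj] at h
    rw [← h]; group

theorem all_lt (C : ℕ → Prop) (h0 : ∀ i, (i = 0 ∨ 15 < i) → C i) (h7 : ∀ i ∈ l7, C i) (h14 : ∀ i ∈ l7, C (i + 7))
    (h15 : C 15) (i : ℕ) : C i := by
  by_cases h1 : i = 0 ∨ 15 < i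
  · exact h0 i h1
  · by_cases h2 : i ≤ 7
    · exact h7 i (by simp only [l7, List.mem_cons, List.not_mem_nil, or_false]; omega)
    · by_cases h3 : i = 15
      · rw [h3]; exact h15
      · have h4 := h14 (i - 7) (by simp only [l7, List.mem_cons, List.not_mem_nil, or_false]; omega)
        have e : i - 7 + 7 = i := by omega
        rwa [e] at h4

theorem zt_cen : zt ∈ Subgroup.center T := by
  rw [Subgroup.mem_center_iff]
  intro g
  have h : g ∈ (⊤ : Subgroup T) := trivial
  rw [← PresentedGroup.closure_range_of (RR MsR.ic 15 MsR.rels)] at h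
  induction h using Subgroup.closure_induction with
  | mem g hg =>
    obtain ⟨i, rfl⟩ := hg
    refine all_lt (fun i => xt i * zt = zt * xt i) ?_ ?_ ?_ rfl i
    · intro i hi
      rw [show xt i = 1 from xt_ok.hk i hi, one_mul, mul_one]
    · intro i hi
      exact (rel2 i hi).symm
    · intro i hi
      show xt (i + 7) * zt = zt * xt (i + 7)
      rw [inv_lt i hi]
      have h1 := rel2 i hi
      calc (xt i)⁻¹ * zt = (xt i)⁻¹ * (zt * xt i) * (xt i)⁻¹ := by group
        _ = (xt i)⁻¹ * (xt i * zt) * (xt i)⁻¹ := by rw [h1]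
        _ = zt * (xt i)⁻¹ := by group
  | one => simp
  | mul a b _ _ ha hb => rw [mul_assoc, hb, ← mul_assoc, ha, mul_assoc]
  | inv a _ ha =>
    calc a⁻¹ * zt = a⁻¹ * (zt * a) * a⁻¹ := by group
      _ = a⁻¹ * (a * zt) * a⁻¹ := by rw [ha]
      _ = zt * a⁻¹ := by group

theorem zt_comm : zt ∈ commutator T := by
  have h := (rel3 1 3 (by decide) (by decide) (by decide)).2 (by decide)
  have h1 : xt 1 * xt 3 * (xt 1)⁻¹ * (xt 3)⁻¹ ∈ commutator T := by
    have := Subgroup.commutator_mem_commutator (Subgroup.mem_top (xt 1)) (Subgroup.mem_top (xt 3))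
    rwa [commutatorElement_def] at this
  have h2 : zt = (xt 1 * xt 3 * (xt 1)⁻¹ * (xt 3)⁻¹)⁻¹ := eq_inv_of_mul_eq_one_right h
  rw [h2]
  exact (commutator T).inv_mem h1

/-- squares in `S` -/
theorem xs_sq (i : ℕ) (hi : i ∈ l7) : MfC.xs i * MfC.xs i = 1 := by
  have h := MfC.xs_ok.hic i (by simp only [l7, List.mem_cons, List.not_mem_nil, or_false] at hi; omega)
  have e : il MfS.ic i = i := by
    simp only [l7, List.mem_cons, List.not_mem_nil, or_false] at hi
    rcases hi with rfl | rfl | rfl | rfl | rfl | rfl | rfl <;> decide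
  rw [e] at h
  exact mul_eq_one_iff_eq_inv.2 h

end Cfsg.Agent.H4.MsB
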