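import Cfsg.Agent.H4_MsB

/-!
The projection of the double cover onto `S`.
-/

set_option autoImplicit false
set_option maxRecDepth 100000

namespace Cfsg.Agent.H4.MsB

open Cfsg.Agent.H8 Cfsg.Agent.H8.CE Cfsg.Agent.H8.CS Cfsg.Agent.H8.Net Cfsg.Agent.H8.Act Cfsg.Agent.H8.Cox
open Cfsg.Agent.H8.Act2 Cfsg.Agent.H4.Ltr Cfsg.Agent.H4.MfD

universe u v w

/-- Coxeter relations in `S` -/
theorem xs_pair (i j : ℕ) (hi : i ∈ l7) (hj : j ∈ l7) (hij : i ≠ j) : (MfC.xs i * MfC.xs j) ^ MfR.lab7 i j = 1 := by
  have h : (l7.all fun i => l7.all fun j => i == j || MfS.rels.contains (coxW i j (MfR.lab7 i j))) = true := by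
    decide +kernel
  rw [List.all_eq_true] at h
  have h1 := h i hi
  rw [List.all_eq_true] at h1
  have h2 := h1 j hj
  simp only [Bool.or_eq_true, beq_iff_eq, List.contains_iff_mem] at h2
  rw [← ev_coxW]
  exact MfC.xs_ok.hrels _ (h2.resolve_left hij)

theorem lab7_cases (i j : ℕ) : MfR.lab7 i j = 3 ∨ MfR.lab7 i j = 2 := by
  unfold MfR.lab7 MfR.labOf
  split_ifs <;> simp

/-- the images of the letters of the cover in `S` -/
noncomputable def xv (i : ℕ) : MfC.S := if 1 ≤ i ∧ i ≤ 7 then MfC.xs i else if 8 ≤ i ∧ i ≤ 14 then MfC.xs (i - 7) else 1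

theorem xv1 (i : ℕ) (hi : i ∈ l7) : xv i = MfC.xs i := by
  unfold xv
  rw [if_pos]
  simp only [l7, List.mem_cons, List.not_mem_nil, or_false] at hi
  omega

theorem xv2 (i : ℕ) (hi : i ∈ l7) : xv (i + 7) = MfC.xs i := by
  simp only [l7, List.mem_cons, List.not_mem_nil, or_false] at hi
  unfold xv
  rw [if_neg (by omega), if_pos (by omega), Nat.add_sub_cancel]

theorem xv3 (i : ℕ) (hi : i = 0 ∨ 15 < i) : xv i = 1 := by
  unfold xv
  rw [if_neg (by omega), if_neg (by omega)]

theorem xv15 : xv 15 = 1 := by
  unfold xv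
  rw [if_neg (by omega), if_neg (by omega)]

theorem xv_ok : Ok MsR.ic 15 MsR.rels xv := by
  refine ⟨?_, ?_, ?_⟩
  · intro i hi
    revert hi
    refine all_lt (fun i => i < 16 → xv (il MsR.ic i) = (xv i)⁻¹) ?_ ?_ ?_ ?_ i
    · intro i hi hlt
      have : i = 0 := by omega
      subst this
      rw [xv3 0 (Or.inl rfl), inv_one, show il MsR.ic 0 = 0 by decide, xv3 0 (Or.inl rfl)]
    · intro i hi _
      have e : il MsR.ic i = i + 7 := by
        simp only [l7, List.mem_cons, List.not_mem_nil, or_false] at hi
        rcases hi with rfl | rfl | rfl | rfl | rfl | rfl | rfl <;> decide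
      rw [e, xv2 i hi, xv1 i hi]
      exact eq_inv_of_mul_eq_one_left (xs_sq i hi)
    · intro i hi _
      have e : il MsR.ic (i + 7) = i := by
        simp only [l7, List.mem_cons, List.not_mem_nil, or_false] at hi
        rcases hi with rfl | rfl | rfl | rfl | rfl | rfl | rfl <;> decide
      rw [e, xv2 i hi, xv1 i hi]
      exact eq_inv_of_mul_eq_one_left (xs_sq i hi)
    · intro _
      rw [show il MsR.ic 15 = 15 by decide, xv15, inv_one]
  · intro i hi
    exact xv3 i hi
  · intro w hw
    unfold MsR.rels at hw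
    rw [List.mem_append, List.mem_append, List.mem_append, List.mem_map, List.mem_map, List.mem_map,
      List.mem_singleton] at hw
    rcases hw with ((⟨i, hi, rfl⟩ | ⟨i, hi, rfl⟩) | ⟨⟨i, j⟩, hp, rfl⟩) | rfl
    · simp only [ev_cons, ev_nil, mul_one, xv15]
      rw [xv1 i hi, xs_sq i hi]
    · simp only [ev_cons, ev_nil, mul_one, xv15, one_mul]
      rw [xv1 i hi, xv2 i hi, xs_sq i hi]
    · unfold MsR.prs at hp
      rw [List.mem_flatMap] at hp
      obtain ⟨i', hi', hp⟩ := hp
      rw [List.mem_map] at hp
      obtain ⟨j', hj', hp⟩ := hp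
      rw [List.mem_filter] at hj'
      simp only [Prod.mk.injEq] at hp
      obtain ⟨rfl, rfl⟩ := hp
      have hij : i' ≠ j' := by simpa using hj'.2
      have hc := xs_pair i' j' hi' hj'.1 hij
      unfold MsR.prel
      split_ifs with h3
      · have h3' : MfR.lab7 i' j' = 3 := h3
        rw [h3'] at hc
        simp only [ev_cons, ev_nil, mul_one]
        rw [xv1 i' hi', xv1 j' hj'.1, xv2 i' hi', xv2 j' hj'.1]
        rw [← hc, pow_succ, pow_succ, pow_one]
        simp only [mul_assoc]
      · have h3' : MfR.lab7 i' j' = 2 := (lab7_cases i' j').resolve_left h3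
        rw [h3'] at hc
        simp only [ev_cons, ev_nil, mul_one, xv15]
        rw [xv1 i' hi', xv1 j' hj'.1, xv2 i' hi', xv2 j' hj'.1]
        rw [← hc, pow_succ, pow_one]
        simp only [mul_assoc]
    · have h1 := MfC.xs_ok.hrels (powW [1, 2, 3, 4, 5, 6, 7] 9) (by
        have h0 : (MfS.rels.contains (powW [1, 2, 3, 4, 5, 6, 7] 9)) = true := by decide +kernel
        rwa [List.contains_iff_mem] at h0)
      rw [ev_powW] at h1 ⊢
      have e : ev xv [1, 2, 3, 4, 5, 6, 7] = ev MfC.xs [1, 2, 3, 4, 5, 6, 7] := by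
        simp only [ev_cons, ev_nil]
        rw [xv1 1 (by decide), xv1 2 (by decide), xv1 3 (by decide), xv1 4 (by decide), xv1 5 (by decide),
          xv1 6 (by decide), xv1 7 (by decide)]
      rw [e, h1]

/-- the projection -/
noncomputable def pr : T →* MfC.S := (lift_ok xv_ok).choose

theorem pr_x (i : ℕ) : pr (xt i) = xv i := (lift_ok xv_ok).choose_spec i

theorem pr_surj : Function.Surjective pr := by
  rw [← MonoidHom.range_eq_top, ← top_le_iff, ← MfC.xs_top]
  unfold Hl
  rw [Subgroup.closure_le]
  rintro _ ⟨i, hi, rfl⟩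
  exact ⟨xt i, by rw [pr_x, xv1 i hi]⟩

theorem pr_ker : pr.ker = Subgroup.zpowers zt := by
  have hN : (Subgroup.zpowers zt).Normal := by
    constructor
    intro n hn g
    obtain ⟨k, rfl⟩ := Subgroup.mem_zpowers_iff.1 hn
    have h1 := Subgroup.mem_center_iff.1 ((Subgroup.center _).zpow_mem zt_cen k) g
    rw [h1, mul_inv_cancel_right]
    exact hn
  apply le_antisymm
  · let mk : T →* T ⧸ Subgroup.zpowers zt := QuotientGroup.mk' _
    have hz : mk zt = 1 := (QuotientGroup.eq_one_iff zt).2 (Subgroup.mem_zpowers zt)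
    let a : ℕ → T ⧸ Subgroup.zpowers zt := fun i => if i ∈ l7 then mk (xt i) else 1
    have ha : ∀ i ∈ l7, a i = mk (xt i) := fun i hi => if_pos hi
    have hsq : ∀ i ∈ l7, a i * a i = 1 := by
      intro i hi
      rw [ha i hi, ← map_mul, rel1 i hi, hz]
    have hok : Ok MfS.ic 7 MfS.rels a := by
      refine ⟨?_, ?_, ?_⟩
      · intro i hi
        by_cases h7 : i ∈ l7
        · have e : il MfS.ic i = i := by
            simp only [l7, List.mem_cons, List.not_mem_nil, or_false] at h7
            rcases h7 with rfl | rfl | rfl | rfl | rfl | rfl | rfl <;> decide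
          rw [e]
          exact eq_inv_of_mul_eq_one_left (hsq i h7)
        · have e : il MfS.ic i = 0 := by
            simp only [l7, List.mem_cons, List.not_mem_nil, or_false] at h7
            have : i = 0 ∨ (8 ≤ i ∧ i < 16) := by omega
            rcases this with rfl | ⟨h8, h16⟩
            · decide
            · interval_cases i <;> decide
          rw [e]
          simp only [a]
          rw [if_neg (by decide), if_neg h7, inv_one]
      · intro i hi
        simp only [a]
        rw [if_neg]
        simp only [l7, List.mem_cons, List.not_mem_nil, or_false]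
        omega
      · intro w hw
        have hw' : w ∈ MfR.rels ∨ w = powW [1, 2, 3, 4, 5, 6, 7] 9 := by
          have h0 : w ∈ MfR.rels ++ [powW [1, 2, 3, 4, 5, 6, 7] 9] := hw
          rw [List.mem_append, List.mem_singleton] at h0
          exact h0
        rcases hw' with hw' | rfl
        · refine coxR_ok ?_ w hw'
          intro i hi j hj hij
          have hi' : i ∈ l7 := hi
          have hj' : j ∈ l7 := hj
          obtain ⟨r1, r2⟩ := rel3 i j hi' hj' hij
          rcases lab7_cases i j with h3 | h3
          · rw [h3, pow3_of_braid (u := 1) (by rw [ha i hi', ha j hj', ← map_mul, ← map_mul, r1 h3, map_mul, map_mul])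
              (hsq i hi') (hsq j hj') (by simp), one_pow]
          · have hc : a i * a j = a j * a i := by
              have h4 := r2 (by omega)
              have h5 := congrArg mk h4
              rw [map_mul, hz, mul_one, map_one, map_mul, map_mul, map_mul, map_inv, map_inv, ← ha i hi',
                ← ha j hj'] at h5
              have h6 : a i * a j * (a j * a i)⁻¹ = 1 := by rw [← h5]; group
              exact mul_inv_eq_one.1 h6
            rw [h3, pow2_of_comm (u := 1) hc (hsq i hi') (hsq j hj'), one_pow]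
        · have h1 := xt_ok.hrels (powW [1, 2, 3, 4, 5, 6, 7] 9) (by
            have h0 : (MsR.rels.contains (powW [1, 2, 3, 4, 5, 6, 7] 9)) = true := by decide +kernel
            rwa [List.contains_iff_mem] at h0)
          have h2 := congrArg mk h1
          rw [map_one, ev_powW, map_pow, ev_map] at h2
          rw [ev_powW]
          have e : ev a [1, 2, 3, 4, 5, 6, 7] = ev (fun i => mk (xt i)) [1, 2, 3, 4, 5, 6, 7] := by
            simp only [ev_cons, ev_nil]
            rw [ha 1 (by decide), ha 2 (by decide), ha 3 (by decide), ha 4 (by decide), ha 5 (by decide),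
              ha 6 (by decide), ha 7 (by decide)]
          rw [e, h2]
    obtain ⟨Ψ, hΨ⟩ := lift_ok hok
    have hc : Ψ.comp pr = mk := by
      apply PresentedGroup.ext
      intro i
      refine all_lt (fun i => Ψ (pr (xt i)) = mk (xt i)) ?_ ?_ ?_ ?_ i
      · intro i hi
        rw [pr_x, xv3 i hi, map_one, show xt i = 1 from xt_ok.hk i hi, map_one]
      · intro i hi
        rw [pr_x, xv1 i hi]
        exact (hΨ i).trans (ha i hi)
      · intro i hi
        show Ψ (pr (xt (i + 7))) = mk (xt (i + 7))
        rw [pr_x, xv2 i hi, inv_lt i hi, map_inv, ← ha i hi]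
        exact (hΨ i).trans (eq_inv_of_mul_eq_one_left (hsq i hi))
      · show Ψ (pr (xt 15)) = mk (xt 15)
        rw [pr_x, xv15, map_one]
        exact hz.symm
    intro t ht
    have h1 : mk t = 1 := by
      rw [← hc, MonoidHom.comp_apply, MonoidHom.mem_ker.1 ht, map_one]
    exact (QuotientGroup.eq_one_iff t).1 h1
  · rw [Subgroup.zpowers_le, MonoidHom.mem_ker, show zt = xt 15 from rfl, pr_x, xv15]

theorem card_z : Nat.card (Subgroup.zpowers zt) = 2 := by
  rw [Nat.card_zpowers]
  refine orderOf_eq_prime ?_ zt_ne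
  rw [pow_two]
  exact zt_sq

theorem pr_stem : Cfsg.IsStemExtension pr := by
  refine ⟨pr_surj, ?_, ?_⟩
  · rw [pr_ker, Subgroup.zpowers_le]; exact zt_cen
  · rw [pr_ker, Subgroup.zpowers_le]; exact zt_comm

instance finT : Finite T := by
  have h1 : Finite pr.ker := by
    rw [pr_ker]
    exact Nat.finite_of_card_ne_zero (by rw [card_z]; decide)
  have h2 : Finite (T ⧸ pr.ker) := Finite.of_injective _ (QuotientGroup.kerLift_injective pr)
  exact Finite.of_equiv _ (Subgroup.groupEquivQuotientProdSubgroup (s := pr.ker)).symm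

theorem pr_card : Nat.card pr.ker = 2 := by rw [pr_ker]; exact card_z

end Cfsg.Agent.H4.MsB
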