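import Cfsg.Agent.H4_MsC
import Cfsg.Agent.H4_Stem

/-!
Upper bound for the multiplier of `S` = Sp₆(2).
-/

set_option autoImplicit false
set_option maxRecDepth 100000

namespace Cfsg.Agent.H4.MsB

open Cfsg.Agent.H8 Cfsg.Agent.H8.CE Cfsg.Agent.H8.CS Cfsg.Agent.H8.Net Cfsg.Agent.H8.Act Cfsg.Agent.H8.Cox
open Cfsg.Agent.H8.Act2 Cfsg.Agent.H4.Ltr Cfsg.Agent.H4.MfD

universe u v w

/-- closure of a list of pairs -/
def chk7 : List (ℕ × ℕ) → List (ℕ × ℕ × ℕ) → List (ℕ × ℕ)
  | der, [] => der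
  | der, (x, p, q) :: t =>
    if der.contains (x, p) && l7.contains x && l7.contains p && l7.contains q && MfR.lab7 p q == 3 && p != q &&
      MfR.lab7 x q != 3 && x != q then chk7 ((x, q) :: (q, x) :: der) t else chk7 der t

theorem chk7_sound {C : ℕ → ℕ → Prop} (hsym : ∀ a b, C a b → C b a)
    (hst : ∀ x p q, x ∈ l7 → p ∈ l7 → q ∈ l7 → MfR.lab7 p q = 3 → p ≠ q → MfR.lab7 x q ≠ 3 → x ≠ q → C x p → C x q)
    (st : List (ℕ × ℕ × ℕ)) : ∀ der : List (ℕ × ℕ), (∀ ab ∈ der, C ab.1 ab.2) → ∀ ab ∈ chk7 der st, C ab.1 ab.2 := by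
  induction st with
  | nil => intro der h; exact h
  | cons s t ih =>
    obtain ⟨x, p, q⟩ := s
    intro der h
    unfold chk7
    split_ifs with hc
    · simp only [Bool.and_eq_true, List.contains_iff_mem, beq_iff_eq, bne_iff_ne, ne_eq] at hc
      obtain ⟨⟨⟨⟨⟨⟨⟨h1, h2⟩, h3⟩, h4⟩, h5⟩, h6⟩, h7⟩, h8⟩ := hc
      have h9 := hst x p q h2 h3 h4 h5 h6 h7 h8 (h _ h1)
      apply ih
      intro ab hab
      rw [List.mem_cons, List.mem_cons] at hab
      rcases hab with rfl | rfl | hab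
      · exact h9
      · exact hsym _ _ h9
      · exact h _ hab
    · exact ih der h

def steps7 : List (ℕ × ℕ × ℕ) := [(1, 3, 4), (1, 4, 5), (1, 4, 7), (1, 5, 6), (4, 1, 2), (5, 1, 2), (5, 2, 3), (6, 1, 2), (6, 2, 3), (6, 3, 4), (6, 4, 7), (7, 1, 2), (7, 2, 3), (7, 6, 5)]

theorem steps7_ok : (l7.all fun i => l7.all fun j => i == j || MfR.lab7 i j == 3 ||
    (chk7 [(1, 3), (3, 1)] steps7).contains (i, j)) = true := by
  decide +kernel

section
variable {Γ : Type u} {G : Type v} [Group Γ] [Group G] {σ : Γ →* G} {x : ℕ → G}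

theorem gx_sq (hx : Ok MfS.ic 7 MfS.rels x) (i : ℕ) (hi : i ∈ l7) : x i * x i = 1 := by
  have h := hx.hic i (by simp only [l7, List.mem_cons, List.not_mem_nil, or_false] at hi; omega)
  have e : il MfS.ic i = i := by
    simp only [l7, List.mem_cons, List.not_mem_nil, or_false] at hi
    rcases hi with rfl | rfl | rfl | rfl | rfl | rfl | rfl <;> decide
  rw [e] at h
  exact mul_eq_one_iff_eq_inv.2 h

theorem gx_pair (hx : Ok MfS.ic 7 MfS.rels x) (i j : ℕ) (hi : i ∈ l7) (hj : j ∈ l7) (hij : i ≠ j) :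
    (x i * x j) ^ MfR.lab7 i j = 1 := by
  have h : (l7.all fun i => l7.all fun j => i == j || MfS.rels.contains (coxW i j (MfR.lab7 i j))) = true := by
    decide +kernel
  rw [List.all_eq_true] at h
  have h1 := h i hi
  rw [List.all_eq_true] at h1
  have h2 := h1 j hj
  simp only [Bool.or_eq_true, beq_iff_eq, List.contains_iff_mem] at h2
  rw [← ev_coxW]
  exact hx.hrels _ (h2.resolve_left hij)

theorem gx_cox (hx : Ok MfS.ic 7 MfS.rels x) : ev x [1, 2, 3, 4, 5, 6, 7] ^ 9 = 1 := by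
  rw [← ev_powW]
  exact hx.hrels _ (by
    have h0 : (MfS.rels.contains (powW [1, 2, 3, 4, 5, 6, 7] 9)) = true := by decide +kernel
    rwa [List.contains_iff_mem] at h0)

theorem lift7 (hs : Function.Surjective σ) (hz : σ.ker ≤ Subgroup.center Γ) (hx : Ok MfS.ic 7 MfS.rels x) :
    ∃ (y : ℕ → Γ) (u z : Γ), u ∈ Subgroup.center Γ ∧ z ∈ Subgroup.center Γ ∧ z * z = 1 ∧ z ∈ commutator Γ ∧
      (∀ i ∈ l7, σ (y i) = x i ∧ y i * y i = u) ∧
      (∀ i ∈ l7, ∀ j ∈ l7, i ≠ j → (MfR.lab7 i j = 3 → y i * y j * y i = y j * y i * y j) ∧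
        (MfR.lab7 i j ≠ 3 → y i * y j = z * (y j * y i))) := by
  obtain ⟨y1, s1⟩ := hs (x 1)
  have br : ∀ i j, i ∈ l7 → j ∈ l7 → i ≠ j → MfR.lab7 i j = 3 → ∀ p : Γ, σ p = x j →
      x i * σ p * x i = σ p * x i * σ p := by
    intro i j hi hj hij h3 p hp
    rw [hp]
    exact Stem.braid_of_pow3 (gx_sq hx i hi) (gx_sq hx j hj) (by rw [← h3]; exact gx_pair hx i j hi hj hij)
  obtain ⟨y2, s2, b2, g2, e2⟩ := braid_lift hs hz (br 2 1 (by decide) (by decide) (by decide) (by decide) y1 s1)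
  obtain ⟨y3, s3, b3, g3, e3⟩ := braid_lift hs hz (br 3 2 (by decide) (by decide) (by decide) (by decide) y2 s2)
  obtain ⟨y4, s4, b4, g4, e4⟩ := braid_lift hs hz (br 4 3 (by decide) (by decide) (by decide) (by decide) y3 s3)
  obtain ⟨y5, s5, b5, g5, e5⟩ := braid_lift hs hz (br 5 4 (by decide) (by decide) (by decide) (by decide) y4 s4)
  obtain ⟨y6, s6, b6, g6, e6⟩ := braid_lift hs hz (br 6 5 (by decide) (by decide) (by decide) (by decide) y5 s5)
  obtain ⟨y7, s7, b7, g7, e7⟩ := braid_lift hs hz (br 7 4 (by decide) (by decide) (by decide) (by decide) y4 s4)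
  let y : ℕ → Γ := fun i => [1, y1, y2, y3, y4, y5, y6, y7].getD i 1
  let u : Γ := y1 * y1
  have hu : u ∈ Subgroup.center Γ := hz (by
    rw [MonoidHom.mem_ker, map_mul, s1]; exact gx_sq hx 1 (by decide))
  have cu := Subgroup.mem_center_iff.1 hu
  have q1 : y1 * y1 = u := rfl
  have sq : ∀ p g q : Γ, p * p = u → q = g * p * g⁻¹ → q * q = u := by
    intro p g q hp hq
    rw [hq]
    calc g * p * g⁻¹ * (g * p * g⁻¹) = g * (p * p) * g⁻¹ := by group
      _ = g * u * g⁻¹ := by rw [hp]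
      _ = u * g * g⁻¹ := by rw [cu g]
      _ = u := by group
  have q2 := sq y1 g2 y2 q1 e2
  have q3 := sq y2 g3 y3 q2 e3
  have q4 := sq y3 g4 y4 q3 e4
  have q5 := sq y4 g5 y5 q4 e5
  have q6 := sq y5 g6 y6 q5 e6
  have q7 := sq y4 g7 y7 q4 e7
  have hσ : ∀ i ∈ l7, σ (y i) = x i := by
    intro i hi
    simp only [l7, List.mem_cons, List.not_mem_nil, or_false] at hi
    rcases hi with rfl | rfl | rfl | rfl | rfl | rfl | rfl
    exacts [s1, s2, s3, s4, s5, s6, s7]
  have hsq : ∀ i ∈ l7, y i * y i = u := by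
    intro i hi
    simp only [l7, List.mem_cons, List.not_mem_nil, or_false] at hi
    rcases hi with rfl | rfl | rfl | rfl | rfl | rfl | rfl
    exacts [q1, q2, q3, q4, q5, q6, q7]
  have hbe : ∀ p ∈ ([(1, 2), (2, 3), (3, 4), (4, 5), (5, 6), (4, 7)] : List (ℕ × ℕ)),
      y p.2 * y p.1 * y p.2 = y p.1 * y p.2 * y p.1 := by
    intro p hp
    simp only [List.mem_cons, List.not_mem_nil, or_false] at hp
    rcases hp with rfl | rfl | rfl | rfl | rfl | rfl
    exacts [b2, b3, b4, b5, b6, b7]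
  have hb : ∀ i j, MfR.lab7 i j = 3 → y i * y j * y i = y j * y i * y j := by
    intro i j h
    unfold MfR.lab7 MfR.labOf at h
    split_ifs at h with hc
    swap
    · omega
    rw [Bool.or_eq_true, List.contains_iff_mem, List.contains_iff_mem] at hc
    rcases hc with hc | hc
    · exact (hbe _ hc).symm
    · exact hbe _ hc
  have cc : ∀ i j, i ∈ l7 → j ∈ l7 → i ≠ j → MfR.lab7 i j ≠ 3 → ∃ z ∈ Subgroup.center Γ, y i * y j = z * (y j * y i) := by
    intro i j hi hj hij h3
    refine comm_cen hz ?_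
    rw [hσ i hi, hσ j hj]
    exact Stem.comm_of_pow2 (gx_sq hx i hi) (gx_sq hx j hj) (by
      have := (lab7_cases i j).resolve_left h3
      rw [← this]; exact gx_pair hx i j hi hj hij)
  obtain ⟨z, hzz, z1⟩ := cc 1 3 (by decide) (by decide) (by decide) (by decide)
  have hz2 : z * z = 1 := sq_lemma hzz hu (hsq 1 (by decide)) z1
  have cz := Subgroup.mem_center_iff.1 hzz
  have hzc : z ∈ commutator Γ := by
    have e : z = y 1 * y 3 * (y 1)⁻¹ * (y 3)⁻¹ := by
      calc z = z * (y 3 * y 1) * (y 1)⁻¹ * (y 3)⁻¹ := by group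
        _ = y 1 * y 3 * (y 1)⁻¹ * (y 3)⁻¹ := by rw [← z1]
    rw [e]
    have := Subgroup.commutator_mem_commutator (Subgroup.mem_top (y 1)) (Subgroup.mem_top (y 3))
    rwa [commutatorElement_def] at this
  have hcom : ∀ i ∈ l7, ∀ j ∈ l7, i ≠ j → MfR.lab7 i j ≠ 3 → y i * y j = z * (y j * y i) := by
    have hsw : ∀ a b, y a * y b = z * (y b * y a) → y b * y a = z * (y a * y b) := by
      intro a b h
      rw [h, ← mul_assoc, hz2, one_mul]
    have h1 := chk7_sound (C := fun i j => y i * y j = z * (y j * y i)) hsw (by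
      intro a p q ha hp hq hpq _ haq hne hC
      obtain ⟨z', hz', e'⟩ := cc a q ha hq hne haq
      have := comm_step (hb p q hpq) hzz hz' hC e'
      show y a * y q = z * (y q * y a)
      rw [this]; exact e') steps7
      [(1, 3), (3, 1)] (by
        intro ab hab
        simp only [List.mem_cons, List.not_mem_nil, or_false] at hab
        rcases hab with rfl | rfl
        exacts [z1, hsw _ _ z1])
    intro i hi j hj hij h3
    have h2 := steps7_ok
    rw [List.all_eq_true] at h2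
    have h4 := h2 i hi
    rw [List.all_eq_true] at h4
    have h5 := h4 j hj
    simp only [Bool.or_eq_true, beq_iff_eq, List.contains_iff_mem] at h5
    rcases h5 with (h5 | h5) | h5
    · exact absurd h5 hij
    · exact absurd h5 h3
    · exact h1 _ h5
  exact ⟨y, u, z, hu, hzz, hz2, hzc, fun i hi => ⟨hσ i hi, hsq i hi⟩,
    fun i hi j hj hij => ⟨fun h => hb i j h, hcom i hi j hj hij⟩⟩

/-- normalisation when the commuting generators have commuting lifts -/
theorem norm7 (hx : Ok MfS.ic 7 MfS.rels x) (hz : σ.ker ≤ Subgroup.center Γ) {y : ℕ → Γ} {u : Γ}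
    (hu : u ∈ Subgroup.center Γ)
    (h1 : ∀ i ∈ l7, σ (y i) = x i ∧ y i * y i = u)
    (h2 : ∀ i ∈ l7, ∀ j ∈ l7, i ≠ j → (MfR.lab7 i j = 3 → y i * y j * y i = y j * y i * y j) ∧
        (MfR.lab7 i j ≠ 3 → y i * y j = y j * y i)) :
    ∃ y' : ℕ → Γ, Ok MfS.ic 7 MfS.rels y' ∧ ∀ i ∈ l7, σ (y' i) = x i := by
  have h7 : ev y [1, 2, 3, 4, 5, 6, 7] ^ 18 = u ^ 63 := root7 hu (fun i hi => (h1 i hi).2) h2
  let v : Γ := ev y [1, 2, 3, 4, 5, 6, 7] ^ 9
  have hv' : σ v = 1 := by
    show σ (ev y [1, 2, 3, 4, 5, 6, 7] ^ 9) = 1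
    rw [map_pow, ev_map]
    have h3 : ev (fun i => σ (y i)) [1, 2, 3, 4, 5, 6, 7] = ev x [1, 2, 3, 4, 5, 6, 7] := by
      simp only [ev_cons, ev_nil]
      rw [(h1 1 (by decide)).1, (h1 2 (by decide)).1, (h1 3 (by decide)).1, (h1 4 (by decide)).1,
        (h1 5 (by decide)).1, (h1 6 (by decide)).1, (h1 7 (by decide)).1]
    rw [h3]
    exact gx_cox hx
  have hv : v ∈ Subgroup.center Γ := hz hv'
  have hvv : v * v = u ^ 63 := by
    rw [← h7]
    show ev y [1, 2, 3, 4, 5, 6, 7] ^ 9 * ev y [1, 2, 3, 4, 5, 6, 7] ^ 9 = _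
    rw [← pow_add]
  have cu := Subgroup.mem_center_iff.1 hu
  have huv : Commute u v := (cu v).symm
  let ζ : Γ := u ^ 31 * v⁻¹
  have hζ : ζ ∈ Subgroup.center Γ := (Subgroup.center Γ).mul_mem ((Subgroup.center Γ).pow_mem hu 31)
    ((Subgroup.center Γ).inv_mem hv)
  have cζ := Subgroup.mem_center_iff.1 hζ
  have hζ2 : u * (ζ * ζ) = 1 := by
    have hc : Commute (u ^ 31) v⁻¹ := (huv.pow_left 31).inv_right
    have e1 : ζ * ζ = u ^ 62 * (v * v)⁻¹ := by
      show u ^ 31 * v⁻¹ * (u ^ 31 * v⁻¹) = _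
      calc u ^ 31 * v⁻¹ * (u ^ 31 * v⁻¹) = u ^ 31 * (v⁻¹ * u ^ 31) * v⁻¹ := by group
        _ = u ^ 31 * (u ^ 31 * v⁻¹) * v⁻¹ := by rw [hc.eq]
        _ = u ^ 62 * (v * v)⁻¹ := by rw [mul_inv_rev]; group
    rw [e1, hvv]
    group
  have hζv : v * ζ ^ 63 = 1 := by
    have e1 : ζ ^ 63 = (ζ * ζ) ^ 31 * ζ := by
      rw [← pow_two, ← pow_mul, ← pow_succ]
    have e2 : ζ * ζ = u⁻¹ := by
      have := hζ2
      exact eq_inv_of_mul_eq_one_right this
    rw [e1, e2]
    show v * ((u⁻¹) ^ 31 * (u ^ 31 * v⁻¹)) = 1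
    rw [inv_pow]
    group
  have hσζ : σ ζ = 1 := by
    show σ (u ^ 31 * v⁻¹) = 1
    have hu' : σ u = 1 := by
      rw [← (h1 1 (by decide)).2, map_mul, (h1 1 (by decide)).1]
      exact gx_sq hx 1 (by decide)
    rw [map_mul, map_pow, map_inv, hu', hv', one_pow, inv_one, mul_one]
  let y' : ℕ → Γ := fun i => if i ∈ l7 then y i * ζ else 1
  have hy' : ∀ i ∈ l7, y' i = y i * ζ := fun i hi => if_pos hi
  have hn' : ∀ i, i ∉ l7 → y' i = 1 := fun i hi => if_neg hi
  have sw : ∀ g : Γ, ζ * g = g * ζ := fun g => (cζ g).symm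
  have hsq : ∀ i ∈ l7, y' i * y' i = 1 := by
    intro i hi
    rw [hy' i hi]
    calc y i * ζ * (y i * ζ) = y i * (ζ * y i) * ζ := by group
      _ = (y i * y i) * (ζ * ζ) := by rw [sw]; group
      _ = 1 := by rw [(h1 i hi).2, hζ2]
  refine ⟨y', ⟨?_, ?_, ?_⟩, ?_⟩
  · intro i hi
    by_cases h7 : i ∈ l7
    · have e : il MfS.ic i = i := by
        simp only [l7, List.mem_cons, List.not_mem_nil, or_false] at h7
        rcases h7 with rfl | rfl | rfl | rfl | rfl | rfl | rfl <;> decide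
      rw [e]
      exact eq_inv_of_mul_eq_one_left (hsq i h7)
    · have e : il MfS.ic i = 0 := by
        simp only [l7, List.mem_cons, List.not_mem_nil, or_false] at h7
        have : i = 0 ∨ (8 ≤ i ∧ i < 16) := by omega
        rcases this with rfl | ⟨h8, h16⟩
        · decide
        · interval_cases i <;> decide
      rw [e, hn' 0 (by decide), hn' i h7, inv_one]
  · intro i hi
    apply hn'
    simp only [l7, List.mem_cons, List.not_mem_nil, or_false]
    omega
  · intro w hw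
    have hw' : w ∈ MfR.rels ∨ w = powW [1, 2, 3, 4, 5, 6, 7] 9 := by
      have h0 : w ∈ MfR.rels ++ [powW [1, 2, 3, 4, 5, 6, 7] 9] := hw
      rw [List.mem_append, List.mem_singleton] at h0
      exact h0
    rcases hw' with hw' | rfl
    · refine coxR_ok ?_ w hw'
      intro i hi j hj hij
      have hi' : i ∈ l7 := hi
      have hj' : j ∈ l7 := hj
      rcases lab7_cases i j with h3 | h3
      · have hb := (h2 i hi j hj hij).1 h3
        rw [h3, pow3_of_braid (u := 1) ?_ (hsq i hi') (hsq j hj') (by simp), one_pow]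
        rw [hy' i hi', hy' j hj']
        calc y i * ζ * (y j * ζ) * (y i * ζ) = y i * (ζ * y j) * (ζ * y i) * ζ := by group
          _ = y i * (y j * ζ) * (y i * ζ) * ζ := by rw [sw, sw]
          _ = y i * y j * (ζ * y i) * ζ * ζ := by group
          _ = y i * y j * y i * (ζ * ζ * ζ) := by rw [sw]; group
          _ = y j * y i * y j * (ζ * ζ * ζ) := by rw [hb]
          _ = y j * y i * (y j * ζ) * ζ * ζ := by group
          _ = y j * y i * (ζ * y j) * ζ * ζ := by rw [sw]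
          _ = y j * (y i * ζ) * (y j * ζ) * ζ := by group
          _ = y j * (ζ * y i) * (ζ * y j) * ζ := by rw [sw, sw]
          _ = y j * ζ * (y i * ζ) * (y j * ζ) := by group
      · have hb := (h2 i hi j hj hij).2 (by omega)
        rw [h3, pow2_of_comm (u := 1) ?_ (hsq i hi') (hsq j hj'), one_pow]
        rw [hy' i hi', hy' j hj']
        calc y i * ζ * (y j * ζ) = y i * (ζ * y j) * ζ := by group
          _ = y i * y j * (ζ * ζ) := by rw [sw]; group
          _ = y j * y i * (ζ * ζ) := by rw [hb]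
          _ = y j * (y i * ζ) * ζ := by group
          _ = y j * (ζ * y i) * ζ := by rw [sw]
          _ = y j * ζ * (y i * ζ) := by group
    · rw [Stem.ev_mul_cen hζ (powW [1, 2, 3, 4, 5, 6, 7] 9) (y := y) (y' := y') (by
        intro i hi
        apply hy'
        have h2 : ((powW [1, 2, 3, 4, 5, 6, 7] 9).all fun i => l7.contains i) = true := by decide
        rw [List.all_eq_true] at h2
        simpa using h2 i hi)]
      have h5 : (powW [1, 2, 3, 4, 5, 6, 7] 9).length = 63 := by decide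
      rw [h5, ev_powW]
      exact hζv
  · intro i hi
    rw [hy' i hi, map_mul, (h1 i hi).1, hσζ, mul_one]

/-- the kernel of a stem extension is generated by one element of order at most 2 -/
theorem ub {Γ : Type u} {G : Type v} [Group Γ] [Group G] (e : MfC.S ≃* G) {σ : Γ →* G}
    (hσ : Cfsg.IsStemExtension σ) : ∃ z : Γ, z * z = 1 ∧ σ.ker ≤ Subgroup.zpowers z := by
  let x : ℕ → G := fun i => e (MfC.xs i)
  have hx : Ok MfS.ic 7 MfS.rels x := by
    refine ⟨?_, ?_, ?_⟩
    · intro i hi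
      show e (MfC.xs _) = (e (MfC.xs i))⁻¹
      rw [MfC.xs_ok.hic i hi, map_inv]
    · intro i hi
      show e (MfC.xs i) = 1
      rw [MfC.xs_ok.hk i hi, map_one]
    · intro w hw
      have := congrArg e (MfC.xs_ok.hrels w hw)
      rw [map_one] at this
      rw [← this]
      exact (ev_map e.toMonoidHom MfC.xs w).symm
  obtain ⟨hs, hz, hc⟩ := hσ
  obtain ⟨y, u, z, hu, hzz, hz2, hzc, h1, h2⟩ := lift7 hs hz hx
  refine ⟨z, hz2, ?_⟩
  have hzk : σ z = 1 := by
    have h3 := (h2 1 (by decide) 3 (by decide) (by decide)).2 (by decide)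
    have h4 := congrArg σ h3
    rw [map_mul, map_mul, map_mul, (h1 1 (by decide)).1, (h1 3 (by decide)).1] at h4
    have h5 : x 1 * x 3 = x 3 * x 1 := Stem.comm_of_pow2 (gx_sq hx 1 (by decide)) (gx_sq hx 3 (by decide)) (by
      have := gx_pair hx 1 3 (by decide) (by decide) (by decide)
      exact this)
    rw [h5] at h4
    exact (mul_eq_right.1 h4.symm)
  have hN : (Subgroup.zpowers z).Normal := by
    constructor
    intro n hn g
    obtain ⟨k, rfl⟩ := Subgroup.mem_zpowers_iff.1 hn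
    have h1 := Subgroup.mem_center_iff.1 ((Subgroup.center _).zpow_mem hzz k) g
    rw [h1, mul_inv_cancel_right]
    exact hn
  let mk : Γ →* Γ ⧸ Subgroup.zpowers z := QuotientGroup.mk' _
  have hmz : mk z = 1 := (QuotientGroup.eq_one_iff z).2 (Subgroup.mem_zpowers z)
  have hle : ∀ a ∈ Subgroup.zpowers z, σ a = 1 := by
    intro a ha
    obtain ⟨k, rfl⟩ := Subgroup.mem_zpowers_iff.1 ha
    rw [map_zpow, hzk, one_zpow]
  let σ' : (Γ ⧸ Subgroup.zpowers z) →* G := QuotientGroup.lift _ σ hle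
  have hσ' : ∀ a, σ' (mk a) = σ a := fun a => rfl
  have hmks : Function.Surjective mk := QuotientGroup.mk'_surjective _
  have hstem : Cfsg.IsStemExtension σ' := by
    refine ⟨?_, ?_, ?_⟩
    · intro g
      obtain ⟨a, ha⟩ := hs g
      exact ⟨mk a, ha⟩
    · intro b hb
      obtain ⟨a, rfl⟩ := hmks b
      have ha := hz (show a ∈ σ.ker from hb)
      rw [Subgroup.mem_center_iff] at ha ⊢
      intro c
      obtain ⟨d, rfl⟩ := hmks c
      rw [← map_mul, ← map_mul, ha d]
    · intro b hb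
      obtain ⟨a, rfl⟩ := hmks b
      have ha := hc (show a ∈ σ.ker from hb)
      have h6 : (commutator Γ).map mk ≤ commutator _ := by
        rw [commutator_def, commutator_def, Subgroup.map_commutator]
        exact Subgroup.commutator_mono le_top le_top
      exact h6 ⟨a, ha, rfl⟩
  have hcen : ∀ a ∈ Subgroup.center Γ, mk a ∈ Subgroup.center _ := by
    intro a ha
    rw [Subgroup.mem_center_iff] at ha ⊢
    intro c
    obtain ⟨d, rfl⟩ := hmks c
    rw [← map_mul, ← map_mul, ha d]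
  obtain ⟨y', ho, hy'⟩ := norm7 (σ := σ') hx hstem.2.1 (y := fun i => mk (y i)) (hcen u hu) (by
      intro i hi
      exact ⟨(h1 i hi).1, by rw [← map_mul, (h1 i hi).2]⟩) (by
      intro i hi j hj hij
      obtain ⟨a, b⟩ := h2 i hi j hj hij
      refine ⟨fun h => ?_, fun h => ?_⟩
      · rw [← map_mul, ← map_mul, a h, map_mul, map_mul]
      · rw [← map_mul, b h, map_mul, hmz, one_mul, map_mul])
  obtain ⟨Φ, hΦ⟩ := lift_ok ho
  have hsec : σ'.comp (Φ.comp e.symm.toMonoidHom) = MonoidHom.id G := by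
    have h7 : (σ'.comp Φ) = e.toMonoidHom := by
      apply PresentedGroup.ext
      intro i
      show σ' (Φ (MfC.xs i)) = e (MfC.xs i)
      rw [hΦ i]
      by_cases hi : i ∈ l7
      · exact hy' i hi
      · have h8 : i = 0 ∨ 7 < i := by
          simp only [l7, List.mem_cons, List.not_mem_nil, or_false] at hi; omega
        rw [ho.hk i h8, map_one, MfC.xs_ok.hk i h8, map_one]
    ext g
    have h8 := DFunLike.congr_fun h7 (e.symm g)
    show σ' (Φ (e.symm g)) = g
    have h9 : σ' (Φ (e.symm g)) = e (e.symm g) := h8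
    rw [h9, MulEquiv.apply_symm_apply]
  have hbot := Stem.stem_trivial hstem hsec
  intro a ha
  have h9 : mk a ∈ σ'.ker := ha
  rw [hbot, Subgroup.mem_bot] at h9
  exact (QuotientGroup.eq_one_iff a).1 h9

end

end Cfsg.Agent.H4.MsB
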