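import Cfsg.Agent.H4_MsD
import Cfsg.Agent.S0245
import Cfsg.Prelude.Def_Classical

/-!
The group `S` is PSp₆(2).
-/

set_option autoImplicit false
set_option maxRecDepth 100000

namespace Cfsg.Agent.H4.MsB

open Cfsg.Agent.H8 Cfsg.Agent.H8.CE Cfsg.Agent.H8.CS Cfsg.Agent.H8.Net Cfsg.Agent.H8.Act Cfsg.Agent.H8.Cox
open Cfsg.Agent.H8.Act2 Cfsg.Agent.H4.Ltr Cfsg.Agent.H4.MfD Matrix

universe u v w

/-- the vectors -/
def vec : ℕ → (Fin 3 ⊕ Fin 3) → ZMod 2
  | 1 => Sum.elim ![1, 0, 0] ![0, 0, 0]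
  | 2 => Sum.elim ![0, 0, 0] ![1, 0, 0]
  | 3 => Sum.elim ![1, 1, 0] ![0, 0, 0]
  | 4 => Sum.elim ![0, 0, 0] ![0, 1, 0]
  | 5 => Sum.elim ![0, 1, 1] ![0, 0, 0]
  | 6 => Sum.elim ![0, 0, 0] ![0, 0, 1]
  | 7 => Sum.elim ![0, 1, 0] ![0, 0, 0]
  | _ => 0

/-- swapping the two halves -/
def sw : Fin 3 ⊕ Fin 3 → Fin 3 ⊕ Fin 3 := Sum.swap

/-- the transvections -/
def tv (n : ℕ) : Matrix (Fin 3 ⊕ Fin 3) (Fin 3 ⊕ Fin 3) (ZMod 2) :=
  Matrix.of fun i j => (if i = j then 1 else 0) + vec n i * vec n (sw j)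

theorem tv_ok : ([0, 1, 2, 3, 4, 5, 6, 7] : List ℕ).all (fun n => decide (tv n * J (Fin 3) (ZMod 2) * (tv n)ᵀ = J (Fin 3) (ZMod 2))) = true := by
  decide +kernel

theorem tv_sq : ([0, 1, 2, 3, 4, 5, 6, 7] : List ℕ).all (fun n => decide (tv n * tv n = 1)) = true := by
  decide +kernel

theorem tv_pair : l7.all (fun i => l7.all fun j => decide (i = j ∨
    (MfR.lab7 i j = 3 → tv i * tv j * tv i = tv j * tv i * tv j) ∧ (MfR.lab7 i j ≠ 3 → tv i * tv j = tv j * tv i))) = true := by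
  decide +kernel

/-- explicit matrices -/
def mt (N : ℕ) : Matrix (Fin 3 ⊕ Fin 3) (Fin 3 ⊕ Fin 3) (ZMod 2) :=
  Matrix.of fun i j => if Nat.testBit N (6 * Sum.elim (fun a : Fin 3 => a.val) (fun a : Fin 3 => a.val + 3) i +
    Sum.elim (fun a : Fin 3 => a.val) (fun a : Fin 3 => a.val + 3) j) then 1 else 0

theorem pc2 : tv 1 * tv 2 = mt 34630549640 := by decide +kernel
theorem pc3 : mt 34630549640 * tv 3 = mt 34632648328 := by decide +kernel
theorem pc4 : mt 34632648328 * tv 4 = mt 34666726920 := by decide +kernel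
theorem pc5 : mt 34666726920 * tv 5 = mt 34939553288 := by decide +kernel
theorem pc6 : mt 34939553288 * tv 6 = mt 39302661640 := by decide +kernel
theorem pc7 : mt 39302661640 * tv 7 = mt 39575291400 := by decide +kernel
theorem pd1 : mt 39575291400 * mt 39575291400 = mt 22461096055 := by decide +kernel
theorem pd2 : mt 22461096055 * mt 22461096055 = mt 43448778186 := by decide +kernel
theorem pd3 : mt 43448778186 * mt 43448778186 = mt 7566949592 := by decide +kernel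
theorem pd4 : mt 7566949592 * mt 39575291400 = 1 := by decide +kernel

theorem tv_cox : (tv 1 * tv 2 * tv 3 * tv 4 * tv 5 * tv 6 * tv 7) ^ 9 = 1 := by
  rw [pc2, pc3, pc4, pc5, pc6, pc7]
  have e : (mt 39575291400) ^ 9 = ((((mt 39575291400) ^ 2) ^ 2) ^ 2) * mt 39575291400 := by
    rw [← pow_mul, ← pow_mul, ← pow_succ]
  rw [e, pow_two, pow_two, pow_two, pd1, pd2, pd3, pd4]

end Cfsg.Agent.H4.MsB
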