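import Cfsg.Agent.H4_MsG

/-!
The Schur multiplier of PSp₆(2).
-/

set_option autoImplicit false
set_option maxRecDepth 100000

namespace Cfsg.Agent.H4.MsB

open Cfsg.Agent.H8 Cfsg.Agent.H8.CE Cfsg.Agent.H8.CS Cfsg.Agent.H8.Net Cfsg.Agent.H8.Act Cfsg.Agent.H8.Cox
open Cfsg.Agent.H8.Act2 Cfsg.Agent.H4.Ltr Cfsg.Agent.H4.MfD Matrix

universe u v w

theorem cardS_eq : Nat.card MfC.S = 1451520 := by
  obtain ⟨φ, hc⟩ := MfC.phiS
  have h := order_eq (φ := φ) MfB.sys (exists_g MfB.sys MfC.hnB hc MfB.sg_ok (by decide)) MfB.levs MfB.chain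
    (by rw [MfB.prodM_levs]; exact MfC.cardS.1)
  rw [MfB.prodM_levs] at h
  exact h.1

section
variable {F : Type u} [Field F] [Fintype F]

theorem tvF_mem (f : ZMod 2 →+* F) (n : ℕ) (hn : n ∈ l7) : (tv n).map f ∈ symplecticGroup (Fin 3) F := by
  rw [SymplecticGroup.mem_iff]
  have h := tv_ok
  rw [List.all_eq_true] at h
  have h1 : tv n * J (Fin 3) (ZMod 2) * (tv n)ᵀ = J (Fin 3) (ZMod 2) :=
    of_decide_eq_true (h n (by
      simp only [l7, List.mem_cons, List.not_mem_nil, or_false] at hn ⊢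
      tauto))
  have h2 : (J (Fin 3) (ZMod 2)).map f = J (Fin 3) F := by
    have hm : f (-1) = -1 := by rw [map_neg, map_one]
    have e1 : (J (Fin 3) (ZMod 2)).map f = fromBlocks ((0 : Matrix (Fin 3) (Fin 3) (ZMod 2)).map f)
        ((-1 : Matrix (Fin 3) (Fin 3) (ZMod 2)).map f) ((1 : Matrix (Fin 3) (Fin 3) (ZMod 2)).map f)
        ((0 : Matrix (Fin 3) (Fin 3) (ZMod 2)).map f) := by
      unfold J
      rw [Matrix.fromBlocks_map]
    have e2 : (0 : Matrix (Fin 3) (Fin 3) (ZMod 2)).map f = 0 := map_zero f.mapMatrix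
    have e3 : (1 : Matrix (Fin 3) (Fin 3) (ZMod 2)).map f = 1 := map_one f.mapMatrix
    have e4 : (-1 : Matrix (Fin 3) (Fin 3) (ZMod 2)).map f = -1 := by
      have : f.mapMatrix (-1 : Matrix (Fin 3) (Fin 3) (ZMod 2)) = -1 := by rw [map_neg, map_one]
      exact this
    rw [e1, e2, e3, e4]
    rfl
  have h3 := congrArg (fun M => Matrix.map M f) h1
  simp only [Matrix.map_mul] at h3
  rw [h2, Matrix.transpose_map] at h3
  exact h3

/-- the letters in the symplectic group -/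
noncomputable def xF' (f : ZMod 2 →+* F) (n : ℕ) : symplecticGroup (Fin 3) F :=
  if h : n ∈ l7 then ⟨(tv n).map f, tvF_mem f n h⟩ else 1

theorem xF'_val (f : ZMod 2 →+* F) (n : ℕ) (h : n ∈ l7) : ((xF' f n : symplecticGroup (Fin 3) F) : Matrix (Fin 3 ⊕ Fin 3) (Fin 3 ⊕ Fin 3) F) = (tv n).map f := by
  unfold xF'
  rw [dif_pos h]

theorem xF'_ok (f : ZMod 2 →+* F) : Ok MfS.ic 7 MfS.rels (xF' f) := by
  have hsq : ∀ i ∈ l7, xF' f i * xF' f i = 1 := by
    intro i hi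
    apply Subtype.ext
    show ((xF' f i : symplecticGroup (Fin 3) F) : Matrix (Fin 3 ⊕ Fin 3) (Fin 3 ⊕ Fin 3) F) * ((xF' f i : symplecticGroup (Fin 3) F) : Matrix (Fin 3 ⊕ Fin 3) (Fin 3 ⊕ Fin 3) F) = 1
    rw [xF'_val f i hi, ← Matrix.map_mul]
    have h := tv_sq
    rw [List.all_eq_true] at h
    have h1 : tv i * tv i = 1 := of_decide_eq_true (h i (by
      simp only [l7, List.mem_cons, List.not_mem_nil, or_false] at hi ⊢
      tauto))
    rw [h1]
    exact Matrix.map_one f (map_zero f) (map_one f)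
  have hp : ∀ i ∈ l7, ∀ j ∈ l7, i ≠ j → (MfR.lab7 i j = 3 → xF' f i * xF' f j * xF' f i = xF' f j * xF' f i * xF' f j) ∧
      (MfR.lab7 i j ≠ 3 → xF' f i * xF' f j = xF' f j * xF' f i) := by
    intro i hi j hj hij
    have h := tv_pair
    rw [List.all_eq_true] at h
    have h1 := h i hi
    rw [List.all_eq_true] at h1
    have h2 := of_decide_eq_true (h1 j hj)
    obtain ⟨h3, h4⟩ := h2.resolve_left hij
    refine ⟨fun h5 => ?_, fun h5 => ?_⟩
    · apply Subtype.ext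
      show ((xF' f i : symplecticGroup (Fin 3) F) : Matrix (Fin 3 ⊕ Fin 3) (Fin 3 ⊕ Fin 3) F) * ((xF' f j : symplecticGroup (Fin 3) F) : Matrix (Fin 3 ⊕ Fin 3) (Fin 3 ⊕ Fin 3) F) *
        ((xF' f i : symplecticGroup (Fin 3) F) : Matrix (Fin 3 ⊕ Fin 3) (Fin 3 ⊕ Fin 3) F) = ((xF' f j : symplecticGroup (Fin 3) F) : Matrix (Fin 3 ⊕ Fin 3) (Fin 3 ⊕ Fin 3) F) *
        ((xF' f i : symplecticGroup (Fin 3) F) : Matrix (Fin 3 ⊕ Fin 3) (Fin 3 ⊕ Fin 3) F) * ((xF' f j : symplecticGroup (Fin 3) F) : Matrix (Fin 3 ⊕ Fin 3) (Fin 3 ⊕ Fin 3) F)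
      rw [xF'_val f i hi, xF'_val f j hj, ← Matrix.map_mul, ← Matrix.map_mul, h3 h5, Matrix.map_mul, Matrix.map_mul]
    · apply Subtype.ext
      show ((xF' f i : symplecticGroup (Fin 3) F) : Matrix (Fin 3 ⊕ Fin 3) (Fin 3 ⊕ Fin 3) F) * ((xF' f j : symplecticGroup (Fin 3) F) : Matrix (Fin 3 ⊕ Fin 3) (Fin 3 ⊕ Fin 3) F) =
        ((xF' f j : symplecticGroup (Fin 3) F) : Matrix (Fin 3 ⊕ Fin 3) (Fin 3 ⊕ Fin 3) F) * ((xF' f i : symplecticGroup (Fin 3) F) : Matrix (Fin 3 ⊕ Fin 3) (Fin 3 ⊕ Fin 3) F)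
      rw [xF'_val f i hi, xF'_val f j hj, ← Matrix.map_mul, h4 h5, Matrix.map_mul]
  have hn' : ∀ i, i ∉ l7 → xF' f i = 1 := fun i hi => dif_neg hi
  refine ⟨?_, ?_, ?_⟩
  · intro i hi
    by_cases h7 : i ∈ l7
    · have e : il MfS.ic i = i := by
        simp only [l7, List.mem_cons, List.not_mem_nil, or_false] at h7
        rcases h7 with rfl | rfl | rfl | rfl | rfl | rfl | rfl <;> decide
      rw [e]
      exact eq_inv_of_mul_eq_one_left (hsq i h7)
    · have e : il MfS.ic i = 0 := by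
        simp only [l7, List.mem_cons, List.not_mem_nil, or_false] at h7
        have : i = 0 ∨ (8 ≤ i ∧ i < 16) := by omega
        rcases this with rfl | ⟨h8, h16⟩
        · decide
        · interval_cases i <;> decide
      rw [e, hn' 0 (by decide), hn' i h7, inv_one]
  · intro i hi
    apply hn'
    simp only [l7, List.mem_cons, List.not_mem_nil, or_false]
    omega
  · intro w hw
    have hw' : w ∈ MfR.rels ∨ w = powW [1, 2, 3, 4, 5, 6, 7] 9 := by
      have h0 : w ∈ MfR.rels ++ [powW [1, 2, 3, 4, 5, 6, 7] 9] := hw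
      rw [List.mem_append, List.mem_singleton] at h0
      exact h0
    rcases hw' with hw' | rfl
    · refine coxR_ok ?_ w hw'
      intro i hi j hj hij
      have hi' : i ∈ l7 := hi
      have hj' : j ∈ l7 := hj
      obtain ⟨r1, r2⟩ := hp i hi' j hj' hij
      rcases lab7_cases i j with h3 | h3
      · rw [h3, pow3_of_braid (u := 1) (r1 h3) (hsq i hi') (hsq j hj') (by simp), one_pow]
      · rw [h3, pow2_of_comm (u := 1) (r2 (by omega)) (hsq i hi') (hsq j hj'), one_pow]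
    · rw [ev_powW]
      apply Subtype.ext
      have h9 : ((ev (xF' f) [1, 2, 3, 4, 5, 6, 7] : symplecticGroup (Fin 3) F) : Matrix (Fin 3 ⊕ Fin 3) (Fin 3 ⊕ Fin 3) F) =
          (tv 1 * tv 2 * tv 3 * tv 4 * tv 5 * tv 6 * tv 7).map f := by
        simp only [ev_cons, ev_nil, mul_one, Submonoid.coe_mul, Matrix.map_mul]
        rw [xF'_val f 1 (by decide), xF'_val f 2 (by decide), xF'_val f 3 (by decide), xF'_val f 4 (by decide),
          xF'_val f 5 (by decide), xF'_val f 6 (by decide), xF'_val f 7 (by decide)]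
        simp only [mul_assoc]
      show ((ev (xF' f) [1, 2, 3, 4, 5, 6, 7] ^ 9 : symplecticGroup (Fin 3) F) : Matrix (Fin 3 ⊕ Fin 3) (Fin 3 ⊕ Fin 3) F) = 1
      rw [SubmonoidClass.coe_pow, h9]
      have h10 : ((tv 1 * tv 2 * tv 3 * tv 4 * tv 5 * tv 6 * tv 7).map f) ^ 9 =
          ((tv 1 * tv 2 * tv 3 * tv 4 * tv 5 * tv 6 * tv 7) ^ 9).map f :=
        (map_pow f.mapMatrix (tv 1 * tv 2 * tv 3 * tv 4 * tv 5 * tv 6 * tv 7) 9).symm
      rw [h10, tv_cox]
      exact Matrix.map_one f (map_zero f) (map_one f)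

end

end Cfsg.Agent.H4.MsB
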