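import Cfsg.Agent.H4_MsH

/-!
The Schur multiplier of PSp₆(2).
-/

set_option autoImplicit false
set_option maxRecDepth 100000

namespace Cfsg.Agent.H4.MsB

open Cfsg.Agent.H8 Cfsg.Agent.H8.CE Cfsg.Agent.H8.CS Cfsg.Agent.H8.Net Cfsg.Agent.H8.Act Cfsg.Agent.H8.Cox
open Cfsg.Agent.H8.Act2 Cfsg.Agent.H4.Ltr Cfsg.Agent.H4.MfD Matrix

universe u v w

/-- a homomorphism that keeps the relations keeps `Ok` -/
theorem ok_map {ic k : ℕ} {rels : List (List ℕ)} {G : Type u} {K : Type v} [Group G] [Group K] (φ : G →* K) {x : ℕ → G}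
    (h : Ok ic k rels x) : Ok ic k rels (fun y => φ (x y)) where
  hic := fun y hy => by rw [h.hic y hy, map_inv]
  hk := fun y hy => by rw [h.hk y hy, map_one]
  hrels := fun w hw => by rw [← ev_map, h.hrels w hw, map_one]

theorem tv_ne : tv 1 * tv 2 ≠ tv 2 * tv 1 := by decide +kernel

theorem exists_e {F : Type u} [Field F] [Fintype F] (hF : Fintype.card F = 2) : Nonempty (MfC.S ≃* Cfsg.PSp 3 F) := by
  haveI : CharP F 2 := by
    haveI : Fact (Nat.Prime 2) := ⟨Nat.prime_two⟩
    exact charP_of_card_eq_prime hF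
  let f : ZMod 2 →+* F := ZMod.castHom (dvd_refl 2) F
  have finj : Function.Injective f := f.injective
  have hok := ok_map (QuotientGroup.mk' (Subgroup.center (symplecticGroup (Fin 3) F))) (xF'_ok f)
  obtain ⟨Φ, hΦ⟩ := lift_ok hok
  have hker : Φ.ker = ⊥ := by
    haveI := MfC.simpleS
    rcases IsSimpleGroup.eq_bot_or_eq_top_of_normal Φ.ker inferInstance with h | h
    · exact h
    · exfalso
      have h1 : Φ (xg MfS.ic 7 MfS.rels 1) = 1 := by
        have : xg MfS.ic 7 MfS.rels 1 ∈ Φ.ker := by rw [h]; exact Subgroup.mem_top _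
        exact this
      rw [hΦ] at h1
      have h2 : xF' f 1 ∈ Subgroup.center (symplecticGroup (Fin 3) F) := (QuotientGroup.eq_one_iff _).1 h1
      have h3 := Subgroup.mem_center_iff.1 h2 (xF' f 2)
      have h4 : (tv 2 * tv 1).map f = (tv 1 * tv 2).map f := by
        rw [Matrix.map_mul, Matrix.map_mul, ← xF'_val f 1 (by decide), ← xF'_val f 2 (by decide)]
        exact congrArg Subtype.val h3
      have h5 : tv 2 * tv 1 = tv 1 * tv 2 := by
        ext i j
        have := congrFun (congrFun h4 i) j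
        simp only [Matrix.map_apply] at this
        exact finj this
      exact tv_ne h5.symm
  have hinj : Function.Injective Φ := (MonoidHom.ker_eq_bot_iff Φ).1 hker
  have hcardSp : Nat.card (symplecticGroup (Fin 3) F) = 1451520 := by
    rw [Cfsg.Agent.S0245.result hF 3]
    decide
  haveI : Finite (symplecticGroup (Fin 3) F) := inferInstance
  have hle : Nat.card (Cfsg.PSp 3 F) ≤ Nat.card MfC.S := by
    rw [cardS_eq, ← hcardSp]
    exact Nat.card_le_card_of_surjective _ (QuotientGroup.mk'_surjective (Subgroup.center (symplecticGroup (Fin 3) F)))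
  exact ⟨MulEquiv.ofBijective Φ (hinj.bijective_of_nat_card_le hle)⟩

theorem hasMult {G : Type u} [Group G] (e : MfC.S ≃* G) : Cfsg.HasCyclicSchurMultiplier G 2 := by
  haveI : Fact (Nat.Prime 2) := ⟨Nat.prime_two⟩
  refine ⟨?_, ?_⟩
  · -- existence
    let j : ULift.{u} T ≃* T := MulEquiv.ulift
    let σ : ULift.{u} T →* G := (e.toMonoidHom.comp pr).comp j.toMonoidHom
    haveI := finT
    have hσ : ∀ t, σ t = e (pr (j t)) := fun t => rfl
    have hk : ∀ t, t ∈ σ.ker ↔ j t ∈ pr.ker := by
      intro t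
      rw [MonoidHom.mem_ker, MonoidHom.mem_ker, hσ]
      exact ⟨fun h => e.injective (by rw [h, map_one]), fun h => by rw [h, map_one]⟩
    refine ⟨ULift.{u} T, inferInstance, inferInstance, σ, ⟨?_, ?_, ?_⟩, ?_⟩
    · intro g
      obtain ⟨t, ht⟩ := pr_stem.1 (e.symm g)
      refine ⟨j.symm t, ?_⟩
      rw [hσ, MulEquiv.apply_symm_apply, ht, MulEquiv.apply_symm_apply]
    · intro t ht
      rw [hk] at ht
      have h := Subgroup.mem_center_iff.1 (pr_stem.2.1 ht)
      rw [Subgroup.mem_center_iff]
      intro s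
      apply j.injective
      rw [map_mul, map_mul]
      exact h (j s)
    · intro t ht
      rw [hk] at ht
      have h := pr_stem.2.2 ht
      have h2 : (commutator T).map j.symm.toMonoidHom ≤ commutator (ULift.{u} T) := by
        rw [commutator_def, Subgroup.map_commutator, commutator_def]
        exact Subgroup.commutator_mono le_top le_top
      apply h2
      exact ⟨j t, h, j.symm_apply_apply t⟩
    · let k : σ.ker ≃* pr.ker :=
        { toFun := fun t => ⟨j t.1, (hk t.1).1 t.2⟩
          invFun := fun t => ⟨j.symm t.1, (hk _).2 (by rw [MulEquiv.apply_symm_apply]; exact t.2)⟩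
          left_inv := fun t => Subtype.ext (j.symm_apply_apply t.1)
          right_inv := fun t => Subtype.ext (j.apply_symm_apply t.1)
          map_mul' := fun s t => Subtype.ext (map_mul j s.1 t.1) }
      have hc : Nat.card σ.ker = 2 := by rw [Nat.card_congr k.toEquiv]; exact pr_card
      haveI : IsCyclic σ.ker := isCyclic_of_prime_card hc
      haveI : IsCyclic (Multiplicative (ZMod 2)) := inferInstance
      exact ⟨mulEquivOfCyclicCardEq (by rw [hc]; simp)⟩
  · intro Γ _ _ σ hσ
    obtain ⟨z, hz2, hz⟩ := ub e hσ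
    have hzc : Nat.card (Subgroup.zpowers z) ∣ 2 := by
      rw [Nat.card_zpowers]
      exact orderOf_dvd_of_pow_eq_one (by rw [pow_two, hz2])
    have hkc : Nat.card σ.ker ∣ 2 := (Subgroup.card_dvd_of_le hz).trans hzc
    rcases (Nat.dvd_prime Nat.prime_two).1 hkc with h1 | h1
    · haveI : Subsingleton σ.ker := (Nat.card_eq_one_iff_unique.1 h1).1
      exact ⟨1, fun y => ⟨1, Subsingleton.elim _ _⟩⟩
    · haveI : IsCyclic σ.ker := isCyclic_of_prime_card h1
      haveI : IsCyclic (Multiplicative (ZMod 2)) := inferInstance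
      have ee : Multiplicative (ZMod 2) ≃* σ.ker := mulEquivOfCyclicCardEq (by rw [h1]; simp)
      exact ⟨ee.toMonoidHom, ee.surjective⟩

end Cfsg.Agent.H4.MsB
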