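import Cfsg.Agent.H4_MfR

/-!
Relators of the double cover of Sp₆(2): letters `1, …, 7` (lifts of the Coxeter generators), `8, …, 14` (their inverses),
`15` (the central involution).
-/

set_option autoImplicit false
set_option maxRecDepth 100000

namespace Cfsg.Agent.H4.MsR

open Cfsg.Agent.H8 Cfsg.Agent.H8.CE Cfsg.Agent.H8.Net Cfsg.Agent.H8.Act Cfsg.Agent.H8.Cox

/-- inverse letters -/
def ic : ℕ := 0xf7654321edcba980

/-- ordered pairs of distinct letters -/
def prs : List (ℕ × ℕ) :=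
  ([1, 2, 3, 4, 5, 6, 7] : List ℕ).flatMap fun i => (([1, 2, 3, 4, 5, 6, 7] : List ℕ).filter fun j => i != j).map fun j => (i, j)

/-- the relator of a pair -/
def prel (p : ℕ × ℕ) : List ℕ :=
  if MfR.lab7 p.1 p.2 = 3 then [p.1, p.2, p.1, p.2 + 7, p.1 + 7, p.2 + 7] else [p.1, p.2, p.1 + 7, p.2 + 7, 15]

/-- relators -/
def rels : List (List ℕ) :=
  (([1, 2, 3, 4, 5, 6, 7] : List ℕ).map fun i => [i, i, 15]) ++
  (([1, 2, 3, 4, 5, 6, 7] : List ℕ).map fun i => [15, i, 15, i + 7]) ++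
  prs.map prel ++ [powW [1, 2, 3, 4, 5, 6, 7] 9]

end Cfsg.Agent.H4.MsR
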