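import Mathlib
import Cfsg.Agent.H4_BRavg
import Cfsg.Agent.H4_BRplus
import Cfsg.Agent.H4_Ext2

/-! Sylow subgroup of prime order with normalizer of order `2p`: the exterior square of the
exceptional character. -/

set_option autoImplicit false

namespace Cfsg.Agent.H4.Pd1

open Cfsg Cfsg.Agent.H3.CharIrr Cfsg.Agent.H3.CharComplete Cfsg.Agent.H3.CharInd
  Cfsg.Agent.H3.CharMult Cfsg.Agent.H3.CharInt Cfsg.Agent.H4.BRgr Cfsg.Agent.H4.BRar
  Cfsg.Agent.H4.BRdata Cfsg.Agent.H4.BRdeg Cfsg.Agent.H4.BRv Cfsg.Agent.H4.BRcase Cfsg.Agent.H4.BRind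
  Cfsg.Agent.H4.BRfr Cfsg.Agent.H4.BRgeo Cfsg.Agent.H4.BRavg
open Cfsg.Agent.H10.BlockKer (triv triv_coe ker_mul)
open scoped ComplexConjugate

universe u

variable {G : Type u} [Group G] [Fintype G] {p : ℕ} [hp : Fact p.Prime] {P : Sylow p G} {t : ℕ}
  {X Y : Finset (IrrCharacter G)} {δ : IrrCharacter G → ℤ} {ε : ℤ}

/-- elements of `P` are inverted -/
theorem exists_inv (hP : Nat.card P = p)
    (hC : Subgroup.centralizer ((P : Subgroup G) : Set G) = (P : Subgroup G))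
    (he : (Subgroup.centralizer ((P : Subgroup G) : Set G)).relIndex
      (Subgroup.normalizer ((P : Subgroup G) : Set G)) = 2) {x : G} (hx : x ∈ (P : Subgroup G)) :
    ∃ g : G, g * x * g⁻¹ = x⁻¹ := by
  classical
  rw [hC] at he
  have hle : (P : Subgroup G) ≤ Subgroup.normalizer ((P : Subgroup G) : Set G) := Subgroup.le_normalizer
  obtain ⟨n, hn, hnP⟩ : ∃ n ∈ Subgroup.normalizer ((P : Subgroup G) : Set G), n ∉ (P : Subgroup G) := by
    by_contra hcon
    push Not at hcon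
    have : (P : Subgroup G).relIndex (Subgroup.normalizer ((P : Subgroup G) : Set G)) = 1 := by
      rw [Subgroup.relIndex_eq_one]
      exact hcon
    omega
  have hn2 : n * n ∈ (P : Subgroup G) := by
    have h1 : ((P : Subgroup G).subgroupOf (Subgroup.normalizer ((P : Subgroup G) : Set G))).index = 2 := he
    have h2 := Subgroup.mul_self_mem_of_index_two h1 ⟨n, hn⟩
    rw [Subgroup.mem_subgroupOf] at h2
    exact h2
  have hcomm : ∀ a ∈ (P : Subgroup G), ∀ b ∈ (P : Subgroup G), a * b = b * a := by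
    intro a ha b hb
    have : b ∈ Subgroup.centralizer ((P : Subgroup G) : Set G) := by rw [hC]; exact hb
    exact Subgroup.mem_centralizer_iff.mp this a ha
  refine ⟨n, ?_⟩
  have h1 : n * x * n⁻¹ ∈ (P : Subgroup G) := conj_mem hx hn
  set y := x * (n * x * n⁻¹) with hy
  have hyP : y ∈ (P : Subgroup G) := (P : Subgroup G).mul_mem hx h1
  have h2 : n * y * n⁻¹ = y := by
    have h3 : n * y * n⁻¹ = (n * x * n⁻¹) * ((n * n) * x * (n * n)⁻¹) := by rw [hy]; group
    have h4 : (n * n) * x * (n * n)⁻¹ = x := by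
      rw [hcomm _ hn2 _ hx]; group
    rw [h3, h4, hy, hcomm _ h1 _ hx]
  have h5 : y = 1 := by
    by_contra hy1
    have h6 : n ∈ Subgroup.centralizer ({y} : Set G) := by
      rw [Subgroup.mem_centralizer_singleton_iff]
      calc n * y = (n * y * n⁻¹) * n := by group
        _ = y * n := by rw [h2]
    rw [centralizer_eq hP hyP hy1, hC] at h6
    exact hnP h6
  exact (inv_eq_of_mul_eq_one_right h5).symm

theorem real_P (hP : Nat.card P = p)
    (hC : Subgroup.centralizer ((P : Subgroup G) : Set G) = (P : Subgroup G))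
    (he : (Subgroup.centralizer ((P : Subgroup G) : Set G)).relIndex
      (Subgroup.normalizer ((P : Subgroup G) : Set G)) = 2) {x : G} (hx : x ∈ (P : Subgroup G))
    {ψ : G → ℂ} (hψ : IsCharacter G ψ) : conj (ψ x) = ψ x := by
  obtain ⟨g, hg⟩ := exists_inv hP hC he hx
  rw [← IsChar.inv_eq_conj hψ x, ← hg]
  exact IsChar.isClass hψ x g

/-- sums over the normalizer -/
theorem sum_NN (hP : Nat.card P = p)
    (hC : Subgroup.centralizer ((P : Subgroup G) : Set G) = (P : Subgroup G))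
    [Fintype (NN P)] [Fintype (P : Subgroup G)]
    {F : G → ℂ} (hF : ∀ y : G, ¬ p ∣ orderOf y → F y = 0) :
    ∑ y : NN P, F y = ∑ x : (P : Subgroup G), F x := by
  classical
  have h1 : ∑ y : NN P, F y = ∑ y ∈ Finset.univ.filter (fun y : NN P => (y : G) ∈ (P : Subgroup G)), F y := by
    rw [Finset.sum_filter]
    refine Finset.sum_congr rfl fun y _ => ?_
    split_ifs with h
    · rfl
    · exact hF y (fun hd => h (mem_P_of_dvd hP hC y.2 hd))
  rw [h1]
  symm
  apply Finset.sum_bij (fun (x : (P : Subgroup G)) _ => (⟨x, Subgroup.le_normalizer x.2⟩ : NN P))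
  · intro x _
    rw [Finset.mem_filter]; exact ⟨Finset.mem_univ _, x.2⟩
  · intro x _ y _ h
    exact Subtype.ext (congrArg (fun z : NN P => (z : G)) h)
  · intro y hy
    rw [Finset.mem_filter] at hy
    exact ⟨⟨y, hy.2⟩, Finset.mem_univ _, rfl⟩
  · intro x _; rfl

theorem sq_eq (D : BD P 2 t X Y δ ε) (hP : Nat.card P = p)
    (hC : Subgroup.centralizer ((P : Subgroup G) : Set G) = (P : Subgroup G))
    (he : (Subgroup.centralizer ((P : Subgroup G) : Set G)).relIndex
      (Subgroup.normalizer ((P : Subgroup G) : Set G)) = 2)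
    [Fintype (P : Subgroup G)] {θ θ' : IrrCharacter G} (hθ : θ ∈ Y) (hθ' : θ' ∈ Y) :
    ∑ x : (P : Subgroup G), (θ : G → ℂ) x ^ 2 = ∑ x : (P : Subgroup G), (θ' : G → ℂ) x ^ 2 := by
  classical
  by_cases hne : θ = θ'
  · rw [hne]
  haveI : Fintype (NN P) := Fintype.ofFinite _
  let f : G → ℂ := (θ : G → ℂ) - (θ' : G → ℂ)
  let f' : G → ℂ := (θ : G → ℂ) + (θ' : G → ℂ)
  have hfg : IsGeneralizedCharacter G f := IsGen.sub (IsGen.of_irr θ.2) (IsGen.of_irr θ'.2)
  have hfc : IsClassFunction G f := IsGen.isClass hfg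
  have hfg' : IsGeneralizedCharacter G f' := IsGen.add (IsGen.of_irr θ.2) (IsGen.of_irr θ'.2)
  have hfc' : IsClassFunction G f' := IsGen.isClass hfg'
  have hf0 : ∀ g, ¬ p ∣ orderOf g → f g = 0 := fun g hg => by
    show (θ : G → ℂ) g - (θ' : G → ℂ) g = 0
    rw [D.aY θ hθ θ' hθ' g hg, sub_self]
  have hff : classInner f f' = 0 := by
    have h1 : classInner (θ : G → ℂ) (θ' : G → ℂ) = 0 :=
      ci_irr_ne θ.2 θ'.2 (fun h => hne (Subtype.ext h))
    have h2 : classInner (θ' : G → ℂ) (θ : G → ℂ) = 0 :=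
      ci_irr_ne θ'.2 θ.2 (fun h => hne (Subtype.ext h.symm))
    show classInner ((θ : G → ℂ) - (θ' : G → ℂ)) ((θ : G → ℂ) + (θ' : G → ℂ)) = 0
    rw [ci_sub_left, ci_add_right, ci_add_right, ci_irr_self θ.2, ci_irr_self θ'.2, h1, h2]
    norm_num
  have hind := ind_res hP hC hfc hf0
  have hN2 : classInner (fun y : NN P => f y) (fun y : NN P => f' y) = 0 := by
    rw [← hff, ← frobenius (NN P) (fun y : NN P => f y) f' hfc', hind]
  have hNc : (Nat.card (NN P) : ℂ) ≠ 0 := by exact_mod_cast Nat.card_pos.ne'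
  have hq : ∑ x : (P : Subgroup G), f x * conj (f' x) = 0 := by
    have h1 := sum_NN hP hC (F := fun y => f y * conj (f' y)) (fun y hy => by
      show f y * conj (f' y) = 0
      rw [hf0 y hy, zero_mul])
    rw [← h1]
    rw [classInner] at hN2
    exact (mul_eq_zero.mp hN2).resolve_left (inv_ne_zero hNc)
  have hq2 : ∑ x : (P : Subgroup G), ((θ : G → ℂ) x ^ 2 - (θ' : G → ℂ) x ^ 2) = 0 := by
    rw [← hq]
    refine Finset.sum_congr rfl fun x _ => ?_
    have h1 := real_P hP hC he x.2 (IsIrr.isCharacter θ.2)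
    have h2 := real_P hP hC he x.2 (IsIrr.isCharacter θ'.2)
    show _ = ((θ : G → ℂ) x - (θ' : G → ℂ) x) * conj ((θ : G → ℂ) x + (θ' : G → ℂ) x)
    rw [map_add, h1, h2]
    ring
  rw [Finset.sum_sub_distrib] at hq2
  exact sub_eq_zero.mp hq2

/-- the configuration -/
structure Pd (P : Sylow p G) (t : ℕ) (X Y : Finset (IrrCharacter G)) (δ : IrrCharacter G → ℤ)
    (χ : IrrCharacter G) : Prop where
  D : BD P 2 t X Y δ (-1)
  hP : Nat.card P = p
  hC : Subgroup.centralizer ((P : Subgroup G) : Set G) = (P : Subgroup G)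
  he : (Subgroup.centralizer ((P : Subgroup G) : Set G)).relIndex
      (Subgroup.normalizer ((P : Subgroup G) : Set G)) = 2
  ht : 2 ≤ t
  hpt : p = 2 * t + 1
  tX : triv G ∈ X
  χX : χ ∈ X
  χne : χ ≠ triv G
  χd : charDegree (χ : G → ℂ) = 2 * t
  δχ : δ χ = -1

theorem pt_ne (hP : Nat.card P = p) : ∃ x ∈ (P : Subgroup G), x ≠ 1 := by
  have : Nontrivial (P : Subgroup G) := by
    rw [← Finite.one_lt_card_iff_nontrivial]
    exact hP.symm ▸ hp.out.one_lt
  obtain ⟨x, hx⟩ := exists_ne (1 : (P : Subgroup G))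
  exact ⟨x, x.2, fun h => hx (Subtype.ext h)⟩

/-- a character of degree `c` modulo... with constant value on `P` is not exceptional -/
theorem not_mem_Y (D : BD P 2 t X Y δ ε) (hP : Nat.card P = p)
    (hC : Subgroup.centralizer ((P : Subgroup G) : Set G) = (P : Subgroup G))
    (he : (Subgroup.centralizer ((P : Subgroup G) : Set G)).relIndex
      (Subgroup.normalizer ((P : Subgroup G) : Set G)) = 2) (ht : 2 ≤ t) {c : ℤ}
    {ψ : IrrCharacter G} (h : ∀ x ∈ (P : Subgroup G), x ≠ 1 → (ψ : G → ℂ) x = c) : ψ ∉ Y := by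
  classical
  intro hY
  haveI : Fintype (P : Subgroup G) := Fintype.ofFinite _
  have h1 := sum_exc D hP hC he le_rfl hY
  rw [sum_P hP h, deg_eq] at h1
  have hp1 : ((p : ℂ) - 1) ≠ 0 := by
    have : (p : ℂ) ≠ 1 := by exact_mod_cast hp.out.one_lt.ne'
    exact sub_ne_zero.mpr this
  have ht0 : (t : ℂ) ≠ 0 := by
    have : t ≠ 0 := by omega
    exact_mod_cast this
  have h2 : (t : ℂ) * c = -ε := by
    have h3 : ((p : ℂ) - 1) * ((t : ℂ) * c + ε) = 0 := by
      field_simp at h1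
      linear_combination h1
    have h4 := (mul_eq_zero.mp h3).resolve_left hp1
    linear_combination h4
  have h3 : (t : ℤ) * c = -ε := by exact_mod_cast h2
  have h4 : (t : ℤ) ∣ 1 := by
    have h5 : (t : ℤ) ∣ -ε := ⟨c, h3.symm⟩
    rcases D.sε with h | h
    · rw [h] at h5; exact (dvd_neg.mp h5)
    · rw [h, neg_neg] at h5; exact h5
  have h5 := Int.le_of_dvd one_pos h4
  omega

theorem triv_mem_X (D : BD P 2 t X Y δ ε) (hP : Nat.card P = p)
    (hC : Subgroup.centralizer ((P : Subgroup G) : Set G) = (P : Subgroup G))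
    (he : (Subgroup.centralizer ((P : Subgroup G) : Set G)).relIndex
      (Subgroup.normalizer ((P : Subgroup G) : Set G)) = 2) (ht : 2 ≤ t) : triv G ∈ X := by
  rcases Finset.mem_union.mp D.one with h | h
  · exact h
  · exact absurd h (not_mem_Y D hP hC he ht (c := 1) (fun x _ _ => by rw [triv_coe]; simp))

theorem δ_triv (D : BD P 2 t X Y δ ε) (hP : Nat.card P = p) (h : triv G ∈ X) : δ (triv G) = 1 := by
  obtain ⟨x, hx, hx1⟩ := pt_ne hP
  have h1 := D.val h hx hx1
  rw [triv_coe] at h1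
  exact_mod_cast h1.symm

theorem X_eq (D : BD P 2 t X Y δ ε) (h : triv G ∈ X) {χ : IrrCharacter G} (hχ : χ ∈ X)
    (hne : χ ≠ triv G) (ψ : IrrCharacter G) : ψ ∈ X ↔ ψ = triv G ∨ ψ = χ := by
  classical
  have h1 : ({triv G, χ} : Finset (IrrCharacter G)) = X := by
    apply Finset.eq_of_subset_of_card_le
    · intro ψ hψ
      rw [Finset.mem_insert, Finset.mem_singleton] at hψ
      rcases hψ with rfl | rfl
      · exact h
      · exact hχ
    · rw [D.cX, Finset.card_pair (Ne.symm hne)]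
  rw [← h1, Finset.mem_insert, Finset.mem_singleton]

theorem sum_X (D : BD P 2 t X Y δ ε) (h : triv G ∈ X) {χ : IrrCharacter G} (hχ : χ ∈ X)
    (hne : χ ≠ triv G) {M : Type*} [AddCommMonoid M] (F : IrrCharacter G → M) :
    ∑ ψ ∈ X, F ψ = F (triv G) + F χ := by
  classical
  have h1 : ({triv G, χ} : Finset (IrrCharacter G)) = X := by
    ext ψ
    rw [Finset.mem_insert, Finset.mem_singleton, X_eq D h hχ hne]
  rw [← h1, Finset.sum_pair (Ne.symm hne)]

/-- the relation -/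
theorem rel' (D : BD P 2 t X Y δ ε) (hP : Nat.card P = p) (h : triv G ∈ X) {χ : IrrCharacter G} (hχ : χ ∈ X)
    (hne : χ ≠ triv G) {θ : IrrCharacter G} (hθ : θ ∈ Y) {g : G} (hg : ¬ p ∣ orderOf g) :
    (ε : ℂ) * (θ : G → ℂ) g = 1 + (δ χ : ℂ) * (χ : G → ℂ) g := by
  rw [D.rel θ hθ g hg, sum_X D h hχ hne, δ_triv D hP h, triv_coe]
  simp

theorem relDeg' (D : BD P 2 t X Y δ ε) (hP : Nat.card P = p) (h : triv G ∈ X) {χ : IrrCharacter G} (hχ : χ ∈ X)
    (hne : χ ≠ triv G) {θ : IrrCharacter G} (hθ : θ ∈ Y) :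
    ε * (charDegree (θ : G → ℂ) : ℤ) = 1 + δ χ * (charDegree (χ : G → ℂ) : ℤ) := by
  rw [D.relDeg hθ, sum_X D h hχ hne, δ_triv D hP h, deg_triv]
  simp

theorem mkPd (D : BD P 2 t X Y δ ε) (hP : Nat.card P = p)
    (hC : Subgroup.centralizer ((P : Subgroup G) : Set G) = (P : Subgroup G))
    (he : (Subgroup.centralizer ((P : Subgroup G) : Set G)).relIndex
      (Subgroup.normalizer ((P : Subgroup G) : Set G)) = 2) (ht : 2 ≤ t) (hpt : p = 2 * t + 1)
    {χ : IrrCharacter G} (hχ : χ ∈ X) (hne : χ ≠ triv G) (hd : charDegree (χ : G → ℂ) = 2 * t) :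
    Pd P t X Y δ χ := by
  have h1 := triv_mem_X D hP hC he ht
  have hδ : δ χ = -1 := by
    rcases D.sX χ hχ with h | h
    · exfalso
      have h2 := D.dX χ hχ
      rw [hd, h] at h2
      have h3 := h2.symm.dvd
      rw [hpt] at h3
      push_cast at h3
      have h4 := Int.le_of_dvd (by omega) h3
      omega
    · exact h
  have hε : ε = -1 := by
    rcases D.sε with h | h
    · exfalso
      obtain ⟨θ, hθ⟩ : Y.Nonempty := by
        rw [← Finset.card_pos, D.cY]; omega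
      have h2 := relDeg' D hP h1 hχ hne hθ
      rw [h, hδ, hd] at h2
      push_cast at h2
      have := deg_pos θ
      omega
    · exact h
  exact ⟨hε ▸ D, hP, hC, he, ht, hpt, h1, hχ, hne, hd, hδ⟩

namespace Pd

variable {χ : IrrCharacter G} (C : Pd P t X Y δ χ)

include C

theorem degθ {θ : IrrCharacter G} (hθ : θ ∈ Y) : charDegree (θ : G → ℂ) = 2 * t - 1 := by
  have h := relDeg' C.D C.hP C.tX C.χX C.χne hθ
  rw [C.δχ, C.χd] at h
  have := C.ht
  push_cast at h
  omega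

theorem val {θ : IrrCharacter G} (hθ : θ ∈ Y) {g : G} (hg : ¬ p ∣ orderOf g) :
    (θ : G → ℂ) g = (χ : G → ℂ) g - 1 := by
  have h := rel' C.D C.hP C.tX C.χX C.χne hθ hg
  rw [C.δχ] at h
  push_cast at h
  linear_combination -h

theorem sumθ [Fintype (P : Subgroup G)] {θ : IrrCharacter G} (hθ : θ ∈ Y) :
    ∑ x : (P : Subgroup G), (θ : G → ℂ) x = (p : ℂ) := by
  have h := sum_exc C.D C.hP C.hC C.he le_rfl hθ
  have ht := C.ht
  have ht0 : (t : ℂ) ≠ 0 := by
    have : t ≠ 0 := by omega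
    exact_mod_cast this
  have hpt : (p : ℂ) = 2 * t + 1 := by exact_mod_cast C.hpt
  rw [h, C.degθ hθ, Nat.cast_sub (by omega), hpt]
  push_cast
  field_simp
  ring

theorem sumχ [Fintype (P : Subgroup G)] : ∑ x : (P : Subgroup G), (χ : G → ℂ) x = 0 := by
  rw [sum_P C.hP (c := -1) (fun x hx hx1 => by rw [C.D.val C.χX hx hx1, C.δχ]; simp), deg_eq, C.χd]
  have hpt : (p : ℂ) = 2 * t + 1 := by exact_mod_cast C.hpt
  rw [hpt]
  push_cast
  ring

theorem sumsq [Fintype (P : Subgroup G)] {θ : IrrCharacter G} (hθ : θ ∈ Y) :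
    ∑ x : (P : Subgroup G), (θ : G → ℂ) x ^ 2 = (p : ℂ) * (p - 2) := by
  classical
  have h1 : ∑ θ' ∈ Y, ∑ x : (P : Subgroup G), (θ' : G → ℂ) x ^ 2 =
      (t : ℂ) * ∑ x : (P : Subgroup G), (θ : G → ℂ) x ^ 2 := by
    rw [Finset.sum_congr rfl (fun θ' hθ' => sq_eq C.D C.hP C.hC C.he hθ' hθ), Finset.sum_const, C.D.cY,
      nsmul_eq_mul]
  rw [Finset.sum_comm] at h1
  have h2 := sum_P C.hP (f := fun x => ∑ θ' ∈ Y, (θ' : G → ℂ) x ^ 2) (c := (p : ℂ) - 2) (fun x hx hx1 => by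
    have h3 := BRplus.sum_sq_Y C.D C.hP C.hC hx hx1
    push_cast at h3
    rw [← h3]
    refine Finset.sum_congr rfl fun θ' _ => ?_
    rw [real_P C.hP C.hC C.he hx (IsIrr.isCharacter θ'.2), sq])
  have h3 : ∑ θ' ∈ Y, (θ' : G → ℂ) 1 ^ 2 = (t : ℂ) * ((p : ℂ) - 2) ^ 2 := by
    rw [Finset.sum_congr rfl (g := fun _ => ((p : ℂ) - 2) ^ 2), Finset.sum_const, C.D.cY, nsmul_eq_mul]
    intro θ' hθ'
    have ht := C.ht
    have hpt : (p : ℂ) = 2 * t + 1 := by exact_mod_cast C.hpt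
    rw [deg_eq, C.degθ hθ', Nat.cast_sub (by omega), hpt]
    push_cast
    ring
  rw [h2, h3] at h1
  have ht := C.ht
  have ht0 : (t : ℂ) ≠ 0 := by
    have : t ≠ 0 := by omega
    exact_mod_cast this
  have hpt : (p : ℂ) = 2 * t + 1 := by exact_mod_cast C.hpt
  have h4 : (t : ℂ) * (∑ x : (P : Subgroup G), (θ : G → ℂ) x ^ 2 - (p : ℂ) * (p - 2)) = 0 := by
    rw [mul_sub, ← h1, hpt]
    ring
  exact sub_eq_zero.mp ((mul_eq_zero.mp h4).resolve_left ht0)

end Pd

end Cfsg.Agent.H4.Pd1
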