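import Mathlib
import Cfsg.Agent.H4_Pd1

/-! The exterior square of the exceptional character of degree `p - 2`. -/

set_option autoImplicit false

namespace Cfsg.Agent.H4.Pd1

open Cfsg Cfsg.Agent.H3.CharIrr Cfsg.Agent.H3.CharComplete Cfsg.Agent.H3.CharInd
  Cfsg.Agent.H3.CharMult Cfsg.Agent.H3.CharInt Cfsg.Agent.H4.BRgr Cfsg.Agent.H4.BRar
  Cfsg.Agent.H4.BRdata Cfsg.Agent.H4.BRdeg Cfsg.Agent.H4.BRv Cfsg.Agent.H4.BRcase Cfsg.Agent.H4.BRind
  Cfsg.Agent.H4.BRfr Cfsg.Agent.H4.BRgeo Cfsg.Agent.H4.BRavg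
open Cfsg.Agent.H10.BlockKer (triv triv_coe ker_mul)
open scoped ComplexConjugate

universe u

variable {G : Type u} [Group G] [Fintype G] {p : ℕ} [hp : Fact p.Prime] {P : Sylow p G} {t : ℕ}
  {X Y : Finset (IrrCharacter G)} {δ : IrrCharacter G → ℤ} {χ : IrrCharacter G}

theorem arith {t a b s R : ℤ} (ht : 2 ≤ t) (ha : 0 ≤ a) (hb : 0 ≤ b) (hs : 0 ≤ s) (hR : 0 ≤ R)
    (h1 : (t - 1) * (2 * t - 1) = a + 2 * t * b + (2 * t - 1) * s + R)
    (h2 : (2 * t + 1) * (t - 1) = (2 * t + 1) * a + (2 * t + 1) * s + R) :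
    a = 0 ∧ b = 0 ∧ R = 0 ∧ s = t - 1 := by
  obtain ⟨r, hr⟩ : ∃ r, r = t - 1 - a - s := ⟨_, rfl⟩
  have hR' : R = (2 * t + 1) * r := by rw [hr]; linear_combination -h2
  have hr0 : 0 ≤ r := by
    by_contra h
    push Not at h
    nlinarith
  have h3 : (t - 1) * a = t * b + r := by
    have h4 : (2 * t + 1) * ((t - 1) * a * 2) = (2 * t + 1) * ((t * b + r) * 2) := by
      rw [hR'] at h1 h2
      linear_combination (2 * t + 1) * h1 - (2 * t - 1) * h2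
    have h5 := mul_left_cancel₀ (by omega : (2 * t + 1 : ℤ) ≠ 0) h4
    linarith
  have h6 : a ≤ b := by
    by_contra h
    push Not at h
    nlinarith
  have h7 : a = 0 := by
    nlinarith
  have h8 : r = 0 := by
    rw [h7] at h3
    nlinarith
  have h9 : b = 0 := by
    rw [h7, h8] at h3
    nlinarith
  refine ⟨h7, h9, by rw [hR', h8, mul_zero], ?_⟩
  linarith

theorem sum_sq_bij (hodd : p ≠ 2) (hP : Nat.card P = p) [Fintype (P : Subgroup G)] (f : G → ℂ) :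
    ∑ x : (P : Subgroup G), f ((x : G) * x) = ∑ x : (P : Subgroup G), f x := by
  have hc : (Nat.card (P : Subgroup G)).Coprime 2 := by
    have h1 : Nat.card (P : Subgroup G) = p := hP
    rw [h1]
    exact (Nat.coprime_primes hp.out Nat.prime_two).mpr hodd
  have h2 := Equiv.sum_comp (powCoprime hc) (fun x : (P : Subgroup G) => f x)
  rw [← h2]
  refine Finset.sum_congr rfl fun x _ => ?_
  rw [powCoprime_apply]
  congr 1
  rw [Subgroup.coe_pow, sq]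

theorem Pd.sq_rel (C : Pd P t X Y δ χ) {θ : IrrCharacter G} (hθ : θ ∈ Y) {g : G} (hg : ¬ p ∣ orderOf g) :
    (θ : G → ℂ) (g * g) = (θ : G → ℂ) g ^ 2 - 2 * ((t : ℂ) - 1) * (θ : G → ℂ) g := by
  classical
  haveI : Fintype (IrrCharacter G) := Fintype.ofFinite _
  haveI : Fintype (P : Subgroup G) := Fintype.ofFinite _
  have ht := C.ht
  have hpt : (p : ℂ) = 2 * t + 1 := by exact_mod_cast C.hpt
  have hpc : (p : ℂ) ≠ 0 := by exact_mod_cast hp.out.pos.ne'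
  let Λ : G → ℂ := fun g => ((θ : G → ℂ) g ^ 2 - (θ : G → ℂ) (g * g)) / 2
  have hΛ : IsCharacter G Λ := Ext2.isCharacter (IsIrr.isCharacter θ.2)
  obtain ⟨n, -, hn⟩ := IsChar.eq_sum_nat hΛ
  have hval : ∀ g, Λ g = ∑ ψ : IrrCharacter G, (n ψ : ℂ) * (ψ : G → ℂ) g := by
    intro g
    rw [hn, Finset.sum_apply]
    rfl
  -- splitting
  have hsplit : ∀ F : IrrCharacter G → ℂ, ∑ ψ : IrrCharacter G, F ψ = F (triv G) + F χ + ∑ ψ ∈ Y, F ψ +
      ∑ ψ ∈ (X ∪ Y)ᶜ, F ψ := by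
    intro F
    rw [← Finset.sum_add_sum_compl (X ∪ Y), Finset.sum_union C.D.disj, sum_X C.D C.tX C.χX C.χne]
  have hθ1 : (θ : G → ℂ) 1 = 2 * t - 1 := by
    rw [deg_eq, C.degθ hθ, Nat.cast_sub (by omega)]; push_cast; ring
  -- degree
  have e1 : Λ 1 = ((t : ℂ) - 1) * (2 * t - 1) := by
    show ((θ : G → ℂ) 1 ^ 2 - (θ : G → ℂ) (1 * 1)) / 2 = _
    rw [mul_one, hθ1]; ring
  obtain ⟨s, hs⟩ : ∃ s : ℕ, s = ∑ ψ ∈ Y, n ψ := ⟨_, rfl⟩
  obtain ⟨R, hR⟩ : ∃ R : ℕ, R = ∑ ψ ∈ (X ∪ Y)ᶜ, n ψ * charDegree (ψ : G → ℂ) := ⟨_, rfl⟩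
  have e2 : ((t : ℂ) - 1) * (2 * t - 1) = n (triv G) + 2 * t * n χ + (2 * t - 1) * s + R := by
    rw [← e1, hval, hsplit]
    have a1 : (n (triv G) : ℂ) * ((triv G : IrrCharacter G) : G → ℂ) 1 = n (triv G) := by rw [triv_coe, mul_one]
    have a2 : (n χ : ℂ) * (χ : G → ℂ) 1 = 2 * t * n χ := by rw [deg_eq, C.χd]; push_cast; ring
    have a3 : ∑ ψ ∈ Y, (n ψ : ℂ) * (ψ : G → ℂ) 1 = (2 * t - 1) * s := by
      rw [hs]
      push_cast
      rw [Finset.mul_sum]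
      refine Finset.sum_congr rfl fun ψ hψ => ?_
      rw [deg_eq, C.degθ hψ, Nat.cast_sub (by omega)]; push_cast; ring
    have a4 : ∑ ψ ∈ (X ∪ Y)ᶜ, (n ψ : ℂ) * (ψ : G → ℂ) 1 = R := by
      rw [hR]
      push_cast
      refine Finset.sum_congr rfl fun ψ hψ => ?_
      rw [deg_eq]
    rw [a1, a2, a3, a4]
  -- sums over P
  have hodd : p ≠ 2 := by have := C.hpt; omega
  have e3 : ∑ x : (P : Subgroup G), Λ x = (2 * t + 1) * (t - 1) := by
    have b1 : ∑ x : (P : Subgroup G), Λ x = (∑ x : (P : Subgroup G), (θ : G → ℂ) x ^ 2 -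
        ∑ x : (P : Subgroup G), (θ : G → ℂ) ((x : G) * x)) / 2 := by
      rw [← Finset.sum_sub_distrib, Finset.sum_div]
    rw [b1, sum_sq_bij hodd C.hP (fun g => (θ : G → ℂ) g), C.sumsq hθ, C.sumθ hθ, hpt]
    ring
  have e4 : ((2 : ℂ) * t + 1) * (t - 1) = (2 * t + 1) * n (triv G) + (2 * t + 1) * s + R := by
    rw [← e3, Finset.sum_congr rfl (fun (x : (P : Subgroup G)) _ => hval x), Finset.sum_comm, hsplit]
    have c0 : ∀ ψ : IrrCharacter G, ∑ x : (P : Subgroup G), (n ψ : ℂ) * (ψ : G → ℂ) x =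
        (n ψ : ℂ) * ∑ x : (P : Subgroup G), (ψ : G → ℂ) x := fun ψ => by rw [Finset.mul_sum]
    have c1 : ∑ x : (P : Subgroup G), ((triv G : IrrCharacter G) : G → ℂ) x = 2 * t + 1 := by
      rw [sum_P C.hP (c := 1) (fun x _ _ => by rw [triv_coe]), triv_coe, hpt]
      ring
    have c3 : ∑ ψ ∈ Y, ∑ x : (P : Subgroup G), (n ψ : ℂ) * (ψ : G → ℂ) x = (2 * t + 1) * s := by
      rw [hs]
      push_cast
      rw [Finset.mul_sum]
      refine Finset.sum_congr rfl fun ψ hψ => ?_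
      rw [c0, C.sumθ hψ, hpt]; ring
    have c4 : ∑ ψ ∈ (X ∪ Y)ᶜ, ∑ x : (P : Subgroup G), (n ψ : ℂ) * (ψ : G → ℂ) x = R := by
      rw [hR]
      push_cast
      refine Finset.sum_congr rfl fun ψ hψ => ?_
      rw [c0, sum_P C.hP (c := 0) (C.D.van C.hC ψ (Finset.mem_compl.mp hψ)), deg_eq]
      ring
    rw [c0, c0, c1, C.sumχ, c3, c4]
    ring
  have f2 : ((t : ℤ) - 1) * (2 * t - 1) = n (triv G) + 2 * t * n χ + (2 * t - 1) * s + R := by exact_mod_cast e2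
  have f4 : ((2 : ℤ) * t + 1) * (t - 1) = (2 * t + 1) * n (triv G) + (2 * t + 1) * s + R := by exact_mod_cast e4
  obtain ⟨g1, g2, g3, g4⟩ := arith (by omega) (by omega) (by omega) (by omega) (by omega) f2 f4
  have h1 : n (triv G) = 0 := by exact_mod_cast g1
  have h2 : n χ = 0 := by exact_mod_cast g2
  have h3 : R = 0 := by exact_mod_cast g3
  have h4 : ∀ ψ ∈ (X ∪ Y)ᶜ, n ψ = 0 := by
    rw [h3] at hR
    intro ψ hψ
    have h5 := (Finset.sum_eq_zero_iff.mp hR.symm) ψ hψ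
    exact (mul_eq_zero.mp h5).resolve_right (deg_pos ψ).ne'
  have h5 : Λ g = ((t : ℂ) - 1) * (θ : G → ℂ) g := by
    rw [hval, hsplit, h1, h2]
    have d1 : ∑ ψ ∈ (X ∪ Y)ᶜ, (n ψ : ℂ) * (ψ : G → ℂ) g = 0 := by
      apply Finset.sum_eq_zero
      intro ψ hψ
      rw [h4 ψ hψ]; simp
    have d2 : ∑ ψ ∈ Y, (n ψ : ℂ) * (ψ : G → ℂ) g = s * (θ : G → ℂ) g := by
      rw [hs]
      push_cast
      rw [Finset.sum_mul]
      refine Finset.sum_congr rfl fun ψ hψ => ?_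
      rw [C.D.aY ψ hψ θ hθ g hg]
    have d3 : (s : ℂ) = t - 1 := by exact_mod_cast g4
    rw [d1, d2, d3]
    simp
  have h6 : ((θ : G → ℂ) g ^ 2 - (θ : G → ℂ) (g * g)) / 2 = ((t : ℂ) - 1) * (θ : G → ℂ) g := h5
  linear_combination -2 * h6

end Cfsg.Agent.H4.Pd1
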