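import Mathlib
import Cfsg.Agent.H4_Pd2

/-! Counting in the exceptional configuration. -/

set_option autoImplicit false

namespace Cfsg.Agent.H4.Pd1

open Cfsg Cfsg.Agent.H3.CharIrr Cfsg.Agent.H3.CharComplete Cfsg.Agent.H3.CharInd
  Cfsg.Agent.H3.CharMult Cfsg.Agent.H3.CharInt Cfsg.Agent.H4.BRgr Cfsg.Agent.H4.BRar
  Cfsg.Agent.H4.BRdata Cfsg.Agent.H4.BRdeg Cfsg.Agent.H4.BRv Cfsg.Agent.H4.BRcase Cfsg.Agent.H4.BRind
  Cfsg.Agent.H4.BRfr Cfsg.Agent.H4.BRgeo Cfsg.Agent.H4.BRavg
open Cfsg.Agent.H10.BlockKer (triv triv_coe ker_mul)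
open scoped ComplexConjugate

universe u

variable {G : Type u} [Group G] [Fintype G] {p : ℕ} [hp : Fact p.Prime] {P : Sylow p G} {t : ℕ}
  {X Y : Finset (IrrCharacter G)} {δ : IrrCharacter G → ℤ} {χ : IrrCharacter G}

theorem sum_sing (hP : Nat.card P = p)
    (hC : Subgroup.centralizer ((P : Subgroup G) : Set G) = (P : Subgroup G))
    (he : (Subgroup.centralizer ((P : Subgroup G) : Set G)).relIndex
      (Subgroup.normalizer ((P : Subgroup G) : Set G)) = 2) [Fintype (P : Subgroup G)]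
    {f : G → ℂ} (hf : IsClassFunction G f) (h0 : ∀ g, ¬ p ∣ orderOf g → f g = 0) :
    (2 * p : ℂ) * ∑ g : G, f g = (Nat.card G : ℂ) * ∑ x : (P : Subgroup G), f x := by
  classical
  haveI : Fintype (NN P) := Fintype.ofFinite _
  have hind := ind_res hP hC hf h0
  have h1 := frobenius (NN P) (fun y : NN P => f y) (fun _ => (1 : ℂ)) (fun _ _ => rfl)
  rw [hind, classInner, classInner] at h1
  simp only [map_one, mul_one] at h1
  rw [sum_NN hP hC h0, card_NN hP hC he] at h1
  have hG : (Nat.card G : ℂ) ≠ 0 := card_cast_ne_zero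
  have hpc : (p : ℂ) ≠ 0 := by exact_mod_cast hp.out.pos.ne'
  push_cast at h1
  field_simp at h1
  linear_combination h1

theorem Pd.card (C : Pd P t X Y δ χ)
    (h : ∀ g, ¬ p ∣ orderOf g → g ≠ 1 → (χ : G → ℂ) g = 1 ∨ (χ : G → ℂ) g = 0) :
    Nat.card G = p * (p - 1) * (p - 2) := by
  classical
  haveI : Fintype (P : Subgroup G) := Fintype.ofFinite _
  have ht := C.ht
  have hpt : (p : ℂ) = 2 * t + 1 := by exact_mod_cast C.hpt
  have hpc : (p : ℂ) ≠ 0 := by exact_mod_cast hp.out.pos.ne'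
  have hG : (Nat.card G : ℂ) ≠ 0 := card_cast_ne_zero
  have hcl := IsIrr.isClass χ.2
  let F : G → ℂ := fun g => (χ : G → ℂ) g * conj ((χ : G → ℂ) g) - (χ : G → ℂ) g
  have hFs : ∑ g : G, F g = Nat.card G := by
    have h1 := ci_irr_self χ.2
    have h2 := ci_irr_ne χ.2 (isIrr_one (G := G)) (fun hh => C.χne (Subtype.ext (by
      rw [hh]; funext g; rw [triv_coe])))
    rw [classInner] at h1 h2
    simp only [map_one, mul_one] at h2
    have h3 := (mul_eq_zero.mp h2).resolve_left (inv_ne_zero hG)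
    show ∑ g : G, ((χ : G → ℂ) g * conj ((χ : G → ℂ) g) - (χ : G → ℂ) g) = _
    rw [Finset.sum_sub_distrib, h3, sub_zero]
    field_simp at h1
    exact h1
  let f : G → ℂ := fun g => if p ∣ orderOf g then F g else 0
  have hord : ∀ g h : G, orderOf (h * g * h⁻¹) = orderOf g := by
    intro g h
    have := orderOf_injective (MulAut.conj h).toMonoidHom (MulAut.conj h).injective g
    simpa using this
  have hf : IsClassFunction G f := by
    intro g k
    show (if p ∣ orderOf (k * g * k⁻¹) then F (k * g * k⁻¹) else 0) = if p ∣ orderOf g then F g else 0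
    rw [hord]
    show (if p ∣ orderOf g then ((χ : G → ℂ) (k * g * k⁻¹) * conj ((χ : G → ℂ) (k * g * k⁻¹)) -
      (χ : G → ℂ) (k * g * k⁻¹)) else 0) = _
    rw [hcl g k]
  have h1 := sum_sing C.hP C.hC C.he hf (fun g hg => by
    show (if p ∣ orderOf g then F g else 0) = 0
    rw [if_neg hg])
  have hχ1 : (χ : G → ℂ) 1 = 2 * t := by rw [deg_eq, C.χd]; push_cast; ring
  have h2 : ∑ x : (P : Subgroup G), f x = (2 * t) * 2 := by
    rw [sum_P C.hP (f := f) (c := 2) (fun x hx hx1 => by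
      show (if p ∣ orderOf x then F x else 0) = 2
      rw [if_pos (dvd_of_mem C.hP hx hx1)]
      show (χ : G → ℂ) x * conj ((χ : G → ℂ) x) - (χ : G → ℂ) x = 2
      rw [C.D.val C.χX hx hx1, C.δχ]
      norm_num)]
    have h3 : f 1 = 0 := by
      show (if p ∣ orderOf (1 : G) then F 1 else 0) = 0
      rw [if_neg not_dvd_one]
    rw [h3, hpt]
    ring
  have h3 : ∑ g : G, f g = Nat.card G - (2 * t) * (2 * t - 1) := by
    have h4 : ∑ g : G, (F g - f g) = (2 * t) * (2 * t - 1) := by
      rw [Finset.sum_eq_single (1 : G)]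
      · show F 1 - (if p ∣ orderOf (1 : G) then F 1 else 0) = _
        rw [if_neg not_dvd_one]
        show (χ : G → ℂ) 1 * conj ((χ : G → ℂ) 1) - (χ : G → ℂ) 1 - 0 = _
        have hcc : conj ((2 : ℂ) * t) = 2 * t := by
          have : ((2 : ℂ) * t) = ((2 * t : ℕ) : ℂ) := by push_cast; ring
          rw [this, Complex.conj_natCast]
        rw [hχ1, hcc]
        ring
      · intro g _ hg1
        show F g - (if p ∣ orderOf g then F g else 0) = 0
        by_cases hg : p ∣ orderOf g
        · rw [if_pos hg, sub_self]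
        · rw [if_neg hg, sub_zero]
          show (χ : G → ℂ) g * conj ((χ : G → ℂ) g) - (χ : G → ℂ) g = 0
          rcases h g hg hg1 with h5 | h5
          · rw [h5]; simp
          · rw [h5]; simp
      · intro hh; exact absurd (Finset.mem_univ _) hh
    rw [Finset.sum_sub_distrib, hFs] at h4
    linear_combination -h4
  rw [h2, h3, hpt] at h1
  have h5 : (Nat.card G : ℂ) = (2 * t + 1) * (2 * t) * (2 * t - 1) := by
    linear_combination (1 / 2) * h1
  have h6 : (Nat.card G : ℤ) = (2 * t + 1) * (2 * t) * (2 * t - 1) := by exact_mod_cast h5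
  have hp2 := C.hpt
  have h7 : p - 1 = 2 * t := by omega
  have h8 : p - 2 = 2 * t - 1 := by omega
  rw [h7, h8, hp2]
  zify [show 1 ≤ 2 * t by omega]
  rw [h6]

end Cfsg.Agent.H4.Pd1
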