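import Mathlib

/-!
The principal ideal theorem: the relation matrix.
-/

set_option autoImplicit false

namespace Cfsg.Agent.H4.Pit

open Matrix
open scoped commutatorElement

theorem det_kill {R W ι : Type*} [CommRing R] [AddCommGroup W] [Module R W] [Fintype ι] [DecidableEq ι]
    (Θ : Matrix ι ι R) (v : ι → W) (h : ∀ i, ∑ j, Θ i j • v j = 0) (k : ι) : Θ.det • v k = 0 := by
  have h1 : ∑ i, Θ.adjugate k i • ∑ j, Θ i j • v j = 0 := by simp [h]
  have h2 : ∑ i, Θ.adjugate k i • ∑ j, Θ i j • v j = ∑ j, (Θ.adjugate * Θ) k j • v j := by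
    simp only [Finset.smul_sum, smul_smul, Matrix.mul_apply, Finset.sum_smul]
    rw [Finset.sum_comm]
  rw [h2, Matrix.adjugate_mul, Finset.sum_eq_single k] at h1
  · simpa [Matrix.smul_apply] using h1
  · intro j _ hj
    rw [Matrix.smul_apply, Matrix.one_apply_ne (Ne.symm hj), smul_zero, zero_smul]
  · intro hk; exact absurd (Finset.mem_univ k) hk

section
variable {G Q R W : Type*} [Group G] [CommGroup Q] [CommRing R] [AddCommGroup W] [Module R W]
  (π : G →* Q) (χ : Q →* R) (D : G → W) (hD : ∀ x y, D (x * y) = D y + χ (π y) • D x)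

include hD

theorem D_one : D 1 = 0 := by
  have h := hD 1 1
  rw [mul_one, map_one, map_one, one_smul] at h
  exact left_eq_add.1 h

theorem D_inv (x : G) : D x⁻¹ = -(χ (π x⁻¹) • D x) := by
  have h := hD x x⁻¹
  rw [mul_inv_cancel, D_one π χ D hD] at h
  exact eq_neg_of_add_eq_zero_left h.symm

theorem D_pow (x : G) (k : ℕ) : D (x ^ k) = (∑ j ∈ Finset.range k, χ (π x) ^ j) • D x := by
  induction k with
  | zero => rw [pow_zero, D_one π χ D hD, Finset.sum_range_zero, zero_smul]
  | succ k ih =>
    rw [pow_succ, hD, ih, smul_smul, Finset.sum_range_succ', pow_zero, add_smul, one_smul, add_comm, Finset.mul_sum]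
    congr 2
    refine Finset.sum_congr rfl fun j _ => ?_
    rw [pow_succ']

theorem key [Finite G] (ε : R →+* ℤ) (hε : ∀ q, ε (χ q) = 1) (hker : π.ker = commutator G)
    (hsurj : Function.Surjective π) {n : ℕ} (x : Fin n → Q) (e : Fin n → ℕ) (hx : ∀ i, x i ^ e i = 1)
    (hcl : Subgroup.closure (Set.range x) = ⊤) :
    ∃ θ : R, ε θ = ∏ i, (e i : ℤ) ∧ ∀ g, θ • D g = 0 := by
  classical
  haveI : Fintype (commutator G) := Fintype.ofFinite _
  choose g hg using fun i => hsurj (x i)
  let v : Fin n ⊕ commutator G → W := Sum.elim (fun i => D (g i)) (fun a => D a)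
  let S := Submodule.span R (Set.range v)
  have hSv : ∀ j, v j ∈ S := fun j => Submodule.subset_span ⟨j, rfl⟩
  let H : Subgroup G :=
  { carrier := {y | D y ∈ S}
    one_mem' := by
      show D 1 ∈ S
      rw [D_one π χ D hD]; exact S.zero_mem
    mul_mem' := by
      intro a b ha hb
      show D (a * b) ∈ S
      rw [hD]
      exact S.add_mem hb (S.smul_mem _ ha)
    inv_mem' := by
      intro a ha
      show D a⁻¹ ∈ S
      rw [D_inv π χ D hD]
      exact S.neg_mem (S.smul_mem _ ha) }
  have hHc : commutator G ≤ H := fun a ha => hSv (Sum.inr ⟨a, ha⟩)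
  have hHg : ∀ i, g i ∈ H := fun i => hSv (Sum.inl i)
  have hHt : ∀ y, D y ∈ S := by
    intro y
    have h1 : π y ∈ H.map π := by
      have h2 : Subgroup.closure (Set.range x) ≤ H.map π := by
        rw [Subgroup.closure_le]
        rintro _ ⟨i, rfl⟩
        exact ⟨g i, hHg i, hg i⟩
      rw [hcl] at h2
      exact h2 trivial
    obtain ⟨h, hh, e1⟩ := h1
    have h3 : h⁻¹ * y ∈ commutator G := by
      rw [← hker, MonoidHom.mem_ker, map_mul, map_inv, e1, inv_mul_cancel]
    have h4 := H.mul_mem hh (hHc h3)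
    rw [mul_inv_cancel_left] at h4
    exact h4
  let I := RingHom.ker ε
  have hI1 : ∀ q, 1 - χ q ∈ I := fun q => by
    rw [RingHom.mem_ker, map_sub, map_one, hε, sub_self]
  have hA : ∀ a ∈ commutator G, D a ∈ I • S := by
    intro a ha
    rw [commutator_eq_closure] at ha
    induction ha using Subgroup.closure_induction with
    | mem c hc =>
      obtain ⟨a, b, rfl⟩ := hc
      have e1 : ⁅a, b⁆ * (b * a) = a * b := by rw [commutatorElement_def]; group
      have h1 := hD ⁅a, b⁆ (b * a)
      rw [e1, hD a b, hD b a] at h1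
      have h2 : χ (π (b * a)) • D ⁅a, b⁆ = (1 - χ (π a)) • D b - (1 - χ (π b)) • D a := by
        rw [sub_smul, sub_smul, one_smul, one_smul]
        have h3 : χ (π (b * a)) • D ⁅a, b⁆ = (D b + χ (π b) • D a) - (D a + χ (π a) • D b) := by
          rw [h1]; abel
        rw [h3]; abel
      have h3 : D ⁅a, b⁆ = χ (π (b * a))⁻¹ • (χ (π (b * a)) • D ⁅a, b⁆) := by
        rw [smul_smul, ← map_mul, inv_mul_cancel, map_one, one_smul]
      rw [h3, h2]
      exact Submodule.smul_mem _ _ (Submodule.sub_mem _ (Submodule.smul_mem_smul (hI1 _) (hHt b))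
        (Submodule.smul_mem_smul (hI1 _) (hHt a)))
    | one => rw [D_one π χ D hD]; exact Submodule.zero_mem _
    | mul a b _ _ ha hb =>
      rw [hD]
      exact Submodule.add_mem _ hb (Submodule.smul_mem _ _ ha)
    | inv a _ ha =>
      rw [D_inv π χ D hD]
      exact Submodule.neg_mem _ (Submodule.smul_mem _ _ ha)
  have hδ : ∀ a : commutator G, ∃ δ : Fin n ⊕ commutator G → R, (∀ j, δ j ∈ I) ∧ ∑ j, δ j • v j = D a := by
    intro a
    obtain ⟨δ, h1, h2⟩ := (Submodule.mem_ideal_smul_span_iff_exists_sum I v (D a)).1 (hA a a.2)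
    refine ⟨δ, h1, ?_⟩
    rw [← h2, Finsupp.sum_fintype]
    intro i; exact zero_smul _ _
  choose δ hδI hδs using hδ
  have hai : ∀ i, g i ^ e i ∈ commutator G := fun i => by
    rw [← hker, MonoidHom.mem_ker, map_pow, hg, hx]
  let N : Fin n → R := fun i => ∑ j ∈ Finset.range (e i), χ (π (g i)) ^ j
  let M12 : Matrix (Fin n) (commutator G) R := of fun i a => if a = ⟨g i ^ e i, hai i⟩ then -1 else 0
  let M21 : Matrix (commutator G) (Fin n) R := of fun a i => - δ a (Sum.inl i)
  let M22 : Matrix (commutator G) (commutator G) R := of fun a a' => (if a' = a then 1 else 0) - δ a (Sum.inr a')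
  have e12 : ∀ i a, M12 i a = if a = ⟨g i ^ e i, hai i⟩ then -1 else 0 := fun _ _ => rfl
  have e21 : ∀ a i, M21 a i = - δ a (Sum.inl i) := fun _ _ => rfl
  have e22 : ∀ a a', M22 a a' = (if a' = a then 1 else 0) - δ a (Sum.inr a') := fun _ _ => rfl
  let Θ : Matrix (Fin n ⊕ commutator G) (Fin n ⊕ commutator G) R := fromBlocks (diagonal N) M12 M21 M22
  have hrow : ∀ i, ∑ j, Θ i j • v j = 0 := by
    rintro (i | a)
    · rw [Fintype.sum_sum_type]
      simp only [Θ, v, fromBlocks_apply₁₁, fromBlocks_apply₁₂, Sum.elim_inl, Sum.elim_inr, e12]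
      rw [Finset.sum_eq_single i, Finset.sum_eq_single ⟨g i ^ e i, hai i⟩]
      · rw [diagonal_apply_eq, if_pos rfl, D_pow π χ D hD, neg_smul, one_smul, add_neg_cancel]
      · intro b _ hb; rw [if_neg hb, zero_smul]
      · intro h; exact absurd (Finset.mem_univ _) h
      · intro b _ hb; rw [diagonal_apply_ne _ (Ne.symm hb), zero_smul]
      · intro h; exact absurd (Finset.mem_univ _) h
    · have h1 := hδs a
      rw [Fintype.sum_sum_type] at h1 ⊢
      simp only [Θ, v, fromBlocks_apply₂₁, fromBlocks_apply₂₂, Sum.elim_inl, Sum.elim_inr, e21, e22, neg_smul, sub_smul,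
        Finset.sum_neg_distrib, Finset.sum_sub_distrib] at h1 ⊢
      have h2 : ∑ a' : commutator G, (if a' = a then (1 : R) else 0) • D a' = D a := by
        rw [Finset.sum_eq_single a]
        · rw [if_pos rfl, one_smul]
        · intro b _ hb; rw [if_neg hb, zero_smul]
        · intro h; exact absurd (Finset.mem_univ _) h
      rw [h2, ← h1]
      abel
  refine ⟨Θ.det, ?_, ?_⟩
  · rw [RingHom.map_det]
    have h1 : ε.mapMatrix Θ = fromBlocks (diagonal fun i => (e i : ℤ))
        (of fun i a => if a = ⟨g i ^ e i, hai i⟩ then -1 else 0) 0 1 := by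
      ext i j
      rcases i with i | a <;> rcases j with j | b
      · simp only [RingHom.mapMatrix_apply, map_apply, Θ, fromBlocks_apply₁₁]
        by_cases h : i = j
        · subst h
          simp [N, hε]
        · rw [diagonal_apply_ne _ h, diagonal_apply_ne _ h, map_zero]
      · simp only [RingHom.mapMatrix_apply, map_apply, Θ, fromBlocks_apply₁₂, e12, of_apply]
        split_ifs <;> simp
      · simp only [RingHom.mapMatrix_apply, map_apply, Θ, fromBlocks_apply₂₁, e21]
        rw [map_neg, (RingHom.mem_ker).1 (hδI a (Sum.inl j))]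
        simp
      · simp only [RingHom.mapMatrix_apply, map_apply, Θ, fromBlocks_apply₂₂, e22]
        rw [map_sub, (RingHom.mem_ker).1 (hδI a (Sum.inr b)), sub_zero, one_apply]
        by_cases h : b = a
        · subst h; simp
        · rw [if_neg h, if_neg (Ne.symm h), map_zero]
    rw [h1, det_fromBlocks_zero₂₁, det_one, mul_one, det_diagonal]
  · intro y
    have hk := det_kill Θ v hrow
    have h1 : S ≤ LinearMap.ker (LinearMap.lsmul R W Θ.det) := by
      rw [Submodule.span_le]
      rintro _ ⟨j, rfl⟩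
      exact hk j
    exact h1 (hHt y)

end

end Cfsg.Agent.H4.Pit
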