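import Cfsg.Agent.H4_PitA
import Cfsg.Agent.H10_CY
import Cfsg.Agent.H14_TR

/-!
The principal ideal theorem of group theory.
-/

set_option autoImplicit false

namespace Cfsg.Agent.H4.Pit

open MonoidAlgebra

section
variable {Q C : Type*} [CommGroup Q] [AddCommGroup C]

/-- translations -/
def rho : Q →* Module.End ℤ (Q → C) where
  toFun q :=
    { toFun := fun F h => F (q * h)
      map_add' := fun _ _ => rfl
      map_smul' := fun _ _ => rfl }
  map_one' := by
    ext F h
    show F (1 * h) = F h
    rw [one_mul]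
  map_mul' a b := by
    ext F h
    show F (a * b * h) = F (b * (a * h))
    congr 1
    rw [mul_comm a b, mul_assoc]

theorem rho_apply (q : Q) (F : Q → C) (h : Q) : (rho (C := C) q) F h = F (q * h) := rfl

/-- the constant element -/
theorem const_of [Fintype Q] (θ : MonoidAlgebra ℤ Q) (h : ∀ q : Q, θ * (of ℤ Q q - 1) = 0)
    (hε : MonoidAlgebra.lift ℤ ℤ Q 1 θ = (Nat.card Q : ℤ)) : ∀ q, θ.coeff q = 1 := by
  have h1 : ∀ q, θ.coeff q = θ.coeff 1 := by
    intro q
    have h2 : θ * of ℤ Q q = θ := by
      have := h q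
      rw [mul_sub, mul_one, sub_eq_zero] at this
      exact this
    have h3 := congrArg (fun t : MonoidAlgebra ℤ Q => t.coeff q) h2
    simp only [of_apply] at h3
    rw [coeff_mul_single_apply, mul_one, mul_inv_cancel] at h3
    exact h3.symm
  rw [lift_apply, Finsupp.sum_fintype _ _ (fun i => by simp)] at hε
  simp only [MonoidHom.one_apply, smul_eq_mul, mul_one] at hε
  rw [Finset.sum_congr rfl (fun q _ => h1 q), Finset.sum_const, Finset.card_univ, nsmul_eq_mul,
    ← Nat.card_eq_fintype_card] at hε
  have h4 : (Nat.card Q : ℤ) ≠ 0 := by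
    rw [Nat.card_eq_fintype_card]
    exact_mod_cast Fintype.card_ne_zero
  have h5 : θ.coeff 1 = 1 := by
    have : (Nat.card Q : ℤ) * θ.coeff 1 = (Nat.card Q : ℤ) * 1 := by rw [hε, mul_one]
    exact mul_left_cancel₀ h4 this
  intro q
  rw [h1, h5]

/-- a crossed homomorphism into the functions has trivial trace -/
theorem trace_zero {G : Type*} [Group G] [Finite G] [Fintype Q] (π : G →* Q) (hker : π.ker = commutator G)
    (hsurj : Function.Surjective π) (F : G → Q → C) (hF : ∀ x y h, F (x * y) h = F y h + F x (π y * h)) (g : G) :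
    ∑ q, F g q = 0 := by
  let L := MonoidAlgebra.lift ℤ (Module.End ℤ (Q → C)) Q (rho (Q := Q) (C := C))
  letI inst : Module (MonoidAlgebra ℤ Q) (Q → C) :=
  { smul := fun r f => L r f
    one_smul := fun f => by show L 1 f = f; rw [map_one]; rfl
    mul_smul := fun r t f => by show L (r * t) f = L r (L t f); rw [map_mul]; rfl
    smul_zero := fun r => by show L r 0 = 0; rw [map_zero]
    smul_add := fun r f g => by show L r (f + g) = L r f + L r g; rw [map_add]
    add_smul := fun r t f => by show L (r + t) f = L r f + L t f; rw [map_add]; rfl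
    zero_smul := fun f => by show L 0 f = 0; rw [map_zero]; rfl }
  have hsm : ∀ (r : MonoidAlgebra ℤ Q) (f : Q → C), inst.toDistribMulAction.toMulAction.toSMul.smul r f = L r f := fun _ _ => rfl
  obtain ⟨n, x, e, hx, hcl, hcard⟩ := Cfsg.Agent.H10.CY.CY Q
  have hof : ∀ q, L (of ℤ Q q) = rho q := fun q => by
    exact MonoidAlgebra.lift_of _ q
  obtain ⟨θ, h1, h2⟩ := key (W := (Q → C) × MonoidAlgebra ℤ Q) π (of ℤ Q)
    (fun y => (F y, of ℤ Q (π y) - 1)) (by
      intro a b
      refine Prod.ext ?_ ?_
      · show F (a * b) = F b + L (of ℤ Q (π b)) (F a)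
        rw [hof]
        funext h
        exact hF a b h
      · show of ℤ Q (π (a * b)) - 1 = (of ℤ Q (π b) - 1) + of ℤ Q (π b) * (of ℤ Q (π a) - 1)
        rw [map_mul, map_mul, mul_sub, mul_one, mul_comm (of ℤ Q (π b))]
        abel)
    (MonoidAlgebra.lift ℤ ℤ Q 1).toRingHom (fun q => by
      show MonoidAlgebra.lift ℤ ℤ Q 1 (of ℤ Q q) = 1
      rw [MonoidAlgebra.lift_of]; rfl) hker hsurj x e hx hcl
  have h3 : ∀ q, θ.coeff q = 1 := by
    refine const_of θ ?_ ?_
    · intro q
      obtain ⟨y, rfl⟩ := hsurj q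
      exact congrArg Prod.snd (h2 y)
    · have h4 : MonoidAlgebra.lift ℤ ℤ Q 1 θ = ∏ i, (e i : ℤ) := h1
      rw [h4, ← hcard]
      push_cast
      rfl
  have h4 : L θ (F g) = 0 := congrArg Prod.fst (h2 g)
  have hL : L θ = θ.coeff.sum fun a b => b • rho (Q := Q) (C := C) a := lift_apply _ _
  rw [hL, Finsupp.sum_fintype _ _ (fun i => by simp)] at h4
  have h5 := congrFun h4 1
  simp only [h3, one_smul, LinearMap.sum_apply, Finset.sum_apply, rho_apply, mul_one] at h5
  exact h5

end

theorem pit {G : Type*} [Group G] [Finite G] : MonoidHom.transfer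
    (Abelianization.of : ↥(commutator G) →* Abelianization ↥(commutator G)) =
      (1 : G →* Abelianization ↥(commutator G)) := by
  classical
  letI : Fintype (G ⧸ commutator G) := Fintype.ofFinite _
  letI : Fintype (Abelianization G) := (inferInstance : Fintype (G ⧸ commutator G))
  let s : G ⧸ commutator G → G := Quotient.out
  have hs : ∀ q, (QuotientGroup.mk (s q) : G ⧸ commutator G) = q := fun q => Quotient.out_eq _
  have h : ∀ (g : G) (q : G ⧸ commutator G), (s (g • q))⁻¹ * (g * s q) ∈ commutator G := by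
    intro g q
    rw [← QuotientGroup.eq, hs]
    have h1 : (QuotientGroup.mk (g * s q) : G ⧸ commutator G) = g • (QuotientGroup.mk (s q) : G ⧸ commutator G) := rfl
    rw [h1, hs]
  ext g
  rw [Cfsg.Agent.H14.TR.TR (commutator G) _ s hs h g, MonoidHom.one_apply]
  let F : G → (G ⧸ commutator G) → Additive (Abelianization ↥(commutator G)) := fun g q =>
    Additive.ofMul (Abelianization.of ⟨(s (g • q))⁻¹ * (g * s q), h g q⟩)
  have hact : ∀ (y : G) (q : G ⧸ commutator G), y • q =
      (@HMul.hMul (Abelianization G) (Abelianization G) (Abelianization G) _ (Abelianization.of y) q) := by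
    intro y q
    obtain ⟨q, rfl⟩ := QuotientGroup.mk_surjective q
    rfl
  have hF : ∀ x y q, F (x * y) q = F y q + F x (y • q) := by
    intro x y q
    have e : (⟨(s ((x * y) • q))⁻¹ * (x * y * s q), h (x * y) q⟩ : commutator G) =
        ⟨(s (x • (y • q)))⁻¹ * (x * s (y • q)), h x (y • q)⟩ * ⟨(s (y • q))⁻¹ * (y * s q), h y q⟩ := by
      apply Subtype.ext
      show (s ((x * y) • q))⁻¹ * (x * y * s q) = (s (x • (y • q)))⁻¹ * (x * s (y • q)) * ((s (y • q))⁻¹ * (y * s q))
      rw [mul_smul]; group
    show Additive.ofMul (Abelianization.of _) = Additive.ofMul (Abelianization.of _) + Additive.ofMul (Abelianization.of _)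
    rw [e, map_mul, ofMul_mul, add_comm]
  have h2 := trace_zero (Abelianization.of : G →* Abelianization G) (by
    ext z
    rw [MonoidHom.mem_ker]
    exact QuotientGroup.eq_one_iff z) (QuotientGroup.mk_surjective) F
    (fun x y q => (hF x y q).trans (congrArg (fun t => F y q + F x t) (hact y q))) g
  have h3 := congrArg Additive.toMul h2
  rw [toMul_sum, toMul_zero] at h3
  exact h3

end Cfsg.Agent.H4.Pit
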