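import Cfsg.Agent.H4_PlA1
import Cfsg.Agent.H4_PlA2
import Cfsg.Agent.H4_PlA3
import Cfsg.Agent.H4_PlP
import Cfsg.Agent.H4_PlSb
import Cfsg.Agent.H4_Stem
import Cfsg.Prelude.Def_KGroupFacts

/-!
PSL₃(4) and its Schur cover, presented.
-/

set_option autoImplicit false
set_option maxRecDepth 100000

namespace Cfsg.Agent.H4.PlB

open Cfsg.Agent.H8 Cfsg.Agent.H8.CE Cfsg.Agent.H8.CS Cfsg.Agent.H8.Net Cfsg.Agent.H8.Act Cfsg.Agent.H8.Cox
open Cfsg.Agent.H8.Act2 Cfsg.Agent.H4.Ltr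

universe u v w

/-- letters of the cover -/
def lT {Γ : Type u} [Group Γ] (x y c d : Γ) : ℕ → Γ
  | 1 => x
  | 2 => x⁻¹
  | 3 => y
  | 4 => y⁻¹
  | 5 => c
  | 6 => c⁻¹
  | 7 => d
  | 8 => d⁻¹
  | _ => 1

/-- the relations of the cover -/
structure CR {Γ : Type u} [Group Γ] (x y c d : Γ) : Prop where
  x7 : x ^ 7 = 1
  y5 : y ^ 5 = 1
  r1 : (x * y⁻¹) ^ 2 = 1
  r2 : (x * (x * (y⁻¹ * y⁻¹))) ^ 3 * c⁻¹ ^ 6 = 1
  r3 : (x * (x * y)) ^ 5 * c⁻¹ = 1
  r4 : (x * (x * (x * (y * (x * (y * y)))))) ^ 3 * d⁻¹ = 1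
  c12 : c ^ 12 = 1
  d4 : d ^ 4 = 1
  cx : c * x = x * c
  cy : c * y = y * c
  dx : d * x = x * d
  dy : d * y = y * d
  cd : c * d = d * c

/-- the relations of the quotient -/
structure SR {Γ : Type u} [Group Γ] (x y : Γ) : Prop where
  x7 : x ^ 7 = 1
  y5 : y ^ 5 = 1
  r1 : (x * y⁻¹) ^ 2 = 1
  r2 : (x * (x * (y⁻¹ * y⁻¹))) ^ 3 = 1
  r3 : (x * (x * y)) ^ 5 = 1
  r4 : (x * (x * (x * (y * (x * (y * y)))))) ^ 3 = 1

theorem com_rel {Γ : Type u} [Group Γ] {a t : Γ} (h : a * t = t * a) : a * (t * (a⁻¹ * t⁻¹)) = 1 := by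
  calc a * (t * (a⁻¹ * t⁻¹)) = a * t * a⁻¹ * t⁻¹ := by group
    _ = t * a * a⁻¹ * t⁻¹ := by rw [h]
    _ = 1 := by group

theorem rel_com {Γ : Type u} [Group Γ] {a t : Γ} (h : a * (t * (a⁻¹ * t⁻¹)) = 1) : a * t = t * a := by
  calc a * t = a * (t * (a⁻¹ * t⁻¹)) * (t * a) := by group
    _ = t * a := by rw [h, one_mul]

theorem lT_hic {Γ : Type u} [Group Γ] {x y c d : Γ} : ∀ i, i < 16 → lT x y c d (il PlT.ic i) = (lT x y c d i)⁻¹ := by
  intro i hi
  interval_cases i
  · show (1 : Γ) = 1⁻¹; simp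
  · rfl
  · show x = x⁻¹⁻¹; simp
  · rfl
  · show y = y⁻¹⁻¹; simp
  · rfl
  · show c = c⁻¹⁻¹; simp
  · rfl
  · show d = d⁻¹⁻¹; simp
  all_goals (show (1 : Γ) = 1⁻¹; simp)

theorem lT_hk {Γ : Type u} [Group Γ] {x y c d : Γ} : ∀ i, (i = 0 ∨ 8 < i) → lT x y c d i = 1 := by
  intro i hi
  rcases hi with rfl | hi
  · rfl
  · match i, hi with
    | (n + 9), _ => rfl

theorem lT_rels {Γ : Type u} [Group Γ] {x y c d : Γ} (h : CR x y c d) : ∀ w ∈ PlT.rels, ev (lT x y c d) w = 1 := by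
  intro r hr
  simp only [PlT.rels, List.mem_cons, List.not_mem_nil, or_false] at hr
  rcases hr with rfl | rfl | rfl | rfl | rfl | rfl | rfl | rfl | rfl | rfl | rfl | rfl | rfl
  · rw [ev_powW]; simpa [lT] using h.x7
  · rw [ev_powW]; simpa [lT] using h.y5
  · rw [ev_powW]; simpa [lT] using h.r1
  · rw [ev_append, ev_powW, ev_powW]; simpa [lT] using h.r2
  · rw [ev_append, ev_powW]; simpa [lT] using h.r3
  · rw [ev_append, ev_powW]; simpa [lT] using h.r4
  · show c * (x * (c⁻¹ * (x⁻¹ * 1))) = 1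
    rw [mul_one]; exact com_rel h.cx
  · show c * (y * (c⁻¹ * (y⁻¹ * 1))) = 1
    rw [mul_one]; exact com_rel h.cy
  · show d * (x * (d⁻¹ * (x⁻¹ * 1))) = 1
    rw [mul_one]; exact com_rel h.dx
  · show d * (y * (d⁻¹ * (y⁻¹ * 1))) = 1
    rw [mul_one]; exact com_rel h.dy
  · show c * (d * (c⁻¹ * (d⁻¹ * 1))) = 1
    rw [mul_one]; exact com_rel h.cd
  · rw [ev_powW]; simpa [lT] using h.c12
  · rw [ev_powW]; simpa [lT] using h.d4

theorem lT_ok {Γ : Type u} [Group Γ] {x y c d : Γ} (h : CR x y c d) : Ok PlT.ic 8 PlT.rels (lT x y c d) where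
  hic := lT_hic
  hk := lT_hk
  hrels := lT_rels h

/-- letters of the quotient -/
def lS {Γ : Type u} [Group Γ] (x y : Γ) : ℕ → Γ
  | 1 => x
  | 2 => x⁻¹
  | 3 => y
  | 4 => y⁻¹
  | _ => 1

theorem lS_ok {Γ : Type u} [Group Γ] {x y : Γ} (h : SR x y) : Ok PlS.ic 4 PlS.rels (lS x y) where
  hic := by
    intro i hi
    interval_cases i
    · show (1 : Γ) = 1⁻¹; simp
    · rfl
    · show x = x⁻¹⁻¹; simp
    · rfl
    · show y = y⁻¹⁻¹; simp
    all_goals (show (1 : Γ) = 1⁻¹; simp)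
  hk := by
    intro i hi
    rcases hi with rfl | hi
    · rfl
    · match i, hi with
      | (n + 5), _ => rfl
  hrels := by
    intro r hr
    simp only [PlS.rels, List.mem_cons, List.not_mem_nil, or_false] at hr
    rcases hr with rfl | rfl | rfl | rfl | rfl | rfl
    · rw [ev_powW]; simpa [lS] using h.x7
    · rw [ev_powW]; simpa [lS] using h.y5
    · rw [ev_powW]; simpa [lS] using h.r1
    · rw [ev_powW]; simpa [lS] using h.r2
    · rw [ev_powW]; simpa [lS] using h.r3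
    · rw [ev_powW]; simpa [lS] using h.r4

/-! ### The quotient -/

abbrev S : Type := P PlS.ic 4 PlS.rels
noncomputable abbrev xs : ℕ → S := xg PlS.ic 4 PlS.rels

theorem xs_ok : Ok PlS.ic 4 PlS.rels xs := xg_ok

noncomputable abbrev xS : S := xs 1
noncomputable abbrev yS : S := xs 3

theorem xs2 : xs 2 = xS⁻¹ := xs_ok.hic 1 (by decide)
theorem xs4 : xs 4 = yS⁻¹ := xs_ok.hic 3 (by decide)

theorem relS (w : List ℕ) (hw : (PlS.rels.contains w) = true) : ev xs w = 1 :=
  xs_ok.hrels w (by rwa [List.contains_iff_mem] at hw)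

theorem sr : SR xS yS where
  x7 := by have h := relS (powW [1] 7) (by decide); rw [ev_powW] at h; simpa using h
  y5 := by have h := relS (powW [3] 5) (by decide); rw [ev_powW] at h; simpa using h
  r1 := by
    have h := relS (powW [1, 4] 2) (by decide)
    rw [ev_powW] at h
    simp only [ev_cons, ev_nil, mul_one] at h
    rw [xs4] at h
    exact h
  r2 := by
    have h := relS (powW [1, 1, 4, 4] 3) (by decide)
    rw [ev_powW] at h
    simp only [ev_cons, ev_nil, mul_one] at h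
    rw [xs4] at h
    exact h
  r3 := by have h := relS (powW [1, 1, 3] 5) (by decide); rw [ev_powW] at h; simpa using h
  r4 := by have h := relS (powW [1, 1, 1, 3, 1, 3, 3] 3) (by decide); rw [ev_powW] at h; simpa using h

theorem xs_eq : ∀ i, xs i = lS xS yS i := by
  intro i
  match i with
  | 0 => exact xs_ok.h0
  | 1 => rfl
  | 2 => exact xs2
  | 3 => rfl
  | 4 => exact xs4
  | (n + 5) => exact xs_ok.hk _ (Or.inr (by omega))

theorem clS : Subgroup.closure {xS, yS} = ⊤ := by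
  rw [← top_le_iff, ← PresentedGroup.closure_range_of (RR PlS.ic 4 PlS.rels), Subgroup.closure_le]
  have h1 : xS ∈ Subgroup.closure {xS, yS} := Subgroup.subset_closure (by simp)
  have h2 : yS ∈ Subgroup.closure {xS, yS} := Subgroup.subset_closure (by simp)
  rintro _ ⟨i, rfl⟩
  show xs i ∈ Subgroup.closure {xS, yS}
  rw [xs_eq]
  match i with
  | 0 => exact one_mem _
  | 1 => exact h1
  | 2 => exact inv_mem h1
  | 3 => exact h2
  | 4 => exact inv_mem h2
  | (n + 5) => exact one_mem _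

theorem relB {Γ : Type u} [Group Γ] {x y : Γ} (h : SR x y) : ∀ w ∈ PlSb.rels, ev (lS x y) w = 1 := by
  have h0 : (PlSb.rels.all fun w => (PlS.rels : List (List ℕ)).contains w) = true := by decide +kernel
  exact sub_rels (lS_ok h).hrels h0

theorem cardS : Nat.card S ≤ 20160 ∧ Nat.card S ≠ 0 := by
  have h := PlSb.bound (x := lS xS yS) (H := Subgroup.zpowers xS) (by
    intro i hi
    interval_cases i
    · show (1 : S) = 1⁻¹; simp
    · rfl
    · show xS = xS⁻¹⁻¹; simp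
    · rfl
    · show yS = yS⁻¹⁻¹; simp
    all_goals (show (1 : S) = 1⁻¹; simp)) rfl (relB sr) (by
      intro s hs
      simp only [PlSb.L, List.mem_cons, List.not_mem_nil, or_false] at hs
      subst hs
      exact Subgroup.mem_zpowers _)
  have e : Subgroup.closure (lS xS yS '' {y | 1 ≤ y ∧ y ≤ 4}) = ⊤ := by
    rw [← top_le_iff, ← clS, Subgroup.closure_le]
    intro g hg
    simp only [Set.mem_insert_iff, Set.mem_singleton_iff] at hg
    rcases hg with rfl | rfl
    · exact Subgroup.subset_closure ⟨1, by constructor <;> decide, rfl⟩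
    · exact Subgroup.subset_closure ⟨3, by constructor <;> decide, rfl⟩
  rw [e, Subgroup.relIndex_top_right] at h
  have hc : Nat.card (Subgroup.zpowers xS) ∣ 7 := by
    rw [Nat.card_zpowers]
    exact orderOf_dvd_of_pow_eq_one sr.x7
  have hc1 : Nat.card (Subgroup.zpowers xS) ≤ 7 := Nat.le_of_dvd (by norm_num) hc
  have hc0 : Nat.card (Subgroup.zpowers xS) ≠ 0 := by
    intro h0
    rw [h0] at hc
    exact absurd (Nat.eq_zero_of_zero_dvd hc) (by norm_num)
  have hm := (Subgroup.zpowers xS).card_mul_index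
  constructor
  · rw [← hm]
    calc _ ≤ 7 * 2880 := Nat.mul_le_mul hc1 h.1
      _ = 20160 := by norm_num
  · rw [← hm]
    exact Nat.mul_ne_zero hc0 h.2

instance : Finite S := Nat.finite_of_card_ne_zero cardS.2

theorem netP : ∀ y, y < 16 → (y = 0 ∨ 4 < y) → net PlP.L y = .nil := by
  intro y h16 hy
  interval_cases y <;> first | rfl | omega

theorem hnP : 21 ≤ 2 ^ 5 := by decide

theorem phiS : ∃ φ : S →* Equiv.Perm (Fin 21), Compat φ xs PlP.L :=
  compat_of PlP.sys hnP PlP.inv_ok (xP_ok PlP.sys hnP PlP.inv_ok netP PlP.rel_ok (by decide +kernel))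

theorem cardS_eq : Nat.card S = 20160 := by
  obtain ⟨φ, hc⟩ := phiS
  have h := order_eq (φ := φ) PlP.sys (exists_g PlP.sys hnP hc PlP.sg_ok (by decide)) PlP.levs PlP.chain
    (by rw [PlP.prodM_levs]; exact cardS.1)
  rw [PlP.prodM_levs] at h
  exact h.1

theorem simpleS : IsSimpleGroup S := by
  obtain ⟨φ, hc⟩ := phiS
  have h := order_eq (φ := φ) PlP.sys (exists_g PlP.sys hnP hc PlP.sg_ok (by decide)) PlP.levs PlP.chain
    (by rw [PlP.prodM_levs]; exact cardS.1)
  rw [PlP.prodM_levs] at h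
  refine simple_of_data (p := 7) (e := 1) PlP.sys hnP hc h.2 xs_ok.hic (by decide) (by decide) (by decide) PlP.trans
    PlP.hfix PlP.orbs (by decide) (by decide) (by decide) (by decide) ?_ PlP.pw_ok ?_
  · rw [h.1]; decide
  · rw [← top_le_iff, ← clS]
    rw [Subgroup.closure_le]
    intro g hg
    simp only [Set.mem_insert_iff, Set.mem_singleton_iff] at hg
    rcases hg with rfl | rfl
    · exact Subgroup.subset_closure ⟨1, by decide, rfl⟩
    · exact Subgroup.subset_closure ⟨3, by decide, rfl⟩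

end Cfsg.Agent.H4.PlB
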