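import Cfsg.Agent.H4_PlB

/-!
The Schur cover of PSL₃(4), presented.
-/

set_option autoImplicit false
set_option maxRecDepth 100000

namespace Cfsg.Agent.H4.PlB

open Cfsg.Agent.H8 Cfsg.Agent.H8.CE Cfsg.Agent.H8.CS Cfsg.Agent.H8.Net Cfsg.Agent.H8.Act Cfsg.Agent.H8.Cox
open Cfsg.Agent.H8.Act2 Cfsg.Agent.H4.Ltr

universe u v w

/-- the relations hold for any tuple of letters satisfying the relators -/
theorem cr_of {rels : List (List ℕ)} (hsub : (PlT.rels.all fun w => rels.contains w) = true) {Γ : Type u} [Group Γ] {x : ℕ → Γ}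
    (h : Ok PlT.ic 8 rels x) : CR (x 1) (x 3) (x 5) (x 7) := by
  have x2 : x 2 = (x 1)⁻¹ := h.hic 1 (by decide)
  have x4 : x 4 = (x 3)⁻¹ := h.hic 3 (by decide)
  have x6 : x 6 = (x 5)⁻¹ := h.hic 5 (by decide)
  have x8 : x 8 = (x 7)⁻¹ := h.hic 7 (by decide)
  have hr : ∀ w, (PlT.rels.contains w) = true → ev x w = 1 := by
    intro w hw
    exact sub_rels h.hrels hsub w (by rwa [List.contains_iff_mem] at hw)
  exact
  { x7 := by have h := hr (powW [1] 7) (by decide); rw [ev_powW] at h; simpa using h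
    y5 := by have h := hr (powW [3] 5) (by decide); rw [ev_powW] at h; simpa using h
    r1 := by
      have h := hr (powW [1, 4] 2) (by decide)
      rw [ev_powW] at h
      simp only [ev_cons, ev_nil, mul_one] at h
      rw [x4] at h
      exact h
    r2 := by
      have h := hr (powW [1, 1, 4, 4] 3 ++ powW [6] 6) (by decide)
      rw [ev_append, ev_powW, ev_powW] at h
      simp only [ev_cons, ev_nil, mul_one] at h
      rw [x4, x6] at h
      exact h
    r3 := by
      have h := hr (powW [1, 1, 3] 5 ++ [6]) (by decide)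
      rw [ev_append, ev_powW] at h
      simp only [ev_cons, ev_nil, mul_one] at h
      rw [x6] at h
      exact h
    r4 := by
      have h := hr (powW [1, 1, 1, 3, 1, 3, 3] 3 ++ [8]) (by decide)
      rw [ev_append, ev_powW] at h
      simp only [ev_cons, ev_nil, mul_one] at h
      rw [x8] at h
      exact h
    c12 := by have h := hr (powW [5] 12) (by decide); rw [ev_powW] at h; simpa using h
    d4 := by have h := hr (powW [7] 4) (by decide); rw [ev_powW] at h; simpa using h
    cx := by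
      have h := hr [5, 1, 6, 2] (by decide)
      simp only [ev_cons, ev_nil, mul_one] at h
      rw [x2, x6] at h
      exact rel_com h
    cy := by
      have h := hr [5, 3, 6, 4] (by decide)
      simp only [ev_cons, ev_nil, mul_one] at h
      rw [x4, x6] at h
      exact rel_com h
    dx := by
      have h := hr [7, 1, 8, 2] (by decide)
      simp only [ev_cons, ev_nil, mul_one] at h
      rw [x2, x8] at h
      exact rel_com h
    dy := by
      have h := hr [7, 3, 8, 4] (by decide)
      simp only [ev_cons, ev_nil, mul_one] at h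
      rw [x4, x8] at h
      exact rel_com h
    cd := by
      have h := hr [5, 7, 6, 8] (by decide)
      simp only [ev_cons, ev_nil, mul_one] at h
      rw [x6, x8] at h
      exact rel_com h }

abbrev T : Type := P PlT.ic 8 PlT.rels
noncomputable abbrev xt : ℕ → T := xg PlT.ic 8 PlT.rels

theorem xt_ok : Ok PlT.ic 8 PlT.rels xt := xg_ok

noncomputable abbrev xT : T := xt 1
noncomputable abbrev yT : T := xt 3
noncomputable abbrev cT : T := xt 5
noncomputable abbrev dT : T := xt 7

theorem cr : CR xT yT cT dT := cr_of (by decide) xt_ok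

theorem xt_eq : ∀ i, xt i = lT xT yT cT dT i := by
  intro i
  match i with
  | 0 => exact xt_ok.h0
  | 1 => rfl
  | 2 => exact xt_ok.hic 1 (by decide)
  | 3 => rfl
  | 4 => exact xt_ok.hic 3 (by decide)
  | 5 => rfl
  | 6 => exact xt_ok.hic 5 (by decide)
  | 7 => rfl
  | 8 => exact xt_ok.hic 7 (by decide)
  | (n + 9) => exact xt_ok.hk _ (Or.inr (by omega))

theorem clT : Subgroup.closure {xT, yT, cT, dT} = ⊤ := by
  rw [← top_le_iff, ← PresentedGroup.closure_range_of (RR PlT.ic 8 PlT.rels), Subgroup.closure_le]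
  have h1 : xT ∈ Subgroup.closure {xT, yT, cT, dT} := Subgroup.subset_closure (by simp)
  have h2 : yT ∈ Subgroup.closure {xT, yT, cT, dT} := Subgroup.subset_closure (by simp)
  have h3 : cT ∈ Subgroup.closure {xT, yT, cT, dT} := Subgroup.subset_closure (by simp)
  have h4 : dT ∈ Subgroup.closure {xT, yT, cT, dT} := Subgroup.subset_closure (by simp)
  rintro _ ⟨i, rfl⟩
  show xt i ∈ Subgroup.closure {xT, yT, cT, dT}
  rw [xt_eq]
  match i with
  | 0 => exact one_mem _
  | 1 => exact h1
  | 2 => exact inv_mem h1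
  | 3 => exact h2
  | 4 => exact inv_mem h2
  | 5 => exact h3
  | 6 => exact inv_mem h3
  | 7 => exact h4
  | 8 => exact inv_mem h4
  | (n + 9) => exact one_mem _

/-! ### Independence of `c` and `d` -/

theorem netA1 : ∀ y, y < 16 → (y = 0 ∨ 8 < y) → net PlA1.L y = .nil := by
  intro y h16 hy
  interval_cases y <;> first | rfl | omega
theorem netA2 : ∀ y, y < 16 → (y = 0 ∨ 8 < y) → net PlA2.L y = .nil := by
  intro y h16 hy
  interval_cases y <;> first | rfl | omega
theorem netA3 : ∀ y, y < 16 → (y = 0 ∨ 8 < y) → net PlA3.L y = .nil := by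
  intro y h16 hy
  interval_cases y <;> first | rfl | omega

theorem hnA : 480 ≤ 2 ^ 9 := by decide
theorem hnA3 : 63 ≤ 2 ^ 6 := by decide

/-- `c` has order 4 in a quotient killing `d` -/
theorem quot1 : ∃ (Q : Type) (_ : Group Q) (f : T →* Q), orderOf (f cT) = 4 ∧ f dT = 1 := by
  obtain ⟨φ, hc⟩ := compat_of PlA1.sys hnA PlA1.inv_ok (xP_ok PlA1.sys hnA PlA1.inv_ok netA1 PlA1.rel_ok (by decide +kernel))
  have ho : Ok PlT.ic 8 PlT.rels1 (xg PlT.ic 8 PlT.rels1) := xg_ok
  have ho' : Ok PlT.ic 8 PlT.rels (xg PlT.ic 8 PlT.rels1) :=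
    ⟨ho.hic, ho.hk, fun w hw => ho.hrels w (List.mem_append_left _ hw)⟩
  obtain ⟨Ψ, hΨ⟩ := lift_ok ho'
  refine ⟨P PlT.ic 8 PlT.rels1, inferInstance, Ψ, ?_, ?_⟩
  · have e : Ψ cT = xg PlT.ic 8 PlT.rels1 5 := hΨ 5
    rw [e]
    haveI : Fact (Nat.Prime 2) := ⟨Nat.prime_two⟩
    have h4 : (xg PlT.ic 8 PlT.rels1 5) ^ 4 = 1 := by
      have h := ho.hrels (powW [5] 4) (by decide)
      rw [ev_powW] at h
      simpa using h
    refine orderOf_eq_prime_pow (p := 2) (n := 1) ?_ (by simpa using h4)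
    intro h2
    rw [pow_one, pow_two] at h2
    have h1 := hc 5 (by decide) ⟨0, by decide⟩
    have h3 := hc 5 (by decide) ((φ (xg PlT.ic 8 PlT.rels1 5))⁻¹ ⟨0, by decide⟩)
    have h5 : (φ (xg PlT.ic 8 PlT.rels1 5))⁻¹ ((φ (xg PlT.ic 8 PlT.rels1 5))⁻¹ ⟨0, by decide⟩) = ⟨0, by decide⟩ := by
      rw [← Equiv.Perm.mul_apply, ← mul_inv_rev, ← map_mul, h2, map_one, inv_one]
      rfl
    rw [h5] at h3
    rw [h1] at h3
    exact PlA1.mv h3.symm
  · have e : Ψ dT = xg PlT.ic 8 PlT.rels1 7 := hΨ 7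
    rw [e]
    have h := ho.hrels [7] (by decide)
    simpa using h

end Cfsg.Agent.H4.PlB
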