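import Cfsg.Agent.H4_PlC

/-!
The Schur cover of PSL₃(4): the projection.
-/

set_option autoImplicit false
set_option maxRecDepth 100000

namespace Cfsg.Agent.H4.PlB

open Cfsg.Agent.H8 Cfsg.Agent.H8.CE Cfsg.Agent.H8.CS Cfsg.Agent.H8.Net Cfsg.Agent.H8.Act Cfsg.Agent.H8.Cox
open Cfsg.Agent.H8.Act2 Cfsg.Agent.H4.Ltr

universe u v w

/-- `d` has order 4 in a quotient killing `c` -/
theorem quot2 : ∃ (Q : Type) (_ : Group Q) (f : T →* Q), orderOf (f dT) = 4 ∧ f cT = 1 := by
  obtain ⟨φ, hc⟩ := compat_of PlA2.sys hnA PlA2.inv_ok (xP_ok PlA2.sys hnA PlA2.inv_ok netA2 PlA2.rel_ok (by decide +kernel))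
  have ho : Ok PlT.ic 8 PlT.rels2 (xg PlT.ic 8 PlT.rels2) := xg_ok
  have ho' : Ok PlT.ic 8 PlT.rels (xg PlT.ic 8 PlT.rels2) :=
    ⟨ho.hic, ho.hk, fun w hw => ho.hrels w (List.mem_append_left _ hw)⟩
  obtain ⟨Ψ, hΨ⟩ := lift_ok ho'
  refine ⟨P PlT.ic 8 PlT.rels2, inferInstance, Ψ, ?_, ?_⟩
  · have e : Ψ dT = xg PlT.ic 8 PlT.rels2 7 := hΨ 7
    rw [e]
    haveI : Fact (Nat.Prime 2) := ⟨Nat.prime_two⟩
    have h4 : (xg PlT.ic 8 PlT.rels2 7) ^ 4 = 1 := by
      have h := ho.hrels (powW [7] 4) (by decide)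
      rw [ev_powW] at h
      simpa using h
    refine orderOf_eq_prime_pow (p := 2) (n := 1) ?_ (by simpa using h4)
    intro h2
    rw [pow_one, pow_two] at h2
    have h1 := hc 7 (by decide) ⟨0, by decide⟩
    have h3 := hc 7 (by decide) ((φ (xg PlT.ic 8 PlT.rels2 7))⁻¹ ⟨0, by decide⟩)
    have h5 : (φ (xg PlT.ic 8 PlT.rels2 7))⁻¹ ((φ (xg PlT.ic 8 PlT.rels2 7))⁻¹ ⟨0, by decide⟩) = ⟨0, by decide⟩ := by
      rw [← Equiv.Perm.mul_apply, ← mul_inv_rev, ← map_mul, h2, map_one, inv_one]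
      rfl
    rw [h5] at h3
    rw [h1] at h3
    exact PlA2.mv h3.symm
  · have e : Ψ cT = xg PlT.ic 8 PlT.rels2 5 := hΨ 5
    rw [e]
    have h := ho.hrels [5] (by decide)
    simpa using h

/-- `c` has order 3 in a quotient killing `d` -/
theorem quot3 : ∃ (Q : Type) (_ : Group Q) (f : T →* Q), orderOf (f cT) = 3 ∧ f dT = 1 := by
  obtain ⟨φ, hc⟩ := compat_of PlA3.sys hnA3 PlA3.inv_ok (xP_ok PlA3.sys hnA3 PlA3.inv_ok netA3 PlA3.rel_ok (by decide +kernel))
  have ho : Ok PlT.ic 8 PlT.rels3 (xg PlT.ic 8 PlT.rels3) := xg_ok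
  have ho' : Ok PlT.ic 8 PlT.rels (xg PlT.ic 8 PlT.rels3) :=
    ⟨ho.hic, ho.hk, fun w hw => ho.hrels w (List.mem_append_left _ hw)⟩
  obtain ⟨Ψ, hΨ⟩ := lift_ok ho'
  refine ⟨P PlT.ic 8 PlT.rels3, inferInstance, Ψ, ?_, ?_⟩
  · have e : Ψ cT = xg PlT.ic 8 PlT.rels3 5 := hΨ 5
    rw [e]
    haveI : Fact (Nat.Prime 3) := ⟨Nat.prime_three⟩
    have h4 : (xg PlT.ic 8 PlT.rels3 5) ^ 3 = 1 := by
      have h := ho.hrels (powW [5] 3) (by decide)
      rw [ev_powW] at h
      simpa using h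
    refine orderOf_eq_prime h4 ?_
    intro h2
    have h1 := hc 5 (by decide) ⟨0, by decide⟩
    rw [h2, map_one, inv_one] at h1
    exact PlA3.mv h1.symm
  · have e : Ψ dT = xg PlT.ic 8 PlT.rels3 7 := hΨ 7
    rw [e]
    have h := ho.hrels [7] (by decide)
    simpa using h

/-- centrality on generators -/
theorem cen_of {Γ : Type u} [Group Γ] {X : Set Γ} (hX : Subgroup.closure X = ⊤) {z : Γ} (h : ∀ x ∈ X, z * x = x * z) :
    z ∈ Subgroup.center Γ := by
  have h1 : Subgroup.closure X ≤ Subgroup.centralizer {z} := by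
    rw [Subgroup.closure_le]
    intro x hx
    show x ∈ Subgroup.centralizer {z}
    rw [Subgroup.mem_centralizer_singleton_iff]
    exact (h x hx).symm
  rw [Subgroup.mem_center_iff]
  intro g
  have : g ∈ Subgroup.centralizer {z} := h1 (by rw [hX]; trivial)
  rw [Subgroup.mem_centralizer_singleton_iff] at this
  exact this

theorem cT_cen : cT ∈ Subgroup.center T := by
  apply cen_of clT
  intro x hx
  simp only [Set.mem_insert_iff, Set.mem_singleton_iff] at hx
  rcases hx with rfl | rfl | rfl | rfl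
  · exact cr.cx
  · exact cr.cy
  · rfl
  · exact cr.cd

theorem dT_cen : dT ∈ Subgroup.center T := by
  apply cen_of clT
  intro x hx
  simp only [Set.mem_insert_iff, Set.mem_singleton_iff] at hx
  rcases hx with rfl | rfl | rfl | rfl
  · exact cr.dx
  · exact cr.dy
  · exact cr.cd.symm
  · rfl

/-- the relations force an abelian group to be trivial -/
theorem ab_triv {A : Type u} [CommGroup A] {x y c d : A} (h : CR x y c d) : x = 1 ∧ y = 1 ∧ c = 1 ∧ d = 1 := by
  have hx := h.x7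
  have hy := h.y5
  have h1 : x ^ 2 = y ^ 2 := by
    have h2 := h.r1
    rw [mul_pow, inv_pow] at h2
    exact mul_inv_eq_one.1 h2
  have hx10 : x ^ 10 = 1 := by
    calc x ^ 10 = (x ^ 2) ^ 5 := by rw [← pow_mul]
      _ = (y ^ 5) ^ 2 := by rw [h1, ← pow_mul, ← pow_mul]
      _ = 1 := by rw [hy, one_pow]
  have hx1 : x = 1 := by
    have h3 : orderOf x ∣ 7 := orderOf_dvd_of_pow_eq_one hx
    have h4 : orderOf x ∣ 10 := orderOf_dvd_of_pow_eq_one hx10
    have h5 : orderOf x ∣ 1 := by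
      have := Nat.dvd_gcd h3 h4
      simpa using this
    exact orderOf_eq_one_iff.1 (Nat.dvd_one.1 h5)
  have hy1 : y = 1 := by
    have h2 : y ^ 2 = 1 := by rw [← h1, hx1, one_pow]
    have h3 : orderOf y ∣ 5 := orderOf_dvd_of_pow_eq_one hy
    have h4 : orderOf y ∣ 2 := orderOf_dvd_of_pow_eq_one h2
    have h5 : orderOf y ∣ 1 := by
      have := Nat.dvd_gcd h3 h4
      simpa using this
    exact orderOf_eq_one_iff.1 (Nat.dvd_one.1 h5)
  refine ⟨hx1, hy1, ?_, ?_⟩
  · have h2 := h.r3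
    rw [hx1, hy1] at h2
    simpa using h2
  · have h2 := h.r4
    rw [hx1, hy1] at h2
    simpa using h2

theorem cr_map {Γ : Type u} {K : Type v} [Group Γ] [Group K] (φ : Γ →* K) {x y c d : Γ} (h : CR x y c d) :
    CR (φ x) (φ y) (φ c) (φ d) where
  x7 := by rw [← map_pow, h.x7, map_one]
  y5 := by rw [← map_pow, h.y5, map_one]
  r1 := by simp only [← map_mul, ← map_pow, ← map_inv]; rw [h.r1, map_one]
  r2 := by simp only [← map_mul, ← map_pow, ← map_inv]; rw [h.r2, map_one]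
  r3 := by simp only [← map_mul, ← map_pow, ← map_inv]; rw [h.r3, map_one]
  r4 := by simp only [← map_mul, ← map_pow, ← map_inv]; rw [h.r4, map_one]
  c12 := by rw [← map_pow, h.c12, map_one]
  d4 := by rw [← map_pow, h.d4, map_one]
  cx := by rw [← map_mul, h.cx, map_mul]
  cy := by rw [← map_mul, h.cy, map_mul]
  dx := by rw [← map_mul, h.dx, map_mul]
  dy := by rw [← map_mul, h.dy, map_mul]
  cd := by rw [← map_mul, h.cd, map_mul]

theorem perfT : commutator T = ⊤ := by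
  have h := ab_triv (cr_map (Abelianization.of (G := T)) cr)
  rw [← Abelianization.ker_of, ← top_le_iff, ← clT, Subgroup.closure_le]
  intro x hx
  simp only [Set.mem_insert_iff, Set.mem_singleton_iff] at hx
  show x ∈ (Abelianization.of (G := T)).ker
  rw [MonoidHom.mem_ker]
  rcases hx with rfl | rfl | rfl | rfl
  · exact h.1
  · exact h.2.1
  · exact h.2.2.1
  · exact h.2.2.2

theorem cr_of_sr {Γ : Type u} [Group Γ] {x y : Γ} (h : SR x y) : CR x y 1 1 where
  x7 := h.x7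
  y5 := h.y5
  r1 := h.r1
  r2 := by rw [h.r2]; simp
  r3 := by rw [h.r3]; simp
  r4 := by rw [h.r4]; simp
  c12 := one_pow _
  d4 := one_pow _
  cx := by simp
  cy := by simp
  dx := by simp
  dy := by simp
  cd := by simp

theorem sr_of_cr {Γ : Type u} [Group Γ] {x y : Γ} (h : CR x y 1 1) : SR x y where
  x7 := h.x7
  y5 := h.y5
  r1 := h.r1
  r2 := by simpa using h.r2
  r3 := by simpa using h.r3
  r4 := by simpa using h.r4

noncomputable def pr : T →* S := (lift_ok (lT_ok (cr_of_sr sr))).choose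

theorem pr_x (i : ℕ) : pr (xt i) = lT xS yS 1 1 i := (lift_ok (lT_ok (cr_of_sr sr))).choose_spec i

theorem pr_xT : pr xT = xS := pr_x 1
theorem pr_yT : pr yT = yS := pr_x 3
theorem pr_cT : pr cT = 1 := pr_x 5
theorem pr_dT : pr dT = 1 := pr_x 7

theorem pr_surj : Function.Surjective pr := by
  rw [← MonoidHom.range_eq_top, ← top_le_iff, ← clS, Subgroup.closure_le]
  intro g hg
  simp only [Set.mem_insert_iff, Set.mem_singleton_iff] at hg
  rcases hg with rfl | rfl
  · exact ⟨xT, pr_xT⟩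
  · exact ⟨yT, pr_yT⟩

/-- subgroups of the centre are normal -/
theorem normal_of_cen {Γ : Type u} [Group Γ] {N : Subgroup Γ} (h : N ≤ Subgroup.center Γ) : N.Normal := by
  constructor
  intro n hn g
  rw [Subgroup.mem_center_iff.1 (h hn) g, mul_inv_cancel_right]
  exact hn

/-- the key lemma: a group generated by `x, y, c, d` over its quotient by `c, d` -/
theorem ker_le {Γ : Type u} {G : Type v} [Group Γ] [Group G] {x y c d : Γ} (h : CR x y c d)
    (hcl : Subgroup.closure {x, y, c, d} = ⊤) (hz : c ∈ Subgroup.center Γ) (hw : d ∈ Subgroup.center Γ)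
    (e : S ≃* G) {σ : Γ →* G} (ht : σ x = e xS) (hy : σ y = e yS) (h1 : σ c = 1) (h2 : σ d = 1) :
    σ.ker ≤ Subgroup.closure {c, d} := by
  have hNc : Subgroup.closure {c, d} ≤ Subgroup.center Γ := by
    rw [Subgroup.closure_le]
    intro x hx
    simp only [Set.mem_insert_iff, Set.mem_singleton_iff] at hx
    rcases hx with rfl | rfl
    · exact hz
    · exact hw
  have hN := normal_of_cen hNc
  let mk : Γ →* Γ ⧸ Subgroup.closure {c, d} := QuotientGroup.mk' _
  have hmz : mk c = 1 := (QuotientGroup.eq_one_iff c).2 (Subgroup.subset_closure (by simp))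
  have hmw : mk d = 1 := (QuotientGroup.eq_one_iff d).2 (Subgroup.subset_closure (by simp))
  have hc := cr_map mk h
  rw [hmz, hmw] at hc
  obtain ⟨Ψ, hΨ⟩ := lift_ok (lS_ok (sr_of_cr hc))
  have hcomp : Ψ.comp (e.symm.toMonoidHom.comp σ) = mk := by
    apply MonoidHom.eq_of_eqOn_dense hcl
    intro z hx
    simp only [Set.mem_insert_iff, Set.mem_singleton_iff] at hx
    rcases hx with rfl | rfl | rfl | rfl
    · show Ψ (e.symm (σ z)) = mk z
      rw [ht, MulEquiv.symm_apply_apply]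
      exact hΨ 1
    · show Ψ (e.symm (σ z)) = mk z
      rw [hy, MulEquiv.symm_apply_apply]
      exact hΨ 3
    · show Ψ (e.symm (σ z)) = mk z
      rw [h1, map_one, map_one, hmz]
    · show Ψ (e.symm (σ z)) = mk z
      rw [h2, map_one, map_one, hmw]
  intro k hk
  have h3 : mk k = 1 := by
    rw [← hcomp, MonoidHom.comp_apply, MonoidHom.comp_apply, MonoidHom.mem_ker.1 hk, map_one, map_one]
  exact (QuotientGroup.eq_one_iff k).1 h3

theorem pr_ker : pr.ker = Subgroup.closure {cT, dT} := by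
  apply le_antisymm
  · exact ker_le cr clT cT_cen dT_cen (MulEquiv.refl S) pr_xT pr_yT pr_cT pr_dT
  · rw [Subgroup.closure_le]
    intro x hx
    simp only [Set.mem_insert_iff, Set.mem_singleton_iff] at hx
    rcases hx with rfl | rfl
    · exact pr_cT
    · exact pr_dT

theorem pr_stem : Cfsg.IsStemExtension pr := by
  refine ⟨pr_surj, ?_, ?_⟩
  · rw [pr_ker, Subgroup.closure_le]
    intro x hx
    simp only [Set.mem_insert_iff, Set.mem_singleton_iff] at hx
    rcases hx with rfl | rfl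
    · exact cT_cen
    · exact dT_cen
  · rw [perfT]; exact le_top

/-- powers -/
theorem pow_val {Γ : Type u} [Group Γ] {z : Γ} {n : ℕ} [NeZero n] (hz : z ^ n = 1) (a b : ZMod n) :
    z ^ (a + b).val = z ^ a.val * z ^ b.val := by
  rw [← pow_add, ZMod.val_add]
  conv_rhs => rw [← Nat.mod_add_div (a.val + b.val) n, pow_add, pow_mul, hz, one_pow, mul_one]

theorem pi_of {Γ : Type u} [Group Γ] {K : Subgroup Γ} {c d : Γ} (hz : c ∈ K) (hw : d ∈ K) (c12 : c ^ 12 = 1)
    (d4 : d ^ 4 = 1) (cd : c * d = d * c) (hK : K ≤ Subgroup.closure {c, d}) :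
    ∃ π : Multiplicative (ZMod 3 × ZMod 4 × ZMod 4) →* K, Function.Surjective π ∧
      ((∀ i j k : ℕ, i < 3 → j < 4 → k < 4 → (c ^ 4) ^ i * (c ^ 3) ^ j * d ^ k = 1 → i = 0 ∧ j = 0 ∧ k = 0) →
        Function.Injective π) := by
  have e1 : (c ^ 4) ^ 3 = 1 := by rw [← pow_mul]; exact c12
  have e2 : (c ^ 3) ^ 4 = 1 := by rw [← pow_mul]; exact c12
  have hcd : Commute c d := cd
  let π : Multiplicative (ZMod 3 × ZMod 4 × ZMod 4) →* K :=
    { toFun := fun p => ⟨(c ^ 4) ^ (p.toAdd.1.val) * (c ^ 3) ^ (p.toAdd.2.1.val) * d ^ (p.toAdd.2.2.val),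
        mul_mem (mul_mem (pow_mem (pow_mem hz _) _) (pow_mem (pow_mem hz _) _)) (pow_mem hw _)⟩
      map_one' := by
        apply Subtype.ext
        show (c ^ 4) ^ ((0 : ZMod 3).val) * (c ^ 3) ^ ((0 : ZMod 4).val) * d ^ ((0 : ZMod 4).val) = 1
        simp
      map_mul' := by
        intro p q
        apply Subtype.ext
        show (c ^ 4) ^ ((p.toAdd.1 + q.toAdd.1).val) * (c ^ 3) ^ ((p.toAdd.2.1 + q.toAdd.2.1).val) *
            d ^ ((p.toAdd.2.2 + q.toAdd.2.2).val) =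
          ((c ^ 4) ^ (p.toAdd.1.val) * (c ^ 3) ^ (p.toAdd.2.1.val) * d ^ (p.toAdd.2.2.val)) *
          ((c ^ 4) ^ (q.toAdd.1.val) * (c ^ 3) ^ (q.toAdd.2.1.val) * d ^ (q.toAdd.2.2.val))
        rw [pow_val e1, pow_val e2, pow_val d4]
        obtain ⟨A, hA⟩ : ∃ A, (c ^ 4) ^ (p.toAdd.1.val) = A := ⟨_, rfl⟩
        obtain ⟨A', hA'⟩ : ∃ A, (c ^ 4) ^ (q.toAdd.1.val) = A := ⟨_, rfl⟩
        obtain ⟨B, hB⟩ : ∃ A, (c ^ 3) ^ (p.toAdd.2.1.val) = A := ⟨_, rfl⟩
        obtain ⟨B', hB'⟩ : ∃ A, (c ^ 3) ^ (q.toAdd.2.1.val) = A := ⟨_, rfl⟩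
        obtain ⟨D, hD⟩ : ∃ A, d ^ (p.toAdd.2.2.val) = A := ⟨_, rfl⟩
        obtain ⟨D', hD'⟩ : ∃ A, d ^ (q.toAdd.2.2.val) = A := ⟨_, rfl⟩
        have c1 : Commute A' B := by
          rw [← hA', ← hB]; exact ((Commute.refl c).pow_pow 4 3).pow_pow _ _
        have c2 : Commute A' D := by
          rw [← hA', ← hD]; exact (hcd.pow_left 4).pow_pow _ _
        have c3 : Commute B' D := by
          rw [← hB', ← hD]; exact (hcd.pow_left 3).pow_pow _ _
        rw [hA, hA', hB, hB', hD, hD']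
        calc A * A' * (B * B') * (D * D') = A * (A' * B) * B' * D * D' := by group
          _ = A * (B * A') * B' * D * D' := by rw [c1.eq]
          _ = A * B * A' * (B' * D) * D' := by group
          _ = A * B * A' * (D * B') * D' := by rw [c3.eq]
          _ = A * B * (A' * D) * B' * D' := by group
          _ = A * B * (D * A') * B' * D' := by rw [c2.eq]
          _ = A * B * D * (A' * B' * D') := by group }
  refine ⟨π, ?_, ?_⟩
  · intro k
    have hr : Subgroup.closure {c, d} ≤ (K.subtype.comp π).range := by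
      rw [Subgroup.closure_le]
      intro x hx
      simp only [Set.mem_insert_iff, Set.mem_singleton_iff] at hx
      rcases hx with rfl | rfl
      · refine ⟨Multiplicative.ofAdd (1, 3, 0), ?_⟩
        show (x ^ 4) ^ ((1 : ZMod 3).val) * (x ^ 3) ^ ((3 : ZMod 4).val) * d ^ ((0 : ZMod 4).val) = x
        have v1 : (1 : ZMod 3).val = 1 := rfl
        have v2 : (3 : ZMod 4).val = 3 := rfl
        have v3 : (0 : ZMod 4).val = 0 := rfl
        rw [v1, v2, v3, pow_one, pow_zero, mul_one, ← pow_mul, ← pow_add]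
        calc x ^ (4 + 3 * 3) = x ^ 12 * x := by rw [← pow_succ]
          _ = x := by rw [c12, one_mul]
      · refine ⟨Multiplicative.ofAdd (0, 0, 1), ?_⟩
        show (c ^ 4) ^ ((0 : ZMod 3).val) * (c ^ 3) ^ ((0 : ZMod 4).val) * x ^ ((1 : ZMod 4).val) = x
        have v1 : (0 : ZMod 3).val = 0 := rfl
        have v2 : (0 : ZMod 4).val = 0 := rfl
        have v3 : (1 : ZMod 4).val = 1 := rfl
        rw [v1, v2, v3, pow_zero, pow_zero, one_mul, one_mul, pow_one]
    obtain ⟨p, hp⟩ := hr (hK k.2)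
    exact ⟨p, Subtype.ext hp⟩
  · intro hind
    rw [← MonoidHom.ker_eq_bot_iff, eq_bot_iff]
    intro p hp
    have h1 : (c ^ 4) ^ (p.toAdd.1.val) * (c ^ 3) ^ (p.toAdd.2.1.val) * d ^ (p.toAdd.2.2.val) = 1 := by
      have h2 : π p = 1 := hp
      exact congrArg Subtype.val h2
    obtain ⟨i0, j0, k0⟩ := hind _ _ _ (ZMod.val_lt _) (ZMod.val_lt _) (ZMod.val_lt _) h1
    rw [Subgroup.mem_bot]
    have hp0 : p.toAdd = 0 := by
      refine Prod.ext ?_ (Prod.ext ?_ ?_)
      · exact (ZMod.val_eq_zero _).1 i0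
      · exact (ZMod.val_eq_zero _).1 j0
      · exact (ZMod.val_eq_zero _).1 k0
    exact hp0

theorem pr_iso : Nonempty (Multiplicative (ZMod 3 × ZMod 4 × ZMod 4) ≃* pr.ker) := by
  obtain ⟨π, h1, h2⟩ := pi_of (K := pr.ker) (c := cT) (d := dT) pr_cT pr_dT cr.c12 cr.d4 cr.cd (le_of_eq pr_ker)
  refine ⟨MulEquiv.ofBijective π ⟨h2 ?_, h1⟩⟩
  intro i j k hi hj hk h
  have hk0 : k = 0 := by
    obtain ⟨Q, _, f, ho, hf⟩ := quot2
    have h3 := congrArg f h
    simp only [map_mul, map_pow] at h3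
    rw [hf, one_pow, one_pow, one_pow, one_pow, one_mul, one_mul, map_one] at h3
    have h4 := orderOf_dvd_of_pow_eq_one h3
    rw [ho] at h4
    omega
  have hj0 : j = 0 := by
    obtain ⟨Q, _, f, ho, hf⟩ := quot1
    have h3 := congrArg f h
    simp only [map_mul, map_pow] at h3
    rw [hf, one_pow, mul_one, ← pow_mul, ← pow_mul, ← pow_add, map_one] at h3
    have h4 := orderOf_dvd_of_pow_eq_one h3
    rw [ho] at h4
    omega
  have hi0 : i = 0 := by
    obtain ⟨Q, _, f, ho, hf⟩ := quot3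
    have h3 := congrArg f h
    simp only [map_mul, map_pow] at h3
    rw [hf, one_pow, mul_one, ← pow_mul, ← pow_mul, ← pow_add, map_one] at h3
    have h4 := orderOf_dvd_of_pow_eq_one h3
    rw [ho] at h4
    omega
  exact ⟨hi0, hj0, hk0⟩

instance finT : Finite T := by
  have h1 : Finite pr.ker := by
    obtain ⟨f⟩ := pr_iso
    haveI : Finite (Multiplicative (ZMod 3 × ZMod 4 × ZMod 4)) := inferInstanceAs (Finite (ZMod 3 × ZMod 4 × ZMod 4))
    exact Finite.of_equiv _ f.toEquiv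
  have h2 : Finite (T ⧸ pr.ker) := Finite.of_injective _ (QuotientGroup.kerLift_injective pr)
  exact Finite.of_equiv _ (Subgroup.groupEquivQuotientProdSubgroup (s := pr.ker)).symm

end Cfsg.Agent.H4.PlB
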