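import Cfsg.Agent.H4_PlD
import Cfsg.Agent.H4_PlQ8
import Cfsg.Agent.H4_PlQ9
import Cfsg.Agent.H14_Schur

/-!
Upper bound for the multiplier of PSL₃(4).
-/

set_option autoImplicit false
set_option maxRecDepth 100000

namespace Cfsg.Agent.H4.PlB

open Cfsg.Agent.H8 Cfsg.Agent.H8.CE Cfsg.Agent.H8.CS Cfsg.Agent.H8.Net Cfsg.Agent.H8.Act Cfsg.Agent.H8.Cox
open Cfsg.Agent.H8.Act2 Cfsg.Agent.H4.Ltr
open scoped commutatorElement

universe u v w

/-- letters for the query -/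
def lQ {Γ : Type u} [Group Γ] (x y a b c d : Γ) : ℕ → Γ
  | 1 => x
  | 2 => x⁻¹
  | 3 => y
  | 4 => y⁻¹
  | 5 => a
  | 6 => a⁻¹
  | 7 => b
  | 8 => b⁻¹
  | 9 => c
  | 10 => c⁻¹
  | 11 => d
  | 12 => d⁻¹
  | _ => 1

theorem cenr {Γ : Type u} [Group Γ] {a t : Γ} (h : a ∈ Subgroup.center Γ) : a * (t * (a⁻¹ * t⁻¹)) = 1 :=
  com_rel (Subgroup.mem_center_iff.1 h t).symm

/-- the structured relator list of the query -/
def qrels (N : ℕ) : List (List ℕ) := [powW [1] 7, powW [3] 5, powW [1, 4] 2 ++ [6], [5, 1, 6, 2], [5, 3, 6, 4], powW [5] N,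
    powW [1, 1, 4, 4] 3 ++ [8], [7, 1, 8, 2], [7, 3, 8, 4], powW [7] N,
    powW [1, 1, 3] 5 ++ [10], [9, 1, 10, 2], [9, 3, 10, 4], powW [9] N,
    powW [1, 1, 1, 3, 1, 3, 3] 3 ++ [12], [11, 1, 12, 2], [11, 3, 12, 4], powW [11] N,
    [7, 5, 8, 6], [9, 5, 10, 6], [9, 7, 10, 8], [11, 5, 12, 6], [11, 7, 12, 8], [11, 9, 12, 10]]

/-- the setting of the queries -/
structure QS (N : ℕ) {Γ : Type u} {G : Type v} [Group Γ] [Group G] (σ : Γ →* G) (x y a b c d : Γ) : Prop where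
  x7 : x ^ 7 = 1
  y5 : y ^ 5 = 1
  ha : (x * y⁻¹) ^ 2 = a
  hb : (x * (x * (y⁻¹ * y⁻¹))) ^ 3 = b
  hc : (x * (x * y)) ^ 5 = c
  hd : (x * (x * (x * (y * (x * (y * y)))))) ^ 3 = d
  ca : a ∈ Subgroup.center Γ
  cb : b ∈ Subgroup.center Γ
  cc : c ∈ Subgroup.center Γ
  cd : d ∈ Subgroup.center Γ
  ka : a ∈ σ.ker
  kb : b ∈ σ.ker
  kc : c ∈ σ.ker
  kd : d ∈ σ.ker
  aN : a ^ N = 1
  bN : b ^ N = 1
  cN : c ^ N = 1
  dN : d ^ N = 1
  ho : orderOf (σ x) = 7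

variable {N : ℕ} {Γ : Type u} {G : Type v} [Group Γ] [Group G] {σ : Γ →* G} {x y a b c d : Γ}

theorem relQ (h : QS N σ x y a b c d) : ∀ w ∈ qrels N, ev (lQ x y a b c d) w = 1 := by
  intro w h1
  simp only [qrels, List.mem_cons, List.not_mem_nil, or_false] at h1
  rcases h1 with rfl | rfl | rfl | rfl | rfl | rfl | rfl | rfl | rfl | rfl | rfl | rfl | rfl | rfl | rfl | rfl |
    rfl | rfl | rfl | rfl | rfl | rfl | rfl | rfl
  · rw [ev_powW]; simpa [lQ] using h.x7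
  · rw [ev_powW]; simpa [lQ] using h.y5
  · rw [ev_append, ev_powW]; simp only [ev_cons, ev_nil, mul_one, lQ]; rw [h.ha, mul_inv_cancel]
  · simpa [lQ] using cenr (t := x) h.ca
  · simpa [lQ] using cenr (t := y) h.ca
  · rw [ev_powW]; simpa [lQ] using h.aN
  · rw [ev_append, ev_powW]; simp only [ev_cons, ev_nil, mul_one, lQ]; rw [h.hb, mul_inv_cancel]
  · simpa [lQ] using cenr (t := x) h.cb
  · simpa [lQ] using cenr (t := y) h.cb
  · rw [ev_powW]; simpa [lQ] using h.bN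
  · rw [ev_append, ev_powW]; simp only [ev_cons, ev_nil, mul_one, lQ]; rw [h.hc, mul_inv_cancel]
  · simpa [lQ] using cenr (t := x) h.cc
  · simpa [lQ] using cenr (t := y) h.cc
  · rw [ev_powW]; simpa [lQ] using h.cN
  · rw [ev_append, ev_powW]; simp only [ev_cons, ev_nil, mul_one, lQ]; rw [h.hd, mul_inv_cancel]
  · simpa [lQ] using cenr (t := x) h.cd
  · simpa [lQ] using cenr (t := y) h.cd
  · rw [ev_powW]; simpa [lQ] using h.dN
  · simpa [lQ] using cenr (t := a) h.cb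
  · simpa [lQ] using cenr (t := a) h.cc
  · simpa [lQ] using cenr (t := b) h.cc
  · simpa [lQ] using cenr (t := a) h.cd
  · simpa [lQ] using cenr (t := b) h.cd
  · simpa [lQ] using cenr (t := c) h.cd

theorem hicQ {ic : ℕ} (hic : ic = PlQ8.ic) : ∀ i, i < 16 → lQ x y a b c d (il ic i) = (lQ x y a b c d i)⁻¹ := by
  subst hic
  intro i hi
  interval_cases i
  · show (1 : Γ) = 1⁻¹; simp
  · rfl
  · show x = x⁻¹⁻¹; simp
  · rfl
  · show y = y⁻¹⁻¹; simp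
  · rfl
  · show a = a⁻¹⁻¹; simp
  · rfl
  · show b = b⁻¹⁻¹; simp
  · rfl
  · show c = c⁻¹⁻¹; simp
  · rfl
  · show d = d⁻¹⁻¹; simp
  all_goals (show (1 : Γ) = 1⁻¹; simp)

theorem meet (h : QS N σ x y a b c d) : ∀ g ∈ Subgroup.zpowers x, g ∈ σ.ker → g = 1 := by
  intro g hg hk
  obtain ⟨n, rfl⟩ := Subgroup.mem_zpowers_iff.1 hg
  have h1 : (σ x) ^ n = 1 := by rw [← map_zpow]; exact hk
  have h2 : (7 : ℤ) ∣ n := by
    have := orderOf_dvd_iff_zpow_eq_one.2 h1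
    rwa [h.ho] at this
  obtain ⟨m, rfl⟩ := h2
  rw [zpow_mul]
  have h3 : x ^ (7 : ℤ) = 1 := by
    rw [show (7 : ℤ) = ((7 : ℕ) : ℤ) from rfl, zpow_natCast]; exact h.x7
  rw [h3, one_zpow]

theorem Q8 (h : QS 8 σ x y a b c d) : a = 1 ∧ b = c ^ 2 ∧ c ^ 4 = 1 ∧ d ^ 4 = 1 := by
  have hrel := sub_rels (relQ h) (rs := PlQ8.rels) (by decide +kernel)
  have hL : ∀ s ∈ PlQ8.L, lQ x y a b c d s ∈ Subgroup.zpowers x := by
    intro s hs
    simp only [PlQ8.L, List.mem_cons, List.not_mem_nil, or_false] at hs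
    subst hs
    exact Subgroup.mem_zpowers _
  have w0 := PlQ8.word0 (hicQ rfl) rfl hrel hL
  have w1 := PlQ8.word1 (hicQ rfl) rfl hrel hL
  have w2 := PlQ8.word2 (hicQ rfl) rfl hrel hL
  have w3 := PlQ8.word3 (hicQ rfl) rfl hrel hL
  simp only [ev_cons, ev_nil, mul_one] at w0 w1 w2 w3
  refine ⟨meet h _ w0 h.ka, ?_, ?_, ?_⟩
  · have h1 : b * (c⁻¹ * c⁻¹) = 1 := meet h _ w1 (mul_mem h.kb (mul_mem (inv_mem h.kc) (inv_mem h.kc)))
    rw [← mul_inv_rev, mul_inv_eq_one] at h1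
    rw [h1, pow_two]
  · have h1 := meet h _ w2 (mul_mem h.kc (mul_mem h.kc (mul_mem h.kc h.kc)))
    rw [← h1]
    show c ^ 4 = c * (c * (c * c))
    simp only [pow_succ, pow_zero, one_mul, mul_assoc]
  · have h1 := meet h _ w3 (mul_mem h.kd (mul_mem h.kd (mul_mem h.kd h.kd)))
    rw [← h1]
    show d ^ 4 = d * (d * (d * d))
    simp only [pow_succ, pow_zero, one_mul, mul_assoc]

theorem Q9 (h : QS 9 σ x y a b c d) : a = 1 ∧ b = 1 ∧ d = 1 ∧ c ^ 3 = 1 := by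
  have hrel := sub_rels (relQ h) (rs := PlQ9.rels) (by decide +kernel)
  have hL : ∀ s ∈ PlQ9.L, lQ x y a b c d s ∈ Subgroup.zpowers x := by
    intro s hs
    simp only [PlQ9.L, List.mem_cons, List.not_mem_nil, or_false] at hs
    subst hs
    exact Subgroup.mem_zpowers _
  have w0 := PlQ9.word0 (hicQ rfl) rfl hrel hL
  have w1 := PlQ9.word1 (hicQ rfl) rfl hrel hL
  have w2 := PlQ9.word2 (hicQ rfl) rfl hrel hL
  have w3 := PlQ9.word3 (hicQ rfl) rfl hrel hL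
  simp only [ev_cons, ev_nil, mul_one] at w0 w1 w2 w3
  refine ⟨meet h _ w0 h.ka, meet h _ w1 h.kb, meet h _ w2 h.kd, ?_⟩
  have h1 := meet h _ w3 (mul_mem h.kc (mul_mem h.kc h.kc))
  rw [← h1]
  show c ^ 3 = c * (c * c)
  simp only [pow_succ, pow_zero, one_mul, mul_assoc]

end Cfsg.Agent.H4.PlB
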