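import Cfsg.Agent.H4_PlE

/-!
Upper bound for the multiplier of PSL₃(4).
-/

set_option autoImplicit false
set_option maxRecDepth 100000

namespace Cfsg.Agent.H4.PlB

open Cfsg.Agent.H8 Cfsg.Agent.H8.CE Cfsg.Agent.H8.CS Cfsg.Agent.H8.Net Cfsg.Agent.H8.Act Cfsg.Agent.H8.Cox
open Cfsg.Agent.H8.Act2 Cfsg.Agent.H4.Ltr
open scoped commutatorElement

universe u v w

theorem gen_of_stem {Γ : Type u} {G : Type v} [Group Γ] [Group G] {σ : Γ →* G} (hσ : Cfsg.IsStemExtension σ)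
    {M : Subgroup Γ} (hM : M.map σ = ⊤) : M = ⊤ := by
  obtain ⟨hs, hc, hd⟩ := hσ
  have hk : ∀ g : Γ, ∃ m ∈ M, ∃ k ∈ σ.ker, g = m * k := by
    intro g
    have h1 : σ g ∈ M.map σ := by rw [hM]; trivial
    obtain ⟨m, hm, hmg⟩ := h1
    refine ⟨m, hm, m⁻¹ * g, ?_, by group⟩
    rw [MonoidHom.mem_ker, map_mul, map_inv, hmg, inv_mul_cancel]
  have hcomm : commutator Γ ≤ M := by
    rw [commutator_eq_closure, Subgroup.closure_le]
    rintro _ ⟨a, b, rfl⟩
    obtain ⟨m, hm, k, hk1, rfl⟩ := hk a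
    obtain ⟨m', hm', k', hk', rfl⟩ := hk b
    have c1 := Subgroup.mem_center_iff.1 (hc hk1)
    have c2 := Subgroup.mem_center_iff.1 (hc hk')
    have e : ⁅m * k, m' * k'⁆ = ⁅m, m'⁆ := by
      simp only [commutatorElement_def]
      have i1 : k * (m' * k') = (m' * k') * k := (c1 _).symm
      calc m * k * (m' * k') * (m * k)⁻¹ * (m' * k')⁻¹ = m * (k * (m' * k')) * (m * k)⁻¹ * (m' * k')⁻¹ := by group
        _ = m * (m' * k') * m⁻¹ * (m' * k')⁻¹ := by rw [i1]; group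
        _ = m * m' * (k' * m⁻¹) * k'⁻¹ * m'⁻¹ := by group
        _ = m * m' * (m⁻¹ * k') * k'⁻¹ * m'⁻¹ := by rw [← c2]
        _ = m * m' * m⁻¹ * m'⁻¹ := by group
    rw [e]
    simp only [commutatorElement_def]
    exact mul_mem (mul_mem (mul_mem hm hm') (inv_mem hm)) (inv_mem hm')
  rw [eq_top_iff]
  intro g _
  obtain ⟨m, hm, k, hk1, rfl⟩ := hk g
  exact mul_mem hm (hcomm (hd hk1))

theorem perfS : commutator S = ⊤ := by
  have h : (commutator T).map pr = commutator S := by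
    rw [commutator_def, commutator_def, Subgroup.map_commutator, Subgroup.map_top_of_surjective _ pr_surj]
  rw [← h, perfT, Subgroup.map_top_of_surjective _ pr_surj]

theorem perf_of {G : Type v} [Group G] (e : S ≃* G) : commutator G = ⊤ := by
  have h : (commutator S).map e.toMonoidHom = commutator G := by
    rw [commutator_def, commutator_def, Subgroup.map_commutator, Subgroup.map_top_of_surjective _ e.surjective]
  rw [← h, perfS, Subgroup.map_top_of_surjective _ e.surjective]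

theorem xS_ord : orderOf xS = 7 := by
  haveI : Fact (Nat.Prime 7) := ⟨by norm_num⟩
  refine orderOf_eq_prime sr.x7 ?_
  intro hx
  have h1 := sr.r1
  rw [hx, one_mul, inv_pow, inv_eq_one] at h1
  have hy1 : yS = 1 := by
    have h3 : orderOf yS ∣ 5 := orderOf_dvd_of_pow_eq_one sr.y5
    have h4 : orderOf yS ∣ 2 := orderOf_dvd_of_pow_eq_one h1
    have h5 : orderOf yS ∣ 1 := by
      have := Nat.dvd_gcd h3 h4
      simpa using this
    exact orderOf_eq_one_iff.1 (Nat.dvd_one.1 h5)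
  have h7 := clS
  rw [hx, hy1] at h7
  have h8 : Subgroup.closure ({1, 1} : Set S) = ⊥ := by
    rw [Set.insert_eq_of_mem (Set.mem_singleton _), Subgroup.closure_singleton_one]
  rw [h8] at h7
  have h9 := cardS_eq
  rw [← Subgroup.card_top, ← h7, Subgroup.card_bot] at h9
  exact absurd h9 (by norm_num)

theorem sq_dvd (p : ℕ) (hp : p.Prime) (h2 : p ≠ 2) (h3 : p ≠ 3) : ¬ p ^ 2 ∣ 20160 := by
  intro h
  have hc : Nat.Coprime (p ^ 2) 576 := by
    have h1 : Nat.Coprime p 2 := (Nat.coprime_primes hp Nat.prime_two).2 h2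
    have h1' : Nat.Coprime p 3 := (Nat.coprime_primes hp Nat.prime_three).2 h3
    have : (576 : ℕ) = 2 ^ 6 * 3 ^ 2 := by norm_num
    rw [this]
    exact Nat.Coprime.mul_right (Nat.Coprime.pow 2 6 h1) (Nat.Coprime.pow 2 2 h1')
  have h3 : p ^ 2 ∣ 35 := hc.dvd_of_dvd_mul_left (by simpa using h)
  have h4 : p ^ 2 ≤ 35 := Nat.le_of_dvd (by norm_num) h3
  have h5 : p ≤ 5 := by nlinarith
  interval_cases p <;> revert h3 hp <;> decide

section
variable {Γ : Type u} {G : Type v} [Group Γ] [Group G] {σ : Γ →* G}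

/-- `N`-th powers of the kernel -/
def pwK (σ : Γ →* G) (hc : σ.ker ≤ Subgroup.center Γ) (N : ℕ) : Subgroup Γ where
  carrier := {g | ∃ k ∈ σ.ker, g = k ^ N}
  mul_mem' := by
    rintro _ _ ⟨k, hk, rfl⟩ ⟨m, hm, rfl⟩
    have h : Commute k m := (Subgroup.mem_center_iff.1 (hc hk) m).symm
    exact ⟨k * m, mul_mem hk hm, (h.mul_pow N).symm⟩
  one_mem' := ⟨1, one_mem _, by simp⟩
  inv_mem' := by
    rintro _ ⟨k, hk, rfl⟩
    exact ⟨k⁻¹, inv_mem hk, by rw [inv_pow]⟩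

theorem pwK_le (hc : σ.ker ≤ Subgroup.center Γ) (N : ℕ) : pwK σ hc N ≤ σ.ker := by
  rintro _ ⟨k, hk, rfl⟩
  exact pow_mem hk N

/-- those kernel elements whose `M`-th power is an `N`-th power -/
def rtK (σ : Γ →* G) (hc : σ.ker ≤ Subgroup.center Γ) (N M : ℕ) : Subgroup Γ where
  carrier := {g | g ∈ σ.ker ∧ g ^ M ∈ pwK σ hc N}
  mul_mem' := by
    rintro a b ⟨ha, ha'⟩ ⟨hb, hb'⟩
    have h : Commute a b := (Subgroup.mem_center_iff.1 (hc ha) b).symm
    exact ⟨mul_mem ha hb, by rw [h.mul_pow]; exact mul_mem ha' hb'⟩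
  one_mem' := ⟨one_mem _, by rw [one_pow]; exact one_mem _⟩
  inv_mem' := by
    rintro a ⟨ha, ha'⟩
    exact ⟨inv_mem ha, by rw [inv_pow]; exact inv_mem ha'⟩

/-- the kernel is contained in any central subgroup modulo which the relations hold -/
theorem ker_le' (e : S ≃* G) {x y : Γ} (hcl : Subgroup.closure {x, y} = ⊤) (hx : σ x = e xS) (hy : σ y = e yS)
    (N : Subgroup Γ) [hN : N.Normal] (h : SR (QuotientGroup.mk' N x) (QuotientGroup.mk' N y)) : σ.ker ≤ N := by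
  obtain ⟨Ψ, hΨ⟩ := lift_ok (lS_ok h)
  have hcomp : Ψ.comp (e.symm.toMonoidHom.comp σ) = QuotientGroup.mk' N := by
    apply MonoidHom.eq_of_eqOn_dense hcl
    intro z hz
    simp only [Set.mem_insert_iff, Set.mem_singleton_iff] at hz
    rcases hz with rfl | rfl
    · show Ψ (e.symm (σ z)) = _
      rw [hx, MulEquiv.symm_apply_apply]
      exact hΨ 1
    · show Ψ (e.symm (σ z)) = _
      rw [hy, MulEquiv.symm_apply_apply]
      exact hΨ 3
  intro k hk
  have h3 : QuotientGroup.mk' N k = 1 := by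
    rw [← hcomp, MonoidHom.comp_apply, MonoidHom.comp_apply, MonoidHom.mem_ker.1 hk, map_one, map_one]
  exact (QuotientGroup.eq_one_iff k).1 h3

/-- normalised lifts -/
theorem lift_ord {n q : ℕ} (hq : 1 < q) (hn : Nat.Coprime n q) (hcard : ∀ k ∈ σ.ker, k ^ n = 1) (hs : Function.Surjective σ)
    {g : G} (hg : g ^ q = 1) : ∃ x : Γ, σ x = g ∧ x ^ q = 1 := by
  obtain ⟨x', hx'⟩ := hs g
  obtain ⟨m, -, hm⟩ := Nat.exists_mul_mod_eq_one_of_coprime hn hq
  refine ⟨x' ^ (n * m), ?_, ?_⟩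
  · rw [map_pow, hx', ← Nat.mod_add_div (n * m) q, hm, pow_add, pow_mul, hg, one_pow, mul_one, pow_one]
  · have h1 : (x' ^ q) ^ n = 1 := hcard _ (by rw [MonoidHom.mem_ker, map_pow, hx', hg])
    rw [← pow_mul, mul_comm, pow_mul, pow_mul, h1, one_pow]

/-- the data of the queries in the quotient by `N`-th powers -/
theorem qs_quot {N : ℕ} (hc : σ.ker ≤ Subgroup.center Γ) {x y a b c d : Γ} (x7 : x ^ 7 = 1) (y5 : y ^ 5 = 1)
    (ha : (x * y⁻¹) ^ 2 = a) (hb : (x * (x * (y⁻¹ * y⁻¹))) ^ 3 = b) (hcc : (x * (x * y)) ^ 5 = c)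
    (hd : (x * (x * (x * (y * (x * (y * y)))))) ^ 3 = d) (ka : a ∈ σ.ker) (kb : b ∈ σ.ker) (kc : c ∈ σ.ker) (kd : d ∈ σ.ker)
    (ho : orderOf (σ x) = 7) [hN : (pwK σ hc N).Normal] :
    QS N (QuotientGroup.lift (pwK σ hc N) σ (pwK_le hc N)) (QuotientGroup.mk' (pwK σ hc N) x)
      (QuotientGroup.mk' (pwK σ hc N) y) (QuotientGroup.mk' (pwK σ hc N) a) (QuotientGroup.mk' (pwK σ hc N) b)
      (QuotientGroup.mk' (pwK σ hc N) c) (QuotientGroup.mk' (pwK σ hc N) d) := by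
  have hcen : ∀ k ∈ σ.ker, QuotientGroup.mk' (pwK σ hc N) k ∈ Subgroup.center (Γ ⧸ pwK σ hc N) := by
    intro k hk
    rw [Subgroup.mem_center_iff]
    intro r
    obtain ⟨z, rfl⟩ := QuotientGroup.mk'_surjective _ r
    rw [← map_mul, ← map_mul, Subgroup.mem_center_iff.1 (hc hk) z]
  have hpow : ∀ k ∈ σ.ker, (QuotientGroup.mk' (pwK σ hc N) k) ^ N = 1 := by
    intro k hk
    rw [← map_pow]
    exact (QuotientGroup.eq_one_iff _).2 ⟨k, hk, rfl⟩
  exact
  { x7 := by rw [← map_pow, x7, map_one]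
    y5 := by rw [← map_pow, y5, map_one]
    ha := by rw [← ha]; simp only [map_mul, map_pow, map_inv]
    hb := by rw [← hb]; simp only [map_mul, map_pow, map_inv]
    hc := by rw [← hcc]; simp only [map_mul, map_pow, map_inv]
    hd := by rw [← hd]; simp only [map_mul, map_pow, map_inv]
    ca := hcen a ka
    cb := hcen b kb
    cc := hcen c kc
    cd := hcen d kd
    ka := ka
    kb := kb
    kc := kc
    kd := kd
    aN := hpow a ka
    bN := hpow b kb
    cN := hpow c kc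
    dN := hpow d kd
    ho := ho }

/-- iteration -/
theorem iter_pow {M t : ℕ} (K : Subgroup Γ) (h : ∀ k ∈ K, ∃ m ∈ K, k ^ M = m ^ (M * t)) :
    ∀ j : ℕ, ∀ k ∈ K, ∃ m ∈ K, k ^ M = m ^ (M * t ^ j) := by
  intro j
  induction j with
  | zero => exact fun k hk => ⟨k, hk, by simp⟩
  | succ j ih =>
    intro k hk
    obtain ⟨m, hm, hkm⟩ := ih k hk
    obtain ⟨m', hm', hmm'⟩ := h m hm
    refine ⟨m', hm', ?_⟩
    rw [hkm, pow_mul, hmm', ← pow_mul]
    congr 1
    rw [pow_succ]; ring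

end

end Cfsg.Agent.H4.PlB
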